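import Mathlib
import Cfsg.Prelude.Def_GeometricClasses
import Cfsg.Agent.Lib.OmGeo
import Cfsg.Agent.Lib.OrthoFinal
import Cfsg.Agent.Lib.OrthGroup
import Cfsg.Agent.Lib.SympT

/-!
# Siegel transformations as elements of `GL(ι, F)`, all characteristics

`sE hQ he hy : x ↦ x + f(x, e) y - (f(x, y) + Q(y) f(x, e)) e`, the fact that these generate `omegaGL Q`, and
the calculus of the pairs `(e, y)` whose Siegel transformation lies in a given subgroup `M`.
-/

set_option autoImplicit false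
set_option linter.unusedSectionVars false
set_option linter.unusedVariables false

namespace Cfsg.Agent.Lib.OmCalc

open Matrix QuadraticMap Cfsg Cfsg.Geo
open Cfsg.Agent.Lib.OrthoBasic Cfsg.Agent.Lib.OrthoSiegel Cfsg.Agent.Lib.OrthoGen
  Cfsg.Agent.Lib.OrthoCount Cfsg.Agent.Lib.OrthoFinal
open Cfsg.Agent.Lib.SympT (GL_ext mulVec_mul_GL mulVec_inv_GL inv_mulVec_GL)

local notation:70 g:71 " ⋆ " x:70 => Matrix.mulVec (Units.val g) x

variable {ι : Type} [Fintype ι] [DecidableEq ι] {F : Type*} [Field F] [Fintype F]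

/-- A function with the properties of a non-degenerate quadratic form, as a quadratic form. -/
noncomputable def toQF (Q : (ι → F) → F) (hQ : IsNondegenerateQuadraticForm Q) : QuadraticForm F (ι → F) where
  toFun := Q
  toFun_smul c v := by
    rw [hQ.smul, smul_eq_mul, _root_.sq]
  exists_companion' := by
    refine ⟨LinearMap.mk₂ F (polar Q) hQ.polar_bilinear.add_left ?_ hQ.polar_bilinear.add_right ?_, ?_⟩
    · intro c x y
      rw [hQ.polar_bilinear.smul_left, smul_eq_mul]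
    · intro c x y
      rw [hQ.polar_bilinear.smul_right, smul_eq_mul]
    · intro x y
      simp only [LinearMap.mk₂_apply, polar]
      ring

theorem coe_toQF (Q : (ι → F) → F) (hQ : IsNondegenerateQuadraticForm Q) : ⇑(toQF Q hQ) = Q := rfl

theorem exists_toQF (Q : (ι → F) → F) (hQ : IsNondegenerateQuadraticForm Q) :
    ∃ Q' : QuadraticForm F (ι → F), ⇑Q' = Q := ⟨toQF Q hQ, rfl⟩

variable {Q : QuadraticForm F (ι → F)}

theorem nondeg_of (hQ : IsNondegenerateQuadraticForm ⇑Q) : Nondeg Q := by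
  intro x hx
  obtain ⟨_, ⟨y, hy⟩⟩ := hQ.nondegenerate x hx
  exact ⟨y, hy⟩

theorem nd_of (hQ : Nondeg Q) : Cfsg.Agent.Lib.QuadFF.ND Q := by
  intro x hx
  by_contra h
  obtain ⟨y, hy⟩ := hQ x h
  exact hy (hx y)

theorem genR_top (hQ : Nondeg Q) (h4 : Fintype.card ι ≠ 4) : genR Q = ⊤ := by
  have hB : (Cfsg.Agent.Lib.OrthGroup.B Q).Nondegenerate := Cfsg.Agent.Lib.QuadFF.nondegenerate_of_ND (nd_of hQ)
  have hle := Cfsg.Agent.Lib.OrthGroup.O_le_G hB (Or.inr (by simpa using h4))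
  have key : ∀ g ∈ Cfsg.Agent.Lib.OrthGroup.G Q, ∃ h : g ∈ OG Q, (⟨g, h⟩ : OG Q) ∈ genR Q := by
    intro g hg
    induction hg using Subgroup.closure_induction with
    | mem x hx =>
      obtain ⟨v, hv, rfl⟩ := hx
      have hmem : Cfsg.Agent.Lib.OrthGroup.refl Q v ∈ OG Q :=
        Cfsg.Agent.Lib.OrthGroup.G_le_O Q (Cfsg.Agent.Lib.OrthGroup.refl_mem_G Q hv)
      refine ⟨hmem, IsRefl.mem_genR (x := v) ⟨hv, fun w => ?_⟩⟩
      show Cfsg.Agent.Lib.OrthGroup.refl Q v w = _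
      rw [Cfsg.Agent.Lib.OrthGroup.refl_apply, reflLin_apply, div_eq_inv_mul]
      rfl
    | one => exact ⟨(OG Q).one_mem, (genR Q).one_mem⟩
    | mul x y _ _ hx hy =>
      obtain ⟨h1, h2⟩ := hx
      obtain ⟨h3, h4⟩ := hy
      exact ⟨(OG Q).mul_mem h1 h3, (genR Q).mul_mem h2 h4⟩
    | inv x _ hx =>
      obtain ⟨h1, h2⟩ := hx
      exact ⟨(OG Q).inv_mem h1, (genR Q).inv_mem h2⟩
  rw [eq_top_iff]
  rintro ⟨g, hg⟩ _
  exact (key g (hle hg)).2

theorem exists_frame (hQ : Nondeg Q) (h11 : 11 ≤ Fintype.card ι) : Nonempty (Frame Q) := by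
  classical
  have hd : Module.finrank F (ι → F) = Fintype.card ι := by simp
  have hND := nd_of hQ
  obtain ⟨a, b, hab, -⟩ := Cfsg.Agent.Lib.OmGeo.exists_hyp_perp hND ∅ (by simp; omega)
  obtain ⟨a', b', hab', h1⟩ := Cfsg.Agent.Lib.OmGeo.exists_hyp_perp hND {a, b} (by
    have : ({a, b} : Finset (ι → F)).card ≤ 2 := Finset.card_le_two
    omega)
  obtain ⟨u, z, huz, h2⟩ := Cfsg.Agent.Lib.OmGeo.exists_hyp_perp hND {a, b, a', b'} (by
    have : ({a, b, a', b'} : Finset (ι → F)).card ≤ 4 := Finset.card_le_four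
    omega)
  have e1 := h1 a (by simp)
  have e2 := h1 b (by simp)
  have e3 := h2 a (by simp)
  have e4 := h2 b (by simp)
  have e5 := h2 a' (by simp)
  have e6 := h2 b' (by simp)
  exact ⟨{ e₁ := a, f₁ := b, e₂ := a', f₂ := b', u₀ := u, z₀ := z,
           h₁ := ⟨hab.Qv, hab.Qw, hab.vw⟩, h₂ := ⟨hab'.Qv, hab'.Qw, hab'.vw⟩,
           e₁e₂ := e1.1, e₁f₂ := e1.2, f₁e₂ := e2.1, f₁f₂ := e2.2,
           u₀e₁ := by rw [polar_comm]; exact e3.1,
           u₀f₁ := by rw [polar_comm]; exact e4.1,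
           u₀e₂ := by rw [polar_comm]; exact e5.1,
           u₀f₂ := by rw [polar_comm]; exact e6.1,
           z₀e₁ := by rw [polar_comm]; exact e3.2,
           z₀f₁ := by rw [polar_comm]; exact e4.2,
           z₀e₂ := by rw [polar_comm]; exact e5.2,
           z₀f₂ := by rw [polar_comm]; exact e6.2,
           uz := by rw [huz.vw]; exact one_ne_zero }⟩

/-! ### The Siegel transformations in `GL` -/

/-- The Siegel transformation as an invertible matrix. -/
noncomputable def sE (hQ : Nondeg Q) {e y : ι → F} (he : Q e = 0) (hy : polar Q e y = 0) : GL ι F :=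
  glEquiv.symm ((siegel hQ he hy : OG Q) : (ι → F) ≃ₗ[F] (ι → F))

theorem sE_apply (hQ : Nondeg Q) {e y : ι → F} (he : Q e = 0) (hy : polar Q e y = 0) (x : ι → F) :
    sE hQ he hy ⋆ x = siegelLin Q e y x := by
  have h1 := glEquiv_apply (sE hQ he hy) x
  rw [sE, MulEquiv.apply_symm_apply] at h1
  rw [sE, ← h1]
  exact siegel_apply hQ he hy x

theorem sE_apply' (hQ : Nondeg Q) {e y : ι → F} (he : Q e = 0) (hy : polar Q e y = 0) (x : ι → F) :
    sE hQ he hy ⋆ x = x + polar Q x e • y - (polar Q x y + Q y * polar Q x e) • e := by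
  rw [sE_apply, siegelLin_apply]

theorem sE_iso (hQ : Nondeg Q) {e y : ι → F} (he : Q e = 0) (hy : polar Q e y = 0) (x : ι → F) :
    Q (sE hQ he hy ⋆ x) = Q x := by
  rw [sE_apply, siegelLin_Q Q he hy]

theorem isoOG_coe (g : ↥(isometryGroup F ⇑Q)) :
    ((isoOG ⇑Q Q (fun _ => rfl) g : OG Q) : (ι → F) ≃ₗ[F] (ι → F)) = glEquiv (g : GL ι F) := rfl

theorem sE_mem_omegaGL (hQ : Nondeg Q) (h11 : 11 ≤ Fintype.card ι) {e y : ι → F} (he : Q e = 0)
    (hy : polar Q e y = 0) : sE hQ he hy ∈ omegaGL ⇑Q := by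
  obtain ⟨fr⟩ := exists_frame hQ h11
  have h1 : commutator (OG Q) = siegelE Q := omega_eq_E hQ (genR_top hQ (by omega)) fr
  have h2 : siegel hQ he hy ∈ commutator (OG Q) := by
    rw [h1]
    exact siegel_mem hQ he hy
  rw [← map_commutator_equiv (isoOG ⇑Q Q (fun _ => rfl))] at h2
  obtain ⟨h₀, hh₀, h3⟩ := h2
  refine ⟨h₀, hh₀, ?_⟩
  have h4 : glEquiv (h₀ : GL ι F) = ((siegel hQ he hy : OG Q) : (ι → F) ≃ₗ[F] (ι → F)) := by
    rw [← isoOG_coe]
    exact congrArg Subtype.val h3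
  show (h₀ : GL ι F) = _
  rw [sE, ← h4, MulEquiv.symm_apply_apply]

theorem omegaGL_le (hQ : Nondeg Q) (h11 : 11 ≤ Fintype.card ι) {M : Subgroup (GL ι F)}
    (h : ∀ e y (he : Q e = 0) (hy : polar Q e y = 0), sE hQ he hy ∈ M) : omegaGL ⇑Q ≤ M := by
  obtain ⟨fr⟩ := exists_frame hQ h11
  have h1 : commutator (OG Q) = siegelE Q := omega_eq_E hQ (genR_top hQ (by omega)) fr
  rintro _ ⟨g', hg', rfl⟩
  have h2 : isoOG ⇑Q Q (fun _ => rfl) g' ∈ commutator (OG Q) := by
    rw [← map_commutator_equiv (isoOG ⇑Q Q (fun _ => rfl))]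
    exact ⟨g', hg', rfl⟩
  rw [h1] at h2
  have key : ∀ x ∈ siegelE Q, glEquiv.symm ((x : OG Q) : (ι → F) ≃ₗ[F] (ι → F)) ∈ M := by
    intro x hx
    induction hx using Subgroup.closure_induction with
    | mem x hx =>
      obtain ⟨e, y, he, hy, hs⟩ := hx
      convert h e y he hy using 1
      apply GL_ext
      intro z
      rw [sE_apply]
      have h3 := glEquiv_apply (glEquiv.symm ((x : OG Q) : (ι → F) ≃ₗ[F] (ι → F))) z
      rw [MulEquiv.apply_symm_apply] at h3
      rw [← h3, hs]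
    | one => simp [M.one_mem]
    | mul x y _ _ hx hy =>
      rw [Subgroup.coe_mul, map_mul]
      exact M.mul_mem hx hy
    | inv x _ hx =>
      rw [Subgroup.coe_inv, map_inv]
      exact M.inv_mem hx
  have h3 := key _ h2
  rw [isoOG_coe, MulEquiv.symm_apply_apply] at h3
  exact h3

/-! ### Isometries -/

section iso

theorem polar_iso {t : GL ι F} (ht : ∀ v, Q (t ⋆ v) = Q v) (x y : ι → F) :
    polar Q (t ⋆ x) (t ⋆ y) = polar Q x y := by
  rw [polar, polar, ← Matrix.mulVec_add, ht, ht, ht]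

theorem iso_inv {t : GL ι F} (ht : ∀ v, Q (t ⋆ v) = Q v) (v : ι → F) : Q (t⁻¹ ⋆ v) = Q v := by
  rw [← ht (t⁻¹ ⋆ v), mulVec_inv_GL]

theorem iso_omega {g : GL ι F} (hg : g ∈ omegaGL ⇑Q) (v : ι → F) : Q (g ⋆ v) = Q v := by
  obtain ⟨g', -, rfl⟩ := hg
  exact g'.2 v v

end iso

/-! ### The relation -/

variable (hQ : Nondeg Q) {M : Subgroup (GL ι F)}

/-- The Siegel transformation of `(e, y)` lies in `M`. -/
def R (hQ : Nondeg Q) (M : Subgroup (GL ι F)) (e y : ι → F) : Prop :=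
  ∃ (he : Q e = 0) (hy : polar Q e y = 0), sE hQ he hy ∈ M

theorem R_of_mem {e y : ι → F} (he : Q e = 0) (hy : polar Q e y = 0) {g : GL ι F} (hg : g ∈ M)
    (h : ∀ x, g ⋆ x = siegelLin Q e y x) : R hQ M e y :=
  ⟨he, hy, by
    convert hg using 1
    apply GL_ext
    intro x
    rw [sE_apply, h]⟩

variable {hQ}

theorem R.sing {e y : ι → F} (h : R hQ M e y) : Q e = 0 := h.1
theorem R.perp {e y : ι → F} (h : R hQ M e y) : polar Q e y = 0 := h.2.1

theorem R_mono {M' : Subgroup (GL ι F)} (hle : M ≤ M') {e y : ι → F} (h : R hQ M e y) : R hQ M' e y :=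
  ⟨h.1, h.2.1, hle h.2.2⟩

theorem R_add {e y y' : ι → F} (h : R hQ M e y) (h' : R hQ M e y') : R hQ M e (y + y') := by
  obtain ⟨he, hy, h1⟩ := h
  obtain ⟨_, hy', h2⟩ := h'
  refine R_of_mem hQ he (by rw [polar_add_right, hy, hy', add_zero]) (M.mul_mem h1 h2) ?_
  intro x
  rw [mulVec_mul_GL, sE_apply, sE_apply, siegelLin_comp he hy hy']

theorem R_self {e : ι → F} (he : Q e = 0) (c : F) : R hQ M e (c • e) := by
  have h0 : polar Q e (c • e) = 0 := by rw [polar_smul_r, polar_self_zero he, mul_zero]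
  refine R_of_mem hQ he h0 M.one_mem ?_
  intro x
  rw [Units.val_one, Matrix.one_mulVec, siegelLin_apply, polar_smul_r, Q_smul, he]
  module

theorem R_zero {e : ι → F} (he : Q e = 0) : R hQ M e 0 := by
  have := R_self (hQ := hQ) (M := M) he 0
  rwa [zero_smul] at this

theorem R_neg {e y : ι → F} (h : R hQ M e y) : R hQ M e (-y) := by
  obtain ⟨he, hy, h1⟩ := h
  have hy' : polar Q e (-y) = 0 := by rw [polar_neg_right, hy, neg_zero]
  refine R_of_mem hQ he hy' (M.inv_mem h1) ?_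
  intro x
  have h2 := sE_apply hQ he hy (siegelLin Q e (-y) x)
  rw [siegelLin_comp he hy hy', add_neg_cancel, siegelLin_zero] at h2
  conv_lhs => rw [← h2]
  rw [inv_mulVec_GL]

theorem R_sub {e y y' : ι → F} (h : R hQ M e y) (h' : R hQ M e y') : R hQ M e (y - y') := by
  rw [sub_eq_add_neg]
  exact R_add h (R_neg h')

theorem R_add_smul {e y : ι → F} (h : R hQ M e y) (c : F) : R hQ M e (y + c • e) :=
  R_add h (R_self h.1 c)

theorem R_smul_left {e y : ι → F} (c : F) (h : R hQ M e (c • y)) : R hQ M (c • e) y := by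
  obtain ⟨he, hy, h1⟩ := h
  have he' : Q (c • e) = 0 := by rw [Q_smul, he, mul_zero]
  have hy' : polar Q (c • e) y = 0 := by rw [polar_smul_l, ← polar_smul_r, hy]
  refine R_of_mem hQ he' hy' h1 ?_
  intro x
  rw [sE_apply, siegelLin_smul_left]

theorem R_smul_right {e y : ι → F} (he : Q e = 0) (c : F) (h : R hQ M (c • e) y) : R hQ M e (c • y) := by
  obtain ⟨_, hy, h1⟩ := h
  have hy' : polar Q e (c • y) = 0 := by rw [polar_smul_r, ← polar_smul_l, hy]
  refine R_of_mem hQ he hy' h1 ?_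
  intro x
  rw [sE_apply, siegelLin_smul_left]

theorem R_swap {e y : ι → F} (h : R hQ M e y) (hy : Q y = 0) : R hQ M y (-e) := by
  obtain ⟨he, hey, h1⟩ := h
  have h2 : polar Q y (-e) = 0 := by rw [polar_neg_right, polar_comm, hey, neg_zero]
  refine R_of_mem hQ hy h2 h1 ?_
  intro x
  rw [sE_apply, siegelLin_apply, siegelLin_apply, polar_neg_right, QuadraticMap.map_neg, he, hy]
  module

theorem R_swap' {e y : ι → F} (h : R hQ M e y) (hy : Q y = 0) : R hQ M y e := by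
  have := R_neg (R_swap h hy)
  rwa [neg_neg] at this

theorem R_conj {t : GL ι F} (ht : ∀ v, Q (t ⋆ v) = Q v) (htM : t ∈ M) {e y : ι → F} (h : R hQ M e y) :
    R hQ M (t ⋆ e) (t ⋆ y) := by
  obtain ⟨he, hey, h1⟩ := h
  have he' : Q (t ⋆ e) = 0 := by rw [ht, he]
  have hy' : polar Q (t ⋆ e) (t ⋆ y) = 0 := by rw [polar_iso ht, hey]
  refine R_of_mem hQ he' hy' (M.mul_mem (M.mul_mem htM h1) (M.inv_mem htM)) ?_
  intro x
  rw [mulVec_mul_GL, mulVec_mul_GL, sE_apply, siegelLin_apply, siegelLin_apply, Matrix.mulVec_sub,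
    Matrix.mulVec_add, Matrix.mulVec_smul, Matrix.mulVec_smul, mulVec_inv_GL, ht]
  have h3 : ∀ w, polar Q x (t ⋆ w) = polar Q (t⁻¹ ⋆ x) w := by
    intro w
    rw [← polar_iso ht (t⁻¹ ⋆ x) w, mulVec_inv_GL]
  rw [h3, h3]

/-- The commutator rule. -/
theorem R_comm {x y a b : ι → F} (hxy : R hQ M x y) (hab : R hQ M a b) (hb : Q b = 0)
    (hax : polar Q a x = 0) (hbx : polar Q b x = 0) (hby : polar Q b y = 0) :
    R hQ M b (polar Q a y • x) := by
  obtain ⟨hx, hxy', h1⟩ := id hxy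
  have h2 := R_conj (sE_iso hQ hx hxy') h1 hab
  have h3 : sE hQ hx hxy' ⋆ a = a - polar Q a y • x := by
    rw [sE_apply', hax]
    simp only [zero_smul, add_zero, mul_zero, sub_eq_add_neg]
  have h4 : sE hQ hx hxy' ⋆ b = b := by
    rw [sE_apply', hbx, hby]
    simp
  rw [h3, h4] at h2
  have h5 := R_swap h2 hb
  have h6 := R_swap hab hb
  have h7 := R_sub h5 h6
  have h8 : -(a - polar Q a y • x) - -a = polar Q a y • x := by abel
  rwa [h8] at h7

/-! ### The set of good centres -/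

/-- All Siegel transformations with centre `e` lie in `M`. -/
def T (hQ : Nondeg Q) (M : Subgroup (GL ι F)) (e : ι → F) : Prop :=
  Q e = 0 ∧ ∀ y, polar Q e y = 0 → R hQ M e y

theorem T_smul {e : ι → F} (h : T hQ M e) (c : F) : T hQ M (c • e) := by
  refine ⟨by rw [Q_smul, h.1, mul_zero], fun y hy => ?_⟩
  refine R_smul_left c (h.2 _ ?_)
  rw [polar_smul_r, ← polar_smul_l, hy]

theorem T_conj {t : GL ι F} (ht : ∀ v, Q (t ⋆ v) = Q v) (htM : t ∈ M) {e : ι → F} (h : T hQ M e) :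
    T hQ M (t ⋆ e) := by
  refine ⟨by rw [ht, h.1], fun y hy => ?_⟩
  have h1 : polar Q e (t⁻¹ ⋆ y) = 0 := by
    rw [← polar_iso ht e, mulVec_inv_GL, hy]
  have h2 := R_conj ht htM (h.2 _ h1)
  rwa [mulVec_inv_GL] at h2

/-- The link step. -/
theorem T_link {e e' z : ι → F} (he : T hQ M e) (he' : T hQ M e') (h : polar Q e' e ≠ 0) (hz : Q z = 0)
    (hze : polar Q z e ≠ 0) : T hQ M z := by
  set c : F := polar Q z e / polar Q e' e with hc
  have h1 : T hQ M (c • e') := T_smul he' c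
  have h2 : polar Q (c • e') e = polar Q z e := by
    rw [polar_smul_l, hc]
    field_simp
  have h3 : Q (c • e') = Q z := by rw [h1.1, hz]
  have h4 := siegelLin_link he.1 h3 h2 (by rw [h2]; exact hze)
  have h5 := polar_link (Q := Q) (x := c • e') (x' := z) he.1 h2
  obtain ⟨he1, hy1, h6⟩ := he.2 _ h5
  have h7 := T_conj (sE_iso hQ he1 hy1) h6 h1
  rwa [sE_apply, h4] at h7

/-- From two opposite good centres, all singular vectors are good centres. -/
theorem T_opp (h7 : 7 ≤ Fintype.card ι) {e e' : ι → F} (he : T hQ M e) (he' : T hQ M e') (h : polar Q e' e ≠ 0)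
    {z : ι → F} (hz : Q z = 0) : T hQ M z := by
  by_cases hze : polar Q z e = 0
  · by_cases hz0 : z = 0
    · have := T_smul he 0
      rw [zero_smul] at this
      rw [hz0]
      exact this
    have he0 : e ≠ 0 := by
      rintro rfl
      exact h (polar_zero_right _ _)
    obtain ⟨w, hw, h1, h2⟩ := Cfsg.Agent.Lib.OmGeo.exists_sing_opp2 (nd_of hQ) (by simpa using h7) he0 hz0
    have h1' : polar Q w e ≠ 0 := by rwa [polar_comm]
    have hw' : T hQ M w := T_link he he' h hw h1'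
    exact T_link hw' he h1 hz h2
  · exact T_link he he' h hz hze

theorem omega_le_of_T (h11 : 11 ≤ Fintype.card ι) (h : ∀ z, Q z = 0 → T hQ M z) : omegaGL ⇑Q ≤ M :=
  omegaGL_le hQ h11 (fun e y he hy => by
    obtain ⟨_, _, h1⟩ := (h e he).2 y hy
    exact h1)

theorem omega_le_of_opp (h11 : 11 ≤ Fintype.card ι) {e e' : ι → F} (he : T hQ M e) (he' : T hQ M e')
    (h : polar Q e' e ≠ 0) : omegaGL ⇑Q ≤ M :=
  omega_le_of_T h11 (fun _ hz => T_opp (by omega) he he' h hz)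

/-- Good centres from pairs of singular vectors. -/
theorem T_of_pairs (h7 : 7 ≤ Fintype.card ι) {e : ι → F} (he : Q e = 0)
    (h : ∀ y, Q y = 0 → polar Q e y = 0 → R hQ M e y) : T hQ M e := by
  refine ⟨he, fun y hy => ?_⟩
  obtain ⟨y₁, y₂, h1, h2, h3, h4, rfl⟩ := Cfsg.Agent.Lib.OmGeo.exists_split (nd_of hQ) (by simpa using h7) hy he
  exact R_add (h y₁ h1 h3) (h y₂ h2 h4)

end Cfsg.Agent.Lib.OmCalc
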