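import Mathlib

/-!
Partitions of a finite set with an involution into blocks of equal size permuted by the involution,
and the resulting decompositions of a vector space with a family of subspaces permuted by an
operator.
-/

set_option autoImplicit false

namespace Cfsg.Agent.Lib.BlockPerm

open Finset

variable {ι : Type*} [DecidableEq ι]

/-- `π` is an involution. -/
theorem image_image_of_invol {π : ι → ι} (hπ : ∀ i, π (π i) = i) (S : Finset ι) :
    (S.image π).image π = S := by
  ext i
  simp only [mem_image, exists_exists_and_eq_and]
  constructor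
  · rintro ⟨j, hj, rfl⟩
    rwa [hπ]
  · intro hi
    exact ⟨i, hi, hπ i⟩

theorem card_image_of_invol {π : ι → ι} (hπ : ∀ i, π (π i) = i) (S : Finset ι) :
    (S.image π).card = S.card :=
  card_image_of_injective _ (fun a b h => by
    have := congrArg π h
    rwa [hπ, hπ] at this)

/-- An invariant set of size at least two contains an invariant subset of size two. -/
theorem exists_invariant_two {π : ι → ι} (hπ : ∀ i, π (π i) = i) (S : Finset ι)
    (hS : S.image π = S) (h2 : 2 ≤ S.card) :
    ∃ C ⊆ S, C.image π = C ∧ C.card = 2 := by
  have hmem : ∀ i ∈ S, π i ∈ S := fun i hi => by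
    rw [← hS]
    exact mem_image_of_mem _ hi
  obtain ⟨i, hi, j, hj, hij⟩ := one_lt_card.1 (by omega : 1 < S.card)
  by_cases hi' : π i = i
  · by_cases hj' : π j = j
    · refine ⟨{i, j}, ?_, ?_, card_pair hij⟩
      · simp [insert_subset_iff, hi, hj]
      · ext k
        simp only [mem_image, mem_insert, mem_singleton]
        constructor
        · rintro ⟨l, rfl | rfl, rfl⟩
          · exact Or.inl hi'
          · exact Or.inr hj'
        · rintro (rfl | rfl)
          · exact ⟨_, Or.inl rfl, hi'⟩
          · exact ⟨_, Or.inr rfl, hj'⟩
    · refine ⟨{j, π j}, ?_, ?_, card_pair (Ne.symm hj')⟩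
      · simp [insert_subset_iff, hj, hmem j hj]
      · ext k
        simp only [mem_image, mem_insert, mem_singleton]
        constructor
        · rintro ⟨l, rfl | rfl, rfl⟩
          · exact Or.inr rfl
          · exact Or.inl (hπ j)
        · rintro (rfl | rfl)
          · exact ⟨π k, Or.inr rfl, hπ k⟩
          · exact ⟨j, Or.inl rfl, rfl⟩
  · refine ⟨{i, π i}, ?_, ?_, card_pair (Ne.symm hi')⟩
    · simp [insert_subset_iff, hi, hmem i hi]
    · ext k
      simp only [mem_image, mem_insert, mem_singleton]
      constructor
      · rintro ⟨l, rfl | rfl, rfl⟩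
        · exact Or.inr rfl
        · exact Or.inl (hπ i)
      · rintro (rfl | rfl)
        · exact ⟨π k, Or.inr rfl, hπ k⟩
        · exact ⟨i, Or.inl rfl, rfl⟩

/-- Invariant subsets of a given size: induction in steps of two. -/
theorem exists_invariant_subset {π : ι → ι} (hπ : ∀ i, π (π i) = i) (S : Finset ι)
    (hS : S.image π = S) (a : ℕ) (ha : a ≤ S.card) (hpar : Even a ∨ ∃ i ∈ S, π i = i) :
    ∃ B ⊆ S, B.image π = B ∧ B.card = a := by
  induction a using Nat.strong_induction_on with
  | _ a ih =>
  rcases a with _ | _ | a
  · exact ⟨∅, by simp, by simp, by simp⟩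
  · rcases hpar with h | ⟨i, hi, hi'⟩
    · exact absurd h (by decide)
    · refine ⟨{i}, by simpa using hi, by simp [hi'], by simp⟩
  · have hpar' : Even a ∨ ∃ i ∈ S, π i = i := by
      rcases hpar with h | h
      · left
        obtain ⟨r, hr⟩ := h
        exact ⟨r - 1, by omega⟩
      · exact Or.inr h
    obtain ⟨B, hBS, hB, hBc⟩ := ih a (by omega) (by omega) hpar'
    have hsd : (S \ B).image π = S \ B := by
      ext k
      simp only [mem_image, mem_sdiff]
      constructor
      · rintro ⟨l, ⟨hl1, hl2⟩, rfl⟩
        refine ⟨by rw [← hS]; exact mem_image_of_mem _ hl1, fun h => hl2 ?_⟩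
        rw [← hB] at h
        obtain ⟨m, hm, hm'⟩ := mem_image.1 h
        have := congrArg π hm'
        rw [hπ, hπ] at this
        rwa [← this]
      · rintro ⟨h1, h2⟩
        refine ⟨π k, ⟨by rw [← hS]; exact mem_image_of_mem _ h1, fun h => h2 ?_⟩, hπ k⟩
        rw [← hB]
        exact mem_image.2 ⟨π k, h, hπ k⟩
    have hc : 2 ≤ (S \ B).card := by
      rw [card_sdiff_of_subset hBS]
      omega
    obtain ⟨C, hCS, hC, hCc⟩ := exists_invariant_two hπ _ hsd hc
    refine ⟨B ∪ C, union_subset hBS (hCS.trans sdiff_subset), ?_, ?_⟩
    · rw [image_union, hB, hC]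
    · rw [card_union_of_disjoint, hBc, hCc]
      exact disjoint_of_subset_right hCS disjoint_sdiff

/-- Subsets disjoint from their image, when there is no fixed point. -/
theorem exists_swapped_subset {π : ι → ι} (hπ : ∀ i, π (π i) = i) (S : Finset ι)
    (hS : S.image π = S) (hfix : ∀ i ∈ S, π i ≠ i) (a : ℕ) (ha : 2 * a ≤ S.card) :
    ∃ B ⊆ S, Disjoint B (B.image π) ∧ B.card = a := by
  induction a with
  | zero => exact ⟨∅, by simp, by simp, by simp⟩
  | succ a ih =>
    obtain ⟨B, hBS, hB, hBc⟩ := ih (by omega)
    have hc : (B ∪ B.image π).card < S.card := by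
      calc (B ∪ B.image π).card ≤ B.card + (B.image π).card := card_union_le _ _
        _ = 2 * a := by rw [card_image_of_invol hπ, hBc]; ring
        _ < S.card := by omega
    obtain ⟨i, hi, hi'⟩ := exists_mem_notMem_of_card_lt_card hc
    simp only [mem_union, not_or] at hi'
    obtain ⟨hi1, hi2⟩ := hi'
    refine ⟨insert i B, insert_subset hi hBS, ?_, ?_⟩
    · rw [image_insert, disjoint_insert_left, disjoint_insert_right]
      refine ⟨?_, ?_⟩
      · simp only [mem_insert, not_or]
        exact ⟨Ne.symm (hfix i hi), hi2⟩
      · refine ⟨?_, hB⟩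
        intro h
        apply hi2
        exact mem_image.2 ⟨π i, h, hπ i⟩
    · rw [card_insert_of_notMem hi1, hBc]

/-- The combinatorial heart: a partition into blocks of size `a` permuted by the involution. -/
theorem exists_partition {π : ι → ι} (hπ : ∀ i, π (π i) = i) (a : ℕ) (ha : 1 ≤ a) (t : ℕ) :
    ∀ S : Finset ι, S.image π = S → S.card = a * t →
    ∃ P : Finset (Finset ι), (∀ B ∈ P, B ⊆ S ∧ B.card = a) ∧
      (∀ B ∈ P, ∀ C ∈ P, B ≠ C → Disjoint B C) ∧ P.biUnion id = S ∧
      (∀ B ∈ P, B.image π ∈ P) := by
  induction t using Nat.strong_induction_on with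
  | _ t ih =>
  intro S hS hc
  rcases t with _ | t
  · refine ⟨∅, by simp, by simp, ?_, by simp⟩
    simp only [mul_zero, card_eq_zero] at hc
    simp [hc]
  have hdiff : ∀ B ⊆ S, B.image π = B → (S \ B).image π = S \ B := by
    intro B hBS hB
    ext k
    simp only [mem_image, mem_sdiff]
    constructor
    · rintro ⟨l, ⟨hl1, hl2⟩, rfl⟩
      refine ⟨by rw [← hS]; exact mem_image_of_mem _ hl1, fun h => hl2 ?_⟩
      rw [← hB] at h
      obtain ⟨m, hm, hm'⟩ := mem_image.1 h
      have := congrArg π hm'
      rw [hπ, hπ] at this
      rwa [← this]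
    · rintro ⟨h1, h2⟩
      refine ⟨π k, ⟨by rw [← hS]; exact mem_image_of_mem _ h1, fun h => h2 ?_⟩, hπ k⟩
      rw [← hB]
      exact mem_image.2 ⟨π k, h, hπ k⟩
  by_cases hcase : Even a ∨ ∃ i ∈ S, π i = i
  · -- remove an invariant block
    obtain ⟨B, hBS, hB, hBc⟩ := exists_invariant_subset hπ S hS a
      (by rw [hc]; exact Nat.le_mul_of_pos_right _ (by omega)) hcase
    have hc' : (S \ B).card = a * t := by
      rw [card_sdiff_of_subset hBS, hc, hBc]
      have : a * (t + 1) = a * t + a := by ring
      omega
    obtain ⟨P, hP1, hP2, hP3, hP4⟩ := ih t (by omega) (S \ B) (hdiff B hBS hB) hc'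
    have hBP : B ∉ P := by
      intro h
      have h1 := (hP1 B h).1
      have h2 : B ⊆ B ∩ (S \ B) := subset_inter (Subset.refl _) h1
      have h3 : B ∩ (S \ B) = ∅ := by
        ext x
        simp only [mem_inter, mem_sdiff, notMem_empty, iff_false]
        tauto
      rw [h3] at h2
      have h4 := card_le_card h2
      simp only [card_empty, nonpos_iff_eq_zero, card_eq_zero] at h4
      rw [h4, card_empty] at hBc
      omega
    refine ⟨insert B P, ?_, ?_, ?_, ?_⟩
    · intro C hC
      rcases mem_insert.1 hC with rfl | hC
      · exact ⟨hBS, hBc⟩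
      · exact ⟨(hP1 C hC).1.trans sdiff_subset, (hP1 C hC).2⟩
    · intro C hC E hE hne
      rcases mem_insert.1 hC with hC' | hC'
      · rcases mem_insert.1 hE with hE' | hE'
        · exact absurd (hC'.trans hE'.symm) hne
        · rw [hC']
          exact disjoint_of_subset_right (hP1 E hE').1 disjoint_sdiff
      · rcases mem_insert.1 hE with hE' | hE'
        · rw [hE']
          exact (disjoint_of_subset_right (hP1 C hC').1 disjoint_sdiff).symm
        · exact hP2 C hC' E hE' hne
    · rw [biUnion_insert, hP3]
      simp only [id]
      exact union_sdiff_of_subset hBS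
    · intro C hC
      rcases mem_insert.1 hC with rfl | hC
      · rw [hB]
        exact mem_insert_self _ _
      · exact mem_insert_of_mem (hP4 C hC)
  · -- all orbits have size two and `a` is odd
    push Not at hcase
    obtain ⟨hodd, hfix⟩ := hcase
    have hS2 : Even S.card := by
      -- the set is a union of orbits of size two
      have key : ∀ m : ℕ, ∀ T : Finset ι, T ⊆ S → T.image π = T → T.card = m → Even m := by
        intro m
        induction m using Nat.strong_induction_on with
        | _ m ihm =>
        intro T hT hTi hTc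
        rcases Nat.lt_or_ge m 2 with hlt | hge
        · rcases m with _ | m
          · exact Even.zero
          · exfalso
            have : m = 0 := by omega
            subst this
            obtain ⟨i, rfl⟩ := card_eq_one.1 hTc
            have h1 : π i ∈ ({i} : Finset ι) := by
              rw [← hTi]
              exact mem_image_of_mem _ (mem_singleton_self i)
            exact hfix i (hT (mem_singleton_self i)) (mem_singleton.1 h1)
        · obtain ⟨C, hCS, hC, hCc⟩ := exists_invariant_two hπ T hTi (by omega)
          have hsd : (T \ C).image π = T \ C := by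
            ext k
            simp only [mem_image, mem_sdiff]
            constructor
            · rintro ⟨l, ⟨hl1, hl2⟩, rfl⟩
              refine ⟨by rw [← hTi]; exact mem_image_of_mem _ hl1, fun h => hl2 ?_⟩
              rw [← hC] at h
              obtain ⟨m, hm, hm'⟩ := mem_image.1 h
              have := congrArg π hm'
              rw [hπ, hπ] at this
              rwa [← this]
            · rintro ⟨h1, h2⟩
              refine ⟨π k, ⟨by rw [← hTi]; exact mem_image_of_mem _ h1, fun h => h2 ?_⟩, hπ k⟩
              rw [← hC]
              exact mem_image.2 ⟨π k, h, hπ k⟩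
          have hcard : (T \ C).card = m - 2 := by
            rw [card_sdiff_of_subset hCS, hTc, hCc]
          have := ihm (m - 2) (by omega) (T \ C) (sdiff_subset.trans hT) hsd hcard
          have h5 : m = (m - 2) + 2 := by omega
          rw [h5]
          exact this.add even_two
      exact key _ S (Subset.refl _) hS rfl
    -- hence `t + 1` is even
    have htodd : Even (t + 1) := by
      rw [hc] at hS2
      rcases Nat.even_mul.1 hS2 with h | h
      · exact absurd h hodd
      · exact h
    obtain ⟨t', ht'⟩ : ∃ t', t = t' + 1 := by
      rcases t with _ | t'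
      · exact absurd htodd (by decide)
      · exact ⟨t', rfl⟩
    subst ht'
    obtain ⟨B, hBS, hBd, hBc⟩ := exists_swapped_subset hπ S hS hfix a (by
      rw [hc]
      calc 2 * a = a * 2 := by ring
        _ ≤ a * (t' + 1 + 1) := Nat.mul_le_mul_left _ (by omega))
    have hUi : (B ∪ B.image π).image π = B ∪ B.image π := by
      rw [image_union, image_image_of_invol hπ, union_comm]
    have hUS : B ∪ B.image π ⊆ S := by
      refine union_subset hBS ?_
      rw [← hS]
      exact image_subset_image hBS
    have hUc : (B ∪ B.image π).card = a + a := by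
      rw [card_union_of_disjoint hBd, card_image_of_invol hπ, hBc]
    have hc' : (S \ (B ∪ B.image π)).card = a * t' := by
      rw [card_sdiff_of_subset hUS, hc, hUc]
      have : a * (t' + 1 + 1) = a * t' + (a + a) := by ring
      omega
    obtain ⟨P, hP1, hP2, hP3, hP4⟩ := ih t' (by omega) (S \ (B ∪ B.image π)) (hdiff _ hUS hUi) hc'
    have hdisjP : ∀ C ∈ P, Disjoint B C ∧ Disjoint (B.image π) C := by
      intro C hC
      have h1 := (hP1 C hC).1
      constructor
      · refine disjoint_of_subset_left subset_union_left (disjoint_of_subset_right h1 disjoint_sdiff)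
      · refine disjoint_of_subset_left subset_union_right (disjoint_of_subset_right h1 disjoint_sdiff)
    have hne_of_disj : ∀ C D : Finset ι, C.card = a → Disjoint C D → C ≠ D := by
      rintro C D hC h rfl
      have := disjoint_self_iff_empty C |>.1 h
      rw [this] at hC
      simp at hC
      omega
    have hBne : B ≠ B.image π := hne_of_disj _ _ hBc hBd
    have hBP : B ∉ P := fun h => hne_of_disj B B hBc (hdisjP B h).1 rfl
    have hBP' : B.image π ∉ P := fun h => hne_of_disj (B.image π) (B.image π)
      (by rw [card_image_of_invol hπ, hBc]) (hdisjP _ h).2 rfl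
    refine ⟨insert B (insert (B.image π) P), ?_, ?_, ?_, ?_⟩
    · intro C hC
      rcases mem_insert.1 hC with rfl | hC
      · exact ⟨hBS, hBc⟩
      rcases mem_insert.1 hC with rfl | hC
      · exact ⟨subset_union_right.trans hUS, by rw [card_image_of_invol hπ, hBc]⟩
      · exact ⟨(hP1 C hC).1.trans sdiff_subset, (hP1 C hC).2⟩
    · have hsymm : ∀ C ∈ insert (B.image π) P, Disjoint B C := by
        intro C hC
        rcases mem_insert.1 hC with rfl | hC
        · exact hBd
        · exact (hdisjP C hC).1
      have hsymm' : ∀ C ∈ P, Disjoint (B.image π) C := fun C hC => (hdisjP C hC).2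
      intro C hC E hE hne
      rcases mem_insert.1 hC with hC' | hC'
      · rcases mem_insert.1 hE with hE' | hE'
        · exact absurd (hC'.trans hE'.symm) hne
        · rw [hC']
          exact hsymm E hE'
      · rcases mem_insert.1 hE with hE' | hE'
        · rw [hE']
          exact (hsymm C hC').symm
        · rcases mem_insert.1 hC' with hC'' | hC''
          · rcases mem_insert.1 hE' with hE'' | hE''
            · exact absurd (hC''.trans hE''.symm) hne
            · rw [hC'']
              exact hsymm' E hE''
          · rcases mem_insert.1 hE' with hE'' | hE''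
            · rw [hE'']
              exact (hsymm' C hC'').symm
            · exact hP2 C hC'' E hE'' hne
    · rw [biUnion_insert, biUnion_insert, hP3]
      simp only [id]
      rw [← union_assoc]
      exact union_sdiff_of_subset hUS
    · intro C hC
      rcases mem_insert.1 hC with rfl | hC
      · exact mem_insert_of_mem (mem_insert_self _ _)
      rcases mem_insert.1 hC with rfl | hC
      · rw [image_image_of_invol hπ]
        exact mem_insert_self _ _
      · exact mem_insert_of_mem (mem_insert_of_mem (hP4 C hC))

/-- The labelling form of the partition. -/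
theorem exists_labelling [Fintype ι] {π : ι → ι} (hπ : ∀ i, π (π i) = i) (a : ℕ) (ha : 1 ≤ a)
    (t : ℕ) (hcard : Fintype.card ι = a * t) :
    ∃ (f : ι → Fin t) (σ : Equiv.Perm (Fin t)),
      (∀ j, (univ.filter (fun i => f i = j)).card = a) ∧ ∀ i, f (π i) = σ (f i) := by
  obtain ⟨P, hP1, hP2, hP3, hP4⟩ := exists_partition hπ a ha t univ (by
    ext i
    simp only [mem_image, mem_univ, true_and, iff_true]
    exact ⟨π i, hπ i⟩) (by rw [card_univ, hcard])
  -- the number of blocks
  have hPc : P.card = t := by
    have h1 : (P.biUnion id).card = ∑ B ∈ P, (id B).card :=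
      card_biUnion (fun B hB C hC hne => hP2 B hB C hC hne)
    have h2 : ∑ B ∈ P, (id B).card = P.card * a :=
      sum_const_nat (fun B hB => (hP1 B hB).2)
    rw [hP3, card_univ, hcard, h2] at h1
    have h3 : a * P.card = a * t := by
      rw [h1]
      ring
    exact Nat.eq_of_mul_eq_mul_left (by omega) h3
  let e : P ≃ Fin t := (P.equivFin).trans (finCongr hPc)
  have hex : ∀ i : ι, ∃ B : P, i ∈ (B : Finset ι) := by
    intro i
    have : i ∈ P.biUnion id := by rw [hP3]; exact mem_univ i
    obtain ⟨B, hB, hiB⟩ := mem_biUnion.1 this
    exact ⟨⟨B, hB⟩, hiB⟩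
  have huniq : ∀ (i : ι) (B C : P), i ∈ (B : Finset ι) → i ∈ (C : Finset ι) → B = C := by
    intro i B C hB hC
    by_contra hne
    have := hP2 B B.2 C C.2 (fun h => hne (Subtype.ext h))
    exact (disjoint_left.1 this hB) hC
  choose block hblock using hex
  have hblock_eq : ∀ (i : ι) (B : P), i ∈ (B : Finset ι) → block i = B :=
    fun i B hB => huniq i _ _ (hblock i) hB
  let τ : P → P := fun B => ⟨(B : Finset ι).image π, hP4 B B.2⟩
  have hτ : Function.Involutive τ := by
    intro B
    apply Subtype.ext
    exact image_image_of_invol hπ _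
  let σ : Equiv.Perm (Fin t) := e.symm.trans (hτ.toPerm.trans e)
  refine ⟨fun i => e (block i), σ, ?_, ?_⟩
  · intro j
    have h1 : univ.filter (fun i => e (block i) = j) = ((e.symm j : P) : Finset ι) := by
      ext i
      simp only [mem_filter, mem_univ, true_and]
      constructor
      · intro h
        have : block i = e.symm j := by
          rw [← h]
          simp
        rw [← this]
        exact hblock i
      · intro h
        rw [hblock_eq i _ h]
        simp
    rw [h1]
    exact (hP1 _ (e.symm j).2).2
  · intro i
    have h1 : block (π i) = τ (block i) :=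
      hblock_eq _ _ (mem_image_of_mem _ (hblock i))
    simp only [σ, Equiv.trans_apply, Equiv.symm_apply_apply, Function.Involutive.coe_toPerm]
    rw [h1]

section linear

variable {F V : Type*} [Field F] [AddCommGroup V] [Module F V] [FiniteDimensional F V]

theorem finrank_finset_sup (L : ι → Submodule F V) (hL : iSupIndep L) (s : Finset ι) :
    Module.finrank F (s.sup L : Submodule F V) = ∑ i ∈ s, Module.finrank F (L i) := by
  induction s using Finset.induction_on with
  | empty => simp
  | insert i s hi ih =>
    rw [sup_insert, sum_insert hi, ← ih]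
    have hd : Disjoint (L i) (s.sup L) := by
      have h1 := (hL.supIndep' (insert i s))
      have := Finset.SupIndep.disjoint_sup_sup h1 (u := {i}) (v := s) (by simp)
        (subset_insert i s) (by simpa using hi)
      simpa using this
    have := Submodule.finrank_sup_add_finrank_inf_eq (L i) (s.sup L)
    rw [disjoint_iff.1 hd, finrank_bot, add_zero] at this
    exact this

/-- Blocks of a family of independent subspaces permuted by an operator. -/
theorem exists_decomp [Fintype ι] (L : ι → Submodule F V) (hL : iSupIndep L)
    (hT : ⨆ i, L i = ⊤) (e : ℕ) (hLe : ∀ i, Module.finrank F (L i) = e)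
    (x : V →ₗ[F] V) {π : ι → ι} (hπ : ∀ i, π (π i) = i) (hx : ∀ i, (L i).map x = L (π i))
    (a : ℕ) (ha : 1 ≤ a) (t : ℕ) (hcard : Fintype.card ι = a * t) :
    ∃ (f : ι → Fin t) (σ : Equiv.Perm (Fin t)) (D : Fin t → Submodule F V),
      (∀ j, D j = (univ.filter (fun i => f i = j)).sup L) ∧
      (∀ j, Module.finrank F (D j) = a * e) ∧ iSupIndep D ∧ iSup D = ⊤ ∧
      (∀ j, (D j).map x = D (σ j)) := by
  obtain ⟨f, σ, hf1, hf2⟩ := exists_labelling hπ a ha t hcard
  refine ⟨f, σ, fun j => (univ.filter (fun i => f i = j)).sup L, fun _ => rfl, ?_, ?_, ?_, ?_⟩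
  · intro j
    rw [finrank_finset_sup L hL, sum_congr rfl (fun i _ => hLe i), sum_const, hf1, smul_eq_mul]
  · rw [iSupIndep_def]
    intro j
    have h1 := Finset.SupIndep.disjoint_sup_sup (hL.supIndep' univ)
      (u := univ.filter (fun i => f i = j)) (v := univ.filter (fun i => f i ≠ j))
      (subset_univ _) (subset_univ _) (by
        rw [disjoint_left]
        intro i hi hi'
        simp only [mem_filter, mem_univ, true_and] at hi hi'
        exact hi' hi)
    refine h1.mono_right ?_
    refine iSup₂_le fun j' hj' => ?_
    refine Finset.sup_le fun i hi => ?_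
    simp only [mem_filter, mem_univ, true_and] at hi
    refine Finset.le_sup (f := L) ?_
    simp only [mem_filter, mem_univ, true_and]
    rw [hi]
    exact hj'
  · rw [eq_top_iff, ← hT]
    refine iSup_le fun i => ?_
    refine le_trans ?_ (le_iSup _ (f i))
    refine Finset.le_sup (f := L) ?_
    simp
  · intro j
    have h1 : ∀ s : Finset ι, (s.sup L).map x = (s.image π).sup L := by
      intro s
      induction s using Finset.induction_on with
      | empty => simp
      | insert i s hi ih =>
        rw [sup_insert, Submodule.map_sup, ih, image_insert, sup_insert, hx]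
    rw [h1]
    congr 1
    ext i
    simp only [mem_image, mem_filter, mem_univ, true_and]
    constructor
    · rintro ⟨i', hi', rfl⟩
      rw [hf2, hi']
    · intro h
      refine ⟨π i, ?_, hπ i⟩
      have := hf2 (π i)
      rw [hπ, h] at this
      exact (σ.injective this).symm

end linear

end Cfsg.Agent.Lib.BlockPerm
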