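import Mathlib
import Cfsg.Prelude.Def_GeometricClasses
import Cfsg.Agent.Lib.OmCalc
import Cfsg.Agent.Lib.OrthForm

/-!
# Decompositions whose members carry a frame: the stabiliser in `Ω` is not maximal

If the vectors of a given value `ε` in the members of an orthogonal decomposition form (up to sign) an orthogonal
frame in which `a, b, c` lie, then the group of the elements of `Ω` preserving the set of these vectors is properly
between the stabiliser of the decomposition in `Ω` and `Ω`.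
-/

set_option autoImplicit false
set_option linter.unusedSectionVars false
set_option linter.unusedVariables false

namespace Cfsg.Agent.Lib.OmFrame

open Matrix QuadraticMap Cfsg Cfsg.Geo Module Cfsg.Agent.Lib.OrthoBasic Cfsg.Agent.Lib.OmCalc
  Cfsg.Agent.Lib.QuadFF Cfsg.Agent.Lib.OmGeo Cfsg.Agent.Lib.TvGL
open Cfsg.Agent.Lib.SympT (GL_ext mulVec_mul_GL mulVec_inv_GL inv_mulVec_GL)
open scoped commutatorElement

local notation:70 g:71 " ⋆ " x:70 => Matrix.mulVec (Units.val g) x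

variable {ι : Type} [Fintype ι] [DecidableEq ι] {F : Type*} [Field F] [Fintype F]
  {Q : QuadraticForm F (ι → F)}

/-- Commutators of isometries lie in `Ω`. -/
theorem comm_mem {g h : GL ι F} (hg : g ∈ isometryGroup F ⇑Q) (hh : h ∈ isometryGroup F ⇑Q) :
    g * h * g⁻¹ * h⁻¹ ∈ omegaGL ⇑Q := by
  refine ⟨⁅(⟨g, hg⟩ : isometryGroup F ⇑Q), (⟨h, hh⟩ : isometryGroup F ⇑Q)⁆,
    Subgroup.commutator_mem_commutator (Subgroup.mem_top _) (Subgroup.mem_top _), rfl⟩

/-- The reflection as an invertible matrix. -/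
noncomputable def rE {v : ι → F} (hv : Q v ≠ 0) : GL ι F := (Cfsg.Agent.Lib.OrthForm.reflElt Q hv : GL ι F)

theorem rE_apply {v : ι → F} (hv : Q v ≠ 0) (x : ι → F) :
    rE hv ⋆ x = x - ((Q v)⁻¹ * polar Q v x) • v :=
  Cfsg.Agent.Lib.OrthForm.reflectionMatrix_mulVec Q v x

theorem rE_mem {v : ι → F} (hv : Q v ≠ 0) : rE hv ∈ isometryGroup F ⇑Q := (Cfsg.Agent.Lib.OrthForm.reflElt Q hv).2

theorem rE_invol {v : ι → F} (hv : Q v ≠ 0) (x : ι → F) : rE hv ⋆ (rE hv ⋆ x) = x := by
  have h1 : polar Q v x = polar Q v x := rfl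
  rw [rE_apply, rE_apply]
  have hsub : polar Q v (x - ((Q v)⁻¹ * polar Q v x) • v) = polar Q v x - ((Q v)⁻¹ * polar Q v x) * (2 * Q v) := by
    rw [sub_eq_add_neg, polar_add_right, polar_neg_right, polar_sm_r, polar_self_eq]
    ring
  rw [hsub]
  ext i
  simp only [Pi.sub_apply, Pi.smul_apply, smul_eq_mul]
  field_simp
  ring

theorem rE_inv {v : ι → F} (hv : Q v ≠ 0) (x : ι → F) : (rE hv)⁻¹ ⋆ x = rE hv ⋆ x := by
  have h := inv_mulVec_GL (rE hv) (rE hv ⋆ x)
  rwa [rE_invol] at h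

/-- The reflection in `a - b` interchanges `a` and `b`. -/
theorem rE_swap (h2 : (2 : F) ≠ 0) {ε : F} (hε : ε ≠ 0) {a b : ι → F} (hQa : Q a = ε) (hQb : Q b = ε)
    (hab : polar Q a b = 0) :
    ∃ hs : Q (a + (-1 : F) • b) ≠ 0, rE hs ⋆ a = b ∧ rE hs ⋆ b = a ∧
      ∀ x, polar Q x a = 0 → polar Q x b = 0 → rE hs ⋆ x = x := by
  set s := a + (-1 : F) • b with hs
  have hQs : Q s = 2 * ε := by
    rw [hs, Q_ad, Q_sm, polar_sm_r, hab, hQa, hQb]
    ring
  have hne : Q s ≠ 0 := by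
    rw [hQs]
    exact mul_ne_zero h2 hε
  have hsa : polar Q s a = 2 * ε := by
    rw [hs, polar_add_left, polar_sm_l, polar_self_eq, polar_comm Q b a, hab, hQa]
    ring
  have hsb : polar Q s b = -(2 * ε) := by
    rw [hs, polar_add_left, polar_sm_l, polar_self_eq, hab, hQb]
    ring
  refine ⟨hne, ?_, ?_, ?_⟩
  · rw [rE_apply, hsa, hQs, inv_mul_cancel₀ (mul_ne_zero h2 hε), one_smul, hs]
    ext i
    simp
  · rw [rE_apply, hsb, hQs, mul_neg, inv_mul_cancel₀ (mul_ne_zero h2 hε), hs]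
    ext i
    simp
  · intro x hxa hxb
    have : polar Q s x = 0 := by
      rw [hs, polar_add_left, polar_sm_l, polar_comm Q a x, polar_comm Q b x, hxa, hxb]
      ring
    rw [rE_apply, this, mul_zero, zero_smul, sub_zero]

/-- The main lemma. -/
theorem frame_not_max (hQ : Nondeg Q) (h11 : 11 ≤ Fintype.card ι) (h2 : (2 : F) ≠ 0) {t : ℕ}
    {D : Fin t → Submodule F (ι → F)} (hort : ∀ i j, i ≠ j → ∀ x ∈ D i, ∀ y ∈ D j, polar Q x y = 0)
    (hnd : ∀ i, IsNondegenerateOn (polar ⇑Q) (D i)) {ε : F} (hε : ε ≠ 0) {i₀ i₁ i₂ : Fin t} (hi : i₀ ≠ i₁)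
    {a b c d : ι → F} (ha : a ∈ D i₀) (hb : b ∈ D i₂) (hd : d ∈ D i₀) (hc : c ∈ D i₁) (hQa : Q a = ε)
    (hQb : Q b = ε) (hQc : Q c = ε) (hab : polar Q a b = 0) (hac : polar Q a c = 0) (hbc : polar Q b c = 0)
    (hd0 : d ≠ 0) (hda : polar Q d a = 0) (hdb : polar Q d b = 0) (hdc : polar Q d c = 0)
    (hF : ∀ i, ∀ x ∈ D i, Q x = ε → (polar Q x a = 0 ∧ polar Q x b = 0 ∧ polar Q x c = 0) ∨
      x = a ∨ x = -a ∨ x = b ∨ x = -b ∨ x = c ∨ x = -c) :
    ∃ K : Subgroup (GL ι F), decompositionStabilizer D ⊓ omegaGL ⇑Q < K ∧ K < omegaGL ⇑Q := by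
  classical
  have hND := nd_of hQ
  have hfr : finrank F (ι → F) = Fintype.card ι := Module.finrank_fintype_fun_eq_card F
  set X : Set (ι → F) := {x | ∃ i, x ∈ D i ∧ Q x = ε} with hX
  have hneg : ∀ x ∈ X, -x ∈ X := by
    rintro x ⟨i, hx, hQx⟩
    refine ⟨i, (D i).neg_mem hx, ?_⟩
    rw [QuadraticMap.map_neg, hQx]
  have haX : a ∈ X := ⟨_, ha, hQa⟩
  have hbX : b ∈ X := ⟨_, hb, hQb⟩
  have hcX : c ∈ X := ⟨_, hc, hQc⟩
  have hle : decompositionStabilizer D ⊓ omegaGL ⇑Q ≤ stabilizing (glToMat ι F) X ⊓ omegaGL ⇑Q := by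
    rintro g ⟨⟨π, hπ⟩, hg⟩
    refine ⟨fun v => ?_, hg⟩
    show v ∈ X ↔ g ⋆ v ∈ X
    constructor
    · rintro ⟨i, hvi, hvn⟩
      refine ⟨π i, ?_, by rwa [iso_omega hg]⟩
      rw [← hπ i]
      exact ⟨v, hvi, rfl⟩
    · rintro ⟨j, hvj, hvn⟩
      have h3 := hπ (π.symm j)
      rw [Equiv.apply_symm_apply] at h3
      rw [← h3] at hvj
      obtain ⟨y, hy, hye⟩ := hvj
      have hye' : g ⋆ y = g ⋆ v := hye
      have h5 : y = v := by
        have := congrArg (fun w => g⁻¹ ⋆ w) hye'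
        simpa only [inv_mulVec_GL] using this
      rw [iso_omega hg] at hvn
      rw [← h5] at hvn ⊢
      exact ⟨π.symm j, hy, hvn⟩
  have hinter : ∀ i j, i ≠ j → ∀ x ∈ D i, x ∈ D j → x = 0 := by
    intro i j hij x hxi hxj
    by_contra hx0
    obtain ⟨y, hy, hne⟩ := (hnd i x hxi hx0).1
    exact hne (hort i j hij y hy x hxj)
  refine ⟨stabilizing (glToMat ι F) X ⊓ omegaGL ⇑Q, ?_, ?_⟩
  · rw [SetLike.lt_iff_le_and_exists]
    refine ⟨hle, ?_⟩
    obtain ⟨hs₁, h1a, h1b, h1x⟩ := rE_swap h2 hε hQa hQb hab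
    obtain ⟨hs₂, h2b, h2c, h2x⟩ := rE_swap h2 hε hQb hQc hbc
    have hpa : polar Q a a = 2 * ε := by rw [polar_self_eq, hQa]
    -- the reflections preserve `X`
    have hmem₁ : rE hs₁ ∈ stabilizing (glToMat ι F) X := by
      have hstep : ∀ v ∈ X, rE hs₁ ⋆ v ∈ X := by
        rintro v ⟨i, hvi, hvn⟩
        rcases hF i v hvi hvn with ⟨h3, h5, -⟩ | rfl | rfl | rfl | rfl | rfl | rfl
        · rw [h1x v h3 h5]
          exact ⟨i, hvi, hvn⟩
        · rw [h1a]
          exact hbX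
        · rw [Matrix.mulVec_neg, h1a]
          exact hneg _ hbX
        · rw [h1b]
          exact haX
        · rw [Matrix.mulVec_neg, h1b]
          exact hneg _ haX
        · rw [h1x _ (by rw [polar_comm]; exact hac) (by rw [polar_comm]; exact hbc)]
          exact hcX
        · rw [Matrix.mulVec_neg, h1x _ (by rw [polar_comm]; exact hac) (by rw [polar_comm]; exact hbc)]
          exact hneg _ hcX
      intro v
      refine ⟨hstep v, fun h3 => ?_⟩
      have h5 := hstep _ h3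
      rwa [show rE hs₁ ⋆ ((glToMat ι F (rE hs₁)) *ᵥ v) = v from rE_invol hs₁ v] at h5
    have hmem₂ : rE hs₂ ∈ stabilizing (glToMat ι F) X := by
      have hstep : ∀ v ∈ X, rE hs₂ ⋆ v ∈ X := by
        rintro v ⟨i, hvi, hvn⟩
        rcases hF i v hvi hvn with ⟨-, h3, h5⟩ | rfl | rfl | rfl | rfl | rfl | rfl
        · rw [h2x v h3 h5]
          exact ⟨i, hvi, hvn⟩
        · rw [h2x _ hab hac]
          exact haX
        · rw [Matrix.mulVec_neg, h2x _ hab hac]
          exact hneg _ haX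
        · rw [h2b]
          exact hcX
        · rw [Matrix.mulVec_neg, h2b]
          exact hneg _ hcX
        · rw [h2c]
          exact hbX
        · rw [Matrix.mulVec_neg, h2c]
          exact hneg _ hbX
      intro v
      refine ⟨hstep v, fun h3 => ?_⟩
      have h5 := hstep _ h3
      rwa [show rE hs₂ ⋆ ((glToMat ι F (rE hs₂)) *ᵥ v) = v from rE_invol hs₂ v] at h5
    have hgS := (stabilizing (glToMat ι F) X).mul_mem
      ((stabilizing (glToMat ι F) X).mul_mem ((stabilizing (glToMat ι F) X).mul_mem hmem₁ hmem₂)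
        ((stabilizing (glToMat ι F) X).inv_mem hmem₁)) ((stabilizing (glToMat ι F) X).inv_mem hmem₂)
    refine ⟨rE hs₁ * rE hs₂ * (rE hs₁)⁻¹ * (rE hs₂)⁻¹, ⟨hgS, comm_mem (rE_mem hs₁) (rE_mem hs₂)⟩, ?_⟩
    have hact : ∀ x, (rE hs₁ * rE hs₂ * (rE hs₁)⁻¹ * (rE hs₂)⁻¹) ⋆ x =
        rE hs₁ ⋆ (rE hs₂ ⋆ (rE hs₁ ⋆ (rE hs₂ ⋆ x))) := by
      intro x
      rw [mulVec_mul_GL, mulVec_mul_GL, mulVec_mul_GL, rE_inv, rE_inv]
    have hga : (rE hs₁ * rE hs₂ * (rE hs₁)⁻¹ * (rE hs₂)⁻¹) ⋆ a = c := by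
      rw [hact, h2x a hab hac, h1a, h2b, h1x c (by rw [polar_comm]; exact hac) (by rw [polar_comm]; exact hbc)]
    have hgd : (rE hs₁ * rE hs₂ * (rE hs₁)⁻¹ * (rE hs₂)⁻¹) ⋆ d = d := by
      rw [hact, h2x d hdb hdc, h1x d hda hdb, h2x d hdb hdc, h1x d hda hdb]
    rintro ⟨⟨π, hπ⟩, -⟩
    have h3 := hπ i₀
    have h5 : (rE hs₁ * rE hs₂ * (rE hs₁)⁻¹ * (rE hs₂)⁻¹) ⋆ a ∈ D (π i₀) := by
      rw [← h3]
      exact ⟨a, ha, rfl⟩
    have h6 : (rE hs₁ * rE hs₂ * (rE hs₁)⁻¹ * (rE hs₂)⁻¹) ⋆ d ∈ D (π i₀) := by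
      rw [← h3]
      exact ⟨d, hd, rfl⟩
    rw [hga] at h5
    rw [hgd] at h6
    have h7 : π i₀ = i₀ := by
      by_contra h7
      exact hd0 (hinter _ _ h7 d h6 hd)
    rw [h7] at h5
    have h8 := hinter _ _ hi c h5 hc
    rw [h8] at hQc
    apply hε
    rw [← hQc]
    simp
  · refine lt_of_le_of_ne inf_le_right ?_
    intro he
    have hpa : polar Q a a ≠ 0 := by
      rw [polar_self_eq, hQa]
      exact mul_ne_zero h2 hε
    obtain ⟨e₁, he₁C, hQe₁⟩ := prescribed hND ({a, c} : Finset (ι → F)) ((polar Q a a)⁻¹ • a) 0 (by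
      have := Finset.card_le_two (a := a) (b := c)
      omega)
    have hae₁ : polar Q a e₁ = 1 := by
      rw [he₁C a (by simp), polar_sm_r]
      exact inv_mul_cancel₀ hpa
    have hce₁ : polar Q c e₁ = 0 := by
      rw [he₁C c (by simp), polar_sm_r, polar_comm Q c a, hac, mul_zero]
    have he₁c : polar Q e₁ c = 0 := by
      rw [polar_comm]
      exact hce₁
    have hmem := sE_mem_omegaGL hQ h11 hQe₁ he₁c
    rw [← he] at hmem
    have h1 := (hmem.1 a).1 haX
    change sE hQ hQe₁ he₁c ⋆ a ∈ X at h1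
    rw [sE_apply', hae₁, hac, hQc] at h1
    obtain ⟨i, hi', -⟩ := h1
    simp only [one_smul, zero_add, mul_one] at hi'
    have hpc : polar Q (a + c - ε • e₁) c = 2 * ε := by
      rw [polar_sub_left, polar_add_left, polar_sm_l, hac, polar_self_eq, hQc, he₁c]
      ring
    have hpa' : polar Q (a + c - ε • e₁) a = ε := by
      rw [polar_sub_left, polar_add_left, polar_sm_l, polar_comm Q c a, hac, polar_self_eq, hQa,
        polar_comm Q e₁ a, hae₁]
      ring
    by_cases hi₀ : i = i₀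
    · subst hi₀
      have := hort _ _ hi _ hi' _ hc
      rw [hpc] at this
      exact mul_ne_zero h2 hε this
    · have := hort _ _ hi₀ _ hi' _ ha
      rw [hpa'] at this
      exact hε this

/-- A block carrying a good vector. -/
def Blk (Q : QuadraticForm F (ι → F)) (W : Submodule F (ι → F)) (ε : F) : Prop :=
  ∃ a ∈ W, Q a = ε ∧ (∀ x ∈ W, Q x = ε → polar Q x a = 0 ∨ x = a ∨ x = -a) ∧
    ∃ d ∈ W, d ≠ 0 ∧ polar Q d a = 0

theorem Blk.iso {W W' : Submodule F (ι → F)} {ε : F} (h : Blk Q W ε) (hI : AreIsometricFor ⇑Q W W') :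
    Blk Q W' ε := by
  obtain ⟨a, ha, hQa, hx, d, hd, hd0, hda⟩ := h
  obtain ⟨e, he⟩ := hI
  have hpol : ∀ u v : W, polar Q (e u : W') (e v : W') = polar Q (u : ι → F) (v : ι → F) := by
    intro u v
    have h1 := he (u + v)
    have h2 := he u
    have h3 := he v
    simp only [map_add, Submodule.coe_add] at h1
    rw [polar, polar, h1, h2, h3]
  refine ⟨e ⟨a, ha⟩, (e ⟨a, ha⟩).2, ?_, ?_, e ⟨d, hd⟩, (e ⟨d, hd⟩).2, ?_, ?_⟩
  · rw [he]
    exact hQa
  · intro x hx' hQx
    have h1 := he (e.symm ⟨x, hx'⟩)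
    simp only [LinearEquiv.apply_symm_apply] at h1
    rw [hQx] at h1
    rcases hx _ (e.symm ⟨x, hx'⟩).2 h1.symm with h2 | h2 | h2
    · left
      have h3 := hpol (e.symm ⟨x, hx'⟩) ⟨a, ha⟩
      simp only [LinearEquiv.apply_symm_apply] at h3
      rw [h3, h2]
    · right; left
      have h3 : e.symm ⟨x, hx'⟩ = ⟨a, ha⟩ := Subtype.ext h2
      rw [← h3]
      simp
    · right; right
      have h3 : e.symm ⟨x, hx'⟩ = -⟨a, ha⟩ := Subtype.ext h2
      have h4 := congrArg e h3
      simp only [LinearEquiv.apply_symm_apply, map_neg] at h4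
      have h5 := congrArg Subtype.val h4
      simpa using h5
  · intro h0
    have h1 : e ⟨d, hd⟩ = 0 := Subtype.ext h0
    have h2 : (⟨d, hd⟩ : W) = 0 := by simpa using h1
    exact hd0 (congrArg Subtype.val h2)
  · rw [hpol]
    exact hda

/-- Three orthogonal blocks with good vectors. -/
theorem frame_three (hQ : Nondeg Q) (h11 : 11 ≤ Fintype.card ι) (h2 : (2 : F) ≠ 0) {t : ℕ}
    {D : Fin t → Submodule F (ι → F)} (hort : ∀ i j, i ≠ j → ∀ x ∈ D i, ∀ y ∈ D j, polar Q x y = 0)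
    (hnd : ∀ i, IsNondegenerateOn (polar ⇑Q) (D i)) {ε : F} (hε : ε ≠ 0) {i₀ i₁ i₂ : Fin t} (h01 : i₀ ≠ i₁)
    (h02 : i₀ ≠ i₂) (h12 : i₁ ≠ i₂) (hB : ∀ i, Blk Q (D i) ε) :
    ∃ K : Subgroup (GL ι F), decompositionStabilizer D ⊓ omegaGL ⇑Q < K ∧ K < omegaGL ⇑Q := by
  obtain ⟨a, ha, hQa, hxa, d, hd, hd0, hda⟩ := hB i₀
  obtain ⟨c, hc, hQc, hxc, -⟩ := hB i₁
  obtain ⟨b, hb, hQb, hxb, -⟩ := hB i₂
  refine frame_not_max hQ h11 h2 hort hnd hε h01 ha hb hd hc hQa hQb hQc (hort _ _ h02 _ ha _ hb)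
    (hort _ _ h01 _ ha _ hc) (hort _ _ h12.symm _ hb _ hc) hd0 hda (hort _ _ h02 _ hd _ hb)
    (hort _ _ h01 _ hd _ hc) ?_
  intro i x hx hQx
  by_cases hi0 : i = i₀
  · subst hi0
    rcases hxa x hx hQx with h3 | h3 | h3
    · exact Or.inl ⟨h3, hort _ _ h02 _ hx _ hb, hort _ _ h01 _ hx _ hc⟩
    · exact Or.inr (Or.inl h3)
    · exact Or.inr (Or.inr (Or.inl h3))
  by_cases hi1 : i = i₁
  · subst hi1
    rcases hxc x hx hQx with h3 | h3 | h3
    · exact Or.inl ⟨hort _ _ h01.symm _ hx _ ha, hort _ _ h12 _ hx _ hb, h3⟩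
    · exact Or.inr (Or.inr (Or.inr (Or.inr (Or.inr (Or.inl h3)))))
    · exact Or.inr (Or.inr (Or.inr (Or.inr (Or.inr (Or.inr h3)))))
  by_cases hi2 : i = i₂
  · subst hi2
    rcases hxb x hx hQx with h3 | h3 | h3
    · exact Or.inl ⟨hort _ _ h02.symm _ hx _ ha, h3, hort _ _ h12.symm _ hx _ hc⟩
    · exact Or.inr (Or.inr (Or.inr (Or.inl h3)))
    · exact Or.inr (Or.inr (Or.inr (Or.inr (Or.inl h3))))
  · exact Or.inl ⟨hort _ _ hi0 _ hx _ ha, hort _ _ hi2 _ hx _ hb, hort _ _ hi1 _ hx _ hc⟩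

/-- The form in which the criterion is applied. -/
theorem frame_decomp (hQ : Nondeg Q) (h11 : 11 ≤ Fintype.card ι) (h2 : (2 : F) ≠ 0) {t k : ℕ}
    {D : Fin t → Submodule F (ι → F)} (hD : IsOrthogonalMDecomposition ⇑Q k D) (ht : 3 ≤ t) {ε : F}
    (hε : ε ≠ 0) {i : Fin t} (hB : Blk Q (D i) ε) :
    ∃ K : Subgroup (GL ι F), decompositionStabilizer D ⊓ omegaGL ⇑Q < K ∧ K < omegaGL ⇑Q := by
  refine frame_three (i₀ := ⟨0, by omega⟩) (i₁ := ⟨1, by omega⟩) (i₂ := ⟨2, by omega⟩) hQ h11 h2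
    (fun i j hij => hD.decomp.orthogonal i j hij) hD.decomp.nondegenerate hε (by simp [Fin.ext_iff])
    (by simp [Fin.ext_iff]) (by simp [Fin.ext_iff]) (fun j => hB.iso (hD.isometric i j))

/-! ### Orthogonal bases of blocks -/

theorem exists_orth_basis (h2 : (2 : F) ≠ 0) (W : Submodule F (ι → F)) {N : ℕ} (hN : finrank F W = N) :
    ∃ v : Basis (Fin N) F W, ∀ i j, i ≠ j → polar Q (v i : ι → F) (v j : ι → F) = 0 := by
  classical
  have : Invertible (2 : F) := invertibleOfNonzero h2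
  let B : LinearMap.BilinForm F W := LinearMap.BilinForm.restrict (polarBilin Q) W
  have hB : LinearMap.IsSymm B := ⟨fun x y => polar_comm Q _ _⟩
  obtain ⟨v, hv⟩ := LinearMap.BilinForm.exists_orthogonal_basis hB
  refine ⟨v.reindex (finCongr hN), fun i j hij => ?_⟩
  have h1 := @hv ((finCongr hN).symm i) ((finCongr hN).symm j) (by simpa using hij)
  simpa [B, Basis.reindex_apply] using h1

theorem value_ne_of_orth {W : Submodule F (ι → F)} (hW : IsNondegenerateOn (polar ⇑Q) W) {N : ℕ}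
    (v : Basis (Fin N) F W) (hv : ∀ i j, i ≠ j → polar Q (v i : ι → F) (v j : ι → F) = 0) (i : Fin N) :
    Q (v i : ι → F) ≠ 0 := by
  classical
  intro h0
  have hne : (v i : ι → F) ≠ 0 := fun h => v.ne_zero i (Subtype.ext h)
  obtain ⟨y, hy, hne'⟩ := (hW _ (v i).2 hne).2
  apply hne'
  have hy' := v.sum_repr ⟨y, hy⟩
  have hy2 : y = ∑ j, (v.repr ⟨y, hy⟩ j) • (v j : ι → F) := by
    calc y = ((∑ j, v.repr ⟨y, hy⟩ j • v j : W) : ι → F) := by rw [hy']
      _ = _ := by
        rw [AddSubmonoidClass.coe_finsetSum]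
        rfl
  rw [hy2]
  have hpol : ∀ s : Finset (Fin N), polar Q (v i : ι → F) (∑ j ∈ s, (v.repr ⟨y, hy⟩ j) • (v j : ι → F)) = 0 := by
    intro s
    induction s using Finset.induction_on with
    | empty =>
      simp [polar]
    | insert a s ha ih =>
      rw [Finset.sum_insert ha, polar_add_right, ih, polar_sm_r]
      by_cases hia : i = a
      · subst hia
        rw [polar_self_eq, h0]
        ring
      · rw [hv i a hia]
        ring
  exact hpol _

theorem tri (hq : Fintype.card F = 3) (x : F) : x = 0 ∨ x = 1 ∨ x = -1 := by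
  have h1 := FiniteField.pow_card x
  rw [hq] at h1
  have h3 : x * ((x - 1) * (x + 1)) = 0 := by
    linear_combination h1
  rcases mul_eq_zero.1 h3 with h | h
  · exact Or.inl h
  · rcases mul_eq_zero.1 h with h | h
    · exact Or.inr (Or.inl (sub_eq_zero.1 h))
    · exact Or.inr (Or.inr (eq_neg_of_add_eq_zero_left h))

theorem three_eq (hq : Fintype.card F = 3) : (3 : F) = 0 := by
  have := FiniteField.cast_card_eq_zero F
  rw [hq] at this
  exact_mod_cast this

theorem two_ne₃ (hq : Fintype.card F = 3) : (2 : F) ≠ 0 := by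
  intro h
  have h3 := three_eq hq
  have : (1 : F) = 0 := by linear_combination h3 - h
  exact one_ne_zero this

theorem sq₃ (hq : Fintype.card F = 3) (x : F) (hx : x ≠ 0) : x ^ 2 = 1 := by
  rcases tri hq x with h | h | h
  · exact absurd h hx
  · rw [h]; ring
  · rw [h]; ring

/-- An orthogonal frame of three vectors of the same value over the field of three elements. -/
theorem blk_frame (hq : Fintype.card F = 3) {W : Submodule F (ι → F)} {a b c : ι → F} (ha : a ∈ W) (hb : b ∈ W)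
    {ε : F} (hε : ε ≠ 0) (hQa : Q a = ε) (hQb : Q b = ε) (hQc : Q c = ε) (hab : polar Q a b = 0)
    (hac : polar Q a c = 0) (hbc : polar Q b c = 0)
    (hco : ∀ x ∈ W, ∃ α β γ : F, x = α • a + β • b + γ • c) : Blk Q W ε := by
  have h2 := two_ne₃ hq
  have h3 := three_eq hq
  have hb0 : b ≠ 0 := by
    rintro rfl
    apply hε
    rw [← hQb]
    simp
  refine ⟨a, ha, hQa, ?_, b, hb, hb0, by rw [polar_comm]; exact hab⟩
  intro x hx hQx
  obtain ⟨α, β, γ, rfl⟩ := hco x hx
  have hval : α ^ 2 + β ^ 2 + γ ^ 2 = 1 := by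
    have h5 : Q (α • a + β • b + γ • c) = (α ^ 2 + β ^ 2 + γ ^ 2) * ε := by
      rw [Q_ad, Q_ad, Q_sm, Q_sm, Q_sm, polar_sm_l, polar_sm_r, polar_add_left, polar_sm_l,
        polar_sm_l, polar_sm_r, polar_sm_r, hab, hac, hbc, hQa, hQb, hQc]
      ring
    rw [hQx] at h5
    exact mul_right_cancel₀ hε (by rw [one_mul]; exact h5.symm)
  by_cases hα : α = 0
  · left
    rw [polar_add_left, polar_add_left, polar_sm_l, polar_sm_l, polar_sm_l, hα, polar_comm Q b a, hab,
      polar_comm Q c a, hac]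
    ring
  · right
    have hα2 := sq₃ hq α hα
    have hβ : β = 0 := by
      by_contra hβ
      have hβ2 := sq₃ hq β hβ
      by_cases hγ : γ = 0
      · rw [hα2, hβ2, hγ] at hval
        have : (1 : F) = 0 := by linear_combination hval
        exact one_ne_zero this
      · rw [hα2, hβ2, sq₃ hq γ hγ] at hval
        exact h2 (by linear_combination hval)
    have hγ : γ = 0 := by
      by_contra hγ
      rw [hα2, hβ, sq₃ hq γ hγ] at hval
      have : (1 : F) = 0 := by linear_combination hval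
      exact one_ne_zero this
    rcases tri hq α with h | h | h
    · exact absurd h hα
    · left
      rw [h, hβ, hγ]
      simp
    · right
      rw [h, hβ, hγ]
      simp

/-- A plane over the field of three elements. -/
theorem blk_plane₃ (hq : Fintype.card F = 3) {W : Submodule F (ι → F)} (hdim : finrank F W = 2)
    (hW : IsNondegenerateOn (polar ⇑Q) W) : ∃ ε : F, ε ≠ 0 ∧ Blk Q W ε := by
  classical
  obtain ⟨v, hv⟩ := exists_orth_basis (Q := Q) (two_ne₃ hq) W hdim
  have h0 := value_ne_of_orth hW v hv 0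
  have h1 := value_ne_of_orth hW v hv 1
  have h01 := hv 0 1 (by simp)
  refine ⟨Q (v 0 : ι → F), h0, v 0, (v 0).2, rfl, ?_, v 1, (v 1).2, fun h => v.ne_zero 1 (Subtype.ext h), ?_⟩
  · intro x hx hQx
    have hs := v.sum_repr ⟨x, hx⟩
    rw [Fin.sum_univ_two] at hs
    have hx' : x = v.repr ⟨x, hx⟩ 0 • (v 0 : ι → F) + v.repr ⟨x, hx⟩ 1 • (v 1 : ι → F) := by
      have := congrArg Subtype.val hs
      simpa using this.symm
    generalize v.repr ⟨x, hx⟩ 0 = α at hx'
    generalize v.repr ⟨x, hx⟩ 1 = β at hx'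
    subst hx'
    rw [Q_ad, Q_sm, Q_sm, polar_sm_l, polar_sm_r, h01] at hQx
    by_cases hα : α = 0
    · left
      rw [polar_add_left, polar_sm_l, polar_sm_l, hα, polar_comm Q (v 1 : ι → F) (v 0 : ι → F), h01]
      ring
    · right
      rw [sq₃ hq α hα] at hQx
      have hβ : β = 0 := by
        by_contra hβ
        rw [sq₃ hq β hβ] at hQx
        apply h1
        linear_combination hQx
      rcases tri hq α with h | h | h
      · exact absurd h hα
      · left
        rw [h, hβ]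
        simp
      · right
        rw [h, hβ]
        simp
  · rw [polar_comm]
    exact h01

/-- Three dimensions over the field of three elements. -/
theorem blk_three₃ (hq : Fintype.card F = 3) {W : Submodule F (ι → F)} (hdim : finrank F W = 3)
    (hW : IsNondegenerateOn (polar ⇑Q) W) : ∃ ε : F, ε ≠ 0 ∧ Blk Q W ε := by
  classical
  have h2 := two_ne₃ hq
  have h3 := three_eq hq
  obtain ⟨v, hv⟩ := exists_orth_basis (Q := Q) h2 W hdim
  have hco : ∀ x ∈ W, ∃ α β γ : F, x = α • (v 0 : ι → F) + β • (v 1 : ι → F) + γ • (v 2 : ι → F) := by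
    intro x hx
    have hs := v.sum_repr ⟨x, hx⟩
    rw [Fin.sum_univ_three] at hs
    refine ⟨v.repr ⟨x, hx⟩ 0, v.repr ⟨x, hx⟩ 1, v.repr ⟨x, hx⟩ 2, ?_⟩
    have := congrArg Subtype.val hs
    simpa using this.symm
  -- two values equal, the third its negative
  have hmix : ∀ {a b c : ι → F} (_ : a ∈ W) (_ : b ∈ W) (_ : c ∈ W) {p : F}, p ≠ 0 → Q a = p → Q b = p → Q c = -p →
      polar Q a b = 0 → polar Q a c = 0 → polar Q b c = 0 →
      (∀ x ∈ W, ∃ α β γ : F, x = α • a + β • b + γ • c) → ∃ ε : F, ε ≠ 0 ∧ Blk Q W ε := by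
    intro a b c ha hb hc p hp hQa hQb hQc hab hac hbc hc'
    refine ⟨-p, neg_ne_zero.2 hp, blk_frame hq (a := a + b) (b := a - b) (c := c) (W.add_mem ha hb) (W.sub_mem ha hb)
      (neg_ne_zero.2 hp) ?_ ?_ hQc ?_ ?_ ?_ ?_⟩
    · rw [Q_ad, hQa, hQb, hab]
      linear_combination p * h3
    · rw [sub_eq_add_neg, Q_ad, QuadraticMap.map_neg, polar_neg_right, hQa, hQb, hab]
      linear_combination p * h3
    · rw [polar_add_left, polar_sub_right, polar_sub_right, polar_self_eq, polar_self_eq, polar_comm Q b a, hab, hQa, hQb]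
      ring
    · rw [polar_add_left, hac, hbc, add_zero]
    · rw [polar_sub_left, hac, hbc, sub_zero]
    · intro x hx
      obtain ⟨α, β, γ, rfl⟩ := hc' x hx
      refine ⟨(α + β) * 2⁻¹, (α - β) * 2⁻¹, γ, ?_⟩
      ext i
      simp only [Pi.add_apply, Pi.smul_apply, smul_eq_mul, Pi.sub_apply]
      field_simp
      ring
  have hp0 := value_ne_of_orth hW v hv 0
  have hp1 := value_ne_of_orth hW v hv 1
  have hp2 := value_ne_of_orth hW v hv 2
  have h01 := hv 0 1 (by simp)
  have h02 := hv 0 2 (by simp)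
  have h12 := hv 1 2 (by simp)
  have htri : ∀ {p r : F}, p ≠ 0 → r ≠ 0 → p ≠ r → r = -p := by
    intro p r hp hr hpr
    rcases tri hq p with h | h | h
    · exact absurd h hp
    · rcases tri hq r with h' | h' | h'
      · exact absurd h' hr
      · exact absurd (h.trans h'.symm) hpr
      · rw [h, h']
    · rcases tri hq r with h' | h' | h'
      · exact absurd h' hr
      · rw [h, h']
        ring
      · exact absurd (h.trans h'.symm) hpr
  by_cases h01v : Q (v 0 : ι → F) = Q (v 1 : ι → F)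
  · by_cases h02v : Q (v 0 : ι → F) = Q (v 2 : ι → F)
    · exact ⟨_, hp0, blk_frame hq (v 0).2 (v 1).2 hp0 rfl h01v.symm h02v.symm h01 h02 h12 hco⟩
    · exact hmix (v 0).2 (v 1).2 (v 2).2 hp0 rfl h01v.symm (htri hp0 hp2 h02v) h01 h02 h12 hco
  · by_cases h02v : Q (v 0 : ι → F) = Q (v 2 : ι → F)
    · refine hmix (v 0).2 (v 2).2 (v 1).2 hp0 rfl h02v.symm (htri hp0 hp1 h01v) h02 h01 (by rw [polar_comm]; exact h12) ?_
      intro x hx
      obtain ⟨α, β, γ, rfl⟩ := hco x hx
      refine ⟨α, γ, β, ?_⟩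
      abel
    · have h12v : Q (v 1 : ι → F) = Q (v 2 : ι → F) := by
        have h4 := htri hp0 hp1 h01v
        have h5 := htri hp0 hp2 h02v
        rw [h4, h5]
      refine hmix (v 1).2 (v 2).2 (v 0).2 hp1 rfl h12v.symm ?_ h12 (by rw [polar_comm]; exact h01)
        (by rw [polar_comm]; exact h02) ?_
      · have h4 := htri hp0 hp1 h01v
        rw [h4]
        ring
      · intro x hx
        obtain ⟨α, β, γ, rfl⟩ := hco x hx
        refine ⟨β, γ, α, ?_⟩
        abel

/-- A hyperbolic plane over the field of five elements. -/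
theorem blk_plus₅ (hq : Fintype.card F = 5) {W : Submodule F (ι → F)} (hdim : finrank F W = 2)
    (hW : IsNondegenerateOn (polar ⇑Q) W) (hp : IsPlusTypeOn ⇑Q W) : Blk Q W 1 := by
  classical
  obtain ⟨U, hUW, hUts, hUd⟩ := hp
  have hUd' : finrank F U = 1 := by omega
  obtain ⟨⟨e, heU⟩, he0⟩ : ∃ e : U, e ≠ 0 := by
    have : 0 < finrank F U := by omega
    exact Module.finrank_pos_iff_exists_ne_zero.1 this
  have he0' : e ≠ 0 := fun h => he0 (Subtype.ext h)
  have heW : e ∈ W := hUW heU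
  have hee : Q e = 0 := hUts e heU
  have hpee : polar Q e e = 0 := polar_self_of_singular hee
  obtain ⟨f, hfW, hff, hfe⟩ : ∃ f ∈ W, Q f = 0 ∧ polar Q f e = 1 := by
    obtain ⟨x, hxW, hx⟩ := (hW e heW he0').1
    have h1 : polar Q ((polar Q x e)⁻¹ • x) e = 1 := by
      rw [polar_sm_l]
      exact inv_mul_cancel₀ hx
    refine ⟨(polar Q x e)⁻¹ • x + (-(Q ((polar Q x e)⁻¹ • x))) • e,
      W.add_mem (W.smul_mem _ hxW) (W.smul_mem _ heW), ?_, ?_⟩
    · generalize (polar Q x e)⁻¹ • x = y at h1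
      rw [Q_ad, Q_sm, hee, polar_sm_r, polar_comm] at *
      rw [h1]
      ring
    · generalize (polar Q x e)⁻¹ • x = y at h1
      rw [polar_add_left, polar_sm_l, h1, hpee]
      ring
  have hef : polar Q e f = 1 := by
    rw [polar_comm]
    exact hfe
  have hpff : polar Q f f = 0 := polar_self_of_singular hff
  have hcoord : ∀ w ∈ W, ∃ α β : F, w = α • e + β • f := by
    have hli : LinearIndependent F ![e, f] := by
      rw [LinearIndependent.pair_iff]
      intro s t hst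
      have h1 := congrArg (fun v => polar Q v e) hst
      simp only [polar_add_left, polar_sm_l, hpee, hfe, mul_zero, mul_one, zero_add] at h1
      have h0 : polar Q (0 : ι → F) e = 0 := by
        simp [polar]
      rw [h0] at h1
      refine ⟨?_, h1⟩
      rw [h1, zero_smul, add_zero] at hst
      exact (smul_eq_zero.1 hst).resolve_right he0'
    have hle : Submodule.span F (Set.range ![e, f]) ≤ W := by
      rw [Submodule.span_le]
      rintro _ ⟨i, rfl⟩
      fin_cases i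
      · exact heW
      · exact hfW
    have he := Submodule.eq_of_le_of_finrank_eq hle (by
      rw [finrank_span_eq_card hli, hdim]
      simp)
    intro w hw
    rw [← he] at hw
    obtain ⟨c, hc⟩ := (Submodule.mem_span_range_iff_exists_fun F).1 hw
    refine ⟨c 0, c 1, ?_⟩
    rw [← hc, Fin.sum_univ_two]
    simp
  have h5 : ∀ α : F, α ≠ 0 → α ^ 4 = 1 := by
    intro α hα
    have := FiniteField.pow_card_sub_one_eq_one α hα
    rwa [hq] at this
  refine ⟨e + f, W.add_mem heW hfW, ?_, ?_, e + (-1 : F) • f, W.add_mem heW (W.smul_mem _ hfW), ?_, ?_⟩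
  · rw [Q_ad, hee, hff, hef]
    ring
  · intro x hx hQx
    obtain ⟨α, β, rfl⟩ := hcoord x hx
    rw [Q_ad, Q_sm, Q_sm, hee, hff, polar_sm_l, polar_sm_r, hef] at hQx
    have hαβ : α * β = 1 := by linear_combination hQx
    have hα : α ≠ 0 := by
      rintro rfl
      rw [zero_mul] at hαβ
      exact zero_ne_one hαβ
    have hβ : β = α⁻¹ := eq_inv_of_mul_eq_one_right hαβ
    have h4 := h5 α hα
    have hfac : (α ^ 2 + 1) * ((α - 1) * (α + 1)) = 0 := by linear_combination h4
    rcases mul_eq_zero.1 hfac with h | h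
    · left
      have hpo : polar Q (α • e + β • f) (e + f) = α + β := by
        rw [polar_add_left, polar_sm_l, polar_sm_l, polar_add_right, polar_add_right, hpee, hef, hfe, hpff]
        ring
      rw [hpo]
      have : α * (α + β) = 0 := by linear_combination h + hαβ
      exact (mul_eq_zero.1 this).resolve_left hα
    · right
      rcases mul_eq_zero.1 h with h | h
      · left
        have h1 : α = 1 := sub_eq_zero.1 h
        rw [hβ, h1]
        simp
      · right
        have h1 : α = -1 := eq_neg_of_add_eq_zero_left h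
        rw [hβ, h1]
        ext i
        simp
        ring
  · intro h0
    have h1 := congrArg (fun v => polar Q v e) h0
    simp only [polar_add_left, polar_sm_l, hpee, hfe] at h1
    have h00 : polar Q (0 : ι → F) e = 0 := by
      simp [polar]
    rw [h00] at h1
    have : (1 : F) = 0 := by linear_combination -h1
    exact one_ne_zero this
  · rw [polar_add_left, polar_sm_l, polar_add_right, polar_add_right, hpee, hef, hfe, hpff]
    ring

end Cfsg.Agent.Lib.OmFrame
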