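import Mathlib
import Cfsg.Agent.Lib.OmStab
import Cfsg.Agent.Lib.OmFrame

/-!
# Decompositions into orthogonal blocks of dimension at least three

`V = D₁ ⟂ ... ⟂ D_t` in odd characteristic, all blocks of dimension at least three. A subgroup of `Ω` containing the
Siegel transformations of the blocks, the products of two reflections in vectors of equal norm in the blocks, and
elements interchanging two blocks, and containing one Siegel transformation not inside one block, contains `Ω`.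
-/

set_option autoImplicit false
set_option linter.unusedSectionVars false
set_option linter.unusedVariables false

namespace Cfsg.Agent.Lib.OmBlk

open Matrix QuadraticMap Cfsg Cfsg.Geo Module
open Cfsg.Agent.Lib.OrthoBasic Cfsg.Agent.Lib.OrthoSiegel Cfsg.Agent.Lib.OmCalc Cfsg.Agent.Lib.TvGL
  Cfsg.Agent.Lib.OmPerp Cfsg.Agent.Lib.OmNd Cfsg.Agent.Lib.OmK Cfsg.Agent.Lib.OmPair
open Cfsg.Agent.Lib.OrthGroup Cfsg.Agent.Lib.OrthOmega
open Cfsg.Agent.Lib.SympT (GL_ext mulVec_mul_GL mulVec_inv_GL inv_mulVec_GL linOf linOf_apply)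
open Cfsg.Agent.Lib.QuadFF (polar_sm_r polar_sm_l Q_ad Q_sm IsHyp ND restr polar_restr exists_singular)

local notation:70 g:71 " ⋆ " x:70 => Matrix.mulVec (Units.val g) x

/-! ### Values of non-degenerate forms -/

section Abstract

variable {F : Type*} [Field F] [Fintype F] {V : Type*} [AddCommGroup V] [Module F V] [FiniteDimensional F V]

/-- A non-degenerate form in dimension at least two takes every non-zero value. -/
theorem exists_value (Q : QuadraticForm F V) (hQ : ND Q) (h2 : 2 ≤ finrank F V) {δ : F} (hδ : δ ≠ 0) :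
    ∃ v, Q v = δ := by
  classical
  let Q₂ : QuadraticForm F F := (-δ) • QuadraticMap.sq
  have hQ₂ : ∀ s : F, Q₂ s = -δ * s ^ 2 := fun s => by
    simp [Q₂, pow_two]
  let Q' : QuadraticForm F (V × F) := QuadraticMap.prod Q Q₂
  have hQ' : ∀ x s, Q' (x, s) = Q x + -δ * s ^ 2 := fun x s => by
    simp [Q', hQ₂]
  have hd : 3 ≤ finrank F (V × F) := by
    rw [Module.finrank_prod, Module.finrank_self]
    omega
  obtain ⟨⟨x, s⟩, hne, hsing⟩ := exists_singular Q' hd
  rw [hQ'] at hsing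
  by_cases hs : s = 0
  · subst hs
    have hx0 : x ≠ 0 := by
      rintro rfl
      exact hne rfl
    have hQx : Q x = 0 := by simpa using hsing
    by_contra hcon
    push Not at hcon
    apply hx0
    apply hQ x
    intro y
    by_contra hy
    apply hcon (y + ((δ - Q y) / polar Q x y) • x)
    rw [Q_ad, Q_sm, hQx, polar_sm_r, QuadraticMap.polar_comm Q y x]
    field_simp
    ring
  · refine ⟨s⁻¹ • x, ?_⟩
    rw [Q_sm]
    have : Q x = δ * s ^ 2 := by linear_combination hsing
    rw [this]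
    field_simp

end Abstract

variable {ι : Type} [Fintype ι] [DecidableEq ι] {F : Type*} [Field F] [Fintype F]
  {Q : QuadraticForm F (ι → F)} {P P' : Submodule F (ι → F)}

/-- Values in a summand. -/
theorem value_in (hQ : Nondeg Q) (hp : OPair Q P P') (h2 : 2 ≤ finrank F P) {δ : F} (hδ : δ ≠ 0) : ∃ v ∈ P, Q v = δ := by
  obtain ⟨v, hv⟩ := exists_value (restr Q P) (hp.ND hQ) h2 hδ
  exact ⟨v, v.2, hv⟩

/-- Orthogonal complement of a non-singular vector in a summand. -/
theorem opair_perp (hQ : Nondeg Q) (h2 : (2 : F) ≠ 0) (hp : OPair Q P P') {A : ι → F} (hA : A ∈ P) (hQA : Q A ≠ 0) :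
    OPair Q (P ⊓ perpQ Q (Submodule.span F {A})) (perpQ Q (P ⊓ perpQ Q (Submodule.span F {A}))) ∧
      finrank F P ≤ finrank F ↥(P ⊓ perpQ Q (Submodule.span F {A})) + 1 := by
  have hA0 : A ≠ 0 := by
    rintro rfl
    exact hQA (map_zero _)
  constructor
  · refine (opair_of_nondeg hQ (fun x hx h => ?_)).symm
    by_contra hx0
    obtain ⟨z, hz, hz'⟩ := hp.nondeg hQ hx.1 hx0
    have hxA : polar Q x A = 0 := by
      rw [polar_comm]
      exact mem_perpQ.1 hx.2 A (Submodule.mem_span_singleton_self A)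
    have hQ2 : polar Q A A = 2 * Q A := by rw [QuadraticMap.polar_self, two_smul, ← two_mul]
    have hz2 : z - (polar Q z A / polar Q A A) • A ∈ P ⊓ perpQ Q (Submodule.span F {A}) := by
      refine ⟨P.sub_mem hz (P.smul_mem _ hA), mem_perpQ.2 (fun v hv => ?_)⟩
      obtain ⟨c, rfl⟩ := Submodule.mem_span_singleton.1 hv
      rw [polar_sm_l, polar_sub_right, polar_sm_r, polar_comm Q A z, hQ2]
      have : 2 * Q A ≠ 0 := mul_ne_zero h2 hQA
      field_simp
      ring
    apply hz'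
    have := h _ hz2
    rw [polar_sub_right, polar_sm_r, hxA, mul_zero, sub_zero] at this
    exact this
  · have h1 := finrank_inf_perp hQ P (Submodule.span F {A})
    rwa [finrank_span_singleton hA0] at h1

/-- A hyperbolic partner in a summand. -/
theorem exists_partner (hQ : Nondeg Q) (hp : OPair Q P P') {a : ι → F} (ha : a ∈ P) (ha0 : a ≠ 0) (hQa : Q a = 0) :
    ∃ f ∈ P, Q f = 0 ∧ polar Q a f = 1 := by
  obtain ⟨z, hz, hz'⟩ := hp.nondeg hQ ha ha0
  refine ⟨(polar Q a z)⁻¹ • z - Q ((polar Q a z)⁻¹ • z) • a, P.sub_mem (P.smul_mem _ hz) (P.smul_mem _ ha), ?_, ?_⟩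
  · rw [sub_eq_add_neg, Q_ad, QuadraticMap.map_neg, Q_sm Q _ a, hQa, polar_neg_right, polar_sm_r, polar_sm_l, polar_comm Q z a]
    field_simp
    ring
  · rw [polar_sub_right, polar_sm_r, polar_sm_r, polar_self_zero hQa]
    field_simp
    ring

/-- Projecting to the complement of a hyperbolic pair. -/
theorem exists_adjust (hQ : Nondeg Q) (hp : OPair Q P P') {a f w : ι → F} (ha : a ∈ P) (hf : f ∈ P) (hQa : Q a = 0)
    (hQf : Q f = 0) (haf : polar Q a f = 1) (hw : w ∈ P) (hwa : polar Q w a = 0) (hwf : polar Q w f = 0) (hw0 : w ≠ 0) :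
    ∃ y ∈ P, polar Q y a = 0 ∧ polar Q y f = 0 ∧ polar Q w y ≠ 0 := by
  obtain ⟨z, hz, hz'⟩ := hp.nondeg hQ hw hw0
  refine ⟨z - polar Q z f • a - polar Q z a • f, P.sub_mem (P.sub_mem hz (P.smul_mem _ ha)) (P.smul_mem _ hf), ?_, ?_, ?_⟩
  · rw [polar_sub_left, polar_sub_left, polar_sm_l, polar_sm_l, polar_self_zero hQa, polar_comm Q f a, haf]
    ring
  · rw [polar_sub_left, polar_sub_left, polar_sm_l, polar_sm_l, polar_self_zero hQf, haf]
    ring
  · rw [polar_sub_right, polar_sub_right, polar_sm_r, polar_sm_r, hwa, hwf]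
    simpa using hz'

/-- A non-singular vector orthogonal to a hyperbolic pair. -/
theorem exists_nonsing_perp (hQ : Nondeg Q) (hp : OPair Q P P') (h3 : 3 ≤ finrank F P) {a f : ι → F} (ha : a ∈ P)
    (hf : f ∈ P) (hQa : Q a = 0) (hQf : Q f = 0) (haf : polar Q a f = 1) :
    ∃ c ∈ P, polar Q a c = 0 ∧ polar Q f c = 0 ∧ Q c ≠ 0 := by
  classical
  set S : Submodule F (ι → F) := Submodule.span F {a, f} with hS
  have h1 : finrank F P ≤ finrank F ↥(P ⊓ perpQ Q S) + finrank F S := finrank_inf_perp hQ P S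
  have h2 : finrank F S ≤ 2 := by
    have := finrank_span_finset_le_card (R := F) ({a, f} : Finset (ι → F))
    simp only [Finset.coe_insert, Finset.coe_singleton] at this
    exact this.trans Finset.card_le_two
  obtain ⟨w, hw, hw0⟩ : ∃ w ∈ P ⊓ perpQ Q S, w ≠ 0 := Cfsg.Agent.Lib.QForm.exists_ne_zero_mem (by omega)
  have hwa : polar Q w a = 0 := by
    rw [polar_comm]
    exact mem_perpQ.1 hw.2 a (Submodule.subset_span (by simp))
  have hwf : polar Q w f = 0 := by
    rw [polar_comm]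
    exact mem_perpQ.1 hw.2 f (Submodule.subset_span (by simp))
  obtain ⟨y, hy, hya, hyf, hwy⟩ := exists_adjust hQ hp ha hf hQa hQf haf hw.1 hwa hwf hw0
  by_cases h5 : Q w = 0
  · by_cases h6 : Q y = 0
    · refine ⟨w + y, P.add_mem hw.1 hy, ?_, ?_, ?_⟩
      · rw [polar_add_right, polar_comm Q a w, polar_comm Q a y, hwa, hya, add_zero]
      · rw [polar_add_right, polar_comm Q f w, polar_comm Q f y, hwf, hyf, add_zero]
      · rw [Q_ad, h5, h6]
        simpa using hwy
    · exact ⟨y, hy, by rw [polar_comm]; exact hya, by rw [polar_comm]; exact hyf, h6⟩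
  · exact ⟨w, hw.1, by rw [polar_comm]; exact hwa, by rw [polar_comm]; exact hwf, h5⟩

theorem Q_flip {a f y : ι → F} (hQa : Q a = 0) (hQf : Q f = 0) (haf : polar Q a f = 1) (hya : polar Q y a = 0)
    (hyf : polar Q y f = 0) : Q (f + y - Q y • a) = 0 := by
  rw [sub_eq_add_neg, Q_ad, Q_ad, QuadraticMap.map_neg, Q_sm, hQa, hQf, polar_add_left, polar_neg_right,
    polar_neg_right, polar_sm_r, polar_sm_r, polar_comm Q f y, hyf, polar_comm Q f a, haf, hya]
  ring

/-- A singular vector not orthogonal to a given vector. -/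
theorem exists_sing_non_perp (hQ : Nondeg Q) (hp : OPair Q P P') (h3 : 3 ≤ finrank F P) {x : ι → F} (hx : x ∈ P)
    (hx0 : x ≠ 0) : ∃ e ∈ P, Q e = 0 ∧ polar Q x e ≠ 0 := by
  obtain ⟨a₀, ha₀0, hQa₀⟩ := exists_singular (restr Q P) h3
  have ha : (a₀ : ι → F) ∈ P := a₀.2
  have ha0 : (a₀ : ι → F) ≠ 0 := fun h => ha₀0 (Subtype.ext h)
  have hQa : Q (a₀ : ι → F) = 0 := hQa₀
  generalize (a₀ : ι → F) = a at ha ha0 hQa
  obtain ⟨f, hf, hQf, haf⟩ := exists_partner hQ hp ha ha0 hQa
  by_cases h1 : polar Q x a = 0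
  · by_cases h2 : polar Q x f = 0
    · obtain ⟨y, hy, hya, hyf, hxy⟩ := exists_adjust hQ hp ha hf hQa hQf haf hx h1 h2 hx0
      refine ⟨f + y - Q y • a, P.sub_mem (P.add_mem hf hy) (P.smul_mem _ ha), ?_, ?_⟩
      · exact Q_flip hQa hQf haf hya hyf
      · rw [polar_sub_right, polar_add_right, polar_sm_r, h1, h2]
        simpa using hxy
    · exact ⟨f, hf, hQf, h2⟩
  · exact ⟨a, ha, hQa, h1⟩

/-- Every vector of a summand is a combination of two singular vectors. -/
theorem split_two (hQ : Nondeg Q) (hp : OPair Q P P') (h3 : 3 ≤ finrank F P) {x : ι → F} (hx : x ∈ P) :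
    ∃ s ∈ P, ∃ e ∈ P, ∃ c : F, Q s = 0 ∧ Q e = 0 ∧ x = s + c • e := by
  by_cases hx0 : x = 0
  · exact ⟨0, P.zero_mem, 0, P.zero_mem, 0, map_zero _, map_zero _, by simp [hx0]⟩
  obtain ⟨e, he, hQe, hxe⟩ := exists_sing_non_perp hQ hp h3 hx hx0
  refine ⟨x - (Q x / polar Q x e) • e, P.sub_mem hx (P.smul_mem _ he), e, he, Q x / polar Q x e, ?_, hQe, by abel⟩
  rw [sub_eq_add_neg, Q_ad, QuadraticMap.map_neg, Q_sm, hQe, polar_neg_right, polar_sm_r]
  field_simp
  ring

variable {hQ : Nondeg Q} {M : Subgroup (GL ι F)}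

/-- The quadratic trick: the square term of a family of Siegel transformations with a fixed centre. -/
theorem R_step (h2 : (2 : F) ≠ 0) {X w a c : ι → F} (hQa : Q a = 0) (hac : polar Q a c = 0) (hXa : polar Q X a = 0)
    (hXc : polar Q X c = 0) (hQc : Q c ≠ 0) (hπ : polar Q w a ≠ 0) (hH : ∀ γ : F, R hQ M a (γ • c))
    (hw : R hQ M X w) (μ : F) : R hQ M X (μ • a) := by
  have hv : ∀ γ : F, R hQ M X ((γ * polar Q w a) • c - (γ * polar Q w c + γ ^ 2 * Q c * polar Q w a) • a) := by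
    intro γ
    obtain ⟨h1, h3, h4⟩ := hH γ
    have h5 := R_conj (sE_iso hQ h1 h3) h4 hw
    rw [sE_apply', sE_apply', hXa, polar_sm_r, hXc] at h5
    simp only [zero_smul, add_zero, mul_zero, sub_zero] at h5
    have h6 := R_sub h5 hw
    convert h6 using 1
    rw [polar_sm_r, Q_sm]
    module
  have hπ' : Q c * polar Q w a ≠ 0 := mul_ne_zero hQc hπ
  set γ₂ : F := μ / (-2 * (Q c * polar Q w a)) with hγ₂
  have h3 := R_sub (R_sub (hv (1 + γ₂)) (hv 1)) (hv γ₂)
  convert h3 using 1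
  have e : μ = -2 * γ₂ * (Q c * polar Q w a) := by
    rw [hγ₂]
    field_simp
  rw [e]
  module

/-- All second vectors in a block. -/
theorem left_all (h2 : (2 : F) ≠ 0) (hp : OPair Q P P') (h3 : 3 ≤ finrank F P) (hQ' : Nondeg Q)
    (hH : ∀ a ∈ P, Q a = 0 → ∀ y ∈ P, polar Q a y = 0 → R hQ M a y)
    {X Y : ι → F} (hX : ∀ z ∈ P, polar Q X z = 0) (hR : R hQ M X Y) {z₀ : ι → F} (hz₀ : z₀ ∈ P) (hYz : polar Q Y z₀ ≠ 0)
    {w : ι → F} (hw : w ∈ P) : R hQ M X w := by
  -- a singular vector `a` gives all its multiples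
  have hstep : ∀ {a v : ι → F}, a ∈ P → Q a = 0 → a ≠ 0 → R hQ M X v → polar Q v a ≠ 0 → ∀ μ : F, R hQ M X (μ • a) := by
    intro a v ha hQa ha0 hv hva μ
    obtain ⟨f, hf, hQf, haf⟩ := exists_partner hQ' hp ha ha0 hQa
    obtain ⟨c, hc, hac, -, hQc⟩ := exists_nonsing_perp hQ' hp h3 ha hf hQa hQf haf
    refine R_step h2 hQa hac (hX a ha) (hX c hc) hQc hva (fun γ => ?_) hv μ
    exact hH a ha hQa _ (P.smul_mem _ hc) (by rw [polar_sm_r, hac, mul_zero])
  -- reach one non-zero multiple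
  obtain ⟨Y₀, hY₀, Y₁, hY₁, hYd⟩ := hp.decomp Y
  have hY₀0 : Y₀ ≠ 0 := by
    rintro rfl
    apply hYz
    rw [hYd, zero_add]
    rw [polar_comm]
    exact hp.orth z₀ hz₀ Y₁ hY₁
  have hpolY : ∀ z ∈ P, polar Q Y z = polar Q Y₀ z := by
    intro z hz
    rw [hYd, polar_add_left, polar_comm Q Y₁ z, hp.orth z hz Y₁ hY₁, add_zero]
  obtain ⟨a₀, ha₀, hQa₀, hYa₀⟩ := exists_sing_non_perp hQ' hp h3 hY₀ hY₀0
  have ha₀0 : a₀ ≠ 0 := by
    rintro rfl
    exact hYa₀ (polar_zero_right _ _)
  have h1 : R hQ M X ((1 : F) • a₀) := hstep ha₀ hQa₀ ha₀0 hR (by rw [hpolY a₀ ha₀]; exact hYa₀) 1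
  rw [one_smul] at h1
  -- every singular vector
  have hsing : ∀ {a : ι → F}, a ∈ P → Q a = 0 → R hQ M X a := by
    intro a ha hQa
    by_cases ha0 : a = 0
    · rw [ha0]
      exact R_zero hR.sing
    have one_of : ∀ {b : ι → F}, (∀ μ : F, R hQ M X (μ • b)) → R hQ M X b := by
      intro b h
      have := h 1
      rwa [one_smul] at this
    by_cases h5 : polar Q a₀ a = 0
    · obtain ⟨f, hf, hQf, haf⟩ := exists_partner hQ' hp ha ha0 hQa
      by_cases h6 : polar Q a₀ f = 0
      · obtain ⟨y, hy, hya, hyf, hxy⟩ := exists_adjust hQ' hp ha hf hQa hQf haf ha₀ h5 h6 ha₀0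
        have hb : f + y - Q y • a ∈ P := P.sub_mem (P.add_mem hf hy) (P.smul_mem _ ha)
        have hQb : Q (f + y - Q y • a) = 0 := Q_flip hQa hQf haf hya hyf
        have h7 : polar Q a₀ (f + y - Q y • a) ≠ 0 := by
          rw [polar_sub_right, polar_add_right, polar_sm_r, h5, h6]
          simpa using hxy
        have h8 : polar Q (f + y - Q y • a) a = 1 := by
          rw [polar_sub_left, polar_add_left, polar_sm_l, polar_self_zero hQa, hya, polar_comm Q f a, haf]
          ring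
        have hb0 : f + y - Q y • a ≠ 0 := by
          intro h
          rw [h, polar_zero_right] at h7
          exact h7 rfl
        have h9 := one_of (hstep hb hQb hb0 h1 h7)
        exact one_of (hstep ha hQa ha0 h9 (by rw [h8]; exact one_ne_zero))
      · have hf0 : f ≠ 0 := by
          rintro rfl
          exact h6 (polar_zero_right _ _)
        have h9 := one_of (hstep hf hQf hf0 h1 h6)
        exact one_of (hstep ha hQa ha0 h9 (by rw [polar_comm, haf]; exact one_ne_zero))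
    · exact one_of (hstep ha hQa ha0 h1 h5)
  obtain ⟨s, hs, e, he, c, hQs, hQe, rfl⟩ := split_two hQ' hp h3 hw
  refine R_add (hsing hs hQs) ?_
  have := hsing (P.smul_mem c he) (by rw [Q_sm, hQe, mul_zero])
  exact this

end Cfsg.Agent.Lib.OmBlk
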