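import Mathlib
import Cfsg.Agent.Lib.OmBlk

/-!
# Decompositions into orthogonal blocks: components and the mixing lemmas
-/

set_option autoImplicit false
set_option linter.unusedSectionVars false
set_option linter.unusedVariables false

namespace Cfsg.Agent.Lib.OmBlk2

open Matrix QuadraticMap Cfsg Cfsg.Geo Module
open Cfsg.Agent.Lib.OrthoBasic Cfsg.Agent.Lib.OrthoSiegel Cfsg.Agent.Lib.OmCalc Cfsg.Agent.Lib.TvGL
  Cfsg.Agent.Lib.OmPerp Cfsg.Agent.Lib.OmNd Cfsg.Agent.Lib.OmK Cfsg.Agent.Lib.OmPair Cfsg.Agent.Lib.OmBlk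
open Cfsg.Agent.Lib.OrthGroup Cfsg.Agent.Lib.OrthOmega
open Cfsg.Agent.Lib.SympT (GL_ext mulVec_mul_GL mulVec_inv_GL inv_mulVec_GL linOf linOf_apply)
open Cfsg.Agent.Lib.QuadFF (polar_sm_r polar_sm_l Q_ad Q_sm IsHyp ND restr polar_restr exists_singular)

local notation:70 g:71 " ⋆ " x:70 => Matrix.mulVec (Units.val g) x

variable {ι : Type} [Fintype ι] [DecidableEq ι] {F : Type*} [Field F] [Fintype F]
  {Q : QuadraticForm F (ι → F)} {P P' : Submodule F (ι → F)} {hQ : Nondeg Q} {M : Subgroup (GL ι F)}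

/-- The data. -/
structure Ctx (hQ : Nondeg Q) {t : ℕ} (D : Fin t → Submodule F (ι → F)) (M : Subgroup (GL ι F)) : Prop where
  h2 : (2 : F) ≠ 0
  hp : ∀ l, OPair Q (D l) (perpQ Q (D l))
  hk : ∀ l, 3 ≤ finrank F (D l)
  hs : ∀ l, 5 ≤ finrank F (D l) ∨ 5 ≤ Fintype.card F
  hle : ∀ i j, i ≠ j → D i ≤ perpQ Q (D j)
  hsep : ∀ x, (∀ l, x ∈ perpQ Q (D l)) → x = 0
  hMi : ∀ t ∈ M, ∀ v, Q (t ⋆ v) = Q v
  hH : ∀ l, ∀ a ∈ D l, Q a = 0 → ∀ y ∈ D l, polar Q a y = 0 → R hQ M a y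
  hrefl : ∀ i j, ∀ a ∈ D i, ∀ c ∈ D j, Q a = Q c → Q a ≠ 0 → ∃ t ∈ M, ∀ x, t ⋆ x = refl Q a (refl Q c x)
  hswap : ∀ l m, l ≠ m → ∃ s ∈ M, (∀ x ∈ D l, s ⋆ x ∈ D m) ∧ (∀ x ∈ D m, s ⋆ x ∈ D l) ∧
    ∀ i, i ≠ l → i ≠ m → ∀ x ∈ D i, s ⋆ x = x
  hthree : ∀ j l : Fin t, ∃ m, m ≠ j ∧ m ≠ l

/-- Reflections. -/
theorem refl_eq (v x : ι → F) : refl Q v x = x - ((Q v)⁻¹ * polar Q x v) • v := refl_apply Q v x

theorem refl_of_perp {v x : ι → F} (h : polar Q x v = 0) : refl Q v x = x := by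
  rw [refl_eq, h]
  simp

theorem pol_self (x : ι → F) : polar Q x x = 2 * Q x := by
  rw [QuadraticMap.polar_self, two_smul, ← two_mul]

section Pr

variable {t : ℕ} {D : Fin t → Submodule F (ι → F)}

/-- The component in a block. -/
noncomputable def pr (C : Ctx hQ D M) (l : Fin t) (x : ι → F) : ι → F := Classical.choose ((C.hp l).decomp x)

variable (C : Ctx hQ D M)
include C

theorem pr_mem (l : Fin t) (x : ι → F) : pr C l x ∈ D l := (Classical.choose_spec ((C.hp l).decomp x)).1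

theorem sub_pr_mem (l : Fin t) (x : ι → F) : x - pr C l x ∈ perpQ Q (D l) := by
  obtain ⟨h, z, hz, e⟩ := Classical.choose_spec ((C.hp l).decomp x)
  have : x - pr C l x = z := by
    rw [sub_eq_iff_eq_add']
    exact e
  rw [this]
  exact hz

/-- Uniqueness of components. -/
theorem pr_eq {l : Fin t} {x a : ι → F} (ha : a ∈ D l) (h : x - a ∈ perpQ Q (D l)) : pr C l x = a := by
  have h1 : pr C l x - a ∈ D l := (D l).sub_mem (pr_mem C l x) ha
  have h2 : pr C l x - a ∈ perpQ Q (D l) := by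
    have := (perpQ Q (D l)).sub_mem h (sub_pr_mem C l x)
    convert this using 1
    abel
  exact sub_eq_zero.1 ((C.hp l).eq_zero h1 h2)

theorem pr_of_mem {l : Fin t} {z : ι → F} (hz : z ∈ D l) : pr C l z = z :=
  pr_eq C hz (by simp)

theorem pr_of_perp {l : Fin t} {x : ι → F} (hx : x ∈ perpQ Q (D l)) : pr C l x = 0 :=
  pr_eq C (D l).zero_mem (by simpa using hx)

theorem perp_of_pr {l : Fin t} {x : ι → F} (hx : pr C l x = 0) : x ∈ perpQ Q (D l) := by
  have := sub_pr_mem C l x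
  rwa [hx, sub_zero] at this

theorem pr_other {l j : Fin t} (hlj : j ≠ l) {z : ι → F} (hz : z ∈ D j) : pr C l z = 0 :=
  pr_of_perp C (C.hle j l hlj hz)

theorem pr_add (l : Fin t) (x y : ι → F) : pr C l (x + y) = pr C l x + pr C l y := by
  refine pr_eq C ((D l).add_mem (pr_mem C l x) (pr_mem C l y)) ?_
  have := (perpQ Q (D l)).add_mem (sub_pr_mem C l x) (sub_pr_mem C l y)
  convert this using 1
  abel

theorem pr_smul (l : Fin t) (c : F) (x : ι → F) : pr C l (c • x) = c • pr C l x := by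
  refine pr_eq C ((D l).smul_mem c (pr_mem C l x)) ?_
  have := (perpQ Q (D l)).smul_mem c (sub_pr_mem C l x)
  rwa [smul_sub] at this

theorem pr_zero (l : Fin t) : pr C l 0 = 0 := pr_of_mem C (D l).zero_mem

theorem pr_neg (l : Fin t) (x : ι → F) : pr C l (-x) = - pr C l x := by
  have := pr_smul C l (-1) x
  simpa using this

theorem pr_sub (l : Fin t) (x y : ι → F) : pr C l (x - y) = pr C l x - pr C l y := by
  rw [sub_eq_add_neg, pr_add, pr_neg, sub_eq_add_neg]

/-- The polar form against a block only sees the component. -/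
theorem polar_pr {l : Fin t} (x : ι → F) {z : ι → F} (hz : z ∈ D l) : polar Q x z = polar Q (pr C l x) z := by
  have h1 := mem_perpQ.1 (sub_pr_mem C l x) z hz
  rw [polar_comm, polar_sub_left, sub_eq_zero] at h1
  exact h1

theorem polar_orth {i j : Fin t} (hij : i ≠ j) {x y : ι → F} (hx : x ∈ D i) (hy : y ∈ D j) : polar Q x y = 0 :=
  mem_perpQ.1 (C.hle i j hij hx) y hy |> fun h => by rw [polar_comm]; exact h

theorem polar_of_pr {l : Fin t} {x z : ι → F} (h : pr C l x = 0) (hz : z ∈ D l) : polar Q x z = 0 := by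
  rw [polar_pr C x hz, h, polar_zero_left]

theorem exists_pr_ne {x : ι → F} (hx : x ≠ 0) : ∃ l, pr C l x ≠ 0 := by
  by_contra hcon
  push Not at hcon
  exact hx (C.hsep x (fun l => perp_of_pr C (hcon l)))

theorem eq_of_pr {x y : ι → F} (h : ∀ l, pr C l x = pr C l y) : x = y := by
  have : x - y = 0 := by
    apply C.hsep
    intro l
    apply perp_of_pr C
    rw [pr_sub, h, sub_self]
  exact sub_eq_zero.1 this

theorem Q_pr (l : Fin t) (x : ι → F) : Q x = Q (pr C l x) + Q (x - pr C l x) := by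
  have h1 : x = pr C l x + (x - pr C l x) := by abel
  have h2 : polar Q (pr C l x) (x - pr C l x) = 0 := mem_perpQ.1 (sub_pr_mem C l x) _ (pr_mem C l x)
  conv_lhs => rw [h1]
  rw [Q_ad, h2, add_zero]

/-- A singular non-zero vector in a block. -/
theorem exists_sing (l : Fin t) : ∃ a ∈ D l, a ≠ 0 ∧ Q a = 0 := by
  obtain ⟨a, ha0, hQa⟩ := exists_singular (restr Q (D l)) (C.hk l)
  exact ⟨a, a.2, fun h => ha0 (Subtype.ext h), hQa⟩

/-- The goal of this section: a good mixed family. -/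
def G₀ (C : Ctx hQ D M) : Prop :=
  ∃ i j, i ≠ j ∧ ∃ b ∈ D i, b ≠ 0 ∧ Q b = 0 ∧ ∀ w ∈ D j, R hQ M b w

/-- Shifting the first vector. -/
theorem R_shift {e y : ι → F} (h : R hQ M e y) (hy : Q y = 0) (c : F) : R hQ M (e + c • y) y := by
  obtain ⟨he, hey, h1⟩ := h
  have h3 : Q (e + c • y) = 0 := by
    rw [Q_ad, Q_sm, he, hy, polar_sm_r, hey]
    ring
  have h4 : polar Q (e + c • y) y = 0 := by
    rw [polar_add_left, polar_sm_l, hey, polar_self_zero hy]
    ring
  refine ⟨h3, h4, ?_⟩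
  convert h1 using 1
  apply GL_ext
  intro x
  rw [sE_apply', sE_apply', polar_add_right, polar_sm_r, hy]
  simp only [zero_mul, add_zero]
  module

theorem star {X Y : ι → F} {l : Fin t} (hR : R hQ M X Y) (hX0 : X ≠ 0) (hXl : pr C l X = 0) (hYl : pr C l Y ≠ 0) :
    G₀ C := by
  have hall : ∀ (i : Fin t) {X Y : ι → F}, R hQ M X Y → pr C i X = 0 → pr C i Y ≠ 0 → ∀ w ∈ D i, R hQ M X w := by
    intro i X Y hR hXi hYi w hw
    obtain ⟨z, hz, hz'⟩ := (C.hp i).nondeg hQ (pr_mem C i Y) hYi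
    refine left_all C.h2 (C.hp i) (C.hk i) hQ (C.hH i) (fun z hz => polar_of_pr C hXi hz) hR hz ?_ hw
    rwa [polar_pr C Y hz]
  obtain ⟨w₀, hw₀, hw₀0, hQw₀⟩ := exists_sing C l
  have h1 : R hQ M w₀ X := R_swap' (hall l hR hXl hYl w₀ hw₀) hQw₀
  obtain ⟨j, hj⟩ := exists_pr_ne C hX0
  have hjl : j ≠ l := by
    rintro rfl
    exact hj hXl
  exact ⟨l, j, hjl.symm, w₀, hw₀, hw₀0, hQw₀, hall j h1 (pr_other C hjl.symm hw₀) hj⟩


omit C in
theorem exists_mu (h5 : 5 ≤ Fintype.card F) : ∃ μ : F, μ ≠ 0 ∧ μ ^ 2 ≠ 1 := by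
  classical
  by_contra hcon
  push Not at hcon
  have h3 : (Finset.univ : Finset F) ⊆ {0, 1, -1} := by
    intro x _
    by_cases hx : x = 0
    · simp [hx]
    have e1 := hcon x hx
    have e2 : (x - 1) * (x + 1) = 0 := by linear_combination e1
    rcases mul_eq_zero.1 e2 with e3 | e3
    · have : x = 1 := sub_eq_zero.1 e3
      simp [this]
    · have : x = -1 := eq_neg_of_add_eq_zero_left e3
      simp [this]
  have h4 := Finset.card_le_card h3
  have h6 : ({0, 1, -1} : Finset F).card ≤ 3 := Finset.card_le_three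
  rw [Finset.card_univ] at h4
  omega

/-- Moving a singular vector inside its block to a vector orthogonal to it. -/
theorem exists_move {m : Fin t} {a : ι → F} (ha : a ∈ D m) (ha0 : a ≠ 0) (hQa : Q a = 0) :
    ∃ s ∈ M, ∃ z ∈ D m, Q z = 0 ∧ z ≠ 0 ∧ polar Q a z = 0 ∧ s ⋆ a = a + z ∧ ∀ x ∈ perpQ Q (D m), s ⋆ x = x := by
  classical
  obtain ⟨f, hf, hQf, haf⟩ := exists_partner hQ (C.hp m) ha ha0 hQa
  have hfa : polar Q f a = 1 := by rw [polar_comm]; exact haf
  have hperp : ∀ {x v : ι → F}, x ∈ perpQ Q (D m) → v ∈ D m → polar Q x v = 0 := by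
    intro x v hx hv
    rw [polar_comm]
    exact mem_perpQ.1 hx v hv
  rcases C.hs m with h5 | h5
  · set S : Submodule F (ι → F) := Submodule.span F {a, f} with hS
    have h1 : finrank F (D m) ≤ finrank F ↥(D m ⊓ perpQ Q S) + finrank F S := finrank_inf_perp hQ (D m) S
    have h2 : finrank F S ≤ 2 := by
      have := finrank_span_finset_le_card (R := F) ({a, f} : Finset (ι → F))
      simp only [Finset.coe_insert, Finset.coe_singleton] at this
      exact this.trans Finset.card_le_two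
    obtain ⟨z, hz0, hQz⟩ := exists_singular (restr Q (D m ⊓ perpQ Q S)) (by omega)
    have hzm : (z : ι → F) ∈ D m := z.2.1
    have haz : polar Q a z = 0 := mem_perpQ.1 z.2.2 a (Submodule.subset_span (by simp))
    have hfz : polar Q f z = 0 := mem_perpQ.1 z.2.2 f (Submodule.subset_span (by simp))
    have hQz' : Q (z : ι → F) = 0 := hQz
    obtain ⟨h3, h4, h6⟩ := C.hH m f hf hQf z hzm hfz
    refine ⟨sE hQ h3 h4, h6, z, hzm, hQz', fun h => hz0 (Subtype.ext h), haz, ?_, fun x hx => ?_⟩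
    · rw [sE_apply', haf, haz, hQz']
      simp
    · rw [sE_apply', hperp hx hf, hperp hx hzm]
      simp
  · obtain ⟨μ, hμ, hμ1⟩ := exists_mu h5
    have hv₁ : a - f ∈ D m := (D m).sub_mem ha hf
    have hv₂ : μ⁻¹ • a - μ • f ∈ D m := (D m).sub_mem ((D m).smul_mem _ ha) ((D m).smul_mem _ hf)
    have hQ₁ : Q (a - f) = -1 := by
      rw [sub_eq_add_neg, Q_ad, QuadraticMap.map_neg, hQa, hQf, polar_neg_right, haf]
      ring
    have hQ₂ : Q (μ⁻¹ • a - μ • f) = -1 := by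
      rw [sub_eq_add_neg, Q_ad, QuadraticMap.map_neg, Q_sm, Q_sm, hQa, hQf, polar_neg_right, polar_sm_l, polar_sm_r, haf]
      field_simp
      ring
    obtain ⟨s, hs, hs'⟩ := C.hrefl m m _ hv₁ _ hv₂ (by rw [hQ₁, hQ₂]) (by rw [hQ₁]; simp)
    refine ⟨s, hs, (μ ^ 2 - 1) • a, (D m).smul_mem _ ha, by rw [Q_sm, hQa, mul_zero],
      smul_ne_zero (sub_ne_zero.2 hμ1) ha0, by rw [polar_sm_r, polar_self_zero hQa, mul_zero], ?_, fun x hx => ?_⟩
    · rw [hs', refl_eq (μ⁻¹ • a - μ • f) a, hQ₂, polar_sub_right, polar_sm_r, polar_sm_r, polar_self_zero hQa, haf]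
      have e1 : a - ((-1 : F)⁻¹ * (μ⁻¹ * 0 - μ * 1)) • (μ⁻¹ • a - μ • f) = (μ ^ 2) • f := by
        have e2 : ((-1 : F)⁻¹ * (μ⁻¹ * 0 - μ * 1)) = μ := by
          field_simp
          ring
        rw [e2, smul_sub, smul_smul, smul_smul, mul_inv_cancel₀ hμ, one_smul, sub_sub_cancel, pow_two]
      rw [e1, refl_eq, hQ₁, polar_sm_l, polar_sub_right, hfa, polar_self_zero hQf]
      have e2 : ((-1 : F)⁻¹ * (μ ^ 2 * (1 - 0))) = - μ ^ 2 := by
        field_simp
        ring
      rw [e2]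
      module
    · rw [hs', refl_of_perp (hperp hx hv₂), refl_of_perp (hperp hx hv₁)]

/-- Singular component, independent second component. -/
theorem sing1 {X Y : ι → F} {m : Fin t} (hR : R hQ M X Y) (hpm : pr C m X ≠ 0) (hQm : Q (pr C m X) = 0)
    (hb : X - pr C m X ≠ 0) (hY : ∀ c : F, pr C m Y ≠ c • pr C m X) : G₀ C := by
  set a := pr C m X with ha'
  have ha : a ∈ D m := pr_mem C m X
  have hXa : polar Q X a = 0 := by
    rw [polar_pr C X ha, ← ha', polar_self_zero hQm]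
  have hXz : ∀ z ∈ D m, polar Q a z = 0 → polar Q X z = 0 := by
    intro z hz h
    rw [polar_pr C X hz, ← ha', h]
  -- a non-zero multiple of `a`
  have hμ : ∃ μ : F, μ ≠ 0 ∧ R hQ M X (μ • a) := by
    by_cases hπ : polar Q Y a = 0
    · have hsp : Submodule.span F {a} ≤ D m := by
        rw [Submodule.span_singleton_le_iff_mem]
        exact ha
      have hy : pr C m Y ∉ Submodule.span F {a} := by
        intro h
        obtain ⟨c, hc⟩ := Submodule.mem_span_singleton.1 h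
        exact hY c hc.symm
      obtain ⟨z, hz, h1, h2⟩ := (C.hp m).sep_in hQ hsp (pr_mem C m Y) hy
      have haz : polar Q a z = 0 := h1 a (Submodule.mem_span_singleton_self a)
      obtain ⟨h3, h4, h5⟩ := C.hH m a ha hQm z hz haz
      have h6 := R_conj (sE_iso hQ h3 h4) h5 hR
      rw [sE_apply', sE_apply', hXa, hXz z hz haz, hπ] at h6
      simp only [zero_smul, add_zero, mul_zero, sub_zero] at h6
      have h7 := R_sub h6 hR
      have e : Y - polar Q Y z • a - Y = (-polar Q Y z) • a := by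
        rw [neg_smul]
        abel
      rw [e] at h7
      refine ⟨_, ?_, h7⟩
      rw [polar_pr C Y hz]
      exact neg_ne_zero.2 h2
    · obtain ⟨f, hf, hQf, haf⟩ := exists_partner hQ (C.hp m) ha hpm hQm
      obtain ⟨c, hc, hac, -, hQc⟩ := exists_nonsing_perp hQ (C.hp m) (C.hk m) ha hf hQm hQf haf
      refine ⟨1, one_ne_zero, R_step C.h2 hQm hac hXa (hXz c hc hac) hQc hπ (fun γ => ?_) hR 1⟩
      exact C.hH m a ha hQm _ ((D m).smul_mem _ hc) (by rw [polar_sm_r, hac, mul_zero])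
  obtain ⟨μ, hμ0, hRμ⟩ := hμ
  have h1 := R_shift C hRμ (by rw [Q_sm, hQm, mul_zero]) (-μ⁻¹)
  have e : X + (-μ⁻¹) • μ • a = X - a := by
    rw [smul_smul, neg_mul, inv_mul_cancel₀ hμ0]
    simp [sub_eq_add_neg]
  rw [e] at h1
  have h2 := R_swap' h1 (by rw [Q_sm, hQm, mul_zero])
  obtain ⟨j, hj⟩ := exists_pr_ne C hb
  have hjm : j ≠ m := by
    rintro rfl
    apply hj
    exact pr_of_perp C (sub_pr_mem C j X)
  exact star C h2 (smul_ne_zero hμ0 hpm) (pr_other C hjm.symm ((D m).smul_mem _ ha)) hj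

/-- Singular component, dependent second component. -/
theorem sing2 {X Y : ι → F} {m : Fin t} (hR : R hQ M X Y) (hpm : pr C m X ≠ 0) (hQm : Q (pr C m X) = 0)
    (hb : X - pr C m X ≠ 0) (hYX : ∀ c : F, Y ≠ c • X) {c : F} (hc : pr C m Y = c • pr C m X) : G₀ C := by
  set a := pr C m X with ha'
  have ha : a ∈ D m := pr_mem C m X
  obtain ⟨W, hW⟩ : ∃ W, W = Y - c • X := ⟨_, rfl⟩
  have hRW : R hQ M X W := by
    have := R_add_smul hR (-c)
    rwa [neg_smul, ← sub_eq_add_neg, ← hW] at this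
  have hW0 : W ≠ 0 := by
    rw [hW]
    exact sub_ne_zero.2 (hYX c)
  have hWm : pr C m W = 0 := by
    rw [hW, pr_sub, pr_smul, hc, ← ha', sub_self]
  obtain ⟨s, hs, z, hz, hQz, hz0, haz, hsa, hsx⟩ := exists_move C ha hpm hQm
  have hsi := C.hMi s hs
  have hb' : X - a ∈ perpQ Q (D m) := sub_pr_mem C m X
  have hsX : s ⋆ X = X + z := by
    have e : X = a + (X - a) := by abel
    conv_lhs => rw [e]
    rw [Matrix.mulVec_add, hsa, hsx _ hb']
    abel
  have hsW : s ⋆ W = W := hsx W (perp_of_pr C hWm)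
  have h1 := R_conj hsi hs hRW
  rw [hsX, hsW] at h1
  have hQX : Q X = 0 := hRW.sing
  have hzX : polar Q z X = 0 := by
    rw [polar_comm, polar_pr C X hz, ← ha']
    exact haz
  have hzW : polar Q z W = 0 := by
    rw [polar_comm]
    exact polar_of_pr C hWm hz
  by_cases hc₀ : Q W = 0
  · have h2 := R_sub (R_swap' h1 hc₀) (R_swap' hRW hc₀)
    rw [add_sub_cancel_left] at h2
    exact star C h2 hW0 hWm (by rwa [pr_of_mem C hz])
  · obtain ⟨h3, h4, h5⟩ := id hRW
    have h6 := R_conj (sE_iso hQ h3 h4) h5 h1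
    have e1 : polar Q (X + z) X = 0 := by
      rw [polar_add_left, polar_self_zero hQX, hzX, add_zero]
    have e2 : polar Q (X + z) W = 0 := by
      rw [polar_add_left, hRW.perp, hzW, add_zero]
    have e3 : polar Q W X = 0 := by
      rw [polar_comm]
      exact hRW.perp
    rw [sE_apply', sE_apply', e1, e2, e3, pol_self] at h6
    simp only [zero_smul, add_zero, mul_zero, sub_zero] at h6
    have h7 := R_sub h1 h6
    have e4 : W - (W - (2 * Q W) • X) = (2 * Q W) • X := by abel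
    rw [e4] at h7
    have hκ : 2 * Q W ≠ 0 := mul_ne_zero C.h2 hc₀
    have h8 := R_shift C h7 (by rw [Q_sm, hQX, mul_zero]) (-(2 * Q W)⁻¹)
    have e5 : X + z + (-(2 * Q W)⁻¹) • (2 * Q W) • X = z := by
      rw [smul_smul, neg_mul, inv_mul_cancel₀ hκ]
      simp
    rw [e5] at h8
    obtain ⟨j, hj⟩ := exists_pr_ne C hb
    have hjm : j ≠ m := by
      rintro rfl
      apply hj
      exact pr_of_perp C (sub_pr_mem C j X)
    refine star C h8 hz0 (pr_other C hjm.symm hz) ?_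
    rw [pr_smul]
    refine smul_ne_zero hκ ?_
    rw [pr_sub, pr_other C hjm.symm ha, sub_zero] at hj
    exact hj

theorem sing {X Y : ι → F} {m : Fin t} (hR : R hQ M X Y) (hpm : pr C m X ≠ 0) (hQm : Q (pr C m X) = 0)
    (hb : X - pr C m X ≠ 0) (hYX : ∀ c : F, Y ≠ c • X) : G₀ C := by
  by_cases hc : ∃ c : F, pr C m Y = c • pr C m X
  · obtain ⟨c, hc⟩ := hc
    exact sing2 C hR hpm hQm hb hYX hc
  · push Not at hc
    exact sing1 C hR hpm hQm hb hc

end Pr

end Cfsg.Agent.Lib.OmBlk2
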