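import Mathlib
import Cfsg.Agent.Lib.OmBlk2

/-!
# Decompositions into orthogonal blocks: non-singular components
-/

set_option autoImplicit false
set_option linter.unusedSectionVars false
set_option linter.unusedVariables false

namespace Cfsg.Agent.Lib.OmBlk3

open Matrix QuadraticMap Cfsg Cfsg.Geo Module
open Cfsg.Agent.Lib.OrthoBasic Cfsg.Agent.Lib.OrthoSiegel Cfsg.Agent.Lib.OmCalc Cfsg.Agent.Lib.TvGL
  Cfsg.Agent.Lib.OmPerp Cfsg.Agent.Lib.OmNd Cfsg.Agent.Lib.OmK Cfsg.Agent.Lib.OmPair Cfsg.Agent.Lib.OmBlk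
  Cfsg.Agent.Lib.OmBlk2
open Cfsg.Agent.Lib.OrthGroup Cfsg.Agent.Lib.OrthOmega
open Cfsg.Agent.Lib.SympT (GL_ext mulVec_mul_GL mulVec_inv_GL inv_mulVec_GL linOf linOf_apply)
open Cfsg.Agent.Lib.QuadFF (polar_sm_r polar_sm_l Q_ad Q_sm IsHyp ND restr polar_restr exists_singular)

local notation:70 g:71 " ⋆ " x:70 => Matrix.mulVec (Units.val g) x

variable {ι : Type} [Fintype ι] [DecidableEq ι] {F : Type*} [Field F] [Fintype F]
  {Q : QuadraticForm F (ι → F)} {P P' : Submodule F (ι → F)} {hQ : Nondeg Q} {M : Subgroup (GL ι F)}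

/-! ### Vectors in a summand orthogonal to a non-singular vector -/

theorem perp_mem {A v : ι → F} (h : v ∈ P ⊓ perpQ Q (Submodule.span F {A})) : polar Q v A = 0 := by
  rw [polar_comm]
  exact mem_perpQ.1 h.2 A (Submodule.mem_span_singleton_self A)

theorem mem_perp {A v : ι → F} (hv : v ∈ P) (h : polar Q v A = 0) : v ∈ P ⊓ perpQ Q (Submodule.span F {A}) := by
  refine ⟨hv, mem_perpQ.2 (fun w hw => ?_)⟩
  obtain ⟨c, rfl⟩ := Submodule.mem_span_singleton.1 hw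
  rw [polar_sm_l, polar_comm, h, mul_zero]

/-- Prescribed value orthogonal to a non-singular vector. -/
theorem value_perp (hQ' : Nondeg Q) (h2 : (2 : F) ≠ 0) (hp : OPair Q P P') (h3 : 3 ≤ finrank F P) {A : ι → F} (hA : A ∈ P)
    (hQA : Q A ≠ 0) {δ : F} (hδ : δ ≠ 0) : ∃ v ∈ P, polar Q v A = 0 ∧ Q v = δ := by
  obtain ⟨hN, hf⟩ := opair_perp hQ' h2 hp hA hQA
  obtain ⟨v, hv, hv'⟩ := value_in hQ' hN (by omega) hδ
  exact ⟨v, hv.1, perp_mem hv, hv'⟩

theorem exists_nonsing_in (hQ' : Nondeg Q) (hp : OPair Q P P') (h1 : 1 ≤ finrank F P) : ∃ b ∈ P, Q b ≠ 0 := by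
  obtain ⟨b, hb, hb0⟩ : ∃ b ∈ P, b ≠ 0 := Cfsg.Agent.Lib.QForm.exists_ne_zero_mem h1
  obtain ⟨z, hz, hz'⟩ := hp.nondeg hQ' hb hb0
  by_cases h3 : Q b = 0
  · by_cases h4 : Q z = 0
    · refine ⟨b + z, P.add_mem hb hz, ?_⟩
      rw [Q_ad, h3, h4]
      simpa using hz'
    · exact ⟨z, hz, h4⟩
  · exact ⟨b, hb, h3⟩

/-- Another vector of the same norm orthogonal to `A`. -/
theorem exists_other (hQ' : Nondeg Q) (h2 : (2 : F) ≠ 0) (hp : OPair Q P P') (h3 : 3 ≤ finrank F P)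
    (hs : 5 ≤ finrank F P ∨ 5 ≤ Fintype.card F) {A a₁ : ι → F} (hA : A ∈ P) (hQA : Q A ≠ 0) (ha₁ : a₁ ∈ P)
    (hperp : polar Q a₁ A = 0) (hQ₁ : Q a₁ ≠ 0) : ∃ a₂ ∈ P, polar Q a₂ A = 0 ∧ Q a₂ = Q a₁ ∧ ∀ s : F, a₂ ≠ s • a₁ := by
  classical
  obtain ⟨hN, hf⟩ := opair_perp hQ' h2 hp hA hQA
  have ha₁N := mem_perp (A := A) ha₁ hperp
  obtain ⟨hN', hf'⟩ := opair_perp hQ' h2 hN ha₁N hQ₁
  rcases hs with h5 | h5
  · obtain ⟨a₂, ha₂, ha₂'⟩ := value_in hQ' hN' (by omega) hQ₁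
    refine ⟨a₂, ha₂.1.1, perp_mem ha₂.1, ha₂', fun s hs => ?_⟩
    have h6 : polar Q a₂ a₁ = 0 := perp_mem ha₂
    rw [hs, polar_sm_l, pol_self] at h6
    have h7 : s = 0 := by
      rcases mul_eq_zero.1 h6 with h | h
      · exact h
      · exact absurd h (mul_ne_zero h2 hQ₁)
    rw [h7, zero_smul] at hs
    rw [hs, map_zero] at ha₂'
    exact hQ₁ ha₂'.symm
  · obtain ⟨b, hb, hQb⟩ := exists_nonsing_in hQ' hN' (by omega)
    set κ : F := Q b / Q a₁ with hκ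
    have hκb : Q b = κ * Q a₁ := by
      rw [hκ]
      field_simp
    have hκ0 : κ ≠ 0 := div_ne_zero hQb hQ₁
    obtain ⟨s, hs0, hs1⟩ : ∃ s : F, s ≠ 0 ∧ 1 + κ * s ^ 2 ≠ 0 := by
      by_cases h6 : 1 + κ = 0
      · obtain ⟨μ, hμ, hμ1⟩ := exists_mu h5
        refine ⟨μ, hμ, ?_⟩
        have : κ = -1 := eq_neg_of_add_eq_zero_right h6
        rw [this]
        intro h
        apply hμ1
        linear_combination -h
      · exact ⟨1, one_ne_zero, by simpa using h6⟩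
    have hbA : polar Q b A = 0 := perp_mem hb.1
    have hba : polar Q b a₁ = 0 := perp_mem hb
    have hab : polar Q a₁ b = 0 := by rw [polar_comm]; exact hba
    refine ⟨((1 - κ * s ^ 2) / (1 + κ * s ^ 2)) • a₁ + (2 * s / (1 + κ * s ^ 2)) • b,
      P.add_mem (P.smul_mem _ ha₁) (P.smul_mem _ hb.1.1), ?_, ?_, fun s' hs' => ?_⟩
    · rw [polar_add_left, polar_sm_l, polar_sm_l, hperp, hbA]
      ring
    · rw [Q_ad, Q_sm, Q_sm, polar_sm_l, polar_sm_r, hab, hκb]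
      field_simp
      ring
    · have h6 : polar Q (((1 - κ * s ^ 2) / (1 + κ * s ^ 2)) • a₁ + (2 * s / (1 + κ * s ^ 2)) • b) b = polar Q (s' • a₁) b := by
        rw [hs']
      rw [polar_add_left, polar_sm_l, polar_sm_l, polar_sm_l, hab, pol_self] at h6
      simp only [mul_zero, zero_add] at h6
      have h7 : 2 * s / (1 + κ * s ^ 2) ≠ 0 := div_ne_zero (mul_ne_zero h2 hs0) hs1
      exact (mul_ne_zero h7 (mul_ne_zero h2 hQb)) h6

/-- A vector with a prescribed inner product and value. -/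
theorem exists_z' (hQ' : Nondeg Q) (h2 : (2 : F) ≠ 0) (hp : OPair Q P P') (h3 : 3 ≤ finrank F P) {A : ι → F} (hA : A ∈ P)
    (hQA : Q A ≠ 0) {π : F} (hπ : π ≠ 0) : ∃ z ∈ P, polar Q z A = π ∧ Q z = -π := by
  have h4 : 2 * Q A ≠ 0 := mul_ne_zero h2 hQA
  set α : F := π / (2 * Q A) with hα
  have hαe : 2 * α * Q A = π := by
    rw [hα]
    field_simp
  obtain ⟨n, hn, hnA, hQn⟩ : ∃ n ∈ P, polar Q n A = 0 ∧ Q n = -(2 * α + α ^ 2) * Q A := by
    by_cases hv : -(2 * α + α ^ 2) * Q A = 0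
    · exact ⟨0, P.zero_mem, polar_zero_left _ _, by rw [hv, map_zero]⟩
    · exact value_perp hQ' h2 hp h3 hA hQA hv
  refine ⟨α • A + n, P.add_mem (P.smul_mem _ hA) hn, ?_, ?_⟩
  · rw [polar_add_left, polar_sm_l, pol_self, hnA]
    linear_combination hαe
  · rw [Q_ad, Q_sm, polar_sm_l, polar_comm Q A n, hnA, hQn]
    linear_combination -hαe

/-- A vector with an inner product avoiding a value, independent of `A`. -/
theorem exists_z (hQ' : Nondeg Q) (h2 : (2 : F) ≠ 0) (hp : OPair Q P P') (h3 : 3 ≤ finrank F P)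
    (hs : 5 ≤ finrank F P ∨ 5 ≤ Fintype.card F) {A : ι → F} (hA : A ∈ P) (hQA : Q A ≠ 0) (ε : F) :
    ∃ z ∈ P, ∃ π : F, π ≠ 0 ∧ π ≠ ε ∧ polar Q z A = π ∧ Q z = -π ∧ ∀ s : F, z ≠ s • A := by
  classical
  have h4 : 2 * Q A ≠ 0 := mul_ne_zero h2 hQA
  obtain ⟨hN, hf⟩ := opair_perp hQ' h2 hp hA hQA
  have hcard : 3 ≤ Fintype.card F := by
    by_contra hcon
    have h5 : 1 < Fintype.card F := Fintype.one_lt_card
    have h6 : Fintype.card F = 2 := by omega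
    apply h2
    have h7 : ((Fintype.card F : ℕ) : F) = 0 := FiniteField.cast_card_eq_zero F
    rw [h6] at h7
    exact_mod_cast h7
  obtain ⟨α, hα0, hαe, n, hn, hnA, hQn, hn0⟩ : ∃ α : F, α ≠ 0 ∧ α ≠ ε / (2 * Q A) ∧
      ∃ n ∈ P, polar Q n A = 0 ∧ Q n = -(2 * α + α ^ 2) * Q A ∧ n ≠ 0 := by
    rcases hs with h5 | h5
    · obtain ⟨α, hα⟩ : ∃ α : F, α ∉ ({0, ε / (2 * Q A)} : Finset F) := by
        by_contra hcon
        push Not at hcon
        have h6 : (Finset.univ : Finset F) ⊆ {0, ε / (2 * Q A)} := fun x _ => hcon x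
        have h7 := Finset.card_le_card h6
        have h8 : ({0, ε / (2 * Q A)} : Finset F).card ≤ 2 := Finset.card_le_two
        rw [Finset.card_univ] at h7
        omega
      simp only [Finset.mem_insert, Finset.mem_singleton, not_or] at hα
      refine ⟨α, hα.1, hα.2, ?_⟩
      by_cases hv : -(2 * α + α ^ 2) * Q A = 0
      · obtain ⟨n, hn0, hQn⟩ := exists_singular (restr Q (P ⊓ perpQ Q (Submodule.span F {A}))) (by omega)
        exact ⟨n, n.2.1, perp_mem n.2, by rw [hv]; exact hQn, fun h => hn0 (Subtype.ext h)⟩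
      · obtain ⟨n, hn, hnA, hQn⟩ := value_perp hQ' h2 hp h3 hA hQA hv
        refine ⟨n, hn, hnA, hQn, ?_⟩
        rintro rfl
        rw [map_zero] at hQn
        exact hv hQn.symm
    · obtain ⟨α, hα⟩ : ∃ α : F, α ∉ ({0, -2, ε / (2 * Q A)} : Finset F) := by
        by_contra hcon
        push Not at hcon
        have h6 : (Finset.univ : Finset F) ⊆ {0, -2, ε / (2 * Q A)} := fun x _ => hcon x
        have h7 := Finset.card_le_card h6
        have h8 : ({0, -2, ε / (2 * Q A)} : Finset F).card ≤ 3 := Finset.card_le_three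
        rw [Finset.card_univ] at h7
        omega
      simp only [Finset.mem_insert, Finset.mem_singleton, not_or] at hα
      refine ⟨α, hα.1, hα.2.2, ?_⟩
      have hv : -(2 * α + α ^ 2) * Q A ≠ 0 := by
        have e : -(2 * α + α ^ 2) * Q A = -(α * (α + 2)) * Q A := by ring
        rw [e]
        refine mul_ne_zero (neg_ne_zero.2 (mul_ne_zero hα.1 ?_)) hQA
        intro h
        exact hα.2.1 (eq_neg_of_add_eq_zero_left h)
      obtain ⟨n, hn, hnA, hQn⟩ := value_perp hQ' h2 hp h3 hA hQA hv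
      refine ⟨n, hn, hnA, hQn, ?_⟩
      rintro rfl
      rw [map_zero] at hQn
      exact hv hQn.symm
  refine ⟨α • A + n, P.add_mem (P.smul_mem _ hA) hn, 2 * α * Q A, mul_ne_zero (mul_ne_zero h2 hα0) hQA, ?_, ?_, ?_, fun s hs => ?_⟩
  · intro h
    apply hαe
    rw [← h]
    field_simp
  · rw [polar_add_left, polar_sm_l, pol_self, hnA]
    ring
  · rw [Q_ad, Q_sm, polar_sm_l, polar_comm Q A n, hnA, hQn]
    ring
  · have e1 : n = (s - α) • A := by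
      rw [sub_smul, ← hs]
      abel
    have e2 := hnA
    rw [e1, polar_sm_l, pol_self] at e2
    have e3 : s - α = 0 := by
      rcases mul_eq_zero.1 e2 with h | h
      · exact h
      · exact absurd h h4
    rw [e3, zero_smul] at e1
    exact hn0 e1

section Main

variable {t : ℕ} {D : Fin t → Submodule F (ι → F)} (C : Ctx hQ D M)
include C

/-- From a non-proportional component, an element of the block. -/
theorem exists_n {X Y : ι → F} {a : Fin t} (hR : R hQ M X Y) (hA : Q (pr C a X) ≠ 0)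
    (hY : ∀ c : F, pr C a Y ≠ c • pr C a X) :
    ∃ n' ∈ D a, n' ≠ 0 ∧ polar Q (pr C a X) n' = 0 ∧ R hQ M X n' := by
  classical
  obtain ⟨A, hAd⟩ : ∃ A, A = pr C a X := ⟨_, rfl⟩
  rw [← hAd] at hA hY ⊢
  have hAm : A ∈ D a := hAd ▸ pr_mem C a X
  obtain ⟨y, hyd⟩ : ∃ y, y = pr C a Y := ⟨_, rfl⟩
  rw [← hyd] at hY
  have hym : y ∈ D a := hyd ▸ pr_mem C a Y
  have h4 : 2 * Q A ≠ 0 := mul_ne_zero C.h2 hA
  obtain ⟨n, hnd⟩ : ∃ n, n = y - (polar Q y A / (2 * Q A)) • A := ⟨_, rfl⟩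
  have hnm : n ∈ D a := hnd ▸ (D a).sub_mem hym ((D a).smul_mem _ hAm)
  have hnA : polar Q n A = 0 := by
    rw [hnd, polar_sub_left, polar_sm_l, pol_self, div_mul_cancel₀ _ h4, sub_self]
  have hn0 : n ≠ 0 := by
    rw [hnd]
    exact sub_ne_zero.2 (hY _)
  obtain ⟨hN, hfN⟩ := opair_perp hQ C.h2 (C.hp a) hAm hA
  have hnN := mem_perp (A := A) hnm hnA
  -- a non-singular vector orthogonal to `A` and not to `n`
  obtain ⟨a₁, ha₁, ha₁A, hQ₁, hna₁⟩ : ∃ a₁ ∈ D a, polar Q a₁ A = 0 ∧ Q a₁ ≠ 0 ∧ polar Q n a₁ ≠ 0 := by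
    by_cases hQn : Q n = 0
    · obtain ⟨z, hz, hz'⟩ := hN.nondeg hQ hnN hn0
      by_cases hQz : Q z = 0
      · refine ⟨z + n, (D a).add_mem hz.1 hnm, ?_, ?_, ?_⟩
        · rw [polar_add_left, perp_mem hz, hnA, add_zero]
        · rw [Q_ad, hQz, hQn, polar_comm]
          simpa using hz'
        · rw [polar_add_right, polar_self_zero hQn, add_zero]
          exact hz'
      · exact ⟨z, hz.1, perp_mem hz, hQz, hz'⟩
    · refine ⟨n, hnm, hnA, hQn, ?_⟩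
      rw [pol_self]
      exact mul_ne_zero C.h2 hQn
  obtain ⟨a₂, ha₂, ha₂A, hQ₂, hother⟩ := exists_other hQ C.h2 (C.hp a) (C.hk a) (C.hs a) hAm hA ha₁ ha₁A hQ₁
  obtain ⟨s, hs, hs'⟩ := C.hrefl a a a₂ ha₂ a₁ ha₁ hQ₂ (by rw [hQ₂]; exact hQ₁)
  have hsi := C.hMi s hs
  have hXa₁ : polar Q X a₁ = 0 := by
    rw [polar_pr C X ha₁, ← hAd, polar_comm]
    exact ha₁A
  have hXa₂ : polar Q X a₂ = 0 := by
    rw [polar_pr C X ha₂, ← hAd, polar_comm]
    exact ha₂A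
  have hsX : s ⋆ X = X := by
    rw [hs', refl_of_perp hXa₁, refl_of_perp hXa₂]
  have hYa₁ : polar Q Y a₁ = polar Q n a₁ := by
    rw [polar_pr C Y ha₁, ← hyd, hnd, polar_sub_left, polar_sm_l, polar_comm Q A a₁, ha₁A]
    ring
  obtain ⟨κ₁, hκ₁⟩ : ∃ κ₁, κ₁ = (Q a₁)⁻¹ * polar Q Y a₁ := ⟨_, rfl⟩
  have hκ₁0 : κ₁ ≠ 0 := by
    rw [hκ₁, hYa₁]
    exact mul_ne_zero (inv_ne_zero hQ₁) hna₁
  obtain ⟨κ₂, hκ₂⟩ : ∃ κ₂, κ₂ = (Q a₂)⁻¹ * polar Q (Y - κ₁ • a₁) a₂ := ⟨_, rfl⟩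
  have hsY : s ⋆ Y = Y - κ₁ • a₁ - κ₂ • a₂ := by
    rw [hs', refl_eq a₁ Y, ← hκ₁, refl_eq a₂, ← hκ₂]
  have h1 := R_conj hsi hs hR
  rw [hsX, hsY] at h1
  have h2 := R_sub h1 hR
  have e1 : Y - κ₁ • a₁ - κ₂ • a₂ - Y = -(κ₁ • a₁) - κ₂ • a₂ := by abel
  rw [e1] at h2
  refine ⟨_, (D a).sub_mem ((D a).neg_mem ((D a).smul_mem _ ha₁)) ((D a).smul_mem _ ha₂), ?_, ?_, h2⟩
  · intro h
    have h3 : κ₂ • a₂ = -(κ₁ • a₁) := by
      rw [sub_eq_zero] at h
      exact h.symm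
    by_cases hκ₂0 : κ₂ = 0
    · rw [hκ₂0, zero_smul] at h3
      have h5 : κ₁ • a₁ = 0 := neg_eq_zero.1 h3.symm
      rcases smul_eq_zero.1 h5 with h6 | h6
      · exact hκ₁0 h6
      · rw [h6, map_zero] at hQ₁
        exact hQ₁ rfl
    · apply hother (-(κ₂⁻¹ * κ₁))
      have h5 : a₂ = κ₂⁻¹ • (κ₂ • a₂) := by
        rw [smul_smul, inv_mul_cancel₀ hκ₂0, one_smul]
      rw [h5, h3, smul_neg, smul_smul, neg_smul]
  · rw [polar_sub_right, polar_neg_right, polar_sm_r, polar_sm_r, polar_comm Q A a₁, ha₁A, polar_comm Q A a₂, ha₂A]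
    ring

/-- Three non-singular components and a non-proportional one. -/
theorem lemmaC {X Y : ι → F} {a j i : Fin t} (hR : R hQ M X Y) (haj : a ≠ j) (hai : a ≠ i) (hji : j ≠ i)
    (hA : Q (pr C a X) ≠ 0) (hJ : Q (pr C j X) ≠ 0) (hI : Q (pr C i X) ≠ 0) (hY : ∀ c : F, pr C a Y ≠ c • pr C a X) :
    G₀ C := by
  classical
  have hX0 : X ≠ 0 := by
    rintro rfl
    rw [pr_zero, map_zero] at hA
    exact hA rfl
  obtain ⟨n', hn', hn'0, hAn', hRn⟩ := exists_n C hR hA hY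
  have hprj : pr C j X ≠ 0 := by
    intro h
    rw [h, map_zero] at hJ
    exact hJ rfl
  by_cases hc₀ : Q n' = 0
  · exact star C (R_swap' hRn hc₀) hn'0 (pr_other C haj hn') hprj
  obtain ⟨z, hz, hzX, hQz⟩ := exists_z' hQ C.h2 (C.hp j) (C.hk j) (pr_mem C j X) hJ (inv_ne_zero hc₀)
  have hQz0 : Q z ≠ 0 := by
    rw [hQz]
    exact neg_ne_zero.2 (inv_ne_zero hc₀)
  obtain ⟨c, hc, hcX, hQc⟩ := value_perp hQ C.h2 (C.hp i) (C.hk i) (pr_mem C i X) hI hQz0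
  obtain ⟨s, hs, hs'⟩ := C.hrefl j i z hz c hc hQc.symm hQz0
  have hsi := C.hMi s hs
  have hQX : Q X = 0 := hRn.sing
  have hcX' : polar Q X c = 0 := by
    rw [polar_pr C X hc, polar_comm]
    exact hcX
  have hzX' : polar Q X z = (Q n')⁻¹ := by
    rw [polar_pr C X hz, polar_comm]
    exact hzX
  have hsX : s ⋆ X = X + z := by
    rw [hs', refl_of_perp hcX', refl_eq z X, hzX', hQz]
    have e : (-(Q n')⁻¹)⁻¹ * (Q n')⁻¹ = -1 := by
      field_simp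
    rw [e]
    module
  have hnc : polar Q n' c = 0 := polar_orth C hai hn' hc
  have hnz : polar Q n' z = 0 := polar_orth C haj hn' hz
  have hsn : s ⋆ n' = n' := by
    rw [hs', refl_of_perp hnc, refl_of_perp hnz]
  have h1 := R_conj hsi hs hRn
  rw [hsX, hsn] at h1
  obtain ⟨h3, h4, h5⟩ := id hRn
  have h6 := R_conj (sE_iso hQ h3 h4) h5 h1
  have e1 : polar Q (X + z) X = (Q n')⁻¹ := by
    rw [polar_add_left, polar_self_zero hQX, polar_comm Q z X, hzX', zero_add]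
  have e2 : polar Q (X + z) n' = 0 := by
    rw [polar_add_left, h4, polar_comm Q z n', hnz, add_zero]
  have e3 : polar Q n' X = 0 := by
    rw [polar_comm]
    exact h4
  rw [sE_apply', sE_apply', e1, e2, e3, pol_self] at h6
  simp only [zero_smul, add_zero, mul_zero, sub_zero, zero_add] at h6
  have e4 : X + z + (Q n')⁻¹ • n' - (Q n' * (Q n')⁻¹) • X = z + (Q n')⁻¹ • n' := by
    rw [mul_inv_cancel₀ hc₀, one_smul]
    abel
  rw [e4] at h6
  have hzn0 : z + (Q n')⁻¹ • n' ≠ 0 := by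
    intro h
    have h7 := congrArg (pr C j) h
    rw [pr_add, pr_smul, pr_of_mem C hz, pr_other C haj hn', pr_zero, smul_zero, add_zero] at h7
    rw [h7, map_zero] at hQz0
    exact hQz0 rfl
  refine star C h6 hzn0 (l := i) ?_ ?_
  · rw [pr_add, pr_smul, pr_other C hji hz, pr_other C hai hn', smul_zero, add_zero]
  · rw [pr_sub, pr_smul, pr_other C hai hn', zero_sub]
    refine neg_ne_zero.2 (smul_ne_zero (mul_ne_zero C.h2 hc₀) ?_)
    intro h
    rw [h, map_zero] at hI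
    exact hI rfl

end Main

end Cfsg.Agent.Lib.OmBlk3
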