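import Mathlib
import Cfsg.Agent.Lib.OmBlk3

/-!
# Decompositions into orthogonal blocks: proportional components
-/

set_option autoImplicit false
set_option linter.unusedSectionVars false
set_option linter.unusedVariables false

namespace Cfsg.Agent.Lib.OmBlk4

open Matrix QuadraticMap Cfsg Cfsg.Geo Module
open Cfsg.Agent.Lib.OrthoBasic Cfsg.Agent.Lib.OrthoSiegel Cfsg.Agent.Lib.OmCalc Cfsg.Agent.Lib.TvGL
  Cfsg.Agent.Lib.OmPerp Cfsg.Agent.Lib.OmNd Cfsg.Agent.Lib.OmK Cfsg.Agent.Lib.OmPair Cfsg.Agent.Lib.OmBlk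
  Cfsg.Agent.Lib.OmBlk2 Cfsg.Agent.Lib.OmBlk3
open Cfsg.Agent.Lib.OrthGroup Cfsg.Agent.Lib.OrthOmega
open Cfsg.Agent.Lib.SympT (GL_ext mulVec_mul_GL mulVec_inv_GL inv_mulVec_GL linOf linOf_apply)
open Cfsg.Agent.Lib.QuadFF (polar_sm_r polar_sm_l Q_ad Q_sm IsHyp ND restr polar_restr exists_singular)

local notation:70 g:71 " ⋆ " x:70 => Matrix.mulVec (Units.val g) x

variable {ι : Type} [Fintype ι] [DecidableEq ι] {F : Type*} [Field F] [Fintype F]
  {Q : QuadraticForm F (ι → F)} {hQ : Nondeg Q} {M : Subgroup (GL ι F)}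

section Main

variable {t : ℕ} {D : Fin t → Submodule F (ι → F)} (C : Ctx hQ D M)
include C

/-- Proportional components. -/
theorem lemmaD {X W : ι → F} {j m₁ m₂ : Fin t} (hR : R hQ M X W) (hm₁j : m₁ ≠ j) (hm₂j : m₂ ≠ j) (hm₁₂ : m₁ ≠ m₂)
    (hJ : Q (pr C j X) ≠ 0) (h₁ : Q (pr C m₁ X) ≠ 0) (h₂ : Q (pr C m₂ X) ≠ 0) (hW0 : W ≠ 0) (hWj : pr C j W = 0)
    (hprop : ∀ l, ∃ d : F, pr C l W = d • pr C l X) : G₀ C := by
  classical
  have hne : ∀ {l : Fin t}, Q (pr C l X) ≠ 0 → pr C l X ≠ 0 := by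
    intro l h h0
    rw [h0, map_zero] at h
    exact h rfl
  by_cases hc₀ : Q W = 0
  · exact star C (R_swap' hR hc₀) hW0 hWj (hne hJ)
  obtain ⟨A, hAd⟩ : ∃ A, A = pr C j X := ⟨_, rfl⟩
  rw [← hAd] at hJ
  have hAm : A ∈ D j := hAd ▸ pr_mem C j X
  obtain ⟨z, hz, π, hπ, hπε, hzA, hQz, hzs⟩ := exists_z hQ C.h2 (C.hp j) (C.hk j) (C.hs j) hAm hJ (-(Q W)⁻¹)
  have hQz0 : Q z ≠ 0 := by
    rw [hQz]
    exact neg_ne_zero.2 hπ
  obtain ⟨c, hc, hcX, hQc⟩ := value_perp hQ C.h2 (C.hp m₁) (C.hk m₁) (pr_mem C m₁ X) h₁ hQz0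
  obtain ⟨s, hs, hs'⟩ := C.hrefl j m₁ z hz c hc hQc.symm hQz0
  have hsi := C.hMi s hs
  have hQX : Q X = 0 := hR.sing
  have hcX' : polar Q X c = 0 := by
    rw [polar_pr C X hc, polar_comm]
    exact hcX
  have hzX' : polar Q X z = π := by
    rw [polar_pr C X hz, ← hAd, polar_comm]
    exact hzA
  have hsX : s ⋆ X = X + z := by
    rw [hs', refl_of_perp hcX', refl_eq z X, hzX', hQz]
    have e : (-π)⁻¹ * π = -1 := by
      field_simp
    rw [e]
    module
  obtain ⟨d₁, hd₁⟩ := hprop m₁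
  have hWc : polar Q W c = 0 := by
    rw [polar_pr C W hc, hd₁, polar_sm_l, polar_comm Q _ c, hcX, mul_zero]
  have hWz : polar Q W z = 0 := polar_of_pr C hWj hz
  have hsW : s ⋆ W = W := by
    rw [hs', refl_of_perp hWc, refl_of_perp hWz]
  have h1 := R_conj hsi hs hR
  rw [hsX, hsW] at h1
  obtain ⟨h3, h4, h5⟩ := id hR
  have h6 := R_conj (sE_iso hQ h3 h4) h5 h1
  have e1 : polar Q (X + z) X = π := by
    rw [polar_add_left, polar_self_zero hQX, polar_comm Q z X, hzX', zero_add]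
  have e2 : polar Q (X + z) W = 0 := by
    rw [polar_add_left, h4, polar_comm Q z W, hWz, add_zero]
  have e3 : polar Q W X = 0 := by
    rw [polar_comm]
    exact h4
  rw [sE_apply', sE_apply', e1, e2, e3, pol_self] at h6
  simp only [zero_smul, add_zero, mul_zero, zero_add] at h6
  obtain ⟨X₂, hX₂⟩ : ∃ X₂, X₂ = X + z + π • W - (Q W * π) • X := ⟨_, rfl⟩
  obtain ⟨w₂, hw₂⟩ : ∃ w₂, w₂ = W - (2 * Q W) • X := ⟨_, rfl⟩
  rw [← hX₂, ← hw₂] at h6
  -- components in `j`
  have hjX₂ : pr C j X₂ = (1 - Q W * π) • A + z := by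
    rw [hX₂, pr_sub, pr_add, pr_add, pr_smul, pr_smul, hWj, pr_of_mem C hz, ← hAd]
    module
  have hjw₂ : pr C j w₂ = (-(2 * Q W)) • A := by
    rw [hw₂, pr_sub, pr_smul, hWj, ← hAd]
    module
  have hA0 : A ≠ 0 := by
    rintro rfl
    exact hJ (map_zero _)
  have hjX₂0 : pr C j X₂ ≠ 0 := by
    rw [hjX₂]
    intro h
    apply hzs (-(1 - Q W * π))
    rw [neg_smul]
    exact eq_neg_of_add_eq_zero_right h
  have hX₂0 : X₂ ≠ 0 := by
    rintro rfl
    exact hjX₂0 (pr_zero C j)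
  have hκ : 2 * Q W ≠ 0 := mul_ne_zero C.h2 hc₀
  have hnp : ∀ c : F, pr C j w₂ ≠ c • pr C j X₂ := by
    intro c h
    rw [hjX₂, hjw₂] at h
    by_cases hc0 : c = 0
    · rw [hc0, zero_smul] at h
      exact (smul_ne_zero (neg_ne_zero.2 hκ) hA0) h
    · apply hzs (c⁻¹ * (-(2 * Q W)) - (1 - Q W * π))
      have e : z = c⁻¹ • (c • ((1 - Q W * π) • A + z)) - (1 - Q W * π) • A := by
        rw [smul_smul, inv_mul_cancel₀ hc0, one_smul]
        abel
      rw [e, ← h]
      module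
  -- components in the other two blocks
  have hcomp : ∀ l, l ≠ j → (pr C l X₂ = 0 → G₀ C) → Q (pr C l X) ≠ 0 → (Q (pr C l X₂) ≠ 0 ∨ G₀ C) ∧ pr C l X₂ ≠ 0 ∨ G₀ C := by
    intro l hl hstar hl0
    by_cases h0 : pr C l X₂ = 0
    · exact Or.inr (hstar h0)
    · refine Or.inl ⟨Or.inl ?_, h0⟩
      obtain ⟨d, hd⟩ := hprop l
      have e : pr C l X₂ = (1 - Q W * π + π * d) • pr C l X := by
        rw [hX₂, pr_sub, pr_add, pr_add, pr_smul, pr_smul, pr_other C (Ne.symm hl) hz, hd]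
        module
      rw [e] at h0 ⊢
      rw [Q_sm]
      refine mul_ne_zero (pow_ne_zero _ fun h => h0 ?_) hl0
      rw [h, zero_smul]
  have hstar : ∀ l, l ≠ j → Q (pr C l X) ≠ 0 → pr C l X₂ = 0 → G₀ C := by
    intro l hl hl0 h0
    obtain ⟨d, hd⟩ := hprop l
    have e : pr C l X₂ = (1 - Q W * π + π * d) • pr C l X := by
      rw [hX₂, pr_sub, pr_add, pr_add, pr_smul, pr_smul, pr_other C (Ne.symm hl) hz, hd]
      module
    have e' : pr C l w₂ = (d - 2 * Q W) • pr C l X := by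
      rw [hw₂, pr_sub, pr_smul, hd]
      module
    rw [e] at h0
    have h7 : 1 - Q W * π + π * d = 0 := by
      rcases smul_eq_zero.1 h0 with h | h
      · exact h
      · exact absurd h (hne hl0)
    refine star C h6 hX₂0 (l := l) (by rw [e, h7, zero_smul]) ?_
    rw [e']
    refine smul_ne_zero ?_ (hne hl0)
    intro h8
    apply hπε
    have h9 : d = 2 * Q W := sub_eq_zero.1 h8
    rw [h9] at h7
    field_simp
    linear_combination h7
  rcases hcomp m₁ hm₁j (hstar m₁ hm₁j h₁) h₁ with ⟨h7 | h7, h8⟩ | h7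
  · rcases hcomp m₂ hm₂j (hstar m₂ hm₂j h₂) h₂ with ⟨h9 | h9, h10⟩ | h9
    · by_cases hJ₂ : Q (pr C j X₂) = 0
      · refine sing1 C h6 hjX₂0 hJ₂ (fun h => h8 ?_) hnp
        have h11 := congrArg (pr C m₁) h
        rw [pr_sub, pr_zero, pr_other C hm₁j.symm (pr_mem C j X₂), sub_zero] at h11
        exact h11
      · exact lemmaC C h6 hm₁j.symm hm₂j.symm hm₁₂ hJ₂ h7 h9 hnp
    · exact h9
    · exact h9
  · exact h7
  · exact h7

/-- Two non-singular components, the second non-proportional. -/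
theorem lemmaE {X Y : ι → F} {j l : Fin t} (hR : R hQ M X Y) (hjl : j ≠ l) (hJ : Q (pr C j X) ≠ 0) (hL : Q (pr C l X) ≠ 0)
    (hX : X = pr C j X + pr C l X) (hY : ∀ c : F, pr C l Y ≠ c • pr C l X) : G₀ C := by
  classical
  obtain ⟨A, hAd⟩ : ∃ A, A = pr C j X := ⟨_, rfl⟩
  obtain ⟨B, hBd⟩ : ∃ B, B = pr C l X := ⟨_, rfl⟩
  have hAm : A ∈ D j := hAd ▸ pr_mem C j X
  have hBm : B ∈ D l := hBd ▸ pr_mem C l X
  obtain ⟨n', hn', hn'0, hBn', hRn⟩ := exists_n C hR hL hY
  rw [← hAd] at hJ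
  rw [← hBd] at hL hBn'
  rw [← hAd, ← hBd] at hX
  have hA0 : A ≠ 0 := by
    rintro rfl
    exact hJ (map_zero _)
  have hB0 : B ≠ 0 := by
    rintro rfl
    exact hL (map_zero _)
  have hQX : Q X = 0 := hR.sing
  have hAB : polar Q A B = 0 := polar_orth C hjl hAm hBm
  have hQAB : Q B = - Q A := by
    rw [hX, Q_ad, hAB, add_zero] at hQX
    linear_combination hQX
  by_cases hc₀ : Q n' = 0
  · refine star C (R_swap' hRn hc₀) hn'0 (pr_other C hjl.symm hn') ?_
    rw [← hAd]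
    exact hA0
  obtain ⟨m, hmj, hml⟩ := C.hthree j l
  obtain ⟨s, hs, hsl, hsm, hso⟩ := C.hswap l m hml.symm
  have hsi := C.hMi s hs
  obtain ⟨B', hB'd⟩ : ∃ B', B' = s ⋆ B := ⟨_, rfl⟩
  obtain ⟨n'', hn''d⟩ : ∃ n'', n'' = s ⋆ n' := ⟨_, rfl⟩
  have hB'm : B' ∈ D m := hB'd ▸ hsl B hBm
  have hn''m : n'' ∈ D m := hn''d ▸ hsl n' hn'
  have hQB' : Q B' = Q B := by rw [hB'd, hsi]
  have hQn'' : Q n'' = Q n' := by rw [hn''d, hsi]
  have hB'n'' : polar Q B' n'' = 0 := by
    rw [hB'd, hn''d, polar_iso hsi]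
    exact hBn'
  have hsX : s ⋆ X = A + B' := by
    rw [hX, Matrix.mulVec_add, hso j hjl hmj.symm A hAm, ← hB'd]
  have h1 := R_conj hsi hs hRn
  rw [hsX, ← hn''d] at h1
  have h2A : 2 * Q A ≠ 0 := mul_ne_zero C.h2 hJ
  obtain ⟨κ, hκ⟩ : ∃ κ, κ = 2 * Q A := ⟨_, rfl⟩
  have hκ0 : κ ≠ 0 := hκ ▸ h2A
  obtain ⟨h3, h4, h5⟩ := id hRn
  have h6 := R_conj (sE_iso hQ h3 h4) h5 h1
  have hXn'' : polar Q X n'' = 0 := by
    rw [hX, polar_add_left, polar_orth C hmj.symm hAm hn''m, polar_orth C hml.symm hBm hn''m, add_zero]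
  have hn''n' : polar Q n'' n' = 0 := polar_orth C hml hn''m hn'
  have hAn' : polar Q A n' = 0 := polar_orth C hjl hAm hn'
  have hB'n' : polar Q B' n' = 0 := polar_orth C hml hB'm hn'
  have e1 : polar Q (A + B') X = κ := by
    rw [hX, polar_add_left, polar_add_right, polar_add_right, pol_self, hAB, polar_orth C hmj hB'm hAm,
      polar_orth C hml hB'm hBm, hκ]
    ring
  have e2 : polar Q (A + B') n' = 0 := by
    rw [polar_add_left, hAn', hB'n', add_zero]
  have e3 : polar Q n'' X = 0 := by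
    rw [polar_comm]
    exact hXn''
  rw [sE_apply', sE_apply', e1, e2, e3, hn''n'] at h6
  simp only [zero_smul, add_zero, mul_zero, sub_zero, zero_add] at h6
  obtain ⟨X'', hX''⟩ : ∃ X'', X'' = A + B' + κ • n' - (Q n' * κ) • X := ⟨_, rfl⟩
  rw [← hX''] at h6
  have hjX'' : pr C j X'' = (1 - Q n' * κ) • A := by
    rw [hX'', hX, pr_sub, pr_add, pr_add, pr_smul, pr_smul, pr_add, pr_of_mem C hAm, pr_other C hmj hB'm,
      pr_other C hjl.symm hn', pr_other C hjl.symm hBm]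
    module
  have hlX'' : pr C l X'' = κ • n' - (Q n' * κ) • B := by
    rw [hX'', hX, pr_sub, pr_add, pr_add, pr_smul, pr_smul, pr_add, pr_of_mem C hBm, pr_other C hml hB'm,
      pr_of_mem C hn', pr_other C hjl hAm]
    module
  have hmX'' : pr C m X'' = B' := by
    rw [hX'', hX, pr_sub, pr_add, pr_add, pr_smul, pr_smul, pr_add, pr_of_mem C hB'm, pr_other C hmj.symm hAm,
      pr_other C hml.symm hn', pr_other C hml.symm hBm]
    module
  have hnp : ∀ c : F, n'' ≠ c • B' := by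
    intro c h
    have h7 := hB'n''
    rw [h, polar_sm_r, pol_self, hQB', hQAB] at h7
    have h8 : c = 0 := by
      rcases mul_eq_zero.1 h7 with h9 | h9
      · exact h9
      · exfalso
        rw [mul_neg] at h9
        exact h2A (neg_eq_zero.1 h9)
    rw [h8, zero_smul] at h
    rw [h, map_zero] at hQn''
    exact hc₀ hQn''.symm
  by_cases hc : 1 - Q n' * κ = 0
  swap
  · have hQj : Q (pr C j X'') ≠ 0 := by
      rw [hjX'', Q_sm]
      exact mul_ne_zero (pow_ne_zero _ hc) hJ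
    have hQm : Q (pr C m X'') ≠ 0 := by
      rw [hmX'', hQB']
      exact hL
    by_cases hQl : Q (pr C l X'') = 0
    · refine sing C h6 ?_ hQl ?_ ?_
      · intro h
        have e5 := congrArg (polar Q B) h
        rw [polar_zero_right, hlX'', polar_sub_right, polar_sm_r, polar_sm_r, hBn', pol_self] at e5
        have e6 : -(Q n' * κ * (2 * Q B)) = 0 := by linear_combination e5
        exact mul_ne_zero (mul_ne_zero hc₀ hκ0) (mul_ne_zero C.h2 hL) (neg_eq_zero.1 e6)
      · intro h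
        have e5 := congrArg (pr C m) h
        rw [pr_sub, pr_zero, hmX'', pr_other C hml.symm (pr_mem C l X''), sub_zero] at e5
        rw [e5, map_zero] at hQB'
        exact hL hQB'.symm
      · intro c h
        have e5 := congrArg (pr C m) h
        rw [pr_smul, hmX'', pr_of_mem C hn''m] at e5
        exact hnp c e5
    · refine lemmaC C h6 hmj hml hjl hQm hQj hQl (fun c h => ?_)
      rw [pr_of_mem C hn''m, hmX''] at h
      exact hnp c h
  · have hcκ : Q n' * κ = 1 := (sub_eq_zero.1 hc).symm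
    have hX''' : X'' = B' + κ • n' - B := by
      rw [hX'', hcκ, one_smul, hX]
      abel
    obtain ⟨h7, h8, h9⟩ := id h6
    have h10 := R_conj (sE_iso hQ h7 h8) h9 hRn
    have hXB' : polar Q X B' = 0 := by
      rw [hX, polar_add_left, polar_orth C hmj.symm hAm hB'm, polar_orth C hml.symm hBm hB'm, add_zero]
    have hn'B' : polar Q n' B' = 0 := polar_orth C hml.symm hn' hB'm
    have hn'B : polar Q n' B = 0 := by
      rw [polar_comm]
      exact hBn'
    have e5 : polar Q X X'' = κ := by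
      rw [hX''', polar_sub_right, polar_add_right, polar_sm_r, hXB', h4]
      nth_rw 1 [hX]
      rw [polar_add_left, hAB, pol_self, hQAB, hκ]
      ring
    have e6 : polar Q n' X'' = 2 := by
      rw [hX''', polar_sub_right, polar_add_right, polar_sm_r, hn'B', hn'B, pol_self]
      linear_combination 2 * hcκ
    have e7 : polar Q n' n'' = 0 := polar_orth C hml.symm hn' hn''m
    rw [sE_apply', sE_apply', e5, e6, e7, hXn'', hQn''] at h10
    simp only [zero_add] at h10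
    obtain ⟨X₃, hX₃⟩ : ∃ X₃, X₃ = A + ((2 : F) • B - κ • n') + (κ • n'' - B') := ⟨_, rfl⟩
    obtain ⟨W, hW⟩ : ∃ W, W = Q n' • ((2 : F) • B - κ • n') + (2 * Q n') • (κ • n'' - B') := ⟨_, rfl⟩
    have e8 : X + κ • n'' - (Q n' * κ) • X'' = X₃ := by
      rw [hcκ, one_smul, hX₃, hX''', hX]
      module
    have e9 : n' + (2 : F) • n'' - (Q n' * 2) • X'' = W := by
      rw [hW, hX''']
      linear_combination (norm := module) (-hcκ) • (n' + (2 : F) • n'')
    rw [e8, e9] at h10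
    have h2B : (2 : F) • B - κ • n' ∈ D l := (D l).sub_mem ((D l).smul_mem _ hBm) ((D l).smul_mem _ hn')
    have h2m : κ • n'' - B' ∈ D m := (D m).sub_mem ((D m).smul_mem _ hn''m) hB'm
    have hjX₃ : pr C j X₃ = A := by
      rw [hX₃, pr_add, pr_add, pr_of_mem C hAm, pr_other C hjl.symm h2B, pr_other C hmj h2m]
      simp
    have hlX₃ : pr C l X₃ = (2 : F) • B - κ • n' := by
      rw [hX₃, pr_add, pr_add, pr_other C hjl hAm, pr_of_mem C h2B, pr_other C hml h2m]
      simp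
    have hmX₃ : pr C m X₃ = κ • n'' - B' := by
      rw [hX₃, pr_add, pr_add, pr_other C hmj.symm hAm, pr_other C hml.symm h2B, pr_of_mem C h2m]
      simp
    have hjW : pr C j W = 0 := by
      rw [hW, pr_add, pr_smul, pr_smul, pr_other C hjl.symm h2B, pr_other C hmj h2m]
      simp
    have hlW : pr C l W = Q n' • pr C l X₃ := by
      rw [hlX₃, hW, pr_add, pr_smul, pr_smul, pr_of_mem C h2B, pr_other C hml h2m]
      simp
    have hmW : pr C m W = (2 * Q n') • pr C m X₃ := by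
      rw [hmX₃, hW, pr_add, pr_smul, pr_smul, pr_other C hml.symm h2B, pr_of_mem C h2m]
      simp
    have hQ₁ : Q (pr C l X₃) ≠ 0 := by
      rw [hlX₃, sub_eq_add_neg, Q_ad, QuadraticMap.map_neg, Q_sm, Q_sm, polar_neg_right, polar_sm_l, polar_sm_r, hBn', hQAB]
      have e : (2 : F) ^ 2 * -Q A + κ ^ 2 * Q n' + -(2 * (κ * 0)) = - (2 * Q A) := by
        have : κ ^ 2 * Q n' = κ := by
          calc κ ^ 2 * Q n' = (Q n' * κ) * κ := by ring
            _ = κ := by rw [hcκ, one_mul]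
        rw [this, hκ]
        ring
      rw [e]
      exact neg_ne_zero.2 h2A
    have hQ₂ : Q (pr C m X₃) ≠ 0 := by
      rw [hmX₃, sub_eq_add_neg, Q_ad, QuadraticMap.map_neg, Q_sm, polar_neg_right, polar_sm_l, polar_comm Q n'' B', hB'n'', hQB',
        hQAB, hQn'']
      have e : κ ^ 2 * Q n' + -Q A + -(κ * 0) = Q A := by
        have : κ ^ 2 * Q n' = κ := by
          calc κ ^ 2 * Q n' = (Q n' * κ) * κ := by ring
            _ = κ := by rw [hcκ, one_mul]
        rw [this, hκ]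
        ring
      rw [e]
      exact hJ
    have hWne : W ≠ 0 := by
      intro h
      have e : pr C l W = 0 := by rw [h, pr_zero]
      rw [hlW] at e
      rcases smul_eq_zero.1 e with e' | e'
      · exact hc₀ e'
      · rw [e', map_zero] at hQ₁
        exact hQ₁ rfl
    refine lemmaD C h10 (j := j) (m₁ := l) (m₂ := m) hjl.symm hmj hml.symm (by rw [hjX₃]; exact hJ) hQ₁ hQ₂ hWne hjW ?_
    intro i
    by_cases hil : i = l
    · exact ⟨Q n', by rw [hil]; exact hlW⟩
    by_cases him : i = m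
    · exact ⟨2 * Q n', by rw [him]; exact hmW⟩
    refine ⟨0, ?_⟩
    rw [zero_smul, hW, pr_add, pr_smul, pr_smul, pr_other C (Ne.symm hil) h2B, pr_other C (Ne.symm him) h2m]
    simp

/-- The driver: any element of `R` not inside a block gives a mixed family. -/
theorem driver {X Y : ι → F} (hR : R hQ M X Y) (hX0 : X ≠ 0) (hYX : ∀ c : F, Y ≠ c • X)
    (hno : ¬ ∃ l, X ∈ D l ∧ Y ∈ D l) : G₀ C := by
  classical
  by_cases h1 : ∃ l, pr C l X = 0 ∧ pr C l Y ≠ 0
  · obtain ⟨l, h3, h4⟩ := h1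
    exact star C hR hX0 h3 h4
  push Not at h1
  by_cases h2 : ∃ m, pr C m X ≠ 0 ∧ Q (pr C m X) = 0
  · obtain ⟨m, hpm, hQm⟩ := h2
    by_cases hb : X - pr C m X = 0
    · exfalso
      have hXD : X ∈ D m := by
        rw [sub_eq_zero.1 hb]
        exact pr_mem C m X
      have hYD : Y ∉ D m := fun h => hno ⟨m, hXD, h⟩
      have hYb : Y - pr C m Y ≠ 0 := by
        intro h
        apply hYD
        rw [sub_eq_zero.1 h]
        exact pr_mem C m Y
      obtain ⟨j, hj⟩ := exists_pr_ne C hYb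
      have hjm : j ≠ m := by
        rintro rfl
        exact hj (pr_of_perp C (sub_pr_mem C j Y))
      have h3 : pr C j X = 0 := pr_other C hjm.symm hXD
      have h4 := h1 j h3
      apply hj
      rw [pr_sub, h4, pr_other C hjm.symm (pr_mem C m Y), sub_zero]
    · exact sing C hR hpm hQm hb hYX
  push Not at h2
  obtain ⟨j, hj⟩ := exists_pr_ne C hX0
  have hQj := h2 j hj
  have hQX : Q X = 0 := hR.sing
  have hXj : X - pr C j X ≠ 0 := by
    intro h
    apply hQj
    rw [← sub_eq_zero.1 h]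
    exact hQX
  obtain ⟨l, hl⟩ := exists_pr_ne C hXj
  have hlj : l ≠ j := by
    rintro rfl
    exact hl (pr_of_perp C (sub_pr_mem C l X))
  have hlX : pr C l X ≠ 0 := by
    rwa [pr_sub, pr_other C hlj.symm (pr_mem C j X), sub_zero] at hl
  have hQl := h2 l hlX
  by_cases h3 : ∃ i, i ≠ j ∧ i ≠ l ∧ pr C i X ≠ 0
  · obtain ⟨i, hij, hil, hi⟩ := h3
    have hQi := h2 i hi
    by_cases h4 : ∃ a, pr C a X ≠ 0 ∧ ∀ c : F, pr C a Y ≠ c • pr C a X
    · obtain ⟨a, ha, hac⟩ := h4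
      have hQa := h2 a ha
      by_cases haj : a = j
      · subst haj
        exact lemmaC C hR hlj.symm hij.symm hil.symm hQa hQl hQi hac
      by_cases hal : a = l
      · subst hal
        exact lemmaC C hR hlj hil.symm hij.symm hQa hQj hQi hac
      exact lemmaC C hR haj hal hlj.symm hQa hQj hQl hac
    · push Not at h4
      obtain ⟨c, hc⟩ := h4 j hj
      obtain ⟨W, hW⟩ : ∃ W, W = Y - c • X := ⟨_, rfl⟩
      have hRW : R hQ M X W := by
        have := R_add_smul hR (-c)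
        rwa [neg_smul, ← sub_eq_add_neg, ← hW] at this
      have hW0 : W ≠ 0 := by
        rw [hW]
        exact sub_ne_zero.2 (hYX c)
      have hWj : pr C j W = 0 := by
        rw [hW, pr_sub, pr_smul, hc, sub_self]
      refine lemmaD C hRW (j := j) (m₁ := l) (m₂ := i) hlj hij hil.symm hQj hQl hQi hW0 hWj (fun a => ?_)
      by_cases ha : pr C a X = 0
      · refine ⟨0, ?_⟩
        rw [hW, pr_sub, pr_smul, ha, h1 a ha]
        simp
      · obtain ⟨c', hc'⟩ := h4 a ha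
        refine ⟨c' - c, ?_⟩
        rw [hW, pr_sub, pr_smul, hc', sub_smul]
  · push Not at h3
    have hXe : X = pr C j X + pr C l X := by
      apply eq_of_pr C
      intro i
      rw [pr_add]
      by_cases hij : i = j
      · subst hij
        rw [pr_of_mem C (pr_mem C i X), pr_other C hlj (pr_mem C l X), add_zero]
      by_cases hil : i = l
      · subst hil
        rw [pr_other C hlj.symm (pr_mem C j X), pr_of_mem C (pr_mem C i X), zero_add]
      rw [pr_other C (Ne.symm hij) (pr_mem C j X), pr_other C (Ne.symm hil) (pr_mem C l X), h3 i hij hil, add_zero]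
    by_cases h5 : ∀ c : F, pr C l Y ≠ c • pr C l X
    · exact lemmaE C hR hlj.symm hQj hQl hXe h5
    by_cases h6 : ∀ c : F, pr C j Y ≠ c • pr C j X
    · exact lemmaE C hR hlj hQl hQj (by rw [add_comm]; exact hXe) h6
    push Not at h5 h6
    obtain ⟨c₂, hc₂⟩ := h5
    obtain ⟨c₁, hc₁⟩ := h6
    exfalso
    apply hYX c₁
    have hp : polar Q Y X = 0 := by
      rw [polar_comm]
      exact hR.perp
    have h3' : ∀ i, i ≠ j → i ≠ l → pr C i Y = 0 := fun i hij hil => h1 i (h3 i hij hil)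
    obtain ⟨A, hA⟩ : ∃ A, A = pr C j X := ⟨_, rfl⟩
    obtain ⟨B, hB⟩ : ∃ B, B = pr C l X := ⟨_, rfl⟩
    have hAm : A ∈ D j := hA ▸ pr_mem C j X
    have hBm : B ∈ D l := hB ▸ pr_mem C l X
    rw [← hA, ← hB] at hXe
    rw [← hA] at hQj hc₁
    rw [← hB] at hQl hc₂
    have hAB : polar Q A B = 0 := polar_orth C hlj.symm hAm hBm
    have hQq : Q A + Q B = 0 := by
      have := hQX
      rw [hXe, Q_ad, hAB, add_zero] at this
      exact this
    have e : polar Q Y X = (c₁ - c₂) * (2 * Q A) := by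
      rw [hXe, polar_add_right, polar_pr C Y hAm, polar_pr C Y hBm, hc₁, hc₂, polar_sm_l, polar_sm_l, pol_self, pol_self]
      have : Q B = - Q A := by linear_combination hQq
      rw [this]
      ring
    rw [e] at hp
    have hcc : c₁ = c₂ := by
      rcases mul_eq_zero.1 hp with h | h
      · exact sub_eq_zero.1 h
      · exact absurd h (mul_ne_zero C.h2 hQj)
    apply eq_of_pr C
    intro i
    rw [pr_smul]
    by_cases hij : i = j
    · subst hij
      rw [← hA, hc₁]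
    by_cases hil : i = l
    · subst hil
      rw [← hB, hc₂, hcc]
    rw [h3' i hij hil, h3 i hij hil, smul_zero]

/-- A non-zero vector lies in only one block. -/
theorem block_unique {x : ι → F} {l l' : Fin t} (hx0 : x ≠ 0) (h : x ∈ D l) (h' : x ∈ D l') : l = l' := by
  by_contra hne
  apply hx0
  rw [← pr_of_mem C h']
  exact pr_other C hne h

theorem GL_mul_ne (g : GL ι F) {x : ι → F} (hx : x ≠ 0) : g ⋆ x ≠ 0 := by
  intro h
  apply hx
  rw [← inv_mulVec_GL g x, h, Matrix.mulVec_zero]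

/-- The key step. -/
theorem key {g : GL ι F} (hg : g ∈ M) (hno : ¬ G₀ C) {i : Fin t} {a c : ι → F} (ha : a ∈ D i) (ha0 : a ≠ 0)
    (hQa : Q a = 0) (hc : c ∈ D i) (hac : polar Q a c = 0) (hcs : ∀ s : F, c ≠ s • a) :
    ∃ l, g ⋆ a ∈ D l ∧ g ⋆ c ∈ D l := by
  by_contra hcon
  apply hno
  have hgi := C.hMi g hg
  have hR : R hQ M (g ⋆ a) (g ⋆ c) := R_conj hgi hg (C.hH i a ha hQa c hc hac)
  refine driver C hR (GL_mul_ne C g ha0) (fun s h => hcs s ?_) hcon
  rw [← inv_mulVec_GL g c, h, ← Matrix.mulVec_smul, inv_mulVec_GL]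

/-- Two non-orthogonal singular vectors of a block go to one block. -/
theorem common {g : GL ι F} (hg : g ∈ M) (hno : ¬ G₀ C) {i : Fin t} {a b : ι → F} (ha : a ∈ D i) (hb : b ∈ D i)
    (hQa : Q a = 0) (hQb : Q b = 0) (hab : polar Q a b ≠ 0) : ∃ l, g ⋆ a ∈ D l ∧ g ⋆ b ∈ D l := by
  have ha0 : a ≠ 0 := by
    rintro rfl
    exact hab (polar_zero_left _ _)
  have hb0 : b ≠ 0 := by
    rintro rfl
    exact hab (polar_zero_right _ _)
  have hb' : (polar Q a b)⁻¹ • b ∈ D i := (D i).smul_mem _ hb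
  have hQb' : Q ((polar Q a b)⁻¹ • b) = 0 := by rw [Q_sm, hQb, mul_zero]
  have hab' : polar Q a ((polar Q a b)⁻¹ • b) = 1 := by
    rw [polar_sm_r, inv_mul_cancel₀ hab]
  obtain ⟨c, hc, hac, hbc, hQc⟩ := exists_nonsing_perp hQ (C.hp i) (C.hk i) ha hb' hQa hQb' hab'
  have hbc' : polar Q b c = 0 := by
    rw [polar_sm_l] at hbc
    rcases mul_eq_zero.1 hbc with h | h
    · exact absurd h (inv_ne_zero hab)
    · exact h
  have hcs : ∀ {z : ι → F}, Q z = 0 → ∀ s : F, c ≠ s • z := by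
    intro z hz s h
    apply hQc
    rw [h, Q_sm, hz, mul_zero]
  obtain ⟨l, h1, h2⟩ := key C hg hno ha ha0 hQa hc hac (hcs hQa)
  obtain ⟨l', h3, h4⟩ := key C hg hno hb hb0 hQb hc hbc' (hcs hQb)
  have hc0 : c ≠ 0 := by
    rintro rfl
    exact hQc (map_zero _)
  have e := block_unique C (GL_mul_ne C g hc0) h2 h4
  subst e
  exact ⟨l, h1, h3⟩

/-- If there is no mixed family, then every element of `M` maps a block into a block. -/
theorem pres {g : GL ι F} (hg : g ∈ M) (hno : ¬ G₀ C) (i : Fin t) : ∃ l, ∀ x ∈ D i, g ⋆ x ∈ D l := by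
  obtain ⟨a₀, ha₀, ha₀0, hQa₀⟩ := exists_sing C i
  obtain ⟨f₀, hf₀, hQf₀, haf₀⟩ := exists_partner hQ (C.hp i) ha₀ ha₀0 hQa₀
  obtain ⟨l₀, hl₀, -⟩ := common C hg hno ha₀ hf₀ hQa₀ hQf₀ (by rw [haf₀]; exact one_ne_zero)
  have hgne : g ⋆ a₀ ≠ 0 := GL_mul_ne C g ha₀0
  have hsing : ∀ b ∈ D i, Q b = 0 → g ⋆ b ∈ D l₀ := by
    intro b hb hQb
    by_cases hb0 : b = 0
    · rw [hb0, Matrix.mulVec_zero]
      exact (D l₀).zero_mem
    by_cases h1 : polar Q a₀ b = 0
    · obtain ⟨f, hf, hQf, hbf⟩ := exists_partner hQ (C.hp i) hb hb0 hQb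
      have h2 : ∃ e ∈ D i, Q e = 0 ∧ polar Q a₀ e ≠ 0 ∧ polar Q e b ≠ 0 := by
        by_cases h6 : polar Q a₀ f = 0
        · obtain ⟨y, hy, hyb, hyf, hxy⟩ := exists_adjust hQ (C.hp i) hb hf hQb hQf hbf ha₀ h1 h6 ha₀0
          refine ⟨f + y - Q y • b, (D i).sub_mem ((D i).add_mem hf hy) ((D i).smul_mem _ hb),
            Q_flip hQb hQf hbf hyb hyf, ?_, ?_⟩
          · rw [polar_sub_right, polar_add_right, polar_sm_r, h1, h6]
            simpa using hxy
          · rw [polar_sub_left, polar_add_left, polar_sm_l, polar_self_zero hQb, hyb, polar_comm Q f b, hbf]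
            simp
        · exact ⟨f, hf, hQf, h6, by rw [polar_comm, hbf]; exact one_ne_zero⟩
      obtain ⟨e, he, hQe, hae, heb⟩ := h2
      obtain ⟨l₁, h3, h4⟩ := common C hg hno ha₀ he hQa₀ hQe hae
      obtain ⟨l₂, h5, h6⟩ := common C hg hno he hb hQe hQb heb
      have he0 : e ≠ 0 := by
        rintro rfl
        exact hae (polar_zero_right _ _)
      have e1 := block_unique C hgne hl₀ h3
      have e2 := block_unique C (GL_mul_ne C g he0) h4 h5
      rw [e1, e2]
      exact h6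
    · obtain ⟨l₁, h3, h4⟩ := common C hg hno ha₀ hb hQa₀ hQb h1
      have e1 := block_unique C hgne hl₀ h3
      rw [e1]
      exact h4
  refine ⟨l₀, fun x hx => ?_⟩
  obtain ⟨s, hs, e, he, c, hQs, hQe, rfl⟩ := split_two hQ (C.hp i) (C.hk i) hx
  rw [Matrix.mulVec_add, Matrix.mulVec_smul]
  exact (D l₀).add_mem (hsing s hs hQs) ((D l₀).smul_mem _ (hsing e he hQe))

theorem pr_sum (m : Fin t) {κ : Type*} (S : Finset κ) (x : κ → ι → F) :
    pr C m (∑ l ∈ S, x l) = ∑ l ∈ S, pr C m (x l) := by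
  classical
  induction S using Finset.induction_on with
  | empty => simp [pr_zero]
  | insert a S ha ih => rw [Finset.sum_insert ha, Finset.sum_insert ha, pr_add, ih]

theorem eq_sum_pr (y : ι → F) : y = ∑ l, pr C l y := by
  classical
  apply eq_of_pr C
  intro m
  rw [pr_sum, Finset.sum_eq_single m]
  · rw [pr_of_mem C (pr_mem C m y)]
  · intro b _ hb
    exact pr_other C hb (pr_mem C b y)
  · intro h
    exact absurd (Finset.mem_univ m) h

/-- A mixed family gives the whole of `Ω`. -/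
theorem omega_le (h11 : 11 ≤ Fintype.card ι) (h : G₀ C) : omegaGL ⇑Q ≤ M := by
  classical
  obtain ⟨i, j, hij, b, hb, hb0, hQb, hw⟩ := h
  have hall : ∀ l, l ≠ i → ∀ w ∈ D l, R hQ M b w := by
    intro l hli w hw'
    by_cases hlj : l = j
    · rw [hlj] at hw'
      exact hw _ hw'
    obtain ⟨s, hs, hsj, -, hso⟩ := C.hswap j l (Ne.symm hlj)
    obtain ⟨z, hz, hz0, -⟩ := exists_sing C j
    have h1 := R_conj (C.hMi s hs) hs (hw z hz)
    rw [hso i hij (Ne.symm hli) b hb] at h1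
    have hsz := hsj z hz
    obtain ⟨z', hz', hz''⟩ := (C.hp l).nondeg hQ hsz (GL_mul_ne C s hz0)
    exact left_all C.h2 (C.hp l) (C.hk l) hQ (C.hH l) (fun z hz => polar_orth C (Ne.symm hli) hb hz) h1 hz' hz'' hw'
  have hT : T hQ M b := by
    refine ⟨hQb, fun y hy => ?_⟩
    rw [eq_sum_pr C y]
    have key : ∀ S : Finset (Fin t), R hQ M b (∑ l ∈ S, pr C l y) := by
      intro S
      induction S using Finset.induction_on with
      | empty =>
        rw [Finset.sum_empty]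
        exact R_zero hQb
      | insert a S ha ih =>
        rw [Finset.sum_insert ha]
        refine R_add ?_ ih
        by_cases hai : a = i
        · rw [hai]
          refine C.hH i b hb hQb _ (pr_mem C i y) ?_
          rw [polar_comm, ← polar_pr C y hb, polar_comm]
          exact hy
        · exact hall a hai _ (pr_mem C a y)
    exact key _
  obtain ⟨f, hf, hQf, hbf⟩ := exists_partner hQ (C.hp i) hb hb0 hQb
  obtain ⟨c, hc, hbc, hfc, hQc⟩ := exists_nonsing_perp hQ (C.hp i) (C.hk i) hb hf hQb hQf hbf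
  obtain ⟨h3, h4, h5⟩ := C.hH i f hf hQf c hc hfc
  have hT' := T_conj (sE_iso hQ h3 h4) h5 hT
  refine omega_le_of_opp h11 hT hT' ?_
  rw [sE_apply', hbf, hbc, polar_sub_left, polar_add_left, polar_sm_l, polar_sm_l, polar_self_zero hQb, polar_comm Q c b, hbc,
    polar_comm Q f b, hbf]
  simpa using hQc

end Main

end Cfsg.Agent.Lib.OmBlk4
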