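import Cfsg.Agent.Lib.SympT
import Cfsg.Agent.S0752

/-!
# Orthogonal decompositions and the set of centres of symplectic transvections

For an orthogonal decomposition `D` of the space into non-degenerate subspaces and a subgroup `M` of the isometry group
whose set of centres contains all `D i`, we study which supports occur for centres.
-/

set_option autoImplicit false
set_option linter.unusedSectionVars false
set_option linter.unusedVariables false

namespace Cfsg.Agent.Lib.SympDecomp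

open Matrix Cfsg Cfsg.Geo Cfsg.Agent.Lib.TvGL Cfsg.Agent.Lib.SympT
open scoped MatrixGroups

variable {ι : Type} [Fintype ι] [DecidableEq ι] {F : Type*} [Field F]
  {f : (ι → F) → (ι → F) → F} (hf : IsSymplecticForm f) {t : ℕ} {D : Fin t → Submodule F (ι → F)}

local notation:70 g:71 " ⋆ " x:70 => Matrix.mulVec (Units.val g) x

include hf

theorem f_sum_right (x : ι → F) (I : Finset (Fin t)) (a : Fin t → ι → F) :
    f x (∑ i ∈ I, a i) = ∑ i ∈ I, f x (a i) :=
  map_sum (Bf hf.bilinear x) a I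

theorem f_sum_left (x : ι → F) (I : Finset (Fin t)) (a : Fin t → ι → F) :
    f (∑ i ∈ I, a i) x = ∑ i ∈ I, f (a i) x := by
  rw [hf.skew, f_sum_right hf, ← Finset.sum_neg_distrib]
  exact Finset.sum_congr rfl (fun i _ => (hf.skew _ _).symm)

variable (horth : ∀ i j, i ≠ j → ∀ u ∈ D i, ∀ v ∈ D j, f u v = 0)
include horth

theorem f_S_z {I : Finset (Fin t)} {a : Fin t → ι → F} (ha : ∀ i ∈ I, a i ∈ D i) {s : Fin t}
    {z : ι → F} (hz : z ∈ D s) : f (∑ i ∈ I, a i) z = if s ∈ I then f (a s) z else 0 := by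
  rw [f_sum_left hf]
  by_cases hs : s ∈ I
  · rw [if_pos hs]
    refine Finset.sum_eq_single s (fun j hj hne => horth j s hne _ (ha j hj) _ hz) (fun h => absurd hs h)
  · rw [if_neg hs]
    refine Finset.sum_eq_zero (fun j hj => ?_)
    refine horth j s ?_ _ (ha j hj) _ hz
    rintro rfl
    exact hs hj

theorem z_f_S {I : Finset (Fin t)} {a : Fin t → ι → F} (ha : ∀ i ∈ I, a i ∈ D i) {s : Fin t}
    {z : ι → F} (hz : z ∈ D s) (hs : s ∉ I) : f z (∑ i ∈ I, a i) = 0 := by
  rw [hf.skew, f_S_z hf horth ha hz, if_neg hs, neg_zero]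

variable {M : Subgroup (GL ι F)}
  (hnd : ∀ i, ∀ a ∈ D i, a ≠ 0 → ∃ z ∈ D i, f a z ≠ 0) (hDT : ∀ i, ∀ a ∈ D i, a ∈ TS hf M)

include hnd hDT

theorem change_one {I : Finset (Fin t)} {a : Fin t → ι → F} {i : Fin t} (hi : i ∈ I)
    (ha : ∀ j ∈ I, a j ∈ D j) (hne : a i ≠ 0) {z : ι → F} (hz : z ∈ D i) (hz0 : z ≠ 0)
    (hT : ∑ j ∈ I, a j ∈ TS hf M) : ∑ j ∈ I, Function.update a i z j ∈ TS hf M := by
  rw [← Finset.add_sum_erase I _ hi] at hT ⊢
  rw [Function.update_self]
  have h1 : ∑ j ∈ I.erase i, Function.update a i z j = ∑ j ∈ I.erase i, a j :=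
    Finset.sum_congr rfl (fun j hj => Function.update_of_ne (Finset.ne_of_mem_erase hj) _ _)
  rw [h1]
  refine TS_change hf (hnd i) (hDT i) (ha i hi) hne hz hz0 ?_ hT
  intro u hu
  exact z_f_S hf horth (fun j hj => ha j (Finset.mem_of_mem_erase hj)) hu (Finset.notMem_erase i I)

/-- Whether a centre with given support exists does not depend on the components. -/
theorem good_of_rep {I : Finset (Fin t)} {a a' : Fin t → ι → F} (ha : ∀ i ∈ I, a i ∈ D i ∧ a i ≠ 0)
    (ha' : ∀ i ∈ I, a' i ∈ D i ∧ a' i ≠ 0) (hT : ∑ j ∈ I, a j ∈ TS hf M) :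
    ∑ j ∈ I, a' j ∈ TS hf M := by
  have key : ∀ J : Finset (Fin t), J ⊆ I →
      ∑ j ∈ I, (if j ∈ J then a' j else a j) ∈ TS hf M := by
    intro J
    induction J using Finset.induction_on with
    | empty =>
      intro _
      simpa using hT
    | insert i J hiJ ih =>
      intro hsub
      have hiI : i ∈ I := hsub (Finset.mem_insert_self _ _)
      have hJI : J ⊆ I := fun x hx => hsub (Finset.mem_insert_of_mem hx)
      have h1 := ih hJI
      set c : Fin t → ι → F := fun j => if j ∈ J then a' j else a j with hc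
      have hcmem : ∀ j ∈ I, c j ∈ D j := by
        intro j hj
        simp only [hc]
        split_ifs
        · exact (ha' j hj).1
        · exact (ha j hj).1
      have hci : c i = a i := by simp [hc, hiJ]
      have h2 := change_one hf horth hnd hDT hiI hcmem (by rw [hci]; exact (ha i hiI).2)
        (ha' i hiI).1 (ha' i hiI).2 h1
      convert h2 using 2
      rename_i j hj
      by_cases hji : j = i
      · subst hji
        simp
      · simp [hc, Function.update_of_ne hji, Finset.mem_insert, hji]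
  have := key I subset_rfl
  convert this using 2
  rename_i j hj
  simp [hj]

/-- Reduction to support of size two. -/
theorem reduce2 (hb : ∀ i, ∀ a ∈ D i, a ≠ 0 → ∃ b ∈ D i, f a b = 0 ∧ b ≠ 0 ∧ b ≠ a)
    {I : Finset (Fin t)} {a : Fin t → ι → F} (ha : ∀ i ∈ I, a i ∈ D i ∧ a i ≠ 0)
    (hT : ∑ j ∈ I, a j ∈ TS hf M) {i₁ i₂ : Fin t} (h1 : i₁ ∈ I) (h2 : i₂ ∈ I) (hne : i₁ ≠ i₂) :
    ∃ c : Fin t → ι → F, (∀ i ∈ ({i₁, i₂} : Finset (Fin t)), c i ∈ D i ∧ c i ≠ 0) ∧
      ∑ j ∈ ({i₁, i₂} : Finset (Fin t)), c j ∈ TS hf M := by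
  obtain ⟨b₁, hb₁, hb₁f⟩ := hnd i₁ _ (ha i₁ h1).1 (ha i₁ h1).2
  obtain ⟨b₂, hb₂, hb₂f, hb₂0, hb₂a⟩ := hb i₂ _ (ha i₂ h2).1 (ha i₂ h2).2
  set b : Fin t → ι → F := Function.update (Function.update a i₁ b₁) i₂ b₂ with hbdef
  have hb1 : b i₁ = b₁ := by
    simp [hbdef, Function.update_of_ne hne]
  have hb2 : b i₂ = b₂ := by simp [hbdef]
  have hbo : ∀ j, j ≠ i₁ → j ≠ i₂ → b j = a j := by
    intro j h3 h4
    simp [hbdef, Function.update_of_ne h3, Function.update_of_ne h4]
  have hb10 : b₁ ≠ 0 := by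
    rintro rfl
    apply hb₁f
    have := f_zero_right hf.bilinear (a i₁)
    exact this
  have hbrep : ∀ i ∈ I, b i ∈ D i ∧ b i ≠ 0 := by
    intro i hi
    by_cases h3 : i = i₁
    · subst h3
      rw [hb1]
      exact ⟨hb₁, hb10⟩
    · by_cases h4 : i = i₂
      · subst h4
        rw [hb2]
        exact ⟨hb₂, hb₂0⟩
      · rw [hbo i h3 h4]
        exact ha i hi
  have hTb : ∑ j ∈ I, b j ∈ TS hf M := good_of_rep hf horth hnd hDT ha hbrep hT
  have hf1 : f (∑ j ∈ I, a j) (∑ j ∈ I, b j) = f (a i₁) b₁ := by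
    rw [f_sum_right hf]
    have h3 : ∀ j ∈ I, f (∑ j ∈ I, a j) (b j) = f (a j) (b j) := by
      intro j hj
      rw [f_S_z hf horth (fun i hi => (ha i hi).1) (hbrep j hj).1, if_pos hj]
    rw [Finset.sum_congr rfl h3, Finset.sum_eq_single i₁, hb1]
    · intro j _ h4
      by_cases h5 : j = i₂
      · subst h5
        rw [hb2]
        exact hb₂f
      · rw [hbo j h4 h5]
        exact hf.alternating _
    · exact fun h => absurd h1 h
  have hT2 := TS_span hf hT hTb (by rw [hf1]; exact hb₁f) 1 (-1)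
  set c : Fin t → ι → F := fun j => a j - b j with hc
  have hsum : (1 : F) • ∑ j ∈ I, a j + (-1 : F) • ∑ j ∈ I, b j = ∑ j ∈ ({i₁, i₂} : Finset (Fin t)), c j := by
    have h3 : (1 : F) • ∑ j ∈ I, a j + (-1 : F) • ∑ j ∈ I, b j = ∑ j ∈ I, c j := by
      simp only [one_smul, neg_smul, hc, Finset.sum_sub_distrib]
      abel
    rw [h3]
    symm
    apply Finset.sum_subset
    · intro j hj
      simp only [Finset.mem_insert, Finset.mem_singleton] at hj
      rcases hj with rfl | rfl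
      · exact h1
      · exact h2
    · intro j _ hj
      simp only [Finset.mem_insert, Finset.mem_singleton, not_or] at hj
      simp [hc, hbo j hj.1 hj.2]
  rw [hsum] at hT2
  refine ⟨c, ?_, hT2⟩
  intro i hi
  simp only [Finset.mem_insert, Finset.mem_singleton] at hi
  rcases hi with rfl | rfl
  · refine ⟨(D i).sub_mem (ha i h1).1 (by rw [hb1]; exact hb₁), ?_⟩
    simp only [hc, hb1]
    intro h3
    apply hb₁f
    rw [sub_eq_zero.mp h3]
    exact hf.alternating _
  · refine ⟨(D i).sub_mem (ha i h2).1 (by rw [hb2]; exact hb₂), ?_⟩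
    simp only [hc, hb2]
    intro h3
    exact hb₂a (sub_eq_zero.mp h3).symm

/-- If all supports of size two occur, all supports occur. -/
theorem all_good (h2 : ∀ p q : Fin t, p ≠ q → ∀ c : Fin t → ι → F,
      (∀ i ∈ ({p, q} : Finset (Fin t)), c i ∈ D i ∧ c i ≠ 0) →
      ∑ j ∈ ({p, q} : Finset (Fin t)), c j ∈ TS hf M) :
    ∀ (n : ℕ) (I : Finset (Fin t)), I.card = n → ∀ a : Fin t → ι → F, (∀ i ∈ I, a i ∈ D i ∧ a i ≠ 0) →
      ∑ j ∈ I, a j ∈ TS hf M := by
  intro n
  induction n using Nat.strong_induction_on with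
  | _ n ih =>
    intro I hI a ha
    by_cases h0 : n = 0
    · subst h0
      rw [Finset.card_eq_zero] at hI
      subst hI
      simpa using TS_zero hf
    by_cases h1 : n = 1
    · subst h1
      obtain ⟨r, rfl⟩ := Finset.card_eq_one.mp hI
      simpa using hDT r _ (ha r (Finset.mem_singleton_self r)).1
    obtain ⟨r, hr, s, hs, hrs⟩ := Finset.one_lt_card.mp (by omega : 1 < I.card)
    obtain ⟨b, hb, hbf⟩ := hnd s _ (ha s hs).1 (ha s hs).2
    have hb0 : b ≠ 0 := by
      rintro rfl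
      exact hbf (f_zero_right hf.bilinear _)
    set c : Fin t → ι → F := Function.update a s (a s - b) with hcdef
    have hcs : c s = a s - b := by simp [hcdef]
    have hco : ∀ j, j ≠ s → c j = a j := fun j hj => by simp [hcdef, Function.update_of_ne hj]
    have hcs0 : a s - b ≠ 0 := by
      intro h3
      apply hbf
      rw [sub_eq_zero.mp h3]
      exact hf.alternating _
    have hsr : s ∈ I.erase r := Finset.mem_erase.mpr ⟨Ne.symm hrs, hs⟩
    have hcrep : ∀ i ∈ I.erase r, c i ∈ D i ∧ c i ≠ 0 := by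
      intro i hi
      by_cases h3 : i = s
      · subst h3
        rw [hcs]
        exact ⟨(D i).sub_mem (ha i hs).1 hb, hcs0⟩
      · rw [hco i h3]
        exact ha i (Finset.mem_of_mem_erase hi)
    have hcard : (I.erase r).card < n := by
      rw [Finset.card_erase_of_mem hr]
      omega
    have hT1 := ih _ hcard (I.erase r) rfl c hcrep
    -- the second vector
    set d : Fin t → ι → F := Function.update a s b with hddef
    have hds : d s = b := by simp [hddef]
    have hdr : d r = a r := by simp [hddef, Function.update_of_ne hrs]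
    have hT2 := h2 s r (Ne.symm hrs) d (by
      intro i hi
      simp only [Finset.mem_insert, Finset.mem_singleton] at hi
      rcases hi with rfl | rfl
      · rw [hds]
        exact ⟨hb, hb0⟩
      · rw [hdr]
        exact ha i hr)
    rw [Finset.sum_pair (Ne.symm hrs), hds, hdr] at hT2
    have hf1 : f (∑ j ∈ I.erase r, c j) (b + a r) ≠ 0 := by
      have hcmem : ∀ i ∈ I.erase r, c i ∈ D i := fun i hi => (hcrep i hi).1
      rw [hf.bilinear.add_right, f_S_z hf horth hcmem hb, if_pos hsr,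
        f_S_z hf horth hcmem (ha r hr).1, if_neg (Finset.notMem_erase r I), add_zero, hcs,
        f_sub_left hf.bilinear, hf.alternating, sub_zero]
      exact hbf
    have hT3 := TS_span hf hT1 hT2 hf1 1 1
    have hsum : (1 : F) • ∑ j ∈ I.erase r, c j + (1 : F) • (b + a r) = ∑ j ∈ I, a j := by
      rw [one_smul, one_smul, ← Finset.add_sum_erase I a hr]
      have h3 : ∑ j ∈ I.erase r, c j = ∑ j ∈ I.erase r, a j - b := by
        have h4 : ∑ j ∈ I.erase r, c j = ∑ j ∈ I.erase r, (a j - if j = s then b else 0) := by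
          refine Finset.sum_congr rfl (fun j _ => ?_)
          by_cases h5 : j = s
          · subst h5
            rw [hcs]
            simp
          · rw [hco j h5]
            simp [h5]
        rw [h4, Finset.sum_sub_distrib, Finset.sum_ite_eq', if_pos hsr]
      rw [h3]
      abel
    rwa [hsum] at hT3

omit hf horth hnd hDT in
theorem exists_rep (htop : iSup D = ⊤) (x : ι → F) :
    ∃ c : Fin t → ι → F, (∀ i, c i ∈ D i) ∧ ∑ i, c i = x := by
  have hx : x ∈ iSup D := by
    rw [htop]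
    trivial
  induction hx using Submodule.iSup_induction' with
  | mem i y hy =>
    refine ⟨Function.update 0 i y, ?_, ?_⟩
    · intro j
      by_cases hj : j = i
      · subst hj
        simpa using hy
      · simp [Function.update_of_ne hj]
    · rw [Finset.sum_eq_single i]
      · simp
      · intro j _ hj
        simp [Function.update_of_ne hj]
      · simp
  | zero => exact ⟨0, fun i => (D i).zero_mem, by simp⟩
  | add y z _ _ hy hz =>
    obtain ⟨c, hc1, hc2⟩ := hy
    obtain ⟨d, hd1, hd2⟩ := hz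
    exact ⟨c + d, fun i => (D i).add_mem (hc1 i) (hd1 i), by
      simp only [Pi.add_apply, Finset.sum_add_distrib, hc2, hd2]⟩

omit hf horth hnd hDT in
theorem exists_rep' (htop : iSup D = ⊤) (x : ι → F) :
    ∃ (I : Finset (Fin t)) (a : Fin t → ι → F), (∀ i ∈ I, a i ∈ D i ∧ a i ≠ 0) ∧ ∑ i ∈ I, a i = x := by
  classical
  obtain ⟨c, hc1, hc2⟩ := exists_rep htop x
  refine ⟨Finset.univ.filter (fun i => c i ≠ 0), c, ?_, ?_⟩
  · intro i hi
    exact ⟨hc1 i, (Finset.mem_filter.mp hi).2⟩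
  · rw [Finset.sum_filter_ne_zero, hc2]

omit horth hnd hDT in
theorem good_image {g : GL ι F} (hgM : g ∈ M) (hgp : g ∈ preserving (glToMat ι F) f)
    (σ : Equiv.Perm (Fin t)) (hg : ∀ i, ∀ x ∈ D i, g ⋆ x ∈ D (σ i))
    {I : Finset (Fin t)} {a : Fin t → ι → F} (ha : ∀ i ∈ I, a i ∈ D i ∧ a i ≠ 0)
    (hT : ∑ j ∈ I, a j ∈ TS hf M) :
    ∃ a' : Fin t → ι → F, (∀ i ∈ I.image σ, a' i ∈ D i ∧ a' i ≠ 0) ∧
      ∑ j ∈ I.image σ, a' j ∈ TS hf M := by
  refine ⟨fun j => g ⋆ a (σ.symm j), ?_, ?_⟩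
  · intro i hi
    obtain ⟨j, hj, rfl⟩ := Finset.mem_image.mp hi
    simp only [Equiv.symm_apply_apply]
    refine ⟨hg j _ (ha j hj).1, ?_⟩
    intro h0
    apply (ha j hj).2
    have := congrArg (fun v => ((g⁻¹ : GL ι F) : Matrix ι ι F) *ᵥ v) h0
    simpa [inv_mulVec_GL] using this
  · rw [Finset.sum_image (fun x _ y _ h => σ.injective h)]
    simp only [Equiv.symm_apply_apply]
    have := TS_conj hf hgM hgp hT
    rwa [Matrix.mulVec_sum] at this

/-- The conclusion of the transvection calculus for decompositions. -/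
theorem core (h2t : 2 ≤ t) (htop : iSup D = ⊤)
    (hb : ∀ i, ∀ a ∈ D i, a ≠ 0 → ∃ b ∈ D i, f a b = 0 ∧ b ≠ 0 ∧ b ≠ a)
    (hswap : ∀ p q : Fin t, p ≠ q → ∃ g ∈ M, g ∈ preserving (glToMat ι F) f ∧
      ∀ i, ∀ x ∈ D i, g ⋆ x ∈ D (Equiv.swap p q i))
    (hne : ∀ i, ∃ z ∈ D i, z ≠ 0)
    (hmix : ∃ x ∈ TS hf M, ∀ j, x ∉ D j) : ∀ x, x ∈ TS hf M := by
  obtain ⟨x, hxT, hxD⟩ := hmix
  obtain ⟨I, a, ha, rfl⟩ := exists_rep' htop x
  have hcard : 1 < I.card := by
    by_contra hcon
    have hle : I.card ≤ 1 := by omega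
    rcases Nat.le_one_iff_eq_zero_or_eq_one.mp hle with h0 | h1
    · rw [Finset.card_eq_zero] at h0
      subst h0
      apply hxD ⟨0, by omega⟩
      simpa using (D _).zero_mem
    · obtain ⟨r, rfl⟩ := Finset.card_eq_one.mp h1
      apply hxD r
      simpa using (ha r (Finset.mem_singleton_self r)).1
  obtain ⟨i₁, hi₁, i₂, hi₂, h12⟩ := Finset.one_lt_card.mp hcard
  obtain ⟨c, hc, hcT⟩ := reduce2 hf horth hnd hDT hb ha hxT hi₁ hi₂ h12
  have hswap' : ∀ p q : Fin t, ∃ g ∈ M, g ∈ preserving (glToMat ι F) f ∧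
      ∀ i, ∀ x ∈ D i, g ⋆ x ∈ D (Equiv.swap p q i) := by
    intro p q
    by_cases hpq : p = q
    · subst hpq
      refine ⟨1, M.one_mem, Subgroup.one_mem _, ?_⟩
      intro i x hx
      simpa using hx
    · exact hswap p q hpq
  have h2 : ∀ p q : Fin t, p ≠ q → ∀ c' : Fin t → ι → F,
      (∀ i ∈ ({p, q} : Finset (Fin t)), c' i ∈ D i ∧ c' i ≠ 0) →
      ∑ j ∈ ({p, q} : Finset (Fin t)), c' j ∈ TS hf M := by
    intro p q hpq c' hc'
    let σ₁ := Equiv.swap i₁ p
    let σ₂ := Equiv.swap (σ₁ i₂) q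
    obtain ⟨g₁, hg₁M, hg₁p, hg₁⟩ := hswap' i₁ p
    obtain ⟨g₂, hg₂M, hg₂p, hg₂⟩ := hswap' (σ₁ i₂) q
    obtain ⟨c₁, hc₁, hc₁T⟩ := good_image hf hg₁M hg₁p σ₁ hg₁ hc hcT
    obtain ⟨c₂, hc₂, hc₂T⟩ := good_image hf hg₂M hg₂p σ₂ hg₂ hc₁ hc₁T
    have himg : (({i₁, i₂} : Finset (Fin t)).image σ₁).image σ₂ = {p, q} := by
      have e1 : σ₁ i₁ = p := Equiv.swap_apply_left _ _
      have e2 : σ₁ i₂ ≠ p := by
        intro h
        rw [← e1] at h
        exact h12 (σ₁.injective h).symm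
      have e3 : σ₂ p = p := Equiv.swap_apply_of_ne_of_ne (Ne.symm e2) hpq
      have e4 : σ₂ (σ₁ i₂) = q := Equiv.swap_apply_left _ _
      rw [Finset.image_insert, Finset.image_singleton, Finset.image_insert, Finset.image_singleton,
        e1, e3, e4]
    rw [himg] at hc₂ hc₂T
    exact good_of_rep hf horth hnd hDT hc₂ hc' hc₂T
  intro y
  obtain ⟨J, b, hb', rfl⟩ := exists_rep' htop y
  exact all_good hf horth hnd hDT h2 _ J rfl b hb'

omit hDT in
/-- An invertible matrix mapping each member of the decomposition into a member stabilises the decomposition. -/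
theorem stab_of_cover {k : ℕ} (hfin : ∀ i, Module.finrank F (D i) = k) (hne : ∀ i, ∃ z ∈ D i, z ≠ 0)
    (g : GL ι F) (hcov : ∀ i, ∀ w ∈ D i, ∃ j, g ⋆ w ∈ D j) : g ∈ decompositionStabilizer D := by
  have hinj : ∀ w, g ⋆ w = 0 → w = 0 := by
    intro w hw
    have := congrArg (fun v => ((g⁻¹ : GL ι F) : Matrix ι ι F) *ᵥ v) hw
    simpa [inv_mulVec_GL] using this
  have h1 : ∀ i, ∃ j, ∀ w ∈ D i, g ⋆ w ∈ D j := by
    intro i
    obtain ⟨w₁, hw₁, hw₁0⟩ := hne i
    obtain ⟨j, hj⟩ := hcov i w₁ hw₁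
    refine ⟨j, fun w hw => ?_⟩
    obtain ⟨l, hl⟩ := hcov i w hw
    by_cases hlj : l = j
    · exact hlj ▸ hl
    obtain ⟨r, hr⟩ := hcov i (w + w₁) ((D i).add_mem hw hw₁)
    rw [Matrix.mulVec_add] at hr
    by_cases hrj : r = j
    · subst hrj
      by_contra hcon
      have hu0 : g ⋆ w ≠ 0 := fun h0 => hcon (h0 ▸ (D r).zero_mem)
      obtain ⟨z, hz, hfz⟩ := hnd l _ hl hu0
      apply hfz
      have h2 := horth r l (Ne.symm hlj) _ hr z hz
      rw [hf.bilinear.add_left, horth r l (Ne.symm hlj) _ hj z hz, add_zero] at h2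
      exact h2
    · exfalso
      have hu1 : g ⋆ w₁ ≠ 0 := fun h0 => hw₁0 (hinj _ h0)
      obtain ⟨z, hz, hfz⟩ := hnd j _ hj hu1
      apply hfz
      have h2 := horth r j hrj _ hr z hz
      rw [hf.bilinear.add_left, horth l j hlj _ hl z hz, zero_add] at h2
      exact h2
  choose σ hσ using h1
  have hmap : ∀ i, (D i).map (Matrix.toLin' (g : Matrix ι ι F)) = D (σ i) := by
    intro i
    have hle : (D i).map (Matrix.toLin' (g : Matrix ι ι F)) ≤ D (σ i) := by
      rintro _ ⟨w, hw, rfl⟩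
      exact hσ i w hw
    refine Submodule.eq_of_le_of_finrank_eq hle ?_
    have h2 : (D i).map (Matrix.toLin' (g : Matrix ι ι F)) = (D i).map (linOf g).toLinearMap := rfl
    rw [h2, LinearEquiv.finrank_map_eq, hfin, hfin]
  have hσinj : Function.Injective σ := by
    intro i i' he
    by_contra hii
    obtain ⟨w₁, hw₁, hw₁0⟩ := hne i
    have h2 : g ⋆ w₁ ∈ (D i').map (Matrix.toLin' (g : Matrix ι ι F)) := by
      rw [hmap, ← he]
      exact hσ i w₁ hw₁
    obtain ⟨w', hw', hw'e⟩ := h2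
    have h3 : w' = w₁ := by
      have h4 : g ⋆ (w' - w₁) = 0 := by
        rw [Matrix.mulVec_sub, sub_eq_zero]
        exact hw'e
      exact sub_eq_zero.mp (hinj _ h4)
    obtain ⟨z, hz, hfz⟩ := hnd i _ hw₁ hw₁0
    apply hfz
    rw [← h3]
    exact horth i' i (Ne.symm hii) _ hw' z hz
  exact ⟨Equiv.ofBijective σ (Finite.injective_iff_bijective.mp hσinj), hmap⟩

omit hf horth hnd hDT in
theorem decomp_of_maps {k : ℕ} (hfin : ∀ i, Module.finrank F (D i) = k) (g : GL ι F)
    (σ : Equiv.Perm (Fin t)) (h : ∀ i, ∀ x ∈ D i, g ⋆ x ∈ D (σ i)) : g ∈ decompositionStabilizer D := by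
  refine ⟨σ, fun i => ?_⟩
  have hle : (D i).map (Matrix.toLin' (g : Matrix ι ι F)) ≤ D (σ i) := by
    rintro _ ⟨w, hw, rfl⟩
    exact h i w hw
  refine Submodule.eq_of_le_of_finrank_eq hle ?_
  have h2 : (D i).map (Matrix.toLin' (g : Matrix ι ι F)) = (D i).map (linOf g).toLinearMap := rfl
  rw [h2, LinearEquiv.finrank_map_eq, hfin, hfin]

omit hf horth hnd hDT in
/-- Two non-degenerate alternating forms on spaces of the same dimension are isometric. -/
theorem exists_isometry_alt {V V' : Type*} [AddCommGroup V] [Module F V] [FiniteDimensional F V]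
    [AddCommGroup V'] [Module F V'] [FiniteDimensional F V']
    (B : LinearMap.BilinForm F V) (B' : LinearMap.BilinForm F V') (hA : B.IsAlt) (hA' : B'.IsAlt)
    (hn : ∀ x, x ≠ 0 → ∃ y, B x y ≠ 0) (hn' : ∀ x, x ≠ 0 → ∃ y, B' x y ≠ 0)
    (hdim : Module.finrank F V = Module.finrank F V') :
    ∃ φ : V ≃ₗ[F] V', ∀ x y, B' (φ x) (φ y) = B x y := by
  obtain ⟨m, k, b, h1, h2, h3, h4⟩ := Cfsg.Agent.S0752.result B hA
  obtain ⟨m', k', b', h1', h2', h3', h4'⟩ := Cfsg.Agent.S0752.result B' hA'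
  have hk : k = 0 := by
    by_contra h
    have j : Fin k := ⟨0, by omega⟩
    obtain ⟨y, hy⟩ := hn _ (b.ne_zero (Sum.inr j))
    exact hy (h4 j y)
  have hk' : k' = 0 := by
    by_contra h
    have j : Fin k' := ⟨0, by omega⟩
    obtain ⟨y, hy⟩ := hn' _ (b'.ne_zero (Sum.inr j))
    exact hy (h4' j y)
  subst hk hk'
  have hmm : m = m' := by
    have e1 := Module.finrank_eq_card_basis b
    have e2 := Module.finrank_eq_card_basis b'
    simp only [Fintype.card_sum, Fintype.card_fin] at e1 e2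
    omega
  subst hmm
  refine ⟨b.equiv b' (Equiv.refl _), ?_⟩
  have hφ : ∀ i, (b.equiv b' (Equiv.refl _)) (b i) = b' i := fun i => by simp
  have hbil : (B'.comp (b.equiv b' (Equiv.refl _)).toLinearMap (b.equiv b' (Equiv.refl _)).toLinearMap) = B := by
    refine b.ext (fun i => b.ext (fun j => ?_))
    simp only [LinearMap.BilinForm.comp_apply, LinearEquiv.coe_coe, hφ]
    rcases i with (i | i) | i
    · rcases j with (j | j) | j
      · rw [h2, h2']
      · rw [h1, h1']
      · exact j.elim0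
    · rcases j with (j | j) | j
      · have e1 := hA.neg_eq (b (Sum.inl (Sum.inl j))) (b (Sum.inl (Sum.inr i)))
        have e2 := hA'.neg_eq (b' (Sum.inl (Sum.inl j))) (b' (Sum.inl (Sum.inr i)))
        rw [← e1, ← e2, h1, h1']
      · rw [h3, h3']
      · exact j.elim0
    · exact i.elim0
  intro x y
  have := congrArg (fun C : LinearMap.BilinForm F V => C x y) hbil
  simpa using this

omit horth hnd hDT hf in
/-- An invertible matrix from a linear automorphism. -/
noncomputable def glOf (e : (ι → F) ≃ₗ[F] (ι → F)) : GL ι F where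
  val := LinearMap.toMatrix' e.toLinearMap
  inv := LinearMap.toMatrix' e.symm.toLinearMap
  val_inv := by
    rw [← LinearMap.toMatrix'_comp, ← LinearMap.toMatrix'_id]
    congr 1
    ext x
    simp
  inv_val := by
    rw [← LinearMap.toMatrix'_comp, ← LinearMap.toMatrix'_id]
    congr 1
    ext x
    simp

omit horth hnd hDT hf in
theorem glOf_apply (e : (ι → F) ≃ₗ[F] (ι → F)) (x : ι → F) : glOf e ⋆ x = e x :=
  LinearMap.toMatrix'_mulVec _ _

omit hnd hDT in
/-- Swapping two members of an orthogonal decomposition. -/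
theorem exists_swap (hnd : ∀ i, ∀ a ∈ D i, a ≠ 0 → ∃ z ∈ D i, f a z ≠ 0) {p q : Fin t} (hpq : p ≠ q)
    (φ : ↥(D p) ≃ₗ[F] ↥(D q)) (hφ : ∀ x y : ↥(D p), f (φ x) (φ y) = f x y) :
    ∃ g : GL ι F, g ∈ preserving (glToMat ι F) f ∧ ∀ i, ∀ x ∈ D i, g ⋆ x ∈ D (Equiv.swap p q i) := by
  have hcompl : ∀ i, IsCompl (D i) (perp hf (D i)) := by
    intro i
    refine (LinearMap.BilinForm.isCompl_orthogonal_iff_disjoint (Bf_refl hf)).2 ?_
    rw [Submodule.disjoint_def]
    intro z hz hz'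
    by_contra h0
    obtain ⟨y, hy, hne⟩ := hnd i z hz h0
    apply hne
    rw [hf.skew]
    have := (mem_perp hf).1 hz' y hy
    rw [this, neg_zero]
  let πp := Submodule.projectionOnto (D p) (perp hf (D p)) (hcompl p)
  let πq := Submodule.projectionOnto (D q) (perp hf (D q)) (hcompl q)
  have hπ : ∀ (i : Fin t) (x : ι → F) (z : ι → F), z ∈ D i →
      f ((Submodule.projectionOnto (D i) (perp hf (D i)) (hcompl i) x : ↥(D i)) : ι → F) z = f x z := by
    intro i x z hz
    have hx : x ∈ D i ⊔ perp hf (D i) := by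
      rw [(hcompl i).sup_eq_top]
      trivial
    obtain ⟨y, hy, w, hw, rfl⟩ := Submodule.mem_sup.mp hx
    have e1 : Submodule.projectionOnto (D i) (perp hf (D i)) (hcompl i) (y + w) = ⟨y, hy⟩ := by
      have e11 : Submodule.projectionOnto (D i) (perp hf (D i)) (hcompl i) y = ⟨y, hy⟩ :=
        Submodule.projectionOnto_apply_left (hcompl i) ⟨y, hy⟩
      have e12 : Submodule.projectionOnto (D i) (perp hf (D i)) (hcompl i) w = 0 :=
        Submodule.projectionOnto_apply_right (hcompl i) ⟨w, hw⟩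
      rw [map_add, e11, e12, add_zero]
    rw [e1, hf.bilinear.add_left, hf.skew w z, (mem_perp hf).1 hw z hz]
    simp
  have hπ0 : ∀ (i j : Fin t) (x : ι → F), i ≠ j → x ∈ D j →
      Submodule.projectionOnto (D i) (perp hf (D i)) (hcompl i) x = 0 := by
    intro i j x hij hx
    have hw : x ∈ perp hf (D i) := (mem_perp hf).2 (fun w hw => horth i j hij w hw x hx)
    exact Submodule.projectionOnto_apply_right (hcompl i) ⟨x, hw⟩
  let G : (ι → F) →ₗ[F] (ι → F) :=
    LinearMap.id - (D p).subtype ∘ₗ πp - (D q).subtype ∘ₗ πq +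
      (D q).subtype ∘ₗ φ.toLinearMap ∘ₗ πp + (D p).subtype ∘ₗ φ.symm.toLinearMap ∘ₗ πq
  have hG : ∀ x, G x = (x - (πp x : ι → F) - (πq x : ι → F)) + ((φ.symm (πq x) : ↥(D p)) : ι → F) +
      ((φ (πp x) : ↥(D q)) : ι → F) := by
    intro x
    simp only [G, LinearMap.add_apply, LinearMap.sub_apply, LinearMap.id_apply, LinearMap.comp_apply,
      Submodule.subtype_apply, LinearEquiv.coe_coe]
    abel
  have hx' : ∀ x : ι → F, (∀ z ∈ D p, f (x - (πp x : ι → F) - (πq x : ι → F)) z = 0) ∧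
      (∀ z ∈ D q, f (x - (πp x : ι → F) - (πq x : ι → F)) z = 0) := by
    intro x
    constructor
    · intro z hz
      rw [f_sub_left hf.bilinear, f_sub_left hf.bilinear, hπ p x z hz,
        horth q p (Ne.symm hpq) _ (πq x).2 z hz]
      simp
    · intro z hz
      rw [f_sub_left hf.bilinear, f_sub_left hf.bilinear, hπ q x z hz,
        horth p q hpq _ (πp x).2 z hz]
      simp
  have hthree : ∀ (u₀ v₀ u₁ v₁ u₂ v₂ : ι → F), (∀ z ∈ D p, f u₀ z = 0) → (∀ z ∈ D q, f u₀ z = 0) →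
      (∀ z ∈ D p, f v₀ z = 0) → (∀ z ∈ D q, f v₀ z = 0) → u₁ ∈ D p → v₁ ∈ D p → u₂ ∈ D q → v₂ ∈ D q →
      f (u₀ + u₁ + u₂) (v₀ + v₁ + v₂) = f u₀ v₀ + f u₁ v₁ + f u₂ v₂ := by
    intro u₀ v₀ u₁ v₁ u₂ v₂ h1 h2 h3 h4 h5 h6 h7 h8
    have hb := hf.bilinear
    simp only [hb.add_left, hb.add_right]
    rw [h1 v₁ h6, h2 v₂ h8, horth p q hpq u₁ h5 v₂ h8, horth q p (Ne.symm hpq) u₂ h7 v₁ h6,
      hf.skew u₁ v₀, h3 u₁ h5, hf.skew u₂ v₀, h4 u₂ h7]
    ring
  have hiso : ∀ x y, f (G x) (G y) = f x y := by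
    intro x y
    rw [hG, hG]
    have e1 := hthree _ _ _ _ _ _ (hx' x).1 (hx' x).2 (hx' y).1 (hx' y).2 (φ.symm (πq x)).2
      (φ.symm (πq y)).2 (φ (πp x)).2 (φ (πp y)).2
    rw [e1]
    have e2 : f x y = f ((x - (πp x : ι → F) - (πq x : ι → F)) + (πp x : ι → F) + (πq x : ι → F))
        ((y - (πp y : ι → F) - (πq y : ι → F)) + (πp y : ι → F) + (πq y : ι → F)) := by
      congr 1 <;> abel
    rw [e2, hthree _ _ _ _ _ _ (hx' x).1 (hx' x).2 (hx' y).1 (hx' y).2 (πp x).2 (πp y).2 (πq x).2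
      (πq y).2, hφ]
    have e3 : f ((φ.symm (πq x) : ↥(D p)) : ι → F) ((φ.symm (πq y) : ↥(D p)) : ι → F) =
        f (πq x : ι → F) (πq y : ι → F) := by
      have := hφ (φ.symm (πq x)) (φ.symm (πq y))
      simpa using this.symm
    rw [e3]
    ring
  have hinj : Function.Injective G := by
    rw [injective_iff_map_eq_zero]
    intro x hx
    by_contra h0
    obtain ⟨y, hy⟩ := (hf.nondegenerate x h0).2
    apply hy
    rw [← hiso, hx]
    exact f_zero_left hf.bilinear _
  let L := LinearEquiv.ofInjectiveEndo G hinj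
  have hL : ∀ x, glOf L ⋆ x = G x := fun x => glOf_apply L x
  refine ⟨glOf L, ?_, ?_⟩
  · intro u v
    show f (glOf L ⋆ u) (glOf L ⋆ v) = f u v
    rw [hL, hL, hiso]
  · intro i x hx
    rw [hL, hG]
    by_cases hip : i = p
    · subst hip
      have e1 : πq x = 0 := hπ0 q i x (Ne.symm hpq) hx
      have e2 : πp x = ⟨x, hx⟩ := Submodule.projectionOnto_apply_left (hcompl i) ⟨x, hx⟩
      rw [e1, e2, Equiv.swap_apply_left]
      simpa using (φ ⟨x, hx⟩).2
    · by_cases hiq : i = q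
      · subst hiq
        have e1 : πp x = 0 := hπ0 p i x hpq hx
        have e2 : πq x = ⟨x, hx⟩ := Submodule.projectionOnto_apply_left (hcompl i) ⟨x, hx⟩
        rw [e1, e2, Equiv.swap_apply_right]
        simpa using (φ.symm ⟨x, hx⟩).2
      · have e1 : πp x = 0 := hπ0 p i x (Ne.symm hip) hx
        have e2 : πq x = 0 := hπ0 q i x (Ne.symm hiq) hx
        rw [e1, e2, Equiv.swap_apply_of_ne_of_ne hip hiq]
        simpa using hx

end Cfsg.Agent.Lib.SympDecomp
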