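import Mathlib
import Cfsg.Agent.Lib.OmBlk4
import Cfsg.Agent.Lib.BlockPerm
import Cfsg.Agent.Lib.SympDecomp

/-!
# Decompositions into orthogonal blocks: the maximality theorem
-/

set_option autoImplicit false
set_option linter.unusedSectionVars false
set_option linter.unusedVariables false

namespace Cfsg.Agent.Lib.OmBlk5

open Matrix QuadraticMap Cfsg Cfsg.Geo Module
open Cfsg.Agent.Lib.OrthoBasic Cfsg.Agent.Lib.OrthoSiegel Cfsg.Agent.Lib.OmCalc Cfsg.Agent.Lib.TvGL
  Cfsg.Agent.Lib.OmPerp Cfsg.Agent.Lib.OmNd Cfsg.Agent.Lib.OmK Cfsg.Agent.Lib.OmPair Cfsg.Agent.Lib.OmBlk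
  Cfsg.Agent.Lib.OmBlk2 Cfsg.Agent.Lib.OmBlk3 Cfsg.Agent.Lib.OmBlk4
open Cfsg.Agent.Lib.OrthGroup Cfsg.Agent.Lib.OrthOmega
open Cfsg.Agent.Lib.SympT (GL_ext mulVec_mul_GL mulVec_inv_GL inv_mulVec_GL linOf linOf_apply)
open Cfsg.Agent.Lib.QuadFF (polar_sm_r polar_sm_l Q_ad Q_sm IsHyp ND restr polar_restr exists_singular)

local notation:70 g:71 " ⋆ " x:70 => Matrix.mulVec (Units.val g) x

variable {ι : Type} [Fintype ι] [DecidableEq ι] {F : Type*} [Field F] [Fintype F]
  {Q : QuadraticForm F (ι → F)}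

section Blocks

variable {t k : ℕ} {D : Fin t → Submodule F (ι → F)}

theorem opair_block (hQ : Nondeg Q) (hD : IsOrthogonalMDecomposition ⇑Q k D) (l : Fin t) :
    OPair Q (D l) (perpQ Q (D l)) :=
  (opair_of_nondeg hQ (fun x hx h => by
    by_contra hx0
    obtain ⟨y, hy, hy'⟩ := (hD.decomp.nondegenerate l x hx hx0).2
    exact hy' (h y hy))).symm

theorem mul_card (hD : IsMDecomposition k D) : t * k = Fintype.card ι := by
  have h5 := Cfsg.Agent.Lib.BlockPerm.finrank_finset_sup D hD.indep Finset.univ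
  rw [Finset.sup_univ_eq_iSup, hD.iSup_eq_top, finrank_top, Module.finrank_fintype_fun_eq_card] at h5
  rw [h5, Finset.sum_congr rfl (fun i _ => hD.finrank_eq i), Finset.sum_const, Finset.card_univ, Fintype.card_fin,
    smul_eq_mul]

theorem refl_mem_block (hD : IsOrthogonalMDecomposition ⇑Q k D) {i l : Fin t} {v x : ι → F} (hv : v ∈ D i)
    (hx : x ∈ D l) : refl Q v x ∈ D l := by
  by_cases h : i = l
  · subst h
    rw [refl_eq]
    exact (D i).sub_mem hx ((D i).smul_mem _ hv)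
  · rw [Cfsg.Agent.Lib.OmBlk2.refl_of_perp]
    · exact hx
    · exact hD.decomp.orthogonal l i (Ne.symm h) x hx v hv

theorem exists_refl2 (hQ : Nondeg Q) (h11 : 11 ≤ Fintype.card ι) (hD : IsOrthogonalMDecomposition ⇑Q k D) {i j : Fin t}
    {a c : ι → F} (ha : a ∈ D i) (hc : c ∈ D j) (hac : Q a = Q c) (hQa : Q a ≠ 0) :
    ∃ s ∈ decompositionStabilizer D ⊓ omegaGL ⇑Q, ∀ x, s ⋆ x = refl Q a (refl Q c x) := by
  classical
  obtain ⟨s, ht⟩ := exists_gl_prodR (Q := Q) [a, c]
  have e : ∀ x, s ⋆ x = refl Q a (refl Q c x) := by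
    intro x
    rw [ht, prodR_cons, prodR_cons, prodR_nil, mul_one, LinearEquiv.mul_apply]
  have hO : s ∈ omegaGL ⇑Q := by
    refine mem_omegaGL_of_list hQ h11 [a, c] ?_ ?_ ?_ ht
    · intro v hv
      simp only [List.mem_cons, List.not_mem_nil, or_false] at hv
      rcases hv with rfl | rfl
      · exact hQa
      · rw [← hac]
        exact hQa
    · simp
    · simp only [List.map_cons, List.map_nil, List.prod_cons, List.prod_nil, mul_one]
      rw [← hac]
      exact ⟨Q a, rfl⟩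
  refine ⟨s, ⟨?_, hO⟩, e⟩
  refine Cfsg.Agent.Lib.SympDecomp.decomp_of_maps (k := k) hD.decomp.decomp.finrank_eq s 1 (fun l x hx => ?_)
  rw [e]
  exact refl_mem_block hD ha (refl_mem_block hD hc hx)

theorem sE_mem_H (hQ : Nondeg Q) (h11 : 11 ≤ Fintype.card ι) (hD : IsOrthogonalMDecomposition ⇑Q k D) {l : Fin t}
    {a y : ι → F} (ha : a ∈ D l) (hQa : Q a = 0) (hy : y ∈ D l) (hay : polar Q a y = 0) :
    sE hQ hQa hay ∈ decompositionStabilizer D ⊓ omegaGL ⇑Q := by
  classical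
  refine ⟨?_, sE_mem_omegaGL hQ h11 hQa hay⟩
  refine Cfsg.Agent.Lib.SympDecomp.decomp_of_maps (k := k) hD.decomp.decomp.finrank_eq _ 1 (fun i x hx => ?_)
  rw [sE_apply']
  by_cases h : i = l
  · subst h
    exact (D i).sub_mem ((D i).add_mem hx ((D i).smul_mem _ hy)) ((D i).smul_mem _ ha)
  · rw [hD.decomp.orthogonal i l h x hx a ha, hD.decomp.orthogonal i l h x hx y hy]
    simpa using hx

theorem prodR_fix (L : List (ι → F)) {x : ι → F} (h : ∀ v ∈ L, polar Q x v = 0) : prodR Q L x = x := by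
  induction L with
  | nil => simp
  | cons v L ih =>
    rw [prodR_cons, LinearEquiv.mul_apply, ih (fun w hw => h w (List.mem_cons_of_mem _ hw)),
      Cfsg.Agent.Lib.OmBlk2.refl_of_perp (h v List.mem_cons_self)]

theorem polar_isom {W W' : Submodule F (ι → F)} (φ : W ≃ₗ[F] W') (hφ : ∀ w : W, Q ((φ w : W') : ι → F) = Q (w : ι → F))
    (x y : W) : polar Q (φ x : ι → F) (φ y : ι → F) = polar Q (x : ι → F) (y : ι → F) := by
  have h := hφ (x + y)
  rw [map_add, Submodule.coe_add, Submodule.coe_add] at h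
  simp only [QuadraticMap.polar, h, hφ]

theorem map_mem_of_basis {N : ℕ} {W W' : Submodule F (ι → F)} (v : Basis (Fin N) F W) (τ : (ι → F) →ₗ[F] (ι → F))
    (h : ∀ i, τ (v i : ι → F) ∈ W') {x : ι → F} (hx : x ∈ W) : τ x ∈ W' := by
  have e : x = ((⟨x, hx⟩ : W) : ι → F) := rfl
  rw [e, ← v.sum_repr ⟨x, hx⟩]
  simp only [Submodule.coe_sum, map_sum, Submodule.coe_smul, map_smul]
  exact Submodule.sum_mem _ (fun i _ => W'.smul_mem _ (h i))

/-- Elements interchanging two blocks. -/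
theorem exists_swap (hQ : Nondeg Q) (h11 : 11 ≤ Fintype.card ι) (h2 : (2 : F) ≠ 0) (hD : IsOrthogonalMDecomposition ⇑Q k D)
    (hk : Odd k) (h2k : 2 ≤ k) {l m : Fin t} (hlm : l ≠ m) :
    ∃ s ∈ decompositionStabilizer D ⊓ omegaGL ⇑Q, (∀ x ∈ D l, s ⋆ x ∈ D m) ∧ (∀ x ∈ D m, s ⋆ x ∈ D l) ∧
      ∀ i, i ≠ l → i ≠ m → ∀ x ∈ D i, s ⋆ x = x := by
  classical
  have hfin := hD.decomp.decomp.finrank_eq
  obtain ⟨φ, hφ⟩ := hD.isometric l m
  obtain ⟨v, hv⟩ := Cfsg.Agent.Lib.OmFrame.exists_orth_basis (Q := Q) h2 (D l) (hfin l)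
  have hval : ∀ i, Q (v i : ι → F) ≠ 0 := Cfsg.Agent.Lib.OmFrame.value_ne_of_orth (hD.decomp.nondegenerate l) v hv
  have horth := hD.decomp.orthogonal
  obtain ⟨a, ha⟩ : ∃ a : Fin k → ι → F, a = fun i => (v i : ι → F) := ⟨_, rfl⟩
  obtain ⟨b, hb⟩ : ∃ b : Fin k → ι → F, b = fun i => (φ (v i) : ι → F) := ⟨_, rfl⟩
  have haD : ∀ i, a i ∈ D l := fun i => by rw [ha]; exact (v i).2
  have hbD : ∀ i, b i ∈ D m := fun i => by rw [hb]; exact (φ (v i)).2
  have hab : ∀ i j, polar Q (a i) (b j) = 0 := fun i j => horth l m hlm _ (haD i) _ (hbD j)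
  have hba : ∀ i j, polar Q (b i) (a j) = 0 := fun i j => horth m l hlm.symm _ (hbD i) _ (haD j)
  have hQb : ∀ i, Q (b i) = Q (a i) := fun i => by rw [ha, hb]; exact hφ (v i)
  have haa : ∀ i j, i ≠ j → polar Q (a i) (a j) = 0 := fun i j hij => by rw [ha]; exact hv i j hij
  have hbb : ∀ i j, i ≠ j → polar Q (b i) (b j) = 0 := fun i j hij => by
    rw [hb]
    simp only
    rw [polar_isom φ hφ]
    exact hv i j hij
  have hQa : ∀ i, Q (a i) ≠ 0 := fun i => by rw [ha]; exact hval i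
  obtain ⟨u, hu⟩ : ∃ u : Fin k → ι → F, u = fun i => a i - b i := ⟨_, rfl⟩
  have hQu : ∀ i, Q (u i) = 2 * Q (a i) := by
    intro i
    rw [hu]
    simp only
    rw [sub_eq_add_neg, Q_ad, QuadraticMap.map_neg, polar_neg_right, hab, hQb]
    ring
  have hQu0 : ∀ i, Q (u i) ≠ 0 := fun i => by
    rw [hQu]
    exact mul_ne_zero h2 (hQa i)
  have h1 : ∀ i, refl Q (u i) (a i) = b i := by
    intro i
    have e : polar Q (a i) (u i) = 2 * Q (a i) := by
      rw [hu]
      simp only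
      rw [polar_sub_right, pol_self, hab, sub_zero]
    rw [refl_eq, e, ← hQu, inv_mul_cancel₀ (hQu0 i), one_smul, hu]
    simp only
    abel
  have h1' : ∀ i, refl Q (u i) (b i) = a i := by
    intro i
    have e : polar Q (b i) (u i) = -(2 * Q (a i)) := by
      rw [hu]
      simp only
      rw [polar_sub_right, pol_self, hba, hQb]
      ring
    rw [refl_eq, e, ← hQu, mul_neg, inv_mul_cancel₀ (hQu0 i), hu]
    simp only
    module
  have h3 : ∀ i j, i ≠ j → refl Q (u i) (a j) = a j := by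
    intro i j hij
    refine Cfsg.Agent.Lib.OmBlk2.refl_of_perp ?_
    rw [hu]
    simp only
    rw [polar_sub_right, haa j i hij.symm, hab, sub_zero]
  have h4 : ∀ i j, i ≠ j → refl Q (u i) (b j) = b j := by
    intro i j hij
    refine Cfsg.Agent.Lib.OmBlk2.refl_of_perp ?_
    rw [hu]
    simp only
    rw [polar_sub_right, hba, hbb j i hij.symm, sub_zero]
  obtain ⟨L, hL⟩ : ∃ L, L = (List.finRange k).map u := ⟨_, rfl⟩
  have hτa : ∀ j, prodR Q L (a j) = b j := by
    intro j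
    rw [hL, prodR_swap u a b h1 h3 h4 _ (List.nodup_finRange k) j, if_pos (List.mem_finRange j)]
  have hτb : ∀ j, prodR Q L (b j) = a j := by
    intro j
    rw [hL, prodR_swap u b a h1' h4 h3 _ (List.nodup_finRange k) j, if_pos (List.mem_finRange j)]
  have hLne : ∀ w ∈ L, Q w ≠ 0 := by
    intro w hw
    rw [hL, List.mem_map] at hw
    obtain ⟨i, -, rfl⟩ := hw
    exact hQu0 i
  have hδ : (L.map Q).prod ≠ 0 := by
    apply List.prod_ne_zero
    intro h
    rw [List.mem_map] at h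
    obtain ⟨w, hw, hw'⟩ := h
    exact hLne w hw hw'
  obtain ⟨w, hwD, hw⟩ := value_in hQ (opair_block hQ hD l) (by rw [hfin]; exact h2k) hδ
  obtain ⟨s, hs⟩ := exists_gl_prodR (Q := Q) (w :: L)
  have hse : ∀ x, s ⋆ x = refl Q w (prodR Q L x) := by
    intro x
    rw [hs, prodR_cons, LinearEquiv.mul_apply]
  have hO : s ∈ omegaGL ⇑Q := by
    refine mem_omegaGL_of_list hQ h11 (w :: L) ?_ ?_ ?_ hs
    · intro v' hv'
      rcases List.mem_cons.1 hv' with rfl | h
      · rw [hw]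
        exact hδ
      · exact hLne _ h
    · rw [List.length_cons, hL, List.length_map, List.length_finRange]
      exact hk.add_one
    · rw [List.map_cons, List.prod_cons, hw]
      exact ⟨_, rfl⟩
  have hml : ∀ x ∈ D l, s ⋆ x ∈ D m := by
    intro x hx
    rw [hse]
    refine refl_mem_block hD hwD ?_
    refine map_mem_of_basis v (prodR Q L : (ι → F) ≃ₗ[F] (ι → F)).toLinearMap (fun i => ?_) hx
    change prodR Q L (v i : ι → F) ∈ D m
    have e : (v i : ι → F) = a i := by rw [ha]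
    rw [e, hτa]
    exact hbD i
  have hlm' : ∀ x ∈ D m, s ⋆ x ∈ D l := by
    intro x hx
    rw [hse]
    refine refl_mem_block hD hwD ?_
    refine map_mem_of_basis (v.map φ) (prodR Q L : (ι → F) ≃ₗ[F] (ι → F)).toLinearMap (fun i => ?_) hx
    change prodR Q L ((v.map φ) i : ι → F) ∈ D l
    have e : ((v.map φ) i : ι → F) = b i := by
      rw [hb]
      simp
    rw [e, hτb]
    exact haD i
  have hoth : ∀ i, i ≠ l → i ≠ m → ∀ x ∈ D i, s ⋆ x = x := by
    intro i hil him x hx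
    rw [hse, prodR_fix, Cfsg.Agent.Lib.OmBlk2.refl_of_perp (horth i l hil x hx w hwD)]
    intro w' hw'
    rw [hL, List.mem_map] at hw'
    obtain ⟨j, -, rfl⟩ := hw'
    rw [hu]
    simp only
    rw [polar_sub_right, horth i l hil x hx _ (haD j), horth i m him x hx _ (hbD j), sub_zero]
  refine ⟨s, ⟨?_, hO⟩, hml, hlm', hoth⟩
  refine Cfsg.Agent.Lib.SympDecomp.decomp_of_maps (k := k) hfin s (Equiv.swap l m) (fun i x hx => ?_)
  by_cases hil : i = l
  · subst hil
    rw [Equiv.swap_apply_left]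
    exact hml x hx
  by_cases him : i = m
  · subst him
    rw [Equiv.swap_apply_right]
    exact hlm' x hx
  rw [Equiv.swap_apply_of_ne_of_ne hil him, hoth i hil him x hx]
  exact hx

/-- The context. -/
theorem ctx_of (hQ : Nondeg Q) (h11 : 11 ≤ Fintype.card ι) (hF : Odd (Fintype.card F)) (h2 : (2 : F) ≠ 0)
    (hι : Odd (Fintype.card ι)) (hk : 1 < k) (hD : IsOrthogonalMDecomposition ⇑Q k D)
    (hex : ¬ (Fintype.card F = 3 ∧ k = 3)) {M : Subgroup (GL ι F)} (hHM : decompositionStabilizer D ⊓ omegaGL ⇑Q ≤ M)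
    (hMK : M ≤ omegaGL ⇑Q) : Ctx hQ D M := by
  classical
  have hfin := hD.decomp.decomp.finrank_eq
  have hc := mul_card hD.decomp.decomp
  rw [← hc, Nat.odd_mul] at hι
  obtain ⟨htodd, hkodd⟩ := hι
  have h3k : 3 ≤ k := by
    obtain ⟨r, hr⟩ := hkodd
    omega
  have ht := hD.decomp.decomp.two_le
  have h3t : 3 ≤ t := by
    obtain ⟨r, hr⟩ := htodd
    omega
  refine ⟨h2, opair_block hQ hD, fun l => by rw [hfin]; exact h3k, fun l => ?_, ?_, ?_, ?_, ?_, ?_, ?_, ?_⟩
  · rw [hfin]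
    by_cases h : k = 3
    · right
      have h5 : Fintype.card F ≠ 3 := fun h' => hex ⟨h', h⟩
      have h6 : 1 < Fintype.card F := Fintype.one_lt_card
      obtain ⟨r, hr⟩ := hF
      omega
    · left
      obtain ⟨r, hr⟩ := hkodd
      omega
  · exact fun i j hij x hx => mem_perpQ.2 (fun v hv => hD.decomp.orthogonal j i hij.symm v hv x hx)
  · intro x hx
    by_contra hx0
    obtain ⟨y, hy⟩ := hQ x hx0
    apply hy
    have htop : y ∈ iSup D := by
      rw [hD.decomp.decomp.iSup_eq_top]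
      trivial
    rw [polar_comm]
    refine Submodule.iSup_induction D (motive := fun y => polar Q y x = 0) htop (fun l y hy => mem_perpQ.1 (hx l) y hy)
      (polar_zero_left _ _) (fun a b ha hb => ?_)
    rw [polar_add_left, ha, hb, add_zero]
  · exact fun s hs v => iso_omega (hMK hs) v
  · intro l a ha hQa y hy hay
    exact ⟨hQa, hay, hHM (sE_mem_H hQ h11 hD ha hQa hy hay)⟩
  · intro i j a ha c hc hac hQa
    obtain ⟨s, hs, hs'⟩ := exists_refl2 hQ h11 hD ha hc hac hQa
    exact ⟨s, hHM hs, hs'⟩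
  · intro l m hlm
    obtain ⟨s, hs, h'⟩ := exists_swap hQ h11 h2 hD hkodd (by omega) hlm
    exact ⟨s, hHM hs, h'⟩
  · intro j l
    by_contra hcon
    push Not at hcon
    have h3 : (Finset.univ : Finset (Fin t)) ⊆ {j, l} := by
      intro x _
      by_cases hxj : x = j
      · simp [hxj]
      · simp [hcon x hxj]
    have h4 := Finset.card_le_card h3
    have h5 : ({j, l} : Finset (Fin t)).card ≤ 2 := Finset.card_le_two
    rw [Finset.card_univ, Fintype.card_fin] at h4
    omega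

/-- The main theorem. -/
theorem blocks_maximal (hQ : Nondeg Q) (h11 : 11 ≤ Fintype.card ι) (hF : Odd (Fintype.card F)) (h2 : (2 : F) ≠ 0)
    (hι : Odd (Fintype.card ι)) (hk : 1 < k) (hD : IsOrthogonalMDecomposition ⇑Q k D)
    (hex : ¬ (Fintype.card F = 3 ∧ k = 3)) :
    IsMaximalIn (omegaGL ⇑Q) (decompositionStabilizer D ⊓ omegaGL ⇑Q) := by
  classical
  have hfin := hD.decomp.decomp.finrank_eq
  have ht := hD.decomp.decomp.two_le
  refine ⟨lt_of_le_of_ne inf_le_right ?_, ?_⟩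
  · intro heq
    have C := ctx_of hQ h11 hF h2 hι hk hD hex (M := omegaGL ⇑Q) inf_le_right le_rfl
    let i₀ : Fin t := ⟨0, by omega⟩
    let i₁ : Fin t := ⟨1, by omega⟩
    have hi : i₀ ≠ i₁ := by
      intro h
      have := congrArg Fin.val h
      simp [i₀, i₁] at this
    obtain ⟨a, ha, ha0, hQa⟩ := exists_sing C i₀
    obtain ⟨f, hf, hQf, haf⟩ := exists_partner hQ (C.hp i₀) ha ha0 hQa
    obtain ⟨y, hy, hy0, -⟩ := exists_sing C i₁
    have hay : polar Q a y = 0 := polar_orth C hi ha hy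
    have hO := sE_mem_omegaGL hQ h11 hQa hay
    have hmem : sE hQ hQa hay ∈ decompositionStabilizer D ⊓ omegaGL ⇑Q := by
      rw [heq]
      exact hO
    obtain ⟨σ, hσ⟩ := hmem.1
    have hmp : ∀ i, ∀ x ∈ D i, sE hQ hQa hay ⋆ x ∈ D (σ i) := by
      intro i x hx
      rw [← hσ i]
      exact ⟨x, hx, rfl⟩
    have e1 : sE hQ hQa hay ⋆ a = a := by
      rw [sE_apply', polar_self_zero hQa, hay]
      simp
    have h1 := hmp i₀ a ha
    rw [e1] at h1
    have h3 := block_unique C ha0 ha h1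
    have h4 := hmp i₀ f hf
    rw [← h3, sE_apply'] at h4
    have e2 : polar Q f a = 1 := by
      rw [polar_comm]
      exact haf
    have hfy : polar Q f y = 0 := polar_orth C hi hf hy
    rw [e2, hfy] at h4
    have h5 : y ∈ D i₀ := by
      have h6 := (D i₀).sub_mem ((D i₀).add_mem h4 ((D i₀).smul_mem ((0 + Q y * 1)) ha)) hf
      convert h6 using 1
      module
    exact hy0 (by
      have e3 := block_unique C hy0 h5 hy
      exact absurd e3 hi)
  · intro M hHM hMK
    by_cases hMH : M = decompositionStabilizer D ⊓ omegaGL ⇑Q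
    · exact Or.inl hMH
    right
    refine le_antisymm hMK ?_
    have C := ctx_of hQ h11 hF h2 hι hk hD hex hHM hMK
    by_contra hno'
    have hno : ¬ G₀ C := fun h => hno' (omega_le C h11 h)
    obtain ⟨g, hg, hgH⟩ : ∃ g ∈ M, g ∉ decompositionStabilizer D ⊓ omegaGL ⇑Q := by
      by_contra hcon
      push Not at hcon
      exact hMH (le_antisymm hcon hHM)
    apply hgH
    refine ⟨?_, hMK hg⟩
    choose σ hσ using pres C hg hno
    choose τ hτ using pres C (M.inv_mem hg) hno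
    have hinj : Function.Injective σ := by
      intro i j hij
      obtain ⟨x, hx, hx0, -⟩ := exists_sing C i
      have h3 := hτ (σ i) (g ⋆ x) (hσ i x hx)
      rw [inv_mulVec_GL] at h3
      obtain ⟨y, hy, hy0, -⟩ := exists_sing C j
      have h4 := hτ (σ j) (g ⋆ y) (hσ j y hy)
      rw [inv_mulVec_GL, ← hij] at h4
      have e1 := block_unique C hx0 hx h3
      have e2 := block_unique C hy0 hy h4
      rw [e1, e2]
    exact Cfsg.Agent.Lib.SympDecomp.decomp_of_maps (k := k) hfin g (Equiv.ofBijective σ (Finite.injective_iff_bijective.1 hinj))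
      (fun i x hx => by simpa using hσ i x hx)

end Blocks

end Cfsg.Agent.Lib.OmBlk5
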