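import Mathlib
import Cfsg.Agent.Lib.SympT

/-!
# Abstract quadratic forms over a finite field of odd order

Calculus for a quadratic form `Q` with polar form `f` on `F^ι`, `F` finite of odd order: orthogonals,
vectors with prescribed inner products and prescribed value of `Q`, the transvections
`z ↦ z + f(z, u) x`, the Siegel elements `z ↦ z + f(z, b) a - f(z, a) b`, and the propagation argument: a
subgroup of `GL` containing the Siegel elements and one transvection `τ(x, u)` with `u ∉ F x` contains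
all transvections.
-/

set_option autoImplicit false
set_option linter.unusedSectionVars false
set_option linter.unusedVariables false

namespace Cfsg.Agent.Lib.QForm

open Matrix Cfsg Cfsg.Geo Cfsg.Agent.Lib.TvGL Cfsg.Agent.Lib.SympT

local notation:70 g:71 " ⋆ " x:70 => Matrix.mulVec (Units.val g) x

/-- A quadratic form `Q` with non-degenerate polar form `f`, odd characteristic. -/
structure QFo {ι : Type} {F : Type*} [Field F] [Fintype F] (f : (ι → F) → (ι → F) → F)
    (Q : (ι → F) → F) : Prop where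
  bil : IsBilinearForm f
  symm : ∀ a b, f a b = f b a
  nondeg : IsNondegenerateForm f
  add : ∀ a b, Q (a + b) = Q a + Q b + f a b
  smul : ∀ (c : F) (v : ι → F), Q (c • v) = c ^ 2 * Q v
  odd : Fintype.card F % 2 = 1

variable {ι : Type} [Fintype ι] [DecidableEq ι] {F : Type*} [Field F] [Fintype F]
  {f : (ι → F) → (ι → F) → F} {Q : (ι → F) → F} (hq : QFo f Q)
include hq

theorem Q_zero : Q (0 : ι → F) = 0 := by
  have := hq.smul 0 0
  simpa using this

theorem two_ne : (2 : F) ≠ 0 := by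
  intro h
  have hchar : ringChar F = 2 := by
    have h1 : ((2 : ℕ) : F) = 0 := by exact_mod_cast h
    have h3 := (ringChar.spec F 2).1 h1
    exact (Nat.prime_two.eq_one_or_self_of_dvd _ h3).resolve_left (CharP.ringChar_ne_one)
  have h4 := (FiniteField.even_card_iff_char_two (F := F)).1 hchar
  have := hq.odd
  omega

theorem f_self (v : ι → F) : f v v = 2 * Q v := by
  have h1 := hq.add v v
  have h2 : v + v = (2 : F) • v := by rw [two_smul]
  rw [h2, hq.smul] at h1
  linear_combination -h1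

theorem f_self_zero {v : ι → F} (hv : Q v = 0) : f v v = 0 := by
  rw [f_self hq, hv, mul_zero]

theorem f_swap_ne {a b : ι → F} (h : f a b ≠ 0) : f b a ≠ 0 := by
  rw [hq.symm]
  exact h

theorem cov_injective : Function.Injective (cov f : (ι → F) → (ι → F)) := by
  intro a b hab
  by_contra hne
  have h0 : a - b ≠ 0 := sub_ne_zero.2 hne
  obtain ⟨x, hx⟩ := (hq.nondeg _ h0).1
  apply hx
  rw [f_sub_right hq.bil, ← cov_dot hq.bil, ← cov_dot hq.bil, hab, sub_self]

theorem cov_bijective : Function.Bijective (cov f : (ι → F) → (ι → F)) :=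
  Function.Injective.bijective_of_finite (cov_injective hq)

theorem exists_cov (y : ι → F) : ∃ ψ : ι → F, cov f ψ = y := (cov_bijective hq).2 y

theorem exists_rep (ℓ : (ι → F) →ₗ[F] F) : ∃ ψ : ι → F, ∀ z, f z ψ = ℓ z := by
  obtain ⟨ψ, hψ⟩ := exists_cov hq (fun i => ℓ (Pi.single i 1))
  refine ⟨ψ, fun z => ?_⟩
  rw [← cov_dot hq.bil, hψ]
  have h1 : ℓ z = ∑ i, z i • ℓ (fun j => if i = j then 1 else 0) :=
    LinearMap.pi_apply_eq_sum_univ ℓ z
  have h3 : ∀ i, (fun j => if i = j then (1 : F) else 0) = (Pi.single i 1 : ι → F) := by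
    intro i
    ext j
    simp [Pi.single_apply, eq_comm]
  simp only [h3, smul_eq_mul] at h1
  rw [h1, dotProduct]
  refine Finset.sum_congr rfl (fun i _ => ?_)
  ring

theorem Bf_nondegQ : (Bf hq.bil).Nondegenerate := by
  constructor
  · intro x hx
    by_contra h0
    obtain ⟨_, y, hy⟩ := hq.nondeg x h0
    exact hy (hx y)
  · intro y hy
    by_contra h0
    obtain ⟨x, _⟩ := (hq.nondeg y h0).1
    exact ‹f x y ≠ 0› (hy x)

omit hq in
/-- The orthogonal of a subspace. -/
def perpQ (hq : QFo f Q) (W : Submodule F (ι → F)) : Submodule F (ι → F) where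
  carrier := {a | ∀ w ∈ W, f w a = 0}
  add_mem' {a b} ha hb w hw := by
    rw [hq.bil.add_right, ha w hw, hb w hw, add_zero]
  zero_mem' w hw := f_zero_right hq.bil w
  smul_mem' c a ha w hw := by
    rw [hq.bil.smul_right, ha w hw, mul_zero]

theorem mem_perpQ {W : Submodule F (ι → F)} {a : ι → F} : a ∈ perpQ hq W ↔ ∀ w ∈ W, f w a = 0 :=
  Iff.rfl

theorem exists_perp_of_notMem {W : Submodule F (ι → F)} {u : ι → F} (hu : u ∉ W) :
    ∃ a ∈ perpQ hq W, f u a ≠ 0 := by
  obtain ⟨y, hy1, hy2⟩ := exists_covector hu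
  obtain ⟨a, rfl⟩ := exists_cov hq y
  refine ⟨a, fun w hw => ?_, ?_⟩
  · rw [← cov_dot hq.bil]
    exact hy2 w hw
  · rw [← cov_dot hq.bil, hy1]
    exact one_ne_zero

theorem finrank_perpQ (W : Submodule F (ι → F)) :
    Module.finrank F (perpQ hq W) = Fintype.card ι - Module.finrank F W := by
  have h1 := LinearMap.BilinForm.finrank_orthogonal (Bf_nondegQ hq) W
  rw [Module.finrank_fintype_fun_eq_card] at h1
  rw [← h1]
  congr 1

theorem exists_nonsing (U : Submodule F (ι → F)) (h : Fintype.card ι < 2 * Module.finrank F U) :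
    ∃ y ∈ U, Q y ≠ 0 := by
  by_contra hcon
  push Not at hcon
  have hle : U ≤ perpQ hq U := by
    intro b hb a ha
    have h1 := hq.add a b
    rw [hcon a ha, hcon b hb, hcon _ (U.add_mem ha hb)] at h1
    simpa using h1.symm
  have h1 := Submodule.finrank_mono hle
  rw [finrank_perpQ hq] at h1
  omega

/-- A subspace that avoids two given codimensions. -/
theorem exists_outside (W W' : Submodule F (ι → F))
    (h : Module.finrank F W + Module.finrank F W' < Fintype.card ι) :
    ∃ e ∈ perpQ hq W, e ∉ W' := by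
  by_contra hcon
  push Not at hcon
  have h1 := Submodule.finrank_mono (show perpQ hq W ≤ W' from hcon)
  rw [finrank_perpQ hq] at h1
  omega

omit hq in
theorem finrank_span_le (C : Finset (ι → F)) :
    Module.finrank F (Submodule.span F (C : Set (ι → F))) ≤ C.card :=
  finrank_span_finset_le_card (R := F) C

/-- Sum of two non-zero diagonal squares takes every value. -/
theorem universal {a b : F} (ha : a ≠ 0) (hb : b ≠ 0) (δ : F) : ∃ α β : F, α ^ 2 * a + β ^ 2 * b = δ := by
  classical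
  have hf2 : (Polynomial.C a * Polynomial.X ^ 2 + Polynomial.C (-δ)).degree = 2 := by
    rw [Polynomial.degree_add_C]
    · exact Polynomial.degree_C_mul_X_pow 2 ha
    · rw [Polynomial.degree_C_mul_X_pow 2 ha]
      norm_num
  have hg2 : (Polynomial.C b * Polynomial.X ^ 2).degree = 2 := Polynomial.degree_C_mul_X_pow 2 hb
  obtain ⟨α, β, h⟩ := FiniteField.exists_root_sum_quadratic hf2 hg2 hq.odd
  refine ⟨α, β, ?_⟩
  simp only [Polynomial.eval_add, Polynomial.eval_mul, Polynomial.eval_C, Polynomial.eval_pow,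
    Polynomial.eval_X] at h
  linear_combination h

/-- A vector with prescribed inner products against a small set and prescribed value of `Q`. -/
theorem prescribed (C : Finset (ι → F)) (z₀ : ι → F) (δ : F)
    (hC : Fintype.card ι < 2 * (Fintype.card ι - (C.card + 2))) :
    ∃ z, (∀ c ∈ C, f z c = f z₀ c) ∧ Q z = δ := by
  classical
  set S : Submodule F (ι → F) := Submodule.span F ((insert z₀ C : Finset (ι → F)) : Set (ι → F)) with hS
  have hfS : Module.finrank F S ≤ C.card + 1 :=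
    (finrank_span_le (insert z₀ C)).trans (Finset.card_insert_le _ _)
  have hfU : Fintype.card ι - (C.card + 1) ≤ Module.finrank F (perpQ hq S) := by
    rw [finrank_perpQ hq]
    omega
  obtain ⟨y₁, hy₁, hQ₁⟩ := exists_nonsing hq (perpQ hq S) (by omega)
  set S' : Submodule F (ι → F) := Submodule.span F ((insert y₁ (insert z₀ C) : Finset (ι → F)) : Set (ι → F)) with hS'
  have hfS' : Module.finrank F S' ≤ C.card + 2 := by
    refine (finrank_span_le (insert y₁ (insert z₀ C))).trans ?_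
    have h1 := Finset.card_insert_le y₁ (insert z₀ C)
    have h2 := Finset.card_insert_le z₀ C
    omega
  have hfU' : Fintype.card ι - (C.card + 2) ≤ Module.finrank F (perpQ hq S') := by
    rw [finrank_perpQ hq]
    omega
  obtain ⟨y₂, hy₂, hQ₂⟩ := exists_nonsing hq (perpQ hq S') (by omega)
  have hy₁S : ∀ w ∈ S, f w y₁ = 0 := hy₁
  have hy₂S : ∀ w ∈ S', f w y₂ = 0 := hy₂
  have hz₀y₁ : f z₀ y₁ = 0 := hy₁S z₀ (Submodule.subset_span (by simp))
  have hz₀y₂ : f z₀ y₂ = 0 := hy₂S z₀ (Submodule.subset_span (by simp))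
  have hy₁y₂ : f y₁ y₂ = 0 := hy₂S y₁ (Submodule.subset_span (by simp))
  obtain ⟨α, β, hαβ⟩ := universal hq hQ₁ hQ₂ (δ - Q z₀)
  refine ⟨z₀ + α • y₁ + β • y₂, ?_, ?_⟩
  · intro c hc
    have h1 : f c y₁ = 0 := hy₁S c (Submodule.subset_span (by simp [hc]))
    have h2 : f c y₂ = 0 := hy₂S c (Submodule.subset_span (by simp [hc]))
    rw [hq.bil.add_left, hq.bil.add_left, hq.bil.smul_left, hq.bil.smul_left, hq.symm y₁ c,
      hq.symm y₂ c, h1, h2]
    simp
  · rw [hq.add, hq.add, hq.smul, hq.smul, hq.bil.smul_right, hq.bil.add_left, hq.bil.smul_left,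
      hq.bil.smul_right, hz₀y₁, hz₀y₂, hq.bil.smul_right, hy₁y₂]
    linear_combination hαβ

/-- Codimension one inside a subspace. -/
theorem finrank_inf_perp (U : Submodule F (ι → F)) (y : ι → F) :
    Module.finrank F U ≤ Module.finrank F (U ⊓ perpQ hq (Submodule.span F {y}) : Submodule F (ι → F)) + 1 := by
  have h1 := Submodule.finrank_sup_add_finrank_inf_eq U (perpQ hq (Submodule.span F {y}))
  have h2 := finrank_perpQ hq (Submodule.span F {y})
  have h3 : Module.finrank F (Submodule.span F {y}) ≤ 1 := by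
    have h6 := finrank_span_le ({y} : Finset (ι → F))
    have h8 : ((({y} : Finset (ι → F))) : Set (ι → F)) = {y} := by simp
    rw [h8, Finset.card_singleton] at h6
    exact h6
  have h4 : Module.finrank F (U ⊔ perpQ hq (Submodule.span F {y}) : Submodule F (ι → F)) ≤ Fintype.card ι := by
    have := Submodule.finrank_le (U ⊔ perpQ hq (Submodule.span F {y}) : Submodule F (ι → F))
    rwa [Module.finrank_fintype_fun_eq_card] at this
  have h5 : Module.finrank F (Submodule.span F {y}) ≤ Fintype.card ι := by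
    have := Submodule.finrank_le (Submodule.span F {y})
    rwa [Module.finrank_fintype_fun_eq_card] at this
  omega

omit hq in
theorem finrank_span_le_two (a b : ι → F) :
    Module.finrank F (Submodule.span F ({a, b} : Set (ι → F))) ≤ 2 := by
  classical
  have h1 := (finrank_span_le ({a, b} : Finset (ι → F))).trans Finset.card_le_two
  have h8 : ((({a, b} : Finset (ι → F))) : Set (ι → F)) = {a, b} := by simp
  rwa [h8] at h1

omit hq in
theorem finrank_span_le_three (a b c : ι → F) :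
    Module.finrank F (Submodule.span F ({a, b, c} : Set (ι → F))) ≤ 3 := by
  classical
  have h1 := (finrank_span_le ({a, b, c} : Finset (ι → F))).trans Finset.card_le_three
  have h8 : ((({a, b, c} : Finset (ι → F))) : Set (ι → F)) = {a, b, c} := by simp
  rwa [h8] at h1

omit hq in
theorem exists_ne_zero_mem {U : Submodule F (ι → F)} (h : 1 ≤ Module.finrank F U) :
    ∃ y ∈ U, y ≠ 0 := by
  by_contra hcon
  push Not at hcon
  have : U = ⊥ := (Submodule.eq_bot_iff U).2 hcon
  rw [this, finrank_bot] at h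
  omega

/-- A non-zero singular vector in every subspace of dimension at least three. -/
theorem exists_singular (U : Submodule F (ι → F)) (h : 3 ≤ Module.finrank F U) :
    ∃ y ∈ U, y ≠ 0 ∧ Q y = 0 := by
  classical
  obtain ⟨y₁, hy₁U, hy₁0⟩ := exists_ne_zero_mem (U := U) (by omega)
  by_cases hQ₁ : Q y₁ = 0
  · exact ⟨y₁, hy₁U, hy₁0, hQ₁⟩
  have h1 := finrank_inf_perp hq U y₁
  obtain ⟨y₂, hy₂U, hy₂0⟩ := exists_ne_zero_mem
    (U := U ⊓ perpQ hq (Submodule.span F {y₁})) (by omega)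
  by_cases hQ₂ : Q y₂ = 0
  · exact ⟨y₂, hy₂U.1, hy₂0, hQ₂⟩
  have h2 := finrank_inf_perp hq (U ⊓ perpQ hq (Submodule.span F {y₁})) y₂
  obtain ⟨y₃, hy₃U, hy₃0⟩ := exists_ne_zero_mem
    (U := (U ⊓ perpQ hq (Submodule.span F {y₁})) ⊓ perpQ hq (Submodule.span F {y₂})) (by omega)
  by_cases hQ₃ : Q y₃ = 0
  · exact ⟨y₃, hy₃U.1.1, hy₃0, hQ₃⟩
  have h12 : f y₁ y₂ = 0 := hy₂U.2 y₁ (Submodule.mem_span_singleton_self y₁)
  have h13 : f y₁ y₃ = 0 := hy₃U.1.2 y₁ (Submodule.mem_span_singleton_self y₁)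
  have h23 : f y₂ y₃ = 0 := hy₃U.2 y₂ (Submodule.mem_span_singleton_self y₂)
  obtain ⟨α, β, hαβ⟩ := universal hq hQ₁ hQ₂ (- Q y₃)
  refine ⟨α • y₁ + β • y₂ + y₃, U.add_mem (U.add_mem (U.smul_mem _ hy₁U) (U.smul_mem _ hy₂U.1)) hy₃U.1.1,
    ?_, ?_⟩
  · intro h0
    have h3 : f (α • y₁ + β • y₂ + y₃) y₁ = 0 := by rw [h0, f_zero_left hq.bil]
    rw [hq.bil.add_left, hq.bil.add_left, hq.bil.smul_left, hq.bil.smul_left, hq.symm y₂ y₁, h12,
      hq.symm y₃ y₁, h13, f_self hq] at h3
    have hα : α = 0 := by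
      have : α * (2 * Q y₁) = 0 := by simpa using h3
      have h2' := two_ne hq
      exact (mul_eq_zero.1 this).resolve_right (mul_ne_zero h2' hQ₁)
    have h4 : f (α • y₁ + β • y₂ + y₃) y₂ = 0 := by rw [h0, f_zero_left hq.bil]
    rw [hq.bil.add_left, hq.bil.add_left, hq.bil.smul_left, hq.bil.smul_left, h12,
      hq.symm y₃ y₂, h23, f_self hq] at h4
    have hβ : β = 0 := by
      have : β * (2 * Q y₂) = 0 := by simpa using h4
      have h2' := two_ne hq
      exact (mul_eq_zero.1 this).resolve_right (mul_ne_zero h2' hQ₂)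
    rw [hα, hβ] at h0
    apply hy₃0
    simpa using h0
  · rw [hq.add, hq.add, hq.smul, hq.smul, hq.bil.smul_right, hq.bil.smul_left, h12, hq.bil.add_left,
      hq.bil.smul_left, hq.bil.smul_left, h13, h23]
    linear_combination hαβ

/-! ### Matrices `1 + X` with `X² = 0` -/

omit hq in
/-- The unit `1 + X` for `X² = 0`. -/
def unip (X : Matrix ι ι F) (hX : X * X = 0) : GL ι F where
  val := 1 + X
  inv := 1 - X
  val_inv := by
    have : (1 + X) * (1 - X) = 1 - X * X := by noncomm_ring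
    rw [this, hX, sub_zero]
  inv_val := by
    have : (1 - X) * (1 + X) = 1 - X * X := by noncomm_ring
    rw [this, hX, sub_zero]

omit hq in
theorem unip_val (X : Matrix ι ι F) (hX : X * X = 0) : ((unip X hX : GL ι F) : Matrix ι ι F) = 1 + X := rfl

omit hq in
theorem unip_apply (X : Matrix ι ι F) (hX : X * X = 0) (z : ι → F) :
    unip X hX ⋆ z = z + X *ᵥ z := by
  rw [unip_val, add_mulVec, one_mulVec]

omit hq in
theorem unip_inv_val (X : Matrix ι ι F) (hX : X * X = 0) :
    (((unip X hX)⁻¹ : GL ι F) : Matrix ι ι F) = 1 - X := rfl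

omit hq in
/-- Commutator when `Y X = 0`. -/
theorem comm_unip_left (X Y : Matrix ι ι F) (hX : X * X = 0) (hY : Y * Y = 0) (hYX : Y * X = 0)
    (hZ : (X * Y) * (X * Y) = 0) :
    unip X hX * unip Y hY * (unip X hX)⁻¹ * (unip Y hY)⁻¹ = unip (X * Y) hZ := by
  apply Units.ext
  simp only [Units.val_mul, unip_val, unip_inv_val]
  have : (1 + X) * (1 + Y) * (1 - X) * (1 - Y) =
      1 + X * Y - X * Y * Y + (X * Y * X * Y) - (X * Y * X) - X * X
        + (X * X * Y) + Y * X * Y - Y * X - Y * Y := by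
    noncomm_ring
  rw [this]
  simp [hX, hY, hYX, mul_assoc]

omit hq in
/-- Commutator when `X Y = 0`. -/
theorem comm_unip_right (X Y : Matrix ι ι F) (hX : X * X = 0) (hY : Y * Y = 0) (hXY : X * Y = 0)
    (hZ : (-(Y * X)) * (-(Y * X)) = 0) :
    unip X hX * unip Y hY * (unip X hX)⁻¹ * (unip Y hY)⁻¹ = unip (-(Y * X)) hZ := by
  apply Units.ext
  simp only [Units.val_mul, unip_val, unip_inv_val]
  have : (1 + X) * (1 + Y) * (1 - X) * (1 - Y) =
      1 + X * Y - X * Y * Y + (X * Y * X * Y) - (X * Y * X) - X * X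
        + (X * X * Y) + Y * X * Y - Y * X - Y * Y := by
    noncomm_ring
  rw [this]
  simp [hX, hY, hXY, mul_assoc, sub_eq_add_neg]

/-! ### Transvections and Siegel elements -/

omit hq in
theorem vv_mul (x y x' y' : ι → F) :
    vecMulVec x y * vecMulVec x' y' = (y ⬝ᵥ x') • vecMulVec x y' := vecMulVec_mul_self

theorem dot_okQ {x u : ι → F} (h : f x u = 0) : cov f u ⬝ᵥ x = 0 := by
  rw [cov_dot hq.bil, h]

omit hq in
/-- The transvection `z ↦ z + f(z, u) x`. -/
def tauQ (hq : QFo f Q) (x u : ι → F) (h : f x u = 0) : GL ι F := tv x (cov f u) (dot_okQ hq h)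

theorem tauQ_apply (x u : ι → F) (h : f x u = 0) (z : ι → F) :
    tauQ hq x u h ⋆ z = z + f z u • x := by
  unfold tauQ
  rw [tv_mulVec, cov_dot hq.bil]

theorem tauQ_eq_unip (x u : ι → F) (h : f x u = 0)
    (hX : vecMulVec x (cov f u) * vecMulVec x (cov f u) = 0) :
    tauQ hq x u h = unip (vecMulVec x (cov f u)) hX := rfl

/-- The Siegel matrix. -/
def Ymat (f : (ι → F) → (ι → F) → F) (a b : ι → F) : Matrix ι ι F :=
  vecMulVec a (cov f b) - vecMulVec b (cov f a)

theorem Ymat_apply (a b z : ι → F) : Ymat f a b *ᵥ z = f z b • a - f z a • b := by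
  rw [Ymat, sub_mulVec, vecMulVec_mulVec', vecMulVec_mulVec', cov_dot hq.bil, cov_dot hq.bil]

theorem Ymat_sq {a b : ι → F} (ha : Q a = 0) (hb : Q b = 0) (hab : f a b = 0) :
    Ymat f a b * Ymat f a b = 0 := by
  have hba : f b a = 0 := by rw [hq.symm, hab]
  have h1 := f_self_zero hq ha
  have h2 := f_self_zero hq hb
  unfold Ymat
  rw [sub_mul, mul_sub, mul_sub, vv_mul, vv_mul, vv_mul, vv_mul]
  simp only [cov_dot hq.bil, h1, h2, hab, hba, zero_smul, sub_self]

omit hq in
/-- The Siegel element `z ↦ z + f(z, b) a - f(z, a) b`. -/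
def rho (hq : QFo f Q) (a b : ι → F) (ha : Q a = 0) (hb : Q b = 0) (hab : f a b = 0) : GL ι F :=
  unip (Ymat f a b) (Ymat_sq hq ha hb hab)

theorem rho_apply {a b : ι → F} (ha : Q a = 0) (hb : Q b = 0) (hab : f a b = 0) (z : ι → F) :
    rho hq a b ha hb hab ⋆ z = z + (f z b • a - f z a • b) := by
  unfold rho
  rw [unip_apply, Ymat_apply hq]

/-- Siegel elements have determinant one. -/
theorem rho_mem_SL {a b : ι → F} (ha : Q a = 0) (hb : Q b = 0) (hab : f a b = 0) :
    rho hq a b ha hb hab ∈ specialLinear ι F := by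
  have h1 := f_self_zero hq ha
  have h2 := f_self_zero hq hb
  have hba : f b a = 0 := by rw [hq.symm, hab]
  have hn : f (-b) a = 0 := by rw [f_neg_left hq.bil, hba, neg_zero]
  have h3 : rho hq a b ha hb hab = tauQ hq a b hab * tauQ hq (-b) a hn := by
    apply GL_ext
    intro z
    rw [rho_apply hq, mulVec_mul_GL, tauQ_apply, tauQ_apply, hq.bil.add_left, hq.bil.smul_left,
      f_neg_left hq.bil, h2]
    ext i
    simp only [Pi.add_apply, Pi.sub_apply, Pi.smul_apply, Pi.neg_apply, smul_eq_mul]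
    ring
  rw [h3]
  exact Subgroup.mul_mem _ (tv_mem_specialLinear _ _ _) (tv_mem_specialLinear _ _ _)

/-- Siegel elements preserve `Q`. -/
theorem rho_pres {a b : ι → F} (ha : Q a = 0) (hb : Q b = 0) (hab : f a b = 0) (z : ι → F) :
    Q (rho hq a b ha hb hab ⋆ z) = Q z := by
  rw [rho_apply hq, sub_eq_add_neg, ← neg_smul, hq.add, hq.add, hq.smul, hq.smul, ha, hb,
    hq.bil.smul_right, hq.bil.smul_left, hq.bil.add_right, hq.bil.smul_right, hq.bil.smul_right, hab]
  ring

variable {M : Subgroup (GL ι F)}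

omit hq in
/-- The pair `(x, u)` gives a transvection in `M`. -/
def P (hq : QFo f Q) (M : Subgroup (GL ι F)) (x u : ι → F) : Prop :=
  ∃ h : f x u = 0, tauQ hq x u h ∈ M

omit hq in
/-- `M` contains the Siegel elements. -/
def HasRho (hq : QFo f Q) (M : Subgroup (GL ι F)) : Prop :=
  ∀ (a b : ι → F) (ha : Q a = 0) (hb : Q b = 0) (hab : f a b = 0), rho hq a b ha hb hab ∈ M

theorem P_zero_center (u : ι → F) : P hq M 0 u := by
  refine ⟨f_zero_left hq.bil u, ?_⟩
  have : tauQ hq 0 u (f_zero_left hq.bil u) = 1 := by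
    apply GL_ext
    intro z
    rw [tauQ_apply]
    simp
  rw [this]
  exact M.one_mem

theorem P_zero_axis (x : ι → F) : P hq M x 0 := by
  refine ⟨f_zero_right hq.bil x, ?_⟩
  have : tauQ hq x 0 (f_zero_right hq.bil x) = 1 := by
    apply GL_ext
    intro z
    rw [tauQ_apply, f_zero_right hq.bil]
    simp
  rw [this]
  exact M.one_mem

theorem P_add_center {x x' u : ι → F} (h : P hq M x u) (h' : P hq M x' u) : P hq M (x + x') u := by
  obtain ⟨h0, h1⟩ := h
  obtain ⟨h0', h1'⟩ := h'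
  have h2 : f (x + x') u = 0 := by rw [hq.bil.add_left, h0, h0', add_zero]
  refine ⟨h2, ?_⟩
  have : tauQ hq (x + x') u h2 = tauQ hq x u h0 * tauQ hq x' u h0' := by
    apply GL_ext
    intro z
    rw [mulVec_mul_GL, tauQ_apply, tauQ_apply, tauQ_apply, hq.bil.add_left, hq.bil.smul_left, h0']
    ext i
    simp only [Pi.add_apply, Pi.smul_apply, smul_eq_mul]
    ring
  rw [this]
  exact M.mul_mem h1 h1'

theorem P_add_axis {x u u' : ι → F} (h : P hq M x u) (h' : P hq M x u') : P hq M x (u + u') := by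
  obtain ⟨h0, h1⟩ := h
  obtain ⟨h0', h1'⟩ := h'
  have h2 : f x (u + u') = 0 := by rw [hq.bil.add_right, h0, h0', add_zero]
  refine ⟨h2, ?_⟩
  have : tauQ hq x (u + u') h2 = tauQ hq x u h0 * tauQ hq x u' h0' := by
    apply GL_ext
    intro z
    rw [mulVec_mul_GL, tauQ_apply, tauQ_apply, tauQ_apply, hq.bil.add_right, hq.bil.add_left,
      hq.bil.smul_left, h0]
    ext i
    simp only [Pi.add_apply, Pi.smul_apply, smul_eq_mul]
    ring
  rw [this]
  exact M.mul_mem h1 h1'

/-- Scalars move from the axis to the centre. -/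
theorem P_smul_axis {x u : ι → F} {c : F} (h : P hq M (c • x) u) (h0 : f x u = 0) : P hq M x (c • u) := by
  obtain ⟨h1, h3⟩ := h
  have h2 : f x (c • u) = 0 := by rw [hq.bil.smul_right, h0, mul_zero]
  refine ⟨h2, ?_⟩
  have : tauQ hq x (c • u) h2 = tauQ hq (c • x) u h1 := by
    apply GL_ext
    intro z
    rw [tauQ_apply, tauQ_apply, hq.bil.smul_right, mul_comm, mul_smul]
  rw [this]
  exact h3

/-- Commutator with a Siegel element, moving the axis. -/
theorem P_axis (hR : HasRho hq M) {x u a b : ι → F} (h : P hq M x u) (ha : Q a = 0) (hb : Q b = 0)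
    (hab : f a b = 0) (hxa : f x a = 0) (hxb : f x b = 0) (hbu : f b u = 0) : P hq M (f a u • x) b := by
  obtain ⟨h0, h1⟩ := h
  have h2 : f (f a u • x) b = 0 := by rw [hq.bil.smul_left, hxb, mul_zero]
  refine ⟨h2, ?_⟩
  have hX : vecMulVec x (cov f u) * vecMulVec x (cov f u) = 0 := by
    rw [vv_mul, cov_dot hq.bil, h0, zero_smul]
  have hY := Ymat_sq hq ha hb hab
  have hYX : Ymat f a b * vecMulVec x (cov f u) = 0 := by
    unfold Ymat
    rw [sub_mul, vv_mul, vv_mul, cov_dot hq.bil, cov_dot hq.bil, hxa, hxb, zero_smul, zero_smul,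
      sub_zero]
  have hXY : vecMulVec x (cov f u) * Ymat f a b = vecMulVec (f a u • x) (cov f b) := by
    unfold Ymat
    rw [mul_sub, vv_mul, vv_mul, cov_dot hq.bil, cov_dot hq.bil, hbu, zero_smul, sub_zero,
      vecMulVec_smul_left]
  have hZ : (vecMulVec x (cov f u) * Ymat f a b) * (vecMulVec x (cov f u) * Ymat f a b) = 0 := by
    rw [hXY, vv_mul, cov_dot hq.bil, h2, zero_smul]
  have h3 := M.mul_mem (M.mul_mem (M.mul_mem h1 (hR a b ha hb hab)) (M.inv_mem h1))
    (M.inv_mem (hR a b ha hb hab))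
  have h4 := comm_unip_left _ _ hX hY hYX hZ
  have h5 : tauQ hq (f a u • x) b h2 = unip (vecMulVec x (cov f u) * Ymat f a b) hZ := by
    apply Units.ext
    rw [unip_val, hXY]
    rfl
  rw [h5, ← h4]
  exact h3

/-- Commutator with a Siegel element, moving the centre. -/
theorem P_center (hR : HasRho hq M) {x u a b : ι → F} (h : P hq M x u) (ha : Q a = 0) (hb : Q b = 0)
    (hab : f a b = 0) (hau : f a u = 0) (hbu : f b u = 0) (hxa : f x a = 0) :
    P hq M ((-f x b) • a) u := by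
  obtain ⟨h0, h1⟩ := h
  have h2 : f ((-f x b) • a) u = 0 := by rw [hq.bil.smul_left, hau, mul_zero]
  refine ⟨h2, ?_⟩
  have hX : vecMulVec x (cov f u) * vecMulVec x (cov f u) = 0 := by
    rw [vv_mul, cov_dot hq.bil, h0, zero_smul]
  have hY := Ymat_sq hq ha hb hab
  have hXY : vecMulVec x (cov f u) * Ymat f a b = 0 := by
    unfold Ymat
    rw [mul_sub, vv_mul, vv_mul, cov_dot hq.bil, cov_dot hq.bil, hau, hbu, zero_smul, zero_smul,
      sub_zero]
  have hYX : -(Ymat f a b * vecMulVec x (cov f u)) = vecMulVec ((-f x b) • a) (cov f u) := by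
    unfold Ymat
    rw [sub_mul, vv_mul, vv_mul, cov_dot hq.bil, cov_dot hq.bil, hxa, zero_smul, sub_zero,
      vecMulVec_smul_left, neg_smul]
  have hZ : (-(Ymat f a b * vecMulVec x (cov f u))) * (-(Ymat f a b * vecMulVec x (cov f u))) = 0 := by
    rw [hYX, vv_mul, cov_dot hq.bil, h2, zero_smul]
  have h3 := M.mul_mem (M.mul_mem (M.mul_mem h1 (hR a b ha hb hab)) (M.inv_mem h1))
    (M.inv_mem (hR a b ha hb hab))
  have h4 := comm_unip_right _ _ hX hY hXY hZ
  have h5 : tauQ hq ((-f x b) • a) u h2 = unip (-(Ymat f a b * vecMulVec x (cov f u))) hZ := by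
    apply Units.ext
    rw [unip_val, hYX]
    rfl
  rw [h5, ← h4]
  exact h3

/-! ### Propagation -/

/-- Stage 0: a rank two element with a suitable shape yields a transvection in `M`. -/
theorem stage0 (hcard : 13 ≤ Fintype.card ι) (hR : HasRho hq M) {p₁ p₂ r₁ r₂ : ι → F}
    (h11 : f p₁ r₁ = 0) (h12 : f p₁ r₂ = 0) (h21 : f p₂ r₁ = 0) (h22 : f p₂ r₂ = 0)
    (hX : (vecMulVec p₁ (cov f r₁) + vecMulVec p₂ (cov f r₂)) *
      (vecMulVec p₁ (cov f r₁) + vecMulVec p₂ (cov f r₂)) = 0)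
    (hσ : unip (vecMulVec p₁ (cov f r₁) + vecMulVec p₂ (cov f r₂)) hX ∈ M) (hp₁ : p₁ ≠ 0)
    (hr₁ : r₁ ∉ Submodule.span F ({p₁, p₂, r₂} : Set (ι → F))) :
    ∃ x u, P hq M x u ∧ x ≠ 0 ∧ u ∉ Submodule.span F {x} := by
  classical
  obtain ⟨a₀, ha₀, hr₁a₀⟩ := exists_perp_of_notMem hq hr₁
  have hp₁a₀ : f p₁ a₀ = 0 := ha₀ p₁ (Submodule.subset_span (by simp))
  have hp₂a₀ : f p₂ a₀ = 0 := ha₀ p₂ (Submodule.subset_span (by simp))
  have hr₂a₀ : f r₂ a₀ = 0 := ha₀ r₂ (Submodule.subset_span (by simp))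
  obtain ⟨a, ha1, ha⟩ := prescribed hq {p₁, p₂, r₁, r₂} a₀ 0 (by
    have : ({p₁, p₂, r₁, r₂} : Finset (ι → F)).card ≤ 4 := Finset.card_le_four
    omega)
  have hap₁ : f p₁ a = 0 := by rw [hq.symm, ha1 p₁ (by simp), hq.symm, hp₁a₀]
  have hap₂ : f p₂ a = 0 := by rw [hq.symm, ha1 p₂ (by simp), hq.symm, hp₂a₀]
  have har₂ : f a r₂ = 0 := by rw [ha1 r₂ (by simp), hq.symm, hr₂a₀]
  have har₁ : f a r₁ ≠ 0 := by
    rw [ha1 r₁ (by simp), hq.symm]
    exact hr₁a₀
  obtain ⟨e, he⟩ := (hq.nondeg p₁ hp₁).2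
  set S : Submodule F (ι → F) := Submodule.span F
    ((({p₁, p₂, r₁, r₂, a, e} : Finset (ι → F))) : Set (ι → F)) with hS
  have hfS : Module.finrank F S ≤ 6 := (finrank_span_le _).trans Finset.card_le_six
  obtain ⟨b, hb, hb0, hQb⟩ := exists_singular hq (perpQ hq S) (by
    rw [finrank_perpQ hq]
    omega)
  have hbS : ∀ w ∈ S, f w b = 0 := hb
  have hmem : ∀ w ∈ ({p₁, p₂, r₁, r₂, a, e} : Finset (ι → F)), f w b = 0 := fun w hw =>
    hbS w (Submodule.subset_span (by exact_mod_cast hw))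
  have hp₁b := hmem p₁ (by simp)
  have hp₂b := hmem p₂ (by simp)
  have hr₁b := hmem r₁ (by simp)
  have hr₂b := hmem r₂ (by simp)
  have hab := hmem a (by simp)
  have heb := hmem e (by simp)
  have hx0 : f a r₁ • p₁ ≠ 0 := smul_ne_zero har₁ hp₁
  have h2 : f (f a r₁ • p₁) b = 0 := by rw [hq.bil.smul_left, hp₁b, mul_zero]
  refine ⟨f a r₁ • p₁, b, ⟨h2, ?_⟩, hx0, ?_⟩
  · have hY := Ymat_sq hq ha hQb hab
    have hYX : Ymat f a b * (vecMulVec p₁ (cov f r₁) + vecMulVec p₂ (cov f r₂)) = 0 := by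
      unfold Ymat
      rw [sub_mul, mul_add, mul_add, vv_mul, vv_mul, vv_mul, vv_mul, cov_dot hq.bil, cov_dot hq.bil,
        cov_dot hq.bil, cov_dot hq.bil, hap₁, hap₂, hp₁b, hp₂b]
      simp
    have hXY : (vecMulVec p₁ (cov f r₁) + vecMulVec p₂ (cov f r₂)) * Ymat f a b =
        vecMulVec (f a r₁ • p₁) (cov f b) := by
      unfold Ymat
      rw [add_mul, mul_sub, mul_sub, vv_mul, vv_mul, vv_mul, vv_mul, cov_dot hq.bil, cov_dot hq.bil,
        cov_dot hq.bil, cov_dot hq.bil, har₂, hq.symm b r₁, hr₁b, hq.symm b r₂, hr₂b,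
        vecMulVec_smul_left]
      simp
    have hZ : ((vecMulVec p₁ (cov f r₁) + vecMulVec p₂ (cov f r₂)) * Ymat f a b) *
        ((vecMulVec p₁ (cov f r₁) + vecMulVec p₂ (cov f r₂)) * Ymat f a b) = 0 := by
      rw [hXY, vv_mul, cov_dot hq.bil, h2, zero_smul]
    have h3 := M.mul_mem (M.mul_mem (M.mul_mem hσ (hR a b ha hQb hab)) (M.inv_mem hσ))
      (M.inv_mem (hR a b ha hQb hab))
    have h4 := comm_unip_left _ _ hX hY hYX hZ
    have h5 : tauQ hq (f a r₁ • p₁) b h2 =
        unip ((vecMulVec p₁ (cov f r₁) + vecMulVec p₂ (cov f r₂)) * Ymat f a b) hZ := by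
      apply Units.ext
      rw [unip_val, hXY]
      rfl
    rw [h5, ← h4]
    exact h3
  · intro hmem'
    obtain ⟨γ, hγ⟩ := Submodule.mem_span_singleton.1 hmem'
    have h3 := heb
    rw [← hγ, hq.bil.smul_right, hq.bil.smul_right, hq.symm e p₁] at h3
    have h4 : γ = 0 := by
      rcases mul_eq_zero.1 h3 with h5 | h5
      · exact h5
      · rcases mul_eq_zero.1 h5 with h6 | h6
        · exact absurd h6 har₁
        · exact absurd h6 he
    rw [h4, zero_smul] at hγ
    exact hb0 hγ.symm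

/-- A singular vector orthogonal to a small set, separated from the span of the set. -/
theorem sing_sep (hcard : 13 ≤ Fintype.card ι) (C : Finset (ι → F)) (hC : C.card ≤ 3) :
    ∃ b e, Q b = 0 ∧ (∀ c ∈ C, f b c = 0) ∧ (∀ c ∈ C, f c e = 0) ∧ f b e ≠ 0 := by
  classical
  have hf : Module.finrank F (Submodule.span F (C : Set (ι → F))) ≤ 3 := (finrank_span_le C).trans hC
  obtain ⟨e, he, he'⟩ := exists_outside hq (Submodule.span F (C : Set (ι → F)))
    (Submodule.span F (C : Set (ι → F))) (by omega)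
  obtain ⟨e₀, he₀, hee₀⟩ := exists_perp_of_notMem hq he'
  obtain ⟨b, hb1, hb⟩ := prescribed hq (insert e C) e₀ 0 (by
    have := Finset.card_insert_le e C
    omega)
  refine ⟨b, e, hb, fun c hc => ?_, fun c hc => he c (Submodule.subset_span (by exact_mod_cast hc)), ?_⟩
  · rw [hb1 c (by simp [hc]), hq.symm]
    exact he₀ c (Submodule.subset_span (by exact_mod_cast hc))
  · rw [hb1 e (by simp), hq.symm]
    exact hee₀

/-- A singular vector orthogonal to a small set, with a prescribed product against a vector outside the span. -/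
theorem sing_prop (hcard : 13 ≤ Fintype.card ι) (C : Finset (ι → F)) (hC : C.card ≤ 3) {t : ι → F}
    (ht : t ∉ Submodule.span F (C : Set (ι → F))) (s : F) :
    ∃ a, Q a = 0 ∧ (∀ c ∈ C, f a c = 0) ∧ f a t = s := by
  classical
  obtain ⟨a₀, ha₀, hta₀⟩ := exists_perp_of_notMem hq ht
  obtain ⟨a, ha1, ha⟩ := prescribed hq (insert t C) ((s / f t a₀) • a₀) 0 (by
    have := Finset.card_insert_le t C
    omega)
  refine ⟨a, ha, fun c hc => ?_, ?_⟩
  · rw [ha1 c (by simp [hc]), hq.bil.smul_left, hq.symm a₀ c, ha₀ c (Submodule.subset_span (by exact_mod_cast hc)),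
      mul_zero]
  · rw [ha1 t (by simp), hq.bil.smul_left, hq.symm a₀ t]
    field_simp

omit hq in
/-- Separation from a span by a functional. -/
theorem notMem_of_sep {W : Submodule F (ι → F)} {t : ι → F} (L : (ι → F) → F)
    (hadd : ∀ a b, L (a + b) = L a + L b) (hsm : ∀ (c : F) a, L (c • a) = c * L a)
    (h0 : ∀ w ∈ W, L w = 0) (ht : L t ≠ 0) : t ∉ W := fun h => ht (h0 t h)

theorem notMem_pair {p q t e : ι → F} (hp : f p e = 0) (hq' : f q e = 0) (ht : f t e ≠ 0) :
    t ∉ Submodule.span F ({p, q} : Set (ι → F)) := by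
  intro hmem
  obtain ⟨α, β, hαβ⟩ := Submodule.mem_span_pair.1 hmem
  apply ht
  rw [← hαβ, hq.bil.add_left, hq.bil.smul_left, hq.bil.smul_left, hp, hq', mul_zero, mul_zero, add_zero]

theorem notMem_single {p t e : ι → F} (hp : f p e = 0) (ht : f t e ≠ 0) :
    t ∉ Submodule.span F {p} := by
  intro hmem
  obtain ⟨α, hα⟩ := Submodule.mem_span_singleton.1 hmem
  apply ht
  rw [← hα, hq.bil.smul_left, hp, mul_zero]

/-- Membership in a pair span, when the second vector is detected by a functional. -/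
theorem notMem_pair' {p q t e : ι → F} (hp : f p e = 0) (hq' : f q e ≠ 0) (ht : f t e = 0)
    (h : t ∉ Submodule.span F {p}) : t ∉ Submodule.span F ({p, q} : Set (ι → F)) := by
  intro hmem
  obtain ⟨α, β, hαβ⟩ := Submodule.mem_span_pair.1 hmem
  have h1 := ht
  rw [← hαβ, hq.bil.add_left, hq.bil.smul_left, hq.bil.smul_left, hp, mul_zero, zero_add] at h1
  have hβ : β = 0 := (mul_eq_zero.1 h1).resolve_right hq'
  apply h
  rw [Submodule.mem_span_singleton]
  refine ⟨α, ?_⟩
  rw [← hαβ, hβ, zero_smul, add_zero]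

/-- Stage 1: from an independent pair to a singular orthogonal independent pair. -/
theorem stage1 (hcard : 13 ≤ Fintype.card ι) (hR : HasRho hq M) {x u : ι → F}
    (h : P hq M x u) (hx : x ≠ 0) (hu : u ∉ Submodule.span F {x}) :
    ∃ x' u', Q x' = 0 ∧ Q u' = 0 ∧ x' ≠ 0 ∧ u' ∉ Submodule.span F {x'} ∧ P hq M x' u' := by
  classical
  have hxu := h.1
  obtain ⟨b, e, hb, hb1, he1, hbe⟩ := sing_sep hq hcard {x, u} (Finset.card_le_two.trans (by norm_num))
  have hbx : f b x = 0 := hb1 x (by simp)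
  have hbu : f b u = 0 := hb1 u (by simp)
  have hxe : f x e = 0 := he1 x (by simp)
  have hue : f u e = 0 := he1 u (by simp)
  have hu2 : u ∉ Submodule.span F ({x, b} : Set (ι → F)) := notMem_pair' hq hxe hbe hue hu
  obtain ⟨a, ha, ha1, hau⟩ := sing_prop hq hcard {x, b} (Finset.card_le_two.trans (by norm_num))
    (t := u) (by rwa [Finset.coe_pair]) 1
  have hax : f a x = 0 := ha1 x (by simp)
  have hab : f a b = 0 := ha1 b (by simp)
  have h1 := P_axis hq hR h ha hb hab (by rw [hq.symm, hax]) (by rw [hq.symm, hbx]) hbu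
  rw [hau, one_smul] at h1
  have hxb : x ∉ Submodule.span F {b} := by
    intro hmem
    obtain ⟨γ, hγ⟩ := Submodule.mem_span_singleton.1 hmem
    have h3 := hxe
    rw [← hγ, hq.bil.smul_left] at h3
    have hγ0 : γ = 0 := (mul_eq_zero.1 h3).resolve_right hbe
    rw [hγ0, zero_smul] at hγ
    exact hx hγ.symm
  obtain ⟨b', hb', hb'1, hb'x⟩ := sing_prop hq hcard {b} (by simp) (t := x) (by simpa using hxb) 1
  have hb'b : f b' b = 0 := hb'1 b (by simp)
  obtain ⟨a', e', ha', ha'1, he'1, ha'e'⟩ := sing_sep hq hcard {b, b', x} Finset.card_le_three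
  have ha'b : f a' b = 0 := ha'1 b (by simp)
  have ha'b' : f a' b' = 0 := ha'1 b' (by simp)
  have ha'x : f a' x = 0 := ha'1 x (by simp)
  have hbe' : f b e' = 0 := he'1 b (by simp)
  have h3 := P_center hq hR h1 ha' hb' ha'b' ha'b hb'b (by rw [hq.symm, ha'x])
  rw [hq.symm x b', hb'x] at h3
  have hb0 : b ≠ 0 := by
    rintro rfl
    exact hbe (f_zero_left hq.bil e)
  have ha'0 : a' ≠ 0 := by
    rintro rfl
    exact ha'e' (f_zero_left hq.bil e')
  refine ⟨(-1 : F) • a', b, ?_, hb, smul_ne_zero (by simp) ha'0, ?_, h3⟩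
  · rw [hq.smul, ha', mul_zero]
  · intro hmem
    obtain ⟨γ, hγ⟩ := Submodule.mem_span_singleton.1 hmem
    have h4 := hbe'
    rw [← hγ, hq.bil.smul_left, hq.bil.smul_left] at h4
    have hγ0 : γ = 0 := by
      rcases mul_eq_zero.1 h4 with h5 | h5
      · exact h5
      · exfalso
        rcases mul_eq_zero.1 h5 with h6 | h6
        · simp at h6
        · exact ha'e' h6
    rw [hγ0, zero_smul] at hγ
    exact hb0 hγ.symm

/-- Stage 2: all scalars on a singular orthogonal independent pair. -/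
theorem stage2 (hcard : 13 ≤ Fintype.card ι) (hR : HasRho hq M) {x u : ι → F}
    (h : P hq M x u) (hx : x ≠ 0) (hu : u ∉ Submodule.span F {x}) (hQu : Q u = 0) (θ : F) :
    P hq M (θ • x) u := by
  classical
  have hxu := h.1
  obtain ⟨b, e, hb, hb1, he1, hbe⟩ := sing_sep hq hcard {x, u} (Finset.card_le_two.trans (by norm_num))
  have hbx : f b x = 0 := hb1 x (by simp)
  have hbu : f b u = 0 := hb1 u (by simp)
  have hxe : f x e = 0 := he1 x (by simp)
  have hue : f u e = 0 := he1 u (by simp)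
  have hu2 : u ∉ Submodule.span F ({x, b} : Set (ι → F)) := notMem_pair' hq hxe hbe hue hu
  obtain ⟨a, ha, ha1, hau⟩ := sing_prop hq hcard {x, b} (Finset.card_le_two.trans (by norm_num))
    (t := u) (by rwa [Finset.coe_pair]) 1
  have hax : f a x = 0 := ha1 x (by simp)
  have hab : f a b = 0 := ha1 b (by simp)
  have h1 := P_axis hq hR h ha hb hab (by rw [hq.symm, hax]) (by rw [hq.symm, hbx]) hbu
  rw [hau, one_smul] at h1
  have hb2 : b ∉ Submodule.span F ({x, u} : Set (ι → F)) := notMem_pair hq hxe hue hbe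
  obtain ⟨a₂, ha₂, ha₂1, ha₂b⟩ := sing_prop hq hcard {x, u} (Finset.card_le_two.trans (by norm_num))
    (t := b) (by rwa [Finset.coe_pair]) θ
  have ha₂x : f a₂ x = 0 := ha₂1 x (by simp)
  have ha₂u : f a₂ u = 0 := ha₂1 u (by simp)
  have h3 := P_axis hq hR h1 ha₂ hQu ha₂u (by rw [hq.symm, ha₂x]) hxu (by rw [hq.symm, hbu])
  rwa [ha₂b] at h3

/-- `(x, u)` with all scalars. -/
def Full (hq : QFo f Q) (M : Subgroup (GL ι F)) (x u : ι → F) : Prop :=
  f x u = 0 ∧ ∀ θ : F, P hq M (θ • x) u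

theorem full_axis (hcard : 13 ≤ Fintype.card ι) (hR : HasRho hq M) {x u b : ι → F} (h : Full hq M x u)
    (hb : Q b = 0) (hxb : f x b = 0) (hbu : f b u = 0)
    (hu2 : u ∉ Submodule.span F ({x, b} : Set (ι → F))) : Full hq M x b := by
  classical
  refine ⟨hxb, fun θ => ?_⟩
  obtain ⟨a, ha, ha1, hau⟩ := sing_prop hq hcard {x, b} (Finset.card_le_two.trans (by norm_num))
    (t := u) (by rwa [Finset.coe_pair]) 1
  have hax : f a x = 0 := ha1 x (by simp)
  have hab : f a b = 0 := ha1 b (by simp)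
  have h1 := P_axis hq hR (h.2 θ) ha hb hab (by rw [hq.bil.smul_left, hq.symm, hax, mul_zero])
    (by rw [hq.bil.smul_left, hxb, mul_zero]) hbu
  rwa [hau, one_smul] at h1

theorem exists_two' (U : Submodule F (ι → F)) {a b : ι → F} (ha : ∃ z ∈ U, f a z ≠ 0)
    (hb : ∃ z ∈ U, f b z ≠ 0) : ∃ z ∈ U, f a z ≠ 0 ∧ f b z ≠ 0 := by
  obtain ⟨z₁, hz₁, h1⟩ := ha
  obtain ⟨z₂, hz₂, h2⟩ := hb
  by_cases h3 : f b z₁ = 0
  · by_cases h4 : f a z₂ = 0
    · refine ⟨z₁ + z₂, U.add_mem hz₁ hz₂, ?_, ?_⟩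
      · rw [hq.bil.add_right, h4, add_zero]
        exact h1
      · rw [hq.bil.add_right, h3, zero_add]
        exact h2
    · exact ⟨z₂, hz₂, h4, h2⟩
  · exact ⟨z₁, hz₁, h1, h3⟩

/-- A full pair spreads over the whole orthogonal of the centre. -/
theorem full_fill (hcard : 13 ≤ Fintype.card ι) (hR : HasRho hq M) {x u : ι → F}
    (h : Full hq M x u) (hu : u ∉ Submodule.span F {x}) {w : ι → F} (hw : f x w = 0) :
    Full hq M x w := by
  classical
  have hstep : ∀ b, Q b = 0 → f x b = 0 → b ∉ Submodule.span F {x} → Full hq M x b := by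
    intro b hb hxb hbx
    obtain ⟨b₁, e, hb₁, hb₁1, he1, hb₁e⟩ := sing_sep hq hcard {x, u, b} Finset.card_le_three
    have hxe : f x e = 0 := he1 x (by simp)
    have hue : f u e = 0 := he1 u (by simp)
    have hbe : f b e = 0 := he1 b (by simp)
    have hb₁x : f b₁ x = 0 := hb₁1 x (by simp)
    have hb₁u : f b₁ u = 0 := hb₁1 u (by simp)
    have hb₁b : f b₁ b = 0 := hb₁1 b (by simp)
    have h1 := full_axis hq hcard hR h hb₁ (by rw [hq.symm, hb₁x]) hb₁u
      (notMem_pair' hq hxe hb₁e hue hu)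
    exact full_axis hq hcard hR h1 hb hxb (by rw [hq.symm, hb₁b]) (notMem_pair hq hxe hbe hb₁e)
  set G : Set (ι → F) := {b | Q b = 0 ∧ f x b = 0 ∧ b ∉ Submodule.span F {x}} with hG
  have hspan : ∀ y ∈ Submodule.span F G, Full hq M x y := by
    intro y hy
    induction hy using Submodule.span_induction with
    | mem y hy => exact hstep y hy.1 hy.2.1 hy.2.2
    | zero => exact ⟨f_zero_right hq.bil x, fun θ => P_zero_axis hq _⟩
    | add a b _ _ ha hb =>
      refine ⟨by rw [hq.bil.add_right, ha.1, hb.1, add_zero], fun θ => ?_⟩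
      exact P_add_axis hq (ha.2 θ) (hb.2 θ)
    | smul c a _ ha =>
      refine ⟨by rw [hq.bil.smul_right, ha.1, mul_zero], fun θ => ?_⟩
      apply P_smul_axis hq
      · rw [smul_smul]
        exact ha.2 _
      · rw [hq.bil.smul_left, ha.1, mul_zero]
  refine hspan w ?_
  by_contra hcon
  obtain ⟨d, hd, hwd⟩ := exists_perp_of_notMem hq hcon
  have hdx : d ∉ Submodule.span F {x} := by
    intro hmem
    obtain ⟨γ, hγ⟩ := Submodule.mem_span_singleton.1 hmem
    apply hwd
    rw [← hγ, hq.bil.smul_right, hq.symm w x, hw, mul_zero]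
  have hf1 : Module.finrank F (Submodule.span F {x}) ≤ 1 := by
    have h6 := finrank_span_le ({x} : Finset (ι → F))
    have h8 : ((({x} : Finset (ι → F))) : Set (ι → F)) = {x} := by simp
    rw [h8, Finset.card_singleton] at h6
    exact h6
  obtain ⟨e, he, he'⟩ := exists_outside hq (Submodule.span F {x}) (Submodule.span F {x}) (by omega)
  have hxe : f x e = 0 := he x (Submodule.mem_span_singleton_self x)
  obtain ⟨a₁, ha₁, h1⟩ := exists_perp_of_notMem hq hdx
  obtain ⟨a₂, ha₂, h2⟩ := exists_perp_of_notMem hq he'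
  obtain ⟨z₀, hz₀, h3, h4⟩ := exists_two' hq _ ⟨a₁, ha₁, h1⟩ ⟨a₂, ha₂, h2⟩
  have hxz₀ : f x z₀ = 0 := hz₀ x (Submodule.mem_span_singleton_self x)
  obtain ⟨z, hz1, hz⟩ := prescribed hq {x, d, e} z₀ 0 (by
    have : ({x, d, e} : Finset (ι → F)).card ≤ 3 := Finset.card_le_three
    omega)
  have hzd : f z d ≠ 0 := by
    rw [hz1 d (by simp), hq.symm]
    exact h3
  have hze : f z e ≠ 0 := by
    rw [hz1 e (by simp), hq.symm]
    exact h4
  apply hzd
  refine hd z (Submodule.subset_span ⟨hz, ?_, ?_⟩)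
  · rw [hq.symm, hz1 x (by simp), hq.symm, hxz₀]
  · exact notMem_single hq hxe hze

theorem full_center (hcard : 13 ≤ Fintype.card ι) (hR : HasRho hq M) {x u a : ι → F} (h : Full hq M x u)
    (ha : Q a = 0) (hau : f a u = 0) (hxa : f x a = 0)
    (hx2 : x ∉ Submodule.span F ({a, u} : Set (ι → F))) : Full hq M a u := by
  classical
  refine ⟨hau, fun θ => ?_⟩
  obtain ⟨b, hb, hb1, hbx⟩ := sing_prop hq hcard {a, u} (Finset.card_le_two.trans (by norm_num))
    (t := x) (by rwa [Finset.coe_pair]) 1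
  have hba : f b a = 0 := hb1 a (by simp)
  have hbu : f b u = 0 := hb1 u (by simp)
  have h1 := P_center hq hR (h.2 (-θ)) ha hb (by rw [hq.symm, hba]) hau hbu
    (by rw [hq.bil.smul_left, hxa, mul_zero])
  rw [hq.bil.smul_left, hq.symm x b, hbx] at h1
  have h3 : -(-θ * 1) = θ := by ring
  rwa [h3] at h1

theorem full_step (hcard : 13 ≤ Fintype.card ι) (hR : HasRho hq M) {x u x' : ι → F}
    (h : Full hq M x u) (hx : x ≠ 0) (hu : u ∉ Submodule.span F {x}) (hx' : Q x' = 0) (hxx' : f x x' = 0)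
    (hx'x : x' ∉ Submodule.span F {x}) :
    ∃ u', Full hq M x' u' ∧ u' ∉ Submodule.span F {x'} := by
  classical
  obtain ⟨u₁, e, hu₁, hu₁1, he1, hu₁e⟩ := sing_sep hq hcard {x, x'} (Finset.card_le_two.trans (by norm_num))
  have hu₁x : f u₁ x = 0 := hu₁1 x (by simp)
  have hu₁x' : f u₁ x' = 0 := hu₁1 x' (by simp)
  have hxe : f x e = 0 := he1 x (by simp)
  have hx'e : f x' e = 0 := he1 x' (by simp)
  have h1 := full_fill hq hcard hR h hu (w := u₁) (by rw [hq.symm, hu₁x])
  have hxx'' : x ∉ Submodule.span F {x'} := by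
    intro hmem
    obtain ⟨γ, hγ⟩ := Submodule.mem_span_singleton.1 hmem
    have hγ0 : γ ≠ 0 := by
      rintro rfl
      rw [zero_smul] at hγ
      exact hx hγ.symm
    apply hx'x
    rw [Submodule.mem_span_singleton]
    refine ⟨γ⁻¹, ?_⟩
    rw [← hγ, smul_smul, inv_mul_cancel₀ hγ0, one_smul]
  have h2 := full_center hq hcard hR h1 hx' (by rw [hq.symm, hu₁x']) hxx'
    (notMem_pair' hq hx'e hu₁e hxe hxx'')
  exact ⟨u₁, h2, notMem_single hq hx'e hu₁e⟩

/-- Every singular centre carries a full pair. -/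
theorem full_all (hcard : 13 ≤ Fintype.card ι) (hR : HasRho hq M) {x u x' : ι → F}
    (h : Full hq M x u) (hx : x ≠ 0) (hu : u ∉ Submodule.span F {x}) (hx' : Q x' = 0) (hx'0 : x' ≠ 0) :
    ∃ u', Full hq M x' u' ∧ u' ∉ Submodule.span F {x'} := by
  classical
  by_cases hmem : x' ∈ Submodule.span F {x}
  · obtain ⟨γ, hγ⟩ := Submodule.mem_span_singleton.1 hmem
    refine ⟨u, ⟨?_, fun θ => ?_⟩, ?_⟩
    · rw [← hγ, hq.bil.smul_left, h.1, mul_zero]
    · rw [← hγ, smul_smul]
      exact h.2 _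
    · intro hmem'
      obtain ⟨δ, hδ⟩ := Submodule.mem_span_singleton.1 hmem'
      apply hu
      rw [Submodule.mem_span_singleton]
      refine ⟨δ * γ, ?_⟩
      rw [← hδ, ← hγ, smul_smul]
  by_cases hxx' : f x x' = 0
  · exact full_step hq hcard hR h hx hu hx' hxx' hmem
  obtain ⟨z, e, hz, hz1, he1, hze⟩ := sing_sep hq hcard {x, x'} (Finset.card_le_two.trans (by norm_num))
  have hzx : f z x = 0 := hz1 x (by simp)
  have hzx' : f z x' = 0 := hz1 x' (by simp)
  have hxe : f x e = 0 := he1 x (by simp)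
  have hx'e : f x' e = 0 := he1 x' (by simp)
  have hz0 : z ≠ 0 := by
    rintro rfl
    exact hze (f_zero_left hq.bil e)
  obtain ⟨u₁, h1, h3⟩ := full_step hq hcard hR h hx hu hz (by rw [hq.symm, hzx])
    (notMem_single hq hxe hze)
  refine full_step hq hcard hR h1 hz0 h3 hx' hzx' ?_
  intro hmem'
  obtain ⟨γ, hγ⟩ := Submodule.mem_span_singleton.1 hmem'
  apply hxx'
  rw [← hγ, hq.bil.smul_right, hq.symm x z, hzx, mul_zero]

/-- The main propagation theorem. -/
theorem all_P (hcard : 13 ≤ Fintype.card ι) (hR : HasRho hq M) {x₀ u₀ : ι → F}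
    (h : P hq M x₀ u₀) (hx₀ : x₀ ≠ 0) (hu₀ : u₀ ∉ Submodule.span F {x₀}) (x u : ι → F)
    (hxu : f x u = 0) : P hq M x u := by
  classical
  obtain ⟨x₁, u₁, hx₁, hu₁, hx₁0, hu₁x, h1⟩ := stage1 hq hcard hR h hx₀ hu₀
  have hfull : Full hq M x₁ u₁ := ⟨h1.1, fun θ => stage2 hq hcard hR h1 hx₁0 hu₁x hu₁ θ⟩
  -- singular centres
  have hiso : ∀ b : ι → F, Q b = 0 → ∀ w, f b w = 0 → P hq M b w := by
    intro b hb w hw
    by_cases hb0 : b = 0
    · subst hb0
      exact P_zero_center hq w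
    obtain ⟨u', h3, h4⟩ := full_all hq hcard hR hfull hx₁0 hu₁x hb hb0
    have h5 := (full_fill hq hcard hR h3 h4 hw).2 1
    rwa [one_smul] at h5
  -- general centre
  set G : Set (ι → F) := {b | Q b = 0 ∧ f b u = 0} with hG
  have hspan : ∀ y ∈ Submodule.span F G, ∀ θ : F, P hq M (θ • y) u := by
    intro y hy
    induction hy using Submodule.span_induction with
    | mem y hy =>
      intro θ
      refine hiso _ ?_ u ?_
      · rw [hq.smul, hy.1, mul_zero]
      · rw [hq.bil.smul_left, hy.2, mul_zero]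
    | zero =>
      intro θ
      rw [smul_zero]
      exact P_zero_center hq u
    | add a b _ _ ha hb =>
      intro θ
      rw [smul_add]
      exact P_add_center hq (ha θ) (hb θ)
    | smul c a ha' ha =>
      intro θ
      rw [smul_smul]
      exact ha _
  have hfin : x ∈ Submodule.span F G → P hq M x u := by
    intro hx
    have := hspan x hx 1
    rwa [one_smul] at this
  refine hfin ?_
  by_contra hcon
  obtain ⟨d, hd, hxd⟩ := exists_perp_of_notMem hq hcon
  have hdu : d ∉ Submodule.span F {u} := by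
    intro hmem
    obtain ⟨e, he⟩ := Submodule.mem_span_singleton.1 hmem
    apply hxd
    rw [← he, hq.bil.smul_right, hxu, mul_zero]
  obtain ⟨a, ha, hda⟩ := exists_perp_of_notMem hq hdu
  have hua : f u a = 0 := ha u (Submodule.mem_span_singleton_self u)
  obtain ⟨z, hz1, hz⟩ := prescribed hq {u, d} a 0 (by
    have : ({u, d} : Finset (ι → F)).card ≤ 2 := Finset.card_le_two
    omega)
  have hzd : f z d ≠ 0 := by
    rw [hz1 d (by simp), hq.symm]
    exact hda
  apply hzd
  refine hd z (Submodule.subset_span ⟨hz, ?_⟩)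
  rw [hz1 u (by simp), hq.symm, hua]

end Cfsg.Agent.Lib.QForm
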