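import Mathlib
import Cfsg.Agent.Lib.SympDecomp
import Cfsg.Agent.Lib.QForm

/-!
# Pairs of complementary totally isotropic subspaces of a symplectic space

Calculus of the elements `z ↦ z + f(z, y) x + f(z, x) y` with `f(x, y) = 0`, and the propagation argument:
a subgroup of the symplectic group (odd characteristic) containing the stabiliser of a pair of complementary
totally isotropic subspaces and one further element contains all transvections.
-/

set_option autoImplicit false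
set_option linter.unusedSectionVars false
set_option linter.unusedVariables false

namespace Cfsg.Agent.Lib.SympTIPair

open Matrix Cfsg Cfsg.Geo Cfsg.Agent.Lib.TvGL Cfsg.Agent.Lib.SympT Cfsg.Agent.Lib.SympDecomp
open Cfsg.Agent.Lib.QForm (unip unip_val unip_apply unip_inv_val vv_mul)

local notation:70 g:71 " ⋆ " x:70 => Matrix.mulVec (Units.val g) x

variable {ι : Type} [Fintype ι] [DecidableEq ι] {F : Type*} [Field F] [Fintype F]
  {f : (ι → F) → (ι → F) → F} (hf : IsSymplecticForm f)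

/-- The matrix `x y* + y x*`. -/
def Xm (f : (ι → F) → (ι → F) → F) (x y : ι → F) : Matrix ι ι F :=
  vecMulVec x (cov f y) + vecMulVec y (cov f x)

theorem Xm_comm (x y : ι → F) : Xm f x y = Xm f y x := add_comm _ _

include hf

theorem Xm_apply (x y z : ι → F) : Xm f x y *ᵥ z = f z y • x + f z x • y := by
  rw [Xm, add_mulVec, vecMulVec_mulVec', vecMulVec_mulVec', cov_dot hf.bilinear, cov_dot hf.bilinear]

theorem fswap {a b : ι → F} (h : f a b = 0) : f b a = 0 := by
  rw [hf.skew, h, neg_zero]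

theorem fswap_ne {a b : ι → F} (h : f a b ≠ 0) : f b a ≠ 0 := by
  intro h0
  exact h (fswap hf h0)

theorem Xm_sq {x y : ι → F} (h : f x y = 0) : Xm f x y * Xm f x y = 0 := by
  have hyx := fswap hf h
  unfold Xm
  rw [add_mul, mul_add, mul_add, vv_mul, vv_mul, vv_mul, vv_mul]
  simp only [cov_dot hf.bilinear, hf.alternating, h, hyx, zero_smul, add_zero]

omit hf in
/-- The pair `(x, y)` gives an element of `M`. -/
def PP (hf : IsSymplecticForm f) (M : Subgroup (GL ι F)) (x y : ι → F) : Prop :=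
  ∃ h : f x y = 0, unip (Xm f x y) (Xm_sq hf h) ∈ M

variable {M : Subgroup (GL ι F)}

theorem PP_symm {x y : ι → F} (h : PP hf M x y) : PP hf M y x := by
  obtain ⟨h0, h1⟩ := h
  refine ⟨fswap hf h0, ?_⟩
  convert h1 using 2
  exact Xm_comm y x

theorem unip_eq_sg {x y : ι → F} (h : f x y = 0) (hX : Xm f x y * Xm f x y = 0) :
    unip (Xm f x y) hX = sg hf x y 1 := by
  apply GL_ext
  intro z
  rw [unip_apply, Xm_apply hf, sg_apply hf h]
  simp only [one_mul]
  abel

theorem unip_pres {x y : ι → F} (h : f x y = 0) (hX : Xm f x y * Xm f x y = 0) :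
    unip (Xm f x y) hX ∈ preserving (glToMat ι F) f := by
  rw [unip_eq_sg hf h]
  exact sg_pres hf _ _ _

theorem unip_conj {t : GL ι F} (ht : t ∈ preserving (glToMat ι F) f) {x y : ι → F} (h : f x y = 0)
    (hX : Xm f x y * Xm f x y = 0)
    (hX' : Xm f (t ⋆ x) (t ⋆ y) * Xm f (t ⋆ x) (t ⋆ y) = 0) :
    t * unip (Xm f x y) hX * t⁻¹ = unip (Xm f (t ⋆ x) (t ⋆ y)) hX' := by
  apply GL_ext
  intro z
  rw [mulVec_mul_GL, mulVec_mul_GL, unip_apply, unip_apply, Xm_apply hf, Xm_apply hf, Matrix.mulVec_add,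
    Matrix.mulVec_add, Matrix.mulVec_smul, Matrix.mulVec_smul, mulVec_inv_GL]
  rw [← pres_apply ht (t⁻¹ ⋆ z) y, ← pres_apply ht (t⁻¹ ⋆ z) x, mulVec_inv_GL]

theorem PP_conj {t : GL ι F} (ht : t ∈ preserving (glToMat ι F) f) (htM : t ∈ M) {x y : ι → F}
    (h : PP hf M x y) : PP hf M (t ⋆ x) (t ⋆ y) := by
  obtain ⟨h0, h1⟩ := h
  have h2 : f (t ⋆ x) (t ⋆ y) = 0 := by rw [pres_apply ht, h0]
  refine ⟨h2, ?_⟩
  rw [← unip_conj hf ht h0 (Xm_sq hf h0)]
  exact M.mul_mem (M.mul_mem htM h1) (M.inv_mem htM)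

omit hf in
/-- General commutator of two matrices of square zero. -/
theorem comm_unip_gen (X Y : Matrix ι ι F) (hX : X * X = 0) (hY : Y * Y = 0) (hXYX : X * Y * X = 0)
    (hYXY : Y * X * Y = 0) (hZ : (X * Y - Y * X) * (X * Y - Y * X) = 0) :
    unip X hX * unip Y hY * (unip X hX)⁻¹ * (unip Y hY)⁻¹ = unip (X * Y - Y * X) hZ := by
  apply Units.ext
  simp only [Units.val_mul, unip_val, unip_inv_val]
  have : (1 + X) * (1 + Y) * (1 - X) * (1 - Y) =
      1 + X * Y - Y * X - X * X + X * X * Y - Y * Y + Y * X * Y - X * Y * X - X * (Y * Y) +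
        X * Y * X * Y := by
    noncomm_ring
  rw [this]
  simp only [hX, hY, hXYX, hYXY, zero_mul, mul_zero, sub_zero, add_zero]
  rw [add_sub_assoc]

theorem cov_smul (c : F) (x : ι → F) : cov f (c • x) = c • cov f x := by
  ext i
  simp [cov, hf.bilinear.smul_right]

theorem Xm_smul_left (c : F) (x y : ι → F) : Xm f (c • x) y = c • Xm f x y := by
  unfold Xm
  rw [cov_smul hf, vecMulVec_smul_left, vecMulVec_smul_right, smul_add]

/-- The commutator rule. -/
theorem PP_comm {x y a b : ι → F} (h : PP hf M x y) (h' : PP hf M a b) (hxa : f x a = 0)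
    (hxb : f x b = 0) (hyb : f y b = 0) : PP hf M (f a y • x) b := by
  obtain ⟨h0, h1⟩ := h
  obtain ⟨h0', h1'⟩ := h'
  have hax := fswap hf hxa
  have hbx := fswap hf hxb
  have hby := fswap hf hyb
  have hba := fswap hf h0'
  have hyx := fswap hf h0
  have h2 : f (f a y • x) b = 0 := by rw [hf.bilinear.smul_left, hxb, mul_zero]
  refine ⟨h2, ?_⟩
  have hXY : Xm f x y * Xm f a b = f a y • vecMulVec x (cov f b) := by
    unfold Xm
    rw [add_mul, mul_add, mul_add, vv_mul, vv_mul, vv_mul, vv_mul]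
    simp only [cov_dot hf.bilinear, hbx, hby, hax, zero_smul, add_zero, zero_add]
  have hYX : Xm f a b * Xm f x y = f y a • vecMulVec b (cov f x) := by
    unfold Xm
    rw [add_mul, mul_add, mul_add, vv_mul, vv_mul, vv_mul, vv_mul]
    simp only [cov_dot hf.bilinear, hxa, hxb, hyb, zero_smul, add_zero, zero_add]
  have hZ0 : Xm f x y * Xm f a b - Xm f a b * Xm f x y = Xm f (f a y • x) b := by
    rw [hXY, hYX, Xm_smul_left hf, hf.skew y a]
    unfold Xm
    rw [neg_smul, sub_neg_eq_add, smul_add]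
  have hZ : (Xm f x y * Xm f a b - Xm f a b * Xm f x y) * (Xm f x y * Xm f a b - Xm f a b * Xm f x y) = 0 := by
    rw [hZ0]
    exact Xm_sq hf h2
  have hXYX : Xm f x y * Xm f a b * Xm f x y = 0 := by
    rw [hXY, smul_mul_assoc]
    unfold Xm
    rw [mul_add, vv_mul, vv_mul]
    simp only [cov_dot hf.bilinear, hxb, hyb, zero_smul, add_zero, smul_zero]
  have hYXY : Xm f a b * Xm f x y * Xm f a b = 0 := by
    rw [hYX, smul_mul_assoc]
    unfold Xm
    rw [mul_add, vv_mul, vv_mul]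
    simp only [cov_dot hf.bilinear, hbx, hax, zero_smul, add_zero, smul_zero]
  have h3 := M.mul_mem (M.mul_mem (M.mul_mem h1 h1') (M.inv_mem h1)) (M.inv_mem h1')
  rw [comm_unip_gen _ _ _ _ hXYX hYXY hZ] at h3
  convert h3 using 2
  exact hZ0.symm

/-- Removing a piece of the first vector. -/
theorem PP_sub (h2 : (2 : F) ≠ 0) {x x' b : ι → F} (h : PP hf M x b) (h' : PP hf M x' b) :
    PP hf M (x - x' - (f x' x / 2) • b) b := by
  obtain ⟨h0, h1⟩ := h
  obtain ⟨h0', h1'⟩ := h'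
  have hbil := hf.bilinear
  have h3 : f (x - x' - (f x' x / 2) • b) b = 0 := by
    rw [f_sub_left hbil, f_sub_left hbil, hbil.smul_left, h0, h0', hf.alternating]
    ring
  refine ⟨h3, ?_⟩
  have h4 := M.mul_mem h1 (M.inv_mem h1')
  convert h4 using 1
  apply GL_ext
  intro z
  have hinv : (unip (Xm f x' b) (Xm_sq hf h0'))⁻¹ ⋆ z = z - Xm f x' b *ᵥ z := by
    rw [unip_inv_val, sub_mulVec, one_mulVec]
  rw [mulVec_mul_GL, hinv, unip_apply, unip_apply, Xm_apply hf, Xm_apply hf, Xm_apply hf, ]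
  have hb0 : f (f z b • x' + f z x' • b) b = f z b * f x' b + f z x' * f b b := by
    rw [hbil.add_left, hbil.smul_left, hbil.smul_left]
  have hx0 : f (f z b • x' + f z x' • b) x = f z b * f x' x + f z x' * f b x := by
    rw [hbil.add_left, hbil.smul_left, hbil.smul_left]
  rw [f_sub_left hbil, f_sub_left hbil, hb0, hx0, h0', hf.alternating, fswap hf h0, f_sub_right hbil,
    f_sub_right hbil, hbil.smul_right]
  ext i
  simp only [Pi.add_apply, Pi.sub_apply, Pi.smul_apply, smul_eq_mul]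
  field_simp
  ring

/-- A transvection from a degenerate pair. -/
theorem PP_tv {x : ι → F} {c : F} (h : PP hf M (c • x) x) : tvS hf x (2 * c) ∈ M := by
  obtain ⟨h0, h1⟩ := h
  convert h1 using 1
  apply GL_ext
  intro z
  rw [tvS_apply, unip_apply, Xm_apply hf, hf.bilinear.smul_right]
  ext i
  simp only [Pi.add_apply, Pi.smul_apply, smul_eq_mul]
  ring

/-! ### Pairs of complementary totally isotropic subspaces -/

omit hf in
/-- Complementary totally isotropic subspaces. -/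
structure TSP (f : (ι → F) → (ι → F) → F) (D D' : Submodule F (ι → F)) : Prop where
  ti : ∀ u ∈ D, ∀ v ∈ D, f u v = 0
  ti' : ∀ u ∈ D', ∀ v ∈ D', f u v = 0
  compl : IsCompl D D'

omit hf in
theorem TSP.symm {D D' : Submodule F (ι → F)} (h : TSP f D D') : TSP f D' D :=
  ⟨h.ti', h.ti, h.compl.symm⟩

omit hf in
theorem TSP.decomp {D D' : Submodule F (ι → F)} (h : TSP f D D') (x : ι → F) :
    ∃ x₀ ∈ D, ∃ x₁ ∈ D', x = x₀ + x₁ := by
  have hx : x ∈ D ⊔ D' := by
    rw [h.compl.sup_eq_top]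
    trivial
  obtain ⟨y, hy, z, hz, rfl⟩ := Submodule.mem_sup.1 hx
  exact ⟨y, hy, z, hz, rfl⟩

variable {D D' : Submodule F (ι → F)}

/-- A vector orthogonal to `D` is in `D`. -/
theorem TSP.perp_sub (hp : TSP f D D') {a : ι → F} (ha : ∀ w ∈ D, f w a = 0) : a ∈ D := by
  obtain ⟨a₀, ha₀, a₁, ha₁, rfl⟩ := hp.decomp a
  have h1 : a₁ = 0 := by
    by_contra h0
    obtain ⟨z, hz⟩ := (hf.nondegenerate a₁ h0).1
    obtain ⟨z₀, hz₀, z₁, hz₁, rfl⟩ := hp.decomp z
    apply hz
    have h3 := ha z₀ hz₀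
    rw [hf.bilinear.add_right, hp.ti z₀ hz₀ a₀ ha₀, zero_add] at h3
    rw [hf.bilinear.add_left, h3, hp.ti' z₁ hz₁ a₁ ha₁, add_zero]
  rw [h1, add_zero]
  exact ha₀

/-- Separation: a vector of `D'` outside a subspace is detected by a vector of `D`. -/
theorem TSP.sep (hp : TSP f D D') {W : Submodule F (ι → F)} {u : ι → F} (hW : W ≤ D') (hu : u ∈ D')
    (huW : u ∉ W) : ∃ a ∈ D, (∀ w ∈ W, f a w = 0) ∧ f a u ≠ 0 := by
  have h1 : u ∉ W ⊔ D := by
    intro hmem
    obtain ⟨w, hw, d, hd, hwd⟩ := Submodule.mem_sup.1 hmem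
    have h3 : d ∈ D' := by
      have : d = u - w := by rw [← hwd]; abel
      rw [this]
      exact D'.sub_mem hu (hW hw)
    have h4 : d = 0 := by
      have := Submodule.disjoint_def.1 hp.compl.disjoint d hd h3
      exact this
    rw [h4, add_zero] at hwd
    exact huW (hwd ▸ hw)
  obtain ⟨a, ha, hua⟩ := exists_perp_of_notMem hf h1
  have ha' : ∀ z ∈ W ⊔ D, f z a = 0 := (mem_perp hf).1 ha
  refine ⟨a, hp.perp_sub hf (fun w hw => ha' w (Submodule.mem_sup_right hw)), fun w hw => ?_,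
    fswap_ne hf hua⟩
  exact fswap hf (ha' w (Submodule.mem_sup_left hw))

/-- Separation with a prescribed value. -/
theorem TSP.sep_val (hp : TSP f D D') {W : Submodule F (ι → F)} {u : ι → F} (hW : W ≤ D') (hu : u ∈ D')
    (huW : u ∉ W) (c : F) : ∃ a ∈ D, (∀ w ∈ W, f a w = 0) ∧ f a u = c := by
  obtain ⟨a, ha, h1, h3⟩ := hp.sep hf hW hu huW
  refine ⟨(c / f a u) • a, D.smul_mem _ ha, fun w hw => ?_, ?_⟩
  · rw [hf.bilinear.smul_left, h1 w hw, mul_zero]
  · rw [hf.bilinear.smul_left]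
    field_simp

theorem finrank_inf_perp (U S : Submodule F (ι → F)) :
    Module.finrank F U ≤ Module.finrank F (U ⊓ perp hf S : Submodule F (ι → F)) + Module.finrank F S := by
  have h1 := Submodule.finrank_sup_add_finrank_inf_eq U (perp hf S)
  have h2 := finrank_perp hf S
  have h4 : Module.finrank F (U ⊔ perp hf S : Submodule F (ι → F)) ≤ Fintype.card ι := by
    have := Submodule.finrank_le (U ⊔ perp hf S : Submodule F (ι → F))
    rwa [Module.finrank_fintype_fun_eq_card] at this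
  have h5 : Module.finrank F S ≤ Fintype.card ι := by
    have := Submodule.finrank_le S
    rwa [Module.finrank_fintype_fun_eq_card] at this
  omega

omit hf in
theorem finrank_span_three (a b c : ι → F) :
    Module.finrank F (Submodule.span F ({a, b, c} : Set (ι → F))) ≤ 3 :=
  Cfsg.Agent.Lib.QForm.finrank_span_le_three a b c

omit hf in
theorem finrank_span_two (a b : ι → F) :
    Module.finrank F (Submodule.span F ({a, b} : Set (ι → F))) ≤ 2 :=
  Cfsg.Agent.Lib.QForm.finrank_span_le_two a b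

omit hf in
theorem finrank_span_one (a : ι → F) : Module.finrank F (Submodule.span F {a}) ≤ 1 := by
  have h6 := Cfsg.Agent.Lib.QForm.finrank_span_le ({a} : Finset (ι → F))
  have h8 : ((({a} : Finset (ι → F))) : Set (ι → F)) = {a} := by simp
  rw [h8, Finset.card_singleton] at h6
  exact h6

/-- Stage A: an element whose span avoids `D` gives a transvection with centre in `D'`. -/
theorem stageA (hp : TSP f D D') (hm : 6 ≤ Module.finrank F D') (h2 : (2 : F) ≠ 0)
    (hH : ∀ a ∈ D, ∀ b ∈ D', f a b = 0 → PP hf M a b) {x y : ι → F} (hxy : PP hf M x y)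
    (hind : ∀ α β : F, α • x + β • y ∈ D → α = 0 ∧ β = 0) :
    ∃ u ∈ D', u ≠ 0 ∧ u ∈ TS hf M := by
  classical
  have hbil := hf.bilinear
  obtain ⟨x₀, hx₀, x₁, hx₁, hx⟩ := hp.decomp x
  obtain ⟨y₀, hy₀, y₁, hy₁, hy⟩ := hp.decomp y
  have hx₁0 : x₁ ≠ 0 := by
    rintro rfl
    have h1 := hind 1 0 (by
      rw [hx]
      simpa using hx₀)
    exact one_ne_zero h1.1
  have hy₁x₁ : y₁ ∉ Submodule.span F {x₁} := by
    intro hmem
    obtain ⟨γ, hγ⟩ := Submodule.mem_span_singleton.1 hmem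
    have h1 := hind (-γ) 1 (by
      have : -γ • x + (1 : F) • y = y₀ + (-γ) • x₀ := by
        rw [hx, hy, ← hγ, smul_add, one_smul, neg_smul, neg_smul]
        abel
      rw [this]
      exact D.add_mem hy₀ (D.smul_mem _ hx₀))
    exact one_ne_zero h1.2
  have hspan : Submodule.span F {x₁} ≤ D' := by
    rw [Submodule.span_singleton_le_iff_mem]
    exact hx₁
  obtain ⟨a, haD, ha1, hay⟩ := hp.sep hf hspan hy₁ hy₁x₁
  have hax₁ : f a x₁ = 0 := ha1 x₁ (Submodule.mem_span_singleton_self x₁)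
  have hax₀ : f a x₀ = 0 := hp.ti a haD x₀ hx₀
  have hay₀ : f a y₀ = 0 := hp.ti a haD y₀ hy₀
  -- the vector b
  set S : Submodule F (ι → F) := Submodule.span F ({a, x₀, y₀} : Set (ι → F)) with hS
  have hK := finrank_inf_perp hf D' S
  have hS3 : Module.finrank F S ≤ 3 := finrank_span_three _ _ _
  obtain ⟨b, hbK, hbx₁⟩ : ∃ b ∈ (D' ⊓ perp hf S : Submodule F (ι → F)), b ∉ Submodule.span F {x₁} := by
    by_contra hcon
    push Not at hcon
    have h1 := Submodule.finrank_mono (show (D' ⊓ perp hf S : Submodule F (ι → F)) ≤ Submodule.span F {x₁} from hcon)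
    have h3 := finrank_span_one (F := F) x₁
    omega
  have hbD' : b ∈ D' := hbK.1
  have hb' : ∀ w ∈ S, f w b = 0 := (mem_perp hf).1 hbK.2
  have hab : f a b = 0 := hb' a (Submodule.subset_span (by simp))
  have hx₀b : f x₀ b = 0 := hb' x₀ (Submodule.subset_span (by simp))
  have hy₀b : f y₀ b = 0 := hb' y₀ (Submodule.subset_span (by simp))
  have hx₁b : f x₁ b = 0 := hp.ti' x₁ hx₁ b hbD'
  have hy₁b : f y₁ b = 0 := hp.ti' y₁ hy₁ b hbD'
  have hay' : f a y ≠ 0 := by
    rw [hy, hbil.add_right, hay₀, zero_add]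
    exact hay
  have hxa : f x a = 0 := by
    rw [hx, hbil.add_left, fswap hf hax₀, fswap hf hax₁, add_zero]
  have hxb : f x b = 0 := by rw [hx, hbil.add_left, hx₀b, hx₁b, add_zero]
  have hyb : f y b = 0 := by rw [hy, hbil.add_left, hy₀b, hy₁b, add_zero]
  have h1 := PP_comm hf hxy (hH a haD b hbD' hab) hxa hxb hyb
  set lam : F := f a y with hlam
  -- remove the D part
  have h3 := PP_sub hf h2 h1 (hH (lam • x₀) (D.smul_mem _ hx₀) b hbD'
    (by rw [hbil.smul_left, hx₀b, mul_zero]))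
  set γ : F := f (lam • x₀) (lam • x) / 2 with hγ
  set u : ι → F := lam • x - lam • x₀ - γ • b with hu
  have hu1 : u = lam • x₁ - γ • b := by
    rw [hu, hx, smul_add]
    abel
  have huD' : u ∈ D' := by
    rw [hu1]
    exact D'.sub_mem (D'.smul_mem _ hx₁) (D'.smul_mem _ hbD')
  have hbu : b ∉ Submodule.span F {u} := by
    intro hmem
    obtain ⟨δ, hδ⟩ := Submodule.mem_span_singleton.1 hmem
    -- δ • u = b gives (1 + δ γ) b = δ lam x₁
    have h5 : (δ * lam) • x₁ = (1 + δ * γ) • b := by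
      have h6 : δ • (lam • x₁ - γ • b) = b := by rw [← hu1]; exact hδ
      rw [smul_sub, smul_smul, smul_smul] at h6
      rw [add_smul, one_smul]
      exact sub_eq_iff_eq_add.1 h6
    by_cases hc : 1 + δ * γ = 0
    · rw [hc, zero_smul] at h5
      have h6 : δ * lam = 0 := by
        by_contra h7
        exact hx₁0 ((smul_eq_zero.1 h5).resolve_left h7)
      have hδ0 : δ = 0 := (mul_eq_zero.1 h6).resolve_right hay'
      rw [hδ0] at hc
      simp at hc
    · apply hbx₁
      rw [Submodule.mem_span_singleton]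
      refine ⟨(1 + δ * γ)⁻¹ * (δ * lam), ?_⟩
      rw [mul_smul, h5, smul_smul, inv_mul_cancel₀ hc, one_smul]
  have hu0 : u ≠ 0 := by
    intro h0
    have h5 : lam • x₁ = γ • b := by
      rw [hu1] at h0
      exact sub_eq_zero.1 h0
    by_cases hc : γ = 0
    · rw [hc, zero_smul] at h5
      exact hx₁0 ((smul_eq_zero.1 h5).resolve_left hay')
    · apply hbx₁
      rw [Submodule.mem_span_singleton]
      refine ⟨γ⁻¹ * lam, ?_⟩
      rw [mul_smul, h5, smul_smul, inv_mul_cancel₀ hc, one_smul]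
  refine ⟨u, huD', hu0, ?_⟩
  -- Stage B
  have hspanu : Submodule.span F {u} ≤ D' := by
    rw [Submodule.span_singleton_le_iff_mem]
    exact huD'
  intro d
  obtain ⟨a', ha'D, ha'1, ha'b⟩ := hp.sep_val hf hspanu hbD' hbu (d / 2)
  have ha'u : f a' u = 0 := ha'1 u (Submodule.mem_span_singleton_self u)
  have h5 := PP_comm hf h3 (hH a' ha'D u huD' ha'u) (fswap hf ha'u) (hf.alternating u)
    (hp.ti' b hbD' u huD')
  rw [ha'b] at h5
  have h6 := PP_tv hf h5
  have h7 : 2 * (d / 2) = d := by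
    field_simp
  rwa [h7] at h6

/-- Stage C: from one centre in `D'` to all of `D'`. -/
theorem stageC (hp : TSP f D D') (hH : ∀ a ∈ D, ∀ b ∈ D', f a b = 0 → PP hf M a b) {u : ι → F}
    (hu : u ∈ D') (hu0 : u ≠ 0) (huT : u ∈ TS hf M) {v : ι → F} (hv : v ∈ D') : v ∈ TS hf M := by
  classical
  have hbil := hf.bilinear
  by_cases hmem : v ∈ Submodule.span F {u}
  · obtain ⟨γ, rfl⟩ := Submodule.mem_span_singleton.1 hmem
    exact TS_smul hf huT γ
  have hspanu : Submodule.span F {u} ≤ D' := by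
    rw [Submodule.span_singleton_le_iff_mem]
    exact hu
  have hspanv : Submodule.span F {v} ≤ D' := by
    rw [Submodule.span_singleton_le_iff_mem]
    exact hv
  have huv : u ∉ Submodule.span F {v} := by
    intro hmem'
    obtain ⟨γ, hγ⟩ := Submodule.mem_span_singleton.1 hmem'
    have hγ0 : γ ≠ 0 := by
      rintro rfl
      rw [zero_smul] at hγ
      exact hu0 hγ.symm
    apply hmem
    rw [Submodule.mem_span_singleton]
    refine ⟨γ⁻¹, ?_⟩
    rw [← hγ, smul_smul, inv_mul_cancel₀ hγ0, one_smul]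
  obtain ⟨a₁, ha₁, h1, h3⟩ := hp.sep_val hf hspanu hv hmem (-1) |>.imp (fun a h => h) |> fun h => h
  obtain ⟨a₂, ha₂, h4, h5⟩ := hp.sep_val hf hspanv hu huv (-1)
  have ha₁u : f a₁ u = 0 := h1 u (Submodule.mem_span_singleton_self u)
  have ha₂v : f a₂ v = 0 := h4 v (Submodule.mem_span_singleton_self v)
  set a := a₁ + a₂ with ha
  have haD : a ∈ D := D.add_mem ha₁ ha₂
  have hau : f a u = -1 := by rw [ha, hbil.add_left, ha₁u, h5, zero_add]
  have hav : f a v = -1 := by rw [ha, hbil.add_left, h3, ha₂v, add_zero]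
  have hvu : v - u ∈ D' := D'.sub_mem hv hu
  have hav' : f a (v - u) = 0 := by
    rw [f_sub_right hbil, hau, hav, sub_self]
  obtain ⟨h0, h6⟩ := hH a haD (v - u) hvu hav'
  have h7 := TS_conj hf h6 (unip_pres hf h0 _) huT
  have h8 : unip (Xm f a (v - u)) (Xm_sq hf h0) ⋆ u = v := by
    rw [unip_apply, Xm_apply hf, hp.ti' u hu _ hvu, zero_smul, zero_add, hf.skew u a, hau]
    simp
  rwa [h8] at h7

/-- Last stage: everything from the two subspaces. -/
theorem all_TS (hp : TSP f D D') (hD : ∀ v ∈ D, v ∈ TS hf M) (hD' : ∀ v ∈ D', v ∈ TS hf M) (x : ι → F) :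
    x ∈ TS hf M := by
  have hbil := hf.bilinear
  obtain ⟨a, ha, b, hb, rfl⟩ := hp.decomp x
  by_cases ha0 : a = 0
  · rw [ha0, zero_add]
    exact hD' b hb
  -- a vector of D' not orthogonal to a
  obtain ⟨c, hc, hac⟩ : ∃ c ∈ D', f a c ≠ 0 := by
    obtain ⟨z, hz⟩ := (hf.nondegenerate a ha0).2
    obtain ⟨z₀, hz₀, z₁, hz₁, rfl⟩ := hp.decomp z
    refine ⟨z₁, hz₁, ?_⟩
    rw [hbil.add_right, hp.ti a ha z₀ hz₀, zero_add] at hz
    exact hz
  by_cases hab : f a b = 0
  · have h1 := TS_step hf (hD a ha) (hD' c hc) hac 1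
    rw [one_smul] at h1
    have h3 : f (a + c) (b - c) ≠ 0 := by
      rw [hbil.add_left, f_sub_right hbil, f_sub_right hbil, hab, hp.ti' c hc b hb, hf.alternating]
      simpa using hac
    have h4 := TS_step hf h1 (hD' (b - c) (D'.sub_mem hb hc)) h3 1
    rw [one_smul] at h4
    have h5 : a + c + (b - c) = a + b := by abel
    rwa [h5] at h4
  · have h1 := TS_step hf (hD a ha) (hD' b hb) hab 1
    rwa [one_smul] at h1

/-- Existence of an element interchanging the two subspaces. -/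
theorem exists_swap (hp : TSP f D D') (hdim : Module.finrank F D = Module.finrank F D') :
    ∃ s : GL ι F, s ∈ preserving (glToMat ι F) f ∧ (∀ x ∈ D, s ⋆ x ∈ D') ∧ ∀ x ∈ D', s ⋆ x ∈ D := by
  classical
  have hbil := hf.bilinear
  obtain ⟨φ⟩ : Nonempty (↥D ≃ₗ[F] ↥D') := ⟨LinearEquiv.ofFinrankEq _ _ hdim⟩
  let π₀ := Submodule.projectionOnto D D' hp.compl
  let π₁ := Submodule.projectionOnto D' D hp.compl.symm
  -- the auxiliary bilinear form
  let B' : LinearMap.BilinForm F (ι → F) :=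
    LinearMap.mk₂ F (fun b z => f b ((φ.symm (π₁ z) : ↥D) : ι → F))
      (fun a b c => hbil.add_left _ _ _)
      (fun c a b => hbil.smul_left _ _ _)
      (fun a b c => by
        simp only [map_add, Submodule.coe_add]
        exact hbil.add_right _ _ _)
      (fun c a b => by
        simp only [map_smul, Submodule.coe_smul]
        exact hbil.smul_right _ _ _)
  let T : (ι → F) →ₗ[F] (ι → F) := B'.symmCompOfNondegenerate (Bf hbil) (Bf_nondeg hf)
  have hT : ∀ b z, f (T b) z = f b ((φ.symm (π₁ z) : ↥D) : ι → F) := fun b z =>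
    LinearMap.BilinForm.symmCompOfNondegenerate_left_apply B' (Bf_nondeg hf) z b
  have hπ₀l : ∀ x (hx : x ∈ D), π₀ x = ⟨x, hx⟩ := fun x hx =>
    Submodule.projectionOnto_apply_left hp.compl ⟨x, hx⟩
  have hπ₀r : ∀ x (hx : x ∈ D'), π₀ x = 0 := fun x hx =>
    Submodule.projectionOnto_apply_right hp.compl ⟨x, hx⟩
  have hπ₁l : ∀ x (hx : x ∈ D'), π₁ x = ⟨x, hx⟩ := fun x hx =>
    Submodule.projectionOnto_apply_left hp.compl.symm ⟨x, hx⟩
  have hπ₁r : ∀ x (hx : x ∈ D), π₁ x = 0 := fun x hx =>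
    Submodule.projectionOnto_apply_right hp.compl.symm ⟨x, hx⟩
  have hTD : ∀ b, T b ∈ D := by
    intro b
    refine hp.perp_sub hf (fun w hw => ?_)
    apply fswap hf
    rw [hT, hπ₁r w hw, map_zero]
    simpa using f_zero_right hbil b
  let s₀ : (ι → F) →ₗ[F] (ι → F) :=
    D'.subtype ∘ₗ φ.toLinearMap ∘ₗ π₀ + T ∘ₗ D'.subtype ∘ₗ π₁
  have hs₀ : ∀ z, s₀ z = ((φ (π₀ z) : ↥D') : ι → F) + T ((π₁ z : ↥D') : ι → F) := fun z => rfl
  have hsum : ∀ z, z = ((π₀ z : ↥D) : ι → F) + ((π₁ z : ↥D') : ι → F) := by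
    intro z
    obtain ⟨z₀, hz₀, z₁, hz₁, rfl⟩ := hp.decomp z
    rw [map_add, map_add, hπ₀l z₀ hz₀, hπ₀r z₁ hz₁, hπ₁r z₀ hz₀, hπ₁l z₁ hz₁]
    simp
  have hpres : ∀ u v, f (s₀ u) (s₀ v) = f u v := by
    intro u v
    rw [hs₀, hs₀]
    set a := π₀ u with ha
    set b := π₁ u with hb
    set a' := π₀ v with ha'
    set b' := π₁ v with hb'
    have hu : u = (a : ι → F) + (b : ι → F) := hsum u
    have hv : v = (a' : ι → F) + (b' : ι → F) := hsum v
    have e1 : f ((φ a : ↥D') : ι → F) ((φ a' : ↥D') : ι → F) = 0 := hp.ti' _ (φ a).2 _ (φ a').2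
    have e2 : f (T (b : ι → F)) (T (b' : ι → F)) = 0 := hp.ti _ (hTD _) _ (hTD _)
    have e3 : f (T (b : ι → F)) ((φ a' : ↥D') : ι → F) = f (b : ι → F) (a' : ι → F) := by
      rw [hT, hπ₁l _ (φ a').2]
      simp
    have e4 : f ((φ a : ↥D') : ι → F) (T (b' : ι → F)) = f (a : ι → F) (b' : ι → F) := by
      rw [hf.skew, hT, hπ₁l _ (φ a).2]
      simp only [Subtype.coe_eta, LinearEquiv.symm_apply_apply]
      rw [← hf.skew]
    rw [hbil.add_left, hbil.add_right, hbil.add_right, e1, e2, e3, e4]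
    rw [hu, hv, hbil.add_left, hbil.add_right, hbil.add_right]
    rw [hp.ti _ a.2 _ a'.2, hp.ti' _ b.2 _ b'.2]
  have hinj : Function.Injective s₀ := by
    rw [injective_iff_map_eq_zero]
    intro z hz
    by_contra h0
    obtain ⟨w, hw⟩ := (hf.nondegenerate z h0).2
    apply hw
    rw [← hpres, hz, f_zero_left hbil]
  let e : (ι → F) ≃ₗ[F] (ι → F) := LinearEquiv.ofInjectiveEndo s₀ hinj
  have he : ∀ x, glOf e ⋆ x = s₀ x := fun x => by
    rw [glOf_apply]
    rfl
  refine ⟨glOf e, ?_, ?_, ?_⟩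
  · intro u v
    show f (glOf e ⋆ u) (glOf e ⋆ v) = f u v
    rw [he, he, hpres]
  · intro x hx
    rw [he, hs₀, hπ₁r x hx]
    simp only [ZeroMemClass.coe_zero, map_zero, add_zero]
    exact (φ _).2
  · intro x hx
    rw [he, hs₀, hπ₀r x hx]
    simp only [map_zero, ZeroMemClass.coe_zero, zero_add]
    exact hTD _

omit hf in
/-- A subspace contained in the union of two subspaces is contained in one of them. -/
theorem le_or_le_of_union (U A B : Submodule F (ι → F)) (h : ∀ x ∈ U, x ∈ A ∨ x ∈ B) :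
    U ≤ A ∨ U ≤ B := by
  by_contra hcon
  push Not at hcon
  obtain ⟨hA, hB⟩ := hcon
  obtain ⟨u₁, hu₁, hu₁A⟩ := SetLike.not_le_iff_exists.1 hA
  obtain ⟨u₂, hu₂, hu₂B⟩ := SetLike.not_le_iff_exists.1 hB
  have h1 := (h u₁ hu₁).resolve_left hu₁A
  have h2 := (h u₂ hu₂).resolve_right hu₂B
  rcases h _ (U.add_mem hu₁ hu₂) with h3 | h3
  · apply hu₁A
    have := A.sub_mem h3 h2
    simpa using this
  · apply hu₂B
    have := B.sub_mem h3 h1
    simpa using this

/-- If every "mixed" 2-space has its image meeting both targets, vectors go to the union of the targets. -/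
theorem mem_union_of_mixed (hp : TSP f D D') (hm : 4 ≤ Module.finrank F D') {C C' : Submodule F (ι → F)}
    (hC : IsCompl C C') (g : GL ι F)
    (hg : ∀ a ∈ D, ∀ b ∈ D', f a b = 0 →
      (∃ α β : F, (α ≠ 0 ∨ β ≠ 0) ∧ α • (g ⋆ a) + β • (g ⋆ b) ∈ C) ∧
      (∃ α β : F, (α ≠ 0 ∨ β ≠ 0) ∧ α • (g ⋆ a) + β • (g ⋆ b) ∈ C'))
    {a : ι → F} (ha : a ∈ D) : g ⋆ a ∈ C ∨ g ⋆ a ∈ C' := by
  classical
  by_contra hcon
  push Not at hcon
  obtain ⟨hC1, hC2⟩ := hcon
  have hdec : ∀ x : ι → F, ∃ x₀ ∈ C, ∃ x₁ ∈ C', x = x₀ + x₁ := by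
    intro x
    have hx : x ∈ C ⊔ C' := by
      rw [hC.sup_eq_top]
      trivial
    obtain ⟨y, hy, z, hz, rfl⟩ := Submodule.mem_sup.1 hx
    exact ⟨y, hy, z, hz, rfl⟩
  obtain ⟨s, hs, t, ht, hst⟩ := hdec (g ⋆ a)
  set B : Submodule F (ι → F) := D' ⊓ perp hf (Submodule.span F {a}) with hB
  have hmaps : ∀ b ∈ B, g ⋆ b ∈ Submodule.span F ({s, t} : Set (ι → F)) := by
    intro b hb
    have hab : f a b = 0 := (mem_perp hf).1 hb.2 a (Submodule.mem_span_singleton_self a)
    obtain ⟨⟨α, β, hαβ, h1⟩, ⟨α', β', hαβ', h2⟩⟩ := hg a ha b hb.1 hab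
    have hβ : β ≠ 0 := by
      rintro rfl
      have hα : α ≠ 0 := by simpa using hαβ
      apply hC1
      rw [zero_smul, add_zero] at h1
      have := C.smul_mem α⁻¹ h1
      rwa [smul_smul, inv_mul_cancel₀ hα, one_smul] at this
    have hβ' : β' ≠ 0 := by
      rintro rfl
      have hα : α' ≠ 0 := by simpa using hαβ'
      apply hC2
      rw [zero_smul, add_zero] at h2
      have := C'.smul_mem α'⁻¹ h2
      rwa [smul_smul, inv_mul_cancel₀ hα, one_smul] at this
    obtain ⟨p, hp', q, hq, hpq⟩ := hdec (g ⋆ b)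
    -- the component in C' of the first relation vanishes
    have hq0 : α • t + β • q = 0 := by
      have h3 : α • t + β • q = (α • (g ⋆ a) + β • (g ⋆ b)) - (α • s + β • p) := by
        rw [hst, hpq, smul_add, smul_add]
        abel
      have h4 : α • t + β • q ∈ C := by
        rw [h3]
        exact C.sub_mem h1 (C.add_mem (C.smul_mem _ hs) (C.smul_mem _ hp'))
      have h5 : α • t + β • q ∈ C' := C'.add_mem (C'.smul_mem _ ht) (C'.smul_mem _ hq)
      exact Submodule.disjoint_def.1 hC.disjoint _ h4 h5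
    have hp0 : α' • s + β' • p = 0 := by
      have h3 : α' • s + β' • p = (α' • (g ⋆ a) + β' • (g ⋆ b)) - (α' • t + β' • q) := by
        rw [hst, hpq, smul_add, smul_add]
        abel
      have h4 : α' • s + β' • p ∈ C' := by
        rw [h3]
        exact C'.sub_mem h2 (C'.add_mem (C'.smul_mem _ ht) (C'.smul_mem _ hq))
      have h5 : α' • s + β' • p ∈ C := C.add_mem (C.smul_mem _ hs) (C.smul_mem _ hp')
      exact Submodule.disjoint_def.1 hC.disjoint _ h5 h4
    have hq1 : q = (-(α / β)) • t := by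
      have h3 : β • q = -(α • t) := eq_neg_of_add_eq_zero_right hq0
      have h4 := congrArg (fun w => β⁻¹ • w) h3
      simp only [smul_smul, inv_mul_cancel₀ hβ, one_smul] at h4
      rw [h4, smul_neg, smul_smul, neg_smul, div_eq_inv_mul]
    have hp1 : p = (-(α' / β')) • s := by
      have h3 : β' • p = -(α' • s) := eq_neg_of_add_eq_zero_right hp0
      have h4 := congrArg (fun w => β'⁻¹ • w) h3
      simp only [smul_smul, inv_mul_cancel₀ hβ', one_smul] at h4
      rw [h4, smul_neg, smul_smul, neg_smul, div_eq_inv_mul]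
    rw [hpq, hq1, hp1]
    exact Submodule.add_mem _ (Submodule.smul_mem _ _ (Submodule.subset_span (by simp)))
      (Submodule.smul_mem _ _ (Submodule.subset_span (by simp)))
  have h1 := finrank_le_of_maps g hmaps
  have h2 := finrank_span_two (F := F) s t
  have h3 : Module.finrank F D' ≤ Module.finrank F B + Module.finrank F (Submodule.span F {a}) :=
    finrank_inf_perp hf D' (Submodule.span F {a})
  have h4 := finrank_span_one (F := F) a
  omega

/-- The main theorem: a subgroup containing the stabiliser of the pair and one further element contains all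
symplectic transvections. -/
theorem all_tv (hp : TSP f D D') (hm : 6 ≤ Module.finrank F D') (hdim : Module.finrank F D = Module.finrank F D')
    (h2 : (2 : F) ≠ 0) (hMp : M ≤ preserving (glToMat ι F) f)
    (hH : ∀ a ∈ D, ∀ b ∈ D', f a b = 0 → PP hf M a b)
    (hswap : ∃ s ∈ M, (∀ x ∈ D, s ⋆ x ∈ D') ∧ ∀ x ∈ D', s ⋆ x ∈ D)
    {g : GL ι F} (hgM : g ∈ M)
    (hg : ¬ (((∀ x ∈ D, g ⋆ x ∈ D) ∧ ∀ x ∈ D', g ⋆ x ∈ D') ∨ ((∀ x ∈ D, g ⋆ x ∈ D') ∧ ∀ x ∈ D', g ⋆ x ∈ D))) :
    ∀ v c, tvS hf v c ∈ M := by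
  classical
  have hgp := hMp hgM
  have hH' : ∀ a ∈ D', ∀ b ∈ D, f a b = 0 → PP hf M a b := fun a ha b hb hab =>
    PP_symm hf (hH b hb a ha (fswap hf hab))
  obtain ⟨s, hsM, hs1, hs2⟩ := hswap
  -- conclusion from a centre in either subspace
  have hfin : ∀ (A A' : Submodule F (ι → F)), TSP f A A' → (A = D ∧ A' = D' ∨ A = D' ∧ A' = D) →
      (∃ u ∈ A', u ≠ 0 ∧ u ∈ TS hf M) → ∀ v c, tvS hf v c ∈ M := by
    intro A A' hpA hAA ⟨u, hu, hu0, huT⟩
    have hA'T : ∀ v ∈ A', v ∈ TS hf M := by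
      intro v hv
      rcases hAA with ⟨rfl, rfl⟩ | ⟨rfl, rfl⟩
      · exact stageC hf hp hH hu hu0 huT hv
      · exact stageC hf hp.symm hH' hu hu0 huT hv
    have hAT : ∀ v ∈ A, v ∈ TS hf M := by
      intro v hv
      have hsinv : ∀ x, s ⋆ ((s⁻¹) ⋆ x) = x := fun x => mulVec_inv_GL s x
      rcases hAA with ⟨rfl, rfl⟩ | ⟨rfl, rfl⟩
      · -- v ∈ D: it is the image of an element of D' under s
        have hle : A'.map (linOf s).toLinearMap ≤ A := by
          rintro _ ⟨w, hw, rfl⟩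
          exact hs2 w hw
        have heq : A'.map (linOf s).toLinearMap = A := by
          refine Submodule.eq_of_le_of_finrank_eq hle ?_
          rw [LinearEquiv.finrank_map_eq, hdim]
        rw [← heq] at hv
        obtain ⟨w, hw, rfl⟩ := hv
        exact TS_conj hf hsM (hMp hsM) (hA'T w hw)
      · have hle : A'.map (linOf s).toLinearMap ≤ A := by
          rintro _ ⟨w, hw, rfl⟩
          exact hs1 w hw
        have heq : A'.map (linOf s).toLinearMap = A := by
          refine Submodule.eq_of_le_of_finrank_eq hle ?_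
          rw [LinearEquiv.finrank_map_eq, hdim]
        rw [← heq] at hv
        obtain ⟨w, hw, rfl⟩ := hv
        exact TS_conj hf hsM (hMp hsM) (hA'T w hw)
    intro v c
    exact all_TS hf hpA hAT hA'T v c
  -- the alternative
  by_cases hmix : ∃ a ∈ D, ∃ b ∈ D', f a b = 0 ∧
      ((∀ α β : F, α • (g ⋆ a) + β • (g ⋆ b) ∈ D → α = 0 ∧ β = 0) ∨
        (∀ α β : F, α • (g ⋆ a) + β • (g ⋆ b) ∈ D' → α = 0 ∧ β = 0))
  · obtain ⟨a, ha, b, hb, hab, hmix⟩ := hmix
    have hxy : PP hf M (g ⋆ a) (g ⋆ b) := PP_conj hf hgp hgM (hH a ha b hb hab)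
    rcases hmix with h1 | h1
    · exact hfin D D' hp (Or.inl ⟨rfl, rfl⟩) (stageA hf hp hm h2 hH hxy h1)
    · exact hfin D' D hp.symm (Or.inr ⟨rfl, rfl⟩) (stageA hf hp.symm (by omega) h2 hH' hxy h1)
  · exfalso
    push Not at hmix
    apply hg
    have hk : ∀ a ∈ D, ∀ b ∈ D', f a b = 0 →
        (∃ α β : F, (α ≠ 0 ∨ β ≠ 0) ∧ α • (g ⋆ a) + β • (g ⋆ b) ∈ D) ∧
        (∃ α β : F, (α ≠ 0 ∨ β ≠ 0) ∧ α • (g ⋆ a) + β • (g ⋆ b) ∈ D') := by
      intro a ha b hb hab
      obtain ⟨⟨α, β, h1, h3⟩, ⟨α', β', h1', h3'⟩⟩ := hmix a ha b hb hab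
      refine ⟨⟨α, β, ?_, h1⟩, ⟨α', β', ?_, h1'⟩⟩
      · by_contra h0
        push Not at h0
        exact h3 h0.1 h0.2
      · by_contra h0
        push Not at h0
        exact h3' h0.1 h0.2
    have hk' : ∀ a ∈ D', ∀ b ∈ D, f a b = 0 →
        (∃ α β : F, (α ≠ 0 ∨ β ≠ 0) ∧ α • (g ⋆ a) + β • (g ⋆ b) ∈ D) ∧
        (∃ α β : F, (α ≠ 0 ∨ β ≠ 0) ∧ α • (g ⋆ a) + β • (g ⋆ b) ∈ D') := by
      intro a ha b hb hab
      obtain ⟨⟨α, β, h1, h3⟩, ⟨α', β', h1', h3'⟩⟩ := hk b hb a ha (fswap hf hab)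
      refine ⟨⟨β, α, h1.symm, ?_⟩, ⟨β', α', h1'.symm, ?_⟩⟩
      · rwa [add_comm]
      · rwa [add_comm]
    have hU0 : ∀ x ∈ D.map (linOf g).toLinearMap, x ∈ D ∨ x ∈ D' := by
      rintro _ ⟨w, hw, rfl⟩
      exact mem_union_of_mixed hf hp (by omega) hp.compl g hk hw
    have hU1 : ∀ x ∈ D'.map (linOf g).toLinearMap, x ∈ D ∨ x ∈ D' := by
      rintro _ ⟨w, hw, rfl⟩
      exact mem_union_of_mixed hf hp.symm (by omega) hp.compl g hk' hw
    have hnone : ∀ C : Submodule F (ι → F), D.map (linOf g).toLinearMap ≤ C →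
        D'.map (linOf g).toLinearMap ≤ C → C = ⊤ := by
      intro C h0 h1
      rw [eq_top_iff]
      intro x _
      obtain ⟨x₀, hx₀, x₁, hx₁, hx⟩ := hp.decomp (g⁻¹ ⋆ x)
      have hx' : x = g ⋆ x₀ + g ⋆ x₁ := by
        rw [← Matrix.mulVec_add, ← hx, mulVec_inv_GL]
      rw [hx']
      exact C.add_mem (h0 ⟨x₀, hx₀, rfl⟩) (h1 ⟨x₁, hx₁, rfl⟩)
    have hDne : D ≠ ⊤ := by
      intro h0
      have h1 := hp.compl.disjoint
      rw [h0, top_disjoint] at h1
      rw [h1, finrank_bot] at hm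
      omega
    have hD'ne : D' ≠ ⊤ := by
      intro h0
      have h1 := hp.compl.disjoint
      rw [h0, disjoint_top] at h1
      rw [h1, finrank_bot] at hdim
      omega
    rcases le_or_le_of_union _ _ _ hU0 with h0 | h0 <;> rcases le_or_le_of_union _ _ _ hU1 with h1 | h1
    · exact absurd (hnone D h0 h1) hDne
    · exact Or.inl ⟨fun x hx => h0 ⟨x, hx, rfl⟩, fun x hx => h1 ⟨x, hx, rfl⟩⟩
    · exact Or.inr ⟨fun x hx => h0 ⟨x, hx, rfl⟩, fun x hx => h1 ⟨x, hx, rfl⟩⟩
    · exact absurd (hnone D' h0 h1) hD'ne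

end Cfsg.Agent.Lib.SympTIPair
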