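import Mathlib
import Cfsg.Agent.Lib.OmCalc
import Cfsg.Agent.Lib.TvGL
import Cfsg.Agent.Lib.SympTIPair

/-!
# Orthogonal complements for the polar form, and stabilisers of lines in `Ω`
-/

set_option autoImplicit false
set_option linter.unusedSectionVars false
set_option linter.unusedVariables false

namespace Cfsg.Agent.Lib.OmPerp

open Matrix QuadraticMap Cfsg Cfsg.Geo Module
open Cfsg.Agent.Lib.OrthoBasic Cfsg.Agent.Lib.OrthoSiegel Cfsg.Agent.Lib.OmCalc Cfsg.Agent.Lib.TvGL
open Cfsg.Agent.Lib.SympT (GL_ext mulVec_mul_GL mulVec_inv_GL inv_mulVec_GL)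
open Cfsg.Agent.Lib.QuadFF (nondegenerate_of_ND polar_sm_r polar_sm_l Q_ad Q_sm IsHyp)
open Cfsg.Agent.Lib.OmGeo (exists_hyp_perp prescribed exists_sing_opp)

local notation:70 g:71 " ⋆ " x:70 => Matrix.mulVec (Units.val g) x

variable {ι : Type} [Fintype ι] [DecidableEq ι] {F : Type*} [Field F] [Fintype F]
  {Q : QuadraticForm F (ι → F)}

/-- The orthogonal complement for the polar form. -/
def perpQ (Q : QuadraticForm F (ι → F)) (S : Submodule F (ι → F)) : Submodule F (ι → F) :=
  LinearMap.BilinForm.orthogonal (polarBilin Q : LinearMap.BilinForm F (ι → F)) S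

theorem mem_perpQ {S : Submodule F (ι → F)} {z : ι → F} : z ∈ perpQ Q S ↔ ∀ s ∈ S, polar Q s z = 0 :=
  LinearMap.BilinForm.mem_orthogonal_iff

theorem finrank_perpQ (hQ : Nondeg Q) (S : Submodule F (ι → F)) :
    finrank F (perpQ Q S) = Fintype.card ι - finrank F S := by
  have h := LinearMap.BilinForm.finrank_orthogonal (nondegenerate_of_ND (nd_of hQ)) S
  rw [Module.finrank_fintype_fun_eq_card] at h
  exact h

theorem perpQ_perpQ (hQ : Nondeg Q) (S : Submodule F (ι → F)) : perpQ Q (perpQ Q S) = S := by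
  refine LinearMap.BilinForm.orthogonal_orthogonal (nondegenerate_of_ND (nd_of hQ)) ?_ S
  intro x y hxy
  have : polar Q x y = 0 := hxy
  show polar Q y x = 0
  rwa [polar_comm]

theorem exists_sep (hQ : Nondeg Q) {W : Submodule F (ι → F)} {u : ι → F} (hu : u ∉ W) :
    ∃ a, (∀ z ∈ W, polar Q z a = 0) ∧ polar Q u a ≠ 0 := by
  by_contra hcon
  push Not at hcon
  apply hu
  rw [← perpQ_perpQ hQ W, mem_perpQ]
  intro a ha
  rw [polar_comm]
  exact hcon a (fun z hz => mem_perpQ.1 ha z hz)

theorem finrank_inf_perp (hQ : Nondeg Q) (U S : Submodule F (ι → F)) :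
    finrank F U ≤ finrank F (U ⊓ perpQ Q S : Submodule F (ι → F)) + finrank F S := by
  have h1 := Submodule.finrank_sup_add_finrank_inf_eq U (perpQ Q S)
  have h2 := finrank_perpQ hQ S
  have h4 : finrank F (U ⊔ perpQ Q S : Submodule F (ι → F)) ≤ Fintype.card ι := by
    have := Submodule.finrank_le (U ⊔ perpQ Q S : Submodule F (ι → F))
    simpa using this
  have h5 : finrank F S ≤ Fintype.card ι := by
    have := Submodule.finrank_le S
    simpa using this
  omega

/-- The stabiliser in `Ω` of a non-singular line is maximal. -/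
theorem line_maximal (hQ : Nondeg Q) (h11 : 11 ≤ Fintype.card ι) {v : ι → F} (hv : Q v ≠ 0) :
    IsMaximalIn (omegaGL ⇑Q) (subspaceStabilizer (Submodule.span F {v}) ⊓ omegaGL ⇑Q) := by
  classical
  have hND := nd_of hQ
  have hd : finrank F (ι → F) = Fintype.card ι := by simp
  have hv0 : v ≠ 0 := by
    rintro rfl
    exact hv (map_zero _)
  refine ⟨lt_of_le_of_ne inf_le_right ?_, ?_⟩
  · intro he
    obtain ⟨e, he0, hwe⟩ := exists_sing_opp hND (by omega) hv0
    obtain ⟨a, b, hab, h1⟩ := exists_hyp_perp hND {v, e} (by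
      have : ({v, e} : Finset (ι → F)).card ≤ 2 := Finset.card_le_two
      omega)
    obtain ⟨hva, hvb⟩ := h1 v (by simp)
    obtain ⟨hea, heb⟩ := h1 e (by simp)
    have ht : sE hQ he0 hea ∈ subspaceStabilizer (Submodule.span F {v}) ⊓ omegaGL ⇑Q := by
      rw [he]
      exact sE_mem_omegaGL hQ h11 he0 hea
    have h2 := ((mem_stab_iff _ _).1 ht.1 v).1 (Submodule.mem_span_singleton_self v)
    obtain ⟨r, hr⟩ := Submodule.mem_span_singleton.1 h2
    rw [sE_apply', hva, hab.Qv] at hr
    have h3 := congrArg (fun z => polar Q z b) hr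
    simp only [polar_sm_l, polar_add_left, polar_sub_left, hab.vw, hvb, heb] at h3
    apply hwe
    simpa using h3.symm
  · intro M hHM hMK
    by_cases hne : M = subspaceStabilizer (Submodule.span F {v}) ⊓ omegaGL ⇑Q
    · exact Or.inl hne
    right
    obtain ⟨g, hgM, hgH⟩ : ∃ g ∈ M, g ∉ subspaceStabilizer (Submodule.span F {v}) ⊓ omegaGL ⇑Q := by
      by_contra hcon
      push Not at hcon
      exact hne (le_antisymm hcon hHM)
    have hgS : g ∉ subspaceStabilizer (Submodule.span F {v}) := fun h => hgH ⟨h, hMK hgM⟩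
    have hMi : ∀ t ∈ M, ∀ x, Q (t ⋆ x) = Q x := fun t ht => iso_omega (hMK ht)
    have hgi := hMi g hgM
    have hHv : ∀ a y, Q a = 0 → polar Q a y = 0 → polar Q v a = 0 → polar Q v y = 0 → R hQ M a y := by
      intro a y ha hay hva hvy
      refine ⟨ha, hay, hHM ⟨mem_stab_of_map_le _ _ ?_, sE_mem_omegaGL hQ h11 _ _⟩⟩
      intro w hw
      obtain ⟨r, rfl⟩ := Submodule.mem_span_singleton.1 hw
      rw [Matrix.mulVec_smul, sE_apply', hva, hvy]
      simp only [zero_smul, add_zero, mul_zero, sub_zero]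
      exact Submodule.smul_mem _ _ (Submodule.mem_span_singleton_self v)
    set v' : ι → F := g⁻¹ ⋆ v with hv'
    have hgv' : g ⋆ v' = v := mulVec_inv_GL g v
    have hv'span : v' ∉ Submodule.span F {v} := by
      intro hmem
      obtain ⟨r, hr⟩ := Submodule.mem_span_singleton.1 hmem
      have hr0 : r ≠ 0 := by
        rintro rfl
        rw [zero_smul] at hr
        rw [← hr, Matrix.mulVec_zero] at hgv'
        exact hv0 hgv'.symm
      apply hgS
      have hgv : g ⋆ v = r⁻¹ • v := by
        rw [← hr, Matrix.mulVec_smul] at hgv'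
        calc g ⋆ v = r⁻¹ • (r • (g ⋆ v)) := by rw [smul_smul, inv_mul_cancel₀ hr0, one_smul]
          _ = r⁻¹ • v := by rw [hgv']
      refine mem_stab_of_map_le _ _ ?_
      intro w hw
      obtain ⟨c, rfl⟩ := Submodule.mem_span_singleton.1 hw
      rw [Matrix.mulVec_smul, hgv]
      exact Submodule.smul_mem _ _ (Submodule.smul_mem _ _ (Submodule.mem_span_singleton_self v))
    obtain ⟨z₀, hz₀, hz₀'⟩ := exists_sep hQ hv'span
    obtain ⟨b₀, hb₀, hQb₀⟩ := prescribed hND {v, v'} z₀ 0 (by
      have : ({v, v'} : Finset (ι → F)).card ≤ 2 := Finset.card_le_two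
      omega)
    have hvb₀ : polar Q v b₀ = 0 := by
      rw [hb₀ v (by simp)]
      exact hz₀ v (Submodule.mem_span_singleton_self v)
    have hv'b₀ : polar Q v' b₀ ≠ 0 := by
      rw [hb₀ v' (by simp)]
      exact hz₀'
    obtain ⟨p, q, hpq, h1⟩ := exists_hyp_perp hND {v, v', b₀} (by
      have : ({v, v', b₀} : Finset (ι → F)).card ≤ 3 := Finset.card_le_three
      omega)
    obtain ⟨hvp, hvq⟩ := h1 v (by simp)
    obtain ⟨hv'p, hv'q⟩ := h1 v' (by simp)
    obtain ⟨hbp, hbq⟩ := h1 b₀ (by simp)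
    have hpg : ∀ y, polar Q v (g ⋆ y) = polar Q v' y := by
      intro y
      rw [← polar_iso hgi v' y, hgv']
    set X := g ⋆ b₀ with hX
    set Y := g ⋆ p with hY
    set a := g ⋆ q with ha
    have hRXY : R hQ M X Y := R_conj hgi hgM (hHv b₀ p hQb₀ hbp hvb₀ hvp)
    have hQa : Q a = 0 := by rw [ha, hgi, hpq.Qw]
    have hva : polar Q v a = 0 := by rw [ha, hpg, hv'q]
    have haX : polar Q a X = 0 := by
      rw [ha, hX, polar_iso hgi, polar_comm]
      exact hbq
    have haY : polar Q a Y = 1 := by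
      rw [ha, hY, polar_iso hgi, polar_comm]
      exact hpq.vw
    have hXv : polar Q v X ≠ 0 := by
      rw [hX, hpg]
      exact hv'b₀
    obtain ⟨b, b', hbb', h2⟩ := exists_hyp_perp hND {v, X, Y, a} (by
      have : ({v, X, Y, a} : Finset (ι → F)).card ≤ 4 := Finset.card_le_four
      omega)
    have hvb : polar Q v b = 0 := (h2 v (by simp)).1
    have hXb : polar Q X b = 0 := (h2 X (by simp)).1
    have hYb : polar Q Y b = 0 := (h2 Y (by simp)).1
    have hab : polar Q a b = 0 := (h2 a (by simp)).1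
    have hQb : Q b = 0 := hbb'.Qv
    have hb0 : b ≠ 0 := by
      rintro rfl
      have := hbb'.vw
      rw [polar_zero_left] at this
      exact zero_ne_one this
    have hscale : ∀ r : F, R hQ M b (r • X) := by
      intro r
      have h3 : R hQ M (r • a) b := hHv _ _ (by rw [Q_sm, hQa, mul_zero])
        (by rw [polar_sm_l, hab, mul_zero]) (by rw [polar_sm_r, hva, mul_zero]) hvb
      have h4 := R_comm hRXY h3 hQb (by rw [polar_sm_l, haX, mul_zero])
        (by rw [polar_comm]; exact hXb) (by rw [polar_comm]; exact hYb)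
      rwa [polar_sm_l, haY, mul_one] at h4
    have hTb : T hQ M b := by
      refine ⟨hQb, fun y hy => ?_⟩
      set μ : F := polar Q v y / polar Q v X with hμ
      have h3 : R hQ M b (y - μ • X) := by
        refine hHv _ _ hQb ?_ hvb ?_
        · rw [polar_sub_right, polar_sm_r, hy, polar_comm Q b X, hXb]
          ring
        · rw [polar_sub_right, polar_sm_r, hμ]
          field_simp
          ring
      have h4 := R_add h3 (hscale μ)
      rwa [sub_add_cancel] at h4
    -- an opposite good centre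
    have hbspan : b ∉ Submodule.span F {v} := by
      intro hmem
      obtain ⟨r, hr⟩ := Submodule.mem_span_singleton.1 hmem
      have h3 : Q b = r ^ 2 * Q v := by rw [← hr, Q_sm]
      rw [hQb] at h3
      have hr0 : r = 0 := by
        have := (mul_eq_zero.1 h3.symm).resolve_right hv
        exact pow_eq_zero_iff (two_ne_zero) |>.1 this
      rw [hr0, zero_smul] at hr
      exact hb0 hr.symm
    obtain ⟨z₁, hz₁, hz₁'⟩ := exists_sep hQ hbspan
    obtain ⟨c, hc, hQc⟩ := prescribed hND {v, b} z₁ 0 (by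
      have : ({v, b} : Finset (ι → F)).card ≤ 2 := Finset.card_le_two
      omega)
    have hvc : polar Q v c = 0 := by
      rw [hc v (by simp)]
      exact hz₁ v (Submodule.mem_span_singleton_self v)
    have hbc : polar Q b c ≠ 0 := by
      rw [hc b (by simp)]
      exact hz₁'
    obtain ⟨p₁, q₁, hpq₁, h3⟩ := exists_hyp_perp hND {v, b, c} (by
      have : ({v, b, c} : Finset (ι → F)).card ≤ 3 := Finset.card_le_three
      omega)
    set y₁ := p₁ + q₁ with hy₁
    have hQy₁ : Q y₁ = 1 := by
      rw [hy₁, Q_ad, hpq₁.Qv, hpq₁.Qw, hpq₁.vw]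
      ring
    have hvy₁ : polar Q v y₁ = 0 := by
      rw [hy₁, polar_add_right, (h3 v (by simp)).1, (h3 v (by simp)).2, add_zero]
    have hby₁ : polar Q b y₁ = 0 := by
      rw [hy₁, polar_add_right, (h3 b (by simp)).1, (h3 b (by simp)).2, add_zero]
    have hcy₁ : polar Q c y₁ = 0 := by
      rw [hy₁, polar_add_right, (h3 c (by simp)).1, (h3 c (by simp)).2, add_zero]
    obtain ⟨h4, h5, h6⟩ := hHv c y₁ hQc hcy₁ hvc hvy₁
    have h7 := T_conj (sE_iso hQ h4 h5) h6 hTb
    refine le_antisymm hMK (omega_le_of_opp h11 hTb h7 ?_)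
    rw [sE_apply', hby₁, hQy₁, polar_sub_left, polar_add_left, polar_sm_l, polar_sm_l,
      polar_self_zero hQb, polar_comm Q y₁ b, hby₁, polar_comm Q c b]
    simp only [mul_zero, add_zero, zero_add, one_mul, zero_sub]
    exact neg_ne_zero.2 (mul_ne_zero hbc hbc)

end Cfsg.Agent.Lib.OmPerp
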