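import Mathlib
import Cfsg.Agent.Lib.OmPerp
import Cfsg.Agent.Lib.SpinorCrit

/-!
# Pairs of complementary totally singular subspaces of a quadratic space
-/

set_option autoImplicit false
set_option linter.unusedSectionVars false
set_option linter.unusedVariables false

namespace Cfsg.Agent.Lib.OmPair

open Matrix QuadraticMap Cfsg Cfsg.Geo Module
open Cfsg.Agent.Lib.OrthoBasic Cfsg.Agent.Lib.OrthoSiegel Cfsg.Agent.Lib.OmCalc Cfsg.Agent.Lib.TvGL
  Cfsg.Agent.Lib.OmPerp
open Cfsg.Agent.Lib.SympT (GL_ext mulVec_mul_GL mulVec_inv_GL inv_mulVec_GL linOf linOf_apply finrank_le_of_maps)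
open Cfsg.Agent.Lib.QuadFF (nondegenerate_of_ND polar_sm_r polar_sm_l Q_ad Q_sm IsHyp)
open Cfsg.Agent.Lib.OmGeo (exists_hyp_perp prescribed exists_sing_opp)
open Cfsg.Agent.Lib.SympTIPair (finrank_span_three finrank_span_two finrank_span_one le_or_le_of_union)

local notation:70 g:71 " ⋆ " x:70 => Matrix.mulVec (Units.val g) x

variable {ι : Type} [Fintype ι] [DecidableEq ι] {F : Type*} [Field F] [Fintype F]
  {Q : QuadraticForm F (ι → F)} {D D' : Submodule F (ι → F)}

/-- Complementary totally singular subspaces. -/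
structure TSP (Q : QuadraticForm F (ι → F)) (D D' : Submodule F (ι → F)) : Prop where
  ts : ∀ u ∈ D, Q u = 0
  ts' : ∀ u ∈ D', Q u = 0
  compl : IsCompl D D'

theorem polar_of_ts {W : Submodule F (ι → F)} (hW : ∀ w ∈ W, Q w = 0) {u v : ι → F} (hu : u ∈ W) (hv : v ∈ W) :
    polar Q u v = 0 := by
  rw [polar, hW _ (W.add_mem hu hv), hW _ hu, hW _ hv]
  ring

theorem TSP.symm (h : TSP Q D D') : TSP Q D' D := ⟨h.ts', h.ts, h.compl.symm⟩

theorem TSP.decomp (h : TSP Q D D') (x : ι → F) : ∃ x₀ ∈ D, ∃ x₁ ∈ D', x = x₀ + x₁ := by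
  have hx : x ∈ D ⊔ D' := by
    rw [h.compl.sup_eq_top]
    trivial
  obtain ⟨y, hy, z, hz, rfl⟩ := Submodule.mem_sup.1 hx
  exact ⟨y, hy, z, hz, rfl⟩

theorem TSP.ti (h : TSP Q D D') {u v : ι → F} (hu : u ∈ D) (hv : v ∈ D) : polar Q u v = 0 :=
  polar_of_ts h.ts hu hv

theorem TSP.ti' (h : TSP Q D D') {u v : ι → F} (hu : u ∈ D') (hv : v ∈ D') : polar Q u v = 0 :=
  polar_of_ts h.ts' hu hv

/-- A vector orthogonal to `D` is in `D`. -/
theorem TSP.perp_sub (hQ : Nondeg Q) (hp : TSP Q D D') {a : ι → F} (ha : ∀ w ∈ D, polar Q w a = 0) : a ∈ D := by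
  obtain ⟨a₀, ha₀, a₁, ha₁, rfl⟩ := hp.decomp a
  have h1 : a₁ = 0 := by
    by_contra h0
    obtain ⟨z, hz⟩ := hQ a₁ h0
    obtain ⟨z₀, hz₀, z₁, hz₁, rfl⟩ := hp.decomp z
    apply hz
    have h3 := ha z₀ hz₀
    rw [polar_add_right, hp.ti hz₀ ha₀, zero_add] at h3
    rw [polar_add_right, polar_comm, h3, hp.ti' ha₁ hz₁, add_zero]
  rw [h1, add_zero]
  exact ha₀

/-- Separation: a vector of `D'` outside a subspace is detected by a vector of `D`. -/
theorem TSP.sep (hQ : Nondeg Q) (hp : TSP Q D D') {W : Submodule F (ι → F)} {u : ι → F} (hW : W ≤ D') (hu : u ∈ D')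
    (huW : u ∉ W) : ∃ a ∈ D, (∀ w ∈ W, polar Q a w = 0) ∧ polar Q a u ≠ 0 := by
  have h1 : u ∉ W ⊔ D := by
    intro hmem
    obtain ⟨w, hw, d, hd, hwd⟩ := Submodule.mem_sup.1 hmem
    have h3 : d ∈ D' := by
      have : d = u - w := by rw [← hwd]; abel
      rw [this]
      exact D'.sub_mem hu (hW hw)
    have h4 : d = 0 := Submodule.disjoint_def.1 hp.compl.disjoint d hd h3
    rw [h4, add_zero] at hwd
    exact huW (hwd ▸ hw)
  obtain ⟨a, ha, hua⟩ := exists_sep hQ h1
  refine ⟨a, hp.perp_sub hQ (fun w hw => ha w (Submodule.mem_sup_right hw)), fun w hw => ?_, ?_⟩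
  · rw [polar_comm]
    exact ha w (Submodule.mem_sup_left hw)
  · rwa [polar_comm]

/-- Separation with a prescribed value. -/
theorem TSP.sep_val (hQ : Nondeg Q) (hp : TSP Q D D') {W : Submodule F (ι → F)} {u : ι → F} (hW : W ≤ D')
    (hu : u ∈ D') (huW : u ∉ W) (c : F) : ∃ a ∈ D, (∀ w ∈ W, polar Q a w = 0) ∧ polar Q a u = c := by
  obtain ⟨a, ha, h1, h3⟩ := hp.sep hQ hW hu huW
  refine ⟨(c / polar Q a u) • a, D.smul_mem _ ha, fun w hw => ?_, ?_⟩
  · rw [polar_sm_l, h1 w hw, mul_zero]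
  · rw [polar_sm_l]
    field_simp

variable {hQ : Nondeg Q} {M : Subgroup (GL ι F)}

theorem TSP.swapH (hp : TSP Q D D') (hH : ∀ a ∈ D, ∀ b ∈ D', polar Q a b = 0 → R hQ M a b) :
    ∀ a ∈ D', ∀ b ∈ D, polar Q a b = 0 → R hQ M a b := fun a ha b hb hab =>
  R_swap' (hH b hb a ha (by rwa [polar_comm])) (hp.ts' a ha)

/-- Stage A: an element whose span avoids `D` gives a pair in `D'`. -/
theorem stageA (hp : TSP Q D D') (hm : 6 ≤ finrank F D')
    (hH : ∀ a ∈ D, ∀ b ∈ D', polar Q a b = 0 → R hQ M a b) {x y : ι → F} (hxy : R hQ M x y)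
    (hind : ∀ α β : F, α • x + β • y ∈ D → α = 0 ∧ β = 0) :
    ∃ u ∈ D', ∃ v ∈ D', v ≠ 0 ∧ u ∉ Submodule.span F {v} ∧ R hQ M u v := by
  classical
  obtain ⟨x₀, hx₀, x₁, hx₁, hx⟩ := hp.decomp x
  obtain ⟨y₀, hy₀, y₁, hy₁, hy⟩ := hp.decomp y
  have hx₁0 : x₁ ≠ 0 := by
    rintro rfl
    have h1 := hind 1 0 (by
      rw [hx]
      simpa using hx₀)
    exact one_ne_zero h1.1
  have hy₁x₁ : y₁ ∉ Submodule.span F {x₁} := by
    intro hmem
    obtain ⟨γ, hγ⟩ := Submodule.mem_span_singleton.1 hmem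
    have h1 := hind (-γ) 1 (by
      have : -γ • x + (1 : F) • y = y₀ + (-γ) • x₀ := by
        rw [hx, hy, ← hγ, smul_add, one_smul, neg_smul, neg_smul]
        abel
      rw [this]
      exact D.add_mem hy₀ (D.smul_mem _ hx₀))
    exact one_ne_zero h1.2
  have hspan : Submodule.span F {x₁} ≤ D' := by
    rw [Submodule.span_singleton_le_iff_mem]
    exact hx₁
  obtain ⟨a, haD, ha1, hay⟩ := hp.sep hQ hspan hy₁ hy₁x₁
  have hax₁ : polar Q a x₁ = 0 := ha1 x₁ (Submodule.mem_span_singleton_self x₁)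
  have hax₀ : polar Q a x₀ = 0 := hp.ti haD hx₀
  have hay₀ : polar Q a y₀ = 0 := hp.ti haD hy₀
  -- the vector b
  set S : Submodule F (ι → F) := Submodule.span F ({a, x₀, y₀} : Set (ι → F)) with hS
  have hK := finrank_inf_perp hQ D' S
  have hS3 : finrank F S ≤ 3 := finrank_span_three _ _ _
  obtain ⟨b, hbK, hbx₁⟩ : ∃ b ∈ (D' ⊓ perpQ Q S : Submodule F (ι → F)), b ∉ Submodule.span F {x₁} := by
    by_contra hcon
    push Not at hcon
    have h1 := Submodule.finrank_mono (show (D' ⊓ perpQ Q S : Submodule F (ι → F)) ≤ Submodule.span F {x₁} from hcon)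
    have h3 := finrank_span_one (F := F) x₁
    omega
  have hbD' : b ∈ D' := hbK.1
  have hb' : ∀ w ∈ S, polar Q w b = 0 := mem_perpQ.1 hbK.2
  have hab : polar Q a b = 0 := hb' a (Submodule.subset_span (by simp))
  have hx₀b : polar Q x₀ b = 0 := hb' x₀ (Submodule.subset_span (by simp))
  have hy₀b : polar Q y₀ b = 0 := hb' y₀ (Submodule.subset_span (by simp))
  have hx₁b : polar Q x₁ b = 0 := hp.ti' hx₁ hbD'
  have hy₁b : polar Q y₁ b = 0 := hp.ti' hy₁ hbD'
  have hay' : polar Q a y ≠ 0 := by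
    rw [hy, polar_add_right, hay₀, zero_add]
    exact hay
  have hax : polar Q a x = 0 := by rw [hx, polar_add_right, hax₀, hax₁, add_zero]
  have hbx : polar Q b x = 0 := by
    rw [polar_comm, hx, polar_add_left, hx₀b, hx₁b, add_zero]
  have hby : polar Q b y = 0 := by
    rw [polar_comm, hy, polar_add_left, hy₀b, hy₁b, add_zero]
  have hQb : Q b = 0 := hp.ts' b hbD'
  have h1 := R_comm hxy (hH a haD b hbD' hab) hQb hax hbx hby
  set lam : F := polar Q a y with hlam
  have h1' : R hQ M b (lam • x₀) := hp.swapH hH b hbD' _ (D.smul_mem _ hx₀)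
    (by rw [polar_sm_r, polar_comm, hx₀b, mul_zero])
  have h3 := R_sub h1 h1'
  have hdiff : lam • x - lam • x₀ = lam • x₁ := by
    rw [hx, smul_add]
    abel
  rw [hdiff] at h3
  refine ⟨b, hbD', lam • x₁, D'.smul_mem _ hx₁, smul_ne_zero hay' hx₁0, ?_, h3⟩
  intro hmem
  obtain ⟨δ, hδ⟩ := Submodule.mem_span_singleton.1 hmem
  apply hbx₁
  rw [Submodule.mem_span_singleton]
  exact ⟨δ * lam, by rw [mul_smul, hδ]⟩

/-- Moving the second vector. -/
theorem pair_step (hQ' : Nondeg Q) (hp : TSP Q D D') (hH : ∀ a ∈ D, ∀ b ∈ D', polar Q a b = 0 → R hQ M a b)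
    {x y b : ι → F} (hx : x ∈ D') (hy : y ∈ D') (hb : b ∈ D') (hxy : R hQ M x y)
    (hyW : y ∉ Submodule.span F ({x, b} : Set (ι → F))) : R hQ M x b := by
  have hW : Submodule.span F ({x, b} : Set (ι → F)) ≤ D' := by
    rw [Submodule.span_le]
    rintro z (rfl | rfl)
    · exact hx
    · exact hb
  obtain ⟨a, ha, h1, h2⟩ := hp.sep_val hQ' hW hy hyW 1
  have hax : polar Q a x = 0 := h1 x (Submodule.subset_span (by simp))
  have hab : polar Q a b = 0 := h1 b (Submodule.subset_span (by simp))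
  have h3 := R_comm hxy (hH a ha b hb hab) (hp.ts' b hb) hax (hp.ti' hb hx) (hp.ti' hb hy)
  rw [h2, one_smul] at h3
  exact R_swap' h3 (hp.ts' x hx)

theorem pair_all_right (hQ' : Nondeg Q) (hp : TSP Q D D') (hm : 3 ≤ finrank F D')
    (hH : ∀ a ∈ D, ∀ b ∈ D', polar Q a b = 0 → R hQ M a b)
    {x y : ι → F} (hx : x ∈ D') (hy : y ∈ D') (hxy : R hQ M x y) (hyx : y ∉ Submodule.span F {x})
    {b : ι → F} (hb : b ∈ D') : R hQ M x b := by
  classical
  obtain ⟨y', hy', h1, h2⟩ : ∃ y' ∈ D', y' ∉ Submodule.span F ({x, y} : Set (ι → F)) ∧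
      y' ∉ Submodule.span F ({x, b} : Set (ι → F)) := by
    by_contra hcon
    push Not at hcon
    have h3 : ∀ z ∈ D', z ∈ Submodule.span F ({x, y} : Set (ι → F)) ∨ z ∈ Submodule.span F ({x, b} : Set (ι → F)) := by
      intro z hz
      by_cases h4 : z ∈ Submodule.span F ({x, y} : Set (ι → F))
      · exact Or.inl h4
      · exact Or.inr (hcon z hz h4)
    rcases le_or_le_of_union _ _ _ h3 with h4 | h4
    · have := Submodule.finrank_mono h4
      have := finrank_span_two (F := F) x y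
      omega
    · have := Submodule.finrank_mono h4
      have := finrank_span_two (F := F) x b
      omega
  have h3 : y ∉ Submodule.span F ({x, y'} : Set (ι → F)) := by
    intro hmem
    obtain ⟨α, β, hαβ⟩ := Submodule.mem_span_pair.1 hmem
    by_cases hβ : β = 0
    · apply hyx
      rw [Submodule.mem_span_singleton]
      refine ⟨α, ?_⟩
      rw [← hαβ, hβ]
      simp
    · apply h1
      rw [Submodule.mem_span_pair]
      refine ⟨-(β⁻¹ * α), β⁻¹, ?_⟩
      rw [← hαβ, smul_add, smul_smul, smul_smul, inv_mul_cancel₀ hβ, one_smul, neg_smul]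
      abel
  exact pair_step hQ' hp hH hx hy' hb (pair_step hQ' hp hH hx hy hy' hxy h3) h2

theorem pair_all (hQ' : Nondeg Q) (hp : TSP Q D D') (hm : 3 ≤ finrank F D')
    (hH : ∀ a ∈ D, ∀ b ∈ D', polar Q a b = 0 → R hQ M a b)
    {x y : ι → F} (hx : x ∈ D') (hy : y ∈ D') (hx0 : x ≠ 0) (hxy : R hQ M x y) (hyx : y ∉ Submodule.span F {x})
    {u v : ι → F} (hu : u ∈ D') (hv : v ∈ D') : R hQ M u v := by
  by_cases h1 : u ∈ Submodule.span F {x}
  · obtain ⟨c, rfl⟩ := Submodule.mem_span_singleton.1 h1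
    exact R_smul_left c (pair_all_right hQ' hp hm hH hx hy hxy hyx (D'.smul_mem _ hv))
  · have h2 := R_swap' (pair_all_right hQ' hp hm hH hx hy hxy hyx hu) (hp.ts' u hu)
    refine pair_all_right hQ' hp hm hH hu hx h2 ?_ hv
    intro hmem
    obtain ⟨c, hc⟩ := Submodule.mem_span_singleton.1 hmem
    have hc0 : c ≠ 0 := by
      rintro rfl
      rw [zero_smul] at hc
      exact hx0 hc.symm
    apply h1
    rw [Submodule.mem_span_singleton]
    exact ⟨c⁻¹, by rw [← hc, smul_smul, inv_mul_cancel₀ hc0, one_smul]⟩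

/-- From a pair in `D'` and an element moving `D'` into `D`, all of `Ω`. -/
theorem omega_of_pair (hQ' : Nondeg Q) (h11 : 11 ≤ Fintype.card ι) (hp : TSP Q D D') (hm : 3 ≤ finrank F D')
    (hMi : ∀ t ∈ M, ∀ v, Q (t ⋆ v) = Q v)
    (hH : ∀ a ∈ D, ∀ b ∈ D', polar Q a b = 0 → R hQ M a b)
    {s : GL ι F} (hs : s ∈ M) (hsD : ∀ x ∈ D', s ⋆ x ∈ D)
    {u v : ι → F} (hu : u ∈ D') (hv : v ∈ D') (hv0 : v ≠ 0) (huv : u ∉ Submodule.span F {v}) (hR : R hQ M u v) :
    omegaGL ⇑Q ≤ M := by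
  have hR' := R_swap' hR (hp.ts' v hv)
  have hall : ∀ c d, c ∈ D' → d ∈ D' → R hQ M c d := fun c d hc hd =>
    pair_all hQ' hp hm hH hv hu hv0 hR' huv hc hd
  have hT : ∀ c ∈ D', T hQ M c := by
    intro c hc
    refine ⟨hp.ts' c hc, fun y hy => ?_⟩
    obtain ⟨y₀, hy₀, y₁, hy₁, rfl⟩ := hp.decomp y
    have h1 : polar Q c y₀ = 0 := by
      rw [polar_add_right, hp.ti' hc hy₁, add_zero] at hy
      exact hy
    exact R_add (hp.swapH hH c hc y₀ hy₀ h1) (hall c y₁ hc hy₁)
  have hsv : s ⋆ v ≠ 0 := by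
    intro h0
    apply hv0
    have := inv_mulVec_GL s v
    rw [h0, Matrix.mulVec_zero] at this
    exact this.symm
  obtain ⟨c, hc, hcs⟩ : ∃ c ∈ D', polar Q c (s ⋆ v) ≠ 0 := by
    by_contra hcon
    push Not at hcon
    have h1 : s ⋆ v ∈ D' := hp.symm.perp_sub hQ' hcon
    exact hsv (Submodule.disjoint_def.1 hp.compl.disjoint _ (hsD v hv) h1)
  refine omega_le_of_opp h11 (e := s ⋆ v) (e' := c) (T_conj (hMi s hs) hs (hT v hv)) (hT c hc) hcs

/-- If every "mixed" 2-space has its image meeting both targets, vectors go to the union of the targets. -/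
theorem mem_union_of_mixed (hQ' : Nondeg Q) (hp : TSP Q D D') (hm : 4 ≤ finrank F D') {C C' : Submodule F (ι → F)}
    (hC : IsCompl C C') (g : GL ι F)
    (hg : ∀ a ∈ D, ∀ b ∈ D', polar Q a b = 0 →
      (∃ α β : F, (α ≠ 0 ∨ β ≠ 0) ∧ α • (g ⋆ a) + β • (g ⋆ b) ∈ C) ∧
      (∃ α β : F, (α ≠ 0 ∨ β ≠ 0) ∧ α • (g ⋆ a) + β • (g ⋆ b) ∈ C'))
    {a : ι → F} (ha : a ∈ D) : g ⋆ a ∈ C ∨ g ⋆ a ∈ C' := by
  classical
  by_contra hcon
  push Not at hcon
  obtain ⟨hC1, hC2⟩ := hcon
  have hdec : ∀ x : ι → F, ∃ x₀ ∈ C, ∃ x₁ ∈ C', x = x₀ + x₁ := by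
    intro x
    have hx : x ∈ C ⊔ C' := by
      rw [hC.sup_eq_top]
      trivial
    obtain ⟨y, hy, z, hz, rfl⟩ := Submodule.mem_sup.1 hx
    exact ⟨y, hy, z, hz, rfl⟩
  obtain ⟨s, hs, t, ht, hst⟩ := hdec (g ⋆ a)
  set B : Submodule F (ι → F) := D' ⊓ perpQ Q (Submodule.span F {a}) with hB
  have hmaps : ∀ b ∈ B, g ⋆ b ∈ Submodule.span F ({s, t} : Set (ι → F)) := by
    intro b hb
    have hab : polar Q a b = 0 := mem_perpQ.1 hb.2 a (Submodule.mem_span_singleton_self a)
    obtain ⟨⟨α, β, hαβ, h1⟩, ⟨α', β', hαβ', h2⟩⟩ := hg a ha b hb.1 hab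
    have hβ : β ≠ 0 := by
      rintro rfl
      have hα : α ≠ 0 := by simpa using hαβ
      apply hC1
      rw [zero_smul, add_zero] at h1
      have := C.smul_mem α⁻¹ h1
      rwa [smul_smul, inv_mul_cancel₀ hα, one_smul] at this
    have hβ' : β' ≠ 0 := by
      rintro rfl
      have hα : α' ≠ 0 := by simpa using hαβ'
      apply hC2
      rw [zero_smul, add_zero] at h2
      have := C'.smul_mem α'⁻¹ h2
      rwa [smul_smul, inv_mul_cancel₀ hα, one_smul] at this
    obtain ⟨p, hp', q, hq, hpq⟩ := hdec (g ⋆ b)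
    have hq0 : α • t + β • q = 0 := by
      have h3 : α • t + β • q = (α • (g ⋆ a) + β • (g ⋆ b)) - (α • s + β • p) := by
        rw [hst, hpq, smul_add, smul_add]
        abel
      have h4 : α • t + β • q ∈ C := by
        rw [h3]
        exact C.sub_mem h1 (C.add_mem (C.smul_mem _ hs) (C.smul_mem _ hp'))
      have h5 : α • t + β • q ∈ C' := C'.add_mem (C'.smul_mem _ ht) (C'.smul_mem _ hq)
      exact Submodule.disjoint_def.1 hC.disjoint _ h4 h5
    have hp0 : α' • s + β' • p = 0 := by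
      have h3 : α' • s + β' • p = (α' • (g ⋆ a) + β' • (g ⋆ b)) - (α' • t + β' • q) := by
        rw [hst, hpq, smul_add, smul_add]
        abel
      have h4 : α' • s + β' • p ∈ C' := by
        rw [h3]
        exact C'.sub_mem h2 (C'.add_mem (C'.smul_mem _ ht) (C'.smul_mem _ hq))
      have h5 : α' • s + β' • p ∈ C := C.add_mem (C.smul_mem _ hs) (C.smul_mem _ hp')
      exact Submodule.disjoint_def.1 hC.disjoint _ h5 h4
    have hq1 : q = (-(α / β)) • t := by
      have h3 : β • q = -(α • t) := eq_neg_of_add_eq_zero_right hq0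
      have h4 := congrArg (fun w => β⁻¹ • w) h3
      simp only [smul_smul, inv_mul_cancel₀ hβ, one_smul] at h4
      rw [h4, smul_neg, smul_smul, neg_smul, div_eq_inv_mul]
    have hp1 : p = (-(α' / β')) • s := by
      have h3 : β' • p = -(α' • s) := eq_neg_of_add_eq_zero_right hp0
      have h4 := congrArg (fun w => β'⁻¹ • w) h3
      simp only [smul_smul, inv_mul_cancel₀ hβ', one_smul] at h4
      rw [h4, smul_neg, smul_smul, neg_smul, div_eq_inv_mul]
    rw [hpq, hq1, hp1]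
    exact Submodule.add_mem _ (Submodule.smul_mem _ _ (Submodule.subset_span (by simp)))
      (Submodule.smul_mem _ _ (Submodule.subset_span (by simp)))
  have h1 := finrank_le_of_maps g hmaps
  have h2 := finrank_span_two (F := F) s t
  have h3 : finrank F D' ≤ finrank F B + finrank F (Submodule.span F {a}) :=
    finrank_inf_perp hQ' D' (Submodule.span F {a})
  have h4 := finrank_span_one (F := F) a
  omega

/-- The main theorem: a subgroup of `Ω` containing the Siegel elements of a pair, an element interchanging the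
pair and one element not stabilising the pair contains `Ω`. -/
theorem omega_le (hQ' : Nondeg Q) (h11 : 11 ≤ Fintype.card ι) (hp : TSP Q D D') (hm : 6 ≤ finrank F D')
    (hdim : finrank F D = finrank F D')
    (hMi : ∀ t ∈ M, ∀ v, Q (t ⋆ v) = Q v)
    (hH : ∀ a ∈ D, ∀ b ∈ D', polar Q a b = 0 → R hQ M a b)
    {s : GL ι F} (hs : s ∈ M) (hs1 : ∀ x ∈ D, s ⋆ x ∈ D') (hs2 : ∀ x ∈ D', s ⋆ x ∈ D)
    {g : GL ι F} (hgM : g ∈ M)
    (hg : ¬ (((∀ x ∈ D, g ⋆ x ∈ D) ∧ ∀ x ∈ D', g ⋆ x ∈ D') ∨ ((∀ x ∈ D, g ⋆ x ∈ D') ∧ ∀ x ∈ D', g ⋆ x ∈ D))) :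
    omegaGL ⇑Q ≤ M := by
  classical
  have hH' := hp.swapH hH
  have hH'' : ∀ a ∈ D', ∀ b ∈ D, polar Q a b = 0 → R hQ M a b := hH'
  by_cases hmix : ∃ a ∈ D, ∃ b ∈ D', polar Q a b = 0 ∧
      ((∀ α β : F, α • (g ⋆ a) + β • (g ⋆ b) ∈ D → α = 0 ∧ β = 0) ∨
        (∀ α β : F, α • (g ⋆ a) + β • (g ⋆ b) ∈ D' → α = 0 ∧ β = 0))
  · obtain ⟨a, ha, b, hb, hab, hmix⟩ := hmix
    have hxy : R hQ M (g ⋆ a) (g ⋆ b) := R_conj (hMi g hgM) hgM (hH a ha b hb hab)
    rcases hmix with h1 | h1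
    · obtain ⟨u, hu, v, hv, hv0, huv, hR⟩ := stageA hp hm hH hxy h1
      exact omega_of_pair hQ' h11 hp (by omega) hMi hH hs hs2 hu hv hv0 huv hR
    · obtain ⟨u, hu, v, hv, hv0, huv, hR⟩ := stageA (hQ := hQ) hp.symm (by omega) hH' hxy h1
      exact omega_of_pair hQ' h11 hp.symm (by omega) hMi hH' hs hs1 hu hv hv0 huv hR
  · exfalso
    push Not at hmix
    apply hg
    have hk : ∀ a ∈ D, ∀ b ∈ D', polar Q a b = 0 →
        (∃ α β : F, (α ≠ 0 ∨ β ≠ 0) ∧ α • (g ⋆ a) + β • (g ⋆ b) ∈ D) ∧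
        (∃ α β : F, (α ≠ 0 ∨ β ≠ 0) ∧ α • (g ⋆ a) + β • (g ⋆ b) ∈ D') := by
      intro a ha b hb hab
      obtain ⟨⟨α, β, h1, h3⟩, ⟨α', β', h1', h3'⟩⟩ := hmix a ha b hb hab
      refine ⟨⟨α, β, ?_, h1⟩, ⟨α', β', ?_, h1'⟩⟩
      · by_contra h0
        push Not at h0
        exact h3 h0.1 h0.2
      · by_contra h0
        push Not at h0
        exact h3' h0.1 h0.2
    have hk' : ∀ a ∈ D', ∀ b ∈ D, polar Q a b = 0 →
        (∃ α β : F, (α ≠ 0 ∨ β ≠ 0) ∧ α • (g ⋆ a) + β • (g ⋆ b) ∈ D) ∧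
        (∃ α β : F, (α ≠ 0 ∨ β ≠ 0) ∧ α • (g ⋆ a) + β • (g ⋆ b) ∈ D') := by
      intro a ha b hb hab
      obtain ⟨⟨α, β, h1, h3⟩, ⟨α', β', h1', h3'⟩⟩ := hk b hb a ha (by rwa [polar_comm])
      refine ⟨⟨β, α, h1.symm, ?_⟩, ⟨β', α', h1'.symm, ?_⟩⟩
      · rwa [add_comm]
      · rwa [add_comm]
    have hU0 : ∀ x ∈ D.map (linOf g).toLinearMap, x ∈ D ∨ x ∈ D' := by
      rintro _ ⟨w, hw, rfl⟩
      exact mem_union_of_mixed hQ' hp (by omega) hp.compl g hk hw
    have hU1 : ∀ x ∈ D'.map (linOf g).toLinearMap, x ∈ D ∨ x ∈ D' := by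
      rintro _ ⟨w, hw, rfl⟩
      exact mem_union_of_mixed hQ' hp.symm (by omega) hp.compl g hk' hw
    have hnone : ∀ C : Submodule F (ι → F), D.map (linOf g).toLinearMap ≤ C →
        D'.map (linOf g).toLinearMap ≤ C → C = ⊤ := by
      intro C h0 h1
      rw [eq_top_iff]
      intro x _
      obtain ⟨x₀, hx₀, x₁, hx₁, hx⟩ := hp.decomp (g⁻¹ ⋆ x)
      have hx' : x = g ⋆ x₀ + g ⋆ x₁ := by
        rw [← Matrix.mulVec_add, ← hx, mulVec_inv_GL]
      rw [hx']
      exact C.add_mem (h0 ⟨x₀, hx₀, rfl⟩) (h1 ⟨x₁, hx₁, rfl⟩)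
    have hDne : D ≠ ⊤ := by
      intro h0
      have h1 := hp.compl.disjoint
      rw [h0, top_disjoint] at h1
      rw [h1, finrank_bot] at hm
      omega
    have hD'ne : D' ≠ ⊤ := by
      intro h0
      have h1 := hp.compl.disjoint
      rw [h0, disjoint_top] at h1
      rw [h1, finrank_bot] at hdim
      omega
    rcases le_or_le_of_union _ _ _ hU0 with h0 | h0 <;> rcases le_or_le_of_union _ _ _ hU1 with h1 | h1
    · exact absurd (hnone D h0 h1) hDne
    · exact Or.inl ⟨fun x hx => h0 ⟨x, hx, rfl⟩, fun x hx => h1 ⟨x, hx, rfl⟩⟩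
    · exact Or.inr ⟨fun x hx => h0 ⟨x, hx, rfl⟩, fun x hx => h1 ⟨x, hx, rfl⟩⟩
    · exact absurd (hnone D' h0 h1) hD'ne

/-! ### The element interchanging the two subspaces -/

open Cfsg.Agent.Lib.OrthGroup Cfsg.Agent.Lib.OrthOmega Cfsg.Agent.Lib.OrthMatrix Cfsg.Agent.Lib.SpinorCrit

/-- A product of reflections with the spinor condition lies in `omegaGL`. -/
theorem mem_omegaGL_of_list (hQ' : Nondeg Q) (h11 : 11 ≤ Fintype.card ι) (L : List (ι → F)) (hL : ∀ v ∈ L, Q v ≠ 0)
    (he : Even L.length) (hs : IsSquare (L.map Q).prod) {g : GL ι F} (hg : ∀ x, g ⋆ x = prodR Q L x) :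
    g ∈ omegaGL ⇑Q := by
  have hB : (B Q).Nondegenerate := nondegenerate_of_ND (nd_of hQ')
  have hiso : g ∈ isometryGroup F ⇑Q := by
    rw [mem_isometryGroup]
    intro v
    rw [hg]
    exact (prodO Q L).2 v
  refine ⟨⟨g, hiso⟩, ?_, rfl⟩
  rw [SetLike.mem_coe]
  show (⟨g, hiso⟩ : ↥(isometryGroup F ⇑Q)) ∈ Omega F ⇑Q
  rw [mem_Omega_iff]
  have h1 : toO Q ⟨g, hiso⟩ = prodO Q L := by
    apply Subtype.ext
    ext1 x
    rw [toO_apply]
    exact hg x
  rw [h1, mem_Omega_prodO_iff Q hB (Or.inr (by simp; omega)) L hL]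
  exact ⟨he, hs⟩

/-- An element of `GL` with the action of a product of reflections. -/
theorem exists_gl_prodR (L : List (ι → F)) : ∃ g : GL ι F, ∀ x, g ⋆ x = prodR Q L x :=
  ⟨Cfsg.Agent.Lib.OrthoCount.glEquiv.symm (prodR Q L), fun x => by
    have h1 := Cfsg.Agent.Lib.OrthoCount.glEquiv_apply (Cfsg.Agent.Lib.OrthoCount.glEquiv.symm (prodR Q L)) x
    rw [MulEquiv.apply_symm_apply] at h1
    exact h1.symm⟩

/-- A list of reflections swapping two families of vectors. -/
theorem prodR_swap {N : ℕ} (v a b : Fin N → (ι → F)) (h1 : ∀ i, refl Q (v i) (a i) = b i)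
    (h2 : ∀ i j, i ≠ j → refl Q (v i) (a j) = a j) (h3 : ∀ i j, i ≠ j → refl Q (v i) (b j) = b j)
    (l : List (Fin N)) (hl : l.Nodup) (j : Fin N) :
    prodR Q (l.map v) (a j) = if j ∈ l then b j else a j := by
  induction l with
  | nil => simp
  | cons i l ih =>
    rw [List.map_cons, prodR_cons]
    obtain ⟨hi, hl'⟩ := List.nodup_cons.mp hl
    change refl Q (v i) (prodR Q (l.map v) (a j)) = _
    rw [ih hl']
    by_cases hji : j = i
    · subst hji
      simp only [hi, if_false, List.mem_cons, true_or, if_true]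
      exact h1 j
    · by_cases hjl : j ∈ l
      · simp only [hjl, if_true, List.mem_cons, or_true]
        exact h3 i j (Ne.symm hji)
      · simp only [hjl, if_false, List.mem_cons, hji, false_or]
        exact h2 i j (Ne.symm hji)

/-- In even dimension `2k` with `k` even, there is an element of `Ω` interchanging two complementary totally
singular subspaces. -/
theorem exists_swap_omega (hQ' : Nondeg Q) (h11 : 11 ≤ Fintype.card ι) (hp : TSP Q D D') {k : ℕ} (hk : finrank F D = k)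
    (hk' : finrank F D' = k) (hev : Even k) :
    ∃ s ∈ omegaGL ⇑Q, (∀ x ∈ D, s ⋆ x ∈ D') ∧ ∀ x ∈ D', s ⋆ x ∈ D := by
  classical
  let bD : Basis (Fin k) F D := Module.finBasisOfFinrankEq F D hk
  let e : Fin k → (ι → F) := fun i => (bD i : ι → F)
  have heD : ∀ i, e i ∈ D := fun i => (bD i).2
  -- the dual family
  let φ : D' →ₗ[F] (Fin k → F) :=
    { toFun := fun u i => polar Q (e i) (u : ι → F)
      map_add' := by
        intro x y
        ext i
        simp [polar_add_right]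
      map_smul' := by
        intro c x
        ext i
        simp [polar_sm_r Q] }
  have hφ : ∀ u i, φ u i = polar Q (e i) (u : ι → F) := fun u i => rfl
  have hφinj : Function.Injective φ := by
    rw [injective_iff_map_eq_zero]
    intro u hu
    have h1 : (u : ι → F) ∈ D := by
      apply hp.perp_sub hQ'
      intro w hw
      have hw2 : w = ∑ i, (bD.repr ⟨w, hw⟩ i) • e i := by
        have := congrArg Subtype.val (bD.sum_repr ⟨w, hw⟩)
        simp only [Submodule.coe_sum, Submodule.coe_smul] at this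
        exact this.symm
      rw [hw2]
      have hlin : ∀ (t : Finset (Fin k)) (c : Fin k → F), polar Q (∑ i ∈ t, c i • e i) (u : ι → F) = 0 := by
        intro t c
        induction t using Finset.induction_on with
        | empty => simp
        | insert i t hi ih =>
          rw [Finset.sum_insert hi, polar_add_left, ih, polar_sm_l, ← hφ u i, hu]
          simp
      exact hlin _ _
    have h2 := Submodule.disjoint_def.1 hp.compl.disjoint _ h1 u.2
    exact Subtype.ext h2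
  have hφsurj : Function.Surjective φ := by
    have hfin : finrank F D' = finrank F (Fin k → F) := by rw [hk']; simp
    exact (LinearMap.injective_iff_surjective_of_finrank_eq_finrank hfin).1 hφinj
  choose f' hf' using fun j : Fin k => hφsurj (Pi.single j 1)
  have hdual : ∀ i j, polar Q (e i) (f' j : ι → F) = if i = j then 1 else 0 := by
    intro i j
    rw [← hφ, hf', Pi.single_apply]
  have hf'D : ∀ j, (f' j : ι → F) ∈ D' := fun j => (f' j).2
  let a : Fin k → (ι → F) := fun j => (f' j : ι → F)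
  let v : Fin k → (ι → F) := fun i => e i - a i
  have hQe : ∀ i, Q (e i) = 0 := fun i => hp.ts _ (heD i)
  have hQa : ∀ i, Q (a i) = 0 := fun i => hp.ts' _ (hf'D i)
  have hQv : ∀ i, Q (v i) = -1 := by
    intro i
    show Q (e i - a i) = -1
    rw [sub_eq_add_neg, Q_ad, QuadraticMap.map_neg, hQe, hQa, polar_neg_right]
    have := hdual i i
    simp only [if_true] at this
    show 0 + 0 + -(polar Q (e i) (f' i : ι → F)) = -1
    rw [this]
    simp
  have hQv0 : ∀ i, Q (v i) ≠ 0 := by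
    intro i
    rw [hQv]
    exact neg_ne_zero.2 one_ne_zero
  have hreflx : ∀ i x, refl Q (v i) x = x + polar Q x (v i) • v i := by
    intro i x
    rw [refl_apply, hQv]
    have h1 : B Q x (v i) = polar Q x (v i) := rfl
    rw [h1, inv_neg, inv_one, neg_one_mul, neg_smul, sub_neg_eq_add]
  have hpe : ∀ i j, polar Q (e j) (v i) = -(if j = i then 1 else 0) := by
    intro i j
    show polar Q (e j) (e i - a i) = _
    rw [polar_sub_right, hp.ti (heD j) (heD i), hdual j i, zero_sub]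
  have hpa : ∀ i j, polar Q (a j) (v i) = if i = j then 1 else 0 := by
    intro i j
    show polar Q (a j) (e i - a i) = _
    rw [polar_sub_right, hp.ti' (hf'D j) (hf'D i), sub_zero, polar_comm, hdual i j]
  have h1 : ∀ i, refl Q (v i) (e i) = a i := by
    intro i
    rw [hreflx, hpe]
    simp [v]
  have h1' : ∀ i, refl Q (v i) (a i) = e i := by
    intro i
    rw [hreflx, hpa]
    simp [v]
  have h2 : ∀ i j, i ≠ j → refl Q (v i) (e j) = e j := by
    intro i j hij
    rw [hreflx, hpe, if_neg (Ne.symm hij)]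
    simp
  have h3 : ∀ i j, i ≠ j → refl Q (v i) (a j) = a j := by
    intro i j hij
    rw [hreflx, hpa, if_neg hij]
    simp
  set L : List (ι → F) := (List.finRange k).map v with hL
  obtain ⟨s, hs⟩ := exists_gl_prodR (Q := Q) L
  have hse : ∀ j, s ⋆ e j = a j := by
    intro j
    rw [hs, hL, prodR_swap v e a h1 h2 h3 _ (List.nodup_finRange k) j, if_pos (List.mem_finRange j)]
  have hsa : ∀ j, s ⋆ a j = e j := by
    intro j
    rw [hs, hL, prodR_swap v a e h1' h3 h2 _ (List.nodup_finRange k) j, if_pos (List.mem_finRange j)]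
  have hLmem : ∀ w ∈ L, Q w ≠ 0 := by
    intro w hw
    obtain ⟨i, -, rfl⟩ := List.mem_map.1 hw
    exact hQv0 i
  have hLlen : L.length = k := by rw [hL, List.length_map, List.length_finRange]
  have hLprod : (L.map Q).prod = 1 := by
    have h4 : L.map Q = List.replicate k (-1 : F) := by
      rw [hL, List.map_map]
      have : (List.finRange k).map (⇑Q ∘ v) = (List.finRange k).map (fun _ => (-1 : F)) :=
        List.map_congr_left (fun i _ => hQv i)
      rw [this, List.map_const', List.length_finRange]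
    rw [h4, List.prod_replicate]
    exact hev.neg_one_pow
  have hsO : s ∈ omegaGL ⇑Q := mem_omegaGL_of_list hQ' h11 L hLmem (by rw [hLlen]; exact hev)
    (by rw [hLprod]; exact IsSquare.one) hs
  refine ⟨s, hsO, ?_, ?_⟩
  · intro x hx
    have hx2 : x = ∑ i, (bD.repr ⟨x, hx⟩ i) • e i := by
      have := congrArg Subtype.val (bD.sum_repr ⟨x, hx⟩)
      simp only [Submodule.coe_sum, Submodule.coe_smul] at this
      exact this.symm
    have h4 : s ⋆ x = ∑ i, (bD.repr ⟨x, hx⟩ i) • (s ⋆ e i) := by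
      conv_lhs => rw [hx2]
      show linOf s _ = _
      rw [map_sum]
      refine Finset.sum_congr rfl fun i _ => ?_
      rw [map_smul, linOf_apply]
    rw [h4]
    refine Submodule.sum_mem _ fun i _ => D'.smul_mem _ ?_
    rw [hse]
    exact hf'D i
  · intro x hx
    set u : D' := ⟨x, hx⟩ with hu
    have hu2 : u = ∑ j, (φ u j) • f' j := by
      apply hφinj
      rw [map_sum]
      ext i
      simp only [map_smul, hf', Finset.sum_apply, Pi.smul_apply, Pi.single_apply, smul_eq_mul, mul_ite, mul_one, mul_zero,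
        Finset.sum_ite_eq, Finset.mem_univ, if_true]
    have hx2 : x = ∑ j, (φ u j) • a j := by
      have := congrArg Subtype.val hu2
      simp only [Submodule.coe_sum, Submodule.coe_smul] at this
      exact this
    have h4 : s ⋆ x = ∑ i, (φ u i) • (s ⋆ a i) := by
      conv_lhs => rw [hx2]
      show linOf s _ = _
      rw [map_sum]
      refine Finset.sum_congr rfl fun i _ => ?_
      rw [map_smul, linOf_apply]
    rw [h4]
    refine Submodule.sum_mem _ fun i _ => D.smul_mem _ ?_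
    rw [hsa]
    exact heD i

end Cfsg.Agent.Lib.OmPair
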