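import Mathlib
import Cfsg.Agent.Lib.ExtA
import Cfsg.Agent.Lib.ExtB
import Cfsg.Agent.Lib.ExtC
import Cfsg.Agent.Lib.ExtD

set_option autoImplicit false
set_option linter.unusedSectionVars false
set_option linter.unusedSimpArgs false
set_option linter.unusedVariables false
set_option linter.style.haveILetI false

namespace Cfsg.Agent.Lib.ExtSpA

open Module Cfsg.Agent.Lib.ExtA Cfsg.Agent.Lib.ExtB Cfsg.Agent.Lib.ExtC Cfsg.Agent.Lib.ExtD

section forms

variable {L V : Type*} [Field L] [AddCommGroup V] [Module L V]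

/-- A nondegenerate alternating form. -/
structure SpH (h : LinearMap.BilinForm L V) : Prop where
  alt : ∀ v, h v v = 0
  nd : ∀ u, u ≠ 0 → ∃ v, h u v ≠ 0

variable {h : LinearMap.BilinForm L V} (H : SpH h)

include H

theorem SpH.skew (u v : V) : h u v = - h v u := by
  have := H.alt (u + v)
  simp only [map_add, LinearMap.add_apply, H.alt, zero_add, add_zero] at this
  linear_combination this

theorem SpH.psi_self (b : V) : (h.flip b) b = 0 := H.alt b

omit H in
/-- `L`-linear isometries. -/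
def IsomL (h : LinearMap.BilinForm L V) (g : V ≃ₗ[L] V) : Prop := ∀ u v, h (g u) (g v) = h u v

/-- The `L`-symplectic transvection. -/
noncomputable def tauE (u : V) (c : L) : V ≃ₗ[L] V :=
  @LinearEquiv.transvection L V _ _ _ (c • h.flip u) u (by
    simp [H.alt])

theorem tauE_apply (u : V) (c : L) (y : V) : tauE H u c y = y + (c * h y u) • u := by
  unfold tauE
  rw [LinearEquiv.transvection.apply]
  simp

theorem tauE_isom (u : V) (c : L) : IsomL h (tauE H u c) := by
  intro y y'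
  rw [tauE_apply, tauE_apply]
  simp only [map_add, LinearMap.add_apply, map_smul, LinearMap.smul_apply, smul_eq_mul, H.alt,
    mul_zero, add_zero]
  rw [H.skew u y']
  ring

/-- The short root map. -/
def Qm (h : LinearMap.BilinForm L V) (z b : V) (μ : L) : V →ₗ[L] V :=
  LinearMap.id + μ • ((h.flip z).smulRight b + (h.flip b).smulRight z)

omit H in
theorem Qm_apply (z b : V) (μ : L) (y : V) :
    Qm h z b μ y = y + (μ * h y z) • b + (μ * h y b) • z := by
  simp [Qm, mul_smul, add_assoc]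

theorem Qm_comp {z b : V} (hz : h z b = 0) (μ μ' : L) (y : V) :
    Qm h z b μ (Qm h z b μ' y) = Qm h z b (μ + μ') y := by
  have hbz : h b z = 0 := by rw [H.skew, hz, neg_zero]
  simp only [Qm_apply, map_add, LinearMap.add_apply, map_smul, LinearMap.smul_apply, smul_eq_mul,
    H.alt, hz, hbz, mul_zero, add_zero, zero_smul, zero_add]
  rw [add_mul, add_mul, add_smul, add_smul]
  abel

/-- The short root equivalence. -/
noncomputable def QE {z b : V} (hz : h z b = 0) (μ : L) : V ≃ₗ[L] V :=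
  LinearEquiv.ofLinearMap (Qm h z b μ) (Qm h z b (-μ))
    (by
      ext y
      change Qm h z b μ (Qm h z b (-μ) y) = y
      rw [Qm_comp H hz, add_neg_cancel, Qm_apply]
      simp)
    (by
      ext y
      change Qm h z b (-μ) (Qm h z b μ y) = y
      rw [Qm_comp H hz, neg_add_cancel, Qm_apply]
      simp)

theorem QE_apply {z b : V} (hz : h z b = 0) (μ : L) (y : V) :
    QE H hz μ y = y + (μ * h y z) • b + (μ * h y b) • z := Qm_apply z b μ y

theorem QE_isom {z b : V} (hz : h z b = 0) (μ : L) : IsomL h (QE H hz μ) := by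
  intro y y'
  have hbz : h b z = 0 := by rw [H.skew, hz, neg_zero]
  rw [QE_apply, QE_apply]
  simp only [map_add, LinearMap.add_apply, map_smul, LinearMap.smul_apply, smul_eq_mul, H.alt, hz, hbz,
    mul_zero, add_zero]
  rw [H.skew b y', H.skew z y']
  ring

/-- The frame map is an isometry when the scalars are inverse to each other. -/
theorem Hl_isom {b z : V} (hzb : h z b = 1) {a e : L} (hae : a * e = 1) (y y' : V) :
    h (Hl (-(h.flip z)) (h.flip b) b z a e y) (Hl (-(h.flip z)) (h.flip b) b z a e y') = h y y' := by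
  have hbz : h b z = -1 := by rw [H.skew, hzb]
  have e : ∀ w y : V, (h.flip w) y = h y w := fun _ _ => rfl
  simp only [Hl_apply, map_add, LinearMap.add_apply, map_smul, LinearMap.smul_apply, smul_eq_mul, H.alt,
    hzb, hbz, LinearMap.neg_apply, e, mul_zero, add_zero]
  rw [H.skew b y', H.skew z y']
  linear_combination (h y z * h y' b - h y' z * h y b) * hae

theorem exists_frame_sp {b : V} (hb : b ≠ 0) : ∃ z : V, h z b = 1 := by
  obtain ⟨v, hv⟩ := H.nd b hb
  refine ⟨(h b v)⁻¹ • (-v), ?_⟩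
  simp only [map_smul, LinearMap.smul_apply, smul_eq_mul, map_neg, LinearMap.neg_apply]
  rw [H.skew v b, neg_neg, inv_mul_cancel₀ hv]

variable {F : Type*} [Field F] [Algebra F L] [Module F V] [IsScalarTower F L V]

/-- The frame map as an isometric equivalence. -/
theorem exists_He {b z : V} (hzb : h z b = 1) {a e : L} (ha : a ≠ 0) (he : e ≠ 0) (hae : a * e = 1)
    (f : L →ₗ[F] L) :
    ∃ g : V ≃ₗ[L] V, IsomL h g ∧ toF (F := F) g * rt (H.psi_self b) f * (toF (F := F) g)⁻¹ =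
      rt (H.psi_self b) (m F a ∘ₗ f ∘ₗ m F e⁻¹) := by
  have h1 : (-(h.flip z)) b = 1 := by
    change -(h b z) = 1
    rw [H.skew, hzb, neg_neg]
  have h2 : (-(h.flip z)) z = 0 := by
    simp [H.alt]
  have h3 : (h.flip b) b = 0 := H.alt b
  have h4 : (h.flip b) z = 1 := hzb
  refine ⟨He h1 h2 h3 h4 ha he, ?_, ?_⟩
  · intro y y'
    exact Hl_isom H hzb hae y y'
  · exact He_conj h1 h2 h3 h4 h3 ha he f

section finite

variable [Module.Finite L V]

theorem exists_rep (ψ : V →ₗ[L] L) : ∃ z, ∀ y, ψ y = h y z := by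
  let Φ : V →ₗ[L] Module.Dual L V := h.flip
  have hinj : Function.Injective Φ := by
    rw [injective_iff_map_eq_zero]
    intro z hz
    by_contra hne
    obtain ⟨v, hv⟩ := H.nd z hne
    apply hv
    rw [H.skew]
    have : Φ z v = 0 := by rw [hz]; rfl
    have h2 : h v z = 0 := this
    rw [h2, neg_zero]
  have hsurj : Function.Surjective Φ :=
    (LinearMap.injective_iff_surjective_of_finrank_eq_finrank
      (Subspace.dual_finrank_eq (K := L) (V := V)).symm).mp hinj
  obtain ⟨z, hz⟩ := hsurj ψ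
  exact ⟨z, fun y => by rw [← hz]; rfl⟩

theorem exists_trans_step {v w : V} (hvw : h v w ≠ 0) : ∃ s : V ≃ₗ[L] V, IsomL h s ∧ s v = w := by
  refine ⟨tauE H (w - v) (h v w)⁻¹, tauE_isom H _ _, ?_⟩
  rw [tauE_apply]
  have h1 : h v (w - v) = h v w := by simp [H.alt]
  rw [h1, inv_mul_cancel₀ hvw, one_smul]
  abel

theorem exists_trans_sp {v w : V} (hv : v ≠ 0) (hw : w ≠ 0) :
    ∃ s : V ≃ₗ[L] V, IsomL h s ∧ s v = w := by
  by_cases hvw : h v w ≠ 0
  · exact exists_trans_step H hvw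
  push Not at hvw
  obtain ⟨z1, hz1⟩ := H.nd v hv
  obtain ⟨z2, hz2⟩ := H.nd w hw
  have key : ∃ z, h v z ≠ 0 ∧ h w z ≠ 0 := by
    by_cases h1 : h w z1 ≠ 0
    · exact ⟨z1, hz1, h1⟩
    by_cases h2 : h v z2 ≠ 0
    · exact ⟨z2, h2, hz2⟩
    push Not at h1 h2
    refine ⟨z1 + z2, ?_, ?_⟩
    · simpa [h2] using hz1
    · simpa [h1] using hz2
  obtain ⟨z, h1, h2⟩ := key
  have h3 : h z w ≠ 0 := by
    rw [H.skew]
    exact neg_ne_zero.mpr h2
  obtain ⟨s1, hs1, hs1a⟩ := exists_trans_step H h1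
  obtain ⟨s2, hs2, hs2a⟩ := exists_trans_step H h3
  refine ⟨s2 * s1, fun u u' => ?_, ?_⟩
  · simp only [LinearEquiv.mul_apply]
    rw [hs2, hs1]
  · simp only [LinearEquiv.mul_apply]
    rw [hs1a, hs2a]

theorem isomL_mul {s s' : V ≃ₗ[L] V} (hs : IsomL h s) (hs' : IsomL h s') : IsomL h (s * s') := by
  intro u v
  simp only [LinearEquiv.mul_apply]
  rw [hs, hs']

theorem step_fix_a {a b b' : V} (he : h a b = h a b') (hne : h b b' ≠ 0) :
    ∃ s : V ≃ₗ[L] V, IsomL h s ∧ s a = a ∧ s b = b' := by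
  have h1 : h a (b' - b) = 0 := by simp [he]
  have h2 : h b (b' - b) = h b b' := by simp [H.alt]
  refine ⟨tauE H (b' - b) (h b b')⁻¹, tauE_isom H _ _, ?_, ?_⟩
  · rw [tauE_apply, h1]
    simp
  · rw [tauE_apply, h2, inv_mul_cancel₀ hne, one_smul]
    abel

theorem step_Q {a b b' : V} (he : h a b = h a b') (hne : h a b ≠ 0) (hz : h b b' = 0) :
    ∃ s : V ≃ₗ[L] V, IsomL h s ∧ s a = a ∧ s b = b' := by
  have h1 : h a (b' - b) = 0 := by simp [he]
  have h1' : h (b' - b) a = 0 := by rw [H.skew, h1, neg_zero]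
  have h2 : h b (b' - b) = 0 := by simp [H.alt, hz]
  have h3 : h b a ≠ 0 := by
    rw [H.skew]
    exact neg_ne_zero.mpr hne
  refine ⟨QE H h1' (h b a)⁻¹, QE_isom H h1' _, ?_, ?_⟩
  · rw [QE_apply, h1, H.alt]
    simp
  · rw [QE_apply, h2, inv_mul_cancel₀ h3, one_smul]
    simp

theorem step_mid {a b b' : V} (hb : b ∉ Submodule.span L {a}) (hb' : b' ∉ Submodule.span L {a}) :
    ∃ b'', h a b'' = 0 ∧ h b b'' ≠ 0 ∧ h b' b'' ≠ 0 := by
  obtain ⟨ψ, h1, h2⟩ := exists_sep_pair hb
  obtain ⟨ψ', h1', h2'⟩ := exists_sep_pair hb'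
  obtain ⟨v, hv⟩ := exists_rep H ψ
  obtain ⟨v', hv'⟩ := exists_rep H ψ'
  rw [hv] at h1 h2
  rw [hv'] at h1' h2'
  by_cases e1 : h b' v ≠ 0
  · exact ⟨v, h1, by rw [h2]; exact one_ne_zero, e1⟩
  by_cases e2 : h b v' ≠ 0
  · exact ⟨v', h1', e2, by rw [h2']; exact one_ne_zero⟩
  push Not at e1 e2
  refine ⟨v + v', by simp [h1, h1'], ?_, ?_⟩
  · simp [h2, e2]
  · simp [h2', e1]

theorem witt_pair {a b a' b' : V} (ha : a ≠ 0) (ha' : a' ≠ 0) (hb : b ∉ Submodule.span L {a})
    (hb' : b' ∉ Submodule.span L {a'}) (he : h a b = h a' b') :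
    ∃ s : V ≃ₗ[L] V, IsomL h s ∧ s a = a' ∧ s b = b' := by
  obtain ⟨s1, hs1, hs1a⟩ := exists_trans_sp H ha ha'
  set b1 := s1 b with hb1
  have he1 : h a' b1 = h a' b' := by
    rw [← hs1a, hb1, hs1, he, hs1a]
  have hb1s : b1 ∉ Submodule.span L {a'} := by
    intro h0
    obtain ⟨c, hc⟩ := Submodule.mem_span_singleton.mp h0
    apply hb
    refine Submodule.mem_span_singleton.mpr ⟨c, ?_⟩
    apply s1.injective
    rw [map_smul, hs1a, hc]
  have key : ∃ s : V ≃ₗ[L] V, IsomL h s ∧ s a' = a' ∧ s b1 = b' := by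
    by_cases hne : h b1 b' ≠ 0
    · exact step_fix_a H he1 hne
    push Not at hne
    by_cases hu : h a' b1 = 0
    · obtain ⟨b'', e1, e2, e3⟩ := step_mid H hb1s hb'
      obtain ⟨s2, hs2, hs2a, hs2b⟩ := step_fix_a H (a := a') (b := b1) (b' := b'') (by rw [hu, e1]) e2
      have e4 : h b'' b' ≠ 0 := by
        rw [H.skew]
        exact neg_ne_zero.mpr e3
      obtain ⟨s3, hs3, hs3a, hs3b⟩ := step_fix_a H (a := a') (b := b'') (b' := b') (by rw [e1, ← he1, hu]) e4
      refine ⟨s3 * s2, isomL_mul H hs3 hs2, ?_, ?_⟩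
      · simp only [LinearEquiv.mul_apply]
        rw [hs2a, hs3a]
      · simp only [LinearEquiv.mul_apply]
        rw [hs2b, hs3b]
    · exact step_Q H he1 hu hne
  obtain ⟨s2, hs2, hs2a, hs2b⟩ := key
  refine ⟨s2 * s1, isomL_mul H hs2 hs1, ?_, ?_⟩
  · simp only [LinearEquiv.mul_apply]
    rw [hs1a, hs2a]
  · simp only [LinearEquiv.mul_apply]
    rw [← hb1, hs2b]

end finite

end forms

end Cfsg.Agent.Lib.ExtSpA
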