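import Mathlib
import Cfsg.Agent.Lib.ExtA
import Cfsg.Agent.Lib.ExtB
import Cfsg.Agent.Lib.ExtC
import Cfsg.Agent.Lib.ExtSpA

set_option autoImplicit false
set_option linter.unusedSectionVars false
set_option linter.unusedSimpArgs false
set_option linter.unusedVariables false
set_option linter.style.haveILetI false

namespace Cfsg.Agent.Lib.ExtSpB

open Module Cfsg.Agent.Lib.ExtA Cfsg.Agent.Lib.ExtB Cfsg.Agent.Lib.ExtC Cfsg.Agent.Lib.ExtSpA

section setup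

variable {F L V : Type*} [Field F] [Field L] [Algebra F L]
  [AddCommGroup V] [Module L V] [Module F V] [IsScalarTower F L V]

/-- The overgroup hypothesis: all `L`-isometries lie in `X`. -/
def HS (h : LinearMap.BilinForm L V) (X : Subgroup (V ≃ₗ[F] V)) : Prop :=
  ∀ g : V ≃ₗ[L] V, IsomL h g → toF (F := F) g ∈ X

variable {h : LinearMap.BilinForm L V} [Module.Finite L V]

theorem exists_start_sp (H : SpH h) {X : Subgroup (V ≃ₗ[F] V)} (hX : HS h X) (hm : 2 ≤ finrank L V)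
    {x : V ≃ₗ[F] V} (hxX : x ∈ X) (hS : ¬ Semi (L := L) x) {b : V} (hb : b ≠ 0) :
    ∃ g ∈ X, g b = b ∧ ∃ a : L, g (a • b) ∉ lin F L b := by
  have h1 : ∃ (v : V) (a : L), ∀ c : L, x (a • v) ≠ c • x v := by
    by_contra h
    push Not at h
    exact hS (semi_of_line hm x h)
  obtain ⟨v, a, hva⟩ := h1
  have hv : v ≠ 0 := by
    rintro rfl
    exact hva 0 (by simp)
  have hw : x v ≠ 0 := by simpa using hv
  obtain ⟨h1, h1d, h1a⟩ := exists_trans_sp H hw hb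
  obtain ⟨h2, h2d, h2a⟩ := exists_trans_sp H hb hv
  have hh1 : toF (F := F) h1 ∈ X := hX h1 h1d
  have hh2 : toF (F := F) h2 ∈ X := hX h2 h2d
  refine ⟨toF h1 * x * toF h2, X.mul_mem (X.mul_mem hh1 hxX) hh2, ?_, a, ?_⟩
  · simp only [LinearEquiv.mul_apply, toF_apply, h2a, h1a]
  · intro h3
    obtain ⟨c, hc⟩ := mem_lin.mp h3
    apply hva c
    apply h1.injective
    have h4 : (toF (F := F) h1 * x * toF h2 : V ≃ₗ[F] V) (a • b) = h1 (x (a • v)) := by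
      simp only [LinearEquiv.mul_apply, toF_apply, map_smul, h2a]
    rw [← h4, ← hc, map_smul, h1a]

variable [Module.Finite F V]

theorem exists_maxG_sp (H : SpH h) {X : Subgroup (V ≃ₗ[F] V)} (hX : HS h X) (hm : 2 ≤ finrank L V)
    {x : V ≃ₗ[F] V} (hxX : x ∈ X) (hS : ¬ Semi (L := L) x) {b : V} (hb : b ≠ 0) :
    ∃ g, MaxG L X b g := by
  obtain ⟨g0, hg0, hgb, a0, ha0⟩ := exists_start_sp H hX hm hxX hS hb
  have hne0 : Wg F L b g0 ≠ lin F L b := by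
    intro h
    apply ha0
    rw [← h]
    exact smul_mem_Wg b _ a0
  have hb0 : b ∈ Wg F L b g0 := mem_Wg.mpr ⟨1, by rw [one_smul, hgb]⟩
  obtain ⟨g, ⟨hg, hne⟩, hmax⟩ := exists_max_of_bdd
    (fun g' : V ≃ₗ[F] V => g' ∈ X ∧ Wg F L b g' ≠ lin F L b) (DD F L b) (finrank F V)
    ⟨g0, hg0, hne0⟩ (fun a _ => Submodule.finrank_le _)
  refine ⟨g, hg, hne, fun g' h1 h2 => hmax g' ⟨h1, h2⟩, ?_⟩
  have h1 : DD F L b g0 ≤ DD F L b g := hmax g0 ⟨hg0, hne0⟩
  have h2 : 0 < DD F L b g0 := by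
    apply Module.finrank_pos_iff_exists_ne_zero.mpr
    refine ⟨⟨b, ?_, hb0⟩, ?_⟩
    · exact mem_lin.mpr ⟨1, one_smul _ _⟩
    · intro h
      exact hb (congrArg Subtype.val h)
  have h3 : 0 < DD F L b g := by omega
  obtain ⟨⟨y, hy⟩, hy0⟩ := Module.finrank_pos_iff_exists_ne_zero.mp h3
  obtain ⟨κ, hκ⟩ := mem_lin.mp hy.1
  refine ⟨κ, ?_, ?_⟩
  · rintro rfl
    apply hy0
    ext
    simpa using hκ.symm
  · rw [hκ]
    exact hy.2

variable [Module.Finite F L]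

theorem key_stab_gen {X : Subgroup (V ≃ₗ[F] V)} {b : V} {g : V ≃ₗ[F] V}
    (hg : MaxG L X b g) {ψ : V →ₗ[L] L} (hψ : ψ b = 0) {y0 : V} (hy0 : y0 ∈ Wg F L b g)
    (h0 : ψ y0 ≠ 0) {κ : L} (hκb : κ • b ∈ Wg F L b g) {t : V ≃ₗ[F] V} (ht : t ∈ X)
    (ht1 : ∀ z ∈ Wg F L b g, t z = z + (κ / ψ y0 * ψ z) • b) {y : V} (hy : y ∈ Wg F L b g) :
    (κ / ψ y0 * ψ y) • b ∈ Wg F L b g := by
  set W := Wg F L b g with hW
  have hker : ∀ z ∈ lin F L b, ψ z = 0 := by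
    intro z hz
    obtain ⟨a, rfl⟩ := mem_lin.mp hz
    simp [hψ]
  have hmap : W.map (t : V →ₗ[F] V) = W := by
    by_contra hne
    have h1 := pair_bound hg hg.mem (X.mul_mem ht hg.mem)
      (by rw [Wg_mul]; exact fun h => hne h.symm)
    rw [Wg_mul] at h1
    have h2 : lin F L b ⊓ W < W ⊓ W.map (t : V →ₗ[F] V) := by
      rw [SetLike.lt_iff_le_and_exists]
      constructor
      · rintro z ⟨hz1, hz2⟩
        refine ⟨hz2, z, hz2, ?_⟩
        change t z = z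
        rw [ht1 z hz2, hker z hz1]
        simp
      · refine ⟨y0 + κ • b, ⟨W.add_mem hy0 hκb, y0, hy0, ?_⟩, ?_⟩
        · change t y0 = _
          rw [ht1 y0 hy0]
          congr 2
          field_simp
        · rintro ⟨h3, -⟩
          have h4 := hker _ h3
          rw [map_add, map_smul, hψ] at h4
          simp only [smul_eq_mul, mul_zero, add_zero] at h4
          exact h0 h4
    have h3 := Submodule.finrank_lt_finrank_of_lt h2
    have h5 : finrank F ↥(W ⊓ W.map (t : V →ₗ[F] V)) ≤ finrank F ↥(lin F L b ⊓ W) := h1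
    omega
  have h4 : t y ∈ W := by
    rw [← hmap]
    exact ⟨y, hy, rfl⟩
  rw [ht1 y hy] at h4
  exact (Submodule.add_mem_iff_right W hy).mp h4

theorem key_prop_gen (hr : (finrank F L).Prime) {X : Subgroup (V ≃ₗ[F] V)} {b : V}
    {g : V ≃ₗ[F] V} (hg : MaxG L X b g) {ψ : V →ₗ[L] L} (hψ : ψ b = 0)
    (hQ : ∀ μ : L, ∃ t ∈ X, ∀ y ∈ Wg F L b g, t y = y + (μ * ψ y) • b) {y0 y1 : V}
    (hy0 : y0 ∈ Wg F L b g) (hy1 : y1 ∈ Wg F L b g) (h0 : ψ y0 ≠ 0) :
    ∃ c : F, ψ y1 = algebraMap F L c * ψ y0 := by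
  by_contra h
  push Not at h
  set W := Wg F L b g with hW
  let Z : Subalgebra F L :=
    { carrier := {a | ∀ κ : L, κ • b ∈ W → (a * κ) • b ∈ W}
      mul_mem' := by
        intro a a' ha ha' κ hκ
        rw [mul_assoc]
        exact ha _ (ha' _ hκ)
      add_mem' := by
        intro a a' ha ha' κ hκ
        rw [add_mul, add_smul]
        exact W.add_mem (ha _ hκ) (ha' _ hκ)
      algebraMap_mem' := by
        intro c κ hκ
        rw [mul_smul, algebraMap_smul]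
        exact W.smul_mem c hκ }
  have hθ : ψ y1 / ψ y0 ∈ Z := by
    intro κ hκ
    obtain ⟨t, ht, ht1⟩ := hQ (κ / ψ y0)
    have := key_stab_gen hg hψ hy0 h0 hκ ht ht1 hy1
    convert this using 2
    field_simp
  have hZ : Z = ⊤ := by
    apply alg_eq_top hr Z hθ
    intro c hc
    apply h c
    rw [hc]
    field_simp
  obtain ⟨κ0, hκ0, hκ0b⟩ := hg.pos
  have hall : ∀ a : L, a • b ∈ W := by
    intro a
    have h1 : a / κ0 ∈ Z := by rw [hZ]; trivial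
    have h2 := h1 κ0 hκ0b
    convert h2 using 2
    field_simp
  apply hg.ne
  symm
  apply Submodule.eq_of_le_of_finrank_eq
  · intro y hy
    obtain ⟨a, rfl⟩ := mem_lin.mp hy
    exact hall a
  · exact (lin_finrank_eq g b).symm

theorem exists_good_psi (H : SpH h) {X : Subgroup (V ≃ₗ[F] V)} (hX : HS h X) {b : V}
    {g : V ≃ₗ[F] V} (hg : MaxG L X b g) :
    ∃ ψ : V →ₗ[L] L, ψ b = 0 ∧ (∃ y0 ∈ Wg F L b g, ψ y0 ≠ 0) ∧
      ∀ μ : L, ∃ t ∈ X, ∀ y ∈ Wg F L b g, t y = y + (μ * ψ y) • b := by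
  by_cases hcase : ∃ y0 ∈ Wg F L b g, h y0 b ≠ 0
  · refine ⟨h.flip b, H.psi_self b, hcase, fun μ => ?_⟩
    refine ⟨toF (tauE H b μ), hX _ (tauE_isom H b μ), fun y _ => ?_⟩
    rw [toF_apply, tauE_apply]
    rfl
  · push Not at hcase
    obtain ⟨y0, hy0, hy0n⟩ := exists_mem_Wg_not_lin hg
    have hy0' : y0 ∉ Submodule.span L {b} := hy0n
    obtain ⟨ψ, hψb, hψ1⟩ := exists_sep_pair hy0'
    obtain ⟨z, hz⟩ := exists_rep H ψ
    have hbz : h b z = 0 := by rw [← hz, hψb]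
    have hzb : h z b = 0 := by rw [H.skew, hbz, neg_zero]
    refine ⟨ψ, hψb, ⟨y0, hy0, by rw [hψ1]; exact one_ne_zero⟩, fun μ => ?_⟩
    refine ⟨toF (QE H hzb μ), hX _ (QE_isom H hzb μ), fun y hy => ?_⟩
    rw [toF_apply, QE_apply, hcase y hy, hz y]
    simp

theorem exists_u_sp (hr : (finrank F L).Prime) (H : SpH h) {X : Subgroup (V ≃ₗ[F] V)} (hX : HS h X)
    {b : V} (hb : b ≠ 0) {g : V ≃ₗ[F] V} (hg : MaxG L X b g) :
    ∃ p : L, p ≠ 0 ∧ ∃ π : L →ₗ[F] F, π ≠ 0 ∧ π p = 0 ∧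
      ∀ t : F, ∃ u ∈ X, ∀ a : L, u (a • b) = (a + π a • (t • p)) • b := by
  obtain ⟨ψ, hψb, ⟨y0, hy0, hy0'⟩, hQ⟩ := exists_good_psi H hX hg
  obtain ⟨κ0, hκ0, hκ0b⟩ := hg.pos
  obtain ⟨p, hp⟩ := mem_Wg.mp hκ0b
  obtain ⟨R, hR⟩ := exists_retr (F := F) (L := L)
  have hR1 : R 1 = 1 := by simpa using hR 1
  let π0 : L →ₗ[F] L :=
    { toFun := fun a => ψ (g (a • b)) * (ψ y0)⁻¹
      map_add' := by intro a a'; simp [add_smul, add_mul]
      map_smul' := by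
        intro c a
        simp only [smul_assoc, map_smul, RingHom.id_apply]
        rw [LinearMap.map_smul_of_tower, smul_mul_assoc] }
  have hπ0 : ∀ a, π0 a = ψ (g (a • b)) * (ψ y0)⁻¹ := fun a => rfl
  have hπ1 : ∀ a, algebraMap F L (R (π0 a)) = π0 a := by
    intro a
    obtain ⟨c, hc⟩ := key_prop_gen hr hg hψb hQ hy0 (smul_mem_Wg b g a) hy0'
    rw [hπ0, hc, mul_assoc, mul_inv_cancel₀ hy0', mul_one, hR]
  refine ⟨p, ?_, R ∘ₗ π0, ?_, ?_, fun t => ?_⟩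
  · rintro rfl
    have : κ0 • b = 0 := by rw [← hp]; simp
    have hb0 : κ0 = 0 := (smul_eq_zero.mp this).resolve_right hb
    exact hκ0 hb0
  · intro h0
    obtain ⟨a, ha⟩ := mem_Wg.mp hy0
    have h1 := hπ1 a
    have h2 : R (π0 a) = 0 := LinearMap.congr_fun h0 a
    rw [h2, map_zero, hπ0, ha, mul_inv_cancel₀ hy0'] at h1
    exact zero_ne_one h1
  · simp only [LinearMap.comp_apply]
    rw [hπ0, hp, map_smul, hψb]
    simp
  · let μ : L := (t • κ0) * (ψ y0)⁻¹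
    obtain ⟨τ, hτ, hτ1⟩ := hQ μ
    refine ⟨g⁻¹ * τ * g, X.mul_mem (X.mul_mem (X.inv_mem hg.mem) hτ) hg.mem, fun a => ?_⟩
    simp only [LinearEquiv.mul_apply, LinearMap.comp_apply]
    rw [hτ1 _ (smul_mem_Wg b g a)]
    have h3 : (μ * ψ (g (a • b))) • b = (t * R (π0 a)) • (κ0 • b) := by
      have h4 : μ * ψ (g (a • b)) = (t • κ0) * π0 a := by
        rw [hπ0]
        simp only [μ]
        ring
      have h5 := hπ1 a
      have h6 : (t • κ0) * π0 a = (t * R (π0 a)) • κ0 := by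
        rw [← h5, Algebra.smul_def, Algebra.smul_def, hR, map_mul]
        ring
      rw [h4, h6, smul_assoc]
    rw [h3, ← hp, ← map_smul, ← map_add, app_inv, add_smul]
    congr 1
    rw [smul_assoc, smul_assoc, mul_comm t, mul_smul]

end setup

end Cfsg.Agent.Lib.ExtSpB
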