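import Mathlib
import Cfsg.Agent.Lib.ExtA
import Cfsg.Agent.Lib.ExtB
import Cfsg.Agent.Lib.ExtC
import Cfsg.Agent.Lib.ExtSpA
import Cfsg.Agent.Lib.ExtSpB

set_option autoImplicit false
set_option linter.unusedSectionVars false
set_option linter.unusedSimpArgs false
set_option linter.unusedVariables false
set_option linter.style.haveILetI false

namespace Cfsg.Agent.Lib.ExtSpC

open Module Cfsg.Agent.Lib.ExtA Cfsg.Agent.Lib.ExtB Cfsg.Agent.Lib.ExtC Cfsg.Agent.Lib.ExtSpA
  Cfsg.Agent.Lib.ExtSpB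

section forms

variable {F L : Type*} [Field F] [Field L] [Algebra F L]

/-- The symmetric rank one map. -/
def Gl (lam : L →ₗ[F] F) (p : L) : L →ₗ[F] L := ro p (lam ∘ₗ m F p)

/-- The polar map. -/
def Bl (lam : L →ₗ[F] F) (s t : L) : L →ₗ[F] L := ro t (lam ∘ₗ m F s) + ro s (lam ∘ₗ m F t)

theorem Gl_apply (lam : L →ₗ[F] F) (p x : L) : Gl lam p x = lam (p * x) • p := rfl

theorem Bl_apply (lam : L →ₗ[F] F) (s t x : L) :
    Bl lam s t x = lam (s * x) • t + lam (t * x) • s := rfl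

theorem Bl_symm (lam : L →ₗ[F] F) (s t : L) : Bl lam s t = Bl lam t s := by
  ext x
  rw [Bl_apply, Bl_apply, add_comm]

theorem Bl_add_left (lam : L →ₗ[F] F) (s s' t : L) :
    Bl lam (s + s') t = Bl lam s t + Bl lam s' t := by
  ext x
  simp only [Bl_apply, LinearMap.add_apply, add_mul, map_add, add_smul, smul_add]
  abel

theorem Bl_add_right (lam : L →ₗ[F] F) (s t t' : L) :
    Bl lam s (t + t') = Bl lam s t + Bl lam s t' := by
  rw [Bl_symm, Bl_add_left, Bl_symm lam t, Bl_symm lam t']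

theorem Bl_smul_left (lam : L →ₗ[F] F) (c : F) (s t : L) :
    Bl lam (c • s) t = c • Bl lam s t := by
  ext x
  simp only [Bl_apply, LinearMap.smul_apply, smul_mul_assoc, map_smul, smul_eq_mul, mul_smul,
    smul_add]
  rw [smul_comm (lam (t * x)) c s]

theorem Bl_self (h2 : (2 : F) = 0) (lam : L →ₗ[F] F) (s : L) : Bl lam s s = 0 := by
  ext x
  rw [Bl_apply, ← add_smul, ← two_mul, h2, zero_mul, zero_smul]
  rfl

theorem Bl_add_self (h2 : (2 : F) = 0) (lam : L →ₗ[F] F) (s t : L) : Bl lam s t + Bl lam s t = 0 := by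
  ext x
  rw [LinearMap.add_apply, ← two_smul F, h2, zero_smul]
  rfl

theorem mam_Bl (lam : L →ₗ[F] F) (a s t : L) :
    m F a ∘ₗ Bl lam s t ∘ₗ m F a = Bl lam (a * s) (a * t) := by
  ext x
  simp only [LinearMap.comp_apply, m_apply, Bl_apply, mul_add, mul_smul_comm]
  congr 3 <;> ring

theorem lam_unique {lam : L →ₗ[F] F} (hlam : lam ≠ 0) {x y : L}
    (hxy : ∀ a : L, lam (a * x) = lam (a * y)) : x = y := by
  by_contra hne
  apply hlam
  ext z
  have h1 := hxy (z / (x - y))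
  rw [← sub_eq_zero, ← map_sub, ← mul_sub] at h1
  rwa [div_mul_cancel₀ _ (sub_ne_zero.mpr hne)] at h1

end forms

section adj

variable {F L V : Type*} [Field F] [Field L] [Algebra F L]
  [AddCommGroup V] [Module L V] [Module F V] [IsScalarTower F L V]
  {h : LinearMap.BilinForm L V}

theorem adj_formula {lam : L →ₗ[F] F} (hlam : lam ≠ 0) {u : V ≃ₗ[F] V}
    (hu : ∀ x y, lam (h (u x) (u y)) = lam (h x y)) {π : L →ₗ[F] F} {d : L}
    (hd : π = lam ∘ₗ m F d) {b : V} {p' : L} (hua : ∀ a : L, u (a • b) = (a + π a • p') • b)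
    (y : V) : h (u⁻¹ y) b = h y b + lam (p' * h y b) • d := by
  apply lam_unique hlam
  intro a
  have e1 : a * h (u⁻¹ y) b = h (u⁻¹ y) (a • b) := by simp
  rw [e1, ← hu, inv_app, hua]
  subst hd
  simp only [map_smul, map_add, smul_eq_mul, add_mul, mul_add, smul_mul_assoc, mul_smul_comm,
    LinearMap.comp_apply, m_apply]
  rw [mul_comm (lam (d * a)), mul_comm d a]

theorem conj_sp (H : SpH h) {lam : L →ₗ[F] F} (hlam : lam ≠ 0) {u : V ≃ₗ[F] V}
    (hu : ∀ x y, lam (h (u x) (u y)) = lam (h x y)) {π : L →ₗ[F] F} {d : L}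
    (hd : π = lam ∘ₗ m F d) {b : V} {p' : L} (hua : ∀ a : L, u (a • b) = (a + π a • p') • b)
    (f : L →ₗ[F] L) :
    u * rt (H.psi_self b) f * u⁻¹ = rt (H.psi_self b)
      ((LinearMap.id + ro p' π) ∘ₗ f ∘ₗ (LinearMap.id + ro d (lam ∘ₗ m F p'))) := by
  ext y
  simp only [LinearEquiv.mul_apply, rt_apply, map_add, inv_app, hua, LinearMap.comp_apply,
    LinearMap.add_apply, LinearMap.id_apply, LinearMap.smulRight_apply, m_apply]
  have e : (h.flip b) (u⁻¹ y) = (h.flip b) y + lam (p' * (h.flip b) y) • d :=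
    adj_formula hlam hu hd hua y
  rw [e]
  simp only [map_add, add_smul, smul_add]
  abel

end adj

section SS

variable {F L V : Type*} [Field F] [Field L] [Algebra F L]
  [AddCommGroup V] [Module L V] [Module F V] [IsScalarTower F L V]
  {h : LinearMap.BilinForm L V} [Finite F] [Module.Finite F L]

theorem m_mem (H : SpH h) {X : Subgroup (V ≃ₗ[F] V)} (hX : HS h X) (b : V) (κ : L) :
    m F κ ∈ SS X (H.psi_self b) := by
  rw [mem_SS]
  have : rt (H.psi_self b) (m F κ) = toF (tauE H b κ) := by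
    ext y
    rw [toF_apply, tauE_apply]
    rfl
  rw [this]
  exact hX _ (tauE_isom H b κ)

theorem mam_mem (H : SpH h) {X : Subgroup (V ≃ₗ[F] V)} (hX : HS h X) {b : V} (hb : b ≠ 0)
    {f : L →ₗ[F] L} (hf : f ∈ SS X (H.psi_self b)) {a : L} (ha : a ≠ 0) :
    m F a ∘ₗ f ∘ₗ m F a ∈ SS X (H.psi_self b) := by
  obtain ⟨z, hzb⟩ := exists_frame_sp H hb
  obtain ⟨g, hg, hge⟩ := exists_He (F := F) H hzb ha (inv_ne_zero ha) (mul_inv_cancel₀ ha) f
  have h1 := hX g hg
  have h2 := X.mul_mem (X.mul_mem h1 hf) (X.inv_mem h1)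
  rw [hge, inv_inv] at h2
  exact h2

theorem smul_mem_S (H : SpH h) {X : Subgroup (V ≃ₗ[F] V)} (hX : HS h X) {b : V} (hb : b ≠ 0)
    (c : F) {f : L →ₗ[F] L} (hf : f ∈ SS X (H.psi_self b)) : c • f ∈ SS X (H.psi_self b) := by
  apply add_closure_squares _ c hf
  intro c hc f hf
  have h0 : algebraMap F L c ≠ 0 := by simpa using hc
  have h1 := mam_mem H hX hb hf h0
  convert h1 using 1
  ext x
  simp only [LinearMap.smul_apply, LinearMap.comp_apply, m_apply]
  rw [← Algebra.smul_def, ← Algebra.smul_def, map_smul, mul_smul]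

theorem E_mem (H : SpH h) {X : Subgroup (V ≃ₗ[F] V)} (hX : HS h X) {lam : L →ₗ[F] F}
    (hlam : lam ≠ 0) (hiso : ∀ g ∈ X, ∀ x y, lam (h (g x) (g y)) = lam (h x y)) {b : V}
    {p d : L} {π : L →ₗ[F] F} (hd : π = lam ∘ₗ m F d)
    (hu : ∀ t : F, ∃ u ∈ X, ∀ a : L, u (a • b) = (a + π a • (t • p)) • b) (κ : L) (t : F) :
    t • Bl lam (κ * d) p + (t * t * π (κ * d)) • Gl lam p ∈ SS X (H.psi_self b) := by
  obtain ⟨u, hu1, hu2⟩ := hu t
  have h1 := conj_sp H hlam (hiso u hu1) hd hu2 (m F κ)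
  have h2 : u * rt (H.psi_self b) (m F κ) * u⁻¹ ∈ X :=
    X.mul_mem (X.mul_mem hu1 (m_mem H hX b κ)) (X.inv_mem hu1)
  rw [h1] at h2
  have h3 := (SS X (H.psi_self b)).sub_mem h2 (m_mem H hX b κ)
  convert h3 using 1
  ext x
  subst hd
  simp only [LinearMap.sub_apply, LinearMap.comp_apply, LinearMap.add_apply, LinearMap.id_apply,
    LinearMap.smulRight_apply, m_apply, LinearMap.smul_apply, Bl_apply, Gl_apply, mul_add,
    mul_smul_comm, map_add, map_smul, smul_eq_mul, smul_mul_assoc]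
  have e1 : lam (d * (κ * x)) = lam (κ * d * x) := by
    congr 1
    ring
  rw [e1]
  module

theorem Gl_mem_of_three (H : SpH h) {X : Subgroup (V ≃ₗ[F] V)} (hX : HS h X) {lam : L →ₗ[F] F}
    (hlam : lam ≠ 0) (hiso : ∀ g ∈ X, ∀ x y, lam (h (g x) (g y)) = lam (h x y)) {b : V} (hb : b ≠ 0)
    {p : L} {π : L →ₗ[F] F} (hπ : π ≠ 0)
    (hu : ∀ t : F, ∃ u ∈ X, ∀ a : L, u (a • b) = (a + π a • (t • p)) • b)
    {t0 : F} (ht0 : t0 ≠ 0) (ht1 : t0 ≠ 1) : Gl lam p ∈ SS X (H.psi_self b) := by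
  obtain ⟨d, hd⟩ := nondeg hlam π
  have hd0 : d ≠ 0 := by
    rintro rfl
    apply hπ
    rw [hd]
    ext x
    simp
  obtain ⟨x0, hx0⟩ : ∃ x0, π x0 = 1 := by
    obtain ⟨x, hx⟩ : ∃ x, π x ≠ 0 := by
      by_contra h0
      push Not at h0
      exact hπ (LinearMap.ext h0)
    exact ⟨(π x)⁻¹ • x, by simp [hx]⟩
  have hκ : x0 / d * d = x0 := div_mul_cancel₀ _ hd0
  have h1 := E_mem H hX hlam hiso hd hu (x0 / d) 1
  have h2 := E_mem H hX hlam hiso hd hu (x0 / d) t0
  rw [hκ, hx0] at h1 h2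
  have h3 := (SS X (H.psi_self b)).sub_mem (smul_mem_S H hX hb t0 h1) h2
  have h4 : t0 - t0 * t0 ≠ 0 := by
    intro h5
    have h6 : t0 * (1 - t0) = 0 := by linear_combination h5
    rcases mul_eq_zero.mp h6 with h7 | h7
    · exact ht0 h7
    · exact ht1 (sub_eq_zero.mp h7).symm
  have h5 := smul_mem_S H hX hb (t0 - t0 * t0)⁻¹ h3
  have key : t0 • ((1 : F) • Bl lam x0 p + ((1 : F) * 1 * 1) • Gl lam p) -
      (t0 • Bl lam x0 p + (t0 * t0 * 1) • Gl lam p) = (t0 - t0 * t0) • Gl lam p := by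
    module
  rw [key, smul_smul, inv_mul_cancel₀ h4, one_smul] at h5
  exact h5

theorem Gl_mem_of_char2 (hr : (finrank F L).Prime) (hr3 : 3 ≤ finrank F L) (h2 : (2 : F) = 0)
    (H : SpH h) {X : Subgroup (V ≃ₗ[F] V)} (hX : HS h X) {lam : L →ₗ[F] F}
    (hlam : lam ≠ 0) (hiso : ∀ g ∈ X, ∀ x y, lam (h (g x) (g y)) = lam (h x y)) {b : V} (hb : b ≠ 0)
    {p : L} (hp : p ≠ 0) {π : L →ₗ[F] F} (hπ : π ≠ 0) (hπp : π p = 0)
    (hu : ∀ t : F, ∃ u ∈ X, ∀ a : L, u (a • b) = (a + π a • (t • p)) • b) :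
    Gl lam p ∈ SS X (H.psi_self b) := by
  set S := SS X (H.psi_self b) with hS
  obtain ⟨d, hd⟩ := nondeg hlam π
  have hd0 : d ≠ 0 := by
    rintro rfl
    apply hπ
    rw [hd]
    ext x
    simp
  obtain ⟨x0, hx0⟩ : ∃ x0, π x0 = 1 := by
    obtain ⟨x, hx⟩ : ∃ x, π x ≠ 0 := by
      by_contra h0
      push Not at h0
      exact hπ (LinearMap.ext h0)
    exact ⟨(π x)⁻¹ • x, by simp [hx]⟩
  have hE : ∀ e : L, Bl lam e p + π e • Gl lam p ∈ S := by
    intro e
    have h1 := E_mem H hX hlam hiso hd hu (e / d) 1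
    rw [div_mul_cancel₀ _ hd0] at h1
    simpa using h1
  -- a second vector in the kernel
  obtain ⟨e0, he0, he0p⟩ : ∃ e0, π e0 = 0 ∧ e0 ∉ Submodule.span F {p} := by
    by_contra hno
    push Not at hno
    have hle : LinearMap.ker π ≤ Submodule.span F {p} := fun e he => hno e he
    have h3 := Submodule.finrank_mono hle
    have h4 := finrank_span_singleton (K := F) hp
    have h5 := LinearMap.finrank_range_add_finrank_ker π
    have h6 : finrank F (LinearMap.range π) ≤ 1 := by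
      have := Submodule.finrank_le (LinearMap.range π)
      simpa using this
    omega
  let x : L := e0 / p
  have hxp : x * p = e0 := div_mul_cancel₀ _ hp
  have hxF : ∀ c : F, algebraMap F L c ≠ x := by
    intro c hc
    apply he0p
    refine Submodule.mem_span_singleton.mpr ⟨c, ?_⟩
    rw [Algebra.smul_def, hc, hxp]
  have hB0 : Bl lam e0 p ∈ S := by
    have := hE e0
    rwa [he0, zero_smul, add_zero] at this
  -- the basic relation
  have hstar : ∀ s : L, Bl lam (x * s) s ∈ S := by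
    intro s
    by_cases hs : s = 0
    · subst hs
      have : Bl lam (x * 0) 0 = 0 := by
        ext y
        simp [Bl_apply]
      rw [this]
      exact S.zero_mem
    · have ha : s / p ≠ 0 := div_ne_zero hs hp
      have h1 := mam_mem H hX hb hB0 ha
      rw [mam_Bl, div_mul_cancel₀ _ hp, ← hxp] at h1
      convert h1 using 2
      field_simp
  have hpol : ∀ s t : L, Bl lam (x * s) t + Bl lam (x * t) s ∈ S := by
    intro s t
    have h1 := hstar (s + t)
    have h3 := S.sub_mem (S.sub_mem h1 (hstar s)) (hstar t)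
    convert h3 using 1
    rw [mul_add, Bl_add_left, Bl_add_right, Bl_add_right]
    abel
  -- self-adjoint elements form a subalgebra
  have hneg : ∀ f g : L →ₗ[F] L, f + g ∈ S → f + g + (g + g) ∈ S := by
    intro f g hfg
    have : g + g ∈ S := by
      have h5 : g + g = 0 := by
        ext y
        rw [LinearMap.add_apply, ← two_smul F, h2, zero_smul]
        rfl
      rw [h5]
      exact S.zero_mem
    exact S.add_mem hfg this
  let T : Subalgebra F L :=
    { carrier := {y | ∀ s t : L, Bl lam (y * s) t + Bl lam (y * t) s ∈ S}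
      mul_mem' := by
        intro y y' hy hy' s t
        have h3 := hy (y' * s) t
        have h4 := hy' s (y * t)
        have h5 := S.add_mem h3 h4
        convert h5 using 1
        have e1 : y * y' * s = y * (y' * s) := by ring
        have e2 : y * y' * t = y' * (y * t) := by ring
        rw [e1, e2, Bl_symm lam (y' * s) (y * t)]
        have h6 := Bl_add_self h2 lam (y * t) (y' * s)
        calc Bl lam (y * (y' * s)) t + Bl lam (y' * (y * t)) s
            = Bl lam (y * (y' * s)) t + Bl lam (y' * (y * t)) s +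
              (Bl lam (y * t) (y' * s) + Bl lam (y * t) (y' * s)) := by rw [h6, add_zero]
          _ = _ := by abel
      add_mem' := by
        intro y y' hy hy' s t
        have h3 := S.add_mem (hy s t) (hy' s t)
        convert h3 using 1
        rw [add_mul, add_mul, Bl_add_left, Bl_add_left]
        abel
      algebraMap_mem' := by
        intro c s t
        have e1 : algebraMap F L c * s = c • s := (Algebra.smul_def _ _).symm
        have e2 : algebraMap F L c * t = c • t := (Algebra.smul_def _ _).symm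
        rw [e1, e2, Bl_smul_left, Bl_smul_left, Bl_symm lam t s, ← smul_add, Bl_add_self h2,
          smul_zero]
        exact S.zero_mem }
  have hxT : x ∈ T := hpol
  have hTtop : T = ⊤ := alg_eq_top hr T hxT hxF
  have hall : ∀ y s t : L, Bl lam (y * s) t + Bl lam (y * t) s ∈ S := by
    intro y
    have : y ∈ T := by rw [hTtop]; trivial
    exact this
  -- every element of `L` is a square
  have hsq : ∀ y : L, Bl lam y 1 ∈ S := by
    intro y
    classical
    haveI : Finite L := Module.finite_of_finite F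
    haveI : Fintype L := Fintype.ofFinite L
    have hL2 : (2 : L) = 0 := by
      have := congrArg (algebraMap F L) h2
      rwa [map_ofNat, map_zero] at this
    haveI : CharP L 2 := CharTwo.of_one_ne_zero_of_two_eq_zero one_ne_zero hL2
    have h3 : ringChar L = 2 := ringChar.eq L 2
    obtain ⟨z, rfl⟩ := FiniteField.isSquare_of_char_two h3 y
    have h4 := hall z z 1
    rw [mul_one, Bl_self h2, add_zero] at h4
    exact h4
  have hB : ∀ s t : L, Bl lam s t ∈ S := by
    intro s t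
    by_cases ht : t = 0
    · subst ht
      have : Bl lam s 0 = 0 := by
        ext y
        simp [Bl_apply]
      rw [this]
      exact S.zero_mem
    · have h3 := mam_mem H hX hb (hsq (s / t)) ht
      rw [mam_Bl, mul_one, mul_div_cancel₀ _ ht] at h3
      exact h3
  have h3 := S.sub_mem (hE x0) (hB x0 p)
  rw [hx0, one_smul, add_sub_cancel_left] at h3
  exact h3

theorem tau_of_Gl (H : SpH h) {X : Subgroup (V ≃ₗ[F] V)} (hX : HS h X) {lam : L →ₗ[F] F} {b : V}
    (hb : b ≠ 0) {p : L} (hG : Gl lam p ∈ SS X (H.psi_self b)) (c : F) :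
    ∃ τ ∈ X, ∀ y, τ y = y + (c * lam (h y (p • b))) • (p • b) := by
  refine ⟨rt (H.psi_self b) (c • Gl lam p), smul_mem_S H hX hb c hG, fun y => ?_⟩
  rw [rt_apply, LinearMap.smul_apply, Gl_apply]
  have e : (h.flip b) y = h y b := rfl
  rw [e, map_smul, smul_eq_mul, smul_assoc, smul_assoc, mul_smul]

theorem all_tau (H : SpH h) {X : Subgroup (V ≃ₗ[F] V)} (hX : HS h X) {lam : L →ₗ[F] F} {w0 : V}
    (hw0 : w0 ≠ 0) (hT : ∀ c : F, ∃ τ ∈ X, ∀ y, τ y = y + (c * lam (h y w0)) • w0) [Module.Finite L V]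
    (w : V) (c : F) : ∃ τ ∈ X, ∀ y, τ y = y + (c * lam (h y w)) • w := by
  by_cases hw : w = 0
  · subst hw
    refine ⟨1, X.one_mem, fun y => ?_⟩
    simp
  obtain ⟨s, hs, hsw⟩ := exists_trans_sp H hw0 hw
  obtain ⟨τ, hτ, hτ1⟩ := hT c
  have h1 := hX s hs
  refine ⟨toF s * τ * (toF s)⁻¹, X.mul_mem (X.mul_mem h1 hτ) (X.inv_mem h1), fun y => ?_⟩
  have e1 : (toF (F := F) s)⁻¹ y = s.symm y := rfl
  simp only [LinearEquiv.mul_apply, e1, toF_apply]
  rw [hτ1, map_add, LinearEquiv.apply_symm_apply]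
  congr 1
  rw [← algebraMap_smul L (c * lam (h (s.symm y) w0)) w0, map_smul, hsw, algebraMap_smul]
  congr 3
  have e2 : h (s.symm y) w0 = h (s (s.symm y)) (s w0) := (hs _ _).symm
  rw [e2, LinearEquiv.apply_symm_apply, hsw]

theorem core_sp1 [Module.Finite L V] [Module.Finite F V] (hr : (finrank F L).Prime)
    (hm : 2 ≤ finrank L V)
    (H : SpH h) {X : Subgroup (V ≃ₗ[F] V)} (hX : HS h X) {lam : L →ₗ[F] F}
    (hlam : lam ≠ 0) (hiso : ∀ g ∈ X, ∀ x y, lam (h (g x) (g y)) = lam (h x y))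
    {x : V ≃ₗ[F] V} (hxX : x ∈ X) (hxS : ¬ Semi (L := L) x)
    (hcase : (∃ t0 : F, t0 ≠ 0 ∧ t0 ≠ 1) ∨ ((2 : F) = 0 ∧ 3 ≤ finrank F L)) (w : V) (c : F) :
    ∃ τ ∈ X, ∀ y, τ y = y + (c * lam (h y w)) • w := by
  have : Nontrivial V := Module.nontrivial_of_finrank_pos (R := L) (by omega)
  obtain ⟨b, hb⟩ := exists_ne (0 : V)
  obtain ⟨g, hg⟩ := exists_maxG_sp H hX hm hxX hxS hb
  obtain ⟨p, hp, π, hπ, hπp, hu⟩ := exists_u_sp hr H hX hb hg
  have hG : Gl lam p ∈ SS X (H.psi_self b) := by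
    rcases hcase with ⟨t0, ht0, ht1⟩ | ⟨h2, hr3⟩
    · exact Gl_mem_of_three H hX hlam hiso hb hπ hu ht0 ht1
    · exact Gl_mem_of_char2 hr hr3 h2 H hX hlam hiso hb hp hπ hπp hu
  have hw0 : p • b ≠ 0 := smul_ne_zero hp hb
  exact all_tau H hX hw0 (tau_of_Gl H hX hb hG) w c

end SS

end Cfsg.Agent.Lib.ExtSpC
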