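import Mathlib
import Cfsg.Agent.Lib.ExtA
import Cfsg.Agent.Lib.ExtB
import Cfsg.Agent.Lib.ExtC
import Cfsg.Agent.Lib.ExtE
import Cfsg.Agent.Lib.ExtSpA
import Cfsg.Agent.Lib.ExtSpB
import Cfsg.Agent.Lib.ExtSpC

set_option autoImplicit false
set_option linter.unusedSectionVars false
set_option linter.unusedSimpArgs false
set_option linter.unusedVariables false
set_option linter.style.haveILetI false

namespace Cfsg.Agent.Lib.ExtSpD

open Module Cfsg.Agent.Lib.ExtA Cfsg.Agent.Lib.ExtB Cfsg.Agent.Lib.ExtC Cfsg.Agent.Lib.ExtE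
  Cfsg.Agent.Lib.ExtSpA Cfsg.Agent.Lib.ExtSpB Cfsg.Agent.Lib.ExtSpC

section field

variable {F L : Type*} [Field F] [Field L] [Algebra F L] [Finite F] [Module.Finite F L]

theorem f4_lemma (hq : ∀ c : F, c = 0 ∨ c = 1) {lam : L →ₗ[F] F} (hlam : lam ≠ 0) {θ : L}
    {R T : L →ₗ[F] F} (hR1 : R 1 = 1) (hT1 : T 1 = 0) (hRθ : R θ = 0) (hTθ : T θ = 1)
    (hdec : ∀ a : L, a = R a • 1 + T a • θ) :
    ∃ κ : L, ∀ s : L, R (κ * s) = lam s ∧ T (κ * s) = lam (θ * s) := by
  have h2 : (2 : L) = 0 := two_L (F := F) hq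
  have h0 : θ ≠ 0 := by
    intro h
    rw [h, map_zero] at hTθ
    exact zero_ne_one hTθ
  have h1 : θ ≠ 1 := by
    intro h
    rw [h, hT1] at hTθ
    exact zero_ne_one hTθ
  have hθ : θ * θ = θ + 1 := by
    have hd := hdec (θ * θ)
    rcases hq (R (θ * θ)) with a | a <;> rcases hq (T (θ * θ)) with b | b <;> rw [a, b] at hd <;>
      simp only [zero_smul, one_smul, add_zero, zero_add] at hd
    · exfalso
      exact h0 (mul_self_eq_zero.mp hd)
    · exfalso
      have h3 : θ * (θ - 1) = 0 := by linear_combination hd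
      rcases mul_eq_zero.mp h3 with h4 | h4
      · exact h0 h4
      · exact h1 (sub_eq_zero.mp h4)
    · exfalso
      have h3 : (θ - 1) * (θ - 1) = 0 := by linear_combination hd - θ * h2 + h2
      exact h1 (sub_eq_zero.mp (mul_self_eq_zero.mp h3))
    · linear_combination hd
  obtain ⟨d, hd⟩ := nondeg hlam R
  have hR : ∀ x, R x = lam (d * x) := fun x => by rw [hd]; rfl
  have hd0 : d ≠ 0 := by
    rintro rfl
    have := hR 1
    rw [hR1] at this
    simp at this
  have hT : ∀ x, T x = lam (θ * d * x) := by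
    intro x
    have e1 : lam (θ * d * 1) = 0 := by
      rw [← hRθ, hR]
      congr 1
      ring
    have e2 : lam (θ * d * θ) = 1 := by
      have e3 : θ * d * θ = d * θ + d * 1 := by
        calc θ * d * θ = d * (θ * θ) := by ring
          _ = _ := by rw [hθ]; ring
      rw [e3, map_add, ← hR, ← hR, hRθ, hR1, zero_add]
    conv_rhs => rw [hdec x]
    rw [mul_add, mul_smul_comm, mul_smul_comm, map_add, map_smul, map_smul, e1, e2]
    simp
  refine ⟨d⁻¹, fun s => ⟨?_, ?_⟩⟩
  · rw [hR, ← mul_assoc, mul_inv_cancel₀ hd0, one_mul]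
  · rw [hT]
    congr 1
    field_simp

end field

section main

variable {F L V : Type*} [Field F] [Field L] [Algebra F L]
  [AddCommGroup V] [Module L V] [Module F V] [IsScalarTower F L V]
  {h : LinearMap.BilinForm L V} [Finite F] [Module.Finite F L] [Module.Finite L V]
  [Module.Finite F V]

theorem exists_P (hq : ∀ c : F, c = 0 ∨ c = 1) (hr2 : finrank F L = 2) (hm : 2 ≤ finrank L V)
    (H : SpH h) {X : Subgroup (V ≃ₗ[F] V)} (hX : HS h X) {lam : L →ₗ[F] F} (hlam : lam ≠ 0)
    (hiso : ∀ g ∈ X, ∀ x y, lam (h (g x) (g y)) = lam (h x y)) {x : V ≃ₗ[F] V} (hxX : x ∈ X)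
    (hxS : ¬ Semi (L := L) x) {b : V} (hb : b ≠ 0) :
    ∃ w2 : V, w2 ∉ Submodule.span L {b} ∧ lam (h b w2) = 0 ∧
      ∃ P ∈ X, ∀ y, P y = y + lam (h y b) • b + lam (h y w2) • w2 := by
  obtain ⟨g, hg, hgb, θ, hθ⟩ := exists_start_sp H hX hm hxX hxS hb
  have hθF : ∀ c : F, algebraMap F L c ≠ θ := by
    intro c hc
    apply hθ
    rw [← hc, algebraMap_smul, map_smul, hgb]
    exact (lin F L b).smul_mem c (mem_lin.mpr ⟨1, one_smul _ _⟩)
  obtain ⟨R, T, hR1, hT1, hRθ, hTθ, hdec⟩ := exists_coord hr2 hθF
  obtain ⟨κ, hκ⟩ := f4_lemma hq hlam hR1 hT1 hRθ hTθ hdec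
  refine ⟨g (θ • b), hθ, ?_, ?_⟩
  · have e1 := hiso g hg b (θ • b)
    rw [hgb] at e1
    rw [e1, map_smul, H.alt, smul_zero, map_zero]
  · have hP := X.mul_mem (X.mul_mem hg (m_mem H hX b κ)) (X.inv_mem hg)
    refine ⟨_, hP, fun y => ?_⟩
    rw [conj_eq (H.psi_self b) κ y, Ek_apply]
    set s := (h.flip b) (g⁻¹ y) with hs
    have hs' : s = h (g⁻¹ y) b := rfl
    have e1 : lam s = lam (h y b) := by
      have := hiso g hg (g⁻¹ y) b
      rw [inv_app, hgb] at this
      rw [hs', this]
    have e2 : lam (θ * s) = lam (h y (g (θ • b))) := by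
      have := hiso g hg (g⁻¹ y) (θ • b)
      rw [inv_app] at this
      rw [this, map_smul, hs']
      rfl
    have e3 : g ((κ * s) • b) = R (κ * s) • b + T (κ * s) • g (θ • b) := by
      conv_lhs => rw [hdec (κ * s)]
      rw [add_smul, smul_assoc, smul_assoc, one_smul, map_add, map_smul, map_smul, hgb]
    rw [e3, (hκ s).1, (hκ s).2, e1, e2, add_assoc]

theorem P_transport (H : SpH h) {X : Subgroup (V ≃ₗ[F] V)} (hX : HS h X) {lam : L →ₗ[F] F}
    {a b a' b' : V} (ha : a ≠ 0) (ha' : a' ≠ 0) (hb : b ∉ Submodule.span L {a})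
    (hb' : b' ∉ Submodule.span L {a'}) (he : h a b = h a' b')
    (hP : ∃ P ∈ X, ∀ y, P y = y + lam (h y a) • a + lam (h y b) • b) :
    ∃ P ∈ X, ∀ y, P y = y + lam (h y a') • a' + lam (h y b') • b' := by
  obtain ⟨s, hs, hsa, hsb⟩ := witt_pair H ha ha' hb hb' he
  obtain ⟨P, hP1, hP2⟩ := hP
  have h1 := hX s hs
  refine ⟨toF s * P * (toF s)⁻¹, X.mul_mem (X.mul_mem h1 hP1) (X.inv_mem h1), fun y => ?_⟩
  have e0 : (toF (F := F) s)⁻¹ y = s.symm y := rfl
  have e1 : ∀ (c : F) (v : V), s (c • v) = c • s v := fun c v => (toF (F := F) s).map_smul c v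
  have e2 : h (s.symm y) a = h y a' := by
    rw [← hs (s.symm y) a, LinearEquiv.apply_symm_apply, hsa]
  have e3 : h (s.symm y) b = h y b' := by
    rw [← hs (s.symm y) b, LinearEquiv.apply_symm_apply, hsb]
  simp only [LinearEquiv.mul_apply, e0, toF_apply]
  rw [hP2, map_add, map_add, e1, e1, LinearEquiv.apply_symm_apply, hsa, hsb, e2, e3]

theorem exists_perp (hm : 5 ≤ finrank L V) (a b : V) :
    ∃ c : V, h a c = 0 ∧ h b c = 0 ∧ c ∉ Submodule.span L {a, b} := by
  by_contra hno
  push Not at hno
  let Φ : V →ₗ[L] L × L := (h a).prod (h b)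
  have hle : LinearMap.ker Φ ≤ Submodule.span L {a, b} := by
    intro c hc
    have h1 : Φ c = 0 := hc
    have h2 : h a c = 0 := congrArg Prod.fst h1
    have h3 : h b c = 0 := congrArg Prod.snd h1
    exact hno c h2 h3
  have h1 := Submodule.finrank_mono hle
  have h2 := LinearMap.finrank_range_add_finrank_ker Φ
  have h3 : finrank L (LinearMap.range Φ) ≤ 2 := by
    have := Submodule.finrank_le (LinearMap.range Φ)
    simpa using this
  have h4 : finrank L (Submodule.span L {a, b}) ≤ 2 := by
    classical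
    have := finrank_span_finset_le_card (R := L) (M := V) (({a, b} : Finset V))
    have h5 : (({a, b} : Finset V) : Set V) = {a, b} := by simp
    rw [h5] at this
    exact this.trans Finset.card_le_two
  omega

theorem P_f {lam : L →ₗ[F] F} {P : V ≃ₗ[F] V} {v1 v2 v : V}
    (hP : ∀ y, P y = y + lam (h y v1) • v1 + lam (h y v2) • v2) (h1 : lam (h v1 v) = 0)
    (h2 : lam (h v2 v) = 0) (y : V) : lam (h (P y) v) = lam (h y v) := by
  have e : ∀ (c : F) (u : V), lam (h (c • u) v) = c • lam (h u v) := by
    intro c u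
    rw [LinearMap.map_smul_of_tower, LinearMap.smul_apply, map_smul]
  rw [hP]
  simp only [map_add, LinearMap.add_apply, e, h1, h2, smul_zero, add_zero]

theorem core_sp2 (hq : ∀ c : F, c = 0 ∨ c = 1) (hr2 : finrank F L = 2) (hm : 5 ≤ finrank L V)
    (H : SpH h) {X : Subgroup (V ≃ₗ[F] V)} (hX : HS h X) {lam : L →ₗ[F] F} (hlam : lam ≠ 0)
    (hiso : ∀ g ∈ X, ∀ x y, lam (h (g x) (g y)) = lam (h x y)) {x : V ≃ₗ[F] V} (hxX : x ∈ X)
    (hxS : ¬ Semi (L := L) x) (w : V) (c0 : F) :
    ∃ τ ∈ X, ∀ y, τ y = y + (c0 * lam (h y w)) • w := by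
  have : Nontrivial V := Module.nontrivial_of_finrank_pos (R := L) (by omega)
  obtain ⟨a, ha⟩ := exists_ne (0 : V)
  obtain ⟨b, hb, hab, P1, hP1, hP1a⟩ := exists_P hq hr2 (by omega) H hX hlam hiso hxX hxS ha
  obtain ⟨c, hac, hbc, hc⟩ := exists_perp (h := h) hm a b
  have h2L : (2 : L) = 0 := two_L (F := F) hq
  have h2F : (2 : F) = 0 := by
    have := one_add_one_of_two hq
    rw [← this]
    norm_num
  have hca : h c a = 0 := by rw [H.skew, hac, neg_zero]
  have hcb : h c b = 0 := by rw [H.skew, hbc, neg_zero]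
  have hba : lam (h b a) = 0 := by rw [H.skew, map_neg, hab, neg_zero]
  have hneg : ∀ e : L, -e = e := by
    intro e
    linear_combination (-e) * h2L
  have hcs : ∀ u ∈ Submodule.span L {a, b}, c ≠ u := fun u hu e => hc (e ▸ hu)
  have ha_mem : a ∈ Submodule.span L {a, b} := Submodule.subset_span (by simp)
  have hb_mem : b ∈ Submodule.span L {a, b} := Submodule.subset_span (by simp)
  have hsm : ∀ (s t : L), s • a + t • b ∈ Submodule.span L {a, b} := fun s t =>
    Submodule.add_mem _ (Submodule.smul_mem _ _ ha_mem) (Submodule.smul_mem _ _ hb_mem)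
  have hac0 : a + c ≠ 0 := by
    intro e
    apply hc
    have : c = (-1 : L) • a + (0 : L) • b := by
      simp only [neg_smul, one_smul, zero_smul, add_zero]
      exact eq_neg_of_add_eq_zero_right e
    rw [this]
    exact hsm _ _
  have hbc0 : b + c ≠ 0 := by
    intro e
    apply hc
    have : c = (0 : L) • a + (-1 : L) • b := by
      simp only [neg_smul, one_smul, zero_smul, zero_add]
      exact eq_neg_of_add_eq_zero_right e
    rw [this]
    exact hsm _ _
  have hn1 : a + b ∉ Submodule.span L {a + c} := by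
    intro e
    obtain ⟨t, ht⟩ := Submodule.mem_span_singleton.mp e
    by_cases ht0 : t = 0
    · apply hb
      have h3 : a + b = 0 := by rw [← ht, ht0, zero_smul]
      have h4 : b = (-1 : L) • a := by
        simp only [neg_smul, one_smul]
        exact eq_neg_of_add_eq_zero_right h3
      rw [h4]
      exact Submodule.smul_mem _ _ (Submodule.mem_span_singleton_self a)
    · apply hc
      have h3 : c = (t⁻¹ - 1) • a + t⁻¹ • b := by
        have h4 : t • a + t • c = a + b := by rw [← ht, smul_add]
        have h5 : t • c = (1 - t) • a + b := by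
          rw [sub_smul, one_smul]
          have h7 : t • c = a + b - t • a := by
            rw [← h4]
            abel
          rw [h7]
          abel
        have h6 : c = t⁻¹ • (t • c) := by rw [smul_smul, inv_mul_cancel₀ ht0, one_smul]
        rw [h6, h5, smul_add, smul_smul, mul_sub, mul_one, inv_mul_cancel₀ ht0]
      rw [h3]
      exact hsm _ _
  have hn2 : a + b + c ∉ Submodule.span L {b + c} := by
    intro e
    obtain ⟨t, ht⟩ := Submodule.mem_span_singleton.mp e
    by_cases ht1 : t = 1
    · apply ha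
      rw [ht1, one_smul] at ht
      have h3 : a + (b + c) = b + c := by rw [← add_assoc]; exact ht.symm
      exact add_eq_right.mp h3
    · apply hc
      have h0 : t - 1 ≠ 0 := sub_ne_zero.mpr ht1
      have h3 : c = (t - 1)⁻¹ • a + ((-1 : L)) • b := by
        have h4 : t • b + t • c = a + b + c := by rw [← ht, smul_add]
        have h5 : (t - 1) • c = a + (1 - t) • b := by
          rw [sub_smul, sub_smul, one_smul, one_smul]
          rw [eq_comm] at h4
          have h6 : t • c = a + b + c - t • b := by rw [h4]; abel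
          rw [h6]
          abel
        have h6 : c = (t - 1)⁻¹ • ((t - 1) • c) := by rw [smul_smul, inv_mul_cancel₀ h0, one_smul]
        rw [h6, h5, smul_add, smul_smul]
        congr 2
        field_simp
        ring
      rw [h3]
      exact hsm _ _
  have he2 : h a b = h (a + c) (a + b) := by
    simp only [map_add, LinearMap.add_apply, H.alt, hca, hcb, zero_add, add_zero]
  have he3 : h a b = h (b + c) (a + b + c) := by
    simp only [map_add, LinearMap.add_apply, H.alt, hca, hcb, hbc, hac, zero_add, add_zero]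
    rw [H.skew b a, hneg]
  obtain ⟨P2, hP2, hP2a⟩ := P_transport H hX ha hac0 hb hn1 he2 ⟨P1, hP1, hP1a⟩
  obtain ⟨P3, hP3, hP3a⟩ := P_transport H hX ha hbc0 hb hn2 he3 ⟨P1, hP1, hP1a⟩
  -- orthogonality
  have haa : lam (h a a) = 0 := by rw [H.alt, map_zero]
  have hbb : lam (h b b) = 0 := by rw [H.alt, map_zero]
  have hcc : lam (h c c) = 0 := by rw [H.alt, map_zero]
  have hac' : lam (h a c) = 0 := by rw [hac, map_zero]
  have hbc' : lam (h b c) = 0 := by rw [hbc, map_zero]
  have hca' : lam (h c a) = 0 := by rw [hca, map_zero]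
  have hcb' : lam (h c b) = 0 := by rw [hcb, map_zero]
  have hT : ∀ c1 : F, ∃ τ ∈ X, ∀ y, τ y = y + (c1 * lam (h y c)) • c := by
    have key : ∀ y, (P1 * P2 * P3) y = y + lam (h y c) • c := by
      intro y
      simp only [LinearEquiv.mul_apply]
      have e3 := hP3a y
      have e2 := hP2a (P3 y)
      have e1 := hP1a (P2 (P3 y))
      have f3 : ∀ v, lam (h (b + c) v) = 0 → lam (h (a + b + c) v) = 0 → lam (h (P3 y) v) = lam (h y v) :=
        fun v h1 h2 => P_f hP3a h1 h2 y
      have f2 : ∀ (z v : V), lam (h (a + c) v) = 0 → lam (h (a + b) v) = 0 →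
          lam (h (P2 z) v) = lam (h z v) :=
        fun z v h1 h2 => P_f hP2a h1 h2 z
      simp only [map_add, LinearMap.add_apply] at f3 f2
      have g1 : lam (h (P3 y) a) = lam (h y a) := by
        have := f3 a (by simp only [haa, hba, hca', add_zero]) (by simp only [haa, hba, hca', add_zero])
        simpa only [map_add, LinearMap.add_apply] using this
      have g2 : lam (h (P3 y) b) = lam (h y b) := by
        have := f3 b (by simp only [hbb, hab, hcb', add_zero]) (by simp only [hbb, hab, hcb', add_zero])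
        simpa only [map_add, LinearMap.add_apply] using this
      have g3 : lam (h (P3 y) c) = lam (h y c) := by
        have := f3 c (by simp only [hbc', hcc, add_zero]) (by simp only [hac', hbc', hcc, add_zero])
        simpa only [map_add, LinearMap.add_apply] using this
      have g4 : ∀ z, lam (h (P2 z) a) = lam (h z a) := by
        intro z
        have := f2 z a (by simp only [haa, hca', add_zero]) (by simp only [haa, hba, add_zero])
        simpa only [map_add, LinearMap.add_apply] using this
      have g5 : ∀ z, lam (h (P2 z) b) = lam (h z b) := by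
        intro z
        have := f2 z b (by simp only [hab, hcb', add_zero]) (by simp only [hab, hbb, add_zero])
        simpa only [map_add, LinearMap.add_apply] using this
      rw [e1, g4, g5, g1, g2, e2]
      simp only [map_add, g1, g2, g3]
      rw [e3]
      simp only [map_add]
      have e : ∀ u : V, (2 : F) • u = 0 := fun u => by rw [h2F, zero_smul]
      set α := lam (h y a)
      set β := lam (h y b)
      set γ := lam (h y c)
      linear_combination (norm := module) (2 * α + β + γ) • e a + (α + 2 * β + γ) • e b +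
        (α + β + γ) • e c
    intro c1
    rcases hq c1 with rfl | rfl
    · exact ⟨1, X.one_mem, fun y => by simp⟩
    · refine ⟨P1 * P2 * P3, X.mul_mem (X.mul_mem hP1 hP2) hP3, fun y => ?_⟩
      rw [key, one_mul]
  have hc0 : c ≠ 0 := by
    rintro rfl
    exact hc (Submodule.zero_mem _)
  exact all_tau H hX hc0 hT w c0

end main

end Cfsg.Agent.Lib.ExtSpD
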