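import Mathlib
import Cfsg.Prelude.Def_GeometricClasses
import Cfsg.Agent.Lib.ExtA
import Cfsg.Agent.Lib.ExtB
import Cfsg.Agent.Lib.ExtC
import Cfsg.Agent.Lib.ExtSpA
import Cfsg.Agent.Lib.ExtSpB
import Cfsg.Agent.Lib.ExtSpC
import Cfsg.Agent.Lib.ExtSpD
import Cfsg.Agent.Lib.FieldModel
import Cfsg.Agent.Lib.SympT
import Cfsg.Agent.Lib.SympForm

set_option autoImplicit false
set_option linter.unusedSectionVars false
set_option linter.unusedSimpArgs false
set_option linter.unusedVariables false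
set_option linter.style.haveILetI false

namespace Cfsg.Agent.Lib.ExtSpE

open Module Matrix Cfsg Cfsg.Geo
open Cfsg.Agent.Lib.ExtA Cfsg.Agent.Lib.ExtB Cfsg.Agent.Lib.ExtC
  Cfsg.Agent.Lib.ExtSpA Cfsg.Agent.Lib.ExtSpB Cfsg.Agent.Lib.ExtSpC Cfsg.Agent.Lib.ExtSpD
open scoped MatrixGroups

universe u

section iota

variable {F : Type u} [Field F] {ι : Type} [Fintype ι] [DecidableEq ι]

/-- The identification with linear equivalences. -/
noncomputable def Thi (ι : Type) [Fintype ι] [DecidableEq ι] (F : Type u) [Field F] :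
    GL ι F ≃* ((ι → F) ≃ₗ[F] (ι → F)) :=
  Matrix.GeneralLinearGroup.toLin.trans (LinearMap.GeneralLinearGroup.generalLinearEquiv F (ι → F))

theorem Thi_apply (g : GL ι F) (v : ι → F) : Thi ι F g v = (g : Matrix ι ι F) *ᵥ v := rfl

variable [Finite F] {L : Type u} [Field L] [Algebra F L]
  [Module L (ι → F)] [IsScalarTower F L (ι → F)] [Module.Finite F L]
  {K : Subalgebra F (Matrix ι ι F)} {φ : L →ₐ[F] Matrix ι ι F}

theorem mul_eq_of_semi (hsmul : ∀ (a : L) (v : ι → F), a • v = φ a *ᵥ v) {g : GL ι F}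
    {a a' : L} (h : ∀ v, Thi ι F g (a • v) = a' • Thi ι F g v) :
    (g : Matrix ι ι F) * φ a = φ a' * g := by
  apply Matrix.mulVec_injective
  funext v
  rw [← Matrix.mulVec_mulVec, ← Matrix.mulVec_mulVec]
  have := h v
  rwa [Thi_apply, Thi_apply, hsmul, hsmul] at this

theorem conj_eq_of_semi (hsmul : ∀ (a : L) (v : ι → F), a • v = φ a *ᵥ v) {g : GL ι F}
    {a a' : L} (h : ∀ v, Thi ι F g (a • v) = a' • Thi ι F g v) :
    (g : Matrix ι ι F) * φ a * ((g⁻¹ : GL ι F) : Matrix ι ι F) = φ a' := by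
  rw [mul_eq_of_semi hsmul h, mul_assoc, Units.mul_inv, mul_one]

theorem semi_iff (hinj : Function.Injective φ) (hmem : ∀ k, k ∈ K ↔ ∃ a, φ a = k)
    (hsmul : ∀ (a : L) (v : ι → F), a • v = φ a *ᵥ v) (g : GL ι F) :
    Semi (L := L) (Thi ι F g) ↔ g ∈ subalgebraNormalizer K := by
  constructor
  · intro hS
    choose s hs using hS
    have hconj : ∀ a, (g : Matrix ι ι F) * φ a *
        ((g⁻¹ : GL ι F) : Matrix ι ι F) = φ (s a) :=
      fun a => conj_eq_of_semi hsmul (hs a)
    have hcancel : ∀ k k' : Matrix ι ι F, (g : Matrix ι ι F) * k *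
        ((g⁻¹ : GL ι F) : Matrix ι ι F) = (g : Matrix ι ι F) * k' *
        ((g⁻¹ : GL ι F) : Matrix ι ι F) → k = k' := by
      intro k k' h
      have h1 := congrArg (fun A => ((g⁻¹ : GL ι F) : Matrix ι ι F) * A *
        (g : Matrix ι ι F)) h
      simpa [mul_assoc, ← Units.val_mul] using h1
    have hsinj : Function.Injective s := by
      intro a b hab
      apply hinj
      apply hcancel
      rw [hconj, hconj, hab]
    haveI : Finite L := Module.finite_of_finite F
    have hssurj : Function.Surjective s := Finite.injective_iff_surjective.mp hsinj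
    intro k
    constructor
    · intro hk
      obtain ⟨a, rfl⟩ := (hmem k).mp hk
      rw [hconj, hmem]
      exact ⟨_, rfl⟩
    · intro hk
      obtain ⟨a', ha'⟩ := (hmem _).mp hk
      obtain ⟨a, rfl⟩ := hssurj a'
      rw [← hconj] at ha'
      rw [hcancel _ _ ha'.symm, hmem]
      exact ⟨a, rfl⟩
  · intro hg a
    have h1 : φ a ∈ K := (hmem _).mpr ⟨a, rfl⟩
    have h2 := (hg (φ a)).mp h1
    obtain ⟨a', ha'⟩ := (hmem _).mp h2
    refine ⟨a', fun v => ?_⟩
    rw [Thi_apply, Thi_apply, hsmul, hsmul, Matrix.mulVec_mulVec, Matrix.mulVec_mulVec, ha',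
      mul_assoc, Units.inv_mul, mul_one]

end iota

section form

variable {F L V : Type*} [Field F] [Field L] [Algebra F L]
  [AddCommGroup V] [Module L V] [Module F V] [IsScalarTower F L V] [Finite F] [Module.Finite F L]

theorem exists_form {lam : L →ₗ[F] F} (hlam : lam ≠ 0) {f : V → V → F}
    (fal : ∀ x y v, f (x + y) v = f x v + f y v)
    (fsl : ∀ (c : F) x v, f (c • x) v = c * f x v)
    (far : ∀ v x y, f v (x + y) = f v x + f v y)
    (fsa : ∀ (a : L) u v, f (a • u) v = f u (a • v))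
    (falt : ∀ (a : L) v, f (a • v) v = 0)
    (fnd : ∀ u, u ≠ 0 → ∃ v, f u v ≠ 0) :
    ∃ h : LinearMap.BilinForm L V, SpH h ∧ ∀ u v, f u v = lam (h u v) := by
  have hex : ∀ u v, ∃ d : L, ∀ a : L, lam (a * d) = f (a • u) v := by
    intro u v
    let π' : L →ₗ[F] F :=
      { toFun := fun a => f (a • u) v
        map_add' := by
          intro a b
          rw [add_smul, fal]
        map_smul' := by
          intro c a
          rw [smul_assoc, fsl]
          rfl }
    obtain ⟨d, hd⟩ := nondeg hlam π'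
    refine ⟨d, fun a => ?_⟩
    have := LinearMap.congr_fun hd a
    change f (a • u) v = lam (d * a) at this
    rw [this, mul_comm]
  choose h0 hh0 using hex
  have uniq : ∀ u v d, (∀ a : L, lam (a * d) = f (a • u) v) → h0 u v = d := by
    intro u v d hd
    apply lam_unique hlam
    intro a
    rw [hh0, hd]
  let h : LinearMap.BilinForm L V := LinearMap.mk₂ L h0
    (by
      intro u u' v
      apply uniq
      intro a
      rw [mul_add, map_add, hh0, hh0, smul_add, fal])
    (by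
      intro c u v
      apply uniq
      intro a
      rw [smul_eq_mul, ← mul_assoc, hh0, mul_smul])
    (by
      intro u v v'
      apply uniq
      intro a
      rw [mul_add, map_add, hh0, hh0, far])
    (by
      intro c u v
      apply uniq
      intro a
      rw [smul_eq_mul, ← mul_assoc, hh0, mul_comm a c, mul_smul, fsa])
  have hh : ∀ u v, h u v = h0 u v := fun u v => rfl
  have hfu : ∀ u v, f u v = lam (h u v) := by
    intro u v
    have := hh0 u v 1
    rw [one_mul, one_smul] at this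
    rw [hh, this]
  refine ⟨h, ⟨fun v => ?_, fun u hu => ?_⟩, hfu⟩
  · rw [hh]
    apply uniq
    intro a
    rw [mul_zero, map_zero, falt]
  · obtain ⟨v, hv⟩ := fnd u hu
    refine ⟨v, fun h1 => hv ?_⟩
    rw [hfu, h1, map_zero]

end form

section main

variable {F : Type u} [Field F] [Fintype F] {m : ℕ} {L : Type u} [Field L] [Algebra F L]
  [Module L (Fin m ⊕ Fin m → F)] [IsScalarTower F L (Fin m ⊕ Fin m → F)] [Module.Finite F L]
  [Module.Finite L (Fin m ⊕ Fin m → F)]
  {K : Subalgebra F (Matrix (Fin m ⊕ Fin m) (Fin m ⊕ Fin m) F)}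
  {φ : L →ₐ[F] Matrix (Fin m ⊕ Fin m) (Fin m ⊕ Fin m) F}

theorem core_M (hr : (finrank F L).Prime) (hm2 : 2 ≤ finrank L (Fin m ⊕ Fin m → F))
    (hm5 : finrank F L = 2 → 5 ≤ finrank L (Fin m ⊕ Fin m → F))
    (hinj : Function.Injective φ) (hmem : ∀ k, k ∈ K ↔ ∃ a, φ a = k)
    (hsmul : ∀ (a : L) (v : Fin m ⊕ Fin m → F), a • v = φ a *ᵥ v)
    {h : LinearMap.BilinForm L (Fin m ⊕ Fin m → F)} (H : SpH h) {lam : L →ₗ[F] F} (hlam : lam ≠ 0)
    (hf : ∀ u v, sympForm m F u v = lam (h u v))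
    {M : Subgroup (GL (Fin m ⊕ Fin m) F)} (hM1 : subalgebraNormalizer K ⊓ spGL m F ≤ M)
    (hM2 : M ≤ spGL m F) {y : GL (Fin m ⊕ Fin m) F} (hyM : y ∈ M)
    (hyN : y ∉ subalgebraNormalizer K) : spGL m F ≤ M := by
  let X : Subgroup ((Fin m ⊕ Fin m → F) ≃ₗ[F] (Fin m ⊕ Fin m → F)) :=
    M.comap (Thi (Fin m ⊕ Fin m) F).symm.toMonoidHom
  have hXmem : ∀ e, e ∈ X ↔ (Thi (Fin m ⊕ Fin m) F).symm e ∈ M := fun e => Iff.rfl
  have hX : HS h X := by
    intro g hg
    rw [hXmem]
    apply hM1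
    refine Subgroup.mem_inf.mpr ⟨?_, ?_⟩
    · rw [← semi_iff hinj hmem hsmul]
      simpa using semi_toF (F := F) g
    · intro u v
      have e : ∀ w, (glToMat (Fin m ⊕ Fin m) F ((Thi (Fin m ⊕ Fin m) F).symm (toF (F := F) g))) *ᵥ w =
          g w := by
        intro w
        have := Thi_apply ((Thi (Fin m ⊕ Fin m) F).symm (toF (F := F) g)) w
        rw [MulEquiv.apply_symm_apply, toF_apply] at this
        exact this.symm
      rw [e, e, hf, hf, hg]
  have hiso : ∀ g ∈ X, ∀ u v, lam (h (g u) (g v)) = lam (h u v) := by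
    intro g hg u v
    have h1 := hM2 ((hXmem g).mp hg)
    have h2 := h1 u v
    have e : ∀ w, (glToMat (Fin m ⊕ Fin m) F ((Thi (Fin m ⊕ Fin m) F).symm g)) *ᵥ w = g w := by
      intro w
      have := Thi_apply ((Thi (Fin m ⊕ Fin m) F).symm g) w
      rw [MulEquiv.apply_symm_apply] at this
      exact this.symm
    rw [e, e, hf, hf] at h2
    exact h2
  have hxX : Thi (Fin m ⊕ Fin m) F y ∈ X := by
    rw [hXmem]
    simpa using hyM
  have hS : ¬ Semi (L := L) (Thi (Fin m ⊕ Fin m) F y) :=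
    fun h => hyN ((semi_iff hinj hmem hsmul y).mp h)
  have hcore : ∀ (w : Fin m ⊕ Fin m → F) (c : F), ∃ τ ∈ X, ∀ z, τ z = z + (c * lam (h z w)) • w := by
    by_cases hq : ∃ t0 : F, t0 ≠ 0 ∧ t0 ≠ 1
    · exact core_sp1 hr hm2 H hX hlam hiso hxX hS (Or.inl hq)
    · have hq' : ∀ c : F, c = 0 ∨ c = 1 := by
        intro c
        by_contra h0
        push Not at h0
        exact hq ⟨c, h0.1, h0.2⟩
      by_cases hr2 : finrank F L = 2
      · exact core_sp2 hq' hr2 (hm5 hr2) H hX hlam hiso hxX hS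
      · have h3 : 3 ≤ finrank F L := by
          have := hr.two_le
          omega
        have h2F : (2 : F) = 0 := by
          have := Cfsg.Agent.Lib.ExtE.one_add_one_of_two hq'
          rw [← this]
          norm_num
        exact core_sp1 hr hm2 H hX hlam hiso hxX hS (Or.inr ⟨h2F, h3⟩)
  apply Cfsg.Agent.Lib.SympT.spGL_le
  intro w c
  obtain ⟨τ, hτ, hτa⟩ := hcore w c
  have e : Cfsg.Agent.Lib.SympT.tvS (Cfsg.Agent.Lib.SympT.sympForm_isSymplectic (m := m) (F := F)) w c =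
      (Thi (Fin m ⊕ Fin m) F).symm τ := by
    rw [MulEquiv.eq_symm_apply]
    ext1 z
    rw [Thi_apply, Cfsg.Agent.Lib.SympT.tvS_apply, hτa, hf]
  rw [e]
  exact (hXmem τ).mp hτ

theorem main_of_module (hr : (finrank F L).Prime) (hm2 : 2 ≤ finrank L (Fin m ⊕ Fin m → F))
    (hm5 : finrank F L = 2 → 5 ≤ finrank L (Fin m ⊕ Fin m → F))
    (hinj : Function.Injective φ) (hmem : ∀ k, k ∈ K ↔ ∃ a, φ a = k)
    (hsmul : ∀ (a : L) (v : Fin m ⊕ Fin m → F), a • v = φ a *ᵥ v)
    (hsa : IsSelfAdjointFor (sympForm m F) K)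
    (halt : ∀ k ∈ K, ∀ v : (Fin m ⊕ Fin m → F), sympForm m F (k *ᵥ v) v = 0) :
    IsMaximalIn (spGL m F) (subalgebraNormalizer K ⊓ spGL m F) := by
  obtain ⟨lam, hlamR⟩ := exists_retr (F := F) (L := L)
  have hl1 : lam 1 = 1 := by simpa using hlamR 1
  have hlam : lam ≠ 0 := by
    rintro rfl
    simp at hl1
  obtain ⟨h, H, hf⟩ := exists_form (V := Fin m ⊕ Fin m → F) (f := sympForm m F) hlam
    Cfsg.Agent.Lib.SympForm.sympForm_add_left Cfsg.Agent.Lib.SympForm.sympForm_smul_left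
    Cfsg.Agent.Lib.SympForm.sympForm_add_right
    (fun a u v => by
      rw [hsmul, hsmul]
      exact hsa (φ a) ((hmem _).mpr ⟨a, rfl⟩) u v)
    (fun a v => by
      rw [hsmul]
      exact halt (φ a) ((hmem _).mpr ⟨a, rfl⟩) v)
    (fun u hu => Cfsg.Agent.Lib.SympForm.exists_sympForm_ne_zero hu)
  refine ⟨?_, ?_⟩
  · rw [SetLike.lt_iff_le_and_exists]
    refine ⟨inf_le_right, ?_⟩
    have : Nontrivial (Fin m ⊕ Fin m → F) := Module.nontrivial_of_finrank_pos (R := L) (by omega)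
    obtain ⟨w, hw⟩ := exists_ne (0 : Fin m ⊕ Fin m → F)
    obtain ⟨z, hz⟩ := exists_frame_sp H hw
    have hs := Cfsg.Agent.Lib.SympT.sympForm_isSymplectic (m := m) (F := F)
    refine ⟨Cfsg.Agent.Lib.SympT.tvS hs w 1, Cfsg.Agent.Lib.SympT.tvS_pres hs w 1, fun h0 => ?_⟩
    have h1 := (semi_iff hinj hmem hsmul _).mpr h0.1
    obtain ⟨θ, hθ⟩ := exists_not_alg (F := F) (L := L) hr
    obtain ⟨θ', hθ'⟩ := h1 θ
    have ea : ∀ x, Thi (Fin m ⊕ Fin m) F (Cfsg.Agent.Lib.SympT.tvS hs w 1) x =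
        x + lam (h x w) • w := by
      intro x
      rw [Thi_apply, Cfsg.Agent.Lib.SympT.tvS_apply, one_mul, hf]
    have e1 := hθ' w
    rw [ea, ea, map_smul, LinearMap.smul_apply, H.alt, smul_zero, map_zero, zero_smul,
      add_zero, add_zero] at e1
    have e2 : θ = θ' := by
      have h4 : (θ - θ') • w = 0 := by rw [sub_smul, e1, sub_self]
      exact sub_eq_zero.mp ((smul_eq_zero.mp h4).resolve_right hw)
    subst e2
    have e3 := hθ' z
    rw [ea, ea, map_smul, LinearMap.smul_apply, hz, smul_eq_mul, mul_one, hl1, one_smul, smul_add] at e3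
    have e4 : lam θ • w = θ • w := add_left_cancel e3
    apply hθ (lam θ)
    have h7 : (algebraMap F L (lam θ) - θ) • w = 0 := by
      rw [sub_smul, algebraMap_smul, e4, sub_self]
    exact sub_eq_zero.mp ((smul_eq_zero.mp h7).resolve_right hw)
  · intro M hM1 hM2
    by_cases hMN : M ≤ subalgebraNormalizer K
    · left
      exact le_antisymm (le_inf hMN hM2) hM1
    · right
      obtain ⟨y, hyM, hyN⟩ := SetLike.not_le_iff_exists.mp hMN
      exact le_antisymm hM2 (core_M hr hm2 hm5 hinj hmem hsmul H hlam hf hM1 hM2 hyM hyN)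

end main

theorem main {F : Type u} [Field F] [Fintype F] (m : ℕ) (hm : 7 ≤ m) (r : ℕ) (hr : r.Prime)
    (K : Subalgebra F (Matrix (Fin m ⊕ Fin m) (Fin m ⊕ Fin m) F)) (hK : IsFieldSubalgebra r K)
    (hsa : IsSelfAdjointFor (sympForm m F) K)
    (halt : ∀ k ∈ K, ∀ v : (Fin m ⊕ Fin m → F), sympForm m F (k *ᵥ v) v = 0) :
    IsMaximalIn (spGL m F) (subalgebraNormalizer K ⊓ spGL m F) := by
  obtain ⟨L, _, _, φ, hinj, hmem, hfr⟩ := Cfsg.Agent.Lib.FieldModel.exists_model hr.ne_zero hK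
  letI modL : Module L (Fin m ⊕ Fin m → F) :=
    { smul := fun e v => (φ e) *ᵥ v
      one_smul := fun v => by change (φ 1) *ᵥ v = v; simp
      mul_smul := fun a b v => by
        change (φ (a * b)) *ᵥ v = (φ a) *ᵥ ((φ b) *ᵥ v)
        simp [Matrix.mulVec_mulVec]
      smul_zero := fun a => Matrix.mulVec_zero _
      smul_add := fun a v w => Matrix.mulVec_add _ _ _
      add_smul := fun a b v => by
        change (φ (a + b)) *ᵥ v = (φ a) *ᵥ v + (φ b) *ᵥ v
        simp [Matrix.add_mulVec]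
      zero_smul := fun v => by
        change (φ 0) *ᵥ v = 0
        simp }
  have hsmul : ∀ (a : L) (v : Fin m ⊕ Fin m → F), a • v = φ a *ᵥ v := fun _ _ => rfl
  haveI tower : IsScalarTower F L (Fin m ⊕ Fin m → F) := ⟨fun c e v => by
    rw [hsmul, hsmul, map_smul, Matrix.smul_mulVec]⟩
  haveI : Module.Finite F L := Module.finite_of_finrank_pos (by rw [hfr]; exact hr.pos)
  haveI : Module.Finite L (Fin m ⊕ Fin m → F) :=
    Module.Finite.of_restrictScalars_finite F L (Fin m ⊕ Fin m → F)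
  have hprod : finrank F L * finrank L (Fin m ⊕ Fin m → F) = m + m := by
    rw [Module.finrank_mul_finrank]
    simp
  rw [hfr] at hprod
  have hm2 : 2 ≤ finrank L (Fin m ⊕ Fin m → F) := by
    by_contra h
    have h1 : finrank L (Fin m ⊕ Fin m → F) = 0 ∨ finrank L (Fin m ⊕ Fin m → F) = 1 := by omega
    rcases h1 with h1 | h1
    · rw [h1] at hprod
      omega
    · rw [h1, mul_one] at hprod
      have h2 : 2 ∣ r := ⟨m, by omega⟩
      have h3 := (Nat.prime_dvd_prime_iff_eq Nat.prime_two hr).mp h2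
      omega
  refine main_of_module (by rw [hfr]; exact hr) hm2 ?_ hinj hmem hsmul hsa halt
  intro h2
  rw [hfr] at h2
  rw [h2] at hprod
  omega

end Cfsg.Agent.Lib.ExtSpE
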