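import Cfsg.Agent.Lib.H97Ort3
import Cfsg.Agent.Lib.OrthoCount

/-!
The commutator subgroup of the isometry group of the standard form in odd dimension is an instance of the context.
-/

set_option autoImplicit false
set_option linter.unusedSectionVars false
set_option linter.unusedSimpArgs false

namespace Cfsg.Agent.H97.Asch

open Matrix Cfsg Cfsg.Geo
open scoped MatrixGroups commutatorElement

variable {ι : Type} [Fintype ι] [DecidableEq ι] {F : Type*} [Field F]

theorem omegaGL_isometry {Q : (ι → F) → F} {g : GL ι F} (hg : g ∈ omegaGL Q) (v : ι → F) :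
    Q ((g : Matrix ι ι F) *ᵥ v) = Q v := by
  obtain ⟨g', -, rfl⟩ := hg
  exact g'.2 v v

theorem omegaGL_det {Q : (ι → F) → F} {g : GL ι F} (hg : g ∈ omegaGL Q) : (g : Matrix ι ι F).det = 1 := by
  obtain ⟨g', hg', rfl⟩ := hg
  let φ : ↥(isometryGroup F Q) →* Fˣ := Matrix.GeneralLinearGroup.det.comp (isometryGroup F Q).subtype
  have hle : commutator ↥(isometryGroup F Q) ≤ φ.ker := by
    rw [commutator_def, Subgroup.commutator_le]
    intro a _ b _
    rw [MonoidHom.mem_ker, map_commutatorElement, commutatorElement_def]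
    simp [mul_comm]
  have h1 : φ g' = 1 := hle hg'
  have h2 := congrArg Units.val h1
  simpa [φ] using h2

theorem siegel_mem_omegaGL (Q' : QuadraticForm F (ι → F)) (h2 : (2 : F) ≠ 0) (hn : 5 ≤ Fintype.card ι)
    (hQ : (Cfsg.Agent.Lib.OrthGroup.B Q').Nondegenerate) {u v : ι → F} (hu : Q' u = 0) (hv : Q' v = 0)
    (huv : QuadraticMap.polar ⇑Q' u v = 0) (c : F) :
    ∃ g ∈ omegaGL ⇑Q', ∀ x, (g : Matrix ι ι F) *ᵥ x =
      x + (c * QuadraticMap.polar ⇑Q' x u) • v - (c * QuadraticMap.polar ⇑Q' x v) • u := by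
  classical
  open Cfsg.Agent.Lib.OrthGroup Cfsg.Agent.Lib.OrthMatrix Cfsg.Agent.Lib.OrthSiegel in
  have huv' : B Q' u v = 0 := huv
  have hw : B Q' u (c • v) = 0 := by rw [map_smul, huv', smul_zero]
  have hcv : Q' (c • v) = 0 := by rw [Q_smul, hv, mul_zero]
  let e := eichO Q' hQ hu hw
  let g₀ : ↥(isometryGroup F ⇑Q') := (toO Q').symm e
  have hact : ∀ x, ((g₀ : GL ι F) : Matrix ι ι F) *ᵥ x = x + (c * B Q' x u) • v - (c * B Q' x v) • u := by
    intro x
    have h3 : (toO Q' g₀ : (ι → F) ≃ₗ[F] (ι → F)) x = ((g₀ : GL ι F) : Matrix ι ι F) *ᵥ x := toO_apply Q' g₀ x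
    have h4 : toO Q' g₀ = e := MulEquiv.apply_symm_apply _ _
    rw [← h3, h4]
    show eichMap Q' u (c • v) x = _
    rw [eichMap_apply, hcv, map_smul, smul_eq_mul, smul_smul, zero_mul, zero_smul, sub_zero, mul_comm (B Q' x u) c]
  have hg : ((g₀ : GL ι F) : Matrix ι ι F) = siegelMatrix ⇑Q' u v c := by
    apply Matrix.toLin'.injective
    apply LinearMap.ext
    intro x
    simp only [Matrix.toLin'_apply]
    rw [hact, siegelMatrix_mulVec]
  have hfr : 5 ≤ Module.finrank F (ι → F) := by simpa using hn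
  have hm := siegel_mem_commutatorSet Q' h2 hfr hQ hu hv huv' c g₀ hg
  refine ⟨(g₀ : GL ι F), ⟨g₀, ?_, rfl⟩, hact⟩
  show g₀ ∈ commutator ↥(isometryGroup F ⇑Q')
  rw [commutator_eq_closure]
  exact Subgroup.subset_closure hm

/-- The context. -/
theorem octx_omega (Q' : QuadraticForm F (ι → F)) (h2 : (2 : F) ≠ 0) (hn : 5 ≤ Fintype.card ι)
    (hQ : IsNondegenerateQuadraticForm ⇑Q') (hspan : Submodule.span F {a : ι → F | Q' a = 0} = ⊤)
    (hrat : ∀ (F₀ : Subfield F) (v : ι → F), (∀ i, v i ∈ F₀) → Q' v ∈ F₀) : OCtx ⇑Q' (omegaGL ⇑Q') := by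
  have hnd : (Cfsg.Agent.Lib.OrthGroup.B Q').Nondegenerate := by
    constructor
    · intro x hx
      by_contra h0
      obtain ⟨y, hy⟩ := (hQ.nondegenerate x h0).2
      exact hy (hx y)
    · intro x hx
      by_contra h0
      obtain ⟨y, hy⟩ := (hQ.nondegenerate x h0).1
      exact hy (hx y)
  exact ⟨hQ, h2, fun g hg v => omegaGL_isometry hg v, fun u v c hu hv huv => siegel_mem_omegaGL Q' h2 hn hnd hu hv huv c,
    hspan, fun g hg => omegaGL_det hg, hrat⟩

section Standard

variable {m : ℕ}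

open Cfsg.Agent.Lib.OrthoCount

theorem two_ne_of_odd_card [Fintype F] (hodd : Odd (Fintype.card F)) : (2 : F) ≠ 0 := by
  intro h
  obtain ⟨k, hk⟩ := hodd
  have h1 : ((Fintype.card F : ℕ) : F) = 0 := FiniteField.cast_card_eq_zero F
  rw [hk] at h1
  push_cast at h1
  rw [h, zero_mul, zero_add] at h1
  exact one_ne_zero h1

theorem polar_qOdd (u v : Unit ⊕ (Fin m ⊕ Fin m) → F) :
    QuadraticMap.polar (⇑(qOdd m F)) u v = 2 * (u (.inl ()) * v (.inl ())) +
      ∑ i : Fin m, (u (.inr (.inl i)) * v (.inr (.inr i)) + v (.inr (.inl i)) * u (.inr (.inr i))) := by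
  simp only [QuadraticMap.polar, qOdd_apply, Cfsg.quadFormOdd, Pi.add_apply]
  have e : ∀ i : Fin m, (u (.inr (.inl i)) + v (.inr (.inl i))) * (u (.inr (.inr i)) + v (.inr (.inr i))) =
      u (.inr (.inl i)) * u (.inr (.inr i)) + v (.inr (.inl i)) * v (.inr (.inr i)) +
        (u (.inr (.inl i)) * v (.inr (.inr i)) + v (.inr (.inl i)) * u (.inr (.inr i))) := fun i => by ring
  simp only [e, Finset.sum_add_distrib]
  ring

theorem qOdd_nondeg (h2 : (2 : F) ≠ 0) : IsNondegenerateQuadraticForm (⇑(qOdd m F)) := by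
  classical
  refine ⟨fun c v => ?_, ⟨?_, ?_, ?_, ?_⟩, ?_⟩
  · rw [QuadraticMap.map_smul, smul_eq_mul, pow_two]
  · intro x y v
    exact QuadraticMap.polar_add_left (Q := qOdd m F) x y v
  · intro c x v
    rw [polar_qOdd, polar_qOdd]
    simp only [Pi.smul_apply, smul_eq_mul, mul_add, Finset.mul_sum]
    congr 1
    · ring
    · refine Finset.sum_congr rfl fun i _ => ?_
      ring
  · intro x v w
    exact QuadraticMap.polar_add_right (Q := qOdd m F) x v w
  · intro c x v
    rw [polar_qOdd, polar_qOdd]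
    simp only [Pi.smul_apply, smul_eq_mul, mul_add, Finset.mul_sum]
    congr 1
    · ring
    · refine Finset.sum_congr rfl fun i _ => ?_
      ring
  · have key : ∀ v : Unit ⊕ (Fin m ⊕ Fin m) → F, v ≠ 0 → ∃ x, QuadraticMap.polar (⇑(qOdd m F)) v x ≠ 0 := by
      intro v hv
      obtain ⟨a, ha⟩ : ∃ a, v a ≠ 0 := by
        by_contra hall
        push Not at hall
        exact hv (funext hall)
      rcases a with ⟨⟩ | a | a
      · refine ⟨Pi.single (.inl ()) 1, ?_⟩
        rw [polar_qOdd]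
        simp only [Pi.single_apply, reduceCtorEq, if_false, mul_zero, zero_mul, add_zero, Finset.sum_const_zero, if_true, mul_one]
        exact mul_ne_zero h2 ha
      · refine ⟨Pi.single (.inr (.inr a)) 1, ?_⟩
        rw [polar_qOdd, Finset.sum_eq_single a]
        · simpa [Pi.single_apply] using ha
        · intro j _ hj
          simp [Pi.single_apply, hj]
        · simp
      · refine ⟨Pi.single (.inr (.inl a)) 1, ?_⟩
        rw [polar_qOdd, Finset.sum_eq_single a]
        · simpa [Pi.single_apply] using ha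
        · intro j _ hj
          simp [Pi.single_apply, hj]
        · simp
    intro v hv
    obtain ⟨x, hx⟩ := key v hv
    exact ⟨⟨x, by rwa [QuadraticMap.polar_comm]⟩, ⟨x, hx⟩⟩

theorem qOdd_span (hm : 0 < m) : Submodule.span F {a : Unit ⊕ (Fin m ⊕ Fin m) → F | qOdd m F a = 0} = ⊤ := by
  classical
  set S := Submodule.span F {a : Unit ⊕ (Fin m ⊕ Fin m) → F | qOdd m F a = 0} with hS
  have h1 : ∀ i : Fin m, (Pi.single (.inr (.inl i)) (1 : F) : Unit ⊕ (Fin m ⊕ Fin m) → F) ∈ S := by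
    intro i
    apply Submodule.subset_span
    show qOdd m F _ = 0
    rw [qOdd_apply]
    simp [Cfsg.quadFormOdd, Pi.single_apply]
  have h2 : ∀ i : Fin m, (Pi.single (.inr (.inr i)) (1 : F) : Unit ⊕ (Fin m ⊕ Fin m) → F) ∈ S := by
    intro i
    apply Submodule.subset_span
    show qOdd m F _ = 0
    rw [qOdd_apply]
    simp [Cfsg.quadFormOdd, Pi.single_apply]
  have h3 : (Pi.single (.inl ()) (1 : F) : Unit ⊕ (Fin m ⊕ Fin m) → F) ∈ S := by
    let i₀ : Fin m := ⟨0, hm⟩
    let w : Unit ⊕ (Fin m ⊕ Fin m) → F := Pi.single (.inl ()) 1 + Pi.single (.inr (.inl i₀)) 1 - Pi.single (.inr (.inr i₀)) 1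
    have hw : w ∈ S := by
      apply Submodule.subset_span
      show qOdd m F _ = 0
      rw [qOdd_apply]
      simp only [Cfsg.quadFormOdd, w, Pi.sub_apply, Pi.add_apply, Pi.single_apply]
      rw [Finset.sum_eq_single i₀]
      · simp
      · intro j _ hj
        simp [hj]
      · simp
    have e : (Pi.single (.inl ()) (1 : F) : Unit ⊕ (Fin m ⊕ Fin m) → F) = w - Pi.single (.inr (.inl i₀)) 1 + Pi.single (.inr (.inr i₀)) 1 := by
      simp only [w]
      abel
    rw [e]
    exact S.add_mem (S.sub_mem hw (h1 i₀)) (h2 i₀)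
  rw [eq_top_iff, ← (Pi.basisFun F (Unit ⊕ (Fin m ⊕ Fin m))).span_eq, Submodule.span_le]
  rintro _ ⟨a, rfl⟩
  simp only [Pi.basisFun_apply]
  rcases a with ⟨⟩ | a | a
  · exact h3
  · exact h1 a
  · exact h2 a

theorem qOdd_rat (F₀ : Subfield F) (v : Unit ⊕ (Fin m ⊕ Fin m) → F) (hv : ∀ i, v i ∈ F₀) : qOdd m F v ∈ F₀ := by
  rw [qOdd_apply]
  exact F₀.add_mem (F₀.pow_mem (hv _) _) (F₀.sum_mem fun i _ => F₀.mul_mem (hv _) (hv _))

theorem octx_qOdd [Fintype F] (hodd : Odd (Fintype.card F)) (hm : 2 ≤ m) :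
    OCtx (Cfsg.quadFormOdd m F) (omegaGL (Cfsg.quadFormOdd m F)) := by
  have hfun : Cfsg.quadFormOdd m F = ⇑(qOdd m F) := funext fun v => (qOdd_apply m v).symm
  rw [hfun]
  have h2 := two_ne_of_odd_card hodd
  refine octx_omega (qOdd m F) h2 ?_ (qOdd_nondeg h2) (qOdd_span (by omega)) (qOdd_rat)
  simp
  omega

end Standard

end Cfsg.Agent.H97.Asch
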