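import Mathlib

/-!
# Complementary totally isotropic pairs for an alternating form

An inductive "hyperbolic splitting" skeleton: a nondegenerate alternating form on a subspace `S`
gives complementary totally isotropic subspaces `U`, `W` of `S`, with side conditions.
-/

set_option autoImplicit false

namespace Cfsg.Agent.Lib.AltPairs

variable {F : Type*} [Field F] {V : Type*} [AddCommGroup V] [Module F V]

/-- Nondegeneracy of `B` on the subspace `S`. -/
def NondegOn (B : V →ₗ[F] V →ₗ[F] F) (S : Submodule F V) : Prop :=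
  ∀ u ∈ S, (∀ v ∈ S, B u v = 0) → u = 0

/-- `B` vanishes on `U`. -/
def TI (B : V →ₗ[F] V →ₗ[F] F) (U : Submodule F V) : Prop :=
  ∀ u ∈ U, ∀ v ∈ U, B u v = 0

/-- The part of `S` orthogonal to `v` and `w`. -/
def cut (B : V →ₗ[F] V →ₗ[F] F) (S : Submodule F V) (v w : V) : Submodule F V :=
  S ⊓ LinearMap.ker (B.flip v) ⊓ LinearMap.ker (B.flip w)

theorem mem_cut {B : V →ₗ[F] V →ₗ[F] F} {S : Submodule F V} {v w u : V} :
    u ∈ cut B S v w ↔ u ∈ S ∧ B u v = 0 ∧ B u w = 0 := by
  simp [cut, Submodule.mem_inf, LinearMap.mem_ker, LinearMap.flip_apply, and_assoc]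

variable {B : V →ₗ[F] V →ₗ[F] F}

theorem skew (halt : ∀ v, B v v = 0) (u v : V) : B u v = - B v u := by
  have h := halt (u + v)
  simp only [map_add, LinearMap.add_apply, halt, zero_add, add_zero] at h
  linear_combination h

theorem cut_le (S : Submodule F V) (v w : V) : cut B S v w ≤ S := fun _ hu => (mem_cut.mp hu).1

theorem nondeg_cut (halt : ∀ v, B v v = 0) {S : Submodule F V} (hS : NondegOn B S) {v w : V}
    (hv : v ∈ S) (hw : w ∈ S) (hvw : B v w ≠ 0) : NondegOn B (cut B S v w) := by
  intro u hu h0
  obtain ⟨huS, huv, huw⟩ := mem_cut.mp hu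
  apply hS u huS
  intro y hy
  -- decompose `y`
  set a := B v w with ha
  have hwv : B w v = -a := skew halt w v
  set y' : V := y - (a⁻¹ * B y w) • v + (a⁻¹ * B y v) • w with hy'
  have hy'S : y' ∈ S := by
    rw [hy']
    exact S.add_mem (S.sub_mem hy (S.smul_mem _ hv)) (S.smul_mem _ hw)
  have h1 : B y' v = 0 := by
    simp only [hy', map_add, map_sub, LinearMap.add_apply, LinearMap.sub_apply, map_smul,
      LinearMap.smul_apply, halt, smul_eq_mul, hwv]
    field_simp
    ring
  have h2 : B y' w = 0 := by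
    simp only [hy', map_add, map_sub, LinearMap.add_apply, LinearMap.sub_apply, map_smul,
      LinearMap.smul_apply, halt, smul_eq_mul, ← ha]
    field_simp
    ring
  have h3 : y' ∈ cut B S v w := mem_cut.mpr ⟨hy'S, h1, h2⟩
  have h4 : B u y' = 0 := h0 y' h3
  have h5 : y = y' + (a⁻¹ * B y w) • v - (a⁻¹ * B y v) • w := by
    rw [hy']; abel
  rw [h5]
  simp only [map_add, map_sub, map_smul, smul_eq_mul, h4, zero_add]
  have h6 : B u v = 0 := huv
  have h7 : B u w = 0 := huw
  simp [h6, h7]

theorem cut_lt {S : Submodule F V} {v w : V} (hv : v ∈ S) (hvw : B v w ≠ 0) :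
    cut B S v w < S := by
  refine lt_of_le_of_ne (cut_le S v w) ?_
  intro h
  have : v ∈ cut B S v w := by rw [h]; exact hv
  exact hvw (mem_cut.mp this).2.2

/-- The inductive skeleton. `Inv` is a property of subspaces inherited by cuts; `Good` is a property
of pairs, which holds for `⊥, ⊥` and is preserved by adjoining `v` and `w`. -/
theorem exists_pair [FiniteDimensional F V] (halt : ∀ v, B v v = 0)
    (Inv : Submodule F V → Prop) (Good : Submodule F V → Submodule F V → Prop)
    (hbot : Good ⊥ ⊥)
    (hstep : ∀ S, Inv S → NondegOn B S → S ≠ ⊥ → ∃ v w, v ∈ S ∧ w ∈ S ∧ B v w ≠ 0 ∧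
      Inv (cut B S v w) ∧ ∀ U W, U ≤ cut B S v w → W ≤ cut B S v w → Good U W →
        Good (U ⊔ Submodule.span F {v}) (W ⊔ Submodule.span F {w})) :
    ∀ S, Inv S → NondegOn B S → ∃ U W : Submodule F V, U ⊔ W = S ∧ U ⊓ W = ⊥ ∧ TI B U ∧ TI B W ∧ Good U W := by
  intro S
  induction h : Module.finrank F S using Nat.strong_induction_on generalizing S with
  | _ n ih =>
    intro hInv hnd
    by_cases hS : S = ⊥
    · refine ⟨⊥, ⊥, by simp [hS], by simp, ?_, ?_, hbot⟩ <;>
        · intro u hu v _
          rw [Submodule.mem_bot] at hu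
          simp [hu]
    · obtain ⟨v, w, hv, hw, hvw, hInv', hgood⟩ := hstep S hInv hnd hS
      have hlt := cut_lt hv hvw
      have hfin : Module.finrank F (cut B S v w) < n := by
        rw [← h]
        exact Submodule.finrank_lt_finrank_of_lt hlt
      obtain ⟨U, W, hUW, hUW0, hU, hW, hG⟩ := ih _ hfin (cut B S v w) rfl hInv' (nondeg_cut halt hnd hv hw hvw)
      have hUS : U ≤ cut B S v w := hUW ▸ le_sup_left
      have hWS : W ≤ cut B S v w := hUW ▸ le_sup_right
      have hwv : B w v = - B v w := skew halt w v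
      refine ⟨U ⊔ Submodule.span F {v}, W ⊔ Submodule.span F {w}, ?_, ?_, ?_, ?_, hgood U W hUS hWS hG⟩
      · apply le_antisymm
        · refine sup_le (sup_le (hUS.trans (cut_le S v w)) ?_) (sup_le (hWS.trans (cut_le S v w)) ?_)
          · rwa [Submodule.span_singleton_le_iff_mem]
          · rwa [Submodule.span_singleton_le_iff_mem]
        · intro y hy
          set a := B v w with ha
          obtain ⟨c, hc⟩ : ∃ c, c = a⁻¹ * B y w := ⟨_, rfl⟩
          obtain ⟨d, hd⟩ : ∃ d, d = a⁻¹ * B y v := ⟨_, rfl⟩
          obtain ⟨y', hy'⟩ : ∃ y', y' = y - c • v + d • w := ⟨_, rfl⟩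
          have hy'S : y' ∈ S := by
            rw [hy']
            exact S.add_mem (S.sub_mem hy (S.smul_mem _ hv)) (S.smul_mem _ hw)
          have h1 : B y' v = 0 := by
            simp only [hy', hc, hd, map_add, map_sub, LinearMap.add_apply, LinearMap.sub_apply, map_smul,
              LinearMap.smul_apply, halt, smul_eq_mul, hwv]
            field_simp
            ring
          have h2 : B y' w = 0 := by
            simp only [hy', hc, hd, map_add, map_sub, LinearMap.add_apply, LinearMap.sub_apply, map_smul,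
              LinearMap.smul_apply, halt, smul_eq_mul, ← ha]
            field_simp
            ring
          have h3 : y' ∈ U ⊔ W := by
            rw [hUW]; exact mem_cut.mpr ⟨hy'S, h1, h2⟩
          obtain ⟨p, hp, q, hq, hpq⟩ := Submodule.mem_sup.mp h3
          have h5 : y = (p + c • v) + (q - d • w) := by
            calc y = y' + c • v - d • w := by rw [hy']; abel
              _ = (p + q) + c • v - d • w := by rw [hpq]
              _ = _ := by abel
          rw [h5]
          refine Submodule.add_mem_sup ?_ ?_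
          · exact Submodule.add_mem_sup hp (Submodule.smul_mem _ _ (Submodule.mem_span_singleton_self v))
          · rw [sub_eq_add_neg, ← neg_smul]
            exact Submodule.add_mem_sup hq (Submodule.smul_mem _ _ (Submodule.mem_span_singleton_self w))
      · rw [eq_bot_iff]
        intro y hy
        obtain ⟨hy1, hy2⟩ := Submodule.mem_inf.mp hy
        obtain ⟨p, hp, s, hs, rfl⟩ := Submodule.mem_sup.mp hy1
        obtain ⟨q, hq, t, ht, hpq⟩ := Submodule.mem_sup.mp hy2
        obtain ⟨α, rfl⟩ := Submodule.mem_span_singleton.mp hs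
        obtain ⟨β, rfl⟩ := Submodule.mem_span_singleton.mp ht
        have hpc := mem_cut.mp (hUS hp)
        have hqc := mem_cut.mp (hWS hq)
        have e1 : B (q + β • w) w = B (p + α • v) w := by rw [hpq]
        have e2 : B (q + β • w) v = B (p + α • v) v := by rw [hpq]
        simp only [map_add, map_smul, LinearMap.add_apply, LinearMap.smul_apply, halt, smul_eq_mul,
          hpc.2.1, hpc.2.2, hqc.2.1, hqc.2.2, hwv, zero_add, mul_zero, add_zero] at e1 e2
        have hα : α = 0 := by
          rcases mul_eq_zero.mp e1.symm with h | h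
          · exact h
          · exact absurd h hvw
        have hβ : β = 0 := by
          have : β * B v w = 0 := by linear_combination -e2
          rcases mul_eq_zero.mp this with h | h
          · exact h
          · exact absurd h hvw
        subst hα hβ
        simp only [zero_smul, add_zero] at hpq ⊢
        have : p ∈ U ⊓ W := Submodule.mem_inf.mpr ⟨hp, hpq ▸ hq⟩
        rw [hUW0] at this
        exact this
      · intro y hy z hz
        obtain ⟨p, hp, s, hs, rfl⟩ := Submodule.mem_sup.mp hy
        obtain ⟨q, hq, t, ht, rfl⟩ := Submodule.mem_sup.mp hz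
        obtain ⟨α, rfl⟩ := Submodule.mem_span_singleton.mp hs
        obtain ⟨β, rfl⟩ := Submodule.mem_span_singleton.mp ht
        have hpc := mem_cut.mp (hUS hp)
        have hqc := mem_cut.mp (hUS hq)
        have e1 : B v q = 0 := by rw [skew halt, hqc.2.1, neg_zero]
        simp only [map_add, map_smul, LinearMap.add_apply, LinearMap.smul_apply, halt, smul_eq_mul,
          hpc.2.1, e1, hU p hp q hq]
        ring
      · intro y hy z hz
        obtain ⟨p, hp, s, hs, rfl⟩ := Submodule.mem_sup.mp hy
        obtain ⟨q, hq, t, ht, rfl⟩ := Submodule.mem_sup.mp hz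
        obtain ⟨α, rfl⟩ := Submodule.mem_span_singleton.mp hs
        obtain ⟨β, rfl⟩ := Submodule.mem_span_singleton.mp ht
        have hpc := mem_cut.mp (hWS hp)
        have hqc := mem_cut.mp (hWS hq)
        have e1 : B w q = 0 := by rw [skew halt, hqc.2.2, neg_zero]
        simp only [map_add, map_smul, LinearMap.add_apply, LinearMap.smul_apply, halt, smul_eq_mul,
          hpc.2.2, e1, hW p hp q hq]
        ring

/-- A transformation `T` with `T² = 1` and isometric for an alternating form, in characteristic `≠ 2`: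
a nondegenerate invariant subspace splits into complementary totally isotropic invariant subspaces. -/
theorem exists_pair_of_sq_one [FiniteDimensional F V] (h2 : (2 : F) ≠ 0) (halt : ∀ v, B v v = 0)
    (T : V →ₗ[F] V) (hiso : ∀ u v, B (T u) (T v) = B u v) (hT : ∀ v, T (T v) = v)
    (S : Submodule F V) (hS : ∀ v ∈ S, T v ∈ S) (hnd : NondegOn B S) :
    ∃ U W : Submodule F V, U ⊔ W = S ∧ U ⊓ W = ⊥ ∧ TI B U ∧ TI B W ∧
      (∀ v ∈ U, T v ∈ U) ∧ (∀ v ∈ W, T v ∈ W) := by
  refine exists_pair halt (fun S => ∀ v ∈ S, T v ∈ S)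
    (fun U W => (∀ v ∈ U, T v ∈ U) ∧ (∀ v ∈ W, T v ∈ W)) ?_ ?_ S hS hnd
  · constructor <;> · intro v hv; rw [Submodule.mem_bot] at hv ⊢; simp [hv]
  · intro S hS hnd hne
    obtain ⟨u, huS, hu0⟩ := (Submodule.ne_bot_iff S).mp hne
    -- an eigenvector
    obtain ⟨v, ε, hvS, hv0, hε, hTv⟩ : ∃ v ε, v ∈ S ∧ v ≠ 0 ∧ ε * ε = (1 : F) ∧ T v = ε • v := by
      by_cases h : T u = u
      · exact ⟨u, 1, huS, hu0, by ring, by simp [h]⟩
      · refine ⟨T u - u, -1, S.sub_mem (hS u huS) huS, sub_ne_zero.mpr h, by ring, ?_⟩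
        simp [hT]
    -- a partner in the same eigenspace
    obtain ⟨w', hw'S, hvw'⟩ : ∃ w' ∈ S, B v w' ≠ 0 := by
      by_contra hcon
      push_neg at hcon
      exact hv0 (hnd v hvS hcon)
    set w : V := w' + ε • T w' with hw
    have hwS : w ∈ S := S.add_mem hw'S (S.smul_mem _ (hS _ hw'S))
    have hTw : T w = ε • w := by
      simp only [hw, map_add, map_smul, hT, smul_add, smul_smul, hε, one_smul]
      abel
    have hε0 : ε ≠ 0 := by
      rintro rfl
      simp at hε
    have hBvT : B v (T w') = ε * B v w' := by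
      have := hiso v w'
      rw [hTv, map_smul, LinearMap.smul_apply, smul_eq_mul] at this
      -- from `hiso (T v)`
      have h3 := hiso (T v) w'
      rw [hT, hTv, map_smul, LinearMap.smul_apply, smul_eq_mul] at h3
      exact h3 ▸ rfl
    have hvw : B v w ≠ 0 := by
      have : B v w = 2 * B v w' := by
        rw [hw, map_add, map_smul, smul_eq_mul, hBvT, ← mul_assoc, hε]
        ring
      rw [this]
      exact mul_ne_zero h2 hvw'
    refine ⟨v, w, hvS, hwS, hvw, ?_, ?_⟩
    · intro y hy
      obtain ⟨hyS, hyv, hyw⟩ := mem_cut.mp hy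
      refine mem_cut.mpr ⟨hS y hyS, ?_, ?_⟩
      · have h3 := hiso y v
        rw [hTv, map_smul, smul_eq_mul, hyv, mul_eq_zero] at h3
        exact h3.resolve_left hε0
      · have h3 := hiso y w
        rw [hTw, map_smul, smul_eq_mul, hyw, mul_eq_zero] at h3
        exact h3.resolve_left hε0
    · rintro U W - - ⟨hU, hW⟩
      constructor
      · intro y hy
        obtain ⟨p, hp, s, hs, rfl⟩ := Submodule.mem_sup.mp hy
        obtain ⟨α, rfl⟩ := Submodule.mem_span_singleton.mp hs
        rw [map_add, map_smul, hTv, smul_smul]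
        exact Submodule.add_mem_sup (hU p hp) (Submodule.smul_mem _ _ (Submodule.mem_span_singleton_self v))
      · intro y hy
        obtain ⟨p, hp, s, hs, rfl⟩ := Submodule.mem_sup.mp hy
        obtain ⟨α, rfl⟩ := Submodule.mem_span_singleton.mp hs
        rw [map_add, map_smul, hTw, smul_smul]
        exact Submodule.add_mem_sup (hW p hp) (Submodule.smul_mem _ _ (Submodule.mem_span_singleton_self w))

/-- A transformation `T` with `T² = -1` and isometric for an alternating form, in characteristic `≠ 2`:
a nondegenerate invariant subspace splits into complementary totally isotropic subspaces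
interchanged by `T`. -/
theorem exists_pair_of_sq_neg_one [FiniteDimensional F V] (h2 : (2 : F) ≠ 0) (halt : ∀ v, B v v = 0)
    (T : V →ₗ[F] V) (hiso : ∀ u v, B (T u) (T v) = B u v) (hT : ∀ v, T (T v) = - v)
    (S : Submodule F V) (hS : ∀ v ∈ S, T v ∈ S) (hnd : NondegOn B S) :
    ∃ U W : Submodule F V, U ⊔ W = S ∧ U ⊓ W = ⊥ ∧ TI B U ∧ TI B W ∧
      (∀ v ∈ U, T v ∈ W) ∧ (∀ v ∈ W, T v ∈ U) := by
  refine exists_pair halt (fun S => ∀ v ∈ S, T v ∈ S)
    (fun U W => (∀ v ∈ U, T v ∈ W) ∧ (∀ v ∈ W, T v ∈ U)) ?_ ?_ S hS hnd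
  · constructor <;> · intro v hv; rw [Submodule.mem_bot] at hv ⊢; simp [hv]
  · intro S hS hnd hne
    obtain ⟨u, huS, hu0⟩ := (Submodule.ne_bot_iff S).mp hne
    have hsym : ∀ x y, B x (T y) = B y (T x) := by
      intro x y
      have h3 := hiso (T x) y
      rw [hT, map_neg, LinearMap.neg_apply] at h3
      rw [skew halt y (T x), ← h3]
      ring
    obtain ⟨v, hvS, hvv⟩ : ∃ v ∈ S, B v (T v) ≠ 0 := by
      by_contra hcon
      push_neg at hcon
      apply hu0
      apply hnd u huS
      intro y hy
      have hTy : T (- T y) = y := by rw [map_neg, hT, neg_neg]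
      obtain ⟨z, hz⟩ : ∃ z, z = - T y := ⟨_, rfl⟩
      rw [← hz] at hTy
      have hzS : z ∈ S := by rw [hz]; exact S.neg_mem (hS y hy)
      have h4 := hcon (u + z) (S.add_mem huS hzS)
      have h5 := hcon u huS
      have h6 := hcon z hzS
      rw [hTy] at h6
      simp only [map_add, LinearMap.add_apply, h5, h6, add_zero, zero_add, hTy] at h4
      have h7 := hsym z u
      rw [hTy] at h7
      rw [h7] at h4
      have h8 : (2 : F) * B u y = 0 := by linear_combination h4
      rcases mul_eq_zero.mp h8 with h | h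
      · exact absurd h h2
      · exact h
    refine ⟨v, T v, hvS, hS v hvS, hvv, ?_, ?_⟩
    · intro y hy
      obtain ⟨hyS, hyv, hyw⟩ := mem_cut.mp hy
      refine mem_cut.mpr ⟨hS y hyS, ?_, ?_⟩
      · have h3 := hiso y (T v)
        rw [hT, map_neg, hyw, neg_eq_zero] at h3
        exact h3
      · rw [hiso, hyv]
    · rintro U W - - ⟨hU, hW⟩
      constructor
      · intro y hy
        obtain ⟨p, hp, s, hs, rfl⟩ := Submodule.mem_sup.mp hy
        obtain ⟨α, rfl⟩ := Submodule.mem_span_singleton.mp hs
        rw [map_add, map_smul]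
        exact Submodule.add_mem_sup (hU p hp) (Submodule.smul_mem _ _ (Submodule.mem_span_singleton_self _))
      · intro y hy
        obtain ⟨p, hp, s, hs, rfl⟩ := Submodule.mem_sup.mp hy
        obtain ⟨α, rfl⟩ := Submodule.mem_span_singleton.mp hs
        rw [map_add, map_smul, hT, smul_neg, ← neg_smul]
        exact Submodule.add_mem_sup (hW p hp) (Submodule.smul_mem _ _ (Submodule.mem_span_singleton_self _))

end Cfsg.Agent.Lib.AltPairs
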