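import Mathlib
import Cfsg.Agent.Lib.FrobeniusSchur

/-!
# The alternating square of a character

For a character `χ`, the function `g ↦ (χ g ^ 2 - χ (g * g)) / 2` is a character: the representation lives on the
skew-symmetric matrices, with `X ↦ A X Aᵀ`.
-/

set_option autoImplicit false

namespace Cfsg.Agent.Lib.AltSqChar

open Cfsg Cfsg.Agent.Lib.CharBasic Cfsg.Agent.Lib.FrobeniusSchur
open Module Matrix

universe u v

section Trace

variable {V : Type v} [AddCommGroup V] [Module ℂ V] [FiniteDimensional ℂ V]

/-- Trace of a map preserving both parts of a decomposition. -/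
theorem trace_eq_add_of_isCompl (S S' : Submodule ℂ V) (h : IsCompl S S') (f : V →ₗ[ℂ] V)
    (hf : ∀ x ∈ S, f x ∈ S) (hf' : ∀ x ∈ S', f x ∈ S') :
    LinearMap.trace ℂ V f = LinearMap.trace ℂ S (f.restrict hf) + LinearMap.trace ℂ S' (f.restrict hf') := by
  classical
  let e := Submodule.prodEquivOfIsCompl S S' h
  have h1 : LinearMap.trace ℂ V f = LinearMap.trace ℂ (S × S') (e.symm.conj f) :=
    (LinearMap.trace_conj' f e.symm).symm
  have h2 : e.symm.conj f = LinearMap.prodMap (f.restrict hf) (f.restrict hf') := by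
    apply LinearMap.ext
    rintro ⟨x, y⟩
    apply e.injective
    have he : ∀ a : S × S', e a = (a.1 : V) + a.2 := fun a => Submodule.coe_prodEquivOfIsCompl' _ _ h a
    simp only [LinearEquiv.conj_apply, LinearMap.comp_apply, LinearEquiv.coe_coe,
      LinearEquiv.apply_symm_apply, LinearEquiv.symm_symm]
    rw [he, he]
    simp only [LinearMap.prodMap_apply, map_add]
    rfl
  rw [h1, h2, LinearMap.trace_prodMap']

end Trace

section Skew

variable {n : Type*} [Fintype n] [DecidableEq n]

/-- Symmetric matrices. -/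
def symSub (n : Type*) [Fintype n] [DecidableEq n] : Submodule ℂ (Matrix n n ℂ) :=
  LinearMap.ker ((swapT : Matrix n n ℂ →ₗ[ℂ] Matrix n n ℂ) - LinearMap.id)

/-- Skew-symmetric matrices. -/
def skewSub (n : Type*) [Fintype n] [DecidableEq n] : Submodule ℂ (Matrix n n ℂ) :=
  LinearMap.ker ((swapT : Matrix n n ℂ →ₗ[ℂ] Matrix n n ℂ) + LinearMap.id)

theorem mem_symSub {X : Matrix n n ℂ} : X ∈ symSub n ↔ Xᵀ = X := by
  simp [symSub, LinearMap.mem_ker, swapT_apply, sub_eq_zero]

theorem mem_skewSub {X : Matrix n n ℂ} : X ∈ skewSub n ↔ Xᵀ = -X := by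
  simp [skewSub, LinearMap.mem_ker, swapT_apply, add_eq_zero_iff_eq_neg]

theorem isCompl_sym_skew : IsCompl (symSub n) (skewSub n) := by
  constructor
  · rw [Submodule.disjoint_def]
    intro X h1 h2
    rw [mem_symSub] at h1
    rw [mem_skewSub] at h2
    have h3 : X = -X := h1.symm.trans h2
    have h4 : (2 : ℂ) • X = 0 := by
      rw [two_smul]
      nth_rewrite 1 [h3]
      simp
    exact (smul_eq_zero.mp h4).resolve_left (by norm_num)
  · rw [codisjoint_iff, eq_top_iff]
    intro X _
    have hX : X = (2 : ℂ)⁻¹ • (X + Xᵀ) + (2 : ℂ)⁻¹ • (X - Xᵀ) := by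
      rw [← smul_add]
      have : X + Xᵀ + (X - Xᵀ) = (2 : ℂ) • X := by
        rw [two_smul]
        abel
      rw [this, smul_smul]
      norm_num
    rw [hX]
    apply Submodule.add_mem_sup
    · rw [mem_symSub]
      rw [Matrix.transpose_smul, Matrix.transpose_add, Matrix.transpose_transpose, add_comm]
    · rw [mem_skewSub]
      rw [Matrix.transpose_smul, Matrix.transpose_sub, Matrix.transpose_transpose, ← smul_neg, neg_sub]

theorem sand_mem_sym (A : Matrix n n ℂ) {X : Matrix n n ℂ} (hX : X ∈ symSub n) : sand A X ∈ symSub n := by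
  rw [mem_symSub] at hX ⊢
  rw [sand_apply, Matrix.transpose_mul, Matrix.transpose_mul, Matrix.transpose_transpose, hX, Matrix.mul_assoc]

theorem sand_mem_skew (A : Matrix n n ℂ) {X : Matrix n n ℂ} (hX : X ∈ skewSub n) : sand A X ∈ skewSub n := by
  rw [mem_skewSub] at hX ⊢
  rw [sand_apply, Matrix.transpose_mul, Matrix.transpose_mul, Matrix.transpose_transpose, hX]
  simp [Matrix.mul_assoc]

/-- The trace on skew matrices. -/
theorem trace_skew (A : Matrix n n ℂ) :
    LinearMap.trace ℂ (skewSub n) ((sand A).restrict (fun X hX => sand_mem_skew A hX)) =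
      (A.trace ^ 2 - (A * A).trace) / 2 := by
  have h1 := trace_eq_add_of_isCompl (symSub n) (skewSub n) isCompl_sym_skew (sand A)
    (fun X hX => sand_mem_sym A hX) (fun X hX => sand_mem_skew A hX)
  have hT1 : ∀ X ∈ symSub n, (swapT ∘ₗ sand A) X ∈ symSub n := by
    intro X hX
    have h2 := sand_mem_sym A hX
    rw [mem_symSub] at h2
    rw [LinearMap.comp_apply, swapT_apply, h2]
    exact sand_mem_sym A hX
  have hT2 : ∀ X ∈ skewSub n, (swapT ∘ₗ sand A) X ∈ skewSub n := by
    intro X hX
    have h2 := sand_mem_skew A hX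
    rw [mem_skewSub] at h2
    rw [LinearMap.comp_apply, swapT_apply, h2]
    exact (skewSub n).neg_mem (sand_mem_skew A hX)
  have h3 := trace_eq_add_of_isCompl (symSub n) (skewSub n) isCompl_sym_skew (swapT ∘ₗ sand A) hT1 hT2
  have h4 : (swapT ∘ₗ sand A).restrict hT1 = (sand A).restrict (fun X hX => sand_mem_sym A hX) := by
    apply LinearMap.ext
    intro X
    apply Subtype.ext
    have h2 := sand_mem_sym A X.2
    rw [mem_symSub] at h2
    simp only [LinearMap.coe_restrict_apply, LinearMap.comp_apply, swapT_apply]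
    exact h2
  have h5 : (swapT ∘ₗ sand A).restrict hT2 = - (sand A).restrict (fun X hX => sand_mem_skew A hX) := by
    apply LinearMap.ext
    intro X
    apply Subtype.ext
    have h2 := sand_mem_skew A X.2
    rw [mem_skewSub] at h2
    simp only [LinearMap.coe_restrict_apply, LinearMap.comp_apply, swapT_apply, LinearMap.neg_apply]
    exact h2
  rw [h4, h5, trace_swapT_sand] at h3
  have h6 : LinearMap.trace ℂ (skewSub n) (- (sand A).restrict (fun X hX => sand_mem_skew A hX)) =
      - LinearMap.trace ℂ (skewSub n) ((sand A).restrict (fun X hX => sand_mem_skew A hX)) := by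
    rw [← neg_one_smul ℂ ((sand A).restrict (fun X hX => sand_mem_skew A hX)), map_smul, smul_eq_mul]
    ring
  rw [h6] at h3
  rw [trace_sand] at h1
  rw [h1, h3]
  ring

end Skew

section Main

variable {G : Type u} [Group G]

/-- **The alternating square of a character is a character.** -/
theorem isCharacter_altSq {χ : G → ℂ} (hχ : IsCharacter G χ) :
    IsCharacter G (fun g => (χ g ^ 2 - χ (g * g)) / 2) := by
  obtain ⟨n, ρ, rfl⟩ := hχ
  set k := Fin (finrank ℂ (Fin n → ℂ)) with hk
  have hone : matOf ρ 1 = 1 := by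
    unfold matOf
    rw [map_one]
    exact LinearMap.toMatrix_one _
  let σ : Representation ℂ G (skewSub k) :=
    { toFun := fun g => (sand (matOf ρ g)).restrict (fun X hX => sand_mem_skew _ hX)
      map_one' := by
        apply LinearMap.ext
        intro X
        apply Subtype.ext
        simp [hone, sand_apply]
      map_mul' := by
        intro g h
        apply LinearMap.ext
        intro X
        apply Subtype.ext
        simp only [LinearMap.coe_restrict_apply, Module.End.mul_apply, matOf_mul, sand_mul, LinearMap.comp_apply] }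
  have h1 := isCharacter_of_rep' σ
  have h2 : σ.character = fun g => (ρ.character g ^ 2 - ρ.character (g * g)) / 2 := by
    funext g
    show LinearMap.trace ℂ (skewSub k) ((sand (matOf ρ g)).restrict (fun X hX => sand_mem_skew _ hX)) = _
    rw [trace_skew, ← matOf_mul, trace_matOf, trace_matOf]
  rwa [h2] at h1

end Main

end Cfsg.Agent.Lib.AltSqChar
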