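import Mathlib

/-!
Wreath-type permutations on `(Y × ZMod p) ⊕ A`, the layers `L S₁ S₂`, and Sylow subgroups of
symmetric groups built from them.
-/

set_option linter.unusedSectionVars false
set_option linter.unusedVariables false
set_option linter.unusedFintypeInType false
set_option linter.unusedDecidableInType false

namespace Cfsg.Agent.AltWr

open Equiv Equiv.Perm
open scoped Nat

variable {Y A : Type} (p : ℕ) [Fact p.Prime]

/-- The permutation `(y, x) ↦ (h y, u y x)`, `a ↦ v a`. -/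
def wr (h : Perm Y) (u : Y → Perm (ZMod p)) (v : Perm A) : Perm ((Y × ZMod p) ⊕ A) :=
  Equiv.sumCongr (Equiv.prodShear h u) v

@[simp] theorem wr_inl (h : Perm Y) (u : Y → Perm (ZMod p)) (v : Perm A) (y : Y) (x : ZMod p) :
    wr p h u v (Sum.inl (y, x)) = Sum.inl (h y, u y x) := rfl

@[simp] theorem wr_inr (h : Perm Y) (u : Y → Perm (ZMod p)) (v : Perm A) (a : A) :
    wr p h u v (Sum.inr a) = Sum.inr (v a) := rfl

theorem wr_mul (h h' : Perm Y) (u u' : Y → Perm (ZMod p)) (v v' : Perm A) :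
    wr p h u v * wr p h' u' v' = wr p (h * h') (fun y => u (h' y) * u' y) (v * v') := by
  refine Equiv.ext fun z => ?_
  rcases z with ⟨y, x⟩ | a <;> rfl

theorem wr_one : wr p (1 : Perm Y) (fun _ => 1) (1 : Perm A) = 1 := by
  refine Equiv.ext fun z => ?_
  rcases z with ⟨y, x⟩ | a <;> rfl

theorem wr_inv (h : Perm Y) (u : Y → Perm (ZMod p)) (v : Perm A) :
    (wr p h u v)⁻¹ = wr p h⁻¹ (fun y => (u (h⁻¹ y))⁻¹) v⁻¹ := by
  rw [inv_eq_iff_mul_eq_one, wr_mul]
  refine Equiv.ext fun z => ?_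
  rcases z with ⟨y, x⟩ | a
  · simp [wr_inl]
  · simp [wr_inr]

theorem wr_inj {h h' : Perm Y} {u u' : Y → Perm (ZMod p)} {v v' : Perm A}
    (H : wr p h u v = wr p h' u' v') : h = h' ∧ u = u' ∧ v = v' := by
  refine ⟨Equiv.ext fun y => ?_, funext fun y => Equiv.ext fun x => ?_, Equiv.ext fun a => ?_⟩
  · have := congrArg (fun g => g (Sum.inl (y, 0))) H
    simp only [wr_inl] at this
    exact congrArg Prod.fst (Sum.inl.inj this)
  · have := congrArg (fun g => g (Sum.inl (y, x))) H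
    simp only [wr_inl] at this
    exact congrArg Prod.snd (Sum.inl.inj this)
  · have := congrArg (fun g => g (Sum.inr a)) H
    simp only [wr_inr] at this
    exact Sum.inr.inj this

/-- translation by `k` on `ZMod p`. -/
def tr (k : ZMod p) : Perm (ZMod p) := Equiv.addRight k

@[simp] theorem tr_apply (k x : ZMod p) : tr p k x = x + k := rfl

theorem tr_mul (k l : ZMod p) : tr p k * tr p l = tr p (k + l) := by
  refine Equiv.ext fun x => ?_
  show x + l + k = x + (k + l)
  ring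

theorem tr_zero : tr p 0 = 1 := by
  refine Equiv.ext fun x => ?_
  show x + 0 = x
  ring

theorem tr_inv (k : ZMod p) : (tr p k)⁻¹ = tr p (-k) := by
  rw [inv_eq_iff_mul_eq_one, tr_mul]
  simp [tr_zero]

theorem tr_inj {k l : ZMod p} (h : tr p k = tr p l) : k = l := by
  have := congrArg (fun g => g 0) h
  simpa using this

/-- The layer `{ (y, x) ↦ (h y, x + f y), a ↦ v a | h ∈ S₁, v ∈ S₂ }`. -/
def L (S₁ : Subgroup (Perm Y)) (S₂ : Subgroup (Perm A)) : Subgroup (Perm ((Y × ZMod p) ⊕ A)) where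
  carrier := {g | ∃ h ∈ S₁, ∃ f : Y → ZMod p, ∃ v ∈ S₂, g = wr p h (fun y => tr p (f y)) v}
  mul_mem' := by
    rintro _ _ ⟨h, hh, f, v, hv, rfl⟩ ⟨h', hh', f', v', hv', rfl⟩
    refine ⟨h * h', S₁.mul_mem hh hh', fun y => f (h' y) + f' y, v * v', S₂.mul_mem hv hv', ?_⟩
    rw [wr_mul]
    simp only [tr_mul]
  one_mem' := by
    refine ⟨1, S₁.one_mem, fun _ => 0, 1, S₂.one_mem, ?_⟩
    simp only [tr_zero, wr_one]
  inv_mem' := by
    rintro _ ⟨h, hh, f, v, hv, rfl⟩
    refine ⟨h⁻¹, S₁.inv_mem hh, fun y => -f (h⁻¹ y), v⁻¹, S₂.inv_mem hv, ?_⟩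
    rw [wr_inv]
    simp only [tr_inv]

theorem mem_L {S₁ : Subgroup (Perm Y)} {S₂ : Subgroup (Perm A)} {g : Perm ((Y × ZMod p) ⊕ A)} :
    g ∈ L p S₁ S₂ ↔ ∃ h ∈ S₁, ∃ f : Y → ZMod p, ∃ v ∈ S₂, g = wr p h (fun y => tr p (f y)) v :=
  Iff.rfl

theorem wr_mem_L {S₁ : Subgroup (Perm Y)} {S₂ : Subgroup (Perm A)} {h : Perm Y} (hh : h ∈ S₁)
    (f : Y → ZMod p) {v : Perm A} (hv : v ∈ S₂) : wr p h (fun y => tr p (f y)) v ∈ L p S₁ S₂ :=
  ⟨h, hh, f, v, hv, rfl⟩

/-- The cardinality of a layer. -/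
theorem card_L [Fintype Y] [DecidableEq Y] (S₁ : Subgroup (Perm Y)) (S₂ : Subgroup (Perm A)) :
    Nat.card (L p S₁ S₂) = p ^ Fintype.card Y * Nat.card S₁ * Nat.card S₂ := by
  classical
  let Φ : (Y → ZMod p) × S₁ × S₂ → L p S₁ S₂ := fun t =>
    ⟨wr p (t.2.1 : Perm Y) (fun y => tr p (t.1 y)) (t.2.2 : Perm A),
      wr_mem_L p t.2.1.2 t.1 t.2.2.2⟩
  have hΦ : Function.Bijective Φ := by
    constructor
    · rintro ⟨f, h, v⟩ ⟨f', h', v'⟩ H
      have H' := congrArg Subtype.val H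
      obtain ⟨h1, h2, h3⟩ := wr_inj p H'
      have h4 : f = f' := funext fun y => tr_inj p (congrFun h2 y)
      have h5 : h = h' := Subtype.ext h1
      have h6 : v = v' := Subtype.ext h3
      rw [h4, h5, h6]
    · rintro ⟨g, h, hh, f, v, hv, rfl⟩
      exact ⟨⟨f, ⟨h, hh⟩, ⟨v, hv⟩⟩, rfl⟩
  rw [← Nat.card_congr (Equiv.ofBijective Φ hΦ), Nat.card_prod, Nat.card_prod]
  have : Nat.card (Y → ZMod p) = p ^ Fintype.card Y := by
    rw [Nat.card_eq_fintype_card, Fintype.card_fun, ZMod.card]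
  rw [this, mul_assoc]

/-! ### Sylow cardinalities -/

theorem factorization_card_perm (Z : Type) [Fintype Z] [DecidableEq Z] :
    (Nat.card (Perm Z)).factorization p = padicValNat p (Fintype.card Z)! := by
  rw [Nat.card_eq_fintype_card, Fintype.card_perm, Nat.factorization_def _ (Fact.out : p.Prime)]

theorem card_sylow_perm {Z : Type} [Fintype Z] [DecidableEq Z] (S : Sylow p (Perm Z)) :
    Nat.card S = p ^ padicValNat p (Fintype.card Z)! := by
  rw [Sylow.card_eq_multiplicity, factorization_card_perm]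

/-- A subgroup of `Perm Z` of the right order as a Sylow subgroup. -/
noncomputable def sylowOfCard {Z : Type} [Fintype Z] [DecidableEq Z] (H : Subgroup (Perm Z))
    (hH : Nat.card H = p ^ padicValNat p (Fintype.card Z)!) : Sylow p (Perm Z) :=
  Sylow.ofCard H (by rw [hH, factorization_card_perm])

@[simp] theorem coe_sylowOfCard {Z : Type} [Fintype Z] [DecidableEq Z] (H : Subgroup (Perm Z))
    (hH : Nat.card H = p ^ padicValNat p (Fintype.card Z)!) :
    ((sylowOfCard p H hH : Sylow p (Perm Z)) : Subgroup (Perm Z)) = H :=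
  rfl

/-- `v_p((p m + r)!) = m + v_p(m!)` for `r < p`. -/
theorem val_factorial_layer (m r : ℕ) (hr : r < p) :
    padicValNat p (p * m + r)! = m + padicValNat p m ! := by
  rw [padicValNat_factorial_mul_add m hr, padicValNat_factorial_mul]
  ring

/-- `v_p(m!) = v_p((p^i)!) + v_p((m - p^i)!)` for `p^i ≤ m < p^(i+1)`. -/
theorem val_factorial_split (i : ℕ) : ∀ m : ℕ, p ^ i ≤ m → m < p ^ (i + 1) →
    padicValNat p m ! = padicValNat p (p ^ i)! + padicValNat p (m - p ^ i)! := by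
  have hp : p.Prime := Fact.out
  induction i with
  | zero =>
    intro m h1 h2
    simp only [pow_zero, zero_add, pow_one] at h1 h2 ⊢
    have h3 : ∀ k < p, padicValNat p k ! = 0 := by
      intro k hk
      apply padicValNat.eq_zero_of_not_dvd
      exact fun hd => absurd ((Nat.Prime.dvd_factorial hp).mp hd) (by omega)
    rw [h3 m h2, h3 (m - 1) (by omega)]
    simp
  | succ i ih =>
    intro m h1 h2
    set m' := m / p with hm'
    set r := m % p with hr
    have hrlt : r < p := Nat.mod_lt _ hp.pos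
    have hm : m = p * m' + r := (Nat.div_add_mod m p).symm
    have h3 : p ^ i ≤ m' := by
      rw [hm', Nat.le_div_iff_mul_le hp.pos]
      calc p ^ i * p = p ^ (i + 1) := (pow_succ _ _).symm
        _ ≤ m := h1
    have h4 : m' < p ^ (i + 1) := by
      rw [hm', Nat.div_lt_iff_lt_mul hp.pos]
      calc m < p ^ (i + 1 + 1) := h2
        _ = p ^ (i + 1) * p := pow_succ _ _
    have h5 : m - p ^ (i + 1) = p * (m' - p ^ i) + r := by
      rw [hm, pow_succ, mul_comm (p ^ i) p, Nat.mul_sub]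
      have : p * p ^ i ≤ p * m' := Nat.mul_le_mul_left _ h3
      omega
    have h6 : p ^ (i + 1) = p * p ^ i := by rw [pow_succ, mul_comm]
    rw [h5, hm, val_factorial_layer p m' r hrlt, val_factorial_layer p (m' - p ^ i) r hrlt,
      ih m' h3 h4, h6]
    have h7 := val_factorial_layer p (p ^ i) 0 hp.pos
    simp only [add_zero] at h7
    rw [h7]
    omega

end Cfsg.Agent.AltWr
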