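import Cfsg.Agent.Lib.FusionSimpleGen
import Cfsg.Agent.Lib.PSLFusionBasic

/-!
The simplicity criterion read through an injective homomorphism into an ambient group.
-/

set_option linter.unusedSectionVars false
set_option linter.unusedVariables false

namespace Cfsg.Agent.AltWr

open Cfsg.Agent.Lib.FusionSimpleGen Cfsg.Agent.Lib.FusionSimpleCrit

variable {G Ω : Type*} [Group G] [Finite G] [Group Ω] (p : ℕ) [Fact p.Prime]

theorem simple_of_embedding (θ : G →* Ω) (hθ : Function.Injective θ) (B : Subgroup Ω)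
    (hB : B ≤ θ.range) (k m : ℕ) (hcardB : Nat.card B = p ^ k) (hcardG : Nat.card G = p ^ k * m)
    (hm : ¬ p ∣ m) (hk : k ≠ 0)
    (hcl : ∀ R : Subgroup Ω, R ≤ B →
      (∀ t ∈ R, ∀ g ∈ θ.range, g * t * g⁻¹ ∈ B → g * t * g⁻¹ ∈ R) → R = ⊥ ∨ R = B)
    (X : Set Ω)
    (hX : ∀ x ∈ X, x ∈ θ.range ∧ (∀ s ∈ B, x * s * x⁻¹ ∈ B) ∧ ∃ R : Subgroup Ω, R ≤ B ∧
      (∀ c ∈ θ.range, (∀ r ∈ R, c * r = r * c) → c ∈ R) ∧
      x ∈ Subgroup.closure {w | w ∈ θ.range ∧ (∀ r ∈ R, w * r * w⁻¹ ∈ R) ∧ ∃ k : ℕ, orderOf w = p ^ k})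
    (hN : ∀ g ∈ θ.range, (∀ s ∈ B, g * s * g⁻¹ ∈ B) → g ∈ Subgroup.closure ((B : Set Ω) ∪ X))
    (S : Sylow p G) : (Cfsg.groupFusionSystem (S : Subgroup G)).IsSimple p := by
  classical
  have hp : p.Prime := Fact.out
  have hpk : p ^ k ≠ 0 := pow_ne_zero _ hp.ne_zero
  have hm0 : m ≠ 0 := by
    rintro rfl
    exact hm (dvd_zero p)
  have hfac : (Nat.card G).factorization p = k := by
    rw [hcardG, Nat.factorization_mul hpk hm0, Nat.factorization_pow]
    simp [hp.factorization_self, Nat.factorization_eq_zero_of_not_dvd hm]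
  have hmapB : (B.comap θ).map θ = B := Subgroup.map_comap_eq_self hB
  have hequiv : Nat.card (B.comap θ) = Nat.card B := by
    conv_rhs => rw [← hmapB]
    exact (Subgroup.card_map_of_injective hθ).symm
  let S₀ : Sylow p G := Sylow.ofCard (B.comap θ) (by rw [hequiv, hcardB, hfac])
  have hS₀ : (S₀ : Subgroup G) = B.comap θ := Sylow.coe_ofCard _ _
  have hmemS₀ : ∀ x : G, x ∈ (S₀ : Subgroup G) ↔ θ x ∈ B := by
    intro x
    rw [hS₀, Subgroup.mem_comap]
  refine isSimple_of_generated' p S₀ ?_ ?_ (θ ⁻¹' X) ?_ ?_ S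
  · rw [hS₀]
    intro hb
    rw [hb, Subgroup.card_bot, hcardB] at hequiv
    have : 1 < p ^ k := Nat.one_lt_pow hk hp.one_lt
    omega
  · intro T hT hTc
    have hT' : T.map θ ≤ B := by
      rintro _ ⟨x, hx, rfl⟩
      exact (hmemS₀ x).mp (hT hx)
    have hc : ∀ t ∈ T.map θ, ∀ g ∈ θ.range, g * t * g⁻¹ ∈ B → g * t * g⁻¹ ∈ T.map θ := by
      rintro _ ⟨t, ht, rfl⟩ _ ⟨g, rfl⟩ hgt
      have h0 : θ (g * t * g⁻¹) ∈ B := by
        rw [map_mul, map_mul, map_inv]
        exact hgt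
      have h1 := hTc t ht g ((hmemS₀ _).mpr h0)
      refine ⟨_, h1, ?_⟩
      rw [map_mul, map_mul, map_inv]
    rcases hcl (T.map θ) hT' hc with h0 | h0
    · left
      exact (Subgroup.map_eq_bot_iff_of_injective _ hθ).mp h0
    · right
      apply le_antisymm hT
      intro x hx
      have : θ x ∈ T.map θ := by
        rw [h0]
        exact (hmemS₀ x).mp hx
      obtain ⟨y, hy, hyx⟩ := this
      have : y = x := hθ hyx
      exact this ▸ hy
  · intro x' hx'
    obtain ⟨-, h1, R, hRB, hRc, hcl'⟩ := hX (θ x') hx'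
    refine ⟨?_, R.comap θ, ?_, ?_, ?_⟩
    · intro s hs
      rw [hmemS₀] at hs ⊢
      rw [map_mul, map_mul, map_inv]
      exact h1 _ hs
    · intro r hr
      exact (hmemS₀ r).mpr (hRB (Subgroup.mem_comap.mp hr))
    · intro c hc
      rw [Subgroup.mem_comap]
      apply hRc _ ⟨c, rfl⟩
      intro r hr
      obtain ⟨r', rfl⟩ := hB (hRB hr)
      have := hc r' (by rw [Subgroup.mem_comap]; exact hr)
      rw [← map_mul, this, map_mul]
    · -- closure
      set W' : Set G := {w | w ∈ Subgroup.normalizer ((R.comap θ : Subgroup G) : Set G) ∧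
        ∃ k : ℕ, orderOf w = p ^ k} with hW'
      have hle : Subgroup.closure {w | w ∈ θ.range ∧ (∀ r ∈ R, w * r * w⁻¹ ∈ R) ∧
          ∃ k : ℕ, orderOf w = p ^ k} ≤ (Subgroup.closure W').map θ := by
        rw [Subgroup.closure_le]
        rintro _ ⟨⟨w, rfl⟩, hw1, k₀, hw2⟩
        refine ⟨w, Subgroup.subset_closure ⟨?_, k₀, ?_⟩, rfl⟩
        · rw [Subgroup.mem_normalizer_iff]
          have hw3 : ∀ s ∈ ((R.comap θ : Subgroup G) : Set G), w * s * w⁻¹ ∈ ((R.comap θ : Subgroup G) : Set G) := by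
            intro s hs
            have h2 : θ s ∈ R := hs
            show θ (w * s * w⁻¹) ∈ R
            rw [map_mul, map_mul, map_inv]
            exact hw1 _ h2
          have hw4 := Cfsg.Agent.Lib.PSLFusionBasic.conj_inv_mem_of_finite _ hw3
          intro h
          constructor
          · exact hw3 h
          · intro h2
            have := hw4 _ h2
            have h3 : w⁻¹ * (w * h * w⁻¹) * w = h := by group
            rwa [h3] at this
        · rw [← hw2]
          exact (orderOf_injective θ hθ w).symm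
      obtain ⟨y, hy, hyx⟩ := hle hcl'
      have : y = x' := hθ hyx
      exact this ▸ hy
  · intro g hg
    have h1 := hN (θ g) ⟨g, rfl⟩ (by
      intro s hs
      obtain ⟨s', rfl⟩ := hB hs
      have h2 := hg s' ((hmemS₀ _).mpr hs)
      have h3 := (hmemS₀ _).mp h2
      rwa [map_mul, map_mul, map_inv] at h3)
    have hle : Subgroup.closure ((B : Set Ω) ∪ X) ≤
        (Subgroup.closure (((S₀ : Subgroup G) : Set G) ∪ θ ⁻¹' X)).map θ := by
      rw [Subgroup.closure_le]
      rintro x (hx | hx)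
      · obtain ⟨x', rfl⟩ := hB hx
        exact ⟨x', Subgroup.subset_closure (Or.inl ((hmemS₀ x').mpr hx)), rfl⟩
      · obtain ⟨-, h2, R, hRB, -, -⟩ := hX x hx
        obtain ⟨x', rfl⟩ := (hX x hx).1
        exact ⟨x', Subgroup.subset_closure (Or.inr hx), rfl⟩
    obtain ⟨y, hy, hyx⟩ := hle h1
    have : y = g := hθ hyx
    exact this ▸ hy

end Cfsg.Agent.AltWr
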