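import Cfsg.Agent.Lib.AltWrBase

/-!
Pure lifts and translations inside layers; signs, supports, block-preserving permutations.
-/

set_option linter.unusedSectionVars false
set_option linter.unusedVariables false
set_option linter.unusedFintypeInType false
set_option linter.unusedDecidableInType false

namespace Cfsg.Agent.AltWr

open Equiv Equiv.Perm
open scoped Nat

theorem perm_inv_apply_self {α : Type*} (f : Perm α) (x : α) : f⁻¹ (f x) = x := f.symm_apply_apply x
theorem perm_apply_inv_self {α : Type*} (f : Perm α) (x : α) : f (f⁻¹ x) = x := f.apply_symm_apply x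

theorem zmod_two_cases : ∀ k : ZMod 2, k = 0 ∨ k = 1 := by decide
theorem zmod_two_add : (1 : ZMod 2) + 1 = 0 := by decide
theorem zmod_two_ne : (0 : ZMod 2) ≠ 1 := by decide

variable {Y A : Type} (p : ℕ) [Fact p.Prime]

/-- the pure lift of `h`. -/
def pl (h : Perm Y) : Perm ((Y × ZMod p) ⊕ A) := wr p h (fun _ => 1) 1

/-- the translation `(y, x) ↦ (y, x + f y)`. -/
def T (f : Y → ZMod p) : Perm ((Y × ZMod p) ⊕ A) := wr p 1 (fun y => tr p (f y)) 1

@[simp] theorem pl_inl (h : Perm Y) (y : Y) (x : ZMod p) :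
    pl (A := A) p h (Sum.inl (y, x)) = Sum.inl (h y, x) := rfl
@[simp] theorem pl_inr (h : Perm Y) (a : A) : pl (A := A) p h (Sum.inr a) = Sum.inr a := rfl
@[simp] theorem T_inl (f : Y → ZMod p) (y : Y) (x : ZMod p) :
    T (A := A) p f (Sum.inl (y, x)) = Sum.inl (y, x + f y) := rfl
@[simp] theorem T_inr (f : Y → ZMod p) (a : A) : T (A := A) p f (Sum.inr a) = Sum.inr a := rfl

theorem pl_mul (h h' : Perm Y) : pl (A := A) p (h * h') = pl p h * pl p h' := by
  refine Equiv.ext fun z => ?_
  rcases z with ⟨y, x⟩ | a <;> rfl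

theorem pl_one : pl (A := A) p (1 : Perm Y) = 1 := by
  refine Equiv.ext fun z => ?_
  rcases z with ⟨y, x⟩ | a <;> rfl

/-- pure lift as a homomorphism. -/
def plHom : Perm Y →* Perm ((Y × ZMod p) ⊕ A) where
  toFun := pl p
  map_one' := pl_one p
  map_mul' := pl_mul p

theorem plHom_apply (h : Perm Y) : plHom (A := A) p h = pl p h := rfl

theorem pl_injective : Function.Injective (pl (Y := Y) (A := A) p) := by
  intro h h' H
  exact (wr_inj p H).1

theorem orderOf_pl (h : Perm Y) : orderOf (pl (A := A) p h) = orderOf h :=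
  orderOf_injective (plHom (A := A) p) (pl_injective p) h

theorem T_add (f g : Y → ZMod p) : T (A := A) p (f + g) = T p f * T p g := by
  refine Equiv.ext fun z => ?_
  rcases z with ⟨y, x⟩ | a
  · show Sum.inl (y, x + (f y + g y)) = Sum.inl (y, x + g y + f y)
    congr 2
    ring
  · rfl

theorem T_zero : T (A := A) p (0 : Y → ZMod p) = 1 := by
  refine Equiv.ext fun z => ?_
  rcases z with ⟨y, x⟩ | a
  · show Sum.inl (y, x + 0) = Sum.inl (y, x)
    rw [add_zero]
  · rfl

theorem T_inv (f : Y → ZMod p) : (T (A := A) p f)⁻¹ = T p (-f) := by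
  rw [inv_eq_iff_mul_eq_one, ← T_add, add_neg_cancel, T_zero]

theorem T_comm (f g : Y → ZMod p) : T (A := A) p f * T p g = T p g * T p f := by
  rw [← T_add, ← T_add, add_comm]

theorem T_pow (f : Y → ZMod p) (n : ℕ) : T (A := A) p f ^ n = T p (n • f) := by
  induction n with
  | zero => simp [T_zero]
  | succ n ih => rw [pow_succ, ih, ← T_add, succ_nsmul]

theorem T_inj {f g : Y → ZMod p} (h : T (A := A) p f = T p g) : f = g := by
  funext y
  exact tr_inj p (congrFun (wr_inj p h).2.1 y)

theorem T_eq_one_iff {f : Y → ZMod p} : T (A := A) p f = 1 ↔ f = 0 := by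
  constructor
  · intro h
    apply T_inj (A := A) p
    rw [h, T_zero]
  · rintro rfl
    exact T_zero p

theorem T_pow_p (f : Y → ZMod p) : T (A := A) p f ^ p = 1 := by
  rw [T_pow]
  have : p • f = 0 := by
    funext y
    simp only [Pi.smul_apply, nsmul_eq_mul, CharP.cast_eq_zero, zero_mul, Pi.zero_apply]
  rw [this, T_zero]

theorem orderOf_T {f : Y → ZMod p} (hf : f ≠ 0) : orderOf (T (A := A) p f) = p := by
  apply orderOf_eq_prime (T_pow_p p f)
  rwa [Ne, T_eq_one_iff]

theorem wr_eq_pl_mul_T (h : Perm Y) (f : Y → ZMod p) :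
    wr (A := A) p h (fun y => tr p (f y)) 1 = pl p h * T p f := by
  refine Equiv.ext fun z => ?_
  rcases z with ⟨y, x⟩ | a <;> rfl

theorem T_mem_L (S₁ : Subgroup (Perm Y)) (S₂ : Subgroup (Perm A)) (f : Y → ZMod p) :
    T p f ∈ L p S₁ S₂ :=
  wr_mem_L p S₁.one_mem f S₂.one_mem

theorem pl_mem_L {S₁ : Subgroup (Perm Y)} (S₂ : Subgroup (Perm A)) {h : Perm Y} (hh : h ∈ S₁) :
    pl p h ∈ L p S₁ S₂ := by
  refine ⟨h, hh, 0, 1, S₂.one_mem, ?_⟩
  simp only [Pi.zero_apply, tr_zero]
  rfl

theorem mem_L_bot {S₁ : Subgroup (Perm Y)} {g : Perm ((Y × ZMod p) ⊕ A)} :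
    g ∈ L p S₁ (⊥ : Subgroup (Perm A)) ↔ ∃ h ∈ S₁, ∃ f : Y → ZMod p, g = pl p h * T p f := by
  constructor
  · rintro ⟨h, hh, f, v, hv, rfl⟩
    rw [Subgroup.mem_bot] at hv
    subst hv
    exact ⟨h, hh, f, wr_eq_pl_mul_T p h f⟩
  · rintro ⟨h, hh, f, rfl⟩
    exact Subgroup.mul_mem _ (pl_mem_L p _ hh) (T_mem_L p _ _ f)

/-! ### signs -/

section sign
variable [Fintype Y] [DecidableEq Y] [Fintype A] [DecidableEq A]

theorem sign_wr (h : Perm Y) (u : Y → Perm (ZMod p)) (v : Perm A) :
    sign (wr p h u v) = sign h ^ p * (∏ y, sign (u y)) * sign v := by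
  have h1 : Equiv.prodShear h u = (Equiv.prodCongrLeft (fun _ : ZMod p => h) : Perm (Y × ZMod p))
      * (Equiv.prodCongrRight u : Perm (Y × ZMod p)) := by
    refine Equiv.ext fun z => ?_
    rcases z with ⟨y, x⟩
    rfl
  show sign (Equiv.sumCongr (Equiv.prodShear h u) v) = _
  rw [Perm.sign_sumCongr, h1, map_mul, sign_prodCongrLeft, sign_prodCongrRight]
  simp [Finset.prod_const, ZMod.card]

theorem sign_pl (h : Perm Y) : sign (pl (A := A) p h) = sign h ^ p := by
  simp [pl, sign_wr]

theorem sign_T (f : Y → ZMod p) : sign (T (A := A) p f) = ∏ y, sign (tr p (f y)) := by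
  simp [T, sign_wr]

/-- In odd characteristic translations are even. -/
theorem sign_tr_of_odd (hp : p ≠ 2) (k : ZMod p) : sign (tr p k) = 1 := by
  have hp' : p.Prime := Fact.out
  have hodd : Odd p := hp'.odd_of_ne_two hp
  have h1 : tr p k ^ p = 1 := by
    refine Equiv.ext fun x => ?_
    have : ∀ n : ℕ, (tr p k ^ n) x = x + n * k := by
      intro n
      induction n with
      | zero => simp
      | succ n ih =>
        rw [pow_succ', Perm.mul_apply, ih]
        simp only [tr_apply, Nat.cast_succ]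
        ring
    rw [this]
    simp
  have h2 := congrArg sign h1
  rw [map_pow, map_one] at h2
  rcases Int.units_eq_one_or (sign (tr p k)) with h3 | h3
  · exact h3
  · rw [h3, hodd.neg_one_pow] at h2
    exact absurd h2 (by decide)

theorem sign_tr_two (hp : p = 2) {k : ZMod p} (hk : k ≠ 0) : sign (tr p k) = -1 := by
  subst hp
  have hk1 : k = 1 := (zmod_two_cases k).resolve_left hk
  subst hk1
  have : tr 2 (1 : ZMod 2) = Equiv.swap 0 1 := by
    refine Equiv.ext fun x => ?_
    rcases zmod_two_cases x with rfl | rfl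
    · rw [swap_apply_left, tr_apply, zero_add]
    · rw [swap_apply_right, tr_apply]
      exact zmod_two_add
  rw [this, sign_swap zmod_two_ne]

theorem T_mem_alternating_of_odd (hp : p ≠ 2) (f : Y → ZMod p) :
    T (A := A) p f ∈ alternatingGroup ((Y × ZMod p) ⊕ A) := by
  rw [mem_alternatingGroup, sign_T]
  simp [sign_tr_of_odd p hp]

end sign

/-! ### supports -/

section supports
variable [Fintype Y] [DecidableEq Y] [Fintype A] [DecidableEq A]

theorem support_T (f : Y → ZMod p) : (T (A := A) p f).support =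
    ((Finset.univ.filter fun y => f y ≠ 0) ×ˢ (Finset.univ : Finset (ZMod p))).map
      (Function.Embedding.inl : (Y × ZMod p) ↪ ((Y × ZMod p) ⊕ A)) := by
  ext z
  simp only [mem_support, Finset.mem_map, Finset.mem_product, Finset.mem_filter, Finset.mem_univ,
    true_and, and_true]
  rcases z with ⟨y, x⟩ | a
  · constructor
    · intro h
      refine ⟨(y, x), ?_, rfl⟩
      intro h0
      apply h
      simp [h0]
    · rintro ⟨⟨y', x'⟩, h1, h2⟩
      have h3 : (y', x') = (y, x) := Sum.inl.inj h2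
      obtain ⟨rfl, rfl⟩ := Prod.mk.inj h3
      intro h
      rw [T_inl] at h
      have h4 := Sum.inl.inj h
      have h5 : x' + f y' = x' := congrArg Prod.snd h4
      exact h1 (by simpa using h5)
  · constructor
    · intro h
      exact absurd rfl h
    · rintro ⟨⟨y', x'⟩, h1, h2⟩
      exact absurd h2 (by simp)

theorem card_support_T (f : Y → ZMod p) : (T (A := A) p f).support.card =
    (Finset.univ.filter fun y => f y ≠ 0).card * p := by
  rw [support_T, Finset.card_map, Finset.card_product, Finset.card_univ, ZMod.card]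

end supports

/-- A `wr`-form permutation moving a point of block `y₁` into block `y₂ ≠ y₁` moves all the points
of these two blocks. -/
theorem moved_of_cross {h : Perm Y} {u : Y → Perm (ZMod p)} {v : Perm A} {y₁ y₂ : Y}
    {x₁ x₂ : ZMod p} (hne : y₁ ≠ y₂) (H : wr p h u v (Sum.inl (y₁, x₁)) = Sum.inl (y₂, x₂)) :
    (∀ x, wr p h u v (Sum.inl (y₁, x)) ≠ Sum.inl (y₁, x)) ∧
      ∀ x, wr p h u v (Sum.inl (y₂, x)) ≠ Sum.inl (y₂, x) := by
  have h1 : h y₁ = y₂ := by
    rw [wr_inl] at H
    exact congrArg Prod.fst (Sum.inl.inj H)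
  constructor
  · intro x H2
    rw [wr_inl] at H2
    have h2 : h y₁ = y₁ := congrArg Prod.fst (Sum.inl.inj H2)
    exact hne (h2.symm.trans h1)
  · intro x H2
    rw [wr_inl] at H2
    have h2 : h y₂ = y₂ := congrArg Prod.fst (Sum.inl.inj H2)
    apply hne
    apply h.injective
    rw [h1, h2]

/-! ### block preserving permutations -/

/-- a permutation sending each block into a block is of `wr` form, when `A` has at most one point. -/
theorem exists_wr_of_block [Finite Y] [Subsingleton A] (g : Perm ((Y × ZMod p) ⊕ A))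
    (hg : ∀ y, ∃ y', ∀ x, ∃ x', g (Sum.inl (y, x)) = Sum.inl (y', x')) :
    ∃ (h : Perm Y) (u : Y → Perm (ZMod p)), g = wr p h u 1 := by
  choose b hb using hg
  choose c hc using hb
  have hcinj : ∀ y, Function.Injective (c y) := by
    intro y x x' H
    have : g (Sum.inl (y, x)) = g (Sum.inl (y, x')) := by rw [hc, hc, H]
    have h2 := g.injective this
    exact congrArg Prod.snd (Sum.inl.inj h2)
  have hcbij : ∀ y, Function.Bijective (c y) := fun y => Finite.injective_iff_bijective.mp (hcinj y)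
  have hbinj : Function.Injective b := by
    intro y₁ y₂ H
    obtain ⟨x, hx⟩ := (hcbij y₁).2 (c y₂ 0)
    have : g (Sum.inl (y₁, x)) = g (Sum.inl (y₂, 0)) := by rw [hc, hc, H, hx]
    have h2 := g.injective this
    exact congrArg Prod.fst (Sum.inl.inj h2)
  have hbbij : Function.Bijective b := Finite.injective_iff_bijective.mp hbinj
  refine ⟨Equiv.ofBijective b hbbij, fun y => Equiv.ofBijective (c y) (hcbij y), ?_⟩
  refine Equiv.ext fun z => ?_
  rcases z with ⟨y, x⟩ | a
  · exact hc y x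
  · show g (Sum.inr a) = Sum.inr a
    rcases hz : g (Sum.inr a) with ⟨y', x'⟩ | a'
    · exfalso
      obtain ⟨y, rfl⟩ := hbbij.2 y'
      obtain ⟨x, rfl⟩ := (hcbij y).2 x'
      have : g (Sum.inl (y, x)) = g (Sum.inr a) := by rw [hc, hz]
      have h2 := g.injective this
      exact absurd h2 (by simp)
    · rw [Subsingleton.elim a' a]

/-- From adjacent points staying in one block to the whole block going to a block. -/
theorem block_of_adjacent (g : Perm ((Y × ZMod p) ⊕ A))
    (hadj : ∀ y x, ∃ y' x₁ x₂, g (Sum.inl (y, x)) = Sum.inl (y', x₁) ∧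
      g (Sum.inl (y, x + 1)) = Sum.inl (y', x₂)) :
    ∀ y, ∃ y', ∀ x, ∃ x', g (Sum.inl (y, x)) = Sum.inl (y', x') := by
  intro y
  obtain ⟨y', x₁, x₂, h1, h2⟩ := hadj y 0
  refine ⟨y', ?_⟩
  have key : ∀ k : ℕ, ∃ x', g (Sum.inl (y, (k : ZMod p))) = Sum.inl (y', x') := by
    intro k
    induction k with
    | zero =>
      refine ⟨x₁, ?_⟩
      simpa using h1
    | succ k ih =>
      obtain ⟨x', hx'⟩ := ih
      obtain ⟨y'', x₃, x₄, h3, h4⟩ := hadj y (k : ZMod p)
      rw [hx'] at h3
      have h5 : y' = y'' := congrArg Prod.fst (Sum.inl.inj h3)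
      refine ⟨x₄, ?_⟩
      rw [h5]
      simpa using h4
  intro x
  have := key x.val
  rwa [ZMod.natCast_zmod_val] at this

/-! ### generation by elements of order `p` -/

theorem omega_layer {S₁ : Subgroup (Perm Y)}
    (hS₁ : S₁ ≤ Subgroup.closure {h | h ∈ S₁ ∧ orderOf h = p})
    (Q : Subgroup (Perm ((Y × ZMod p) ⊕ A))) (hQ : Q ≤ L p S₁ ⊥) (hpl : ∀ h ∈ S₁, pl p h ∈ Q) :
    Q ≤ Subgroup.closure {g | g ∈ Q ∧ orderOf g = p} := by
  intro g hg
  obtain ⟨h, hh, f, rfl⟩ := (mem_L_bot p).mp (hQ hg)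
  have hT : T p f ∈ Q := by
    have := Q.mul_mem (Q.inv_mem (hpl h hh)) hg
    simpa using this
  refine Subgroup.mul_mem _ ?_ ?_
  · have key : ∀ h' ∈ Subgroup.closure {h | h ∈ S₁ ∧ orderOf h = p},
        pl p h' ∈ Subgroup.closure {g : Perm ((Y × ZMod p) ⊕ A) | g ∈ Q ∧ orderOf g = p} := by
      intro h' hh'
      induction hh' using Subgroup.closure_induction with
      | mem x hx =>
        apply Subgroup.subset_closure
        exact ⟨hpl x hx.1, by rw [orderOf_pl]; exact hx.2⟩
      | one => rw [pl_one]; exact Subgroup.one_mem _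
      | mul x y _ _ hx hy => rw [pl_mul]; exact Subgroup.mul_mem _ hx hy
      | inv x _ hx =>
        have : pl (A := A) p x⁻¹ = (pl p x)⁻¹ := map_inv (plHom (A := A) p) x
        rw [this]
        exact Subgroup.inv_mem _ hx
    exact key h (hS₁ hh)
  · by_cases hf : f = 0
    · subst hf
      rw [T_zero]
      exact Subgroup.one_mem _
    · exact Subgroup.subset_closure ⟨hT, orderOf_T p hf⟩

/-! ### Every Sylow subgroup has the given form -/

theorem exists_equiv_form {X Z : Type} [Fintype X] [DecidableEq X] [Fintype Z] [DecidableEq Z]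
    (e₀ : X ≃ Z) (P : Subgroup (Perm X))
    (hP : Nat.card P = p ^ padicValNat p (Fintype.card X)!) (S : Sylow p (Perm Z)) :
    ∃ e : X ≃ Z, (S : Subgroup (Perm Z)) = P.map e.permCongrHom.toMonoidHom := by
  have hcard : Nat.card (P.map e₀.permCongrHom.toMonoidHom) =
      p ^ padicValNat p (Fintype.card Z)! := by
    rw [Subgroup.card_map_of_injective e₀.permCongrHom.injective, hP, Fintype.card_congr e₀]
  obtain ⟨g, hg⟩ := MulAction.exists_smul_eq (Perm Z) (sylowOfCard p _ hcard) S
  refine ⟨e₀.trans g, ?_⟩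
  rw [← hg]
  ext w
  rw [Sylow.coe_subgroup_smul, Subgroup.mem_smul_pointwise_iff_exists]
  constructor
  · rintro ⟨w', hw', rfl⟩
    obtain ⟨x, hx, rfl⟩ := hw'
    exact ⟨x, hx, Equiv.ext fun z => rfl⟩
  · rintro ⟨x, hx, rfl⟩
    exact ⟨e₀.permCongrHom x, ⟨x, hx, rfl⟩, Equiv.ext fun z => rfl⟩

end Cfsg.Agent.AltWr
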