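import Cfsg.Agent.Lib.AltWrSylow

/-!
The Sylow subgroup `B = L S₁ ⊥ ∩ Alt` of the alternating group, conjugacy of elements of order `p`
into the bottom group, and the common part of the strongly closed subgroup argument.
-/

set_option linter.unusedSectionVars false
set_option linter.unusedVariables false
set_option linter.unusedFintypeInType false
set_option linter.unusedDecidableInType false
set_option linter.style.haveILetI false
set_option linter.unusedSimpArgs false

namespace Cfsg.Agent.AltWr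

open Equiv Equiv.Perm
open scoped Nat

variable {Y A : Type} (p : ℕ) [Fact p.Prime]
variable [Fintype Y] [DecidableEq Y] [Fintype A] [DecidableEq A]

/-- The layer intersected with the alternating group. -/
def B (S₁ : Subgroup (Perm Y)) : Subgroup (Perm ((Y × ZMod p) ⊕ A)) :=
  L p S₁ ⊥ ⊓ alternatingGroup ((Y × ZMod p) ⊕ A)

theorem mem_B {S₁ : Subgroup (Perm Y)} {g : Perm ((Y × ZMod p) ⊕ A)} :
    g ∈ B (A := A) p S₁ ↔ g ∈ L p S₁ ⊥ ∧ g ∈ alternatingGroup ((Y × ZMod p) ⊕ A) :=
  Iff.rfl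

theorem sign_eq_one_of_pGroup (hp : p ≠ 2) {Z : Type} [Fintype Z] [DecidableEq Z]
    {h : Perm Z} {k : ℕ} (hk : h ^ (p ^ k) = 1) : sign h = 1 := by
  have hp' : p.Prime := Fact.out
  have hodd : Odd (p ^ k) := (hp'.odd_of_ne_two hp).pow
  have h2 := congrArg sign hk
  rw [map_pow, map_one] at h2
  rcases Int.units_eq_one_or (sign h) with h3 | h3
  · exact h3
  · rw [h3, hodd.neg_one_pow] at h2
    exact absurd h2 (by decide)

theorem pl_mem_alt {S₁ : Subgroup (Perm Y)} (hS₁ : IsPGroup p S₁) {h : Perm Y} (hh : h ∈ S₁) :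
    pl (A := A) p h ∈ alternatingGroup ((Y × ZMod p) ⊕ A) := by
  rw [mem_alternatingGroup, sign_pl]
  by_cases hp : p = 2
  · subst hp
    exact Int.units_sq _
  · obtain ⟨k, hk⟩ := hS₁ ⟨h, hh⟩
    have hk' : h ^ (p ^ k) = 1 := congrArg Subtype.val hk
    rw [sign_eq_one_of_pGroup p hp hk', one_pow]

theorem pl_mem_B {S₁ : Subgroup (Perm Y)} (hS₁ : IsPGroup p S₁) {h : Perm Y} (hh : h ∈ S₁) :
    pl (A := A) p h ∈ B (A := A) p S₁ :=
  ⟨pl_mem_L p _ hh, pl_mem_alt p hS₁ hh⟩

theorem pl_inv (h : Perm Y) : (pl (A := A) p h)⁻¹ = pl p h⁻¹ :=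
  (map_inv (plHom (A := A) p) h).symm

theorem pl_T_conj (h : Perm Y) (f : Y → ZMod p) :
    pl (A := A) p h * T p f * (pl p h)⁻¹ = T p (fun y => f (h⁻¹ y)) := by
  rw [pl_inv]
  refine Equiv.ext fun z => ?_
  rcases z with ⟨y, x⟩ | a
  · simp
  · rfl

theorem sign_T_single (y : Y) (k : ZMod p) :
    sign (T (A := A) p (Pi.single y k)) = sign (tr p k) := by
  rw [sign_T, Fintype.prod_eq_single y]
  · simp
  · intro y' hy'
    simp [Pi.single_apply, hy', tr_zero]

theorem T_pair_mem_alt (y y' : Y) (k : ZMod p) :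
    T (A := A) p (Pi.single y k + Pi.single y' k) ∈ alternatingGroup ((Y × ZMod p) ⊕ A) := by
  rw [mem_alternatingGroup, T_add, map_mul, sign_T_single, sign_T_single]
  exact Int.units_mul_self _

/-- The indicator of a finite set. -/
def ind (I : Finset Y) : Y → ZMod p := fun y => if y ∈ I then 1 else 0

theorem ind_swap_of_iff (I : Finset Y) {a b : Y} (hab : a ∈ I ↔ b ∈ I) (y : Y) :
    ind p I ((Equiv.swap a b)⁻¹ y) = ind p I y := by
  unfold ind
  rw [Equiv.swap_inv]
  by_cases h1 : y = a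
  · subst h1
    rw [Equiv.swap_apply_left]
    by_cases h : y ∈ I
    · rw [if_pos (hab.mp h), if_pos h]
    · rw [if_neg (fun h' => h (hab.mpr h')), if_neg h]
  · by_cases h2 : y = b
    · subst h2
      rw [Equiv.swap_apply_right]
      by_cases h : y ∈ I
      · rw [if_pos (hab.mpr h), if_pos h]
      · rw [if_neg (fun h' => h (hab.mp h')), if_neg h]
    · rw [Equiv.swap_apply_of_ne_of_ne h1 h2]

theorem exists_same_status (hY : 2 < Fintype.card Y) (I : Finset Y) :
    ∃ a b : Y, a ≠ b ∧ (a ∈ I ↔ b ∈ I) := by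
  obtain ⟨a, b, c, hab, hac, hbc⟩ := Fintype.two_lt_card_iff.mp hY
  by_cases h1 : a ∈ I <;> by_cases h2 : b ∈ I <;> by_cases h3 : c ∈ I
  · exact ⟨a, b, hab, by simp [h1, h2]⟩
  · exact ⟨a, b, hab, by simp [h1, h2]⟩
  · exact ⟨a, c, hac, by simp [h1, h3]⟩
  · exact ⟨b, c, hbc, by simp [h2, h3]⟩
  · exact ⟨b, c, hbc, by simp [h2, h3]⟩
  · exact ⟨a, c, hac, by simp [h1, h3]⟩
  · exact ⟨a, b, hab, by simp [h1, h2]⟩
  · exact ⟨a, b, hab, by simp [h1, h2]⟩

/-- An odd permutation commuting with `T (ind I)`. -/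
theorem exists_odd_comm (hY : 2 < Fintype.card Y) (I : Finset Y) :
    ∃ z : Perm ((Y × ZMod p) ⊕ A), sign z = -1 ∧ z * T p (ind p I) = T p (ind p I) * z := by
  have hp' : p.Prime := Fact.out
  by_cases hp : p = 2
  · obtain ⟨a, b, -, -⟩ := exists_same_status hY I
    refine ⟨T p (Pi.single a 1), ?_, T_comm p _ _⟩
    rw [sign_T_single]
    exact sign_tr_two p hp one_ne_zero
  · obtain ⟨a, b, hab, hst⟩ := exists_same_status hY I
    refine ⟨pl p (Equiv.swap a b), ?_, ?_⟩
    · rw [sign_pl, sign_swap hab]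
      exact (hp'.odd_of_ne_two hp).neg_one_pow
    · have h1 := pl_T_conj (A := A) p (Equiv.swap a b) (ind p I)
      have h2 : (fun y => ind p I ((Equiv.swap a b)⁻¹ y)) = ind p I :=
        funext (ind_swap_of_iff p I hst)
      rw [h2] at h1
      exact (mul_inv_eq_iff_eq_mul.mp h1)

theorem card_filter_ind (I : Finset Y) :
    (Finset.univ.filter fun y => ind p I y ≠ 0).card = I.card := by
  congr 1
  ext y
  simp only [Finset.mem_filter, Finset.mem_univ, true_and, ind]
  by_cases h : y ∈ I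
  · simp [h]
  · simp [h]

theorem ind_ne_zero {I : Finset Y} (hI : I.card ≠ 0) : ind p I ≠ 0 := by
  obtain ⟨y, hy⟩ := Finset.card_pos.mp (Nat.pos_of_ne_zero hI)
  intro h
  have := congrFun h y
  simp [ind, hy] at this

variable [Subsingleton A]

theorem card_A_lt : Fintype.card A < p := by
  have hp' : p.Prime := Fact.out
  have h1 : Fintype.card A ≤ 1 := Fintype.card_le_one_iff_subsingleton.mpr inferInstance
  have := hp'.two_le
  omega

/-- Each element of order `p` in the alternating group is conjugate in the alternating group to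
the translation `T (ind I)`, for every `I` of the right size. -/
theorem conj_T' (hY : 2 < Fintype.card Y) (v : Perm ((Y × ZMod p) ⊕ A))
    (hvA : v ∈ alternatingGroup ((Y × ZMod p) ⊕ A)) (hv : orderOf v = p) (I : Finset Y)
    (hI : I.card * p = v.support.card) :
    ∃ (w : Perm ((Y × ZMod p) ⊕ A)), w ∈ alternatingGroup ((Y × ZMod p) ⊕ A) ∧
      w * v * w⁻¹ = T p (ind p I) := by
  classical
  have hp' : p.Prime := Fact.out
  have hv' : (orderOf v).Prime := by rwa [hv]
  obtain ⟨n, hn⟩ := cycleType_prime_order hv'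
  have hsupp : v.support.card = (n + 1) * p := by
    rw [← sum_cycleType, hn, hv]
    simp
    ring
  have hIn : I.card = n + 1 := by
    rw [hsupp] at hI
    exact Nat.eq_of_mul_eq_mul_right hp'.pos hI
  have hne : ind p I ≠ 0 := ind_ne_zero p (by rw [hIn]; omega)
  have ht : orderOf (T (A := A) p (ind p I)) = p := orderOf_T p hne
  have ht' : (orderOf (T (A := A) p (ind p I))).Prime := by rwa [ht]
  obtain ⟨n', hn'⟩ := cycleType_prime_order ht'
  have hsupp' : (T (A := A) p (ind p I)).support.card = (n' + 1) * p := by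
    rw [← sum_cycleType, hn', ht]
    simp
    ring
  have hnn : n' = n := by
    rw [card_support_T, card_filter_ind, hIn] at hsupp'
    have := Nat.eq_of_mul_eq_mul_right hp'.pos hsupp'
    omega
  have hconj : IsConj v (T (A := A) p (ind p I)) := by
    rw [isConj_iff_cycleType_eq, hn, hn', hv, ht, hnn]
  obtain ⟨w₀, hw₀⟩ := isConj_iff.mp hconj
  obtain ⟨z, hz1, hz2⟩ := exists_odd_comm (A := A) p hY I
  rcases Int.units_eq_one_or (sign w₀) with h | h
  · exact ⟨w₀, h, hw₀⟩
  · refine ⟨z * w₀, ?_, ?_⟩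
    · rw [mem_alternatingGroup, map_mul, hz1, h]
      decide
    · have : z * w₀ * v * (z * w₀)⁻¹ = z * (w₀ * v * w₀⁻¹) * z⁻¹ := by group
      rw [this, hw₀, hz2, mul_inv_cancel_right]

/-- Each element of order `p` in the alternating group is conjugate in the alternating group to
some translation `T (ind I)`. -/
theorem conj_T (hY : 2 < Fintype.card Y) (v : Perm ((Y × ZMod p) ⊕ A))
    (hvA : v ∈ alternatingGroup ((Y × ZMod p) ⊕ A)) (hv : orderOf v = p) :
    ∃ (I : Finset Y) (w : Perm ((Y × ZMod p) ⊕ A)), w ∈ alternatingGroup ((Y × ZMod p) ⊕ A) ∧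
      w * v * w⁻¹ = T p (ind p I) := by
  classical
  have hp' : p.Prime := Fact.out
  have hv' : (orderOf v).Prime := by rwa [hv]
  obtain ⟨n, hn⟩ := cycleType_prime_order hv'
  have hsupp : v.support.card = (n + 1) * p := by
    rw [← sum_cycleType, hn, hv]
    simp
    ring
  have hle : n + 1 ≤ Fintype.card Y := by
    have h1 : v.support.card ≤ Fintype.card ((Y × ZMod p) ⊕ A) := Finset.card_le_univ _
    rw [hsupp, card_layer_X] at h1
    have h2 := card_A_lt (A := A) p
    by_contra h3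
    have h4 : Fintype.card Y + 1 ≤ n + 1 := by omega
    have h5 : (Fintype.card Y + 1) * p ≤ (n + 1) * p := Nat.mul_le_mul_right _ h4
    nlinarith
  obtain ⟨I, -, hI⟩ := Finset.exists_subset_card_eq (s := (Finset.univ : Finset Y))
    (n := n + 1) (by rwa [Finset.card_univ])
  obtain ⟨w, hw1, hw2⟩ := conj_T' p hY v hvA hv I (by rw [hI, hsupp])
  exact ⟨I, w, hw1, hw2⟩

/-- Permutations commuting with all even translations are translations. -/
theorem comm_E (hY : 2 < Fintype.card Y) (c : Perm ((Y × ZMod p) ⊕ A))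
    (hc : ∀ f : Y → ZMod p, T (A := A) p f ∈ alternatingGroup ((Y × ZMod p) ⊕ A) →
      c * T p f = T p f * c) :
    ∃ f₀ : Y → ZMod p, c = T p f₀ := by
  classical
  have hp' : p.Prime := Fact.out
  -- the even translations
  have hc' : ∀ (y y' : Y) (k : ZMod p) (z), c (T (A := A) p (Pi.single y k + Pi.single y' k) z) =
      T p (Pi.single y k + Pi.single y' k) (c z) := by
    intro y y' k z
    have := hc _ (T_pair_mem_alt p y y' k)
    exact congrArg (fun σ : Perm _ => σ z) this
  -- a third point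
  have hthird : ∀ a b : Y, ∃ d : Y, d ≠ a ∧ d ≠ b := by
    intro a b
    have h1 : (({a, b} : Finset Y)).card < Fintype.card Y :=
      lt_of_le_of_lt Finset.card_le_two hY
    obtain ⟨d, hd⟩ := Finset.exists_mem_notMem_of_card_lt_card (s := {a, b}) (t := Finset.univ)
      (by rwa [Finset.card_univ])
    refine ⟨d, ?_, ?_⟩ <;> simp_all
  -- blocks go to themselves
  have hblock : ∀ (y : Y) (x : ZMod p), ∃ x', c (Sum.inl (y, x)) = Sum.inl (y, x') := by
    intro y x
    by_contra hno
    -- a translation moving `(y, x)` and fixing `c (y, x)`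
    obtain ⟨d, hd1, hd2⟩ : ∃ d : Y, d ≠ y ∧ ∀ y₁ x₁, c (Sum.inl (y, x)) = Sum.inl (y₁, x₁) → d ≠ y₁ := by
      rcases hz : c (Sum.inl (y, x)) with ⟨y₁, x₁⟩ | a
      · obtain ⟨d, h1, h2⟩ := hthird y y₁
        refine ⟨d, h1, ?_⟩
        intro y₂ x₂ h3
        have : y₁ = y₂ := congrArg Prod.fst (Sum.inl.inj h3)
        rwa [← this]
      · obtain ⟨d, h1, h2⟩ := hthird y y
        refine ⟨d, h1, ?_⟩
        intro y₂ x₂ h3
        exact absurd h3 (by simp)
    have hfix : T (A := A) p (Pi.single y 1 + Pi.single d 1) (c (Sum.inl (y, x))) = c (Sum.inl (y, x)) := by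
      rcases hz : c (Sum.inl (y, x)) with ⟨y₁, x₁⟩ | a
      · have h1 : y₁ ≠ y := by
          intro h2
          subst h2
          exact hno ⟨x₁, hz⟩
        have h2 : d ≠ y₁ := hd2 y₁ x₁ hz
        rw [T_inl]
        simp [Pi.single_apply, h1, h2.symm]
      · rfl
    have h3 := hc' y d 1 (Sum.inl (y, x))
    rw [hfix] at h3
    have h4 := c.injective h3
    rw [T_inl] at h4
    have h5 : x + (Pi.single y (1 : ZMod p) + Pi.single d 1 : Y → ZMod p) y = x :=
      congrArg Prod.snd (Sum.inl.inj h4)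
    simp [Pi.single_apply, hd1.symm] at h5
  choose C hC using hblock
  have htrans : ∀ (y : Y) (x k : ZMod p), C y (x + k) = C y x + k := by
    intro y x k
    obtain ⟨d, hd, -⟩ := hthird y y
    have h1 := hc' y d k (Sum.inl (y, x))
    rw [T_inl, hC] at h1
    have h2 : (Pi.single y k + Pi.single d k : Y → ZMod p) y = k := by
      simp [Pi.single_apply, hd.symm]
    rw [h2, hC, T_inl, h2] at h1
    exact congrArg Prod.snd (Sum.inl.inj h1)
  refine ⟨fun y => C y 0, ?_⟩
  have hinl : ∀ y x, c (Sum.inl (y, x)) = Sum.inl (y, x + C y 0) := by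
    intro y x
    have h1 := htrans y 0 x
    rw [zero_add] at h1
    rw [hC, h1, add_comm]
  refine Equiv.ext fun z => ?_
  rcases z with ⟨y, x⟩ | a
  · rw [hinl, T_inl]
  · rw [T_inr]
    rcases hz : c (Sum.inr a) with ⟨y₁, x₁⟩ | a'
    · exfalso
      have h1 : c (Sum.inl (y₁, x₁ - C y₁ 0)) = c (Sum.inr a) := by
        rw [hinl, hz, sub_add_cancel]
      have h2 := c.injective h1
      exact absurd h2 (by simp)
    · rw [Subsingleton.elim a' a]

/-- The common part of the strongly closed subgroup argument. -/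
theorem closed_eq_B (hY : 2 < Fintype.card Y) {S₁ : Subgroup (Perm Y)} (hS₁ : IsPGroup p S₁)
    (hΩ : S₁ ≤ Subgroup.closure {h | h ∈ S₁ ∧ orderOf h = p})
    (R : Subgroup (Perm ((Y × ZMod p) ⊕ A))) (hR : R ≤ B (A := A) p S₁)
    (hcl : ∀ t ∈ R, ∀ g ∈ alternatingGroup ((Y × ZMod p) ⊕ A), g * t * g⁻¹ ∈ B (A := A) p S₁ →
      g * t * g⁻¹ ∈ R)
    (hE : ∀ f : Y → ZMod p, T (A := A) p f ∈ alternatingGroup ((Y × ZMod p) ⊕ A) → T p f ∈ R) :
    R = B (A := A) p S₁ := by
  apply le_antisymm hR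
  have h1 := omega_layer p hΩ (B (A := A) p S₁) (fun g hg => hg.1)
    (fun h hh => pl_mem_B p hS₁ hh)
  refine h1.trans ?_
  rw [Subgroup.closure_le]
  rintro v ⟨hvB, hv⟩
  obtain ⟨I, w, hw, hwv⟩ := conj_T (A := A) p hY v hvB.2 hv
  have h2 : T (A := A) p (ind p I) ∈ alternatingGroup ((Y × ZMod p) ⊕ A) := by
    rw [← hwv]
    exact Subgroup.mul_mem _ (Subgroup.mul_mem _ hw hvB.2) (Subgroup.inv_mem _ hw)
  have h3 := hE _ h2
  have h4 := hcl _ h3 w⁻¹ (Subgroup.inv_mem _ hw)
  have h5 : w⁻¹ * T p (ind p I) * w⁻¹⁻¹ = v := by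
    rw [← hwv]
    group
  rw [h5] at h4
  exact h4 hvB

end Cfsg.Agent.AltWr
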