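import Cfsg.Agent.Lib.AltWrTop

/-!
The case of odd `p`: the monomial group normalizing the bottom group, and the elements of
its `p`-generated part.
-/

set_option linter.unusedSectionVars false
set_option linter.unusedVariables false
set_option linter.unusedFintypeInType false
set_option linter.unusedDecidableInType false
set_option linter.style.haveILetI false
set_option linter.unusedSimpArgs false

namespace Cfsg.Agent.AltWr

open Equiv Equiv.Perm
open scoped Nat

/-! ### Generation of alternating groups by elements of order `p` -/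

section gens
variable (p : ℕ) [Fact p.Prime] {Y : Type} [Fintype Y] [DecidableEq Y]

theorem exists_order_p (hY : p ≤ Fintype.card Y) : ∃ σ : Perm Y, orderOf σ = p := by
  apply exists_prime_orderOf_dvd_card' p
  rw [Nat.card_eq_fintype_card, Fintype.card_perm]
  exact Nat.dvd_factorial (Fact.out : p.Prime).pos hY

theorem exists_order_p_move (hY : p ≤ Fintype.card Y) :
    ∃ (σ : Perm Y) (u : Y), orderOf σ = p ∧ σ u ≠ u := by
  have hp : p.Prime := Fact.out
  obtain ⟨σ, hσ⟩ := exists_order_p p hY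
  have h1 : σ ≠ 1 := by
    rintro rfl
    rw [orderOf_one] at hσ
    exact hp.one_lt.ne hσ
  obtain ⟨u, hu⟩ : ∃ u, σ u ≠ u := by
    by_contra h
    push_neg at h
    exact h1 (Equiv.ext h)
  exact ⟨σ, u, hσ, hu⟩

/-- Transitivity on ordered pairs. -/
theorem exists_perm_map_pair {u v y y' : Y} (huv : u ≠ v) (hyy' : y ≠ y') :
    ∃ τ : Perm Y, τ u = y ∧ τ v = y' := by
  refine ⟨Equiv.swap (Equiv.swap u y v) y' * Equiv.swap u y, ?_, ?_⟩
  · rw [Perm.mul_apply, Equiv.swap_apply_left]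
    apply Equiv.swap_apply_of_ne_of_ne _ hyy'
    intro h
    have h2 : Equiv.swap u y u = Equiv.swap u y v := by
      rw [Equiv.swap_apply_left]
      exact h
    exact huv ((Equiv.swap u y).injective h2)
  · rw [Perm.mul_apply, Equiv.swap_apply_left]

theorem orderOf_conj' {G : Type*} [Group G] (τ x : G) : orderOf (τ * x * τ⁻¹) = orderOf x :=
  (MulAut.conj τ).orderOf_eq x

theorem exists_order_p_map (hY : p ≤ Fintype.card Y) {y y' : Y} (hyy' : y ≠ y') :
    ∃ h : Perm Y, orderOf h = p ∧ h y = y' := by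
  obtain ⟨σ, u, hσ, hu⟩ := exists_order_p_move p hY
  obtain ⟨τ, h1, h2⟩ := exists_perm_map_pair (Ne.symm hu) hyy'
  refine ⟨τ * σ * τ⁻¹, by rw [orderOf_conj', hσ], ?_⟩
  rw [Perm.mul_apply, Perm.mul_apply, ← h1, perm_inv_apply_self, h2]

/-- The alternating group is generated by elements of order an odd prime `p ≤ |Y|`. -/
theorem alternating_le_closure (hp : p ≠ 2) (hY : p ≤ Fintype.card Y) :
    alternatingGroup Y ≤ Subgroup.closure {h : Perm Y | orderOf h = p} := by
  have hp' : p.Prime := Fact.out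
  set N := Subgroup.closure {h : Perm Y | orderOf h = p} with hN
  have hconj : ∀ τ : Perm Y, ∀ x ∈ N, τ * x * τ⁻¹ ∈ N := by
    intro τ x hx
    induction hx using Subgroup.closure_induction with
    | mem y hy =>
      apply Subgroup.subset_closure
      show orderOf (τ * y * τ⁻¹) = p
      rw [orderOf_conj']
      exact hy
    | one => simp [N.one_mem]
    | mul a b _ _ ha hb =>
      have : τ * (a * b) * τ⁻¹ = (τ * a * τ⁻¹) * (τ * b * τ⁻¹) := by group
      rw [this]
      exact N.mul_mem ha hb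
    | inv a _ ha =>
      have : τ * a⁻¹ * τ⁻¹ = (τ * a * τ⁻¹)⁻¹ := by group
      rw [this]
      exact N.inv_mem ha
  obtain ⟨σ, u, hσ, hu⟩ := exists_order_p_move p hY
  set v := σ u with hv
  set w := σ v with hw
  have huv : u ≠ v := Ne.symm hu
  have hvw : v ≠ w := fun h => huv (σ.injective h)
  have huw : u ≠ w := by
    intro h
    -- `σ ^ 2` fixes `u`, and `σ` is a power of `σ ^ 2`
    have h2 : (σ ^ 2) u = u := by
      rw [pow_two, Perm.mul_apply]
      exact h.symm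
    obtain ⟨k, hk⟩ := (hp'.odd_of_ne_two hp)
    have h3 : ∀ n : ℕ, ((σ ^ 2) ^ n) u = u := by
      intro n
      induction n with
      | zero => simp
      | succ n ih =>
        rw [pow_succ, Perm.mul_apply, h2, ih]
    have h4 := h3 (k + 1)
    have h5 : (σ ^ 2) ^ (k + 1) = σ := by
      rw [← pow_mul]
      have : 2 * (k + 1) = p + 1 := by omega
      rw [this, pow_succ, ← hσ, pow_orderOf_eq_one, one_mul]
    rw [h5] at h4
    exact hu h4
  have h3c : Equiv.swap v u * Equiv.swap v w ∈ N := by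
    have h1 : Equiv.swap u v * σ * (Equiv.swap u v)⁻¹ ∈ N := by
      apply Subgroup.subset_closure
      show orderOf _ = p
      rw [orderOf_conj', hσ]
    have h2 : σ⁻¹ ∈ N := N.inv_mem (Subgroup.subset_closure hσ)
    have h3 := N.mul_mem h1 h2
    have h4 : Equiv.swap u v * σ * (Equiv.swap u v)⁻¹ * σ⁻¹ = Equiv.swap v u * Equiv.swap v w := by
      have h5 : σ * Equiv.swap u v * σ⁻¹ = Equiv.swap v w := by
        rw [← Equiv.swap_apply_apply σ u v]
      rw [Equiv.swap_inv, Equiv.swap_comm v u, ← h5]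
      group
    rwa [h4] at h3
  have h3cyc : IsThreeCycle (Equiv.swap v u * Equiv.swap v w) :=
    isThreeCycle_swap_mul_swap_same (Ne.symm huv) hvw huw
  rw [← closure_three_cycles_eq_alternating, Subgroup.closure_le]
  intro c hc
  have hcc : IsConj (Equiv.swap v u * Equiv.swap v w) c := by
    rw [isConj_iff_cycleType_eq, h3cyc.cycleType, IsThreeCycle.cycleType hc]
  obtain ⟨τ, hτ⟩ := isConj_iff.mp hcc
  rw [← hτ]
  exact hconj τ _ h3c

end gens

/-! ### Multipliers -/

section mono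
variable (p : ℕ) [Fact p.Prime] {Y A : Type} [Fintype Y] [DecidableEq Y] [Fintype A] [DecidableEq A]

/-- multiplication by a unit on `ZMod p`. -/
def mu (a : (ZMod p)ˣ) : Perm (ZMod p) := Units.mulLeft a

@[simp] theorem mu_apply (a : (ZMod p)ˣ) (x : ZMod p) : mu p a x = a * x := rfl

/-- the multiplier `(y, x) ↦ (y, a y * x)`. -/
def M (a : Y → (ZMod p)ˣ) : Perm ((Y × ZMod p) ⊕ A) := wr p 1 (fun y => mu p (a y)) 1

@[simp] theorem M_inl (a : Y → (ZMod p)ˣ) (y : Y) (x : ZMod p) :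
    M (A := A) p a (Sum.inl (y, x)) = Sum.inl (y, a y * x) := rfl
@[simp] theorem M_inr (a : Y → (ZMod p)ˣ) (z : A) : M (A := A) p a (Sum.inr z) = Sum.inr z := rfl

theorem M_mul (a a' : Y → (ZMod p)ˣ) : M (A := A) p (a * a') = M p a * M p a' := by
  refine Equiv.ext fun z => ?_
  rcases z with ⟨y, x⟩ | c
  · simp [mul_assoc]
  · rfl

theorem M_one : M (A := A) p (1 : Y → (ZMod p)ˣ) = 1 := by
  refine Equiv.ext fun z => ?_
  rcases z with ⟨y, x⟩ | c
  · simp
  · rfl

/-- the multiplier as a homomorphism. -/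
def MHom : (Y → (ZMod p)ˣ) →* Perm ((Y × ZMod p) ⊕ A) where
  toFun := M p
  map_one' := M_one p
  map_mul' := M_mul p

theorem M_inv (a : Y → (ZMod p)ˣ) : (M (A := A) p a)⁻¹ = M p a⁻¹ :=
  (map_inv (MHom (A := A) p) a).symm

theorem M_T_conj (a : Y → (ZMod p)ˣ) (f : Y → ZMod p) :
    M (A := A) p a * T p f * (M p a)⁻¹ = T p (fun y => a y * f y) := by
  rw [M_inv]
  refine Equiv.ext fun z => ?_
  rcases z with ⟨y, x⟩ | c
  · simp only [Perm.mul_apply, M_inl, T_inl, Pi.inv_apply]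
    congr 2
    rw [mul_add, ← mul_assoc, Units.mul_inv, one_mul]
  · rfl

theorem pl_M_conj (h : Perm Y) (a : Y → (ZMod p)ˣ) :
    pl (A := A) p h * M p a * (pl p h)⁻¹ = M p (fun y => a (h⁻¹ y)) := by
  rw [pl_inv]
  refine Equiv.ext fun z => ?_
  rcases z with ⟨y, x⟩ | c
  · simp
  · rfl

/-- The monomial element. -/
def W (h : Perm Y) (a : Y → (ZMod p)ˣ) (b : Y → ZMod p) : Perm ((Y × ZMod p) ⊕ A) :=
  pl p h * T p b * M p a

@[simp] theorem W_inl (h : Perm Y) (a : Y → (ZMod p)ˣ) (b : Y → ZMod p) (y : Y) (x : ZMod p) :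
    W (A := A) p h a b (Sum.inl (y, x)) = Sum.inl (h y, a y * x + b y) := rfl
@[simp] theorem W_inr (h : Perm Y) (a : Y → (ZMod p)ˣ) (b : Y → ZMod p) (z : A) :
    W (A := A) p h a b (Sum.inr z) = Sum.inr z := rfl

/-- The bottom group. -/
def E : Subgroup (Perm ((Y × ZMod p) ⊕ A)) := L p ⊥ ⊥

theorem mem_E {g : Perm ((Y × ZMod p) ⊕ A)} : g ∈ E (Y := Y) (A := A) p ↔ ∃ f, g = T p f := by
  constructor
  · rintro ⟨h, hh, f, v, hv, rfl⟩
    rw [Subgroup.mem_bot] at hh hv
    subst hh hv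
    exact ⟨f, rfl⟩
  · rintro ⟨f, rfl⟩
    exact T_mem_L p _ _ f

theorem T_mem_E (f : Y → ZMod p) : T p f ∈ E (Y := Y) (A := A) p := (mem_E p).mpr ⟨f, rfl⟩

theorem E_abelian {r s : Perm ((Y × ZMod p) ⊕ A)} (hr : r ∈ E (Y := Y) (A := A) p)
    (hs : s ∈ E (Y := Y) (A := A) p) : r * s = s * r := by
  obtain ⟨f, rfl⟩ := (mem_E p).mp hr
  obtain ⟨g, rfl⟩ := (mem_E p).mp hs
  exact T_comm p f g

theorem T_norm (f : Y → ZMod p) : ∀ r ∈ E (Y := Y) (A := A) p,
    T p f * r * (T p f)⁻¹ ∈ E (Y := Y) (A := A) p := by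
  intro r hr
  rw [E_abelian p (T_mem_E p f) hr, mul_inv_cancel_right]
  exact hr

theorem M_norm (a : Y → (ZMod p)ˣ) : ∀ r ∈ E (Y := Y) (A := A) p,
    M p a * r * (M p a)⁻¹ ∈ E (Y := Y) (A := A) p := by
  intro r hr
  obtain ⟨f, rfl⟩ := (mem_E p).mp hr
  rw [M_T_conj]
  exact T_mem_E p _

theorem pl_norm (h : Perm Y) : ∀ r ∈ E (Y := Y) (A := A) p,
    pl p h * r * (pl p h)⁻¹ ∈ E (Y := Y) (A := A) p := by
  intro r hr
  obtain ⟨f, rfl⟩ := (mem_E p).mp hr
  rw [pl_T_conj]
  exact T_mem_E p _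

/-- The `p`-generated part of the normalizer of the bottom group inside the alternating group. -/
def O₁ : Subgroup (Perm ((Y × ZMod p) ⊕ A)) :=
  Subgroup.closure {w | w ∈ alternatingGroup ((Y × ZMod p) ⊕ A) ∧
    (∀ r ∈ E (Y := Y) (A := A) p, w * r * w⁻¹ ∈ E (Y := Y) (A := A) p) ∧ ∃ k : ℕ, orderOf w = p ^ k}

theorem O₁_le_alt : O₁ (Y := Y) (A := A) p ≤ alternatingGroup ((Y × ZMod p) ⊕ A) := by
  rw [O₁, Subgroup.closure_le]
  exact fun w hw => hw.1

theorem mem_alt_of_order {Z : Type} [Fintype Z] [DecidableEq Z] (hp : p ≠ 2) {w : Perm Z}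
    (hw : orderOf w = p) : w ∈ alternatingGroup Z := by
  rw [mem_alternatingGroup]
  apply sign_eq_one_of_pGroup p hp (k := 1)
  rw [pow_one, ← hw]
  exact pow_orderOf_eq_one w

theorem T_mem_O₁ (hp : p ≠ 2) (f : Y → ZMod p) : T (A := A) p f ∈ O₁ (Y := Y) (A := A) p := by
  by_cases hf : f = 0
  · subst hf
    rw [T_zero]
    exact Subgroup.one_mem _
  · apply Subgroup.subset_closure
    refine ⟨T_mem_alternating_of_odd p hp f, T_norm p f, 1, ?_⟩
    rw [pow_one]
    exact orderOf_T p hf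

theorem pl_mem_O₁_of_order (hp : p ≠ 2) {h : Perm Y} (hh : orderOf h = p) :
    pl (A := A) p h ∈ O₁ (Y := Y) (A := A) p := by
  apply Subgroup.subset_closure
  have h1 : orderOf (pl (A := A) p h) = p := by rw [orderOf_pl, hh]
  exact ⟨mem_alt_of_order p hp h1, pl_norm p h, 1, by rw [pow_one, h1]⟩

theorem pl_mem_O₁ (hp : p ≠ 2) (hY : p ≤ Fintype.card Y) {h : Perm Y}
    (hh : h ∈ alternatingGroup Y) : pl (A := A) p h ∈ O₁ (Y := Y) (A := A) p := by
  have key : ∀ h' ∈ Subgroup.closure {h : Perm Y | orderOf h = p},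
      pl (A := A) p h' ∈ O₁ (Y := Y) (A := A) p := by
    intro h' hh'
    induction hh' using Subgroup.closure_induction with
    | mem x hx => exact pl_mem_O₁_of_order p hp hx
    | one => rw [pl_one]; exact Subgroup.one_mem _
    | mul a b _ _ ha hb => rw [pl_mul]; exact Subgroup.mul_mem _ ha hb
    | inv a _ ha =>
      rw [← pl_inv]
      exact Subgroup.inv_mem _ ha
  exact key h (alternating_le_closure p hp hY hh)

/-- Moving multipliers between blocks. -/
theorem M_single_mem_O₁ (hp : p ≠ 2) (hY : p ≤ Fintype.card Y) (y y' : Y) (b : (ZMod p)ˣ) :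
    M (A := A) p (Pi.mulSingle y b * Pi.mulSingle y' b⁻¹) ∈ O₁ (Y := Y) (A := A) p := by
  by_cases hyy' : y = y'
  · subst hyy'
    have : (Pi.mulSingle y b * Pi.mulSingle y b⁻¹ : Y → (ZMod p)ˣ) = 1 := by
      rw [← Pi.mulSingle_mul]
      simp
    rw [this, M_one]
    exact Subgroup.one_mem _
  · obtain ⟨h, hh, hyh⟩ := exists_order_p_map p hY hyy'
    set s := M (A := A) p (Pi.mulSingle y b) with hs
    have h1 : orderOf (s * pl p h * s⁻¹) = p := by
      rw [orderOf_conj', orderOf_pl, hh]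
    have h2 : s * pl p h * s⁻¹ ∈ O₁ (Y := Y) (A := A) p := by
      apply Subgroup.subset_closure
      refine ⟨mem_alt_of_order p hp h1, ?_, 1, by rw [pow_one, h1]⟩
      intro r hr
      have h3 : s⁻¹ * r * s⁻¹⁻¹ ∈ E (Y := Y) (A := A) p := by
        rw [hs, M_inv]
        have := M_norm (A := A) p (Pi.mulSingle y b)⁻¹ r hr
        exact this
      have h4 := pl_norm (A := A) p h _ h3
      have h5 := M_norm (A := A) p (Pi.mulSingle y b) _ h4
      have h6 : s * (pl p h) * s⁻¹ * r * (s * (pl p h) * s⁻¹)⁻¹ =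
          s * (pl p h * (s⁻¹ * r * s⁻¹⁻¹) * (pl p h)⁻¹) * s⁻¹ := by group
      rw [h6]
      exact h5
    have h7 : (pl (A := A) p h)⁻¹ ∈ O₁ (Y := Y) (A := A) p :=
      Subgroup.inv_mem _ (pl_mem_O₁_of_order p hp hh)
    have h8 := Subgroup.mul_mem _ h2 h7
    have h9 : s * pl p h * s⁻¹ * (pl p h)⁻¹ = M (A := A) p (Pi.mulSingle y b * Pi.mulSingle y' b⁻¹) := by
      have h10 : pl (A := A) p h * s⁻¹ * (pl p h)⁻¹ = M p (Pi.mulSingle y' b⁻¹) := by
        rw [hs, M_inv, pl_M_conj]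
        congr 1
        funext z
        by_cases hz : z = y'
        · subst hz
          rw [← hyh]
          simp
        · have : h⁻¹ z ≠ y := by
            intro h11
            apply hz
            rw [← hyh, ← h11, perm_apply_inv_self]
          rw [Pi.inv_apply, Pi.mulSingle_eq_of_ne this, Pi.mulSingle_eq_of_ne hz, inv_one]
      rw [M_mul, ← h10, hs]
      group
    rwa [h9] at h8
  
theorem prod_mulSingle_decomp (a : Y → (ZMod p)ˣ) (y₀ : Y) :
    ∏ y, ((Pi.mulSingle y (a y) : Y → (ZMod p)ˣ) * Pi.mulSingle y₀ (a y)⁻¹) =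
      a * Pi.mulSingle y₀ (∏ y, a y)⁻¹ := by
  rw [Finset.prod_mul_distrib, Finset.univ_prod_mulSingle]
  congr 1
  funext z
  rw [Finset.prod_apply]
  by_cases hz : z = y₀
  · subst hz
    simp
  · simp [Pi.mulSingle_apply, hz]

/-- A multiplier of determinant one lies in the `p`-generated part. -/
theorem M_mem_O₁ (hp : p ≠ 2) (hY : p ≤ Fintype.card Y) (a : Y → (ZMod p)ˣ) (ha : ∏ y, a y = 1) :
    M (A := A) p a ∈ O₁ (Y := Y) (A := A) p := by
  have hp' : p.Prime := Fact.out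
  obtain ⟨y₀⟩ : Nonempty Y := Fintype.card_pos_iff.mp (lt_of_lt_of_le hp'.pos hY)
  have h1 := prod_mulSingle_decomp p a y₀
  rw [ha] at h1
  simp only [inv_one, Pi.mulSingle_one, mul_one] at h1
  rw [← h1]
  have h2 : MHom (A := A) p (∏ y, ((Pi.mulSingle y (a y) : Y → (ZMod p)ˣ) * Pi.mulSingle y₀ (a y)⁻¹)) ∈
      O₁ (Y := Y) (A := A) p := by
    have h3 : (∏ y, ((Pi.mulSingle y (a y) : Y → (ZMod p)ˣ) * Pi.mulSingle y₀ (a y)⁻¹)) ∈
        (O₁ (Y := Y) (A := A) p).comap (MHom (A := A) p) :=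
      Subgroup.prod_mem _ fun y _ => M_single_mem_O₁ p hp hY y y₀ (a y)
    exact h3
  exact h2

/-- The key fact on the `p`-generated part of the normalizer of the bottom group. -/
theorem W_mem_O₁ (hp : p ≠ 2) (hY : p ≤ Fintype.card Y) (h : Perm Y) (a : Y → (ZMod p)ˣ)
    (b : Y → ZMod p) (ha : ∏ y, a y = 1)
    (hg : W (A := A) p h a b ∈ alternatingGroup ((Y × ZMod p) ⊕ A)) :
    W (A := A) p h a b ∈ O₁ (Y := Y) (A := A) p := by
  have hM := M_mem_O₁ (A := A) p hp hY a ha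
  have hT := T_mem_O₁ (A := A) p hp b
  have hpl : pl (A := A) p h ∈ alternatingGroup ((Y × ZMod p) ⊕ A) := by
    have h1 := Subgroup.mul_mem _ hg (Subgroup.inv_mem _ (O₁_le_alt p hM))
    have h2 := Subgroup.mul_mem _ h1 (Subgroup.inv_mem _ (O₁_le_alt p hT))
    have h3 : W (A := A) p h a b * (M p a)⁻¹ * (T p b)⁻¹ = pl p h := by
      rw [W]
      group
    rwa [h3] at h2
  have hh : h ∈ alternatingGroup Y := by
    rw [mem_alternatingGroup, sign_pl] at hpl
    rw [mem_alternatingGroup]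
    rcases Int.units_eq_one_or (sign h) with h3 | h3
    · exact h3
    · rw [h3, ((Fact.out : p.Prime).odd_of_ne_two hp).neg_one_pow] at hpl
      exact absurd hpl (by decide)
  exact Subgroup.mul_mem _ (Subgroup.mul_mem _ (pl_mem_O₁ p hp hY hh) hT) hM

theorem affine_of_step (u : Perm (ZMod p)) (k : ZMod p) (hu : ∀ x, u (x + 1) = u x + k) :
    ∃ a : (ZMod p)ˣ, ∀ x, u x = a * x + u 0 := by
  have hk : k ≠ 0 := by
    rintro rfl
    have h1 := hu 0
    rw [add_zero, zero_add] at h1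
    exact one_ne_zero (u.injective h1)
  refine ⟨Units.mk0 k hk, ?_⟩
  have key : ∀ n : ℕ, u (n : ZMod p) = k * n + u 0 := by
    intro n
    induction n with
    | zero => simp
    | succ n ih =>
      rw [Nat.cast_succ, hu, ih]
      ring
  intro x
  have := key x.val
  rwa [ZMod.natCast_zmod_val] at this

variable [Subsingleton A]

/-- A permutation normalizing a layer is monomial. -/
theorem exists_W (S₁ : Subgroup (Perm Y)) (g : Perm ((Y × ZMod p) ⊕ A))
    (hg : ∀ s ∈ L p S₁ (⊥ : Subgroup (Perm A)), g * s * g⁻¹ ∈ L p S₁ (⊥ : Subgroup (Perm A))) :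
    ∃ (h : Perm Y) (a : Y → (ZMod p)ˣ) (b : Y → ZMod p), g = W p h a b := by
  obtain ⟨gb, u, rfl⟩ : ∃ (gb : Perm Y) (u : Y → Perm (ZMod p)), g = wr p gb u 1 := by
    apply exists_wr_of_conj_cyc
    intro y
    obtain ⟨h, hh, f, v, hv, H⟩ := hg _ (T_mem_L p _ _ (Pi.single y 1))
    rw [Subgroup.mem_bot] at hv
    subst hv
    exact ⟨h, _, H⟩
  have hstep : ∀ y, ∃ k, ∀ x, u y (x + 1) = u y x + k := by
    intro y
    obtain ⟨h, hh, f, v, hv, H⟩ := hg _ (T_mem_L p _ _ (Pi.single y 1))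
    rw [Subgroup.mem_bot] at hv
    subst hv
    refine ⟨f (gb y), fun x => ?_⟩
    have h1 : (wr p gb u (1 : Perm A) * T p (Pi.single y 1) * (wr p gb u (1 : Perm A))⁻¹ : Perm _)
        (wr p gb u (1 : Perm A) (Sum.inl (y, x))) = wr p gb u (1 : Perm A) (Sum.inl (y, x + 1)) := by
      rw [Perm.mul_apply, Perm.mul_apply, perm_inv_apply_self]
      simp
    rw [H] at h1
    simp only [wr_inl, tr_apply] at h1
    have h2 := congrArg Prod.snd (Sum.inl.inj h1)
    exact h2.symm
  choose k hk using hstep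
  choose a ha using fun y => affine_of_step p (u y) (k y) (hk y)
  refine ⟨gb, a, fun y => u y 0, ?_⟩
  refine Equiv.ext fun z => ?_
  rcases z with ⟨y, x⟩ | c
  · rw [wr_inl, W_inl, ha y x]
  · rfl

/-- A nontrivial closed subgroup contains a nontrivial translation. -/
theorem exists_central_T (hY : 2 < Fintype.card Y) (S₁ : Subgroup (Perm Y))
    (hLp : IsPGroup p (L p S₁ (⊥ : Subgroup (Perm A))))
    (R : Subgroup (Perm ((Y × ZMod p) ⊕ A))) (hR : R ≤ B (A := A) p S₁)
    (hcl : ∀ t ∈ R, ∀ g ∈ alternatingGroup ((Y × ZMod p) ⊕ A), g * t * g⁻¹ ∈ B (A := A) p S₁ →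
      g * t * g⁻¹ ∈ R) (hne : R ≠ ⊥) : ∃ f₀ : Y → ZMod p, f₀ ≠ 0 ∧ T (A := A) p f₀ ∈ R := by
  have hBp : IsPGroup p (B (A := A) p S₁) := hLp.to_le inf_le_left
  have hNorm : (R.subgroupOf (B (A := A) p S₁)).Normal := by
    constructor
    rintro ⟨n, hn1⟩ hn ⟨g, hg1⟩
    rw [Subgroup.mem_subgroupOf] at hn ⊢
    exact closed_conj_aux p R hR hcl hn1 hn hg1
  have hne' : R.subgroupOf (B (A := A) p S₁) ≠ ⊥ := by
    intro h
    apply hne
    rw [Subgroup.eq_bot_iff_forall]
    intro x hx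
    have h1 : (⟨x, hR hx⟩ : B (A := A) p S₁) ∈ R.subgroupOf (B (A := A) p S₁) :=
      Subgroup.mem_subgroupOf.mpr hx
    rw [h, Subgroup.mem_bot] at h1
    exact congrArg Subtype.val h1
  obtain ⟨z, hzR, hz1, hzc⟩ := Cfsg.Agent.Lib.PuigBasic.exists_mem_center_of_normal hBp
    (R.subgroupOf (B (A := A) p S₁)) hne'
  have hzR' : (z : Perm _) ∈ R := Subgroup.mem_subgroupOf.mp hzR
  have hz1' : (z : Perm ((Y × ZMod p) ⊕ A)) ≠ 1 := by simpa using hz1
  obtain ⟨f₀, hf₀⟩ := comm_E (A := A) p hY (z : Perm _) (by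
    intro f hf
    have h1 : T (A := A) p f ∈ B (A := A) p S₁ := ⟨T_mem_L p _ _ f, hf⟩
    have h2 := Subgroup.mem_center_iff.mp hzc ⟨_, h1⟩
    exact (congrArg Subtype.val h2).symm)
  refine ⟨f₀, ?_, hf₀ ▸ hzR'⟩
  rintro rfl
  exact hz1' (by rw [hf₀, T_zero])

theorem sign_M_single (y : Y) (b : (ZMod p)ˣ) :
    sign (M (A := A) p (Pi.mulSingle y b)) = sign (mu p b) := by
  rw [M, sign_wr, Fintype.prod_eq_single y]
  · simp
  · intro y' hy'
    have : mu p ((Pi.mulSingle y b : Y → (ZMod p)ˣ) y') = 1 := by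
      rw [Pi.mulSingle_eq_of_ne hy']
      exact Equiv.ext fun x => by simp
    rw [this, map_one]

theorem M_flip_mem_alt (y y' : Y) (b : (ZMod p)ˣ) :
    M (A := A) p (Pi.mulSingle y b * Pi.mulSingle y' b) ∈ alternatingGroup ((Y × ZMod p) ⊕ A) := by
  rw [mem_alternatingGroup, M_mul, map_mul, sign_M_single, sign_M_single]
  exact Int.units_mul_self _

/-- Strongly closed subgroups for odd `p`. -/
theorem odd_closed (hp : p ≠ 2) (hY : 2 < Fintype.card Y) (S₁ : Subgroup (Perm Y))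
    (hS₁ : IsPGroup p S₁) (hΩ : S₁ ≤ Subgroup.closure {h | h ∈ S₁ ∧ orderOf h = p})
    (hLp : IsPGroup p (L p S₁ (⊥ : Subgroup (Perm A))))
    (R : Subgroup (Perm ((Y × ZMod p) ⊕ A))) (hR : R ≤ B (A := A) p S₁)
    (hcl : ∀ t ∈ R, ∀ g ∈ alternatingGroup ((Y × ZMod p) ⊕ A), g * t * g⁻¹ ∈ B (A := A) p S₁ →
      g * t * g⁻¹ ∈ R) (hne : R ≠ ⊥) : R = B (A := A) p S₁ := by
  have hp' : p.Prime := Fact.out
  obtain ⟨f₀, hf₀, hf₀R⟩ := exists_central_T p hY S₁ hLp R hR hcl hne
  let R' : AddSubgroup (Y → ZMod p) :=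
    { carrier := {f | T (A := A) p f ∈ R}
      add_mem' := by
        intro a b ha hb
        show T p (a + b) ∈ R
        rw [T_add]
        exact R.mul_mem ha hb
      zero_mem' := by
        show T p 0 ∈ R
        rw [T_zero]
        exact R.one_mem
      neg_mem' := by
        intro a ha
        show T p (-a) ∈ R
        rw [← T_inv]
        exact R.inv_mem ha }
  have hmem : ∀ g : Y → ZMod p, g ∈ R' ↔ T (A := A) p g ∈ R := fun g => Iff.rfl
  have hTB : ∀ g : Y → ZMod p, T (A := A) p g ∈ B (A := A) p S₁ := fun g =>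
    ⟨T_mem_L p _ _ g, T_mem_alternating_of_odd p hp g⟩
  -- flipping signs
  have hflip : ∀ (g : Y → ZMod p) (y y' : Y), g ∈ R' →
      (fun z => ((Pi.mulSingle y (-1) * Pi.mulSingle y' (-1) : Y → (ZMod p)ˣ) z : ZMod p) * g z) ∈ R' := by
    intro g y y' hg
    rw [hmem] at hg ⊢
    have h1 := hcl _ hg _ (M_flip_mem_alt (A := A) p y y' (-1))
    rw [M_T_conj] at h1
    exact h1 (hTB _)
  obtain ⟨y₀, hy₀⟩ : ∃ y₀, f₀ y₀ ≠ 0 := by
    by_contra h
    push_neg at h
    exact hf₀ (funext h)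
  obtain ⟨y₁, hy₁, -⟩ := exists_third hY y₀ y₀
  obtain ⟨y₂, hy₂, hy₂₁⟩ := exists_third hY y₀ y₁
  have h4 : (4 : ZMod p) ≠ 0 := by
    intro h
    have h2 : (2 : ZMod p) * 2 = 0 := by
      rw [← h]
      norm_num
    have h3 : (2 : ZMod p) = 0 := by
      rcases mul_self_eq_zero.mp h2 with h5
      exact h5
    have h5 : ((2 : ℕ) : ZMod p) = 0 := by exact_mod_cast h3
    rw [ZMod.natCast_eq_zero_iff] at h5
    exact hp ((Nat.prime_dvd_prime_iff_eq hp' Nat.prime_two).mp h5)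
  -- the single translation
  have hsingle : (Pi.single y₀ (4 * f₀ y₀) : Y → ZMod p) ∈ R' := by
    have h1 := hflip f₀ y₀ y₁ hf₀R
    have h2 := R'.sub_mem hf₀R h1
    have h3 := hflip _ y₁ y₂ h2
    have h5 := R'.add_mem h2 h3
    convert h5 using 1
    funext z
    simp only [Pi.add_apply, Pi.sub_apply, Pi.mul_apply, Pi.single_apply]
    by_cases hz0 : z = y₀
    · subst hz0
      simp [Pi.mulSingle_apply, hy₁.symm, hy₂.symm]
      ring
    · by_cases hz1 : z = y₁
      · subst hz1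
        simp [Pi.mulSingle_apply, hz0, hy₂₁.symm]
      · by_cases hz2 : z = y₂
        · subst hz2
          simp [Pi.mulSingle_apply, hz0, hz1]
        · simp [Pi.mulSingle_apply, hz0, hz1, hz2]
  have hne4 : (4 * f₀ y₀ : ZMod p) ≠ 0 := mul_ne_zero h4 hy₀
  -- all single translations
  have hall1 : ∀ y : Y, (Pi.single y 1 : Y → ZMod p) ∈ R' := by
    intro y
    have hf1 : (Pi.single y₀ (4 * f₀ y₀) : Y → ZMod p) ≠ 0 := by
      intro h
      have := congrFun h y₀
      simp only [Pi.single_eq_same, Pi.zero_apply] at this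
      exact hne4 this
    have hord : orderOf (T (A := A) p (Pi.single y₀ (4 * f₀ y₀))) = p := orderOf_T p hf1
    have hind : ind p ({y} : Finset Y) = Pi.single y 1 := by
      funext z
      by_cases hz : z = y
      · subst hz
        simp [ind]
      · simp [ind, hz]
    obtain ⟨w, hw1, hw2⟩ := conj_T' (A := A) p hY _ (hTB _).2 hord {y} (by
      rw [card_support_T]
      have : (Finset.univ.filter fun z => (Pi.single y₀ (4 * f₀ y₀) : Y → ZMod p) z ≠ 0) = {y₀} := by
        ext z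
        simp only [Finset.mem_filter, Finset.mem_univ, true_and, Finset.mem_singleton]
        by_cases hz : z = y₀
        · subst hz
          simp [hne4]
        · simp [hz]
      rw [this]
      simp)
    have h3 := hcl _ ((hmem _).mp hsingle) w hw1
    rw [hw2, hind] at h3
    rw [hmem]
    exact h3 (hTB _)
  refine closed_eq_B p hY hS₁ hΩ R hR hcl fun f _ => ?_
  rw [← hmem, ← Finset.univ_sum_single f]
  refine AddSubgroup.sum_mem _ fun y _ => ?_
  have h1 : (Pi.single y (f y) : Y → ZMod p) = (f y).val • Pi.single y 1 := by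
    funext z
    by_cases hz : z = y
    · subst hz
      simp
    · simp [hz]
  rw [h1]
  exact AddSubgroup.nsmul_mem _ (hall1 y) _

end mono

end Cfsg.Agent.AltWr
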