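import Cfsg.Agent.Lib.AltWrOdd

/-!
The case of odd `p`: the two-level coordinates, the transvections on the points
`O × ZMod p × ZMod p`, and the element `d a` acting by `(u, v) ↦ (a⁻¹ u, a v)`.
-/

set_option linter.unusedSectionVars false
set_option linter.unusedVariables false
set_option linter.unusedFintypeInType false
set_option linter.unusedDecidableInType false
set_option linter.style.haveILetI false
set_option linter.unusedSimpArgs false

namespace Cfsg.Agent.AltWr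

open Equiv Equiv.Perm
open scoped Nat

/-- The first level. -/
abbrev YY (p : ℕ) (O Y₁ : Type) : Type := (O × ZMod p) ⊕ Y₁

variable (p : ℕ) [Fact p.Prime] {O Y₁ A : Type}

/-- The action of `τ` on the coordinates `(u, v)` of the points of `O × ZMod p × ZMod p`. -/
def Lin (τ : Perm (ZMod p × ZMod p)) : Perm ((YY p O Y₁ × ZMod p) ⊕ A) where
  toFun z := match z with
    | Sum.inl (Sum.inl (o, u), v) => Sum.inl (Sum.inl (o, (τ (u, v)).1), (τ (u, v)).2)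
    | z => z
  invFun z := match z with
    | Sum.inl (Sum.inl (o, u), v) => Sum.inl (Sum.inl (o, (τ⁻¹ (u, v)).1), (τ⁻¹ (u, v)).2)
    | z => z
  left_inv := by
    rintro (⟨⟨o, u⟩ | b, v⟩ | a)
    · simp only [Prod.mk.eta]
      rw [perm_inv_apply_self]
    · rfl
    · rfl
  right_inv := by
    rintro (⟨⟨o, u⟩ | b, v⟩ | a)
    · simp only [Prod.mk.eta]
      rw [perm_apply_inv_self]
    · rfl
    · rfl

@[simp] theorem Lin_inl_inl (τ : Perm (ZMod p × ZMod p)) (o : O) (u v : ZMod p) :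
    Lin (Y₁ := Y₁) (A := A) p τ (Sum.inl (Sum.inl (o, u), v)) =
      Sum.inl (Sum.inl (o, (τ (u, v)).1), (τ (u, v)).2) := rfl

@[simp] theorem Lin_inl_inr (τ : Perm (ZMod p × ZMod p)) (b : Y₁) (x : ZMod p) :
    Lin (O := O) (A := A) p τ (Sum.inl (Sum.inr b, x)) = Sum.inl (Sum.inr b, x) := rfl

@[simp] theorem Lin_inr (τ : Perm (ZMod p × ZMod p)) (a : A) :
    Lin (O := O) (Y₁ := Y₁) p τ (Sum.inr a) = Sum.inr a := rfl

theorem Lin_mul (τ τ' : Perm (ZMod p × ZMod p)) :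
    Lin (O := O) (Y₁ := Y₁) (A := A) p (τ * τ') = Lin p τ * Lin p τ' := by
  refine Equiv.ext fun z => ?_
  rcases z with ⟨⟨o, u⟩ | b, v⟩ | a
  · simp
  · rfl
  · rfl

theorem Lin_one : Lin (O := O) (Y₁ := Y₁) (A := A) p 1 = 1 := by
  refine Equiv.ext fun z => ?_
  rcases z with ⟨⟨o, u⟩ | b, v⟩ | a
  · simp
  · rfl
  · rfl

/-- `Lin` as a homomorphism. -/
def LinHom : Perm (ZMod p × ZMod p) →* Perm ((YY p O Y₁ × ZMod p) ⊕ A) where
  toFun := Lin p
  map_one' := Lin_one p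
  map_mul' := Lin_mul p

theorem Lin_pow (τ : Perm (ZMod p × ZMod p)) (n : ℕ) :
    Lin (O := O) (Y₁ := Y₁) (A := A) p τ ^ n = Lin p (τ ^ n) :=
  (map_pow (LinHom (O := O) (Y₁ := Y₁) (A := A) p) τ n).symm

/-- The transvection `(u, v) ↦ (u, v + t u)`. -/
def tv₁ (t : ZMod p) : Perm (ZMod p × ZMod p) where
  toFun z := (z.1, z.2 + t * z.1)
  invFun z := (z.1, z.2 - t * z.1)
  left_inv := by rintro ⟨u, v⟩; simp
  right_inv := by rintro ⟨u, v⟩; simp

/-- The transvection `(u, v) ↦ (u + s v, v)`. -/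
def tv₂ (s : ZMod p) : Perm (ZMod p × ZMod p) where
  toFun z := (z.1 + s * z.2, z.2)
  invFun z := (z.1 - s * z.2, z.2)
  left_inv := by rintro ⟨u, v⟩; simp
  right_inv := by rintro ⟨u, v⟩; simp

@[simp] theorem tv₁_apply (t u v : ZMod p) : tv₁ p t (u, v) = (u, v + t * u) := rfl
@[simp] theorem tv₂_apply (s u v : ZMod p) : tv₂ p s (u, v) = (u + s * v, v) := rfl

theorem tv₁_pow (t : ZMod p) : tv₁ p t ^ p = 1 := by
  have key : ∀ n : ℕ, ∀ u v : ZMod p, (tv₁ p t ^ n) (u, v) = (u, v + n * (t * u)) := by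
    intro n u v
    induction n with
    | zero => simp
    | succ n ih =>
      rw [pow_succ', Perm.mul_apply, ih, tv₁_apply, Nat.cast_succ]
      congr 1
      ring
  refine Equiv.ext ?_
  rintro ⟨u, v⟩
  rw [key]
  simp

theorem tv₂_pow (s : ZMod p) : tv₂ p s ^ p = 1 := by
  have key : ∀ n : ℕ, ∀ u v : ZMod p, (tv₂ p s ^ n) (u, v) = (u + n * (s * v), v) := by
    intro n u v
    induction n with
    | zero => simp
    | succ n ih =>
      rw [pow_succ', Perm.mul_apply, ih, tv₂_apply, Nat.cast_succ]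
      congr 1
      ring
  refine Equiv.ext ?_
  rintro ⟨u, v⟩
  rw [key]
  simp

/-- The diagonal element. -/
def Dg (a : (ZMod p)ˣ) : Perm (ZMod p × ZMod p) where
  toFun z := ((a⁻¹ : (ZMod p)ˣ) * z.1, a * z.2)
  invFun z := (a * z.1, (a⁻¹ : (ZMod p)ˣ) * z.2)
  left_inv := by
    rintro ⟨u, v⟩
    exact Prod.ext (Units.mul_inv_cancel_left a u) (Units.inv_mul_cancel_left a v)
  right_inv := by
    rintro ⟨u, v⟩
    exact Prod.ext (Units.inv_mul_cancel_left a u) (Units.mul_inv_cancel_left a v)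

@[simp] theorem Dg_apply (a : (ZMod p)ˣ) (u v : ZMod p) :
    Dg p a (u, v) = ((a⁻¹ : (ZMod p)ˣ) * u, a * v) := rfl

theorem Dg_eq (a : (ZMod p)ˣ) :
    Dg p a = tv₂ p (-((a⁻¹ : (ZMod p)ˣ) : ZMod p)) * tv₁ p ((a : ZMod p) - 1) * tv₂ p 1 *
      tv₁ p (((a⁻¹ : (ZMod p)ˣ) : ZMod p) - 1) := by
  refine Equiv.ext ?_
  rintro ⟨u, v⟩
  simp only [Perm.mul_apply, tv₁_apply, tv₂_apply, Dg_apply]
  have hcb : (a : ZMod p) * ((a⁻¹ : (ZMod p)ˣ) : ZMod p) = 1 := Units.mul_inv a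
  have hbc : ((a⁻¹ : (ZMod p)ˣ) : ZMod p) * (a : ZMod p) = 1 := Units.inv_mul a
  ext
  · simp only
    linear_combination v * hbc + ((a⁻¹ : (ZMod p)ˣ) : ZMod p) * u * hcb
  · simp only
    linear_combination (-u) * hcb

section two_level
variable [Fintype O] [DecidableEq O] [Fintype Y₁] [DecidableEq Y₁] [Fintype A] [DecidableEq A]

/-- The local translations. -/
def Rr (α β : O → ZMod p) (γ : Y₁ → ZMod p) : Perm ((YY p O Y₁ × ZMod p) ⊕ A) :=
  pl p (T (A := Y₁) p α) * T p (Sum.elim (fun t : O × ZMod p => β t.1) γ)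

@[simp] theorem Rr_inl_inl (α β : O → ZMod p) (γ : Y₁ → ZMod p) (o : O) (u v : ZMod p) :
    Rr (A := A) p α β γ (Sum.inl (Sum.inl (o, u), v)) =
      Sum.inl (Sum.inl (o, u + α o), v + β o) := rfl

@[simp] theorem Rr_inl_inr (α β : O → ZMod p) (γ : Y₁ → ZMod p) (b : Y₁) (x : ZMod p) :
    Rr (A := A) p α β γ (Sum.inl (Sum.inr b, x)) = Sum.inl (Sum.inr b, x + γ b) := rfl

@[simp] theorem Rr_inr (α β : O → ZMod p) (γ : Y₁ → ZMod p) (a : A) :
    Rr (A := A) p α β γ (Sum.inr a) = Sum.inr a := rfl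

theorem Rr_mul (α β α' β' : O → ZMod p) (γ γ' : Y₁ → ZMod p) :
    Rr (A := A) p α β γ * Rr p α' β' γ' = Rr p (α + α') (β + β') (γ + γ') := by
  refine Equiv.ext fun z => ?_
  rcases z with ⟨⟨o, u⟩ | b, v⟩ | a
  · simp only [Perm.mul_apply, Rr_inl_inl, Pi.add_apply]
    rw [add_assoc, add_assoc, add_comm (α' o), add_comm (β' o)]
  · simp only [Perm.mul_apply, Rr_inl_inr, Pi.add_apply]
    rw [add_assoc, add_comm (γ' b)]
  · rfl

theorem Rr_zero : Rr (A := A) p (0 : O → ZMod p) 0 (0 : Y₁ → ZMod p) = 1 := by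
  refine Equiv.ext fun z => ?_
  rcases z with ⟨⟨o, u⟩ | b, v⟩ | a
  · simp
  · simp
  · rfl

/-- The local group. -/
def R₂ : Subgroup (Perm ((YY p O Y₁ × ZMod p) ⊕ A)) where
  carrier := {g | ∃ α β γ, g = Rr p α β γ}
  mul_mem' := by
    rintro _ _ ⟨α, β, γ, rfl⟩ ⟨α', β', γ', rfl⟩
    exact ⟨_, _, _, Rr_mul p α β α' β' γ γ'⟩
  one_mem' := ⟨0, 0, 0, (Rr_zero p).symm⟩
  inv_mem' := by
    rintro _ ⟨α, β, γ, rfl⟩
    refine ⟨-α, -β, -γ, ?_⟩
    rw [inv_eq_iff_mul_eq_one, Rr_mul]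
    simp only [add_neg_cancel]
    exact Rr_zero p

theorem mem_R₂ {g : Perm ((YY p O Y₁ × ZMod p) ⊕ A)} :
    g ∈ R₂ (O := O) (Y₁ := Y₁) (A := A) p ↔ ∃ α β γ, g = Rr p α β γ := Iff.rfl

theorem Rr_mem_L (S' : Subgroup (Perm O)) (S'' : Subgroup (Perm Y₁)) (α β : O → ZMod p)
    (γ : Y₁ → ZMod p) : Rr (A := A) p α β γ ∈ L p (L p S' S'') ⊥ :=
  Subgroup.mul_mem _ (pl_mem_L p _ (T_mem_L p _ _ α)) (T_mem_L p _ _ _)

variable [Subsingleton A]

/-- `R₂` is self-centralizing. -/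
theorem R₂_selfCentral (c : Perm ((YY p O Y₁ × ZMod p) ⊕ A))
    (hc : ∀ r ∈ R₂ (O := O) (Y₁ := Y₁) (A := A) p, c * r = r * c) :
    c ∈ R₂ (O := O) (Y₁ := Y₁) (A := A) p := by
  have hc' : ∀ (α β : O → ZMod p) (γ : Y₁ → ZMod p) (z),
      c (Rr (A := A) p α β γ z) = Rr p α β γ (c z) := by
    intro α β γ z
    exact congrArg (fun σ : Perm _ => σ z) (hc _ ⟨α, β, γ, rfl⟩)
  have hone : (1 : ZMod p) ≠ 0 := one_ne_zero
  -- the blocks of `O`
  have hblock₁ : ∀ (o : O) (u v : ZMod p), ∃ u' v',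
      c (Sum.inl (Sum.inl (o, u), v)) = Sum.inl (Sum.inl (o, u'), v') := by
    intro o u v
    by_contra hno
    have hfix : Rr (A := A) p (Pi.single o 1) 0 0 (c (Sum.inl (Sum.inl (o, u), v))) =
        c (Sum.inl (Sum.inl (o, u), v)) := by
      rcases hz : c (Sum.inl (Sum.inl (o, u), v)) with ⟨⟨o₁, u₁⟩ | b, v₁⟩ | a
      · have h1 : o₁ ≠ o := by
          rintro rfl
          exact hno ⟨u₁, v₁, hz⟩
        simp [Pi.single_apply, h1]
      · simp
      · rfl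
    have h3 := hc' (Pi.single o 1) 0 0 (Sum.inl (Sum.inl (o, u), v))
    rw [hfix] at h3
    have h4 := c.injective h3
    simp only [Rr_inl_inl, Pi.single_eq_same, Pi.zero_apply, add_zero] at h4
    have h5 := Sum.inl.inj (Prod.mk.inj (Sum.inl.inj h4)).1
    have h6 : u + 1 = u := congrArg Prod.snd h5
    exact absurd h6.symm (add_one_ne p u)
  -- the blocks of `Y₁`
  have hblock₂ : ∀ (b : Y₁) (x : ZMod p), ∃ x',
      c (Sum.inl (Sum.inr b, x)) = Sum.inl (Sum.inr b, x') := by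
    intro b x
    by_contra hno
    have hfix : Rr (A := A) p 0 0 (Pi.single b 1) (c (Sum.inl (Sum.inr b, x))) =
        c (Sum.inl (Sum.inr b, x)) := by
      rcases hz : c (Sum.inl (Sum.inr b, x)) with ⟨⟨o₁, u₁⟩ | b₁, v₁⟩ | a
      · simp
      · have h1 : b₁ ≠ b := by
          rintro rfl
          exact hno ⟨v₁, hz⟩
        simp [Pi.single_apply, h1]
      · rfl
    have h3 := hc' 0 0 (Pi.single b 1) (Sum.inl (Sum.inr b, x))
    rw [hfix] at h3
    have h4 := c.injective h3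
    simp only [Rr_inl_inr, Pi.single_eq_same] at h4
    have h6 : x + 1 = x := (Prod.mk.inj (Sum.inl.inj h4)).2
    exact absurd h6.symm (add_one_ne p x)
  choose U V hUV using hblock₁
  choose C hC using hblock₂
  -- translations
  have htr₁ : ∀ (o : O) (u v k l : ZMod p), U o (u + k) (v + l) = U o u v + k ∧
      V o (u + k) (v + l) = V o u v + l := by
    intro o u v k l
    have h3 := hc' (Pi.single o k) (Pi.single o l) 0 (Sum.inl (Sum.inl (o, u), v))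
    simp only [Rr_inl_inl, Pi.single_eq_same, hUV] at h3
    have h4 := Sum.inl.inj h3
    exact ⟨congrArg Prod.snd (Sum.inl.inj (Prod.mk.inj h4).1), (Prod.mk.inj h4).2⟩
  have htr₂ : ∀ (b : Y₁) (x k : ZMod p), C b (x + k) = C b x + k := by
    intro b x k
    have h3 := hc' 0 0 (Pi.single b k) (Sum.inl (Sum.inr b, x))
    simp only [Rr_inl_inr, Pi.single_eq_same, hC] at h3
    exact (Prod.mk.inj (Sum.inl.inj h3)).2
  refine ⟨fun o => U o 0 0, fun o => V o 0 0, fun b => C b 0, ?_⟩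
  have h1 : ∀ o u v, c (Sum.inl (Sum.inl (o, u), v)) =
      Sum.inl (Sum.inl (o, u + U o 0 0), v + V o 0 0) := by
    intro o u v
    have h2 := htr₁ o 0 0 u v
    rw [zero_add, zero_add] at h2
    rw [hUV, h2.1, h2.2, add_comm u, add_comm v]
  have h2 : ∀ b x, c (Sum.inl (Sum.inr b, x)) = Sum.inl (Sum.inr b, x + C b 0) := by
    intro b x
    have h3 := htr₂ b 0 x
    rw [zero_add] at h3
    rw [hC, h3, add_comm x]
  refine Equiv.ext fun z => ?_
  rcases z with ⟨⟨o, u⟩ | b, v⟩ | a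
  · rw [h1, Rr_inl_inl]
  · rw [h2, Rr_inl_inr]
  · rw [Rr_inr]
    rcases hz : c (Sum.inr a) with ⟨⟨o₁, u₁⟩ | b₁, v₁⟩ | a'
    · exfalso
      have h3 : c (Sum.inl (Sum.inl (o₁, u₁ - U o₁ 0 0), v₁ - V o₁ 0 0)) = c (Sum.inr a) := by
        rw [h1, hz, sub_add_cancel, sub_add_cancel]
      have h4 := c.injective h3
      exact absurd h4 (by simp)
    · exfalso
      have h3 : c (Sum.inl (Sum.inr b₁, v₁ - C b₁ 0)) = c (Sum.inr a) := by
        rw [h2, hz, sub_add_cancel]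
      have h4 := c.injective h3
      exact absurd h4 (by simp)
    · rw [Subsingleton.elim a' a]

omit [Subsingleton A] in
/-- The additive bijections normalize `R₂`. -/
theorem Lin_norm_R₂ (τ : Perm (ZMod p × ZMod p)) (hτ : ∀ x y, τ (x + y) = τ x + τ y) :
    ∀ r ∈ R₂ (O := O) (Y₁ := Y₁) (A := A) p,
      Lin p τ * r * (Lin p τ)⁻¹ ∈ R₂ (O := O) (Y₁ := Y₁) (A := A) p := by
  rintro _ ⟨α, β, γ, rfl⟩
  refine ⟨fun o => (τ (α o, β o)).1, fun o => (τ (α o, β o)).2, γ, ?_⟩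
  rw [mul_inv_eq_iff_eq_mul]
  refine Equiv.ext fun z => ?_
  rcases z with ⟨⟨o, u⟩ | b, v⟩ | a
  · simp only [Perm.mul_apply, Rr_inl_inl, Lin_inl_inl]
    have h1 : τ (u + α o, v + β o) = τ (u, v) + τ (α o, β o) := hτ (u, v) (α o, β o)
    rw [h1]
    rfl
  · simp
  · rfl

omit [Subsingleton A] in
theorem Lin_order_mem (hp : p ≠ 2) (τ : Perm (ZMod p × ZMod p)) (hτp : τ ^ p = 1)
    (hτ : ∀ x y, τ (x + y) = τ x + τ y) :
    Lin (O := O) (Y₁ := Y₁) (A := A) p τ ∈ Subgroup.closure {w |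
      w ∈ alternatingGroup ((YY p O Y₁ × ZMod p) ⊕ A) ∧
      (∀ r ∈ R₂ (O := O) (Y₁ := Y₁) (A := A) p, w * r * w⁻¹ ∈ R₂ (O := O) (Y₁ := Y₁) (A := A) p) ∧
      ∃ k : ℕ, orderOf w = p ^ k} := by
  have hp' : p.Prime := Fact.out
  have h1 : Lin (O := O) (Y₁ := Y₁) (A := A) p τ ^ p = 1 := by
    rw [Lin_pow, hτp, Lin_one]
  apply Subgroup.subset_closure
  refine ⟨?_, Lin_norm_R₂ p τ hτ, ?_⟩
  · rw [mem_alternatingGroup]
    apply sign_eq_one_of_pGroup p hp (k := 1)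
    rwa [pow_one]
  · rcases (Nat.dvd_prime hp').mp (orderOf_dvd_of_pow_eq_one h1) with h2 | h2
    · exact ⟨0, by rw [h2, pow_zero]⟩
    · exact ⟨1, by rw [h2, pow_one]⟩

omit [Subsingleton A] in
/-- The diagonal element lies in the `p`-generated part of the normalizer of `R₂`. -/
theorem Dg_mem_closure (hp : p ≠ 2) (a : (ZMod p)ˣ) :
    Lin (O := O) (Y₁ := Y₁) (A := A) p (Dg p a) ∈ Subgroup.closure {w |
      w ∈ alternatingGroup ((YY p O Y₁ × ZMod p) ⊕ A) ∧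
      (∀ r ∈ R₂ (O := O) (Y₁ := Y₁) (A := A) p, w * r * w⁻¹ ∈ R₂ (O := O) (Y₁ := Y₁) (A := A) p) ∧
      ∃ k : ℕ, orderOf w = p ^ k} := by
  have add₁ : ∀ t x y, tv₁ p t (x + y) = tv₁ p t x + tv₁ p t y := by
    rintro t ⟨u, v⟩ ⟨u', v'⟩
    exact Prod.ext rfl (by show v + v' + t * (u + u') = v + t * u + (v' + t * u'); ring)
  have add₂ : ∀ t x y, tv₂ p t (x + y) = tv₂ p t x + tv₂ p t y := by
    rintro t ⟨u, v⟩ ⟨u', v'⟩
    exact Prod.ext (by show u + u' + t * (v + v') = u + t * v + (u' + t * v'); ring) rfl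
  rw [Dg_eq, Lin_mul, Lin_mul, Lin_mul]
  exact Subgroup.mul_mem _ (Subgroup.mul_mem _ (Subgroup.mul_mem _
    (Lin_order_mem p hp _ (tv₂_pow p _) (add₂ _))
    (Lin_order_mem p hp _ (tv₁_pow p _) (add₁ _)))
    (Lin_order_mem p hp _ (tv₂_pow p _) (add₂ _)))
    (Lin_order_mem p hp _ (tv₁_pow p _) (add₁ _))

omit [Subsingleton A] in
/-- The diagonal element in monomial form. -/
theorem Lin_Dg_eq_W (a : (ZMod p)ˣ) :
    Lin (O := O) (Y₁ := Y₁) (A := A) p (Dg p a) =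
      W p (M (A := Y₁) p (fun _ : O => a⁻¹)) (Sum.elim (fun _ => a) (fun _ => 1)) 0 := by
  refine Equiv.ext fun z => ?_
  rcases z with ⟨⟨o, u⟩ | b, v⟩ | c
  · show Sum.inl (Sum.inl (o, ((a⁻¹ : (ZMod p)ˣ) : ZMod p) * u), (a : ZMod p) * v) =
      Sum.inl (Sum.inl (o, ((a⁻¹ : (ZMod p)ˣ) : ZMod p) * u), (a : ZMod p) * v + 0)
    rw [add_zero]
  · show Sum.inl (Sum.inr b, v) = Sum.inl (Sum.inr b, ((1 : (ZMod p)ˣ) : ZMod p) * v + 0)
    rw [Units.val_one, one_mul, add_zero]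
  · rfl

omit [Subsingleton A] in
/-- The diagonal element normalizes the layer. -/
theorem Dg_norm (S' : Subgroup (Perm O)) (S'' : Subgroup (Perm Y₁)) (a : (ZMod p)ˣ)
    (g : Perm ((YY p O Y₁ × ZMod p) ⊕ A)) (hg : g ∈ L p (L p S' S'') ⊥) :
    Lin p (Dg p a) * g * (Lin p (Dg p a))⁻¹ ∈ L p (L p S' S'') ⊥ := by
  obtain ⟨h, hh, f, rfl⟩ := (mem_L_bot p).mp hg
  obtain ⟨h', hh', f', v, hv, rfl⟩ := hh
  refine (mem_L_bot p).mpr ⟨wr p h' (fun y => tr p (((a⁻¹ : (ZMod p)ˣ) : ZMod p) * f' y)) v,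
    ⟨h', hh', _, v, hv, rfl⟩,
    Sum.elim (fun t => a * f (Sum.inl (t.1, a * t.2))) (fun b => f (Sum.inr b)), ?_⟩
  rw [mul_inv_eq_iff_eq_mul]
  refine Equiv.ext fun z => ?_
  rcases z with ⟨⟨o, u⟩ | b, x⟩ | c
  · simp only [Perm.mul_apply, T_inl, pl_inl, Lin_inl_inl, Dg_apply, wr_inl, tr_apply, Sum.elim_inl,
      Units.mul_inv_cancel_left]
    congr 3
    · rw [mul_add]
    · rw [mul_add]
  · rfl
  · rfl

omit [Subsingleton A] in
theorem W_mul (h h' : Perm (YY p O Y₁)) (a a' : YY p O Y₁ → (ZMod p)ˣ) (b b' : YY p O Y₁ → ZMod p) :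
    W (A := A) p h a b * W p h' a' b' =
      W p (h * h') (fun y => a (h' y) * a' y) (fun y => a (h' y) * b' y + b (h' y)) := by
  refine Equiv.ext fun z => ?_
  rcases z with ⟨y, x⟩ | c
  · simp only [Perm.mul_apply, W_inl, Units.val_mul]
    congr 2
    ring
  · rfl

omit [Subsingleton A] in
theorem prod_elim_eq (a : (ZMod p)ˣ) (j : ℕ) (hO : Fintype.card O = p ^ j) :
    ∏ y : YY p O Y₁, (Sum.elim (fun _ => a) (fun _ => 1) : YY p O Y₁ → (ZMod p)ˣ) y = a := by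
  rw [Fintype.prod_sum_type]
  simp only [Sum.elim_inl, Sum.elim_inr, Finset.prod_const_one, mul_one, Finset.prod_const,
    Finset.card_univ, Fintype.card_prod, ZMod.card, hO]
  apply Units.ext
  rw [Units.val_pow_eq_pow_val, ← pow_succ]
  exact ZMod.pow_card_pow _

end two_level

end Cfsg.Agent.AltWr
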