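import Cfsg.Agent.Lib.AltWrOddD

/-!
The case of odd `p` of the simplicity of the fusion systems of alternating groups.
-/

set_option linter.unusedSectionVars false
set_option linter.unusedVariables false
set_option linter.unusedFintypeInType false
set_option linter.unusedDecidableInType false
set_option linter.style.haveILetI false
set_option linter.unusedSimpArgs false

namespace Cfsg.Agent.AltWr

open Equiv Equiv.Perm
open scoped Nat

variable (p : ℕ) [Fact p.Prime] {O Y₁ A : Type}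
variable [Fintype O] [DecidableEq O] [Fintype Y₁] [DecidableEq Y₁] [Fintype A] [DecidableEq A]
variable [Subsingleton A]

theorem B_eq_L (hp : p ≠ 2) {Y : Type} [Fintype Y] [DecidableEq Y] (S₁ : Subgroup (Perm Y))
    (hS₁ : IsPGroup p S₁) : B (A := A) p S₁ = L p S₁ ⊥ := by
  apply le_antisymm inf_le_left
  intro g hg
  refine ⟨hg, ?_⟩
  obtain ⟨h, hh, f, rfl⟩ := (mem_L_bot p).mp hg
  exact Subgroup.mul_mem _ (pl_mem_alt p hS₁ hh) (T_mem_alternating_of_odd p hp f)

theorem odd_core (hp : p ≠ 2) (n : ℕ) (e : Fin n ≃ ((YY p O Y₁ × ZMod p) ⊕ A))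
    (S' : Subgroup (Perm O)) (S'' : Subgroup (Perm Y₁)) (j : ℕ) (hO : Fintype.card O = p ^ j)
    (hYp : p ≤ Fintype.card (YY p O Y₁))
    (hS₁ : Nat.card (L p S' S'') = p ^ padicValNat p (Fintype.card (YY p O Y₁))!)
    (hΩ : L p S' S'' ≤ Subgroup.closure {h | h ∈ L p S' S'' ∧ orderOf h = p})
    (S : Sylow p (alternatingGroup (Fin n))) :
    (Cfsg.groupFusionSystem (S : Subgroup (alternatingGroup (Fin n)))).IsSimple p := by
  have hp' : p.Prime := Fact.out
  have hp3 : 3 ≤ p := by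
    have := hp'.two_le
    omega
  have hY3 : 2 < Fintype.card (YY p O Y₁) := by omega
  have hS₁p : IsPGroup p (L p S' S'') := IsPGroup.of_card hS₁
  have hLp : IsPGroup p (L p (L p S' S'') (⊥ : Subgroup (Perm A))) := by
    apply IsPGroup.of_card (n := Fintype.card (YY p O Y₁) + padicValNat p (Fintype.card (YY p O Y₁))!)
    rw [card_L, hS₁, Subgroup.card_bot, mul_one, pow_add]
  have hBeq := B_eq_L (A := A) p hp (L p S' S'') hS₁p
  have hE : ∀ f : YY p O Y₁ → ZMod p, T (A := A) p f ∈ B (A := A) p (L p S' S'') := fun f =>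
    ⟨T_mem_L p _ _ f, T_mem_alternating_of_odd p hp f⟩
  refine alt_layer_simple p n e (L p S' S'') hS₁ hY3 ?_
    ({x | x ∈ alternatingGroup ((YY p O Y₁ × ZMod p) ⊕ A) ∧
        (∀ s ∈ B (A := A) p (L p S' S''), x * s * x⁻¹ ∈ B (A := A) p (L p S' S'')) ∧
        x ∈ O₁ (Y := YY p O Y₁) (A := A) p} ∪
      Set.range (fun a : (ZMod p)ˣ => Lin (O := O) (Y₁ := Y₁) (A := A) p (Dg p a))) ?_ ?_ S
  · intro R hR hcl
    by_cases hne : R = ⊥
    · exact Or.inl hne
    · exact Or.inr (odd_closed p hp hY3 _ hS₁p hΩ hLp R hR hcl hne)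
  · rintro x (⟨hx1, hx2, hx3⟩ | ⟨a, rfl⟩)
    · refine ⟨hx1, hx2, E (Y := YY p O Y₁) (A := A) p, ?_, ?_, hx3⟩
      · intro r hr
        obtain ⟨f, rfl⟩ := (mem_E p).mp hr
        exact hE f
      · intro c _ hc
        obtain ⟨f, rfl⟩ := comm_E (A := A) p hY3 c (fun f _ => hc _ (T_mem_E p f))
        exact T_mem_E p f
    · have hcl := Dg_mem_closure (O := O) (Y₁ := Y₁) (A := A) p hp a
      refine ⟨?_, ?_, R₂ (O := O) (Y₁ := Y₁) (A := A) p, ?_, ?_, hcl⟩
      · refine (Subgroup.closure_le _).mpr ?_ hcl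
        exact fun w hw => hw.1
      · intro s hs
        rw [hBeq] at hs ⊢
        exact Dg_norm p S' S'' a s hs
      · rintro _ ⟨α, β, γ, rfl⟩
        rw [hBeq]
        exact Rr_mem_L p S' S'' α β γ
      · intro c _ hc
        exact R₂_selfCentral p c hc
  · intro g hg hgn
    obtain ⟨h, a, b, rfl⟩ := exists_W p (L p S' S'') g (by
      rw [hBeq] at hgn
      exact hgn)
    set δ : (ZMod p)ˣ := ∏ y, a y with hδ
    set d' := Lin (O := O) (Y₁ := Y₁) (A := A) p (Dg p δ⁻¹) with hd'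
    have hd'A : d' ∈ alternatingGroup ((YY p O Y₁ × ZMod p) ⊕ A) := by
      refine (Subgroup.closure_le _).mpr ?_ (Dg_mem_closure (O := O) (Y₁ := Y₁) (A := A) p hp δ⁻¹)
      exact fun w hw => hw.1
    have hd'n : ∀ s ∈ B (A := A) p (L p S' S''), d' * s * d'⁻¹ ∈ B (A := A) p (L p S' S'') := by
      intro s hs
      rw [hBeq] at hs ⊢
      exact Dg_norm p S' S'' δ⁻¹ s hs
    have hx1A := Subgroup.mul_mem _ hg hd'A
    have hd'W := Lin_Dg_eq_W (O := O) (Y₁ := Y₁) (A := A) p δ⁻¹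
    have hx1O : W (A := A) p h a b * d' ∈ O₁ (Y := YY p O Y₁) (A := A) p := by
      rw [hd', hd'W, W_mul]
      apply W_mem_O₁ p hp hYp
      · rw [Finset.prod_mul_distrib, Equiv.prod_comp, prod_elim_eq p δ⁻¹ j hO, ← hδ, mul_inv_cancel]
      · rw [← W_mul, ← hd'W]
        exact hx1A
    have hx1n : ∀ s ∈ B (A := A) p (L p S' S''), (W (A := A) p h a b * d') * s * (W (A := A) p h a b * d')⁻¹ ∈
        B (A := A) p (L p S' S'') := by
      intro s hs
      have h1 := hgn _ (hd'n s hs)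
      have h2 : (W (A := A) p h a b * d') * s * (W (A := A) p h a b * d')⁻¹ =
          W (A := A) p h a b * (d' * s * d'⁻¹) * (W (A := A) p h a b)⁻¹ := by group
      rwa [h2]
    have h3 : W (A := A) p h a b = (W (A := A) p h a b * d') * d'⁻¹ := by group
    rw [h3]
    refine Subgroup.mul_mem _ (Subgroup.subset_closure (Or.inr (Or.inl ⟨hx1A, hx1n, hx1O⟩))) ?_
    exact Subgroup.inv_mem _ (Subgroup.subset_closure (Or.inr (Or.inr ⟨δ⁻¹, rfl⟩)))

theorem main_odd (hp : p ≠ 2) (n : ℕ) (hnp : p ^ 2 ≤ n) (hb : n % p ≤ 1)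
    (S : Sylow p (alternatingGroup (Fin n))) :
    (Cfsg.groupFusionSystem (S : Subgroup (alternatingGroup (Fin n)))).IsSimple p := by
  have hp' : p.Prime := Fact.out
  set m := n / p with hm
  have hmp : p ≤ m := by
    rw [hm, Nat.le_div_iff_mul_le hp'.pos]
    calc p * p = p ^ 2 := (pow_two p).symm
      _ ≤ n := hnp
  have hm0 : m ≠ 0 := by
    have := hp'.pos
    omega
  set i := Nat.log p m with hi
  have hi1 : 1 ≤ i := by
    rw [hi]
    exact Nat.log_pos hp'.one_lt hmp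
  obtain ⟨j, hj⟩ : ∃ j, i = j + 1 := ⟨i - 1, by omega⟩
  have hle : p ^ (j + 1) ≤ m := by
    rw [← hj, hi]
    exact Nat.pow_log_le_self p hm0
  have hlt : m < p ^ (j + 1 + 1) := by
    rw [← hj, hi]
    exact Nat.lt_pow_succ_log_self hp'.one_lt m
  have hSub : Subsingleton (Fin (n % p)) := by
    apply Fintype.card_le_one_iff_subsingleton.mp
    rw [Fintype.card_fin]
    exact hb
  have hcardY : Fintype.card (YY p (Fin (p ^ j)) (Fin (m - p ^ (j + 1)))) = m := by
    rw [Fintype.card_sum, Fintype.card_prod, ZMod.card, Fintype.card_fin, Fintype.card_fin, ← pow_succ]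
    omega
  have e : Fin n ≃ ((YY p (Fin (p ^ j)) (Fin (m - p ^ (j + 1))) × ZMod p) ⊕ Fin (n % p)) := by
    apply Fintype.equivOfCardEq
    rw [card_layer_X, hcardY, Fintype.card_fin, Fintype.card_fin]
    exact (Nat.div_add_mod _ _).symm
  obtain ⟨S'⟩ : Nonempty (Sylow p (Perm (Fin (p ^ j)))) := inferInstance
  obtain ⟨S''⟩ : Nonempty (Sylow p (Perm (Fin (m - p ^ (j + 1))))) := inferInstance
  have hcard : Nat.card (L p (S' : Subgroup (Perm (Fin (p ^ j)))) (S'' : Subgroup (Perm (Fin (m - p ^ (j + 1)))))) =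
      p ^ padicValNat p (Fintype.card (YY p (Fin (p ^ j)) (Fin (m - p ^ (j + 1)))))! := by
    rw [card_L, card_sylow_perm, card_sylow_perm, hcardY, Fintype.card_fin, Fintype.card_fin,
      val_factorial_split p (j + 1) m hle hlt]
    have h1 := val_factorial_layer p (p ^ j) 0 hp'.pos
    rw [add_zero, mul_comm p, ← pow_succ] at h1
    rw [h1]
    ring
  have hΩ := sylow_omega p _ _ rfl (sylowOfCard p _ hcard)
  rw [coe_sylowOfCard] at hΩ
  exact odd_core p hp n e _ _ j (Fintype.card_fin _) (by rw [hcardY]; exact hmp) hcard hΩ S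

end Cfsg.Agent.AltWr
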