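import Cfsg.Agent.Lib.AltWrForm

/-!
Recursion: Sylow subgroups of symmetric groups are generated by elements of order `p`;
Sylow `2`-subgroups of symmetric groups are self-normalizing.
-/

set_option linter.unusedSectionVars false
set_option linter.unusedVariables false
set_option linter.unusedFintypeInType false
set_option linter.unusedDecidableInType false

namespace Cfsg.Agent.AltWr

open Equiv Equiv.Perm
open scoped Nat

variable (p : ℕ) [Fact p.Prime]

theorem card_layer_X {Y A : Type} [Fintype Y] [Fintype A] :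
    Fintype.card ((Y × ZMod p) ⊕ A) = p * Fintype.card Y + Fintype.card A := by
  rw [Fintype.card_sum, Fintype.card_prod, ZMod.card, mul_comm]

/-- The layer over a Sylow subgroup, with few remaining points, has Sylow order. -/
theorem card_L_sylow {Y A : Type} [Fintype Y] [DecidableEq Y] [Fintype A] [DecidableEq A]
    (hA : Fintype.card A < p) (S : Sylow p (Perm Y)) :
    Nat.card (L p (S : Subgroup (Perm Y)) (⊥ : Subgroup (Perm A))) =
      p ^ padicValNat p (Fintype.card ((Y × ZMod p) ⊕ A))! := by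
  rw [card_L, card_sylow_perm, card_layer_X, val_factorial_layer p _ _ hA, Subgroup.card_bot, mul_one,
    pow_add]

theorem val_factorial_lt {n : ℕ} (hn : n < p) : padicValNat p n ! = 0 := by
  have hp : p.Prime := Fact.out
  apply padicValNat.eq_zero_of_not_dvd
  exact fun hd => absurd ((Nat.Prime.dvd_factorial hp).mp hd) (by omega)

/-- The coordinates of a set of size `n`. -/
theorem exists_equiv_layer (Z : Type) [Fintype Z] :
    Nonempty (((Fin (Fintype.card Z / p) × ZMod p) ⊕ Fin (Fintype.card Z % p)) ≃ Z) := by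
  apply Fintype.card_eq.mp
  rw [card_layer_X, Fintype.card_fin, Fintype.card_fin]
  exact Nat.div_add_mod _ _

theorem div_lt_self_card {n : ℕ} (hn : p ≤ n) : n / p < n := by
  have hp : p.Prime := Fact.out
  exact Nat.div_lt_self (by have := hp.pos; omega) hp.one_lt

/-- Every Sylow `p`-subgroup of a symmetric group is generated by elements of order `p`. -/
theorem sylow_omega (n : ℕ) : ∀ (Z : Type) [Fintype Z] [DecidableEq Z], Fintype.card Z = n →
    ∀ S : Sylow p (Perm Z),
      (S : Subgroup (Perm Z)) ≤ Subgroup.closure {h | h ∈ (S : Subgroup (Perm Z)) ∧ orderOf h = p} := by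
  have hp : p.Prime := Fact.out
  induction n using Nat.strong_induction_on with
  | _ n ih =>
    intro Z _ _ hZ S
    by_cases hn : n < p
    · have h1 : Nat.card S = 1 := by
        rw [card_sylow_perm, hZ, val_factorial_lt p hn, pow_zero]
      have h2 : (S : Subgroup (Perm Z)) = ⊥ := Subgroup.eq_bot_of_card_eq _ h1
      rw [h2]
      exact bot_le
    · have hlt : n / p < n := div_lt_self_card p (not_lt.mp hn)
      obtain ⟨S₁⟩ : Nonempty (Sylow p (Perm (Fin (n / p)))) := inferInstance
      have hS₁ := ih (n / p) hlt (Fin (n / p)) (Fintype.card_fin _) S₁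
      obtain ⟨e₀⟩ := exists_equiv_layer p Z
      rw [hZ] at e₀
      have hr : Fintype.card (Fin (n % p)) < p := by
        rw [Fintype.card_fin]
        exact Nat.mod_lt _ hp.pos
      obtain ⟨e, he⟩ := exists_equiv_form p e₀ _ (card_L_sylow p hr S₁) S
      have hQ := omega_layer p hS₁ (L p (S₁ : Subgroup _) (⊥ : Subgroup (Perm (Fin (n % p)))))
        le_rfl (fun h hh => pl_mem_L p _ hh)
      rw [he]
      rintro _ ⟨x, hx, rfl⟩
      have hx' := hQ hx
      have key : ∀ x' ∈ Subgroup.closure {g | g ∈ L p (S₁ : Subgroup _)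
            (⊥ : Subgroup (Perm (Fin (n % p)))) ∧ orderOf g = p},
          e.permCongrHom.toMonoidHom x' ∈ Subgroup.closure {h | h ∈ Subgroup.map
            e.permCongrHom.toMonoidHom (L p (S₁ : Subgroup _)
              (⊥ : Subgroup (Perm (Fin (n % p))))) ∧ orderOf h = p} := by
        intro x' hx'
        induction hx' using Subgroup.closure_induction with
        | mem y hy =>
          apply Subgroup.subset_closure
          refine ⟨⟨y, hy.1, rfl⟩, ?_⟩
          rw [orderOf_injective _ e.permCongrHom.injective]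
          exact hy.2
        | one => rw [map_one]; exact Subgroup.one_mem _
        | mul a b _ _ ha hb => rw [map_mul]; exact Subgroup.mul_mem _ ha hb
        | inv a _ ha => rw [map_inv]; exact Subgroup.inv_mem _ ha
      exact key x hx'

/-- Permutations of `ZMod 2` are translations. -/
theorem perm_two_eq_tr (hp : p = 2) (u : Perm (ZMod p)) : u = tr p (u 0) := by
  subst hp
  refine Equiv.ext fun x => ?_
  rcases zmod_two_cases x with rfl | rfl
  · rw [tr_apply, zero_add]
  · rw [tr_apply]
    have h1 : u 1 ≠ u 0 := fun h => zmod_two_ne (u.injective h).symm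
    rcases zmod_two_cases (u 0) with h0 | h0 <;> rcases zmod_two_cases (u 1) with h2 | h2
    · rw [h0, h2] at h1
      exact absurd rfl h1
    · rw [h0, h2]
      simp
    · rw [h0, h2]
      exact zmod_two_add.symm
    · rw [h0, h2] at h1
      exact absurd rfl h1

section cross
variable {Y A : Type} [Fintype Y] [DecidableEq Y] [Fintype A] [DecidableEq A]

/-- The support of a permutation which crosses between two blocks has at least `2 p` points. -/
theorem two_mul_le_card_support_of_cross {h : Perm Y} {u : Y → Perm (ZMod p)} {v : Perm A}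
    {y₁ y₂ : Y} {x₁ x₂ : ZMod p} (hne : y₁ ≠ y₂)
    (H : wr p h u v (Sum.inl (y₁, x₁)) = Sum.inl (y₂, x₂)) :
    (({y₁, y₂} : Finset Y) ×ˢ (Finset.univ : Finset (ZMod p))).map
      (Function.Embedding.inl : (Y × ZMod p) ↪ ((Y × ZMod p) ⊕ A)) ⊆ (wr p h u v).support ∧
    2 * p ≤ (wr p h u v).support.card := by
  have hsub : (({y₁, y₂} : Finset Y) ×ˢ (Finset.univ : Finset (ZMod p))).map
      (Function.Embedding.inl : (Y × ZMod p) ↪ ((Y × ZMod p) ⊕ A)) ⊆ (wr p h u v).support := by
    obtain ⟨h1, h2⟩ := moved_of_cross p hne H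
    intro z hz
    rw [Finset.mem_map] at hz
    obtain ⟨⟨y, x⟩, hy, rfl⟩ := hz
    rw [Finset.mem_product] at hy
    have hy' := hy.1
    rw [mem_support]
    simp only [Finset.mem_insert, Finset.mem_singleton] at hy'
    rcases hy' with rfl | rfl
    · exact h1 x
    · exact h2 x
  refine ⟨hsub, ?_⟩
  have := Finset.card_le_card hsub
  rw [Finset.card_map, Finset.card_product, Finset.card_pair hne, Finset.card_univ, ZMod.card] at this
  exact this

end cross

/-- If `w` of `wr`-form sends `g a` to `g a'` with `a ≠ a'` then `g a` and `g a'` lie in blocks. -/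
theorem cross_or_same {Y A : Type} {h : Perm Y} {u : Y → Perm (ZMod p)} {z₁ z₂ : (Y × ZMod p) ⊕ A}
    (hne : z₁ ≠ z₂) (H : wr p h u 1 z₁ = z₂) :
    ∃ y₁ x₁ y₂ x₂, z₁ = Sum.inl (y₁, x₁) ∧ z₂ = Sum.inl (y₂, x₂) := by
  rcases z₁ with ⟨y₁, x₁⟩ | a
  · rcases z₂ with ⟨y₂, x₂⟩ | a'
    · exact ⟨y₁, x₁, y₂, x₂, rfl, rfl⟩
    · exact absurd H (by simp)
  · exact absurd H hne

/-- Conjugates of a `wr` form by `wr` forms, first coordinate. -/
theorem norm_bar {Y A : Type} {S₁ : Subgroup (Perm Y)} (gb : Perm Y) (u : Y → Perm (ZMod p))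
    {h : Perm Y}
    (H : wr p gb u (1 : Perm A) * pl p h * (wr p gb u (1 : Perm A))⁻¹ ∈ L p S₁ (⊥ : Subgroup (Perm A))) :
    gb * h * gb⁻¹ ∈ S₁ := by
  obtain ⟨h', hh', f, v, hv, H'⟩ := H
  rw [pl, wr_mul, wr_inv, wr_mul] at H'
  rw [(wr_inj p H').1]
  exact hh'

section selfnorm
variable {Y A : Type} [Fintype Y] [DecidableEq Y] [Fintype A] [DecidableEq A] [Subsingleton A]

/-- The translation `T (single y 1)`, a `p`-cycle. -/
def cyc (y : Y) : Perm ((Y × ZMod p) ⊕ A) := T p (Pi.single y 1)

theorem cyc_inl_self (y : Y) (x : ZMod p) :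
    cyc (A := A) p y (Sum.inl (y, x)) = Sum.inl (y, x + 1) := by
  simp [cyc]

theorem card_support_cyc (y : Y) : (cyc (A := A) p y).support.card = p := by
  have hp : p.Prime := Fact.out
  have : NeZero p := ⟨hp.ne_zero⟩
  have h1 : (Finset.univ.filter fun y' => (Pi.single y (1 : ZMod p) : Y → ZMod p) y' ≠ 0) = {y} := by
    ext y'
    simp only [Finset.mem_filter, Finset.mem_univ, true_and, Finset.mem_singleton]
    by_cases h : y' = y
    · subst h
      simp
    · simp [h]
  rw [cyc, card_support_T, h1, Finset.card_singleton, one_mul]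

theorem add_one_ne (x : ZMod p) : x ≠ x + 1 := by
  intro h
  have : (1 : ZMod p) = 0 := by simpa using h.symm
  exact one_ne_zero this

/-- Block form of a permutation conjugating all `p`-cycles `cyc y` to `wr`-forms. -/
theorem exists_wr_of_conj_cyc (g : Perm ((Y × ZMod p) ⊕ A))
    (H : ∀ y, ∃ h u, g * cyc p y * g⁻¹ = wr p h u 1) :
    ∃ (gb : Perm Y) (u : Y → Perm (ZMod p)), g = wr p gb u 1 := by
  have hp : p.Prime := Fact.out
  apply exists_wr_of_block
  apply block_of_adjacent
  intro y x
  obtain ⟨h, u, huw⟩ := H y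
  have h1 : wr p h u (1 : Perm A) (g (Sum.inl (y, x))) = g (Sum.inl (y, x + 1)) := by
    rw [← huw]
    simp [cyc_inl_self]
  have hne : g (Sum.inl (y, x)) ≠ g (Sum.inl (y, x + 1)) := by
    intro h2
    have h3 := g.injective h2
    exact add_one_ne p x (congrArg Prod.snd (Sum.inl.inj h3))
  obtain ⟨y₁, x₁, y₂, x₂, h2, h3⟩ := cross_or_same p hne h1
  by_cases hy : y₁ = y₂
  · subst hy
    exact ⟨y₁, x₁, x₂, h2, h3⟩
  · exfalso
    rw [h2, h3] at h1
    have h4 := (two_mul_le_card_support_of_cross p hy h1).2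
    rw [← huw, Equiv.Perm.card_support_conj, card_support_cyc] at h4
    have := hp.pos
    omega

/-- Self-normalizing layers for `p = 2`. -/
theorem two_layer_selfNorm (hp : p = 2) (S₁ : Subgroup (Perm Y))
    (hS₁ : ∀ g : Perm Y, (∀ s ∈ S₁, g * s * g⁻¹ ∈ S₁) → g ∈ S₁)
    (g : Perm ((Y × ZMod p) ⊕ A))
    (hg : ∀ s ∈ L p S₁ (⊥ : Subgroup (Perm A)), g * s * g⁻¹ ∈ L p S₁ (⊥ : Subgroup (Perm A))) :
    g ∈ L p S₁ (⊥ : Subgroup (Perm A)) := by
  obtain ⟨gb, u, rfl⟩ : ∃ (gb : Perm Y) (u : Y → Perm (ZMod p)), g = wr p gb u 1 := by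
    apply exists_wr_of_conj_cyc
    intro y
    obtain ⟨h, hh, f, v, hv, H⟩ := hg _ (T_mem_L p _ _ (Pi.single y 1))
    rw [Subgroup.mem_bot] at hv
    subst hv
    exact ⟨h, _, H⟩
  have hgb : gb ∈ S₁ := by
    apply hS₁
    intro s hs
    exact norm_bar p gb u (hg _ (pl_mem_L p _ hs))
  refine ⟨gb, hgb, fun y => u y 0, 1, Subgroup.one_mem _, ?_⟩
  congr 1
  funext y
  exact perm_two_eq_tr p hp (u y)

end selfnorm

/-- Sylow `2`-subgroups of symmetric groups are self-normalizing. -/
theorem sylow_two_selfNorm (hp2 : p = 2) (n : ℕ) : ∀ (Z : Type) [Fintype Z] [DecidableEq Z],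
    Fintype.card Z = n → ∀ S : Sylow p (Perm Z), ∀ g : Perm Z,
      (∀ s ∈ (S : Subgroup (Perm Z)), g * s * g⁻¹ ∈ (S : Subgroup (Perm Z))) →
        g ∈ (S : Subgroup (Perm Z)) := by
  have hp : p.Prime := Fact.out
  induction n using Nat.strong_induction_on with
  | _ n ih =>
    intro Z _ _ hZ S g hg
    by_cases hn : n < p
    · have h0 : Subsingleton Z := by
        apply Fintype.card_le_one_iff_subsingleton.mp
        omega
      have : g = 1 := Subsingleton.elim _ _
      rw [this]
      exact Subgroup.one_mem _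
    · have hlt : n / p < n := div_lt_self_card p (not_lt.mp hn)
      obtain ⟨S₁⟩ : Nonempty (Sylow p (Perm (Fin (n / p)))) := inferInstance
      have hS₁ := ih (n / p) hlt (Fin (n / p)) (Fintype.card_fin _) S₁
      obtain ⟨e₀⟩ := exists_equiv_layer p Z
      rw [hZ] at e₀
      have hr : Fintype.card (Fin (n % p)) < p := by
        rw [Fintype.card_fin]
        exact Nat.mod_lt _ hp.pos
      obtain ⟨e, he⟩ := exists_equiv_form p e₀ _ (card_L_sylow p hr S₁) S
      have : Subsingleton (Fin (n % p)) := by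
        apply Fintype.card_le_one_iff_subsingleton.mp
        omega
      rw [he] at hg ⊢
      set θ := e.permCongrHom with hθ
      have key := two_layer_selfNorm p hp2 (S₁ : Subgroup (Perm (Fin (n / p)))) hS₁
        (A := Fin (n % p)) (θ.symm g) ?_
      · exact ⟨θ.symm g, key, by simp⟩
      · intro s hs
        obtain ⟨s', hs', hs''⟩ := hg (θ s) ⟨s, hs, rfl⟩
        have h1 : θ s' = g * θ s * g⁻¹ := hs''
        have h2 : s' = θ.symm g * s * (θ.symm g)⁻¹ := by
          apply θ.injective
          rw [h1, map_mul, map_mul, map_inv, MulEquiv.apply_symm_apply]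
        rw [← h2]
        exact hs'

/-- A Sylow `2`-subgroup of a symmetric group on at least two points contains a transposition. -/
theorem sylow_two_exists_swap (hp2 : p = 2) {Z : Type} [Fintype Z] [DecidableEq Z] {a b : Z}
    (hab : a ≠ b) (S : Sylow p (Perm Z)) :
    ∃ c d : Z, c ≠ d ∧ Equiv.swap c d ∈ (S : Subgroup (Perm Z)) := by
  have h1 : IsPGroup p (Subgroup.zpowers (Equiv.swap a b)) := by
    rw [IsPGroup.iff_card, Nat.card_zpowers]
    refine ⟨1, ?_⟩
    rw [hp2, pow_one]
    exact orderOf_eq_prime (by rw [pow_two, Equiv.swap_mul_self]) (by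
      intro h
      have h2 := congrArg (fun σ : Perm Z => σ a) h
      simp only [Equiv.swap_apply_left, Perm.one_apply] at h2
      exact hab h2.symm)
  obtain ⟨Q, hQ⟩ := h1.exists_le_sylow
  obtain ⟨g, rfl⟩ := MulAction.exists_smul_eq (Perm Z) Q S
  refine ⟨g a, g b, fun h => hab (g.injective h), ?_⟩
  rw [Sylow.coe_subgroup_smul, Subgroup.mem_smul_pointwise_iff_exists]
  refine ⟨Equiv.swap a b, hQ (Subgroup.mem_zpowers _), ?_⟩
  exact (Equiv.swap_apply_apply g a b).symm

end Cfsg.Agent.AltWr
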