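import Cfsg.Agent.Lib.AltWrHcl
import Cfsg.Agent.Lib.PuigBasic

/-!
The case `p = 2`: strongly closed subgroups and the normalizer of the Sylow subgroup of the
alternating group.
-/

set_option linter.unusedSectionVars false
set_option linter.unusedVariables false
set_option linter.unusedFintypeInType false
set_option linter.unusedDecidableInType false
set_option linter.style.haveILetI false
set_option linter.unusedSimpArgs false

namespace Cfsg.Agent.AltWr

open Equiv Equiv.Perm
open scoped Nat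

variable {Y A : Type} (p : ℕ) [Fact p.Prime]
variable [Fintype Y] [DecidableEq Y] [Fintype A] [DecidableEq A]

theorem isPGroup_L (hA : Fintype.card A < p) (S : Sylow p (Perm Y)) :
    IsPGroup p (L p (S : Subgroup (Perm Y)) (⊥ : Subgroup (Perm A))) :=
  IsPGroup.of_card (card_L_sylow p hA S)

theorem ind_pair {a b : Y} (hab : a ≠ b) :
    ind p ({a, b} : Finset Y) = Pi.single a 1 + Pi.single b 1 := by
  funext y
  simp only [ind, Finset.mem_insert, Finset.mem_singleton, Pi.add_apply, Pi.single_apply]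
  by_cases h1 : y = a
  · subst h1
    simp [hab]
  · by_cases h2 : y = b
    · subst h2
      simp [h1]
    · simp [h1, h2]

theorem T_ind_pair_mem_alt {a b : Y} (hab : a ≠ b) :
    T (A := A) p (ind p ({a, b} : Finset Y)) ∈ alternatingGroup ((Y × ZMod p) ⊕ A) := by
  rw [ind_pair p hab]
  exact T_pair_mem_alt p a b 1

theorem T_ind_self_apply_ne {I : Finset Y} {y : Y} (hy : y ∈ I) (x : ZMod p) :
    T (A := A) p (ind p I) (Sum.inl (y, x)) = Sum.inl (y, x + 1) := by
  simp [ind, hy]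

theorem T_ind_out_apply {I : Finset Y} {y : Y} (hy : y ∉ I) (x : ZMod p) :
    T (A := A) p (ind p I) (Sum.inl (y, x)) = Sum.inl (y, x) := by
  simp [ind, hy]


theorem two_add_self (hp2 : p = 2) (k : ZMod p) : k + k = 0 := by
  subst hp2
  rcases zmod_two_cases k with rfl | rfl
  · simp
  · exact zmod_two_add

theorem two_eq_one (hp2 : p = 2) {k : ZMod p} (hk : k ≠ 0) : k = 1 := by
  subst hp2
  exact (zmod_two_cases k).resolve_left hk

theorem two_neg (hp2 : p = 2) (k : ZMod p) : -k = k := by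
  rw [neg_eq_iff_add_eq_zero]
  exact two_add_self p hp2 k

/-- Case of partial support. -/
theorem pair_of_partial (hp2 : p = 2) (f₀ : Y → ZMod p) {y₁ y₂ : Y} (hne : y₁ ≠ y₂)
    (hy₁ : f₀ y₁ ≠ 0) (hy₂ : f₀ y₂ = 0) :
    (fun y => f₀ ((Equiv.swap y₁ y₂)⁻¹ y)) + (-f₀) = ind p ({y₁, y₂} : Finset Y) := by
  funext y
  simp only [Pi.add_apply, Pi.neg_apply, ind, Finset.mem_insert, Finset.mem_singleton, Equiv.swap_inv]
  have h1 := two_eq_one p hp2 hy₁
  by_cases h : y = y₁
  · subst h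
    rw [Equiv.swap_apply_left, hy₂, h1, if_pos (Or.inl rfl), two_neg p hp2, zero_add]
  · by_cases h' : y = y₂
    · subst h'
      rw [Equiv.swap_apply_right, hy₂, h1, if_pos (Or.inr rfl)]
      simp
    · rw [Equiv.swap_apply_of_ne_of_ne h h', if_neg (by tauto)]
      simp

/-- the element `(y, x) ↦ (s y, x + g y)`, with `s` a transposition. -/
theorem rho_sq (hp2 : p = 2) {c d : Y} {g : Y → ZMod p} (hg : ∀ y, g (Equiv.swap c d y) = g y) :
    (pl (A := A) p (Equiv.swap c d) * T p g) ^ p = 1 := by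
  have h2 : (pl (A := A) p (Equiv.swap c d) * T p g) ^ p = (pl (A := A) p (Equiv.swap c d) * T p g) ^ 2 :=
    congrArg (fun q => (pl (A := A) p (Equiv.swap c d) * T p g) ^ q) hp2
  rw [h2, pow_two]
  refine Equiv.ext fun z => ?_
  rcases z with ⟨y, x⟩ | a
  · simp only [Perm.mul_apply, T_inl, pl_inl, Equiv.swap_apply_self, Perm.one_apply, hg]
    rw [add_assoc, two_add_self p hp2, add_zero]
  · rfl

theorem rho_apply_eq {c d : Y} (hcd : c ≠ d) {g : Y → ZMod p} {y : Y} {x : ZMod p}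
    (H : (pl (A := A) p (Equiv.swap c d) * T p g : Perm ((Y × ZMod p) ⊕ A)) (Sum.inl (y, x)) =
      Sum.inl (y, x)) :
    y ≠ c ∧ y ≠ d ∧ g y = 0 := by
  simp only [Perm.mul_apply, T_inl, pl_inl] at H
  have h1 : Equiv.swap c d y = y := congrArg Prod.fst (Sum.inl.inj H)
  have h2 : x + g y = x := congrArg Prod.snd (Sum.inl.inj H)
  have h3 : g y = 0 := by simpa using h2
  have h4 : y ≠ c := by
    rintro rfl
    rw [Equiv.swap_apply_left] at h1
    exact hcd h1.symm
  have h5 : y ≠ d := by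
    rintro rfl
    rw [Equiv.swap_apply_right] at h1
    exact hcd h1
  exact ⟨h4, h5, h3⟩

theorem rho_apply_of {c d : Y} {g : Y → ZMod p} {y : Y} (x : ZMod p) (h1 : y ≠ c) (h2 : y ≠ d)
    (h3 : g y = 0) :
    (pl (A := A) p (Equiv.swap c d) * T p g : Perm ((Y × ZMod p) ⊕ A)) (Sum.inl (y, x)) =
      Sum.inl (y, x) := by
  simp only [Perm.mul_apply, T_inl, pl_inl, Equiv.swap_apply_of_ne_of_ne h1 h2, h3, add_zero]

theorem card_support_rho {c d : Y} (hcd : c ≠ d) {g : Y → ZMod p} (J : Finset Y)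
    (hJ : ∀ y, y ∈ J ↔ (y = c ∨ y = d ∨ g y ≠ 0)) :
    (pl (A := A) p (Equiv.swap c d) * T p g : Perm ((Y × ZMod p) ⊕ A)).support.card = J.card * p := by
  have h1 : (pl (A := A) p (Equiv.swap c d) * T p g : Perm ((Y × ZMod p) ⊕ A)).support =
      (T (A := A) p (ind p J)).support := by
    ext z
    rw [mem_support, mem_support]
    rcases z with ⟨y, x⟩ | a
    · constructor
      · intro h h'
        apply h
        by_cases hy : y ∈ J
        · rw [T_ind_self_apply_ne p hy] at h'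
          have : x + 1 = x := congrArg Prod.snd (Sum.inl.inj h')
          exact absurd this.symm (add_one_ne p x)
        · have h2 := (not_congr (hJ y)).mp hy
          push_neg at h2
          exact rho_apply_of p x h2.1 h2.2.1 h2.2.2
      · intro h h'
        obtain ⟨h3, h4, h5⟩ := rho_apply_eq p hcd h'
        apply h
        apply T_ind_out_apply p
        rw [hJ]
        push_neg
        exact ⟨h3, h4, h5⟩
    · simp
  rw [h1, card_support_T, card_filter_ind]

variable [Subsingleton A]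

theorem sum_decomp (f : Y → ZMod p) (y₀ : Y) :
    ∑ y, ((Pi.single y (f y) : Y → ZMod p) + Pi.single y₀ (f y)) =
      f + Pi.single y₀ (∑ y, f y) := by
  funext y'
  simp only [Finset.sum_apply, Pi.add_apply, Pi.single_apply, Finset.sum_add_distrib]
  congr 1
  · simp
  · by_cases h : y' = y₀
    · simp [h]
    · simp [h]

/-- Strongly closed subgroups for `p = 2`, once a pair translation is known to be inside. -/
theorem two_hE_of_pair (hp2 : p = 2) (hY : 2 < Fintype.card Y)
    (R : Subgroup (Perm ((Y × ZMod p) ⊕ A)))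
    (hRA : R ≤ alternatingGroup ((Y × ZMod p) ⊕ A))
    (hpair : ∀ a b : Y, a ≠ b → T (A := A) p (ind p ({a, b} : Finset Y)) ∈ R)
    (f : Y → ZMod p) (hf : T (A := A) p f ∈ alternatingGroup ((Y × ZMod p) ⊕ A)) :
    T p f ∈ R := by
  obtain ⟨y₀⟩ : Nonempty Y := by
    apply Fintype.card_pos_iff.mp
    omega
  let R' : AddSubgroup (Y → ZMod p) :=
    { carrier := {f | T (A := A) p f ∈ R}
      add_mem' := by
        intro a b ha hb
        show T p (a + b) ∈ R
        rw [T_add]
        exact R.mul_mem ha hb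
      zero_mem' := by
        show T p 0 ∈ R
        rw [T_zero]
        exact R.one_mem
      neg_mem' := by
        intro a ha
        show T p (-a) ∈ R
        rw [← T_inv]
        exact R.inv_mem ha }
  have hmem : ∀ g : Y → ZMod p, g ∈ R' ↔ T (A := A) p g ∈ R := fun g => Iff.rfl
  have hterm : ∀ (a b : Y) (k : ZMod p), (Pi.single a k + Pi.single b k : Y → ZMod p) ∈ R' := by
    intro a b k
    subst hp2
    rcases zmod_two_cases k with rfl | rfl
    · simp [R'.zero_mem]
    · by_cases hab : a = b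
      · subst hab
        have : (Pi.single a (1 : ZMod 2) + Pi.single a 1 : Y → ZMod 2) = 0 := by
          funext y
          simp only [Pi.add_apply, Pi.zero_apply]
          by_cases h : y = a
          · subst h
            simp only [Pi.single_eq_same]
            exact zmod_two_add
          · simp [h]
        rw [this]
        exact R'.zero_mem
      · rw [← ind_pair 2 hab, hmem]
        exact hpair a b hab
  have hsum : f + Pi.single y₀ (∑ y, f y) ∈ R' := by
    rw [← sum_decomp]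
    exact AddSubgroup.sum_mem _ fun y _ => hterm y y₀ (f y)
  by_cases h0 : ∑ y, f y = 0
  · rw [h0] at hsum
    exact (hmem f).mp (by simpa using hsum)
  · exfalso
    have h1 := hRA ((hmem _).mp hsum)
    rw [mem_alternatingGroup, T_add, map_mul, sign_T_single, sign_tr_two p hp2 h0,
      mem_alternatingGroup.mp hf] at h1
    exact absurd h1 (by decide)

/-- The case of a central translation with full support. -/
theorem two_full_case (hp2 : p = 2) (hY : 2 < Fintype.card Y) (S₁ : Subgroup (Perm Y))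
    (R : Subgroup (Perm ((Y × ZMod p) ⊕ A))) (hR : R ≤ B (A := A) p S₁)
    (hcl : ∀ t ∈ R, ∀ g ∈ alternatingGroup ((Y × ZMod p) ⊕ A), g * t * g⁻¹ ∈ B (A := A) p S₁ →
      g * t * g⁻¹ ∈ R) {f₀ : Y → ZMod p} (hf₀R : T (A := A) p f₀ ∈ R)
    (hf₀A : T (A := A) p f₀ ∈ alternatingGroup ((Y × ZMod p) ⊕ A)) (hall : ∀ y, f₀ y ≠ 0)
    {c d : Y} (hcd : c ≠ d) (hswap : Equiv.swap c d ∈ S₁) :
    T (A := A) p (ind p ({c, d} : Finset Y)) ∈ R := by
  have hp' : p.Prime := Fact.out
  have hf₀ : f₀ = ind p Finset.univ := by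
    funext y
    rw [two_eq_one p hp2 (hall y)]
    simp [ind]
  subst hf₀
  -- the elements
  set g₀ : Y → ZMod p := ind p (Finset.univ \ {c, d}) with hg₀
  have hg₀1 : ind p Finset.univ = g₀ + ind p ({c, d} : Finset Y) := by
    funext y
    simp only [Pi.add_apply, hg₀, ind, Finset.mem_sdiff, Finset.mem_univ, true_and, if_true,
      Finset.mem_insert, Finset.mem_singleton]
    by_cases h : y = c ∨ y = d
    · simp [h]
    · simp [h]
  have hswp0 : ∀ y, g₀ (Equiv.swap c d y) = g₀ y := by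
    intro y
    have h1 := ind_swap_of_iff (p := p) (Finset.univ \ {c, d} : Finset Y) (a := c) (b := d)
      (by simp) y
    rwa [Equiv.swap_inv] at h1
  have hswp1 : ∀ y, ind p ({c, d} : Finset Y) (Equiv.swap c d y) = ind p ({c, d} : Finset Y) y := by
    intro y
    have h1 := ind_swap_of_iff (p := p) ({c, d} : Finset Y) (a := c) (b := d) (by simp) y
    rwa [Equiv.swap_inv] at h1
  have hpl : pl (A := A) p (Equiv.swap c d) ∈ alternatingGroup ((Y × ZMod p) ⊕ A) := by
    rw [mem_alternatingGroup, sign_pl]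
    have h2 : sign (Equiv.swap c d) ^ p = sign (Equiv.swap c d) ^ 2 :=
      congrArg (fun q => sign (Equiv.swap c d) ^ q) hp2
    rw [h2]
    exact Int.units_sq _
  have hT1 := T_ind_pair_mem_alt (A := A) p hcd
  have hT0 : T (A := A) p g₀ ∈ alternatingGroup ((Y × ZMod p) ⊕ A) := by
    have h1 : T (A := A) p g₀ = T p (ind p Finset.univ) * (T p (ind p ({c, d} : Finset Y)))⁻¹ := by
      rw [hg₀1, T_add, mul_inv_cancel_right]
    rw [h1]
    exact Subgroup.mul_mem _ hf₀A (Subgroup.inv_mem _ hT1)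
  have hv₀A : pl (A := A) p (Equiv.swap c d) * T p g₀ ∈ alternatingGroup ((Y × ZMod p) ⊕ A) :=
    Subgroup.mul_mem _ hpl hT0
  have hv₀L : pl (A := A) p (Equiv.swap c d) * T p g₀ ∈ L p S₁ ⊥ :=
    Subgroup.mul_mem _ (pl_mem_L p _ hswap) (T_mem_L p _ _ _)
  have hmoves : ∀ g : Y → ZMod p, pl (A := A) p (Equiv.swap c d) * T p g ≠ 1 := by
    intro g h
    have h1 := rho_apply_eq (A := A) p hcd (g := g) (y := c) (x := 0) (by rw [h]; rfl)
    exact h1.1 rfl
  have hv₀ord : orderOf (pl (A := A) p (Equiv.swap c d) * T p g₀) = p :=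
    orderOf_eq_prime (rho_sq p hp2 hswp0) (hmoves g₀)
  obtain ⟨w, hw1, hw2⟩ := conj_T' (A := A) p hY _ hv₀A hv₀ord Finset.univ (by
    rw [card_support_rho (A := A) p hcd Finset.univ]
    intro y
    simp only [Finset.mem_univ, true_iff]
    by_cases h : y = c ∨ y = d
    · tauto
    · right
      right
      have : y ∉ ({c, d} : Finset Y) := by simpa using h
      simp [hg₀, ind, this])
  -- `v₀` lies in `R`
  have hv₀R : pl (A := A) p (Equiv.swap c d) * T p g₀ ∈ R := by
    have h1 := hcl _ hf₀R w⁻¹ (Subgroup.inv_mem _ hw1)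
    have h2 : w⁻¹ * T p (ind p Finset.univ) * w⁻¹⁻¹ = pl (A := A) p (Equiv.swap c d) * T p g₀ := by
      rw [← hw2]
      group
    rw [h2] at h1
    exact h1 ⟨hv₀L, hv₀A⟩
  -- hence `δ₀`
  have hδR : pl (A := A) p (Equiv.swap c d) * T p (ind p ({c, d} : Finset Y)) ∈ R := by
    have h1 := R.mul_mem hv₀R hf₀R
    have h2 : pl (A := A) p (Equiv.swap c d) * T p g₀ * T p (ind p Finset.univ) =
        pl (A := A) p (Equiv.swap c d) * T p (ind p ({c, d} : Finset Y)) := by
      rw [mul_assoc, ← T_add, hg₀1, ← add_assoc]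
      have : g₀ + g₀ = 0 := by
        funext y
        exact two_add_self p hp2 _
      rw [this, zero_add]
    rwa [h2] at h1
  have hδA := (hR hδR).2
  have hδord : orderOf (pl (A := A) p (Equiv.swap c d) * T p (ind p ({c, d} : Finset Y))) = p :=
    orderOf_eq_prime (rho_sq p hp2 hswp1) (hmoves _)
  obtain ⟨w', hw'1, hw'2⟩ := conj_T' (A := A) p hY _ hδA hδord {c, d} (by
    rw [card_support_rho (A := A) p hcd {c, d}]
    intro y
    simp only [Finset.mem_insert, Finset.mem_singleton]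
    constructor
    · rintro (h | h)
      · exact Or.inl h
      · exact Or.inr (Or.inl h)
    · rintro (h | h | h)
      · exact Or.inl h
      · exact Or.inr h
      · by_contra h3
        have : y ∉ ({c, d} : Finset Y) := by simpa using h3
        apply h
        simp [ind, this])
  have h3 := hcl _ hδR w' hw'1
  rw [hw'2] at h3
  exact h3 ⟨T_mem_L p _ _ _, T_ind_pair_mem_alt (A := A) p hcd⟩

theorem closed_conj_aux {S₁ : Subgroup (Perm Y)}
    (R : Subgroup (Perm ((Y × ZMod p) ⊕ A))) (hR : R ≤ B (A := A) p S₁)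
    (hcl : ∀ t ∈ R, ∀ g ∈ alternatingGroup ((Y × ZMod p) ⊕ A), g * t * g⁻¹ ∈ B (A := A) p S₁ →
      g * t * g⁻¹ ∈ R) {n g : Perm ((Y × ZMod p) ⊕ A)} (hn1 : n ∈ B (A := A) p S₁) (hn : n ∈ R)
    (hg1 : g ∈ B (A := A) p S₁) : g * n * g⁻¹ ∈ R :=
  hcl n hn g ((mem_B p).mp hg1).2 ((B (A := A) p S₁).mul_mem ((B (A := A) p S₁).mul_mem hg1 hn1)
    ((B (A := A) p S₁).inv_mem hg1))

/-- Strongly closed subgroups for `p = 2`. -/
theorem two_closed (hp2 : p = 2) (hY : 2 < Fintype.card Y) (S₁ : Subgroup (Perm Y))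
    (hS₁ : IsPGroup p S₁) (hΩ : S₁ ≤ Subgroup.closure {h | h ∈ S₁ ∧ orderOf h = p})
    (hLp : IsPGroup p (L p S₁ (⊥ : Subgroup (Perm A))))
    (hswap : ∃ c d : Y, c ≠ d ∧ Equiv.swap c d ∈ S₁)
    (R : Subgroup (Perm ((Y × ZMod p) ⊕ A))) (hR : R ≤ B (A := A) p S₁)
    (hcl : ∀ t ∈ R, ∀ g ∈ alternatingGroup ((Y × ZMod p) ⊕ A), g * t * g⁻¹ ∈ B (A := A) p S₁ →
      g * t * g⁻¹ ∈ R) (hne : R ≠ ⊥) : R = B (A := A) p S₁ := by
  have hp' : p.Prime := Fact.out
  have hBp : IsPGroup p (B (A := A) p S₁) := hLp.to_le inf_le_left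
  -- a central element
  have hNorm : (R.subgroupOf (B (A := A) p S₁)).Normal := by
    constructor
    rintro ⟨n, hn1⟩ hn ⟨g, hg1⟩
    rw [Subgroup.mem_subgroupOf] at hn ⊢
    exact closed_conj_aux p R hR hcl hn1 hn hg1
  have hne' : R.subgroupOf (B (A := A) p S₁) ≠ ⊥ := by
    intro h
    apply hne
    rw [Subgroup.eq_bot_iff_forall]
    intro x hx
    have h1 : (⟨x, hR hx⟩ : B (A := A) p S₁) ∈ R.subgroupOf (B (A := A) p S₁) :=
      Subgroup.mem_subgroupOf.mpr hx
    rw [h, Subgroup.mem_bot] at h1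
    exact congrArg Subtype.val h1
  obtain ⟨z, hzR, hz1, hzc⟩ := Cfsg.Agent.Lib.PuigBasic.exists_mem_center_of_normal hBp
    (R.subgroupOf (B (A := A) p S₁)) hne'
  have hzR' : (z : Perm _) ∈ R := Subgroup.mem_subgroupOf.mp hzR
  have hz1' : (z : Perm ((Y × ZMod p) ⊕ A)) ≠ 1 := by simpa using hz1
  obtain ⟨f₀, hf₀⟩ := comm_E (A := A) p hY (z : Perm _) (by
    intro f hf
    have h1 : T (A := A) p f ∈ B (A := A) p S₁ := ⟨T_mem_L p _ _ f, hf⟩
    have h2 := Subgroup.mem_center_iff.mp hzc ⟨_, h1⟩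
    exact (congrArg Subtype.val h2).symm)
  have hf₀R : T (A := A) p f₀ ∈ R := hf₀ ▸ hzR'
  have hf₀A : T (A := A) p f₀ ∈ alternatingGroup ((Y × ZMod p) ⊕ A) := (hR hf₀R).2
  have hf₀ne : f₀ ≠ 0 := by
    rintro rfl
    exact hz1' (by rw [hf₀, T_zero])
  -- one pair
  have hone : ∃ c d : Y, c ≠ d ∧ T (A := A) p (ind p ({c, d} : Finset Y)) ∈ R := by
    by_cases hall : ∀ y, f₀ y ≠ 0
    · -- all blocks are moved
      obtain ⟨c, d, hcd, hswap'⟩ := hswap
      exact ⟨c, d, hcd, two_full_case p hp2 hY S₁ R hR hcl hf₀R hf₀A hall hcd hswap'⟩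
    · push_neg at hall
      obtain ⟨y₂, hy₂⟩ := hall
      obtain ⟨y₁, hy₁⟩ : ∃ y₁, f₀ y₁ ≠ 0 := by
        by_contra h
        push_neg at h
        exact hf₀ne (funext h)
      have hne12 : y₁ ≠ y₂ := by
        rintro rfl
        exact hy₁ hy₂
      refine ⟨y₁, y₂, hne12, ?_⟩
      rw [← pair_of_partial p hp2 f₀ hne12 hy₁ hy₂, T_add]
      have hsw : pl (A := A) p (Equiv.swap y₁ y₂) ∈ alternatingGroup ((Y × ZMod p) ⊕ A) := by
        rw [mem_alternatingGroup, sign_pl]
        have h2 : sign (Equiv.swap y₁ y₂) ^ p = sign (Equiv.swap y₁ y₂) ^ 2 :=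
          congrArg (fun q => sign (Equiv.swap y₁ y₂) ^ q) hp2
        rw [h2]
        exact Int.units_sq _
      have hconj := pl_T_conj (A := A) p (Equiv.swap y₁ y₂) f₀
      have h3 := hcl _ hf₀R _ hsw
      rw [hconj] at h3
      refine R.mul_mem (h3 ⟨T_mem_L p _ _ _, ?_⟩) ?_
      · rw [← hconj]
        exact Subgroup.mul_mem _ (Subgroup.mul_mem _ hsw hf₀A) (Subgroup.inv_mem _ hsw)
      · rw [← T_inv]
        exact R.inv_mem hf₀R
  -- all pairs
  have hpair : ∀ a b : Y, a ≠ b → T (A := A) p (ind p ({a, b} : Finset Y)) ∈ R := by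
    obtain ⟨c, d, hcd, hcdR⟩ := hone
    intro a b hab
    have hA1 := T_ind_pair_mem_alt (A := A) p hcd
    have hord : orderOf (T (A := A) p (ind p ({c, d} : Finset Y))) = p :=
      orderOf_T p (ind_ne_zero p (by rw [Finset.card_pair hcd]; norm_num))
    obtain ⟨w, hw1, hw2⟩ := conj_T' (A := A) p hY _ hA1 hord {a, b} (by
      rw [card_support_T, card_filter_ind, Finset.card_pair hab, Finset.card_pair hcd])
    have h3 := hcl _ hcdR w hw1
    rw [hw2] at h3
    apply h3
    refine ⟨T_mem_L p _ _ _, T_ind_pair_mem_alt (A := A) p hab⟩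
  exact closed_eq_B p hY hS₁ hΩ R hR hcl (two_hE_of_pair p hp2 hY R (fun x hx => (hR hx).2) hpair)

theorem exists_third (hY : 2 < Fintype.card Y) (a b : Y) : ∃ d : Y, d ≠ a ∧ d ≠ b := by
  have h1 : (({a, b} : Finset Y)).card < Fintype.card Y :=
    lt_of_le_of_lt Finset.card_le_two hY
  obtain ⟨d, hd⟩ := Finset.exists_mem_notMem_of_card_lt_card (s := {a, b}) (t := Finset.univ)
    (by rwa [Finset.card_univ])
  refine ⟨d, ?_, ?_⟩ <;> simp_all

theorem T_ind_pair_order {a b : Y} (hab : a ≠ b) :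
    (T (A := A) p (ind p ({a, b} : Finset Y))).support.card = 2 * p := by
  rw [card_support_T, card_filter_ind, Finset.card_pair hab]

/-- For `p = 2`, a permutation normalizing `B` preserves the blocks. -/
theorem two_adjacent (hY : 2 < Fintype.card Y) (S₁ : Subgroup (Perm Y))
    (g : Perm ((Y × ZMod p) ⊕ A))
    (hg : ∀ s ∈ B (A := A) p S₁, g * s * g⁻¹ ∈ B (A := A) p S₁) (hp2 : p = 2) (y : Y) (x : ZMod p) :
    ∃ y' x₁ x₂, g (Sum.inl (y, x)) = Sum.inl (y', x₁) ∧ g (Sum.inl (y, x + 1)) = Sum.inl (y', x₂) := by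
  have hp' : p.Prime := Fact.out
  obtain ⟨y₁, hy₁, -⟩ := exists_third hY y y
  obtain ⟨y₂, hy₂, hy₂₁⟩ := exists_third hY y y₁
  -- the two conjugates
  have key : ∀ d : Y, d ≠ y → ∃ (h : Perm Y) (f : Y → ZMod p),
      g * T p (ind p ({y, d} : Finset Y)) * g⁻¹ = wr p h (fun y => tr p (f y)) 1 := by
    intro d hd
    obtain ⟨h, -, f, v, hv, H⟩ := (hg _ ⟨T_mem_L p _ _ _, T_ind_pair_mem_alt (A := A) p hd.symm⟩).1
    rw [Subgroup.mem_bot] at hv
    subst hv
    exact ⟨h, f, H⟩
  have hne : g (Sum.inl (y, x)) ≠ g (Sum.inl (y, x + 1)) := by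
    intro h2
    have h3 := g.injective h2
    exact add_one_ne p x (congrArg Prod.snd (Sum.inl.inj h3))
  have hw : ∀ d : Y, (g * T p (ind p ({y, d} : Finset Y)) * g⁻¹ : Perm ((Y × ZMod p) ⊕ A))
      (g (Sum.inl (y, x))) = g (Sum.inl (y, x + 1)) := by
    intro d
    rw [Perm.mul_apply, Perm.mul_apply, perm_inv_apply_self, T_ind_self_apply_ne p (by simp)]
  obtain ⟨h, f, H⟩ := key y₁ hy₁
  have h1 := hw y₁
  rw [H] at h1
  obtain ⟨ya, xa, yb, xb, h2, h3⟩ := cross_or_same p hne h1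
  by_cases hy : ya = yb
  · subst hy
    exact ⟨ya, xa, xb, h2, h3⟩
  · exfalso
    rw [h2, h3] at h1
    obtain ⟨hsub, -⟩ := two_mul_le_card_support_of_cross p hy h1
    rw [← H] at hsub
    obtain ⟨h', f', H'⟩ := key y₂ hy₂
    have h1' := hw y₂
    rw [H', h2, h3] at h1'
    obtain ⟨hsub', -⟩ := two_mul_le_card_support_of_cross p hy h1'
    rw [← H'] at hsub'
    have hcardU : ((({ya, yb} : Finset Y) ×ˢ (Finset.univ : Finset (ZMod p))).map
        (Function.Embedding.inl : (Y × ZMod p) ↪ ((Y × ZMod p) ⊕ A))).card = 2 * p := by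
      rw [Finset.card_map, Finset.card_product, Finset.card_pair hy, Finset.card_univ, ZMod.card]
    have hU1 := Finset.eq_of_subset_of_card_le hsub (by
      rw [card_support_conj, T_ind_pair_order (A := A) p hy₁.symm, hcardU])
    have hU2 := Finset.eq_of_subset_of_card_le hsub' (by
      rw [card_support_conj, T_ind_pair_order (A := A) p hy₂.symm, hcardU])
    -- the point `(y₁, 0)`
    have h4 : g (Sum.inl (y₁, 0)) ∈ (g * T p (ind p ({y, y₁} : Finset Y)) * g⁻¹).support := by
      rw [mem_support]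
      simp only [Perm.mul_apply, perm_inv_apply_self]
      intro h5
      have h6 := g.injective h5
      rw [T_ind_self_apply_ne p (by simp)] at h6
      exact add_one_ne p 0 (congrArg Prod.snd (Sum.inl.inj h6)).symm
    rw [← hU1, hU2, mem_support] at h4
    apply h4
    simp only [Perm.mul_apply, perm_inv_apply_self]
    rw [T_ind_out_apply p (by
      simp only [Finset.mem_insert, Finset.mem_singleton]
      push_neg
      exact ⟨hy₁, hy₂₁.symm⟩)]

/-- For `p = 2`, the subgroup `B` is self-normalizing in the alternating group. -/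
theorem two_normalizer (hp2 : p = 2) (hY : 2 < Fintype.card Y) (S₁ : Subgroup (Perm Y))
    (hS₁ : IsPGroup p S₁) (hsn : ∀ g : Perm Y, (∀ s ∈ S₁, g * s * g⁻¹ ∈ S₁) → g ∈ S₁)
    (g : Perm ((Y × ZMod p) ⊕ A)) (hgA : g ∈ alternatingGroup ((Y × ZMod p) ⊕ A))
    (hg : ∀ s ∈ B (A := A) p S₁, g * s * g⁻¹ ∈ B (A := A) p S₁) : g ∈ B (A := A) p S₁ := by
  obtain ⟨gb, u, rfl⟩ := exists_wr_of_block p g
    (block_of_adjacent p g fun y x => two_adjacent p hY S₁ g hg hp2 y x)
  refine ⟨?_, hgA⟩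
  have hgb : gb ∈ S₁ := by
    apply hsn
    intro s hs
    exact norm_bar p gb u (hg _ (pl_mem_B p hS₁ hs)).1
  refine ⟨gb, hgb, fun y => u y 0, 1, Subgroup.one_mem _, ?_⟩
  congr 1
  funext y
  exact perm_two_eq_tr p hp2 (u y)

/-- The order of `B` for `p = 2`. -/
theorem card_B_two (hp2 : p = 2) (hY : Nonempty Y) (S₁ : Subgroup (Perm Y)) :
    Nat.card (B (A := A) p S₁) * 2 = Nat.card (L p S₁ (⊥ : Subgroup (Perm A))) := by
  obtain ⟨y₀⟩ := hY
  set Q := L p S₁ (⊥ : Subgroup (Perm A)) with hQ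
  let f : Q →* ℤˣ := (sign : Perm ((Y × ZMod p) ⊕ A) →* ℤˣ).comp Q.subtype
  have hsurj : Function.Surjective f := by
    intro e
    rcases Int.units_eq_one_or e with rfl | rfl
    · exact ⟨1, map_one f⟩
    · refine ⟨⟨T p (Pi.single y₀ 1), T_mem_L p _ _ _⟩, ?_⟩
      show sign (T p (Pi.single y₀ 1)) = -1
      rw [sign_T_single]
      exact sign_tr_two p hp2 one_ne_zero
  have hker : f.ker = (B (A := A) p S₁).subgroupOf Q := by
    ext x
    rw [MonoidHom.mem_ker, Subgroup.mem_subgroupOf]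
    constructor
    · intro h
      exact ⟨x.2, h⟩
    · intro h
      exact h.2
  have h1 := Subgroup.card_mul_index f.ker
  have hU : Nat.card ℤˣ = 2 := by rw [Nat.card_eq_fintype_card, Fintype.card_units_int]
  rw [Subgroup.index_ker, MonoidHom.range_eq_top.mpr hsurj, Subgroup.card_top, hU, hker] at h1
  rw [← h1]
  congr 1
  exact Nat.card_congr (Subgroup.subgroupOfEquivOfLe (inf_le_left : B (A := A) p S₁ ≤ Q)).toEquiv.symm

end Cfsg.Agent.AltWr
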