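import Cfsg.Agent.Lib.AltWrCrit
import Cfsg.Agent.Lib.AltWrTwo

/-!
The criterion for alternating groups in the coordinates of a layer.
-/

set_option linter.unusedSectionVars false
set_option linter.unusedVariables false
set_option linter.unusedFintypeInType false
set_option linter.unusedDecidableInType false
set_option linter.style.haveILetI false
set_option linter.unusedSimpArgs false

namespace Cfsg.Agent.AltWr

open Equiv Equiv.Perm
open scoped Nat

theorem alt_range {Z X : Type} [Fintype Z] [DecidableEq Z] [Fintype X] [DecidableEq X] (e : Z ≃ X) :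
    ((e.permCongrHom.toMonoidHom).comp (alternatingGroup Z).subtype).range = alternatingGroup X := by
  ext g
  constructor
  · rintro ⟨⟨g', hg'⟩, rfl⟩
    show sign (e.permCongr g') = 1
    rw [sign_permCongr]
    exact hg'
  · intro hg
    refine ⟨⟨e.permCongrHom.symm g, ?_⟩, e.permCongrHom.apply_symm_apply g⟩
    show sign (e.symm.permCongr g) = 1
    rw [sign_permCongr]
    exact hg

variable {Y A : Type} (p : ℕ) [Fact p.Prime]
variable [Fintype Y] [DecidableEq Y] [Fintype A] [DecidableEq A] [Subsingleton A]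

theorem factorial_decomp (N : ℕ) :
    ∃ m₀, N ! = p ^ padicValNat p N ! * m₀ ∧ ¬ p ∣ m₀ := by
  have hp : p.Prime := Fact.out
  obtain ⟨m₀, hm₀⟩ := pow_padicValNat_dvd (p := p) (n := N !)
  refine ⟨m₀, hm₀, ?_⟩
  intro hd
  have h1 : p ^ (padicValNat p N ! + 1) ∣ N ! := by
    rw [pow_succ]
    conv_rhs => rw [hm₀]
    exact Nat.mul_dvd_mul_left _ hd
  exact pow_succ_padicValNat_not_dvd (Nat.factorial_ne_zero N) h1

theorem alt_layer_simple (n : ℕ) (e : Fin n ≃ ((Y × ZMod p) ⊕ A)) (S₁ : Subgroup (Perm Y))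
    (hS₁ : Nat.card S₁ = p ^ padicValNat p (Fintype.card Y)!) (hY : 2 < Fintype.card Y)
    (hcl : ∀ R : Subgroup (Perm ((Y × ZMod p) ⊕ A)), R ≤ B (A := A) p S₁ →
      (∀ t ∈ R, ∀ g ∈ alternatingGroup ((Y × ZMod p) ⊕ A), g * t * g⁻¹ ∈ B (A := A) p S₁ →
        g * t * g⁻¹ ∈ R) → R = ⊥ ∨ R = B (A := A) p S₁)
    (Xs : Set (Perm ((Y × ZMod p) ⊕ A)))
    (hX : ∀ x ∈ Xs, x ∈ alternatingGroup ((Y × ZMod p) ⊕ A) ∧
      (∀ s ∈ B (A := A) p S₁, x * s * x⁻¹ ∈ B (A := A) p S₁) ∧
      ∃ R : Subgroup (Perm ((Y × ZMod p) ⊕ A)), R ≤ B (A := A) p S₁ ∧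
      (∀ c ∈ alternatingGroup ((Y × ZMod p) ⊕ A), (∀ r ∈ R, c * r = r * c) → c ∈ R) ∧
      x ∈ Subgroup.closure {w | w ∈ alternatingGroup ((Y × ZMod p) ⊕ A) ∧
        (∀ r ∈ R, w * r * w⁻¹ ∈ R) ∧ ∃ k : ℕ, orderOf w = p ^ k})
    (hN : ∀ g ∈ alternatingGroup ((Y × ZMod p) ⊕ A),
      (∀ s ∈ B (A := A) p S₁, g * s * g⁻¹ ∈ B (A := A) p S₁) →
        g ∈ Subgroup.closure (((B (A := A) p S₁ : Subgroup _) : Set _) ∪ Xs))
    (S : Sylow p (alternatingGroup (Fin n))) :
    (Cfsg.groupFusionSystem (S : Subgroup (alternatingGroup (Fin n)))).IsSimple p := by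
  have hp : p.Prime := Fact.out
  have hcardX : n = p * Fintype.card Y + Fintype.card A := by
    have := Fintype.card_congr e
    rw [Fintype.card_fin, card_layer_X] at this
    exact this
  have hA := card_A_lt (A := A) p
  have hLcard : Nat.card (L p S₁ (⊥ : Subgroup (Perm A))) = p ^ padicValNat p n ! := by
    rw [card_L, hS₁, Subgroup.card_bot, mul_one, hcardX, val_factorial_layer p _ _ hA, pow_add]
  have hVal : Fintype.card Y ≤ padicValNat p n ! := by
    rw [hcardX, val_factorial_layer p _ _ hA]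
    omega
  have hn2 : 2 ≤ n := by nlinarith [hp.two_le]
  haveI : Nontrivial (Fin n) := Fin.nontrivial_iff_two_le.mpr hn2
  have hcardAlt : 2 * Nat.card (alternatingGroup (Fin n)) = n ! := by
    rw [Nat.card_eq_fintype_card, two_mul_card_alternatingGroup, Fintype.card_perm, Fintype.card_fin]
  obtain ⟨m₀, hm₀, hm₀p⟩ := factorial_decomp p n
  -- the embedding
  set θ := (e.permCongrHom.toMonoidHom).comp (alternatingGroup (Fin n)).subtype with hθ
  have hθinj : Function.Injective θ := by
    rw [hθ, MonoidHom.coe_comp]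
    exact e.permCongrHom.injective.comp (Subgroup.subtype_injective _)
  have hrange : θ.range = alternatingGroup ((Y × ZMod p) ⊕ A) := alt_range e
  -- the orders
  obtain ⟨k, m, hBcard, hAltcard, hmp, hk⟩ : ∃ k m : ℕ, Nat.card (B (A := A) p S₁) = p ^ k ∧
      Nat.card (alternatingGroup (Fin n)) = p ^ k * m ∧ ¬ p ∣ m ∧ k ≠ 0 := by
    by_cases hp2 : p = 2
    · have hVal1 : padicValNat p n ! = (padicValNat p n ! - 1) + 1 := by omega
      have hB2 := card_B_two (A := A) p hp2 (Fintype.card_pos_iff.mp (by omega)) S₁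
      rw [hLcard, hVal1, pow_succ] at hB2
      have hp2' : p ^ (padicValNat p n ! - 1) * p = p ^ (padicValNat p n ! - 1) * 2 :=
        congrArg (fun q => p ^ (padicValNat p n ! - 1) * q) hp2
      rw [hp2'] at hB2
      refine ⟨padicValNat p n ! - 1, m₀, Nat.eq_of_mul_eq_mul_right (by norm_num) hB2, ?_, hm₀p, by omega⟩
      have h3 : 2 * Nat.card (alternatingGroup (Fin n)) = 2 * (p ^ (padicValNat p n ! - 1) * m₀) := by
        have h4 : p ^ padicValNat p n ! = 2 * p ^ (padicValNat p n ! - 1) := by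
          conv_lhs => rw [hVal1, pow_succ]
          rw [hp2']
          ring
        calc 2 * Nat.card (alternatingGroup (Fin n)) = n ! := hcardAlt
          _ = p ^ padicValNat p n ! * m₀ := hm₀
          _ = 2 * (p ^ (padicValNat p n ! - 1) * m₀) := by rw [h4]; ring
      exact Nat.eq_of_mul_eq_mul_left (by norm_num) h3
    · have hodd : Odd p := hp.odd_of_ne_two hp2
      have hB : B (A := A) p S₁ = L p S₁ ⊥ := by
        apply le_antisymm inf_le_left
        intro g hg
        refine ⟨hg, ?_⟩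
        obtain ⟨h, hh, f, rfl⟩ := (mem_L_bot p).mp hg
        exact Subgroup.mul_mem _ (pl_mem_alt p (IsPGroup.of_card hS₁) hh)
          (T_mem_alternating_of_odd p hp2 f)
      have h2m : 2 ∣ m₀ := by
        have h1 : 2 ∣ p ^ padicValNat p n ! * m₀ := by
          rw [← hm₀, ← hcardAlt]
          exact dvd_mul_right _ _
        have h2 : Nat.Coprime 2 (p ^ padicValNat p n !) :=
          Nat.Coprime.pow_right _ (Nat.coprime_two_left.mpr hodd)
        exact h2.dvd_of_dvd_mul_left h1
      obtain ⟨m₁, rfl⟩ := h2m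
      refine ⟨padicValNat p n !, m₁, by rw [hB, hLcard], ?_, ?_, by have := hp.two_le; omega⟩
      · have h3 : 2 * Nat.card (alternatingGroup (Fin n)) = 2 * (p ^ padicValNat p n ! * m₁) := by
          calc 2 * Nat.card (alternatingGroup (Fin n)) = n ! := hcardAlt
            _ = p ^ padicValNat p n ! * (2 * m₁) := hm₀
            _ = 2 * (p ^ padicValNat p n ! * m₁) := by ring
        exact Nat.eq_of_mul_eq_mul_left (by norm_num) h3
      · intro h
        exact hm₀p (Dvd.dvd.mul_left h 2)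
  have hBrange : B (A := A) p S₁ ≤ θ.range := by
    rw [hrange]
    exact inf_le_right
  refine simple_of_embedding p θ hθinj (B (A := A) p S₁) hBrange k m hBcard hAltcard hmp hk ?_ Xs ?_ ?_ S
  · rw [hrange]
    exact hcl
  · rw [hrange]
    exact hX
  · rw [hrange]
    exact hN

end Cfsg.Agent.AltWr
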