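import Cfsg.Agent.Lib.AltWrTop

/-!
The case `p = 2` of the simplicity of the fusion systems of alternating groups.
-/

set_option linter.unusedSectionVars false
set_option linter.unusedVariables false
set_option linter.unusedFintypeInType false
set_option linter.unusedDecidableInType false
set_option linter.style.haveILetI false
set_option linter.unusedSimpArgs false

namespace Cfsg.Agent.AltWr

open Equiv Equiv.Perm
open scoped Nat

theorem two_core {Y A : Type} (p : ℕ) [Fact p.Prime]
    [Fintype Y] [DecidableEq Y] [Fintype A] [DecidableEq A] [Subsingleton A]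
    (hp2 : p = 2) (n : ℕ) (e : Fin n ≃ ((Y × ZMod p) ⊕ A)) (S₁ : Subgroup (Perm Y))
    (hS₁ : Nat.card S₁ = p ^ padicValNat p (Fintype.card Y)!) (hY : 2 < Fintype.card Y)
    (hΩ : S₁ ≤ Subgroup.closure {h | h ∈ S₁ ∧ orderOf h = p})
    (hswap : ∃ c d : Y, c ≠ d ∧ Equiv.swap c d ∈ S₁)
    (hsn : ∀ g : Perm Y, (∀ s ∈ S₁, g * s * g⁻¹ ∈ S₁) → g ∈ S₁)
    (S : Sylow p (alternatingGroup (Fin n))) :
    (Cfsg.groupFusionSystem (S : Subgroup (alternatingGroup (Fin n)))).IsSimple p := by
  have hS₁p : IsPGroup p S₁ := IsPGroup.of_card hS₁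
  have hA := card_A_lt (A := A) p
  have hLp : IsPGroup p (L p S₁ (⊥ : Subgroup (Perm A))) := by
    apply IsPGroup.of_card (n := Fintype.card Y + padicValNat p (Fintype.card Y)!)
    rw [card_L, hS₁, Subgroup.card_bot, mul_one, pow_add]
  refine alt_layer_simple p n e S₁ hS₁ hY ?_ ∅ (by simp) ?_ S
  · intro R hR hcl
    by_cases hne : R = ⊥
    · exact Or.inl hne
    · exact Or.inr (two_closed p hp2 hY S₁ hS₁p hΩ hLp hswap R hR hcl hne)
  · intro g hg hgn
    rw [Set.union_empty]
    exact Subgroup.subset_closure (two_normalizer p hp2 hY S₁ hS₁p hsn g hg hgn)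

theorem main_two (p : ℕ) [Fact p.Prime] (hp2 : p = 2) (n : ℕ) (hn : 6 ≤ n)
    (S : Sylow p (alternatingGroup (Fin n))) :
    (Cfsg.groupFusionSystem (S : Subgroup (alternatingGroup (Fin n)))).IsSimple p := by
  have hp : p.Prime := Fact.out
  have hr : n % p < p := Nat.mod_lt _ hp.pos
  have : Subsingleton (Fin (n % p)) := by
    apply Fintype.card_le_one_iff_subsingleton.mp
    rw [Fintype.card_fin]
    omega
  have e : Fin n ≃ ((Fin (n / p) × ZMod p) ⊕ Fin (n % p)) := by
    apply Fintype.equivOfCardEq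
    rw [card_layer_X, Fintype.card_fin, Fintype.card_fin, Fintype.card_fin]
    exact (Nat.div_add_mod _ _).symm
  obtain ⟨S₁⟩ : Nonempty (Sylow p (Perm (Fin (n / p)))) := inferInstance
  have hY : 2 < Fintype.card (Fin (n / p)) := by
    rw [Fintype.card_fin, hp2]
    omega
  obtain ⟨a, b, hab⟩ : ∃ a b : Fin (n / p), a ≠ b := by
    have : Nontrivial (Fin (n / p)) := Fintype.one_lt_card_iff_nontrivial.mp (by omega)
    exact exists_pair_ne _
  exact two_core p hp2 n e (S₁ : Subgroup _) (card_sylow_perm p S₁) hY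
    (sylow_omega p _ _ rfl S₁) (sylow_two_exists_swap p hp2 hab S₁)
    (sylow_two_selfNorm p hp2 _ _ rfl S₁) S

end Cfsg.Agent.AltWr
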