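import Mathlib

/-!
Division ring algebra for the Amitsur theorem: quaternion relations, the impossibility of
`P² + Q² + R² + 16 = 0` with commuting `P, Q, R` in the centralizer of quaternion units,
the impossibility of anticommuting `a, ξ` with `a² = 2`, `ξ² = 5` there, and trace lemmas.
-/

set_option autoImplicit false

namespace Cfsg.Agent.Lib.AmitsurAlg85

variable {D : Type*} [DivisionRing D]

theorem eq_or_eq_neg_of_sq {a b : D} (hab : Commute a b) (h : a * a = b * b) : a = b ∨ a = -b := by
  have h1 : (a - b) * (a + b) = 0 := by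
    have : (a - b) * (a + b) = a * a + a * b - b * a - b * b := by noncomm_ring
    rw [this, hab.eq, h]
    abel
  rcases mul_eq_zero.mp h1 with h2 | h2
  · left; exact sub_eq_zero.mp h2
  · right; exact eq_neg_of_add_eq_zero_left h2

/-- `n + m = 1` for `n` of order 6 with inverse `m`. -/
theorem trace_one {n m : D} (hnm : n * m = 1) (h3 : n * n * n = -1) (hne : n ≠ -1) :
    n + m = 1 := by
  have h1 : (n + 1) * (n * n - n + 1) = 0 := by
    have : (n + 1) * (n * n - n + 1) = n * n * n + 1 := by noncomm_ring
    rw [this, h3]; abel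
  have h2 : n + 1 ≠ 0 := fun h => hne (eq_neg_of_add_eq_zero_left h)
  have h4 : n * n - n + 1 = 0 := (mul_eq_zero.mp h1).resolve_left h2
  have h5 : (n * n - n + 1) * m = n - 1 + m := by
    have : (n * n - n + 1) * m = n * (n * m) - n * m + m := by noncomm_ring
    rw [this, hnm]; noncomm_ring
  rw [h4, zero_mul] at h5
  have h6 : n + m = (n - 1 + m) + 1 := by abel
  rw [h6, ← h5]; simp

/-- `t² = t + 1` for `t = n + m`, `n` of order 10 with inverse `m`. -/
theorem golden {n m : D} (hnm : n * m = 1) (hmn : m * n = 1) (h5 : n * n * n * n * n = -1)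
    (hne : n ≠ -1) : (n + m) * (n + m) = (n + m) + 1 := by
  have h1 : (n + 1) * (n * n * n * n - n * n * n + n * n - n + 1) = 0 := by
    have : (n + 1) * (n * n * n * n - n * n * n + n * n - n + 1) = n * n * n * n * n + 1 := by
      noncomm_ring
    rw [this, h5]; abel
  have h2 : n + 1 ≠ 0 := fun h => hne (eq_neg_of_add_eq_zero_left h)
  have h4 : n * n * n * n - n * n * n + n * n - n + 1 = 0 := (mul_eq_zero.mp h1).resolve_left h2
  have h6 : (n * n * n * n - n * n * n + n * n - n + 1) * (m * m) = n * n - n + 1 - m + m * m := by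
    have e1 : n * n * n * n * (m * m) = n * n := by
      have : n * n * n * n * (m * m) = n * n * n * (n * m) * m := by noncomm_ring
      rw [this, hnm, mul_one, mul_assoc (n * n) n m, hnm, mul_one]
    have e2 : n * n * n * (m * m) = n := by
      have : n * n * n * (m * m) = n * n * (n * m) * m := by noncomm_ring
      rw [this, hnm, mul_one, mul_assoc n n m, hnm, mul_one]
    have e3 : n * n * (m * m) = 1 := by
      have : n * n * (m * m) = n * (n * m) * m := by noncomm_ring
      rw [this, hnm, mul_one, hnm]
    have e4 : n * (m * m) = m := by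
      rw [← mul_assoc, hnm, one_mul]
    have : (n * n * n * n - n * n * n + n * n - n + 1) * (m * m)
        = n * n * n * n * (m * m) - n * n * n * (m * m) + n * n * (m * m) - n * (m * m) + m * m := by
      noncomm_ring
    rw [this, e1, e2, e3, e4]
  rw [h4, zero_mul] at h6
  have h7 : (n + m) * (n + m) = n * n + n * m + m * n + m * m := by noncomm_ring
  rw [h7, hnm, hmn]
  have h8 : n * n + 1 + 1 + m * m - (n + m + 1) = n * n - n + 1 - m + m * m := by abel
  rw [← h6] at h8
  exact sub_eq_zero.mp h8

/-- The cube trace identity: `n³ + m³ = t³ - 3t`, and it equals `1 - t` when `t² = t + 1`. -/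
theorem cube_trace {n m : D} (hnm : n * m = 1) (hmn : m * n = 1)
    (ht : (n + m) * (n + m) = (n + m) + 1) :
    n * (n * n) + m * (m * m) = 1 - (n + m) := by
  have h1 : (n + m) * ((n + m) * (n + m)) = n * (n * n) + m * (m * m) + 3 * (n + m) := by
    have e1 : (n + m) * ((n + m) * (n + m))
        = n * (n * n) + (n * (n * m)) + (n * (m * n)) + (n * (m * m)) + (m * (n * n))
          + (m * (n * m)) + (m * (m * n)) + m * (m * m) := by noncomm_ring
    have e2 : m * (n * n) = n := by rw [← mul_assoc, hmn, one_mul]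
    have e3 : n * (m * m) = m := by rw [← mul_assoc, hnm, one_mul]
    rw [e1, hnm, hmn, e2, e3]
    simp only [mul_one]
    have : (3 : D) * (n + m) = n + n + n + m + m + m := by
      have h3 : (3 : D) = 1 + 1 + 1 := by norm_num
      rw [h3]; noncomm_ring
    rw [this]; abel
  rw [ht] at h1
  have h2 : (n + m) * (n + m + 1) = (n + m) * (n + m) + (n + m) := by noncomm_ring
  rw [h2, ht] at h1
  have h3 : (3 : D) * (n + m) = (n + m) + (n + m) + (n + m) := by
    have h3 : (3 : D) = 1 + 1 + 1 := by norm_num
    rw [h3]; noncomm_ring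
  rw [h3] at h1
  have h4 : n * (n * n) + m * (m * m) = (n + m + 1 + (n + m)) - ((n + m) + (n + m) + (n + m)) := by
    rw [h1]; abel
  rw [h4]; abel

section quat

variable [CharZero D] {I J K : D}

theorem Q1 (hII : I * I = -1) (hJJ : J * J = -1) (hIJ : I * J = K) (hJI : J * I = -K)
    {P Q R : D} (hPI : Commute P I) (hPJ : Commute P J) (hQI : Commute Q I) (hQJ : Commute Q J)
    (hRI : Commute R I) (hRJ : Commute R J) (hPQ : Commute P Q) (hPR : Commute P R)
    (hQR : Commute Q R) (h : P * P + Q * Q + R * R + 16 = 0) : False := by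
  have hIK : I * K = -J := by rw [← hIJ, ← mul_assoc, hII]; noncomm_ring
  have hKI : K * I = J := by
    rw [← neg_neg K, ← hJI]
    have : -(J * I) * I = - (J * (I * I)) := by noncomm_ring
    rw [this, hII]; noncomm_ring
  have hJK : J * K = I := by
    rw [← hIJ]
    have : J * (I * J) = (J * I) * J := by noncomm_ring
    rw [this, hJI, ← hIJ]
    have : -(I * J) * J = -(I * (J * J)) := by noncomm_ring
    rw [this, hJJ]; noncomm_ring
  have hKJ : K * J = -I := by
    rw [← hIJ, mul_assoc, hJJ]; noncomm_ring
  have hKK : K * K = -1 := by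
    have : K * K = K * (I * J) := by rw [hIJ]
    rw [this, ← mul_assoc, hKI, hJJ]
  have hPK : Commute P K := by rw [← hIJ]; exact hPI.mul_right hPJ
  have hQK : Commute Q K := by rw [← hIJ]; exact hQI.mul_right hQJ
  have hRK : Commute R K := by rw [← hIJ]; exact hRI.mul_right hRJ
  -- the element `W`
  set W : D := Q * I + R * J + 4 * K with hW
  have h4c : ∀ a : D, Commute (4 : D) a := fun a => by
    have := Nat.cast_commute 4 a
    simpa using this
  have hWW : W * W = -(Q * Q + R * R + 16) := by
    have e : W * W = Q * I * (Q * I) + Q * I * (R * J) + Q * I * (4 * K)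
        + (R * J * (Q * I) + R * J * (R * J) + R * J * (4 * K))
        + (4 * K * (Q * I) + 4 * K * (R * J) + 4 * K * (4 * K)) := by
      rw [hW]; noncomm_ring
    have e1 : Q * I * (Q * I) = -(Q * Q) := by
      calc Q * I * (Q * I) = Q * (I * Q) * I := by noncomm_ring
        _ = Q * Q * (I * I) := by rw [hQI.symm.eq]; noncomm_ring
        _ = -(Q * Q) := by rw [hII]; noncomm_ring
    have e2 : R * J * (R * J) = -(R * R) := by
      calc R * J * (R * J) = R * (J * R) * J := by noncomm_ring
        _ = R * R * (J * J) := by rw [hRJ.symm.eq]; noncomm_ring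
        _ = -(R * R) := by rw [hJJ]; noncomm_ring
    have e3 : Q * I * (R * J) = Q * R * K := by
      calc Q * I * (R * J) = Q * (I * R) * J := by noncomm_ring
        _ = Q * R * (I * J) := by rw [hRI.symm.eq]; noncomm_ring
        _ = Q * R * K := by rw [hIJ]
    have e4 : R * J * (Q * I) = -(Q * R * K) := by
      calc R * J * (Q * I) = R * (J * Q) * I := by noncomm_ring
        _ = R * Q * (J * I) := by rw [hQJ.symm.eq]; noncomm_ring
        _ = -(Q * R * K) := by rw [hJI, hQR.symm.eq]; noncomm_ring
    have e5 : Q * I * (4 * K) = -(4 * (Q * J)) := by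
      calc Q * I * (4 * K) = Q * (I * 4) * K := by noncomm_ring
        _ = 4 * (Q * (I * K)) := by
          rw [(h4c I).symm.eq, ← mul_assoc Q, (h4c Q).symm.eq]; noncomm_ring
        _ = -(4 * (Q * J)) := by rw [hIK]; noncomm_ring
    have e6 : 4 * K * (Q * I) = 4 * (Q * J) := by
      calc 4 * K * (Q * I) = 4 * (K * Q) * I := by noncomm_ring
        _ = 4 * (Q * (K * I)) := by rw [hQK.symm.eq]; noncomm_ring
        _ = 4 * (Q * J) := by rw [hKI]
    have e7 : R * J * (4 * K) = 4 * (R * I) := by
      calc R * J * (4 * K) = R * (J * 4) * K := by noncomm_ring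
        _ = 4 * (R * (J * K)) := by
          rw [(h4c J).symm.eq, ← mul_assoc R, (h4c R).symm.eq]; noncomm_ring
        _ = 4 * (R * I) := by rw [hJK]
    have e8 : 4 * K * (R * J) = -(4 * (R * I)) := by
      calc 4 * K * (R * J) = 4 * (K * R) * J := by noncomm_ring
        _ = 4 * (R * (K * J)) := by rw [hRK.symm.eq]; noncomm_ring
        _ = -(4 * (R * I)) := by rw [hKJ]; noncomm_ring
    have e9 : 4 * K * (4 * K) = -16 := by
      calc 4 * K * (4 * K) = 4 * (K * 4) * K := by noncomm_ring
        _ = 4 * 4 * (K * K) := by rw [(h4c K).symm.eq]; noncomm_ring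
        _ = -16 := by rw [hKK]; norm_num
    rw [e, e1, e2, e3, e4, e5, e6, e7, e8, e9]
    abel
  have hPW : Commute P W :=
    ((hPQ.mul_right hPI).add_right (hPR.mul_right hPJ)).add_right
      ((h4c P).symm.mul_right hPK)
  have h0 : W = P ∨ W = -P := by
    have h1 : W * W = (P * P) := by
      rw [hWW]
      have : P * P = -(Q * Q + R * R + 16) := by
        rw [eq_neg_iff_add_eq_zero, ← h]; abel
      rw [this]
    exact eq_or_eq_neg_of_sq hPW.symm h1
  have hWI : Commute W I := by
    rcases h0 with h0 | h0 <;> rw [h0]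
    · exact hPI
    · exact hPI.neg_left
  have hWJ : Commute W J := by
    rcases h0 with h0 | h0 <;> rw [h0]
    · exact hPJ
    · exact hPJ.neg_left
  have h8J : (2 : D) * (R * K) = 8 * J := by
    have e1 : W * I = -Q + -(R * K) + 4 * J := by
      rw [hW]
      have : (Q * I + R * J + 4 * K) * I = Q * (I * I) + R * (J * I) + 4 * (K * I) := by noncomm_ring
      rw [this, hII, hJI, hKI]; noncomm_ring
    have e2 : I * W = -Q + R * K + -(4 * J) := by
      rw [hW]
      have : I * (Q * I + R * J + 4 * K) = (I * Q) * I + (I * R) * J + (I * 4) * K := by noncomm_ring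
      rw [this, hQI.symm.eq, hRI.symm.eq, (h4c I).symm.eq, mul_assoc Q, hII, mul_assoc R, hIJ,
        mul_assoc 4, hIK]
      noncomm_ring
    have e3 := hWI.eq
    rw [e1, e2] at e3
    have h8 : (8 : D) = 4 + 4 := by norm_num
    have h2 : (2 : D) = 1 + 1 := by norm_num
    rw [h8, h2]
    have e4 : (1 + 1) * (R * K) - (4 + 4) * J = (-Q + R * K + -(4 * J)) - (-Q + -(R * K) + 4 * J) := by
      noncomm_ring
    rw [← e3] at e4
    simpa [sub_eq_zero] using e4
  have h8I : (2 : D) * (Q * K) = 8 * I := by
    have e1 : W * J = Q * K + -R + -(4 * I) := by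
      rw [hW]
      have : (Q * I + R * J + 4 * K) * J = Q * (I * J) + R * (J * J) + 4 * (K * J) := by noncomm_ring
      rw [this, hJJ, hIJ, hKJ]; noncomm_ring
    have e2 : J * W = -(Q * K) + -R + 4 * I := by
      rw [hW]
      have : J * (Q * I + R * J + 4 * K) = (J * Q) * I + (J * R) * J + (J * 4) * K := by noncomm_ring
      rw [this, hQJ.symm.eq, hRJ.symm.eq, (h4c J).symm.eq, mul_assoc Q, hJI, mul_assoc R, hJJ,
        mul_assoc 4, hJK]
      noncomm_ring
    have e3 := hWJ.eq
    rw [e1, e2] at e3
    have h8 : (8 : D) = 4 + 4 := by norm_num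
    have h2 : (2 : D) = 1 + 1 := by norm_num
    rw [h8, h2]
    have e4 : (1 + 1) * (Q * K) - (4 + 4) * I = (Q * K + -R + -(4 * I)) - (-(Q * K) + -R + 4 * I) := by
      noncomm_ring
    rw [e3] at e4
    simpa [sub_eq_zero] using e4
  have h20 : (2 : D) ≠ 0 := two_ne_zero
  have h2c : ∀ a : D, Commute (2 : D) a := fun a => by
    have := Nat.cast_commute 2 a
    simpa using this
  have h4J : R * K = 4 * J := by
    apply mul_left_cancel₀ h20
    rw [h8J, ← mul_assoc]; norm_num
  have h4I : Q * K = 4 * I := by
    apply mul_left_cancel₀ h20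
    rw [h8I, ← mul_assoc]; norm_num
  -- `- Q R = 16 K`
  have h16 : -(Q * R) = 16 * K := by
    have e1 : (Q * K) * (R * K) = Q * R * (K * K) := by
      calc (Q * K) * (R * K) = Q * (K * R) * K := by noncomm_ring
        _ = Q * R * (K * K) := by rw [hRK.symm.eq]; noncomm_ring
    have e2 : (4 * I) * (4 * J) = 16 * K := by
      calc (4 * I) * (4 * J) = 4 * (I * 4) * J := by noncomm_ring
        _ = 4 * 4 * (I * J) := by rw [(h4c I).symm.eq]; noncomm_ring
        _ = 16 * K := by rw [hIJ]; norm_num
    rw [h4I, h4J, e2, hKK] at e1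
    rw [e1]; noncomm_ring
  have hc : Commute (16 * K) I := by
    rw [← h16]
    exact (hQI.mul_left hRI).neg_left
  have hc2 : (16 : D) * J = 16 * (-J) := by
    have e := hc.eq
    have h16c : Commute (16 : D) I := by
      have := Nat.cast_commute 16 I
      simpa using this
    rw [mul_assoc, hKI, ← mul_assoc, h16c.symm.eq, mul_assoc, hIK] at e
    exact e
  have h160 : (16 : D) ≠ 0 := by norm_num
  have hJ0 : J = -J := mul_left_cancel₀ h160 hc2
  have hJ00 : J = 0 := by
    have : J + J = 0 := by
      nth_rewrite 2 [hJ0]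
      abel
    have h22 : (2 : D) * J = 0 := by rw [two_mul]; exact this
    exact (mul_eq_zero.mp h22).resolve_left h20
  rw [hJ00] at hJJ
  simp at hJJ

theorem Q2 (hII : I * I = -1) (hJJ : J * J = -1) (hIJ : I * J = K) (hJI : J * I = -K)
    {a x : D} (haI : Commute a I) (haJ : Commute a J) (hxI : Commute x I) (hxJ : Commute x J)
    (haa : a * a = 2) (hxx : x * x = 5) (hax : a * x = -(x * a)) : False := by
  have hIK : I * K = -J := by rw [← hIJ, ← mul_assoc, hII]; noncomm_ring
  have hKI : K * I = J := by
    rw [← neg_neg K, ← hJI]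
    have : -(J * I) * I = - (J * (I * I)) := by noncomm_ring
    rw [this, hII]; noncomm_ring
  have hJK : J * K = I := by
    rw [← hIJ]
    have : J * (I * J) = (J * I) * J := by noncomm_ring
    rw [this, hJI, ← hIJ]
    have : -(I * J) * J = -(I * (J * J)) := by noncomm_ring
    rw [this, hJJ]; noncomm_ring
  have hKJ : K * J = -I := by
    rw [← hIJ, mul_assoc, hJJ]; noncomm_ring
  have hKK : K * K = -1 := by
    have : K * K = K * (I * J) := by rw [hIJ]
    rw [this, ← mul_assoc, hKI, hJJ]
  have haK : Commute a K := by rw [← hIJ]; exact haI.mul_right haJ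
  have hxK : Commute x K := by rw [← hIJ]; exact hxI.mul_right hxJ
  set p : D := I + J + K with hp
  set q : D := a + x + a * x with hq
  have hpp : p * p = -3 := by
    have e : p * p = I * I + I * J + I * K + (J * I + J * J + J * K) + (K * I + K * J + K * K) := by
      rw [hp]; noncomm_ring
    rw [e, hII, hJJ, hKK, hIJ, hJI, hIK, hKI, hJK, hKJ]
    have h3 : (3 : D) = 1 + 1 + 1 := by norm_num
    rw [h3]; abel
  have hqq : q * q = -3 := by
    have e : q * q = a * a + a * x + a * (a * x) + (x * a + x * x + x * (a * x))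
        + (a * x * a + a * x * x + a * x * (a * x)) := by
      rw [hq]; noncomm_ring
    have hxa : x * a = -(a * x) := by rw [hax, neg_neg]
    have hc5 : Commute (5 : D) a := by
      have := Nat.cast_commute 5 a
      simpa using this
    have e1 : a * (a * x) = 2 * x := by rw [← mul_assoc, haa]
    have e2 : x * (a * x) = -(5 * a) := by
      have : x * (a * x) = (x * a) * x := by noncomm_ring
      rw [this, hxa, neg_mul, mul_assoc, hxx, hc5.symm.eq]
    have e3 : a * x * a = -(2 * x) := by
      rw [mul_assoc, hxa, mul_neg, ← mul_assoc, haa]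
    have e4 : a * x * x = 5 * a := by
      rw [mul_assoc, hxx, hc5.symm.eq]
    have e5 : a * x * (a * x) = -10 := by
      have : a * x * (a * x) = a * (x * a) * x := by noncomm_ring
      rw [this, hxa, mul_neg, neg_mul, ← mul_assoc, haa, mul_assoc, hxx]
      norm_num
    rw [e, haa, hxx, e1, e2, e3, e4, e5, hxa]
    have h3 : (-3 : D) = 2 + 5 + -10 := by norm_num
    rw [h3]; abel
  have hpq : Commute p q := by
    have h1 : Commute I q := ((haI.symm).add_right hxI.symm).add_right (haI.symm.mul_right hxI.symm)
    have h2 : Commute J q := ((haJ.symm).add_right hxJ.symm).add_right (haJ.symm.mul_right hxJ.symm)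
    have h3 : Commute K q := ((haK.symm).add_right hxK.symm).add_right (haK.symm.mul_right hxK.symm)
    exact (h1.add_left h2).add_left h3
  have h0 : p = q ∨ p = -q := eq_or_eq_neg_of_sq hpq (by rw [hpp, hqq])
  have hqI : Commute q I := ((haI).add_left hxI).add_left (haI.mul_left hxI)
  have hpI : Commute p I := by
    rcases h0 with h0 | h0 <;> rw [h0]
    · exact hqI
    · exact hqI.neg_left
  have e1 : p * I = -1 + -K + J := by
    rw [hp]
    have : (I + J + K) * I = I * I + J * I + K * I := by noncomm_ring
    rw [this, hII, hJI, hKI]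
  have e2 : I * p = -1 + K + -J := by
    rw [hp]
    have : I * (I + J + K) = I * I + I * J + I * K := by noncomm_ring
    rw [this, hII, hIJ, hIK]
  have e3 := hpI.eq
  rw [e1, e2] at e3
  have h2 : (2 : D) * (J - K) = 0 := by
    have h22 : (2 : D) = 1 + 1 := by norm_num
    rw [h22]
    have : (1 + 1 : D) * (J - K) = (-1 + -K + J) - (-1 + K + -J) := by noncomm_ring
    rw [this, e3]; abel
  have h3 : J = K := sub_eq_zero.mp ((mul_eq_zero.mp h2).resolve_left two_ne_zero)
  have h4 : (I - 1) * J = 0 := by
    rw [sub_mul, hIJ, one_mul, h3]; abel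
  have hJ0 : J ≠ 0 := by
    intro h
    rw [h] at hJJ
    simp at hJJ
  have h5 : I = 1 := sub_eq_zero.mp ((mul_eq_zero.mp h4).resolve_right hJ0)
  rw [h5] at hII
  norm_num at hII

end quat

end Cfsg.Agent.Lib.AmitsurAlg85
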