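import Mathlib

/-!
Arithmetic input for the Amitsur theorem: Dirichlet primes and the representation
`2 l = t² + 5 s²` for primes `l ≡ 3 mod 20`.
-/

set_option autoImplicit false

namespace Cfsg.Agent.Lib.AmitsurArith85

theorem exists_prime85 (r : ℕ) (hr : r.Prime) (h7 : 7 ≤ r) :
    ∃ l : ℕ, l.Prime ∧ l % 20 = 3 ∧ r ∣ l + 1 := by
  have hcop : Nat.Coprime 20 r := by
    have h1 : ¬ r ∣ 20 := by
      intro h
      have h2 := Nat.le_of_dvd (by norm_num) h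
      interval_cases r <;> revert hr <;> revert h <;> decide
    exact ((Nat.Prime.coprime_iff_not_dvd hr).mpr h1).symm
  let c := Nat.chineseRemainder hcop 3 (r - 1)
  have hc1 : (c : ℕ) ≡ 3 [MOD 20] := c.2.1
  have hc2 : (c : ℕ) ≡ r - 1 [MOD r] := c.2.2
  have hcopc : Nat.Coprime (c : ℕ) (20 * r) := by
    apply Nat.Coprime.mul_right
    · have : Nat.gcd (c : ℕ) 20 = Nat.gcd 3 20 := hc1.gcd_eq
      rw [Nat.Coprime, this]
      norm_num
    · have : Nat.gcd (c : ℕ) r = Nat.gcd (r - 1) r := hc2.gcd_eq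
      rw [Nat.Coprime, this]
      have h3 : Nat.Coprime (r - 1) r := by
        have h4 : 1 ≤ r := by omega
        exact (Nat.coprime_self_sub_left h4).mpr (Nat.coprime_one_left r) |>.symm.symm
      exact h3
  haveI : NeZero (20 * r) := ⟨by omega⟩
  have hu : IsUnit ((c : ℕ) : ZMod (20 * r)) := (ZMod.isUnit_iff_coprime _ _).mpr hcopc
  obtain ⟨l, -, hl, hle⟩ := Nat.forall_exists_prime_gt_and_eq_mod hu 0
  have hle2 : l ≡ (c : ℕ) [MOD 20 * r] := (ZMod.natCast_eq_natCast_iff _ _ _).mp hle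
  refine ⟨l, hl, ?_, ?_⟩
  · have h5 : l ≡ (c : ℕ) [MOD 20] := hle2.of_mul_right r
    have h6 := h5.trans hc1
    simpa [Nat.ModEq] using h6
  · have h5 : l ≡ (c : ℕ) [MOD r] := hle2.of_mul_left 20
    have h6 := h5.trans hc2
    have h7' : l + 1 ≡ (r - 1) + 1 [MOD r] := h6.add_right 1
    have h8 : r - 1 + 1 = r := by omega
    rw [h8] at h7'
    have h9 : (r : ℕ) ≡ 0 [MOD r] := by simp [Nat.ModEq]
    exact (Nat.modEq_zero_iff_dvd).mp (h7'.trans h9)

theorem sq_mod4 (a : ℤ) : a ^ 2 % 4 = 0 ∨ a ^ 2 % 4 = 1 := by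
  have h : a % 4 = 0 ∨ a % 4 = 1 ∨ a % 4 = 2 ∨ a % 4 = 3 := by omega
  rcases h with h | h | h | h <;> simp [pow_two, Int.mul_emod, h]

/-- `-5` is a square modulo `l`. -/
theorem exists_sq_neg_five (l : ℕ) [Fact l.Prime] (h : l % 20 = 3) :
    ∃ x : ZMod l, x ^ 2 = -5 := by
  haveI : Fact (Nat.Prime 5) := ⟨by norm_num⟩
  have hl2 : l ≠ 2 := by omega
  have hl5 : l ≠ 5 := by omega
  have h1 : legendreSym l 5 = legendreSym 5 l :=
    legendreSym.quadratic_reciprocity_one_mod_four (p := 5) (q := l) (by norm_num) hl2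
  have h2 : legendreSym 5 (l : ℤ) = -1 := by
    rw [legendreSym.mod]
    have h3 : (l : ℤ) % ((5 : ℕ) : ℤ) = 3 := by omega
    rw [h3]
    norm_num
  have h3 : legendreSym l (-1) = -1 := by
    rw [legendreSym.at_neg_one hl2]
    exact ZMod.χ₄_nat_three_mod_four (by omega)
  have h4 : legendreSym l (-5) = 1 := by
    have h5 : (-5 : ℤ) = (-1) * 5 := by norm_num
    rw [h5, legendreSym.mul, h3]
    rw [h1, h2]
    norm_num
  have hne : (((-5 : ℤ)) : ZMod l) ≠ 0 := by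
    intro h5
    rw [ZMod.intCast_zmod_eq_zero_iff_dvd] at h5
    have h6 : (l : ℤ) ∣ 5 := by simpa using h5
    have h7 : l ∣ 5 := by exact_mod_cast h6
    rcases (Nat.dvd_prime (by norm_num : Nat.Prime 5)).mp h7 with h8 | h8
    · have := (Fact.out : l.Prime).one_lt
      omega
    · exact hl5 h8
  obtain ⟨y, hy⟩ := (legendreSym.eq_one_iff l hne).mp h4
  refine ⟨y, ?_⟩
  rw [sq, ← hy]
  push_cast
  ring

/-- Descent from `k l`, `k ≤ 5`. -/
theorem descend (l : ℕ) (h : l % 20 = 3) (u v : ℤ) (k : ℤ) (hk1 : 1 ≤ k) (hk5 : k ≤ 5)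
    (huv : u ^ 2 + 5 * v ^ 2 = k * (l : ℤ)) : ∃ t s : ℤ, t ^ 2 + 5 * s ^ 2 = 2 * (l : ℤ) := by
  have hl4 : (l : ℤ) % 4 = 3 := by omega
  have no_one : ∀ a b : ℤ, a ^ 2 + 5 * b ^ 2 ≠ (l : ℤ) := by
    intro a b hab
    have h1 := sq_mod4 a
    have h2 := sq_mod4 b
    omega
  have hk : k = 1 ∨ k = 2 ∨ k = 3 ∨ k = 4 ∨ k = 5 := by omega
  rcases hk with rfl | rfl | rfl | rfl | rfl
  · exact absurd (by simpa using huv) (no_one u v)
  · exact ⟨u, v, huv⟩
  · -- `k = 3`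
    have h3 : (u - v) % 3 = 0 ∨ (u + v) % 3 = 0 := by
      have h4 : u % 3 = 0 ∨ u % 3 = 1 ∨ u % 3 = 2 := by omega
      have h5 : v % 3 = 0 ∨ v % 3 = 1 ∨ v % 3 = 2 := by omega
      have h6 : (u ^ 2 + 5 * v ^ 2) % 3 = 0 := by rw [huv]; simp [Int.mul_emod]
      rcases h4 with h4 | h4 | h4 <;> rcases h5 with h5 | h5 | h5 <;>
        simp [pow_two, Int.add_emod, Int.mul_emod, h4, h5] at h6 <;> omega
    rcases h3 with h3 | h3
    · obtain ⟨s, hs⟩ : ∃ s, u - v = 3 * s := ⟨(u - v) / 3, by omega⟩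
      have hu : u = v + 3 * s := by omega
      refine ⟨2 * v + s, s, ?_⟩
      subst hu
      nlinarith [huv]
    · obtain ⟨s, hs⟩ : ∃ s, u + v = 3 * s := ⟨(u + v) / 3, by omega⟩
      have hu : u = 3 * s - v := by omega
      refine ⟨s - 2 * v, s, ?_⟩
      subst hu
      nlinarith [huv]
  · -- `k = 4`
    have h1 := sq_mod4 u
    have h2 := sq_mod4 v
    have h3 : u % 2 = 0 := by
      by_contra hne
      have h4 : u % 4 = 1 ∨ u % 4 = 3 := by omega
      have h5 : u ^ 2 % 4 = 1 := by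
        rcases h4 with h4 | h4 <;> simp [pow_two, Int.mul_emod, h4]
      omega
    have h4 : v % 2 = 0 := by
      by_contra hne
      have h4 : v % 4 = 1 ∨ v % 4 = 3 := by omega
      have h5 : v ^ 2 % 4 = 1 := by
        rcases h4 with h4 | h4 <;> simp [pow_two, Int.mul_emod, h4]
      omega
    obtain ⟨a, ha⟩ : ∃ a, u = 2 * a := ⟨u / 2, by omega⟩
    obtain ⟨b, hb⟩ : ∃ b, v = 2 * b := ⟨v / 2, by omega⟩
    subst ha hb
    exact absurd (by nlinarith [huv]) (no_one a b)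
  · -- `k = 5`
    have h1 : (5 : ℤ) ∣ u ^ 2 := by
      refine ⟨(l : ℤ) - v ^ 2, ?_⟩
      linarith
    have h2 : (5 : ℤ) ∣ u := Int.Prime.dvd_pow' (p := 5) (by norm_num) h1
    obtain ⟨a, rfl⟩ := h2
    have h3 : v ^ 2 + 5 * a ^ 2 = (l : ℤ) := by nlinarith [huv]
    exact absurd h3 (no_one v a)

/-- The Thue pigeonhole step. -/
theorem thue (l : ℕ) [Fact l.Prime] (x : ZMod l) :
    ∃ u v : ℤ, (u, v) ≠ (0, 0) ∧ ((u : ZMod l) = x * v) ∧ u ^ 2 < l ∧ v ^ 2 < l := by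
  have hl : l.Prime := Fact.out
  set m := Nat.sqrt l with hm
  have hm1 : l < (m + 1) * (m + 1) := Nat.lt_succ_sqrt l
  have hm2 : m * m ≤ l := Nat.sqrt_le l
  have hm3 : m * m < l := by
    refine lt_of_le_of_ne hm2 ?_
    intro h
    have h2 := hl.one_lt
    rcases hl.eq_one_or_self_of_dvd m (Dvd.intro m h) with h1 | h1
    · rw [h1] at h
      omega
    · rw [h1] at h
      nlinarith
  let Φ : Fin (m + 1) × Fin (m + 1) → ZMod l :=
    fun p => ((p.1 : ℕ) : ZMod l) - x * ((p.2 : ℕ) : ZMod l)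
  have hcard : Fintype.card (ZMod l) < Fintype.card (Fin (m + 1) × Fin (m + 1)) := by
    simp only [ZMod.card, Fintype.card_prod, Fintype.card_fin]
    exact hm1
  obtain ⟨p, q, hpq, hΦ⟩ := Fintype.exists_ne_map_eq_of_card_lt Φ hcard
  have hp1 := p.1.is_lt
  have hp2 := p.2.is_lt
  have hq1 := q.1.is_lt
  have hq2 := q.2.is_lt
  have hm3' : (m : ℤ) * m < l := by exact_mod_cast hm3
  have hbound : ∀ a b : ℕ, a < m + 1 → b < m + 1 → ((a : ℤ) - b) ^ 2 < l := by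
    intro a b ha hb
    have h1 : ((a : ℤ) - b) ^ 2 ≤ (m : ℤ) ^ 2 := by
      apply sq_le_sq'
      · omega
      · omega
    rw [sq (m : ℤ)] at h1
    exact lt_of_le_of_lt h1 hm3'
  refine ⟨((p.1 : ℕ) : ℤ) - ((q.1 : ℕ) : ℤ), ((p.2 : ℕ) : ℤ) - ((q.2 : ℕ) : ℤ), ?_, ?_,
    hbound _ _ hp1 hq1, hbound _ _ hp2 hq2⟩
  · intro h
    apply hpq
    simp only [Prod.mk.injEq] at h
    obtain ⟨h1, h2⟩ := h
    apply Prod.ext
    · apply Fin.ext
      omega
    · apply Fin.ext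
      omega
  · have h3 : ((p.1 : ℕ) : ZMod l) - x * ((p.2 : ℕ) : ZMod l)
        = ((q.1 : ℕ) : ZMod l) - x * ((q.2 : ℕ) : ZMod l) := hΦ
    push_cast
    linear_combination h3

theorem two_mul_eq85 (l : ℕ) (hl : l.Prime) (h : l % 20 = 3) :
    ∃ t s : ℤ, t ^ 2 + 5 * s ^ 2 = 2 * (l : ℤ) := by
  haveI := Fact.mk hl
  obtain ⟨x, hx⟩ := exists_sq_neg_five l h
  obtain ⟨u, v, hne, huv, hu, hv⟩ := thue l x
  have hd : (l : ℤ) ∣ u ^ 2 + 5 * v ^ 2 := by
    rw [← ZMod.intCast_zmod_eq_zero_iff_dvd]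
    push_cast
    rw [huv, mul_pow, hx]
    ring
  obtain ⟨k, hk⟩ := hd
  have hpos : 0 < u ^ 2 + 5 * v ^ 2 := by
    by_contra hle
    have h1 : u ^ 2 = 0 := by nlinarith [sq_nonneg u, sq_nonneg v]
    have h2 : v ^ 2 = 0 := by nlinarith [sq_nonneg u, sq_nonneg v]
    apply hne
    simp [pow_eq_zero_iff (two_ne_zero)] at h1 h2
    simp [h1, h2]
  have hl0 : (0 : ℤ) < l := by exact_mod_cast hl.pos
  have hk1 : 1 ≤ k := by
    by_contra hlt
    have : k ≤ 0 := by omega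
    nlinarith
  have hk5 : k ≤ 5 := by
    by_contra hlt
    have : 6 ≤ k := by omega
    nlinarith
  exact descend l h u v k hk1 hk5 (by rw [hk]; ring)

end Cfsg.Agent.Lib.AmitsurArith85
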