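import Mathlib

/-!
Finite facts about `SL(2,5)` used for the Amitsur theorem (no nonsolvable finite subgroup of a
division ring other than `SL(2,5)`): explicit quaternion elements, the element `g` of order 10,
generation, and the classification of quaternion pairs up to conjugacy.
-/

set_option autoImplicit false

namespace Cfsg.Agent.Lib.AmitsurSL85

/-- The group. -/
abbrev Gam := Matrix.SpecialLinearGroup (Fin 2) (ZMod 5)

/-- Tuples of entries. -/
abbrev Tup := ZMod 5 × ZMod 5 × ZMod 5 × ZMod 5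

/-- Entries of an element. -/
def toT (x : Gam) : Tup := (x.1 0 0, x.1 0 1, x.1 1 0, x.1 1 1)

/-- Product of tuples. -/
def tm (x y : Tup) : Tup :=
  (x.1 * y.1 + x.2.1 * y.2.2.1, x.1 * y.2.1 + x.2.1 * y.2.2.2,
   x.2.2.1 * y.1 + x.2.2.2 * y.2.2.1, x.2.2.1 * y.2.1 + x.2.2.2 * y.2.2.2)

theorem toT_mul (x y : Gam) : toT (x * y) = tm (toT x) (toT y) := by
  simp [toT, tm, Matrix.mul_apply, Fin.sum_univ_two]

theorem toT_inj {x y : Gam} (h : toT x = toT y) : x = y := by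
  simp only [toT, Prod.mk.injEq] at h
  obtain ⟨h1, h2, h3, h4⟩ := h
  apply Subtype.ext
  ext a b
  fin_cases a <;> fin_cases b <;> assumption

theorem toT_det (x : Gam) :
    (toT x).1 * (toT x).2.2.2 - (toT x).2.1 * (toT x).2.2.1 = 1 := by
  have h := x.2
  rw [Matrix.det_fin_two] at h
  simpa [toT] using h

/-- Element from a tuple. -/
def ofT (t : Tup) (h : t.1 * t.2.2.2 - t.2.1 * t.2.2.1 = 1) : Gam :=
  ⟨!![t.1, t.2.1; t.2.2.1, t.2.2.2], by rw [Matrix.det_fin_two_of]; exact h⟩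

@[simp] theorem toT_ofT (t : Tup) (h : t.1 * t.2.2.2 - t.2.1 * t.2.2.1 = 1) : toT (ofT t h) = t := by
  simp [toT, ofT]

/-- The tuples of determinant one. -/
def good (t : Tup) : Prop := t.1 * t.2.2.2 - t.2.1 * t.2.2.1 = 1

instance : DecidablePred good := fun t => by unfold good; infer_instance

theorem good_toT (x : Gam) : good (toT x) := toT_det x

def tz : Tup := (4, 0, 0, 4)
def ti : Tup := (2, 0, 0, 3)
def tj : Tup := (0, 1, 4, 0)
def tk : Tup := (0, 2, 2, 0)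
def tg : Tup := (1, 3, 2, 2)
def tgi : Tup := (2, 2, 3, 1)

def z : Gam := ofT tz (by decide)
def i : Gam := ofT ti (by decide)
def j : Gam := ofT tj (by decide)
def k : Gam := ofT tk (by decide)
def g : Gam := ofT tg (by decide)
def gi : Gam := ofT tgi (by decide)

@[simp] theorem toT_z : toT z = tz := toT_ofT _ _
@[simp] theorem toT_i : toT i = ti := toT_ofT _ _
@[simp] theorem toT_j : toT j = tj := toT_ofT _ _
@[simp] theorem toT_k : toT k = tk := toT_ofT _ _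
@[simp] theorem toT_g : toT g = tg := toT_ofT _ _
@[simp] theorem toT_gi : toT gi = tgi := toT_ofT _ _

theorem toT_one : toT (1 : Gam) = (1, 0, 0, 1) := by
  simp [toT]


/-- One as a tuple. -/
def tone : Tup := (1, 0, 0, 1)

theorem rel2 {x y w : Gam} (h : tm (toT x) (toT y) = toT w) : x * y = w :=
  toT_inj (by rw [toT_mul]; exact h)

theorem z_mul_z : z * z = 1 := rel2 (by rw [toT_z, toT_one]; decide +kernel)
theorem i_mul_i : i * i = z := rel2 (by rw [toT_z, toT_i]; decide +kernel)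
theorem j_mul_j : j * j = z := rel2 (by rw [toT_z, toT_j]; decide +kernel)
theorem i_mul_j : i * j = k := rel2 (by rw [toT_k, toT_i, toT_j]; decide +kernel)
theorem j_mul_i : j * i = z * k := by
  apply toT_inj
  rw [toT_mul, toT_mul, toT_i, toT_j, toT_z, toT_k]; decide +kernel
theorem g_mul_gi : g * gi = 1 := rel2 (by rw [toT_g, toT_gi, toT_one]; decide +kernel)
theorem gi_mul_g : gi * g = 1 := rel2 (by rw [toT_g, toT_gi, toT_one]; decide +kernel)
theorem g5 : g * g * g * g * g = z := by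
  apply toT_inj
  simp only [toT_mul, toT_g, toT_z]; decide +kernel
theorem g_ne_z : g ≠ z := by
  intro h
  have h2 := congrArg toT h
  rw [toT_g, toT_z] at h2
  exact absurd h2 (by decide +kernel)
theorem z_ne_one : z ≠ 1 := by
  intro h
  have h2 := congrArg toT h
  rw [toT_z, toT_one] at h2
  exact absurd h2 (by decide +kernel)
theorem k_g : k * g = gi * k := by
  apply toT_inj
  simp only [toT_mul, toT_g, toT_k, toT_gi]; decide +kernel
theorem n_cube : g * (z * j) * (g * (z * j)) * (g * (z * j)) = z := by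
  apply toT_inj
  simp only [toT_mul, toT_g, toT_j, toT_z]; decide +kernel
theorem n_ne : g * (z * j) ≠ z := by
  intro h
  have h2 := congrArg toT h
  simp only [toT_mul, toT_g, toT_j, toT_z] at h2
  exact absurd h2 (by decide +kernel)
theorem n_inv : g * (z * j) * (j * gi) = 1 := by
  apply toT_inj
  simp only [toT_mul, toT_g, toT_j, toT_z, toT_gi, toT_one]; decide +kernel
theorem n_inv' : j * gi * (g * (z * j)) = 1 := by
  apply toT_inj
  simp only [toT_mul, toT_g, toT_j, toT_z, toT_gi, toT_one]; decide +kernel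
theorem m_cube : z * j * g * (z * j * g) * (z * j * g) = z := by
  apply toT_inj
  simp only [toT_mul, toT_g, toT_j, toT_z]; decide +kernel
theorem m_ne : z * j * g ≠ z := by
  intro h
  have h2 := congrArg toT h
  simp only [toT_mul, toT_g, toT_j, toT_z] at h2
  exact absurd h2 (by decide +kernel)
theorem m_inv : z * j * g * (gi * j) = 1 := by
  apply toT_inj
  simp only [toT_mul, toT_g, toT_j, toT_z, toT_gi, toT_one]; decide +kernel
theorem m_inv' : gi * j * (z * j * g) = 1 := by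
  apply toT_inj
  simp only [toT_mul, toT_g, toT_j, toT_z, toT_gi, toT_one]; decide +kernel

/-- The generators. -/
def gens : ℕ → Gam
  | 0 => i
  | 1 => j
  | _ => g

/-- The generators, as tuples. -/
def tgens : ℕ → Tup
  | 0 => ti
  | 1 => tj
  | _ => tg

theorem toT_gens (n : ℕ) : toT (gens n) = tgens n := by
  match n with
  | 0 => exact toT_i
  | 1 => exact toT_j
  | (m + 2) => exact toT_g

/-- Word evaluation. -/
def ev : List ℕ → Gam
  | [] => 1
  | a :: w => gens a * ev w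

/-- Word evaluation on tuples. -/
def tev : List ℕ → Tup
  | [] => tone
  | a :: w => tm (tgens a) (tev w)

theorem toT_ev (w : List ℕ) : toT (ev w) = tev w := by
  induction w with
  | nil => exact toT_one
  | cons a w ih =>
    rw [ev, tev, toT_mul, ih, toT_gens]

/-- Words for all elements. -/
def allWords : List (List ℕ) :=
  [[], [0], [1], [2], [0, 0], [1, 0], [2, 0], [0, 1], [2, 1], [0, 2], [1, 2], [2, 2], [0, 0, 0], [1, 0, 0], [2, 0, 0], [2, 1, 0], [0, 2, 0], [1, 2, 0], [2, 2, 0], [2, 0, 1], [0, 2, 1], [1, 2, 1], [2, 2, 1], [1, 0, 2], [2, 0, 2], [0, 1, 2], [0, 2, 2], [1, 2, 2], [2, 2, 2], [2, 0, 0, 0], [2, 1, 0, 0], [0, 2, 0, 0], [1, 2, 0, 0], [2, 2, 0, 0], [0, 2, 1, 0], [1, 2, 1, 0], [2, 2, 1, 0], [1, 0, 2, 0], [2, 0, 2, 0], [0, 1, 2, 0], [0, 2, 2, 0], [1, 2, 2, 0], [2, 2, 2, 0], [0, 2, 0, 1], [1, 2, 0, 1], [2, 2, 0, 1], [1, 0, 2, 1], [2, 0, 2, 1], [0, 1, 2, 1], [0, 2, 2, 1], [1, 2, 2, 1], [2, 2, 2, 1], [0, 2,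 0, 2], [1, 2, 0, 2], [2, 2, 0, 2], [1, 0, 2, 2], [2, 0, 2, 2], [0, 1, 2, 2], [0, 2, 2, 2], [1, 2, 2, 2], [2, 2, 2, 2], [0, 2, 0, 0, 0], [1, 2, 0, 0, 0], [2, 2, 0, 0, 0], [0, 2, 1, 0, 0], [1, 2, 1, 0, 0], [2, 2, 1, 0, 0], [2, 0, 2, 0, 0], [0, 2, 2, 0, 0], [1, 2, 2, 0, 0], [2, 2, 2, 0, 0], [2, 0, 2, 1, 0], [0, 1, 2, 1, 0], [0, 2, 2, 1, 0], [0, 2, 0, 2, 0], [1, 2, 0, 2, 0], [2, 2, 0, 2, 0], [2, 0, 2, 2, 0], [0, 1, 2, 2, 0], [0, 2, 2, 2, 0], [2, 0, 2, 0, 1], [1, 2, 2, 0, 1], [0, 2, 0, 2, 1], [1, 2, 0, 2, 1], [2, 2, 0, 2, 1], [1, 0, 2, 2, 1], [2, 0, 2, 2, 1], [1, 2, 2, 2, 1], [1, 0, 2, 0, 2], [2, 0, 2, 0, 2], [0, 1, 2, 0, 2], [0, 2, 2, 0, 2], [1, 2, 2, 0, 2], [2, 2, 2, 0, 2], [0, 2, 0, 2, 2], [1, 2, 0, 2, 2], [2, 0, 2, 2, 2], [2, 0, 2, 0, 0, 0], [1, 2, 2, 0, 0, 0], [2, 0, 2, 1, 0, 0], [0, 2, 2, 1, 0, 0], [0, 2, 0, 2, 0, 0], [1, 2, 0, 2, 0, 0], [2, 2, 0, 2, 0, 0], [2, 0, 2, 2, 0, 0], [1, 2, 0, 2, 1, 0], [2, 2, 0, 2, 1, 0], [2,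 0, 2, 2, 1, 0], [1, 0, 2, 0, 2, 0], [2, 0, 2, 0, 2, 0], [2, 0, 2, 2, 2, 0], [0, 2, 0, 2, 0, 1], [1, 0, 2, 0, 2, 1], [0, 1, 2, 0, 2, 1], [1, 2, 2, 0, 2, 1], [2, 2, 2, 0, 2, 1], [2, 0, 2, 2, 0, 2], [0, 2, 2, 2, 0, 2], [0, 1, 2, 0, 2, 2], [0, 2, 0, 2, 0, 0, 0]]

theorem words_cover : ∀ t : Tup, good t → ∃ w ∈ allWords, tev w = t := by decide +kernel

theorem exists_word (x : Gam) : ∃ w : List ℕ, ev w = x := by
  obtain ⟨w, -, hw⟩ := words_cover (toT x) (good_toT x)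
  exact ⟨w, toT_inj (by rw [toT_ev, hw])⟩

/-- The elements with square `z`. -/
def l30 : List Tup :=
  [(0, 1, 4, 0), (0, 2, 2, 0), (0, 3, 3, 0), (0, 4, 1, 0), (1, 1, 3, 4), (1, 2, 4, 4), (1, 3, 1, 4), (1, 4, 2, 4), (2, 0, 0, 3), (2, 0, 1, 3), (2, 0, 2, 3), (2, 0, 3, 3), (2, 0, 4, 3), (2, 1, 0, 3), (2, 2, 0, 3), (2, 3, 0, 3), (2, 4, 0, 3), (3, 0, 0, 2), (3, 0, 1, 2), (3, 0, 2, 2), (3, 0, 3, 2), (3, 0, 4, 2), (3, 1, 0, 2), (3, 2, 0, 2), (3, 3, 0, 2), (3, 4, 0, 2), (4, 1, 3, 1), (4, 2, 4, 1), (4, 3, 1, 1), (4, 4, 2, 1)]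

theorem mem_l30 : ∀ t : Tup, good t → tm t t = tz → t ∈ l30 := by decide +kernel

theorem pair_tup : ∀ x ∈ l30, ∀ y ∈ l30, tm x y = tm tz (tm y x) →
    ∃ s : Tup, good s ∧ ((tm s x = tm ti s ∧ tm s y = tm tj s) ∨
      (tm s x = tm tj s ∧ tm s y = tm ti s)) := by decide +kernel

/-- Every quaternion pair is conjugate to `(i, j)` or `(j, i)`. -/
theorem pair_conj (x y : Gam) (hx : x * x = z) (hy : y * y = z) (hxy : x * y = z * (y * x)) :
    ∃ s : Gam, (s * x = i * s ∧ s * y = j * s) ∨ (s * x = j * s ∧ s * y = i * s) := by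
  have h1 : toT x ∈ l30 := mem_l30 _ (good_toT x) (by rw [← toT_mul, hx, toT_z])
  have h2 : toT y ∈ l30 := mem_l30 _ (good_toT y) (by rw [← toT_mul, hy, toT_z])
  have h3 : tm (toT x) (toT y) = tm tz (tm (toT y) (toT x)) := by
    rw [← toT_mul, hxy, toT_mul, toT_mul, toT_z]
  obtain ⟨s, hs0, h⟩ := pair_tup _ h1 _ h2 h3
  have hs : s.1 * s.2.2.2 - s.2.1 * s.2.2.1 = 1 := hs0
  refine ⟨ofT s hs, ?_⟩
  rcases h with ⟨h4, h5⟩ | ⟨h4, h5⟩
  · left
    constructor
    · apply toT_inj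
      rw [toT_mul, toT_mul, toT_ofT, toT_i, h4]
    · apply toT_inj
      rw [toT_mul, toT_mul, toT_ofT, toT_j, h5]
  · right
    constructor
    · apply toT_inj
      rw [toT_mul, toT_mul, toT_ofT, toT_j, h4]
    · apply toT_inj
      rw [toT_mul, toT_mul, toT_ofT, toT_i, h5]

set_option synthInstance.maxSize 4000 in
set_option synthInstance.maxHeartbeats 0 in
theorem cent_tup : ∀ t : Tup, good t → tm t ti = tm ti t → tm t tj = tm tj t →
    t = tone ∨ t = tz := by decide +kernel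

/-- The centralizer of `i, j` is `{1, z}`. -/
theorem cent_ij (x : Gam) (h1 : x * i = i * x) (h2 : x * j = j * x) : x = 1 ∨ x = z := by
  have h3 := cent_tup (toT x) (good_toT x)
    (by have := congrArg toT h1; simpa only [toT_mul, toT_i] using this)
    (by have := congrArg toT h2; simpa only [toT_mul, toT_j] using this)
  rcases h3 with h3 | h3
  · left; apply toT_inj; rw [h3, toT_one]; rfl
  · right; apply toT_inj; rw [h3, toT_z]

set_option synthInstance.maxSize 4000 in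
set_option synthInstance.maxHeartbeats 0 in
theorem sol_tup : ∀ t : Tup, good t → tm tk (tm t (tm tz (tm tk t))) = tone →
    tm (tm t (tm tz ti)) (tm (tm t (tm tz ti)) (tm t (tm tz ti))) = tz →
    tm t (tm t (tm t (tm t t))) = tz → t ≠ tz →
    ∃ s : Tup, good s ∧ tm s (tm tg (tm tg tg)) = tm t s := by decide +kernel

/-- The element `x` is conjugate to `g ^ 3`. -/
theorem conj_g3 (x : Gam) (h1 : k * (x * (z * (k * x))) = 1)
    (h2 : (x * (z * i)) * ((x * (z * i)) * (x * (z * i))) = z)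
    (h3 : x * (x * (x * (x * x))) = z) (h4 : x ≠ z) :
    ∃ s : Gam, s * (g * (g * g)) = x * s := by
  obtain ⟨s, hs0, h⟩ := sol_tup (toT x) (good_toT x)
    (by
      have := congrArg toT h1
      simp only [toT_mul, toT_k, toT_z] at this
      rw [this]
      exact toT_one)
    (by
      have := congrArg toT h2
      simpa only [toT_mul, toT_i, toT_z] using this)
    (by
      have := congrArg toT h3
      simpa only [toT_mul, toT_z] using this)
    (by
      intro h5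
      exact h4 (toT_inj (by rw [h5, toT_z])))
  have hs : s.1 * s.2.2.2 - s.2.1 * s.2.2.1 = 1 := hs0
  refine ⟨ofT s hs, ?_⟩
  apply toT_inj
  simp only [toT_mul, toT_ofT, toT_g]
  exact h

theorem z_tup : ∀ t : Tup, tm tz t = tm t tz := by decide +kernel

/-- `z` is central. -/
theorem z_comm (x : Gam) : z * x = x * z := by
  apply toT_inj
  rw [toT_mul, toT_mul, toT_z]
  exact z_tup _

theorem k_mul_k : k * k = z := rel2 (by rw [toT_k, toT_z]; decide +kernel)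

end Cfsg.Agent.Lib.AmitsurSL85
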