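import Mathlib
import Cfsg.Agent.Lib.AmitsurSL85
import Cfsg.Agent.Lib.AmitsurAlg85

/-!
The core of the Amitsur theorem: in a division ring of characteristic zero, a copy of `SL(2,5)`
has no central element of prime order at least 7 (given the number theoretic input), and
no index two overgroup.
-/

set_option autoImplicit false

namespace Cfsg.Agent.Lib.AmitsurCore85

open Cfsg.Agent.Lib.AmitsurSL85 Cfsg.Agent.Lib.AmitsurAlg85 Polynomial

variable {D : Type*} [DivisionRing D]

/-- The elements of the division ring given by `f`. -/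
def F (f : Gam →* Dˣ) (x : Gam) : D := ((f x : Dˣ) : D)

variable (f : Gam →* Dˣ)

theorem F_mul (x y : Gam) : F f (x * y) = F f x * F f y := by
  simp [F]

theorem F_one : F f 1 = 1 := by
  simp [F]

theorem F_ne_zero (x : Gam) : F f x ≠ 0 := (f x).ne_zero

theorem F_mul_inv (x : Gam) : F f x * F f x⁻¹ = 1 := by
  rw [← F_mul, mul_inv_cancel, F_one]

variable {f}

theorem F_inj (hf : Function.Injective f) {x y : Gam} (h : F f x = F f y) : x = y :=
  hf (Units.ext h)

theorem F_z (hf : Function.Injective f) : F f z = -1 := by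
  have h1 : F f z * F f z = 1 * 1 := by
    rw [← F_mul, z_mul_z, F_one, one_mul]
  rcases eq_or_eq_neg_of_sq ((Commute.one_right _)) h1 with h | h
  · exact absurd (F_inj hf (h.trans (F_one f).symm)) z_ne_one
  · exact h

theorem hII (hf : Function.Injective f) : F f i * F f i = -1 := by
  rw [← F_mul, i_mul_i, F_z hf]

theorem hJJ (hf : Function.Injective f) : F f j * F f j = -1 := by
  rw [← F_mul, j_mul_j, F_z hf]

theorem hIJ : F f i * F f j = F f k := by
  rw [← F_mul, i_mul_j]

theorem hJI (hf : Function.Injective f) : F f j * F f i = -F f k := by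
  rw [← F_mul, j_mul_i, F_mul, F_z hf]; noncomm_ring

/-- The golden element. -/
def phi (f : Gam →* Dˣ) : D := F f g + F f gi

theorem G_Gi : F f g * F f gi = 1 := by
  rw [← F_mul, g_mul_gi, F_one]

theorem Gi_G : F f gi * F f g = 1 := by
  rw [← F_mul, gi_mul_g, F_one]

theorem phi_golden (hf : Function.Injective f) : phi f * phi f = phi f + 1 := by
  apply golden G_Gi Gi_G
  · rw [← F_mul, ← F_mul, ← F_mul, ← F_mul, g5, F_z hf]
  · intro h
    exact g_ne_z (F_inj hf (h.trans (F_z hf).symm))

theorem phi_comm_G : Commute (phi f) (F f g) := by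
  unfold phi
  show (F f g + F f gi) * F f g = F f g * (F f g + F f gi)
  rw [add_mul, mul_add, G_Gi, Gi_G]

theorem phi_comm_J (hf : Function.Injective f) : Commute (phi f) (F f j) := by
  have h1 : F f (g * (z * j)) + F f (j * gi) = 1 := by
    apply trace_one (m := F f (j * gi))
    · rw [← F_mul, n_inv, F_one]
    · rw [← F_mul, ← F_mul, n_cube, F_z hf]
    · intro h
      exact n_ne (F_inj hf (h.trans (F_z hf).symm))
  have h2 : F f (z * j * g) + F f (gi * j) = 1 := by
    apply trace_one (m := F f (gi * j))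
    · rw [← F_mul, m_inv, F_one]
    · rw [← F_mul, ← F_mul, m_cube, F_z hf]
    · intro h
      exact m_ne (F_inj hf (h.trans (F_z hf).symm))
  simp only [F_mul, F_z hf] at h1 h2
  unfold phi
  show (F f g + F f gi) * F f j = F f j * (F f g + F f gi)
  have e1 : F f j * F f gi = 1 + F f g * F f j := by
    have : F f j * F f gi = (F f g * (-1 * F f j) + F f j * F f gi) + F f g * F f j := by
      noncomm_ring
    rw [this, h1]
  have e2 : F f gi * F f j = 1 + F f j * F f g := by
    have : F f gi * F f j = (-1 * F f j * F f g + F f gi * F f j) + F f j * F f g := by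
      noncomm_ring
    rw [this, h2]
  rw [add_mul, mul_add, e1, e2]
  abel

theorem K_G : F f k * F f g = F f gi * F f k := by
  rw [← F_mul, k_g, F_mul]

theorem K_Gi : F f k * F f gi = F f g * F f k := by
  have h := K_G (f := f)
  have : F f g * (F f k * F f g) * F f gi = F f g * (F f gi * F f k) * F f gi := by rw [h]
  have e1 : F f g * (F f k * F f g) * F f gi = F f g * F f k * (F f g * F f gi) := by noncomm_ring
  have e2 : F f g * (F f gi * F f k) * F f gi = (F f g * F f gi) * (F f k * F f gi) := by noncomm_ring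
  rw [e1, e2, G_Gi, mul_one, one_mul] at this
  exact this.symm

theorem phi_comm_K : Commute (phi f) (F f k) := by
  unfold phi
  show (F f g + F f gi) * F f k = F f k * (F f g + F f gi)
  rw [add_mul, mul_add, K_G, K_Gi]
  abel

theorem F_i_eq (hf : Function.Injective f) : F f i = F f j * F f k := by
  rw [← hIJ, ← mul_assoc, hJI hf, ← hIJ]
  have : -(F f i * F f j) * F f j = -(F f i * (F f j * F f j)) := by noncomm_ring
  rw [this, hJJ hf]; noncomm_ring

theorem phi_comm_I (hf : Function.Injective f) : Commute (phi f) (F f i) := by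
  rw [F_i_eq hf]
  exact (phi_comm_J hf).mul_right phi_comm_K

theorem phi_comm_ev (hf : Function.Injective f) (w : List ℕ) : Commute (phi f) (F f (ev w)) := by
  induction w with
  | nil => rw [ev, F_one]; exact Commute.one_right _
  | cons a w ih =>
    rw [ev, F_mul]
    refine Commute.mul_right ?_ ih
    match a with
    | 0 => exact phi_comm_I hf
    | 1 => exact phi_comm_J hf
    | (m + 2) => exact phi_comm_G

/-- The golden element is central in the image. -/
theorem phi_comm (hf : Function.Injective f) (x : Gam) : Commute (phi f) (F f x) := by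
  obtain ⟨w, rfl⟩ := exists_word x
  exact phi_comm_ev hf w

theorem xi_sq (hf : Function.Injective f) :
    (2 * phi f - 1) * (2 * phi f - 1) = 5 := by
  have h2c : Commute (2 : D) (phi f) := by
    have := Nat.cast_commute 2 (phi f)
    simpa using this
  have e : (2 * phi f - 1) * (2 * phi f - 1) = 2 * (phi f * 2) * phi f - 2 * (2 * phi f) + 1 := by
    noncomm_ring
  rw [e, h2c.symm.eq, mul_assoc 2 (2 * phi f) (phi f), mul_assoc 2 (phi f) (phi f), phi_golden hf]
  have h5 : (5 : D) = 2 * (2 * 1) + 1 := by norm_num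
  rw [h5]; noncomm_ring

theorem xi_comm (hf : Function.Injective f) (x : Gam) : Commute (2 * phi f - 1) (F f x) := by
  have h2c : Commute (2 : D) (F f x) := by
    have := Nat.cast_commute 2 (F f x)
    simpa using this
  exact (h2c.mul_left (phi_comm hf x)).sub_left (Commute.one_left _)

section charzero

variable [CharZero D]

theorem comm_aeval {w r : D} (h : Commute w r) (p : ℚ[X]) : Commute w (aeval r p) := by
  induction p using Polynomial.induction_on' with
  | add p q hp hq =>
    rw [map_add]
    exact hp.add_right hq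
  | monomial n a =>
    rw [aeval_monomial]
    exact Commute.mul_right (show Commute w (algebraMap ℚ D a) from (Algebra.commutes a w).symm)
      (h.pow_right n)

/-- Excluding a central element. -/
theorem core_a (hf : Function.Injective f) {r ri τ : D} (hr : ∀ x, Commute r (F f x))
    (hτ : ∀ x, Commute τ (F f x)) (hτr : Commute τ r) (hττ : τ * τ = r) (hrri : r * ri = 1)
    (l : ℕ) (Y Z : ℚ[X]) (hYZ : 4 * ∑ n ∈ Finset.range l, (X : ℚ[X]) ^ n = Y ^ 2 + C (l : ℚ) * Z ^ 2)
    (hS : ∑ n ∈ Finset.range l, r ^ n = -ri) (t s : ℤ) (hts : t ^ 2 + 5 * s ^ 2 = 2 * (l : ℤ)) :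
    False := by
  set y₀ : D := aeval r Y with hy₀
  set z₀ : D := aeval r Z with hz₀
  have hid : 4 * (-ri) = y₀ * y₀ + l * (z₀ * z₀) := by
    have h1 := congrArg (aeval r) hYZ
    rw [map_mul, map_add, map_mul, map_pow, map_pow, map_sum] at h1
    simp only [map_pow, aeval_X, aeval_C] at h1
    rw [hS] at h1
    have h4 : aeval r (4 : ℚ[X]) = (4 : D) := by
      simpa using map_ofNat (aeval r) 4
    rw [h4] at h1
    rw [h1, sq, sq]
    congr 1
    congr 1
    simp
  set I := F f i
  set J := F f j
  have hrφ : Commute r (phi f) := (hr g).add_right (hr gi)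
  have hrξ : Commute r (2 * phi f - 1) := by
    have h2c : Commute r (2 : D) := by
      have := Nat.cast_commute 2 r
      simpa using this.symm
    exact (h2c.mul_right hrφ).sub_right (Commute.one_right _)
  have hτφ : Commute τ (phi f) := (hτ g).add_right (hτ gi)
  have hτξ : Commute τ (2 * phi f - 1) := by
    have h2c : Commute τ (2 : D) := by
      have := Nat.cast_commute 2 τ
      simpa using this.symm
    exact (h2c.mul_right hτφ).sub_right (Commute.one_right _)
  set ξ : D := 2 * phi f - 1 with hξ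
  have hξξ : ξ * ξ = 5 := xi_sq hf
  have hξI : Commute ξ I := xi_comm hf i
  have hξJ : Commute ξ J := xi_comm hf j
  have hy₀I : Commute y₀ I := (comm_aeval (hr i).symm Y).symm
  have hy₀J : Commute y₀ J := (comm_aeval (hr j).symm Y).symm
  have hz₀I : Commute z₀ I := (comm_aeval (hr i).symm Z).symm
  have hz₀J : Commute z₀ J := (comm_aeval (hr j).symm Z).symm
  have hy₀z₀ : Commute y₀ z₀ := by
    show y₀ * z₀ = z₀ * y₀
    rw [hy₀, hz₀, ← map_mul, ← map_mul, mul_comm]
  have hτy₀ : Commute τ y₀ := comm_aeval hτr Y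
  have hτz₀ : Commute τ z₀ := comm_aeval hτr Z
  have hξy₀ : Commute ξ y₀ := comm_aeval hrξ.symm Y
  have hξz₀ : Commute ξ z₀ := comm_aeval hrξ.symm Z
  set v : D := τ * y₀ with hv
  set w : D := τ * z₀ with hw
  have hvI : Commute v I := (hτ i).mul_left hy₀I
  have hvJ : Commute v J := (hτ j).mul_left hy₀J
  have hwI : Commute w I := (hτ i).mul_left hz₀I
  have hwJ : Commute w J := (hτ j).mul_left hz₀J
  have hvw : Commute v w :=
    ((Commute.refl τ).mul_right hτz₀).mul_left (hτy₀.symm.mul_right hy₀z₀)
  have hξv : Commute ξ v := hτξ.symm.mul_right hξy₀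
  have hξw : Commute ξ w := hτξ.symm.mul_right hξz₀
  have hvv : v * v = r * (y₀ * y₀) := by
    rw [← hττ, hv]
    calc τ * y₀ * (τ * y₀) = τ * (y₀ * τ) * y₀ := by noncomm_ring
      _ = τ * τ * (y₀ * y₀) := by rw [hτy₀.symm.eq]; noncomm_ring
  have hww : w * w = r * (z₀ * z₀) := by
    rw [← hττ, hw]
    calc τ * z₀ * (τ * z₀) = τ * (z₀ * τ) * z₀ := by noncomm_ring
      _ = τ * τ * (z₀ * z₀) := by rw [hτz₀.symm.eq]; noncomm_ring
  set A : D := (t : D) - s * ξ with hA
  set B : D := (t : D) + s * ξ with hB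
  have hsξ : Commute (s : D) ξ := Int.cast_commute s ξ
  have hAB : A * A + B * B = 4 * l := by
    have e : A * A + B * B = 2 * ((t : D) * t) + 2 * (s * ξ * (s * ξ)) := by
      rw [hA, hB]; noncomm_ring
    have e2 : (s : D) * ξ * (s * ξ) = 5 * (s * s) := by
      have hc5 : Commute (5 : D) ((s : D) * s) := by
        have := Nat.cast_commute 5 ((s : D) * s)
        simpa using this
      calc (s : D) * ξ * (s * ξ) = s * (ξ * s) * ξ := by noncomm_ring
        _ = s * s * (ξ * ξ) := by rw [hsξ.symm.eq]; noncomm_ring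
        _ = 5 * (s * s) := by rw [hξξ, hc5.symm.eq]
    rw [e, e2]
    have h2 : ((t : D)) ^ 2 + 5 * (s : D) ^ 2 = 2 * (l : D) := by
      have := congrArg (Int.cast : ℤ → D) hts
      push_cast at this
      exact this
    have h3 : (2 : D) * ((t : D) * t) + 2 * (5 * (s * s)) = 2 * ((t : D) ^ 2 + 5 * (s : D) ^ 2) := by
      rw [sq, sq]; noncomm_ring
    rw [h3, h2, ← mul_assoc]
    norm_num
  have hAc : ∀ {b : D}, Commute ξ b → Commute A b := fun {b} h =>
    (Int.cast_commute t b).sub_left ((Int.cast_commute s b).mul_left h)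
  have hBc : ∀ {b : D}, Commute ξ b → Commute B b := fun {b} h =>
    (Int.cast_commute t b).add_left ((Int.cast_commute s b).mul_left h)
  have h2c : ∀ a : D, Commute (2 : D) a := fun a => by
    have := Nat.cast_commute 2 a
    simpa using this
  set P : D := 2 * v with hP
  set Q : D := A * w with hQ
  set R : D := B * w with hR
  have hAA : Commute A A := Commute.refl A
  have hAw : Commute A w := hAc hξw
  have hBw : Commute B w := hBc hξw
  have hAv : Commute A v := hAc hξv
  have hBv : Commute B v := hBc hξv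
  have hξξ' : Commute ξ ξ := Commute.refl ξ
  have hAB' : Commute A B := by
    have h1 : Commute ξ B :=
      (Int.cast_commute t ξ).symm.add_right (hsξ.symm.mul_right hξξ')
    exact hAc h1
  have hPI : Commute P I := (h2c I).mul_left hvI
  have hPJ : Commute P J := (h2c J).mul_left hvJ
  have hQI : Commute Q I := (hAc hξI).mul_left hwI
  have hQJ : Commute Q J := (hAc hξJ).mul_left hwJ
  have hRI : Commute R I := (hBc hξI).mul_left hwI
  have hRJ : Commute R J := (hBc hξJ).mul_left hwJ
  have hPQ : Commute P Q := (h2c Q).mul_left (hAv.symm.mul_right hvw)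
  have hPR : Commute P R := (h2c R).mul_left (hBv.symm.mul_right hvw)
  have hQR : Commute Q R :=
    (hAB'.mul_right hAw).mul_left (hBw.symm.mul_right (Commute.refl w))
  apply Q1 (hII hf) (hJJ hf) hIJ (hJI hf) hPI hPJ hQI hQJ hRI hRJ hPQ hPR hQR
  have e1 : P * P = 4 * (v * v) := by
    rw [hP]
    calc 2 * v * (2 * v) = 2 * (v * 2) * v := by noncomm_ring
      _ = 2 * 2 * (v * v) := by rw [(h2c v).symm.eq]; noncomm_ring
      _ = 4 * (v * v) := by norm_num
  have e2 : Q * Q + R * R = (A * A + B * B) * (w * w) := by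
    have eQ : Q * Q = A * A * (w * w) := by
      calc A * w * (A * w) = A * (w * A) * w := by noncomm_ring
        _ = A * A * (w * w) := by rw [hAw.symm.eq]; noncomm_ring
    have eR : R * R = B * B * (w * w) := by
      calc B * w * (B * w) = B * (w * B) * w := by noncomm_ring
        _ = B * B * (w * w) := by rw [hBw.symm.eq]; noncomm_ring
    rw [eQ, eR]
    exact (add_mul _ _ _).symm
  have e3 : P * P + Q * Q + R * R + 16 = P * P + (Q * Q + R * R) + 16 := by abel
  rw [e3, e1, e2, hAB, hvv, hww]
  have hlr : Commute (l : D) r := Nat.cast_commute l r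
  have h4r : Commute (4 : D) r := by
    have := Nat.cast_commute 4 r
    simpa using this
  have e4 : 4 * (r * (y₀ * y₀)) + 4 * (l : D) * (r * (z₀ * z₀))
      = 4 * (r * (y₀ * y₀ + l * (z₀ * z₀))) := by
    have e5 : (l : D) * (r * (z₀ * z₀)) = r * (l * (z₀ * z₀)) := by
      rw [← mul_assoc, hlr.eq, mul_assoc]
    rw [mul_assoc 4, e5]
    noncomm_ring
  rw [e4, ← hid]
  have e6 : r * (4 * -ri) = -4 := by
    rw [← mul_assoc, h4r.symm.eq, mul_assoc, mul_neg, hrri]
    norm_num
  rw [e6]
  norm_num

/-- `Y` cannot induce on the image an automorphism fixing or swapping `i, j`. -/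
theorem core_b (hf : Function.Injective f) {Y Yi : D} (hYYi : Y * Yi = 1)
    (hnorm : ∀ w, ∃ w', Y * F f w = F f w' * Y)
    (hsq : ∃ x, Y * Y = F f x) (hnot : ∀ x, Y ≠ F f x)
    (hcase : (Y * F f i = F f i * Y ∧ Y * F f j = F f j * Y) ∨
      (Y * F f i = F f j * Y ∧ Y * F f j = F f i * Y)) : False := by
  have hY0 : Y ≠ 0 := by
    rintro rfl
    simp at hYYi
  obtain ⟨x, hx⟩ := hsq
  have hxc : x = 1 ∨ x = z := by
    apply cent_ij
    · apply F_inj hf
      rw [F_mul, F_mul, ← hx]
      rcases hcase with ⟨h1, h2⟩ | ⟨h1, h2⟩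
      · rw [mul_assoc, h1, ← mul_assoc, h1, mul_assoc]
      · rw [mul_assoc, h1, ← mul_assoc, h2, mul_assoc]
    · apply F_inj hf
      rw [F_mul, F_mul, ← hx]
      rcases hcase with ⟨h1, h2⟩ | ⟨h1, h2⟩
      · rw [mul_assoc, h2, ← mul_assoc, h2, mul_assoc]
      · rw [mul_assoc, h2, ← mul_assoc, h1, mul_assoc]
  have hne1 : x ≠ 1 := by
    rintro rfl
    rw [F_one] at hx
    rcases eq_or_eq_neg_of_sq (Commute.one_right Y) (by rw [hx, one_mul]) with h | h
    · exact hnot 1 (h.trans (F_one f).symm)
    · exact hnot z (h.trans (F_z hf).symm)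
  have hxz : x = z := hxc.resolve_left hne1
  subst hxz
  rw [F_z hf] at hx
  rcases hcase with ⟨h1, h2⟩ | ⟨h1, h2⟩
  · rcases eq_or_eq_neg_of_sq (a := Y) (b := F f i) h1 (by rw [hx, hII hf]) with h | h
    · exact hnot i h
    · apply hnot (z * i)
      rw [h, F_mul, F_z hf]; noncomm_ring
  -- the swapping case
  choose α hα using hnorm
  have hαmul : ∀ a b, α (a * b) = α a * α b := by
    intro a b
    apply F_inj hf
    apply mul_right_cancel₀ hY0
    rw [← hα, F_mul, F_mul, ← mul_assoc, hα, mul_assoc, hα, mul_assoc]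
  have hαi : α i = j := by
    apply F_inj hf
    apply mul_right_cancel₀ hY0
    rw [← hα]; exact h1
  have hαj : α j = i := by
    apply F_inj hf
    apply mul_right_cancel₀ hY0
    rw [← hα]; exact h2
  have hαz : α z = z := by
    have := hαmul i i
    rw [i_mul_i, hαi, j_mul_j] at this
    exact this
  have hα1 : α 1 = 1 := by
    apply F_inj hf
    apply mul_right_cancel₀ hY0
    rw [← hα, F_one, mul_one, one_mul]
  set x₀ := α g with hx₀
  set xi := α gi with hxi
  have hxxi : x₀ * xi = 1 := by rw [hx₀, hxi, ← hαmul, g_mul_gi, hα1]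
  have hxix : xi * x₀ = 1 := by rw [hx₀, hxi, ← hαmul, gi_mul_g, hα1]
  have hk : α k = z * k := by
    have := hαmul i j
    rw [i_mul_j, hαi, hαj, j_mul_i] at this
    exact this
  have hkx : k * x₀ = xi * k := by
    have e := congrArg α k_g
    rw [hαmul, hαmul, hk] at e
    apply mul_left_cancel (a := z)
    rw [← mul_assoc, e, ← mul_assoc, ← mul_assoc, z_comm xi]
  have c1 : k * (x₀ * (z * (k * x₀))) = 1 := by
    have e1 : k * (x₀ * (z * (k * x₀))) = (k * x₀) * (z * k) * x₀ := by group
    rw [e1, hkx, z_comm k]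
    have e2 : xi * k * (k * z) * x₀ = xi * (k * k) * z * x₀ := by group
    rw [e2, k_mul_k, mul_assoc xi z z, z_mul_z, mul_one]
    exact hxix
  have c2 : (x₀ * (z * i)) * ((x₀ * (z * i)) * (x₀ * (z * i))) = z := by
    have e := congrArg α n_cube
    simp only [hαmul, hαz, hαj] at e
    rw [← mul_assoc]
    exact e
  have c3 : x₀ * (x₀ * (x₀ * (x₀ * x₀))) = z := by
    have e := congrArg α g5
    simp only [hαmul, hαz] at e
    simpa only [mul_assoc] using e
  have c4 : x₀ ≠ z := by
    intro h
    apply g_ne_z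
    apply F_inj hf
    apply mul_left_cancel₀ hY0
    rw [hα g, ← hx₀, h, hα z, hαz]
  obtain ⟨s, hs⟩ := conj_g3 x₀ c1 c2 c3 c4
  have hgi : gi = g⁻¹ := eq_inv_of_mul_eq_one_left gi_mul_g
  have hxii : xi = x₀⁻¹ := eq_inv_of_mul_eq_one_left hxix
  have hsi : s * (gi * (gi * gi)) = xi * s := by
    rw [hgi, hxii]
    have hs2 : x₀⁻¹ * s = s * (g * (g * g))⁻¹ := by
      rw [inv_mul_eq_iff_eq_mul, ← mul_assoc, ← hs]
      group
    rw [hs2]
    group
  have hT : F f x₀ + F f xi = 1 - phi f := by
    have e1 := congrArg (F f) hs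
    have e2 := congrArg (F f) hsi
    simp only [F_mul] at e1 e2
    have e3 : F f g * (F f g * F f g) + F f gi * (F f gi * F f gi) = 1 - phi f :=
      cube_trace G_Gi Gi_G (phi_golden hf)
    apply mul_right_cancel₀ (F_ne_zero f s)
    rw [add_mul, ← e1, ← e2, ← mul_add, e3]
    exact ((Commute.one_left _).sub_left (phi_comm hf s)).symm.eq
  have hYφ : Y * phi f = (1 - phi f) * Y := by
    rw [← hT, add_mul, hx₀, hxi, ← hα, ← hα]
    unfold phi
    rw [mul_add]
  set I := F f i with hI
  set J := F f j with hJ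
  set K := F f k with hK
  have hII' : I * I = -1 := hII hf
  have hJJ' : J * J = -1 := hJJ hf
  have hIJ' : I * J = K := hIJ
  have hJI' : J * I = -K := hJI hf
  set e : D := I + J with he
  have hYe : Y * e = e * Y := by
    rw [he, mul_add, add_mul, h1, h2]; abel
  have hee : e * e = -2 := by
    have : e * e = I * I + I * J + (J * I + J * J) := by rw [he]; noncomm_ring
    rw [this, hII', hJJ', hIJ', hJI']
    have h22 : (-2 : D) = -1 + -1 := by norm_num
    rw [h22]; abel
  set a : D := -(Y * e) with ha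
  have haa : a * a = 2 := by
    have : a * a = Y * (e * Y) * e := by rw [ha]; noncomm_ring
    rw [this, ← hYe]
    have e2 : Y * (Y * e) * e = (Y * Y) * (e * e) := by noncomm_ring
    rw [e2, hx, hee]
    norm_num
  have heI : e * I = J * e := by
    rw [he, add_mul, mul_add, hII', hJJ', hJI']; abel
  have heJ : e * J = I * e := by
    rw [he, add_mul, mul_add, hII', hJJ', hIJ']; abel
  have haI : Commute a I := by
    show a * I = I * a
    have e1 : a * I = -(Y * (e * I)) := by rw [ha]; noncomm_ring
    have e2 : I * a = -((I * Y) * e) := by rw [ha]; noncomm_ring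
    rw [e1, e2, heI, ← h2]
    noncomm_ring
  have haJ : Commute a J := by
    show a * J = J * a
    have e1 : a * J = -(Y * (e * J)) := by rw [ha]; noncomm_ring
    have e2 : J * a = -((J * Y) * e) := by rw [ha]; noncomm_ring
    rw [e1, e2, heJ, ← h1]
    noncomm_ring
  have hφe : Commute (phi f) e := (phi_comm_I hf).add_right (phi_comm_J hf)
  have haφ : a * phi f = (1 - phi f) * a := by
    have e1 : a * phi f = -(Y * (e * phi f)) := by rw [ha]; noncomm_ring
    rw [e1, hφe.symm.eq]
    have e2 : Y * (phi f * e) = (Y * phi f) * e := by noncomm_ring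
    rw [e2, hYφ, ha]
    noncomm_ring
  have h2a : Commute (2 : D) a := by
    have := Nat.cast_commute 2 a
    simpa using this
  have hax : a * (2 * phi f - 1) = -((2 * phi f - 1) * a) := by
    have e1 : a * (2 * phi f - 1) = (a * 2) * phi f - a := by noncomm_ring
    rw [e1, h2a.symm.eq, mul_assoc, haφ]
    noncomm_ring
  exact Q2 hII' hJJ' hIJ' hJI' haI haJ (xi_comm hf i) (xi_comm hf j) haa (xi_sq hf) hax

/-- An element normalizing the image, with square in the image, lies in the image. -/
theorem no_index_two (hf : Function.Injective f) {Y Yi : D} (hYYi : Y * Yi = 1)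
    (hnorm : ∀ w, ∃ w', Y * F f w = F f w' * Y)
    (hsq : ∃ x, Y * Y = F f x) (hnot : ∀ x, Y ≠ F f x) : False := by
  have hY0 : Y ≠ 0 := by
    rintro rfl
    simp at hYYi
  obtain ⟨x, hx⟩ := hsq
  choose α hα using hnorm
  have hαmul : ∀ a b, α (a * b) = α a * α b := by
    intro a b
    apply F_inj hf
    apply mul_right_cancel₀ hY0
    rw [← hα, F_mul, F_mul, ← mul_assoc, hα, mul_assoc, hα, mul_assoc]
  have hαz : α z = z := by
    apply F_inj hf
    apply mul_right_cancel₀ hY0
    rw [← hα, F_z hf]
    noncomm_ring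
  have h1 : α i * α i = z := by rw [← hαmul, i_mul_i, hαz]
  have h2 : α j * α j = z := by rw [← hαmul, j_mul_j, hαz]
  have h3 : α i * α j = z * (α j * α i) := by
    rw [← hαmul, ← hαmul, i_mul_j, j_mul_i, hαmul z k, hαz, ← mul_assoc, z_mul_z, one_mul]
  obtain ⟨s, hs⟩ := pair_conj _ _ h1 h2 h3
  have key : ∀ w w' : Gam, s * α w = w' * s → (F f s * Y) * F f w = F f w' * (F f s * Y) := by
    intro w w' h
    rw [mul_assoc, hα, ← mul_assoc, ← F_mul, h, F_mul, mul_assoc]
  refine core_b (Y := F f s * Y) (Yi := Yi * F f s⁻¹) hf ?_ ?_ ?_ ?_ ?_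
  · have : F f s * Y * (Yi * F f s⁻¹) = F f s * (Y * Yi) * F f s⁻¹ := by noncomm_ring
    rw [this, hYYi, mul_one, F_mul_inv]
  · intro w
    refine ⟨s * α w * s⁻¹, key _ _ ?_⟩
    group
  · refine ⟨s * α s * x, ?_⟩
    have : F f s * Y * (F f s * Y) = F f s * (Y * F f s) * Y := by noncomm_ring
    rw [this, hα, F_mul, F_mul, ← hx]
    noncomm_ring
  · intro x' h
    apply hnot (s⁻¹ * x')
    rw [F_mul, ← h, ← mul_assoc, ← F_mul, inv_mul_cancel, F_one, one_mul]
  · rcases hs with ⟨h4, h5⟩ | ⟨h4, h5⟩
    · left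
      exact ⟨key _ _ h4, key _ _ h5⟩
    · right
      exact ⟨key _ _ h4, key _ _ h5⟩

end charzero

end Cfsg.Agent.Lib.AmitsurCore85
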