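import Mathlib

/-!
# Gauss's identity for the cyclotomic polynomial of a prime `l ≡ 3 mod 4`

`4 * Φ_l(X) = Y(X)^2 + l * Z(X)^2` with `Y, Z ∈ ℚ[X]`.
-/

open Polynomial

namespace Cfsg.Agent.Lib.AmitsurGauss66

section generic

variable {l : ℕ} [hl : Fact l.Prime] {K : Type*} [Field K]

/-- Product of the linear factors over the residues of quadratic character `c`. -/
noncomputable def PP (ψ : ZMod l → K) (c : ℤ) : K[X] :=
  ∏ b ∈ (Finset.univ : Finset (ZMod l)).filter (fun b => quadraticChar (ZMod l) b = c),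
    (X - C (ψ b))

/-- The quadratic character of `ZMod l` with values in `K`. -/
noncomputable def chiK (l : ℕ) [Fact l.Prime] (K : Type*) [Field K] : MulChar (ZMod l) K :=
  (quadraticChar (ZMod l)).ringHomComp (Int.castRingHom K)

theorem chiK_apply (a : ZMod l) : chiK l K a = ((quadraticChar (ZMod l) a : ℤ) : K) := rfl

theorem prod_all {ζ : K} (hζ : IsPrimitiveRoot ζ l) :
    ∏ b : ZMod l, (X - C (AddChar.zmodChar l hζ.pow_eq_one b)) = (X ^ l - 1 : K[X]) := by
  classical
  have hpos : 0 < l := hl.out.pos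
  rw [X_pow_sub_one_eq_prod hpos hζ]
  have hinj : Function.Injective (fun b : ZMod l => AddChar.zmodChar l hζ.pow_eq_one b) := by
    intro a b hab
    simp only [AddChar.zmodChar_apply] at hab
    exact ZMod.val_injective l (hζ.pow_inj (ZMod.val_lt a) (ZMod.val_lt b) hab)
  have himg : nthRootsFinset l (1 : K) =
      (Finset.univ : Finset (ZMod l)).image (fun b => AddChar.zmodChar l hζ.pow_eq_one b) := by
    symm
    apply Finset.eq_of_subset_of_card_le
    · intro x hx
      rw [Finset.mem_image] at hx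
      obtain ⟨b, -, rfl⟩ := hx
      rw [mem_nthRootsFinset hpos]
      simp only [AddChar.zmodChar_apply]
      rw [← pow_mul, mul_comm, pow_mul, hζ.pow_eq_one, one_pow]
    · rw [hζ.card_nthRootsFinset, Finset.card_image_of_injective _ hinj, Finset.card_univ,
        ZMod.card]
  rw [himg, Finset.prod_image (fun a _ b _ h => hinj h)]

theorem PP_mul {ζ : K} (hζ : IsPrimitiveRoot ζ l) :
    PP (AddChar.zmodChar l hζ.pow_eq_one) 1 * PP (AddChar.zmodChar l hζ.pow_eq_one) (-1) =
      (∑ i ∈ Finset.range l, X ^ i : K[X]) := by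
  classical
  set ψ := AddChar.zmodChar l hζ.pow_eq_one with hψ
  have hall := prod_all hζ
  rw [← hψ] at hall
  have hsplit : ∏ b : ZMod l, (X - C (ψ b)) =
      (X - 1) * (PP ψ 1 * PP ψ (-1)) := by
    have h1 := Finset.prod_filter_mul_prod_filter_not (Finset.univ : Finset (ZMod l))
      (fun b => quadraticChar (ZMod l) b = 1) (fun b => (X - C (ψ b) : K[X]))
    have h2 := Finset.prod_filter_mul_prod_filter_not
      ((Finset.univ : Finset (ZMod l)).filter (fun b => ¬ quadraticChar (ZMod l) b = 1))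
      (fun b => quadraticChar (ZMod l) b = -1) (fun b => (X - C (ψ b) : K[X]))
    have e1 : ((Finset.univ : Finset (ZMod l)).filter
        (fun b => ¬ quadraticChar (ZMod l) b = 1)).filter
          (fun b => quadraticChar (ZMod l) b = -1) =
        (Finset.univ : Finset (ZMod l)).filter (fun b => quadraticChar (ZMod l) b = -1) := by
      ext b
      simp only [Finset.mem_filter, Finset.mem_univ, true_and]
      constructor
      · exact fun h => h.2
      · intro h
        exact ⟨by rw [h]; decide, h⟩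
    have e2 : ((Finset.univ : Finset (ZMod l)).filter
        (fun b => ¬ quadraticChar (ZMod l) b = 1)).filter
          (fun b => ¬ quadraticChar (ZMod l) b = -1) = {0} := by
      ext b
      simp only [Finset.mem_filter, Finset.mem_univ, true_and, Finset.mem_singleton]
      constructor
      · rintro ⟨h1, h2⟩
        by_contra hb
        rcases quadraticChar_dichotomy hb with h | h
        · exact h1 h
        · exact h2 h
      · rintro rfl
        rw [quadraticChar_zero]
        decide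
    rw [e1, e2, Finset.prod_singleton] at h2
    have hψ0 : ψ 0 = 1 := AddChar.map_zero_eq_one ψ
    rw [hψ0] at h2
    rw [← h1, ← h2]
    simp only [PP, map_one]
    ring
  have hne : (X - 1 : K[X]) ≠ 0 := X_sub_C_ne_zero (1 : K) |> fun h => by simpa using h
  apply mul_left_cancel₀ hne
  rw [← hsplit, hall, mul_comm, geom_sum_mul]

theorem psi_sigma {ζ : K} (hζ : IsPrimitiveRoot ζ l) (σ : K →+* K) {i : ℕ} (hi : ζ ^ i = σ ζ)
    (b : ZMod l) :
    σ (AddChar.zmodChar l hζ.pow_eq_one b) =
      AddChar.zmodChar l hζ.pow_eq_one ((i : ZMod l) * b) := by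
  have h : ((i : ZMod l) * b) = ((i * b.val : ℕ) : ZMod l) := by
    rw [Nat.cast_mul, ZMod.natCast_zmod_val]
  rw [h, AddChar.zmodChar_apply', AddChar.zmodChar_apply, map_pow, ← hi, pow_mul]

theorem PP_map {ζ : K} (hζ : IsPrimitiveRoot ζ l) (σ : K →+* K) {i : ℕ} (hi : ζ ^ i = σ ζ)
    (ha : (i : ZMod l) ≠ 0) (c : ℤ) :
    (PP (AddChar.zmodChar l hζ.pow_eq_one) c).map σ =
      PP (AddChar.zmodChar l hζ.pow_eq_one) (quadraticChar (ZMod l) (i : ZMod l) * c) := by
  classical
  set ψ := AddChar.zmodChar l hζ.pow_eq_one with hψ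
  set a : ZMod l := (i : ZMod l) with ha'
  have hqa : quadraticChar (ZMod l) a = 1 ∨ quadraticChar (ZMod l) a = -1 :=
    quadraticChar_dichotomy ha
  unfold PP
  rw [Polynomial.map_prod]
  simp only [Polynomial.map_sub, map_X, map_C]
  refine Finset.prod_equiv (Equiv.mulLeft₀ a ha) ?_ ?_
  · intro b
    have e : (Equiv.mulLeft₀ a ha) b = a * b := rfl
    simp only [Finset.mem_filter, Finset.mem_univ, true_and]
    rw [e, map_mul]
    rcases hqa with h | h <;> rw [h] <;> constructor <;> intro hb <;> omega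
  · intro b _
    have e : (Equiv.mulLeft₀ a ha) b = a * b := rfl
    rw [e, psi_sigma hζ σ hi b]

theorem gauss_map {ζ : K} (hζ : IsPrimitiveRoot ζ l) (σ : K →+* K) {i : ℕ} (hi : ζ ^ i = σ ζ)
    (ha : (i : ZMod l) ≠ 0) :
    σ (gaussSum (chiK l K) (AddChar.zmodChar l hζ.pow_eq_one)) =
      ((quadraticChar (ZMod l) (i : ZMod l) : ℤ) : K) *
        gaussSum (chiK l K) (AddChar.zmodChar l hζ.pow_eq_one) := by
  classical
  set ψ := AddChar.zmodChar l hζ.pow_eq_one with hψ
  set a : ZMod l := (i : ZMod l) with ha'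
  have hqa : quadraticChar (ZMod l) a = 1 ∨ quadraticChar (ZMod l) a = -1 :=
    quadraticChar_dichotomy ha
  have hsq : (((quadraticChar (ZMod l) a : ℤ) : K)) * ((quadraticChar (ZMod l) a : ℤ) : K) = 1 := by
    rcases hqa with h | h <;> rw [h] <;> simp
  have h1 : σ (gaussSum (chiK l K) ψ) = gaussSum (chiK l K) (AddChar.mulShift ψ a) := by
    simp only [gaussSum, map_sum, map_mul, AddChar.mulShift_apply]
    refine Finset.sum_congr rfl fun b _ => ?_
    rw [psi_sigma hζ σ hi b, chiK_apply, map_intCast]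
  have hau : IsUnit a := isUnit_iff_ne_zero.2 ha
  obtain ⟨u, hu⟩ := hau
  have h2 := gaussSum_mulShift (chiK l K) ψ u
  rw [hu, chiK_apply] at h2
  rw [h1, ← h2, ← mul_assoc, hsq, one_mul]

end generic

theorem descend {K : Type*} [Field K] [Algebra ℚ K] [FiniteDimensional ℚ K] [IsGalois ℚ K] (p : K[X])
    (hp : ∀ σ : K ≃ₐ[ℚ] K, p.map (σ : K →+* K) = p) :
    ∃ q : ℚ[X], q.map (algebraMap ℚ K) = p := by
  have : p ∈ Polynomial.lifts (algebraMap ℚ K) := by
    rw [Polynomial.lifts_iff_coeff_lifts]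
    intro n
    have hfix : p.coeff n ∈ (⊥ : IntermediateField ℚ K) := by
      rw [IsGalois.mem_bot_iff_fixed]
      intro σ
      have := congrArg (fun r => r.coeff n) (hp σ)
      simpa [coeff_map] using this
    exact IntermediateField.mem_bot.1 hfix
  exact (Polynomial.mem_lifts p).1 this

theorem gauss_aux (l : ℕ) [hl : Fact l.Prime] (h : l % 4 = 3) (K : Type*) [Field K] [Algebra ℚ K]
    [FiniteDimensional ℚ K] [IsGalois ℚ K] {ζ : K} (hζ : IsPrimitiveRoot ζ l) :
    ∃ Y Z : Polynomial ℚ,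
      4 * ∑ i ∈ Finset.range l, (Polynomial.X : Polynomial ℚ) ^ i =
        Y ^ 2 + Polynomial.C (l : ℚ) * Z ^ 2 := by
  classical
  have : CharZero K := algebraRat.charZero K
  set ψ := AddChar.zmodChar l hζ.pow_eq_one with hψ
  set g : K := gaussSum (chiK l K) ψ with hg
  have hl2 : ringChar (ZMod l) ≠ 2 := by
    rw [ZMod.ringChar_zmod_n]
    omega
  have hlK : (l : K) ≠ 0 := Nat.cast_ne_zero.2 hl.out.ne_zero
  -- g² = -l
  have hg2 : g ^ 2 = -(l : K) := by
    have hne : chiK l K ≠ 1 := by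
      intro hone
      obtain ⟨a, ha⟩ := quadraticChar_exists_neg_one' hl2
      have h1 := chiK_apply (K := K) (a : ZMod l)
      rw [hone, MulChar.one_apply a.isUnit, ha] at h1
      have h2K : (2 : K) ≠ 0 := two_ne_zero
      apply h2K
      have : (1 : K) = -1 := by simpa using h1
      linear_combination this
    have hq : (chiK l K).IsQuadratic := (quadraticChar_isQuadratic (ZMod l)).comp _
    have hprim : AddChar.IsPrimitive ψ :=
      AddChar.zmodChar_primitive_of_primitive_root l hζ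
    have := gaussSum_sq hne hq hprim
    rw [hg, this, chiK_apply, ZMod.card]
    have hneg : quadraticChar (ZMod l) (-1) = -1 := by
      rw [quadraticChar_neg_one hl2, ZMod.card]
      exact_mod_cast ZMod.χ₄_nat_three_mod_four h
    rw [hneg]
    simp
  have hg0 : g ≠ 0 := by
    intro h0
    rw [h0] at hg2
    apply hlK
    simpa using hg2.symm
  set P1 := PP ψ 1 with hP1
  set P2 := PP ψ (-1) with hP2
  set YK : K[X] := P1 + P2 with hYK
  set ZK : K[X] := C g⁻¹ * (P1 - P2) with hZK
  -- the action of the Galois group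
  have hact : ∀ σ : K ≃ₐ[ℚ] K, YK.map (σ : K →+* K) = YK ∧ ZK.map (σ : K →+* K) = ZK := by
    intro σ
    have hσζ : (σ ζ) ^ l = 1 := by rw [← map_pow, hζ.pow_eq_one, map_one]
    obtain ⟨i, -, hi⟩ := hζ.eq_pow_of_pow_eq_one hσζ
    have ha : (i : ZMod l) ≠ 0 := by
      intro h0
      have hdvd : l ∣ i := (ZMod.natCast_eq_zero_iff i l).1 h0
      obtain ⟨k, rfl⟩ := hdvd
      rw [pow_mul, hζ.pow_eq_one, one_pow] at hi
      have h1 : ζ = 1 := by
        apply σ.injective
        rw [← hi, map_one]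
      exact hl.out.ne_one (by
        have := hζ.pow_eq_one
        exact (IsPrimitiveRoot.eq_orderOf hζ).trans (by rw [h1, orderOf_one]))
    have hσ : ζ ^ i = (σ : K →+* K) ζ := hi
    have m1 := PP_map hζ (σ : K →+* K) hσ ha 1
    have m2 := PP_map hζ (σ : K →+* K) hσ ha (-1)
    have mg := gauss_map hζ (σ : K →+* K) hσ ha
    rw [← hψ, ← hP1] at m1
    rw [← hψ, ← hP2] at m2
    rw [← hψ, ← hg] at mg
    rcases quadraticChar_dichotomy ha with hq | hq
    · rw [hq] at m1 m2 mg
      rw [mul_one, ← hP1] at m1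
      rw [one_mul, ← hP2] at m2
      have mg' : (σ : K →+* K) g = g := by simpa using mg
      constructor
      · rw [hYK, Polynomial.map_add, m1, m2]
      · rw [hZK, Polynomial.map_mul, Polynomial.map_sub, m1, m2, map_C, map_inv₀, mg']
    · rw [hq] at m1 m2 mg
      have e1 : (-1 : ℤ) * 1 = -1 := by norm_num
      have e2 : (-1 : ℤ) * -1 = 1 := by norm_num
      rw [e1, ← hP2] at m1
      rw [e2, ← hP1] at m2
      have mg' : (σ : K →+* K) g = -g := by simpa using mg
      constructor
      · rw [hYK, Polynomial.map_add, m1, m2, add_comm]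
      · rw [hZK, Polynomial.map_mul, Polynomial.map_sub, m1, m2, map_C, map_inv₀, mg', inv_neg,
          C_neg]
        ring
  obtain ⟨Y, hY⟩ := descend YK (fun σ => (hact σ).1)
  obtain ⟨Z, hZ⟩ := descend ZK (fun σ => (hact σ).2)
  refine ⟨Y, Z, ?_⟩
  apply Polynomial.map_injective (algebraMap ℚ K) (algebraMap ℚ K).injective
  simp only [Polynomial.map_add, Polynomial.map_mul, Polynomial.map_pow, hY, hZ,
    Polynomial.map_sum, map_X, map_C]
  have hprod : P1 * P2 = (∑ i ∈ Finset.range l, X ^ i : K[X]) := PP_mul hζ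
  have hl' : (algebraMap ℚ K) (l : ℚ) = (l : K) := by simp
  rw [hl', ← hprod]
  have h4 : (Polynomial.map (algebraMap ℚ K) (4 : ℚ[X])) = 4 := by
    simp [Polynomial.map_ofNat]
  rw [h4, hYK, hZK]
  have hgl : C (l : K) * C g⁻¹ ^ 2 = -1 := by
    rw [← C_pow, ← C_mul]
    have : (l : K) * g⁻¹ ^ 2 = -1 := by
      field_simp
      rw [hg2]
      ring
    rw [this]
    simp
  have : C (l : K) * (C g⁻¹ * (P1 - P2)) ^ 2 = (C (l : K) * C g⁻¹ ^ 2) * (P1 - P2) ^ 2 := by ring
  rw [this, hgl]
  ring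

theorem gauss_cyc (l : ℕ) [hl : Fact l.Prime] (h : l % 4 = 3) (K : Type*) [Field K] [Algebra ℚ K]
    [IsCyclotomicExtension {l} ℚ K] :
    ∃ Y Z : Polynomial ℚ,
      4 * ∑ i ∈ Finset.range l, (Polynomial.X : Polynomial ℚ) ^ i =
        Y ^ 2 + Polynomial.C (l : ℚ) * Z ^ 2 := by
  have h0 : NeZero l := ⟨hl.out.ne_zero⟩
  have h1 : FiniteDimensional ℚ K := IsCyclotomicExtension.finiteDimensional {l} ℚ K
  have h2 : IsGalois ℚ K := IsCyclotomicExtension.isGalois {l} ℚ K
  exact gauss_aux l h K (IsCyclotomicExtension.zeta_spec l ℚ K)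

/-- Gauss's identity. -/
theorem gauss_identity66 (l : ℕ) [hl : Fact l.Prime] (h : l % 4 = 3) :
    ∃ Y Z : Polynomial ℚ,
      4 * ∑ i ∈ Finset.range l, (Polynomial.X : Polynomial ℚ) ^ i =
        Y ^ 2 + Polynomial.C (l : ℚ) * Z ^ 2 := by
  have h0 : NeZero ((l : ℕ) : ℚ) := ⟨by exact_mod_cast hl.out.ne_zero⟩
  exact @gauss_cyc l _ h (CyclotomicField l ℚ) _ (CyclotomicField.algebra l ℚ)
    (CyclotomicField.isCyclotomicExtension l ℚ)

end Cfsg.Agent.Lib.AmitsurGauss66
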