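import Mathlib
import Cfsg.Agent.Lib.SteinerAut
import Cfsg.Agent.Lib.SteinerF4723

set_option autoImplicit false
set_option maxRecDepth 1000000

/-!
# The automorphisms of the standard system fixing the first points, enumerated
-/

namespace Cfsg.Agent.Lib.AutF4723
open Cfsg.Agent.Lib.SteinerSearch Cfsg.Agent.Lib.SteinerAut Cfsg.Agent.Lib.SteinerF4723

/-- The codes of the automorphisms fixing the first points. -/
def R : List ℕ := [0x5ab49ca307b9ac5a928398a418820,0x4e95b3e11935cb62547418a418820,0x4a307dab49b16e6a0ea498a418820,0x3e1194e95b2d8d71d09518a418820,0x41f28d276aa9283b9ac598a418820,0x464f856d3a2547435cb618a418820,0x5276ac1f28a0ea4b16e698a418820,0x56d3a464f81d0952d8d718a418820,0x296c4a1ae3c234ada72798a418820,0x2d496350773e53b5691818a418820,0x312a5b8e86c9f69d2b0898a418820,0x258b51dcd44615a4ecf918a418820,0x21ae3a96c4d2b08c9f6998a418820,0x350772d4964ecf94615a18a418820,0x38e86b12a5da727c234a98a418820,0x1dcd4258b5569183e53b18a418820,0x3acf5b672656148a50a390c518820,0x367263acf5d235828e9410c5188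20,0x32536adf674690a9d48490c518820,0x2df6732536c2b1a2127510c518820,0x2a153a63443ed29b58e590c518820,0x263442a153ca6fb396d610c518820,0x229149eb054e567adcc690c518820,0x1eb0522914d9f3931ab710c518820,0x4147ac528a2dcc6ce56790c518820,0x3d6eb498d9a8e945235810c518820,0x498d9bd6eb250a3d614890c518820,0x4528a4147ab1ab759f3910c518820,0x51098d4ea8358e5bed2990c518820,0x4dac959cb7a127542b1a10c518820,0x59cb7cdac91d484c690a90c518820,0x54ea851098b96d64a6fb10c518820,0x55cc8c16da5a4f9a1493948618820,0x51ab8458eacdf2b1d2a4148618820,0x458ead1ab84ad37a9074948618820,0x416da55cc8be76924e85148618820,0x3d489d8e9942958b1cd5948618820,0x4927b4d0a7c6b482dae6148618820,0x4d0a7c927b5211ab98b6948618820,0x58e993d489d630a356c7148618820,0x2e146bab1629074cad37948618820,0x29f341ed24adae646b48148618820,0x26563a26f531cd5c2958948618820,0x3235736905a4e853e769148618820,0x36905b235721493da4f9948618820,0x226f526563b56c75630a148618820,0x1ed24a9f34398b6d211a948618820,0x3ab162e1469d2a44df2b148618820]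

theorem root_eq : dfsRoot 23 4 Lstd Lstd 4 = R := by decide +kernel

theorem R_ok : ∀ r ∈ dfsRoot 23 4 Lstd Lstd 4, rOK 23 4 Lstd r = true := by
  rw [root_eq]
  decide +kernel

theorem R_nodup : (dfsRoot 23 4 Lstd Lstd 4).Nodup := by
  rw [root_eq]
  decide +kernel

theorem R_len : (dfsRoot 23 4 Lstd Lstd 4).length = 48 := by
  rw [root_eq]
  decide +kernel

end Cfsg.Agent.Lib.AutF4723
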