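import Mathlib
import Cfsg.Agent.Lib.AutOrthGrp2

/-!
# Extensions of a cyclic group by the dihedral group of order eight with a prescribed section
-/

set_option autoImplicit false

namespace Cfsg.Agent.Lib.AutOrthGrp

open DihedralGroup

/-- An automorphism of the dihedral group of order eight fixing a non-central involution is trivial or
conjugation by that involution. -/
theorem aut_D4_fix (α : DihedralGroup 4 ≃* DihedralGroup 4) (x : DihedralGroup 4) (hx2 : x ^ 2 = 1)
    (hnc : ¬ ∀ y, y * x = x * y) (hα : α x = x) : α = MulEquiv.refl _ ∨ ∀ y, α y = x * y * x⁻¹ := by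
  have hxl : ∀ x : DihedralGroup 4, x ^ 2 = 1 → (¬ ∀ y, y * x = x * y) → ∃ l, x = sr l := by decide
  obtain ⟨l, rfl⟩ := hxl x hx2 hnc
  -- the image of the rotation
  have hr1 : α (r 1) = r 1 ∨ α (r 1) = r 3 := by
    have h4 : (α (r 1)) ^ 4 = 1 := by
      rw [← map_pow, show (r 1 : DihedralGroup 4) ^ 4 = 1 by decide, map_one]
    have h2 : (α (r 1)) ^ 2 ≠ 1 := by
      intro h3
      rw [← map_pow, map_eq_one_iff _ α.injective] at h3
      exact absurd h3 (by decide)
    have hcases : ∀ x : DihedralGroup 4, x ^ 4 = 1 → x ^ 2 ≠ 1 → x = r 1 ∨ x = r 3 := by decide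
    exact hcases _ h4 h2
  have hs : ∃ k, α (sr 0) = sr k := by
    have h1 : α (sr 0) * α (r 1) * (α (sr 0))⁻¹ = (α (r 1))⁻¹ := by
      rw [← map_inv, ← map_inv, ← map_mul, ← map_mul, show (sr 0 : DihedralGroup 4) * r 1 * (sr 0)⁻¹ = (r 1)⁻¹ by decide]
    have hc : ∀ u y : DihedralGroup 4, (u = r 1 ∨ u = r 3) → y * u * y⁻¹ = u⁻¹ → ∃ k, y = sr k := by decide
    exact hc _ _ hr1 h1
  obtain ⟨k, hk⟩ := hs
  have hpow : ∀ i : ZMod 4, (r i : DihedralGroup 4) = (r 1) ^ i.val := by decide
  have hsr0 : ∀ i : ZMod 4, (sr i : DihedralGroup 4) = sr 0 * r i := by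
    intro i
    rw [sr_mul_r, zero_add]
  rcases hr1 with h1 | h1
  · left
    have hr : ∀ i : ZMod 4, α (r i) = r i := by
      intro i
      rw [hpow, map_pow, h1]
    have hsr : ∀ i : ZMod 4, α (sr i) = sr (k + i) := by
      intro i
      rw [hsr0, map_mul, hk, hr, sr_mul_r]
    have hk0 : k = 0 := by
      have h2 := hsr l
      rw [hα] at h2
      have h3 : l = k + l := sr.inj h2
      have h4 : ∀ k l : ZMod 4, l = k + l → k = 0 := by decide
      exact h4 _ _ h3
    apply MulEquiv.ext
    rintro (i | i)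
    · exact hr i
    · rw [hsr, hk0, zero_add]
      rfl
  · right
    have hr : ∀ i : ZMod 4, α (r i) = r (-i) := by
      intro i
      rw [hpow, map_pow, h1]
      revert i
      decide
    have hsr : ∀ i : ZMod 4, α (sr i) = sr (k - i) := by
      intro i
      rw [hsr0, map_mul, hk, hr, sr_mul_r, sub_eq_add_neg]
    have hkl : k = l + l := by
      have h2 := hsr l
      rw [hα] at h2
      have h3 : l = k - l := sr.inj h2
      have h4 : ∀ k l : ZMod 4, l = k - l → k = l + l := by decide
      exact h4 _ _ h3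
    have h6 : ∀ l i : ZMod 4, (r (-i) : DihedralGroup 4) = sr l * r i * (sr l)⁻¹ := by decide
    have h7 : ∀ l i : ZMod 4, (sr (l + l - i) : DihedralGroup 4) = sr l * sr i * (sr l)⁻¹ := by decide
    rintro (i | i)
    · rw [hr]
      exact h6 l i
    · rw [hsr, hkl]
      exact h7 l i

/-- The dihedral case of the structure of the extension, with a section fixing a non-central involution. -/
theorem nonempty_prod_dihedral {G C : Type*} [Group G] [Group C] [Finite G] {f : ℕ} (hf : 1 ≤ f) (π : G →* C) (s : C →* G)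
    (hs : ∀ c, π (s c) = c) (hcard : Nat.card C = f) (c₀ : C) (hgen : ∀ c : C, c ∈ Subgroup.zpowers c₀)
    (e : π.ker ≃* DihedralGroup 4) {r : G} (hr : r ∈ π.ker) (hr2 : r ^ 2 = 1) (hnc : ¬ ∀ n ∈ π.ker, n * r = r * n)
    (hsr : ∀ c, s c * r = r * s c) : Nonempty (G ≃* DihedralGroup 4 × C) := by
  classical
  have hfinC : Finite C := Nat.finite_of_card_ne_zero (by omega)
  have hord : orderOf c₀ = f := by
    rw [← hcard]
    exact orderOf_eq_card_of_forall_mem_zpowers hgen
  set t := s c₀ with ht
  have htf : t ^ f = 1 := by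
    rw [ht, ← map_pow, ← hord, pow_orderOf_eq_one, map_one]
  have htr : Commute t r := hsr c₀
  let cN : π.ker ≃* π.ker := MulAut.conjNormal t
  have hcN : ∀ n : π.ker, ((cN n : π.ker) : G) = t * n * t⁻¹ := fun n => MulAut.conjNormal_apply t n
  let α : DihedralGroup 4 ≃* DihedralGroup 4 := e.symm.trans (cN.trans e)
  have hα : ∀ x, α x = e (cN (e.symm x)) := fun x => rfl
  have hα' : ∀ n : π.ker, e.symm (α (e n)) = cN n := by
    intro n
    rw [hα, MulEquiv.symm_apply_apply, MulEquiv.symm_apply_apply]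
  let rr : π.ker := ⟨r, hr⟩
  have hrr : ((rr : π.ker) : G) = r := rfl
  have hx2 : (e rr) ^ 2 = 1 := by
    rw [← map_pow]
    have : rr ^ 2 = 1 := Subtype.ext hr2
    rw [this, map_one]
  have hxnc : ¬ ∀ y, y * e rr = e rr * y := by
    intro h
    apply hnc
    intro n hn
    have h1 := h (e ⟨n, hn⟩)
    rw [← map_mul, ← map_mul] at h1
    exact congrArg Subtype.val (e.injective h1)
  have hfix : α (e rr) = e rr := by
    rw [hα, MulEquiv.symm_apply_apply]
    congr 1
    apply Subtype.ext
    rw [hcN, hrr, htr.eq]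
    group
  -- commuting with the kernel gives the result
  have hfinish : ∀ (s' : C →* G) (t' : G), s' c₀ = t' → (∀ c, π (s' c) = c) → (∀ n ∈ π.ker, n * t' = t' * n) →
      Nonempty (G ≃* DihedralGroup 4 × C) := by
    intro s' t' hst hs' hc
    have hcomm : ∀ n ∈ π.ker, ∀ c, n * s' c = s' c * n := by
      intro n hn c
      obtain ⟨k, hk⟩ := hgen c
      have hk' : c₀ ^ k = c := hk
      rw [← hk', map_zpow, hst]
      have h1 : Commute n t' := hc n hn
      exact (h1.zpow_right k)
    obtain ⟨e₁⟩ := nonempty_equiv_prod π s' hs' hcomm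
    exact ⟨e₁.trans (MulEquiv.prodCongr e (MulEquiv.refl C))⟩
  rcases aut_D4_fix α (e rr) hx2 hxnc hfix with hid | hconj
  · refine hfinish s t rfl hs ?_
    intro n hn
    have h1 := hα' ⟨n, hn⟩
    rw [hid] at h1
    have h2 : ((cN ⟨n, hn⟩ : π.ker) : G) = n := by
      rw [← h1]
      simp
    rw [hcN] at h2
    calc n * t = (t * n * t⁻¹) * t := by rw [h2]
      _ = t * n := by group
  · -- `t` acts as `r`
    have hcj : ∀ n ∈ π.ker, t * n * t⁻¹ = r * n * r⁻¹ := by
      intro n hn
      have h1 := hα' ⟨n, hn⟩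
      rw [hconj, ← map_inv, ← map_mul, ← map_mul, MulEquiv.symm_apply_apply] at h1
      have h2 := congrArg Subtype.val h1
      rw [hcN] at h2
      exact h2.symm
    have hrinv : r⁻¹ = r := by
      rw [inv_eq_iff_mul_eq_one, ← pow_two, hr2]
    -- the order of `f`
    have hfeven : Even f := by
      by_contra hodd
      rw [Nat.not_even_iff_odd] at hodd
      apply hnc
      have hit : ∀ (j : ℕ) (n : G), n ∈ π.ker → t ^ j * n * (t ^ j)⁻¹ = r ^ j * n * (r ^ j)⁻¹ := by
        intro j
        induction j with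
        | zero => intro n _; simp
        | succ j ih =>
          intro n hn
          have hm : t * n * t⁻¹ ∈ π.ker := by
            rw [hcj n hn, MonoidHom.mem_ker, map_mul, map_mul, map_inv, hr, (MonoidHom.mem_ker).1 hn]
            simp
          have e1 : t ^ (j + 1) * n * (t ^ (j + 1))⁻¹ = t ^ j * (t * n * t⁻¹) * (t ^ j)⁻¹ := by
            rw [pow_succ]
            group
          rw [e1, ih _ hm, hcj n hn, pow_succ]
          group
      intro n hn
      have h1 := hit f n hn
      rw [htf] at h1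
      obtain ⟨c, hc⟩ := hodd
      have hrf : r ^ f = r := by
        rw [hc, pow_succ, pow_mul, hr2, one_pow, one_mul]
      rw [hrf] at h1
      have h2 : n = r * n * r⁻¹ := by simpa using h1
      calc n * r = (r * n * r⁻¹) * r := by rw [← h2]
        _ = r * n := by group
    have hrf : r ^ f = 1 := by
      obtain ⟨c, hc⟩ := hfeven
      rw [hc, ← two_mul, pow_mul, hr2, one_pow]
    have ht'f : (t * r) ^ f = 1 := by
      rw [htr.mul_pow, htf, hrf, one_mul]
    have hdvd : orderOf (t * r) ∣ orderOf c₀ := by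
      rw [hord]
      exact orderOf_dvd_of_pow_eq_one ht'f
    let s' : C →* G := monoidHomOfForallMemZpowers hgen hdvd
    have hst : s' c₀ = t * r := monoidHomOfForallMemZpowers_apply_gen hgen hdvd
    have hs' : ∀ c, π (s' c) = c := by
      have h1 : π.comp s' = MonoidHom.id C := by
        rw [MonoidHom.eq_iff_eq_on_generator hgen]
        simp only [MonoidHom.comp_apply, MonoidHom.id_apply]
        rw [hst, map_mul, hs, (MonoidHom.mem_ker).1 hr, mul_one]
      intro c
      exact DFunLike.congr_fun h1 c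
    refine hfinish s' (t * r) hst hs' ?_
    intro n hn
    have hm : r * n * r⁻¹ ∈ π.ker := by
      rw [MonoidHom.mem_ker, map_mul, map_mul, map_inv, hr, (MonoidHom.mem_ker).1 hn]
      simp
    have h1 := hcj _ hm
    have h2 : t * r * (r * n * r⁻¹) * r⁻¹ * t⁻¹ = t * ((r * r) * n * (r⁻¹ * r⁻¹)) * t⁻¹ := by group
    have hrr' : r * r = 1 := by rw [← pow_two, hr2]
    have h3 : r⁻¹ * r⁻¹ = 1 := by rw [hrinv, hrr']
    have h4 : (t * r) * n * (t * r)⁻¹ = n := by
      rw [mul_inv_rev, hrinv]
      have h5 : t * r * n * (r * t⁻¹) = t * (r * n * r⁻¹) * t⁻¹ := by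
        rw [hrinv]
        group
      rw [h5, h1, hrinv]
      calc r * (r * n * r) * r = (r * r) * n * (r * r) := by group
        _ = n := by rw [hrr']; group
    calc n * (t * r) = ((t * r) * n * (t * r)⁻¹) * (t * r) := by rw [h4]
      _ = (t * r) * n := by group

end Cfsg.Agent.Lib.AutOrthGrp
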