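import Mathlib
import Cfsg.Agent.Lib.SpinSys

/-!
# Steinberg relations with short roots

Long root elements `x a b c` as in `SpinSys`, together with short root elements `y a w`, where `w` runs over a vector
space `W` with a quadratic form `q`: `y a w` stands for the Siegel transformation of the singular vector `e_a` and `w`.
-/

set_option autoImplicit false
set_option linter.unusedSectionVars false
set_option linter.unusedVariables false

namespace Cfsg.Agent.Lib.BSys

open Subgroup QuadraticMap Cfsg.Agent.Lib.SL2Core Cfsg.Agent.Lib.SL2Bor Cfsg.Agent.Lib.StK Cfsg.Agent.Lib.SpinSys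
open scoped commutatorElement

variable {ι F W Γ : Type*} [DecidableEq ι] [Field F] [AddCommGroup W] [Module F W] [Group Γ]

local notation "E" g:max i:max j:max => ((g : SL2 F) : Matrix (Fin 2) (Fin 2) F) i j

/-- The relations. -/
structure SysB (x : ι ⊕ ι → ι ⊕ ι → F → Γ) (y : ι ⊕ ι → W → Γ) (q : QuadraticForm F W) : Prop where
  hD : SysD x
  yadd : ∀ (a : ι ⊕ ι) (u v : W), y a (u + v) = y a u * y a v
  xy : ∀ {k l a : ι ⊕ ι}, Ind k l → a ≠ l → a ≠ k.swap → ∀ (t : F) (w : W), Commute (x k l t) (y a w)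
  yy : ∀ {a b : ι ⊕ ι}, Ind a b → ∀ u v : W, ⁅y a u, y b v⁆ = x a b.swap (-(polar q u v))
  xy3 : ∀ {a b : ι ⊕ ι}, Ind a b → ∀ (c : F) (w : W), ⁅x a b c, y b w⁆ = y a (c • w) * x a b.swap (c * q w)

variable {x : ι ⊕ ι → ι ⊕ ι → F → Γ} {y : ι ⊕ ι → W → Γ} {q : QuadraticForm F W} (hs : SysB x y q)

include hs

lemma yzero (a : ι ⊕ ι) : y a 0 = 1 := by
  have := hs.yadd a 0 0
  rw [add_zero] at this
  exact mul_eq_left.mp this.symm

lemma yneg (a : ι ⊕ ι) (w : W) : y a (-w) = (y a w)⁻¹ := by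
  have := hs.yadd a (-w) w
  rw [neg_add_cancel, yzero hs] at this
  exact (inv_eq_of_mul_eq_one_left this.symm).symm

lemma ycomm (a : ι ⊕ ι) (u v : W) : Commute (y a u) (y a v) := by
  show y a u * y a v = y a v * y a u
  rw [← hs.yadd, ← hs.yadd, add_comm]

/-- `x y x⁻¹`. -/
lemma xyc {a b : ι ⊕ ι} (h : Ind a b) (c : F) (w : W) :
    x a b c * y b w * (x a b c)⁻¹ = y a (c • w) * x a b.swap (c * q w) * y b w := by
  rw [← hs.xy3 h, commutatorElement_def]
  group

/-- `y x y⁻¹`. -/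
lemma yxc {a b : ι ⊕ ι} (h : Ind a b) (c : F) (w : W) :
    y b w * x a b c * (y b w)⁻¹ = (y a (c • w) * x a b.swap (c * q w))⁻¹ * x a b c := by
  rw [← hs.xy3 h, commutatorElement_def]
  group

/-- `y y y⁻¹`. -/
lemma yyc {a b : ι ⊕ ι} (h : Ind a b) (u v : W) :
    y a u * y b v * (y a u)⁻¹ = x a b.swap (-(polar q u v)) * y b v := by
  rw [← hs.yy h, commutatorElement_def]
  group

lemma x_col {a b : ι ⊕ ι} (h : Ind a b) (c : F) : x b a.swap c = x a b.swap (-c) := by
  have := hs.hD.sym h.symm.swapR c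
  simpa using this

/-- The root element `x a b̄` commutes with the short root elements at `a`. -/
lemma xc_a {a b : ι ⊕ ι} (h : Ind a b) (c : F) (w : W) : Commute (x a b.swap c) (y a w) :=
  hs.xy h.swapR h.2 (swap_ne a) c w

/-- The root element `x a b̄` commutes with the short root elements at `b`. -/
lemma xc_b {a b : ι ⊕ ι} (h : Ind a b) (c : F) (w : W) : Commute (x a b.swap c) (y b w) :=
  hs.xy h.swapR (swap_ne b) (fun e => h.2 (by rw [e, Sum.swap_swap])) c w

/-- The short root elements at `a` and `b` in the other order. -/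
lemma yy_swap {a b : ι ⊕ ι} (h : Ind a b) (u v : W) :
    y b v * y a u = x a b.swap (polar q u v) * (y a u * y b v) := by
  have e := hs.yy h u v
  rw [commutatorElement_def] at e
  have e2 : y a u * y b v = x a b.swap (-(polar q u v)) * (y b v * y a u) := by
    rw [← e]
    group
  rw [e2, ← mul_assoc, ← hs.hD.add h.swapR, add_neg_cancel, zero hs.hD h.swapR, one_mul]

/-- The lift of the Siegel element of `α e_a + β e_b` and `w`. -/
def ZZ (x : ι ⊕ ι → ι ⊕ ι → F → Γ) (y : ι ⊕ ι → W → Γ) (q : QuadraticForm F W) (a b : ι ⊕ ι) (α β : F) (w : W) : Γ :=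
  y a (α • w) * y b (β • w) * x a b.swap (α * β * q w)

lemma ZZ_zero_left {a b : ι ⊕ ι} (h : Ind a b) (β : F) (w : W) : ZZ x y q a b 0 β w = y b (β • w) := by
  simp [ZZ, yzero hs, zero hs.hD h.swapR]

lemma ZZ_zero_right {a b : ι ⊕ ι} (h : Ind a b) (α : F) (w : W) : ZZ x y q a b α 0 w = y a (α • w) := by
  simp [ZZ, yzero hs, zero hs.hD h.swapR]

lemma polar_smul_self (α β : F) (w : W) : polar q (α • w) (β • w) = 2 * α * β * q w := by
  simp only [polar_smul_left, polar_smul_right, polar_self, smul_eq_mul, two_nsmul]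
  ring

lemma Q_smul' (α : F) (w : W) : q (α • w) = α * α * q w := by
  rw [QuadraticMap.map_smul, smul_eq_mul]

/-- The symmetry of `ZZ`. -/
lemma ZZ_symm {a b : ι ⊕ ι} (h : Ind a b) (α β : F) (w : W) : ZZ x y q a b α β w = ZZ x y q b a β α w := by
  unfold ZZ
  rw [yy_swap hs h (α • w) (β • w), x_col hs h, polar_smul_self hs]
  have e1 := (xc_a hs h (2 * α * β * q w) (α • w))
  have e2 := (xc_b hs h (2 * α * β * q w) (β • w))
  have e5 : x a b.swap (α * β * q w) = x a b.swap (2 * α * β * q w) * x a b.swap (-(β * α * q w)) := by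
    rw [← hs.hD.add h.swapR]
    congr 1
    ring
  have e4 : x a b.swap (2 * α * β * q w) * (y a (α • w) * y b (β • w)) =
      (y a (α • w) * y b (β • w)) * x a b.swap (2 * α * β * q w) := (e1.mul_right e2).eq
  rw [e5, e4]
  group

/-- Conjugation by `x b a`. -/
lemma ZZ_conj_l {a b : ι ⊕ ι} (h : Ind a b) (t α β : F) (w : W) :
    x b a t * ZZ x y q a b α β w * (x b a t)⁻¹ = ZZ x y q a b α (β + t * α) w := by
  unfold ZZ
  have h1 := xyc hs h.symm t (α • w)
  have h2 : Commute (x b a t) (y b (β • w)) := hs.xy h.symm h.1.symm (swap_ne b) t _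
  have h3 : Commute (x b a t) (x a b.swap (α * β * q w)) := commA hs.hD h _ _
  have e0 : x b a t * (y a (α • w) * y b (β • w) * x a b.swap (α * β * q w)) * (x b a t)⁻¹ =
      (x b a t * y a (α • w) * (x b a t)⁻¹) * (x b a t * y b (β • w) * (x b a t)⁻¹) *
        (x b a t * x a b.swap (α * β * q w) * (x b a t)⁻¹) := by group
  rw [e0, h1, h2.eq, h3.eq, mul_inv_cancel_right, mul_inv_cancel_right, x_col hs h, Q_smul' hs]
  -- move everything together
  set u := α • w with hu
  set v := (t • u) with hv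
  set C : F → Γ := fun c => x a b.swap c with hC
  have hC_add : ∀ s r, C (s + r) = C s * C r := fun s r => hs.hD.add h.swapR s r
  have hCa : ∀ c, Commute (C c) (y a u) := fun c => xc_a hs h c u
  have hCb : ∀ c (r : W), Commute (C c) (y b r) := fun c r => xc_b hs h c r
  have hswap : y b v * y a u = C (2 * α * (t * α) * q w) * (y a u * y b v) := by
    have := yy_swap hs h u v
    rw [this, hv, hu, smul_smul, polar_smul_self hs]
  have e5 : β • w + v = (β + t * α) • w := by
    rw [hv, hu, smul_smul, add_smul]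
  have e6 : y a ((β + t * α) • w) = y a ((β + t * α) • w) := rfl
  have e7 : y b ((β + t * α) • w) = y b v * y b (β • w) := by
    rw [← e5, add_comm, hs.yadd]
  have e8 : x a b.swap (α * (β + t * α) * q w) = C (α * β * q w + t * α * α * q w) := by
    show _ = x a b.swap _
    congr 1
    ring
  rw [e7, e8, hC_add]
  show y b v * C (-(t * (α * α * q w))) * y a u * y b (β • w) * C (α * β * q w) = y a u * (y b v * y b (β • w)) * (C (α * β * q w) * C (t * α * α * q w))
  have e9 : y b v * C (-(t * (α * α * q w))) = C (-(t * (α * α * q w))) * y b v := (hCb _ _).symm.eq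
  have e10 : C (2 * α * (t * α) * q w) = C (t * α * α * q w) * C (t * α * α * q w) := by
    rw [← hC_add]
    congr 1
    ring
  have e11 : C (-(t * (α * α * q w))) * C (t * α * α * q w) = 1 := by
    rw [← hC_add, show -(t * (α * α * q w)) + t * α * α * q w = 0 by ring]
    exact zero hs.hD h.swapR
  calc y b v * C (-(t * (α * α * q w))) * y a u * y b (β • w) * C (α * β * q w)
      = C (-(t * (α * α * q w))) * (y b v * y a u) * y b (β • w) * C (α * β * q w) := by rw [e9]; group
    _ = C (-(t * (α * α * q w))) * C (t * α * α * q w) * C (t * α * α * q w) * (y a u * y b v) * y b (β • w) * C (α * β * q w) := by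
        rw [hswap, e10]; group
    _ = C (t * α * α * q w) * (y a u * y b v) * y b (β • w) * C (α * β * q w) := by rw [e11, one_mul]
    _ = (y a u * y b v) * C (t * α * α * q w) * y b (β • w) * C (α * β * q w) := by
        rw [((hCa _).mul_right (hCb _ _)).eq]
    _ = (y a u * y b v) * (C (t * α * α * q w) * y b (β • w)) * C (α * β * q w) := by group
    _ = (y a u * y b v) * (y b (β • w) * C (t * α * α * q w)) * C (α * β * q w) := by rw [(hCb _ _).eq]
    _ = y a u * (y b v * y b (β • w)) * (C (t * α * α * q w) * C (α * β * q w)) := by group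
    _ = _ := by
        rw [← hC_add, ← hC_add, add_comm]

/-- Conjugation by `x a b`. -/
lemma ZZ_conj_u {a b : ι ⊕ ι} (h : Ind a b) (t α β : F) (w : W) :
    x a b t * ZZ x y q a b α β w * (x a b t)⁻¹ = ZZ x y q a b (α + t * β) β w := by
  rw [ZZ_symm hs h, ZZ_conj_l hs h.symm, ZZ_symm hs h.symm]

variable {φ : SL2 F →* Γ} {a b : ι ⊕ ι}

/-- The section acts linearly on `ZZ`. -/
lemma ZZ_phi (hab : Ind a b) (hφ : Phi x a b φ) (m : SL2 F) : ∀ (α β : F) (w : W),
    φ m * ZZ x y q a b α β w * (φ m)⁻¹ = ZZ x y q a b (E m 0 0 * α + E m 0 1 * β) (E m 1 0 * α + E m 1 1 * β) w := by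
  refine sl2_ind (fun m => ∀ (α β : F) (w : W),
    φ m * ZZ x y q a b α β w * (φ m)⁻¹ = ZZ x y q a b (E m 0 0 * α + E m 0 1 * β) (E m 1 0 * α + E m 1 1 * β) w) ?_ ?_ ?_ m
  · intro t α β w
    rw [hφ.u, ZZ_conj_u hs hab]
    simp
  · intro t α β w
    rw [hφ.l, ZZ_conj_l hs hab]
    simp [add_comm]
  · intro A B hA hB α β w
    have e : φ (A * B) * ZZ x y q a b α β w * (φ (A * B))⁻¹ = φ A * (φ B * ZZ x y q a b α β w * (φ B)⁻¹) * (φ A)⁻¹ := by
      rw [map_mul]
      group
    rw [e, hB, hA]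
    simp only [mul_apply2]
    congr 1 <;> ring

/-- The section acts linearly on the dual `ZZ`. -/
lemma ZZ_phi_dual (hab : Ind a b) (hφ : Phi x a b φ) (m : SL2 F) : ∀ (α β : F) (w : W),
    φ m * ZZ x y q b.swap a.swap α β w * (φ m)⁻¹ =
      ZZ x y q b.swap a.swap (E m 0 0 * α - E m 0 1 * β) (-(E m 1 0) * α + E m 1 1 * β) w := by
  refine sl2_ind (fun m => ∀ (α β : F) (w : W),
    φ m * ZZ x y q b.swap a.swap α β w * (φ m)⁻¹ =
      ZZ x y q b.swap a.swap (E m 0 0 * α - E m 0 1 * β) (-(E m 1 0) * α + E m 1 1 * β) w) ?_ ?_ ?_ m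
  · intro t α β w
    rw [hφ.u, hs.hD.sym hab t, ZZ_conj_u hs hab.swap]
    simp only [uu00, uu01, uu10, uu11]
    congr 1 <;> ring
  · intro t α β w
    have e := hs.hD.sym hab.symm t
    rw [hφ.l, e, ZZ_conj_l hs hab.swap]
    simp only [ll00, ll01, ll10, ll11]
    congr 1 <;> ring
  · intro A B hA hB α β w
    have e : φ (A * B) * ZZ x y q b.swap a.swap α β w * (φ (A * B))⁻¹ = φ A * (φ B * ZZ x y q b.swap a.swap α β w * (φ B)⁻¹) * (φ A)⁻¹ := by
      rw [map_mul]
      group
    rw [e, hB, hA]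
    simp only [mul_apply2]
    congr 1 <;> ring

lemma yb_conj (hab : Ind a b) (hφ : Phi x a b φ) (m : SL2 F) (w : W) :
    (φ m)⁻¹ * y b w * φ m = ZZ x y q a b (-(E m 0 1)) (E m 0 0) w := by
  have h := ZZ_phi hs hab hφ m⁻¹ 0 1 w
  rw [ZZ_zero_left hs hab, one_smul, map_inv, inv_inv, inv01, inv00, inv11] at h
  simpa using h

lemma ya_conj (hab : Ind a b) (hφ : Phi x a b φ) (m : SL2 F) (w : W) :
    (φ m)⁻¹ * y a w * φ m = ZZ x y q a b (E m 1 1) (-(E m 1 0)) w := by
  have h := ZZ_phi hs hab hφ m⁻¹ 1 0 w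
  rw [ZZ_zero_right hs hab, one_smul, map_inv, inv_inv, inv00, inv10] at h
  simpa using h

lemma yb'_conj (hab : Ind a b) (hφ : Phi x a b φ) (m : SL2 F) (w : W) :
    (φ m)⁻¹ * y b.swap w * φ m = ZZ x y q b.swap a.swap (E m 1 1) (E m 1 0) w := by
  have h := ZZ_phi_dual hs hab hφ m⁻¹ 1 0 w
  rw [ZZ_zero_right hs hab.swap, one_smul, map_inv, inv_inv, inv00, inv10] at h
  simpa using h

lemma ya'_conj (hab : Ind a b) (hφ : Phi x a b φ) (m : SL2 F) (w : W) :
    (φ m)⁻¹ * y a.swap w * φ m = ZZ x y q b.swap a.swap (E m 0 1) (E m 0 0) w := by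
  have h := ZZ_phi_dual hs hab hφ m⁻¹ 0 1 w
  rw [ZZ_zero_left hs hab.swap, one_smul, map_inv, inv_inv, inv01, inv11] at h
  simpa using h


/-- Sections of `SL₂` for the long root elements. -/
structure SecP {ι F Γ : Type*} [Field F] [Group Γ] (x : ι ⊕ ι → ι ⊕ ι → F → Γ) (Φ : ι ⊕ ι → ι ⊕ ι → SL2 F →* Γ) : Prop where
  phi : ∀ {a b : ι ⊕ ι}, Ind a b → Phi x a b (Φ a b)

end Cfsg.Agent.Lib.BSys
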