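import Mathlib
import Cfsg.Agent.Lib.SpinCell
import Cfsg.Agent.Lib.BSys

/-!
# Coset enumeration for groups with long and short root elements
-/

set_option autoImplicit false
set_option linter.unusedSectionVars false
set_option linter.unusedVariables false

namespace Cfsg.Agent.Lib.BCell

open Subgroup QuadraticMap Cfsg.Agent.Lib.SL2Core Cfsg.Agent.Lib.SL2Bor Cfsg.Agent.Lib.StK Cfsg.Agent.Lib.SpinSys
  Cfsg.Agent.Lib.BSys
open Cfsg.Agent.Lib.SpinCell (rm mem_rm rm_sub ind_of_rm Lev rm_closed lev_rm_self eq_insert_rm sym_bar sym_bar' c2z r1z gen_cases n_conj)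
open scoped commutatorElement

variable {ι F W Γ : Type*} [DecidableEq ι] [Field F] [AddCommGroup W] [Module F W] [Group Γ]

local notation "E" g:max i:max j:max => ((g : SL2 F) : Matrix (Fin 2) (Fin 2) F) i j

/-- The generators of `Q`. -/
def QBs (x : ι ⊕ ι → ι ⊕ ι → F → Γ) (y : ι ⊕ ι → W → Γ) (J : Finset (ι ⊕ ι)) : Set Γ :=
  {g | ∃ c ∈ J, ∃ d ∈ J, Ind c d ∧ ∃ t, g = x c d t} ∪ {g | ∃ c ∈ J, ∃ w, g = y c w}

/-- The subgroup generated by the root elements with indices in `J`. -/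
def QB (x : ι ⊕ ι → ι ⊕ ι → F → Γ) (y : ι ⊕ ι → W → Γ) (J : Finset (ι ⊕ ι)) : Subgroup Γ := closure (QBs x y J)

/-- The generators of `U`. -/
def UBs (x : ι ⊕ ι → ι ⊕ ι → F → Γ) (y : ι ⊕ ι → W → Γ) (a : ι ⊕ ι) (J : Finset (ι ⊕ ι)) : Set Γ :=
  {g | ∃ j ∈ J, ∃ c, g = x a j c} ∪ {g | ∃ w, g = y a w}

/-- The unipotent radical of the parabolic subgroup at `a`. -/
def UB (x : ι ⊕ ι → ι ⊕ ι → F → Γ) (y : ι ⊕ ι → W → Γ) (a : ι ⊕ ι) (J : Finset (ι ⊕ ι)) : Subgroup Γ := closure (UBs x y a J)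

/-- The parabolic subgroup at `a`. -/
def PB (x : ι ⊕ ι → ι ⊕ ι → F → Γ) (y : ι ⊕ ι → W → Γ) (a : ι ⊕ ι) (J : Finset (ι ⊕ ι)) : Subgroup Γ := UB x y a J ⊔ QB x y J

section Sub

variable {x : ι ⊕ ι → ι ⊕ ι → F → Γ} {y : ι ⊕ ι → W → Γ} {q : QuadraticForm F W}

lemma x_mem_QB {J : Finset (ι ⊕ ι)} {c d : ι ⊕ ι} (hc : c ∈ J) (hd : d ∈ J) (h : Ind c d) (t : F) : x c d t ∈ QB x y J :=
  subset_closure (Or.inl ⟨c, hc, d, hd, h, t, rfl⟩)

lemma y_mem_QB {J : Finset (ι ⊕ ι)} {c : ι ⊕ ι} (hc : c ∈ J) (w : W) : y c w ∈ QB x y J :=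
  subset_closure (Or.inr ⟨c, hc, w, rfl⟩)

lemma x_mem_UB {J : Finset (ι ⊕ ι)} {a j : ι ⊕ ι} (hj : j ∈ J) (c : F) : x a j c ∈ UB x y a J :=
  subset_closure (Or.inl ⟨j, hj, c, rfl⟩)

lemma y_mem_UB {J : Finset (ι ⊕ ι)} {a : ι ⊕ ι} (w : W) : y a w ∈ UB x y a J :=
  subset_closure (Or.inr ⟨w, rfl⟩)

lemma QB_mono {J J' : Finset (ι ⊕ ι)} (h : J ⊆ J') : QB x y J ≤ QB x y J' :=
  closure_mono (by
    rintro _ (⟨c, hc, d, hd, hh, t, rfl⟩ | ⟨c, hc, w, rfl⟩)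
    · exact Or.inl ⟨c, h hc, d, h hd, hh, t, rfl⟩
    · exact Or.inr ⟨c, h hc, w, rfl⟩)

lemma UB_mono {a : ι ⊕ ι} {J J' : Finset (ι ⊕ ι)} (h : J ⊆ J') : UB x y a J ≤ UB x y a J' :=
  closure_mono (by
    rintro _ (⟨c, hc, t, rfl⟩ | ⟨w, rfl⟩)
    · exact Or.inl ⟨c, h hc, t, rfl⟩
    · exact Or.inr ⟨w, rfl⟩)

lemma UB_le_PB {a : ι ⊕ ι} {J : Finset (ι ⊕ ι)} : UB x y a J ≤ PB x y a J := le_sup_left
lemma QB_le_PB {a : ι ⊕ ι} {J : Finset (ι ⊕ ι)} : QB x y J ≤ PB x y a J := le_sup_right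

/-- The row group lies in `Q`. -/
lemma UB_le_QB {b : ι ⊕ ι} {J : Finset (ι ⊕ ι)} (hb : b ∈ J) : UB x y b (rm J b) ≤ QB x y J := by
  unfold UB
  rw [closure_le]
  rintro _ (⟨j, hj, c, rfl⟩ | ⟨w, rfl⟩)
  · exact x_mem_QB hb (rm_sub hj) (ind_of_rm hj) c
  · exact y_mem_QB hb w

variable (hs : SysB x y q)

include hs

lemma xa_ya {a j : ι ⊕ ι} (h : Ind a j) (c : F) (w : W) : Commute (x a j c) (y a w) :=
  hs.xy h h.1 (swap_ne a) c w

lemma UB_comm {a : ι ⊕ ι} {J : Finset (ι ⊕ ι)} (hL : Lev a J) : ∀ u ∈ UB x y a J, ∀ v ∈ UB x y a J, Commute u v := by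
  intro u hu v hv
  have h1 : ∀ t ∈ UBs x y a J, ∀ v ∈ UB x y a J, Commute t v := by
    rintro _ (⟨i, hi, c, rfl⟩ | ⟨w, rfl⟩) v hv
    · refine commute_closure ?_ v hv
      rintro _ (⟨j, hj, d, rfl⟩ | ⟨w, rfl⟩)
      · exact row hs.hD (hL.ind hi) (hL.ind hj) c d
      · exact xa_ya hs (hL.ind hi) c w
    · refine commute_closure ?_ v hv
      rintro _ (⟨j, hj, d, rfl⟩ | ⟨w', rfl⟩)
      · exact (xa_ya hs (hL.ind hj) d w).symm
      · exact ycomm hs a w w'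
  exact (commute_closure (fun t ht => (h1 t ht v hv).symm) u hu).symm

lemma QB_gen_inv {J : Finset (ι ⊕ ι)} : ∀ s ∈ QBs x y J, s⁻¹ ∈ QBs x y J := by
  rintro _ (⟨i, hi, j, hj, hij, c, rfl⟩ | ⟨i, hi, w, rfl⟩)
  · exact Or.inl ⟨i, hi, j, hj, hij, -c, (neg hs.hD hij c).symm⟩
  · exact Or.inr ⟨i, hi, -w, (yneg hs i w).symm⟩

lemma QB_conj_UB {a : ι ⊕ ι} {J : Finset (ι ⊕ ι)} (hL : Lev a J) : ∀ g ∈ QB x y J, ∀ u ∈ UB x y a J, g * u * g⁻¹ ∈ UB x y a J := by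
  have hD := hs.hD
  apply conj_closure (QB_gen_inv hs)
  rintro _ (⟨k, hk, l, hl, hkl, e, rfl⟩ | ⟨k, hk, v, rfl⟩) _ (⟨j, hj, c, rfl⟩ | ⟨w, rfl⟩)
  · by_cases hjk : j = k
    · subst hjk
      rw [c2' hD (hL.ind hj) hkl (hL.ind hl)]
      exact mul_mem (x_mem_UB hl _) (x_mem_UB hj _)
    · by_cases hjl : j = l.swap
      · subst hjl
        rw [hD.sym hkl e, c2' hD (hL.ind hj) hkl.swap (hL.ind (hL.hJ _ hk))]
        exact mul_mem (x_mem_UB (hL.hJ _ hk) _) (x_mem_UB hj _)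
      · have hc : Commute (x k l e) (x a j c) := by
          refine hD.comm hkl (hL.ind hj) ?_ e c
          rintro (⟨h, -⟩ | ⟨h, -⟩ | ⟨h, -⟩ | ⟨h, -⟩)
          · exact hL.ha (h ▸ hl)
          · exact hL.ha (h ▸ hL.hJ _ hk)
          · exact hjk h
          · exact hjl h
        rw [hc.eq, mul_inv_cancel_right]
        exact x_mem_UB hj _
  · rw [(hs.xy (a := a) hkl (fun h => hL.ha (h ▸ hl)) (fun h => hL.ha (h ▸ hL.hJ _ hk)) e w).eq, mul_inv_cancel_right]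
    exact y_mem_UB w
  · by_cases hjk : j = k
    · subst hjk
      rw [yxc hs (hL.ind hj) c v]
      exact mul_mem (inv_mem (mul_mem (y_mem_UB _) (x_mem_UB (hL.hJ _ hj) _))) (x_mem_UB hj _)
    · have hkA : k ≠ a.swap := fun h => hL.ha' (h ▸ hk)
      rw [(hs.xy (hL.ind hj) (fun h => hjk h.symm) hkA c v).symm.eq, mul_inv_cancel_right]
      exact x_mem_UB hj c
  · rw [yyc hs (hL.ind hk).symm v w, x_col hs (hL.ind hk)]
    exact mul_mem (x_mem_UB (hL.hJ _ hk) _) (y_mem_UB w)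

lemma PB_decomp {a : ι ⊕ ι} {J : Finset (ι ⊕ ι)} (hL : Lev a J) {p : Γ} (hp : p ∈ PB x y a J) :
    ∃ u ∈ UB x y a J, ∃ g ∈ QB x y J, p = u * g := by
  unfold PB at hp
  rw [sup_eq_closure] at hp
  induction hp using closure_induction with
  | mem t ht =>
    rcases ht with h | h
    · exact ⟨t, h, 1, one_mem _, by simp⟩
    · exact ⟨1, one_mem _, t, h, by simp⟩
  | one => exact ⟨1, one_mem _, 1, one_mem _, by simp⟩
  | mul p₁ p₂ _ _ h₁ h₂ =>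
    obtain ⟨u₁, hu₁, y₁, hy₁, rfl⟩ := h₁
    obtain ⟨u₂, hu₂, y₂, hy₂, rfl⟩ := h₂
    refine ⟨u₁ * (y₁ * u₂ * y₁⁻¹), mul_mem hu₁ (QB_conj_UB hs hL _ hy₁ _ hu₂), y₁ * y₂, mul_mem hy₁ hy₂, by group⟩
  | inv p _ h =>
    obtain ⟨u, hu, g, hg, rfl⟩ := h
    refine ⟨g⁻¹ * u⁻¹ * g⁻¹⁻¹, QB_conj_UB hs hL _ (inv_mem hg) _ (inv_mem hu), g⁻¹, inv_mem hg, by group⟩

/-- Splitting off the two coordinates `b, b.swap` of the row group. -/
lemma U_split {a b : ι ⊕ ι} {J : Finset (ι ⊕ ι)} (hL : Lev a J) (hb : b ∈ J) {u : Γ} (hu : u ∈ UB x y a J) :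
    ∃ r r' : F, ∃ u' ∈ UB x y a (rm J b), u = x a b r * x a b.swap r' * u' := by
  have hD := hs.hD
  have hab := hL.ind hb
  have hab' := hab.swapR
  have step : ∀ s ∈ UBs x y a J, ∀ g : Γ, (∃ r r' : F, ∃ u' ∈ UB x y a (rm J b), g = x a b r * x a b.swap r' * u') →
      (∃ r r' : F, ∃ u' ∈ UB x y a (rm J b), s * g = x a b r * x a b.swap r' * u') := by
    rintro s (⟨j, hj, c, rfl⟩ | ⟨w, rfl⟩) _ ⟨r, r', u', hu', rfl⟩
    · by_cases h1 : j = b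
      · subst h1
        exact ⟨c + r, r', u', hu', by rw [hD.add hab]; group⟩
      · by_cases h2 : j = b.swap
        · subst h2
          refine ⟨r, c + r', u', hu', ?_⟩
          have e1 := (row hD hab' hab c r).eq
          calc x a b.swap c * (x a b r * x a b.swap r' * u') = (x a b.swap c * x a b r) * x a b.swap r' * u' := by group
            _ = (x a b r * x a b.swap c) * x a b.swap r' * u' := by rw [e1]
            _ = _ := by rw [hD.add hab']; group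
        · have hj' : j ∈ rm J b := mem_rm.mpr ⟨h2, h1, hj⟩
          refine ⟨r, r', x a j c * u', mul_mem (x_mem_UB hj' c) hu', ?_⟩
          have e1 := (row hD (hL.ind hj) hab c r).eq
          have e2 := (row hD (hL.ind hj) hab' c r').eq
          calc x a j c * (x a b r * x a b.swap r' * u') = (x a j c * x a b r) * x a b.swap r' * u' := by group
            _ = x a b r * (x a j c * x a b.swap r') * u' := by rw [e1]; group
            _ = x a b r * (x a b.swap r' * x a j c) * u' := by rw [e2]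
            _ = _ := by group
    · refine ⟨r, r', y a w * u', mul_mem (y_mem_UB w) hu', ?_⟩
      have e1 := (xa_ya hs hab r w).symm.eq
      have e2 := (xa_ya hs hab' r' w).symm.eq
      calc y a w * (x a b r * x a b.swap r' * u') = (y a w * x a b r) * x a b.swap r' * u' := by group
        _ = x a b r * (y a w * x a b.swap r') * u' := by rw [e1]; group
        _ = x a b r * (x a b.swap r' * y a w) * u' := by rw [e2]
        _ = _ := by group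
  have hinv : ∀ s ∈ UBs x y a J, s⁻¹ ∈ UBs x y a J := by
    rintro _ (⟨j, hj, c, rfl⟩ | ⟨w, rfl⟩)
    · exact Or.inl ⟨j, hj, -c, (neg hD (hL.ind hj) c).symm⟩
    · exact Or.inr ⟨-w, (yneg hs a w).symm⟩
  induction hu using closure_induction_left with
  | one => exact ⟨0, 0, 1, one_mem _, by rw [zero hD hab, zero hD hab']; group⟩
  | mul_left s hs' g _ ih => exact step s hs' g ih
  | inv_mul_cancel s hs' g _ ih => exact step s⁻¹ (hinv s hs') g ih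

/-- Conjugating `Q` into a subgroup, on the kinds of generators. -/
lemma QB_conj_by {J : Finset (ι ⊕ ι)} (hJ : ∀ j ∈ J, j.swap ∈ J) {b : ι ⊕ ι} (g : Γ) (H : Subgroup Γ)
    (h1 : ∀ k ∈ rm J b, ∀ l ∈ rm J b, Ind k l → ∀ e, g * x k l e * g⁻¹ ∈ H)
    (h2 : ∀ l ∈ rm J b, ∀ e, g * x b l e * g⁻¹ ∈ H)
    (h3 : ∀ k ∈ rm J b, ∀ e, g * x k b e * g⁻¹ ∈ H)
    (h4 : ∀ k ∈ rm J b, ∀ w, g * y k w * g⁻¹ ∈ H)
    (h5 : ∀ w, g * y b w * g⁻¹ ∈ H)
    (h6 : ∀ w, g * y b.swap w * g⁻¹ ∈ H) :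
    ∀ u ∈ QB x y J, g * u * g⁻¹ ∈ H := by
  apply conj_gen
  rintro _ (⟨k, hk, l, hl, hkl, e, rfl⟩ | ⟨k, hk, w, rfl⟩)
  · have hh := gen_cases hs.hD hJ (b := b) hk hl hkl e
    rcases hh with ⟨hk', hl'⟩ | ⟨l', hl', e', he⟩ | ⟨k', hk', e', he⟩
    · exact h1 k hk' l hl' hkl e
    · rw [he]
      exact h2 l' hl' e'
    · rw [he]
      exact h3 k' hk' e'
  · by_cases e1 : k = b
    · subst e1
      exact h5 w
    · by_cases e2 : k = b.swap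
      · subst e2
        exact h6 w
      · exact h4 k (mem_rm.mpr ⟨e2, e1, hk⟩) w

end Sub

section Conj

variable {x : ι ⊕ ι → ι ⊕ ι → F → Γ} {y : ι ⊕ ι → W → Γ} {q : QuadraticForm F W} (hs : SysB x y q)

variable {φ : SL2 F →* Γ} {a b : ι ⊕ ι}

/-- The data of a coset enumeration. -/
structure CxB (x : ι ⊕ ι → ι ⊕ ι → F → Γ) (y : ι ⊕ ι → W → Γ) (a b : ι ⊕ ι) (J : Finset (ι ⊕ ι)) (φ₁ φ₂ : SL2 F →* Γ) : Prop where
  hL : Lev a J
  hb : b ∈ J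
  h₁ : Phi x a b φ₁
  h₂ : Phi x a b.swap φ₂
  hτ : ∀ (t : F) (ht : t ≠ 0), (φ₁ (borEl t ht 0))⁻¹ * φ₂ (borEl t ht 0) ∈ QB x y J
  hW : ∀ j ∈ J, ∃ ŷ ∈ QB x y J, ∃ c : F, c ≠ 0 ∧ ∀ κ : F, x a j κ = ŷ * x a b.swap (c * κ) * ŷ⁻¹

variable {J : Finset (ι ⊕ ι)} {φ₁ φ₂ : SL2 F →* Γ} (C : CxB x y a b J φ₁ φ₂)

include C

lemma CxB.hab : Ind a b := C.hL.ind C.hb
lemma CxB.hab' : Ind a b.swap := C.hab.swapR
lemma CxB.ia {j : ι ⊕ ι} (hj : j ∈ rm J b) : Ind a j := C.hL.ind (rm_sub hj)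
lemma CxB.ib {j : ι ⊕ ι} (hj : j ∈ rm J b) : Ind b j := ind_of_rm hj
lemma CxB.ib' {j : ι ⊕ ι} (hj : j ∈ rm J b) : Ind b.swap j := (ind_of_rm hj).swapL
lemma CxB.hJ' {j : ι ⊕ ι} (hj : j ∈ rm J b) : j.swap ∈ rm J b := rm_closed C.hL.hJ b j hj
lemma CxB.mem {j : ι ⊕ ι} (hj : j ∈ rm J b) : j ∈ J := rm_sub hj
lemma CxB.hb' : b.swap ∈ J := C.hL.hJ b C.hb

include hs

/-- `x b̄ a` commutes with `x a b`. -/
lemma comm_a (s t : F) : Commute (x b.swap a s) (x a b t) := by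
  have := commA hs.hD C.hab.swapR s t
  simpa using this

lemma comm12 (m m' : SL2 F) : Commute (φ₁ m) (φ₂ m') := by
  have hD := hs.hD
  have hab := C.hab
  have hab' := C.hab'
  have h1 : ∀ t, Commute (x a b.swap t) (φ₁ m) := fun t =>
    comm_section C.h₁ (fun s => row hD hab' hab t s) (fun s => (commA hD hab s t).symm) m
  have h2 : ∀ t, Commute (x b.swap a t) (φ₁ m) := fun t =>
    comm_section C.h₁ (fun s => comm_a hs C t s) (fun s => col hD hab'.symm hab.symm t s) m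
  exact comm_section C.h₂ (fun t => (h1 t).symm) (fun t => (h2 t).symm) m'

lemma comm_b'a_1 (s : F) (m : SL2 F) : Commute (x b.swap a s) (φ₁ m) :=
  comm_section C.h₁ (fun t => comm_a hs C s t) (fun t => col hs.hD C.hab'.symm C.hab.symm s t) m

lemma comm_ab'_1 (s : F) (m : SL2 F) : Commute (x a b.swap s) (φ₁ m) :=
  comm_section C.h₁ (fun t => row hs.hD C.hab' C.hab s t) (fun t => (commA hs.hD C.hab t s).symm) m

lemma comm_ba_2 (s : F) (m : SL2 F) : Commute (x b a s) (φ₂ m) :=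
  comm_section C.h₂ (fun t => commA hs.hD C.hab s t) (fun t => col hs.hD C.hab.symm C.hab'.symm s t) m

lemma comm_ab_2 (s : F) (m : SL2 F) : Commute (x a b s) (φ₂ m) :=
  comm_section C.h₂ (fun t => row hs.hD C.hab C.hab' s t) (fun t => (comm_a hs C t s).symm) m

lemma kl_comm_1 {k l : ι ⊕ ι} (hk : k ∈ rm J b) (hl : l ∈ rm J b) (hkl : Ind k l) (e : F) (m : SL2 F) :
    Commute (x k l e) (φ₁ m) :=
  comm_section C.h₁ (fun t => comm4 hs.hD hkl C.hab (C.ia hk).symm (C.ib hk).symm (C.ia hl).symm (C.ib hl).symm e t)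
    (fun t => comm4 hs.hD hkl C.hab.symm (C.ib hk).symm (C.ia hk).symm (C.ib hl).symm (C.ia hl).symm e t) m

lemma kl_comm_ab' {k l : ι ⊕ ι} (hk : k ∈ rm J b) (hl : l ∈ rm J b) (hkl : Ind k l) (e t : F) :
    Commute (x k l e) (x a b.swap t) :=
  comm4 hs.hD hkl C.hab' (C.ia hk).symm (C.ib' hk).symm (C.ia hl).symm (C.ib' hl).symm e t

lemma kl_comm_b'a {k l : ι ⊕ ι} (hk : k ∈ rm J b) (hl : l ∈ rm J b) (hkl : Ind k l) (e t : F) :
    Commute (x k l e) (x b.swap a t) :=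
  comm4 hs.hD hkl C.hab'.symm (C.ib' hk).symm (C.ia hk).symm (C.ib' hl).symm (C.ia hl).symm e t

lemma kl_comm_2 {k l : ι ⊕ ι} (hk : k ∈ rm J b) (hl : l ∈ rm J b) (hkl : Ind k l) (e : F) (m : SL2 F) :
    Commute (x k l e) (φ₂ m) :=
  comm_section C.h₂ (fun t => kl_comm_ab' hs C hk hl hkl e t) (fun t => kl_comm_b'a hs C hk hl hkl e t) m

lemma ky_ab {k : ι ⊕ ι} (hk : k ∈ rm J b) (t : F) (w : W) : Commute (y k w) (x a b t) :=
  (hs.xy C.hab (C.ib hk).symm.1 (C.ia hk).symm.2 t w).symm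

lemma ky_ba {k : ι ⊕ ι} (hk : k ∈ rm J b) (t : F) (w : W) : Commute (y k w) (x b a t) :=
  (hs.xy C.hab.symm (C.ia hk).symm.1 (C.ib hk).symm.2 t w).symm

lemma ky_ab' {k : ι ⊕ ι} (hk : k ∈ rm J b) (t : F) (w : W) : Commute (y k w) (x a b.swap t) :=
  (hs.xy C.hab' (C.ib' hk).symm.1 (C.ia hk).symm.2 t w).symm

lemma ky_b'a {k : ι ⊕ ι} (hk : k ∈ rm J b) (t : F) (w : W) : Commute (y k w) (x b.swap a t) := by
  refine (hs.xy C.hab'.symm (C.ia hk).symm.1 ?_ t w).symm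
  rw [Sum.swap_swap]
  exact (C.ib hk).symm.1

lemma ky_comm_1 {k : ι ⊕ ι} (hk : k ∈ rm J b) (w : W) (m : SL2 F) : Commute (y k w) (φ₁ m) :=
  comm_section C.h₁ (fun t => ky_ab hs C hk t w) (fun t => ky_ba hs C hk t w) m

lemma ky_comm_2 {k : ι ⊕ ι} (hk : k ∈ rm J b) (w : W) (m : SL2 F) : Commute (y k w) (φ₂ m) :=
  comm_section C.h₂ (fun t => ky_ab' hs C hk t w) (fun t => ky_b'a hs C hk t w) m

omit hs C in
lemma QB_comm {g : Γ} (h : ∀ k ∈ J, ∀ l ∈ J, Ind k l → ∀ e, Commute (x k l e) g) (h' : ∀ k ∈ J, ∀ w, Commute (y k w) g) :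
    ∀ u ∈ QB x y J, Commute u g := by
  intro u hu
  refine (commute_closure ?_ u hu).symm
  rintro _ (⟨k, hk, l, hl, hkl, e, rfl⟩ | ⟨k, hk, w, rfl⟩)
  · exact (h k hk l hl hkl e).symm
  · exact (h' k hk w).symm

/-- The torus normalizes `Q`. -/
lemma d_conj (t : F) (ht : t ≠ 0) {g : Γ} (hg : g ∈ QB x y J) : (φ₁ (borEl t ht 0))⁻¹ * g * φ₁ (borEl t ht 0) ∈ QB x y J := by
  have hD := hs.hD
  have := QB_conj_by hs C.hL.hJ (b := b) (φ₁ (borEl t ht 0))⁻¹ (QB x y J) ?_ ?_ ?_ ?_ ?_ ?_ g hg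
  · simpa using this
  · intro k hk l hl hkl e
    rw [inv_inv, (kl_comm_1 hs C hk hl hkl e _).symm.inv_left.eq, inv_mul_cancel_right]
    exact x_mem_QB (C.mem hk) (C.mem hl) hkl e
  · intro l hl e
    rw [inv_inv, col₂' hD C.hab C.h₁ (C.ia hl) (C.ib hl)]
    simp only [borEl01, borEl00, neg_zero, zero_mul, zero hD (C.ia hl), one_mul]
    exact x_mem_QB C.hb (C.mem hl) (C.ib hl) _
  · intro k hk e
    rw [inv_inv, row₂ hD C.hab C.h₁ (C.ia hk).symm.symm (C.ib hk).symm.symm]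
    simp only [borEl10, borEl11, mul_zero, zero hD (C.ia hk).symm, one_mul]
    exact x_mem_QB (C.mem hk) C.hb (C.ib hk).symm _
  · intro k hk w
    rw [inv_inv, (ky_comm_1 hs C hk w _).symm.inv_left.eq, inv_mul_cancel_right]
    exact y_mem_QB (C.mem hk) w
  · intro w
    rw [inv_inv, yb_conj hs C.hab C.h₁]
    simp only [borEl01, borEl00, neg_zero, ZZ_zero_left hs C.hab]
    exact y_mem_QB C.hb _
  · intro w
    rw [inv_inv, yb'_conj hs C.hab C.h₁]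
    simp only [borEl10, borEl11, ZZ_zero_right hs C.hab.swap]
    exact y_mem_QB C.hb' _

/-- `N4`. -/
lemma conj_W_z {m : SL2 F} (hm : E m 0 0 = 0) {w : Γ} (hw : w ∈ UB x y a.swap (rm J b)) :
    (φ₁ m)⁻¹ * w * φ₁ m ∈ QB x y J := by
  have hD := hs.hD
  have := conj_gen (φ₁ m)⁻¹ (T := UBs x y a.swap (rm J b)) (H := QB x y J) ?_ w hw
  · simpa using this
  · rintro _ (⟨k, hk, t, rfl⟩ | ⟨u, rfl⟩)
    · rw [inv_inv, sym_bar hD (C.ia hk).swapL t, r1z hD C.hab C.h₁ (C.ia (C.hJ' hk)) (C.ib (C.hJ' hk)) hm]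
      exact x_mem_QB (C.mem (C.hJ' hk)) C.hb (C.ib (C.hJ' hk)).symm _
    · rw [inv_inv, ya'_conj hs C.hab C.h₁, hm, ZZ_zero_right hs C.hab.swap]
      exact y_mem_QB C.hb' _

/-- `N6`. -/
lemma conj_U_any (m : SL2 F) {j : ι ⊕ ι} (hj : j ∈ rm J b) (κ : F) : (φ₁ m)⁻¹ * x a j κ * φ₁ m ∈ PB x y a J := by
  rw [col₁' hs.hD C.hab C.h₁ (C.ia hj) (C.ib hj)]
  exact mul_mem (UB_le_PB (x_mem_UB (C.mem hj) _)) (QB_le_PB (x_mem_QB C.hb (C.mem hj) (C.ib hj) _))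

/-- `N5`. -/
lemma conj_W_zz {m m' : SL2 F} (hm : E m 0 0 = 0) (hm' : E m' 0 0 = 0) {w : Γ} (hw : w ∈ UB x y a.swap (rm J b)) :
    (φ₁ m * φ₂ m')⁻¹ * w * (φ₁ m * φ₂ m') ∈ PB x y a J := by
  have hD := hs.hD
  have := conj_gen (φ₁ m * φ₂ m')⁻¹ (T := UBs x y a.swap (rm J b)) (H := PB x y a J) ?_ w hw
  · simpa using this
  · rintro _ (⟨k, hk, t, rfl⟩ | ⟨u, rfl⟩)
    · rw [inv_inv, n_conj, sym_bar hD (C.ia hk).swapL t, r1z hD C.hab C.h₁ (C.ia (C.hJ' hk)) (C.ib (C.hJ' hk)) hm]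
      have h1 : x k.swap b (-t * E m 0 1) = x b.swap k (-(-t * E m 0 1)) := by
        have := hD.sym (C.ib (C.hJ' hk)).symm (-t * E m 0 1)
        simpa using this
      rw [h1, c2z hD C.hab' C.h₂ (C.ia hk) (C.ib' hk) hm']
      exact UB_le_PB (x_mem_UB (C.mem hk) _)
    · rw [inv_inv, n_conj, ya'_conj hs C.hab C.h₁, hm, ZZ_zero_right hs C.hab.swap, yb_conj hs C.hab' C.h₂, hm',
        ZZ_zero_right hs C.hab']
      exact UB_le_PB (y_mem_UB _)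

omit hs C in
lemma conj_ll_z {m : SL2 F} (hm : E m 0 0 = 0) (c : F) : m⁻¹ * ll c * m = uu (-(c * (E m 0 1) ^ 2)) := by
  have hdet := det_entries m
  rw [hm] at hdet
  apply sl2_ext <;> simp [mul_apply2, inv00, inv01, inv10, inv11, hm]
  · linear_combination hdet
  · ring
  · linear_combination hdet

/-- The conjugate of `x b a` under a Weyl type section element. -/
lemma conj_ba {m : SL2 F} (hm : E m 0 0 = 0) (c : F) :
    (φ₁ m)⁻¹ * x b a c * φ₁ m = x a b (-(c * (E m 0 1) ^ 2)) := by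
  rw [← C.h₁.l, ← C.h₁.u, ← map_inv, ← map_mul, ← map_mul, conj_ll_z hm]

/-- The conjugate of `x b̄ a` under a Weyl type section element. -/
lemma conj_b'a {m : SL2 F} (hm : E m 0 0 = 0) (c : F) :
    (φ₂ m)⁻¹ * x b.swap a c * φ₂ m = x a b.swap (-(c * (E m 0 1) ^ 2)) := by
  rw [← C.h₂.l, ← C.h₂.u, ← map_inv, ← map_mul, ← map_mul, conj_ll_z hm]

/-- `N3`. -/
lemma conj_Q_zz {m m' : SL2 F} (hm : E m 0 0 = 0) (hm' : E m' 0 0 = 0) {g : Γ} (hg : g ∈ QB x y J) :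
    (φ₁ m * φ₂ m')⁻¹ * g * (φ₁ m * φ₂ m') ∈ PB x y a J := by
  have hD := hs.hD
  have hya : ∀ u, (φ₂ m')⁻¹ * y a u * φ₂ m' ∈ PB x y a J := by
    intro u
    rw [ya_conj hs C.hab' C.h₂]
    unfold ZZ
    rw [Sum.swap_swap]
    exact mul_mem (mul_mem (UB_le_PB (y_mem_UB _)) (QB_le_PB (y_mem_QB C.hb' _))) (UB_le_PB (x_mem_UB C.hb _))
  have hyb' : ∀ u, (φ₂ m')⁻¹ * y b.swap u * φ₂ m' ∈ PB x y a J := by
    intro u
    rw [yb_conj hs C.hab' C.h₂, hm', ZZ_zero_right hs C.hab']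
    exact UB_le_PB (y_mem_UB _)
  have hya' : ∀ u, (φ₂ m')⁻¹ * y a.swap u * φ₂ m' ∈ PB x y a J := by
    intro u
    rw [ya'_conj hs C.hab' C.h₂, hm', ZZ_zero_right hs C.hab'.swap, Sum.swap_swap]
    exact QB_le_PB (y_mem_QB C.hb _)
  have := QB_conj_by hs C.hL.hJ (b := b) (φ₁ m * φ₂ m')⁻¹ (PB x y a J) ?_ ?_ ?_ ?_ ?_ ?_ g hg
  · simpa using this
  · intro k hk l hl hkl e
    rw [inv_inv, n_conj, (kl_comm_1 hs C hk hl hkl e _).symm.inv_left.eq, inv_mul_cancel_right,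
      (kl_comm_2 hs C hk hl hkl e _).symm.inv_left.eq, inv_mul_cancel_right]
    exact QB_le_PB (x_mem_QB (C.mem hk) (C.mem hl) hkl e)
  · intro l hl e
    rw [inv_inv, n_conj, c2z hD C.hab C.h₁ (C.ia hl) (C.ib hl) hm, col₁' hD C.hab' C.h₂ (C.ia hl) (C.ib' hl)]
    exact mul_mem (UB_le_PB (x_mem_UB (C.mem hl) _)) (QB_le_PB (x_mem_QB C.hb' (C.mem hl) (C.ib' hl) _))
  · intro k hk e
    rw [inv_inv, n_conj, row₂ hD C.hab C.h₁ (C.ia hk) (C.ib hk)]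
    have e1 : (φ₂ m')⁻¹ * (x k a (e * E m 1 0) * x k b (e * E m 1 1)) * φ₂ m' =
        ((φ₂ m')⁻¹ * x k a (e * E m 1 0) * φ₂ m') * ((φ₂ m')⁻¹ * x k b (e * E m 1 1) * φ₂ m') := by group
    rw [e1, r1z hD C.hab' C.h₂ (C.ia hk) (C.ib' hk) hm']
    have h1 : x k b (e * E m 1 1) = x b.swap k.swap (-(e * E m 1 1)) := hD.sym (C.ib hk).symm _
    rw [h1, c2z hD C.hab' C.h₂ (C.ia (C.hJ' hk)) (C.ib' (C.hJ' hk)) hm']
    exact mul_mem (QB_le_PB (x_mem_QB (C.mem hk) C.hb' (C.ib' hk).symm _)) (UB_le_PB (x_mem_UB (C.mem (C.hJ' hk)) _))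
  · intro k hk w
    rw [inv_inv, n_conj, (ky_comm_1 hs C hk w _).symm.inv_left.eq, inv_mul_cancel_right,
      (ky_comm_2 hs C hk w _).symm.inv_left.eq, inv_mul_cancel_right]
    exact QB_le_PB (y_mem_QB (C.mem hk) w)
  · intro w
    rw [inv_inv, n_conj, yb_conj hs C.hab C.h₁, hm, ZZ_zero_right hs C.hab]
    exact hya _
  · intro w
    rw [inv_inv, n_conj, yb'_conj hs C.hab C.h₁]
    unfold ZZ
    rw [Sum.swap_swap]
    have e1 : ∀ A B D : Γ, (φ₂ m')⁻¹ * (A * B * D) * φ₂ m' =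
        ((φ₂ m')⁻¹ * A * φ₂ m') * ((φ₂ m')⁻¹ * B * φ₂ m') * ((φ₂ m')⁻¹ * D * φ₂ m') := by
      intro A B D
      group
    rw [e1]
    refine mul_mem (mul_mem (hyb' _) (hya' _)) ?_
    rw [conj_b'a hs C hm']
    exact UB_le_PB (x_mem_UB C.hb' _)

/-- `N1`. -/
lemma conj_Ub {m : SL2 F} (hm : E m 0 0 = 0) (s : F) {w : Γ} (hw : w ∈ UB x y b (rm J b)) :
    (x b.swap a s * φ₁ m)⁻¹ * w * (x b.swap a s * φ₁ m) ∈ PB x y a J := by
  have hD := hs.hD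
  have := conj_gen (x b.swap a s * φ₁ m)⁻¹ (T := UBs x y b (rm J b)) (H := PB x y a J) ?_ w hw
  · simpa using this
  · rintro _ (⟨j, hj, t, rfl⟩ | ⟨u, rfl⟩)
    · rw [inv_inv, n_conj]
      have hj' := C.hJ' hj
      have h1 : x b j t = x j.swap b.swap (-t) := hD.sym (C.ib hj) t
      have h2 := c1' hD (C.ib' hj').symm C.hab'.symm (C.ia hj').symm (-t) s
      have h3 : (x b.swap a s)⁻¹ * x b j t * x b.swap a s = x j.swap a (-t * s) * x b j t := by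
        have h4 : Commute (x j.swap a (-t * s)) (x b.swap a s) := col hD (C.ia hj').symm C.hab'.symm _ _
        have h5 : x b j t * x b.swap a s = x j.swap a (-t * s) * x b.swap a s * x b j t := by
          rw [← h1] at h2
          rw [← h2]
          group
        calc (x b.swap a s)⁻¹ * x b j t * x b.swap a s = (x b.swap a s)⁻¹ * (x b j t * x b.swap a s) := by group
          _ = (x b.swap a s)⁻¹ * (x j.swap a (-t * s) * x b.swap a s * x b j t) := by rw [h5]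
          _ = ((x b.swap a s)⁻¹ * x j.swap a (-t * s)) * x b.swap a s * x b j t := by group
          _ = (x j.swap a (-t * s) * (x b.swap a s)⁻¹) * x b.swap a s * x b j t := by rw [h4.inv_right.eq.symm]
          _ = _ := by group
      rw [h3]
      have e1 : (φ₁ m)⁻¹ * (x j.swap a (-t * s) * x b j t) * φ₁ m =
          ((φ₁ m)⁻¹ * x j.swap a (-t * s) * φ₁ m) * ((φ₁ m)⁻¹ * x b j t * φ₁ m) := by group
      rw [e1, r1z hD C.hab C.h₁ (C.ia hj') (C.ib hj') hm, c2z hD C.hab C.h₁ (C.ia hj) (C.ib hj) hm]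
      exact mul_mem (QB_le_PB (x_mem_QB (C.mem hj') C.hb (C.ib hj').symm _)) (UB_le_PB (x_mem_UB (C.mem hj) _))
    · rw [inv_inv, n_conj]
      have hsym : x b.swap a s = x a.swap b (-s) := by
        have := hD.sym C.hab'.symm s
        simpa using this
      have hia : Ind a.swap b := C.hab.swapL
      have h3 : (x b.swap a s)⁻¹ * y b u * x b.swap a s = y a.swap (s • u) * x a.swap b.swap (s * q u) * y b u := by
        rw [hsym, neg hD hia, inv_inv]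
        exact xyc hs hia s u
      rw [h3]
      have e1 : ∀ A B D : Γ, (φ₁ m)⁻¹ * (A * B * D) * φ₁ m =
          ((φ₁ m)⁻¹ * A * φ₁ m) * ((φ₁ m)⁻¹ * B * φ₁ m) * ((φ₁ m)⁻¹ * D * φ₁ m) := by
        intro A B D
        group
      rw [e1]
      have hba : x a.swap b.swap (s * q u) = x b a (-(s * q u)) := by
        have := hD.sym hia.swapR (s * q u)
        simpa using this
      rw [hba, conj_ba hs C hm, ya'_conj hs C.hab C.h₁, hm, ZZ_zero_right hs C.hab.swap, yb_conj hs C.hab C.h₁, hm,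
        ZZ_zero_right hs C.hab]
      exact mul_mem (mul_mem (QB_le_PB (y_mem_QB C.hb' _)) (UB_le_PB (x_mem_UB C.hb _))) (UB_le_PB (y_mem_UB _))

end Conj

section Cells

/-- The big cell. -/
def InA (x : ι ⊕ ι → ι ⊕ ι → F → Γ) (y : ι ⊕ ι → W → Γ) (a : ι ⊕ ι) (J : Finset (ι ⊕ ι)) (φ₁ : SL2 F →* Γ) (g : Γ) : Prop :=
  ∃ w ∈ UB x y a.swap J, ∃ (t : F) (ht : t ≠ 0), ∃ p ∈ PB x y a J, g = w * φ₁ (borEl t ht 0) * p

/-- The middle cell. -/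
def InB (x : ι ⊕ ι → ι ⊕ ι → F → Γ) (y : ι ⊕ ι → W → Γ) (a b : ι ⊕ ι) (J : Finset (ι ⊕ ι)) (φ₁ : SL2 F →* Γ) (g : Γ) : Prop :=
  ∃ u ∈ QB x y J, ∃ s : F, ∃ m : SL2 F, E m 0 0 = 0 ∧ ∃ p ∈ PB x y a J, g = u * x b.swap a s * φ₁ m * p

/-- The small cell. -/
def InC (x : ι ⊕ ι → ι ⊕ ι → F → Γ) (y : ι ⊕ ι → W → Γ) (a : ι ⊕ ι) (J : Finset (ι ⊕ ι)) (φ₁ φ₂ : SL2 F →* Γ) (g : Γ) : Prop :=
  ∃ u ∈ QB x y J, ∃ m m' : SL2 F, E m 0 0 = 0 ∧ E m' 0 0 = 0 ∧ ∃ p ∈ PB x y a J, g = u * φ₁ m * φ₂ m' * p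

/-- The union of the cells. -/
def Cell (x : ι ⊕ ι → ι ⊕ ι → F → Γ) (y : ι ⊕ ι → W → Γ) (a b : ι ⊕ ι) (J : Finset (ι ⊕ ι)) (φ₁ φ₂ : SL2 F →* Γ) (g : Γ) : Prop :=
  InA x y a J φ₁ g ∨ InB x y a b J φ₁ g ∨ InC x y a J φ₁ φ₂ g

/-- The shapes of conjugates of a root element. -/
def FormB (x : ι ⊕ ι → ι ⊕ ι → F → Γ) (y : ι ⊕ ι → W → Γ) (a b : ι ⊕ ι) (J' : Finset (ι ⊕ ι)) (u : Γ) : Prop :=
  (∃ w ∈ UB x y b J', ∃ r : F, u = w * x a b r * w⁻¹) ∨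
    (∃ r : F, ∃ y₁ ∈ QB x y J', ∃ j ∈ J', ∃ κ : F, u = x a b.swap r * (y₁ * x a j κ * y₁⁻¹)) ∨
      (∃ r : F, u = x a b.swap r)

/-- All conjugates of the root element have one of the shapes. -/
def SingB (x : ι ⊕ ι → ι ⊕ ι → F → Γ) (y : ι ⊕ ι → W → Γ) (a b : ι ⊕ ι) (J : Finset (ι ⊕ ι)) : Prop :=
  ∀ g ∈ QB x y J, ∀ e : F, FormB x y a b (rm J b) (g * x a b e * g⁻¹)

variable {x : ι ⊕ ι → ι ⊕ ι → F → Γ} {y : ι ⊕ ι → W → Γ} {q : QuadraticForm F W} (hs : SysB x y q) {a b : ι ⊕ ι} {J : Finset (ι ⊕ ι)} {φ₁ φ₂ : SL2 F →* Γ}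
  (C : CxB x y a b J φ₁ φ₂)

include hs

lemma xka_mem (hL : Lev a J) {k : ι ⊕ ι} (hk : k ∈ J) (s : F) : x k a s ∈ UB x y a.swap J := by
  rw [hs.hD.sym (hL.ind hk).symm s]
  exact x_mem_UB (hL.hJ _ hk) _

lemma w_split (C : CxB x y a b J φ₁ φ₂) {w : Γ} (hw : w ∈ UB x y a.swap J) :
    ∃ r₁ r₂ : F, ∃ w' ∈ UB x y a.swap (rm J b), w = x b.swap a r₁ * x b a r₂ * w' := by
  have hh := U_split hs C.hL.swap C.hb hw
  obtain ⟨r, r', u', hu', rfl⟩ := hh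
  refine ⟨-r, -r', u', hu', ?_⟩
  rw [sym_bar hs.hD C.hab.swapL r]
  have := sym_bar hs.hD C.hab'.swapL r'
  rw [Sum.swap_swap] at this
  rw [this]

include C

omit hs in
lemma ll_mul00 (r : F) (m : SL2 F) : E (ll r * m) 0 0 = E m 0 0 := by
  simp [mul_apply2]

omit hs in
lemma uu_ll_phi1 (r : F) (m : SL2 F) : x b a r * φ₁ m = φ₁ (ll r * m) := by
  rw [map_mul, C.h₁.l]

omit hs in
lemma uu_phi1 (r : F) (m : SL2 F) : x a b r * φ₁ m = φ₁ (uu r * m) := by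
  rw [map_mul, C.h₁.u]

omit hs in
lemma ll_phi2 (r : F) (m : SL2 F) : x b.swap a r * φ₂ m = φ₂ (ll r * m) := by
  rw [map_mul, C.h₂.l]

omit hs in
lemma uu_phi2 (r : F) (m : SL2 F) : x a b.swap r * φ₂ m = φ₂ (uu r * m) := by
  rw [map_mul, C.h₂.u]

/-- Elements of the shape `x b̄ a s * φ₁ m * p` are in a cell. -/
lemma cell_Wphi (s : F) (m : SL2 F) {p : Γ} (hp : p ∈ PB x y a J) : Cell x y a b J φ₁ φ₂ (x b.swap a s * φ₁ m * p) := by
  by_cases h0 : E m 0 0 = 0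
  · exact Or.inr (Or.inl ⟨1, one_mem _, s, m, h0, p, hp, by group⟩)
  · refine Or.inl ⟨x b.swap a s * x b a (E m 1 0 / E m 0 0), mul_mem (xka_mem hs C.hL C.hb' _) (xka_mem hs C.hL C.hb _),
      E m 0 0, h0, x a b (E m 0 1 / E m 0 0) * p, mul_mem (UB_le_PB (x_mem_UB C.hb _)) hp, ?_⟩
    have hf := factor m h0
    have h2 : φ₁ m = x b a (E m 1 0 / E m 0 0) * φ₁ (borEl (E m 0 0) h0 0) * x a b (E m 0 1 / E m 0 0) := by
      conv_lhs => rw [hf]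
      rw [map_mul, map_mul, C.h₁.u, C.h₁.l]
    rw [h2]
    group

lemma cell_phi (m : SL2 F) {p : Γ} (hp : p ∈ PB x y a J) : Cell x y a b J φ₁ φ₂ (φ₁ m * p) := by
  have := cell_Wphi hs C 0 m hp
  rwa [zero hs.hD C.hab'.symm, one_mul] at this

/-- Left multiplication by `Q`. -/
lemma cell_Q {u g : Γ} (hu : u ∈ QB x y J) (hg : Cell x y a b J φ₁ φ₂ g) : Cell x y a b J φ₁ φ₂ (u * g) := by
  rcases hg with ⟨w, hw, t, ht, p, hp, rfl⟩ | ⟨y', hy', s, m, hm, p, hp, rfl⟩ | ⟨y', hy', m, m', hm, hm', p, hp, rfl⟩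
  · refine Or.inl ⟨u * w * u⁻¹, QB_conj_UB hs C.hL.swap _ hu _ hw, t, ht,
      (φ₁ (borEl t ht 0))⁻¹ * u * φ₁ (borEl t ht 0) * p, mul_mem (QB_le_PB (d_conj hs C t ht hu)) hp, by group⟩
  · exact Or.inr (Or.inl ⟨u * y', mul_mem hu hy', s, m, hm, p, hp, by group⟩)
  · exact Or.inr (Or.inr ⟨u * y', mul_mem hu hy', m, m', hm, hm', p, hp, by group⟩)

/-- Left multiplication by the column group. -/
lemma cell_W {w g : Γ} (hw : w ∈ UB x y a.swap J) (hg : Cell x y a b J φ₁ φ₂ g) : Cell x y a b J φ₁ φ₂ (w * g) := by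
  have hD := hs.hD
  rcases hg with ⟨w', hw', t, ht, p, hp, rfl⟩ | ⟨g₀, hy, s, m, hm, p, hp, rfl⟩ | ⟨g₀, hy, m, m', hm, hm', p, hp, rfl⟩
  · exact Or.inl ⟨w * w', mul_mem hw hw', t, ht, p, hp, by group⟩
  · have hw₀ : g₀⁻¹ * w * g₀ ∈ UB x y a.swap J := by
      have := QB_conj_UB hs C.hL.swap _ (inv_mem hy) _ hw
      simpa using this
    have hh := w_split hs C hw₀
    obtain ⟨r₁, r₂, W', hW, e⟩ := hh
    have hq := conj_W_z hs C hm hW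
    have hS : Commute W' (x b.swap a s) := UB_comm hs C.hL.swap _ (UB_mono rm_sub hW) _ (xka_mem hs C.hL C.hb' s)
    have hSB : Commute (x b a r₂) (x b.swap a s) := col hD C.hab.symm C.hab'.symm _ _
    refine Or.inr (Or.inl ⟨g₀, hy, r₁ + s, ll r₂ * m, by rw [ll_mul00 C, hm], (φ₁ m)⁻¹ * W' * φ₁ m * p,
      mul_mem (QB_le_PB hq) hp, ?_⟩)
    rw [← uu_ll_phi1 C, hD.add C.hab'.symm]
    calc w * (g₀ * x b.swap a s * φ₁ m * p) = g₀ * (g₀⁻¹ * w * g₀) * x b.swap a s * φ₁ m * p := by group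
      _ = g₀ * (x b.swap a r₁ * x b a r₂ * (W' * x b.swap a s)) * φ₁ m * p := by rw [e]; group
      _ = g₀ * (x b.swap a r₁ * (x b a r₂ * x b.swap a s) * W') * φ₁ m * p := by rw [hS.eq]; group
      _ = g₀ * (x b.swap a r₁ * x b.swap a s * x b a r₂ * W') * φ₁ m * p := by rw [hSB.eq]; group
      _ = _ := by group
  · have hw₀ : g₀⁻¹ * w * g₀ ∈ UB x y a.swap J := by
      have := QB_conj_UB hs C.hL.swap _ (inv_mem hy) _ hw
      simpa using this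
    have hh := w_split hs C hw₀
    obtain ⟨r₁, r₂, W', hW, e⟩ := hh
    have hq := conj_W_zz hs C hm hm' hW
    have hA := comm_b'a_1 hs C r₁ m
    have hAB : Commute (x b a r₂) (x b.swap a r₁) := col hD C.hab.symm C.hab'.symm _ _
    refine Or.inr (Or.inr ⟨g₀, hy, ll r₂ * m, ll r₁ * m', by rw [ll_mul00 C, hm], by rw [ll_mul00 C, hm'],
      (φ₁ m * φ₂ m')⁻¹ * W' * (φ₁ m * φ₂ m') * p, mul_mem hq hp, ?_⟩)
    rw [← uu_ll_phi1 C, ← ll_phi2 C]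
    calc w * (g₀ * φ₁ m * φ₂ m' * p) = g₀ * (g₀⁻¹ * w * g₀) * φ₁ m * φ₂ m' * p := by group
      _ = g₀ * ((x b.swap a r₁ * x b a r₂) * W') * φ₁ m * φ₂ m' * p := by rw [e]
      _ = g₀ * ((x b a r₂ * x b.swap a r₁) * W') * φ₁ m * φ₂ m' * p := by rw [hAB.eq]
      _ = g₀ * x b a r₂ * (x b.swap a r₁ * W') * φ₁ m * φ₂ m' * p := by group
      _ = g₀ * x b a r₂ * x b.swap a r₁ * (φ₁ m * φ₂ m') * ((φ₁ m * φ₂ m')⁻¹ * W' * (φ₁ m * φ₂ m')) * p := by group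
      _ = g₀ * x b a r₂ * (x b.swap a r₁ * φ₁ m) * φ₂ m' * ((φ₁ m * φ₂ m')⁻¹ * W' * (φ₁ m * φ₂ m')) * p := by group
      _ = g₀ * x b a r₂ * (φ₁ m * x b.swap a r₁) * φ₂ m' * ((φ₁ m * φ₂ m')⁻¹ * W' * (φ₁ m * φ₂ m')) * p := by rw [hA.eq]
      _ = _ := by group

/-- The key factorization `NB`. -/
lemma nb {m m₂ : SL2 F} (hm : E m 0 0 = 0) (h0 : E m₂ 0 0 ≠ 0) :
    ∃ (s₁ : F) (m₁ : SL2 F) (r : Γ), E m₁ 0 0 = 0 ∧ r ∈ PB x y a J ∧ φ₁ m * φ₂ m₂ = x b.swap a s₁ * φ₁ m₁ * r := by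
  have hf := factor m₂ h0
  set d := borEl (E m₂ 0 0) h0 0 with hd
  have h2 : φ₂ m₂ = x b.swap a (E m₂ 1 0 / E m₂ 0 0) * φ₂ d * x a b.swap (E m₂ 0 1 / E m₂ 0 0) := by
    conv_lhs => rw [hf]
    rw [map_mul, map_mul, C.h₂.u, C.h₂.l]
  refine ⟨E m₂ 1 0 / E m₂ 0 0, m * d, (φ₁ d)⁻¹ * φ₂ d * x a b.swap (E m₂ 0 1 / E m₂ 0 0), ?_, ?_, ?_⟩
  · simp [mul_apply2, hm, hd]
  · exact mul_mem (QB_le_PB (C.hτ _ h0)) (UB_le_PB (x_mem_UB C.hb' _))
  · have hA := comm_b'a_1 hs C (E m₂ 1 0 / E m₂ 0 0) m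
    rw [h2, map_mul]
    calc φ₁ m * (x b.swap a (E m₂ 1 0 / E m₂ 0 0) * φ₂ d * x a b.swap (E m₂ 0 1 / E m₂ 0 0))
        = (φ₁ m * x b.swap a (E m₂ 1 0 / E m₂ 0 0)) * φ₂ d * x a b.swap (E m₂ 0 1 / E m₂ 0 0) := by group
      _ = (x b.swap a (E m₂ 1 0 / E m₂ 0 0) * φ₁ m) * φ₂ d * x a b.swap (E m₂ 0 1 / E m₂ 0 0) := by rw [hA.eq]
      _ = _ := by group

lemma cell_phi2 {m : SL2 F} (hm : E m 0 0 = 0) (m₂ : SL2 F) {p : Γ} (hp : p ∈ PB x y a J) :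
    Cell x y a b J φ₁ φ₂ (φ₁ m * φ₂ m₂ * p) := by
  by_cases h0 : E m₂ 0 0 = 0
  · exact Or.inr (Or.inr ⟨1, one_mem _, m, m₂, hm, h0, p, hp, by group⟩)
  · have hh := nb hs C hm h0
    obtain ⟨s₁, m₁, r, hm₁, hr, e⟩ := hh
    rw [e]
    exact Or.inr (Or.inl ⟨1, one_mem _, s₁, m₁, hm₁, r * p, mul_mem hr hp, by group⟩)

/-- The conjugate of a root element by `Q` applied to the small cell. -/
lemma cell_SC {y₀ : Γ} (hy₀ : y₀ ∈ QB x y J) {m m' : SL2 F} (hm : E m 0 0 = 0) (hm' : E m' 0 0 = 0) (κ : F) {p : Γ}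
    (hp : p ∈ PB x y a J) : Cell x y a b J φ₁ φ₂ (y₀ * x a b.swap κ * y₀⁻¹ * (φ₁ m * φ₂ m' * p)) := by
  have hq := conj_Q_zz hs C hm hm' (inv_mem hy₀)
  have hh := cell_phi2 hs C hm (uu κ * m') (mul_mem hq hp)
  have hc := comm_ab'_1 hs C κ m
  have e : y₀ * x a b.swap κ * y₀⁻¹ * (φ₁ m * φ₂ m' * p) =
      y₀ * (φ₁ m * φ₂ (uu κ * m') * ((φ₁ m * φ₂ m')⁻¹ * y₀⁻¹ * (φ₁ m * φ₂ m') * p)) := by
    rw [← uu_phi2 C]
    calc y₀ * x a b.swap κ * y₀⁻¹ * (φ₁ m * φ₂ m' * p)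
        = y₀ * (x a b.swap κ * φ₁ m) * φ₂ m' * ((φ₁ m * φ₂ m')⁻¹ * y₀⁻¹ * (φ₁ m * φ₂ m') * p) := by group
      _ = y₀ * (φ₁ m * x a b.swap κ) * φ₂ m' * ((φ₁ m * φ₂ m')⁻¹ * y₀⁻¹ * (φ₁ m * φ₂ m') * p) := by rw [hc.eq]
      _ = _ := by group
  rw [e]
  exact cell_Q hs C hy₀ hh

/-- The first shape on the middle cell. -/
lemma cell_U1 {m : SL2 F} (hm : E m 0 0 = 0) (s : F) {w : Γ} (hw : w ∈ UB x y b (rm J b)) (r : F) {p : Γ} (hp : p ∈ PB x y a J) :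
    Cell x y a b J φ₁ φ₂ (w * x a b r * w⁻¹ * (x b.swap a s * φ₁ m * p)) := by
  have hq := conj_Ub hs C hm s (inv_mem hw)
  have hh := cell_Wphi hs C s (uu r * m) (mul_mem hq hp)
  have hc := comm_a hs C s r
  have e : w * x a b r * w⁻¹ * (x b.swap a s * φ₁ m * p) =
      w * (x b.swap a s * φ₁ (uu r * m) * ((x b.swap a s * φ₁ m)⁻¹ * w⁻¹ * (x b.swap a s * φ₁ m) * p)) := by
    rw [← uu_phi1 C]
    calc w * x a b r * w⁻¹ * (x b.swap a s * φ₁ m * p)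
        = w * (x a b r * x b.swap a s) * φ₁ m * ((x b.swap a s * φ₁ m)⁻¹ * w⁻¹ * (x b.swap a s * φ₁ m) * p) := by group
      _ = w * (x b.swap a s * x a b r) * φ₁ m * ((x b.swap a s * φ₁ m)⁻¹ * w⁻¹ * (x b.swap a s * φ₁ m) * p) := by rw [hc.eq]
      _ = _ := by group
  rw [e]
  exact cell_Q hs C (UB_le_QB C.hb hw) hh

/-- The second shape on the middle cell. -/
lemma cell_U2 {m : SL2 F} (hm : E m 0 0 = 0) (s r : F) {y₁ : Γ} (hy₁ : y₁ ∈ QB x y (rm J b)) {j : ι ⊕ ι} (hj : j ∈ rm J b)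
    (κ : F) {p : Γ} (hp : p ∈ PB x y a J) :
    Cell x y a b J φ₁ φ₂ (x a b.swap r * (y₁ * x a j κ * y₁⁻¹) * (x b.swap a s * φ₁ m * p)) := by
  have hD := hs.hD
  have hcR : Commute y₁ (x a b.swap r) := QB_comm (fun k hk l hl hkl e => kl_comm_ab' hs C hk hl hkl e r)
    (fun k hk w => ky_ab' hs C hk r w) y₁ hy₁
  have hcS : Commute y₁ (x b.swap a s) := QB_comm (fun k hk l hl hkl e => kl_comm_b'a hs C hk hl hkl e s)
    (fun k hk w => ky_b'a hs C hk s w) y₁ hy₁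
  have hcM : Commute y₁ (φ₁ m) := QB_comm (fun k hk l hl hkl e => kl_comm_1 hs C hk hl hkl e m)
    (fun k hk w => ky_comm_1 hs C hk w m) y₁ hy₁
  have hRK : Commute (x a b.swap r) (x a j κ) := row hD C.hab' (C.ia hj) _ _
  have hP' : y₁⁻¹ * p ∈ PB x y a J := mul_mem (QB_le_PB (QB_mono rm_sub (inv_mem hy₁))) hp
  set P' := y₁⁻¹ * p with hP
  set m₂ := uu r * ll s with hm₂
  have e2 : x a b.swap r * x b.swap a s = φ₂ m₂ := by
    rw [hm₂, map_mul, C.h₂.u, C.h₂.l]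
  have hSM : y₁⁻¹ * (x b.swap a s * φ₁ m) = (x b.swap a s * φ₁ m) * y₁⁻¹ := (hcS.mul_right hcM).inv_left.eq
  have e : x a b.swap r * (y₁ * x a j κ * y₁⁻¹) * (x b.swap a s * φ₁ m * p) = y₁ * (x a j κ * (φ₁ m * φ₂ m₂) * P') := by
    calc x a b.swap r * (y₁ * x a j κ * y₁⁻¹) * (x b.swap a s * φ₁ m * p)
        = (x a b.swap r * y₁) * x a j κ * (y₁⁻¹ * (x b.swap a s * φ₁ m)) * p := by group
      _ = (y₁ * x a b.swap r) * x a j κ * ((x b.swap a s * φ₁ m) * y₁⁻¹) * p := by rw [hcR.symm.eq, hSM]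
      _ = y₁ * (x a b.swap r * x a j κ) * x b.swap a s * φ₁ m * P' := by rw [hP]; group
      _ = y₁ * (x a j κ * x a b.swap r) * x b.swap a s * φ₁ m * P' := by rw [hRK.eq]
      _ = y₁ * x a j κ * (x a b.swap r * x b.swap a s) * φ₁ m * P' := by group
      _ = y₁ * x a j κ * (φ₂ m₂ * φ₁ m) * P' := by rw [e2]; group
      _ = y₁ * x a j κ * (φ₁ m * φ₂ m₂) * P' := by rw [(comm12 hs C m m₂).symm.eq]
      _ = _ := by group
  rw [e]
  apply cell_Q hs C (QB_mono rm_sub hy₁)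
  by_cases h0 : E m₂ 0 0 = 0
  · obtain ⟨ŷ, hŷ, c, -, hK⟩ := C.hW j (C.mem hj)
    rw [hK]
    have := cell_SC hs C hŷ hm h0 (c * κ) hP'
    convert this using 1
    group
  · have hh := nb hs C hm h0
    obtain ⟨s₁, m₁, r₁, hm₁, hq, e3⟩ := hh
    rw [e3]
    have hK2 := c2' hD C.hab'.symm (C.ia hj) (C.ib' hj) s₁ κ
    have hq2 := conj_U_any hs C m₁ hj κ
    have e4 : x a j κ * (x b.swap a s₁ * φ₁ m₁ * r₁) * P' =
        x b.swap j (-(s₁ * κ)) * (x b.swap a s₁ * φ₁ m₁ * ((φ₁ m₁)⁻¹ * x a j κ * φ₁ m₁ * (r₁ * P'))) := by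
      calc x a j κ * (x b.swap a s₁ * φ₁ m₁ * r₁) * P' = (x a j κ * x b.swap a s₁ * (x a j κ)⁻¹) * (x a j κ * φ₁ m₁ * r₁) * P' := by group
        _ = _ := by rw [hK2]; group
    rw [e4]
    apply cell_Q hs C (x_mem_QB C.hb' (C.mem hj) (C.ib' hj) _)
    exact Or.inr (Or.inl ⟨1, one_mem _, s₁, m₁, hm₁, _, mul_mem hq2 (mul_mem hq hP'), by group⟩)

/-- The third shape on the middle cell. -/
lemma cell_U3 {m : SL2 F} (hm : E m 0 0 = 0) (s r : F) {p : Γ} (hp : p ∈ PB x y a J) :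
    Cell x y a b J φ₁ φ₂ (x a b.swap r * (x b.swap a s * φ₁ m * p)) := by
  have hh := cell_phi2 hs C hm (uu r * ll s) hp
  have e2 : x a b.swap r * x b.swap a s = φ₂ (uu r * ll s) := by
    rw [map_mul, C.h₂.u, C.h₂.l]
  have e : x a b.swap r * (x b.swap a s * φ₁ m * p) = φ₁ m * φ₂ (uu r * ll s) * p := by
    rw [← (comm12 hs C m (uu r * ll s)).symm.eq, ← e2]
    group
  rw [e]
  exact hh

/-- `x a b e` conjugates the small column group into the parabolic at `a.swap`. -/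
lemma z_conj_W (e : F) {W' : Γ} (hW : W' ∈ UB x y a.swap (rm J b)) : x a b e * W' * (x a b e)⁻¹ ∈ PB x y a.swap J := by
  have hD := hs.hD
  refine conj_gen (x a b e) (T := UBs x y a.swap (rm J b)) ?_ W' hW
  rintro _ (⟨k, hk, t, rfl⟩ | ⟨u, rfl⟩)
  · rw [sym_bar hD (C.ia hk).swapL t, c2' hD (C.ia (C.hJ' hk)).symm C.hab (C.ib (C.hJ' hk)).symm]
    refine mul_mem (QB_le_PB (x_mem_QB (C.mem (C.hJ' hk)) C.hb (C.ib (C.hJ' hk)).symm _)) (UB_le_PB ?_)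
    exact xka_mem hs C.hL (C.mem (C.hJ' hk)) _
  · rw [hD.sym C.hab e, xyc hs C.hab.swap (-e) u, Sum.swap_swap]
    exact mul_mem (mul_mem (QB_le_PB (y_mem_QB C.hb' _)) (UB_le_PB (xka_mem hs C.hL C.hb' _))) (UB_le_PB (y_mem_UB _))

lemma cell_PD' {h g : Γ} (hh : h ∈ PB x y a.swap J) (hg : Cell x y a b J φ₁ φ₂ g) : Cell x y a b J φ₁ φ₂ (h * g) := by
  have hd := PB_decomp hs C.hL.swap hh
  obtain ⟨u, hu, g₀, hy, rfl⟩ := hd
  rw [mul_assoc]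
  exact cell_W hs C hu (cell_Q hs C hy hg)

/-- The root element `x a b e` on the cells. -/
lemma cell_Z (hS : SingB x y a b J) (e : F) {g : Γ} (hg : Cell x y a b J φ₁ φ₂ g) : Cell x y a b J φ₁ φ₂ (x a b e * g) := by
  rcases hg with ⟨w, hw, t, ht, p, hp, rfl⟩ | ⟨g₀, hy, s, m, hm, p, hp, rfl⟩ | ⟨g₀, hy, m, m', hm, hm', p, hp, rfl⟩
  · have hh := w_split hs C hw
    obtain ⟨r₁, r₂, W', hW, rfl⟩ := hh
    have hcA := comm_a hs C r₁ e
    have hBW : Commute W' (x b a r₂) := UB_comm hs C.hL.swap _ (UB_mono rm_sub hW) _ (xka_mem hs C.hL C.hb r₂)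
    have e1 : x a b e * (x b.swap a r₁ * x b a r₂ * W' * φ₁ (borEl t ht 0) * p) =
        x b.swap a r₁ * ((x a b e * W' * (x a b e)⁻¹) * (φ₁ (uu e * (ll r₂ * borEl t ht 0)) * p)) := by
      rw [map_mul, map_mul, C.h₁.u, C.h₁.l]
      calc x a b e * (x b.swap a r₁ * x b a r₂ * W' * φ₁ (borEl t ht 0) * p)
          = (x a b e * x b.swap a r₁) * (x b a r₂ * W') * φ₁ (borEl t ht 0) * p := by group
        _ = (x b.swap a r₁ * x a b e) * (W' * x b a r₂) * φ₁ (borEl t ht 0) * p := by rw [hcA.symm.eq, hBW.symm.eq]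
        _ = _ := by group
    rw [e1]
    exact cell_W hs C (xka_mem hs C.hL C.hb' _) (cell_PD' hs C (z_conj_W hs C e hW) (cell_phi hs C _ hp))
  · have e1 : x a b e * (g₀ * x b.swap a s * φ₁ m * p) = g₀ * ((g₀⁻¹ * x a b e * g₀⁻¹⁻¹) * (x b.swap a s * φ₁ m * p)) := by group
    rw [e1]
    apply cell_Q hs C hy
    rcases hS g₀⁻¹ (inv_mem hy) e with ⟨w, hw, r, he⟩ | ⟨r, y₁, hy₁, j, hj, κ, he⟩ | ⟨r, he⟩
    · rw [he]
      exact cell_U1 hs C hm s hw r hp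
    · rw [he]
      exact cell_U2 hs C hm s r hy₁ hj κ hp
    · rw [he]
      exact cell_U3 hs C hm s r hp
  · obtain ⟨ŷ, hŷ, c, -, hK⟩ := C.hW b C.hb
    have e1 : x a b e * (g₀ * φ₁ m * φ₂ m' * p) =
        g₀ * ((g₀⁻¹ * ŷ) * x a b.swap (c * e) * (g₀⁻¹ * ŷ)⁻¹ * (φ₁ m * φ₂ m' * p)) := by
      rw [hK]
      group
    rw [e1]
    exact cell_Q hs C hy (cell_SC hs C (mul_mem (inv_mem hy) hŷ) hm hm' (c * e) hp)

/-- Every element of the group generated over `J ∪ {a, ā}` lies in a cell. -/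
theorem cell_all (hS : SingB x y a b J) {g : Γ} (hg : g ∈ QB x y (insert a (insert a.swap J))) : Cell x y a b J φ₁ φ₂ g := by
  have hD := hs.hD
  have hr : ∀ j ∈ J, ∀ (t : F) (g : Γ), Cell x y a b J φ₁ φ₂ g → Cell x y a b J φ₁ φ₂ (x a j t * g) := by
    intro j hj t g hg
    obtain ⟨ŷ, hy, c, -, hK⟩ := C.hW j hj
    obtain ⟨ŷ', hy', c', hc', hK'⟩ := C.hW b C.hb
    have e1 : x a j t * g = (ŷ * ŷ'⁻¹) * (x a b (c * t / c') * ((ŷ * ŷ'⁻¹)⁻¹ * g)) := by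
      rw [hK, hK', show c' * (c * t / c') = c * t by field_simp]
      group
    rw [e1]
    have hyy : ŷ * ŷ'⁻¹ ∈ QB x y J := mul_mem hy (inv_mem hy')
    exact cell_Q hs C hyy (cell_Z hs C hS _ (cell_Q hs C (inv_mem hyy) hg))
  have hgen : ∀ s ∈ QBs x y (insert a (insert a.swap J)), ∀ (g : Γ),
      Cell x y a b J φ₁ φ₂ g → Cell x y a b J φ₁ φ₂ (s * g) := by
    rintro s (⟨c, hc, d, hd, hcd, t, rfl⟩ | ⟨c, hc, w, rfl⟩) g hg
    · simp only [Finset.mem_insert] at hc hd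
      rcases hc with rfl | rfl | hc
      · rcases hd with rfl | rfl | hd
        · exact absurd rfl hcd.1
        · exact absurd (by simp) hcd.2
        · exact hr d hd t g hg
      · rcases hd with rfl | rfl | hd
        · exact absurd (by simp) hcd.2
        · exact absurd rfl hcd.1
        · exact cell_W hs C (x_mem_UB hd _) hg
      · rcases hd with rfl | rfl | hd
        · exact cell_W hs C (xka_mem hs C.hL hc _) hg
        · rw [sym_bar' hD hcd t]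
          exact hr _ (C.hL.hJ _ hc) _ g hg
        · exact cell_Q hs C (x_mem_QB hc hd hcd t) hg
    · simp only [Finset.mem_insert] at hc
      rcases hc with rfl | rfl | hc
      · have e0 := hs.xy3 C.hab 1 w
        rw [one_smul, one_mul, commutatorElement_def] at e0
        have e1 : y c w * g = x c b 1 * (y b w * (x c b (-1) * (y b (-w) * (x c b.swap (-(q w)) * g)))) := by
          rw [neg hD C.hab, yneg hs, neg hD C.hab']
          have e2 : y c w = x c b 1 * y b w * (x c b 1)⁻¹ * (y b w)⁻¹ * (x c b.swap (q w))⁻¹ := by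
            rw [e0]
            group
          conv_lhs => rw [e2]
          group
        rw [e1]
        exact hr b C.hb _ _ (cell_Q hs C (y_mem_QB C.hb w) (hr b C.hb _ _ (cell_Q hs C (y_mem_QB C.hb _) (hr _ C.hb' _ _ hg))))
      · exact cell_W hs C (y_mem_UB w) hg
      · exact cell_Q hs C (y_mem_QB hc w) hg
  induction hg using closure_induction_left with
  | one =>
    have := cell_phi hs C 1 (one_mem _)
    simpa using this
  | mul_left s hs' g _ ih => exact hgen s hs' g ih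
  | inv_mul_cancel s hs' g _ ih => exact hgen s⁻¹ (QB_gen_inv hs s hs') g ih

end Cells

end Cfsg.Agent.Lib.BCell
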