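import Mathlib
import Cfsg.Agent.Lib.RangeMod

/-!
# Transfer arguments for a Sylow subgroup of prime order

`x` of order `p`, generating a Sylow `p`-subgroup of `G`; `W` a `k G`-module in characteristic `p` with
`(x - 1) ^ (p - 1) = 0`.  If `X ∈ W` is fixed by `x`, spans a line stable under the normalizer, and does not lie in
the image of `(x - 1)^3`, then `(x - 1)^3` vanishes on the span of the `G`-conjugates of `X`.  If moreover the
characters of the normalizer on the line have exponent `e` with `2 e ≤ p - 2`, then the line is `G`-stable.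
-/

set_option autoImplicit false
set_option linter.style.haveILetI false
set_option linter.unusedSectionVars false
set_option linter.unusedVariables false

namespace Cfsg.Agent.Lib.BTate

open Subgroup Cfsg.Agent.Lib.RangeMod Module

variable {G : Type*} [Group G] [Fintype G] [DecidableEq G] {k : Type*} [Field k]
  {W : Type*} [AddCommGroup W] [Module k W] [FiniteDimensional k W]
  {p : ℕ} [hp : Fact p.Prime] [CharP k p]

/-- Elements in the span of the conjugates. -/
def spn (σ : G →* Module.End k W) (X : W) : Submodule k W := Submodule.span k (Set.range fun g : G => σ g X)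

theorem spn_stable (σ : G →* Module.End k W) (X : W) (g : G) {m : W} (hm : m ∈ spn σ X) : σ g m ∈ spn σ X := by
  unfold spn at hm ⊢
  induction hm using Submodule.span_induction with
  | mem a ha =>
    obtain ⟨h, rfl⟩ := ha
    apply Submodule.subset_span
    exact ⟨g * h, by simp [map_mul, Module.End.mul_apply]⟩
  | zero => simp
  | add a b _ _ ha hb =>
    rw [map_add]
    exact Submodule.add_mem _ ha hb
  | smul c a _ ha =>
    rw [map_smul]
    exact Submodule.smul_mem _ _ ha

theorem mem_spn_self (σ : G →* Module.End k W) (X : W) : X ∈ spn σ X := by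
  apply Submodule.subset_span
  exact ⟨1, by simp⟩

theorem yy_stable (σ : G →* Module.End k W) (X : W) (x : G) {m : W} (hm : m ∈ spn σ X) : yy σ x m ∈ spn σ X := by
  unfold yy
  rw [LinearMap.sub_apply, Module.End.one_apply]
  exact Submodule.sub_mem _ (spn_stable σ X x hm) hm

theorem yy_pow_stable (σ : G →* Module.End k W) (X : W) (x : G) {m : W} (hm : m ∈ spn σ X) (i : ℕ) :
    (yy σ x ^ i) m ∈ spn σ X := by
  induction i with
  | zero => simpa using hm
  | succ i ih =>
    rw [pow_succ', Module.End.mul_apply]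
    exact yy_stable σ X x ih

/-- The number of cosets fixed by `x` is invertible. -/
theorem fix_card_ne {x : G} (hx : orderOf x = p) (hidx : ¬ p ∣ (zpowers x).index) [Fintype (G ⧸ zpowers x)]
    [DecidableEq (G ⧸ zpowers x)] :
    ((Finset.univ.filter (fun q : G ⧸ zpowers x => x • q = q)).card : k) ≠ 0 := by
  classical
  set Fix := Finset.univ.filter (fun q : G ⧸ zpowers x => x • q = q) with hFix
  have hcard : Nat.card (G ⧸ zpowers x) ≡ Nat.card (MulAction.fixedPoints (zpowers x) (G ⧸ zpowers x)) [MOD p] := by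
    have hpg : IsPGroup p (zpowers x) := by
      apply IsPGroup.of_card (n := 1)
      rw [Nat.card_zpowers, hx, pow_one]
    exact hpg.card_modEq_card_fixedPoints _
  have hfixcard : Nat.card (MulAction.fixedPoints (zpowers x) (G ⧸ zpowers x)) = Fix.card := by
    rw [Nat.card_eq_fintype_card, ← Fintype.card_coe]
    refine Fintype.card_congr (Equiv.subtypeEquivRight fun q => ?_)
    simp only [MulAction.mem_fixedPoints, hFix, Finset.mem_filter, Finset.mem_univ, true_and]
    constructor
    · intro h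
      exact h ⟨x, mem_zpowers x⟩
    · intro h u
      obtain ⟨i, hi⟩ := Subgroup.mem_zpowers_iff.1 u.2
      have : ∀ i : ℤ, (x ^ i) • q = q := by
        intro i
        exact (MulAction.mem_stabilizer_iff (G := G) (a := q)).1
          (Subgroup.zpow_mem _ ((MulAction.mem_stabilizer_iff).2 h) i)
      have h5 := this i
      rw [hi] at h5
      exact h5
  rw [hfixcard] at hcard
  intro hcast
  rw [CharP.cast_eq_zero_iff k p] at hcast
  apply hidx
  have h10 : Nat.card (G ⧸ zpowers x) ≡ 0 [MOD p] := hcard.trans (Nat.modEq_zero_iff_dvd.2 hcast)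
  rw [Subgroup.index]
  exact Nat.modEq_zero_iff_dvd.1 h10

/-- **The transfer**: the vectors fixed by `x` in the span of the conjugates of `X` are the multiples of `X`. -/
theorem fix_span (σ : G →* Module.End k W) {x : G} (hx : orderOf x = p) (hidx : ¬ p ∣ (zpowers x).index)
    (hy : (yy σ x) ^ (p - 1) = 0) {X : W} (hX0 : X ≠ 0) (hXfix : yy σ x X = 0)
    (hsemi : ∀ n ∈ normalizer (zpowers x : Set G), ∃ c : k, c ≠ 0 ∧ σ n X = c • X)
    (hsep : X ∉ LinearMap.range ((yy σ x) ^ 3)) {m : W} (hm : m ∈ spn σ X) (hym : yy σ x m = 0) : ∃ a : k, m = a • X := by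
  classical
  set y := yy σ x with hydef
  -- the depth of `X`
  let Sd : ℕ → Prop := fun i => X ∈ LinearMap.range (y ^ i)
  have hS0 : Sd 0 := ⟨X, by simp⟩
  have hS0' := Nat.findGreatest_spec (P := Sd) (m := 0) (n := 2) (Nat.zero_le _) hS0
  set i₀ := Nat.findGreatest Sd 2 with hi₀
  have hi₀2 : i₀ ≤ 2 := Nat.findGreatest_le 2
  obtain ⟨u, hu⟩ := hS0'
  have hXn : X ∉ LinearMap.range (y ^ (i₀ + 1)) := by
    intro h
    by_cases h3 : i₀ + 1 ≤ 2
    · have h5 := Nat.le_findGreatest (P := Sd) (m := i₀ + 1) (n := 2) h3 h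
      omega
    · have h6 : i₀ + 1 = 3 := by omega
      rw [h6] at h
      exact hsep h
  obtain ⟨l0, hl0, hl0'⟩ := Submodule.exists_le_ker_of_notMem hXn
  let l : W →ₗ[k] k := (l0 X)⁻¹ • l0
  have hlX : l X = 1 := by
    simp only [l, LinearMap.smul_apply, smul_eq_mul]
    exact inv_mul_cancel₀ hl0
  have hl : ∀ v, l ((y ^ (i₀ + 1)) v) = 0 := by
    intro v
    have : (y ^ (i₀ + 1)) v ∈ LinearMap.ker l0 := hl0' ⟨v, rfl⟩
    simp only [l, LinearMap.smul_apply]
    rw [LinearMap.mem_ker.1 this, smul_zero]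
  have hgz : (y ^ (i₀ + 1)) u = 0 := by
    rw [pow_succ', Module.End.mul_apply, hu, hXfix]
  set φ := phi y l u i₀ with hφdef
  have hφy : φ * y = y * φ := phi_comm y l u i₀ hl hgz
  have hφx : φ * σ x = σ x * φ := by
    have : σ x = y + 1 := by rw [hydef]; simp [yy]
    rw [this, mul_add, add_mul, hφy, mul_one, one_mul]
  have hφu := comm_of_comm_x (ρ := σ) hx hφx
  have hφF : ∀ v ∈ Fx σ x, φ v = l v • X := by
    intro v hv
    rw [hφdef, phi_fix y l u i₀ hv, hu]
  -- the relative trace
  let _ : Fintype (G ⧸ zpowers x) := Fintype.ofFinite _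
  set Z := trf σ (zpowers x) φ with hZ
  have hZcomm : ∀ h, Z * σ h = σ h * Z := fun h => trf_comm hφu h
  set Fix := Finset.univ.filter (fun q : G ⧸ zpowers x => x • q = q) with hFix
  have hIm : ImN σ x p = ⊥ := by
    unfold ImN
    rw [nrm_eq, ← hydef, hy]
    exact LinearMap.range_zero
  have hmod : ∀ v ∈ Fx σ x, Z v = ∑ q ∈ Fix, tq σ (zpowers x) φ q v := by
    intro v hv
    have h1 := trf_mod hx hφu hv
    rw [hIm, Submodule.mem_bot, sub_eq_zero] at h1
    exact h1
  have hinvN : ∀ q ∈ Fix, q.out⁻¹ ∈ normalizer (zpowers x : Set G) := fun q hq =>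
    Subgroup.inv_mem _ (out_mem_normalizer hx (Finset.mem_filter.1 hq).2)
  have hN : ∀ q ∈ Fix, q.out ∈ normalizer (zpowers x : Set G) := fun q hq =>
    out_mem_normalizer hx (Finset.mem_filter.1 hq).2
  have hXF : X ∈ Fx σ x := hXfix
  -- the image of the fixed space is in the line
  have hline : ∀ v ∈ Fx σ x, ∃ a : k, Z v = a • X := by
    intro v hv
    have h5 : ∀ q ∈ Fix, ∃ a : k, tq σ (zpowers x) φ q v = a • X := by
      intro q hq
      obtain ⟨c, -, hc⟩ := hsemi _ (hN q hq)
      refine ⟨l (σ q.out⁻¹ v) * c, ?_⟩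
      unfold tq
      rw [Module.End.mul_apply, Module.End.mul_apply, hφF _ (rho_fx_mem (hinvN q hq) hv), map_smul, hc, smul_smul]
    choose! a ha using h5
    refine ⟨∑ q ∈ Fix, a q, ?_⟩
    rw [hmod v hv, Finset.sum_smul]
    exact Finset.sum_congr rfl ha
  -- the value at `X`
  have hZX : Z X = (Fix.card : k) • X := by
    have h6 : ∀ q ∈ Fix, tq σ (zpowers x) φ q X = X := by
      intro q hq
      obtain ⟨c, hc0, hc⟩ := hsemi _ (hN q hq)
      have h7 : σ q.out⁻¹ X = c⁻¹ • X := by
        have h8 : σ q.out⁻¹ (σ q.out X) = X := by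
          rw [← Module.End.mul_apply, ← map_mul, inv_mul_cancel, map_one, Module.End.one_apply]
        rw [hc, map_smul] at h8
        rw [eq_inv_smul_iff₀ hc0]
        exact h8
      unfold tq
      rw [Module.End.mul_apply, Module.End.mul_apply, h7, map_smul, hφF X hXF, hlX, one_smul, map_smul, hc, smul_smul,
        inv_mul_cancel₀ hc0, one_smul]
    rw [hmod X hXF, Finset.sum_congr rfl h6, Finset.sum_const, Nat.cast_smul_eq_nsmul]
  have hκ : (Fix.card : k) ≠ 0 := fix_card_ne hx hidx
  -- on the span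
  have hZspan : ∀ m ∈ spn σ X, Z m = (Fix.card : k) • m := by
    intro m hm
    unfold spn at hm
    induction hm using Submodule.span_induction with
    | mem a ha =>
      obtain ⟨g, rfl⟩ := ha
      show Z (σ g X) = _
      rw [← Module.End.mul_apply, hZcomm, Module.End.mul_apply, hZX, map_smul]
    | zero => simp
    | add a b _ _ ha hb => rw [map_add, ha, hb, smul_add]
    | smul c a _ ha => rw [map_smul, ha, smul_comm]
  -- the fixed vectors in the span
  have hfixspan : ∀ m ∈ spn σ X, y m = 0 → ∃ a : k, m = a • X := by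
    intro m hm hym
    obtain ⟨a, ha⟩ := hline m hym
    refine ⟨(Fix.card : k)⁻¹ * a, ?_⟩
    have h1 := hZspan m hm
    rw [ha] at h1
    rw [mul_smul, h1, smul_smul, inv_mul_cancel₀ hκ, one_smul]
  exact hfixspan m hm hym

/-- **The transfer**: `(x - 1)^3` vanishes on the span of the conjugates. -/
theorem cube_vanish (σ : G →* Module.End k W) {x : G} (hx : orderOf x = p) (hidx : ¬ p ∣ (zpowers x).index)
    (hy : (yy σ x) ^ (p - 1) = 0) {X : W} (hX0 : X ≠ 0) (hXfix : yy σ x X = 0)
    (hsemi : ∀ n ∈ normalizer (zpowers x : Set G), ∃ c : k, c ≠ 0 ∧ σ n X = c • X)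
    (hsep : X ∉ LinearMap.range ((yy σ x) ^ 3)) {m : W} (hm : m ∈ spn σ X) : (yy σ x ^ 3) m = 0 := by
  classical
  set y := yy σ x with hydef
  have hfixspan : ∀ m ∈ spn σ X, y m = 0 → ∃ a : k, m = a • X := fun m hm hym =>
    fix_span σ hx hidx hy hX0 hXfix hsemi hsep hm hym
  -- conclusion
  by_contra hne
  have hp1 : ∃ i, (y ^ (i + 3)) m ≠ 0 ∧ (y ^ (i + 3 + 1)) m = 0 := by
    have hex : ∃ i, (y ^ (i + 3 + 1)) m = 0 := by
      refine ⟨p, ?_⟩
      have : y ^ (p + 3 + 1) = y ^ (p - 1) * y ^ 5 := by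
        rw [← pow_add]
        congr 1
        have := hp.out.two_le
        omega
      rw [this, hy, zero_mul]
      rfl
    classical
    set i := Nat.find hex with hi
    refine ⟨i, ?_, Nat.find_spec hex⟩
    rcases Nat.eq_zero_or_pos i with h0 | h0
    · rw [h0]
      simpa using hne
    · have h1 := Nat.find_min hex (m := i - 1) (by omega)
      have h2 : i - 1 + 3 + 1 = i + 3 := by omega
      rwa [h2] at h1
  obtain ⟨i, hi1, hi2⟩ := hp1
  have hmem := yy_pow_stable σ X x hm (i + 3)
  have hyz : y ((y ^ (i + 3)) m) = 0 := by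
    rw [← Module.End.mul_apply, ← pow_succ']
    exact hi2
  obtain ⟨a, ha⟩ := hfixspan _ hmem hyz
  have ha0 : a ≠ 0 := by
    rintro rfl
    rw [zero_smul] at ha
    exact hi1 ha
  apply hsep
  refine ⟨a⁻¹ • (y ^ i) m, ?_⟩
  rw [map_smul, ← Module.End.mul_apply, ← pow_add, add_comm 3 i, ha, smul_smul, inv_mul_cancel₀ ha0, one_smul]

section Line

/-- Sums of a function over the orbits of a free action. -/
theorem sum_eq_zero_of_orbit {H Ω A : Type*} [Group H] [Fintype H] [MulAction H Ω] [DecidableEq Ω] [AddCommMonoid A]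
    (f : Ω → A) (S : Finset Ω) (hS : ∀ q ∈ S, ∀ u : H, u • q ∈ S) (hfree : ∀ q ∈ S, ∀ u : H, u • q = q → u = 1)
    (hf : ∀ q ∈ S, ∑ u : H, f (u • q) = 0) : ∑ q ∈ S, f q = 0 := by
  classical
  induction S using Finset.strongInduction with
  | H S ih =>
    rcases S.eq_empty_or_nonempty with rfl | ⟨q₀, hq₀⟩
    · simp
    set O : Finset Ω := Finset.univ.image (fun u : H => u • q₀) with hO
    have hOS : O ⊆ S := by
      intro q hq
      obtain ⟨u, -, rfl⟩ := Finset.mem_image.1 hq
      exact hS _ hq₀ u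
    have hq₀O : q₀ ∈ O := Finset.mem_image.2 ⟨1, Finset.mem_univ _, one_smul _ _⟩
    have hlt : S \ O ⊂ S := by
      refine Finset.ssubset_iff_subset_ne.2 ⟨Finset.sdiff_subset, ?_⟩
      intro h
      have : q₀ ∈ S \ O := by rw [h]; exact hq₀
      exact (Finset.mem_sdiff.1 this).2 hq₀O
    have hstable : ∀ q ∈ S \ O, ∀ u : H, u • q ∈ S \ O := by
      intro q hq u
      obtain ⟨h1, h2⟩ := Finset.mem_sdiff.1 hq
      refine Finset.mem_sdiff.2 ⟨hS q h1 u, ?_⟩
      intro h3
      obtain ⟨v, -, hv⟩ := Finset.mem_image.1 h3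
      apply h2
      refine Finset.mem_image.2 ⟨u⁻¹ * v, Finset.mem_univ _, ?_⟩
      show (u⁻¹ * v) • q₀ = q
      rw [mul_smul, hv, inv_smul_smul]
    have hrest := ih _ hlt hstable (fun q hq u hu => hfree q (Finset.mem_sdiff.1 hq).1 u hu)
      (fun q hq => hf q (Finset.mem_sdiff.1 hq).1)
    rw [← Finset.sum_sdiff hOS, hrest, zero_add, hO, Finset.sum_image]
    · exact hf q₀ hq₀
    · intro u _ v _ huv
      have huv' : u • q₀ = v • q₀ := huv
      have : (v⁻¹ * u) • q₀ = q₀ := by rw [mul_smul, huv', inv_smul_smul]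
      have h1 := hfree q₀ hq₀ _ this
      rw [inv_mul_eq_one] at h1
      exact h1.symm

/-- The sum of a function over `zpowers x`. -/
theorem sum_zpowers_fun {A : Type*} [AddCommMonoid A] {x : G} (hx : orderOf x = p) [Fintype (zpowers x)] (g : G → A) :
    ∑ u : zpowers x, g u = ∑ i ∈ Finset.range p, g (x ^ i) := by
  have hfin : IsOfFinOrder x := isOfFinOrder_of_finite x
  rw [← hx, Finset.sum_range (fun i => g (x ^ i))]
  refine (Fintype.sum_equiv (finEquivZPowers hfin) _ _ fun i => ?_).symm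
  rw [finEquivZPowers_apply]

/-- Power sums in characteristic `p`. -/
theorem sum_pow_range {j : ℕ} (hj : j < p - 1) : ∑ i ∈ Finset.range p, ((i : ℕ) : k) ^ j = 0 := by
  have h1 : ∑ x : ZMod p, x ^ j = 0 := by
    have h2 := FiniteField.sum_pow_lt_card_sub_one (ZMod p) j (by rw [ZMod.card]; exact hj)
    exact h2
  have h3 : ∑ i ∈ Finset.range p, ((i : ℕ) : ZMod p) ^ j = ∑ x : ZMod p, x ^ j := by
    refine Finset.sum_bij' (fun i _ => ((i : ℕ) : ZMod p)) (fun x _ => x.val) (fun _ _ => Finset.mem_univ _)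
      (fun x _ => Finset.mem_range.2 (ZMod.val_lt x)) (fun i hi => ?_) (fun x _ => ZMod.natCast_zmod_val x) (fun _ _ => rfl)
    exact ZMod.val_cast_of_lt (Finset.mem_range.1 hi)
  have h4 := congrArg (ZMod.castHom (dvd_refl p) k) (h3.trans h1)
  rw [map_sum, map_zero] at h4
  rw [← h4]
  refine Finset.sum_congr rfl fun i _ => ?_
  simp

theorem sum_eval_range (Q : Polynomial k) (hQ : Q.natDegree < p - 1) :
    ∑ i ∈ Finset.range p, Q.eval ((i : ℕ) : k) = 0 := by
  simp_rw [Polynomial.eval_eq_sum_range]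
  rw [Finset.sum_comm]
  refine Finset.sum_eq_zero fun j hj => ?_
  rw [← Finset.mul_sum, sum_pow_range (k := k) (p := p) (by have := Finset.mem_range.1 hj; omega), mul_zero]

/-- The quadratic expansion. -/
theorem pow_apply_of_cube {y : Module.End k W} {m : W} (hm : (y ^ 3) m = 0) (i : ℕ) :
    ((y + 1) ^ i) m = m + (i : k) • y m + ((i.choose 2 : ℕ) : k) • y (y m) := by
  have h3 : y (y (y m)) = 0 := by
    have : (y ^ 3) m = y (y (y m)) := by
      simp [pow_succ, Module.End.mul_apply]
    rw [← this, hm]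
  induction i with
  | zero => simp
  | succ i ih =>
    rw [pow_succ', Module.End.mul_apply, ih, LinearMap.add_apply, Module.End.one_apply]
    simp only [map_add, map_smul, h3, smul_zero, add_zero]
    have h4 : ((i + 1).choose 2 : ℕ) = i + i.choose 2 := by
      rw [Nat.choose_succ_succ' i 1, Nat.choose_one_right]
    rw [h4]
    push_cast
    simp only [add_smul, one_smul]
    abel

theorem choose_two_mul (i : ℕ) : ((i.choose 2 : ℕ) : k) * 2 = (i : k) * ((i : k) - 1) := by
  induction i with
  | zero => simp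
  | succ i ih =>
    have h9 : ((i + 1).choose 2 : ℕ) = i + i.choose 2 := by
      rw [Nat.choose_succ_succ' i 1, Nat.choose_one_right]
    rw [h9]
    push_cast
    linear_combination ih

/-- The sum of a power of a quadratic in `i`. -/
theorem sum_pow_quad (a b c : k) {e : ℕ} (he : 2 * e < p - 1) (h2 : (2 : k) ≠ 0) :
    ∑ i ∈ Finset.range p, (a + (i : k) * b + ((i.choose 2 : ℕ) : k) * c) ^ e = 0 := by
  let Q : Polynomial k := (Polynomial.C a + Polynomial.X * Polynomial.C b +
    Polynomial.X * (Polynomial.X - 1) * Polynomial.C (c / 2)) ^ e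
  have hdeg : Q.natDegree < p - 1 := by
    have h1 : (Polynomial.C a + Polynomial.X * Polynomial.C b +
        Polynomial.X * (Polynomial.X - 1) * Polynomial.C (c / 2) : Polynomial k).natDegree ≤ 2 := by
      compute_degree
    have h3 : Q.natDegree ≤ e * 2 := by
      refine Polynomial.natDegree_pow_le_of_le _ h1
    omega
  have hQ := sum_eval_range Q hdeg
  rw [← hQ]
  refine Finset.sum_congr rfl fun i _ => ?_
  simp only [Q, Polynomial.eval_pow, Polynomial.eval_add, Polynomial.eval_mul, Polynomial.eval_C, Polynomial.eval_X,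
    Polynomial.eval_sub, Polynomial.eval_one]
  congr 2
  have h4 : ((i.choose 2 : ℕ) : k) = (i : k) * ((i : k) - 1) / 2 := by
    have h5 : ((i.choose 2 : ℕ) : k) * 2 = (i : k) * ((i : k) - 1) := by
      exact choose_two_mul i
    field_simp
    linear_combination h5
  rw [h4]
  field_simp

/-- Elements of `p`-power order in the normalizer lie in the Sylow subgroup. -/
theorem mem_zpowers_of_normalizer {x : G} (hx : orderOf x = p) (hidx : ¬ p ∣ (zpowers x).index) {y : G}
    (hy : y ∈ normalizer (zpowers x : Set G)) (hk : y ^ p = 1) : y ∈ zpowers x := by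
  have hpg : IsPGroup p (zpowers x) := by
    apply IsPGroup.of_card (n := 1)
    rw [Nat.card_zpowers, hx, pow_one]
  obtain ⟨S, hS⟩ := hpg.exists_le_sylow
  have hSP : (S : Subgroup G) = zpowers x := by
    apply le_antisymm _ hS
    have h1 := Subgroup.relIndex_mul_index hS
    have h2 : (zpowers x).relIndex (S : Subgroup G) = 1 := by
      have h3 : (zpowers x).relIndex (S : Subgroup G) ∣ Nat.card (S : Subgroup G) := by
        have := Subgroup.card_mul_index ((zpowers x).subgroupOf (S : Subgroup G))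
        exact Dvd.intro_left _ this
      obtain ⟨n, hn⟩ := IsPGroup.iff_card.1 S.isPGroup'
      rw [hn] at h3
      obtain ⟨l, -, hl⟩ := (Nat.dvd_prime_pow (Fact.out : p.Prime)).1 h3
      cases l with
      | zero => simpa using hl
      | succ l =>
        exfalso
        apply hidx
        rw [← h1, hl]
        exact Dvd.dvd.mul_right (dvd_pow_self p (Nat.succ_ne_zero l)) _
    exact Subgroup.relIndex_eq_one.1 h2
  have hZ : IsPGroup p (zpowers y) := by
    rw [IsPGroup.iff_orderOf]
    intro g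
    obtain ⟨l, -, hl⟩ := (Nat.dvd_prime_pow (Fact.out : p.Prime)).1 (orderOf_dvd_of_pow_eq_one (show y ^ p ^ 1 = 1 by simpa using hk))
    have h1 : orderOf g ∣ orderOf y := by
      rw [← Nat.card_zpowers y]
      exact orderOf_dvd_natCard g
    rw [hl] at h1
    obtain ⟨m, -, hm⟩ := (Nat.dvd_prime_pow (Fact.out : p.Prime)).1 h1
    exact ⟨m, hm⟩
  have h2 := hZ.inf_normalizer_sylow S
  have h4 : y ∈ normalizer ((S : Subgroup G) : Set G) := by
    rw [hSP]
    exact hy
  have h3 : y ∈ zpowers y ⊓ (S : Subgroup G) := by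
    rw [← h2]
    exact Subgroup.mem_inf.2 ⟨mem_zpowers y, h4⟩
  rw [← hSP]
  exact (Subgroup.mem_inf.1 h3).2

/-- **The line is stable**. -/
theorem line_stable (σ : G →* Module.End k W) {x : G} (hx : orderOf x = p) (hidx : ¬ p ∣ (zpowers x).index) {X : W}
    (hcube : ∀ m ∈ spn σ X, (yy σ x ^ 3) m = 0) {e : ℕ} (he : 1 ≤ e) (h2e : 2 * e + 2 ≤ p)
    (hsemi : ∀ n ∈ normalizer (zpowers x : Set G), ∃ c : k, c ^ e = 1 ∧ σ n X = c • X) (g : G) :
    ∃ a : k, σ g X = a • X := by
  classical
  have hp5 : 2 < p := by omega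
  have h2 : (2 : k) ≠ 0 := by
    intro h
    have h3 : ((2 : ℕ) : k) = 0 := by exact_mod_cast h
    rw [CharP.cast_eq_zero_iff k p] at h3
    have := Nat.le_of_dvd (by norm_num) h3
    omega
  set N := normalizer (zpowers x : Set G) with hNdef
  let _ : Fintype (G ⧸ N) := Fintype.ofFinite _
  let _ : Fintype (zpowers x) := Fintype.ofFinite _
  -- the function on cosets
  let F : (W →ₗ[k] k) → G ⧸ N → k := fun l q => (l (σ q.out X)) ^ e
  have hF : ∀ (l : W →ₗ[k] k) (h : G), F l (h : G ⧸ N) = (l (σ h X)) ^ e := by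
    intro l h
    have h1 : ((h : G ⧸ N)).out⁻¹ * h ∈ N := by
      rw [← QuotientGroup.eq]
      exact QuotientGroup.out_eq' _
    obtain ⟨c, hc1, hc⟩ := hsemi _ h1
    have h3 : σ h X = σ ((h : G ⧸ N)).out (σ (((h : G ⧸ N)).out⁻¹ * h) X) := by
      rw [← Module.End.mul_apply, ← map_mul]
      congr 2
      group
    show (l (σ ((h : G ⧸ N)).out X)) ^ e = _
    rw [h3, hc, map_smul, map_smul, smul_eq_mul, mul_pow, hc1, one_mul]
  have hxN : ∀ u ∈ zpowers x, u ∈ N := by
    intro u hu
    exact Subgroup.le_normalizer hu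
  -- the sum
  set S := (Finset.univ : Finset (G ⧸ N)).erase ((1 : G) : G ⧸ N) with hS
  have hstable : ∀ q ∈ S, ∀ u : zpowers x, u • q ∈ S := by
    intro q hq u
    rw [hS, Finset.mem_erase] at hq ⊢
    refine ⟨fun h => hq.1 ?_, Finset.mem_univ _⟩
    have h1 : q = (u⁻¹ : zpowers x) • (((1 : G) : G ⧸ N)) := by
      rw [← h, inv_smul_smul]
    rw [h1]
    show (((u⁻¹ : zpowers x) : G) : G) • ((1 : G) : G ⧸ N) = _
    have h3 : (((u⁻¹ : zpowers x) : G) : G) • ((1 : G) : G ⧸ N) = (((((u⁻¹ : zpowers x) : G) * 1 : G)) : G ⧸ N) := rfl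
    rw [h3, mul_one]
    refine QuotientGroup.eq.2 ?_
    rw [mul_one]
    exact N.inv_mem (hxN _ (u⁻¹ : zpowers x).2)
  have hfree : ∀ q ∈ S, ∀ u : zpowers x, u • q = q → u = 1 := by
    intro q hq u hu
    by_contra hne
    have hne' : (u : G) ≠ 1 := fun h => hne (Subtype.ext h)
    rw [hS, Finset.mem_erase] at hq
    apply hq.1
    induction q using QuotientGroup.induction_on with
    | H g =>
      refine QuotientGroup.eq.2 ?_
      rw [mul_one]
      refine N.inv_mem ?_
      have hz := zpowers_eq_of_mem hx u.2 hne'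
      have hxm : x ∈ zpowers (u : G) := by rw [hz]; exact mem_zpowers x
      obtain ⟨i, hi⟩ := Subgroup.mem_zpowers_iff.1 hxm
      have hu' : (u : G) • ((g : G) : G ⧸ N) = (g : G ⧸ N) := hu
      have h4 : ∀ i : ℤ, ((u : G) ^ i) • ((g : G) : G ⧸ N) = (g : G ⧸ N) := by
        intro i
        exact (MulAction.mem_stabilizer_iff (G := G) (a := (g : G ⧸ N))).1
          (Subgroup.zpow_mem _ ((MulAction.mem_stabilizer_iff).2 hu') i)
      have h5 := h4 i
      rw [hi] at h5
      have h6 : ((x * g : G) : G ⧸ N) = (g : G ⧸ N) := h5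
      rw [QuotientGroup.eq] at h6
      have h7 := Subgroup.inv_mem _ h6
      have h8 : ((x * g)⁻¹ * g)⁻¹ = g⁻¹ * x * g := by group
      rw [h8] at h7
      have h9 : (g⁻¹ * x * g) ^ p = 1 := by
        have h10 := conj_pow (a := g⁻¹) (b := x) (i := p)
        simp only [inv_inv] at h10
        rw [h10, ← hx, pow_orderOf_eq_one]
        group
      exact mem_normalizer_of_conj hx (mem_zpowers_of_normalizer hx hidx h7 h9)
  have hsum0 : ∀ l : W →ₗ[k] k, ∑ q ∈ S, F l q = 0 := by
    intro l
    refine sum_eq_zero_of_orbit (H := zpowers x) (F l) S hstable hfree ?_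
    intro q _
    have h1 : ∀ u : zpowers x, F l (u • q) = (fun v : G => (l (σ v (σ q.out X))) ^ e) (u : G) := by
      intro u
      have h2 : u • q = (((u : G) * q.out : G) : G ⧸ N) := by
        conv_lhs => rw [← QuotientGroup.out_eq' q]
        rfl
      rw [h2, hF, map_mul, Module.End.mul_apply]
    rw [Finset.sum_congr rfl fun u _ => h1 u]
    rw [sum_zpowers_fun hx (fun v : G => (l (σ v (σ q.out X))) ^ e)]
    set m := σ q.out X with hm
    have hmS : m ∈ spn σ X := by
      apply Submodule.subset_span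
      exact ⟨q.out, rfl⟩
    have h3 := hcube m hmS
    have hσ : σ x = yy σ x + 1 := by simp [yy]
    have h4 : ∀ i : ℕ, l (σ (x ^ i) m) = l m + (i : k) * l (yy σ x m) + ((i.choose 2 : ℕ) : k) * l (yy σ x (yy σ x m)) := by
      intro i
      rw [map_pow, hσ, pow_apply_of_cube h3 i]
      simp [map_add, map_smul]
    simp_rw [h4]
    exact sum_pow_quad _ _ _ (by omega) h2
  have hsum : ∀ l : W →ₗ[k] k, ∑ q : G ⧸ N, F l q = (l X) ^ e := by
    intro l
    rw [← Finset.add_sum_erase (Finset.univ : Finset (G ⧸ N)) (F l) (Finset.mem_univ ((1 : G) : G ⧸ N)), ← hS, hsum0, add_zero,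
      hF, map_one, Module.End.one_apply]
  have hinv : ∀ (l : W →ₗ[k] k) (h : G), (l (σ h X)) ^ e = (l X) ^ e := by
    intro l h
    have h1 := hsum (l ∘ₗ σ h)
    have h2 : ∀ q : G ⧸ N, F (l ∘ₗ σ h) q = F l (h • q) := by
      intro q
      have h3 : h • q = ((h * q.out : G) : G ⧸ N) := by
        conv_lhs => rw [← QuotientGroup.out_eq' q]
        rfl
      rw [h3, hF, map_mul, Module.End.mul_apply]
      rfl
    rw [Finset.sum_congr rfl fun q _ => h2 q] at h1
    have h3 : ∑ q : G ⧸ N, F l (h • q) = ∑ q : G ⧸ N, F l q :=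
      Equiv.sum_comp (MulAction.toPerm h) (F l)
    rw [h3, hsum l] at h1
    simpa using h1.symm
  by_contra hcon
  push Not at hcon
  have hnot : σ g X ∉ Submodule.span k {X} := by
    intro h
    obtain ⟨a, ha⟩ := Submodule.mem_span_singleton.1 h
    exact hcon a ha.symm
  obtain ⟨l0, hl0, hl0'⟩ := Submodule.exists_le_ker_of_notMem hnot
  have hX0 : l0 X = 0 := hl0' (Submodule.mem_span_singleton_self X)
  have h1 := hinv l0 g
  rw [hX0, zero_pow (by omega)] at h1
  exact hl0 (pow_eq_zero_iff (by omega) |>.1 h1)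

end Line

end Cfsg.Agent.Lib.BTate
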