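import Mathlib
import Cfsg.Agent.Lib.BTate

/-!
# Small modular representations of groups with a Sylow subgroup of prime order

`V` a faithful `k G`-module in characteristic `p`, with `2 dim V + 1 < p`; `x` of order `p` generating a Sylow `p`-subgroup;
if the normalizer of `⟨x⟩` acts on `⟨x⟩` through a group of exponent `e` with `2 e + 2 ≤ p`, then `⟨x⟩` is normal.
-/

set_option autoImplicit false
set_option linter.style.haveILetI false
set_option linter.unusedSectionVars false
set_option linter.unusedVariables false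

namespace Cfsg.Agent.Lib.BEndo

open Subgroup Cfsg.Agent.Lib.RangeMod Cfsg.Agent.Lib.BTate Module Polynomial

variable {G : Type*} [Group G] {k : Type*} [Field k]
  {V : Type*} [AddCommGroup V] [Module k V]

/-- Conjugation on endomorphisms. -/
noncomputable def cj (ρ : G →* Module.End k V) : G →* Module.End k (Module.End k V) where
  toFun g :=
    { toFun := fun A => ρ g * A * ρ g⁻¹
      map_add' := fun A B => by noncomm_ring
      map_smul' := fun c A => by
        simp [mul_assoc] }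
  map_one' := by
    ext A v
    simp
  map_mul' g h := by
    ext A v
    simp [mul_assoc, mul_inv_rev, map_mul]

theorem cj_apply (ρ : G →* Module.End k V) (g : G) (A : Module.End k V) : cj ρ g A = ρ g * A * ρ g⁻¹ := rfl

theorem rho_mul_inv (ρ : G →* Module.End k V) (g : G) : ρ g * ρ g⁻¹ = 1 := by
  rw [← map_mul, mul_inv_cancel, map_one]

theorem rho_inv_mul (ρ : G →* Module.End k V) (g : G) : ρ g⁻¹ * ρ g = 1 := by
  rw [← map_mul, inv_mul_cancel, map_one]

section Ad

variable (ρ : G →* Module.End k V) (x : G)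

/-- `T = x - 1` -/
noncomputable abbrev TT : Module.End k V := ρ x - 1

/-- The commutator with `T`. -/
noncomputable def ad (T : Module.End k V) : Module.End k (Module.End k V) :=
  LinearMap.mulLeft k T - LinearMap.mulRight k T

theorem ad_apply (T A : Module.End k V) : ad T A = T * A - A * T := rfl

theorem yy_cj (A : Module.End k V) : yy (cj ρ) x A = ad (TT ρ x) A * ρ x⁻¹ := by
  have h1 : ρ x * ρ x⁻¹ = 1 := rho_mul_inv ρ x
  rw [yy, LinearMap.sub_apply, Module.End.one_apply, cj_apply, ad_apply, TT]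
  calc ρ x * A * ρ x⁻¹ - A = ρ x * A * ρ x⁻¹ - A * (ρ x * ρ x⁻¹) := by rw [h1, mul_one]
    _ = _ := by noncomm_ring

theorem comm_T : Commute (TT ρ x) (ρ x⁻¹) := by
  have h1 : ρ x * ρ x⁻¹ = 1 := rho_mul_inv ρ x
  have h2 : ρ x⁻¹ * ρ x = 1 := rho_inv_mul ρ x
  show (ρ x - 1) * ρ x⁻¹ = ρ x⁻¹ * (ρ x - 1)
  rw [sub_mul, mul_sub, h1, h2, one_mul, mul_one]

theorem ad_mul_right {T z : Module.End k V} (hz : Commute T z) (A : Module.End k V) : ad T (A * z) = ad T A * z := by
  rw [ad_apply, ad_apply, sub_mul, mul_assoc A z T, ← hz.eq]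
  noncomm_ring

theorem yy_cj_pow (j : ℕ) (A : Module.End k V) : (yy (cj ρ) x ^ j) A = (ad (TT ρ x) ^ j) A * ρ x⁻¹ ^ j := by
  induction j with
  | zero => simp
  | succ j ih =>
    rw [pow_succ', Module.End.mul_apply, ih, yy_cj, ad_mul_right ((comm_T ρ x).pow_right j), pow_succ' (ad _),
      Module.End.mul_apply, pow_succ]
    noncomm_ring

theorem ad_pow_zero {T : Module.End k V} {m n : ℕ} (hT : T ^ m = 0) (hn : m + m ≤ n + 1) : ad T ^ n = 0 := by
  have hc : Commute (LinearMap.mulLeft k T) (-LinearMap.mulRight k T) := by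
    have h0 : Commute (LinearMap.mulLeft k T) (LinearMap.mulRight k T) := by
      ext A v
      simp [mul_assoc]
    exact h0.neg_right
  have h1 : (LinearMap.mulLeft k T) ^ m = 0 := by
    rw [LinearMap.pow_mulLeft, hT]
    ext
    simp
  have h2 : (-LinearMap.mulRight k T) ^ m = 0 := by
    rw [neg_pow (LinearMap.mulRight k T) m, LinearMap.pow_mulRight, hT]
    ext
    simp
  have h3 := hc.add_pow_eq_zero_of_add_le_succ_of_pow_eq_zero h1 h2 hn
  have h4 : ad T = LinearMap.mulLeft k T + -LinearMap.mulRight k T := by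
    rw [ad, sub_eq_add_neg]
  rw [h4]
  exact h3

end Ad

section Sep

/-- The third commutator. -/
theorem ad_cube (T A : Module.End k V) :
    (ad T ^ 3) A = T ^ 3 * A - 3 * (T ^ 2 * A * T) + 3 * (T * A * T ^ 2) - A * T ^ 3 := by
  simp only [pow_succ, pow_zero, one_mul, Module.End.mul_apply, ad_apply]
  noncomm_ring

variable [FiniteDimensional k V]

/-- **The element `-T + T² H` is not a third commutator.** -/
theorem not_ad_cube {T H : Module.End k V} (hTH : Commute T H) {m : ℕ} (hm2 : 2 ≤ m) (hm : T ^ m = 0)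
    (hm1 : T ^ (m - 1) ≠ 0) (hk0 : (m : k) ≠ 0) (hk1 : ((m : k) - 1) ≠ 0) (hk2 : ((m : k) + 1) ≠ 0)
    (A : Module.End k V) : (ad T ^ 3) A ≠ -T + T ^ 2 * H := by
  classical
  intro hA
  rw [ad_cube] at hA
  obtain ⟨m', rfl⟩ : ∃ m', m = m' + 2 := ⟨m - 2, by omega⟩
  have hm1' : T ^ (m' + 1) ≠ 0 := by
    intro h
    apply hm1
    simpa using h
  -- a vector and a functional
  obtain ⟨e₀, he₀⟩ : ∃ e₀ : V, (T ^ (m' + 1)) e₀ ≠ 0 := by
    by_contra hcon
    push Not at hcon
    exact hm1' (LinearMap.ext hcon)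
  have hnot : (T ^ (m' + 1)) e₀ ∉ (⊥ : Submodule k V) := by
    rwa [Submodule.mem_bot]
  obtain ⟨l0, hl0, -⟩ := Submodule.exists_le_ker_of_notMem hnot
  let μ : V →ₗ[k] k := (l0 ((T ^ (m' + 1)) e₀))⁻¹ • l0
  have hμ : μ ((T ^ (m' + 1)) e₀) = 1 := by
    simp only [μ, LinearMap.smul_apply, smul_eq_mul]
    exact inv_mul_cancel₀ hl0
  -- the numbers
  let a : ℕ → k := fun r => μ ((T ^ (m' + 2 + 1 - r)) (A ((T ^ r) e₀)))
  have hpow0 : ∀ n, m' + 2 ≤ n → T ^ n = 0 := by
    intro n hn
    obtain ⟨c, rfl⟩ := Nat.exists_eq_add_of_le hn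
    rw [pow_add, hm, zero_mul]
  have ha0 : a 0 = 0 := by
    simp only [a]
    rw [hpow0 _ (by omega)]
    simp
  have ha1 : a 1 = 0 := by
    simp only [a]
    rw [hpow0 _ (by omega)]
    simp
  have ham : a (m' + 2) = 0 := by
    simp only [a]
    rw [hpow0 (m' + 2) le_rfl]
    simp
  have ham1 : a (m' + 3) = 0 := by
    simp only [a]
    rw [hpow0 (m' + 3) (by omega)]
    simp
  -- the relation
  have hrel : ∀ l, l ≤ m' → a l - 3 * a (l + 1) + 3 * a (l + 2) - a (l + 3) = -1 := by
    intro l hl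
    obtain ⟨j, hj⟩ : ∃ j, m' = j + l := ⟨m' - l, by omega⟩
    have h1 : μ ((((T ^ j) * (T ^ 3 * A - 3 * (T ^ 2 * A * T) + 3 * (T * A * T ^ 2) - A * T ^ 3) * (T ^ l) :
        Module.End k V)) e₀) = μ ((((T ^ j) * (-T + T ^ 2 * H) * (T ^ l) : Module.End k V)) e₀) := by rw [hA]
    have h2 : ((T ^ j) * (T ^ 3 * A - 3 * (T ^ 2 * A * T) + 3 * (T * A * T ^ 2) - A * T ^ 3) * (T ^ l)) =
        T ^ (j + 3) * A * T ^ l - 3 * (T ^ (j + 2) * A * T ^ (l + 1)) + 3 * (T ^ (j + 1) * A * T ^ (l + 2))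
          - T ^ j * A * T ^ (l + 3) := by
      have e1 : T ^ (j + 3) = T ^ j * T ^ 3 := pow_add _ _ _
      have e2 : T ^ (j + 2) = T ^ j * T ^ 2 := pow_add _ _ _
      have e3 : T ^ (j + 1) = T ^ j * T := pow_succ _ _
      have e4 : T ^ (l + 1) = T * T ^ l := pow_succ' _ _
      have e5 : T ^ (l + 2) = T ^ 2 * T ^ l := by rw [add_comm, pow_add]
      have e6 : T ^ (l + 3) = T ^ 3 * T ^ l := by rw [add_comm, pow_add]
      rw [e1, e2, e3, e4, e5, e6]
      noncomm_ring
    have h3 : ((T ^ j) * (-T + T ^ 2 * H) * (T ^ l)) = - T ^ (m' + 1) + T ^ (m' + 2) * H := by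
      have h4 : Commute H (T ^ l) := (hTH.symm).pow_right l
      have h5 : T ^ j * (T ^ 2 * H) * T ^ l = T ^ (j + l + 2) * H := by
        calc T ^ j * (T ^ 2 * H) * T ^ l = T ^ j * T ^ 2 * (H * T ^ l) := by simp only [mul_assoc]
          _ = T ^ j * T ^ 2 * (T ^ l * H) := by rw [h4.eq]
          _ = (T ^ j * T ^ 2 * T ^ l) * H := by simp only [mul_assoc]
          _ = T ^ (j + l + 2) * H := by
            rw [← pow_add, ← pow_add]
            congr 2
            omega
      have h6 : T ^ j * -T * T ^ l = - T ^ (j + l + 1) := by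
        calc T ^ j * -T * T ^ l = -(T ^ j * T * T ^ l) := by simp [mul_assoc]
          _ = _ := by
            rw [← pow_succ, ← pow_add]
            congr 2
            omega
      rw [mul_add, add_mul, h5, h6, hj]
    rw [h2, h3, hpow0 (m' + 2) le_rfl, zero_mul, add_zero] at h1
    have h7 : ∀ s t : ℕ, s + t = m' + 2 + 1 → μ ((T ^ s * A * T ^ t) e₀) = a t := by
      intro s t hst
      simp only [a]
      have : m' + 2 + 1 - t = s := by omega
      rw [this]
      rfl
    simp only [LinearMap.sub_apply, LinearMap.add_apply, map_sub, map_add, LinearMap.neg_apply, map_neg] at h1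
    rw [hμ] at h1
    have h8 : (3 : Module.End k V) = (3 : k) • (1 : Module.End k V) := by
      rw [show (3 : k) = ((3 : ℕ) : k) by norm_num, Nat.cast_smul_eq_nsmul]
      norm_num
    have h9 : ∀ B : Module.End k V, (3 * B) e₀ = (3 : k) • B e₀ := by
      intro B
      rw [h8]
      simp
    rw [h9, h9, map_smul, map_smul, h7 (j + 3) l (by omega), h7 (j + 2) (l + 1) (by omega),
      h7 (j + 1) (l + 2) (by omega), h7 j (l + 3) (by omega), smul_eq_mul, smul_eq_mul] at h1
    exact h1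
  -- solving the recurrence
  set α := a 2 with hα
  have hsol : ∀ r, r ≤ m' + 3 → 6 * a r = (r : k) * ((r : k) - 1) * (3 * α + (r : k) - 2) := by
    intro r
    induction r using Nat.strong_induction_on with
    | _ r ih =>
      intro hr
      match r, ih, hr with
      | 0, _, _ => simp [ha0]
      | 1, _, _ => simp [ha1]
      | 2, _, _ =>
        simp only [Nat.cast_ofNat]
        ring
      | l + 3, ih, hr =>
        have h1 := hrel l (by omega)
        have h2 := ih l (by omega) (by omega)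
        have h3 := ih (l + 1) (by omega) (by omega)
        have h4 := ih (l + 2) (by omega) (by omega)
        push_cast at h2 h3 h4 ⊢
        linear_combination h2 - 3 * h3 + 3 * h4 - 6 * h1
  have h1 := hsol (m' + 2) (by omega)
  have h2 := hsol (m' + 3) le_rfl
  rw [ham, mul_zero] at h1
  rw [ham1, mul_zero] at h2
  have h3 : (3 * α + ((m' + 2 : ℕ) : k) - 2) = 0 := by
    rcases mul_eq_zero.1 h1.symm with h | h
    · rcases mul_eq_zero.1 h with h | h
      · exact absurd h hk0
      · exact absurd h hk1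
    · exact h
  have h4 : (3 * α + ((m' + 3 : ℕ) : k) - 2) = 0 := by
    rcases mul_eq_zero.1 h2.symm with h | h
    · rcases mul_eq_zero.1 h with h | h
      · exfalso
        apply hk2
        push_cast at h ⊢
        linear_combination h
      · exfalso
        apply hk0
        push_cast at h ⊢
        linear_combination h
    · exact h
  have h5 : (1 : k) = 0 := by
    push_cast at h3 h4
    linear_combination h4 - h3
  exact one_ne_zero h5

end Sep


section Pol

/-- Inverting a power series with linear term `-t`, modulo a power of `t`. -/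
theorem exists_comp_inv (P Q : k[X]) (hP : P = -X + X ^ 2 * Q) (j : ℕ) : ∃ f : k[X], X ^ j ∣ X - f.comp P := by
  induction j with
  | zero => exact ⟨0, by simp⟩
  | succ j ih =>
    obtain ⟨f, r, hr⟩ := ih
    set w : k[X] := -1 + X * Q with hw
    have hPw : P = X * w := by
      rw [hP, hw]
      ring
    have hw0 : w.coeff 0 = -1 := by
      simp [hw]
    let α : k := (-1) ^ j * r.coeff 0
    refine ⟨f + C α * X ^ j, ?_⟩
    have h1 : X - (f + C α * X ^ j).comp P = X ^ j * (r - C α * w ^ j) := by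
      have h2 : (f + C α * X ^ j).comp P = f.comp P + C α * P ^ j := by
        simp [add_comp, mul_comp, pow_comp]
      rw [h2, hPw, mul_pow]
      rw [hPw] at hr
      linear_combination hr
    rw [h1, pow_succ]
    apply mul_dvd_mul_left
    rw [Polynomial.X_dvd_iff]
    have h3 : (w ^ j).coeff 0 = (-1) ^ j := by
      rw [coeff_zero_eq_eval_zero, eval_pow, ← coeff_zero_eq_eval_zero, hw0]
    rw [coeff_sub, coeff_C_mul, h3]
    have h4 : ((-1 : k) ^ j) * (-1) ^ j = 1 := by
      rw [← mul_pow]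
      simp
    simp only [α]
    linear_combination (- r.coeff 0) * h4

end Pol

section Xp

variable (k) (p : ℕ) [hp : Fact p.Prime] [CharP k p]

/-- The inclusion of the prime field. -/
noncomputable abbrev iota : ZMod p →+* k := ZMod.castHom (dvd_refl p) k

/-- The polynomial: the eigenvector of the normalizer in `k[⟨x⟩]`, as a polynomial in `x - 1`. -/
noncomputable def Xp : k[X] :=
  ∑ a : (ZMod p)ˣ, C (iota k p ((a⁻¹ : (ZMod p)ˣ) : ZMod p)) * (1 + X) ^ (a : ZMod p).val

theorem iota_val (a : ZMod p) : iota k p a = ((a.val : ℕ) : k) := by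
  rw [← map_natCast (iota k p), ZMod.natCast_zmod_val]

theorem Xp_coeff_zero (hp3 : 2 < p) : (Xp k p).coeff 0 = 0 := by
  classical
  unfold Xp
  rw [finsetSum_coeff]
  have h1 : ∀ a : (ZMod p)ˣ, (C (iota k p ((a⁻¹ : (ZMod p)ˣ) : ZMod p)) * (1 + X) ^ (a : ZMod p).val).coeff 0 =
      iota k p ((a⁻¹ : (ZMod p)ˣ) : ZMod p) := by
    intro a
    rw [coeff_C_mul, coeff_one_add_X_pow, Nat.choose_zero_right, Nat.cast_one, mul_one]
  simp only [h1]
  rw [← map_sum]
  have h2 : ∑ a : (ZMod p)ˣ, ((a⁻¹ : (ZMod p)ˣ) : ZMod p) = ∑ a : (ZMod p)ˣ, ((a : (ZMod p)ˣ) : ZMod p) :=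
    Equiv.sum_comp (Equiv.inv (ZMod p)ˣ) (fun a : (ZMod p)ˣ => ((a : (ZMod p)ˣ) : ZMod p))
  have h3 := FiniteField.sum_pow_units (K := ZMod p) 1
  simp only [pow_one] at h3
  rw [h2, h3, ZMod.card, if_neg, map_zero]
  intro h
  have := Nat.le_of_dvd one_pos h
  omega

theorem Xp_coeff_one : (Xp k p).coeff 1 = -1 := by
  classical
  unfold Xp
  rw [finsetSum_coeff]
  have h1 : ∀ a : (ZMod p)ˣ, (C (iota k p ((a⁻¹ : (ZMod p)ˣ) : ZMod p)) * (1 + X) ^ (a : ZMod p).val).coeff 1 = 1 := by
    intro a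
    rw [coeff_C_mul, coeff_one_add_X_pow, Nat.choose_one_right, ← iota_val, ← map_mul, ← Units.val_mul, inv_mul_cancel,
      Units.val_one, map_one]
  simp only [h1]
  rw [Finset.sum_const, Finset.card_univ, ZMod.card_units p, nsmul_eq_mul, mul_one]
  have hp1 : 1 ≤ p := (Fact.out : p.Prime).one_le
  rw [Nat.cast_sub hp1, CharP.cast_eq_zero]
  simp

theorem Xp_eq (hp3 : 2 < p) : ∃ Q : k[X], Xp k p = -X + X ^ 2 * Q := by
  have h : X ^ 2 ∣ Xp k p + X := by
    rw [X_pow_dvd_iff]
    intro d hd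
    interval_cases d
    · simp [Xp_coeff_zero k p hp3]
    · simp [Xp_coeff_one k p]
  obtain ⟨Q, hQ⟩ := h
  exact ⟨Q, by linear_combination hQ⟩

end Xp


section Main

variable {p : ℕ} [hp : Fact p.Prime] [CharP k p]

/-- Conjugation as an algebra map. -/
noncomputable def cjAlg (ρ : G →* Module.End k V) (g : G) : Module.End k V →ₐ[k] Module.End k V :=
  AlgHom.ofLinearMap (cj ρ g)
    (by rw [cj_apply, mul_one, rho_mul_inv])
    (fun A B => by
      rw [cj_apply, cj_apply, cj_apply]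
      calc ρ g * (A * B) * ρ g⁻¹ = ρ g * A * 1 * (B * ρ g⁻¹) := by noncomm_ring
        _ = ρ g * A * (ρ g⁻¹ * ρ g) * (B * ρ g⁻¹) := by rw [rho_inv_mul]
        _ = _ := by noncomm_ring)

theorem cjAlg_apply (ρ : G →* Module.End k V) (g : G) (A : Module.End k V) : cjAlg ρ g A = cj ρ g A := rfl

variable (p) in
/-- The element `X` of the group algebra of `⟨x⟩`. -/
noncomputable def XX (ρ : G →* Module.End k V) (x : G) : Module.End k V := aeval (TT ρ x) (Xp k p)

theorem XX_eq (ρ : G →* Module.End k V) (x : G) :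
    XX p ρ x = ∑ a : (ZMod p)ˣ, iota k p ((a⁻¹ : (ZMod p)ˣ) : ZMod p) • ρ x ^ (a : ZMod p).val := by
  unfold XX Xp
  rw [map_sum]
  refine Finset.sum_congr rfl fun a _ => ?_
  have : (1 : Module.End k V) + TT ρ x = ρ x := by
    rw [TT]
    abel
  rw [map_mul, aeval_C, map_pow, map_add, map_one, aeval_X, Algebra.algebraMap_eq_smul_one, smul_mul_assoc, one_mul, this]

theorem cj_XX (ρ : G →* Module.End k V) {x : G} (hxp : x ^ p = 1) {n : G} {c₀ : (ZMod p)ˣ}
    (hn : n * x * n⁻¹ = x ^ (c₀ : ZMod p).val) :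
    cj ρ n (XX p ρ x) = iota k p (c₀ : ZMod p) • XX p ρ x := by
  rw [XX_eq, map_sum, Finset.smul_sum]
  rw [← Equiv.sum_comp (Equiv.mulLeft c₀) (fun b : (ZMod p)ˣ => iota k p (c₀ : ZMod p) •
    iota k p ((b⁻¹ : (ZMod p)ˣ) : ZMod p) • ρ x ^ (b : ZMod p).val)]
  refine Finset.sum_congr rfl fun a _ => ?_
  simp only [Equiv.coe_mulLeft]
  rw [map_smul, cj_apply, ← map_pow, ← map_pow, ← map_mul, ← map_mul, ← conj_pow, hn, ← pow_mul, smul_smul, ← map_mul]
  have h1 : (c₀ : ZMod p) * (((c₀ * a)⁻¹ : (ZMod p)ˣ) : ZMod p) = ((a⁻¹ : (ZMod p)ˣ) : ZMod p) := by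
    rw [← Units.val_mul]
    congr 1
    rw [mul_inv, ← mul_assoc, mul_inv_cancel, one_mul]
  rw [h1]
  congr 2
  rw [Units.val_mul, ZMod.val_mul, ← pow_eq_pow_mod _ hxp]

theorem nil_pow_finrank [FiniteDimensional k V] {T : Module.End k V} {n : ℕ} (hT : T ^ n = 0) :
    T ^ finrank k V = 0 := by
  have h1 : IsNilpotent T := ⟨n, hT⟩
  have h2 := (LinearMap.isNilpotent_iff_charpoly T).1 h1
  have h3 := LinearMap.aeval_self_charpoly T
  rw [h2] at h3
  simpa using h3

theorem TT_pow_p (ρ : G →* Module.End k V) {x : G} (hxp : x ^ p = 1) : TT ρ x ^ p = 0 := by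
  have h1 : ((X : k[X]) - 1) ^ p = X ^ p - 1 := by
    have := sub_pow_char (X : k[X]) 1 (p := p)
    simpa using this
  have h2 := congrArg (aeval (ρ x)) h1
  simp only [map_pow, map_sub, map_one, aeval_X] at h2
  rw [TT, h2, ← map_pow, hxp, map_one, sub_self]

theorem comm_aeval (A : Module.End k V) (a : k) (f g : k[X]) :
    Commute (aeval (a • A) f) (aeval A g) := by
  have h1 : aeval (a • A) f = aeval A (f.comp (C a * X)) := by
    rw [aeval_comp]
    congr 2
    simp [Algebra.smul_def]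
  rw [h1]
  show _ * _ = _ * _
  rw [← map_mul, ← map_mul, mul_comm]

theorem comm_self_aeval (T : Module.End k V) (H : k[X]) : Commute T (aeval T H) := by
  show T * aeval T H = aeval T H * T
  calc T * aeval T H = aeval T (X : k[X]) * aeval T H := by rw [aeval_X]
    _ = aeval T H * aeval T (X : k[X]) := by rw [← map_mul, ← map_mul, mul_comm]
    _ = _ := by rw [aeval_X]

/-- **The main construction**: in a faithful module of dimension at most `(p - 1)/2`, the element `X` of the group algebra of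
`⟨x⟩`, which is an eigenvector of the normalizer, is not in the image of the third power of `x - 1`. -/
theorem exists_XX [FiniteDimensional k V] (ρ : G →* Module.End k V) {x : G} (hxp : x ^ p = 1) (hne : ρ x ≠ 1)
    (hdim : 2 * finrank k V + 1 ≤ p) :
    XX p ρ x ≠ 0 ∧ yy (cj ρ) x (XX p ρ x) = 0 ∧ XX p ρ x ∉ LinearMap.range ((yy (cj ρ) x) ^ 3) ∧
      (yy (cj ρ) x) ^ (p - 1) = 0 ∧ ∃ f : k[X], TT ρ x = aeval (XX p ρ x) f := by
  classical
  set T := TT ρ x with hT
  have hT0 : T ≠ 0 := sub_ne_zero.2 hne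
  have hTp : T ^ p = 0 := TT_pow_p ρ hxp
  have hTf : T ^ finrank k V = 0 := nil_pow_finrank hTp
  have hex : ∃ m, T ^ m = 0 := ⟨_, hTf⟩
  obtain ⟨m, hm, hmin, hmle⟩ : ∃ m, T ^ m = 0 ∧ (∀ i < m, T ^ i ≠ 0) ∧ m ≤ finrank k V :=
    ⟨Nat.find hex, Nat.find_spec hex, fun i hi => Nat.find_min hex hi, Nat.find_min' hex hTf⟩
  have hm2 : 2 ≤ m := by
    by_contra hcon
    have : m = 0 ∨ m = 1 := by omega
    rcases this with rfl | rfl
    · apply hT0
      rw [pow_zero] at hm
      rw [← mul_one T, hm, mul_zero]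
    · apply hT0
      simpa using hm
  have hp3 : 2 < p := by omega
  have hcast : ∀ n : ℕ, 0 < n → n < p → (n : k) ≠ 0 := by
    intro n h0 hn h
    rw [CharP.cast_eq_zero_iff k p] at h
    have := Nat.le_of_dvd h0 h
    omega
  have hk0 : (m : k) ≠ 0 := hcast m (by omega) (by omega)
  have hk1 : (m : k) - 1 ≠ 0 := by
    have := hcast (m - 1) (by omega) (by omega)
    rwa [Nat.cast_sub (by omega), Nat.cast_one] at this
  have hk2 : (m : k) + 1 ≠ 0 := by
    have := hcast (m + 1) (by omega) (by omega)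
    rwa [Nat.cast_add, Nat.cast_one] at this
  have hy : (yy (cj ρ) x) ^ (p - 1) = 0 := by
    ext1 A
    rw [yy_cj_pow, ad_pow_zero hm (by omega)]
    simp
  obtain ⟨Q, hQ⟩ := Xp_eq k p hp3
  set XE := XX p ρ x with hXE
  have hXE' : XE = aeval T (Xp k p) := rfl
  have hsep : XE ∉ LinearMap.range ((yy (cj ρ) x) ^ 3) := by
    rintro ⟨A, hA⟩
    rw [yy_cj_pow] at hA
    have h1 : (ad (TT ρ x) ^ 3) A = XE * ρ x ^ 3 := by
      rw [← hA, mul_assoc, ← map_pow, ← map_pow, ← map_mul, inv_pow, inv_mul_cancel, map_one, mul_one]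
    let H : k[X] := -3 - 3 * X - X ^ 2 + Q * (1 + X) ^ 3
    have h2 : XE * ρ x ^ 3 = -T + T ^ 2 * aeval T H := by
      have h3 : ρ x = aeval T (1 + X : k[X]) := by
        simp [hT, TT]
      rw [h3, ← map_pow, hXE', ← map_mul, hQ]
      have h4 : (-X + X ^ 2 * Q) * (1 + X) ^ 3 = -X + X ^ 2 * H := by
        simp only [H]
        ring
      rw [h4]
      simp
    have hcomm : Commute T (aeval T H) := comm_self_aeval T H
    refine not_ad_cube hcomm hm2 hm (hmin _ (by omega)) hk0 hk1 hk2 A ?_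
    rw [← h2, ← h1]
  have hX0 : XE ≠ 0 := by
    intro h
    apply hsep
    rw [h]
    exact Submodule.zero_mem _
  have hXcomm : ρ x * XE = XE * ρ x := by
    have h1 : ρ x = T + 1 := by
      rw [hT, TT]
      abel
    have h2 : Commute T XE := comm_self_aeval T (Xp k p)
    rw [h1]
    exact (h2.add_left (Commute.one_left _))
  have hXfix : yy (cj ρ) x XE = 0 := by
    rw [yy, LinearMap.sub_apply, Module.End.one_apply, cj_apply, hXcomm, mul_assoc, rho_mul_inv, mul_one, sub_self]
  -- `T` is a polynomial in `X`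
  obtain ⟨f, s, hfs⟩ := exists_comp_inv (Xp k p) Q hQ m
  have hTf' : T = aeval XE f := by
    have h1 := congrArg (aeval T) hfs
    rw [map_sub, aeval_X, aeval_comp, map_mul, map_pow, aeval_X, hm, zero_mul] at h1
    exact sub_eq_zero.1 h1
  exact ⟨hX0, hXfix, hsep, hy, f, hTf'⟩

/-- If a conjugate of `X` is a multiple of `X`, the conjugate of `x` commutes with `x`. -/
theorem comm_of_line (ρ : G →* Module.End k V) {x : G} {f : k[X]} (hTf : TT ρ x = aeval (XX p ρ x) f) {g : G} {a : k}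
    (ha : cj ρ g (XX p ρ x) = a • XX p ρ x) : Commute (ρ (g * x * g⁻¹)) (ρ x) := by
  set T := TT ρ x with hT
  set XE := XX p ρ x with hXE
  have h1 : cj ρ g T = aeval (a • XE) f := by
    rw [← ha]
    have h0 := aeval_algHom_apply (cjAlg ρ g) XE f
    rw [← hTf, cjAlg_apply, cjAlg_apply] at h0
    exact h0.symm
  have h2 : Commute (cj ρ g T) T := by
    rw [h1]
    conv_rhs => rw [hTf]
    exact comm_aeval XE a f f
  have h3 : ρ (g * x * g⁻¹) = cj ρ g T + 1 := by
    rw [hT, TT, cj_apply, mul_sub, sub_mul, mul_one, rho_mul_inv, map_mul, map_mul]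
    abel
  have h4 : ρ x = T + 1 := by
    rw [hT, TT]
    abel
  rw [h3, h4]
  exact (h2.add_right (Commute.one_right _)).add_left (Commute.one_left _)

/-- **The main result**. -/
theorem normal_of_small [Fintype G] [DecidableEq G] [FiniteDimensional k V] (ρ : G →* Module.End k V)
    (hinj : Function.Injective ρ) {x : G} (hx : orderOf x = p) (hidx : ¬ p ∣ (zpowers x).index)
    (hdim : 2 * finrank k V + 1 ≤ p) {e : ℕ} (he : 1 ≤ e) (h2e : 2 * e + 2 ≤ p)
    (hc : ∀ n ∈ normalizer (zpowers x : Set G), ∃ c₀ : (ZMod p)ˣ, n * x * n⁻¹ = x ^ (c₀ : ZMod p).val ∧ c₀ ^ e = 1) :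
    (zpowers x).Normal := by
  classical
  have hxp : x ^ p = 1 := by rw [← hx, pow_orderOf_eq_one]
  have hx1 : x ≠ 1 := by
    rintro rfl
    rw [orderOf_one] at hx
    omega
  have hne : ρ x ≠ 1 := by
    intro h
    apply hx1
    apply hinj
    rw [map_one]
    exact h
  obtain ⟨hX0, hXfix, hsep, hy, f, hTf⟩ := exists_XX ρ hxp hne hdim
  set XE := XX p ρ x with hXE
  have hsemi : ∀ n ∈ normalizer (zpowers x : Set G), ∃ c : k, c ^ e = 1 ∧ cj ρ n XE = c • XE := by
    intro n hn
    obtain ⟨c₀, h1, h2⟩ := hc n hn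
    refine ⟨iota k p (c₀ : ZMod p), ?_, cj_XX ρ hxp h1⟩
    rw [← map_pow, ← Units.val_pow_eq_pow_val, h2, Units.val_one, map_one]
  have hsemi' : ∀ n ∈ normalizer (zpowers x : Set G), ∃ c : k, c ≠ 0 ∧ cj ρ n XE = c • XE := by
    intro n hn
    obtain ⟨c, h1, h2⟩ := hsemi n hn
    refine ⟨c, ?_, h2⟩
    rintro rfl
    rw [zero_pow (by omega)] at h1
    exact zero_ne_one h1
  have hline := line_stable (cj ρ) hx hidx (fun m' hm' => cube_vanish (cj ρ) hx hidx hy hX0 hXfix hsemi' hsep hm')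
    he h2e hsemi
  -- conjugates of `x` commute with `x`
  have hgcomm : ∀ g : G, Commute (ρ (g * x * g⁻¹)) (ρ x) := by
    intro g
    obtain ⟨a, ha⟩ := hline g
    exact comm_of_line ρ hTf ha
  have hmem : ∀ g : G, g * x * g⁻¹ ∈ zpowers x := by
    intro g
    apply mem_zpowers_of_normalizer hx hidx
    · have h1 : g * x * g⁻¹ * x = x * (g * x * g⁻¹) := by
        apply hinj
        rw [map_mul, map_mul _ x]
        exact hgcomm g
      apply mem_normalizer_of_conj hx
      have h2 : (g * x * g⁻¹)⁻¹ * x * (g * x * g⁻¹) = x := by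
        rw [mul_assoc, ← h1]
        group
      rw [h2]
      exact mem_zpowers x
    · rw [conj_pow, hxp]
      simp
  refine ⟨fun z hz g => ?_⟩
  obtain ⟨i, rfl⟩ := Subgroup.mem_zpowers_iff.1 hz
  rw [← conj_zpow]
  exact Subgroup.zpow_mem _ (hmem g) i

end Main

end Cfsg.Agent.Lib.BEndo
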