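import Mathlib
import Cfsg.Agent.Lib.DcSetup
import Cfsg.Agent.Lib.K0Form
import Cfsg.Agent.Lib.RegLattice
import Cfsg.Agent.Lib.BlockQuotDefect
import Cfsg.Agent.Lib.BrauerCorr

/-!
# Blocks with abelian defect groups: counting through a major subsection

For a block `B` with abelian defect group `D` and `y ∈ D`, the block `b` of `C_G(y)` below `B` has the same
defect group, and `b` dominates a block `b̄` of `C_G(y) / ⟨y⟩`.  If `D / ⟨y⟩` is cyclic, the form of `b`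
is the simplex form of Dade's theorem and `k(B) ≤ |D|`.
-/

set_option autoImplicit false
set_option linter.unusedSectionVars false
set_option linter.unusedVariables false
set_option linter.style.haveILetI false

namespace Cfsg.Agent.Lib.BFMajor

open Cfsg Cfsg.Agent.Lib.CharBasic Cfsg.Agent.Lib.CharInd Cfsg.Agent.Lib.CharIntegrality
open Cfsg.Agent.Lib.BlockLocal Cfsg.Agent.Lib.BlockIdem Cfsg.Agent.Lib.BlockQ
open Cfsg.Agent.Lib.BlockOrtho
open scoped ComplexConjugate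

universe u

section Gram

variable {K : Type u} [Group K] [Fintype K] {p : ℕ} [hpF : Fact p.Prime] {M : Ideal AlgInt}

/-- The data of the lattice of a block. -/
def GramB (p : ℕ) (b : Set (IrrCharacter K)) (τ : ℕ) : Prop :=
  ∃ (F : Finset (IrrCharacter K)) (ε : IrrCharacter K → ℤ) (m : ℕ),
    F ⊆ bF b ∧ 0 < F.card ∧ (∀ χ ∈ F, ε χ = 1 ∨ ε χ = -1) ∧ τ = 1 + F.card * m ∧
    (m ≠ 0 ∨ F.card ≤ 1) ∧
    (∀ ψ ∈ bF b, ∃ c : IrrCharacter K → ℤ, ∀ g : K, ¬ p ∣ orderOf g →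
      (ψ : K → ℂ) g = ∑ χ ∈ F, (c χ : ℂ) * (χ : K → ℂ) g) ∧
    (∀ χ ∈ F, ∀ χ' ∈ F, (τ : ℂ) * classInner (pRegularPart p (χ : K → ℂ)) (χ' : K → ℂ) =
      (if χ = χ' then (τ : ℂ) else 0) - (m : ℂ) * (ε χ : ℂ) * (ε χ' : ℂ))

local notation "𝐂[" R "]" => Subgroup.centralizer ((R : Subgroup K) : Set K)
local notation "𝐍[" R "]" => Subgroup.normalizer ((R : Subgroup K) : Set K)

/-- **The form of a block with a cyclic defect group.** -/
theorem gramB_of_cyclic (hM : IsPModular p M) {D : Subgroup K} (hD : IsCyclic D) {a : ℕ} (ha : 1 ≤ a)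
    (hDa : Nat.card D = p ^ a) {b : Set (IrrCharacter K)} (hb : IsPBlock M b)
    (hbD : IsDefectGroup p M b D) : GramB p b (p ^ a) := by
  classical
  have hp := hpF.out
  haveI hMp := hM.2.1.isPrime
  have hpC : (p : ℂ) ≠ 0 := by exact_mod_cast hp.ne_zero
  obtain ⟨c, hc⟩ := Cfsg.Agent.Lib.BrauerCorr.exists_maximal_of_isDefectGroup hM hb hbD
  have hind := Cfsg.Agent.S4683.isInducedBlock_of_isBrauerPairOf hM hc.1
  let T : Subgroup K := 𝐍[D] ⊓ Cfsg.Agent.Lib.BrauerCen.stabSub _ c hind.1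
  have hT : ∀ g : K, g ∈ T ↔ (g ∈ 𝐍[D] ∧ StabilizesBlock 𝐂[D] c g) :=
    fun g => Iff.rfl
  obtain ⟨hdvd, hrank, -, X, Y, hXY, hdisj, hcX, hcY, hYeq, δ, δ₀, hδ, hδ₀, hrel, -, -⟩ :=
    Cfsg.Agent.Lib.DcSetup.dade_main hM hD ha hDa hb hbD hind hT rfl
  set e := (𝐂[D]).relIndex T with he
  set F := bF X with hF
  set G₀ := bF Y with hG
  have hFcard : F.card = e := by
    rw [← hcX, Nat.card_coe_set_eq, Set.ncard_eq_toFinset_card X (Set.toFinite X)]
    rfl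
  have hGcard : G₀.card = (p ^ a - 1) / e := by
    rw [← hcY, Nat.card_coe_set_eq, Set.ncard_eq_toFinset_card Y (Set.toFinite Y)]
    rfl
  have hdvd' : e ∣ p ^ a - 1 := by
    refine hdvd.trans ?_
    simpa using Nat.sub_dvd_pow_sub_pow p 1 a
  set m := (p ^ a - 1) / e with hm
  have hem : e * m = p ^ a - 1 := Nat.mul_div_cancel' hdvd'
  have hp1 := hp.one_lt
  have hpa1 : 1 < p ^ a := Nat.one_lt_pow (by omega) hp1
  have hpem : p ^ a = 1 + e * m := by omega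
  have hm0 : m ≠ 0 := by
    intro h
    rw [h] at hem
    omega
  have he0 : 0 < e := by
    rcases Nat.eq_zero_or_pos e with h | h
    · rw [h] at hem
      omega
    · exact h
  obtain ⟨θ₀, hθ₀⟩ : G₀.Nonempty := by
    rw [← Finset.card_pos, hGcard]
    exact Nat.pos_of_ne_zero hm0
  have hθ₀Y : θ₀ ∈ Y := mem_bF.mp hθ₀
  set σ : ℤ := -δ₀ with hσ
  have hσC : (σ : ℂ) * (σ : ℂ) = 1 := by
    rcases hδ₀ with h | h <;> simp [hσ, h]
  -- regular relation
  set S : K → ℂ := fun g => ∑ χ ∈ F, (δ χ : ℂ) * (χ : K → ℂ) g with hS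
  have hrel' : ∀ θ ∈ Y, ∀ g : K, ¬ p ∣ orderOf g → (θ : K → ℂ) g = (σ : ℂ) * S g := by
    intro θ hθ g hg
    have h1 := hrel θ hθ g hg
    rw [finsum_mem_eq_sum_bF] at h1
    have h2 : (δ₀ : ℂ) * (δ₀ : ℂ) = 1 := by
      rcases hδ₀ with h | h <;> simp [h]
    simp only [hS, hσ]
    push_cast
    linear_combination (δ₀ : ℂ) * h1 - (θ : K → ℂ) g * h2
  have hbF : bF b = F ∪ G₀ := by
    ext χ
    simp only [mem_bF, Finset.mem_union, hF, hG]
    rw [hXY]
    rfl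
  have hFG : Disjoint F G₀ := by
    rw [Finset.disjoint_left]
    intro χ h1 h2
    exact Set.disjoint_left.mp hdisj (mem_bF.mp h1) (mem_bF.mp h2)
  -- the regular parts of `F` are linearly independent
  have hli : LinearIndependent ℂ (fun χ : F => pRegularPart p ((χ : IrrCharacter K) : K → ℂ)) := by
    have hspan : Submodule.span ℂ (Set.range fun χ : F => pRegularPart p ((χ : IrrCharacter K) : K → ℂ)) =
        Submodule.span ℂ ((fun χ : IrrCharacter K => pRegularPart p (χ : K → ℂ)) '' b) := by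
      apply le_antisymm
      · rw [Submodule.span_le]
        rintro _ ⟨χ, rfl⟩
        apply Submodule.subset_span
        refine ⟨χ.1, ?_, rfl⟩
        rw [hXY]
        exact Or.inl (mem_bF.mp χ.2)
      · rw [Submodule.span_le]
        rintro _ ⟨χ, hχ, rfl⟩
        rw [hXY] at hχ
        rcases hχ with h | h
        · exact Submodule.subset_span ⟨⟨χ, mem_bF.mpr h⟩, rfl⟩
        · have h2 : pRegularPart p (χ : K → ℂ) =
              ∑ i : F, ((σ : ℂ) * (δ i.1 : ℂ)) • pRegularPart p ((i : IrrCharacter K) : K → ℂ) := by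
            funext s
            rw [Finset.sum_apply]
            simp only [Pi.smul_apply, smul_eq_mul]
            by_cases hs : p ∣ orderOf s
            · simp [pRegularPart_of_sing _ hs]
            · simp only [pRegularPart_of_reg _ hs]
              rw [hrel' χ h s hs]
              simp only [hS]
              rw [Finset.sum_coe_sort F (fun i => (σ : ℂ) * (δ i : ℂ) * (i : K → ℂ) s), Finset.mul_sum]
              refine Finset.sum_congr rfl fun i _ => ?_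
              ring
          show pRegularPart p (χ : K → ℂ) ∈ _
          rw [h2]
          exact Submodule.sum_mem _ fun i _ => Submodule.smul_mem _ _
            (Submodule.subset_span ⟨i, rfl⟩)
    rw [linearIndependent_iff_card_eq_finrank_span]
    rw [Fintype.card_coe, hFcard, ← hrank]
    unfold Set.finrank blockRank
    rw [hspan]
  -- the sum of the exceptional characters
  set Ys : K → ℂ := fun g => ∑ θ ∈ G₀, (θ : K → ℂ) g with hYs
  have hXsing : ∀ χ ∈ F, ∀ g : K, p ∣ orderOf g →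
      (χ : K → ℂ) g + ((δ χ : ℂ) * (σ : ℂ)) * Ys g = 0 := by
    intro χ hχ g hg
    have h1 : ∑ i : F, (conj (((i : IrrCharacter K) : K → ℂ) g) +
        ((δ i.1 : ℂ) * (σ : ℂ)) * conj (Ys g)) •
        pRegularPart p ((i : IrrCharacter K) : K → ℂ) = 0 := by
      funext s
      rw [Finset.sum_apply]
      simp only [Pi.smul_apply, smul_eq_mul, Pi.zero_apply]
      by_cases hs : p ∣ orderOf s
      · simp [pRegularPart_of_sing _ hs]
      · simp only [pRegularPart_of_reg _ hs]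
        have h2 := Cfsg.Agent.Lib.BlkOrth.block_orth_weak hM hb hs hg
        rw [finsum_mem_eq_sum_bF, hbF, Finset.sum_union hFG] at h2
        have h3 : ∑ θ ∈ G₀, (θ : K → ℂ) s * conj ((θ : K → ℂ) g) = (σ : ℂ) * S s * conj (Ys g) := by
          simp only [hYs]
          rw [map_sum, Finset.mul_sum]
          refine Finset.sum_congr rfl fun θ hθ => ?_
          rw [hrel' θ (mem_bF.mp hθ) s hs]
        rw [h3] at h2
        rw [Finset.sum_coe_sort F (fun i => (conj ((i : K → ℂ) g) + ((δ i : ℂ) * (σ : ℂ)) * conj (Ys g)) *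
          (i : K → ℂ) s)]
        rw [← h2]
        simp only [hS]
        rw [Finset.mul_sum, Finset.sum_mul, ← Finset.sum_add_distrib]
        refine Finset.sum_congr rfl fun i _ => ?_
        ring
    have h2 := (Fintype.linearIndependent_iff.mp hli) _ h1 ⟨χ, hχ⟩
    have h3 := congrArg conj h2
    simp only [map_add, map_mul, map_intCast, Complex.conj_conj, map_zero] at h3
    exact h3
  -- the orthogonal elements
  set Ψ : IrrCharacter K → K → ℂ := fun χ' g => (χ' : K → ℂ) g +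
    ((δ χ' : ℂ) * (σ : ℂ)) * Ys g with hΨ
  have hεC : ∀ χ ∈ F, (δ χ : ℂ) * (δ χ : ℂ) = 1 := by
    intro χ hχ
    rcases hδ χ (mem_bF.mp hχ) with h | h <;> simp [h]
  have hΨsing : ∀ χ' ∈ F, ∀ g : K, p ∣ orderOf g → Ψ χ' g = 0 := fun χ' hχ' g hg => hXsing χ' hχ' g hg
  have hYsreg : ∀ g : K, ¬ p ∣ orderOf g → Ys g = (m : ℂ) * ((σ : ℂ) * S g) := by
    intro g hg
    simp only [hYs]
    rw [Finset.sum_congr rfl (fun θ hθ => hrel' θ (mem_bF.mp hθ) g hg), Finset.sum_const, hGcard,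
      nsmul_eq_mul]
  have hΨreg : ∀ χ' ∈ F, ∀ g : K, ¬ p ∣ orderOf g → Ψ χ' g =
      (χ' : K → ℂ) g + ((δ χ' : ℂ) * (m : ℂ)) * S g := by
    intro χ' hχ' g hg
    simp only [hΨ]
    rw [hYsreg g hg]
    linear_combination ((δ χ' : ℂ) * (m : ℂ) * S g) * hσC
  -- orthogonality
  set R : IrrCharacter K → IrrCharacter K → ℂ := fun χ χ' =>
    classInner (pRegularPart p (χ : K → ℂ)) (χ' : K → ℂ) with hR
  have hΨinner : ∀ χ ∈ F, ∀ χ' ∈ F, classInner (χ : K → ℂ) (Ψ χ') = if χ = χ' then 1 else 0 := by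
    intro χ hχ χ' hχ'
    have h1 : Ψ χ' = (χ' : K → ℂ) + ((δ χ' : ℂ) * (σ : ℂ)) • ∑ θ ∈ G₀, (θ : K → ℂ) := by
      funext g
      simp only [hΨ, hYs, Pi.add_apply, Pi.smul_apply, smul_eq_mul, Finset.sum_apply]
    rw [h1, classInner_add_right, classInner_smul_right, classInner_sum_right]
    have h2 : ∑ θ ∈ G₀, classInner (χ : K → ℂ) (θ : K → ℂ) = 0 := by
      refine Finset.sum_eq_zero fun θ hθ => ?_
      apply classInner_irr_ne χ.2 θ.2
      intro h3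
      have h4 : χ = θ := Subtype.ext h3
      exact Finset.disjoint_left.mp hFG hχ (h4 ▸ hθ)
    rw [h2, mul_zero, add_zero]
    by_cases h : χ = χ'
    · rw [if_pos h, h, classInner_irr_self χ'.2]
    · rw [if_neg h]
      exact classInner_irr_ne χ.2 χ'.2 (fun h3 => h (Subtype.ext h3))
  have hE : ∀ χ ∈ F, ∀ χ' ∈ F, R χ χ' + ((δ χ' : ℂ) * (m : ℂ)) * ∑ i ∈ F, (δ i : ℂ) * R χ i =
      if χ = χ' then 1 else 0 := by
    intro χ hχ χ' hχ'
    rw [← hΨinner χ hχ χ' hχ']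
    have h1 : classInner (χ : K → ℂ) (Ψ χ') = classInner (pRegularPart p (χ : K → ℂ)) (Ψ χ') := by
      unfold classInner
      congr 1
      refine Finset.sum_congr rfl fun g _ => ?_
      by_cases hg : p ∣ orderOf g
      · rw [hΨsing χ' hχ' g hg]
        simp
      · rw [pRegularPart_of_reg _ hg]
    rw [h1]
    have h2 : classInner (pRegularPart p (χ : K → ℂ)) (Ψ χ') =
        classInner (pRegularPart p (χ : K → ℂ))
          ((χ' : K → ℂ) + ((δ χ' : ℂ) * (m : ℂ)) • ∑ i ∈ F, (δ i : ℂ) • (i : K → ℂ)) := by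
      unfold classInner
      congr 1
      refine Finset.sum_congr rfl fun g _ => ?_
      by_cases hg : p ∣ orderOf g
      · rw [pRegularPart_of_sing _ hg, zero_mul, zero_mul]
      · rw [hΨreg χ' hχ' g hg]
        simp only [hS, Pi.add_apply, Pi.smul_apply, smul_eq_mul, Finset.sum_apply]
    rw [h2, classInner_add_right, classInner_smul_right, classInner_sum_right]
    simp only [classInner_smul_right, hR, map_mul, map_intCast, map_natCast]
  have hs : ∀ χ ∈ F, ((p ^ a : ℕ) : ℂ) * ∑ i ∈ F, (δ i : ℂ) * R χ i = (δ χ : ℂ) := by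
    intro χ hχ
    have h1 : ∑ χ' ∈ F, (δ χ' : ℂ) * (R χ χ' + ((δ χ' : ℂ) * (m : ℂ)) *
        ∑ i ∈ F, (δ i : ℂ) * R χ i) = ∑ χ' ∈ F, (δ χ' : ℂ) * (if χ = χ' then 1 else 0) :=
      Finset.sum_congr rfl fun χ' hχ' => by rw [hE χ hχ χ' hχ']
    have h2 : ∑ χ' ∈ F, (δ χ' : ℂ) * (if χ = χ' then 1 else 0) = (δ χ : ℂ) := by
      rw [Finset.sum_eq_single χ]
      · simp
      · intro b _ hb
        rw [if_neg (Ne.symm hb), mul_zero]
      · intro h
        exact absurd hχ h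
    rw [h2] at h1
    set s₀ := ∑ i ∈ F, (δ i : ℂ) * R χ i with hs₀
    have h3 : ∑ χ' ∈ F, (δ χ' : ℂ) * (R χ χ' + ((δ χ' : ℂ) * (m : ℂ)) * s₀) =
        s₀ + (F.card : ℂ) * (m : ℂ) * s₀ := by
      have h4 : ∀ χ' ∈ F, (δ χ' : ℂ) * (R χ χ' + ((δ χ' : ℂ) * (m : ℂ)) * s₀) =
          (δ χ' : ℂ) * R χ χ' + (m : ℂ) * s₀ := by
        intro χ' hχ'
        linear_combination ((m : ℂ) * s₀) * hεC χ' hχ'
      rw [Finset.sum_congr rfl h4, Finset.sum_add_distrib, Finset.sum_const, nsmul_eq_mul]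
      ring
    rw [h3] at h1
    rw [← h1]
    have h5 : ((p ^ a : ℕ) : ℂ) = 1 + (F.card : ℂ) * (m : ℂ) := by
      rw [hFcard]
      exact_mod_cast hpem
    rw [h5]
    ring
  refine ⟨F, δ, m, ?_, ?_, ?_, ?_, Or.inl hm0, ?_, ?_⟩
  · rw [hbF]
    exact Finset.subset_union_left
  · rw [hFcard]
    exact he0
  · intro χ hχ
    exact hδ χ (mem_bF.mp hχ)
  · rw [hFcard]
    exact hpem
  · intro ψ hψ
    have hψ' : ψ ∈ F ∪ G₀ := hbF ▸ hψ
    rcases Finset.mem_union.mp hψ' with h | h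
    · refine ⟨fun χ => if χ = ψ then 1 else 0, fun g hg => ?_⟩
      rw [Finset.sum_eq_single ψ]
      · simp
      · intro b _ hb
        simp [hb]
      · intro h'
        exact absurd h h'
    · refine ⟨fun χ => σ * δ χ, fun g hg => ?_⟩
      rw [hrel' ψ (mem_bF.mp h) g hg]
      simp only [hS]
      rw [Finset.mul_sum]
      refine Finset.sum_congr rfl fun χ _ => ?_
      push_cast
      ring
  · intro χ hχ χ' hχ'
    have h1 := hE χ hχ χ' hχ'
    have h2 := hs χ hχ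
    have h3 : ((p ^ a : ℕ) : ℂ) * R χ χ' = ((p ^ a : ℕ) : ℂ) * (if χ = χ' then 1 else 0) -
        ((δ χ' : ℂ) * (m : ℂ)) * (((p ^ a : ℕ) : ℂ) * ∑ i ∈ F, (δ i : ℂ) * R χ i) := by
      rw [← h1]
      ring
    rw [h2] at h3
    show ((p ^ a : ℕ) : ℂ) * R χ χ' = _
    rw [h3]
    by_cases h : χ = χ'
    · simp only [if_pos h]
      ring
    · simp only [if_neg h]
      ring

end Gram

section Form

open Cfsg.Agent.Lib.BlkQuot (infl)
open Cfsg.Agent.Lib.BlockMajor Cfsg.Agent.Lib.RegLattice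

variable {X : Type u} [Group X] [Fintype X] {p : ℕ} [hpF : Fact p.Prime] {M : Ideal AlgInt}
variable (U : Subgroup X) [hUn : U.Normal] [Fintype (X ⧸ U)]

theorem infl_mem_iff (hM : IsPModular p M) (hUZ : U ≤ Subgroup.center X) (hUp : IsPGroup p U)
    {b : Set (IrrCharacter X)} {bb : Set (IrrCharacter (X ⧸ U))} (hb : IsPBlock M b)
    (hbb : IsPBlock M bb) (hinfl : ∀ χ ∈ bb, infl U χ ∈ b) (ψ : IrrCharacter (X ⧸ U)) :
    infl U ψ ∈ b ↔ ψ ∈ bb := by
  have hMp := hM.2.1.isPrime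
  have hC : ∃ k : ℕ, (Subgroup.centralizer (U : Set X)).index = p ^ k := by
    refine ⟨0, ?_⟩
    have h1 : Subgroup.centralizer (U : Set X) = ⊤ := by
      rw [Subgroup.centralizer_eq_top_iff_subset]
      exact hUZ
    rw [h1]
    simp
  obtain ⟨ψ₀, hψ₀⟩ := isPBlock_nonempty hbb
  have h1 : bb = blockOf M (ψ₀ : X ⧸ U → ℂ) := by
    obtain ⟨ξ, rfl⟩ := hbb
    exact (blockOf_eq_of_mem hψ₀).symm
  have h2 : b = blockOf M (infl U ψ₀ : X → ℂ) := by
    have h3 := hinfl ψ₀ hψ₀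
    obtain ⟨ξ, rfl⟩ := hb
    exact (blockOf_eq_of_mem h3).symm
  rw [h1, h2]
  exact (Cfsg.Agent.Lib.BlkQuot.sameBlock_infl_iff U hM hUp hC ψ₀ ψ).symm

/-- **Integrality in a block.** -/
theorem exists_lattice_blk (hM : IsPModular p M) (hUZ : U ≤ Subgroup.center X)
    (hUp : IsPGroup p U) {b : Set (IrrCharacter X)} {bb : Set (IrrCharacter (X ⧸ U))} (hb : IsPBlock M b)
    (hbb : IsPBlock M bb) (hinfl : ∀ χ ∈ bb, infl U χ ∈ b) {ξ : IrrCharacter X} (hξ : ξ ∈ b) :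
    ∃ a : IrrCharacter (X ⧸ U) → ℤ, ∀ s : X, ¬ p ∣ orderOf s →
      (ξ : X → ℂ) s = ∑ ψ ∈ bF bb, (a ψ : ℂ) * (ψ : X ⧸ U → ℂ) (s : X ⧸ U) := by
  classical
  obtain ⟨a, ha⟩ := exists_lattice U hUZ hUp ξ
  refine ⟨a, ?_⟩
  set Bk := bF bb with hBk
  have hB := hb
  set reg := Finset.univ.filter (fun s : X => ¬ p ∣ orderOf s) with hreg
  set α : X → ℂ := fun s => ∑ ψ ∈ Bk, (a ψ : ℂ) * (infl U ψ : X → ℂ) s with hα
  set β : X → ℂ := fun s => ∑ ψ ∈ Finset.univ \ Bk, (a ψ : ℂ) * (infl U ψ : X → ℂ) s with hβ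
  have hsplit : ∀ s ∈ reg, (ξ : X → ℂ) s - α s = β s := by
    intro s hs
    have h1 := ha s (Finset.mem_filter.mp hs).2
    rw [h1, ← Finset.sum_sdiff (Finset.subset_univ Bk)]
    simp only [hα, hβ, Cfsg.Agent.Lib.BlkQuot.infl_apply]
    ring
  have hnot : ∀ ψ ∈ Finset.univ \ Bk, infl U ψ ∉ b := by
    intro ψ hψ h
    have h1 := (infl_mem_iff U hM hUZ hUp hb hbb hinfl ψ).mp h
    exact (Finset.mem_sdiff.mp hψ).2 (mem_bF.mpr h1)
  have horth : ∀ ψ ∈ Finset.univ \ Bk, ∑ s ∈ reg, ((ξ : X → ℂ) s - α s) *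
      conj ((infl U ψ : X → ℂ) s) = 0 := by
    intro ψ hψ
    simp only [hα, sub_mul, Finset.sum_mul]
    rw [Finset.sum_sub_distrib, sum_reg_eq_zero hM hB hξ (hnot ψ hψ), zero_sub, neg_eq_zero,
      Finset.sum_comm]
    refine Finset.sum_eq_zero fun ψ' hψ' => ?_
    simp only [mul_assoc]
    rw [← Finset.mul_sum, sum_reg_eq_zero hM hB
      ((infl_mem_iff U hM hUZ hUp hb hbb hinfl ψ').mpr (mem_bF.mp hψ')) (hnot ψ hψ), mul_zero]
  have hzero : ∑ s ∈ reg, β s * conj (β s) = 0 := by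
    have h1 : ∀ s ∈ reg, β s * conj (β s) = ((ξ : X → ℂ) s - α s) * conj (β s) := by
      intro s hs
      rw [hsplit s hs]
    rw [Finset.sum_congr rfl h1]
    simp only [hβ, map_sum, map_mul, map_intCast, Finset.mul_sum]
    rw [Finset.sum_comm]
    refine Finset.sum_eq_zero fun ψ hψ => ?_
    have h2 := horth ψ hψ
    have h3 : ∑ s ∈ reg, ((ξ : X → ℂ) s - α s) * ((a ψ : ℂ) * conj ((infl U ψ : X → ℂ) s)) =
        (a ψ : ℂ) * ∑ s ∈ reg, ((ξ : X → ℂ) s - α s) * conj ((infl U ψ : X → ℂ) s) := by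
      rw [Finset.mul_sum]
      refine Finset.sum_congr rfl fun s _ => ?_
      ring
    rw [h3, h2, mul_zero]
  have hzero' : ∑ s ∈ reg, Complex.normSq (β s) = 0 := by
    have : ((∑ s ∈ reg, Complex.normSq (β s) : ℝ) : ℂ) = 0 := by
      push_cast
      rw [← hzero]
      refine Finset.sum_congr rfl fun s _ => ?_
      rw [Complex.mul_conj]
    exact_mod_cast this
  intro s hs
  have hsr : s ∈ reg := Finset.mem_filter.mpr ⟨Finset.mem_univ _, hs⟩
  have h1 := (Finset.sum_eq_zero_iff_of_nonneg (fun s _ => Complex.normSq_nonneg _)).mp hzero' s hsr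
  have h2 : β s = 0 := Complex.normSq_eq_zero.mp h1
  have h3 := hsplit s hsr
  rw [h2, sub_eq_zero] at h3
  rw [h3]
  rfl

/-- Coordinates in the lattice. -/
theorem exists_coord_blk (hM : IsPModular p M) (hUZ : U ≤ Subgroup.center X) (hUp : IsPGroup p U)
    {b : Set (IrrCharacter X)} {bb : Set (IrrCharacter (X ⧸ U))} (hb : IsPBlock M b)
    (hbb : IsPBlock M bb) (hinfl : ∀ χ ∈ bb, infl U χ ∈ b)
    {F : Finset (IrrCharacter (X ⧸ U))}
    (hlat : ∀ ψ ∈ bF bb, ∃ c : IrrCharacter (X ⧸ U) → ℤ,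
      ∀ g : X ⧸ U, ¬ p ∣ orderOf g → (ψ : X ⧸ U → ℂ) g = ∑ χ ∈ F, (c χ : ℂ) * (χ : X ⧸ U → ℂ) g)
    {ξ : IrrCharacter X} (hξ : ξ ∈ b) :
    ∃ x : IrrCharacter (X ⧸ U) → ℤ, ∀ s : X, ¬ p ∣ orderOf s →
      (ξ : X → ℂ) s = ∑ χ ∈ F, (x χ : ℂ) * (infl U χ : X → ℂ) s := by
  classical
  obtain ⟨a, ha⟩ := exists_lattice_blk U hM hUZ hUp hb hbb hinfl hξ
  choose! c hc using hlat
  refine ⟨fun χ => ∑ ψ ∈ bF bb, a ψ * c ψ χ, fun s hs => ?_⟩
  rw [ha s hs]
  have hs' : ¬ p ∣ orderOf (s : X ⧸ U) := Cfsg.Agent.Lib.BlockCentral.not_dvd_orderOf_mk U hs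
  rw [Finset.sum_congr rfl (fun ψ hψ => by rw [hc ψ hψ _ hs'])]
  simp_rw [Finset.mul_sum]
  rw [Finset.sum_comm]
  refine Finset.sum_congr rfl fun χ _ => ?_
  push_cast
  rw [Finset.sum_mul]
  refine Finset.sum_congr rfl fun ψ _ => ?_
  simp only [Cfsg.Agent.Lib.BlkQuot.infl_apply]
  ring

/-- The value of the form. -/
theorem Q_eq_form_blk (hM : IsPModular p M) (hUZ : U ≤ Subgroup.center X) (hUp : IsPGroup p U)
    {b : Set (IrrCharacter X)} (hb : IsPBlock M b)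
    {F : Finset (IrrCharacter (X ⧸ U))} {ε : IrrCharacter (X ⧸ U) → ℤ} {m τ : ℕ}
    (hgram : ∀ χ ∈ F, ∀ χ' ∈ F, (τ : ℂ) * classInner (pRegularPart p (χ : X ⧸ U → ℂ)) (χ' : X ⧸ U → ℂ) =
      (if χ = χ' then (τ : ℂ) else 0) - (m : ℂ) * (ε χ : ℂ) * (ε χ' : ℂ))
    (hτ : p ^ blockDefect p b = τ * Nat.card U)
    {ξ ξ' : IrrCharacter X} (hξ' : ξ' ∈ b) {x x' : IrrCharacter (X ⧸ U) → ℤ}
    (hx : ∀ s : X, ¬ p ∣ orderOf s → (ξ : X → ℂ) s = ∑ χ ∈ F, (x χ : ℂ) * (infl U χ : X → ℂ) s)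
    (hx' : ∀ s : X, ¬ p ∣ orderOf s → (ξ' : X → ℂ) s = ∑ χ ∈ F, (x' χ : ℂ) * (infl U χ : X → ℂ) s) :
    Q p b ξ ξ' = (τ : ℤ) * ∑ χ ∈ F, x χ * x' χ -
      (m : ℤ) * ((∑ χ ∈ F, ε χ * x χ) * (∑ χ ∈ F, ε χ * x' χ)) := by
  classical
  have hB := hb
  have h1 := Q_spec hM hB ξ hξ'
  have h2 : (p : ℂ) ^ blockDefect p b = (τ : ℂ) * (Nat.card U : ℂ) := by
    exact_mod_cast hτ
  have h3 : ∀ χ ∈ F, ∀ χ' ∈ F, (p : ℂ) ^ blockDefect p b *
      classInner (pRegularPart p (infl U χ : X → ℂ)) (infl U χ' : X → ℂ) =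
      (if χ = χ' then (τ : ℂ) else 0) - (m : ℂ) * (ε χ : ℂ) * (ε χ' : ℂ) := by
    intro χ hχ χ' hχ'
    rw [← hgram χ hχ χ' hχ', ← classInner_reg_infl U hUZ hUp χ χ', h2]
    ring
  have h4 : classInner (pRegularPart p (ξ : X → ℂ)) (ξ' : X → ℂ) =
      ∑ χ ∈ F, ∑ χ' ∈ F, (x χ : ℂ) * (x' χ' : ℂ) *
        classInner (pRegularPart p (infl U χ : X → ℂ)) (infl U χ' : X → ℂ) := by
    rw [classInner_pReg_eq_sum]
    simp_rw [classInner_pReg_eq_sum]
    simp_rw [Finset.mul_sum]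
    have h5 : ∀ s ∈ Finset.univ.filter (fun s : X => ¬ p ∣ orderOf s),
        (Nat.card X : ℂ)⁻¹ * ((ξ : X → ℂ) s * conj ((ξ' : X → ℂ) s)) =
        ∑ χ ∈ F, ∑ χ' ∈ F, (x χ : ℂ) * (x' χ' : ℂ) * ((Nat.card X : ℂ)⁻¹ *
          ((infl U χ : X → ℂ) s * conj ((infl U χ' : X → ℂ) s))) := by
      intro s hs
      have hs' := (Finset.mem_filter.mp hs).2
      rw [hx s hs', hx' s hs', map_sum, Finset.sum_mul_sum, Finset.mul_sum]
      refine Finset.sum_congr rfl fun χ _ => ?_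
      rw [Finset.mul_sum]
      refine Finset.sum_congr rfl fun χ' _ => ?_
      rw [map_mul, map_intCast]
      ring
    rw [Finset.sum_congr rfl h5, Finset.sum_comm]
    refine Finset.sum_congr rfl fun χ _ => ?_
    rw [Finset.sum_comm]
  apply Int.cast_injective (α := ℂ)
  rw [← h1, h4, Finset.mul_sum]
  have h6 : ∀ χ ∈ F, (p : ℂ) ^ blockDefect p b *
      ∑ χ' ∈ F, (x χ : ℂ) * (x' χ' : ℂ) *
        classInner (pRegularPart p (infl U χ : X → ℂ)) (infl U χ' : X → ℂ) =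
      ∑ χ' ∈ F, (x χ : ℂ) * (x' χ' : ℂ) *
        ((if χ = χ' then (τ : ℂ) else 0) - (m : ℂ) * (ε χ : ℂ) * (ε χ' : ℂ)) := by
    intro χ hχ
    rw [Finset.mul_sum]
    refine Finset.sum_congr rfl fun χ' hχ' => ?_
    rw [← h3 χ hχ χ' hχ']
    ring
  rw [Finset.sum_congr rfl h6]
  push_cast
  have h7 : ∀ χ ∈ F, ∑ χ' ∈ F, (x χ : ℂ) * (x' χ' : ℂ) *
        ((if χ = χ' then (τ : ℂ) else 0) - (m : ℂ) * (ε χ : ℂ) * (ε χ' : ℂ)) =
      (τ : ℂ) * ((x χ : ℂ) * (x' χ : ℂ)) - (m : ℂ) * (((ε χ : ℂ) * (x χ : ℂ)) *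
        ∑ χ' ∈ F, (ε χ' : ℂ) * (x' χ' : ℂ)) := by
    intro χ hχ
    simp_rw [mul_sub]
    rw [Finset.sum_sub_distrib]
    congr 1
    · rw [Finset.sum_eq_single χ]
      · simp only [if_true]
        ring
      · intro b _ hb
        rw [if_neg (Ne.symm hb), mul_zero]
      · intro h
        exact absurd hχ h
    · rw [Finset.mul_sum, Finset.mul_sum]
      refine Finset.sum_congr rfl fun χ' _ => ?_
      ring
  rw [Finset.sum_congr rfl h7, Finset.sum_sub_distrib, ← Finset.mul_sum, ← Finset.mul_sum,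
    ← Finset.sum_mul]

/-- The rank of a block is bounded by the number of generators of its lattice. -/
theorem blockRank_le_of_lattice {b : Set (IrrCharacter X)} {F : Finset (IrrCharacter (X ⧸ U))}
    (hx : ∀ ξ ∈ b, ∃ x : IrrCharacter (X ⧸ U) → ℤ, ∀ s : X, ¬ p ∣ orderOf s →
      (ξ : X → ℂ) s = ∑ χ ∈ F, (x χ : ℂ) * (infl U χ : X → ℂ) s) :
    blockRank p b ≤ F.card := by
  classical
  have h1 : Submodule.span ℂ ((fun χ : IrrCharacter X => pRegularPart p (χ : X → ℂ)) '' b) ≤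
      Submodule.span ℂ (Set.range (fun j : F => pRegularPart p (infl U j.1 : X → ℂ))) := by
    rw [Submodule.span_le]
    rintro _ ⟨ξ, hξ, rfl⟩
    obtain ⟨x, hx⟩ := hx ξ hξ
    have h2 : pRegularPart p (ξ : X → ℂ) = ∑ j : F, (x j.1 : ℂ) • pRegularPart p (infl U j.1 : X → ℂ) := by
      funext s
      rw [Finset.sum_apply]
      simp only [Pi.smul_apply, smul_eq_mul]
      by_cases hs : p ∣ orderOf s
      · simp [pRegularPart_of_sing _ hs]
      · simp only [pRegularPart_of_reg _ hs]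
        rw [hx s hs, Finset.sum_coe_sort F (fun χ => (x χ : ℂ) * (infl U χ : X → ℂ) s)]
    show pRegularPart p (ξ : X → ℂ) ∈ _
    rw [h2]
    exact Submodule.sum_mem _ fun j _ => Submodule.smul_mem _ _
      (Submodule.subset_span ⟨j, rfl⟩)
  refine (Submodule.finrank_mono h1).trans ?_
  have := finrank_range_le_card (R := ℂ) (fun j : F => pRegularPart p (infl U j.1 : X → ℂ))
  rw [Fintype.card_coe] at this
  exact this

end Form

section Count

open Cfsg.Agent.Lib.BlkQuot (infl)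
open Cfsg.Agent.Lib.BlockMajor Cfsg.Agent.Lib.BlockMajorForm Cfsg.Agent.Lib.K0Form
open Cfsg.Agent.Lib.BlockSubsection Cfsg.Agent.Lib.BlockVal

variable {G : Type u} [Group G] [Fintype G] {p : ℕ} [hpF : Fact p.Prime] {M : Ideal AlgInt}
variable {y : G} {H : Subgroup G} [Fintype H]

/-- The rows do not vanish. -/
theorem exists_vv_Q_ne (hM : IsPModular p M) (hy : ∃ k : ℕ, orderOf y = p ^ k)
    (hH : H = Subgroup.centralizer ({y} : Set G)) {b : Set (IrrCharacter H)}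
    {B : Set (IrrCharacter G)} (hind : IsInducedBlock M H b B)
    (hd : blockDefect p b = blockDefect p B) :
    ∃ ξ₀ ∈ bF b, ∀ χ ∈ B, ∑ ξ ∈ bF b, vv hH χ ξ * (Q p b ξ ξ₀ : ℂ) ≠ 0 := by
  classical
  have hMp := hM.2.1.isPrime
  have hb := hind.1
  have hp := hpF.out
  obtain ⟨ξ₀, hξ₀, h0⟩ := exists_minExp (p := p) hb
  have hξ₀F : ξ₀ ∈ bF b := mem_bF.mpr hξ₀
  refine ⟨ξ₀, hξ₀F, fun χ hχ => ?_⟩
  let e₀ : IrrCharacter H → ℤ := fun ξ => if ξ = ξ₀ then 1 else 0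
  have he₀ : ∑ ξ ∈ bF b, ∑ ξ' ∈ bF b, e₀ ξ * e₀ ξ' * Q p b ξ ξ' = Q p b ξ₀ ξ₀ := by
    rw [Finset.sum_eq_single ξ₀, Finset.sum_eq_single ξ₀]
    · simp [e₀]
    · intro ξ' _ h
      simp [e₀, h]
    · intro h
      exact absurd hξ₀F h
    · intro ξ _ h
      refine Finset.sum_eq_zero fun ξ' _ => ?_
      simp [e₀, h]
    · intro h
      exact absurd hξ₀F h
  have hunit : ¬ (p : ℤ) ∣ ∑ ξ ∈ bF b, ∑ ξ' ∈ bF b, e₀ ξ * e₀ ξ' * Q p b ξ ξ' := by
    rw [he₀, ← memLocalIdeal_intCast_iff hM, Q_eq_gg_mul hM hb ξ₀ hξ₀]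
    intro h
    rcases (memLocalIdeal_mul_iff (memLocalRing_gg hM hb hξ₀)
      (memLocalRing_of_mem_Zc (omega_regInv_mem_Zc (IsIrrCharacter.isCharacter ξ₀.2)) ξ₀)).mp h with h1 | h1
    · exact not_memLocalIdeal_gg hM hb hξ₀ h0 h1
    · exact not_memLocalIdeal_W hM hb hξ₀ h0 h1
  have h1 := nn_ne_zero hM hy hH hind e₀ hd hunit hχ
  have h2 : nn hH p b χ e₀ = ∑ ξ ∈ bF b, vv hH χ ξ * (Q p b ξ ξ₀ : ℂ) := by
    unfold nn
    refine Finset.sum_congr rfl fun ξ hξ => ?_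
    rw [Finset.sum_eq_single ξ₀]
    · simp [e₀]
    · intro ξ' _ h
      simp [e₀, h]
    · intro h
      exact absurd hξ₀F h
  rwa [h2] at h1

/-- **Counting with the form of a central quotient.** -/
theorem card_le_of_gram (hM : IsPModular p M) (hy : ∃ k : ℕ, orderOf y = p ^ k)
    (hH : H = Subgroup.centralizer ({y} : Set G)) {b : Set (IrrCharacter H)}
    {B : Set (IrrCharacter G)} (hind : IsInducedBlock M H b B)
    (hd : blockDefect p b = blockDefect p B)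
    (U : Subgroup H) [hUn : U.Normal] [Fintype (H ⧸ U)] (hUZ : U ≤ Subgroup.center H)
    (hUp : IsPGroup p U) {bb : Set (IrrCharacter (H ⧸ U))} (hbb : IsPBlock M bb)
    (hinfl : ∀ χ ∈ bb, infl U χ ∈ b) {τ : ℕ} (hgram : GramB p bb τ)
    (hτ : p ^ blockDefect p b = τ * Nat.card U) :
    (bF B).card ≤ p ^ blockDefect p B := by
  classical
  have hb := hind.1
  have hp := hpF.out
  obtain ⟨F, ε, m, hFsub, hF0, hε, hτ', hm', hlat, hgr⟩ := hgram
  have hcoord : ∀ ξ ∈ b, ∃ x : IrrCharacter (H ⧸ U) → ℤ, ∀ s : H, ¬ p ∣ orderOf s →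
      (ξ : H → ℂ) s = ∑ χ ∈ F, (x χ : ℂ) * (infl U χ : H → ℂ) s :=
    fun ξ hξ => exists_coord_blk U hM hUZ hUp hb hbb hinfl hlat hξ
  have hrank : blockRank p b ≤ F.card := blockRank_le_of_lattice U hcoord
  choose! x hx using hcoord
  have hQ : ∀ ξ ∈ bF b, ∀ ξ' ∈ bF b, Q p b ξ ξ' =
      ((1 + Fintype.card F * m : ℕ) : ℤ) * ∑ j : F, x ξ j.1 * x ξ' j.1 -
        (m : ℤ) * ((∑ j : F, ε j.1 * x ξ j.1) * (∑ j : F, ε j.1 * x ξ' j.1)) := by
    intro ξ hξ ξ' hξ'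
    rw [Fintype.card_coe, ← hτ', Finset.sum_coe_sort F (fun χ => x ξ χ * x ξ' χ),
      Finset.sum_coe_sort F (fun χ => ε χ * x ξ χ), Finset.sum_coe_sort F (fun χ => ε χ * x ξ' χ)]
    exact Q_eq_form_blk U hM hUZ hUp hb hgr hτ (mem_bF.mp hξ') (hx ξ (mem_bF.mp hξ)) (hx ξ' (mem_bF.mp hξ'))
  obtain ⟨k, hk⟩ := id hy
  have hn : y ^ (p ^ k) = 1 := by rw [← hk]; exact pow_orderOf_eq_one y
  have hn0 : p ^ k ≠ 0 := pow_ne_zero _ hp.ne_zero
  haveI : NeZero (p ^ k) := ⟨hn0⟩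
  set xx : F → IrrCharacter H → ℤ := fun j ξ => x ξ j.1 with hxx
  set εε : F → ℤ := fun j => ε j.1 with hεε
  have hRR := RR_eq_simplex hM hH hb εε (1 + Fintype.card F * m) m xx hQ
  -- the rows
  obtain ⟨ξ₀, hξ₀, hne⟩ := exists_vv_Q_ne hM hy hH hind hd
  have hrow : ∀ χ ∈ bF B, ∃ j : F, wK hH b xx χ j ≠ 0 := by
    intro χ hχ
    by_contra hcon
    push Not at hcon
    apply hne χ (mem_bF.mp hχ)
    have h1 : ∑ ξ ∈ bF b, vv hH χ ξ * (Q p b ξ ξ₀ : ℂ) =
        ((1 + Fintype.card F * m : ℕ) : ℂ) * ∑ j : F, wK hH b xx χ j * (xx j ξ₀ : ℂ) -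
          (m : ℂ) * ((∑ j : F, (εε j : ℂ) * wK hH b xx χ j) * (∑ j : F, (εε j : ℂ) * (xx j ξ₀ : ℂ))) := by
      have h2 : ∀ ξ ∈ bF b, vv hH χ ξ * (Q p b ξ ξ₀ : ℂ) =
          ((1 + Fintype.card F * m : ℕ) : ℂ) * ∑ j : F, vv hH χ ξ * (xx j ξ : ℂ) * (xx j ξ₀ : ℂ) -
            (m : ℂ) * ((∑ j : F, (εε j : ℂ) * (vv hH χ ξ * (xx j ξ : ℂ))) *
              (∑ j : F, (εε j : ℂ) * (xx j ξ₀ : ℂ))) := by
        intro ξ hξ
        rw [hQ ξ hξ ξ₀ hξ₀]
        push_cast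
        simp only [hxx, hεε]
        have h3 : ∑ j : F, vv hH χ ξ * (x ξ j.1 : ℂ) * (x ξ₀ j.1 : ℂ) =
            vv hH χ ξ * ∑ j : F, (x ξ j.1 : ℂ) * (x ξ₀ j.1 : ℂ) := by
          rw [Finset.mul_sum]
          refine Finset.sum_congr rfl fun j _ => ?_
          ring
        have h4 : ∑ j : F, (ε j.1 : ℂ) * (vv hH χ ξ * (x ξ j.1 : ℂ)) =
            vv hH χ ξ * ∑ j : F, (ε j.1 : ℂ) * (x ξ j.1 : ℂ) := by
          rw [Finset.mul_sum]
          refine Finset.sum_congr rfl fun j _ => ?_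
          ring
        rw [h3, h4]
        ring
      rw [Finset.sum_congr rfl h2, Finset.sum_sub_distrib, ← Finset.mul_sum, ← Finset.mul_sum,
        ← Finset.sum_mul]
      congr 2
      · rw [Finset.sum_comm]
        refine Finset.sum_congr rfl fun j _ => ?_
        unfold wK
        rw [Finset.sum_mul]
      · congr 1
        rw [Finset.sum_comm]
        refine Finset.sum_congr rfl fun j _ => ?_
        unfold wK
        rw [Finset.mul_sum]
    rw [h1]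
    simp [hcon]
  have hmain := Cfsg.Agent.Lib.GalSimplex.card_mul_le_of_simplex (p ^ k)
    (bF B) (bF B) (Finset.Subset.refl _) (wK hH b xx)
    (fun χ j => sum_mem fun ξ _ => mul_mem (vv_mem_cycF hH χ ξ hn)
      (Cfsg.Agent.Lib.GalAmgm.intCast_mem_cycF _ _))
    (fun χ j => IsIntegral.sum _ fun ξ _ => IsIntegral.mul (vv_isIntegral hH χ ξ hn0 hn)
      (isIntegral_intCast _))
    hrow εε (fun j => hε j.1 j.2) m (by rw [Fintype.card_coe]; exact hm')
    (((blockRank p b * p ^ blockDefect p b : ℕ) : ℚ)) (by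
      rw [Finset.sum_congr rfl (fun χ _ => (hRR χ).symm), sum_RR_self hM hy hH hind]
      push_cast
      rfl)
  have h1 : ((bF B).card * Fintype.card F : ℕ) ≤ blockRank p b * p ^ blockDefect p b := by
    have : (((bF B).card * Fintype.card F : ℕ) : ℝ) ≤
        ((blockRank p b * p ^ blockDefect p b : ℕ) : ℝ) := by
      push_cast at hmain ⊢
      exact hmain
    exact_mod_cast this
  have h2 : (bF B).card * Fintype.card F ≤ p ^ blockDefect p b * Fintype.card F := by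
    refine h1.trans ?_
    rw [mul_comm]
    refine Nat.mul_le_mul_left _ ?_
    rw [Fintype.card_coe]
    exact hrank
  have h3 := Nat.le_of_mul_le_mul_right h2 (by rw [Fintype.card_coe]; exact hF0)
  rwa [hd] at h3

end Count

end Cfsg.Agent.Lib.BFMajor
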