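import Mathlib
import Cfsg.Agent.Lib.BFMajor

/-!
# Blocks with abelian defect groups of rank two and three

`k(B) ≤ l(b) p ^ d`, and the bounds for defect groups with two or three generators.
-/

set_option autoImplicit false
set_option linter.unusedSectionVars false
set_option linter.unusedVariables false
set_option linter.style.haveILetI false

namespace Cfsg.Agent.Lib.BFMajor2

open Cfsg Cfsg.Agent.Lib.CharBasic Cfsg.Agent.Lib.CharInd Cfsg.Agent.Lib.CharIntegrality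
open Cfsg.Agent.Lib.BlockLocal Cfsg.Agent.Lib.BlockIdem Cfsg.Agent.Lib.BlockQ
open Cfsg.Agent.Lib.BlockOrtho Cfsg.Agent.Lib.BFMajor
open Cfsg.Agent.Lib.GalAmgm
open scoped ComplexConjugate

universe u

/-- **Galois averaging for a positive semidefinite integral form.** -/
theorem card_le_of_psd (n : ℕ) [NeZero n] {ι κ : Type*} (s : Finset ι) (T : Finset κ)
    (V : ι → κ → ℂ) (hm : ∀ i k, V i k ∈ cycF n) (hi : ∀ i k, IsIntegral ℤ (V i k))
    (Q : κ → κ → ℤ)
    (hpsd : ∀ w : κ → ℂ, ∃ r : ℝ, 0 ≤ r ∧ ∑ k ∈ T, ∑ k' ∈ T, w k * conj (w k') * (Q k k' : ℂ) = r)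
    (hne : ∀ i ∈ s, ∑ k ∈ T, ∑ k' ∈ T, V i k * conj (V i k') * (Q k k' : ℂ) ≠ 0)
    (N : ℚ) (hN : ∑ i ∈ s, ∑ k ∈ T, ∑ k' ∈ T, V i k * conj (V i k') * (Q k k' : ℂ) = (N : ℂ)) :
    (s.card : ℝ) ≤ N := by
  classical
  let W : ι → κ → cycF n := fun i k => ⟨V i k, hm i k⟩
  let R : ι → cycF n := fun i => ∑ k ∈ T, ∑ k' ∈ T, W i k * conjF n (W i k') * ((Q k k' : ℤ) : cycF n)
  have hR : ∀ i, ((R i : cycF n) : ℂ) = ∑ k ∈ T, ∑ k' ∈ T, V i k * conj (V i k') * (Q k k' : ℂ) := by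
    intro i
    simp only [R]
    push_cast
    refine Finset.sum_congr rfl fun k _ => Finset.sum_congr rfl fun k' _ => ?_
    rw [coe_conjF]
  have hφR : ∀ (φ : cycF n →ₐ[ℚ] ℂ) (i : ι), φ (R i) =
      ∑ k ∈ T, ∑ k' ∈ T, φ (W i k) * conj (φ (W i k')) * (Q k k' : ℂ) := by
    intro φ i
    simp only [R, map_sum, map_mul, emb_conjF, map_intCast]
  choose a ha0 ha using fun (φ : cycF n →ₐ[ℚ] ℂ) (i : ι) => hpsd (fun k => φ (W i k))
  have haR : ∀ (φ : cycF n →ₐ[ℚ] ℂ) (i : ι), φ (R i) = (a φ i : ℂ) := fun φ i =>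
    (hφR φ i).trans (ha φ i)
  have hRne : ∀ i ∈ s, R i ≠ 0 := by
    intro i hi' h0
    apply hne i hi'
    rw [← hR, h0]
    rfl
  have hpos : ∀ (φ : cycF n →ₐ[ℚ] ℂ), ∀ i ∈ s, 0 < a φ i := by
    intro φ i hi'
    refine lt_of_le_of_ne (ha0 φ i) fun h0 => ?_
    have h1 := haR φ i
    rw [← h0, Complex.ofReal_zero, map_eq_zero] at h1
    exact hRne i hi' h1
  have hint : ∀ i, IsIntegral ℤ (R i) := by
    intro i
    have h1 : IsIntegral ℤ ((R i : cycF n) : ℂ) := by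
      rw [hR]
      refine IsIntegral.sum _ fun k _ => IsIntegral.sum _ fun k' _ => ?_
      refine IsIntegral.mul (IsIntegral.mul (hi i k) ?_) (isIntegral_intCast _)
      have h2 : (conj (V i k') : ℂ) = Cfsg.Agent.Lib.GalAmgm.conjQ (V i k') := rfl
      rw [h2]
      exact (hi i k').map _
    have hinj : Function.Injective (algebraMap (cycF n) ℂ) := (algebraMap (cycF n) ℂ).injective
    exact (isIntegral_algebraMap_iff hinj).mp h1
  have hprod : ∀ i ∈ s, 1 ≤ ∏ φ : cycF n →ₐ[ℚ] ℂ, a φ i := by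
    intro i hi'
    have hnormint : IsIntegral ℤ (Algebra.norm ℚ (R i)) := Algebra.isIntegral_norm ℚ (hint i)
    obtain ⟨z, hz⟩ := IsIntegrallyClosed.isIntegral_iff.mp hnormint
    have hz0 : z ≠ 0 := by
      intro h0
      have h1 : Algebra.norm ℚ (R i) ≠ 0 := (Algebra.norm_ne_zero_iff).mpr (hRne i hi')
      apply h1
      rw [← hz, h0]
      simp
    have h2 : ∏ φ : cycF n →ₐ[ℚ] ℂ, φ (R i) = (z : ℂ) := by
      rw [← Algebra.norm_eq_prod_embeddings ℚ ℂ (R i), ← hz]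
      simp
    have h3 : ((∏ φ : cycF n →ₐ[ℚ] ℂ, a φ i : ℝ) : ℂ) = (z : ℂ) := by
      push_cast
      rw [← h2]
      exact Finset.prod_congr rfl fun φ _ => (haR φ i).symm
    have h4 : (∏ φ : cycF n →ₐ[ℚ] ℂ, a φ i : ℝ) = (z : ℝ) := by
      exact_mod_cast h3
    have h5 : 0 < (z : ℝ) := by
      rw [← h4]
      exact Finset.prod_pos fun φ _ => hpos φ i hi'
    have h6 : (1 : ℝ) ≤ z := by
      have h7 : 0 < z := by exact_mod_cast h5
      exact_mod_cast h7
    rw [h4]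
    exact h6
  set C : ℝ := (Fintype.card (cycF n →ₐ[ℚ] ℂ) : ℝ) with hC
  have hcard : (0 : ℝ) < C := by
    have : Nonempty (cycF n →ₐ[ℚ] ℂ) := ⟨(cycF n).val⟩
    rw [hC]
    exact_mod_cast Fintype.card_pos
  have h4 : ∀ i ∈ s, C ≤ ∑ φ : cycF n →ₐ[ℚ] ℂ, a φ i := by
    intro i hi'
    have := card_le_sum_of_one_le_prod Finset.univ (fun φ : cycF n →ₐ[ℚ] ℂ => a φ i)
      (fun φ _ => hpos φ i hi') (hprod i hi')
    simpa [Finset.card_univ, hC] using this
  have hsum : ∑ i ∈ s, R i = algebraMap ℚ (cycF n) N := by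
    apply Subtype.ext
    rw [show ((algebraMap ℚ (cycF n) N : cycF n) : ℂ) = (N : ℂ) from by simp, ← hN]
    push_cast
    exact Finset.sum_congr rfl fun i _ => hR i
  have hφ : ∀ φ : cycF n →ₐ[ℚ] ℂ, ∑ i ∈ s, a φ i = (N : ℝ) := by
    intro φ
    have h1 := congrArg φ hsum
    rw [map_sum, AlgHom.commutes] at h1
    rw [Finset.sum_congr rfl (fun i _ => haR φ i)] at h1
    have h3 : ((∑ i ∈ s, a φ i : ℝ) : ℂ) = ((N : ℝ) : ℂ) := by
      push_cast at h1 ⊢
      rw [h1]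
      simp
    exact Complex.ofReal_injective h3
  have h5 := Finset.sum_le_sum h4
  rw [Finset.sum_const, Finset.sum_comm, nsmul_eq_mul] at h5
  simp_rw [hφ] at h5
  rw [Finset.sum_const, Finset.card_univ, nsmul_eq_mul, mul_comm] at h5
  exact le_of_mul_le_mul_left h5 hcard

section Psd

open Cfsg.Agent.Lib.BlockMajor

variable {X : Type u} [Group X] [Fintype X] {p : ℕ} [hpF : Fact p.Prime] {M : Ideal AlgInt}

/-- The form as a sum of squares. -/
theorem form_eq (hM : IsPModular p M) {b : Set (IrrCharacter X)} (hb : IsPBlock M b)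
    (w : IrrCharacter X → ℂ) :
    ∑ ξ ∈ bF b, ∑ ξ' ∈ bF b, w ξ * conj (w ξ') * (Q p b ξ ξ' : ℂ) =
      (((p : ℝ) ^ blockDefect p b * (Nat.card X : ℝ)⁻¹ *
        ∑ s ∈ Finset.univ.filter (fun s : X => ¬ p ∣ orderOf s),
          Complex.normSq (∑ ξ ∈ bF b, w ξ * (ξ : X → ℂ) s) : ℝ) : ℂ) := by
  classical
  set α : X → ℂ := fun s => ∑ ξ ∈ bF b, w ξ * (ξ : X → ℂ) s with hα
  have h1 := classInner_pReg_expand (p := p) (bF b) w w (α := α) (β := α) (fun s => rfl) (fun s => rfl)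
  have h2 : ∑ ξ ∈ bF b, ∑ ξ' ∈ bF b, w ξ * conj (w ξ') * (Q p b ξ ξ' : ℂ) =
      (p : ℂ) ^ blockDefect p b * classInner (pRegularPart p α) α := by
    rw [h1, Finset.mul_sum]
    refine Finset.sum_congr rfl fun ξ _ => ?_
    rw [Finset.mul_sum]
    refine Finset.sum_congr rfl fun ξ' hξ' => ?_
    rw [← Q_spec hM hb ξ (mem_bF.mp hξ')]
    ring
  rw [h2, classInner_pReg_eq_sum]
  push_cast
  rw [mul_assoc]
  congr 2
  refine Finset.sum_congr rfl fun s _ => ?_
  rw [Complex.mul_conj]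

theorem form_psd (hM : IsPModular p M) {b : Set (IrrCharacter X)} (hb : IsPBlock M b)
    (w : IrrCharacter X → ℂ) :
    ∃ r : ℝ, 0 ≤ r ∧ ∑ ξ ∈ bF b, ∑ ξ' ∈ bF b, w ξ * conj (w ξ') * (Q p b ξ ξ' : ℂ) = r := by
  refine ⟨_, ?_, form_eq hM hb w⟩
  have hp := hpF.out
  have h1 : (0 : ℝ) ≤ ∑ s ∈ Finset.univ.filter (fun s : X => ¬ p ∣ orderOf s),
      Complex.normSq (∑ ξ ∈ bF b, w ξ * (ξ : X → ℂ) s) :=
    Finset.sum_nonneg fun _ _ => Complex.normSq_nonneg _
  positivity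

/-- A vector of norm zero is in the radical. -/
theorem form_radical (hM : IsPModular p M) {b : Set (IrrCharacter X)} (hb : IsPBlock M b)
    (w : IrrCharacter X → ℂ)
    (h0 : ∑ ξ ∈ bF b, ∑ ξ' ∈ bF b, w ξ * conj (w ξ') * (Q p b ξ ξ' : ℂ) = 0)
    {ξ₀ : IrrCharacter X} (hξ₀ : ξ₀ ∈ b) : ∑ ξ ∈ bF b, w ξ * (Q p b ξ ξ₀ : ℂ) = 0 := by
  classical
  have hp := hpF.out
  have hp0 : (0 : ℝ) < p := by exact_mod_cast hp.pos
  have hX0 : (0 : ℝ) < Nat.card X := by exact_mod_cast Nat.card_pos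
  rw [form_eq hM hb] at h0
  have h1 : (p : ℝ) ^ blockDefect p b * (Nat.card X : ℝ)⁻¹ *
        ∑ s ∈ Finset.univ.filter (fun s : X => ¬ p ∣ orderOf s),
          Complex.normSq (∑ ξ ∈ bF b, w ξ * (ξ : X → ℂ) s) = 0 := by
    exact_mod_cast h0
  have h2 : ∑ s ∈ Finset.univ.filter (fun s : X => ¬ p ∣ orderOf s),
          Complex.normSq (∑ ξ ∈ bF b, w ξ * (ξ : X → ℂ) s) = 0 := by
    refine (mul_eq_zero.mp h1).resolve_left ?_
    positivity
  have h3 : ∀ s : X, ¬ p ∣ orderOf s → ∑ ξ ∈ bF b, w ξ * (ξ : X → ℂ) s = 0 := by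
    intro s hs
    have h4 := (Finset.sum_eq_zero_iff_of_nonneg (fun s _ => Complex.normSq_nonneg _)).mp h2 s
      (Finset.mem_filter.mpr ⟨Finset.mem_univ _, hs⟩)
    exact Complex.normSq_eq_zero.mp h4
  set α : X → ℂ := fun s => ∑ ξ ∈ bF b, w ξ * (ξ : X → ℂ) s with hα
  have h5 := classInner_pReg_expand (p := p) (bF b) w (fun ξ => if ξ = ξ₀ then 1 else 0)
    (α := α) (β := (ξ₀ : X → ℂ)) (fun s => rfl) (fun s => by
      rw [Finset.sum_eq_single ξ₀]
      · simp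
      · intro ξ _ h
        simp [h]
      · intro h
        exact absurd (mem_bF.mpr hξ₀) h)
  have h6 : classInner (pRegularPart p α) (ξ₀ : X → ℂ) = 0 := by
    rw [classInner_pReg_eq_sum]
    rw [Finset.sum_eq_zero, mul_zero]
    intro s hs
    have h8 : α s = 0 := h3 s (Finset.mem_filter.mp hs).2
    rw [h8, zero_mul]
  have h7 : (p : ℂ) ^ blockDefect p b * classInner (pRegularPart p α) (ξ₀ : X → ℂ) =
      ∑ ξ ∈ bF b, w ξ * (Q p b ξ ξ₀ : ℂ) := by
    rw [h5, Finset.mul_sum]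
    refine Finset.sum_congr rfl fun ξ _ => ?_
    rw [Finset.sum_eq_single ξ₀]
    · rw [← Q_spec hM hb ξ hξ₀]
      simp
      ring
    · intro ξ' _ h
      simp [h]
    · intro h
      exact absurd (mem_bF.mpr hξ₀) h
  rw [← h7, h6, mul_zero]

end Psd

section Bound

open Cfsg.Agent.Lib.BlockMajor Cfsg.Agent.Lib.BlockMajorForm Cfsg.Agent.Lib.K0Form

variable {G : Type u} [Group G] [Fintype G] {p : ℕ} [hpF : Fact p.Prime] {M : Ideal AlgInt}
variable {y : G} {H : Subgroup G} [Fintype H]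

/-- **`k(B) ≤ l(b) p ^ d`.** -/
theorem card_le_blockRank_mul (hM : IsPModular p M) (hy : ∃ k : ℕ, orderOf y = p ^ k)
    (hH : H = Subgroup.centralizer ({y} : Set G)) {b : Set (IrrCharacter H)}
    {B : Set (IrrCharacter G)} (hind : IsInducedBlock M H b B)
    (hd : blockDefect p b = blockDefect p B) :
    (bF B).card ≤ blockRank p b * p ^ blockDefect p b := by
  classical
  have hb := hind.1
  have hp := hpF.out
  obtain ⟨k, hk⟩ := id hy
  have hn : y ^ (p ^ k) = 1 := by rw [← hk]; exact pow_orderOf_eq_one y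
  have hn0 : p ^ k ≠ 0 := pow_ne_zero _ hp.ne_zero
  haveI : NeZero (p ^ k) := ⟨hn0⟩
  obtain ⟨ξ₀, hξ₀, hne⟩ := exists_vv_Q_ne hM hy hH hind hd
  have h := card_le_of_psd (p ^ k) (bF B) (bF b) (fun χ ξ => vv hH χ ξ)
    (fun χ ξ => vv_mem_cycF hH χ ξ hn) (fun χ ξ => vv_isIntegral hH χ ξ hn0 hn) (Q p b)
    (fun w => form_psd hM hb w)
    (fun χ hχ h0 => hne χ (mem_bF.mp hχ) (form_radical hM hb _ h0 (mem_bF.mp hξ₀)))
    (((blockRank p b * p ^ blockDefect p b : ℕ) : ℚ)) (by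
      rw [Finset.sum_congr rfl (fun χ _ => (RR_eq hM hH hb χ χ).symm), sum_RR_self hM hy hH hind]
      push_cast
      rfl)
  have h1 : (((bF B).card : ℕ) : ℝ) ≤ ((blockRank p b * p ^ blockDefect p b : ℕ) : ℝ) := by
    push_cast at h ⊢
    exact h
  exact_mod_cast h1

end Bound

section Setup

open Cfsg.Agent.Lib.BlkQuot (infl)
open Cfsg.Agent.Lib.BlockMajor

variable {G : Type u} [Group G] [Fintype G] {p : ℕ} [hpF : Fact p.Prime] {M : Ideal AlgInt}

local notation "𝐂[" R "]" => Subgroup.centralizer ((R : Subgroup G) : Set G)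

noncomputable local instance fintypeSubBMa (K : Subgroup G) : Fintype K := Fintype.ofFinite K

/-- The block of the centralizer of an element of an abelian defect group. -/
theorem exists_block_centralizer (hM : IsPModular p M) {B : Set (IrrCharacter G)} (hB : IsPBlock M B)
    {D : Subgroup G} (hD : IsDefectGroup p M B D) (hab : ∀ x ∈ D, ∀ z ∈ D, x * z = z * x) {y : G}
    (hy : y ∈ D) :
    ∃ f : Set (IrrCharacter 𝐂[Subgroup.zpowers y]), IsInducedBlock M 𝐂[Subgroup.zpowers y] f B ∧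
      IsDefectGroup p M f (D.subgroupOf 𝐂[Subgroup.zpowers y]) := by
  classical
  haveI := hM.2.1.isPrime
  have hPp : IsPGroup p D := IsPGroup.of_card (Cfsg.Agent.Lib.BlockDefect.card_isDefectGroup hM hB hD)
  have hQP : Subgroup.zpowers y ≤ D := Subgroup.zpowers_le.2 hy
  have hPC : D ≤ 𝐂[Subgroup.zpowers y] := by
    intro x hx
    rw [Subgroup.mem_centralizer_iff]
    intro q hq
    exact hab q (hQP hq) x hx
  obtain ⟨c, hc⟩ := Cfsg.Agent.Lib.BrauerCorr.exists_maximal_of_isDefectGroup hM hB hD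
  have hcB := hc.1
  obtain ⟨f, hf⟩ := Cfsg.Agent.Lib.BrauerIn.exists_isInducedBlockIn hM hPp hQP hPC hcB.1.2
  have hfb := hf.2.1
  have hbp := Cfsg.Agent.Lib.BrauerIn.isBrauerPairOf_in hM hPp hQP hPC hf
  have hmax' := Cfsg.Agent.Lib.BrauerIn.isMaximal_in hM hD hQP hPC hcB hbp hfb
  have hD' := Cfsg.Agent.Lib.BrauerMax.isDefectGroup_of_maximal hM hmax'
  have hn := Cfsg.Agent.Lib.BrauerIn.isNormalSubpair_of_in hPp hQP hPC hbp hcB.1.2 hfb
  have hQf := (Cfsg.Agent.Lib.BrauerSub.isBrauerPairOf_iff_of_normal hM hcB.2.1 hn).2 hcB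
  exact ⟨f, Cfsg.Agent.S4683.isInducedBlock_of_isBrauerPairOf hM hQf, hD'⟩

/-- The order of the image of a subgroup containing the kernel. -/
theorem card_eq_card_map_mul {L : Type*} [Group L] [Finite L] (E N : Subgroup L) [N.Normal] (hNE : N ≤ E) :
    Nat.card E = Nat.card (E.map (QuotientGroup.mk' N)) * Nat.card N := by
  have h1 : (E.map (QuotientGroup.mk' N)).index = E.index := by
    rw [Subgroup.index_map, QuotientGroup.ker_mk', sup_eq_left.mpr hNE,
      MonoidHom.range_eq_top.mpr (QuotientGroup.mk'_surjective N)]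
    simp
  have h2 := Subgroup.card_mul_index E
  have h3 := Subgroup.card_mul_index (E.map (QuotientGroup.mk' N))
  have h4 := Subgroup.card_eq_card_quotient_mul_card_subgroup N
  have h5 : E.index ≠ 0 := Subgroup.index_ne_zero_of_finite
  rw [h1] at h3
  apply Nat.eq_of_mul_eq_mul_right (Nat.pos_of_ne_zero h5)
  rw [h2, h4, ← h3]
  ring

/-- **Two generators**, for a given block of the centralizer. -/
theorem card_le_of_two_gen_aux (hM : IsPModular p M) {B : Set (IrrCharacter G)} (hB : IsPBlock M B)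
    {D : Subgroup G} (hD : IsDefectGroup p M B D) (hab : ∀ x ∈ D, ∀ z ∈ D, x * z = z * x) {x y : G}
    (hxD : x ∈ D) (hyD : y ∈ D) (hgen : ∀ d ∈ D, ∃ i j : ℤ, d = x ^ i * y ^ j)
    (hnc : x ∉ Subgroup.zpowers y) {H : Subgroup G} (hH : H = Subgroup.centralizer ({y} : Set G))
    (hDH : D ≤ H) {f : Set (IrrCharacter H)} (hind : IsInducedBlock M H f B)
    (hDf : IsDefectGroup p M f (D.subgroupOf H)) : (bF B).card ≤ p ^ blockDefect p B := by
  classical
  haveI hMp := hM.2.1.isPrime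
  have hp := hpF.out
  have hDcard := Cfsg.Agent.Lib.BlockDefect.card_isDefectGroup hM hB hD
  have hDp : IsPGroup p D := IsPGroup.of_card hDcard
  obtain ⟨k, hk⟩ : ∃ k, orderOf y = p ^ k := by
    obtain ⟨k, hk⟩ := (IsPGroup.iff_orderOf.mp hDp) ⟨y, hyD⟩
    exact ⟨k, by rwa [Subgroup.orderOf_mk] at hk⟩
  have hcardE : Nat.card (D.subgroupOf H) = Nat.card D :=
    Nat.card_congr (Subgroup.subgroupOfEquivOfLe hDH).toEquiv
  have hDfcard := Cfsg.Agent.Lib.BlockDefect.card_isDefectGroup hM hind.1 hDf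
  have hd : blockDefect p f = blockDefect p B := by
    apply Nat.pow_right_injective hp.two_le
    simp only
    rw [← hDfcard, hcardE, hDcard]
  set z : H := yH hH with hz
  have hzc : ∀ c : H, z * c = c * z := yH_central hH
  set U : Subgroup H := Subgroup.zpowers z with hU
  have hUZ : U ≤ Subgroup.center H := by
    rw [hU, Subgroup.zpowers_le, Subgroup.mem_center_iff]
    exact fun c => (hzc c).symm
  haveI hUn : U.Normal := Cfsg.Agent.Lib.BlockCentral.normal_of_le_center U hUZ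
  have hzo : orderOf z = p ^ k := by
    rw [← hk, hz]
    exact Subgroup.orderOf_mk y _
  have hUcard : Nat.card U = p ^ k := by rw [hU, Nat.card_zpowers, hzo]
  have hUp : IsPGroup p U := IsPGroup.of_card hUcard
  letI : Fintype (H ⧸ U) := Fintype.ofFinite _
  obtain ⟨bb, hbb, hinfl, hdb⟩ := Cfsg.Agent.Lib.BlockQuotDefect.exists_block_quot (N := U) hM hUp hind.1
  set E := D.subgroupOf H with hE
  have hUE : U ≤ E := by
    rw [hU, Subgroup.zpowers_le, hE, Subgroup.mem_subgroupOf]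
    exact hyD
  have hDbar : IsDefectGroup p M bb (E.map (QuotientGroup.mk' U)) := (hdb _).2 ⟨E, hDf, rfl⟩
  set x' : H := ⟨x, hDH hxD⟩ with hx'
  have hcop : ∀ (n : ℤ), (((z ^ n : H) : H ⧸ U)) = 1 := by
    intro n
    rw [QuotientGroup.eq_one_iff]
    exact Subgroup.zpow_mem_zpowers z n
  have hDbareq : E.map (QuotientGroup.mk' U) = Subgroup.zpowers ((x' : H) : H ⧸ U) := by
    apply le_antisymm
    · rintro _ ⟨d, hd', rfl⟩
      obtain ⟨i, j, hij⟩ := hgen d (Subgroup.mem_subgroupOf.mp hd')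
      have h1 : d = x' ^ i * z ^ j := by
        apply Subtype.ext
        rw [hij]
        simp [hx', hz, yH]
      rw [h1]
      refine ⟨i, ?_⟩
      simp only [QuotientGroup.mk'_apply, QuotientGroup.mk_mul, QuotientGroup.mk_zpow]
      have h2 := hcop j
      simp only [QuotientGroup.mk_zpow] at h2
      rw [h2, mul_one]
    · rw [Subgroup.zpowers_le]
      exact ⟨x', Subgroup.mem_subgroupOf.mpr hxD, rfl⟩
  have hcyc : IsCyclic (E.map (QuotientGroup.mk' U)) := by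
    rw [hDbareq]
    infer_instance
  have hEp : IsPGroup p E := IsPGroup.of_card (hcardE.trans hDcard)
  obtain ⟨a, ha⟩ := IsPGroup.iff_card.mp (hEp.map (QuotientGroup.mk' U))
  have ha1 : 1 ≤ a := by
    rcases Nat.eq_zero_or_pos a with h0 | h0
    · exfalso
      rw [h0, pow_zero, Subgroup.card_eq_one] at ha
      have h1 : ((x' : H) : H ⧸ U) ∈ Subgroup.zpowers ((x' : H) : H ⧸ U) := Subgroup.mem_zpowers _
      rw [← hDbareq, ha, Subgroup.mem_bot, QuotientGroup.eq_one_iff, hU, Subgroup.mem_zpowers_iff] at h1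
      obtain ⟨n, hn⟩ := h1
      apply hnc
      rw [Subgroup.mem_zpowers_iff]
      refine ⟨n, ?_⟩
      have h2 := congrArg Subtype.val hn
      simpa [hx', hz, yH] using h2
    · exact h0
  have hgram := gramB_of_cyclic hM hcyc ha1 ha hbb hDbar
  refine card_le_of_gram hM ⟨k, hk⟩ hH hind hd U hUZ hUp hbb hinfl hgram ?_
  rw [← hDfcard, card_eq_card_map_mul E U hUE, ha]

/-- **Two generators.** -/
theorem card_le_of_two_gen (hM : IsPModular p M) {B : Set (IrrCharacter G)} (hB : IsPBlock M B)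
    {D : Subgroup G} (hD : IsDefectGroup p M B D) (hab : ∀ x ∈ D, ∀ z ∈ D, x * z = z * x) {x y : G}
    (hxD : x ∈ D) (hyD : y ∈ D) (hgen : ∀ d ∈ D, ∃ i j : ℤ, d = x ^ i * y ^ j)
    (hnc : x ∉ Subgroup.zpowers y) : (bF B).card ≤ p ^ blockDefect p B := by
  obtain ⟨f, hind, hDf⟩ := exists_block_centralizer hM hB hD hab hyD
  have hH : 𝐂[Subgroup.zpowers y] = Subgroup.centralizer ({y} : Set G) :=
    Cfsg.Agent.Lib.BlockSecond.centralizer_zpowers_eq y
  have hQP : Subgroup.zpowers y ≤ D := Subgroup.zpowers_le.2 hyD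
  have hDH : D ≤ 𝐂[Subgroup.zpowers y] := by
    intro t ht
    rw [Subgroup.mem_centralizer_iff]
    intro q hq
    exact hab q (hQP hq) t ht
  exact card_le_of_two_gen_aux hM hB hD hab hxD hyD hgen hnc hH hDH hind hDf

/-- **Three generators**, for a given block of the centralizer. -/
theorem card_mul_le_of_three_gen_aux (hM : IsPModular p M) {B : Set (IrrCharacter G)} (hB : IsPBlock M B)
    {D : Subgroup G} (hD : IsDefectGroup p M B D) (hab : ∀ x ∈ D, ∀ z ∈ D, x * z = z * x) {y z₁ z₂ : G}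
    (hyD : y ∈ D) (h1D : z₁ ∈ D) (h2D : z₂ ∈ D) (hgen : ∀ d ∈ D, ∃ r s t : ℤ, d = y ^ r * z₁ ^ s * z₂ ^ t)
    (hnc : ¬ ∃ v ∈ D, ∀ d ∈ D, ∃ i j : ℤ, d = y ^ i * v ^ j)
    {H : Subgroup G} (hH : H = Subgroup.centralizer ({y} : Set G))
    (hDH : D ≤ H) {f : Set (IrrCharacter H)} (hind : IsInducedBlock M H f B)
    (hDf : IsDefectGroup p M f (D.subgroupOf H)) :
    (bF B).card * orderOf y ≤ p ^ blockDefect p B * p ^ blockDefect p B := by
  classical
  haveI hMp := hM.2.1.isPrime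
  have hp := hpF.out
  have hDcard := Cfsg.Agent.Lib.BlockDefect.card_isDefectGroup hM hB hD
  have hDp : IsPGroup p D := IsPGroup.of_card hDcard
  obtain ⟨k, hk⟩ : ∃ k, orderOf y = p ^ k := by
    obtain ⟨k, hk⟩ := (IsPGroup.iff_orderOf.mp hDp) ⟨y, hyD⟩
    exact ⟨k, by rwa [Subgroup.orderOf_mk] at hk⟩
  have hcardE : Nat.card (D.subgroupOf H) = Nat.card D :=
    Nat.card_congr (Subgroup.subgroupOfEquivOfLe hDH).toEquiv
  have hDfcard := Cfsg.Agent.Lib.BlockDefect.card_isDefectGroup hM hind.1 hDf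
  have hd : blockDefect p f = blockDefect p B := by
    apply Nat.pow_right_injective hp.two_le
    simp only
    rw [← hDfcard, hcardE, hDcard]
  set z : H := yH hH with hz
  have hzc : ∀ c : H, z * c = c * z := yH_central hH
  set U : Subgroup H := Subgroup.zpowers z with hU
  have hUZ : U ≤ Subgroup.center H := by
    rw [hU, Subgroup.zpowers_le, Subgroup.mem_center_iff]
    exact fun c => (hzc c).symm
  haveI hUn : U.Normal := Cfsg.Agent.Lib.BlockCentral.normal_of_le_center U hUZ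
  have hzo : orderOf z = p ^ k := by
    rw [← hk, hz]
    exact Subgroup.orderOf_mk y _
  have hUcard : Nat.card U = p ^ k := by rw [hU, Nat.card_zpowers, hzo]
  have hUp : IsPGroup p U := IsPGroup.of_card hUcard
  letI : Fintype (H ⧸ U) := Fintype.ofFinite _
  obtain ⟨bb, hbb, hinfl, hdb⟩ := Cfsg.Agent.Lib.BlockQuotDefect.exists_block_quot (N := U) hM hUp hind.1
  set E := D.subgroupOf H with hE
  have hUE : U ≤ E := by
    rw [hU, Subgroup.zpowers_le, hE, Subgroup.mem_subgroupOf]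
    exact hyD
  have hDbar : IsDefectGroup p M bb (E.map (QuotientGroup.mk' U)) := (hdb _).2 ⟨E, hDf, rfl⟩
  set x₁ : H := ⟨z₁, hDH h1D⟩ with hx₁
  set x₂ : H := ⟨z₂, hDH h2D⟩ with hx₂
  have hcop : ∀ (n : ℤ), (((z ^ n : H) : H ⧸ U)) = 1 := by
    intro n
    rw [QuotientGroup.eq_one_iff]
    exact Subgroup.zpow_mem_zpowers z n
  have hgenbar : ∀ d ∈ E.map (QuotientGroup.mk' U), ∃ i j : ℤ,
      d = ((x₁ : H) : H ⧸ U) ^ i * ((x₂ : H) : H ⧸ U) ^ j := by
    rintro _ ⟨d, hd', rfl⟩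
    obtain ⟨r, s, t, hrst⟩ := hgen d (Subgroup.mem_subgroupOf.mp hd')
    have h1 : d = z ^ r * x₁ ^ s * x₂ ^ t := by
      apply Subtype.ext
      rw [hrst]
      simp [hx₁, hx₂, hz, yH]
    refine ⟨s, t, ?_⟩
    rw [h1]
    simp only [QuotientGroup.mk'_apply, QuotientGroup.mk_mul, QuotientGroup.mk_zpow]
    have h2 := hcop r
    simp only [QuotientGroup.mk_zpow] at h2
    rw [h2, one_mul]
  have habbar : ∀ a ∈ E.map (QuotientGroup.mk' U), ∀ b ∈ E.map (QuotientGroup.mk' U), a * b = b * a := by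
    rintro _ ⟨c, hc, rfl⟩ _ ⟨c', hc', rfl⟩
    rw [← map_mul, ← map_mul]
    congr 1
    apply Subtype.ext
    exact hab _ (Subgroup.mem_subgroupOf.mp hc) _ (Subgroup.mem_subgroupOf.mp hc')
  have hnc' : ((x₁ : H) : H ⧸ U) ∉ Subgroup.zpowers ((x₂ : H) : H ⧸ U) := by
    intro hmem
    obtain ⟨n, hn⟩ := Subgroup.mem_zpowers_iff.mp hmem
    have h1 : (x₂ ^ n)⁻¹ * x₁ ∈ U := by
      rw [← QuotientGroup.eq]
      rw [← hn]
      simp
    obtain ⟨m, hm⟩ := Subgroup.mem_zpowers_iff.mp h1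
    have h2 : z₁ = z₂ ^ n * y ^ m := by
      have h3 := congrArg Subtype.val hm
      have h4 : y ^ m = (z₂ ^ n)⁻¹ * z₁ := by
        simpa [hx₁, hx₂, hz, yH] using h3
      rw [h4]
      group
    apply hnc
    refine ⟨z₂, h2D, fun d hd' => ?_⟩
    obtain ⟨r, s, t, hrst⟩ := hgen d hd'
    refine ⟨r + m * s, n * s + t, ?_⟩
    have hy2 : y * z₂ = z₂ * y := hab _ hyD _ h2D
    have hc : Commute y z₂ := hy2
    rw [hrst, h2]
    have h5 : (z₂ ^ n * y ^ m) ^ s = z₂ ^ (n * s) * y ^ (m * s) := by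
      rw [((hc.zpow_zpow m n).symm).mul_zpow s, ← zpow_mul, ← zpow_mul]
    rw [h5, zpow_add, zpow_add]
    have h6 : Commute (y ^ r) (z₂ ^ (n * s)) := hc.zpow_zpow r (n * s)
    have h7 : Commute (y ^ (m * s)) (z₂ ^ (n * s)) := hc.zpow_zpow _ _
    calc y ^ r * (z₂ ^ (n * s) * y ^ (m * s)) * z₂ ^ t
        = (y ^ r * z₂ ^ (n * s)) * y ^ (m * s) * z₂ ^ t := by group
      _ = (z₂ ^ (n * s) * y ^ r) * y ^ (m * s) * z₂ ^ t := by rw [h6.eq]
      _ = z₂ ^ (n * s) * (y ^ r * y ^ (m * s)) * z₂ ^ t := by group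
      _ = (y ^ r * y ^ (m * s)) * z₂ ^ (n * s) * z₂ ^ t := by
        rw [(h6.mul_left h7).eq]
      _ = _ := by group
  have hbound := card_le_of_two_gen hM hbb hDbar habbar
    (x := ((x₁ : H) : H ⧸ U)) (y := ((x₂ : H) : H ⧸ U))
    ⟨x₁, Subgroup.mem_subgroupOf.mpr h1D, rfl⟩ ⟨x₂, Subgroup.mem_subgroupOf.mpr h2D, rfl⟩ hgenbar hnc'
  rw [← Cfsg.Agent.Lib.BlockDefect.card_isDefectGroup hM hbb hDbar] at hbound
  have hrank : blockRank p f ≤ (bF bb).card := by
    refine blockRank_le_of_lattice U fun ξ hξ => ?_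
    obtain ⟨a, ha⟩ := exists_lattice_blk U hM hUZ hUp hind.1 hbb hinfl hξ
    exact ⟨a, ha⟩
  have h1 := card_le_blockRank_mul hM ⟨k, hk⟩ hH hind hd
  have h2 := card_eq_card_map_mul E U hUE
  rw [hcardE, hDcard, hUcard] at h2
  rw [hd] at h1
  have h3 : orderOf y = Nat.card U := by rw [hUcard, hk]
  rw [hk]
  calc (bF B).card * p ^ k ≤ (blockRank p f * p ^ blockDefect p B) * p ^ k :=
        Nat.mul_le_mul_right _ h1
    _ ≤ (Nat.card (E.map (QuotientGroup.mk' U)) * p ^ blockDefect p B) * p ^ k := by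
        gcongr
        exact hrank.trans hbound
    _ = (Nat.card (E.map (QuotientGroup.mk' U)) * p ^ k) * p ^ blockDefect p B := by ring
    _ = _ := by rw [← h2]

/-- **Three generators.** -/
theorem card_mul_le_of_three_gen (hM : IsPModular p M) {B : Set (IrrCharacter G)} (hB : IsPBlock M B)
    {D : Subgroup G} (hD : IsDefectGroup p M B D) (hab : ∀ x ∈ D, ∀ z ∈ D, x * z = z * x) {y z₁ z₂ : G}
    (hyD : y ∈ D) (h1D : z₁ ∈ D) (h2D : z₂ ∈ D) (hgen : ∀ d ∈ D, ∃ r s t : ℤ, d = y ^ r * z₁ ^ s * z₂ ^ t)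
    (hnc : ¬ ∃ v ∈ D, ∀ d ∈ D, ∃ i j : ℤ, d = y ^ i * v ^ j) :
    (bF B).card * orderOf y ≤ p ^ blockDefect p B * p ^ blockDefect p B := by
  obtain ⟨f, hind, hDf⟩ := exists_block_centralizer hM hB hD hab hyD
  have hH : 𝐂[Subgroup.zpowers y] = Subgroup.centralizer ({y} : Set G) :=
    Cfsg.Agent.Lib.BlockSecond.centralizer_zpowers_eq y
  have hQP : Subgroup.zpowers y ≤ D := Subgroup.zpowers_le.2 hyD
  have hDH : D ≤ 𝐂[Subgroup.zpowers y] := by
    intro t ht
    rw [Subgroup.mem_centralizer_iff]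
    intro q hq
    exact hab q (hQP hq) t ht
  exact card_mul_le_of_three_gen_aux hM hB hD hab hyD h1D h2D hgen hnc hH hDH hind hDf

end Setup

section Rank

/-- Two generators from the rank. -/
theorem two_gen_of_rank {A : Type*} [Group A] [Finite A] (hcomm : ∀ a b : A, a * b = b * a)
    (h : Group.rank A = 2) :
    ∃ x y : A, (∀ d : A, ∃ i j : ℤ, d = x ^ i * y ^ j) ∧ ¬ ∃ v : A, ∀ d : A, ∃ i : ℤ, d = v ^ i := by
  classical
  letI : CommGroup A := { (inferInstance : Group A) with mul_comm := hcomm }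
  obtain ⟨S, hS, hcl⟩ := Group.rank_spec A
  rw [h] at hS
  obtain ⟨x, y, -, rfl⟩ := Finset.card_eq_two.mp hS
  refine ⟨x, y, fun d => ?_, ?_⟩
  · have h1 : d ∈ Subgroup.closure (({x, y} : Finset A) : Set A) := by
      rw [hcl]
      exact Subgroup.mem_top d
    rw [Finset.coe_pair, Subgroup.mem_closure_pair] at h1
    obtain ⟨m, n, hmn⟩ := h1
    exact ⟨m, n, hmn.symm⟩
  · rintro ⟨v, hv⟩
    have h1 : Subgroup.closure (({v} : Finset A) : Set A) = ⊤ := by
      rw [eq_top_iff]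
      intro d _
      obtain ⟨i, hi⟩ := hv d
      rw [hi]
      exact zpow_mem (Subgroup.subset_closure (by simp)) i
    have h2 := Group.rank_le h1
    rw [h] at h2
    simp at h2

/-- Replacing a generator. -/
theorem gen_replace {A : Type*} [CommGroup A] [Finite A] {p : ℕ} [hpF : Fact p.Prime] (hA : IsPGroup p A)
    {a b c u : A} {i j k : ℤ} (hu : u = a ^ i * b ^ j * c ^ k) (hi : ¬ (p : ℤ) ∣ i)
    (hgen : ∀ d : A, ∃ r s t : ℤ, d = a ^ r * b ^ s * c ^ t) :
    ∀ d : A, ∃ r s t : ℤ, d = u ^ r * b ^ s * c ^ t := by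
  have hp := hpF.out
  obtain ⟨n, hn⟩ := IsPGroup.iff_orderOf.mp hA a
  have hcop : IsCoprime i ((p : ℤ) ^ n) := by
    apply IsCoprime.pow_right
    exact ((Nat.prime_iff_prime_int.mp hp).coprime_iff_not_dvd.mpr hi).symm
  obtain ⟨v, w, hvw⟩ := hcop
  have ha1 : a ^ ((p : ℤ) ^ n) = 1 := by
    have h1 := pow_orderOf_eq_one a
    rw [hn] at h1
    exact_mod_cast h1
  have ha : a = u ^ v * b ^ (-(j * v)) * c ^ (-(k * v)) := by
    have h1 : a = (a ^ i) ^ v := by
      calc a = a ^ ((1 : ℤ)) := (zpow_one a).symm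
        _ = a ^ (v * i + w * (p : ℤ) ^ n) := by rw [hvw]
        _ = (a ^ i) ^ v * (a ^ ((p : ℤ) ^ n)) ^ w := by
            rw [zpow_add, mul_comm v i, zpow_mul, mul_comm w, zpow_mul]
        _ = _ := by rw [ha1, one_zpow, mul_one]
    rw [hu, mul_zpow, mul_zpow, ← zpow_mul b, ← zpow_mul c, zpow_neg, zpow_neg]
    nth_rewrite 1 [h1]
    have h2 : (a ^ i) ^ v * (b ^ (j * v)) * (c ^ (k * v)) * (b ^ (j * v))⁻¹ * (c ^ (k * v))⁻¹ =
        (a ^ i) ^ v := by
      calc _ = (a ^ i) ^ v * (b ^ (j * v) * (b ^ (j * v))⁻¹) * (c ^ (k * v) * (c ^ (k * v))⁻¹) := by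
            simp only [mul_assoc, mul_left_comm, mul_comm]
        _ = _ := by simp
    exact h2.symm
  intro d
  obtain ⟨r, s, t, hrst⟩ := hgen d
  refine ⟨v * r, -(j * v * r) + s, -(k * v * r) + t, ?_⟩
  rw [hrst]
  nth_rewrite 1 [ha]
  rw [mul_zpow, mul_zpow, ← zpow_mul u, ← zpow_mul b, ← zpow_mul c, zpow_add b, zpow_add c]
  have e1 : -(j * v) * r = -(j * v * r) := by ring
  have e2 : -(k * v) * r = -(k * v * r) := by ring
  rw [e1, e2]
  simp only [mul_assoc, mul_left_comm, mul_comm]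

/-- Three generators from the rank. -/
theorem three_gen_of_rank {A : Type*} [Group A] [Finite A] {p : ℕ} [hpF : Fact p.Prime]
    (hcomm : ∀ a b : A, a * b = b * a) (hA : IsPGroup p A) (h : Group.rank A = 3) :
    ∃ u z₁ z₂ : A, (∀ d : A, ∃ r s t : ℤ, d = u ^ r * z₁ ^ s * z₂ ^ t) ∧
      Nat.card A ≤ (orderOf u) ^ 3 ∧ ¬ ∃ v : A, ∀ d : A, ∃ i j : ℤ, d = u ^ i * v ^ j := by
  classical
  have hp := hpF.out
  letI : CommGroup A := { (inferInstance : Group A) with mul_comm := hcomm }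
  obtain ⟨S, hS, hcl⟩ := Group.rank_spec A
  rw [h] at hS
  obtain ⟨a, b, c, -, -, -, rfl⟩ := Finset.card_eq_three.mp hS
  have hgen : ∀ d : A, ∃ r s t : ℤ, d = a ^ r * b ^ s * c ^ t := by
    intro d
    have h1 : d ∈ Subgroup.closure (({a, b, c} : Finset A) : Set A) := by
      rw [hcl]
      exact Subgroup.mem_top d
    have h2 : (({a, b, c} : Finset A) : Set A) = {a} ∪ {b, c} := by
      ext x
      simp
      tauto
    rw [h2, Subgroup.closure_union, Subgroup.mem_sup] at h1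
    obtain ⟨y, hy, z, hz, rfl⟩ := h1
    rw [Subgroup.mem_closure_pair] at hz
    rw [Subgroup.mem_closure_singleton] at hy
    obtain ⟨r, rfl⟩ := hy
    obtain ⟨s, t, rfl⟩ := hz
    exact ⟨r, s, t, by rw [mul_assoc]⟩
  obtain ⟨u, hu⟩ := Finite.exists_max (orderOf : A → ℕ)
  -- the order of the group
  have hcard : Nat.card A ≤ (orderOf u) ^ 3 := by
    have hsurj : Function.Surjective (fun t : Subgroup.zpowers a × Subgroup.zpowers b × Subgroup.zpowers c =>
        ((t.1 : A) * (t.2.1 : A) * (t.2.2 : A))) := by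
      intro d
      obtain ⟨r, s, t, hrst⟩ := hgen d
      exact ⟨(⟨a ^ r, Subgroup.zpow_mem_zpowers a r⟩, ⟨b ^ s, Subgroup.zpow_mem_zpowers b s⟩,
        ⟨c ^ t, Subgroup.zpow_mem_zpowers c t⟩), hrst.symm⟩
    have h1 := Nat.card_le_card_of_surjective _ hsurj
    rw [Nat.card_prod, Nat.card_prod, Nat.card_zpowers, Nat.card_zpowers, Nat.card_zpowers] at h1
    refine h1.trans ?_
    have h2 := hu a
    have h3 := hu b
    have h4 := hu c
    calc orderOf a * (orderOf b * orderOf c) ≤ orderOf u * (orderOf u * orderOf u) := by gcongr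
      _ = _ := by ring
  have hu1 : u ≠ 1 := by
    intro h1
    have h2 : ∀ d : A, d = 1 := by
      intro d
      have h3 := hu d
      rw [h1, orderOf_one] at h3
      exact orderOf_eq_one_iff.mp (le_antisymm h3 (orderOf_pos d))
    have h4 : Subgroup.closure ((∅ : Finset A) : Set A) = ⊤ := by
      rw [eq_top_iff]
      intro d _
      rw [h2 d]
      exact Subgroup.one_mem _
    have h5 := Group.rank_le h4
    rw [h] at h5
    simp at h5
  have hnotall : ∀ i j k : ℤ, u = a ^ i * b ^ j * c ^ k → ¬ (p : ℤ) ∣ i ∨ ¬ (p : ℤ) ∣ j ∨ ¬ (p : ℤ) ∣ k := by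
    intro i j k hijk
    by_contra hcon
    push Not at hcon
    obtain ⟨⟨i', rfl⟩, ⟨j', rfl⟩, ⟨k', rfl⟩⟩ := hcon
    set v := a ^ i' * b ^ j' * c ^ k' with hv
    have huv : u = v ^ p := by
      rw [hijk, hv, mul_pow, mul_pow, ← zpow_natCast, ← zpow_natCast, ← zpow_natCast, ← zpow_mul,
        ← zpow_mul, ← zpow_mul, mul_comm i', mul_comm j', mul_comm k']
    obtain ⟨n, hn⟩ := IsPGroup.iff_orderOf.mp hA v
    have hn0 : n ≠ 0 := by
      intro h0
      rw [h0, pow_zero, orderOf_eq_one_iff] at hn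
      apply hu1
      rw [huv, hn, one_pow]
    have h1 : orderOf u < orderOf v := by
      rw [huv, orderOf_pow' v hp.ne_zero, hn]
      have h2 : (p ^ n).gcd p = p := Nat.gcd_eq_right (dvd_pow_self p hn0)
      rw [h2]
      exact Nat.div_lt_self (pow_pos hp.pos n) hp.one_lt
    exact absurd (hu v) (not_le.mpr h1)
  obtain ⟨i, j, k, hijk⟩ := hgen u
  have hnotgen : ∀ z₁ z₂ : A, (∀ d : A, ∃ r s t : ℤ, d = u ^ r * z₁ ^ s * z₂ ^ t) →
      ∃ u z₁ z₂ : A, (∀ d : A, ∃ r s t : ℤ, d = u ^ r * z₁ ^ s * z₂ ^ t) ∧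
      Nat.card A ≤ (orderOf u) ^ 3 ∧ ¬ ∃ v : A, ∀ d : A, ∃ i j : ℤ, d = u ^ i * v ^ j := by
    intro z₁ z₂ hz
    refine ⟨u, z₁, z₂, hz, hcard, ?_⟩
    rintro ⟨v, hv⟩
    have h1 : Subgroup.closure (({u, v} : Finset A) : Set A) = ⊤ := by
      rw [eq_top_iff]
      intro d _
      obtain ⟨i, j, hij⟩ := hv d
      rw [hij]
      exact mul_mem (zpow_mem (Subgroup.subset_closure (by simp)) i)
        (zpow_mem (Subgroup.subset_closure (by simp)) j)
    have h2 := Group.rank_le h1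
    rw [h] at h2
    have h3 : ({u, v} : Finset A).card ≤ 2 := Finset.card_le_two
    omega
  rcases hnotall i j k hijk with hi | hi | hi
  · exact hnotgen b c (gen_replace hA hijk hi hgen)
  · refine hnotgen a c (gen_replace hA (a := b) (b := a) (c := c) (i := j) (j := i) (k := k) ?_ hi ?_)
    · rw [hijk]
      simp only [mul_comm]
    · intro d
      obtain ⟨r, s, t, hrst⟩ := hgen d
      exact ⟨s, r, t, by rw [hrst]; simp only [mul_comm]⟩
  · refine hnotgen a b (gen_replace hA (a := c) (b := a) (c := b) (i := k) (j := i) (k := j) ?_ hi ?_)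
    · rw [hijk]
      simp only [mul_comm, mul_left_comm, mul_assoc]
    · intro d
      obtain ⟨r, s, t, hrst⟩ := hgen d
      exact ⟨t, r, s, by rw [hrst]; simp only [mul_comm, mul_left_comm, mul_assoc]⟩

end Rank

end Cfsg.Agent.Lib.BFMajor2
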