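import Mathlib
import Cfsg.Agent.Lib.BFMajor2

/-!
# The bound `k(B) ≤ p ^ (2 d - 2)`

We use all the subsections `(z ^ i, f)` of a central element `z` of order `p` of a defect group.
-/

set_option autoImplicit false
set_option linter.unusedSectionVars false
set_option linter.unusedVariables false
set_option linter.style.haveILetI false

namespace Cfsg.Agent.Lib.BFFeit

open Cfsg Cfsg.Agent.Lib.CharBasic Cfsg.Agent.Lib.CharInd Cfsg.Agent.Lib.CharIntegrality
open Cfsg.Agent.Lib.BlockLocal Cfsg.Agent.Lib.BlockIdem Cfsg.Agent.Lib.BlockQ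
open Cfsg.Agent.Lib.BlockOrtho Cfsg.Agent.Lib.BFMajor Cfsg.Agent.Lib.BFMajor2
open scoped ComplexConjugate

universe u

section Dft

variable {p : ℕ}

theorem sum_pow_root {u : ℂ} (hu : u ^ p = 1) (h1 : u ≠ 1) : ∑ i ∈ Finset.range p, u ^ i = 0 := by
  have h2 := mul_neg_geom_sum u p
  rw [hu, sub_self] at h2
  exact (mul_eq_zero.mp h2).resolve_left (sub_ne_zero.mpr (Ne.symm h1))

theorem conj_mul_self_root {ζ : ℂ} (hp : p ≠ 0) (hζ : ζ ^ p = 1) : conj ζ * ζ = 1 := by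
  have h1 := Complex.norm_eq_one_of_pow_eq_one hζ hp
  rw [mul_comm, Complex.mul_conj, Complex.normSq_eq_norm_sq, h1]
  simp

theorem dft_orth {ζ : ℂ} (hp : p ≠ 0) (hζ : IsPrimitiveRoot ζ p) {j j' : ℕ} (hj : j < p) (hj' : j' < p) :
    ∑ i ∈ Finset.range p, ζ ^ (i * j) * conj (ζ ^ (i * j')) = if j = j' then (p : ℂ) else 0 := by
  have h1 : ∀ i : ℕ, ζ ^ (i * j) * conj (ζ ^ (i * j')) = (ζ ^ j * conj (ζ ^ j')) ^ i := by
    intro i
    rw [mul_pow, ← pow_mul, ← map_pow, ← pow_mul, mul_comm i j, mul_comm i j']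
  simp_rw [h1]
  have hz : ζ ^ p = 1 := hζ.pow_eq_one
  have hz' : (ζ ^ j') ^ p = 1 := by rw [← pow_mul, mul_comm, pow_mul, hz, one_pow]
  have h2 : conj (ζ ^ j') * ζ ^ j' = 1 := conj_mul_self_root hp hz'
  by_cases h : j = j'
  · subst h
    rw [if_pos rfl, mul_comm, h2]
    simp
  · rw [if_neg h]
    apply sum_pow_root
    · have hz2 : (ζ ^ j) ^ p = 1 := by rw [← pow_mul, mul_comm, pow_mul, hz, one_pow]
      rw [mul_pow, hz2, ← map_pow, hz', map_one, one_mul]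
    · intro h3
      apply h
      apply hζ.pow_inj hj hj'
      calc ζ ^ j = ζ ^ j * (conj (ζ ^ j') * ζ ^ j') := by rw [h2, mul_one]
        _ = (ζ ^ j * conj (ζ ^ j')) * ζ ^ j' := by ring
        _ = ζ ^ j' := by rw [h3, one_mul]

theorem dft_sum {ζ : ℂ} (hp : p ≠ 0) (hζ : IsPrimitiveRoot ζ p) (A : ℕ → ℕ → ℂ) :
    ∑ i ∈ Finset.range p, ∑ j ∈ Finset.range p, ∑ j' ∈ Finset.range p,
      ζ ^ (i * j) * conj (ζ ^ (i * j')) * A j j' = (p : ℂ) * ∑ j ∈ Finset.range p, A j j := by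
  rw [Finset.sum_comm, Finset.mul_sum]
  refine Finset.sum_congr rfl fun j hj => ?_
  rw [Finset.sum_comm]
  have h1 : ∀ j' ∈ Finset.range p, ∑ i ∈ Finset.range p, ζ ^ (i * j) * conj (ζ ^ (i * j')) * A j j' =
      (if j = j' then (p : ℂ) else 0) * A j j' := by
    intro j' hj'
    rw [← dft_orth hp hζ (Finset.mem_range.mp hj) (Finset.mem_range.mp hj'), Finset.sum_mul]
  rw [Finset.sum_congr rfl h1, Finset.sum_eq_single j]
  · simp
  · intro b _ hb
    rw [if_neg (Ne.symm hb), zero_mul]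
  · intro h
    exact absurd hj h

/-- The sum over the non-trivial powers. -/
theorem dft_total {ι : Type*} (s : Finset ι) (hp : p ≠ 0) {ζ : ℂ} (hζ : IsPrimitiveRoot ζ p)
    (A : ι → ℕ → ℕ → ℤ) (V : ℤ)
    (h : ∀ i ∈ Finset.Ico 1 p, ∑ χ ∈ s, ∑ j ∈ Finset.range p, ∑ j' ∈ Finset.range p,
      ζ ^ (i * j) * conj (ζ ^ (i * j')) * (A χ j j' : ℂ) = (V : ℂ)) :
    2 * ((p : ℤ) - 1) * V = ∑ χ ∈ s, ∑ j ∈ Finset.range p, ∑ j' ∈ Finset.range p,
      (A χ j j + A χ j' j' - A χ j j' - A χ j' j) := by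
  classical
  have h0 : ∑ i ∈ Finset.range p, ∑ χ ∈ s, ∑ j ∈ Finset.range p, ∑ j' ∈ Finset.range p,
      ζ ^ (i * j) * conj (ζ ^ (i * j')) * (A χ j j' : ℂ) =
      (p : ℂ) * ∑ χ ∈ s, ∑ j ∈ Finset.range p, (A χ j j : ℂ) := by
    rw [Finset.sum_comm, Finset.mul_sum]
    exact Finset.sum_congr rfl fun χ _ => dft_sum hp hζ (fun j j' => (A χ j j' : ℂ))
  have hp1 : 1 ≤ p := Nat.pos_of_ne_zero hp
  have hsplit : Finset.range p = insert 0 (Finset.Ico 1 p) := by
    ext i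
    simp only [Finset.mem_range, Finset.mem_insert, Finset.mem_Ico]
    omega
  have h00 : (0 : ℕ) ∉ Finset.Ico 1 p := by simp
  have hsum : ∀ F : ℕ → ℂ, ∑ i ∈ Finset.range p, F i = F 0 + ∑ i ∈ Finset.Ico 1 p, F i := by
    intro F
    rw [hsplit, Finset.sum_insert h00]
  rw [hsum, Finset.sum_congr rfl h, Finset.sum_const, Nat.card_Ico] at h0
  simp only [zero_mul, pow_zero, map_one, one_mul] at h0
  have h1 : ∑ χ ∈ s, ∑ j ∈ Finset.range p, ∑ j' ∈ Finset.range p, A χ j j' +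
      ((p - 1 : ℕ) : ℤ) * V = (p : ℤ) * ∑ χ ∈ s, ∑ j ∈ Finset.range p, A χ j j := by
    apply Int.cast_injective (α := ℂ)
    push_cast
    rw [nsmul_eq_mul] at h0
    push_cast at h0
    exact h0
  have h2 : ((p - 1 : ℕ) : ℤ) = (p : ℤ) - 1 := by
    rw [Nat.cast_sub hp1]
    simp
  rw [h2] at h1
  have h3 : ∀ χ ∈ s, ∑ j ∈ Finset.range p, ∑ j' ∈ Finset.range p,
      (A χ j j + A χ j' j' - A χ j j' - A χ j' j) =
      2 * (p : ℤ) * ∑ j ∈ Finset.range p, A χ j j -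
        2 * ∑ j ∈ Finset.range p, ∑ j' ∈ Finset.range p, A χ j j' := by
    intro χ _
    have e1 : ∑ j ∈ Finset.range p, ∑ j' ∈ Finset.range p, A χ j j =
        (p : ℤ) * ∑ j ∈ Finset.range p, A χ j j := by
      simp [Finset.sum_const, Finset.card_range, Finset.mul_sum]
    have e2 : ∑ j ∈ Finset.range p, ∑ j' ∈ Finset.range p, A χ j' j' =
        (p : ℤ) * ∑ j ∈ Finset.range p, A χ j j := by
      simp [Finset.sum_const, Finset.card_range]
    have e3 : ∑ j ∈ Finset.range p, ∑ j' ∈ Finset.range p, A χ j' j =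
        ∑ j ∈ Finset.range p, ∑ j' ∈ Finset.range p, A χ j j' := Finset.sum_comm
    simp_rw [sub_eq_add_neg, Finset.sum_add_distrib, Finset.sum_neg_distrib]
    rw [e1, e2, e3]
    ring
  rw [Finset.sum_congr rfl h3, Finset.sum_sub_distrib, ← Finset.mul_sum, ← Finset.mul_sum]
  linear_combination 2 * h1

/-- Counting pairs with different values. -/
theorem pair_count {β : Type*} [DecidableEq β] (R : ℕ → β) (g : ℕ → ℕ → ℤ) {c : ℤ} (hc : 0 ≤ c)
    (hg : ∀ j ∈ Finset.range p, ∀ j' ∈ Finset.range p, 0 ≤ g j j')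
    (hgc : ∀ j ∈ Finset.range p, ∀ j' ∈ Finset.range p, R j ≠ R j' → c ≤ g j j')
    {j₁ j₂ : ℕ} (h1 : j₁ ∈ Finset.range p) (h2 : j₂ ∈ Finset.range p) (h12 : R j₁ ≠ R j₂) :
    2 * ((p : ℤ) - 1) * c ≤ ∑ j ∈ Finset.range p, ∑ j' ∈ Finset.range p, g j j' := by
  classical
  set A := (Finset.range p).filter (fun j => R j = R j₁) with hA
  set B := (Finset.range p).filter (fun j => ¬ R j = R j₁) with hB
  have hAB : A.card + B.card = p := by
    have := Finset.card_filter_add_card_filter_not (s := Finset.range p) (fun j => R j = R j₁)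
    rw [Finset.card_range] at this
    exact this
  have hA1 : 1 ≤ A.card := Finset.card_pos.mpr ⟨j₁, Finset.mem_filter.mpr ⟨h1, rfl⟩⟩
  have hB1 : 1 ≤ B.card := Finset.card_pos.mpr ⟨j₂, Finset.mem_filter.mpr ⟨h2, fun h => h12 h.symm⟩⟩
  have hAs : A ⊆ Finset.range p := Finset.filter_subset _ _
  have hBs : B ⊆ Finset.range p := Finset.filter_subset _ _
  have e1 : ∑ j ∈ Finset.range p, ∑ j' ∈ Finset.range p, g j j' =
      ∑ j ∈ A, ∑ j' ∈ Finset.range p, g j j' + ∑ j ∈ B, ∑ j' ∈ Finset.range p, g j j' :=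
    (Finset.sum_filter_add_sum_filter_not _ _ _).symm
  have e2 : (A.card : ℤ) * (B.card : ℤ) * c ≤ ∑ j ∈ A, ∑ j' ∈ Finset.range p, g j j' := by
    calc (A.card : ℤ) * (B.card : ℤ) * c = ∑ j ∈ A, ∑ j' ∈ B, c := by
          simp [Finset.sum_const]
          ring
      _ ≤ ∑ j ∈ A, ∑ j' ∈ B, g j j' := by
          refine Finset.sum_le_sum fun j hj => Finset.sum_le_sum fun j' hj' => ?_
          refine hgc j (hAs hj) j' (hBs hj') ?_
          have h3 := (Finset.mem_filter.mp hj).2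
          have h4 := (Finset.mem_filter.mp hj').2
          rw [h3]
          exact fun h => h4 h.symm
      _ ≤ _ := by
          refine Finset.sum_le_sum fun j hj => ?_
          exact Finset.sum_le_sum_of_subset_of_nonneg hBs fun j' hj' _ => hg j (hAs hj) j' hj'
  have e3 : (A.card : ℤ) * (B.card : ℤ) * c ≤ ∑ j ∈ B, ∑ j' ∈ Finset.range p, g j j' := by
    calc (A.card : ℤ) * (B.card : ℤ) * c = ∑ j ∈ B, ∑ j' ∈ A, c := by
          simp [Finset.sum_const]
          ring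
      _ ≤ ∑ j ∈ B, ∑ j' ∈ A, g j j' := by
          refine Finset.sum_le_sum fun j hj => Finset.sum_le_sum fun j' hj' => ?_
          refine hgc j (hBs hj) j' (hAs hj') ?_
          have h3 := (Finset.mem_filter.mp hj).2
          have h4 := (Finset.mem_filter.mp hj').2
          rw [h4]
          exact h3
      _ ≤ _ := by
          refine Finset.sum_le_sum fun j hj => ?_
          exact Finset.sum_le_sum_of_subset_of_nonneg hAs fun j' hj' _ => hg j (hBs hj) j' hj'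
  rw [e1]
  have e4 : (p : ℤ) = (A.card : ℤ) + (B.card : ℤ) := by exact_mod_cast hAB.symm
  have e5 : (A.card : ℤ) + B.card - 1 ≤ (A.card : ℤ) * B.card := by
    have h1' : (1 : ℤ) ≤ A.card := by exact_mod_cast hA1
    have h2' : (1 : ℤ) ≤ B.card := by exact_mod_cast hB1
    nlinarith
  have e6 : ((p : ℤ) - 1) * c ≤ (A.card : ℤ) * B.card * c := by
    rw [e4]
    exact mul_le_mul_of_nonneg_right e5 hc
  linarith

end Dft

section Fourier

variable {p : ℕ} [hpF : Fact p.Prime] {M : Ideal AlgInt}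

/-- The Fourier inversion modulo `p`. -/
theorem dvd_of_fourier (hM : IsPModular p M) {ζ : ℂ} (hζ : IsPrimitiveRoot ζ p) (n : ℕ → ℤ) (r : ℕ → ℂ)
    (hr : ∀ i ∈ Finset.Ico 1 p, MemLocalRing M (r i))
    (h : ∀ i ∈ Finset.Ico 1 p, ∑ j ∈ Finset.range p, ζ ^ (i * j) * (n j : ℂ) = (p : ℂ) * r i)
    {j j' : ℕ} (hj : j < p) (hj' : j' < p) : (p : ℤ) ∣ n j - n j' := by
  classical
  have hMp := hM.2.1.isPrime
  have hp := hpF.out
  have hp0 : p ≠ 0 := hp.ne_zero
  have hpC : (p : ℂ) ≠ 0 := by exact_mod_cast hp0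
  have hp1 : 1 ≤ p := hp.pos
  have hsplit : Finset.range p = insert 0 (Finset.Ico 1 p) := by
    ext i
    simp only [Finset.mem_range, Finset.mem_insert, Finset.mem_Ico]
    omega
  have h00 : (0 : ℕ) ∉ Finset.Ico 1 p := by simp
  have hinv : ∀ t < p, ∑ i ∈ Finset.range p, conj (ζ ^ (i * t)) *
      ∑ k ∈ Finset.range p, ζ ^ (i * k) * (n k : ℂ) = (p : ℂ) * (n t : ℂ) := by
    intro t ht
    simp_rw [Finset.mul_sum]
    rw [Finset.sum_comm]
    have h1 : ∀ k ∈ Finset.range p, ∑ i ∈ Finset.range p, conj (ζ ^ (i * t)) * (ζ ^ (i * k) * (n k : ℂ)) =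
        (if k = t then (p : ℂ) else 0) * (n k : ℂ) := by
      intro k hk
      rw [← dft_orth hp0 hζ (Finset.mem_range.mp hk) ht, Finset.sum_mul]
      refine Finset.sum_congr rfl fun i _ => ?_
      ring
    rw [Finset.sum_congr rfl h1, Finset.sum_eq_single t]
    · simp
    · intro b _ hb
      rw [if_neg hb, zero_mul]
    · intro h'
      exact absurd (Finset.mem_range.mpr ht) h'
  have hsub : ∀ t < p, (p : ℂ) * (n t : ℂ) = (∑ k ∈ Finset.range p, (n k : ℂ)) +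
      (p : ℂ) * ∑ i ∈ Finset.Ico 1 p, conj (ζ ^ (i * t)) * r i := by
    intro t ht
    have hsum : ∀ F : ℕ → ℂ, ∑ i ∈ Finset.range p, F i = F 0 + ∑ i ∈ Finset.Ico 1 p, F i := by
      intro F
      rw [hsplit, Finset.sum_insert h00]
    rw [← hinv t ht, hsum]
    simp only [zero_mul, pow_zero, map_one, one_mul]
    congr 1
    rw [Finset.mul_sum]
    refine Finset.sum_congr rfl fun i hi => ?_
    rw [h i hi]
    ring
  have h2 : (n j : ℂ) - (n j' : ℂ) = ∑ i ∈ Finset.Ico 1 p,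
      (conj (ζ ^ (i * j)) - conj (ζ ^ (i * j'))) * r i := by
    apply mul_left_cancel₀ hpC
    rw [mul_sub, hsub j hj, hsub j' hj']
    simp_rw [sub_mul]
    rw [Finset.sum_sub_distrib]
    ring
  rw [← memLocalIdeal_intCast_iff hM]
  push_cast
  rw [h2]
  refine memLocalIdeal_sum _ _ fun i hi => memLocalIdeal_mul_right ?_ (hr i hi)
  have h3 : ∀ t : ℕ, MemLocalIdeal M (conj (ζ ^ (i * t)) - 1) := by
    intro t
    apply Cfsg.Agent.Lib.BlockOsima.memLocalIdeal_sub_one_of_pow hM (k := 1)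
    rw [pow_one, ← map_pow, ← pow_mul, mul_comm, pow_mul, hζ.pow_eq_one, one_pow, map_one]
  have h4 := memLocalIdeal_sub (h3 j) (h3 j')
  have e : conj (ζ ^ (i * j)) - 1 - (conj (ζ ^ (i * j')) - 1) =
      conj (ζ ^ (i * j)) - conj (ζ ^ (i * j')) := by ring
  rwa [e] at h4

/-- The coordinates are not all congruent. -/
theorem memLocalIdeal_of_congr (hM : IsPModular p M) {ζ : ℂ} (hζ : IsPrimitiveRoot ζ p) (n : ℕ → ℤ)
    (h : ∀ j < p, ∀ j' < p, (p : ℤ) ∣ n j - n j') :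
    MemLocalIdeal M (∑ j ∈ Finset.range p, ζ ^ (1 * j) * (n j : ℂ)) := by
  classical
  have hMp := hM.2.1.isPrime
  have hp := hpF.out
  have h0 : ∑ j ∈ Finset.range p, ζ ^ j = 0 := hζ.geom_sum_eq_zero hp.one_lt
  have h1 : ∑ j ∈ Finset.range p, ζ ^ (1 * j) * (n j : ℂ) =
      ∑ j ∈ Finset.range p, ζ ^ j * ((n j - n 0 : ℤ) : ℂ) := by
    push_cast
    simp_rw [one_mul, mul_sub]
    rw [Finset.sum_sub_distrib, ← Finset.sum_mul, h0]
    simp
  rw [h1]
  refine memLocalIdeal_sum _ _ fun j hj => memLocalIdeal_mul_left ?_ ?_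
  · refine memLocalRing_of_isIntegral (IsIntegral.pow ?_ _)
    exact Cfsg.Agent.Lib.BlockMajor.isIntegral_of_root hp.ne_zero hζ.pow_eq_one
  · rw [memLocalIdeal_intCast_iff hM]
    exact h j (Finset.mem_range.mp hj) 0 hp.pos

theorem sum_eq_zero_of_const {ζ : ℂ} (hζ : IsPrimitiveRoot ζ p) (n : ℕ → ℤ)
    (h : ∀ j < p, n j = n 0) : ∑ j ∈ Finset.range p, ζ ^ (1 * j) * (n j : ℂ) = 0 := by
  have hp := hpF.out
  have h0 : ∑ j ∈ Finset.range p, ζ ^ j = 0 := hζ.geom_sum_eq_zero hp.one_lt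
  have h1 : ∀ j ∈ Finset.range p, ζ ^ (1 * j) * (n j : ℂ) = ζ ^ j * (n 0 : ℂ) := by
    intro j hj
    rw [h j (Finset.mem_range.mp hj), one_mul]
  rw [Finset.sum_congr rfl h1, ← Finset.sum_mul, h0, zero_mul]

end Fourier

end Cfsg.Agent.Lib.BFFeit
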