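import Mathlib
import Cfsg.Agent.Lib.BFFeit

/-!
# The bound `k(B) ≤ p ^ (2 d - 2)`: the form of a block
-/

set_option autoImplicit false
set_option linter.unusedSectionVars false
set_option linter.unusedVariables false
set_option linter.style.haveILetI false

namespace Cfsg.Agent.Lib.BFFeit

open Cfsg Cfsg.Agent.Lib.CharBasic Cfsg.Agent.Lib.CharInd Cfsg.Agent.Lib.CharIntegrality
open Cfsg.Agent.Lib.BlockLocal Cfsg.Agent.Lib.BlockIdem Cfsg.Agent.Lib.BlockQ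
open Cfsg.Agent.Lib.BlockOrtho Cfsg.Agent.Lib.BFMajor Cfsg.Agent.Lib.BFMajor2
open Cfsg.Agent.Lib.BlockMajor
open scoped ComplexConjugate

universe u

section Form

variable {X : Type u} [Group X] [Fintype X] {p : ℕ} [hpF : Fact p.Prime] {M : Ideal AlgInt}

/-- The integral form of a block. -/
noncomputable def qq (p : ℕ) (b : Set (IrrCharacter X)) (x y : IrrCharacter X → ℤ) : ℤ :=
  ∑ ξ ∈ bF b, ∑ ξ' ∈ bF b, x ξ * y ξ' * Q p b ξ ξ'

theorem qq_nonneg (hM : IsPModular p M) {b : Set (IrrCharacter X)} (hb : IsPBlock M b)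
    (x : IrrCharacter X → ℤ) : 0 ≤ qq p b x x := by
  obtain ⟨r, hr0, hr⟩ := form_psd hM hb (fun ξ => (x ξ : ℂ))
  have h1 : ((qq p b x x : ℤ) : ℂ) = ((r : ℝ) : ℂ) := by
    rw [← hr]
    unfold qq
    push_cast
    simp only [map_intCast]
  have h2 : ((qq p b x x : ℤ) : ℝ) = r := by exact_mod_cast h1
  have h3 : (0 : ℝ) ≤ ((qq p b x x : ℤ) : ℝ) := by rw [h2]; exact hr0
  exact_mod_cast h3

theorem qq_sub_left (b : Set (IrrCharacter X)) (x y u : IrrCharacter X → ℤ) :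
    qq p b (x - y) u = qq p b x u - qq p b y u := by
  unfold qq
  rw [← Finset.sum_sub_distrib]
  refine Finset.sum_congr rfl fun ξ _ => ?_
  rw [← Finset.sum_sub_distrib]
  refine Finset.sum_congr rfl fun ξ' _ => ?_
  simp only [Pi.sub_apply]
  ring

theorem qq_sub_right (b : Set (IrrCharacter X)) (x y u : IrrCharacter X → ℤ) :
    qq p b u (x - y) = qq p b u x - qq p b u y := by
  unfold qq
  rw [← Finset.sum_sub_distrib]
  refine Finset.sum_congr rfl fun ξ _ => ?_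
  rw [← Finset.sum_sub_distrib]
  refine Finset.sum_congr rfl fun ξ' _ => ?_
  simp only [Pi.sub_apply]
  ring

theorem qq_sub_sub (b : Set (IrrCharacter X)) (x y : IrrCharacter X → ℤ) :
    qq p b (x - y) (x - y) = qq p b x x + qq p b y y - qq p b x y - qq p b y x := by
  rw [qq_sub_left, qq_sub_right, qq_sub_right]
  ring

/-- The rank one property. -/
theorem qq_unit_of (hM : IsPModular p M) {b : Set (IrrCharacter X)} (hb : IsPBlock M b)
    {a x : IrrCharacter X → ℤ} (h : ¬ (p : ℤ) ∣ qq p b x a) : ¬ (p : ℤ) ∣ qq p b x x := by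
  classical
  have hMp := hM.2.1.isPrime
  obtain ⟨ξ₀, hξ₀, h0⟩ := exists_minExp (p := p) hb
  have hv : ∀ (v : IrrCharacter X → ℤ) ξ, MemLocalRing M ((v ξ : ℂ)) := fun v ξ => memLocalRing_intCast _
  have hT : ¬ MemLocalIdeal M (∑ ξ ∈ bF b, (x ξ : ℂ) * omega (ξ₀ : X → ℂ) (regInv p (ξ : X → ℂ))) := by
    intro hT
    have h1 := Cfsg.Agent.Lib.BlockMajorForm.memLocalIdeal_sum_Q_of_T hM hb hξ₀ (fun ξ => (x ξ : ℂ))
      (fun ξ => (a ξ : ℂ)) (hv x) (hv a) hT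
    apply h
    rw [← memLocalIdeal_intCast_iff hM]
    unfold qq
    push_cast
    exact h1
  have h2 := not_memLocalIdeal_sum_Q hM hb hξ₀ h0 (fun ξ => (x ξ : ℂ)) (fun ξ => (x ξ : ℂ))
    (hv x) (hv x) hT hT
  intro h3
  apply h2
  rw [← memLocalIdeal_intCast_iff hM] at h3
  unfold qq at h3
  push_cast at h3
  exact h3

theorem not_dvd_Q_self (hM : IsPModular p M) {b : Set (IrrCharacter X)} (hb : IsPBlock M b)
    {ξ₀ : IrrCharacter X} (hξ₀ : ξ₀ ∈ b)
    (h0 : (charDegree (ξ₀ : X → ℂ)).factorization p = minExp p b) : ¬ (p : ℤ) ∣ Q p b ξ₀ ξ₀ := by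
  have hMp := hM.2.1.isPrime
  rw [← memLocalIdeal_intCast_iff hM, Q_eq_gg_mul hM hb ξ₀ hξ₀]
  intro h
  rcases (memLocalIdeal_mul_iff (memLocalRing_gg hM hb hξ₀)
    (memLocalRing_of_mem_Zc (omega_regInv_mem_Zc (IsIrrCharacter.isCharacter ξ₀.2)) ξ₀)).mp h with h1 | h1
  · exact not_memLocalIdeal_gg hM hb hξ₀ h0 h1
  · exact not_memLocalIdeal_W hM hb hξ₀ h0 h1

theorem qq_single {b : Set (IrrCharacter X)} {ξ₀ : IrrCharacter X} (hξ₀ : ξ₀ ∈ b) :
    qq p b (fun ξ => by classical exact if ξ = ξ₀ then 1 else 0)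
      (fun ξ => by classical exact if ξ = ξ₀ then 1 else 0) = Q p b ξ₀ ξ₀ := by
  classical
  have hξ₀F : ξ₀ ∈ bF b := mem_bF.mpr hξ₀
  unfold qq
  rw [Finset.sum_eq_single ξ₀, Finset.sum_eq_single ξ₀]
  · simp
  · intro ξ' _ h
    simp [h]
  · intro h
    exact absurd hξ₀F h
  · intro ξ _ h
    refine Finset.sum_eq_zero fun ξ' _ => ?_
    simp [h]
  · intro h
    exact absurd hξ₀F h

/-- The minimum of the form on vectors of norm prime to `p`. -/
theorem exists_min (hM : IsPModular p M) {b : Set (IrrCharacter X)} (hb : IsPBlock M b) :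
    ∃ a₀ : IrrCharacter X → ℤ, ¬ (p : ℤ) ∣ qq p b a₀ a₀ ∧
      ∀ a : IrrCharacter X → ℤ, ¬ (p : ℤ) ∣ qq p b a a → qq p b a₀ a₀ ≤ qq p b a a := by
  classical
  have hMp := hM.2.1.isPrime
  obtain ⟨ξ₀, hξ₀, h0⟩ := exists_minExp (p := p) hb
  set S : Set ℕ := {n | ∃ a : IrrCharacter X → ℤ, ¬ (p : ℤ) ∣ qq p b a a ∧ (qq p b a a).toNat = n} with hS
  have hne : S.Nonempty := by
    refine ⟨_, fun ξ => if ξ = ξ₀ then 1 else 0, ?_, rfl⟩
    have h1 := qq_single (p := p) hξ₀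
    have h2 := not_dvd_Q_self hM hb hξ₀ h0
    rw [← h1] at h2
    convert h2
  obtain ⟨a₀, ha₀, hmin⟩ := Nat.sInf_mem hne
  refine ⟨a₀, ha₀, fun a ha => ?_⟩
  have h1 : sInf S ≤ (qq p b a a).toNat := Nat.sInf_le ⟨a, ha, rfl⟩
  rw [← hmin] at h1
  have h2 := Int.toNat_of_nonneg (qq_nonneg hM hb a₀)
  have h3 := Int.toNat_of_nonneg (qq_nonneg hM hb a)
  omega

/-- A vector of norm prime to `p` is positive. -/
theorem qq_pos_of_unit (hM : IsPModular p M) {b : Set (IrrCharacter X)} (hb : IsPBlock M b)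
    {a : IrrCharacter X → ℤ} (h : ¬ (p : ℤ) ∣ qq p b a a) : 0 < qq p b a a := by
  refine lt_of_le_of_ne (qq_nonneg hM hb a) fun h0 => ?_
  apply h
  rw [← h0]
  exact dvd_zero _

end Form

section Coord

variable {G : Type u} [Group G] [Fintype G] {p : ℕ} [hpF : Fact p.Prime] {M : Ideal AlgInt}
variable {y : G} {H : Subgroup G} [Fintype H]

open Cfsg.Agent.Lib.BlockSubsection Cfsg.Agent.Lib.BlockMajorForm

/-- The part of the restriction on which the central element acts by the `j`-th root of unity. -/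
noncomputable def cf (e : IrrCharacter H → ℕ) (χ : IrrCharacter G) (j : ℕ) (ξ : IrrCharacter H) : ℤ :=
  if e ξ = j then (mult H χ ξ : ℤ) else 0

theorem vv_eq_sum {ζ : ℂ} (hH : H = Subgroup.centralizer ({y} : Set G)) {i : ℕ}
    {e : IrrCharacter H → ℕ} (hω : ∀ ξ, om hH ξ = ζ ^ (i * e ξ)) (he : ∀ ξ, e ξ < p)
    (χ : IrrCharacter G) (ξ : IrrCharacter H) :
    vv hH χ ξ = ∑ j ∈ Finset.range p, ζ ^ (i * j) * (cf e χ j ξ : ℂ) := by
  classical
  unfold vv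
  rw [Finset.sum_eq_single (e ξ)]
  · rw [hω ξ]
    simp [cf, mul_comm]
  · intro j _ hj
    simp [cf, Ne.symm hj]
  · intro h
    exact absurd (Finset.mem_range.mpr (he ξ)) h

theorem sum4_comm {A B C D : Type*} (sA : Finset A) (sB : Finset B) (sC : Finset C) (sD : Finset D)
    (F : A → B → C → D → ℂ) :
    ∑ a ∈ sA, ∑ b ∈ sB, ∑ c ∈ sC, ∑ d ∈ sD, F a b c d =
      ∑ c ∈ sC, ∑ d ∈ sD, ∑ a ∈ sA, ∑ b ∈ sB, F a b c d := by
  calc _ = ∑ a ∈ sA, ∑ c ∈ sC, ∑ b ∈ sB, ∑ d ∈ sD, F a b c d :=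
        Finset.sum_congr rfl fun a _ => Finset.sum_comm
    _ = ∑ c ∈ sC, ∑ a ∈ sA, ∑ b ∈ sB, ∑ d ∈ sD, F a b c d := Finset.sum_comm
    _ = ∑ c ∈ sC, ∑ a ∈ sA, ∑ d ∈ sD, ∑ b ∈ sB, F a b c d :=
        Finset.sum_congr rfl fun c _ => Finset.sum_congr rfl fun a _ => Finset.sum_comm
    _ = _ := Finset.sum_congr rfl fun c _ => Finset.sum_comm

/-- The contribution in terms of the parts of the restriction. -/
theorem RR_eq_dft (hM : IsPModular p M) {ζ : ℂ} (hH : H = Subgroup.centralizer ({y} : Set G)) {i : ℕ}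
    {e : IrrCharacter H → ℕ} (hω : ∀ ξ, om hH ξ = ζ ^ (i * e ξ)) (he : ∀ ξ, e ξ < p)
    {f : Set (IrrCharacter H)} (hf : IsPBlock M f) (χ : IrrCharacter G) :
    RR p hH f χ χ = ∑ j ∈ Finset.range p, ∑ j' ∈ Finset.range p,
      ζ ^ (i * j) * conj (ζ ^ (i * j')) * ((qq p f (cf e χ j) (cf e χ j') : ℤ) : ℂ) := by
  rw [RR_eq hM hH hf]
  simp_rw [vv_eq_sum hH hω he, map_sum, map_mul, map_intCast, Finset.sum_mul_sum, Finset.sum_mul]
  rw [sum4_comm]
  refine Finset.sum_congr rfl fun j _ => Finset.sum_congr rfl fun j' _ => ?_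
  unfold qq
  push_cast
  rw [Finset.mul_sum]
  refine Finset.sum_congr rfl fun ξ _ => ?_
  rw [Finset.mul_sum]
  refine Finset.sum_congr rfl fun ξ' _ => ?_
  ring

/-- The coordinates in terms of the parts of the restriction. -/
theorem nn_eq_dft {ζ : ℂ} (hH : H = Subgroup.centralizer ({y} : Set G)) {i : ℕ}
    {e : IrrCharacter H → ℕ} (hω : ∀ ξ, om hH ξ = ζ ^ (i * e ξ)) (he : ∀ ξ, e ξ < p)
    (f : Set (IrrCharacter H)) (χ : IrrCharacter G) (a : IrrCharacter H → ℤ) :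
    nn hH p f χ a = ∑ j ∈ Finset.range p, ζ ^ (i * j) * ((qq p f (cf e χ j) a : ℤ) : ℂ) := by
  unfold nn qq
  simp_rw [vv_eq_sum hH hω he]
  push_cast
  simp_rw [Finset.mul_sum, Finset.sum_mul]
  have h1 : ∀ ξ ∈ bF f, ∑ ξ' ∈ bF f, ∑ j ∈ Finset.range p,
      ζ ^ (i * j) * (cf e χ j ξ : ℂ) * (a ξ' : ℂ) * (Q p f ξ ξ' : ℂ) =
      ∑ j ∈ Finset.range p, ∑ ξ' ∈ bF f, ζ ^ (i * j) * ((cf e χ j ξ : ℂ) * (a ξ' : ℂ) * (Q p f ξ ξ' : ℂ)) := by
    intro ξ _
    rw [Finset.sum_comm]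
    refine Finset.sum_congr rfl fun j _ => Finset.sum_congr rfl fun ξ' _ => ?_
    ring
  rw [Finset.sum_congr rfl h1, Finset.sum_comm]

theorem nn_mul_conj_eq_dft {ζ : ℂ} (hH : H = Subgroup.centralizer ({y} : Set G)) {i : ℕ}
    {e : IrrCharacter H → ℕ} (hω : ∀ ξ, om hH ξ = ζ ^ (i * e ξ)) (he : ∀ ξ, e ξ < p)
    (f : Set (IrrCharacter H)) (χ : IrrCharacter G) (a : IrrCharacter H → ℤ) :
    nn hH p f χ a * conj (nn hH p f χ a) = ∑ j ∈ Finset.range p, ∑ j' ∈ Finset.range p,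
      ζ ^ (i * j) * conj (ζ ^ (i * j')) *
        ((qq p f (cf e χ j) a * qq p f (cf e χ j') a : ℤ) : ℂ) := by
  rw [nn_eq_dft hH hω he, map_sum, Finset.sum_mul_sum]
  refine Finset.sum_congr rfl fun j _ => Finset.sum_congr rfl fun j' _ => ?_
  rw [map_mul, map_intCast]
  push_cast
  ring

/-- The coordinates with respect to a vector of norm prime to `p` are units for height zero. -/
theorem not_memLocalIdeal_nn (hM : IsPModular p M) (hy : ∃ k : ℕ, orderOf y = p ^ k)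
    (hH : H = Subgroup.centralizer ({y} : Set G)) {b : Set (IrrCharacter H)}
    {B : Set (IrrCharacter G)} (hind : IsInducedBlock M H b B) (a : IrrCharacter H → ℤ)
    (ha : ¬ (p : ℤ) ∣ qq p b a a)
    {χ₀ : IrrCharacter G} (hχ₀ : χ₀ ∈ B) (h0χ : (charDegree (χ₀ : G → ℂ)).factorization p = minExp p B) :
    ¬ MemLocalIdeal M (nn hH p b χ₀ a) := by
  classical
  have hMp := hM.2.1.isPrime
  have hb := hind.1
  have hB := hind.2.1
  obtain ⟨k, hk⟩ := hy
  have hn : y ^ (p ^ k) = 1 := by rw [← hk]; exact pow_orderOf_eq_one y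
  obtain ⟨ξ₀, hξ₀, h0⟩ := exists_minExp (p := p) hb
  have hv : ∀ ξ, MemLocalRing M (vv hH χ₀ ξ) := fun ξ => by
    unfold vv
    refine memLocalRing_mul (memLocalRing_natCast _) (memLocalRing_of_isIntegral ?_)
    exact isIntegral_of_root (pow_ne_zero _ hpF.out.ne_zero) (om_pow_eq_one hH ξ hn)
  have hw : ∀ ξ, MemLocalRing M ((a ξ : ℂ)) := fun ξ => memLocalRing_intCast _
  have hTa : ¬ MemLocalIdeal M (∑ ξ ∈ bF b, (a ξ : ℂ) * omega (ξ₀ : H → ℂ) (regInv p (ξ : H → ℂ))) := by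
    intro h
    have h1 := memLocalIdeal_sum_Q_of_T hM hb hξ₀ (fun ξ => (a ξ : ℂ)) (fun ξ => (a ξ : ℂ)) hw hw h
    apply ha
    rw [← memLocalIdeal_intCast_iff hM]
    unfold qq
    push_cast
    exact h1
  unfold nn
  refine not_memLocalIdeal_sum_Q hM hb hξ₀ h0 (vv hH χ₀) (fun ξ => (a ξ : ℂ)) hv hw ?_ hTa
  exact not_memLocalIdeal_T hM hind hξ₀ hχ₀ h0χ (om hH)
    (fun ξ => Cfsg.Agent.Lib.BlockOsima.memLocalIdeal_sub_one_of_pow hM (om_pow_eq_one hH ξ hn))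

/-- For a character of positive height the coordinates are divisible by `p`. -/
theorem exists_nn_eq_mul (hM : IsPModular p M)
    (hH : H = Subgroup.centralizer ({y} : Set G)) {b : Set (IrrCharacter H)}
    {B : Set (IrrCharacter G)} (hb : IsPBlock M b) (hB : IsPBlock M B) (a : IrrCharacter H → ℤ)
    (hd : blockDefect p b = blockDefect p B)
    {χ : IrrCharacter G} (hχ : χ ∈ B) (h0χ : ¬ (charDegree (χ : G → ℂ)).factorization p = minExp p B) :
    ∃ r : ℂ, MemLocalRing M r ∧ nn hH p b χ a = (p : ℂ) * r := by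
  have hMp := hM.2.1.isPrime
  obtain ⟨u, hu1, hu2, hu3⟩ := exists_unit_formula hM hB hχ
  have hh : blockHeight p B (χ : G → ℂ) ≠ 0 := by
    have := charDegree_factorization_eq (p := p) hχ
    omega
  obtain ⟨t, ht⟩ := Nat.exists_eq_succ_of_ne_zero hh
  refine ⟨(p : ℂ) ^ t * u * cc hH p b a χ, memLocalRing_mul (memLocalRing_mul
    (memLocalRing_pow (memLocalRing_natCast _) _) hu1) (memLocalRing_of_mem_Zc (cc_mem_Zc hH b a) χ), ?_⟩
  rw [nn_eq_gg_mul_cc hM hH hb, hd, hu3, ht, Nat.succ_eq_add_one, pow_succ]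
  ring

end Coord

end Cfsg.Agent.Lib.BFFeit
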