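import Mathlib
import Cfsg.Agent.Lib.BFFeit2

/-!
# The bound `k(B) ≤ p ^ (2 d - 2)`: the subsections of a central element of order `p`
-/

set_option autoImplicit false
set_option linter.unusedSectionVars false
set_option linter.unusedVariables false
set_option linter.style.haveILetI false

namespace Cfsg.Agent.Lib.BFFeit

open Cfsg Cfsg.Agent.Lib.CharBasic Cfsg.Agent.Lib.CharInd Cfsg.Agent.Lib.CharIntegrality
open Cfsg.Agent.Lib.BlockLocal Cfsg.Agent.Lib.BlockIdem Cfsg.Agent.Lib.BlockQ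
open Cfsg.Agent.Lib.BlockOrtho Cfsg.Agent.Lib.BFMajor Cfsg.Agent.Lib.BFMajor2
open Cfsg.Agent.Lib.BlockMajor Cfsg.Agent.Lib.BlockMajorForm
open scoped ComplexConjugate

universe u

section Main

variable {G : Type u} [Group G] [Fintype G] {p : ℕ} [hpF : Fact p.Prime] {M : Ideal AlgInt}
variable {z : G} {H : Subgroup G} [Fintype H]

theorem coprime_of_mem_Ico {i : ℕ} (hi : i ∈ Finset.Ico 1 p) : Nat.Coprime i p := by
  have hi' := Finset.mem_Ico.mp hi
  exact (Nat.coprime_of_lt_prime (by omega) hi'.2 hpF.out).symm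

theorem orderOf_pow_of_mem_Ico (hz : orderOf z = p) {i : ℕ} (hi : i ∈ Finset.Ico 1 p) :
    orderOf (z ^ i) = p := by
  have hc := coprime_of_mem_Ico hi
  rw [Nat.Coprime.orderOf_pow (by rw [hz]; exact hc.symm), hz]

theorem centralizer_pow_eq (hz : orderOf z = p) {i : ℕ} (hi : i ∈ Finset.Ico 1 p)
    (hH : H = Subgroup.centralizer ({z} : Set G)) : H = Subgroup.centralizer ({z ^ i} : Set G) := by
  have hc := coprime_of_mem_Ico hi
  obtain ⟨m, -, hm⟩ := Nat.exists_mul_mod_eq_one_of_coprime hc hpF.out.one_lt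
  have hzm : (z ^ i) ^ m = z := by
    rw [← pow_mul, ← pow_mod_orderOf, hz, hm, pow_one]
  rw [hH]
  ext x
  rw [Subgroup.mem_centralizer_singleton_iff, Subgroup.mem_centralizer_singleton_iff]
  constructor
  · intro h
    have hc : Commute x z := h
    exact (hc.pow_right i).eq
  · intro h
    have hc : Commute x (z ^ i) := h
    have h2 := (hc.pow_right m).eq
    rwa [hzm] at h2

theorem om_eq_pow (hH : H = Subgroup.centralizer ({z} : Set G)) {i : ℕ}
    (hHi : H = Subgroup.centralizer ({z ^ i} : Set G)) (ξ : IrrCharacter H) :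
    om hHi ξ = om hH ξ ^ i := by
  unfold om
  rw [om_pow ξ.2 (yH_central hH)]
  congr 2

/-- **The bounds from the subsections `(z ^ i, f)`.** -/
theorem major_bounds (hM : IsPModular p M) (hz : orderOf z = p)
    (hH : H = Subgroup.centralizer ({z} : Set G)) {f : Set (IrrCharacter H)}
    {B : Set (IrrCharacter G)} (hind : IsInducedBlock M H f B)
    (hd : blockDefect p f = blockDefect p B) :
    ∃ (α : ℤ) (k₀ k₁ : ℕ), 0 < α ∧ (∀ a, ¬ (p : ℤ) ∣ qq p f a a → α ≤ qq p f a a) ∧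
      k₀ + k₁ = (bF B).card ∧
      (k₀ : ℤ) + (p : ℤ) ^ 2 * k₁ ≤ (p : ℤ) ^ blockDefect p B * α ∧
      (k₀ : ℤ) * α ≤ (blockRank p f : ℤ) * (p : ℤ) ^ blockDefect p B := by
  classical
  have hMp := hM.2.1.isPrime
  have hp := hpF.out
  have hp0 : p ≠ 0 := hp.ne_zero
  haveI : NeZero p := ⟨hp0⟩
  have hf := hind.1
  have hB := hind.2.1
  set ζ : ℂ := Complex.exp (2 * Real.pi * Complex.I / p) with hζdef
  have hζ : IsPrimitiveRoot ζ p := Complex.isPrimitiveRoot_exp p hp0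
  have hzp : z ^ p = 1 := by rw [← hz]; exact pow_orderOf_eq_one z
  have hω1 : ∀ ξ, (om hH ξ) ^ p = 1 := fun ξ => om_pow_eq_one hH ξ hzp
  choose e he hωe using fun ξ => hζ.eq_pow_of_pow_eq_one (hω1 ξ)
  obtain ⟨a₀, ha₀, hmin⟩ := exists_min hM hf
  set α := qq p f a₀ a₀ with hα
  have hαpos : 0 < α := qq_pos_of_unit hM hf ha₀
  have hHi : ∀ i ∈ Finset.Ico 1 p, H = Subgroup.centralizer ({z ^ i} : Set G) :=
    fun i hi => centralizer_pow_eq hz hi hH
  have hordi : ∀ i ∈ Finset.Ico 1 p, ∃ k : ℕ, orderOf (z ^ i) = p ^ k :=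
    fun i hi => ⟨1, by rw [pow_one]; exact orderOf_pow_of_mem_Ico hz hi⟩
  have hωi : ∀ i (hi : i ∈ Finset.Ico 1 p) ξ, om (hHi i hi) ξ = ζ ^ (i * e ξ) := by
    intro i hi ξ
    rw [om_eq_pow hH (hHi i hi), ← hωe ξ, ← pow_mul, mul_comm]
  have hω1' : ∀ ξ, om hH ξ = ζ ^ (1 * e ξ) := by
    intro ξ
    rw [one_mul, hωe]
  have hy1 : ∃ k : ℕ, orderOf z = p ^ k := ⟨1, by rw [pow_one]; exact hz⟩
  set n : IrrCharacter G → ℕ → ℤ := fun χ j => qq p f (cf e χ j) a₀ with hn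
  -- the sums
  have hS1 := dft_total (bF B) hp0 hζ (fun χ j j' => qq p f (cf e χ j) (cf e χ j'))
    ((blockRank p f : ℤ) * (p : ℤ) ^ blockDefect p B) (by
      intro i hi
      have h1 := sum_RR_self hM (hordi i hi) (hHi i hi) hind
      rw [Finset.sum_congr rfl (fun χ _ => RR_eq_dft hM (hHi i hi) (hωi i hi) he hf χ), hd] at h1
      rw [h1]
      push_cast
      rfl)
  have hS2 := dft_total (bF B) hp0 hζ (fun χ j j' => n χ j * n χ j')
    ((p : ℤ) ^ blockDefect p B * α) (by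
      intro i hi
      have h1 := sum_nn_mul_conj hM (hordi i hi) (hHi i hi) hind a₀
      rw [Finset.sum_congr rfl (fun χ _ => nn_mul_conj_eq_dft (hHi i hi) (hωi i hi) he f χ a₀), hd] at h1
      exact h1)
  -- the fibres
  set s₀ := (bF B).filter (fun χ : IrrCharacter G => (charDegree (χ : G → ℂ)).factorization p = minExp p B) with hs₀
  set s₁ := (bF B).filter (fun χ : IrrCharacter G => ¬ (charDegree (χ : G → ℂ)).factorization p = minExp p B) with hs₁
  have hcard : s₀.card + s₁.card = (bF B).card :=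
    Finset.card_filter_add_card_filter_not (s := bF B)
      (fun χ : IrrCharacter G => (charDegree (χ : G → ℂ)).factorization p = minExp p B)
  have hgS : ∀ χ, ∀ j j', 0 ≤ n χ j * n χ j + n χ j' * n χ j' - n χ j * n χ j' - n χ j' * n χ j := by
    intro χ j j'
    nlinarith [sq_nonneg (n χ j - n χ j')]
  have hgQ : ∀ χ, ∀ j j', qq p f (cf e χ j) (cf e χ j) + qq p f (cf e χ j') (cf e χ j') -
      qq p f (cf e χ j) (cf e χ j') - qq p f (cf e χ j') (cf e χ j) =
      qq p f (cf e χ j - cf e χ j') (cf e χ j - cf e χ j') := fun χ j j' => (qq_sub_sub f _ _).symm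
  have hp2 : (1 : ℤ) < p := by exact_mod_cast hp.one_lt
  set C : ℤ := 2 * ((p : ℤ) - 1) with hC
  have hC0 : 0 < C := by rw [hC]; linarith
  -- height zero
  have hlow0 : ∀ χ ∈ s₀, C * 1 ≤ ∑ j ∈ Finset.range p, ∑ j' ∈ Finset.range p,
        (n χ j * n χ j + n χ j' * n χ j' - n χ j * n χ j' - n χ j' * n χ j) ∧
      C * α ≤ ∑ j ∈ Finset.range p, ∑ j' ∈ Finset.range p,
        (qq p f (cf e χ j) (cf e χ j) + qq p f (cf e χ j') (cf e χ j') -
          qq p f (cf e χ j) (cf e χ j') - qq p f (cf e χ j') (cf e χ j)) := by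
    intro χ hχ
    obtain ⟨hχF, h0χ⟩ := Finset.mem_filter.mp hχ
    have hχB := mem_bF.mp hχF
    set R : ℕ → ZMod p := fun j => ((n χ j : ℤ) : ZMod p) with hR
    have hRne : ∀ j j', R j ≠ R j' → ¬ (p : ℤ) ∣ n χ j - n χ j' := by
      intro j j' h1 h2
      apply h1
      rw [hR]
      exact ((ZMod.intCast_eq_intCast_iff_dvd_sub _ _ p).mpr (by
        have h3 := dvd_neg.mpr h2
        rwa [neg_sub] at h3)).symm.symm
    obtain ⟨j₁, hj₁, j₂, hj₂, h12⟩ : ∃ j₁ ∈ Finset.range p, ∃ j₂ ∈ Finset.range p, R j₁ ≠ R j₂ := by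
      by_contra hcon
      push Not at hcon
      apply not_memLocalIdeal_nn hM hy1 hH hind a₀ ha₀ hχB h0χ
      rw [nn_eq_dft hH hω1' he]
      refine memLocalIdeal_of_congr hM hζ (n χ) fun j hj j' hj' => ?_
      have h1 := hcon j (Finset.mem_range.mpr hj) j' (Finset.mem_range.mpr hj')
      have h2 := (ZMod.intCast_eq_intCast_iff_dvd_sub _ _ p).mp h1.symm
      exact h2
    refine ⟨pair_count R _ zero_le_one (fun j _ j' _ => hgS χ j j') (fun j _ j' _ hRR => ?_) hj₁ hj₂ h12,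
      pair_count R _ hαpos.le (fun j _ j' _ => ?_) (fun j _ j' _ hRR => ?_) hj₁ hj₂ h12⟩
    · have h1 := hRne j j' hRR
      have h2 : n χ j - n χ j' ≠ 0 := by
        intro h0
        rw [h0] at h1
        exact h1 (dvd_zero _)
      have h3 : 0 < (n χ j - n χ j') ^ 2 := by positivity
      nlinarith
    · rw [hgQ]
      exact qq_nonneg hM hf _
    · rw [hgQ]
      refine hmin _ (qq_unit_of hM hf (a := a₀) ?_)
      rw [qq_sub_left]
      exact hRne j j' hRR
  -- positive height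
  have hlow1 : ∀ χ ∈ s₁, C * (p : ℤ) ^ 2 ≤ ∑ j ∈ Finset.range p, ∑ j' ∈ Finset.range p,
        (n χ j * n χ j + n χ j' * n χ j' - n χ j * n χ j' - n χ j' * n χ j) := by
    intro χ hχ
    obtain ⟨hχF, h0χ⟩ := Finset.mem_filter.mp hχ
    have hχB := mem_bF.mp hχF
    have hex : ∀ i ∈ Finset.Ico 1 p, ∃ r : ℂ, MemLocalRing M r ∧
        ∑ j ∈ Finset.range p, ζ ^ (i * j) * ((n χ j : ℤ) : ℂ) = (p : ℂ) * r := by
      intro i hi
      obtain ⟨r, hr1, hr2⟩ := exists_nn_eq_mul hM (hHi i hi) hf hB a₀ hd hχB h0χ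
      refine ⟨r, hr1, ?_⟩
      rw [← hr2, nn_eq_dft (hHi i hi) (hωi i hi) he]
    choose! r hr1 hr2 using hex
    have hdvd : ∀ j < p, ∀ j' < p, (p : ℤ) ∣ n χ j - n χ j' := fun j hj j' hj' =>
      dvd_of_fourier hM hζ (n χ) r hr1 hr2 hj hj'
    obtain ⟨j₁, hj₁, h12⟩ : ∃ j₁ ∈ Finset.range p, n χ j₁ ≠ n χ 0 := by
      by_contra hcon
      push Not at hcon
      apply nn_ne_zero hM hy1 hH hind a₀ hd ha₀ hχB
      rw [nn_eq_dft hH hω1' he]
      exact sum_eq_zero_of_const hζ (n χ) fun j hj => hcon j (Finset.mem_range.mpr hj)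
    refine pair_count (n χ) _ (by positivity) (fun j _ j' _ => hgS χ j j') (fun j hj j' hj' hRR => ?_)
      hj₁ (Finset.mem_range.mpr hp.pos) h12
    obtain ⟨t, ht⟩ := hdvd j (Finset.mem_range.mp hj) j' (Finset.mem_range.mp hj')
    have ht0 : t ≠ 0 := by
      intro h0
      rw [h0, mul_zero, sub_eq_zero] at ht
      exact hRR ht
    have ht2 : 1 ≤ t ^ 2 := by
      have : 0 < t ^ 2 := by positivity
      omega
    have e1 : n χ j * n χ j + n χ j' * n χ j' - n χ j * n χ j' - n χ j' * n χ j =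
        (p : ℤ) ^ 2 * t ^ 2 := by
      have : n χ j * n χ j + n χ j' * n χ j' - n χ j * n χ j' - n χ j' * n χ j =
          (n χ j - n χ j') ^ 2 := by ring
      rw [this, ht]
      ring
    rw [e1]
    have hpp : (0 : ℤ) ≤ (p : ℤ) ^ 2 := by positivity
    nlinarith
  refine ⟨α, s₀.card, s₁.card, hαpos, hmin, hcard, ?_, ?_⟩
  · -- the sum of squares
    have h1 : C * ((p : ℤ) ^ blockDefect p B * α) = ∑ χ ∈ bF B, ∑ j ∈ Finset.range p, ∑ j' ∈ Finset.range p,
        (n χ j * n χ j + n χ j' * n χ j' - n χ j * n χ j' - n χ j' * n χ j) := hS2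
    have h2 : ∑ χ ∈ bF B, ∑ j ∈ Finset.range p, ∑ j' ∈ Finset.range p,
        (n χ j * n χ j + n χ j' * n χ j' - n χ j * n χ j' - n χ j' * n χ j) =
        ∑ χ ∈ s₀, ∑ j ∈ Finset.range p, ∑ j' ∈ Finset.range p,
        (n χ j * n χ j + n χ j' * n χ j' - n χ j * n χ j' - n χ j' * n χ j) +
        ∑ χ ∈ s₁, ∑ j ∈ Finset.range p, ∑ j' ∈ Finset.range p,
        (n χ j * n χ j + n χ j' * n χ j' - n χ j * n χ j' - n χ j' * n χ j) :=
      (Finset.sum_filter_add_sum_filter_not _ _ _).symm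
    have h3 : (s₀.card : ℤ) * (C * 1) ≤ ∑ χ ∈ s₀, ∑ j ∈ Finset.range p, ∑ j' ∈ Finset.range p,
        (n χ j * n χ j + n χ j' * n χ j' - n χ j * n χ j' - n χ j' * n χ j) := by
      have := Finset.card_nsmul_le_sum s₀ _ (C * 1) (fun χ hχ => (hlow0 χ hχ).1)
      simpa using this
    have h4 : (s₁.card : ℤ) * (C * (p : ℤ) ^ 2) ≤ ∑ χ ∈ s₁, ∑ j ∈ Finset.range p, ∑ j' ∈ Finset.range p,
        (n χ j * n χ j + n χ j' * n χ j' - n χ j * n χ j' - n χ j' * n χ j) := by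
      have := Finset.card_nsmul_le_sum s₁ _ (C * (p : ℤ) ^ 2) hlow1
      simpa using this
    have h5 : C * ((s₀.card : ℤ) + (p : ℤ) ^ 2 * s₁.card) ≤ C * ((p : ℤ) ^ blockDefect p B * α) := by
      rw [h1, h2]
      linarith
    exact le_of_mul_le_mul_left h5 hC0
  · have h1 : C * ((blockRank p f : ℤ) * (p : ℤ) ^ blockDefect p B) = ∑ χ ∈ bF B, ∑ j ∈ Finset.range p,
        ∑ j' ∈ Finset.range p, (qq p f (cf e χ j) (cf e χ j) + qq p f (cf e χ j') (cf e χ j') -
          qq p f (cf e χ j) (cf e χ j') - qq p f (cf e χ j') (cf e χ j)) := hS1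
    have h2 : ∑ χ ∈ bF B, ∑ j ∈ Finset.range p, ∑ j' ∈ Finset.range p,
        (qq p f (cf e χ j) (cf e χ j) + qq p f (cf e χ j') (cf e χ j') -
          qq p f (cf e χ j) (cf e χ j') - qq p f (cf e χ j') (cf e χ j)) =
        ∑ χ ∈ s₀, ∑ j ∈ Finset.range p, ∑ j' ∈ Finset.range p,
        (qq p f (cf e χ j) (cf e χ j) + qq p f (cf e χ j') (cf e χ j') -
          qq p f (cf e χ j) (cf e χ j') - qq p f (cf e χ j') (cf e χ j)) +
        ∑ χ ∈ s₁, ∑ j ∈ Finset.range p, ∑ j' ∈ Finset.range p,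
        (qq p f (cf e χ j) (cf e χ j) + qq p f (cf e χ j') (cf e χ j') -
          qq p f (cf e χ j) (cf e χ j') - qq p f (cf e χ j') (cf e χ j)) :=
      (Finset.sum_filter_add_sum_filter_not _ _ _).symm
    have h3 : (s₀.card : ℤ) * (C * α) ≤ ∑ χ ∈ s₀, ∑ j ∈ Finset.range p, ∑ j' ∈ Finset.range p,
        (qq p f (cf e χ j) (cf e χ j) + qq p f (cf e χ j') (cf e χ j') -
          qq p f (cf e χ j) (cf e χ j') - qq p f (cf e χ j') (cf e χ j)) := by
      have := Finset.card_nsmul_le_sum s₀ _ (C * α) (fun χ hχ => (hlow0 χ hχ).2)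
      simpa using this
    have h4 : 0 ≤ ∑ χ ∈ s₁, ∑ j ∈ Finset.range p, ∑ j' ∈ Finset.range p,
        (qq p f (cf e χ j) (cf e χ j) + qq p f (cf e χ j') (cf e χ j') -
          qq p f (cf e χ j) (cf e χ j') - qq p f (cf e χ j') (cf e χ j)) := by
      refine Finset.sum_nonneg fun χ _ => Finset.sum_nonneg fun j _ => Finset.sum_nonneg fun j' _ => ?_
      rw [hgQ]
      exact qq_nonneg hM hf _
    have h5 : C * ((s₀.card : ℤ) * α) ≤ C * ((blockRank p f : ℤ) * (p : ℤ) ^ blockDefect p B) := by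
      rw [h1, h2]
      linarith
    exact le_of_mul_le_mul_left h5 hC0

/-- The arithmetic of the bound. -/
theorem arith_bound {P T pp α k₀ k₁ : ℤ} {l : ℤ} (hpp : 1 ≤ pp) (hT : 0 < T) (hk₀ : 0 ≤ k₀) (hk₁ : 0 ≤ k₁)
    (hα : 0 < α) (hp2 : 2 ≤ pp) (hP : P = pp ^ 2 * T) (hI : k₀ + pp ^ 2 * k₁ ≤ P * α) (hII : k₀ * α ≤ l * P)
    (hl : l ≤ T ^ 2) (hαT : α ≤ pp * T) : k₀ + k₁ ≤ P * T := by
  have hP0 : 0 < P := by rw [hP]; positivity
  by_cases h : α ≤ T
  · have hpp2 : 1 ≤ pp ^ 2 := by nlinarith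
    have h1 : k₀ + k₁ ≤ k₀ + pp ^ 2 * k₁ := by nlinarith [mul_le_mul_of_nonneg_right hpp2 hk₁]
    have h2 : P * α ≤ P * T := mul_le_mul_of_nonneg_left h hP0.le
    linarith
  · push Not at h
    have hq : α * α + (pp ^ 2 - 1) * T ^ 2 ≤ pp ^ 2 * T * α := by
      have h1 : α ≤ (pp ^ 2 - 1) * T := by
        have : pp ≤ pp ^ 2 - 1 := by nlinarith
        nlinarith
      have h2 : 0 ≤ (α - T) * ((pp ^ 2 - 1) * T - α) :=
        mul_nonneg (by linarith) (by linarith)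
      nlinarith
    have h3 : pp ^ 2 * (k₀ + k₁) * α ≤ pp ^ 2 * (P * T) * α := by
      have h4 : k₀ * α ≤ T ^ 2 * P := hII.trans (mul_le_mul_of_nonneg_right hl hP0.le)
      have h5 : (k₀ + pp ^ 2 * k₁) * α ≤ P * α * α := mul_le_mul_of_nonneg_right hI hα.le
      have h6 : (pp ^ 2 - 1) * (k₀ * α) ≤ (pp ^ 2 - 1) * (T ^ 2 * P) :=
        mul_le_mul_of_nonneg_left h4 (by nlinarith)
      have h7 : P * (α * α + (pp ^ 2 - 1) * T ^ 2) ≤ P * (pp ^ 2 * T * α) :=
        mul_le_mul_of_nonneg_left hq hP0.le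
      nlinarith
    have h8 : 0 < pp ^ 2 * α := by positivity
    have h9 : (pp ^ 2 * α) * (k₀ + k₁) ≤ (pp ^ 2 * α) * (P * T) := by nlinarith
    exact le_of_mul_le_mul_left h9 h8

/-- **The counting bound.** -/
theorem card_le_of_major (hM : IsPModular p M) (hz : orderOf z = p)
    (hH : H = Subgroup.centralizer ({z} : Set G)) {f : Set (IrrCharacter H)}
    {B : Set (IrrCharacter G)} (hind : IsInducedBlock M H f B)
    (hd : blockDefect p f = blockDefect p B) {T : ℕ} (hT : 0 < T)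
    (hP : p ^ blockDefect p B = p ^ 2 * T) (hl : blockRank p f ≤ T ^ 2)
    {a : IrrCharacter H → ℤ} (ha : ¬ (p : ℤ) ∣ qq p f a a) (haT : qq p f a a ≤ (p : ℤ) * T) :
    (bF B).card ≤ p ^ blockDefect p B * T := by
  obtain ⟨α, k₀, k₁, hα, hmin, hk, hI, hII⟩ := major_bounds hM hz hH hind hd
  have hp := hpF.out
  have h := arith_bound (pp := (p : ℤ)) (P := (p : ℤ) ^ blockDefect p B) (T := (T : ℤ)) (α := α)
    (k₀ := k₀) (k₁ := k₁) (l := blockRank p f)
    (by exact_mod_cast hp.pos) (by exact_mod_cast hT) (by positivity) (by positivity) hα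
    (by exact_mod_cast hp.two_le) (by exact_mod_cast hP) hI hII (by exact_mod_cast hl)
    ((hmin a ha).trans haT)
  rw [← hk]
  exact_mod_cast h

end Main

end Cfsg.Agent.Lib.BFFeit
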