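import Mathlib
import Cfsg.Agent.Lib.BFFeit3

/-!
# The bound `k(B) ≤ p ^ (2 d - 2)`: the induction
-/

set_option autoImplicit false
set_option linter.unusedSectionVars false
set_option linter.unusedVariables false
set_option linter.style.haveILetI false

namespace Cfsg.Agent.Lib.BFFeit

open Cfsg Cfsg.Agent.Lib.CharBasic Cfsg.Agent.Lib.CharInd Cfsg.Agent.Lib.CharIntegrality
open Cfsg.Agent.Lib.BlockLocal Cfsg.Agent.Lib.BlockIdem Cfsg.Agent.Lib.BlockQ
open Cfsg.Agent.Lib.BlockOrtho Cfsg.Agent.Lib.BFMajor Cfsg.Agent.Lib.BFMajor2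
open Cfsg.Agent.Lib.BlockMajor Cfsg.Agent.Lib.BlockMajorForm
open Cfsg.Agent.Lib.BlkQuot (infl)
open scoped ComplexConjugate

universe u

section Small

variable {X : Type u} [Group X] [Fintype X] {p : ℕ} [hpF : Fact p.Prime] {M : Ideal AlgInt}

/-- The values of the form are bounded by `p ^ d`. -/
theorem Q_self_le (hM : IsPModular p M) {b : Set (IrrCharacter X)} (hb : IsPBlock M b)
    {χ : IrrCharacter X} (hχ : χ ∈ b) : Q p b χ χ ≤ (p : ℤ) ^ blockDefect p b := by
  classical
  have hp := hpF.out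
  have hp0 : (0 : ℝ) < (p : ℝ) ^ blockDefect p b := pow_pos (by exact_mod_cast hp.pos) _
  have hX0 : (0 : ℝ) < (Nat.card X : ℝ) := by exact_mod_cast Nat.card_pos
  set reg := Finset.univ.filter (fun s : X => ¬ p ∣ orderOf s) with hreg
  have h1 : (Q p b χ χ : ℂ) = (((p : ℝ) ^ blockDefect p b * ((Nat.card X : ℝ)⁻¹ *
      ∑ s ∈ reg, Complex.normSq ((χ : X → ℂ) s)) : ℝ) : ℂ) := by
    rw [← Q_spec hM hb χ hχ, classInner_pReg_eq_sum]
    push_cast
    congr 2
    refine Finset.sum_congr rfl fun s _ => ?_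
    rw [Complex.mul_conj]
  have h2 : (((Nat.card X : ℝ)⁻¹ * ∑ s : X, Complex.normSq ((χ : X → ℂ) s) : ℝ) : ℂ) = 1 := by
    rw [← classInner_irr_self χ.2]
    unfold classInner
    push_cast
    congr 1
    refine Finset.sum_congr rfl fun s _ => ?_
    rw [Complex.mul_conj]
  have h3 : (Nat.card X : ℝ)⁻¹ * ∑ s : X, Complex.normSq ((χ : X → ℂ) s) = 1 := by
    exact_mod_cast h2
  have h4 : ∑ s ∈ reg, Complex.normSq ((χ : X → ℂ) s) ≤ ∑ s : X, Complex.normSq ((χ : X → ℂ) s) :=
    Finset.sum_le_sum_of_subset_of_nonneg (Finset.subset_univ _)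
      (fun s _ _ => Complex.normSq_nonneg _)
  have h5 : (Nat.card X : ℝ)⁻¹ * ∑ s ∈ reg, Complex.normSq ((χ : X → ℂ) s) ≤ 1 := by
    rw [← h3]
    exact mul_le_mul_of_nonneg_left h4 (by positivity)
  have h6 : ((Q p b χ χ : ℤ) : ℝ) = (p : ℝ) ^ blockDefect p b * ((Nat.card X : ℝ)⁻¹ *
      ∑ s ∈ reg, Complex.normSq ((χ : X → ℂ) s)) := by
    exact_mod_cast h1
  have h7 : ((Q p b χ χ : ℤ) : ℝ) ≤ (p : ℝ) ^ blockDefect p b := by
    rw [h6]
    nlinarith
  exact_mod_cast h7

/-- The value of the form on inflated characters. -/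
theorem Q_infl (U : Subgroup X) [hUn : U.Normal] [Fintype (X ⧸ U)] (hM : IsPModular p M)
    (hUZ : U ≤ Subgroup.center X) (hUp : IsPGroup p U) {b : Set (IrrCharacter X)}
    {bb : Set (IrrCharacter (X ⧸ U))} (hb : IsPBlock M b) (hbb : IsPBlock M bb)
    (hinfl : ∀ χ ∈ bb, infl U χ ∈ b) (hU : p ^ blockDefect p b = p ^ blockDefect p bb * Nat.card U)
    (χ : IrrCharacter (X ⧸ U)) {χ' : IrrCharacter (X ⧸ U)} (hχ' : χ' ∈ bb) :
    Q p b (infl U χ) (infl U χ') = Q p bb χ χ' := by
  apply Int.cast_injective (α := ℂ)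
  rw [← Q_spec hM hb _ (hinfl χ' hχ'), ← Q_spec hM hbb χ hχ',
    ← Cfsg.Agent.Lib.RegLattice.classInner_reg_infl U hUZ hUp χ χ']
  have h1 : (p : ℂ) ^ blockDefect p b = (p : ℂ) ^ blockDefect p bb * (Nat.card U : ℂ) := by
    exact_mod_cast hU
  rw [h1]
  ring

/-- A block of defect zero has one character. -/
theorem card_le_of_defect_zero (hM : IsPModular p M) {B : Set (IrrCharacter X)} (hB : IsPBlock M B)
    (h0 : blockDefect p B = 0) : (bF B).card ≤ 1 := by
  classical
  have hMp := hM.2.1.isPrime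
  have hp := hpF.out
  obtain ⟨χ, hχ⟩ := isPBlock_nonempty hB
  have hB' : B = blockOf M (χ : X → ℂ) := by
    obtain ⟨ξ, rfl⟩ := hB
    exact (blockOf_eq_of_mem hχ).symm
  have hdvd : p ^ (Nat.card X).factorization p ∣ charDegree (χ : X → ℂ) := by
    have h1 := card_factorization_eq (M := M) (p := p) hB
    rw [h0, zero_add] at h1
    rw [h1]
    refine (pow_dvd_pow p (minExp_le hχ)).trans ?_
    exact Nat.ordProj_dvd _ _
  refine Finset.card_le_one.mpr fun a ha b hb => ?_
  have ha' := mem_bF.mp ha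
  have hb2 := mem_bF.mp hb
  rw [hB'] at ha' hb2
  rw [eq_of_mem_blockOf_of_dvd hM hdvd ha', eq_of_mem_blockOf_of_dvd hM hdvd hb2]

local notation "𝐂[" R "]" => Subgroup.centralizer ((R : Subgroup X) : Set X)
local notation "𝐍[" R "]" => Subgroup.normalizer ((R : Subgroup X) : Set X)

/-- Blocks with a cyclic defect group. -/
theorem card_le_of_cyclic (hM : IsPModular p M) {D : Subgroup X} (hD : IsCyclic D) {a : ℕ} (ha : 1 ≤ a)
    (hDa : Nat.card D = p ^ a) {b : Set (IrrCharacter X)} (hb : IsPBlock M b)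
    (hbD : IsDefectGroup p M b D) : (bF b).card ≤ p ^ a := by
  classical
  have hp := hpF.out
  haveI hMp := hM.2.1.isPrime
  obtain ⟨c, hc⟩ := Cfsg.Agent.Lib.BrauerCorr.exists_maximal_of_isDefectGroup hM hb hbD
  have hind := Cfsg.Agent.S4683.isInducedBlock_of_isBrauerPairOf hM hc.1
  let T : Subgroup X := 𝐍[D] ⊓ Cfsg.Agent.Lib.BrauerCen.stabSub _ c hind.1
  have hT : ∀ g : X, g ∈ T ↔ (g ∈ 𝐍[D] ∧ StabilizesBlock 𝐂[D] c g) :=
    fun g => Iff.rfl
  obtain ⟨hdvd, hrank, -, X', Y, hXY, hdisj, hcX, hcY, -⟩ :=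
    Cfsg.Agent.Lib.DcSetup.dade_main hM hD ha hDa hb hbD hind hT rfl
  set e := (𝐂[D]).relIndex T with he
  have hFcard : (bF X').card = e := by
    rw [← hcX, Nat.card_coe_set_eq, Set.ncard_eq_toFinset_card X' (Set.toFinite X')]
    rfl
  have hGcard : (bF Y).card = (p ^ a - 1) / e := by
    rw [← hcY, Nat.card_coe_set_eq, Set.ncard_eq_toFinset_card Y (Set.toFinite Y)]
    rfl
  have hdvd' : e ∣ p ^ a - 1 := by
    refine hdvd.trans ?_
    simpa using Nat.sub_dvd_pow_sub_pow p 1 a
  set m := (p ^ a - 1) / e with hm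
  have hem : e * m = p ^ a - 1 := Nat.mul_div_cancel' hdvd'
  have hp1 := hp.one_lt
  have hpa1 : 1 < p ^ a := Nat.one_lt_pow (by omega) hp1
  have hpem : p ^ a = 1 + e * m := by omega
  have hm0 : m ≠ 0 := by
    intro h
    rw [h] at hem
    omega
  have he0 : 0 < e := by
    rcases Nat.eq_zero_or_pos e with h | h
    · rw [h] at hem
      omega
    · exact h
  have hbF : bF b ⊆ bF X' ∪ bF Y := by
    intro χ hχ
    have h1 := mem_bF.mp hχ
    rw [hXY] at h1
    rcases h1 with h1 | h1
    · exact Finset.mem_union_left _ (mem_bF.mpr h1)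
    · exact Finset.mem_union_right _ (mem_bF.mpr h1)
  calc (bF b).card ≤ (bF X' ∪ bF Y).card := Finset.card_le_card hbF
    _ ≤ (bF X').card + (bF Y).card := Finset.card_union_le _ _
    _ = e + m := by rw [hFcard, hGcard]
    _ ≤ 1 + e * m := by
        have hm1 : 1 ≤ m := Nat.pos_of_ne_zero hm0
        nlinarith [Nat.mul_le_mul (Nat.succ_le_of_lt he0) hm1, (Nat.sub_add_cancel he0),
          (Nat.sub_add_cancel hm1), Nat.zero_le ((e - 1) * (m - 1))]
    _ = p ^ a := hpem.symm

/-- Blocks of defect at most two. -/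
theorem card_le_of_defect_two (hM : IsPModular p M) {B : Set (IrrCharacter X)} (hB : IsPBlock M B)
    {D : Subgroup X} (hD : IsDefectGroup p M B D) (hd : blockDefect p B = 2) :
    (bF B).card ≤ p ^ 2 := by
  classical
  have hp := hpF.out
  have hcard := Cfsg.Agent.Lib.BlockDefect.card_isDefectGroup hM hB hD
  rw [hd] at hcard
  by_cases hcyc : IsCyclic D
  · exact card_le_of_cyclic hM hcyc (by omega) hcard hB hD
  · have hcomm := IsPGroup.commutative_of_card_eq_prime_sq hcard
    letI : CommGroup D := { (inferInstance : Group D) with mul_comm := hcomm }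
    have hab : ∀ x ∈ D, ∀ z ∈ D, x * z = z * x := fun x hx z hz =>
      congrArg Subtype.val (hcomm ⟨x, hx⟩ ⟨z, hz⟩)
    have hDp : IsPGroup p D := IsPGroup.of_card hcard
    haveI hnt : Nontrivial D := by
      rw [← Finite.one_lt_card_iff_nontrivial, hcard]
      exact Nat.one_lt_pow (by omega) hp.one_lt
    obtain ⟨y, hy⟩ := exists_ne (1 : D)
    have hzy : Subgroup.zpowers y ≠ ⊤ := by
      intro h
      exact hcyc ⟨y, fun t => by
        have : t ∈ Subgroup.zpowers y := by rw [h]; exact Subgroup.mem_top t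
        exact this⟩
    obtain ⟨x, hx⟩ : ∃ x : D, x ∉ Subgroup.zpowers y := by
      by_contra hcon
      push Not at hcon
      exact hzy (eq_top_iff.mpr fun t _ => hcon t)
    have hcl : Subgroup.closure ({x, y} : Set D) = ⊤ := by
      apply Subgroup.eq_top_of_card_eq
      set C := Subgroup.closure ({x, y} : Set D) with hC
      have h1 : Subgroup.zpowers y ≤ C := by
        rw [Subgroup.zpowers_le]
        exact Subgroup.subset_closure (by simp)
      have h2 : x ∈ C := Subgroup.subset_closure (by simp)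
      have h3 : Subgroup.zpowers y < C := lt_of_le_of_ne h1 fun h => hx (h ▸ h2)
      have h4 : Nat.card C ∣ p ^ 2 := by
        rw [← hcard]
        exact Subgroup.card_subgroup_dvd_card C
      have h5 : Nat.card (Subgroup.zpowers y) ∣ Nat.card C := Subgroup.card_dvd_of_le h1
      have h6 : ¬ Nat.card C ≤ Nat.card (Subgroup.zpowers y) := fun h =>
        h3.ne (Subgroup.eq_of_le_of_card_ge h1 h)
      have h7 : Nat.card (Subgroup.zpowers y) ≠ 1 := by
        rw [Nat.card_zpowers]
        intro h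
        exact hy (orderOf_eq_one_iff.mp h)
      rw [hcard]
      obtain ⟨i, hi, hi'⟩ := (Nat.dvd_prime_pow hp).mp h4
      rw [hi'] at h5 h6 ⊢
      obtain ⟨j, hj, hj'⟩ := (Nat.dvd_prime_pow hp).mp h5
      have hj0 : j ≠ 0 := by
        intro h0
        rw [h0, pow_zero] at hj'
        exact h7 hj'
      have hne : i ≠ j := by
        intro h0
        apply h6
        rw [hj', h0]
      have : i = 2 := by omega
      rw [this]
    have hgen : ∀ t ∈ D, ∃ i j : ℤ, t = (x : X) ^ i * (y : X) ^ j := by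
      intro t ht
      have h1 : (⟨t, ht⟩ : D) ∈ Subgroup.closure ({x, y} : Set D) := by
        rw [hcl]
        exact Subgroup.mem_top _
      rw [Subgroup.mem_closure_pair] at h1
      obtain ⟨i, j, hij⟩ := h1
      refine ⟨i, j, ?_⟩
      have h2 := congrArg Subtype.val hij
      simpa using h2.symm
    have hxy : (x : X) ∉ Subgroup.zpowers (y : X) := by
      intro hmem
      obtain ⟨n, hn⟩ := Subgroup.mem_zpowers_iff.mp hmem
      apply hx
      rw [Subgroup.mem_zpowers_iff]
      refine ⟨n, Subtype.ext ?_⟩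
      simpa using hn
    have h := card_le_of_two_gen hM hB hD hab x.2 y.2 hgen hxy
    rwa [hd] at h

end Small

section Step

variable {G : Type u} [Group G] [Fintype G] {p : ℕ} [hpF : Fact p.Prime] {M : Ideal AlgInt}

local notation "𝐂[" R "]" => Subgroup.centralizer ((R : Subgroup G) : Set G)

noncomputable local instance fintypeSubBFF (K : Subgroup G) : Fintype K := Fintype.ofFinite K

/-- The block of the centralizer of a central element of a defect group. -/
theorem exists_block_centralizer' (hM : IsPModular p M) {B : Set (IrrCharacter G)} (hB : IsPBlock M B)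
    {D : Subgroup G} (hD : IsDefectGroup p M B D) {y : G}
    (hy : y ∈ D) (hyc : ∀ x ∈ D, y * x = x * y) :
    ∃ f : Set (IrrCharacter 𝐂[Subgroup.zpowers y]), IsInducedBlock M 𝐂[Subgroup.zpowers y] f B ∧
      IsDefectGroup p M f (D.subgroupOf 𝐂[Subgroup.zpowers y]) := by
  classical
  haveI := hM.2.1.isPrime
  have hPp : IsPGroup p D := IsPGroup.of_card (Cfsg.Agent.Lib.BlockDefect.card_isDefectGroup hM hB hD)
  have hQP : Subgroup.zpowers y ≤ D := Subgroup.zpowers_le.2 hy
  have hPC : D ≤ 𝐂[Subgroup.zpowers y] := by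
    intro x hx
    rw [Subgroup.mem_centralizer_iff]
    intro q hq
    obtain ⟨n, rfl⟩ := Subgroup.mem_zpowers_iff.mp hq
    have hc : Commute y x := hyc x hx
    exact (hc.zpow_left n).eq
  obtain ⟨c, hc⟩ := Cfsg.Agent.Lib.BrauerCorr.exists_maximal_of_isDefectGroup hM hB hD
  have hcB := hc.1
  obtain ⟨f, hf⟩ := Cfsg.Agent.Lib.BrauerIn.exists_isInducedBlockIn hM hPp hQP hPC hcB.1.2
  have hfb := hf.2.1
  have hbp := Cfsg.Agent.Lib.BrauerIn.isBrauerPairOf_in hM hPp hQP hPC hf
  have hmax' := Cfsg.Agent.Lib.BrauerIn.isMaximal_in hM hD hQP hPC hcB hbp hfb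
  have hD' := Cfsg.Agent.Lib.BrauerMax.isDefectGroup_of_maximal hM hmax'
  have hn := Cfsg.Agent.Lib.BrauerIn.isNormalSubpair_of_in hPp hQP hPC hbp hcB.1.2 hfb
  have hQf := (Cfsg.Agent.Lib.BrauerSub.isBrauerPairOf_iff_of_normal hM hcB.2.1 hn).2 hcB
  exact ⟨f, Cfsg.Agent.S4683.isInducedBlock_of_isBrauerPairOf hM hQf, hD'⟩

/-- **The inductive step**, for a given block of the centralizer. -/
theorem step_aux (hM : IsPModular p M) {B : Set (IrrCharacter G)} (hB : IsPBlock M B)
    {D : Subgroup G} (hD : IsDefectGroup p M B D) {y : G} (hyD : y ∈ D) (hyo : orderOf y = p)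
    {H : Subgroup G} (hH : H = Subgroup.centralizer ({y} : Set G)) (hDH : D ≤ H)
    {f : Set (IrrCharacter H)} (hind : IsInducedBlock M H f B)
    (hDf : IsDefectGroup p M f (D.subgroupOf H)) (hd3 : 3 ≤ blockDefect p B)
    (IH : ∀ (K : Type u) [Group K] [Fintype K] (bb : Set (IrrCharacter K)), IsPBlock M bb →
      blockDefect p bb + 1 = blockDefect p B → (bF bb).card ≤ p ^ (2 * blockDefect p B - 4)) :
    (bF B).card ≤ p ^ (2 * blockDefect p B - 2) := by
  classical
  haveI hMp := hM.2.1.isPrime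
  have hp := hpF.out
  have hDcard := Cfsg.Agent.Lib.BlockDefect.card_isDefectGroup hM hB hD
  have hcardE : Nat.card (D.subgroupOf H) = Nat.card D :=
    Nat.card_congr (Subgroup.subgroupOfEquivOfLe hDH).toEquiv
  have hDfcard := Cfsg.Agent.Lib.BlockDefect.card_isDefectGroup hM hind.1 hDf
  have hd : blockDefect p f = blockDefect p B := by
    apply Nat.pow_right_injective hp.two_le
    simp only
    rw [← hDfcard, hcardE, hDcard]
  set z : H := yH hH with hz
  have hzc : ∀ c : H, z * c = c * z := yH_central hH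
  set U : Subgroup H := Subgroup.zpowers z with hU
  have hUZ : U ≤ Subgroup.center H := by
    rw [hU, Subgroup.zpowers_le, Subgroup.mem_center_iff]
    exact fun c => (hzc c).symm
  haveI hUn : U.Normal := Cfsg.Agent.Lib.BlockCentral.normal_of_le_center U hUZ
  have hzo : orderOf z = p := by
    rw [← hyo, hz]
    exact Subgroup.orderOf_mk y _
  have hUcard : Nat.card U = p := by rw [hU, Nat.card_zpowers, hzo]
  have hUp : IsPGroup p U := IsPGroup.of_card (n := 1) (by rw [hUcard, pow_one])
  letI : Fintype (H ⧸ U) := Fintype.ofFinite _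
  obtain ⟨bb, hbb, hinfl, hdb⟩ := Cfsg.Agent.Lib.BlockQuotDefect.exists_block_quot (N := U) hM hUp hind.1
  set E := D.subgroupOf H with hE
  have hUE : U ≤ E := by
    rw [hU, Subgroup.zpowers_le, hE, Subgroup.mem_subgroupOf]
    exact hyD
  have hDbar : IsDefectGroup p M bb (E.map (QuotientGroup.mk' U)) := (hdb _).2 ⟨E, hDf, rfl⟩
  have hDbarcard := Cfsg.Agent.Lib.BlockDefect.card_isDefectGroup hM hbb hDbar
  have hh : p ^ blockDefect p f = p ^ blockDefect p bb * Nat.card U := by
    rw [← hDfcard, ← hDbarcard]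
    exact card_eq_card_map_mul E U hUE
  have hdb1 : blockDefect p bb + 1 = blockDefect p B := by
    apply Nat.pow_right_injective hp.two_le
    simp only
    rw [pow_succ, ← hd, hh, hUcard]
  have hbound := IH (H ⧸ U) bb hbb hdb1
  have hrank : blockRank p f ≤ (bF bb).card := by
    refine blockRank_le_of_lattice U fun ξ hξ => ?_
    obtain ⟨a, ha⟩ := exists_lattice_blk U hM hUZ hUp hind.1 hbb hinfl hξ
    exact ⟨a, ha⟩
  obtain ⟨ξ₀, hξ₀, h0⟩ := exists_minExp (p := p) hbb
  have hinflξ := hinfl ξ₀ hξ₀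
  have hQeq := Q_infl U hM hUZ hUp hind.1 hbb hinfl hh ξ₀ hξ₀
  have hsingle := qq_single (p := p) hinflξ
  have hle := Q_self_le hM hbb hξ₀
  have hunit := not_dvd_Q_self hM hbb hξ₀ h0
  set d := blockDefect p B with hdd
  set T := p ^ (d - 2) with hT
  have hT0 : 0 < T := pow_pos hp.pos _
  have hP : p ^ d = p ^ 2 * T := by
    rw [hT, ← pow_add]
    congr 1
    omega
  have hl : blockRank p f ≤ T ^ 2 := by
    rw [hT, ← pow_mul]
    refine hrank.trans (hbound.trans (le_of_eq ?_))
    congr 1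
    omega
  have hmain := card_le_of_major hM hyo hH hind hd hT0 hP hl (a := fun ξ => if ξ = infl U ξ₀ then 1 else 0) (by
      rw [hsingle, hQeq]
      exact hunit) (by
      rw [hsingle, hQeq]
      refine hle.trans (le_of_eq ?_)
      have h1 : blockDefect p bb = d - 1 := by omega
      rw [h1, hT]
      push_cast
      rw [← pow_succ']
      congr 1
      omega)
  refine hmain.trans (le_of_eq ?_)
  rw [hT, ← pow_add]
  congr 1
  omega

/-- **The inductive step.** -/
theorem step (hM : IsPModular p M) {B : Set (IrrCharacter G)} (hB : IsPBlock M B)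
    (hd3 : 3 ≤ blockDefect p B)
    (IH : ∀ (K : Type u) [Group K] [Fintype K] (bb : Set (IrrCharacter K)), IsPBlock M bb →
      blockDefect p bb + 1 = blockDefect p B → (bF bb).card ≤ p ^ (2 * blockDefect p B - 4)) :
    (bF B).card ≤ p ^ (2 * blockDefect p B - 2) := by
  classical
  haveI hMp := hM.2.1.isPrime
  have hp := hpF.out
  obtain ⟨D, hD⟩ := Cfsg.Agent.Lib.BlockDefect.exists_isDefectGroup hM hB
  have hDcard := Cfsg.Agent.Lib.BlockDefect.card_isDefectGroup hM hB hD
  have hDp : IsPGroup p D := IsPGroup.of_card hDcard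
  haveI hnt : Nontrivial D := by
    rw [← Finite.one_lt_card_iff_nontrivial, hDcard]
    exact Nat.one_lt_pow (by omega) hp.one_lt
  haveI hct : Nontrivial (Subgroup.center D) := hDp.center_nontrivial
  have hZp : IsPGroup p (Subgroup.center D) := hDp.to_subgroup _
  have hdvd : p ∣ Nat.card (Subgroup.center D) := by
    obtain ⟨n, hn⟩ := IsPGroup.iff_card.mp hZp
    have h1 : n ≠ 0 := by
      intro h0
      rw [h0, pow_zero] at hn
      have := Finite.one_lt_card_iff_nontrivial.mpr hct
      omega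
    rw [hn]
    exact dvd_pow_self p h1
  obtain ⟨w, hw⟩ := exists_prime_orderOf_dvd_card' p hdvd
  set y : G := ((w : D) : G) with hy
  have hyo : orderOf y = p := by
    rw [hy, Subgroup.orderOf_coe, Subgroup.orderOf_coe, hw]
  have hyD : y ∈ D := (w : D).2
  have hyc : ∀ x ∈ D, y * x = x * y := by
    intro x hx
    have h1 := Subgroup.mem_center_iff.mp w.2 ⟨x, hx⟩
    exact (congrArg Subtype.val h1).symm
  obtain ⟨f, hind, hDf⟩ := exists_block_centralizer' hM hB hD hyD hyc
  have hH : 𝐂[Subgroup.zpowers y] = Subgroup.centralizer ({y} : Set G) :=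
    Cfsg.Agent.Lib.BlockSecond.centralizer_zpowers_eq y
  have hDH : D ≤ 𝐂[Subgroup.zpowers y] := by
    intro x hx
    rw [Subgroup.mem_centralizer_iff]
    intro q hq
    obtain ⟨n, rfl⟩ := Subgroup.mem_zpowers_iff.mp hq
    have hc : Commute y x := hyc x hx
    exact (hc.zpow_left n).eq
  exact step_aux hM hB hD hyD hyo hH hDH hind hDf hd3 IH

end Step

section Induction

variable {p : ℕ} [hpF : Fact p.Prime] {M : Ideal AlgInt}

/-- **Brauer–Feit–Landrock bound.** -/
theorem card_le_bound (hM : IsPModular p M) (d : ℕ) :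
    ∀ (G : Type u) [Group G] [Fintype G] (B : Set (IrrCharacter G)), IsPBlock M B →
      blockDefect p B = d → (d ≤ 2 → (bF B).card ≤ p ^ d) ∧ (3 ≤ d → (bF B).card ≤ p ^ (2 * d - 2)) := by
  induction d using Nat.strong_induction_on with
  | _ d ih =>
    intro G _ _ B hB hd
    classical
    have hp := hpF.out
    haveI hMp := hM.2.1.isPrime
    obtain ⟨D, hD⟩ := Cfsg.Agent.Lib.BlockDefect.exists_isDefectGroup hM hB
    have hDcard := Cfsg.Agent.Lib.BlockDefect.card_isDefectGroup hM hB hD
    constructor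
    · intro h2
      rw [hd] at hDcard
      rcases (by omega : d = 0 ∨ d = 1 ∨ d = 2) with rfl | rfl | rfl
      · simpa using card_le_of_defect_zero hM hB hd
      · have hcyc : IsCyclic D := isCyclic_of_prime_card (p := p) (by rw [hDcard, pow_one])
        exact card_le_of_cyclic hM hcyc (le_refl 1) hDcard hB hD
      · exact card_le_of_defect_two hM hB hD hd
    · intro h3
      have h := step hM hB (by omega) (by
        intro K _ _ bb hbb hdb
        rw [hd] at hdb ⊢
        have hlt : d - 1 < d := by omega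
        have hdb' : blockDefect p bb = d - 1 := by omega
        obtain ⟨h1, h2⟩ := ih (d - 1) hlt K bb hbb hdb'
        by_cases h4 : d - 1 ≤ 2
        · have h5 : d = 3 := by omega
          subst h5
          exact h1 h4
        · refine (h2 (by omega)).trans (le_of_eq ?_)
          congr 1
          omega)
      rwa [hd] at h

end Induction

end Cfsg.Agent.Lib.BFFeit
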