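import Mathlib
import Cfsg.Agent.Lib.RangeLat

/-!
# Reduction of a complex representation modulo a valuation subring

`ρ` a representation of `G` on `K^n`, `A` a valuation subring of `K`: there is a matrix representation over `A` of degree at
most `n` whose kernel lies in the kernel of `ρ`.  An element of order prime to the residue characteristic in the kernel of the
reduction is in the kernel of the matrix representation.
-/

set_option autoImplicit false
set_option linter.style.haveILetI false
set_option linter.unusedSectionVars false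
set_option linter.unusedVariables false

namespace Cfsg.Agent.Lib.BLat

open Module Matrix Subgroup
open Cfsg.Agent.Lib.RangeVal Cfsg.Agent.Lib.RangeLat

variable {K : Type*} [Field K] [IsAlgClosed K] {A : ValuationSubring K} {G : Type*} [Group G] [Fintype G] [DecidableEq G]
  {n : ℕ}

section Lattice

variable (ρ : G →* Module.End K (Fin n → K))

/-- The generators of the lattice. -/
noncomputable def bb (j : G × Fin n) : Fin n → K := ρ j.1 (Pi.single j.2 1)

/-- The action on the generators. -/
def act (g : G) (j : G × Fin n) : G × Fin n := (g * j.1, j.2)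

theorem rho_bb (g : G) (j : G × Fin n) : ρ g (bb ρ j) = bb ρ (act g j) := by
  simp [bb, act, map_mul, Module.End.mul_apply]

theorem act_mul (g h : G) (j : G × Fin n) : act g (act h j) = act (g * h) j := by
  simp [act, mul_assoc]

theorem act_one (j : G × Fin n) : act 1 j = j := by
  simp [act]

variable (A) in
/-- The data of the lattice. -/
structure Dat where
  S : Finset (G × Fin n)
  c : G × Fin n → G × Fin n → A
  hind : ∀ f : G × Fin n → K, ∑ i ∈ S, f i • bb ρ i = 0 → ∀ i ∈ S, f i = 0
  hc : ∀ j, bb ρ j = ∑ s ∈ S, (c j s : K) • bb ρ s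

theorem nonempty_dat : Nonempty (Dat A ρ) := by
  classical
  obtain ⟨S, h1, h2⟩ := exists_basis_subfamily (A := A) (bb ρ)
  choose c hc using h2
  exact ⟨⟨S, c, h1, hc⟩⟩

namespace Dat

variable {ρ} (D : Dat A ρ)

theorem coord_eq {f f' : G × Fin n → K} (h : ∑ s ∈ D.S, f s • bb ρ s = ∑ s ∈ D.S, f' s • bb ρ s) :
    ∀ s ∈ D.S, f s = f' s := by
  intro s hs
  have h1 : ∑ i ∈ D.S, (f - f') i • bb ρ i = 0 := by
    simp only [Pi.sub_apply, sub_smul]
    rw [Finset.sum_sub_distrib, h, sub_self]
  exact sub_eq_zero.1 (D.hind _ h1 s hs)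

/-- Coordinates of a generator. -/
def vc (j : G × Fin n) : D.S → A := fun i => D.c j i

/-- The matrix of `g`. -/
def matT (g : G) : Matrix D.S D.S A := Matrix.of fun i j => D.c (act g j) i

theorem vc_self {j : G × Fin n} (hj : j ∈ D.S) : D.vc j = Pi.single ⟨j, hj⟩ 1 := by
  classical
  have h1 : ∑ s ∈ D.S, ((D.c j s : A) : K) • bb ρ s = ∑ s ∈ D.S, (if s = j then (1 : K) else 0) • bb ρ s := by
    rw [← D.hc j, Finset.sum_eq_single j]
    · simp
    · intro s _ hs
      simp [hs]
    · intro h
      exact absurd hj h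
  ext i
  have h2 := D.coord_eq h1 i i.2
  by_cases hij : i = ⟨j, hj⟩
  · subst hij
    simp only [vc, Pi.single_eq_same]
    simpa using h2
  · have hne : (i : G × Fin n) ≠ j := fun h => hij (Subtype.ext h)
    simp only [vc, Pi.single_eq_of_ne hij]
    simpa [hne] using h2

theorem matT_mulVec (g : G) (h : G × Fin n) : D.matT g *ᵥ D.vc h = D.vc (act g h) := by
  classical
  have h1 : bb ρ (act g h) = ∑ i ∈ D.S, (∑ t : D.S, ((D.c (act g t) i : A) : K) * ((D.c h t : A) : K)) • bb ρ i := by
    rw [← rho_bb]
    conv_lhs => rw [D.hc h]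
    rw [map_sum, ← Finset.sum_coe_sort D.S]
    simp_rw [Finset.sum_smul]
    rw [Finset.sum_comm]
    refine Finset.sum_congr rfl fun t _ => ?_
    rw [map_smul, rho_bb, D.hc (act g t), Finset.smul_sum]
    refine Finset.sum_congr rfl fun i _ => ?_
    rw [smul_smul, mul_comm]
  have h3 : ∑ s ∈ D.S, ((D.c (act g h) s : A) : K) • bb ρ s =
      ∑ i ∈ D.S, (∑ t : D.S, ((D.c (act g t) i : A) : K) * ((D.c h t : A) : K)) • bb ρ i := by
    rw [← D.hc, h1]
  ext i
  have h4 := D.coord_eq h3 i i.2
  show ((∑ t : D.S, D.c (act g t) i * D.c h t : A) : K) = ((D.c (act g h) i : A) : K)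
  rw [h4]
  push_cast
  rfl

theorem matT_mul (g h : G) : D.matT (g * h) = D.matT g * D.matT h := by
  ext i j
  have h1 := congrFun (D.matT_mulVec g (act h j)) i
  rw [act_mul] at h1
  show ((D.vc (act (g * h) j) i : A) : K) = _
  rw [← h1]
  rfl

theorem matT_one : D.matT 1 = 1 := by
  classical
  ext i j
  have h1 : D.matT 1 i j = D.vc j i := by
    show D.c (act 1 (j : G × Fin n)) i = D.c j i
    rw [act_one]
  rw [h1, D.vc_self j.2]
  by_cases hij : i = j
  · subst hij
    simp
  · simp [Matrix.one_apply_ne hij, Pi.single_eq_of_ne hij]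

/-- The representation as a monoid hom. -/
def repT : G →* Matrix D.S D.S A where
  toFun := D.matT
  map_one' := D.matT_one
  map_mul' := D.matT_mul

theorem repT_apply (g : G) : D.repT g = D.matT g := rfl

theorem card_le : D.S.card ≤ n := by
  classical
  have h1 : LinearIndependent K (fun s : D.S => bb ρ s) := by
    rw [Fintype.linearIndependent_iff]
    intro f hf i
    let f' : G × Fin n → K := fun j => if h : j ∈ D.S then f ⟨j, h⟩ else 0
    have h2 : ∑ j ∈ D.S, f' j • bb ρ j = 0 := by
      rw [← Finset.sum_coe_sort D.S]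
      rw [← hf]
      refine Finset.sum_congr rfl fun t _ => ?_
      simp [f']
    have h3 := D.hind f' h2 i i.2
    simpa [f'] using h3
  have h2 := h1.fintype_card_le_finrank
  simpa using h2

theorem rho_eq_one {g : G} (h : D.repT g = 1) : ρ g = 1 := by
  classical
  have h1 : ∀ j ∈ D.S, ρ g (bb ρ j) = bb ρ j := by
    intro j hj
    rw [rho_bb]
    conv_lhs => rw [D.hc (act g j)]
    conv_rhs => rw [D.hc j]
    refine Finset.sum_congr rfl fun s hs => ?_
    congr 2
    have h2 : D.repT g ⟨s, hs⟩ ⟨j, hj⟩ = (1 : Matrix D.S D.S A) ⟨s, hs⟩ ⟨j, hj⟩ := by rw [h]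
    have h3 : D.c (act g j) s = (1 : Matrix D.S D.S A) ⟨s, hs⟩ ⟨j, hj⟩ := h2
    have h4 := congrFun (D.vc_self hj) ⟨s, hs⟩
    have h5 : D.c j s = (Pi.single (⟨j, hj⟩ : D.S) 1 : D.S → A) ⟨s, hs⟩ := h4
    rw [h3, h5]
    by_cases hsj : s = j
    · subst hsj
      simp
    · have hne : (⟨s, hs⟩ : D.S) ≠ ⟨j, hj⟩ := fun hh => hsj (congrArg Subtype.val hh)
      rw [Matrix.one_apply_ne hne, Pi.single_eq_of_ne hne]
  have h2 : ∀ j, ρ g (bb ρ j) = bb ρ j := by
    intro j
    rw [D.hc j, map_sum]
    refine Finset.sum_congr rfl fun s hs => ?_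
    rw [map_smul, h1 s hs]
  refine LinearMap.pi_ext' fun i => ?_
  ext a
  have h3 := h2 (1, i)
  have h4 : ρ g (Pi.single i 1) = Pi.single i 1 := by simpa [bb] using h3
  simpa using congrFun h4 a

end Dat

end Lattice

section Red

variable {I : Type*} [Fintype I] [DecidableEq I]

theorem mapMatrix_of_red {M : Matrix I I A} (h : rdM M = 1) : (res A).mapMatrix M = 1 := by
  have h1 : rdM M = (Matrix.toLinAlgEquiv' (R := IsLocalRing.ResidueField A) (n := I)) ((res A).mapMatrix M) := rfl
  rw [h1] at h
  apply (Matrix.toLinAlgEquiv' (R := IsLocalRing.ResidueField A) (n := I)).injective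
  rw [h, map_one]

/-- An element of order prime to the residue characteristic in the kernel of the reduction. -/
theorem eq_one_of_red (T : G →* Matrix I I A) {g : G} (h : redRep T g = 1)
    (hr : ((orderOf g : ℕ) : IsLocalRing.ResidueField A) ≠ 0) : T g = 1 := by
  set r := orderOf g with hr'
  set M := T g with hM
  have h1 : (res A).mapMatrix M = 1 := mapMatrix_of_red h
  let U : Matrix I I A := ∑ i ∈ Finset.range r, M ^ i
  have h2 : (res A).mapMatrix U = (r : IsLocalRing.ResidueField A) • 1 := by
    simp only [U]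
    rw [map_sum]
    simp only [map_pow, h1, one_pow]
    simp [Nat.cast_smul_eq_nsmul]
  have h3 : IsUnit U := by
    rw [Matrix.isUnit_iff_isUnit_det]
    have h4 : res A U.det = ((r : IsLocalRing.ResidueField A) • (1 : Matrix I I _)).det := by
      rw [← h2, RingHom.map_det]
    rw [Matrix.det_smul, Matrix.det_one, mul_one] at h4
    by_contra hcon
    have h5 : res A U.det = 0 := res_eq_zero_iff.2 hcon
    rw [h5] at h4
    exact pow_ne_zero _ hr h4.symm
  have h4 : U * (M - 1) = 0 := by
    simp only [U]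
    rw [geom_sum_mul, ← map_pow, hr', pow_orderOf_eq_one, map_one, sub_self]
  have h5 : M - 1 = 0 := by
    obtain ⟨u, hu⟩ := h3
    calc M - 1 = ((u⁻¹ : (Matrix I I A)ˣ) : Matrix I I A) * (U * (M - 1)) := by
          rw [← hu, ← mul_assoc]
          simp
      _ = 0 := by rw [h4, mul_zero]
  exact sub_eq_zero.1 h5

end Red

end Cfsg.Agent.Lib.BLat
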