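import Mathlib
import Cfsg.Agent.Lib.BEndo
import Cfsg.Agent.Lib.BLat
import Cfsg.Agent.Lib.RangeChar
import Cfsg.Agent.Lib.BlockVal
import Cfsg.Agent.Lib.CharBasic
import Cfsg.Agent.Lib.CharKernel

/-!
# Faithful representations of groups with a Sylow subgroup of prime order

`x` of order `p`.  The exponents `c` with `x` conjugate to `x ^ c` form a subgroup of `(ZMod p)ˣ` of order at most the degree
of any complex representation nontrivial on `x`.
-/

set_option autoImplicit false
set_option linter.style.haveILetI false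
set_option linter.unusedSectionVars false
set_option linter.unusedVariables false

namespace Cfsg.Agent.Lib.BFaith

open Subgroup Module Cfsg Cfsg.Agent.Lib.BLat Cfsg.Agent.Lib.BEndo Cfsg.Agent.Lib.RangeLat

variable {G : Type*} [Group G] {p : ℕ} [hp : Fact p.Prime]

/-- The group of exponents of conjugates of `x`. -/
def conjSub {x : G} (hx : x ^ p = 1) : Subgroup (ZMod p)ˣ where
  carrier := {c | ∃ g : G, g * x * g⁻¹ = x ^ (c : ZMod p).val}
  one_mem' := by
    refine ⟨1, ?_⟩
    haveI : Fact (1 < p) := ⟨hp.out.one_lt⟩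
    simp [ZMod.val_one]
  mul_mem' := by
    rintro a b ⟨g, hg⟩ ⟨h, hh⟩
    refine ⟨g * h, ?_⟩
    have h1 : g * h * x * (g * h)⁻¹ = g * (h * x * h⁻¹) * g⁻¹ := by group
    rw [h1, hh, ← conj_pow, hg, ← pow_mul, Units.val_mul, ZMod.val_mul, ← pow_eq_pow_mod _ hx]
  inv_mem' := by
    rintro a ⟨g, hg⟩
    refine ⟨g⁻¹, ?_⟩
    have h1 : x ^ ((a : ZMod p).val * ((a⁻¹ : (ZMod p)ˣ) : ZMod p).val) = x := by
      rw [pow_eq_pow_mod _ hx, ← ZMod.val_mul, ← Units.val_mul, mul_inv_cancel, Units.val_one]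
      haveI : Fact (1 < p) := ⟨hp.out.one_lt⟩
      simp [ZMod.val_one]
    have h2 : g * x ^ ((a⁻¹ : (ZMod p)ˣ) : ZMod p).val * g⁻¹ = x := by
      rw [← conj_pow, hg, ← pow_mul, h1]
    rw [inv_inv]
    rw [eq_comm]
    calc x ^ ((a⁻¹ : (ZMod p)ˣ) : ZMod p).val = g⁻¹ * (g * x ^ ((a⁻¹ : (ZMod p)ˣ) : ZMod p).val * g⁻¹) * g := by group
      _ = _ := by rw [h2]

theorem mem_conjSub {x : G} (hx : x ^ p = 1) {c : (ZMod p)ˣ} :
    c ∈ conjSub hx ↔ ∃ g : G, g * x * g⁻¹ = x ^ (c : ZMod p).val := Iff.rfl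

/-- Elements of the normalizer. -/
theorem exists_exponent [Finite G] {x : G} (hx : orderOf x = p) {n : G} (hn : n ∈ normalizer (zpowers x : Set G)) :
    ∃ c₀ : (ZMod p)ˣ, n * x * n⁻¹ = x ^ (c₀ : ZMod p).val := by
  have hxp : x ^ p = 1 := by rw [← hx, pow_orderOf_eq_one]
  have h1 : n * x * n⁻¹ ∈ zpowers x := (mem_normalizer_iff.1 hn x).1 (mem_zpowers x)
  have hfin : IsOfFinOrder x := isOfFinOrder_of_finite x
  obtain ⟨j, hj⟩ := hfin.mem_powers_iff_mem_zpowers.2 h1
  simp only at hj
  have hj0 : (j : ZMod p) ≠ 0 := by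
    intro h
    rw [ZMod.natCast_eq_zero_iff] at h
    obtain ⟨l, rfl⟩ := h
    rw [pow_mul, hxp, one_pow] at hj
    have h2 : x = 1 := by
      have h3 : n⁻¹ * (n * x * n⁻¹) * n = x := by group
      rw [← hj] at h3
      simpa using h3.symm
    rw [h2, orderOf_one] at hx
    exact hp.out.one_lt.ne hx
  refine ⟨Units.mk0 (j : ZMod p) hj0, ?_⟩
  rw [Units.val_mk0, ZMod.val_natCast, ← pow_eq_pow_mod _ hxp, hj]

section Eigen

variable {n : ℕ}

theorem exists_root_eigen (ρ : G →* Module.End ℂ (Fin n → ℂ)) {x : G} (hx : x ^ p = 1) (hne : ρ x ≠ 1) :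
    ∃ (μ : ℂ) (v : Fin n → ℂ), v ≠ 0 ∧ ρ x v = μ • v ∧ μ ≠ 1 ∧ μ ^ p = 1 := by
  set R := ρ x with hR
  let U : Submodule ℂ (Fin n → ℂ) := LinearMap.range (R - 1)
  have hU : ∀ w ∈ U, R w ∈ U := by
    rintro _ ⟨w, rfl⟩
    refine ⟨R w, ?_⟩
    simp
  have hnt : Nontrivial U := by
    have hne' : R - 1 ≠ 0 := sub_ne_zero.2 hne
    obtain ⟨w, hw⟩ : ∃ w, (R - 1) w ≠ 0 := by
      by_contra hcon
      push Not at hcon
      exact hne' (LinearMap.ext hcon)
    exact ⟨⟨⟨(R - 1) w, w, rfl⟩, 0, fun h => hw (congrArg Subtype.val h)⟩⟩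
  obtain ⟨μ, hμ⟩ := Module.End.exists_eigenvalue (R.restrict hU)
  obtain ⟨⟨v, hvU⟩, hv⟩ := hμ.exists_hasEigenvector
  have h1 : R v = μ • v := by
    have := congrArg Subtype.val hv.apply_eq_smul
    simpa using this
  have hv0 : v ≠ 0 := by
    have := hv.2
    intro h
    apply this
    exact Subtype.ext h
  obtain ⟨w, rfl⟩ := hvU
  have h2 : ∀ i : ℕ, (R ^ i) ((R - 1) w) = μ ^ i • ((R - 1) w) := by
    intro i
    induction i with
    | zero => simp
    | succ i ih =>
      rw [pow_succ, Module.End.mul_apply, h1, map_smul, ih, smul_smul, pow_succ, mul_comm (μ ^ i)]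
  have h3 : (∑ i ∈ Finset.range p, R ^ i) * (R - 1) = 0 := by
    rw [geom_sum_mul, hR, ← map_pow, hx, map_one, sub_self]
  have h4 : (∑ i ∈ Finset.range p, μ ^ i) • ((R - 1) w) = 0 := by
    have := congrArg (fun B : Module.End ℂ (Fin n → ℂ) => B w) h3
    simp only [Module.End.mul_apply, LinearMap.sum_apply, h2] at this
    rw [Finset.sum_smul]
    simpa using this
  have h5 : ∑ i ∈ Finset.range p, μ ^ i = 0 := by
    rcases smul_eq_zero.1 h4 with h | h
    · exact h
    · exact absurd h hv0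
  refine ⟨μ, (R - 1) w, hv0, h1, ?_, ?_⟩
  · rintro rfl
    simp only [one_pow, Finset.sum_const, Finset.card_range, nsmul_eq_mul, mul_one] at h5
    exact (hp.out.ne_zero) (by exact_mod_cast h5)
  · have h6 := geom_sum_mul μ p
    rw [h5, zero_mul] at h6
    exact (sub_eq_zero.1 h6.symm)

/-- The exponents are bounded by the degree. -/
theorem card_conjSub_le [Finite G] (ρ : G →* Module.End ℂ (Fin n → ℂ)) {x : G} (hx : x ^ p = 1) (hne : ρ x ≠ 1) :
    Nat.card (conjSub hx) ≤ n := by
  classical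
  obtain ⟨μ, v, hv0, h1, hμ1, hμp⟩ := exists_root_eigen ρ hx hne
  have hord : orderOf μ = p := orderOf_eq_prime hμp hμ1
  have hμ0 : μ ≠ 0 := by
    rintro rfl
    rw [zero_pow hp.out.ne_zero] at hμp
    exact zero_ne_one hμp
  choose g hg using fun c : conjSub hx => c.2
  let μs : conjSub hx → ℂ := fun c => μ ^ ((c : (ZMod p)ˣ) : ZMod p).val
  have hinj : Function.Injective μs := by
    intro c c' h
    have h2 : IsPrimitiveRoot μ p := hord ▸ IsPrimitiveRoot.orderOf μ
    have h3 := h2.pow_inj (ZMod.val_lt _) (ZMod.val_lt _) h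
    exact Subtype.ext (Units.ext (ZMod.val_injective p h3))
  let vs : conjSub hx → (Fin n → ℂ) := fun c => ρ (g c)⁻¹ v
  have hvs : ∀ c, (ρ x).HasEigenvector (μs c) (vs c) := by
    intro c
    refine ⟨?_, ?_⟩
    · rw [Module.End.mem_eigenspace_iff]
      have h2 : x * (g c)⁻¹ = (g c)⁻¹ * (g c * x * (g c)⁻¹) := by group
      simp only [vs, μs]
      rw [← Module.End.mul_apply, ← map_mul, h2, hg c, map_mul, map_pow, Module.End.mul_apply]
      have h3 : ∀ i : ℕ, (ρ x ^ i) v = μ ^ i • v := by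
        intro i
        induction i with
        | zero => simp
        | succ i ih =>
          rw [pow_succ, Module.End.mul_apply, h1, map_smul, ih, smul_smul, pow_succ, mul_comm (μ ^ i)]
      rw [h3, map_smul]
    · intro h
      apply hv0
      have h2 : ρ (g c) (ρ (g c)⁻¹ v) = v := by
        rw [← Module.End.mul_apply, ← map_mul, mul_inv_cancel, map_one, Module.End.one_apply]
      simp only [vs] at h
      rw [← h2, h, map_zero]
  have h2 := Module.End.eigenvectors_linearIndependent' (ρ x) μs hinj vs hvs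
  haveI : Fintype (conjSub hx) := Fintype.ofFinite _
  have h3 := h2.fintype_card_le_finrank
  rw [Nat.card_eq_fintype_card]
  simpa using h3

end Eigen

section Main

variable [Fintype G] [DecidableEq G]

/-- **Faithful representations of low degree**: in the main case the Sylow subgroup is normal. -/
theorem normal_of_low_degree {n : ℕ} (ρ : G →* Module.End ℂ (Fin n → ℂ)) (hρ : ∀ g, ρ g = 1 → g = 1)
    {x : G} (hx : orderOf x = p) (hidx : ¬ p ∣ (zpowers x).index)
    (hnn : ∀ H : Subgroup G, H.Normal → Nat.card H ≠ p) (hn : 2 * n + 1 < p) : False := by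
  classical
  have hxp : x ^ p = 1 := by rw [← hx, pow_orderOf_eq_one]
  have hx1 : x ≠ 1 := by
    rintro rfl
    rw [orderOf_one] at hx
    exact hp.out.one_lt.ne hx
  have hne : ρ x ≠ 1 := fun h => hx1 (hρ x h)
  obtain ⟨M, hM⟩ := Cfsg.Agent.Lib.BlockVal.exists_isPModular hp.out
  obtain ⟨A, hA⟩ := Cfsg.Agent.Lib.RangeChar.exists_dom hM
  haveI : CharP (IsLocalRing.ResidueField A) p := hA.charP hM
  obtain ⟨D⟩ := nonempty_dat (A := A) ρ
  have hcardG : Nat.card G = p * (zpowers x).index := by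
    rw [← Subgroup.card_mul_index (zpowers x), Nat.card_zpowers, hx]
  -- the reduction is faithful
  have hker : ∀ g, redRep D.repT g = 1 → g ^ p = 1 := by
    intro g hg
    have hmod : ¬ p ∣ orderOf (g ^ p) := by
      intro hdvd
      have h1 : orderOf (g ^ p) ∣ (zpowers x).index := by
        apply orderOf_dvd_of_pow_eq_one
        rw [← pow_mul, ← hcardG, pow_card_eq_one']
      exact hidx (hdvd.trans h1)
    have h1 : redRep D.repT (g ^ p) = 1 := by
      rw [map_pow, hg, one_pow]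
    have h2 : ((orderOf (g ^ p) : ℕ) : IsLocalRing.ResidueField A) ≠ 0 := by
      rw [Ne, CharP.cast_eq_zero_iff (IsLocalRing.ResidueField A) p]
      exact hmod
    exact hρ _ (D.rho_eq_one (eq_one_of_red D.repT h1 h2))
  have hinj : Function.Injective (redRep D.repT) := by
    rw [injective_iff_map_eq_one]
    intro g hg
    by_contra hg1
    let K := (redRep D.repT).ker
    have hKp : IsPGroup p K := by
      intro a
      refine ⟨1, ?_⟩
      apply Subtype.ext
      simpa using hker a a.2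
    obtain ⟨a, ha⟩ := IsPGroup.iff_card.1 hKp
    have hdvd : p ^ a ∣ Nat.card G := by
      rw [← ha]
      exact Subgroup.card_subgroup_dvd_card K
    have hgK : g ∈ K := hg
    have ha0 : a ≠ 0 := by
      rintro rfl
      have h1 : Nat.card K = 1 := by simpa using ha
      have h2 := Subgroup.eq_bot_of_card_eq K h1
      rw [h2, Subgroup.mem_bot] at hgK
      exact hg1 hgK
    have ha1 : a = 1 := by
      by_contra hne1
      have h2 : a ≥ 2 := by omega
      have h3 : p ^ 2 ∣ Nat.card G := (pow_dvd_pow p h2).trans hdvd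
      rw [hcardG, sq] at h3
      exact hidx (Nat.dvd_of_mul_dvd_mul_left hp.out.pos h3)
    subst ha1
    exact hnn K inferInstance (by simpa using ha)
  -- apply the modular result
  have hcard : finrank (IsLocalRing.ResidueField A) (D.S → IsLocalRing.ResidueField A) ≤ n := by
    rw [Module.finrank_fintype_fun_eq_card, Fintype.card_coe]
    exact D.card_le
  have hcn := card_conjSub_le ρ hxp hne
  have he : 1 ≤ Nat.card (conjSub hxp) := Nat.card_pos
  have hN := normal_of_small (redRep D.repT) hinj hx hidx (by omega) (e := Nat.card (conjSub hxp)) he (by omega)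
    (by
      intro m hm
      obtain ⟨c₀, h1⟩ := exists_exponent hx hm
      refine ⟨c₀, h1, ?_⟩
      have h2 : c₀ ∈ conjSub hxp := ⟨m, h1⟩
      have h3 : (⟨c₀, h2⟩ : conjSub hxp) ^ Nat.card (conjSub hxp) = 1 := pow_card_eq_one'
      exact congrArg Subtype.val h3)
  exact hnn _ hN (by rw [Nat.card_zpowers, hx])

end Main

/-- The main statement. -/
theorem two_mul_deg_add_one {G : Type*} [Group G] [Finite G] (p : ℕ) (hp : p.Prime) (hdiv : p ∣ Nat.card G)
    (hsq : ¬ p ^ 2 ∣ Nat.card G) (hnn : ∀ H : Subgroup G, H.Normal → Nat.card H ≠ p) (χ : G → ℂ)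
    (hχ : Cfsg.IsCharacter G χ) (hfaith : ∀ g : G, χ g = χ 1 → g = 1) : p ≤ 2 * Cfsg.charDegree χ + 1 := by
  classical
  haveI : Fintype G := Fintype.ofFinite G
  haveI : Fact p.Prime := ⟨hp⟩
  obtain ⟨n, ρ, rfl⟩ := hχ
  have hdeg : Cfsg.charDegree ρ.character = n := by
    rw [Cfsg.charDegree, Cfsg.Agent.Lib.CharBasic.char_one_eq_rep]
    simp
  rw [hdeg]
  by_contra hcon
  push Not at hcon
  obtain ⟨x, hx⟩ := exists_prime_orderOf_dvd_card' p hdiv
  have hidx : ¬ p ∣ (zpowers x).index := by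
    intro h
    apply hsq
    rw [← Subgroup.card_mul_index (zpowers x), Nat.card_zpowers, hx, sq]
    exact mul_dvd_mul_left p h
  refine normal_of_low_degree (ρ : G →* Module.End ℂ (Fin n → ℂ)) (fun g hg => ?_) hx hidx hnn (by omega)
  apply hfaith
  have h1 : ρ g = ρ 1 := by rw [hg, map_one]
  simp [Representation.character, h1]

end Cfsg.Agent.Lib.BFaith
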