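import Mathlib
import Cfsg.Agent.Lib.CoprimeHyper

/-!
# A permutation lemma for a subgroup normalized by an element of prime order
-/

set_option autoImplicit false
set_option linter.unusedSectionVars false
set_option linter.unusedVariables false
set_option linter.style.haveILetI false
set_option linter.unusedSimpArgs false
set_option linter.unusedDecidableInType false
set_option linter.unusedFintypeInType false

namespace Cfsg.Agent.Lib.BGPerm

section

variable {Γ : Type*} [Group Γ] {Λ : Type*} [MulAction Γ Λ]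

/-- A power prime to the order fixes only what the element fixes. -/
theorem fix_of_pow_fix (y : Γ) {s : ℕ} (hs : s.Prime) (hys : y ^ s = 1) {j : ℕ} (hj : ¬ s ∣ j) {μ : Λ}
    (h : y ^ j • μ = μ) : y • μ = μ := by
  have hc : Nat.Coprime j s := ((Nat.Prime.coprime_iff_not_dvd hs).mpr hj).symm
  obtain ⟨k, _, hk⟩ := Nat.exists_mul_mod_eq_one_of_coprime hc hs.one_lt
  have h2 : (y ^ j) ^ k = y := by
    rw [← pow_mul]
    conv_rhs => rw [← pow_one y]
    rw [pow_eq_pow_mod (j * k) hys, hk]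
  have h3 : ∀ m : ℕ, (y ^ j) ^ m • μ = μ := by
    intro m
    induction m with
    | zero => simp
    | succ m ih => rw [pow_succ, mul_smul, h, ih]
  rw [← h2]
  exact h3 k

theorem pow_smul_ne (y : Γ) {s : ℕ} (hs : s.Prime) (hys : y ^ s = 1) {μ : Λ} (hμ : y • μ ≠ μ)
    {a b : ℕ} (hab : a < b) (hb : b < s) : y ^ a • μ ≠ y ^ b • μ := by
  intro h
  have h1 : y ^ (b - a) • μ = μ := by
    have : y ^ a • (y ^ (b - a) • μ) = y ^ a • μ := by
      rw [← mul_smul, ← pow_add, Nat.add_sub_cancel' hab.le, h]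
    exact (smul_left_cancel_iff _).mp this
  have hnd : ¬ s ∣ (b - a) := by
    intro hd
    have := Nat.le_of_dvd (by omega) hd
    omega
  exact hμ (fix_of_pow_fix y hs hys hnd h1)

theorem ncard_range_pow [Finite Λ] (y : Γ) {s : ℕ} (hs : s.Prime) (hys : y ^ s = 1) {μ : Λ} (hμ : y • μ ≠ μ) :
    (Set.range (fun i : Fin s => y ^ (i : ℕ) • μ)).ncard = s := by
  have hinj : Function.Injective (fun i : Fin s => y ^ (i : ℕ) • μ) := by
    intro a b hab
    by_contra hne
    have hne' : (a : ℕ) ≠ b := fun h => hne (Fin.ext h)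
    rcases lt_or_gt_of_ne hne' with h | h
    · exact pow_smul_ne y hs hys hμ h b.2 hab
    · exact pow_smul_ne y hs hys hμ h a.2 hab.symm
  rw [← Set.image_univ, Set.ncard_image_of_injective _ hinj, Set.ncard_univ, Nat.card_eq_fintype_card,
    Fintype.card_fin]

theorem pow_mem_range (y : Γ) {s : ℕ} (hs : s.Prime) (hys : y ^ s = 1) (μ : Λ) (i : ℕ) :
    y ^ i • μ ∈ Set.range (fun i : Fin s => y ^ (i : ℕ) • μ) := by
  refine ⟨⟨i % s, Nat.mod_lt _ hs.pos⟩, ?_⟩
  show y ^ (i % s) • μ = y ^ i • μ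
  rw [← pow_eq_pow_mod i hys]

/-- The main permutation lemma. -/
theorem perm_core [Finite Λ] (B : Subgroup Γ) [Finite B] (y : Γ) {s ℓ : ℕ} (hs : s.Prime) (hso : Odd s)
    (hys : y ^ s = 1) (hyB : ∀ b ∈ B, y * b * y⁻¹ ∈ B) (hℓ : ℓ.Prime) (hℓo : Odd ℓ) (hB : IsPGroup ℓ B) (hℓs : ℓ ≠ s)
    (hM : ∀ a b : Λ, y • a ≠ a → y • b ≠ b → ∃ i : ℕ, y ^ i • a = b) :
    ∀ b ∈ B, ∀ a : Λ, (b⁻¹ * (y * b * y⁻¹)) • a = a := by
  classical
  haveI : Fact ℓ.Prime := ⟨hℓ⟩
  haveI : Fact s.Prime := ⟨hs⟩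
  have hpowB : ∀ (j : ℕ), ∀ b ∈ B, y ^ j * b * (y ^ j)⁻¹ ∈ B := by
    intro j
    induction j with
    | zero => intro b hb; simpa using hb
    | succ j ih =>
      intro b hb
      have e : y ^ (j + 1) * b * (y ^ (j + 1))⁻¹ = y * (y ^ j * b * (y ^ j)⁻¹) * y⁻¹ := by
        rw [pow_succ']
        group
      rw [e]
      exact hyB _ (ih b hb)
  have hyinv : y⁻¹ = y ^ (s - 1) := by
    rw [inv_eq_iff_mul_eq_one, ← pow_succ', Nat.sub_add_cancel hs.pos, hys]
  have hinvB : ∀ (j : ℕ), ∀ b ∈ B, (y ^ j)⁻¹ * b * y ^ j ∈ B := by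
    intro j b hb
    have h1 : (y ^ j)⁻¹ = y ^ ((s - 1) * j) := by
      rw [pow_mul, ← hyinv, inv_pow]
    have h2 := hpowB ((s - 1) * j) b hb
    rw [← h1, inv_inv] at h2
    exact h2
  have hBodd : Odd (Nat.card B) := by
    obtain ⟨n, hn⟩ := IsPGroup.iff_card.mp hB
    rw [hn]
    exact hℓo.pow
  -- Step 1
  have step1 : ∀ a₀ : Λ, y • a₀ = a₀ → ∀ b ∈ B, y • (b • a₀) = b • a₀ := by
    intro a₀ ha₀ b₀ hb₀
    by_contra hmoved
    set μ₀ := b₀ • a₀ with hμ₀
    have hpowa : ∀ j : ℕ, y ^ j • a₀ = a₀ := by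
      intro j
      induction j with
      | zero => simp
      | succ j ih => rw [pow_succ, mul_smul, ha₀, ih]
    have hinva : ∀ j : ℕ, (y ^ j)⁻¹ • a₀ = a₀ := by
      intro j
      have := hpowa j
      rw [inv_smul_eq_iff, this]
    let X : Set Λ := {c | ∃ b ∈ B, b • a₀ = c}
    let C : Subgroup Γ :=
      { carrier := {b | b ∈ B ∧ y * b * y⁻¹ = b}
        one_mem' := ⟨B.one_mem, by simp⟩
        mul_mem' := by
          rintro a b ⟨ha, ha'⟩ ⟨hb, hb'⟩
          refine ⟨B.mul_mem ha hb, ?_⟩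
          have : y * (a * b) * y⁻¹ = (y * a * y⁻¹) * (y * b * y⁻¹) := by group
          rw [this, ha', hb']
        inv_mem' := by
          rintro a ⟨ha, ha'⟩
          refine ⟨B.inv_mem ha, ?_⟩
          have : y * a⁻¹ * y⁻¹ = (y * a * y⁻¹)⁻¹ := by group
          rw [this, ha'] }
    let F : Set Λ := {c | ∃ b ∈ C, b • a₀ = c}
    let Ω : Set Λ := Set.range (fun i : Fin s => y ^ (i : ℕ) • μ₀)
    have hS : ∀ (D : Subgroup Γ), D ≤ B → Odd ({c | ∃ b ∈ D, b • a₀ = c} : Set Λ).ncard := by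
      intro D hD
      haveI : Finite D := Finite.of_injective (Subgroup.inclusion hD) (Subgroup.inclusion_injective hD)
      have h1 : ({c | ∃ b ∈ D, b • a₀ = c} : Set Λ) = MulAction.orbit ↥D a₀ := by
        ext c
        constructor
        · rintro ⟨b, hb, rfl⟩
          exact ⟨⟨b, hb⟩, rfl⟩
        · rintro ⟨⟨b, hb⟩, rfl⟩
          exact ⟨b, hb, rfl⟩
      rw [h1]
      have h2 : (MulAction.orbit ↥D a₀).ncard = (MulAction.stabilizer ↥D a₀).index := by
        rw [MulAction.index_stabilizer]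
      rw [h2]
      have h3 : (MulAction.stabilizer ↥D a₀).index ∣ Nat.card B := by
        refine (Subgroup.index_dvd_card _).trans ?_
        exact Subgroup.card_dvd_of_le hD
      exact Odd.of_dvd_nat hBodd h3
    have hXodd : Odd X.ncard := hS B le_rfl
    have hFodd : Odd F.ncard := hS C (fun b hb => hb.1)
    have hΩ : Ω.ncard = s := ncard_range_pow y hs hys hmoved
    have hsub : ∀ (j : ℕ) (b : Γ), b ∈ B → y ^ j • (b • a₀) = (y ^ j * b * (y ^ j)⁻¹) • a₀ := by
      intro j b hb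
      rw [mul_smul, mul_smul, hinva]
    have hX : X = F ∪ Ω := by
      ext c
      constructor
      · rintro ⟨b, hb, rfl⟩
        by_cases hc : y • (b • a₀) = b • a₀
        · left
          -- a fixed point in the coset
          let Sb : Subgroup Γ := B ⊓ MulAction.stabilizer Γ a₀
          have hSbc : ¬ s ∣ Nat.card Sb := by
            intro hd
            have h1 : Nat.card Sb ∣ Nat.card B := Subgroup.card_dvd_of_le inf_le_left
            obtain ⟨n, hn⟩ := IsPGroup.iff_card.mp hB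
            rw [hn] at h1
            have h2 := hd.trans h1
            have h3 := (Nat.prime_dvd_prime_iff_eq hs hℓ).mp (hs.dvd_of_dvd_pow h2)
            exact hℓs h3.symm
          have hzp : IsPGroup s (Subgroup.zpowers y) := by
            intro t
            obtain ⟨t, ht⟩ := t
            obtain ⟨k, rfl⟩ := Subgroup.mem_zpowers_iff.mp ht
            refine ⟨1, ?_⟩
            apply Subtype.ext
            simp only [pow_one, Subgroup.coe_pow, Subgroup.coe_one]
            rw [← zpow_natCast, ← zpow_mul, mul_comm, zpow_mul, zpow_natCast, hys, one_zpow]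
          have hnat : ∀ t ∈ Subgroup.zpowers y, ∃ j : ℕ, t = y ^ j := by
            intro t ht
            have hfin : IsOfFinOrder y := isOfFinOrder_iff_pow_eq_one.mpr ⟨s, hs.pos, hys⟩
            obtain ⟨n, rfl⟩ := Submonoid.mem_powers_iff _ _ |>.mp (hfin.mem_powers_iff_mem_zpowers.mpr ht)
            exact ⟨n, rfl⟩
          have hbfix : ∀ j : ℕ, y ^ j • (b • a₀) = b • a₀ := by
            intro j
            induction j with
            | zero => simp
            | succ j ih => rw [pow_succ, mul_smul, hc, ih]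
          obtain ⟨u, hu, hfix⟩ := Cfsg.Agent.Lib.CoprimeHyper.exists_fixed_in_coset (p := s)
            (Subgroup.zpowers y) Sb hzp hSbc (by
              intro t ht k hk
              obtain ⟨j, rfl⟩ := hnat t ht
              refine ⟨hpowB j k hk.1, ?_⟩
              have h1 : k • a₀ = a₀ := hk.2
              show (y ^ j * k * (y ^ j)⁻¹) • a₀ = a₀
              rw [mul_smul, mul_smul, hinva, h1, hpowa]) b (by
              intro t ht
              obtain ⟨j, rfl⟩ := hnat t ht
              refine ⟨B.mul_mem (B.inv_mem hb) (hpowB j b hb), ?_⟩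
              show (b⁻¹ * (y ^ j * b * (y ^ j)⁻¹)) • a₀ = a₀
              rw [mul_smul, ← hsub j b hb, hbfix, inv_smul_smul])
          have hu' : u • a₀ = a₀ := hu.2
          refine ⟨b * u, ⟨B.mul_mem hb hu.1, hfix y (Subgroup.mem_zpowers y)⟩, ?_⟩
          rw [mul_smul, hu']
        · right
          obtain ⟨i, hi⟩ := hM μ₀ (b • a₀) hmoved hc
          rw [← hi]
          exact pow_mem_range y hs hys μ₀ i
      · rintro (⟨b, hb, rfl⟩ | ⟨i, rfl⟩)
        · exact ⟨b, hb.1, rfl⟩
        · refine ⟨y ^ (i : ℕ) * b₀ * (y ^ (i : ℕ))⁻¹, hpowB _ _ hb₀, ?_⟩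
          exact (hsub _ b₀ hb₀).symm
    have hdisj : Disjoint F Ω := by
      rw [Set.disjoint_left]
      rintro c ⟨b, hb, rfl⟩ ⟨i, hi⟩
      have h1 : y • (b • a₀) = b • a₀ := by
        have e : y • (b • a₀) = (y * b * y⁻¹) • (y • a₀) := by
          rw [mul_smul, mul_smul, inv_smul_smul]
        rw [e, ha₀, hb.2]
      have hi' : y ^ (i : ℕ) • μ₀ = b • a₀ := hi
      apply hmoved
      have h2 : y ^ (i : ℕ) • (y • μ₀) = y ^ (i : ℕ) • μ₀ := by
        rw [← mul_smul, ← pow_succ, pow_succ', mul_smul, hi', h1]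
      exact (smul_left_cancel_iff _).mp h2
    have hcard : X.ncard = F.ncard + s := by
      rw [hX, Set.ncard_union_eq hdisj (Set.toFinite _) (Set.toFinite _), hΩ]
    obtain ⟨m₁, hm₁⟩ := hXodd
    obtain ⟨m₂, hm₂⟩ := hFodd
    obtain ⟨m₃, hm₃⟩ := hso
    omega
  -- Step 2
  have step2 : ∀ μ : Λ, y • μ ≠ μ → ∀ b ∈ B, y • (b • μ) ≠ b • μ := by
    intro μ hμ b hb h
    have := step1 (b • μ) h b⁻¹ (B.inv_mem hb)
    rw [inv_smul_smul] at this
    exact hμ this
  -- Step 3
  have step3 : ∀ μ : Λ, y • μ ≠ μ → ∀ b ∈ B, b • μ = μ := by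
    intro μ₀ hμ₀
    let Mov : SubMulAction ↥B Λ :=
      { carrier := {μ | y • μ ≠ μ}
        smul_mem' := by
          rintro ⟨b, hb⟩ μ hμ
          exact step2 μ hμ b hb }
    have hcardMov : Nat.card Mov = s := by
      have h1 : Set.range (fun i : Fin s => y ^ (i : ℕ) • μ₀) = (Mov : Set Λ) := by
        ext μ
        constructor
        · rintro ⟨i, rfl⟩
          intro h
          have h2 : y ^ (i : ℕ) • (y • μ₀) = y ^ (i : ℕ) • μ₀ := by
            rw [← mul_smul, ← pow_succ, pow_succ', mul_smul, h]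
          exact hμ₀ ((smul_left_cancel_iff _).mp h2)
        · intro hμ
          obtain ⟨i, hi⟩ := hM μ₀ μ hμ₀ hμ
          rw [← hi]
          exact pow_mem_range y hs hys μ₀ i
      have h2 := ncard_range_pow y hs hys hμ₀
      rw [h1] at h2
      rw [← h2]
      exact Nat.card_coe_set_eq _
    haveI : Finite Mov := Subtype.finite
    have hfp := hB.card_modEq_card_fixedPoints (α := Mov)
    rw [hcardMov] at hfp
    have hne : Nat.card (MulAction.fixedPoints ↥B Mov) ≠ 0 := by
      intro h0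
      rw [h0] at hfp
      have h1 : ℓ ∣ s := (Nat.modEq_zero_iff_dvd).mp hfp
      exact hℓs ((Nat.prime_dvd_prime_iff_eq hℓ hs).mp h1)
    haveI : Nonempty (MulAction.fixedPoints ↥B Mov) := by
      by_contra hcon
      rw [not_nonempty_iff] at hcon
      exact hne Nat.card_of_isEmpty
    obtain ⟨⟨⟨μ₁, hμ₁⟩, hfix⟩⟩ := this
    intro b hb
    obtain ⟨i, hi⟩ := hM μ₁ μ₀ hμ₁ hμ₀
    rw [← hi]
    have h3 := hfix ⟨(y ^ i)⁻¹ * b * y ^ i, hinvB i b hb⟩
    have h4 : ((y ^ i)⁻¹ * b * y ^ i) • μ₁ = μ₁ := congrArg Subtype.val h3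
    rw [mul_smul, mul_smul, inv_smul_eq_iff] at h4
    exact h4
  intro b hb a
  by_cases ha : y • a = a
  · have h1 : y⁻¹ • a = a := by
      rw [inv_smul_eq_iff, ha]
    rw [mul_smul, mul_smul, mul_smul, h1, step1 a ha b hb, inv_smul_smul]
  · exact step3 a ha _ (B.mul_mem (B.inv_mem hb) (hyB b hb))

end

end Cfsg.Agent.Lib.BGPerm
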