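import Mathlib
import Cfsg.Agent.Lib.BGWeight2
import Cfsg.Agent.Lib.BGPerm
import Cfsg.Agent.Lib.BGSymp

/-!
# Weights of an abelian group of operators, with the action of operators normalizing it
-/

set_option autoImplicit false
set_option linter.unusedSectionVars false
set_option linter.unusedVariables false
set_option linter.style.haveILetI false
set_option linter.unusedSimpArgs false
set_option linter.unusedDecidableInType false
set_option linter.unusedFintypeInType false

namespace Cfsg.Agent.Lib.BGAb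

open Module Cfsg.Agent.Lib.BGWeight Cfsg.Agent.Lib.BGPerm

section Data

variable {K : Type*} [Field K] {V : Type*} [AddCommGroup V] [Module K V]

/-- An abelian group of operators with a group acting compatibly. -/
structure WData (K V W Γ : Type*) [Field K] [AddCommGroup V] [Module K V] [CommGroup W] [Group Γ] where
  φ : W →* (Module.End K V)ˣ
  π : Γ →* (Module.End K V)ˣ
  α : Γ →* MulAut W
  compat : ∀ g w, φ (α g w) = π g * φ w * (π g)⁻¹

variable {W Γ : Type*} [CommGroup W] [Group Γ] (D : WData K V W Γ)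

namespace WData

/-- The representation of `W`. -/
def rho : W →* Module.End K V := (Units.coeHom _).comp D.φ

theorem rho_apply (w : W) : D.rho w = (D.φ w : Module.End K V) := rfl

/-- The action on characters. -/
def act (g : Γ) (ψ : W →* Kˣ) : W →* Kˣ := ψ.comp ((D.α g⁻¹ : MulAut W).toMonoidHom)

theorem act_apply (g : Γ) (ψ : W →* Kˣ) (w : W) : D.act g ψ w = ψ (D.α g⁻¹ w) := rfl

theorem act_one (ψ : W →* Kˣ) : D.act 1 ψ = ψ := by
  ext w
  simp [act_apply]

theorem act_mul (g h : Γ) (ψ : W →* Kˣ) : D.act (g * h) ψ = D.act g (D.act h ψ) := by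
  ext w
  simp [act_apply, mul_inv_rev, map_mul]

/-- The action as a `MulAction`. -/
@[reducible] def mulAct : MulAction Γ (W →* Kˣ) where
  smul := D.act
  one_smul := D.act_one
  mul_smul := D.act_mul

theorem map_wsp (g : Γ) {ψ : W →* Kˣ} {v : V} (hv : v ∈ wsp D.rho ψ) :
    (D.π g : Module.End K V) v ∈ wsp D.rho (D.act g ψ) := by
  intro w
  have h1 := D.compat g (D.α g⁻¹ w)
  have h2 : D.α g (D.α g⁻¹ w) = w := by
    rw [← MulAut.mul_apply, ← map_mul]
    simp
  rw [h2] at h1
  have h3 : (D.φ w : Module.End K V) * (D.π g : Module.End K V) =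
      (D.π g : Module.End K V) * (D.φ (D.α g⁻¹ w) : Module.End K V) := by
    rw [h1]
    simp [mul_assoc]
  have h4 := LinearMap.congr_fun h3 v
  simp only [Module.End.mul_apply] at h4
  rw [rho_apply, h4, act_apply, ← map_smul]
  congr 1
  exact hv (D.α g⁻¹ w)

theorem wsp_act_ne_bot (g : Γ) {ψ : W →* Kˣ} (h : wsp D.rho ψ ≠ ⊥) : wsp D.rho (D.act g ψ) ≠ ⊥ := by
  obtain ⟨v, hv, hv0⟩ := Submodule.exists_mem_ne_zero_of_ne_bot h
  intro h2
  have h3 := D.map_wsp g hv
  rw [h2, Submodule.mem_bot] at h3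
  have h4 : ((D.π g)⁻¹ : (Module.End K V)ˣ).val ((D.π g : Module.End K V) v) = v :=
    LinearMap.congr_fun (Units.inv_mul (D.π g)) v
  rw [h3, map_zero] at h4
  exact hv0 h4.symm

theorem act_pow_smul (y : Γ) (j : ℕ) {ψ : W →* Kˣ} {v : V} (hv : v ∈ wsp D.rho ψ) :
    ((D.π y : Module.End K V) ^ j) v ∈ wsp D.rho (D.act (y ^ j) ψ) := by
  have : ((D.π y : Module.End K V) ^ j) = (D.π (y ^ j) : Module.End K V) := by
    simp
  rw [this]
  exact D.map_wsp _ hv

/-- The norm operator of an element. -/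
noncomputable def nrm (y : Γ) (s : ℕ) : Module.End K V :=
  ∑ i ∈ Finset.range s, (D.π y : Module.End K V) ^ i

theorem nrm_mem (y : Γ) {s : ℕ} (hs : 0 < s) (hys : y ^ s = 1) (v : V) :
    D.nrm y s v ∈ LinearMap.ker ((D.π y : Module.End K V) - 1) := by
  rw [LinearMap.mem_ker, LinearMap.sub_apply, sub_eq_zero, Module.End.one_apply]
  have h1 : (D.π y : Module.End K V) ^ s = 1 := by
    have : ((D.π y) ^ s : (Module.End K V)ˣ) = 1 := by
      rw [← map_pow, hys, map_one]
    simpa using congrArg Units.val this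
  have h2 : (D.π y : Module.End K V) * D.nrm y s = D.nrm y s := by
    unfold nrm
    rw [Finset.mul_sum]
    simp_rw [← pow_succ']
    have e1 := Finset.sum_range_succ (fun i => (D.π y : Module.End K V) ^ i) s
    have e2 := Finset.sum_range_succ' (fun i => (D.π y : Module.End K V) ^ i) s
    rw [e1, h1, pow_zero] at e2
    exact (add_right_cancel e2).symm
  exact LinearMap.congr_fun h2 v

variable [IsAlgClosed K] [Finite W]

open Classical in
/-- The projector applied to the orbit sum. -/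
theorem eproj_nrm [Fintype W] (hW : (Nat.card W : K) ≠ 0) (y : Γ) (s : ℕ) (lam μ : W →* Kˣ) {v : V}
    (hv : v ∈ wsp D.rho μ) :
    eproj D.rho lam (D.nrm y s v) =
      ∑ i ∈ Finset.range s, if lam = D.act (y ^ i) μ then ((D.π y : Module.End K V) ^ i) v else 0 := by
  have hW' : (Fintype.card W : K) ≠ 0 := by rwa [← Nat.card_eq_fintype_card]
  unfold nrm
  rw [LinearMap.sum_apply, map_sum]
  refine Finset.sum_congr rfl ?_
  intro i _
  exact eproj_of_mem hW' D.rho lam _ (D.act_pow_smul y i hv)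

theorem act_pow_ne (y : Γ) {s : ℕ} (hs : s.Prime) (hys : y ^ s = 1) {μ : W →* Kˣ} (hμ : D.act y μ ≠ μ)
    {j : ℕ} (hj : ¬ s ∣ j) : D.act (y ^ j) μ ≠ μ := by
  letI := D.mulAct (K := K)
  intro h
  exact hμ (fix_of_pow_fix (Λ := W →* Kˣ) y hs hys hj h)

/-- The orbit sum recovers a vector of a moved weight. -/
theorem eproj_nrm_self [Fintype W] (hW : (Nat.card W : K) ≠ 0) (y : Γ) {s : ℕ} (hs : s.Prime) (hys : y ^ s = 1)
    {μ : W →* Kˣ} (hμ : D.act y μ ≠ μ) {v : V} (hv : v ∈ wsp D.rho μ) :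
    eproj D.rho μ (D.nrm y s v) = v := by
  classical
  rw [D.eproj_nrm hW y s μ μ hv]
  rw [Finset.sum_eq_single 0]
  · simp [act_one]
  · intro i hi hi0
    rw [if_neg]
    intro h
    have hnd : ¬ s ∣ i := by
      intro hd
      have h1 := Nat.le_of_dvd (Nat.pos_of_ne_zero hi0) hd
      have h2 := Finset.mem_range.mp hi
      omega
    exact D.act_pow_ne y hs hys hμ hnd h.symm
  · intro h
    exact absurd (Finset.mem_range.mpr hs.pos) h

/-- The orbit sum misses the weights outside the orbit. -/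
theorem eproj_nrm_other [Fintype W] (hW : (Nat.card W : K) ≠ 0) (y : Γ) (s : ℕ)
    {μ lam : W →* Kˣ} (hne : ∀ i : ℕ, D.act (y ^ i) μ ≠ lam) {v : V} (hv : v ∈ wsp D.rho μ) :
    eproj D.rho lam (D.nrm y s v) = 0 := by
  classical
  rw [D.eproj_nrm hW y s lam μ hv]
  refine Finset.sum_eq_zero ?_
  intro i _
  rw [if_neg]
  exact fun h => hne i h.symm

/-- A moved weight space injects into the fixed space. -/
theorem finrank_wsp_le [FiniteDimensional K V] (hW : (Nat.card W : K) ≠ 0) (y : Γ) {s : ℕ} (hs : s.Prime) (hys : y ^ s = 1)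
    {μ : W →* Kˣ} (hμ : D.act y μ ≠ μ) :
    finrank K (wsp D.rho μ) ≤ finrank K (LinearMap.ker ((D.π y : Module.End K V) - 1)) := by
  classical
  haveI := Fintype.ofFinite W
  let L : wsp D.rho μ →ₗ[K] LinearMap.ker ((D.π y : Module.End K V) - 1) :=
    LinearMap.codRestrict _ ((D.nrm y s).comp (wsp D.rho μ).subtype)
      (fun v => D.nrm_mem y hs.pos hys v.1)
  apply LinearMap.finrank_le_finrank_of_injective (f := L)
  rw [injective_iff_map_eq_zero]
  rintro ⟨v, hv⟩ h0
  have h1 : D.nrm y s v = 0 := congrArg Subtype.val h0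
  have h2 := D.eproj_nrm_self hW y hs hys hμ hv
  rw [h1, map_zero] at h2
  exact Subtype.ext h2.symm

/-- All moved weights with nonzero weight spaces lie in one orbit when the fixed space is small. -/
theorem moved_single [FiniteDimensional K V] (hW : (Nat.card W : K) ≠ 0) (y : Γ) {s : ℕ} (hs : s.Prime) (hys : y ^ s = 1)
    (hF : finrank K (LinearMap.ker ((D.π y : Module.End K V) - 1)) ≤ 1)
    {a b : W →* Kˣ} (ha : wsp D.rho a ≠ ⊥) (hb : wsp D.rho b ≠ ⊥) (hma : D.act y a ≠ a) (hmb : D.act y b ≠ b) :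
    ∃ i : ℕ, D.act (y ^ i) a = b := by
  classical
  haveI := Fintype.ofFinite W
  by_contra hcon
  push Not at hcon
  have hcon2 : ∀ i : ℕ, D.act (y ^ i) b ≠ a := by
    intro i h
    apply hcon ((s - 1) * i)
    have hinv : y ^ ((s - 1) * i) = (y ^ i)⁻¹ := by
      have h1 : y⁻¹ = y ^ (s - 1) := by
        rw [inv_eq_iff_mul_eq_one, ← pow_succ', Nat.sub_add_cancel hs.pos, hys]
      rw [pow_mul, ← h1, inv_pow]
    rw [hinv, ← h, ← act_mul, inv_mul_cancel, act_one]
  obtain ⟨v, hv, hv0⟩ := Submodule.exists_mem_ne_zero_of_ne_bot ha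
  obtain ⟨v', hv', hv0'⟩ := Submodule.exists_mem_ne_zero_of_ne_bot hb
  obtain ⟨u, hu⟩ := finrank_le_one_iff.mp hF
  obtain ⟨c, hc⟩ := hu ⟨D.nrm y s v, D.nrm_mem y hs.pos hys v⟩
  obtain ⟨c', hc'⟩ := hu ⟨D.nrm y s v', D.nrm_mem y hs.pos hys v'⟩
  have hc1 : c • (u : V) = D.nrm y s v := congrArg Subtype.val hc
  have hc2 : c' • (u : V) = D.nrm y s v' := congrArg Subtype.val hc'
  have h1 := D.eproj_nrm_self hW y hs hys hma hv
  have h2 := D.eproj_nrm_other hW y s hcon2 hv'
  have h3 := D.eproj_nrm_self hW y hs hys hmb hv'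
  have h4 := D.eproj_nrm_other hW y s hcon hv
  rw [← hc1, map_smul] at h1 h4
  rw [← hc2, map_smul] at h2 h3
  have hc'0 : c' ≠ 0 := by
    intro h
    rw [h, zero_smul] at h3
    exact hv0' h3.symm
  have hua : eproj D.rho a (u : V) = 0 := by
    rw [smul_eq_zero] at h2
    exact h2.resolve_left hc'0
  rw [hua, smul_zero] at h1
  exact hv0 h1.symm

/-- The main coprime lemma in its abstract form. -/
theorem k1 [FiniteDimensional K V] (hW : (Nat.card W : K) ≠ 0) (B : Subgroup Γ) [Finite B] (y : Γ) {s ℓ : ℕ}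
    (hs : s.Prime) (hso : Odd s) (hys : y ^ s = 1) (hyB : ∀ b ∈ B, y * b * y⁻¹ ∈ B) (hℓ : ℓ.Prime) (hℓo : Odd ℓ)
    (hB : IsPGroup ℓ B) (hℓs : ℓ ≠ s)
    (hF : finrank K (LinearMap.ker ((D.π y : Module.End K V) - 1)) ≤ 1) (b : Γ) (hb : b ∈ B)
    {a : W →* Kˣ} (ha : wsp D.rho a ≠ ⊥) : D.act (b⁻¹ * (y * b * y⁻¹)) a = a := by
  classical
  letI := D.mulAct (K := K)
  haveI := finite_dual (K := K) hW
  let Λ : SubMulAction Γ (W →* Kˣ) :=
    { carrier := {ψ | wsp D.rho ψ ≠ ⊥}
      smul_mem' := by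
        intro g ψ hψ
        exact D.wsp_act_ne_bot g hψ }
  have hM : ∀ c d : Λ, y • c ≠ c → y • d ≠ d → ∃ i : ℕ, y ^ i • c = d := by
    intro c d hc hd
    have hc' : D.act y (c : W →* Kˣ) ≠ c := fun h => hc (Subtype.ext h)
    have hd' : D.act y (d : W →* Kˣ) ≠ d := fun h => hd (Subtype.ext h)
    obtain ⟨i, hi⟩ := D.moved_single hW y hs hys hF c.2 d.2 hc' hd'
    exact ⟨i, Subtype.ext hi⟩
  have h := perm_core (Λ := Λ) B y hs hso hys hyB hℓ hℓo hB hℓs hM b hb ⟨a, ha⟩
  exact congrArg Subtype.val h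

/-- If an element fixes all weights then it centralizes. -/
theorem fix_of_weights (hW : (Nat.card W : K) ≠ 0) (c : Γ) (h : ∀ a : W →* Kˣ, wsp D.rho a ≠ ⊥ → D.act c a = a)
    (w : W) : D.φ (D.α c w) = D.φ w := by
  apply Units.ext
  apply LinearMap.ext
  intro v
  have hv : v ∈ ⨆ ψ, wsp D.rho ψ := by
    rw [iSup_wsp hW D.rho]
    trivial
  refine Submodule.iSup_induction (motive := fun v => (D.φ (D.α c w) : Module.End K V) v = (D.φ w : Module.End K V) v)
    _ hv ?_ (by simp) ?_
  · intro a x hx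
    by_cases ha : wsp D.rho a = ⊥
    · rw [ha, Submodule.mem_bot] at hx
      simp [hx]
    · have h1 := h a ha
      have h2 : D.act c⁻¹ a = a := by
        conv_lhs => rw [← h1]
        rw [← act_mul, inv_mul_cancel, act_one]
      have h3 : a (D.α c w) = a w := by
        have := congrArg (fun f : W →* Kˣ => f w) h2
        simpa [act_apply] using this
      have h4 := hx (D.α c w)
      have h5 := hx w
      rw [rho_apply] at h4 h5
      rw [h4, h5, h3]
  · intro a b ha hb
    rw [map_add, map_add, ha, hb]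

end WData

end Data

section Model

universe v

variable {K : Type*} [Field K] {V : Type v} [AddCommGroup V] [Module K V]

theorem conj_pow_mem' {G : Type*} [Group G] {A : Subgroup G} (g : G) (h : ∀ a ∈ A, g * a * g⁻¹ ∈ A) (k : ℕ) :
    ∀ a ∈ A, g ^ k * a * (g ^ k)⁻¹ ∈ A := by
  induction k with
  | zero => intro a ha; simpa using ha
  | succ k ih =>
    intro a ha
    have e : g ^ (k + 1) * a * (g ^ (k + 1))⁻¹ = g * (g ^ k * a * (g ^ k)⁻¹) * g⁻¹ := by
      rw [pow_succ']
      group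
    rw [e]
    exact h _ (ih a ha)

/-- An abelian subgroup as a commutative model, with the action of its normalizer. -/
theorem exists_model (A : Subgroup (Module.End K V)ˣ) (hA : ∀ a ∈ A, ∀ b ∈ A, a * b = b * a) :
    ∃ (W : Type v) (_ : CommGroup W) (D : WData K V W ↥(Subgroup.normalizer (A : Set (Module.End K V)ˣ)))
      (e : W ≃* ↥A), (∀ w, D.φ w = (e w : (Module.End K V)ˣ)) ∧ (∀ g, D.π g = g) ∧
        (∀ g w, (e (D.α g w) : (Module.End K V)ˣ) = g * e w * (g : (Module.End K V)ˣ)⁻¹) := by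
  letI cg : CommGroup ↥A :=
    { (inferInstance : Group ↥A) with
      mul_comm := fun a b => Subtype.ext (hA a a.2 b b.2) }
  have hmem : ∀ (g : ↥(Subgroup.normalizer (A : Set (Module.End K V)ˣ))) (a : (Module.End K V)ˣ), a ∈ A →
      (g : (Module.End K V)ˣ) * a * (g : (Module.End K V)ˣ)⁻¹ ∈ A := by
    intro g a ha
    exact (Subgroup.mem_normalizer_iff.mp g.2 a).mp ha
  let conj : ↥(Subgroup.normalizer (A : Set (Module.End K V)ˣ)) →* MulAut ↥A :=
    { toFun := fun g =>
        { toFun := fun a => ⟨g * a * (g : (Module.End K V)ˣ)⁻¹, hmem g a a.2⟩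
          invFun := fun a => ⟨(g : (Module.End K V)ˣ)⁻¹ * a * g, by
            have := hmem g⁻¹ a a.2
            simpa using this⟩
          left_inv := by
            intro a
            apply Subtype.ext
            show (g : (Module.End K V)ˣ)⁻¹ * ((g : (Module.End K V)ˣ) * a * (g : (Module.End K V)ˣ)⁻¹) * g = a
            group
          right_inv := by
            intro a
            apply Subtype.ext
            show (g : (Module.End K V)ˣ) * ((g : (Module.End K V)ˣ)⁻¹ * a * g) * (g : (Module.End K V)ˣ)⁻¹ = a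
            group
          map_mul' := by
            intro a b
            apply Subtype.ext
            show (g : (Module.End K V)ˣ) * ((a : (Module.End K V)ˣ) * b) * (g : (Module.End K V)ˣ)⁻¹ =
              ((g : (Module.End K V)ˣ) * a * (g : (Module.End K V)ˣ)⁻¹) * ((g : (Module.End K V)ˣ) * b * (g : (Module.End K V)ˣ)⁻¹)
            group }
      map_one' := by
        refine MulEquiv.ext (fun a => Subtype.ext ?_)
        show (((1 : ↥(Subgroup.normalizer (A : Set (Module.End K V)ˣ))) : (Module.End K V)ˣ)) * a *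
          ((1 : ↥(Subgroup.normalizer (A : Set (Module.End K V)ˣ))) : (Module.End K V)ˣ)⁻¹ = a
        simp
      map_mul' := by
        intro g h
        refine MulEquiv.ext (fun a => Subtype.ext ?_)
        show (((g * h : ↥(Subgroup.normalizer (A : Set (Module.End K V)ˣ)))) : (Module.End K V)ˣ) * a *
          ((g * h : ↥(Subgroup.normalizer (A : Set (Module.End K V)ˣ))) : (Module.End K V)ˣ)⁻¹ =
          (g : (Module.End K V)ˣ) * ((h : (Module.End K V)ˣ) * a * (h : (Module.End K V)ˣ)⁻¹) * (g : (Module.End K V)ˣ)⁻¹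
        simp only [Subgroup.coe_mul]
        group }
  let D : WData K V ↥A ↥(Subgroup.normalizer (A : Set (Module.End K V)ˣ)) :=
    { φ := { toFun := Subtype.val, map_one' := rfl, map_mul' := fun _ _ => rfl }
      π := (Subgroup.normalizer (A : Set (Module.End K V)ˣ)).subtype
      α := conj
      compat := fun g w => rfl }
  exact ⟨↥A, cg, D, MulEquiv.refl _, fun w => rfl, fun g => rfl, fun g w => rfl⟩

variable [IsAlgClosed K] [FiniteDimensional K V]

/-- The main coprime lemma: for an abelian group `A`, a group `B` of prime power order normalizing `A`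
and an element `y` of prime order normalizing both, with small fixed space. -/
theorem k1_final (A : Subgroup (Module.End K V)ˣ) [Finite A] (hA : ∀ a ∈ A, ∀ b ∈ A, a * b = b * a)
    (hAK : (Nat.card A : K) ≠ 0) (B : Subgroup (Module.End K V)ˣ) [Finite B] (y : (Module.End K V)ˣ) {s ℓ : ℕ}
    (hs : s.Prime) (hso : Odd s) (hys : y ^ s = 1)
    (hBA : ∀ b ∈ B, ∀ a ∈ A, b * a * b⁻¹ ∈ A) (hyA : ∀ a ∈ A, y * a * y⁻¹ ∈ A)
    (hyB : ∀ b ∈ B, y * b * y⁻¹ ∈ B) (hℓ : ℓ.Prime) (hℓo : Odd ℓ) (hB : IsPGroup ℓ B) (hℓs : ℓ ≠ s)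
    (hF : finrank K (LinearMap.ker ((y : Module.End K V) - 1)) ≤ 1) (b : (Module.End K V)ˣ) (hb : b ∈ B)
    (a : (Module.End K V)ˣ) (ha : a ∈ A) :
    (b⁻¹ * (y * b * y⁻¹)) * a = a * (b⁻¹ * (y * b * y⁻¹)) := by
  classical
  haveI : Fact ℓ.Prime := ⟨hℓ⟩
  obtain ⟨W, _, D, e, h1, h2, h3⟩ := exists_model A hA
  have hfinite : Finite W := Finite.of_equiv _ e.symm.toEquiv
  have hcW : (Nat.card W : K) ≠ 0 := by
    rwa [Nat.card_congr e.toEquiv]
  -- membership in the normalizer
  have hnorm : ∀ g : (Module.End K V)ˣ, (∀ a ∈ A, g * a * g⁻¹ ∈ A) → (∀ a ∈ A, g⁻¹ * a * g⁻¹⁻¹ ∈ A) → g ∈ Subgroup.normalizer (A : Set (Module.End K V)ˣ) := by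
    intro g h4 h5
    refine Subgroup.mem_normalizer_iff.mpr ?_
    intro a
    constructor
    · exact h4 a
    · intro h6
      have := h5 _ h6
      simpa [mul_assoc] using this
  have hyinv : y⁻¹ = y ^ (s - 1) := by
    rw [inv_eq_iff_mul_eq_one, ← pow_succ', Nat.sub_add_cancel hs.pos, hys]
  have hyN : y ∈ Subgroup.normalizer (A : Set (Module.End K V)ˣ) := by
    refine hnorm y hyA ?_
    intro a ha
    rw [hyinv]
    exact conj_pow_mem' y hyA (s - 1) a ha
  have hBN : B ≤ Subgroup.normalizer (A : Set (Module.End K V)ˣ) := by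
    intro b hb
    refine hnorm b (hBA b hb) ?_
    intro a ha
    have := hBA b⁻¹ (B.inv_mem hb) a ha
    simpa using this
  obtain ⟨y', hy'⟩ : ∃ y' : ↥(Subgroup.normalizer (A : Set (Module.End K V)ˣ)), (y' : (Module.End K V)ˣ) = y := ⟨⟨y, hyN⟩, rfl⟩
  obtain ⟨b', hb'⟩ : ∃ b' : ↥(Subgroup.normalizer (A : Set (Module.End K V)ˣ)), (b' : (Module.End K V)ˣ) = b := ⟨⟨b, hBN hb⟩, rfl⟩
  have hys' : y' ^ s = 1 := by
    apply Subtype.ext
    simp [hy', hys]
  have hπy : (D.π y' : Module.End K V) = (y : Module.End K V) := by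
    rw [h2, hy']
  have hfinB' : Finite (B.subgroupOf (Subgroup.normalizer (A : Set (Module.End K V)ˣ))) := by
    exact Finite.of_equiv _ (Subgroup.subgroupOfEquivOfLe hBN).symm.toEquiv
  have hB' : IsPGroup ℓ (B.subgroupOf (Subgroup.normalizer (A : Set (Module.End K V)ˣ))) :=
    hB.comap_of_injective (Subgroup.normalizer (A : Set (Module.End K V)ˣ)).subtype Subtype.val_injective
  have hkey : ∀ ψ : W →* Kˣ, wsp D.rho ψ ≠ ⊥ → D.act (b'⁻¹ * (y' * b' * y'⁻¹)) ψ = ψ := by
    intro ψ hψ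
    refine D.k1 hcW (B.subgroupOf (Subgroup.normalizer (A : Set (Module.End K V)ˣ))) y' hs hso hys' ?_ hℓ hℓo hB' hℓs (by rw [hπy]; exact hF) b' ?_ hψ
    · intro c hc
      rw [Subgroup.mem_subgroupOf] at hc ⊢
      simp only [Subgroup.coe_mul, Subgroup.coe_inv, hy']
      exact hyB _ hc
    · rw [Subgroup.mem_subgroupOf, hb']
      exact hb
  have h4 := D.fix_of_weights hcW _ hkey (e.symm ⟨a, ha⟩)
  rw [h1, h1, h3] at h4
  simp only [MulEquiv.apply_symm_apply, Subgroup.coe_mul, Subgroup.coe_inv, hy', hb'] at h4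
  rw [mul_inv_eq_iff_eq_mul] at h4
  exact h4

end Model

end Cfsg.Agent.Lib.BGAb
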