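import Mathlib
import Cfsg.Agent.Lib.BGSymp

/-!
# Norm arguments modulo scalars
-/

set_option autoImplicit false
set_option linter.unusedSectionVars false
set_option linter.unusedVariables false
set_option linter.style.haveILetI false
set_option linter.unusedSimpArgs false
set_option linter.unusedDecidableInType false
set_option linter.unusedFintypeInType false

namespace Cfsg.Agent.Lib.BGNorm

open Module Cfsg.Agent.Lib.BGWeight Cfsg.Agent.Lib.BGSymp

section Gen

variable {G : Type*} [Group G]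

/-- `T = [T, g]`, elementwise form. -/
def TGen (T : Subgroup G) (g : G) : Prop :=
  ∀ X : Subgroup G, (∀ t ∈ T, t⁻¹ * (g * t * g⁻¹) ∈ X) → T ≤ X

/-- The commutator form implies the elementwise form. -/
theorem tGen_of_commutator (T : Subgroup G) (g : G) (hT : ∀ t ∈ T, g * t * g⁻¹ ∈ T)
    (h : T ≤ ⁅T, Subgroup.zpowers g⁆) (hg : IsOfFinOrder g) : TGen T g := by
  intro X hX
  refine h.trans ?_
  rw [Subgroup.commutator_le]
  intro t ht z hz
  obtain ⟨n, rfl⟩ := Submonoid.mem_powers_iff _ _ |>.mp (hg.mem_powers_iff_mem_zpowers.mpr hz)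
  have key : ∀ n : ℕ, ∀ t ∈ T, t * g ^ n * t⁻¹ * (g ^ n)⁻¹ ∈ X := by
    intro n
    induction n with
    | zero =>
      intro t ht
      simp [X.one_mem]
    | succ n ih =>
      intro t ht
      have e : t * g ^ (n + 1) * t⁻¹ * (g ^ (n + 1))⁻¹ =
          (t * g * t⁻¹ * g⁻¹) * ((g * t * g⁻¹) * g ^ n * (g * t * g⁻¹)⁻¹ * (g ^ n)⁻¹) := by
        rw [pow_succ']
        group
      rw [e]
      refine X.mul_mem ?_ (ih _ (hT t ht))
      have := hX t⁻¹ (T.inv_mem ht)
      simpa [mul_assoc] using this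
  rw [commutatorElement_def]
  exact key n t ht

/-- A product of conjugates. -/
def prodConj (g t : G) : ℕ → G
  | 0 => 1
  | (k + 1) => prodConj g t k * (g ^ k * t * (g ^ k)⁻¹)

theorem prodConj_zero (g t : G) : prodConj g t 0 = 1 := rfl

theorem prodConj_succ (g t : G) (k : ℕ) :
    prodConj g t (k + 1) = prodConj g t k * (g ^ k * t * (g ^ k)⁻¹) := rfl

theorem conj_pow_mem'' {A : Subgroup G} (g : G) (h : ∀ a ∈ A, g * a * g⁻¹ ∈ A) (k : ℕ) :
    ∀ a ∈ A, g ^ k * a * (g ^ k)⁻¹ ∈ A := by
  induction k with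
  | zero => intro a ha; simpa using ha
  | succ k ih =>
    intro a ha
    have e : g ^ (k + 1) * a * (g ^ (k + 1))⁻¹ = g * (g ^ k * a * (g ^ k)⁻¹) * g⁻¹ := by
      rw [pow_succ']
      group
    rw [e]
    exact h _ (ih a ha)

theorem prodConj_mem {A : Subgroup G} (g : G) (h : ∀ a ∈ A, g * a * g⁻¹ ∈ A) (t : G) (ht : t ∈ A) (k : ℕ) :
    prodConj g t k ∈ A := by
  induction k with
  | zero => exact A.one_mem
  | succ k ih => exact A.mul_mem ih (conj_pow_mem'' g h k t ht)

end Gen

section Quot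

universe v

variable {K : Type*} [Field K] {U : Type v} [AddCommGroup U] [Module K U]

theorem exists_sympData (T : Subgroup (Module.End K U)ˣ)
    (hcomm : ∀ a ∈ T, ∀ b ∈ T, IsScal (a * b * a⁻¹ * b⁻¹)) :
    ∃ (W : Type v) (_ : CommGroup W), Nonempty (SympData T W) := by
  classical
  let Sc : Subgroup ↥T :=
    { carrier := {t | IsScal (t : (Module.End K U)ˣ)}
      one_mem' := IsScal.one
      mul_mem' := fun ha hb => IsScal.mul ha hb
      inv_mem' := fun ha => IsScal.inv ha }
  have hSc : ∀ t : ↥T, t ∈ Sc ↔ IsScal (t : (Module.End K U)ˣ) := fun t => Iff.rfl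
  haveI hSn : Sc.Normal := by
    constructor
    intro n hn g
    have h1 : g * n * g⁻¹ = n := by
      apply Subtype.ext
      have h2 : (n : (Module.End K U)ˣ) * g = g * n := IsScal.comm hn _
      simp only [Subgroup.coe_mul, Subgroup.coe_inv]
      rw [← h2]
      group
    rw [h1]
    exact hn
  letI : CommGroup (↥T ⧸ Sc) :=
    { (QuotientGroup.Quotient.group Sc) with
      mul_comm := by
        intro a b
        induction a using QuotientGroup.induction_on with
        | H a =>
        induction b using QuotientGroup.induction_on with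
        | H b =>
        rw [← QuotientGroup.mk_mul, ← QuotientGroup.mk_mul, QuotientGroup.eq]
        rw [hSc]
        have := hcomm _ (inv_mem b.2) _ (inv_mem a.2)
        simpa [mul_assoc] using this }
  refine ⟨↥T ⧸ Sc, inferInstance, ⟨?_⟩⟩
  exact
    { q := QuotientGroup.mk' Sc
      q_surj := QuotientGroup.mk'_surjective Sc
      q_ker := by
        intro t
        rw [QuotientGroup.mk'_apply, QuotientGroup.eq_one_iff, hSc]
      Ad := QuotientGroup.lift Sc (adHom.comp T.subtype) (by
        intro t ht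
        ext X u
        have h1 : IsScal (t : (Module.End K U)ˣ) := ht
        have h2 : adHom (t : (Module.End K U)ˣ) X = X := by
          obtain ⟨c, hc⟩ := h1
          have h3 : ((t : (Module.End K U)ˣ) : Module.End K U) * X = X * (t : (Module.End K U)ˣ) := by
            rw [hc]
            simp
          rw [adHom_apply, h3, mul_assoc, Units.mul_inv, mul_one]
        simp [h2])
      Ad_q := by
        intro t
        rfl }

/-- The product of the conjugates by a generating element is scalar. -/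
theorem norm_scal (T : Subgroup (Module.End K U)ˣ)
    (hcomm : ∀ a ∈ T, ∀ b ∈ T, IsScal (a * b * a⁻¹ * b⁻¹))
    (g : (Module.End K U)ˣ) (hgT : ∀ t ∈ T, g * t * g⁻¹ ∈ T) (n : ℕ) (hn0 : 0 < n) (hgn : g ^ n = 1)
    (hgen : TGen T g) : ∀ t ∈ T, IsScal (prodConj g t n) := by
  classical
  obtain ⟨W, _, ⟨D⟩⟩ := exists_sympData T hcomm
  let β : W →* W := D.beta g hgT
  have hβq : ∀ t : ↥T, β (D.q t) = D.q (conjT g hgT t) := D.beta_q g hgT
  -- iterates
  have hiter : ∀ (k : ℕ) (t : ↥T), ∃ t' : ↥T, (t' : (Module.End K U)ˣ) = g ^ k * t * (g ^ k)⁻¹ ∧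
      β^[k] (D.q t) = D.q t' := by
    intro k
    induction k with
    | zero => intro t; exact ⟨t, by simp, rfl⟩
    | succ k ih =>
      intro t
      obtain ⟨t', h1, h2⟩ := ih t
      refine ⟨conjT g hgT t', ?_, ?_⟩
      · rw [conjT_coe, h1, pow_succ']
        group
      · rw [Function.iterate_succ_apply', h2, hβq]
  have hβn : ∀ w : W, β^[n] w = w := by
    intro w
    obtain ⟨t, rfl⟩ := D.q_surj w
    obtain ⟨t', h1, h2⟩ := hiter n t
    rw [h2]
    congr 1
    apply Subtype.ext
    rw [h1, hgn]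
    simp
  -- the norm
  let Nr : W →* W :=
    { toFun := fun w => ∏ i ∈ Finset.range n, β^[i] w
      map_one' := by
        refine Finset.prod_eq_one (fun i _ => ?_)
        exact iterate_map_one β i
      map_mul' := by
        intro a b
        rw [← Finset.prod_mul_distrib]
        exact Finset.prod_congr rfl (fun i _ => iterate_map_mul β i a b) }
  have hNr : ∀ w, Nr w = ∏ i ∈ Finset.range n, β^[i] w := fun w => rfl
  have hNrβ : ∀ w, Nr (β w) = Nr w := by
    intro w
    rw [hNr, hNr]
    have e1 := Finset.prod_range_succ (fun i => β^[i] w) n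
    have e2 := Finset.prod_range_succ' (fun i => β^[i] w) n
    rw [e1, hβn] at e2
    simp only [Function.iterate_zero, id_eq] at e2
    have e3 : ∀ i, β^[i] (β w) = β^[i + 1] w := fun i => rfl
    simp only [e3]
    exact (mul_right_cancel e2).symm
  -- the subgroup
  let X : Subgroup (Module.End K U)ˣ := ((Nr.comp D.q).ker).map T.subtype
  have hX : T ≤ X := by
    apply hgen
    intro t ht
    refine ⟨(⟨t, ht⟩ : ↥T)⁻¹ * conjT g hgT ⟨t, ht⟩, ?_, rfl⟩
    show _ ∈ (Nr.comp D.q).ker
    rw [MonoidHom.mem_ker, MonoidHom.comp_apply, map_mul, map_mul, ← hβq, map_inv, map_inv, hNrβ]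
    exact inv_mul_cancel _
  have hNr1 : ∀ t : ↥T, Nr (D.q t) = 1 := by
    intro t
    obtain ⟨t', ht', h2⟩ := hX t.2
    have h3 : t' = t := Subtype.ext h2
    rw [← h3]
    exact ht'
  -- relate to products of conjugates
  have hprod : ∀ (k : ℕ) (t : ↥T), ∃ t' : ↥T, (t' : (Module.End K U)ˣ) = prodConj g t k ∧
      D.q t' = ∏ i ∈ Finset.range k, β^[i] (D.q t) := by
    intro k t
    induction k with
    | zero => exact ⟨1, rfl, by simp⟩
    | succ k ih =>
      obtain ⟨t', h1, h2⟩ := ih
      obtain ⟨t'', h3, h4⟩ := hiter k t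
      refine ⟨t' * t'', ?_, ?_⟩
      · rw [Subgroup.coe_mul, h1, h3, prodConj_succ]
      · rw [map_mul, h2, Finset.prod_range_succ, h4]
  intro t ht
  obtain ⟨t', h1, h2⟩ := hprod n ⟨t, ht⟩
  have h3 : D.q t' = 1 := by
    rw [h2]
    exact hNr1 ⟨t, ht⟩
  have h4 := (D.q_ker t').mp h3
  rw [h1] at h4
  exact h4

/-- Fixed points modulo scalars under a generating element of coprime order are scalar. -/
theorem scal_fp (T : Subgroup (Module.End K U)ˣ) [Finite T]
    (hcomm : ∀ a ∈ T, ∀ b ∈ T, IsScal (a * b * a⁻¹ * b⁻¹))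
    (g : (Module.End K U)ˣ) (hgT : ∀ t ∈ T, g * t * g⁻¹ ∈ T) (n : ℕ) (hn0 : 0 < n) (hgn : g ^ n = 1)
    (hcop : Nat.Coprime n (Nat.card T)) (hgen : TGen T g) (t : (Module.End K U)ˣ) (ht : t ∈ T)
    (h : IsScal (g * t * g⁻¹ * t⁻¹)) : IsScal t := by
  classical
  have hN := norm_scal T hcomm g hgT n hn0 hgn hgen t ht
  -- modulo scalars each conjugate is `t`
  have hc : ∀ k : ℕ, IsScal (g ^ k * t * (g ^ k)⁻¹ * t⁻¹) := by
    intro k
    induction k with
    | zero => simpa using IsScal.one
    | succ k ih =>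
      have e : g ^ (k + 1) * t * (g ^ (k + 1))⁻¹ * t⁻¹ =
          (g * (g ^ k * t * (g ^ k)⁻¹ * t⁻¹) * g⁻¹) * (g * t * g⁻¹ * t⁻¹) := by
        rw [pow_succ']
        group
      rw [e]
      have h1 : g * (g ^ k * t * (g ^ k)⁻¹ * t⁻¹) * g⁻¹ = g ^ k * t * (g ^ k)⁻¹ * t⁻¹ := by
        rw [← ih.comm g]
        group
      rw [h1]
      exact ih.mul h
  have hpk : ∀ k : ℕ, IsScal (prodConj g t k * (t ^ k)⁻¹) := by
    intro k
    induction k with
    | zero => simpa [prodConj_zero] using IsScal.one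
    | succ k ih =>
      have e : prodConj g t (k + 1) * (t ^ (k + 1))⁻¹ =
          (prodConj g t k * (t ^ k)⁻¹) * (t ^ k * (g ^ k * t * (g ^ k)⁻¹ * t⁻¹) * (t ^ k)⁻¹) := by
        rw [prodConj_succ, pow_succ]
        group
      rw [e]
      refine ih.mul ?_
      have h1 := hc k
      have h2 : t ^ k * (g ^ k * t * (g ^ k)⁻¹ * t⁻¹) * (t ^ k)⁻¹ = g ^ k * t * (g ^ k)⁻¹ * t⁻¹ := by
        rw [← h1.comm (t ^ k)]
        group
      rw [h2]
      exact h1
  have htn : IsScal (t ^ n) := by
    have h1 := (hpk n).inv.mul hN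
    have e : (prodConj g t n * (t ^ n)⁻¹)⁻¹ * prodConj g t n = t ^ n := by group
    rwa [e] at h1
  -- coprimality
  obtain ⟨a, ha⟩ : ∃ a : ℕ, t ^ (n * a) = t := by
    rcases Nat.lt_or_ge 1 (Nat.card T) with h1 | h1
    · obtain ⟨a, _, ha⟩ := Nat.exists_mul_mod_eq_one_of_coprime hcop h1
      refine ⟨a, ?_⟩
      have h2 : t ^ Nat.card T = 1 := by
        have := pow_card_eq_one' (x := (⟨t, ht⟩ : ↥T))
        exact congrArg Subtype.val this
      conv_rhs => rw [← pow_one t]
      rw [pow_eq_pow_mod (n * a) h2, ha]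
    · have h2 : Nat.card T = 1 := by
        have : 0 < Nat.card T := Nat.card_pos
        omega
      have h3 : t = 1 := by
        have := (Nat.card_eq_one_iff_unique.mp h2).1.elim ⟨t, ht⟩ 1
        exact congrArg Subtype.val this
      exact ⟨0, by simp [h3]⟩
  have hpow : ∀ a : ℕ, IsScal ((t ^ n) ^ a) := by
    intro a
    induction a with
    | zero => simpa using IsScal.one
    | succ a ih =>
      rw [pow_succ]
      exact ih.mul htn
  have := hpow a
  rwa [← pow_mul, ha] at this

end Quot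

end Cfsg.Agent.Lib.BGNorm
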