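import Mathlib
import Cfsg.Agent.Lib.BGAb
import Cfsg.Agent.Lib.BGNorm
import Cfsg.Agent.Lib.BGHH

/-!
# Restriction of operators to invariant subspaces; the reduction theorem
-/

set_option autoImplicit false
set_option linter.unusedSectionVars false
set_option linter.unusedVariables false
set_option linter.style.haveILetI false
set_option linter.unusedSimpArgs false
set_option linter.unusedDecidableInType false
set_option linter.unusedFintypeInType false

namespace Cfsg.Agent.Lib.BGRes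

open Module Cfsg.Agent.Lib.BGWeight Cfsg.Agent.Lib.BGSymp Cfsg.Agent.Lib.BGAb Cfsg.Agent.Lib.BGNorm Cfsg.Agent.Lib.BGHH

universe v

variable {K : Type*} [Field K] {V : Type v} [AddCommGroup V] [Module K V]

section Res

/-- The stabilizer of a subspace. -/
def stab (U : Submodule K V) : Subgroup (Module.End K V)ˣ where
  carrier := {g | (∀ u ∈ U, (g : Module.End K V) u ∈ U) ∧
    (∀ u ∈ U, ((g⁻¹ : (Module.End K V)ˣ) : Module.End K V) u ∈ U)}
  mul_mem' := by
    rintro a b ⟨ha, ha'⟩ ⟨hb, hb'⟩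
    refine ⟨fun u hu => ?_, fun u hu => ?_⟩
    · rw [Units.val_mul, Module.End.mul_apply]
      exact ha _ (hb u hu)
    · rw [mul_inv_rev, Units.val_mul, Module.End.mul_apply]
      exact hb' _ (ha' u hu)
  one_mem' := by
    refine ⟨fun u hu => ?_, fun u hu => ?_⟩ <;> simpa using hu
  inv_mem' := by
    rintro a ⟨ha, ha'⟩
    refine ⟨ha', ?_⟩
    simpa using ha

theorem mem_stab {U : Submodule K V} {g : (Module.End K V)ˣ} :
    g ∈ stab U ↔ (∀ u ∈ U, (g : Module.End K V) u ∈ U) ∧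
      (∀ u ∈ U, ((g⁻¹ : (Module.End K V)ˣ) : Module.End K V) u ∈ U) := Iff.rfl

/-- Restriction as a homomorphism. -/
noncomputable def res (U : Submodule K V) : ↥(stab U) →* (Module.End K U)ˣ :=
  MonoidHom.toHomUnits
    { toFun := fun g => ((g : (Module.End K V)ˣ) : Module.End K V).restrict g.2.1
      map_one' := by
        ext u
        rfl
      map_mul' := by
        intro a b
        ext u
        rfl }

theorem res_apply (U : Submodule K V) (g : ↥(stab U)) (u : U) :
    (((res U g : (Module.End K U)ˣ) : Module.End K U) u : V) = ((g : (Module.End K V)ˣ) : Module.End K V) u := rfl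

/-- The image of a subgroup under restriction. -/
noncomputable def resG (U : Submodule K V) (T : Subgroup (Module.End K V)ˣ) : Subgroup (Module.End K U)ˣ :=
  (T.subgroupOf (stab U)).map (res U)

theorem mem_resG {U : Submodule K V} {T : Subgroup (Module.End K V)ˣ} {x : (Module.End K U)ˣ} :
    x ∈ resG U T ↔ ∃ t, ∃ ht : t ∈ stab U, t ∈ T ∧ res U ⟨t, ht⟩ = x := by
  constructor
  · rintro ⟨⟨t, hs⟩, ht, rfl⟩
    exact ⟨t, hs, ht, rfl⟩
  · rintro ⟨t, hs, ht, rfl⟩
    exact ⟨⟨t, hs⟩, ht, rfl⟩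

theorem res_mem {U : Submodule K V} {T : Subgroup (Module.End K V)ˣ} {t : (Module.End K V)ˣ} (ht : t ∈ T)
    (hs : t ∈ stab U) : res U ⟨t, hs⟩ ∈ resG U T := mem_resG.mpr ⟨t, hs, ht, rfl⟩

theorem finite_resG (U : Submodule K V) (T : Subgroup (Module.End K V)ˣ) [Finite T] : Finite (resG U T) := by
  haveI : Finite (T.subgroupOf (stab U)) :=
    Finite.of_injective (fun x : T.subgroupOf (stab U) => (⟨x.1.1, x.2⟩ : T)) (by
      intro x x' h
      apply Subtype.ext
      apply Subtype.ext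
      have := congrArg Subtype.val h
      exact this)
  exact Finite.of_surjective (fun x : T.subgroupOf (stab U) => (⟨res U x, ⟨x, x.2, rfl⟩⟩ : resG U T)) (by
    rintro ⟨y, ⟨x, hx, rfl⟩⟩
    exact ⟨⟨x, hx⟩, rfl⟩)

theorem isPGroup_resG (U : Submodule K V) (T : Subgroup (Module.End K V)ˣ) {q : ℕ} (hT : IsPGroup q T) :
    IsPGroup q (resG U T) := by
  have h1 : IsPGroup q (T.subgroupOf (stab U)) := hT.comap_of_injective (stab U).subtype Subtype.val_injective
  exact h1.map (res U)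

theorem tGen_resG (U : Submodule K V) (T : Subgroup (Module.End K V)ˣ) (hT : T ≤ stab U) {g : (Module.End K V)ˣ}
    (hg : g ∈ stab U) (hgen : TGen T g) : TGen (resG U T) (res U ⟨g, hg⟩) := by
  intro X hX
  have h1 : T ≤ (X.comap (res U)).map (stab U).subtype := by
    apply hgen
    intro t ht
    have hs := hT ht
    refine ⟨⟨t, hs⟩⁻¹ * (⟨g, hg⟩ * ⟨t, hs⟩ * (⟨g, hg⟩ : ↥(stab U))⁻¹), ?_, rfl⟩
    show res U _ ∈ X
    have := hX _ (res_mem (U := U) ht hs)
    simpa only [map_mul, map_inv] using this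
  intro x hx
  obtain ⟨t, hs, ht, rfl⟩ := mem_resG.mp hx
  obtain ⟨⟨z, hz⟩, hzX, hzt⟩ := h1 ht
  have hzt' : z = t := hzt
  subst hzt'
  exact hzX

theorem finrank_ker_res_le [FiniteDimensional K V] (U : Submodule K V) (g : ↥(stab U)) :
    finrank K (LinearMap.ker (((res U g : (Module.End K U)ˣ) : Module.End K U) - 1)) ≤
      finrank K (LinearMap.ker (((g : (Module.End K V)ˣ) : Module.End K V) - 1)) := by
  let L : LinearMap.ker (((res U g : (Module.End K U)ˣ) : Module.End K U) - 1) →ₗ[K]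
      LinearMap.ker (((g : (Module.End K V)ˣ) : Module.End K V) - 1) :=
    LinearMap.codRestrict _ (U.subtype.comp (LinearMap.ker _).subtype) (by
      rintro ⟨u, hu⟩
      rw [LinearMap.mem_ker, LinearMap.sub_apply, sub_eq_zero] at hu ⊢
      exact congrArg Subtype.val hu)
  apply LinearMap.finrank_le_finrank_of_injective (f := L)
  rw [injective_iff_map_eq_zero]
  rintro ⟨u, hu⟩ h
  have h1 : (u : V) = 0 := congrArg Subtype.val h
  exact Subtype.ext (Subtype.ext h1)

/-- A fixed vector in the restricted space. -/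
theorem exists_fixed_of_res [FiniteDimensional K V] (U : Submodule K V) (g : ↥(stab U))
    (h : 1 ≤ finrank K (LinearMap.ker (((res U g : (Module.End K U)ˣ) : Module.End K U) - 1))) :
    ∃ v ∈ U, v ≠ 0 ∧ ((g : (Module.End K V)ˣ) : Module.End K V) v = v := by
  have h1 := Submodule.one_le_finrank_iff.mp h
  obtain ⟨u, hu, hu0⟩ := Submodule.exists_mem_ne_zero_of_ne_bot h1
  refine ⟨u, u.2, fun h0 => hu0 (Subtype.ext h0), ?_⟩
  rw [LinearMap.mem_ker, LinearMap.sub_apply, sub_eq_zero] at hu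
  exact congrArg Subtype.val hu

end Res

section Red

variable [IsAlgClosed K] [FiniteDimensional K V]

/-- The center of a `q`-group with scalar commutators is scalar when the fixed space is small. -/
theorem reduction (T : Subgroup (Module.End K V)ˣ) [Finite T] {q : ℕ} (hq : q.Prime) (hT : IsPGroup q T)
    (hqK : (q : K) ≠ 0) (hcomm : ∀ a ∈ T, ∀ b ∈ T, IsScal (a * b * a⁻¹ * b⁻¹))
    (hnab : ∃ a ∈ T, ∃ b ∈ T, a * b ≠ b * a) (y : (Module.End K V)ˣ) (hyT : ∀ t ∈ T, y * t * y⁻¹ ∈ T)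
    {s : ℕ} (hs : s.Prime) (hys : y ^ s = 1) (hqs : q ≠ s) (hgen : TGen T y)
    (hF : finrank K (LinearMap.ker ((y : Module.End K V) - 1)) ≤ 1) :
    ∀ t ∈ T, (∀ b ∈ T, t * b = b * t) → IsScal t := by
  classical
  haveI : Fact q.Prime := ⟨hq⟩
  obtain ⟨a₀, ha₀, b₀, hb₀, hab₀⟩ := hnab
  -- the center
  let Z : Subgroup (Module.End K V)ˣ := T ⊓ Subgroup.centralizer (T : Set (Module.End K V)ˣ)
  have hZmem : ∀ z, z ∈ Z ↔ z ∈ T ∧ ∀ b ∈ T, z * b = b * z := by
    intro z
    constructor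
    · rintro ⟨h1, h2⟩
      exact ⟨h1, fun b hb => ((Subgroup.mem_centralizer_iff.mp h2) b hb).symm⟩
    · rintro ⟨h1, h2⟩
      exact ⟨h1, Subgroup.mem_centralizer_iff.mpr (fun b hb => (h2 b hb).symm)⟩
  have hZT : Z ≤ T := inf_le_left
  haveI : Finite Z := Finite.of_injective (Subgroup.inclusion hZT) (Subgroup.inclusion_injective hZT)
  have hZab : ∀ a ∈ Z, ∀ b ∈ Z, a * b = b * a := fun a ha b hb => ((hZmem a).mp ha).2 b (hZT hb)
  have hZp : IsPGroup q Z := hT.to_le hZT
  obtain ⟨n, hn⟩ := IsPGroup.iff_card.mp hZp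
  have hcZ : (Nat.card Z : K) ≠ 0 := by
    rw [hn]
    push_cast
    exact pow_ne_zero _ hqK
  obtain ⟨W, _, D, e, h1, h2, h3⟩ := exists_model Z hZab
  have hfinite : Finite W := Finite.of_equiv _ e.symm.toEquiv
  have hcW : (Nat.card W : K) ≠ 0 := by
    rwa [Nat.card_congr e.toEquiv]
  have hcW' : Nat.card W = q ^ n := by
    rw [Nat.card_congr e.toEquiv, hn]
  have hyinv : y⁻¹ = y ^ (s - 1) := by
    rw [inv_eq_iff_mul_eq_one, ← pow_succ', Nat.sub_add_cancel hs.pos, hys]
  have hyZ : ∀ a ∈ Z, y * a * y⁻¹ ∈ Z := by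
    intro a ha
    rw [hZmem]
    refine ⟨hyT _ (hZT ha), fun b hb => ?_⟩
    have hb' : y⁻¹ * b * y ∈ T := by
      have := conj_pow_mem'' (A := T) y hyT (s - 1) b hb
      rw [← hyinv] at this
      simpa using this
    have := ((hZmem a).mp ha).2 _ hb'
    calc y * a * y⁻¹ * b = y * (a * (y⁻¹ * b * y)) * y⁻¹ := by group
      _ = y * ((y⁻¹ * b * y) * a) * y⁻¹ := by rw [this]
      _ = b * (y * a * y⁻¹) := by group
  have hyN : y ∈ Subgroup.normalizer (Z : Set (Module.End K V)ˣ) := by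
    refine Subgroup.mem_normalizer_iff.mpr (fun a => ⟨hyZ a, fun h => ?_⟩)
    have := conj_pow_mem'' (A := Z) y hyZ (s - 1) _ h
    rw [← hyinv] at this
    simpa [mul_assoc] using this
  have htN : ∀ t ∈ T, t ∈ Subgroup.normalizer (Z : Set (Module.End K V)ˣ) := by
    intro t ht
    have hcm : ∀ a ∈ Z, t * a * t⁻¹ = a := by
      intro a ha
      rw [← ((hZmem a).mp ha).2 t ht]
      group
    refine Subgroup.mem_normalizer_iff.mpr (fun a => ⟨fun h => ?_, fun h => ?_⟩)
    · rwa [hcm a h]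
    · have h6 := ((hZmem _).mp h).2 t ht
      have h7 : a = t * a * t⁻¹ := by
        calc a = t⁻¹ * ((t * a * t⁻¹) * t) := by group
          _ = t⁻¹ * (t * (t * a * t⁻¹)) := by rw [h6]
          _ = t * a * t⁻¹ := by group
      rw [h7]
      exact h
  obtain ⟨y', hy'⟩ : ∃ y' : ↥(Subgroup.normalizer (Z : Set (Module.End K V)ˣ)), (y' : (Module.End K V)ˣ) = y :=
    ⟨⟨y, hyN⟩, rfl⟩
  have hys' : y' ^ s = 1 := by
    apply Subtype.ext
    simp [hy', hys]
  have hπ : ∀ g, (D.π g : Module.End K V) = ((g : (Module.End K V)ˣ) : Module.End K V) := by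
    intro g
    rw [h2]
  have hαT : ∀ g : ↥(Subgroup.normalizer (Z : Set (Module.End K V)ˣ)), (g : (Module.End K V)ˣ) ∈ T →
      ∀ w, D.α g w = w := by
    intro g hg w
    apply e.injective
    apply Subtype.ext
    rw [h3]
    have := ((hZmem _).mp (e w).2).2 _ hg
    rw [← this]
    group
  have hactT : ∀ g : ↥(Subgroup.normalizer (Z : Set (Module.End K V)ˣ)), (g : (Module.End K V)ˣ) ∈ T →
      ∀ ψ, D.act g ψ = ψ := by
    intro g hg ψ
    ext w
    rw [WData.act_apply, hαT g⁻¹ (by simpa using T.inv_mem hg)]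
  have hTpres : ∀ t ∈ T, ∀ ψ, ∀ v ∈ wsp D.rho ψ, (t : Module.End K V) v ∈ wsp D.rho ψ := by
    intro t ht ψ v hv
    have := D.map_wsp ⟨t, htN t ht⟩ hv
    rwa [hactT _ ht, hπ] at this
  have hstep1 : ∀ ψ, wsp D.rho ψ ≠ ⊥ → D.act y' ψ = ψ := by
    intro ψ hψ
    by_contra hm
    have hdim := D.finrank_wsp_le hcW y' hs hys' hm
    rw [hπ, hy'] at hdim
    have hdim1 : finrank K (wsp D.rho ψ) = 1 :=
      le_antisymm (hdim.trans hF) (Submodule.one_le_finrank_iff.mpr hψ)
    obtain ⟨v, hv, hv0⟩ := Submodule.exists_mem_ne_zero_of_ne_bot hψ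
    have hline : ∀ t ∈ T, ∃ c : K, (t : Module.End K V) v = c • v := by
      intro t ht
      obtain ⟨c, hc⟩ := exists_smul_eq_of_finrank_eq_one hdim1 (x := ⟨v, hv⟩)
        (fun h => hv0 (congrArg Subtype.val h)) ⟨_, hTpres t ht ψ v hv⟩
      exact ⟨c, (congrArg Subtype.val hc).symm⟩
    obtain ⟨α, hα⟩ := hline a₀ ha₀
    obtain ⟨β, hβ⟩ := hline b₀ hb₀
    obtain ⟨c, hc⟩ := hcomm a₀ ha₀ b₀ hb₀
    have hab : ((a₀ * b₀ : (Module.End K V)ˣ) : Module.End K V) = c • ((b₀ * a₀ : (Module.End K V)ˣ) : Module.End K V) := by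
      have e1 : a₀ * b₀ = (a₀ * b₀ * a₀⁻¹ * b₀⁻¹) * (b₀ * a₀) := by group
      conv_lhs => rw [e1]
      rw [Units.val_mul _ (b₀ * a₀), hc]
      simp
    have hv1 := LinearMap.congr_fun hab v
    simp only [Units.val_mul, Module.End.mul_apply, LinearMap.smul_apply, hα, hβ, map_smul, smul_smul] at hv1
    have hne0 : ∀ t : (Module.End K V)ˣ, (t : Module.End K V) v ≠ 0 := by
      intro t h
      have h4 : ((t⁻¹ : (Module.End K V)ˣ) : Module.End K V) ((t : Module.End K V) v) = v :=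
        LinearMap.congr_fun (Units.inv_mul t) v
      rw [h, map_zero] at h4
      exact hv0 h4.symm
    have hα0 : α ≠ 0 := by
      rintro rfl
      apply hne0 a₀
      rw [hα, zero_smul]
    have hβ0 : β ≠ 0 := by
      rintro rfl
      apply hne0 b₀
      rw [hβ, zero_smul]
    have hc1 : c = 1 := by
      have h4 := smul_left_injective K hv0 hv1
      have h5 : β * α ≠ 0 := mul_ne_zero hβ0 hα0
      have h6 : c * (β * α) = 1 * (β * α) := by
        rw [one_mul]
        calc c * (β * α) = c * α * β := by ring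
          _ = β * α := by
            rw [mul_comm β α] at h4 ⊢
            linear_combination -h4
      exact mul_right_cancel₀ h5 h6
    apply hab₀
    apply Units.ext
    rw [hab, hc1, one_smul]
  -- the norm argument
  have hpow_fix : ∀ (g : ↥(Subgroup.normalizer (Z : Set (Module.End K V)ˣ))) (ψ : W →* Kˣ), D.act g ψ = ψ →
      ∀ k : ℕ, D.act (g ^ k) ψ = ψ := by
    intro g ψ hg k
    induction k with
    | zero => simpa using D.act_one ψ
    | succ k ih => rw [pow_succ, D.act_mul, hg, ih]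
  have hinv_fix : ∀ (g : ↥(Subgroup.normalizer (Z : Set (Module.End K V)ˣ))) (ψ : W →* Kˣ), D.act g ψ = ψ →
      D.act g⁻¹ ψ = ψ := by
    intro g ψ hg
    conv_lhs => rw [← hg]
    rw [← D.act_mul, inv_mul_cancel, D.act_one]
  intro z hz hzc
  have hzZ : z ∈ Z := (hZmem z).mpr ⟨hz, hzc⟩
  obtain ⟨w, hw⟩ : ∃ w : W, (e w : (Module.End K V)ˣ) = z := ⟨e.symm ⟨z, hzZ⟩, by simp⟩
  have hφw : D.φ w = z := by rw [h1, hw]
  obtain ⟨c, hc⟩ := norm_scal T hcomm y hyT s hs.pos hys hgen z hz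
  have hval : ∀ ψ, wsp D.rho ψ ≠ ⊥ → ((ψ w : Kˣ) : K) ^ s = c := by
    intro ψ hψ
    obtain ⟨v, hv, hv0⟩ := Submodule.exists_mem_ne_zero_of_ne_bot hψ
    have hfix := hstep1 ψ hψ
    have hk : ∀ k : ℕ, ((prodConj y z k : (Module.End K V)ˣ) : Module.End K V) v = ((ψ w : Kˣ) : K) ^ k • v := by
      intro k
      induction k with
      | zero => simp [prodConj_zero]
      | succ k ih =>
        rw [prodConj_succ, Units.val_mul, Module.End.mul_apply]
        have h4 : y ^ k * z * (y ^ k)⁻¹ = D.φ (D.α (y' ^ k) w) := by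
          rw [h1, h3, hw]
          simp [hy']
        have h5 : ψ (D.α (y' ^ k) w) = ψ w := by
          have h6 := hpow_fix y'⁻¹ ψ (hinv_fix y' ψ hfix) k
          have h7 := congrArg (fun f : W →* Kˣ => f w) h6
          simp only [WData.act_apply, inv_pow, inv_inv] at h7
          exact h7
        have h6 : ((D.φ (D.α (y' ^ k) w) : (Module.End K V)ˣ) : Module.End K V) v = ((ψ w : Kˣ) : K) • v := by
          have := hv (D.α (y' ^ k) w)
          rw [WData.rho_apply, h5] at this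
          exact this
        rw [h4, h6, map_smul, ih, smul_smul, pow_succ, mul_comm]
    have h4 := hk s
    have h5 := LinearMap.congr_fun hc v
    simp only [LinearMap.smul_apply, Module.End.one_apply] at h5
    rw [h5] at h4
    exact (smul_left_injective K hv0 h4).symm
  have huniq : ∀ ψ ψ', wsp D.rho ψ ≠ ⊥ → wsp D.rho ψ' ≠ ⊥ → ψ w = ψ' w := by
    intro ψ ψ' h4 h5
    have h6 : (ψ w) ^ s = (ψ' w) ^ s := by
      apply Units.ext
      simp only [Units.val_pow_eq_pow_val]
      rw [hval ψ h4, hval ψ' h5]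
    have h7 : ∀ χ : W →* Kˣ, (χ w) ^ (q ^ n) = 1 := by
      intro χ
      rw [← map_pow, ← hcW', pow_card_eq_one', map_one]
    obtain ⟨u, hu⟩ : ∃ u, u = (ψ w)⁻¹ * ψ' w := ⟨_, rfl⟩
    have hus : u ^ s = 1 := by
      rw [hu, mul_pow, inv_pow, h6, inv_mul_cancel]
    have huq : u ^ (q ^ n) = 1 := by
      rw [hu, mul_pow, inv_pow, h7, h7, inv_one, one_mul]
    have hcop : Nat.Coprime s (q ^ n) :=
      Nat.Coprime.pow_right n ((Nat.coprime_primes hs hq).mpr hqs.symm)
    have hu1 : u = 1 := by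
      have h8 := orderOf_dvd_of_pow_eq_one hus
      have h9 := orderOf_dvd_of_pow_eq_one huq
      exact orderOf_eq_one_iff.mp (Nat.eq_one_of_dvd_coprimes hcop h8 h9)
    rw [hu, inv_mul_eq_one] at hu1
    exact hu1
  haveI hnt : Nontrivial V := by
    by_contra hU
    rw [not_nontrivial_iff_subsingleton] at hU
    apply hab₀
    apply Units.ext
    apply LinearMap.ext
    intro u
    exact Subsingleton.elim _ _
  obtain ⟨ψ₀, hψ₀⟩ := exists_wsp_ne_bot hcW D.rho
  refine ⟨((ψ₀ w : Kˣ) : K), ?_⟩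
  apply LinearMap.ext
  intro v
  have hv : v ∈ ⨆ ψ, wsp D.rho ψ := by
    rw [iSup_wsp hcW D.rho]
    trivial
  refine Submodule.iSup_induction (motive := fun v => (z : Module.End K V) v =
    (((ψ₀ w : Kˣ) : K) • (1 : Module.End K V)) v) _ hv ?_ (by simp) ?_
  · intro ψ x hx
    by_cases hψ : wsp D.rho ψ = ⊥
    · rw [hψ, Submodule.mem_bot] at hx
      simp [hx]
    · have h4 := hx w
      rw [WData.rho_apply, hφw, huniq ψ ψ₀ hψ hψ₀] at h4
      rw [h4]
      simp
  · intro a b ha hb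
    rw [map_add, map_add, ha, hb]

end Red

end Cfsg.Agent.Lib.BGRes
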