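import Mathlib
import Cfsg.Agent.Lib.BGRes

/-!
# Prime action: nonzero fixed points and the two-element theorem
-/

set_option autoImplicit false
set_option linter.unusedSectionVars false
set_option linter.unusedVariables false
set_option linter.style.haveILetI false
set_option linter.unusedSimpArgs false
set_option linter.unusedDecidableInType false
set_option linter.unusedFintypeInType false

namespace Cfsg.Agent.Lib.BGT5

open Module Cfsg.Agent.Lib.BGWeight Cfsg.Agent.Lib.BGSymp Cfsg.Agent.Lib.BGAb Cfsg.Agent.Lib.BGNorm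
  Cfsg.Agent.Lib.BGHH Cfsg.Agent.Lib.BGRes

section Abstract

open scoped commutatorElement

variable {G : Type*} [Group G]

/-- If every characteristic abelian subgroup is central, the commutator subgroup is central. -/
theorem comm_le_center_of [Group.IsNilpotent G]
    (h : ∀ A : Subgroup G, (∀ φ : MulAut G, ∀ a ∈ A, φ a ∈ A) → (∀ a ∈ A, ∀ b ∈ A, a * b = b * a) →
      ∀ a ∈ A, ∀ b, a * b = b * a) :
    ∀ u ∈ commutator G, ∀ b, u * b = b * u := by
  have hφ : ∀ (k : ℕ) (φ : MulAut G), ∀ a ∈ Subgroup.upperCentralSeries G k, φ a ∈ Subgroup.upperCentralSeries G k := by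
    intro k
    induction k with
    | zero =>
      intro φ a ha
      rw [Subgroup.upperCentralSeries_zero, Subgroup.mem_bot] at ha
      rw [ha, map_one]
      exact Subgroup.one_mem _
    | succ k ih =>
      intro φ a ha
      rw [Subgroup.mem_upperCentralSeries_succ_iff] at ha ⊢
      intro y
      have h1 := ih φ _ (ha (φ⁻¹ y))
      rw [map_commutatorElement] at h1
      simpa using h1
  have hC : ∀ (φ : MulAut G), ∀ a ∈ commutator G, φ a ∈ commutator G := by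
    intro φ a ha
    have h1 : (commutator G).map φ.toMonoidHom ≤ commutator G := by
      rw [commutator_def, Subgroup.map_commutator]
      apply Subgroup.commutator_mono <;> exact le_top
    exact h1 ⟨a, ha, rfl⟩
  have hZ1 : ∀ x ∈ Subgroup.upperCentralSeries G 1, ∀ b, x * b = b * x := by
    intro x hx b
    have h1 := Subgroup.mem_upperCentralSeries_succ_iff.mp hx b
    rw [Subgroup.upperCentralSeries_zero, Subgroup.mem_bot, commutatorElement_eq_one_iff_mul_comm] at h1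
    exact h1
  have hZ1' : ∀ x, (∀ b, x * b = b * x) → x ∈ Subgroup.upperCentralSeries G 1 := by
    intro x hx
    rw [Subgroup.mem_upperCentralSeries_succ_iff]
    intro y
    rw [Subgroup.upperCentralSeries_zero, Subgroup.mem_bot, commutatorElement_eq_one_iff_mul_comm]
    exact hx y
  -- commutators with the second center
  have h3s : ⁅commutator G, Subgroup.upperCentralSeries G 2⁆ = ⊥ := by
    rw [commutator_def]
    have hstep : ⁅Subgroup.upperCentralSeries G 2, (⊤ : Subgroup G)⁆ ≤ Subgroup.upperCentralSeries G 1 := by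
      rw [Subgroup.commutator_le]
      intro x hx y _
      exact Subgroup.mem_upperCentralSeries_succ_iff.mp hx y
    have h1 : ⁅⁅Subgroup.upperCentralSeries G 2, (⊤ : Subgroup G)⁆, (⊤ : Subgroup G)⁆ = ⊥ := by
      rw [eq_bot_iff, Subgroup.commutator_le]
      intro x hx y _
      have := hZ1 x (hstep hx) y
      rw [Subgroup.mem_bot, commutatorElement_eq_one_iff_mul_comm]
      exact this
    have h2 : ⁅⁅(⊤ : Subgroup G), Subgroup.upperCentralSeries G 2⁆, (⊤ : Subgroup G)⁆ = ⊥ := by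
      rw [Subgroup.commutator_comm (⊤ : Subgroup G) (Subgroup.upperCentralSeries G 2)]
      exact h1
    exact Subgroup.commutator_commutator_eq_bot_of_rotate (H₁ := ⊤) (H₂ := ⊤) h2 h1
  have hAcomm : ∀ a ∈ commutator G ⊓ Subgroup.upperCentralSeries G 2, ∀ b ∈ commutator G ⊓ Subgroup.upperCentralSeries G 2,
      a * b = b * a := by
    intro a ha b hb
    have h1 : ⁅a, b⁆ ∈ ⁅commutator G, Subgroup.upperCentralSeries G 2⁆ := Subgroup.commutator_mem_commutator ha.1 hb.2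
    rw [h3s, Subgroup.mem_bot, commutatorElement_eq_one_iff_mul_comm] at h1
    exact h1
  have hA := h (commutator G ⊓ Subgroup.upperCentralSeries G 2)
    (fun φ a ha => ⟨hC φ a ha.1, hφ 2 φ a ha.2⟩) hAcomm
  have hk : ∀ k : ℕ, ∀ u ∈ commutator G, u ∈ Subgroup.upperCentralSeries G k → ∀ b, u * b = b * u := by
    intro k
    induction k with
    | zero =>
      intro u _ hu b
      rw [Subgroup.upperCentralSeries_zero, Subgroup.mem_bot] at hu
      simp [hu]
    | succ k ih =>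
      intro u hu hu2
      have h1 : ∀ y, ⁅u, y⁆ ∈ Subgroup.upperCentralSeries G 1 := by
        intro y
        apply hZ1'
        apply ih
        · exact Subgroup.commutator_mem_commutator (Subgroup.mem_top u) (Subgroup.mem_top y)
        · exact Subgroup.mem_upperCentralSeries_succ_iff.mp hu2 y
      have h2 : u ∈ Subgroup.upperCentralSeries G 2 := Subgroup.mem_upperCentralSeries_succ_iff.mpr h1
      exact hA u ⟨hu, h2⟩
  obtain ⟨c, hc⟩ := Group.IsNilpotent.nilpotent' (G := G)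
  intro u hu
  exact hk c u hu (by rw [hc]; trivial)

end Abstract

section Main

universe v

variable {K : Type*} [Field K] {V : Type v} [AddCommGroup V] [Module K V] [IsAlgClosed K] [FiniteDimensional K V]

/-- Abelian subgroups normalized by `T` and `y` are central in `T`. -/
theorem central_of_abelian_normal (T : Subgroup (Module.End K V)ˣ) [Finite T] {q : ℕ} (hq : q.Prime) (hqo : Odd q)
    (hT : IsPGroup q T) (hqK : (q : K) ≠ 0) (y : (Module.End K V)ˣ) (hyT : ∀ t ∈ T, y * t * y⁻¹ ∈ T)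
    {s : ℕ} (hs : s.Prime) (hso : Odd s) (hys : y ^ s = 1) (hqs : q ≠ s) (hgen : TGen T y)
    (hF : finrank K (LinearMap.ker ((y : Module.End K V) - 1)) ≤ 1)
    (A : Subgroup (Module.End K V)ˣ) (hAT : A ≤ T) (hA : ∀ a ∈ A, ∀ b ∈ A, a * b = b * a)
    (hTA : ∀ t ∈ T, ∀ a ∈ A, t * a * t⁻¹ ∈ A) (hyA : ∀ a ∈ A, y * a * y⁻¹ ∈ A) :
    ∀ t ∈ T, ∀ a ∈ A, t * a = a * t := by
  classical
  haveI : Fact q.Prime := ⟨hq⟩
  haveI : Finite A := Finite.of_injective (Subgroup.inclusion hAT) (Subgroup.inclusion_injective hAT)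
  have hAc : (Nat.card A : K) ≠ 0 := by
    obtain ⟨n, hn⟩ := IsPGroup.iff_card.mp (hT.to_le hAT)
    rw [hn]
    push_cast
    exact pow_ne_zero _ hqK
  have hX : T ≤ Subgroup.centralizer (A : Set (Module.End K V)ˣ) := by
    apply hgen
    intro t ht
    rw [Subgroup.mem_centralizer_iff]
    intro a ha
    exact (k1_final A hA hAc T y hs hso hys hTA hyA hyT hq hqo hT hqs hF t ht a ha).symm
  intro t ht a ha
  exact (Subgroup.mem_centralizer_iff.mp (hX ht) a ha).symm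

/-- The derived group of `T` is central in `T`. -/
theorem class2 (T : Subgroup (Module.End K V)ˣ) [Finite T] {q : ℕ} (hq : q.Prime) (hqo : Odd q)
    (hT : IsPGroup q T) (hqK : (q : K) ≠ 0) (y : (Module.End K V)ˣ) (hyT : ∀ t ∈ T, y * t * y⁻¹ ∈ T)
    {s : ℕ} (hs : s.Prime) (hso : Odd s) (hys : y ^ s = 1) (hqs : q ≠ s) (hgen : TGen T y)
    (hF : finrank K (LinearMap.ker ((y : Module.End K V) - 1)) ≤ 1) :
    ∀ u ∈ ⁅T, T⁆, ∀ t ∈ T, t * u = u * t := by
  classical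
  haveI : Fact q.Prime := ⟨hq⟩
  haveI : Group.IsNilpotent ↥T := hT.isNilpotent
  have hyinv : y⁻¹ = y ^ (s - 1) := by
    rw [inv_eq_iff_mul_eq_one, ← pow_succ', Nat.sub_add_cancel hs.pos, hys]
  have hyT' : ∀ t ∈ T, y⁻¹ * t * y ∈ T := by
    intro t ht
    have := conj_pow_mem'' (A := T) y hyT (s - 1) t ht
    rw [← hyinv] at this
    simpa using this
  let φy : MulAut ↥T :=
    { toFun := fun t => ⟨y * t * y⁻¹, hyT t t.2⟩
      invFun := fun t => ⟨y⁻¹ * t * y, hyT' t t.2⟩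
      left_inv := by
        intro t
        apply Subtype.ext
        show y⁻¹ * (y * t * y⁻¹) * y = t
        group
      right_inv := by
        intro t
        apply Subtype.ext
        show y * (y⁻¹ * t * y) * y⁻¹ = t
        group
      map_mul' := by
        intro a b
        apply Subtype.ext
        show y * ((a : (Module.End K V)ˣ) * b) * y⁻¹ = (y * a * y⁻¹) * (y * b * y⁻¹)
        group }
  have key := comm_le_center_of (G := ↥T) (by
    intro A hAφ hAab a ha b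
    have hcentral := central_of_abelian_normal T hq hqo hT hqK y hyT hs hso hys hqs hgen hF
      (A.map T.subtype) (by
        rintro _ ⟨a, _, rfl⟩
        exact a.2) (by
        rintro _ ⟨a, ha, rfl⟩ _ ⟨b, hb, rfl⟩
        exact congrArg Subtype.val (hAab a ha b hb)) (by
        rintro t ht _ ⟨a, ha, rfl⟩
        refine ⟨MulAut.conj (⟨t, ht⟩ : ↥T) a, hAφ _ a ha, ?_⟩
        simp [MulAut.conj_apply]) (by
        rintro _ ⟨a, ha, rfl⟩
        exact ⟨φy a, hAφ _ a ha, rfl⟩)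
    have := hcentral b b.2 a ⟨a, ha, rfl⟩
    exact (Subtype.ext this).symm)
  intro u hu t ht
  rw [← Subgroup.map_subtype_commutator] at hu
  obtain ⟨u', hu', rfl⟩ := hu
  have := key u' hu' ⟨t, ht⟩
  exact (congrArg Subtype.val this).symm

end Main

section Res2

universe v

variable {K : Type*} [Field K] {V : Type v} [AddCommGroup V] [Module K V] [IsAlgClosed K] [FiniteDimensional K V]

theorem isScal_res (U : Submodule K V) (g : ↥(stab U)) (c : K)
    (h : ∀ u ∈ U, ((g : (Module.End K V)ˣ) : Module.End K V) u = c • u) : IsScal (res U g) := by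
  refine ⟨c, ?_⟩
  apply LinearMap.ext
  intro u
  apply Subtype.ext
  rw [res_apply, h u u.2]
  rfl

/-- The facts on the restriction to an invariant subspace. -/
theorem res_common (T : Subgroup (Module.End K V)ˣ) [Finite T] {q : ℕ} (hq : q.Prime) (hT : IsPGroup q T)
    (hqK : (q : K) ≠ 0) (y : (Module.End K V)ˣ) (hyT : ∀ t ∈ T, y * t * y⁻¹ ∈ T)
    {s : ℕ} (hs : s.Prime) (hys : y ^ s = 1) (hqs : q ≠ s) (hgen : TGen T y)
    (hF : finrank K (LinearMap.ker ((y : Module.End K V) - 1)) ≤ 1)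
    (U : Submodule K V) (hTU : T ≤ stab U) (hyU : y ∈ stab U)
    (hcU : ∀ a ∈ T, ∀ b ∈ T, ∃ c : K, ∀ u ∈ U, ((a * b * a⁻¹ * b⁻¹ : (Module.End K V)ˣ) : Module.End K V) u = c • u)
    (hnab : ∃ a ∈ T, ∃ b ∈ T, ∃ u ∈ U, ((a * b * a⁻¹ * b⁻¹ : (Module.End K V)ˣ) : Module.End K V) u ≠ u) :
    (∀ a ∈ resG U T, ∀ b ∈ resG U T, IsScal (a * b * a⁻¹ * b⁻¹)) ∧
    (∀ t ∈ resG U T, (∀ b ∈ resG U T, t * b = b * t) → IsScal t) ∧
    (∃ t ∈ resG U T, ¬ IsScal t) ∧
    (∀ t ∈ resG U T, res U ⟨y, hyU⟩ * t * (res U ⟨y, hyU⟩)⁻¹ ∈ resG U T) ∧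
    (res U ⟨y, hyU⟩) ^ s = 1 ∧
    (∀ t ∈ resG U T, ¬ IsScal t → ¬ IsScal (res U ⟨y, hyU⟩ * t * (res U ⟨y, hyU⟩)⁻¹ * t⁻¹)) := by
  classical
  haveI : Fact q.Prime := ⟨hq⟩
  haveI : Finite (resG U T) := finite_resG U T
  have hbar : ∀ t ∈ resG U T, ∃ t' : (Module.End K V)ˣ, ∃ h : t' ∈ T, t = res U ⟨t', hTU h⟩ := by
    intro t ht
    obtain ⟨t', hs', ht', rfl⟩ := mem_resG.mp ht
    exact ⟨t', ht', rfl⟩
  have hcommb : ∀ a ∈ resG U T, ∀ b ∈ resG U T, IsScal (a * b * a⁻¹ * b⁻¹) := by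
    intro a ha b hb
    obtain ⟨a', ha', rfl⟩ := hbar a ha
    obtain ⟨b', hb', rfl⟩ := hbar b hb
    obtain ⟨c, hc⟩ := hcU a' ha' b' hb'
    have e : res U ⟨a', hTU ha'⟩ * res U ⟨b', hTU hb'⟩ * (res U ⟨a', hTU ha'⟩)⁻¹ * (res U ⟨b', hTU hb'⟩)⁻¹ =
        res U (⟨a', hTU ha'⟩ * ⟨b', hTU hb'⟩ * (⟨a', hTU ha'⟩)⁻¹ * (⟨b', hTU hb'⟩)⁻¹) := by
      simp only [map_mul, map_inv]
    rw [e]
    exact isScal_res U _ c hc
  have hnabb : ∃ a ∈ resG U T, ∃ b ∈ resG U T, a * b ≠ b * a := by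
    obtain ⟨a, ha, b, hb, u, hu, hne⟩ := hnab
    refine ⟨_, res_mem ha (hTU ha), _, res_mem hb (hTU hb), ?_⟩
    intro hcm
    apply hne
    have h1 : res U (⟨a, hTU ha⟩ * ⟨b, hTU hb⟩ * (⟨a, hTU ha⟩)⁻¹ * (⟨b, hTU hb⟩)⁻¹) = 1 := by
      simp only [map_mul, map_inv]
      rw [hcm]
      group
    have h2 := res_apply U (⟨a, hTU ha⟩ * ⟨b, hTU hb⟩ * (⟨a, hTU ha⟩)⁻¹ * (⟨b, hTU hb⟩)⁻¹) ⟨u, hu⟩
    rw [h1] at h2
    exact h2.symm
  have hyb : ∀ t ∈ resG U T, res U ⟨y, hyU⟩ * t * (res U ⟨y, hyU⟩)⁻¹ ∈ resG U T := by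
    intro t ht
    obtain ⟨t', ht', rfl⟩ := hbar t ht
    have e : res U ⟨y, hyU⟩ * res U ⟨t', hTU ht'⟩ * (res U ⟨y, hyU⟩)⁻¹ =
        res U (⟨y, hyU⟩ * ⟨t', hTU ht'⟩ * (⟨y, hyU⟩)⁻¹) := by
      simp only [map_mul, map_inv]
    rw [e]
    exact res_mem (hyT t' ht') _
  have hysb : (res U ⟨y, hyU⟩) ^ s = 1 := by
    rw [← map_pow]
    have : (⟨y, hyU⟩ : ↥(stab U)) ^ s = 1 := Subtype.ext hys
    rw [this, map_one]
  have hgenb := tGen_resG U T hTU hyU hgen
  have hFb : finrank K (LinearMap.ker (((res U ⟨y, hyU⟩ : (Module.End K U)ˣ) : Module.End K U) - 1)) ≤ 1 :=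
    (finrank_ker_res_le U ⟨y, hyU⟩).trans hF
  have hpb := isPGroup_resG U T hT
  have hcen := reduction (resG U T) hq hpb hqK hcommb hnabb (res U ⟨y, hyU⟩) hyb hs hysb hqs hgenb hFb
  obtain ⟨n, hn⟩ := IsPGroup.iff_card.mp hpb
  have hcop : Nat.Coprime s (Nat.card (resG U T)) := by
    rw [hn]
    exact Nat.Coprime.pow_right n ((Nat.coprime_primes hs hq).mpr hqs.symm)
  refine ⟨hcommb, hcen, ?_, hyb, hysb, ?_⟩
  · by_contra hcon
    push Not at hcon
    obtain ⟨a, ha, b, hb, hne⟩ := hnabb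
    exact hne ((hcon a ha).comm b)
  · intro t ht hnt h
    exact hnt (scal_fp (resG U T) hcommb _ hyb s hs.pos hysb hcop hgenb t ht h)

/-- A fixed vector on an invariant subspace on which commutators act as nontrivial scalars. -/
theorem res_hh (T : Subgroup (Module.End K V)ˣ) [Finite T] {q : ℕ} (hq : q.Prime) (hqo : Odd q) (hT : IsPGroup q T)
    (hqK : (q : K) ≠ 0) (y : (Module.End K V)ˣ) (hyT : ∀ t ∈ T, y * t * y⁻¹ ∈ T)
    {s : ℕ} (hs : s.Prime) (hso : Odd s) (hsK : (s : K) ≠ 0) (hys : y ^ s = 1) (hqs : q ≠ s) (hgen : TGen T y)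
    (hF : finrank K (LinearMap.ker ((y : Module.End K V) - 1)) ≤ 1)
    (U : Submodule K V) (hTU : T ≤ stab U) (hyU : y ∈ stab U)
    (hcU : ∀ a ∈ T, ∀ b ∈ T, ∃ c : K, ∀ u ∈ U, ((a * b * a⁻¹ * b⁻¹ : (Module.End K V)ˣ) : Module.End K V) u = c • u)
    (hnab : ∃ a ∈ T, ∃ b ∈ T, ∃ u ∈ U, ((a * b * a⁻¹ * b⁻¹ : (Module.End K V)ˣ) : Module.End K V) u ≠ u) :
    ∃ v ∈ U, v ≠ 0 ∧ (y : Module.End K V) v = v := by
  obtain ⟨h1, h2, h3, h4, h5, h6⟩ := res_common T hq hT hqK y hyT hs hys hqs hgen hF U hTU hyU hcU hnab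
  haveI : Finite (resG U T) := finite_resG U T
  have h7 := (t3 (resG U T) hq hqo (isPGroup_resG U T hT) hqK h1 h2 h3 _ h4 hs hso hsK h5 h6).1
  exact exists_fixed_of_res U ⟨y, hyU⟩ h7

/-- With a second commuting element there is no such subspace. -/
theorem res_hh4 (T : Subgroup (Module.End K V)ˣ) [Finite T] {q : ℕ} (hq : q.Prime) (hqo : Odd q) (hT : IsPGroup q T)
    (hqK : (q : K) ≠ 0) (y : (Module.End K V)ˣ) (hyT : ∀ t ∈ T, y * t * y⁻¹ ∈ T)
    {s : ℕ} (hs : s.Prime) (hso : Odd s) (hsK : (s : K) ≠ 0) (hys : y ^ s = 1) (hqs : q ≠ s) (hgen : TGen T y)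
    (hF : finrank K (LinearMap.ker ((y : Module.End K V) - 1)) ≤ 1)
    (U : Submodule K V) (hTU : T ≤ stab U) (hyU : y ∈ stab U)
    (hcU : ∀ a ∈ T, ∀ b ∈ T, ∃ c : K, ∀ u ∈ U, ((a * b * a⁻¹ * b⁻¹ : (Module.End K V)ˣ) : Module.End K V) u = c • u)
    (hnab : ∃ a ∈ T, ∃ b ∈ T, ∃ u ∈ U, ((a * b * a⁻¹ * b⁻¹ : (Module.End K V)ˣ) : Module.End K V) u ≠ u)
    (x : (Module.End K V)ˣ) (hxT : ∀ t ∈ T, x * t * x⁻¹ ∈ T) (hxU : x ∈ stab U) {p a : ℕ} (hp : p.Prime) (hpo : Odd p)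
    (hps : p ≠ s) (hpq : p ≠ q) (hxp : x ^ (p ^ a) = 1) (hxy : x * y = y * x) (hxgen : TGen T x) : False := by
  classical
  haveI : Fact q.Prime := ⟨hq⟩
  obtain ⟨h1, h2, h3, h4, h5, h6⟩ := res_common T hq hT hqK y hyT hs hys hqs hgen hF U hTU hyU hcU hnab
  haveI : Finite (resG U T) := finite_resG U T
  have hpb := isPGroup_resG U T hT
  have hxb : ∀ t ∈ resG U T, res U ⟨x, hxU⟩ * t * (res U ⟨x, hxU⟩)⁻¹ ∈ resG U T := by
    intro t ht
    obtain ⟨t', hs', ht', rfl⟩ := mem_resG.mp ht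
    have e : res U ⟨x, hxU⟩ * res U ⟨t', hs'⟩ * (res U ⟨x, hxU⟩)⁻¹ =
        res U (⟨x, hxU⟩ * ⟨t', hs'⟩ * (⟨x, hxU⟩)⁻¹) := by
      simp only [map_mul, map_inv]
    rw [e]
    exact res_mem (hxT t' ht') _
  have hxpb : (res U ⟨x, hxU⟩) ^ (p ^ a) = 1 := by
    rw [← map_pow]
    have : (⟨x, hxU⟩ : ↥(stab U)) ^ (p ^ a) = 1 := Subtype.ext hxp
    rw [this, map_one]
  have hxyb : res U ⟨x, hxU⟩ * res U ⟨y, hyU⟩ = res U ⟨y, hyU⟩ * res U ⟨x, hxU⟩ := by
    rw [← map_mul, ← map_mul]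
    congr 1
    exact Subtype.ext hxy
  have hgenb := tGen_resG U T hTU hxU hxgen
  obtain ⟨n, hn⟩ := IsPGroup.iff_card.mp hpb
  have hcop : Nat.Coprime (p ^ a) (Nat.card (resG U T)) := by
    rw [hn]
    exact Nat.Coprime.pow _ _ ((Nat.coprime_primes hp hq).mpr hpq)
  have hfx : ∀ t ∈ resG U T, ¬ IsScal t → ¬ IsScal (res U ⟨x, hxU⟩ * t * (res U ⟨x, hxU⟩)⁻¹ * t⁻¹) := by
    intro t ht hnt h
    exact hnt (scal_fp (resG U T) h1 _ hxb (p ^ a) (pow_pos hp.pos a) hxpb hcop hgenb t ht h)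
  have h7 := t4 (resG U T) hq hqo hpb hqK h1 h2 h3 _ h4 hs hso hsK h5 h6 _ hxb hp hpo hps hxpb hxyb hfx
  have h8 := (finrank_ker_res_le U ⟨y, hyU⟩).trans hF
  omega

end Res2

section Final

open scoped commutatorElement

universe v

variable {K : Type*} [Field K] {V : Type v} [AddCommGroup V] [Module K V] [IsAlgClosed K] [FiniteDimensional K V]

theorem normalizer_mem_of_pow {G : Type*} [Group G] (A : Subgroup G) (g : G) (h : ∀ a ∈ A, g * a * g⁻¹ ∈ A)
    (n : ℕ) (hn0 : 0 < n) (hgn : g ^ n = 1) : g ∈ Subgroup.normalizer (A : Set G) := by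
  have hinv : g⁻¹ = g ^ (n - 1) := by
    rw [inv_eq_iff_mul_eq_one, ← pow_succ', Nat.sub_add_cancel hn0, hgn]
  refine Subgroup.mem_normalizer_iff.mpr (fun a => ⟨h a, fun h2 => ?_⟩)
  have h3 := conj_pow_mem'' (A := A) g h (n - 1) _ h2
  rw [← hinv] at h3
  simpa [mul_assoc] using h3

/-- The nonabelian case. -/
theorem nonab_main (T : Subgroup (Module.End K V)ˣ) [Finite T] {q : ℕ} (hq : q.Prime) (hqo : Odd q)
    (hT : IsPGroup q T) (hqK : (q : K) ≠ 0) (y : (Module.End K V)ˣ) (hyT : ∀ t ∈ T, y * t * y⁻¹ ∈ T)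
    {s : ℕ} (hs : s.Prime) (hso : Odd s) (hsK : (s : K) ≠ 0) (hys : y ^ s = 1) (hqs : q ≠ s) (hgen : TGen T y)
    (hF : finrank K (LinearMap.ker ((y : Module.End K V) - 1)) ≤ 1)
    (hnab : ∃ a ∈ T, ∃ b ∈ T, a * b ≠ b * a) :
    (∃ v : V, v ≠ 0 ∧ (y : Module.End K V) v = v) ∧
    (∀ (x : (Module.End K V)ˣ) (hxT : ∀ t ∈ T, x * t * x⁻¹ ∈ T) {p a : ℕ} (hp : p.Prime) (hpo : Odd p)
      (hps : p ≠ s) (hpq : p ≠ q) (hxp : x ^ (p ^ a) = 1) (hxy : x * y = y * x) (hxgen : TGen T x), False) := by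
  classical
  haveI : Fact q.Prime := ⟨hq⟩
  -- the derived group
  have hc2 := class2 T hq hqo hT hqK y hyT hs hso hys hqs hgen hF
  have hAT : ⁅T, T⁆ ≤ T := by
    rw [Subgroup.commutator_le]
    intro a ha b hb
    rw [commutatorElement_def]
    exact T.mul_mem (T.mul_mem (T.mul_mem ha hb) (T.inv_mem ha)) (T.inv_mem hb)
  have hAab : ∀ a ∈ ⁅T, T⁆, ∀ b ∈ ⁅T, T⁆, a * b = b * a := by
    intro a ha b hb
    exact hc2 b hb a (hAT ha)
  haveI : Finite (⁅T, T⁆ : Subgroup (Module.End K V)ˣ) :=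
    Finite.of_injective (Subgroup.inclusion hAT) (Subgroup.inclusion_injective hAT)
  obtain ⟨n, hn⟩ := IsPGroup.iff_card.mp (hT.to_le hAT)
  have hAc : (Nat.card (⁅T, T⁆ : Subgroup (Module.End K V)ˣ) : K) ≠ 0 := by
    rw [hn]
    push_cast
    exact pow_ne_zero _ hqK
  obtain ⟨W, _, D, e, h1, h2, h3⟩ := exists_model ⁅T, T⁆ hAab
  have hfinite : Finite W := Finite.of_equiv _ e.symm.toEquiv
  have hcW : (Nat.card W : K) ≠ 0 := by
    rwa [Nat.card_congr e.toEquiv]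
  have hπ : ∀ g, (D.π g : Module.End K V) = ((g : (Module.End K V)ˣ) : Module.End K V) := by
    intro g
    rw [h2]
  have hyA : ∀ a ∈ ⁅T, T⁆, y * a * y⁻¹ ∈ ⁅T, T⁆ := by
    have h4 : (⁅T, T⁆ : Subgroup (Module.End K V)ˣ) ≤ (⁅T, T⁆ : Subgroup (Module.End K V)ˣ).comap (MulAut.conj y).toMonoidHom := by
      rw [Subgroup.commutator_le]
      intro a ha b hb
      rw [Subgroup.mem_comap]
      have h5 : (MulAut.conj y).toMonoidHom ⁅a, b⁆ = ⁅y * a * y⁻¹, y * b * y⁻¹⁆ := by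
        simp only [commutatorElement_def, MulEquiv.toMonoidHom_eq_coe, MonoidHom.coe_coe, map_mul, map_inv,
          MulAut.conj_apply]
      rw [h5]
      exact Subgroup.commutator_mem_commutator (hyT a ha) (hyT b hb)
    intro a ha
    exact h4 ha
  have hyN : y ∈ Subgroup.normalizer ((⁅T, T⁆ : Subgroup (Module.End K V)ˣ) : Set (Module.End K V)ˣ) :=
    normalizer_mem_of_pow _ y hyA s hs.pos hys
  have hcm : ∀ t ∈ T, ∀ a ∈ ⁅T, T⁆, t * a * t⁻¹ = a := by
    intro t ht a ha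
    rw [hc2 a ha t ht]
    group
  have htN : ∀ t ∈ T, t ∈ Subgroup.normalizer ((⁅T, T⁆ : Subgroup (Module.End K V)ˣ) : Set (Module.End K V)ˣ) := by
    intro t ht
    refine Subgroup.mem_normalizer_iff.mpr (fun a => ⟨fun h => ?_, fun h => ?_⟩)
    · rwa [hcm t ht a h]
    · have h7 : a = t * a * t⁻¹ := by
        have h6 := hc2 _ h t ht
        calc a = t⁻¹ * ((t * a * t⁻¹) * t) := by group
          _ = t⁻¹ * (t * (t * a * t⁻¹)) := by rw [h6]
          _ = t * a * t⁻¹ := by group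
      rw [h7]
      exact h
  obtain ⟨y', hy'⟩ : ∃ y' : ↥(Subgroup.normalizer ((⁅T, T⁆ : Subgroup (Module.End K V)ˣ) : Set (Module.End K V)ˣ)),
      (y' : (Module.End K V)ˣ) = y := ⟨⟨y, hyN⟩, rfl⟩
  have hys' : y' ^ s = 1 := by
    apply Subtype.ext
    simp [hy', hys]
  have hαT : ∀ g : ↥(Subgroup.normalizer ((⁅T, T⁆ : Subgroup (Module.End K V)ˣ) : Set (Module.End K V)ˣ)),
      (g : (Module.End K V)ˣ) ∈ T → ∀ w, D.α g w = w := by
    intro g hg w
    apply e.injective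
    apply Subtype.ext
    rw [h3]
    exact hcm _ hg _ (e w).2
  have hactT : ∀ g : ↥(Subgroup.normalizer ((⁅T, T⁆ : Subgroup (Module.End K V)ˣ) : Set (Module.End K V)ˣ)),
      (g : (Module.End K V)ˣ) ∈ T → ∀ ψ, D.act g ψ = ψ := by
    intro g hg ψ
    ext w
    rw [WData.act_apply, hαT g⁻¹ (by simpa using T.inv_mem hg)]
  have hTpres : ∀ t ∈ T, ∀ ψ, ∀ v ∈ wsp D.rho ψ, (t : Module.End K V) v ∈ wsp D.rho ψ := by
    intro t ht ψ v hv
    have := D.map_wsp ⟨t, htN t ht⟩ hv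
    rwa [hactT _ ht, hπ] at this
  have hTstab : ∀ ψ, T ≤ stab (wsp D.rho ψ) := by
    intro ψ t ht
    exact ⟨fun u hu => hTpres t ht ψ u hu, fun u hu => hTpres t⁻¹ (T.inv_mem ht) ψ u hu⟩
  -- commutators act by the weight
  have hcomm_scal : ∀ ψ, ∀ a ∈ T, ∀ b ∈ T, ∃ c : K, ∀ u ∈ wsp D.rho ψ,
      ((a * b * a⁻¹ * b⁻¹ : (Module.End K V)ˣ) : Module.End K V) u = c • u := by
    intro ψ a ha b hb
    have hmem : a * b * a⁻¹ * b⁻¹ ∈ ⁅T, T⁆ := by
      have := Subgroup.commutator_mem_commutator ha hb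
      rwa [commutatorElement_def] at this
    obtain ⟨w, hw⟩ : ∃ w : W, (e w : (Module.End K V)ˣ) = a * b * a⁻¹ * b⁻¹ := ⟨e.symm ⟨_, hmem⟩, by simp⟩
    refine ⟨((ψ w : Kˣ) : K), fun u hu => ?_⟩
    have := hu w
    rw [WData.rho_apply, h1, hw] at this
    exact this
  -- nontrivial weights act nontrivially through some commutator
  have hcomm_ne : ∀ ψ : W →* Kˣ, wsp D.rho ψ ≠ ⊥ → ψ ≠ 1 → ∃ a ∈ T, ∃ b ∈ T, ∃ u ∈ wsp D.rho ψ,
      ((a * b * a⁻¹ * b⁻¹ : (Module.End K V)ˣ) : Module.End K V) u ≠ u := by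
    intro ψ hψ hψ1
    by_contra hcon
    push Not at hcon
    obtain ⟨v, hv, hv0⟩ := Submodule.exists_mem_ne_zero_of_ne_bot hψ
    let X : Subgroup (Module.End K V)ˣ :=
      { carrier := {g | (g : Module.End K V) v = v}
        one_mem' := by simp
        mul_mem' := by
          intro a b ha hb
          have ha' : (a : Module.End K V) v = v := ha
          have hb' : (b : Module.End K V) v = v := hb
          show ((a * b : (Module.End K V)ˣ) : Module.End K V) v = v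
          rw [Units.val_mul, Module.End.mul_apply, hb', ha']
        inv_mem' := by
          intro a ha
          have ha' : (a : Module.End K V) v = v := ha
          show ((a⁻¹ : (Module.End K V)ˣ) : Module.End K V) v = v
          conv_lhs => rw [← ha']
          exact LinearMap.congr_fun (Units.inv_mul a) v }
    have hAX : ⁅T, T⁆ ≤ X := by
      rw [Subgroup.commutator_le]
      intro a ha b hb
      rw [commutatorElement_def]
      exact hcon a ha b hb v hv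
    apply hψ1
    ext w
    have h4 : (e w : (Module.End K V)ˣ) ∈ X := hAX (e w).2
    have h5 : ((e w : (Module.End K V)ˣ) : Module.End K V) v = v := h4
    have h6 := hv w
    rw [WData.rho_apply, h1, h5] at h6
    have h7 : (1 : K) • v = ((ψ w : Kˣ) : K) • v := by
      rw [one_smul]
      exact h6
    exact (smul_left_injective K hv0 h7).symm
  -- nontrivial weights are fixed by y
  have hfixy : ∀ ψ : W →* Kˣ, wsp D.rho ψ ≠ ⊥ → ψ ≠ 1 → D.act y' ψ = ψ := by
    intro ψ hψ hψ1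
    by_contra hm
    obtain ⟨a, ha, b, hb, u, hu, hne⟩ := hcomm_ne ψ hψ hψ1
    have hdim := D.finrank_wsp_le hcW y' hs hys' hm
    rw [hπ, hy'] at hdim
    have hdim1 : finrank K (wsp D.rho ψ) = 1 :=
      le_antisymm (hdim.trans hF) (Submodule.one_le_finrank_iff.mpr hψ)
    have hu0 : u ≠ 0 := by
      rintro rfl
      apply hne
      simp
    have hline : ∀ t ∈ T, ∃ c : K, (t : Module.End K V) u = c • u := by
      intro t ht
      obtain ⟨c, hc⟩ := exists_smul_eq_of_finrank_eq_one hdim1 (x := ⟨u, hu⟩)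
        (fun h => hu0 (congrArg Subtype.val h)) ⟨_, hTpres t ht ψ u hu⟩
      exact ⟨c, (congrArg Subtype.val hc).symm⟩
    obtain ⟨α, hα⟩ := hline a ha
    obtain ⟨β, hβ⟩ := hline b hb
    obtain ⟨γ, hγ⟩ := hline a⁻¹ (T.inv_mem ha)
    obtain ⟨δ, hδ⟩ := hline b⁻¹ (T.inv_mem hb)
    have hαγ : α * γ = 1 := by
      have h4 : (a : Module.End K V) (((a⁻¹ : (Module.End K V)ˣ) : Module.End K V) u) = u :=
        LinearMap.congr_fun (Units.mul_inv a) u
      rw [hγ, map_smul, hα, smul_smul] at h4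
      have h5 : (γ * α) • u = (1 : K) • u := by
        rw [one_smul]
        exact h4
      rw [mul_comm]
      exact smul_left_injective K hu0 h5
    have hβδ : β * δ = 1 := by
      have h4 : (b : Module.End K V) (((b⁻¹ : (Module.End K V)ˣ) : Module.End K V) u) = u :=
        LinearMap.congr_fun (Units.mul_inv b) u
      rw [hδ, map_smul, hβ, smul_smul] at h4
      have h5 : (δ * β) • u = (1 : K) • u := by
        rw [one_smul]
        exact h4
      rw [mul_comm]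
      exact smul_left_injective K hu0 h5
    apply hne
    simp only [Units.val_mul, Module.End.mul_apply, hδ, map_smul, hγ, hβ, hα, smul_smul]
    have : δ * (γ * (β * α)) = 1 := by
      calc δ * (γ * (β * α)) = (α * γ) * (β * δ) := by ring
        _ = 1 := by rw [hαγ, hβδ, one_mul]
    rw [this, one_smul]
  -- each nontrivial weight space contains a fixed vector
  have hinv_fix : ∀ (g : ↥(Subgroup.normalizer ((⁅T, T⁆ : Subgroup (Module.End K V)ˣ) : Set (Module.End K V)ˣ)))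
      (ψ : W →* Kˣ), D.act g ψ = ψ → D.act g⁻¹ ψ = ψ := by
    intro g ψ hg
    conv_lhs => rw [← hg]
    rw [← D.act_mul, inv_mul_cancel, D.act_one]
  have hystab : ∀ ψ : W →* Kˣ, wsp D.rho ψ ≠ ⊥ → ψ ≠ 1 → y ∈ stab (wsp D.rho ψ) := by
    intro ψ hψ hψ1
    have h4 := hfixy ψ hψ hψ1
    refine ⟨fun u hu => ?_, fun u hu => ?_⟩
    · have := D.map_wsp y' hu
      rwa [h4, hπ, hy'] at this
    · have := D.map_wsp y'⁻¹ hu
      rw [hinv_fix y' ψ h4, hπ] at this
      simpa [hy'] using this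
  have hfixv : ∀ ψ : W →* Kˣ, wsp D.rho ψ ≠ ⊥ → ψ ≠ 1 → ∃ v ∈ wsp D.rho ψ, v ≠ 0 ∧ (y : Module.End K V) v = v := by
    intro ψ hψ hψ1
    exact res_hh T hq hqo hT hqK y hyT hs hso hsK hys hqs hgen hF _ (hTstab ψ) (hystab ψ hψ hψ1)
      (hcomm_scal ψ) (hcomm_ne ψ hψ hψ1)
  -- uniqueness of the nontrivial weight
  have huniq : ∀ ψ ψ' : W →* Kˣ, wsp D.rho ψ ≠ ⊥ → ψ ≠ 1 → wsp D.rho ψ' ≠ ⊥ → ψ' ≠ 1 → ψ = ψ' := by
    intro ψ ψ' h4 h5 h6 h7
    by_contra hne
    haveI := Fintype.ofFinite W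
    have hW' : (Fintype.card W : K) ≠ 0 := by rwa [← Nat.card_eq_fintype_card]
    obtain ⟨v, hv, hv0, hvy⟩ := hfixv ψ h4 h5
    obtain ⟨v', hv', hv0', hvy'⟩ := hfixv ψ' h6 h7
    obtain ⟨u, hu⟩ := finrank_le_one_iff.mp hF
    have hker : ∀ z : V, (y : Module.End K V) z = z → z ∈ LinearMap.ker ((y : Module.End K V) - 1) := by
      intro z hz
      rw [LinearMap.mem_ker, LinearMap.sub_apply, hz, Module.End.one_apply, sub_self]
    obtain ⟨c, hc⟩ := hu ⟨v, hker v hvy⟩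
    obtain ⟨c', hc'⟩ := hu ⟨v', hker v' hvy'⟩
    have hc1 : c • (u : V) = v := congrArg Subtype.val hc
    have hc2' : c' • (u : V) = v' := congrArg Subtype.val hc'
    have h8 := eproj_of_mem hW' D.rho ψ ψ hv
    have h9 := eproj_of_mem hW' D.rho ψ ψ' hv'
    rw [if_pos rfl, ← hc1, map_smul] at h8
    rw [if_neg hne, ← hc2', map_smul] at h9
    have hc'0 : c' ≠ 0 := by
      rintro rfl
      apply hv0'
      rw [← hc2', zero_smul]
    have h10 : eproj D.rho ψ (u : V) = 0 := (smul_eq_zero.mp h9).resolve_left hc'0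
    rw [h10, smul_zero] at h8
    apply hv0
    rw [← hc1]
    exact h8.symm
  -- there is a nontrivial weight
  obtain ⟨a₀, ha₀, b₀, hb₀, hab₀⟩ := hnab
  obtain ⟨w₀, hw₀⟩ : ∃ w₀ : W, (e w₀ : (Module.End K V)ˣ) = a₀ * b₀ * a₀⁻¹ * b₀⁻¹ := by
    have hmem : a₀ * b₀ * a₀⁻¹ * b₀⁻¹ ∈ ⁅T, T⁆ := by
      have := Subgroup.commutator_mem_commutator ha₀ hb₀
      rwa [commutatorElement_def] at this
    exact ⟨e.symm ⟨_, hmem⟩, by simp⟩
  have hρ : D.rho w₀ ≠ 1 := by
    intro h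
    apply hab₀
    have h4 : a₀ * b₀ * a₀⁻¹ * b₀⁻¹ = 1 := by
      apply Units.ext
      rw [← hw₀, ← h1, ← WData.rho_apply, h]
      rfl
    have h5 : a₀ * b₀ * a₀⁻¹ * b₀⁻¹ * (b₀ * a₀) = b₀ * a₀ := by rw [h4, one_mul]
    rw [← h5]
    group
  obtain ⟨ψ, hψ, hψw⟩ := exists_wsp_apply_ne hcW D.rho hρ
  have hψ1 : ψ ≠ 1 := by
    rintro rfl
    exact hψw rfl
  refine ⟨?_, ?_⟩
  · obtain ⟨v, _, hv0, hvy⟩ := hfixv ψ hψ hψ1
    exact ⟨v, hv0, hvy⟩
  · intro x hxT p a hp hpo hps hpq hxp hxy hxgen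
    have hxA : ∀ a ∈ ⁅T, T⁆, x * a * x⁻¹ ∈ ⁅T, T⁆ := by
      have h4 : (⁅T, T⁆ : Subgroup (Module.End K V)ˣ) ≤ (⁅T, T⁆ : Subgroup (Module.End K V)ˣ).comap (MulAut.conj x).toMonoidHom := by
        rw [Subgroup.commutator_le]
        intro a ha b hb
        rw [Subgroup.mem_comap]
        have h5 : (MulAut.conj x).toMonoidHom ⁅a, b⁆ = ⁅x * a * x⁻¹, x * b * x⁻¹⁆ := by
          simp only [commutatorElement_def, MulEquiv.toMonoidHom_eq_coe, MonoidHom.coe_coe, map_mul, map_inv,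
            MulAut.conj_apply]
        rw [h5]
        exact Subgroup.commutator_mem_commutator (hxT a ha) (hxT b hb)
      intro a ha
      exact h4 ha
    have hxN := normalizer_mem_of_pow _ x hxA (p ^ a) (pow_pos hp.pos a) hxp
    obtain ⟨x', hx'⟩ : ∃ x' : ↥(Subgroup.normalizer ((⁅T, T⁆ : Subgroup (Module.End K V)ˣ) : Set (Module.End K V)ˣ)),
        (x' : (Module.End K V)ˣ) = x := ⟨⟨x, hxN⟩, rfl⟩
    have hxψ : D.act x' ψ ≠ 1 := by
      intro h
      apply hψ1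
      have h4 : D.act x'⁻¹ (D.act x' ψ) = D.act x'⁻¹ 1 := by rw [h]
      rw [← D.act_mul, inv_mul_cancel, D.act_one] at h4
      rw [h4]
      ext w
      simp [WData.act_apply]
    have hfix := huniq _ _ (D.wsp_act_ne_bot x' hψ) hxψ hψ hψ1
    have hxU : x ∈ stab (wsp D.rho ψ) := by
      refine ⟨fun u hu => ?_, fun u hu => ?_⟩
      · have := D.map_wsp x' hu
        rwa [hfix, hπ, hx'] at this
      · have := D.map_wsp x'⁻¹ hu
        rw [hinv_fix x' ψ hfix, hπ] at this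
        simpa [hx'] using this
    exact res_hh4 T hq hqo hT hqK y hyT hs hso hsK hys hqs hgen hF _ (hTstab ψ) (hystab ψ hψ hψ1)
      (hcomm_scal ψ) (hcomm_ne ψ hψ hψ1) x hxT hxU hp hpo hps hpq hxp hxy hxgen

end Final

section Final2

universe v

variable {K : Type*} [Field K] {V : Type v} [AddCommGroup V] [Module K V] [IsAlgClosed K] [FiniteDimensional K V]

/-- The abelian case. -/
theorem ab_main (T : Subgroup (Module.End K V)ˣ) [Finite T] {q : ℕ} (hq : q.Prime)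
    (hT : IsPGroup q T) (hqK : (q : K) ≠ 0) (y : (Module.End K V)ˣ) (hyT : ∀ t ∈ T, y * t * y⁻¹ ∈ T)
    {s : ℕ} (hs : s.Prime) (hys : y ^ s = 1) (hgen : TGen T y)
    (hab : ∀ a ∈ T, ∀ b ∈ T, a * b = b * a) :
    (finrank K (LinearMap.ker ((y : Module.End K V) - 1)) = 0 → ∀ t ∈ T, t = 1) ∧
    (finrank K (LinearMap.ker ((y : Module.End K V) - 1)) ≤ 1 →
     ∀ (x : (Module.End K V)ˣ) (hxT : ∀ t ∈ T, x * t * x⁻¹ ∈ T) {p a : ℕ} (hp : p.Prime)
      (hps : p ≠ s) (hxp : x ^ (p ^ a) = 1) (hxy : x * y = y * x) (hxgen : TGen T x), ∀ t ∈ T, t = 1) := by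
  classical
  haveI : Fact q.Prime := ⟨hq⟩
  obtain ⟨n, hn⟩ := IsPGroup.iff_card.mp hT
  have hAc : (Nat.card T : K) ≠ 0 := by
    rw [hn]
    push_cast
    exact pow_ne_zero _ hqK
  obtain ⟨W, _, D, e, h1, h2, h3⟩ := exists_model T hab
  have hfinite : Finite W := Finite.of_equiv _ e.symm.toEquiv
  have hcW : (Nat.card W : K) ≠ 0 := by
    rwa [Nat.card_congr e.toEquiv]
  have hπ : ∀ g, (D.π g : Module.End K V) = ((g : (Module.End K V)ˣ) : Module.End K V) := by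
    intro g
    rw [h2]
  have hyN : y ∈ Subgroup.normalizer (T : Set (Module.End K V)ˣ) :=
    normalizer_mem_of_pow _ y hyT s hs.pos hys
  obtain ⟨y', hy'⟩ : ∃ y' : ↥(Subgroup.normalizer (T : Set (Module.End K V)ˣ)),
      (y' : (Module.End K V)ˣ) = y := ⟨⟨y, hyN⟩, rfl⟩
  have hys' : y' ^ s = 1 := by
    apply Subtype.ext
    simp [hy', hys]
  have hinv_fix : ∀ (g : ↥(Subgroup.normalizer (T : Set (Module.End K V)ˣ)))
      (ψ : W →* Kˣ), D.act g ψ = ψ → D.act g⁻¹ ψ = ψ := by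
    intro g ψ hg
    conv_lhs => rw [← hg]
    rw [← D.act_mul, inv_mul_cancel, D.act_one]
  have hφinj : Function.Injective D.φ := by
    intro a b hab'
    rw [h1, h1] at hab'
    exact e.injective (Subtype.ext hab')
  have hfixtriv : ∀ ψ : W →* Kˣ, D.act y' ψ = ψ → ψ = 1 := by
    intro ψ hψ
    have hX : T ≤ ψ.ker.map D.φ := by
      apply hgen
      intro t ht
      obtain ⟨w, hw⟩ : ∃ w : W, (e w : (Module.End K V)ˣ) = t := ⟨e.symm ⟨t, ht⟩, by simp⟩
      refine ⟨w⁻¹ * D.α y' w, ?_, ?_⟩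
      · show _ ∈ ψ.ker
        rw [MonoidHom.mem_ker, map_mul, map_inv]
        have h4 := congrArg (fun f : W →* Kˣ => f w) (hinv_fix y' ψ hψ)
        simp only [WData.act_apply, inv_inv] at h4
        rw [h4, inv_mul_cancel]
      · rw [map_mul, map_inv, h1, h1, h3, hw, hy']
    ext w
    obtain ⟨u, hu, hu2⟩ := hX (e w).2
    have h4 : D.φ u = D.φ w := by
      rw [hu2, h1]
    have h5 := hφinj h4
    rw [← h5]
    have : ψ u = 1 := hu
    rw [this]
    rfl
  have hvanish : ∀ (w : W), (∀ ψ : W →* Kˣ, wsp D.rho ψ ≠ ⊥ → ψ = 1) → (e w : (Module.End K V)ˣ) = 1 := by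
    intro w h
    by_contra hne
    have hρ : D.rho w ≠ 1 := by
      intro h4
      apply hne
      apply Units.ext
      rw [← h1, ← WData.rho_apply, h4]
      rfl
    obtain ⟨ψ, hψ, hψw⟩ := exists_wsp_apply_ne hcW D.rho hρ
    rw [h ψ hψ] at hψw
    exact hψw rfl
  refine ⟨?_, ?_⟩
  · intro hF0 t ht
    obtain ⟨w, hw⟩ : ∃ w : W, (e w : (Module.End K V)ˣ) = t := ⟨e.symm ⟨t, ht⟩, by simp⟩
    rw [← hw]
    apply hvanish
    intro ψ hψ
    apply hfixtriv
    by_contra hm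
    have hdim := D.finrank_wsp_le hcW y' hs hys' hm
    rw [hπ, hy', hF0] at hdim
    apply hψ
    exact Submodule.finrank_eq_zero.mp (Nat.le_zero.mp hdim)
  · intro hF x hxT p a hp hps hxp hxy hxgen t ht
    have hxN : x ∈ Subgroup.normalizer (T : Set (Module.End K V)ˣ) :=
      normalizer_mem_of_pow _ x hxT (p ^ a) (pow_pos hp.pos a) hxp
    obtain ⟨x', hx'⟩ : ∃ x' : ↥(Subgroup.normalizer (T : Set (Module.End K V)ˣ)),
        (x' : (Module.End K V)ˣ) = x := ⟨⟨x, hxN⟩, rfl⟩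
    have hx'p : x' ^ (p ^ a) = 1 := by
      apply Subtype.ext
      simp [hx', hxp]
    have hcomm' : x' * y' = y' * x' := by
      apply Subtype.ext
      simp only [Subgroup.coe_mul, hx', hy']
      exact hxy
    have hfixx : ∀ ψ : W →* Kˣ, wsp D.rho ψ ≠ ⊥ → D.act x' ψ = ψ := by
      intro ψ hψ
      by_cases hψ1 : ψ = 1
      · subst hψ1
        ext w
        simp [WData.act_apply]
      · have hm : D.act y' ψ ≠ ψ := fun h => hψ1 (hfixtriv ψ h)
        have hxψ1 : D.act x' ψ ≠ 1 := by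
          intro h
          apply hψ1
          have h4 : D.act x'⁻¹ (D.act x' ψ) = D.act x'⁻¹ 1 := by rw [h]
          rw [← D.act_mul, inv_mul_cancel, D.act_one] at h4
          rw [h4]
          ext w
          simp [WData.act_apply]
        have hm2 : D.act y' (D.act x' ψ) ≠ D.act x' ψ := fun h => hxψ1 (hfixtriv _ h)
        obtain ⟨i, hi⟩ := D.moved_single hcW y' hs hys' (by rw [hπ, hy']; exact hF) hψ
          (D.wsp_act_ne_bot x' hψ) hm hm2
        have hpowc : ∀ m : ℕ, D.act (x' ^ m) ψ = D.act (y' ^ (i * m)) ψ := by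
          intro m
          induction m with
          | zero => simp
          | succ m ih =>
            have hcm : Commute (x' ^ m) (y' ^ i) := (Commute.pow_pow hcomm' m i)
            rw [pow_succ, D.act_mul, ← hi, ← D.act_mul, hcm.eq, D.act_mul, ih, ← D.act_mul, ← pow_add]
            congr 2
            ring
        have h4 := hpowc (p ^ a)
        rw [hx'p, D.act_one] at h4
        have h5 : s ∣ i * p ^ a := by
          by_contra hnd
          exact D.act_pow_ne y' hs hys' hm hnd h4.symm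
        have h6 : s ∣ i := by
          have h7 : Nat.Coprime s (p ^ a) :=
            Nat.Coprime.pow_right a ((Nat.coprime_primes hs hp).mpr hps.symm)
          exact h7.dvd_of_dvd_mul_right h5
        obtain ⟨c, rfl⟩ := h6
        rw [pow_mul, hys', one_pow, D.act_one] at hi
        exact hi.symm
    have hfw := D.fix_of_weights hcW x' hfixx
    have hcent : ∀ t ∈ T, x * t * x⁻¹ = t := by
      intro t ht
      obtain ⟨w, hw⟩ : ∃ w : W, (e w : (Module.End K V)ˣ) = t := ⟨e.symm ⟨t, ht⟩, by simp⟩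
      have h4 := hfw w
      rw [h1, h1, h3, hw, hx'] at h4
      exact h4
    have hbot : T ≤ ⊥ := by
      apply hxgen
      intro t ht
      rw [Subgroup.mem_bot, hcent t ht, inv_mul_cancel]
    exact hbot ht

/-- **Prime action**: a `q`-group `T = [T, y]` with `C_V(y) = 0` is trivial. -/
theorem t5 (T : Subgroup (Module.End K V)ˣ) [Finite T] {q : ℕ} (hq : q.Prime) (hqo : Odd q)
    (hT : IsPGroup q T) (hqK : (q : K) ≠ 0) (y : (Module.End K V)ˣ) (hyT : ∀ t ∈ T, y * t * y⁻¹ ∈ T)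
    {s : ℕ} (hs : s.Prime) (hso : Odd s) (hsK : (s : K) ≠ 0) (hys : y ^ s = 1) (hqs : q ≠ s) (hgen : TGen T y)
    (hF : finrank K (LinearMap.ker ((y : Module.End K V) - 1)) = 0) : ∀ t ∈ T, t = 1 := by
  by_cases hab : ∀ a ∈ T, ∀ b ∈ T, a * b = b * a
  · exact (ab_main T hq hT hqK y hyT hs hys hgen hab).1 hF
  · push Not at hab
    obtain ⟨v, hv0, hv⟩ := (nonab_main T hq hqo hT hqK y hyT hs hso hsK hys hqs hgen (by omega) hab).1
    exfalso
    have h1 : LinearMap.ker ((y : Module.End K V) - 1) = ⊥ := Submodule.finrank_eq_zero.mp hF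
    have h2 : v ∈ LinearMap.ker ((y : Module.End K V) - 1) := by
      rw [LinearMap.mem_ker, LinearMap.sub_apply, hv, Module.End.one_apply, sub_self]
    rw [h1, Submodule.mem_bot] at h2
    exact hv0 h2

/-- **Two commuting elements**: with `dim C_V(y) ≤ 1`, a `q`-group `T = [T, y] = [T, x]` is trivial. -/
theorem t2 (T : Subgroup (Module.End K V)ˣ) [Finite T] {q : ℕ} (hq : q.Prime) (hqo : Odd q)
    (hT : IsPGroup q T) (hqK : (q : K) ≠ 0) (y : (Module.End K V)ˣ) (hyT : ∀ t ∈ T, y * t * y⁻¹ ∈ T)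
    {s : ℕ} (hs : s.Prime) (hso : Odd s) (hsK : (s : K) ≠ 0) (hys : y ^ s = 1) (hqs : q ≠ s) (hgen : TGen T y)
    (hF : finrank K (LinearMap.ker ((y : Module.End K V) - 1)) ≤ 1)
    (x : (Module.End K V)ˣ) (hxT : ∀ t ∈ T, x * t * x⁻¹ ∈ T) {p a : ℕ} (hp : p.Prime) (hpo : Odd p)
    (hps : p ≠ s) (hpq : p ≠ q) (hxp : x ^ (p ^ a) = 1) (hxy : x * y = y * x) (hxgen : TGen T x) :
    ∀ t ∈ T, t = 1 := by
  by_cases hab : ∀ a ∈ T, ∀ b ∈ T, a * b = b * a
  · exact (ab_main T hq hT hqK y hyT hs hys hgen hab).2 hF x hxT hp hps hxp hxy hxgen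
  · push Not at hab
    exfalso
    exact (nonab_main T hq hqo hT hqK y hyT hs hso hsK hys hqs hgen hF hab).2 x hxT hp hpo hps hpq hxp hxy hxgen

end Final2

end Cfsg.Agent.Lib.BGT5
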