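import Mathlib
import Cfsg.Agent.Lib.BGSec
import Cfsg.Agent.Lib.BGT5
import Cfsg.Agent.Lib.Frat
import Cfsg.Agent.Lib.Glauberman

/-!
# Frattini sections and fixed-point-free elements
-/

set_option autoImplicit false
set_option linter.unusedSectionVars false
set_option linter.unusedVariables false
set_option linter.style.haveILetI false
set_option linter.unusedSimpArgs false
set_option linter.unusedDecidableInType false
set_option linter.unusedFintypeInType false

namespace Cfsg.Agent.Lib.BGFr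

open Module TensorProduct Cfsg.Agent.Lib.BGSec Cfsg.Agent.Lib.BGNorm

universe u

variable {G : Type u} [Group G]

/-- Images of generation conditions. -/
theorem tGen_map {H : Type*} [Group H] (f : G →* H) {T : Subgroup G} {g : G} (h : TGen T g) :
    TGen (T.map f) (f g) := by
  intro X hX
  have h1 : T ≤ X.comap f := by
    apply h
    intro t ht
    rw [Subgroup.mem_comap]
    have := hX (f t) ⟨t, ht, rfl⟩
    simpa using this
  rw [Subgroup.map_le_iff_le_comap]
  exact h1

/-- The Frattini subgroup of a subgroup, inside the ambient group. -/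
def frat (P : Subgroup G) : Subgroup G := (frattini ↥P).map P.subtype

theorem frat_le (P : Subgroup G) : frat P ≤ P := Subgroup.map_subtype_le _

theorem mem_frat {P : Subgroup G} {a : ↥P} : (a : G) ∈ frat P ↔ a ∈ frattini ↥P := by
  constructor
  · rintro ⟨b, hb, e⟩
    have : b = a := Subtype.ext e
    rwa [← this]
  · intro h
    exact ⟨a, h, rfl⟩

theorem conj_mem_frat {P : Subgroup G} {g : G} (hg : g ∈ Subgroup.normalizer (P : Set G)) {a : G}
    (ha : a ∈ frat P) : g * a * g⁻¹ ∈ frat P := by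
  obtain ⟨f, hf, rfl⟩ := ha
  let σ : P ≃* P := Subgroup.normalizerMonoidHom P ⟨g, hg⟩
  have h1 : σ f ∈ frattini P := by
    have hchar : (frattini P).Characteristic := inferInstance
    have h2 := hchar.fixed σ.symm
    have h3 : σ f ∈ (frattini P).comap σ.symm.toMonoidHom := by
      simpa using hf
    rwa [h2] at h3
  exact ⟨σ f, h1, rfl⟩

theorem normalizer_le_normalizer_frat (P : Subgroup G) :
    Subgroup.normalizer (P : Set G) ≤ Subgroup.normalizer (frat P : Set G) := by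
  rw [Subgroup.le_normalizer_iff]
  intro h hh k hk
  exact conj_mem_frat hh hk

/-- The Frattini quotient of a normal `ℓ`-subgroup as a module. -/
theorem exists_frat (ℓ : ℕ) [Fact ℓ.Prime] [Finite G] (P : Subgroup G) (hP : IsPGroup ℓ P) [P.Normal] :
    ∃ (M : Type u) (_ : AddCommGroup M) (_ : Module (ZMod ℓ) M) (_ : Finite M) (f : ↥P → M)
      (ρ : G →* (Module.End (ZMod ℓ) M)ˣ),
      Function.Surjective f ∧ (∀ a b, f (a * b) = f a + f b) ∧ (∀ a, f a = 0 ↔ (a : G) ∈ frat P) ∧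
      ∀ (g : G) (a : ↥P) (h : g * a * g⁻¹ ∈ P), ((ρ g : Module.End (ZMod ℓ) M) (f a)) = f ⟨g * a * g⁻¹, h⟩ := by
  have hN : ∀ g : G, g ∈ Subgroup.normalizer (P : Set G) := by
    intro g
    rw [Subgroup.normalizer_eq_top_iff.mpr ‹_›]
    trivial
  obtain ⟨M, i1, i2, i3, f, ρ, h1, h2, h3, h4⟩ := exists_sec ℓ P (frat P) ⊤ (frat_le P)
    (by
      intro a ha b hb
      have h := Cfsg.Agent.Lib.Frat.commutator_le_frattini hP
        (Subgroup.commutator_mem_commutator (Subgroup.mem_top (⟨a, ha⟩ : ↥P)) (Subgroup.mem_top (⟨b, hb⟩ : ↥P)))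
      have := mem_frat.mpr h
      simpa [commutatorElement_def] using this)
    (by
      intro a ha
      have h := Cfsg.Agent.Lib.Frat.pow_mem_frattini hP (⟨a, ha⟩ : ↥P)
      have := mem_frat.mpr h
      simpa using this)
    (by
      intro g _ a ha
      exact ‹P.Normal›.conj_mem a ha g)
    (by
      intro g _ a ha
      exact conj_mem_frat (hN g) ha)
  refine ⟨M, i1, i2, i3, f, ρ.comp Subgroup.topEquiv.symm.toMonoidHom, h1, h2, h3, ?_⟩
  intro g a h
  exact h4 ⟨g, trivial⟩ a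

section FratT5

variable {X : Type u} [Group X] [Finite X]

theorem frat_t5 {ℓ q s : ℕ} [Fact ℓ.Prime] (hq : q.Prime) (hqo : Odd q)
    (hs : s.Prime) (hso : Odd s) (hℓq : ℓ ≠ q) (hℓs : ℓ ≠ s) (hqs : q ≠ s)
    (P T : Subgroup X) [P.Normal] (hP : IsPGroup ℓ P) (hT : IsPGroup q T) (y : X) (hys : y ^ s = 1)
    (hyT : ∀ t ∈ T, y * t * y⁻¹ ∈ T) (hgen : TGen T y) (hfp : ∀ a ∈ P, y * a * y⁻¹ = a → a = 1) :
    T ≤ Subgroup.centralizer (P : Set X) := by
  classical
  haveI : Fact q.Prime := ⟨hq⟩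
  have hℓ : ℓ.Prime := Fact.out
  obtain ⟨M, i1, i2, i3, f, ρ₀, hfs, hfa, hfk, hfe⟩ := exists_frat ℓ P hP
  let 𝕜 := AlgebraicClosure (ZMod ℓ)
  let V := 𝕜 ⊗[ZMod ℓ] M
  let ρ : X →* (Module.End 𝕜 V)ˣ := (bcU 𝕜).comp ρ₀
  have hcast : ∀ n : ℕ, n.Prime → ℓ ≠ n → (n : 𝕜) ≠ 0 := by
    intro n hn hne h0
    have := (CharP.cast_eq_zero_iff 𝕜 ℓ n).mp h0
    exact hne ((Nat.prime_dvd_prime_iff_eq hℓ hn).mp this)
  haveI : Finite ↥(T.map ρ) := Finite.of_surjective (ρ.subgroupMap T) (ρ.subgroupMap_surjective T)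
  have hN : ∀ g : X, g ∈ Subgroup.normalizer (P : Set X) := by
    intro g
    rw [Subgroup.normalizer_eq_top_iff.mpr ‹_›]
    trivial
  have hf1 : f 1 = 0 := by
    have := hfa 1 1
    rw [mul_one] at this
    exact left_eq_add.mp this
  have hfinv : ∀ a, f a⁻¹ = - f a := by
    intro a
    have := hfa a a⁻¹
    rw [mul_inv_cancel, hf1] at this
    exact (neg_eq_of_add_eq_zero_right this.symm).symm
  have hcopP : Nat.Coprime (orderOf y) (Nat.card P) := by
    obtain ⟨n, hn⟩ := IsPGroup.iff_card.mp hP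
    rw [hn]
    exact Nat.Coprime.coprime_dvd_left (orderOf_dvd_of_pow_eq_one hys)
      (Nat.Coprime.pow_right n ((Nat.coprime_primes hs hℓ).mpr hℓs.symm))
  have hF : finrank 𝕜 (LinearMap.ker (((ρ y : (Module.End 𝕜 V)ˣ) : Module.End 𝕜 V) - 1)) = 0 := by
    have h1 := finrank_bcU_le (𝕜 := 𝕜) (ρ₀ y)
    have h2 : finrank (ZMod ℓ) (LinearMap.ker (((ρ₀ y : (Module.End (ZMod ℓ) M)ˣ) : Module.End (ZMod ℓ) M) - 1)) = 0 := by
      rw [Submodule.finrank_eq_zero, eq_bot_iff]
      intro v hv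
      obtain ⟨a, rfl⟩ := hfs v
      rw [LinearMap.mem_ker, LinearMap.sub_apply, sub_eq_zero] at hv
      rw [Submodule.mem_bot, hfk]
      have hv' : ((ρ₀ y : (Module.End (ZMod ℓ) M)ˣ) : Module.End (ZMod ℓ) M) (f a) = f a := hv
      have hpow : ∀ n : ℕ, ((ρ₀ (y ^ n) : (Module.End (ZMod ℓ) M)ˣ) : Module.End (ZMod ℓ) M) (f a) = f a := by
        intro n
        induction n with
        | zero =>
          simp
        | succ n ih =>
          rw [pow_succ, map_mul, Units.val_mul, Module.End.mul_apply, hv', ih]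
      obtain ⟨c, hc, hac⟩ := Cfsg.Agent.Lib.Glauberman.exists_mem_centralizer_of_coset_fixed
        (A := Subgroup.zpowers y) (K := P) (N := frat P)
        (by rwa [Nat.card_zpowers]) (Or.inr (by
          haveI : Group.IsNilpotent ↥P := hP.isNilpotent
          infer_instance)) (frat_le P) (Subgroup.le_normalizer.trans (normalizer_le_normalizer_frat P))
        (by
          intro g _
          exact normalizer_le_normalizer_frat P (hN g)) (a : X) a.2 (by
          intro z hz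
          obtain ⟨n, rfl⟩ := Submonoid.mem_powers_iff _ _ |>.mp
            ((isOfFinOrder_of_finite y).mem_powers_iff_mem_zpowers.mpr hz)
          have h5 := hfe (y ^ n) a (‹P.Normal›.conj_mem a a.2 _)
          rw [hpow n] at h5
          have h6 : f (⟨y ^ n * a * (y ^ n)⁻¹, ‹P.Normal›.conj_mem a a.2 _⟩ * a⁻¹) = 0 := by
            rw [hfa, hfinv, ← h5, add_neg_cancel]
          exact (hfk _).mp h6)
      have hc1 : c = 1 := by
        apply hfp c hc.1
        have := Subgroup.mem_centralizer_iff.mp hc.2 y (Subgroup.mem_zpowers y)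
        rw [this]
        group
      rw [hc1, mul_one] at hac
      simpa using (frat P).inv_mem hac
    have h3 : (ρ y : (Module.End 𝕜 V)ˣ) = bcU 𝕜 (ρ₀ y) := rfl
    rw [h3]
    exact Nat.le_zero.mp (h1.trans h2.le)
  have hres := Cfsg.Agent.Lib.BGT5.t5 (T.map ρ) hq hqo (hT.map ρ) (hcast q hq hℓq) (ρ y)
    (by
      rintro _ ⟨t, ht, rfl⟩
      exact ⟨y * t * y⁻¹, hyT t ht, by simp⟩)
    hs hso (hcast s hs hℓs) (by rw [← map_pow, hys, map_one]) hqs (tGen_map ρ hgen) hF
  have hρ₀ : ∀ t ∈ T, ρ₀ t = 1 := by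
    intro t ht
    apply bcU_injective (𝕜 := 𝕜)
    rw [map_one]
    exact hres _ ⟨t, ht, rfl⟩
  apply Cfsg.Agent.Lib.Glauberman.le_centralizer_of_frattini
  · intro t _
    exact hN t
  · obtain ⟨n, hn⟩ := IsPGroup.iff_card.mp hP
    obtain ⟨m, hm⟩ := IsPGroup.iff_card.mp hT
    rw [hm]
    apply Nat.Coprime.coprime_dvd_right (Subgroup.card_subgroup_dvd_card _)
    rw [hn]
    exact Nat.Coprime.pow _ _ ((Nat.coprime_primes hq hℓ).mpr hℓq.symm)
  · intro t ht a ha
    have h5 := hfe t ⟨a, ha⟩ (‹P.Normal›.conj_mem a ha _)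
    rw [hρ₀ t ht] at h5
    have h6 : f (⟨t * a * t⁻¹, ‹P.Normal›.conj_mem a ha _⟩ * (⟨a, ha⟩ : ↥P)⁻¹) = 0 := by
      rw [hfa, hfinv, ← h5]
      simp
    exact (hfk _).mp h6

end FratT5

end Cfsg.Agent.Lib.BGFr
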