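import Mathlib

/-!
# A ring identity for a group with a fixed-point-free element
-/

set_option autoImplicit false
set_option linter.unusedSectionVars false
set_option linter.unusedVariables false
set_option linter.style.haveILetI false
set_option linter.unusedSimpArgs false
set_option linter.unusedDecidableInType false
set_option linter.unusedFintypeInType false

namespace Cfsg.Agent.Lib.BGFrob

variable {Γ : Type*} [Group Γ]

theorem conj_pow_mem_of (A : Subgroup Γ) (y : Γ) (hyA : ∀ a ∈ A, y * a * y⁻¹ ∈ A) (i : ℕ) :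
    ∀ a ∈ A, y ^ i * a * (y ^ i)⁻¹ ∈ A := by
  induction i with
  | zero =>
    intro a ha
    simpa using ha
  | succ i ih =>
    intro a ha
    have h1 := hyA _ (ih a ha)
    have e : y ^ (i + 1) * a * (y ^ (i + 1))⁻¹ = y * (y ^ i * a * (y ^ i)⁻¹) * y⁻¹ := by
      rw [pow_succ']
      group
    rw [e]
    exact h1

/-- The Frobenius identity in a ring. -/
theorem frob_ring {R : Type*} [Ring R] (ρ : Γ →* R) (A : Subgroup Γ) [Finite A] (y : Γ) {s : ℕ} (hs : 0 < s)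
    (hyA : ∀ a ∈ A, y * a * y⁻¹ ∈ A)
    (hfp : ∀ i, 0 < i → i < s → ∀ a ∈ A, y ^ i * a * (y ^ i)⁻¹ = a → a = 1)
    (hN : ∑ i ∈ Finset.range s, ρ y ^ i = 0) (hA : IsUnit ((Nat.card A : ℕ) : R)) : ∀ a ∈ A, ρ a = 1 := by
  classical
  haveI := Fintype.ofFinite A
  have hconj := conj_pow_mem_of A y hyA
  have hθ : ∀ i, 0 < i → i < s →
      ∑ a : A, ρ (a : Γ) * ρ y ^ i * ρ ((a : Γ)⁻¹) = (∑ a : A, ρ (a : Γ)) * ρ y ^ i := by
    intro i hi0 his
    let θ : A → A := fun a => ⟨a * (y ^ i * (a : Γ)⁻¹ * (y ^ i)⁻¹), A.mul_mem a.2 (hconj i _ (A.inv_mem a.2))⟩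
    have hinj : Function.Injective θ := by
      intro a b hab
      have h1 : (a : Γ) * (y ^ i * (a : Γ)⁻¹ * (y ^ i)⁻¹) = b * (y ^ i * (b : Γ)⁻¹ * (y ^ i)⁻¹) := congrArg Subtype.val hab
      have h2 : y ^ i * ((b : Γ)⁻¹ * a) * (y ^ i)⁻¹ = (b : Γ)⁻¹ * a := by
        have h3 : (b : Γ)⁻¹ * a = (y ^ i * (b : Γ)⁻¹ * (y ^ i)⁻¹) * (y ^ i * (a : Γ)⁻¹ * (y ^ i)⁻¹)⁻¹ := by
          rw [eq_mul_inv_iff_mul_eq, mul_assoc, h1]
          group
        have h4 : (y ^ i * (b : Γ)⁻¹ * (y ^ i)⁻¹) * (y ^ i * (a : Γ)⁻¹ * (y ^ i)⁻¹)⁻¹ = y ^ i * ((b : Γ)⁻¹ * a) * (y ^ i)⁻¹ := by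
          group
        exact h4.symm.trans h3.symm
      have h3 := hfp i hi0 his _ (A.mul_mem (A.inv_mem b.2) a.2) h2
      apply Subtype.ext
      rw [inv_mul_eq_one] at h3
      exact h3.symm
    have hbij := Finite.injective_iff_bijective.mp hinj
    calc ∑ a : A, ρ (a : Γ) * ρ y ^ i * ρ ((a : Γ)⁻¹) = ∑ a : A, ρ (θ a : Γ) * ρ y ^ i := by
          apply Finset.sum_congr rfl
          intro a _
          rw [← map_pow, ← map_mul, ← map_mul, ← map_mul]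
          congr 1
          show (a : Γ) * y ^ i * (a : Γ)⁻¹ = (a : Γ) * (y ^ i * (a : Γ)⁻¹ * (y ^ i)⁻¹) * y ^ i
          group
      _ = (∑ a : A, ρ (θ a : Γ)) * ρ y ^ i := by rw [Finset.sum_mul]
      _ = (∑ a : A, ρ (a : Γ)) * ρ y ^ i := by rw [hbij.sum_comp (fun a : A => ρ (a : Γ))]
  have hzero : ∑ a : A, ρ (a : Γ) * (∑ i ∈ Finset.range s, ρ y ^ i) * ρ ((a : Γ)⁻¹) = 0 := by
    simp [hN]
  have hexp : ∑ a : A, ρ (a : Γ) * (∑ i ∈ Finset.range s, ρ y ^ i) * ρ ((a : Γ)⁻¹) =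
      ∑ i ∈ Finset.range s, ∑ a : A, ρ (a : Γ) * ρ y ^ i * ρ ((a : Γ)⁻¹) := by
    rw [Finset.sum_comm]
    apply Finset.sum_congr rfl
    intro a _
    rw [Finset.mul_sum, Finset.sum_mul]
  obtain ⟨t, rfl⟩ := Nat.exists_eq_succ_of_ne_zero hs.ne'
  rw [hexp, Nat.succ_eq_add_one, Finset.sum_range_succ'] at hzero
  have h0 : ∑ a : A, ρ (a : Γ) * ρ y ^ 0 * ρ ((a : Γ)⁻¹) = ((Nat.card A : ℕ) : R) := by
    have : ∀ a : A, ρ (a : Γ) * ρ y ^ 0 * ρ ((a : Γ)⁻¹) = 1 := by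
      intro a
      rw [pow_zero, mul_one, ← map_mul, mul_inv_cancel, map_one]
    rw [Finset.sum_congr rfl (fun a _ => this a)]
    simp [Nat.card_eq_fintype_card]
  have h1 : ∑ i ∈ Finset.range t, ∑ a : A, ρ (a : Γ) * ρ y ^ (i + 1) * ρ ((a : Γ)⁻¹) =
      (∑ a : A, ρ (a : Γ)) * ∑ i ∈ Finset.range t, ρ y ^ (i + 1) := by
    rw [Finset.mul_sum]
    apply Finset.sum_congr rfl
    intro i hi
    exact hθ (i + 1) (Nat.succ_pos i) (by simpa using Finset.mem_range.mp hi)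
  have hN' : ∑ i ∈ Finset.range t, ρ y ^ (i + 1) = -1 := by
    rw [Nat.succ_eq_add_one, Finset.sum_range_succ', pow_zero] at hN
    exact eq_neg_of_add_eq_zero_left hN
  rw [h0, h1, hN', mul_neg, mul_one] at hzero
  have hS : (∑ a : A, ρ (a : Γ)) = ((Nat.card A : ℕ) : R) := by
    have := neg_add_eq_zero.mp hzero
    exact this
  intro a₀ ha₀
  have hmul : ρ a₀ * ∑ a : A, ρ (a : Γ) = ∑ a : A, ρ (a : Γ) := by
    rw [Finset.mul_sum]
    have hbij : Function.Bijective (fun a : A => (⟨a₀, ha₀⟩ : A) * a) := Group.mulLeft_bijective _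
    have := hbij.sum_comp (fun a : A => ρ (a : Γ))
    rw [← this]
    apply Finset.sum_congr rfl
    intro a _
    rw [← map_mul]
    rfl
  rw [hS] at hmul
  have h3 : ρ a₀ * ((Nat.card A : ℕ) : R) = 1 * ((Nat.card A : ℕ) : R) := by
    rw [hmul, one_mul]
  exact hA.mul_right_cancel h3

/-- A geometric sum vanishes when there are no fixed vectors. -/
theorem geom_zero {F M : Type*} [Field F] [AddCommGroup M] [Module F M] (x : Module.End F M) {s : ℕ} (hx : x ^ s = 1)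
    (hfp : ∀ v, x v = v → v = 0) : ∑ i ∈ Finset.range s, x ^ i = 0 := by
  have h1 : (x - 1) * ∑ i ∈ Finset.range s, x ^ i = x ^ s - 1 := mul_geom_sum x s
  rw [hx, sub_self] at h1
  apply LinearMap.ext
  intro v
  apply hfp
  have h2 := LinearMap.congr_fun h1 v
  rw [Module.End.mul_apply, LinearMap.sub_apply, Module.End.one_apply] at h2
  exact sub_eq_zero.mp h2

end Cfsg.Agent.Lib.BGFrob
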