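import Mathlib
import Cfsg.Agent.Lib.BGT5

/-!
# Prime action: fixed points in the central quotient case
-/

set_option autoImplicit false
set_option linter.unusedSectionVars false
set_option linter.unusedVariables false
set_option linter.style.haveILetI false
set_option linter.unusedSimpArgs false
set_option linter.unusedDecidableInType false
set_option linter.unusedFintypeInType false

namespace Cfsg.Agent.Lib.BGRep

open Module Cfsg.Agent.Lib.BGWeight Cfsg.Agent.Lib.BGSymp Cfsg.Agent.Lib.BGAb Cfsg.Agent.Lib.BGNorm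
  Cfsg.Agent.Lib.BGHH Cfsg.Agent.Lib.BGRes Cfsg.Agent.Lib.BGT5

section Abstract

variable {H : Type*} [Group H]

theorem comm_scal_fix (A c y z : H) (hz : A * c * A⁻¹ * c⁻¹ = z) (hzc : ∀ g, z * g = g * z) (hyc : y * c = c * y) :
    (A⁻¹ * (y * A * y⁻¹)) * c = c * (A⁻¹ * (y * A * y⁻¹)) := by
  have h1 : A * c = z * c * A := by
    rw [← hz]
    group
  have h2 : y⁻¹ * c = c * y⁻¹ := by
    rw [inv_mul_eq_iff_eq_mul, ← mul_assoc, hyc]
    group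
  have h3 : (y * A * y⁻¹) * c = z * c * (y * A * y⁻¹) := by
    calc (y * A * y⁻¹) * c = y * A * (y⁻¹ * c) := by group
      _ = y * (A * c) * y⁻¹ := by rw [h2]; group
      _ = y * (z * c * A) * y⁻¹ := by rw [h1]
      _ = (y * z) * c * A * y⁻¹ := by group
      _ = (z * y) * c * A * y⁻¹ := by rw [hzc y]
      _ = z * (y * c) * A * y⁻¹ := by group
      _ = z * (c * y) * A * y⁻¹ := by rw [hyc]
      _ = z * c * (y * A * y⁻¹) := by group
  have h6 : A⁻¹ * (z * c) = c * A⁻¹ := by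
    rw [← hz]
    group
  calc (A⁻¹ * (y * A * y⁻¹)) * c = A⁻¹ * ((y * A * y⁻¹) * c) := by group
    _ = A⁻¹ * (z * c * (y * A * y⁻¹)) := by rw [h3]
    _ = (A⁻¹ * (z * c)) * (y * A * y⁻¹) := by group
    _ = c * A⁻¹ * (y * A * y⁻¹) := by rw [h6]
    _ = c * (A⁻¹ * (y * A * y⁻¹)) := by group

end Abstract

section Rep

universe v

variable {K : Type*} [Field K] {V : Type v} [AddCommGroup V] [Module K V] [IsAlgClosed K] [FiniteDimensional K V]

/-- A nontrivial weight space of the central part, stable under everything. -/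
theorem exists_good_weight (Q C S : Subgroup (Module.End K V)ˣ) [Finite Q] {q s : ℕ} (hq : q.Prime) (hQ : IsPGroup q Q)
    (hqK : (q : K) ≠ 0) (hCQ : C ≤ Q) (hcomm : ∀ a ∈ Q, ∀ b ∈ Q, a * b * a⁻¹ * b⁻¹ ∈ C)
    (hcen : ∀ c ∈ C, ∀ a ∈ Q, c * a = a * c) (y : (Module.End K V)ˣ) (hs : s.Prime) (hys : y ^ s = 1)
    (hyC : ∀ c ∈ C, y * c * y⁻¹ ∈ C) (hSC : ∀ b ∈ S, ∀ c ∈ C, b * c = c * b)
    (hnab : ∃ a ∈ Q, ∃ b ∈ Q, a * b ≠ b * a)
    (hF : finrank K (LinearMap.ker ((y : Module.End K V) - 1)) ≤ 1) :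
    ∃ U : Submodule K V, Q ≤ stab U ∧ S ≤ stab U ∧ y ∈ stab U ∧
      (∀ c ∈ C, ∃ k : K, ∀ u ∈ U, (c : Module.End K V) u = k • u) ∧
      (∃ a ∈ Q, ∃ b ∈ Q, ∃ u ∈ U, ((a * b * a⁻¹ * b⁻¹ : (Module.End K V)ˣ) : Module.End K V) u ≠ u) := by
  classical
  haveI : Fact q.Prime := ⟨hq⟩
  haveI : Finite C := Finite.of_injective (Subgroup.inclusion hCQ) (Subgroup.inclusion_injective hCQ)
  obtain ⟨n, hn⟩ := IsPGroup.iff_card.mp (hQ.to_le hCQ)
  have hAc : (Nat.card C : K) ≠ 0 := by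
    rw [hn]
    push_cast
    exact pow_ne_zero _ hqK
  have hAab : ∀ a ∈ C, ∀ b ∈ C, a * b = b * a := fun a ha b hb => hcen a ha b (hCQ hb)
  obtain ⟨W, _, D, e, h1, h2, h3⟩ := exists_model C hAab
  have hfinite : Finite W := Finite.of_equiv _ e.symm.toEquiv
  have hcW : (Nat.card W : K) ≠ 0 := by
    rwa [Nat.card_congr e.toEquiv]
  have hπ : ∀ g, (D.π g : Module.End K V) = ((g : (Module.End K V)ˣ) : Module.End K V) := by
    intro g
    rw [h2]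
  have hyN : y ∈ Subgroup.normalizer (C : Set (Module.End K V)ˣ) :=
    normalizer_mem_of_pow _ y hyC s hs.pos hys
  obtain ⟨y', hy'⟩ : ∃ y' : ↥(Subgroup.normalizer (C : Set (Module.End K V)ˣ)),
      (y' : (Module.End K V)ˣ) = y := ⟨⟨y, hyN⟩, rfl⟩
  have hys' : y' ^ s = 1 := by
    apply Subtype.ext
    simp [hy', hys]
  have hN : ∀ g : (Module.End K V)ˣ, (∀ c ∈ C, g * c = c * g) → g ∈ Subgroup.normalizer (C : Set (Module.End K V)ˣ) := by
    intro g hg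
    have hcm : ∀ a : (Module.End K V)ˣ, a ∈ C → g * a * g⁻¹ = a := by
      intro a ha
      rw [hg a ha]
      group
    refine Subgroup.mem_normalizer_iff.mpr (fun a => ⟨fun h => ?_, fun h => ?_⟩)
    · rwa [hcm a h]
    · have h8 := hg _ h
      have h7 : a = g * a * g⁻¹ := by
        calc a = g⁻¹ * ((g * a * g⁻¹) * g) := by group
          _ = g⁻¹ * (g * (g * a * g⁻¹)) := by rw [h8]
          _ = g * a * g⁻¹ := by group
      rw [h7]
      exact h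
  have hαT : ∀ g : ↥(Subgroup.normalizer (C : Set (Module.End K V)ˣ)),
      (∀ c ∈ C, (g : (Module.End K V)ˣ) * c = c * g) → ∀ w, D.α g w = w := by
    intro g hg w
    apply e.injective
    apply Subtype.ext
    rw [h3, hg _ (e w).2]
    group
  have hactT : ∀ g : ↥(Subgroup.normalizer (C : Set (Module.End K V)ˣ)),
      (∀ c ∈ C, (g : (Module.End K V)ˣ) * c = c * g) → ∀ ψ, D.act g ψ = ψ := by
    intro g hg ψ
    ext w
    rw [WData.act_apply, hαT g⁻¹ ?_]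
    intro c hc
    have h4 := hg c hc
    show ((g : (Module.End K V)ˣ))⁻¹ * c = c * ((g : (Module.End K V)ˣ))⁻¹
    rw [inv_mul_eq_iff_eq_mul, ← mul_assoc, h4]
    group
  have hpres : ∀ g : (Module.End K V)ˣ, (∀ c ∈ C, g * c = c * g) → ∀ ψ, ∀ v ∈ wsp D.rho ψ,
      (g : Module.End K V) v ∈ wsp D.rho ψ := by
    intro g hg ψ v hv
    have := D.map_wsp ⟨g, hN g hg⟩ hv
    rwa [hactT _ hg, hπ] at this
  have hstabc : ∀ g : (Module.End K V)ˣ, (∀ c ∈ C, g * c = c * g) → ∀ ψ, g ∈ stab (wsp D.rho ψ) := by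
    intro g hg ψ
    refine ⟨fun u hu => hpres g hg ψ u hu, fun u hu => hpres g⁻¹ ?_ ψ u hu⟩
    intro c hc
    have h4 := hg c hc
    rw [inv_mul_eq_iff_eq_mul, ← mul_assoc, h4]
    group
  have hQc : ∀ a ∈ Q, ∀ c ∈ C, a * c = c * a := fun a ha c hc => (hcen c hc a ha).symm
  -- the weight
  obtain ⟨a₀, ha₀, b₀, hb₀, hab₀⟩ := hnab
  obtain ⟨w₀, hw₀⟩ : ∃ w₀ : W, (e w₀ : (Module.End K V)ˣ) = a₀ * b₀ * a₀⁻¹ * b₀⁻¹ :=
    ⟨e.symm ⟨_, hcomm a₀ ha₀ b₀ hb₀⟩, by simp⟩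
  have hρ : D.rho w₀ ≠ 1 := by
    intro h
    apply hab₀
    have h4 : a₀ * b₀ * a₀⁻¹ * b₀⁻¹ = 1 := by
      apply Units.ext
      rw [← hw₀, ← h1, ← WData.rho_apply, h]
      rfl
    have h5 : a₀ * b₀ * a₀⁻¹ * b₀⁻¹ * (b₀ * a₀) = b₀ * a₀ := by rw [h4, one_mul]
    rw [← h5]
    group
  obtain ⟨ψ, hψ, hψw⟩ := exists_wsp_apply_ne hcW D.rho hρ
  have hact : ∀ u ∈ wsp D.rho ψ, ((a₀ * b₀ * a₀⁻¹ * b₀⁻¹ : (Module.End K V)ˣ) : Module.End K V) u = ((ψ w₀ : Kˣ) : K) • u := by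
    intro u hu
    have := hu w₀
    rw [WData.rho_apply, h1, hw₀] at this
    exact this
  obtain ⟨u, hu, hu0⟩ := Submodule.exists_mem_ne_zero_of_ne_bot hψ
  have hne : ((a₀ * b₀ * a₀⁻¹ * b₀⁻¹ : (Module.End K V)ˣ) : Module.End K V) u ≠ u := by
    rw [hact u hu]
    intro h
    apply hψw
    have h7 : ((ψ w₀ : Kˣ) : K) • u = (1 : K) • u := by
      rw [one_smul]
      exact h
    exact Units.ext (smul_left_injective K hu0 h7)
  have hinv_fix : ∀ (g : ↥(Subgroup.normalizer (C : Set (Module.End K V)ˣ)))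
      (ψ : W →* Kˣ), D.act g ψ = ψ → D.act g⁻¹ ψ = ψ := by
    intro g ψ hg
    conv_lhs => rw [← hg]
    rw [← D.act_mul, inv_mul_cancel, D.act_one]
  have hfixy : D.act y' ψ = ψ := by
    by_contra hm
    have hdim := D.finrank_wsp_le hcW y' hs hys' hm
    rw [hπ, hy'] at hdim
    have hdim1 : finrank K (wsp D.rho ψ) = 1 :=
      le_antisymm (hdim.trans hF) (Submodule.one_le_finrank_iff.mpr hψ)
    have hline : ∀ t ∈ Q, ∃ c : K, (t : Module.End K V) u = c • u := by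
      intro t ht
      obtain ⟨c, hc⟩ := exists_smul_eq_of_finrank_eq_one hdim1 (x := ⟨u, hu⟩)
        (fun h => hu0 (congrArg Subtype.val h)) ⟨_, hpres t (hQc t ht) ψ u hu⟩
      exact ⟨c, (congrArg Subtype.val hc).symm⟩
    obtain ⟨α, hα⟩ := hline a₀ ha₀
    obtain ⟨β, hβ⟩ := hline b₀ hb₀
    obtain ⟨γ, hγ⟩ := hline a₀⁻¹ (Q.inv_mem ha₀)
    obtain ⟨δ, hδ⟩ := hline b₀⁻¹ (Q.inv_mem hb₀)
    have hαγ : α * γ = 1 := by
      have h4 : (a₀ : Module.End K V) (((a₀⁻¹ : (Module.End K V)ˣ) : Module.End K V) u) = u :=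
        LinearMap.congr_fun (Units.mul_inv a₀) u
      rw [hγ, map_smul, hα, smul_smul] at h4
      have h5 : (γ * α) • u = (1 : K) • u := by
        rw [one_smul]
        exact h4
      rw [mul_comm]
      exact smul_left_injective K hu0 h5
    have hβδ : β * δ = 1 := by
      have h4 : (b₀ : Module.End K V) (((b₀⁻¹ : (Module.End K V)ˣ) : Module.End K V) u) = u :=
        LinearMap.congr_fun (Units.mul_inv b₀) u
      rw [hδ, map_smul, hβ, smul_smul] at h4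
      have h5 : (δ * β) • u = (1 : K) • u := by
        rw [one_smul]
        exact h4
      rw [mul_comm]
      exact smul_left_injective K hu0 h5
    apply hne
    simp only [Units.val_mul, Module.End.mul_apply, hδ, map_smul, hγ, hβ, hα, smul_smul]
    have : δ * (γ * (β * α)) = 1 := by
      calc δ * (γ * (β * α)) = (α * γ) * (β * δ) := by ring
        _ = 1 := by rw [hαγ, hβδ, one_mul]
    rw [this, one_smul]
  refine ⟨wsp D.rho ψ, fun a ha => hstabc a (hQc a ha) ψ, fun b hb => hstabc b (hSC b hb) ψ, ?_, ?_,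
    a₀, ha₀, b₀, hb₀, u, hu, hne⟩
  · refine ⟨fun u hu => ?_, fun u hu => ?_⟩
    · have := D.map_wsp y' hu
      rwa [hfixy, hπ, hy'] at this
    · have := D.map_wsp y'⁻¹ hu
      rw [hinv_fix y' ψ hfixy, hπ] at this
      simpa [hy'] using this
  · intro c hc
    refine ⟨((ψ (e.symm ⟨c, hc⟩) : Kˣ) : K), fun u hu => ?_⟩
    have := hu (e.symm ⟨c, hc⟩)
    rw [WData.rho_apply, h1] at this
    simpa using this

theorem res_comm_iff (U : Submodule K V) (a b : ↥(stab U)) :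
    res U a * res U b = res U b * res U a ↔
      ∀ u ∈ U, (((a * b * a⁻¹ * b⁻¹ : ↥(stab U)) : (Module.End K V)ˣ) : Module.End K V) u = u := by
  have h0 : res U a * res U b = res U b * res U a ↔ res U (a * b * a⁻¹ * b⁻¹) = 1 := by
    simp only [map_mul, map_inv]
    constructor
    · intro h
      rw [h]
      group
    · intro h
      have h5 : res U a * res U b * (res U a)⁻¹ * (res U b)⁻¹ * (res U b * res U a) = res U b * res U a := by
        rw [h, one_mul]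
      rw [← h5]
      group
  rw [h0]
  constructor
  · intro h u hu
    have h1 := res_apply U (a * b * a⁻¹ * b⁻¹) ⟨u, hu⟩
    rw [h] at h1
    exact h1.symm
  · intro h
    apply Units.ext
    apply LinearMap.ext
    intro u
    apply Subtype.ext
    rw [res_apply]
    exact h u u.2

/-- The main fixed point statement in the class two situation. -/
theorem rep_core (Q C T S : Subgroup (Module.End K V)ˣ) [Finite Q] {q s : ℕ} (hq : q.Prime) (hqo : Odd q) (hQ : IsPGroup q Q)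
    (hqK : (q : K) ≠ 0) (hCQ : C ≤ Q) (hcomm : ∀ a ∈ Q, ∀ b ∈ Q, a * b * a⁻¹ * b⁻¹ ∈ C)
    (hcen : ∀ c ∈ C, ∀ a ∈ Q, c * a = a * c) (y : (Module.End K V)ˣ) (hs : s.Prime) (hso : Odd s) (hsK : (s : K) ≠ 0)
    (hys : y ^ s = 1) (hqs : q ≠ s) (hyQ : ∀ a ∈ Q, y * a * y⁻¹ ∈ Q)
    (hyC : ∀ c ∈ C, y * c * y⁻¹ ∈ C) (hSQ : ∀ b ∈ S, ∀ a ∈ Q, b * a * b⁻¹ ∈ Q) (hSC : ∀ b ∈ S, ∀ c ∈ C, b * c = c * b)
    (hmin : ∀ Q' : Subgroup (Module.End K V)ˣ, Q' ≤ Q → Q' ≠ Q → (∀ a ∈ Q', y * a * y⁻¹ ∈ Q') →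
      (∀ b ∈ S, ∀ a ∈ Q', b * a * b⁻¹ ∈ Q') → Q' ≤ C)
    (hTQ : T ≤ Q) (hyT : ∀ t ∈ T, y * t * y⁻¹ ∈ T) (hgen : TGen T y) (hTC : ¬ T ≤ C)
    (hdec : ∀ b ∈ Q, ∃ t ∈ T, ∃ c ∈ Q, y * c * y⁻¹ = c ∧ b = t * c)
    (hnab : ∃ a ∈ Q, ∃ b ∈ Q, a * b ≠ b * a)
    (hF : finrank K (LinearMap.ker ((y : Module.End K V) - 1)) ≤ 1) :
    ∀ c ∈ Q, y * c * y⁻¹ = c → c ∈ C := by
  classical
  obtain ⟨U, hQs, hSs, hyU, hCs, a₀, ha₀, b₀, hb₀, u₀, hu₀, hne₀⟩ :=
    exists_good_weight Q C S hq hQ hqK hCQ hcomm hcen y hs hys hyC hSC hnab hF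
  haveI : Finite T := Finite.of_injective (Subgroup.inclusion hTQ) (Subgroup.inclusion_injective hTQ)
  have hTp : IsPGroup q T := hQ.to_le hTQ
  have hTs : T ≤ stab U := hTQ.trans hQs
  have hyN : y ∈ Subgroup.normalizer (Q : Set (Module.End K V)ˣ) := normalizer_mem_of_pow _ y hyQ s hs.pos hys
  have hyQ' : ∀ a ∈ Q, y⁻¹ * a * y ∈ Q := fun a ha => (Subgroup.mem_normalizer_iff''.mp hyN a).mp ha
  -- the radical
  let Rad : Subgroup (Module.End K V)ˣ :=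
    Q ⊓ ((Subgroup.centralizer (resG U Q : Set (Module.End K U)ˣ)).comap (res U)).map (stab U).subtype
  have hRadmem : ∀ a (ha : a ∈ Q), (∀ b (hb : b ∈ Q), res U ⟨a, hQs ha⟩ * res U ⟨b, hQs hb⟩ = res U ⟨b, hQs hb⟩ * res U ⟨a, hQs ha⟩) →
      a ∈ Rad := by
    intro a ha hab
    refine Subgroup.mem_inf.mpr ⟨ha, ⟨a, hQs ha⟩, Subgroup.mem_comap.mpr (Subgroup.mem_centralizer_iff.mpr ?_), rfl⟩
    intro x hx
    obtain ⟨b, hbs, hb, rfl⟩ := mem_resG.mp hx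
    exact (hab b hb).symm
  have hRadmem' : ∀ a ∈ Rad, ∀ (ha : a ∈ Q) (b) (hb : b ∈ Q),
      res U ⟨a, hQs ha⟩ * res U ⟨b, hQs hb⟩ = res U ⟨b, hQs hb⟩ * res U ⟨a, hQs ha⟩ := by
    rintro a ⟨_, ⟨a', ha'⟩, hc, rfl⟩ ha b hb
    have h1 := Subgroup.mem_centralizer_iff.mp (Subgroup.mem_comap.mp hc) (res U ⟨b, hQs hb⟩) (res_mem hb _)
    exact h1.symm
  have hconj : ∀ g (hg : g ∈ stab U), (∀ a ∈ Q, g * a * g⁻¹ ∈ Q) → (∀ a ∈ Q, g⁻¹ * a * g ∈ Q) → ∀ a ∈ Rad, g * a * g⁻¹ ∈ Rad := by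
    intro g hg hg1 hg2 a ha
    have haQ : a ∈ Q := ha.1
    apply hRadmem _ (hg1 a haQ)
    intro b hb
    have hb' := hg2 b hb
    have h1 := hRadmem' a ha haQ _ hb'
    have e1 : (⟨g * a * g⁻¹, hQs (hg1 a haQ)⟩ : ↥(stab U)) = ⟨g, hg⟩ * ⟨a, hQs haQ⟩ * (⟨g, hg⟩)⁻¹ := rfl
    have e2 : (⟨b, hQs hb⟩ : ↥(stab U)) = ⟨g, hg⟩ * ⟨g⁻¹ * b * g, hQs hb'⟩ * (⟨g, hg⟩)⁻¹ := by
      apply Subtype.ext
      show b = g * (g⁻¹ * b * g) * g⁻¹
      group
    rw [e1, e2]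
    simp only [map_mul, map_inv]
    calc res U ⟨g, hg⟩ * res U ⟨a, hQs haQ⟩ * (res U ⟨g, hg⟩)⁻¹ * (res U ⟨g, hg⟩ * res U ⟨g⁻¹ * b * g, hQs hb'⟩ * (res U ⟨g, hg⟩)⁻¹)
        = res U ⟨g, hg⟩ * (res U ⟨a, hQs haQ⟩ * res U ⟨g⁻¹ * b * g, hQs hb'⟩) * (res U ⟨g, hg⟩)⁻¹ := by group
      _ = res U ⟨g, hg⟩ * (res U ⟨g⁻¹ * b * g, hQs hb'⟩ * res U ⟨a, hQs haQ⟩) * (res U ⟨g, hg⟩)⁻¹ := by rw [h1]
      _ = _ := by group
  have hRadne : Rad ≠ Q := by
    intro h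
    have h1 : a₀ ∈ Rad := by
      rw [h]
      exact ha₀
    have h2 := hRadmem' a₀ h1 ha₀ b₀ hb₀
    exact hne₀ ((res_comm_iff U _ _).mp h2 u₀ hu₀)
  have hRad : ∀ a (ha : a ∈ Q), (∀ b (hb : b ∈ Q), res U ⟨a, hQs ha⟩ * res U ⟨b, hQs hb⟩ = res U ⟨b, hQs hb⟩ * res U ⟨a, hQs ha⟩) →
      a ∈ C := by
    intro a ha hab
    apply hmin Rad inf_le_left hRadne _ _ (hRadmem a ha hab)
    · exact hconj y hyU hyQ hyQ'
    · intro b hb a ha
      apply hconj b (hSs hb) (hSQ b hb) _ a ha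
      intro a ha
      have := hSQ b⁻¹ (S.inv_mem hb) a ha
      simpa using this
  -- orthogonality
  have hScal : ∀ z (hz : z ∈ C), IsScal (res U ⟨z, hQs (hCQ hz)⟩) := by
    intro z hz
    obtain ⟨k, hk⟩ := hCs z hz
    exact isScal_res U _ k hk
  have hOrth : ∀ t (ht : t ∈ T) c (hc : c ∈ Q), y * c * y⁻¹ = c →
      res U ⟨t, hTs ht⟩ * res U ⟨c, hQs hc⟩ = res U ⟨c, hQs hc⟩ * res U ⟨t, hTs ht⟩ := by
    intro t ht c hc hyc
    have hTX : T ≤ ((Subgroup.centralizer {res U ⟨c, hQs hc⟩}).comap (res U)).map (stab U).subtype := by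
      apply hgen
      intro t ht
      refine ⟨(⟨t, hTs ht⟩ : ↥(stab U))⁻¹ * (⟨y, hyU⟩ * ⟨t, hTs ht⟩ * (⟨y, hyU⟩)⁻¹),
        Subgroup.mem_comap.mpr (Subgroup.mem_centralizer_iff.mpr ?_), rfl⟩
      intro h hh
      rw [Set.mem_singleton_iff] at hh
      subst hh
      simp only [map_mul, map_inv]
      have hz : t * c * t⁻¹ * c⁻¹ ∈ C := hcomm t (hTQ ht) c hc
      have h1 := comm_scal_fix (res U ⟨t, hTs ht⟩) (res U ⟨c, hQs hc⟩) (res U ⟨y, hyU⟩)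
        (res U ⟨t * c * t⁻¹ * c⁻¹, hQs (hCQ hz)⟩) (by
          have e : (⟨t * c * t⁻¹ * c⁻¹, hQs (hCQ hz)⟩ : ↥(stab U)) =
              ⟨t, hTs ht⟩ * ⟨c, hQs hc⟩ * (⟨t, hTs ht⟩)⁻¹ * (⟨c, hQs hc⟩)⁻¹ := rfl
          rw [e]
          simp only [map_mul, map_inv])
        (fun g => (hScal _ hz).comm g) (by
          rw [← map_mul, ← map_mul]
          congr 1
          apply Subtype.ext
          show y * c = c * y
          calc y * c = (y * c * y⁻¹) * y := by group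
            _ = c * y := by rw [hyc])
      exact h1.symm
    obtain ⟨g, hg, hge⟩ := hTX ht
    have hg' : g = ⟨t, hTs ht⟩ := Subtype.ext hge
    rw [hg'] at hg
    have h2 := Subgroup.mem_centralizer_iff.mp (Subgroup.mem_comap.mp hg) _ (Set.mem_singleton _)
    exact h2.symm
  -- commutators of `T`
  have hcU : ∀ a ∈ T, ∀ b ∈ T, ∃ c : K, ∀ u ∈ U, ((a * b * a⁻¹ * b⁻¹ : (Module.End K V)ˣ) : Module.End K V) u = c • u :=
    fun a ha b hb => hCs _ (hcomm a (hTQ ha) b (hTQ hb))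
  have hnabT : ∃ a ∈ T, ∃ b ∈ T, ∃ u ∈ U, ((a * b * a⁻¹ * b⁻¹ : (Module.End K V)ˣ) : Module.End K V) u ≠ u := by
    obtain ⟨a, ha, hac⟩ := Set.not_subset.mp hTC
    by_contra hcon
    push Not at hcon
    apply hac
    apply hRad a (hTQ ha)
    intro b hb
    obtain ⟨t', ht', c', hc', hyc', rfl⟩ := hdec b hb
    have h1 := hOrth a ha c' hc' hyc'
    have h2 : res U ⟨a, hTs ha⟩ * res U ⟨t', hTs ht'⟩ = res U ⟨t', hTs ht'⟩ * res U ⟨a, hTs ha⟩ :=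
      (res_comm_iff U _ _).mpr (hcon a ha t' ht')
    have e : (⟨t' * c', hQs hb⟩ : ↥(stab U)) = ⟨t', hTs ht'⟩ * ⟨c', hQs hc'⟩ := rfl
    rw [e, map_mul]
    show res U ⟨a, hTs ha⟩ * _ = _ * res U ⟨a, hTs ha⟩
    rw [← mul_assoc, h2, mul_assoc, h1, mul_assoc]
  obtain ⟨h1, h2, h3, h4, h5, h6⟩ := res_common T hq hTp hqK y hyT hs hys hqs hgen hF U hTs hyU hcU hnabT
  haveI : Finite (resG U T) := finite_resG U T
  have hFb : finrank K (LinearMap.ker (((res U ⟨y, hyU⟩ : (Module.End K U)ˣ) : Module.End K U) - 1)) ≤ 1 :=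
    (finrank_ker_res_le U ⟨y, hyU⟩).trans hF
  have ht3 := (t3 (resG U T) hq hqo (isPGroup_resG U T hTp) hqK h1 h2 h3 _ h4 hs hso hsK h5 h6).2 hFb
  have hfr := ht3.1
  intro c hc hyc
  apply hRad c hc
  intro b hb
  have hscal : IsScal (res U ⟨c, hQs hc⟩) := by
    obtain ⟨t₀, _, hns₀⟩ := h3
    haveI : Nontrivial U := nontrivial_of_ns hns₀
    have hone : (1 : Module.End K U) ∈ commutant (resG U T) := by
      intro t _
      simp
    have hmem : ((res U ⟨c, hQs hc⟩ : (Module.End K U)ˣ) : Module.End K U) ∈ commutant (resG U T) := by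
      intro t ht
      obtain ⟨t', hs', ht', rfl⟩ := mem_resG.mp ht
      have := hOrth t' ht' c hc hyc
      exact congrArg Units.val this
    have hne : (⟨1, hone⟩ : commutant (resG U T)) ≠ 0 := by
      intro h
      exact one_ne_zero (congrArg Subtype.val h)
    obtain ⟨k, hk⟩ := exists_smul_eq_of_finrank_eq_one hfr (x := (⟨1, hone⟩ : ↥(commutant (resG U T)))) hne
      (⟨_, hmem⟩ : ↥(commutant (resG U T)))
    exact ⟨k, (congrArg Subtype.val hk).symm⟩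
  exact hscal.comm _

end Rep

end Cfsg.Agent.Lib.BGRep
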