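import Mathlib
import Cfsg.Agent.Lib.BGRep
import Cfsg.Agent.Lib.BGFrob
import Cfsg.Agent.Lib.BGFr

/-!
# Prime action: a `p`-group with a fixed-point-free element acts trivially
-/

set_option autoImplicit false
set_option linter.unusedSectionVars false
set_option linter.unusedVariables false
set_option linter.style.haveILetI false
set_option linter.unusedSimpArgs false
set_option linter.unusedDecidableInType false
set_option linter.unusedFintypeInType false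

namespace Cfsg.Agent.Lib.BGCl2

open Module Cfsg.Agent.Lib.BGNorm Cfsg.Agent.Lib.BGFr Cfsg.Agent.Lib.BGFrob Cfsg.Agent.Lib.BGT5
open scoped commutatorElement

section Abs

variable {Γ : Type*} [Group Γ]

theorem fp_surj (S : Subgroup Γ) [Finite S] (y : Γ) (hyS : ∀ b ∈ S, y * b * y⁻¹ ∈ S)
    (hfp : ∀ b ∈ S, y * b * y⁻¹ = b → b = 1) : ∀ b ∈ S, ∃ c ∈ S, b = c⁻¹ * (y * c * y⁻¹) := by
  let θ : S → S := fun c => ⟨(c : Γ)⁻¹ * (y * c * y⁻¹), S.mul_mem (S.inv_mem c.2) (hyS c c.2)⟩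
  have hinj : Function.Injective θ := by
    intro c d h
    have h1 : (c : Γ)⁻¹ * (y * c * y⁻¹) = (d : Γ)⁻¹ * (y * d * y⁻¹) := congrArg Subtype.val h
    have h2 : y * ((d : Γ) * (c : Γ)⁻¹) * y⁻¹ = (d : Γ) * (c : Γ)⁻¹ := by
      have h3 : (d : Γ) * (c : Γ)⁻¹ = (y * d * y⁻¹) * (y * c * y⁻¹)⁻¹ := by
        rw [eq_mul_inv_iff_mul_eq, mul_assoc, h1]
        group
      have h4 : (y * (d : Γ) * y⁻¹) * (y * c * y⁻¹)⁻¹ = y * ((d : Γ) * (c : Γ)⁻¹) * y⁻¹ := by group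
      exact h4.symm.trans h3.symm
    have h3 := hfp _ (S.mul_mem d.2 (S.inv_mem c.2)) h2
    apply Subtype.ext
    rw [mul_inv_eq_one] at h3
    exact h3.symm
  have hsurj := (Finite.injective_iff_bijective.mp hinj).2
  intro b hb
  obtain ⟨c, hc⟩ := hsurj ⟨b, hb⟩
  exact ⟨c, c.2, (congrArg Subtype.val hc).symm⟩

theorem pow_fp (S : Subgroup Γ) (y : Γ) {s : ℕ} (hs : s.Prime) (hys : y ^ s = 1)
    (hfp : ∀ b ∈ S, y * b * y⁻¹ = b → b = 1) :
    ∀ i, 0 < i → i < s → ∀ a ∈ S, y ^ i * a * (y ^ i)⁻¹ = a → a = 1 := by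
  intro i hi0 his a ha hfix
  have hcop : Nat.Coprime i s := (Nat.coprime_of_lt_prime hi0.ne' his hs).symm
  obtain ⟨m, _, hm⟩ := Nat.exists_mul_mod_eq_one_of_coprime hcop hs.one_lt
  have h1 : y = (y ^ i) ^ m := by
    rw [← pow_mul, pow_eq_pow_mod (i * m) hys, hm, pow_one]
  have h2 : Commute (y ^ i) a := mul_inv_eq_iff_eq_mul.mp hfix
  have h3 : Commute y a := by
    rw [h1]
    exact h2.pow_left m
  apply hfp a ha
  rw [h3.eq]
  group

theorem comm_conj_mem {A B : Subgroup Γ} (g : Γ) (hA : ∀ a ∈ A, g * a * g⁻¹ ∈ A) (hB : ∀ b ∈ B, g * b * g⁻¹ ∈ B) :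
    ∀ x ∈ ⁅A, B⁆, g * x * g⁻¹ ∈ ⁅A, B⁆ := by
  have h4 : ⁅A, B⁆ ≤ ⁅A, B⁆.comap (MulAut.conj g).toMonoidHom := by
    rw [Subgroup.commutator_le]
    intro a ha b hb
    rw [Subgroup.mem_comap]
    have h5 : (MulAut.conj g).toMonoidHom ⁅a, b⁆ = ⁅g * a * g⁻¹, g * b * g⁻¹⁆ := by
      simp only [commutatorElement_def, MulEquiv.toMonoidHom_eq_coe, MonoidHom.coe_coe, map_mul, map_inv,
        MulAut.conj_apply]
    rw [h5]
    exact Subgroup.commutator_mem_commutator (hA a ha) (hB b hb)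
  intro x hx
  exact h4 hx

end Abs

section Main

universe u v

variable {K : Type*} [Field K] {V : Type v} [AddCommGroup V] [Module K V] [IsAlgClosed K] [FiniteDimensional K V]

theorem frat_ne {Γ : Type u} [Group Γ] [Finite Γ] (Q : Subgroup Γ) (hQ : Q ≠ ⊥) : frat Q ≠ Q := by
  intro h
  have h1 : (⊥ : Subgroup ↥Q) ≠ ⊤ := by
    intro h2
    apply hQ
    rw [eq_bot_iff]
    intro x hx
    have h3 : (⟨x, hx⟩ : ↥Q) ∈ (⊥ : Subgroup ↥Q) := by
      rw [h2]
      trivial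
    have h4 : (⟨x, hx⟩ : ↥Q) = 1 := h3
    exact congrArg Subtype.val h4
  obtain ⟨M, hM, _⟩ := (eq_top_or_exists_le_coatom (⊥ : Subgroup ↥Q)).resolve_left h1
  apply hM.1
  rw [eq_top_iff]
  intro x _
  apply frattini_le_coatom hM
  have h2 : (x : Γ) ∈ frat Q := by
    rw [h]
    exact x.2
  exact mem_frat.mp h2

/-- The inductive step. -/
theorem claim2_step {Γ : Type u} [Group Γ] [Finite Γ] (π : Γ →* (Module.End K V)ˣ) (hπ : Function.Injective π) {p q s : ℕ}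
    (hp : p.Prime) (hpo : Odd p) (hq : q.Prime) (hqo : Odd q) (hs : s.Prime) (hso : Odd s) (hpq : p ≠ q) (hps : p ≠ s)
    (hqs : q ≠ s) (hqK : (q : K) ≠ 0) (hsK : (s : K) ≠ 0)
    (S : Subgroup Γ) (hS : IsPGroup p S) (y : Γ) (hys : y ^ s = 1) (hyS : ∀ b ∈ S, y * b * y⁻¹ ∈ S)
    (hfp : ∀ b ∈ S, y * b * y⁻¹ = b → b = 1)
    (hF : finrank K (LinearMap.ker (((π y : (Module.End K V)ˣ) : Module.End K V) - 1)) ≤ 1)
    (Q : Subgroup Γ) (hQ : IsPGroup q Q) (hyQ : ∀ a ∈ Q, y * a * y⁻¹ ∈ Q) (hSQ : ∀ b ∈ S, ∀ a ∈ Q, b * a * b⁻¹ ∈ Q)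
    (hind : ∀ Q' : Subgroup Γ, Q' ≤ Q → Q' ≠ Q → (∀ a ∈ Q', y * a * y⁻¹ ∈ Q') → (∀ b ∈ S, ∀ a ∈ Q', b * a * b⁻¹ ∈ Q') →
      ∀ b ∈ S, ∀ a ∈ Q', b * a = a * b) :
    ∀ b ∈ S, ∀ a ∈ Q, b * a = a * b := by
  classical
  haveI : Fact q.Prime := ⟨hq⟩
  haveI : Fact p.Prime := ⟨hp⟩
  haveI : Fact s.Prime := ⟨hs⟩
  have hyNQ : y ∈ Subgroup.normalizer (Q : Set Γ) := normalizer_mem_of_pow Q y hyQ s hs.pos hys
  have hyNS : y ∈ Subgroup.normalizer (S : Set Γ) := normalizer_mem_of_pow S y hyS s hs.pos hys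
  have hyS' : ∀ b ∈ S, y⁻¹ * b * y ∈ S := fun a ha => (Subgroup.mem_normalizer_iff''.mp hyNS a).mp ha
  have hSN : S ≤ Subgroup.normalizer (Q : Set Γ) := Subgroup.le_normalizer_iff.mpr hSQ
  have hYN : Subgroup.zpowers y ≤ Subgroup.normalizer (Q : Set Γ) := (Subgroup.zpowers_le).mpr hyNQ
  obtain ⟨nq, hnq⟩ := IsPGroup.iff_card.mp hQ
  obtain ⟨np, hnp⟩ := IsPGroup.iff_card.mp hS
  have hcopS : (Nat.card S).Coprime (Nat.card Q) := by
    rw [hnq, hnp]
    exact Nat.Coprime.pow _ _ ((Nat.coprime_primes hp hq).mpr hpq)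
  have hcopY : (Nat.card (Subgroup.zpowers y)).Coprime (Nat.card Q) := by
    rw [hnq, Nat.card_zpowers]
    exact Nat.Coprime.coprime_dvd_left (orderOf_dvd_of_pow_eq_one hys)
      (Nat.Coprime.pow_right _ ((Nat.coprime_primes hs hq).mpr hqs.symm))
  have hsolvQ : Group.IsSolvable Q := by
    haveI : Group.IsNilpotent Q := hQ.isNilpotent
    infer_instance
  let C : Subgroup Γ := Q ⊓ Subgroup.centralizer (S : Set Γ)
  have hCQ : C ≤ Q := inf_le_left
  have hCS : ∀ c ∈ C, ∀ b ∈ S, b * c = c * b := fun c hc b hb => Subgroup.mem_centralizer_iff.mp hc.2 b hb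
  have hmin : ∀ Q' : Subgroup Γ, Q' ≤ Q → Q' ≠ Q → (∀ a ∈ Q', y * a * y⁻¹ ∈ Q') →
      (∀ b ∈ S, ∀ a ∈ Q', b * a * b⁻¹ ∈ Q') → Q' ≤ C :=
    fun Q' h1 h2 h3 h4 a ha => Subgroup.mem_inf.mpr ⟨h1 ha,
      Subgroup.mem_centralizer_iff.mpr (fun b hb => hind Q' h1 h2 h3 h4 b hb a ha)⟩
  have hcc := Cfsg.Agent.Lib.Glauberman.commutator_commutator_eq hSN hcopS (Or.inr hsolvQ)
  have hle : ⁅Q, S⁆ ≤ Q := Cfsg.Agent.Lib.Glauberman.commutator_le_of_le_normalizer hSN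
  have hgoal_of : ⁅Q, S⁆ ≤ C → ∀ b ∈ S, ∀ a ∈ Q, b * a = a * b := by
    intro h b hb a ha
    have h1 : ⁅⁅Q, S⁆, S⁆ = ⊥ := by
      rw [eq_bot_iff, Subgroup.commutator_le]
      intro x hx b hb
      rw [Subgroup.mem_bot, commutatorElement_eq_one_iff_mul_comm]
      exact (hCS x (h hx) b hb).symm
    rw [hcc] at h1
    have h2 := Subgroup.commutator_mem_commutator ha hb
    rw [h1, Subgroup.mem_bot, commutatorElement_eq_one_iff_mul_comm] at h2
    exact h2.symm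
  have hSinv : ∀ b ∈ S, ∀ x ∈ ⁅Q, S⁆, b * x * b⁻¹ ∈ ⁅Q, S⁆ :=
    fun b hb x hx => Subgroup.le_normalizer_iff.mp (Cfsg.Agent.Lib.Glauberman.le_normalizer_commutator hSN) b hb x hx
  by_cases hQS : ⁅Q, S⁆ = Q
  swap
  · apply hgoal_of
    apply hmin _ hle hQS (comm_conj_mem y hyQ hyS) hSinv
  by_cases hQ1 : Q = ⊥
  · intro b _ a ha
    rw [hQ1, Subgroup.mem_bot] at ha
    simp [ha]
  haveI : Finite ↥(Q.map π) := Finite.of_surjective (π.subgroupMap Q) (π.subgroupMap_surjective Q)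
  haveI : Finite ↥(S.map π) := Finite.of_surjective (π.subgroupMap S) (π.subgroupMap_surjective S)
  have hys' : (π y) ^ s = 1 := by rw [← map_pow, hys, map_one]
  have hyQ' : ∀ (n : ℕ) (a : ↥Q), y ^ n * (a : Γ) * (y ^ n)⁻¹ ∈ Q := fun n a => conj_pow_mem_of Q y hyQ n a a.2
  have hyπ : ∀ {a : Γ}, π (y * a * y⁻¹) = π y * π a * (π y)⁻¹ := by
    intro a
    simp only [map_mul, map_inv]
  by_cases hab : ∀ a ∈ Q, ∀ b ∈ Q, a * b = b * a
  · -- the abelian case
    intro b hb a ha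
    obtain ⟨c, hc, rfl⟩ := fp_surj S y hyS hfp b hb
    have hAK : (Nat.card ↥(Q.map π) : K) ≠ 0 := by
      rw [Subgroup.card_map_of_injective hπ, hnq]
      push_cast
      exact pow_ne_zero _ hqK
    have h1 := Cfsg.Agent.Lib.BGAb.k1_final (Q.map π)
      (by
        rintro _ ⟨a, ha, rfl⟩ _ ⟨b, hb, rfl⟩
        rw [← map_mul, ← map_mul, hab a ha b hb]) hAK (S.map π) (π y) hs hso hys'
      (by
        rintro _ ⟨b, hb, rfl⟩ _ ⟨a, ha, rfl⟩
        exact ⟨_, hSQ b hb a ha, by simp only [map_mul, map_inv]⟩)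
      (by
        rintro _ ⟨a, ha, rfl⟩
        exact ⟨_, hyQ a ha, hyπ⟩)
      (by
        rintro _ ⟨a, ha, rfl⟩
        exact ⟨_, hyS a ha, hyπ⟩) hp hpo (hS.map π) hps hF (π c) ⟨c, hc, rfl⟩ (π a) ⟨a, ha, rfl⟩
    apply hπ
    simpa only [map_mul, map_inv] using h1
  -- the nonabelian case
  push Not at hab
  have hQfr : IsPGroup q ↥Q := hQ
  have hfr : frat Q ≤ C := by
    apply hmin _ (frat_le Q) (frat_ne Q hQ1)
    · intro a ha
      exact conj_mem_frat hyNQ ha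
    · intro b hb a ha
      exact conj_mem_frat (hSN hb) ha
  have hcomm : ∀ a ∈ Q, ∀ b ∈ Q, a * b * a⁻¹ * b⁻¹ ∈ C := by
    intro a ha b hb
    have h := Cfsg.Agent.Lib.Frat.commutator_le_frattini hQ
      (Subgroup.commutator_mem_commutator (Subgroup.mem_top (⟨a, ha⟩ : ↥Q)) (Subgroup.mem_top (⟨b, hb⟩ : ↥Q)))
    have h2 := mem_frat.mpr h
    have h3 := hfr h2
    simpa [commutatorElement_def] using h3
  have hpow : ∀ a ∈ Q, a ^ q ∈ C := by
    intro a ha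
    have h := Cfsg.Agent.Lib.Frat.pow_mem_frattini hQ (⟨a, ha⟩ : ↥Q)
    have h2 := mem_frat.mpr h
    have h3 := hfr h2
    simpa using h3
  have hcen : ∀ c ∈ C, ∀ a ∈ Q, c * a = a * c := by
    have h1 : ⁅⁅S, C⁆, Q⁆ = ⊥ := by
      have : ⁅S, C⁆ = ⊥ := by
        rw [eq_bot_iff, Subgroup.commutator_le]
        intro b hb c hc
        rw [Subgroup.mem_bot, commutatorElement_eq_one_iff_mul_comm]
        exact hCS c hc b hb
      rw [this, Subgroup.commutator_bot_left]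
    have h2 : ⁅⁅C, Q⁆, S⁆ = ⊥ := by
      rw [eq_bot_iff, Subgroup.commutator_le]
      intro x hx b hb
      have h3 : x ∈ C := by
        have h4 : ⁅C, Q⁆ ≤ C := by
          rw [Subgroup.commutator_le]
          intro c hc a ha
          rw [commutatorElement_def]
          exact hcomm c (hCQ hc) a ha
        exact h4 hx
      rw [Subgroup.mem_bot, commutatorElement_eq_one_iff_mul_comm]
      exact (hCS x h3 b hb).symm
    have h3 := Subgroup.commutator_commutator_eq_bot_of_rotate h1 h2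
    rw [hQS] at h3
    intro c hc a ha
    have h4 := Subgroup.commutator_mem_commutator ha hc
    rw [h3, Subgroup.mem_bot, commutatorElement_eq_one_iff_mul_comm] at h4
    exact h4.symm
  have hyC : ∀ c ∈ C, y * c * y⁻¹ ∈ C := by
    intro c hc
    refine Subgroup.mem_inf.mpr ⟨hyQ c (hCQ hc), Subgroup.mem_centralizer_iff.mpr ?_⟩
    intro b hb
    have h1 := hCS c hc _ (hyS' b hb)
    calc b * (y * c * y⁻¹) = y * ((y⁻¹ * b * y) * c) * y⁻¹ := by group
      _ = y * (c * (y⁻¹ * b * y)) * y⁻¹ := by rw [h1]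
      _ = (y * c * y⁻¹) * b := by group
  have hyNC : y ∈ Subgroup.normalizer (C : Set Γ) := normalizer_mem_of_pow C y hyC s hs.pos hys
  have hNcomm : ∀ g : Γ, (∀ c ∈ C, g * c = c * g) → g ∈ Subgroup.normalizer (C : Set Γ) := by
    intro g hg
    refine Subgroup.mem_normalizer_iff.mpr (fun c => ?_)
    have hcm : ∀ c ∈ C, g * c * g⁻¹ = c := by
      intro c hc
      rw [hg c hc]
      group
    constructor
    · intro hc
      rwa [hcm c hc]
    · intro hc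
      have h8 := hg _ hc
      have h7 : c = g * c * g⁻¹ := by
        calc c = g⁻¹ * ((g * c * g⁻¹) * g) := by group
          _ = g⁻¹ * (g * (g * c * g⁻¹)) := by rw [h8]
          _ = g * c * g⁻¹ := by group
      rw [h7]
      exact hc
  have hSC' : ∀ b ∈ S, b ∈ Subgroup.normalizer (C : Set Γ) := fun b hb => hNcomm b (fun c hc => hCS c hc b hb)
  -- the module
  let Γ' : Subgroup Γ := Subgroup.normalizer (Q : Set Γ) ⊓ Subgroup.normalizer (C : Set Γ)
  have hyΓ : y ∈ Γ' := Subgroup.mem_inf.mpr ⟨hyNQ, hyNC⟩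
  have hSΓ : ∀ b ∈ S, b ∈ Γ' := fun b hb => Subgroup.mem_inf.mpr ⟨hSN hb, hSC' b hb⟩
  obtain ⟨M, i1, i2, i3, f, ρ₀, hfs, hfa, hfk, hfe⟩ := Cfsg.Agent.Lib.BGSec.exists_sec q Q C Γ' hCQ hcomm hpow
    (fun g hg a ha => Subgroup.le_normalizer_iff.mp (le_refl _ : Subgroup.normalizer (Q : Set Γ) ≤ _) g hg.1 a ha)
    (fun g hg a ha => Subgroup.le_normalizer_iff.mp (le_refl _ : Subgroup.normalizer (C : Set Γ) ≤ _) g hg.2 a ha)
  let y₁ : ↥Γ' := ⟨y, hyΓ⟩
  have hf1 : f 1 = 0 := by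
    have := hfa 1 1
    rw [mul_one] at this
    exact left_eq_add.mp this
  have hfinv : ∀ a, f a⁻¹ = - f a := by
    intro a
    have := hfa a a⁻¹
    rw [mul_inv_cancel, hf1] at this
    exact (neg_eq_of_add_eq_zero_right this.symm).symm
  have htriv : (∀ b (hb : b ∈ S), ρ₀ ⟨b, hSΓ b hb⟩ = 1) → ∀ b ∈ S, ∀ a ∈ Q, b * a = a * b := by
    intro h
    apply hgoal_of
    rw [Subgroup.commutator_le]
    intro a ha b hb
    have h5 := hfe ⟨b, hSΓ b hb⟩ ⟨a, ha⟩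
    rw [h b hb] at h5
    have h6 : f (⟨b * a * b⁻¹, hSQ b hb a ha⟩ * (⟨a, ha⟩ : ↥Q)⁻¹) = 0 := by
      rw [hfa, hfinv]
      have h7 : f ⟨b * a * b⁻¹, hSQ b hb a ha⟩ = f ⟨a, ha⟩ := h5.symm
      rw [h7, add_neg_cancel]
    have h7 : b * a * b⁻¹ * a⁻¹ ∈ C := (hfk _).mp h6
    rw [commutatorElement_def]
    have h8 := C.inv_mem h7
    have e : (b * a * b⁻¹ * a⁻¹)⁻¹ = a * b * a⁻¹ * b⁻¹ := by group
    rwa [e] at h8
  have hleT : ⁅Q, Subgroup.zpowers y⁆ ≤ Q := Cfsg.Agent.Lib.Glauberman.commutator_le_of_le_normalizer hYN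
  have hsolvA : Group.IsSolvable (Subgroup.zpowers y) ∨ Group.IsSolvable Q := Or.inr hsolvQ
  by_cases hTC : ⁅Q, Subgroup.zpowers y⁆ ≤ C
  · apply htriv
    have hy1 : ρ₀ y₁ = 1 := by
      apply Units.ext
      apply LinearMap.ext
      intro v
      obtain ⟨a, rfl⟩ := hfs v
      rw [hfe]
      show f ⟨y * a * y⁻¹, _⟩ = f a
      have h6 : f (⟨y * a * y⁻¹, hyQ a a.2⟩ * a⁻¹) = 0 := by
        apply (hfk _).mpr
        have h7 : ⁅(a : Γ), y⁆ ∈ C := hTC (Subgroup.commutator_mem_commutator a.2 (Subgroup.mem_zpowers y))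
        have h8 := C.inv_mem h7
        rw [commutatorElement_inv, commutatorElement_def] at h8
        exact h8
      rw [hfa, hfinv] at h6
      exact add_neg_eq_zero.mp h6
    intro b hb
    obtain ⟨c, hc, rfl⟩ := fp_surj S y hyS hfp b hb
    have e : (⟨c⁻¹ * (y * c * y⁻¹), hSΓ _ hb⟩ : ↥Γ') = (⟨c, hSΓ c hc⟩ : ↥Γ')⁻¹ * (y₁ * ⟨c, hSΓ c hc⟩ * y₁⁻¹) := rfl
    rw [e]
    simp only [map_mul, map_inv, hy1]
    group
  have hfixC : ∀ c ∈ Q, y * c * y⁻¹ = c → c ∈ C := by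
    intro c hc hyc
    have hgen : TGen ⁅Q, Subgroup.zpowers y⁆ y := by
      apply tGen_of_commutator _ _ _ _ (isOfFinOrder_of_finite y)
      · intro t ht
        exact Subgroup.le_normalizer_iff.mp (Cfsg.Agent.Lib.Glauberman.le_normalizer_commutator hYN) y
          (Subgroup.mem_zpowers y) t ht
      · exact (Cfsg.Agent.Lib.Glauberman.commutator_commutator_eq hYN hcopY hsolvA).ge
    have h := Cfsg.Agent.Lib.BGRep.rep_core (Q.map π) (C.map π) (⁅Q, Subgroup.zpowers y⁆.map π) (S.map π) hq hqo (hQ.map π) hqK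
      (Subgroup.map_mono hCQ)
      (by
        rintro _ ⟨a, ha, rfl⟩ _ ⟨b, hb, rfl⟩
        exact ⟨_, hcomm a ha b hb, by simp only [map_mul, map_inv]⟩)
      (by
        rintro _ ⟨c, hc, rfl⟩ _ ⟨a, ha, rfl⟩
        rw [← map_mul, ← map_mul, hcen c hc a ha])
      (π y) hs hso hsK hys' hqs
      (by
        rintro _ ⟨a, ha, rfl⟩
        exact ⟨_, hyQ a ha, hyπ⟩)
      (by
        rintro _ ⟨a, ha, rfl⟩
        exact ⟨_, hyC a ha, hyπ⟩)
      (by
        rintro _ ⟨b, hb, rfl⟩ _ ⟨a, ha, rfl⟩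
        exact ⟨_, hSQ b hb a ha, by simp only [map_mul, map_inv]⟩)
      (by
        rintro _ ⟨b, hb, rfl⟩ _ ⟨c, hc, rfl⟩
        rw [← map_mul, ← map_mul, hCS c hc b hb])
      (by
        intro Q' h1 h2 h3 h4
        have hQ'' : Q'.comap π ≤ Q := by
          intro a ha
          obtain ⟨a', ha', e⟩ := h1 ha
          rwa [← hπ e]
        have hne : Q'.comap π ≠ Q := by
          intro h
          apply h2
          apply le_antisymm h1
          rintro _ ⟨a, ha, rfl⟩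
          rw [← h] at ha
          exact ha
        have hC := hmin (Q'.comap π) hQ'' hne
          (by
            intro a ha
            show π (y * a * y⁻¹) ∈ Q'
            rw [hyπ]
            exact h3 _ ha)
          (by
            intro b hb a ha
            show π (b * a * b⁻¹) ∈ Q'
            simp only [map_mul, map_inv]
            exact h4 _ ⟨b, hb, rfl⟩ _ ha)
        intro x hx
        obtain ⟨a, ha, rfl⟩ := h1 hx
        exact ⟨a, hC hx, rfl⟩)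
      (Subgroup.map_mono hleT)
      (by
        rintro _ ⟨t, ht, rfl⟩
        exact ⟨_, Subgroup.le_normalizer_iff.mp (Cfsg.Agent.Lib.Glauberman.le_normalizer_commutator hYN) y
          (Subgroup.mem_zpowers y) t ht, hyπ⟩)
      (tGen_map π hgen)
      (by
        intro h
        apply hTC
        intro x hx
        obtain ⟨c, hc, e⟩ := h ⟨x, hx, rfl⟩
        rwa [← hπ e])
      (by
        rintro _ ⟨b, hb, rfl⟩
        obtain ⟨n, hn, hnb⟩ := Cfsg.Agent.Lib.Glauberman.exists_commutator_mul_centralizer hYN hcopY hsolvA b hb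
        refine ⟨π n⁻¹, ⟨n⁻¹, Subgroup.inv_mem _ hn, rfl⟩, π (n * b), ⟨n * b, Q.mul_mem (hleT hn) hb, rfl⟩, ?_, ?_⟩
        · rw [← hyπ]
          congr 1
          have := Subgroup.mem_centralizer_iff.mp hnb y (Subgroup.mem_zpowers y)
          rw [this]
          group
        · rw [← map_mul]
          congr 1
          group)
      (by
        obtain ⟨a, ha, b, hb, hne⟩ := hab
        exact ⟨π a, ⟨a, ha, rfl⟩, π b, ⟨b, hb, rfl⟩, fun h => hne (hπ (by simpa only [map_mul] using h))⟩)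
      hF (π c) ⟨c, hc, rfl⟩ (by rw [← hyπ, hyc])
    obtain ⟨c', hc', e⟩ := h
    rwa [← hπ e]
  have hfpM : ∀ v, ((ρ₀ y₁ : (Module.End (ZMod q) M)ˣ) : Module.End (ZMod q) M) v = v → v = 0 := by
    intro v hv
    obtain ⟨a, rfl⟩ := hfs v
    rw [hfk]
    have hpowf : ∀ n : ℕ, ((ρ₀ (y₁ ^ n) : (Module.End (ZMod q) M)ˣ) : Module.End (ZMod q) M) (f a) = f a := by
      intro n
      induction n with
      | zero => simp
      | succ n ih =>
        rw [pow_succ, map_mul, Units.val_mul, Module.End.mul_apply, hv, ih]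
    obtain ⟨c, hc, hac⟩ := Cfsg.Agent.Lib.Glauberman.exists_mem_centralizer_of_coset_fixed
      (A := Subgroup.zpowers y) (K := Q) (N := C) hcopY hsolvA hCQ
      (by
        intro g hg
        exact hNcomm g (fun c hc => (hcen c hc g hg).symm))
      ((Subgroup.zpowers_le).mpr hyNC) (a : Γ) a.2
      (by
        intro z hz
        obtain ⟨n, rfl⟩ := Submonoid.mem_powers_iff _ _ |>.mp
          ((isOfFinOrder_of_finite y).mem_powers_iff_mem_zpowers.mpr hz)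
        have h5 := hfe (y₁ ^ n) a
        rw [hpowf n] at h5
        have h6 : f (⟨((y₁ ^ n : ↥Γ') : Γ) * a * ((y₁ ^ n : ↥Γ') : Γ)⁻¹, hyQ' n a⟩ * a⁻¹) = 0 := by
          rw [hfa, hfinv]
          rw [← h5, add_neg_cancel]
        exact (hfk _).mp h6)
    have hyc : y * c * y⁻¹ = c := by
      rw [Subgroup.mem_centralizer_iff.mp hc.2 y (Subgroup.mem_zpowers y)]
      group
    have hcC := hfixC c hc.1 hyc
    have e : (a : Γ) = c * ((a : Γ)⁻¹ * c)⁻¹ := by group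
    rw [e]
    exact C.mul_mem hcC (C.inv_mem hac)
  have hxs : ((ρ₀ y₁ : (Module.End (ZMod q) M)ˣ) : Module.End (ZMod q) M) ^ s = 1 := by
    rw [← Units.val_pow_eq_pow_val, ← map_pow]
    have : y₁ ^ s = 1 := Subtype.ext hys
    rw [this, map_one]
    rfl
  have hN := geom_zero _ hxs hfpM
  have hSle : S ≤ Γ' := hSΓ
  have hfrob := frob_ring ((Units.coeHom (Module.End (ZMod q) M)).comp ρ₀) (S.subgroupOf Γ') y₁ hs.pos
    (by
      intro a ha
      rw [Subgroup.mem_subgroupOf] at ha ⊢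
      exact hyS _ ha)
    (pow_fp (S.subgroupOf Γ') y₁ hs (Subtype.ext hys) (by
      intro b hb hyb
      apply Subtype.ext
      exact hfp _ (Subgroup.mem_subgroupOf.mp hb) (congrArg Subtype.val hyb)))
    (by
      simpa using hN)
    (by
      have hc : Nat.card ↥(S.subgroupOf Γ') = Nat.card S := Nat.card_congr (Subgroup.subgroupOfEquivOfLe hSle).toEquiv
      rw [hc, hnp]
      have hu : IsUnit (((p ^ np : ℕ)) : ZMod q) :=
        (ZMod.isUnit_iff_coprime _ _).mpr (Nat.Coprime.pow_left _ ((Nat.coprime_primes hp hq).mpr hpq))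
      have hu2 := hu.map (algebraMap (ZMod q) (Module.End (ZMod q) M))
      rwa [map_natCast] at hu2)
  apply htriv
  intro b hb
  apply Units.ext
  exact hfrob ⟨b, hSle hb⟩ (Subgroup.mem_subgroupOf.mpr hb)

/-- **Theorem.** A `p`-group admitting a fixed-point-free element of prime order acts trivially. -/
theorem claim2 {Γ : Type u} [Group Γ] [Finite Γ] (π : Γ →* (Module.End K V)ˣ) (hπ : Function.Injective π) {p q s : ℕ}
    (hp : p.Prime) (hpo : Odd p) (hq : q.Prime) (hqo : Odd q) (hs : s.Prime) (hso : Odd s) (hpq : p ≠ q) (hps : p ≠ s)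
    (hqs : q ≠ s) (hqK : (q : K) ≠ 0) (hsK : (s : K) ≠ 0)
    (S : Subgroup Γ) (hS : IsPGroup p S) (y : Γ) (hys : y ^ s = 1) (hyS : ∀ b ∈ S, y * b * y⁻¹ ∈ S)
    (hfp : ∀ b ∈ S, y * b * y⁻¹ = b → b = 1)
    (hF : finrank K (LinearMap.ker (((π y : (Module.End K V)ˣ) : Module.End K V) - 1)) ≤ 1)
    (Q : Subgroup Γ) (hQ : IsPGroup q Q) (hyQ : ∀ a ∈ Q, y * a * y⁻¹ ∈ Q) (hSQ : ∀ b ∈ S, ∀ a ∈ Q, b * a * b⁻¹ ∈ Q) :
    ∀ b ∈ S, ∀ a ∈ Q, b * a = a * b := by
  induction' h : Nat.card Q using Nat.strong_induction_on with n ih generalizing Q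
  apply claim2_step π hπ hp hpo hq hqo hs hso hpq hps hqs hqK hsK S hS y hys hyS hfp hF Q hQ hyQ hSQ
  intro Q' h1 h2 h3 h4
  have hlt : Nat.card Q' < n := by
    rw [← h]
    exact lt_of_le_of_ne (Nat.le_of_dvd Nat.card_pos (Subgroup.card_dvd_of_le h1))
      (fun he => h2 (Subgroup.eq_of_le_of_card_ge h1 he.ge))
  exact ih _ hlt Q' (hQ.to_le h1) h3 h4 rfl

end Main

end Cfsg.Agent.Lib.BGCl2
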