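import Mathlib
import Cfsg.Agent.Lib.BGCl2

/-!
# Prime action: commuting elements and the determinant argument
-/

set_option autoImplicit false
set_option linter.unusedSectionVars false
set_option linter.unusedVariables false
set_option linter.style.haveILetI false
set_option linter.unusedSimpArgs false
set_option linter.unusedDecidableInType false
set_option linter.unusedFintypeInType false

namespace Cfsg.Agent.Lib.BGCl1

open Module Cfsg.Agent.Lib.BGNorm Cfsg.Agent.Lib.BGFr Cfsg.Agent.Lib.BGFrob Cfsg.Agent.Lib.BGT5 Cfsg.Agent.Lib.BGCl2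
open scoped commutatorElement

section LinAlg

variable {F M : Type*} [Field F] [AddCommGroup M] [Module F M] [FiniteDimensional F M]

/-- An operator of finite order prime to the characteristic, of rank one off the identity, and of determinant one,
is the identity. -/
theorem rank_one_lemma (g : Module.End F M) (u : M) (hA : ∀ v, ∃ c : F, g v - v = c • u) (hdet : LinearMap.det g = 1)
    {n : ℕ} (hn : g ^ n = 1) (hn0 : (n : F) ≠ 0) : g = 1 := by
  by_cases hu : u = 0
  · apply LinearMap.ext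
    intro v
    obtain ⟨c, hc⟩ := hA v
    rw [hu, smul_zero, sub_eq_zero] at hc
    exact hc
  obtain ⟨g₀, hg₀⟩ := Module.Projective.exists_dual_ne_zero F hu
  let g₁ : Module.Dual F M := (g₀ u)⁻¹ • g₀
  have hg₁ : g₁ u = 1 := by
    show (g₀ u)⁻¹ * g₀ u = 1
    exact inv_mul_cancel₀ hg₀
  let φ : Module.Dual F M := g₁ ∘ₗ (g - 1)
  have hφ : ∀ v, g v - v = φ v • u := by
    intro v
    obtain ⟨c, hc⟩ := hA v
    have h1 : φ v = c := by
      show g₁ ((g - 1) v) = c
      rw [LinearMap.sub_apply, Module.End.one_apply, hc, map_smul, hg₁, smul_eq_mul, mul_one]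
    rw [h1, hc]
  have hgt : g = LinearMap.transvection φ u := by
    apply LinearMap.ext
    intro v
    rw [LinearMap.transvection.apply, ← hφ]
    abel
  have hφu : φ u = 0 := by
    have h1 := LinearMap.transvection.det φ u
    rw [← hgt, hdet] at h1
    have h2 : (1 : F) + 0 = 1 + φ u := by rw [add_zero]; exact h1
    exact (add_left_cancel h2).symm
  have hgu : g u = u := by
    have := hφ u
    rw [hφu, zero_smul, sub_eq_zero] at this
    exact this
  have hpow : ∀ m : ℕ, ∀ v, (g ^ m) v = v + (m : F) • (φ v • u) := by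
    intro m
    induction m with
    | zero =>
      intro v
      simp
    | succ m ih =>
      intro v
      have h1 : g v = v + φ v • u := by
        rw [← hφ]
        abel
      rw [pow_succ', Module.End.mul_apply, ih, map_add, map_smul, map_smul, hgu, h1]
      push_cast
      rw [add_smul, one_smul]
      abel
  apply LinearMap.ext
  intro v
  have h1 := hpow n v
  rw [hn, Module.End.one_apply] at h1
  have h2 : (n : F) • (φ v • u) = 0 := by
    have h3 : v + (n : F) • (φ v • u) = v + 0 := by rw [← h1, add_zero]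
    exact add_left_cancel h3
  have h3 : φ v • u = 0 := (smul_eq_zero.mp h2).resolve_left hn0
  have h4 := hφ v
  rw [h3, sub_eq_zero] at h4
  exact h4

end LinAlg

section Main

universe u v

/-- If `[Q, x]` is cyclic and `x` lies in the derived group then `x` centralizes `Q`. -/
theorem lemB {Γ : Type u} [Group Γ] [Finite Γ] {p q a : ℕ} (hq : q.Prime) (hp : p.Prime) (hpq : p ≠ q)
    (Q : Subgroup Γ) [Q.Normal] (hQ : IsPGroup q Q) (x : Γ) (hx : x ∈ commutator Γ) (hxp : x ^ (p ^ a) = 1)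
    (hcyc : IsCyclic ↥(⁅Q, Subgroup.zpowers x⁆)) : ∀ u ∈ Q, x * u = u * x := by
  classical
  haveI : Fact q.Prime := ⟨hq⟩
  obtain ⟨M, i1, i2, i3, f, ρ₀, hfs, hfa, hfk, hfe⟩ := exists_frat q Q hQ
  have hf1 : f 1 = 0 := by
    have := hfa 1 1
    rw [mul_one] at this
    exact left_eq_add.mp this
  have hfinv : ∀ a, f a⁻¹ = - f a := by
    intro a
    have := hfa a a⁻¹
    rw [mul_inv_cancel, hf1] at this
    exact (neg_eq_of_add_eq_zero_right this.symm).symm
  have hfpow : ∀ (a : ↥Q) (n : ℕ), f (a ^ n) = n • f a := by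
    intro a n
    induction n with
    | zero => simp [hf1]
    | succ n ih => rw [pow_succ, hfa, ih, succ_nsmul]
  have hZQ : ⁅Q, Subgroup.zpowers x⁆ ≤ Q := Subgroup.commutator_le_left _ _
  obtain ⟨z₀, hz₀⟩ := hcyc.exists_generator
  let u : M := f ⟨z₀, hZQ z₀.2⟩
  have hA : ∀ v, ∃ c : ZMod q, ((ρ₀ x : (Module.End (ZMod q) M)ˣ) : Module.End (ZMod q) M) v - v = c • u := by
    intro v
    obtain ⟨a, rfl⟩ := hfs v
    have hw : x * a * x⁻¹ * (a : Γ)⁻¹ ∈ ⁅Q, Subgroup.zpowers x⁆ := by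
      have h1 := Subgroup.inv_mem _ (Subgroup.commutator_mem_commutator a.2 (Subgroup.mem_zpowers x))
      rw [commutatorElement_inv, commutatorElement_def] at h1
      exact h1
    obtain ⟨n, hn⟩ := Submonoid.mem_powers_iff _ _ |>.mp
      ((isOfFinOrder_of_finite z₀).mem_powers_iff_mem_zpowers.mpr (hz₀ ⟨_, hw⟩))
    refine ⟨(n : ZMod q), ?_⟩
    rw [hfe x a (‹Q.Normal›.conj_mem a a.2 x)]
    have h2 : (⟨x * a * x⁻¹, ‹Q.Normal›.conj_mem a a.2 x⟩ : ↥Q) * a⁻¹ = (⟨z₀, hZQ z₀.2⟩ : ↥Q) ^ n := by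
      apply Subtype.ext
      have h3 := congrArg Subtype.val hn
      simp only [Subgroup.coe_pow] at h3
      simp only [Subgroup.coe_mul, Subgroup.coe_inv, Subgroup.coe_pow]
      exact h3.symm
    have h3 := congrArg f h2
    rw [hfa, hfinv, hfpow] at h3
    rw [sub_eq_add_neg, h3, Nat.cast_smul_eq_nsmul]
  have hdet : LinearMap.det ((ρ₀ x : (Module.End (ZMod q) M)ˣ) : Module.End (ZMod q) M) = 1 := by
    let D : Γ →* (ZMod q)ˣ := (Units.map (LinearMap.det : Module.End (ZMod q) M →* ZMod q)).comp ρ₀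
    have hle : commutator Γ ≤ D.ker := by
      rw [commutator_def, Subgroup.commutator_le]
      intro g _ h _
      rw [MonoidHom.mem_ker, map_commutatorElement, commutatorElement_eq_one_iff_mul_comm, mul_comm]
    have h1 : D x = 1 := hle hx
    exact congrArg Units.val h1
  have hgn : ((ρ₀ x : (Module.End (ZMod q) M)ˣ) : Module.End (ZMod q) M) ^ (p ^ a) = 1 := by
    rw [← Units.val_pow_eq_pow_val, ← map_pow, hxp, map_one]
    rfl
  have hn0 : ((p ^ a : ℕ) : ZMod q) ≠ 0 := by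
    rw [Ne, ZMod.natCast_eq_zero_iff]
    intro h
    have := hq.dvd_of_dvd_pow h
    exact hpq ((Nat.prime_dvd_prime_iff_eq hq hp).mp this).symm
  have hg1 := rank_one_lemma _ u hA hdet hgn hn0
  have hρ1 : ρ₀ x = 1 := Units.ext hg1
  have hzc : Subgroup.zpowers x ≤ Subgroup.centralizer (Q : Set Γ) := by
    apply Cfsg.Agent.Lib.Glauberman.le_centralizer_of_frattini
    · intro t _
      rw [Subgroup.normalizer_eq_top_iff.mpr ‹_›]
      trivial
    · obtain ⟨n, hn⟩ := IsPGroup.iff_card.mp hQ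
      rw [Nat.card_zpowers]
      apply Nat.Coprime.coprime_dvd_left (orderOf_dvd_of_pow_eq_one hxp)
      apply Nat.Coprime.coprime_dvd_right (Subgroup.card_subgroup_dvd_card _)
      rw [hn]
      exact Nat.Coprime.pow _ _ ((Nat.coprime_primes hp hq).mpr hpq)
    · intro z hz k hk
      have hρz : ρ₀ z = 1 := by
        have : Subgroup.zpowers x ≤ ρ₀.ker := by
          rw [Subgroup.zpowers_le]
          exact hρ1
        exact this hz
      have h5 := hfe z ⟨k, hk⟩ (‹Q.Normal›.conj_mem k hk z)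
      rw [hρz] at h5
      have h6 : f (⟨z * k * z⁻¹, ‹Q.Normal›.conj_mem k hk z⟩ * (⟨k, hk⟩ : ↥Q)⁻¹) = 0 := by
        rw [hfa, hfinv, ← h5]
        simp
      exact (hfk _).mp h6
  intro u hu
  exact (Subgroup.mem_centralizer_iff.mp (hzc (Subgroup.mem_zpowers x)) u hu).symm

variable {K : Type*} [Field K] {V : Type v} [AddCommGroup V] [Module K V] [IsAlgClosed K] [FiniteDimensional K V]

/-- Two commuting elements on a `q`-group: the commutators kill each other. -/
theorem lemA {Γ : Type u} [Group Γ] [Finite Γ] (π : Γ →* (Module.End K V)ˣ) (hπ : Function.Injective π) {p q s a : ℕ}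
    (hp : p.Prime) (hpo : Odd p) (hq : q.Prime) (hqo : Odd q) (hs : s.Prime) (hso : Odd s) (hpq : p ≠ q) (hps : p ≠ s)
    (hqs : q ≠ s) (hqK : (q : K) ≠ 0) (hsK : (s : K) ≠ 0)
    (x y : Γ) (hxp : x ^ (p ^ a) = 1) (hys : y ^ s = 1) (hxy : x * y = y * x)
    (hF : finrank K (LinearMap.ker (((π y : (Module.End K V)ˣ) : Module.End K V) - 1)) ≤ 1)
    (Q : Subgroup Γ) (hQ : IsPGroup q Q) (hxQ : ∀ c ∈ Q, x * c * x⁻¹ ∈ Q) (hyQ : ∀ c ∈ Q, y * c * y⁻¹ ∈ Q) :
    (⁅Q, Subgroup.zpowers x⁆ = Q → ⁅Q, Subgroup.zpowers y⁆ = ⊥) ∧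
      (⁅Q, Subgroup.zpowers y⁆ = Q → ⁅Q, Subgroup.zpowers x⁆ = ⊥) := by
  classical
  haveI : Fact q.Prime := ⟨hq⟩
  haveI : Fact p.Prime := ⟨hp⟩
  haveI : Fact s.Prime := ⟨hs⟩
  induction' h : Nat.card Q using Nat.strong_induction_on with n ih generalizing Q
  have hXN : Subgroup.zpowers x ≤ Subgroup.normalizer (Q : Set Γ) :=
    (Subgroup.zpowers_le).mpr (normalizer_mem_of_pow Q x hxQ (p ^ a) (pow_pos hp.pos a) hxp)
  have hYN : Subgroup.zpowers y ≤ Subgroup.normalizer (Q : Set Γ) :=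
    (Subgroup.zpowers_le).mpr (normalizer_mem_of_pow Q y hyQ s hs.pos hys)
  obtain ⟨nq, hnq⟩ := IsPGroup.iff_card.mp hQ
  have hcopX : (Nat.card (Subgroup.zpowers x)).Coprime (Nat.card Q) := by
    rw [hnq, Nat.card_zpowers]
    exact Nat.Coprime.coprime_dvd_left (orderOf_dvd_of_pow_eq_one hxp)
      (Nat.Coprime.pow _ _ ((Nat.coprime_primes hp hq).mpr hpq))
  have hcopY : (Nat.card (Subgroup.zpowers y)).Coprime (Nat.card Q) := by
    rw [hnq, Nat.card_zpowers]
    exact Nat.Coprime.coprime_dvd_left (orderOf_dvd_of_pow_eq_one hys)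
      (Nat.Coprime.pow_right _ ((Nat.coprime_primes hs hq).mpr hqs.symm))
  have hsolvQ : Group.IsSolvable Q := by
    haveI : Group.IsNilpotent Q := hQ.isNilpotent
    infer_instance
  have hccX := Cfsg.Agent.Lib.Glauberman.commutator_commutator_eq hXN hcopX (Or.inr hsolvQ)
  have hccY := Cfsg.Agent.Lib.Glauberman.commutator_commutator_eq hYN hcopY (Or.inr hsolvQ)
  have hleX : ⁅Q, Subgroup.zpowers x⁆ ≤ Q := Cfsg.Agent.Lib.Glauberman.commutator_le_of_le_normalizer hXN
  have hleY : ⁅Q, Subgroup.zpowers y⁆ ≤ Q := Cfsg.Agent.Lib.Glauberman.commutator_le_of_le_normalizer hYN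
  have hcomm' : ∀ u ∈ Subgroup.zpowers x, ∀ v ∈ Subgroup.zpowers y, u * v = v * u := by
    rintro _ ⟨i, rfl⟩ _ ⟨j, rfl⟩
    exact ((show Commute x y from hxy).zpow_zpow i j).eq
  have hXY : ⁅Subgroup.zpowers x, Subgroup.zpowers y⁆ = ⊥ := by
    rw [eq_bot_iff, Subgroup.commutator_le]
    intro u hu v hv
    rw [Subgroup.mem_bot, commutatorElement_eq_one_iff_mul_comm]
    exact hcomm' u hu v hv
  have hYX : ⁅Subgroup.zpowers y, Subgroup.zpowers x⁆ = ⊥ := by
    rw [Subgroup.commutator_comm]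
    exact hXY
  have hxY : ∀ v ∈ Subgroup.zpowers y, x * v * x⁻¹ ∈ Subgroup.zpowers y := by
    intro v hv
    rw [hcomm' x (Subgroup.mem_zpowers x) v hv]
    simpa using hv
  have hyX : ∀ v ∈ Subgroup.zpowers x, y * v * y⁻¹ ∈ Subgroup.zpowers x := by
    intro v hv
    rw [← hcomm' v hv y (Subgroup.mem_zpowers y)]
    simpa using hv
  have hxX : ∀ v ∈ Subgroup.zpowers x, x * v * x⁻¹ ∈ Subgroup.zpowers x := by
    intro v hv
    exact Subgroup.mul_mem _ (Subgroup.mul_mem _ (Subgroup.mem_zpowers x) hv) (Subgroup.inv_mem _ (Subgroup.mem_zpowers x))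
  have hyY : ∀ v ∈ Subgroup.zpowers y, y * v * y⁻¹ ∈ Subgroup.zpowers y := by
    intro v hv
    exact Subgroup.mul_mem _ (Subgroup.mul_mem _ (Subgroup.mem_zpowers y) hv) (Subgroup.inv_mem _ (Subgroup.mem_zpowers y))
  have hbot : ⁅Q, Subgroup.zpowers x⁆ = Q → ⁅Q, Subgroup.zpowers y⁆ = Q → Q = ⊥ := by
    intro hX hY
    haveI : Finite ↥(Q.map π) := Finite.of_surjective (π.subgroupMap Q) (π.subgroupMap_surjective Q)
    have hyπ : ∀ {a b : Γ}, π (b * a * b⁻¹) = π b * π a * (π b)⁻¹ := by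
      intro a b
      simp only [map_mul, map_inv]
    have h1 := t2 (Q.map π) hq hqo (hQ.map π) hqK (π y)
      (by
        rintro _ ⟨c, hc, rfl⟩
        exact ⟨_, hyQ c hc, hyπ⟩) hs hso hsK (by rw [← map_pow, hys, map_one]) hqs
      (tGen_map π (tGen_of_commutator Q y hyQ hY.ge (isOfFinOrder_of_finite y))) hF (π x)
      (by
        rintro _ ⟨c, hc, rfl⟩
        exact ⟨_, hxQ c hc, hyπ⟩) hp hpo hps hpq (by rw [← map_pow, hxp, map_one])
      (by rw [← map_mul, ← map_mul, hxy])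
      (tGen_map π (tGen_of_commutator Q x hxQ hX.ge (isOfFinOrder_of_finite x)))
    rw [eq_bot_iff]
    intro c hc
    have h2 := h1 (π c) ⟨c, hc, rfl⟩
    rw [Subgroup.mem_bot]
    apply hπ
    rw [h2, map_one]
  have hsmall : ∀ T : Subgroup Γ, T ≤ Q → T ≠ Q → Nat.card T < n := by
    intro T h1 h2
    rw [← h]
    exact lt_of_le_of_ne (Nat.le_of_dvd Nat.card_pos (Subgroup.card_dvd_of_le h1))
      (fun he => h2 (Subgroup.eq_of_le_of_card_ge h1 he.ge))
  constructor
  · intro hX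
    by_cases hT : ⁅Q, Subgroup.zpowers y⁆ = Q
    · rw [hbot hX hT, Subgroup.commutator_bot_left]
    · have h1 := (ih _ (hsmall _ hleY hT) ⁅Q, Subgroup.zpowers y⁆ (hQ.to_le hleY) (comm_conj_mem x hxQ hxY)
        (comm_conj_mem y hyQ hyY) rfl).2 hccY
      have h2 : ⁅⁅Subgroup.zpowers y, Subgroup.zpowers x⁆, Q⁆ = ⊥ := by
        rw [hYX, Subgroup.commutator_bot_left]
      have h3 := Subgroup.commutator_commutator_eq_bot_of_rotate h1 h2
      rw [Subgroup.commutator_comm (Subgroup.zpowers x) Q, hX] at h3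
      exact h3
  · intro hY
    by_cases hT : ⁅Q, Subgroup.zpowers x⁆ = Q
    · rw [hbot hT hY, Subgroup.commutator_bot_left]
    · have h1 := (ih _ (hsmall _ hleX hT) ⁅Q, Subgroup.zpowers x⁆ (hQ.to_le hleX) (comm_conj_mem x hxQ hxX)
        (comm_conj_mem y hyQ hyX) rfl).1 hccX
      have h2 : ⁅⁅Subgroup.zpowers x, Subgroup.zpowers y⁆, Q⁆ = ⊥ := by
        rw [hXY, Subgroup.commutator_bot_left]
      have h3 := Subgroup.commutator_commutator_eq_bot_of_rotate h1 h2
      rw [Subgroup.commutator_comm (Subgroup.zpowers y) Q, hY] at h3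
      exact h3

/-- The consequence used: `y` centralizes `[Q, x]`. -/
theorem claim1 {Γ : Type u} [Group Γ] [Finite Γ] (π : Γ →* (Module.End K V)ˣ) (hπ : Function.Injective π) {p q s a : ℕ}
    (hp : p.Prime) (hpo : Odd p) (hq : q.Prime) (hqo : Odd q) (hs : s.Prime) (hso : Odd s) (hpq : p ≠ q) (hps : p ≠ s)
    (hqs : q ≠ s) (hqK : (q : K) ≠ 0) (hsK : (s : K) ≠ 0)
    (x y : Γ) (hxp : x ^ (p ^ a) = 1) (hys : y ^ s = 1) (hxy : x * y = y * x)
    (hF : finrank K (LinearMap.ker (((π y : (Module.End K V)ˣ) : Module.End K V) - 1)) ≤ 1)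
    (Q : Subgroup Γ) (hQ : IsPGroup q Q) (hxQ : ∀ c ∈ Q, x * c * x⁻¹ ∈ Q) (hyQ : ∀ c ∈ Q, y * c * y⁻¹ ∈ Q) :
    ∀ u ∈ ⁅Q, Subgroup.zpowers x⁆, u * y = y * u := by
  classical
  haveI : Fact q.Prime := ⟨hq⟩
  have hXN : Subgroup.zpowers x ≤ Subgroup.normalizer (Q : Set Γ) :=
    (Subgroup.zpowers_le).mpr (normalizer_mem_of_pow Q x hxQ (p ^ a) (pow_pos hp.pos a) hxp)
  obtain ⟨nq, hnq⟩ := IsPGroup.iff_card.mp hQ
  have hcopX : (Nat.card (Subgroup.zpowers x)).Coprime (Nat.card Q) := by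
    rw [hnq, Nat.card_zpowers]
    exact Nat.Coprime.coprime_dvd_left (orderOf_dvd_of_pow_eq_one hxp)
      (Nat.Coprime.pow _ _ ((Nat.coprime_primes hp hq).mpr hpq))
  have hsolvQ : Group.IsSolvable Q := by
    haveI : Group.IsNilpotent Q := hQ.isNilpotent
    infer_instance
  have hccX := Cfsg.Agent.Lib.Glauberman.commutator_commutator_eq hXN hcopX (Or.inr hsolvQ)
  have hleX : ⁅Q, Subgroup.zpowers x⁆ ≤ Q := Cfsg.Agent.Lib.Glauberman.commutator_le_of_le_normalizer hXN
  have hcomm' : ∀ u ∈ Subgroup.zpowers x, ∀ v ∈ Subgroup.zpowers y, u * v = v * u := by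
    rintro _ ⟨i, rfl⟩ _ ⟨j, rfl⟩
    exact ((show Commute x y from hxy).zpow_zpow i j).eq
  have hyX : ∀ v ∈ Subgroup.zpowers x, y * v * y⁻¹ ∈ Subgroup.zpowers x := by
    intro v hv
    rw [← hcomm' v hv y (Subgroup.mem_zpowers y)]
    simpa using hv
  have hxX : ∀ v ∈ Subgroup.zpowers x, x * v * x⁻¹ ∈ Subgroup.zpowers x := by
    intro v hv
    exact Subgroup.mul_mem _ (Subgroup.mul_mem _ (Subgroup.mem_zpowers x) hv) (Subgroup.inv_mem _ (Subgroup.mem_zpowers x))
  have h1 := (lemA π hπ hp hpo hq hqo hs hso hpq hps hqs hqK hsK x y hxp hys hxy hF ⁅Q, Subgroup.zpowers x⁆ (hQ.to_le hleX)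
    (comm_conj_mem x hxQ hxX) (comm_conj_mem y hyQ hyX)).1 hccX
  intro u hu
  have h2 := Subgroup.commutator_mem_commutator hu (Subgroup.mem_zpowers y)
  rw [h1, Subgroup.mem_bot, commutatorElement_eq_one_iff_mul_comm] at h2
  exact h2

end Main

end Cfsg.Agent.Lib.BGCl1
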