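import Mathlib
import Cfsg.Agent.Lib.BGFr
import Cfsg.Agent.Lib.CoprimeInv
import Cfsg.Agent.Lib.PCore
import Cfsg.Prelude.Def_OddOrderLocal

/-!
# Fixed-point-free action on the Fitting subgroup
-/

set_option autoImplicit false
set_option linter.unusedSectionVars false
set_option linter.unusedVariables false
set_option linter.style.haveILetI false
set_option linter.unusedSimpArgs false
set_option linter.unusedDecidableInType false
set_option linter.unusedFintypeInType false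

namespace Cfsg.Agent.Lib.BGFix

open Cfsg Cfsg.Agent.Lib.BGFr Cfsg.Agent.Lib.BGNorm Cfsg.Agent.Lib.CoprimeInv Cfsg.Agent.Lib.PCore

open scoped commutatorElement

universe u

variable {G : Type u} [Group G]

/-- The `ℓ`-core of a subgroup, as a subgroup of the ambient group. -/
def pc (ℓ : ℕ) (K : Subgroup G) : Subgroup G := (pCore ℓ ↥K).map K.subtype

theorem pc_le (ℓ : ℕ) (K : Subgroup G) : pc ℓ K ≤ K := Subgroup.map_subtype_le _

instance pc_normal (ℓ : ℕ) (K : Subgroup G) [K.Normal] : (pc ℓ K).Normal := by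
  unfold pc
  infer_instance

theorem isPGroup_pc [Finite G] (ℓ : ℕ) [Fact ℓ.Prime] (K : Subgroup G) : IsPGroup ℓ (pc ℓ K) :=
  (isPGroup_pCore ℓ).map _

theorem fittingOf_eq_iSup [Finite G] (K : Subgroup G) : fittingOf K = ⨆ p : Nat.Primes, pc (p : ℕ) K := by
  rw [fittingOf, fittingSubgroup_eq_iSup_pCore, Subgroup.map_iSup]
  rfl

theorem pc_le_fittingOf [Finite G] (ℓ : ℕ) [Fact ℓ.Prime] (K : Subgroup G) : pc ℓ K ≤ fittingOf K := by
  rw [fittingOf_eq_iSup]
  exact le_iSup (fun p : Nat.Primes => pc (p : ℕ) K) ⟨ℓ, Fact.out⟩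

theorem fittingOf_le (K : Subgroup G) : fittingOf K ≤ K := Subgroup.map_subtype_le _

instance fittingOf_normal (K : Subgroup G) [K.Normal] : (fittingOf K).Normal := by
  unfold fittingOf
  infer_instance

theorem le_fittingOf [Finite G] (K L : Subgroup G) (hLK : L ≤ K) (hN : ∀ k ∈ K, ∀ l ∈ L, k * l * k⁻¹ ∈ L)
    (hnil : Group.IsNilpotent L) : L ≤ fittingOf K := by
  have h1 : (L.subgroupOf K).Normal := by
    refine ⟨fun n hn g => ?_⟩
    rw [Subgroup.mem_subgroupOf] at hn ⊢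
    exact hN g g.2 n hn
  have h2 : Group.IsNilpotent (L.subgroupOf K) :=
    (Group.isNilpotent_congr (Subgroup.subgroupOfEquivOfLe hLK)).mpr hnil
  have h3 := le_fittingSubgroup h1 h2
  intro x hx
  exact ⟨⟨x, hLK hx⟩, h3 (Subgroup.mem_subgroupOf.mpr hx), rfl⟩

/-- A commutator of a `q`-subgroup with a fixed-point-free element centralizes the `ℓ`-cores, `ℓ ≠ q`. -/
theorem comm_centralizes [Finite G] [Group.IsSolvable G] (hodd : Odd (Nat.card G)) (K : Subgroup G) [K.Normal]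
    (y : G) {s : ℕ} (hs : s.Prime) (hys : y ^ s = 1) (hsK : Nat.Coprime s (Nat.card K))
    (hfp : ∀ a ∈ fittingOf K, y * a * y⁻¹ = a → a = 1)
    {q ℓ : ℕ} [Fact q.Prime] [Fact ℓ.Prime] (hℓq : ℓ ≠ q) (Q : Subgroup G) (hQK : Q ≤ K) (hQ : IsPGroup q Q)
    (hyQ : Subgroup.zpowers y ≤ Subgroup.normalizer (Q : Set G)) :
    ⁅Q, Subgroup.zpowers y⁆ ≤ Subgroup.centralizer (pc ℓ K : Set G) := by
  have hq : q.Prime := Fact.out
  have hℓ : ℓ.Prime := Fact.out
  haveI : Fact s.Prime := ⟨hs⟩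
  have hcardK : ∀ {r : ℕ}, r.Prime → r ∣ Nat.card K → Odd r ∧ r ≠ s := by
    intro r hr hrK
    constructor
    · have h1 : r ∣ Nat.card G := hrK.trans (Subgroup.card_subgroup_dvd_card K)
      exact Odd.of_dvd_nat hodd h1
    · rintro rfl
      have := Nat.eq_one_of_dvd_coprimes hsK (dvd_refl _) hrK
      exact hr.one_lt.ne' this
  by_cases hy1 : y = 1
  · subst hy1
    rw [Subgroup.zpowers_one_eq_bot, Subgroup.commutator_bot_right]
    exact bot_le
  by_cases hQ1 : Q = ⊥
  · subst hQ1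
    rw [Subgroup.commutator_bot_left]
    exact bot_le
  by_cases hP1 : pc ℓ K = ⊥
  · rw [hP1]
    intro x _
    rw [Subgroup.mem_centralizer_iff]
    intro h hh
    rw [SetLike.mem_coe, Subgroup.mem_bot] at hh
    simp [hh]
  have hqK : q ∣ Nat.card K := by
    obtain ⟨n, hn⟩ := IsPGroup.iff_card.mp hQ
    have h1 : Nat.card Q ≠ 1 := fun h => hQ1 (Subgroup.eq_bot_of_card_eq Q h)
    have h2 : n ≠ 0 := by
      rintro rfl
      simp [hn] at h1
    have h3 : q ∣ Nat.card Q := by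
      rw [hn]
      exact dvd_pow_self q h2
    exact h3.trans (Subgroup.card_dvd_of_le hQK)
  have hℓK : ℓ ∣ Nat.card K := by
    obtain ⟨n, hn⟩ := IsPGroup.iff_card.mp (isPGroup_pc ℓ K)
    have h1 : Nat.card (pc ℓ K) ≠ 1 := fun h => hP1 (Subgroup.eq_bot_of_card_eq _ h)
    have h2 : n ≠ 0 := by
      rintro rfl
      simp [hn] at h1
    have h3 : ℓ ∣ Nat.card (pc ℓ K) := by
      rw [hn]
      exact dvd_pow_self ℓ h2
    exact h3.trans (Subgroup.card_dvd_of_le (pc_le ℓ K))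
  obtain ⟨hqo, hqs⟩ := hcardK hq hqK
  obtain ⟨_, hℓs⟩ := hcardK hℓ hℓK
  have hso : Odd s := by
    have h1 : orderOf y = s := orderOf_eq_prime hys hy1
    rw [← h1]
    exact Odd.of_dvd_nat hodd (orderOf_dvd_natCard y)
  have hcopy : Nat.Coprime (Nat.card (Subgroup.zpowers y)) (Nat.card Q) := by
    rw [Nat.card_zpowers, orderOf_eq_prime hys hy1]
    exact Nat.Coprime.coprime_dvd_right (Subgroup.card_dvd_of_le hQK) hsK
  have hsolv : Group.IsSolvable (Subgroup.zpowers y) ∨ Group.IsSolvable Q := by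
    left
    infer_instance
  have hle : ⁅Q, Subgroup.zpowers y⁆ ≤ Q := Cfsg.Agent.Lib.Glauberman.commutator_le_of_le_normalizer hyQ
  apply frat_t5 hq hqo hs hso hℓq hℓs hqs (pc ℓ K) _ (isPGroup_pc ℓ K) (hQ.to_le hle) y hys
  · intro t ht
    exact Subgroup.le_normalizer_iff.mp (Cfsg.Agent.Lib.Glauberman.le_normalizer_commutator hyQ) y
      (Subgroup.mem_zpowers y) t ht
  · apply tGen_of_commutator _ _ _ _ (isOfFinOrder_of_finite y)
    · intro t ht
      exact Subgroup.le_normalizer_iff.mp (Cfsg.Agent.Lib.Glauberman.le_normalizer_commutator hyQ) y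
        (Subgroup.mem_zpowers y) t ht
    · exact (Cfsg.Agent.Lib.Glauberman.commutator_commutator_eq hyQ hcopy hsolv).ge
  · intro a ha
    exact hfp a (pc_le_fittingOf ℓ K ha)

/-- The commutator lies in the Fitting subgroup when the section over it is a `q`-group. -/
theorem comm_le_fitting [Finite G] [Group.IsSolvable G] (hodd : Odd (Nat.card G)) (K : Subgroup G) [K.Normal]
    (y : G) {s : ℕ} (hs : s.Prime) (hys : y ^ s = 1) (hsK : Nat.Coprime s (Nat.card K))
    (hfp : ∀ a ∈ fittingOf K, y * a * y⁻¹ = a → a = 1) {q : ℕ} [Fact q.Prime] (D : Subgroup G) (hDK : D ≤ K)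
    (hDn : ∀ k ∈ K, ∀ d ∈ D, k * d * k⁻¹ ∈ D) (hDF : ∀ g ∈ D, ∃ n : ℕ, g ^ (q ^ n) ∈ fittingOf K)
    (Q : Subgroup G) (hQD : Q ≤ D) (hQ : IsPGroup q Q)
    (hyQ : Subgroup.zpowers y ≤ Subgroup.normalizer (Q : Set G)) :
    ⁅Q, Subgroup.zpowers y⁆ ≤ fittingOf K := by
  classical
  let A : Subgroup G := ⨆ ℓ : {p : Nat.Primes // (p : ℕ) ≠ q}, pc ((ℓ.1 : Nat.Primes) : ℕ) K
  haveI hAn : A.Normal := Subgroup.iSup_normal _
  have hle : ⁅Q, Subgroup.zpowers y⁆ ≤ Q := Cfsg.Agent.Lib.Glauberman.commutator_le_of_le_normalizer hyQ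
  have hTA : ⁅Q, Subgroup.zpowers y⁆ ≤ Subgroup.centralizer (A : Set G) := by
    rw [Subgroup.le_centralizer_iff]
    apply iSup_le
    rintro ⟨ℓ, hℓ⟩
    haveI : Fact (ℓ : ℕ).Prime := ⟨ℓ.2⟩
    rw [← Subgroup.le_centralizer_iff]
    exact comm_centralizes hodd K y hs hys hsK hfp hℓ Q (hQD.trans hDK) hQ hyQ
  let L : Subgroup G := D ⊓ Subgroup.centralizer (A : Set G)
  have hTL : ⁅Q, Subgroup.zpowers y⁆ ≤ L := le_inf (hle.trans hQD) hTA
  have hFA : fittingOf K ≤ pc q K ⊔ A := by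
    rw [fittingOf_eq_iSup]
    apply iSup_le
    intro p
    by_cases h : (p : ℕ) = q
    · rw [h]
      exact le_sup_left
    · exact (le_iSup (fun ℓ : {p : Nat.Primes // (p : ℕ) ≠ q} => pc ((ℓ.1 : Nat.Primes) : ℕ) K) ⟨p, h⟩).trans le_sup_right
  let πA := QuotientGroup.mk' A
  let f : ↥L →* G ⧸ A := πA.comp L.subtype
  have hqgrp : IsPGroup q f.range := by
    rintro ⟨_, x, rfl⟩
    obtain ⟨n, hn⟩ := hDF x x.2.1
    have h1 : πA ((x : G) ^ (q ^ n)) ∈ (pc q K).map πA := by
      have h2 : (x : G) ^ (q ^ n) ∈ pc q K ⊔ A := hFA hn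
      have h3 : (pc q K ⊔ A).map πA = (pc q K).map πA := by
        rw [Subgroup.map_sup, QuotientGroup.map_mk'_self, sup_bot_eq]
      rw [← h3]
      exact ⟨_, h2, rfl⟩
    obtain ⟨m, hm⟩ := ((isPGroup_pc q K).map πA) ⟨_, h1⟩
    have hm' : (πA ((x : G) ^ (q ^ n))) ^ (q ^ m) = 1 := congrArg Subtype.val hm
    refine ⟨n + m, ?_⟩
    apply Subtype.ext
    show (f x) ^ (q ^ (n + m)) = 1
    rw [pow_add, pow_mul]
    rw [map_pow] at hm'
    exact hm'
  haveI : Group.IsNilpotent f.range := hqgrp.isNilpotent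
  have hnil : Group.IsNilpotent ↥L := by
    apply Subgroup.isNilpotent_of_ker_le_center f.rangeRestrict
    rw [MonoidHom.ker_rangeRestrict]
    intro x hx
    have h1 : (x : G) ∈ A := by
      rw [MonoidHom.mem_ker] at hx
      exact (QuotientGroup.eq_one_iff (x : G)).mp hx
    rw [Subgroup.mem_center_iff]
    intro g
    apply Subtype.ext
    exact (Subgroup.mem_centralizer_iff.mp g.2.2 x h1).symm
  have hLF : L ≤ fittingOf K := by
    apply le_fittingOf K L (inf_le_left.trans hDK) _ hnil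
    intro k hk l hl
    refine Subgroup.mem_inf.mpr ⟨hDn k hk l hl.1, ?_⟩
    rw [Subgroup.mem_centralizer_iff]
    intro a ha
    have h1 := Subgroup.mem_centralizer_iff.mp hl.2 (k⁻¹ * a * k) (by
      have := hAn.conj_mem a ha k⁻¹
      simpa using this)
    calc a * (k * l * k⁻¹) = k * ((k⁻¹ * a * k) * l) * k⁻¹ := by group
      _ = k * (l * (k⁻¹ * a * k)) * k⁻¹ := by rw [h1]
      _ = k * l * k⁻¹ * a := by group
  exact hTL.trans hLF

/-- Sylow subgroups of `D` surject onto a `q`-group quotient. -/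
theorem exists_lift {q : ℕ} [Fact q.Prime] [Finite G] {D Q F : Subgroup G} [F.Normal] (h : IsSylowIn q Q D)
    (hD : ∀ g ∈ D, ∃ n : ℕ, g ^ (q ^ n) ∈ F) : ∀ d ∈ D, ∃ a ∈ Q, a⁻¹ * d ∈ F := by
  intro d hd
  let π := QuotientGroup.mk' F
  let f : ↥D →* G ⧸ F := π.comp D.subtype
  let f' := f.rangeRestrict
  have hsurj : Function.Surjective f' := f.rangeRestrict_surjective
  let P₂ : Sylow q f.range := h.toSylow.mapSurjective hsurj
  have hB : IsPGroup q f.range := by
    rintro ⟨_, x, rfl⟩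
    obtain ⟨n, hn⟩ := hD x x.2
    refine ⟨n, ?_⟩
    apply Subtype.ext
    show (f x) ^ (q ^ n) = 1
    rw [← map_pow]
    exact (QuotientGroup.eq_one_iff _).mpr hn
  have hP₂ : (P₂ : Subgroup f.range) = ⊤ :=
    (P₂.3 (hB.to_subgroup ⊤) le_top).symm
  have hmem : f' ⟨d, hd⟩ ∈ (P₂ : Subgroup f.range) := by
    rw [hP₂]
    trivial
  obtain ⟨x, hx, hxe⟩ := hmem
  have hxQ : (x : G) ∈ Q := hx
  refine ⟨x, hxQ, ?_⟩
  have h1 : π (x : G) = π d := congrArg Subtype.val hxe
  exact (QuotientGroup.eq).mp h1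

/-- The main step on `p`-cores of the quotient. -/
theorem step [Finite G] [Group.IsSolvable G] (hodd : Odd (Nat.card G)) (K R : Subgroup G) [K.Normal]
    (hcop : (Nat.card K).Coprime (Nat.card R))
    (hprime : ∀ x ∈ R, x ≠ 1 → K ⊓ Subgroup.centralizer ({x} : Set G) = (K ⊓ Subgroup.centralizer (R : Set G)))
    (y : G) (hyR : y ∈ R) (hy1 : y ≠ 1) {s : ℕ} (hs : s.Prime) (hys : y ^ s = 1) (hsK : Nat.Coprime s (Nat.card K))
    (hfp : ∀ a ∈ fittingOf K, y * a * y⁻¹ = a → a = 1) (q : ℕ) [Fact q.Prime] :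
    ∀ b ∈ pc q (K.map (QuotientGroup.mk' (fittingOf K))), ∀ r ∈ R,
      QuotientGroup.mk' (fittingOf K) r * b = b * QuotientGroup.mk' (fittingOf K) r := by
  classical
  haveI : Fact s.Prime := ⟨hs⟩
  let π := QuotientGroup.mk' (fittingOf K)
  have hπs : Function.Surjective π := QuotientGroup.mk'_surjective _
  haveI hKb : (K.map π).Normal := Subgroup.Normal.map ‹_› π hπs
  let D : Subgroup G := (pc q (K.map π)).comap π
  have hFK := fittingOf_le K
  have hDK : D ≤ K := by
    intro g hg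
    have h1 : π g ∈ K.map π := pc_le q _ hg
    obtain ⟨k, hk, hke⟩ := h1
    have h2 : k⁻¹ * g ∈ fittingOf K := QuotientGroup.eq.mp hke
    have h3 : g = k * (k⁻¹ * g) := by group
    rw [h3]
    exact K.mul_mem hk (hFK h2)
  have hDn : ∀ k : G, ∀ d ∈ D, k * d * k⁻¹ ∈ D := by
    intro k d hd
    rw [Subgroup.mem_comap, map_mul, map_mul, map_inv]
    exact (pc_normal q (K.map π)).conj_mem _ hd _
  have hDF : ∀ g ∈ D, ∃ n : ℕ, g ^ (q ^ n) ∈ fittingOf K := by
    intro g hg
    obtain ⟨n, hn⟩ := (isPGroup_pc q (K.map π)) ⟨π g, hg⟩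
    refine ⟨n, ?_⟩
    have h1 : (π g) ^ (q ^ n) = 1 := congrArg Subtype.val hn
    rw [← map_pow] at h1
    exact (QuotientGroup.eq_one_iff _).mp h1
  have hcardy : Nat.card (Subgroup.zpowers y) = s := by
    rw [Nat.card_zpowers, orderOf_eq_prime hys hy1]
  have hsolvD : Group.IsSolvable D := inferInstance
  have hzR : Subgroup.zpowers y ≤ R := by
    rw [Subgroup.zpowers_le]
    exact hyR
  obtain ⟨Q, hQ, hyQ⟩ := exists_invariant_isSylowIn q (L := D) (A := Subgroup.zpowers y) hsolvD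
    (by
      rw [Subgroup.le_normalizer_iff]
      intro h _ k hk
      exact hDn h k hk)
    (by
      rw [hcardy]
      exact (Nat.Coprime.coprime_dvd_right (Subgroup.card_dvd_of_le hDK) hsK).symm)
  have hT := comm_le_fitting hodd K y hs hys hsK hfp D hDK (fun k _ d hd => hDn k d hd) hDF Q hQ.1 hQ.2.1 hyQ
  intro b hb r hr
  obtain ⟨d, rfl⟩ := hπs b
  have hdD : d ∈ D := hb
  obtain ⟨a, haQ, had⟩ := exists_lift hQ hDF d hdD
  have haK : a ∈ K := hDK (hQ.1 haQ)
  have hFn : (fittingOf K).Normal := inferInstance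
  obtain ⟨c, hc, hac⟩ := Cfsg.Agent.Lib.Glauberman.exists_mem_centralizer_of_coset_fixed
    (A := Subgroup.zpowers y) (K := K) (N := fittingOf K)
    (by
      rw [hcardy]
      exact hsK) (Or.inl inferInstance) hFK
    (by
      rw [Subgroup.le_normalizer_iff]
      intro h _ k hk
      exact hFn.conj_mem k hk h)
    (by
      rw [Subgroup.le_normalizer_iff]
      intro h _ k hk
      exact hFn.conj_mem k hk h)
    a haK
    (by
      intro z hz
      have h1 : ⁅a, z⁆ ∈ fittingOf K := hT (Subgroup.commutator_mem_commutator haQ hz)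
      have h2 := (fittingOf K).inv_mem h1
      rw [commutatorElement_inv, commutatorElement_def] at h2
      exact h2)
  have hcy : c ∈ K ⊓ Subgroup.centralizer ({y} : Set G) := by
    refine Subgroup.mem_inf.mpr ⟨hc.1, ?_⟩
    rw [Subgroup.mem_centralizer_iff]
    intro h hh
    rw [Set.mem_singleton_iff] at hh
    rw [hh]
    exact Subgroup.mem_centralizer_iff.mp hc.2 y (Subgroup.mem_zpowers y)
  rw [hprime y hyR hy1] at hcy
  have hcr : r * c = c * r := Subgroup.mem_centralizer_iff.mp hcy.2 r hr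
  have e1 : π d = π c := by
    have h1 : π d = π a := (QuotientGroup.eq.mpr had).symm
    have h2 : π a = π c := QuotientGroup.eq.mpr hac
    rw [h1, h2]
  show π r * π d = π d * π r
  rw [e1, ← map_mul, ← map_mul, hcr]

/-- **The fixed-point theorem on the Fitting quotient.** -/
theorem main [Finite G] [Group.IsSolvable G] (hodd : Odd (Nat.card G)) (K R : Subgroup G) [K.Normal]
    (hcop : (Nat.card K).Coprime (Nat.card R))
    (hprime : ∀ x ∈ R, x ≠ 1 → K ⊓ Subgroup.centralizer ({x} : Set G) = (K ⊓ Subgroup.centralizer (R : Set G)))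
    (hF : fittingOf K ⊓ Subgroup.centralizer (R : Set G) = ⊥) :
    ⁅K, R⁆ ≤ fittingOf K := by
  classical
  by_cases hR : R = ⊥
  · subst hR
    rw [Subgroup.commutator_bot_right]
    exact bot_le
  have hcR : Nat.card R ≠ 1 := fun h => hR (Subgroup.eq_bot_of_card_eq _ h)
  obtain ⟨s, hs, hsR⟩ := Nat.exists_prime_and_dvd hcR
  haveI : Fact s.Prime := ⟨hs⟩
  obtain ⟨y', hy'⟩ := exists_prime_orderOf_dvd_card' s hsR
  let y : G := y'
  have hyR : y ∈ R := y'.2
  have hoy : orderOf y = s := by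
    rw [← hy']
    exact Subgroup.orderOf_coe y'
  have hy1 : y ≠ 1 := by
    intro h
    rw [h, orderOf_one] at hoy
    exact hs.one_lt.ne hoy
  have hys : y ^ s = 1 := by
    rw [← hoy]
    exact pow_orderOf_eq_one y
  have hsK : Nat.Coprime s (Nat.card K) :=
    (Nat.Coprime.coprime_dvd_right hsR hcop).symm
  have hfp : ∀ a ∈ fittingOf K, y * a * y⁻¹ = a → a = 1 := by
    intro a ha hae
    have h1 : a ∈ K ⊓ Subgroup.centralizer ({y} : Set G) := by
      refine Subgroup.mem_inf.mpr ⟨fittingOf_le K ha, ?_⟩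
      rw [Subgroup.mem_centralizer_iff]
      intro h hh
      rw [Set.mem_singleton_iff] at hh
      rw [hh]
      nth_rw 2 [← hae]
      group
    rw [hprime y hyR hy1] at h1
    have h2 : a ∈ fittingOf K ⊓ Subgroup.centralizer (R : Set G) := ⟨ha, h1.2⟩
    rw [hF] at h2
    exact h2
  let π := QuotientGroup.mk' (fittingOf K)
  have hπs : Function.Surjective π := QuotientGroup.mk'_surjective _
  haveI hKb : (K.map π).Normal := Subgroup.Normal.map ‹_› π hπs
  let Fb : Subgroup (G ⧸ fittingOf K) := fittingOf (K.map π)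
  have hFbR : Fb ≤ Subgroup.centralizer ((R.map π : Subgroup _) : Set (G ⧸ fittingOf K)) := by
    show fittingOf (K.map π) ≤ _
    rw [fittingOf_eq_iSup (K.map π)]
    apply iSup_le
    intro p
    haveI : Fact (p : ℕ).Prime := ⟨p.2⟩
    intro b hb
    rw [Subgroup.mem_centralizer_iff]
    rintro _ ⟨r, hr, rfl⟩
    exact step hodd K R hcop hprime y hyR hy1 hs hys hsK hfp p b hb r hr
  have hbot1 : ⁅R.map π, Fb⁆ = ⊥ := by
    rw [eq_bot_iff, Subgroup.commutator_le]
    intro r hr f hf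
    rw [Subgroup.mem_bot, commutatorElement_eq_one_iff_mul_comm]
    exact (Subgroup.mem_centralizer_iff.mp (hFbR hf) r hr)
  have hbot1' : ⁅Fb, R.map π⁆ = ⊥ := by
    rw [Subgroup.commutator_comm]
    exact hbot1
  have hFbn : Fb.Normal := inferInstance
  have hbot2 : ⁅⁅Fb, K.map π⁆, R.map π⁆ = ⊥ := by
    rw [eq_bot_iff, ← hbot1']
    apply Subgroup.commutator_mono _ le_rfl
    exact Subgroup.commutator_le_left Fb (K.map π)
  have hbot3 : ⁅⁅R.map π, Fb⁆, K.map π⁆ = ⊥ := by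
    rw [hbot1, Subgroup.commutator_bot_left]
  have h3 : ⁅⁅K.map π, R.map π⁆, Fb⁆ = ⊥ :=
    Subgroup.commutator_commutator_eq_bot_of_rotate hbot3 hbot2
  have hle1 : ⁅K.map π, R.map π⁆ ≤ K.map π := Subgroup.commutator_le_left _ _
  have h4 : ⁅K.map π, R.map π⁆ ≤ Fb := by
    intro u hu
    have h5 : (⟨u, hle1 hu⟩ : ↥(K.map π)) ∈ Subgroup.centralizer ((fittingSubgroup ↥(K.map π)) : Set ↥(K.map π)) := by
      rw [Subgroup.mem_centralizer_iff]
      intro f hf
      apply Subtype.ext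
      have h6 : ⁅u, (f : G ⧸ fittingOf K)⁆ ∈ ⁅⁅K.map π, R.map π⁆, Fb⁆ :=
        Subgroup.commutator_mem_commutator hu ⟨f, hf, rfl⟩
      rw [h3, Subgroup.mem_bot, commutatorElement_eq_one_iff_mul_comm] at h6
      exact h6.symm
    exact ⟨_, centralizer_fittingSubgroup_le h5, rfl⟩
  have hcopb : (Nat.card (R.map π)).Coprime (Nat.card (K.map π)) :=
    Nat.Coprime.coprime_dvd_left (R.card_map_dvd π) (Nat.Coprime.coprime_dvd_right (K.card_map_dvd π) hcop.symm)
  have h5 := Cfsg.Agent.Lib.Glauberman.commutator_commutator_eq (A := R.map π) (K := K.map π)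
    (by
      rw [Subgroup.le_normalizer_iff]
      intro h _ k hk
      exact hKb.conj_mem k hk h) hcopb (Or.inr inferInstance)
  have h6 : ⁅K.map π, R.map π⁆ = ⊥ := by
    rw [← h5, eq_bot_iff, ← hbot1']
    exact Subgroup.commutator_mono h4 le_rfl
  rw [Subgroup.commutator_le]
  intro k hk r hr
  have h7 : π ⁅k, r⁆ = 1 := by
    rw [map_commutatorElement]
    have := Subgroup.commutator_mem_commutator (Subgroup.mem_map_of_mem π hk) (Subgroup.mem_map_of_mem π hr)
    rw [h6, Subgroup.mem_bot] at this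
    exact this
  exact (QuotientGroup.eq_one_iff _).mp h7

end Cfsg.Agent.Lib.BGFix
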