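import Mathlib
import Cfsg.Agent.Lib.BGRes
import Cfsg.Agent.Lib.BGSec

/-!
# Free modules for cyclic groups of automorphisms acting freely

If `x` normalizes a solvable group `T` of operators, `x ^ m = 1`, the powers `x ^ i` (`0 < i < m`) act
without fixed points on `T`, and `T` has no nonzero fixed vector, then the fixed space of `x` has
dimension `dim V / m`.
-/

set_option autoImplicit false
set_option linter.unusedSectionVars false
set_option linter.unusedVariables false
set_option linter.style.haveILetI false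
set_option linter.unusedSimpArgs false
set_option linter.unusedDecidableInType false
set_option linter.unusedFintypeInType false

namespace Cfsg.Agent.Lib.BGFree

open Module Cfsg.Agent.Lib.BGWeight Cfsg.Agent.Lib.BGAb Cfsg.Agent.Lib.BGRes Cfsg.Agent.Lib.BGSec

open scoped TensorProduct commutatorElement

section Comb

variable {Λ : Type*} [DecidableEq Λ]

theorem iterate_mem_image (τ : Λ → Λ) {m : ℕ} (hm : 0 < m) {ψ : Λ} (h : τ^[m] ψ = ψ) (k : ℕ) :
    τ^[k] ψ ∈ (Finset.range m).image (fun i => τ^[i] ψ) := by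
  induction k with
  | zero =>
    exact Finset.mem_image.mpr ⟨0, Finset.mem_range.mpr hm, rfl⟩
  | succ k ih =>
    obtain ⟨i, hi, he⟩ := Finset.mem_image.mp ih
    have he' : τ^[i] ψ = τ^[k] ψ := he
    rw [Function.iterate_succ_apply', ← he', ← Function.iterate_succ_apply' τ i ψ]
    by_cases hi1 : i + 1 < m
    · exact Finset.mem_image.mpr ⟨i + 1, Finset.mem_range.mpr hi1, rfl⟩
    · have : i.succ = m := by
        have := Finset.mem_range.mp hi
        omega
      rw [this, h]
      exact Finset.mem_image.mpr ⟨0, Finset.mem_range.mpr hm, rfl⟩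

/-- A fundamental domain for a free action of a cyclic group. -/
theorem fund (τ : Λ → Λ) {m : ℕ} (hm : 0 < m) : ∀ T : Finset Λ, (∀ ψ ∈ T, τ ψ ∈ T) → (∀ ψ ∈ T, τ^[m] ψ = ψ) →
    (∀ ψ ∈ T, ∀ i, 0 < i → i < m → τ^[i] ψ ≠ ψ) →
    ∃ S ⊆ T, (∀ f : Λ → ℕ, (∀ ψ, f (τ ψ) = f ψ) → ∑ ψ ∈ T, f ψ = m * ∑ ψ ∈ S, f ψ) ∧
      ∀ ψ ∈ T, ∃ s ∈ S, ∃ i, τ^[i] s = ψ := by
  intro T
  induction T using Finset.strongInduction with
  | H T ih =>
    intro h1 h2 h3
    rcases T.eq_empty_or_nonempty with rfl | ⟨ψ, hψ⟩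
    · exact ⟨∅, subset_refl _, fun f _ => by simp, by simp⟩
    let O := (Finset.range m).image (fun i => τ^[i] ψ)
    have hiter : ∀ k, τ^[k] ψ ∈ T := by
      intro k
      induction k with
      | zero => exact hψ
      | succ k ih2 =>
        rw [Function.iterate_succ_apply']
        exact h1 _ ih2
    have hOT : O ⊆ T := by
      intro a ha
      obtain ⟨i, _, rfl⟩ := Finset.mem_image.mp ha
      exact hiter i
    have hψO : ψ ∈ O := Finset.mem_image.mpr ⟨0, Finset.mem_range.mpr hm, rfl⟩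
    have hinj : Set.InjOn (fun i => τ^[i] ψ) (Finset.range m : Set ℕ) := by
      have key : ∀ i j, i < j → j < m → τ^[i] ψ ≠ τ^[j] ψ := by
        intro i j hij hj he
        have h5 : τ^[m - j] (τ^[j] ψ) = ψ := by
          rw [← Function.iterate_add_apply, Nat.sub_add_cancel hj.le, h2 ψ hψ]
        have h6 : τ^[m - j + i] ψ = ψ := by
          rw [Function.iterate_add_apply, he, h5]
        exact h3 ψ hψ (m - j + i) (by omega) (by omega) h6
      intro i hi j hj he
      rcases lt_trichotomy i j with h | h | h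
      · exact absurd he (key i j h (Finset.mem_range.mp hj))
      · exact h
      · exact absurd he.symm (key j i h (Finset.mem_range.mp hi))
    have hsub : T \ O ⊂ T := by
      refine Finset.ssubset_iff_subset_ne.mpr ⟨Finset.sdiff_subset, ?_⟩
      intro he
      have : ψ ∈ T \ O := by rw [he]; exact hψ
      exact (Finset.mem_sdiff.mp this).2 hψO
    obtain ⟨S, hST, hS1, hS2⟩ := ih (T \ O) hsub
      (by
        intro φ hφ
        obtain ⟨hφT, hφO⟩ := Finset.mem_sdiff.mp hφ
        refine Finset.mem_sdiff.mpr ⟨h1 φ hφT, ?_⟩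
        intro hO
        apply hφO
        obtain ⟨i, _, hi⟩ := Finset.mem_image.mp hO
        have hi' : τ^[i] ψ = τ φ := hi
        have h5 : φ = τ^[m - 1 + i] ψ := by
          rw [Function.iterate_add_apply, hi', ← Function.iterate_succ_apply τ (m - 1) φ]
          have : (m - 1).succ = m := by omega
          rw [this, h2 φ hφT]
        rw [h5]
        exact iterate_mem_image τ hm (h2 ψ hψ) _)
      (fun φ hφ => h2 φ (Finset.mem_sdiff.mp hφ).1)
      (fun φ hφ => h3 φ (Finset.mem_sdiff.mp hφ).1)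
    have hψS : ψ ∉ S := fun h => (Finset.mem_sdiff.mp (hST h)).2 hψO
    refine ⟨insert ψ S, ?_, ?_, ?_⟩
    · intro a ha
      rcases Finset.mem_insert.mp ha with rfl | ha
      · exact hψ
      · exact (Finset.mem_sdiff.mp (hST ha)).1
    · intro f hf
      rw [Finset.sum_insert hψS, mul_add, ← hS1 f hf, ← Finset.sum_sdiff hOT]
      have h7 : ∑ a ∈ O, f a = m * f ψ := by
        rw [Finset.sum_image hinj]
        have h8 : ∀ i, f (τ^[i] ψ) = f ψ := by
          intro i
          induction i with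
          | zero => rfl
          | succ i ih3 => rw [Function.iterate_succ_apply', hf, ih3]
        simp [h8]
      rw [h7, add_comm]
    · intro φ hφ
      by_cases hO : φ ∈ O
      · obtain ⟨i, _, hi⟩ := Finset.mem_image.mp hO
        exact ⟨ψ, Finset.mem_insert_self _ _, i, hi⟩
      · obtain ⟨s, hs, i, hi⟩ := hS2 φ (Finset.mem_sdiff.mpr ⟨hφ, hO⟩)
        exact ⟨s, Finset.mem_insert_of_mem hs, i, hi⟩

end Comb

section Group

variable {H : Type*} [Group H]

/-- The derived series inside the ambient group. -/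
def dser (T : Subgroup H) : ℕ → Subgroup H
  | 0 => T
  | n + 1 => ⁅dser T n, dser T n⁆

theorem exists_abelian_char (T : Subgroup H) (hs : Group.IsSolvable T) (hT : T ≠ ⊥) :
    ∃ A ≤ T, A ≠ ⊥ ∧ (∀ a ∈ A, ∀ b ∈ A, a * b = b * a) ∧
      ∀ g : H, (∀ k ∈ T, g * k * g⁻¹ ∈ T) → ∀ a ∈ A, g * a * g⁻¹ ∈ A := by
  classical
  let D : ℕ → Subgroup H := dser T
  have hD0 : D 0 = T := rfl
  have hDs : ∀ n, D (n + 1) = ⁅D n, D n⁆ := fun n => rfl
  have hDder : ∀ n, D n = (derivedSeries T n).map T.subtype := by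
    intro n
    induction n with
    | zero =>
      rw [hD0, derivedSeries_zero, ← MonoidHom.range_eq_map, Subgroup.range_subtype]
    | succ n ih =>
      rw [hDs, derivedSeries_succ, Subgroup.map_commutator, ← ih]
  obtain ⟨n₁, hn₁⟩ := (Group.isSolvable_def T).mp hs
  have hk' : ∀ n, D n = ⊥ → ∃ k, D k ≠ ⊥ ∧ D (k + 1) = ⊥ := by
    intro n
    induction n with
    | zero =>
      intro h
      exact absurd h hT
    | succ n ih =>
      intro h
      by_cases h1 : D n = ⊥
      · exact ih h1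
      · exact ⟨n, h1, h⟩
  obtain ⟨k, hkne, hk2⟩ := hk' n₁ (by rw [hDder, hn₁, Subgroup.map_bot])
  have hle : ∀ n, D n ≤ T := by
    intro n
    rw [hDder]
    exact Subgroup.map_subtype_le _
  refine ⟨D k, hle k, hkne, ?_, ?_⟩
  · intro a ha b hb
    have h1 : ⁅a, b⁆ ∈ D (k + 1) := Subgroup.commutator_mem_commutator ha hb
    rw [hk2, Subgroup.mem_bot, commutatorElement_eq_one_iff_mul_comm] at h1
    exact h1
  · intro g hg
    have : ∀ n, ∀ a ∈ D n, g * a * g⁻¹ ∈ D n := by
      intro n
      induction n with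
      | zero => exact hg
      | succ n ih =>
        have h1 : D (n + 1) ≤ (D (n + 1)).comap (MulAut.conj g).toMonoidHom := by
          rw [hDs, Subgroup.commutator_le]
          intro a ha b hb
          rw [Subgroup.mem_comap]
          have h2 : (MulAut.conj g).toMonoidHom ⁅a, b⁆ = ⁅g * a * g⁻¹, g * b * g⁻¹⁆ := by
            rw [map_commutatorElement]
            rfl
          rw [h2]
          exact Subgroup.commutator_mem_commutator (ih a ha) (ih b hb)
        intro a ha
        exact h1 ha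
    exact this k

/-- Fixed point free automorphisms: coset fixed points lift. -/
theorem fpf_lift (T B : Subgroup H) [Finite T] (hBT : B ≤ T) (z : H) (hf : ∀ t ∈ T, z * t = t * z → t = 1)
    (hzB : ∀ b ∈ B, z * b * z⁻¹ ∈ B) {t : H} (ht : t ∈ T) (htB : t⁻¹ * (z * t * z⁻¹) ∈ B) : t ∈ B := by
  haveI : Finite B := Finite.of_injective (fun b : B => (⟨b, hBT b.2⟩ : T)) (by
    intro a b h
    exact Subtype.ext (congrArg (fun x : T => (x : H)) h))
  have key : ∀ a ∈ T, ∀ b ∈ T, a⁻¹ * (z * a * z⁻¹) = b⁻¹ * (z * b * z⁻¹) → a = b := by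
    intro a ha b hb h
    have h1 : z * (b * a⁻¹) = (b * a⁻¹) * z := by
      have h2 : b * (a⁻¹ * (z * a * z⁻¹)) = z * b * z⁻¹ := by
        rw [h]
        group
      calc z * (b * a⁻¹) = (z * b * z⁻¹) * (z * a⁻¹) := by group
        _ = (b * (a⁻¹ * (z * a * z⁻¹))) * (z * a⁻¹) := by rw [h2]
        _ = (b * a⁻¹) * z := by group
    have h3 := hf _ (T.mul_mem hb (T.inv_mem ha)) h1
    have h4 : b = a := by
      rw [mul_inv_eq_one] at h3
      exact h3
    exact h4.symm
  let φ : B → B := fun b => ⟨(b : H)⁻¹ * (z * b * z⁻¹), B.mul_mem (B.inv_mem b.2) (hzB b b.2)⟩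
  have hφ : Function.Injective φ := by
    intro a b h
    apply Subtype.ext
    exact key a (hBT a.2) b (hBT b.2) (congrArg Subtype.val h)
  have hφs := Finite.injective_iff_surjective.mp hφ
  obtain ⟨b, hb⟩ := hφs ⟨_, htB⟩
  have h5 : (b : H) = t := key b (hBT b.2) t ht (congrArg Subtype.val hb)
  rw [← h5]
  exact b.2

end Group

section Weights

variable {K : Type*} [Field K] {V : Type*} [AddCommGroup V] [Module K V]
  {W Γ : Type*} [CommGroup W] [Group Γ] (D : WData K V W Γ)

theorem eproj_act [Fintype W] (g : Γ) (ψ : W →* Kˣ) :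
    eproj D.rho (D.act g ψ) * (D.π g : Module.End K V) = (D.π g : Module.End K V) * eproj D.rho ψ := by
  classical
  unfold eproj
  rw [smul_mul_assoc, mul_smul_comm, Finset.sum_mul, Finset.mul_sum]
  congr 1
  refine (Fintype.sum_equiv (D.α g).toEquiv _ _ ?_).symm
  intro w
  rw [mul_smul_comm, smul_mul_assoc]
  have h1 : D.act g ψ ((D.α g).toEquiv w)⁻¹ = ψ w⁻¹ := by
    rw [WData.act_apply]
    simp only [MulEquiv.toEquiv_eq_coe, EquivLike.coe_coe, map_inv]
    rw [← MulAut.mul_apply, inv_mul_cancel]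
    rfl
  rw [h1]
  congr 1
  have h2 := D.compat g w
  rw [WData.rho_apply, WData.rho_apply]
  have h3 : ((D.φ ((D.α g).toEquiv w) : (Module.End K V)ˣ)) * D.π g = D.π g * D.φ w := by
    show D.φ (D.α g w) * D.π g = D.π g * D.φ w
    rw [h2]
    group
  exact (congrArg Units.val h3).symm

theorem finrank_wsp_le_act [FiniteDimensional K V] (g : Γ) (ψ : W →* Kˣ) :
    finrank K (wsp D.rho ψ) ≤ finrank K (wsp D.rho (D.act g ψ)) := by
  let L : wsp D.rho ψ →ₗ[K] wsp D.rho (D.act g ψ) :=
    LinearMap.codRestrict _ ((D.π g : Module.End K V).comp (wsp D.rho ψ).subtype) (by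
      intro v
      exact D.map_wsp g v.2)
  apply LinearMap.finrank_le_finrank_of_injective (f := L)
  intro a b h
  have h1 : (D.π g : Module.End K V) a = (D.π g : Module.End K V) b := congrArg Subtype.val h
  apply Subtype.ext
  have h2 : ∀ v : V, ((D.π g)⁻¹ : (Module.End K V)ˣ).val ((D.π g : Module.End K V) v) = v :=
    fun v => LinearMap.congr_fun (Units.inv_mul (D.π g)) v
  rw [← h2 a, ← h2 b, h1]

theorem finrank_wsp_act [FiniteDimensional K V] (g : Γ) (ψ : W →* Kˣ) :
    finrank K (wsp D.rho (D.act g ψ)) = finrank K (wsp D.rho ψ) := by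
  apply le_antisymm
  · have h := finrank_wsp_le_act D g⁻¹ (D.act g ψ)
    rw [← WData.act_mul, inv_mul_cancel, WData.act_one] at h
    exact h
  · exact finrank_wsp_le_act D g ψ

variable [IsAlgClosed K] [Finite W] [FiniteDimensional K V]

theorem act_iterate (y : Γ) (ψ : W →* Kˣ) (i : ℕ) : (D.act y)^[i] ψ = D.act (y ^ i) ψ := by
  induction i with
  | zero => simp [WData.act_one]
  | succ i ih => rw [Function.iterate_succ_apply', ih, pow_succ', WData.act_mul]

/-- The count for a group of fixed point free automorphisms of the abelian group `W`. -/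
theorem ab (hW : (Nat.card W : K) ≠ 0) (y : Γ) {m : ℕ} (hm : 0 < m) (hy : y ^ m = 1)
    (hfree : ∀ ψ : W →* Kˣ, ψ ≠ 1 → ∀ i, 0 < i → i < m → D.act (y ^ i) ψ ≠ ψ) :
    m * finrank K (LinearMap.ker ((D.π y : Module.End K V) - 1)) + finrank K (wsp D.rho 1) ≤
      m * finrank K ((LinearMap.ker ((D.π y : Module.End K V) - 1) ⊓ wsp D.rho 1 : Submodule K V)) + finrank K V := by
  classical
  haveI := Fintype.ofFinite W
  haveI := finite_dual (K := K) hW
  haveI := Fintype.ofFinite (W →* Kˣ)
  have hact1 : ∀ g : Γ, D.act g 1 = 1 := by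
    intro g
    ext w
    simp [WData.act_apply]
  have hactne : ∀ (g : Γ) (ψ : W →* Kˣ), ψ ≠ 1 → D.act g ψ ≠ 1 := by
    intro g ψ hψ h
    apply hψ
    have h1 := congrArg (D.act g⁻¹) h
    rwa [← WData.act_mul, inv_mul_cancel, WData.act_one, hact1] at h1
  obtain ⟨S, hST, hS1, hS2⟩ := fund (D.act y) hm ((Finset.univ : Finset (W →* Kˣ)).erase 1)
    (fun ψ hψ => Finset.mem_erase.mpr ⟨hactne y ψ (Finset.mem_erase.mp hψ).1, Finset.mem_univ _⟩)
    (fun ψ hψ => by rw [act_iterate, hy, WData.act_one])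
    (fun ψ hψ i hi0 him => by
      rw [act_iterate]
      exact hfree ψ (Finset.mem_erase.mp hψ).1 i hi0 him)
  have hsum := hS1 (fun ψ => finrank K (wsp D.rho ψ)) (fun ψ => finrank_wsp_act D y ψ)
  have hfin := finrank_eq_sum hW D.rho
  have h1 : finrank K V = finrank K (wsp D.rho 1) + m * ∑ ψ ∈ S, finrank K (wsp D.rho ψ) := by
    rw [hfin, ← Finset.add_sum_erase _ _ (Finset.mem_univ (1 : W →* Kˣ)), hsum]
  set C := LinearMap.ker ((D.π y : Module.End K V) - 1) with hC
  let L : C →ₗ[K] (∀ s : S, wsp D.rho (s : W →* Kˣ)) :=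
    LinearMap.pi (fun s => LinearMap.codRestrict _ ((eproj D.rho (s : W →* Kˣ)).comp C.subtype) (by
      intro v
      exact eproj_mem _ _ _))
  have hrank := LinearMap.finrank_range_add_finrank_ker L
  have h2 : finrank K (LinearMap.range L) ≤ ∑ ψ ∈ S, finrank K (wsp D.rho ψ) := by
    refine (Submodule.finrank_le _).trans ?_
    rw [Module.finrank_pi_fintype]
    exact (Finset.sum_coe_sort S (fun ψ => finrank K (wsp D.rho ψ))).le
  have hfixpow : ∀ (i : ℕ) (v : V), v ∈ C → (D.π (y ^ i) : Module.End K V) v = v := by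
    intro i v hv
    have hv1 : (D.π y : Module.End K V) v = v := by
      have := LinearMap.mem_ker.mp hv
      rwa [LinearMap.sub_apply, sub_eq_zero, Module.End.one_apply] at this
    rw [map_pow, Units.val_pow_eq_pow_val]
    induction i with
    | zero => simp
    | succ i ih => rw [pow_succ, Module.End.mul_apply, hv1, ih]
  have h3 : finrank K (LinearMap.ker L) ≤ finrank K ((C ⊓ wsp D.rho 1 : Submodule K V)) := by
    let L2 : LinearMap.ker L →ₗ[K] (C ⊓ wsp D.rho 1 : Submodule K V) :=
      LinearMap.codRestrict _ (C.subtype.comp (LinearMap.ker L).subtype) (by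
        rintro ⟨⟨v, hvC⟩, hv⟩
        refine Submodule.mem_inf.mpr ⟨hvC, ?_⟩
        have h4 : ∀ s ∈ S, eproj D.rho s v = 0 := by
          intro s hs
          have := congrFun (LinearMap.mem_ker.mp hv) ⟨s, hs⟩
          exact congrArg Subtype.val this
        have h5 : ∀ ψ : W →* Kˣ, ψ ≠ 1 → eproj D.rho ψ v = 0 := by
          intro ψ hψ
          obtain ⟨s, hs, i, hi⟩ := hS2 ψ (Finset.mem_erase.mpr ⟨hψ, Finset.mem_univ _⟩)
          rw [act_iterate] at hi
          rw [← hi]
          have h6 := LinearMap.congr_fun (eproj_act D (y ^ i) s) v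
          rw [Module.End.mul_apply, Module.End.mul_apply, hfixpow i v hvC, h4 s hs, map_zero] at h6
          exact h6
        have h7 := LinearMap.congr_fun (sum_eproj hW D.rho) v
        rw [LinearMap.sum_apply, Module.End.one_apply] at h7
        rw [Finset.sum_eq_single (1 : W →* Kˣ) (fun ψ _ hψ => h5 ψ hψ) (by simp)] at h7
        show v ∈ wsp D.rho 1
        rw [← h7]
        exact eproj_mem _ _ _)
    apply LinearMap.finrank_le_finrank_of_injective (f := L2)
    intro a b h
    apply Subtype.ext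
    apply Subtype.ext
    have h10 : ((L2 a : (C ⊓ wsp D.rho 1 : Submodule K V)) : V) = L2 b := congrArg Subtype.val h
    exact h10
  have h8 : finrank K C ≤ ∑ ψ ∈ S, finrank K (wsp D.rho ψ) + finrank K ((C ⊓ wsp D.rho 1 : Submodule K V)) := by
    omega
  rw [h1]
  have h9 := Nat.mul_le_mul_left m h8
  rw [mul_add] at h9
  omega

end Weights

section Ub

universe v

variable {K : Type*} [Field K]

/-- The operators acting trivially on a subspace. -/
def fixS {V : Type*} [AddCommGroup V] [Module K V] (U : Submodule K V) : Subgroup (Module.End K V)ˣ where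
  carrier := {g | ∀ u ∈ U, (g : Module.End K V) u = u}
  mul_mem' := by
    intro a b ha hb u hu
    rw [Units.val_mul, Module.End.mul_apply, hb u hu, ha u hu]
  one_mem' := by
    intro u _
    rfl
  inv_mem' := by
    intro a ha u hu
    have h : ((a⁻¹ : (Module.End K V)ˣ) : Module.End K V) ((a : Module.End K V) u) = u :=
      LinearMap.congr_fun (Units.inv_mul a) u
    rwa [ha u hu] at h

theorem mem_fixS {V : Type*} [AddCommGroup V] [Module K V] {U : Submodule K V} {g : (Module.End K V)ˣ} :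
    g ∈ fixS U ↔ ∀ u ∈ U, (g : Module.End K V) u = u := Iff.rfl

variable [IsAlgClosed K]

/-- The upper bound for the fixed space. -/
theorem ub (n : ℕ) : ∀ (V : Type v) [AddCommGroup V] [Module K V] [FiniteDimensional K V]
    (T : Subgroup (Module.End K V)ˣ) [Finite T] (x : (Module.End K V)ˣ) (m : ℕ), 0 < m → x ^ m = 1 →
    Nat.card T ≤ n → Group.IsSolvable T → (Nat.card T : K) ≠ 0 → (∀ t ∈ T, x * t * x⁻¹ ∈ T) →
    (∀ i, 0 < i → i < m → ∀ t ∈ T, x ^ i * t = t * x ^ i → t = 1) →
    (∀ v : V, (∀ t ∈ T, (t : Module.End K V) v = v) → v = 0) →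
    m * finrank K (LinearMap.ker ((x : Module.End K V) - 1)) ≤ finrank K V := by
  induction n with
  | zero =>
    intro V _ _ _ T _ x m hm hx hc
    have := Nat.card_pos (α := T)
    omega
  | succ n ih =>
    intro V _ _ _ T _ x m hm hx hc hsolv hcK hxT hfpf hC
    classical
    by_cases hT : T = ⊥
    · have hV : ∀ v : V, v = 0 := by
        intro v
        apply hC
        intro t ht
        rw [hT, Subgroup.mem_bot] at ht
        rw [ht]
        rfl
      haveI : Subsingleton V := ⟨fun a b => by rw [hV a, hV b]⟩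
      simp [finrank_zero_of_subsingleton]
    obtain ⟨A, hAT, hA1, hAc, hAn⟩ := exists_abelian_char T hsolv hT
    have hxinvEq : x⁻¹ = x ^ (m - 1) := by
      rw [inv_eq_iff_mul_eq_one, ← pow_succ', Nat.sub_add_cancel hm, hx]
    have hxinvT : ∀ t ∈ T, x⁻¹ * t * x⁻¹⁻¹ ∈ T := by
      intro t ht
      rw [hxinvEq]
      exact conj_pow_mem' x hxT (m - 1) t ht
    have hTA : ∀ t ∈ T, ∀ a ∈ A, t * a * t⁻¹ ∈ A :=
      fun t ht => hAn t (fun k hk => T.mul_mem (T.mul_mem ht hk) (T.inv_mem ht))
    have hxA : ∀ a ∈ A, x * a * x⁻¹ ∈ A := hAn x hxT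
    have hxA' : ∀ a ∈ A, x⁻¹ * a * x⁻¹⁻¹ ∈ A := hAn x⁻¹ hxinvT
    obtain ⟨W, _, D, e, h1, h2, h3⟩ := exists_model A hAc
    haveI hAfin : Finite A := Finite.of_injective (fun a : A => (⟨a, hAT a.2⟩ : T)) (by
      intro a b h
      exact Subtype.ext (congrArg (fun z : T => (z : (Module.End K V)ˣ)) h))
    haveI hWfin : Finite W := Finite.of_equiv _ e.symm.toEquiv
    have hcW : (Nat.card W : K) ≠ 0 := by
      rw [Nat.card_congr e.toEquiv]
      intro h
      apply hcK
      obtain ⟨c, hc'⟩ := Subgroup.card_dvd_of_le hAT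
      rw [hc', Nat.cast_mul, h, zero_mul]
    have hxN : x ∈ Subgroup.normalizer (A : Set (Module.End K V)ˣ) := by
      refine Subgroup.mem_normalizer_iff.mpr ?_
      intro a
      constructor
      · exact hxA a
      · intro h6
        have := hxA' _ h6
        simpa [mul_assoc] using this
    let y' : ↥(Subgroup.normalizer (A : Set (Module.End K V)ˣ)) := ⟨x, hxN⟩
    have hy'm : y' ^ m = 1 := by
      apply Subtype.ext
      simp [y', hx]
    have hπ : (D.π y' : Module.End K V) = (x : Module.End K V) := by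
      rw [h2]
    have hfree : ∀ ψ : W →* Kˣ, ψ ≠ 1 → ∀ i, 0 < i → i < m → D.act (y' ^ i) ψ ≠ ψ := by
      intro ψ hψ i hi0 him h
      apply hψ
      have hσ : ∀ w, ψ (D.α (y' ^ i) w) = ψ w := by
        intro w
        have h4 := congrArg (fun f : W →* Kˣ => f (D.α (y' ^ i) w)) h
        simp only [WData.act_apply] at h4
        rw [← h4, map_inv, ← MulAut.mul_apply, inv_mul_cancel]
        rfl
      let φ : W → W := fun w => w⁻¹ * D.α (y' ^ i) w
      have hφ : Function.Injective φ := by
        intro u w huw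
        have h5 : D.α (y' ^ i) (u * w⁻¹) = u * w⁻¹ := by
          have h6 : u⁻¹ * D.α (y' ^ i) u = w⁻¹ * D.α (y' ^ i) w := huw
          rw [map_mul, map_inv]
          calc D.α (y' ^ i) u * (D.α (y' ^ i) w)⁻¹
              = u * (u⁻¹ * D.α (y' ^ i) u) * (D.α (y' ^ i) w)⁻¹ := by group
            _ = u * (w⁻¹ * D.α (y' ^ i) w) * (D.α (y' ^ i) w)⁻¹ := by rw [h6]
            _ = u * w⁻¹ := by group
        have h7 := h3 (y' ^ i) (u * w⁻¹)
        rw [h5] at h7
        have h8 : ((y' ^ i : ↥(Subgroup.normalizer (A : Set (Module.End K V)ˣ))) : (Module.End K V)ˣ) = x ^ i := by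
          simp [y']
        rw [h8] at h7
        have h9 : x ^ i * (e (u * w⁻¹) : (Module.End K V)ˣ) = (e (u * w⁻¹) : (Module.End K V)ˣ) * x ^ i := by
          conv_rhs => rw [h7]
          group
        have h10 := hfpf i hi0 him _ (hAT (e (u * w⁻¹)).2) h9
        have h11 : e (u * w⁻¹) = 1 := Subtype.ext h10
        have h12 : u * w⁻¹ = 1 := by
          rw [← map_one e] at h11
          exact e.injective h11
        exact mul_inv_eq_one.mp h12
      have hφs := Finite.injective_iff_surjective.mp hφ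
      ext w
      obtain ⟨u, rfl⟩ := hφs w
      have h13 : ψ (φ u) = 1 := by
        show ψ (u⁻¹ * D.α (y' ^ i) u) = 1
        rw [map_mul, map_inv, hσ, inv_mul_cancel]
      rw [h13]
      rfl
    have hab := ab D hcW y' hm hy'm hfree
    rw [hπ] at hab
    set U := wsp D.rho 1 with hUdef
    have hU : ∀ v : V, v ∈ U ↔ ∀ a ∈ A, (a : Module.End K V) v = v := by
      intro v
      constructor
      · intro hv a ha
        have h4 := hv (e.symm ⟨a, ha⟩)
        rw [WData.rho_apply, h1] at h4
        simpa using h4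
      · intro hv w
        rw [WData.rho_apply, h1, hv _ (e w).2]
        simp
    have hstab : ∀ g : (Module.End K V)ˣ, (∀ a ∈ A, g⁻¹ * a * g⁻¹⁻¹ ∈ A) → (∀ a ∈ A, g * a * g⁻¹ ∈ A) → g ∈ stab U := by
      intro g hg hg'
      have key : ∀ g : (Module.End K V)ˣ, (∀ a ∈ A, g⁻¹ * a * g⁻¹⁻¹ ∈ A) → ∀ u ∈ U, (g : Module.End K V) u ∈ U := by
        intro g hg u hu
        rw [hU] at hu ⊢
        intro a ha
        have h4 := hu _ (hg a ha)
        have h5 : (a : (Module.End K V)ˣ) * g = g * (g⁻¹ * a * g⁻¹⁻¹) := by group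
        have h6 := LinearMap.congr_fun (congrArg Units.val h5) u
        simp only [Units.val_mul, Module.End.mul_apply] at h6
        rw [h6]
        congr 1
      refine ⟨key g hg, key g⁻¹ ?_⟩
      simpa using hg'
    have hTs : ∀ t ∈ T, t ∈ stab U := fun t ht =>
      hstab t (hTA t⁻¹ (T.inv_mem ht)) (hTA t ht)
    have hxs : x ∈ stab U := hstab x hxA' hxA
    haveI hfinT₁ : Finite (resG U T) := finite_resG U T
    let x₁ : (Module.End K U)ˣ := res U ⟨x, hxs⟩
    have hx₁ : x₁ ^ m = 1 := by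
      have : (⟨x, hxs⟩ : ↥(stab U)) ^ m = 1 := Subtype.ext (by simp [hx])
      rw [← map_pow, this, map_one]
    let f : ↥T →* (Module.End K U)ˣ := (res U).comp (Subgroup.inclusion (show T ≤ stab U from hTs))
    have hfr : resG U T = f.range := by
      ext z
      rw [mem_resG, MonoidHom.mem_range]
      constructor
      · rintro ⟨t, hs, ht, rfl⟩
        exact ⟨⟨t, ht⟩, rfl⟩
      · rintro ⟨⟨t, ht⟩, rfl⟩
        exact ⟨t, hTs t ht, ht, rfl⟩
    have hfa : ∀ a (ha : a ∈ A), f ⟨a, hAT ha⟩ = 1 := by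
      intro a ha
      apply Units.ext
      apply LinearMap.ext
      intro u
      apply Subtype.ext
      exact (hU u).mp u.2 a ha
    have hlt : Nat.card (resG U T) < Nat.card T := by
      by_contra hle
      push Not at hle
      rw [hfr] at hle
      have hbij := (f.rangeRestrict_surjective).bijective_of_nat_card_le hle
      obtain ⟨a, ha, ha1⟩ : ∃ a ∈ A, a ≠ 1 := by
        by_contra hno
        push Not at hno
        exact hA1 (eq_bot_iff.mpr (fun a ha => hno a ha))
      have h4 : f.rangeRestrict ⟨a, hAT ha⟩ = f.rangeRestrict 1 := by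
        apply Subtype.ext
        simp only [MonoidHom.coe_rangeRestrict, map_one]
        exact hfa a ha
      have h5 := hbij.1 h4
      exact ha1 (congrArg Subtype.val h5)
    have hsolv₁ : Group.IsSolvable (resG U T) := by
      rw [hfr]
      exact Group.isSolvable_of_surjective (f := f.rangeRestrict) f.rangeRestrict_surjective
    have hcK₁ : (Nat.card (resG U T) : K) ≠ 0 := by
      intro h
      apply hcK
      rw [hfr] at h
      obtain ⟨c, hc'⟩ := Subgroup.card_range_dvd f
      rw [hc', Nat.cast_mul, h, zero_mul]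
    have hx₁T : ∀ t ∈ resG U T, x₁ * t * x₁⁻¹ ∈ resG U T := by
      intro t ht
      obtain ⟨t₀, hs, ht₀, rfl⟩ := mem_resG.mp ht
      have h4 : x * t₀ * x⁻¹ ∈ stab U := hTs _ (hxT t₀ ht₀)
      have h5 : x₁ * res U ⟨t₀, hs⟩ * x₁⁻¹ = res U ⟨x * t₀ * x⁻¹, h4⟩ := by
        have : (⟨x * t₀ * x⁻¹, h4⟩ : ↥(stab U)) = ⟨x, hxs⟩ * ⟨t₀, hs⟩ * (⟨x, hxs⟩ : ↥(stab U))⁻¹ := rfl
        rw [this, map_mul, map_mul, map_inv]
      rw [h5]
      exact res_mem (hxT t₀ ht₀) h4
    have hfpf₁ : ∀ i, 0 < i → i < m → ∀ t ∈ resG U T, x₁ ^ i * t = t * x₁ ^ i → t = 1 := by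
      intro i hi0 him t ht hcomm
      obtain ⟨t₀, hs, ht₀, rfl⟩ := mem_resG.mp ht
      let z := x ^ i
      have hzT : ∀ b ∈ T, z * b * z⁻¹ ∈ T := conj_pow_mem' x hxT i
      have hzs : z ∈ stab U := (stab U).pow_mem hxs i
      have hzB : ∀ b ∈ T ⊓ fixS U, z * b * z⁻¹ ∈ T ⊓ fixS U := by
        intro b hb
        obtain ⟨hb1, hb2⟩ := Subgroup.mem_inf.mp hb
        refine Subgroup.mem_inf.mpr ⟨hzT b hb1, ?_⟩
        rw [mem_fixS] at hb2 ⊢
        intro u hu
        have h4 : ((z⁻¹ : (Module.End K V)ˣ) : Module.End K V) u ∈ U := hzs.2 u hu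
        simp only [Units.val_mul, Module.End.mul_apply]
        rw [hb2 _ h4]
        exact LinearMap.congr_fun (Units.mul_inv z) u
      have htB : t₀⁻¹ * (z * t₀ * z⁻¹) ∈ T ⊓ fixS U := by
        refine Subgroup.mem_inf.mpr ⟨T.mul_mem (T.inv_mem ht₀) (hzT t₀ ht₀), ?_⟩
        rw [mem_fixS]
        intro u hu
        have hu' : ((z⁻¹ : (Module.End K V)ˣ) : Module.End K V) u ∈ U := hzs.2 u hu
        have h4 : x₁ ^ i = res U ⟨z, hzs⟩ := by
          have : (⟨z, hzs⟩ : ↥(stab U)) = (⟨x, hxs⟩ : ↥(stab U)) ^ i := Subtype.ext (by simp [z])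
          rw [this, map_pow]
        rw [h4] at hcomm
        have h5 := LinearMap.congr_fun (congrArg Units.val hcomm) ⟨_, hu'⟩
        have h6 := congrArg Subtype.val h5
        simp only [Units.val_mul, Module.End.mul_apply, res_apply] at h6
        have h7 : (z : Module.End K V) (((z⁻¹ : (Module.End K V)ˣ) : Module.End K V) u) = u :=
          LinearMap.congr_fun (Units.mul_inv z) u
        rw [h7] at h6
        simp only [Units.val_mul, Module.End.mul_apply]
        rw [h6]
        exact LinearMap.congr_fun (Units.inv_mul t₀) u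
      have htB2 := fpf_lift T (T ⊓ fixS U) inf_le_left z (hfpf i hi0 him) hzB ht₀ htB
      have htF := (Subgroup.mem_inf.mp htB2).2
      apply Units.ext
      apply LinearMap.ext
      intro u
      apply Subtype.ext
      exact htF u u.2
    have hC₁ : ∀ v : U, (∀ t ∈ resG U T, (t : Module.End K U) v = v) → v = 0 := by
      intro v hv
      apply Subtype.ext
      apply hC
      intro t ht
      have h4 := hv _ (res_mem ht (hTs t ht))
      exact congrArg Subtype.val h4
    have hIH := ih U (resG U T) x₁ m hm hx₁ (by omega) hsolv₁ hcK₁ hx₁T hfpf₁ hC₁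
    have h4 : finrank K ((LinearMap.ker ((x : Module.End K V) - 1) ⊓ U : Submodule K V)) ≤
        finrank K (LinearMap.ker ((x₁ : Module.End K U) - 1)) := by
      let L1 : (LinearMap.ker ((x : Module.End K V) - 1) ⊓ U : Submodule K V) →ₗ[K] U :=
        LinearMap.codRestrict U (Submodule.subtype _) (fun v => v.2.2)
      let L : (LinearMap.ker ((x : Module.End K V) - 1) ⊓ U : Submodule K V) →ₗ[K]
          LinearMap.ker ((x₁ : Module.End K U) - 1) :=
        LinearMap.codRestrict _ L1 (by
          rintro ⟨v, hv1, hv2⟩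
          rw [LinearMap.mem_ker]
          apply Subtype.ext
          have := LinearMap.mem_ker.mp hv1
          exact this)
      apply LinearMap.finrank_le_finrank_of_injective (f := L)
      intro a b h
      apply Subtype.ext
      have h5 : ((L a : U) : V) = ((L b : U) : V) := by rw [h]
      exact h5
    have h5 := Nat.mul_le_mul_left m h4
    omega

end Ub

section Ft

universe v

variable {K : Type*} [Field K]

/-- Scalars as units. -/
noncomputable def scal {V : Type*} [AddCommGroup V] [Module K V] (z : Kˣ) : (Module.End K V)ˣ :=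
  Units.map (algebraMap K (Module.End K V)).toMonoidHom z

theorem scal_apply {V : Type*} [AddCommGroup V] [Module K V] (z : Kˣ) (v : V) :
    ((scal z : (Module.End K V)ˣ) : Module.End K V) v = (z : K) • v := rfl

theorem scal_comm {V : Type*} [AddCommGroup V] [Module K V] (z : Kˣ) (g : (Module.End K V)ˣ) :
    scal z * g = g * scal z := by
  apply Units.ext
  apply LinearMap.ext
  intro v
  show (z : K) • (g : Module.End K V) v = (g : Module.End K V) ((z : K) • v)
  rw [map_smul]

variable [IsAlgClosed K]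

theorem ub_twist {V : Type v} [AddCommGroup V] [Module K V] [FiniteDimensional K V]
    (T : Subgroup (Module.End K V)ˣ) [Finite T] (x : (Module.End K V)ˣ) {m : ℕ} (hm : 0 < m) (hx : x ^ m = 1)
    (hsolv : Group.IsSolvable T) (hcK : (Nat.card T : K) ≠ 0) (hxT : ∀ t ∈ T, x * t * x⁻¹ ∈ T)
    (hfpf : ∀ i, 0 < i → i < m → ∀ t ∈ T, x ^ i * t = t * x ^ i → t = 1)
    (hC : ∀ v : V, (∀ t ∈ T, (t : Module.End K V) v = v) → v = 0) (z : Kˣ) (hz : z ^ m = 1) :
    m * finrank K (LinearMap.ker (((scal z * x : (Module.End K V)ˣ) : Module.End K V) - 1)) ≤ finrank K V := by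
  have hcomm : Commute (scal z : (Module.End K V)ˣ) x := scal_comm z x
  have hpow : ∀ i : ℕ, (scal z * x) ^ i = scal (z ^ i) * x ^ i := by
    intro i
    rw [hcomm.mul_pow]
    congr 1
    exact (map_pow _ z i).symm
  refine ub (Nat.card T) V T (scal z * x) m hm ?_ le_rfl hsolv hcK ?_ ?_ hC
  · rw [hpow, hz, hx, mul_one]
    exact map_one _
  · intro t ht
    have h : (scal z * x) * t * (scal z * x)⁻¹ = x * t * x⁻¹ := by
      calc (scal z * x) * t * (scal z * x)⁻¹ = scal z * (x * t * x⁻¹) * (scal z)⁻¹ := by group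
        _ = (x * t * x⁻¹) * scal z * (scal z)⁻¹ := by rw [scal_comm]
        _ = x * t * x⁻¹ := by group
    rw [h]
    exact hxT t ht
  · intro i hi0 him t ht hc
    apply hfpf i hi0 him t ht
    rw [hpow] at hc
    have h1 : scal (z ^ i) * (x ^ i * t) = scal (z ^ i) * (t * x ^ i) := by
      calc scal (z ^ i) * (x ^ i * t) = scal (z ^ i) * x ^ i * t := by group
        _ = t * (scal (z ^ i) * x ^ i) := hc
        _ = (t * scal (z ^ i)) * x ^ i := by group
        _ = (scal (z ^ i) * t) * x ^ i := by rw [scal_comm]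
        _ = scal (z ^ i) * (t * x ^ i) := by group
    exact mul_left_cancel h1

/-- The free module theorem over an algebraically closed field. -/
theorem ft_closed {V : Type v} [AddCommGroup V] [Module K V] [FiniteDimensional K V]
    (T : Subgroup (Module.End K V)ˣ) [Finite T] (x : (Module.End K V)ˣ) {m : ℕ} (hm : 0 < m) (hmK : (m : K) ≠ 0)
    (hx : x ^ m = 1)
    (hsolv : Group.IsSolvable T) (hcK : (Nat.card T : K) ≠ 0) (hxT : ∀ t ∈ T, x * t * x⁻¹ ∈ T)
    (hfpf : ∀ i, 0 < i → i < m → ∀ t ∈ T, x ^ i * t = t * x ^ i → t = 1)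
    (hC : ∀ v : V, (∀ t ∈ T, (t : Module.End K V) v = v) → v = 0) :
    finrank K V = m * finrank K (LinearMap.ker ((x : Module.End K V) - 1)) := by
  classical
  have hub1 := ub (Nat.card T) V T x m hm hx le_rfl hsolv hcK hxT hfpf hC
  apply le_antisymm _ hub1
  have hAc : ∀ a ∈ Subgroup.zpowers x, ∀ b ∈ Subgroup.zpowers x, a * b = b * a := by
    intro a ha b hb
    obtain ⟨i, rfl⟩ := Subgroup.mem_zpowers_iff.mp ha
    obtain ⟨j, rfl⟩ := Subgroup.mem_zpowers_iff.mp hb
    rw [← zpow_add, ← zpow_add, add_comm]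
  obtain ⟨W, _, D, e, h1, h2, h3⟩ := exists_model (Subgroup.zpowers x) hAc
  have hfo : IsOfFinOrder x := isOfFinOrder_iff_pow_eq_one.mpr ⟨m, hm, hx⟩
  haveI hAfin : Finite (Subgroup.zpowers x) := Set.finite_coe_iff.mpr (finite_zpowers.mpr hfo)
  haveI hWfin : Finite W := Finite.of_equiv _ e.symm.toEquiv
  have hWc : Nat.card W = orderOf x := by
    rw [Nat.card_congr e.toEquiv, Nat.card_zpowers]
  have hWd : Nat.card W ∣ m := by
    rw [hWc]
    exact orderOf_dvd_of_pow_eq_one hx
  have hcW : (Nat.card W : K) ≠ 0 := by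
    intro h
    apply hmK
    obtain ⟨c, hc'⟩ := hWd
    rw [hc', Nat.cast_mul, h, zero_mul]
  haveI := Fintype.ofFinite W
  haveI := finite_dual (K := K) hcW
  haveI := Fintype.ofFinite (W →* Kˣ)
  haveI := enough (K := K) hcW
  have hN : Fintype.card (W →* Kˣ) ≤ m := by
    rw [← Nat.card_eq_fintype_card, CommGroup.card_monoidHom_of_hasEnoughRootsOfUnity W K]
    exact Nat.le_of_dvd hm hWd
  let w₀ : W := e.symm ⟨x, Subgroup.mem_zpowers x⟩
  have hw₀ : ((D.φ w₀ : (Module.End K V)ˣ)) = x := by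
    rw [h1]
    simp [w₀]
  have hw₀m : w₀ ^ m = 1 := by
    apply e.injective
    apply Subtype.ext
    simp [w₀, hx]
  have hle : ∀ ψ : W →* Kˣ, m * finrank K (wsp D.rho ψ) ≤ finrank K V := by
    intro ψ
    have h4 := ub_twist T x hm hx hsolv hcK hxT hfpf hC (ψ w₀)⁻¹ (by
      rw [inv_pow, ← map_pow, hw₀m, map_one, inv_one])
    refine le_trans (Nat.mul_le_mul_left m ?_) h4
    apply Submodule.finrank_mono
    intro v hv
    rw [LinearMap.mem_ker, LinearMap.sub_apply, sub_eq_zero, Module.End.one_apply, Units.val_mul,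
      Module.End.mul_apply, scal_apply]
    have h5 := hv w₀
    rw [WData.rho_apply, hw₀] at h5
    rw [h5, smul_smul]
    simp
  have h6 : wsp D.rho 1 ≤ LinearMap.ker ((x : Module.End K V) - 1) := by
    intro v hv
    rw [LinearMap.mem_ker, LinearMap.sub_apply, sub_eq_zero, Module.End.one_apply]
    have h5 := hv w₀
    rw [WData.rho_apply, hw₀] at h5
    rw [h5]
    simp
  have hfin := finrank_eq_sum hcW D.rho
  have h7 : m * finrank K V ≤ m * finrank K (wsp D.rho 1) + (Fintype.card (W →* Kˣ) - 1) * finrank K V := by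
    rw [hfin, Finset.mul_sum, ← Finset.add_sum_erase _ _ (Finset.mem_univ (1 : W →* Kˣ))]
    rw [← hfin]
    apply Nat.add_le_add_left
    have h8 : ∀ ψ ∈ (Finset.univ : Finset (W →* Kˣ)).erase 1, m * finrank K (wsp D.rho ψ) ≤ finrank K V :=
      fun ψ _ => hle ψ
    have h9 := Finset.sum_le_card_nsmul _ _ _ h8
    rw [Finset.card_erase_of_mem (Finset.mem_univ _), Finset.card_univ, smul_eq_mul] at h9
    exact h9
  have h10 := Nat.mul_le_mul_left m (Submodule.finrank_mono h6)
  have hNpos : 0 < Fintype.card (W →* Kˣ) := Fintype.card_pos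
  obtain ⟨c, hc⟩ : ∃ c, Fintype.card (W →* Kˣ) = c + 1 := ⟨_, (Nat.sub_add_cancel hNpos).symm⟩
  rw [hc] at hN h7
  simp only [Nat.add_sub_cancel] at h7
  have h11 := Nat.mul_le_mul_right (finrank K V) hN
  rw [Nat.succ_mul] at h11
  omega

end Ft

section Base

universe v

variable {F : Type*} [Field F] {V : Type v} [AddCommGroup V] [Module F V] [FiniteDimensional F V]

theorem finrank_ker_baseChange_eq {𝕜 : Type*} [Field 𝕜] [Algebra F 𝕜] (A : V →ₗ[F] V) :
    finrank 𝕜 (LinearMap.ker (A.baseChange 𝕜)) = finrank F (LinearMap.ker A) := by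
  apply le_antisymm (finrank_ker_baseChange_le A)
  have hle : LinearMap.range ((LinearMap.ker A).subtype.baseChange 𝕜) ≤ LinearMap.ker (A.baseChange 𝕜) := by
    rintro _ ⟨w, rfl⟩
    rw [LinearMap.mem_ker, ← LinearMap.comp_apply, ← LinearMap.baseChange_comp]
    have : A ∘ₗ (LinearMap.ker A).subtype = 0 := by
      ext v
      simp
    rw [this, LinearMap.baseChange_zero]
    rfl
  have hinj : Function.Injective ((LinearMap.ker A).subtype.baseChange 𝕜) := by
    rw [LinearMap.baseChange_eq_ltensor]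
    exact Module.Flat.lTensor_preserves_injective_linearMap _ (Submodule.injective_subtype _)
  have h1 := LinearMap.finrank_range_of_inj hinj
  rw [Module.finrank_baseChange] at h1
  rw [← h1]
  exact Submodule.finrank_mono hle

/-- The free module theorem over a field. -/
theorem ft (T : Subgroup (Module.End F V)ˣ) [Finite T] (x : (Module.End F V)ˣ) {m : ℕ} (hm : 0 < m)
    (hmF : (m : F) ≠ 0) (hx : x ^ m = 1)
    (hsolv : Group.IsSolvable T) (hcF : (Nat.card T : F) ≠ 0) (hxT : ∀ t ∈ T, x * t * x⁻¹ ∈ T)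
    (hfpf : ∀ i, 0 < i → i < m → ∀ t ∈ T, x ^ i * t = t * x ^ i → t = 1)
    (hC : ∀ v : V, (∀ t ∈ T, (t : Module.End F V) v = v) → v = 0) :
    finrank F V = m * finrank F (LinearMap.ker ((x : Module.End F V) - 1)) := by
  classical
  let 𝕜 := AlgebraicClosure F
  let T' : Subgroup (Module.End 𝕜 (𝕜 ⊗[F] V))ˣ := T.map (bcU 𝕜)
  haveI hT'fin : Finite T' := Finite.of_surjective ((bcU 𝕜).subgroupMap T) ((bcU 𝕜).subgroupMap_surjective T)
  have hT'c : Nat.card T' = Nat.card T := Subgroup.card_map_of_injective bcU_injective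
  have hm𝕜 : (m : 𝕜) ≠ 0 := by
    rw [← map_natCast (algebraMap F 𝕜)]
    exact (map_ne_zero _).mpr hmF
  have hc𝕜 : (Nat.card T' : 𝕜) ≠ 0 := by
    rw [hT'c, ← map_natCast (algebraMap F 𝕜)]
    exact (map_ne_zero _).mpr hcF
  have hsolv' : Group.IsSolvable T' :=
    Group.isSolvable_of_surjective (f := (bcU 𝕜).subgroupMap T) ((bcU 𝕜).subgroupMap_surjective T)
  haveI := Fintype.ofFinite T
  have hz : (∑ t : T, ((t : (Module.End F V)ˣ) : Module.End F V)) = 0 := by
    apply LinearMap.ext
    intro v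
    apply hC
    intro t ht
    rw [LinearMap.sum_apply, map_sum]
    refine Fintype.sum_equiv (Equiv.mulLeft (⟨t, ht⟩ : T)) _ _ ?_
    intro a
    rfl
  have hC' : ∀ v : 𝕜 ⊗[F] V, (∀ t ∈ T', (t : Module.End 𝕜 (𝕜 ⊗[F] V)) v = v) → v = 0 := by
    intro v hv
    have h1 : (∑ t : T, LinearMap.baseChange 𝕜 ((t : (Module.End F V)ˣ) : Module.End F V)) = 0 := by
      have h2 := congrArg (LinearMap.baseChangeHom F 𝕜 V V) hz
      rw [map_sum, map_zero] at h2
      exact h2
    have h3 := LinearMap.congr_fun h1 v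
    rw [LinearMap.sum_apply, LinearMap.zero_apply] at h3
    have h4 : ∀ t : T, LinearMap.baseChange 𝕜 ((t : (Module.End F V)ˣ) : Module.End F V) v = v := by
      intro t
      exact hv _ ⟨t, t.2, rfl⟩
    rw [Finset.sum_congr rfl (fun t _ => h4 t), Finset.sum_const, Finset.card_univ] at h3
    have h5 : (Fintype.card T : 𝕜) ≠ 0 := by
      rw [← Nat.card_eq_fintype_card, ← hT'c]
      exact hc𝕜
    rw [← Nat.cast_smul_eq_nsmul 𝕜] at h3
    exact (smul_eq_zero.mp h3).resolve_left h5
  have hmain := ft_closed (K := 𝕜) T' (bcU 𝕜 x) hm hm𝕜 (by rw [← map_pow, hx, map_one]) hsolv' hc𝕜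
    (by
      rintro _ ⟨t, ht, rfl⟩
      exact ⟨x * t * x⁻¹, hxT t ht, by simp [map_mul, map_inv]⟩)
    (by
      rintro i hi0 him _ ⟨t, ht, rfl⟩ hcomm
      have h1 : x ^ i * t = t * x ^ i := by
        apply bcU_injective (𝕜 := 𝕜)
        simpa [map_mul, map_pow] using hcomm
      rw [hfpf i hi0 him t ht h1, map_one])
    hC'
  rw [Module.finrank_baseChange] at hmain
  rw [hmain]
  congr 1
  have e : ((bcU 𝕜 x : (Module.End 𝕜 (𝕜 ⊗[F] V))ˣ) : Module.End 𝕜 (𝕜 ⊗[F] V)) - 1 =
      LinearMap.baseChange 𝕜 ((x : Module.End F V) - 1) := by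
    rw [bcU_val, LinearMap.baseChange_sub]
    congr 1
    exact LinearMap.baseChange_id.symm
  rw [e]
  exact finrank_ker_baseChange_eq _

end Base

end Cfsg.Agent.Lib.BGFree
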