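import Mathlib
import Cfsg.Agent.Lib.BGFree
import Cfsg.Agent.Lib.BGRep
import Cfsg.Agent.Lib.PCore

/-!
# A group of operators normalized by a fixed point free element with small fixed space is abelian
-/

set_option autoImplicit false
set_option linter.unusedSectionVars false
set_option linter.unusedVariables false
set_option linter.style.haveILetI false
set_option linter.unusedSimpArgs false
set_option linter.unusedDecidableInType false
set_option linter.unusedFintypeInType false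

namespace Cfsg.Agent.Lib.BGFree2

open Module Cfsg Cfsg.Agent.Lib.BGWeight Cfsg.Agent.Lib.BGAb Cfsg.Agent.Lib.BGRes Cfsg.Agent.Lib.BGRep
  Cfsg.Agent.Lib.BGFree Cfsg.Agent.Lib.PCore

open scoped commutatorElement Pointwise

universe v

section Abs

variable {H : Type*} [Group H]

theorem dvd_card_of_no_fixed {Λ : Type*} [DecidableEq Λ] (τ : Λ → Λ) {s : ℕ} (hs : s.Prime) (T : Finset Λ)
    (h1 : ∀ ψ ∈ T, τ ψ ∈ T) (h2 : ∀ ψ ∈ T, τ^[s] ψ = ψ) (h3 : ∀ ψ ∈ T, τ ψ ≠ ψ) : s ∣ T.card := by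
  obtain ⟨S, -, hS, -⟩ := fund τ hs.pos T h1 h2 (by
    intro ψ hψ i hi0 his he
    have hc : Nat.Coprime i s := (Nat.coprime_of_lt_prime hi0.ne' his hs).symm
    have hp : Function.IsPeriodicPt τ (i.gcd s) ψ :=
      Function.IsPeriodicPt.gcd (m := i) (n := s) he (h2 ψ hψ)
    rw [hc] at hp
    exact h3 ψ hψ hp)
  have h4 := hS (fun _ => 1) (fun _ => rfl)
  simp only [Finset.sum_const, smul_eq_mul, mul_one] at h4
  rw [h4]
  exact dvd_mul_right _ _

theorem conj_iterate (T : Subgroup H) (y : H) (hyT : ∀ t ∈ T, y * t * y⁻¹ ∈ T) (i : ℕ) (t : ↥T) :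
    (((fun t : ↥T => (⟨y * t * y⁻¹, hyT t t.2⟩ : ↥T))^[i] t : ↥T) : H) = y ^ i * t * (y ^ i)⁻¹ := by
  induction i with
  | zero => simp
  | succ i ih =>
    rw [Function.iterate_succ_apply']
    show y * ((_ : ↥T) : H) * y⁻¹ = _
    rw [ih, pow_succ']
    group

theorem not_dvd_card_of_fpf (T : Subgroup H) [Finite T] (y : H) {s : ℕ} (hs : s.Prime) (hys : y ^ s = 1)
    (hyT : ∀ t ∈ T, y * t * y⁻¹ ∈ T) (hf : ∀ t ∈ T, y * t = t * y → t = 1) : ¬ s ∣ Nat.card T := by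
  classical
  haveI := Fintype.ofFinite T
  intro hd
  have h := dvd_card_of_no_fixed (fun t : ↥T => (⟨y * t * y⁻¹, hyT t t.2⟩ : ↥T)) hs
    ((Finset.univ : Finset ↥T).erase 1)
    (by
      intro t ht
      refine Finset.mem_erase.mpr ⟨?_, Finset.mem_univ _⟩
      intro h1
      apply (Finset.mem_erase.mp ht).1
      have h2 : y * (t : H) * y⁻¹ = 1 := congrArg Subtype.val h1
      have h3 : (t : H) = 1 := by
        have : (t : H) = y⁻¹ * (y * t * y⁻¹) * y := by group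
        rw [this, h2]
        group
      exact Subtype.ext h3)
    (by
      intro t _
      apply Subtype.ext
      rw [conj_iterate T y hyT, hys]
      simp)
    (by
      intro t ht he
      apply (Finset.mem_erase.mp ht).1
      apply Subtype.ext
      apply hf t t.2
      have h2 : y * (t : H) * y⁻¹ = t := congrArg Subtype.val he
      calc y * (t : H) = y * t * y⁻¹ * y := by group
        _ = t * y := by rw [h2])
  rw [Finset.card_erase_of_mem (Finset.mem_univ _), Finset.card_univ, ← Nat.card_eq_fintype_card] at h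
  have hpos : 0 < Nat.card T := Nat.card_pos
  have h3 : s ∣ 1 := by
    have h4 : Nat.card T = (Nat.card T - 1) + 1 := by omega
    have h5 := (Nat.dvd_add_right h).mp (h4 ▸ hd)
    exact h5
  exact hs.one_lt.ne' (Nat.dvd_one.mp h3)

/-- Conjugation by an element normalizing a subgroup. -/
def conjAut (T : Subgroup H) (y : H) (hyT : ∀ t ∈ T, y * t * y⁻¹ ∈ T) (hyT' : ∀ t ∈ T, y⁻¹ * t * y⁻¹⁻¹ ∈ T) : MulAut ↥T where
  toFun := fun t => ⟨y * t * y⁻¹, hyT t t.2⟩
  invFun := fun t => ⟨y⁻¹ * t * y⁻¹⁻¹, hyT' t t.2⟩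
  left_inv := by
    intro t
    apply Subtype.ext
    show y⁻¹ * (y * t * y⁻¹) * y⁻¹⁻¹ = t
    group
  right_inv := by
    intro t
    apply Subtype.ext
    show y * (y⁻¹ * t * y⁻¹⁻¹) * y⁻¹ = t
    group
  map_mul' := by
    intro a b
    apply Subtype.ext
    show y * ((a : H) * b) * y⁻¹ = (y * a * y⁻¹) * (y * b * y⁻¹)
    group

/-- An element of prime order coprime to the order normalizes a Sylow subgroup. -/
theorem exists_inv_sylow (T : Subgroup H) [Finite T] (y : H) {s : ℕ} (hs : s.Prime) (hys : y ^ s = 1)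
    (hyT : ∀ t ∈ T, y * t * y⁻¹ ∈ T) (hyT' : ∀ t ∈ T, y⁻¹ * t * y⁻¹⁻¹ ∈ T) (hsT : ¬ s ∣ Nat.card T)
    (ℓ : ℕ) [Fact ℓ.Prime] : ∃ P : Sylow ℓ ↥T, ∀ a ∈ (P : Subgroup ↥T), (⟨y * a * y⁻¹, hyT a a.2⟩ : ↥T) ∈ (P : Subgroup ↥T) := by
  classical
  haveI := Fintype.ofFinite (Sylow ℓ ↥T)
  let σ := conjAut T y hyT hyT'
  have hσ : ∀ (a : ↥T), σ a = ⟨y * a * y⁻¹, hyT a a.2⟩ := fun a => rfl
  by_contra hno
  push Not at hno
  have hfix : ∀ P : Sylow ℓ ↥T, σ • P ≠ P := by
    intro P he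
    obtain ⟨a, ha, hna⟩ := hno P
    apply hna
    have h1 : σ • a ∈ ((σ • P : Sylow ℓ ↥T) : Subgroup ↥T) := by
      show σ • a ∈ σ • (P : Subgroup ↥T)
      exact Subgroup.smul_mem_pointwise_smul a σ _ ha
    rw [he] at h1
    exact h1
  have hd := dvd_card_of_no_fixed (fun P : Sylow ℓ ↥T => σ • P) hs Finset.univ
    (fun _ _ => Finset.mem_univ _)
    (by
      intro P _
      have h1 : σ ^ s = 1 := by
        ext t
        have := conj_iterate T y hyT s t
        rw [hys] at this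
        have h2 : ((σ ^ s) t : ↥T) = (fun t : ↥T => (⟨y * t * y⁻¹, hyT t t.2⟩ : ↥T))^[s] t := by
          have h3 : ∀ i : ℕ, ((σ ^ i) t : ↥T) = (fun t : ↥T => (⟨y * t * y⁻¹, hyT t t.2⟩ : ↥T))^[i] t := by
            intro i
            induction i with
            | zero => rfl
            | succ i ih =>
              rw [Function.iterate_succ_apply', ← ih, pow_succ']
              rfl
          exact h3 s
        rw [h2, this]
        simp
      have h2 : ∀ i : ℕ, (fun P : Sylow ℓ ↥T => σ • P)^[i] P = σ ^ i • P := by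
        intro i
        induction i with
        | zero => simp
        | succ i ih =>
          rw [Function.iterate_succ_apply', ih, pow_succ', mul_smul]
      rw [h2, h1, one_smul])
    (fun P _ => hfix P)
  rw [Finset.card_univ, ← Nat.card_eq_fintype_card] at hd
  obtain ⟨P₀⟩ : Nonempty (Sylow ℓ ↥T) := inferInstance
  rw [P₀.card_eq_index_normalizer] at hd
  exact hsT (hd.trans (Subgroup.index_dvd_card _))

end Abs

section Weights

variable {K : Type*} [Field K] {V : Type v} [AddCommGroup V] [Module K V]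

/-- Freeness of the action on characters. -/
theorem act_ne (Z : Subgroup (Module.End K V)ˣ) {W : Type*} [CommGroup W] [Finite W]
    (D : WData K V W ↥(Subgroup.normalizer (Z : Set (Module.End K V)ˣ))) (e : W ≃* ↥Z)
    (h3 : ∀ g w, (e (D.α g w) : (Module.End K V)ˣ) = g * e w * (g : (Module.End K V)ˣ)⁻¹)
    (g : ↥(Subgroup.normalizer (Z : Set (Module.End K V)ˣ)))
    (hf : ∀ t ∈ Z, (g : (Module.End K V)ˣ) * t = t * g → t = 1) (ψ : W →* Kˣ) (hψ : ψ ≠ 1) : D.act g ψ ≠ ψ := by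
  intro h
  apply hψ
  have hσ : ∀ w, ψ (D.α g w) = ψ w := by
    intro w
    have h4 := congrArg (fun f : W →* Kˣ => f (D.α g w)) h
    simp only [WData.act_apply] at h4
    rw [← h4, map_inv, ← MulAut.mul_apply, inv_mul_cancel]
    rfl
  let φ : W → W := fun w => w⁻¹ * D.α g w
  have hφ : Function.Injective φ := by
    intro u w huw
    have h5 : D.α g (u * w⁻¹) = u * w⁻¹ := by
      have h6 : u⁻¹ * D.α g u = w⁻¹ * D.α g w := huw
      rw [map_mul, map_inv]
      calc D.α g u * (D.α g w)⁻¹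
          = u * (u⁻¹ * D.α g u) * (D.α g w)⁻¹ := by group
        _ = u * (w⁻¹ * D.α g w) * (D.α g w)⁻¹ := by rw [h6]
        _ = u * w⁻¹ := by group
    have h7 := h3 g (u * w⁻¹)
    rw [h5] at h7
    have h9 : (g : (Module.End K V)ˣ) * (e (u * w⁻¹) : (Module.End K V)ˣ) = (e (u * w⁻¹) : (Module.End K V)ˣ) * g := by
      conv_rhs => rw [h7]
      group
    have h10 := hf _ (e (u * w⁻¹)).2 h9
    have h11 : e (u * w⁻¹) = 1 := Subtype.ext h10
    have h12 : u * w⁻¹ = 1 := by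
      rw [← map_one e] at h11
      exact e.injective h11
    exact mul_inv_eq_one.mp h12
  have hφs := Finite.injective_iff_surjective.mp hφ
  ext w
  obtain ⟨u, rfl⟩ := hφs w
  have h13 : ψ (φ u) = 1 := by
    show ψ (u⁻¹ * D.α g u) = 1
    rw [map_mul, map_inv, hσ, inv_mul_cancel]
  rw [h13]
  rfl

end Weights

section Main

variable {K : Type*} [Field K] [IsAlgClosed K] {V : Type v} [AddCommGroup V] [Module K V] [FiniteDimensional K V]

theorem comm_of_finrank_le_one {U : Type*} [AddCommGroup U] [Module K U] [FiniteDimensional K U]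
    (hU : finrank K U ≤ 1) (f g : Module.End K U) : f * g = g * f := by
  obtain ⟨v, hv⟩ := finrank_le_one_iff.mp hU
  obtain ⟨c₁, hc₁⟩ := hv (f v)
  obtain ⟨c₂, hc₂⟩ := hv (g v)
  apply LinearMap.ext
  intro w
  obtain ⟨c, rfl⟩ := hv w
  simp only [Module.End.mul_apply, map_smul, ← hc₁, ← hc₂]
  rw [smul_comm c₂ c₁]

/-- The class two case. -/
theorem class_two (D₀ : Subgroup (Module.End K V)ˣ) [Finite D₀] (hcK : (Nat.card D₀ : K) ≠ 0)
    (y : (Module.End K V)ˣ) {s : ℕ} (hs : s.Prime) (hys : y ^ s = 1)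
    (hyD : ∀ a ∈ D₀, y * a * y⁻¹ ∈ D₀) (hf : ∀ t ∈ D₀, y * t = t * y → t = 1)
    (hF : finrank K (LinearMap.ker ((y : Module.End K V) - 1)) ≤ 1)
    (hcl : ∀ a ∈ D₀, ∀ b ∈ D₀, a * b * a⁻¹ * b⁻¹ ∈ D₀ ⊓ Subgroup.centralizer (D₀ : Set (Module.End K V)ˣ)) :
    ∀ a ∈ D₀, ∀ b ∈ D₀, a * b = b * a := by
  classical
  set Z := D₀ ⊓ Subgroup.centralizer (D₀ : Set (Module.End K V)ˣ) with hZ
  have hZD : Z ≤ D₀ := inf_le_left
  have hZc : ∀ a ∈ Z, ∀ b ∈ Z, a * b = b * a := by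
    intro a ha b hb
    exact ((Subgroup.mem_centralizer_iff.mp (Subgroup.mem_inf.mp hb).2) a (hZD ha))
  have hyinvEq : y⁻¹ = y ^ (s - 1) := by
    rw [inv_eq_iff_mul_eq_one, ← pow_succ', Nat.sub_add_cancel hs.pos, hys]
  have hyD' : ∀ a ∈ D₀, y⁻¹ * a * y⁻¹⁻¹ ∈ D₀ := by
    intro a ha
    rw [hyinvEq]
    exact conj_pow_mem' y hyD (s - 1) a ha
  have hyZ : ∀ g : (Module.End K V)ˣ, (∀ a ∈ D₀, g * a * g⁻¹ ∈ D₀) → (∀ a ∈ D₀, g⁻¹ * a * g⁻¹⁻¹ ∈ D₀) →
      ∀ c ∈ Z, g * c * g⁻¹ ∈ Z := by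
    intro g h1 h2 c hc
    obtain ⟨hc1, hc2⟩ := Subgroup.mem_inf.mp hc
    refine Subgroup.mem_inf.mpr ⟨h1 c hc1, ?_⟩
    rw [Subgroup.mem_centralizer_iff]
    intro d hd
    have h3 := Subgroup.mem_centralizer_iff.mp hc2 _ (h2 d hd)
    calc d * (g * c * g⁻¹) = g * ((g⁻¹ * d * g⁻¹⁻¹) * c) * g⁻¹ := by group
      _ = g * (c * (g⁻¹ * d * g⁻¹⁻¹)) * g⁻¹ := by rw [h3]
      _ = g * c * g⁻¹ * d := by group
  obtain ⟨W, _, D, e, h1, h2, h3⟩ := exists_model Z hZc
  haveI hZfin : Finite Z := Finite.of_injective (fun a : Z => (⟨a, hZD a.2⟩ : D₀)) (by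
    intro a b h
    exact Subtype.ext (congrArg (fun z : D₀ => (z : (Module.End K V)ˣ)) h))
  haveI hWfin : Finite W := Finite.of_equiv _ e.symm.toEquiv
  have hcW : (Nat.card W : K) ≠ 0 := by
    rw [Nat.card_congr e.toEquiv]
    intro h
    apply hcK
    obtain ⟨c, hc'⟩ := Subgroup.card_dvd_of_le hZD
    rw [hc', Nat.cast_mul, h, zero_mul]
  have hyN : y ∈ Subgroup.normalizer (Z : Set (Module.End K V)ˣ) := by
    refine Subgroup.mem_normalizer_iff.mpr ?_
    intro a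
    constructor
    · exact hyZ y hyD hyD' a
    · intro h6
      have := hyZ y⁻¹ hyD' (by simpa using hyD) _ h6
      simpa [mul_assoc] using this
  let y' : ↥(Subgroup.normalizer (Z : Set (Module.End K V)ˣ)) := ⟨y, hyN⟩
  have hy's : y' ^ s = 1 := by
    apply Subtype.ext
    simp [y', hys]
  have hπ : (D.π y' : Module.End K V) = (y : Module.End K V) := by
    rw [h2]
  have hfZ : ∀ t ∈ Z, (y' : (Module.End K V)ˣ) * t = t * y' → t = 1 := fun t ht h => hf t (hZD ht) h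
  have hsmall : ∀ ψ : W →* Kˣ, ψ ≠ 1 → finrank K (wsp D.rho ψ) ≤ 1 := by
    intro ψ hψ
    refine le_trans (D.finrank_wsp_le hcW y' hs hy's (act_ne Z D e h3 y' hfZ ψ hψ)) ?_
    rw [hπ]
    exact hF
  -- all of `D₀` preserves the weight spaces of `Z`
  have hinv : ∀ (ψ : W →* Kˣ) (a : (Module.End K V)ˣ), a ∈ D₀ → a ∈ stab (wsp D.rho ψ) := by
    intro ψ a ha
    have key : ∀ a ∈ D₀, ∀ u ∈ wsp D.rho ψ, (a : Module.End K V) u ∈ wsp D.rho ψ := by
      intro a ha u hu w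
      have h4 := hu w
      rw [WData.rho_apply, h1] at h4 ⊢
      have h5 := Subgroup.mem_centralizer_iff.mp (Subgroup.mem_inf.mp (e w).2).2 a ha
      have h6 := LinearMap.congr_fun (congrArg Units.val h5) u
      simp only [Units.val_mul, Module.End.mul_apply] at h6
      rw [← h6, h4, map_smul]
    exact ⟨key a ha, key a⁻¹ (D₀.inv_mem ha)⟩
  intro a ha b hb
  have hc := hcl a ha b hb
  have hone : a * b * a⁻¹ * b⁻¹ = 1 := by
    apply Units.ext
    apply LinearMap.ext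
    intro v
    have hv : v ∈ ⨆ ψ, wsp D.rho ψ := by
      rw [iSup_wsp hcW]
      trivial
    refine Submodule.iSup_induction (motive := fun v => ((a * b * a⁻¹ * b⁻¹ : (Module.End K V)ˣ) : Module.End K V) v = ((1 : (Module.End K V)ˣ) : Module.End K V) v) _ hv ?_ (by simp) ?_
    · intro ψ u hu
      by_cases hψ : ψ = 1
      · subst hψ
        have h4 := hu (e.symm ⟨_, hc⟩)
        rw [WData.rho_apply, h1] at h4
        simpa using h4
      · have h4 := (res_comm_iff (wsp D.rho ψ) ⟨a, hinv ψ a ha⟩ ⟨b, hinv ψ b hb⟩).mp (by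
          have h5 := comm_of_finrank_le_one (hsmall ψ hψ)
            ((res (wsp D.rho ψ) ⟨a, hinv ψ a ha⟩ : (Module.End K (wsp D.rho ψ))ˣ) : Module.End K (wsp D.rho ψ))
            ((res (wsp D.rho ψ) ⟨b, hinv ψ b hb⟩ : (Module.End K (wsp D.rho ψ))ˣ) : Module.End K (wsp D.rho ψ))
          exact Units.ext h5) u hu
        exact h4
    · intro x y hx hy
      rw [map_add, map_add, hx, hy]
  calc a * b = (a * b * a⁻¹ * b⁻¹) * (b * a) := by group
    _ = b * a := by rw [hone, one_mul]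

theorem exists_comm_eq {H : Type*} [Group H] (B : Subgroup H) [Finite B] (y : H) (hyB : ∀ b ∈ B, y * b * y⁻¹ ∈ B)
    (hf : ∀ t ∈ B, y * t = t * y → t = 1) {b : H} (hb : b ∈ B) : ∃ c ∈ B, b = c⁻¹ * (y * c * y⁻¹) := by
  let φ : B → B := fun c => ⟨(c : H)⁻¹ * (y * c * y⁻¹), B.mul_mem (B.inv_mem c.2) (hyB c c.2)⟩
  have hφ : Function.Injective φ := by
    intro a c h
    have h0 : (a : H)⁻¹ * (y * a * y⁻¹) = (c : H)⁻¹ * (y * c * y⁻¹) := congrArg Subtype.val h
    have h1 : y * ((c : H) * (a : H)⁻¹) = ((c : H) * (a : H)⁻¹) * y := by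
      have h2 : (c : H) * ((a : H)⁻¹ * (y * a * y⁻¹)) = y * c * y⁻¹ := by
        rw [h0]
        group
      calc y * ((c : H) * (a : H)⁻¹) = (y * c * y⁻¹) * (y * (a : H)⁻¹) := by group
        _ = ((c : H) * ((a : H)⁻¹ * (y * a * y⁻¹))) * (y * (a : H)⁻¹) := by rw [h2]
        _ = ((c : H) * (a : H)⁻¹) * y := by group
    have h3 := hf _ (B.mul_mem c.2 (B.inv_mem a.2)) h1
    apply Subtype.ext
    rw [mul_inv_eq_one] at h3
    exact h3.symm
  obtain ⟨c, hc⟩ := (Finite.injective_iff_surjective.mp hφ) ⟨b, hb⟩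
  exact ⟨c, c.2, (congrArg Subtype.val hc).symm⟩

/-- An abelian invariant subgroup normalized by an invariant group of prime power order is centralized. -/
theorem centr_of_norm (A B : Subgroup (Module.End K V)ˣ) [Finite A] [Finite B] (hAK : (Nat.card A : K) ≠ 0)
    (y : (Module.End K V)ˣ) {s ℓ : ℕ} (hs : s.Prime) (hso : Odd s) (hys : y ^ s = 1)
    (hyA : ∀ a ∈ A, y * a * y⁻¹ ∈ A) (hyB : ∀ b ∈ B, y * b * y⁻¹ ∈ B) (hf : ∀ t ∈ B, y * t = t * y → t = 1)
    (hBA : ∀ b ∈ B, ∀ a ∈ A, b * a * b⁻¹ ∈ A) (hAc : ∀ a ∈ A, ∀ b ∈ A, a * b = b * a) (hℓ : ℓ.Prime)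
    (hB : IsPGroup ℓ B) (hoddB : Odd (Nat.card B)) (hsB : ¬ s ∣ Nat.card B)
    (hF : finrank K (LinearMap.ker ((y : Module.End K V) - 1)) ≤ 1) :
    ∀ b ∈ B, ∀ a ∈ A, b * a = a * b := by
  classical
  intro b hb a ha
  by_cases hB1 : B = ⊥
  · rw [hB1, Subgroup.mem_bot] at hb
    rw [hb, one_mul, mul_one]
  haveI hBn : Nontrivial B := (Subgroup.nontrivial_iff_ne_bot B).mpr hB1
  haveI : Fact ℓ.Prime := ⟨hℓ⟩
  have hℓd : ℓ ∣ Nat.card B := by
    obtain ⟨n, hn⟩ := IsPGroup.iff_card.mp hB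
    have h1 : Nat.card B ≠ 1 := by
      intro h
      exact (Finite.one_lt_card_iff_nontrivial.mpr hBn).ne' h
    have hn0 : n ≠ 0 := by
      rintro rfl
      exact h1 (by simpa using hn)
    rw [hn]
    exact dvd_pow_self ℓ hn0
  have hℓo : Odd ℓ := Odd.of_dvd_nat hoddB hℓd
  have hℓs : ℓ ≠ s := by
    rintro rfl
    exact hsB hℓd
  obtain ⟨c, hc, rfl⟩ := exists_comm_eq B y hyB hf hb
  exact k1_final A hAc hAK B y hs hso hys hBA hyA hyB hℓ hℓo hB hℓs hF c hc a ha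

/-- Invariance of characteristic subgroups. -/
theorem conj_mem_char {H : Type*} [Group H] (N : Subgroup H) (y : H) (hyN : ∀ t ∈ N, y * t * y⁻¹ ∈ N)
    (hyN' : ∀ t ∈ N, y⁻¹ * t * y⁻¹⁻¹ ∈ N) (C : Subgroup ↥N) [hC : C.Characteristic] {a : H}
    (ha : a ∈ C.map N.subtype) : y * a * y⁻¹ ∈ C.map N.subtype := by
  obtain ⟨c, hc, rfl⟩ := ha
  let σ := conjAut N y hyN hyN'
  have h1 : σ c ∈ C := by
    have h2 := hC.fixed σ.symm
    have h3 : σ c ∈ C.comap σ.symm.toMonoidHom := by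
      simpa using hc
    rwa [h2] at h3
  exact ⟨σ c, h1, rfl⟩

/-- Invariant `q`-subgroups are abelian. -/
theorem pgroup_abelian (N : Subgroup (Module.End K V)ˣ) [Finite N] (hcK : (Nat.card N : K) ≠ 0)
    (y : (Module.End K V)ˣ) {s q : ℕ} (hs : s.Prime) (hso : Odd s) (hys : y ^ s = 1)
    (hyN : ∀ a ∈ N, y * a * y⁻¹ ∈ N) (hf : ∀ t ∈ N, y * t = t * y → t = 1)
    (hF : finrank K (LinearMap.ker ((y : Module.End K V) - 1)) ≤ 1)
    (hq : q.Prime) (hN : IsPGroup q N) (hodd : Odd (Nat.card N)) (hsN : ¬ s ∣ Nat.card N) :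
    ∀ a ∈ N, ∀ b ∈ N, a * b = b * a := by
  classical
  haveI : Fact q.Prime := ⟨hq⟩
  have hyinvEq : y⁻¹ = y ^ (s - 1) := by
    rw [inv_eq_iff_mul_eq_one, ← pow_succ', Nat.sub_add_cancel hs.pos, hys]
  have hyN' : ∀ a ∈ N, y⁻¹ * a * y⁻¹⁻¹ ∈ N := by
    intro a ha
    rw [hyinvEq]
    exact conj_pow_mem' y hyN (s - 1) a ha
  haveI hnil : Group.IsNilpotent ↥N := hN.isNilpotent
  let Z₂ : Subgroup (Module.End K V)ˣ := (Subgroup.upperCentralSeries ↥N 2).map N.subtype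
  have hZ₂N : Z₂ ≤ N := Subgroup.map_subtype_le _
  haveI hZ₂fin : Finite Z₂ := Finite.of_injective (fun a : Z₂ => (⟨a, hZ₂N a.2⟩ : N)) (by
    intro a b h
    exact Subtype.ext (congrArg (fun z : N => (z : (Module.End K V)ˣ)) h))
  have hZ₂c : (Nat.card Z₂ : K) ≠ 0 := by
    intro h
    apply hcK
    obtain ⟨c, hc'⟩ := Subgroup.card_dvd_of_le hZ₂N
    rw [hc', Nat.cast_mul, h, zero_mul]
  have hyZ : ∀ a ∈ Z₂, y * a * y⁻¹ ∈ Z₂ := fun a ha => conj_mem_char N y hyN hyN' _ ha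
  have h1le2 : Subgroup.center ↥N ≤ Subgroup.upperCentralSeries ↥N 2 := by
    rw [← Subgroup.upperCentralSeries_one]
    exact Subgroup.upperCentralSeries_mono (G := ↥N) (by norm_num)
  -- `Z₂` is abelian
  have hZab : ∀ a ∈ Z₂, ∀ b ∈ Z₂, a * b = b * a := by
    refine class_two Z₂ hZ₂c y hs hys hyZ (fun t ht => hf t (hZ₂N ht)) hF ?_
    rintro _ ⟨a, ha, rfl⟩ _ ⟨b, hb, rfl⟩
    have h1 : ⁅a, b⁆ ∈ Subgroup.upperCentralSeries ↥N 1 := Subgroup.mem_upperCentralSeries_succ_iff.mp ha b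
    rw [Subgroup.upperCentralSeries_one] at h1
    have h2 : (N.subtype ⁅a, b⁆) = N.subtype a * N.subtype b * (N.subtype a)⁻¹ * (N.subtype b)⁻¹ := by
      simp [commutatorElement_def]
    rw [← h2]
    refine Subgroup.mem_inf.mpr ⟨⟨_, h1le2 h1, rfl⟩, ?_⟩
    rw [Subgroup.mem_centralizer_iff]
    rintro _ ⟨c, -, rfl⟩
    have h3 := Subgroup.mem_center_iff.mp h1 c
    exact congrArg Subtype.val h3
  -- hence central
  have hZ₂n : (Subgroup.upperCentralSeries ↥N 2).Normal := inferInstance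
  have hcen := centr_of_norm Z₂ N hZ₂c y hs hso hys hyZ hyN hf
    (by
      rintro b hb _ ⟨a, ha, rfl⟩
      have h : ((⟨b, hb⟩ : ↥N) * a * (⟨b, hb⟩ : ↥N)⁻¹) ∈ Subgroup.upperCentralSeries ↥N 2 := hZ₂n.conj_mem a ha _
      refine ⟨_, h, ?_⟩
      simp only [Subgroup.subtype_apply, Subgroup.coe_mul, Subgroup.coe_inv])
    hZab hq hN hodd hsN hF
  have hle : Subgroup.upperCentralSeries ↥N 2 ≤ Subgroup.center ↥N := by
    intro a ha
    rw [Subgroup.mem_center_iff]
    intro g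
    apply Subtype.ext
    exact hcen g g.2 a ⟨a, ha, rfl⟩
  have hall : ∀ n, Subgroup.upperCentralSeries ↥N n ≤ Subgroup.center ↥N := by
    intro n
    induction n with
    | zero => simp
    | succ n ih =>
      intro a ha
      apply hle
      apply Subgroup.mem_upperCentralSeries_succ_iff.mpr
      intro g
      rw [Subgroup.upperCentralSeries_one]
      exact ih (Subgroup.mem_upperCentralSeries_succ_iff.mp ha g)
  obtain ⟨n, hn⟩ := Group.IsNilpotent.nilpotent ↥N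
  intro a ha b hb
  have h1 : (⟨a, ha⟩ : ↥N) ∈ Subgroup.center ↥N := hall n (by rw [hn]; trivial)
  have h2 := Subgroup.mem_center_iff.mp h1 ⟨b, hb⟩
  exact (congrArg Subtype.val h2).symm

/-- The main theorem: a solvable group of operators admitting a fixed point free element of prime order
with a fixed space of dimension at most one is abelian. -/
theorem cy (T : Subgroup (Module.End K V)ˣ) [Finite T] (y : (Module.End K V)ˣ) {s : ℕ} (hs : s.Prime) (hso : Odd s)
    (hys : y ^ s = 1) (hsolv : Group.IsSolvable T) (hodd : Odd (Nat.card T)) (hcK : (Nat.card T : K) ≠ 0)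
    (hyT : ∀ t ∈ T, y * t * y⁻¹ ∈ T) (hf : ∀ t ∈ T, y * t = t * y → t = 1)
    (hF : finrank K (LinearMap.ker ((y : Module.End K V) - 1)) ≤ 1) :
    ∀ a ∈ T, ∀ b ∈ T, a * b = b * a := by
  classical
  have hsT := not_dvd_card_of_fpf T y hs hys hyT hf
  have hyinvEq : y⁻¹ = y ^ (s - 1) := by
    rw [inv_eq_iff_mul_eq_one, ← pow_succ', Nat.sub_add_cancel hs.pos, hys]
  have hyT' : ∀ a ∈ T, y⁻¹ * a * y⁻¹⁻¹ ∈ T := by
    intro a ha
    rw [hyinvEq]
    exact conj_pow_mem' y hyT (s - 1) a ha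
  have hsub : ∀ (N : Subgroup (Module.End K V)ˣ), N ≤ T → Finite N ∧ (Nat.card N : K) ≠ 0 ∧ Odd (Nat.card N) ∧ ¬ s ∣ Nat.card N := by
    intro N hNT
    have hd : Nat.card N ∣ Nat.card T := Subgroup.card_dvd_of_le hNT
    refine ⟨Finite.of_injective (fun a : N => (⟨a, hNT a.2⟩ : T)) (by
      intro a b h
      exact Subtype.ext (congrArg (fun z : T => (z : (Module.End K V)ˣ)) h)), ?_, Odd.of_dvd_nat hodd hd, fun h => hsT (h.trans hd)⟩
    intro h
    apply hcK
    obtain ⟨c, hc'⟩ := hd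
    rw [hc', Nat.cast_mul, h, zero_mul]
  have hcentral : ∀ (q : ℕ) [Fact q.Prime], pCore q ↥T ≤ Subgroup.center ↥T := by
    intro q _
    let A : Subgroup (Module.End K V)ˣ := (pCore q ↥T).map T.subtype
    have hAT : A ≤ T := Subgroup.map_subtype_le _
    obtain ⟨hAf, hAc, hAo, hAs⟩ := hsub A hAT
    have hyA : ∀ a ∈ A, y * a * y⁻¹ ∈ A := fun a ha => conj_mem_char T y hyT hyT' _ ha
    have hAp : IsPGroup q A := (isPGroup_pCore q).map _
    have hAab := pgroup_abelian A hAc y hs hso hys hyA (fun t ht => hf t (hAT ht)) hF Fact.out hAp hAo hAs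
    have htop : Subgroup.centralizer (pCore q ↥T : Set ↥T) = ⊤ := by
      apply eq_top_of_forall_sylow_le
      intro ℓ _
      obtain ⟨P, hP⟩ := exists_inv_sylow T y hs hys hyT hyT' hsT ℓ
      refine ⟨P, ?_⟩
      let B : Subgroup (Module.End K V)ˣ := (P : Subgroup ↥T).map T.subtype
      have hBT : B ≤ T := Subgroup.map_subtype_le _
      obtain ⟨hBf, hBc, hBo, hBs⟩ := hsub B hBT
      have hBp : IsPGroup ℓ B := P.2.map _
      have hyB : ∀ b ∈ B, y * b * y⁻¹ ∈ B := by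
        rintro _ ⟨b, hb, rfl⟩
        exact ⟨_, hP b hb, rfl⟩
      have h2 := centr_of_norm A B hAc y hs hso hys hyA hyB (fun t ht => hf t (hBT ht))
        (by
          rintro _ ⟨b, hb, rfl⟩ _ ⟨a, ha, rfl⟩
          exact ⟨b * a * b⁻¹, (pCore_normal (G := ↥T) q).conj_mem a ha b, rfl⟩)
        hAab Fact.out hBp hBo hBs hF
      intro b hb
      rw [Subgroup.mem_centralizer_iff]
      intro a ha
      have h3 := h2 _ ⟨b, hb, rfl⟩ _ ⟨a, ha, rfl⟩
      exact Subtype.ext h3.symm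
    intro a ha
    rw [Subgroup.mem_center_iff]
    intro g
    have h4 : g ∈ Subgroup.centralizer (pCore q ↥T : Set ↥T) := by
      rw [htop]
      trivial
    exact (Subgroup.mem_centralizer_iff.mp h4 a ha).symm
  have hFle : fittingSubgroup ↥T ≤ Subgroup.center ↥T := by
    rw [fittingSubgroup_eq_iSup_pCore]
    refine iSup_le fun p => ?_
    haveI : Fact (p : ℕ).Prime := ⟨p.2⟩
    exact hcentral (p : ℕ)
  have hC : Subgroup.centralizer (fittingSubgroup ↥T : Set ↥T) = ⊤ := by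
    rw [eq_top_iff]
    intro g _
    rw [Subgroup.mem_centralizer_iff]
    intro h hh
    exact (Subgroup.mem_center_iff.mp (hFle hh) g).symm
  haveI := hsolv
  have hFtop : fittingSubgroup ↥T = ⊤ := by
    rw [eq_top_iff, ← hC]
    exact centralizer_fittingSubgroup_le
  intro a ha b hb
  have h5 : (⟨a, ha⟩ : ↥T) ∈ Subgroup.center ↥T := hFle (by rw [hFtop]; trivial)
  have h6 := Subgroup.mem_center_iff.mp h5 ⟨b, hb⟩
  exact (congrArg Subtype.val h6).symm

end Main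

end Cfsg.Agent.Lib.BGFree2
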