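import Mathlib
import Cfsg.Agent.Lib.BGFree2
import Cfsg.Agent.Lib.Glauberman
import Cfsg.Agent.Lib.CNSolv

/-!
# Frobenius action on nilpotent groups: the group level
-/

set_option autoImplicit false
set_option linter.unusedSectionVars false
set_option linter.unusedVariables false
set_option linter.style.haveILetI false
set_option linter.unusedSimpArgs false
set_option linter.unusedDecidableInType false
set_option linter.unusedFintypeInType false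

namespace Cfsg.Agent.Lib.BGFree3

open Module Cfsg Cfsg.Agent.Lib.BGSec Cfsg.Agent.Lib.BGFree Cfsg.Agent.Lib.BGFree2 Cfsg.Agent.Lib.Glauberman

open scoped TensorProduct commutatorElement

universe u

section Sec

variable {X : Type u} [Group X]

/-- The subgroup generated by the commutators and the `ℓ`-th powers. -/
def secG (ℓ : ℕ) (A : Subgroup X) : Subgroup X :=
  Subgroup.closure ({g | ∃ a ∈ A, ∃ b ∈ A, g = a * b * a⁻¹ * b⁻¹} ∪ {g | ∃ a ∈ A, g = a ^ ℓ})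

theorem comm_mem_secG {ℓ : ℕ} {A : Subgroup X} {a b : X} (ha : a ∈ A) (hb : b ∈ A) :
    a * b * a⁻¹ * b⁻¹ ∈ secG ℓ A :=
  Subgroup.subset_closure (Or.inl ⟨a, ha, b, hb, rfl⟩)

theorem pow_mem_secG {ℓ : ℕ} {A : Subgroup X} {a : X} (ha : a ∈ A) : a ^ ℓ ∈ secG ℓ A :=
  Subgroup.subset_closure (Or.inr ⟨a, ha, rfl⟩)

theorem secG_le (ℓ : ℕ) (A : Subgroup X) : secG ℓ A ≤ A := by
  rw [secG, Subgroup.closure_le]
  rintro g (⟨a, ha, b, hb, rfl⟩ | ⟨a, ha, rfl⟩)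
  · exact A.mul_mem (A.mul_mem (A.mul_mem ha hb) (A.inv_mem ha)) (A.inv_mem hb)
  · exact A.pow_mem ha ℓ

theorem secG_conj {ℓ : ℕ} {A : Subgroup X} {g : X} (hg : ∀ a ∈ A, g * a * g⁻¹ ∈ A) :
    ∀ c ∈ secG ℓ A, g * c * g⁻¹ ∈ secG ℓ A := by
  have h : secG ℓ A ≤ (secG ℓ A).comap (MulAut.conj g).toMonoidHom := by
    conv_lhs => rw [secG]
    rw [Subgroup.closure_le]
    rintro c (⟨a, ha, b, hb, rfl⟩ | ⟨a, ha, rfl⟩)
    · rw [SetLike.mem_coe, Subgroup.mem_comap]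
      have e : (MulAut.conj g).toMonoidHom (a * b * a⁻¹ * b⁻¹) =
          (g * a * g⁻¹) * (g * b * g⁻¹) * (g * a * g⁻¹)⁻¹ * (g * b * g⁻¹)⁻¹ := by
        simp only [MulEquiv.toMonoidHom_eq_coe, MonoidHom.coe_coe, map_mul, map_inv, MulAut.conj_apply]
      rw [e]
      exact comm_mem_secG (hg a ha) (hg b hb)
    · rw [SetLike.mem_coe, Subgroup.mem_comap]
      have e : (MulAut.conj g).toMonoidHom (a ^ ℓ) = (g * a * g⁻¹) ^ ℓ := by
        simp only [MulEquiv.toMonoidHom_eq_coe, MonoidHom.coe_coe, map_pow, MulAut.conj_apply]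
      rw [e]
      exact pow_mem_secG (hg a ha)
  exact fun c hc => h hc

variable [Finite X]

theorem exists_secG_ne (A : Subgroup X) (hn : Group.IsNilpotent A) (h1 : A ≠ ⊥) :
    ∃ ℓ : ℕ, ℓ.Prime ∧ ℓ ∣ Nat.card A ∧ secG ℓ A ≠ A := by
  classical
  haveI hnt : Nontrivial ↥A := (Subgroup.nontrivial_iff_ne_bot A).mpr h1
  haveI : Group.IsSolvable ↥A := inferInstance
  have hlt := Group.IsSolvable.commutator_lt_top_of_nontrivial (G := ↥A)
  let Q := Abelianization ↥A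
  have hof : Function.Surjective (Abelianization.of : ↥A →* Q) := QuotientGroup.mk'_surjective _
  haveI : Nontrivial Q := by
    by_contra hno
    rw [not_nontrivial_iff_subsingleton] at hno
    apply hlt.ne
    rw [eq_top_iff]
    intro a _
    have h2 : (Abelianization.of a : Q) = 1 := Subsingleton.elim _ _
    exact (QuotientGroup.eq_one_iff a).mp h2
  have hQ1 : Nat.card Q ≠ 1 := (Finite.one_lt_card_iff_nontrivial.mpr inferInstance).ne'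
  obtain ⟨ℓ, hℓ, hℓQ⟩ := Nat.exists_prime_and_dvd hQ1
  haveI : Fact ℓ.Prime := ⟨hℓ⟩
  have hQdvd : Nat.card Q ∣ Nat.card A := Subgroup.card_dvd_of_surjective _ hof
  refine ⟨ℓ, hℓ, hℓQ.trans hQdvd, ?_⟩
  obtain ⟨q, hq⟩ := exists_prime_orderOf_dvd_card' ℓ hℓQ
  have hns : ¬ Function.Surjective (powMonoidHom ℓ : Q →* Q) := by
    intro hs
    have hinj := Finite.injective_iff_surjective.mpr hs
    have h2 : (powMonoidHom ℓ : Q →* Q) q = (powMonoidHom ℓ : Q →* Q) 1 := by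
      simp only [powMonoidHom_apply, one_pow]
      rw [← hq, pow_orderOf_eq_one]
    have h3 := hinj h2
    rw [h3, orderOf_one] at hq
    exact hℓ.one_lt.ne hq
  simp only [Function.Surjective, not_forall] at hns
  obtain ⟨q₀, hq₀⟩ := hns
  obtain ⟨a₀, rfl⟩ := hof q₀
  intro he
  have hmem : (a₀ : X) ∈ secG ℓ A := by
    rw [he]
    exact a₀.2
  let N : Subgroup ↥A := (powMonoidHom ℓ : Q →* Q).range.comap Abelianization.of
  have hle : secG ℓ A ≤ N.map A.subtype := by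
    rw [secG, Subgroup.closure_le]
    rintro c (⟨a, ha, b, hb, rfl⟩ | ⟨a, ha, rfl⟩)
    · refine ⟨(⟨a, ha⟩ : ↥A) * ⟨b, hb⟩ * (⟨a, ha⟩ : ↥A)⁻¹ * (⟨b, hb⟩ : ↥A)⁻¹, ?_, rfl⟩
      refine ⟨1, ?_⟩
      show (powMonoidHom ℓ : Q →* Q) 1 = Abelianization.of _
      simp only [map_one, map_mul, map_inv]
      rw [mul_comm (Abelianization.of (⟨a, ha⟩ : ↥A)) (Abelianization.of (⟨b, hb⟩ : ↥A))]
      group
    · refine ⟨(⟨a, ha⟩ : ↥A) ^ ℓ, ?_, rfl⟩
      refine ⟨Abelianization.of ⟨a, ha⟩, ?_⟩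
      show (powMonoidHom ℓ : Q →* Q) _ = Abelianization.of _
      simp only [powMonoidHom_apply, map_pow]
  obtain ⟨a₁, ha₁, he₁⟩ := hle hmem
  have : a₁ = a₀ := Subtype.ext he₁
  subst this
  obtain ⟨r, hr⟩ := ha₁
  exact hq₀ ⟨r, hr⟩

end Sec

section Count

theorem card_eq_of_surj {G Q : Type*} [Group G] [Finite G] [AddCommGroup Q] (φ : G → Q)
    (hadd : ∀ a b, φ (a * b) = φ a + φ b) (hs : Function.Surjective φ) (N : Subgroup G)
    (hN : ∀ g, φ g = 0 ↔ g ∈ N) : Nat.card G = Nat.card N * Nat.card Q := by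
  have h1 : φ 1 = 0 := by
    have := hadd 1 1
    rw [mul_one] at this
    exact left_eq_add.mp this
  let f : G →* Multiplicative Q :=
    { toFun := fun g => Multiplicative.ofAdd (φ g)
      map_one' := by rw [h1]; rfl
      map_mul' := fun a b => by rw [hadd]; rfl }
  have hfs : Function.Surjective f := fun q => by
    obtain ⟨g, hg⟩ := hs (Multiplicative.toAdd q)
    exact ⟨g, by show Multiplicative.ofAdd (φ g) = q; rw [hg]; rfl⟩
  have hker : f.ker = N := by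
    ext g
    rw [MonoidHom.mem_ker, ← hN]
    show Multiplicative.ofAdd (φ g) = 1 ↔ _
    exact ofAdd_eq_one
  have h2 := Subgroup.card_mul_index f.ker
  rw [Subgroup.index_ker, MonoidHom.range_eq_top.mpr hfs, hker] at h2
  have h3 : Nat.card (⊤ : Subgroup (Multiplicative Q)) = Nat.card Q := by
    rw [Subgroup.card_top]
    rfl
  rw [← h2, h3]

end Count

section Setup

variable {X : Type u} [Group X] [Finite X]

theorem natCard_pow {ℓ : ℕ} [Fact ℓ.Prime] {V : Type*} [AddCommGroup V] [Module (ZMod ℓ) V] [Finite V] :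
    Nat.card V = ℓ ^ finrank (ZMod ℓ) V := by
  classical
  haveI := Fintype.ofFinite V
  rw [Nat.card_eq_fintype_card, Module.card_eq_pow_finrank (K := ZMod ℓ), ZMod.card]

/-- Fixed point free elements stay fixed point free on images. -/
theorem fpf_image {H : Type*} [Group H] {Γ K : Subgroup X} (hKΓ : K ≤ Γ) (ρ : ↥Γ →* H) {z : X} (hzΓ : z ∈ Γ)
    (hzK : ∀ k ∈ K, z * k * z⁻¹ ∈ K) (hzf : ∀ k ∈ K, z * k = k * z → k = 1) {k : X} (hk : k ∈ K)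
    (h : ρ ⟨z, hzΓ⟩ * ρ ⟨k, hKΓ hk⟩ = ρ ⟨k, hKΓ hk⟩ * ρ ⟨z, hzΓ⟩) : ρ ⟨k, hKΓ hk⟩ = 1 := by
  let B : Subgroup X := K ⊓ (ρ.ker.map Γ.subtype)
  have hmemB : ∀ {g : X}, g ∈ K → ∀ hg : g ∈ Γ, ρ ⟨g, hg⟩ = 1 → g ∈ B := by
    intro g hgK hg h1
    exact Subgroup.mem_inf.mpr ⟨hgK, ⟨g, hg⟩, h1, rfl⟩
  have hofB : ∀ {g : X}, g ∈ B → ∃ hg : g ∈ Γ, ρ ⟨g, hg⟩ = 1 := by
    intro g hg
    obtain ⟨g', hg', rfl⟩ := (Subgroup.mem_inf.mp hg).2
    exact ⟨g'.2, hg'⟩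
  have hzB : ∀ b ∈ B, z * b * z⁻¹ ∈ B := by
    intro b hb
    obtain ⟨hbΓ, hb1⟩ := hofB hb
    refine hmemB (hzK b (Subgroup.mem_inf.mp hb).1) (Γ.mul_mem (Γ.mul_mem hzΓ hbΓ) (Γ.inv_mem hzΓ)) ?_
    have e : (⟨z * b * z⁻¹, Γ.mul_mem (Γ.mul_mem hzΓ hbΓ) (Γ.inv_mem hzΓ)⟩ : ↥Γ) =
        ⟨z, hzΓ⟩ * ⟨b, hbΓ⟩ * (⟨z, hzΓ⟩ : ↥Γ)⁻¹ := rfl
    rw [e, map_mul, map_mul, hb1, mul_one, map_inv, mul_inv_cancel]
  have hkB : k⁻¹ * (z * k * z⁻¹) ∈ B := by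
    refine hmemB (K.mul_mem (K.inv_mem hk) (hzK k hk))
      (Γ.mul_mem (Γ.inv_mem (hKΓ hk)) (Γ.mul_mem (Γ.mul_mem hzΓ (hKΓ hk)) (Γ.inv_mem hzΓ))) ?_
    have e : (⟨k⁻¹ * (z * k * z⁻¹), Γ.mul_mem (Γ.inv_mem (hKΓ hk)) (Γ.mul_mem (Γ.mul_mem hzΓ (hKΓ hk)) (Γ.inv_mem hzΓ))⟩ : ↥Γ) =
        (⟨k, hKΓ hk⟩ : ↥Γ)⁻¹ * (⟨z, hzΓ⟩ * ⟨k, hKΓ hk⟩ * (⟨z, hzΓ⟩ : ↥Γ)⁻¹) := rfl
    rw [e, map_mul, map_mul, map_mul, map_inv, map_inv, h]
    group
  have hk2 := fpf_lift K B inf_le_left z hzf hzB hk hkB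
  obtain ⟨_, h3⟩ := hofB hk2
  exact h3

/-- The output of `exists_sec`. -/
structure SecData (ℓ : ℕ) (A Γ : Subgroup X) (hΓA : ∀ g ∈ Γ, ∀ a ∈ A, g * a * g⁻¹ ∈ A) (V : Type*) [AddCommGroup V]
    [Module (ZMod ℓ) V] where
  f : ↥A → V
  ρ : ↥Γ →* (Module.End (ZMod ℓ) V)ˣ
  surj : Function.Surjective f
  add : ∀ a b, f (a * b) = f a + f b
  ker : ∀ a, f a = 0 ↔ (a : X) ∈ secG ℓ A
  act : ∀ (g : ↥Γ) (a : ↥A), ((ρ g : Module.End (ZMod ℓ) V) (f a)) = f ⟨(g : X) * a * (g : X)⁻¹, hΓA g g.2 a a.2⟩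

variable {ℓ : ℕ} [Fact ℓ.Prime] {A Γ : Subgroup X} {hΓA : ∀ g ∈ Γ, ∀ a ∈ A, g * a * g⁻¹ ∈ A} {V : Type*} [AddCommGroup V]
  [Module (ZMod ℓ) V] (D : SecData ℓ A Γ hΓA V)

namespace SecData

theorem f_one : D.f 1 = 0 := by
  have := D.add 1 1
  rw [mul_one] at this
  exact left_eq_add.mp this

theorem f_inv (a : ↥A) : D.f a⁻¹ = - D.f a := by
  have := D.add a a⁻¹
  rw [mul_inv_cancel, D.f_one] at this
  exact (neg_eq_of_add_eq_zero_right this.symm).symm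

theorem f_pow (a : ↥A) (n : ℕ) : D.f (a ^ n) = n • D.f a := by
  induction n with
  | zero => simp [D.f_one]
  | succ n ih => rw [pow_succ, D.add, ih, succ_nsmul]

/-- Fixed vectors lift to fixed elements, for a coprime group of operators. -/
theorem coset {Y : Subgroup X} (hYΓ : Y ≤ Γ) (hcop : (Nat.card Y).Coprime (Nat.card A))
    (hsolv : Group.IsSolvable Y ∨ Group.IsSolvable A) (a : ↥A)
    (hfix : ∀ (y : X) (hy : y ∈ Y), ((D.ρ ⟨y, hYΓ hy⟩ : (Module.End (ZMod ℓ) V)ˣ) : Module.End (ZMod ℓ) V) (D.f a) = D.f a) :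
    ∃ c : ↥A, (c : X) ∈ Subgroup.centralizer (Y : Set X) ∧ D.f c = D.f a := by
  have hN1 : A ≤ Subgroup.normalizer ((secG ℓ A : Subgroup X) : Set X) := by
    rw [Subgroup.le_normalizer_iff]
    intro h hh k hk
    exact secG_conj (fun b hb => A.mul_mem (A.mul_mem hh hb) (A.inv_mem hh)) k hk
  have hN2 : Y ≤ Subgroup.normalizer ((secG ℓ A : Subgroup X) : Set X) := by
    rw [Subgroup.le_normalizer_iff]
    intro h hh k hk
    exact secG_conj (fun b hb => hΓA h (hYΓ hh) b hb) k hk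
  have hfix' : ∀ y ∈ Y, y * (a : X) * y⁻¹ * (a : X)⁻¹ ∈ secG ℓ A := by
    intro y hy
    have h1 := hfix y hy
    rw [D.act] at h1
    have h2 : (y * (a : X) * y⁻¹ * (a : X)⁻¹) = (((⟨y * (a : X) * y⁻¹, hΓA y (hYΓ hy) a a.2⟩ : ↥A) * a⁻¹ : ↥A) : X) := rfl
    rw [h2, ← D.ker, D.add, D.f_inv]
    rw [show (⟨y * (a : X) * y⁻¹, hΓA y (hYΓ hy) a a.2⟩ : ↥A) = ⟨y * (a : X) * y⁻¹, hΓA y (hYΓ hy) a a.2⟩ from rfl]
    have h3 : D.f ⟨y * (a : X) * y⁻¹, hΓA y (hYΓ hy) a a.2⟩ = D.f a := h1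
    rw [h3, add_neg_cancel]
  obtain ⟨c, hc, hac⟩ := exists_mem_centralizer_of_coset_fixed (A := Y) (K := A) (N := secG ℓ A) hcop hsolv
    (secG_le ℓ A) hN1 hN2 (a : X) a.2 hfix'
  obtain ⟨hcA, hcC⟩ := Subgroup.mem_inf.mp hc
  refine ⟨⟨c, hcA⟩, hcC, ?_⟩
  have h4 : D.f (a⁻¹ * ⟨c, hcA⟩) = 0 := (D.ker _).mpr hac
  rw [D.add, D.f_inv] at h4
  have h5 := neg_add_eq_zero.mp h4
  exact h5.symm

theorem fix_zpow {y : X} (hy : y ∈ Γ) {v : V}
    (hv : ((D.ρ ⟨y, hy⟩ : (Module.End (ZMod ℓ) V)ˣ) : Module.End (ZMod ℓ) V) v = v) (z : X) (hz : z ∈ Subgroup.zpowers y) :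
    ((D.ρ ⟨z, Subgroup.zpowers_le.mpr hy hz⟩ : (Module.End (ZMod ℓ) V)ˣ) : Module.End (ZMod ℓ) V) v = v := by
  obtain ⟨n, rfl⟩ := Subgroup.mem_zpowers_iff.mp hz
  have e : (⟨y ^ n, Subgroup.zpowers_le.mpr hy hz⟩ : ↥Γ) = (⟨y, hy⟩ : ↥Γ) ^ n := rfl
  rw [e, map_zpow]
  have h1 : D.ρ ⟨y, hy⟩ ∈ fixS (Submodule.span (ZMod ℓ) {v}) := by
    rw [mem_fixS]
    intro u hu
    obtain ⟨c, rfl⟩ := Submodule.mem_span_singleton.mp hu
    rw [map_smul, hv]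
  exact (Subgroup.zpow_mem _ h1 n) v (Submodule.mem_span_singleton_self v)

end SecData

theorem exists_secData (ℓ : ℕ) [Fact ℓ.Prime] (A Γ : Subgroup X) (hΓA : ∀ g ∈ Γ, ∀ a ∈ A, g * a * g⁻¹ ∈ A) :
    ∃ (V : Type u) (_ : AddCommGroup V) (_ : Module (ZMod ℓ) V) (_ : Finite V), Nonempty (SecData ℓ A Γ hΓA V) := by
  obtain ⟨V, i1, i2, i3, f, ρ, h1, h2, h3, h4⟩ := exists_sec ℓ A (secG ℓ A) Γ (secG_le ℓ A)
    (fun a ha b hb => comm_mem_secG ha hb) (fun a ha => pow_mem_secG ha) hΓA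
    (fun g hg a ha => secG_conj (fun b hb => hΓA g hg b hb) a ha)
  exact ⟨V, i1, i2, i3, ⟨⟨f, ρ, h1, h2, h3, h4⟩⟩⟩

end Setup

section Steps

variable {X : Type u} [Group X] [Finite X] {ℓ : ℕ} [Fact ℓ.Prime] {A Γ : Subgroup X}
  {hΓA : ∀ g ∈ Γ, ∀ a ∈ A, g * a * g⁻¹ ∈ A} {V : Type u} [AddCommGroup V] [Module (ZMod ℓ) V] [Finite V]
  (D : SecData ℓ A Γ hΓA V)

include D in
/-- The inductive step of the count. -/
theorem sec_count (K : Subgroup X) (hKΓ : K ≤ Γ) {x : X} (hxΓ : x ∈ Γ) (hsolvK : Group.IsSolvable K)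
    (hcopK : (Nat.card K).Coprime (Nat.card A)) (hcopx : (orderOf x).Coprime (Nat.card A)) (hℓA : ℓ ∣ Nat.card A)
    (hCK : ∀ a ∈ A, a ∈ Subgroup.centralizer (K : Set X) → a = 1)
    (hxK : ∀ k ∈ K, x * k * x⁻¹ ∈ K)
    (hfpf : ∀ i, 0 < i → i < orderOf x → ∀ k ∈ K, x ^ i * k = k * x ^ i → k = 1)
    (hB : Nat.card (secG ℓ A) = Nat.card ↥(secG ℓ A ⊓ Subgroup.centralizer ({x} : Set X)) ^ orderOf x) :
    Nat.card A = Nat.card ↥(A ⊓ Subgroup.centralizer ({x} : Set X)) ^ orderOf x := by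
  classical
  have hℓ : ℓ.Prime := Fact.out
  have hmpos : 0 < orderOf x := orderOf_pos x
  have hℓm : ¬ ℓ ∣ orderOf x := fun h => hℓ.one_lt.ne' (Nat.eq_one_of_dvd_coprimes hcopx h hℓA)
  have hℓK : ¬ ℓ ∣ Nat.card K := fun h => hℓ.one_lt.ne' (Nat.eq_one_of_dvd_coprimes hcopK h hℓA)
  have hmF : ((orderOf x : ℕ) : ZMod ℓ) ≠ 0 := by
    rw [Ne, ZMod.natCast_eq_zero_iff]
    exact hℓm
  let x' : (Module.End (ZMod ℓ) V)ˣ := D.ρ ⟨x, hxΓ⟩
  let g : ↥K →* (Module.End (ZMod ℓ) V)ˣ := D.ρ.comp (Subgroup.inclusion hKΓ)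
  haveI hfinT : Finite g.range := Finite.of_surjective g.rangeRestrict g.rangeRestrict_surjective
  have hcT : (Nat.card g.range : ZMod ℓ) ≠ 0 := by
    rw [Ne, ZMod.natCast_eq_zero_iff]
    intro h
    exact hℓK (h.trans (Subgroup.card_range_dvd g))
  have hsolvT : Group.IsSolvable g.range :=
    Group.isSolvable_of_surjective (f := g.rangeRestrict) g.rangeRestrict_surjective
  have hxpow : x' ^ (orderOf x) = 1 := by
    have h1 : (⟨x, hxΓ⟩ : ↥Γ) ^ (orderOf x) = 1 := Subtype.ext (by simp [pow_orderOf_eq_one])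
    show (D.ρ ⟨x, hxΓ⟩) ^ (orderOf x) = 1
    rw [← map_pow, h1, map_one]
  have hxT : ∀ t ∈ g.range, x' * t * x'⁻¹ ∈ g.range := by
    rintro _ ⟨k, rfl⟩
    refine ⟨⟨x * k * x⁻¹, hxK k k.2⟩, ?_⟩
    have e : Subgroup.inclusion hKΓ ⟨x * k * x⁻¹, hxK k k.2⟩ = ⟨x, hxΓ⟩ * Subgroup.inclusion hKΓ k * (⟨x, hxΓ⟩ : ↥Γ)⁻¹ := rfl
    show D.ρ (Subgroup.inclusion hKΓ ⟨x * k * x⁻¹, hxK k k.2⟩) = _
    rw [e, map_mul, map_mul, map_inv]
    rfl
  have hfpfT : ∀ i, 0 < i → i < orderOf x → ∀ t ∈ g.range, x' ^ i * t = t * x' ^ i → t = 1 := by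
    rintro i hi0 him _ ⟨k, rfl⟩ hc
    have hzΓ : x ^ i ∈ Γ := Γ.pow_mem hxΓ i
    have e : D.ρ ⟨x ^ i, hzΓ⟩ = x' ^ i := by
      have : (⟨x ^ i, hzΓ⟩ : ↥Γ) = (⟨x, hxΓ⟩ : ↥Γ) ^ i := rfl
      rw [this, map_pow]
    exact fpf_image hKΓ D.ρ hzΓ (Cfsg.Agent.Lib.BGAb.conj_pow_mem' x hxK i) (hfpf i hi0 him) k.2 (by rw [e]; exact hc)
  have hCT : ∀ v : V, (∀ t ∈ g.range, (t : Module.End (ZMod ℓ) V) v = v) → v = 0 := by
    intro v hv
    obtain ⟨a, rfl⟩ := D.surj v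
    obtain ⟨c, hc, hfc⟩ := D.coset hKΓ hcopK (Or.inl hsolvK) a (fun y hy => hv _ ⟨⟨y, hy⟩, rfl⟩)
    have h1 := hCK c c.2 hc
    have h2 : c = 1 := Subtype.ext h1
    rw [← hfc, h2, D.f_one]
  have hft := ft g.range x' hmpos hmF hxpow hsolvT hcT hxT hfpfT hCT
  -- counting
  have h1 := card_eq_of_surj D.f D.add D.surj ((secG ℓ A).subgroupOf A)
    (fun a => by rw [D.ker, Subgroup.mem_subgroupOf])
  rw [Nat.card_congr (Subgroup.subgroupOfEquivOfLe (secG_le ℓ A)).toEquiv] at h1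
  let C := LinearMap.ker ((x' : Module.End (ZMod ℓ) V) - 1)
  have hfixC : ∀ (a : ↥A), (a : X) ∈ Subgroup.centralizer ({x} : Set X) → D.f a ∈ C := by
    intro a ha
    rw [LinearMap.mem_ker, LinearMap.sub_apply, sub_eq_zero, Module.End.one_apply]
    show ((D.ρ ⟨x, hxΓ⟩ : (Module.End (ZMod ℓ) V)ˣ) : Module.End (ZMod ℓ) V) (D.f a) = D.f a
    rw [D.act]
    congr 1
    apply Subtype.ext
    show x * (a : X) * x⁻¹ = a
    have h2 : (a : X) * x⁻¹ = x⁻¹ * a := by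
      have h3 := Subgroup.mem_centralizer_iff.mp ha x rfl
      calc (a : X) * x⁻¹ = x⁻¹ * (x * a) * x⁻¹ := by group
        _ = x⁻¹ * (a * x) * x⁻¹ := by rw [h3]
        _ = x⁻¹ * a := by group
    rw [mul_assoc, h2]
    group
  let φ : ↥(A ⊓ Subgroup.centralizer ({x} : Set X)) → ↥C := fun a =>
    ⟨D.f ⟨a, (Subgroup.mem_inf.mp a.2).1⟩, hfixC _ (Subgroup.mem_inf.mp a.2).2⟩
  have hcopz : (Nat.card (Subgroup.zpowers x)).Coprime (Nat.card A) := by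
    rw [Nat.card_zpowers]
    exact hcopx
  have hφs : Function.Surjective φ := by
    rintro ⟨v, hv⟩
    obtain ⟨a, rfl⟩ := D.surj v
    have hv' : ((D.ρ ⟨x, hxΓ⟩ : (Module.End (ZMod ℓ) V)ˣ) : Module.End (ZMod ℓ) V) (D.f a) = D.f a := by
      have := LinearMap.mem_ker.mp hv
      rwa [LinearMap.sub_apply, sub_eq_zero, Module.End.one_apply] at this
    obtain ⟨c, hc, hfc⟩ := D.coset (Subgroup.zpowers_le.mpr hxΓ) hcopz
      (Or.inl (by
        haveI : IsCyclic (Subgroup.zpowers x) := inferInstance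
        infer_instance)) a (fun y hy => D.fix_zpow hxΓ hv' y hy)
    have hc2 : (c : X) ∈ Subgroup.centralizer ({x} : Set X) := by
      refine Subgroup.centralizer_le ?_ hc
      intro y hy
      rw [Set.mem_singleton_iff] at hy
      rw [hy]
      exact Subgroup.mem_zpowers x
    refine ⟨⟨c, Subgroup.mem_inf.mpr ⟨c.2, hc2⟩⟩, ?_⟩
    apply Subtype.ext
    exact hfc
  have h2 := card_eq_of_surj φ (fun a b => by
      apply Subtype.ext
      exact D.add ⟨a, (Subgroup.mem_inf.mp a.2).1⟩ ⟨b, (Subgroup.mem_inf.mp b.2).1⟩) hφs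
    ((secG ℓ A ⊓ Subgroup.centralizer ({x} : Set X)).subgroupOf (A ⊓ Subgroup.centralizer ({x} : Set X)))
    (by
      intro a
      rw [Subgroup.mem_subgroupOf, Subgroup.mem_inf]
      constructor
      · intro h
        have h3 : D.f ⟨a, (Subgroup.mem_inf.mp a.2).1⟩ = 0 := congrArg Subtype.val h
        exact ⟨(D.ker _).mp h3, (Subgroup.mem_inf.mp a.2).2⟩
      · rintro ⟨h3, -⟩
        apply Subtype.ext
        exact (D.ker _).mpr h3)
  rw [Nat.card_congr (Subgroup.subgroupOfEquivOfLe (inf_le_inf_right _ (secG_le ℓ A))).toEquiv] at h2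
  have hV : Nat.card V = Nat.card ↥C ^ orderOf x := by
    rw [natCard_pow (ℓ := ℓ), natCard_pow (ℓ := ℓ) (V := ↥C), hft, ← pow_mul, mul_comm]
  rw [h1, h2, mul_pow, hB, hV]

include D in
/-- The inductive step for the commutator group. -/
theorem sec_comm (K : Subgroup X) (hKΓ : K ≤ Γ) {y : X} (hyΓ : y ∈ Γ) {s : ℕ} (hs : s.Prime) (hso : Odd s)
    (hys : y ^ s = 1) (hsolvK : Group.IsSolvable K) (hoddK : Odd (Nat.card K))
    (hcopK : (Nat.card K).Coprime (Nat.card A)) (hcopy : (orderOf y).Coprime (Nat.card A))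
    (hℓA : ℓ ∣ Nat.card A) (hsolvA : Group.IsSolvable A)
    (hyK : ∀ k ∈ K, y * k * y⁻¹ ∈ K) (hyf : ∀ k ∈ K, y * k = k * y → k = 1)
    (hcyc : IsCyclic ↥(A ⊓ Subgroup.centralizer ({y} : Set X)))
    (hB : ⁅K, K⁆ ≤ Subgroup.centralizer (secG ℓ A : Set X)) :
    ⁅K, K⁆ ≤ Subgroup.centralizer (A : Set X) := by
  classical
  have hℓ : ℓ.Prime := Fact.out
  have hℓK : ¬ ℓ ∣ Nat.card K := fun h => hℓ.one_lt.ne' (Nat.eq_one_of_dvd_coprimes hcopK h hℓA)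
  let y₀ : (Module.End (ZMod ℓ) V)ˣ := D.ρ ⟨y, hyΓ⟩
  have hcopz : (Nat.card (Subgroup.zpowers y)).Coprime (Nat.card A) := by
    rw [Nat.card_zpowers]
    exact hcopy
  have hF₀ : finrank (ZMod ℓ) (LinearMap.ker ((y₀ : Module.End (ZMod ℓ) V) - 1)) ≤ 1 := by
    obtain ⟨c₀, hc₀⟩ := IsCyclic.exists_monoid_generator (α := ↥(A ⊓ Subgroup.centralizer ({y} : Set X)))
    have hfixC : ∀ (a : ↥A), (a : X) ∈ Subgroup.centralizer ({y} : Set X) → D.f a ∈ LinearMap.ker ((y₀ : Module.End (ZMod ℓ) V) - 1) := by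
      intro a ha
      rw [LinearMap.mem_ker, LinearMap.sub_apply, sub_eq_zero, Module.End.one_apply]
      show ((D.ρ ⟨y, hyΓ⟩ : (Module.End (ZMod ℓ) V)ˣ) : Module.End (ZMod ℓ) V) (D.f a) = D.f a
      rw [D.act]
      congr 1
      apply Subtype.ext
      show y * (a : X) * y⁻¹ = a
      have h3 := Subgroup.mem_centralizer_iff.mp ha y rfl
      rw [h3]
      group
    let a₀ : ↥A := ⟨c₀, (Subgroup.mem_inf.mp c₀.2).1⟩
    refine finrank_le_one ⟨D.f a₀, hfixC a₀ (Subgroup.mem_inf.mp c₀.2).2⟩ ?_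
    rintro ⟨v, hv⟩
    obtain ⟨a, rfl⟩ := D.surj v
    have hv' : ((D.ρ ⟨y, hyΓ⟩ : (Module.End (ZMod ℓ) V)ˣ) : Module.End (ZMod ℓ) V) (D.f a) = D.f a := by
      have := LinearMap.mem_ker.mp hv
      rwa [LinearMap.sub_apply, sub_eq_zero, Module.End.one_apply] at this
    obtain ⟨c, hc, hfc⟩ := D.coset (Subgroup.zpowers_le.mpr hyΓ) hcopz
      (Or.inl (by
        haveI : IsCyclic (Subgroup.zpowers y) := inferInstance
        infer_instance)) a (fun z hz => D.fix_zpow hyΓ hv' z hz)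
    have hc2 : (c : X) ∈ Subgroup.centralizer ({y} : Set X) := by
      refine Subgroup.centralizer_le ?_ hc
      intro z hz
      rw [Set.mem_singleton_iff] at hz
      rw [hz]
      exact Subgroup.mem_zpowers y
    obtain ⟨n, hn⟩ := (Submonoid.mem_powers_iff _ _).mp (hc₀ ⟨c, Subgroup.mem_inf.mpr ⟨c.2, hc2⟩⟩)
    refine ⟨(n : ZMod ℓ), ?_⟩
    apply Subtype.ext
    show (n : ZMod ℓ) • D.f a₀ = D.f a
    rw [Nat.cast_smul_eq_nsmul, ← D.f_pow, ← hfc]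
    congr 1
    apply Subtype.ext
    have := congrArg (fun z : ↥(A ⊓ Subgroup.centralizer ({y} : Set X)) => (z : X)) hn
    simpa [a₀] using this
  let 𝕜 := AlgebraicClosure (ZMod ℓ)
  let π : ↥Γ →* (Module.End 𝕜 (𝕜 ⊗[ZMod ℓ] V))ˣ := (bcU 𝕜).comp D.ρ
  let g : ↥K →* (Module.End 𝕜 (𝕜 ⊗[ZMod ℓ] V))ˣ := π.comp (Subgroup.inclusion hKΓ)
  let ŷ : (Module.End 𝕜 (𝕜 ⊗[ZMod ℓ] V))ˣ := π ⟨y, hyΓ⟩
  haveI hfinT : Finite g.range := Finite.of_surjective g.rangeRestrict g.rangeRestrict_surjective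
  have hcT : (Nat.card g.range : 𝕜) ≠ 0 := by
    intro h0
    have := (CharP.cast_eq_zero_iff 𝕜 ℓ _).mp h0
    exact hℓK (this.trans (Subgroup.card_range_dvd g))
  have hsolvT : Group.IsSolvable g.range :=
    Group.isSolvable_of_surjective (f := g.rangeRestrict) g.rangeRestrict_surjective
  have hoddT : Odd (Nat.card g.range) := Odd.of_dvd_nat hoddK (Subgroup.card_range_dvd g)
  have hys' : ŷ ^ s = 1 := by
    have h1 : (⟨y, hyΓ⟩ : ↥Γ) ^ s = 1 := Subtype.ext (by simp [hys])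
    show (π ⟨y, hyΓ⟩) ^ s = 1
    rw [← map_pow, h1, map_one]
  have hyT : ∀ t ∈ g.range, ŷ * t * ŷ⁻¹ ∈ g.range := by
    rintro _ ⟨k, rfl⟩
    refine ⟨⟨y * k * y⁻¹, hyK k k.2⟩, ?_⟩
    have e : Subgroup.inclusion hKΓ ⟨y * k * y⁻¹, hyK k k.2⟩ = ⟨y, hyΓ⟩ * Subgroup.inclusion hKΓ k * (⟨y, hyΓ⟩ : ↥Γ)⁻¹ := rfl
    show π (Subgroup.inclusion hKΓ ⟨y * k * y⁻¹, hyK k k.2⟩) = _
    rw [e, map_mul, map_mul, map_inv]
    rfl
  have hfT : ∀ t ∈ g.range, ŷ * t = t * ŷ → t = 1 := by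
    rintro _ ⟨k, rfl⟩ hc
    exact fpf_image hKΓ π hyΓ hyK hyf k.2 hc
  have hFT : finrank 𝕜 (LinearMap.ker ((ŷ : Module.End 𝕜 (𝕜 ⊗[ZMod ℓ] V)) - 1)) ≤ 1 :=
    (finrank_bcU_le (𝕜 := 𝕜) y₀).trans hF₀
  have hab := cy g.range ŷ hs hso hys' hsolvT hoddT hcT hyT hfT hFT
  have hρ : ∀ k (hk : k ∈ K) k' (hk' : k' ∈ K), D.ρ ⟨k, hKΓ hk⟩ * D.ρ ⟨k', hKΓ hk'⟩ = D.ρ ⟨k', hKΓ hk'⟩ * D.ρ ⟨k, hKΓ hk⟩ := by
    intro k hk k' hk'
    have h1 := hab _ ⟨⟨k, hk⟩, rfl⟩ _ ⟨⟨k', hk'⟩, rfl⟩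
    apply bcU_injective (𝕜 := 𝕜)
    rw [map_mul, map_mul]
    exact h1
  have hYle : ⁅K, K⁆ ≤ K ⊓ (D.ρ.ker.map Γ.subtype) := by
    rw [Subgroup.commutator_le]
    intro k hk k' hk'
    refine Subgroup.mem_inf.mpr ⟨K.mul_mem (K.mul_mem (K.mul_mem hk hk') (K.inv_mem hk)) (K.inv_mem hk'), ?_⟩
    refine ⟨⟨k, hKΓ hk⟩ * ⟨k', hKΓ hk'⟩ * (⟨k, hKΓ hk⟩ : ↥Γ)⁻¹ * (⟨k', hKΓ hk'⟩ : ↥Γ)⁻¹, ?_, rfl⟩
    refine SetLike.mem_coe.mpr (MonoidHom.mem_ker.mpr ?_)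
    rw [map_mul, map_mul, map_mul, map_inv, map_inv, hρ k hk k' hk']
    group
  have hYK : ⁅K, K⁆ ≤ K := hYle.trans inf_le_left
  have hYΓ : ⁅K, K⁆ ≤ Γ := hYK.trans hKΓ
  have hcopY : (Nat.card ↥(⁅K, K⁆ : Subgroup X)).Coprime (Nat.card A) :=
    Nat.Coprime.coprime_dvd_left (Subgroup.card_dvd_of_le hYK) hcopK
  have hBC : secG ℓ A ≤ Subgroup.centralizer ((⁅K, K⁆ : Subgroup X) : Set X) := Subgroup.le_centralizer_iff.mp hB
  apply Subgroup.le_centralizer_iff.mpr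
  intro a ha
  obtain ⟨c, hc, hfc⟩ := D.coset hYΓ hcopY (Or.inr hsolvA) ⟨a, ha⟩ (by
    intro d hd
    obtain ⟨d', hd', e⟩ := (Subgroup.mem_inf.mp (hYle hd)).2
    have e2 : (⟨d, hYΓ hd⟩ : ↥Γ) = d' := Subtype.ext e.symm
    rw [e2, MonoidHom.mem_ker.mp hd']
    rfl)
  have h1 : D.f ((⟨a, ha⟩ : ↥A)⁻¹ * c) = 0 := by
    rw [D.add, D.f_inv, hfc, neg_add_cancel]
  have h2 : a⁻¹ * (c : X) ∈ secG ℓ A := (D.ker _).mp h1
  have h3 := hBC h2
  have h4 : a = (c : X) * (a⁻¹ * (c : X))⁻¹ := by group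
  rw [h4]
  exact Subgroup.mul_mem _ hc (Subgroup.inv_mem _ h3)

end Steps

section Top

variable {X : Type u} [Group X] [Finite X]

theorem isNilpotent_of_le {A M : Subgroup X} (h : A ≤ M) (hM : Group.IsNilpotent M) : Group.IsNilpotent A := by
  haveI := hM
  exact nilpotent_of_mulEquiv (Subgroup.subgroupOfEquivOfLe h)

theorem card_lt_of_secG {A B : Subgroup X} (h : B ≤ A) (hne : B ≠ A) : Nat.card B < Nat.card A := by
  refine lt_of_le_of_ne (Subgroup.card_le_of_le h) ?_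
  intro h2
  exact hne (Subgroup.eq_of_le_of_card_ge h h2.ge)

/-- The count. -/
theorem count_all (K Γ M : Subgroup X) {x : X} (hKΓ : K ≤ Γ) (hxΓ : x ∈ Γ) (hΓM : ∀ g ∈ Γ, ∀ a ∈ M, g * a * g⁻¹ ∈ M)
    (hsolvK : Group.IsSolvable K) (hcop : (Nat.card Γ).Coprime (Nat.card M)) (hMn : Group.IsNilpotent M)
    (hCK : M ⊓ Subgroup.centralizer (K : Set X) = ⊥) (hxK : ∀ k ∈ K, x * k * x⁻¹ ∈ K)
    (hfpf : ∀ i, 0 < i → i < orderOf x → ∀ k ∈ K, x ^ i * k = k * x ^ i → k = 1) :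
    Nat.card M = Nat.card ↥(M ⊓ Subgroup.centralizer ({x} : Set X)) ^ orderOf x := by
  have hxo : orderOf x ∣ Nat.card Γ := by
    have := orderOf_dvd_natCard (⟨x, hxΓ⟩ : ↥Γ)
    rwa [Subgroup.orderOf_mk] at this
  have key : ∀ n, ∀ A : Subgroup X, A ≤ M → Nat.card A ≤ n → (∀ g ∈ Γ, ∀ a ∈ A, g * a * g⁻¹ ∈ A) →
      Nat.card A = Nat.card ↥(A ⊓ Subgroup.centralizer ({x} : Set X)) ^ orderOf x := by
    intro n
    induction n with
    | zero =>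
      intro A _ hc _
      have := Nat.card_pos (α := A)
      omega
    | succ n ih =>
      intro A hAM hc hΓA
      by_cases h1 : A = ⊥
      · subst h1
        have : (⊥ : Subgroup X) ⊓ Subgroup.centralizer ({x} : Set X) = ⊥ := bot_inf_eq _
        rw [this, Subgroup.card_bot, one_pow]
      obtain ⟨ℓ, hℓ, hdvd, hne⟩ := exists_secG_ne A (isNilpotent_of_le hAM hMn) h1
      haveI : Fact ℓ.Prime := ⟨hℓ⟩
      have hlt := card_lt_of_secG (secG_le ℓ A) hne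
      have hIH := ih (secG ℓ A) ((secG_le ℓ A).trans hAM) (by omega)
        (fun g hg a ha => secG_conj (hΓA g hg) a ha)
      obtain ⟨V, i1, i2, i3, ⟨D⟩⟩ := exists_secData ℓ A Γ hΓA
      have hAd : Nat.card A ∣ Nat.card M := Subgroup.card_dvd_of_le hAM
      exact sec_count D K hKΓ hxΓ hsolvK
        (Nat.Coprime.coprime_dvd_right hAd (Nat.Coprime.coprime_dvd_left (Subgroup.card_dvd_of_le hKΓ) hcop))
        (Nat.Coprime.coprime_dvd_right hAd (Nat.Coprime.coprime_dvd_left hxo hcop))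
        hdvd
        (fun a ha hac => by
          have h2 : a ∈ M ⊓ Subgroup.centralizer (K : Set X) := Subgroup.mem_inf.mpr ⟨hAM ha, hac⟩
          rw [hCK] at h2
          exact h2)
        hxK hfpf hIH
  exact key (Nat.card M) M le_rfl le_rfl hΓM

/-- The commutator statement. -/
theorem comm_all (K Γ M : Subgroup X) {y : X} (hKΓ : K ≤ Γ) (hyΓ : y ∈ Γ) (hΓM : ∀ g ∈ Γ, ∀ a ∈ M, g * a * g⁻¹ ∈ M)
    {s : ℕ} (hs : s.Prime) (hso : Odd s) (hys : y ^ s = 1)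
    (hsolvK : Group.IsSolvable K) (hoddK : Odd (Nat.card K))
    (hcop : (Nat.card Γ).Coprime (Nat.card M)) (hMn : Group.IsNilpotent M)
    (hyK : ∀ k ∈ K, y * k * y⁻¹ ∈ K) (hyf : ∀ k ∈ K, y * k = k * y → k = 1)
    (hcyc : IsCyclic ↥(M ⊓ Subgroup.centralizer ({y} : Set X))) :
    ⁅K, K⁆ ≤ Subgroup.centralizer (M : Set X) := by
  have hxo : orderOf y ∣ Nat.card Γ := by
    have := orderOf_dvd_natCard (⟨y, hyΓ⟩ : ↥Γ)
    rwa [Subgroup.orderOf_mk] at this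
  have key : ∀ n, ∀ A : Subgroup X, A ≤ M → Nat.card A ≤ n → (∀ g ∈ Γ, ∀ a ∈ A, g * a * g⁻¹ ∈ A) →
      ⁅K, K⁆ ≤ Subgroup.centralizer (A : Set X) := by
    intro n
    induction n with
    | zero =>
      intro A _ hc _
      have := Nat.card_pos (α := A)
      omega
    | succ n ih =>
      intro A hAM hc hΓA
      by_cases h1 : A = ⊥
      · subst h1
        rw [Subgroup.le_centralizer_iff]
        exact bot_le
      have hAn := isNilpotent_of_le hAM hMn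
      obtain ⟨ℓ, hℓ, hdvd, hne⟩ := exists_secG_ne A hAn h1
      haveI : Fact ℓ.Prime := ⟨hℓ⟩
      have hlt := card_lt_of_secG (secG_le ℓ A) hne
      have hIH := ih (secG ℓ A) ((secG_le ℓ A).trans hAM) (by omega)
        (fun g hg a ha => secG_conj (hΓA g hg) a ha)
      obtain ⟨V, i1, i2, i3, ⟨D⟩⟩ := exists_secData ℓ A Γ hΓA
      have hAd : Nat.card A ∣ Nat.card M := Subgroup.card_dvd_of_le hAM
      have hle : A ⊓ Subgroup.centralizer ({y} : Set X) ≤ M ⊓ Subgroup.centralizer ({y} : Set X) :=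
        inf_le_inf_right _ hAM
      haveI : IsCyclic ↥(A ⊓ Subgroup.centralizer ({y} : Set X)) :=
        isCyclic_of_injective (Subgroup.inclusion hle) (Subgroup.inclusion_injective hle)
      exact sec_comm D K hKΓ hyΓ hs hso hys hsolvK hoddK
        (Nat.Coprime.coprime_dvd_right hAd (Nat.Coprime.coprime_dvd_left (Subgroup.card_dvd_of_le hKΓ) hcop))
        (Nat.Coprime.coprime_dvd_right hAd (Nat.Coprime.coprime_dvd_left hxo hcop))
        hdvd (by infer_instance) hyK hyf inferInstance hIH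
  exact key (Nat.card M) M le_rfl le_rfl hΓM

/-- The main theorem. -/
theorem main (K R M : Subgroup X) (hK1 : K ≠ ⊥) (hR1 : R ≠ ⊥) (hKR : K ⊓ R = ⊥)
    (hRK : R ≤ Subgroup.normalizer (K : Set X)) (hfrob : ∀ r ∈ R, r ≠ 1 → K ⊓ Subgroup.centralizer ({r} : Set X) = ⊥)
    (hsolv : Group.IsSolvable ↥(K ⊔ R)) (hodd : Odd (Nat.card ↥(K ⊔ R)))
    (hM1 : M ≠ ⊥) (hMn : Group.IsNilpotent M) (hKM : K ≤ Subgroup.normalizer (M : Set X)) (hRM : R ≤ Subgroup.normalizer (M : Set X))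
    (hcop : (Nat.card ↥(K ⊔ R)).Coprime (Nat.card M)) (hCK : M ⊓ Subgroup.centralizer (K : Set X) = ⊥)
    (hpr : ∀ x ∈ R, x ≠ 1 → M ⊓ Subgroup.centralizer ({x} : Set X) = M ⊓ Subgroup.centralizer (R : Set X)) :
    (Nat.card R).Prime ∧ Nat.card M = Nat.card ↥(M ⊓ Subgroup.centralizer (R : Set X)) ^ Nat.card R ∧
      (IsCyclic ↥(M ⊓ Subgroup.centralizer (R : Set X)) → ⁅K, K⁆ ≤ Subgroup.centralizer (M : Set X)) := by
  classical
  have hKΓ : K ≤ K ⊔ R := le_sup_left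
  have hRΓ : R ≤ K ⊔ R := le_sup_right
  have hΓM : ∀ g ∈ K ⊔ R, ∀ a ∈ M, g * a * g⁻¹ ∈ M := by
    have h : K ⊔ R ≤ Subgroup.normalizer (M : Set X) := sup_le hKM hRM
    intro g hg a ha
    exact (Subgroup.mem_normalizer_iff.mp (h hg) a).mp ha
  have hsolvK : Group.IsSolvable K :=
    solvable_of_solvable_injective (Subgroup.inclusion_injective hKΓ)
  have hoddK : Odd (Nat.card K) := Odd.of_dvd_nat hodd (Subgroup.card_dvd_of_le hKΓ)
  have hRK' : ∀ r ∈ R, ∀ k ∈ K, r * k * r⁻¹ ∈ K := by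
    intro r hr k hk
    exact (Subgroup.mem_normalizer_iff.mp (hRK hr) k).mp hk
  have hfK : ∀ r ∈ R, r ≠ 1 → ∀ k ∈ K, r * k = k * r → k = 1 := by
    intro r hr hr1 k hk hc
    have h1 : k ∈ K ⊓ Subgroup.centralizer ({r} : Set X) := by
      refine Subgroup.mem_inf.mpr ⟨hk, ?_⟩
      rw [Subgroup.mem_centralizer_iff]
      intro h hh
      rw [Set.mem_singleton_iff] at hh
      rw [hh]
      exact hc
    rw [hfrob r hr hr1] at h1
    exact h1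
  have hcount : ∀ x ∈ R, x ≠ 1 → Nat.card M = Nat.card ↥(M ⊓ Subgroup.centralizer (R : Set X)) ^ orderOf x := by
    intro x hx hx1
    rw [← hpr x hx hx1]
    refine count_all K (K ⊔ R) M hKΓ (hRΓ hx) hΓM hsolvK hcop hMn hCK (hRK' x hx) ?_
    intro i hi0 him k hk hc
    exact hfK (x ^ i) (R.pow_mem hx i) (pow_ne_one_of_lt_orderOf hi0.ne' him) k hk hc
  have hMc : 1 < Nat.card M := by
    haveI := (Subgroup.nontrivial_iff_ne_bot M).mpr hM1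
    exact Finite.one_lt_card_iff_nontrivial.mpr inferInstance
  obtain ⟨x₀, hx₀, hx₀1⟩ : ∃ x ∈ R, x ≠ 1 := by
    by_contra hno
    push Not at hno
    exact hR1 (eq_bot_iff.mpr (fun a ha => hno a ha))
  have hC₀ : 2 ≤ Nat.card ↥(M ⊓ Subgroup.centralizer (R : Set X)) := by
    by_contra hlt
    have h0 : 0 < Nat.card ↥(M ⊓ Subgroup.centralizer (R : Set X)) := Nat.card_pos
    have h1 : Nat.card ↥(M ⊓ Subgroup.centralizer (R : Set X)) = 1 := by omega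
    have h2 := hcount x₀ hx₀ hx₀1
    rw [h1, one_pow] at h2
    omega
  have horder : ∀ x ∈ R, x ≠ 1 → orderOf x = orderOf x₀ := by
    intro x hx hx1
    have h1 := hcount x hx hx1
    have h2 := hcount x₀ hx₀ hx₀1
    exact Nat.pow_right_injective hC₀ (h1.symm.trans h2)
  have hx₀o : 1 < orderOf x₀ := by
    have h0 : 0 < orderOf x₀ := orderOf_pos x₀
    have h1 : orderOf x₀ ≠ 1 := fun h => hx₀1 (orderOf_eq_one_iff.mp h)
    omega
  have hp : (orderOf x₀).Prime := by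
    refine Nat.prime_of_coprime _ hx₀o ?_
    intro k hk hk0
    have h1 : x₀ ^ k ≠ 1 := pow_ne_one_of_lt_orderOf hk0 hk
    have h2 := horder (x₀ ^ k) (R.pow_mem hx₀ k) h1
    rw [orderOf_pow' x₀ hk0] at h2
    rcases Nat.div_eq_self.mp h2 with h3 | h3
    · omega
    · exact h3
  set p := orderOf x₀ with hpdef
  haveI : Fact p.Prime := ⟨hp⟩
  have hRp : IsPGroup p R := by
    rintro ⟨r, hr⟩
    refine ⟨1, ?_⟩
    apply Subtype.ext
    by_cases hr1 : r = 1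
    · simp [hr1]
    · have h1 := horder r hr hr1
      simp only [pow_one, Subgroup.coe_pow, Subgroup.coe_one]
      rw [← h1]
      exact pow_orderOf_eq_one r
  haveI hRn : Group.IsNilpotent R := hRp.isNilpotent
  have hoddR : Odd (Nat.card R) := Odd.of_dvd_nat hodd (Subgroup.card_dvd_of_le hRΓ)
  have hRcyc : IsCyclic R := by
    rcases Cfsg.Agent.Lib.CNSolv.cyclic_or_quat_of_nilpotent_fpf hK1 hRK hfrob hRn with h | ⟨C, Q, hCQ, -, -, -, n, ⟨e⟩⟩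
    · exact h
    · exfalso
      have hQR : Q ≤ R := hCQ ▸ le_sup_right
      have h1 : Nat.card Q = 4 * 2 ^ n := by
        haveI : NeZero (2 ^ n) := ⟨by positivity⟩
        rw [Nat.card_congr e.toEquiv, Nat.card_eq_fintype_card, QuaternionGroup.card]
      have h2 : Nat.card Q ∣ Nat.card R := Subgroup.card_dvd_of_le hQR
      have h3 : 2 ∣ Nat.card R := by
        refine Dvd.dvd.trans ?_ h2
        rw [h1]
        exact Dvd.intro_left (2 * 2 ^ n) (by ring)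
      exact (Nat.not_even_iff_odd.mpr hoddR) (even_iff_two_dvd.mpr h3)
  have hcardR : Nat.card R = p := by
    obtain ⟨g, hg⟩ := IsCyclic.exists_ofOrder_eq_natCard (α := R)
    have hg1 : (g : X) ≠ 1 := by
      intro h
      have h2 : g = 1 := Subtype.ext h
      rw [h2, orderOf_one] at hg
      haveI := (Subgroup.nontrivial_iff_ne_bot R).mpr hR1
      exact (Finite.one_lt_card_iff_nontrivial.mpr inferInstance).ne hg
    have h3 := horder g g.2 hg1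
    rw [Subgroup.orderOf_coe] at h3
    rw [← hg, h3]
  refine ⟨by rw [hcardR]; exact hp, ?_, ?_⟩
  · rw [hcardR]
    exact hcount x₀ hx₀ hx₀1
  · intro hcyc
    have hpo : Odd p := by
      apply Odd.of_dvd_nat hoddR
      rw [hcardR]
    refine comm_all K (K ⊔ R) M hKΓ (hRΓ hx₀) hΓM hp hpo (pow_orderOf_eq_one x₀) hsolvK hoddK hcop hMn
      (hRK' x₀ hx₀) (hfK x₀ hx₀ hx₀1) ?_
    rw [hpr x₀ hx₀ hx₀1]
    exact hcyc

end Top

end Cfsg.Agent.Lib.BGFree3
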