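import Mathlib
import Cfsg.Agent.Lib.BGCl1
import Cfsg.Agent.Lib.BGFix

/-!
# Prime action: no `p`-elements over a trivial `p`-core
-/

set_option autoImplicit false
set_option linter.unusedSectionVars false
set_option linter.unusedVariables false
set_option linter.style.haveILetI false
set_option linter.unusedSimpArgs false
set_option linter.unusedDecidableInType false
set_option linter.unusedFintypeInType false

namespace Cfsg.Agent.Lib.BGMainC

open Module Cfsg Cfsg.Agent.Lib.BGNorm Cfsg.Agent.Lib.BGFr Cfsg.Agent.Lib.BGFrob Cfsg.Agent.Lib.BGT5 Cfsg.Agent.Lib.BGCl2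
  Cfsg.Agent.Lib.BGCl1 Cfsg.Agent.Lib.BGFix Cfsg.Agent.Lib.PCore Cfsg.Agent.Lib.CoprimeInv
open scoped commutatorElement

universe u v

section KF

variable {Γ : Type u} [Group Γ] [Finite Γ] [Group.IsSolvable Γ]

theorem isCyclic_of_pGroup_of_zGroup {A : Type*} [Group A] [IsZGroup A] {q : ℕ} [Fact q.Prime] (h : IsPGroup q A) : IsCyclic A := by
  have h1 : IsPGroup q (⊤ : Subgroup A) := h.to_subgroup ⊤
  haveI := h1.isCyclic_of_isZGroup
  exact isCyclic_of_surjective (Subgroup.topEquiv : ↥(⊤ : Subgroup A) ≃* A).toMonoidHom (MulEquiv.surjective _)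

/-- A `p`-element centralizing all other cores is trivial. -/
theorem kf {p : ℕ} [Fact p.Prime] (H : Subgroup Γ)
    (hOp : ∀ N : Subgroup Γ, N ≤ H → (∀ h ∈ H, ∀ n ∈ N, h * n * h⁻¹ ∈ N) → IsPGroup p N → N = ⊥)
    (x : Γ) (hxH : x ∈ H) {a : ℕ} (hxp : x ^ (p ^ a) = 1)
    (hc : ∀ q : ℕ, q.Prime → q ≠ p → ∀ u ∈ pc q H, x * u = u * x) : x = 1 := by
  have hOp' : pCore p ↥H = ⊥ := by
    have h1 := hOp (pc p H) (pc_le p H) (by
      rintro h hh _ ⟨n, hn, rfl⟩
      refine ⟨⟨h, hh⟩ * n * (⟨h, hh⟩ : ↥H)⁻¹, (pCore_normal p ↥H).conj_mem n hn _, rfl⟩) (isPGroup_pc p H)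
    exact (Subgroup.map_eq_bot_iff_of_injective _ H.subtype_injective).mp h1
  have hF : fittingSubgroup ↥H ≤ Subgroup.centralizer ({⟨x, hxH⟩} : Set ↥H) := by
    rw [fittingSubgroup_eq_iSup_pCore]
    apply iSup_le
    intro q
    by_cases hq : (q : ℕ) = p
    · rw [hq, hOp']
      exact bot_le
    · intro f hf
      rw [Subgroup.mem_centralizer_iff]
      intro h hh
      rw [Set.mem_singleton_iff] at hh
      subst hh
      apply Subtype.ext
      exact hc q q.2 hq f ⟨f, hf, rfl⟩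
  have h1 : (⟨x, hxH⟩ : ↥H) ∈ Subgroup.centralizer (fittingSubgroup ↥H : Set ↥H) := by
    rw [Subgroup.mem_centralizer_iff]
    intro f hf
    have h2 := Subgroup.mem_centralizer_iff.mp (hF hf) ⟨x, hxH⟩ rfl
    exact h2.symm
  have h2 := centralizer_fittingSubgroup_le h1
  have h3 := fittingSubgroup_le_sup (G := ↥H) p h2
  rw [hOp', bot_sup_eq] at h3
  have h4 : orderOf (⟨⟨x, hxH⟩, h3⟩ : ↥(pPrimeCore p ↥H)) ∣ Nat.card ↥(pPrimeCore p ↥H) := orderOf_dvd_natCard _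
  have h5 : orderOf (⟨⟨x, hxH⟩, h3⟩ : ↥(pPrimeCore p ↥H)) ∣ p ^ a := by
    apply orderOf_dvd_of_pow_eq_one
    apply Subtype.ext
    apply Subtype.ext
    exact hxp
  have h6 : Nat.Coprime (Nat.card ↥(pPrimeCore p ↥H)) (p ^ a) := Nat.Coprime.pow_right a (card_pPrimeCore_coprime p)
  have h7 := Nat.eq_one_of_dvd_coprimes h6 h4 h5
  have h8 := orderOf_eq_one_iff.mp h7
  exact congrArg (fun z : ↥(pPrimeCore p ↥H) => ((z : ↥H) : Γ)) h8

end KF

section Main

variable {K : Type*} [Field K] {V : Type v} [AddCommGroup V] [Module K V] [IsAlgClosed K] [FiniteDimensional K V]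

/-- **Main theorem of the prime action section**, in the faithful form. -/
theorem mainC {Γ : Type u} [Group Γ] [Finite Γ] [Group.IsSolvable Γ] (hodd : Odd (Nat.card Γ))
    (π : Γ →* (Module.End K V)ˣ) (hπ : Function.Injective π) {p s : ℕ} [Fact p.Prime] [CharP K p] (hs : s.Prime) (hso : Odd s)
    (H : Subgroup Γ) [H.Normal] (hHc : H ≤ commutator Γ) (y : Γ) (hys : y ^ s = 1) (hsH : Nat.Coprime s (Nat.card H))
    (hZ : IsZGroup ↥(H ⊓ Subgroup.centralizer ({y} : Set Γ)))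
    (hF : finrank K (LinearMap.ker (((π y : (Module.End K V)ˣ) : Module.End K V) - 1)) ≤ 1)
    (hOp : ∀ N : Subgroup Γ, N ≤ H → (∀ h ∈ H, ∀ n ∈ N, h * n * h⁻¹ ∈ N) → IsPGroup p N → N = ⊥) :
    ¬ p ∣ Nat.card H := by
  intro hpH
  classical
  have hp : p.Prime := Fact.out
  haveI : Fact s.Prime := ⟨hs⟩
  have hodd' : ∀ {r : ℕ}, r ∣ Nat.card H → Odd r := fun hr => Odd.of_dvd_nat hodd (hr.trans (Subgroup.card_subgroup_dvd_card H))
  have hpo : Odd p := hodd' hpH
  have hne_s : ∀ {r : ℕ}, r.Prime → r ∣ Nat.card H → r ≠ s := by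
    rintro r hr hrH rfl
    exact hr.one_lt.ne' (Nat.eq_one_of_dvd_coprimes hsH (dvd_refl _) hrH)
  have hps : p ≠ s := hne_s hp hpH
  have hcast : ∀ n : ℕ, n.Prime → n ≠ p → (n : K) ≠ 0 := by
    intro n hn hne h0
    have := (CharP.cast_eq_zero_iff K p n).mp h0
    exact hne ((Nat.prime_dvd_prime_iff_eq hp hn).mp this).symm
  have hHN : ∀ g : Γ, ∀ h ∈ H, g * h * g⁻¹ ∈ H := fun g h hh => ‹H.Normal›.conj_mem h hh g
  have hcopy : Nat.Coprime (Nat.card H) (Nat.card (Subgroup.zpowers y)) := by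
    rw [Nat.card_zpowers]
    exact Nat.Coprime.coprime_dvd_right (orderOf_dvd_of_pow_eq_one hys) hsH.symm
  obtain ⟨S₁, hS₁, hyS₁⟩ := exists_invariant_isSylowIn p (L := H) (A := Subgroup.zpowers y) inferInstance
    (by
      rw [Subgroup.le_normalizer_iff]
      intro g _ h hh
      exact hHN g h hh) hcopy
  have hSH : S₁ ≤ H := hS₁.1
  have hSp : IsPGroup p S₁ := hS₁.2.1
  have hyS : ∀ b ∈ S₁, y * b * y⁻¹ ∈ S₁ := fun b hb =>
    Subgroup.le_normalizer_iff.mp hyS₁ y (Subgroup.mem_zpowers y) b hb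
  have hfacts : ∀ q : ℕ, q.Prime → pc q H ≠ ⊥ → Odd q ∧ q ≠ s := by
    intro q hq hne
    haveI : Fact q.Prime := ⟨hq⟩
    obtain ⟨n, hn⟩ := IsPGroup.iff_card.mp (isPGroup_pc q H)
    have h1 : Nat.card (pc q H) ≠ 1 := fun h => hne (Subgroup.eq_bot_of_card_eq _ h)
    have h2 : n ≠ 0 := by
      rintro rfl
      simp [hn] at h1
    have h3 : q ∣ Nat.card (pc q H) := by
      rw [hn]
      exact dvd_pow_self q h2
    have h4 : q ∣ Nat.card H := h3.trans (Subgroup.card_dvd_of_le (pc_le q H))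
    exact ⟨hodd' h4, hne_s hq h4⟩
  have hyQ : ∀ q : ℕ, ∀ a ∈ pc q H, y * a * y⁻¹ ∈ pc q H := fun q a ha => (pc_normal q H).conj_mem a ha y
  -- first claim
  have hfp : ∀ b ∈ S₁, y * b * y⁻¹ = b → b = 1 := by
    intro x hx hyx
    obtain ⟨a, hxa⟩ : ∃ a : ℕ, x ^ (p ^ a) = 1 := by
      obtain ⟨a, ha⟩ := hSp ⟨x, hx⟩
      exact ⟨a, congrArg Subtype.val ha⟩
    apply kf H hOp x (hSH hx) hxa
    intro q hq hqp u hu
    by_cases hP1 : pc q H = ⊥
    · rw [hP1, Subgroup.mem_bot] at hu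
      simp [hu]
    obtain ⟨hqo, hqs⟩ := hfacts q hq hP1
    haveI : Fact q.Prime := ⟨hq⟩
    have hxy : x * y = y * x := by
      calc x * y = (y * x * y⁻¹) * y := by rw [hyx]
        _ = y * x := by group
    have hc1 := claim1 π hπ hp hpo hq hqo hs hso hqp.symm hps hqs (hcast q hq hqp) (hcast s hs hps.symm) x y hxa hys hxy hF
      (pc q H) (isPGroup_pc q H) (fun c hc => (pc_normal q H).conj_mem c hc x) (hyQ q)
    have hleQ : ⁅pc q H, Subgroup.zpowers x⁆ ≤ pc q H := Subgroup.commutator_le_left _ _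
    have hle : ⁅pc q H, Subgroup.zpowers x⁆ ≤ H ⊓ Subgroup.centralizer ({y} : Set Γ) := by
      refine le_inf (hleQ.trans (pc_le q H)) ?_
      intro w hw
      rw [Subgroup.mem_centralizer_iff]
      intro h hh
      rw [Set.mem_singleton_iff] at hh
      rw [hh]
      exact (hc1 w hw).symm
    haveI : IsZGroup ↥(⁅pc q H, Subgroup.zpowers x⁆) :=
      IsZGroup.of_injective (f := Subgroup.inclusion hle) (Subgroup.inclusion_injective hle)
    have hcyc : IsCyclic ↥(⁅pc q H, Subgroup.zpowers x⁆) :=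
      isCyclic_of_pGroup_of_zGroup ((isPGroup_pc q H).to_le hleQ)
    exact lemB hq hp hqp.symm (pc q H) (isPGroup_pc q H) x (hHc (hSH hx)) hxa hcyc u hu
  -- second claim
  have hS1 : ∀ b ∈ S₁, b = 1 := by
    intro b hb
    obtain ⟨a, hba⟩ : ∃ a : ℕ, b ^ (p ^ a) = 1 := by
      obtain ⟨a, ha⟩ := hSp ⟨b, hb⟩
      exact ⟨a, congrArg Subtype.val ha⟩
    apply kf H hOp b (hSH hb) hba
    intro q hq hqp u hu
    by_cases hP1 : pc q H = ⊥
    · rw [hP1, Subgroup.mem_bot] at hu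
      simp [hu]
    obtain ⟨hqo, hqs⟩ := hfacts q hq hP1
    haveI : Fact q.Prime := ⟨hq⟩
    exact claim2 π hπ hp hpo hq hqo hs hso hqp.symm hps hqs (hcast q hq hqp) (hcast s hs hps.symm) S₁ hSp y hys hyS hfp hF
      (pc q H) (isPGroup_pc q H) (hyQ q) (fun b _ a ha => (pc_normal q H).conj_mem a ha b) b hb u hu
  have hcard := Sylow.card_eq_multiplicity hS₁.toSylow
  have hbot : ((hS₁.toSylow : Subgroup ↥H) : Subgroup ↥H) = ⊥ := by
    rw [hS₁.coe_toSylow, eq_bot_iff]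
    intro z hz
    rw [Subgroup.mem_bot]
    apply Subtype.ext
    exact hS1 _ (Subgroup.mem_subgroupOf.mp hz)
  have h1 : Nat.card ((hS₁.toSylow : Subgroup ↥H) : Subgroup ↥H) = 1 := by
    rw [hbot]
    exact Subgroup.card_bot
  have h2 : 0 < (Nat.card ↥H).factorization p := hp.factorization_pos_of_dvd Nat.card_pos.ne' hpH
  rw [h1] at hcard
  have h3 : p ∣ 1 := by
    rw [hcard]
    exact dvd_pow_self p h2.ne'
  exact hp.one_lt.ne' (Nat.dvd_one.mp h3)

end Main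

end Cfsg.Agent.Lib.BGMainC
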