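import Mathlib
import Cfsg.Agent.Lib.BGMainC
import Cfsg.Agent.Lib.PLengthSeries

/-!
# Prime action: reduction to the faithful case
-/

set_option autoImplicit false
set_option linter.unusedSectionVars false
set_option linter.unusedVariables false
set_option linter.style.haveILetI false
set_option linter.unusedSimpArgs false
set_option linter.unusedDecidableInType false
set_option linter.unusedFintypeInType false

namespace Cfsg.Agent.Lib.BGRed

open Module TensorProduct Cfsg Cfsg.Agent.Lib.BGNorm Cfsg.Agent.Lib.BGFr Cfsg.Agent.Lib.BGFrob Cfsg.Agent.Lib.BGT5 Cfsg.Agent.Lib.BGCl2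
  Cfsg.Agent.Lib.BGCl1 Cfsg.Agent.Lib.BGFix Cfsg.Agent.Lib.PCore Cfsg.Agent.Lib.CoprimeInv Cfsg.Agent.Lib.BGSec
  Cfsg.Agent.Lib.BGMainC Cfsg.Agent.Lib.PLengthSeries
open scoped commutatorElement

universe u

/-- Centralizers in images under coprime action. -/
theorem zgroup_image {G G' : Type*} [Group G] [Group G'] [Finite G] (φ : G →* G') (K₁ : Subgroup G) [K₁.Normal] (y₁ : G)
    (hcop : Nat.Coprime (orderOf y₁) (Nat.card K₁))
    (hZ : IsZGroup ↥(K₁ ⊓ Subgroup.centralizer ({y₁} : Set G))) :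
    IsZGroup ↥(K₁.map φ ⊓ Subgroup.centralizer ({φ y₁} : Set G')) := by
  classical
  let N : Subgroup G := K₁ ⊓ φ.ker
  have hNn : N.Normal := inferInstance
  let g : ↥(K₁ ⊓ Subgroup.centralizer ({y₁} : Set G)) →* ↥(K₁.map φ ⊓ Subgroup.centralizer ({φ y₁} : Set G')) :=
    { toFun := fun c => ⟨φ c, Subgroup.mem_inf.mpr ⟨⟨c, c.2.1, rfl⟩, by
        rw [Subgroup.mem_centralizer_iff]
        intro h hh
        rw [Set.mem_singleton_iff] at hh
        rw [hh, ← map_mul, ← map_mul]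
        congr 1
        exact Subgroup.mem_centralizer_iff.mp c.2.2 y₁ rfl⟩⟩
      map_one' := by
        apply Subtype.ext
        simp
      map_mul' := by
        intro a b
        apply Subtype.ext
        simp }
  have hg : Function.Surjective g := by
    rintro ⟨b, ⟨k, hk, rfl⟩, hb⟩
    have hb' : φ y₁ * φ k = φ k * φ y₁ := Subgroup.mem_centralizer_iff.mp hb _ rfl
    obtain ⟨c, hc, hkc⟩ := Cfsg.Agent.Lib.Glauberman.exists_mem_centralizer_of_coset_fixed
      (A := Subgroup.zpowers y₁) (K := K₁) (N := N) (by rwa [Nat.card_zpowers]) (Or.inl inferInstance) inf_le_left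
      (by
        rw [Subgroup.le_normalizer_iff]
        intro h _ n hn
        exact hNn.conj_mem n hn h)
      (by
        rw [Subgroup.le_normalizer_iff]
        intro h _ n hn
        exact hNn.conj_mem n hn h)
      k hk
      (by
        intro z hz
        refine Subgroup.mem_inf.mpr ⟨K₁.mul_mem (‹K₁.Normal›.conj_mem k hk z) (K₁.inv_mem hk), ?_⟩
        rw [MonoidHom.mem_ker]
        obtain ⟨n, rfl⟩ := hz
        have h1 : Commute (φ y₁ ^ n) (φ k) := (show Commute (φ y₁) (φ k) from hb').zpow_left n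
        simp only [map_mul, map_inv, map_zpow]
        rw [h1.eq]
        group)
    have hcy : c ∈ K₁ ⊓ Subgroup.centralizer ({y₁} : Set G) := by
      refine Subgroup.mem_inf.mpr ⟨hc.1, ?_⟩
      rw [Subgroup.mem_centralizer_iff]
      intro h hh
      rw [Set.mem_singleton_iff] at hh
      rw [hh]
      exact Subgroup.mem_centralizer_iff.mp hc.2 y₁ (Subgroup.mem_zpowers y₁)
    refine ⟨⟨c, hcy⟩, ?_⟩
    apply Subtype.ext
    show φ c = φ k
    have h2 : φ (k⁻¹ * c) = 1 := hkc.2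
    rw [map_mul, map_inv, inv_mul_eq_one] at h2
    exact h2.symm
  exact IsZGroup.of_surjective hg

/-- Prime action in the reduced situation. -/
theorem reduced {G₁ : Type u} [Group G₁] [Finite G₁] [Group.IsSolvable G₁] (hodd : Odd (Nat.card G₁)) (K₁ : Subgroup G₁) [K₁.Normal]
    (hKc : K₁ ≤ commutator G₁) (y₁ : G₁) {s : ℕ} (hs : s.Prime) (hso : Odd s) (hys : y₁ ^ s = 1)
    (hsK : Nat.Coprime s (Nat.card K₁)) (hZ : IsZGroup ↥(K₁ ⊓ Subgroup.centralizer ({y₁} : Set G₁))) (p : ℕ) [Fact p.Prime]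
    (hO : pPrimeCore p ↥K₁ = ⊥) : PLengthLE p 1 ↥K₁ := by
  classical
  have hp : p.Prime := Fact.out
  have hP : IsPGroup p (pc p K₁) := isPGroup_pc p K₁
  obtain ⟨M, i1, i2, i3, f, ρ₀, hfs, hfa, hfk, hfe⟩ := exists_frat p (pc p K₁) hP
  let 𝕜 := AlgebraicClosure (ZMod p)
  let V := 𝕜 ⊗[ZMod p] M
  let F : G₁ →* (Module.End 𝕜 V)ˣ := (bcU 𝕜).comp ρ₀
  let φ : G₁ →* ↥F.range := F.rangeRestrict
  have hφs : Function.Surjective φ := F.rangeRestrict_surjective
  have hφ1 : ∀ g, φ g = 1 ↔ ρ₀ g = 1 := by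
    intro g
    constructor
    · intro h
      apply bcU_injective (𝕜 := 𝕜)
      rw [map_one]
      exact congrArg Subtype.val h
    · intro h
      apply Subtype.ext
      show bcU 𝕜 (ρ₀ g) = 1
      rw [h, map_one]
  haveI : Finite ↥F.range := Finite.of_surjective φ hφs
  haveI : Group.IsSolvable ↥F.range := Group.isSolvable_of_surjective hφs
  have hPn := pc_normal p K₁
  have hf1 : f 1 = 0 := by
    have := hfa 1 1
    rw [mul_one] at this
    exact left_eq_add.mp this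
  have hfinv : ∀ a, f a⁻¹ = - f a := by
    intro a
    have := hfa a a⁻¹
    rw [mul_inv_cancel, hf1] at this
    exact (neg_eq_of_add_eq_zero_right this.symm).symm
  have hPker : ∀ a ∈ pc p K₁, ρ₀ a = 1 := by
    intro a ha
    apply Units.ext
    apply LinearMap.ext
    intro v
    obtain ⟨b, rfl⟩ := hfs v
    rw [hfe a b (hPn.conj_mem b b.2 a)]
    show f _ = f b
    have h6 : f (⟨a * b * a⁻¹, hPn.conj_mem b b.2 a⟩ * b⁻¹) = 0 := by
      apply (hfk _).mpr
      have h := Cfsg.Agent.Lib.Frat.commutator_le_frattini hP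
        (Subgroup.commutator_mem_commutator (Subgroup.mem_top (⟨a, ha⟩ : ↥(pc p K₁))) (Subgroup.mem_top b))
      have h2 := mem_frat.mpr h
      simpa [commutatorElement_def] using h2
    rw [hfa, hfinv] at h6
    exact add_neg_eq_zero.mp h6
  have hDgrp : IsPGroup p ↥(K₁ ⊓ ρ₀.ker) := by
    refine IsPGroup.iff_card.2 ⟨_, Nat.eq_prime_pow_of_unique_prime_dvd Nat.card_pos.ne' ?_⟩
    intro r hr hrd
    by_contra hrp
    haveI : Fact r.Prime := ⟨hr⟩
    obtain ⟨y, hy⟩ := exists_prime_orderOf_dvd_card' r hrd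
    have hyo : orderOf (y : G₁) = r := by
      rw [← hy]
      exact Subgroup.orderOf_coe y
    have hyK : (y : G₁) ∈ K₁ := y.2.1
    have hyρ : ρ₀ (y : G₁) = 1 := y.2.2
    have hzc : Subgroup.zpowers (y : G₁) ≤ Subgroup.centralizer (pc p K₁ : Set G₁) := by
      apply Cfsg.Agent.Lib.Glauberman.le_centralizer_of_frattini
      · intro t _
        rw [Subgroup.normalizer_eq_top_iff.mpr hPn]
        trivial
      · obtain ⟨n, hn⟩ := IsPGroup.iff_card.mp hP
        rw [Nat.card_zpowers, hyo]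
        apply Nat.Coprime.coprime_dvd_right (Subgroup.card_subgroup_dvd_card _)
        rw [hn]
        exact Nat.Coprime.pow_right _ ((Nat.coprime_primes hr hp).mpr hrp)
      · intro z hz k hk
        have hρz : ρ₀ z = 1 := by
          have : Subgroup.zpowers (y : G₁) ≤ ρ₀.ker := by
            rw [Subgroup.zpowers_le]
            exact hyρ
          exact this hz
        have h5 := hfe z ⟨k, hk⟩ (hPn.conj_mem k hk z)
        rw [hρz] at h5
        have h6 : f (⟨z * k * z⁻¹, hPn.conj_mem k hk z⟩ * (⟨k, hk⟩ : ↥(pc p K₁))⁻¹) = 0 := by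
          rw [hfa, hfinv, ← h5]
          simp
        exact (hfk _).mp h6
    have hyc : (⟨(y : G₁), hyK⟩ : ↥K₁) ∈ Subgroup.centralizer (pCore p ↥K₁ : Set ↥K₁) := by
      rw [Subgroup.mem_centralizer_iff]
      intro q hq
      apply Subtype.ext
      exact Subgroup.mem_centralizer_iff.mp (hzc (Subgroup.mem_zpowers (y : G₁))) q ⟨q, hq, rfl⟩
    have hyP := centralizer_pCore_le p hO hyc
    obtain ⟨k, hk⟩ := (IsPGroup.iff_orderOf).1 (isPGroup_pCore p (G := ↥K₁)) ⟨_, hyP⟩
    have h3 : orderOf (y : G₁) = p ^ k := by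
      rw [← hk, Subgroup.orderOf_mk, Subgroup.orderOf_mk]
    rw [hyo] at h3
    exact hrp ((Nat.prime_dvd_prime_iff_eq hr hp).1 (hr.dvd_of_dvd_pow (dvd_of_eq h3)))
  have hsub : ∀ L : Subgroup G₁, L ≤ K₁ → (∀ k ∈ K₁, ∀ l ∈ L, k * l * k⁻¹ ∈ L) → IsPGroup p ↥L → L ≤ pc p K₁ := by
    intro L hL hLn hLp
    have h1 : (L.subgroupOf K₁).Normal := by
      refine ⟨fun n hn g => ?_⟩
      rw [Subgroup.mem_subgroupOf] at hn ⊢
      exact hLn g g.2 n hn
    have h2 : IsPGroup p ↥(L.subgroupOf K₁) :=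
      hLp.of_injective (Subgroup.subgroupOfEquivOfLe hL).toMonoidHom (Subgroup.subgroupOfEquivOfLe hL).injective
    have h3 := le_pCore h1 h2
    intro x hx
    exact ⟨⟨x, hL hx⟩, h3 (Subgroup.mem_subgroupOf.mpr hx), rfl⟩
  have hDn : (K₁ ⊓ ρ₀.ker).Normal := inferInstance
  have hDp : ∀ k ∈ K₁, ρ₀ k = 1 → k ∈ pc p K₁ := by
    intro k hk hρ
    exact hsub (K₁ ⊓ ρ₀.ker) inf_le_left (fun g _ l hl => hDn.conj_mem l hl g) hDgrp (Subgroup.mem_inf.mpr ⟨hk, hρ⟩)
  have hKb : (K₁.map φ).Normal := Subgroup.Normal.map ‹_› φ hφs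
  have hOp : ∀ N : Subgroup ↥F.range, N ≤ K₁.map φ → (∀ h ∈ K₁.map φ, ∀ n ∈ N, h * n * h⁻¹ ∈ N) → IsPGroup p N → N = ⊥ := by
    intro N hN hNn hNp
    rw [eq_bot_iff]
    intro n hn
    obtain ⟨k, hk, rfl⟩ := hN hn
    have hLp : IsPGroup p ↥(K₁ ⊓ N.comap φ) := by
      rintro ⟨l, hl⟩
      obtain ⟨a, ha⟩ := hNp ⟨φ l, hl.2⟩
      have h1 : φ (l ^ (p ^ a)) = 1 := by
        rw [map_pow]
        exact congrArg Subtype.val ha
      have h2 := hDp _ (K₁.pow_mem hl.1 _) ((hφ1 _).mp h1)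
      obtain ⟨b, hb⟩ := hP ⟨_, h2⟩
      have h3 : (l ^ (p ^ a)) ^ (p ^ b) = 1 := congrArg Subtype.val hb
      refine ⟨a + b, ?_⟩
      apply Subtype.ext
      show l ^ (p ^ (a + b)) = 1
      rw [pow_add, pow_mul]
      exact h3
    have hLle := hsub (K₁ ⊓ N.comap φ) inf_le_left (by
      intro g hg l hl
      refine Subgroup.mem_inf.mpr ⟨K₁.mul_mem (K₁.mul_mem hg hl.1) (K₁.inv_mem hg), ?_⟩
      show φ (g * l * g⁻¹) ∈ N
      simp only [map_mul, map_inv]
      exact hNn _ ⟨g, hg, rfl⟩ _ hl.2) hLp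
    have h4 := hPker k (hLle (Subgroup.mem_inf.mpr ⟨hk, hn⟩))
    exact (hφ1 k).mpr h4
  have hF : finrank 𝕜 (LinearMap.ker (((F y₁ : (Module.End 𝕜 V)ˣ) : Module.End 𝕜 V) - 1)) ≤ 1 := by
    have h1 := finrank_bcU_le (𝕜 := 𝕜) (ρ₀ y₁)
    refine h1.trans ?_
    have hC₀le : pc p K₁ ⊓ Subgroup.centralizer ({y₁} : Set G₁) ≤ K₁ ⊓ Subgroup.centralizer ({y₁} : Set G₁) :=
      inf_le_inf_right _ (pc_le p K₁)
    haveI hC₀Z : IsZGroup ↥(pc p K₁ ⊓ Subgroup.centralizer ({y₁} : Set G₁)) :=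
      IsZGroup.of_injective (f := Subgroup.inclusion hC₀le) (Subgroup.inclusion_injective hC₀le)
    have hC₀c : IsCyclic ↥(pc p K₁ ⊓ Subgroup.centralizer ({y₁} : Set G₁)) :=
      isCyclic_of_pGroup_of_zGroup (hP.to_le inf_le_left)
    obtain ⟨c₀, hc₀⟩ := hC₀c.exists_generator
    have hfpow : ∀ (a : ↥(pc p K₁)) (n : ℕ), f (a ^ n) = n • f a := by
      intro a n
      induction n with
      | zero => simp [hf1]
      | succ n ih => rw [pow_succ, hfa, ih, succ_nsmul]
    let u : M := f ⟨c₀, c₀.2.1⟩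
    have hc₀y : y₁ * (c₀ : G₁) * y₁⁻¹ = c₀ := by
      have : y₁ * (c₀ : G₁) = c₀ * y₁ := Subgroup.mem_centralizer_iff.mp c₀.2.2 y₁ rfl
      rw [this]
      group
    have hu : u ∈ LinearMap.ker (((ρ₀ y₁ : (Module.End (ZMod p) M)ˣ) : Module.End (ZMod p) M) - 1) := by
      rw [LinearMap.mem_ker, LinearMap.sub_apply, Module.End.one_apply, sub_eq_zero]
      rw [hfe y₁ ⟨c₀, c₀.2.1⟩ (hPn.conj_mem _ c₀.2.1 y₁)]
      congr 1
      exact Subtype.ext hc₀y
    apply finrank_le_one (⟨u, hu⟩ : LinearMap.ker (((ρ₀ y₁ : (Module.End (ZMod p) M)ˣ) : Module.End (ZMod p) M) - 1))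
    rintro ⟨v, hv⟩
    obtain ⟨a, rfl⟩ := hfs v
    rw [LinearMap.mem_ker, LinearMap.sub_apply, Module.End.one_apply, sub_eq_zero] at hv
    have hpowf : ∀ n : ℕ, ((ρ₀ (y₁ ^ n) : (Module.End (ZMod p) M)ˣ) : Module.End (ZMod p) M) (f a) = f a := by
      intro n
      induction n with
      | zero => simp
      | succ n ih =>
        rw [pow_succ, map_mul, Units.val_mul, Module.End.mul_apply, hv, ih]
    have hcopy : (Nat.card (Subgroup.zpowers y₁)).Coprime (Nat.card ↥(pc p K₁)) := by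
      rw [Nat.card_zpowers]
      exact Nat.Coprime.coprime_dvd_left (orderOf_dvd_of_pow_eq_one hys)
        (Nat.Coprime.coprime_dvd_right (Subgroup.card_dvd_of_le (pc_le p K₁)) hsK)
    obtain ⟨c, hc, hac⟩ := Cfsg.Agent.Lib.Glauberman.exists_mem_centralizer_of_coset_fixed
      (A := Subgroup.zpowers y₁) (K := pc p K₁) (N := frat (pc p K₁)) hcopy (Or.inl inferInstance) (frat_le _)
      (Subgroup.le_normalizer.trans (normalizer_le_normalizer_frat _))
      (by
        intro g _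
        apply normalizer_le_normalizer_frat
        rw [Subgroup.normalizer_eq_top_iff.mpr hPn]
        trivial) (a : G₁) a.2
      (by
        intro z hz
        obtain ⟨n, rfl⟩ := Submonoid.mem_powers_iff _ _ |>.mp
          ((isOfFinOrder_of_finite y₁).mem_powers_iff_mem_zpowers.mpr hz)
        have h5 := hfe (y₁ ^ n) a (hPn.conj_mem a a.2 _)
        rw [hpowf n] at h5
        have h6 : f (⟨y₁ ^ n * a * (y₁ ^ n)⁻¹, hPn.conj_mem a a.2 _⟩ * a⁻¹) = 0 := by
          rw [hfa, hfinv, ← h5, add_neg_cancel]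
        exact (hfk _).mp h6)
    have hcC : c ∈ pc p K₁ ⊓ Subgroup.centralizer ({y₁} : Set G₁) := by
      refine Subgroup.mem_inf.mpr ⟨hc.1, ?_⟩
      rw [Subgroup.mem_centralizer_iff]
      intro h hh
      rw [Set.mem_singleton_iff] at hh
      rw [hh]
      exact Subgroup.mem_centralizer_iff.mp hc.2 y₁ (Subgroup.mem_zpowers y₁)
    obtain ⟨n, hn⟩ := Submonoid.mem_powers_iff _ _ |>.mp
      ((isOfFinOrder_of_finite c₀).mem_powers_iff_mem_zpowers.mpr (hc₀ ⟨c, hcC⟩))
    refine ⟨(n : ZMod p), ?_⟩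
    apply Subtype.ext
    show (n : ZMod p) • u = f a
    rw [Nat.cast_smul_eq_nsmul, ← hfpow]
    have h7 : (⟨c₀, c₀.2.1⟩ : ↥(pc p K₁)) ^ n = ⟨c, hc.1⟩ := by
      apply Subtype.ext
      have := congrArg Subtype.val hn
      simpa using this
    rw [h7]
    have h8 : f (a⁻¹ * ⟨c, hc.1⟩) = 0 := (hfk _).mpr (by simpa using hac)
    rw [hfa, hfinv] at h8
    exact (neg_add_eq_zero.mp h8).symm
  have hres := mainC (K := 𝕜) (V := V) (Γ := ↥F.range)
    (Odd.of_dvd_nat hodd (Subgroup.card_range_dvd F)) F.range.subtype F.range.subtype_injective (p := p) hs hso (K₁.map φ)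
    (by
      have h1 : (commutator G₁).map φ ≤ commutator ↥F.range := by
        rw [commutator_def, commutator_def, Subgroup.map_commutator]
        exact Subgroup.commutator_mono le_top le_top
      exact (Subgroup.map_mono hKc).trans h1)
    (φ y₁) (by rw [← map_pow, hys, map_one])
    (Nat.Coprime.coprime_dvd_right (K₁.card_map_dvd φ) hsK)
    (zgroup_image φ K₁ y₁ (Nat.Coprime.coprime_dvd_left (orderOf_dvd_of_pow_eq_one hys) hsK) hZ)
    hF hOp
  have hker : IsPGroup p ↥(φ.subgroupMap K₁).ker := by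
    rintro ⟨x, hx⟩
    have h1 : φ (x : G₁) = 1 := congrArg Subtype.val (MonoidHom.mem_ker.mp hx)
    obtain ⟨b, hb⟩ := hP ⟨_, hDp x x.2 ((hφ1 _).mp h1)⟩
    refine ⟨b, ?_⟩
    have h9 : (x : G₁) ^ (p ^ b) = 1 := congrArg Subtype.val hb
    apply Subtype.ext
    apply Subtype.ext
    exact h9
  exact pLengthLE_of_ker 1 0 p ↥K₁ ↥(K₁.map φ) (φ.subgroupMap K₁) (φ.subgroupMap_surjective K₁)
    (pLengthLE_one_of_isPGroup p hker)
    (pLengthLE_zero_of_coprime p ((Nat.Prime.coprime_iff_not_dvd hp).mpr hres).symm)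

theorem pPrimeCore_image {X Y : Type*} [Group X] [Group Y] [Finite X] (p : ℕ) [Fact p.Prime] (f : X →* Y)
    (hf : Function.Surjective f) (hker : f.ker = pPrimeCore p X) : pPrimeCore p Y = ⊥ := by
  classical
  have hp : p.Prime := Fact.out
  haveI : Finite Y := Finite.of_surjective f hf
  let T : Subgroup Y := pPrimeCore p Y
  have hTc : (Nat.card T).Coprime p := card_pPrimeCore_coprime p
  have hT'n : (T.comap f).Normal := inferInstance
  have hT'c : (Nat.card ↥(T.comap f)).Coprime p := by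
    rw [Nat.coprime_comm, Nat.Prime.coprime_iff_not_dvd hp]
    intro hdvd
    obtain ⟨x, hx⟩ := exists_prime_orderOf_dvd_card' p hdvd
    have hxo : orderOf (x : X) = p := by
      rw [← hx]
      exact Subgroup.orderOf_coe x
    have hxp : (x : X) ^ p = 1 := by
      rw [← hxo]
      exact pow_orderOf_eq_one _
    have h1 : orderOf (⟨f x, x.2⟩ : ↥T) ∣ Nat.card T := orderOf_dvd_natCard _
    have h2 : orderOf (⟨f x, x.2⟩ : ↥T) ∣ p := by
      apply orderOf_dvd_of_pow_eq_one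
      apply Subtype.ext
      show (f x) ^ p = 1
      rw [← map_pow, hxp, map_one]
    have h3 := Nat.eq_one_of_dvd_coprimes hTc h1 h2
    have h4 : f x = 1 := congrArg Subtype.val (orderOf_eq_one_iff.mp h3)
    have h5 : (x : X) ∈ pPrimeCore p X := by
      rw [← hker]
      exact h4
    have h6 : orderOf (⟨x, h5⟩ : ↥(pPrimeCore p X)) ∣ Nat.card ↥(pPrimeCore p X) := orderOf_dvd_natCard _
    have h7 : orderOf (⟨x, h5⟩ : ↥(pPrimeCore p X)) = p := by
      rw [Subgroup.orderOf_mk, hxo]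
    rw [h7] at h6
    have h8 := Nat.eq_one_of_dvd_coprimes (card_pPrimeCore_coprime p (G := X)) h6 (dvd_refl p)
    exact hp.one_lt.ne' h8
  have h1 := le_pPrimeCore hT'n hT'c
  rw [eq_bot_iff]
  intro t ht
  obtain ⟨k, rfl⟩ := hf t
  have h2 : k ∈ pPrimeCore p X := h1 ht
  rw [← hker] at h2
  exact h2

/-- **The prime action theorem** (Bender-Glauberman). -/
theorem main {G : Type u} [Group G] [Finite G] [Group.IsSolvable G] (hodd : Odd (Nat.card G)) (H R R₀ : Subgroup G) [H.Normal]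
    (hHall : (Nat.card H).Coprime H.index) (hR : Subgroup.IsComplement' H R) (hR₀ : R₀ ≤ R) (hR₀p : (Nat.card R₀).Prime)
    (hZ : IsZGroup ↥(H ⊓ Subgroup.centralizer (R₀ : Set G))) (p : ℕ) [Fact p.Prime] : PLengthLE p 1 ↥⁅H, R⁆ := by
  classical
  have hp : p.Prime := Fact.out
  have hcop : (Nat.card H).Coprime (Nat.card R) := by
    rw [← hR.symm.index_eq_card]
    exact hHall
  haveI : Fact (Nat.card R₀).Prime := ⟨hR₀p⟩
  haveI : IsCyclic ↥R₀ := isCyclic_of_prime_card rfl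
  obtain ⟨g, hg⟩ := IsCyclic.exists_generator (α := ↥R₀)
  let y₀ : G := g
  let s := Nat.card R₀
  have hys : y₀ ^ s = 1 := by
    have := pow_card_eq_one' (x := g)
    exact congrArg Subtype.val this
  have hsR : s ∣ Nat.card R := Subgroup.card_dvd_of_le hR₀
  have hso : Odd s := Odd.of_dvd_nat hodd (Subgroup.card_subgroup_dvd_card R₀)
  have hHR : H ⊔ R = ⊤ := hR.sup_eq_top
  have hKH : ⁅H, R⁆ ≤ H := Subgroup.commutator_le_left _ _
  have hKn : (⁅H, R⁆ : Subgroup G).Normal := by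
    have hRN : R ≤ Subgroup.normalizer ((⁅H, R⁆ : Subgroup G) : Set G) :=
      Cfsg.Agent.Lib.Glauberman.le_normalizer_commutator (by
        rw [Subgroup.le_normalizer_iff]
        intro r _ h hh
        exact ‹H.Normal›.conj_mem h hh r)
    have hHN : H ≤ Subgroup.normalizer ((⁅H, R⁆ : Subgroup G) : Set G) := by
      rw [Subgroup.le_normalizer_iff]
      intro h hh k hk
      have h1 : ⁅H, R⁆ ≤ (⁅H, R⁆ : Subgroup G).comap (MulAut.conj h).toMonoidHom := by
        rw [Subgroup.commutator_le]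
        intro a ha r hr
        rw [Subgroup.mem_comap]
        have e : (MulAut.conj h).toMonoidHom ⁅a, r⁆ = ⁅h * a, r⁆ * ⁅h, r⁆⁻¹ := by
          simp only [commutatorElement_def, MulEquiv.toMonoidHom_eq_coe, MonoidHom.coe_coe, MulAut.conj_apply]
          group
        rw [e]
        exact Subgroup.mul_mem _ (Subgroup.commutator_mem_commutator (H.mul_mem hh ha) hr)
          (Subgroup.inv_mem _ (Subgroup.commutator_mem_commutator hh hr))
      exact h1 hk
    have htop : Subgroup.normalizer ((⁅H, R⁆ : Subgroup G) : Set G) = ⊤ := by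
      rw [eq_top_iff, ← hHR]
      exact sup_le hHN hRN
    exact Subgroup.normalizer_eq_top_iff.mp htop
  haveI := hKn
  have hsK : Nat.Coprime s (Nat.card ↥⁅H, R⁆) :=
    Nat.Coprime.coprime_dvd_right (Subgroup.card_dvd_of_le hKH) (Nat.Coprime.coprime_dvd_left hsR hcop.symm)
  have hZ₀ : IsZGroup ↥(⁅H, R⁆ ⊓ Subgroup.centralizer ({y₀} : Set G)) := by
    have hle : ⁅H, R⁆ ⊓ Subgroup.centralizer ({y₀} : Set G) ≤ H ⊓ Subgroup.centralizer (R₀ : Set G) := by
      intro c hc
      refine Subgroup.mem_inf.mpr ⟨hKH hc.1, ?_⟩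
      rw [Subgroup.mem_centralizer_iff]
      intro r hr
      have h1 : y₀ * c = c * y₀ := Subgroup.mem_centralizer_iff.mp hc.2 y₀ rfl
      obtain ⟨n, hn⟩ := hg ⟨r, hr⟩
      have h2 : (g : G) ^ n = r := congrArg Subtype.val hn
      rw [← h2]
      exact ((show Commute y₀ c from h1).zpow_left n).eq
    exact IsZGroup.of_injective (f := Subgroup.inclusion hle) (Subgroup.inclusion_injective hle)
  let N : Subgroup G := (pPrimeCore p ↥⁅H, R⁆).map (⁅H, R⁆ : Subgroup G).subtype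
  haveI hNn : N.Normal := inferInstance
  let π₁ := QuotientGroup.mk' N
  have hπ₁ : Function.Surjective π₁ := QuotientGroup.mk'_surjective N
  let K₁ : Subgroup (G ⧸ N) := (⁅H, R⁆ : Subgroup G).map π₁
  haveI hK₁ : K₁.Normal := Subgroup.Normal.map hKn π₁ hπ₁
  let f₁ : ↥⁅H, R⁆ →* ↥K₁ := π₁.subgroupMap ⁅H, R⁆
  have hf₁ : Function.Surjective f₁ := π₁.subgroupMap_surjective _
  have hker : f₁.ker = pPrimeCore p ↥⁅H, R⁆ := by
    ext k
    rw [MonoidHom.mem_ker]
    constructor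
    · intro h
      have h1 : π₁ (k : G) = 1 := congrArg Subtype.val h
      have h2 : (k : G) ∈ N := (QuotientGroup.eq_one_iff _).mp h1
      obtain ⟨k', hk', e⟩ := h2
      have : k' = k := Subtype.ext e
      rwa [← this]
    · intro h
      apply Subtype.ext
      exact (QuotientGroup.eq_one_iff _).mpr ⟨k, h, rfl⟩
  have hO := pPrimeCore_image p f₁ hf₁ hker
  have hKc : K₁ ≤ commutator (G ⧸ N) := by
    have h1 : (⁅H, R⁆ : Subgroup G) ≤ commutator G := by
      rw [commutator_def]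
      exact Subgroup.commutator_mono le_top le_top
    have h2 : (commutator G).map π₁ ≤ commutator (G ⧸ N) := by
      rw [commutator_def, commutator_def, Subgroup.map_commutator]
      exact Subgroup.commutator_mono le_top le_top
    exact (Subgroup.map_mono h1).trans h2
  have h1 := reduced (Odd.of_dvd_nat hodd (Subgroup.card_quotient_dvd_card N)) K₁ hKc (π₁ y₀) hR₀p hso
    (by rw [← map_pow, hys, map_one])
    (Nat.Coprime.coprime_dvd_right ((⁅H, R⁆ : Subgroup G).card_map_dvd π₁) hsK)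
    (zgroup_image π₁ ⁅H, R⁆ y₀ (Nat.Coprime.coprime_dvd_left (orderOf_dvd_of_pow_eq_one hys) hsK) hZ₀) p hO
  refine pLengthLE_of_ker_coprime p f₁ hf₁ ?_ h1
  rw [hker]
  exact card_pPrimeCore_coprime p

end Cfsg.Agent.Lib.BGRed
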