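import Mathlib
import Cfsg.Agent.Lib.BGRed
import Cfsg.Agent.Lib.BGSigma4

/-!
# `p`-length one for proper subgroups
-/

set_option autoImplicit false
set_option linter.unusedSectionVars false
set_option linter.unusedVariables false
set_option linter.style.haveILetI false
set_option linter.unusedSimpArgs false
set_option linter.unusedDecidableInType false
set_option linter.unusedFintypeInType false

namespace Cfsg.Agent.Lib.BGLen

open Cfsg Cfsg.Agent.Lib.PCore Cfsg.Agent.Lib.CoprimeInv Cfsg.Agent.Lib.PLengthSeries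
open scoped commutatorElement

universe u

section Abs

variable {X : Type u} [Group X]

theorem comm_normal_of_sup (N R : Subgroup X) [N.Normal] (hNR : N ⊔ R = ⊤) : (⁅N, R⁆ : Subgroup X).Normal := by
  have hRN : R ≤ Subgroup.normalizer ((⁅N, R⁆ : Subgroup X) : Set X) :=
    Cfsg.Agent.Lib.Glauberman.le_normalizer_commutator (by
      rw [Subgroup.le_normalizer_iff]
      intro r _ h hh
      exact ‹N.Normal›.conj_mem h hh r)
  have hHN : N ≤ Subgroup.normalizer ((⁅N, R⁆ : Subgroup X) : Set X) := by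
    rw [Subgroup.le_normalizer_iff]
    intro h hh k hk
    have h1 : ⁅N, R⁆ ≤ (⁅N, R⁆ : Subgroup X).comap (MulAut.conj h).toMonoidHom := by
      rw [Subgroup.commutator_le]
      intro a ha r hr
      rw [Subgroup.mem_comap]
      have e : (MulAut.conj h).toMonoidHom ⁅a, r⁆ = ⁅h * a, r⁆ * ⁅h, r⁆⁻¹ := by
        simp only [commutatorElement_def, MulEquiv.toMonoidHom_eq_coe, MonoidHom.coe_coe, MulAut.conj_apply]
        group
      rw [e]
      exact Subgroup.mul_mem _ (Subgroup.commutator_mem_commutator (N.mul_mem hh ha) hr)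
        (Subgroup.inv_mem _ (Subgroup.commutator_mem_commutator hh hr))
    exact h1 hk
  have htop : Subgroup.normalizer ((⁅N, R⁆ : Subgroup X) : Set X) = ⊤ := by
    rw [eq_top_iff, ← hNR]
    exact sup_le hHN hRN
  exact Subgroup.normalizer_eq_top_iff.mp htop

theorem central_comm {Y : Type*} [Group Y] (a b x y : Y) (ha : ∀ g, a * g = g * a) (hb : ∀ g, b * g = g * b) :
    (a * x) * (b * y) * (a * x)⁻¹ * (b * y)⁻¹ = x * y * x⁻¹ * y⁻¹ := by
  have h1 : (a * x) * (b * y) = (a * b) * (x * y) := by
    calc (a * x) * (b * y) = a * (x * b) * y := by group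
      _ = a * (b * x) * y := by rw [hb x]
      _ = (a * b) * (x * y) := by group
  have h2 : (b * y) * (a * x) = (a * b) * (y * x) := by
    calc (b * y) * (a * x) = b * (y * a) * x := by group
      _ = b * (a * y) * x := by rw [ha y]
      _ = (b * a) * (y * x) := by group
      _ = (a * b) * (y * x) := by rw [ha b]
  have hc : ∀ g, (a * b) * g = g * (a * b) := by
    intro g
    calc (a * b) * g = a * (b * g) := by group
      _ = a * (g * b) := by rw [hb g]
      _ = (a * g) * b := by group
      _ = (g * a) * b := by rw [ha g]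
      _ = g * (a * b) := by group
  calc (a * x) * (b * y) * (a * x)⁻¹ * (b * y)⁻¹ = ((a * x) * (b * y)) * ((b * y) * (a * x))⁻¹ := by group
    _ = ((a * b) * (x * y)) * ((a * b) * (y * x))⁻¹ := by rw [h1, h2]
    _ = (a * b) * ((x * y) * (y * x)⁻¹) * (a * b)⁻¹ := by group
    _ = ((x * y) * (y * x)⁻¹) * (a * b) * (a * b)⁻¹ := by rw [hc]
    _ = x * y * x⁻¹ * y⁻¹ := by group

/-- A normal Hall subgroup inside the derived group is generated by its commutators with a complement. -/
theorem comm_eq [Finite X] [Group.IsSolvable X] (N R : Subgroup X) [N.Normal] (hR : Subgroup.IsComplement' N R)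
    (hNc : N ≤ commutator X) : ⁅N, R⁆ = N := by
  classical
  have hNR : N ⊔ R = ⊤ := hR.sup_eq_top
  have hdisj : N ⊓ R = ⊥ := hR.disjoint.eq_bot
  haveI hCn : (⁅N, R⁆ : Subgroup X).Normal := comm_normal_of_sup N R hNR
  have hCN : ⁅N, R⁆ ≤ N := Subgroup.commutator_le_left _ _
  let L : Subgroup X := ⁅N, R⁆ ⊔ ⁅N, N⁆
  haveI hLn : L.Normal := inferInstance
  have hLN : L ≤ N := sup_le hCN (Subgroup.commutator_le_left _ _)
  let π := QuotientGroup.mk' L
  have hπ1 : ∀ {a : X}, a ∈ L → π a = 1 := fun h => (QuotientGroup.eq_one_iff _).mpr h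
  have hdec : ∀ g : X, ∃ n ∈ N, ∃ r ∈ R, g = n * r := by
    intro g
    have hg : g ∈ N ⊔ R := by
      rw [hNR]
      trivial
    obtain ⟨n, hn, r, hr, he⟩ := Subgroup.mem_sup_of_normal_left.mp hg
    exact ⟨n, hn, r, hr, he.symm⟩
  have hcent : ∀ n ∈ N, ∀ g : X, π n * π g = π g * π n := by
    intro n hn g
    obtain ⟨n', hn', r, hr, rfl⟩ := hdec g
    have h1 : π n * π n' = π n' * π n := by
      have h2 : ⁅n, n'⁆ ∈ L := Subgroup.mem_sup_right (Subgroup.commutator_mem_commutator hn hn')
      have h3 := hπ1 h2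
      rw [map_commutatorElement, commutatorElement_eq_one_iff_mul_comm] at h3
      exact h3
    have h2 : π n * π r = π r * π n := by
      have h2 : ⁅n, r⁆ ∈ L := Subgroup.mem_sup_left (Subgroup.commutator_mem_commutator hn hr)
      have h3 := hπ1 h2
      rw [map_commutatorElement, commutatorElement_eq_one_iff_mul_comm] at h3
      exact h3
    rw [map_mul, ← mul_assoc, h1, mul_assoc, h2, mul_assoc]
  have hX : commutator X ≤ L ⊔ R := by
    rw [commutator_def, Subgroup.commutator_le]
    intro g _ h _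
    obtain ⟨n₁, hn₁, r₁, hr₁, rfl⟩ := hdec g
    obtain ⟨n₂, hn₂, r₂, hr₂, rfl⟩ := hdec h
    have h1 : π ⁅n₁ * r₁, n₂ * r₂⁆ = π ⁅r₁, r₂⁆ := by
      simp only [commutatorElement_def, map_mul, map_inv]
      have hπs : Function.Surjective π := QuotientGroup.mk'_surjective L
      have h2 := central_comm (π n₁) (π n₂) (π r₁) (π r₂)
        (fun g => by
          obtain ⟨g', rfl⟩ := hπs g
          exact hcent n₁ hn₁ g')
        (fun g => by
          obtain ⟨g', rfl⟩ := hπs g
          exact hcent n₂ hn₂ g')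
      exact h2
    have h2 : ⁅n₁ * r₁, n₂ * r₂⁆ * ⁅r₁, r₂⁆⁻¹ ∈ L := by
      rw [← QuotientGroup.eq_one_iff]
      show π _ = 1
      rw [map_mul, map_inv, h1, mul_inv_cancel]
    have h3 : ⁅n₁ * r₁, n₂ * r₂⁆ = (⁅n₁ * r₁, n₂ * r₂⁆ * ⁅r₁, r₂⁆⁻¹) * ⁅r₁, r₂⁆ := by group
    rw [h3]
    refine Subgroup.mul_mem _ (Subgroup.mem_sup_left h2) (Subgroup.mem_sup_right ?_)
    rw [commutatorElement_def]
    exact R.mul_mem (R.mul_mem (R.mul_mem hr₁ hr₂) (R.inv_mem hr₁)) (R.inv_mem hr₂)
  have hNL : N ≤ L := by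
    intro n hn
    have h1 := hX (hNc hn)
    obtain ⟨l, hl, r, hr, he⟩ := Subgroup.mem_sup_of_normal_left.mp h1
    have h2 : r ∈ N ⊓ R := by
      refine Subgroup.mem_inf.mpr ⟨?_, hr⟩
      have : r = l⁻¹ * n := by rw [← he]; group
      rw [this]
      exact N.mul_mem (N.inv_mem (hLN hl)) hn
    rw [hdisj, Subgroup.mem_bot] at h2
    rw [h2, mul_one] at he
    rw [← he]
    exact hl
  let πC := QuotientGroup.mk' (⁅N, R⁆ : Subgroup X)
  let I : Subgroup (X ⧸ (⁅N, R⁆ : Subgroup X)) := N.map πC
  have hItop : I ≤ ⁅I, I⁆ := by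
    rintro _ ⟨n, hn, rfl⟩
    obtain ⟨c, hc, n', hn', he⟩ := Subgroup.mem_sup_of_normal_left.mp (hNL hn)
    have h1 : πC n = πC n' := by
      have h0 : πC c = 1 := (QuotientGroup.eq_one_iff c).mpr hc
      rw [← he, map_mul, h0, one_mul]
    rw [h1]
    have h2 : ⁅N.map πC, N.map πC⁆ = (⁅N, N⁆ : Subgroup X).map πC := (Subgroup.map_commutator _ _ _).symm
    show πC n' ∈ ⁅N.map πC, N.map πC⁆
    rw [h2]
    exact ⟨n', hn', rfl⟩
  have hI1 : I = ⊥ := by
    by_contra hne
    have hnt : Nontrivial ↥I := by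
      rw [Subgroup.nontrivial_iff_ne_bot]
      exact hne
    have h1 := Group.IsSolvable.commutator_lt_top_of_nontrivial (G := ↥I)
    apply h1.ne
    rw [eq_top_iff]
    rintro ⟨x, hx⟩ _
    have h2 := hItop hx
    rw [← Subgroup.map_subtype_commutator I] at h2
    obtain ⟨y, hy, hye⟩ := h2
    have : y = ⟨x, hx⟩ := Subtype.ext hye
    rwa [← this]
  apply le_antisymm hCN
  intro n hn
  have h1 : πC n ∈ I := ⟨n, hn, rfl⟩
  rw [hI1, Subgroup.mem_bot] at h1
  exact (QuotientGroup.eq_one_iff n).mp h1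

/-- A normal Hall subgroup inside the derived group, and a suitable element outside: `p`-length one. -/
theorem plength_core [Finite X] [Group.IsSolvable X] (hodd : Odd (Nat.card X)) (N : Subgroup X) [N.Normal]
    (hHall : (Nat.card N).Coprime N.index) (hNc : N ≤ commutator X) {s : ℕ} (hs : s.Prime) (hsN : ¬ s ∣ Nat.card N)
    (hsX : s ∣ Nat.card X)
    (hx : ∀ T : Sylow s X, ∃ x ∈ (T : Subgroup X), orderOf x = s ∧ IsZGroup ↥(N ⊓ Subgroup.centralizer ({x} : Set X)))
    (p : ℕ) [Fact p.Prime] (hpN : ¬ p ∣ N.index) : PLengthLE p 1 X := by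
  classical
  haveI : Fact s.Prime := ⟨hs⟩
  have hp : p.Prime := Fact.out
  obtain ⟨R, hR⟩ := Subgroup.exists_right_complement'_of_coprime hHall
  have hindex : N.index = Nat.card R := hR.symm.index_eq_card
  have hcard : Nat.card N * Nat.card R = Nat.card X := hR.card_mul_card
  -- a Sylow subgroup of `R` is a Sylow subgroup of `X`
  obtain ⟨T₀⟩ : Nonempty (Sylow s ↥R) := inferInstance
  let T : Subgroup X := (T₀ : Subgroup ↥R).map R.subtype
  have hTcard : Nat.card T = s ^ (Nat.card X).factorization s := by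
    have h1 : Nat.card T = Nat.card (T₀ : Subgroup ↥R) := Subgroup.card_map_of_injective R.subtype_injective
    rw [h1, Sylow.card_eq_multiplicity, ← hcard, Nat.factorization_mul Nat.card_pos.ne' Nat.card_pos.ne']
    have h2 : (Nat.card N).factorization s = 0 := Nat.factorization_eq_zero_of_not_dvd hsN
    simp [h2]
  obtain ⟨x, hxT, hxo, hxZ⟩ := hx (Sylow.ofCard T hTcard)
  have hxT' : x ∈ T := hxT
  have hxR : x ∈ R := by
    obtain ⟨y, _, rfl⟩ := hxT'
    exact y.2
  haveI hXs : Nontrivial X := by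
    rw [← Finite.one_lt_card_iff_nontrivial]
    exact lt_of_lt_of_le hs.one_lt (Nat.le_of_dvd Nat.card_pos hsX)
  have hcardx : Nat.card (Subgroup.zpowers x) = s := by rw [Nat.card_zpowers, hxo]
  have hzle : Subgroup.zpowers x ≤ R := Subgroup.zpowers_le.mpr hxR
  have hZ : IsZGroup ↥(N ⊓ Subgroup.centralizer ((Subgroup.zpowers x : Subgroup X) : Set X)) := by
    have hle : N ⊓ Subgroup.centralizer ((Subgroup.zpowers x : Subgroup X) : Set X) ≤ N ⊓ Subgroup.centralizer ({x} : Set X) := by
      apply inf_le_inf_left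
      apply Subgroup.centralizer_le
      intro y hy
      rw [Set.mem_singleton_iff] at hy
      rw [hy]
      exact Subgroup.mem_zpowers x
    exact IsZGroup.of_injective (f := Subgroup.inclusion hle) (Subgroup.inclusion_injective hle)
  have hmain := Cfsg.Agent.Lib.BGRed.main hodd N R (Subgroup.zpowers x) hHall hR hzle (by rw [hcardx]; exact hs) hZ p
  rw [comm_eq N R hR hNc] at hmain
  have hfin := pLengthLE_of_ker 1 0 p X (X ⧸ N) (QuotientGroup.mk' N) (QuotientGroup.mk'_surjective N)
    (by
      rw [QuotientGroup.ker_mk']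
      exact hmain)
    (pLengthLE_zero_of_coprime p (by
      have : Nat.card (X ⧸ N) = N.index := rfl
      rw [this]
      exact ((Nat.Prime.coprime_iff_not_dvd hp).mpr hpN).symm))
  exact hfin

end Abs

section Main

variable {G : Type u} [Group G] [Finite G]

open Cfsg.Agent.Lib.BGTrans Cfsg.Agent.Lib.BGSigma Cfsg.Agent.Lib.BGSigma2 Cfsg.Agent.Lib.BGSigma4

/-- `p`-length one in maximal subgroups. -/
theorem plength_coatom (hG : IsMinSimpleOddOrder G) (hU : UT G) {M : Subgroup G} (hM : IsCoatom M) (p : ℕ) [Fact p.Prime] :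
    PLengthLE p 1 ↥M := by
  classical
  have hp : p.Prime := Fact.out
  haveI := IsMin.solvable hG hM.1
  have hoddM : Odd (Nat.card ↥M) := odd_card_of_le hG M
  by_cases hpa : p ∈ alpha M
  · -- the main case
    let N : Subgroup ↥M := piCore (alpha M) ↥M
    have hNprimes : ∀ q : ℕ, q.Prime → q ∣ Nat.card N → q ∈ alpha M := fun q hq hd => piCore_primes _ q hq hd
    have hNhall : ∀ q : ℕ, q ∈ alpha M → ¬ q ∣ N.index := fun q hq => not_dvd_index_piCore hG hU hM hq
    have hHall : (Nat.card N).Coprime N.index := by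
      by_contra hne
      obtain ⟨q, hq, h1, h2⟩ := Nat.Prime.not_coprime_iff_dvd.mp hne
      exact hNhall q (hNprimes q hq h1) h2
    have hNc : N ≤ commutator ↥M := by
      have htop : (commutator ↥M).subgroupOf N = ⊤ := by
        apply eq_top_of_forall_sylow_le
        intro q hq
        obtain ⟨P⟩ : Nonempty (Sylow q ↥N) := inferInstance
        refine ⟨P, ?_⟩
        by_cases hqN : q ∣ Nat.card N
        · have hqa := hNprimes q hq.out hqN
          have hP' : IsPGroup q ((P : Subgroup ↥N).map N.subtype) := P.2.map _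
          obtain ⟨S, hS⟩ := hP'.exists_le_sylow
          intro x hx
          have h1 : (x : ↥M) ∈ (S : Subgroup ↥M) := hS ⟨x, hx, rfl⟩
          have h2 := sylow_le_derived hG hU hM (alpha_sub_sigma hG hU hM hqa) (isSylowIn_map S)
            (show ((x : ↥M) : G) ∈ (S : Subgroup ↥M).map M.subtype from ⟨_, h1, rfl⟩)
          obtain ⟨z, hz, hze⟩ := h2
          have : z = (x : ↥M) := Subtype.ext hze
          rw [Subgroup.mem_subgroupOf, ← this]
          exact hz
        · have h1 : (P : Subgroup ↥N) = ⊥ := by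
            apply Subgroup.eq_bot_of_card_eq
            rw [Sylow.card_eq_multiplicity, Nat.factorization_eq_zero_of_not_dvd hqN, pow_zero]
          rw [h1]
          exact bot_le
      intro x hx
      have : (⟨x, hx⟩ : ↥N) ∈ (commutator ↥M).subgroupOf N := by
        rw [htop]
        trivial
      exact this
    -- a prime outside `σ(M)`
    have hsex : ∃ s : ℕ, s.Prime ∧ s ∣ Nat.card ↥M ∧ s ∉ sigma M := by
      by_contra hno
      push Not at hno
      have hder : commutator ↥M = ⊤ := by
        apply eq_top_of_forall_sylow_le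
        intro q hq
        obtain ⟨S⟩ : Nonempty (Sylow q ↥M) := inferInstance
        refine ⟨S, ?_⟩
        by_cases hqM : q ∣ Nat.card ↥M
        · intro x hx
          have h2 := sylow_le_derived hG hU hM (hno q hq.out hqM) (isSylowIn_map S)
            (show (x : G) ∈ (S : Subgroup ↥M).map M.subtype from ⟨_, hx, rfl⟩)
          obtain ⟨z, hz, hze⟩ := h2
          have : z = x := Subtype.ext hze
          rwa [← this]
        · have h1 : (S : Subgroup ↥M) = ⊥ := by
            apply Subgroup.eq_bot_of_card_eq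
            rw [Sylow.card_eq_multiplicity, Nat.factorization_eq_zero_of_not_dvd hqM, pow_zero]
          rw [h1]
          exact bot_le
      have hnt : Nontrivial ↥M := by
        rw [Subgroup.nontrivial_iff_ne_bot]
        exact coatom_ne_bot hG hM
      exact (Group.IsSolvable.commutator_lt_top_of_nontrivial (G := ↥M)).ne hder
    obtain ⟨s, hs, hsM, hsσ⟩ := hsex
    haveI : Fact s.Prime := ⟨hs⟩
    have hsN : ¬ s ∣ Nat.card N := fun h => hsσ (alpha_sub_sigma hG hU hM (hNprimes s hs h))
    refine plength_core hoddM N hHall hNc hs hsN hsM ?_ p (hNhall p hpa)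
    intro T
    obtain ⟨x, hx, hxo, hxZ, _⟩ := s1407 hG hU hM hsM hsσ T
    obtain ⟨_, ⟨z, hz, rfl⟩, rfl⟩ := hx
    have hzT : (z : ↥M) ∈ (T : Subgroup ↥M) := z.2
    refine ⟨z, hzT, ?_, ?_⟩
    · refine Eq.trans ?_ hxo
      simp
    · let g : ↥(N ⊓ Subgroup.centralizer ({(z : ↥M)} : Set ↥M)) →* ↥(alphaCore M ⊓ Subgroup.centralizer ({M.subtype ((T : Subgroup ↥M).subtype z)} : Set G)) :=
        { toFun := fun c => ⟨((c : ↥M) : G), Subgroup.mem_inf.mpr ⟨⟨_, c.2.1, rfl⟩, by
            rw [Subgroup.mem_centralizer_iff]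
            intro h hh
            rw [Set.mem_singleton_iff] at hh
            rw [hh]
            have := Subgroup.mem_centralizer_iff.mp c.2.2 (z : ↥M) rfl
            exact congrArg Subtype.val this⟩⟩
          map_one' := rfl
          map_mul' := fun _ _ => rfl }
      exact IsZGroup.of_injective (f := g) (by
        intro a b hab
        apply Subtype.ext
        apply Subtype.ext
        have h3 : ((g a : ↥(alphaCore M ⊓ Subgroup.centralizer ({M.subtype ((T : Subgroup ↥M).subtype z)} : Set G))) : G) = g b := congrArg Subtype.val hab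
        exact h3)
  · -- small rank
    have hr : PRankLE p 2 ↥M := by
      by_contra h
      exact hpa ⟨hp, h⟩
    by_cases hpM : p ∣ Nat.card ↥M
    · exact pLengthLE_one_of_coprime (hR_S1450 hG p M hM.1 hpM hr)
    · have h0 : PLengthLE p 0 ↥M := pLengthLE_zero_of_coprime p ((Nat.Prime.coprime_iff_not_dvd hp).mpr hpM).symm
      exact pLengthLE_of_ker 1 0 p ↥M ↥M (MonoidHom.id _) Function.surjective_id
        (pLengthLE_one_of_isPGroup p (by
          rintro ⟨x, hx⟩
          refine ⟨0, ?_⟩
          have : x = 1 := hx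
          subst this
          exact one_pow _)) h0

/-- S1410 with the Uniqueness Theorem as a hypothesis. -/
theorem s1410 (hG : IsMinSimpleOddOrder G) (hU : UT G) (p : ℕ) [Fact p.Prime] (H : Subgroup G) (hH : H ≠ ⊤) :
    PLengthLE p 1 H := by
  obtain ⟨M, hM, hHM⟩ := exists_coatom_ge hH
  have h1 := pLengthLE_subgroup p (plength_coatom hG hU hM p) (H.subgroupOf M)
  exact pLengthLE_of_surjective p (Subgroup.subgroupOfEquivOfLe hHM).toMonoidHom (MulEquiv.surjective _) h1

end Main

end Cfsg.Agent.Lib.BGLen
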