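import Mathlib
import Cfsg.Agent.Lib.BGSigma2
import Cfsg.Agent.Lib.BGLen

/-!
# Fusion in a minimal simple group of odd order: the normalizer of a Sylow subgroup controls fusion
-/

set_option autoImplicit false
set_option linter.unusedSectionVars false
set_option linter.unusedVariables false
set_option linter.style.haveILetI false
set_option linter.unusedSimpArgs false
set_option linter.unusedDecidableInType false
set_option linter.unusedFintypeInType false

namespace Cfsg.Agent.Lib.BGFus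

open Cfsg Cfsg.Agent.Lib.PCore Cfsg.Agent.Lib.CoprimeInv Cfsg.Agent.Lib.BGTrans Cfsg.Agent.Lib.BGSigma Cfsg.Agent.Lib.BGSigma2

open scoped commutatorElement

universe u

variable {G : Type u} [Group G] [Finite G] {p : ℕ} [Fact p.Prime]

theorem isSylowIn_cj {q : ℕ} {S L : Subgroup G} (h : IsSylowIn q S L) (g : G) : IsSylowIn q (cj S g) (cj L g) := by
  refine ⟨cj_mono h.1 g, h.2.1.map _, ?_⟩
  intro R hR hRq hSR
  have h1 : cj R g⁻¹ = S := by
    apply h.2.2 _ _ (hRq.map _)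
    · have := cj_mono hSR g⁻¹
      rwa [cj_cj_inv] at this
    · have := cj_mono hR g⁻¹
      rwa [cj_cj_inv] at this
  rw [← h1, cj_inv_cj]

theorem normalizer_cj_eq (H : Subgroup G) (g : G) :
    Subgroup.normalizer ((cj H g : Subgroup G) : Set G) = cj (Subgroup.normalizer (H : Set G)) g :=
  (Subgroup.map_equiv_normalizer_eq H (MulAut.conj g)).symm

theorem cj_inf (A B : Subgroup G) (g : G) : cj (A ⊓ B) g = cj A g ⊓ cj B g := by
  ext x
  simp only [mem_cj, Subgroup.mem_inf]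

/-- Control of `N_G(Y)`: all of it lies in `M C_G(Y)`. -/
theorem ctrl_norm (hG : IsMinSimpleOddOrder G) (hL : ∀ H : Subgroup G, H ≠ ⊤ → PLengthLE p 1 H)
    {M : Subgroup G} {Y S : Subgroup G} (hYS : Y ≤ S) (hY1 : Y ≠ ⊥)
    (hS : IsSylowIn p S (Subgroup.normalizer (Y : Set G)))
    (hSt : ∀ n ∈ Subgroup.normalizer (S : Set G), Rz M S n) :
    ∀ t ∈ Subgroup.normalizer (Y : Set G), Rz M Y t := by
  intro t ht
  have hYp : IsPGroup p Y := hS.2.1.to_le hYS
  have hYtop : Y ≠ ⊤ := IsMin.isPGroup_ne_top hG hYp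
  have hNne : Subgroup.normalizer (Y : Set G) ≠ ⊤ := IsMin.normalizer_ne_top hG hY1 hYtop
  have hl := hL _ hNne
  have hsup := Cfsg.Agent.Lib.PLengthOne.sup_normalizer_eq_top hl hS.toSylow
  rw [sup_comm] at hsup
  have ht' : (⟨t, ht⟩ : Subgroup.normalizer (Y : Set G)) ∈ (⊤ : Subgroup (Subgroup.normalizer (Y : Set G))) := trivial
  rw [← hsup] at ht'
  obtain ⟨n, hn, o, ho, hno⟩ := Subgroup.mem_sup_of_normal_right.mp ht'
  have ht2 : t = (n : G) * (o : G) := (congrArg Subtype.val hno).symm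
  have hnS : (n : G) ∈ Subgroup.normalizer (S : Set G) := by
    rw [Subgroup.mem_normalizer_iff] at hn ⊢
    intro x
    constructor
    · intro hx
      have h1 : (⟨x, hS.1 hx⟩ : Subgroup.normalizer (Y : Set G)) ∈ (hS.toSylow : Subgroup _) := hx
      have h2 := (hn _).mp h1
      exact h2
    · intro hx
      have hxN : (n : G) * x * (n : G)⁻¹ ∈ Subgroup.normalizer (Y : Set G) := hS.1 hx
      have h0 : x ∈ Subgroup.normalizer (Y : Set G) := by
        have h5 : x = (n : G)⁻¹ * ((n : G) * x * (n : G)⁻¹) * (n : G) := by group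
        rw [h5]
        exact mul_mem (mul_mem (inv_mem n.2) hxN) n.2
      have h2 := (hn ⟨x, h0⟩).mpr hx
      exact h2
  obtain ⟨m, hm, c, hc, hnmc⟩ := hSt _ hnS
  have hco : (o : G) ∈ Subgroup.centralizer (Y : Set G) := by
    rw [Subgroup.mem_centralizer_iff]
    intro y hy
    have hYn : (Y.subgroupOf (Subgroup.normalizer (Y : Set G))).Normal :=
      Subgroup.normal_subgroupOf_of_le_normalizer le_rfl
    have hdis : Disjoint (Y.subgroupOf (Subgroup.normalizer (Y : Set G)))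
        (pPrimeCore p (Subgroup.normalizer (Y : Set G))) := by
      rw [disjoint_iff]
      apply Subgroup.inf_eq_bot_of_coprime
      have hcop := card_pPrimeCore_coprime (G := Subgroup.normalizer (Y : Set G)) p
      have hq : IsPGroup p (Y.subgroupOf (Subgroup.normalizer (Y : Set G))) :=
        hYp.of_injective (Subgroup.subgroupOfEquivOfLe Subgroup.le_normalizer).toMonoidHom
          (MulEquiv.injective _)
      obtain ⟨k, hk⟩ := IsPGroup.iff_card.mp hq
      rw [hk]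
      exact (Nat.Coprime.pow_left k hcop.symm)
    have hcom := Subgroup.commute_of_normal_of_disjoint _ _ hYn inferInstance hdis
      (⟨y, Subgroup.le_normalizer hy⟩ : Subgroup.normalizer (Y : Set G)) o
      (by simpa [Subgroup.mem_subgroupOf] using hy) ho
    exact congrArg Subtype.val hcom
  exact ⟨m, hm, c * o, mul_mem (Subgroup.centralizer_le hYS hc) hco, by
    rw [ht2, hnmc, mul_assoc]⟩

/-- One inductive step. -/
theorem fus_step (hG : IsMinSimpleOddOrder G) (hL : ∀ H : Subgroup G, H ≠ ⊤ → PLengthLE p 1 H)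
    {M P : Subgroup G} (hPM : P ≤ M) (hPS : IsSylowIn p P ⊤)
    (hN : Subgroup.normalizer (P : Set G) ≤ M) {Y : Subgroup G} (hYP : Y ≤ P) (hY1 : Y ≠ ⊥)
    (IH : ∀ Y' : Subgroup G, Y' ≤ P → Y' ≠ ⊥ → Nat.card Y < Nat.card Y' →
      ∀ g : G, cj Y' g ≤ P → Rz M Y' g) :
    ∀ g : G, cj Y g ≤ P → Rz M Y g := by
  have hPp : IsPGroup p P := hPS.2.1
  by_cases hYeq : Y = P
  · subst hYeq
    intro g hg
    have h1 : cj Y g = Y := Subgroup.eq_of_le_of_card_ge hg (by rw [card_cj])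
    exact Rz.of_mem (hN (mem_normalizer_of_cj_eq h1))
  have hlt : Y < P := lt_of_le_of_ne hYP hYeq
  have hcardlt : Nat.card Y < Nat.card P := card_lt_of_lt' hlt
  obtain ⟨Z, ⟨hZP, w₀, hZw⟩, hZmax⟩ := Set.exists_max_image
    {Z : Subgroup G | Z ≤ P ∧ ∃ w : G, Z = cj Y w}
    (fun Z => Nat.card ↥(P ⊓ Subgroup.normalizer (Z : Set G))) (Set.toFinite _)
    ⟨Y, hYP, 1, (cj_one Y).symm⟩
  have hZcard : Nat.card Z = Nat.card Y := by rw [hZw, card_cj]
  have hZ1 : Z ≠ ⊥ := by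
    intro h
    apply hY1
    have h2 : Nat.card Z = 1 := by rw [h]; exact Subgroup.card_bot
    rw [hZcard] at h2
    exact Subgroup.card_eq_one.mp h2
  have hZS : Z ≤ P ⊓ Subgroup.normalizer (Z : Set G) := le_inf hZP Subgroup.le_normalizer
  have hS : IsSylowIn p (P ⊓ Subgroup.normalizer (Z : Set G)) (Subgroup.normalizer (Z : Set G)) := by
    refine ⟨inf_le_right, hPp.to_le inf_le_left, ?_⟩
    intro R hRN hRp hSR
    obtain ⟨Q, hQ, hRQ⟩ := exists_isSylowIn_ge p (le_top : R ≤ ⊤) hRp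
    obtain ⟨k, -, hk⟩ := hPS.exists_conj hQ
    have h1 : cj R k⁻¹ ≤ P := by
      have := cj_mono (hRQ.trans hk.le) k⁻¹
      rwa [cj_cj_inv] at this
    have h2 : cj Z k⁻¹ ≤ P := (cj_mono (hZS.trans hSR) k⁻¹).trans h1
    have h3 : cj R k⁻¹ ≤ Subgroup.normalizer (cj Z k⁻¹ : Set G) := normalizer_cj_of_le hRN
    have h4 := hZmax (cj Z k⁻¹) ⟨h2, k⁻¹ * w₀, by rw [hZw, cj_cj]⟩
    have h5 : Nat.card R ≤ Nat.card ↥(P ⊓ Subgroup.normalizer (Z : Set G)) := by
      calc Nat.card R = Nat.card (cj R k⁻¹) := (card_cj _ _).symm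
        _ ≤ Nat.card ↥(P ⊓ Subgroup.normalizer ((cj Z k⁻¹ : Subgroup G) : Set G)) :=
            Subgroup.card_le_of_le (le_inf h1 h3)
        _ ≤ _ := h4
    exact (Subgroup.eq_of_le_of_card_ge hSR h5).symm
  -- `Z` is properly contained in the normalizer
  have hbig : ∀ Y₁ : Subgroup G, Y₁ ≤ P → Nat.card Y₁ = Nat.card Y →
      Nat.card Y < Nat.card ↥(P ⊓ Subgroup.normalizer (Y₁ : Set G)) := by
    intro Y₁ hY₁ hc
    have hlt₁ : Y₁ < P := by
      refine lt_of_le_of_ne hY₁ ?_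
      intro h
      rw [h] at hc
      omega
    obtain ⟨t, htP, htY, htN⟩ := exists_mem_normalizer_of_lt hPp hlt₁
    rw [← hc]
    apply card_lt_of_lt'
    refine lt_of_le_of_ne (le_inf hY₁ Subgroup.le_normalizer) ?_
    intro h
    apply htY
    rw [h]
    exact ⟨htP, htN⟩
  have hne₁ : ∀ Y₁ : Subgroup G, Nat.card Y₁ = Nat.card Y → Y₁ ≠ ⊥ := by
    intro Y₁ hc h
    apply hY1
    rw [h] at hc
    have h2 : Nat.card Y = 1 := by rw [← hc]; exact Subgroup.card_bot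
    exact Subgroup.card_eq_one.mp h2
  have hSne : P ⊓ Subgroup.normalizer (Z : Set G) ≠ ⊥ := by
    intro h
    apply hZ1
    exact le_bot_iff.mp (h ▸ hZS)
  have hD : ∀ t ∈ Subgroup.normalizer (Z : Set G), Rz M Z t := by
    apply ctrl_norm hG hL hZS hZ1 hS
    intro n hn
    apply IH _ inf_le_left hSne (hbig Z hZP hZcard)
    rw [cj_eq_of_mem_normalizer hn]
    exact inf_le_left
  have htrans : ∀ (Y₁ : Subgroup G) (w : G), Y₁ ≤ P → Nat.card Y₁ = Nat.card Y → cj Y₁ w = Z →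
      Rz M Y₁ w := by
    intro Y₁ w hY₁ hc hw
    have h1 : cj (P ⊓ Subgroup.normalizer (Y₁ : Set G)) w ≤ Subgroup.normalizer (Z : Set G) := by
      have := normalizer_cj_of_le (K := Y₁) (P := P ⊓ Subgroup.normalizer (Y₁ : Set G)) (g := w) inf_le_right
      rwa [hw] at this
    have h2 : IsPGroup p (cj (P ⊓ Subgroup.normalizer (Y₁ : Set G)) w) :=
      (hPp.to_le inf_le_left).map _
    obtain ⟨Q, hQ, hTQ⟩ := exists_isSylowIn_ge p h1 h2
    obtain ⟨h, hh, hQh⟩ := hQ.exists_conj hS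
    have h3 : cj (P ⊓ Subgroup.normalizer (Y₁ : Set G)) (h * w) ≤ P := by
      rw [← cj_cj]
      have := cj_mono hTQ h
      rw [← hQh] at this
      exact this.trans inf_le_left
    have hne : P ⊓ Subgroup.normalizer (Y₁ : Set G) ≠ ⊥ := by
      intro hb
      have := hbig Y₁ hY₁ hc
      rw [hb, Subgroup.card_bot] at this
      have h0 : 0 < Nat.card Y := Nat.card_pos
      omega
    have h4 := IH _ inf_le_left hne (hbig Y₁ hY₁ hc) _ h3
    have h5 : Rz M Y₁ (h * w) := h4.mono (le_inf hY₁ Subgroup.le_normalizer)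
    have h6 : cj Y₁ (h * w) = Z := by
      rw [← cj_cj, hw, cj_eq_of_mem_normalizer hh]
    have h7 : Rz M (cj Y₁ (h * w)) h⁻¹ := by
      rw [h6]
      exact hD _ (inv_mem hh)
    have h8 := h5.comp h7
    simpa using h8
  intro g hg
  have hY₁ : Rz M Y w₀ := htrans Y w₀ hYP rfl hZw.symm
  have hY₂ : Rz M (cj Y g) (w₀ * g⁻¹) := htrans (cj Y g) (w₀ * g⁻¹) hg (card_cj _ _) (by
    rw [cj_cj, inv_mul_cancel_right, hZw])
  have h3 := hY₂.inv
  have h4 : cj (cj Y g) (w₀ * g⁻¹) = cj Y w₀ := by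
    rw [cj_cj, inv_mul_cancel_right]
  rw [h4] at h3
  have h5 := hY₁.comp h3
  have h6 : (w₀ * g⁻¹)⁻¹ * w₀ = g := by group
  rwa [h6] at h5


/-- The induction. -/
theorem fus_all (hG : IsMinSimpleOddOrder G) (hL : ∀ H : Subgroup G, H ≠ ⊤ → PLengthLE p 1 H)
    {M P : Subgroup G} (hPM : P ≤ M) (hPS : IsSylowIn p P ⊤)
    (hN : Subgroup.normalizer (P : Set G) ≤ M) (n : ℕ) :
    ∀ Y : Subgroup G, Y ≤ P → Y ≠ ⊥ → Nat.card P ≤ Nat.card Y + n →
      ∀ g : G, cj Y g ≤ P → Rz M Y g := by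
  induction n with
  | zero =>
    intro Y hYP hY1 hc
    apply fus_step hG hL hPM hPS hN hYP hY1
    intro Y' hY' _ hcY'
    have := Subgroup.card_le_of_le hY'
    omega
  | succ n ih =>
    intro Y hYP hY1 hc
    apply fus_step hG hL hPM hPS hN hYP hY1
    intro Y' hY' hY'1 hcY'
    apply ih Y' hY' hY'1
    omega

/-- Fusion control by the normalizer of a Sylow subgroup. -/
theorem fus_ctrl (hG : IsMinSimpleOddOrder G) (hL : ∀ H : Subgroup G, H ≠ ⊤ → PLengthLE p 1 H)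
    {P : Subgroup G} (hPS : IsSylowIn p P ⊤) {Y : Subgroup G} (hYP : Y ≤ P) (g : G) (hg : cj Y g ≤ P) :
    Rz (Subgroup.normalizer (P : Set G)) Y g := by
  by_cases hY1 : Y = ⊥
  · subst hY1
    refine ⟨1, one_mem _, g, ?_, (one_mul g).symm⟩
    rw [Subgroup.mem_centralizer_iff]
    intro h hh
    have : h = 1 := hh
    subst this
    simp
  · exact fus_all hG hL Subgroup.le_normalizer hPS le_rfl (Nat.card P) Y hYP hY1 (by omega) g hg

/-- Part (c). -/
theorem part_c (hG : IsMinSimpleOddOrder G) (hL : ∀ H : Subgroup G, H ≠ ⊤ → PLengthLE p 1 H)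
    {P : Subgroup G} (hPS : IsSylowIn p P ⊤) {Q : Subgroup G} (hQP : Q ≤ P) (x : G) (hx : cj Q x ≤ P) :
    ∃ y ∈ Subgroup.normalizer (P : Set G), cj Q x = cj Q y := by
  obtain ⟨m, hm, c, hc, rfl⟩ := fus_ctrl hG hL hPS hQP x hx
  refine ⟨m, hm, ?_⟩
  have h1 : cj Q c = Q := cj_eq_of_mem_normalizer (Subgroup.centralizer_le_normalizer _ hc)
  rw [← cj_cj, h1]

/-- Part (d), in Sylow form. -/
theorem part_d (hG : IsMinSimpleOddOrder G) (hL : ∀ H : Subgroup G, H ≠ ⊤ → PLengthLE p 1 H)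
    {P : Subgroup G} (hPS : IsSylowIn p P ⊤) {Q : Subgroup G} (hQP : Q ≤ P) :
    IsSylowIn p (P ⊓ Subgroup.normalizer (Q : Set G)) (Subgroup.normalizer (Q : Set G)) := by
  have hPp : IsPGroup p P := hPS.2.1
  obtain ⟨Z, ⟨hZP, w₀, hZw⟩, hZmax⟩ := Set.exists_max_image
    {Z : Subgroup G | Z ≤ P ∧ ∃ w : G, Z = cj Q w}
    (fun Z => Nat.card ↥(P ⊓ Subgroup.normalizer (Z : Set G))) (Set.toFinite _)
    ⟨Q, hQP, 1, (cj_one Q).symm⟩
  have hZS : Z ≤ P ⊓ Subgroup.normalizer (Z : Set G) := le_inf hZP Subgroup.le_normalizer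
  have hS : IsSylowIn p (P ⊓ Subgroup.normalizer (Z : Set G)) (Subgroup.normalizer (Z : Set G)) := by
    refine ⟨inf_le_right, hPp.to_le inf_le_left, ?_⟩
    intro R hRN hRp hSR
    obtain ⟨S, hS, hRS⟩ := exists_isSylowIn_ge p (le_top : R ≤ ⊤) hRp
    obtain ⟨k, -, hk⟩ := hPS.exists_conj hS
    have h1 : cj R k⁻¹ ≤ P := by
      have := cj_mono (hRS.trans hk.le) k⁻¹
      rwa [cj_cj_inv] at this
    have h2 : cj Z k⁻¹ ≤ P := (cj_mono (hZS.trans hSR) k⁻¹).trans h1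
    have h3 : cj R k⁻¹ ≤ Subgroup.normalizer (cj Z k⁻¹ : Set G) := normalizer_cj_of_le hRN
    have h4 := hZmax (cj Z k⁻¹) ⟨h2, k⁻¹ * w₀, by rw [hZw, cj_cj]⟩
    have h5 : Nat.card R ≤ Nat.card ↥(P ⊓ Subgroup.normalizer (Z : Set G)) := by
      calc Nat.card R = Nat.card (cj R k⁻¹) := (card_cj _ _).symm
        _ ≤ Nat.card ↥(P ⊓ Subgroup.normalizer ((cj Z k⁻¹ : Subgroup G) : Set G)) :=
            Subgroup.card_le_of_le (le_inf h1 h3)
        _ ≤ _ := h4
    exact (Subgroup.eq_of_le_of_card_ge hSR h5).symm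
  -- transport by an element of `N_G(P)`
  obtain ⟨y, hy, hyQ⟩ := part_c hG hL hPS hQP w₀ (hZw ▸ hZP)
  have hZy : Z = cj Q y := hZw.trans hyQ
  have hPy : cj P y⁻¹ = P := cj_eq_of_mem_normalizer (inv_mem hy)
  have hT := isSylowIn_cj hS y⁻¹
  have h1 : cj (Subgroup.normalizer (Z : Set G)) y⁻¹ = Subgroup.normalizer (Q : Set G) := by
    rw [← normalizer_cj_eq, hZy, cj_cj_inv]
  have h2 : cj (P ⊓ Subgroup.normalizer (Z : Set G)) y⁻¹ = P ⊓ Subgroup.normalizer (Q : Set G) := by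
    rw [cj_inf, hPy, h1]
  rwa [h1, h2] at hT

theorem not_dvd_relIndex {S L : Subgroup G} (h : IsSylowIn p S L) : ¬ p ∣ S.relIndex L :=
  h.toSylow.not_dvd_index

/-- Part (e). -/
theorem part_e (hG : IsMinSimpleOddOrder G) (hL : ∀ H : Subgroup G, H ≠ ⊤ → PLengthLE p 1 H)
    {P : Subgroup G} (hPS : IsSylowIn p P ⊤) {R Q : Subgroup G} (hR : IsPGroup p R) (hQ : Q ≤ P ⊓ R)
    (hN : Subgroup.normalizer (P : Set G) ≤ Subgroup.normalizer (Q : Set G)) :
    Subgroup.normalizer (R : Set G) ≤ Subgroup.normalizer (Q : Set G) := by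
  have hQP : Q ≤ P := hQ.trans inf_le_left
  have hQR : Q ≤ R := hQ.trans inf_le_right
  obtain ⟨S, hS, hRS⟩ := exists_isSylowIn_ge p (le_top : R ≤ ⊤) hR
  obtain ⟨k, -, hk⟩ := hPS.exists_conj hS
  have hkey : ∀ g : G, cj Q g ≤ S → k⁻¹ * g ∈ Subgroup.normalizer (Q : Set G) := by
    intro g hg
    have h1 : cj Q (k⁻¹ * g) ≤ P := by
      rw [← cj_cj]
      have h2 := cj_mono (hg.trans hk.le) k⁻¹
      rwa [cj_cj_inv] at h2
    obtain ⟨y, hy, hyQ⟩ := part_c hG hL hPS hQP _ h1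
    have h3 : cj Q y = Q := cj_eq_of_mem_normalizer (hN hy)
    exact mem_normalizer_of_cj_eq (hyQ.trans h3)
  have hk1 : k⁻¹ ∈ Subgroup.normalizer (Q : Set G) := by
    have := hkey 1 (by rw [cj_one]; exact hQR.trans hRS)
    simpa using this
  intro g hg
  have h1 : cj Q g ≤ S := by
    have h2 := cj_mono hQR g
    rw [cj_eq_of_mem_normalizer hg] at h2
    exact h2.trans hRS
  have h2 := hkey g h1
  have h3 : g = (k⁻¹)⁻¹ * (k⁻¹ * g) := by group
  rw [h3]
  exact mul_mem (inv_mem hk1) h2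

/-- A Sylow subgroup lies in the derived subgroup of its normalizer. -/
theorem sylow_le_derived' (hG : IsMinSimpleOddOrder G) (hL : ∀ H : Subgroup G, H ≠ ⊤ → PLengthLE p 1 H)
    (S : Sylow p G) :
    (S : Subgroup G) ≤ ⁅Subgroup.normalizer ((S : Subgroup G) : Set G), Subgroup.normalizer ((S : Subgroup G) : Set G)⁆ := by
  have hPS : IsSylowIn p (S : Subgroup G) ⊤ := ⟨le_top, S.2, fun R _ hR hle => S.3 hR hle⟩
  have hf := Subgroup.commutator_inf_eq_focalSubgroup S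
  rw [commutator_eq_top hG, top_inf_eq] at hf
  conv_lhs => rw [hf]
  rw [Subgroup.focalSubgroup_def, Subgroup.closure_le]
  rintro g ⟨hgP, x, hx, u, rfl⟩
  have hXle : Subgroup.zpowers x ≤ (S : Subgroup G) := Subgroup.zpowers_le.mpr hx
  have hconj : cj (Subgroup.zpowers x) u ≤ (S : Subgroup G) := by
    have h1 : u * x * u⁻¹ ∈ (S : Subgroup G) := by
      have h2 : (⁅x, u⁆)⁻¹ * x ∈ (S : Subgroup G) := mul_mem (inv_mem hgP) hx
      have h3 : (⁅x, u⁆)⁻¹ * x = u * x * u⁻¹ := by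
        rw [commutatorElement_inv]
        simp [commutatorElement_def, mul_assoc]
      rwa [h3] at h2
    rintro _ ⟨y, hy, rfl⟩
    obtain ⟨k, rfl⟩ := Subgroup.mem_zpowers_iff.mp hy
    have h4 : (MulAut.conj u).toMonoidHom (x ^ k) = (u * x * u⁻¹) ^ k := by
      simp [map_zpow, MulAut.conj_apply]
    rw [h4]
    exact zpow_mem h1 k
  obtain ⟨m, hm, c, hc, rfl⟩ := fus_ctrl hG hL hPS hXle u hconj
  have hcx : x * c = c * x := by
    rw [Subgroup.mem_centralizer_iff] at hc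
    exact hc x (Subgroup.mem_zpowers x)
  have h8 : ⁅x, m⁆ ∈ ⁅Subgroup.normalizer ((S : Subgroup G) : Set G), Subgroup.normalizer ((S : Subgroup G) : Set G)⁆ :=
    Subgroup.commutator_mem_commutator (Subgroup.le_normalizer hx) hm
  have h9 : ⁅x, m * c⁆ = ⁅x, m⁆ := by
    simp only [commutatorElement_def]
    have h6 : x * (m * c) * x⁻¹ * (m * c)⁻¹ = x * m * (c * x⁻¹ * c⁻¹) * m⁻¹ := by group
    rw [h6]
    have h7 : c * x⁻¹ * c⁻¹ = x⁻¹ := by
      calc c * x⁻¹ * c⁻¹ = x⁻¹ * (x * c) * x⁻¹ * c⁻¹ := by group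
        _ = x⁻¹ * (c * x) * x⁻¹ * c⁻¹ := by rw [hcx]
        _ = x⁻¹ := by group
    rw [h7]
  show ⁅x, m * c⁆ ∈ _
  rw [h9]
  exact h8

/-- S1411 with the `p`-length hypothesis. -/
theorem s1411 (hG : IsMinSimpleOddOrder G) (hL : ∀ H : Subgroup G, H ≠ ⊤ → PLengthLE p 1 H)
    (P : Sylow p G) (V : Subgroup G)
    (hV : IsComplIn (P : Subgroup G) V (Subgroup.normalizer ((P : Subgroup G) : Set G))) :
    (P : Subgroup G) = ⁅(P : Subgroup G), V⁆ ∧
      (P : Subgroup G) ≤ ⁅Subgroup.normalizer ((P : Subgroup G) : Set G), Subgroup.normalizer ((P : Subgroup G) : Set G)⁆ := by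
  classical
  have hder := sylow_le_derived' hG hL P
  refine ⟨?_, hder⟩
  by_cases hP1 : (P : Subgroup G) = ⊥
  · rw [hP1]
    exact (Subgroup.commutator_bot_left V).symm
  have hPtop : (P : Subgroup G) ≠ ⊤ := IsMin.isPGroup_ne_top hG P.2
  have hNne : Subgroup.normalizer ((P : Subgroup G) : Set G) ≠ ⊤ := IsMin.normalizer_ne_top hG hP1 hPtop
  set L : Subgroup G := Subgroup.normalizer ((P : Subgroup G) : Set G) with hL'
  haveI hsol : Group.IsSolvable ↥L := IsMin.solvable hG hNne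
  obtain ⟨hPL, hVL, hdisj, hdec⟩ := hV
  let N : Subgroup ↥L := (P : Subgroup G).subgroupOf L
  let R : Subgroup ↥L := V.subgroupOf L
  haveI hNn : N.Normal := Subgroup.normal_subgroupOf_of_le_normalizer le_rfl
  have hC : Subgroup.IsComplement' N R := by
    apply Subgroup.isComplement'_of_disjoint_and_mul_eq_univ
    · rw [disjoint_iff, eq_bot_iff]
      rintro ⟨x, hxL⟩ hx
      have h1 : x ∈ (P : Subgroup G) ⊓ V := Subgroup.mem_inf.mpr ⟨hx.1, hx.2⟩
      rw [hdisj, Subgroup.mem_bot] at h1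
      subst h1
      exact one_mem _
    · ext ⟨x, hxL⟩
      simp only [Set.mem_univ, iff_true]
      obtain ⟨a, ha, b, hb, rfl⟩ := hdec x hxL
      refine Set.mem_mul.mpr ⟨⟨a, hPL ha⟩, ha, ⟨b, hVL hb⟩, hb, rfl⟩
  have hNc : N ≤ commutator ↥L := by
    rintro ⟨x, hxL⟩ hx
    have h1 := hder hx
    rw [← Subgroup.map_subtype_commutator L] at h1
    obtain ⟨y, hy, hye⟩ := h1
    have : y = ⟨x, hxL⟩ := Subtype.ext hye
    rwa [← this]
  have hmain := Cfsg.Agent.Lib.BGLen.comm_eq N R hC hNc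
  have h1 := congrArg (Subgroup.map L.subtype) hmain
  rw [Subgroup.map_commutator, Subgroup.map_subgroupOf_eq_of_le hPL, Subgroup.map_subgroupOf_eq_of_le hVL] at h1
  exact h1.symm

end Cfsg.Agent.Lib.BGFus
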