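import Mathlib
import Cfsg.Agent.Lib.BGFus

/-!
# Complements to a Sylow subgroup in its normalizer; extraspecial groups of order `p ^ 3`
-/

set_option autoImplicit false
set_option linter.unusedSectionVars false
set_option linter.unusedVariables false
set_option linter.style.haveILetI false
set_option linter.unusedSimpArgs false
set_option linter.unusedDecidableInType false
set_option linter.unusedFintypeInType false

namespace Cfsg.Agent.Lib.BGFus2

open Cfsg Cfsg.Agent.Lib.PCore Cfsg.Agent.Lib.CoprimeInv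

open scoped commutatorElement

universe u

variable {G : Type u} [Group G] [Finite G] {p : ℕ} [Fact p.Prime]

/-- A Sylow subgroup has a complement in its normalizer. -/
theorem exists_compl (P : Sylow p G) :
    ∃ V : Subgroup G, IsComplIn (P : Subgroup G) V (Subgroup.normalizer ((P : Subgroup G) : Set G)) ∧
      (Nat.card V).Coprime p := by
  classical
  have hp : p.Prime := Fact.out
  set L : Subgroup G := Subgroup.normalizer ((P : Subgroup G) : Set G) with hLdef
  have hS : IsSylowIn p (P : Subgroup G) L := ⟨Subgroup.le_normalizer, P.2, fun R _ hR hle => P.3 hR hle⟩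
  let N : Subgroup ↥L := (P : Subgroup G).subgroupOf L
  haveI hNn : N.Normal := Subgroup.normal_subgroupOf_of_le_normalizer le_rfl
  have hNdvd : ¬ p ∣ N.index := hS.toSylow.not_dvd_index
  have hNp : IsPGroup p N := hS.toSylow.2
  obtain ⟨k, hk⟩ := IsPGroup.iff_card.mp hNp
  have hcop : (Nat.card N).Coprime N.index := by
    rw [hk]
    exact Nat.Coprime.pow_left k ((Nat.Prime.coprime_iff_not_dvd hp).mpr hNdvd)
  obtain ⟨R, hR⟩ := Subgroup.exists_right_complement'_of_coprime hcop
  refine ⟨R.map L.subtype, ⟨Subgroup.le_normalizer, Subgroup.map_subtype_le _, ?_, ?_⟩, ?_⟩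
  · rw [eq_bot_iff]
    intro x hx
    obtain ⟨hx1, r, hr, rfl⟩ := Subgroup.mem_inf.mp hx
    have h2 : r ∈ N ⊓ R := Subgroup.mem_inf.mpr ⟨hx1, hr⟩
    rw [hR.disjoint.eq_bot, Subgroup.mem_bot] at h2
    rw [h2]
    exact one_mem _
  · intro m hm
    have h1 : (⟨m, hm⟩ : ↥L) ∈ N ⊔ R := by
      rw [hR.sup_eq_top]
      trivial
    obtain ⟨a, ha, b, hb, he⟩ := Subgroup.mem_sup_of_normal_left.mp h1
    exact ⟨a, ha, b, ⟨b, hb, rfl⟩, (congrArg Subtype.val he).symm⟩
  · rw [Subgroup.card_map_of_injective L.subtype_injective, ← hR.symm.index_eq_card]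
    exact ((Nat.Prime.coprime_iff_not_dvd hp).mpr hNdvd).symm

/-- In a nonabelian group of order `p ^ 3`, the derived subgroup is the centre. -/
theorem comm_eq_inf_centralizer {R : Subgroup G} (hn : ¬ IsMulCommutative R) (hc : Nat.card R = p ^ 3) :
    ⁅R, R⁆ = R ⊓ Subgroup.centralizer (R : Set G) := by
  classical
  have hp : p.Prime := Fact.out
  have hXp : IsPGroup p ↥R := IsPGroup.of_card hc
  have hnc : ¬ ∀ a b : ↥R, a * b = b * a := fun h => hn ⟨⟨h⟩⟩
  haveI hXn : Nontrivial ↥R := by
    rw [← Finite.one_lt_card_iff_nontrivial, hc]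
    exact Nat.one_lt_pow (by norm_num) hp.one_lt
  haveI hZn := hXp.center_nontrivial
  have hZcard : Nat.card (Subgroup.center ↥R) * Nat.card (↥R ⧸ Subgroup.center ↥R) = p ^ 3 := by
    rw [← hc, mul_comm]
    exact (Subgroup.card_eq_card_quotient_mul_card_subgroup _).symm
  obtain ⟨k, hk3, hk⟩ := (Nat.dvd_prime_pow hp).mp (Dvd.intro _ hZcard)
  have hk0 : k ≠ 0 := by
    rintro rfl
    have h1 : 1 < Nat.card (Subgroup.center ↥R) := Finite.one_lt_card_iff_nontrivial.mpr hZn
    rw [hk] at h1
    simp at h1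
  have hpos : 0 < p := hp.pos
  have hk1 : k = 1 := by
    by_contra hne
    have hk23 : k = 2 ∨ k = 3 := by omega
    rcases hk23 with rfl | rfl
    · have h2 : Nat.card (↥R ⧸ Subgroup.center ↥R) = p := by
        rw [hk] at hZcard
        have : p ^ 2 * Nat.card (↥R ⧸ Subgroup.center ↥R) = p ^ 2 * p := by rw [hZcard]; ring
        exact Nat.eq_of_mul_eq_mul_left (pow_pos hpos 2) this
      haveI : IsCyclic (↥R ⧸ Subgroup.center ↥R) := isCyclic_of_prime_card h2
      apply hnc
      exact commutative_of_cyclic_center_quotient (QuotientGroup.mk' (Subgroup.center ↥R))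
        (by rw [QuotientGroup.ker_mk'])
    · have h2 : Subgroup.center ↥R = ⊤ := by
        apply Subgroup.eq_top_of_card_eq
        rw [hk, hc]
      apply hnc
      intro a b
      have : a ∈ Subgroup.center ↥R := by rw [h2]; trivial
      exact (Subgroup.mem_center_iff.mp this b).symm
  subst hk1
  have hZp : Nat.card (Subgroup.center ↥R) = p := by rw [hk, pow_one]
  have hq : Nat.card (↥R ⧸ Subgroup.center ↥R) = p ^ 2 := by
    rw [hZp] at hZcard
    have : p * Nat.card (↥R ⧸ Subgroup.center ↥R) = p * p ^ 2 := by rw [hZcard]; ring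
    exact Nat.eq_of_mul_eq_mul_left hpos this
  have hqc := IsPGroup.commutative_of_card_eq_prime_sq (p := p) hq
  have hcomm : commutator ↥R ≤ Subgroup.center ↥R := by
    rw [commutator_def, Subgroup.commutator_le]
    intro a _ b _
    rw [← QuotientGroup.eq_one_iff, commutatorElement_def]
    have h1 := hqc (a : ↥R ⧸ Subgroup.center ↥R) (b : ↥R ⧸ Subgroup.center ↥R)
    simp only [QuotientGroup.mk_mul, QuotientGroup.mk_inv]
    rw [h1]
    simp
  have hcomm1 : commutator ↥R ≠ ⊥ := by
    intro h
    apply hnc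
    intro a b
    have h1 : ⁅a, b⁆ ∈ commutator ↥R := by
      rw [commutator_def]
      exact Subgroup.commutator_mem_commutator (Subgroup.mem_top _) (Subgroup.mem_top _)
    rw [h, Subgroup.mem_bot, commutatorElement_eq_one_iff_mul_comm] at h1
    exact h1
  have heq : commutator ↥R = Subgroup.center ↥R := by
    apply Subgroup.eq_of_le_of_card_ge hcomm
    rw [hZp]
    have h1 : Nat.card (commutator ↥R) ∣ p := hZp ▸ Subgroup.card_dvd_of_le hcomm
    rcases (Nat.dvd_prime hp).mp h1 with h2 | h2
    · exfalso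
      exact hcomm1 (Subgroup.card_eq_one.mp h2)
    · rw [h2]
  rw [← Subgroup.map_subtype_commutator R, heq]
  ext x
  constructor
  · rintro ⟨y, hy, rfl⟩
    refine Subgroup.mem_inf.mpr ⟨y.2, ?_⟩
    rw [Subgroup.mem_centralizer_iff]
    intro h hh
    exact congrArg Subtype.val (Subgroup.mem_center_iff.mp hy ⟨h, hh⟩)
  · intro hx
    obtain ⟨hx1, hx2⟩ := Subgroup.mem_inf.mp hx
    refine ⟨⟨x, hx1⟩, ?_, rfl⟩
    refine SetLike.mem_coe.mpr (Subgroup.mem_center_iff.mpr ?_)
    intro g
    apply Subtype.ext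
    exact Subgroup.mem_centralizer_iff.mp hx2 g g.2

end Cfsg.Agent.Lib.BGFus2
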