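import Mathlib
import Cfsg.Agent.Lib.BGSigma2
import Cfsg.Agent.S1403

/-!
# Bender-Glauberman sections 10-12: `M_σ` is a normal Hall subgroup of `M`.
-/

set_option autoImplicit false
set_option linter.unusedSectionVars false
set_option linter.unusedVariables false
set_option linter.style.haveILetI false
set_option linter.unusedSimpArgs false

namespace Cfsg.Agent.Lib.BGM1

open Cfsg Subgroup Cfsg.Agent.Lib.CoprimeInv Cfsg.Agent.Lib.BGTrans Cfsg.Agent.Lib.BGSigma
  Cfsg.Agent.Lib.BGSigma2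

universe u

variable {G : Type u} [Group G] [Finite G]

theorem ut (hG : IsMinSimpleOddOrder G) : UT G :=
  fun K hK h1 h2 => Cfsg.Agent.S1403.result hG K hK h1 h2

theorem sigma_hyp (hG : IsMinSimpleOddOrder G) {M : Subgroup G} (hM : IsCoatom M) :
    ∀ q : ℕ, q.Prime → q ∉ sigma M → PRankLE q 2 M := by
  intro q hq hqs
  by_contra h
  exact hqs (alpha_sub_sigma hG (ut hG) hM ⟨hq, h⟩)

/-- Sylow subgroups of `M` for primes in `σ(M)` lie in `M_σ`. -/
theorem sylow_le_sigmaCore (hG : IsMinSimpleOddOrder G) {M : Subgroup G} (hM : IsCoatom M)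
    {p : ℕ} [Fact p.Prime] (hp : p ∈ sigma M) (S : Sylow p M) :
    (S : Subgroup M) ≤ piCore (sigma M) M := by
  haveI := IsMin.solvable hG hM.1
  intro y hy
  have h1 := sylow_le_derived hG (ut hG) hM hp (isSylowIn_map S)
    (show (y : G) ∈ (S : Subgroup M).map M.subtype from ⟨y, hy, rfl⟩)
  obtain ⟨z, hz, hzy⟩ := h1
  have hzy' : z = y := Subtype.ext hzy
  subst hzy'
  obtain ⟨k, hk⟩ := S.isPGroup' ⟨z, hy⟩
  exact mem_piCore_of_commutator (odd_card_of_le hG M) (sigma M) (sigma_hyp hG hM) hp hz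
    (k := k) (congrArg Subtype.val hk)

theorem not_dvd_index_sigmaCore (hG : IsMinSimpleOddOrder G) {M : Subgroup G}
    (hM : IsCoatom M) {p : ℕ} (hp : p ∈ sigma M) : ¬ p ∣ (piCore (sigma M) M).index := by
  haveI : Fact p.Prime := ⟨hp.1⟩
  obtain ⟨S⟩ : Nonempty (Sylow p M) := inferInstance
  intro hd
  have h1 := Subgroup.index_dvd_of_le (sylow_le_sigmaCore hG hM hp S)
  exact S.not_dvd_index (hd.trans h1)

theorem primes_sigmaCore {M : Subgroup G} : ∀ p : ℕ, p.Prime → p ∣ Nat.card (sigmaCore M) → p ∈ sigma M := by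
  intro p hp hd
  rw [sigmaCore, Subgroup.card_map_of_injective M.subtype_injective] at hd
  exact piCore_primes _ p hp hd

theorem relIndex_sigmaCore {M : Subgroup G} : (sigmaCore M).relIndex M = (piCore (sigma M) M).index := by
  rw [Subgroup.relIndex, sigmaCore]
  show (((piCore (sigma M) M).map M.subtype).comap M.subtype).index = _
  rw [Subgroup.comap_map_eq_self_of_injective M.subtype_injective]

theorem sigmaCore_le {M : Subgroup G} : sigmaCore M ≤ M := Subgroup.map_subtype_le _

theorem le_normalizer_sigmaCore {M : Subgroup G} : M ≤ normalizer (sigmaCore M : Set G) := by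
  have : sigmaCore M = piCoreOf (sigma M) M := rfl
  rw [this]
  exact le_normalizer_piCoreOf _ _

/-- `p ∈ σ(M)`: a Sylow subgroup of `M` is a Sylow subgroup of `G`. -/
theorem isSylowIn_top_of_sigma {M P : Subgroup G} {p : ℕ} [Fact p.Prime] (hp : p ∈ sigma M)
    (hP : IsSylowIn p P M) : IsSylowIn p P ⊤ := by
  obtain ⟨P₀, hP₀, hN₀⟩ := exists_sigma_sylow hp
  exact isSylowIn_top_of_normalizer_le hP (normalizer_le_of_isSylowIn hP₀ hN₀ hP)

theorem normalizer_le_of_sigma {M P : Subgroup G} {p : ℕ} [Fact p.Prime] (hp : p ∈ sigma M)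
    (hP : IsSylowIn p P M) : normalizer (P : Set G) ≤ M := by
  obtain ⟨P₀, hP₀, hN₀⟩ := exists_sigma_sylow hp
  exact normalizer_le_of_isSylowIn hP₀ hN₀ hP

theorem not_dvd_index_of_sigma {M P : Subgroup G} {p : ℕ} [Fact p.Prime] (hp : p ∈ sigma M)
    (hP : IsSylowIn p P M) : ¬ p ∣ P.index := by
  have h1 := isSylowIn_top_of_sigma hp hP
  let S : Sylow p G :=
    { toSubgroup := P
      isPGroup' := hP.2.1
      is_maximal' := fun {Q} hQ hle => h1.2.2 Q le_top hQ hle }
  exact S.not_dvd_index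

theorem not_dvd_index_coatom_of_sigma {M : Subgroup G} {p : ℕ} [Fact p.Prime] (hp : p ∈ sigma M) :
    ¬ p ∣ M.index := by
  obtain ⟨P, hP, hN⟩ := exists_sigma_sylow hp
  intro h
  exact not_dvd_index_of_sigma hp hP (h.trans (Subgroup.index_dvd_of_le hP.1))

/-- S1350, first two parts. -/
theorem sigma_hall (hG : IsMinSimpleOddOrder G) {M : Subgroup G} (hM : IsCoatom M) :
    IsPiHallOf (sigma M) (sigmaCore M) M ∧ IsPiHall (sigma M) (sigmaCore M) := by
  refine ⟨⟨sigmaCore_le, primes_sigmaCore, ?_⟩, ⟨primes_sigmaCore, ?_⟩⟩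
  · intro p _ hp
    rw [relIndex_sigmaCore]
    exact not_dvd_index_sigmaCore hG hM hp
  · intro p hpp hp
    haveI : Fact p.Prime := ⟨hpp⟩
    rw [sigmaCore, Subgroup.index_map_subtype]
    intro hd
    rcases (Nat.Prime.dvd_mul hpp).mp hd with h | h
    · exact not_dvd_index_sigmaCore hG hM hp h
    · exact not_dvd_index_coatom_of_sigma hp h

/-- `M_σ` is the only normal Hall `σ(M)`-subgroup of `M`. -/
theorem sigma_hall_unique (hG : IsMinSimpleOddOrder G) {M : Subgroup G} (hM : IsCoatom M)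
    (N : Subgroup G) (hMN : M ≤ normalizer (N : Set G)) (hN : IsPiHallOf (sigma M) N M) :
    N = sigmaCore M := by
  obtain ⟨hNM, hNp, hNi⟩ := hN
  have h1 : N ≤ sigmaCore M := by
    intro n hn
    have hnM := hNM hn
    refine ⟨⟨n, hnM⟩, ?_, rfl⟩
    have hnorm : (N.subgroupOf M).Normal := by
      constructor
      intro x hx g
      rw [Subgroup.mem_subgroupOf] at hx ⊢
      have := (mem_normalizer_iff.mp (hMN g.2) x).mp hx
      simpa using this
    have : N.subgroupOf M ≤ piCore (sigma M) M := by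
      apply le_piCore hnorm
      intro p hp hd
      apply hNp p hp
      rwa [card_subgroupOf_of_le hNM] at hd
    exact this hn
  apply le_antisymm h1
  -- the index is divisible by no prime
  by_contra hne
  have hlt : N < sigmaCore M := lt_of_le_of_ne h1 (fun h => hne h.symm.le)
  have hi : N.relIndex (sigmaCore M) ≠ 1 := by
    intro h
    exact hne (Subgroup.relIndex_eq_one.mp h)
  obtain ⟨q, hq, hqd⟩ := Nat.exists_prime_and_dvd hi
  have h2 : N.relIndex (sigmaCore M) ∣ Nat.card (sigmaCore M) := Subgroup.relIndex_dvd_card _ _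
  have h3 : q ∈ sigma M := primes_sigmaCore q hq (hqd.trans h2)
  apply hNi q hq h3
  have h4 : N.relIndex (sigmaCore M) ∣ N.relIndex M :=
    Dvd.intro _ (Subgroup.relIndex_mul_relIndex N (sigmaCore M) M h1 sigmaCore_le)
  exact hqd.trans h4

end Cfsg.Agent.Lib.BGM1
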