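import Mathlib
import Cfsg.Agent.Lib.NarrowAct
import Cfsg.Agent.Lib.FittingDer
import Cfsg.Agent.Lib.OddLocalA
import Cfsg.Agent.Lib.PComplement

/-! Solvable groups of odd order with narrow cores: the smallest prime. -/

set_option autoImplicit false

namespace Cfsg.Agent.Lib.RankTwoFit

open Subgroup Cfsg Cfsg.Agent.Lib.PCore Cfsg.Agent.Lib.FittingDer

universe u

variable {G : Type u} [Group G] [Finite G]

/-- **Lemma**: for the smallest prime `p`, the group has a normal `p`-complement if `G' ≤ F(G)` and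
`O_p(G)` is narrow. -/
theorem isPGroup_quotient_of_smallest [Group.IsSolvable G] (hodd : Odd (Nat.card G)) (p : ℕ)
    [hpp : Fact p.Prime] (hp2 : p ≠ 2) (hn : IsNarrow p ↥(pCore p G))
    (hcF : commutator G ≤ fittingSubgroup G)
    (hmin : ∀ q : ℕ, q.Prime → q ∣ Nat.card G → p ≤ q) : IsPGroup p (G ⧸ pPrimeCore p G) := by
  classical
  have hpr : p.Prime := hpp.out
  have hNn : (pPrimeCore p G).Normal := Subgroup.normal_of_characteristic _
  have hPn : (pCore p G).Normal := Subgroup.normal_of_characteristic _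
  let N := pPrimeCore p G
  let Q := G ⧸ N
  let π : G →* Q := QuotientGroup.mk' N
  have hπ : Function.Surjective π := QuotientGroup.mk'_surjective N
  have hQs : Group.IsSolvable Q := Group.isSolvable_of_surjective hπ
  let Φ : G →* MulAut ↥(pCore p G) := MulAut.conjNormal
  have hAodd : Odd (Nat.card Φ.range) := Odd.of_dvd_nat hodd (Subgroup.card_range_dvd Φ)
  -- Step 1: `p'`-elements centralize `O_p(G)`.
  have step1 : ∀ x : G, (orderOf x).Coprime p → Φ x = 1 := by
    intro x hx
    by_contra hne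
    have h1 : orderOf (Φ x) ≠ 1 := fun h => hne (orderOf_eq_one_iff.mp h)
    obtain ⟨q, hq, hqd⟩ := Nat.exists_prime_and_dvd h1
    have h2 : q ∣ orderOf x := hqd.trans (orderOf_map_dvd Φ x)
    have h3 : q ∣ Nat.card G := h2.trans (orderOf_dvd_natCard x)
    have h4 : p ≤ q := hmin q hq h3
    have h5 : q ∣ Nat.card Φ.range :=
      hqd.trans (Subgroup.orderOf_dvd_natCard Φ.range ⟨x, rfl⟩)
    have h7 : q ≤ p := Cfsg.Agent.Lib.NarrowAct.prime_le_of_aut hp2 (isPGroup_pCore p) hn hAodd
      Φ.range.subtype (fun a ha _ => Subtype.ext ha) hq h5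
    have h8 : q = p := le_antisymm h7 h4
    rw [h8] at h2
    exact hpr.one_lt.ne' (Nat.Coprime.eq_one_of_dvd hx.symm h2)
  -- Step 2: `Q'` lies in the image of `O_p(G)`.
  have step2 : commutator Q ≤ (pCore p G).map π := by
    have h1 : commutator Q ≤ (commutator G).map π := by
      rw [_root_.commutator_def, _root_.commutator_def, Subgroup.map_commutator]
      apply Subgroup.commutator_mono <;>
      · intro y _
        obtain ⟨x, rfl⟩ := hπ y
        exact ⟨x, trivial, rfl⟩
    refine h1.trans ((Subgroup.map_mono hcF).trans ?_)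
    refine (Subgroup.map_mono (fittingSubgroup_le_sup p)).trans ?_
    rw [Subgroup.map_sup]
    have h2 : (pPrimeCore p G).map π = ⊥ := by
      rw [Subgroup.map_eq_bot_iff]
      intro x hx
      exact (QuotientGroup.eq_one_iff x).mpr hx
    rw [h2, sup_bot_eq]
  -- Step 3: `p'`-elements of the quotient are trivial.
  have step3 : ∀ x : Q, (orderOf x).Coprime p → x = 1 := by
    intro x hx
    -- lift to a `p'`-element
    obtain ⟨y, rfl⟩ := hπ x
    obtain ⟨a, b, hab, ha, hb, ⟨k, hk⟩, hbc⟩ := Cfsg.Agent.Lib.PComplement.exists_decomp p y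
    have ha1 : π a = 1 := by
      apply eq_one_of_pow_of_coprime (q := p) (j := k)
      · rw [← map_pow, hk, map_one]
      · obtain ⟨m, rfl⟩ := ha
        have h1 : π (y ^ m) = (π y) ^ m := map_zpow π y m
        rw [h1]
        exact Nat.Coprime.coprime_dvd_left (orderOf_dvd_of_mem_zpowers ⟨m, rfl⟩) hx
    have hyb : π y = π b := by rw [hab, map_mul, ha1, one_mul]
    rw [hyb] at hx ⊢
    set z := π b with hz
    have hcentral : z ∈ centralizer (pCore p Q : Set Q) := by
      rw [Subgroup.mem_centralizer_iff]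
      intro r hr
      have hd : r⁻¹ * (z * r * z⁻¹) ∈ commutator Q := by
        have := Subgroup.commutator_mem_commutator (H₁ := ⊤) (H₂ := ⊤) (mem_top r⁻¹) (mem_top z)
        rw [commutatorElement_def, inv_inv] at this
        have e : r⁻¹ * (z * r * z⁻¹) = r⁻¹ * z * r * z⁻¹ := by group
        rw [e]
        exact this
      obtain ⟨c, hc, hce⟩ := step2 hd
      have hcomm : Commute z (π c) := by
        have h1 : Φ b = 1 := step1 b hbc
        have h2 := congrArg (fun f : MulAut ↥(pCore p G) => ((f ⟨c, hc⟩ : ↥(pCore p G)) : G)) h1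
        have h3 : b * c * b⁻¹ = c := h2
        rw [mul_inv_eq_iff_eq_mul] at h3
        show π b * π c = π c * π b
        rw [← map_mul, ← map_mul, h3]
      obtain ⟨j, hj⟩ := isPGroup_pCore (G := G) p ⟨c, hc⟩
      have hj' : c ^ p ^ j = 1 := congrArg Subtype.val hj
      have hco : (orderOf z).Coprime (orderOf (π c)) := by
        have h1 : orderOf (π c) ∣ p ^ j := orderOf_dvd_of_pow_eq_one (by rw [← map_pow, hj', map_one])
        exact Nat.Coprime.coprime_dvd_right h1 (Nat.Coprime.pow_right j hx)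
      have hd1 : π c = 1 := Cfsg.Agent.Lib.OddLocalA.eq_one_of_conj_eq_mul z r (π c)
        (by rw [hce]; group) hcomm hco
      rw [hce] at hd1
      have h5 : z * r * z⁻¹ = r := by
        have h6 : r * (r⁻¹ * (z * r * z⁻¹)) = r * 1 := by rw [hd1]
        rwa [mul_inv_cancel_left, mul_one] at h6
      rw [mul_inv_eq_iff_eq_mul] at h5
      exact h5.symm
    have hzR : z ∈ pCore p Q := centralizer_pCore_le p (pPrimeCore_quotient_pPrimeCore p) hcentral
    obtain ⟨j, hj⟩ := isPGroup_pCore (G := Q) p ⟨z, hzR⟩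
    exact eq_one_of_pow_of_coprime (congrArg Subtype.val hj) hx
  intro g
  obtain ⟨a, b, hab, -, -, ⟨k, hk⟩, hbc⟩ := Cfsg.Agent.Lib.PComplement.exists_decomp p g
  refine ⟨k, ?_⟩
  rw [hab, step3 b hbc, mul_one, hk]

end Cfsg.Agent.Lib.RankTwoFit
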