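import Mathlib
import Cfsg.Agent.Lib.BGM1
import Cfsg.Agent.Lib.OddOrderCore
import Cfsg.Agent.Lib.BGSigma4
import Cfsg.Agent.S1451

/-!
# Bender-Glauberman section 12: complements of `M_σ`.
-/

set_option autoImplicit false
set_option linter.unusedSectionVars false
set_option linter.unusedVariables false
set_option linter.style.haveILetI false
set_option linter.unusedSimpArgs false

namespace Cfsg.Agent.Lib.BGM2

open Cfsg Subgroup Cfsg.Agent.Lib.CoprimeInv Cfsg.Agent.Lib.BGTrans Cfsg.Agent.Lib.BGSigma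
  Cfsg.Agent.Lib.BGSigma2 Cfsg.Agent.Lib.BGM1
open scoped commutatorElement

universe u

section General

variable {X : Type u} [Group X] [Finite X]

/-- A subgroup is contained in `H` as soon as its `p`-subgroups are. -/
theorem le_of_forall_pgroup_le {Y H : Subgroup X}
    (h : ∀ (p : ℕ) [Fact p.Prime] (Q : Subgroup X), Q ≤ Y → IsPGroup p Q → Q ≤ H) : Y ≤ H := by
  have h1 : H.subgroupOf Y = ⊤ := by
    apply Cfsg.Agent.Lib.PCore.eq_top_of_forall_sylow_le
    intro q _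
    obtain ⟨S⟩ : Nonempty (Sylow q Y) := inferInstance
    refine ⟨S, ?_⟩
    intro y hy
    have h2 := h q ((S : Subgroup Y).map Y.subtype) (Subgroup.map_subtype_le _) (S.isPGroup'.map _)
    exact h2 ⟨y, hy, rfl⟩
  intro y hy
  have : (⟨y, hy⟩ : Y) ∈ H.subgroupOf Y := by rw [h1]; trivial
  exact this

/-- Telescoping. -/
theorem pow_eq_of_fixed {w z t : X} (ht : w * z * w⁻¹ * z⁻¹ = t) (hf : w * t * w⁻¹ = t) (n : ℕ) :
    t ^ n = w ^ n * z * (w ^ n)⁻¹ * z⁻¹ := by
  have hz : w * z * w⁻¹ = t * z := by rw [← ht]; group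
  induction n with
  | zero => simp
  | succ n ih =>
    have h1 : w ^ n * t * (w ^ n)⁻¹ = t := by
      have hc : Commute w t := by
        show w * t = t * w
        calc w * t = (w * t * w⁻¹) * w := by group
          _ = t * w := by rw [hf]
      have := (hc.pow_left n).eq
      calc w ^ n * t * (w ^ n)⁻¹ = t * w ^ n * (w ^ n)⁻¹ := by rw [this]
        _ = t := by group
    calc t ^ (n + 1) = t * t ^ n := by rw [pow_succ']
      _ = t * (w ^ n * z * (w ^ n)⁻¹ * z⁻¹) := by rw [ih]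
      _ = (w ^ n * t * (w ^ n)⁻¹) * (w ^ n * z * (w ^ n)⁻¹) * z⁻¹ := by rw [h1]; group
      _ = w ^ n * (t * z) * (w ^ n)⁻¹ * z⁻¹ := by group
      _ = w ^ n * (w * z * w⁻¹) * (w ^ n)⁻¹ * z⁻¹ := by rw [hz]
      _ = w ^ (n + 1) * z * (w ^ (n + 1))⁻¹ * z⁻¹ := by
        rw [pow_succ]
        group

theorem eq_one_of_isPGroup_of_pow {p : ℕ} [hp : Fact p.Prime] {P : Subgroup X} (hP : IsPGroup p P)
    {t : X} (ht : t ∈ P) {m : ℕ} (hm : m.Coprime p) (h : t ^ m = 1) : t = 1 := by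
  obtain ⟨n, hn⟩ := (IsPGroup.iff_orderOf.mp hP) ⟨t, ht⟩
  have h2 : orderOf t = p ^ n := by
    rw [← Subgroup.orderOf_mk t ht]; exact hn
  have h3 : orderOf t ∣ m := orderOf_dvd_of_pow_eq_one h
  have h4 : orderOf t ∣ p ^ n := by rw [h2]
  have h5 : orderOf t ∣ Nat.gcd m (p ^ n) := Nat.dvd_gcd h3 h4
  rw [Nat.Coprime.gcd_eq_one (Nat.Coprime.pow_right n hm), Nat.dvd_one] at h5
  exact orderOf_eq_one_iff.mp h5

/-- A coprime automorphism of a cyclic `p`-group which is not trivial is fixed point free. -/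
theorem cyclic_coprime_surj {p : ℕ} [hp : Fact p.Prime] {P : Subgroup X} (hP : IsPGroup p P)
    (hc : IsCyclic P) {w : X} (hw : w ∈ normalizer (P : Set X)) (hm : (orderOf w).Coprime p)
    (hnc : w ∉ centralizer (P : Set X)) : ∀ y ∈ P, ∃ z ∈ P, y = w * z * w⁻¹ * z⁻¹ := by
  have hcomm : ∀ a ∈ P, ∀ b ∈ P, a * b = b * a := by
    intro a ha b hb
    have := (IsCyclic.commGroup (α := P)).mul_comm ⟨a, ha⟩ ⟨b, hb⟩
    exact congrArg Subtype.val this
  have hconj : ∀ a ∈ P, w * a * w⁻¹ ∈ P := fun a ha => (mem_normalizer_iff.mp hw a).mp ha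
  have hfP : ∀ a ∈ P, w * a * w⁻¹ * a⁻¹ ∈ P := fun a ha => mul_mem (hconj a ha) (inv_mem ha)
  have hfixed : ∀ z ∈ P, w * (w * z * w⁻¹ * z⁻¹) * w⁻¹ = w * z * w⁻¹ * z⁻¹ →
      w * z * w⁻¹ * z⁻¹ = 1 := by
    intro z hz hf
    apply eq_one_of_isPGroup_of_pow hP (hfP z hz) hm
    rw [pow_eq_of_fixed rfl hf (orderOf w), pow_orderOf_eq_one]
    group
  have hker : ∀ k ∈ P, w * k * w⁻¹ = k → k = 1 := by
    intro k hk hfk
    by_contra hk1
    -- a moved element
    rw [Subgroup.mem_centralizer_iff] at hnc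
    push Not at hnc
    obtain ⟨y₀, hy₀, hmove⟩ := hnc
    set t₁ := w * y₀ * w⁻¹ * y₀⁻¹ with ht₁
    have ht₁P : t₁ ∈ P := hfP y₀ hy₀
    have ht₁1 : t₁ ≠ 1 := by
      intro h
      apply hmove
      calc y₀ * w = (w * y₀ * w⁻¹ * y₀⁻¹)⁻¹ * (w * y₀) := by group
        _ = w * y₀ := by rw [← ht₁, h]; group
    have hcmp : zpowers t₁ ≤ zpowers k ∨ zpowers k ≤ zpowers t₁ :=
      Cfsg.Agent.Lib.BGUT3.comparable_in_cyc hc hP (zpowers_le.mpr ht₁P) (zpowers_le.mpr hk)
    rcases hcmp with h | h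
    · -- `t₁` is fixed
      obtain ⟨j, hj⟩ := mem_zpowers_iff.mp (h (mem_zpowers t₁))
      have hf : w * t₁ * w⁻¹ = t₁ := by
        rw [← hj, ← conj_zpow, hfk]
      exact ht₁1 (hfixed y₀ hy₀ hf)
    · -- `k` is in the image
      obtain ⟨j, hj⟩ := mem_zpowers_iff.mp (h (mem_zpowers k))
      have hyj : y₀ ^ j ∈ P := zpow_mem hy₀ j
      have himg : w * y₀ ^ j * w⁻¹ * (y₀ ^ j)⁻¹ = k := by
        rw [← hj, ht₁]
        have hcj : ∀ n : ℤ, (w * y₀ * w⁻¹ * y₀⁻¹) ^ n = w * y₀ ^ n * w⁻¹ * (y₀ ^ n)⁻¹ := by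
          intro n
          have hA : Commute (w * y₀ * w⁻¹) y₀⁻¹ := by
            show (w * y₀ * w⁻¹) * y₀⁻¹ = y₀⁻¹ * (w * y₀ * w⁻¹)
            exact hcomm _ (hconj y₀ hy₀) _ (inv_mem hy₀)
          rw [hA.mul_zpow, ← conj_zpow, inv_zpow]
        rw [hcj]
      have hf : w * (w * y₀ ^ j * w⁻¹ * (y₀ ^ j)⁻¹) * w⁻¹ = w * y₀ ^ j * w⁻¹ * (y₀ ^ j)⁻¹ := by
        rw [himg, hfk]
      exact hk1 (by rw [← himg]; exact hfixed _ hyj hf)
  -- bijectivity
  let f : P → P := fun z => ⟨w * z * w⁻¹ * (z : X)⁻¹, hfP z z.2⟩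
  have hinj : Function.Injective f := by
    intro a b hab
    have h1 : w * (a : X) * w⁻¹ * (a : X)⁻¹ = w * (b : X) * w⁻¹ * (b : X)⁻¹ := congrArg Subtype.val hab
    have hA : w * (a : X) * w⁻¹ ∈ P := hconj a a.2
    have hB : w * (b : X) * w⁻¹ ∈ P := hconj b b.2
    have h2 : w * ((b : X)⁻¹ * a) * w⁻¹ = (b : X)⁻¹ * a := by
      have h3 : w * ((b : X)⁻¹ * a) * w⁻¹ = (w * (b : X) * w⁻¹)⁻¹ * (w * (a : X) * w⁻¹) := by group
      rw [h3]
      have h4 : w * (a : X) * w⁻¹ = (w * (b : X) * w⁻¹) * ((b : X)⁻¹ * a) := by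
        have : w * (a : X) * w⁻¹ = (w * (a : X) * w⁻¹ * (a : X)⁻¹) * a := by group
        rw [this, h1]
        group
      rw [h4]
      group
    have h5 := hker _ (mul_mem (inv_mem b.2) a.2) h2
    apply Subtype.ext
    have : (b : X)⁻¹ * a = 1 := h5
    rw [inv_mul_eq_one] at this
    exact this.symm
  have hsurj : Function.Surjective f := Finite.injective_iff_surjective.mp hinj
  intro y hy
  obtain ⟨z, hz⟩ := hsurj ⟨y, hy⟩
  exact ⟨z, z.2, (congrArg Subtype.val hz).symm⟩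

/-- A cyclic Sylow subgroup not meeting the derived group trivially lies in the derived group. -/
theorem sylow_le_commutator_of_cyclic {p : ℕ} [hp : Fact p.Prime] (P : Sylow p X)
    (hc : IsCyclic (P : Subgroup X)) (hd : p ∣ Nat.card (commutator X)) :
    (P : Subgroup X) ≤ commutator X := by
  have hcomm : ∀ a ∈ (P : Subgroup X), ∀ b ∈ (P : Subgroup X), a * b = b * a := by
    intro a ha b hb
    have := (IsCyclic.commGroup (α := (P : Subgroup X))).mul_comm ⟨a, ha⟩ ⟨b, hb⟩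
    exact congrArg Subtype.val this
  by_cases hN : normalizer ((P : Subgroup X) : Set X) ≤ centralizer ((P : Subgroup X) : Set X)
  · exfalso
    have hnd := MonoidHom.not_dvd_card_ker_transferSylow P hN
    apply hnd
    refine hd.trans (Subgroup.card_dvd_of_le ?_)
    rw [commutator_def, Subgroup.commutator_le]
    intro a _ b _
    rw [MonoidHom.mem_ker, map_commutatorElement, commutatorElement_eq_one_iff_mul_comm]
    apply Subtype.ext
    exact hcomm _ (MonoidHom.transferSylow P hN a).2 _ (MonoidHom.transferSylow P hN b).2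
  · obtain ⟨g, hgN, hgC⟩ := Set.not_subset.mp hN
    obtain ⟨a, m, hm, hn⟩ := Nat.exists_eq_pow_mul_and_not_dvd (n := orderOf g)
      (orderOf_pos g).ne' p hp.out.ne_one
    have hmc : m.Coprime p := ((Nat.Prime.coprime_iff_not_dvd hp.out).mpr hm).symm
    have hu : IsPGroup p (zpowers (g ^ m)) := by
      rw [IsPGroup.iff_card, Nat.card_zpowers]
      refine ⟨a, ?_⟩
      rw [orderOf_pow, hn]
      rw [Nat.gcd_eq_right (Dvd.intro_left _ rfl)]
      have hm0 : 0 < m := Nat.pos_of_ne_zero (by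
        rintro rfl
        simp at hm)
      exact Nat.mul_div_cancel _ hm0
    have huN : zpowers (g ^ m) ≤ normalizer ((P : Subgroup X) : Set X) :=
      zpowers_le.mpr (pow_mem hgN m)
    have hsup : IsPGroup p ↥(zpowers (g ^ m) ⊔ (P : Subgroup X)) :=
      IsPGroup.to_sup_of_normal_right' hu P.isPGroup' huN
    have huP : g ^ m ∈ (P : Subgroup X) := by
      have h1 := P.is_maximal' hsup le_sup_right
      have h2 : g ^ m ∈ zpowers (g ^ m) ⊔ (P : Subgroup X) :=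
        Subgroup.mem_sup_left (mem_zpowers _)
      rw [h1] at h2
      exact h2
    have huC : g ^ m ∈ centralizer ((P : Subgroup X) : Set X) := by
      rw [Subgroup.mem_centralizer_iff]
      intro y hy
      exact hcomm _ hy _ huP
    have hwC : g ^ p ^ a ∉ centralizer ((P : Subgroup X) : Set X) := by
      intro hw
      apply hgC
      have hgcd : Nat.Coprime (p ^ a) m := Nat.Coprime.pow_left a hmc.symm
      have h3 : g = (g ^ p ^ a) ^ (Nat.gcdA (p ^ a) m) * (g ^ m) ^ (Nat.gcdB (p ^ a) m) := by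
        have h4 := Nat.gcd_eq_gcd_ab (p ^ a) m
        rw [hgcd] at h4
        have h5 : ((1 : ℕ) : ℤ) = ((p ^ a : ℕ) : ℤ) * Nat.gcdA (p ^ a) m + (m : ℤ) * Nat.gcdB (p ^ a) m := h4
        calc g = g ^ ((1 : ℕ) : ℤ) := by simp
          _ = _ := by
            rw [h5, zpow_add, zpow_mul, zpow_mul, zpow_natCast, zpow_natCast]
      rw [h3]
      exact mul_mem (zpow_mem hw _) (zpow_mem huC _)
    have hwo : (orderOf (g ^ p ^ a)).Coprime p := by
      have h1 : orderOf (g ^ p ^ a) ∣ m := by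
        apply orderOf_dvd_of_pow_eq_one
        rw [← pow_mul, ← hn, pow_orderOf_eq_one]
      exact Nat.Coprime.coprime_dvd_left h1 hmc
    have hsurj := cyclic_coprime_surj P.isPGroup' hc (pow_mem hgN _) hwo hwC
    intro y hy
    obtain ⟨z, hz, rfl⟩ := hsurj y hy
    exact Subgroup.commutator_mem_commutator (Subgroup.mem_top _) (Subgroup.mem_top _)

end General


section Compl

variable {G : Type u} [Group G] [Finite G] {M E : Subgroup G}


theorem card_compl (hE : IsComplIn E (sigmaCore M) M) :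
    Nat.card E * Nat.card (sigmaCore M) = Nat.card M :=
  Cfsg.Agent.Lib.OddOrderCore.card_mul_card_of_isComplIn hE

theorem relIndex_eq_card_compl (hE : IsComplIn E (sigmaCore M) M) :
    (sigmaCore M).relIndex M = Nat.card E := by
  have h1 := card_compl hE
  have h2 : Nat.card ((sigmaCore M).subgroupOf M) * ((sigmaCore M).subgroupOf M).index = Nat.card M :=
    Subgroup.card_mul_index _
  rw [card_subgroupOf_of_le sigmaCore_le] at h2
  have h3 : ((sigmaCore M).subgroupOf M).index = (sigmaCore M).relIndex M := rfl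
  rw [h3] at h2
  have h4 : 0 < Nat.card (sigmaCore M) := Nat.card_pos
  have h5 : Nat.card (sigmaCore M) * (sigmaCore M).relIndex M = Nat.card (sigmaCore M) * Nat.card E := by
    rw [h2, ← h1, mul_comm]
  exact Nat.eq_of_mul_eq_mul_left h4 h5

theorem not_dvd_compl (hG : IsMinSimpleOddOrder G) (hM : IsCoatom M) (hE : IsComplIn E (sigmaCore M) M)
    {p : ℕ} (hp : p ∈ sigma M) : ¬ p ∣ Nat.card E := by
  rw [← relIndex_eq_card_compl hE]
  exact (sigma_hall hG hM).1.2.2 p hp.1 hp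

theorem compl_le (hE : IsComplIn E (sigmaCore M) M) : E ≤ M := hE.1

theorem not_dvd_sigmaCore {M : Subgroup G} {p : ℕ} (hpp : p.Prime) (hp : p ∉ sigma M) :
    ¬ p ∣ Nat.card (sigmaCore M) := fun h => hp (primes_sigmaCore p hpp h)

/-- A complement of `M_σ` has rank at most two. -/
theorem rankLE_compl (hG : IsMinSimpleOddOrder G) (hM : IsCoatom M) (hE : IsComplIn E (sigmaCore M) M) :
    RankLE 2 E := by
  intro q hq
  haveI : Fact q.Prime := ⟨hq⟩
  rw [prankLE_iff]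
  intro A hAE hAc hAe
  by_cases hqs : q ∈ sigma M
  · have hAp : IsPGroup q A := fun a => ⟨1, Subtype.ext (by simpa using hAe a a.2)⟩
    have hA1 : A = ⊥ := by
      by_contra hne
      exact not_dvd_compl hG hM hE hqs
        ((Cfsg.Agent.Lib.BGUniq2.dvd_card_of_isPGroup hAp hne).trans (Subgroup.card_dvd_of_le hAE))
    rw [hA1, Subgroup.card_bot]
    exact Nat.one_le_pow _ _ hq.pos
  · have h1 := (prankLE_iff (S := M)).mp (sigma_hyp hG hM q hq hqs)
    exact h1 A (hAE.trans hE.1) hAc hAe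

theorem solvable_of_le_coatom (hG : IsMinSimpleOddOrder G) (hM : IsCoatom M) (hEM : E ≤ M) :
    Group.IsSolvable E := IsMin.solvable hG (fun h => hM.1 (top_le_iff.mp (h ▸ hEM)))

theorem le_normalizer_self_commutator (E : Subgroup G) : E ≤ normalizer ((⁅E, E⁆ : Subgroup G) : Set G) := by
  intro a ha
  rw [Subgroup.mem_normalizer_iff_map_conj_eq, Subgroup.map_commutator]
  have h2 := Subgroup.mem_normalizer_iff_map_conj_eq.mp (Subgroup.le_normalizer ha)
  rw [h2]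

theorem card_commutator_eq (E : Subgroup G) : Nat.card (commutator E) = Nat.card ↥⁅E, E⁆ := by
  rw [← Subgroup.map_subtype_commutator E, Subgroup.card_map_of_injective E.subtype_injective]

/-- `E'` is nilpotent. -/
theorem nilpotent_commutator_compl (hG : IsMinSimpleOddOrder G) (hM : IsCoatom M)
    (hE : IsComplIn E (sigmaCore M) M) : Group.IsNilpotent ↥⁅E, E⁆ := by
  haveI := solvable_of_le_coatom hG hM hE.1
  have h := (Cfsg.Agent.S1451.result (G := E) (odd_card_of_le hG E) (Or.inl (rankLE_compl hG hM hE))).1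
  rw [← Subgroup.map_subtype_commutator E]
  exact Group.nilpotent_of_mulEquiv (Subgroup.equivMapOfInjective _ _ E.subtype_injective)

/-- Subgroups with all `p`-ranks at most one are `Z`-groups. -/
theorem isZGroup_of_prank (hG : IsMinSimpleOddOrder G) {H : Subgroup G}
    (h : ∀ p : ℕ, p.Prime → p ∣ Nat.card H → PRankLE p 1 H) : IsZGroup H := by
  constructor
  intro p hp P
  haveI : Fact p.Prime := ⟨hp⟩
  by_cases hd : p ∣ Nat.card H
  · have hp2 : p ≠ 2 := Cfsg.Agent.Lib.BGUniq2.prime_ne_two_of_dvd hG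
      (hd.trans (Subgroup.card_subgroup_dvd_card H))
    exact Cfsg.Agent.Lib.BGSigma4.isCyclic_of_prank_one hp2 P.isPGroup'
      (prankLE_of_subgroup (h p hp hd) _)
  · have h1 : (P : Subgroup H) = ⊥ := by
      by_contra hne
      exact hd ((Cfsg.Agent.Lib.BGUniq2.dvd_of_isPGroup (G := H) P.isPGroup' hne))
    have h2 : Nat.card (P : Subgroup H) = 1 := by rw [h1, Subgroup.card_bot]
    haveI := Finite.card_le_one_iff_subsingleton.mp h2.le
    infer_instance

/-- The elements of a Hall `τ₁`-subgroup of `E` generate a cyclic group. -/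
theorem tau1_cyclic (hG : IsMinSimpleOddOrder G) (hM : IsCoatom M)
    (hE : IsComplIn E (sigmaCore M) M) {E₁ : Subgroup G} (h₁ : IsPiHallOf (tau1 M) E₁ E) : IsCyclic E₁ := by
  obtain ⟨hE₁E, hE₁p, -⟩ := h₁
  have hE₁M : E₁ ≤ M := hE₁E.trans hE.1
  have hinf : E₁ ⊓ ⁅M, M⁆ = ⊥ := by
    rw [eq_bot_iff]
    intro x hx
    rw [Subgroup.mem_bot]
    by_contra hx1
    have hord : orderOf x ≠ 1 := fun h => hx1 (orderOf_eq_one_iff.mp h)
    obtain ⟨q, hq, hqd⟩ := Nat.exists_prime_and_dvd hord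
    have h1 : q ∣ Nat.card E₁ := hqd.trans (Subgroup.orderOf_dvd_natCard E₁ hx.1)
    have h2 : q ∣ Nat.card ↥⁅M, M⁆ := hqd.trans (Subgroup.orderOf_dvd_natCard _ hx.2)
    exact (hE₁p q hq h1).2.2.2.1 h2
  have hab : ∀ a ∈ E₁, ∀ b ∈ E₁, a * b = b * a := by
    intro a ha b hb
    have h1 : ⁅a, b⁆ ∈ E₁ ⊓ ⁅M, M⁆ := by
      refine Subgroup.mem_inf.mpr ⟨?_, Subgroup.commutator_mem_commutator (hE₁M ha) (hE₁M hb)⟩
      rw [commutatorElement_def]
      exact mul_mem (mul_mem (mul_mem ha hb) (inv_mem ha)) (inv_mem hb)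
    rw [hinf, Subgroup.mem_bot] at h1
    exact commutatorElement_eq_one_iff_mul_comm.mp h1
  haveI hZ : IsZGroup E₁ := isZGroup_of_prank hG (fun p hp hd =>
    haveI : Fact p.Prime := ⟨hp⟩
    Cfsg.Agent.Lib.BGUniq3.prankLE_of_le hE₁M (hE₁p p hp hd).2.2.2.2)
  letI : CommGroup E₁ :=
    { (inferInstance : Group E₁) with
      mul_comm := fun a b => Subtype.ext (hab a a.2 b b.2) }
  exact inferInstance

/-- `M' ≤ M_σ E'`. -/
theorem commutator_le_sup (hE : IsComplIn E (sigmaCore M) M) : ⁅M, M⁆ ≤ sigmaCore M ⊔ ⁅E, E⁆ := by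
  obtain ⟨hEM, hSM, hinf, hmul⟩ := hE
  have hn : ∀ m ∈ M, ∀ s ∈ sigmaCore M, m * s * m⁻¹ ∈ sigmaCore M := fun m hm s hs =>
    (mem_normalizer_iff.mp (le_normalizer_sigmaCore hm) s).mp hs
  have hS : ∀ s ∈ sigmaCore M, s ∈ sigmaCore M ⊔ ⁅E, E⁆ := fun s hs => Subgroup.mem_sup_left hs
  rw [Subgroup.commutator_le]
  intro a ha b hb
  obtain ⟨e, he, s, hs, rfl⟩ := hmul a ha
  obtain ⟨e', he', s', hs', rfl⟩ := hmul b hb
  have key : ⁅e * s, e' * s'⁆ =
      (e * s * e⁻¹) * (e * e' * e⁻¹ * e'⁻¹) * (e' * ((e * (s' * s⁻¹) * e⁻¹) * s'⁻¹) * e'⁻¹) := by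
    simp only [commutatorElement_def]
    group
  have h1 : e * s * e⁻¹ ∈ sigmaCore M := hn _ (hEM he) _ hs
  have h4 : e * e' * e⁻¹ * e'⁻¹ ∈ ⁅E, E⁆ := Subgroup.commutator_mem_commutator he he'
  have h3 : e' * ((e * (s' * s⁻¹) * e⁻¹) * s'⁻¹) * e'⁻¹ ∈ sigmaCore M := by
    apply hn _ (hEM he')
    exact mul_mem (hn _ (hEM he) _ (mul_mem hs' (inv_mem hs))) (inv_mem hs')
  rw [key]
  exact mul_mem (mul_mem (hS _ h1) (Subgroup.mem_sup_right h4)) (hS _ h3)

/-- `τ₃` primes divide `E'`. -/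
theorem tau3_dvd (hE : IsComplIn E (sigmaCore M) M) {p : ℕ} (hp : p ∈ tau3 M) :
    p ∣ Nat.card ↥⁅E, E⁆ := by
  obtain ⟨hpp, hps, hd, -⟩ := hp
  have h1 : p ∣ Nat.card ↥(sigmaCore M ⊔ ⁅E, E⁆) := hd.trans (Subgroup.card_dvd_of_le (commutator_le_sup hE))
  have hinf : sigmaCore M ⊓ ⁅E, E⁆ = ⊥ := by
    rw [eq_bot_iff, ← hE.2.2.1, inf_comm E]
    exact inf_le_inf_left _ (Subgroup.commutator_le_self E)
  have hnorm : ⁅E, E⁆ ≤ normalizer (sigmaCore M : Set G) :=
    (Subgroup.commutator_le_self E).trans (hE.1.trans le_normalizer_sigmaCore)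
  have h2 := card_sup_mul_card_inf hnorm
  rw [sup_comm, inf_comm, hinf, Subgroup.card_bot, mul_one] at h2
  rw [h2] at h1
  rcases (Nat.Prime.dvd_mul hpp).mp h1 with h | h
  · exact h
  · exact absurd h (not_dvd_sigmaCore hpp hps)

/-- `p`-subgroups of `E`, for `p ∈ τ₃`, lie in `E'`. -/
theorem tau3_le_commutator (hG : IsMinSimpleOddOrder G) (hM : IsCoatom M)
    (hE : IsComplIn E (sigmaCore M) M) {p : ℕ} [hf : Fact p.Prime] (hp : p ∈ tau3 M) {Q : Subgroup G}
    (hQE : Q ≤ E) (hQ : IsPGroup p Q) : Q ≤ ⁅E, E⁆ := by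
  obtain ⟨S, hS, hQS⟩ := exists_isSylowIn_ge p hQE hQ
  have hp2 : p ≠ 2 := Cfsg.Agent.Lib.BGUniq2.prime_ne_two_of_dvd hG
    ((tau3_dvd hE hp).trans (Subgroup.card_subgroup_dvd_card _))
  have hSM : S ≤ M := hS.1.trans hE.1
  have hcS : IsCyclic S := Cfsg.Agent.Lib.BGSigma4.isCyclic_of_prank_one hp2 hS.2.1
    (Cfsg.Agent.Lib.BGUniq3.prankLE_of_le hSM hp.2.2.2)
  let P : Sylow p E := hS.toSylow
  have hcP : IsCyclic (P : Subgroup E) := by
    have e : (P : Subgroup E) = S.subgroupOf E := rfl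
    rw [e]
    exact isCyclic_of_surjective _ (Subgroup.subgroupOfEquivOfLe hS.1).symm.surjective
  have hd : p ∣ Nat.card (commutator E) := by
    rw [card_commutator_eq]
    exact tau3_dvd hE hp
  have h1 := sylow_le_commutator_of_cyclic P hcP hd
  intro x hx
  have h2 : (⟨x, hS.1 (hQS hx)⟩ : E) ∈ (P : Subgroup E) := hQS hx
  have h3 := h1 h2
  rw [← Subgroup.map_subtype_commutator E]
  exact ⟨_, h3, rfl⟩

theorem sylow_of_nilpotent_le {N : Subgroup G} (hN : Group.IsNilpotent N) {p : ℕ} [Fact p.Prime]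
    {T Q : Subgroup G} (hT : IsSylowIn p T N) (hQN : Q ≤ N) (hQ : IsPGroup p Q) : Q ≤ T := by
  have hnorm : (hT.toSylow : Subgroup N).Normal :=
    (Group.isNilpotent_of_finite_tfae (G := N)).out 0 3 rfl rfl |>.1 hN p inferInstance hT.toSylow
  have hR : IsPGroup p (Q.subgroupOf N) :=
    hQ.of_injective (Subgroup.subgroupOfEquivOfLe hQN).toMonoidHom
      (Subgroup.subgroupOfEquivOfLe hQN).injective
  obtain ⟨P', hP'⟩ := hR.exists_le_sylow
  letI := Sylow.unique_of_normal hT.toSylow hnorm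
  have h1 : P' = hT.toSylow := Subsingleton.elim _ _
  subst h1
  intro x hx
  have h2 : (⟨x, hQN hx⟩ : N) ∈ Q.subgroupOf N := hx
  exact hP' h2

/-- A Sylow subgroup of a Hall subgroup is maximal among the `p`-subgroups of the big group. -/
theorem isSylowIn_of_hall {p : ℕ} [hp : Fact p.Prime] {S H K : Subgroup G} (hS : IsSylowIn p S H)
    (hHK : H ≤ K) (hi : ¬ p ∣ H.relIndex K) : IsSylowIn p S K := by
  refine ⟨hS.1.trans hHK, hS.2.1, ?_⟩
  intro R hRK hRp hSR
  have h0 : ¬ p ∣ S.relIndex H := hS.toSylow.not_dvd_index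
  have h1 : S.relIndex H * H.relIndex K = S.relIndex K := Subgroup.relIndex_mul_relIndex S H K hS.1 hHK
  have h2 : ¬ p ∣ S.relIndex K := by
    rw [← h1]
    intro h
    rcases (Nat.Prime.dvd_mul hp.out).mp h with h | h
    · exact h0 h
    · exact hi h
  have h3 : S.relIndex R * R.relIndex K = S.relIndex K := Subgroup.relIndex_mul_relIndex S R K hSR hRK
  have h4 : ¬ p ∣ S.relIndex R := fun h => h2 (by rw [← h3]; exact h.trans (Dvd.intro _ rfl))
  obtain ⟨k, hk⟩ := IsPGroup.iff_card.mp hRp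
  have h5 : S.relIndex R ∣ Nat.card R := Subgroup.relIndex_dvd_card _ _
  rw [hk] at h5
  obtain ⟨j, -, hj⟩ := (Nat.dvd_prime_pow hp.out).mp h5
  have h6 : S.relIndex R = 1 := by
    rw [hj] at h4 ⊢
    rcases j with _ | j
    · simp
    · exact absurd (dvd_pow_self p (Nat.succ_ne_zero j)) h4
  exact le_antisymm (Subgroup.relIndex_eq_one.mp h6) hSR

/-- `E₃` is cyclic, contained in `E'` and normal in `E`. -/
theorem tau3_structure (hG : IsMinSimpleOddOrder G) (hM : IsCoatom M)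
    (hE : IsComplIn E (sigmaCore M) M) {E₃ : Subgroup G} (h₃ : IsPiHallOf (tau3 M) E₃ E) :
    IsCyclic E₃ ∧ E₃ ≤ ⁅E, E⁆ ∧ E ≤ normalizer (E₃ : Set G) := by
  obtain ⟨hE₃E, hE₃p, hE₃i⟩ := h₃
  have hE₃M : E₃ ≤ M := hE₃E.trans hE.1
  have hNnil := nilpotent_commutator_compl hG hM hE
  have hle : E₃ ≤ ⁅E, E⁆ := by
    apply le_of_forall_pgroup_le
    intro p _ Q hQ hQp
    by_cases hQ1 : Q = ⊥
    · rw [hQ1]; exact bot_le
    · have hd : p ∣ Nat.card E₃ :=
        (Cfsg.Agent.Lib.BGUniq2.dvd_card_of_isPGroup hQp hQ1).trans (Subgroup.card_dvd_of_le hQ)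
      exact tau3_le_commutator hG hM hE (hE₃p p Fact.out hd) (hQ.trans hE₃E) hQp
  have hnE₃ : Group.IsNilpotent E₃ := Cfsg.Agent.Lib.CNGroup.nilpotent_of_le hle hNnil
  haveI hZ : IsZGroup E₃ := isZGroup_of_prank hG (fun p hp hd =>
    haveI : Fact p.Prime := ⟨hp⟩
    Cfsg.Agent.Lib.BGUniq3.prankLE_of_le hE₃M (hE₃p p hp hd).2.2.2)
  refine ⟨inferInstance, hle, ?_⟩
  intro e he
  apply mem_normalizer_of_cj_eq
  apply Subgroup.eq_of_le_of_card_ge _ (by rw [card_cj])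
  apply le_of_forall_pgroup_le
  intro p _ Q hQ hQp
  by_cases hQ1 : Q = ⊥
  · rw [hQ1]; exact bot_le
  have hd : p ∣ Nat.card E₃ := by
    rw [← card_cj E₃ e]
    exact (Cfsg.Agent.Lib.BGUniq2.dvd_card_of_isPGroup hQp hQ1).trans (Subgroup.card_dvd_of_le hQ)
  have hpτ := hE₃p p Fact.out hd
  have hQN : Q ≤ ⁅E, E⁆ := by
    intro x hx
    have h1 := hQ hx
    rw [mem_cj] at h1
    have h2 := hle h1
    have h4 : e ∈ normalizer ((⁅E, E⁆ : Subgroup G) : Set G) := le_normalizer_self_commutator E he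
    have h5 := (mem_normalizer_iff.mp h4 _).mp h2
    have : e * (e⁻¹ * x * e) * e⁻¹ = x := by group
    rwa [this] at h5
  obtain ⟨S, hS⟩ := exists_isSylowIn p E₃
  obtain ⟨T, hT, hST⟩ := exists_isSylowIn_ge p (hS.1.trans hle) hS.2.1
  have hSE : IsSylowIn p S E := isSylowIn_of_hall hS hE₃E (hE₃i p Fact.out hpτ)
  have hTS : T = S := hSE.2.2 T (hT.1.trans (Subgroup.commutator_le_self E)) hT.2.1 hST
  have h1 := sylow_of_nilpotent_le hNnil hT hQN hQp
  rw [hTS] at h1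
  exact h1.trans hS.1

end Compl

end Cfsg.Agent.Lib.BGM2
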