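import Mathlib
import Cfsg.Agent.Lib.BGM2
import Cfsg.Agent.Lib.NPCBasic
import Cfsg.Agent.Lib.NarrowAct
import Cfsg.Agent.S1410
import Cfsg.Agent.S1455

/-!
# Bender-Glauberman section 12: `β(M)` and nilpotent Hall subgroups.
-/

set_option autoImplicit false
set_option linter.unusedSectionVars false
set_option linter.unusedVariables false
set_option linter.style.haveILetI false
set_option linter.unusedSimpArgs false

namespace Cfsg.Agent.Lib.BGM3

open Cfsg Subgroup Cfsg.Agent.Lib.CoprimeInv Cfsg.Agent.Lib.BGTrans Cfsg.Agent.Lib.BGSigma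
  Cfsg.Agent.Lib.BGSigma2 Cfsg.Agent.Lib.BGM1 Cfsg.Agent.Lib.BGM2

universe u

section General

variable {X : Type u} [Group X] [Finite X]

theorem primes_of_isPGroup {r : ℕ} (hr : r.Prime) {Y : Subgroup X} (hY : IsPGroup r Y) :
    ∀ q : ℕ, q.Prime → q ∣ Nat.card Y → q = r := by
  intro q hq hd
  haveI : Fact r.Prime := ⟨hr⟩
  obtain ⟨k, hk⟩ := IsPGroup.iff_card.mp hY
  rw [hk] at hd
  exact (Nat.prime_dvd_prime_iff_eq hq hr).mp (hq.dvd_of_dvd_pow hd)

/-- Normal `q`-complements for all primes outside `π` give a largest `π`-subgroup and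
a nilpotent Hall `π'`-subgroup. -/
theorem exists_nilpotent_hall (π : Set ℕ)
    (h : ∀ q : ℕ, q.Prime → q ∉ π → q ∣ Nat.card X → HasNormalPComplement q X) :
    ∃ D : Subgroup X, (∀ q : ℕ, q.Prime → q ∣ Nat.card D → q ∈ π) ∧
      (∀ Y : Subgroup X, (∀ q : ℕ, q.Prime → q ∣ Nat.card Y → q ∈ π) → Y ≤ D) ∧
      ∃ H : Subgroup X, (∀ q : ℕ, q.Prime → q ∣ Nat.card H → q ∉ π) ∧
        (∀ q : ℕ, q.Prime → q ∉ π → ¬ q ∣ H.index) ∧ Group.IsNilpotent H := by
  classical
  have key : ∀ q : ℕ, ∃ N : Subgroup X, N.Normal ∧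
      (q.Prime → q ∉ π → q ∣ Nat.card X → (Nat.card N).Coprime q ∧ ∃ k : ℕ, N.index = q ^ k) ∧
      (¬ (q.Prime ∧ q ∉ π ∧ q ∣ Nat.card X) → N = ⊤) := by
    intro q
    by_cases hq : q.Prime ∧ q ∉ π ∧ q ∣ Nat.card X
    · haveI : Fact q.Prime := ⟨hq.1⟩
      obtain ⟨N, hN, hc, k, hk⟩ := Cfsg.Agent.Lib.NPCBasic.hasNPC_iff.mp (h q hq.1 hq.2.1 hq.2.2)
      exact ⟨N, hN, fun _ _ _ => ⟨hc, k, hk⟩, fun h' => absurd hq h'⟩
    · exact ⟨⊤, inferInstance, fun a b c => absurd ⟨a, b, c⟩ hq, fun _ => rfl⟩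
  choose N hNn hN1 hN2 using key
  haveI : ∀ q, (N q).Normal := hNn
  let D : Subgroup X := ⨅ q, N q
  have hDN : ∀ q, D ≤ N q := fun q => iInf_le _ q
  have hDn : D.Normal := ⟨fun n hn g => mem_iInf.mpr fun q => (hNn q).conj_mem n (mem_iInf.mp hn q) g⟩
  have hY : ∀ Y : Subgroup X, (∀ q : ℕ, q.Prime → q ∣ Nat.card Y → q ∈ π) → Y ≤ D := by
    intro Y hYp
    refine le_iInf fun q => ?_
    by_cases hq : q.Prime ∧ q ∉ π ∧ q ∣ Nat.card X
    · obtain ⟨hc, k, hk⟩ := hN1 q hq.1 hq.2.1 hq.2.2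
      have h1 : (N q).relIndex Y ∣ (N q).index := Subgroup.relIndex_dvd_index_of_normal _ _
      have h2 : (N q).relIndex Y ∣ Nat.card Y := Subgroup.relIndex_dvd_card _ _
      have h3 : (N q).relIndex Y = 1 := by
        rw [hk] at h1
        obtain ⟨j, hj, hjq⟩ := (Nat.dvd_prime_pow hq.1).mp h1
        by_contra hne
        have hj0 : j ≠ 0 := by
          rintro rfl
          exact hne (by simpa using hjq)
        have h4 : q ∣ (N q).relIndex Y := by
          rw [hjq]
          exact dvd_pow_self q hj0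
        exact hq.2.1 (hYp q hq.1 (h4.trans h2))
      exact Subgroup.relIndex_eq_one.mp h3
    · rw [hN2 q hq]
      exact le_top
  have hDp : ∀ q : ℕ, q.Prime → q ∣ Nat.card D → q ∈ π := by
    intro q hq hd
    by_contra hqπ
    have hdX : q ∣ Nat.card X := hd.trans (Subgroup.card_subgroup_dvd_card D)
    obtain ⟨hc, -⟩ := hN1 q hq hqπ hdX
    have h1 : q ∣ Nat.card (N q) := hd.trans (Subgroup.card_dvd_of_le (hDN q))
    have h2 := Nat.Coprime.eq_one_of_dvd hc.symm h1
    exact hq.one_lt.ne' h2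
  have hDi : ∀ r : ℕ, r.Prime → r ∈ π → ¬ r ∣ D.index := by
    intro r hr hrπ hd
    haveI : Fact r.Prime := ⟨hr⟩
    obtain ⟨S⟩ : Nonempty (Sylow r X) := inferInstance
    have hS : (S : Subgroup X) ≤ D := by
      apply hY
      intro q hq hd'
      rw [primes_of_isPGroup hr S.isPGroup' q hq hd']
      exact hrπ
    exact S.not_dvd_index (hd.trans (Subgroup.index_dvd_of_le hS))
  have hcop : (Nat.card D).Coprime D.index := by
    apply Nat.coprime_of_dvd
    intro k hk h1 h2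
    exact hDi k hk (hDp k hk h1) h2
  obtain ⟨H, hH⟩ := Subgroup.exists_right_complement'_of_coprime hcop
  have hcH : Nat.card H = D.index := by
    have h1 := hH.card_mul_card
    have h2 := Subgroup.card_mul_index D
    exact Nat.eq_of_mul_eq_mul_left Nat.card_pos (h1.trans h2.symm)
  have hiH : H.index = Nat.card D := by
    have h1 := hH.card_mul_card
    have h2 := Subgroup.card_mul_index H
    rw [mul_comm] at h1
    exact Nat.eq_of_mul_eq_mul_left Nat.card_pos (h2.trans h1.symm)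
  refine ⟨D, hDp, hY, H, ?_, ?_, ?_⟩
  · intro q hq hd hqπ
    rw [hcH] at hd
    exact hDi q hq hqπ hd
  · intro q hq hqπ hd
    rw [hiH] at hd
    exact hqπ (hDp q hq hd)
  · -- nilpotence
    haveI hnil : ∀ q, Group.IsNilpotent (X ⧸ N q) := by
      intro q
      by_cases hq : q.Prime ∧ q ∉ π ∧ q ∣ Nat.card X
      · obtain ⟨hc, k, hk⟩ := hN1 q hq.1 hq.2.1 hq.2.2
        haveI : Fact q.Prime := ⟨hq.1⟩
        have hp : IsPGroup q (X ⧸ N q) := by
          apply IsPGroup.of_card (n := k)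
          rw [← hk]
          rfl
        exact hp.isNilpotent
      · haveI : Subsingleton (X ⧸ N q) := by
          rw [hN2 q hq]
          exact QuotientGroup.subsingleton_quotient_top
        infer_instance
    let φ : H →* ((q : ↥(Nat.card X).primeFactors) → X ⧸ N q) :=
      (MonoidHom.pi fun q : ↥(Nat.card X).primeFactors => QuotientGroup.mk' (N q)).comp H.subtype
    refine Subgroup.isNilpotent_of_ker_le_center φ ?_
    intro x hx
    have hxD : (x : X) ∈ D := by
      refine mem_iInf.mpr fun q => ?_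
      by_cases hq : q.Prime ∧ q ∉ π ∧ q ∣ Nat.card X
      · have hmem : q ∈ (Nat.card X).primeFactors :=
          Nat.mem_primeFactors.mpr ⟨hq.1, hq.2.2, Nat.card_pos.ne'⟩
        have h1 := congrFun (MonoidHom.mem_ker.mp hx) ⟨q, hmem⟩
        exact (QuotientGroup.eq_one_iff _).mp h1
      · rw [hN2 q hq]
        trivial
    have hx1 : (x : X) = 1 := by
      have hdisj := hH.disjoint
      exact Subgroup.disjoint_def.mp hdisj hxD x.2
    have : x = 1 := Subtype.ext hx1
    rw [this]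
    exact one_mem _

end General

variable {G : Type u} [Group G] [Finite G] {M : Subgroup G}

theorem isNarrow_sylow_top {p : ℕ} [hp : Fact p.Prime] (hp2 : p ≠ 2) (hn : ¬ IsIdealPrime p G)
    (hr : ¬ PRankLE p 2 G) : ∃ P : Sylow p G, IsNarrow p ↥(P : Subgroup G) := by
  rw [IsIdealPrime] at hn
  push Not at hn
  obtain ⟨P, A, hAP, hAe, hA2, hmax⟩ := hn hp.out hr
  refine ⟨P, ?_⟩
  by_cases hr2 : PRankLE p 2 ↥(P : Subgroup G)
  · exact Or.inl hr2
  let E : Subgroup ↥(P : Subgroup G) := A.subgroupOf P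
  have hEmapA : E.map (P : Subgroup G).subtype = A := Subgroup.map_subgroupOf_eq_of_le hAP
  refine Cfsg.Agent.Lib.NarrowAct.isNarrow_of_maximal_ea hp2 P.isPGroup' hr2 E ?_ ?_ ?_
  · refine ⟨⟨⟨?_⟩⟩, ?_⟩
    · intro a b
      have h1 := hAe.1.is_comm.comm ⟨((a : ↥(P : Subgroup G)) : G), a.2⟩ ⟨((b : ↥(P : Subgroup G)) : G), b.2⟩
      have h2 : ((a : ↥(P : Subgroup G)) : G) * ((b : ↥(P : Subgroup G)) : G) =
          ((b : ↥(P : Subgroup G)) : G) * ((a : ↥(P : Subgroup G)) : G) := congrArg Subtype.val h1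
      exact Subtype.ext (Subtype.ext h2)
    · intro a ha
      exact Subtype.ext (hAe.2 _ ha)
  · rw [card_subgroupOf_of_le hAP]
    exact hA2
  · intro B hBe hEB
    have hB' : IsElementaryAbelian p (B.map (P : Subgroup G).subtype) := by
      refine ⟨⟨⟨?_⟩⟩, ?_⟩
      · rintro ⟨a, a', ha, rfl⟩ ⟨b, b', hb, rfl⟩
        have h1 := hBe.1.is_comm.comm ⟨a', ha⟩ ⟨b', hb⟩
        exact Subtype.ext (congrArg (fun z : ↥B => ((z : ↥(P : Subgroup G)) : G)) h1)
      · rintro _ ⟨a', ha, rfl⟩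
        have := hBe.2 a' ha
        simpa using congrArg Subtype.val this
    have hle : A ≤ B.map (P : Subgroup G).subtype := by
      rw [← hEmapA]
      exact Subgroup.map_mono hEB
    have hBP : B.map (P : Subgroup G).subtype ≤ P := Subgroup.map_subtype_le _
    have heq : A = B.map (P : Subgroup G).subtype := by
      by_contra hne
      exact hmax _ hBP hB' (lt_of_le_of_ne hle hne)
    apply Subgroup.map_injective (P : Subgroup G).subtype_injective
    rw [hEmapA, ← heq]

theorem isNarrow_sylow (hG : IsMinSimpleOddOrder G) (hM : IsCoatom M) {p : ℕ} [hp : Fact p.Prime]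
    (hpb : p ∉ beta M) (S : Sylow p M) : IsNarrow p ↥(S : Subgroup M) := by
  by_cases hr : PRankLE p 2 ↥(S : Subgroup M)
  · exact Or.inl hr
  have hrM : ¬ PRankLE p 2 M := fun h => hr (prankLE_of_subgroup h _)
  have hrG : ¬ PRankLE p 2 G := fun h => hrM (prankLE_of_subgroup h _)
  have ha : p ∈ alpha M := ⟨hp.out, hrM⟩
  have hs : p ∈ sigma M := alpha_sub_sigma hG (ut hG) hM ha
  have hn : ¬ IsIdealPrime p G := fun h => hpb ⟨ha, h⟩
  have hp2 : p ≠ 2 := by
    rintro rfl
    have h1 : 2 ∣ Nat.card G := hs.2.1.trans (Subgroup.card_subgroup_dvd_card M)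
    exact (Nat.not_even_iff_odd.mpr hG.1) (even_iff_two_dvd.mpr h1)
  obtain ⟨P, hPn⟩ := isNarrow_sylow_top hp2 hn hrG
  have hT := isSylowIn_top_of_sigma hs (isSylowIn_map S)
  let T : Sylow p G := Cfsg.Agent.Lib.BGUniq2.sylowOfTop hT
  have e1 : ↥(P : Subgroup G) ≃* ↥(T : Subgroup G) := Sylow.equiv P T
  have e2 : ↥(S : Subgroup M) ≃* ↥((S : Subgroup M).map M.subtype) :=
    (S : Subgroup M).equivMapOfInjective M.subtype M.subtype_injective
  have e3 : ↥(T : Subgroup G) = ↥((S : Subgroup M).map M.subtype) := rfl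
  have hTn : IsNarrow p ↥(T : Subgroup G) := Cfsg.Agent.Lib.NarrowAct.isNarrow_of_equiv e1 hPn
  exact Cfsg.Agent.Lib.NarrowAct.isNarrow_of_equiv e2.symm hTn

/-- Consequences of S1455 in `M`. -/
theorem npc_facts (hG : IsMinSimpleOddOrder G) (hM : IsCoatom M) {p : ℕ} (hpp : p.Prime)
    (hpd : p ∣ Nat.card M) (hpb : p ∉ beta M) :
    HasNormalPComplement p ↥(commutator ↥M) ∧
      ∀ q : ℕ, q.Prime → q ∣ (pPrimeCore p ↥M).index → q ≤ p := by
  haveI : Fact p.Prime := ⟨hpp⟩
  haveI := IsMin.solvable hG hM.1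
  obtain ⟨S⟩ : Nonempty (Sylow p M) := inferInstance
  have h := Cfsg.Agent.S1455.result (G := ↥M) (odd_card_of_le hG M) p hpd S (isNarrow_sylow hG hM hpb S)
    (fun _ => Cfsg.Agent.S1410.result hG p M hM.1)
  exact ⟨h.2.2.1, h.1⟩

theorem piCore_sigma_le_commutator (hG : IsMinSimpleOddOrder G) (hM : IsCoatom M) :
    piCore (sigma M) M ≤ commutator ↥M := by
  refine le_of_forall_pgroup_le (X := ↥M) ?_
  intro p _ Q hQ hQp
  by_cases hQb : Q = ⊥
  · rw [hQb]; exact bot_le
  have hs : p ∈ sigma M := by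
    have h1 : p ∣ Nat.card Q := by
      obtain ⟨k, hk⟩ := IsPGroup.iff_card.mp hQp
      rw [hk]
      have hk0 : k ≠ 0 := by
        rintro rfl
        rw [pow_zero] at hk
        exact hQb (Subgroup.card_eq_one.mp hk)
      exact dvd_pow_self p hk0
    exact piCore_primes (sigma M) p Fact.out (h1.trans (Subgroup.card_dvd_of_le hQ))
  obtain ⟨S, hS⟩ := hQp.exists_le_sylow
  have h1 := sylow_le_derived hG (ut hG) hM hs (isSylowIn_map S)
  intro y hy
  obtain ⟨z, hz, hzy⟩ := h1 (show (y : G) ∈ (S : Subgroup M).map M.subtype from ⟨y, hS hy, rfl⟩)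
  have hz' : z = y := Subtype.ext hzy
  rwa [← hz']

/-- A wrapper of `exists_nilpotent_hall` for subgroups of `G`. -/
theorem hall_of_npc (π : Set ℕ) (Y : Subgroup G)
    (h : ∀ q : ℕ, q.Prime → q ∉ π → q ∣ Nat.card Y → HasNormalPComplement q Y) :
    ∃ H : Subgroup G, IsPiHallOf {q | q.Prime ∧ q ∉ π} H Y ∧ Group.IsNilpotent H := by
  obtain ⟨D, -, -, H, h1, h2, h3⟩ := exists_nilpotent_hall (X := ↥Y) π h
  refine ⟨H.map Y.subtype, ⟨Subgroup.map_subtype_le _, ?_, ?_⟩, ?_⟩
  · intro p hp hd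
    rw [Subgroup.card_map_of_injective Y.subtype_injective] at hd
    exact ⟨hp, h1 p hp hd⟩
  · intro p hp hd
    rw [Subgroup.relIndex]
    show ¬ p ∣ ((H.map Y.subtype).comap Y.subtype).index
    rw [Subgroup.comap_map_eq_self_of_injective Y.subtype_injective]
    exact h2 p hp hd.2
  · exact Group.nilpotent_of_mulEquiv (Subgroup.equivMapOfInjective _ _ Y.subtype_injective)

theorem npc_commutator (hG : IsMinSimpleOddOrder G) (hM : IsCoatom M) :
    ∀ q : ℕ, q.Prime → q ∉ beta M → q ∣ Nat.card M → HasNormalPComplement q ↥⁅M, M⁆ := by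
  intro q hq hqb hd
  haveI : Fact q.Prime := ⟨hq⟩
  have h1 := (npc_facts hG hM hq hd hqb).1
  rw [← Subgroup.map_subtype_commutator M]
  exact (Cfsg.Agent.Lib.NPCBasic.hasNPC_congr
    (Subgroup.equivMapOfInjective (commutator ↥M) M.subtype M.subtype_injective)).mp h1

theorem npc_piCore_sigma (hG : IsMinSimpleOddOrder G) (hM : IsCoatom M) :
    ∀ q : ℕ, q.Prime → q ∉ beta M → q ∣ Nat.card M →
      HasNormalPComplement q ↥(piCore (sigma M) M) := by
  intro q hq hqb hd
  haveI : Fact q.Prime := ⟨hq⟩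
  have h1 := (npc_facts hG hM hq hd hqb).1
  exact Cfsg.Agent.Lib.NPCBasic.hasNPC_of_le (piCore_sigma_le_commutator hG hM) h1

theorem npc_sigmaCore (hG : IsMinSimpleOddOrder G) (hM : IsCoatom M) :
    ∀ q : ℕ, q.Prime → q ∉ beta M → q ∣ Nat.card M →
      HasNormalPComplement q ↥(sigmaCore M) := by
  intro q hq hqb hd
  haveI : Fact q.Prime := ⟨hq⟩
  have h1 := npc_piCore_sigma hG hM q hq hqb hd
  exact (Cfsg.Agent.Lib.NPCBasic.hasNPC_congr
    (Subgroup.equivMapOfInjective (piCore (sigma M) M) M.subtype M.subtype_injective)).mp h1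

theorem beta_sub_sigma (hG : IsMinSimpleOddOrder G) (hM : IsCoatom M) {r : ℕ} (hr : r ∈ beta M) :
    r ∈ sigma M := alpha_sub_sigma hG (ut hG) hM hr.1

/-- Sylow subgroups of `M` for primes in `β(M)` lie in `O_β(M)`. -/
theorem sylow_le_piCore_beta (hG : IsMinSimpleOddOrder G) (hM : IsCoatom M) {r : ℕ} [Fact r.Prime]
    (hr : r ∈ beta M) (S : Sylow r M) : (S : Subgroup M) ≤ piCore (beta M) M := by
  set K := piCore (sigma M) M with hK
  have hKn : K.Normal := by
    rw [hK]
    exact piCore_normal _ _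
  obtain ⟨D, hDp, hDY, -⟩ := exists_nilpotent_hall (X := ↥K) (beta M) (by
    intro q hq hqb hd
    exact npc_piCore_sigma hG hM q hq hqb (hd.trans (Subgroup.card_subgroup_dvd_card K)))
  let B : Subgroup M := D.map K.subtype
  have hcB : Nat.card B = Nat.card D := Subgroup.card_map_of_injective K.subtype_injective
  have hBp : ∀ q : ℕ, q.Prime → q ∣ Nat.card B → q ∈ beta M := by
    intro q hq hd
    rw [hcB] at hd
    exact hDp q hq hd
  have hBn : B.Normal := by
    constructor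
    rintro _ ⟨k, hk, rfl⟩ g
    let Y : Subgroup ↥K := (B.map (MulAut.conj g).toMonoidHom).comap K.subtype
    have hY : Y ≤ D := by
      apply hDY
      intro q hq hd
      apply hBp q hq
      have h1 : Nat.card Y ∣ Nat.card (B.map (MulAut.conj g).toMonoidHom) :=
        Subgroup.card_comap_dvd_of_injective _ _ K.subtype_injective
      rw [Subgroup.card_map_of_injective (MulAut.conj g).injective] at h1
      exact hd.trans h1
    have hmem : g * (k : M) * g⁻¹ ∈ K := hKn.conj_mem _ k.2 g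
    refine ⟨⟨_, hmem⟩, hY ?_, rfl⟩
    refine ⟨(k : M), ⟨k, hk, rfl⟩, ?_⟩
    simp [MulAut.conj_apply]
  have hBle : B ≤ piCore (beta M) M := le_piCore hBn hBp
  have hS : (S : Subgroup M) ≤ K := sylow_le_sigmaCore hG hM (beta_sub_sigma hG hM hr) S
  have hS2 : (S : Subgroup M).comap K.subtype ≤ D := by
    apply hDY
    intro q hq hd
    have h1 : Nat.card ((S : Subgroup M).comap K.subtype) ∣ Nat.card (S : Subgroup M) :=
      Subgroup.card_comap_dvd_of_injective _ _ K.subtype_injective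
    rw [primes_of_isPGroup (Fact.out : r.Prime) S.isPGroup' q hq (hd.trans h1)]
    exact hr
  intro x hx
  apply hBle
  exact ⟨⟨x, hS hx⟩, hS2 hx, rfl⟩

theorem not_dvd_index_piCore_beta (hG : IsMinSimpleOddOrder G) (hM : IsCoatom M) {r : ℕ}
    (hr : r ∈ beta M) : ¬ r ∣ (piCore (beta M) M).index := by
  haveI : Fact r.Prime := ⟨hr.1.1⟩
  obtain ⟨S⟩ : Nonempty (Sylow r M) := inferInstance
  intro hd
  exact S.not_dvd_index (hd.trans (Subgroup.index_dvd_of_le (sylow_le_piCore_beta hG hM hr S)))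

theorem relIndex_piCoreOf (π : Set ℕ) : (piCoreOf π M).relIndex M = (piCore π M).index := by
  rw [Subgroup.relIndex, piCoreOf]
  show (((piCore π M).map M.subtype).comap M.subtype).index = _
  rw [Subgroup.comap_map_eq_self_of_injective M.subtype_injective]

theorem primes_piCoreOf (π : Set ℕ) : ∀ p : ℕ, p.Prime → p ∣ Nat.card (piCoreOf π M) → p ∈ π := by
  intro p hp hd
  rw [piCoreOf, Subgroup.card_map_of_injective M.subtype_injective] at hd
  exact piCore_primes _ p hp hd

theorem beta_hall (hG : IsMinSimpleOddOrder G) (hM : IsCoatom M) :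
    IsPiHallOf (beta M) (piCoreOf (beta M) M) M ∧ IsPiHall (beta M) (piCoreOf (beta M) M) := by
  refine ⟨⟨Subgroup.map_subtype_le _, primes_piCoreOf _, ?_⟩, ⟨primes_piCoreOf _, ?_⟩⟩
  · intro p _ hp
    rw [relIndex_piCoreOf]
    exact not_dvd_index_piCore_beta hG hM hp
  · intro p hpp hp
    haveI : Fact p.Prime := ⟨hpp⟩
    rw [piCoreOf, Subgroup.index_map_subtype]
    intro hd
    rcases (Nat.Prime.dvd_mul hpp).mp hd with h | h
    · exact not_dvd_index_piCore_beta hG hM hp h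
    · exact not_dvd_index_coatom_of_sigma (beta_sub_sigma hG hM hp) h

end Cfsg.Agent.Lib.BGM3
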