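import Mathlib
import Cfsg.Agent.S1448
import Cfsg.Agent.Lib.BGM3
import Cfsg.Agent.Lib.BGFus2
import Cfsg.Agent.Lib.CoprimeAut
import Cfsg.Agent.Lib.BGTH
import Cfsg.Agent.Lib.BGSigma4
import Cfsg.Agent.Lib.CoprimeIndexP

/-!
# Centralizers of elementary abelian subgroups of order `p ^ 2`, part A: coprime action lemmas.
-/

set_option autoImplicit false
set_option linter.unusedSectionVars false
set_option linter.unusedVariables false
set_option linter.style.haveILetI false
set_option linter.unusedSimpArgs false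

namespace Cfsg.Agent.Lib.BGP2A

open Cfsg Subgroup Cfsg.Agent.Lib.CoprimeInv Cfsg.Agent.Lib.BGTrans Cfsg.Agent.Lib.Glauberman

open scoped commutatorElement

universe u

variable {G : Type u} [Group G] [Finite G]

/-- A coprime automorphism of a cyclic `q`-group with a nontrivial fixed point is trivial. -/
theorem cyclic_fix {q : ℕ} [hq : Fact q.Prime] {P : Subgroup G} (hP : IsPGroup q P) (hc : IsCyclic P)
    {w : G} (hw : w ∈ normalizer (P : Set G)) (hm : (orderOf w).Coprime q)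
    (hne : P ⊓ centralizer ({w} : Set G) ≠ ⊥) : w ∈ centralizer (P : Set G) := by
  classical
  by_contra hnc
  have hs := Cfsg.Agent.Lib.BGM2.cyclic_coprime_surj hP hc hw hm hnc
  have hconj : ∀ a ∈ P, w * a * w⁻¹ ∈ P := fun a ha => (mem_normalizer_iff.mp hw a).mp ha
  let f : P → P := fun z => ⟨w * z * w⁻¹ * (z : G)⁻¹, mul_mem (hconj _ z.2) (inv_mem z.2)⟩
  have hf : Function.Surjective f := by
    intro y
    obtain ⟨z, hz, hzy⟩ := hs y y.2
    exact ⟨⟨z, hz⟩, Subtype.ext hzy.symm⟩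
  have hinj : Function.Injective f := Finite.injective_iff_surjective.mpr hf
  obtain ⟨y, hy, hy1⟩ := exists_mem_ne_one hne
  have hyc : w * y = y * w := by
    have h0 : y ∈ centralizer ({w} : Set G) := hy.2
    rw [mem_centralizer_iff] at h0
    exact h0 w rfl
  have h1 : f ⟨y, hy.1⟩ = f ⟨1, one_mem _⟩ := by
    apply Subtype.ext
    show w * y * w⁻¹ * y⁻¹ = w * 1 * w⁻¹ * (1 : G)⁻¹
    rw [hyc]
    group
  have h2 := hinj h1
  exact hy1 (congrArg Subtype.val h2)

theorem comm_pow_right {u v : G} (hu : Commute ⁅u, v⁆ u) (hv : Commute ⁅u, v⁆ v) (l : ℕ) :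
    ⁅u, v ^ l⁆ = ⁅u, v⁆ ^ l := by
  induction l with
  | zero => simp
  | succ l ih =>
    have h1 : ⁅u, v ^ (l + 1)⁆ = ⁅u, v ^ l⁆ * (v ^ l * ⁅u, v⁆ * (v ^ l)⁻¹) := by
      rw [commutatorElement_def, commutatorElement_def, commutatorElement_def, pow_succ]
      group
    rw [h1, ih, ← (hv.pow_right l).eq, mul_inv_cancel_right, pow_succ]

theorem comm_pow_left {u v : G} (hu : Commute ⁅u, v⁆ u) (hv : Commute ⁅u, v⁆ v) (k : ℕ) :
    ⁅u ^ k, v⁆ = ⁅u, v⁆ ^ k := by
  induction k with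
  | zero => simp
  | succ k ih =>
    have h1 : ⁅u ^ (k + 1), v⁆ = u ^ k * ⁅u, v⁆ * (u ^ k)⁻¹ * ⁅u ^ k, v⁆ := by
      rw [commutatorElement_def, commutatorElement_def, commutatorElement_def, pow_succ]
      group
    rw [h1, ih, ← (hu.pow_right k).eq, mul_inv_cancel_right, pow_succ']

theorem comm_pow_pow {u v : G} (hu : Commute ⁅u, v⁆ u) (hv : Commute ⁅u, v⁆ v) (k l : ℕ) :
    ⁅u ^ k, v ^ l⁆ = ⁅u, v⁆ ^ (k * l) := by
  have h1 := comm_pow_left hu hv k
  have hu' : Commute ⁅u ^ k, v⁆ (u ^ k) := by rw [h1]; exact (hu.pow_right k).pow_left k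
  have hv' : Commute ⁅u ^ k, v⁆ v := by rw [h1]; exact hv.pow_left k
  rw [comm_pow_right hu' hv' l, h1, pow_mul]

/-- When `R = [R, A]` with `A` coprime, the fixed points of `A` lie in `R'`. -/
theorem fixed_le_commutator {r : ℕ} [hr : Fact r.Prime] {R A : Subgroup G} (hR : IsPGroup r R)
    (hAR : A ≤ normalizer (R : Set G)) (hcop : (Nat.card A).Coprime r) (hRA : ⁅R, A⁆ = R) :
    R ⊓ centralizer (A : Set G) ≤ ⁅R, R⁆ := by
  classical
  let φ : A →* MulAut R :=
    { toFun := fun a => Cfsg.Agent.Lib.BGSigma4.conjOn R a (hAR a.2)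
      map_one' := by
        ext y
        simp [Cfsg.Agent.Lib.BGSigma4.conjOn_apply]
      map_mul' := by
        intro a b
        ext y
        simp [Cfsg.Agent.Lib.BGSigma4.conjOn_apply, mul_assoc] }
  have hφ : ∀ (a : A) (y : R), ((φ a y : R) : G) = a * y * (a : G)⁻¹ := fun a y =>
    Cfsg.Agent.Lib.BGSigma4.conjOn_apply R a (hAR a.2) y
  have hcard : Nat.Coprime (Nat.card φ.range) r := by
    apply Nat.Coprime.coprime_dvd_left _ hcop
    exact Subgroup.card_range_dvd φ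
  have hcl : Subgroup.closure {x : R | ∃ g : R, ∃ a ∈ φ.range, x = g⁻¹ * a g} = ⊤ := by
    set T := Subgroup.closure {x : R | ∃ g : R, ∃ a ∈ φ.range, x = g⁻¹ * a g} with hT
    have hmap : T.map R.subtype = R := by
      apply le_antisymm
      · exact Subgroup.map_subtype_le _
      · conv_lhs => rw [← hRA]
        rw [Subgroup.commutator_le]
        intro g hg a ha
        refine ⟨⟨⁅g, a⁆, (hRA ▸ Subgroup.commutator_mem_commutator hg ha)⟩, ?_, rfl⟩
        apply Subgroup.subset_closure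
        refine ⟨⟨g⁻¹, inv_mem hg⟩, φ ⟨a, ha⟩, ⟨_, rfl⟩, ?_⟩
        apply Subtype.ext
        simp only [Subgroup.coe_mul, InvMemClass.coe_inv, hφ, commutatorElement_def]
        group
    rw [eq_top_iff]
    intro y _
    have : (y : G) ∈ T.map R.subtype := by rw [hmap]; exact y.2
    obtain ⟨z, hz, hzy⟩ := this
    have : z = y := Subtype.ext hzy
    rwa [← this]
  intro y hy
  have hfix : ∀ a ∈ φ.range, a (⟨y, hy.1⟩ : R) = ⟨y, hy.1⟩ := by
    rintro _ ⟨a, rfl⟩
    apply Subtype.ext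
    rw [hφ]
    have h0 : y ∈ centralizer (A : Set G) := hy.2
    rw [mem_centralizer_iff] at h0
    have h2 := h0 a a.2
    show (a : G) * y * (a : G)⁻¹ = y
    rw [h2]
    group
  have := Cfsg.Agent.Lib.CoprimeAut.fixed_mem_commutator hR φ.range hcard hcl ⟨y, hy.1⟩ hfix
  have h3 : y ∈ (commutator R).map R.subtype := ⟨⟨y, hy.1⟩, this, rfl⟩
  rwa [Subgroup.map_subtype_commutator] at h3

/-- The derived subgroup of a nonabelian group of order `p ^ 3` has order `p`. -/
theorem card_comm_cube {p : ℕ} [hp' : Fact p.Prime] {R : Subgroup G} (hn : ¬ IsMulCommutative R)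
    (hc : Nat.card R = p ^ 3) : Nat.card (⁅R, R⁆ : Subgroup G) = p := by
  classical
  rw [Cfsg.Agent.Lib.BGFus2.comm_eq_inf_centralizer hn hc]
  have hp : p.Prime := Fact.out
  have hXp : IsPGroup p ↥R := IsPGroup.of_card hc
  have hnc : ¬ ∀ a b : ↥R, a * b = b * a := fun h => hn ⟨⟨h⟩⟩
  haveI hXn : Nontrivial ↥R := by
    rw [← Finite.one_lt_card_iff_nontrivial, hc]
    exact Nat.one_lt_pow (by norm_num) hp.one_lt
  haveI hZn := hXp.center_nontrivial
  have hZcard : Nat.card (Subgroup.center ↥R) * Nat.card (↥R ⧸ Subgroup.center ↥R) = p ^ 3 := by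
    rw [← hc, mul_comm]
    exact (Subgroup.card_eq_card_quotient_mul_card_subgroup _).symm
  obtain ⟨k, hk3, hk⟩ := (Nat.dvd_prime_pow hp).mp (Dvd.intro _ hZcard)
  have hk0 : k ≠ 0 := by
    rintro rfl
    have h1 : 1 < Nat.card (Subgroup.center ↥R) := Finite.one_lt_card_iff_nontrivial.mpr hZn
    rw [hk] at h1
    simp at h1
  have hpos : 0 < p := hp.pos
  have hk1 : k = 1 := by
    by_contra hne
    have hk23 : k = 2 ∨ k = 3 := by omega
    rcases hk23 with rfl | rfl
    · have h2 : Nat.card (↥R ⧸ Subgroup.center ↥R) = p := by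
        rw [hk] at hZcard
        have : p ^ 2 * Nat.card (↥R ⧸ Subgroup.center ↥R) = p ^ 2 * p := by rw [hZcard]; ring
        exact Nat.eq_of_mul_eq_mul_left (pow_pos hpos 2) this
      haveI : IsCyclic (↥R ⧸ Subgroup.center ↥R) := isCyclic_of_prime_card h2
      apply hnc
      exact commutative_of_cyclic_center_quotient (QuotientGroup.mk' (Subgroup.center ↥R))
        (by rw [QuotientGroup.ker_mk'])
    · have h2 : Subgroup.center ↥R = ⊤ := by
        apply Subgroup.eq_top_of_card_eq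
        rw [hk, hc]
      apply hnc
      intro a b
      have : a ∈ Subgroup.center ↥R := by rw [h2]; trivial
      exact (Subgroup.mem_center_iff.mp this b).symm
  subst hk1
  have hmap : (Subgroup.center ↥R).map R.subtype = R ⊓ centralizer (R : Set G) := by
    ext y
    constructor
    · rintro ⟨z, hz, rfl⟩
      refine ⟨z.2, ?_⟩
      show (z : G) ∈ centralizer (R : Set G)
      rw [mem_centralizer_iff]
      intro b hb
      have := Subgroup.mem_center_iff.mp hz ⟨b, hb⟩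
      exact congrArg Subtype.val this
    · rintro ⟨hy, hy2⟩
      refine ⟨⟨y, hy⟩, ?_, rfl⟩
      show (⟨y, hy⟩ : R) ∈ Subgroup.center ↥R
      rw [Subgroup.mem_center_iff]
      intro b
      apply Subtype.ext
      have h0 : y ∈ centralizer (R : Set G) := hy2
      exact (mem_centralizer_iff.mp h0) b b.2
  rw [← hmap, Subgroup.card_map_of_injective R.subtype_injective, hk, pow_one]

/-- The structure of the `r`-groups of rank two with a nonabelian quotient action. -/
structure ES (r : ℕ) (R R₁ R₂ : Subgroup G) : Prop where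
  sup : R₁ ⊔ R₂ = R
  comm : ∀ a ∈ R₁, ∀ b ∈ R₂, a * b = b * a
  nonab : ¬ IsMulCommutative R₁
  card : Nat.card R₁ = r ^ 3
  exp : Monoid.exponent R₁ = r
  cyc : IsCyclic R₂
  om : closure {x : G | x ∈ R₂ ∧ x ^ r = 1} = ⁅R₁, R₁⁆

section ES

variable {r : ℕ} [hr : Fact r.Prime] {R R₁ R₂ : Subgroup G}

theorem ES.comm2 (h : ES r R R₁ R₂) {a b : G} (ha : a ∈ R₂) (hb : b ∈ R₂) : a * b = b * a := by
  haveI := h.cyc
  have := (IsCyclic.commGroup (α := R₂)).mul_comm ⟨a, ha⟩ ⟨b, hb⟩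
  exact congrArg Subtype.val this

theorem ES.le1 (h : ES r R R₁ R₂) : R₁ ≤ R := h.sup ▸ le_sup_left

theorem ES.le2 (h : ES r R R₁ R₂) : R₂ ≤ R := h.sup ▸ le_sup_right

theorem ES.mem (h : ES r R R₁ R₂) {x : G} (hx : x ∈ R) : ∃ a ∈ R₁, ∃ b ∈ R₂, x = a * b := by
  have hn : R₁ ≤ normalizer (R₂ : Set G) := fun a ha =>
    Cfsg.Agent.Lib.BGFit2.mem_normalizer_of_centralizes
      (fun b hb => Cfsg.Agent.Lib.BGFit2.conj_eq_of_comm (h.comm a ha b hb))
  rw [← h.sup] at hx
  have h1 : x ∈ ((R₁ ⊔ R₂ : Subgroup G) : Set G) := hx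
  rw [Subgroup.coe_mul_of_left_le_normalizer_right _ _ hn] at h1
  obtain ⟨a, ha, b, hb, he⟩ := Set.mem_mul.mp h1
  exact ⟨a, ha, b, hb, he.symm⟩

theorem ES.R2_central (h : ES r R R₁ R₂) {b x : G} (hb : b ∈ R₂) (hx : x ∈ R) : b * x = x * b := by
  obtain ⟨a, ha, c, hc, rfl⟩ := h.mem hx
  calc b * (a * c) = (b * a) * c := by group
    _ = (a * b) * c := by rw [h.comm a ha b hb]
    _ = a * (b * c) := by group
    _ = a * (c * b) := by rw [h.comm2 hb hc]
    _ = a * c * b := by group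

theorem ES.Z_le1 (h : ES r R R₁ R₂) : ⁅R₁, R₁⁆ ≤ R₁ := by
  rw [← Subgroup.map_subtype_commutator R₁]
  exact Subgroup.map_subtype_le _

theorem ES.Z_le2 (h : ES r R R₁ R₂) : ⁅R₁, R₁⁆ ≤ R₂ := by
  rw [← h.om, Subgroup.closure_le]
  exact fun x hx => hx.1

theorem ES.card_Z (h : ES r R R₁ R₂) : Nat.card (⁅R₁, R₁⁆ : Subgroup G) = r :=
  card_comm_cube h.nonab h.card

theorem ES.pow1 (h : ES r R R₁ R₂) {a : G} (ha : a ∈ R₁) : a ^ r = 1 := by
  have := Monoid.pow_exponent_eq_one (⟨a, ha⟩ : R₁)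
  rw [h.exp] at this
  exact congrArg Subtype.val this

theorem ES.derived (h : ES r R R₁ R₂) : ⁅R, R⁆ = ⁅R₁, R₁⁆ := by
  apply le_antisymm
  · rw [Subgroup.commutator_le]
    intro g hg k hk
    obtain ⟨a, ha, b, hb, rfl⟩ := h.mem hg
    obtain ⟨c, hc, d, hd, rfl⟩ := h.mem hk
    have h1 : b * (c * d) = c * d * b := h.R2_central hb (mul_mem (h.le1 hc) (h.le2 hd))
    have h2 : d * a⁻¹ = a⁻¹ * d := (h.comm a⁻¹ (inv_mem ha) d hd).symm
    have h3 : ⁅a * b, c * d⁆ = ⁅a, c⁆ := by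
      rw [commutatorElement_def, commutatorElement_def]
      calc a * b * (c * d) * (a * b)⁻¹ * (c * d)⁻¹ = a * (b * (c * d)) * b⁻¹ * a⁻¹ * (c * d)⁻¹ := by
            group
        _ = a * c * (d * a⁻¹) * (d⁻¹ * c⁻¹) := by rw [h1]; group
        _ = a * c * a⁻¹ * c⁻¹ := by rw [h2]; group
    rw [h3]
    exact Subgroup.commutator_mem_commutator ha hc
  · exact Subgroup.commutator_mono h.le1 h.le1

theorem ES.center (h : ES r R R₁ R₂) : R ⊓ centralizer (R : Set G) = R₂ := by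
  apply le_antisymm
  · rintro y ⟨hy, hy2⟩
    have hy2' : y ∈ centralizer (R : Set G) := hy2
    obtain ⟨a, ha, b, hb, rfl⟩ := h.mem hy
    have h1 : a ∈ R₁ ⊓ centralizer (R₁ : Set G) := by
      refine ⟨ha, ?_⟩
      show a ∈ centralizer (R₁ : Set G)
      rw [mem_centralizer_iff]
      intro c hc
      have h2 := mem_centralizer_iff.mp hy2' c (h.le1 hc)
      have h3 : b * c = c * b := (h.comm c hc b hb).symm
      have h4 : c * a * b = a * c * b := by
        calc c * a * b = c * (a * b) := by group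
          _ = a * b * c := h2
          _ = a * (b * c) := by group
          _ = a * (c * b) := by rw [h3]
          _ = a * c * b := by group
      exact mul_right_cancel h4
    rw [← Cfsg.Agent.Lib.BGFus2.comm_eq_inf_centralizer h.nonab h.card] at h1
    exact mul_mem (h.Z_le2 h1) hb
  · intro b hb
    refine ⟨h.le2 hb, ?_⟩
    show b ∈ centralizer (R : Set G)
    rw [mem_centralizer_iff]
    intro x hx
    exact (h.R2_central hb hx).symm

theorem ES.Z_central (h : ES r R R₁ R₂) {z x : G} (hz : z ∈ (⁅R₁, R₁⁆ : Subgroup G)) (hx : x ∈ R) :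
    z * x = x * z := h.R2_central (h.Z_le2 hz) hx

end ES

section LemmaA

variable {r p : ℕ} [hr : Fact r.Prime] [hp : Fact p.Prime]

theorem coprime_card_of_pgroups {A R : Subgroup G} (hrp : r ≠ p) (hA : IsPGroup p A) (hR : IsPGroup r R) :
    (Nat.card A).Coprime (Nat.card R) := by
  obtain ⟨k, hk⟩ := hA.exists_card_eq
  obtain ⟨l, hl⟩ := hR.exists_card_eq
  rw [hk, hl]
  exact Nat.Coprime.pow _ _ ((Nat.coprime_primes hp.out hr.out).mpr hrp.symm)

theorem conj_pow_iter {a u : G} {l : ℕ} (h : a * u * a⁻¹ = u ^ l) (k : ℕ) :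
    a ^ k * u * (a ^ k)⁻¹ = u ^ (l ^ k) := by
  induction k with
  | zero => simp
  | succ k ih =>
    have h1 : a ^ (k + 1) * u * (a ^ (k + 1))⁻¹ = a ^ k * (a * u * a⁻¹) * (a ^ k)⁻¹ := by
      rw [pow_succ]; group
    rw [h1, h]
    have h2 : a ^ k * u ^ l * (a ^ k)⁻¹ = (a ^ k * u * (a ^ k)⁻¹) ^ l := by
      rw [conj_pow]
    rw [h2, ih, ← pow_mul, pow_succ]

theorem orderOf_eq_of_card {Z : Subgroup G} (hZ : Nat.card Z = r) {z : G} (hz : z ∈ Z) (hz1 : z ≠ 1) :
    orderOf z = r := by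
  apply orderOf_eq_prime _ hz1
  have := pow_card_eq_one' (G := Z) (x := ⟨z, hz⟩)
  rw [hZ] at this
  exact congrArg Subtype.val this

theorem lemma_A (hp2 : p ≠ 2) (hr2 : r ≠ 2) (hrp : r ≠ p) {R A V : Subgroup G}
    (hR : IsPGroup r R) (hApg : IsPGroup p A) (hAe : ∀ a ∈ A, a ^ p = 1)
    (hrk : PRankLE r 2 R) (hAR : A ≤ normalizer (R : Set G)) (hRA : ⁅R, A⁆ = R)
    (hVR : V ≤ R) (hAV : A ≤ normalizer (V : Set G)) (hVA : ⁅V, A⁆ = V) (hV1 : V ≠ ⊥)
    (hN : ⁅R ⊓ normalizer (V : Set G), A⁆ ≤ V) {x : G} (hxR : x ∈ normalizer (R : Set G))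
    (hxA : x ∈ centralizer (A : Set G)) : x ∈ normalizer (V : Set G) := by
  classical
  by_cases hVR' : V = R
  · subst hVR'; exact hxR
  have hlt : V < R := lt_of_le_of_ne hVR hVR'
  obtain ⟨t, htR, htV, htN⟩ := Cfsg.Agent.Lib.BGUniq.exists_mem_normalizer_of_lt hR hlt
  have hVp : IsPGroup r V := hR.to_le hVR
  set N := R ⊓ normalizer (V : Set G) with hNdef
  have hAN : A ≤ normalizer (N : Set G) := le_normalizer_inf hAR (hAV.trans le_normalizer)
  have hNp : IsPGroup r N := hR.to_le inf_le_left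
  haveI hNnil : Group.IsNilpotent N := hNp.isNilpotent
  have hNsolv : Group.IsSolvable N := inferInstance
  have hdec := commutator_sup_inf_centralizer hAN (coprime_card_of_pgroups hrp hApg hNp) (Or.inr hNsolv)
  have hz : ∃ z ∈ N ⊓ centralizer (A : Set G), z ∉ V := by
    by_contra hcon
    push_neg at hcon
    have h1 : N ≤ V := by
      rw [← hdec]
      exact sup_le hN (fun z hz => hcon z hz)
    exact htV (h1 ⟨htR, htN⟩)
  obtain ⟨z, hzN, hzV⟩ := hz
  have hzR : z ∈ R := hzN.1.1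
  have hzA : z ∈ centralizer (A : Set G) := hzN.2
  have hz1 : z ≠ 1 := fun h => hzV (h ▸ one_mem V)
  have hcopAR : (Nat.card A).Coprime (Nat.card R) := coprime_card_of_pgroups hrp hApg hR
  have hRne : R ≠ ⊥ := fun h => hV1 (le_bot_iff.mp (h ▸ hVR))
  -- `R` is not abelian
  have hRnc : ¬ IsMulCommutative R := by
    intro hc
    have h1 := Cfsg.Agent.Lib.CoprimeIndexP.inf_centralizer_eq_bot_of_comm hAR hcopAR
      (fun a ha b hb => congrArg Subtype.val (hc.is_comm.comm ⟨a, ha⟩ ⟨b, hb⟩)) hRA.ge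
    have h2 : z ∈ R ⊓ centralizer (A : Set G) := ⟨hzR, hzA⟩
    rw [h1] at h2
    exact hz1 h2
  have hcopA : (Nat.card A).Coprime r := by
    obtain ⟨k, hk⟩ := hApg.exists_card_eq
    rw [hk]
    exact Nat.Coprime.pow_left _ ((Nat.coprime_primes hp.out hr.out).mpr hrp.symm)
  have hAodd : Odd (Nat.card A) := by
    obtain ⟨k, hk⟩ := hApg.exists_card_eq
    rw [hk]
    exact (hp.out.odd_of_ne_two hp2).pow
  obtain ⟨-, hcase⟩ := Cfsg.Agent.S1448.result r hr2 R A hR hRne hrk hAR hcopA hAodd hRA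
  rcases hcase with hc | ⟨R₁, R₂, h1, h2, h3, h4, h5, h6, h7⟩
  · exact absurd hc hRnc
  have hES : ES r R R₁ R₂ := ⟨h1, h2, h3, h4, h5, h6, h7⟩
  set Z : Subgroup G := ⁅R₁, R₁⁆ with hZdef
  have hZcard : Nat.card Z = r := hES.card_Z
  have hZR : Z ≤ R := hES.Z_le1.trans hES.le1
  have hfix : R ⊓ centralizer (A : Set G) ≤ Z := by
    have := fixed_le_commutator hR hAR hcopA hRA
    rwa [hES.derived] at this
  have hzZ : z ∈ Z := hfix ⟨hzR, hzA⟩
  have hZpow : ∀ w ∈ Z, ∃ k : ℕ, w = z ^ k := fun w hw =>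
    Cfsg.Agent.S1448.gen_of_card hZcard hzZ hz1 hw
  have hZA : ∀ a ∈ A, ∀ w ∈ Z, a * w = w * a := by
    intro a ha w hw
    obtain ⟨k, rfl⟩ := hZpow w hw
    have h8 : a * z = z * a := (mem_centralizer_iff.mp hzA a ha)
    exact ((show Commute a z from h8).pow_right k).eq
  -- `A` centralizes `R₂`
  have hR2center : R ⊓ centralizer (R : Set G) = R₂ := hES.center
  have hAR2 : A ≤ normalizer (R₂ : Set G) := by
    rw [← hR2center]
    exact le_normalizer_inf hAR (hAR.trans (normalizer_le_normalizer_centralizer R))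
  have hR2p : IsPGroup r R₂ := hR.to_le hES.le2
  have hordA : ∀ a ∈ A, (orderOf a).Coprime r := by
    intro a ha
    have h8 : orderOf a ∣ p := orderOf_dvd_of_pow_eq_one (hAe a ha)
    exact Nat.Coprime.coprime_dvd_left h8 ((Nat.coprime_primes hp.out hr.out).mpr hrp.symm)
  have hR2A : R₂ ≤ centralizer (A : Set G) := by
    intro b hb
    rw [mem_centralizer_iff]
    intro a ha
    have h8 : a ∈ centralizer (R₂ : Set G) := by
      apply cyclic_fix hR2p hES.cyc (hAR2 ha) (hordA a ha)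
      intro h9
      have h10 : z ∈ R₂ ⊓ centralizer ({a} : Set G) := by
        refine ⟨hES.Z_le2 hzZ, ?_⟩
        show z ∈ centralizer ({a} : Set G)
        rw [mem_centralizer_iff]
        intro b hb
        rw [Set.mem_singleton_iff.mp hb]
        exact mem_centralizer_iff.mp hzA a ha
      rw [h9] at h10
      exact hz1 h10
    exact (mem_centralizer_iff.mp h8 b hb).symm
  have hR2Z : R₂ ≤ Z := fun b hb => hfix ⟨hES.le2 hb, hR2A hb⟩
  -- so `R = R₁`
  have hRR1 : R = R₁ := by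
    apply le_antisymm _ hES.le1
    rw [← hES.sup]
    exact sup_le le_rfl (hR2Z.trans hES.Z_le1)
  have hRcard : Nat.card R = r ^ 3 := by rw [hRR1]; exact hES.card
  have hcen : R ⊓ centralizer (R : Set G) = Z :=
    le_antisymm (hR2center.le.trans hR2Z) (le_trans hES.Z_le2 hR2center.ge)
  have hRpow : ∀ y ∈ R, y ^ r = 1 := fun y hy => hES.pow1 (hRR1 ▸ hy)
  have hZcent : ∀ w ∈ Z, ∀ y ∈ R, w * y = y * w := fun w hw y hy => hES.Z_central hw hy
  -- `V ⊓ Z = ⊥`
  have hVZ : V ⊓ Z = ⊥ := by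
    rw [eq_bot_iff]
    rintro w ⟨hwV, hwZ⟩
    by_contra hw1
    have hw1' : w ≠ 1 := hw1
    obtain ⟨k, hk⟩ := Cfsg.Agent.S1448.gen_of_card hZcard hwZ hw1' hzZ
    exact hzV (hk ▸ pow_mem hwV k)
  have hVnormZ : V ≤ normalizer (Z : Set G) := by
    intro v hv
    apply Cfsg.Agent.Lib.BGFit2.mem_normalizer_of_centralizes
    intro w hw
    have := hZcent w hw v (hVR hv)
    rw [← this]
    group
  have hcardsup := card_sup_mul_card_inf hVnormZ
  rw [hVZ, Subgroup.card_bot, mul_one, hZcard] at hcardsup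
  have hsupR : V ⊔ Z ≤ R := sup_le hVR hZR
  have hsupdvd : Nat.card V * r ∣ r ^ 3 := by
    rw [← hcardsup, ← hRcard]
    exact Subgroup.card_dvd_of_le hsupR
  have hVdvd : Nat.card V ∣ r ^ 2 := by
    have h8 : Nat.card V * r ∣ r ^ 2 * r := by rw [← pow_succ]; exact hsupdvd
    exact Nat.dvd_of_mul_dvd_mul_right hr.out.pos h8
  obtain ⟨k, hk2, hk⟩ := (Nat.dvd_prime_pow hr.out).mp hVdvd
  have hk0 : k ≠ 0 := by
    rintro rfl
    rw [pow_zero] at hk
    exact hV1 (Subgroup.card_eq_one.mp hk)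
  have hk1 : k = 1 := by
    by_contra hne
    have hk2' : k = 2 := by omega
    subst hk2'
    -- then `R = V ⊔ Z` is abelian
    have hsup : V ⊔ Z = R := by
      apply Subgroup.eq_of_le_of_card_ge hsupR
      rw [hcardsup, hk, hRcard]
      exact le_of_eq (by ring)
    have hVc : ∀ a b : V, a * b = b * a := IsPGroup.commutative_of_card_eq_prime_sq (p := r) hk
    apply hRnc
    refine ⟨⟨?_⟩⟩
    rintro ⟨g, hg⟩ ⟨g', hg'⟩
    apply Subtype.ext
    show g * g' = g' * g
    have hg1 : g ∈ ((V ⊔ Z : Subgroup G) : Set G) := hsup ▸ hg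
    have hg2 : g' ∈ ((V ⊔ Z : Subgroup G) : Set G) := hsup ▸ hg'
    rw [Subgroup.coe_mul_of_left_le_normalizer_right _ _ hVnormZ] at hg1 hg2
    obtain ⟨v, hv, w, hw, rfl⟩ := Set.mem_mul.mp hg1
    obtain ⟨v', hv', w', hw', rfl⟩ := Set.mem_mul.mp hg2
    have e1 : v * v' = v' * v := congrArg Subtype.val (hVc ⟨v, hv⟩ ⟨v', hv'⟩)
    have e2 : w * v' = v' * w := hZcent w hw v' (hVR hv')
    have e3 : w' * v = v * w' := hZcent w' hw' v (hVR hv)
    have e4 : w * w' = w' * w := hZcent w hw w' (hZR hw')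
    calc v * w * (v' * w') = v * (w * v') * w' := by group
      _ = (v * v') * (w * w') := by rw [e2]; group
      _ = (v' * v) * (w' * w) := by rw [e1, e4]
      _ = v' * (v * w') * w := by group
      _ = v' * w' * (v * w) := by rw [← e3]; group
  subst hk1
  rw [pow_one] at hk
  -- `V` has prime order
  obtain ⟨u, huV, hu1⟩ := exists_mem_ne_one hV1
  have hord : orderOf u = r := orderOf_eq_of_card hk huV hu1
  have hVpow : ∀ w ∈ V, ∃ k : ℕ, w = u ^ k := fun w hw =>
    Cfsg.Agent.S1448.gen_of_card hk huV hu1 hw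
  have huR : u ∈ R := hVR huV
  -- an element of `A` moves `u`
  have hmove : ∃ a ∈ A, a * u * a⁻¹ ≠ u := by
    by_contra hcon
    push_neg at hcon
    have h8 : ⁅V, A⁆ = ⊥ := by
      rw [eq_bot_iff, Subgroup.commutator_le]
      intro w hw a ha
      obtain ⟨k, rfl⟩ := hVpow w hw
      have e1 : a * u = u * a := by
        have := hcon a ha
        calc a * u = a * u * a⁻¹ * a := by group
          _ = u * a := by rw [this]
      have e2 : Commute (u ^ k) a := ((show Commute a u from e1).pow_right k).symm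
      rw [Subgroup.mem_bot, commutatorElement_eq_one_iff_mul_comm]
      exact e2.eq
    exact hV1 (hVA.symm.trans h8)
  obtain ⟨a, haA, hau⟩ := hmove
  obtain ⟨l, hl⟩ := hVpow _ ((mem_normalizer_iff.mp (hAV haA) u).mp huV)
  have hl1 : ¬ l ≡ 1 [MOD r] := by
    intro h8
    apply hau
    rw [hl]
    have h9 : u ^ l = u ^ 1 := (pow_eq_pow_iff_modEq).mpr (hord ▸ h8)
    rw [h9, pow_one]
  have hlp : l ^ p ≡ 1 [MOD r] := by
    have h8 := conj_pow_iter hl p
    rw [hAe a haA] at h8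
    have h9 : u ^ (l ^ p) = u ^ 1 := by
      rw [← h8, pow_one]
      group
    have := (pow_eq_pow_iff_modEq).mp h9
    rwa [hord] at this
  have hl2 : ¬ l * l ≡ 1 [MOD r] := by
    intro h8
    apply hl1
    obtain ⟨m, hm⟩ := hp.out.odd_of_ne_two hp2
    have h9 : l ^ p ≡ l [MOD r] := by
      rw [hm, pow_succ, pow_mul, pow_two]
      have h10 : (l * l) ^ m ≡ 1 ^ m [MOD r] := h8.pow m
      rw [one_pow] at h10
      simpa using h10.mul_right l
    exact h9.symm.trans hlp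
  -- the conjugate `v`
  set v := x * u * x⁻¹ with hvdef
  have hvR : v ∈ R := (mem_normalizer_iff.mp hxR u).mp huR
  have hxa : a * x = x * a := mem_centralizer_iff.mp hxA a haA
  have hav : a * v * a⁻¹ = v ^ l := by
    rw [hvdef, conj_pow, ← hl]
    calc a * (x * u * x⁻¹) * a⁻¹ = (a * x) * u * (a * x)⁻¹ := by group
      _ = (x * a) * u * (x * a)⁻¹ := by rw [hxa]
      _ = x * (a * u * a⁻¹) * x⁻¹ := by group
  have hcZ : ⁅u, v⁆ ∈ Z := by
    have := Subgroup.commutator_mem_commutator huR hvR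
    rwa [hES.derived] at this
  have hcu : Commute ⁅u, v⁆ u := hZcent _ hcZ u huR
  have hcv : Commute ⁅u, v⁆ v := hZcent _ hcZ v hvR
  have hcc : ⁅u, v⁆ ^ (l * l) = ⁅u, v⁆ ^ 1 := by
    rw [← comm_pow_pow hcu hcv, pow_one, ← hl, ← hav]
    have e1 : a * ⁅u, v⁆ * a⁻¹ = ⁅a * u * a⁻¹, a * v * a⁻¹⁆ := by
      simp only [commutatorElement_def]
      group
    rw [← e1, hZA a haA _ hcZ]
    group
  have huv : ⁅u, v⁆ = 1 := by
    by_contra hc1
    have h8 := orderOf_eq_of_card hZcard hcZ hc1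
    have h9 := (pow_eq_pow_iff_modEq).mp hcc
    rw [h8] at h9
    exact hl2 h9
  have huv' : u * v = v * u := commutatorElement_eq_one_iff_mul_comm.mp huv
  -- `C_R(u) = V ⊔ Z`
  have hKle : V ⊔ Z ≤ R ⊓ centralizer ({u} : Set G) := by
    refine sup_le (le_inf hVR ?_) (le_inf hZR ?_)
    · intro w hw
      obtain ⟨k, rfl⟩ := hVpow w hw
      rw [mem_centralizer_iff]
      intro b hb
      rw [Set.mem_singleton_iff.mp hb]
      exact (Commute.refl u).pow_right k
    · intro w hw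
      rw [mem_centralizer_iff]
      intro b hb
      rw [Set.mem_singleton_iff.mp hb]
      exact (hZcent w hw u huR).symm
  have hKne : R ⊓ centralizer ({u} : Set G) ≠ R := by
    intro h8
    have h9 : u ∈ R ⊓ centralizer (R : Set G) := by
      refine ⟨huR, ?_⟩
      show u ∈ centralizer (R : Set G)
      rw [mem_centralizer_iff]
      intro b hb
      have h10 : b ∈ R ⊓ centralizer ({u} : Set G) := by rw [h8]; exact hb
      have h11 : b ∈ centralizer ({u} : Set G) := h10.2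
      exact (mem_centralizer_iff.mp h11 u rfl).symm
    rw [hcen] at h9
    have h10 : u ∈ V ⊓ Z := ⟨huV, h9⟩
    rw [hVZ] at h10
    exact hu1 h10
  have hKeq : V ⊔ Z = R ⊓ centralizer ({u} : Set G) := by
    apply Subgroup.eq_of_le_of_card_ge hKle
    rw [hcardsup, hk]
    have hdvd : Nat.card ↥(R ⊓ centralizer ({u} : Set G)) ∣ r ^ 3 := by
      rw [← hRcard]
      exact Subgroup.card_dvd_of_le inf_le_left
    obtain ⟨m, hm3, hm⟩ := (Nat.dvd_prime_pow hr.out).mp hdvd
    have hm2 : m ≠ 3 := by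
      rintro rfl
      apply hKne
      apply Subgroup.eq_of_le_of_card_ge inf_le_left
      rw [hRcard, hm]
    have hm' : m ≤ 2 := by omega
    rw [hm]
    calc r ^ m ≤ r ^ 2 := Nat.pow_le_pow_right hr.out.pos hm'
      _ = r * r := by ring
  have hvK : v ∈ ((V ⊔ Z : Subgroup G) : Set G) := by
    rw [hKeq]
    refine ⟨hvR, ?_⟩
    show v ∈ centralizer ({u} : Set G)
    rw [mem_centralizer_iff]
    intro b hb
    rw [Set.mem_singleton_iff.mp hb]
    exact huv'
  rw [Subgroup.coe_mul_of_left_le_normalizer_right _ _ hVnormZ] at hvK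
  obtain ⟨v', hv', w, hw, hvw⟩ := Set.mem_mul.mp hvK
  obtain ⟨i, hi⟩ := hVpow v' hv'
  have hav' : a * v' * a⁻¹ = v' ^ l := by
    rw [hi, ← conj_pow, hl, ← pow_mul, ← pow_mul, mul_comm]
  have haw : a * w * a⁻¹ = w := by
    rw [hZA a haA w hw]
    group
  have hwc : Commute v' w := (hZcent w hw v' (hVR hv')).symm
  have hww : w ^ l = w ^ 1 := by
    have h8 : a * (v' * w) * a⁻¹ = (v' * w) ^ l := by rw [hvw]; exact hav
    have h9 : a * (v' * w) * a⁻¹ = (a * v' * a⁻¹) * (a * w * a⁻¹) := by group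
    rw [h9, hav', haw, hwc.mul_pow] at h8
    rw [pow_one]
    exact (mul_left_cancel h8).symm
  have hw1 : w = 1 := by
    by_contra hw1
    have h8 := orderOf_eq_of_card hZcard hw hw1
    have h9 := (pow_eq_pow_iff_modEq).mp hww
    rw [h8] at h9
    exact hl1 h9
  have hvV : v ∈ V := by
    rw [← hvw, hw1, mul_one]
    exact hv'
  apply mem_normalizer_of_cj_eq
  apply Subgroup.eq_of_le_of_card_ge _ (by rw [card_cj])
  rintro _ ⟨y, hy, rfl⟩
  obtain ⟨k, rfl⟩ := hVpow y hy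
  show x * u ^ k * x⁻¹ ∈ V
  rw [← conj_pow]
  exact pow_mem hvV k

end LemmaA

end Cfsg.Agent.Lib.BGP2A
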