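import Mathlib
import Cfsg.Agent.Lib.BGP2A
import Cfsg.Agent.S1396
import Cfsg.Agent.S1410
import Cfsg.Agent.S1403
import Cfsg.Agent.S1456
import Cfsg.Agent.Lib.BGSigma3
import Cfsg.Agent.Lib.BGM3
import Cfsg.Agent.Lib.BGUniq3
import Cfsg.Agent.Lib.NPCBasic

/-!
# Centralizers of elementary abelian subgroups of order `p ^ 2`, part B: the standing hypothesis,
the lines of `A`, and the invariant subgroup `S*`.
-/

set_option autoImplicit false
set_option linter.unusedSectionVars false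
set_option linter.unusedVariables false
set_option linter.style.haveILetI false
set_option linter.unusedSimpArgs false

namespace Cfsg.Agent.Lib.BGP2B

open Cfsg Subgroup Cfsg.Agent.Lib.CoprimeInv Cfsg.Agent.Lib.BGTrans Cfsg.Agent.Lib.Glauberman
  Cfsg.Agent.Lib.BGSigma Cfsg.Agent.Lib.BGSigma2 Cfsg.Agent.Lib.BGSigma3 Cfsg.Agent.Lib.BGM1
  Cfsg.Agent.Lib.BGP2A

open scoped commutatorElement

universe u

variable {G : Type u} [Group G] [Finite G] {p : ℕ} [hp : Fact p.Prime] {A : Subgroup G}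

/-- The standing hypothesis on the elementary abelian subgroup `A` of order `p ^ 2`. -/
structure P2 (p : ℕ) (A : Subgroup G) : Prop where
  hG : IsMinSimpleOddOrder G
  ea : IsElementaryAbelian p A
  card : Nat.card A = p ^ 2
  rank : RankLE 2 ↥(centralizer (A : Set G))
  f2 : ∀ x ∈ centralizer (A : Set G), x ^ p = 1 → x ∈ A
  th : TransitivityHypothesis A

/-- `O_{p'}(C(A))`. -/
abbrev KK (A : Subgroup G) : Subgroup G :=
  piCoreOf (primesNotDvd (Nat.card A)) (centralizer (A : Set G))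

theorem P2.mk' (hG : IsMinSimpleOddOrder G) (hA : IsElementaryAbelian p A)
    (hc : Nat.card A = p ^ 2) (hr : RankLE 2 ↥(centralizer (A : Set G))) : P2 p A := by
  have hAC : A ≤ centralizer (A : Set G) := le_centralizer_of_comm le_rfl hA.1
  have hf : ∀ x ∈ centralizer (A : Set G), x ^ p = 1 → x ∈ A := fun x hx hxp =>
    Cfsg.Agent.S1448.ea_absorb (hr p Fact.out) hAC hA hc hx hxp
      (fun a ha => mem_centralizer_iff.mp hx a ha)
  refine ⟨hG, hA, hc, hr, hf, ?_⟩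
  have hd : p ∣ Nat.card G := by
    have h1 : p ∣ Nat.card A := by rw [hc]; exact dvd_pow_self p (by norm_num)
    exact h1.trans (Subgroup.card_subgroup_dvd_card A)
  refine Cfsg.Agent.S1396.result hG p hd A (isPGroup_of_ea hA) hA.1
    (Or.inl ⟨?_, fun H hH => Cfsg.Agent.S1410.result hG p H hH⟩)
  intro x hx
  exact ⟨hf x hx, fun hxA => hA.2 x hxA⟩

section Basic

variable (h : P2 p A)
include h

theorem P2.pne : p ≠ 2 := by
  intro h2
  subst h2
  have h1 : 2 ∣ Nat.card A := by rw [h.card]; exact dvd_pow_self 2 (by norm_num)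
  have h3 : 2 ∣ Nat.card G := h1.trans (Subgroup.card_subgroup_dvd_card A)
  have h4 := h.hG.1
  rw [Nat.odd_iff] at h4
  omega

theorem P2.pg : IsPGroup p A := isPGroup_of_ea h.ea

theorem P2.ne_bot : A ≠ ⊥ := by
  intro h1
  have h2 := h.card
  rw [h1, Subgroup.card_bot] at h2
  have h3 : 1 < p ^ 2 := Nat.one_lt_pow (by norm_num) hp.out.one_lt
  omega

theorem P2.le_C : A ≤ centralizer (A : Set G) := le_centralizer_of_comm le_rfl h.ea.1

theorem P2.comm {a b : G} (ha : a ∈ A) (hb : b ∈ A) : a * b = b * a :=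
  congrArg Subtype.val (h.ea.1.is_comm.comm (⟨a, ha⟩ : A) ⟨b, hb⟩)

theorem P2.le_line {c : G} (hc : c ∈ A) : A ≤ centralizer ({c} : Set G) := by
  intro a ha
  rw [mem_centralizer_iff]
  intro b hb
  rw [Set.mem_singleton_iff.mp hb]
  exact h.comm hc ha

theorem P2.C_le_line {c : G} (hc : c ∈ A) : centralizer (A : Set G) ≤ centralizer ({c} : Set G) := by
  intro x hx
  rw [mem_centralizer_iff]
  intro b hb
  rw [Set.mem_singleton_iff.mp hb]
  exact mem_centralizer_iff.mp hx c hc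

theorem P2.K_le : KK A ≤ centralizer (A : Set G) := piCoreOf_le _ _

theorem P2.not_rank1 : ¬ RankLE 1 ↥(A ⊓ centralizer (A : Set G)) := by
  have h1 : A ⊓ centralizer (A : Set G) = A := inf_eq_left.mpr h.le_C
  rw [h1]
  apply Cfsg.Agent.Lib.BGUniq3.not_rankLE_of_ea hp.out h.ea.1 h.ea.2
  rw [h.card, pow_one]
  exact lt_self_pow₀ hp.out.one_lt (by norm_num)

theorem P2.not_dvd {r : ℕ} (hr : r.Prime) (hrp : r ≠ p) : ¬ r ∣ Nat.card A := by
  rw [h.card]
  intro hd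
  exact hrp ((Nat.prime_dvd_prime_iff_eq hr hp.out).mp (hr.dvd_of_dvd_pow hd))

theorem P2.coprime {r : ℕ} [hr : Fact r.Prime] (hrp : r ≠ p) {Q : Subgroup G} (hQ : IsPGroup r Q) :
    (Nat.card Q).Coprime (Nat.card A) :=
  (coprime_card_of_pgroups hrp h.pg hQ).symm

theorem P2.coatom_solv {H : Subgroup G} (hH : IsCoatom H) : Group.IsSolvable H :=
  IsMin.solvable h.hG hH.1

theorem P2.conj {r : ℕ} [hr : Fact r.Prime] (hrp : r ≠ p)
    (hd : r ∣ Nat.card ↥(centralizer (A : Set G))) {Q₁ Q₂ : Subgroup G}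
    (h₁ : Q₁ ∈ maxInvSubgroups ⊤ A {r}) (h₂ : Q₂ ∈ maxInvSubgroups ⊤ A {r}) :
    ∃ k ∈ KK A, Q₂ = cj Q₁ k :=
  TH.conj_of_rank_two h.hG h.th h.not_rank1 (h.not_dvd hr.out hrp) hd Q₁ h₁ Q₂ h₂

theorem P2.conj_meet {r : ℕ} [hr : Fact r.Prime] (hrp : r ≠ p) {Q₁ Q₂ : Subgroup G}
    (h₁ : Q₁ ∈ maxInvSubgroups ⊤ A {r}) (h₂ : Q₂ ∈ maxInvSubgroups ⊤ A {r})
    (hne : Q₁ ⊓ Q₂ ≠ ⊥) : ∃ k ∈ KK A, Q₂ = cj Q₁ k :=
  TH.conj_of_inf_ne_bot h.hG h.th (h.not_dvd hr.out hrp) h₁ h₂ hne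

theorem P2.conj_common {r : ℕ} [hr : Fact r.Prime] (hrp : r ≠ p) {Q₁ Q₂ H : Subgroup G}
    (h₁ : Q₁ ∈ maxInvSubgroups ⊤ A {r}) (h₂ : Q₂ ∈ maxInvSubgroups ⊤ A {r}) (hH : H ≠ ⊤) (hAH : A ≤ H)
    (hH₁ : H ⊓ Q₁ ≠ ⊥) (hH₂ : H ⊓ Q₂ ≠ ⊥) : ∃ k ∈ KK A, Q₂ = cj Q₁ k :=
  TH.conj_of_common h.hG h.th (h.not_dvd hr.out hrp) h₁ h₂ hH hAH hH₁ hH₂

theorem P2.exists_ge {r : ℕ} [hr : Fact r.Prime] {Y : Subgroup G} (hY : IsPGroup r Y)
    (hAY : A ≤ normalizer (Y : Set G)) : ∃ Q ∈ maxInvSubgroups ⊤ A {r}, Y ≤ Q := by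
  apply exists_maxInv_ge
  exact mem_invSubgroups_singleton.mpr ⟨le_top, hY, hAY⟩

/-- Lines generate. -/
theorem P2.le_of_lines {X W : Subgroup G} (hX : ¬ p ∣ Nat.card X)
    (hAX : A ≤ normalizer (X : Set G))
    (hW : ∀ c ∈ A, c ≠ 1 → X ⊓ centralizer ({c} : Set G) ≤ W) : X ≤ W := by
  rw [Cfsg.Agent.Lib.CoprimeHyper.eq_iSup_inf_centralizer A X h.ea.1 h.ea.2 hX hAX]
  apply iSup_le
  rintro ⟨B, hBA, hBi⟩
  have hB1 : B ≠ ⊥ := by
    rintro rfl
    rw [Subgroup.relIndex_bot_left, h.card] at hBi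
    have h3 : p < p ^ 2 := lt_self_pow₀ hp.out.one_lt (by norm_num)
    omega
  obtain ⟨c, hc, hc1⟩ := exists_mem_ne_one hB1
  refine le_trans (inf_le_inf_left _ ?_) (hW c (hBA hc) hc1)
  apply Subgroup.centralizer_le
  simpa using hc

theorem P2.norm_of_lines {R : Subgroup G} (hR : ¬ p ∣ Nat.card R)
    (hAR : A ≤ normalizer (R : Set G)) {x : G}
    (hx : ∀ c ∈ A, c ≠ 1 → x ∈ normalizer ((R ⊓ centralizer ({c} : Set G) : Subgroup G) : Set G)) :
    x ∈ normalizer (R : Set G) := by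
  apply mem_normalizer_of_cj_eq
  have hle : R ≤ cj R x⁻¹ := by
    apply h.le_of_lines hR hAR
    intro c hc hc1 y hy
    have h1 := (mem_normalizer_iff.mp (hx c hc hc1) y).mp hy
    rw [mem_cj]
    simpa using h1.1
  apply Subgroup.eq_of_le_of_card_ge _ (by rw [card_cj])
  rintro _ ⟨y, hy, rfl⟩
  have h2 := hle hy
  rw [mem_cj] at h2
  simpa using h2

/-- The fixed part of a member of `И*` on a line is determined. -/
theorem P2.star_eq {r : ℕ} [hr : Fact r.Prime] (hrp : r ≠ p) {R S : Subgroup G} {c : G} (hc : c ∈ A)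
    (hR : R ∈ maxInvSubgroups ⊤ A {r}) (hne : R ⊓ centralizer ({c} : Set G) ≠ ⊥)
    (hSc : S ≤ centralizer ({c} : Set G)) (hS : IsPGroup r S) (hAS : A ≤ normalizer (S : Set G))
    (hXS : R ⊓ centralizer ({c} : Set G) ≤ S) : S = R ⊓ centralizer ({c} : Set G) := by
  obtain ⟨Q, hQ, hSQ⟩ := h.exists_ge hS hAS
  have hQR : R ⊓ Q ≠ ⊥ := by
    intro hb
    apply hne
    rw [eq_bot_iff, ← hb]
    exact le_inf inf_le_left (hXS.trans hSQ)
  obtain ⟨k, hk, rfl⟩ := h.conj_meet hrp hR hQ hQR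
  have hkc : k ∈ centralizer ({c} : Set G) := h.C_le_line hc (h.K_le hk)
  apply (Subgroup.eq_of_le_of_card_ge hXS _).symm
  have hle : S ≤ cj (R ⊓ centralizer ({c} : Set G)) k := by
    intro s hs
    rw [mem_cj]
    refine ⟨?_, ?_⟩
    · have := hSQ hs
      rw [mem_cj] at this
      exact this
    · show k⁻¹ * s * k ∈ centralizer ({c} : Set G)
      exact mul_mem (mul_mem (inv_mem hkc) (hSc hs)) hkc
  have := Subgroup.card_le_of_le hle
  rwa [card_cj] at this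

end Basic

theorem maxInv_of_sylow {r : ℕ} [hr : Fact r.Prime] {T : Subgroup G} (hT : IsSylowIn r T ⊤)
    (hA : A ≤ normalizer (T : Set G)) : T ∈ maxInvSubgroups ⊤ A {r} := by
  refine ⟨mem_invSubgroups_singleton.mpr ⟨le_top, hT.2.1, hA⟩, ?_⟩
  intro R hR hTR
  exact hT.2.2 R le_top (mem_invSubgroups_singleton.mp hR).2.1 hTR

section Alpha

variable (hG : IsMinSimpleOddOrder G)
include hG

theorem pgroup_le_sigmaCore {H P : Subgroup G} (hH : IsCoatom H) {q : ℕ} [hq : Fact q.Prime]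
    (hσ : q ∈ sigma H) (hPH : P ≤ H) (hP : IsPGroup q P) : P ≤ sigmaCore H := by
  obtain ⟨S, hS, hPS⟩ := exists_isSylowIn_ge q hPH hP
  intro y hy
  exact ⟨⟨y, hPH hy⟩, sylow_le_sigmaCore hG hH hσ hS.toSylow (hPS hy), rfl⟩

theorem comm_le_sigmaCore {H X P : Subgroup G} (hH : IsCoatom H) (hXH : X ≤ H)
    (hP : P ≤ sigmaCore H) : ⁅X, P⁆ ≤ sigmaCore H := by
  rw [Subgroup.commutator_le]
  intro x hx a ha
  rw [commutatorElement_def]
  have h1 : x * a * x⁻¹ ∈ sigmaCore H :=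
    (mem_normalizer_iff.mp (le_normalizer_sigmaCore (hXH hx)) a).mp (hP ha)
  exact mul_mem h1 (inv_mem (hP ha))

/-- Uniqueness for Sylow subgroups of `M` at primes of `α(M)`. -/
theorem unique_of_alpha {H T : Subgroup G} {r : ℕ} [hr : Fact r.Prime] (hrα : r ∈ alpha H)
    (hT : IsSylowIn r T H) : InUniqueMaximal T := by
  have h1 : ¬ PRankLE r 2 T := fun hle => hrα.2 (prankLE_of_isSylowIn hT hle)
  exact Cfsg.Agent.S1403.result hG T (IsMin.isPGroup_ne_top hG hT.2.1) (not_rankLE_one hr.out h1)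
    (Or.inl (not_rankLE_two hr.out h1))

/-- Invariant Sylow subgroups at primes of `α(H)`. -/
theorem inv_sylow_alpha {H P : Subgroup G} (hH : IsCoatom H) {r : ℕ} [hr : Fact r.Prime]
    (hrα : r ∈ alpha H) {q : ℕ} [hq : Fact q.Prime] (hqα : q ∉ alpha H) (hP : IsPGroup q P)
    (hPH : P ≤ H) :
    ∃ T, IsSylowIn r T H ∧ T ≤ alphaCore H ∧ P ≤ normalizer (T : Set G) ∧ IsSylowIn r T ⊤ := by
  obtain ⟨h1, h2, -⟩ := alpha_structure hG (ut hG) hH
  have hs : Group.IsSolvable (alphaCore H) :=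
    IsMin.solvable hG (fun ht => hH.1 (top_le_iff.mp (ht ▸ h1.1)))
  have hN : P ≤ normalizer (alphaCore H : Set G) :=
    hPH.trans (le_normalizer_piCoreOf _ _)
  have hc : (Nat.card (alphaCore H)).Coprime (Nat.card P) := by
    apply Cfsg.Agent.Lib.BGUniq2.coprime_of_isPGroup _ hP
    rw [Nat.coprime_comm, Nat.Prime.coprime_iff_not_dvd hq.out]
    intro hd
    exact hqα (h1.2.1 q hq.out hd)
  obtain ⟨T, hT, hPT⟩ := exists_invariant_isSylowIn r hs hN hc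
  have hTH : IsSylowIn r T H := Cfsg.Agent.Lib.BGM2.isSylowIn_of_hall hT h1.1 (h1.2.2 r hr.out hrα)
  exact ⟨T, hTH, hT.1, hPT,
    isSylowIn_top_of_sigma (alpha_sub_sigma hG (ut hG) hH hrα) hTH⟩

/-- Invariant Sylow subgroups at primes of `β(H)`. -/
theorem inv_sylow_beta {H P : Subgroup G} (hH : IsCoatom H) {r : ℕ} [hr : Fact r.Prime]
    (hrβ : r ∈ beta H) {q : ℕ} [hq : Fact q.Prime] (hqβ : q ∉ beta H) (hP : IsPGroup q P)
    (hPH : P ≤ H) :
    ∃ T, IsSylowIn r T H ∧ P ≤ normalizer (T : Set G) ∧ IsSylowIn r T ⊤ := by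
  obtain ⟨h1, h2⟩ := Cfsg.Agent.Lib.BGM3.beta_hall hG hH
  have hs : Group.IsSolvable (piCoreOf (beta H) H) :=
    IsMin.solvable hG (fun ht => hH.1 (top_le_iff.mp (ht ▸ h1.1)))
  have hN : P ≤ normalizer (piCoreOf (beta H) H : Set G) :=
    hPH.trans (le_normalizer_piCoreOf _ _)
  have hc : (Nat.card (piCoreOf (beta H) H)).Coprime (Nat.card P) := by
    apply Cfsg.Agent.Lib.BGUniq2.coprime_of_isPGroup _ hP
    rw [Nat.coprime_comm, Nat.Prime.coprime_iff_not_dvd hq.out]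
    intro hd
    exact hqβ (h1.2.1 q hq.out hd)
  obtain ⟨T, hT, hPT⟩ := exists_invariant_isSylowIn r hs hN hc
  have hTH : IsSylowIn r T H := Cfsg.Agent.Lib.BGM2.isSylowIn_of_hall hT h1.1 (h1.2.2 r hr.out hrβ)
  exact ⟨T, hTH, hPT,
    isSylowIn_top_of_sigma (Cfsg.Agent.Lib.BGM3.beta_sub_sigma hG hH hrβ) hTH⟩

end Alpha

section LemmaI

/-- Lemma (i): a nontrivial `[X, A]`-perfect `r`-subgroup of `H` forces `r ∈ β(H)` when `p ∈ σ(H)`. -/
theorem P2.lemma_i (h : P2 p A) {H X : Subgroup G} (hH : IsCoatom H) (hAH : A ≤ H)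
    (hpσ : p ∈ sigma H) {r : ℕ} [hr : Fact r.Prime] (hrp : r ≠ p) (hXH : X ≤ H) (hX : IsPGroup r X)
    (hXA : ⁅X, A⁆ = X) (hX1 : X ≠ ⊥) : r ∈ beta H := by
  classical
  by_contra hrβ
  have hG := h.hG
  have hAσ : A ≤ sigmaCore H := pgroup_le_sigmaCore hG hH hpσ hAH h.pg
  have hXσ : X ≤ sigmaCore H := by
    rw [← hXA]
    exact comm_le_sigmaCore hG hH hXH hAσ
  have hrd : r ∣ Nat.card H :=
    (Cfsg.Agent.Lib.BGUniq2.dvd_card_of_isPGroup hX hX1).trans (Subgroup.card_dvd_of_le hXH)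
  have hnpc := Cfsg.Agent.Lib.BGM3.npc_sigmaCore hG hH r hr.out hrβ hrd
  obtain ⟨N, hNn, hNc, k, hk⟩ := Cfsg.Agent.Lib.NPCBasic.hasNPC_iff.mp hnpc
  have hAN : ∀ a (ha : a ∈ A), (⟨a, hAσ ha⟩ : sigmaCore H) ∈ N := by
    intro a ha
    have h1 := Subgroup.pow_index_mem N (⟨a, hAσ ha⟩ : sigmaCore H)
    rw [hk] at h1
    apply mem_of_pow_mem_of_coprime' _ h1
    have h2 : orderOf (⟨a, hAσ ha⟩ : sigmaCore H) ∣ p := by
      apply orderOf_dvd_of_pow_eq_one
      apply Subtype.ext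
      exact h.ea.2 a ha
    apply Nat.Coprime.coprime_dvd_left h2
    exact Nat.Coprime.pow_right _ ((Nat.coprime_primes hp.out hr.out).mpr hrp.symm)
  have hle : X ≤ N.map (sigmaCore H).subtype := by
    conv_lhs => rw [← hXA]
    rw [Subgroup.commutator_le]
    intro x hx a ha
    refine ⟨⁅(⟨x, hXσ hx⟩ : sigmaCore H), (⟨a, hAσ ha⟩ : sigmaCore H)⁆, ?_, rfl⟩
    have h3 := hAN a ha
    rw [commutatorElement_def]
    exact mul_mem (hNn.conj_mem _ h3 _) (inv_mem h3)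
  have hc : (Nat.card X).Coprime r := by
    apply Nat.Coprime.coprime_dvd_left (Subgroup.card_dvd_of_le hle)
    rwa [Subgroup.card_map_of_injective (sigmaCore H).subtype_injective]
  exact hX1 (Cfsg.Agent.Lib.BGUniq2.eq_bot_of_pgroup_of_coprime hX hc)

/-- `p` is not in `β(H)`, as `A` is a maximal elementary abelian subgroup. -/
theorem P2.not_beta (h : P2 p A) (H : Subgroup G) : p ∉ beta H := by
  classical
  rintro ⟨-, -, -, hideal⟩
  obtain ⟨P, hP⟩ := h.pg.exists_le_sylow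
  obtain ⟨B, hBP, hBe, hAB⟩ := hideal P A hP h.ea h.card
  have hBC : B ≤ centralizer (A : Set G) := le_centralizer_of_comm hAB.le hBe.1
  have hBA : B ≤ A := fun b hb => h.f2 b (hBC hb) (hBe.2 b hb)
  exact hAB.not_ge hBA

end LemmaI

section Star

theorem le_normalizer_map_subtype {H : Subgroup G} {N : Subgroup H} (hN : N.Normal) :
    H ≤ normalizer (N.map H.subtype : Set G) := by
  intro x hx
  rw [mem_normalizer_iff]
  intro y
  constructor
  · rintro ⟨z, hz, rfl⟩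
    exact ⟨⟨x, hx⟩ * z * ⟨x, hx⟩⁻¹, hN.conj_mem z hz _, rfl⟩
  · rintro ⟨z, hz, hzy⟩
    have h1 := hN.conj_mem z hz (⟨x, hx⟩⁻¹ : H)
    simp only [inv_inv] at h1
    refine ⟨(⟨x, hx⟩ : H)⁻¹ * z * ⟨x, hx⟩, h1, ?_⟩
    have h2 : (z : G) = x * y * x⁻¹ := hzy
    show x⁻¹ * (z : G) * x = y
    rw [h2]
    group

theorem P2.exists_star (h : P2 p A) {H C₁ X : Subgroup G} (hH : IsCoatom H) {r : ℕ} [hr : Fact r.Prime]
    (hrp : r ≠ p) (hAC₁ : A ≤ C₁) (hCC₁ : centralizer (A : Set G) ≤ C₁) (hC₁H : C₁ ≤ H)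
    (hpα : p ∉ alpha H) (hrα : r ∉ alpha H) (hTS : alphaCore H ⊓ centralizer (A : Set G) = ⊥)
    (hXC₁ : X ≤ C₁) (hX : IsPGroup r X) (hAX : A ≤ normalizer (X : Set G)) (hXA : ⁅X, A⁆ = X) :
    ∃ S, S ≤ C₁ ∧ IsPGroup r S ∧ X ≤ S ∧ A ≤ normalizer (S : Set G) ∧ PRankLE r 2 S ∧
      centralizer (A : Set G) ≤ normalizer (S : Set G) := by
  classical
  have hG := h.hG
  haveI hHs : Group.IsSolvable H := h.coatom_solv hH
  obtain ⟨hst1, -, -, hstr, -⟩ := alpha_structure hG (ut hG) hH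
  set Qk := piCore (alpha H) ↥H with hQk
  let φ : ↥H →* ↥H ⧸ Qk := QuotientGroup.mk' Qk
  set Oc := pCore r (↥H ⧸ Qk) with hOc
  have hOcp : IsPGroup r Oc := Cfsg.Agent.Lib.PCore.isPGroup_pCore r
  set Y₀ : Subgroup ↥H := Oc.comap φ with hY₀
  haveI hY₀n : Y₀.Normal := Subgroup.Normal.comap inferInstance φ
  set Y₁ : Subgroup G := Y₀.map H.subtype with hY₁
  set Y : Subgroup G := C₁ ⊓ Y₁ with hY
  set U : Subgroup G := C₁ ⊓ alphaCore H with hU
  have hYH : Y ≤ H := inf_le_left.trans hC₁H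
  -- `Y₁` and `alphaCore H`
  have hY₁n : H ≤ normalizer (Y₁ : Set G) := le_normalizer_map_subtype hY₀n
  have hαn : H ≤ normalizer (alphaCore H : Set G) := le_normalizer_piCoreOf _ _
  have hαY₁ : alphaCore H ≤ Y₁ := by
    rintro _ ⟨z, hz, rfl⟩
    refine ⟨z, ?_, rfl⟩
    show φ z ∈ Oc
    have : φ z = 1 := (QuotientGroup.eq_one_iff z).mpr hz
    rw [this]
    exact one_mem _
  have hUY : U ≤ Y := inf_le_inf_left _ hαY₁
  have hC₁Y : C₁ ≤ normalizer (Y : Set G) :=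
    le_normalizer_inf le_normalizer (hC₁H.trans hY₁n)
  have hC₁U : C₁ ≤ normalizer (U : Set G) :=
    le_normalizer_inf le_normalizer (hC₁H.trans hαn)
  -- `X ≤ Y`
  have hXY : X ≤ Y := by
    intro x hx
    refine ⟨hXC₁ hx, ?_⟩
    have h1 : X ≤ ⁅H, H⁆ := by
      rw [← hXA]
      exact Subgroup.commutator_mono (hXC₁.trans hC₁H) (hAC₁.trans hC₁H)
    rw [← Subgroup.map_subtype_commutator H] at h1
    obtain ⟨z, hz, hzx⟩ := h1 hx
    refine ⟨z, ?_, hzx⟩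
    show φ z ∈ Oc
    have hder := commutator_quot_le_fitting (Cfsg.Agent.Lib.BGSigma2.odd_card_of_le hG H) (alpha H)
      (alpha_hyp H)
    have hm : φ z ∈ commutator (↥H ⧸ Qk) := by
      rw [← map_commutator_mk Qk]
      exact ⟨z, hz, rfl⟩
    obtain ⟨k, hk⟩ := hX ⟨x, hx⟩
    have hk' : x ^ r ^ k = 1 := congrArg Subtype.val hk
    exact Cfsg.Agent.S1456.mem_pCore_of_mem_fitting r (hder hm) (k := k) (by
      rw [← map_pow]
      have : z ^ r ^ k = 1 := by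
        apply Subtype.ext
        show (z : G) ^ r ^ k = 1
        have hzx' : (z : G) = x := hzx
        rw [hzx']; exact hk'
      rw [this, map_one])
  -- the hom on `Y`
  let f : ↥Y →* ↥H ⧸ Qk := φ.comp (Subgroup.inclusion hYH)
  have hfr : f.range ≤ Oc := by
    rintro _ ⟨⟨y, hy⟩, rfl⟩
    obtain ⟨z, hz, hzy⟩ := hy.2
    have hz' : Subgroup.inclusion hYH ⟨y, hy⟩ = z := Subtype.ext hzy.symm
    show φ (Subgroup.inclusion hYH ⟨y, hy⟩) ∈ Oc
    rw [hz']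
    exact hz
  have hfk : f.ker = U.subgroupOf Y := by
    ext ⟨y, hy⟩
    rw [MonoidHom.mem_ker, Subgroup.mem_subgroupOf]
    show φ (Subgroup.inclusion hYH ⟨y, hy⟩) = 1 ↔ y ∈ U
    rw [show φ (Subgroup.inclusion hYH ⟨y, hy⟩) = 1 ↔ Subgroup.inclusion hYH ⟨y, hy⟩ ∈ Qk from
      QuotientGroup.eq_one_iff _]
    constructor
    · intro h1
      exact ⟨hy.1, ⟨_, h1, rfl⟩⟩
    · rintro ⟨-, z, hz, hzy⟩
      have hz' : Subgroup.inclusion hYH ⟨y, hy⟩ = z := Subtype.ext hzy.symm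
      rw [hz']
      exact hz
  obtain ⟨m, hm⟩ := hOcp.exists_card_eq
  have hrelU : ∃ k, U.relIndex Y = r ^ k := by
    have h1 : U.relIndex Y = Nat.card f.range := by
      rw [Subgroup.relIndex, ← hfk]
      exact Subgroup.index_ker f
    have h2 : Nat.card f.range ∣ r ^ m := by
      rw [← hm]
      exact Subgroup.card_dvd_of_le hfr
    obtain ⟨k, -, hk⟩ := (Nat.dvd_prime_pow hr.out).mp h2
    exact ⟨k, h1.trans hk⟩
  obtain ⟨k, hk⟩ := hrelU
  -- coprimality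
  have hαp : ∀ {q : ℕ}, q.Prime → q ∉ alpha H → (Nat.card U).Coprime q := by
    intro q hq hqα
    apply Nat.Coprime.coprime_dvd_left (Subgroup.card_dvd_of_le (inf_le_right : U ≤ alphaCore H))
    rw [Nat.coprime_comm, Nat.Prime.coprime_iff_not_dvd hq]
    intro hd
    exact hqα (hst1.2.1 q hq hd)
  have hcardY : Nat.card Y = Nat.card U * r ^ k := by
    have h1 := Subgroup.card_mul_index (U.subgroupOf Y)
    rw [card_subgroupOf_of_le hUY] at h1
    rw [← h1]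
    congr 1
  have hYp : (Nat.card Y).Coprime p := by
    rw [hcardY]
    exact Nat.Coprime.mul_left (hαp hp.out hpα)
      (Nat.Coprime.pow_left _ ((Nat.coprime_primes hr.out hp.out).mpr hrp))
  have hYA : (Nat.card Y).Coprime (Nat.card A) := Cfsg.Agent.Lib.BGUniq2.coprime_of_isPGroup hYp h.pg
  have hUA : (Nat.card U).Coprime (Nat.card A) :=
    Nat.Coprime.coprime_dvd_left (Subgroup.card_dvd_of_le hUY) hYA
  have hYs : Group.IsSolvable Y := IsMin.solvable hG (fun ht => hH.1 (top_le_iff.mp (ht ▸ hYH)))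
  have hUs : Group.IsSolvable U :=
    IsMin.solvable hG (fun ht => hH.1 (top_le_iff.mp (ht ▸ hUY.trans hYH)))
  -- uniqueness
  have huniq : ∀ {S₁ S₂ : Subgroup G}, IsSylowIn r S₁ Y → IsSylowIn r S₂ Y →
      A ≤ normalizer (S₁ : Set G) → A ≤ normalizer (S₂ : Set G) → S₂ = S₁ := by
    intro S₁ S₂ h₁ h₂ hA₁ hA₂
    obtain ⟨g, hg, hgS⟩ := h₁.exists_conj h₂
    have hS₁U : S₁ ≤ normalizer (U : Set G) := (h₁.1.trans inf_le_left).trans hC₁U
    have hle : Y ≤ U ⊔ S₁ := by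
      apply Subgroup.relIndex_eq_one.mp
      have h3 : (U ⊔ S₁).relIndex Y ∣ r ^ k := by
        rw [← hk]
        exact Subgroup.relIndex_dvd_of_le_left Y le_sup_left
      have h4 : (U ⊔ S₁).relIndex Y ∣ S₁.relIndex Y :=
        Subgroup.relIndex_dvd_of_le_left Y le_sup_right
      have h5 : ¬ r ∣ S₁.relIndex Y := by
        have := h₁.toSylow.not_dvd_index
        exact this
      have hcop : (S₁.relIndex Y).Coprime (r ^ k) :=
        Nat.Coprime.pow_right _ ((Nat.Coprime.symm ((Nat.Prime.coprime_iff_not_dvd hr.out).mpr h5)))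
      exact Nat.eq_one_of_dvd_coprimes hcop h4 h3
    have hg' : g ∈ ((U ⊔ S₁ : Subgroup G) : Set G) := hle hg
    rw [Subgroup.coe_mul_of_right_le_normalizer_left _ _ hS₁U] at hg'
    obtain ⟨u, hu, s, hs, rfl⟩ := Set.mem_mul.mp hg'
    have hS₂ : S₂ = cj S₁ u := by
      rw [hgS, ← cj_cj, cj_eq_of_mem_normalizer (le_normalizer hs)]
    have hUnorm : A ≤ normalizer (U : Set G) := hAC₁.trans hC₁U
    obtain ⟨c, hc, hcS⟩ := glauberman_trans hUs hUnorm hUA hu hS₂ hA₁ hA₂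
    have hc1 : c = 1 := by
      have h6 : c ∈ alphaCore H ⊓ centralizer (A : Set G) := ⟨hc.1.2, hc.2⟩
      rw [hTS] at h6
      exact h6
    rw [hcS, hc1, cj_one]
  obtain ⟨S, hS, hAS, hXS⟩ := exists_invariant_isSylowIn_ge r hYs (hAC₁.trans hC₁Y) hYA hXY hX hAX
  refine ⟨S, hS.1.trans inf_le_left, hS.2.1, hXS, hAS, ?_, ?_⟩
  · -- the rank
    have hSY : S ≤ Y := hS.1
    let g₀ : ↥S →* ↥H ⧸ Qk := f.comp (Subgroup.inclusion hSY)
    have hg₀ : Function.Injective g₀ := by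
      rw [injective_iff_map_eq_one]
      rintro ⟨s, hs⟩ hs1
      have h1 : (Subgroup.inclusion hSY ⟨s, hs⟩ : ↥Y) ∈ f.ker := hs1
      rw [hfk, Subgroup.mem_subgroupOf] at h1
      have h2 : s ∈ U ⊓ S := ⟨h1, hs⟩
      have h3 : U ⊓ S = ⊥ := by
        apply inf_eq_bot_of_coprime'
        have h4 := hαp hr.out hrα
        obtain ⟨l, hl⟩ := hS.2.1.exists_card_eq
        rw [hl]
        exact Nat.Coprime.pow_right _ h4
      rw [h3] at h2
      exact Subtype.ext h2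
    exact Cfsg.Agent.Lib.BGSigma4.prankLE_of_injective g₀ hg₀ (hstr r hr.out)
  · intro x hx
    have hxN : x ∈ normalizer (A : Set G) := centralizer_le_normalizer A hx
    have h1 : IsSylowIn r (cj S x) Y := hS.cj_of_normalizer (hC₁Y (hCC₁ hx))
    have h2 : A ≤ normalizer (cj S x : Set G) := by
      have := normalizer_cj_of_le (g := x) hAS
      rwa [cj_eq_of_mem_normalizer hxN] at this
    exact mem_normalizer_of_cj_eq (huniq hS h1 hAS h2)

end Star

end Cfsg.Agent.Lib.BGP2B
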