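import Mathlib
import Cfsg.Agent.Lib.BGP2B
import Cfsg.Agent.S1412
import Cfsg.Agent.S1453
import Cfsg.Agent.S1452

/-!
# Centralizers of elementary abelian subgroups of order `p ^ 2`, part C: `H_α ∩ C(A) = 1`.
-/

set_option autoImplicit false
set_option linter.unusedSectionVars false
set_option linter.unusedVariables false
set_option linter.style.haveILetI false
set_option linter.unusedSimpArgs false

namespace Cfsg.Agent.Lib.BGP2C

open Cfsg Subgroup Cfsg.Agent.Lib.CoprimeInv Cfsg.Agent.Lib.BGTrans Cfsg.Agent.Lib.Glauberman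
  Cfsg.Agent.Lib.BGSigma Cfsg.Agent.Lib.BGSigma2 Cfsg.Agent.Lib.BGSigma3 Cfsg.Agent.Lib.BGSigma4
  Cfsg.Agent.Lib.BGM1 Cfsg.Agent.Lib.BGP2A Cfsg.Agent.Lib.BGP2B

open scoped commutatorElement

universe u

variable {G : Type u} [Group G] [Finite G] {p : ℕ} [hp : Fact p.Prime] {A : Subgroup G}

theorem mem_normalizer_of_conj_mem {K : Subgroup G} {x : G} (h : ∀ k ∈ K, x * k * x⁻¹ ∈ K) :
    x ∈ normalizer (K : Set G) := by
  apply mem_normalizer_of_cj_eq
  apply Subgroup.eq_of_le_of_card_ge _ (by rw [card_cj])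
  rintro _ ⟨y, hy, rfl⟩
  exact h y hy

theorem centralizer_cj' (A : Subgroup G) (y : G) :
    centralizer (cj A y : Set G) = cj (centralizer (A : Set G)) y := by
  ext x
  rw [mem_cj, mem_centralizer_iff, mem_centralizer_iff]
  constructor
  · intro h a ha
    have h1 := h (y * a * y⁻¹) (conj_mem_cj ha)
    calc a * (y⁻¹ * x * y) = y⁻¹ * ((y * a * y⁻¹) * x) * y := by group
      _ = y⁻¹ * (x * (y * a * y⁻¹)) * y := by rw [h1]
      _ = y⁻¹ * x * y * a := by group
  · intro h b hb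
    have h1 := h (y⁻¹ * b * y) (mem_cj.mp hb)
    calc b * x = y * ((y⁻¹ * b * y) * (y⁻¹ * x * y)) * y⁻¹ := by group
      _ = y * ((y⁻¹ * x * y) * (y⁻¹ * b * y)) * y⁻¹ := by rw [h1]
      _ = x * b := by group

theorem p2_cj (h : P2 p A) (y : G) : P2 p (cj A y) := by
  refine P2.mk' h.hG ⟨isMulCommutative_cj h.ea.1 y, ?_⟩ (by rw [card_cj, h.card]) ?_
  · rintro _ ⟨a, ha, rfl⟩
    show (y * a * y⁻¹) ^ p = 1
    rw [conj_pow, h.ea.2 a ha]
    group
  · intro q hq
    rw [centralizer_cj']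
    have hle : ∀ x : ↥(Cfsg.Agent.Lib.CoprimeInv.cj (centralizer (A : Set G)) y),
        y⁻¹ * (x : G) * y ∈ centralizer (A : Set G) := fun x => mem_cj.mp x.2
    let f : ↥(Cfsg.Agent.Lib.CoprimeInv.cj (centralizer (A : Set G)) y) →* ↥(centralizer (A : Set G)) :=
      { toFun := fun x => ⟨y⁻¹ * (x : G) * y, hle x⟩
        map_one' := by
          apply Subtype.ext
          simp
        map_mul' := by
          intro a b
          apply Subtype.ext
          simp only [Subgroup.coe_mul]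
          group }
    have hf : Function.Injective f := by
      intro a b hab
      have h1 : y⁻¹ * (a : G) * y = y⁻¹ * (b : G) * y := congrArg Subtype.val hab
      apply Subtype.ext
      have h2 := mul_right_cancel h1
      exact mul_left_cancel h2
    exact Cfsg.Agent.Lib.BGSigma4.prankLE_of_injective f hf (h.rank q hq)

/-- If `A` is invariant under the normalizer of a Sylow subgroup of a maximal subgroup with `u ∈ σ`. -/
theorem p2_normalizer_le (h : P2 p A) {H T : Subgroup G} (hCH : centralizer (A : Set G) ≤ H) {u : ℕ}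
    [hu : Fact u.Prime] (huσ : u ∈ sigma H) (hup : u ≠ p) (hT : IsSylowIn u T H)
    (hAT : A ≤ normalizer (T : Set G)) (hd : u ∣ Nat.card ↥(centralizer (A : Set G))) :
    normalizer (A : Set G) ≤ H := by
  intro g hg
  have hT0 := isSylowIn_top_of_sigma huσ hT
  have hT1 : IsSylowIn u (cj T g) ⊤ := hT0.cj_of_normalizer (by
    rw [Subgroup.mem_normalizer_iff]
    intro x; simp)
  have hA1 : A ≤ normalizer (cj T g : Set G) := by
    have := normalizer_cj_of_le (g := g) hAT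
    rwa [cj_eq_of_mem_normalizer hg] at this
  obtain ⟨k, hk, hkT⟩ := h.conj hup hd (maxInv_of_sylow hT0 hAT) (maxInv_of_sylow hT1 hA1)
  have hkH : k ∈ H := hCH (h.K_le hk)
  have h1 : k⁻¹ * g ∈ normalizer (T : Set G) := by
    apply mem_normalizer_of_cj_eq
    rw [← cj_cj, hkT, cj_cj, inv_mul_cancel, cj_one]
  have h2 := normalizer_le_of_sigma huσ hT h1
  have h3 : g = k * (k⁻¹ * g) := by group
  rw [h3]
  exact mul_mem hkH h2

section WLemma

theorem w_lemma (hp2 : p ≠ 2) {S E : Subgroup G} (hS : IsPGroup p S) (hrk : ¬ PRankLE p 2 S)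
    (hES : E ≤ S) (hE : IsElementaryAbelian p E) (hE2 : Nat.card E = p ^ 2)
    (hEmax : ∀ B : Subgroup G, IsElementaryAbelian p B → E ≤ B → B = E)
    (hf2 : ∀ x ∈ centralizer (E : Set G), x ^ p = 1 → x ∈ E) :
    ∃ W : Subgroup G, W ≤ S ∧ IsElementaryAbelian p W ∧ Nat.card W = p ^ 2 ∧
      S ≤ normalizer (W : Set G) ∧ W ≤ normalizer (E : Set G) ∧
      ¬ PRankLE p 2 (centralizer (W : Set G)) := by
  have hE' : IsElementaryAbelian p (E.subgroupOf S) := by
    refine ⟨⟨⟨?_⟩⟩, ?_⟩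
    · rintro ⟨a, ha⟩ ⟨b, hb⟩
      apply Subtype.ext
      apply Subtype.ext
      have := hE.1.is_comm.comm (⟨(a : G), ha⟩ : E) ⟨(b : G), hb⟩
      show (a : G) * (b : G) = (b : G) * (a : G)
      exact congrArg Subtype.val this
    · intro a ha
      apply Subtype.ext
      exact hE.2 a ha
  have hE'2 : Nat.card (E.subgroupOf S) = p ^ 2 := by
    rw [card_subgroupOf_of_le hES, hE2]
  have hE'max : ∀ B : Subgroup S, IsElementaryAbelian p B → E.subgroupOf S ≤ B → B = E.subgroupOf S := by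
    intro B hB hEB
    have hBG : IsElementaryAbelian p (B.map S.subtype) := by
      refine ⟨⟨⟨?_⟩⟩, ?_⟩
      · rintro ⟨_, a, ha, rfl⟩ ⟨_, b, hb, rfl⟩
        apply Subtype.ext
        have := hB.1.is_comm.comm (⟨a, ha⟩ : B) ⟨b, hb⟩
        show ((a : S) : G) * b = b * a
        have h2 : a * b = b * a := congrArg Subtype.val this
        exact congrArg Subtype.val h2
      · rintro _ ⟨a, ha, rfl⟩
        exact congrArg Subtype.val (hB.2 a ha)
    have hEB' : E ≤ B.map S.subtype := by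
      intro e he
      exact ⟨⟨e, hES he⟩, hEB he, rfl⟩
    have h1 := hEmax _ hBG hEB'
    apply le_antisymm _ hEB
    intro y hy
    have h2 : (y : G) ∈ B.map S.subtype := ⟨y, hy, rfl⟩
    rw [h1] at h2
    exact h2
  have hPp : IsPGroup p (S : Subgroup G) := hS
  have hrk' : ¬ PRankLE p 2 (S : Subgroup G) := hrk
  obtain ⟨-, -, ⟨hWe, hWcard⟩, -, -⟩ :=
    Cfsg.Agent.S1453.result p hp2 hPp hrk' (E.subgroupOf S) hE' hE'2 hE'max
  change IsElementaryAbelian p (omegaZ2 p S) at hWe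
  change Nat.card (omegaZ2 p S) = p ^ 2 at hWcard
  haveI hWn : (omegaZ2 p S).Normal := omegaZ2_normal p
  obtain ⟨B, hWB, hBn, hBC, hB3⟩ := Cfsg.Agent.S1452.result p hp2 hPp hrk' (omegaZ2 p S) hWe hWcard
  refine ⟨(omegaZ2 p S).map S.subtype, Subgroup.map_subtype_le _, ⟨⟨⟨?_⟩⟩, ?_⟩, ?_, ?_, ?_, ?_⟩
  · rintro ⟨_, a, ha, rfl⟩ ⟨_, b, hb, rfl⟩
    apply Subtype.ext
    have := hWe.1.is_comm.comm (⟨a, ha⟩ : omegaZ2 p S) ⟨b, hb⟩
    show ((a : S) : G) * b = b * a
    have h2 : a * b = b * a := congrArg Subtype.val this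
    exact congrArg Subtype.val h2
  · rintro _ ⟨a, ha, rfl⟩
    exact congrArg Subtype.val (hWe.2 a ha)
  · rw [Subgroup.card_map_of_injective S.subtype_injective, hWcard]
  · exact le_normalizer_map_subtype hWn
  · rintro _ ⟨w, hw, rfl⟩
    apply mem_normalizer_of_conj_mem
    intro e he
    show (w : G) * e * (w : G)⁻¹ ∈ E
    have hz2 := omegaZ2_le_z2 p hw
    let e' : S := ⟨e, hES he⟩
    have h1 : ⁅w, e'⁆ ∈ Subgroup.center S := comm_z2 hz2
    have h2 : ⁅w, e'⁆ ^ p = 1 := by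
      rw [← comm_pow_z2 hz2, hWe.2 w hw]
      simp
    have h3 : ((⁅w, e'⁆ : S) : G) ∈ centralizer (E : Set G) := by
      rw [mem_centralizer_iff]
      intro b hb
      have := Subgroup.mem_center_iff.mp h1 ⟨b, hES hb⟩
      exact congrArg Subtype.val this
    have h4 := hf2 _ h3 (congrArg Subtype.val h2)
    have h5 : (w : G) * e * (w : G)⁻¹ = ((⁅w, e'⁆ : S) : G) * e := by
      show (w : G) * e * (w : G)⁻¹ = ((w : G) * e * (w : G)⁻¹ * e⁻¹) * e
      group
    rw [h5]
    exact mul_mem h4 he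
  · intro hC
    apply hB3
    have hBle : ∀ a : B, ((a : S) : G) ∈
        centralizer (((omegaZ2 p S).map S.subtype : Subgroup G) : Set G) := by
      intro a
      rw [mem_centralizer_iff]
      rintro _ ⟨w, hw, rfl⟩
      have h1 : w ∈ centralizer (B : Set S) := by
        rw [hBC]
        exact hWB hw
      have h2 := mem_centralizer_iff.mp h1 a a.2
      have h3 := congrArg Subtype.val h2
      exact h3.symm
    let f : B →* centralizer (((omegaZ2 p S).map S.subtype : Subgroup G) : Set G) :=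
      { toFun := fun a => ⟨((a : S) : G), hBle a⟩
        map_one' := rfl
        map_mul' := fun _ _ => rfl }
    have hf : Function.Injective f := by
      intro a b hab
      have h1 := congrArg Subtype.val hab
      exact Subtype.ext (Subtype.ext h1)
    exact Cfsg.Agent.Lib.BGSigma4.prankLE_of_injective f hf hC

end WLemma

theorem ts_rank3 (h : P2 p A) {H S : Subgroup G} (hH : IsCoatom H) (hAH : A ≤ H)
    (hNA : normalizer (A : Set G) ≤ H) (hpσ : p ∉ sigma H) (hS : IsPGroup p S) (hAS : A ≤ S)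
    (hrk : ¬ PRankLE p 2 S) : False := by
  have hG := h.hG
  have hr2 := not_alpha_of_not_sigma hG (ut hG) hH hp.out hpσ
  have hmax := fun B hB hAB => ea_max hG (ut hG) hH hr2 hAH h.ea h.card B hB hAB
  obtain ⟨W, hWS, hWe, hWc, hSW, hWA, hWr⟩ := w_lemma h.pne hS hrk hAS h.ea h.card hmax h.f2
  have hWH : W ≤ H := hWA.trans hNA
  have hU : InUniqueMaximal W := unique_of_centralizer hG (ut hG) hWe hWc hWr
  have hW1 : W ≠ ⊥ := by
    rintro rfl
    rw [Subgroup.card_bot] at hWc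
    have h3 : 1 < p ^ 2 := Nat.one_lt_pow (by norm_num) hp.out.one_lt
    omega
  have hWt : W ≠ ⊤ := IsMin.isPGroup_ne_top hG (isPGroup_of_ea hWe)
  have hNW : normalizer (W : Set G) ≠ ⊤ := IsMin.normalizer_ne_top hG hW1 hWt
  have h1 := le_of_unique hU hH hWH le_normalizer hNW
  exact hrk (Cfsg.Agent.Lib.BGUniq3.prankLE_of_le (hSW.trans h1) hr2)

theorem ts_abelian (h : P2 p A) {H S : Subgroup G} (hCH : centralizer (A : Set G) ≤ H)
    (hNA : normalizer (A : Set G) ≤ H) (hpσ : p ∉ sigma H) (hS : IsSylowIn p S ⊤) (hAS : A ≤ S)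
    (hc : IsMulCommutative S) : False := by
  have hSC : S ≤ centralizer (A : Set G) := le_centralizer_of_comm hAS hc
  have hSH := hSC.trans hCH
  have hS' : IsSylowIn p S H := Cfsg.Agent.Lib.BGUniq2.isSylowIn_of_top hS hSH
  apply hpσ
  refine mem_sigma_of hS' ?_ ?_
  · have h1 : p ∣ Nat.card A := by rw [h.card]; exact dvd_pow_self p (by norm_num)
    exact h1.trans (Subgroup.card_dvd_of_le (hAS.trans hSH))
  · intro y hy
    apply hNA
    apply mem_normalizer_of_conj_mem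
    intro a ha
    apply h.f2
    · rw [mem_centralizer_iff]
      intro b hb
      have h1 : y * a * y⁻¹ ∈ S := (mem_normalizer_iff.mp hy a).mp (hAS ha)
      exact mem_centralizer_iff.mp (hSC h1) b hb
    · rw [conj_pow, h.ea.2 a ha]
      group

theorem normalizer_le_normalizer_comm (S : Subgroup G) :
    normalizer (S : Set G) ≤ normalizer ((⁅S, S⁆ : Subgroup G) : Set G) := by
  intro y hy
  rw [Subgroup.mem_normalizer_iff_map_conj_eq, Subgroup.map_commutator]
  have h1 := Subgroup.mem_normalizer_iff_map_conj_eq.mp hy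
  rw [h1]

theorem ts_nonab (h : P2 p A) {H S P₁ P₂ : Subgroup G} (hH : IsCoatom H) (hAH : A ≤ H)
    (hCH : centralizer (A : Set G) ≤ H) (hNA : normalizer (A : Set G) ≤ H) (hpσ : p ∉ sigma H)
    (hS : IsSylowIn p S ⊤) (hAS : A ≤ S) (hES : ES p S P₁ P₂)
    (hne : alphaCore H ⊓ centralizer (A : Set G) ≠ ⊥) : False := by
  classical
  have hG := h.hG
  have hpα : p ∉ alpha H := fun hh => hpσ (alpha_sub_sigma hG (ut hG) hH hh)
  set Z₁ : Subgroup G := ⁅P₁, P₁⁆ with hZ₁
  have hZ₁card : Nat.card Z₁ = p := hES.card_Z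
  have hZ₁ne : Z₁ ≠ ⊥ := by
    intro hb
    rw [hb, Subgroup.card_bot] at hZ₁card
    exact hp.out.one_lt.ne hZ₁card
  have hZ₁p : IsPGroup p Z₁ := IsPGroup.of_card (n := 1) (by rw [hZ₁card, pow_one])
  have hZ₁t : Z₁ ≠ ⊤ := IsMin.isPGroup_ne_top hG hZ₁p
  -- every element of order p in S lies in P₁
  have hs1 : ∀ x ∈ S, x ^ p = 1 → x ∈ P₁ := by
    intro x hx hxp
    obtain ⟨a, ha, b, hb, rfl⟩ := hES.mem hx
    have hab : Commute a b := hES.comm a ha b hb
    rw [hab.mul_pow, hES.pow1 ha, one_mul] at hxp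
    have hbZ : b ∈ Z₁ := by
      rw [hZ₁, ← hES.om]
      exact subset_closure ⟨hb, hxp⟩
    exact mul_mem ha (hES.Z_le1 hbZ)
  have hAP₁ : A ≤ P₁ := fun a ha => hs1 a (hAS ha) (h.ea.2 a ha)
  have hZ₁S : Z₁ ≤ S := hES.Z_le1.trans hES.le1
  have hZ₁A : Z₁ ≤ A := by
    intro z hz
    apply h.f2
    · rw [mem_centralizer_iff]
      intro a ha
      exact (hES.Z_central hz (hAS ha)).symm
    · exact hES.pow1 (hES.Z_le1 hz)
  have hSder : ⁅S, S⁆ = Z₁ := hES.derived
  have hSN : S ≤ normalizer (A : Set G) := by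
    intro y hy
    apply mem_normalizer_of_conj_mem
    intro a ha
    have h1 : ⁅y, a⁆ ∈ Z₁ := by
      rw [← hSder]
      exact Subgroup.commutator_mem_commutator hy (hAS ha)
    have h2 : y * a * y⁻¹ = ⁅y, a⁆ * a := by
      rw [commutatorElement_def]; group
    rw [h2]
    exact mul_mem (hZ₁A h1) ha
  have hSH : S ≤ H := hSN.trans hNA
  have hS' : IsSylowIn p S H := Cfsg.Agent.Lib.BGUniq2.isSylowIn_of_top hS hSH
  have hpA : p ∣ Nat.card A := by rw [h.card]; exact dvd_pow_self p (by norm_num)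
  have hpdH : p ∣ Nat.card H := hpA.trans (Subgroup.card_dvd_of_le hAH)
  obtain ⟨y, hyN, hyH⟩ : ∃ y ∈ normalizer (S : Set G), y ∉ H := by
    by_contra hcon
    push_neg at hcon
    exact hpσ (mem_sigma_of hS' hpdH hcon)
  have hNSZ : normalizer (S : Set G) ≤ normalizer (Z₁ : Set G) := by
    have := normalizer_le_normalizer_comm S
    rwa [hSder] at this
  have hyZ : y ∈ normalizer (Z₁ : Set G) := hNSZ hyN
  have hNZ₁ : normalizer (Z₁ : Set G) ≠ ⊤ := IsMin.normalizer_ne_top hG hZ₁ne hZ₁t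
  -- the conjugate of `A`
  set A' : Subgroup G := cj A y with hA'
  have h' : P2 p A' := p2_cj h y
  have hA'S : A' ≤ S := by
    have := cj_mono hAS y
    rwa [cj_eq_of_mem_normalizer hyN] at this
  have hZ₁A' : Z₁ ≤ A' := by
    have := cj_mono hZ₁A y
    rwa [cj_eq_of_mem_normalizer hyZ] at this
  -- the prime `u`
  have hcard1 : Nat.card ↥(alphaCore H ⊓ centralizer (A : Set G)) ≠ 1 :=
    fun e => hne (Subgroup.card_eq_one.mp e)
  obtain ⟨u, hu, hud⟩ := Nat.exists_prime_and_dvd hcard1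
  haveI hufact : Fact u.Prime := ⟨hu⟩
  obtain ⟨hst1, -⟩ := alpha_structure hG (ut hG) hH
  have huα : u ∈ alpha H := hst1.2.1 u hu (hud.trans (Subgroup.card_dvd_of_le inf_le_left))
  have hup : u ≠ p := fun e => hpα (e ▸ huα)
  have huC : u ∣ Nat.card ↥(centralizer (A : Set G)) :=
    hud.trans (Subgroup.card_dvd_of_le inf_le_right)
  have hu2 : u ≠ 2 := by
    intro e
    have h1 : u ∣ Nat.card G := huC.trans (Subgroup.card_subgroup_dvd_card _)
    have h4 := hG.1
    rw [Nat.odd_iff] at h4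
    rw [e] at h1
    omega
  obtain ⟨T, hTH, hTα, hST, hTt⟩ := inv_sylow_alpha hG hH huα hpα hS.2.1 hSH
  have hAT : A ≤ normalizer (T : Set G) := hAS.trans hST
  have hTmax := maxInv_of_sylow hTt hAT
  have hUT : InUniqueMaximal T := unique_of_alpha hG huα hTH
  have hTrk : ¬ PRankLE u 2 T := fun hle => huα.2 (prankLE_of_isSylowIn hTH hle)
  have hTne : T ≠ ⊥ := ne_bot_of_not_prank hu hTrk
  have hTp : IsPGroup u T := hTH.2.1
  -- `C_T(Z₁)` is cyclic
  set Y : Subgroup G := T ⊓ centralizer (Z₁ : Set G) with hY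
  have hACZ : A ≤ centralizer (Z₁ : Set G) := le_centralizer_of_comm hZ₁A h.ea.1
  have hAY : A ≤ normalizer (Y : Set G) := le_normalizer_inf hAT (hACZ.trans le_normalizer)
  have hYp : IsPGroup u Y := hTp.to_le inf_le_left
  have hYcyc : IsCyclic Y := by
    by_contra hnc
    have h1 := Cfsg.Agent.Lib.BGUniq3.not_rankLE_one_of_not_cyclic hu2 hYp hnc
    have h2 : ¬ RankLE 1 ↥(alphaCore H ⊓ centralizer (Z₁ : Set G)) := by
      intro hle
      apply h1
      intro q hq
      haveI : Fact q.Prime := ⟨hq⟩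
      exact Cfsg.Agent.Lib.BGUniq3.prankLE_of_le (inf_le_inf_right _ hTα) (hle q hq)
    have hXα : ∀ q : ℕ, q.Prime → q ∣ Nat.card Z₁ → q ∉ alpha H := by
      intro q hq hd
      rw [hZ₁card] at hd
      rw [(Nat.prime_dvd_prime_iff_eq hq hp.out).mp hd]
      exact hpα
    have h3 := s1406 hG (ut hG) hH (hZ₁A.trans hAH) hXα h2
    have h4 := le_of_unique h3 hH inf_le_left
      (inf_le_right.trans (centralizer_le_normalizer Z₁)) hNZ₁
    exact hyH (h4 hyZ)
  -- `C_T(A)` is not trivial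
  set Z₀ : Subgroup G := T ⊓ centralizer (A : Set G) with hZ₀
  have hαH : alphaCore H ≤ H := hst1.1
  have hLs : Group.IsSolvable (alphaCore H) :=
    IsMin.solvable hG (fun ht => hH.1 (top_le_iff.mp (ht ▸ hαH)))
  have hLA : A ≤ normalizer (alphaCore H : Set G) := hAH.trans (le_normalizer_piCoreOf _ _)
  have hLc : (Nat.card (alphaCore H)).Coprime (Nat.card A) := by
    apply Cfsg.Agent.Lib.BGUniq2.coprime_of_isPGroup _ h.pg
    rw [Nat.coprime_comm, Nat.Prime.coprime_iff_not_dvd hp.out]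
    intro hd
    exact hpα (hst1.2.1 p hp.out hd)
  have hZ₀ne : Z₀ ≠ ⊥ := by
    obtain ⟨w, hw⟩ := exists_prime_orderOf_dvd_card' (G := ↥(alphaCore H ⊓ centralizer (A : Set G))) u hud
    have hw' : orderOf (w : G) = u := by
      rw [Subgroup.orderOf_coe]; exact hw
    have hBp : IsPGroup u (zpowers (w : G)) := by
      apply IsPGroup.of_card (n := 1)
      rw [Nat.card_zpowers, hw', pow_one]
    have hBL : zpowers (w : G) ≤ alphaCore H := by
      rw [Subgroup.zpowers_le]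
      exact w.2.1
    have hBC : zpowers (w : G) ≤ centralizer (A : Set G) := by
      rw [Subgroup.zpowers_le]
      exact w.2.2
    have hAB : A ≤ normalizer (zpowers (w : G) : Set G) := by
      intro a ha
      apply Cfsg.Agent.Lib.BGFit2.mem_normalizer_of_centralizes
      intro b hb
      exact Cfsg.Agent.Lib.BGFit2.conj_eq_of_comm (mem_centralizer_iff.mp (hBC hb) a ha)
    obtain ⟨T', hT', hAT', hBT'⟩ := exists_invariant_isSylowIn_ge u hLs hLA hLc hBL hBp hAB
    have hTL : IsSylowIn u T (alphaCore H) :=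
      ⟨hTα, hTp, fun R hRL hRp hTR => hTH.2.2 R (hRL.trans hαH) hRp hTR⟩
    obtain ⟨c, hc, hcT⟩ := IsSylowIn.exists_conj_centralizer hLs hLA hLc hTL hT' hAT hAT'
    have hwT : (w : G) ∈ cj T c := by
      rw [← hcT]
      exact hBT' (Subgroup.mem_zpowers _)
    rw [mem_cj] at hwT
    have hcC : c ∈ centralizer (A : Set G) := hc.2
    have hwC : (w : G) ∈ centralizer (A : Set G) := w.2.2
    have hmem : c⁻¹ * (w : G) * c ∈ Z₀ := by
      refine ⟨hwT, ?_⟩
      show c⁻¹ * (w : G) * c ∈ centralizer (A : Set G)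
      exact mul_mem (mul_mem (inv_mem hcC) hwC) hcC
    intro hb
    rw [hb, Subgroup.mem_bot] at hmem
    have h1 : (w : G) = 1 := by
      have : (w : G) = c * (c⁻¹ * (w : G) * c) * c⁻¹ := by group
      rw [this, hmem]
      group
    have h2 := hw'
    rw [h1, orderOf_one] at h2
    exact hu.one_lt.ne h2
  have hCAZ : centralizer (A : Set G) ≤ centralizer (Z₁ : Set G) := Subgroup.centralizer_le hZ₁A
  have hZ₀Y : Z₀ ≤ Y := inf_le_inf_left _ hCAZ
  have hordA : ∀ a ∈ A, (orderOf a).Coprime u := by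
    intro a ha
    have h8 : orderOf a ∣ p := orderOf_dvd_of_pow_eq_one (h.ea.2 a ha)
    exact Nat.Coprime.coprime_dvd_left h8 ((Nat.coprime_primes hp.out hu).mpr hup.symm)
  have hYZ₀ : Y = Z₀ := by
    apply le_antisymm _ hZ₀Y
    intro w hw
    refine ⟨hw.1, ?_⟩
    show w ∈ centralizer (A : Set G)
    rw [mem_centralizer_iff]
    intro a ha
    have h1 : a ∈ centralizer (Y : Set G) := by
      apply cyclic_fix hYp hYcyc (hAY ha) (hordA a ha)
      intro hb
      apply hZ₀ne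
      rw [eq_bot_iff, ← hb]
      refine le_inf hZ₀Y ?_
      intro z hz
      have hz' : z ∈ centralizer (A : Set G) := hz.2
      show z ∈ centralizer ({a} : Set G)
      rw [mem_centralizer_iff]
      intro b hb'
      rw [Set.mem_singleton_iff.mp hb']
      exact mem_centralizer_iff.mp hz' a ha
    exact (mem_centralizer_iff.mp h1 w hw).symm
  have hZ₀p : IsPGroup u Z₀ := hTp.to_le inf_le_left
  have hZ₀cyc : IsCyclic Z₀ := hYZ₀ ▸ hYcyc
  -- `C_T(A') = 1`
  have hT'0 : T ⊓ centralizer (A' : Set G) = ⊥ := by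
    by_contra hb
    have hH' : IsCoatom (cj H y) := Cfsg.Agent.Lib.BGUniq3.isCoatom_cj hH y
    have hCH' : centralizer (A' : Set G) ≤ cj H y := by
      rw [hA', centralizer_cj']
      exact cj_mono hCH y
    have hA'H' : A' ≤ cj H y := cj_mono hAH y
    have hT₂t : IsSylowIn u (cj T y) ⊤ := hTt.cj_of_normalizer (by
      rw [Subgroup.mem_normalizer_iff]
      intro x; simp)
    have hA'T₂ : A' ≤ normalizer (cj T y : Set G) := normalizer_cj_of_le hAT
    have hA'T : A' ≤ normalizer (T : Set G) := hA'S.trans hST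
    have hm₁ := maxInv_of_sylow hT₂t hA'T₂
    have hm₂ := maxInv_of_sylow hTt hA'T
    have hc₁ : cj H y ⊓ cj T y ≠ ⊥ := by
      rw [inf_eq_right.mpr (cj_mono hTH.1 y)]
      intro hb'
      apply hTne
      have h3 : Nat.card (cj T y) = 1 := by rw [hb']; exact Subgroup.card_bot
      rw [card_cj] at h3
      exact Subgroup.card_eq_one.mp h3
    have hc₂ : cj H y ⊓ T ≠ ⊥ := by
      intro hb'
      apply hb
      rw [eq_bot_iff, ← hb']
      rw [inf_comm]
      exact inf_le_inf_right _ hCH'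
    obtain ⟨k, hk, hkT⟩ := h'.conj_common hup hm₁ hm₂ hH'.1 hA'H' hc₁ hc₂
    have hkH' : k ∈ cj H y := hCH' (h'.K_le hk)
    have hTH' : T ≤ cj H y := by
      rw [hkT]
      have := cj_mono (cj_mono hTH.1 y) k
      rwa [cj_eq_of_mem_normalizer (le_normalizer hkH')] at this
    have hH'eq := eq_of_unique hUT hH hTH.1 hH' hTH'
    have hyNH : y ∈ normalizer (H : Set G) := mem_normalizer_of_cj_eq hH'eq
    rw [normalizer_coatom hG hH] at hyNH
    exact hyH hyNH
  -- `Z₀ = [Z₀, A']`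
  have hA'Z₀ : A' ≤ normalizer (Z₀ : Set G) := by
    rw [← hYZ₀]
    exact le_normalizer_inf (hA'S.trans hST)
      ((le_centralizer_of_comm hZ₁A' h'.ea.1).trans le_normalizer)
  have hZ₀A' : ⁅Z₀, A'⁆ = Z₀ := by
    obtain ⟨e, he, henc⟩ : ∃ e ∈ A', e ∉ centralizer (Z₀ : Set G) := by
      by_contra hcon
      push_neg at hcon
      apply hZ₀ne
      rw [eq_bot_iff, ← hT'0]
      refine le_inf inf_le_left ?_
      intro z hz
      rw [mem_centralizer_iff]
      intro a ha
      exact (mem_centralizer_iff.mp (hcon a ha) z hz).symm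
    apply le_antisymm (commutator_le_of_le_normalizer hA'Z₀)
    intro w hw
    have hord' : (orderOf e).Coprime u := by
      have h8 : orderOf e ∣ p := orderOf_dvd_of_pow_eq_one (h'.ea.2 e he)
      exact Nat.Coprime.coprime_dvd_left h8 ((Nat.coprime_primes hp.out hu).mpr hup.symm)
    obtain ⟨z, hz, hzw⟩ := Cfsg.Agent.Lib.BGM2.cyclic_coprime_surj hZ₀p hZ₀cyc (hA'Z₀ he) hord' henc w hw
    have h1 : w = ⁅z, e⁆⁻¹ := by
      rw [hzw, commutatorElement_def]
      group
    rw [h1]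
    exact inv_mem (Subgroup.commutator_mem_commutator hz he)
  -- the second maximal subgroup
  obtain ⟨L₁, hL₁, hNL₁⟩ := exists_coatom_ge hNZ₁
  have hSNZ : S ≤ normalizer (Z₁ : Set G) := le_normalizer.trans hNSZ
  have hSL₁ : S ≤ L₁ := hSNZ.trans hNL₁
  have hSL₁' : IsSylowIn p S L₁ := Cfsg.Agent.Lib.BGUniq2.isSylowIn_of_top hS hSL₁
  have hpL₁ : p ∈ sigma L₁ :=
    mem_sigma_of hSL₁' (hpA.trans (Subgroup.card_dvd_of_le (hAS.trans hSL₁))) (hNSZ.trans hNL₁)
  have hZ₀L₁ : Z₀ ≤ L₁ :=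
    (hZ₀Y.trans inf_le_right).trans ((centralizer_le_normalizer Z₁).trans hNL₁)
  have huβ : u ∈ beta L₁ := h'.lemma_i hL₁ (hA'S.trans hSL₁) hpL₁ hup hZ₀L₁ hZ₀p hZ₀A' hZ₀ne
  obtain ⟨T₁, hT₁, hAT₁, hT₁t⟩ := inv_sylow_beta hG hL₁ huβ (h.not_beta L₁) h.pg (hAS.trans hSL₁)
  obtain ⟨k, hk, hkT⟩ := h.conj hup huC hTmax (maxInv_of_sylow hT₁t hAT₁)
  have hkH : k ∈ H := hCH (h.K_le hk)
  have hT₁H : T₁ ≤ H := by
    rw [hkT]
    have := cj_mono hTH.1 k
    rwa [cj_eq_of_mem_normalizer (le_normalizer hkH)] at this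
  have hU₁ := unique_of_alpha hG huα (Cfsg.Agent.Lib.BGUniq2.isSylowIn_of_top hT₁t hT₁H)
  have hL := eq_of_unique hU₁ hH hT₁H hL₁ hT₁.1
  exact hyH (hL ▸ hNL₁ hyZ)

/-- The main lemma: `H_α ∩ C(A) = 1` when `p ∉ σ(H)` and `C(A) ≤ H`. -/
theorem ts (h : P2 p A) {H : Subgroup G} (hH : IsCoatom H) (hAH : A ≤ H)
    (hCH : centralizer (A : Set G) ≤ H) (hpσ : p ∉ sigma H) :
    alphaCore H ⊓ centralizer (A : Set G) = ⊥ := by
  classical
  by_contra hne
  have hG := h.hG
  have hpα : p ∉ alpha H := fun hh => hpσ (alpha_sub_sigma hG (ut hG) hH hh)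
  have hcard1 : Nat.card ↥(alphaCore H ⊓ centralizer (A : Set G)) ≠ 1 :=
    fun e => hne (Subgroup.card_eq_one.mp e)
  obtain ⟨u, hu, hud⟩ := Nat.exists_prime_and_dvd hcard1
  haveI hufact : Fact u.Prime := ⟨hu⟩
  obtain ⟨hst1, -⟩ := alpha_structure hG (ut hG) hH
  have huα : u ∈ alpha H := hst1.2.1 u hu (hud.trans (Subgroup.card_dvd_of_le inf_le_left))
  have hup : u ≠ p := fun e => hpα (e ▸ huα)
  have huC : u ∣ Nat.card ↥(centralizer (A : Set G)) :=
    hud.trans (Subgroup.card_dvd_of_le inf_le_right)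
  obtain ⟨T, hTH, hTα, hAT, hTt⟩ := inv_sylow_alpha hG hH huα hpα h.pg hAH
  have hNA := p2_normalizer_le h hCH (alpha_sub_sigma hG (ut hG) hH huα) hup hTH hAT huC
  obtain ⟨P, hP⟩ := h.pg.exists_le_sylow
  have hPt : IsSylowIn p (P : Subgroup G) ⊤ :=
    ⟨le_top, P.isPGroup', fun R _ hR hle => P.is_maximal' hR hle⟩
  by_cases hr : PRankLE p 2 (P : Subgroup G)
  · rcases Cfsg.Agent.S1412.result hG p P hr with hc | ⟨P₁, P₂, h1, h2, h3, h4, h5, h6, h7⟩
    · exact ts_abelian h hCH hNA hpσ hPt hP hc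
    · refine ts_nonab h hH hAH hCH hNA hpσ hPt hP (P₁ := P₁) (P₂ := P₂) ⟨h1, h2, h3, h4, h5, h6, ?_⟩ hne
      rw [h7, Cfsg.Agent.Lib.BGFus2.comm_eq_inf_centralizer h3 h4]
  · exact ts_rank3 h hH hAH hNA hpσ P.isPGroup' hP hr

end Cfsg.Agent.Lib.BGP2C
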