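import Mathlib
import Cfsg.Agent.Lib.BGP2C
import Cfsg.Agent.Lib.BGFit5
import Cfsg.Agent.S1414

/-!
# Centralizers of elementary abelian subgroups of order `p ^ 2`, part D: the nilpotent case
and `M_α ≠ 1`.
-/

set_option autoImplicit false
set_option linter.unusedSectionVars false
set_option linter.unusedVariables false
set_option linter.style.haveILetI false
set_option linter.unusedSimpArgs false

namespace Cfsg.Agent.Lib.BGP2D

open Cfsg Subgroup Cfsg.Agent.Lib.CoprimeInv Cfsg.Agent.Lib.BGTrans Cfsg.Agent.Lib.Glauberman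
  Cfsg.Agent.Lib.BGSigma Cfsg.Agent.Lib.BGSigma2 Cfsg.Agent.Lib.BGSigma3 Cfsg.Agent.Lib.BGSigma4
  Cfsg.Agent.Lib.BGM1 Cfsg.Agent.Lib.BGP2A Cfsg.Agent.Lib.BGP2B Cfsg.Agent.Lib.BGP2C
  Cfsg.Agent.Lib.BGFit2 Cfsg.Agent.Lib.BGUniq

open scoped commutatorElement

universe u

variable {G : Type u} [Group G] [Finite G] {p : ℕ} [hp : Fact p.Prime] {A : Subgroup G}

section Nil

theorem fittingOf_eq {D : Subgroup G} (hD : Group.IsNilpotent D) : fittingOf D = D := by
  haveI := hD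
  rw [fittingOf, Cfsg.Agent.Lib.PCore.fittingSubgroup_eq_top_of_nilpotent]
  ext x
  simp

theorem le_pCoreOf_nil {D Q : Subgroup G} (hD : Group.IsNilpotent D) {q : ℕ} [hq : Fact q.Prime]
    (hQD : Q ≤ D) (hQ : IsPGroup q Q) : Q ≤ pCoreOf q D := by
  apply Cfsg.Agent.Lib.BGFit5.le_pCoreOf_of_le_fittingOf _ hQ
  rw [fittingOf_eq hD]
  exact hQD

theorem nil_comm {D : Subgroup G} (r : ℕ) [hr : Fact r.Prime] {y z : G} (hy : y ∈ pCoreOf r D)
    (hz : z ∈ coreOf r D) : y * z = z * y := by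
  have hc : (Nat.card (pCoreOf r D)).Coprime (Nat.card (coreOf r D)) := by
    obtain ⟨k, hk⟩ := (isPGroup_pCoreOf r D).exists_card_eq
    rw [hk]
    exact Nat.Coprime.pow_left _ ((card_coreOf_coprime r D).symm)
  exact comm_of_coprime hc (pCoreOf_le r D) (coreOf_le r D) (le_normalizer_pCoreOf r D)
    (le_normalizer_coreOf r D) y hy z hz

theorem nil_decomp {D : Subgroup G} (hD : Group.IsNilpotent D) (r : ℕ) [hr : Fact r.Prime] {g : G}
    (hg : g ∈ D) : ∃ b ∈ pCoreOf r D, ∃ d ∈ coreOf r D, g = b * d := by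
  have h1 : D ≤ pCoreOf r D ⊔ coreOf r D := by
    conv_lhs => rw [← fittingOf_eq hD]
    exact fittingOf_le_sup_core r D
  have hn : pCoreOf r D ≤ normalizer (coreOf r D : Set G) :=
    (pCoreOf_le r D).trans (le_normalizer_coreOf r D)
  have h2 : g ∈ ((pCoreOf r D ⊔ coreOf r D : Subgroup G) : Set G) := h1 hg
  rw [Subgroup.coe_mul_of_left_le_normalizer_right _ _ hn] at h2
  obtain ⟨b, hb, d, hd, he⟩ := Set.mem_mul.mp h2
  exact ⟨b, hb, d, hd, he.symm⟩

end Nil

section K0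

/-- The elements of the normalizer acting trivially on `Z/V`. -/
def K0 (Z V : Subgroup G) : Subgroup G where
  carrier := {t | t ∈ normalizer (Z : Set G) ∧ t ∈ normalizer (V : Set G) ∧
    ∀ z ∈ Z, t * z * t⁻¹ * z⁻¹ ∈ V}
  mul_mem' := by
    rintro s t ⟨hs1, hs2, hs3⟩ ⟨ht1, ht2, ht3⟩
    refine ⟨mul_mem hs1 ht1, mul_mem hs2 ht2, ?_⟩
    intro z hz
    have h1 : s * (t * z * t⁻¹ * z⁻¹) * s⁻¹ ∈ V := (mem_normalizer_iff.mp hs2 _).mp (ht3 z hz)
    have h2 := hs3 z hz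
    have h3 : s * t * z * (s * t)⁻¹ * z⁻¹ =
        (s * (t * z * t⁻¹ * z⁻¹) * s⁻¹) * (s * z * s⁻¹ * z⁻¹) := by group
    rw [h3]
    exact mul_mem h1 h2
  one_mem' := by
    refine ⟨one_mem _, one_mem _, ?_⟩
    intro z _
    simp
  inv_mem' := by
    rintro t ⟨ht1, ht2, ht3⟩
    refine ⟨inv_mem ht1, inv_mem ht2, ?_⟩
    intro z hz
    have hw : t⁻¹ * z * t ∈ Z := by
      have := (mem_normalizer_iff.mp (inv_mem ht1) z).mp hz
      simpa using this
    have h1 := ht3 _ hw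
    have h2 : t⁻¹ * z * t⁻¹⁻¹ * z⁻¹ = (t * (t⁻¹ * z * t) * t⁻¹ * (t⁻¹ * z * t)⁻¹)⁻¹ := by group
    rw [h2]
    exact inv_mem h1

theorem mem_K0 {Z V : Subgroup G} {t : G} :
    t ∈ K0 Z V ↔ t ∈ normalizer (Z : Set G) ∧ t ∈ normalizer (V : Set G) ∧
      ∀ z ∈ Z, t * z * t⁻¹ * z⁻¹ ∈ V := Iff.rfl

theorem K0_conj {Z V : Subgroup G} {t g : G} (ht : t ∈ K0 Z V) (hg1 : g ∈ normalizer (Z : Set G))
    (hg2 : g ∈ normalizer (V : Set G)) : g * t * g⁻¹ ∈ K0 Z V := by
  obtain ⟨ht1, ht2, ht3⟩ := ht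
  refine ⟨mul_mem (mul_mem hg1 ht1) (inv_mem hg1), mul_mem (mul_mem hg2 ht2) (inv_mem hg2), ?_⟩
  intro z hz
  have hw : g⁻¹ * z * g ∈ Z := by
    have := (mem_normalizer_iff.mp (inv_mem hg1) z).mp hz
    simpa using this
  have h1 := (mem_normalizer_iff.mp hg2 _).mp (ht3 _ hw)
  have h2 : g * t * g⁻¹ * z * (g * t * g⁻¹)⁻¹ * z⁻¹ =
      g * (t * (g⁻¹ * z * g) * t⁻¹ * (g⁻¹ * z * g)⁻¹) * g⁻¹ := by group
  rw [h2]
  exact h1

/-- A `p`-element acting on `Z/V` like a `p'`-element `b` in the normalizer acts trivially. -/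
theorem K0_of_pow {Z V : Subgroup G} {a' b : G} {n : ℕ} (ha1 : a' ∈ normalizer (Z : Set G))
    (ha2 : a' ∈ normalizer (V : Set G)) (hb1 : b ∈ normalizer (Z : Set G))
    (hb2 : b ∈ normalizer (V : Set G)) (hab : a' * b⁻¹ ∈ K0 Z V) (han : a' ^ n = 1)
    (hbo : (orderOf b).Coprime n) : a' ∈ K0 Z V := by
  have hk : ∀ k : ℕ, a' ^ k * (b ^ k)⁻¹ ∈ K0 Z V := by
    intro k
    induction k with
    | zero => simp [one_mem]
    | succ k ih =>
      have h1 : a' ^ (k + 1) * (b ^ (k + 1))⁻¹ =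
          (a' ^ k * (a' * b⁻¹) * (a' ^ k)⁻¹) * (a' ^ k * (b ^ k)⁻¹) := by
        rw [pow_succ, pow_succ]
        group
      rw [h1]
      exact mul_mem (K0_conj hab (pow_mem ha1 k) (pow_mem ha2 k)) ih
  have h2 : (b ^ n)⁻¹ ∈ K0 Z V := by
    have := hk n
    rwa [han, one_mul] at this
  have h3 : b ^ n ∈ K0 Z V := by simpa using inv_mem h2
  have h4 : b ∈ K0 Z V := mem_of_pow_mem_of_coprime' hbo h3
  have h5 : a' = (a' * b⁻¹) * b := by group
  rw [h5]
  exact mul_mem hab h4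

end K0

section F6

/-- If `A` lies in `O_p(M)` then `C(A) ≤ M`. -/
theorem C_le_of_le_pCoreOf (h : P2 p A) {M : Subgroup G} (hM : IsCoatom M)
    (hA : A ≤ pCoreOf p M) : centralizer (A : Set G) ≤ M := by
  classical
  have hG := h.hG
  set P₀ := pCoreOf p M with hP₀
  have hP₀p : IsPGroup p P₀ := isPGroup_pCoreOf p M
  have hP₀ne : P₀ ≠ ⊥ := fun hb => h.ne_bot (le_bot_iff.mp (hb ▸ hA))
  have hMP₀ : M ≤ normalizer (P₀ : Set G) := le_normalizer_pCoreOf p M
  obtain ⟨-, hZn, hZne⟩ := center_facts hP₀p hP₀ne hMP₀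
  set Zc := P₀ ⊓ centralizer (P₀ : Set G) with hZc
  set E := Zc ⊓ A with hE
  have hZcp : IsPGroup p Zc := hP₀p.to_le inf_le_left
  have hZCA : Zc ≤ centralizer (A : Set G) := by
    intro z hz
    have hz' : z ∈ centralizer (P₀ : Set G) := hz.2
    rw [mem_centralizer_iff]
    intro a ha
    exact mem_centralizer_iff.mp hz' a (hA ha)
  have hEne : E ≠ ⊥ := by
    have hd : p ∣ Nat.card Zc := Cfsg.Agent.Lib.BGUniq2.dvd_card_of_isPGroup hZcp hZne
    obtain ⟨w, hw⟩ := exists_prime_orderOf_dvd_card' (G := ↥Zc) p hd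
    have hwp : (w : G) ^ p = 1 := by
      have := pow_orderOf_eq_one w
      rw [hw] at this
      exact congrArg Subtype.val this
    have hw1 : (w : G) ≠ 1 := by
      intro he
      have h2 : w = 1 := Subtype.ext he
      rw [h2, orderOf_one] at hw
      exact hp.out.one_lt.ne hw
    intro hb
    have h3 : (w : G) ∈ E := ⟨w.2, h.f2 _ (hZCA w.2) hwp⟩
    rw [hb] at h3
    exact hw1 h3
  have hEp : IsPGroup p E := hZcp.to_le inf_le_left
  have hMN : M ≤ normalizer (E : Set G) := by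
    intro m hm
    apply mem_normalizer_of_conj_mem
    rintro z ⟨hz1, hz2⟩
    have h1 : m * z * m⁻¹ ∈ Zc := (mem_normalizer_iff.mp (hZn hm) z).mp hz1
    refine ⟨h1, h.f2 _ (hZCA h1) ?_⟩
    rw [conj_pow, h.ea.2 z hz2]
    group
  have hNE : normalizer (E : Set G) ≠ ⊤ :=
    IsMin.normalizer_ne_top hG hEne (IsMin.isPGroup_ne_top hG hEp)
  have hNEM : normalizer (E : Set G) = M := by
    by_contra hne
    exact hNE (hM.2 _ (lt_of_le_of_ne hMN (Ne.symm hne)))
  rw [← hNEM]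
  refine le_trans (Subgroup.centralizer_le (inf_le_right : E ≤ A)) (centralizer_le_normalizer E)

theorem F6 (h : P2 p A) {M : Subgroup G} (hM : IsCoatom M) (hAM : A ≤ M)
    (hD : Group.IsNilpotent ↥(⁅M, M⁆ : Subgroup G))
    (hF : ∀ (r : ℕ) [Fact r.Prime], r ≠ p → pCoreOf r (⁅M, M⁆ : Subgroup G) ≤ centralizer (A : Set G)) :
    centralizer (A : Set G) ≤ M := by
  classical
  set D : Subgroup G := ⁅M, M⁆ with hDdef
  have hDM : D ≤ M := by
    rw [hDdef, ← Subgroup.map_subtype_commutator M]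
    exact Subgroup.map_subtype_le _
  have hMD : M ≤ normalizer (D : Set G) := le_normalizer.trans (normalizer_le_normalizer_comm M)
  have hMP : M ≤ normalizer (pCoreOf p D : Set G) := hMD.trans (normalizer_le_normalizer_pCoreOf p D)
  have hPp : IsPGroup p (pCoreOf p D) := isPGroup_pCoreOf p D
  have hcoreC : coreOf p D ≤ centralizer (A : Set G) := by
    apply Cfsg.Agent.Lib.BGM2.le_of_forall_pgroup_le
    intro r hr Q hQD hQ
    by_cases hQ1 : Q = ⊥
    · rw [hQ1]; exact bot_le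
    have hrp : r ≠ p := by
      rintro rfl
      have h1 := Cfsg.Agent.Lib.BGUniq2.dvd_card_of_isPGroup hQ hQ1
      have h2 := card_coreOf_coprime r D
      have h3 : (Nat.card Q).Coprime r := Nat.Coprime.coprime_dvd_left (Subgroup.card_dvd_of_le hQD) h2
      exact hQ1 (Cfsg.Agent.Lib.BGUniq2.eq_bot_of_pgroup_of_coprime hQ h3)
    exact (le_pCoreOf_nil hD (hQD.trans (coreOf_le p D)) hQ).trans (hF r hrp)
  set B : Subgroup G := A ⊔ pCoreOf p D with hB
  have hBp : IsPGroup p B := isPGroup_sup_of_le_normalizer h.pg hPp (hAM.trans hMP)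
  have hconj : ∀ m ∈ M, ∀ a ∈ A, m * a * m⁻¹ ∈ B := by
    intro m hm a ha
    have hg : m * a * m⁻¹ * a⁻¹ ∈ D := by
      have := Subgroup.commutator_mem_commutator hm (hAM ha)
      rwa [commutatorElement_def] at this
    obtain ⟨b, hb, d, hd, he⟩ := nil_decomp hD p hg
    have hda : d * a = a * d := (mem_centralizer_iff.mp (hcoreC hd) a ha).symm
    have hbd : b * d = d * b := nil_comm p hb hd
    set a' := m * a * m⁻¹ with ha'
    have h1 : a' = d * (b * a) := by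
      have : a' = (a' * a⁻¹) * a := by group
      rw [this, he, hbd]
      group
    have hcomm : Commute d (b * a) := by
      show d * (b * a) = (b * a) * d
      calc d * (b * a) = (d * b) * a := by group
        _ = (b * d) * a := by rw [hbd]
        _ = b * (d * a) := by group
        _ = b * (a * d) := by rw [hda]
        _ = (b * a) * d := by group
    have hbaB : b * a ∈ B := mul_mem (le_sup_right (a := A) hb) (le_sup_left (b := pCoreOf p D) ha)
    obtain ⟨s, hs⟩ := hBp ⟨b * a, hbaB⟩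
    have hs' : (b * a) ^ p ^ s = 1 := congrArg Subtype.val hs
    have ha'p : a' ^ p = 1 := by
      rw [ha', conj_pow, h.ea.2 a ha]
      group
    have h2 : d ^ (p ^ s * p) = 1 := by
      have h3 : a' ^ (p ^ s * p) = 1 := by rw [mul_comm, pow_mul, ha'p, one_pow]
      rw [h1, hcomm.mul_pow, pow_mul (b * a), hs', one_pow, mul_one] at h3
      exact h3
    have hdo : (orderOf d).Coprime p := by
      have h4 := card_coreOf_coprime p D
      exact Nat.Coprime.coprime_dvd_left (Subgroup.orderOf_dvd_natCard _ hd) h4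
    have hd1 : d = 1 := by
      have h5 : orderOf d ∣ p ^ s * p := orderOf_dvd_of_pow_eq_one h2
      have h6 : (orderOf d).Coprime (p ^ s * p) :=
        Nat.Coprime.mul_right (Nat.Coprime.pow_right _ hdo) hdo
      have h7 : orderOf d = 1 := Nat.Coprime.eq_one_of_dvd h6 h5
      exact orderOf_eq_one_iff.mp h7
    rw [h1, hd1, one_mul]
    exact hbaB
  have hMB : M ≤ normalizer (B : Set G) := by
    intro m hm
    apply mem_normalizer_of_cj_eq
    apply Subgroup.eq_of_le_of_card_ge _ (by rw [card_cj])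
    show Subgroup.map _ _ ≤ _
    rw [hB, Subgroup.map_sup]
    refine sup_le ?_ ?_
    · rintro _ ⟨a, ha, rfl⟩
      exact hconj m hm a ha
    · have := cj_eq_of_mem_normalizer (hMP hm)
      exact this.le.trans le_sup_right
  have hBM : B ≤ M := sup_le hAM ((pCoreOf_le p D).trans hDM)
  have hA' : A ≤ pCoreOf p M := (le_sup_left.trans (le_pCoreOf hBM hMB hBp))
  exact C_le_of_le_pCoreOf h hM hA'

end F6

section EmptyAlpha

variable (hG : IsMinSimpleOddOrder G)
include hG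

theorem alpha_empty {M : Subgroup G} (hM : IsCoatom M) (hα : alphaCore M = ⊥) (r : ℕ) : r ∉ alpha M := by
  intro hr
  obtain ⟨h1, -⟩ := alpha_structure hG (ut hG) hM
  have h2 := h1.2.2 r hr.1 hr
  rw [hα, Subgroup.relIndex_bot_left] at h2
  exact h2 (dvd_card_of_not_prank hr.1 hr.2)

theorem eq_of_hall_all {M H K : Subgroup G} (hM : IsCoatom M) (hα : alphaCore M = ⊥)
    (hH : IsPiHallOf {q | q.Prime ∧ q ∉ beta M} H K) : H = K := by
  apply le_antisymm hH.1
  apply Subgroup.relIndex_eq_one.mp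
  by_contra hne
  obtain ⟨q, hq, hd⟩ := Nat.exists_prime_and_dvd hne
  exact hH.2.2 q hq ⟨hq, fun hb => alpha_empty hG hM hα q hb.1⟩ hd

theorem nil_D {M : Subgroup G} (hM : IsCoatom M) (hα : alphaCore M = ⊥) :
    Group.IsNilpotent ↥(⁅M, M⁆ : Subgroup G) := by
  obtain ⟨-, -, ⟨H, hH, hn⟩, -, -⟩ := Cfsg.Agent.S1414.result hG M hM
  rw [eq_of_hall_all hG hM hα hH] at hn
  exact hn

theorem nil_sigma {M : Subgroup G} (hM : IsCoatom M) (hα : alphaCore M = ⊥) :
    Group.IsNilpotent ↥(sigmaCore M) := by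
  obtain ⟨-, -, -, ⟨H, hH, hn⟩, -⟩ := Cfsg.Agent.S1414.result hG M hM
  rw [eq_of_hall_all hG hM hα hH] at hn
  exact hn

end EmptyAlpha

section Cases

theorem D_facts (M : Subgroup G) :
    (⁅M, M⁆ : Subgroup G) ≤ M ∧ M ≤ normalizer ((⁅M, M⁆ : Subgroup G) : Set G) := by
  constructor
  · rw [← Subgroup.map_subtype_commutator M]
    exact Subgroup.map_subtype_le _
  · exact le_normalizer.trans (normalizer_le_normalizer_comm M)

theorem case_II (h : P2 p A) {M : Subgroup G} (hM : IsCoatom M) (hAM : A ≤ M)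
    (hα : alphaCore M = ⊥) (hpσ : p ∈ sigma M) : centralizer (A : Set G) ≤ M := by
  have hG := h.hG
  have hnD := nil_D hG hM hα
  have hnσ := nil_sigma hG hM hα
  apply F6 h hM hAM hnD
  intro r hr hrp
  obtain ⟨hDM, hMD⟩ := D_facts M
  set Z : Subgroup G := pCoreOf r (⁅M, M⁆ : Subgroup G) with hZ
  have hZp : IsPGroup r Z := isPGroup_pCoreOf r _
  have hAZ : A ≤ normalizer (Z : Set G) := hAM.trans (hMD.trans (normalizer_le_normalizer_pCoreOf r _))
  have hAσ : A ≤ sigmaCore M := pgroup_le_sigmaCore hG hM hpσ hAM h.pg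
  have hZM : Z ≤ M := (pCoreOf_le r _).trans hDM
  have hVσ : ⁅Z, A⁆ ≤ sigmaCore M := comm_le_sigmaCore hG hM hZM hAσ
  have hcop := (h.coprime hrp hZp).symm
  haveI : Group.IsNilpotent Z := hZp.isNilpotent
  have hVV : ⁅⁅Z, A⁆, A⁆ = ⁅Z, A⁆ := commutator_commutator_eq hAZ hcop (Or.inr inferInstance)
  have hVp : IsPGroup r (⁅Z, A⁆ : Subgroup G) := hZp.to_le (commutator_le_of_le_normalizer hAZ)
  have hV1 : ⁅Z, A⁆ ≤ pCoreOf r (sigmaCore M) := le_pCoreOf_nil hnσ hVσ hVp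
  have hA1 : A ≤ pCoreOf p (sigmaCore M) := le_pCoreOf_nil hnσ hAσ h.pg
  have hcomm := comm_of_pgroups (isPGroup_pCoreOf r (sigmaCore M)) (isPGroup_pCoreOf p (sigmaCore M))
    hrp (pCoreOf_le r _) (pCoreOf_le p _) (le_normalizer_pCoreOf r _) (le_normalizer_pCoreOf p _)
  have hV0 : ⁅⁅Z, A⁆, A⁆ = ⊥ := by
    rw [eq_bot_iff, Subgroup.commutator_le]
    intro v hv a ha
    rw [Subgroup.mem_bot, commutatorElement_eq_one_iff_mul_comm]
    exact hcomm v (hV1 hv) a (hA1 ha)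
  rw [hVV] at hV0
  intro z hz
  rw [mem_centralizer_iff]
  intro a ha
  have h1 : ⁅z, a⁆ ∈ (⁅Z, A⁆ : Subgroup G) := Subgroup.commutator_mem_commutator hz ha
  rw [hV0, Subgroup.mem_bot, commutatorElement_eq_one_iff_mul_comm] at h1
  exact h1.symm

theorem line_cyclic (h : P2 p A) {M : Subgroup G} (hM : IsCoatom M) (hAM : A ≤ M) (hpα : p ∉ alpha M)
    {c : G} (hc : c ∈ A) (hc1 : c ≠ 1) (hCM : ¬ centralizer ({c} : Set G) ≤ M) {T : Subgroup G}
    (hTα : T ≤ alphaCore M) {r : ℕ} [hr : Fact r.Prime] (hr2 : r ≠ 2) (hT : IsPGroup r T) :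
    IsCyclic ↥(T ⊓ centralizer ({c} : Set G)) := by
  have hG := h.hG
  by_contra hnc
  have h1 := Cfsg.Agent.Lib.BGUniq3.not_rankLE_one_of_not_cyclic hr2
    (hT.to_le (inf_le_left : T ⊓ centralizer ({c} : Set G) ≤ T)) hnc
  have h2 : ¬ RankLE 1 ↥(alphaCore M ⊓ centralizer ((zpowers c : Subgroup G) : Set G)) := by
    intro hle
    apply h1
    intro q hq
    haveI : Fact q.Prime := ⟨hq⟩
    rw [centralizer_zpowers_eq] at hle
    exact Cfsg.Agent.Lib.BGUniq3.prankLE_of_le (inf_le_inf_right _ hTα) (hle q hq)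
  have hXA : zpowers c ≤ A := by
    rw [Subgroup.zpowers_le]
    exact hc
  have hXα : ∀ q : ℕ, q.Prime → q ∣ Nat.card (zpowers c) → q ∉ alpha M := by
    intro q hq hd
    have := Cfsg.Agent.Lib.BGM3.primes_of_isPGroup hp.out (h.pg.to_le hXA) q hq hd
    rw [this]
    exact hpα
  have h3 := s1406 hG (ut hG) hM (hXA.trans hAM) hXα h2
  rw [centralizer_zpowers_eq] at h3
  exact hCM (le_of_unique h3 hM inf_le_left inf_le_right (IsMin.centralizer_singleton_ne_top hG hc1))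

theorem not_dvd_of_pgroup {r : ℕ} [hr : Fact r.Prime] (hrp : r ≠ p) {R : Subgroup G}
    (hR : IsPGroup r R) : ¬ p ∣ Nat.card R := by
  have h1 := Cfsg.Agent.Lib.BGUniq2.coprime_of_pgroup_ne hR hrp
  rw [Nat.coprime_comm, Nat.Prime.coprime_iff_not_dvd hp.out] at h1
  exact h1

theorem order_coprime (h : P2 p A) {r : ℕ} [hr : Fact r.Prime] (hrp : r ≠ p) {a : G} (ha : a ∈ A) :
    (orderOf a).Coprime r := by
  have h8 : orderOf a ∣ p := orderOf_dvd_of_pow_eq_one (h.ea.2 a ha)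
  exact Nat.Coprime.coprime_dvd_left h8 ((Nat.coprime_primes hp.out hr.out).mpr hrp.symm)

theorem line_le_N (h : P2 p A) {R : Subgroup G} (hAR : A ≤ normalizer (R : Set G)) {c : G} (hc : c ∈ A) :
    A ≤ normalizer ((R ⊓ centralizer ({c} : Set G) : Subgroup G) : Set G) :=
  le_normalizer_inf hAR ((h.le_line hc).trans le_normalizer)

theorem fixed_trivial (h : P2 p A) {r : ℕ} [hr : Fact r.Prime] (hrp : r ≠ p) {R : Subgroup G}
    (hR : IsPGroup r R) (hAR : A ≤ normalizer (R : Set G)) (hrk : ¬ PRankLE r 2 R)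
    (hcyc : ∀ c ∈ A, c ≠ 1 → IsCyclic ↥(R ⊓ centralizer ({c} : Set G))) :
    R ⊓ centralizer (A : Set G) = ⊥ := by
  by_contra hne
  have hRC : R ≤ centralizer (A : Set G) := by
    intro y hy
    rw [mem_centralizer_iff]
    intro a ha
    have h1 : R ≤ centralizer ({a} : Set G) := by
      apply h.le_of_lines (not_dvd_of_pgroup hrp hR) hAR
      intro c hc hc1
      have hPp : IsPGroup r ↥(R ⊓ centralizer ({c} : Set G)) := hR.to_le inf_le_left
      have h2 : a ∈ centralizer ((R ⊓ centralizer ({c} : Set G) : Subgroup G) : Set G) := by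
        apply cyclic_fix hPp (hcyc c hc hc1) (line_le_N h hAR hc ha) (order_coprime h hrp ha)
        intro hb
        apply hne
        rw [eq_bot_iff, ← hb]
        refine le_inf (inf_le_inf_left _ (h.C_le_line hc)) ?_
        exact inf_le_right.trans (h.C_le_line ha)
      intro z hz
      rw [mem_centralizer_iff]
      intro b hb
      rw [Set.mem_singleton_iff.mp hb]
      exact (mem_centralizer_iff.mp h2 z hz).symm
    exact (mem_centralizer_iff.mp (h1 hy) a rfl)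
  exact hrk (Cfsg.Agent.Lib.BGUniq3.prankLE_of_le hRC (h.rank r hr.out))

theorem comm_self (h : P2 p A) {r : ℕ} [hr : Fact r.Prime] (hrp : r ≠ p) {X : Subgroup G}
    (hX : IsPGroup r X) (hAX : A ≤ normalizer (X : Set G)) (hfix : X ⊓ centralizer (A : Set G) = ⊥) :
    ⁅X, A⁆ = X := by
  haveI : Group.IsNilpotent X := hX.isNilpotent
  have h1 := commutator_sup_inf_centralizer hAX (h.coprime hrp hX).symm (Or.inr inferInstance)
  rwa [hfix, sup_bot_eq] at h1

theorem norm_of_star (h : P2 p A) {r : ℕ} [hr : Fact r.Prime] (hrp : r ≠ p) {R : Subgroup G}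
    (hRmax : R ∈ maxInvSubgroups ⊤ A {r}) (hRp : IsPGroup r R) (hAR : A ≤ normalizer (R : Set G))
    (hfix : R ⊓ centralizer (A : Set G) = ⊥) {x : G} (hx : x ∈ centralizer (A : Set G))
    (hH : ∀ c ∈ A, c ≠ 1 → R ⊓ centralizer ({c} : Set G) ≠ ⊥ →
      ∃ H : Subgroup G, IsCoatom H ∧ centralizer ({c} : Set G) ≤ H ∧ p ∉ alpha H ∧ r ∉ alpha H ∧
        alphaCore H ⊓ centralizer (A : Set G) = ⊥) :
    x ∈ normalizer (R : Set G) := by
  apply h.norm_of_lines (not_dvd_of_pgroup hrp hRp) hAR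
  intro c hc hc1
  by_cases hX : R ⊓ centralizer ({c} : Set G) = ⊥
  · rw [hX]
    apply mem_normalizer_of_conj_mem
    intro k hk
    rw [Subgroup.mem_bot] at hk
    rw [hk]
    simp
  obtain ⟨H, hH1, hcH, hpα, hrα, hTS⟩ := hH c hc hc1 hX
  have hXp : IsPGroup r ↥(R ⊓ centralizer ({c} : Set G)) := hRp.to_le inf_le_left
  have hAX := line_le_N h hAR hc
  have hXA : ⁅R ⊓ centralizer ({c} : Set G), A⁆ = R ⊓ centralizer ({c} : Set G) := by
    apply comm_self h hrp hXp hAX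
    rw [eq_bot_iff, ← hfix]
    exact inf_le_inf_right _ inf_le_left
  obtain ⟨S, hS1, hS2, hS3, hS4, -, hS6⟩ := h.exists_star hH1 hrp (h.le_line hc) (h.C_le_line hc) hcH
    hpα hrα hTS inf_le_right hXp hAX hXA
  rw [← h.star_eq hrp hc hRmax hX hS1 hS2 hS4 hS3]
  exact hS6 hx

theorem eq_of_two_max (h : P2 p A) {r : ℕ} [hr : Fact r.Prime] (hrp : r ≠ p) {R T H M : Subgroup G}
    (hRmax : R ∈ maxInvSubgroups ⊤ A {r}) (hTmax : T ∈ maxInvSubgroups ⊤ A {r})
    (hU : InUniqueMaximal R) (hM : IsCoatom M) (hRM : R ≤ M) (hH : IsCoatom H) (hAH : A ≤ H)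
    (hCH : centralizer (A : Set G) ≤ H) (hTH : T ≤ H) (hT1 : T ≠ ⊥) (hRH : H ⊓ R ≠ ⊥) : H = M := by
  obtain ⟨k, hk, hkT⟩ := h.conj_common hrp hTmax hRmax hH.1 hAH
    (by rw [inf_eq_right.mpr hTH]; exact hT1) hRH
  have hkH : k ∈ H := hCH (h.K_le hk)
  have hRH' : R ≤ H := by
    rw [hkT]
    have := cj_mono hTH k
    rwa [cj_eq_of_mem_normalizer (le_normalizer hkH)] at this
  exact eq_of_unique hU hM hRM hH hRH'

theorem sylow_ne_bot_alpha {H T : Subgroup G} {r : ℕ} [hr : Fact r.Prime] (hrα : r ∈ alpha H)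
    (hT : IsSylowIn r T H) : T ≠ ⊥ :=
  ne_bot_of_not_prank hr.out (fun hle => hrα.2 (prankLE_of_isSylowIn hT hle))

/-- `M_α ≠ 1`. -/
theorem case_I (h : P2 p A) {M : Subgroup G} (hM : IsCoatom M) (hAM : A ≤ M) (hpα : p ∉ alpha M)
    (hα : alphaCore M ≠ ⊥) : centralizer (A : Set G) ≤ M := by
  classical
  have hG := h.hG
  intro x hx
  by_contra hxM
  have hcard1 : Nat.card (alphaCore M) ≠ 1 := fun e => hα (Subgroup.card_eq_one.mp e)
  obtain ⟨r, hr, hrd⟩ := Nat.exists_prime_and_dvd hcard1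
  haveI hrfact : Fact r.Prime := ⟨hr⟩
  obtain ⟨hst1, -⟩ := alpha_structure hG (ut hG) hM
  have hrα : r ∈ alpha M := hst1.2.1 r hr hrd
  have hrp : r ≠ p := fun e => hpα (e ▸ hrα)
  have hr2 : r ≠ 2 := Cfsg.Agent.Lib.BGUniq2.prime_ne_two_of_dvd hG
    (hrd.trans (Subgroup.card_subgroup_dvd_card _))
  obtain ⟨R, hRM, hRα, hAR, hRt⟩ := inv_sylow_alpha hG hM hrα hpα h.pg hAM
  have hRmax := maxInv_of_sylow hRt hAR
  have hUR := unique_of_alpha hG hrα hRM
  have hRp : IsPGroup r R := hRM.2.1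
  have hRrk : ¬ PRankLE r 2 R := fun hle => hrα.2 (prankLE_of_isSylowIn hRM hle)
  have hlineM : ∀ c ∈ A, ¬ centralizer ({c} : Set G) ≤ M :=
    fun c hc hle => hxM (hle (h.C_le_line hc hx))
  have hcyc : ∀ c ∈ A, c ≠ 1 → IsCyclic ↥(R ⊓ centralizer ({c} : Set G)) := fun c hc hc1 =>
    line_cyclic h hM hAM hpα hc hc1 (hlineM c hc) hRα hr2 hRp
  have hfix := fixed_trivial h hrp hRp hAR hRrk hcyc
  have hxR : x ∈ normalizer (R : Set G) := by
    apply norm_of_star h hrp hRmax hRp hAR hfix hx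
    intro c hc hc1 hXne
    obtain ⟨H, hH, hcH⟩ := Cfsg.Agent.Lib.BGSigma2.exists_coatom_ge (IsMin.centralizer_singleton_ne_top hG hc1)
    have hAH : A ≤ H := (h.le_line hc).trans hcH
    have hCH : centralizer (A : Set G) ≤ H := (h.C_le_line hc).trans hcH
    have hHM : H ≠ M := by
      rintro rfl
      exact hxM (hCH hx)
    have hXH : R ⊓ centralizer ({c} : Set G) ≤ H := inf_le_right.trans hcH
    have hRH : H ⊓ R ≠ ⊥ := by
      intro hb
      apply hXne
      rw [eq_bot_iff, ← hb]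
      exact le_inf hXH inf_le_left
    have hXp : IsPGroup r ↥(R ⊓ centralizer ({c} : Set G)) := hRp.to_le inf_le_left
    have hAX := line_le_N h hAR hc
    have hXA : ⁅R ⊓ centralizer ({c} : Set G), A⁆ = R ⊓ centralizer ({c} : Set G) := by
      apply comm_self h hrp hXp hAX
      rw [eq_bot_iff, ← hfix]
      exact inf_le_inf_right _ inf_le_left
    have hpσ : p ∉ sigma H := by
      intro hpσ
      have hrβ := h.lemma_i hH hAH hpσ hrp hXH hXp hXA hXne
      obtain ⟨T, hT, hAT, hTt⟩ := inv_sylow_beta hG hH hrβ (h.not_beta H) h.pg hAH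
      exact hHM (eq_of_two_max h hrp hRmax (maxInv_of_sylow hTt hAT) hUR hM hRM.1 hH hAH hCH hT.1
        (sylow_ne_bot_alpha hrβ.1 hT) hRH)
    have hpαH : p ∉ alpha H := fun hh => hpσ (alpha_sub_sigma hG (ut hG) hH hh)
    have hrαH : r ∉ alpha H := by
      intro hrαH
      obtain ⟨T, hT, -, hAT, hTt⟩ := inv_sylow_alpha hG hH hrαH hpαH h.pg hAH
      exact hHM (eq_of_two_max h hrp hRmax (maxInv_of_sylow hTt hAT) hUR hM hRM.1 hH hAH hCH hT.1
        (sylow_ne_bot_alpha hrαH hT) hRH)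
    exact ⟨H, hH, hcH, hpαH, hrαH, ts h hH hAH hCH hpσ⟩
  have hNR : normalizer (R : Set G) ≠ ⊤ :=
    IsMin.normalizer_ne_top hG (sylow_ne_bot_alpha hrα hRM) (IsMin.isPGroup_ne_top hG hRp)
  exact hxM (le_of_unique hUR hM hRM.1 le_normalizer hNR hxR)

end Cases

end Cfsg.Agent.Lib.BGP2D
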