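import Mathlib
import Cfsg.Agent.Lib.BGP2D
import Cfsg.Agent.Lib.BGFus
import Cfsg.Agent.Lib.PuigBasic

/-!
# Centralizers of elementary abelian subgroups of order `p ^ 2`, part E: `M_α = 1`, `p ∉ σ(M)`.
-/

set_option autoImplicit false
set_option linter.unusedSectionVars false
set_option linter.unusedVariables false
set_option linter.style.haveILetI false
set_option linter.unusedSimpArgs false

namespace Cfsg.Agent.Lib.BGP2E

open Cfsg Subgroup Cfsg.Agent.Lib.CoprimeInv Cfsg.Agent.Lib.BGTrans Cfsg.Agent.Lib.Glauberman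
  Cfsg.Agent.Lib.BGSigma Cfsg.Agent.Lib.BGSigma2 Cfsg.Agent.Lib.BGSigma3 Cfsg.Agent.Lib.BGSigma4
  Cfsg.Agent.Lib.BGM1 Cfsg.Agent.Lib.BGP2A Cfsg.Agent.Lib.BGP2B Cfsg.Agent.Lib.BGP2C
  Cfsg.Agent.Lib.BGP2D Cfsg.Agent.Lib.BGFit2 Cfsg.Agent.Lib.BGUniq

open scoped commutatorElement

universe u

variable {G : Type u} [Group G] [Finite G] {p : ℕ} [hp : Fact p.Prime] {A : Subgroup G}

section General

theorem isPGroup_zpowers_of_pow {r : ℕ} [hr : Fact r.Prime] {y : G} (hy : y ^ r = 1) :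
    IsPGroup r (zpowers y) := isPGroup_of_ea (ea_zpowers hy)

theorem exists_fixed_pgroup {r : ℕ} [hr : Fact r.Prime] {P W : Subgroup G} (hP : IsPGroup r P)
    (hP1 : P ≠ ⊥) (hWN : W ≤ normalizer (P : Set G)) (hW : IsPGroup r W) :
    ∃ u ∈ P, u ≠ 1 ∧ u ^ r = 1 ∧ ∀ w ∈ W, u * w = w * u := by
  classical
  have hQ : IsPGroup r (W ⊔ P : Subgroup G) := isPGroup_sup_of_le_normalizer hW hP hWN
  have hQN : (W ⊔ P : Subgroup G) ≤ normalizer (P : Set G) := sup_le hWN le_normalizer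
  haveI hE : (P.subgroupOf (W ⊔ P)).Normal := Subgroup.normal_subgroupOf_of_le_normalizer hQN
  have hne : P.subgroupOf (W ⊔ P) ≠ ⊥ := by
    intro hb
    have h1 : Nat.card (P.subgroupOf (W ⊔ P)) = Nat.card P :=
      card_subgroupOf_of_le le_sup_right
    rw [hb, Subgroup.card_bot] at h1
    exact hP1 (Subgroup.card_eq_one.mp h1.symm)
  obtain ⟨z, hzE, hz1, hzc⟩ := Cfsg.Agent.Lib.PuigBasic.exists_mem_center_of_normal hQ _ hne
  have hzP : (z : G) ∈ P := hzE
  have hz1' : (z : G) ≠ 1 := by simpa using hz1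
  have hzp : IsPGroup r (zpowers (z : G)) := hP.to_le (Subgroup.zpowers_le.mpr hzP)
  have hzne : zpowers (z : G) ≠ ⊥ := by
    rwa [Ne, Subgroup.zpowers_eq_bot]
  have hd := Cfsg.Agent.Lib.BGUniq2.dvd_card_of_isPGroup hzp hzne
  obtain ⟨u, hu⟩ := exists_prime_orderOf_dvd_card' (G := ↥(zpowers (z : G))) r hd
  have hu1 : ((u : ↥(zpowers (z : G))) : G) ≠ 1 := by
    intro he
    have h2 : u = 1 := Subtype.ext he
    rw [h2, orderOf_one] at hu
    exact hr.out.one_lt.ne hu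
  have hur : (u : G) ^ r = 1 := by
    have := pow_orderOf_eq_one u
    rw [hu] at this
    exact congrArg Subtype.val this
  refine ⟨u, (Subgroup.zpowers_le.mpr hzP) u.2, hu1, hur, ?_⟩
  intro w hw
  obtain ⟨k, hk⟩ := Subgroup.mem_zpowers_iff.mp u.2
  have hzw : (z : G) * w = w * z := by
    have := Subgroup.mem_center_iff.mp hzc ⟨w, le_sup_left (a := W) hw⟩
    exact (congrArg Subtype.val this).symm
  rw [← hk]
  exact ((show Commute (z : G) w from hzw).zpow_left k)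

/-- If `r ∈ β(H)`, normalizers of elements of order `r` of `H` lie in `H`. -/
theorem beta_norm (hG : IsMinSimpleOddOrder G) {H : Subgroup G} (hH : IsCoatom H) {r : ℕ}
    [hr : Fact r.Prime] (hrβ : r ∈ beta H) {y : G} (hyH : y ∈ H) (hy1 : y ≠ 1) (hyr : y ^ r = 1) :
    normalizer (zpowers y : Set G) ≤ H := by
  classical
  have hYp : IsPGroup r (zpowers y) := isPGroup_zpowers_of_pow hyr
  have hYH : zpowers y ≤ H := Subgroup.zpowers_le.mpr hyH
  obtain ⟨T, hT, hYT⟩ := exists_isSylowIn_ge r hYH hYp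
  have hσ := Cfsg.Agent.Lib.BGM3.beta_sub_sigma hG hH hrβ
  have hTt : IsSylowIn r T ⊤ := isSylowIn_top_of_sigma hσ hT
  have hTrk : ¬ PRankLE r 2 T := fun hle => hrβ.1.2 (prankLE_of_isSylowIn hT hle)
  have hr2 : r ≠ 2 := by
    have : r ∣ Nat.card G := (dvd_card_of_not_prank hr.out hTrk).trans (Subgroup.card_subgroup_dvd_card T)
    exact Cfsg.Agent.Lib.BGUniq2.prime_ne_two_of_dvd hG this
  have hTp : IsPGroup r T := hT.2.1
  obtain ⟨F, hFn, hFe, hFc⟩ := Cfsg.Agent.S1453.exists_normal_p2 hr2 hTp hTrk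
  set F' : Subgroup G := F.map T.subtype with hF'
  have hF'c : Nat.card F' = r ^ 2 := by
    rw [hF', Subgroup.card_map_of_injective T.subtype_injective, hFc]
  have hF'e : IsElementaryAbelian r F' := by
    refine ⟨⟨⟨?_⟩⟩, ?_⟩
    · rintro ⟨_, a, ha, rfl⟩ ⟨_, b, hb, rfl⟩
      apply Subtype.ext
      have := hFe.1.is_comm.comm (⟨a, ha⟩ : F) ⟨b, hb⟩
      show ((a : T) : G) * b = b * a
      have h2 : a * b = b * a := congrArg Subtype.val this
      exact congrArg Subtype.val h2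
    · rintro _ ⟨a, ha, rfl⟩
      exact congrArg Subtype.val (hFe.2 a ha)
  have hF'T : F' ≤ T := Subgroup.map_subtype_le _
  have hF'n : T ≤ normalizer (F' : Set G) := le_normalizer_map_subtype hFn
  have hF'1 : F' ≠ ⊥ := by
    intro hb
    rw [hb, Subgroup.card_bot] at hF'c
    have h3 : 1 < r ^ 2 := Nat.one_lt_pow (by norm_num) hr.out.one_lt
    omega
  -- an `E_{r²}` through `y`
  obtain ⟨E, hEy, hET, hEe, hEc⟩ : ∃ E : Subgroup G, y ∈ E ∧ E ≤ T ∧ IsElementaryAbelian r E ∧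
      Nat.card E = r ^ 2 := by
    by_cases hyF : y ∈ F'
    · exact ⟨F', hyF, hF'T, hF'e, hF'c⟩
    · obtain ⟨f, hfF, hf1, hfr, hfw⟩ := exists_fixed_pgroup (hTp.to_le hF'T) hF'1
        (hYT.trans hF'n) hYp
      have hfc : zpowers y ≤ centralizer ((zpowers f : Subgroup G) : Set G) := by
        rw [Subgroup.zpowers_le, centralizer_zpowers_eq, mem_centralizer_iff]
        intro b hb
        rw [Set.mem_singleton_iff.mp hb]
        exact hfw y (Subgroup.mem_zpowers y)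
      have hEA := ea_sup (ea_zpowers hyr) (ea_zpowers hfr) hfc
      have hinf : zpowers y ⊓ zpowers f = ⊥ := by
        rw [eq_bot_iff]
        rintro w ⟨hw1, hw2⟩
        by_contra hw
        have hw' : w ≠ 1 := hw
        have hc1 : Nat.card (zpowers y) = r := by
          rw [Nat.card_zpowers, orderOf_eq_prime hyr hy1]
        obtain ⟨k, hk⟩ := Cfsg.Agent.S1448.gen_of_card hc1 hw1 hw' (Subgroup.mem_zpowers y)
        have : y ∈ F' := by
          rw [hk]
          exact pow_mem ((Subgroup.zpowers_le.mpr hfF) hw2) k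
        exact hyF this
      have hcard := card_sup_mul_card_inf (hfc.trans (Cfsg.Agent.Lib.BGTrans.centralizer_le_normalizer _))
      rw [hinf, Subgroup.card_bot, mul_one, Nat.card_zpowers, Nat.card_zpowers,
        orderOf_eq_prime hyr hy1, orderOf_eq_prime hfr hf1] at hcard
      refine ⟨zpowers y ⊔ zpowers f, le_sup_left (a := zpowers y) (Subgroup.mem_zpowers y), ?_, hEA, ?_⟩
      · exact sup_le hYT ((Subgroup.zpowers_le.mpr hfF).trans hF'T)
      · rw [hcard]; ring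
  -- the larger elementary abelian subgroup
  have hideal := hrβ.2.2.2
  let Ts : Sylow r G :=
    { toSubgroup := T
      isPGroup' := hTp
      is_maximal' := fun {Q} hQ hle => hTt.2.2 Q le_top hQ hle }
  obtain ⟨B, hBT, hBe, hEB⟩ := hideal Ts E hET hEe hEc
  have hBT' : B ≤ T := hBT
  have hBc : r ^ 2 < Nat.card B := by
    rw [← hEc]
    exact card_lt_of_lt' hEB
  have hU : InUniqueMaximal B := by
    apply Cfsg.Agent.S1403.result hG B (IsMin.isPGroup_ne_top hG (isPGroup_of_ea hBe))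
    · apply Cfsg.Agent.Lib.BGUniq3.not_rankLE_of_ea hr.out hBe.1 hBe.2
      rw [pow_one]
      exact lt_of_le_of_lt (Nat.le_self_pow (by norm_num) r) hBc
    · exact Or.inl (Cfsg.Agent.Lib.BGUniq3.not_rankLE_of_ea hr.out hBe.1 hBe.2 hBc)
  have hBN : B ≤ normalizer (zpowers y : Set G) := by
    have hyB : y ∈ B := hEB.le hEy
    intro b hb
    apply Cfsg.Agent.Lib.BGFit2.mem_normalizer_of_centralizes
    intro w hw
    apply Cfsg.Agent.Lib.BGFit2.conj_eq_of_comm
    obtain ⟨k, rfl⟩ := Subgroup.mem_zpowers_iff.mp hw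
    have e1 : Commute b y := congrArg Subtype.val (hBe.1.is_comm.comm (⟨b, hb⟩ : B) ⟨y, hyB⟩)
    exact e1.zpow_right k
  have hY1 : zpowers y ≠ ⊥ := by rwa [Ne, Subgroup.zpowers_eq_bot]
  have hNne : normalizer (zpowers y : Set G) ≠ ⊤ :=
    IsMin.normalizer_ne_top hG hY1 (IsMin.isPGroup_ne_top hG hYp)
  exact le_of_unique hU hH (hBT'.trans hT.1) hBN hNne

theorem sigma_cj {H : Subgroup G} {q : ℕ} [hq : Fact q.Prime] (hσ : q ∈ sigma H) (g : G) :
    q ∈ sigma (cj H g) := by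
  obtain ⟨P, hP, hN⟩ := exists_sigma_sylow hσ
  refine mem_sigma_of (Cfsg.Agent.Lib.BGFus.isSylowIn_cj hP g) ?_ ?_
  · rw [card_cj]
    exact hσ.2.1
  · rw [Cfsg.Agent.Lib.BGFus.normalizer_cj_eq]
    exact cj_mono hN g

end General

section C3

/-- The context of the last case. -/
structure C3 (p r : ℕ) (A M : Subgroup G) (x : G) : Prop where
  h : P2 p A
  hM : IsCoatom M
  hAM : A ≤ M
  hα : alphaCore M = ⊥
  hpσ : p ∉ sigma M
  hx : x ∈ centralizer (A : Set G)
  hxM : x ∉ M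
  hrp : r ≠ p
  hV : (⁅pCoreOf r (⁅M, M⁆ : Subgroup G), A⁆ : Subgroup G) ≠ ⊥

/-- `O_r(M')`. -/
abbrev ZZ (r : ℕ) (M : Subgroup G) : Subgroup G := pCoreOf r (⁅M, M⁆ : Subgroup G)

/-- `[O_r(M'), A]`. -/
abbrev VV (r : ℕ) (A M : Subgroup G) : Subgroup G := ⁅ZZ r M, A⁆

variable {r : ℕ} [hr : Fact r.Prime] {M : Subgroup G} {x : G}

section

variable (c : C3 p r A M x)
include c

theorem C3.hG : IsMinSimpleOddOrder G := c.h.hG

theorem C3.r2 : r ≠ 2 := by
  intro e
  have h1 : r ∣ Nat.card G := by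
    have hne : VV r A M ≠ ⊥ := c.hV
    have hVp : IsPGroup r (VV r A M) := (isPGroup_pCoreOf r _).to_le
      (commutator_le_of_le_normalizer
        (c.hAM.trans ((D_facts M).2.trans (normalizer_le_normalizer_pCoreOf r _))))
    exact (Cfsg.Agent.Lib.BGUniq2.dvd_card_of_isPGroup hVp hne).trans (Subgroup.card_subgroup_dvd_card _)
  exact Cfsg.Agent.Lib.BGUniq2.prime_ne_two_of_dvd c.hG h1 e

theorem C3.hMZ : M ≤ normalizer (ZZ r M : Set G) :=
  (D_facts M).2.trans (normalizer_le_normalizer_pCoreOf r _)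

theorem C3.hZp : IsPGroup r (ZZ r M) := isPGroup_pCoreOf r _

theorem C3.hZM : ZZ r M ≤ M := (pCoreOf_le r _).trans (D_facts M).1

theorem C3.hAZ : A ≤ normalizer (ZZ r M : Set G) := c.hAM.trans c.hMZ

theorem C3.hVZ : VV r A M ≤ ZZ r M := commutator_le_of_le_normalizer c.hAZ

theorem C3.hVp : IsPGroup r (VV r A M) := c.hZp.to_le c.hVZ

theorem C3.hVM : VV r A M ≤ M := c.hVZ.trans c.hZM

theorem C3.hAV : A ≤ normalizer (VV r A M : Set G) := le_normalizer_commutator c.hAZ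

theorem C3.hVA : ⁅VV r A M, A⁆ = VV r A M := by
  haveI : Group.IsNilpotent (ZZ r M) := c.hZp.isNilpotent
  exact commutator_commutator_eq c.hAZ (c.h.coprime c.hrp c.hZp).symm (Or.inr inferInstance)

theorem C3.hZV : ZZ r M ≤ normalizer (VV r A M : Set G) := by
  intro z hz
  apply mem_normalizer_of_cj_eq
  apply Subgroup.eq_of_le_of_card_ge _ (by rw [card_cj])
  show Subgroup.map _ _ ≤ _
  rw [Subgroup.map_le_iff_le_comap, Subgroup.commutator_le]
  intro z₁ hz₁ a ha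
  show z * ⁅z₁, a⁆ * z⁻¹ ∈ VV r A M
  have h1 : z * ⁅z₁, a⁆ * z⁻¹ = ⁅z * z₁, a⁆ * ⁅z, a⁆⁻¹ := by
    simp only [commutatorElement_def]
    group
  rw [h1]
  exact mul_mem (Subgroup.commutator_mem_commutator (mul_mem hz hz₁) ha)
    (inv_mem (Subgroup.commutator_mem_commutator hz ha))

theorem C3.normal : M ≤ normalizer (VV r A M : Set G) := by
  classical
  have hnD := nil_D c.hG c.hM c.hα
  intro m hm
  apply mem_normalizer_of_cj_eq
  apply Subgroup.eq_of_le_of_card_ge _ (by rw [card_cj])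
  show Subgroup.map _ _ ≤ _
  rw [Subgroup.map_commutator]
  have hZm : Subgroup.map (MulAut.conj m).toMonoidHom (ZZ r M) = ZZ r M :=
    cj_eq_of_mem_normalizer (c.hMZ hm)
  rw [hZm, Subgroup.commutator_le]
  rintro z hz _ ⟨a, ha, rfl⟩
  have ha' : (MulAut.conj m).toMonoidHom a = m * a * m⁻¹ := rfl
  rw [ha']
  set a' := m * a * m⁻¹ with ha'def
  have hg : a' * a⁻¹ ∈ (⁅M, M⁆ : Subgroup G) := by
    have := Subgroup.commutator_mem_commutator hm (c.hAM ha)
    rwa [commutatorElement_def] at this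
  obtain ⟨b, hb, d, hd, he⟩ := nil_decomp hnD r hg
  have hb' : b ∈ ZZ r M := hb
  have hdZ : ∀ z ∈ ZZ r M, d * z = z * d := fun z hz => (nil_comm r hz hd).symm
  have haK : a ∈ K0 (ZZ r M) (VV r A M) := by
    refine ⟨c.hAZ ha, c.hAV ha, ?_⟩
    intro w hw
    have h1 : a * w * a⁻¹ * w⁻¹ = ⁅w, a⁆⁻¹ := by
      rw [commutatorElement_def]; group
    rw [h1]
    exact inv_mem (Subgroup.commutator_mem_commutator hw ha)
  have hdK : d ∈ K0 (ZZ r M) (VV r A M) := by
    refine ⟨Cfsg.Agent.Lib.BGFit2.mem_normalizer_of_centralizes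
        (fun w hw => Cfsg.Agent.Lib.BGFit2.conj_eq_of_comm (hdZ w hw)),
      Cfsg.Agent.Lib.BGFit2.mem_normalizer_of_centralizes
        (fun w hw => Cfsg.Agent.Lib.BGFit2.conj_eq_of_comm (hdZ w (c.hVZ hw))), ?_⟩
    intro w hw
    rw [Cfsg.Agent.Lib.BGFit2.conj_eq_of_comm (hdZ w hw), mul_inv_cancel]
    exact one_mem _
  have hdaK : d * a ∈ K0 (ZZ r M) (VV r A M) := mul_mem hdK haK
  have hb1 : b ∈ normalizer (ZZ r M : Set G) := le_normalizer hb'
  have hb2 : b ∈ normalizer (VV r A M : Set G) := c.hZV hb'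
  have hab : a' = b * (d * a) := by
    have : a' = (a' * a⁻¹) * a := by group
    rw [this, he]
    group
  have ha1 : a' ∈ normalizer (ZZ r M : Set G) := by
    rw [hab]; exact mul_mem hb1 hdaK.1
  have ha2 : a' ∈ normalizer (VV r A M : Set G) := by
    rw [hab]; exact mul_mem hb2 hdaK.2.1
  have hab' : a' * b⁻¹ ∈ K0 (ZZ r M) (VV r A M) := by
    have : a' * b⁻¹ = b * (d * a) * b⁻¹ := by rw [hab]
    rw [this]
    exact K0_conj hdaK hb1 hb2
  have han : a' ^ p = 1 := by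
    rw [ha'def, conj_pow, c.h.ea.2 a ha]
    group
  have hbo : (orderOf b).Coprime p := by
    obtain ⟨k, hk⟩ := c.hZp.exists_card_eq
    have h1 : orderOf b ∣ r ^ k := hk ▸ Subgroup.orderOf_dvd_natCard _ hb'
    exact Nat.Coprime.coprime_dvd_left h1
      (Nat.Coprime.pow_left _ ((Nat.coprime_primes hr.out hp.out).mpr c.hrp))
  have hK := K0_of_pow ha1 ha2 hb1 hb2 hab' han hbo
  have h2 := hK.2.2 z hz
  have h3 : ⁅z, a'⁆ = (a' * z * a'⁻¹ * z⁻¹)⁻¹ := by
    rw [commutatorElement_def]; group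
  rw [h3]
  exact inv_mem h2

theorem C3.NV : normalizer (VV r A M : Set G) = M := by
  have hne : normalizer (VV r A M : Set G) ≠ ⊤ :=
    IsMin.normalizer_ne_top c.hG c.hV (IsMin.isPGroup_ne_top c.hG c.hVp)
  by_contra hb
  exact hne (c.hM.2 _ (lt_of_le_of_ne c.normal (Ne.symm hb)))

theorem C3.comm_le {N : Subgroup G} (hNM : N ≤ M) (hN : IsPGroup r N)
    (hAN : A ≤ normalizer (N : Set G)) : ⁅N, A⁆ ≤ VV r A M := by
  have hnD := nil_D c.hG c.hM c.hα
  haveI : Group.IsNilpotent N := hN.isNilpotent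
  have h1 : ⁅N, A⁆ ≤ ZZ r M :=
    le_pCoreOf_nil hnD (Subgroup.commutator_mono hNM c.hAM)
      (hN.to_le (commutator_le_of_le_normalizer hAN))
  rw [← commutator_commutator_eq hAN (c.h.coprime c.hrp hN).symm (Or.inr inferInstance)]
  exact Subgroup.commutator_mono h1 le_rfl

theorem C3.rank (q : ℕ) (hq : q.Prime) : PRankLE q 2 M :=
  alpha_hyp M q hq (alpha_empty c.hG c.hM c.hα q)

theorem C3.p_not_sigma {H X : Subgroup G} {d : G} (hd : d ∈ A) (hH : IsCoatom H)
    (hdH : centralizer ({d} : Set G) ≤ H) (hXV : X ≤ VV r A M)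
    (hXd : X ≤ centralizer ({d} : Set G)) (hXA : ⁅X, A⁆ = X) (hX1 : X ≠ ⊥) : p ∉ sigma H := by
  classical
  intro hpH
  have h := c.h
  have hG := c.hG
  have hAH : A ≤ H := (h.le_line hd).trans hdH
  have hCH : centralizer (A : Set G) ≤ H := (h.C_le_line hd).trans hdH
  have hHM : H ≠ M := by
    rintro rfl
    exact c.hxM (hCH c.hx)
  have hXH : X ≤ H := hXd.trans hdH
  have hXp : IsPGroup r X := c.hVp.to_le hXV
  have hrβ := h.lemma_i hH hAH hpH c.hrp hXH hXp hXA hX1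
  by_cases hr1 : PRankLE r 1 M
  · have hVcyc : IsCyclic (VV r A M) := isCyclic_of_prank_one c.r2 c.hVp
      (Cfsg.Agent.Lib.BGUniq3.prankLE_of_le c.hVM hr1)
    have hd1 := Cfsg.Agent.Lib.BGUniq2.dvd_card_of_isPGroup hXp hX1
    obtain ⟨y, hy⟩ := exists_prime_orderOf_dvd_card' (G := X) r hd1
    have hy1 : ((y : X) : G) ≠ 1 := by
      intro he
      have h2 : y = 1 := Subtype.ext he
      rw [h2, orderOf_one] at hy
      exact hr.out.one_lt.ne hy
    have hyr : (y : G) ^ r = 1 := by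
      have := pow_orderOf_eq_one y
      rw [hy] at this
      exact congrArg Subtype.val this
    have hyV : (y : G) ∈ VV r A M := hXV y.2
    have hMN : M ≤ normalizer (zpowers (y : G) : Set G) := by
      intro m hm
      apply mem_normalizer_of_conj_mem
      intro k hk
      obtain ⟨i, rfl⟩ := Subgroup.mem_zpowers_iff.mp hk
      have h3 : m * (y : G) * m⁻¹ ∈ VV r A M := (mem_normalizer_iff.mp (c.normal hm) _).mp hyV
      have h4 : (⟨m * (y : G) * m⁻¹, h3⟩ : VV r A M) ∈ zpowers (⟨y, hyV⟩ : VV r A M) := by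
        apply Cfsg.Agent.S1448.mem_of_cyclic (p := r)
        · exact Subtype.ext hyr
        · intro he
          exact hy1 (congrArg Subtype.val he)
        · apply Subtype.ext
          show (m * (y : G) * m⁻¹) ^ r = 1
          rw [conj_pow, hyr]
          group
      obtain ⟨j, hj⟩ := Subgroup.mem_zpowers_iff.mp h4
      have h5 : m * (y : G) * m⁻¹ = (y : G) ^ j := by
        have := congrArg Subtype.val hj
        simpa using this.symm
      rw [← conj_zpow, h5, ← zpow_mul]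
      exact Subgroup.zpow_mem_zpowers _ _
    have h6 := beta_norm hG hH hrβ (hXH y.2) hy1 hyr
    have h7 : M ≤ H := hMN.trans h6
    rcases c.hM.le_iff.mp h7 with h8 | h8
    · exact hH.1 h8
    · exact hHM h8
  · obtain ⟨E, hEM, hEe, hEc⟩ := exists_ea2 hr1
    have hEp : IsPGroup r E := isPGroup_of_ea hEe
    obtain ⟨P, hP⟩ := hEp.exists_le_sylow
    obtain ⟨B, hBP, hBe, hEB⟩ := hrβ.2.2.2 P E hP hEe hEc
    have hBc : r ^ 2 < Nat.card B := by
      rw [← hEc]
      exact card_lt_of_lt' hEB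
    have hC : ¬ PRankLE r 2 (centralizer (E : Set G)) := by
      intro hle
      rw [prankLE_iff] at hle
      have := hle B (le_centralizer_of_comm hEB.le hBe.1) hBe.1 hBe.2
      omega
    have hU := unique_of_centralizer hG (ut hG) hEe hEc hC
    obtain ⟨T, hT⟩ := exists_isSylowIn r H
    have hTt := isSylowIn_top_of_sigma (Cfsg.Agent.Lib.BGM3.beta_sub_sigma hG hH hrβ) hT
    obtain ⟨S, hS, hES⟩ := exists_isSylowIn_ge r (le_top : E ≤ ⊤) hEp
    obtain ⟨g, -, hg⟩ := hTt.exists_conj hS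
    have hEH : E ≤ cj H g := by
      rw [hg] at hES
      exact hES.trans (cj_mono hT.1 g)
    have h8 := eq_of_unique hU c.hM hEM (Cfsg.Agent.Lib.BGUniq3.isCoatom_cj hH g) hEH
    have h9 := sigma_cj hpH g
    rw [h8] at h9
    exact c.hpσ h9

theorem C3.r_not_alpha {H X : Subgroup G} {d : G} (hd : d ∈ A) (hH : IsCoatom H)
    (hdH : centralizer ({d} : Set G) ≤ H) (hpσH : p ∉ sigma H) (hXV : X ≤ VV r A M)
    (hXd : X ≤ centralizer ({d} : Set G)) (hX1 : X ≠ ⊥) : r ∉ alpha H := by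
  classical
  intro hrα
  have h := c.h
  have hG := c.hG
  have hAH : A ≤ H := (h.le_line hd).trans hdH
  have hCH : centralizer (A : Set G) ≤ H := (h.C_le_line hd).trans hdH
  have hXH : X ≤ H := hXd.trans hdH
  have hpα : p ∉ alpha H := fun hh => hpσH (alpha_sub_sigma hG (ut hG) hH hh)
  obtain ⟨T, hT, hTα, hAT, hTt⟩ := inv_sylow_alpha hG hH hrα hpα h.pg hAH
  have hTmax := maxInv_of_sylow hTt hAT
  obtain ⟨R, hRmax, hVR⟩ := h.exists_ge c.hVp c.hAV
  have hRi := mem_invSubgroups_singleton.mp hRmax.1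
  have hRp : IsPGroup r R := hRi.2.1
  have hAR : A ≤ normalizer (R : Set G) := hRi.2.2
  have hc₁ : H ⊓ T ≠ ⊥ := by
    rw [inf_eq_right.mpr hT.1]
    exact sylow_ne_bot_alpha hrα hT
  have hc₂ : H ⊓ R ≠ ⊥ := by
    intro hb
    apply hX1
    rw [eq_bot_iff, ← hb]
    exact le_inf hXH (hXV.trans hVR)
  obtain ⟨k, hk, hkT⟩ := h.conj_common c.hrp hTmax hRmax hH.1 hAH hc₁ hc₂
  have hkH : k ∈ H := hCH (h.K_le hk)
  have hRα : R ≤ alphaCore H := by
    rw [hkT]
    have := cj_mono hTα k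
    have hkN : k ∈ normalizer (alphaCore H : Set G) := le_normalizer_piCoreOf (alpha H) H hkH
    rwa [cj_eq_of_mem_normalizer hkN] at this
  have hRfix : R ⊓ centralizer (A : Set G) = ⊥ := by
    rw [eq_bot_iff, ← ts h hH hAH hCH hpσH]
    exact inf_le_inf_right _ hRα
  set N := R ⊓ normalizer (VV r A M : Set G) with hNdef
  have hNp : IsPGroup r N := hRp.to_le inf_le_left
  have hAN : A ≤ normalizer (N : Set G) := le_normalizer_inf hAR (c.hAV.trans le_normalizer)
  have hNfix : N ⊓ centralizer (A : Set G) = ⊥ := by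
    rw [eq_bot_iff, ← hRfix]
    exact inf_le_inf_right _ inf_le_left
  have hNA := comm_self h c.hrp hNp hAN hNfix
  have hNM : N ≤ M := by
    rw [← c.NV]
    exact inf_le_right
  have hNV : N ≤ VV r A M := by
    rw [← hNA]
    exact c.comm_le hNM hNp hAN
  have hRV : R = VV r A M := by
    by_contra hne
    have hlt : VV r A M < R := lt_of_le_of_ne hVR (Ne.symm hne)
    obtain ⟨t, htR, htV, htN⟩ := Cfsg.Agent.Lib.BGUniq.exists_mem_normalizer_of_lt hRp hlt
    exact htV (hNV ⟨htR, htN⟩)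
  -- `R` has rank at least three, a contradiction
  have hRs : IsSylowIn r R H := by
    have hRt : IsSylowIn r R ⊤ := by
      rw [hkT]
      apply hTt.cj_of_normalizer
      rw [Subgroup.mem_normalizer_iff]
      intro z; simp
    exact Cfsg.Agent.Lib.BGUniq2.isSylowIn_of_top hRt (hRα.trans (Subgroup.map_subtype_le _))
  have hRrk : ¬ PRankLE r 2 R := fun hle => hrα.2 (prankLE_of_isSylowIn hRs hle)
  exact hRrk (Cfsg.Agent.Lib.BGUniq3.prankLE_of_le (hRV ▸ c.hVM) (c.rank r hr.out))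

theorem C3.data {X : Subgroup G} {d : G} (hd : d ∈ A) (hd1 : d ≠ 1) (hXV : X ≤ VV r A M)
    (hXd : X ≤ centralizer ({d} : Set G)) (hXA : ⁅X, A⁆ = X) (hX1 : X ≠ ⊥) :
    ∃ H : Subgroup G, IsCoatom H ∧ centralizer ({d} : Set G) ≤ H ∧ p ∉ alpha H ∧ r ∉ alpha H ∧
        alphaCore H ⊓ centralizer (A : Set G) = ⊥ := by
  have h := c.h
  have hG := c.hG
  obtain ⟨H, hH, hdH⟩ := Cfsg.Agent.Lib.BGSigma2.exists_coatom_ge
    (IsMin.centralizer_singleton_ne_top hG hd1)
  have hpσ := c.p_not_sigma hd hH hdH hXV hXd hXA hX1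
  have hAH : A ≤ H := (h.le_line hd).trans hdH
  have hCH : centralizer (A : Set G) ≤ H := (h.C_le_line hd).trans hdH
  exact ⟨H, hH, hdH, fun hh => hpσ (alpha_sub_sigma hG (ut hG) hH hh),
    c.r_not_alpha hd hH hdH hpσ hXV hXd hX1, ts h hH hAH hCH hpσ⟩

theorem C3.star {X : Subgroup G} {d : G} (hd : d ∈ A) (hd1 : d ≠ 1) (hXV : X ≤ VV r A M)
    (hXd : X ≤ centralizer ({d} : Set G)) (hAX : A ≤ normalizer (X : Set G)) (hXA : ⁅X, A⁆ = X)
    (hX1 : X ≠ ⊥) :
    ∃ S, S ≤ centralizer ({d} : Set G) ∧ IsPGroup r S ∧ X ≤ S ∧ A ≤ normalizer (S : Set G) ∧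
      PRankLE r 2 S ∧ centralizer (A : Set G) ≤ normalizer (S : Set G) := by
  obtain ⟨H, hH, hdH, hpα, hrα, hTS⟩ := c.data hd hd1 hXV hXd hXA hX1
  exact c.h.exists_star hH c.hrp (c.h.le_line hd) (c.h.C_le_line hd) hdH hpα hrα hTS hXd
    (c.hVp.to_le hXV) hAX hXA

/-- Lemma A applied to the star. -/
theorem C3.lemmaB {V₀ : Subgroup G} {d : G} (hd : d ∈ A) (hd1 : d ≠ 1) (hV₀V : V₀ ≤ VV r A M)
    (hV₀d : V₀ ≤ centralizer ({d} : Set G)) (hAV₀ : A ≤ normalizer (V₀ : Set G)) (hV₀A : ⁅V₀, A⁆ = V₀)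
    (hV₀1 : V₀ ≠ ⊥) (hMV₀ : M ≤ normalizer (V₀ : Set G))
    (hN : ∀ N : Subgroup G, N ≤ M → N ≤ centralizer ({d} : Set G) → IsPGroup r N →
      A ≤ normalizer (N : Set G) → ⁅N, A⁆ ≤ V₀) : False := by
  have h := c.h
  have hG := c.hG
  obtain ⟨S, hSd, hSp, hV₀S, hAS, hSrk, hCS⟩ := c.star hd hd1 hV₀V hV₀d hAV₀ hV₀A hV₀1
  set R : Subgroup G := ⁅S, A⁆ with hR
  have hRS : R ≤ S := commutator_le_of_le_normalizer hAS
  have hRp : IsPGroup r R := hSp.to_le hRS
  have hAR : A ≤ normalizer (R : Set G) := le_normalizer_commutator hAS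
  haveI : Group.IsNilpotent S := hSp.isNilpotent
  have hRA : ⁅R, A⁆ = R :=
    commutator_commutator_eq hAS (h.coprime c.hrp hSp).symm (Or.inr inferInstance)
  have hV₀R : V₀ ≤ R := by
    rw [← hV₀A]
    exact Subgroup.commutator_mono hV₀S le_rfl
  have hNV₀ : normalizer (V₀ : Set G) = M := by
    have hV₀p := c.hVp.to_le hV₀V
    have hne : normalizer (V₀ : Set G) ≠ ⊤ :=
      IsMin.normalizer_ne_top hG hV₀1 (IsMin.isPGroup_ne_top hG hV₀p)
    by_contra hb
    exact hne (c.hM.2 _ (lt_of_le_of_ne hMV₀ (Ne.symm hb)))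
  have hxR : x ∈ normalizer (R : Set G) := by
    apply mem_normalizer_of_cj_eq
    show Subgroup.map _ _ = _
    rw [Subgroup.map_commutator]
    have e1 : Subgroup.map (MulAut.conj x).toMonoidHom S = S :=
      cj_eq_of_mem_normalizer (hCS c.hx)
    have e2 : Subgroup.map (MulAut.conj x).toMonoidHom A = A :=
      cj_eq_of_mem_normalizer (Cfsg.Agent.Lib.BGTrans.centralizer_le_normalizer A c.hx)
    rw [e1, e2]
  have hxV := lemma_A h.pne c.r2 c.hrp hRp h.pg h.ea.2
    (Cfsg.Agent.Lib.BGUniq3.prankLE_of_le hRS hSrk) hAR hRA hV₀R hAV₀ hV₀A hV₀1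
    (by
      apply hN
      · rw [← hNV₀]
        exact inf_le_right
      · exact (inf_le_left.trans hRS).trans hSd
      · exact hRp.to_le inf_le_left
      · exact le_normalizer_inf hAR (hAV₀.trans le_normalizer)) hxR c.hx
  rw [hNV₀] at hxV
  exact c.hxM hxV

end

end C3

end Cfsg.Agent.Lib.BGP2E
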