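import Mathlib
import Cfsg.Agent.Lib.BGP2E

/-!
# Centralizers of elementary abelian subgroups of order `p ^ 2`, part F: the main theorem.
-/

set_option autoImplicit false
set_option linter.unusedSectionVars false
set_option linter.unusedVariables false
set_option linter.style.haveILetI false
set_option linter.unusedSimpArgs false

namespace Cfsg.Agent.Lib.BGP2F

open Cfsg Subgroup Cfsg.Agent.Lib.CoprimeInv Cfsg.Agent.Lib.BGTrans Cfsg.Agent.Lib.Glauberman
  Cfsg.Agent.Lib.BGSigma Cfsg.Agent.Lib.BGSigma2 Cfsg.Agent.Lib.BGSigma3 Cfsg.Agent.Lib.BGSigma4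
  Cfsg.Agent.Lib.BGM1 Cfsg.Agent.Lib.BGP2A Cfsg.Agent.Lib.BGP2B Cfsg.Agent.Lib.BGP2C
  Cfsg.Agent.Lib.BGP2D Cfsg.Agent.Lib.BGP2E Cfsg.Agent.Lib.BGFit2 Cfsg.Agent.Lib.BGUniq

open scoped commutatorElement

universe u

variable {G : Type u} [Group G] [Finite G] {p : ℕ} [hp : Fact p.Prime] {A : Subgroup G}

section ESKey

variable {r : ℕ} [hr : Fact r.Prime] {V R₁ R₂ : Subgroup G}

theorem ES.card_eq (hES : ES r V R₁ R₂) : Nat.card V = r ^ 2 * Nat.card R₂ := by
  have hn : R₁ ≤ normalizer (R₂ : Set G) := fun a ha =>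
    Cfsg.Agent.Lib.BGFit2.mem_normalizer_of_centralizes
      (fun b hb => Cfsg.Agent.Lib.BGFit2.conj_eq_of_comm (hES.comm a ha b hb))
  have h1 := card_sup_mul_card_inf hn
  have hinf : R₁ ⊓ R₂ = ⁅R₁, R₁⁆ := by
    apply le_antisymm _ (le_inf hES.Z_le1 hES.Z_le2)
    rw [Cfsg.Agent.Lib.BGFus2.comm_eq_inf_centralizer hES.nonab hES.card]
    rintro y ⟨hy1, hy2⟩
    refine ⟨hy1, ?_⟩
    show y ∈ centralizer (R₁ : Set G)
    rw [mem_centralizer_iff]
    intro b hb
    exact hES.comm b hb y hy2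
  rw [hinf, hES.card_Z, hES.sup, hES.card] at h1
  have hpos : 0 < r := hr.out.pos
  have h2 : Nat.card V * r = (r ^ 2 * Nat.card R₂) * r := by
    rw [h1]; ring
  exact Nat.eq_of_mul_eq_mul_right hpos h2

theorem ES.centralizer_le (hES : ES r V R₁ R₂) (hVp : IsPGroup r V) {u : G} (hu : u ∈ V)
    (huR : u ∉ R₂) : V ⊓ centralizer ({u} : Set G) ≤ zpowers u ⊔ R₂ := by
  have hcen := hES.center
  have hL : zpowers u ⊔ R₂ ≤ V ⊓ centralizer ({u} : Set G) := by
    refine sup_le (le_inf (Subgroup.zpowers_le.mpr hu) ?_) (le_inf hES.le2 ?_)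
    · rw [Subgroup.zpowers_le]
      show u ∈ centralizer ({u} : Set G)
      rw [mem_centralizer_iff]
      intro b hb
      rw [Set.mem_singleton_iff.mp hb]
    · intro b hb
      show b ∈ centralizer ({u} : Set G)
      rw [mem_centralizer_iff]
      intro y hy
      rw [Set.mem_singleton_iff.mp hy]
      exact (hES.R2_central hb hu).symm
  have hKne : V ⊓ centralizer ({u} : Set G) ≠ V := by
    intro h8
    apply huR
    rw [← hcen]
    refine ⟨hu, ?_⟩
    show u ∈ centralizer (V : Set G)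
    rw [mem_centralizer_iff]
    intro b hb
    have h10 : b ∈ V ⊓ centralizer ({u} : Set G) := by rw [h8]; exact hb
    have h11 : b ∈ centralizer ({u} : Set G) := h10.2
    exact (mem_centralizer_iff.mp h11 u rfl).symm
  have hR₂p : IsPGroup r R₂ := hVp.to_le hES.le2
  obtain ⟨s, hs⟩ := hR₂p.exists_card_eq
  have hVc : Nat.card V = r ^ (s + 2) := by
    rw [ES.card_eq hES, hs]; ring
  apply le_of_eq
  symm
  apply Subgroup.eq_of_le_of_card_ge hL
  -- cardinalities
  have hdK : Nat.card ↥(V ⊓ centralizer ({u} : Set G)) ∣ r ^ (s + 2) := by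
    rw [← hVc]
    exact Subgroup.card_dvd_of_le inf_le_left
  obtain ⟨a, ha, hKa⟩ := (Nat.dvd_prime_pow hr.out).mp hdK
  have ha' : a ≠ s + 2 := by
    rintro rfl
    apply hKne
    apply Subgroup.eq_of_le_of_card_ge inf_le_left
    rw [hVc, hKa]
  have hLp : IsPGroup r ↥(zpowers u ⊔ R₂) := hVp.to_le (hL.trans inf_le_left)
  obtain ⟨b, hb⟩ := hLp.exists_card_eq
  have hlt : R₂ < zpowers u ⊔ R₂ := by
    refine lt_of_le_of_ne le_sup_right ?_
    intro he
    apply huR
    rw [he]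
    exact le_sup_left (a := zpowers u) (Subgroup.mem_zpowers u)
  have hcl := card_lt_of_lt' hlt
  rw [hs, hb] at hcl
  have hsb : s < b := (Nat.pow_lt_pow_iff_right hr.out.one_lt).mp hcl
  rw [hKa, hb]
  exact Nat.pow_le_pow_right hr.out.pos (by omega)

/-- An automorphism centralizing the centre and an element outside is trivial. -/
theorem ES.key (hES : ES r V R₁ R₂) (hVp : IsPGroup r V) {d u : G} (hdV : d ∈ normalizer (V : Set G))
    (hdo : (orderOf d).Coprime r) (hdR₂ : ∀ w ∈ R₂, d * w = w * d) (hu : u ∈ V) (huR : u ∉ R₂)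
    (hdu : d * u = u * d) : ∀ v ∈ V, d * v = v * d := by
  intro v hv
  have hdv' : d * v * d⁻¹ ∈ V := (mem_normalizer_iff.mp hdV v).mp hv
  set t := v⁻¹ * (d * v * d⁻¹) with ht
  have htV : t ∈ V := mul_mem (inv_mem hv) hdv'
  -- `t` commutes with `u`
  have hZ : ∀ {a b : G}, a ∈ V → b ∈ V → ⁅a, b⁆ ∈ R₂ := by
    intro a b ha hb
    have := Subgroup.commutator_mem_commutator ha hb
    rw [hES.derived] at this
    exact hES.Z_le2 this
  have hc1 : d * ⁅v, u⁆ * d⁻¹ = ⁅v, u⁆ := by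
    rw [hdR₂ _ (hZ hv hu)]
    group
  have hc2 : d * ⁅v, u⁆ * d⁻¹ = ⁅d * v * d⁻¹, u⁆ := by
    have e1 : d * u * d⁻¹ = u := by rw [hdu]; group
    calc d * ⁅v, u⁆ * d⁻¹ = ⁅d * v * d⁻¹, d * u * d⁻¹⁆ := by
          simp only [commutatorElement_def]; group
      _ = _ := by rw [e1]
  have hvt : d * v * d⁻¹ = v * t := by
    rw [ht]; group
  have hctu : ⁅t, u⁆ = 1 := by
    have hR : ⁅t, u⁆ ∈ R₂ := hZ htV hu
    have h3 : ⁅v * t, u⁆ = ⁅v, u⁆ := by
      rw [← hvt, ← hc2, hc1]
    have h4 : ⁅v * t, u⁆ = ⁅t, u⁆ * ⁅v, u⁆ := by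
      have e2 : v * (t * u * t⁻¹ * u⁻¹) * v⁻¹ = ⁅t, u⁆ := by
        rw [← commutatorElement_def]
        rw [← hES.R2_central hR hv]
        group
      calc ⁅v * t, u⁆ = (v * (t * u * t⁻¹ * u⁻¹) * v⁻¹) * ⁅v, u⁆ := by
            simp only [commutatorElement_def]; group
        _ = _ := by rw [e2]
    rw [h4] at h3
    exact mul_eq_right.mp h3
  have htC : t ∈ V ⊓ centralizer ({u} : Set G) := by
    refine ⟨htV, ?_⟩
    show t ∈ centralizer ({u} : Set G)
    rw [mem_centralizer_iff]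
    intro b hb
    rw [Set.mem_singleton_iff.mp hb]
    exact (commutatorElement_eq_one_iff_mul_comm.mp hctu).symm
  have htL := ES.centralizer_le hES hVp hu huR htC
  -- `d` fixes `t`
  have hLC : zpowers u ⊔ R₂ ≤ centralizer ({d} : Set G) := by
    refine sup_le ?_ ?_
    · rw [Subgroup.zpowers_le]
      show u ∈ centralizer ({d} : Set G)
      rw [mem_centralizer_iff]
      intro b hb
      rw [Set.mem_singleton_iff.mp hb]
      exact hdu
    · intro w hw
      show w ∈ centralizer ({d} : Set G)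
      rw [mem_centralizer_iff]
      intro b hb
      rw [Set.mem_singleton_iff.mp hb]
      exact hdR₂ w hw
  have hdt : d * t = t * d := mem_centralizer_iff.mp (hLC htL) d rfl
  -- iterate
  have hk : ∀ k : ℕ, d ^ k * v * (d ^ k)⁻¹ = v * t ^ k := by
    intro k
    induction k with
    | zero => simp
    | succ k ih =>
      have e1 : d ^ (k + 1) * v * (d ^ (k + 1))⁻¹ = d * (d ^ k * v * (d ^ k)⁻¹) * d⁻¹ := by
        rw [pow_succ']; group
      rw [e1, ih]
      have e2 : d * t ^ k * d⁻¹ = t ^ k := by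
        rw [((show Commute d t from hdt).pow_right k).eq]
        group
      calc d * (v * t ^ k) * d⁻¹ = (d * v * d⁻¹) * (d * t ^ k * d⁻¹) := by group
        _ = v * t * t ^ k := by rw [hvt, e2]
        _ = v * t ^ (k + 1) := by rw [pow_succ']; group
  have h5 := hk (orderOf d)
  rw [pow_orderOf_eq_one] at h5
  have h6 : t ^ orderOf d = 1 := by
    have : v = v * t ^ orderOf d := by
      rw [← h5]; group
    exact (mul_eq_left.mp this.symm)
  have h7 : t = 1 := Cfsg.Agent.Lib.BGM2.eq_one_of_isPGroup_of_pow hVp htV hdo h6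
  rw [ht, inv_mul_eq_one] at h7
  calc d * v = (d * v * d⁻¹) * d := by group
    _ = v * d := by rw [← h7]

end ESKey

section Final

variable {r : ℕ} [hr : Fact r.Prime] {M : Subgroup G} {x : G}

theorem gen_of_two (h : P2 p A) {d₁ d₂ : G} (hd₁ : d₁ ∈ A) (hd₂ : d₂ ∈ A) (hd₁1 : d₁ ≠ 1) (hd₂1 : d₂ ≠ 1)
    (hn : d₁ ∉ zpowers d₂) {y : G} (h1 : y ∈ centralizer ({d₁} : Set G))
    (h2 : y ∈ centralizer ({d₂} : Set G)) : y ∈ centralizer (A : Set G) := by
  classical
  have hc₁ : Nat.card (zpowers d₁) = p := by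
    rw [Nat.card_zpowers, orderOf_eq_prime (h.ea.2 d₁ hd₁) hd₁1]
  have hc₂ : Nat.card (zpowers d₂) = p := by
    rw [Nat.card_zpowers, orderOf_eq_prime (h.ea.2 d₂ hd₂) hd₂1]
  have hinf : zpowers d₁ ⊓ zpowers d₂ = ⊥ := by
    rw [eq_bot_iff]
    rintro w ⟨hw1, hw2⟩
    by_contra hw
    have hw' : w ≠ 1 := hw
    obtain ⟨k, hk⟩ := Cfsg.Agent.S1448.gen_of_card hc₁ hw1 hw' (Subgroup.mem_zpowers d₁)
    exact hn (hk ▸ pow_mem hw2 k)
  have hA1 : zpowers d₁ ≤ A := Subgroup.zpowers_le.mpr hd₁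
  have hA2 : zpowers d₂ ≤ A := Subgroup.zpowers_le.mpr hd₂
  have hnorm : zpowers d₁ ≤ normalizer (zpowers d₂ : Set G) := by
    intro a ha
    apply Cfsg.Agent.Lib.BGFit2.mem_normalizer_of_centralizes
    intro b hb
    exact Cfsg.Agent.Lib.BGFit2.conj_eq_of_comm (h.comm (hA1 ha) (hA2 hb))
  have hcard := card_sup_mul_card_inf hnorm
  rw [hinf, Subgroup.card_bot, mul_one, hc₁, hc₂] at hcard
  have heq : zpowers d₁ ⊔ zpowers d₂ = A := by
    apply Subgroup.eq_of_le_of_card_ge (sup_le hA1 hA2)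
    rw [hcard, h.card]
    exact le_of_eq (by ring)
  rw [mem_centralizer_iff]
  intro a ha
  rw [← heq] at ha
  have hle : zpowers d₁ ⊔ zpowers d₂ ≤ centralizer ({y} : Set G) := by
    refine sup_le ?_ ?_
    · rw [Subgroup.zpowers_le]
      rw [mem_centralizer_iff]
      intro b hb
      rw [Set.mem_singleton_iff.mp hb]
      exact (mem_centralizer_iff.mp h1 d₁ rfl).symm
    · rw [Subgroup.zpowers_le]
      rw [mem_centralizer_iff]
      intro b hb
      rw [Set.mem_singleton_iff.mp hb]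
      exact (mem_centralizer_iff.mp h2 d₂ rfl).symm
  exact (mem_centralizer_iff.mp (hle ha) y rfl).symm

section

variable (c : C3 p r A M x)
include c

theorem C3.abelian (hab : IsMulCommutative (VV r A M)) : False := by
  classical
  have h := c.h
  have hG := c.hG
  by_cases h5a : ∃ d ∈ A, d ≠ 1 ∧ VV r A M ≤ centralizer ({d} : Set G)
  · obtain ⟨d, hd, hd1, hVd⟩ := h5a
    exact c.lemmaB hd hd1 le_rfl hVd c.hAV c.hVA c.hV c.normal
      (fun N hNM _ hNp hAN => c.comm_le hNM hNp hAN)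
  push_neg at h5a
  have hVp := c.hVp
  have hVfix : VV r A M ⊓ centralizer (A : Set G) = ⊥ :=
    Cfsg.Agent.Lib.CoprimeIndexP.inf_centralizer_eq_bot_of_comm c.hAV (h.coprime c.hrp hVp).symm
      (fun a ha b hb => congrArg Subtype.val (hab.is_comm.comm ⟨a, ha⟩ ⟨b, hb⟩)) c.hVA.ge
  have hVnd := not_dvd_of_pgroup c.hrp hVp
  -- the first line
  obtain ⟨d₁, hd₁, hd₁1, hV₁ne⟩ : ∃ d ∈ A, d ≠ 1 ∧ VV r A M ⊓ centralizer ({d} : Set G) ≠ ⊥ := by
    by_contra hcon
    push_neg at hcon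
    apply c.hV
    rw [eq_bot_iff]
    exact h.le_of_lines hVnd c.hAV (fun d hd hd1 => (hcon d hd hd1).le)
  -- the second line
  obtain ⟨d₂, hd₂, hd₂1, hnle⟩ : ∃ d ∈ A, d ≠ 1 ∧
      ¬ VV r A M ⊓ centralizer ({d} : Set G) ≤ centralizer ({d₁} : Set G) := by
    by_contra hcon
    push_neg at hcon
    exact h5a d₁ hd₁ hd₁1 (h.le_of_lines hVnd c.hAV hcon)
  have hV₂ne : VV r A M ⊓ centralizer ({d₂} : Set G) ≠ ⊥ := by
    intro hb
    apply hnle
    rw [hb]
    exact bot_le
  have hgen : d₁ ∉ zpowers d₂ := by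
    intro hin
    apply hnle
    rintro y ⟨-, hy⟩
    have hy' : y ∈ centralizer ({d₂} : Set G) := hy
    obtain ⟨k, rfl⟩ := Subgroup.mem_zpowers_iff.mp hin
    rw [mem_centralizer_iff]
    intro b hb
    rw [Set.mem_singleton_iff.mp hb]
    exact (show Commute d₂ y from mem_centralizer_iff.mp hy' d₂ rfl).zpow_left k
  have hC12 : ∀ {y : G}, y ∈ VV r A M → y ∈ centralizer ({d₁} : Set G) →
      y ∈ centralizer ({d₂} : Set G) → y = 1 := by
    intro y hy h1 h2
    have h3 : y ∈ VV r A M ⊓ centralizer (A : Set G) :=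
      ⟨hy, gen_of_two h hd₁ hd₂ hd₁1 hd₂1 hgen h1 h2⟩
    rw [hVfix] at h3
    exact h3
  obtain ⟨R, hRmax, hVR⟩ := h.exists_ge hVp c.hAV
  have hRi := mem_invSubgroups_singleton.mp hRmax.1
  have hRp : IsPGroup r R := hRi.2.1
  have hAR : A ≤ normalizer (R : Set G) := hRi.2.2
  set N := R ⊓ normalizer (VV r A M : Set G) with hNdef
  have hNp : IsPGroup r N := hRp.to_le inf_le_left
  have hAN : A ≤ normalizer (N : Set G) := le_normalizer_inf hAR (c.hAV.trans le_normalizer)
  have hNM : N ≤ M := by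
    rw [← c.NV]
    exact inf_le_right
  -- no fixed points on `N`
  have hNfix : N ⊓ centralizer (A : Set G) = ⊥ := by
    by_contra hne
    have hp1 : IsPGroup r ↥(N ⊓ centralizer (A : Set G)) := hNp.to_le inf_le_left
    have hdv := Cfsg.Agent.Lib.BGUniq2.dvd_card_of_isPGroup hp1 hne
    obtain ⟨w, hw⟩ := exists_prime_orderOf_dvd_card' (G := ↥(N ⊓ centralizer (A : Set G))) r hdv
    have hw1 : ((w : ↥(N ⊓ centralizer (A : Set G))) : G) ≠ 1 := by
      intro he
      have h2 : w = 1 := Subtype.ext he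
      rw [h2, orderOf_one] at hw
      exact hr.out.one_lt.ne hw
    have hwr : (w : G) ^ r = 1 := by
      have := pow_orderOf_eq_one w
      rw [hw] at this
      exact congrArg Subtype.val this
    have hwN : (w : G) ∈ N := w.2.1
    have hwA : (w : G) ∈ centralizer (A : Set G) := w.2.2
    have hWp : IsPGroup r (zpowers (w : G)) := isPGroup_zpowers_of_pow hwr
    have hWN : ∀ d ∈ A, zpowers (w : G) ≤
        normalizer ((VV r A M ⊓ centralizer ({d} : Set G) : Subgroup G) : Set G) := by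
      intro d hd
      rw [Subgroup.zpowers_le]
      refine le_normalizer_inf (P := zpowers (w : G))
        (Subgroup.zpowers_le.mpr hwN.2) ?_ (Subgroup.mem_zpowers _)
      refine le_trans (Subgroup.zpowers_le.mpr (h.C_le_line hd hwA)) le_normalizer
    obtain ⟨u₁, hu₁, hu₁1, hu₁r, hu₁w⟩ := exists_fixed_pgroup (hVp.to_le inf_le_left) hV₁ne (hWN d₁ hd₁) hWp
    obtain ⟨u₂, hu₂, hu₂1, hu₂r, hu₂w⟩ := exists_fixed_pgroup (hVp.to_le inf_le_left) hV₂ne (hWN d₂ hd₂) hWp
    -- an `E_{r³}` of `M`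
    have hu₁V : u₁ ∈ VV r A M := hu₁.1
    have hu₂V : u₂ ∈ VV r A M := hu₂.1
    have hc₁ : Nat.card (zpowers u₁) = r := by
      rw [Nat.card_zpowers, orderOf_eq_prime hu₁r hu₁1]
    have hc₂ : Nat.card (zpowers u₂) = r := by
      rw [Nat.card_zpowers, orderOf_eq_prime hu₂r hu₂1]
    have hcw : Nat.card (zpowers (w : G)) = r := by
      rw [Nat.card_zpowers, orderOf_eq_prime hwr hw1]
    have hinf12 : zpowers u₁ ⊓ zpowers u₂ = ⊥ := by
      rw [eq_bot_iff]
      rintro t ⟨ht1, ht2⟩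
      by_contra ht
      have ht' : t ≠ 1 := ht
      obtain ⟨k, hk⟩ := Cfsg.Agent.S1448.gen_of_card hc₁ ht1 ht' (Subgroup.mem_zpowers u₁)
      have hu₁2 : u₁ ∈ zpowers u₂ := hk ▸ pow_mem ht2 k
      have h3 : u₁ ∈ centralizer ({d₂} : Set G) := (Subgroup.zpowers_le.mpr hu₂.2) hu₁2
      exact hu₁1 (hC12 hu₁V hu₁.2 h3)
    have hcommV : zpowers u₁ ≤ centralizer ((zpowers u₂ : Subgroup G) : Set G) := by
      rw [Subgroup.zpowers_le, centralizer_zpowers_eq, mem_centralizer_iff]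
      intro b hb
      rw [Set.mem_singleton_iff.mp hb]
      exact congrArg Subtype.val (hab.is_comm.comm (⟨u₂, hu₂V⟩ : VV r A M) ⟨u₁, hu₁V⟩)
    have hE₁e := ea_sup (ea_zpowers hu₁r) (ea_zpowers hu₂r) hcommV
    have hcard12 := card_sup_mul_card_inf
      (hcommV.trans (Cfsg.Agent.Lib.BGTrans.centralizer_le_normalizer _))
    rw [hinf12, Subgroup.card_bot, mul_one, hc₁, hc₂] at hcard12
    set E₁ := zpowers u₁ ⊔ zpowers u₂ with hE₁
    have hE₁V : E₁ ≤ VV r A M :=
      sup_le (Subgroup.zpowers_le.mpr hu₁V) (Subgroup.zpowers_le.mpr hu₂V)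
    have hwE₁ : zpowers (w : G) ≤ centralizer (E₁ : Set G) := by
      rw [Subgroup.zpowers_le, mem_centralizer_iff]
      intro t ht
      have hle : E₁ ≤ centralizer ({(w : G)} : Set G) := by
        refine sup_le ?_ ?_
        · rw [Subgroup.zpowers_le, mem_centralizer_iff]
          intro b hb
          rw [Set.mem_singleton_iff.mp hb]
          exact (hu₁w w (Subgroup.mem_zpowers _)).symm
        · rw [Subgroup.zpowers_le, mem_centralizer_iff]
          intro b hb
          rw [Set.mem_singleton_iff.mp hb]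
          exact (hu₂w w (Subgroup.mem_zpowers _)).symm
      exact (mem_centralizer_iff.mp (hle ht) w rfl).symm
    have hE := ea_sup (ea_zpowers hwr) hE₁e hwE₁
    have hinfw : zpowers (w : G) ⊓ E₁ = ⊥ := by
      rw [eq_bot_iff]
      rintro t ⟨ht1, ht2⟩
      by_contra ht
      have ht' : t ≠ 1 := ht
      obtain ⟨k, hk⟩ := Cfsg.Agent.S1448.gen_of_card hcw ht1 ht' (Subgroup.mem_zpowers (w : G))
      have hw2 : (w : G) ∈ VV r A M := hk ▸ pow_mem (hE₁V ht2) k
      have h3 : (w : G) ∈ VV r A M ⊓ centralizer (A : Set G) := ⟨hw2, hwA⟩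
      rw [hVfix] at h3
      exact hw1 h3
    have hcardE := card_sup_mul_card_inf
      (hwE₁.trans (Cfsg.Agent.Lib.BGTrans.centralizer_le_normalizer _))
    rw [hinfw, Subgroup.card_bot, mul_one, hcw, hcard12] at hcardE
    have hEM : zpowers (w : G) ⊔ E₁ ≤ M :=
      sup_le (Subgroup.zpowers_le.mpr (hNM hwN)) (hE₁V.trans c.hVM)
    have hrk := c.rank r hr.out
    rw [prankLE_iff] at hrk
    have h4 := hrk _ hEM hE.1 hE.2
    rw [hcardE] at h4
    have h5 : r * (r * r) = r ^ 3 := by ring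
    rw [h5] at h4
    have h6 := (Nat.pow_le_pow_iff_right hr.out.one_lt).mp h4
    omega
  have hNA := comm_self h c.hrp hNp hAN hNfix
  have hNV : N ≤ VV r A M := by
    rw [← hNA]
    exact c.comm_le hNM hNp hAN
  have hRV : R = VV r A M := by
    by_contra hne
    have hlt : VV r A M < R := lt_of_le_of_ne hVR (Ne.symm hne)
    obtain ⟨t, htR, htV, htN⟩ := Cfsg.Agent.Lib.BGUniq.exists_mem_normalizer_of_lt hRp hlt
    exact htV (hNV ⟨htR, htN⟩)
  have hxR : x ∈ normalizer (R : Set G) := by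
    apply norm_of_star h c.hrp hRmax hRp hAR (by rw [hRV]; exact hVfix) c.hx
    intro d hd hd1 hXne
    rw [hRV] at hXne
    refine c.data hd hd1 inf_le_left inf_le_right ?_ hXne
    apply comm_self h c.hrp (hVp.to_le inf_le_left) (line_le_N h c.hAV hd)
    rw [eq_bot_iff, ← hVfix]
    exact inf_le_inf_right _ inf_le_left
  rw [hRV, c.NV] at hxR
  exact c.hxM hxR

theorem C3.nonabelian (hnab : ¬ IsMulCommutative (VV r A M)) : False := by
  classical
  have h := c.h
  have hG := c.hG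
  have hVp := c.hVp
  have hVnd := not_dvd_of_pgroup c.hrp hVp
  have hcopA : (Nat.card A).Coprime r := by
    rw [h.card]
    exact Nat.Coprime.pow_left _ ((Nat.coprime_primes hp.out hr.out).mpr c.hrp.symm)
  have hAodd : Odd (Nat.card A) := by
    rw [h.card]
    exact (hp.out.odd_of_ne_two h.pne).pow
  have hVrk : PRankLE r 2 (VV r A M) :=
    Cfsg.Agent.Lib.BGUniq3.prankLE_of_le c.hVM (c.rank r hr.out)
  obtain ⟨-, hcase⟩ := Cfsg.Agent.S1448.result r c.r2 (VV r A M) A hVp c.hV hVrk c.hAV hcopA hAodd c.hVA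
  rcases hcase with hc | ⟨R₁, R₂, h1, h2, h3, h4, h5, h6, h7⟩
  · exact hnab hc
  have hES : ES r (VV r A M) R₁ R₂ := ⟨h1, h2, h3, h4, h5, h6, h7⟩
  have hcen := hES.center
  have hMR₂ : M ≤ normalizer (R₂ : Set G) := by
    rw [← hcen]
    exact le_normalizer_inf c.normal (c.normal.trans (normalizer_le_normalizer_centralizer _))
  have hAR₂ : A ≤ normalizer (R₂ : Set G) := c.hAM.trans hMR₂
  have hR₂p : IsPGroup r R₂ := hVp.to_le hES.le2
  have hR₂ne : R₂ ≠ ⊥ := by
    intro hb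
    have h8 : (⁅R₁, R₁⁆ : Subgroup G) ≤ ⊥ := hb ▸ hES.Z_le2
    have h9 := hES.card_Z
    rw [le_bot_iff.mp h8, Subgroup.card_bot] at h9
    exact hr.out.one_lt.ne h9
  have hN₁ : ∀ N : Subgroup G, N ≤ M → N ≤ centralizer ({(1 : G)} : Set G) → IsPGroup r N →
      A ≤ normalizer (N : Set G) → ⁅N, A⁆ ≤ VV r A M :=
    fun N hNM _ hNp hAN => c.comm_le hNM hNp hAN
  -- the case of a centralized `V`
  have hfin : ∀ {d u : G}, d ∈ A → d ≠ 1 → R₂ ≤ centralizer ({d} : Set G) → u ∈ VV r A M → u ∉ R₂ →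
      u ∈ centralizer ({d} : Set G) → False := by
    intro d u hd hd1 hdR hu huR hud
    have hVd : VV r A M ≤ centralizer ({d} : Set G) := by
      intro v hv
      rw [mem_centralizer_iff]
      intro b hb
      rw [Set.mem_singleton_iff.mp hb]
      refine ES.key hES hVp (c.hAV hd) (order_coprime h c.hrp hd) ?_ hu huR ?_ v hv
      · intro w hw
        exact mem_centralizer_iff.mp (hdR hw) d rfl
      · exact mem_centralizer_iff.mp hud d rfl
    exact c.lemmaB hd hd1 le_rfl hVd c.hAV c.hVA c.hV c.normal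
      (fun N hNM _ hNp hAN => c.comm_le hNM hNp hAN)
  by_cases hAW : A ≤ centralizer (R₂ : Set G)
  · obtain ⟨d, hd, hd1, hnle⟩ : ∃ d ∈ A, d ≠ 1 ∧ ¬ VV r A M ⊓ centralizer ({d} : Set G) ≤ R₂ := by
      by_contra hcon
      push_neg at hcon
      have h8 := h.le_of_lines hVnd c.hAV hcon
      apply hES.nonab
      refine ⟨⟨?_⟩⟩
      rintro ⟨a, ha⟩ ⟨b, hb⟩
      apply Subtype.ext
      exact hES.comm2 (h8 (hES.le1 ha)) (h8 (hES.le1 hb))
    obtain ⟨u, hu, huR⟩ := SetLike.not_le_iff_exists.mp hnle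
    have hdR : R₂ ≤ centralizer ({d} : Set G) := by
      intro w hw
      rw [mem_centralizer_iff]
      intro b hb
      rw [Set.mem_singleton_iff.mp hb]
      exact (mem_centralizer_iff.mp (hAW hd) w hw).symm
    exact hfin hd hd1 hdR hu.1 huR hu.2
  · -- `A` acts nontrivially on the cyclic group `R₂`
    obtain ⟨a₀, ha₀, ha₀n⟩ := SetLike.not_le_iff_exists.mp hAW
    haveI hR₂c : IsCyclic R₂ := hES.cyc
    have hR₂A : ⁅R₂, A⁆ = R₂ := by
      apply le_antisymm (commutator_le_of_le_normalizer hAR₂)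
      intro w hw
      obtain ⟨z, hz, hzw⟩ := Cfsg.Agent.Lib.BGM2.cyclic_coprime_surj hR₂p hR₂c (hAR₂ ha₀)
        (order_coprime h c.hrp ha₀) ha₀n w hw
      have h8 : w = ⁅z, a₀⁆⁻¹ := by
        rw [hzw, commutatorElement_def]
        group
      rw [h8]
      exact inv_mem (Subgroup.commutator_mem_commutator hz ha₀)
    obtain ⟨d, hd, hd1, hdne⟩ : ∃ d ∈ A, d ≠ 1 ∧ R₂ ⊓ centralizer ({d} : Set G) ≠ ⊥ := by
      by_contra hcon
      push_neg at hcon
      apply hR₂ne
      rw [eq_bot_iff]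
      exact h.le_of_lines (not_dvd_of_pgroup c.hrp hR₂p) hAR₂ (fun d hd hd1 => (hcon d hd hd1).le)
    have hdC : d ∈ centralizer (R₂ : Set G) :=
      cyclic_fix hR₂p hR₂c (hAR₂ hd) (order_coprime h c.hrp hd) hdne
    have hdR : R₂ ≤ centralizer ({d} : Set G) := by
      intro w hw
      rw [mem_centralizer_iff]
      intro b hb
      rw [Set.mem_singleton_iff.mp hb]
      exact (mem_centralizer_iff.mp hdC w hw).symm
    by_cases hu : ∃ u ∈ VV r A M, u ∉ R₂ ∧ u ∈ centralizer ({d} : Set G)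
    · obtain ⟨u, hu1, hu2, hu3⟩ := hu
      exact hfin hd hd1 hdR hu1 hu2 hu3
    · push_neg at hu
      refine c.lemmaB hd hd1 hES.le2 hdR hAR₂ hR₂A hR₂ne hMR₂ ?_
      intro N hNM hNd hNp hAN
      intro y hy
      by_contra hyR
      have hy1 : y ∈ VV r A M := c.comm_le hNM hNp hAN hy
      have hy2 : y ∈ centralizer ({d} : Set G) := hNd (commutator_le_of_le_normalizer hAN hy)
      exact hu y hy1 hyR hy2

end

end Final

/-- `M_α = 1` and `p ∉ σ(M)`. -/
theorem case_III (h : P2 p A) {M : Subgroup G} (hM : IsCoatom M) (hAM : A ≤ M)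
    (hα : alphaCore M = ⊥) (hpσ : p ∉ sigma M) : centralizer (A : Set G) ≤ M := by
  classical
  have hG := h.hG
  by_contra hcon
  obtain ⟨x, hx, hxM⟩ := SetLike.not_le_iff_exists.mp hcon
  have hnD := nil_D hG hM hα
  have hF : ¬ ∀ (r : ℕ) [Fact r.Prime], r ≠ p → pCoreOf r (⁅M, M⁆ : Subgroup G) ≤ centralizer (A : Set G) :=
    fun hF => hcon (F6 h hM hAM hnD hF)
  push_neg at hF
  obtain ⟨r, hr, hrp, hnle⟩ := hF
  have hV : (⁅pCoreOf r (⁅M, M⁆ : Subgroup G), A⁆ : Subgroup G) ≠ ⊥ := by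
    intro hb
    apply hnle
    intro z hz
    rw [mem_centralizer_iff]
    intro a ha
    have h1 : ⁅z, a⁆ ∈ (⁅pCoreOf r (⁅M, M⁆ : Subgroup G), A⁆ : Subgroup G) :=
      Subgroup.commutator_mem_commutator hz ha
    rw [hb, Subgroup.mem_bot, commutatorElement_eq_one_iff_mul_comm] at h1
    exact h1.symm
  have c : C3 p r A M x := ⟨h, hM, hAM, hα, hpσ, hx, hxM, hrp, hV⟩
  by_cases hab : IsMulCommutative (VV r A M)
  · exact C3.abelian c hab
  · exact C3.nonabelian c hab

/-- **S1416(a)**: the centralizer of an elementary abelian subgroup of order `p ^ 2` of a maximal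
subgroup `M` lies in `M`. -/
theorem cent_le (hG : IsMinSimpleOddOrder G) {M : Subgroup G} (hM : IsCoatom M) (hAM : A ≤ M)
    (hAe : IsElementaryAbelian p A) (hAc : Nat.card A = p ^ 2) :
    centralizer (A : Set G) ≤ M := by
  classical
  have hA1 : A ≠ ⊥ := by
    intro hb
    rw [hb, Subgroup.card_bot] at hAc
    have h3 : 1 < p ^ 2 := Nat.one_lt_pow (by norm_num) hp.out.one_lt
    omega
  have hAt : A ≠ ⊤ := IsMin.isPGroup_ne_top hG (isPGroup_of_ea hAe)
  by_cases hr : RankLE 2 ↥(centralizer (A : Set G))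
  · have h := P2.mk' hG hAe hAc hr
    by_cases hpα : p ∈ alpha M
    · -- `p ∈ α(M)`
      obtain ⟨T, hT, hAT⟩ := exists_isSylowIn_ge p hAM h.pg
      have hU := unique_of_alpha hG hpα hT
      have hTp : IsPGroup p T := hT.2.1
      have hTne : T ≠ ⊥ := sylow_ne_bot_alpha hpα hT
      obtain ⟨-, -, hZne⟩ := center_facts hTp hTne le_normalizer
      have hZp : IsPGroup p ↥(T ⊓ centralizer (T : Set G)) := hTp.to_le inf_le_left
      have hd := Cfsg.Agent.Lib.BGUniq2.dvd_card_of_isPGroup hZp hZne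
      obtain ⟨z, hz⟩ := exists_prime_orderOf_dvd_card' (G := ↥(T ⊓ centralizer (T : Set G))) p hd
      have hz1 : ((z : ↥(T ⊓ centralizer (T : Set G))) : G) ≠ 1 := by
        intro he
        have h2 : z = 1 := Subtype.ext he
        rw [h2, orderOf_one] at hz
        exact hp.out.one_lt.ne hz
      have hzp : (z : G) ^ p = 1 := by
        have := pow_orderOf_eq_one z
        rw [hz] at this
        exact congrArg Subtype.val this
      have hzT : (z : G) ∈ centralizer (T : Set G) := z.2.2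
      have hzC : (z : G) ∈ centralizer (A : Set G) := Subgroup.centralizer_le hAT hzT
      have hzA : (z : G) ∈ A := h.f2 _ hzC hzp
      have hTz : T ≤ centralizer ({(z : G)} : Set G) := by
        intro t ht
        rw [mem_centralizer_iff]
        intro b hb
        rw [Set.mem_singleton_iff.mp hb]
        exact (mem_centralizer_iff.mp hzT t ht).symm
      have h1 := le_of_unique hU hM hT.1 hTz (IsMin.centralizer_singleton_ne_top hG hz1)
      exact (h.C_le_line hzA).trans h1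
    · by_cases hα : alphaCore M = ⊥
      · by_cases hpσ : p ∈ sigma M
        · exact case_II h hM hAM hα hpσ
        · exact case_III h hM hAM hα hpσ
      · exact case_I h hM hAM hpα hα
  · have hU : InUniqueMaximal A := by
      apply Cfsg.Agent.S1403.result hG A hAt
      · apply Cfsg.Agent.Lib.BGUniq3.not_rankLE_of_ea hp.out hAe.1 hAe.2
        rw [hAc, pow_one]
        exact lt_self_pow₀ hp.out.one_lt (by norm_num)
      · exact Or.inr hr
    exact le_of_unique hU hM hAM (le_centralizer_of_comm le_rfl hAe.1)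
      (Cfsg.Agent.Lib.BGUniq2.centralizer_ne_top hG hA1 hAt)

end Cfsg.Agent.Lib.BGP2F
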