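import Mathlib
import Cfsg.Prelude.Def_OddOrderLocal
import Cfsg.Prelude.Def_Amalgam
import Cfsg.Agent.Lib.RankTwoRep
import Cfsg.Agent.Lib.GL2OddDer
import Cfsg.Agent.Lib.BGUT2
import Cfsg.Agent.Lib.CoprimeHyper
import Cfsg.Agent.Lib.Frat
import Cfsg.Agent.Lib.CoprimeInv
import Cfsg.Agent.Lib.PCore
import Cfsg.Agent.Lib.PLengthOne
import Cfsg.Agent.Lib.PLengthSeries
import Cfsg.Agent.S0058
import Cfsg.Agent.Lib.BGUniq
import Cfsg.Agent.Lib.BGTrans
import Cfsg.Agent.Lib.Glauberman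

/-!
# Tools for the rank two analysis of Bender-Glauberman section 12: generic group theory.

`comm_of_mem_derived`: the non-faithful form of the action on a `p`-group of rank at most two.
`frob_core`: generation in Frobenius-type actions.
`comm_of_pCores`: a coprime action trivial on the Fitting subgroup is trivial.
-/

set_option autoImplicit false
set_option linter.unusedSectionVars false
set_option linter.unusedVariables false
set_option linter.style.haveILetI false

namespace Cfsg.Agent.Lib.BGTau1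

open Cfsg Subgroup Cfsg.Agent.Lib.BGUT1 Cfsg.Agent.Lib.BGUT2 Cfsg.Agent.Lib.Frat
  Cfsg.Agent.Lib.CoprimeInv
open scoped commutatorElement

universe u

variable {G : Type u} [Group G] [Finite G]

/-- The non-faithful form of the action on a `p`-group of rank at most two: an element of the
derived group of an odd solvable group acting on `R` of order prime to `r` centralizes `R`. -/
theorem comm_of_mem_derived {r : ℕ} [hr' : Fact r.Prime] (hr : r ≠ 2) {R B : Subgroup G}
    (hR : IsPGroup r R) (hrk : PRankLE r 2 R) (hB : B ≤ normalizer (R : Set G))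
    (hBs : Group.IsSolvable B) (hodd : Odd (Nat.card B)) {x : G} (hx : x ∈ ⁅B, B⁆)
    (hc : (orderOf x).Coprime r) : x ∈ centralizer (R : Set G) := by
  obtain ⟨ψ, hψ⟩ := Cfsg.Agent.Lib.RankTwoRep.exists_rep hr hR hrk
  let φ : B →* MulAut R := R.normalizerMonoidHom.comp (Subgroup.inclusion hB)
  let ρ : B →* Matrix (Fin 2) (Fin 2) (ZMod r) := ψ.comp φ
  let Q := B ⧸ ρ.ker
  have hlift : ∃ ρq : Q →* Matrix (Fin 2) (Fin 2) (ZMod r), Function.Injective ρq := by
    refine ⟨QuotientGroup.lift ρ.ker ρ (fun x hx => hx), ?_⟩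
    intro a b hab
    induction a using QuotientGroup.induction_on with
    | H a =>
    induction b using QuotientGroup.induction_on with
    | H b =>
    have h1 : ρ a = ρ b := hab
    apply QuotientGroup.eq.mpr
    show ρ (a⁻¹ * b) = 1
    rw [map_mul, ← h1, ← map_mul, inv_mul_cancel, map_one]
  obtain ⟨ρq, hinj⟩ := hlift
  have hQodd : Odd (Nat.card Q) := Odd.of_dvd_nat hodd (Subgroup.index_dvd_card ρ.ker)
  haveI hQs : Group.IsSolvable Q := Group.isSolvable_of_surjective (QuotientGroup.mk'_surjective ρ.ker)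
  have h1 : IsPGroup r (commutator Q) :=
    Cfsg.Agent.Lib.GL2OddDer.isPGroup_commutator hr hinj hQodd
  -- `x` as an element of the derived group of `B`
  have hxB : x ∈ B := (Subgroup.commutator_le.mpr (fun a ha b hb =>
    B.mul_mem (B.mul_mem (B.mul_mem ha hb) (B.inv_mem ha)) (B.inv_mem hb))) hx
  have hxc : (⟨x, hxB⟩ : B) ∈ commutator B := by
    have h2 : x ∈ (commutator B).map B.subtype := by
      rw [Subgroup.map_subtype_commutator]
      exact hx
    obtain ⟨y, hy, hyx⟩ := h2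
    have : y = ⟨x, hxB⟩ := Subtype.ext hyx
    rwa [← this]
  have hmk : ((⟨x, hxB⟩ : B) : Q) ∈ commutator Q := by
    have h3 : (commutator B).map (QuotientGroup.mk' ρ.ker) ≤ commutator Q := by
      rw [_root_.commutator_def, _root_.commutator_def, Subgroup.map_commutator]
      exact Subgroup.commutator_mono le_top le_top
    exact h3 ⟨_, hxc, rfl⟩
  have horder : orderOf ((⟨x, hxB⟩ : B) : Q) ∣ orderOf x := by
    apply orderOf_dvd_of_pow_eq_one
    rw [← QuotientGroup.mk_pow]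
    have : (⟨x, hxB⟩ : B) ^ orderOf x = 1 := by
      apply Subtype.ext
      simp [pow_orderOf_eq_one]
    rw [this]
    rfl
  have hone : ((⟨x, hxB⟩ : B) : Q) = 1 := by
    have h4 : IsPGroup r (zpowers (⟨((⟨x, hxB⟩ : B) : Q), hmk⟩ : commutator Q)) := IsPGroup.to_subgroup h1 _
    obtain ⟨k, hk⟩ := IsPGroup.iff_card.mp h4
    rw [Nat.card_zpowers, Subgroup.orderOf_mk] at hk
    rw [← orderOf_eq_one_iff]
    have h5 : Nat.Coprime (orderOf ((⟨x, hxB⟩ : B) : Q)) r := Nat.Coprime.coprime_dvd_left horder hc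
    rw [hk] at h5 ⊢
    rcases k with _ | k
    · simp
    · exfalso
      have := Nat.Coprime.coprime_dvd_left (dvd_pow_self r (Nat.succ_ne_zero k)) h5
      rw [Nat.coprime_self] at this
      exact hr'.out.one_lt.ne' this
  have hker : ρ ⟨x, hxB⟩ = 1 := (QuotientGroup.eq_one_iff _).mp hone
  have hφord : (orderOf (φ ⟨x, hxB⟩)).Coprime r := by
    have h6 : orderOf (φ ⟨x, hxB⟩) ∣ orderOf x := by
      apply orderOf_dvd_of_pow_eq_one
      rw [← map_pow]
      have : (⟨x, hxB⟩ : B) ^ orderOf x = 1 := by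
        apply Subtype.ext
        simp [pow_orderOf_eq_one]
      rw [this, map_one]
    exact Nat.Coprime.coprime_dvd_left h6 hc
  have h7 : φ ⟨x, hxB⟩ = 1 := hψ _ hker hφord
  rw [Subgroup.mem_centralizer_iff]
  intro s hs
  have h8 := congrArg (fun f : MulAut R => ((f ⟨s, hs⟩ : R) : G)) h7
  have h9 : x * s * x⁻¹ = s := h8
  calc s * x = x * s * x⁻¹ * x := by rw [h9]
    _ = x * s := by group

/-- `T5`: a `q`-group `D` with `D = [D, B₀]`, where `D` and `B₀` normalize the `r`-group `R` of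
rank at most two, centralizes `R`. -/
theorem centralizes_of_le_comm {q r : ℕ} [Fact q.Prime] [Fact r.Prime] (hr : r ≠ 2) (hqr : q ≠ r)
    {R D B₀ : Subgroup G} (hR : IsPGroup r R) (hrk : PRankLE r 2 R)
    (hD : IsPGroup q D) (hDn : D ≤ normalizer (R : Set G)) (hBn : B₀ ≤ normalizer (R : Set G))
    (hs : Group.IsSolvable ↥(D ⊔ B₀)) (hodd : Odd (Nat.card G)) (hDB : D ≤ ⁅D, B₀⁆) :
    D ≤ centralizer (R : Set G) := by
  intro x hx
  have hB : D ⊔ B₀ ≤ normalizer (R : Set G) := sup_le hDn hBn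
  have hoddB : Odd (Nat.card ↥(D ⊔ B₀)) := Odd.of_dvd_nat hodd (Subgroup.card_subgroup_dvd_card _)
  have hxc : x ∈ ⁅D ⊔ B₀, D ⊔ B₀⁆ :=
    (Subgroup.commutator_mono le_sup_left le_sup_right) (hDB hx)
  have hord : (orderOf x).Coprime r := by
    have h1 : orderOf x ∣ Nat.card D := by
      have := Subgroup.orderOf_dvd_natCard D hx
      exact this
    obtain ⟨k, hk⟩ := IsPGroup.iff_card.mp hD
    rw [hk] at h1
    refine Nat.Coprime.coprime_dvd_left h1 (Nat.Coprime.pow_left _ ?_)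
    exact (Nat.coprime_primes Fact.out Fact.out).mpr hqr
  exact comm_of_mem_derived hr hR hrk hB hs hoddB hxc hord

/-- In a cyclic subgroup, two elements of the same prime order generate the same subgroup. -/
theorem mem_zpowers_of_cyclic {Y : Subgroup G} (hY : IsCyclic Y) {q : ℕ} (hq : q.Prime) {x d : G}
    (hx : x ∈ Y) (hd : d ∈ Y) (hxq : orderOf x = q) (hdq : d ^ q = 1) : d ∈ zpowers x := by
  classical
  cases nonempty_fintype Y
  let x' : Y := ⟨x, hx⟩
  let d' : Y := ⟨d, hd⟩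
  have hx'q : orderOf x' = q := by rw [Subgroup.orderOf_mk]; exact hxq
  have hcard : (Finset.univ.filter (fun a : Y => a ^ q = 1)).card ≤ q :=
    IsCyclic.card_pow_eq_one_le hq.pos
  have hsub : (zpowers x' : Set Y).toFinset ⊆ Finset.univ.filter (fun a : Y => a ^ q = 1) := by
    intro a ha
    simp only [Set.mem_toFinset, SetLike.mem_coe] at ha
    simp only [Finset.mem_filter, Finset.mem_univ, true_and]
    obtain ⟨k, rfl⟩ := mem_zpowers_iff.mp ha
    rw [← zpow_natCast, ← zpow_mul, mul_comm, zpow_mul, zpow_natCast, ← hx'q, pow_orderOf_eq_one, one_zpow]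
  have hcardz : (zpowers x' : Set Y).toFinset.card = q := by
    rw [Set.toFinset_card, ← Nat.card_eq_fintype_card]
    show Nat.card (zpowers x') = q
    rw [Nat.card_zpowers, hx'q]
  have heq : (zpowers x' : Set Y).toFinset = Finset.univ.filter (fun a : Y => a ^ q = 1) :=
    Finset.eq_of_subset_of_card_le hsub (by rw [hcardz]; exact hcard)
  have hd'f : d' ∈ Finset.univ.filter (fun a : Y => a ^ q = 1) := by
    simp only [Finset.mem_filter, Finset.mem_univ, true_and]
    apply Subtype.ext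
    simpa [d'] using hdq
  rw [← heq] at hd'f
  simp only [Set.mem_toFinset, SetLike.mem_coe] at hd'f
  obtain ⟨k, hk⟩ := mem_zpowers_iff.mp hd'f
  have := congrArg Subtype.val hk
  rw [mem_zpowers_iff]
  exact ⟨k, by simpa [x', d'] using this⟩

/-- `C_K(F) ≤ F` form: trivial action on all the `pCore`s of a solvable group is trivial. -/
theorem comm_of_pCores {K₁ T : Subgroup G} (hs : Group.IsSolvable K₁)
    (hT : T ≤ normalizer (K₁ : Set G)) (hc : (Nat.card K₁).Coprime (Nat.card T))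
    (h : ∀ (s : ℕ) [Fact s.Prime], T ≤ centralizer ((pCoreOf s K₁ : Subgroup G) : Set G)) :
    T ≤ centralizer (K₁ : Set G) := by
  classical
  haveI := hs
  intro τ hτ
  -- `τ` centralizes the Fitting subgroup
  have hF : ∀ f : K₁, f ∈ fittingSubgroup K₁ → τ * (f : G) = (f : G) * τ := by
    have hle : fittingSubgroup K₁ ≤ (centralizer ({τ} : Set G)).subgroupOf K₁ := by
      rw [Cfsg.Agent.Lib.PCore.fittingSubgroup_eq_iSup_pCore]
      refine iSup_le fun s => ?_
      haveI : Fact (s : ℕ).Prime := ⟨s.2⟩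
      intro y hy
      have h1 := h s hτ
      rw [Subgroup.mem_subgroupOf, Subgroup.mem_centralizer_singleton_iff]
      have h2 : (y : G) ∈ pCoreOf (s : ℕ) K₁ := ⟨y, hy, rfl⟩
      exact (Subgroup.mem_centralizer_iff.mp h1 _ h2)
    intro f hf
    have := hle hf
    rw [Subgroup.mem_subgroupOf, Subgroup.mem_centralizer_singleton_iff] at this
    exact this.symm
  have hτn := hT hτ
  have hconj : ∀ y : K₁, τ * (y : G) * τ⁻¹ ∈ K₁ := fun y => (mem_normalizer_iff.mp hτn _).mp y.2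
  -- the deviation lies in the Fitting subgroup
  let g : K₁ → K₁ := fun y => y⁻¹ * ⟨τ * (y : G) * τ⁻¹, hconj y⟩
  have hgF : ∀ y, g y ∈ fittingSubgroup K₁ := by
    intro y
    apply Cfsg.Agent.Lib.PCore.centralizer_fittingSubgroup_le
    rw [Subgroup.mem_centralizer_iff]
    intro f hf
    apply Subtype.ext
    have hf' : f ∈ fittingSubgroup K₁ := hf
    -- the commutator `y f y⁻¹ f⁻¹` lies in the Fitting subgroup
    have h1 : y * f * y⁻¹ ∈ fittingSubgroup K₁ :=
      (inferInstance : (fittingSubgroup K₁).Normal).conj_mem f hf y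
    have h2 := hF _ h1
    have h3 := hF _ hf'
    simp only [Subgroup.coe_mul, Subgroup.coe_inv] at h2
    show (f : G) * ((y : G)⁻¹ * (τ * (y : G) * τ⁻¹)) = ((y : G)⁻¹ * (τ * (y : G) * τ⁻¹)) * (f : G)
    have e1 : τ * (f : G) * τ⁻¹ = f := by rw [h3]; group
    have e2 : τ * ((y : G) * (f : G) * (y : G)⁻¹) * τ⁻¹ = (y : G) * (f : G) * (y : G)⁻¹ := by
      rw [h2]; group
    have e3 : (τ * (y : G) * τ⁻¹) * (f : G) * (τ * (y : G) * τ⁻¹)⁻¹ = (y : G) * (f : G) * (y : G)⁻¹ := by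
      calc (τ * (y : G) * τ⁻¹) * (f : G) * (τ * (y : G) * τ⁻¹)⁻¹
          = (τ * (y : G) * τ⁻¹) * (τ * (f : G) * τ⁻¹) * (τ * (y : G) * τ⁻¹)⁻¹ := by rw [e1]
        _ = τ * ((y : G) * (f : G) * (y : G)⁻¹) * τ⁻¹ := by group
        _ = _ := e2
    have e4 : (f : G) * ((y : G)⁻¹ * (τ * (y : G) * τ⁻¹)) = (y : G)⁻¹ * (((y : G) * (f : G) * (y : G)⁻¹) * (τ * (y : G) * τ⁻¹)) := by group
    rw [e4, ← e3]
    group
  -- iterate
  have hiter : ∀ (n : ℕ) (y : K₁), τ ^ n * (y : G) * (τ ^ n)⁻¹ = (y : G) * ((g y : K₁) : G) ^ n := by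
    intro n y
    induction n with
    | zero => simp
    | succ n ih =>
      have h1 : τ * ((g y : K₁) : G) * τ⁻¹ = ((g y : K₁) : G) := by
        rw [hF _ (hgF y)]; group
      have h1n : τ * (((g y : K₁) : G) ^ n) * τ⁻¹ = ((g y : K₁) : G) ^ n := by
        rw [← conj_pow, h1]
      have h2 : τ * (y : G) * τ⁻¹ = (y : G) * ((g y : K₁) : G) := by
        show τ * (y : G) * τ⁻¹ = (y : G) * (((y : G))⁻¹ * (τ * (y : G) * τ⁻¹))
        group
      calc τ ^ (n + 1) * (y : G) * (τ ^ (n + 1))⁻¹ = τ * (τ ^ n * (y : G) * (τ ^ n)⁻¹) * τ⁻¹ := by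
            rw [pow_succ']; group
        _ = τ * ((y : G) * ((g y : K₁) : G) ^ n) * τ⁻¹ := by rw [ih]
        _ = (τ * (y : G) * τ⁻¹) * (τ * (((g y : K₁) : G) ^ n) * τ⁻¹) := by group
        _ = (y : G) * ((g y : K₁) : G) * ((g y : K₁) : G) ^ n := by rw [h2, h1n]
        _ = _ := by rw [pow_succ']; group
  rw [Subgroup.mem_centralizer_iff]
  intro y hy
  have hord : orderOf τ ∣ Nat.card T := Subgroup.orderOf_dvd_natCard T hτ
  have h1 := hiter (orderOf τ) ⟨y, hy⟩
  rw [pow_orderOf_eq_one] at h1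
  simp only [one_mul, inv_one, mul_one] at h1
  have h2 : ((g ⟨y, hy⟩ : K₁) : G) ^ orderOf τ = 1 := by
    have := mul_left_cancel (a := y) (b := 1) (c := ((g ⟨y, hy⟩ : K₁) : G) ^ orderOf τ) (by simpa using h1)
    exact this.symm
  have h3 : (g ⟨y, hy⟩ : K₁) ^ orderOf τ = 1 := Subtype.ext (by simpa using h2)
  have h4 : orderOf (g ⟨y, hy⟩ : K₁) ∣ Nat.card K₁ := orderOf_dvd_natCard _
  have h5 : orderOf (g ⟨y, hy⟩ : K₁) ∣ Nat.card T := (orderOf_dvd_of_pow_eq_one h3).trans hord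
  have h6 := Nat.eq_one_of_dvd_coprimes hc h4 h5
  have h7 : g ⟨y, hy⟩ = 1 := orderOf_eq_one_iff.mp h6
  have h8 : y⁻¹ * (τ * y * τ⁻¹) = 1 := congrArg Subtype.val h7
  have h9 : τ * y * τ⁻¹ = y := by
    have := mul_eq_one_iff_eq_inv'.mp h8
    simpa using this
  calc y * τ = (τ * y * τ⁻¹) * τ := by rw [h9]
    _ = τ * y := by group

/-! ## Generation in Frobenius-type actions -/

section frob

variable {r : ℕ} [hr : Fact r.Prime]

/-- A fixed point lifting statement for the conjugation action on a coset. -/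
theorem fixed_lift {q : ℕ} [hq : Fact q.Prime] {R R₁ B : Subgroup G} (hR : IsPGroup r R₁)
    (hqr : q ≠ r) (hB : IsPGroup q B) (hBn : B ≤ normalizer (R₁ : Set G)) {w : G}
    (hw : ∀ b ∈ B, w⁻¹ * (b * w * b⁻¹) ∈ R₁) :
    ∃ u ∈ R₁, ∀ b ∈ B, b * (w * u) * b⁻¹ = w * u := by
  refine Cfsg.Agent.Lib.CoprimeHyper.exists_fixed_in_coset (p := q) B R₁ hB ?_ ?_ w hw
  · intro h
    obtain ⟨k, hk⟩ := IsPGroup.iff_card.mp hR
    rw [hk] at h
    exact hqr ((Nat.prime_dvd_prime_iff_eq hq.out hr.out).mp (hq.out.dvd_of_dvd_pow h))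
  · intro b hb k hk
    exact (mem_normalizer_iff.mp (hBn hb) k).mp hk

/-- The stabilizer of a subgroup of `R` in the normalizer of `R`. -/
def stabW {R : Subgroup G} (W : Subgroup R) : Subgroup G :=
  normalizer (R : Set G) ⊓ normalizer ((W.map R.subtype : Subgroup G) : Set G)

theorem stabW_conj_mem {R : Subgroup G} {W : Subgroup R} (g : stabW W) {y : R} (hy : y ∈ W) :
    (R.normalizerMonoidHom ⟨g, g.2.1⟩) y ∈ W := by
  have h1 : (y : G) ∈ W.map R.subtype := ⟨y, hy, rfl⟩
  have h2 := (mem_normalizer_iff.mp g.2.2 _).mp h1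
  obtain ⟨z, hz, hzy⟩ := h2
  have : z = (R.normalizerMonoidHom ⟨g, g.2.1⟩) y := Subtype.ext hzy
  rwa [← this]

/-- The action of the stabilizer on the quotient. -/
noncomputable def psiW {R : Subgroup G} (W : Subgroup R) [W.Normal] : stabW W →* MulAut (R ⧸ W) :=
  MonoidHom.mk' (fun g => quotA (R.normalizerMonoidHom ⟨g, g.2.1⟩) W (fun _ hy => stabW_conj_mem g hy)) (by
    intro x y
    ext v
    obtain ⟨u, rfl⟩ := QuotientGroup.mk_surjective v
    rw [MulAut.mul_apply, quotA_mk, quotA_mk, quotA_mk]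
    congr 1
    apply Subtype.ext
    show ((x * y : stabW W) : G) * (u : G) * ((x * y : stabW W) : G)⁻¹ = (x : G) * ((y : G) * u * (y : G)⁻¹) * (x : G)⁻¹
    simp only [Subgroup.coe_mul]
    group)

theorem psiW_mk {R : Subgroup G} (W : Subgroup R) [W.Normal] (g : stabW W) (u : R) :
    psiW W g (u : R ⧸ W) = ((R.normalizerMonoidHom ⟨g, g.2.1⟩ u : R) : R ⧸ W) := rfl

/-- **Generation in a Frobenius-type action.** -/
theorem frob_core {q s : ℕ} [hq : Fact q.Prime] [hs : Fact s.Prime] {R R₀ P Y : Subgroup G}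
    (hR : IsPGroup r R) (hqr : q ≠ r) (hsr : s ≠ r) (hP : IsPGroup q P) (hY : IsPGroup s Y)
    (hPn : P ≤ normalizer (R : Set G)) (hYn : Y ≤ normalizer (R : Set G))
    (hPn₀ : P ≤ normalizer (R₀ : Set G)) (hYn₀ : Y ≤ normalizer (R₀ : Set G)) (hR₀ : R₀ ≤ R)
    (hYP : Y ≤ normalizer (P : Set G))
    (hfpf : ∀ c ∈ Y, c ≠ 1 → ∀ x ∈ P, x * c = c * x → x = 1)
    (h1 : R ⊓ centralizer (P : Set G) ≤ R₀) (h2 : R ⊓ centralizer (Y : Set G) ≤ R₀) : R₀ = R := by
  classical
  haveI : IsPGroup r R := hR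
  -- the section
  let W : Subgroup R := R₀.subgroupOf R ⊔ frattini R
  have hWf : frattini R ≤ W := le_sup_right
  have hWc : commutator R ≤ W := (commutator_le_frattini hR).trans hWf
  haveI hWn : W.Normal := normal_of_commutator_le hWc
  have hWtop : W = ⊤ → R₀ = R := by
    intro h
    have h3 : R₀.subgroupOf R = ⊤ := frattini_nongenerating h
    apply le_antisymm hR₀
    intro x hx
    have : (⟨x, hx⟩ : R) ∈ R₀.subgroupOf R := by rw [h3]; trivial
    exact this
  apply hWtop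
  -- invariance
  let W' : Subgroup G := W.map R.subtype
  have hW'inv : ∀ g : G, g ∈ normalizer (R : Set G) → g ∈ normalizer (R₀ : Set G) → g ∈ normalizer (W' : Set G) := by
    intro g hg hg₀
    have key : ∀ g : G, g ∈ normalizer (R : Set G) → g ∈ normalizer (R₀ : Set G) → ∀ y ∈ W', g * y * g⁻¹ ∈ W' := by
      intro g hg hg₀
      rintro _ ⟨y, hy, rfl⟩
      let α : MulAut R := R.normalizerMonoidHom ⟨g, hg⟩
      have hle : W ≤ W.comap (α : R →* R) := by
        refine sup_le ?_ ?_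
        · intro z hz
          refine Subgroup.mem_comap.mpr (Subgroup.mem_sup_left ?_)
          rw [Subgroup.mem_subgroupOf] at hz ⊢
          exact (mem_normalizer_iff.mp hg₀ _).mp hz
        · intro z hz
          exact Subgroup.mem_comap.mpr (hWf (char_mem' (frattini R) α hz))
      exact ⟨α y, hle hy, rfl⟩
    rw [mem_normalizer_iff]
    intro x
    constructor
    · exact key g hg hg₀ x
    · intro hx
      have := key g⁻¹ (inv_mem hg) (inv_mem hg₀) _ hx
      simpa [mul_assoc] using this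
  have hstab : ∀ g : G, g ∈ normalizer (R : Set G) → g ∈ normalizer (R₀ : Set G) → g ∈ stabW W :=
    fun g hg hg₀ => ⟨hg, hW'inv g hg hg₀⟩
  have hPs : P ≤ stabW W := fun x hx => hstab x (hPn hx) (hPn₀ hx)
  have hYs : Y ≤ stabW W := fun x hx => hstab x (hYn hx) (hYn₀ hx)
  let Γ := stabW W
  let ρ : Γ →* MulAut (R ⧸ W) := psiW W
  have hWp : IsPGroup r W' := (IsPGroup.to_subgroup hR W).map R.subtype
  have hWle : W' ≤ R := Subgroup.map_subtype_le _
  -- fixed points in the quotient are trivial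
  have hlift : ∀ (B : Subgroup G) (t : ℕ) [Fact t.Prime], t ≠ r → IsPGroup t B → (hBs : B ≤ Γ) →
      (R ⊓ centralizer (B : Set G) ≤ R₀) → ∀ w : R ⧸ W,
      (∀ x : Γ, (x : G) ∈ B → ρ x w = w) → w = 1 := by
    intro B t _ htr hB hBs hC w hw
    obtain ⟨u, rfl⟩ := QuotientGroup.mk_surjective w
    have hBn' : B ≤ normalizer (W' : Set G) := fun x hx => (hBs hx).2
    have hcond : ∀ b ∈ B, (u : G)⁻¹ * (b * (u : G) * b⁻¹) ∈ W' := by
      intro b hb
      have h3 := hw ⟨b, hBs hb⟩ hb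
      rw [show ρ ⟨b, hBs hb⟩ (u : R ⧸ W) = _ from psiW_mk W ⟨b, hBs hb⟩ u] at h3
      have h4 := QuotientGroup.eq.mp h3.symm
      exact ⟨_, h4, by
        simp only [Subgroup.coe_subtype, Subgroup.coe_mul, Subgroup.coe_inv]
        rfl⟩
    obtain ⟨u₁, hu₁, hfix⟩ := fixed_lift (q := t) (R := R) hWp htr hB hBn' hcond
    have hmem : (u : G) * u₁ ∈ R ⊓ centralizer (B : Set G) := by
      refine ⟨R.mul_mem u.2 (hWle hu₁), Subgroup.mem_centralizer_iff.mpr ?_⟩
      intro b hb
      have h3 := hfix b hb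
      calc b * ((u : G) * u₁) = (b * ((u : G) * u₁) * b⁻¹) * b := by group
        _ = _ := by rw [h3]
    have hmem₀ := hC hmem
    obtain ⟨u₂, hu₂, hu₂e⟩ := hu₁
    have hu₁R : (u₂ : R) ∈ W := hu₂
    have hu₁e : ((u₂ : R) : G) = u₁ := hu₂e
    have h5 : u * u₂ ∈ W := by
      apply Subgroup.mem_sup_left
      rw [Subgroup.mem_subgroupOf]
      show (u : G) * (u₂ : G) ∈ R₀
      rw [hu₁e]
      exact hmem₀
    have h6 : u ∈ W := by
      have h7 := W.mul_mem h5 (W.inv_mem hu₁R)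
      simpa using h7
    exact (QuotientGroup.eq_one_iff u).mpr h6
  letI : CommGroup (R ⧸ W) := { (inferInstance : Group (R ⧸ W)) with
    mul_comm := by
      intro a b
      obtain ⟨a, rfl⟩ := QuotientGroup.mk_surjective a
      obtain ⟨b, rfl⟩ := QuotientGroup.mk_surjective b
      rw [← QuotientGroup.mk_mul, ← QuotientGroup.mk_mul, QuotientGroup.eq]
      have h1 : ⁅b⁻¹, a⁻¹⁆ ∈ commutator R :=
        Subgroup.commutator_mem_commutator (Subgroup.mem_top _) (Subgroup.mem_top _)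
      have h2 := hWc h1
      have h3 : (a * b)⁻¹ * (b * a) = ⁅b⁻¹, a⁻¹⁆ := by
        rw [commutatorElement_def]; group
      rwa [h3] }
  let P' : Subgroup Γ := P.subgroupOf Γ
  let Y' : Subgroup Γ := Y.subgroupOf Γ
  have hYP' : ∀ c ∈ Y', ∀ x ∈ P', c * x * c⁻¹ ∈ P' := by
    intro c hc x hx
    rw [Subgroup.mem_subgroupOf] at hc hx ⊢
    exact (mem_normalizer_iff.mp (hYP hc) _).mp hx
  have hfpf' : ∀ c ∈ Y', c ≠ 1 → ∀ x ∈ P', x * c = c * x → x = 1 := by
    intro c hc hc1 x hx hxc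
    rw [Subgroup.mem_subgroupOf] at hc hx
    apply Subtype.ext
    exact hfpf _ hc (fun h => hc1 (Subtype.ext h)) _ hx (congrArg Subtype.val hxc)
  have hfix1 : ∀ w ∈ (⊤ : Subgroup (R ⧸ W)), (∀ x ∈ P', ρ x w = w) → w = 1 :=
    fun w _ hw => hlift P q hqr hP hPs h1 w (fun x hx => hw x hx)
  have hfix2 : ∀ w ∈ (⊤ : Subgroup (R ⧸ W)), (∀ x ∈ Y', ρ x w = w) → w = 1 :=
    fun w _ hw => hlift Y s hsr hY hYs h2 w (fun x hx => hw x hx)
  have hv : ∀ v : R ⧸ W, v ^ Nat.card P' = 1 := fun v =>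
    frob_rel ρ P' Y' hYP' hfpf' ⊤ (fun _ _ _ _ => mem_top _) (fun _ _ _ _ => mem_top _)
      hfix1 hfix2 (mem_top v)
  have hcardP : Nat.card P' = Nat.card P := card_subgroupOf_of_le hPs
  have hexp : ∀ v : R ⧸ W, v ^ r = 1 := by
    intro v
    obtain ⟨u, rfl⟩ := QuotientGroup.mk_surjective v
    rw [← QuotientGroup.mk_pow, QuotientGroup.eq_one_iff]
    exact hWf (pow_mem_frattini hR u)
  have hone : ∀ v : R ⧸ W, v = 1 := by
    intro v
    have h3 := hv v
    rw [hcardP] at h3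
    obtain ⟨k, hk⟩ := IsPGroup.iff_card.mp hP
    rw [hk] at h3
    exact eq_one_of_pow_coprime (hexp v) h3 (Nat.Coprime.pow_right _ ((Nat.coprime_primes hr.out hq.out).mpr hqr.symm))
  rw [eq_top_iff]
  intro u _
  exact (QuotientGroup.eq_one_iff u).mp (hone _)

/-- The form of `frob_core` for a subgroup containing the acting groups. -/
theorem frob_inside {q s : ℕ} [hq : Fact q.Prime] [hs : Fact s.Prime] {R M P Y : Subgroup G}
    (hR : IsPGroup r R) (hqr : q ≠ r) (hsr : s ≠ r) (hP : IsPGroup q P) (hY : IsPGroup s Y)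
    (hPn : P ≤ normalizer (R : Set G)) (hYn : Y ≤ normalizer (R : Set G))
    (hPM : P ≤ M) (hYM : Y ≤ M) (hYP : Y ≤ normalizer (P : Set G))
    (hfpf : ∀ c ∈ Y, c ≠ 1 → ∀ x ∈ P, x * c = c * x → x = 1)
    (h1 : R ⊓ centralizer (P : Set G) ≤ M) (h2 : R ⊓ centralizer (Y : Set G) ≤ M) : R ≤ M := by
  have h3 : R ⊓ M = R := by
    refine frob_core hR hqr hsr hP hY hPn hYn
      (Cfsg.Agent.Lib.CoprimeInv.le_normalizer_inf hPn (hPM.trans le_normalizer))
      (Cfsg.Agent.Lib.CoprimeInv.le_normalizer_inf hYn (hYM.trans le_normalizer)) inf_le_left hYP hfpf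
      (le_inf inf_le_left h1) (le_inf inf_le_left h2)
  rw [← h3]
  exact inf_le_right

end frob

/-- Centralizers of cyclic groups. -/
theorem centralizer_zpowers' (a : G) :
    centralizer ((zpowers a : Subgroup G) : Set G) = centralizer ({a} : Set G) := by
  apply le_antisymm
  · exact Subgroup.centralizer_le (by simp)
  · intro x hx
    rw [Subgroup.mem_centralizer_iff]
    intro y hy
    obtain ⟨k, rfl⟩ := mem_zpowers_iff.mp hy
    rw [Subgroup.mem_centralizer_singleton_iff] at hx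
    exact (((Commute.zpow_left (show Commute a x from hx.symm) k))).eq

/-- `fpf` passes to the powers of an element of prime order. -/
theorem fpf_zpowers {P : Subgroup G} {b : G} {s : ℕ} (hs : s.Prime) (hb : orderOf b = s)
    (h : ∀ x ∈ P, x * b = b * x → x = 1) :
    ∀ c ∈ zpowers b, c ≠ 1 → ∀ x ∈ P, x * c = c * x → x = 1 := by
  intro c hc hc1 x hx hxc
  have h1 : b ∈ zpowers c := generator_of_ne_one hs hb hc hc1
  obtain ⟨k, rfl⟩ := mem_zpowers_iff.mp h1
  exact h x hx (((show Commute x c from hxc).zpow_right k)).eq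

/-- A Frobenius pair of prime orders. -/
theorem fpf_pair {x b : G} {q s : ℕ} (hq : q.Prime) (hs : s.Prime) (hx : orderOf x = q)
    (hb : orderOf b = s) (hm : x * b ≠ b * x) :
    ∀ c ∈ zpowers b, c ≠ 1 → ∀ y ∈ zpowers x, y * c = c * y → y = 1 := by
  apply fpf_zpowers hs hb
  intro y hy hyb
  by_contra hy1
  have h1 : x ∈ zpowers y := generator_of_ne_one hq hx hy hy1
  obtain ⟨k, rfl⟩ := mem_zpowers_iff.mp h1
  exact hm ((show Commute y b from hyb).zpow_left k).eq

/-! ## Coprime generation -/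

section gen

variable {p : ℕ} [hp : Fact p.Prime]

theorem not_isCyclic_of_card_sq {A : Subgroup G} (hA : IsElementaryAbelian p A)
    (hc : Nat.card A = p ^ 2) : ¬ IsCyclic A := by
  intro hcy
  have h1 : Monoid.exponent A ∣ p := by
    apply Monoid.exponent_dvd_of_forall_pow_eq_one
    intro a
    exact Subtype.ext (hA.2 a a.2)
  rw [IsCyclic.exponent_eq_card, hc] at h1
  have := Nat.le_of_dvd hp.out.pos h1
  have h2 := hp.out.two_le
  nlinarith

theorem eq_iSup_lines {A Y : Subgroup G} (hA : IsElementaryAbelian p A) (hc : Nat.card A = p ^ 2)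
    (hn : A ≤ normalizer (Y : Set G)) (hcop : (Nat.card A).Coprime (Nat.card Y)) :
    (⨆ a ∈ {a : G | a ∈ A ∧ a ≠ 1}, Y ⊓ centralizer {a}) = Y := by
  haveI : IsMulCommutative A := hA.1
  exact Cfsg.Agent.S0058.result A Y (not_isCyclic_of_card_sq hA hc) hn hcop

theorem le_of_lines {A Y L : Subgroup G} (hA : IsElementaryAbelian p A) (hc : Nat.card A = p ^ 2)
    (hn : A ≤ normalizer (Y : Set G)) (hcop : (Nat.card A).Coprime (Nat.card Y))
    (h : ∀ a ∈ A, a ≠ 1 → Y ⊓ centralizer {a} ≤ L) : Y ≤ L := by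
  rw [← eq_iSup_lines hA hc hn hcop]
  refine iSup_le fun a => iSup_le fun ha => h a ha.1 ha.2

theorem exists_line {A Y : Subgroup G} (hA : IsElementaryAbelian p A) (hc : Nat.card A = p ^ 2)
    (hn : A ≤ normalizer (Y : Set G)) (hcop : (Nat.card A).Coprime (Nat.card Y)) (hY : Y ≠ ⊥) :
    ∃ a ∈ A, a ≠ 1 ∧ Y ⊓ centralizer {a} ≠ ⊥ := by
  by_contra hno
  push Not at hno
  apply hY
  rw [eq_bot_iff]
  apply le_of_lines hA hc hn hcop
  intro a ha ha1
  rw [hno a ha ha1]

end gen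

/-! ## Fixed points of Sylow subgroups under coprime action -/

section fix

variable {r : ℕ} [hr : Fact r.Prime]

/-- `C_R(A)` is a Sylow subgroup of `C_V(A)`. -/
theorem isSylowIn_inf_centralizer {V A R : Subgroup G} (hs : Group.IsSolvable V)
    (hA : A ≤ normalizer (V : Set G)) (hc : Nat.Coprime (Nat.card V) (Nat.card A))
    (hR : IsSylowIn r R V) (hRA : A ≤ normalizer (R : Set G)) :
    IsSylowIn r (R ⊓ centralizer (A : Set G)) (V ⊓ centralizer (A : Set G)) := by
  refine ⟨inf_le_inf_right _ hR.1, hR.2.1.to_le inf_le_left, ?_⟩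
  intro T hTV hTr hRT
  -- `T` lies in an invariant Sylow subgroup of `V`
  have hTA : A ≤ normalizer (T : Set G) :=
    Cfsg.Agent.Lib.BGTrans.centralizer_le_normalizer_of_le (C := ⊤) (hTV.trans inf_le_right)
  obtain ⟨R₁, hR₁, hR₁A, hTR₁⟩ := exists_invariant_isSylowIn_ge r hs hA hc (hTV.trans inf_le_left) hTr hTA
  obtain ⟨c, hc', he⟩ := hR.exists_conj_centralizer hs hA hc hR₁ hRA hR₁A
  have hcc : c ∈ centralizer (A : Set G) := hc'.2
  -- conjugate back
  have hT' : cj T c⁻¹ ≤ R ⊓ centralizer (A : Set G) := by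
    intro x hx
    rw [mem_cj] at hx
    simp only [inv_inv] at hx
    have h1 : c * x * c⁻¹ ∈ T := hx
    refine ⟨?_, ?_⟩
    · have h2 := hTR₁ h1
      rw [he, mem_cj] at h2
      simpa [mul_assoc] using h2
    · have h3 : c * x * c⁻¹ ∈ centralizer (A : Set G) := hTV.trans inf_le_right h1
      have h4 := (centralizer (A : Set G)).mul_mem (((centralizer (A : Set G)).inv_mem hcc)) ((centralizer (A : Set G)).mul_mem h3 hcc)
      simpa [mul_assoc] using h4
  have hcard : Nat.card T ≤ Nat.card ↥(R ⊓ centralizer (A : Set G)) := by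
    have := Subgroup.card_le_of_le hT'
    rwa [card_cj] at this
  exact (Subgroup.eq_of_le_of_card_ge hRT hcard).symm

end fix

/-! ## The core `O_{q'}` -/

section core

open Cfsg.Agent.Lib.BGUniq Cfsg.Agent.Lib.PCore

variable {q : ℕ} [hq : Fact q.Prime]

theorem le_coreOf_of_normal {Y X : Subgroup G} (hYX : Y ≤ X) (hXY : X ≤ normalizer (Y : Set G))
    (hc : (Nat.card Y).Coprime q) : Y ≤ coreOf q X := by
  have hnormal : (Y.subgroupOf X).Normal := normal_subgroupOf_of_le_normalizer hXY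
  have hcard : Nat.card (Y.subgroupOf X) = Nat.card Y := card_subgroupOf_of_le hYX
  have h1 : Y.subgroupOf X ≤ pPrimeCore q X := le_pPrimeCore hnormal (by rw [hcard]; exact hc)
  intro y hy
  exact ⟨⟨y, hYX hy⟩, h1 hy, rfl⟩

theorem normalizer_le_normalizer_coreOf (X : Subgroup G) :
    normalizer (X : Set G) ≤ normalizer (coreOf q X : Set G) := by
  intro g hg
  rw [mem_normalizer_iff_cj]
  have hX : cj X g = X := cj_eq_of_mem_normalizer hg
  have h1 : cj (coreOf q X) g ≤ coreOf q X := by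
    apply le_coreOf_of_normal
    · have := cj_mono (coreOf_le q X) g
      rwa [hX] at this
    · have := normalizer_cj_of_le (g := g) (le_normalizer_coreOf q X)
      rwa [hX] at this
    · rw [card_cj]; exact card_coreOf_coprime q X
  exact Subgroup.eq_of_le_of_card_ge h1 (by rw [card_cj])

/-- The factorization coming from `q`-length at most one. -/
theorem core_factor {θ S : Subgroup G} (hl : PLengthLE q 1 θ) (hS : IsSylowIn q S θ) {x : G}
    (hx : x ∈ θ) : ∃ u ∈ coreOf q θ, ∃ n ∈ θ, n ∈ normalizer (S : Set G) ∧ x = u * n := by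
  have hsup := Cfsg.Agent.Lib.PLengthOne.sup_normalizer_eq_top hl hS.toSylow
  have ht' : (⟨x, hx⟩ : θ) ∈ (⊤ : Subgroup θ) := trivial
  rw [← hsup] at ht'
  obtain ⟨o, ho, n, hn, hno⟩ := Subgroup.mem_sup_of_normal_left.mp ht'
  have ht2 : x = (o : G) * (n : G) := (congrArg Subtype.val hno).symm
  refine ⟨o, ⟨o, ho, rfl⟩, n, n.2, ?_, ht2⟩
  rw [Subgroup.mem_normalizer_iff] at hn ⊢
  intro y
  constructor
  · intro hy
    have h1 : (⟨y, hS.1 hy⟩ : θ) ∈ (hS.toSylow : Subgroup θ) := hy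
    exact (hn _).mp h1
  · intro hy
    have hxN : (n : G) * y * (n : G)⁻¹ ∈ θ := hS.1 hy
    have h0 : y ∈ θ := by
      have h5 : y = (n : G)⁻¹ * ((n : G) * y * (n : G)⁻¹) * (n : G) := by group
      rw [h5]
      exact mul_mem (mul_mem (inv_mem n.2) hxN) n.2
    exact (hn ⟨y, h0⟩).mpr hy

/-- The factorization in the presence of a coprime action. -/
theorem exists_factor_centralizer {θ S A : Subgroup G} (hs : Group.IsSolvable θ)
    (hl : PLengthLE q 1 θ) (hS : IsSylowIn q S θ) (hSA : A ≤ normalizer (S : Set G))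
    (hA : A ≤ normalizer (θ : Set G)) (hc : (Nat.card θ).Coprime (Nat.card A)) {k : G}
    (hk : k ∈ θ) (hkA : k ∈ centralizer (A : Set G)) :
    ∃ c ∈ coreOf q θ ⊓ centralizer (A : Set G), c⁻¹ * k ∈ normalizer (S : Set G) := by
  obtain ⟨u, hu, n, hnθ, hnS, rfl⟩ := core_factor hl hS hk
  let V := coreOf q θ
  have hVθ : V ≤ θ := coreOf_le q θ
  have hVs : Group.IsSolvable V := Group.isSolvable_of_isSolvable_injective (Subgroup.inclusion_injective hVθ)
  have hAV : A ≤ normalizer (V : Set G) := hA.trans (normalizer_le_normalizer_coreOf θ)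
  have hcV : (Nat.card V).Coprime (Nat.card A) :=
    Nat.Coprime.coprime_dvd_left (Subgroup.card_dvd_of_le hVθ) hc
  have hω : cj S (u * n) = cj S u := by
    have h1 : cj S (u * n) = cj (cj S n) u := (cj_cj S n u).symm
    rw [h1, cj_eq_of_mem_normalizer hnS]
  have h₂ : A ≤ normalizer (cj S (u * n) : Set G) := by
    have h3 := normalizer_cj_of_le (g := u * n) hSA
    rwa [cj_eq_of_mem_normalizer (Cfsg.Agent.Lib.BGTrans.centralizer_le_normalizer A hkA)] at h3
  obtain ⟨c, hc', he⟩ := glauberman_trans hVs hAV hcV hu rfl hSA (by rw [← hω]; exact h₂)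
  refine ⟨c, hc', ?_⟩
  rw [mem_normalizer_iff_cj]
  have h4 : cj S (u * n) = cj S c := by rw [hω, he]
  calc cj S (c⁻¹ * (u * n)) = cj (cj S (u * n)) c⁻¹ := (cj_cj S _ _).symm
    _ = cj (cj S c) c⁻¹ := by rw [h4]
    _ = S := cj_cj_inv S c

end core

/-! ## Indices -/

/-- A Sylow subgroup for a prime dividing the relative index is not contained in the subgroup. -/
theorem not_le_of_dvd_relIndex {r : ℕ} [hr : Fact r.Prime] {T X M : Subgroup G} (hT : IsSylowIn r T X)
    (hd : r ∣ (M ⊓ X).relIndex X) : ¬ T ≤ M := by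
  intro hTM
  have hTX : T ≤ M ⊓ X := le_inf hTM hT.1
  -- the index of `T` in `X` is prime to `r`
  have h1 : ¬ r ∣ T.relIndex X := by
    have h2 := hT.toSylow.not_dvd_index
    have h3 : (hT.toSylow : Subgroup X) = T.subgroupOf X := hT.coe_toSylow
    rw [h3] at h2
    exact h2
  apply h1
  refine hd.trans ?_
  rw [Subgroup.relIndex]
  have h4 : T.subgroupOf X ≤ (M ⊓ X).subgroupOf X := by
    intro x hx
    rw [Subgroup.mem_subgroupOf] at hx ⊢
    exact hTX hx
  exact Subgroup.index_dvd_of_le h4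

/-- Factorizations and relative indices. -/
theorem relIndex_eq_of_factor {K K₀ M : Subgroup G} (hK₀ : K₀ ≤ K) (hn : K ≤ normalizer (K₀ : Set G))
    (hf : ∀ k ∈ K, ∃ c ∈ K₀, c⁻¹ * k ∈ M) : (M ⊓ K).relIndex K = (M ⊓ K₀).relIndex K₀ := by
  -- the product formula
  have hsup : (M ⊓ K) ⊔ K₀ = K := by
    apply le_antisymm (sup_le inf_le_right hK₀)
    intro k hk
    obtain ⟨c, hc, hck⟩ := hf k hk
    have h1 : c⁻¹ * k ∈ M ⊓ K := ⟨hck, K.mul_mem (K.inv_mem (hK₀ hc)) hk⟩
    have h2 : k = c * (c⁻¹ * k) := by group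
    rw [h2, sup_comm]
    exact Subgroup.mul_mem _ (Subgroup.mem_sup_left hc) (Subgroup.mem_sup_right h1)
  have hprod := card_sup_mul_card_inf (H := M ⊓ K) (N := K₀) (inf_le_right.trans hn)
  rw [hsup] at hprod
  have hinf : (M ⊓ K) ⊓ K₀ = M ⊓ K₀ := by
    rw [inf_assoc, inf_eq_right.mpr hK₀]
  rw [hinf] at hprod
  have e1 : Nat.card ↥(M ⊓ K) * (M ⊓ K).relIndex K = Nat.card K := by
    have := Subgroup.card_mul_index ((M ⊓ K).subgroupOf K)
    rwa [card_subgroupOf_of_le inf_le_right] at this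
  have e2 : Nat.card ↥(M ⊓ K₀) * (M ⊓ K₀).relIndex K₀ = Nat.card K₀ := by
    have := Subgroup.card_mul_index ((M ⊓ K₀).subgroupOf K₀)
    rwa [card_subgroupOf_of_le inf_le_right] at this
  have hpos : 0 < Nat.card ↥(M ⊓ K) := Nat.card_pos
  have hpos2 : 0 < Nat.card ↥(M ⊓ K₀) := Nat.card_pos
  -- cancel
  have h3 : Nat.card ↥(M ⊓ K) * (M ⊓ K).relIndex K * Nat.card ↥(M ⊓ K₀) =
      Nat.card ↥(M ⊓ K) * ((M ⊓ K₀).relIndex K₀ * Nat.card ↥(M ⊓ K₀)) := by
    rw [e1, hprod, ← e2, mul_comm ((M ⊓ K₀).relIndex K₀)]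
  have h4 := Nat.eq_of_mul_eq_mul_left hpos (by
    calc Nat.card ↥(M ⊓ K) * ((M ⊓ K).relIndex K * Nat.card ↥(M ⊓ K₀))
        = Nat.card ↥(M ⊓ K) * (M ⊓ K).relIndex K * Nat.card ↥(M ⊓ K₀) := by ring
      _ = _ := h3)
  exact Nat.eq_of_mul_eq_mul_right hpos2 h4

end Cfsg.Agent.Lib.BGTau1
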