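import Mathlib
import Cfsg.Agent.Lib.BGTau1
import Cfsg.Agent.S1392
import Cfsg.Agent.S1394
import Cfsg.Agent.S1396
import Cfsg.Agent.S1403
import Cfsg.Agent.S1410
import Cfsg.Agent.Lib.BGUniq2
import Cfsg.Agent.Lib.BGUniq3
import Cfsg.Agent.Lib.BGSigma3

/-!
# Bender-Glauberman section 12: elementary abelian subgroups of order `p ^ 2` outside `𝓤`.

A package of facts for `A` elementary abelian of order `p ^ 2` that does not lie in a unique maximal
subgroup: the rank of `C_G(A)`, the transitivity hypothesis, and the Sylow property of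
`Q ∩ X` in `O_{p'}(X)` for `Q ∈ 𝓘*(A; q)`.
-/

set_option autoImplicit false
set_option linter.unusedSectionVars false
set_option linter.unusedVariables false
set_option linter.style.haveILetI false
set_option linter.unusedSimpArgs false

namespace Cfsg.Agent.Lib.BGTau2

open Cfsg Subgroup Cfsg.Agent.Lib.CoprimeInv Cfsg.Agent.Lib.BGTrans Cfsg.Agent.Lib.BGTrans2
  Cfsg.Agent.Lib.BGUniq Cfsg.Agent.Lib.BGUniq2 Cfsg.Agent.Lib.BGTau1

universe u

variable {G : Type u} [Group G] [Finite G] {p : ℕ} [hpf : Fact p.Prime]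

/-- The context: `A` is elementary abelian of order `p²` and lies in no unique maximal subgroup. -/
structure Ctx (p : ℕ) (A : Subgroup G) : Prop where
  hG : IsMinSimpleOddOrder G
  ea : IsElementaryAbelian p A
  card : Nat.card A = p ^ 2
  nu : ¬ InUniqueMaximal A

/-- `O_{p'}(X)`, in the form used by the transitivity hypothesis. -/
abbrev θ (A X : Subgroup G) : Subgroup G := piCoreOf (primesNotDvd (Nat.card A)) X

/-- `K = O_{p'}(C_G(A))`. -/
abbrev Kp (A : Subgroup G) : Subgroup G := θ A (centralizer (A : Set G))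

namespace Ctx

variable {A : Subgroup G} (c : Ctx p A)
include c

theorem isP : IsPGroup p A := Cfsg.Agent.Lib.BGSigma3.isPGroup_of_ea c.ea

theorem ne_bot : A ≠ ⊥ := by
  intro h
  have h1 := c.card
  rw [h, Subgroup.card_bot] at h1
  have h2 := hpf.out.two_le
  have : 1 < p ^ 2 := Nat.one_lt_pow (by norm_num) (by omega)
  omega

theorem ne_top : A ≠ ⊤ := IsMin.isPGroup_ne_top c.hG c.isP

theorem dvd : p ∣ Nat.card G := dvd_of_isPGroup c.isP c.ne_bot

theorem p_ne_two : p ≠ 2 := prime_ne_two_of_dvd c.hG c.dvd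

theorem comm {a b : G} (ha : a ∈ A) (hb : b ∈ A) : a * b = b * a :=
  congrArg Subtype.val (c.ea.1.is_comm.comm (⟨a, ha⟩ : A) ⟨b, hb⟩)

theorem le_cent : A ≤ centralizer (A : Set G) := by
  intro a ha
  rw [Subgroup.mem_centralizer_iff]
  intro b hb
  exact c.comm hb ha

theorem cent_ne_top : centralizer (A : Set G) ≠ ⊤ := centralizer_ne_top c.hG c.ne_bot c.ne_top

theorem not_rankLE_one : ¬ RankLE 1 A :=
  Cfsg.Agent.Lib.BGUniq3.not_rankLE_of_ea hpf.out c.ea.1 c.ea.2 (by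
    rw [c.card]
    have h2 := hpf.out.two_le
    calc p ^ 1 < p ^ 2 := Nat.pow_lt_pow_right (by omega) (by norm_num)
      _ = _ := rfl)

/-- `r(C_G(A)) ≤ 2`. -/
theorem rank : RankLE 2 (centralizer (A : Set G)) := by
  by_contra h
  exact c.nu (Cfsg.Agent.S1403.result c.hG A c.ne_top c.not_rankLE_one (Or.inr h))

/-- Elements of order `p` in `C_G(A)` lie in `A`. -/
theorem omega {x : G} (hx : x ∈ centralizer (A : Set G)) (hxp : x ^ p = 1) : x ∈ A := by
  by_contra hxA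
  have hc : zpowers x ≤ centralizer (A : Set G) := zpowers_le.mpr hx
  have hE := Cfsg.Agent.Lib.BGSigma3.ea_sup (Cfsg.Agent.Lib.BGSigma3.ea_zpowers hxp) c.ea hc
  have hlt : A < zpowers x ⊔ A := by
    refine lt_of_le_of_ne le_sup_right ?_
    intro h
    exact hxA (h ▸ Subgroup.mem_sup_left (mem_zpowers x))
  have h1 : p ^ 2 < Nat.card ↥(zpowers x ⊔ A) := by
    rw [← c.card]
    exact card_lt_of_lt' hlt
  have hle : zpowers x ⊔ A ≤ centralizer (A : Set G) := sup_le hc c.le_cent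
  have h2 := (Cfsg.Agent.Lib.BGSigma.prankLE_iff.mp (c.rank p hpf.out)) _ hle hE.1 hE.2
  omega

/-- The transitivity hypothesis for `A`. -/
theorem th : TransitivityHypothesis A := by
  refine Cfsg.Agent.S1396.result c.hG p c.dvd A c.isP c.ea.1 (Or.inl ⟨?_, ?_⟩)
  · intro x hx
    exact ⟨fun h => c.omega hx h, fun h => c.ea.2 x h⟩
  · intro H hH
    exact Cfsg.Agent.S1410.result c.hG p H hH

theorem primes_of_coprime {Y : Subgroup G} (hY : (Nat.card Y).Coprime p) :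
    ∀ q : ℕ, q.Prime → q ∣ Nat.card Y → q ∈ primesNotDvd (Nat.card A) := by
  intro q hq hd
  refine ⟨hq, ?_⟩
  rw [c.card]
  intro h
  have h1 : q = p := (Nat.prime_dvd_prime_iff_eq hq hpf.out).mp (hq.dvd_of_dvd_pow h)
  subst h1
  have := Nat.dvd_gcd hd (dvd_refl q)
  rw [hY.gcd_eq_one] at this
  exact hq.one_lt.ne' (Nat.dvd_one.mp this)

theorem coprime_θ (X : Subgroup G) : (Nat.card (θ A X)).Coprime p := coprime_piCoreOf c.isP c.ne_bot X

theorem θ_le (X : Subgroup G) : θ A X ≤ X := piCoreOf_le _ _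

theorem le_θ {X Y : Subgroup G} (hX : X ≠ ⊤) (hAX : A ≤ X) (hYX : Y ≤ X)
    (hAY : A ≤ normalizer (Y : Set G)) (hY : (Nat.card Y).Coprime p) : Y ≤ θ A X :=
  TH.le_core c.th hX hAX ⟨hYX, c.primes_of_coprime hY, hAY⟩

theorem le_K {Y : Subgroup G} (hYC : Y ≤ centralizer (A : Set G)) (hY : (Nat.card Y).Coprime p) :
    Y ≤ Kp A := TH.le_K c.hG c.th hYC (c.primes_of_coprime hY)

theorem K_le_cent : Kp A ≤ centralizer (A : Set G) := c.θ_le _

theorem coprime_K : (Nat.card (Kp A)).Coprime p := c.coprime_θ _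

theorem coprime_θ' (X : Subgroup G) : (Nat.card (θ A X)).Coprime (Nat.card A) :=
  coprime_of_isPGroup (c.coprime_θ X) c.isP

theorem le_norm_θ {X : Subgroup G} (hAX : A ≤ X) : A ≤ normalizer (θ A X : Set G) :=
  hAX.trans (le_normalizer_piCoreOf _ _)

theorem solvable_θ {X : Subgroup G} (hX : X ≠ ⊤) : Group.IsSolvable (θ A X) :=
  IsMin.solvable c.hG (fun h => hX (top_le_iff.mp (h ▸ c.θ_le X)))

theorem solvable_of_ne_top {X : Subgroup G} (hX : X ≠ ⊤) : Group.IsSolvable X := IsMin.solvable c.hG hX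

theorem ne_top_of_le {X Y : Subgroup G} (hXY : X ≤ Y) (hY : Y ≠ ⊤) : X ≠ ⊤ :=
  fun h => hY (top_le_iff.mp (h ▸ hXY))

/-- The centralizer of a nontrivial element is proper. -/
theorem cent_elem_ne_top {a : G} (ha : a ≠ 1) : centralizer ({a} : Set G) ≠ ⊤ :=
  IsMin.centralizer_singleton_ne_top c.hG ha

theorem le_cent_elem {a : G} (ha : a ∈ A) : A ≤ centralizer ({a} : Set G) := by
  intro b hb
  rw [Subgroup.mem_centralizer_singleton_iff]
  exact c.comm hb ha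

theorem cent_le_cent_elem {a : G} (ha : a ∈ A) : centralizer (A : Set G) ≤ centralizer ({a} : Set G) :=
  Subgroup.centralizer_le (by simpa using ha)

theorem K_le_cent_elem {a : G} (ha : a ∈ A) : Kp A ≤ centralizer ({a} : Set G) :=
  c.K_le_cent.trans (c.cent_le_cent_elem ha)

/-- The transitivity of `K`. -/
theorem conj_of_overlap {q : ℕ} [hq : Fact q.Prime] (hqp : q ≠ p) {Q₁ Q₂ H : Subgroup G}
    (h₁ : Q₁ ∈ maxInvSubgroups ⊤ A {q}) (h₂ : Q₂ ∈ maxInvSubgroups ⊤ A {q}) (hH : H ≠ ⊤) (hAH : A ≤ H)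
    (hH₁ : H ⊓ Q₁ ≠ ⊥) (hH₂ : H ⊓ Q₂ ≠ ⊥) : ∃ k ∈ Kp A, Q₂ = cj Q₁ k := by
  have hqA : ¬ q ∣ Nat.card A := by
    rw [c.card]
    intro h
    exact hqp ((Nat.prime_dvd_prime_iff_eq hq.out hpf.out).mp (hq.out.dvd_of_dvd_pow h))
  exact Cfsg.Agent.S1392.result c.hG A c.th q hq.out hqA Q₁ Q₂ h₁ h₂ H hH hAH hH₁ hH₂

theorem not_rankLE_one_Z : ¬ RankLE 1 ↥(A ⊓ centralizer (A : Set G)) := by
  rw [inf_eq_left.mpr c.le_cent]
  exact c.not_rankLE_one

/-- The transitivity of `K` for primes dividing the order of `C_G(A)`. -/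
theorem conj_all {q : ℕ} [hq : Fact q.Prime] (hqp : q ≠ p) (hqC : q ∣ Nat.card (centralizer (A : Set G)))
    {Q₁ Q₂ : Subgroup G} (h₁ : Q₁ ∈ maxInvSubgroups ⊤ A {q}) (h₂ : Q₂ ∈ maxInvSubgroups ⊤ A {q}) :
    ∃ k ∈ Kp A, Q₂ = cj Q₁ k := by
  have hqA : ¬ q ∣ Nat.card A := by
    rw [c.card]
    intro h
    exact hqp ((Nat.prime_dvd_prime_iff_eq hq.out hpf.out).mp (hq.out.dvd_of_dvd_pow h))
  exact Cfsg.Agent.S1394.result c.hG A c.th c.not_rankLE_one_Z q hq.out hqA hqC Q₁ h₁ Q₂ h₂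

/-- **Lemma S**: `X ∩ Q` is a Sylow `q`-subgroup of `O_{p'}(X)`, if `K ≤ X`. -/
theorem sylow_inf {q : ℕ} [hq : Fact q.Prime] (hqp : q ≠ p) {Q X : Subgroup G}
    (hQ : Q ∈ maxInvSubgroups ⊤ A {q}) (hX : X ≠ ⊤) (hAX : A ≤ X) (hKX : Kp A ≤ X)
    (hne : X ⊓ Q ≠ ⊥) : IsSylowIn q (X ⊓ Q) (θ A X) := by
  have hQq : IsPGroup q Q := (mem_invSubgroups_singleton.mp hQ.1).2.1
  have hQA : A ≤ normalizer (Q : Set G) := (mem_invSubgroups_singleton.mp hQ.1).2.2
  have hTq : IsPGroup q ↥(X ⊓ Q) := hQq.to_le inf_le_right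
  have hTA : A ≤ normalizer ((X ⊓ Q : Subgroup G) : Set G) :=
    le_normalizer_inf (hAX.trans le_normalizer) hQA
  have hTθ : X ⊓ Q ≤ θ A X := c.le_θ hX hAX inf_le_left hTA (coprime_of_pgroup_ne hTq hqp)
  obtain ⟨T₀, hT₀, hT₀A, hle⟩ := exists_invariant_isSylowIn_ge q (c.solvable_θ hX) (c.le_norm_θ hAX)
    (c.coprime_θ' X) hTθ hTq hTA
  obtain ⟨Q₂, hQ₂, hT₀Q₂⟩ := exists_maxInv_ge (H := ⊤) (A := A) (π := {q}) (Y := T₀)
    (mem_invSubgroups_singleton.mpr ⟨le_top, hT₀.2.1, hT₀A⟩)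
  have hne₂ : X ⊓ Q₂ ≠ ⊥ := by
    intro h
    apply hne
    rw [eq_bot_iff, ← h]
    exact le_inf inf_le_left (hle.trans hT₀Q₂)
  obtain ⟨k, hk, he⟩ := c.conj_of_overlap hqp hQ hQ₂ hX hAX hne hne₂
  have hkX : k ∈ X := hKX hk
  have hT' : cj T₀ k⁻¹ ≤ X ⊓ Q := by
    intro x hx
    rw [mem_cj] at hx
    simp only [inv_inv] at hx
    refine ⟨?_, ?_⟩
    · have h1 := c.θ_le X (hT₀.1 hx)
      have h2 := X.mul_mem (X.mul_mem (X.inv_mem hkX) h1) hkX
      have e : k⁻¹ * (k * x * k⁻¹) * k = x := by group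
      rwa [e] at h2
    · have h1 := hT₀Q₂ hx
      rw [he, mem_cj] at h1
      have e : k⁻¹ * (k * x * k⁻¹) * k = x := by group
      rwa [e] at h1
  have hcard : Nat.card T₀ ≤ Nat.card ↥(X ⊓ Q) := by
    have := Subgroup.card_le_of_le hT'
    rwa [card_cj] at this
  have heq : X ⊓ Q = T₀ := Subgroup.eq_of_le_of_card_ge hle hcard
  rw [heq]
  exact hT₀

end Ctx

/-- A Sylow subgroup of `G` is in `𝓘*(A; q)` as soon as it is `A`-invariant. -/
theorem maxInv_of_sylow {A Q : Subgroup G} {q : ℕ} [hq : Fact q.Prime] (hQ : IsSylowIn q Q ⊤)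
    (hA : A ≤ normalizer (Q : Set G)) : Q ∈ maxInvSubgroups ⊤ A {q} := by
  refine ⟨mem_invSubgroups_singleton.mpr ⟨le_top, hQ.2.1, hA⟩, ?_⟩
  intro R hR hQR
  exact hQ.2.2 R le_top (mem_invSubgroups_singleton.mp hR).2.1 hQR

end Cfsg.Agent.Lib.BGTau2
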