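import Mathlib
import Cfsg.Agent.Lib.BGTau2
import Cfsg.Agent.Lib.BGM1

/-!
# Bender-Glauberman section 12: the action of a `p`-element on `A`, and `A` central in a Sylow
subgroup of `N` for `p ∉ σ(N)`.
-/

set_option autoImplicit false
set_option linter.unusedSectionVars false
set_option linter.unusedVariables false
set_option linter.style.haveILetI false
set_option linter.unusedSimpArgs false

namespace Cfsg.Agent.Lib.BGTau3

open Cfsg Subgroup Cfsg.Agent.Lib.CoprimeInv Cfsg.Agent.Lib.BGTrans Cfsg.Agent.Lib.BGTrans2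
  Cfsg.Agent.Lib.BGUniq Cfsg.Agent.Lib.BGUniq2 Cfsg.Agent.Lib.BGTau1 Cfsg.Agent.Lib.BGTau2
  Cfsg.Agent.Lib.BGM1 Cfsg.Agent.Lib.BGUT1

universe u

variable {G : Type u} [Group G] [Finite G] {p : ℕ} [hpf : Fact p.Prime]

/-- Products in a join with a normalized factor. -/
theorem mul_of_mem_sup {E V : Subgroup G} (h : E ≤ normalizer (V : Set G)) {x : G}
    (hx : x ∈ E ⊔ V) : ∃ e ∈ E, ∃ v ∈ V, x = e * v := by
  let S : Subgroup G :=
    { carrier := {x | ∃ e ∈ E, ∃ v ∈ V, x = e * v}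
      mul_mem' := by
        rintro _ _ ⟨e, he, v, hv, rfl⟩ ⟨e', he', v', hv', rfl⟩
        refine ⟨e * e', E.mul_mem he he', e'⁻¹ * v * e' * v', ?_, by group⟩
        refine V.mul_mem ?_ hv'
        have := (Subgroup.mem_normalizer_iff.mp (h (E.inv_mem he')) v).mp hv
        simpa using this
      one_mem' := ⟨1, E.one_mem, 1, V.one_mem, by simp⟩
      inv_mem' := by
        rintro _ ⟨e, he, v, hv, rfl⟩
        refine ⟨e⁻¹, E.inv_mem he, e * v⁻¹ * e⁻¹, ?_, by group⟩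
        exact (Subgroup.mem_normalizer_iff.mp (h he) v⁻¹).mp (V.inv_mem hv) }
  have hle : E ⊔ V ≤ S := by
    refine sup_le ?_ ?_
    · intro e he
      exact ⟨e, he, 1, V.one_mem, by simp⟩
    · intro v hv
      exact ⟨1, E.one_mem, v, hv, by simp⟩
  exact hle hx

/-- Natural number exponents in cyclic subgroups. -/
theorem exists_nat_of_mem_zpowers {x y : G} (h : y ∈ zpowers x) : ∃ n : ℕ, y = x ^ n := by
  have h1 : y ∈ Submonoid.powers x := (mem_powers_iff_mem_zpowers).mpr h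
  obtain ⟨n, hn⟩ := Submonoid.mem_powers_iff _ _ |>.mp h1
  exact ⟨n, hn.symm⟩

section lines

variable {A : Subgroup G} (hA : IsElementaryAbelian p A) (hc : Nat.card A = p ^ 2)
include hA hc

theorem orderOf_eq {a : G} (ha : a ∈ A) (ha1 : a ≠ 1) : orderOf a = p :=
  orderOf_eq_prime (hA.2 a ha) ha1

/-- Two independent elements generate `A`. -/
theorem sup_eq {z a : G} (hz : z ∈ A) (hz1 : z ≠ 1) (ha : a ∈ A) (haz : a ∉ zpowers z) :
    zpowers z ⊔ zpowers a = A := by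
  have hle : zpowers z ⊔ zpowers a ≤ A := sup_le (zpowers_le.mpr hz) (zpowers_le.mpr ha)
  apply Subgroup.eq_of_le_of_card_ge hle
  rw [hc]
  have hlt : zpowers z < zpowers z ⊔ zpowers a := by
    refine lt_of_le_of_ne le_sup_left ?_
    intro h
    exact haz (h ▸ Subgroup.mem_sup_right (mem_zpowers a))
  have h1 := card_lt_of_lt' hlt
  rw [Nat.card_zpowers, orderOf_eq hA hc hz hz1] at h1
  have h2 : Nat.card ↥(zpowers z ⊔ zpowers a) ∣ p ^ 2 := by
    rw [← hc]
    exact Subgroup.card_dvd_of_le hle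
  obtain ⟨k, hk, hk2⟩ := (Nat.dvd_prime_pow hpf.out).mp h2
  rw [hk2] at h1 ⊢
  have h3 : k ≠ 0 := by
    rintro rfl
    have := hpf.out.one_lt
    simp at h1
    omega
  have h4 : k ≠ 1 := by
    rintro rfl
    simp at h1
  have : k = 2 := by omega
  rw [this]

/-- Every element is a product. -/
theorem exists_pow_mul {z a : G} (hz : z ∈ A) (hz1 : z ≠ 1) (ha : a ∈ A) (haz : a ∉ zpowers z)
    {y : G} (hy : y ∈ A) : ∃ i j : ℕ, y = z ^ i * a ^ j := by
  have hcomm : ∀ u ∈ A, ∀ v ∈ A, u * v = v * u := fun u hu v hv =>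
    congrArg Subtype.val (hA.1.is_comm.comm (⟨u, hu⟩ : A) ⟨v, hv⟩)
  have hn : zpowers z ≤ normalizer ((zpowers a : Subgroup G) : Set G) := by
    apply centralizer_le_normalizer_of_le (C := ⊤)
    rw [zpowers_le, centralizer_zpowers', Subgroup.mem_centralizer_singleton_iff]
    exact hcomm a ha z hz
  rw [← sup_eq hA hc hz hz1 ha haz] at hy
  obtain ⟨u, hu, v, hv, rfl⟩ := mul_of_mem_sup hn hy
  obtain ⟨i, rfl⟩ := exists_nat_of_mem_zpowers hu
  obtain ⟨j, rfl⟩ := exists_nat_of_mem_zpowers hv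
  exact ⟨i, j, rfl⟩

/-- The action of a `p`-element on `A`: all "lines" other than the fixed one are conjugate. -/
theorem transvection {g z : G} (hgA : g ∈ normalizer (A : Set G)) {k : ℕ} (hgp : g ^ p ^ k = 1)
    (hz : z ∈ A) (hz1 : z ≠ 1) (hzg : g * z = z * g) (hm : g ∉ centralizer (A : Set G))
    {a a' : G} (ha : a ∈ A) (haz : a ∉ zpowers z) (ha' : a' ∈ A) (ha'z : a' ∉ zpowers z) :
    ∃ n : ℕ, zpowers (g ^ n * a * (g ^ n)⁻¹) = zpowers a' := by
  have hcomm : ∀ u ∈ A, ∀ v ∈ A, u * v = v * u := fun u hu v hv =>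
    congrArg Subtype.val (hA.1.is_comm.comm (⟨u, hu⟩ : A) ⟨v, hv⟩)
  have ha1 : a ≠ 1 := fun h => haz (h ▸ one_mem _)
  have ha'1 : a' ≠ 1 := fun h => ha'z (h ▸ one_mem _)
  have hordz : orderOf z = p := orderOf_eq hA hc hz hz1
  have horda : orderOf a = p := orderOf_eq hA hc ha ha1
  have hτ : ∀ y ∈ A, g * y * g⁻¹ ∈ A := fun y hy => (mem_normalizer_iff.mp hgA y).mp hy
  have hza : ∀ (i : ℕ) (j : ℕ), (z ^ i) * (a ^ j) = (a ^ j) * (z ^ i) := by
    intro i j
    exact ((show Commute z a from hcomm z hz a ha).pow_pow i j).eq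
  have hτz : ∀ i : ℕ, g * z ^ i * g⁻¹ = z ^ i := by
    intro i
    have : Commute g (z ^ i) := (show Commute g z from hzg).pow_right i
    rw [this.eq]; group
  -- the image of `a`
  obtain ⟨i, j, hij⟩ := exists_pow_mul hA hc hz hz1 ha haz (hτ a ha)
  -- iterate
  have hiter : ∀ n : ℕ, ∃ u : ℕ, g ^ n * a * (g ^ n)⁻¹ = z ^ u * a ^ (j ^ n) := by
    intro n
    induction n with
    | zero => exact ⟨0, by simp⟩
    | succ n ih =>
      obtain ⟨u, hu⟩ := ih
      have hpow : ∀ m : ℕ, g * a ^ m * g⁻¹ = (g * a * g⁻¹) ^ m := fun m => (conj_pow).symm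
      refine ⟨u + i * j ^ n, ?_⟩
      calc g ^ (n + 1) * a * (g ^ (n + 1))⁻¹ = g * (g ^ n * a * (g ^ n)⁻¹) * g⁻¹ := by
            rw [pow_succ']; group
        _ = (g * z ^ u * g⁻¹) * (g * a ^ (j ^ n) * g⁻¹) := by rw [hu]; group
        _ = z ^ u * (z ^ i * a ^ j) ^ (j ^ n) := by rw [hτz, hpow, hij]
        _ = z ^ u * (z ^ (i * j ^ n) * a ^ (j * j ^ n)) := by
            rw [((show Commute (z ^ i) (a ^ j) from hza i j).mul_pow), ← pow_mul, ← pow_mul]
        _ = z ^ (u + i * j ^ n) * a ^ (j ^ (n + 1)) := by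
            rw [pow_add, mul_assoc, pow_succ' j n]
  -- `a ^ j = a`
  have hinter : zpowers z ⊓ zpowers a = ⊥ := by
    rw [eq_bot_iff]
    intro y hy
    by_contra hy1
    have hy1' : y ≠ 1 := hy1
    have h1 : a ∈ zpowers y := generator_of_ne_one hpf.out horda hy.2 hy1'
    exact haz ((zpowers_le.mpr hy.1) h1)
  have hj : a ^ j = a := by
    obtain ⟨u, hu⟩ := hiter (p ^ k)
    rw [hgp] at hu
    simp only [one_mul, inv_one, mul_one] at hu
    -- `a ^ (j ^ p ^ k - 1)` type relation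
    have h1 : z ^ u * a ^ (j ^ p ^ k) = a := hu.symm
    have h2 : z ^ u = a * (a ^ (j ^ p ^ k))⁻¹ := eq_mul_inv_of_mul_eq h1
    have h3 : z ^ u ∈ zpowers z ⊓ zpowers a := by
      refine ⟨pow_mem (mem_zpowers z) u, ?_⟩
      rw [h2]
      exact (zpowers a).mul_mem (mem_zpowers a) ((zpowers a).inv_mem ((zpowers a).pow_mem (mem_zpowers a) _))
    rw [hinter, Subgroup.mem_bot] at h3
    rw [h3, one_mul] at h1
    -- Fermat
    have h4 : (j : ZMod p) ^ p ^ k = 1 := by
      have h5 : a ^ (j ^ p ^ k) = a ^ 1 := by rw [h1, pow_one]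
      have h6 : (j ^ p ^ k) ≡ 1 [MOD p] := by
        have := (pow_eq_pow_iff_modEq).mp h5
        rwa [horda] at this
      have h7 := (ZMod.natCast_eq_natCast_iff _ _ _).mpr h6
      push_cast at h7
      exact h7
    have h5 : (j : ZMod p) = 1 := by
      rw [ZMod.pow_card_pow] at h4
      exact h4
    have h6 : j ≡ 1 [MOD p] := by
      apply (ZMod.natCast_eq_natCast_iff _ _ _).mp
      push_cast
      exact h5
    have h7 : a ^ j = a ^ 1 := (pow_eq_pow_iff_modEq).mpr (by rwa [horda])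
    rwa [pow_one] at h7
  -- set `d`
  set d := z ^ i with hd
  have hτa : g * a * g⁻¹ = d * a := by rw [hij, hj]
  have hτd : g * d * g⁻¹ = d := hτz i
  have hdA : d ∈ A := pow_mem hz i
  have hd1 : d ≠ 1 := by
    intro h
    apply hm
    rw [h, one_mul] at hτa
    rw [Subgroup.mem_centralizer_iff]
    intro y hy
    obtain ⟨u, v, rfl⟩ := exists_pow_mul hA hc hz hz1 ha haz hy
    have hga : Commute g a := by
      show g * a = a * g
      calc g * a = (g * a * g⁻¹) * g := by group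
        _ = a * g := by rw [hτa]
    have h1 : Commute g (z ^ u * a ^ v) :=
      ((show Commute g z from hzg).pow_right u).mul_right (hga.pow_right v)
    exact h1.eq.symm
  have hitera : ∀ n : ℕ, g ^ n * a * (g ^ n)⁻¹ = d ^ n * a := by
    intro n
    induction n with
    | zero => simp
    | succ n ih =>
      have hdn : g * d ^ n * g⁻¹ = d ^ n := by
        rw [← conj_pow, hτd]
      calc g ^ (n + 1) * a * (g ^ (n + 1))⁻¹ = g * (g ^ n * a * (g ^ n)⁻¹) * g⁻¹ := by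
            rw [pow_succ']; group
        _ = (g * d ^ n * g⁻¹) * (g * a * g⁻¹) := by rw [ih]; group
        _ = d ^ (n + 1) * a := by rw [hdn, hτa, pow_succ, mul_assoc]
  -- the target
  obtain ⟨u, v, huv⟩ := exists_pow_mul hA hc hz hz1 ha haz ha'
  have hv : ¬ p ∣ v := by
    intro h
    apply ha'z
    obtain ⟨w, rfl⟩ := h
    rw [huv, pow_mul, ← horda, pow_orderOf_eq_one, one_pow, mul_one]
    exact pow_mem (mem_zpowers z) u
  -- an inverse of `v` modulo `p`
  obtain ⟨v', hv'⟩ : ∃ v' : ℕ, v * v' ≡ 1 [MOD p] := by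
    have hcop : Nat.Coprime v p := ((Nat.Prime.coprime_iff_not_dvd hpf.out).mpr hv).symm
    haveI : NeZero p := ⟨hpf.out.ne_zero⟩
    have h0 : (v : ZMod p) ≠ 0 := by
      intro h
      exact hv ((ZMod.natCast_eq_zero_iff _ _).mp h)
    refine ⟨((v : ZMod p)⁻¹).val, ?_⟩
    apply (ZMod.natCast_eq_natCast_iff _ _ _).mp
    push_cast
    rw [ZMod.natCast_zmod_val, mul_inv_cancel₀ h0]
  have hzd : z ∈ zpowers d := generator_of_ne_one hpf.out hordz (pow_mem (mem_zpowers z) i) hd1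
  have h8 : a ^ (v * v') = a := by
    have : a ^ (v * v') = a ^ 1 := (pow_eq_pow_iff_modEq).mpr (by rwa [horda])
    rwa [pow_one] at this
  have h9 : a' ^ v' = z ^ (u * v') * a := by
    rw [huv, ((show Commute (z ^ u) (a ^ v) from hza u v).mul_pow), ← pow_mul, ← pow_mul, h8]
  obtain ⟨n, hn⟩ := exists_nat_of_mem_zpowers (pow_mem hzd (u * v'))
  refine ⟨n, ?_⟩
  have h10 : g ^ n * a * (g ^ n)⁻¹ = a' ^ v' := by
    rw [hitera, h9, hn]
  have h11 : a' ^ v' ≠ 1 := by
    rw [← h10]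
    intro h
    apply ha1
    have : a = (g ^ n)⁻¹ * (g ^ n * a * (g ^ n)⁻¹) * g ^ n := by group
    rw [this, h]; group
  rw [h10]
  apply le_antisymm (zpowers_le.mpr (pow_mem (mem_zpowers a') v'))
  exact zpowers_le.mpr (generator_of_ne_one hpf.out (orderOf_eq hA hc ha' ha'1) (pow_mem (mem_zpowers a') v') h11)

end lines

/-- A Sylow subgroup of `N_σ` for a prime of `σ(N)` is a Sylow subgroup of `N`. -/
theorem isSylowIn_of_sigmaCore (hG : IsMinSimpleOddOrder G) {N S : Subgroup G} (hN : IsCoatom N) {s : ℕ}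
    [hs' : Fact s.Prime] (hs : s ∈ sigma N) (hS : IsSylowIn s S (sigmaCore N)) : IsSylowIn s S N := by
  refine ⟨hS.1.trans sigmaCore_le, hS.2.1, ?_⟩
  intro R hRN hRs hSR
  refine hS.2.2 R ?_ hRs hSR
  have hR' : IsPGroup s (R.subgroupOf N) := hRs.of_injective (Subgroup.subgroupOfEquivOfLe hRN).toMonoidHom (MulEquiv.injective _)
  obtain ⟨T, hT⟩ := hR'.exists_le_sylow
  intro x hx
  have h1 : (⟨x, hRN hx⟩ : N) ∈ (T : Subgroup N) := hT hx
  exact ⟨⟨x, hRN hx⟩, sylow_le_sigmaCore hG hN hs T h1, rfl⟩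

/-- A central element of order `p` in a nontrivial `p`-group. -/
theorem exists_central {P : Subgroup G} (hP : IsPGroup p P) (hne : P ≠ ⊥) :
    ∃ z ∈ P, z ≠ 1 ∧ z ^ p = 1 ∧ ∀ y ∈ P, y * z = z * y := by
  haveI : Nontrivial P := (Subgroup.nontrivial_iff_ne_bot P).mpr hne
  haveI := hP.center_nontrivial
  obtain ⟨w, hw⟩ := exists_ne (1 : Subgroup.center P)
  have hw1 : ((w : P) : G) ≠ 1 := by
    intro h
    exact hw (Subtype.ext (Subtype.ext h))
  obtain ⟨k, hk⟩ := hP (w : P)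
  have hk' : ((w : P) : G) ^ p ^ k = 1 := by simpa using congrArg Subtype.val hk
  obtain ⟨m, hm1, hm2⟩ : ∃ m < p ^ k, (((w : P) : G) ^ m ≠ 1 ∧ (((w : P) : G) ^ m) ^ p = 1) := by
    have hord : orderOf ((w : P) : G) ∣ p ^ k := orderOf_dvd_of_pow_eq_one hk'
    obtain ⟨j, hj, hj2⟩ := (Nat.dvd_prime_pow hpf.out).mp hord
    have hj0 : j ≠ 0 := by
      rintro rfl
      rw [pow_zero] at hj2
      exact hw1 (orderOf_eq_one_iff.mp hj2)
    obtain ⟨j', rfl⟩ := Nat.exists_eq_succ_of_ne_zero hj0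
    refine ⟨p ^ j', ?_, ?_, ?_⟩
    · calc p ^ j' < p ^ (j' + 1) := Nat.pow_lt_pow_right hpf.out.one_lt (by omega)
        _ ≤ p ^ k := Nat.pow_le_pow_right hpf.out.pos hj
    · apply pow_ne_one_of_lt_orderOf (pow_ne_zero _ hpf.out.ne_zero)
      rw [hj2]
      exact Nat.pow_lt_pow_right hpf.out.one_lt (by omega)
    · rw [← pow_mul, ← pow_succ, ← hj2, pow_orderOf_eq_one]
  refine ⟨_, pow_mem (w : P).2 m, hm2.1, hm2.2, ?_⟩
  intro y hy
  have h1 : Commute (⟨y, hy⟩ : P) (w : P) := by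
    have := Subgroup.mem_center_iff.mp w.2 ⟨y, hy⟩
    exact this
  have h2 : Commute y ((w : P) : G) := congrArg Subtype.val h1
  exact (h2.pow_right m).eq

namespace Ctx'

open Cfsg.Agent.Lib.BGTau2.Ctx

variable {A : Subgroup G} (c : Ctx p A)
include c

/-- If `K ≤ N`, `A ≤ N` with `p ∉ σ(N)`, then `A` is central in every Sylow `p`-subgroup of `N`
containing it and `N_G(A) ≰ N`. -/
theorem central_of_not_sigma {N : Subgroup G} (hN : IsCoatom N) (hAN : A ≤ N) (hKN : Kp A ≤ N) {s : ℕ}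
    [hs' : Fact s.Prime] (hs : s ∈ sigma N) (hp : p ∉ sigma N) {P : Subgroup G} (hP : IsSylowIn p P N)
    (hAP : A ≤ P) : P ≤ centralizer (A : Set G) ∧ ∃ t, t ∉ N ∧ t ∈ normalizer (P : Set G) ∧
      t ∈ normalizer (A : Set G) := by
  have hG := c.hG
  have hPp : IsPGroup p P := hP.2.1
  have hdN : p ∣ Nat.card N := by
    have h1 := dvd_card_of_isPGroup c.isP c.ne_bot
    exact h1.trans (Subgroup.card_dvd_of_le hAN)
  obtain ⟨t, htP, htN⟩ : ∃ t, t ∈ normalizer (P : Set G) ∧ t ∉ N := by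
    by_contra hno
    push Not at hno
    exact hp (Cfsg.Agent.Lib.BGSigma3.mem_sigma_of hP hdN hno)
  have hfinish : P ≤ centralizer (A : Set G) → t ∈ normalizer (A : Set G) := by
    intro hPC
    have h1 : cj A t ≤ A := by
      rintro _ ⟨x, hx, rfl⟩
      have hxP := hAP hx
      have h2 : t * x * t⁻¹ ∈ P := (mem_normalizer_iff.mp htP x).mp hxP
      have h3 : (t * x * t⁻¹) ^ p = 1 := by
        rw [conj_pow, c.ea.2 x hx]; group
      exact c.omega (hPC h2) h3
    rw [mem_normalizer_iff_cj]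
    exact Subgroup.eq_of_le_of_card_ge h1 (by rw [card_cj])
  suffices h : P ≤ centralizer (A : Set G) from ⟨h, t, htN, htP, hfinish h⟩
  by_contra hPC
  -- `C₁ = C_P(A)`
  let C₁ : Subgroup G := P ⊓ centralizer (A : Set G)
  have hC₁lt : C₁ < P := by
    refine lt_of_le_of_ne inf_le_left ?_
    intro h
    exact hPC (h ▸ inf_le_right)
  obtain ⟨g, hgP, hgC₁, hgn⟩ := BGUniq.exists_mem_normalizer_of_lt hPp hC₁lt
  have hgm : g ∉ centralizer (A : Set G) := fun h => hgC₁ ⟨hgP, h⟩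
  have hgA : g ∈ normalizer (A : Set G) := by
    have h1 : cj A g ≤ A := by
      rintro _ ⟨x, hx, rfl⟩
      have h2 : x ∈ C₁ := ⟨hAP hx, c.le_cent hx⟩
      have h3 : g * x * g⁻¹ ∈ C₁ := (mem_normalizer_iff.mp hgn x).mp h2
      have h4 : (g * x * g⁻¹) ^ p = 1 := by
        rw [conj_pow, c.ea.2 x hx]; group
      exact c.omega h3.2 h4
    rw [mem_normalizer_iff_cj]
    exact Subgroup.eq_of_le_of_card_ge h1 (by rw [card_cj])
  obtain ⟨k, hk⟩ := hPp ⟨g, hgP⟩
  have hgk : g ^ p ^ k = 1 := by simpa using congrArg Subtype.val hk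
  -- the central element
  have hPne : P ≠ ⊥ := fun h => c.ne_bot (by
    rw [eq_bot_iff, ← h]
    exact hAP)
  obtain ⟨z, hzP, hz1, hzp, hzc⟩ := exists_central hPp hPne
  have hzC : z ∈ centralizer (A : Set G) := by
    rw [Subgroup.mem_centralizer_iff]
    intro a ha
    exact hzc a (hAP ha)
  have hzA : z ∈ A := c.omega hzC hzp
  have hzg : g * z = z * g := hzc g hgP
  -- elements of `A` commuting with `g` are powers of `z`
  have hCg : ∀ y ∈ A, g * y = y * g → y ∈ zpowers z := by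
    intro y hy hyg
    by_contra hyz
    apply hgm
    rw [Subgroup.mem_centralizer_iff]
    intro x hx
    obtain ⟨u, v, rfl⟩ := exists_pow_mul c.ea c.card hzA hz1 hy hyz hx
    have h1 : Commute g (z ^ u * y ^ v) :=
      ((show Commute g z from hzg).pow_right u).mul_right ((show Commute g y from hyg).pow_right v)
    exact h1.eq.symm
  -- `t` normalizes `⟨z⟩`
  set z' := t * z * t⁻¹ with hz'
  have hz'P : z' ∈ P := (mem_normalizer_iff.mp htP z).mp hzP
  have hz'c : ∀ y ∈ P, y * z' = z' * y := by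
    intro y hy
    have h1 : t⁻¹ * y * t ∈ P := by
      have := (mem_normalizer_iff.mp (inv_mem htP) y).mp hy
      simpa using this
    have h2 := hzc _ h1
    calc y * z' = t * ((t⁻¹ * y * t) * z) * t⁻¹ := by rw [hz']; group
      _ = t * (z * (t⁻¹ * y * t)) * t⁻¹ := by rw [h2]
      _ = z' * y := by rw [hz']; group
  have hz'p : z' ^ p = 1 := by rw [hz', conj_pow, hzp]; group
  have hz'C : z' ∈ centralizer (A : Set G) := by
    rw [Subgroup.mem_centralizer_iff]
    intro a ha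
    exact hz'c a (hAP ha)
  have hz'A : z' ∈ A := c.omega hz'C hz'p
  have hz'z : z' ∈ zpowers z := hCg z' hz'A (hz'c g hgP)
  have hz'1 : z' ≠ 1 := by
    intro h
    apply hz1
    have : z = t⁻¹ * (t * z * t⁻¹) * t := by group
    rw [this, ← hz', h]; group
  have hordz : orderOf z = p := orderOf_eq c.ea c.card hzA hz1
  have hzz' : z ∈ zpowers z' := generator_of_ne_one hpf.out hordz hz'z hz'1
  have hCzz' : centralizer ({z'} : Set G) = centralizer ({z} : Set G) := by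
    rw [← centralizer_zpowers', ← centralizer_zpowers']
    have : zpowers z' = zpowers z := le_antisymm (zpowers_le.mpr hz'z) (zpowers_le.mpr hzz')
    rw [this]
  -- the `s`-subgroups
  have hsp : s ≠ p := by
    rintro rfl
    exact hp hs
  have hσs : Group.IsSolvable (sigmaCore N) :=
    IsMin.solvable hG (fun h => hN.1 (top_le_iff.mp (h ▸ sigmaCore_le)))
  have hPσ : P ≤ normalizer (sigmaCore N : Set G) := hP.1.trans le_normalizer_sigmaCore
  have hPcop : Nat.Coprime (Nat.card (sigmaCore N)) (Nat.card P) := by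
    obtain ⟨e, he⟩ := IsPGroup.iff_card.mp hPp
    rw [he]
    apply Nat.Coprime.pow_right
    apply Nat.Coprime.symm
    rw [Nat.Prime.coprime_iff_not_dvd hpf.out]
    intro h
    exact hp (primes_sigmaCore p hpf.out h)
  obtain ⟨Q₂, hQ₂σ, hQ₂P⟩ := exists_invariant_isSylowIn s hσs hPσ hPcop
  have hQ₂N : IsSylowIn s Q₂ N := isSylowIn_of_sigmaCore hG hN hs hQ₂σ
  have hQ₂G : IsSylowIn s Q₂ ⊤ := isSylowIn_top_of_sigma hs hQ₂N
  have hQ₂n : normalizer (Q₂ : Set G) ≤ N := normalizer_le_of_sigma hs hQ₂N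
  have hQ₂m : Q₂ ∈ maxInvSubgroups ⊤ A {s} := maxInv_of_sylow hQ₂G (hAP.trans hQ₂P)
  -- its conjugate
  let Q₃ : Subgroup G := cj Q₂ t
  have hQ₃P : P ≤ normalizer (Q₃ : Set G) := by
    have h1 := normalizer_cj_of_le (g := t) hQ₂P
    rwa [cj_eq_of_mem_normalizer htP] at h1
  have hQ₃G : IsSylowIn s Q₃ ⊤ := hQ₂G.cj_of_normalizer (Subgroup.mem_normalizer_iff.mpr (fun x => by simp))
  have hQ₃m : Q₃ ∈ maxInvSubgroups ⊤ A {s} := maxInv_of_sylow hQ₃G (hAP.trans hQ₃P)
  have hAnQ₂ : A ≤ normalizer (Q₂ : Set G) := hAP.trans hQ₂P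
  have hAnQ₃ : A ≤ normalizer (Q₃ : Set G) := hAP.trans hQ₃P
  have hcopQ : ∀ Q : Subgroup G, IsPGroup s Q → (Nat.card A).Coprime (Nat.card Q) := fun Q hQ =>
    (coprime_of_isPGroup (coprime_of_pgroup_ne hQ hsp) c.isP).symm
  -- conjugation of fixed points
  have hfixconj : ∀ (Y : Subgroup G) (h : G) (a : G), cj (Y ⊓ centralizer {a}) h ≤ cj Y h ⊓ centralizer {h * a * h⁻¹} := by
    rintro Y h a _ ⟨x, hx, rfl⟩
    refine ⟨⟨x, hx.1, rfl⟩, Subgroup.mem_centralizer_singleton_iff.mpr ?_⟩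
    have h1 := Subgroup.mem_centralizer_singleton_iff.mp hx.2
    show (MulAut.conj h).toMonoidHom x * (h * a * h⁻¹) = (h * a * h⁻¹) * (MulAut.conj h).toMonoidHom x
    simp only [MulEquiv.toMonoidHom_eq_coe, MonoidHom.coe_coe, MulAut.conj_apply]
    calc h * x * h⁻¹ * (h * a * h⁻¹) = h * (x * a) * h⁻¹ := by group
      _ = h * (a * x) * h⁻¹ := by rw [h1]
      _ = _ := by group
  have hcj_ne : ∀ (Y : Subgroup G) (h : G), Y ≠ ⊥ → cj Y h ≠ ⊥ := by
    intro Y h hY hb
    apply hY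
    rw [eq_bot_iff]
    intro x hx
    have h1 : h * x * h⁻¹ ∈ cj Y h := conj_mem_cj hx
    rw [hb, Subgroup.mem_bot] at h1
    rw [Subgroup.mem_bot]
    have : x = h⁻¹ * (h * x * h⁻¹) * h := by group
    rw [this, h1]; group
  -- the overlap
  have hover : ∃ H : Subgroup G, H ≠ ⊤ ∧ A ≤ H ∧ H ⊓ Q₂ ≠ ⊥ ∧ H ⊓ Q₃ ≠ ⊥ := by
    have hQ₃z : Q₂ ⊓ centralizer {z} = ⊥ ↔ Q₃ ⊓ centralizer {z} = ⊥ := by
      constructor
      · intro h
        by_contra hne
        have h2 := hfixconj Q₃ t⁻¹ z'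
        have e : t⁻¹ * z' * t⁻¹⁻¹ = z := by rw [hz']; group
        rw [e] at h2
        have e2 : cj Q₃ t⁻¹ = Q₂ := cj_cj_inv Q₂ t
        rw [e2, hCzz', h] at h2
        exact hcj_ne _ _ hne (le_bot_iff.mp h2)
      · intro h
        by_contra hne
        have h2 := hfixconj Q₂ t z
        rw [← hz', hCzz', inf_comm] at h2
        have h3 : cj (Q₂ ⊓ centralizer {z}) t = ⊥ := by
          rw [eq_bot_iff, ← h, inf_comm]
          exact h2
        exact hcj_ne _ _ hne h3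
    by_cases hz₀ : Q₂ ⊓ centralizer {z} = ⊥
    · -- the other lines
      have hz₃ := hQ₃z.mp hz₀
      have hQ₂ne : Q₂ ≠ ⊥ := by
        intro hb
        obtain ⟨x, hx⟩ := exists_prime_orderOf_dvd_card' (G := N) s hs.2.1
        have hRs : IsPGroup s ((zpowers (x : G)) : Subgroup G) := by
          rw [IsPGroup.iff_card, Nat.card_zpowers, Subgroup.orderOf_coe, hx]
          exact ⟨1, (pow_one s).symm⟩
        have hRN : zpowers (x : G) ≤ N := zpowers_le.mpr x.2
        have h1 := hQ₂N.2.2 _ hRN hRs (by rw [hb]; exact bot_le)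
        rw [hb] at h1
        have h2 : (x : G) ∈ (⊥ : Subgroup G) := h1 ▸ mem_zpowers (x : G)
        rw [Subgroup.mem_bot] at h2
        have h3 : x = 1 := Subtype.ext h2
        rw [h3, orderOf_one] at hx
        exact hs'.out.one_lt.ne hx
      have hQ₃ne : Q₃ ≠ ⊥ := hcj_ne Q₂ t hQ₂ne
      have hnot : ∀ a : G, a ∈ A → a ≠ 1 → ∀ Y : Subgroup G, Y ⊓ centralizer {z} = ⊥ → Y ⊓ centralizer {a} ≠ ⊥ → a ∉ zpowers z := by
        intro a ha ha1 Y hY hne haz
        apply hne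
        have hza : z ∈ zpowers a := generator_of_ne_one hpf.out (orderOf_eq c.ea c.card hzA hz1) haz ha1
        have h1 : centralizer ({a} : Set G) ≤ centralizer ({z} : Set G) := by
          rw [← centralizer_zpowers' a, ← centralizer_zpowers' z]
          exact Subgroup.centralizer_le (by simpa using zpowers_le.mpr hza)
        rw [eq_bot_iff, ← hY]
        exact inf_le_inf_left _ h1
      obtain ⟨a, ha, ha1, hane⟩ := exists_line c.ea c.card hAnQ₂ (hcopQ Q₂ hQ₂G.2.1) hQ₂ne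
      obtain ⟨a₃, ha₃, ha₃1, ha₃ne⟩ := exists_line c.ea c.card hAnQ₃ (hcopQ Q₃ hQ₃G.2.1) hQ₃ne
      have haz := hnot a ha ha1 Q₂ hz₀ hane
      have ha₃z := hnot a₃ ha₃ ha₃1 Q₃ hz₃ ha₃ne
      obtain ⟨n, hn⟩ := transvection c.ea c.card hgA hgk hzA hz1 hzg hgm ha haz ha₃ ha₃z
      refine ⟨centralizer {a₃}, c.cent_elem_ne_top ha₃1, c.le_cent_elem ha₃, ?_, ?_⟩
      · have h1 := hfixconj Q₂ (g ^ n) a
        have hgQ : g ^ n ∈ normalizer (Q₂ : Set G) := pow_mem (hQ₂P hgP) n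
        rw [cj_eq_of_mem_normalizer hgQ, ← centralizer_zpowers' (g ^ n * a * (g ^ n)⁻¹), hn, centralizer_zpowers'] at h1
        intro hb
        rw [inf_comm] at hb
        rw [hb] at h1
        exact hcj_ne _ _ hane (le_bot_iff.mp h1)
      · rwa [inf_comm]
    · refine ⟨centralizer {z}, c.cent_elem_ne_top hz1, c.le_cent_elem hzA, ?_, ?_⟩
      · rwa [inf_comm]
      · intro hb
        exact hz₀ (hQ₃z.mpr (by rwa [inf_comm] at hb))
  obtain ⟨H, hH, hAH, hH₂, hH₃⟩ := hover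
  obtain ⟨k', hk', he⟩ := c.conj_of_overlap hsp hQ₂m hQ₃m hH hAH hH₂ hH₃
  have h1 : k'⁻¹ * t ∈ normalizer (Q₂ : Set G) := by
    rw [mem_normalizer_iff_cj]
    have h2 : cj Q₂ t = cj Q₂ k' := he
    calc cj Q₂ (k'⁻¹ * t) = cj (cj Q₂ t) k'⁻¹ := (cj_cj Q₂ _ _).symm
      _ = cj (cj Q₂ k') k'⁻¹ := by rw [h2]
      _ = Q₂ := cj_cj_inv Q₂ k'
  have h2 := hQ₂n h1
  apply htN
  have h3 : t = k' * (k'⁻¹ * t) := by group
  rw [h3]
  exact N.mul_mem (hKN hk') h2

end Ctx'

end Cfsg.Agent.Lib.BGTau3
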