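import Mathlib
import Cfsg.Agent.Lib.BGTau3
import Cfsg.Agent.Lib.BGSigma4
import Cfsg.Agent.Lib.CoprimeIndexP
import Cfsg.Agent.S1452
import Cfsg.Agent.S1453

/-!
# Bender-Glauberman section 12: coprime action on `[K, A]`; a pair of commuting elements in
different "lines" of a `q`-group of rank at least three with cyclic fixed points.
-/

set_option autoImplicit false
set_option linter.unusedSectionVars false
set_option linter.unusedVariables false
set_option linter.style.haveILetI false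
set_option linter.unusedSimpArgs false

namespace Cfsg.Agent.Lib.BGTau4

open Cfsg Subgroup Cfsg.Agent.Lib.CoprimeInv Cfsg.Agent.Lib.BGTrans Cfsg.Agent.Lib.BGTrans2
  Cfsg.Agent.Lib.BGUniq2 Cfsg.Agent.Lib.BGTau1 Cfsg.Agent.Lib.BGTau2
  Cfsg.Agent.Lib.BGTau3 Cfsg.Agent.Lib.BGUT1 Cfsg.Agent.Lib.Glauberman
open scoped commutatorElement

universe u

variable {G : Type u} [Group G] [Finite G]

/-- From `cj D x ≤ D` to the normalizer. -/
theorem mem_normalizer_of_forall {D : Subgroup G} {x : G} (h : ∀ y ∈ D, x * y * x⁻¹ ∈ D) :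
    x ∈ normalizer (D : Set G) := by
  rw [mem_normalizer_iff_cj]
  apply Subgroup.eq_of_le_of_card_ge
  · rintro _ ⟨y, hy, rfl⟩
    exact h y hy
  · rw [card_cj]

/-- Elements commuting with `a` normalize `C(a)`. -/
theorem mem_normalizer_cent_elem {a b : G} (h : b * a = a * b) :
    b ∈ normalizer ((centralizer ({a} : Set G) : Subgroup G) : Set G) := by
  apply mem_normalizer_of_forall
  intro y hy
  have h1 := Subgroup.mem_centralizer_singleton_iff.mp hy
  refine Subgroup.mem_centralizer_singleton_iff.mpr ?_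
  have h2 : b⁻¹ * a = a * b⁻¹ := by
    calc b⁻¹ * a = b⁻¹ * (a * b) * b⁻¹ := by group
      _ = b⁻¹ * (b * a) * b⁻¹ := by rw [h]
      _ = a * b⁻¹ := by group
  calc b * y * b⁻¹ * a = b * y * (b⁻¹ * a) := by group
    _ = b * y * (a * b⁻¹) := by rw [h2]
    _ = b * (y * a) * b⁻¹ := by group
    _ = b * (a * y) * b⁻¹ := by rw [h1]
    _ = (b * a) * y * b⁻¹ := by group
    _ = a * (b * y * b⁻¹) := by rw [h]; group

/-- `K` normalizes `[K, A]`. -/
theorem le_normalizer_comm_left (K A : Subgroup G) : K ≤ normalizer ((⁅K, A⁆ : Subgroup G) : Set G) := by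
  intro x hx
  apply mem_normalizer_of_forall
  have hle : ⁅K, A⁆ ≤ ⁅K, A⁆.comap (MulAut.conj x).toMonoidHom := by
    rw [Subgroup.commutator_le]
    intro k hk a ha
    rw [Subgroup.mem_comap]
    show x * ⁅k, a⁆ * x⁻¹ ∈ ⁅K, A⁆
    have e : x * ⁅k, a⁆ * x⁻¹ = ⁅x * k, a⁆ * ⁅x, a⁆⁻¹ := by
      simp only [commutatorElement_def]
      group
    rw [e]
    exact mul_mem (Subgroup.commutator_mem_commutator (K.mul_mem hx hk) ha)
      (inv_mem (Subgroup.commutator_mem_commutator hx ha))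
  intro y hy
  exact hle hy

theorem le_normalizer_comm_right (K A : Subgroup G) : A ≤ normalizer ((⁅K, A⁆ : Subgroup G) : Set G) := by
  rw [Subgroup.commutator_comm]
  exact le_normalizer_comm_left A K

/-- **`[K, A, A] = [K, A]`** for coprime action. -/
theorem le_comm_comm {K A : Subgroup G} (hAK : A ≤ normalizer (K : Set G))
    (hcop : (Nat.card A).Coprime (Nat.card K)) (hsolv : Group.IsSolvable A ∨ Group.IsSolvable K) :
    ⁅K, A⁆ ≤ ⁅⁅K, A⁆, A⁆ := by
  set D : Subgroup G := ⁅K, A⁆ with hD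
  set D₁ : Subgroup G := ⁅D, A⁆ with hD₁
  have hDK : D ≤ K := commutator_le_of_le_normalizer hAK
  have hAD₁ : A ≤ normalizer (D₁ : Set G) := le_normalizer_comm_right D A
  have hDD₁ : D ≤ normalizer (D₁ : Set G) := le_normalizer_comm_left D A
  have hD₁D : D₁ ≤ D := commutator_le_of_le_normalizer (le_normalizer_comm_right K A)
  have hKD : K ≤ normalizer (D : Set G) := le_normalizer_comm_left K A
  have hCD₁ : K ⊓ centralizer (A : Set G) ≤ normalizer (D₁ : Set G) := by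
    intro c hc
    apply mem_normalizer_of_forall
    have hle : D₁ ≤ D₁.comap (MulAut.conj c).toMonoidHom := by
      rw [hD₁, Subgroup.commutator_le]
      intro d hd a ha
      rw [Subgroup.mem_comap]
      show c * ⁅d, a⁆ * c⁻¹ ∈ _
      have hca : c * a = a * c := (Subgroup.mem_centralizer_iff.mp hc.2 a ha).symm
      have e : c * ⁅d, a⁆ * c⁻¹ = ⁅c * d * c⁻¹, a⁆ := by
        simp only [commutatorElement_def]
        have h1 : a⁻¹ * c⁻¹ = c⁻¹ * a⁻¹ := by
          rw [← mul_inv_rev, ← mul_inv_rev, hca]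
        calc c * (d * a * d⁻¹ * a⁻¹) * c⁻¹ = c * d * a * d⁻¹ * (a⁻¹ * c⁻¹) := by group
          _ = c * d * a * d⁻¹ * (c⁻¹ * a⁻¹) := by rw [h1]
          _ = c * d * c⁻¹ * (c * a) * d⁻¹ * c⁻¹ * a⁻¹ := by group
          _ = c * d * c⁻¹ * (a * c) * d⁻¹ * c⁻¹ * a⁻¹ := by rw [hca]
          _ = _ := by group
      rw [e]
      exact Subgroup.commutator_mem_commutator ((mem_normalizer_iff.mp (hKD hc.1) d).mp hd) ha
    intro y hy
    exact hle hy
  have hKD₁ : K ≤ normalizer (D₁ : Set G) := by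
    rw [← commutator_sup_inf_centralizer hAK hcop hsolv]
    exact sup_le hDD₁ hCD₁
  rw [Subgroup.commutator_le]
  intro k hk a ha
  -- `d' = [k, a]`, with `k' = k⁻¹`
  set k' := k⁻¹ with hk'
  have hk'K : k' ∈ K := K.inv_mem hk
  set d := ⁅k, a⁆ with hd
  have hdD : d ∈ D := Subgroup.commutator_mem_commutator hk ha
  have hτk : a * k' * a⁻¹ = k' * d := by
    rw [hd, hk', commutatorElement_def]; group
  -- `a d a⁻¹ = d e₀`
  obtain ⟨e₀, he₀, hτd⟩ : ∃ e₀ ∈ D₁, a * d * a⁻¹ = d * e₀ := by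
    refine ⟨⁅d⁻¹, a⁆, Subgroup.commutator_mem_commutator (D.inv_mem hdD) ha, ?_⟩
    rw [commutatorElement_def]; group
  have hdn : ∀ (x : G), x ∈ D → ∀ e ∈ D₁, x * e * x⁻¹ ∈ D₁ := fun x hx e he =>
    (mem_normalizer_iff.mp (hDD₁ hx) e).mp he
  -- powers of `d e₀`
  have hpow : ∀ n : ℕ, ∃ e ∈ D₁, (d * e₀) ^ n = d ^ n * e := by
    intro n
    induction n with
    | zero => exact ⟨1, D₁.one_mem, by simp⟩
    | succ n ih =>
      obtain ⟨e, he, hn⟩ := ih
      refine ⟨d⁻¹ * e * d * e₀, D₁.mul_mem ?_ he₀, ?_⟩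
      · have := hdn d⁻¹ (D.inv_mem hdD) e he
        simpa using this
      · rw [pow_succ, hn, pow_succ]; group
  -- the iterate
  have hiter : ∀ n : ℕ, ∃ e ∈ D₁, a ^ n * k' * (a ^ n)⁻¹ = k' * d ^ n * e := by
    intro n
    induction n with
    | zero => exact ⟨1, D₁.one_mem, by simp⟩
    | succ n ih =>
      obtain ⟨e, he, hn⟩ := ih
      obtain ⟨e₁, he₁, hp⟩ := hpow n
      refine ⟨e₁ * (a * e * a⁻¹), D₁.mul_mem he₁ ((mem_normalizer_iff.mp (hAD₁ ha) e).mp he), ?_⟩
      have hconj : a * d ^ n * a⁻¹ = (d * e₀) ^ n := by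
        rw [← conj_pow, hτd]
      calc a ^ (n + 1) * k' * (a ^ (n + 1))⁻¹ = a * (a ^ n * k' * (a ^ n)⁻¹) * a⁻¹ := by
            rw [pow_succ']; group
        _ = (a * k' * a⁻¹) * (a * d ^ n * a⁻¹) * (a * e * a⁻¹) := by rw [hn]; group
        _ = (k' * d) * (d ^ n * e₁) * (a * e * a⁻¹) := by rw [hτk, hconj, hp]
        _ = k' * d ^ (n + 1) * (e₁ * (a * e * a⁻¹)) := by rw [pow_succ']; group
  obtain ⟨e, he, hn⟩ := hiter (orderOf a)
  rw [pow_orderOf_eq_one] at hn
  simp only [one_mul, inv_one, mul_one] at hn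
  have h1 : d ^ orderOf a = e⁻¹ := by
    have h2 : k' * (d ^ orderOf a * e) = k' * 1 := by
      rw [mul_one, ← mul_assoc]
      exact hn.symm
    have h3 := mul_left_cancel h2
    exact eq_inv_of_mul_eq_one_left h3
  have h4 : d ^ orderOf a ∈ D₁ := by
    rw [h1]
    exact D₁.inv_mem he
  have hcop2 : (orderOf d).Coprime (orderOf a) := by
    have h5 : orderOf d ∣ Nat.card K := Subgroup.orderOf_dvd_natCard K (hDK hdD)
    have h6 : orderOf a ∣ Nat.card A := Subgroup.orderOf_dvd_natCard A ha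
    exact Nat.Coprime.coprime_dvd_left h5 (Nat.Coprime.coprime_dvd_right h6 hcop.symm)
  exact mem_of_pow_mem_of_coprime' hcop2 h4

/-! ## Cyclic fixed points -/

section cyc

variable {p q : ℕ} [hp : Fact p.Prime] [hq : Fact q.Prime] {Q A : Subgroup G}

/-- A `q`-subgroup with a nontrivial element, in a cyclic group, contains the elements of order `q`. -/
theorem mem_of_cyclic_of_ne_bot {Y D : Subgroup G} (hY : IsCyclic Y) (hDY : D ≤ Y) (hD : IsPGroup q D)
    (hne : D ≠ ⊥) {z : G} (hzY : z ∈ Y) (hzq : z ^ q = 1) : z ∈ D := by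
  obtain ⟨d, hdD, hd1, hdq, -⟩ := exists_central hD hne
  have hord : orderOf d = q := orderOf_eq_prime hdq hd1
  exact (zpowers_le.mpr hdD) (mem_zpowers_of_cyclic hY hq.out (hDY hdD) hzY hord hzq)

theorem comm_of_cyclic_of_fix {Y : Subgroup G} (hY : IsCyclic Y) (hYq : IsPGroup q Y) {b : G} {s : ℕ}
    [hs : Fact s.Prime] (hbs : b ^ s = 1) (hsq : s ≠ q) (hbY : b ∈ normalizer (Y : Set G)) {z : G}
    (hzY : z ∈ Y) (hz1 : z ≠ 1) (hzq : z ^ q = 1) (hzb : z * b = b * z) :
    Y ≤ centralizer ({b} : Set G) := by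
  have hBY : zpowers b ≤ normalizer (Y : Set G) := zpowers_le.mpr hbY
  have hcopB : (Nat.card (zpowers b)).Coprime (Nat.card Y) := by
    obtain ⟨k, hk⟩ := IsPGroup.iff_card.mp hYq
    rw [hk]
    apply Nat.Coprime.pow_right
    have : Nat.card (zpowers b) ∣ s := by
      rw [Nat.card_zpowers]
      exact orderOf_dvd_of_pow_eq_one hbs
    exact Nat.Coprime.coprime_dvd_left this ((Nat.coprime_primes hs.out hq.out).mpr hsq)
  have hsB : Group.IsSolvable (zpowers b) ∨ Group.IsSolvable Y := Or.inl inferInstance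
  set D : Subgroup G := ⁅Y, zpowers b⁆ with hD
  have hDY : D ≤ Y := commutator_le_of_le_normalizer hBY
  have hDq : IsPGroup q D := hYq.to_le hDY
  have hcomm : ∀ x ∈ D, ∀ y ∈ D, x * y = y * x := by
    intro x hx y hy
    haveI := hY
    have := (IsCyclic.commGroup (α := Y)).mul_comm ⟨x, hDY hx⟩ ⟨y, hDY hy⟩
    exact congrArg Subtype.val this
  have hDle : D ≤ ⁅D, zpowers b⁆ := le_comm_comm hBY hcopB hsB
  have hcopD : (Nat.card (zpowers b)).Coprime (Nat.card D) :=
    Nat.Coprime.coprime_dvd_right (Subgroup.card_dvd_of_le hDY) hcopB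
  have hinf : D ⊓ centralizer ((zpowers b : Subgroup G) : Set G) = ⊥ :=
    Cfsg.Agent.Lib.CoprimeIndexP.inf_centralizer_eq_bot_of_comm (le_normalizer_comm_right Y _) hcopD hcomm hDle
  have hDbot : D = ⊥ := by
    by_contra hne
    have hzD := mem_of_cyclic_of_ne_bot hY hDY hDq hne hzY hzq
    have hzC : z ∈ centralizer ((zpowers b : Subgroup G) : Set G) := by
      rw [centralizer_zpowers', Subgroup.mem_centralizer_singleton_iff]
      exact hzb
    have : z ∈ D ⊓ centralizer ((zpowers b : Subgroup G) : Set G) := ⟨hzD, hzC⟩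
    rw [hinf, Subgroup.mem_bot] at this
    exact hz1 this
  intro y hy
  rw [Subgroup.mem_centralizer_singleton_iff]
  have h1 : ⁅y, b⁆ ∈ D := Subgroup.commutator_mem_commutator hy (mem_zpowers b)
  rw [hDbot, Subgroup.mem_bot] at h1
  exact commutatorElement_eq_one_iff_mul_comm.mp h1

variable (hA : IsElementaryAbelian p A) (hc : Nat.card A = p ^ 2)
include hA hc

/-- The fixed points of `A` on `Q` are trivial if all `C_Q(a)` are cyclic and `Q` is not cyclic. -/
theorem cent_trivial (hqp : q ≠ p) (hQ : IsPGroup q Q) (hQc : ¬ IsCyclic Q)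
    (hAQ : A ≤ normalizer (Q : Set G))
    (hcyc : ∀ a ∈ A, a ≠ 1 → IsCyclic ↥(Q ⊓ centralizer ({a} : Set G))) :
    Q ⊓ centralizer (A : Set G) = ⊥ := by
  by_contra hne
  have hTq : IsPGroup q ↥(Q ⊓ centralizer (A : Set G)) := hQ.to_le inf_le_left
  obtain ⟨z, hzT, hz1, hzq, -⟩ := exists_central hTq hne
  have hAcomm : ∀ u ∈ A, ∀ v ∈ A, u * v = v * u := fun u hu v hv =>
    congrArg Subtype.val (hA.1.is_comm.comm (⟨u, hu⟩ : A) ⟨v, hv⟩)
  have hcopA : (Nat.card A).Coprime (Nat.card Q) := by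
    rw [hc]
    obtain ⟨k, hk⟩ := IsPGroup.iff_card.mp hQ
    rw [hk]
    exact Nat.Coprime.pow _ _ ((Nat.coprime_primes hp.out hq.out).mpr hqp.symm)
  -- every line centralizes `Q ⊓ C(a)`
  have hQC : Q ≤ centralizer (A : Set G) := by
    apply le_of_lines hA hc hAQ hcopA
    intro a ha ha1 y hy
    rw [Subgroup.mem_centralizer_iff]
    intro b hb
    have hYn : b ∈ normalizer ((Q ⊓ centralizer ({a} : Set G) : Subgroup G) : Set G) := by
      refine le_normalizer_inf hAQ ?_ hb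
      intro x hx
      exact mem_normalizer_cent_elem (hAcomm x hx a ha)
    have hzY : z ∈ Q ⊓ centralizer ({a} : Set G) := by
      refine ⟨hzT.1, Subgroup.mem_centralizer_singleton_iff.mpr ?_⟩
      exact (Subgroup.mem_centralizer_iff.mp hzT.2 a ha).symm
    have hzb : z * b = b * z := (Subgroup.mem_centralizer_iff.mp hzT.2 b hb).symm
    have h1 := comm_of_cyclic_of_fix (hcyc a ha ha1) (hQ.to_le inf_le_left) (hA.2 b hb) hqp.symm hYn hzY hz1 hzq hzb
    have h2 := h1 hy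
    rw [Subgroup.mem_centralizer_singleton_iff] at h2
    exact h2.symm
  -- so `Q` is cyclic
  apply hQc
  obtain ⟨a, ha, ha1⟩ : ∃ a ∈ A, a ≠ 1 := by
    by_contra hno
    push Not at hno
    have h1 : A = ⊥ := by
      rw [eq_bot_iff]
      intro x hx
      exact hno x hx
    rw [h1, Subgroup.card_bot] at hc
    have h2 := hp.out.two_le
    have : 1 < p ^ 2 := Nat.one_lt_pow (by norm_num) (by omega)
    omega
  have h1 : Q ⊓ centralizer ({a} : Set G) = Q := by
    apply inf_eq_left.mpr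
    intro y hy
    rw [Subgroup.mem_centralizer_singleton_iff]
    exact (Subgroup.mem_centralizer_iff.mp (hQC hy) a ha).symm
  have h2 := hcyc a ha ha1
  rwa [h1] at h2

/-- The pair of commuting elements: if `Q` has rank at least three and all `C_Q(a)` are cyclic, then
there are commuting `x₀, x₁` of order `q` in different lines, in an abelian subgroup of rank at least
three. -/
theorem exists_pair (hq2 : q ≠ 2) (hqp : q ≠ p) (hQ : IsPGroup q Q) (hr : ¬ PRankLE q 2 Q)
    (hAQ : A ≤ normalizer (Q : Set G))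
    (hcyc : ∀ a ∈ A, a ≠ 1 → IsCyclic ↥(Q ⊓ centralizer ({a} : Set G))) :
    ∃ (x₀ x₁ a₀ a₁ : G) (B : Subgroup G), B ≤ Q ∧ IsMulCommutative B ∧ ¬ PRankLE q 2 B ∧ x₀ ∈ B ∧ x₁ ∈ B ∧
      x₀ ≠ 1 ∧ x₁ ≠ 1 ∧ x₀ ^ q = 1 ∧ x₁ ^ q = 1 ∧ a₀ ∈ A ∧ a₁ ∈ A ∧ a₀ ≠ 1 ∧ a₁ ≠ 1 ∧
      x₀ * a₀ = a₀ * x₀ ∧ x₁ * a₁ = a₁ * x₁ ∧ x₁ ∉ zpowers x₀ := by
  have hcopA : (Nat.card A).Coprime (Nat.card Q) := by
    rw [hc]
    obtain ⟨k, hk⟩ := IsPGroup.iff_card.mp hQ
    rw [hk]
    exact Nat.Coprime.pow _ _ ((Nat.coprime_primes hp.out hq.out).mpr hqp.symm)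
  have hQc : ¬ IsCyclic Q := by
    intro hcy
    apply hr
    rw [Cfsg.Agent.Lib.BGSigma.prankLE_iff]
    intro E hEQ hEc hEe
    have h1 : IsCyclic E := by
      haveI := hcy
      have : Function.Injective (Subgroup.inclusion hEQ) := Subgroup.inclusion_injective hEQ
      exact isCyclic_of_injective (Subgroup.inclusion hEQ) this
    have h2 : Monoid.exponent E ∣ q := by
      apply Monoid.exponent_dvd_of_forall_pow_eq_one
      intro a
      exact Subtype.ext (hEe a a.2)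
    rw [IsCyclic.exponent_eq_card] at h2
    calc Nat.card E ≤ q := Nat.le_of_dvd hq.out.pos h2
      _ ≤ q ^ 2 := by
        have h3 := hq.out.two_le
        nlinarith
  by_cases hN : ∃ E : Subgroup G, E ≤ Q ∧ IsElementaryAbelian q E ∧ Nat.card E = q ^ 2 ∧
      ∀ B : Subgroup G, IsElementaryAbelian q B → B ≤ Q → E ≤ B → B = E
  · obtain ⟨E, hEQ, hEe, hE2, hEmax⟩ := hN
    -- the structure of `Q`
    have hE' : IsElementaryAbelian q (E.subgroupOf Q) := by
      refine ⟨⟨⟨?_⟩⟩, ?_⟩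
      · rintro ⟨a, ha⟩ ⟨b, hb⟩
        apply Subtype.ext
        apply Subtype.ext
        have := hEe.1.is_comm.comm (⟨(a : G), ha⟩ : E) ⟨(b : G), hb⟩
        show (a : G) * (b : G) = (b : G) * (a : G)
        exact congrArg Subtype.val this
      · intro a ha
        apply Subtype.ext
        exact hEe.2 a ha
    have hE'2 : Nat.card (E.subgroupOf Q) = q ^ 2 := by
      rw [card_subgroupOf_of_le hEQ, hE2]
    have hE'max : ∀ B : Subgroup Q, IsElementaryAbelian q B → E.subgroupOf Q ≤ B → B = E.subgroupOf Q := by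
      intro B hB hEB
      have hBG : IsElementaryAbelian q (B.map Q.subtype) := by
        refine ⟨⟨⟨?_⟩⟩, ?_⟩
        · rintro ⟨_, a, ha, rfl⟩ ⟨_, b, hb, rfl⟩
          apply Subtype.ext
          have := hB.1.is_comm.comm (⟨a, ha⟩ : B) ⟨b, hb⟩
          show ((a : Q) : G) * b = b * a
          have h2 : a * b = b * a := congrArg Subtype.val this
          exact congrArg Subtype.val h2
        · rintro _ ⟨a, ha, rfl⟩
          exact congrArg Subtype.val (hB.2 a ha)
      have hEB' : E ≤ B.map Q.subtype := by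
        intro e he
        exact ⟨⟨e, hEQ he⟩, hEB he, rfl⟩
      have h1 := hEmax _ hBG (Subgroup.map_subtype_le _) hEB'
      apply le_antisymm _ hEB
      intro y hy
      have h2 : (y : G) ∈ B.map Q.subtype := ⟨y, hy, rfl⟩
      rw [h1] at h2
      exact h2
    have hQp : IsPGroup q Q := hQ
    have hrk' : ¬ PRankLE q 2 Q := hr
    obtain ⟨-, -, ⟨hWe, hWcard⟩, -, -⟩ :=
      Cfsg.Agent.S1453.result q hq2 hQp hrk' (E.subgroupOf Q) hE' hE'2 hE'max
    change IsElementaryAbelian q (Cfsg.Agent.Lib.BGSigma4.omegaZ2 q Q) at hWe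
    change Nat.card (Cfsg.Agent.Lib.BGSigma4.omegaZ2 q Q) = q ^ 2 at hWcard
    haveI hWn : (Cfsg.Agent.Lib.BGSigma4.omegaZ2 q Q).Normal := Cfsg.Agent.Lib.BGSigma4.omegaZ2_normal q
    obtain ⟨A', hWA, hAn, hAC, hA3⟩ := Cfsg.Agent.S1452.result q hq2 hQp hrk' (Cfsg.Agent.Lib.BGSigma4.omegaZ2 q Q) hWe hWcard
    set W : Subgroup G := (Cfsg.Agent.Lib.BGSigma4.omegaZ2 q Q).map Q.subtype with hW
    have hWQ : W ≤ Q := Subgroup.map_subtype_le _
    have hWexp : ∀ w ∈ W, w ^ q = 1 := by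
      rintro _ ⟨a, ha, rfl⟩
      exact congrArg Subtype.val (hWe.2 a ha)
    have hWc : Nat.card W = q ^ 2 := by
      rw [hW, Subgroup.card_map_of_injective Q.subtype_injective, hWcard]
    have hAW : A ≤ normalizer (W : Set G) := by
      intro a ha
      apply mem_normalizer_of_forall
      rintro _ ⟨w, hw, rfl⟩
      refine ⟨Cfsg.Agent.Lib.BGSigma4.conjOn Q a (hAQ ha) w, Cfsg.Agent.Lib.BGSigma4.omegaZ2_map _ hw, ?_⟩
      rfl
    have hcopW : (Nat.card A).Coprime (Nat.card W) := Nat.Coprime.coprime_dvd_right (Subgroup.card_dvd_of_le hWQ) hcopA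
    have hW1 : W ≠ ⊥ := by
      intro h
      rw [h, Subgroup.card_bot] at hWc
      have h2 := hq.out.two_le
      have : 1 < q ^ 2 := Nat.one_lt_pow (by norm_num) (by omega)
      omega
    obtain ⟨a₀, ha₀, ha₀1, hne₀⟩ := exists_line hA hc hAW hcopW hW1
    obtain ⟨x₀, hx₀, hx₀1⟩ := exists_mem_ne_one hne₀
    have hordx₀ : orderOf x₀ = q := orderOf_eq_prime (hWexp x₀ hx₀.1) hx₀1
    have hWnot : ¬ W ≤ zpowers x₀ := by
      intro h
      have h1 := Subgroup.card_le_of_le h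
      rw [Nat.card_zpowers, hordx₀, hWc] at h1
      have h2 := hq.out.two_le
      nlinarith
    obtain ⟨a₁, ha₁, ha₁1, hne₁⟩ : ∃ a₁ ∈ A, a₁ ≠ 1 ∧ ¬ (W ⊓ centralizer {a₁} ≤ zpowers x₀) := by
      by_contra hno
      push Not at hno
      exact hWnot (le_of_lines hA hc hAW hcopW hno)
    obtain ⟨x₁, hx₁, hx₁z⟩ := SetLike.not_le_iff_exists.mp hne₁
    have hx₁1 : x₁ ≠ 1 := fun h => hx₁z (h ▸ one_mem _)
    -- the abelian subgroup
    have hBcomm : IsMulCommutative ↥(A'.map Q.subtype) := by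
      refine ⟨⟨?_⟩⟩
      rintro ⟨_, a, ha, rfl⟩ ⟨_, b, hb, rfl⟩
      apply Subtype.ext
      have h1 : a ∈ centralizer (A' : Set Q) := by
        rw [hAC]; exact ha
      have h2 := Subgroup.mem_centralizer_iff.mp h1 b hb
      show ((a : Q) : G) * b = b * a
      have h3 := congrArg Subtype.val h2
      exact h3.symm
    have hBr : ¬ PRankLE q 2 ↥(A'.map Q.subtype) := by
      intro h
      apply hA3
      let f : A' →* ↥(A'.map Q.subtype) :=
        { toFun := fun a => ⟨((a : Q) : G), ⟨a, a.2, rfl⟩⟩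
          map_one' := rfl
          map_mul' := fun _ _ => rfl }
      have hf : Function.Injective f := by
        intro a b hab
        have h1 := congrArg Subtype.val hab
        exact Subtype.ext (Subtype.ext h1)
      exact Cfsg.Agent.Lib.BGUniq2.prankLE_of_injective f hf h
    have hWB : W ≤ A'.map Q.subtype := Subgroup.map_mono hWA
    refine ⟨x₀, x₁, a₀, a₁, A'.map Q.subtype, Subgroup.map_subtype_le _, hBcomm, hBr, hWB hx₀.1, hWB hx₁.1,
      hx₀1, hx₁1, hWexp x₀ hx₀.1, hWexp x₁ hx₁.1, ha₀, ha₁, ha₀1, ha₁1, ?_, ?_, hx₁z⟩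
    · exact Subgroup.mem_centralizer_singleton_iff.mp hx₀.2
    · exact Subgroup.mem_centralizer_singleton_iff.mp hx₁.2
  · push Not at hN
    have hQne : Q ≠ ⊥ := Cfsg.Agent.Lib.BGUniq3.ne_bot_of_not_prankLE hr
    obtain ⟨-, hAT, hT1⟩ := center_facts hQ hQne hAQ
    set T : Subgroup G := Q ⊓ centralizer (Q : Set G) with hT
    have hcopT : (Nat.card A).Coprime (Nat.card T) :=
      Nat.Coprime.coprime_dvd_right (Subgroup.card_dvd_of_le inf_le_left) hcopA
    obtain ⟨a₀, ha₀, ha₀1, hne₀⟩ := exists_line hA hc hAT hcopT hT1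
    have hq₀ : IsPGroup q ↥(T ⊓ centralizer {a₀}) := hQ.to_le (inf_le_left.trans inf_le_left)
    obtain ⟨x₀, hx₀, hx₀1, hx₀q, -⟩ := exists_central hq₀ hne₀
    set Y₀ : Subgroup G := Q ⊓ centralizer {a₀} with hY₀
    have hQY₀ : ¬ Q ≤ Y₀ := by
      intro h
      have h1 : Y₀ = Q := le_antisymm inf_le_left h
      have h2 := hcyc a₀ ha₀ ha₀1
      rw [← hY₀, h1] at h2
      exact hQc h2
    obtain ⟨a₁, ha₁, ha₁1, hne₁⟩ : ∃ a₁ ∈ A, a₁ ≠ 1 ∧ ¬ (Q ⊓ centralizer {a₁} ≤ Y₀) := by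
      by_contra hno
      push Not at hno
      exact hQY₀ (le_of_lines hA hc hAQ hcopA hno)
    have hne₁' : Q ⊓ centralizer {a₁} ≠ ⊥ := by
      intro h
      apply hne₁
      rw [h]
      exact bot_le
    have hq₁ : IsPGroup q ↥(Q ⊓ centralizer {a₁}) := hQ.to_le inf_le_left
    obtain ⟨x₁, hx₁, hx₁1, hx₁q, -⟩ := exists_central hq₁ hne₁'
    have hord₀ : orderOf a₀ = p := orderOf_eq hA hc ha₀ ha₀1
    have ha₁a₀ : a₁ ∉ zpowers a₀ := by
      intro h
      apply hne₁
      have h1 : a₀ ∈ zpowers a₁ := generator_of_ne_one hp.out hord₀ h ha₁1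
      have h2 : centralizer ({a₁} : Set G) ≤ centralizer ({a₀} : Set G) := by
        rw [← centralizer_zpowers' a₁, ← centralizer_zpowers' a₀]
        exact Subgroup.centralizer_le (by simpa using zpowers_le.mpr h1)
      exact inf_le_inf_left _ h2
    have hordx₀ : orderOf x₀ = q := orderOf_eq_prime hx₀q hx₀1
    have hx₁z : x₁ ∉ zpowers x₀ := by
      intro h
      have h1 : x₀ ∈ zpowers x₁ := generator_of_ne_one hq.out hordx₀ h hx₁1
      have h2 : x₀ * a₁ = a₁ * x₀ := by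
        obtain ⟨k, rfl⟩ := mem_zpowers_iff.mp h1
        exact ((show Commute x₁ a₁ from Subgroup.mem_centralizer_singleton_iff.mp hx₁.2).zpow_left k).eq
      have h3 : x₀ * a₀ = a₀ * x₀ := Subgroup.mem_centralizer_singleton_iff.mp hx₀.2
      have h4 : x₀ ∈ centralizer (A : Set G) := by
        rw [Subgroup.mem_centralizer_iff]
        intro y hy
        obtain ⟨u, v, rfl⟩ := exists_pow_mul hA hc ha₀ ha₀1 ha₁ ha₁a₀ hy
        have h5 : Commute x₀ (a₀ ^ u * a₁ ^ v) :=
          ((show Commute x₀ a₀ from h3).pow_right u).mul_right ((show Commute x₀ a₁ from h2).pow_right v)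
        exact h5.eq.symm
      have h5 : x₀ ∈ Q ⊓ centralizer (A : Set G) := ⟨hx₀.1.1, h4⟩
      rw [cent_trivial hA hc hqp hQ hQc hAQ hcyc, Subgroup.mem_bot] at h5
      exact hx₀1 h5
    -- the elementary abelian subgroup
    have hcommx : zpowers x₀ ≤ centralizer ((zpowers x₁ : Subgroup G) : Set G) := by
      rw [zpowers_le, centralizer_zpowers', Subgroup.mem_centralizer_singleton_iff]
      exact (Subgroup.mem_centralizer_iff.mp hx₀.1.2 x₁ hx₁.1).symm
    have hE := Cfsg.Agent.Lib.BGSigma3.ea_sup (Cfsg.Agent.Lib.BGSigma3.ea_zpowers hx₀q) (Cfsg.Agent.Lib.BGSigma3.ea_zpowers hx₁q) hcommx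
    have hEQ : zpowers x₀ ⊔ zpowers x₁ ≤ Q := sup_le (zpowers_le.mpr hx₀.1.1) (zpowers_le.mpr hx₁.1)
    have hinter : zpowers x₀ ⊓ zpowers x₁ = ⊥ := by
      rw [eq_bot_iff]
      intro y hy
      by_contra hy1
      have hy1' : y ≠ 1 := hy1
      have hordx₁ : orderOf x₁ = q := orderOf_eq_prime hx₁q hx₁1
      have h1 : x₁ ∈ zpowers y := generator_of_ne_one hq.out hordx₁ hy.2 hy1'
      exact hx₁z ((zpowers_le.mpr hy.1) h1)
    have hEc : Nat.card ↥(zpowers x₀ ⊔ zpowers x₁) = q ^ 2 := by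
      have h1 := card_sup_mul_card_inf (H := zpowers x₀) (N := zpowers x₁)
        (centralizer_le_normalizer_of_le (C := ⊤) (by
          rw [zpowers_le, centralizer_zpowers', Subgroup.mem_centralizer_singleton_iff]
          exact Subgroup.mem_centralizer_iff.mp hx₀.1.2 x₁ hx₁.1))
      rw [hinter, Subgroup.card_bot, mul_one, Nat.card_zpowers, Nat.card_zpowers, hordx₀,
        orderOf_eq_prime hx₁q hx₁1] at h1
      rw [h1]; ring
    obtain ⟨B, hBe, hBQ, hEB, hne⟩ := hN _ hEQ hE hEc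
    have hlt : zpowers x₀ ⊔ zpowers x₁ < B := lt_of_le_of_ne hEB (Ne.symm hne)
    have hBr : ¬ PRankLE q 2 B := by
      intro h
      have h1 := (Cfsg.Agent.Lib.BGSigma.prankLE_iff.mp h) B le_rfl hBe.1 hBe.2
      have h2 := card_lt_of_lt' hlt
      omega
    refine ⟨x₀, x₁, a₀, a₁, B, hBQ, hBe.1, hBr,
      hEB (Subgroup.mem_sup_left (mem_zpowers x₀)), hEB (Subgroup.mem_sup_right (mem_zpowers x₁)),
      hx₀1, hx₁1, hx₀q, hx₁q, ha₀, ha₁, ha₀1, ha₁1, ?_, ?_, hx₁z⟩
    · exact Subgroup.mem_centralizer_singleton_iff.mp hx₀.2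
    · exact Subgroup.mem_centralizer_singleton_iff.mp hx₁.2

end cyc

end Cfsg.Agent.Lib.BGTau4
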