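import Mathlib
import Cfsg.Agent.Lib.BGTau4
import Cfsg.Agent.S1404
import Cfsg.Agent.S1405
import Cfsg.Agent.S1406
import Cfsg.Agent.S1414

/-!
# Bender-Glauberman section 12: `M_α = 1` for `A` of order `p²` whose lines are not controlled
by `M`, assuming that `C_G(A)` lies in every maximal subgroup containing `A`.
-/

set_option autoImplicit false
set_option linter.unusedSectionVars false
set_option linter.unusedVariables false
set_option linter.style.haveILetI false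
set_option linter.unusedSimpArgs false

namespace Cfsg.Agent.Lib.BGTau5

open Cfsg Subgroup Cfsg.Agent.Lib.CoprimeInv Cfsg.Agent.Lib.BGTrans Cfsg.Agent.Lib.BGTrans2 Cfsg.Agent.Lib.BGUniq
  Cfsg.Agent.Lib.BGUniq2 Cfsg.Agent.Lib.BGTau1 Cfsg.Agent.Lib.BGTau2
  Cfsg.Agent.Lib.BGTau3 Cfsg.Agent.Lib.BGTau4 Cfsg.Agent.Lib.BGUT1 Cfsg.Agent.Lib.BGM1
  Cfsg.Agent.Lib.BGUniq3 Cfsg.Agent.Lib.BGSigma3 Cfsg.Agent.Lib.BGSigma4 Cfsg.Agent.Lib.BGSigma2
  Cfsg.Agent.Lib.Glauberman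
open scoped commutatorElement

universe u

variable {G : Type u} [Group G] [Finite G]

/-- **The hypothesis on lines.** -/
def LineH (M A : Subgroup G) : Prop :=
  ∀ a ∈ A, a ≠ 1 → ∃ L : Subgroup G, IsCoatom L ∧
    normalizer ((zpowers a : Subgroup G) : Set G) ≤ L ∧ L ≠ M

theorem cent_le_norm (a : G) :
    centralizer ({a} : Set G) ≤ normalizer ((zpowers a : Subgroup G) : Set G) := by
  rw [← centralizer_zpowers' a]
  exact Subgroup.centralizer_le_normalizer _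

/-- A nontrivial element of order `q`: the cyclic group is a `q`-group. -/
theorem isPGroup_zpowers_of_pow {q : ℕ} [hq : Fact q.Prime] {e : G} (he : e ^ q = 1) :
    IsPGroup q (zpowers e) :=
  isPGroup_of_ea (ea_zpowers he)

/-- **Fusion.**  If `q ∈ σ(M)`, `e` is a nontrivial element of `M` of order `q` and `C_G(e) ≤ M`, then
`M` contains every `g` with `e ^ g ∈ M`. -/
theorem fusion (hG : IsMinSimpleOddOrder G) {M : Subgroup G} (hM : IsCoatom M) {q : ℕ} [hq : Fact q.Prime]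
    (hqs : q ∈ sigma M) {e : G} (heM : e ∈ M) (he1 : e ≠ 1) (heq : e ^ q = 1)
    (hC : centralizer ({e} : Set G) ≤ M) {g : G} (hg : g * e * g⁻¹ ∈ M) : g ∈ M := by
  have hXp : IsPGroup q (zpowers e) := isPGroup_zpowers_of_pow heq
  have hX1 : zpowers e ≠ ⊥ := by
    rw [Ne, zpowers_eq_bot]
    exact he1
  have h1 := (Cfsg.Agent.S1404.result hG M hM q hqs (zpowers e) hXp hX1 (zpowers_le.mpr heM)).1 g
  have h2 : (zpowers e).map (MulAut.conj g).toMonoidHom ≤ M := by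
    rw [MonoidHom.map_zpowers, zpowers_le]
    simpa using hg
  obtain ⟨m, hm, c, hc, rfl⟩ := h1 h2
  rw [centralizer_zpowers'] at hc
  exact M.mul_mem hm (hC hc)

theorem fusion_norm (hG : IsMinSimpleOddOrder G) {M : Subgroup G} (hM : IsCoatom M) {q : ℕ}
    [hq : Fact q.Prime] (hqs : q ∈ sigma M) {e : G} {S : Subgroup G} (hSM : S ≤ M) (heS : e ∈ S)
    (he1 : e ≠ 1) (heq : e ^ q = 1) (hC : centralizer ({e} : Set G) ≤ M) :
    normalizer (S : Set G) ≤ M := by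
  intro g hg
  exact fusion hG hM hqs (hSM heS) he1 heq hC (hSM ((mem_normalizer_iff.mp hg e).mp heS))

theorem uniq_eq {X L M : Subgroup G} (hU : InUniqueMaximal X) (hL : IsCoatom L) (hM : IsCoatom M)
    (hXL : X ≤ L) (hXM : X ≤ M) : L = M := by
  obtain ⟨N, -, huniq⟩ := hU
  rw [huniq L ⟨hL, hXL⟩, huniq M ⟨hM, hXM⟩]

theorem exists_coatom_ge {X : Subgroup G} (hX : X ≠ ⊤) : ∃ N : Subgroup G, IsCoatom N ∧ X ≤ N := by
  obtain h | h := eq_top_or_exists_le_coatom X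
  · exact absurd h hX
  · obtain ⟨N, hN, hXN⟩ := h
    exact ⟨N, hN, hXN⟩

/-- If `B` lies in a unique maximal subgroup `M` and is centralized by `e`, then `C(e) ≤ M`. -/
theorem cent_le_of_unique (hG : IsMinSimpleOddOrder G) {B M : Subgroup G} (hU : InUniqueMaximal B)
    (hM : IsCoatom M) (hBM : B ≤ M) {e : G} (he1 : e ≠ 1) (hB : B ≤ centralizer ({e} : Set G)) :
    centralizer ({e} : Set G) ≤ M := by
  obtain ⟨N, hN, hle⟩ := exists_coatom_ge (IsMin.centralizer_singleton_ne_top hG he1)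
  rw [← uniq_eq hU hN hM (hB.trans hle) hBM]
  exact hle

/-- `¬ PRankLE q 2 B` gives uniqueness through S1403. -/
theorem unique_of_not_prankLE {B : Subgroup G} (hG : IsMinSimpleOddOrder G) {q : ℕ} [hq : Fact q.Prime]
    (hB : ¬ PRankLE q 2 B) (hBt : B ≠ ⊤) : InUniqueMaximal B := by
  refine Cfsg.Agent.S1403.result hG B hBt ?_ (Or.inl ?_)
  · intro h
    apply hB
    intro E hE hEe
    have h1 := h q hq.out E hE hEe
    have h2 := hq.out.two_le
    calc Nat.card E ≤ q ^ 1 := h1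
      _ ≤ q ^ 2 := Nat.pow_le_pow_right (by omega) (by norm_num)
  · intro h
    exact hB (h q hq.out)

/-- The Sylow subgroups of `N_α`, for a prime of `α(N)`. -/
theorem isSylowIn_of_alphaCore (hG : IsMinSimpleOddOrder G) {N S : Subgroup G} (hN : IsCoatom N) {s : ℕ}
    [hs' : Fact s.Prime] (hs : s ∈ alpha N) (hS : IsSylowIn s S (alphaCore N)) : IsSylowIn s S N := by
  have hle : alphaCore N ≤ N := Subgroup.map_subtype_le _
  refine ⟨hS.1.trans hle, hS.2.1, ?_⟩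
  intro R hRN hRs hSR
  refine hS.2.2 R ?_ hRs hSR
  have hR' : IsPGroup s (R.subgroupOf N) := hRs.of_injective (Subgroup.subgroupOfEquivOfLe hRN).toMonoidHom (MulEquiv.injective _)
  obtain ⟨T, hT⟩ := hR'.exists_le_sylow
  intro x hx
  have h1 : (⟨x, hRN hx⟩ : N) ∈ (T : Subgroup N) := hT hx
  exact ⟨⟨x, hRN hx⟩, sylow_le_piCore hG (ut hG) hN hs T h1, rfl⟩

/-- The coprime action of a Frobenius-type pair. -/
theorem frob_step {q s : ℕ} [hq : Fact q.Prime] [hs : Fact s.Prime] {R₀ M : Subgroup G} {x b : G}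
    (hRs : Group.IsSolvable R₀) (hcq : (Nat.card R₀).Coprime q) (hcs : (Nat.card R₀).Coprime s)
    (hx : orderOf x = q) (hb : orderOf b = s) (hxn : x ∈ normalizer (R₀ : Set G))
    (hbn : b ∈ normalizer (R₀ : Set G)) (hxM : x ∈ M) (hbM : b ∈ M)
    (hbx : b ∈ normalizer ((zpowers x : Subgroup G) : Set G)) (hm : x * b ≠ b * x)
    (h1 : R₀ ⊓ centralizer ({x} : Set G) ≤ M) (h2 : R₀ ⊓ centralizer ({b} : Set G) ≤ M) : R₀ ≤ M := by
  let T₀ : Subgroup G := zpowers b ⊔ zpowers x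
  have hT₀n : T₀ ≤ normalizer (R₀ : Set G) := sup_le (zpowers_le.mpr hbn) (zpowers_le.mpr hxn)
  have hbxle : zpowers b ≤ normalizer ((zpowers x : Subgroup G) : Set G) := zpowers_le.mpr hbx
  have hcard : Nat.card T₀ ∣ s * q := by
    have h3 := card_sup_mul_card_inf (N := zpowers x) (H := zpowers b) hbxle
    rw [Nat.card_zpowers, Nat.card_zpowers, hx, hb] at h3
    exact ⟨_, h3.symm⟩
  have hcop : (Nat.card R₀).Coprime (Nat.card T₀) :=
    Nat.Coprime.coprime_dvd_right hcard (Nat.Coprime.mul_right hcs hcq)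
  apply le_of_forall_prime_inv hRs hT₀n hcop
  intro r hr R hRR₀ hRr hT₀R
  by_cases hRbot : R = ⊥
  · rw [hRbot]; exact bot_le
  have hdr : r ∣ Nat.card R₀ := (dvd_card_of_isPGroup hRr hRbot).trans (Subgroup.card_dvd_of_le hRR₀)
  have hqr : q ≠ r := by
    rintro rfl
    exact hq.out.one_lt.ne' (Nat.dvd_one.mp (by simpa [hcq.gcd_eq_one] using Nat.dvd_gcd hdr (dvd_refl q)))
  have hsr : s ≠ r := by
    rintro rfl
    exact hs.out.one_lt.ne' (Nat.dvd_one.mp (by simpa [hcs.gcd_eq_one] using Nat.dvd_gcd hdr (dvd_refl s)))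
  have hxq : x ^ q = 1 := by rw [← hx]; exact pow_orderOf_eq_one x
  have hbs : b ^ s = 1 := by rw [← hb]; exact pow_orderOf_eq_one b
  refine frob_inside (q := q) (s := s) (P := zpowers x) (Y := zpowers b) hRr hqr hsr
    (isPGroup_zpowers_of_pow hxq) (isPGroup_zpowers_of_pow hbs)
    (le_trans le_sup_right hT₀R) (le_trans le_sup_left hT₀R)
    (zpowers_le.mpr hxM) (zpowers_le.mpr hbM) hbxle (fpf_pair hq.out hs.out hx hb hm) ?_ ?_
  · rw [centralizer_zpowers']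
    exact (inf_le_inf_right _ hRR₀).trans h1
  · rw [centralizer_zpowers']
    exact (inf_le_inf_right _ hRR₀).trans h2

section step2

variable {p : ℕ} [hpf : Fact p.Prime] {A M : Subgroup G}

/-- `A` is not in a unique maximal subgroup. -/
theorem ctx_of_lineH (hG : IsMinSimpleOddOrder G) (hA : IsElementaryAbelian p A) (hc : Nat.card A = p ^ 2)
    (hM : IsCoatom M) (hAM : A ≤ M) (H : LineH M A) : Ctx p A := by
  refine ⟨hG, hA, hc, ?_⟩
  intro hU
  have hne : A ≠ ⊥ := by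
    intro h
    rw [h, Subgroup.card_bot] at hc
    have h2 := hpf.out.two_le
    have : 1 < p ^ 2 := Nat.one_lt_pow (by norm_num) (by omega)
    omega
  obtain ⟨a, ha, ha1⟩ := exists_mem_ne_one hne
  obtain ⟨L, hL, hLn, hLM⟩ := H a ha ha1
  refine hLM (uniq_eq hU hL hM ?_ hAM)
  have hAa : A ≤ centralizer ({a} : Set G) := by
    intro b hb
    rw [Subgroup.mem_centralizer_singleton_iff]
    exact congrArg Subtype.val (hA.1.is_comm.comm (⟨b, hb⟩ : A) ⟨a, ha⟩)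
  exact hAa.trans ((cent_le_norm a).trans hLn)

/-- `A ≤ L` for the `L` of the hypothesis. -/
theorem Ctx.le_of_norm (c : Ctx p A) {a : G} (ha : a ∈ A) {L : Subgroup G}
    (hL : normalizer ((zpowers a : Subgroup G) : Set G) ≤ L) : centralizer ({a} : Set G) ≤ L :=
  (cent_le_norm a).trans hL

/-- **`p ∉ α(M)`.** -/
theorem not_alpha (c : Ctx p A) (hM : IsCoatom M) (hAM : A ≤ M) (H : LineH M A) : p ∉ alpha M := by
  rintro ⟨-, hp⟩
  obtain ⟨S, hS, hAS⟩ := exists_isSylowIn_ge (L := M) (R := A) p hAM c.isP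
  have hS' : ¬ PRankLE p 2 S := fun h => hp (Cfsg.Agent.Lib.BGSigma.prankLE_of_isSylowIn hS h)
  have hSt : S ≠ ⊤ := IsMin.isPGroup_ne_top c.hG hS.2.1
  have hU : InUniqueMaximal S := unique_of_not_prankLE c.hG hS' hSt
  have hSne : S ≠ ⊥ := ne_bot_of_not_prankLE hS'
  obtain ⟨z, hzS, hz1, hzp, hzc⟩ := exists_central hS.2.1 hSne
  have hzC : z ∈ centralizer (A : Set G) := by
    rw [Subgroup.mem_centralizer_iff]
    intro a ha
    exact hzc a (hAS ha)
  have hzA : z ∈ A := c.omega hzC hzp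
  obtain ⟨L, hL, hLn, hLM⟩ := H z hzA hz1
  refine hLM (uniq_eq hU hL hM ?_ hS.1)
  have hSz : S ≤ centralizer ({z} : Set G) := by
    intro y hy
    rw [Subgroup.mem_centralizer_singleton_iff]
    exact hzc y hy
  exact hSz.trans ((cent_le_norm z).trans hLn)

theorem orderOf_zpowers_prime {a : G} (ha1 : a ≠ 1) (hap : a ^ p = 1) : orderOf a = p :=
  orderOf_eq_prime hap ha1

/-- **The fixed points of a line on `M_α` have rank at most one.** -/
theorem line_rank_one (c : Ctx p A) (hM : IsCoatom M) (hAM : A ≤ M) (H : LineH M A) {a : G} (ha : a ∈ A)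
    (ha1 : a ≠ 1) : RankLE 1 ↥(alphaCore M ⊓ centralizer ({a} : Set G)) := by
  by_contra hr
  obtain ⟨L, hL, hLn, hLM⟩ := H a ha ha1
  have hX : zpowers a ≤ M := zpowers_le.mpr (hAM ha)
  have hXα : ∀ r : ℕ, r.Prime → r ∣ Nat.card (zpowers a) → r ∉ alpha M := by
    intro r hr hd
    rw [Nat.card_zpowers, orderOf_eq_prime (c.ea.2 a ha) ha1] at hd
    have : r = p := (Nat.prime_dvd_prime_iff_eq hr hpf.out).mp hd
    rw [this]
    exact not_alpha c hM hAM H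
  have hr' : ¬ RankLE 1 ↥(alphaCore M ⊓ centralizer ((zpowers a : Subgroup G) : Set G)) := by
    rwa [centralizer_zpowers']
  have hU := Cfsg.Agent.S1406.result c.hG M hM (zpowers a) hX hXα hr'
  refine hLM (uniq_eq hU hL hM ?_ inf_le_left)
  rw [centralizer_zpowers']
  exact inf_le_right.trans ((cent_le_norm a).trans hLn)

/-- Two independent elements of `A` generate it: centralizing both is centralizing `A`. -/
theorem mem_cent_of_two (c : Ctx p A) {a b x : G} (ha : a ∈ A) (ha1 : a ≠ 1) (hb : b ∈ A)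
    (hab : b ∉ zpowers a) (hxa : x * a = a * x) (hxb : x * b = b * x) :
    x ∈ centralizer (A : Set G) := by
  rw [Subgroup.mem_centralizer_iff]
  intro y hy
  obtain ⟨i, j, rfl⟩ := exists_pow_mul c.ea c.card ha ha1 hb hab hy
  exact (((show Commute x a from hxa).pow_right i).mul_right ((show Commute x b from hxb).pow_right j)).eq.symm

/-- **The core step.**  `O_{p'}(X)` lies in `M`, if `K ≤ X` and `x ∈ X` has all its fusion in `M`. -/
theorem theta_le_of_frob (c : Ctx p A) (hM : IsCoatom M) (hAM : A ≤ M) {q : ℕ} [hq : Fact q.Prime]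
    (hqs : q ∈ sigma M) (hqp : q ≠ p) {Q X : Subgroup G} (hQ : Q ∈ maxInvSubgroups ⊤ A {q}) (hQM : Q ≤ M)
    {x b : G} (hxQ : x ∈ Q) (hx1 : x ≠ 1) (hxq : x ^ q = 1) (hCx : centralizer ({x} : Set G) ≤ M)
    (hX : X ≠ ⊤) (hAX : A ≤ X) (hKX : Kp A ≤ X) (hxX : x ∈ X) (hbA : b ∈ A) (hb1 : b ≠ 1)
    (hm : x * b ≠ b * x) (hbx : b ∈ normalizer ((zpowers x : Subgroup G) : Set G))
    (hR : coreOf q (θ A X) ⊓ centralizer ({b} : Set G) ≤ M) : θ A X ≤ M := by
  have hne : X ⊓ Q ≠ ⊥ := by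
    intro h
    have : x ∈ X ⊓ Q := ⟨hxX, hxQ⟩
    rw [h, Subgroup.mem_bot] at this
    exact hx1 this
  have hS : IsSylowIn q (X ⊓ Q) (θ A X) := c.sylow_inf hqp hQ hX hAX hKX hne
  have hxθ : x ∈ θ A X := hS.1 ⟨hxX, hxQ⟩
  have hθt : θ A X ≠ ⊤ := c.ne_top_of_le (c.θ_le X) hX
  have hl : PLengthLE q 1 (θ A X) := Cfsg.Agent.S1410.result c.hG q _ hθt
  have hordx : orderOf x = q := orderOf_eq_prime hxq hx1
  have hordb : orderOf b = p := orderOf_eq_prime (c.ea.2 b hbA) hb1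
  have hcoreM : coreOf q (θ A X) ≤ M := by
    refine frob_step (q := q) (s := p) ?_ (BGUniq.card_coreOf_coprime q _) ?_ hordx hordb ?_ ?_
      (hQM hxQ) (hAM hbA) hbx hm ?_ hR
    · exact IsMin.solvable c.hG (c.ne_top_of_le (BGUniq.coreOf_le q _) hθt)
    · exact Nat.Coprime.coprime_dvd_left (Subgroup.card_dvd_of_le (BGUniq.coreOf_le q _)) (c.coprime_θ X)
    · exact BGUniq.le_normalizer_coreOf q _ hxθ
    · exact normalizer_le_normalizer_coreOf _ (c.le_norm_θ hAX hbA)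
    · exact inf_le_right.trans hCx
  intro y hy
  obtain ⟨u, hu, n, hnθ, hnS, rfl⟩ := core_factor hl hS hy
  refine M.mul_mem (hcoreM hu) ?_
  exact fusion_norm c.hG hM hqs (inf_le_right.trans hQM) (show x ∈ X ⊓ Q from ⟨hxX, hxQ⟩) hx1 hxq hCx hnS

theorem not_isCyclic_of_not_prankLE {q : ℕ} [hq : Fact q.Prime] {Q : Subgroup G} (hr : ¬ PRankLE q 2 Q) :
    ¬ IsCyclic Q := by
  intro hcy
  apply hr
  rw [Cfsg.Agent.Lib.BGSigma.prankLE_iff]
  intro E hEQ hEc hEe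
  have h1 : IsCyclic E := by
    haveI := hcy
    have : Function.Injective (Subgroup.inclusion hEQ) := Subgroup.inclusion_injective hEQ
    exact isCyclic_of_injective (Subgroup.inclusion hEQ) this
  have h2 : Monoid.exponent E ∣ q := by
    apply Monoid.exponent_dvd_of_forall_pow_eq_one
    intro a
    exact Subtype.ext (hEe a a.2)
  rw [IsCyclic.exponent_eq_card] at h2
  calc Nat.card E ≤ q := Nat.le_of_dvd hq.out.pos h2
    _ ≤ q ^ 2 := by
      have h3 := hq.out.two_le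
      nlinarith

/-- **`M_α = 1`.** -/
theorem alpha_eq_bot (c : Ctx p A) (hM : IsCoatom M) (hAM : A ≤ M)
    (hC : ∀ L : Subgroup G, IsCoatom L → A ≤ L → centralizer (A : Set G) ≤ L) (H : LineH M A) :
    alphaCore M = ⊥ := by
  by_contra hne
  have hG := c.hG
  have hpα := not_alpha c hM hAM H
  obtain ⟨hall, -, -, -, -⟩ := Cfsg.Agent.S1405.result hG M hM
  have hcard1 : Nat.card (alphaCore M) ≠ 1 := by
    intro h
    exact hne (Subgroup.eq_bot_of_card_eq _ h)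
  obtain ⟨q, hqp', hqd⟩ := Nat.exists_prime_and_dvd hcard1
  haveI hq : Fact q.Prime := ⟨hqp'⟩
  have hqα : q ∈ alpha M := hall.2.1 q hqp' hqd
  have hqs : q ∈ sigma M := alpha_sub_sigma hG (ut hG) hM hqα
  have hqne : q ≠ p := by
    rintro rfl
    exact hpα hqα
  have hαle : alphaCore M ≤ M := hall.1
  have hαn : M ≤ normalizer (alphaCore M : Set G) := le_normalizer_piCoreOf (alpha M) M
  have hcop : Nat.Coprime (Nat.card (alphaCore M)) (Nat.card A) := by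
    apply coprime_of_isPGroup _ c.isP
    apply Nat.Coprime.symm
    rw [Nat.Prime.coprime_iff_not_dvd hpf.out]
    intro hd
    exact hpα (hall.2.1 p hpf.out hd)
  obtain ⟨Q, hQα, hQA⟩ := exists_invariant_isSylowIn q
    (IsMin.solvable hG (c.ne_top_of_le hαle hM.1)) (hAM.trans hαn) hcop
  have hQM : IsSylowIn q Q M := isSylowIn_of_alphaCore hG hM hqα hQα
  have hQG := isSylowIn_top_of_sigma hqs hQM
  have hQn := normalizer_le_of_sigma hqs hQM
  have hQm : Q ∈ maxInvSubgroups ⊤ A {q} := maxInv_of_sylow hQG hQA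
  have hQr : ¬ PRankLE q 2 Q := fun h => hqα.2 (Cfsg.Agent.Lib.BGSigma.prankLE_of_isSylowIn hQM h)
  have hQp : IsPGroup q Q := hQM.2.1
  have hq2 : q ≠ 2 := prime_ne_two_of_dvd hG (dvd_of_isPGroup hQp (ne_bot_of_not_prankLE hQr))
  have hcyc : ∀ a ∈ A, a ≠ 1 → IsCyclic ↥(Q ⊓ centralizer ({a} : Set G)) := by
    intro a ha ha1
    have h1 := line_rank_one c hM hAM H ha ha1
    have h2 : PRankLE q 1 ↥(Q ⊓ centralizer ({a} : Set G)) :=
      prankLE_of_le (inf_le_inf_right _ hQα.1) (h1 q hqp')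
    exact isCyclic_of_prank_one hq2 (hQp.to_le inf_le_left) h2
  obtain ⟨x₀, x₁, a₀, a₁, B, hBQ, hBc, hBr, hx₀B, hx₁B, hx₀1, hx₁1, hx₀q, hx₁q, ha₀, ha₁, ha₀1, ha₁1,
    hx₀a₀, hx₁a₁, hx₁x₀⟩ := exists_pair c.ea c.card hq2 hqne hQp hQr hQA hcyc
  have hBp : IsPGroup q B := hQp.to_le hBQ
  have hU : InUniqueMaximal B := unique_of_not_prankLE hG hBr (IsMin.isPGroup_ne_top hG hBp)
  have hBM : B ≤ M := hBQ.trans hQM.1
  have hCe : ∀ e ∈ B, e ≠ 1 → centralizer ({e} : Set G) ≤ M := by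
    intro e he he1
    refine cent_le_of_unique hG hU hM hBM he1 ?_
    intro y hy
    rw [Subgroup.mem_centralizer_singleton_iff]
    exact congrArg Subtype.val (hBc.is_comm.comm (⟨y, hy⟩ : B) ⟨e, he⟩)
  have hord : ∀ a ∈ A, a ≠ 1 → orderOf a = p := fun a ha ha1 => orderOf_eq_prime (c.ea.2 a ha) ha1
  have hordq : ∀ x : G, x ≠ 1 → x ^ q = 1 → orderOf x = q := fun x hx1 hxq => orderOf_eq_prime hxq hx1
  have ha₁₀ : a₁ ∉ zpowers a₀ := by
    intro h
    have h0 : a₀ ∈ zpowers a₁ := generator_of_ne_one hpf.out (hord a₀ ha₀ ha₀1) h ha₁1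
    obtain ⟨k, hk⟩ := mem_zpowers_iff.mp h0
    have hx₁a₀ : x₁ * a₀ = a₀ * x₁ := by
      rw [← hk]
      exact ((show Commute x₁ a₁ from hx₁a₁).zpow_right k).eq
    exact hx₁x₀ (mem_zpowers_of_cyclic (hcyc a₀ ha₀ ha₀1) hqp'
      (show x₀ ∈ Q ⊓ centralizer ({a₀} : Set G) from ⟨hBQ hx₀B, mem_centralizer_singleton_iff.mpr hx₀a₀⟩)
      (show x₁ ∈ Q ⊓ centralizer ({a₀} : Set G) from ⟨hBQ hx₁B, mem_centralizer_singleton_iff.mpr hx₁a₀⟩)
      (hordq x₀ hx₀1 hx₀q) hx₁q)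
  have ha₀₁ : a₀ ∉ zpowers a₁ := by
    intro h
    exact ha₁₀ (generator_of_ne_one hpf.out (hord a₁ ha₁ ha₁1) h ha₀1)
  have hQc : ¬ IsCyclic Q := not_isCyclic_of_not_prankLE hQr
  have hQcent : Q ⊓ centralizer (A : Set G) = ⊥ := cent_trivial c.ea c.card hqne hQp hQc hQA hcyc
  have hm₀ : x₀ * a₁ ≠ a₁ * x₀ := by
    intro h
    have h1 : x₀ ∈ Q ⊓ centralizer (A : Set G) := ⟨hBQ hx₀B, mem_cent_of_two c ha₀ ha₀1 ha₁ ha₁₀ hx₀a₀ h⟩
    rw [hQcent, Subgroup.mem_bot] at h1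
    exact hx₀1 h1
  have hm₁ : x₁ * a₀ ≠ a₀ * x₁ := by
    intro h
    have h1 : x₁ ∈ Q ⊓ centralizer (A : Set G) := ⟨hBQ hx₁B, mem_cent_of_two c ha₁ ha₁1 ha₀ ha₀₁ hx₁a₁ h⟩
    rw [hQcent, Subgroup.mem_bot] at h1
    exact hx₁1 h1
  have key : ∀ a b x : G, a ∈ A → a ≠ 1 → b ∈ A → x ∈ Q → x * a = a * x → x ≠ 1 → x ^ q = 1 →
      b ∈ normalizer ((zpowers x : Subgroup G) : Set G) := by
    intro a b x ha ha1 hb hxQ hxa hx1 hxq
    apply mem_normalizer_of_forall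
    intro y hy
    have h1 : b * x * b⁻¹ ∈ zpowers x := by
      refine mem_zpowers_of_cyclic (hcyc a ha ha1) hqp'
        (show x ∈ Q ⊓ centralizer ({a} : Set G) from ⟨hxQ, mem_centralizer_singleton_iff.mpr hxa⟩) ?_
        (hordq x hx1 hxq) ?_
      · refine ⟨(mem_normalizer_iff.mp (hQA hb) x).mp hxQ, mem_centralizer_singleton_iff.mpr ?_⟩
        have hab : a * b = b * a := c.comm ha hb
        have e : b⁻¹ * a * b = a := by
          rw [mul_assoc, hab]; group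
        calc b * x * b⁻¹ * a = b * (x * (b⁻¹ * a * b)) * b⁻¹ := by group
          _ = b * (x * a) * b⁻¹ := by rw [e]
          _ = b * (a * x) * b⁻¹ := by rw [hxa]
          _ = b * (b⁻¹ * a * b * x) * b⁻¹ := by rw [e]
          _ = a * (b * x * b⁻¹) := by group
      · rw [conj_pow, hxq]; group
    obtain ⟨k, rfl⟩ := mem_zpowers_iff.mp hy
    rw [← conj_zpow]
    exact zpow_mem h1 k
  have hn₀ := key a₀ a₁ x₀ ha₀ ha₀1 ha₁ (hBQ hx₀B) hx₀a₀ hx₀1 hx₀q
  have hn₁ := key a₁ a₀ x₁ ha₁ ha₁1 ha₀ (hBQ hx₁B) hx₁a₁ hx₁1 hx₁q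
  have hCM := hC M hM hAM
  have hθ₁ : θ A (centralizer ({a₁} : Set G)) ≤ M := by
    refine theta_le_of_frob c hM hAM hqs hqne hQm hQM.1 (x := x₁) (b := a₀) (hBQ hx₁B) hx₁1 hx₁q
      (hCe x₁ hx₁B hx₁1) (c.cent_elem_ne_top ha₁1) (c.le_cent_elem ha₁) (c.K_le_cent_elem ha₁)
      (mem_centralizer_singleton_iff.mpr hx₁a₁) ha₀ ha₀1 hm₁ hn₁ ?_
    rintro y ⟨hy1, hy2⟩
    apply hCM
    have hy3 : y ∈ centralizer ({a₁} : Set G) := c.θ_le _ (BGUniq.coreOf_le q _ hy1)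
    exact mem_cent_of_two c ha₀ ha₀1 ha₁ ha₁₀ (mem_centralizer_singleton_iff.mp hy2)
      (mem_centralizer_singleton_iff.mp hy3)
  obtain ⟨L, hL, hLn, hLM⟩ := H a₀ ha₀ ha₀1
  have hCL : centralizer ({a₀} : Set G) ≤ L := (cent_le_norm a₀).trans hLn
  have hAL : A ≤ L := (c.le_cent_elem ha₀).trans hCL
  have hKL : Kp A ≤ L := c.K_le_cent.trans (hC L hL hAL)
  have hx₀L : x₀ ∈ L := hCL (mem_centralizer_singleton_iff.mpr hx₀a₀)
  have hθL : θ A L ≤ M := by
    refine theta_le_of_frob c hM hAM hqs hqne hQm hQM.1 (x := x₀) (b := a₁) (hBQ hx₀B) hx₀1 hx₀q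
      (hCe x₀ hx₀B hx₀1) hL.1 hAL hKL hx₀L ha₁ ha₁1 hm₀ hn₀ ?_
    refine le_trans ?_ hθ₁
    refine c.le_θ (c.cent_elem_ne_top ha₁1) (c.le_cent_elem ha₁) inf_le_right ?_ ?_
    · refine le_normalizer_inf ?_ ?_
      · exact (c.le_norm_θ hAL).trans (normalizer_le_normalizer_coreOf _)
      · intro b hb
        exact mem_normalizer_cent_elem (c.comm hb ha₁)
    · exact Nat.Coprime.coprime_dvd_left
        (Subgroup.card_dvd_of_le (inf_le_left.trans (BGUniq.coreOf_le q _))) (c.coprime_θ L)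
  have hneL : L ⊓ Q ≠ ⊥ := by
    intro h
    have : x₀ ∈ L ⊓ Q := ⟨hx₀L, hBQ hx₀B⟩
    rw [h, Subgroup.mem_bot] at this
    exact hx₀1 this
  have hx₀θ : x₀ ∈ θ A L := (c.sylow_inf hqne hQm hL.1 hAL hKL hneL).1 ⟨hx₀L, hBQ hx₀B⟩
  have hLle : L ≤ M := by
    intro g hg
    have h1 : g * x₀ * g⁻¹ ∈ θ A L := (mem_normalizer_iff.mp (le_normalizer_piCoreOf _ L hg) x₀).mp hx₀θ
    exact fusion hG hM hqs (hBM hx₀B) hx₀1 hx₀q (hCe x₀ hx₀B hx₀1) (hθL h1)
  exact hLM (coatom_eq hL hM hLle)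

end step2

end Cfsg.Agent.Lib.BGTau5
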