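import Mathlib
import Cfsg.Agent.Lib.BGTau5

/-!
# Bender-Glauberman section 12: `p ∈ σ(M)` for `A` of order `p²` whose lines are not controlled
by `M`, assuming that `C_G(A)` lies in every maximal subgroup containing `A`.
-/

set_option autoImplicit false
set_option linter.unusedSectionVars false
set_option linter.unusedVariables false
set_option linter.style.haveILetI false
set_option linter.unusedSimpArgs false

namespace Cfsg.Agent.Lib.BGTau6

open Cfsg Subgroup Cfsg.Agent.Lib.CoprimeInv Cfsg.Agent.Lib.BGTrans Cfsg.Agent.Lib.BGTrans2 Cfsg.Agent.Lib.BGUniq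
  Cfsg.Agent.Lib.BGUniq2 Cfsg.Agent.Lib.BGTau1 Cfsg.Agent.Lib.BGTau2
  Cfsg.Agent.Lib.BGTau3 Cfsg.Agent.Lib.BGTau4 Cfsg.Agent.Lib.BGTau5 Cfsg.Agent.Lib.BGUT1 Cfsg.Agent.Lib.BGM1
  Cfsg.Agent.Lib.BGUniq3 Cfsg.Agent.Lib.BGSigma3 Cfsg.Agent.Lib.BGSigma4 Cfsg.Agent.Lib.BGSigma2
  Cfsg.Agent.Lib.Glauberman
open scoped commutatorElement

universe u

variable {G : Type u} [Group G] [Finite G]

/-- A Sylow subgroup for a prime dividing the order is nontrivial. -/
theorem sylow_ne_bot {q : ℕ} [hq : Fact q.Prime] {S N : Subgroup G} (hS : IsSylowIn q S N)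
    (hd : q ∣ Nat.card N) : S ≠ ⊥ := by
  intro hb
  obtain ⟨x, hx⟩ := exists_prime_orderOf_dvd_card' (G := N) q hd
  have hRs : IsPGroup q ((zpowers (x : G)) : Subgroup G) := by
    rw [IsPGroup.iff_card, Nat.card_zpowers, Subgroup.orderOf_coe, hx]
    exact ⟨1, (pow_one q).symm⟩
  have hRN : zpowers (x : G) ≤ N := zpowers_le.mpr x.2
  have h1 := hS.2.2 _ hRN hRs (by rw [hb]; exact bot_le)
  rw [hb] at h1
  have h2 : (x : G) ∈ (⊥ : Subgroup G) := h1 ▸ mem_zpowers (x : G)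
  rw [Subgroup.mem_bot] at h2
  have h3 : x = 1 := Subtype.ext h2
  rw [h3, orderOf_one] at hx
  exact hq.out.one_lt.ne hx

/-- Primes of the index of a normal subgroup: a `q`-element lies in the subgroup if `q` does not
divide the index. -/
theorem mem_of_not_dvd_index {X : Type*} [Group X] [Finite X] {q : ℕ} [hq : Fact q.Prime] {N : Subgroup X}
    [hN : N.Normal] (hd : ¬ q ∣ N.index) {x : X} {k : ℕ} (hx : x ^ q ^ k = 1) : x ∈ N := by
  have h1 : ((x : X ⧸ N)) ^ q ^ k = 1 := by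
    rw [← QuotientGroup.mk_pow, hx, QuotientGroup.mk_one]
  have h2 : orderOf (x : X ⧸ N) ∣ q ^ k := orderOf_dvd_of_pow_eq_one h1
  obtain ⟨j, hj, hj2⟩ := (Nat.dvd_prime_pow hq.out).mp h2
  rcases Nat.eq_zero_or_pos j with rfl | hj0
  · rw [pow_zero, orderOf_eq_one_iff] at hj2
    exact (QuotientGroup.eq_one_iff x).mp hj2
  · exfalso
    have h3 : orderOf (x : X ⧸ N) ∣ N.index := by
      rw [Subgroup.index_eq_card]
      exact orderOf_dvd_natCard _
    rw [hj2] at h3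
    exact hd ((dvd_pow_self q hj0.ne').trans h3)

/-- If `M_α = 1`, then `α(M)` is empty. -/
theorem alpha_empty (hG : IsMinSimpleOddOrder G) {M : Subgroup G} (hM : IsCoatom M)
    (hα : alphaCore M = ⊥) (s : ℕ) : s ∉ alpha M := by
  intro hs
  haveI hsf : Fact s.Prime := ⟨hs.1⟩
  obtain ⟨hall, -, -, -, -⟩ := Cfsg.Agent.S1405.result hG M hM
  have h1 := hall.2.2 s hs.1 hs
  rw [hα, Subgroup.relIndex_bot_left] at h1
  apply hs.2
  intro E hE hEe
  have h2 : ∀ a ∈ E, a = 1 := by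
    intro a ha
    have h3 : orderOf a ∣ s := orderOf_dvd_of_pow_eq_one (hEe a ha)
    rcases (Nat.dvd_prime hs.1).mp h3 with h4 | h4
    · exact orderOf_eq_one_iff.mp h4
    · exfalso
      apply h1
      rw [← h4]
      exact orderOf_dvd_natCard a
  have h3 : E = ⊥ := (Subgroup.eq_bot_iff_forall E).mpr h2
  rw [h3, Subgroup.card_bot]
  exact Nat.one_le_pow _ _ hs.1.pos

/-- **`σ(M)` is not empty**, if `M_α = 1`. -/
theorem exists_sigma (hG : IsMinSimpleOddOrder G) {M : Subgroup G} (hM : IsCoatom M)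
    (hα : alphaCore M = ⊥) (hne : M ≠ ⊥) : ∃ q : ℕ, q ∈ sigma M := by
  have hcard1 : Nat.card M ≠ 1 := by
    intro h
    exact hne (Subgroup.eq_bot_of_card_eq _ h)
  have hpf : (Nat.card M).primeFactors.Nonempty := by
    obtain ⟨r, hr, hrd⟩ := Nat.exists_prime_and_dvd hcard1
    exact ⟨r, Nat.mem_primeFactors.mpr ⟨hr, hrd, Nat.card_pos.ne'⟩⟩
  let q := (Nat.card M).primeFactors.max' hpf
  have hqmem : q ∈ (Nat.card M).primeFactors := Finset.max'_mem _ _
  have hqp : q.Prime := (Nat.mem_primeFactors.mp hqmem).1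
  have hqd : q ∣ Nat.card M := (Nat.mem_primeFactors.mp hqmem).2.1
  have hle : ∀ r : ℕ, r.Prime → r ∣ Nat.card M → r ≤ q := fun r hr hrd =>
    Finset.le_max' _ _ (Nat.mem_primeFactors.mpr ⟨hr, hrd, Nat.card_pos.ne'⟩)
  haveI hq : Fact q.Prime := ⟨hqp⟩
  have hβ : ∀ r : ℕ, r ∉ beta M := fun r hr => alpha_empty hG hM hα r hr.1
  have hfacts := (Cfsg.Agent.S1414.result hG M hM).2.2.2.2
  obtain ⟨Q₀⟩ : Nonempty (Sylow q M) := inferInstance
  have hsub : ∀ r : ℕ, r.Prime → r ∣ Nat.card M → r ≠ q → (Q₀ : Subgroup M) ≤ pPrimeCore r ↥M := by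
    intro r hr hrd hrq x hx
    have h1 := (hfacts r hr hrd (hβ r)).2.2
    have h2 : ¬ q ∣ (pPrimeCore r ↥M).index := by
      intro h
      have h3 := h1 q hqp h
      have h4 := hle r hr hrd
      omega
    obtain ⟨k, hk⟩ := Q₀.isPGroup' ⟨x, hx⟩
    exact mem_of_not_dvd_index h2 (k := k) (congrArg Subtype.val hk)
  let D : Subgroup M := sInf {N | ∃ r : ℕ, r.Prime ∧ r ∣ Nat.card M ∧ r ≠ q ∧ N = pPrimeCore r ↥M}
  have hDn : D.Normal := by
    refine ⟨fun n hn g => ?_⟩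
    rw [Subgroup.mem_sInf] at hn ⊢
    rintro N ⟨r, hr, hrd, hrq, rfl⟩
    haveI : (pPrimeCore r ↥M).Normal := inferInstance
    exact Subgroup.Normal.conj_mem inferInstance n (hn _ ⟨r, hr, hrd, hrq, rfl⟩) g
  have hQ₀D : (Q₀ : Subgroup M) ≤ D := by
    intro x hx
    rw [Subgroup.mem_sInf]
    rintro N ⟨r, hr, hrd, hrq, rfl⟩
    exact hsub r hr hrd hrq hx
  have hDp : IsPGroup q D := by
    apply IsPGroup.of_card (n := (Nat.card D).primeFactorsList.length)
    apply Nat.eq_prime_pow_of_unique_prime_dvd Nat.card_pos.ne'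
    intro r hr hrd
    by_contra hrq
    have hrM : r ∣ Nat.card M := hrd.trans (Subgroup.card_subgroup_dvd_card D)
    have h1 : D ≤ pPrimeCore r ↥M := sInf_le ⟨r, hr, hrM, hrq, rfl⟩
    have h2 := Subgroup.card_dvd_of_le h1
    have h3 := Cfsg.Agent.Lib.PCore.card_pPrimeCore_coprime (G := ↥M) r
    have h4 : r ∣ Nat.gcd (Nat.card (pPrimeCore r ↥M)) r := Nat.dvd_gcd (hrd.trans h2) (dvd_refl r)
    rw [h3.gcd_eq_one] at h4
    exact hr.one_lt.ne' (Nat.dvd_one.mp h4)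
  have hDQ : D = (Q₀ : Subgroup M) := Q₀.is_maximal' hDp hQ₀D
  have hQ₀n : (Q₀ : Subgroup M).Normal := hDQ ▸ hDn
  let U : Subgroup G := (Q₀ : Subgroup M).map M.subtype
  have hU1 : U ≠ ⊥ := sylow_ne_bot (isSylowIn_map Q₀) hqd
  have hUt : U ≠ ⊤ := fun h => hM.1 (top_le_iff.mp (h ▸ (isSylowIn_map Q₀).1))
  have hMU : M ≤ normalizer (U : Set G) := by
    intro m hm
    apply mem_normalizer_of_forall
    rintro _ ⟨y, hy, rfl⟩
    exact ⟨(⟨m, hm⟩ : M) * y * (⟨m, hm⟩ : M)⁻¹, hQ₀n.conj_mem y hy ⟨m, hm⟩, by simp⟩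
  refine ⟨q, hqp, hqd, Q₀, ?_⟩
  exact (eq_of_coatom_of_le_normalizer hG hM hU1 hUt hMU).le

/-- `M_σ` is nilpotent if `M_α = 1`. -/
theorem nilpotent_sigmaCore (hG : IsMinSimpleOddOrder G) {M : Subgroup G} (hM : IsCoatom M)
    (hα : alphaCore M = ⊥) : Group.IsNilpotent (sigmaCore M) := by
  obtain ⟨H, hH, hnil⟩ := (Cfsg.Agent.S1414.result hG M hM).2.2.2.1
  have hβ : ∀ r : ℕ, r ∉ beta M := fun r hr => alpha_empty hG hM hα r hr.1
  have h1 : H.relIndex (sigmaCore M) = 1 := by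
    by_contra hne
    obtain ⟨r, hr, hrd⟩ := Nat.exists_prime_and_dvd hne
    exact hH.2.2 r hr ⟨hr, hβ r⟩ hrd
  have h2 : sigmaCore M ≤ H := Subgroup.relIndex_eq_one.mp h1
  have h3 : H = sigmaCore M := le_antisymm hH.1 h2
  rw [← h3]
  exact hnil

section lemmaE

variable {p : ℕ} [hpf : Fact p.Prime] {A M : Subgroup G}

theorem cj_ne_bot' {Y : Subgroup G} (h : G) (hY : Y ≠ ⊥) : cj Y h ≠ ⊥ := by
  intro hb
  apply hY
  rw [eq_bot_iff]
  intro x hx
  have h1 : h * x * h⁻¹ ∈ cj Y h := conj_mem_cj hx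
  rw [hb, Subgroup.mem_bot] at h1
  rw [Subgroup.mem_bot]
  have : x = h⁻¹ * (h * x * h⁻¹) * h := by group
  rw [this, h1]; group

/-- The overlap argument. -/
theorem overlap_false (c : Ctx p A) {q : ℕ} [hq : Fact q.Prime] (hqp : q ≠ p) {Q H : Subgroup G}
    (hQ : Q ∈ maxInvSubgroups ⊤ A {q}) (hQn : normalizer (Q : Set G) ≤ M) (hKM : Kp A ≤ M) {t : G}
    (htA : t ∈ normalizer (A : Set G)) (htM : t ∉ M) (hH : H ≠ ⊤) (hAH : A ≤ H) (h1 : H ⊓ Q ≠ ⊥)
    (h2 : H ⊓ cj Q t ≠ ⊥) : False := by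
  obtain ⟨k, hk, he⟩ := c.conj_of_overlap hqp hQ (cj_mem_maxInv_of_normalizer htA hQ) hH hAH h1 h2
  have h3 : k⁻¹ * t ∈ normalizer (Q : Set G) := by
    rw [mem_normalizer_iff_cj, ← cj_cj, he, cj_cj_inv]
  apply htM
  have h4 := M.mul_mem (hKM hk) (hQn h3)
  simpa using h4

/-- If `t` normalizes a proper subgroup `H ≥ A` then `H` misses `Q`. -/
theorem inf_eq_bot_of_norm (c : Ctx p A) {q : ℕ} [hq : Fact q.Prime] (hqp : q ≠ p) {Q H : Subgroup G}
    (hQ : Q ∈ maxInvSubgroups ⊤ A {q}) (hQn : normalizer (Q : Set G) ≤ M) (hKM : Kp A ≤ M) {t : G}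
    (htA : t ∈ normalizer (A : Set G)) (htM : t ∉ M) (hH : H ≠ ⊤) (hAH : A ≤ H)
    (htH : t ∈ normalizer (H : Set G)) : H ⊓ Q = ⊥ := by
  by_contra hne
  refine overlap_false c hqp hQ hQn hKM htA htM hH hAH hne ?_
  have h1 : cj (H ⊓ Q) t ≤ H ⊓ cj Q t := by
    refine le_inf ?_ (cj_mono inf_le_right t)
    have := cj_mono (inf_le_left : H ⊓ Q ≤ H) t
    rwa [cj_eq_of_mem_normalizer htH] at this
  intro hb
  rw [hb] at h1
  exact cj_ne_bot' t hne (le_bot_iff.mp h1)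

/-- There is an element of `A` outside the two lines `⟨a⟩` and `⟨a'⟩`. -/
theorem exists_off_two_lines (c : Ctx p A) {a a' : G} (ha : a ∈ A) (ha1 : a ≠ 1) (ha' : a' ∈ A)
    (ha'1 : a' ≠ 1) : ∃ b ∈ A, b ∉ zpowers a ∧ b ∉ zpowers a' := by
  have hordp : ∀ x ∈ A, x ≠ 1 → orderOf x = p := fun x hx hx1 => orderOf_eq_prime (c.ea.2 x hx) hx1
  by_cases hin : a' ∈ zpowers a
  · have hz : zpowers a' ≤ zpowers a := zpowers_le.mpr hin
    have hnle : ¬ A ≤ zpowers a := by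
      intro hle
      have h1 := Nat.card_le_card_of_injective _ (Subgroup.inclusion_injective hle)
      rw [c.card, Nat.card_zpowers, hordp a ha ha1] at h1
      have h2 := hpf.out.two_le
      nlinarith
    obtain ⟨b, hb, hba⟩ := SetLike.not_le_iff_exists.mp hnle
    exact ⟨b, hb, hba, fun h => hba (hz h)⟩
  · refine ⟨a * a', A.mul_mem ha ha', ?_, ?_⟩
    · intro h
      apply hin
      have := (zpowers a).mul_mem ((zpowers a).inv_mem (mem_zpowers a)) h
      simpa using this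
    · intro h
      apply hin
      have h1 : a ∈ zpowers a' := by
        have := (zpowers a').mul_mem h ((zpowers a').inv_mem (mem_zpowers a'))
        simpa using this
      have h2 : a' ∈ zpowers a := generator_of_ne_one hpf.out (hordp a' ha' ha'1) h1 ha1
      exact h2

/-- **Lines centralize the core.** -/
theorem line_centralizes (c : Ctx p A) {q : ℕ} [hq : Fact q.Prime] (hqp : q ≠ p) {L Y : Subgroup G}
    (hL : IsCoatom L) (hAL : A ≤ L) (hKL : Kp A ≤ L) {t : G} (htA : t ∈ normalizer (A : Set G))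
    (htL : t ∉ L) (hYq : IsPGroup q Y) (hYθ : Y ≤ θ A L) (hYA : A ≤ normalizer (Y : Set G)) {a : G}
    (ha : a ∈ A) (ha1 : a ≠ 1) (hYa : Y ≤ centralizer ({a} : Set G))
    (hYC : Y ⊓ centralizer (A : Set G) = ⊥) :
    Y ≤ centralizer (coreOf q (θ A L) : Set G) := by
  have hG := c.hG
  rw [Subgroup.le_centralizer_iff]
  have hθt : θ A L ≠ ⊤ := c.ne_top_of_le (c.θ_le L) hL.1
  have hWθ : coreOf q (θ A L) ≤ θ A L := BGUniq.coreOf_le q _
  have hWs : Group.IsSolvable (coreOf q (θ A L)) := IsMin.solvable hG (c.ne_top_of_le hWθ hθt)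
  have hWq : (Nat.card (coreOf q (θ A L))).Coprime q := BGUniq.card_coreOf_coprime q _
  have hWp : (Nat.card (coreOf q (θ A L))).Coprime p :=
    Nat.Coprime.coprime_dvd_left (Subgroup.card_dvd_of_le hWθ) (c.coprime_θ L)
  have hAW : A ≤ normalizer (coreOf q (θ A L) : Set G) :=
    (c.le_norm_θ hAL).trans (normalizer_le_normalizer_coreOf _)
  have hYW : Y ≤ normalizer (coreOf q (θ A L) : Set G) := hYθ.trans (BGUniq.le_normalizer_coreOf q _)
  have hT₀n : A ⊔ Y ≤ normalizer (coreOf q (θ A L) : Set G) := sup_le hAW hYW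
  have hcard : Nat.card ↥(A ⊔ Y) ∣ Nat.card A * Nat.card Y := by
    have h3 := card_sup_mul_card_inf (N := Y) (H := A) hYA
    exact ⟨_, h3.symm⟩
  have hcop : (Nat.card (coreOf q (θ A L))).Coprime (Nat.card ↥(A ⊔ Y)) :=
    Nat.Coprime.coprime_dvd_right hcard
      (Nat.Coprime.mul_right (coprime_of_isPGroup hWp c.isP) (coprime_of_isPGroup hWq hYq))
  apply le_of_forall_prime_inv hWs hT₀n hcop
  intro r hr R hRW hRr hT₀R
  by_contra hRY
  have hRbot : R ≠ ⊥ := by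
    rintro rfl
    exact hRY bot_le
  have hdr : r ∣ Nat.card (coreOf q (θ A L)) :=
    (dvd_card_of_isPGroup hRr hRbot).trans (Subgroup.card_dvd_of_le hRW)
  have hqr : q ≠ r := by
    rintro rfl
    exact hq.out.one_lt.ne' (Nat.dvd_one.mp (by simpa [hWq.gcd_eq_one] using Nat.dvd_gcd hdr (dvd_refl q)))
  have hpr : p ≠ r := by
    rintro rfl
    exact hpf.out.one_lt.ne' (Nat.dvd_one.mp (by simpa [hWp.gcd_eq_one] using Nat.dvd_gcd hdr (dvd_refl p)))
  have hr2 : r ≠ 2 := prime_ne_two_of_dvd hG (dvd_of_isPGroup hRr hRbot)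
  have hAR : A ≤ normalizer (R : Set G) := le_sup_left.trans hT₀R
  have hYR : Y ≤ normalizer (R : Set G) := le_sup_right.trans hT₀R
  have hRL : R ≤ L := hRW.trans (hWθ.trans (c.θ_le L))
  have hordp : ∀ x ∈ A, x ≠ 1 → orderOf x = p := fun x hx hx1 => orderOf_eq_prime (c.ea.2 x hx) hx1
  have hfix : ∀ b ∈ A, b ∉ zpowers a → ∀ y ∈ Y, y * b = b * y → y = 1 := by
    intro b hb hba y hy hyb
    have h1 : y ∈ Y ⊓ centralizer (A : Set G) :=
      ⟨hy, mem_cent_of_two c ha ha1 hb hba (mem_centralizer_singleton_iff.mp (hYa hy)) hyb⟩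
    rwa [hYC, Subgroup.mem_bot] at h1
  have hzb : ∀ b ∈ A, zpowers b ≤ normalizer (Y : Set G) := fun b hb => zpowers_le.mpr (hYA hb)
  have hne1 : ∀ b ∈ A, b ∉ zpowers a → b ≠ 1 := by
    rintro b hb hba rfl
    exact hba (one_mem _)
  have hYzb : ∀ b ∈ A, b ∉ zpowers a → (Nat.card (zpowers b)).Coprime (Nat.card Y) := by
    intro b hb hba
    rw [Nat.card_zpowers, hordp b hb (hne1 b hb hba)]
    obtain ⟨k, hk⟩ := IsPGroup.iff_card.mp hYq
    rw [hk]
    exact Nat.Coprime.pow_right k ((Nat.coprime_primes hpf.out hq.out).mpr hqp.symm)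
  -- `R` has rank at least three
  obtain ⟨b₁, hb₁, hb₁a⟩ : ∃ b ∈ A, b ∉ zpowers a := by
    obtain ⟨b, hb, hba, -⟩ := exists_off_two_lines c ha ha1 ha ha1
    exact ⟨b, hb, hba⟩
  have hr3 : ¬ PRankLE r 2 R := by
    intro hrk
    have hDB : Y ≤ ⁅Y, (zpowers b₁ : Subgroup G)⁆ := by
      have h1 := commutator_sup_inf_centralizer (hzb b₁ hb₁) (hYzb b₁ hb₁ hb₁a) (Or.inl inferInstance)
      have h2 : Y ⊓ centralizer ((zpowers b₁ : Subgroup G) : Set G) = ⊥ := by
        rw [centralizer_zpowers', eq_bot_iff]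
        rintro y ⟨hy1, hy2⟩
        exact Subgroup.mem_bot.mpr (hfix b₁ hb₁ hb₁a y hy1 (mem_centralizer_singleton_iff.mp hy2))
      rw [h2, sup_bot_eq] at h1
      exact h1.ge
    have hs : Group.IsSolvable ↥(Y ⊔ zpowers b₁) := by
      apply IsMin.solvable hG
      apply c.ne_top_of_le _ hL.1
      exact sup_le (hYθ.trans (c.θ_le L)) (zpowers_le.mpr (hAL hb₁))
    have h1 := centralizes_of_le_comm (q := q) (r := r) hr2 hqr hRr hrk hYq hYR
      ((zpowers_le.mpr (hAR hb₁))) hs hG.1 hDB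
    apply hRY
    rwa [Subgroup.le_centralizer_iff]
  have hU : InUniqueMaximal R := unique_of_not_prankLE hG hr3 (IsMin.isPGroup_ne_top hG hRr)
  obtain ⟨R', hR', hRR'⟩ := exists_maxInv_ge (H := ⊤) (A := A) (π := {r}) (Y := R)
    (mem_invSubgroups_singleton.mpr ⟨le_top, hRr, hAR⟩)
  have hR'p : IsPGroup r R' := (mem_invSubgroups_singleton.mp hR'.1).2.1
  -- fixed points of the other lines
  have hfr : ∀ b ∈ A, b ∉ zpowers a → R ⊓ centralizer ({b} : Set G) ≠ ⊥ := by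
    intro b hb hba hbot
    have hb1 := hne1 b hb hba
    have hbord := hordp b hb hb1
    have hCY : Y ≤ normalizer (centralizer (Y : Set G) : Set G) :=
      le_normalizer.trans (normalizer_le_normalizer_centralizer Y)
    have h0 := frob_core (r := r) (q := q) (s := p) (R := R) (R₀ := R ⊓ centralizer (Y : Set G)) (P := Y)
      (Y := zpowers b) hRr hqr hpr hYq (isPGroup_zpowers_of_pow (c.ea.2 b hb)) hYR
      (zpowers_le.mpr (hAR hb)) (le_normalizer_inf hYR hCY)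
      (le_normalizer_inf (zpowers_le.mpr (hAR hb))
        ((hzb b hb).trans (normalizer_le_normalizer_centralizer Y))) inf_le_left (hzb b hb)
      (fpf_zpowers hpf.out hbord (hfix b hb hba)) le_rfl (by
        rw [centralizer_zpowers', hbot]
        exact bot_le)
    apply hRY
    rw [← h0]
    exact inf_le_right
  -- the overlap
  have ha'A : t * a * t⁻¹ ∈ A := (mem_normalizer_iff.mp htA a).mp ha
  have ha'1 : t * a * t⁻¹ ≠ 1 := by
    intro h
    apply ha1
    have : a = t⁻¹ * (t * a * t⁻¹) * t := by group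
    rw [this, h]; group
  obtain ⟨b, hb, hba, hba'⟩ := exists_off_two_lines c ha ha1 ha'A ha'1
  have hb1 := hne1 b hb hba
  have hb'A : t⁻¹ * b * t ∈ A := by
    have := (mem_normalizer_iff.mp (inv_mem htA) b).mp hb
    simpa using this
  have hb'a : t⁻¹ * b * t ∉ zpowers a := by
    intro h
    obtain ⟨k, hk⟩ := mem_zpowers_iff.mp h
    apply hba'
    rw [mem_zpowers_iff]
    refine ⟨k, ?_⟩
    rw [conj_zpow, hk]
    group
  have hov₁ : centralizer ({b} : Set G) ⊓ R' ≠ ⊥ := by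
    intro h
    apply hfr b hb hba
    rw [eq_bot_iff, ← h, inf_comm]
    exact inf_le_inf_left _ hRR'
  have hov₂ : centralizer ({b} : Set G) ⊓ cj R' t ≠ ⊥ := by
    intro h
    apply cj_ne_bot' t (hfr _ hb'A hb'a)
    rw [eq_bot_iff, ← h]
    rintro _ ⟨x, ⟨hx1, hx2⟩, rfl⟩
    refine ⟨mem_centralizer_singleton_iff.mpr ?_, ⟨x, hRR' hx1, rfl⟩⟩
    have h1 := mem_centralizer_singleton_iff.mp hx2
    show (MulAut.conj t).toMonoidHom x * b = b * (MulAut.conj t).toMonoidHom x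
    simp only [MulEquiv.toMonoidHom_eq_coe, MonoidHom.coe_coe, MulAut.conj_apply]
    have e : t * x * t⁻¹ * b = t * (x * (t⁻¹ * b * t)) * t⁻¹ := by group
    have e2 : b * (t * x * t⁻¹) = t * ((t⁻¹ * b * t) * x) * t⁻¹ := by group
    rw [e, e2, h1]
  obtain ⟨k, hk, he⟩ := c.conj_of_overlap hpr.symm hR' (cj_mem_maxInv_of_normalizer htA hR')
    (c.cent_elem_ne_top hb1) (c.le_cent_elem hb) hov₁ hov₂
  have hR'L : R' ≤ L := by
    obtain ⟨N, hN, hR'N⟩ := BGTau5.exists_coatom_ge (IsMin.isPGroup_ne_top hG hR'p)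
    rw [← uniq_eq hU hN hL (hRR'.trans hR'N) hRL]
    exact hR'N
  have hkL : k ∈ normalizer (L : Set G) := le_normalizer (hKL hk)
  have hcjL : cj R' t ≤ L := by
    rw [he]
    have := cj_mono hR'L k
    rwa [cj_eq_of_mem_normalizer hkL] at this
  have hR'L' : R' ≤ cj L t⁻¹ := by
    have := cj_mono hcjL t⁻¹
    rwa [cj_cj_inv] at this
  have hL' : cj L t⁻¹ = L := uniq_eq hU (BGUniq3.isCoatom_cj hL t⁻¹) hL (hRR'.trans hR'L') hRL
  have hLne : L ≠ ⊥ := by
    rintro rfl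
    exact c.ne_bot (le_bot_iff.mp hAL)
  have hNL : normalizer (L : Set G) = L := eq_of_coatom_of_le_normalizer hG hL hLne hL.1 le_normalizer
  have ht' : t⁻¹ ∈ normalizer (L : Set G) := mem_normalizer_of_cj_eq hL'
  rw [hNL] at ht'
  exact htL (by simpa using L.inv_mem ht')

/-- **Lemma E.** -/
theorem lemma_E (c : Ctx p A) {q : ℕ} [hq : Fact q.Prime] (hqp : q ≠ p) {Q L : Subgroup G}
    (hQG : IsSylowIn q Q ⊤) (hQA : A ≤ normalizer (Q : Set G)) (hQn : normalizer (Q : Set G) ≤ M)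
    (hKM : Kp A ≤ M) {t : G} (htA : t ∈ normalizer (A : Set G)) (htM : t ∉ M) (hM : IsCoatom M) (hL : IsCoatom L)
    (hAL : A ≤ L) (hKL : Kp A ≤ L) (hLM : L ≠ M) : L ⊓ Q = ⊥ := by
  by_contra hne
  have hG := c.hG
  have hQm : Q ∈ maxInvSubgroups ⊤ A {q} := maxInv_of_sylow hQG hQA
  have hQp : IsPGroup q Q := hQG.2.1
  have hQC : Q ⊓ centralizer (A : Set G) = ⊥ := by
    rw [inf_comm]
    exact inf_eq_bot_of_norm c hqp hQm hQn hKM htA htM c.cent_ne_top c.le_cent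
      (normalizer_le_normalizer_centralizer A htA)
  have htL : t ∉ L := by
    intro htL
    exact hne (inf_eq_bot_of_norm c hqp hQm hQn hKM htA htM hL.1 hAL (le_normalizer htL))
  have hT : IsSylowIn q (L ⊓ Q) (θ A L) := c.sylow_inf hqp hQm hL.1 hAL hKL hne
  have hTQ : L ⊓ Q ≤ Q := inf_le_right
  have hTp : IsPGroup q ↥(L ⊓ Q) := hQp.to_le hTQ
  have hTA : A ≤ normalizer ((L ⊓ Q : Subgroup G) : Set G) :=
    le_normalizer_inf (hAL.trans le_normalizer) hQA
  have hcopT : (Nat.card A).Coprime (Nat.card ↥(L ⊓ Q)) :=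
    (coprime_of_isPGroup (coprime_of_pgroup_ne hTp hqp) c.isP).symm
  have hcent : L ⊓ Q ≤ centralizer (coreOf q (θ A L) : Set G) := by
    refine le_of_lines c.ea c.card hTA hcopT ?_
    intro a ha ha1
    refine line_centralizes c hqp hL hAL hKL htA htL (hTp.to_le inf_le_left) (inf_le_left.trans hT.1)
      (le_normalizer_inf hTA ?_) ha ha1 inf_le_right ?_
    · intro b hb
      exact mem_normalizer_cent_elem (c.comm hb ha)
    · rw [eq_bot_iff, ← hQC]
      exact inf_le_inf_right _ (inf_le_left.trans hTQ)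
  have hl : PLengthLE q 1 (θ A L) :=
    Cfsg.Agent.S1410.result hG q _ (c.ne_top_of_le (c.θ_le L) hL.1)
  have hθn : θ A L ≤ normalizer ((L ⊓ Q : Subgroup G) : Set G) := by
    intro y hy
    obtain ⟨u, hu, n, hnθ, hnS, rfl⟩ := core_factor hl hT hy
    refine mul_mem ?_ hnS
    apply Subgroup.centralizer_le_normalizer
    rw [Subgroup.mem_centralizer_iff]
    intro x hx
    exact (Subgroup.mem_centralizer_iff.mp (hcent hx) u hu).symm
  have hLn : L ≤ normalizer ((L ⊓ Q : Subgroup G) : Set G) := by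
    intro g hg
    have h1 : IsSylowIn q (cj (L ⊓ Q) g) (θ A L) := hT.cj_of_normalizer (le_normalizer_piCoreOf _ L hg)
    obtain ⟨y, hy, he⟩ := hT.exists_conj h1
    rw [mem_normalizer_iff_cj, he, cj_eq_of_mem_normalizer (hθn hy)]
  have hTt : L ⊓ Q ≠ ⊤ := fun h => hL.1 (top_le_iff.mp (h ▸ inf_le_left))
  have hNT : normalizer ((L ⊓ Q : Subgroup G) : Set G) = L :=
    eq_of_coatom_of_le_normalizer hG hL hne hTt hLn
  have hTeq : L ⊓ Q = Q := by
    by_contra hlt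
    obtain ⟨g, hgQ, hgT, hgn⟩ := CoprimeInv.exists_mem_normalizer_of_lt hQp (lt_of_le_of_ne hTQ hlt)
    rw [hNT] at hgn
    exact hgT ⟨hgn, hgQ⟩
  rw [hTeq] at hNT
  apply hLM
  apply coatom_eq hL hM
  rw [← hNT]
  exact hQn

end lemmaE

/-- **Part (b), from part (a).** -/
theorem main_b {p : ℕ} [hpf : Fact p.Prime] {A M : Subgroup G} (hG : IsMinSimpleOddOrder G)
    (hM : IsCoatom M) (hAM : A ≤ M) (hA : IsElementaryAbelian p A) (hc : Nat.card A = p ^ 2)
    (hC : ∀ L : Subgroup G, IsCoatom L → A ≤ L → centralizer (A : Set G) ≤ L) (H : LineH M A) :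
    p ∈ sigma M ∧ alphaCore M = ⊥ ∧ Group.IsNilpotent (sigmaCore M) := by
  have c : Ctx p A := ctx_of_lineH hG hA hc hM hAM H
  have hα := alpha_eq_bot c hM hAM hC H
  refine ⟨?_, hα, nilpotent_sigmaCore hG hM hα⟩
  by_contra hps
  have hMne : M ≠ ⊥ := by
    rintro rfl
    exact c.ne_bot (le_bot_iff.mp hAM)
  obtain ⟨q, hqs⟩ := exists_sigma hG hM hα hMne
  haveI hq : Fact q.Prime := ⟨hqs.1⟩
  have hqp : q ≠ p := by
    rintro rfl
    exact hps hqs
  have hKM : Kp A ≤ M := c.K_le_cent.trans (hC M hM hAM)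
  obtain ⟨P, hP, hAP⟩ := exists_isSylowIn_ge p hAM c.isP
  obtain ⟨hPC, t, htM, htP, htA⟩ := Ctx'.central_of_not_sigma c hM hAM hKM hqs hps hP hAP
  have hσs : Group.IsSolvable (sigmaCore M) := IsMin.solvable hG (c.ne_top_of_le sigmaCore_le hM.1)
  have hcop : Nat.Coprime (Nat.card (sigmaCore M)) (Nat.card A) := by
    apply coprime_of_isPGroup _ c.isP
    apply Nat.Coprime.symm
    rw [Nat.Prime.coprime_iff_not_dvd hpf.out]
    intro h
    exact hps (primes_sigmaCore p hpf.out h)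
  obtain ⟨Q, hQσ, hQA⟩ := exists_invariant_isSylowIn q hσs (hAM.trans le_normalizer_sigmaCore) hcop
  have hQM : IsSylowIn q Q M := isSylowIn_of_sigmaCore hG hM hqs hQσ
  have hQG := isSylowIn_top_of_sigma hqs hQM
  have hQn := normalizer_le_of_sigma hqs hQM
  have hQne : Q ≠ ⊥ := sylow_ne_bot hQM hqs.2.1
  have hcopQ : (Nat.card A).Coprime (Nat.card Q) :=
    (coprime_of_isPGroup (coprime_of_pgroup_ne hQM.2.1 hqp) c.isP).symm
  obtain ⟨a, ha, ha1, hne⟩ := exists_line c.ea c.card hQA hcopQ hQne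
  obtain ⟨L, hL, hLn, hLM⟩ := H a ha ha1
  have hCL : centralizer ({a} : Set G) ≤ L := (cent_le_norm a).trans hLn
  have hAL : A ≤ L := (c.le_cent_elem ha).trans hCL
  have hE := lemma_E c hqp hQG hQA hQn hKM htA htM hM hL hAL (c.K_le_cent.trans (hC L hL hAL)) hLM
  apply hne
  rw [eq_bot_iff, ← hE, inf_comm]
  exact inf_le_inf_right _ hCL

end Cfsg.Agent.Lib.BGTau6
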