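import Mathlib
import Cfsg.Agent.Lib.BGP2F
import Cfsg.Agent.Lib.BGTau6
import Cfsg.Agent.S1403
import Cfsg.Agent.S1410
import Cfsg.Agent.S1412

/-!
# Nonabelian Sylow subgroups of rank two lie in a unique maximal subgroup.
-/

set_option autoImplicit false
set_option linter.unusedSectionVars false
set_option linter.unusedVariables false
set_option linter.style.haveILetI false
set_option linter.unusedSimpArgs false

namespace Cfsg.Agent.Lib.BGP3A

open Cfsg Subgroup Cfsg.Agent.Lib.CoprimeInv Cfsg.Agent.Lib.BGTrans Cfsg.Agent.Lib.Glauberman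
  Cfsg.Agent.Lib.BGSigma Cfsg.Agent.Lib.BGSigma2 Cfsg.Agent.Lib.BGSigma3 Cfsg.Agent.Lib.BGSigma4
  Cfsg.Agent.Lib.BGM1 Cfsg.Agent.Lib.BGP2A Cfsg.Agent.Lib.BGP2B Cfsg.Agent.Lib.BGP2C
  Cfsg.Agent.Lib.BGP2D Cfsg.Agent.Lib.BGP2E Cfsg.Agent.Lib.BGP2F Cfsg.Agent.Lib.BGFit2 Cfsg.Agent.Lib.BGUniq
  Cfsg.Agent.Lib.BGUniq2 Cfsg.Agent.Lib.BGUniq3 Cfsg.Agent.Lib.BGFus Cfsg.Agent.Lib.BGTau1
  Cfsg.Agent.Lib.BGTau5 Cfsg.Agent.Lib.BGTau6

open scoped commutatorElement

universe u

variable {G : Type u} [Group G] [Finite G] {p : ℕ} [hp : Fact p.Prime]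

/-- Generation modulo a central subgroup of order `p`. -/
theorem le_of_lines_mod {P₁ Z Y L : Subgroup G} (hZP : Z ≤ P₁) (hZc : Nat.card Z = p)
    (hP₁ : Nat.card P₁ = p ^ 3) (hZn : P₁ ≤ normalizer (Z : Set G))
    (hcomm : ∀ a ∈ P₁, ∀ b ∈ P₁, ⁅a, b⁆ ∈ Z) (hexp : ∀ a ∈ P₁, a ^ p = 1)
    (hYC : Y ≤ centralizer (Z : Set G)) (hYn : P₁ ≤ normalizer (Y : Set G))
    (hcop : (Nat.card Y).Coprime p)
    (h : ∀ u ∈ P₁, u ∉ Z → Y ⊓ centralizer {u} ≤ L) : Y ≤ L := by
  classical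
  set N : Subgroup G := normalizer (Z : Set G) with hN
  have hZN : Z ≤ N := Subgroup.le_normalizer
  have hYN : Y ≤ N := hYC.trans (BGTrans.centralizer_le_normalizer Z)
  haveI hZ' : (Z.subgroupOf N).Normal := Subgroup.normal_subgroupOf_of_le_normalizer le_rfl
  let π : N →* (N ⧸ Z.subgroupOf N) := QuotientGroup.mk' (Z.subgroupOf N)
  have hπ : ∀ x y : N, π x = π y ↔ x⁻¹ * y ∈ Z.subgroupOf N := fun x y => QuotientGroup.eq
  have hYZ : ∀ y ∈ Y, y ∈ Z → y = 1 := by
    intro y hy hyZ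
    have hZp : IsPGroup p Z := IsPGroup.of_card (n := 1) (by rw [hZc, pow_one])
    have hb : Y ⊓ Z = ⊥ := by
      apply inf_eq_bot_of_coprime'
      obtain ⟨k, hk⟩ := hZp.exists_card_eq
      rw [hk]
      exact Nat.Coprime.pow_right _ hcop
    have : y ∈ Y ⊓ Z := ⟨hy, hyZ⟩
    rw [hb] at this
    exact this
  set Pb : Subgroup (N ⧸ Z.subgroupOf N) := (P₁.subgroupOf N).map π with hPb
  set Yb : Subgroup (N ⧸ Z.subgroupOf N) := (Y.subgroupOf N).map π with hYb
  set Lb : Subgroup (N ⧸ Z.subgroupOf N) := ((Y ⊓ L).subgroupOf N).map π with hLb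
  have hcomm' : ∀ a b : G, a ∈ P₁ → b ∈ P₁ → a⁻¹ * b⁻¹ * (b * a) = 1 * (a⁻¹ * b⁻¹ * (b * a)) := fun _ _ _ _ => by group
  have hPbe : IsElementaryAbelian p Pb := by
    refine ⟨⟨⟨?_⟩⟩, ?_⟩
    · rintro ⟨_, a, ha, rfl⟩ ⟨_, b, hb, rfl⟩
      apply Subtype.ext
      change π a * π b = π b * π a
      rw [← map_mul, ← map_mul, hπ, Subgroup.mem_subgroupOf]
      have ha' : (a : G) ∈ P₁ := ha
      have hb' : (b : G) ∈ P₁ := hb
      have h1 : (((a * b)⁻¹ * (b * a) : N) : G) = ⁅(b : G)⁻¹, (a : G)⁻¹⁆ := by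
        simp [commutatorElement_def, mul_assoc]
      rw [h1]
      exact hcomm _ (P₁.inv_mem hb') _ (P₁.inv_mem ha')
    · rintro _ ⟨a, ha, rfl⟩
      rw [← map_pow]
      have : a ^ p = 1 := by
        apply Subtype.ext
        simpa using hexp a ha
      rw [this, map_one]
  have hcardPb : Nat.card Pb = p ^ 2 := by
    have h1 : Nat.card Pb = (π.ker).relIndex (P₁.subgroupOf N) := (Subgroup.relIndex_ker _ _).symm
    have h2 : π.ker = Z.subgroupOf N := QuotientGroup.ker_mk' _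
    have hP₁N : P₁ ≤ N := hZn
    have h3 : (Z.subgroupOf N).relIndex (P₁.subgroupOf N) = Z.relIndex P₁ :=
      Subgroup.relIndex_subgroupOf hP₁N
    have h4 : Nat.card Z * Z.relIndex P₁ = Nat.card P₁ := by
      have := Subgroup.card_mul_index (Z.subgroupOf P₁)
      rwa [card_subgroupOf_of_le hZP] at this
    rw [h1, h2, h3]
    rw [hZc, hP₁] at h4
    have hp0 : 0 < p := hp.out.pos
    have : p * Z.relIndex P₁ = p * p ^ 2 := by rw [h4]; ring
    exact Nat.eq_of_mul_eq_mul_left hp0 this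
  have hnorm : Pb ≤ normalizer (Yb : Set (N ⧸ Z.subgroupOf N)) := by
    rintro _ ⟨a, ha, rfl⟩
    apply mem_normalizer_of_conj_mem
    rintro _ ⟨y, hy, rfl⟩
    refine ⟨a * y * a⁻¹, ?_, by simp⟩
    change _ ∈ Y.subgroupOf N
    rw [Subgroup.mem_subgroupOf]
    have hy' : (y : G) ∈ Y := hy
    have ha' : (a : G) ∈ P₁ := ha
    have := (mem_normalizer_iff.mp (hYn ha') y).mp hy'
    simpa using this
  have hcopb : (Nat.card Pb).Coprime (Nat.card Yb) := by
    rw [hcardPb]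
    apply Nat.Coprime.pow_left
    apply Nat.Coprime.symm
    apply Nat.Coprime.coprime_dvd_left _ hcop
    have h1 : Nat.card Yb ∣ Nat.card (Y.subgroupOf N) := Subgroup.card_map_dvd _ _
    rwa [card_subgroupOf_of_le hYN] at h1
  have key : Yb ≤ Lb := by
    apply le_of_lines hPbe hcardPb hnorm hcopb
    rintro _ ⟨u, hu, rfl⟩ hne _ ⟨⟨y, hy, rfl⟩, hc⟩
    have hu' : (u : G) ∈ P₁ := hu
    have hy' : (y : G) ∈ Y := hy
    have huZ : (u : G) ∉ Z := by
      intro huZ
      apply hne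
      have : u ∈ Z.subgroupOf N := huZ
      have h2 : u ∈ π.ker := by rw [QuotientGroup.ker_mk']; exact this
      exact h2
    refine ⟨y, ?_, rfl⟩
    change _ ∈ (Y ⊓ L).subgroupOf N
    rw [Subgroup.mem_subgroupOf]
    refine ⟨hy', ?_⟩
    apply h _ hu' huZ
    refine ⟨hy', ?_⟩
    -- the commutator lies in `Y ∩ Z`
    have hc2 : π y * π u = π u * π y := by
      have := mem_centralizer_iff.mp hc (π u) (by simp)
      exact this.symm
    rw [← map_mul, ← map_mul, hπ, Subgroup.mem_subgroupOf] at hc2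
    have h3 : (((y * u)⁻¹ * (u * y) : N) : G) = (u : G)⁻¹ * ((y : G)⁻¹ * ((u : G) * y)) := by
      simp [mul_assoc]
    rw [h3] at hc2
    have hZu : (y : G)⁻¹ * ((u : G) * y * (u : G)⁻¹) ∈ Z := by
      have h4 : (y : G)⁻¹ * ((u : G) * y * (u : G)⁻¹) =
          (u : G) * ((u : G)⁻¹ * ((y : G)⁻¹ * ((u : G) * y))) * (u : G)⁻¹ := by group
      rw [h4]
      exact (mem_normalizer_iff.mp (hZn hu') _).mp hc2
    have hYu : (y : G)⁻¹ * ((u : G) * y * (u : G)⁻¹) ∈ Y :=
      Y.mul_mem (Y.inv_mem hy') ((mem_normalizer_iff.mp (hYn hu') y).mp hy')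
    have h5 := hYZ _ hYu hZu
    change (y : G) ∈ centralizer ({(u : G)} : Set G)
    rw [mem_centralizer_iff]
    rintro _ rfl
    have h6 : (u : G) * y * (u : G)⁻¹ = y := by
      rw [inv_mul_eq_one] at h5
      exact h5.symm
    calc (u : G) * y = (u : G) * y * (u : G)⁻¹ * u := by group
      _ = y * u := by rw [h6]
  intro y hy
  have h1 : π ⟨y, hYN hy⟩ ∈ Yb := ⟨⟨y, hYN hy⟩, hy, rfl⟩
  obtain ⟨y', hy', he⟩ := key h1
  change _ ∈ (Y ⊓ L).subgroupOf N at hy'
  rw [Subgroup.mem_subgroupOf] at hy'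
  rw [hπ, Subgroup.mem_subgroupOf] at he
  have h2 : (y' : G)⁻¹ * y ∈ Y := Y.mul_mem (Y.inv_mem hy'.1) hy
  have h3 := hYZ _ h2 (by simpa using he)
  rw [inv_mul_eq_one] at h3
  rw [← h3]
  exact hy'.2

/-- In a nonabelian group of order `p ^ 3` and exponent `p`, a noncentral element has every element
of its coset modulo the commutator subgroup as a conjugate. -/
theorem exists_conj_of_not_center {P₁ : Subgroup G} (hn : ¬ IsMulCommutative P₁)
    (hc : Nat.card P₁ = p ^ 3) {u z : G} (hu : u ∈ P₁) (huZ : u ∉ (⁅P₁, P₁⁆ : Subgroup G))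
    (hz : z ∈ (⁅P₁, P₁⁆ : Subgroup G)) : ∃ w ∈ P₁, w * u * w⁻¹ = u * z := by
  classical
  have hcen := Cfsg.Agent.Lib.BGFus2.comm_eq_inf_centralizer hn hc
  have hZc : Nat.card (⁅P₁, P₁⁆ : Subgroup G) = p := card_comm_cube hn hc
  -- a noncommuting element
  have hex : ∃ w₀ ∈ P₁, w₀ * u ≠ u * w₀ := by
    by_contra hno
    push Not at hno
    apply huZ
    rw [hcen]
    refine ⟨hu, ?_⟩
    change u ∈ centralizer (P₁ : Set G)
    rw [mem_centralizer_iff]
    intro a ha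
    exact hno a ha
  obtain ⟨w₀, hw₀, hne⟩ := hex
  set z₀ : G := ⁅w₀, u⁆ with hz₀
  have hz₀Z : z₀ ∈ (⁅P₁, P₁⁆ : Subgroup G) := Subgroup.commutator_mem_commutator hw₀ hu
  have hz₀1 : z₀ ≠ 1 := by
    intro h
    apply hne
    rw [hz₀, commutatorElement_eq_one_iff_mul_comm] at h
    exact h
  have hcentral : ∀ x ∈ P₁, Commute z₀ x := by
    intro x hx
    rw [hcen] at hz₀Z
    exact (mem_centralizer_iff.mp hz₀Z.2 x hx).symm
  -- `z` is a power of `z₀`
  have hZeq : (⁅P₁, P₁⁆ : Subgroup G) = zpowers z₀ := by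
    haveI : Fact (Nat.card (⁅P₁, P₁⁆ : Subgroup G)).Prime := ⟨by rw [hZc]; exact hp.out⟩
    haveI : IsCyclic (⁅P₁, P₁⁆ : Subgroup G) := isCyclic_of_prime_card rfl
    symm
    apply Subgroup.eq_of_le_of_card_ge
    · rw [Subgroup.zpowers_le]; exact hz₀Z
    · rw [hZc, Nat.card_zpowers]
      have h1 : orderOf z₀ ∣ p := by
        apply orderOf_dvd_of_pow_eq_one
        have := pow_card_eq_one' (G := (⁅P₁, P₁⁆ : Subgroup G)) (x := ⟨z₀, hz₀Z⟩)
        rw [hZc] at this
        exact congrArg Subtype.val this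
      have h2 : orderOf z₀ ≠ 1 := by rwa [Ne, orderOf_eq_one_iff]
      rw [(Nat.dvd_prime hp.out).mp h1 |>.resolve_left h2]
  rw [hZeq, Subgroup.mem_zpowers_iff] at hz
  obtain ⟨k, rfl⟩ := hz
  -- use a natural power
  have hfin : IsOfFinOrder z₀ := isOfFinOrder_of_finite z₀
  obtain ⟨n, hnk⟩ : ∃ n : ℕ, z₀ ^ n = z₀ ^ k := by
    obtain ⟨n, hn⟩ := (mem_powers_iff_mem_zpowers (x := z₀) (y := z₀ ^ k)).mpr ⟨k, rfl⟩
    exact ⟨n, hn⟩
  rw [← hnk]
  refine ⟨w₀ ^ n, pow_mem hw₀ n, ?_⟩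
  have h1 : ⁅w₀ ^ n, u⁆ = z₀ ^ n := comm_pow_left (hcentral _ hw₀) (hcentral _ hu) n
  have h2 : w₀ ^ n * u * (w₀ ^ n)⁻¹ = ⁅w₀ ^ n, u⁆ * u := by
    rw [commutatorElement_def]; group
  rw [h2, h1]
  exact ((hcentral u hu).pow_left n).eq

/-- Two nontrivial elements of a subgroup of prime order generate it. -/
theorem zpowers_eq_of_mem {a u : G} (ha : a ^ p = 1) (ha1 : a ≠ 1) (hu : u ∈ zpowers a) (hu1 : u ≠ 1) :
    zpowers u = zpowers a := by
  have h1 : orderOf a = p := orderOf_eq_prime ha ha1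
  have h2 : u ^ p = 1 := by
    obtain ⟨k, rfl⟩ := Subgroup.mem_zpowers_iff.mp hu
    rw [← zpow_natCast, ← zpow_mul, mul_comm, zpow_mul, zpow_natCast, ha, one_zpow]
  have h3 : orderOf u = p := orderOf_eq_prime h2 hu1
  apply Subgroup.eq_of_le_of_card_ge
  · rwa [Subgroup.zpowers_le]
  · rw [Nat.card_zpowers, Nat.card_zpowers, h1, h3]

theorem zpowers_cj (x g : G) : zpowers (g * x * g⁻¹) = cj (zpowers x) g := by
  have := MonoidHom.map_zpowers (MulAut.conj g).toMonoidHom x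
  rw [cj, this]
  rfl

theorem sylow_es_unique (hG : IsMinSimpleOddOrder G) {S P₁ P₂ : Subgroup G} (hS : IsSylowIn p S ⊤)
    (hES : ES p S P₁ P₂) : InUniqueMaximal S := by
  classical
  set Z₁ : Subgroup G := ⁅P₁, P₁⁆ with hZ₁
  have hZ₁card : Nat.card Z₁ = p := hES.card_Z
  have hZ₁ne : Z₁ ≠ ⊥ := by
    intro hb
    rw [hb, Subgroup.card_bot] at hZ₁card
    exact hp.out.one_lt.ne hZ₁card
  have hZ₁p : IsPGroup p Z₁ := IsPGroup.of_card (n := 1) (by rw [hZ₁card, pow_one])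
  have hZ₁t : Z₁ ≠ ⊤ := IsMin.isPGroup_ne_top hG hZ₁p
  have hZP : Z₁ ≤ P₁ := hES.Z_le1
  have hexp : ∀ a ∈ P₁, a ^ p = 1 := fun a ha => hES.pow1 ha
  have hs1 : ∀ x ∈ S, x ^ p = 1 → x ∈ P₁ := by
    intro x hx hxp
    obtain ⟨a, ha, b, hb, rfl⟩ := hES.mem hx
    have hab : Commute a b := hES.comm a ha b hb
    rw [hab.mul_pow, hES.pow1 ha, one_mul] at hxp
    have hbZ : b ∈ Z₁ := by
      rw [hZ₁, ← hES.om]
      exact subset_closure ⟨hb, hxp⟩
    exact mul_mem ha (hES.Z_le1 hbZ)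
  have hSder : ⁅S, S⁆ = Z₁ := hES.derived
  have hNSZ : normalizer (S : Set G) ≤ normalizer (Z₁ : Set G) := by
    have := normalizer_le_normalizer_comm S
    rwa [hSder] at this
  have hNZ₁ : normalizer (Z₁ : Set G) ≠ ⊤ := IsMin.normalizer_ne_top hG hZ₁ne hZ₁t
  have hSC : S ≤ centralizer (Z₁ : Set G) := by
    intro s hs
    rw [mem_centralizer_iff]
    intro z hz
    exact hES.Z_central hz hs
  have hSZ : S ≤ normalizer (Z₁ : Set G) := hSC.trans (BGTrans.centralizer_le_normalizer Z₁)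
  have hP₁Z : P₁ ≤ normalizer (Z₁ : Set G) := hES.le1.trans hSZ
  obtain ⟨L₁, hL₁, hZL₁⟩ := Cfsg.Agent.Lib.BGSigma2.exists_coatom_ge hNZ₁
  have hSL₁ : S ≤ L₁ := hSZ.trans hZL₁
  refine ⟨L₁, ⟨hL₁, hSL₁⟩, ?_⟩
  rintro M ⟨hM, hSM⟩
  by_contra hne
  have hleM : ¬ M ≤ L₁ := fun hle => hL₁.1 (hM.2 L₁ (lt_of_le_of_ne hle hne))
  have hleL : ¬ L₁ ≤ M := fun hle => hM.1 (hL₁.2 M (lt_of_le_of_ne hle (Ne.symm hne)))
  have hP₁M : P₁ ≤ M := hES.le1.trans hSM
  -- a subgroup of order `p`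
  have hgoodN : ∀ y : G, y ≠ 1 → y ^ p = 1 →
      (∀ L : Subgroup G, IsCoatom L → normalizer (zpowers y : Set G) ≤ L → L = M) →
      normalizer (zpowers y : Set G) ≤ M := by
    intro y hy1 hyp hg
    have h1 : IsPGroup p (zpowers y) := BGP2E.isPGroup_zpowers_of_pow hyp
    have h2 : zpowers y ≠ ⊥ := by rwa [Ne, Subgroup.zpowers_eq_bot]
    obtain ⟨L, hL, hle⟩ := Cfsg.Agent.Lib.BGSigma2.exists_coatom_ge (IsMin.normalizer_ne_top hG h2 (IsMin.isPGroup_ne_top hG h1))
    rw [← hg L hL hle]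
    exact hle
  have hconj : ∀ y w : G, w ∈ M →
      (∀ L : Subgroup G, IsCoatom L → normalizer (zpowers y : Set G) ≤ L → L = M) →
      (∀ L : Subgroup G, IsCoatom L → normalizer (zpowers (w * y * w⁻¹) : Set G) ≤ L → L = M) := by
    intro y w hw hg L hL hle
    have h1 : normalizer (zpowers y : Set G) ≤ cj L w⁻¹ := by
      rw [zpowers_cj, normalizer_cj_eq] at hle
      have := cj_mono hle w⁻¹
      rwa [cj_cj_inv] at this
    have h2 := hg _ (BGUniq3.isCoatom_cj hL w⁻¹) h1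
    have h3 : L = cj M w := by
      rw [← h2, cj_cj, mul_inv_cancel, cj_one]
    rw [h3, cj_eq_of_mem_normalizer]
    rw [normalizer_coatom hG hM]
    exact hw
  -- the elementary abelian subgroups of order `p ^ 2`
  have hline : ∀ x ∈ P₁, x ∉ Z₁ → IsElementaryAbelian p (zpowers x ⊔ Z₁ : Subgroup G) ∧
      Nat.card (zpowers x ⊔ Z₁ : Subgroup G) = p ^ 2 := by
    intro x hx hxZ
    have hx1 : x ≠ 1 := fun h => hxZ (h ▸ one_mem _)
    have hzC : zpowers x ≤ centralizer (Z₁ : Set G) := by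
      rw [Subgroup.zpowers_le]
      exact hES.le1.trans hSC hx
    refine ⟨ea_sup (ea_zpowers (hexp x hx)) (ea_of_card_prime hZ₁card) hzC, ?_⟩
    have h1 := card_sup_mul_card_inf (H := zpowers x) (N := Z₁) (hzC.trans (BGTrans.centralizer_le_normalizer Z₁))
    have h2 : zpowers x ⊓ Z₁ = ⊥ := by
      rw [eq_bot_iff]
      rintro y ⟨hy1, hy2⟩
      by_contra hy
      have hy' : y ≠ 1 := hy
      have h3 := zpowers_eq_of_mem (hexp x hx) hx1 hy1 hy'
      apply hxZ
      have h4 : x ∈ zpowers y := by rw [h3]; exact Subgroup.mem_zpowers x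
      exact (Subgroup.zpowers_le.mpr hy2) h4
    rw [h2, Subgroup.card_bot, mul_one, hZ₁card, Nat.card_zpowers, orderOf_eq_prime (hexp x hx) hx1] at h1
    rw [h1]; ring
  have hgood : ∀ x ∈ P₁, x ∉ Z₁ →
      ∀ L : Subgroup G, IsCoatom L → normalizer (zpowers x : Set G) ≤ L → L = M := by
    intro x hx hxZ
    obtain ⟨hAe, hAc⟩ := hline x hx hxZ
    set A : Subgroup G := zpowers x ⊔ Z₁ with hA
    have hAP₁ : A ≤ P₁ := sup_le (by rwa [Subgroup.zpowers_le]) hZP
    have hAM : A ≤ M := hAP₁.trans hP₁M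
    have hcent : ∀ L : Subgroup G, IsCoatom L → A ≤ L → centralizer (A : Set G) ≤ L :=
      fun L hL hAL => cent_le hG hL hAL hAe hAc
    have hnotH : ¬ LineH M A := by
      intro H
      obtain ⟨hσ, hα, hnil⟩ := main_b hG hM hAM hAe hAc hcent H
      have h1 : S ≤ sigmaCore M := pgroup_le_sigmaCore hG hM hσ hSM hS.2.1
      have h2 : S ≤ pCoreOf p (sigmaCore M) := le_pCoreOf_nil hnil h1 hS.2.1
      have h3 : pCoreOf p (sigmaCore M) = S := hS.2.2 _ le_top (isPGroup_pCoreOf p _) h2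
      apply hleM
      have h4 : M ≤ normalizer (sigmaCore M : Set G) := le_normalizer_sigmaCore
      have h5 := normalizer_le_normalizer_pCoreOf p (sigmaCore M)
      rw [h3] at h5
      exact h4.trans (h5.trans (hNSZ.trans hZL₁))
    unfold LineH at hnotH
    push Not at hnotH
    obtain ⟨a, haA, ha1, hagood⟩ := hnotH
    have haP₁ := hAP₁ haA
    have haZ : a ∉ Z₁ := by
      intro h
      have h1 : a ^ p = 1 := hexp a haP₁
      have h2 : zpowers a = Z₁ := by
        apply Subgroup.eq_of_le_of_card_ge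
        · rwa [Subgroup.zpowers_le]
        · rw [hZ₁card, Nat.card_zpowers, orderOf_eq_prime h1 ha1]
      apply hne
      exact (hagood L₁ hL₁ (by rw [h2]; exact hZL₁)).symm
    -- `x` lies in the product of the line of `a` and `Z₁`
    obtain ⟨hAe', hAc'⟩ := hline a haP₁ haZ
    have hA' : (zpowers a ⊔ Z₁ : Subgroup G) = A := by
      apply Subgroup.eq_of_le_of_card_ge
      · refine sup_le (by rwa [Subgroup.zpowers_le]) le_sup_right
      · rw [hAc, hAc']
    have hxA : x ∈ (zpowers a ⊔ Z₁ : Subgroup G) := by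
      rw [hA']
      exact (le_sup_left : zpowers x ≤ A) (Subgroup.mem_zpowers x)
    have hn : zpowers a ≤ normalizer (Z₁ : Set G) := by
      rw [Subgroup.zpowers_le]
      exact hP₁Z haP₁
    have h1 : x ∈ (((zpowers a ⊔ Z₁ : Subgroup G)) : Set G) := hxA
    rw [Subgroup.coe_mul_of_left_le_normalizer_right _ _ hn] at h1
    obtain ⟨u, hu, z, hz, hxe⟩ := Set.mem_mul.mp h1
    have hu' : u ∈ zpowers a := hu
    have huP : u ∈ P₁ := (Subgroup.zpowers_le.mpr haP₁) hu'
    have hz' : z ∈ Z₁ := hz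
    have huZ : u ∉ Z₁ := by
      intro h
      apply hxZ
      rw [← hxe]
      exact mul_mem h hz'
    have hu1 : u ≠ 1 := fun h => huZ (h ▸ one_mem _)
    have hzu : zpowers u = zpowers a := zpowers_eq_of_mem (hexp a haP₁) ha1 hu' hu1
    obtain ⟨w, hw, hwe⟩ := exists_conj_of_not_center hES.nonab hES.card huP huZ hz'
    have h2 := hconj u w (hP₁M hw) (by rw [hzu]; exact hagood)
    rw [hwe, hxe] at h2
    exact h2
  -- an element outside `Z₁`
  have hexx : ∃ x ∈ P₁, x ∉ Z₁ := by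
    by_contra hno
    push Not at hno
    have h1 : Nat.card P₁ ≤ Nat.card Z₁ := Subgroup.card_le_of_le (fun x hx => hno x hx)
    rw [hES.card, hZ₁card] at h1
    have h2 : p ^ 1 < p ^ 3 := Nat.pow_lt_pow_right hp.out.one_lt (by norm_num)
    rw [pow_one] at h2
    omega
  obtain ⟨x₀, hx₀, hx₀Z⟩ := hexx
  have hcl : ∀ u ∈ P₁, u ∉ Z₁ → centralizer ({u} : Set G) ≤ M := by
    intro u hu huZ
    have hu1 : u ≠ 1 := fun h => huZ (h ▸ one_mem _)
    have h1 := hgoodN u hu1 (hexp u hu) (hgood u hu huZ)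
    rw [← centralizer_zpowers']
    exact (BGTrans.centralizer_le_normalizer _).trans h1
  -- `N(S) ≤ M`
  have hNS : normalizer (S : Set G) ≤ M := by
    intro y hy
    have h1 : y * x₀ * y⁻¹ ∈ S := (mem_normalizer_iff.mp hy _).mp (hES.le1 hx₀)
    have h2 : (y * x₀ * y⁻¹) ^ p = 1 := by
      rw [conj_pow, hexp x₀ hx₀]; group
    have h3 : y * x₀ * y⁻¹ ∈ P₁ := hs1 _ h1 h2
    have h4 : y * x₀ * y⁻¹ ∉ Z₁ := by
      intro h
      exact hx₀Z ((mem_normalizer_iff.mp (hNSZ hy) _).mpr h)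
    have h5 := hgood _ h3 h4
    have hx₀1 : x₀ ≠ 1 := fun h => hx₀Z (h ▸ one_mem _)
    have h6 := hgoodN x₀ hx₀1 (hexp x₀ hx₀) (hgood x₀ hx₀ hx₀Z)
    have h7 : cj M y = M := by
      apply h5 _ (BGUniq3.isCoatom_cj hM y)
      rw [zpowers_cj, normalizer_cj_eq]
      exact cj_mono h6 y
    have h8 := mem_normalizer_of_cj_eq h7
    rwa [normalizer_coatom hG hM] at h8
  -- `O_{p'}(L₁) ≤ M`
  have hK : coreOf p L₁ ≤ M := by
    obtain ⟨hAe, hAc⟩ := hline x₀ hx₀ hx₀Z
    have hAP₁ : (zpowers x₀ ⊔ Z₁ : Subgroup G) ≤ P₁ := sup_le (by rwa [Subgroup.zpowers_le]) hZP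
    have hP₁L : P₁ ≤ L₁ := hES.le1.trans hSL₁
    have hcop : (Nat.card (coreOf p L₁)).Coprime p := card_coreOf_coprime p L₁
    apply le_of_lines hAe hAc
      ((hAP₁.trans hP₁L).trans (le_normalizer_coreOf p L₁))
      (by rw [hAc]; exact Nat.Coprime.pow_left _ hcop.symm)
    intro a haA ha1
    have haP := hAP₁ haA
    by_cases haZ : a ∈ Z₁
    · -- the centralizer of `Z₁`
      have hzp : zpowers a = Z₁ := by
        apply Subgroup.eq_of_le_of_card_ge
        · rwa [Subgroup.zpowers_le]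
        · rw [hZ₁card, Nat.card_zpowers, orderOf_eq_prime (hexp a haP) ha1]
      rw [← centralizer_zpowers', hzp]
      apply le_of_lines_mod hZP hZ₁card hES.card hP₁Z _ hexp inf_le_right
      · exact le_normalizer_inf (hP₁L.trans (le_normalizer_coreOf p L₁))
          (hP₁Z.trans (normalizer_le_normalizer_centralizer Z₁))
      · apply Nat.Coprime.coprime_dvd_left _ hcop
        exact Subgroup.card_dvd_of_le inf_le_left
      · intro u hu huZ
        exact inf_le_right.trans (hcl u hu huZ)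
      · intro a ha b hb
        exact Subgroup.commutator_mem_commutator ha hb
    · exact inf_le_right.trans (hcl a haP haZ)
  apply hleL
  intro y hy
  obtain ⟨u, hu, n, hnL, hnS, rfl⟩ :=
    core_factor (Cfsg.Agent.S1410.result hG p L₁ hL₁.1) (isSylowIn_of_top hS hSL₁) hy
  exact mul_mem (hK hu) (hNS hnS)

/-- The full reduction: nonabelian `p`-subgroups lie in a unique maximal subgroup, given that Sylow
subgroups of a maximal subgroup `M` are abelian for `p ∈ τ₂(M)`. -/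
theorem unique_of_nonab (hG : IsMinSimpleOddOrder G)
    (h1417 : ∀ M : Subgroup G, IsCoatom M → p ∈ tau2 M → ∀ P : Subgroup G, IsSylowIn p P M →
      IsMulCommutative P) :
    ∀ (n : ℕ) (P : Subgroup G), Nat.card G - Nat.card P = n → IsPGroup p P → ¬ IsMulCommutative P →
      InUniqueMaximal P := by
  classical
  intro n
  induction n using Nat.strong_induction_on with
  | _ n IH =>
    intro P hn hP hPna
    have hP1 : P ≠ ⊥ := by
      rintro rfl
      exact hPna ⟨⟨fun a b => by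
        apply Subtype.ext
        have ha : (a : G) = 1 := a.2
        have hb : (b : G) = 1 := b.2
        simp [ha, hb]⟩⟩
    have hPt : P ≠ ⊤ := IsMin.isPGroup_ne_top hG hP
    have hp2 : p ≠ 2 := prime_ne_two_of_dvd hG
      ((dvd_card_of_isPGroup hP hP1).trans (Subgroup.card_subgroup_dvd_card P))
    obtain ⟨S, hS, hPS⟩ := exists_isSylowIn_ge p (le_top : P ≤ ⊤) hP
    -- the inductive step for larger subgroups
    have hstep : ∀ Q : Subgroup G, P < Q → IsPGroup p Q → InUniqueMaximal Q := by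
      intro Q hPQ hQ
      have hlt : Nat.card P < Nat.card Q := BGUniq2.card_lt_of_lt' hPQ
      have hle : Nat.card Q ≤ Nat.card G := Subgroup.card_le_card_group Q
      refine IH _ ?_ Q rfl hQ ?_
      · omega
      · intro hc
        apply hPna
        refine ⟨⟨fun a b => ?_⟩⟩
        have := hc.is_comm.comm (⟨a, hPQ.le a.2⟩ : Q) ⟨b, hPQ.le b.2⟩
        have h2 : (a : G) * b = b * a := congrArg Subtype.val this
        exact Subtype.ext h2
    by_cases hPSe : P = S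
    · subst hPSe
      by_cases hr : PRankLE p 2 P
      · let PS : Sylow p G :=
          { toSubgroup := P, isPGroup' := hS.2.1, is_maximal' := fun hR hle => hS.2.2 _ le_top hR hle }
        rcases Cfsg.Agent.S1412.result hG p PS hr with hc | ⟨P₁, P₂, h1, h2, h3, h4, h5, h6, h7⟩
        · exact absurd hc hPna
        · have hES : ES p P P₁ P₂ := by
            refine ⟨h1, h2, h3, h4, h5, h6, ?_⟩
            rw [h7]
            exact (Cfsg.Agent.Lib.BGFus2.comm_eq_inf_centralizer h3 h4).symm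
          exact sylow_es_unique hG hS hES
      · exact Cfsg.Agent.S1403.result hG P hPt (not_rankLE_one hp.out hr) (Or.inl (not_rankLE_two hp.out hr))
    · have hPlt : P < S := lt_of_le_of_ne hPS hPSe
      have hNP : normalizer (P : Set G) ≠ ⊤ := IsMin.normalizer_ne_top hG hP1 hPt
      -- the normalizer in a larger `p`-group
      have hNlt : ∀ T : Subgroup G, IsPGroup p T → P < T → P < T ⊓ normalizer (P : Set G) := by
        intro T hT hlt
        obtain ⟨x, hxT, hxP, hxN⟩ := BGUniq.exists_mem_normalizer_of_lt hT hlt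
        refine lt_of_le_of_ne (le_inf hlt.le Subgroup.le_normalizer) ?_
        intro he
        apply hxP
        rw [he]
        exact ⟨hxT, hxN⟩
      have hpg : ∀ T : Subgroup G, IsPGroup p T → IsPGroup p (T ⊓ normalizer (P : Set G) : Subgroup G) :=
        fun T hT => hT.to_le inf_le_left
      have hU₀ := hstep _ (hNlt S hS.2.1 hPlt) (hpg S hS.2.1)
      obtain ⟨L₀, ⟨hL₀, hSL₀⟩, huniq⟩ := hU₀
      have hNL₀ : normalizer (P : Set G) ≤ L₀ := by
        obtain ⟨L, hL, hle⟩ := Cfsg.Agent.Lib.BGSigma2.exists_coatom_ge hNP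
        rw [← huniq L ⟨hL, inf_le_right.trans hle⟩]
        exact hle
      refine ⟨L₀, ⟨hL₀, Subgroup.le_normalizer.trans hNL₀⟩, ?_⟩
      rintro M ⟨hM, hPM⟩
      obtain ⟨T, hT, hPT⟩ := exists_isSylowIn_ge p hPM hP
      by_cases hPTe : P = T
      · subst hPTe
        exfalso
        have hσ : p ∉ sigma M := by
          intro h
          have h1 := isSylowIn_top_of_sigma h hT
          exact hPSe (h1.2.2 S le_top hS.2.1 hPS).symm
        have h2 : PRankLE p 2 M := by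
          by_contra h
          exact hσ (alpha_sub_sigma hG (ut hG) hM ⟨hp.out, h⟩)
        have h1 : ¬ PRankLE p 1 M := by
          intro h
          have h3 : PRankLE p 1 P := prankLE_of_le hPM h
          haveI := isCyclic_of_prank_one hp2 hP h3
          exact hPna ⟨⟨fun a b => by
            have := (IsCyclic.commGroup (α := P)).mul_comm a b
            exact this⟩⟩
        exact hPna (h1417 M hM ⟨hp.out, hσ, h2, h1⟩ P hT)
      · have hPTl : P < T := lt_of_le_of_ne hPT hPTe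
        have hU₁ := hstep _ (hNlt T hT.2.1 hPTl) (hpg T hT.2.1)
        exact eq_of_unique hU₁ hL₀ (inf_le_right.trans hNL₀) hM (inf_le_left.trans hT.1)

end Cfsg.Agent.Lib.BGP3A
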