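import Mathlib
import Cfsg.Agent.Lib.BGP3A
import Cfsg.Agent.Lib.Hall
import Cfsg.Agent.Lib.HallExist

/-!
# Fusion of `σ(M)`-subgroups: nonunique normalizers and conjugates in `M_σ`.
Both results are conditional on the statement that nonabelian `p`-subgroups lie in a unique maximal
subgroup.
-/

set_option autoImplicit false
set_option linter.unusedSectionVars false
set_option linter.unusedVariables false
set_option linter.style.haveILetI false
set_option linter.unusedSimpArgs false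

namespace Cfsg.Agent.Lib.BGP3B

open Cfsg Subgroup Cfsg.Agent.Lib.CoprimeInv Cfsg.Agent.Lib.BGTrans Cfsg.Agent.Lib.Glauberman
  Cfsg.Agent.Lib.BGSigma Cfsg.Agent.Lib.BGSigma2 Cfsg.Agent.Lib.BGSigma3 Cfsg.Agent.Lib.BGSigma4
  Cfsg.Agent.Lib.BGM1 Cfsg.Agent.Lib.BGP2A Cfsg.Agent.Lib.BGP2B Cfsg.Agent.Lib.BGP2C
  Cfsg.Agent.Lib.BGP2D Cfsg.Agent.Lib.BGP2E Cfsg.Agent.Lib.BGP2F Cfsg.Agent.Lib.BGFit2 Cfsg.Agent.Lib.BGUniq
  Cfsg.Agent.Lib.BGUniq2 Cfsg.Agent.Lib.BGUniq3 Cfsg.Agent.Lib.BGFus Cfsg.Agent.Lib.BGP3A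

open scoped commutatorElement Pointwise

universe u

variable {G : Type u} [Group G] [Finite G]

/-- Nonabelian `p`-subgroups lie in a unique maximal subgroup. -/
def NA (G : Type u) [Group G] : Prop :=
  ∀ (q : ℕ) [Fact q.Prime] (P : Subgroup G), IsPGroup q P → ¬ IsMulCommutative P → InUniqueMaximal P

variable {q : ℕ} [hq : Fact q.Prime]

theorem exists_conj_le {M Q : Subgroup G} (hσ : q ∈ sigma M) (hQ : IsPGroup q Q) :
    ∃ g : G, cj Q g ≤ M := by
  obtain ⟨P, hP, hN⟩ := exists_sigma_sylow hσ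
  have h1 : IsSylowIn q P ⊤ := isSylowIn_top_of_sigma hσ hP
  obtain ⟨S, hS, hQS⟩ := exists_isSylowIn_ge q (le_top : Q ≤ ⊤) hQ
  obtain ⟨g, -, hg⟩ := hS.exists_conj h1
  refine ⟨g, ?_⟩
  have := cj_mono hQS g
  rw [← hg] at this
  exact this.trans hP.1

theorem cj_coatom_eq (hG : IsMinSimpleOddOrder G) {M : Subgroup G} (hM : IsCoatom M) {m : G} (hm : m ∈ M) :
    cj M m = M := by
  apply cj_eq_of_mem_normalizer
  rw [normalizer_coatom hG hM]
  exact hm

theorem s1424_main (hG : IsMinSimpleOddOrder G) (hNA : NA G) {M Mstar X S : Subgroup G}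
    (hM : IsCoatom M) (hσ : q ∈ sigma M) (hXq : IsPGroup q X) (hX1 : X ≠ ⊥) (hXM : X ≤ M)
    (hMs : IsCoatom Mstar) (hne : Mstar ≠ M) (hNX : normalizer (X : Set G) ≤ Mstar)
    (hS : IsSylowIn q S (M ⊓ Mstar)) (hXS : X ≤ S) :
    (∀ g : G, Mstar ≠ cj M g) ∧ normalizer (S : Set G) ≤ M ∧ IsSylowIn q S Mstar := by
  classical
  have hSM : S ≤ M := hS.1.trans inf_le_left
  have hSMs : S ≤ Mstar := hS.1.trans inf_le_right
  have hSq : IsPGroup q S := hS.2.1
  have hS1 : S ≠ ⊥ := fun h => hX1 (le_bot_iff.mp (h ▸ hXS))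
  have hCX : centralizer (X : Set G) ≤ Mstar := (BGTrans.centralizer_le_normalizer X).trans hNX
  have hCS : centralizer (S : Set G) ≤ Mstar := (Subgroup.centralizer_le hXS).trans hCX
  have hSab : IsMulCommutative S := by
    by_contra h
    exact hne (eq_of_unique (hNA q S hSq h) hM hSM hMs hSMs)
  have hmax : ∀ R : Subgroup G, R ≤ M → R ≤ Mstar → IsPGroup q R → S ≤ R → R = S :=
    fun R h1 h2 h3 h4 => hS.2.2 R (le_inf h1 h2) h3 h4
  have hNlt : ∀ T : Subgroup G, IsPGroup q T → S < T → S < T ⊓ normalizer (S : Set G) := by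
    intro T hT hlt
    obtain ⟨x, hxT, hxP, hxN⟩ := BGUniq.exists_mem_normalizer_of_lt hT hlt
    refine lt_of_le_of_ne (le_inf hlt.le Subgroup.le_normalizer) ?_
    intro he
    apply hxP
    rw [he]
    exact ⟨hxT, hxN⟩
  refine ⟨?_, ?_, hSMs, hSq, ?_⟩
  · -- not conjugate
    intro g he
    have h1 : cj X g⁻¹ ≤ M := by
      have h2 : X ≤ cj M g := he ▸ (hXS.trans hSMs)
      have h3 := cj_mono h2 g⁻¹
      rwa [cj_cj_inv] at h3
    obtain ⟨m, hm, c, hc, hgm⟩ := (sigma_ctrl hG (ut hG) hM hσ hXq hX1 hXM).1 g⁻¹ h1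
    have hg : g = c⁻¹ * m⁻¹ := by
      have : g = (g⁻¹)⁻¹ := by group
      rw [this, hgm]; group
    have hcj : cj M g = cj M c⁻¹ := by
      rw [hg, ← cj_cj, cj_coatom_eq hG hM (M.inv_mem hm)]
    have hc' : c⁻¹ ∈ Mstar := hCX ((centralizer (X : Set G)).inv_mem hc)
    rw [he, hcj, mem_cj] at hc'
    have hc2 : c⁻¹ ∈ M := by
      have h3 : (c⁻¹)⁻¹ * c⁻¹ * c⁻¹ = c⁻¹ := by group
      rwa [h3] at hc'
    apply hne
    rw [he, hcj, cj_coatom_eq hG hM hc2]
  · -- the normalizer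
    obtain ⟨T, hT, hST⟩ := exists_isSylowIn_ge q hSM hSq
    by_cases hSTe : S = T
    · subst hSTe
      exact normalizer_le_of_sigma hσ hT
    · have hlt : S < T := lt_of_le_of_ne hST hSTe
      have h1 := hNlt T hT.2.1 hlt
      have h2 : ¬ IsMulCommutative ↥(T ⊓ normalizer (S : Set G)) := by
        intro hab
        have h3 : T ⊓ normalizer (S : Set G) ≤ centralizer (S : Set G) :=
          BGSigma3.le_centralizer_of_comm h1.le hab
        have h4 := hmax _ (inf_le_left.trans hT.1) (h3.trans hCS) (hT.2.1.to_le inf_le_left) h1.le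
        exact h1.ne h4.symm
      have hU := hNA q _ (hT.2.1.to_le inf_le_left) h2
      obtain ⟨L, hL, hle⟩ := Cfsg.Agent.Lib.BGSigma2.exists_coatom_ge
        (IsMin.normalizer_ne_top hG hS1 (IsMin.isPGroup_ne_top hG hSq))
      have h5 := eq_of_unique hU hM (inf_le_left.trans hT.1) hL (inf_le_right.trans hle)
      rwa [h5] at hle
  · -- Sylow in `Mstar`
    intro R hR hRq hSR
    by_contra hRS
    have hlt : S < R := lt_of_le_of_ne hSR (Ne.symm hRS)
    have h1 := hNlt R hRq hlt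
    set T₂ : Subgroup G := R ⊓ normalizer (S : Set G) with hT₂
    have hT₂q : IsPGroup q T₂ := hRq.to_le inf_le_left
    obtain ⟨g, hg⟩ := exists_conj_le hσ hT₂q
    have hgS : cj S g ≤ M := (cj_mono h1.le g).trans hg
    obtain ⟨m, hm, c, hc, hgm⟩ := (sigma_ctrl hG (ut hG) hM hσ hSq hS1 hSM).1 g hgS
    have hcM : cj T₂ c ≤ M := by
      have h2 : cj T₂ g = cj (cj T₂ c) m := by rw [hgm, cj_cj]
      rw [h2] at hg
      have h3 := cj_mono hg m⁻¹
      rwa [cj_cj_inv, cj_coatom_eq hG hM (M.inv_mem hm)] at h3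
    have hcMs : cj T₂ c ≤ Mstar := by
      have h2 := cj_mono ((inf_le_left : T₂ ≤ R).trans hR) c
      rwa [cj_coatom_eq hG hMs (hCS hc)] at h2
    have hSle : S ≤ cj T₂ c := by
      intro s hs
      rw [mem_cj]
      have h3 : c⁻¹ * s * c = s := by
        have := mem_centralizer_iff.mp hc s hs
        calc c⁻¹ * s * c = c⁻¹ * (s * c) := by group
          _ = c⁻¹ * (c * s) := by rw [this]
          _ = s := by group
      rw [h3]
      exact h1.le hs
    have h4 := hmax _ hcM hcMs (hT₂q.map _) hSle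
    have h5 : Nat.card T₂ = Nat.card S := by rw [← h4, card_cj]
    have h6 := BGUniq2.card_lt_of_lt' h1
    omega

/-- A `q`-element acts trivially on a cyclic `r`-group for `r < q`. -/
theorem centralizes_cyclic {r : ℕ} [hr : Fact r.Prime] (hrq : r < q) {R : Subgroup G} (hR : IsPGroup r R)
    (hc : IsCyclic R) {x : G} (hx : x ∈ normalizer (R : Set G)) {k : ℕ} (hxq : x ^ (q ^ k) = 1) :
    x ∈ centralizer (R : Set G) := by
  classical
  let f : MulAut R := R.normalizerMonoidHom ⟨x, hx⟩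
  have hf : ∀ y : R, ((f y : R) : G) = x * y * x⁻¹ := fun y => rfl
  have h1 : f ^ (q ^ k) = 1 := by
    have h2 : (⟨x, hx⟩ : normalizer (R : Set G)) ^ (q ^ k) = 1 := Subtype.ext hxq
    have h3 : f ^ (q ^ k) = R.normalizerMonoidHom ((⟨x, hx⟩ : normalizer (R : Set G)) ^ (q ^ k)) :=
      (map_pow _ _ _).symm
    rw [h3, h2, map_one]
  have h4 : orderOf f ∣ q ^ k := orderOf_dvd_of_pow_eq_one h1
  have h5 : orderOf f ∣ Nat.totient (Nat.card R) := by
    rw [← IsCyclic.card_mulAut]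
    exact orderOf_dvd_natCard f
  obtain ⟨a, ha⟩ := hR.exists_card_eq
  have h6 : Nat.Coprime q (Nat.totient (Nat.card R)) := by
    rw [ha]
    rcases Nat.eq_zero_or_pos a with rfl | ha0
    · simp
    · rw [Nat.totient_prime_pow hr.out ha0]
      apply Nat.Coprime.mul_right
      · apply Nat.Coprime.pow_right
        exact (Nat.coprime_primes hq.out hr.out).mpr (by omega)
      · apply Nat.Coprime.symm
        apply Nat.Coprime.symm
        rw [Nat.Prime.coprime_iff_not_dvd hq.out]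
        intro hd
        have := Nat.le_of_dvd (Nat.sub_pos_of_lt hr.out.one_lt) hd
        omega
  have h7 : orderOf f = 1 := by
    have h8 : Nat.Coprime (q ^ k) (Nat.totient (Nat.card R)) := Nat.Coprime.pow_left _ h6
    exact Nat.dvd_one.mp (h8 ▸ Nat.dvd_gcd h4 h5)
  rw [orderOf_eq_one_iff] at h7
  rw [mem_centralizer_iff]
  intro y hy
  have h9 := hf ⟨y, hy⟩
  rw [h7] at h9
  have h10 : y = x * y * x⁻¹ := h9
  calc y * x = (x * y * x⁻¹) * x := by rw [← h10]
    _ = x * y := by group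

theorem normalizer_le_of_noncyclic (hG : IsMinSimpleOddOrder G) {M W : Subgroup G} (hM : IsCoatom M)
    (hσ : q ∈ sigma M) (hWq : IsPGroup q W) (hW : ¬ IsCyclic W) (hWM : W ≤ M) :
    normalizer (W : Set G) ≤ M := by
  have hW1 : W ≠ ⊥ := by
    rintro rfl
    exact hW inferInstance
  have hp2 : q ≠ 2 := prime_ne_two_of_dvd hG
      ((dvd_card_of_isPGroup hWq hW1).trans (Subgroup.card_subgroup_dvd_card W))
  have h1 : ¬ PRankLE q 1 W := fun h => hW (isCyclic_of_prank_one hp2 hWq h)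
  obtain ⟨A, hAW, hAe, hAc⟩ := exists_ea2 h1
  have h2 : centralizer (A : Set G) ≤ M := cent_le hG hM (hAW.trans hWM) hAe hAc
  have h3 : centralizer (W : Set G) ≤ M := (Subgroup.centralizer_le hAW).trans h2
  rw [(sigma_ctrl hG (ut hG) hM hσ hWq hW1 hWM).2]
  exact sup_le inf_le_left h3

/-- Maximal `π`-subgroups. -/
def IsMaxPi (π : Set ℕ) (D : Subgroup G) : Prop :=
  (∀ r : ℕ, r.Prime → r ∣ Nat.card D → r ∈ π) ∧
    ∀ D' : Subgroup G, D ≤ D' → (∀ r : ℕ, r.Prime → r ∣ Nat.card D' → r ∈ π) → D' = D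

theorem exists_maxPi (π : Set ℕ) {Y : Subgroup G} (hY : ∀ r : ℕ, r.Prime → r ∣ Nat.card Y → r ∈ π) :
    ∃ D : Subgroup G, Y ≤ D ∧ IsMaxPi π D := by
  classical
  let 𝒮 : Set (Subgroup G) := {D | ∀ r : ℕ, r.Prime → r ∣ Nat.card D → r ∈ π}
  have hfin : 𝒮.Finite := Set.toFinite _
  obtain ⟨D, hYD, hD⟩ := hfin.exists_le_maximal (a := Y) hY
  exact ⟨D, hYD, hD.1, fun D' hle hD' => (hD.eq_of_ge hD' hle)⟩

theorem hall_of_max {π : Set ℕ} {D H : Subgroup G} (hD : IsMaxPi π D) (hs : Group.IsSolvable H)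
    (hDH : D ≤ H) {r : ℕ} (hr : r.Prime) (hrπ : r ∈ π) : ¬ r ∣ D.relIndex H := by
  classical
  obtain ⟨H₀, h1, h2⟩ := Cfsg.Agent.Lib.HallExist.exists_hall (· ∈ π) ↥H
  have hcard : Nat.card H = Nat.card H₀ * H₀.index := (Subgroup.card_mul_index H₀).symm
  have hcop : (Nat.card H₀).Coprime H₀.index := by
    apply Nat.coprime_of_dvd
    intro k hk hk1 hk2
    exact h2 k hk hk2 (h1 k hk hk1)
  have hDc : Nat.card (D.subgroupOf H) = Nat.card D := card_subgroupOf_of_le hDH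
  have hcopD : (Nat.card (D.subgroupOf H)).Coprime H₀.index := by
    rw [hDc]
    apply Nat.coprime_of_dvd
    intro k hk hk1 hk2
    exact h2 k hk hk2 (hD.1 k hk hk1)
  obtain ⟨g, hg⟩ := (Cfsg.Agent.Lib.Hall.hall_main _ ↥H _ _ rfl hcard hcop).2 H₀ (D.subgroupOf H) rfl hcopD
  set D₂ : Subgroup G := (MulAut.conj g • H₀).map H.subtype with hD₂
  have hcD₂ : Nat.card D₂ = Nat.card H₀ := by
    rw [hD₂, Subgroup.card_map_of_injective H.subtype_injective]
    exact Nat.card_congr (Subgroup.equivSMul (MulAut.conj g) H₀).symm.toEquiv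
  have hDD₂ : D ≤ D₂ := by
    intro x hx
    have : (⟨x, hDH hx⟩ : H) ∈ D.subgroupOf H := by
      rw [Subgroup.mem_subgroupOf]; exact hx
    exact Subgroup.mem_map.mpr ⟨⟨x, hDH hx⟩, hg this, rfl⟩
  have heq : D₂ = D := hD.2 D₂ hDD₂ (by
    intro k hk hd
    rw [hcD₂] at hd
    exact h1 k hk hd)
  intro hdvd
  have hc2 : Nat.card D * D.relIndex H = Nat.card H := by
    have := Subgroup.card_mul_index (D.subgroupOf H)
    rwa [hDc] at this
  have hcD : Nat.card D = Nat.card H₀ := by rw [← heq, hcD₂]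
  rw [hcD, hcard] at hc2
  have hpos : 0 < Nat.card H₀ := Nat.card_pos
  have hidx : D.relIndex H = H₀.index := Nat.eq_of_mul_eq_mul_left hpos hc2
  rw [hidx] at hdvd
  exact h2 r hr hdvd hrπ

theorem conj_of_normal_sylow (hG : IsMinSimpleOddOrder G) (hNA : NA G) {M D S : Subgroup G}
    (hM : IsCoatom M) (hD : IsMaxPi (sigma M) D) (hσ : q ∈ sigma M) (hS : IsSylowIn q S D)
    (hS1 : S ≠ ⊥) (hDS : D ≤ normalizer (S : Set G)) : ∃ g : G, cj D g ≤ M := by
  classical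
  obtain ⟨g₀, hg₀⟩ := exists_conj_le hσ hS.2.1
  set M₀ : Subgroup G := cj M g₀⁻¹ with hM₀
  have hSM₀ : S ≤ M₀ := by
    have := cj_mono hg₀ g₀⁻¹
    rwa [cj_cj_inv] at this
  have hM₀c : IsCoatom M₀ := BGUniq3.isCoatom_cj hM g₀⁻¹
  have hσ₀ : q ∈ sigma M₀ := sigma_cj hσ g₀⁻¹
  suffices hDM : D ≤ M₀ by
    refine ⟨g₀, ?_⟩
    have := cj_mono hDM g₀
    rwa [hM₀, cj_inv_cj] at this
  obtain ⟨H, hH, hNH⟩ := Cfsg.Agent.Lib.BGSigma2.exists_coatom_ge
    (IsMin.normalizer_ne_top hG hS1 (IsMin.isPGroup_ne_top hG hS.2.1))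
  by_cases hHe : H = M₀
  · rw [← hHe]
    exact hDS.trans hNH
  have hSH : S ≤ H := Subgroup.le_normalizer.trans hNH
  obtain ⟨S₁, hS₁, hSS₁⟩ := exists_isSylowIn_ge q (le_inf hSM₀ hSH) hS.2.1
  obtain ⟨-, hN₁, hS₁H⟩ := s1424_main hG hNA hM₀c hσ₀ hS.2.1 hS1 hSM₀ hH hHe hNH hS₁ hSS₁
  have hDH : D ≤ H := hDS.trans hNH
  have hS' : IsSylowIn q S H :=
    BGM2.isSylowIn_of_hall hS hDH (hall_of_max hD (IsMin.solvable hG hH.1) hDH hq.out hσ)
  have h1 : S₁ = S := hS'.2.2 S₁ hS₁H.1 hS₁H.2.1 hSS₁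
  rw [h1] at hN₁
  exact hDS.trans hN₁

theorem centralizer_fittingOf_le {D : Subgroup G} (hs : Group.IsSolvable D) :
    D ⊓ centralizer (fittingOf D : Set G) ≤ fittingOf D := by
  rintro x ⟨hx, hc⟩
  refine ⟨⟨x, hx⟩, ?_, rfl⟩
  apply Cfsg.Agent.Lib.PCore.centralizer_fittingSubgroup_le
  rw [mem_centralizer_iff]
  intro y hy
  apply Subtype.ext
  exact mem_centralizer_iff.mp hc _ ⟨y, hy, rfl⟩

theorem conj_of_maxPi (hG : IsMinSimpleOddOrder G) (hNA : NA G) {M D : Subgroup G}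
    (hM : IsCoatom M) (hD : IsMaxPi (sigma M) D) (hD1 : D ≠ ⊥) (hDt : D ≠ ⊤) :
    ∃ g : G, cj D g ≤ M := by
  classical
  have hs : Group.IsSolvable D := IsMin.solvable hG hDt
  by_contra hno
  push Not at hno
  -- a normal `r`-subgroup of `D` is cyclic
  have hcyc : ∀ (r : ℕ) [Fact r.Prime] (W : Subgroup G), r ∈ sigma M → IsPGroup r W →
      D ≤ normalizer (W : Set G) → IsCyclic W := by
    intro r _ W hrσ hW hDW
    by_contra hnc
    obtain ⟨g₀, hg₀⟩ := exists_conj_le hrσ hW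
    have hWM₀ : W ≤ cj M g₀⁻¹ := by
      have := cj_mono hg₀ g₀⁻¹
      rwa [cj_cj_inv] at this
    have h1 := normalizer_le_of_noncyclic hG (BGUniq3.isCoatom_cj hM g₀⁻¹) (sigma_cj hrσ g₀⁻¹) hW hnc hWM₀
    apply hno g₀
    have := cj_mono (hDW.trans h1) g₀
    rwa [cj_inv_cj] at this
  -- `q`-subgroups of `D` above a normal subgroup are abelian
  have hab : ∀ (r : ℕ) [Fact r.Prime] (W S : Subgroup G), r ∈ sigma M → IsPGroup r W → W ≠ ⊥ →
      D ≤ normalizer (W : Set G) → IsPGroup r S → S ≤ D → IsMulCommutative S := by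
    intro r _ W S hrσ hW hW1 hDW hSr hSD
    by_contra hna
    obtain ⟨g₀, hg₀⟩ := exists_conj_le hrσ hSr
    have hSM₀ : S ≤ cj M g₀⁻¹ := by
      have := cj_mono hg₀ g₀⁻¹
      rwa [cj_cj_inv] at this
    obtain ⟨H, hH, hNH⟩ := Cfsg.Agent.Lib.BGSigma2.exists_coatom_ge
      (IsMin.normalizer_ne_top hG hW1 (IsMin.isPGroup_ne_top hG hW))
    have h1 := eq_of_unique (hNA r S hSr hna) (BGUniq3.isCoatom_cj hM g₀⁻¹) hSM₀ hH
      (hSD.trans (hDW.trans hNH))
    apply hno g₀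
    rw [h1] at hNH
    have := cj_mono (hDW.trans hNH) g₀
    rwa [cj_inv_cj] at this
  set F : Subgroup G := fittingOf D with hF
  have hFne : Nat.card F ≠ 1 := by
    intro h1
    have hFb : F = ⊥ := Subgroup.card_eq_one.mp h1
    apply hD1
    have h2 := centralizer_fittingOf_le hs
    rw [← hF, hFb] at h2
    rw [eq_bot_iff]
    intro x hx
    apply h2
    refine ⟨hx, ?_⟩
    change x ∈ centralizer (((⊥ : Subgroup G) : Subgroup G) : Set G)
    rw [mem_centralizer_iff]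
    intro y hy
    have : y = 1 := hy
    simp [this]
  have hne : (Nat.primeFactors (Nat.card F)).Nonempty := by
    rw [Nat.nonempty_primeFactors]
    have : 0 < Nat.card F := Nat.card_pos
    omega
  set q' : ℕ := (Nat.primeFactors (Nat.card F)).max' hne with hq'
  have hq'm : q' ∈ Nat.primeFactors (Nat.card F) := Finset.max'_mem _ hne
  have hq'p : q'.Prime := Nat.prime_of_mem_primeFactors hq'm
  have hq'd : q' ∣ Nat.card F := Nat.dvd_of_mem_primeFactors hq'm
  haveI hfq : Fact q'.Prime := ⟨hq'p⟩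
  have hlarge : ∀ r : ℕ, r.Prime → r ∣ Nat.card F → r ≤ q' := by
    intro r hr hd
    apply Finset.le_max'
    exact Nat.mem_primeFactors.mpr ⟨hr, hd, Nat.card_pos.ne'⟩
  have hFD : F ≤ D := Subgroup.map_subtype_le _
  have hσ' : q' ∈ sigma M := hD.1 q' hq'p (hq'd.trans (Subgroup.card_dvd_of_le hFD))
  set W : Subgroup G := pCoreOf q' D with hW
  have hWq : IsPGroup q' W := isPGroup_pCoreOf q' D
  have hWD : D ≤ normalizer (W : Set G) := le_normalizer_pCoreOf q' D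
  have hW1 : W ≠ ⊥ := by
    haveI : Fact q'.Prime := hfq
    obtain ⟨x, hx⟩ := exists_prime_orderOf_dvd_card' (G := F) q' hq'd
    intro hb
    have hxq : (x : G) ^ q' = 1 := by
      have := pow_orderOf_eq_one x
      rw [hx] at this
      exact congrArg Subtype.val this
    have hzp : zpowers (x : G) ≤ F := by
      rw [Subgroup.zpowers_le]; exact x.2
    have h1 := Cfsg.Agent.Lib.BGFit5.le_pCoreOf_of_le_fittingOf hzp (BGP2E.isPGroup_zpowers_of_pow hxq)
    rw [← hW, hb] at h1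
    have h2 : (x : G) = 1 := h1 (Subgroup.mem_zpowers _)
    have h3 : x = 1 := Subtype.ext h2
    rw [h3, orderOf_one] at hx
    exact hq'p.one_lt.ne hx
  obtain ⟨S, hS, hWS⟩ := exists_isSylowIn_ge q' (pCoreOf_le q' D) hWq
  have hSab : IsMulCommutative S := hab q' W S hσ' hWq hW1 hWD hS.2.1 hS.1
  have hSq' : ∀ s ∈ S, ∃ k : ℕ, s ^ (q' ^ k) = 1 := by
    intro s hs
    obtain ⟨k, hk⟩ := hS.2.1 ⟨s, hs⟩
    exact ⟨k, congrArg Subtype.val hk⟩
  have hFC : F ≤ centralizer (S : Set G) := by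
    apply BGM2.le_of_forall_pgroup_le
    intro r _ Q hQF hQ
    have hQR : Q ≤ pCoreOf r D := Cfsg.Agent.Lib.BGFit5.le_pCoreOf_of_le_fittingOf hQF hQ
    by_cases hrq : r = q'
    · subst hrq
      have h1 : Q ≤ S := hQR.trans hWS
      intro y hy
      rw [mem_centralizer_iff]
      intro s hs
      exact congrArg Subtype.val (hSab.is_comm.comm (⟨s, hs⟩ : S) ⟨y, h1 hy⟩)
    · by_cases hQ1 : Q = ⊥
      · rw [hQ1]; exact bot_le
      have hr : r ∣ Nat.card F :=
        (dvd_card_of_isPGroup hQ hQ1).trans (Subgroup.card_dvd_of_le hQF)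
      have hrlt : r < q' := lt_of_le_of_ne (hlarge r Fact.out hr) hrq
      have hRσ : r ∈ sigma M := hD.1 r Fact.out (hr.trans (Subgroup.card_dvd_of_le hFD))
      have hRc : IsCyclic (pCoreOf r D : Subgroup G) :=
        hcyc r _ hRσ (isPGroup_pCoreOf r D) (le_normalizer_pCoreOf r D)
      intro y hy
      rw [mem_centralizer_iff]
      intro s hs
      obtain ⟨k, hk⟩ := hSq' s hs
      have h2 := centralizes_cyclic (q := q') hrlt (isPGroup_pCoreOf r D) hRc
        (le_normalizer_pCoreOf r D (hS.1 hs)) hk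
      exact (mem_centralizer_iff.mp h2 y (hQR hy)).symm ▸ rfl
  have hSC : S ≤ centralizer (F : Set G) := by
    intro s hs
    rw [mem_centralizer_iff]
    intro y hy
    exact (mem_centralizer_iff.mp (hFC hy) s hs).symm
  have hSF : S ≤ F := fun s hsS => centralizer_fittingOf_le hs ⟨hS.1 hsS, hSC hsS⟩
  have hSW : S ≤ W := Cfsg.Agent.Lib.BGFit5.le_pCoreOf_of_le_fittingOf hSF hS.2.1
  have hSe : S = W := le_antisymm hSW hWS
  obtain ⟨g, hg⟩ := conj_of_normal_sylow hG hNA hM hD hσ' hS (by rw [hSe]; exact hW1) (by rw [hSe]; exact hWD)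
  exact hno g hg

/-- S1425 from the unique maximal statement. -/
theorem conj_into_sigmaCore (hG : IsMinSimpleOddOrder G) (hNA : NA G) {M Y : Subgroup G}
    (hM : IsCoatom M) (hY1 : Y ≠ ⊥) (hY : ∀ p : ℕ, p.Prime → p ∣ Nat.card Y → p ∈ sigma M) :
    ∃ g : G, cj Y g ≤ sigmaCore M := by
  classical
  obtain ⟨D, hYD, hD⟩ := exists_maxPi (sigma M) hY
  have hD1 : D ≠ ⊥ := fun h => hY1 (le_bot_iff.mp (h ▸ hYD))
  have hDt : D ≠ ⊤ := by
    rintro rfl
    have hidx : M.index ≠ 1 := by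
      rw [Ne, Subgroup.index_eq_one]
      exact hM.1
    obtain ⟨t, ht, htd⟩ := Nat.exists_prime_and_dvd hidx
    have htG : t ∣ Nat.card (⊤ : Subgroup G) := by
      rw [Subgroup.card_top]
      exact htd.trans (Subgroup.index_dvd_card M)
    have htσ := hD.1 t ht htG
    haveI : Fact t.Prime := ⟨ht⟩
    obtain ⟨P, hP, -⟩ := exists_sigma_sylow htσ
    exact not_dvd_index_of_sigma htσ hP (htd.trans (Subgroup.index_dvd_of_le hP.1))
  obtain ⟨g, hg⟩ := conj_of_maxPi hG hNA hM hD hD1 hDt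
  refine ⟨g, ?_⟩
  have hYM : cj Y g ≤ M := (cj_mono hYD g).trans hg
  apply BGM2.le_of_forall_pgroup_le
  intro r _ Q hQ hQr
  by_cases hQ1 : Q = ⊥
  · rw [hQ1]; exact bot_le
  have hr : r ∣ Nat.card Y := by
    have h1 := (dvd_card_of_isPGroup hQr hQ1).trans (Subgroup.card_dvd_of_le hQ)
    rwa [card_cj] at h1
  exact pgroup_le_sigmaCore hG hM (hY r Fact.out hr) (hQ.trans hYM) hQr

end Cfsg.Agent.Lib.BGP3B
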