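import Mathlib
import Cfsg.Agent.Lib.SpinTarget

/-!
# Long and short root elements in the orthogonal group of a hyperbolic space plus a space `W`
-/

set_option autoImplicit false
set_option linter.unusedSectionVars false
set_option linter.unusedVariables false

namespace Cfsg.Agent.Lib.BTarget

open Subgroup Matrix QuadraticMap Cfsg.Agent.Lib.OrthoBasic Cfsg.Agent.Lib.OrthoSiegel Cfsg.Agent.Lib.OrthoGen
  Cfsg.Agent.Lib.OrthoCount Cfsg.Agent.Lib.OrthoOrder Cfsg.Agent.Lib.StA Cfsg.Agent.Lib.SpinSys Cfsg.Agent.Lib.SpinLift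
  Cfsg.Agent.Lib.SpinTarget
open scoped commutatorElement

variable {F : Type*} [Field F] [Fintype F] {W : Type*} [AddCommGroup W] [Module F W] {l : ℕ}

/-- The space. -/
abbrev VB (l : ℕ) (F : Type*) [Field F] (W : Type*) [AddCommGroup W] [Module F W] := (Fin l ⊕ Fin l → F) × W

variable (q : QuadraticForm F W)

/-- The form. -/
noncomputable def QV : QuadraticForm F (VB l F W) := (qPlus l F).prod q

lemma QV_apply (v : VB l F W) : QV q v = qPlus l F v.1 + q v.2 := rfl

lemma polar_QV (u v : VB l F W) : polar (QV q) u v = polar (qPlus l F) u.1 v.1 + polar q u.2 v.2 := by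
  simp only [polar, QV_apply, Prod.fst_add, Prod.snd_add]
  ring

/-- The basis vectors. -/
noncomputable def ee (a : Fin l ⊕ Fin l) : VB l F W := (es a, 0)

/-- The vectors of `W`. -/
def ww (u : W) : VB l F W := (0, u)

lemma Q_ee (a : Fin l ⊕ Fin l) : QV q (ee a : VB l F W) = 0 := by
  simp [QV_apply, ee, Q_es]

lemma Q_ww (u : W) : QV q (ww u : VB l F W) = q u := by
  simp [QV_apply, ww]

lemma polar_ee (v : VB l F W) (a : Fin l ⊕ Fin l) : polar (QV q) v (ee a) = v.1 a.swap := by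
  rw [polar_QV]
  simp [ee, polar_es]

lemma polar_ww (v : VB l F W) (u : W) : polar (QV q) v (ww u) = polar q v.2 u := by
  rw [polar_QV]
  simp [ww]

lemma polar_ee_ww (a : Fin l ⊕ Fin l) (u : W) : polar (QV q) (ee a) (ww u) = 0 := by
  rw [polar_ww]
  simp [ee]

variable {q}

lemma nondeg_QV (hq : Nondeg q) : Nondeg (QV (l := l) q) := by
  intro x hx
  by_cases h1 : x.1 = 0
  · have h2 : x.2 ≠ 0 := fun h => hx (Prod.ext h1 h)
    obtain ⟨u, hu⟩ := hq _ h2
    exact ⟨(0, u), by simpa [polar_QV] using hu⟩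
  · obtain ⟨u, hu⟩ := nondeg_qPlus l _ h1
    exact ⟨(u, 0), by simpa [polar_QV] using hu⟩

variable (q)

/-- The embedding of the group of the hyperbolic space. -/
def embO : OG (qPlus l F) →* OG (QV (l := l) q) where
  toFun g := ⟨LinearEquiv.prodCongr (g : (Fin l ⊕ Fin l → F) ≃ₗ[F] (Fin l ⊕ Fin l → F)) (LinearEquiv.refl F W), by
    intro v
    simp [QV_apply, OG_apply]⟩
  map_one' := rfl
  map_mul' _ _ := rfl

lemma embO_apply (g : OG (qPlus l F)) (v : VB l F W) :
    ((embO q g : OG (QV (l := l) q)) : VB l F W ≃ₗ[F] VB l F W) v = ((g : (Fin l ⊕ Fin l → F) ≃ₗ[F] (Fin l ⊕ Fin l → F)) v.1, v.2) := rfl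

/-- The long root element. -/
noncomputable def XV (a b : Fin l ⊕ Fin l) (c : F) : OG (QV (l := l) q) := embO q (XO a b c)

lemma XV_fst {a b : Fin l ⊕ Fin l} (h : Ind a b) (c : F) (v : VB l F W) (k : Fin l ⊕ Fin l) :
    (((XV q a b c : OG (QV (l := l) q)) : VB l F W ≃ₗ[F] VB l F W) v).1 k =
      v.1 k + (if k = a then c * v.1 b else 0) - (if k = b.swap then c * v.1 a.swap else 0) :=
  XO_coord h c v.1 k

lemma XV_snd (a b : Fin l ⊕ Fin l) (c : F) (v : VB l F W) :
    (((XV q a b c : OG (QV (l := l) q)) : VB l F W ≃ₗ[F] VB l F W) v).2 = v.2 := rfl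

/-- The short root element. -/
noncomputable def YO (a : Fin l ⊕ Fin l) (u : W) : OG (QV (l := l) q) :=
  ⟨LinearEquiv.ofLinear (siegelLin (QV q) (ee a) (ww u)) (siegelLin (QV q) (ee a) (ww (-u)))
    (LinearMap.ext fun v => by
      show siegelLin (QV q) (ee a) (ww u) (siegelLin (QV q) (ee a) (ww (-u)) v) = v
      rw [siegelLin_comp (Q_ee q a) (polar_ee_ww q a u) (polar_ee_ww q a (-u))]
      have : (ww u + ww (-u) : VB l F W) = 0 := by simp [ww]
      rw [this, siegelLin_zero])
    (LinearMap.ext fun v => by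
      show siegelLin (QV q) (ee a) (ww (-u)) (siegelLin (QV q) (ee a) (ww u) v) = v
      rw [siegelLin_comp (Q_ee q a) (polar_ee_ww q a (-u)) (polar_ee_ww q a u)]
      have : (ww (-u) + ww u : VB l F W) = 0 := by simp [ww]
      rw [this, siegelLin_zero]),
    siegelLin_Q (QV q) (Q_ee q a) (polar_ee_ww q a u)⟩

lemma YO_apply (a : Fin l ⊕ Fin l) (u : W) (v : VB l F W) :
    ((YO q a u : OG (QV (l := l) q)) : VB l F W ≃ₗ[F] VB l F W) v = siegelLin (QV q) (ee a) (ww u) v := rfl

lemma YO_siegel (a : Fin l ⊕ Fin l) (u : W) : IsSiegel (YO q a u : OG (QV (l := l) q)) (ee a) (ww u) :=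
  ⟨Q_ee q a, polar_ee_ww q a u, fun _ => rfl⟩

lemma YO_fst (a : Fin l ⊕ Fin l) (u : W) (v : VB l F W) (k : Fin l ⊕ Fin l) :
    (((YO q a u : OG (QV (l := l) q)) : VB l F W ≃ₗ[F] VB l F W) v).1 k =
      v.1 k - (if k = a then polar q v.2 u + q u * v.1 a.swap else 0) := by
  rw [YO_apply, siegelLin_apply, polar_ee, polar_ww, Q_ww]
  simp [ww, ee, es, Pi.single_apply]

lemma YO_snd (a : Fin l ⊕ Fin l) (u : W) (v : VB l F W) :
    (((YO q a u : OG (QV (l := l) q)) : VB l F W ≃ₗ[F] VB l F W) v).2 = v.2 + v.1 a.swap • u := by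
  rw [YO_apply, siegelLin_apply, polar_ee, polar_ww, Q_ww]
  simp [ww, ee]

lemma YO_mem (a : Fin l ⊕ Fin l) (u : W) : YO q a u ∈ siegelE (QV (l := l) q) := (YO_siegel q a u).mem

lemma XV_siegel {a b : Fin l ⊕ Fin l} (h : Ind a b) (c : F) :
    IsSiegel (XV q a b c : OG (QV (l := l) q)) (ee a) ((-c) • ee b.swap) := by
  have hp : polar (QV q) (ee a) ((-c) • ee b.swap : VB l F W) = 0 := by
    rw [polar_smul_r, polar_ee]
    simp [ee, es, Sum.swap_swap, Pi.single_eq_of_ne h.1.symm]
  refine ⟨Q_ee q a, hp, ?_⟩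
  intro v
  rw [siegelLin_apply]
  apply Prod.ext
  · funext k
    rw [XV_fst q h]
    simp only [polar_smul_r, polar_ee, Q_smul, Q_ee, Sum.swap_swap, mul_zero, add_zero]
    simp [ee, es, Pi.single_apply]
    split_ifs <;> ring
  · show v.2 = _
    simp only [polar_smul_r, polar_ee, Q_smul, Q_ee, Sum.swap_swap, mul_zero, add_zero]
    simp [ee]

lemma XV_mem {a b : Fin l ⊕ Fin l} (h : Ind a b) (c : F) : XV q a b c ∈ siegelE (QV (l := l) q) := (XV_siegel q h c).mem

lemma YO_add (a : Fin l ⊕ Fin l) (u v : W) : (YO q a (u + v) : OG (QV (l := l) q)) = YO q a u * YO q a v := by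
  apply OG_ext
  intro x
  rw [Subgroup.coe_mul, LinearEquiv.mul_apply, YO_apply, YO_apply, YO_apply,
    siegelLin_comp (Q_ee q a) (polar_ee_ww q a u) (polar_ee_ww q a v)]
  congr 1
  simp [ww]

lemma YO_zero (a : Fin l ⊕ Fin l) : (YO q a 0 : OG (QV (l := l) q)) = 1 := by
  have := YO_add q (l := l) a 0 0
  rw [add_zero] at this
  exact mul_eq_left.mp this.symm

lemma YO_neg (a : Fin l ⊕ Fin l) (u : W) : (YO q a (-u) : OG (QV (l := l) q)) = (YO q a u)⁻¹ := by
  have := YO_add q (l := l) a (-u) u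
  rw [neg_add_cancel, YO_zero] at this
  exact (inv_eq_of_mul_eq_one_left this.symm).symm

/-- Long root elements and short root elements commute. -/
lemma XV_YO_comm {k l' a : Fin l ⊕ Fin l} (h : Ind k l') (h1 : a ≠ l') (h2 : a ≠ k.swap) (t : F) (u : W) :
    Commute (XV q k l' t : OG (QV (l := l) q)) (YO q a u) := by
  apply Subtype.ext
  apply LinearEquiv.ext
  rintro ⟨v, x⟩
  simp only [Subgroup.coe_mul, LinearEquiv.mul_apply]
  have h3 : a.swap ≠ k := fun e => h2 (by rw [← e, Sum.swap_swap])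
  have h4 : a.swap ≠ l'.swap := fun e => h1 (Sum.swap_leftInverse.injective e)
  apply Prod.ext
  · funext p
    simp only [XV_fst q h, YO_fst, XV_snd, YO_snd, if_neg h3, if_neg h4, if_neg h1.symm, if_neg h2.symm, sub_zero, add_zero]
    ring
  · simp only [XV_snd, YO_snd]
    rw [XV_fst q h]
    simp [h3, h4]

/-- The commutator of short root elements. -/
lemma YO_comm {a b : Fin l ⊕ Fin l} (h : Ind a b) (u v : W) :
    ⁅(YO q a u : OG (QV (l := l) q)), YO q b v⁆ = XV q a b.swap (-(polar q u v)) := by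
  rw [commutatorElement_def, mul_inv_eq_iff_eq_mul, mul_inv_eq_iff_eq_mul]
  apply Subtype.ext
  apply LinearEquiv.ext
  rintro ⟨c, x⟩
  simp only [Subgroup.coe_mul, LinearEquiv.mul_apply]
  have h1 : a ≠ b := h.1
  have h2 : a ≠ b.swap := h.2
  have h3 : a.swap ≠ b := fun e => h2 (by rw [← e, Sum.swap_swap])
  have h4 : a.swap ≠ b.swap := fun e => h1 (Sum.swap_leftInverse.injective e)
  have h5 : a.swap ≠ a := (swap_ne a).symm
  have h6 : b.swap ≠ b := (swap_ne b).symm
  apply Prod.ext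
  · funext k
    simp only [XV_fst q h.swapR, YO_fst, XV_snd, YO_snd, Sum.swap_swap]
    by_cases e1 : k = a
    · subst e1
      simp [h1, h2, h3, h4, h5, h6, h1.symm, h2.symm, h3.symm, h4.symm, h5.symm, h6.symm, polar_add_left, polar_smul_left,
        polar_comm q u v]
      ring
    · by_cases e2 : k = b
      · subst e2
        simp [h1, h2, h3, h4, h5, h6, h1.symm, h2.symm, h3.symm, h4.symm, h5.symm, h6.symm, polar_add_left, polar_smul_left,
          polar_comm q u v]
        ring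
      · simp [e1, e2, h1, h2, h3, h4, h5, h6, h1.symm, h2.symm, h3.symm, h4.symm, h5.symm, h6.symm]
  · simp only [XV_fst q h.swapR, YO_fst, XV_snd, YO_snd, Sum.swap_swap]
    simp [h1, h2, h3, h4, h5, h6, h1.symm, h2.symm, h3.symm, h4.symm, h5.symm, h6.symm]
    abel

/-- The commutator of a long and a short root element. -/
lemma XV_YO {a b : Fin l ⊕ Fin l} (h : Ind a b) (c : F) (w : W) :
    ⁅(XV q a b c : OG (QV (l := l) q)), YO q b w⁆ = YO q a (c • w) * XV q a b.swap (c * q w) := by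
  rw [commutatorElement_def, mul_inv_eq_iff_eq_mul, mul_inv_eq_iff_eq_mul]
  apply Subtype.ext
  apply LinearEquiv.ext
  rintro ⟨v, x⟩
  simp only [Subgroup.coe_mul, LinearEquiv.mul_apply]
  have h1 : a ≠ b := h.1
  have h2 : a ≠ b.swap := h.2
  have h3 : a.swap ≠ b := fun e => h2 (by rw [← e, Sum.swap_swap])
  have h4 : a.swap ≠ b.swap := fun e => h1 (Sum.swap_leftInverse.injective e)
  have h5 : a.swap ≠ a := (swap_ne a).symm
  have h6 : b.swap ≠ b := (swap_ne b).symm
  apply Prod.ext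
  · funext k
    simp only [XV_fst q h.swapR, XV_fst q h, YO_fst, XV_snd, YO_snd, Sum.swap_swap]
    by_cases e1 : k = a
    · subst e1
      simp [h1, h2, h3, h4, h5, h6, h1.symm, h2.symm, h3.symm, h4.symm, h5.symm, h6.symm, polar_add_left, polar_smul_left,
        polar_smul_right, polar_self, QuadraticMap.map_smul]
      ring
    · by_cases e2 : k = b
      · subst e2
        simp [h1, h2, h3, h4, h5, h6, h1.symm, h2.symm, h3.symm, h4.symm, h5.symm, h6.symm, polar_add_left, polar_smul_left,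
          polar_smul_right, polar_self]
        ring
      · by_cases e3 : k = b.swap
        · subst e3
          simp [h1, h2, h3, h4, h5, h6, h1.symm, h2.symm, h3.symm, h4.symm, h5.symm, h6.symm]
        · simp [e1, e2, e3]
  · simp only [XV_fst q h.swapR, XV_fst q h, YO_fst, XV_snd, YO_snd, Sum.swap_swap]
    simp [h1, h2, h3, h4, h5, h6, h1.symm, h2.symm, h3.symm, h4.symm, h5.symm, h6.symm, smul_smul, sub_smul, add_smul]
    module

end Cfsg.Agent.Lib.BTarget
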