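import Mathlib
import Cfsg.Agent.Lib.BCell
import Cfsg.Agent.Lib.BTarget

/-!
# The kernel of the action for groups with long and short root elements
-/

set_option autoImplicit false
set_option linter.unusedSectionVars false
set_option linter.unusedVariables false

namespace Cfsg.Agent.Lib.BKer

open Subgroup QuadraticMap Cfsg.Agent.Lib.SL2Core Cfsg.Agent.Lib.SL2Bor Cfsg.Agent.Lib.StK Cfsg.Agent.Lib.SpinSys
  Cfsg.Agent.Lib.BSys Cfsg.Agent.Lib.BCell Cfsg.Agent.Lib.BTarget Cfsg.Agent.Lib.OrthoBasic Cfsg.Agent.Lib.OrthoCount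
  Cfsg.Agent.Lib.OrthoGen Cfsg.Agent.Lib.SpinTarget
open Cfsg.Agent.Lib.SpinCell (rm mem_rm rm_sub ind_of_rm Lev rm_closed lev_rm_self eq_insert_rm rm_swap)
open Cfsg.Agent.Lib.SpinKer (SecD)
open scoped commutatorElement

variable {F : Type*} [Field F] [Fintype F] {W : Type*} [AddCommGroup W] [Module F W] {l : ℕ} {Γ : Type*} [Group Γ]
  {q : QuadraticForm F W}

local notation "E" g:max i:max j:max => ((g : SL2 F) : Matrix (Fin 2) (Fin 2) F) i j

/-- The action on vectors. -/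
noncomputable def ac (σ : Γ →* OG (QV (l := l) q)) (g : Γ) (v : VB l F W) : VB l F W :=
  ((σ g : OG (QV (l := l) q)) : VB l F W ≃ₗ[F] VB l F W) v

lemma ee_fst (a k : Fin l ⊕ Fin l) : (ee a : VB l F W).1 k = if k = a then 1 else 0 := by
  simp [ee, es, Pi.single_apply]

lemma ee_snd (a : Fin l ⊕ Fin l) : (ee a : VB l F W).2 = 0 := rfl

section ActLemmas

variable (σ : Γ →* OG (QV (l := l) q))

lemma ac_mul (g h : Γ) (v : VB l F W) : ac σ (g * h) v = ac σ g (ac σ h v) := by
  unfold ac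
  rw [map_mul]
  rfl

lemma ac_one (v : VB l F W) : ac σ 1 v = v := by
  unfold ac
  rw [map_one]
  rfl

lemma ac_add (g : Γ) (u v : VB l F W) : ac σ g (u + v) = ac σ g u + ac σ g v := map_add _ _ _

lemma ac_sub (g : Γ) (u v : VB l F W) : ac σ g (u - v) = ac σ g u - ac σ g v := map_sub _ _ _

lemma ac_smul (g : Γ) (c : F) (v : VB l F W) : ac σ g (c • v) = c • ac σ g v := map_smul _ _ _

lemma ac_Q (g : Γ) (v : VB l F W) : QV q (ac σ g v) = QV q v := OG_apply _ _ _

lemma ac_inv_left (g : Γ) (v : VB l F W) : ac σ g⁻¹ (ac σ g v) = v := by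
  rw [← ac_mul, inv_mul_cancel, ac_one]

lemma ac_inv_right (g : Γ) (v : VB l F W) : ac σ g (ac σ g⁻¹ v) = v := by
  rw [← ac_mul, mul_inv_cancel, ac_one]

/-- The stabilizer of a coordinate function. -/
def stabK (k : Fin l ⊕ Fin l) : Subgroup Γ where
  carrier := {g | ∀ v, (ac σ g v).1 k = v.1 k}
  mul_mem' := by
    intro g h hg hh v
    rw [ac_mul, hg, hh]
  one_mem' := by
    intro v
    rw [ac_one]
  inv_mem' := by
    intro g hg v
    have := hg (ac σ g⁻¹ v)
    rw [ac_inv_right] at this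
    exact this.symm

/-- The stabilizer of a vector. -/
def stabV (e : VB l F W) : Subgroup Γ where
  carrier := {g | ac σ g e = e}
  mul_mem' := by
    intro g h hg hh
    show ac σ (g * h) e = e
    rw [ac_mul, hh, hg]
  one_mem' := ac_one σ e
  inv_mem' := by
    intro g hg
    show ac σ g⁻¹ e = e
    have : ac σ g⁻¹ (ac σ g e) = e := ac_inv_left σ g e
    rwa [hg] at this

end ActLemmas

/-- The action of the root elements. -/
structure ActB (σ : Γ →* OG (QV (l := l) q)) (x : Fin l ⊕ Fin l → Fin l ⊕ Fin l → F → Γ) (y : Fin l ⊕ Fin l → W → Γ) : Prop where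
  hx : ∀ {a b : Fin l ⊕ Fin l}, Ind a b → ∀ c, σ (x a b c) = XV q a b c
  hy : ∀ (a : Fin l ⊕ Fin l) (w : W), σ (y a w) = YO q a w

variable {σ : Γ →* OG (QV (l := l) q)} {x : Fin l ⊕ Fin l → Fin l ⊕ Fin l → F → Γ} {y : Fin l ⊕ Fin l → W → Γ}
  (hρ : ActB σ x y)

section Coord

include hρ

lemma ac_x_fst {a b : Fin l ⊕ Fin l} (h : Ind a b) (c : F) (v : VB l F W) (k : Fin l ⊕ Fin l) :
    (ac σ (x a b c) v).1 k = v.1 k + (if k = a then c * v.1 b else 0) - (if k = b.swap then c * v.1 a.swap else 0) := by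
  unfold ac
  rw [hρ.hx h, XV_fst q h]

lemma ac_x_snd {a b : Fin l ⊕ Fin l} (h : Ind a b) (c : F) (v : VB l F W) : (ac σ (x a b c) v).2 = v.2 := by
  unfold ac
  rw [hρ.hx h]
  rfl

lemma ac_y_fst (a : Fin l ⊕ Fin l) (u : W) (v : VB l F W) (k : Fin l ⊕ Fin l) :
    (ac σ (y a u) v).1 k = v.1 k - (if k = a then polar q v.2 u + q u * v.1 a.swap else 0) := by
  unfold ac
  rw [hρ.hy, YO_fst]

lemma ac_y_snd (a : Fin l ⊕ Fin l) (u : W) (v : VB l F W) : (ac σ (y a u) v).2 = v.2 + v.1 a.swap • u := by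
  unfold ac
  rw [hρ.hy, YO_snd]

/-- A root element on a basis vector with the second index. -/
lemma ac_x_ee {a b : Fin l ⊕ Fin l} (h : Ind a b) (c : F) :
    ac σ (x a b c) (ee a.swap) = ee a.swap - c • ee b.swap := by
  have h1 : a ≠ b := h.1
  have h2 : a ≠ b.swap := h.2
  have h3 : a.swap ≠ b := fun e => h2 (by rw [← e, Sum.swap_swap])
  apply Prod.ext
  · funext k
    rw [ac_x_fst hρ h]
    simp only [ee_fst, if_neg h3.symm, if_true, Prod.fst_sub, Prod.smul_fst, Pi.sub_apply, Pi.smul_apply, smul_eq_mul]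
    by_cases e1 : k = a
    · subst e1
      simp [h2, swap_ne]
    · simp [e1]
  · rw [ac_x_snd hρ h]
    simp [ee]

/-- Root elements fix the vectors away from their indices. -/
lemma QB_stabK {J : Finset (Fin l ⊕ Fin l)} (hJ : ∀ j ∈ J, j.swap ∈ J) {k : Fin l ⊕ Fin l} (hk : k ∉ J) :
    QB x y J ≤ stabK σ k := by
  unfold QB
  rw [closure_le]
  rintro _ (⟨c, hc, d, hd, hcd, t, rfl⟩ | ⟨c, hc, w, rfl⟩) v
  · have h1 : k ≠ c := fun e => hk (e ▸ hc)
    have h2 : k ≠ d.swap := fun e => hk (e ▸ hJ _ hd)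
    rw [ac_x_fst hρ hcd, if_neg h1, if_neg h2]
    simp
  · have h1 : k ≠ c := fun e => hk (e ▸ hc)
    rw [ac_y_fst hρ, if_neg h1]
    simp

lemma QB_stabV {J : Finset (Fin l ⊕ Fin l)} (hJ : ∀ j ∈ J, j.swap ∈ J) {k : Fin l ⊕ Fin l} (hk : k ∉ J) :
    QB x y J ≤ stabV σ (ee k) := by
  unfold QB
  rw [closure_le]
  rintro _ (⟨c, hc, d, hd, hcd, t, rfl⟩ | ⟨c, hc, w, rfl⟩)
  · show ac σ _ _ = _
    have h1 : d ≠ k := fun e => hk (e ▸ hd)
    have h2 : c.swap ≠ k := fun e => hk (e ▸ hJ _ hc)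
    apply Prod.ext
    · funext p
      rw [ac_x_fst hρ hcd]
      simp [ee_fst, h1, h2]
    · rw [ac_x_snd hρ hcd]
  · show ac σ _ _ = _
    have h2 : c.swap ≠ k := fun e => hk (e ▸ hJ _ hc)
    apply Prod.ext
    · funext p
      rw [ac_y_fst hρ]
      simp [ee_fst, ee_snd, h2]
    · rw [ac_y_snd hρ]
      simp [ee_fst, ee_snd, h2]

lemma UB_stabV {a : Fin l ⊕ Fin l} {J : Finset (Fin l ⊕ Fin l)} (hL : Lev a J) : UB x y a J ≤ stabV σ (ee a) := by
  unfold UB
  rw [closure_le]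
  rintro _ (⟨j, hj, t, rfl⟩ | ⟨w, rfl⟩)
  · show ac σ _ _ = _
    have h1 : j ≠ a := fun e => hL.ha (e ▸ hj)
    have h2 : a.swap ≠ a := (swap_ne a).symm
    apply Prod.ext
    · funext p
      rw [ac_x_fst hρ (hL.ind hj)]
      simp [ee_fst, h1, h2]
    · rw [ac_x_snd hρ (hL.ind hj)]
  · show ac σ _ _ = _
    have h2 : a.swap ≠ a := (swap_ne a).symm
    apply Prod.ext
    · funext p
      rw [ac_y_fst hρ]
      simp [ee_fst, ee_snd, h2]
    · rw [ac_y_snd hρ]
      simp [ee_fst, ee_snd, h2]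

lemma PB_stabV {a : Fin l ⊕ Fin l} {J : Finset (Fin l ⊕ Fin l)} (hL : Lev a J) : PB x y a J ≤ stabV σ (ee a) :=
  sup_le (UB_stabV hρ hL) (QB_stabV hρ hL.hJ hL.ha)

lemma Us_coord {a : Fin l ⊕ Fin l} {J : Finset (Fin l ⊕ Fin l)} (hL : Lev a J) : UB x y a.swap J ≤ stabK σ a := by
  unfold UB
  rw [closure_le]
  rintro _ (⟨j, hj, t, rfl⟩ | ⟨w, rfl⟩) v
  · have h2 : a ≠ j.swap := fun e => hL.ha (e ▸ hL.hJ _ hj)
    rw [ac_x_fst hρ (hL.swap.ind hj), if_neg (swap_ne a), if_neg h2]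
    simp
  · rw [ac_y_fst hρ, if_neg (swap_ne a)]
    simp

/-- The action of a section. -/
lemma act_phiV {a b : Fin l ⊕ Fin l} (hab : Ind a b) {φ : SL2 F →* Γ} (hφ : Phi x a b φ) (m : SL2 F) : ∀ v : VB l F W,
    (ac σ (φ m) v).1 a = E m 0 0 * v.1 a + E m 0 1 * v.1 b ∧ (ac σ (φ m) v).1 b = E m 1 0 * v.1 a + E m 1 1 * v.1 b ∧
    (ac σ (φ m) v).1 b.swap = E m 0 0 * v.1 b.swap - E m 0 1 * v.1 a.swap ∧
    (ac σ (φ m) v).1 a.swap = -(E m 1 0) * v.1 b.swap + E m 1 1 * v.1 a.swap ∧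
    (ac σ (φ m) v).2 = v.2 ∧ ∀ k, k ≠ a → k ≠ b → k ≠ b.swap → k ≠ a.swap → (ac σ (φ m) v).1 k = v.1 k := by
  have h1 : a ≠ b := hab.1
  have h2 : a ≠ b.swap := hab.2
  have h3 : a.swap ≠ b := fun e => h2 (by rw [← e, Sum.swap_swap])
  have h4 : a.swap ≠ b.swap := fun e => h1 (Sum.swap_leftInverse.injective e)
  have h5 : a.swap ≠ a := (swap_ne a).symm
  have h6 : b.swap ≠ b := (swap_ne b).symm
  refine sl2_ind (fun m => ∀ v : VB l F W,
    (ac σ (φ m) v).1 a = E m 0 0 * v.1 a + E m 0 1 * v.1 b ∧ (ac σ (φ m) v).1 b = E m 1 0 * v.1 a + E m 1 1 * v.1 b ∧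
    (ac σ (φ m) v).1 b.swap = E m 0 0 * v.1 b.swap - E m 0 1 * v.1 a.swap ∧
    (ac σ (φ m) v).1 a.swap = -(E m 1 0) * v.1 b.swap + E m 1 1 * v.1 a.swap ∧
    (ac σ (φ m) v).2 = v.2 ∧ ∀ k, k ≠ a → k ≠ b → k ≠ b.swap → k ≠ a.swap → (ac σ (φ m) v).1 k = v.1 k) ?_ ?_ ?_ m
  · intro t v
    rw [hφ.u]
    refine ⟨?_, ?_, ?_, ?_, ac_x_snd hρ hab _ _, ?_⟩
    · rw [ac_x_fst hρ hab]
      simp [h2]
    · rw [ac_x_fst hρ hab]
      simp [h1.symm, h6.symm]
    · rw [ac_x_fst hρ hab]
      simp [h2.symm]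
    · rw [ac_x_fst hρ hab]
      simp [h5, h4]
    · intro k e1 e2 e3 e4
      rw [ac_x_fst hρ hab, if_neg e1, if_neg e3]
      simp
  · intro t v
    rw [hφ.l]
    refine ⟨?_, ?_, ?_, ?_, ac_x_snd hρ hab.symm _ _, ?_⟩
    · rw [ac_x_fst hρ hab.symm]
      simp [h1, h5.symm]
    · rw [ac_x_fst hρ hab.symm]
      simp [h3.symm]
      ring
    · rw [ac_x_fst hρ hab.symm]
      simp [h6, h4.symm]
    · rw [ac_x_fst hρ hab.symm]
      simp [h3]
      ring
    · intro k e1 e2 e3 e4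
      rw [ac_x_fst hρ hab.symm, if_neg e2, if_neg e4]
      simp
  · intro A B hA hB v
    obtain ⟨a1, a2, a3, a4, a5, a6⟩ := hA (ac σ (φ B) v)
    obtain ⟨b1, b2, b3, b4, b5, b6⟩ := hB v
    rw [map_mul, ac_mul, a1, a2, a3, a4, a5, b1, b2, b3, b4, b5]
    simp only [mul_apply2]
    refine ⟨?_, ?_, ?_, ?_, trivial, ?_⟩
    · ring
    · ring
    · ring
    · ring
    · intro k e1 e2 e3 e4
      rw [a6 k e1 e2 e3 e4, b6 k e1 e2 e3 e4]

end Coord

section Inj

variable (hs : SysB x y q) {a : Fin l ⊕ Fin l}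

include hs

lemma UB_empty {u : Γ} (hu : u ∈ UB x y a (∅ : Finset (Fin l ⊕ Fin l))) : ∃ w, u = y a w := by
  induction hu using closure_induction with
  | mem t ht =>
    rcases ht with ⟨j, hj, _⟩ | ⟨w, rfl⟩
    · simp at hj
    · exact ⟨w, rfl⟩
  | one => exact ⟨0, (yzero hs a).symm⟩
  | mul p r _ _ hp hr =>
    obtain ⟨w, rfl⟩ := hp
    obtain ⟨w', rfl⟩ := hr
    exact ⟨w + w', (hs.yadd a w w').symm⟩
  | inv p _ hp =>
    obtain ⟨w, rfl⟩ := hp
    exact ⟨-w, (yneg hs a w).symm⟩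

lemma U_insert {i : Fin l ⊕ Fin l} {T : Finset (Fin l ⊕ Fin l)} (hind : ∀ j ∈ insert i T, Ind a j) {u : Γ}
    (hu : u ∈ UB x y a (insert i T)) : ∃ r : F, ∃ u' ∈ UB x y a T, u = x a i r * u' := by
  have hD := hs.hD
  have hai := hind i (Finset.mem_insert_self _ _)
  have step : ∀ s ∈ UBs x y a (insert i T), ∀ g : Γ, (∃ r : F, ∃ u' ∈ UB x y a T, g = x a i r * u') →
      ∃ r : F, ∃ u' ∈ UB x y a T, s * g = x a i r * u' := by
    rintro s (⟨j, hj, c, rfl⟩ | ⟨w, rfl⟩) _ ⟨r, u', hu', rfl⟩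
    · rcases Finset.mem_insert.mp hj with rfl | hj'
      · exact ⟨c + r, u', hu', by rw [hD.add hai]; group⟩
      · refine ⟨r, x a j c * u', mul_mem (x_mem_UB hj' c) hu', ?_⟩
        have e := (row hD (hind j hj) hai c r).eq
        rw [← mul_assoc, e]
        group
    · refine ⟨r, y a w * u', mul_mem (y_mem_UB w) hu', ?_⟩
      have e := (xa_ya hs hai r w).symm.eq
      rw [← mul_assoc, e]
      group
  have hinv : ∀ s ∈ UBs x y a (insert i T), s⁻¹ ∈ UBs x y a (insert i T) := by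
    rintro _ (⟨j, hj, c, rfl⟩ | ⟨w, rfl⟩)
    · exact Or.inl ⟨j, hj, -c, (neg hD (hind j hj) c).symm⟩
    · exact Or.inr ⟨-w, (yneg hs a w).symm⟩
  induction hu using closure_induction_left with
  | one => exact ⟨0, 1, one_mem _, by rw [zero hD hai]; group⟩
  | mul_left s hs' g _ ih => exact step s hs' g ih
  | inv_mul_cancel s hs' g _ ih => exact step s⁻¹ (hinv s hs') g ih

include hρ

/-- Injectivity on the row groups. -/
lemma inj_UB {T : Finset (Fin l ⊕ Fin l)} (ha : a ∉ T) (ha' : a.swap ∉ T) :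
    ∀ u ∈ UB x y a T, ac σ u (ee a.swap) = ee a.swap → u = 1 := by
  induction T using Finset.induction_on with
  | empty =>
    intro u hu he
    obtain ⟨w, rfl⟩ := UB_empty hs hu
    have h1 := congrArg Prod.snd he
    rw [ac_y_snd hρ] at h1
    simp [ee_fst, ee_snd] at h1
    rw [h1, yzero hs]
  | insert i T hi ih =>
    intro u hu he
    have hai : a ≠ i := fun h => ha (h ▸ Finset.mem_insert_self _ _)
    have hai' : a.swap ≠ i := fun h => ha' (h ▸ Finset.mem_insert_self _ _)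
    have haT : a ∉ T := fun h => ha (Finset.mem_insert_of_mem h)
    have haT' : a.swap ∉ T := fun h => ha' (Finset.mem_insert_of_mem h)
    have hind : ∀ j ∈ insert i T, Ind a j := fun j hj =>
      ⟨fun e => ha (e ▸ hj), fun e => ha' (by rw [e, Sum.swap_swap]; exact hj)⟩
    have hh := U_insert hs hind hu
    obtain ⟨r, u', hu', rfl⟩ := hh
    have hia := hind i (Finset.mem_insert_self _ _)
    have hc : ∀ k, k ≠ a → (∀ j ∈ T, k ≠ j.swap) → ∀ v, (ac σ u' v).1 k = v.1 k := by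
      intro k hk hk' v
      have : UB x y a T ≤ stabK σ k := by
        unfold UB
        rw [closure_le]
        rintro _ (⟨j, hj, c, rfl⟩ | ⟨w, rfl⟩) v
        · rw [ac_x_fst hρ (hind j (Finset.mem_insert_of_mem hj)), if_neg hk, if_neg (hk' j hj)]
          simp
        · rw [ac_y_fst hρ, if_neg hk]
          simp
      exact this hu' v
    have h1 := congrArg (fun v : VB l F W => v.1 i.swap) he
    rw [ac_mul, ac_x_fst hρ hia, if_neg (fun e => hai' (by rw [← e, Sum.swap_swap])), if_pos rfl,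
      hc i.swap (fun e => hai' (by rw [← e, Sum.swap_swap])) (fun j hj e => hi ((Sum.swap_leftInverse.injective e) ▸ hj)),
      hc a.swap (swap_ne a).symm (fun j hj e => haT ((Sum.swap_leftInverse.injective e) ▸ hj))] at h1
    simp only [ee_fst, if_true] at h1
    have h2 : r = 0 := by
      simp at h1
      exact h1
    subst h2
    rw [zero hs.hD hia, one_mul] at he ⊢
    exact ih haT haT' u' hu' he

/-- The elements of the row group are determined by their action on one vector. -/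
lemma U_eq {J : Finset (Fin l ⊕ Fin l)} (hL : Lev a J) {u₁ u₂ : Γ} (h₁ : u₁ ∈ UB x y a J) (h₂ : u₂ ∈ UB x y a J)
    (h : ac σ u₁ (ee a.swap) = ac σ u₂ (ee a.swap)) : u₁ = u₂ := by
  have := inj_UB hρ hs hL.ha hL.ha' (u₁⁻¹ * u₂) (mul_mem (inv_mem h₁) h₂) (by
    rw [ac_mul, ← h, ac_inv_left])
  rw [inv_mul_eq_one] at this
  exact this

/-- Prescribing the image of a vector by an element of the row group. -/
lemma exists_U {T : Finset (Fin l ⊕ Fin l)} (ha : a ∉ T) (ha' : a.swap ∉ T) :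
    ∀ v : VB l F W, (∀ k, k.swap ∉ T → v.1 k = 0) → ∃ w ∈ UB x y a T,
      (∀ k, k ≠ a → (ac σ w (ee a.swap)).1 k = (ee a.swap : VB l F W).1 k + v.1 k) ∧ (ac σ w (ee a.swap)).2 = v.2 := by
  induction T using Finset.induction_on with
  | empty =>
    intro v hv
    refine ⟨y a v.2, y_mem_UB _, ?_, ?_⟩
    · intro k hk
      rw [ac_y_fst hρ, if_neg hk, hv k (by simp)]
      simp
    · rw [ac_y_snd hρ]
      simp [ee_fst, ee_snd]
  | insert i T hi ih =>
    intro v hv
    have hai : a ≠ i := fun h => ha (h ▸ Finset.mem_insert_self _ _)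
    have hai' : a.swap ≠ i := fun h => ha' (h ▸ Finset.mem_insert_self _ _)
    have haT : a ∉ T := fun h => ha (Finset.mem_insert_of_mem h)
    have haT' : a.swap ∉ T := fun h => ha' (Finset.mem_insert_of_mem h)
    set c := v.1 i.swap with hc
    set v' : VB l F W := (v.1 - c • es i.swap, v.2) with hv'
    have hsupp : ∀ k, k.swap ∉ T → v'.1 k = 0 := by
      intro k hk
      by_cases h3 : k = i.swap
      · subst h3
        simp [hv', es, hc]
      · have h4 : k.swap ∉ insert i T := by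
          simp only [Finset.mem_insert, not_or]
          exact ⟨fun e => h3 (by rw [← e, Sum.swap_swap]), hk⟩
        simp [hv', hv k h4, es, Pi.single_eq_of_ne h3]
    obtain ⟨w', hw', e1, e2⟩ := ih haT haT' v' hsupp
    have hInd : Ind a i := ⟨hai, fun e => hai' (by rw [e, Sum.swap_swap])⟩
    refine ⟨x a i (-c) * w', mul_mem (x_mem_UB (Finset.mem_insert_self _ _) _) (UB_mono (Finset.subset_insert _ _) hw'), ?_, ?_⟩
    · intro k hk
      rw [ac_mul, ac_x_fst hρ hInd, if_neg hk]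
      have e3 := e1 a.swap (swap_ne a).symm
      have hv'a : v'.1 a.swap = 0 := hsupp _ (by simpa using haT)
      rw [e3, hv'a, e1 k hk]
      by_cases h3 : k = i.swap
      · subst h3
        have h5 : i.swap ≠ a.swap := fun e => hai (Sum.swap_leftInverse.injective e).symm
        simp [hv', hc, ee_fst, es, h5]
      · simp [hv', ee_fst, es, Pi.single_eq_of_ne h3, h3]
    · rw [ac_mul, ac_x_snd hρ hInd, e2]

end Inj

section Sing

/-- Singular vectors with the same coordinates up to one agree. -/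
lemma eq_of_sing {u v : VB l F W} {b : Fin l ⊕ Fin l} (hu : QV q u = 0) (hv : QV q v = 0) (h1 : ∀ k, k ≠ b → u.1 k = v.1 k)
    (h2 : u.2 = v.2) (h3 : v.1 b.swap ≠ 0) : u = v := by
  set δ := u.1 b - v.1 b with hδ
  have e : u = v + δ • ee b := by
    apply Prod.ext
    · funext k
      by_cases h : k = b
      · subst h
        simp [hδ, ee_fst]
      · simp [ee_fst, h, h1 k h]
    · simp [h2, ee_snd]
  have h4 : δ * v.1 b.swap = 0 := by
    have e2 := hu
    rw [e, Q_add, hv, Q_smul, Q_ee, mul_zero, polar_smul_r, polar_ee] at e2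
    simpa using e2
  have h5 : δ = 0 := by simpa [h3] using h4
  rw [e, h5, zero_smul, add_zero]

variable (hs : SysB x y q) (haniso : ∀ w : W, q w = 0 → w = 0)

include hs hρ haniso

/-- The conjugates of a root element have one of the shapes. -/
theorem sing_all {a b : Fin l ⊕ Fin l} {J : Finset (Fin l ⊕ Fin l)} (hL : Lev a J) (hb : b ∈ J) : SingB x y a b J := by
  intro g hg e
  have hJ := hL.hJ
  have hab := hL.ind hb
  have hab' := hab.swapR
  have hb' : b.swap ∈ J := hJ b hb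
  set J' := rm J b with hJ'
  have hL' : Lev b J' := lev_rm_self hJ b
  have hu_mem : g * x a b e * g⁻¹ ∈ UB x y a J := QB_conj_UB hs hL g hg _ (x_mem_UB hb e)
  have hgA : ac σ g (ee a.swap) = ee a.swap := QB_stabV hρ hJ hL.ha' hg
  have hgA' : ac σ g⁻¹ (ee a.swap) = ee a.swap := by
    have := ac_inv_left σ g (ee a.swap)
    rwa [hgA] at this
  set v := ac σ g (ee b.swap) with hv
  have hvQ : QV q v = 0 := by
    rw [hv, ac_Q, Q_ee]
  have hu_act : ac σ (g * x a b e * g⁻¹) (ee a.swap) = ee a.swap - e • v := by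
    rw [ac_mul, ac_mul, hgA', ac_x_ee hρ hab, ac_sub, hgA, ac_smul]
  have hsupp : ∀ k, k ∉ J → v.1 k = 0 := by
    intro k hk
    have h1 : (ac σ g (ee b.swap)).1 k = (ee b.swap : VB l F W).1 k := QB_stabK hρ hJ hk hg _
    rw [hv, h1, ee_fst, if_neg]
    exact fun h => hk (h ▸ hb')
  by_cases hα : v.1 b.swap = 0
  · -- the vector has no component on `b̄`
    right
    set β := v.1 b with hβ
    set v' : VB l F W := v - β • ee b with hv'
    have hv'Q : QV q v' = 0 := by
      rw [hv', Q_sub, hvQ, Q_smul, Q_ee, polar_smul_r, polar_ee, hα]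
      simp
    have hv'1 : ∀ k, v'.1 k = if k = b then 0 else v.1 k := by
      intro k
      by_cases h : k = b
      · subst h
        simp [hv', hβ, ee_fst]
      · simp [hv', ee_fst, h]
    have hsupp' : ∀ k, k ∉ J' → v'.1 k = 0 := by
      intro k hk
      rw [hv'1]
      by_cases h1 : k = b
      · simp [h1]
      · rw [if_neg h1]
        by_cases h2 : k = b.swap
        · rw [h2, hα]
        · refine hsupp k (fun h => hk (mem_rm.mpr ⟨h2, h1, h⟩))
    have hX : ∀ r : F, ac σ (x a b.swap r) (ee a.swap) = ee a.swap - r • ee b := by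
      intro r
      have := ac_x_ee hρ hab' r
      rwa [Sum.swap_swap] at this
    by_cases hzero : v' = 0
    · right
      refine ⟨e * β, U_eq hρ hs hL hu_mem (x_mem_UB hb' _) ?_⟩
      rw [hu_act, hX]
      have hvv : v = β • ee b := by
        rw [← sub_eq_zero, ← hzero]
      rw [hvv, smul_smul]
    · left
      -- a nonzero coordinate
      have hne : ∃ k, v'.1 k ≠ 0 := by
        by_contra hcon
        push Not at hcon
        apply hzero
        have h1 : v'.1 = 0 := funext hcon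
        have h2 : q v'.2 = 0 := by
          have := hv'Q
          rw [QV_apply, h1] at this
          simpa using this
        exact Prod.ext h1 (haniso _ h2)
      obtain ⟨k, hk⟩ := hne
      have hkJ : k ∈ J' := by
        by_contra h
        exact hk (hsupp' k h)
      set μ := v'.1 k with hμ
      have hk' : k.swap ∈ J' := rm_closed hJ b k hkJ
      set T := rm J' k.swap with hT
      have hTk : k.swap ∉ T := fun h => (mem_rm.mp h).2.1 rfl
      have hTk' : k.swap.swap ∉ T := by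
        rw [Sum.swap_swap]
        intro h
        exact (mem_rm.mp h).1 (by simp)
      set v'' : VB l F W := (μ⁻¹ • v' - ee k - (μ⁻¹ * v'.1 k.swap) • ee k.swap) with hv''
      have hsupp'' : ∀ p, p ∉ T → v''.1 p = 0 := by
        intro p hp
        simp only [hv'', Prod.fst_sub, Prod.smul_fst, Pi.sub_apply, Pi.smul_apply, smul_eq_mul, ee_fst]
        by_cases h1 : p = k
        · subst h1
          have : p ≠ p.swap := swap_ne p
          rw [if_pos rfl, if_neg this, ← hμ]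
          field_simp
          simp
        · by_cases h2 : p = k.swap
          · subst h2
            simp [swap_ne k, (swap_ne k).symm]
          · rw [if_neg h1, if_neg h2]
            by_cases h3 : p ∈ J'
            · exfalso
              apply hp
              exact mem_rm.mpr ⟨by simpa using h1, h2, h3⟩
            · rw [hsupp' p h3]
              simp
      have hh := exists_U hρ hs hTk hTk' v'' (fun p hp => hsupp'' p (fun h => hp (rm_closed (rm_closed hJ b) k.swap p h)))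
      obtain ⟨w, hw, e1, e2⟩ := hh
      rw [Sum.swap_swap] at e1 e2
      have hQ1 : QV q (μ⁻¹ • v') = 0 := by
        rw [Q_smul, hv'Q, mul_zero]
      have hw1 : ac σ w (ee k) = μ⁻¹ • v' := by
        apply eq_of_sing (b := k.swap) (by rw [ac_Q, Q_ee]) hQ1
        · intro p hp
          rw [e1 p hp]
          simp only [hv'', Prod.fst_sub, Prod.smul_fst, Pi.sub_apply, Pi.smul_apply, smul_eq_mul, ee_fst]
          rw [if_neg hp]
          ring
        · rw [e2]
          simp [hv'', ee_snd]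
        · rw [Sum.swap_swap]
          simp only [Prod.smul_fst, Pi.smul_apply, smul_eq_mul]
          rw [← hμ]
          field_simp
          exact one_ne_zero
      have hwQ : w ∈ QB x y J' := UB_le_QB hk' hw
      have hwQ' : w ∈ QB x y J := QB_mono rm_sub hwQ
      refine ⟨e * β, w, hwQ, k.swap, hk', e * μ, U_eq hρ hs hL hu_mem
        (mul_mem (x_mem_UB hb' _) (QB_conj_UB hs hL w hwQ' _ (x_mem_UB (rm_sub hk') _))) ?_⟩
      have hwA : ac σ w (ee a.swap) = ee a.swap := QB_stabV hρ hJ hL.ha' hwQ'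
      have hwA' : ac σ w⁻¹ (ee a.swap) = ee a.swap := by
        have := ac_inv_left σ w (ee a.swap)
        rwa [hwA] at this
      have hIk : Ind a k.swap := hL.ind (rm_sub hk')
      have hfix : ac σ (x a b.swap (e * β)) v' = v' := by
        apply Prod.ext
        · funext p
          rw [ac_x_fst hρ hab', Sum.swap_swap]
          have e3 : v'.1 b.swap = 0 := hsupp' _ (fun h => (mem_rm.mp h).1 rfl)
          have e4 : v'.1 a.swap = 0 := hsupp' _ (fun h => hL.ha' (rm_sub h))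
          rw [e3, e4]
          simp
        · rw [ac_x_snd hρ hab']
      rw [hu_act, ac_mul, ac_mul, ac_mul, hwA', ac_x_ee hρ hIk, Sum.swap_swap, ac_sub, hwA, ac_smul, hw1, smul_smul, ac_sub, hX,
        ac_smul, hfix]
      have : e * μ * μ⁻¹ = e := by
        field_simp
      rw [this]
      have hvv : v = v' + β • ee b := by
        rw [hv']
        abel
      rw [hvv, smul_add, smul_smul]
      abel
  · -- the vector has a component on `b̄`
    left
    set α := v.1 b.swap with hα'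
    set v'' : VB l F W := (α⁻¹ • v - ee b.swap - (α⁻¹ * v.1 b) • ee b) with hv''
    have hsupp'' : ∀ p, p ∉ J' → v''.1 p = 0 := by
      intro p hp
      simp only [hv'', Prod.fst_sub, Prod.smul_fst, Pi.sub_apply, Pi.smul_apply, smul_eq_mul, ee_fst]
      by_cases h1 : p = b.swap
      · subst h1
        rw [if_pos rfl, if_neg (swap_ne b).symm, ← hα']
        field_simp
        simp
      · by_cases h2 : p = b
        · subst h2
          simp [swap_ne p, (swap_ne p).symm]
        · rw [if_neg h1, if_neg h2]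
          by_cases h3 : p ∈ J
          · exact absurd (mem_rm.mpr ⟨h1, h2, h3⟩) hp
          · rw [hsupp p h3]
            simp
    have hh := exists_U hρ hs hL'.ha hL'.ha' v'' (fun p hp => hsupp'' p (fun h => hp (rm_closed hJ b p h)))
    obtain ⟨w, hw, e1, e2⟩ := hh
    have hQ1 : QV q (α⁻¹ • v) = 0 := by
      rw [Q_smul, hvQ, mul_zero]
    have hw1 : ac σ w (ee b.swap) = α⁻¹ • v := by
      apply eq_of_sing (b := b) (by rw [ac_Q, Q_ee]) hQ1
      · intro p hp
        rw [e1 p hp]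
        simp only [hv'', Prod.fst_sub, Prod.smul_fst, Pi.sub_apply, Pi.smul_apply, smul_eq_mul, ee_fst]
        rw [if_neg hp]
        ring
      · rw [e2]
        simp [hv'', ee_snd]
      · simp only [Prod.smul_fst, Pi.smul_apply, smul_eq_mul]
        rw [← hα']
        field_simp
        exact one_ne_zero
    have hwQ : w ∈ QB x y J := UB_le_QB hb hw
    refine ⟨w, hw, e * α, U_eq hρ hs hL hu_mem (QB_conj_UB hs hL w hwQ _ (x_mem_UB hb _)) ?_⟩
    have hwA : ac σ w (ee a.swap) = ee a.swap := QB_stabV hρ hJ hL.ha' hwQ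
    have hwA' : ac σ w⁻¹ (ee a.swap) = ee a.swap := by
      have := ac_inv_left σ w (ee a.swap)
      rwa [hwA] at this
    rw [hu_act, ac_mul, ac_mul, hwA', ac_x_ee hρ hab, ac_sub, hwA, ac_smul, hw1, smul_smul]
    have : e * α * α⁻¹ = e := by
      field_simp
    rw [this]

end Sing

section Main

variable (hs : SysB x y q) {Φ : Fin l ⊕ Fin l → Fin l ⊕ Fin l → SL2 F →* Γ} (hΦ : SecP x Φ)

include hΦ

omit [Fintype F] in
lemma phi_mem {J : Finset (Fin l ⊕ Fin l)} {c d : Fin l ⊕ Fin l} (hc : c ∈ J) (hd : d ∈ J) (h : Ind c d) (m : SL2 F) :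
    Φ c d m ∈ QB x y J := by
  refine sl2_ind (fun m => Φ c d m ∈ QB x y J) ?_ ?_ ?_ m
  · intro t
    show Φ c d (uu t) ∈ _
    rw [(hΦ.phi h).u]
    exact x_mem_QB hc hd h t
  · intro t
    show Φ c d (ll t) ∈ _
    rw [(hΦ.phi h).l]
    exact x_mem_QB hd hc h.symm t
  · intro A B hA hB
    show Φ c d (A * B) ∈ _
    rw [map_mul]
    exact mul_mem hA hB

include hs

omit [Fintype F] in
/-- Weyl conjugation within `Q`. -/
lemma weyl_step {a i j : Fin l ⊕ Fin l} {J : Finset (Fin l ⊕ Fin l)} (hL : Lev a J) (hi : i ∈ J) (hj : j ∈ J) (hij : Ind i j) :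
    ∃ ŷ ∈ QB x y J, ∀ κ : F, x a j κ = ŷ * x a i κ * ŷ⁻¹ := by
  have hD := hs.hD
  refine ⟨(Φ i j (mk2 0 1 (-1) 0 (by ring)))⁻¹, inv_mem (phi_mem hΦ hi hj hij _), fun κ => ?_⟩
  have h := row₁ hD hij (hΦ.phi hij) (hL.ind hi).symm (hL.ind hj).symm (mk2 0 1 (-1) 0 (by ring)) κ
  rw [inv_inv, h]
  simp only [mk00, mk01]
  rw [mul_zero, mul_one, zero hD (hL.ind hi), one_mul]

omit hΦ

include hρ

/-- A Weyl element in the group generated by the short root elements. -/
lemma weyl_b (b : Fin l ⊕ Fin l) {u₀ : W} (hu : q u₀ ≠ 0) :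
    ac σ (y b ((q u₀)⁻¹ • u₀) * y b.swap u₀) (ee b) = (-(q u₀)) • ee b.swap := by
  have h1 : b ≠ b.swap := swap_ne b
  have h2 : b.swap ≠ b := (swap_ne b).symm
  rw [ac_mul]
  apply Prod.ext
  · funext p
    rw [ac_y_fst hρ, ac_y_snd hρ, ac_y_fst hρ, ac_y_fst hρ]
    simp only [ee_fst, ee_snd, Sum.swap_swap, if_true, if_neg h2, if_neg h1, polar_zero_left, zero_add, zero_smul, add_zero, mul_one,
      Prod.smul_fst, Pi.smul_apply, smul_eq_mul, one_smul]
    have e1 : polar q u₀ ((q u₀)⁻¹ • u₀) = 2 := by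
      rw [polar_smul_right, polar_self, smul_eq_mul, two_nsmul]
      field_simp
      norm_num
    have e2 : q ((q u₀)⁻¹ • u₀) = (q u₀)⁻¹ := by
      rw [QuadraticMap.map_smul, smul_eq_mul]
      field_simp
    rw [e1, e2]
    by_cases e3 : p = b
    · subst e3
      simp [h1]
      field_simp
      ring
    · by_cases e4 : p = b.swap
      · subst e4
        simp [h2]
      · simp [e3, e4]
  · rw [ac_y_snd hρ, ac_y_snd hρ, ac_y_fst hρ]
    simp only [ee_fst, ee_snd, Sum.swap_swap, if_true, if_neg h2, if_neg h1, polar_zero_left, zero_add, zero_smul, add_zero, mul_one,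
      Prod.smul_snd, smul_zero, one_smul, zero_sub, sub_zero]
    rw [smul_smul, neg_mul, mul_inv_cancel₀ hu]
    simp

include hΦ

/-- The data of the enumeration from sections. -/
lemma mkCx (hτ : ∀ {a b : Fin l ⊕ Fin l}, Ind a b → ∀ (t : F) (ht : t ≠ 0),
      (Φ a b (borEl t ht 0))⁻¹ * Φ a b.swap (borEl t ht 0) ∈ QB x y ({b, b.swap} : Finset (Fin l ⊕ Fin l)))
    {u₀ : W} (hu : q u₀ ≠ 0) {a b : Fin l ⊕ Fin l} {J : Finset (Fin l ⊕ Fin l)} (hL : Lev a J) (hb : b ∈ J) :
    CxB x y a b J (Φ a b) (Φ a b.swap) := by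
  have hb' := hL.hJ b hb
  have hab := hL.ind hb
  have hab' := hab.swapR
  refine ⟨hL, hb, hΦ.phi hab, hΦ.phi hab', ?_, ?_⟩
  · intro t ht
    refine QB_mono ?_ (hτ hab t ht)
    intro k hk
    simp only [Finset.mem_insert, Finset.mem_singleton] at hk
    rcases hk with rfl | rfl
    · exact hb
    · exact hb'
  · intro j hj
    by_cases h1 : j = b.swap
    · subst h1
      exact ⟨1, one_mem _, 1, one_ne_zero, fun κ => by group⟩
    · by_cases h2 : j = b
      · subst h2
        set ŷ := y j ((q u₀)⁻¹ • u₀) * y j.swap u₀ with hŷ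
        have hŷQ : ŷ ∈ QB x y J := mul_mem (y_mem_QB hb _) (y_mem_QB hb' _)
        have hŷA : ac σ ŷ (ee a.swap) = ee a.swap := QB_stabV hρ hL.hJ hL.ha' hŷQ
        have hŷA' : ac σ ŷ⁻¹ (ee a.swap) = ee a.swap := by
          have := ac_inv_left σ ŷ (ee a.swap)
          rwa [hŷA] at this
        refine ⟨ŷ, hŷQ, -(q u₀)⁻¹, neg_ne_zero.mpr (inv_ne_zero hu), fun κ => ?_⟩
        refine U_eq hρ hs hL (x_mem_UB hj _) (QB_conj_UB hs hL ŷ hŷQ _ (x_mem_UB hb' _)) ?_
        have hX := ac_x_ee hρ hab' (-(q u₀)⁻¹ * κ)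
        rw [Sum.swap_swap] at hX
        rw [ac_mul, ac_mul, hŷA', hX, ac_sub, hŷA, ac_smul, hŷ, weyl_b hρ hs j hu, ac_x_ee hρ hab, smul_smul]
        congr 2
        field_simp
      · have hi : Ind b.swap j := ⟨fun e => h1 e.symm, fun e => h2 (Sum.swap_leftInverse.injective e).symm⟩
        obtain ⟨ŷ, hŷ, e⟩ := weyl_step hs hΦ hL hb' hj hi
        exact ⟨ŷ, hŷ, 1, one_ne_zero, fun κ => by rw [one_mul]; exact e κ⟩

omit hΦ

/-- The stabilizer of the two basis vectors. -/
theorem stab_step {a b : Fin l ⊕ Fin l} {J : Finset (Fin l ⊕ Fin l)} {φ₁ φ₂ : SL2 F →* Γ} (C : CxB x y a b J φ₁ φ₂)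
    (hS : SingB x y a b J) {g : Γ} (hg : g ∈ QB x y (insert a (insert a.swap J))) (h1 : ac σ g (ee a) = ee a)
    (h2 : ac σ g (ee a.swap) = ee a.swap) : g ∈ QB x y J := by
  have hcell := cell_all hs C hS hg
  have hL := C.hL
  have hab := C.hab
  have haa : (ee a : VB l F W).1 b = 0 := by
    rw [ee_fst, if_neg hab.1.symm]
  rcases hcell with ⟨w, hw, t, ht, p, hp, rfl⟩ | ⟨g₀, hy, s, m, hm, p, hp, rfl⟩ | ⟨g₀, hy, m, m', hm, hm', p, hp, rfl⟩
  · have hp' : ac σ p (ee a) = ee a := PB_stabV hρ hL hp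
    have h3 := congrArg (fun v : VB l F W => v.1 a) h1
    rw [ac_mul, ac_mul, hp', Us_coord hρ hL hw, (act_phiV hρ hab C.h₁ _ _).1] at h3
    simp only [borEl00, borEl01, ee_fst, if_true, mul_one, zero_mul, add_zero] at h3
    subst h3
    rw [borEl_one, map_one, mul_one] at h1 h2 ⊢
    rw [ac_mul, hp'] at h1
    have hw1 := inj_UB hρ hs (a := a.swap) (T := J) hL.ha' (by simpa using hL.ha) w hw (by simpa using h1)
    subst hw1
    rw [one_mul] at h2 ⊢
    have hd := PB_decomp hs hL hp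
    obtain ⟨u, hu, y₀, hy₀, rfl⟩ := hd
    have h4 : ac σ y₀ (ee a.swap) = ee a.swap := QB_stabV hρ hL.hJ hL.ha' hy₀
    rw [ac_mul, h4] at h2
    have hu1 := inj_UB hρ hs hL.ha hL.ha' u hu h2
    subst hu1
    simpa using hy₀
  · exfalso
    have hp' : ac σ p (ee a) = ee a := PB_stabV hρ hL hp
    have h3 := congrArg (fun v : VB l F W => v.1 a) h1
    rw [ac_mul, ac_mul, ac_mul, hp', QB_stabK hρ hL.hJ hL.ha hy, Us_coord hρ hL (xka_mem hs hL C.hb' s),
      (act_phiV hρ hab C.h₁ _ _).1, hm, haa] at h3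
    simp [ee_fst] at h3
  · exfalso
    have hp' : ac σ p (ee a) = ee a := PB_stabV hρ hL hp
    have h3 := congrArg (fun v : VB l F W => v.1 a) h1
    have h4 := (act_phiV hρ C.hab' C.h₂ m' (ee a)).2.2.1
    rw [Sum.swap_swap] at h4
    rw [ac_mul, ac_mul, ac_mul, hp', QB_stabK hρ hL.hJ hL.ha hy, (act_phiV hρ hab C.h₁ _ _).1, hm, h4] at h3
    simp [ee_fst, (swap_ne a).symm, hab.1.symm] at h3

include hΦ

/-- The main theorem: the kernel of the action on the group generated by the root elements. -/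
theorem ker_main (haniso : ∀ w : W, q w = 0 → w = 0)
    (hτ : ∀ {a b : Fin l ⊕ Fin l}, Ind a b → ∀ (t : F) (ht : t ≠ 0),
      (Φ a b (borEl t ht 0))⁻¹ * Φ a b.swap (borEl t ht 0) ∈ QB x y ({b, b.swap} : Finset (Fin l ⊕ Fin l)))
    {u₀ : W} (hu : q u₀ ≠ 0) {a₀ : Fin l ⊕ Fin l} {z : Γ}
    (hbase : ∀ g ∈ QB x y ({a₀, a₀.swap} : Finset (Fin l ⊕ Fin l)), σ g = 1 → g = 1 ∨ g = z) :
    ∀ (n : ℕ) (J : Finset (Fin l ⊕ Fin l)), (J \ {a₀, a₀.swap}).card ≤ n → (∀ j ∈ J, j.swap ∈ J) → a₀ ∈ J →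
    ∀ g ∈ QB x y J, σ g = 1 → g = 1 ∨ g = z := by
  have hbase' : ∀ (J : Finset (Fin l ⊕ Fin l)), (∀ j ∈ J, j.swap ∈ J) → a₀ ∈ J → (∀ k ∈ J, k = a₀ ∨ k = a₀.swap) →
      ∀ g ∈ QB x y J, σ g = 1 → g = 1 ∨ g = z := by
    intro J hJ ha hu g hg
    refine hbase g (QB_mono ?_ hg)
    intro k hk
    simpa using hu k hk
  intro n
  induction n with
  | zero =>
    intro J hcard hJ ha
    refine hbase' J hJ ha ?_
    intro k hk
    have h0 : J \ {a₀, a₀.swap} = ∅ := by simpa using hcard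
    have h1 : k ∈ ({a₀, a₀.swap} : Finset (Fin l ⊕ Fin l)) := by
      by_contra h
      have : k ∈ J \ {a₀, a₀.swap} := Finset.mem_sdiff.mpr ⟨hk, h⟩
      rw [h0] at this
      simp at this
    simpa using h1
  | succ n ih =>
    intro J hcard hJ ha
    by_cases hex : ∃ k ∈ J, k ∉ ({a₀, a₀.swap} : Finset (Fin l ⊕ Fin l))
    · obtain ⟨a, haJ, ha'⟩ := hex
      simp only [Finset.mem_insert, Finset.mem_singleton, not_or] at ha'
      obtain ⟨n1, n2⟩ := ha'
      have hL : Lev a (rm J a) := lev_rm_self hJ a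
      have ha0 : a₀ ∈ rm J a := mem_rm.mpr ⟨fun e => n2 (by rw [e, Sum.swap_swap]), fun e => n1 e.symm, ha⟩
      have C := mkCx hρ hs hΦ hτ hu hL ha0
      have hS := sing_all hρ hs haniso hL ha0
      intro g hg h1
      have hg' : g ∈ QB x y (insert a (insert a.swap (rm J a))) := by
        rw [Finset.insert_comm, ← eq_insert_rm hJ haJ]
        exact hg
      have hfix : ∀ v : VB l F W, ac σ g v = v := by
        intro v
        unfold ac
        rw [h1]
        rfl
      have hg2 := stab_step hρ hs C hS hg' (hfix _) (hfix _)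
      refine ih (rm J a) ?_ (rm_closed hJ a) ha0 g hg2 h1
      have hlt : (rm J a \ {a₀, a₀.swap}).card < (J \ {a₀, a₀.swap}).card := by
        apply Finset.card_lt_card
        refine ⟨Finset.sdiff_subset_sdiff rm_sub (le_refl _), fun hh => ?_⟩
        have h3 : a ∈ J \ {a₀, a₀.swap} := by
          refine Finset.mem_sdiff.mpr ⟨haJ, ?_⟩
          simp [n1, n2]
        have h4 := hh h3
        exact (mem_rm.mp (Finset.mem_sdiff.mp h4).1).2.1 rfl
      omega
    · refine hbase' J hJ ha ?_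
      intro k hk
      by_contra h
      apply hex
      exact ⟨k, hk, by simpa using h⟩

/-- The case of all indices. -/
theorem ker_univ (haniso : ∀ w : W, q w = 0 → w = 0)
    (hτ : ∀ {a b : Fin l ⊕ Fin l}, Ind a b → ∀ (t : F) (ht : t ≠ 0),
      (Φ a b (borEl t ht 0))⁻¹ * Φ a b.swap (borEl t ht 0) ∈ QB x y ({b, b.swap} : Finset (Fin l ⊕ Fin l)))
    {u₀ : W} (hu : q u₀ ≠ 0) {a₀ : Fin l ⊕ Fin l} {z : Γ}
    (hbase : ∀ g ∈ QB x y ({a₀, a₀.swap} : Finset (Fin l ⊕ Fin l)), σ g = 1 → g = 1 ∨ g = z) :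
    ∀ g ∈ QB x y (Finset.univ : Finset (Fin l ⊕ Fin l)), σ g = 1 → g = 1 ∨ g = z :=
  ker_main hρ hs hΦ haniso hτ hu hbase _ Finset.univ le_rfl (fun _ _ => Finset.mem_univ _) (Finset.mem_univ _)

end Main

end Cfsg.Agent.Lib.BKer
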