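import Mathlib
import Cfsg.Agent.Lib.SpinLift

/-!
# The lifting construction, including rank three with a separating torus
-/

set_option autoImplicit false
set_option linter.unusedSectionVars false
set_option linter.unusedVariables false

namespace Cfsg.Agent.Lib.BLift0

open Subgroup Matrix Cfsg.Agent.Lib.StA Cfsg.Agent.Lib.StK Cfsg.Agent.Lib.StMain Cfsg.Agent.Lib.SL2Core Cfsg.Agent.Lib.SL2Bor
  Cfsg.Agent.Lib.SpinSys Cfsg.Agent.Lib.SpinCell Cfsg.Agent.Lib.SpinKer Cfsg.Agent.Lib.SpinLift
open scoped commutatorElement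

variable {ι : Type*} [DecidableEq ι] [Fintype ι]

section Main

variable {F : Type*} [Field F] [Fintype F] {G Γ : Type*} [Group G] [Group Γ] [Finite Γ]
  {X : ι ⊕ ι → ι ⊕ ι → F → G} {ρ : (ι → Bool) → SpecialLinearGroup ι F →* G}

/-- The main construction. -/
theorem lifts' (hg : Good ι F) (hh : 4 ≤ Fintype.card ι ∨ ∃ d : F, d ≠ 0 ∧ d ^ 2 ≠ 1) (T : TargetD X ρ) (σ : Γ →* G) (hc : σ.ker ≤ center Γ)
    (hr : ∀ t g, ρ t g ∈ σ.range) :
    ∃ (x : ι ⊕ ι → ι ⊕ ι → F → Γ) (Φ : ι ⊕ ι → ι ⊕ ι → SL2 F →* Γ) (f : (ι → Bool) → SpecialLinearGroup ι F →* Γ),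
      SysD x ∧ SecD x Φ ∧ (∀ a b, Ind a b → ∀ c, σ (x a b c) = X a b c) ∧ (∀ t g, σ (f t g) = ρ t g) ∧
      (∀ (t : ι → Bool) (i j : ι), i ≠ j → ∀ c, f t (E i j c) = x (sg t i) (sg t j) c) ∧
      (∀ (t : ι → Bool) (i j : ι) (h : i ≠ j) (m : SL2 F), f t (emb h m) = Φ (sg t i) (sg t j) m) := by
  classical
  have hex : ∀ t, ∃ f : SpecialLinearGroup ι F →* Γ, ∀ g, σ (f g) = ρ t g := fun t => exists_section hg σ hc (ρ t) (hr t)
  choose f hf using hex
  -- agreement of the sections
  have hE : ∀ (t : ι → Bool) {i j : ι}, i ≠ j → ∀ c, σ (f t (E i j c)) = X (sg t i) (sg t j) c := fun t i j h c => by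
    rw [hf, T.hρ t i j h]
  have hagree1 : ∀ (t₁ t₂ : ι → Bool) {i j k : ι}, i ≠ j → k ≠ i → k ≠ j → sg t₁ i = sg t₂ i → sg t₁ j = sg t₂ j →
      sg t₁ k = sg t₂ k → ∀ c, f t₁ (E i j c) = f t₂ (E i j c) := by
    intro t₁ t₂ i j k hij hki hkj h1 h2 h3 c
    have e : ∀ t : ι → Bool, f t (E i j c) = ⁅f t (E i k c), f t (E k j 1)⁆ := by
      intro t
      rw [← map_commutatorElement, E_comm3 hki.symm hkj hij, mul_one]
    rw [e t₁, e t₂]
    apply comm_eq_of_lifts σ hc
    · rw [hE t₁ hki.symm, hE t₂ hki.symm, h1, h3]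
    · rw [hE t₁ hkj, hE t₂ hkj, h2, h3]
  have hagree : ∀ (t₁ t₂ : ι → Bool) {i j : ι}, i ≠ j → sg t₁ i = sg t₂ i → sg t₁ j = sg t₂ j →
      ∀ c, f t₁ (E i j c) = f t₂ (E i j c) := by
    intro t₁ t₂ i j hij h1 h2 c
    rcases hh with hl | ⟨d, hd, hd2⟩
    · obtain ⟨k, hki, hkj⟩ := exists_other2 hg.three i j
      obtain ⟨m, hmi, hmj, hmk⟩ := exists_other3 hl i j k
      set t₃ := Function.update t₁ m (t₂ m) with ht₃
      have s1 : ∀ u : ι, u ≠ m → sg t₃ u = sg t₁ u := by
        intro u hu
        simp [sg, ht₃, Function.update_of_ne hu]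
      have s2 : sg t₃ m = sg t₂ m := by
        simp [sg, ht₃]
      rw [hagree1 t₁ t₃ hij hki hkj (s1 i hmi.symm).symm (s1 j hmj.symm).symm (s1 k hmk.symm).symm c,
        hagree1 t₃ t₂ hij hmi hmj (by rw [s1 i hmi.symm, h1]) (by rw [s1 j hmj.symm, h2]) s2 c]
    · -- the torus separates
      set D := emb hij (borEl d hd 0) with hD
      have hE_conj : ∀ s : F, D * E i j s * D⁻¹ = E i j (d ^ 2 * s) := by
        intro s
        have e0 : borEl d hd 0 * uu s * (borEl d hd 0)⁻¹ = uu (d ^ 2 * s) := by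
          apply sl2_ext <;> simp [mul_apply2, inv00, inv01, inv10, inv11] <;> field_simp
        rw [hD, ← emb_uu hij s, ← map_inv, ← map_mul, ← map_mul, e0, emb_uu]
      have hρD : ρ t₁ D = ρ t₂ D := by
        have key : ∀ m : SL2 F, ρ t₁ (emb hij m) = ρ t₂ (emb hij m) := by
          intro m
          refine sl2_ind (fun m => ρ t₁ (emb hij m) = ρ t₂ (emb hij m)) ?_ ?_ ?_ m
          · intro s
            rw [emb_uu, T.hρ t₁ i j hij, T.hρ t₂ i j hij, h1, h2]
          · intro s
            rw [emb_ll, T.hρ t₁ j i hij.symm, T.hρ t₂ j i hij.symm, h1, h2]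
          · intro A B hA hB
            simp only [map_mul]
            rw [hA, hB]
        exact key _
      set A := f t₁ D with hA
      set B := f t₂ D with hB
      have hAB : σ A = σ B := by rw [hA, hB, hf, hf, hρD]
      set u : F → Γ := fun s => f t₁ (E i j s) with hu
      set u' : F → Γ := fun s => f t₂ (E i j s) with hu'
      have huu : ∀ s, σ (u s) = σ (u' s) := fun s => by
        simp only [hu, hu']
        rw [hE t₁ hij, hE t₂ hij, h1, h2]
      set κ : F → Γ := fun s => (u s)⁻¹ * u' s with hκ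
      have hκc : ∀ s, κ s ∈ center Γ := fun s => hc (by
        rw [MonoidHom.mem_ker, map_mul, map_inv, huu, inv_mul_cancel])
      have hCen : ∀ g : Γ, A * g * A⁻¹ = B * g * B⁻¹ := by
        intro g
        have h3 : A⁻¹ * B ∈ center Γ := hc (by rw [MonoidHom.mem_ker, map_mul, map_inv, hAB, inv_mul_cancel])
        have e1 : B = A * (A⁻¹ * B) := by group
        have h4 := mem_center_iff.mp h3 g
        rw [e1]
        calc A * g * A⁻¹ = A * (g * (A⁻¹ * B)) * (A⁻¹ * B)⁻¹ * A⁻¹ := by group
          _ = A * ((A⁻¹ * B) * g) * (A⁻¹ * B)⁻¹ * A⁻¹ := by rw [← h4]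
          _ = _ := by group
      have hAu : ∀ s, A * u s * A⁻¹ = u (d ^ 2 * s) := fun s => by
        simp only [hu, hA]
        rw [← map_inv, ← map_mul, ← map_mul, hE_conj]
      have hAu' : ∀ s, A * u' s * A⁻¹ = u' (d ^ 2 * s) := fun s => by
        rw [hCen]
        simp only [hu', hB]
        rw [← map_inv, ← map_mul, ← map_mul, hE_conj]
      have hκd : ∀ s, κ (d ^ 2 * s) = κ s := fun s => by
        simp only [hκ]
        rw [← hAu, ← hAu']
        have h3 := mem_center_iff.mp (hκc s) A
        calc (A * u s * A⁻¹)⁻¹ * (A * u' s * A⁻¹) = A * κ s * A⁻¹ := by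
              simp only [hκ]
              group
          _ = κ s := by rw [h3]; group
      have hκa : ∀ s r, κ (s + r) = κ s * κ r := fun s r => by
        have e1 : u (s + r) = u s * u r := by
          simp only [hu]
          rw [E_add hij, map_mul]
        have e2 : u' (s + r) = u' s * u' r := by
          simp only [hu']
          rw [E_add hij, map_mul]
        have h3 := mem_center_iff.mp (hκc s) (u r)⁻¹
        simp only [hκ] at h3 ⊢
        rw [e1, e2]
        calc (u s * u r)⁻¹ * (u' s * u' r) = (u r)⁻¹ * ((u s)⁻¹ * u' s) * u' r := by group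
          _ = ((u s)⁻¹ * u' s) * (u r)⁻¹ * u' r := by rw [← h3]
          _ = _ := by group
      have hd1 : d ^ 2 - 1 ≠ 0 := sub_ne_zero.mpr hd2
      have hκ1 : κ c = 1 := by
        have e1 : d ^ 2 * (c / (d ^ 2 - 1)) = c + c / (d ^ 2 - 1) := by
          field_simp
          ring
        have e2 := hκd (c / (d ^ 2 - 1))
        rw [e1, hκa] at e2
        exact mul_eq_right.mp e2
      have : (u c)⁻¹ * u' c = 1 := hκ1
      exact inv_mul_eq_one.mp this
  -- the root elements
  have hpat2 : ∀ a b : ι ⊕ ι, ∃ t : ι → Bool, Ind a b → sg t (idx a) = a ∧ sg t (idx b) = b := by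
    intro a b
    by_cases h : Ind a b
    · obtain ⟨t, ht⟩ := exists_t {a, b} (by
        intro u hu v hv huv
        simp only [Finset.mem_insert, Finset.mem_singleton] at hu hv
        rcases hu with rfl | rfl <;> rcases hv with rfl | rfl
        · exact absurd rfl huv
        · exact h
        · exact h.symm
        · exact absurd rfl huv)
      exact ⟨t, fun _ => ⟨ht a (by simp), ht b (by simp)⟩⟩
    · exact ⟨fun _ => false, fun h' => absurd h' h⟩
  choose Tt hTt using hpat2
  set x : ι ⊕ ι → ι ⊕ ι → F → Γ := fun a b c => f (Tt a b) (E (idx a) (idx b) c) with hx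
  have hfx : ∀ (t : ι → Bool) {i j : ι}, i ≠ j → ∀ c, f t (E i j c) = x (sg t i) (sg t j) c := by
    intro t i j hij c
    have hi := sg_ind t hij
    have h0 := hTt (sg t i) (sg t j) hi
    simp only [hx, idx_sg]
    simp only [idx_sg] at h0
    exact hagree _ _ hij h0.1.symm h0.2.symm c
  have hσx : ∀ a b, Ind a b → ∀ c, σ (x a b c) = X a b c := by
    intro a b h c
    have h0 := hTt a b h
    simp only [hx]
    rw [hE _ (ind_iff.mp h), h0.1, h0.2]
  -- transversals through given indices
  have pat : ∀ {a b : ι ⊕ ι}, Ind a b → ∃ t : ι → Bool, sg t (idx a) = a ∧ sg t (idx b) = b := fun {a b} h => ⟨_, hTt a b h⟩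
  have pat3 : ∀ {a b c : ι ⊕ ι}, Ind a b → Ind a c → Ind b c → ∃ t : ι → Bool, sg t (idx a) = a ∧ sg t (idx b) = b ∧ sg t (idx c) = c := by
    intro a b c h1 h2 h3
    obtain ⟨t, ht⟩ := exists_t {a, b, c} (by
      intro u hu v hv huv
      simp only [Finset.mem_insert, Finset.mem_singleton] at hu hv
      rcases hu with rfl | rfl | rfl <;> rcases hv with rfl | rfl | rfl <;> first | exact absurd rfl huv | assumption | (apply Ind.symm; assumption))
    exact ⟨t, ht a (by simp), ht b (by simp), ht c (by simp)⟩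
  have hxe : ∀ {t : ι → Bool} {a b : ι ⊕ ι}, sg t (idx a) = a → sg t (idx b) = b → Ind a b → ∀ c,
      x a b c = f t (E (idx a) (idx b) c) := by
    intro t a b ha hb hab c
    rw [hfx t (ind_iff.mp hab), ha, hb]
  -- first relations
  have hadd : ∀ {a b : ι ⊕ ι}, Ind a b → ∀ s u : F, x a b (s + u) = x a b s * x a b u := by
    intro a b h s u
    obtain ⟨t, h1, h2⟩ := pat h
    rw [hxe h1 h2 h, hxe h1 h2 h, hxe h1 h2 h, E_add (ind_iff.mp h), map_mul]
  have hzero : ∀ {a b : ι ⊕ ι}, Ind a b → x a b 0 = 1 := by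
    intro a b h
    have := hadd h 0 0
    rw [add_zero] at this
    exact mul_eq_left.mp this.symm
  have hneg : ∀ {a b : ι ⊕ ι}, Ind a b → ∀ c, x a b (-c) = (x a b c)⁻¹ := by
    intro a b h c
    have := hadd h (-c) c
    rw [neg_add_cancel, hzero h] at this
    exact (inv_eq_of_mul_eq_one_left this.symm).symm
  have hcomm3 : ∀ {a b d : ι ⊕ ι}, Ind a b → Ind b d → Ind a d → ∀ s u : F, ⁅x a b s, x b d u⁆ = x a d (s * u) := by
    intro a b d h1 h2 h3 s u
    obtain ⟨t, e1, e2, e3⟩ := pat3 h1 h3 h2
    rw [hxe e1 e2 h1, hxe e2 e3 h2, hxe e1 e3 h3, ← map_commutatorElement,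
      E_comm3 (ind_iff.mp h1) (ind_iff.mp h2) (ind_iff.mp h3)]
  have hc1 : ∀ {a b d : ι ⊕ ι}, Ind a b → Ind b d → Ind a d → ∀ s u : F,
      x a b s * x b d u * (x a b s)⁻¹ = x a d (s * u) * x b d u := by
    intro a b d h1 h2 h3 s u
    rw [← hcomm3 h1 h2 h3, commutatorElement_def]
    group
  have hc2 : ∀ {a b d : ι ⊕ ι}, Ind a b → Ind b d → Ind a d → ∀ s u : F,
      x b d u * x a b s * (x b d u)⁻¹ = x a d (-(s * u)) * x a b s := by
    intro a b d h1 h2 h3 s u
    rw [hneg h3, ← hcomm3 h1 h2 h3, commutatorElement_def]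
    group
  -- commuting in a common transversal
  have hcommt : ∀ {a b c d : ι ⊕ ι} (t : ι → Bool), sg t (idx a) = a → sg t (idx b) = b → sg t (idx c) = c → sg t (idx d) = d →
      Ind a b → Ind c d → b ≠ c → a ≠ d → ∀ s u : F, Commute (x a b s) (x c d u) := by
    intro a b c d t e1 e2 e3 e4 hab hcd hbc had s u
    rw [hxe e1 e2 hab, hxe e3 e4 hcd]
    have hjk : idx b ≠ idx c := fun e => hbc (by rw [← e2, ← e3, e])
    have hil : idx a ≠ idx d := fun e => had (by rw [← e1, ← e4, e])
    exact (E_comm (ind_iff.mp hab) (ind_iff.mp hcd) hjk hil s u).map (f t)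
  -- symmetry
  have hsym : ∀ {a b : ι ⊕ ι}, Ind a b → ∀ c, x a b c = x b.swap a.swap (-c) := by
    intro a b h c
    obtain ⟨m, hma, hmb⟩ := exists_other2 hg.three (idx a) (idx b)
    set k : ι ⊕ ι := Sum.inl m with hk
    have hak : Ind a k := ind_iff.mpr (by simpa [hk, idx] using hma.symm)
    have hkb : Ind k b := ind_iff.mpr (by simpa [hk, idx] using hmb)
    have e1 : x a b c = ⁅x a k c, x k b 1⁆ := by rw [hcomm3 hak hkb h, mul_one]
    have e2 : ⁅x a k c, x k b 1⁆ = ⁅x k.swap a.swap (-c), x b.swap k.swap (-1)⁆ := by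
      apply comm_eq_of_lifts σ hc
      · rw [hσx _ _ hak, hσx _ _ hak.swap, T.sym hak]
      · rw [hσx _ _ hkb, hσx _ _ hkb.swap, T.sym hkb]
    have e3 : ⁅x b.swap k.swap (-1), x k.swap a.swap (-c)⁆ = x b.swap a.swap c := by
      rw [hcomm3 hkb.swap hak.swap h.swap]
      congr 1
      ring
    rw [e1, e2, hneg h.swap, ← e3, commutatorElement_inv]
  -- the type A commutation
  have hT1 : ∀ {a b : ι ⊕ ι}, Ind a b → ∀ s w : F, Commute (x a b s) (x a b.swap w) := by
    intro a b hab s w
    by_cases hs0 : s = 0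
    · subst hs0
      rw [hzero hab]
      exact Commute.one_left _
    obtain ⟨m, hma, hmb⟩ := exists_other2 hg.three (idx a) (idx b)
    set c : ι ⊕ ι := Sum.inl m with hc'
    have hac : Ind a c := ind_iff.mpr (by simpa [hc', idx] using hma.symm)
    have hbc : Ind b c := ind_iff.mpr (by simpa [hc', idx] using hmb.symm)
    set u : F := -(w / s) with hu
    have hsu : -(s * u) = w := by
      rw [hu]
      field_simp
    have way1 : (x a b s * x b c 1 * (x a b s)⁻¹ * (x b c 1)⁻¹) * x b c.swap u *
        (x a b s * x b c 1 * (x a b s)⁻¹ * (x b c 1)⁻¹)⁻¹ = x a b.swap w * x b c.swap u := by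
      have e1 : x a b s * x b c 1 * (x a b s)⁻¹ * (x b c 1)⁻¹ = x a c s := by
        have := hcomm3 hab hbc hac s 1
        rw [commutatorElement_def, mul_one] at this
        exact this
      have e2 : x b c.swap u = x c b.swap (-u) := by
        have := hsym hbc.swapR u
        rwa [Sum.swap_swap] at this
      rw [e1, e2, hc1 hac hbc.symm.swapR hab.swapR]
      congr 2
      rw [← hsu]
      ring
    have hδc : (x b c 1)⁻¹ * x b c.swap u * x b c 1 * (x b c.swap u)⁻¹ ∈ center Γ := by
      apply hc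
      rw [MonoidHom.mem_ker, map_mul, map_mul, map_mul, map_inv, map_inv, hσx _ _ hbc, hσx _ _ hbc.swapR]
      have := (T.comT hbc 1 u).eq
      calc (X b c 1)⁻¹ * X b c.swap u * X b c 1 * (X b c.swap u)⁻¹ = (X b c 1)⁻¹ * (X b c.swap u * X b c 1) * (X b c.swap u)⁻¹ := by group
        _ = (X b c 1)⁻¹ * (X b c 1 * X b c.swap u) * (X b c.swap u)⁻¹ := by rw [this]
        _ = 1 := by group
    have hδ : (x b c 1)⁻¹ * x b c.swap u * x b c 1 = ((x b c 1)⁻¹ * x b c.swap u * x b c 1 * (x b c.swap u)⁻¹) * x b c.swap u := by group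
    have h2 : (x a b s)⁻¹ * x b c.swap u * x a b s = x a c.swap (-s * u) * x b c.swap u := by
      have := hc1 hab hbc.swapR hac.swapR (-s) u
      rwa [hneg hab, inv_inv] at this
    have h4 : x b c 1 * x a c.swap (-s * u) * (x b c 1)⁻¹ = x a b.swap w * x a c.swap (-s * u) := by
      have := hc2 hac.swapR hbc.symm.swapL.swapR hab.swapR (-s * u) (-1)
      rw [← hsym hbc 1] at this
      rw [this]
      congr 2
      rw [← hsu]
      ring
    have h10 : Commute (x a b s) (x a c.swap (-s * u)) := by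
      obtain ⟨t, e1, e2, e3⟩ := pat3 hab hac.swapR hbc.swapR
      exact hcommt t e1 e2 e1 e3 hab hac.swapR hab.1.symm hac.swapR.1 _ _
    have hfin := type_A_core way1 hδ hδc h2 h4 h10
    exact mul_inv_eq_iff_eq_mul.mp hfin
  have hT2 : ∀ {a b : ι ⊕ ι}, Ind a b → ∀ s w : F, Commute (x a b s) (x b.swap a w) := by
    intro a b hab s w
    rw [hsym hab s]
    exact (hT1 hab.swapR.symm w (-s)).symm
  have hcomm : ∀ {a b c d : ι ⊕ ι}, Ind a b → Ind c d → ¬ NC a b c d → ∀ s u : F, Commute (x a b s) (x c d u) := by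
    intro a b c d hab hcd hn s u
    by_cases h1 : c = a.swap
    · subst h1
      have hdb : d = b := by
        by_contra hne
        exact hn (Or.inr (Or.inl ⟨rfl, hne⟩))
      subst hdb
      have e := hsym hcd u
      rw [Sum.swap_swap] at e
      rw [e]
      exact hT2 hab s _
    · by_cases h2 : d = b.swap
      · subst h2
        have hca : c = a := by
          by_contra hne
          exact hn (Or.inr (Or.inr (Or.inr ⟨rfl, hne⟩)))
        subst hca
        exact hT1 hab s u
      · by_cases h3 : d = a.swap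
        · subst h3
          have e := hsym hcd u
          rw [Sum.swap_swap] at e
          rw [e]
          have hac' : Ind a c.swap := by
            have := hcd.swap
            rwa [Sum.swap_swap] at this
          by_cases h5 : c = b
          · subst h5
            exact hT1 hab s _
          · by_cases h6 : c = b.swap
            · subst h6
              rw [Sum.swap_swap]
              obtain ⟨t, e1, e2⟩ := pat hab
              exact hcommt t e1 e2 e1 e2 hab hab hab.1.symm hab.1 _ _
            · have hbc' : Ind b c.swap := ⟨fun e => h6 (by rw [e, Sum.swap_swap]), fun e => h5 (by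
                have := e.symm
                rw [Sum.swap_swap] at this
                exact this)⟩
              obtain ⟨t, e1, e2, e3⟩ := pat3 hab hac' hbc'
              exact hcommt t e1 e2 e1 e3 hab hac' hab.1.symm hac'.1 _ _
        · by_cases h4 : c = b.swap
          · subst h4
            have e := hsym hcd u
            rw [Sum.swap_swap] at e
            rw [e]
            by_cases h7 : d = a
            · subst h7
              have e' := hsym hcd u
              rw [Sum.swap_swap] at e'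
              rw [← e']
              exact hT2 hab s u
            · have hbd : d ≠ b := fun e => hcd.2 (by rw [e])
              have had' : Ind a d.swap := ⟨fun e => h3 (by rw [e, Sum.swap_swap]), fun e => h7 (by
                have := e.symm
                rw [Sum.swap_swap] at this
                exact this)⟩
              have hbd' : Ind b d.swap := ⟨fun e => h2 (by rw [e, Sum.swap_swap]), fun e => hbd (by
                have := e.symm
                rw [Sum.swap_swap] at this
                exact this)⟩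
              obtain ⟨t, e1, e2, e3⟩ := pat3 hab had' hbd'
              exact hcommt t e1 e2 e3 e2 hab hbd'.symm hbd'.1 hab.1 _ _
          · have hbc : b ≠ c := fun e => hn (Or.inl ⟨e.symm, h3⟩)
            have had : a ≠ d := fun e => hn (Or.inr (Or.inr (Or.inl ⟨e.symm, h4⟩)))
            have hind : ∀ {p r : ι ⊕ ι}, p ≠ r → r ≠ p.swap → Ind p r := fun {p r} h h' =>
              ⟨h, fun e => h' (by rw [e, Sum.swap_swap])⟩
            obtain ⟨t, ht⟩ := exists_t {a, b, c, d} (by
              intro v hv w hw hvw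
              simp only [Finset.mem_insert, Finset.mem_singleton] at hv hw
              rcases hv with rfl | rfl | rfl | rfl <;> rcases hw with rfl | rfl | rfl | rfl
              all_goals first
                | exact absurd rfl hvw
                | assumption
                | exact Ind.symm (by assumption)
                | exact hind hvw (by assumption)
                | exact (hind hvw.symm (by assumption)).symm)
            exact hcommt t (ht a (by simp)) (ht b (by simp)) (ht c (by simp)) (ht d (by simp)) hab hcd hbc had s u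
  have hS : SysD x := ⟨hadd, hsym, hcomm, hcomm3⟩
  -- the sections
  set Φ : ι ⊕ ι → ι ⊕ ι → SL2 F →* Γ := fun a b =>
    if h : Ind a b then (f (Tt a b)).comp (emb (ind_iff.mp h)) else 1 with hΦdef
  have hPhi : ∀ {a b : ι ⊕ ι}, Ind a b → Phi x a b (Φ a b) := by
    intro a b h
    have h0 := hTt a b h
    simp only [hΦdef, dif_pos h]
    refine ⟨fun c => ?_, fun c => ?_⟩
    · show f _ (emb _ (uu c)) = _
      rw [emb_uu, hxe h0.1 h0.2 h]
    · show f _ (emb _ (ll c)) = _
      rw [emb_ll, hxe h0.2 h0.1 h.symm]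
  have hfΦ : ∀ (t : ι → Bool) (i j : ι) (h : i ≠ j) (m : SL2 F), f t (emb h m) = Φ (sg t i) (sg t j) m := by
    intro t i j h m
    have h1 : Phi x (sg t i) (sg t j) ((f t).comp (emb h)) := by
      refine ⟨fun c => ?_, fun c => ?_⟩
      · show f t (emb h (uu c)) = _
        rw [emb_uu, hfx t h]
      · show f t (emb h (ll c)) = _
        rw [emb_ll, hfx t h.symm]
    have h2 := phi_unique h1 (hPhi (sg_ind t h))
    exact congrArg (fun φ : SL2 F →* Γ => φ m) h2
  have hΦS : SecD x Φ := by
    refine ⟨fun h => hPhi h, ?_⟩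
    intro a b c hab hac hcb t₀ ht₀
    obtain ⟨t, e1, e2, e3⟩ := pat3 hab hac hcb.symm
    have h1 := hfΦ t _ _ (ind_iff.mp hab) (borEl t₀ ht₀ 0)
    have h2 := hfΦ t _ _ (ind_iff.mp hac) (borEl t₀ ht₀ 0)
    have h3 := hfΦ t _ _ (ind_iff.mp hcb) (borEl t₀ ht₀ 0)
    rw [e1, e2] at h1
    rw [e1, e3] at h2
    rw [e3, e2] at h3
    rw [← h1, ← h2, ← h3, emb_diag (ind_iff.mp hab) (ind_iff.mp hac) (ind_iff.mp hcb), map_mul]
  exact ⟨x, Φ, f, hS, hΦS, hσx, hf, fun t i j h c => hfx t h c, hfΦ⟩

end Main

end Cfsg.Agent.Lib.BLift0
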