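import Mathlib
import Cfsg.Agent.Lib.BLift0
import Cfsg.Agent.Lib.BKer

/-!
# Lifting the short root elements

Given a central extension of a group containing the long root elements `XV` and the short root elements `YO`,
with the long root relations already lifted, we construct lifts `y` of the short root elements satisfying the relations `SysB`.
-/

set_option autoImplicit false
set_option linter.unusedSectionVars false
set_option linter.unusedVariables false

namespace Cfsg.Agent.Lib.BLift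

open Subgroup QuadraticMap Cfsg.Agent.Lib.SL2Core Cfsg.Agent.Lib.SL2Bor Cfsg.Agent.Lib.StK Cfsg.Agent.Lib.StA Cfsg.Agent.Lib.SpinSys
  Cfsg.Agent.Lib.BSys Cfsg.Agent.Lib.BTarget Cfsg.Agent.Lib.BKer Cfsg.Agent.Lib.OrthoBasic Cfsg.Agent.Lib.OrthoCount
  Cfsg.Agent.Lib.OrthoGen Cfsg.Agent.Lib.OrthoSiegel Cfsg.Agent.Lib.SpinTarget
open Cfsg.Agent.Lib.SpinLift (ind_iff idx TargetD)
open Cfsg.Agent.Lib.SpinKer (SecD)
open scoped commutatorElement

variable {F : Type*} [Field F] [Fintype F] {W : Type*} [AddCommGroup W] [Module F W] {l : ℕ} {Γ : Type*} [Group Γ]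
  {q : QuadraticForm F W}

/-! ### Indices -/

lemma third (hl : 3 ≤ l) (a b : Fin l ⊕ Fin l) : ∃ d, Ind a d ∧ Ind d b := by
  obtain ⟨m, h1, h2⟩ := exists_other2 (by simpa using hl) (idx a) (idx b)
  refine ⟨Sum.inl m, ind_iff.mpr ?_, ind_iff.mpr ?_⟩
  · simpa [idx] using h1.symm
  · simpa [idx] using h2

lemma fourth (hl : 4 ≤ l) (a b c : Fin l ⊕ Fin l) : ∃ d, Ind a d ∧ Ind b d ∧ Ind c d := by
  obtain ⟨m, h1, h2, h3⟩ := exists_other3 (by simpa using hl) (idx a) (idx b) (idx c)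
  refine ⟨Sum.inl m, ind_iff.mpr ?_, ind_iff.mpr ?_, ind_iff.mpr ?_⟩
  · simpa [idx] using h1.symm
  · simpa [idx] using h2.symm
  · simpa [idx] using h3.symm

/-! ### Group theory -/

lemma conj_comm {G : Type*} [Group G] (g a b : G) : g * ⁅a, b⁆ * g⁻¹ = ⁅g * a * g⁻¹, g * b * g⁻¹⁆ := by
  simp only [commutatorElement_def]
  group

/-- If `u` commutes with two elements modulo the kernel, then it commutes with their commutator. -/
lemma comm_of_lifts {G : Type*} [Group G] (σ : Γ →* G) (hc : σ.ker ≤ center Γ) {u a b : Γ} (h1 : Commute (σ u) (σ a))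
    (h2 : Commute (σ u) (σ b)) : Commute u ⁅a, b⁆ := by
  have e : u * ⁅a, b⁆ * u⁻¹ = ⁅a, b⁆ := by
    rw [conj_comm]
    apply comm_eq_of_lifts σ hc
    · rw [map_mul, map_mul, map_inv, h1.eq]
      group
    · rw [map_mul, map_mul, map_inv, h2.eq]
      group
  exact mul_inv_eq_iff_eq_mul.mp e

lemma comm_of_central_mul {G : Type*} [Group G] {g A S : G} (h : A * S⁻¹ ∈ center G) (h2 : Commute g S) : Commute g A := by
  have e : A = (A * S⁻¹) * S := by group
  rw [e]
  have h3 : Commute g (A * S⁻¹) := (mem_center_iff.mp h g)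
  exact h3.mul_right h2

lemma comm_mul_left' {G : Type*} [Group G] {g h B : G} (hg : Commute g ⁅h, B⁆) : ⁅g * h, B⁆ = ⁅h, B⁆ * ⁅g, B⁆ := by
  have e : ⁅h, B⁆ = g * ⁅h, B⁆ * g⁻¹ := by
    rw [hg.eq]
    group
  calc ⁅g * h, B⁆ = (g * ⁅h, B⁆ * g⁻¹) * ⁅g, B⁆ := by
        simp only [commutatorElement_def]
        group
    _ = _ := by rw [← e]

/-- Killing a central defect by a torus element. -/
lemma defect {X : Type*} [AddCommGroup X] [Module F X] {A S : X → Γ} (h1 : ∀ u, A u * (S u)⁻¹ ∈ center Γ)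
    (h2 : ∀ u v, A (u + v) = A u * A v) (h3 : ∀ u v, S (u + v) = S u * S v)
    {τ : Γ} {lam : F} (hlam : lam ≠ 1) (hτA : ∀ u, τ * A u * τ⁻¹ = A (lam • u)) (hτS : ∀ u, τ * S u * τ⁻¹ = S (lam • u)) (u : X) :
    A u = S u := by
  set κ : X → Γ := fun u => A u * (S u)⁻¹ with hκ
  have hadd : ∀ u v, κ (u + v) = κ v * κ u := by
    intro u v
    have e := mem_center_iff.mp (h1 v) (A u)
    simp only [hκ]
    rw [h2, h3]
    calc A u * A v * (S u * S v)⁻¹ = A u * (A v * (S v)⁻¹) * (S u)⁻¹ := by group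
      _ = (A v * (S v)⁻¹) * A u * (S u)⁻¹ := by rw [e]
      _ = _ := by group
  have hlamκ : ∀ u, κ (lam • u) = κ u := by
    intro u
    have e := mem_center_iff.mp (h1 u) τ
    simp only [hκ]
    rw [← hτA, ← hτS]
    calc τ * A u * τ⁻¹ * (τ * S u * τ⁻¹)⁻¹ = τ * (A u * (S u)⁻¹) * τ⁻¹ := by group
      _ = (A u * (S u)⁻¹) * τ * τ⁻¹ := by rw [e]
      _ = _ := by group
  have hne : lam - 1 ≠ 0 := sub_ne_zero.mpr hlam
  set v : X := (lam - 1)⁻¹ • u with hv
  have e1 : lam • v = u + v := by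
    have e2 : (lam - 1) • v = u := by
      rw [hv, smul_smul, mul_inv_cancel₀ hne, one_smul]
    calc lam • v = (lam - 1) • v + v := by
          rw [sub_smul, one_smul]
          abel
      _ = u + v := by rw [e2]
  have e3 := hlamκ v
  rw [e1, hadd] at e3
  have e4 : κ u = 1 := mul_eq_right.mp ((mem_center_iff.mp (h1 v) (κ u)).trans e3)
  exact mul_inv_eq_one.mp e4

/-! ### Diagonal elements -/

/-- A diagonal element. -/
structure IsDiag (D : OG (QV (l := l) q)) (d : Fin l ⊕ Fin l → F) : Prop where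
  fst : ∀ (v : VB l F W) k, ((D : VB l F W ≃ₗ[F] VB l F W) v).1 k = d k * v.1 k
  snd : ∀ v : VB l F W, ((D : VB l F W ≃ₗ[F] VB l F W) v).2 = v.2
  ne : ∀ k, d k ≠ 0
  swap : ∀ k, d k.swap = (d k)⁻¹

section Diag

variable {D D' : OG (QV (l := l) q)} {d d' : Fin l ⊕ Fin l → F}

lemma IsDiag.conj_XV (hD : IsDiag D d) {a b : Fin l ⊕ Fin l} (h : Ind a b) (c : F) :
    D * XV q a b c * D⁻¹ = XV q a b (d a * c * (d b)⁻¹) := by
  rw [mul_inv_eq_iff_eq_mul]
  apply OG_ext
  rintro ⟨v, w⟩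
  simp only [Subgroup.coe_mul, LinearEquiv.mul_apply]
  have h1 := hD.ne a
  have h2 := hD.ne b
  have h3 : d b.swap = (d b)⁻¹ := hD.swap b
  have h4 : d a.swap = (d a)⁻¹ := hD.swap a
  apply Prod.ext
  · funext k
    rw [hD.fst, XV_fst q h, XV_fst q h, hD.fst, hD.fst, hD.fst]
    dsimp only
    by_cases e1 : k = a
    · subst e1
      simp only [if_true, if_neg h.2]
      field_simp
      ring
    · by_cases e2 : k = b.swap
      · subst e2
        simp only [if_true, if_neg e1, h3, h4]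
        field_simp
        ring
      · simp only [if_neg e1, if_neg e2]
        ring
  · rw [hD.snd, XV_snd, XV_snd, hD.snd]

lemma IsDiag.conj_YO (hD : IsDiag D d) (a : Fin l ⊕ Fin l) (u : W) :
    D * YO q a u * D⁻¹ = YO q a (d a • u) := by
  rw [mul_inv_eq_iff_eq_mul]
  apply OG_ext
  rintro ⟨v, w⟩
  simp only [Subgroup.coe_mul, LinearEquiv.mul_apply]
  have h1 := hD.ne a
  have h4 : d a.swap = (d a)⁻¹ := hD.swap a
  apply Prod.ext
  · funext k
    rw [hD.fst, YO_fst, YO_fst, hD.fst, hD.fst, hD.snd]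
    dsimp only
    by_cases e1 : k = a
    · subst e1
      simp only [if_true, h4, polar_smul_right, QuadraticMap.map_smul, smul_eq_mul]
      field_simp
    · simp only [if_neg e1]
      ring
  · rw [hD.snd, YO_snd, YO_snd, hD.snd, hD.fst, h4]
    dsimp only
    rw [smul_smul]
    have e : (d a)⁻¹ * v a.swap * d a = v a.swap := by field_simp
    rw [e]

lemma IsDiag.comm (hD : IsDiag D d) (hD' : IsDiag D' d') : Commute D D' := by
  apply OG_ext
  rintro ⟨v, w⟩
  simp only [Subgroup.coe_mul, LinearEquiv.mul_apply]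
  apply Prod.ext
  · funext k
    rw [hD.fst, hD'.fst, hD'.fst, hD.fst]
    ring
  · rw [hD.snd, hD'.snd, hD'.snd, hD.snd]

end Diag

section Lift

variable {σ : Γ →* OG (QV (l := l) q)} (hc : σ.ker ≤ center Γ)
  {x : Fin l ⊕ Fin l → Fin l ⊕ Fin l → F → Γ} (hS : SysD x)
  {Φ : Fin l ⊕ Fin l → Fin l ⊕ Fin l → SL2 F →* Γ} (hΦ : SecD x Φ)
  {Yt : Fin l ⊕ Fin l → W → Γ} (hρ : ActB σ x Yt)

/-- The entries of a diagonal element. -/
def Dg (a b : Fin l ⊕ Fin l) (t : F) (k : Fin l ⊕ Fin l) : F :=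
  if k = a then t else if k = b then t⁻¹ else if k = b.swap then t else if k = a.swap then t⁻¹ else 1

lemma Dg_left {a b : Fin l ⊕ Fin l} (t : F) : Dg a b t a = t := by simp [Dg]

lemma Dg_right {a b : Fin l ⊕ Fin l} (h : Ind a b) (t : F) : Dg a b t b = t⁻¹ := by
  simp [Dg, h.1.symm]

lemma Dg_right' {a b : Fin l ⊕ Fin l} (h : Ind a b) (t : F) : Dg a b t b.swap = t := by
  have h6 : b.swap ≠ b := (swap_ne b).symm
  simp [Dg, h.2.symm, h6]

lemma Dg_other {a b k : Fin l ⊕ Fin l} (h1 : k ≠ a) (h2 : k ≠ b) (h3 : k ≠ b.swap) (h4 : k ≠ a.swap) (t : F) : Dg a b t k = 1 := by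
  simp [Dg, h1, h2, h3, h4]

include hρ in
lemma diag_phi' {a b : Fin l ⊕ Fin l} (hab : Ind a b) {φ : SL2 F →* Γ} (hφ : Phi x a b φ) (t : F) (ht : t ≠ 0) :
    IsDiag (σ (φ (borEl t ht 0))) (Dg a b t) := by
  have key := act_phiV hρ hab hφ (borEl t ht 0)
  simp only [borEl00, borEl01, borEl10, borEl11, zero_mul, add_zero, zero_add, neg_zero, sub_zero] at key
  have h1 : a ≠ b := hab.1
  have h2 : a ≠ b.swap := hab.2
  have h3 : a.swap ≠ b := fun e => h2 (by rw [← e, Sum.swap_swap])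
  have h4 : a.swap ≠ b.swap := fun e => h1 (Sum.swap_leftInverse.injective e)
  have h5 : a.swap ≠ a := (swap_ne a).symm
  have h6 : b.swap ≠ b := (swap_ne b).symm
  refine ⟨?_, ?_, ?_, ?_⟩
  · intro v k
    have hk := key v
    by_cases e1 : k = a
    · subst e1
      rw [Dg_left]
      exact hk.1
    · by_cases e2 : k = b
      · subst e2
        rw [Dg_right hab]
        exact hk.2.1
      · by_cases e3 : k = b.swap
        · subst e3
          rw [Dg_right' hab]
          exact hk.2.2.1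
        · by_cases e4 : k = a.swap
          · subst e4
            have : Dg a b t a.swap = t⁻¹ := by simp [Dg, h5, h3, h4]
            rw [this]
            exact hk.2.2.2.1
          · rw [Dg_other e1 e2 e3 e4, one_mul]
            exact hk.2.2.2.2.2 k e1 e2 e3 e4
  · intro v
    exact (key v).2.2.2.2.1
  · intro k
    unfold Dg
    split_ifs <;> first | exact ht | exact inv_ne_zero ht | exact one_ne_zero
  · intro k
    by_cases e1 : k = a
    · subst e1
      simp [Dg, h5, h3, h4]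
    · by_cases e2 : k = b
      · subst e2
        simp [Dg, h1.symm, h2.symm, h6]
      · by_cases e3 : k = b.swap
        · subst e3
          simp [Dg, h1.symm, h2.symm, h6]
        · by_cases e4 : k = a.swap
          · subst e4
            simp [Dg, h5, h3, h4]
          · have h7 : k.swap ≠ a := fun e => e4 (by rw [← e, Sum.swap_swap])
            have h8 : k.swap ≠ b := fun e => e3 (by rw [← e, Sum.swap_swap])
            have h9 : k.swap ≠ b.swap := fun e => e2 (Sum.swap_leftInverse.injective e)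
            have h10 : k.swap ≠ a.swap := fun e => e1 (Sum.swap_leftInverse.injective e)
            simp [Dg, e1, e2, e3, e4, h7, h8, h9, h10]

include hρ hΦ in
lemma diag_phi {a b : Fin l ⊕ Fin l} (hab : Ind a b) (t : F) (ht : t ≠ 0) :
    IsDiag (σ (Φ a b (borEl t ht 0))) (Dg a b t) :=
  diag_phi' hρ hab (hΦ.phi hab) t ht

include hρ in
lemma sig_conj_x {τ : Γ} {d : Fin l ⊕ Fin l → F} (hτ : IsDiag (σ τ) d) {k j : Fin l ⊕ Fin l} (h : Ind k j) (c : F) :
    σ (τ * x k j c * τ⁻¹) = σ (x k j (d k * c * (d j)⁻¹)) := by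
  rw [map_mul, map_mul, map_inv, hρ.hx h, hρ.hx h, hτ.conj_XV h]

include hρ in
lemma sig_conj_y {τ : Γ} {d : Fin l ⊕ Fin l → F} (hτ : IsDiag (σ τ) d) (a : Fin l ⊕ Fin l) (u : W) :
    σ (τ * Yt a u * τ⁻¹) = σ (Yt a (d a • u)) := by
  rw [map_mul, map_mul, map_inv, hρ.hy, hρ.hy, hτ.conj_YO]

include hc hS hρ in
/-- Conjugating the long root elements with a diagonal element. -/
lemma conj_x (hl : 3 ≤ l) {τ : Γ} {d : Fin l ⊕ Fin l → F} (hτ : IsDiag (σ τ) d) {k j : Fin l ⊕ Fin l} (h : Ind k j) (c : F) :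
    τ * x k j c * τ⁻¹ = x k j (d k * c * (d j)⁻¹) := by
  obtain ⟨m, hm1, hm2⟩ := third hl k j
  have e : x k j c = ⁅x k m c, x m j 1⁆ := by rw [hS.comm3 hm1 hm2 h, mul_one]
  have e' : x k j (d k * c * (d j)⁻¹) = ⁅x k m (d k * c * (d m)⁻¹), x m j (d m * 1 * (d j)⁻¹)⁆ := by
    rw [hS.comm3 hm1 hm2 h]
    congr 1
    have := hτ.ne m
    field_simp
  rw [e, e', conj_comm]
  exact comm_eq_of_lifts σ hc (sig_conj_x hρ hτ hm1 c) (sig_conj_x hρ hτ hm2 1)

include hc hS hρ in
/-- First commuting lemma: lifts of `YO a w` commute with the root elements `x a j t`. -/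
lemma A1 (hl : 3 ≤ l) {a j : Fin l ⊕ Fin l} (h : Ind a j) (t : F) {w : W} {u : Γ} (hu : σ u = YO q a w) :
    Commute (x a j t) u := by
  obtain ⟨m, hm1, hm2⟩ := third hl a j
  have e : x a j t = ⁅x a m t, x m j 1⁆ := by rw [hS.comm3 hm1 hm2 h, mul_one]
  rw [e]
  refine (comm_of_lifts σ hc ?_ ?_).symm
  · rw [hu, hρ.hx hm1]
    exact (XV_YO_comm q hm1 hm1.1 (swap_ne a) t w).symm
  · rw [hu, hρ.hx hm2]
    exact (XV_YO_comm q hm2 h.1 hm1.2 1 w).symm

include hc hS hρ in
/-- Second commuting lemma: any two lifts of `YO a w`, `YO a w'` commute. -/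
lemma A2 (hl : 3 ≤ l) (a : Fin l ⊕ Fin l) {w w' : W} {u u' : Γ} (hu : σ u = YO q a w) (hu' : σ u' = YO q a w') :
    Commute u u' := by
  obtain ⟨b, hb, -⟩ := third hl a a
  set P : Γ := ⁅x a b 1, Yt b w⁆ * x a b.swap (-(q w)) with hP
  have hσP : σ P = YO q a w := by
    have e : x a b.swap (1 * q w) * x a b.swap (-(q w)) = 1 := by
      rw [← hS.add hb.swapR, one_mul, add_neg_cancel, zero hS hb.swapR]
    rw [hP, map_mul, map_commutatorElement, hρ.hx hb, hρ.hy, XV_YO q hb, ← hρ.hx hb.swapR, mul_assoc, ← map_mul, e, map_one, mul_one,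
      one_smul]
  have hz : u * P⁻¹ ∈ center Γ := hc (by
    rw [MonoidHom.mem_ker, map_mul, map_inv, hu, hσP, mul_inv_cancel])
  have hPu' : Commute u' P := by
    refine Commute.mul_right ?_ (A1 hc hS hρ hl hb.swapR _ hu').symm
    -- the commutator
    have e0 : Commute u' (x a b 1) := (A1 hc hS hρ hl hb 1 hu').symm
    have e1 : u' * ⁅x a b 1, Yt b w⁆ * u'⁻¹ = ⁅x a b 1, x a b.swap (-(polar q w' w)) * Yt b w⁆ := by
      rw [conj_comm, e0.eq, mul_inv_cancel_right]
      apply comm_eq_of_lifts σ hc rfl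
      rw [map_mul, map_mul, map_mul, map_inv, hu', hρ.hy, hρ.hx hb.swapR, ← YO_comm q hb w' w, commutatorElement_def]
      group
    have hAS : Commute (x a b 1) (x a b.swap (-(polar q w' w))) := by
      apply hS.comm hb hb.swapR
      have h6 : b.swap ≠ b := (swap_ne b).symm
      simp only [NC, not_or, not_and]
      refine ⟨fun e => absurd e hb.1, fun e => absurd e (swap_ne a), fun e => absurd e.symm hb.2, fun _ => ?_⟩
      simp
    have e2 : ⁅x a b 1, x a b.swap (-(polar q w' w)) * Yt b w⁆ =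
        x a b.swap (-(polar q w' w)) * ⁅x a b 1, Yt b w⁆ * (x a b.swap (-(polar q w' w)))⁻¹ := by
      simp only [commutatorElement_def, mul_inv_rev]
      have := hAS.eq
      calc x a b 1 * (x a b.swap (-(polar q w' w)) * Yt b w) * (x a b 1)⁻¹ * ((Yt b w)⁻¹ * (x a b.swap (-(polar q w' w)))⁻¹)
          = (x a b 1 * x a b.swap (-(polar q w' w))) * Yt b w * (x a b 1)⁻¹ * ((Yt b w)⁻¹ * (x a b.swap (-(polar q w' w)))⁻¹) := by group
        _ = (x a b.swap (-(polar q w' w)) * x a b 1) * Yt b w * (x a b 1)⁻¹ * ((Yt b w)⁻¹ * (x a b.swap (-(polar q w' w)))⁻¹) := by rw [this]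
        _ = _ := by group
    have e3 : Commute (x a b.swap (-(polar q w' w))) ⁅x a b 1, Yt b w⁆ := by
      apply comm_of_lifts σ hc
      · exact hAS.symm.map σ
      · rw [hρ.hx hb.swapR, hρ.hy]
        exact XV_YO_comm q hb.swapR (swap_ne b) (fun e => hb.2 (by rw [e, Sum.swap_swap])) _ _
    rw [e2, e3.eq, mul_inv_cancel_right] at e1
    exact mul_inv_eq_iff_eq_mul.mp e1
  have e : u = (u * P⁻¹) * P := by group
  rw [e]
  have h5 : Commute (u * P⁻¹) u' := (mem_center_iff.mp hz u').symm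
  exact h5.mul_left hPu'.symm

/-- The short root elements. -/
noncomputable def yL (Φ : Fin l ⊕ Fin l → Fin l ⊕ Fin l → SL2 F →* Γ) (Yt : Fin l ⊕ Fin l → W → Γ)
    (c : Fin l ⊕ Fin l → Fin l ⊕ Fin l) (lam : F) (hlam : lam ≠ 0) (a : Fin l ⊕ Fin l) (w : W) : Γ :=
  ⁅Φ a (c a) (borEl lam hlam 0), Yt a ((lam - 1)⁻¹ • w)⁆

section Short

variable {c : Fin l ⊕ Fin l → Fin l ⊕ Fin l} (hcI : ∀ a, Ind a (c a)) {lam : F} (hlam : lam ≠ 0) (hlam1 : lam ≠ 1)

include hρ hΦ hcI hlam1 in
lemma yL_lift (a : Fin l ⊕ Fin l) (w : W) : σ (yL Φ Yt c lam hlam a w) = YO q a w := by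
  have hD := diag_phi hΦ hρ (hcI a) lam hlam
  unfold yL
  rw [map_commutatorElement, commutatorElement_def, hρ.hy, hD.conj_YO, Dg_left, ← YO_neg, ← YO_add]
  congr 1
  have hne : lam - 1 ≠ 0 := sub_ne_zero.mpr hlam1
  rw [← sub_eq_add_neg, smul_smul]
  rw [← sub_smul]
  have : lam * (lam - 1)⁻¹ - (lam - 1)⁻¹ = 1 := by
    field_simp
  rw [this, one_smul]

include hc hS hρ hΦ hcI hlam1 in
lemma yL_add (hl : 3 ≤ l) (a : Fin l ⊕ Fin l) (u v : W) :
    yL Φ Yt c lam hlam a (u + v) = yL Φ Yt c lam hlam a u * yL Φ Yt c lam hlam a v := by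
  unfold yL
  set h := Φ a (c a) (borEl lam hlam 0) with hh
  set u' := (lam - 1)⁻¹ • u with hu'
  set v' := (lam - 1)⁻¹ • v with hv'
  have e1 : (lam - 1)⁻¹ • (u + v) = u' + v' := smul_add _ _ _
  have e2 : ⁅h, Yt a (u' + v')⁆ = ⁅h, Yt a u' * Yt a v'⁆ := by
    apply comm_eq_of_lifts σ hc rfl
    rw [map_mul, hρ.hy, hρ.hy, hρ.hy, YO_add]
  have e3 : ⁅h, Yt a u' * Yt a v'⁆ = ⁅h, Yt a u'⁆ * (Yt a u' * ⁅h, Yt a v'⁆ * (Yt a u')⁻¹) := by
    simp only [commutatorElement_def]
    group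
  have h5 : σ ⁅h, Yt a v'⁆ = YO q a v := by
    have := yL_lift hΦ hρ hcI hlam hlam1 a v
    unfold yL at this
    exact this
  have e4 : Commute (Yt a u') ⁅h, Yt a v'⁆ := A2 hc hS hρ hl a (hρ.hy a u') h5
  rw [e1, e2, e3, e4.eq, mul_inv_cancel_right]

include hc hS hρ hΦ hcI hlam1 in
/-- Conjugating the short root elements by a diagonal element. -/
lemma yL_conj (hl : 3 ≤ l) {τ : Γ} {d : Fin l ⊕ Fin l → F} (hτ : IsDiag (σ τ) d) (a : Fin l ⊕ Fin l) (w : W) :
    τ * yL Φ Yt c lam hlam a w * τ⁻¹ = yL Φ Yt c lam hlam a (d a • w) := by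
  unfold yL
  rw [conj_comm, smul_comm]
  apply comm_eq_of_lifts σ hc
  · have hD := diag_phi hΦ hρ (hcI a) lam hlam
    rw [map_mul, map_mul, map_inv, (hτ.comm hD).eq]
    group
  · exact sig_conj_y hρ hτ a _

/-- The system. -/
theorem short_sys (hl : 3 ≤ l) (hh : 4 ≤ l ∨ ∃ d : F, d ≠ 0 ∧ d ^ 2 ≠ 1) (hc : σ.ker ≤ center Γ) (hS : SysD x) (hΦ : SecD x Φ)
    (hρ : ActB σ x Yt) (hcI : ∀ a, Ind a (c a)) (hlam : lam ≠ 0) (hlam1 : lam ≠ 1) :
    SysB x (yL Φ Yt c lam hlam) q ∧ ActB σ x (yL Φ Yt c lam hlam) := by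
  set y := yL Φ Yt c lam hlam with hy
  have hyσ : ∀ a w, σ (y a w) = YO q a w := yL_lift hΦ hρ hcI hlam hlam1
  have hA : ActB σ x y := ⟨hρ.hx, hyσ⟩
  have hyadd : ∀ (a : Fin l ⊕ Fin l) (u v : W), y a (u + v) = y a u * y a v := yL_add hc hS hΦ hρ hcI hlam hlam1 hl
  have hyconj : ∀ {τ : Γ} {d : Fin l ⊕ Fin l → F} (hτ : IsDiag (σ τ) d) (a : Fin l ⊕ Fin l) (w : W),
      τ * y a w * τ⁻¹ = y a (d a • w) := fun hτ a w => yL_conj hc hS hΦ hρ hcI hlam hlam1 hl hτ a w
  have hA1 : ∀ {a j : Fin l ⊕ Fin l}, Ind a j → ∀ (t : F) (w : W), Commute (x a j t) (y a w) :=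
    fun h t w => A1 hc hS hρ hl h t (hyσ _ w)
  have hA2 : ∀ (a : Fin l ⊕ Fin l) (w w' : W), Commute (y a w) (y a w') :=
    fun a w w' => A2 hc hS hρ hl a (hyσ _ w) (hyσ _ w')
  have hconj := fun {τ : Γ} {d : Fin l ⊕ Fin l → F} (hτ : IsDiag (σ τ) d) {k j : Fin l ⊕ Fin l} (h : Ind k j) (c : F) =>
    conj_x hc hS hρ hl hτ h c
  refine ⟨⟨hS, hyadd, ?_, ?_, ?_⟩, hA⟩
  · -- xy
    intro k m a hkm ham hak t w
    by_cases e1 : a = k
    · subst e1
      exact hA1 hkm t w
    · by_cases e2 : a = m.swap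
      · subst e2
        rw [hS.sym hkm t]
        exact hA1 hkm.swap _ _
      · rcases hh with hl4 | ⟨μ, hμ, hμ2⟩
        · obtain ⟨d, hd1, hd2, hd3⟩ := fourth hl4 k m a
          have e : x k m t = ⁅x k d t, x d m 1⁆ := by rw [hS.comm3 hd1 hd2.symm hkm, mul_one]
          rw [e]
          refine (comm_of_lifts σ hc ?_ ?_).symm
          · rw [hyσ, hρ.hx hd1]
            exact (XV_YO_comm q hd1 hd3.1 hak t w).symm
          · rw [hyσ, hρ.hx hd2.symm]
            exact (XV_YO_comm q hd2.symm ham (fun e => hd3.2 e) 1 w).symm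
        · have hτ := diag_phi hΦ hρ hkm μ hμ
          have hcent : ∀ t : F, ⁅x k m t, y a w⁆ ∈ center Γ := by
            intro t
            apply hc
            rw [MonoidHom.mem_ker, map_commutatorElement, hρ.hx hkm, hyσ, commutatorElement_eq_one_iff_commute]
            exact XV_YO_comm q hkm ham hak t w
          have hadd : ∀ t t' : F, ⁅x k m (t + t'), y a w⁆ = ⁅x k m t, y a w⁆ * ⁅x k m t', y a w⁆ := by
            intro t t'
            rw [add_comm, hS.add hkm, comm_mul_left' (mem_center_iff.mp (hcent t) _)]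
          have hdef := defect (A := fun t : F => ⁅x k m t, y a w⁆) (S := fun _ => 1) (lam := μ ^ 2)
            (τ := Φ k m (borEl μ hμ 0))
            (fun u => by simpa using hcent u) hadd (fun _ _ => by simp) hμ2
            (fun t => by
              have h1 := hconj hτ hkm t
              have h2 := hyconj hτ a w
              have e3 : Dg k m μ a = 1 := Dg_other e1 ham e2 hak μ
              rw [e3, one_smul] at h2
              rw [Dg_left, Dg_right hkm, inv_inv] at h1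
              rw [conj_comm, h1, h2, smul_eq_mul]
              congr 2
              ring)
            (fun t => by simp) t
          exact commutatorElement_eq_one_iff_commute.mp hdef
  · -- yy
    intro a b hab u v
    obtain ⟨d, hd1, hd2⟩ := third hl a b
    have hd3 : Ind b d := hd2.symm
    have hτ := diag_phi hΦ hρ hd1 lam hlam
    have ha : Dg a d lam a = lam := Dg_left lam
    have hb : Dg a d lam b = 1 := Dg_other hab.1.symm hd3.1 hd3.2 (fun e => hab.2 (by rw [e, Sum.swap_swap])) lam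
    have hb' : Dg a d lam b.swap = 1 := by
      rw [hτ.swap b, hb, inv_one]
    have hcent : ∀ u : W, ⁅y a u, y b v⁆ * (x a b.swap (-(polar q u v)))⁻¹ ∈ center Γ := by
      intro u
      apply hc
      rw [MonoidHom.mem_ker, map_mul, map_inv, map_commutatorElement, hyσ, hyσ, YO_comm q hab, hρ.hx hab.swapR, mul_inv_cancel]
    have hcomm1 : ∀ (t : F) (u : W), Commute (y a u) (x a b.swap t) := fun t u => (hA1 hab.swapR t u).symm
    have hadd : ∀ u u' : W, ⁅y a (u + u'), y b v⁆ = ⁅y a u, y b v⁆ * ⁅y a u', y b v⁆ := by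
      intro u u'
      rw [add_comm, hyadd, comm_mul_left' (comm_of_central_mul (hcent u) (hcomm1 _ u'))]
    have hS2 : ∀ u u' : W, x a b.swap (-(polar q (u + u') v)) = x a b.swap (-(polar q u v)) * x a b.swap (-(polar q u' v)) := by
      intro u u'
      rw [← hS.add hab.swapR, polar_add_left]
      congr 1
      ring
    have hdef := defect (A := fun u : W => ⁅y a u, y b v⁆) (S := fun u : W => x a b.swap (-(polar q u v))) (lam := lam)
      (τ := Φ a d (borEl lam hlam 0)) hcent hadd hS2 hlam1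
      (fun u => by
        rw [conj_comm, hyconj hτ, hyconj hτ, ha, hb, one_smul])
      (fun u => by
        rw [hconj hτ hab.swapR, ha, hb', inv_one, mul_one, polar_smul_left, smul_eq_mul]
        congr 1
        ring) u
    exact hdef
  · -- xy3
    intro a b hab s w
    obtain ⟨d, hd1, hd2⟩ := third hl a b
    have hd3 : Ind b d := hd2.symm
    have hτ := diag_phi hΦ hρ hd1 lam hlam
    have ha : Dg a d lam a = lam := Dg_left lam
    have hb : Dg a d lam b = 1 := Dg_other hab.1.symm hd3.1 hd3.2 (fun e => hab.2 (by rw [e, Sum.swap_swap])) lam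
    have hb' : Dg a d lam b.swap = 1 := by
      rw [hτ.swap b, hb, inv_one]
    have hcent : ∀ s : F, ⁅x a b s, y b w⁆ * (y a (s • w) * x a b.swap (s * q w))⁻¹ ∈ center Γ := by
      intro s
      apply hc
      rw [MonoidHom.mem_ker, map_mul, map_inv, map_mul, map_commutatorElement, hyσ, hyσ, hρ.hx hab, XV_YO q hab, hρ.hx hab.swapR,
        mul_inv_cancel]
    have hcx : ∀ t t' : F, Commute (x a b t) (x a b.swap t') := by
      intro t t'
      apply hS.comm hab hab.swapR
      have h6 : b.swap ≠ b := (swap_ne b).symm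
      simp only [NC, not_or, not_and]
      refine ⟨fun e => absurd e hab.1, fun e => absurd e (swap_ne a), fun e => absurd e.symm hab.2, fun _ => ?_⟩
      simp
    have hadd : ∀ s s' : F, ⁅x a b (s + s'), y b w⁆ = ⁅x a b s, y b w⁆ * ⁅x a b s', y b w⁆ := by
      intro s s'
      rw [add_comm, hS.add hab, comm_mul_left' (comm_of_central_mul (hcent s) ((hA1 hab _ _).mul_right (hcx _ _)))]
    have hS2 : ∀ s s' : F, y a ((s + s') • w) * x a b.swap ((s + s') * q w) =
        y a (s • w) * x a b.swap (s * q w) * (y a (s' • w) * x a b.swap (s' * q w)) := by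
      intro s s'
      rw [add_smul, hyadd, add_mul, hS.add hab.swapR]
      have : Commute (x a b.swap (s * q w)) (y a (s' • w)) := hA1 hab.swapR _ _
      calc y a (s • w) * y a (s' • w) * (x a b.swap (s * q w) * x a b.swap (s' * q w))
          = y a (s • w) * (y a (s' • w) * x a b.swap (s * q w)) * x a b.swap (s' * q w) := by group
        _ = y a (s • w) * (x a b.swap (s * q w) * y a (s' • w)) * x a b.swap (s' * q w) := by rw [this.eq]
        _ = _ := by group
    have hdef := defect (A := fun s : F => ⁅x a b s, y b w⁆) (S := fun s : F => y a (s • w) * x a b.swap (s * q w)) (lam := lam)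
      (τ := Φ a d (borEl lam hlam 0)) hcent hadd hS2 hlam1
      (fun s => by
        rw [conj_comm, hyconj hτ, hconj hτ hab, ha, hb, one_smul, inv_one, mul_one, smul_eq_mul])
      (fun s => by
        have e : Φ a d (borEl lam hlam 0) * (y a (s • w) * x a b.swap (s * q w)) * (Φ a d (borEl lam hlam 0))⁻¹ =
            (Φ a d (borEl lam hlam 0) * y a (s • w) * (Φ a d (borEl lam hlam 0))⁻¹) *
            (Φ a d (borEl lam hlam 0) * x a b.swap (s * q w) * (Φ a d (borEl lam hlam 0))⁻¹) := by group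
        rw [e, hyconj hτ, hconj hτ hab.swapR, ha, hb', inv_one, mul_one, smul_smul, smul_eq_mul]
        congr 2
        ring) s
    exact hdef

end Short

end Lift

/-! ### The main lifting theorem -/

section Main

variable (q)

/-- The long root elements in the big group. -/
theorem targetV : TargetD (XV (l := l) q) (fun t => (embO q).comp (rhoT (l := l) (F := F) t)) := by
  have T := target (l := l) (F := F)
  refine ⟨fun t i j h c => ?_, fun h c => congrArg (embO q) (T.sym h c), fun h s u => (T.comT h s u).map (embO q)⟩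
  show embO q (rhoT t (E i j c)) = _
  rw [rhoT_E t h]
  rfl

lemma embO_mem {g : OG (qPlus l F)} (hg : g ∈ siegelE (qPlus l F)) : embO q g ∈ siegelE (QV (l := l) q) := by
  rw [← GX_eq] at hg
  have h : GX l F ≤ (siegelE (QV (l := l) q)).comap (embO q) := by
    unfold GX
    rw [closure_le]
    rintro _ ⟨a, b, c, h, rfl⟩
    exact XV_mem q h c
  exact h hg

variable {q}

/-- The existence of the system. -/
theorem exists_sys [Finite Γ] (hl : 3 ≤ l) (hg : Good (Fin l) F) (hh : 4 ≤ l ∨ ∃ d : F, d ≠ 0 ∧ d ^ 2 ≠ 1)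
    (hlam : ∃ lam : F, lam ≠ 0 ∧ lam ≠ 1)
    (σ : Γ →* OG (QV (l := l) q)) (hc : σ.ker ≤ center Γ) (hr : siegelE (QV (l := l) q) ≤ σ.range) :
    ∃ (x : Fin l ⊕ Fin l → Fin l ⊕ Fin l → F → Γ) (y : Fin l ⊕ Fin l → W → Γ) (Φ : Fin l ⊕ Fin l → Fin l ⊕ Fin l → SL2 F →* Γ),
      SysB x y q ∧ SecD x Φ ∧ ActB σ x y := by
  classical
  have hh' : 4 ≤ Fintype.card (Fin l) ∨ ∃ d : F, d ≠ 0 ∧ d ^ 2 ≠ 1 := by simpa using hh
  have hL := BLift0.lifts' hg hh' (targetV q) σ hc (fun t g => hr (embO_mem q (rhoT_mem (by omega) t g)))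
  obtain ⟨x, Φ, f, hS, hΦ, hσx, -, -, -⟩ := hL
  have hY : ∀ (a : Fin l ⊕ Fin l) (w : W), ∃ u : Γ, σ u = YO q a w := fun a w => hr (YO_mem q a w)
  choose Yt hYt using hY
  obtain ⟨lam, h0, h1⟩ := hlam
  have hcI : ∀ a : Fin l ⊕ Fin l, ∃ c, Ind a c := fun a => by
    obtain ⟨d, hd, -⟩ := third hl a a
    exact ⟨d, hd⟩
  choose c hcI' using hcI
  have hsys := short_sys hl hh hc hS hΦ (⟨hσx _ _, hYt⟩ : ActB σ x Yt) hcI' h0 h1
  exact ⟨x, _, Φ, hsys.1, hΦ, hsys.2⟩

end Main

end Cfsg.Agent.Lib.BLift
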