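import Mathlib
import Cfsg.Agent.Lib.BLift

/-!
# The root elements generate the Siegel group of `QV q`, for `q` anisotropic
-/

set_option autoImplicit false
set_option linter.unusedSectionVars false
set_option linter.unusedVariables false

namespace Cfsg.Agent.Lib.BGenS

open Subgroup QuadraticMap Cfsg.Agent.Lib.OrthoBasic Cfsg.Agent.Lib.OrthoCount Cfsg.Agent.Lib.OrthoGen Cfsg.Agent.Lib.OrthoSiegel
  Cfsg.Agent.Lib.SpinSys Cfsg.Agent.Lib.SpinTarget Cfsg.Agent.Lib.BTarget Cfsg.Agent.Lib.BLift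

variable {F : Type*} [Field F] [Fintype F] {W : Type*} [AddCommGroup W] [Module F W] {l : ℕ}

variable (q : QuadraticForm F W)

/-- The subgroup generated by the root elements. -/
noncomputable def GV : Subgroup (OG (QV (l := l) q)) :=
  closure ({g | ∃ a b c, Ind a b ∧ g = XV q a b c} ∪ {g | ∃ a u, g = YO q a u})

lemma XV_mem_GV {a b : Fin l ⊕ Fin l} (h : Ind a b) (c : F) : XV q a b c ∈ GV q := subset_closure (Or.inl ⟨a, b, c, h, rfl⟩)

lemma YO_mem_GV (a : Fin l ⊕ Fin l) (u : W) : YO q a u ∈ GV q := subset_closure (Or.inr ⟨a, u, rfl⟩)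

lemma embO_GX {g : OG (qPlus l F)} (hg : g ∈ GX l F) : embO q g ∈ GV q := by
  have h : GX l F ≤ (GV q).comap (embO q) := by
    unfold GX
    rw [closure_le]
    rintro _ ⟨a, b, c, h, rfl⟩
    exact XV_mem_GV q h c
  exact h hg

/-- The orbit of a singular vector. -/
lemma reachV (haniso : ∀ w : W, q w = 0 → w = 0) {e : VB l F W} (he : QV q e = 0) (hne : e ≠ 0) :
    ∃ (k : Fin l ⊕ Fin l) (c : F), c ≠ 0 ∧ ∃ h ∈ GV q, ((h : OG (QV (l := l) q)) : VB l F W ≃ₗ[F] VB l F W) (c • ee k) = e := by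
  obtain ⟨e₁, w⟩ := e
  rw [QV_apply] at he
  simp only at he
  have h1 : e₁ ≠ 0 := by
    intro h
    subst h
    have : q w = 0 := by simpa using he
    exact hne (by rw [haniso w this]; rfl)
  obtain ⟨k, hk⟩ : ∃ k, e₁ k ≠ 0 := by
    by_contra hcon
    push Not at hcon
    exact h1 (funext hcon)
  set c := e₁ k with hc
  set u := c⁻¹ • w with hu
  have hcu : c • u = w := by
    rw [hu, smul_smul, mul_inv_cancel₀ hk, one_smul]
  set e' := e₁ + (q u * c) • (es k.swap : Fin l ⊕ Fin l → F) with he'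
  have hk' : e' k = c := by
    have : (es k.swap : Fin l ⊕ Fin l → F) k = 0 := Pi.single_eq_of_ne (swap_ne k) _
    simp [he', this, hc]
  have hQ' : qPlus l F e' = 0 := by
    rw [he', Q_add, Q_smul, Q_es, mul_zero, polar_smul_r, polar_es, Sum.swap_swap, ← hc]
    have : q w = c * c * q u := by
      rw [← hcu, QuadraticMap.map_smul, smul_eq_mul]
    linear_combination he - this
  obtain ⟨h₀, hh₀, e0⟩ := reach hQ' (k := k) (by rw [hk']; exact hk)
  rw [hk'] at e0
  refine ⟨k, c, hk, YO q k.swap u * embO q h₀, mul_mem (YO_mem_GV q _ u) (embO_GX q hh₀), ?_⟩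
  rw [Subgroup.coe_mul, LinearEquiv.mul_apply]
  have e1 : ((embO q h₀ : OG (QV (l := l) q)) : VB l F W ≃ₗ[F] VB l F W) (c • ee k) = (e', 0) := by
    rw [embO_apply]
    apply Prod.ext
    · exact e0
    · simp [ee]
  rw [e1]
  apply Prod.ext
  · funext j
    rw [YO_fst]
    simp only [Sum.swap_swap, polar_zero_left, hk', zero_add]
    by_cases hj : j = k.swap
    · subst hj
      have : (es k.swap : Fin l ⊕ Fin l → F) k.swap = 1 := Pi.single_eq_same _ _
      simp [he', this]
    · have : (es k.swap : Fin l ⊕ Fin l → F) j = 0 := Pi.single_eq_of_ne hj _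
      simp [he', this, hj]
  · rw [YO_snd, Sum.swap_swap]
    simp only
    rw [hk', hcu, zero_add]


lemma embO_siegel {g : OG (qPlus l F)} {e y : Fin l ⊕ Fin l → F}
    (hg : ∀ x, ((g : OG (qPlus l F)) : (Fin l ⊕ Fin l → F) ≃ₗ[F] (Fin l ⊕ Fin l → F)) x = siegelLin (qPlus l F) e y x) (v : VB l F W) :
    ((embO q g : OG (QV (l := l) q)) : VB l F W ≃ₗ[F] VB l F W) v = siegelLin (QV q) (e, 0) (y, 0) v := by
  rw [embO_apply, siegelLin_apply, hg, siegelLin_apply, polar_QV, polar_QV, QV_apply]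
  apply Prod.ext
  · simp
  · simp

/-- The generation theorem. -/
theorem siegel_le_GV (haniso : ∀ w : W, q w = 0 → w = 0) : siegelE (QV (l := l) q) ≤ GV q := by
  unfold siegelE
  rw [closure_le]
  rintro g ⟨e, y, hg⟩
  by_cases he : e = 0
  · subst he
    have : g = 1 := by
      apply OG_ext
      intro x
      rw [hg.2.2, siegelLin_apply]
      simp
    rw [this]
    exact one_mem _
  · obtain ⟨k, c, hc, h₀, hh₀, e0⟩ := reachV q haniso hg.1 he
    have hconj := hg.conj h₀⁻¹
    have e1 : ((h₀⁻¹ : OG (QV (l := l) q)) : VB l F W ≃ₗ[F] VB l F W) e = c • ee k := by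
      calc ((h₀⁻¹ : OG (QV (l := l) q)) : VB l F W ≃ₗ[F] VB l F W) e
          = ((h₀⁻¹ : OG (QV (l := l) q)) : VB l F W ≃ₗ[F] VB l F W) (((h₀ : OG (QV (l := l) q)) : VB l F W ≃ₗ[F] VB l F W) (c • ee k)) := by rw [e0]
        _ = c • ee k := by
          rw [← LinearEquiv.mul_apply, ← Subgroup.coe_mul, inv_mul_cancel]
          rfl
    rw [e1] at hconj
    set y₁ := ((h₀⁻¹ : OG (QV (l := l) q)) : VB l F W ≃ₗ[F] VB l F W) y with hy₁
    set y₂ := c • y₁ with hy₂
    have hp : polar (QV q) (ee k : VB l F W) y₂ = 0 := by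
      have := hconj.2.1
      rw [polar_smul_l] at this
      rw [hy₂, polar_smul_r]
      exact this
    have hk' : y₂.1 k.swap = 0 := by
      rw [polar_comm, polar_ee] at hp
      exact hp
    set y₃ := y₂.1 - y₂.1 k • (es k : Fin l ⊕ Fin l → F) with hy₃
    set w₃ := y₂.2 with hw₃
    have h3 : y₂ = ((y₃, 0) + ww w₃) + y₂.1 k • ee k := by
      apply Prod.ext
      · simp [hy₃, ww, ee]
      · simp [ww, ee, hw₃]
    have hsupp : ∀ j, j ∉ (Finset.univ.erase k).erase k.swap → y₃ j = 0 := by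
      intro j hj
      by_cases h4 : j = k
      · subst h4
        simp [hy₃, es]
      · by_cases h5 : j = k.swap
        · subst h5
          have : (es k : Fin l ⊕ Fin l → F) k.swap = 0 := Pi.single_eq_of_ne (swap_ne k).symm _
          simp [hy₃, hk', this]
        · exact absurd (by simp [h4, h5]) hj
    obtain ⟨g₃, hg₃, e3⟩ := support_step k _ (by simp [swap_ne k]) (by simp) y₃ hsupp
    have hp3 : polar (QV q) (ee k : VB l F W) (y₃, 0) = 0 := by
      rw [polar_comm, polar_ee]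
      exact hsupp _ (by simp)
    have hp4 : polar (QV q) (ee k : VB l F W) (ww w₃) = 0 := polar_ee_ww q k _
    have h4 : h₀⁻¹ * g * h₀⁻¹⁻¹ = embO q g₃ * YO q k w₃ := by
      apply OG_ext
      intro x
      rw [hconj.2.2, siegelLin_smul_left, ← hy₂, h3, siegelLin_add_smul (Q_ee q k) (by rw [polar_add_right, hp3, hp4, add_zero]), Subgroup.coe_mul,
        LinearEquiv.mul_apply, YO_apply, embO_siegel q e3, ]
      have e5 : ((es k : Fin l ⊕ Fin l → F), (0 : W)) = ee k := rfl
      rw [e5, siegelLin_comp (Q_ee q k) hp3 hp4]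
    have h5 : g = h₀ * (embO q g₃ * YO q k w₃) * h₀⁻¹ := by
      rw [← h4]
      group
    rw [SetLike.mem_coe, h5]
    exact mul_mem (mul_mem hh₀ (mul_mem (embO_GX q hg₃) (YO_mem_GV q _ _))) (inv_mem hh₀)

/-- The generation theorem. -/
theorem GV_eq (haniso : ∀ w : W, q w = 0 → w = 0) : GV (l := l) q = siegelE (QV (l := l) q) := by
  refine le_antisymm ?_ (siegel_le_GV q haniso)
  unfold GV
  rw [closure_le]
  rintro _ (⟨a, b, c, h, rfl⟩ | ⟨a, u, rfl⟩)
  · exact XV_mem q h c
  · exact YO_mem q a u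

end Cfsg.Agent.Lib.BGenS
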