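import Mathlib
import Cfsg.Agent.Lib.BLift

/-!
# The rank one subgroups

From vectors `w₁`, `w₂` with `q w₁ = 1`, `polar q w₂ w₁ = 1`, we get a homomorphism `ψ` from `SL₂` to the subgroup generated
by the short root elements at `b` and `b̄`.
-/

set_option autoImplicit false
set_option linter.unusedSectionVars false
set_option linter.unusedVariables false

namespace Cfsg.Agent.Lib.BRank1

open Subgroup QuadraticMap Cfsg.Agent.Lib.SL2Core Cfsg.Agent.Lib.SL2Bor Cfsg.Agent.Lib.StK Cfsg.Agent.Lib.SpinSys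
  Cfsg.Agent.Lib.BSys Cfsg.Agent.Lib.BCell Cfsg.Agent.Lib.BTarget Cfsg.Agent.Lib.BKer Cfsg.Agent.Lib.OrthoBasic Cfsg.Agent.Lib.OrthoCount
  Cfsg.Agent.Lib.OrthoGen Cfsg.Agent.Lib.OrthoSiegel Cfsg.Agent.Lib.SpinTarget
open Cfsg.Agent.Lib.SpinKer (SecD comm_sections)
open scoped commutatorElement

section Auts

variable {F : Type*} [Field F]

local notation "E" g:max i:max j:max => ((g : SL2 F) : Matrix (Fin 2) (Fin 2) F) i j

/-- Swapping the coordinates in `SL₂`. -/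
def swapS : SL2 F →* SL2 F where
  toFun m := mk2 (E m 1 1) (E m 1 0) (E m 0 1) (E m 0 0) (by
    have := det_entries m
    linear_combination this)
  map_one' := by
    apply sl2_ext <;> simp
  map_mul' m n := by
    apply sl2_ext <;> simp [mul_apply2] <;> ring

/-- Changing the sign of the off-diagonal coordinates in `SL₂`. -/
def flipS : SL2 F →* SL2 F where
  toFun m := mk2 (E m 0 0) (-(E m 0 1)) (-(E m 1 0)) (E m 1 1) (by
    have := det_entries m
    linear_combination this)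
  map_one' := by
    apply sl2_ext <;> simp
  map_mul' m n := by
    apply sl2_ext <;> simp [mul_apply2] <;> ring

lemma swapS_uu (t : F) : swapS (uu t) = ll t := by
  apply sl2_ext <;> simp [swapS]

lemma swapS_ll (t : F) : swapS (ll t) = uu t := by
  apply sl2_ext <;> simp [swapS]

lemma flipS_uu (t : F) : flipS (uu t) = uu (-t) := by
  apply sl2_ext <;> simp [flipS]

lemma flipS_ll (t : F) : flipS (ll t) = ll (-t) := by
  apply sl2_ext <;> simp [flipS]

lemma swapS_bor (t : F) (ht : t ≠ 0) : swapS (borEl t ht 0) = (borEl t ht 0)⁻¹ := by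
  apply sl2_ext <;> simp [swapS, inv00, inv01, inv10, inv11]

lemma flipS_bor (t : F) (ht : t ≠ 0) : flipS (borEl t ht 0) = borEl t ht 0 := by
  apply sl2_ext <;> simp [flipS]

end Auts

section Generic

variable {ι F W Γ : Type*} [DecidableEq ι] [Field F] [AddCommGroup W] [Module F W] [Group Γ]
  {x : ι ⊕ ι → ι ⊕ ι → F → Γ} {y : ι ⊕ ι → W → Γ} {q : QuadraticForm F W} (hs : SysB x y q)

local notation "E" g:max i:max j:max => ((g : SL2 F) : Matrix (Fin 2) (Fin 2) F) i j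

/-- The conjugating element. -/
def gh (y : ι ⊕ ι → W → Γ) (w₁ w₂ : W) (a : ι ⊕ ι) : Γ := y a.swap w₂ * y a w₁

section Key

variable {w₁ w₂ : W} (h1 : q w₁ = 1) (h2 : polar q w₂ w₁ = 1)

include hs h1 h2

/-- The key identity. -/
lemma gh_x {b a : ι ⊕ ι} (h : Ind b a) (t : F) :
    gh y w₁ w₂ a * (x b a t * x b a.swap t) * (gh y w₁ w₂ a)⁻¹ = y b ((-t) • w₁) := by
  have hba' : Ind a.swap b := h.symm.swapL
  have n1 : a.swap ≠ a := (swap_ne a).symm
  have n2 : a.swap ≠ b.swap := fun e => h.1 (Sum.swap_leftInverse.injective e).symm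
  have n3 : b ≠ a := h.1
  have n4 : b ≠ b.swap := swap_ne b
  set Y := y b (t • w₁) with hY
  set X := x b a t with hX
  set X' := x b a.swap t with hX'
  have hYneg : y b ((-t) • w₁) = Y⁻¹ := by
    rw [neg_smul, yneg hs]
  have c1 : Commute X' (y a w₁) := xc_b hs h t w₁
  have c2 : Commute X' Y := xc_a hs h t _
  have c3 : Commute X X' := row hs.hD h h.swapR _ _
  have e1 : y a w₁ * X * (y a w₁)⁻¹ = (Y * X')⁻¹ * X := by
    have := yxc hs h t w₁
    rwa [h1, mul_one] at this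
  have T1 : y a w₁ * (X * X') * (y a w₁)⁻¹ = Y⁻¹ * X := by
    have c : Commute X' (Y⁻¹ * X) := c2.inv_right.mul_right c3.symm
    calc y a w₁ * (X * X') * (y a w₁)⁻¹ = (y a w₁ * X * (y a w₁)⁻¹) * (y a w₁ * X' * (y a w₁)⁻¹) := by group
      _ = (Y * X')⁻¹ * X * X' := by rw [e1, ← c1.eq, mul_inv_cancel_right]
      _ = X'⁻¹ * ((Y⁻¹ * X) * X') := by group
      _ = X'⁻¹ * (X' * (Y⁻¹ * X)) := by rw [c.eq]
      _ = Y⁻¹ * X := by group
  have e2 := yyc hs hba' w₂ ((-t) • w₁)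
  rw [polar_smul_right, h2, smul_eq_mul, mul_one, neg_neg] at e2
  have e3 : x a.swap b.swap t = x b a (-t) := by
    have := hs.hD.sym h (-t)
    rw [neg_neg] at this
    exact this.symm
  rw [e3, hYneg] at e2
  have c4 : Commute X (y a.swap w₂) := hs.xy h n1 n2 t w₂
  have c5 : Commute (x b a (-t)) Y⁻¹ := (hs.xy h n3 n4 (-t) _).inv_right
  have e4 : x b a (-t) * X = 1 := by
    rw [hX, ← hs.hD.add h, neg_add_cancel, zero hs.hD h]
  unfold gh
  rw [hYneg]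
  calc y a.swap w₂ * y a w₁ * (X * X') * (y a.swap w₂ * y a w₁)⁻¹
      = y a.swap w₂ * (y a w₁ * (X * X') * (y a w₁)⁻¹) * (y a.swap w₂)⁻¹ := by group
    _ = (y a.swap w₂ * Y⁻¹ * (y a.swap w₂)⁻¹) * (y a.swap w₂ * X * (y a.swap w₂)⁻¹) := by
        rw [T1]
        group
    _ = x b a (-t) * Y⁻¹ * X := by
        rw [e2, ← c4.eq, mul_inv_cancel_right]
    _ = Y⁻¹ * (x b a (-t) * X) := by
        rw [c5.eq]
        group
    _ = Y⁻¹ := by rw [e4, mul_one]

end Key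

section Theta

variable {φ₁ φ₂ : SL2 F →* Γ}

/-- The product of two commuting sections. -/
def thetaH (φ₁ φ₂ : SL2 F →* Γ) (hc : ∀ m m', Commute (φ₁ m) (φ₂ m')) : SL2 F →* Γ where
  toFun m := φ₁ m * φ₂ m
  map_one' := by simp
  map_mul' m n := by
    rw [map_mul, map_mul]
    have := (hc n m).eq
    calc φ₁ m * φ₁ n * (φ₂ m * φ₂ n) = φ₁ m * (φ₁ n * φ₂ m) * φ₂ n := by group
      _ = φ₁ m * (φ₂ m * φ₁ n) * φ₂ n := by rw [this]
      _ = _ := by group

lemma thetaH_apply (hc : ∀ m m', Commute (φ₁ m) (φ₂ m')) (m : SL2 F) : thetaH φ₁ φ₂ hc m = φ₁ m * φ₂ m := rfl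

/-- The conjugate. -/
def psiH (φ₁ φ₂ : SL2 F →* Γ) (hc : ∀ m m', Commute (φ₁ m) (φ₂ m')) (g : Γ) : SL2 F →* Γ :=
  (MulAut.conj g).toMonoidHom.comp (thetaH φ₁ φ₂ hc)

lemma psiH_apply (hc : ∀ m m', Commute (φ₁ m) (φ₂ m')) (g : Γ) (m : SL2 F) : psiH φ₁ φ₂ hc g m = g * (φ₁ m * φ₂ m) * g⁻¹ := rfl

variable {w₁ w₂ : W} (h1 : q w₁ = 1) (h2 : polar q w₂ w₁ = 1) {b a : ι ⊕ ι} (h : Ind b a)
  (hφ₁ : Phi x b a φ₁) (hφ₂ : Phi x b a.swap φ₂) (hc : ∀ m m', Commute (φ₁ m) (φ₂ m'))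

include hs h1 h2 h hφ₁ hφ₂

lemma psi_uu (t : F) : psiH φ₁ φ₂ hc (gh y w₁ w₂ a) (uu t) = y b ((-t) • w₁) := by
  rw [psiH_apply, hφ₁.u, hφ₂.u, gh_x hs h1 h2 h]

lemma psi_ll (t : F) : psiH φ₁ φ₂ hc (gh y w₁ w₂ a) (ll t) = y b.swap (t • w₁) := by
  rw [psiH_apply, hφ₁.l, hφ₂.l]
  have e1 : x a b t = x b.swap a.swap (-t) := hs.hD.sym h.symm t
  have e2 : x a.swap b t = x b.swap a (-t) := by
    have := hs.hD.sym h.symm.swapL t
    rwa [Sum.swap_swap] at this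
  have h' : Ind b.swap a := h.swapL
  have c := row hs.hD h' h'.swapR (-t) (-t)
  have e3 := gh_x hs h1 h2 h' (-t)
  rw [neg_neg] at e3
  rw [e1, e2, ← c.eq, e3]

lemma psi_mem (m : SL2 F) : psiH φ₁ φ₂ hc (gh y w₁ w₂ a) m ∈ QB x y ({b, b.swap} : Finset (ι ⊕ ι)) := by
  refine sl2_ind (fun m => psiH φ₁ φ₂ hc (gh y w₁ w₂ a) m ∈ QB x y ({b, b.swap} : Finset (ι ⊕ ι))) ?_ ?_ ?_ m
  · intro t
    rw [psi_uu hs h1 h2 h hφ₁ hφ₂]
    exact y_mem_QB (by simp) _
  · intro t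
    rw [psi_ll hs h1 h2 h hφ₁ hφ₂]
    exact y_mem_QB (by simp) _
  · intro A B hA hB
    rw [map_mul]
    exact mul_mem hA hB

omit hφ₁ hφ₂ h in
/-- The action of a section on the short root elements at the second index. -/
lemma phi_y_right {p r : ι ⊕ ι} (hpr : Ind p r) {φ : SL2 F →* Γ} (hφ : Phi x p r φ) (t : F) (ht : t ≠ 0) (w : W) :
    φ (borEl t ht 0) * y r w * (φ (borEl t ht 0))⁻¹ = y r (t⁻¹ • w) := by
  have e := ZZ_phi hs hpr hφ (borEl t ht 0) 0 1 w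
  rw [ZZ_zero_left hs hpr, one_smul] at e
  simp only [borEl00, borEl01, borEl10, borEl11, mul_zero, mul_one, add_zero, zero_add] at e
  rw [e, ZZ_zero_left hs hpr]

omit hφ₁ hφ₂ h in
/-- The action of a section on the short root elements at the opposite of the second index. -/
lemma phi_y_right' {p r : ι ⊕ ι} (hpr : Ind p r) {φ : SL2 F →* Γ} (hφ : Phi x p r φ) (t : F) (ht : t ≠ 0) (w : W) :
    φ (borEl t ht 0) * y r.swap w * (φ (borEl t ht 0))⁻¹ = y r.swap (t • w) := by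
  have e := ZZ_phi_dual hs hpr hφ (borEl t ht 0) 1 0 w
  rw [ZZ_zero_right hs hpr.swap, one_smul] at e
  simp only [borEl00, borEl01, borEl10, borEl11, mul_zero, mul_one, sub_zero, neg_zero, zero_mul, add_zero] at e
  rw [e, ZZ_zero_right hs hpr.swap]

/-- The torus elements of `θ` commute with the conjugating element. -/
lemma theta_comm_gh (t : F) (ht : t ≠ 0) : Commute (φ₁ (borEl t ht 0) * φ₂ (borEl t ht 0)) (gh y w₁ w₂ a) := by
  have e1 : ∀ w : W, Commute (φ₁ (borEl t ht 0) * φ₂ (borEl t ht 0)) (y a w) := by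
    intro w
    have e2 := phi_y_right' hs h1 h2 h.swapR hφ₂ t ht w
    rw [Sum.swap_swap] at e2
    have e3 := phi_y_right hs h1 h2 h hφ₁ t ht (t • w)
    have e4 : (φ₁ (borEl t ht 0) * φ₂ (borEl t ht 0)) * y a w * (φ₁ (borEl t ht 0) * φ₂ (borEl t ht 0))⁻¹ = y a w := by
      calc _ = φ₁ (borEl t ht 0) * (φ₂ (borEl t ht 0) * y a w * (φ₂ (borEl t ht 0))⁻¹) * (φ₁ (borEl t ht 0))⁻¹ := by group
        _ = y a w := by
          rw [e2, e3, smul_smul, inv_mul_cancel₀ ht, one_smul]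
    exact mul_inv_eq_iff_eq_mul.mp e4
  have e1' : ∀ w : W, Commute (φ₁ (borEl t ht 0) * φ₂ (borEl t ht 0)) (y a.swap w) := by
    intro w
    have e2 := phi_y_right hs h1 h2 h.swapR hφ₂ t ht w
    have e3 := phi_y_right' hs h1 h2 h hφ₁ t ht (t⁻¹ • w)
    have e4 : (φ₁ (borEl t ht 0) * φ₂ (borEl t ht 0)) * y a.swap w * (φ₁ (borEl t ht 0) * φ₂ (borEl t ht 0))⁻¹ = y a.swap w := by
      calc _ = φ₁ (borEl t ht 0) * (φ₂ (borEl t ht 0) * y a.swap w * (φ₂ (borEl t ht 0))⁻¹) * (φ₁ (borEl t ht 0))⁻¹ := by group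
        _ = y a.swap w := by
          rw [e2, e3, smul_smul, mul_inv_cancel₀ ht, one_smul]
    exact mul_inv_eq_iff_eq_mul.mp e4
  exact (e1' _).mul_right (e1 _)

include hc in
/-- The torus elements of `θ` lie in the rank one group. -/
lemma theta_mem (t : F) (ht : t ≠ 0) : φ₁ (borEl t ht 0) * φ₂ (borEl t ht 0) ∈ QB x y ({b, b.swap} : Finset (ι ⊕ ι)) := by
  have e := psi_mem hs h1 h2 h hφ₁ hφ₂ hc (borEl t ht 0)
  rw [psiH_apply, (theta_comm_gh hs h1 h2 h hφ₁ hφ₂ t ht).symm.eq, mul_inv_cancel_right] at e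
  exact e

end Theta

section Tau

variable {Φ : ι ⊕ ι → ι ⊕ ι → SL2 F →* Γ} (hΦ : SecP x Φ) {w₁ w₂ : W} (h1 : q w₁ = 1) (h2 : polar q w₂ w₁ = 1)

omit [DecidableEq ι] in
lemma phi_uniq {a b : ι ⊕ ι} {φ φ' : SL2 F →* Γ} (h : Phi x a b φ) (h' : Phi x a b φ') : φ = φ' := by
  ext m
  refine sl2_ind (fun m => φ m = φ' m) ?_ ?_ ?_ m
  · intro t
    show φ (uu t) = φ' (uu t)
    rw [h.u, h'.u]
  · intro t
    show φ (ll t) = φ' (ll t)
    rw [h.l, h'.l]
  · intro A B hA hB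
    simp only [map_mul]
    rw [hA, hB]

include hΦ in
lemma phi_swap {a b : ι ⊕ ι} (h : Ind a b) (m : SL2 F) : Φ b a m = Φ a b (swapS m) := by
  have h₁ : Phi x b a ((Φ a b).comp swapS) := by
    refine ⟨fun c => ?_, fun c => ?_⟩
    · show Φ a b (swapS (uu c)) = _
      rw [swapS_uu, (hΦ.phi h).l]
    · show Φ a b (swapS (ll c)) = _
      rw [swapS_ll, (hΦ.phi h).u]
  have := phi_uniq (hΦ.phi h.symm) h₁
  exact congrArg (fun φ : SL2 F →* Γ => φ m) this

include hs hΦ in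
lemma phi_flip {a b : ι ⊕ ι} (h : Ind a b) (m : SL2 F) : Φ a b.swap m = Φ b a.swap (flipS m) := by
  have h₁ : Phi x a b.swap ((Φ b a.swap).comp flipS) := by
    refine ⟨fun c => ?_, fun c => ?_⟩
    · show Φ b a.swap (flipS (uu c)) = _
      rw [flipS_uu, (hΦ.phi h.symm.swapR).u, x_col hs h, neg_neg]
    · show Φ b a.swap (flipS (ll c)) = _
      rw [flipS_ll, (hΦ.phi h.symm.swapR).l]
      have := hs.hD.sym h.swapL (-c)
      rw [Sum.swap_swap, neg_neg] at this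
      exact this
  have := phi_uniq (hΦ.phi h.swapR) h₁
  exact congrArg (fun φ : SL2 F →* Γ => φ m) this

include hs hΦ h1 h2 in
/-- The condition `hτ`. -/
theorem tau_mem {a b : ι ⊕ ι} (h : Ind a b) (t : F) (ht : t ≠ 0) :
    (Φ a b (borEl t ht 0))⁻¹ * Φ a b.swap (borEl t ht 0) ∈ QB x y ({b, b.swap} : Finset (ι ⊕ ι)) := by
  have e1 : (Φ a b (borEl t ht 0))⁻¹ = Φ b a (borEl t ht 0) := by
    rw [phi_swap hΦ h, swapS_bor, map_inv]
  have e2 : Φ a b.swap (borEl t ht 0) = Φ b a.swap (borEl t ht 0) := by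
    rw [phi_flip hs hΦ h, flipS_bor]
  rw [e1, e2]
  exact theta_mem hs h1 h2 h.symm (hΦ.phi h.symm) (hΦ.phi h.symm.swapR)
    (comm_sections hs.hD h.symm (hΦ.phi h.symm) (hΦ.phi h.symm.swapR)) t ht

end Tau

end Generic

section Base

variable {F : Type*} [Field F] [Fintype F] {W : Type*} [AddCommGroup W] [Module F W] {l : ℕ} {Γ : Type*} [Group Γ]
  {q : QuadraticForm F W} {x : Fin l ⊕ Fin l → Fin l ⊕ Fin l → F → Γ} {y : Fin l ⊕ Fin l → W → Γ} (hs : SysB x y q)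
  {σ : Γ →* OG (QV (l := l) q)} (hρ : ActB σ x y) {φ₁ φ₂ : SL2 F →* Γ} {b a : Fin l ⊕ Fin l} (h : Ind b a)
  (hφ₁ : Phi x b a φ₁) (hφ₂ : Phi x b a.swap φ₂) (hc : ∀ m m', Commute (φ₁ m) (φ₂ m'))

local notation "E'" g:max i:max j:max => ((g : SL2 F) : Matrix (Fin 2) (Fin 2) F) i j

include hρ h hφ₁ hφ₂ in
/-- The product `θ` acts faithfully on `PSL₂`. -/
lemma theta_ker {m : SL2 F} (hm : σ (φ₁ m * φ₂ m) = 1) : m = 1 ∨ m = negS 1 := by
  have hfix : ∀ v : VB l F W, ac σ (φ₁ m) (ac σ (φ₂ m) v) = v := by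
    intro v
    rw [← ac_mul]
    unfold ac
    rw [hm]
    rfl
  have n1 : b ≠ a := h.1
  have n2 : b ≠ a.swap := h.2
  have n3 : a ≠ b := h.1.symm
  have n4 : a ≠ b.swap := fun e => h.2 (by rw [e, Sum.swap_swap])
  have n5 : a ≠ a.swap := swap_ne a
  have n6 : b ≠ b.swap := swap_ne b
  have det := det_entries m
  have key : ∀ v : VB l F W, v.1 b = E' m 0 0 * (E' m 0 0 * v.1 b + E' m 0 1 * v.1 a.swap) + E' m 0 1 * (E' m 0 0 * v.1 a - E' m 0 1 * v.1 b.swap) ∧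
      v.1 a = E' m 1 0 * (E' m 0 0 * v.1 b + E' m 0 1 * v.1 a.swap) + E' m 1 1 * (E' m 0 0 * v.1 a - E' m 0 1 * v.1 b.swap) := by
    intro v
    have A := act_phiV hρ h.swapR hφ₂ m v
    obtain ⟨A1, -, A3, -, -, -⟩ := A
    rw [Sum.swap_swap] at A3
    have B := act_phiV hρ h hφ₁ m (ac σ (φ₂ m) v)
    obtain ⟨B1, B2, -, -, -, -⟩ := B
    rw [hfix, A1, A3] at B1 B2
    exact ⟨B1, B2⟩
  have k1 := key (ee b)
  have k2 := key (ee a)
  simp only [ee_fst, if_true, if_neg n1, if_neg n2, if_neg n3, if_neg n4, if_neg n5, if_neg n6, if_neg (Ne.symm n1), if_neg (Ne.symm n2),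
    if_neg (Ne.symm n3), if_neg (Ne.symm n4), if_neg (Ne.symm n5), if_neg (Ne.symm n6), mul_one, mul_zero, add_zero, sub_zero] at k1 k2
  obtain ⟨k11, k12⟩ := k1
  obtain ⟨k21, k22⟩ := k2
  have h00 : E' m 0 0 ≠ 0 := by
    intro e
    rw [e] at k11
    simp at k11
  have h10 : E' m 1 0 = 0 := by
    have : E' m 1 0 * E' m 0 0 = 0 := k12.symm
    exact (mul_eq_zero.mp this).resolve_right h00
  have h01 : E' m 0 1 = 0 := by
    have : E' m 0 1 * E' m 0 0 = 0 := by simpa using k21.symm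
    exact (mul_eq_zero.mp this).resolve_right h00
  have h11 : E' m 1 1 = E' m 0 0 := by
    have e1 : E' m 0 0 * E' m 1 1 = 1 := by
      rw [h10, h01] at det
      simpa using det
    have e2 : E' m 0 0 * E' m 0 0 = 1 := k11.symm
    exact mul_left_cancel₀ h00 (e1.trans e2.symm)
  have h3 : E' m 0 0 = 1 ∨ E' m 0 0 = -1 := by
    apply mul_self_eq_one_iff.mp
    exact k11.symm
  rcases h3 with h3 | h3
  · left
    apply sl2_ext
    · simpa using h3
    · simpa using h01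
    · simpa using h10
    · simpa using h11.trans h3
  · right
    apply sl2_ext
    · simpa using h3
    · simpa using h01
    · simpa using h10
    · simpa using h11.trans h3

include hρ h hφ₁ hφ₂ in
/-- Minus one in `θ` acts trivially. -/
lemma theta_neg : σ (φ₁ (negS 1) * φ₂ (negS 1)) = 1 := by
  apply OG_ext
  intro v
  have e00 : E' (negS 1) 0 0 = -1 := by simp
  have e01 : E' (negS 1) 0 1 = 0 := by simp
  have e10 : E' (negS 1) 1 0 = 0 := by simp
  have e11 : E' (negS 1) 1 1 = -1 := by simp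
  obtain ⟨A1, A2, A3, A4, A5, A6⟩ := act_phiV hρ h.swapR hφ₂ (negS 1) v
  rw [Sum.swap_swap] at A3
  obtain ⟨B1, B2, B3, B4, B5, B6⟩ := act_phiV hρ h hφ₁ (negS 1) (ac σ (φ₂ (negS 1)) v)
  simp only [e00, e01, e10, e11, zero_mul, add_zero, zero_add, sub_zero, neg_zero] at A1 A2 A3 A4 B1 B2 B3 B4
  have hh : ac σ (φ₁ (negS 1) * φ₂ (negS 1)) v = v := by
    rw [ac_mul]
    apply Prod.ext
    · funext k
      by_cases c1 : k = b
      · subst c1
        rw [B1, A1]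
        ring
      · by_cases c2 : k = a
        · subst c2
          rw [B2, A3]
          ring
        · by_cases c3 : k = a.swap
          · subst c3
            rw [B3, A2]
            ring
          · by_cases c4 : k = b.swap
            · subst c4
              rw [B4, A4]
              ring
            · rw [B6 k c1 c2 c3 c4, A6 k c1 c3 (by rwa [Sum.swap_swap]) c4]
    · rw [B5, A5]
  exact hh

include hs hρ h hφ₁ hφ₂ in
/-- The kernel on the rank one group when the space `W` is a line. -/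
theorem base_line {w₁ w₂ : W} (h1 : q w₁ = 1) (h2 : polar q w₂ w₁ = 1) (hW : ∀ w : W, ∃ c : F, w = c • w₁) :
    ∀ g ∈ QB x y ({b, b.swap} : Finset (Fin l ⊕ Fin l)), σ g = 1 →
      g = 1 ∨ g = psiH φ₁ φ₂ hc (gh y w₁ w₂ a) (negS 1) := by
  have hR : QB x y ({b, b.swap} : Finset (Fin l ⊕ Fin l)) ≤ (psiH φ₁ φ₂ hc (gh y w₁ w₂ a)).range := by
    unfold QB
    rw [closure_le]
    rintro _ (⟨c, hc', d, hd, hh, t, rfl⟩ | ⟨c, hc', w, rfl⟩)
    · exfalso
      simp only [Finset.mem_insert, Finset.mem_singleton] at hc' hd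
      rcases hc' with rfl | rfl <;> rcases hd with rfl | rfl
      · exact hh.1 rfl
      · exact hh.2 (by rw [Sum.swap_swap])
      · exact hh.2 rfl
      · exact hh.1 rfl
    · obtain ⟨c₀, rfl⟩ := hW w
      simp only [Finset.mem_insert, Finset.mem_singleton] at hc'
      rcases hc' with rfl | rfl
      · refine ⟨uu (-c₀), ?_⟩
        rw [psi_uu hs h1 h2 h hφ₁ hφ₂, neg_neg]
      · refine ⟨ll c₀, ?_⟩
        rw [psi_ll hs h1 h2 h hφ₁ hφ₂]
  intro g hg h3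
  obtain ⟨m, rfl⟩ := hR hg
  have h4 : σ (φ₁ m * φ₂ m) = 1 := by
    rw [psiH_apply, map_mul, map_mul, map_inv] at h3
    have : σ (φ₁ m * φ₂ m) = (σ (gh y w₁ w₂ a))⁻¹ * (σ (gh y w₁ w₂ a) * σ (φ₁ m * φ₂ m) * (σ (gh y w₁ w₂ a))⁻¹) * σ (gh y w₁ w₂ a) := by group
    rw [this, h3]
    group
  rcases theta_ker hρ h hφ₁ hφ₂ h4 with rfl | rfl
  · left
    exact map_one _
  · right
    rfl

include hc in
lemma psi_neg_sq (g : Γ) : psiH φ₁ φ₂ hc g (negS 1) * psiH φ₁ φ₂ hc g (negS 1) = 1 := by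
  rw [← map_mul]
  have : negS (1 : SL2 F) * negS 1 = 1 := by
    apply sl2_ext <;> simp [mul_apply2]
  rw [this, map_one]

include hρ h hφ₁ hφ₂ in
lemma psi_neg_ker (g : Γ) : σ (psiH φ₁ φ₂ hc g (negS 1)) = 1 := by
  rw [psiH_apply, map_mul, map_mul, map_inv, theta_neg hρ h hφ₁ hφ₂, mul_one, mul_inv_cancel]

end Base

end Cfsg.Agent.Lib.BRank1
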