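import Mathlib
import Cfsg.Agent.Lib.BLift

/-!
# Lifting all root elements with a rotation of `W`

If `W` carries an isometry `ρ` with `ρ - 1` invertible, realised by an element `τ` of the central extension commuting with the long
root elements, then the short root elements and their commutators give a system of root elements satisfying all relations.
-/

set_option autoImplicit false
set_option linter.unusedSectionVars false
set_option linter.unusedVariables false

namespace Cfsg.Agent.Lib.BRot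

open Subgroup QuadraticMap Cfsg.Agent.Lib.SL2Core Cfsg.Agent.Lib.SL2Bor Cfsg.Agent.Lib.StK Cfsg.Agent.Lib.StA Cfsg.Agent.Lib.SpinSys
  Cfsg.Agent.Lib.BSys Cfsg.Agent.Lib.BTarget Cfsg.Agent.Lib.BKer Cfsg.Agent.Lib.BLift Cfsg.Agent.Lib.OrthoBasic Cfsg.Agent.Lib.OrthoCount
  Cfsg.Agent.Lib.OrthoGen Cfsg.Agent.Lib.OrthoSiegel Cfsg.Agent.Lib.SpinTarget
open scoped commutatorElement

variable {F : Type*} [Field F] [Fintype F] {W : Type*} [AddCommGroup W] [Module F W] {l : ℕ} {Γ : Type*} [Group Γ]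
  {q : QuadraticForm F W}

section Target

variable (q)

lemma XV_add {a b : Fin l ⊕ Fin l} (h : Ind a b) (s t : F) : (XV q a b (s + t) : OG (QV (l := l) q)) = XV q a b s * XV q a b t := by
  apply OG_ext
  rintro ⟨v, x⟩
  simp only [Subgroup.coe_mul, LinearEquiv.mul_apply]
  have h1 : a ≠ b := h.1
  have h2 : a ≠ b.swap := h.2
  have h3 : a.swap ≠ b := fun e => h2 (by rw [← e, Sum.swap_swap])
  have h4 : a.swap ≠ b.swap := fun e => h1 (Sum.swap_leftInverse.injective e)
  have h5 : a.swap ≠ a := (swap_ne a).symm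
  have h6 : b.swap ≠ b := (swap_ne b).symm
  apply Prod.ext
  · funext k
    simp only [XV_fst q h]
    simp [h1, h2, h3, h4, h5, h6, h1.symm, h2.symm, h3.symm, h4.symm, h5.symm, h6.symm]
    split_ifs <;> ring
  · simp only [XV_snd]

lemma XV_zero {a b : Fin l ⊕ Fin l} (h : Ind a b) : (XV q a b 0 : OG (QV (l := l) q)) = 1 := by
  have := XV_add q h 0 0
  rw [add_zero] at this
  exact mul_eq_left.mp this.symm

lemma XV_sym {a b : Fin l ⊕ Fin l} (h : Ind a b) (c : F) : (XV q a b c : OG (QV (l := l) q)) = XV q b.swap a.swap (-c) :=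
  congrArg (embO q) (XO_sym h c)

lemma XV_comm3 {a b d : Fin l ⊕ Fin l} (h1 : Ind a b) (h2 : Ind b d) (h3 : Ind a d) (s t : F) :
    ⁅(XV q a b s : OG (QV (l := l) q)), XV q b d t⁆ = XV q a d (s * t) := by
  rw [commutatorElement_def, mul_inv_eq_iff_eq_mul, mul_inv_eq_iff_eq_mul]
  apply OG_ext
  rintro ⟨v, x⟩
  simp only [Subgroup.coe_mul, LinearEquiv.mul_apply]
  have a1 : a ≠ b := h1.1
  have a2 : a ≠ b.swap := h1.2
  have a3 : a.swap ≠ b := fun e => a2 (by rw [← e, Sum.swap_swap])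
  have a4 : a.swap ≠ b.swap := fun e => a1 (Sum.swap_leftInverse.injective e)
  have b1 : b ≠ d := h2.1
  have b2 : b ≠ d.swap := h2.2
  have b3 : b.swap ≠ d := fun e => b2 (by rw [← e, Sum.swap_swap])
  have b4 : b.swap ≠ d.swap := fun e => b1 (Sum.swap_leftInverse.injective e)
  have c1 : a ≠ d := h3.1
  have c2 : a ≠ d.swap := h3.2
  have c3 : a.swap ≠ d := fun e => c2 (by rw [← e, Sum.swap_swap])
  have c4 : a.swap ≠ d.swap := fun e => c1 (Sum.swap_leftInverse.injective e)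
  have s1 : a.swap ≠ a := (swap_ne a).symm
  have s2 : b.swap ≠ b := (swap_ne b).symm
  have s3 : d.swap ≠ d := (swap_ne d).symm
  apply Prod.ext
  · funext k
    simp only [XV_fst q h1, XV_fst q h2, XV_fst q h3]
    by_cases e1 : k = a
    · subst e1
      simp [a1, a2, a3, a4, b1, b2, b3, b4, c1, c2, c3, c4, s1, s2, s3, a1.symm, a2.symm, a3.symm, a4.symm, b1.symm, b2.symm, b3.symm,
        b4.symm, c1.symm, c2.symm, c3.symm, c4.symm, s1.symm, s2.symm, s3.symm]
      ring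
    · by_cases e2 : k = d.swap
      · subst e2
        simp [e1, a1, a2, a3, a4, b1, b2, b3, b4, c1, c2, c3, c4, s1, s2, s3, a1.symm, a2.symm, a3.symm, a4.symm, b1.symm, b2.symm, b3.symm,
          b4.symm, c1.symm, c2.symm, c3.symm, c4.symm, s1.symm, s2.symm, s3.symm]
        ring
      · by_cases e3 : k = b
        · subst e3
          simp [e1, e2, a1, a2, a3, a4, b1, b2, b3, b4, c1, c2, c3, c4, s1, s2, s3, a1.symm, a2.symm, a3.symm, a4.symm, b1.symm, b2.symm, b3.symm,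
            b4.symm, c1.symm, c2.symm, c3.symm, c4.symm, s1.symm, s2.symm, s3.symm]
        · by_cases e4 : k = b.swap
          · subst e4
            simp [e1, e2, a1, a2, a3, a4, b1, b2, b3, b4, c1, c2, c3, c4, s1, s2, s3, a1.symm, a2.symm, a3.symm, a4.symm, b1.symm, b2.symm, b3.symm,
              b4.symm, c1.symm, c2.symm, c3.symm, c4.symm, s1.symm, s2.symm, s3.symm]
          · simp [e1, e2, e3, e4]
  · simp only [XV_snd]

lemma XV_commG {a b c d : Fin l ⊕ Fin l} (hab : Ind a b) (hcd : Ind c d) (h1 : c ≠ b) (h2 : c ≠ a.swap) (h3 : d ≠ a) (h4 : d ≠ b.swap) (s t : F) :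
    Commute (XV q a b s : OG (QV (l := l) q)) (XV q c d t) := by
  apply OG_ext
  rintro ⟨v, x⟩
  simp only [Subgroup.coe_mul, LinearEquiv.mul_apply]
  have n1 : b ≠ c := h1.symm
  have n2 : a.swap ≠ c := h2.symm
  have n3 : a ≠ d := h3.symm
  have n4 : b.swap ≠ d := h4.symm
  have m1 : b ≠ d.swap := fun e => n4 (by rw [e, Sum.swap_swap])
  have m2 : a.swap ≠ d.swap := fun e => n3 (Sum.swap_leftInverse.injective e)
  have m3 : a ≠ c.swap := fun e => n2 (by rw [e, Sum.swap_swap])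
  have m4 : b.swap ≠ c.swap := fun e => n1 (Sum.swap_leftInverse.injective e)
  apply Prod.ext
  · funext k
    simp only [XV_fst q hab, XV_fst q hcd, if_neg n1, if_neg n2, if_neg n3, if_neg n4, if_neg m1, if_neg m2, if_neg m3, if_neg m4, Ne.symm n1, Ne.symm n2,
      Ne.symm n3, Ne.symm n4, Ne.symm m1, Ne.symm m2, Ne.symm m3, Ne.symm m4, add_zero, sub_zero]
    by_cases e1 : k = a <;> by_cases e2 : k = b.swap <;> by_cases e3 : k = c <;> by_cases e4 : k = d.swap <;>
      simp [e1, e2, e3, e4, n1, n2, n3, n4, m1, m2, m3, m4] <;> ring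
  · simp only [XV_snd]

end Target


/-! ### Abstract group lemmas -/

section Abstract

variable {G : Type*} [Group G]

lemma comm_three {A B C D : G} (hAC : Commute A C) (hCR : Commute C ⁅A, D⁆) (hBR : Commute B ⁅A, D⁆) :
    ⁅A, B * C * D⁆ = ⁅A, B⁆ * ⁅A, D⁆ := by
  set R := ⁅A, D⁆ with hR
  have e0 : D * A⁻¹ * D⁻¹ = A⁻¹ * R := by
    rw [hR, commutatorElement_def]
    group
  have e1 : A * C * A⁻¹ = C := by rw [hAC.eq, mul_inv_cancel_right]
  calc ⁅A, B * C * D⁆ = A * B * C * (D * A⁻¹ * D⁻¹) * C⁻¹ * B⁻¹ := by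
        simp only [commutatorElement_def]
        group
    _ = A * B * C * A⁻¹ * R * C⁻¹ * B⁻¹ := by
        rw [e0]
        group
    _ = A * B * C * A⁻¹ * (R * C⁻¹) * B⁻¹ := by group
    _ = A * B * C * A⁻¹ * (C⁻¹ * R) * B⁻¹ := by
        have : R * C⁻¹ = C⁻¹ * R := by
          rw [eq_inv_mul_iff_mul_eq, ← mul_assoc, hCR.eq, mul_inv_cancel_right]
        rw [this]
    _ = A * B * (A⁻¹ * (A * C * A⁻¹)) * C⁻¹ * R * B⁻¹ := by group
    _ = A * B * A⁻¹ * (R * B⁻¹) := by
        rw [e1]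
        group
    _ = A * B * A⁻¹ * (B⁻¹ * R) := by
        have : R * B⁻¹ = B⁻¹ * R := by
          rw [eq_inv_mul_iff_mul_eq, ← mul_assoc, hBR.eq, mul_inv_cancel_right]
        rw [this]
    _ = _ := by
        simp only [commutatorElement_def]
        group

lemma mul_comm_of_central {Ca Cb A1 A2 B1 B2 T E1 E2 : G} (hT1 : Commute T A1) (hT2 : Commute T A2) (hT3 : Commute T B1)
    (hT4 : Commute T B2)
    (h1 : ⁅A1, B2⁆ = T) (h2 : ⁅A2, B1⁆ = T) (hE1 : ⁅A1, A2⁆ = E1) (hE2 : ⁅B1, B2⁆ = E2) (hE1c : E1 ∈ center G) (hE2c : E2 ∈ center G)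
    (c1 : Commute Ca A1) (c2 : Commute Ca A2) (c3 : Commute Ca B1) (c4 : Commute Ca B2) (c5 : Commute Cb A1) (c6 : Commute Cb A2)
    (c7 : Commute Cb B1) (c8 : Commute Cb B2) (c9 : Commute Ca Cb)
    (hfin : ⁅A1 * Ca * B1, A2 * Cb * B2⁆ = E2) : E1 = 1 := by
  have e1 : A1 * Ca * B1 = Ca * (A1 * B1) := by
    rw [← c1.eq]
    group
  have e2 : A2 * Cb * B2 = Cb * (A2 * B2) := by
    rw [← c6.eq]
    group
  have d1 : B1 * A2 = T⁻¹ * (A2 * B1) := by
    rw [← h2, commutatorElement_def]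
    group
  have d2 : B2 * A1 = T⁻¹ * (A1 * B2) := by
    rw [← h1, commutatorElement_def]
    group
  have d3 : A1 * A2 = E1 * (A2 * A1) := by
    rw [← hE1, commutatorElement_def]
    group
  have d4 : B1 * B2 = E2 * (B2 * B1) := by
    rw [← hE2, commutatorElement_def]
    group
  have hTi1 : Commute T⁻¹ A1 := hT1.inv_left
  have hTi2 : Commute T⁻¹ A2 := hT2.inv_left
  have k1 : (A1 * B1) * (A2 * B2) = E1 * E2 * (T⁻¹ * (A2 * A1 * (B2 * B1))) := by
    calc (A1 * B1) * (A2 * B2) = A1 * (B1 * A2) * B2 := by group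
      _ = (A1 * T⁻¹) * A2 * (B1 * B2) := by
          rw [d1]
          group
      _ = T⁻¹ * (A1 * A2) * (B1 * B2) := by
          rw [hTi1.symm.eq]
          group
      _ = T⁻¹ * (E1 * (A2 * A1)) * (E2 * (B2 * B1)) := by rw [d3, d4]
      _ = (T⁻¹ * E1) * (A2 * A1) * E2 * (B2 * B1) := by group
      _ = (E1 * T⁻¹) * (A2 * A1) * E2 * (B2 * B1) := by rw [(mem_center_iff.mp hE1c _).symm]
      _ = E1 * (T⁻¹ * (A2 * A1) * E2) * (B2 * B1) := by group
      _ = E1 * (E2 * (T⁻¹ * (A2 * A1))) * (B2 * B1) := by rw [(mem_center_iff.mp hE2c _).symm]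
      _ = _ := by group
  have k2 : (A2 * B2) * (A1 * B1) = T⁻¹ * (A2 * A1 * (B2 * B1)) := by
    calc (A2 * B2) * (A1 * B1) = A2 * (B2 * A1) * B1 := by group
      _ = (A2 * T⁻¹) * A1 * (B2 * B1) := by
          rw [d2]
          group
      _ = T⁻¹ * A2 * A1 * (B2 * B1) := by
          rw [hTi2.symm.eq]
      _ = _ := by group
  have k3 : (A1 * B1) * (A2 * B2) = E1 * E2 * ((A2 * B2) * (A1 * B1)) := by rw [k1, k2]
  have c10 : Commute Ca (A2 * B2) := c2.mul_right c4
  have c11 : Commute Cb (A1 * B1) := c5.mul_right c7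
  rw [e1, e2] at hfin
  have k4 : ⁅Ca * (A1 * B1), Cb * (A2 * B2)⁆ = E1 * E2 := by
    have s1 : (Ca * (A1 * B1)) * (Cb * (A2 * B2)) = (Ca * Cb) * ((A1 * B1) * (A2 * B2)) := by
      calc (Ca * (A1 * B1)) * (Cb * (A2 * B2)) = Ca * ((A1 * B1) * Cb) * (A2 * B2) := by group
        _ = Ca * (Cb * (A1 * B1)) * (A2 * B2) := by rw [c11.eq]
        _ = _ := by group
    have s2 : (Cb * (A2 * B2)) * (Ca * (A1 * B1)) = (Ca * Cb) * ((A2 * B2) * (A1 * B1)) := by
      calc (Cb * (A2 * B2)) * (Ca * (A1 * B1)) = Cb * ((A2 * B2) * Ca) * (A1 * B1) := by group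
        _ = Cb * (Ca * (A2 * B2)) * (A1 * B1) := by rw [c10.eq]
        _ = (Cb * Ca) * ((A2 * B2) * (A1 * B1)) := by group
        _ = _ := by rw [c9.eq]
    have s3 : ⁅Ca * (A1 * B1), Cb * (A2 * B2)⁆ = ((Ca * (A1 * B1)) * (Cb * (A2 * B2))) * ((Cb * (A2 * B2)) * (Ca * (A1 * B1)))⁻¹ := by
      simp only [commutatorElement_def]
      group
    rw [s3, s1, s2, k3]
    calc Ca * Cb * (E1 * E2 * (A2 * B2 * (A1 * B1))) * (Ca * Cb * (A2 * B2 * (A1 * B1)))⁻¹ =
        (Ca * Cb * (E1 * E2)) * (Ca * Cb)⁻¹ := by group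
      _ = ((E1 * E2) * (Ca * Cb)) * (Ca * Cb)⁻¹ := by
          rw [(mem_center_iff.mp (mul_mem hE1c hE2c) _).symm]
      _ = _ := by group
  rw [k4] at hfin
  exact mul_eq_right.mp hfin

end Abstract

/-! ### The data -/

/-- The data of a rotation. -/
structure RotData (σ : Γ →* OG (QV (l := l) q)) (τ : Γ) (ρ ρ' : W →ₗ[F] W) : Prop where
  hc : σ.ker ≤ center Γ
  hr : siegelE (QV (l := l) q) ≤ σ.range
  hl : 3 ≤ l
  hX : ∀ {a b : Fin l ⊕ Fin l}, Ind a b → ∀ c, Commute (σ τ) (XV q a b c)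
  hY : ∀ (a : Fin l ⊕ Fin l) (w : W), σ τ * YO q a w * (σ τ)⁻¹ = YO q a (ρ w)
  hρ : ∀ w, ρ (ρ' w) = w + ρ' w
  hcm : ∀ w, ρ (ρ' w) = ρ' (ρ w)
  hq : ∀ w, q (ρ w) = q w


section Rot

variable {σ : Γ →* OG (QV (l := l) q)} {τ : Γ} {ρ ρ' : W →ₗ[F] W} (D : RotData σ τ ρ ρ')

include D

lemma RotData.kill {κ : W → Γ} (hadd : ∀ u v, κ (u + v) = κ u * κ v) (hρκ : ∀ w, κ (ρ w) = κ w) (w : W) : κ w = 1 := by
  have e := hρκ (ρ' w)
  rw [D.hρ, hadd] at e
  exact mul_eq_right.mp e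

lemma RotData.lift_exists (a : Fin l ⊕ Fin l) (w : W) : ∃ u : Γ, σ u = YO q a w := D.hr (YO_mem q a w)

lemma RotData.liftX_exists {a b : Fin l ⊕ Fin l} (h : Ind a b) (c : F) : ∃ u : Γ, σ u = XV q a b c := D.hr (XV_mem q h c)

/-- Elements commuting with `τ` and the short root elements at `a` commute with their lifts, in the central extension. -/
lemma RotData.far {u : Γ} {a : Fin l ⊕ Fin l} (h1 : Commute (σ τ) (σ u)) (h2 : ∀ w, Commute (σ u) (YO q a w)) {w : W} {v : Γ}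
    (hv : σ v = YO q a w) : Commute u v := by
  have hex := D.lift_exists a
  choose Yt hYt using hex
  set A : W → Γ := fun w => ⁅u, Yt w⁆ with hA
  have hcen : ∀ w, A w ∈ center Γ := by
    intro w
    apply D.hc
    rw [MonoidHom.mem_ker, hA]
    show σ ⁅u, Yt w⁆ = 1
    rw [map_commutatorElement, hYt, commutatorElement_eq_one_iff_commute]
    exact h2 w
  have hadd : ∀ w w', A (w + w') = A w * A w' := by
    intro w w'
    have e1 : ⁅u, Yt (w + w')⁆ = ⁅u, Yt w * Yt w'⁆ :=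
      comm_eq_of_lifts σ D.hc rfl (by rw [hYt, map_mul, hYt, hYt, YO_add])
    have e2 : ⁅u, Yt w * Yt w'⁆ = ⁅u, Yt w⁆ * (Yt w * ⁅u, Yt w'⁆ * (Yt w)⁻¹) := by
      simp only [commutatorElement_def]
      group
    have e3 := mem_center_iff.mp (hcen w') (Yt w)
    simp only [hA] at e3 ⊢
    rw [e1, e2, e3, mul_inv_cancel_right]
  have hρA : ∀ w, A (ρ w) = A w := by
    intro w
    have e1 : τ * A w * τ⁻¹ = A w := by
      rw [mem_center_iff.mp (hcen w) τ, mul_inv_cancel_right]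
    rw [← e1]
    simp only [hA]
    rw [conj_comm]
    apply comm_eq_of_lifts σ D.hc
    · rw [map_mul, map_mul, map_inv, h1.eq, mul_inv_cancel_right]
    · rw [map_mul, map_mul, map_inv, hYt, hYt, D.hY]
  have hA1 : A w = 1 := D.kill hadd hρA w
  have e : ⁅u, v⁆ = A w := comm_eq_of_lifts σ D.hc rfl (by rw [hv, hYt])
  rw [hA1] at e
  exact commutatorElement_eq_one_iff_commute.mp e

/-- The commuting of lifts of long and short root elements. -/
lemma RotData.far' {k l' a : Fin l ⊕ Fin l} (h : Ind k l') (h1 : a ≠ l') (h2 : a ≠ k.swap) {c : F} {w : W} {u v : Γ}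
    (hu : σ u = XV q k l' c) (hv : σ v = YO q a w) : Commute u v := by
  refine D.far (a := a) (w := w) ?_ ?_ hv
  · rw [hu]
    exact D.hX h c
  · intro w'
    rw [hu]
    exact XV_YO_comm q h h1 h2 c w'

/-- Conjugating a commutator of short root elements. -/
lemma RotData.step {a b j : Fin l ⊕ Fin l} (hbj : Ind b j) (haj : Ind a j) (hab : a ≠ b.swap) {c : F} {u v : W} {g A B C' : Γ}
    (hg : σ g = XV q b j c) (hA : σ A = YO q a u) (hD : σ C' = YO q j v) (hB : σ B = YO q b (c • v)) :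
    ⁅g, ⁅A, C'⁆⁆ = ⁅A, B⁆ := by
  obtain ⟨C, hC⟩ := D.liftX_exists hbj.swapR (c * q v)
  have h1 : a ≠ j := haj.1
  have h2 : a ≠ j.swap := haj.2
  have h3 : b ≠ j.swap := hbj.2
  have h4 : b ≠ a.swap := fun e => hab (by rw [e, Sum.swap_swap])
  have e1 : g * ⁅A, C'⁆ * g⁻¹ = ⁅A, B * C * C'⁆ := by
    rw [conj_comm]
    apply comm_eq_of_lifts σ D.hc
    · rw [map_mul, map_mul, map_inv, hg, hA]
      have := (XV_YO_comm q hbj h1 hab c u).eq
      rw [this, mul_inv_cancel_right]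
    · rw [map_mul, map_mul, map_inv, map_mul, map_mul, hg, hD, hB, hC, ← XV_YO q hbj c v, commutatorElement_def]
      group
  have hAC : Commute A C := (D.far' hbj.swapR h2 hab hC hA).symm
  have hCR : Commute C ⁅A, C'⁆ := by
    apply comm_of_lifts σ D.hc
    · rw [hC, hA]
      exact XV_YO_comm q hbj.swapR h2 hab _ _
    · rw [hC, hD]
      exact XV_YO_comm q hbj.swapR (swap_ne j) (fun e => hbj.2 (by rw [e, Sum.swap_swap])) _ _
  have hBR : Commute B ⁅A, C'⁆ := by
    have hs : σ ⁅A, C'⁆ = XV q a j.swap (-(polar q u v)) := by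
      rw [map_commutatorElement, hA, hD, YO_comm q haj]
    exact (D.far' haj.swapR h3 h4 hs hB).symm
  rw [commutatorElement_def g, e1, comm_three hAC hCR hBR, mul_inv_cancel_right]

section Lifts

variable {Yt : Fin l ⊕ Fin l → W → Γ} (hYt : ∀ a w, σ (Yt a w) = YO q a w) {u₀ v₀ : W} (h01 : polar q u₀ v₀ = 1)

include hYt

/-- A commutator of lifts of short root elements only depends on the value of the polar form. -/
lemma RotData.comm_indep {a b : Fin l ⊕ Fin l} (hab : Ind a b) {u v u' v' : W} (hp : polar q u v = polar q u' v') {A B A' B' : Γ}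
    (hA : σ A = YO q a u) (hB : σ B = YO q b v) (hA' : σ A' = YO q a u') (hB' : σ B' = YO q b v') : ⁅A, B⁆ = ⁅A', B'⁆ := by
  obtain ⟨j, h1, h2⟩ := third D.hl a b
  have hbj : Ind b j := h2.symm
  obtain ⟨g, hg⟩ := D.liftX_exists hbj (1 : F)
  have e1 := D.step hbj h1 hab.2 hg hA (hYt j v) (by rw [one_smul]; exact hB)
  have e2 := D.step hbj h1 hab.2 hg hA' (hYt j v') (by rw [one_smul]; exact hB')
  rw [← e1, ← e2]
  apply comm_eq_of_lifts σ D.hc rfl
  rw [map_commutatorElement, map_commutatorElement, hA, hA', hYt, hYt, YO_comm q h1, YO_comm q h1, hp]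

end Lifts

end Rot

/-- The long root elements as commutators. -/
def xR (Yt : Fin l ⊕ Fin l → W → Γ) (u₀ v₀ : W) (a b : Fin l ⊕ Fin l) (c : F) : Γ :=
  ⁅Yt a ((-c) • u₀), Yt b.swap v₀⁆

section Rot2

variable {σ : Γ →* OG (QV (l := l) q)} {τ : Γ} {ρ ρ' : W →ₗ[F] W} (D : RotData σ τ ρ ρ')
 {Yt : Fin l ⊕ Fin l → W → Γ} (hYt : ∀ a w, σ (Yt a w) = YO q a w) {u₀ v₀ : W} (h01 : polar q u₀ v₀ = 1)

local notation "x" => xR (l := l) (F := F) Yt u₀ v₀

include hYt h01

lemma xR_lift {a b : Fin l ⊕ Fin l} (h : Ind a b) (c : F) : σ (x a b c) = XV q a b c := by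
  unfold xR
  rw [map_commutatorElement, hYt, hYt, YO_comm q h.swapR, Sum.swap_swap, polar_smul_l, h01]
  congr 1
  ring

include D

lemma RotData.comm_x {a b : Fin l ⊕ Fin l} (hab : Ind a b) {u v : W} {A B : Γ} (hA : σ A = YO q a u) (hB : σ B = YO q b v) :
    ⁅A, B⁆ = x a b.swap (-(polar q u v)) := by
  unfold xR
  rw [Sum.swap_swap]
  refine D.comm_indep hYt hab ?_ hA hB (hYt a _) (hYt b _)
  rw [polar_smul_l, h01]
  ring

lemma RotData.comm_gen {a b c d : Fin l ⊕ Fin l} (hab : Ind a b) (hcd : Ind c d) (h1 : c ≠ b) (h2 : c ≠ a.swap) (h3 : d ≠ a)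
    (h4 : d ≠ b.swap) (s t : F) : Commute (x a b s) (x c d t) := by
  have e : x c d t = ⁅Yt c ((-t) • u₀), Yt d.swap v₀⁆ := rfl
  rw [e]
  apply comm_of_lifts σ D.hc
  · rw [xR_lift hYt h01 hab, hYt]
    exact XV_YO_comm q hab h1 h2 _ _
  · rw [xR_lift hYt h01 hab, hYt]
    exact XV_YO_comm q hab (fun e => h4 (by rw [← e, Sum.swap_swap])) (fun e => h3 (Sum.swap_leftInverse.injective e)) _ _

lemma RotData.x_comm_self {a b : Fin l ⊕ Fin l} (hab : Ind a b) (s t : F) : Commute (x a b s) (x a b t) :=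
  D.comm_gen hYt h01 hab hab hab.1 (swap_ne a) hab.1.symm (swap_ne b) s t

lemma RotData.x_add {a b : Fin l ⊕ Fin l} (hab : Ind a b) (s t : F) : x a b (s + t) = x a b s * x a b t := by
  have e1 : x a b (s + t) = ⁅Yt a ((-s) • u₀) * Yt a ((-t) • u₀), Yt b.swap v₀⁆ := by
    unfold xR
    apply comm_eq_of_lifts σ D.hc _ rfl
    rw [map_mul, hYt, hYt, hYt, ← YO_add, neg_add, add_smul]
  have e2 : Commute (Yt a ((-s) • u₀)) ⁅Yt a ((-t) • u₀), Yt b.swap v₀⁆ := by
    have h1 : σ ⁅Yt a ((-t) • u₀), Yt b.swap v₀⁆ = XV q a b t := xR_lift hYt h01 hab t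
    exact (D.far' hab hab.1 (swap_ne a) h1 (hYt a _)).symm
  rw [e1, comm_mul_left' e2]
  exact (D.x_comm_self hYt h01 hab t s)

lemma RotData.x_zero {a b : Fin l ⊕ Fin l} (hab : Ind a b) : x a b 0 = 1 := by
  have := D.x_add hYt h01 hab 0 0
  rw [add_zero] at this
  exact mul_eq_left.mp this.symm

lemma RotData.x_neg {a b : Fin l ⊕ Fin l} (hab : Ind a b) (c : F) : x a b (-c) = (x a b c)⁻¹ := by
  have := D.x_add hYt h01 hab (-c) c
  rw [neg_add_cancel, D.x_zero hYt h01 hab] at this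
  exact (inv_eq_of_mul_eq_one_left this.symm).symm

lemma RotData.x_sym {a b : Fin l ⊕ Fin l} (hab : Ind a b) (c : F) : x a b c = x b.swap a.swap (-c) := by
  have h : Ind b.swap a := hab.swapR.symm
  have e1 := D.comm_x hYt h01 h (hYt b.swap v₀) (hYt a ((-c) • u₀))
  have e2 : -(polar q v₀ ((-c) • u₀)) = c := by
    rw [polar_smul_r, polar_comm, h01]
    ring
  rw [e2, ← commutatorElement_inv] at e1
  rw [D.x_neg hYt h01 hab.swap, ← e1, inv_inv]
  rfl

lemma RotData.x_comm3 {a b d : Fin l ⊕ Fin l} (h1 : Ind a b) (h2 : Ind b d) (h3 : Ind a d) (s t : F) :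
    ⁅x a b s, x b d t⁆ = x a d (s * t) := by
  have hg : σ (x b d t) = XV q d.swap b.swap (-t) := by
    rw [xR_lift hYt h01 h2, XV_sym q h2]
  have e := D.step h2.swap h1.swapR (by rw [Sum.swap_swap]; exact h3.1) hg (hYt a ((-s) • u₀)) (hYt b.swap v₀) (hYt d.swap ((-t) • v₀))
  have e2 := D.comm_x hYt h01 h3.swapR (hYt a ((-s) • u₀)) (hYt d.swap ((-t) • v₀))
  have e3 : x a d (-(s * t)) = ⁅x b d t, x a b s⁆ := by
    have e4 : -(polar q ((-s) • u₀) ((-t) • v₀)) = -(s * t) := by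
      rw [polar_smul_l, polar_smul_r, h01]
      ring
    rw [e4, Sum.swap_swap, ← e] at e2
    exact e2.symm
  rw [← commutatorElement_inv, ← e3, D.x_neg hYt h01 h3, inv_inv]

/-- Any two lifts of short root elements at the same index commute. -/
lemma RotData.A2 (a : Fin l ⊕ Fin l) {w w' : W} {u u' : Γ} (hu : σ u = YO q a w) (hu' : σ u' = YO q a w') : Commute u u' := by
  obtain ⟨b, hb, -⟩ := third D.hl a a
  obtain ⟨g, hg⟩ := D.liftX_exists hb (1 : F)
  have hYc : ∀ (k : Fin l ⊕ Fin l) (p r : W), Commute (YO q k p : OG (QV (l := l) q)) (YO q k r) := by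
    intro k p r
    show _ * _ = _ * _
    rw [← YO_add, ← YO_add, add_comm]
  have hcen : ∀ k : Fin l ⊕ Fin l, ⁅Yt k w, Yt k w'⁆ ∈ center Γ := by
    intro k
    apply D.hc
    rw [MonoidHom.mem_ker, map_commutatorElement, hYt, hYt, commutatorElement_eq_one_iff_commute]
    exact hYc k w w'
  have hconj : g * ⁅Yt b w, Yt b w'⁆ * g⁻¹ = ⁅Yt b w, Yt b w'⁆ := by
    rw [mem_center_iff.mp (hcen b) g, mul_inv_cancel_right]
  have hfin : ⁅Yt a w * x a b.swap (1 * q w) * Yt b w, Yt a w' * x a b.swap (1 * q w') * Yt b w'⁆ = ⁅Yt b w, Yt b w'⁆ := by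
    rw [← hconj, conj_comm]
    symm
    apply comm_eq_of_lifts σ D.hc
    · have e := XV_YO q hb 1 w
      rw [one_smul] at e
      rw [map_mul, map_mul, map_inv, map_mul, map_mul, hg, hYt, hYt, xR_lift hYt h01 hb.swapR, ← e, commutatorElement_def]
      group
    · have e := XV_YO q hb 1 w'
      rw [one_smul] at e
      rw [map_mul, map_mul, map_inv, map_mul, map_mul, hg, hYt, hYt, xR_lift hYt h01 hb.swapR, ← e, commutatorElement_def]
      group
  have hxa : ∀ (t : F) (p : W), Commute (x a b.swap t) (Yt a p) := fun t p =>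
    D.far' hb.swapR hb.2 (swap_ne a) (xR_lift hYt h01 hb.swapR t) (hYt a p)
  have hxb : ∀ (t : F) (p : W), Commute (x a b.swap t) (Yt b p) := fun t p =>
    D.far' hb.swapR (swap_ne b) (fun e => hb.2 (by rw [e, Sum.swap_swap])) (xR_lift hYt h01 hb.swapR t) (hYt b p)
  have e1 : ⁅Yt a w, Yt b w'⁆ = x a b.swap (-(polar q w w')) := D.comm_x hYt h01 hb (hYt a w) (hYt b w')
  have e2 : ⁅Yt a w', Yt b w⁆ = x a b.swap (-(polar q w w')) := by
    rw [polar_comm]
    exact D.comm_x hYt h01 hb (hYt a w') (hYt b w)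
  have hE := mul_comm_of_central (hxa _ w) (hxa _ w') (hxb _ w) (hxb _ w') e1 e2 rfl rfl (hcen a) (hcen b)
    (hxa _ w) (hxa _ w') (hxb _ w) (hxb _ w') (hxa _ w) (hxa _ w') (hxb _ w) (hxb _ w') (D.x_comm_self hYt h01 hb.swapR _ _) hfin
  have e3 : ⁅u, u'⁆ = ⁅Yt a w, Yt a w'⁆ := comm_eq_of_lifts σ D.hc (by rw [hu, hYt]) (by rw [hu', hYt])
  rw [hE] at e3
  exact commutatorElement_eq_one_iff_commute.mp e3

lemma RotData.T1 {a b : Fin l ⊕ Fin l} (hab : Ind a b) (s t : F) : Commute (x a b s) (x a b.swap t) := by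
  have e := D.step hab hab (swap_ne a) (xR_lift hYt h01 hab s) (hYt a ((-t) • u₀)) (hYt b v₀) (hYt a (s • v₀))
  have e2 : ⁅Yt a ((-t) • u₀), Yt a (s • v₀)⁆ = 1 :=
    commutatorElement_eq_one_iff_commute.mpr (D.A2 hYt h01 a (hYt a _) (hYt a _))
  have e3 : x a b.swap t = ⁅Yt a ((-t) • u₀), Yt b v₀⁆ := by
    unfold xR
    rw [Sum.swap_swap]
  rw [e3]
  exact commutatorElement_eq_one_iff_commute.mp (e.trans e2)

lemma RotData.T2 {a b : Fin l ⊕ Fin l} (hab : Ind a b) (s t : F) : Commute (x a b s) (x b.swap a t) := by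
  rw [D.x_sym hYt h01 hab s]
  have := D.T1 hYt h01 hab.swap (-s) t
  rwa [Sum.swap_swap] at this

theorem RotData.sysD : SysD x := by
  refine ⟨fun h s t => D.x_add hYt h01 h s t, fun h c => D.x_sym hYt h01 h c, ?_, fun h1 h2 h3 s t => D.x_comm3 hYt h01 h1 h2 h3 s t⟩
  intro a b c d hab hcd hn s t
  by_cases h1 : c = b
  · subst h1
    have hd : d = a.swap := by
      by_contra hne
      exact hn (Or.inl ⟨rfl, hne⟩)
    subst hd
    have e := D.x_sym hYt h01 hcd t
    rw [Sum.swap_swap] at e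
    rw [e]
    exact D.T1 hYt h01 hab s _
  · by_cases h2 : c = a.swap
    · subst h2
      have hd : d = b := by
        by_contra hne
        exact hn (Or.inr (Or.inl ⟨rfl, hne⟩))
      subst hd
      have e := D.x_sym hYt h01 hcd t
      rw [Sum.swap_swap] at e
      rw [e]
      exact D.T2 hYt h01 hab s _
    · by_cases h3 : d = a
      · subst h3
        have hc : c = b.swap := by
          by_contra hne
          exact hn (Or.inr (Or.inr (Or.inl ⟨rfl, hne⟩)))
        subst hc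
        exact D.T2 hYt h01 hab s _
      · by_cases h4 : d = b.swap
        · subst h4
          have hc : c = a := by
            by_contra hne
            exact hn (Or.inr (Or.inr (Or.inr ⟨rfl, hne⟩)))
          subst hc
          exact D.T1 hYt h01 hab s _
        · exact D.comm_gen hYt h01 hab hcd h1 h2 h3 h4 s t

end Rot2

/-- The short root elements as commutators with `τ`. -/
def yR (τ : Γ) (ρ' : W →ₗ[F] W) (Yt : Fin l ⊕ Fin l → W → Γ) (a : Fin l ⊕ Fin l) (w : W) : Γ :=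
  ⁅τ, Yt a (ρ' w)⁆

section Rot3

variable {σ : Γ →* OG (QV (l := l) q)} {τ : Γ} {ρ ρ' : W →ₗ[F] W} (D : RotData σ τ ρ ρ')
 {Yt : Fin l ⊕ Fin l → W → Γ} (hYt : ∀ a w, σ (Yt a w) = YO q a w) {u₀ v₀ : W} (h01 : polar q u₀ v₀ = 1)

local notation "x" => xR (l := l) (F := F) Yt u₀ v₀
local notation "y" => yR (l := l) (F := F) τ ρ' Yt

include D hYt

lemma yR_lift (a : Fin l ⊕ Fin l) (w : W) : σ (y a w) = YO q a w := by
  unfold yR
  rw [map_commutatorElement, commutatorElement_def, hYt, D.hY, ← YO_neg, ← YO_add, D.hρ]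
  congr 1
  abel

lemma yR_conj (a : Fin l ⊕ Fin l) (w : W) : τ * y a w * τ⁻¹ = y a (ρ w) := by
  unfold yR
  rw [conj_comm]
  apply comm_eq_of_lifts σ D.hc
  · rw [map_mul, map_mul, map_inv, mul_inv_cancel_right]
  · rw [map_mul, map_mul, map_inv, hYt, hYt, D.hY, D.hcm]

include h01

lemma yR_add (a : Fin l ⊕ Fin l) (u v : W) : y a (u + v) = y a u * y a v := by
  unfold yR
  have e1 : ⁅τ, Yt a (ρ' (u + v))⁆ = ⁅τ, Yt a (ρ' u) * Yt a (ρ' v)⁆ := by
    apply comm_eq_of_lifts σ D.hc rfl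
    rw [map_mul, hYt, hYt, hYt, ← YO_add, map_add]
  have e2 : ⁅τ, Yt a (ρ' u) * Yt a (ρ' v)⁆ = ⁅τ, Yt a (ρ' u)⁆ * (Yt a (ρ' u) * ⁅τ, Yt a (ρ' v)⁆ * (Yt a (ρ' u))⁻¹) := by
    simp only [commutatorElement_def]
    group
  have h3 : σ ⁅τ, Yt a (ρ' v)⁆ = YO q a v := yR_lift D hYt a v
  have e3 : Commute (Yt a (ρ' u)) ⁅τ, Yt a (ρ' v)⁆ := D.A2 hYt h01 a (hYt a _) h3
  rw [e1, e2, e3.eq, mul_inv_cancel_right]

lemma comm_tau_x {a b : Fin l ⊕ Fin l} (hab : Ind a b) (c : F) : Commute τ (x a b c) := by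
  have e : x a b c = ⁅Yt a ((-c) • u₀), Yt b.swap v₀⁆ := rfl
  obtain ⟨d, hd1, hd2⟩ := third D.hl a b
  have e1 := D.x_comm3 hYt h01 hd1 hd2 hab c 1
  rw [mul_one] at e1
  rw [← e1]
  apply comm_of_lifts σ D.hc
  · rw [xR_lift hYt h01 hd1]
    exact D.hX hd1 c
  · rw [xR_lift hYt h01 hd2]
    exact D.hX hd2 1

theorem xy3_rot {a b : Fin l ⊕ Fin l} (hab : Ind a b) (c : F) (w : W) :
    ⁅x a b c, y b w⁆ = y a (c • w) * x a b.swap (c * q w) := by
  have hy := yR_lift D hYt
  have hx := fun {a b : Fin l ⊕ Fin l} (h : Ind a b) (c : F) => xR_lift hYt h01 (σ := σ) h c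
  set X := x a b.swap with hX
  have hXadd : ∀ s t : F, X (s + t) = X s * X t := D.x_add hYt h01 hab.swapR
  have hXa : ∀ (t : F) (p : W), Commute (X t) (y a p) := fun t p =>
    D.far' hab.swapR hab.2 (swap_ne a) (hx hab.swapR t) (hy a p)
  have hXb : ∀ (t : F) (p : W), Commute (X t) (y b p) := fun t p =>
    D.far' hab.swapR (swap_ne b) (fun e => hab.2 (by rw [e, Sum.swap_swap])) (hx hab.swapR t) (hy b p)
  set g := x a b c with hg
  set L : W → Γ := fun w => ⁅g, y b w⁆ with hL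
  set S : W → Γ := fun w => y a (c • w) * X (c * q w) with hS
  set κ : W → Γ := fun w => L w * (S w)⁻¹ with hκ
  have hσg : σ g = XV q a b c := hx hab c
  have hcen : ∀ w, κ w ∈ center Γ := by
    intro w
    apply D.hc
    simp only [hκ, hL, hS]
    rw [MonoidHom.mem_ker, map_mul, map_inv, map_mul, map_commutatorElement, hy, hy, hσg, XV_YO q hab, hx hab.swapR, mul_inv_cancel]
  have hLk : ∀ w, L w = κ w * S w := fun w => by
    simp only [hκ]
    group
  have hadd : ∀ u v, κ (u + v) = κ u * κ v := by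
    intro u v
    have e1 : L (u + v) = L u * (y b u * L v * (y b u)⁻¹) := by
      simp only [hL]
      rw [yR_add D hYt h01]
      simp only [commutatorElement_def]
      group
    have e2 : y b u * y a (c • v) * (y b u)⁻¹ = X (c * polar q u v) * y a (c • v) := by
      have e3 := D.comm_x hYt h01 hab.symm (hy b u) (hy a (c • v))
      have e4 := D.x_sym hYt h01 hab.symm.swapR (-(polar q u (c • v)))
      rw [Sum.swap_swap] at e4
      rw [e4, polar_smul_r, neg_neg] at e3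
      rw [hX, ← e3]
      simp only [commutatorElement_def]
      group
    have e5 : y b u * S v * (y b u)⁻¹ = X (c * polar q u v) * y a (c • v) * X (c * q v) := by
      simp only [hS]
      rw [← e2]
      have h5 : y b u * X (c * q v) * (y b u)⁻¹ = X (c * q v) := by
        rw [← (hXb (c * q v) u).eq, mul_inv_cancel_right]
      calc y b u * (y a (c • v) * X (c * q v)) * (y b u)⁻¹ = (y b u * y a (c • v) * (y b u)⁻¹) * (y b u * X (c * q v) * (y b u)⁻¹) := by group
        _ = _ := by rw [h5]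
    have e6 : S (u + v) = S u * (X (c * polar q u v) * y a (c • v) * X (c * q v)) := by
      simp only [hS]
      have e7 : c * q (u + v) = c * q u + c * polar q u v + c * q v := by
        rw [polar, ] 
        ring
      rw [smul_add, yR_add D hYt h01, e7, hXadd, hXadd]
      have := (hXa (c * q u) (c • v)).eq
      have := (hXa (c * polar q u v) (c • v)).eq
      calc y a (c • u) * y a (c • v) * (X (c * q u) * X (c * polar q u v) * X (c * q v))
          = y a (c • u) * (y a (c • v) * X (c * q u)) * X (c * polar q u v) * X (c * q v) := by group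
        _ = y a (c • u) * (X (c * q u) * y a (c • v)) * X (c * polar q u v) * X (c * q v) := by rw [(hXa (c * q u) (c • v)).eq]
        _ = y a (c • u) * X (c * q u) * (y a (c • v) * X (c * polar q u v)) * X (c * q v) := by group
        _ = y a (c • u) * X (c * q u) * (X (c * polar q u v) * y a (c • v)) * X (c * q v) := by rw [(hXa (c * polar q u v) (c • v)).eq]
        _ = _ := by group
    have e8 : y b u * L v * (y b u)⁻¹ = κ v * (X (c * polar q u v) * y a (c • v) * X (c * q v)) := by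
      rw [← e5, hLk v]
      have := mem_center_iff.mp (hcen v) (y b u)
      calc y b u * (κ v * S v) * (y b u)⁻¹ = (y b u * κ v) * S v * (y b u)⁻¹ := by group
        _ = (κ v * y b u) * S v * (y b u)⁻¹ := by rw [this]
        _ = _ := by group
    have e9 : S u * κ v = κ v * S u := mem_center_iff.mp (hcen v) (S u)
    have e10 : κ (u + v) = L (u + v) * (S (u + v))⁻¹ := rfl
    rw [e10, e1, e8, e6, hLk u]
    calc κ u * S u * (κ v * (X (c * polar q u v) * y a (c • v) * X (c * q v))) * (S u * (X (c * polar q u v) * y a (c • v) * X (c * q v)))⁻¹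
        = κ u * (S u * κ v) * (X (c * polar q u v) * y a (c • v) * X (c * q v)) * (S u * (X (c * polar q u v) * y a (c • v) * X (c * q v)))⁻¹ := by group
      _ = κ u * (κ v * S u) * (X (c * polar q u v) * y a (c • v) * X (c * q v)) * (S u * (X (c * polar q u v) * y a (c • v) * X (c * q v)))⁻¹ := by rw [e9]
      _ = _ := by group
  have hρκ : ∀ w, κ (ρ w) = κ w := by
    intro w
    have e1 : τ * κ w * τ⁻¹ = κ w := by
      rw [mem_center_iff.mp (hcen w) τ, mul_inv_cancel_right]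
    have e2 : τ * L w * τ⁻¹ = L (ρ w) := by
      simp only [hL]
      rw [conj_comm, yR_conj D hYt, (comm_tau_x D hYt h01 hab c).eq, mul_inv_cancel_right]
    have e3 : τ * S w * τ⁻¹ = S (ρ w) := by
      simp only [hS]
      have e4 : τ * X (c * q w) * τ⁻¹ = X (c * q (ρ w)) := by
        rw [D.hq, (comm_tau_x D hYt h01 hab.swapR _).eq, mul_inv_cancel_right]
      have e5 : τ * y a (c • w) * τ⁻¹ = y a (c • ρ w) := by
        rw [yR_conj D hYt, map_smul]
      rw [← e4, ← e5]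
      group
    rw [← e1]
    simp only [hκ] at e1 ⊢
    rw [← e2, ← e3]
    group
  have e := D.kill hadd hρκ w
  exact mul_inv_eq_one.mp e

end Rot3

/-- The main theorem. -/
theorem exists_sys_rot {σ : Γ →* OG (QV (l := l) q)} {τ : Γ} {ρ ρ' : W →ₗ[F] W} (D : RotData σ τ ρ ρ') {u₀ v₀ : W} (h01 : polar q u₀ v₀ = 1) :
    ∃ (x : Fin l ⊕ Fin l → Fin l ⊕ Fin l → F → Γ) (y : Fin l ⊕ Fin l → W → Γ), SysB x y q ∧ ActB σ x y ∧
      (∀ {a b : Fin l ⊕ Fin l}, Ind a b → ∀ c, Commute τ (x a b c)) ∧ ∀ a w, τ * y a w * τ⁻¹ = y a (ρ w) := by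
  have hex := D.lift_exists
  choose Yt hYt using hex
  refine ⟨xR Yt u₀ v₀, yR τ ρ' Yt, ⟨D.sysD hYt h01, yR_add D hYt h01, ?_, ?_, xy3_rot D hYt h01⟩, ⟨fun h c => xR_lift hYt h01 h c, yR_lift D hYt⟩,
    fun h c => comm_tau_x D hYt h01 h c, yR_conj D hYt⟩
  · intro k m a hkm ham hak t w
    exact D.far' hkm ham hak (xR_lift hYt h01 hkm t) (yR_lift D hYt a w)
  · intro a b hab u v
    exact D.comm_x hYt h01 hab (yR_lift D hYt a u) (yR_lift D hYt b v)

end Cfsg.Agent.Lib.BRot
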