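import Mathlib
import Cfsg.Agent.Lib.BRot
import Cfsg.Agent.Lib.OrthoFourMinus
import Cfsg.Agent.Lib.SteinSL2

/-!
# Sections of `SL₂`

Homomorphic images of `SL₂(K)` lift to central extensions as soon as lifts of the root groups commute; and the long root
elements give homomorphisms from `SL₂(F)`, in every characteristic and for every field.
-/

set_option autoImplicit false
set_option linter.unusedSectionVars false
set_option linter.unusedVariables false

namespace Cfsg.Agent.Lib.BSec

open Subgroup QuadraticMap Cfsg Cfsg.Agent.Lib.SL2Core Cfsg.Agent.Lib.SL2Bor Cfsg.Agent.Lib.StK Cfsg.Agent.Lib.StA Cfsg.Agent.Lib.StMain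
  Cfsg.Agent.Lib.SpinSys Cfsg.Agent.Lib.BSys Cfsg.Agent.Lib.BTarget Cfsg.Agent.Lib.BKer Cfsg.Agent.Lib.BLift Cfsg.Agent.Lib.OrthoBasic
  Cfsg.Agent.Lib.OrthoCount Cfsg.Agent.Lib.OrthoGen Cfsg.Agent.Lib.OrthoSiegel Cfsg.Agent.Lib.SpinTarget
open Cfsg.Agent.Lib.SpinLift (ind_iff idx TargetD sg sg_ind emb emb_uu emb_ll exists_t idx_sg exists_section)
open scoped commutatorElement

/-- A homomorphic image of `SL₂(K)`, in which lifts of the root group commute, lifts to a central extension. -/
theorem sl2_section {K Γ G : Type*} [Field K] [Fintype K] [Group Γ] [Group G] [Finite Γ] (hK : 4 ≤ Fintype.card K)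
    (φ : SL2 K →* G) (σ : Γ →* G) (hc : σ.ker ≤ center Γ) (hr : ∀ m, φ m ∈ σ.range)
    (hU : ∀ (s t : K) (a b : Γ), σ a = φ (uu s) → σ b = φ (uu t) → Commute a b) :
    ∃ f : SL2 K →* Γ, ∀ m, σ (f m) = φ m := by
  classical
  let P : Subgroup (Γ × SL2 K) := MonoidHom.eqLocus (σ.comp (MonoidHom.fst Γ _)) (φ.comp (MonoidHom.snd Γ _))
  have hP : ∀ p : Γ × SL2 K, p ∈ P ↔ σ p.1 = φ p.2 := fun p => Iff.rfl
  let π : P →* SL2 K := (MonoidHom.snd Γ _).comp P.subtype
  have hπs : Function.Surjective π := by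
    intro g
    obtain ⟨γ, hγ⟩ := hr g
    exact ⟨⟨(γ, g), hγ⟩, rfl⟩
  have hπc : π.ker ≤ center P := by
    rintro ⟨⟨γ, s⟩, hp⟩ hk
    have hs1 : s = 1 := hk
    subst hs1
    have h1 : σ γ = 1 := by
      have := (hP (γ, 1)).mp hp
      simpa using this
    have h2 : γ ∈ center Γ := hc h1
    rw [mem_center_iff]
    rintro ⟨⟨δ, t⟩, ht⟩
    apply Subtype.ext
    apply Prod.ext
    · exact mem_center_iff.mp h2 δ
    · show t * 1 = 1 * t
      simp
  have hstem := stem_of_central π hπs hπc (Cfsg.Agent.Lib.OrthoFourMinus.sl2_perfect hK)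
  have hUU : ∀ x ∈ (Cfsg.Agent.Lib.SteinSL2.UU K).comap (π.comp (commutator P).subtype),
      ∀ y ∈ (Cfsg.Agent.Lib.SteinSL2.UU K).comap (π.comp (commutator P).subtype), x * y = y * x := by
    rintro ⟨⟨⟨a, s⟩, ha⟩, hac⟩ hx ⟨⟨⟨b, t⟩, hb⟩, hbc⟩ hy
    obtain ⟨s', hs'⟩ := Cfsg.Agent.Lib.SteinSL2.mem_UU.mp (mem_comap.mp hx)
    obtain ⟨t', ht'⟩ := Cfsg.Agent.Lib.SteinSL2.mem_UU.mp (mem_comap.mp hy)
    have hs1 : s = uu s' := hs'.symm
    have ht1 : t = uu t' := ht'.symm
    have h1 := (hP (a, s)).mp ha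
    have h2 := (hP (b, t)).mp hb
    subst hs1 ht1
    have hcomm := hU s' t' a b h1 h2
    apply Subtype.ext
    apply Subtype.ext
    apply Prod.ext
    · exact hcomm
    · show uu s' * uu t' = uu t' * uu s'
      apply sl2_ext <;> simp [mul_apply2, add_comm]
  have hker := Cfsg.Agent.Lib.SteinSL2.ker_eq_bot_of_comm _ hstem hUU
  have hinj : Function.Injective (π.comp (commutator P).subtype) := (MonoidHom.ker_eq_bot_iff _).mp hker
  let e := MulEquiv.ofBijective _ ⟨hinj, hstem.1⟩
  refine ⟨(MonoidHom.fst Γ _).comp (P.subtype.comp ((commutator P).subtype.comp e.symm.toMonoidHom)), ?_⟩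
  intro s
  have h1 : π (e.symm s).1 = s := e.apply_symm_apply s
  have h2 := (e.symm s).1.2
  rw [hP] at h2
  have h3 : ((e.symm s).1.1).2 = s := h1
  rw [h3] at h2
  exact h2

/-! ### Fields with two elements -/

section Two

variable {F : Type*} [Field F] [Fintype F] (hF : Fintype.card F = 2)

local notation "Em" g:max i:max j:max => ((g : SL2 F) : Matrix (Fin 2) (Fin 2) F) i j

include hF

lemma two_cases (t : F) : t = 0 ∨ t = 1 := by
  classical
  have h1 : ({0, 1} : Finset F).card = 2 := Finset.card_pair zero_ne_one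
  have h2 : ({0, 1} : Finset F) = Finset.univ := Finset.eq_univ_of_card _ (by rw [h1, hF])
  have h3 : t ∈ ({0, 1} : Finset F) := by
    rw [h2]
    exact Finset.mem_univ t
  simpa using h3

lemma two_add : (1 : F) + 1 = 0 := by
  rcases two_cases hF ((1 : F) + 1) with h | h
  · exact h
  · exfalso
    have : (1 : F) = 0 := by linear_combination h
    exact one_ne_zero this

lemma two_neg (t : F) : -t = t := by
  have := two_add hF
  linear_combination -t * this

/-- Powers of an involution indexed by `F`. -/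
noncomputable def XX {G : Type*} [Group G] (A : G) (t : F) : G := by
  classical
  exact if t = 0 then 1 else A

omit hF in
lemma XX_zero {G : Type*} [Group G] (A : G) : XX A (0 : F) = 1 := by
  simp [XX]

omit hF in
lemma XX_one {G : Type*} [Group G] (A : G) : XX A (1 : F) = A := by
  simp [XX]

lemma XX_add {G : Type*} [Group G] {A : G} (hA : A * A = 1) (s t : F) : XX A (s + t) = XX A s * XX A t := by
  rcases two_cases hF s with rfl | rfl <;> rcases two_cases hF t with rfl | rfl
  · simp [XX_zero]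
  · simp [XX_zero]
  · simp [XX_zero]
  · rw [two_add hF, XX_zero, XX_one, hA]

lemma sl2_two_hom {G : Type*} [Group G] {A B : G} (hA : A * A = 1) (hB : B * B = 1) (hAB : A * B * A = B * A * B) :
    ∃ φ : SL2 F →* G, (∀ t, φ (uu t) = XX A t) ∧ (∀ t, φ (ll t) = XX B t) := by
  classical
  set W : G := A * B * A with hW
  set f : SL2 F → G := fun m => if Em m 1 0 = 0 then XX A (Em m 0 1) else XX A (Em m 0 0) * W * XX A (Em m 1 1) with hf
  have hAi : A⁻¹ = A := inv_eq_of_mul_eq_one_left hA
  have hdiag : ∀ n : SL2 F, Em n 1 0 = 0 → Em n 0 0 = 1 ∧ Em n 1 1 = 1 := by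
    intro n hn
    have hdet := det_entries n
    rw [hn, mul_zero, sub_zero] at hdet
    rcases two_cases hF (Em n 0 0) with h1 | h1
    · rw [h1, zero_mul] at hdet
      exact absurd hdet zero_ne_one
    · rw [h1, one_mul] at hdet
      exact ⟨h1, hdet⟩
  have hf1 : f 1 = 1 := by
    simp only [hf]
    have h10 : Em (1 : SL2 F) 1 0 = 0 := by simp
    have h01 : Em (1 : SL2 F) 0 1 = 0 := by simp
    rw [if_pos h10, h01, XX_zero]
  have hfu : ∀ t, f (uu t) = XX A t := by
    intro t
    simp only [hf, uu10, if_true, uu01]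
  have hAW : A * W * A = B := by
    calc A * W * A = (A * A) * B * (A * A) := by
          rw [hW]
          group
      _ = B := by rw [hA, one_mul, mul_one]
  have hfl1 : f (ll 1) = B := by
    simp only [hf]
    have h10 : Em (ll (1 : F)) 1 0 = 1 := rfl
    have h00 : Em (ll (1 : F)) 0 0 = 1 := rfl
    have h11 : Em (ll (1 : F)) 1 1 = 1 := rfl
    rw [if_neg (by rw [h10]; exact one_ne_zero), h00, h11, XX_one, hAW]
  have hfl : ∀ t, f (ll t) = XX B t := by
    intro t
    rcases two_cases hF t with rfl | rfl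
    · have h10 : Em (ll (0 : F)) 1 0 = 0 := rfl
      have h01 : Em (ll (0 : F)) 0 1 = 0 := rfl
      simp only [hf]
      rw [if_pos h10, h01, XX_zero, XX_zero]
    · rw [hfl1, XX_one]
  -- multiplicativity on the generators
  have hPu : ∀ (t : F) (n : SL2 F), f (uu t * n) = XX A t * f n := by
    intro t n
    simp only [hf]
    have e10 : Em (uu t * n) 1 0 = Em n 1 0 := by
      rw [mul_apply2]
      simp
    have e01 : Em (uu t * n) 0 1 = Em n 0 1 + t * Em n 1 1 := by
      rw [mul_apply2]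
      simp
    have e00 : Em (uu t * n) 0 0 = Em n 0 0 + t * Em n 1 0 := by
      rw [mul_apply2]
      simp
    have e11 : Em (uu t * n) 1 1 = Em n 1 1 := by
      rw [mul_apply2]
      simp
    rw [e10]
    by_cases h : Em n 1 0 = 0
    · rw [if_pos h, if_pos h, e01, (hdiag n h).2, mul_one, add_comm, XX_add hF hA]
    · have h1 : Em n 1 0 = 1 := (two_cases hF _).resolve_left h
      rw [if_neg h, if_neg h, e00, e11, h1, mul_one, add_comm, XX_add hF hA]
      group
  have hPl1 : ∀ n : SL2 F, f (ll 1 * n) = B * f n := by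
    intro n
    simp only [hf]
    have e10 : Em (ll (1 : F) * n) 1 0 = Em n 0 0 + Em n 1 0 := by
      rw [mul_apply2]
      simp
    have e01 : Em (ll (1 : F) * n) 0 1 = Em n 0 1 := by
      rw [mul_apply2]
      simp
    have e00 : Em (ll (1 : F) * n) 0 0 = Em n 0 0 := by
      rw [mul_apply2]
      simp
    have e11 : Em (ll (1 : F) * n) 1 1 = Em n 0 1 + Em n 1 1 := by
      rw [mul_apply2]
      simp
    have hdet := det_entries n
    by_cases h : Em n 1 0 = 0
    · have hd := hdiag n h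
      have h2 : ¬ (Em n 0 0 + Em n 1 0 = 0) := by
        rw [h, hd.1, add_zero]
        exact one_ne_zero
      rw [e10, if_neg h2, if_pos h, e00, e11, hd.1, hd.2, XX_one, add_comm, XX_add hF hA, XX_one, ← hAW]
      group
    · have h1 : Em n 1 0 = 1 := (two_cases hF _).resolve_left h
      rw [e10, if_neg h, h1]
      rcases two_cases hF (Em n 0 0) with h0 | h0
      · have h2 : ¬ ((0 : F) + 1 = 0) := by
          rw [zero_add]
          exact one_ne_zero
        have hn01 : Em n 0 1 = 1 := by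
          rw [h0, h1] at hdet
          have := two_neg hF (Em n 0 1)
          linear_combination hdet - this
        rw [h0, if_neg h2, e00, e11, h0, hn01, XX_add hF hA, XX_one, XX_zero, one_mul, hW]
        have e3 : B * (A * B * A) = A * B := by
          calc B * (A * B * A) = (B * A * B) * A := by group
            _ = (A * B * A) * A := by
                have hAB' : A * B * A = B * A * B := hAB
                rw [hAB']
            _ = A * B * (A * A) := by group
            _ = A * B := by rw [hA, mul_one]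
        calc A * B * A * (A * XX A (Em n 1 1)) = A * B * (A * A) * XX A (Em n 1 1) := by group
          _ = A * B * XX A (Em n 1 1) := by rw [hA, mul_one]
          _ = (B * (A * B * A)) * XX A (Em n 1 1) := by rw [e3]
          _ = B * (A * B * A * XX A (Em n 1 1)) := by group
      · have h2 : (1 : F) + 1 = 0 := two_add hF
        have hn01 : Em n 0 1 = Em n 1 1 + 1 := by
          rw [h0, h1] at hdet
          have := two_neg hF (Em n 0 1)
          have h5 := two_neg hF (1 : F)
          linear_combination -hdet + h5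
        rw [h0, if_pos h2, e01, hn01, XX_add hF hA, XX_one, hW]
        calc XX A (Em n 1 1) * A = A * XX A (Em n 1 1) := by
              rcases two_cases hF (Em n 1 1) with h3 | h3
              · rw [h3, XX_zero, one_mul, mul_one]
              · rw [h3, XX_one]
          _ = (B * B) * A * XX A (Em n 1 1) := by rw [hB, one_mul]
          _ = B * (B * A) * XX A (Em n 1 1) := by group
          _ = B * (A * A * B * A) * XX A (Em n 1 1) := by
              rw [hA, one_mul]
          _ = B * (A * (A * B * A) * XX A (Em n 1 1)) := by group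
  have hPl : ∀ (t : F) (n : SL2 F), f (ll t * n) = XX B t * f n := by
    intro t n
    rcases two_cases hF t with rfl | rfl
    · have : ll (0 : F) = 1 := by
        apply sl2_ext <;> simp
      rw [this, one_mul, XX_zero, one_mul]
    · rw [XX_one]
      exact hPl1 n
  have hmul : ∀ g n : SL2 F, f (g * n) = f g * f n := by
    intro g
    refine sl2_ind (fun g => ∀ n, f (g * n) = f g * f n) ?_ ?_ ?_ g
    · intro t n
      rw [hPu, hfu]
    · intro t n
      rw [hPl, hfl]
    · intro a b ha hb n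
      rw [mul_assoc, ha, hb, ha, mul_assoc]
  exact ⟨MonoidHom.mk' f hmul, hfu, hfl⟩

end Two

/-! ### Sections for the long root elements -/

section Long

variable {F : Type*} [Field F] [Fintype F] {W : Type*} [AddCommGroup W] [Module F W] {l : ℕ} {Γ : Type*} [Group Γ]
  {q : QuadraticForm F W} {x : Fin l ⊕ Fin l → Fin l ⊕ Fin l → F → Γ}

lemma sq_two (hF : Fintype.card F = 2) (hS : SysD x) {c d : Fin l ⊕ Fin l} (h : Ind c d) : x c d 1 * x c d 1 = 1 := by
  rw [← hS.add h, two_add hF, zero hS h]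

/-- The braid relation over the field with two elements. -/
lemma braid_two (hF : Fintype.card F = 2) (hS : SysD x) (hl : 3 ≤ l) {a b : Fin l ⊕ Fin l} (hab : Ind a b) :
    x a b 1 * x b a 1 * x a b 1 = x b a 1 * x a b 1 * x b a 1 := by
  obtain ⟨m, ham, hmb⟩ := third hl a b
  have hba := hab.symm
  have hma := ham.symm
  have hbm := hmb.symm
  have hneg : (-(1 * 1) : F) = 1 := by
    rw [mul_one]
    exact two_neg hF 1
  have e1 : x a b 1 * x a m 1 * (x a b 1)⁻¹ = x a m 1 := by
    rw [(row hS hab ham 1 1).eq, mul_inv_cancel_right]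
  have e2 : x b a 1 * x a m 1 * (x b a 1)⁻¹ = x b m 1 * x a m 1 := by
    have := c1' hS hba ham hbm 1 1
    rwa [mul_one] at this
  have e3 : x a b 1 * x b m 1 * (x a b 1)⁻¹ = x a m 1 * x b m 1 := by
    have := c1' hS hab hbm ham 1 1
    rwa [mul_one] at this
  have hwX : (x a b 1 * x b a 1 * x a b 1) * x a m 1 * (x a b 1 * x b a 1 * x a b 1)⁻¹ = x b m 1 := by
    calc (x a b 1 * x b a 1 * x a b 1) * x a m 1 * (x a b 1 * x b a 1 * x a b 1)⁻¹
        = x a b 1 * (x b a 1 * (x a b 1 * x a m 1 * (x a b 1)⁻¹) * (x b a 1)⁻¹) * (x a b 1)⁻¹ := by group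
      _ = x a b 1 * (x b m 1 * x a m 1) * (x a b 1)⁻¹ := by rw [e1, e2]
      _ = (x a b 1 * x b m 1 * (x a b 1)⁻¹) * (x a b 1 * x a m 1 * (x a b 1)⁻¹) := by group
      _ = x a m 1 * x b m 1 * x a m 1 := by rw [e3, e1]
      _ = x b m 1 * (x a m 1 * x a m 1) := by
          rw [(col hS ham hbm 1 1).eq]
          group
      _ = x b m 1 := by rw [sq_two hF hS ham, mul_one]
  have f1 : x a b 1 * x m b 1 * (x a b 1)⁻¹ = x m b 1 := by
    rw [(col hS hab hmb 1 1).eq, mul_inv_cancel_right]
  have f2 : x b a 1 * x m b 1 * (x b a 1)⁻¹ = x m a 1 * x m b 1 := by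
    have := c2' hS hmb hba hma 1 1
    rwa [hneg] at this
  have f3 : x a b 1 * x m a 1 * (x a b 1)⁻¹ = x m b 1 * x m a 1 := by
    have := c2' hS hma hab hmb 1 1
    rwa [hneg] at this
  have hwY : (x a b 1 * x b a 1 * x a b 1) * x m b 1 * (x a b 1 * x b a 1 * x a b 1)⁻¹ = x m a 1 := by
    calc (x a b 1 * x b a 1 * x a b 1) * x m b 1 * (x a b 1 * x b a 1 * x a b 1)⁻¹
        = x a b 1 * (x b a 1 * (x a b 1 * x m b 1 * (x a b 1)⁻¹) * (x b a 1)⁻¹) * (x a b 1)⁻¹ := by group
      _ = x a b 1 * (x m a 1 * x m b 1) * (x a b 1)⁻¹ := by rw [f1, f2]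
      _ = (x a b 1 * x m a 1 * (x a b 1)⁻¹) * (x a b 1 * x m b 1 * (x a b 1)⁻¹) := by group
      _ = x m b 1 * x m a 1 * x m b 1 := by rw [f3, f1]
      _ = x m a 1 * (x m b 1 * x m b 1) := by
          rw [(row hS hmb hma 1 1).eq]
          group
      _ = x m a 1 := by rw [sq_two hF hS hmb, mul_one]
  have eA : x a b 1 = ⁅x a m 1, x m b 1⁆ := by
    rw [hS.comm3 ham hmb hab, mul_one]
  have eB : x b a 1 = ⁅x b m 1, x m a 1⁆ := by
    rw [hS.comm3 hbm hma hba, mul_one]
  have hwA : (x a b 1 * x b a 1 * x a b 1) * x a b 1 * (x a b 1 * x b a 1 * x a b 1)⁻¹ = x b a 1 := by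
    conv_lhs =>
      arg 1
      arg 2
      rw [eA]
    rw [conj_comm, hwX, hwY, ← eB]
  have e5 : (x a b 1 * x b a 1 * x a b 1) * x a b 1 = x b a 1 * (x a b 1 * x b a 1 * x a b 1) :=
    mul_inv_eq_iff_eq_mul.mp hwA
  have e6 : x a b 1 * x b a 1 = x b a 1 * x a b 1 * x b a 1 * x a b 1 := by
    calc x a b 1 * x b a 1 = x a b 1 * x b a 1 * (x a b 1 * x a b 1) := by rw [sq_two hF hS hab, mul_one]
      _ = (x a b 1 * x b a 1 * x a b 1) * x a b 1 := by group
      _ = _ := by
          rw [e5]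
          group
  calc x a b 1 * x b a 1 * x a b 1 = x b a 1 * x a b 1 * x b a 1 * x a b 1 * x a b 1 := by rw [← e6]
    _ = x b a 1 * x a b 1 * x b a 1 * (x a b 1 * x a b 1) := by group
    _ = _ := by rw [sq_two hF hS hab, mul_one]

lemma phi_two (hF : Fintype.card F = 2) (hS : SysD x) (hl : 3 ≤ l) {a b : Fin l ⊕ Fin l} (hab : Ind a b) : ∃ φ : SL2 F →* Γ, Phi x a b φ := by
  obtain ⟨φ, h1, h2⟩ := sl2_two_hom hF (sq_two hF hS hab) (sq_two hF hS hab.symm) (braid_two hF hS hl hab)
  refine ⟨φ, fun c => ?_, fun c => ?_⟩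
  · rw [h1]
    rcases two_cases hF c with rfl | rfl
    · rw [XX_zero, zero hS hab]
    · rw [XX_one]
  · rw [h2]
    rcases two_cases hF c with rfl | rfl
    · rw [XX_zero, zero hS hab.symm]
    · rw [XX_one]

/-- A transversal through two independent indices. -/
lemma exists_pat {a b : Fin l ⊕ Fin l} (h : Ind a b) : ∃ t : Fin l → Bool, sg t (idx a) = a ∧ sg t (idx b) = b := by
  classical
  obtain ⟨t, ht⟩ := exists_t {a, b} (by
    intro u hu v hv huv
    simp only [Finset.mem_insert, Finset.mem_singleton] at hu hv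
    rcases hu with rfl | rfl <;> rcases hv with rfl | rfl
    · exact absurd rfl huv
    · exact h
    · exact h.symm
    · exact absurd rfl huv)
  exact ⟨t, ht a (by simp), ht b (by simp)⟩

/-- A section of `SL_l(F)` on the elementary matrices. -/
lemma section_E (hl : 3 ≤ l) (σ : Γ →* OG (QV (l := l) q)) (hc : σ.ker ≤ center Γ) (hS : SysD x)
    (hx : ∀ {a b : Fin l ⊕ Fin l}, Ind a b → ∀ c, σ (x a b c) = XV q a b c) (t : Fin l → Bool) {f : Matrix.SpecialLinearGroup (Fin l) F →* Γ}
    (hf : ∀ g, σ (f g) = ((embO q).comp (rhoT t)) g) {i j : Fin l} (h : i ≠ j) (c : F) : f (E i j c) = x (sg t i) (sg t j) c := by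
  have hfE : ∀ {i j : Fin l}, i ≠ j → ∀ c, σ (f (E i j c)) = XV q (sg t i) (sg t j) c := by
    intro i j h c
    rw [hf]
    show embO q (rhoT t (E i j c)) = _
    rw [rhoT_E t h]
    rfl
  obtain ⟨k, hki, hkj⟩ := exists_other2 (by simpa using hl) i j
  have e1 : f (E i j c) = ⁅f (E i k c), f (E k j 1)⁆ := by
    rw [← map_commutatorElement, E_comm3 hki.symm hkj h, mul_one]
  have e2 : x (sg t i) (sg t j) c = ⁅x (sg t i) (sg t k) c, x (sg t k) (sg t j) 1⁆ := by
    rw [hS.comm3 (sg_ind t hki.symm) (sg_ind t hkj) (sg_ind t h), mul_one]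
  rw [e1, e2]
  apply comm_eq_of_lifts σ hc
  · rw [hfE hki.symm, hx (sg_ind t hki.symm)]
  · rw [hfE hkj, hx (sg_ind t hkj)]

lemma phi_good [Finite Γ] (hg : Good (Fin l) F) (σ : Γ →* OG (QV (l := l) q)) (hc : σ.ker ≤ center Γ) (hr : siegelE (QV (l := l) q) ≤ σ.range)
    (hS : SysD x) (hx : ∀ {a b : Fin l ⊕ Fin l}, Ind a b → ∀ c, σ (x a b c) = XV q a b c) {a b : Fin l ⊕ Fin l} (hab : Ind a b) :
    ∃ φ : SL2 F →* Γ, Phi x a b φ := by
  classical
  obtain ⟨t, ha, hb⟩ := exists_pat hab
  have hij := ind_iff.mp hab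
  have hl2 : 3 ≤ l := by simpa using hg.three
  obtain ⟨f, hf⟩ := exists_section hg σ hc ((embO q).comp (rhoT t)) (fun g => hr (embO_mem q (rhoT_mem (by omega) t g)))
  have hE : ∀ {i j : Fin l}, i ≠ j → ∀ c, f (E i j c) = x (sg t i) (sg t j) c :=
    fun h c => section_E hl2 σ hc hS hx t hf h c
  refine ⟨f.comp (emb hij), fun c => ?_, fun c => ?_⟩
  · show f (emb hij (uu c)) = _
    rw [emb_uu, hE hij, ha, hb]
  · show f (emb hij (ll c)) = _
    rw [emb_ll, hE hij.symm, ha, hb]

lemma phi_big [Finite Γ] (hK : 4 ≤ Fintype.card F) (hl : 3 ≤ l) (σ : Γ →* OG (QV (l := l) q)) (hc : σ.ker ≤ center Γ)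
    (hr : siegelE (QV (l := l) q) ≤ σ.range) {y : Fin l ⊕ Fin l → W → Γ}
    (hS : SysD x) (hρ : ActB σ x y) {a b : Fin l ⊕ Fin l} (hab : Ind a b) :
    ∃ φ : SL2 F →* Γ, Phi x a b φ := by
  classical
  obtain ⟨t, ha, hb⟩ := exists_pat hab
  have hij := ind_iff.mp hab
  set φ' : SL2 F →* OG (QV (l := l) q) := (embO q).comp ((rhoT t).comp (emb hij)) with hφ'
  have hu : ∀ c, φ' (uu c) = XV q a b c := by
    intro c
    show embO q (rhoT t (emb hij (uu c))) = _
    rw [emb_uu, rhoT_E t hij, ha, hb]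
    rfl
  have hl' : ∀ c, φ' (ll c) = XV q b a c := by
    intro c
    show embO q (rhoT t (emb hij (ll c))) = _
    rw [emb_ll, rhoT_E t hij.symm, ha, hb]
    rfl
  have hUc : ∀ (s r : F) (a' b' : Γ), σ a' = φ' (uu s) → σ b' = φ' (uu r) → Commute a' b' := by
    intro s r a' b' h1 h2
    have e : ⁅a', b'⁆ = ⁅x a b s, x a b r⁆ := by
      apply comm_eq_of_lifts σ hc
      · rw [h1, hu, hρ.hx hab]
      · rw [h2, hu, hρ.hx hab]
    have e2 : Commute (x a b s) (x a b r) := by
      show _ * _ = _ * _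
      rw [← hS.add hab, ← hS.add hab, add_comm]
    rw [commutatorElement_eq_one_iff_commute.mpr e2] at e
    exact commutatorElement_eq_one_iff_commute.mp e
  obtain ⟨f, hf⟩ := sl2_section hK φ' σ hc (fun m => hr (embO_mem q (rhoT_mem (by omega) t _))) hUc
  obtain ⟨d, hd0, hd2⟩ := Cfsg.Agent.Lib.SpPerfect.exists_ne_zero_sq_ne_one hK
  have hφP : Phi (XV q) a b φ' := ⟨hu, hl'⟩
  have hActId : ActB (MonoidHom.id (OG (QV (l := l) q))) (XV q) (YO q) := ⟨fun _ _ => rfl, fun _ _ => rfl⟩
  have hdiag : IsDiag (σ (f (borEl d hd0 0))) (Dg a b d) := by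
    rw [hf]
    exact diag_phi' hActId hab hφP d hd0
  set τ := f (borEl d hd0 0) with hτ
  have hτinv : τ⁻¹ = f (borEl d hd0 0)⁻¹ := by rw [hτ, map_inv]
  have hcenU : ∀ c, x a b c * (f (uu c))⁻¹ ∈ center Γ := by
    intro c
    apply hc
    rw [MonoidHom.mem_ker, map_mul, map_inv, hf, hu, hρ.hx hab, mul_inv_cancel]
  have hcenL : ∀ c, x b a c * (f (ll c))⁻¹ ∈ center Γ := by
    intro c
    apply hc
    rw [MonoidHom.mem_ker, map_mul, map_inv, hf, hl', hρ.hx hab.symm, mul_inv_cancel]
  have e0 : ∀ c : F, borEl d hd0 0 * uu c * (borEl d hd0 0)⁻¹ = uu (d ^ 2 * c) := by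
    intro c
    apply sl2_ext <;> simp [mul_apply2, inv00, inv01, inv10, inv11] <;> field_simp
  have e0' : ∀ c : F, borEl d hd0 0 * ll c * (borEl d hd0 0)⁻¹ = ll ((d ^ 2)⁻¹ * c) := by
    intro c
    apply sl2_ext <;> simp [mul_apply2, inv00, inv01, inv10, inv11] <;> field_simp
  have hU : ∀ c, f (uu c) = x a b c := by
    intro c
    symm
    refine defect (X := F) (A := fun c : F => x a b c) (S := fun c : F => f (uu c)) (lam := d ^ 2) hcenU (fun u v => hS.add hab u v)
      (fun u v => ?_) hd2 (τ := τ) (fun u => ?_) (fun u => ?_) c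
    · rw [← map_mul]
      congr 1
      apply sl2_ext <;> simp [mul_apply2, add_comm]
    · simp only [smul_eq_mul]
      rw [conj_x hc hS hρ hl hdiag hab, Dg_left, Dg_right hab, inv_inv]
      congr 1
      ring
    · simp only [smul_eq_mul]
      rw [hτinv, hτ, ← map_mul, ← map_mul, e0]
  have hL : ∀ c, f (ll c) = x b a c := by
    intro c
    symm
    have hd3 : (d ^ 2)⁻¹ ≠ 1 := fun e => hd2 (by
      have := congrArg (·⁻¹) e
      simpa using this)
    refine defect (X := F) (A := fun c : F => x b a c) (S := fun c : F => f (ll c)) (lam := (d ^ 2)⁻¹) hcenL (fun u v => hS.add hab.symm u v)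
      (fun u v => ?_) hd3 (τ := τ) (fun u => ?_) (fun u => ?_) c
    · rw [← map_mul]
      congr 1
      apply sl2_ext <;> simp [mul_apply2, add_comm]
    · simp only [smul_eq_mul]
      rw [conj_x hc hS hρ hl hdiag hab.symm, Dg_left, Dg_right hab]
      congr 1
      field_simp
    · simp only [smul_eq_mul]
      rw [hτinv, hτ, ← map_mul, ← map_mul, e0']
  exact ⟨f, hU, hL⟩

/-- The sections for the long root elements exist. -/
theorem exists_secP [Finite Γ] (hl : 3 ≤ l) (σ : Γ →* OG (QV (l := l) q)) (hc : σ.ker ≤ center Γ)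
    (hr : siegelE (QV (l := l) q) ≤ σ.range) {y : Fin l ⊕ Fin l → W → Γ} (hS : SysD x) (hρ : ActB σ x y) :
    ∃ Φ : Fin l ⊕ Fin l → Fin l ⊕ Fin l → SL2 F →* Γ, SecP x Φ := by
  classical
  have key : ∀ {a b : Fin l ⊕ Fin l}, Ind a b → ∃ φ : SL2 F →* Γ, Phi x a b φ := by
    intro a b hab
    have h2 : 2 ≤ Fintype.card F := Fintype.one_lt_card
    by_cases h4 : 4 ≤ Fintype.card F
    · exact phi_big h4 hl σ hc hr hS hρ hab
    · by_cases h3 : Fintype.card F = 3
      · have hg : Good (Fin l) F := by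
          refine ⟨by simpa using hl, fun _ => ?_, fun _ => Or.inr h3⟩
          apply exists_pow_ne_one
          rw [h3]
          norm_num
        exact phi_good hg σ hc hr hS (fun h c => hρ.hx h c) hab
      · have h5 : Fintype.card F = 2 := by omega
        exact phi_two h5 hS hl hab
  refine ⟨fun a b => if h : Ind a b then (key h).choose else 1, ⟨fun {a b} h => ?_⟩⟩
  simp only [dif_pos h]
  exact (key h).choose_spec

end Long

end Cfsg.Agent.Lib.BSec
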