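import Mathlib
import Cfsg.Agent.Lib.RigC
import Cfsg.Agent.Lib.DetChar

/-!
# Involutions in perfect groups: values modulo four; elements with a class of odd size
-/

set_option autoImplicit false
set_option linter.style.haveILetI false
set_option linter.unusedSectionVars false
set_option linter.unusedVariables false

namespace Cfsg.Agent.Lib.BT97A

open Cfsg Cfsg.Agent.Lib.CharBasic Subgroup
open scoped ComplexConjugate

theorem multiset_pm (S : Multiset ℂ) (h : ∀ x ∈ S, x = 1 ∨ x = -1) :
    ∃ k : ℕ, S.sum = (S.card : ℂ) - 2 * k ∧ S.prod = (-1) ^ k := by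
  induction S using Multiset.induction_on with
  | empty => exact ⟨0, by simp, by simp⟩
  | cons a s ih =>
    obtain ⟨k, h1, h2⟩ := ih (fun x hx => h x (Multiset.mem_cons_of_mem hx))
    rcases h a (Multiset.mem_cons_self a s) with rfl | rfl
    · refine ⟨k, ?_, ?_⟩
      · rw [Multiset.sum_cons, Multiset.card_cons, h1]
        push_cast
        ring
      · rw [Multiset.prod_cons, h2, one_mul]
    · refine ⟨k + 1, ?_, ?_⟩
      · rw [Multiset.sum_cons, Multiset.card_cons, h1]
        push_cast
        ring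
      · rw [Multiset.prod_cons, h2, pow_succ]
        ring

variable {G : Type*} [Group G]

/-- The trace and the determinant of an involution. -/
theorem rep_invol {n : ℕ} (ρ : Representation ℂ G (Fin n → ℂ)) {z : G} (hz : z * z = 1) :
    ∃ k : ℕ, ρ.character z = (n : ℂ) - 2 * k ∧ LinearMap.det (ρ z) = (-1) ^ k := by
  set T : Module.End ℂ (Fin n → ℂ) := ρ z with hT
  have hTT : T * T = 1 := by
    rw [hT, ← map_mul, hz, map_one]
  have hs : T.charpoly.Splits := IsAlgClosed.splits _
  have hroots : ∀ x ∈ T.charpoly.roots, x = 1 ∨ x = -1 := by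
    intro x hx
    have h1 : T.charpoly.IsRoot x := (Polynomial.mem_roots'.1 hx).2
    have h2 := (Module.End.hasEigenvalue_iff_isRoot_charpoly T x).2 h1
    obtain ⟨v, hv⟩ := h2.exists_hasEigenvector
    have h3 : T v = x • v := hv.apply_eq_smul
    have h4 : (T * T) v = (x * x) • v := by
      rw [Module.End.mul_apply, h3, map_smul, h3, smul_smul]
    rw [hTT, Module.End.one_apply] at h4
    have h5 : (x * x - 1) • v = 0 := by
      rw [sub_smul, ← h4, one_smul, sub_self]
    have h6 : x * x - 1 = 0 := (smul_eq_zero.1 h5).resolve_right hv.2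
    have h7 : (x - 1) * (x + 1) = 0 := by
      linear_combination h6
    rcases mul_eq_zero.1 h7 with h8 | h8
    · left
      linear_combination h8
    · right
      linear_combination h8
  obtain ⟨k, h1, h2⟩ := multiset_pm _ hroots
  have hcard : (T.charpoly.roots.card : ℂ) = n := by
    have h3 := Polynomial.splits_iff_card_roots.1 hs
    rw [h3, LinearMap.charpoly_natDegree, Module.finrank_fin_fun]
  refine ⟨k, ?_, ?_⟩
  · have h3 := Module.End.trace_eq_sum_roots_charpoly_of_splits hs
    show LinearMap.trace ℂ _ T = _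
    rw [h3, h1, hcard]
  · have h3 := Module.End.det_eq_prod_roots_charpoly_of_splits hs
    rw [h3, h2]

variable [Finite G]

/-- Determinants in perfect groups are trivial. -/
theorem det_eq_one (hperf : _root_.commutator G = ⊤) {n : ℕ} (ρ : Representation ℂ G (Fin n → ℂ)) (g : G) :
    LinearMap.det (ρ g) = 1 := by
  set φ := Cfsg.Agent.Lib.DetChar.detHom ρ with hφ
  have hker : φ.ker = ⊤ := by
    rw [eq_top_iff, ← hperf, _root_.commutator_def, Subgroup.commutator_le]
    intro a _ b _
    rw [MonoidHom.mem_ker, commutatorElement_def, map_mul, map_mul, map_mul, map_inv, map_inv]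
    exact by
      rw [mul_comm (φ a) (φ b)]
      group
  have h1 : g ∈ φ.ker := by
    rw [hker]
    trivial
  rw [MonoidHom.mem_ker] at h1
  rw [← Cfsg.Agent.Lib.DetChar.detHom_val, ← hφ, h1]
  rfl

/-- The value of a character at an involution of a perfect group, modulo four. -/
theorem val_invol (hperf : _root_.commutator G = ⊤) {χ : G → ℂ} (hχ : IsCharacter G χ) {z : G} (hz : z * z = 1) :
    ∃ k : ℤ, χ z = (((charDegree χ : ℤ) - 4 * k : ℤ) : ℂ) := by
  obtain ⟨n, ρ, rfl⟩ := hχ
  obtain ⟨k, h1, h2⟩ := rep_invol ρ hz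
  have hdeg : charDegree ρ.character = n := by
    rw [charDegree, char_one_eq_rep]
    simp
  rw [det_eq_one hperf ρ z] at h2
  have heven : Even k := by
    by_contra hodd
    rw [Nat.not_even_iff_odd] at hodd
    rw [hodd.neg_one_pow] at h2
    norm_num at h2
  obtain ⟨m, hm⟩ := heven
  refine ⟨m, ?_⟩
  rw [h1, hdeg, hm]
  push_cast
  ring

/-- An involution in the centre of a Sylow `2`-subgroup. -/
theorem exists_central_invol (h2 : 2 ∣ Nat.card G) :
    ∃ z : G, z * z = 1 ∧ z ≠ 1 ∧ ¬ 2 ∣ (centralizer ({z} : Set G)).index := by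
  classical
  haveI : Fact (Nat.Prime 2) := ⟨Nat.prime_two⟩
  obtain ⟨Q⟩ : Nonempty (Sylow 2 G) := inferInstance
  have hQ := Sylow.card_eq_multiplicity Q
  have hne : (Nat.card G).factorization 2 ≠ 0 := by
    intro h0
    have h3 := (Nat.Prime.dvd_iff_one_le_factorization Nat.prime_two Nat.card_pos.ne').1 h2
    omega
  have hnt : Nontrivial (Q : Subgroup G) := by
    rw [← Finite.one_lt_card_iff_nontrivial, hQ]
    exact Nat.one_lt_two_pow hne
  have hpg : IsPGroup 2 (Q : Subgroup G) := Q.isPGroup'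
  haveI hcn := hpg.center_nontrivial
  have hdvd : 2 ∣ Nat.card (center (Q : Subgroup G)) := by
    obtain ⟨k, hk⟩ := IsPGroup.iff_card.1 (hpg.to_subgroup (center (Q : Subgroup G)))
    rw [hk]
    have hk0 : k ≠ 0 := by
      rintro rfl
      have := Finite.one_lt_card_iff_nontrivial.2 hcn
      rw [hk] at this
      simp at this
    exact dvd_pow_self 2 hk0
  obtain ⟨z₀, hz₀⟩ := exists_prime_orderOf_dvd_card' 2 hdvd
  obtain ⟨z, hz⟩ : ∃ z : G, z = ((z₀ : (Q : Subgroup G)) : G) := ⟨_, rfl⟩
  have hzord : orderOf z = 2 := by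
    rw [hz, Subgroup.orderOf_coe, Subgroup.orderOf_coe]
    exact hz₀
  have hz2 : z * z = 1 := by
    rw [← pow_two, ← hzord, pow_orderOf_eq_one]
  have hz1 : z ≠ 1 := by
    rintro rfl
    simp at hzord
  refine ⟨z, hz2, hz1, ?_⟩
  have hle : (Q : Subgroup G) ≤ centralizer ({z} : Set G) := by
    intro q hq
    rw [mem_centralizer_iff]
    rintro _ rfl
    rw [hz]
    have h3 := (Subgroup.mem_center_iff.1 z₀.2) ⟨q, hq⟩
    exact (congrArg Subtype.val h3).symm
  intro h4
  have h5 := Subgroup.index_dvd_of_le hle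
  exact Q.not_dvd_index (h4.trans h5)

variable [Fintype G] [DecidableEq G]

/-- Divisibility from the integrality of a central character at an element with a class of odd size. -/
theorem two_pow_dvd_val (χ : IrrCharacter G) {z : G} (hodd : ¬ 2 ∣ (centralizer ({z} : Set G)).index) {n : ℤ}
    (hn : (χ : G → ℂ) z = n) {k : ℕ} (hk : 2 ^ k ∣ charDegree (χ : G → ℂ)) : (2 : ℤ) ^ k ∣ n := by
  have h1 := Cfsg.Agent.Lib.BlockIdem.isIntegral_centralChar χ z
  unfold centralChar at h1
  rw [hn, Cfsg.Agent.Lib.CharKernel.one_eq_charDegree (IsIrrCharacter.isCharacter χ.2)] at h1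
  have hd0 := Cfsg.Agent.Lib.CharKernel.charDegree_ne_zero χ.2
  set I := (centralizer ({z} : Set G)).index with hI
  have h2 : charDegree (χ : G → ℂ) ∣ I * n.natAbs := by
    apply Cfsg.Agent.Lib.CharIntegrality.dvd_of_isIntegral_div hd0
    rcases Int.natAbs_eq n with h3 | h3
    · have h4 : ((I * n.natAbs : ℕ) : ℂ) / (charDegree (χ : G → ℂ) : ℂ) = (I : ℂ) * (n : ℂ) / (charDegree (χ : G → ℂ) : ℂ) := by
        congr 1
        push_cast
        congr 1
        conv_rhs => rw [h3]
        simp
      rw [h4]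
      exact h1
    · have h4 : ((I * n.natAbs : ℕ) : ℂ) / (charDegree (χ : G → ℂ) : ℂ) = -((I : ℂ) * (n : ℂ) / (charDegree (χ : G → ℂ) : ℂ)) := by
        rw [← neg_div]
        congr 1
        push_cast
        rw [← mul_neg]
        congr 1
        conv_rhs => rw [h3]
        simp
      rw [h4]
      exact h1.neg
  have h3 : 2 ^ k ∣ I * n.natAbs := hk.trans h2
  have hcop : Nat.Coprime (2 ^ k) I := Nat.Coprime.pow_left _ ((Nat.Prime.coprime_iff_not_dvd Nat.prime_two).2 hodd)
  have h4 : 2 ^ k ∣ n.natAbs := hcop.dvd_of_dvd_mul_left h3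
  have h5 : ((2 ^ k : ℕ) : ℤ) ∣ n := Int.natCast_dvd.2 h4
  simpa using h5

end Cfsg.Agent.Lib.BT97A
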