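import Mathlib
import Cfsg.Agent.Lib.BT97A

/-!
# Brauer-Tuan: the exceptional character of degree prime to `q`

`|G| = p q^b g₀`, `g₀ < p - 1`.  Block orthogonality modulo `q` gives a non-trivial member of the principal `p`-block of degree
prime to `q`; its degree divides `g₀`, so it is exceptional, of degree `t` or `p - t`, and `O_{p'}(C(P))` lies in its kernel.
-/

set_option autoImplicit false
set_option linter.style.haveILetI false
set_option linter.unusedSectionVars false
set_option linter.unusedVariables false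

namespace Cfsg.Agent.Lib.BT97B

open Cfsg Cfsg.Agent.Lib.CharBasic Subgroup Cfsg.Agent.Lib.DefectOne Cfsg.Agent.Lib.CharInd
open Cfsg.Agent.Lib.TICent Cfsg.Agent.Lib.RigA Cfsg.Agent.Lib.RangeStruct Cfsg.Agent.Lib.RigB Cfsg.Agent.Lib.RigC
open scoped ComplexConjugate

variable {G : Type*} [Group G] [Fintype G] [DecidableEq G] {p : ℕ} {P C : Subgroup G} {r : ↥C →* ↥P} {e₀ t : ℕ}

/-- A degree prime to `p` and `q` divides `g₀`. -/
theorem deg_dvd_of_coprime {q b g₀ : ℕ} (hp : p.Prime) (hq : q.Prime) (hG' : Nat.card G = p * q ^ b * g₀) (χ : IrrCharacter G)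
    (h1 : ¬ p ∣ charDegree (χ : G → ℂ)) (h2 : ¬ q ∣ charDegree (χ : G → ℂ)) : charDegree (χ : G → ℂ) ∣ g₀ := by
  have h := Cfsg.Agent.Lib.CharKernel.charDegree_dvd_card χ.2
  rw [hG'] at h
  have hc1 : Nat.Coprime (charDegree (χ : G → ℂ)) p := ((Nat.Prime.coprime_iff_not_dvd hp).2 h1).symm
  have hc2 : Nat.Coprime (charDegree (χ : G → ℂ)) (q ^ b) :=
    Nat.Coprime.pow_right _ ((Nat.Prime.coprime_iff_not_dvd hq).2 h2).symm
  exact (Nat.Coprime.mul_right hc1 hc2).dvd_of_dvd_mul_left h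

theorem deg_oneI : charDegree ((oneIrr G : IrrCharacter G) : G → ℂ) = 1 := by
  have h := Cfsg.Agent.Lib.CharKernel.one_eq_charDegree (IsIrrCharacter.isCharacter (oneIrr G).2)
  have h2 : ((oneIrr G : IrrCharacter G) : G → ℂ) 1 = 1 := rfl
  rw [h2] at h
  exact_mod_cast h.symm

variable [Fintype C] [Fintype P] [Fintype r.ker] [Fintype (↥P →* ℂˣ)]

/-- The trivial character and the coefficients. -/
theorem a_one_trivial (D : Dat p P C r t) (H : Hyp p P C r e₀) : D.a 1 (oneIrr G) = 1 := by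
  have h := D.ha 1 (oneIrr G)
  have h1 : (chi ((1 : ↥P →* ℂˣ).comp r)) = fun _ : ↥C => (1 : ℂ) := by
    funext c
    simp [chi]
  have h2 : (fun c : ↥C => ((oneIrr G : IrrCharacter G) : G → ℂ) c) = fun _ : ↥C => (1 : ℂ) := rfl
  rw [h1, h2, classInner_irr_self isIrrCharacter_one] at h
  exact_mod_cast h.symm

theorem a_ne_trivial (D : Dat p P C r t) (H : Hyp p P C r e₀) (f : NT P) : D.a f.1 (oneIrr G) = 0 := by
  have h := D.ha f.1 (oneIrr G)
  have h2 : (fun c : ↥C => ((oneIrr G : IrrCharacter G) : G → ℂ) c) = fun _ : ↥C => (1 : ℂ) := rfl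
  have h3 : chi (f.1.comp r) ≠ fun _ : ↥C => (1 : ℂ) := by
    intro h4
    apply f.2
    apply MonoidHom.ext
    intro z
    apply Units.ext
    have h5 := congrFun h4 ⟨z, H.le z.2⟩
    unfold chi at h5
    have h6 : r ⟨z, H.le z.2⟩ = z := H.id z
    simp only [MonoidHom.comp_apply, h6] at h5
    simpa using h5
  rw [h2, classInner_irr_ne (isIrr_chi _) isIrrCharacter_one h3] at h
  exact_mod_cast h.symm

/-- The relation at the identity. -/
theorem rel_one (D : Dat p P C r t) (hp : p.Prime) (f : NT P) :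
    ∑ χ : IrrCharacter G, D.w χ * (charDegree (χ : G → ℂ) : ℤ) + D.σ * (charDegree ((D.ξ f : IrrCharacter G) : G → ℂ) : ℤ) = 0 := by
  have h := D.hreg f 1 (by simpa using hp.one_lt.ne')
  simp_rw [fun χ : IrrCharacter G => Cfsg.Agent.Lib.CharKernel.one_eq_charDegree (IsIrrCharacter.isCharacter χ.2)] at h
  exact_mod_cast h

variable (H : Hyp p P C r e₀)
include H

/-- A non-trivial member with `w ≠ 0` has degree at least `p - 1`. -/
theorem le_of_w (hperf : _root_.commutator G = ⊤) (D : Dat p P C r t) (hcard : Nat.card P = p) {χ : IrrCharacter G}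
    (hχ : χ ≠ oneIrr G) (hw : D.w χ ≠ 0) (f₀ : NT P) :
    (¬ p ∣ charDegree (χ : G → ℂ)) ∧ p - 1 ≤ charDegree (χ : G → ℂ) := by
  have hp := H.prime
  rcases D.hval χ with h | h | h
  · exact absurd h hw
  · obtain ⟨b, hb, h1⟩ := deg_plus H D hcard h f₀
    constructor
    · intro h2
      have h3 : p ∣ charDegree (χ : G → ℂ) + 1 := ⟨b, by rw [h1]; ring⟩
      have h4 := (Nat.dvd_add_right h2).1 h3
      exact hp.one_lt.ne' (Nat.dvd_one.1 h4)
    · have : p ≤ b * p := Nat.le_mul_of_pos_left _ hb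
      omega
  · obtain ⟨u, h1⟩ := deg_minus H D hcard h f₀
    constructor
    · intro h2
      have h3 : p ∣ u * p := ⟨u, by ring⟩
      rw [h1] at h2
      have h4 := (Nat.dvd_add_right h3).1 h2
      exact hp.one_lt.ne' (Nat.dvd_one.1 h4)
    · rcases Nat.eq_zero_or_pos u with hu | hu
      · exfalso
        apply hχ
        apply eq_one_of_degree_one hperf
        rw [h1, hu]
        simp
      · have : p ≤ u * p := Nat.le_mul_of_pos_left _ hu
        omega

/-- A non-trivial member with `w ≠ 0` has degree divisible by `q`. -/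
theorem q_dvd_of_w (hperf : _root_.commutator G = ⊤) (D : Dat p P C r t) (hcard : Nat.card P = p) {q b g₀ : ℕ} (hq : q.Prime)
    (hG' : Nat.card G = p * q ^ b * g₀) (hg : g₀ < p - 1) {χ : IrrCharacter G} (hχ : χ ≠ oneIrr G) (hw : D.w χ ≠ 0) (f₀ : NT P) :
    q ∣ charDegree (χ : G → ℂ) := by
  by_contra h
  obtain ⟨h1, h2⟩ := le_of_w H hperf D hcard hχ hw f₀
  have h3 := deg_dvd_of_coprime H.prime hq hG' χ h1 h
  have hg0 : 0 < g₀ := by
    rcases Nat.eq_zero_or_pos g₀ with h4 | h4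
    · rw [h4, mul_zero] at hG'
      exact absurd hG' Nat.card_pos.ne'
    · exact h4
  have h5 := Nat.le_of_dvd hg0 h3
  omega

/-- Fourier at the identity. -/
theorem sum_a_eq_avg (D : Dat p P C r t) (χ : IrrCharacter G) :
    ((∑ f : ↥P →* ℂˣ, D.a f χ : ℕ) : ℂ) = (Nat.card r.ker : ℂ)⁻¹ * ∑ k : r.ker, (χ : G → ℂ) ((k : ↥C) : G) := by
  have h := avg_eq_sum H D.ha χ 1
  unfold avg at h
  simp only [OneMemClass.coe_one, one_mul] at h
  rw [h]
  push_cast
  refine Finset.sum_congr rfl fun f _ => ?_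
  simp [chi]

/-- The multiplicities sum to at most the degree; in case of equality `ker r` is in the kernel. -/
theorem sum_a_le (D : Dat p P C r t) (χ : IrrCharacter G) :
    ∑ f : ↥P →* ℂˣ, D.a f χ ≤ charDegree (χ : G → ℂ) ∧
      (∑ f : ↥P →* ℂˣ, D.a f χ = charDegree (χ : G → ℂ) → ∀ k : r.ker, (χ : G → ℂ) ((k : ↥C) : G) = (χ : G → ℂ) 1) := by
  classical
  have h0 := sum_a_eq_avg H D χ
  obtain ⟨n, ρ, hρ⟩ := IsIrrCharacter.isCharacter χ.2
  have hdeg : charDegree (χ : G → ℂ) = n := by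
    rw [← hρ, charDegree, char_one_eq_rep]
    simp
  have hone : (χ : G → ℂ) 1 = n := by
    rw [Cfsg.Agent.Lib.CharKernel.one_eq_charDegree (IsIrrCharacter.isCharacter χ.2), hdeg]
  have hnorm : ∀ g : G, ‖(χ : G → ℂ) g‖ ≤ n := by
    intro g
    rw [← hρ]
    simpa using Cfsg.Agent.Lib.CharValues.norm_character_le ρ g
  have hK : 0 < Nat.card r.ker := Nat.card_pos
  have hK' : (0 : ℝ) < Nat.card r.ker := by exact_mod_cast hK
  have hKc : (Nat.card r.ker : ℂ) ≠ 0 := by exact_mod_cast hK.ne'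
  have h1 : ((∑ f : ↥P →* ℂˣ, D.a f χ : ℕ) : ℂ) * (Nat.card r.ker : ℂ) = ∑ k : r.ker, (χ : G → ℂ) ((k : ↥C) : G) := by
    rw [h0]
    field_simp
  have h2 : ((∑ f : ↥P →* ℂˣ, D.a f χ : ℕ) : ℝ) * (Nat.card r.ker : ℝ) = ∑ k : r.ker, ((χ : G → ℂ) ((k : ↥C) : G)).re := by
    have := congrArg Complex.re h1
    rw [Complex.re_sum] at this
    rw [← this]
    simp
  have hre : ∀ k : r.ker, ((χ : G → ℂ) ((k : ↥C) : G)).re ≤ n := fun k =>
    (Complex.re_le_norm _).trans (hnorm _)
  have h3 : ∑ k : r.ker, ((χ : G → ℂ) ((k : ↥C) : G)).re ≤ ∑ k : r.ker, (n : ℝ) := Finset.sum_le_sum fun k _ => hre k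
  have hcardK : ∑ k : r.ker, (n : ℝ) = (n : ℝ) * (Nat.card r.ker : ℝ) := by
    rw [Finset.sum_const, Finset.card_univ, nsmul_eq_mul, ← Nat.card_eq_fintype_card, mul_comm]
  rw [hcardK] at h3
  rw [hdeg]
  constructor
  · rw [← h2] at h3
    have h4 := le_of_mul_le_mul_right h3 hK'
    exact_mod_cast h4
  · intro heq k
    have h5 : ∑ k : r.ker, ((χ : G → ℂ) ((k : ↥C) : G)).re = ∑ k : r.ker, (n : ℝ) := by
      rw [← h2, heq, hcardK]
    have h6 := (Finset.sum_eq_sum_iff_of_le (fun k _ => hre k)).1 h5 k (Finset.mem_univ k)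
    have h7 := hnorm ((k : ↥C) : G)
    rw [hone]
    apply Complex.ext
    · simpa using h6
    · simp only [Complex.natCast_im]
      have h8 : ‖(χ : G → ℂ) ((k : ↥C) : G)‖ ^ 2 = ((χ : G → ℂ) ((k : ↥C) : G)).re ^ 2 + ((χ : G → ℂ) ((k : ↥C) : G)).im ^ 2 := by
        rw [Complex.sq_norm, Complex.normSq_apply]
        ring
      rw [h6] at h8
      have h9 : (0 : ℝ) ≤ n := by positivity
      have h10 : ‖(χ : G → ℂ) ((k : ↥C) : G)‖ ^ 2 ≤ (n : ℝ) ^ 2 := by
        apply pow_le_pow_left₀ (norm_nonneg _) h7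
      have h11 : ((χ : G → ℂ) ((k : ↥C) : G)).im ^ 2 ≤ 0 := by linarith
      have h12 : ((χ : G → ℂ) ((k : ↥C) : G)).im ^ 2 = 0 := le_antisymm h11 (sq_nonneg _)
      exact pow_eq_zero_iff (two_ne_zero) |>.1 h12

/-- **Step A.** -/
theorem stepA (hperf : _root_.commutator G = ⊤) (D : Dat p P C r t) (hcard : Nat.card P = p)
    (hN : Nat.card (normalizer (P : Set G)) = Nat.card C * t) {q b g₀ : ℕ} (hq : q.Prime)
    (hG' : Nat.card G = p * q ^ b * g₀) (hg : g₀ < p - 1) (f₀ : NT P) :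
    D.ξ f₀ ≠ oneIrr G ∧ ¬ q ∣ charDegree ((D.ξ f₀ : IrrCharacter G) : G → ℂ) ∧
      charDegree ((D.ξ f₀ : IrrCharacter G) : G → ℂ) ∣ g₀ ∧
      ((D.σ = 1 ∧ charDegree ((D.ξ f₀ : IrrCharacter G) : G → ℂ) = t ∧ D.a 1 (D.ξ f₀) = 0) ∨
        (D.σ = -1 ∧ charDegree ((D.ξ f₀ : IrrCharacter G) : G → ℂ) + t = p ∧ D.a 1 (D.ξ f₀) = 1)) ∧
      ∑ f : ↥P →* ℂˣ, D.a f (D.ξ f₀) = charDegree ((D.ξ f₀ : IrrCharacter G) : G → ℂ) := by
  classical
  have hp := H.prime
  have hqZ : ¬ (q : ℤ) ∣ 1 := by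
    intro h
    have h1 : q ∣ 1 := by exact_mod_cast h
    exact hq.one_lt.ne' (Nat.dvd_one.1 h1)
  have hterm : ∀ χ : IrrCharacter G, χ ≠ oneIrr G → (q : ℤ) ∣ D.w χ * (charDegree (χ : G → ℂ) : ℤ) := by
    intro χ hχ
    by_cases hw : D.w χ = 0
    · rw [hw, zero_mul]
      exact dvd_zero _
    · have h1 := q_dvd_of_w H hperf D hcard hq hG' hg hχ hw f₀
      exact Dvd.dvd.mul_left (by exact_mod_cast h1) _
  have hsum : (q : ℤ) ∣ ∑ χ : {χ : IrrCharacter G // χ ≠ oneIrr G}, D.w χ.1 * (charDegree (χ.1 : G → ℂ) : ℤ) :=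
    Finset.dvd_sum fun χ _ => hterm χ.1 χ.2
  have hrel := rel_one D hp f₀
  rw [Fintype.sum_eq_add_sum_subtype_ne _ (oneIrr G), deg_oneI] at hrel
  have ha1 := a_one_trivial D H
  have ha2 := a_ne_trivial D H f₀
  -- `ξ ≠ 1`
  have hne : D.ξ f₀ ≠ oneIrr G := by
    intro h
    have h1 : D.w (oneIrr G) = 0 := by rw [← h]; exact D.hw0 f₀
    have h2 := D.hform2 f₀
    rw [h, ha1, ha2] at h2
    rw [h, deg_oneI, h1, ← h2] at hrel
    apply hqZ
    have h3 : (1 : ℤ) = ∑ χ : {χ : IrrCharacter G // χ ≠ oneIrr G}, D.w χ.1 * (charDegree (χ.1 : G → ℂ) : ℤ) := by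
      push_cast at hrel
      linarith
    rw [h3]
    exact hsum
  have hw1 : D.w (oneIrr G) = -1 := by
    have h1 := D.hform1 f₀ (oneIrr G) hne.symm
    rw [ha1, ha2] at h1
    rw [← h1]
    simp
  rw [hw1] at hrel
  have hqd : ¬ q ∣ charDegree ((D.ξ f₀ : IrrCharacter G) : G → ℂ) := by
    intro h
    apply hqZ
    have h1 : (q : ℤ) ∣ D.σ * (charDegree ((D.ξ f₀ : IrrCharacter G) : G → ℂ) : ℤ) :=
      Dvd.dvd.mul_left (by exact_mod_cast h) _
    have h2 : (1 : ℤ) = ∑ χ : {χ : IrrCharacter G // χ ≠ oneIrr G}, D.w χ.1 * (charDegree (χ.1 : G → ℂ) : ℤ) +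
        D.σ * (charDegree ((D.ξ f₀ : IrrCharacter G) : G → ℂ) : ℤ) := by
      push_cast at hrel
      linarith
    rw [h2]
    exact dvd_add hsum h1
  -- the degree
  obtain ⟨n, hn⟩ := xi_deg_eq H D hcard hN f₀
  obtain ⟨d, hd⟩ : ∃ d, d = charDegree ((D.ξ f₀ : IrrCharacter G) : G → ℂ) := ⟨_, rfl⟩
  rw [← hd] at hqd hn ⊢
  have hd0 : 0 < d := by
    rw [hd]
    exact Cfsg.Agent.Lib.CharKernel.charDegree_pos (D.ξ f₀).2
  have hmul : Nat.card (Set.range D.ξ) * t = p - 1 := D.hrange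
  have hrpos : 0 < Nat.card (Set.range D.ξ) := by
    haveI : Nonempty (Set.range D.ξ) := ⟨⟨D.ξ f₀, f₀, rfl⟩⟩
    exact Nat.card_pos
  have ht0 : 0 < t := by
    rcases Nat.eq_zero_or_pos t with h | h
    · rw [h, mul_zero] at hN
      exact absurd hN Nat.card_pos.ne'
    · exact h
  have htle : t ≤ p - 1 := by
    rw [← hmul]
    exact Nat.le_mul_of_pos_left _ hrpos
  have hp2 := hp.two_le
  have hndvd : ¬ p ∣ d := by
    intro h
    have h1 : (p : ℤ) ∣ (d : ℤ) := by exact_mod_cast h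
    have h2 : (p : ℤ) ∣ D.σ * t := by
      have h3 : D.σ * (t : ℤ) = (d : ℤ) - p * n := by rw [hn]; ring
      rw [h3]
      exact dvd_sub h1 (dvd_mul_right _ _)
    have h4 : (p : ℤ) ∣ t := by
      rcases D.hσ with h5 | h5
      · rw [h5, one_mul] at h2
        exact h2
      · rw [h5] at h2
        simpa using h2
    have h5 : p ∣ t := by exact_mod_cast h4
    have h6 := Nat.le_of_dvd ht0 h5
    omega
  have hdg : d ∣ g₀ := by
    rw [hd]
    apply deg_dvd_of_coprime hp hq hG' _ <;> rw [← hd]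
    · exact hndvd
    · exact hqd
  have hg0 : 0 < g₀ := by
    rcases Nat.eq_zero_or_pos g₀ with h4 | h4
    · rw [h4, mul_zero] at hG'
      exact absurd hG' Nat.card_pos.ne'
    · exact h4
  have hdle := Nat.le_of_dvd hg0 hdg
  have hsumsub := sum_sub_xi H D hN f₀
  have hcd : Fintype.card (↥P →* ℂˣ) = p := by
    rw [← Nat.card_eq_fintype_card, card_dual (comm_P H), hcard]
  have hA : ((∑ f : ↥P →* ℂˣ, D.a f (D.ξ f₀) : ℕ) : ℤ) = p * D.a 1 (D.ξ f₀) + D.σ * t := by
    rw [← hsumsub]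
    push_cast
    rw [Finset.sum_sub_distrib, Finset.sum_const, Finset.card_univ, hcd]
    simp
  have hle := (sum_a_le H D (D.ξ f₀)).1
  rw [← hd] at hle
  have hleZ : ((∑ f : ↥P →* ℂˣ, D.a f (D.ξ f₀) : ℕ) : ℤ) ≤ d := by exact_mod_cast hle
  rw [hA] at hleZ
  have hpZ : (2 : ℤ) ≤ p := by exact_mod_cast hp2
  have htZ : (1 : ℤ) ≤ t := by exact_mod_cast ht0
  have htleZ : (t : ℤ) ≤ (p : ℤ) - 1 := by omega
  have hdZ : (d : ℤ) + 1 < p := by
    have : d + 1 < p := by omega
    exact_mod_cast this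
  have hd0Z : (0 : ℤ) < d := by exact_mod_cast hd0
  have ha0 : (0 : ℤ) ≤ D.a 1 (D.ξ f₀) := by positivity
  refine ⟨hne, hqd, hdg, ?_, ?_⟩
  · rcases D.hσ with hσ | hσ
    · left
      rw [hσ] at hn hleZ
      have hn0 : n = 0 := by
        have h1 : n ≤ 0 := by
          by_contra hcon
          push Not at hcon
          have : (p : ℤ) * 1 ≤ p * n := by
            apply mul_le_mul_of_nonneg_left (by omega) (by omega)
          omega
        have h2 : 0 ≤ n := by
          by_contra hcon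
          push Not at hcon
          have : (p : ℤ) * n ≤ p * (-1) := by
            apply mul_le_mul_of_nonneg_left (by omega) (by omega)
          omega
        omega
      have hdt : d = t := by
        have : (d : ℤ) = t := by
          rw [hn, hn0]
          ring
        exact_mod_cast this
      refine ⟨hσ, hdt, ?_⟩
      have h3 : (p : ℤ) * D.a 1 (D.ξ f₀) ≤ 0 := by
        rw [hdt] at hleZ
        linarith
      have h4 : (D.a 1 (D.ξ f₀) : ℤ) ≤ 0 := by
        by_contra hcon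
        push Not at hcon
        have : (p : ℤ) * 1 ≤ p * D.a 1 (D.ξ f₀) := by
          apply mul_le_mul_of_nonneg_left (by omega) (by omega)
        omega
      have h5 : (D.a 1 (D.ξ f₀) : ℤ) = 0 := le_antisymm h4 ha0
      exact_mod_cast h5
    · right
      rw [hσ] at hn hleZ
      have hn1 : n = 1 := by
        have h1 : n ≤ 1 := by
          by_contra hcon
          push Not at hcon
          have : (p : ℤ) * 2 ≤ p * n := by
            apply mul_le_mul_of_nonneg_left (by omega) (by omega)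
          omega
        have h2 : 1 ≤ n := by
          by_contra hcon
          push Not at hcon
          have : (p : ℤ) * n ≤ p * 0 := by
            apply mul_le_mul_of_nonneg_left (by omega) (by omega)
          omega
        omega
      have hdt : d + t = p := by
        have : (d : ℤ) + t = p := by
          rw [hn, hn1]
          ring
        exact_mod_cast this
      refine ⟨hσ, hdt, ?_⟩
      have h3 := D.hform2 f₀
      rw [hσ] at h3
      have h4 : (1 : ℤ) ≤ D.a 1 (D.ξ f₀) := by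
        have : (0 : ℤ) ≤ D.a f₀.1 (D.ξ f₀) := by positivity
        omega
      have h5 : (D.a 1 (D.ξ f₀) : ℤ) ≤ 1 := by
        by_contra hcon
        push Not at hcon
        have : (p : ℤ) * 2 ≤ p * D.a 1 (D.ξ f₀) := by
          apply mul_le_mul_of_nonneg_left (by omega) (by omega)
        have h6 : (d : ℤ) = p - t := by
          rw [hn, hn1]
          ring
        omega
      have h6 : (D.a 1 (D.ξ f₀) : ℤ) = 1 := le_antisymm h5 h4
      exact_mod_cast h6
  · -- equality
    have hfinal : ((∑ f : ↥P →* ℂˣ, D.a f (D.ξ f₀) : ℕ) : ℤ) = d := by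
      rw [hA]
      rcases D.hσ with hσ | hσ
      · rw [hσ] at hn hleZ ⊢
        have hn0 : n = 0 := by
          have h1 : n ≤ 0 := by
            by_contra hcon
            push Not at hcon
            have : (p : ℤ) * 1 ≤ p * n := by
              apply mul_le_mul_of_nonneg_left (by omega) (by omega)
            omega
          have h2 : 0 ≤ n := by
            by_contra hcon
            push Not at hcon
            have : (p : ℤ) * n ≤ p * (-1) := by
              apply mul_le_mul_of_nonneg_left (by omega) (by omega)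
            omega
          omega
        have h3 : (d : ℤ) = t := by
          rw [hn, hn0]
          ring
        have h4 : (D.a 1 (D.ξ f₀) : ℤ) ≤ 0 := by
          by_contra hcon
          push Not at hcon
          have : (p : ℤ) * 1 ≤ p * D.a 1 (D.ξ f₀) := by
            apply mul_le_mul_of_nonneg_left (by omega) (by omega)
          omega
        have h5 : (D.a 1 (D.ξ f₀) : ℤ) = 0 := le_antisymm h4 ha0
        rw [h5, h3]
        ring
      · rw [hσ] at hn hleZ ⊢
        have hn1 : n = 1 := by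
          have h1 : n ≤ 1 := by
            by_contra hcon
            push Not at hcon
            have : (p : ℤ) * 2 ≤ p * n := by
              apply mul_le_mul_of_nonneg_left (by omega) (by omega)
            omega
          have h2 : 1 ≤ n := by
            by_contra hcon
            push Not at hcon
            have : (p : ℤ) * n ≤ p * 0 := by
              apply mul_le_mul_of_nonneg_left (by omega) (by omega)
            omega
          omega
        have h6 : (d : ℤ) = p - t := by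
          rw [hn, hn1]
          ring
        have h3 := D.hform2 f₀
        rw [hσ] at h3
        have h4 : (1 : ℤ) ≤ D.a 1 (D.ξ f₀) := by
          have : (0 : ℤ) ≤ D.a f₀.1 (D.ξ f₀) := by positivity
          omega
        have h5 : (D.a 1 (D.ξ f₀) : ℤ) ≤ 1 := by
          by_contra hcon
          push Not at hcon
          have : (p : ℤ) * 2 ≤ p * D.a 1 (D.ξ f₀) := by
            apply mul_le_mul_of_nonneg_left (by omega) (by omega)
          omega
        have h7 : (D.a 1 (D.ξ f₀) : ℤ) = 1 := le_antisymm h5 h4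
        rw [h7, h6]
        ring
    exact_mod_cast hfinal

/-- `C = P`. -/
theorem C_eq_P (hperf : _root_.commutator G = ⊤) (D : Dat p P C r t) (hcard : Nat.card P = p)
    (hN : Nat.card (normalizer (P : Set G)) = Nat.card C * t) {q b g₀ : ℕ} (hq : q.Prime)
    (hG' : Nat.card G = p * q ^ b * g₀) (hg : g₀ < p - 1) (f₀ : NT P)
    (hfaith : ∀ χ : IrrCharacter G, χ ≠ oneIrr G → ∀ g : G, (χ : G → ℂ) g = (χ : G → ℂ) 1 → g = 1) : C = P := by
  obtain ⟨h1, -, -, -, h5⟩ := stepA H hperf D hcard hN hq hG' hg f₀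
  have h6 := (sum_a_le H D (D.ξ f₀)).2 h5
  apply le_antisymm _ H.le
  intro c hc
  have h7 : (⟨c, hc⟩ : ↥C) * ⟨(r ⟨c, hc⟩ : G), H.le (r ⟨c, hc⟩).2⟩⁻¹ ∈ r.ker := by
    rw [MonoidHom.mem_ker, map_mul, map_inv, H.r_coe, mul_inv_cancel]
  have h8 := h6 ⟨_, h7⟩
  have h9 := hfaith _ h1 _ h8
  have h10 : c * ((r ⟨c, hc⟩ : ↥P) : G)⁻¹ = 1 := h9
  have h11 : c = ((r ⟨c, hc⟩ : ↥P) : G) := mul_inv_eq_one.1 h10
  rw [h11]
  exact (r ⟨c, hc⟩).2

end Cfsg.Agent.Lib.BT97B
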