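import Mathlib
import Cfsg.Agent.Lib.BT97B
import Cfsg.Agent.Lib.CharTable
import Cfsg.Agent.Lib.RealChars

/-!
# Brauer-Tuan: products of exceptional characters

`C(P) = P`.  If there are exactly two exceptional characters `ζ₁, ζ₂` of sign `-1` and multiplicity `a₁ = 1` then every member `χ` with
`w χ = 1` satisfies `a₁(χ) ≤ 1`, because it occurs in `ζ₂ ζ̄₁` while `(ζ₂ ζ̄₁)|_P` contains the trivial character just once.
-/

set_option autoImplicit false
set_option linter.style.haveILetI false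
set_option linter.unusedSectionVars false
set_option linter.unusedVariables false

namespace Cfsg.Agent.Lib.BT97C

open Cfsg Cfsg.Agent.Lib.CharBasic Subgroup Cfsg.Agent.Lib.DefectOne Cfsg.Agent.Lib.CharInd
open Cfsg.Agent.Lib.TICent Cfsg.Agent.Lib.RigA Cfsg.Agent.Lib.RangeStruct Cfsg.Agent.Lib.RigB Cfsg.Agent.Lib.RigC
open Cfsg.Agent.Lib.BT97B
open scoped ComplexConjugate

variable {G : Type*} [Group G] [Fintype G] [DecidableEq G]

/-- The decomposition of a character. -/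
theorem exists_m {Y : G → ℂ} (hY : IsCharacter G Y) :
    ∃ m : IrrCharacter G → ℕ, (∀ χ : IrrCharacter G, classInner Y (χ : G → ℂ) = (m χ : ℂ)) ∧ ∀ g, Y g = ∑ χ : IrrCharacter G, (m χ : ℂ) * (χ : G → ℂ) g := by
  have h : ∀ χ : IrrCharacter G, ∃ n : ℕ, classInner Y (χ : G → ℂ) = n := fun χ => classInner_char_irr hY χ.2
  choose m hm using h
  refine ⟨m, hm, fun g => ?_⟩
  have h1 := eval_eq_sum (isClassFunction_of_isCharacter hY) g
  rw [h1]
  exact Finset.sum_congr rfl fun χ _ => by rw [hm]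

variable {p : ℕ} {P : Subgroup G} {e₀ t : ℕ} [Fintype P] [Fintype (MonoidHom.id ↥P).ker] [Fintype (↥P →* ℂˣ)]

/-- The restriction of the inner product. -/
theorem ha' (D : Dat p P P (MonoidHom.id ↥P) t) (f : ↥P →* ℂˣ) (χ : IrrCharacter G) :
    classInner (chi f) (fun c : ↥P => (χ : G → ℂ) c) = (D.a f χ : ℂ) := by
  have := D.ha f χ
  rwa [MonoidHom.comp_id] at this

variable (H : Hyp p P P (MonoidHom.id ↥P) e₀)
include H

theorem avg_id (χ : G → ℂ) (z : ↥P) : avg (MonoidHom.id ↥P) H χ z = χ z := by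
  classical
  unfold avg
  have h1 : Nat.card (MonoidHom.id ↥P).ker = 1 := by
    have : (MonoidHom.id ↥P).ker = ⊥ := MonoidHom.ker_id
    rw [this, Subgroup.card_bot]
  have h2 : ∀ k : (MonoidHom.id ↥P).ker, ((k : ↥P) : G) = 1 := by
    intro k
    have h3 : (k : ↥P) = 1 := k.2
    rw [h3]
    rfl
  simp_rw [h2, mul_one]
  rw [h1, Finset.sum_const, Finset.card_univ, ← Nat.card_eq_fintype_card, h1]
  simp

/-- The values on `P`. -/
theorem val_all (D : Dat p P P (MonoidHom.id ↥P) t) (χ : IrrCharacter G) {z : ↥P} (hz : z ≠ 1) :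
    (χ : G → ℂ) z = -(D.w χ : ℂ) + D.σ * ex D χ z := by
  rw [← avg_expand H D χ hz, avg_id H]

/-- The expansion on `P`. -/
theorem expand (D : Dat p P P (MonoidHom.id ↥P) t) (χ : IrrCharacter G) (z : ↥P) :
    (χ : G → ℂ) z = ∑ f : ↥P →* ℂˣ, (D.a f χ : ℂ) * chi f z := by
  rw [← avg_eq_sum H D.ha χ z, avg_id H]

/-- The degree is the sum of the multiplicities. -/
theorem deg_sum (D : Dat p P P (MonoidHom.id ↥P) t) (χ : IrrCharacter G) :
    charDegree (χ : G → ℂ) = ∑ f : ↥P →* ℂˣ, D.a f χ := by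
  have h := expand H D χ 1
  have h1 : (χ : G → ℂ) ((1 : ↥P) : G) = (charDegree (χ : G → ℂ) : ℂ) :=
    Cfsg.Agent.Lib.CharKernel.one_eq_charDegree (IsIrrCharacter.isCharacter χ.2)
  rw [h1] at h
  have h2 : ∀ f : ↥P →* ℂˣ, chi f (1 : ↥P) = 1 := fun f => by simp [chi]
  simp_rw [h2, mul_one] at h
  exact_mod_cast h

/-- The degree in terms of `a₁` and `w`. -/
theorem deg_of_w (D : Dat p P P (MonoidHom.id ↥P) t) (hcard : Nat.card P = p) {χ : IrrCharacter G} (hχ : ∀ f : NT P, χ ≠ D.ξ f) :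
    (charDegree (χ : G → ℂ) : ℤ) = p * D.a 1 χ + ((p : ℤ) - 1) * D.w χ := by
  have hcd : Fintype.card (↥P →* ℂˣ) = p := by
    rw [← Nat.card_eq_fintype_card, card_dual (comm_P H), hcard]
  have h1 := sum_sub_of_w H D hcard χ hχ
  rw [deg_sum H D χ]
  push_cast
  rw [← h1, Finset.sum_sub_distrib, Finset.sum_const, Finset.card_univ, hcd]
  simp

/-- The inner product on `P`. -/
theorem inner_P (D : Dat p P P (MonoidHom.id ↥P) t) (χ₁ χ₂ : IrrCharacter G) :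
    classInner (fun c : ↥P => (χ₁ : G → ℂ) c) (fun c : ↥P => (χ₂ : G → ℂ) c) = ((∑ f : ↥P →* ℂˣ, D.a f χ₁ * D.a f χ₂ : ℕ) : ℂ) := by
  unfold classInner
  simp_rw [expand H D χ₁]
  simp_rw [Finset.sum_mul]
  rw [Finset.sum_comm, Finset.mul_sum]
  push_cast
  refine Finset.sum_congr rfl fun f _ => ?_
  have h := ha' D f χ₂
  unfold classInner at h
  simp_rw [mul_assoc]
  rw [← Finset.mul_sum, mul_left_comm, h]

/-- Additivity of the multiplicities. -/
theorem inner_sum (D : Dat p P P (MonoidHom.id ↥P) t) {Y : G → ℂ} {m : IrrCharacter G → ℕ}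
    (hY : ∀ g, Y g = ∑ χ : IrrCharacter G, (m χ : ℂ) * (χ : G → ℂ) g) (f : ↥P →* ℂˣ) :
    classInner (chi f) (fun c : ↥P => Y c) = ((∑ χ : IrrCharacter G, m χ * D.a f χ : ℕ) : ℂ) := by
  have h0 : ∀ χ : IrrCharacter G, (Nat.card ↥P : ℂ)⁻¹ * ∑ c : ↥P, chi f c * conj ((χ : G → ℂ) c) = (D.a f χ : ℂ) := by
    intro χ
    have h := ha' D f χ
    unfold classInner at h
    exact h
  unfold classInner
  have h1 : ∀ c : ↥P, chi f c * conj (Y c) = ∑ χ : IrrCharacter G, (m χ : ℂ) * (chi f c * conj ((χ : G → ℂ) c)) := by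
    intro c
    rw [hY, map_sum, Finset.mul_sum]
    refine Finset.sum_congr rfl fun χ _ => ?_
    rw [map_mul, Complex.conj_natCast]
    ring
  simp_rw [h1]
  rw [Finset.sum_comm, Finset.mul_sum]
  push_cast
  refine Finset.sum_congr rfl fun χ _ => ?_
  rw [← Finset.mul_sum, mul_left_comm, h0]

/-- The difference of multiplicities in a character. -/
theorem sub_inner (D : Dat p P P (MonoidHom.id ↥P) t) {Y : G → ℂ} {m : IrrCharacter G → ℕ}
    (hY : ∀ g, Y g = ∑ χ : IrrCharacter G, (m χ : ℂ) * (χ : G → ℂ) g) (f g : NT P) :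
    classInner (chi f.1) (fun c : ↥P => Y c) - classInner (chi g.1) (fun c : ↥P => Y c) =
      D.σ * ((m (D.ξ f) : ℂ) - m (D.ξ g)) := by
  classical
  rw [inner_sum H D hY, inner_sum H D hY]
  have h1 : ∀ (f : NT P) (χ : IrrCharacter G), (D.a f.1 χ : ℤ) = D.a 1 χ + D.w χ + D.σ * (if χ = D.ξ f then 1 else 0) := by
    intro f χ
    by_cases h : χ = D.ξ f
    · rw [if_pos h, h]
      have := D.hform2 f
      rw [D.hw0]
      linarith
    · rw [if_neg h]
      have := D.hform1 f χ h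
      linarith
  have h2 : ∀ f : NT P, ((∑ χ : IrrCharacter G, m χ * D.a f.1 χ : ℕ) : ℤ) =
      ∑ χ : IrrCharacter G, (m χ : ℤ) * (D.a 1 χ + D.w χ) + D.σ * m (D.ξ f) := by
    intro f
    push_cast
    have h3 : ∀ χ : IrrCharacter G, (m χ : ℤ) * D.a f.1 χ = (m χ : ℤ) * (D.a 1 χ + D.w χ) + D.σ * (if χ = D.ξ f then (m χ : ℤ) else 0) := by
      intro χ
      rw [h1 f χ]
      split_ifs <;> ring
    rw [Finset.sum_congr rfl fun χ _ => h3 χ, Finset.sum_add_distrib, ← Finset.mul_sum]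
    simp
  have h4 := h2 f
  have h5 := h2 g
  have h6 : (((∑ χ : IrrCharacter G, m χ * D.a f.1 χ : ℕ) : ℤ) : ℂ) - ((∑ χ : IrrCharacter G, m χ * D.a g.1 χ : ℕ) : ℤ) =
      ((D.σ * ((m (D.ξ f) : ℤ) - m (D.ξ g)) : ℤ) : ℂ) := by
    rw [h4, h5]
    push_cast
    ring
  push_cast at h6 ⊢
  exact h6

/-- The main lemma. -/
theorem a_one_le (D : Dat p P P (MonoidHom.id ↥P) t) (hσ : D.σ = -1) (f₀ f₁ : NT P) (hne : D.ξ f₀ ≠ D.ξ f₁)
    (hall : ∀ f : NT P, D.ξ f = D.ξ f₀ ∨ D.ξ f = D.ξ f₁) (ha₀ : D.a 1 (D.ξ f₀) = 1) (ha₁ : D.a 1 (D.ξ f₁) = 1)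
    {χ : IrrCharacter G} (hw : D.w χ = 1) : D.a 1 χ ≤ 1 := by
  classical
  have hP : Fintype.card ↥P = Nat.card ↥P := (Nat.card_eq_fintype_card).symm
  have hPne : (Nat.card ↥P : ℂ) ≠ 0 := by exact_mod_cast Nat.card_pos.ne'
  have hw' : D.w χ ≠ 0 := by rw [hw]; norm_num
  obtain ⟨ζ₁, hζ₁⟩ : ∃ ζ₁, ζ₁ = D.ξ f₀ := ⟨_, rfl⟩
  obtain ⟨ζ₂, hζ₂⟩ : ∃ ζ₂, ζ₂ = D.ξ f₁ := ⟨_, rfl⟩
  rw [← hζ₁, ← hζ₂] at hne hall
  rw [← hζ₁] at ha₀
  rw [← hζ₂] at ha₁
  -- multiplicities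
  have hz₁ : D.a f₀.1 ζ₁ = 0 := by
    have h := D.hform2 f₀
    rw [← hζ₁, hσ, ha₀] at h
    have : (D.a f₀.1 ζ₁ : ℤ) = 0 := by push_cast at h; linarith
    exact_mod_cast this
  have hz₂ : D.a f₁.1 ζ₁ = 1 := by
    have h := D.hform1 f₁ ζ₁ (by rw [← hζ₂]; exact hne)
    have h0 : D.w ζ₁ = 0 := by rw [hζ₁]; exact D.hw0 f₀
    rw [ha₀, h0] at h
    have : (D.a f₁.1 ζ₁ : ℤ) = 1 := by
      push_cast at h
      linarith
    exact_mod_cast this
  have hzero : ∀ f : NT P, D.a f.1 (D.ξ f) = D.a 1 (D.ξ f) - 1 := by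
    intro f
    have h := D.hform2 f
    rw [hσ] at h
    omega
  -- step 1
  have hY : IsCharacter G ((ζ₁ : G → ℂ) * (χ : G → ℂ)) :=
    isCharacter_mul (IsIrrCharacter.isCharacter ζ₁.2) (IsIrrCharacter.isCharacter χ.2)
  obtain ⟨m, hm, hmY⟩ := exists_m hY
  have hsub := sub_inner H D hmY f₀ f₁
  rw [← hζ₁, ← hζ₂, hσ] at hsub
  have hdir : classInner (chi f₀.1) (fun c : ↥P => ((ζ₁ : G → ℂ) * (χ : G → ℂ)) c) -
      classInner (chi f₁.1) (fun c : ↥P => ((ζ₁ : G → ℂ) * (χ : G → ℂ)) c) = 1 := by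
    have h1 := ha' D f₀.1 ζ₁
    have h2 := ha' D f₁.1 ζ₁
    rw [hz₁] at h1
    rw [hz₂] at h2
    have h3 : classInner (chi f₁.1) (fun c : ↥P => (ζ₁ : G → ℂ) c) - classInner (chi f₀.1) (fun c : ↥P => (ζ₁ : G → ℂ) c) = 1 := by
      rw [h1, h2]
      simp
    rw [← h3]
    unfold classInner
    rw [← mul_sub, ← mul_sub, ← Finset.sum_sub_distrib, ← Finset.sum_sub_distrib]
    congr 1
    refine Finset.sum_congr rfl fun y _ => ?_
    by_cases hy : y = 1
    · subst hy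
      simp [chi]
    · have h4 : (χ : G → ℂ) y = -1 := by
        have h5 := val_of_w H D hw' f₀ hy
        rw [hw] at h5
        simpa using h5
      simp only [Pi.mul_apply, h4, map_mul, map_neg, map_one]
      ring
  have hm1 : (m ζ₂ : ℤ) - m ζ₁ = 1 := by
    have h5 : ((m ζ₂ : ℂ) - m ζ₁) = 1 := by
      rw [hdir] at hsub
      push_cast at hsub
      linear_combination -hsub
    exact_mod_cast h5
  have hm2 : 1 ≤ m ζ₂ := by omega
  -- step 2
  have hΞ : IsCharacter G ((ζ₂ : G → ℂ) * fun g => conj ((ζ₁ : G → ℂ) g)) :=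
    isCharacter_mul (IsIrrCharacter.isCharacter ζ₂.2) (Cfsg.Agent.Lib.RealChars.isCharacter_conj (IsIrrCharacter.isCharacter ζ₁.2))
  obtain ⟨m', hm', hmΞ⟩ := exists_m hΞ
  have hmm : m' χ = m ζ₂ := by
    have h1 := hm' χ
    have h2 := hm ζ₂
    have h3 : classInner ((ζ₂ : G → ℂ) * fun g => conj ((ζ₁ : G → ℂ) g)) (χ : G → ℂ) =
        conj (classInner ((ζ₁ : G → ℂ) * (χ : G → ℂ)) (ζ₂ : G → ℂ)) := by
      unfold classInner
      rw [map_mul, map_inv₀, map_natCast, map_sum]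
      congr 1
      refine Finset.sum_congr rfl fun g _ => ?_
      simp only [Pi.mul_apply, map_mul, Complex.conj_conj]
      ring
    rw [h1, h2, Complex.conj_natCast] at h3
    exact_mod_cast h3
  -- step 3
  have h1 := inner_sum H D hmΞ 1
  have h2 : classInner (chi (1 : ↥P →* ℂˣ)) (fun c : ↥P => ((ζ₂ : G → ℂ) * fun g => conj ((ζ₁ : G → ℂ) g)) c) =
      classInner (fun c : ↥P => (ζ₁ : G → ℂ) c) (fun c : ↥P => (ζ₂ : G → ℂ) c) := by
    unfold classInner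
    congr 1
    refine Finset.sum_congr rfl fun y _ => ?_
    simp only [Pi.mul_apply, map_mul, Complex.conj_conj, chi]
    simp
    ring
  rw [inner_P H D] at h2
  rw [h2] at h1
  have h3 : ∑ f : ↥P →* ℂˣ, D.a f ζ₁ * D.a f ζ₂ = 1 := by
    rw [Finset.sum_eq_single (1 : ↥P →* ℂˣ)]
    · rw [ha₀, ha₁]
    · intro f _ hf
      rcases hall ⟨f, hf⟩ with h4 | h4
      · have h5 := hzero ⟨f, hf⟩
        rw [h4, ha₀] at h5
        rw [show D.a f ζ₁ = 0 from h5, zero_mul]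
      · have h5 := hzero ⟨f, hf⟩
        rw [h4, ha₁] at h5
        rw [show D.a f ζ₂ = 0 from h5, mul_zero]
    · intro h
      exact absurd (Finset.mem_univ _) h
  have h4 : ∑ χ : IrrCharacter G, m' χ * D.a 1 χ = 1 := by
    rw [h3] at h1
    exact_mod_cast h1.symm
  have h5 : m' χ * D.a 1 χ ≤ ∑ χ : IrrCharacter G, m' χ * D.a 1 χ :=
    Finset.single_le_sum (f := fun χ : IrrCharacter G => m' χ * D.a 1 χ) (fun _ _ => Nat.zero_le _) (Finset.mem_univ χ)
  rw [h4, hmm] at h5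
  have h6 : D.a 1 χ ≤ m ζ₂ * D.a 1 χ := Nat.le_mul_of_pos_left _ hm2
  omega

end Cfsg.Agent.Lib.BT97C
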