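import Mathlib
import Cfsg.Agent.Lib.RangeChar

/-!
# Primitive idempotents for an irreducible character of a group of order prime to `p`

`A` a valuation subring of `ℂ`, `L` a finite group with `|L|` invertible in `A`, `ϑ` an irreducible character.
There is an integral matrix form of `ϑ` and a primitive idempotent `E ∈ A[L]`, which is conjugate
(in `A[L]`) to its images under automorphisms fixing `ϑ`, and orthogonal to its images under the other automorphisms.
-/

set_option autoImplicit false
set_option linter.unusedSectionVars false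
set_option linter.unusedVariables false
set_option linter.style.haveILetI false

namespace Cfsg.Agent.Lib.DefOneA

open Module Matrix Cfsg
open Cfsg.Agent.Lib.RangeMod Cfsg.Agent.Lib.RangeVal Cfsg.Agent.Lib.RangeLat Cfsg.Agent.Lib.RangeAlg
open Cfsg.Agent.Lib.RangeChar Cfsg.Agent.Lib.CharBasic Cfsg.Agent.Lib.BlkBasic

universe u

section IntRep

variable {L : Type u} [Group L] [Fintype L] [DecidableEq L] {A : ValuationSubring ℂ}

theorem ltM_injective {I : Type*} [Fintype I] [DecidableEq I] :
    Function.Injective (ltM : Matrix I I A → Module.End ℂ (I → ℂ)) := by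
  intro M M' h
  ext i j
  have h1 := congrFun (LinearMap.congr_fun h (Pi.single j 1)) i
  have h2 : ∀ N : Matrix I I A, ltM N (Pi.single j 1) i = ((N i j : A) : ℂ) := by
    intro N
    show (Matrix.toLin' ((A.subtype).mapMatrix N)) (Pi.single j 1) i = _
    rw [Matrix.toLin'_apply, Matrix.mulVec_single_one]
    rfl
  rw [h2, h2] at h1
  exact_mod_cast h1

theorem exists_int_rep {ϑ : L → ℂ} (hϑ : IsIrrCharacter L ϑ) :
    ∃ (S : Type u) (_ : Fintype S) (_ : DecidableEq S) (T : L →* Matrix S S A),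
      Representation.IsIrreducible (ltRep T) ∧ ∀ a, chr T a = ϑ a := by
  classical
  obtain ⟨n, ρ, hρ, rfl⟩ := hϑ
  let ι := L × ULift.{u} (Fin n)
  let b : ι → (Fin n → ℂ) := fun x => ρ x.1 (Pi.single x.2.down 1)
  obtain ⟨S₀, hind, hc⟩ := exists_basis_subfamily (A := A) b
  choose c hc using hc
  let S : Type u := ↥S₀
  let e₀ : (S → ℂ) →ₗ[ℂ] (Fin n → ℂ) :=
    { toFun := fun v => ∑ s : S, v s • b s
      map_add' := fun v w => by
        simp only [Pi.add_apply, add_smul]
        rw [Finset.sum_add_distrib]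
      map_smul' := fun r v => by
        simp only [Pi.smul_apply, smul_eq_mul, mul_smul, RingHom.id_apply]
        rw [Finset.smul_sum] }
  have he₀ : ∀ v : S → ℂ, e₀ v = ∑ s : S, v s • b s := fun v => rfl
  have hinj : Function.Injective e₀ := by
    rw [← LinearMap.ker_eq_bot, LinearMap.ker_eq_bot']
    intro v hv
    let f : ι → ℂ := fun i => if h : i ∈ S₀ then v ⟨i, h⟩ else 0
    have h1 : ∑ i ∈ S₀, f i • b i = 0 := by
      rw [← Finset.sum_coe_sort S₀, ← hv, he₀]
      refine Finset.sum_congr rfl fun s _ => ?_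
      simp [f]
    have h2 := hind f h1
    funext s
    have h3 := h2 s s.2
    simpa [f] using h3
  have hsurj : Function.Surjective e₀ := by
    rw [← LinearMap.range_eq_top, eq_top_iff]
    have hb : ∀ i, b i ∈ LinearMap.range e₀ := by
      intro i
      refine ⟨fun s => ((c i s : A) : ℂ), ?_⟩
      rw [he₀, hc i, ← Finset.sum_coe_sort S₀]
    intro w _
    have h1 : w = ∑ j : Fin n, w j • (Pi.single j 1 : Fin n → ℂ) := by
      funext k
      simp [Finset.sum_apply, Pi.single_apply]
    rw [h1]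
    refine Submodule.sum_mem _ fun j _ => Submodule.smul_mem _ _ ?_
    have h2 := hb (1, ⟨j⟩)
    have h3 : b (1, ⟨j⟩) = Pi.single j 1 := by
      simp [b]
    rwa [h3] at h2
  let e : (S → ℂ) ≃ₗ[ℂ] (Fin n → ℂ) := LinearEquiv.ofBijective e₀ ⟨hinj, hsurj⟩
  have hee : ∀ v, e v = e₀ v := fun v => rfl
  -- the matrices
  let act : L → S → ι := fun a s => (a * (s : ι).1, (s : ι).2)
  have hbact : ∀ a (s : S), ρ a (b s) = b (act a s) := by
    intro a s
    simp only [b, act, map_mul, Module.End.mul_apply]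
  let T₀ : L → Matrix S S A := fun a => Matrix.of fun s' s => c (act a s) s'
  have hT₀ : ∀ a (v : S → ℂ), e (ltM (T₀ a) v) = ρ a (e v) := by
    intro a v
    have h1 : v = ∑ s : S, v s • (Pi.single s 1 : S → ℂ) := by
      funext k
      rw [Finset.sum_apply, Finset.sum_eq_single k]
      · simp
      · intro s' _ hs'
        simp [Pi.single_eq_of_ne (Ne.symm hs')]
      · simp
    have hs : ∀ s : S, e (ltM (T₀ a) (Pi.single s 1)) = ρ a (e (Pi.single s 1)) := by
      intro s
      have h2 : e (Pi.single s 1) = b s := by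
        rw [hee, he₀, Finset.sum_eq_single s]
        · simp
        · intro s' _ hs'
          simp [Pi.single_eq_of_ne hs']
        · simp
      rw [h2, hbact, hc (act a s), hee, he₀, ← Finset.sum_coe_sort S₀]
      refine Finset.sum_congr rfl fun s' _ => ?_
      congr 1
      show (Matrix.toLin' ((A.subtype).mapMatrix (T₀ a))) (Pi.single s 1) s' = _
      rw [Matrix.toLin'_apply, Matrix.mulVec_single_one]
      rfl
    rw [h1, map_sum, map_sum, map_sum, map_sum]
    refine Finset.sum_congr rfl fun s _ => ?_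
    rw [map_smul, map_smul, map_smul, map_smul, hs]
  have hT₀' : ∀ a, ltM (T₀ a) = (e.symm.toLinearMap ∘ₗ ρ a ∘ₗ e.toLinearMap) := by
    intro a
    apply LinearMap.ext
    intro v
    apply e.injective
    simp [hT₀]
  have hmul : ∀ a a', T₀ (a * a') = T₀ a * T₀ a' := by
    intro a a'
    apply ltM_injective
    rw [map_mul, hT₀', hT₀', hT₀']
    apply LinearMap.ext
    intro v
    simp [map_mul, Module.End.mul_apply]
  have hone : T₀ 1 = 1 := by
    apply ltM_injective
    rw [map_one, hT₀']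
    apply LinearMap.ext
    intro v
    simp
  let T : L →* Matrix S S A := { toFun := T₀, map_one' := hone, map_mul' := hmul }
  have hlt : ltRep T = transport e.symm ρ := by
    refine MonoidHom.ext fun a => LinearMap.ext fun v => ?_
    show ltM (T₀ a) v = _
    rw [hT₀']
    rw [transport_apply]
    rfl
  refine ⟨S, inferInstance, inferInstance, T, ?_, ?_⟩
  · rw [hlt]
    exact transport_isIrreducible _ _ hρ
  · intro a
    rw [← trace_ltRep, hlt]
    exact congrFun (transport_character e.symm ρ) a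

end IntRep

section Schur

variable {L : Type*} [Group L] [Fintype L] [DecidableEq L] {A : ValuationSubring ℂ}
variable {S : Type*} [Fintype S] [DecidableEq S]

theorem entry_aux (M N : Matrix S S ℂ) (i k j l : S) :
    (M * Matrix.single i k (1 : ℂ) * N) j l = M j i * N k l := by
  rw [Matrix.mul_apply, Finset.sum_eq_single k]
  · rw [Matrix.mul_apply, Finset.sum_eq_single i]
    · simp
    · intro m _ hm
      simp [Matrix.single_apply, hm.symm]
    · simp
  · intro m _ hm
    have : (M * Matrix.single i k (1 : ℂ)) j m = 0 := by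
      rw [Matrix.mul_apply]
      apply Finset.sum_eq_zero
      intro n _
      simp [Matrix.single_apply, hm.symm]
    rw [this, zero_mul]
  · simp

/-- The Schur relations for an irreducible integral matrix form. -/
theorem schur_rel (T : L →* Matrix S S A) (hT : Representation.IsIrreducible (ltRep T)) (i j k l : S) :
    ∑ a : L, ((T a⁻¹ j i : A) : ℂ) * ((T a k l : A) : ℂ) =
      if i = k ∧ j = l then (Nat.card L : ℂ) / (Fintype.card S : ℂ) else 0 := by
  classical
  let C : L →* Matrix S S ℂ := ((A.subtype).mapMatrix).toMonoidHom.comp T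
  have hC : ∀ a u v, C a u v = ((T a u v : A) : ℂ) := fun a u v => rfl
  let X : Matrix S S ℂ := ∑ a : L, C a⁻¹ * Matrix.single i k (1 : ℂ) * C a
  have hcomm : ∀ b : L, C b * X = X * C b := by
    intro b
    simp only [X]
    rw [Finset.mul_sum, Finset.sum_mul]
    refine Fintype.sum_equiv (Equiv.mulRight b⁻¹) _ _ fun a => ?_
    simp only [Equiv.coe_mulRight, _root_.mul_inv_rev, inv_inv]
    have h2 : C a = C (a * b⁻¹) * C b := by rw [← map_mul, inv_mul_cancel_right]
    have h3 : C (b * a⁻¹) = C b * C a⁻¹ := map_mul _ _ _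
    rw [h3, mul_assoc _ (C (a * b⁻¹)), ← h2]
    noncomm_ring
  have hcard : (Fintype.card S : ℂ) ≠ 0 := by
    have h1 := ((Cfsg.Agent.Lib.CharBasic.isIrreducible_iff _).1 hT).1
    have h2 : Nonempty S := by
      by_contra h3
      rw [not_nonempty_iff] at h3
      exact not_subsingleton (S → ℂ) inferInstance
    exact_mod_cast (Fintype.card_pos (α := S)).ne'
  -- scalar
  obtain ⟨c, hc⟩ : ∃ c : ℂ, X = c • 1 := by
    obtain ⟨c, hc⟩ := schur_scalar hT (Matrix.toLin' X) (fun g => by
      have h1 : ∀ g, ltRep T g = Matrix.toLin' (C g) := fun g => rfl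
      rw [h1, ← Matrix.toLin'_mul, ← Matrix.toLin'_mul, hcomm])
    refine ⟨c, ?_⟩
    apply Matrix.toLin'.injective
    rw [hc]
    ext v
    simp
  have htr : X.trace = (Nat.card L : ℂ) * (if i = k then 1 else 0) := by
    simp only [X]
    rw [Matrix.trace_sum]
    have h1 : ∀ a : L, (C a⁻¹ * Matrix.single i k (1 : ℂ) * C a).trace = if i = k then 1 else 0 := by
      intro a
      rw [Matrix.trace_mul_comm, ← mul_assoc, ← map_mul, mul_inv_cancel, map_one, one_mul]
      by_cases h : i = k
      · subst h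
        simp [Matrix.trace_single_eq_same]
      · rw [if_neg h, Matrix.trace_single_eq_of_ne _ _ _ h]
    simp_rw [h1]
    rw [Finset.sum_const, Finset.card_univ, ← Nat.card_eq_fintype_card, nsmul_eq_mul]
  have hcv : c * (Fintype.card S : ℂ) = (Nat.card L : ℂ) * (if i = k then 1 else 0) := by
    rw [← htr, hc]
    simp [Matrix.trace_smul, Matrix.trace_one]
  have hentry : ∑ a : L, ((T a⁻¹ j i : A) : ℂ) * ((T a k l : A) : ℂ) = X j l := by
    simp only [X]
    rw [Matrix.sum_apply]
    refine Finset.sum_congr rfl fun a _ => ?_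
    rw [entry_aux]
    rfl
  rw [hentry, hc]
  have hc' : c = (if i = k then (Nat.card L : ℂ) / (Fintype.card S : ℂ) else 0) := by
    by_cases h : i = k
    · rw [if_pos h] at hcv ⊢
      rw [eq_div_iff hcard, hcv, mul_one]
    · rw [if_neg h, mul_zero] at hcv
      rw [if_neg h]
      exact (mul_eq_zero.1 hcv).resolve_right hcard
  rw [hc']
  by_cases h1 : i = k <;> by_cases h2 : j = l <;> simp [h1, h2, Matrix.one_apply]

end Schur

section Idem

variable {L : Type*} [Group L] [Fintype L] [DecidableEq L] {A : ValuationSubring ℂ}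
variable {S : Type*} [Fintype S] [DecidableEq S]

/-- The matrix units. -/
noncomputable def Eij (T : L →* Matrix S S A) (w : A) (i j : S) : MonoidAlgebra A L :=
  ∑ g : L, MonoidAlgebra.single g (w * T g⁻¹ j i)

theorem Eij_coeff (T : L →* Matrix S S A) (w : A) (i j : S) (g : L) : (Eij T w i j).coeff g = w * T g⁻¹ j i := by
  unfold Eij
  rw [MonoidAlgebra.coeff_sum, Finsupp.finsetSum_apply, Finset.sum_eq_single g]
  · simp
  · intro h _ hh
    simp [MonoidAlgebra.coeff_single, hh]
  · simp

theorem coeff_mul_A (a b : MonoidAlgebra A L) (y : L) : (a * b).coeff y = ∑ h, a.coeff h * b.coeff (h⁻¹ * y) := by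
  rw [MonoidAlgebra.coeff_mul_apply_left, Finsupp.sum_fintype]
  simp

theorem Eij_mul (T : L →* Matrix S S A) (w : A)
    (hw : ∀ i j k l, ∑ a : L, w * T a⁻¹ j i * T a k l = if i = k ∧ j = l then 1 else 0) (i j k l : S) :
    Eij T w i j * Eij T w k l = if j = k then Eij T w i l else 0 := by
  classical
  ext y
  rw [coeff_mul_A]
  simp_rw [Eij_coeff]
  have h1 : ∀ h : L, (w * T h⁻¹ j i) * (w * T (h⁻¹ * y)⁻¹ l k) =
      ∑ m, (w * T y⁻¹ l m) * (w * T h⁻¹ j i * T h m k) := by
    intro h
    have h2 : (h⁻¹ * y)⁻¹ = y⁻¹ * h := by group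
    rw [h2, map_mul, Matrix.mul_apply, Finset.mul_sum, Finset.mul_sum]
    refine Finset.sum_congr rfl fun m _ => ?_
    ring
  simp_rw [h1]
  rw [Finset.sum_comm]
  simp_rw [← Finset.mul_sum, hw]
  by_cases hjk : j = k
  · subst hjk
    rw [if_pos rfl, Finset.sum_eq_single i, Eij_coeff]
    · simp
    · intro m _ hm
      simp [hm.symm]
    · simp
  · rw [if_neg hjk]
    simp [hjk]

theorem single_mul_Eij (T : L →* Matrix S S A) (w : A) (a : L) (r : A) (i j : S) :
    MonoidAlgebra.single a r * Eij T w i j = ∑ l, (r * T a l i) • Eij T w l j := by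
  ext y
  rw [MonoidAlgebra.coeff_single_mul_apply, Eij_coeff, MonoidAlgebra.coeff_sum, Finsupp.finsetSum_apply]
  have h2 : (a⁻¹ * y)⁻¹ = y⁻¹ * a := by group
  rw [h2, map_mul, Matrix.mul_apply, Finset.mul_sum, Finset.mul_sum]
  congr 1
  refine Finset.sum_congr rfl fun m _ => ?_
  simp only [MonoidAlgebra.coeff_smul, Finsupp.smul_apply, smul_eq_mul, Eij_coeff]
  ring

/-- The sum of the diagonal units. -/
noncomputable def eT (T : L →* Matrix S S A) (w : A) : MonoidAlgebra A L := ∑ i, Eij T w i i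

theorem eT_coeff (T : L →* Matrix S S A) (w : A) (g : L) : (eT T w).coeff g = w * (T g⁻¹).trace := by
  unfold eT
  rw [MonoidAlgebra.coeff_sum, Finsupp.finsetSum_apply, Matrix.trace, Finset.mul_sum]
  refine Finset.sum_congr rfl fun i _ => ?_
  rw [Eij_coeff]
  rfl

theorem Eij_mul_eT (T : L →* Matrix S S A) (w : A)
    (hw : ∀ i j k l, ∑ a : L, w * T a⁻¹ j i * T a k l = if i = k ∧ j = l then 1 else 0) (i j : S) :
    Eij T w i j * eT T w = Eij T w i j := by
  classical
  unfold eT
  rw [Finset.mul_sum]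
  simp_rw [Eij_mul T w hw]
  rw [Finset.sum_eq_single j]
  · simp
  · intro k _ hk
    simp [hk.symm]
  · simp

theorem eT_mul_Eij (T : L →* Matrix S S A) (w : A)
    (hw : ∀ i j k l, ∑ a : L, w * T a⁻¹ j i * T a k l = if i = k ∧ j = l then 1 else 0) (i j : S) :
    eT T w * Eij T w i j = Eij T w i j := by
  classical
  unfold eT
  rw [Finset.sum_mul]
  simp_rw [Eij_mul T w hw]
  rw [Finset.sum_eq_single i]
  · simp
  · intro k _ hk
    simp [hk]
  · simp

theorem mul_eT (T : L →* Matrix S S A) (w : A) (x : MonoidAlgebra A L) :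
    x * eT T w = ∑ l, ∑ j, (∑ a, x.coeff a * T a l j) • Eij T w l j := by
  conv_lhs => rw [sum_single x]
  unfold eT
  rw [Finset.sum_mul]
  simp_rw [Finset.mul_sum, single_mul_Eij]
  rw [Finset.sum_comm]
  simp_rw [Finset.sum_smul]
  rw [Finset.sum_comm]
  calc _ = ∑ a, ∑ l, ∑ i, (x.coeff a * T a l i) • Eij T w l i :=
        Finset.sum_congr rfl fun a _ => Finset.sum_comm
    _ = ∑ l, ∑ a, ∑ i, (x.coeff a * T a l i) • Eij T w l i := Finset.sum_comm
    _ = _ := Finset.sum_congr rfl fun a _ => Finset.sum_comm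

/-- Idempotent complex matrices of trace one have rank one. -/
theorem exists_rank_one (c : Matrix S S ℂ) (hc : c * c = c) (ht : c.trace = 1) :
    ∃ w v : S → ℂ, ∀ l j, c l j = w l * v j := by
  classical
  let f := Matrix.toLin' c
  have hf : IsIdempotentElem f := by
    show f * f = f
    have : f * f = Matrix.toLin' (c * c) := by
      rw [Matrix.toLin'_mul]
      rfl
    rw [this, hc]
  have hpr := LinearMap.IsIdempotentElem.isProj_range f hf
  have htr := hpr.trace
  rw [Matrix.trace_toLin'_eq, ht] at htr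
  have h1 : finrank ℂ (LinearMap.range f) = 1 := by
    have : ((finrank ℂ (LinearMap.range f) : ℕ) : ℂ) = ((1 : ℕ) : ℂ) := by
      rw [← htr]
      simp
    exact_mod_cast this
  obtain ⟨w, -, hw⟩ := finrank_eq_one_iff'.1 h1
  have h2 : ∀ j, ∃ d : ℂ, d • w = (⟨f (Pi.single j 1), LinearMap.mem_range_self _ _⟩ : LinearMap.range f) :=
    fun j => hw _
  choose v hv using h2
  refine ⟨fun l => (w : S → ℂ) l, v, fun l j => ?_⟩
  have h3 := congrArg (fun u : LinearMap.range f => (u : S → ℂ) l) (hv j)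
  simp only [Submodule.coe_smul, Pi.smul_apply, smul_eq_mul] at h3
  have h4 : f (Pi.single j 1) l = c l j := by
    show (Matrix.toLin' c) (Pi.single j 1) l = _
    rw [Matrix.toLin'_apply, Matrix.mulVec_single_one]
    rfl
  rw [← h4, ← h3, mul_comm]

section Main

/-- An element of `A[L]` with the coefficients of the central idempotent of `χ`. -/
theorem iota_eq_eps {x : MonoidAlgebra A L} {χ : IrrCharacter L}
    (h : ∀ g, ((x.coeff g : A) : ℂ) = (Nat.card L : ℂ)⁻¹ * ((χ : L → ℂ) 1 * (χ : L → ℂ) g⁻¹)) :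
    iota A L x = eps {χ} := by
  ext g
  rw [iota_coeff, eps_coeff, h g]
  unfold blockCoeff
  rw [finsum_mem_singleton, char_conj_eq_inv (IsIrrCharacter.isCharacter χ.2)]

theorem eps_empty : eps (∅ : Set (IrrCharacter L)) = 0 := by
  ext g
  rw [eps_coeff]
  unfold blockCoeff
  simp

/-- **Primitive idempotents.** -/
theorem exists_prim_of_rep (T : L →* Matrix S S A) (hT : Representation.IsIrreducible (ltRep T)) {ϑ : L → ℂ}
    (hϑ : IsIrrCharacter L ϑ) (hTϑ : ∀ a, chr T a = ϑ a) {u : A} (hu : u * (Nat.card L : A) = 1) :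
    ∃ E : MonoidAlgebra A L, E * E = E ∧
      (∀ a : L, ∃ c : A, E * MonoidAlgebra.single a 1 * E = c • E) ∧
      (∀ ψ : L → ℂ, IsClassFunction L ψ →
        ∑ a, ((E.coeff a : A) : ℂ) * ψ a = (Nat.card L : ℂ)⁻¹ * ∑ a, ϑ a⁻¹ * ψ a) ∧
      (∀ φ : L ≃* L, (∀ a, ϑ (φ a) = ϑ a) → ∃ α β : MonoidAlgebra A L, β * α = E ∧
        α * β = MonoidAlgebra.domCongr A A φ E) ∧
      (∀ φ : L ≃* L, (∃ a, ϑ (φ a) ≠ ϑ a) → ∀ x : MonoidAlgebra A L,
        E * x * MonoidAlgebra.domCongr A A φ E = 0) := by
  classical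
  have hLne : (Nat.card L : ℂ) ≠ 0 := by exact_mod_cast Nat.card_pos.ne'
  have huC : (u : ℂ) = (Nat.card L : ℂ)⁻¹ := by
    have h1 : (u : ℂ) * (Nat.card L : ℂ) = 1 := by
      have := congrArg (fun y : A => (y : ℂ)) hu
      simpa using this
    exact eq_inv_of_mul_eq_one_left h1
  have hSne : Nonempty S := by
    have h1 := ((Cfsg.Agent.Lib.CharBasic.isIrreducible_iff _).1 hT).1
    by_contra h3
    rw [not_nonempty_iff] at h3
    exact not_subsingleton (S → ℂ) inferInstance
  have hcard : (Fintype.card S : ℂ) ≠ 0 := by exact_mod_cast (Fintype.card_pos (α := S)).ne'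
  obtain ⟨i₀⟩ := hSne
  set w : A := (Fintype.card S : A) * u with hwdef
  have hwC : (w : ℂ) = (Fintype.card S : ℂ) * (Nat.card L : ℂ)⁻¹ := by
    rw [hwdef]
    push_cast
    rw [huC]
  have hw : ∀ i j k l, ∑ a : L, w * T a⁻¹ j i * T a k l = if i = k ∧ j = l then 1 else 0 := by
    intro i j k l
    apply Subtype.ext
    have h1 := schur_rel T hT i j k l
    push_cast
    have h2 : ∑ a : L, (w : ℂ) * ((T a⁻¹ j i : A) : ℂ) * ((T a k l : A) : ℂ) =
        (w : ℂ) * ∑ a : L, ((T a⁻¹ j i : A) : ℂ) * ((T a k l : A) : ℂ) := by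
      rw [Finset.mul_sum]
      exact Finset.sum_congr rfl fun a _ => by ring
    rw [h2, h1, hwC]
    split_ifs with h3
    · simp only [OneMemClass.coe_one]
      field_simp
    · simp
  set E := Eij T w i₀ i₀ with hE
  have hEE : E * E = E := by
    rw [hE, Eij_mul T w hw, if_pos rfl]
  have hdeg : ϑ 1 = Fintype.card S := by
    rw [← hTϑ, chr_one]
  -- the class function formula
  have hclass : ∀ ψ : L → ℂ, IsClassFunction L ψ →
      ∑ a, ((E.coeff a : A) : ℂ) * ψ a = (Nat.card L : ℂ)⁻¹ * ∑ a, ϑ a⁻¹ * ψ a := by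
    intro ψ hψ
    simp_rw [hE, Eij_coeff]
    let C : L → S → S → ℂ := fun a u v => ((T a u v : A) : ℂ)
    have hY : ∀ b : L, ∑ a, C a⁻¹ i₀ i₀ * ψ a = ∑ a, C (b⁻¹ * a⁻¹ * b) i₀ i₀ * ψ a := by
      intro b
      refine (Fintype.sum_equiv (MulAut.conj b⁻¹).toEquiv _ _ fun a => ?_).symm
      have h1 : (MulAut.conj b⁻¹).toEquiv a = b⁻¹ * a * b := by simp
      rw [h1]
      have h2 := hψ a b⁻¹
      rw [inv_inv] at h2
      rw [h2]
      congr 3
      group
    have hent : ∀ a b : L, C (b⁻¹ * a⁻¹ * b) i₀ i₀ = ∑ n, ∑ m, C a⁻¹ m n * (C b⁻¹ i₀ m * C b n i₀) := by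
      intro a b
      simp only [C]
      rw [map_mul, map_mul, Matrix.mul_apply]
      push_cast
      refine Finset.sum_congr rfl fun n _ => ?_
      rw [Matrix.mul_apply]
      push_cast
      rw [Finset.sum_mul]
      refine Finset.sum_congr rfl fun m _ => ?_
      ring
    have hsum : ∀ a : L, ∑ b, C (b⁻¹ * a⁻¹ * b) i₀ i₀ = ϑ a⁻¹ * ((Nat.card L : ℂ) / (Fintype.card S : ℂ)) := by
      intro a
      simp_rw [hent]
      rw [Finset.sum_comm]
      have h1 : ∀ n, ∑ b : L, ∑ m, C a⁻¹ m n * (C b⁻¹ i₀ m * C b n i₀) =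
          C a⁻¹ n n * ((Nat.card L : ℂ) / (Fintype.card S : ℂ)) := by
        intro n
        rw [Finset.sum_comm]
        have h2 : ∀ m, ∑ b : L, C a⁻¹ m n * (C b⁻¹ i₀ m * C b n i₀) =
            C a⁻¹ m n * (if m = n ∧ i₀ = i₀ then (Nat.card L : ℂ) / (Fintype.card S : ℂ) else 0) := by
          intro m
          rw [← Finset.mul_sum]
          congr 1
          exact schur_rel T hT m i₀ n i₀
        simp_rw [h2]
        rw [Finset.sum_eq_single n]
        · simp
        · intro m _ hm
          simp [hm]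
        · simp
      simp_rw [h1]
      rw [← Finset.sum_mul, ← hTϑ]
      congr 1
      simp only [chr, Matrix.trace, Matrix.diag]
      push_cast
      rfl
    have hSC : (Fintype.card S : ℂ) ≠ 0 := hcard
    have hmain : (Nat.card L : ℂ) * ∑ a, C a⁻¹ i₀ i₀ * ψ a =
        (Nat.card L : ℂ) * ((Fintype.card S : ℂ)⁻¹ * ∑ a, ϑ a⁻¹ * ψ a) := by
      have h1 : (Nat.card L : ℂ) * ∑ a, C a⁻¹ i₀ i₀ * ψ a = ∑ b : L, ∑ a, C (b⁻¹ * a⁻¹ * b) i₀ i₀ * ψ a := by
        simp_rw [← hY]
        rw [Finset.sum_const, Finset.card_univ, ← Nat.card_eq_fintype_card, nsmul_eq_mul]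
      rw [h1, Finset.sum_comm]
      simp_rw [← Finset.sum_mul, hsum]
      rw [Finset.mul_sum, Finset.mul_sum]
      refine Finset.sum_congr rfl fun a _ => ?_
      field_simp
    have hmain' : ∑ a, C a⁻¹ i₀ i₀ * ψ a = (Fintype.card S : ℂ)⁻¹ * ∑ a, ϑ a⁻¹ * ψ a :=
      mul_left_cancel₀ hLne hmain
    have h3 : ∑ a, (((w * T a⁻¹ i₀ i₀ : A) : ℂ)) * ψ a = (w : ℂ) * ∑ a, C a⁻¹ i₀ i₀ * ψ a := by
      rw [Finset.mul_sum]
      refine Finset.sum_congr rfl fun a _ => ?_
      simp only [C]
      push_cast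
      ring
    rw [h3, hmain', hwC]
    field_simp
  have hEe : E * eT T w = E := Eij_mul_eT T w hw i₀ i₀
  have heE : eT T w * E = E := eT_mul_Eij T w hw i₀ i₀
  refine ⟨E, hEE, ?_, hclass, ?_, ?_⟩
  · intro a
    refine ⟨T a i₀ i₀, ?_⟩
    rw [mul_assoc, hE, single_mul_Eij, Finset.mul_sum]
    simp_rw [mul_smul_comm, Eij_mul T w hw]
    rw [Finset.sum_eq_single i₀]
    · simp
    · intro l _ hl
      simp [hl.symm]
    · simp
  · -- conjugacy
    intro φ hφ
    let lf : MonoidAlgebra A L →ₐ[A] Matrix S S A := MonoidAlgebra.lift A _ L (T.comp φ.toMonoidHom)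
    have hlf : ∀ x : MonoidAlgebra A L, lf x = ∑ a, x.coeff a • T (φ a) := by
      intro x
      conv_lhs => rw [sum_single x]
      rw [map_sum]
      refine Finset.sum_congr rfl fun a _ => ?_
      simp [lf, MonoidAlgebra.lift_single]
    set cc := lf E with hcc
    have hcc2 : cc * cc = cc := by rw [hcc, ← map_mul, hEE]
    have hccent : ∀ l j, cc l j = ∑ a, E.coeff a * T (φ a) l j := by
      intro l j
      rw [hcc, hlf, Matrix.sum_apply]
      rfl
    have htrC : ((cc.trace : A) : ℂ) = 1 := by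
      have h1 : ((cc.trace : A) : ℂ) = ∑ a, ((E.coeff a : A) : ℂ) * chr T (φ a) := by
        rw [hcc, hlf, Matrix.trace_sum]
        push_cast
        refine Finset.sum_congr rfl fun a _ => ?_
        rw [Matrix.trace_smul]
        simp [chr]
      rw [h1]
      have h2 : ∀ a, chr T (φ a) = ϑ a := fun a => by rw [hTϑ, hφ]
      simp_rw [h2]
      rw [hclass ϑ (isClassFunction_of_isCharacter (IsIrrCharacter.isCharacter hϑ))]
      have h3 := classInner_irr_self hϑ
      unfold classInner at h3
      simp_rw [char_conj_eq_inv (IsIrrCharacter.isCharacter hϑ)] at h3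
      rw [← h3]
      congr 1
      exact Finset.sum_congr rfl fun a _ => mul_comm _ _
    have htrA : cc.trace = 1 := by
      apply Subtype.ext
      simpa using htrC
    -- rank one
    let cC : Matrix S S ℂ := (A.subtype).mapMatrix cc
    have hcC2 : cC * cC = cC := by
      simp only [cC]
      rw [← map_mul, hcc2]
    have hcCt : cC.trace = 1 := by
      rw [← htrC]
      simp [cC, Matrix.trace]
    obtain ⟨w₀, v₀, hwv⟩ := exists_rank_one cC hcC2 hcCt
    have hcent : ∀ l j, ((cc l j : A) : ℂ) = w₀ l * v₀ j := fun l j => hwv l j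
    obtain ⟨i₁, hi₁⟩ : ∃ i₁, w₀ i₁ ≠ 0 := by
      by_contra hall
      push Not at hall
      have h1 : cC.trace = 0 := by
        simp only [Matrix.trace, Matrix.diag]
        apply Finset.sum_eq_zero
        intro i _
        rw [hwv, hall, zero_mul]
      rw [hcCt] at h1
      exact one_ne_zero h1
    obtain ⟨l₀, -, hl₀, hdiv⟩ := exists_max_coeff (A := A) Finset.univ w₀ (Finset.mem_univ i₁) hi₁
    let w' : S → A := fun l => ⟨w₀ l / w₀ l₀, hdiv l (Finset.mem_univ l)⟩
    let v' : S → A := fun j => cc l₀ j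
    have hfac : ∀ l j, cc l j = w' l * v' j := by
      intro l j
      apply Subtype.ext
      push_cast
      rw [hcent]
      show _ = (w₀ l / w₀ l₀) * ((cc l₀ j : A) : ℂ)
      rw [hcent]
      field_simp
    have htr' : ∑ j, v' j * w' j = 1 := by
      rw [← htrA, Matrix.trace]
      refine Finset.sum_congr rfl fun j _ => ?_
      rw [Matrix.diag, hfac, mul_comm]
    refine ⟨∑ l, w' l • Eij T w l i₀, ∑ j, v' j • Eij T w i₀ j, ?_, ?_⟩
    · rw [Finset.sum_mul]
      simp_rw [Finset.mul_sum, smul_mul_smul_comm, Eij_mul T w hw]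
      have h1 : ∀ j, ∑ l, (v' j * w' l) • (if j = l then Eij T w i₀ i₀ else 0) = (v' j * w' j) • E := by
        intro j
        rw [Finset.sum_eq_single j]
        · simp [hE]
        · intro l _ hl
          simp [hl.symm]
        · simp
      simp_rw [h1]
      rw [← Finset.sum_smul, htr', one_smul]
    · have hde : MonoidAlgebra.domCongr A A φ (eT T w) = eT T w := by
        ext y
        rw [MonoidAlgebra.coeff_domCongr, eT_coeff, eT_coeff]
        push_cast
        congr 1
        have h1 := hTϑ (φ.symm y)⁻¹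
        have h2 := hTϑ y⁻¹
        simp only [chr] at h1 h2
        rw [h1, h2]
        have h3 := hφ (φ.symm y⁻¹)
        simp only [MulEquiv.apply_symm_apply] at h3
        rw [h3, map_inv]
      have hdE : MonoidAlgebra.domCongr A A φ E = MonoidAlgebra.domCongr A A φ E * eT T w := by
        conv_rhs => rw [← hde, ← map_mul, hEe]
      rw [hdE, mul_eT]
      have hcoef : ∀ l j, ∑ a, (MonoidAlgebra.domCongr A A φ E).coeff a * T a l j = cc l j := by
        intro l j
        rw [hccent]
        refine Fintype.sum_equiv φ.symm.toEquiv _ _ fun a => ?_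
        rw [MonoidAlgebra.coeff_domCongr]
        simp
      simp_rw [hcoef, hfac]
      rw [Finset.sum_mul]
      simp_rw [Finset.mul_sum, smul_mul_smul_comm, Eij_mul T w hw]
      simp
  · -- orthogonality
    intro φ hφ x
    obtain ⟨a₀, ha₀⟩ := hφ
    let χ : IrrCharacter L := ⟨ϑ, hϑ⟩
    have hϑ' : IsIrrCharacter L (ϑ ∘ φ.symm.toMonoidHom) :=
      isIrrCharacter_comp_of_surjective _ φ.symm.surjective hϑ
    let χ' : IrrCharacter L := ⟨_, hϑ'⟩
    have hne : χ ≠ χ' := by
      intro h
      apply ha₀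
      have h1 : ϑ = ϑ ∘ φ.symm.toMonoidHom := congrArg Subtype.val h
      have h2 := congrFun h1 (φ a₀)
      simpa using h2
    have hcoefT : ∀ g, ((((eT T w).coeff g : A)) : ℂ) = (w : ℂ) * ϑ g⁻¹ := by
      intro g
      rw [eT_coeff]
      push_cast
      congr 1
      exact hTϑ g⁻¹
    have h1 : iota A L (eT T w) = eps {χ} := by
      apply iota_eq_eps
      intro g
      rw [hcoefT, hwC]
      show _ = _ * (ϑ 1 * ϑ g⁻¹)
      rw [hdeg]
      ring
    have h2 : iota A L (MonoidAlgebra.domCongr A A φ (eT T w)) = eps {χ'} := by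
      apply iota_eq_eps
      intro g
      rw [MonoidAlgebra.coeff_domCongr, hcoefT, hwC]
      show _ = _ * (ϑ (φ.symm 1) * ϑ (φ.symm g⁻¹))
      rw [map_one, hdeg, map_inv]
      ring
    have h3 : eT T w * MonoidAlgebra.domCongr A A φ (eT T w) = 0 := by
      apply iota_injective (A := A) (G := L)
      rw [map_mul, h1, h2, eps_mul, map_zero]
      have h4 : ({χ} : Set (IrrCharacter L)) ∩ {χ'} = ∅ := by
        ext y
        simp only [Set.mem_inter_iff, Set.mem_singleton_iff, Set.mem_empty_iff_false, iff_false, not_and]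
        rintro rfl
        exact hne
      rw [h4, eps_empty]
    have hcen : ∀ y, eT T w * y = y * eT T w := by
      intro y
      apply iota_injective (A := A) (G := L)
      rw [map_mul, map_mul, h1, eps_comm]
    have h5 : MonoidAlgebra.domCongr A A φ E =
        MonoidAlgebra.domCongr A A φ (eT T w) * MonoidAlgebra.domCongr A A φ E := by
      rw [← map_mul, heE]
    calc E * x * MonoidAlgebra.domCongr A A φ E
        = (E * eT T w) * x * (MonoidAlgebra.domCongr A A φ (eT T w) * MonoidAlgebra.domCongr A A φ E) := by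
          rw [hEe, ← h5]
      _ = E * (eT T w * x) * MonoidAlgebra.domCongr A A φ (eT T w) * MonoidAlgebra.domCongr A A φ E := by
          simp only [mul_assoc]
      _ = E * x * (eT T w * MonoidAlgebra.domCongr A A φ (eT T w)) * MonoidAlgebra.domCongr A A φ E := by
          rw [hcen]
          simp only [mul_assoc]
      _ = 0 := by rw [h3]; simp

/-- **Primitive idempotents**, from the character. -/
theorem exists_prim {L : Type u} [Group L] [Fintype L] [DecidableEq L] {ϑ : L → ℂ}
    (hϑ : IsIrrCharacter L ϑ) {u : A} (hu : u * (Nat.card L : A) = 1) :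
    ∃ E : MonoidAlgebra A L, E * E = E ∧
      (∀ a : L, ∃ c : A, E * MonoidAlgebra.single a 1 * E = c • E) ∧
      (∀ ψ : L → ℂ, IsClassFunction L ψ →
        ∑ a, ((E.coeff a : A) : ℂ) * ψ a = (Nat.card L : ℂ)⁻¹ * ∑ a, ϑ a⁻¹ * ψ a) ∧
      (∀ φ : L ≃* L, (∀ a, ϑ (φ a) = ϑ a) → ∃ α β : MonoidAlgebra A L, β * α = E ∧
        α * β = MonoidAlgebra.domCongr A A φ E) ∧
      (∀ φ : L ≃* L, (∃ a, ϑ (φ a) ≠ ϑ a) → ∀ x : MonoidAlgebra A L,
        E * x * MonoidAlgebra.domCongr A A φ E = 0) := by
  obtain ⟨S, h1, h2, T, hT, hTϑ⟩ := exists_int_rep (A := A) hϑ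
  exact exists_prim_of_rep T hT hϑ hTϑ hu

end Main

end Idem

end Cfsg.Agent.Lib.DefOneA
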