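import Mathlib
import Cfsg.Agent.Lib.DefOneA
import Cfsg.Agent.Lib.RangeB0

/-!
# The range bound for a primitive idempotent of `K`

`T : G → Mat(A)`, `L ≤ G` commuting with `x` of order `p`.  The multiplicities of the eigenvalues of `x` on the image of a primitive
idempotent `E` of `A[L]` differ by at most one, when `E` is conjugate to its images under a subgroup `Tt` of `N(⟨x⟩)` and orthogonal to the
other images.
-/

set_option autoImplicit false
set_option linter.unusedSectionVars false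
set_option linter.unusedVariables false
set_option linter.style.haveILetI false

namespace Cfsg.Agent.Lib.DefOneB

open Module Matrix Cfsg Subgroup
open Cfsg.Agent.Lib.RangeMod Cfsg.Agent.Lib.RangeVal Cfsg.Agent.Lib.RangeLat Cfsg.Agent.Lib.RangeAlg
open Cfsg.Agent.Lib.RangeChar Cfsg.Agent.Lib.RangeGen Cfsg.Agent.Lib.RangeB0
open Cfsg.Agent.Lib.CharBasic Cfsg.Agent.Lib.BlkBasic Cfsg.Agent.Lib.BlockIdem Cfsg.Agent.Lib.DefectOne
open scoped ComplexConjugate

section Gen

variable {G : Type*} [Group G] [Fintype G] [DecidableEq G] {p : ℕ} [hp : Fact p.Prime]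

/-- A subgroup of the normalizer is cyclic modulo the centralizer. -/
theorem exists_gen' {x : G} (hx : orderOf x = p) (Tt : Subgroup G) (hT : Tt ≤ normalizer (zpowers x : Set G)) :
    ∃ h ∈ Tt, ∀ n ∈ Tt, ∃ a : ℕ, n * (h ^ a)⁻¹ ∈ centralizer (zpowers x : Set G) := by
  classical
  let P := zpowers x
  let θ := P.normalizerMonoidHom
  have hcard : Nat.card P = p := by
    show Nat.card (zpowers x) = p
    rw [Nat.card_zpowers, hx]
  haveI : Fact (Nat.card P).Prime := ⟨by rw [hcard]; exact hp.out⟩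
  haveI : IsCyclic P := by
    show IsCyclic (zpowers x)
    infer_instance
  haveI : IsCyclic (MulAut P) := by
    have e := IsCyclic.mulAutMulEquiv P
    exact isCyclic_of_surjective e.symm.toMonoidHom e.symm.surjective
  let Im : Subgroup (MulAut P) := (Tt.subgroupOf (normalizer (P : Set G))).map θ
  obtain ⟨⟨g, hg⟩, hgen⟩ := IsCyclic.exists_generator (α := Im)
  obtain ⟨h, hh, rfl⟩ := hg
  refine ⟨h, Subgroup.mem_subgroupOf.1 hh, fun n hn => ?_⟩
  have hnN : n ∈ normalizer (P : Set G) := hT hn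
  have hm : θ ⟨n, hnN⟩ ∈ Im := ⟨⟨n, hnN⟩, Subgroup.mem_subgroupOf.2 hn, rfl⟩
  have h1 := hgen ⟨θ ⟨n, hnN⟩, hm⟩
  have h2 : (⟨θ ⟨n, hnN⟩, hm⟩ : Im) ∈ Submonoid.powers (⟨θ h, ⟨h, hh, rfl⟩⟩ : Im) :=
    mem_powers_iff_mem_zpowers.2 h1
  obtain ⟨a, ha⟩ := h2
  refine ⟨a, ?_⟩
  have h3 : θ h ^ a = θ ⟨n, hnN⟩ := by
    have := congrArg Subtype.val ha
    simpa using this
  have h4 : (⟨n, hnN⟩ * (h ^ a)⁻¹ : normalizer (P : Set G)) ∈ θ.ker := by
    rw [MonoidHom.mem_ker, map_mul, map_inv, map_pow, h3, mul_inv_cancel]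
  rw [normalizerMonoidHom_ker, Subgroup.mem_subgroupOf] at h4
  simpa using h4

end Gen

section Cut

variable {G : Type*} [Group G] [Fintype G] [DecidableEq G] {p : ℕ} [hp : Fact p.Prime]
variable {A : ValuationSubring ℂ} [CharP (IsLocalRing.ResidueField A) p]
variable {I : Type*} [Fintype I] [DecidableEq I]

/-- The extension to `A[L]`. -/
noncomputable def cut (T : G →* Matrix I I A) (L : Subgroup G) : MonoidAlgebra A L →ₐ[A] Matrix I I A :=
  MonoidAlgebra.lift A _ L (T.comp L.subtype)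

variable {T : G →* Matrix I I A} {L : Subgroup G} [Fintype L] [DecidableEq L]

theorem cut_eq (x : MonoidAlgebra A L) : cut T L x = ∑ a : L, x.coeff a • T a := by
  conv_lhs => rw [sum_single x]
  rw [map_sum]
  refine Finset.sum_congr rfl fun a _ => ?_
  simp [cut, MonoidAlgebra.lift_single]

theorem cut_single (a : L) (r : A) : cut T L (MonoidAlgebra.single a r) = r • T a := by
  simp [cut, MonoidAlgebra.lift_single]

theorem rdM_cut (y : MonoidAlgebra A L) : rdM (cut T L y) = ∑ a : L, (res A (y.coeff a)) • redRep T a := by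
  rw [cut_eq, map_sum]
  refine Finset.sum_congr rfl fun a _ => ?_
  rw [rdM_smul]
  rfl

/-- Conjugation of `cut`. -/
theorem conj_cut {n : G} (hn : n ∈ normalizer (L : Set G)) (y : MonoidAlgebra A L) :
    T n * cut T L y * T n⁻¹ =
      cut T L (MonoidAlgebra.domCongr A A (Cfsg.Agent.Lib.BrauerPair.conjAut L n hn) y) := by
  rw [cut_eq, cut_eq, Finset.mul_sum, Finset.sum_mul]
  refine Fintype.sum_equiv (Cfsg.Agent.Lib.BrauerPair.conjAut L n hn).toEquiv _ _ fun a => ?_
  rw [MonoidAlgebra.coeff_domCongr, mul_smul_comm, smul_mul_assoc, ← map_mul, ← map_mul]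
  simp only [MulEquiv.toEquiv_eq_coe, EquivLike.coe_coe, MulEquiv.symm_apply_apply]
  rfl

local notation "k" => IsLocalRing.ResidueField A

/-- **Bound**. -/
theorem finrank_eigE_cut_le {x : G} (hx : orderOf x = p) (hidx : ¬ p ∣ (zpowers x).index)
    (hloc : ∀ φ : Module.End (IsLocalRing.ResidueField A) (I → IsLocalRing.ResidueField A),
      (∀ g, φ * redRep T g = redRep T g * φ) → IsNilpotent φ ∨ Function.Surjective φ)
    (hL : ∀ a ∈ L, a * x = x * a) (hLn : ∀ n ∈ normalizer (zpowers x : Set G), n ∈ normalizer (L : Set G))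
    (hC : ∀ c ∈ centralizer (zpowers x : Set G), ∃ a ∈ L, c * a⁻¹ ∈ zpowers x)
    {E : MonoidAlgebra A L} (hEE : E * E = E)
    (hEr : ∀ a : L, ∃ c : A, E * MonoidAlgebra.single a 1 * E = c • E)
    (Tt : Subgroup G) (hTN : Tt ≤ normalizer (zpowers x : Set G))
    (hin : ∀ n (hn : n ∈ normalizer (L : Set G)), n ∈ Tt → ∃ α β : MonoidAlgebra A L, β * α = E ∧
      α * β = MonoidAlgebra.domCongr A A (Cfsg.Agent.Lib.BrauerPair.conjAut L n hn) E)
    (hout : ∀ n (hn : n ∈ normalizer (L : Set G)), n ∈ normalizer (zpowers x : Set G) → n ∉ Tt →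
      ∀ y : MonoidAlgebra A L, E * y * MonoidAlgebra.domCongr A A (Cfsg.Agent.Lib.BrauerPair.conjAut L n hn) E = 0)
    {z z' : ℂ} (hz : z ^ p = 1) (hz' : z' ^ p = 1) :
    finrank ℂ (eigE T x z (cut T L E)) ≤ finrank ℂ (eigE T x z' (cut T L E)) + 1 := by
  classical
  set Em := cut T L E with hEm
  have hEE' : Em * Em = Em := by rw [hEm, ← map_mul, hEE]
  have hEx : Em * T x = T x * Em := by
    rw [hEm, cut_eq, Finset.sum_mul, Finset.mul_sum]
    refine Finset.sum_congr rfl fun a _ => ?_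
    rw [smul_mul_assoc, mul_smul_comm, ← map_mul, ← map_mul, hL a a.2]
  have hxp : x ^ p = 1 := by rw [← hx]; exact pow_orderOf_eq_one x
  have h1 := finrank_eigE_le T hxp hz hz' hEE' hEx
  suffices h2 : finrank k ((Fx (redRep T) x).map (rdM Em)) ≤ finrank k ((ImN (redRep T) x p).map (rdM Em)) + 1 by omega
  set ρ := redRep T with hρ
  let ρL : L →* Module.End k (I → k) := ρ.comp L.subtype
  let lk : MonoidAlgebra k L →ₐ[k] Module.End k (I → k) := MonoidAlgebra.lift k _ L ρL
  let R : Subalgebra k (Module.End k (I → k)) := lk.range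
  have hlk : ∀ w : MonoidAlgebra k L, lk w = ∑ a : L, w.coeff a • ρ a := by
    intro w
    conv_lhs => rw [sum_single w]
    rw [map_sum]
    refine Finset.sum_congr rfl fun a _ => ?_
    simp [lk, MonoidAlgebra.lift_single, ρL]
  have hgen : ∀ a ∈ L, ρ a ∈ R := by
    intro a ha
    refine ⟨MonoidAlgebra.single ⟨a, ha⟩ 1, ?_⟩
    simp [lk, MonoidAlgebra.lift_single, ρL]
  have hcutR : ∀ y : MonoidAlgebra A L, rdM (cut T L y) ∈ R := by
    intro y
    rw [rdM_cut]
    exact Subalgebra.sum_mem _ fun a _ => Subalgebra.smul_mem _ (hgen a a.2) _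
  have hRform : ∀ r ∈ R, ∃ c : L → k, r = ∑ a : L, c a • ρ a := by
    rintro r ⟨w, rfl⟩
    exact ⟨fun a => w.coeff a, hlk w⟩
  have hred : ∀ y y' : MonoidAlgebra A L, rdM (cut T L y) * rdM (cut T L y') = rdM (cut T L (y * y')) := by
    intro y y'
    rw [← map_mul, ← map_mul]
  have hsg : ∀ a : L, ρ a = rdM (cut T L (MonoidAlgebra.single a 1)) := by
    intro a
    rw [cut_single, one_smul]
    rfl
  have hEr' : ∀ r ∈ R, ∃ c : k, rdM Em * r * rdM Em = c • rdM Em := by
    intro r hr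
    obtain ⟨c, rfl⟩ := hRform r hr
    choose d hd using hEr
    refine ⟨∑ a : L, c a * res A (d a), ?_⟩
    rw [Finset.mul_sum, Finset.sum_mul, Finset.sum_smul]
    refine Finset.sum_congr rfl fun a _ => ?_
    rw [mul_smul_comm, smul_mul_assoc, hsg a, hEm, hred, hred, hd a, map_smul, rdM_smul, smul_smul]
  have hRx : ∀ r ∈ R, r * ρ x = ρ x * r := by
    intro r hr
    obtain ⟨c, rfl⟩ := hRform r hr
    rw [Finset.sum_mul, Finset.mul_sum]
    refine Finset.sum_congr rfl fun a _ => ?_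
    rw [smul_mul_assoc, mul_smul_comm, ← map_mul, ← map_mul, hL a a.2]
  have hRc : ∀ n ∈ normalizer (zpowers x : Set G), ∀ r ∈ R, ρ n * r * ρ n⁻¹ ∈ R := by
    intro n hn r hr
    obtain ⟨c, rfl⟩ := hRform r hr
    rw [Finset.mul_sum, Finset.sum_mul]
    refine Subalgebra.sum_mem _ fun a _ => ?_
    rw [mul_smul_comm, smul_mul_assoc, ← map_mul, ← map_mul]
    refine Subalgebra.smul_mem _ (hgen _ ?_) _
    exact (mem_normalizer_iff.1 (hLn n hn) a).1 a.2
  obtain ⟨h, hh, hgn⟩ := exists_gen' hx Tt hTN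
  have hhN : h ∈ normalizer (zpowers x : Set G) := hTN hh
  obtain ⟨α, β, hβα, hαβ⟩ := hin h (hLn h hhN) hh
  have hconj : ∀ n (hn : n ∈ normalizer (L : Set G)), ρ n * rdM Em * ρ n⁻¹ =
      rdM (cut T L (MonoidAlgebra.domCongr A A (Cfsg.Agent.Lib.BrauerPair.conjAut L n hn) E)) := by
    intro n hn
    rw [← conj_cut hn, map_mul, map_mul]
    rfl
  refine tate_idem hx hidx hloc L R hRx hgen hRc hC (rdM Em) (hcutR E) ?_ hEr' Tt hTN hh hgn
    (hcutR α) (hcutR β) ?_ ?_ ?_
  · rw [← map_mul, hEE']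
  · rw [hred, hβα]
  · rw [hred, hαβ, hconj h (hLn h hhN)]
  · intro n hn hnT r hr
    obtain ⟨c, rfl⟩ := hRform r hr
    rw [hconj n (hLn n hn)]
    rw [Finset.mul_sum, Finset.sum_mul]
    refine Finset.sum_eq_zero fun a _ => ?_
    rw [mul_smul_comm, smul_mul_assoc, hsg a, hEm, hred, hred, hout n (hLn n hn) hn hnT]
    simp

/-- The dimension of the cut eigenspace, for the lattice. -/
theorem finrank_eigE_lat' {e : MonoidAlgebra A G} (he : e * e = e) {B : Set (IrrCharacter G)}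
    (D : LatData A (xi e B)) {x : G} (hx : x ^ p = 1) {z : ℂ} (hz : z ^ p = 1) {E : MonoidAlgebra A L}
    (hEE : E * E = E) (hL : ∀ a ∈ L, a * x = x * a) :
    ((finrank ℂ (eigE D.repT x z (cut D.repT L E)) : ℕ) : ℂ) =
      ∑ χ : IrrCharacter G, blkInd B χ * (dval e χ * mlt p x z (fun g => ∑ a : L, ((E.coeff a : A) : ℂ) * (χ : G → ℂ) (g * a))) := by
  have hEE' : cut D.repT L E * cut D.repT L E = cut D.repT L E := by rw [← map_mul, hEE]
  have hEx : cut D.repT L E * D.repT x = D.repT x * cut D.repT L E := by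
    rw [cut_eq, Finset.sum_mul, Finset.mul_sum]
    refine Finset.sum_congr rfl fun a _ => ?_
    rw [smul_mul_assoc, mul_smul_comm, ← map_mul, ← map_mul, hL a a.2]
  rw [finrank_eigE_eq D.repT hx hz hEE' hEx]
  have h1 : ∀ g : G, (((D.repT g * cut D.repT L E).trace : A) : ℂ) =
      ∑ χ : IrrCharacter G, (blkInd B χ * dval e χ) * (fun g => ∑ a : L, ((E.coeff a : A) : ℂ) * (χ : G → ℂ) (g * a)) g := by
    intro g
    rw [cut_eq, Finset.mul_sum, Matrix.trace_sum]
    push_cast
    have h2 : ∀ a : L, (((D.repT g * E.coeff a • D.repT (a : G)).trace : A) : ℂ) =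
        ∑ χ : IrrCharacter G, (blkInd B χ * dval e χ) * (((E.coeff a : A) : ℂ) * (χ : G → ℂ) (g * a)) := by
      intro a
      rw [mul_smul_comm, Matrix.trace_smul, ← map_mul]
      have h3 : (((D.repT (g * a)).trace : A) : ℂ) = chr D.repT (g * a) := rfl
      rw [smul_eq_mul]
      push_cast
      rw [h3, chr_lat he D, Finset.mul_sum]
      refine Finset.sum_congr rfl fun χ _ => ?_
      ring
    simp_rw [h2]
    rw [Finset.sum_comm]
    refine Finset.sum_congr rfl fun χ _ => ?_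
    rw [Finset.mul_sum]
  have h4 := mlt_sum (p := p) Finset.univ (fun χ : IrrCharacter G => blkInd B χ * dval e χ)
    (fun χ => fun g => ∑ a : L, ((E.coeff a : A) : ℂ) * (χ : G → ℂ) (g * a)) x z
  have h5 : (p : ℂ)⁻¹ * ∑ i ∈ Finset.range p, (z⁻¹) ^ i * (((D.repT (x ^ i) * cut D.repT L E).trace : A) : ℂ) =
      mlt p x z (fun g => ∑ χ : IrrCharacter G, (blkInd B χ * dval e χ) * (fun g => ∑ a : L, ((E.coeff a : A) : ℂ) * (χ : G → ℂ) (g * a)) g) := by
    unfold mlt
    congr 1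
    refine Finset.sum_congr rfl fun i _ => ?_
    rw [h1]
  rw [h5, h4]
  refine Finset.sum_congr rfl fun χ _ => ?_
  ring

end Cut

end Cfsg.Agent.Lib.DefOneB
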