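import Mathlib
import Cfsg.Agent.Lib.DefOneB
import Cfsg.Agent.Lib.RangeStruct
import Cfsg.Agent.Lib.CharKernel

/-!
# Twists of a character of `C = C(P)` with `P` in its kernel

`θ` an irreducible character of `C` with `P` in its kernel, `f` a linear character of `P`, `r : C → P` the retraction.  The generalized
characters `Ind_C^G ((f ∘ r - 1) θ)`, and their Gram matrix `e + δ`, `e` the index of `C` in the stabilizer of `θ`.
-/

set_option autoImplicit false
set_option linter.unusedSectionVars false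
set_option linter.unusedVariables false
set_option linter.style.haveILetI false

namespace Cfsg.Agent.Lib.DefOneC

open Cfsg Cfsg.Agent.Lib.CharBasic Subgroup Cfsg.Agent.Lib.DefectOne Cfsg.Agent.Lib.TICent
open scoped ComplexConjugate

variable {G : Type*} [Group G] [Fintype G] {p : ℕ} {P C : Subgroup G} {r : ↥C →* ↥P} {e₀ : ℕ}

/-- `P` in the kernel. -/
def KerP (P C : Subgroup G) (θ : ↥C → ℂ) : Prop := ∀ c : ↥C, (c : G) ∈ P → θ c = θ 1

/-- The twist of `θ` by `f ∘ r`. -/
noncomputable def tw (r : ↥C →* ↥P) (f : ↥P →* ℂˣ) (θ : ↥C → ℂ) : ↥C → ℂ := fun c => ((f (r c) : ℂˣ) : ℂ) * θ c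

@[simp] theorem tw_apply (f : ↥P →* ℂˣ) (θ : ↥C → ℂ) (c : ↥C) : tw r f θ c = ((f (r c) : ℂˣ) : ℂ) * θ c := rfl

theorem tw_one (θ : ↥C → ℂ) : tw r 1 θ = θ := by
  funext c
  simp

variable [Fintype C]

theorem isIrr_tw (f : ↥P →* ℂˣ) {θ : ↥C → ℂ} (hθ : IsIrrCharacter C θ) : IsIrrCharacter C (tw r f θ) := by
  rw [isIrrCharacter_iff_norm_one]
  refine ⟨?_, ?_⟩
  · exact isCharacter_mul (IsIrrCharacter.isCharacter (isIrr_chi (f.comp r))) (IsIrrCharacter.isCharacter hθ)
  · have h1 := classInner_irr_self hθ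
    rw [← h1]
    unfold classInner
    congr 1
    refine Finset.sum_congr rfl fun c _ => ?_
    have h2 : ((f (r c) : ℂˣ) : ℂ) * conj ((f (r c) : ℂˣ) : ℂ) = 1 := by
      have := chi_conj f (r c)
      have h3 : chi f (r c) * chi f (r c)⁻¹ = 1 := by
        simp [chi]
      rw [← this] at h3
      exact h3
    simp only [tw_apply, map_mul]
    calc ((f (r c) : ℂˣ) : ℂ) * θ c * (conj ((f (r c) : ℂˣ) : ℂ) * conj (θ c))
        = (((f (r c) : ℂˣ) : ℂ) * conj ((f (r c) : ℂˣ) : ℂ)) * (θ c * conj (θ c)) := by ring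
      _ = _ := by rw [h2, one_mul]

theorem theta_one_ne {θ : ↥C → ℂ} (hθ : IsIrrCharacter C θ) : θ 1 ≠ 0 := by
  rw [Cfsg.Agent.Lib.CharKernel.one_eq_charDegree (IsIrrCharacter.isCharacter hθ)]
  exact_mod_cast Cfsg.Agent.Lib.CharKernel.charDegree_ne_zero hθ

section Hyp

variable (H : Hyp p P C r e₀)
include H

/-- Orthonormality of the twists. -/
theorem inner_tw {θ θ' : ↥C → ℂ} (hθ : IsIrrCharacter C θ) (hθ' : IsIrrCharacter C θ') (hk : KerP P C θ) (hk' : KerP P C θ')
    (f g : ↥P →* ℂˣ) [Decidable (f = g ∧ θ = θ')] :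
    classInner (tw r f θ) (tw r g θ') = if f = g ∧ θ = θ' then 1 else 0 := by
  classical
  rw [classInner_irr (isIrr_tw f hθ) (isIrr_tw g hθ')]
  by_cases h : f = g ∧ θ = θ'
  · rw [if_pos h, if_pos]
    rw [h.1, h.2]
  · rw [if_neg h, if_neg]
    intro h0
    apply h
    have h1 : θ 1 = θ' 1 := by
      have := congrFun h0 1
      simpa using this
    have h2 : f = g := by
      ext z
      have h3 := congrFun h0 ((⟨z, H.le z.2⟩ : ↥C))
      have h4 : r ((⟨z, H.le z.2⟩ : ↥C)) = z := H.id z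
      simp only [tw_apply, h4] at h3
      rw [hk _ z.2, hk' _ z.2, ← h1] at h3
      exact mul_right_cancel₀ (theta_one_ne hθ) h3
    refine ⟨h2, ?_⟩
    funext c
    have h3 := congrFun h0 c
    simp only [tw_apply, h2] at h3
    exact mul_left_cancel₀ (Units.ne_zero _) h3

/-- The conjugation homomorphism on `C`. -/
def cjH (x : normalizer (P : Set G)) : ↥C →* ↥C where
  toFun := H.cjC x
  map_one' := by
    apply Subtype.ext
    simp
  map_mul' a b := by
    apply Subtype.ext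
    simp only [Hyp.cjC_coe, Subgroup.coe_mul]
    group

omit H in
/-- The conjugate of a function on `C`. -/
def cjT (H : Hyp p P C r e₀) (x : normalizer (P : Set G)) (θ : ↥C → ℂ) : ↥C → ℂ := fun c => θ (H.cjC x c)

theorem isIrr_cjT (x : normalizer (P : Set G)) {θ : ↥C → ℂ} (hθ : IsIrrCharacter C θ) : IsIrrCharacter C (cjT H x θ) :=
  isIrrCharacter_comp_of_surjective (cjH H x) (H.cjC_bij x).2 hθ

theorem kerP_cjT (x : normalizer (P : Set G)) {θ : ↥C → ℂ} (hk : KerP P C θ) : KerP P C (cjT H x θ) := by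
  intro c hc
  have h1 : cjT H x θ 1 = θ 1 := by
    show θ (H.cjC x 1) = θ 1
    congr 1
    apply Subtype.ext
    simp
  rw [h1]
  apply hk
  show (x : G)⁻¹ * c * x ∈ P
  have h2 := (mem_normalizer_iff.1 (x⁻¹ : normalizer (P : Set G)).2 c).1 hc
  simpa using h2

theorem tw_smul (x : normalizer (P : Set G)) (g : ↥P →* ℂˣ) (θ : ↥C → ℂ) (c : ↥C) :
    tw r (x • g) (cjT H x θ) c = tw r g θ (H.cjC x c) := by
  simp only [tw_apply, DefectOne.smul_apply, H.r_cjC, cjT]

/-- The stabilizer of `θ` in `N(P)`. -/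
def stabT (θ : ↥C → ℂ) : Subgroup (normalizer (P : Set G)) where
  carrier := {x | cjT H x θ = θ}
  mul_mem' := by
    intro a b ha hb
    have ha' : ∀ c, θ (H.cjC a c) = θ c := fun c => congrFun ha c
    have hb' : ∀ c, θ (H.cjC b c) = θ c := fun c => congrFun hb c
    funext c
    have h1 : H.cjC (a * b) c = H.cjC b (H.cjC a c) := by
      apply Subtype.ext
      simp only [Hyp.cjC_coe, Subgroup.coe_mul]
      group
    show θ (H.cjC (a * b) c) = θ c
    rw [h1, hb', ha']
  one_mem' := by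
    funext c
    show θ (H.cjC 1 c) = θ c
    congr 1
    apply Subtype.ext
    simp
  inv_mem' := by
    intro a ha
    have ha' : ∀ c, θ (H.cjC a c) = θ c := fun c => congrFun ha c
    funext c
    show θ (H.cjC a⁻¹ c) = θ c
    have h1 := ha' (H.cjC a⁻¹ c)
    have h2 : H.cjC a (H.cjC a⁻¹ c) = c := by
      apply Subtype.ext
      simp only [Hyp.cjC_coe, Subgroup.coe_inv, inv_inv]
      group
    rw [h2] at h1
    exact h1.symm

theorem mem_stabT {θ : ↥C → ℂ} {x : normalizer (P : Set G)} : x ∈ stabT H θ ↔ cjT H x θ = θ := Iff.rfl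

/-- `C` is in the stabilizer of a class function. -/
theorem le_stabT {θ : ↥C → ℂ} (hθ : IsClassFunction C θ) {x : normalizer (P : Set G)} (hx : (x : G) ∈ C) : x ∈ stabT H θ := by
  funext c
  show θ (H.cjC x c) = θ c
  have h1 := hθ c (⟨(x : G), hx⟩⁻¹ : ↥C)
  rw [inv_inv] at h1
  rw [← h1]
  rfl

/-- The elements of the stabilizer moving `g` to `f`. -/
theorem card_transporter_T [Finite G] {θ : ↥C → ℂ} (hθ : IsClassFunction C θ) {g : ↥P →* ℂˣ} (hg : g ≠ 1) (f : ↥P →* ℂˣ)
    [Decidable (∃ x : stabT H θ, (x : normalizer (P : Set G)) • g = f)] :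
    Nat.card {x : stabT H θ // (x : normalizer (P : Set G)) • g = f} =
      if ∃ x : stabT H θ, (x : normalizer (P : Set G)) • g = f then Nat.card C else 0 := by
  classical
  split_ifs with h
  · obtain ⟨x₀, rfl⟩ := h
    rw [← H.card_stabilizer hg]
    have hs : ∀ y : normalizer (P : Set G), y ∈ MulAction.stabilizer ↥(normalizer (P : Set G)) g → y ∈ stabT H θ := by
      intro y hy
      rw [H.stabilizer_eq hg, Subgroup.mem_subgroupOf] at hy
      exact le_stabT H hθ hy
    refine Nat.card_congr ⟨fun x => ⟨(x₀⁻¹ * x.1 : stabT H θ), ?_⟩, fun y => ⟨x₀ * ⟨y.1, hs y.1 y.2⟩, ?_⟩, ?_, ?_⟩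
    · rw [MulAction.mem_stabilizer_iff]
      show ((x₀⁻¹ * x.1 : stabT H θ) : normalizer (P : Set G)) • g = g
      rw [Subgroup.coe_mul, mul_smul, x.2]
      simp
    · show ((x₀ * ⟨y.1, hs y.1 y.2⟩ : stabT H θ) : normalizer (P : Set G)) • g = _
      rw [Subgroup.coe_mul, mul_smul]
      congr 1
      exact MulAction.mem_stabilizer_iff.1 y.2
    · intro x
      apply Subtype.ext
      apply Subtype.ext
      simp
    · intro y
      apply Subtype.ext
      simp
  · haveI : IsEmpty {x : stabT H θ // (x : normalizer (P : Set G)) • g = f} := ⟨fun x => h ⟨x.1, x.2⟩⟩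
    simp

end Hyp

section Gram

/-- `Θ_f = Ind_C^G ((f ∘ r - 1) θ)`. -/
noncomputable def tT (r : ↥C →* ↥P) (f : ↥P →* ℂˣ) (θ : ↥C → ℂ) : G → ℂ := indFun C (tw r f θ - θ)

theorem tT_isClass (f : ↥P →* ℂˣ) (θ : ↥C → ℂ) : IsClassFunction G (tT r f θ) :=
  Cfsg.Agent.Lib.CharInd.indFun_isClassFunction C _

theorem tT_isGen (f : ↥P →* ℂˣ) {θ : ↥C → ℂ} (hθ : IsIrrCharacter C θ) : IsGeneralizedCharacter G (tT r f θ) := by
  unfold tT
  rw [Cfsg.Agent.Lib.CharInd.indFun_sub]
  exact ⟨_, _, Cfsg.Agent.Lib.CharInd.indFun_isCharacter C (IsIrrCharacter.isCharacter (isIrr_tw f hθ)),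
    Cfsg.Agent.Lib.CharInd.indFun_isCharacter C (IsIrrCharacter.isCharacter hθ), rfl⟩

theorem tT_one (f : ↥P →* ℂˣ) (θ : ↥C → ℂ) : tT r f θ 1 = 0 := by
  unfold tT
  rw [Cfsg.Agent.Lib.CharInd.indFun_one]
  have : (tw r f θ - θ) 1 = 0 := by
    simp
  rw [this, mul_zero]

theorem classInner_tT (f : ↥P →* ℂˣ) (θ : ↥C → ℂ) {ψ : G → ℂ} (hψ : IsClassFunction G ψ) :
    classInner (tT r f θ) ψ = classInner (tw r f θ) (fun c : ↥C => ψ c) - classInner θ (fun c : ↥C => ψ c) := by
  unfold tT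
  rw [Cfsg.Agent.Lib.CharInd.frobenius C _ hψ, classInner_sub_left]

variable (H : Hyp p P C r e₀)
include H

/-- The Gram matrix. -/
theorem inner_tT {θ : ↥C → ℂ} (hθ : IsIrrCharacter C θ) (hk : KerP P C θ) {e : ℕ}
    (hT : Nat.card (stabT H θ) = Nat.card C * e) {f g : ↥P →* ℂˣ} (hf : f ≠ 1) (hg : g ≠ 1)
    [Decidable (∃ x : stabT H θ, (x : normalizer (P : Set G)) • g = f)] :
    classInner (tT r f θ) (tT r g θ) = (e : ℂ) + if ∃ x : stabT H θ, (x : normalizer (P : Set G)) • g = f then 1 else 0 := by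
  classical
  haveI : Fintype (normalizer (P : Set G)) := Fintype.ofFinite _
  have hc0 : (Nat.card C : ℂ) ≠ 0 := by exact_mod_cast Nat.card_pos.ne'
  rw [classInner_tT f θ (tT_isClass g θ)]
  rw [← classInner_sub_left]
  have hcl := isClassFunction_of_isCharacter (IsIrrCharacter.isCharacter hθ)
  have h1 : (fun c : ↥C => tT r g θ (c : G)) = ∑ x : normalizer (P : Set G),
      ((Nat.card C : ℂ)⁻¹) • (tw r (x • g) (cjT H x θ) - cjT H x θ) := by
    funext c
    unfold tT
    rw [H.indFun_coe _ (fun d hd => by simp [hd]), Finset.sum_apply]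
    simp only [Pi.smul_apply, smul_eq_mul, Pi.sub_apply, tw_smul H]
    rw [Finset.mul_sum]
    rfl
  rw [h1, classInner_sum_right]
  have h2 : ∀ x : normalizer (P : Set G), classInner (tw r f θ - θ)
      (((Nat.card C : ℂ)⁻¹) • (tw r (x • g) (cjT H x θ) - cjT H x θ)) =
      (Nat.card C : ℂ)⁻¹ * ((if f = x • g ∧ θ = cjT H x θ then 1 else 0) + (if θ = cjT H x θ then 1 else 0)) := by
    intro x
    have hx1 : x • g ≠ 1 := smul_ne_one P x hg
    have hθx := isIrr_cjT H x hθ
    have hkx := kerP_cjT H x hk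
    rw [classInner_smul_right, classInner_sub_left, classInner_sub_right, classInner_sub_right]
    have e1 := inner_tw H hθ hθx hk hkx f (x • g)
    have e2 := inner_tw H hθ hθx hk hkx f 1
    have e3 := inner_tw H hθ hθx hk hkx 1 (x • g)
    have e4 := inner_tw H hθ hθx hk hkx 1 1
    rw [tw_one] at e2 e3 e4
    rw [tw_one] at e4
    rw [e1, e2, e3, e4]
    simp only [map_inv₀, map_natCast]
    congr 1
    have e5 : ¬ (f = 1 ∧ θ = cjT H x θ) := fun h => hf h.1
    have e6 : ¬ (1 = x • g ∧ θ = cjT H x θ) := fun h => hx1 h.1.symm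
    rw [if_neg e5, if_neg e6]
    simp
  simp_rw [h2]
  rw [← Finset.mul_sum, Finset.sum_add_distrib]
  have h3 : ∑ x : normalizer (P : Set G), (if θ = cjT H x θ then (1 : ℂ) else 0) = (Nat.card (stabT H θ) : ℂ) := by
    rw [Finset.sum_boole, Nat.card_eq_fintype_card, Fintype.card_subtype]
    congr 2
    ext x
    simp only [Finset.mem_filter, Finset.mem_univ, true_and]
    exact eq_comm
  have h4 : ∑ x : normalizer (P : Set G), (if f = x • g ∧ θ = cjT H x θ then (1 : ℂ) else 0) =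
      (Nat.card {x : stabT H θ // (x : normalizer (P : Set G)) • g = f} : ℂ) := by
    have h5 : Nat.card {x : stabT H θ // (x : normalizer (P : Set G)) • g = f} =
        Nat.card {x : normalizer (P : Set G) // f = x • g ∧ θ = cjT H x θ} := by
      refine Nat.card_congr ⟨fun x => ⟨x.1.1, x.2.symm, x.1.2.symm⟩, fun x => ⟨⟨x.1, x.2.2.symm⟩, x.2.1.symm⟩, ?_, ?_⟩
      · intro x
        rfl
      · intro x
        rfl
    rw [h5, Finset.sum_boole, Nat.card_eq_fintype_card, Fintype.card_subtype]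
  rw [h3, h4, hT, card_transporter_T H hcl hg f]
  split_ifs with hex
  · push_cast
    field_simp
    ring
  · push_cast
    field_simp
    simp

end Gram

end Cfsg.Agent.Lib.DefOneC
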