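import Mathlib
import Cfsg.Agent.Lib.DefOneC

/-!
# The range theorem for the twists of `θ`
-/

set_option autoImplicit false
set_option linter.unusedSectionVars false
set_option linter.unusedVariables false
set_option linter.style.haveILetI false

namespace Cfsg.Agent.Lib.DefOneD

open Module Matrix Cfsg Subgroup
open Cfsg.Agent.Lib.RangeMod Cfsg.Agent.Lib.RangeVal Cfsg.Agent.Lib.RangeLat Cfsg.Agent.Lib.RangeAlg
open Cfsg.Agent.Lib.RangeChar Cfsg.Agent.Lib.RangeGen Cfsg.Agent.Lib.RangeB0 Cfsg.Agent.Lib.DefOneB Cfsg.Agent.Lib.DefOneC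
open Cfsg.Agent.Lib.CharBasic Cfsg.Agent.Lib.BlkBasic Cfsg.Agent.Lib.BlockIdem Cfsg.Agent.Lib.DefectOne
open Cfsg.Agent.Lib.TICent Cfsg.Agent.Lib.RangeThm
open scoped ComplexConjugate

variable {G : Type*} [Group G] [Fintype G] [DecidableEq G] {p : ℕ}

/-- **Range theorem** for the twists. -/
theorem pim_bounds_θ {P C : Subgroup G} {r : ↥C →* ↥P} {e₀ : ℕ} (H : Cfsg.Agent.Lib.TICent.Hyp p P C r e₀)
    (hcard : Nat.card P = p) (hidx : ¬ p ∣ P.index) {M : Ideal AlgInt} (hM : IsPModular p M) [Fintype C]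
    {θ : ↥C → ℂ} (hθ : IsIrrCharacter C θ) (hk : KerP P C θ)
    (a : (↥P →* ℂˣ) → IrrCharacter G → ℕ)
    (ha : ∀ f (χ : IrrCharacter G), classInner (tw r f θ) (fun c : ↥C => (χ : G → ℂ) c) = (a f χ : ℂ))
    (χ₀ : IrrCharacter G) :
    ∃ d : IrrCharacter G → ℕ, d χ₀ ≠ 0 ∧ (∀ f, ∑ χ, (d χ : ℤ) * ((a f χ : ℤ) - a 1 χ) = 0) ∧
      ∀ (S : Finset (IrrCharacter G)) (f : ↥P →* ℂˣ), |∑ χ ∈ S, (d χ : ℤ) * ((a f χ : ℤ) - a 1 χ)| ≤ 1 := by
  classical
  haveI hp : Fact p.Prime := ⟨H.prime⟩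
  obtain ⟨A, hD⟩ := exists_dom hM
  haveI := hD.charP hM
  -- a generator
  obtain ⟨x, hxP, hx1⟩ : ∃ x ∈ P, x ≠ 1 := by
    have : Nontrivial P := by
      rw [← Finite.one_lt_card_iff_nontrivial (α := P), hcard]
      exact H.prime.one_lt
    obtain ⟨y, hy⟩ := exists_ne (1 : P)
    exact ⟨y, y.2, fun h => hy (Subtype.ext h)⟩
  have hPx : zpowers x = P := Cfsg.Agent.Lib.SmallGroups2.zpowers_eq_of_mem_of_ne_one H.prime hcard hxP hx1
  subst hPx
  have hx : orderOf x = p := by rw [← Nat.card_zpowers, hcard]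
  haveI : Fintype (zpowers x) := Fintype.ofFinite _
  haveI : Fintype r.ker := Fintype.ofFinite _
  -- the idempotent
  have heps : eps ({χ₀} : Set (IrrCharacter G)) ≠ 0 := by
    intro h0
    have h1 : blockCoeff ({χ₀} : Set (IrrCharacter G)) = 0 := by
      funext g
      rw [← eps_coeff, h0]
      rfl
    have h2 := omega_blockCoeff ({χ₀} : Set (IrrCharacter G)) χ₀
    rw [h1, blkInd_of_mem (Set.mem_singleton χ₀)] at h2
    simp [omega] at h2
  obtain ⟨e, he, hne, hprim⟩ := exists_local_idem (A := A) heps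
  have hdn := dval_nat (A := A) he
  choose d hd using hdn
  have hd0 : d χ₀ ≠ 0 := by
    intro h
    apply dval_ne_zero he hne
    rw [hd, h]
    simp
  have hroot : ∀ f : zpowers x →* ℂˣ, (((f ⟨x, mem_zpowers x⟩ : ℂˣ) : ℂ)) ^ p = 1 := by
    intro f
    have h1 : (⟨x, mem_zpowers x⟩ : zpowers x) ^ p = 1 := by
      apply Subtype.ext
      simp [← hx, pow_orderOf_eq_one]
    have h2 : (f ⟨x, mem_zpowers x⟩) ^ p = 1 := by rw [← map_pow, h1, map_one]
    have h3 := congrArg (Units.val) h2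
    simpa using h3
  -- the subgroup `L`
  let L : Subgroup G := r.ker.map C.subtype
  haveI : Fintype L := Fintype.ofFinite _
  let eL : r.ker ≃ L := (Subgroup.equivMapOfInjective r.ker C.subtype C.subtype_injective).toEquiv
  have heL : ∀ k : r.ker, ((eL k : L) : G) = ((k : ↥C) : G) := fun k => rfl
  have hcardL : Nat.card L = Nat.card r.ker := (Nat.card_congr eL).symm
  obtain ⟨u, hu⟩ := exists_inv_of_not_dvd (A := A) (p := p) (n := Nat.card L) (by rw [hcardL]; exact H.ker)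
  have hLmem : ∀ a ∈ L, ∃ k : ↥C, r k = 1 ∧ (k : G) = a := by
    rintro a ⟨k, hk, rfl⟩
    exact ⟨k, hk, rfl⟩
  have hLC : L ≤ C := by
    intro a ha
    obtain ⟨k, -, rfl⟩ := hLmem a ha
    exact k.2
  have hL : ∀ a ∈ L, a * x = x * a := by
    intro a ha
    obtain ⟨k, -, rfl⟩ := hLmem a ha
    exact H.comm (mem_zpowers x) k.2
  have hLn' : ∀ n ∈ normalizer (zpowers x : Set G), ∀ a ∈ L, n * a * n⁻¹ ∈ L := by
    intro n hn a ha
    obtain ⟨k, hk, rfl⟩ := hLmem a ha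
    have hmem : n * (k : G) * n⁻¹ ∈ C := by
      have := H.conj_mem (⟨n⁻¹, Subgroup.inv_mem _ hn⟩ : normalizer (zpowers x : Set G)) k
      simpa using this
    refine ⟨⟨_, hmem⟩, ?_, rfl⟩
    rw [SetLike.mem_coe, MonoidHom.mem_ker]
    apply Subtype.ext
    rw [H.pow]
    have h1 : ((r k : zpowers x) : G) = (k : G) ^ e₀ := H.pow k
    rw [hk] at h1
    have h2 : (n * (k : G) * n⁻¹) ^ e₀ = n * (k : G) ^ e₀ * n⁻¹ := by
      rw [conj_pow]
    show (n * (k : G) * n⁻¹) ^ e₀ = _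
    rw [h2, ← h1]
    simp
  have hLn : ∀ n ∈ normalizer (zpowers x : Set G), n ∈ normalizer (L : Set G) := by
    intro n hn
    rw [mem_normalizer_iff]
    intro a
    refine ⟨fun ha => hLn' n hn a ha, fun ha => ?_⟩
    have := hLn' n⁻¹ (Subgroup.inv_mem _ hn) _ ha
    simpa [mul_assoc] using this
  have hC : ∀ c ∈ centralizer (zpowers x : Set G), ∃ a ∈ L, c * a⁻¹ ∈ zpowers x := by
    intro c hc
    rw [H.cen] at hc
    let c' : ↥C := ⟨c, hc⟩
    let y := r c'
    let k : ↥C := (Cfsg.Agent.Lib.TICent.Hyp.inP H y)⁻¹ * c'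
    have hk' : r k = 1 := by
      simp only [k, map_mul, map_inv, Cfsg.Agent.Lib.TICent.Hyp.r_inP, y, inv_mul_cancel]
    refine ⟨k, ⟨k, hk', rfl⟩, ?_⟩
    have h1 : c * (k : G)⁻¹ = (y : G) := by
      simp only [k, Subgroup.coe_mul, Subgroup.coe_inv, _root_.mul_inv_rev, inv_inv]
      have h2 : ((Cfsg.Agent.Lib.TICent.Hyp.inP H y : ↥C) : G) = (y : G) := rfl
      rw [h2]
      simp [c']
    rw [h1]
    exact y.2
  -- the character of `L`
  let ϑ : L → ℂ := fun a => θ (Subgroup.inclusion hLC a)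
  have hϑ0 : ∀ k : r.ker, ϑ (eL k) = θ k := fun k => rfl
  have hchar := IsIrrCharacter.isCharacter hθ
  have hker : ∀ (z : zpowers x) (c : ↥C), θ (Cfsg.Agent.Lib.TICent.Hyp.inP H z * c) = θ c := by
    intro z c
    apply Cfsg.Agent.Lib.CharKernel.char_mul_of_mem_ker' hchar
    exact hk _ z.2
  have hϑ : IsIrrCharacter L ϑ := by
    rw [isIrrCharacter_iff_norm_one]
    refine ⟨isCharacter_comp (Subgroup.inclusion hLC) hchar, ?_⟩
    have h1 := classInner_irr_self hθ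
    rw [← h1]
    unfold classInner
    rw [H.sum_C, H.card_eq, hcardL]
    have h2 : ∑ a : L, ϑ a * conj (ϑ a) = ∑ k : r.ker, θ k * conj (θ k) :=
      (Fintype.sum_equiv eL _ _ fun k => by rw [hϑ0]).symm
    rw [h2]
    have h3 : ∀ z : zpowers x, ∑ k : r.ker, θ (Cfsg.Agent.Lib.TICent.Hyp.inP H z * k) * conj (θ (Cfsg.Agent.Lib.TICent.Hyp.inP H z * k)) =
        ∑ k : r.ker, θ k * conj (θ k) := by
      intro z
      refine Finset.sum_congr rfl fun k _ => ?_
      rw [hker]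
    simp_rw [h3]
    rw [Finset.sum_const, Finset.card_univ, ← Nat.card_eq_fintype_card, nsmul_eq_mul]
    have hp0 : (Nat.card (zpowers x) : ℂ) ≠ 0 := by exact_mod_cast Nat.card_pos.ne'
    have hk0 : (Nat.card r.ker : ℂ) ≠ 0 := by exact_mod_cast Nat.card_pos.ne'
    push_cast
    field_simp
  obtain ⟨E, hEE, hEr, hcl, hE4, hE5⟩ := Cfsg.Agent.Lib.DefOneA.exists_prim (A := A) hϑ hu
  -- the stabilizer
  let Tt : Subgroup G :=
    { carrier := {n | ∃ hn : n ∈ normalizer (L : Set G), n ∈ normalizer (zpowers x : Set G) ∧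
        ∀ a, ϑ (Cfsg.Agent.Lib.BrauerPair.conjAut L n hn a) = ϑ a}
      mul_mem' := by
        rintro n m ⟨hn, hn', hn2⟩ ⟨hm, hm', hm2⟩
        refine ⟨Subgroup.mul_mem _ hn hm, Subgroup.mul_mem _ hn' hm', fun a => ?_⟩
        have h1 : Cfsg.Agent.Lib.BrauerPair.conjAut L (n * m) (Subgroup.mul_mem _ hn hm) a =
            Cfsg.Agent.Lib.BrauerPair.conjAut L n hn (Cfsg.Agent.Lib.BrauerPair.conjAut L m hm a) := by
          apply Subtype.ext
          show n * m * a * (n * m)⁻¹ = n * (m * a * m⁻¹) * n⁻¹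
          group
        rw [h1, hn2, hm2]
      one_mem' := by
        refine ⟨Subgroup.one_mem _, Subgroup.one_mem _, fun a => ?_⟩
        congr 1
        apply Subtype.ext
        show 1 * (a : G) * 1⁻¹ = a
        group
      inv_mem' := by
        rintro n ⟨hn, hn', hn2⟩
        refine ⟨Subgroup.inv_mem _ hn, Subgroup.inv_mem _ hn', fun a => ?_⟩
        have h1 := hn2 (Cfsg.Agent.Lib.BrauerPair.conjAut L n⁻¹ (Subgroup.inv_mem _ hn) a)
        have h2 : Cfsg.Agent.Lib.BrauerPair.conjAut L n hn (Cfsg.Agent.Lib.BrauerPair.conjAut L n⁻¹ (Subgroup.inv_mem _ hn) a) = a := by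
          apply Subtype.ext
          show n * (n⁻¹ * a * n⁻¹⁻¹) * n⁻¹ = a
          group
        rw [h2] at h1
        exact h1.symm }
  have hTN : Tt ≤ normalizer (zpowers x : Set G) := fun n hn => hn.2.1
  have hin : ∀ n (hn : n ∈ normalizer (L : Set G)), n ∈ Tt → ∃ α β : MonoidAlgebra A L, β * α = E ∧
      α * β = MonoidAlgebra.domCongr A A (Cfsg.Agent.Lib.BrauerPair.conjAut L n hn) E := by
    rintro n hn ⟨hn', -, h⟩
    exact hE4 _ h
  have hout : ∀ n (hn : n ∈ normalizer (L : Set G)), n ∈ normalizer (zpowers x : Set G) → n ∉ Tt →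
      ∀ y : MonoidAlgebra A L, E * y * MonoidAlgebra.domCongr A A (Cfsg.Agent.Lib.BrauerPair.conjAut L n hn) E = 0 := by
    intro n hn hnN hnT y
    apply hE5 _ _ y
    by_contra hall
    push Not at hall
    exact hnT ⟨hn, hnN, hall⟩
  -- the functions
  let psiE : IrrCharacter G → G → ℂ := fun χ g => ∑ a : L, ((E.coeff a : A) : ℂ) * (χ : G → ℂ) (g * a)
  have hpsi : ∀ (χ : IrrCharacter G) (w : G), w ∈ zpowers x →
      psiE χ w = (Nat.card r.ker : ℂ)⁻¹ * ∑ k : r.ker, θ (k⁻¹ : r.ker) * (χ : G → ℂ) (w * ((k : ↥C) : G)) := by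
    intro χ w hw
    have hcm : ∀ b : L, (b : G) * w = w * b := by
      intro b
      obtain ⟨i, rfl⟩ := Subgroup.mem_zpowers_iff.1 hw
      exact ((show Commute (b : G) x from hL _ b.2).zpow_right i).eq
    have h1 := hcl (fun a : L => (χ : G → ℂ) (w * a)) (by
      intro a b
      have hχc := isClassFunction_of_isCharacter (IsIrrCharacter.isCharacter χ.2)
      have h2 : w * ((b * a * b⁻¹ : L) : G) = (b : G) * (w * a) * (b : G)⁻¹ := by
        simp only [Subgroup.coe_mul, Subgroup.coe_inv]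
        calc w * ((b : G) * a * (b : G)⁻¹) = (w * b) * a * (b : G)⁻¹ := by group
          _ = (b * w) * a * (b : G)⁻¹ := by rw [hcm]
          _ = _ := by group
      show (χ : G → ℂ) (w * ((b * a * b⁻¹ : L) : G)) = (χ : G → ℂ) (w * a)
      rw [h2]
      exact hχc _ _)
    show ∑ a : L, ((E.coeff a : A) : ℂ) * (χ : G → ℂ) (w * a) = _
    rw [h1, hcardL]
    congr 1
    exact (Fintype.sum_equiv eL _ _ fun k => rfl).symm
  have hherm : ∀ (χ : IrrCharacter G), ∀ g ∈ zpowers x, conj (psiE χ g) = psiE χ g⁻¹ := by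
    intro χ g hg
    rw [hpsi χ g hg, hpsi χ g⁻¹ (Subgroup.inv_mem _ hg), map_mul, map_inv₀, Complex.conj_natCast, map_sum]
    congr 1
    refine Fintype.sum_equiv (Equiv.inv r.ker) _ _ fun k => ?_
    rw [map_mul, char_conj_eq_inv (IsIrrCharacter.isCharacter hθ), char_conj_eq_inv (IsIrrCharacter.isCharacter χ.2)]
    congr 1
    have hcm : (((k : ↥C) : G)) * g = g * ((k : ↥C) : G) := by
      obtain ⟨i, rfl⟩ := Subgroup.mem_zpowers_iff.1 hg
      have : ((k : ↥C) : G) ∈ L := ⟨k, k.2, rfl⟩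
      exact ((show Commute ((k : ↥C) : G) x from hL _ this).zpow_right i).eq
    congr 1
    simp only [Equiv.inv_apply, InvMemClass.coe_inv, _root_.mul_inv_rev]
    have h5 : (((k : ↥C) : G))⁻¹ * g⁻¹ = (g * ((k : ↥C) : G))⁻¹ := by group
    rw [h5, ← hcm]
    group
  have hmm : ∀ (f : zpowers x →* ℂˣ) (χ : IrrCharacter G), (a f χ : ℂ) =
      mlt p x ((f ⟨x, mem_zpowers x⟩ : ℂˣ) : ℂ) (psiE χ) := by
    intro f χ
    rw [← ha, ← classInner_chi_eq_mlt' hx f (psiE χ) (hherm χ)]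
    unfold classInner
    rw [H.sum_C, H.card_eq]
    have hPne : (Nat.card (zpowers x) : ℂ) ≠ 0 := by exact_mod_cast Nat.card_pos.ne'
    have hKne : (Nat.card r.ker : ℂ) ≠ 0 := by exact_mod_cast Nat.card_pos.ne'
    have h1 : ∀ z : zpowers x, ∑ k : r.ker, tw r f θ (Cfsg.Agent.Lib.TICent.Hyp.inP H z * k) *
        conj ((χ : G → ℂ) ((Cfsg.Agent.Lib.TICent.Hyp.inP H z * k : ↥C) : G)) =
        (Nat.card r.ker : ℂ) * (chi f z * conj (psiE χ z)) := by
      intro z
      rw [hpsi χ z z.2, map_mul, map_sum, map_inv₀, Complex.conj_natCast]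
      have h2 : (Nat.card r.ker : ℂ) * (chi f z * ((Nat.card r.ker : ℂ)⁻¹ * ∑ k : r.ker, conj (θ (k⁻¹ : r.ker) * (χ : G → ℂ) ((z : G) * ((k : ↥C) : G))))) =
          chi f z * ∑ k : r.ker, conj (θ (k⁻¹ : r.ker) * (χ : G → ℂ) ((z : G) * ((k : ↥C) : G))) := by
        field_simp
      rw [h2, Finset.mul_sum]
      refine Finset.sum_congr rfl fun k _ => ?_
      have hk2 : r (k : ↥C) = 1 := k.2
      simp only [tw_apply, map_mul, Cfsg.Agent.Lib.TICent.Hyp.r_inP, hk2, mul_one, hker]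
      rw [char_conj_eq_inv (IsIrrCharacter.isCharacter hθ)]
      simp only [InvMemClass.coe_inv, inv_inv]
      have h9 : ((Cfsg.Agent.Lib.TICent.Hyp.inP H z : ↥C) : G) = (z : G) := rfl
      simp only [Subgroup.coe_mul, h9]
      simp [chi]
      ring
    simp_rw [h1]
    rw [← Finset.mul_sum]
    push_cast
    field_simp
  set z₁ : ℂ := (((1 : zpowers x →* ℂˣ) ⟨x, mem_zpowers x⟩ : ℂˣ) : ℂ) with hz₁
  have hz₁p : z₁ ^ p = 1 := hroot 1
  have hxp : x ^ p = 1 := by rw [← hx]; exact pow_orderOf_eq_one x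
  -- the key identity for a set
  have hkey : ∀ (B : Set (IrrCharacter G)) (D : LatData A (xi e B)) (f : zpowers x →* ℂˣ),
      ((finrank ℂ (eigE D.repT x ((f ⟨x, mem_zpowers x⟩ : ℂˣ) : ℂ) (cut D.repT L E)) : ℕ) : ℂ) -
        ((finrank ℂ (eigE D.repT x z₁ (cut D.repT L E)) : ℕ) : ℂ) =
        ∑ χ, blkInd B χ * ((d χ : ℂ) * ((a f χ : ℂ) - (a 1 χ : ℂ))) := by
    intro B D f
    rw [finrank_eigE_lat' he D hxp (hroot f) hEE hL, finrank_eigE_lat' he D hxp hz₁p hEE hL, ← Finset.sum_sub_distrib]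
    refine Finset.sum_congr rfl fun χ _ => ?_
    rw [hmm f χ, hmm 1 χ, hd]
    ring
  refine ⟨d, hd0, ?_, ?_⟩
  · intro f
    obtain ⟨D⟩ := nonempty_latData (A := A) (xi e (Set.univ : Set (IrrCharacter G)))
    have hξ : xi e (Set.univ : Set (IrrCharacter G)) = iota A G e := by
      unfold xi
      rw [eps_univ, mul_one]
    have hF := D.fx_le_im he hξ hx
    have hEE' : cut D.repT L E * cut D.repT L E = cut D.repT L E := by rw [← map_mul, hEE]
    have hEx : cut D.repT L E * D.repT x = D.repT x * cut D.repT L E := by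
      rw [cut_eq, Finset.sum_mul, Finset.mul_sum]
      refine Finset.sum_congr rfl fun a _ => ?_
      rw [smul_mul_assoc, mul_smul_comm, ← map_mul, ← map_mul, hL a a.2]
    have hle : ∀ {z z' : ℂ}, z ^ p = 1 → z' ^ p = 1 → finrank ℂ (eigE D.repT x z (cut D.repT L E)) ≤
        finrank ℂ (eigE D.repT x z' (cut D.repT L E)) := by
      intro z z' hz hz'
      have h1 := finrank_eigE_le D.repT hxp hz hz' hEE' hEx
      have h2 := Submodule.finrank_mono (Submodule.map_mono (f := rdM (cut D.repT L E)) hF)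
      omega
    have h1 := hle (hroot f) hz₁p
    have h2 := hle hz₁p (hroot f)
    have h3 := hkey Set.univ D f
    rw [blkInd_univ_sum, le_antisymm h1 h2] at h3
    have h4 : ((∑ χ, (d χ : ℤ) * ((a f χ : ℤ) - a 1 χ) : ℤ) : ℂ) = 0 := by
      push_cast
      rw [← h3]
      simp
    exact_mod_cast h4
  · intro S f
    obtain ⟨D⟩ := nonempty_latData (A := A) (xi e (S : Set (IrrCharacter G)))
    have hloc := fun φ hφ => D.hloc he hprim (iota_mul_xi he _) φ hφ
    have h1 := finrank_eigE_cut_le (T := D.repT) hx (by simpa using hidx) hloc hL hLn hC hEE hEr Tt hTN hin hout (hroot f) hz₁p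
    have h2 := finrank_eigE_cut_le (T := D.repT) hx (by simpa using hidx) hloc hL hLn hC hEE hEr Tt hTN hin hout hz₁p (hroot f)
    have h3 := hkey (S : Set (IrrCharacter G)) D f
    rw [blkInd_sum] at h3
    have h4 : ((∑ χ ∈ S, (d χ : ℤ) * ((a f χ : ℤ) - a 1 χ) : ℤ) : ℂ) =
        (((finrank ℂ (eigE D.repT x ((f ⟨x, mem_zpowers x⟩ : ℂˣ) : ℂ) (cut D.repT L E)) : ℤ) -
          finrank ℂ (eigE D.repT x z₁ (cut D.repT L E)) : ℤ) : ℂ) := by
      push_cast
      push_cast at h3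
      rw [h3]
    have h5 : ∑ χ ∈ S, (d χ : ℤ) * ((a f χ : ℤ) - a 1 χ) =
        (finrank ℂ (eigE D.repT x ((f ⟨x, mem_zpowers x⟩ : ℂˣ) : ℂ) (cut D.repT L E)) : ℤ) -
          finrank ℂ (eigE D.repT x z₁ (cut D.repT L E)) := by
      exact_mod_cast h4
    rw [h5, abs_le]
    omega

end Cfsg.Agent.Lib.DefOneD
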