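import Mathlib
import Cfsg.Agent.Lib.DefOneD

/-!
# The structure theorem for the twists of `θ`

`P` a Sylow subgroup of prime order, `C = C(P) = P × K`, `θ` an irreducible character of `C` with `P` in its kernel, `T` its stabilizer in
`N(P)`, `e = |T : C|`.  The differences `a_f - a_1`, `a_f` the multiplicity of `(f ∘ r) θ` in `χ|_C`, have the form `w + σ δ_{ξ f}`.
-/

set_option autoImplicit false
set_option linter.style.haveILetI false
set_option linter.unusedSectionVars false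
set_option linter.unusedVariables false

namespace Cfsg.Agent.Lib.DefOneE

open Cfsg Cfsg.Agent.Lib.CharBasic Subgroup Cfsg.Agent.Lib.DefectOne Cfsg.Agent.Lib.BlkBasic
open Cfsg.Agent.Lib.TICent Cfsg.Agent.Lib.RangeB0 Cfsg.Agent.Lib.RangeSun Cfsg.Agent.Lib.DefOneC Cfsg.Agent.Lib.DefOneD
open Cfsg.Agent.Lib.RangeStruct
open scoped ComplexConjugate

variable {G : Type*} [Group G] [Fintype G] [DecidableEq G] {p : ℕ} {P C : Subgroup G} {r : ↥C →* ↥P} {e₀ : ℕ}

section Main

variable (H : Cfsg.Agent.Lib.TICent.Hyp p P C r e₀) [Fintype C]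
include H

/-- `Θ_f` vanishes at `p`-regular elements. -/
theorem tT_regular (f : ↥P →* ℂˣ) (θ : ↥C → ℂ) {g : G} (hg : ¬ p ∣ orderOf g) : tT r f θ g = 0 := by
  classical
  unfold tT indFun
  rw [Finset.sum_eq_zero, mul_zero]
  intro x _
  by_cases hy : x⁻¹ * g * x ∈ C
  · have h1 : extendByZero C (tw r f θ - θ) (x⁻¹ * g * x) = (tw r f θ - θ) ⟨x⁻¹ * g * x, hy⟩ :=
      Cfsg.Agent.Lib.CharInd.extendByZero_coe C _ ⟨x⁻¹ * g * x, hy⟩
    rw [h1]
    have h3 : r ⟨x⁻¹ * g * x, hy⟩ = 1 := by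
      apply r_eq_one H
      show ¬ p ∣ orderOf (x⁻¹ * g * x)
      have h2 : orderOf (x⁻¹ * g * x) = orderOf g := by
        have := orderOf_injective (MulAut.conj x⁻¹).toMonoidHom (MulAut.conj x⁻¹).injective g
        simpa using this
      rw [h2]
      exact hg
    simp [h3]
  · exact Cfsg.Agent.Lib.CharInd.extendByZero_of_not_mem C _ hy

/-- The multiplicities exist. -/
theorem exists_a {θ : ↥C → ℂ} (hθ : IsIrrCharacter C θ) : ∃ a : (↥P →* ℂˣ) → IrrCharacter G → ℕ,
    ∀ (f : ↥P →* ℂˣ) (χ : IrrCharacter G), classInner (tw r f θ) (fun c : ↥C => (χ : G → ℂ) c) = (a f χ : ℂ) := by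
  have h : ∀ (f : ↥P →* ℂˣ) (χ : IrrCharacter G), ∃ n : ℕ, classInner (tw r f θ) (fun c : ↥C => (χ : G → ℂ) c) = n :=
    fun f χ => classInner_char_char (IsIrrCharacter.isCharacter (isIrr_tw f hθ))
      (isCharacter_restrict C (IsIrrCharacter.isCharacter χ.2))
  choose a ha using h
  exact ⟨a, ha⟩

theorem classInner_tT' {θ : ↥C → ℂ} {a : (↥P →* ℂˣ) → IrrCharacter G → ℕ}
    (ha : ∀ (f : ↥P →* ℂˣ) (χ : IrrCharacter G), classInner (tw r f θ) (fun c : ↥C => (χ : G → ℂ) c) = (a f χ : ℂ))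
    (f : ↥P →* ℂˣ) (χ : IrrCharacter G) :
    classInner (tT r f θ) (χ : G → ℂ) = (a f χ : ℂ) - (a 1 χ : ℂ) := by
  rw [classInner_tT f θ (isClassFunction_of_isCharacter (IsIrrCharacter.isCharacter χ.2)), ha, ← ha 1, tw_one]

theorem a_smul {θ : ↥C → ℂ} {a : (↥P →* ℂˣ) → IrrCharacter G → ℕ}
    (ha : ∀ (f : ↥P →* ℂˣ) (χ : IrrCharacter G), classInner (tw r f θ) (fun c : ↥C => (χ : G → ℂ) c) = (a f χ : ℂ))
    (x : stabT H θ) (f : ↥P →* ℂˣ) (χ : IrrCharacter G) : a ((x : normalizer (P : Set G)) • f) χ = a f χ := by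
  have h1 : classInner (tw r ((x : normalizer (P : Set G)) • f) θ) (fun c : ↥C => (χ : G → ℂ) c) =
      classInner (tw r f θ) (fun c : ↥C => (χ : G → ℂ) c) := by
    have hθx : cjT H (x : normalizer (P : Set G)) θ = θ := x.2
    unfold classInner
    congr 1
    refine Fintype.sum_bijective (H.cjC x) (H.cjC_bij x) _ _ fun c => ?_
    have h2 : (χ : G → ℂ) ((H.cjC x c : ↥C) : G) = (χ : G → ℂ) c := by
      rw [H.cjC_coe]
      have := isClassFunction_of_isCharacter (IsIrrCharacter.isCharacter χ.2) c ((x : normalizer (P : Set G)) : G)⁻¹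
      simpa using this
    beta_reduce
    rw [h2]
    congr 1
    rw [← tw_smul H, hθx]
  rw [ha, ha] at h1
  exact_mod_cast h1

/-- The size of the orbits of the stabilizer. -/
theorem card_orbit_T {θ : ↥C → ℂ} (hcl : IsClassFunction C θ) {e : ℕ} (hT : Nat.card (stabT H θ) = Nat.card C * e) (b : NT P) :
    Nat.card (MulAction.orbit ↥(stabT H θ) b) = e := by
  classical
  have h1 := Nat.card_congr (MulAction.orbitProdStabilizerEquivGroup ↥(stabT H θ) b)
  rw [Nat.card_prod, hT] at h1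
  have h2 : Nat.card (MulAction.stabilizer ↥(stabT H θ) b) = Nat.card C := by
    have h3 := card_transporter_T H hcl b.2 b.1
    rw [if_pos ⟨1, by simp⟩] at h3
    rw [← h3]
    apply Nat.card_congr
    refine ⟨fun x => ⟨x.1, ?_⟩, fun x => ⟨x.1, ?_⟩, fun _ => rfl, fun _ => rfl⟩
    · have := MulAction.mem_stabilizer_iff.1 x.2
      exact congrArg Subtype.val this
    · rw [MulAction.mem_stabilizer_iff]
      exact Subtype.ext x.2
  rw [h2, mul_comm] at h1
  exact Nat.eq_of_mul_eq_mul_left Nat.card_pos h1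

/-- **Structure theorem.** -/
theorem struct_θ {M : Ideal AlgInt} {e : ℕ} (hcard : Nat.card P = p) (hidx : ¬ p ∣ P.index) (hM : IsPModular p M)
    {θ : ↥C → ℂ} (hθ : IsIrrCharacter C θ) (hk : KerP P C θ)
    (hT : Nat.card (stabT H θ) = Nat.card C * e) {a : (↥P →* ℂˣ) → IrrCharacter G → ℕ}
    (ha : ∀ (f : ↥P →* ℂˣ) (χ : IrrCharacter G), classInner (tw r f θ) (fun c : ↥C => (χ : G → ℂ) c) = (a f χ : ℂ)) :
    ∃ (w : IrrCharacter G → ℤ) (σ : ℤ) (ξ : NT P → IrrCharacter G),
      (σ = 1 ∨ σ = -1) ∧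
      (∀ (f : NT P) (χ : IrrCharacter G), (a f.1 χ : ℤ) - a 1 χ = w χ + σ * (if χ = ξ f then 1 else 0)) ∧
      (∀ f, w (ξ f) = 0) ∧ (∀ f g : NT P, ξ f = ξ g ↔ ∃ x : stabT H θ, x • f = g) ∧
      (∑ χ, (w χ) ^ 2 = e) ∧ (∀ χ, w χ = 0 ∨ w χ = 1 ∨ w χ = -1) ∧
      (∀ (f : NT P) (g : G), ¬ p ∣ orderOf g →
        ∑ χ : IrrCharacter G, (w χ : ℂ) * (χ : G → ℂ) g + (σ : ℂ) * ((ξ f : IrrCharacter G) : G → ℂ) g = 0) ∧
      Nat.card (Set.range ξ) * e = p - 1 := by
  classical
  have hc : ∀ u ∈ P, ∀ v ∈ P, u * v = v * u := fun u hu v hv => (H.comm_P hu hv).symm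
  haveI : Fintype (normalizer (P : Set G)) := Fintype.ofFinite _
  haveI : Finite (↥P →* ℂˣ) := dual_finite hc
  letI : Fintype (↥P →* ℂˣ) := Fintype.ofFinite _
  letI : Fintype (MulAction.orbitRel.Quotient ↥(stabT H θ) (NT P)) := Fintype.ofFinite _
  let J := MulAction.orbitRel.Quotient ↥(stabT H θ) (NT P)
  let o : J → NT P := fun j => Quotient.out j
  have hchar : ∀ i : IrrCharacter G, IsCharacter G (i : G → ℂ) := fun i => IsIrrCharacter.isCharacter i.2
  have hclass : ∀ i : IrrCharacter G, IsClassFunction G (i : G → ℂ) :=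
    fun i => isClassFunction_of_isCharacter (hchar i)
  have hcl : IsClassFunction C θ := isClassFunction_of_isCharacter (IsIrrCharacter.isCharacter hθ)
  have hdeg0 : ∀ i : IrrCharacter G, ∃ n : ℕ, 0 < n ∧ (i : G → ℂ) 1 = n :=
    fun i => Cfsg.Agent.Lib.CharLattice.exists_degree_pos i.2
  choose d hdpos hd using hdeg0
  let u : J → IrrCharacter G → ℤ := fun j i => (a (o j).1 i : ℤ) - a 1 i
  have hu : ∀ (j : J) (i : IrrCharacter G), classInner (tT r (o j).1 θ) (i : G → ℂ) = u j i := by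
    intro j i
    rw [classInner_tT' H ha]
    simp [u]
  have hinner : ∀ j k, ∑ i, u j i * u k i = (e : ℤ) + if j = k then 1 else 0 := by
    intro j k
    have h1 := inner_tT H hθ hk hT (o j).2 (o k).2
    rw [parseval (tT_isClass _ _)] at h1
    have h2 : (∃ x : stabT H θ, (x : normalizer (P : Set G)) • (o k).1 = (o j).1) ↔ j = k := by
      constructor
      · rintro ⟨x, hx⟩
        have h3 : x • (o k) = o j := Subtype.ext hx
        have h4 : (Quotient.mk _ (o j) : J) = Quotient.mk _ (o k) := by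
          apply Quotient.sound
          exact ⟨x, h3⟩
        have h5 : ∀ l : J, (Quotient.mk _ (o l) : J) = l := fun l => Quotient.out_eq l
        rw [h5, h5] at h4
        exact h4
      · rintro rfl
        exact ⟨1, one_smul _ _⟩
    simp only [h2] at h1
    have h3 : ∀ i : IrrCharacter G, conj (classInner (tT r (o k).1 θ) (i : G → ℂ)) *
        classInner (tT r (o j).1 θ) (i : G → ℂ) = ((u j i * u k i : ℤ) : ℂ) := by
      intro i
      rw [hu, hu]
      simp only [Int.cast_mul, map_intCast]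
      ring
    simp_rw [h3] at h1
    rw [← Int.cast_sum] at h1
    have h4 : ((∑ i, u j i * u k i : ℤ) : ℂ) = (((e : ℤ) + if j = k then 1 else 0 : ℤ) : ℂ) := by
      rw [h1]
      split_ifs <;> simp
    exact_mod_cast h4
  have hzero : ∀ j, ∑ i, (d i : ℤ) * u j i = 0 := by
    intro j
    have h1 := eval_eq_sum (tT_isClass (r := r) (o j).1 θ) 1
    rw [tT_one] at h1
    have h2 : ∀ i : IrrCharacter G, classInner (tT r (o j).1 θ) (i : G → ℂ) * (i : G → ℂ) 1 =
        (((d i : ℤ) * u j i : ℤ) : ℂ) := by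
      intro i
      rw [hu, hd]
      push_cast
      ring
    simp_rw [h2] at h1
    rw [← Int.cast_sum] at h1
    exact_mod_cast h1.symm
  -- nontrivial characters exist
  have hp := H.prime
  haveI hJne : Nonempty J := by
    have h1 : Nat.card (↥P →* ℂˣ) = p := by rw [card_dual hc, hcard]
    have h2 : Nontrivial (↥P →* ℂˣ) := by
      rw [← Finite.one_lt_card_iff_nontrivial, h1]
      exact hp.one_lt
    obtain ⟨f, hf⟩ := exists_ne (1 : ↥P →* ℂˣ)
    exact ⟨Quotient.mk _ ⟨f, hf⟩⟩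
  have hR : ∀ i₀ : IrrCharacter G, ∃ D : IrrCharacter G → ℕ, D i₀ ≠ 0 ∧ (∀ j, ∑ i, (D i : ℤ) * u j i = 0) ∧
      ∀ (S : Finset (IrrCharacter G)) (j : J), |∑ i ∈ S, (D i : ℤ) * u j i| ≤ 1 := by
    intro i₀
    obtain ⟨D, h1, h2, h3⟩ := pim_bounds_θ H hcard hidx hM hθ hk a ha i₀
    exact ⟨D, h1, fun j => h2 _, fun S j => h3 S _⟩
  obtain ⟨w, ee, σ, hσ, hinj, hwe, hform⟩ := sunflower2 e u (fun i => (d i : ℤ))
    (fun i => by exact_mod_cast hdpos i) hinner (fun j k => by rw [hzero, hzero]) hJne hR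
  have hbd : ∀ j i, |u j i| ≤ 1 := by
    intro j i
    obtain ⟨D, hD0, -, hD2⟩ := hR i
    have h1 := hD2 {i} j
    rw [Finset.sum_singleton, abs_mul] at h1
    have h2 : (1 : ℤ) ≤ |(D i : ℤ)| := by
      rw [Nat.abs_cast]
      exact_mod_cast Nat.pos_of_ne_zero hD0
    have h3 := abs_nonneg (u j i)
    nlinarith
  obtain ⟨j₁⟩ := hJne
  have hout : ∀ b : NT P, ∃ x : stabT H θ, x • b = o (Quotient.mk _ b) := by
    intro b
    have h1 : (Quotient.out (Quotient.mk _ b : J)) ∈ MulAction.orbit (stabT H θ) b :=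
      Quotient.mk_out (s := MulAction.orbitRel (stabT H θ) (NT P)) b
    obtain ⟨x, hx⟩ := h1
    exact ⟨x, hx⟩
  have ha_o : ∀ (b : NT P) (i : IrrCharacter G), a (o (Quotient.mk _ b)).1 i = a b.1 i := by
    intro b i
    obtain ⟨x, hx⟩ := hout b
    rw [← hx]
    exact a_smul H ha x b.1 i
  refine ⟨w, σ, fun f => ee (Quotient.mk _ f), hσ, ?_, ?_, ?_, ?_, ?_, ?_, ?_⟩
  · intro f χ
    have h1 := hform (Quotient.mk _ f) χ
    simp only [u, ha_o] at h1
    exact h1
  · intro f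
    exact hwe _
  · intro f g
    constructor
    · intro h
      have h1 : (Quotient.mk _ f : J) = Quotient.mk _ g := hinj h
      have h2 := Quotient.exact h1
      obtain ⟨x, hx⟩ := (MulAction.orbitRel_apply.1 h2)
      have h3 : x • g = f := hx
      exact ⟨x⁻¹, by rw [← h3, inv_smul_smul]⟩
    · rintro ⟨x, rfl⟩
      have h1 : (Quotient.mk _ (x • f) : J) = Quotient.mk _ f := by
        apply Quotient.sound
        exact ⟨x, rfl⟩
      show ee _ = ee _
      rw [← h1]
  · have hσ2 : σ * σ = 1 := by rcases hσ with rfl | rfl <;> norm_num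
    have h1 := hinner j₁ j₁
    rw [if_pos rfl] at h1
    have h2 : ∀ i, u j₁ i * u j₁ i = w i ^ 2 + ((if i = ee j₁ then 2 * σ * w i else 0) + (if i = ee j₁ then 1 else 0)) := by
      intro i
      rw [hform j₁ i]
      by_cases h3 : i = ee j₁
      · simp only [if_pos h3]
        rw [h3, hwe j₁]
        nlinarith
      · simp only [if_neg h3]
        ring
    simp_rw [h2] at h1
    rw [Finset.sum_add_distrib, Finset.sum_add_distrib, Finset.sum_ite_eq', Finset.sum_ite_eq'] at h1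
    simp only [Finset.mem_univ, if_true, hwe j₁] at h1
    linarith
  · intro χ
    by_cases h1 : χ = ee j₁
    · left
      rw [h1]
      exact hwe j₁
    · have h2 := hbd j₁ χ
      rw [hform j₁ χ, if_neg h1, mul_zero, add_zero] at h2
      have := abs_le.1 h2
      omega
  · intro f g hg
    have h1 := eval_eq_sum (tT_isClass (r := r) f.1 θ) g
    rw [tT_regular H f.1 θ hg] at h1
    have h2 : ∀ i : IrrCharacter G, classInner (tT r f.1 θ) (i : G → ℂ) * (i : G → ℂ) g =
        (w i : ℂ) * (i : G → ℂ) g + (σ : ℂ) * (if i = ee (Quotient.mk _ f) then (i : G → ℂ) g else 0) := by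
      intro i
      rw [classInner_tT' H ha]
      have h3 := hform (Quotient.mk _ f) i
      simp only [u, ha_o] at h3
      have h4 : ((a f.1 i : ℂ) - (a 1 i : ℂ)) = (((a f.1 i : ℤ) - a 1 i : ℤ) : ℂ) := by push_cast; rfl
      rw [h4, h3]
      push_cast
      split_ifs <;> ring
    simp_rw [h2] at h1
    rw [Finset.sum_add_distrib, ← Finset.mul_sum, Finset.sum_ite_eq'] at h1
    simpa using h1.symm
  · have hrange : Set.range (fun f : NT P => ee (Quotient.mk _ f)) = Set.range ee := by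
      ext i
      constructor
      · rintro ⟨f, rfl⟩
        exact ⟨_, rfl⟩
      · rintro ⟨j, rfl⟩
        obtain ⟨f, rfl⟩ := Quotient.exists_rep j
        exact ⟨f, rfl⟩
    rw [hrange, Nat.card_range_of_injective hinj, Nat.card_eq_fintype_card]
    have h1 := sum_eq_card_mul_sum_out e (card_orbit_T H hcl hT) (fun _ : NT P => (1 : ℤ)) (fun _ _ => rfl)
    have h2 : ∑ f : ↥P →* ℂˣ, (1 : ℤ) = 1 + ∑ f : NT P, (1 : ℤ) := Fintype.sum_eq_add_sum_subtype_ne _ (1 : ↥P →* ℂˣ)
    rw [h1] at h2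
    simp only [Finset.sum_const, Finset.card_univ, nsmul_eq_mul, mul_one] at h2
    rw [← Nat.card_eq_fintype_card (α := ↥P →* ℂˣ), card_dual hc, hcard] at h2
    have h3 : (p : ℤ) = 1 + e * Fintype.card J := by
      simpa using h2
    have h4 : p = 1 + e * Fintype.card J := by exact_mod_cast h3
    rw [h4]
    simp [mul_comm]

end Main

end Cfsg.Agent.Lib.DefOneE
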