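import Mathlib
import Cfsg.Agent.Lib.DefOneE
import Cfsg.Agent.Lib.BlockOsima
import Cfsg.Agent.Lib.CharCentral
import Cfsg.Agent.Lib.BlockSecond

/-!
# The irreducible characters and the blocks of `C = P × K`

Every irreducible character of `C` is a twist `(f ∘ r) θ` of a unique `θ` with `P` in its kernel, the block of `C` containing `θ` is the
set of these twists, and its idempotent is given by the characters of `K`.
-/

set_option autoImplicit false
set_option linter.style.haveILetI false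
set_option linter.unusedSectionVars false
set_option linter.unusedVariables false

namespace Cfsg.Agent.Lib.DefOneF

open Cfsg Cfsg.Agent.Lib.CharBasic Subgroup Cfsg.Agent.Lib.DefectOne Cfsg.Agent.Lib.BlkBasic
open Cfsg.Agent.Lib.TICent Cfsg.Agent.Lib.DefOneC Cfsg.Agent.Lib.BlockIdem Cfsg.Agent.Lib.BlockLocal
open scoped ComplexConjugate

variable {G : Type*} [Group G] [Fintype G] {p : ℕ} {P C : Subgroup G} {r : ↥C →* ↥P} {e₀ : ℕ}

section Tw

variable (H : Cfsg.Agent.Lib.TICent.Hyp p P C r e₀) [Fintype C]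
include H

theorem inP_central (z : ↥P) (c : ↥C) : H.inP z * c = c * H.inP z := by
  apply Subtype.ext
  exact (H.comm z.2 c.2).symm

theorem inP_mul (z w : ↥P) : H.inP (z * w) = H.inP z * H.inP w := rfl

theorem inP_one : H.inP 1 = 1 := rfl

/-- Every irreducible character of `C` is a twist. -/
theorem exists_tw {τ : ↥C → ℂ} (hτ : IsIrrCharacter C τ) :
    ∃ (f : ↥P →* ℂˣ) (θ : ↥C → ℂ), IsIrrCharacter C θ ∧ KerP P C θ ∧ τ = tw r f θ := by
  have h1 : τ 1 ≠ 0 := theta_one_ne hτ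
  have hz0 : ∀ z : ↥P, τ (H.inP z) / τ 1 ≠ 0 := by
    intro z
    have h2 := Cfsg.Agent.Lib.CharCentral.central_norm hτ (z := H.inP z) (fun g => inP_central H z g)
    apply div_ne_zero _ h1
    intro h3
    rw [h3, zero_mul] at h2
    exact (mul_ne_zero h1 h1) h2.symm
  let f : ↥P →* ℂˣ :=
    { toFun := fun z => Units.mk0 (τ (H.inP z) / τ 1) (hz0 z)
      map_one' := by
        apply Units.ext
        simp only [Units.val_mk0, Units.val_one]
        rw [inP_one H]
        exact div_self h1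
      map_mul' := by
        intro z w
        apply Units.ext
        simp only [Units.val_mk0, Units.val_mul]
        have h2 := Cfsg.Agent.Lib.CharCentral.central_mul hτ (z := H.inP z) (fun g => inP_central H z g) (H.inP w)
        rw [inP_mul H]
        field_simp
        linear_combination h2 }
  have hf : ∀ z : ↥P, ((f z : ℂˣ) : ℂ) = τ (H.inP z) / τ 1 := fun z => rfl
  refine ⟨f, tw r f⁻¹ τ, isIrr_tw _ hτ, ?_, ?_⟩
  · intro c hc
    have h2 : r c = ⟨c, hc⟩ := H.id ⟨c, hc⟩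
    have h3 : H.inP ⟨c, hc⟩ = c := rfl
    have h4 : τ c ≠ 0 := by
      have := hz0 ⟨c, hc⟩
      rw [h3] at this
      exact left_ne_zero_of_mul (by simpa [div_eq_mul_inv] using this)
    simp only [tw_apply, map_one, Units.val_one, one_mul, MonoidHom.inv_apply, Units.val_inv_eq_inv_val]
    rw [h2, hf, h3]
    field_simp
  · funext c
    simp only [tw_apply, MonoidHom.inv_apply, Units.val_inv_eq_inv_val]
    rw [mul_inv_cancel_left₀ (Units.ne_zero _)]

/-- Orthogonality on `K`. -/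
theorem sum_ker {θ θ' : ↥C → ℂ} (hθ : IsIrrCharacter C θ) (hθ' : IsIrrCharacter C θ') (hk : KerP P C θ) (hk' : KerP P C θ')
    [Fintype P] [Fintype r.ker] [Decidable (θ' = θ)] :
    ∑ k : r.ker, θ' k * conj (θ k) = if θ' = θ then (Nat.card r.ker : ℂ) else 0 := by
  have hK0 : (Nat.card r.ker : ℂ) ≠ 0 := by exact_mod_cast Nat.card_pos.ne'
  have hP0 : (Nat.card P : ℂ) ≠ 0 := by exact_mod_cast Nat.card_pos.ne'
  have h1 := classInner_irr hθ' hθ
  unfold classInner at h1
  rw [H.sum_C, H.card_eq] at h1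
  have h2 : ∀ (φ : ↥C → ℂ), IsIrrCharacter C φ → KerP P C φ → ∀ (z : ↥P) (k : r.ker), φ (H.inP z * k) = φ k := by
    intro φ hφ hkφ z k
    rw [inP_central H]
    exact Cfsg.Agent.Lib.CharKernel.char_mul_of_mem_ker (IsIrrCharacter.isCharacter hφ) (hkφ (H.inP z) z.2)
  simp_rw [h2 θ hθ hk, h2 θ' hθ' hk'] at h1
  simp only [Finset.sum_const, Finset.card_univ, nsmul_eq_mul] at h1
  rw [← Nat.card_eq_fintype_card (α := ↥P)] at h1
  split_ifs at h1 ⊢ with h3
  · push_cast at h1
    field_simp at h1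
    exact h1
  · have h4 : (Nat.card P : ℂ) * ∑ k : r.ker, θ' k * conj (θ k) = 0 := by
      have := mul_eq_zero.1 h1
      rcases this with h5 | h5
      · exfalso
        simp only [inv_eq_zero] at h5
        push_cast at h5
        exact mul_ne_zero hP0 hK0 h5
      · exact h5
    exact (mul_eq_zero.1 h4).resolve_left hP0

end Tw

section Blocks

variable (H : Cfsg.Agent.Lib.TICent.Hyp p P C r e₀) [Fintype C] {M : Ideal AlgInt}
include H

/-- The twist as an irreducible character. -/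
noncomputable def twI (r : ↥C →* ↥P) (f : ↥P →* ℂˣ) (θ : IrrCharacter C) : IrrCharacter C := ⟨tw r f θ, isIrr_tw f θ.2⟩

omit H in
@[simp] theorem twI_coe (f : ↥P →* ℂˣ) (θ : IrrCharacter C) : ((twI r f θ : IrrCharacter C) : ↥C → ℂ) = tw r f θ := rfl

theorem sameBlock_tw (hM : IsPModular p M) (f : ↥P →* ℂˣ) (θ : IrrCharacter C) :
    SameBlock M (θ : ↥C → ℂ) (tw r f θ) := by
  intro c
  haveI := isPrime_of_isPModular hM
  have h1 : centralChar (tw r f θ) c = ((f (r c) : ℂˣ) : ℂ) * centralChar (θ : ↥C → ℂ) c := by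
    unfold centralChar
    simp only [tw_apply, map_one, Units.val_one, one_mul]
    ring
  rw [h1]
  have h2 : centralChar (θ : ↥C → ℂ) c - ((f (r c) : ℂˣ) : ℂ) * centralChar (θ : ↥C → ℂ) c =
      centralChar (θ : ↥C → ℂ) c * -(((f (r c) : ℂˣ) : ℂ) - 1) := by ring
  rw [h2]
  apply memLocalIdeal_mul_left (memLocalRing_of_isIntegral (isIntegral_centralChar θ c))
  apply memLocalIdeal_neg
  obtain ⟨k, hk⟩ := H.pgroup (r c)
  apply Cfsg.Agent.Lib.BlockOsima.memLocalIdeal_sub_one_of_pow hM (k := k)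
  rw [← Units.val_pow_eq_pow_val, ← map_pow, hk, map_one, Units.val_one]

/-- Sums over `C` restricted to `K`. -/
theorem sum_filter_ker [Fintype r.ker] [DecidablePred (fun c : ↥C => r c = 1)] (F : ↥C → ℂ) :
    ∑ c : ↥C, (if r c = 1 then F c else 0) = ∑ k : r.ker, F k := by
  rw [← Finset.sum_filter]
  exact Finset.sum_subtype _ (fun k => by simp [MonoidHom.mem_ker]) F

/-- Two characters with `P` in the kernel in the same block are equal. -/
theorem eq_of_sameBlock (hM : IsPModular p M) {θ θ' : IrrCharacter C} (hk : KerP P C θ) (hk' : KerP P C θ')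
    (h : SameBlock M (θ : ↥C → ℂ) (θ' : ↥C → ℂ)) : θ = θ' := by
  classical
  by_contra hne
  haveI := isPrime_of_isPModular hM
  letI : Fintype P := Fintype.ofFinite _
  letI : Fintype r.ker := Fintype.ofFinite _
  let φ : ↥C → ℂ := fun c => if r c = 1 then ((θ : ↥C → ℂ) 1 * (Nat.card r.ker : ℂ)⁻¹) * conj ((θ : ↥C → ℂ) c) else 0
  have hcl : IsClassFunction C φ := by
    intro c d
    have h1 : r (d * c * d⁻¹) = r c := by
      rw [map_mul, map_mul, map_inv]
      apply Subtype.ext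
      simp only [Subgroup.coe_mul, Subgroup.coe_inv]
      rw [H.comm_P (r c).2 (r d).2]
      group
    show (if r (d * c * d⁻¹) = 1 then _ else _) = (if r c = 1 then _ else _)
    rw [h1, isClassFunction_of_isCharacter (IsIrrCharacter.isCharacter θ.2) c d]
  have hR : ∀ c, MemLocalRing M (φ c) := by
    intro c
    by_cases hc : r c = 1
    · simp only [φ, if_pos hc]
      refine memLocalRing_mul (memLocalRing_mul ?_ ?_) ?_
      · rw [Cfsg.Agent.Lib.CharKernel.one_eq_charDegree (IsIrrCharacter.isCharacter θ.2)]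
        exact memLocalRing_natCast _
      · exact memLocalRing_inv_natCast hM H.ker
      · apply memLocalRing_of_isIntegral
        rw [char_conj_eq_inv (IsIrrCharacter.isCharacter θ.2)]
        obtain ⟨θ₀, n, ρ, hρ, h0⟩ := θ
        exact h0 ▸ Cfsg.Agent.Lib.CharValues.isIntegral_character ρ _
    · simp only [φ, if_neg hc]
      exact memLocalRing_zero
  have hZ := mem_Zc_of_classFunction hcl hR
  have h3 := memLocalIdeal_sub_of_mem_Zc hZ h
  have hθ1 := theta_one_ne θ.2
  have hθ'1 := theta_one_ne θ'.2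
  have hK0 : (Nat.card r.ker : ℂ) ≠ 0 := by exact_mod_cast Nat.card_pos.ne'
  have h4 : ∀ τ : IrrCharacter C, omega (τ : ↥C → ℂ) φ =
      ((τ : ↥C → ℂ) 1)⁻¹ * ((θ : ↥C → ℂ) 1 * (Nat.card r.ker : ℂ)⁻¹) * ∑ k : r.ker, (τ : ↥C → ℂ) k * conj ((θ : ↥C → ℂ) k) := by
    intro τ
    unfold omega
    have h5 : ∀ c : ↥C, φ c * (τ : ↥C → ℂ) c = if r c = 1 then ((θ : ↥C → ℂ) 1 * (Nat.card r.ker : ℂ)⁻¹) * ((τ : ↥C → ℂ) c * conj ((θ : ↥C → ℂ) c)) else 0 := by
      intro c
      simp only [φ]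
      split_ifs
      · ring
      · ring
    simp_rw [h5]
    rw [sum_filter_ker H, ← Finset.mul_sum]
    ring
  have h5 : omega (θ : ↥C → ℂ) φ = 1 := by
    rw [h4, sum_ker H θ.2 θ.2 hk hk, if_pos rfl]
    field_simp
  have h6 : omega (θ' : ↥C → ℂ) φ = 0 := by
    rw [h4, sum_ker H θ.2 θ'.2 hk hk', if_neg (fun h7 => hne (Subtype.ext h7).symm), mul_zero]
  rw [h5, h6, sub_zero] at h3
  exact not_memLocalIdeal_one h3

theorem eq_one_of_tw {θ θ' : ↥C → ℂ} (hθ' : IsIrrCharacter C θ') (hk : KerP P C θ) (hk' : KerP P C θ') {g : ↥P →* ℂˣ}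
    (h : θ = tw r g θ') : g = 1 := by
  ext z
  have h1 := hk (H.inP z) z.2
  rw [h] at h1
  simp only [tw_apply, map_one, Units.val_one, one_mul, H.r_inP] at h1
  rw [hk' (H.inP z) z.2] at h1
  have h2 := theta_one_ne hθ'
  simpa using mul_right_cancel₀ h2 (h1.trans (one_mul _).symm)

theorem tw_injective {θ : ↥C → ℂ} (hθ : IsIrrCharacter C θ) (hk : KerP P C θ) {f g : ↥P →* ℂˣ}
    (h : tw r f θ = tw r g θ) : f = g := by
  ext z
  have h3 := congrFun h (H.inP z)
  simp only [tw_apply, H.r_inP] at h3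
  rw [hk (H.inP z) z.2] at h3
  exact mul_right_cancel₀ (theta_one_ne hθ) h3

/-- The block of `θ` in `C`. -/
theorem blockOf_eq (hM : IsPModular p M) {θ : IrrCharacter C} (hk : KerP P C θ) :
    blockOf M (θ : ↥C → ℂ) = Set.range (fun f : ↥P →* ℂˣ => twI r f θ) := by
  haveI := isPrime_of_isPModular hM
  ext τ
  constructor
  · intro hτ
    obtain ⟨f, θ', hθ', hk', hf⟩ := exists_tw H τ.2
    have h1 : SameBlock M (θ' : ↥C → ℂ) (τ : ↥C → ℂ) := by
      rw [hf]
      exact sameBlock_tw H hM f ⟨θ', hθ'⟩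
    have h2 : (⟨θ', hθ'⟩ : IrrCharacter C) = θ :=
      eq_of_sameBlock H hM hk' hk (sameBlock_symm (sameBlock_trans hτ (sameBlock_symm h1)) |> fun h3 => h3)
    refine ⟨f, Subtype.ext ?_⟩
    show tw r f θ = τ
    rw [hf, ← h2]
  · rintro ⟨f, rfl⟩
    exact sameBlock_tw H hM f θ

/-- A block of `C` is the block of a unique character with `P` in its kernel. -/
theorem exists_kerP_of_isPBlock (hM : IsPModular p M) {b : Set (IrrCharacter C)} (hb : IsPBlock M b) :
    ∃ θ : IrrCharacter C, KerP P C θ ∧ b = blockOf M (θ : ↥C → ℂ) := by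
  haveI := isPrime_of_isPModular hM
  obtain ⟨τ, rfl⟩ := hb
  obtain ⟨f, θ', hθ', hk', hf⟩ := exists_tw H τ.2
  refine ⟨⟨θ', hθ'⟩, hk', ?_⟩
  have h1 : (τ : IrrCharacter C) ∈ blockOf M ((⟨θ', hθ'⟩ : IrrCharacter C) : ↥C → ℂ) := by
    show SameBlock M θ' (τ : ↥C → ℂ)
    rw [hf]
    exact sameBlock_tw H hM f ⟨θ', hθ'⟩
  exact (blockOf_eq_of_mem h1)

/-- The idempotent of the block of `θ`. -/
theorem blockCoeff_blockOf (hM : IsPModular p M) {θ : IrrCharacter C} (hk : KerP P C θ) [DecidablePred (fun c : ↥C => r c = 1)] (c : ↥C) :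
    blockCoeff (blockOf M (θ : ↥C → ℂ)) c =
      if r c = 1 then ((θ : ↥C → ℂ) 1 * (Nat.card r.ker : ℂ)⁻¹) * conj ((θ : ↥C → ℂ) c) else 0 := by
  classical
  have hc : ∀ u ∈ P, ∀ v ∈ P, u * v = v * u := fun u hu v hv => (H.comm_P hu hv).symm
  haveI : Finite (↥P →* ℂˣ) := dual_finite hc
  letI : Fintype (↥P →* ℂˣ) := Fintype.ofFinite _
  have hι : Function.Injective (fun f : ↥P →* ℂˣ => twI r f θ) := by
    intro f g hfg
    exact tw_injective H θ.2 hk (congrArg Subtype.val hfg)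
  unfold blockCoeff
  rw [blockOf_eq H hM hk, finsum_mem_range hι, finsum_eq_sum_of_fintype]
  have h1 : ∀ f : ↥P →* ℂˣ, ((twI r f θ : IrrCharacter C) : ↥C → ℂ) 1 * conj (((twI r f θ : IrrCharacter C) : ↥C → ℂ) c) =
      (θ : ↥C → ℂ) 1 * conj ((θ : ↥C → ℂ) c) * chi f (r c)⁻¹ := by
    intro f
    simp only [twI_coe, tw_apply, map_one, Units.val_one, one_mul, map_mul]
    rw [← chi_conj]
    simp only [chi]
    ring
  simp_rw [h1]
  rw [← Finset.mul_sum]
  have hCne : (Nat.card C : ℂ) ≠ 0 := by exact_mod_cast Nat.card_pos.ne'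
  split_ifs with hrc
  · rw [hrc, inv_one, sum_dual_one hc, H.card_eq]
    have hPne : (Nat.card P : ℂ) ≠ 0 := by exact_mod_cast Nat.card_pos.ne'
    have hKne : (Nat.card r.ker : ℂ) ≠ 0 := by exact_mod_cast Nat.card_pos.ne'
    push_cast
    field_simp
  · rw [sum_dual hc (by simpa using hrc), mul_zero, mul_zero]

/-- **Second main theorem** for the block of `θ`. -/
theorem sum_ker_mul_eq_zero (hM : IsPModular p M) {θ : IrrCharacter C} (hk : KerP P C θ) {B : Set (IrrCharacter G)}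
    (hind : IsInducedBlock M C (blockOf M (θ : ↥C → ℂ)) B) {χ : IrrCharacter G} (hχ : χ ∉ B) {z : ↥P} (hz : z ≠ 1)
    [Fintype r.ker] :
    ∑ k : r.ker, conj ((θ : ↥C → ℂ) k) * (χ : G → ℂ) ((z : G) * ((k : ↥C) : G)) = 0 := by
  classical
  haveI : Fact p.Prime := ⟨H.prime⟩
  have hz' : (z : G) ≠ 1 := fun h => hz (Subtype.ext h)
  have hord : ∃ k : ℕ, orderOf (z : G) = p ^ k := by
    obtain ⟨k, hk⟩ := (IsPGroup.iff_orderOf.1 H.pgroup) z
    exact ⟨k, by rw [← hk]; exact (Subgroup.orderOf_coe z)⟩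
  have hpp : IsPPart p (z : G) (z : G) := ⟨1, mul_one _, Commute.one_right _, hord, by
    rw [orderOf_one]
    exact fun h => H.prime.one_lt.ne' (Nat.dvd_one.1 h)⟩
  have h1 := Cfsg.Agent.Lib.BlockSecond.sum_blockCoeff_mul_irr_eq_zero hM hind (H.le z.2) hpp
    (H.star z z.2 hz').le χ hχ
  simp_rw [blockCoeff_blockOf H hM hk] at h1
  have h2 : ∀ c : ↥C, (if r c = 1 then ((θ : ↥C → ℂ) 1 * (Nat.card r.ker : ℂ)⁻¹) * conj ((θ : ↥C → ℂ) c) else 0) * (χ : G → ℂ) ((c : G) * (z : G)) =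
      if r c = 1 then ((θ : ↥C → ℂ) 1 * (Nat.card r.ker : ℂ)⁻¹) * (conj ((θ : ↥C → ℂ) c) * (χ : G → ℂ) ((z : G) * (c : G))) else 0 := by
    intro c
    split_ifs
    · rw [H.comm z.2 c.2]
      ring
    · simp
  simp_rw [h2] at h1
  rw [sum_filter_ker H, ← Finset.mul_sum] at h1
  have hK0 : (Nat.card r.ker : ℂ) ≠ 0 := by exact_mod_cast Nat.card_pos.ne'
  exact (mul_eq_zero.1 h1).resolve_left (mul_ne_zero (theta_one_ne θ.2) (inv_ne_zero hK0))

/-- The multiplicities of the twists in `χ` outside the block. -/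
theorem inner_tw_eq_of_not_mem (hM : IsPModular p M) {θ : IrrCharacter C} (hk : KerP P C θ) {B : Set (IrrCharacter G)}
    (hind : IsInducedBlock M C (blockOf M (θ : ↥C → ℂ)) B) {χ : IrrCharacter G} (hχ : χ ∉ B) (f : ↥P →* ℂˣ) :
    classInner (tw r f θ) (fun c : ↥C => (χ : G → ℂ) c) = classInner (θ : ↥C → ℂ) (fun c : ↥C => (χ : G → ℂ) c) := by
  classical
  letI : Fintype P := Fintype.ofFinite _
  letI : Fintype r.ker := Fintype.ofFinite _
  have key : ∀ g : ↥P →* ℂˣ, classInner (tw r g θ) (fun c : ↥C => (χ : G → ℂ) c) =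
      (Nat.card C : ℂ)⁻¹ * ∑ k : r.ker, (θ : ↥C → ℂ) k * conj ((χ : G → ℂ) ((k : ↥C) : G)) := by
    intro g
    unfold classInner
    rw [H.sum_C, Finset.sum_eq_single (1 : ↥P)]
    · congr 1
      refine Finset.sum_congr rfl fun k _ => ?_
      have hk1 : r k = 1 := k.2
      have h1 : H.inP 1 = 1 := rfl
      simp [h1, hk1]
    · intro z _ hz
      have h1 := sum_ker_mul_eq_zero H hM hk hind hχ hz
      have h2 := congrArg conj h1
      rw [map_sum, map_zero] at h2
      have h3 : ∀ k : r.ker, tw r g θ (H.inP z * k) * conj ((χ : G → ℂ) ((H.inP z * k : ↥C) : G)) =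
          ((g z : ℂˣ) : ℂ) * conj (conj ((θ : ↥C → ℂ) k) * (χ : G → ℂ) ((z : G) * ((k : ↥C) : G))) := by
        intro k
        have hk1 : r k = 1 := k.2
        have h4 : (θ : ↥C → ℂ) (H.inP z * k) = (θ : ↥C → ℂ) k := by
          rw [inP_central H]
          exact Cfsg.Agent.Lib.CharKernel.char_mul_of_mem_ker (IsIrrCharacter.isCharacter θ.2) (hk (H.inP z) z.2)
        have h5 : r (H.inP z * k) = z := by rw [map_mul, H.r_inP, hk1, mul_one]
        rw [tw_apply, h4, h5, map_mul, Complex.conj_conj]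
        have h6 : ((H.inP z * k : ↥C) : G) = (z : G) * ((k : ↥C) : G) := rfl
        rw [h6]
        ring
      simp_rw [h3]
      rw [← Finset.mul_sum, h2, mul_zero]
    · simp
  rw [key f]
  have h1 := key 1
  rw [tw_one] at h1
  exact h1.symm

end Blocks

end Cfsg.Agent.Lib.DefOneF
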