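import Mathlib
import Cfsg.Agent.Lib.DefOneF
import Cfsg.Agent.Lib.BlkExtFMT
import Cfsg.Agent.Lib.BlockDefectInd

/-!
# The block inducing from the block of `θ`: description by the twists

`B = b_θ^G` consists of the `χ` with `(f ∘ r) θ`-multiplicity in `χ|_C` depending on `f`.
-/

set_option autoImplicit false
set_option linter.style.haveILetI false
set_option linter.unusedSectionVars false
set_option linter.unusedVariables false

namespace Cfsg.Agent.Lib.DefOneG

open Cfsg Cfsg.Agent.Lib.CharBasic Subgroup Cfsg.Agent.Lib.DefectOne Cfsg.Agent.Lib.BlkBasic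
open Cfsg.Agent.Lib.TICent Cfsg.Agent.Lib.DefOneC Cfsg.Agent.Lib.DefOneE Cfsg.Agent.Lib.DefOneF
open Cfsg.Agent.Lib.BlockIdem Cfsg.Agent.Lib.BlockLocal
open scoped ComplexConjugate

variable {G : Type*} [Group G] [Fintype G] {p : ℕ} {P C : Subgroup G} {r : ↥C →* ↥P} {e₀ : ℕ}

/-- The multiplicities of `(f ∘ r) θ` in `χ|_C` do not depend on `f`. -/
def Flat [Fintype C] (r : ↥C →* ↥P) (θ : ↥C → ℂ) (χ : G → ℂ) : Prop :=
  ∀ f : ↥P →* ℂˣ, classInner (tw r f θ) (fun c : ↥C => χ c) = classInner θ (fun c : ↥C => χ c)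

section Main

variable (H : Cfsg.Agent.Lib.TICent.Hyp p P C r e₀) [Fintype C] {M : Ideal AlgInt}
include H

/-- Conjugating the twists. -/
theorem inner_tw_smul (x : normalizer (P : Set G)) (g : ↥P →* ℂˣ) (θ : ↥C → ℂ) {χ : G → ℂ} (hχ : IsClassFunction G χ) :
    classInner (tw r (x • g) (cjT H x θ)) (fun c : ↥C => χ c) = classInner (tw r g θ) (fun c : ↥C => χ c) := by
  unfold classInner
  congr 1
  refine Fintype.sum_bijective (H.cjC x) (H.cjC_bij x) _ _ fun c => ?_
  have h2 : χ ((H.cjC x c : ↥C) : G) = χ c := by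
    rw [H.cjC_coe]
    have := hχ c ((x : normalizer (P : Set G)) : G)⁻¹
    simpa using this
  beta_reduce
  rw [h2, ← tw_smul H]

theorem flat_smul {θ : ↥C → ℂ} {χ : G → ℂ} (hχ : IsClassFunction G χ) (h : Flat r θ χ) (x : normalizer (P : Set G)) :
    Flat r (cjT H x θ) χ := by
  intro f
  have h1 := inner_tw_smul H x (x⁻¹ • f) θ hχ
  rw [smul_inv_smul] at h1
  rw [h1, h (x⁻¹ • f)]
  have h3 := inner_tw_smul H x 1 θ hχ
  have h4 : x • (1 : ↥P →* ℂˣ) = 1 := by
    ext z
    simp [DefectOne.smul_apply]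
  rw [h4, tw_one, tw_one] at h3
  rw [h3]

/-- Flat characters vanish outside `K`. -/
theorem vanish_of_flat {χ : G → ℂ} (hχ : IsClassFunction G χ)
    (h : ∀ θ : IrrCharacter C, KerP P C θ → Flat r θ χ) {c₀ : ↥C} (hc₀ : r c₀ ≠ 1) : χ c₀ = 0 := by
  classical
  have hc : ∀ u ∈ P, ∀ v ∈ P, u * v = v * u := fun u hu v hv => (H.comm_P hu hv).symm
  obtain ⟨f, hf⟩ := dual_exists_ne hc hc₀
  let D : ↥C → ℂ := fun c => χ c * (1 - ((f (r c) : ℂˣ) : ℂ))
  have hcl : IsClassFunction C D := by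
    intro c d
    have h1 : r (d * c * d⁻¹) = r c := by
      rw [map_mul, map_mul, map_inv]
      apply Subtype.ext
      simp only [Subgroup.coe_mul, Subgroup.coe_inv]
      rw [H.comm_P (r c).2 (r d).2]
      group
    show χ ((d * c * d⁻¹ : ↥C) : G) * (1 - ((f (r (d * c * d⁻¹)) : ℂˣ) : ℂ)) = χ c * (1 - ((f (r c) : ℂˣ) : ℂ))
    rw [h1]
    congr 1
    exact hχ c d
  have hD : D = 0 := by
    apply eq_zero_of_orthogonal hcl
    intro τ
    obtain ⟨g, θ, hθ, hk, hτ⟩ := exists_tw H τ.2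
    have h1 : classInner D (τ : ↥C → ℂ) = classInner (fun c : ↥C => χ c) (tw r g θ) -
        classInner (fun c : ↥C => χ c) (tw r (g * f⁻¹) θ) := by
      rw [hτ]
      unfold classInner
      rw [← mul_sub, ← Finset.sum_sub_distrib]
      congr 1
      refine Finset.sum_congr rfl fun c _ => ?_
      have h2 : conj ((((g * f⁻¹) (r c) : ℂˣ)) : ℂ) = conj ((g (r c) : ℂˣ) : ℂ) * ((f (r c) : ℂˣ) : ℂ) := by
        have h3 : conj ((f (r c) : ℂˣ) : ℂ)⁻¹ = ((f (r c) : ℂˣ) : ℂ) := by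
          have h4 := chi_conj f (r c)
          simp only [chi, map_inv, Units.val_inv_eq_inv_val] at h4
          rw [map_inv₀, h4, inv_inv]
        simp only [MonoidHom.mul_apply, MonoidHom.inv_apply, Units.val_mul, Units.val_inv_eq_inv_val, map_mul]
        rw [h3]
      simp only [D, tw_apply, map_mul, h2]
      ring
    rw [h1, ← classInner_conj_symm (tw r g θ), ← classInner_conj_symm (tw r (g * f⁻¹) θ),
      h ⟨θ, hθ⟩ hk g, h ⟨θ, hθ⟩ hk (g * f⁻¹), sub_self]
  have h2 := congrFun hD c₀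
  simp only [D, Pi.zero_apply] at h2
  rcases mul_eq_zero.1 h2 with h3 | h3
  · exact h3
  · exfalso
    apply hf
    apply Units.ext
    simpa using (sub_eq_zero.1 h3).symm

/-- `p`-singular elements are conjugate to elements of `C \ K`. -/
theorem exists_conj_of_dvd (hcard : Nat.card P = p) (hidx : ¬ p ∣ P.index) {g : G} (hg : p ∣ orderOf g) :
    ∃ (t : G) (c : ↥C), (c : G) = t * g * t⁻¹ ∧ r c ≠ 1 := by
  classical
  haveI : Fact p.Prime := ⟨H.prime⟩
  have hord : orderOf (g ^ (orderOf g / p)) = p := orderOf_pow_orderOf_div (orderOf_pos g).ne' hg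
  set u := g ^ (orderOf g / p) with hu
  have hup : IsPGroup p (zpowers u) := by
    apply IsPGroup.of_card (n := 1)
    rw [Nat.card_zpowers, hord, pow_one]
  obtain ⟨Q, hQ⟩ := hup.exists_le_sylow
  let S : Sylow p G := IsPGroup.toSylow H.pgroup hidx
  have hS : (S : Subgroup G) = P := IsPGroup.toSylow_coe _ _
  obtain ⟨t, ht⟩ := MulAction.exists_smul_eq G Q S
  have hu1 : t * u * t⁻¹ ∈ P := by
    rw [← hS, ← ht, Sylow.smul_def, Sylow.pointwise_smul_def]
    exact Subgroup.smul_mem_pointwise_smul u (MulAut.conj t) (Q : Subgroup G) (hQ (mem_zpowers u))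
  have hu2 : t * u * t⁻¹ ≠ 1 := by
    intro h0
    have h1 : u = 1 := by
      have h2 : t⁻¹ * (t * u * t⁻¹) * t = 1 := by rw [h0]; simp
      simpa [mul_assoc] using h2
    rw [h1, orderOf_one] at hord
    exact H.prime.one_lt.ne hord
  have hmem : t * g * t⁻¹ ∈ C := by
    rw [← H.star _ hu1 hu2, mem_centralizer_singleton_iff]
    have h1 : g * u = u * g := by
      rw [hu]
      exact (Commute.pow_right (Commute.refl g) _)
    calc t * g * t⁻¹ * (t * u * t⁻¹) = t * (g * u) * t⁻¹ := by group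
      _ = t * (u * g) * t⁻¹ := by rw [h1]
      _ = t * u * t⁻¹ * (t * g * t⁻¹) := by group
  refine ⟨t, ⟨_, hmem⟩, rfl, ?_⟩
  intro h0
  apply H.not_dvd_order h0
  have h2 : orderOf (⟨_, hmem⟩ : ↥C) = orderOf (t * g * t⁻¹) := Subgroup.orderOf_mk _ _
  have h3 : orderOf (t * g * t⁻¹) = orderOf g := by
    have := orderOf_injective (MulAut.conj t).toMonoidHom (MulAut.conj t).injective g
    simpa using this
  rw [h2, h3]
  exact hg

/-- All flat implies vanishing on `p`-singular elements. -/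
theorem vanish_singular (hcard : Nat.card P = p) (hidx : ¬ p ∣ P.index) {χ : G → ℂ} (hχ : IsClassFunction G χ)
    (h : ∀ θ : IrrCharacter C, KerP P C θ → Flat r θ χ) {g : G} (hg : p ∣ orderOf g) : χ g = 0 := by
  obtain ⟨t, c, hc, hrc⟩ := exists_conj_of_dvd H hcard hidx hg
  rw [← hχ g t, ← hc]
  exact vanish_of_flat H hχ h hrc

/-- Characters flat at every `θ` have defect zero. -/
theorem dvd_of_flat (hcard : Nat.card P = p) (hidx : ¬ p ∣ P.index) {χ : G → ℂ} (hχ : IsCharacter G χ)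
    (h : ∀ θ : IrrCharacter C, KerP P C θ → Flat r θ χ) :
    p ^ (Nat.card G).factorization p ∣ charDegree χ :=
  Cfsg.Agent.Lib.BlockOrtho.dvd_charDegree_of_vanish H.prime hχ
    (fun g hg => vanish_singular H hcard hidx (isClassFunction_of_isCharacter hχ) h hg)

/-- The extended first main theorem for `C`. -/
theorem exists_conj_of_same (hM : IsPModular p M) {B : Set (IrrCharacter G)} (hB : IsPBlock M B)
    (hBP : IsDefectGroup p M B P) {θ θ' : IrrCharacter C} (hk : KerP P C θ) (hk' : KerP P C θ')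
    (hind : IsInducedBlock M C (blockOf M (θ : ↥C → ℂ)) B) (hind' : IsInducedBlock M C (blockOf M (θ' : ↥C → ℂ)) B) :
    ∃ x : normalizer (P : Set G), (θ' : ↥C → ℂ) = cjT H x θ := by
  classical
  haveI : Fact p.Prime := ⟨H.prime⟩
  haveI := isPrime_of_isPModular hM
  have hnorm : ∀ n ∈ normalizer (P : Set G), n ∈ normalizer (C : Set G) := by
    intro n hn
    rw [mem_normalizer_iff]
    intro h
    constructor
    · intro hh
      have := H.conj_mem ⟨n, hn⟩⁻¹ ⟨h, hh⟩
      simpa using this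
    · intro hh
      have := H.conj_mem ⟨n, hn⟩ ⟨_, hh⟩
      simpa [mul_assoc] using this
  obtain ⟨n, hn, hex⟩ := Cfsg.Agent.Lib.BlkExtFMT.exists_conj_of_induced hM H.pgroup hB hBP (L := C)
    H.le_normalizer H.cen.le hnorm hind hind'
  obtain ⟨θ₁, hθ₁, hval⟩ := hex θ (mem_blockOf_self θ)
  let x : normalizer (P : Set G) := ⟨n, hn⟩⁻¹
  have hval' : (θ₁ : ↥C → ℂ) = cjT H x θ := by
    funext c
    have hx : n * (c : G) * n⁻¹ ∈ C := by
      have := H.conj_mem x c
      simpa [x] using this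
    rw [hval c hx]
    have h5 : (⟨n * (c : G) * n⁻¹, hx⟩ : ↥C) = H.cjC x c := Subtype.ext (by simp [x])
    rw [h5]
    rfl
  rw [blockOf_eq H hM hk'] at hθ₁
  obtain ⟨g, hg⟩ := hθ₁
  have hg1 : g = 1 := by
    refine eq_one_of_tw H θ'.2 (θ := (θ₁ : ↥C → ℂ)) ?_ hk' ?_
    · rw [hval']
      exact kerP_cjT H x hk
    · rw [← hg]
      rfl
  refine ⟨x, ?_⟩
  rw [← hval', ← hg, hg1]
  exact (tw_one _).symm

/-- A flat member of `B` is flat everywhere. -/
theorem flat_all (hM : IsPModular p M) {B : Set (IrrCharacter G)} (hB : IsPBlock M B)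
    (hBP : IsDefectGroup p M B P) {θ : IrrCharacter C} (hk : KerP P C θ)
    (hind : IsInducedBlock M C (blockOf M (θ : ↥C → ℂ)) B) {χ : IrrCharacter G} (hχB : χ ∈ B)
    (hf : Flat r θ (χ : G → ℂ)) (θ' : IrrCharacter C) (hk' : KerP P C θ') : Flat r θ' (χ : G → ℂ) := by
  classical
  haveI : Fact p.Prime := ⟨H.prime⟩
  haveI := isPrime_of_isPModular hM
  obtain ⟨B', hB'⟩ := Cfsg.Agent.Lib.BlockSecond.exists_isInducedBlock_centralizer hM H.pgroup H.cen.symm
    (e := blockOf M (θ' : ↥C → ℂ)) ⟨θ', rfl⟩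
  by_cases hχ : χ ∈ B'
  · have h1 : B' = B := by
      rcases eq_or_disjoint_of_isPBlock hB'.2.1 hB with h2 | h2
      · exact h2
      · exact absurd hχB (Set.disjoint_left.1 h2 hχ)
    rw [h1] at hB'
    obtain ⟨x, hx⟩ := exists_conj_of_same H hM hB hBP hk hk' hind hB'
    rw [hx]
    exact flat_smul H (isClassFunction_of_isCharacter (IsIrrCharacter.isCharacter χ.2)) hf x
  · exact fun f => inner_tw_eq_of_not_mem H hM hk' hB' hχ f

/-- Non-flat characters with respect to `θ` lie in `b_θ^G`. -/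
theorem mem_of_not_flat (hM : IsPModular p M) {B : Set (IrrCharacter G)} {θ : IrrCharacter C} (hk : KerP P C θ)
    (hind : IsInducedBlock M C (blockOf M (θ : ↥C → ℂ)) B) {χ : IrrCharacter G} (hf : ¬ Flat r θ (χ : G → ℂ)) : χ ∈ B := by
  by_contra hχ
  exact hf fun f => inner_tw_eq_of_not_mem H hM hk hind hχ f

/-- **`b_θ^G` is the set of non-flat characters**, given a non-flat character. -/
theorem mem_iff_not_flat (hcard : Nat.card P = p) (hidx : ¬ p ∣ P.index) (hM : IsPModular p M) {B : Set (IrrCharacter G)} (hB : IsPBlock M B)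
    (hBP : IsDefectGroup p M B P) {θ : IrrCharacter C} (hk : KerP P C θ)
    (hind : IsInducedBlock M C (blockOf M (θ : ↥C → ℂ)) B) (hex : ∃ χ : IrrCharacter G, ¬ Flat r θ (χ : G → ℂ))
    (χ : IrrCharacter G) : χ ∈ B ↔ ¬ Flat r θ (χ : G → ℂ) := by
  haveI := isPrime_of_isPModular hM
  refine ⟨fun hχ hf => ?_, mem_of_not_flat H hM hk hind⟩
  obtain ⟨χ₀, hχ₀⟩ := hex
  have h1 := mem_of_not_flat H hM hk hind hχ₀
  have h2 := dvd_of_flat H hcard hidx (IsIrrCharacter.isCharacter χ.2) (flat_all H hM hB hBP hk hind hχ hf)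
  have hBχ : B = blockOf M (χ : G → ℂ) := by
    obtain ⟨χ', rfl⟩ := hB
    exact (blockOf_eq_of_mem hχ).symm
  rw [hBχ] at h1
  have h3 := Cfsg.Agent.Lib.BlockOrtho.eq_of_mem_blockOf_of_dvd hM h2 h1
  rw [h3] at hχ₀
  exact hχ₀ hf

end Main

end Cfsg.Agent.Lib.DefOneG
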