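import Mathlib
import Cfsg.Agent.Lib.DefOneG

/-!
# The action of `N(P)` on the characters of `C` with `P` in the kernel, and the degrees mod `p`
-/

set_option autoImplicit false
set_option linter.style.haveILetI false
set_option linter.unusedSectionVars false
set_option linter.unusedVariables false

namespace Cfsg.Agent.Lib.DefOneH

open Cfsg Cfsg.Agent.Lib.CharBasic Subgroup Cfsg.Agent.Lib.DefectOne Cfsg.Agent.Lib.BlkBasic
open Cfsg.Agent.Lib.TICent Cfsg.Agent.Lib.DefOneC Cfsg.Agent.Lib.DefOneE Cfsg.Agent.Lib.DefOneF Cfsg.Agent.Lib.DefOneG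
open Cfsg.Agent.Lib.BlockIdem Cfsg.Agent.Lib.BlockLocal
open scoped ComplexConjugate

variable {G : Type*} [Group G] [Fintype G] {p : ℕ} {P C : Subgroup G} {r : ↥C →* ↥P} {e₀ : ℕ}

/-- The characters of `C` with `P` in the kernel. -/
abbrev Th (P C : Subgroup G) := {θ : IrrCharacter C // KerP P C (θ : ↥C → ℂ)}

section Act

variable (H : Cfsg.Agent.Lib.TICent.Hyp p P C r e₀) [Fintype C]
include H

theorem cjT_one (θ : ↥C → ℂ) : cjT H 1 θ = θ := by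
  funext c
  show θ (H.cjC 1 c) = θ c
  congr 1
  apply Subtype.ext
  simp

theorem cjT_mul (a b : normalizer (P : Set G)) (θ : ↥C → ℂ) : cjT H (a * b) θ = cjT H a (cjT H b θ) := by
  funext c
  show θ (H.cjC (a * b) c) = θ (H.cjC b (H.cjC a c))
  congr 1
  apply Subtype.ext
  simp only [Hyp.cjC_coe, Subgroup.coe_mul]
  group

omit H in
/-- The action of `N(P)`. -/
@[reducible] def actTh (H : Cfsg.Agent.Lib.TICent.Hyp p P C r e₀) : MulAction (normalizer (P : Set G)) (Th P C) where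
  smul x θ := ⟨⟨cjT H x θ.1, isIrr_cjT H x θ.1.2⟩, kerP_cjT H x θ.2⟩
  one_smul θ := Subtype.ext (Subtype.ext (cjT_one H _))
  mul_smul a b θ := Subtype.ext (Subtype.ext (cjT_mul H a b _))

theorem actTh_coe (x : normalizer (P : Set G)) (θ : Th P C) :
    (((actTh H).toSMul.smul x θ : Th P C).1 : ↥C → ℂ) = cjT H x θ.1 := rfl

/-- Orbit-stabilizer. -/
theorem card_orbit_mul (θ : Th P C) :
    letI := actTh H
    Nat.card (MulAction.orbit (normalizer (P : Set G)) θ) * Nat.card (stabT H (θ.1 : ↥C → ℂ)) = Nat.card (normalizer (P : Set G)) := by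
  letI := actTh H
  have h1 := Nat.card_congr (MulAction.orbitProdStabilizerEquivGroup (normalizer (P : Set G)) θ)
  rw [Nat.card_prod] at h1
  have h2 : Nat.card (MulAction.stabilizer (normalizer (P : Set G)) θ) = Nat.card (stabT H (θ.1 : ↥C → ℂ)) := by
    apply Nat.card_congr
    refine ⟨fun x => ⟨x.1, ?_⟩, fun x => ⟨x.1, ?_⟩, fun _ => rfl, fun _ => rfl⟩
    · have := MulAction.mem_stabilizer_iff.1 x.2
      exact congrArg (fun t : Th P C => ((t.1 : IrrCharacter C) : ↥C → ℂ)) this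
    · rw [MulAction.mem_stabilizer_iff]
      exact Subtype.ext (Subtype.ext x.2)
  rw [← h2]
  exact h1

/-- The reindexing of the irreducible characters of `C`. -/
theorem twI_bijective [Fintype (↥P →* ℂˣ)] :
    Function.Bijective (fun x : (↥P →* ℂˣ) × Th P C => twI r x.1 x.2.1) := by
  classical
  constructor
  · rintro ⟨f, θ⟩ ⟨g, θ'⟩ h
    have h0 : tw r f θ.1 = tw r g θ'.1 := congrArg Subtype.val h
    have h1 : (θ.1 : ↥C → ℂ) 1 = (θ'.1 : ↥C → ℂ) 1 := by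
      have := congrFun h0 1
      simpa using this
    have h2 : f = g := by
      ext z
      have h3 := congrFun h0 (H.inP z)
      simp only [tw_apply, H.r_inP] at h3
      rw [θ.2 _ z.2, θ'.2 _ z.2, ← h1] at h3
      exact mul_right_cancel₀ (theta_one_ne θ.1.2) h3
    refine Prod.ext h2 (Subtype.ext (Subtype.ext ?_))
    funext c
    have h3 := congrFun h0 c
    simp only [tw_apply, h2] at h3
    exact mul_left_cancel₀ (Units.ne_zero _) h3
  · intro τ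
    obtain ⟨f, θ, hθ, hk, hτ⟩ := exists_tw H τ.2
    exact ⟨(f, ⟨⟨θ, hθ⟩, hk⟩), Subtype.ext hτ.symm⟩

/-- The degree of `χ` from the multiplicities. -/
theorem deg_eq_sum [Fintype (↥P →* ℂˣ)] [Fintype (Th P C)] {a : IrrCharacter C → (↥P →* ℂˣ) → IrrCharacter G → ℕ}
    (ha : ∀ (θ : IrrCharacter C) (f : ↥P →* ℂˣ) (χ : IrrCharacter G),
      classInner (tw r f θ) (fun c : ↥C => (χ : G → ℂ) c) = (a θ f χ : ℂ)) (χ : IrrCharacter G) :
    (charDegree (χ : G → ℂ) : ℤ) = ∑ θ : Th P C, (charDegree (θ.1 : ↥C → ℂ) : ℤ) * ∑ f : ↥P →* ℂˣ, (a θ.1 f χ : ℤ) := by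
  classical
  have hχc : IsClassFunction C (fun c : ↥C => (χ : G → ℂ) c) :=
    isClassFunction_of_isCharacter (isCharacter_restrict C (IsIrrCharacter.isCharacter χ.2))
  have h1 := eval_eq_sum hχc 1
  rw [← Fintype.sum_bijective _ (twI_bijective H) (fun x => classInner (fun c : ↥C => (χ : G → ℂ) c) ((twI r x.1 x.2.1 : IrrCharacter C) : ↥C → ℂ) *
    ((twI r x.1 x.2.1 : IrrCharacter C) : ↥C → ℂ) 1) _ (fun x => rfl), Fintype.sum_prod_type_right] at h1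
  have h2 : ∀ (θ : Th P C) (f : ↥P →* ℂˣ), classInner (fun c : ↥C => (χ : G → ℂ) c) ((twI r f θ.1 : IrrCharacter C) : ↥C → ℂ) *
      ((twI r f θ.1 : IrrCharacter C) : ↥C → ℂ) 1 = (((charDegree (θ.1 : ↥C → ℂ) : ℤ) * (a θ.1 f χ : ℤ) : ℤ) : ℂ) := by
    intro θ f
    rw [twI_coe, ← classInner_conj_symm, ha, Complex.conj_natCast]
    simp only [tw_apply, map_one, Units.val_one, one_mul]
    rw [Cfsg.Agent.Lib.CharKernel.one_eq_charDegree (IsIrrCharacter.isCharacter θ.1.2)]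
    push_cast
    ring
  simp_rw [h2] at h1
  simp only [← Int.cast_sum, ← Finset.mul_sum] at h1
  have h3 : (χ : G → ℂ) ((1 : ↥C) : G) = (charDegree (χ : G → ℂ) : ℂ) := by
    rw [Subgroup.coe_one, Cfsg.Agent.Lib.CharKernel.one_eq_charDegree (IsIrrCharacter.isCharacter χ.2)]
  rw [h3] at h1
  exact_mod_cast h1

end Act

section Deg

variable (H : Cfsg.Agent.Lib.TICent.Hyp p P C r e₀) [Fintype C] {M : Ideal AlgInt}
include H

theorem card_NT [Fintype (NT P)] (hcard : Nat.card P = p) : (Fintype.card (NT P) : ℤ) = (p : ℤ) - 1 := by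
  classical
  have hc : ∀ u ∈ P, ∀ v ∈ P, u * v = v * u := fun u hu v hv => (H.comm_P hu hv).symm
  haveI : Finite (↥P →* ℂˣ) := dual_finite hc
  letI : Fintype (↥P →* ℂˣ) := Fintype.ofFinite _
  have h2 : ∑ f : ↥P →* ℂˣ, (1 : ℤ) = 1 + ∑ f : NT P, (1 : ℤ) := by
    convert Fintype.sum_eq_add_sum_subtype_ne _ (1 : ↥P →* ℂˣ)
  simp only [Finset.sum_const, Finset.card_univ, nsmul_eq_mul, mul_one] at h2
  rw [← Nat.card_eq_fintype_card (α := ↥P →* ℂˣ), card_dual hc, hcard] at h2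
  linarith

/-- The degree congruence. -/
theorem deg_modEq [Fintype (↥P →* ℂˣ)] [Fintype (NT P)] [Fintype (Th P C)] (hcard : Nat.card P = p)
    {a : IrrCharacter C → (↥P →* ℂˣ) → IrrCharacter G → ℕ}
    (ha : ∀ (θ : IrrCharacter C) (f : ↥P →* ℂˣ) (χ : IrrCharacter G),
      classInner (tw r f θ) (fun c : ↥C => (χ : G → ℂ) c) = (a θ f χ : ℂ)) (χ : IrrCharacter G) :
    (charDegree (χ : G → ℂ) : ℤ) ≡ ∑ θ : Th P C, (charDegree (θ.1 : ↥C → ℂ) : ℤ) *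
      ∑ f : NT P, ((a θ.1 f.1 χ : ℤ) - a θ.1 1 χ) [ZMOD p] := by
  classical
  rw [deg_eq_sum H ha χ]
  apply Int.ModEq.symm
  rw [Int.modEq_iff_dvd, ← Finset.sum_sub_distrib]
  apply Finset.dvd_sum
  intro θ _
  rw [← mul_sub]
  apply Dvd.dvd.mul_left
  have h2 : ∑ f : ↥P →* ℂˣ, (a θ.1 f χ : ℤ) = (a θ.1 1 χ : ℤ) + ∑ f : NT P, (a θ.1 f.1 χ : ℤ) := by
    convert Fintype.sum_eq_add_sum_subtype_ne _ (1 : ↥P →* ℂˣ)
  rw [h2, Finset.sum_sub_distrib]
  simp only [Finset.sum_const, Finset.card_univ, nsmul_eq_mul]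
  rw [card_NT H hcard]
  exact ⟨(a θ.1 1 χ : ℤ), by ring⟩

theorem smul_one_dual (x : normalizer (P : Set G)) : x • (1 : ↥P →* ℂˣ) = 1 := by
  ext z
  simp [DefectOne.smul_apply]

/-- The differences are constant along the orbits. -/
theorem a_smul_act {a : IrrCharacter C → (↥P →* ℂˣ) → IrrCharacter G → ℕ}
    (ha : ∀ (θ : IrrCharacter C) (f : ↥P →* ℂˣ) (χ : IrrCharacter G),
      classInner (tw r f θ) (fun c : ↥C => (χ : G → ℂ) c) = (a θ f χ : ℂ)) (χ : IrrCharacter G)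
    (x : normalizer (P : Set G)) {θ θ' : IrrCharacter C} (hθ' : (θ' : ↥C → ℂ) = cjT H x θ) (f : ↥P →* ℂˣ) :
    a θ' (x • f) χ = a θ f χ := by
  have h1 := inner_tw_smul H x f θ (isClassFunction_of_isCharacter (IsIrrCharacter.isCharacter χ.2))
  rw [← hθ', ha, ha] at h1
  exact_mod_cast h1

theorem sum_NT_smul [Fintype (NT P)] {a : IrrCharacter C → (↥P →* ℂˣ) → IrrCharacter G → ℕ}
    (ha : ∀ (θ : IrrCharacter C) (f : ↥P →* ℂˣ) (χ : IrrCharacter G),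
      classInner (tw r f θ) (fun c : ↥C => (χ : G → ℂ) c) = (a θ f χ : ℂ)) (χ : IrrCharacter G)
    (x : normalizer (P : Set G)) {θ θ' : IrrCharacter C} (hθ' : (θ' : ↥C → ℂ) = cjT H x θ) :
    ∑ f : NT P, ((a θ' f.1 χ : ℤ) - a θ' 1 χ) = ∑ f : NT P, ((a θ f.1 χ : ℤ) - a θ 1 χ) := by
  symm
  refine Fintype.sum_bijective (fun f : NT P => x • f) (MulAction.bijective x) _ _ fun f => ?_
  have h1 := a_smul_act H ha χ x hθ' f.1
  have h2 := a_smul_act H ha χ x hθ' 1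
  rw [smul_one_dual H] at h2
  rw [h2, ntAction_coe, h1]

/-- Only the orbit of `θ₀` matters. -/
theorem sum_orbit [Fintype (NT P)] [Fintype (Th P C)] (hM : IsPModular p M) {B : Set (IrrCharacter G)} (hB : IsPBlock M B)
    (hBP : IsDefectGroup p M B P) (θ₀ : Th P C)
    (hind : IsInducedBlock M C (blockOf M (θ₀.1 : ↥C → ℂ)) B) {a : IrrCharacter C → (↥P →* ℂˣ) → IrrCharacter G → ℕ}
    (ha : ∀ (θ : IrrCharacter C) (f : ↥P →* ℂˣ) (χ : IrrCharacter G),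
      classInner (tw r f θ) (fun c : ↥C => (χ : G → ℂ) c) = (a θ f χ : ℂ)) {χ : IrrCharacter G} (hχ : χ ∈ B) :
    letI := actTh H
    ∑ θ : Th P C, (charDegree (θ.1 : ↥C → ℂ) : ℤ) * ∑ f : NT P, ((a θ.1 f.1 χ : ℤ) - a θ.1 1 χ) =
      (Nat.card (MulAction.orbit (normalizer (P : Set G)) θ₀) : ℤ) *
        ((charDegree (θ₀.1 : ↥C → ℂ) : ℤ) * ∑ f : NT P, ((a θ₀.1 f.1 χ : ℤ) - a θ₀.1 1 χ)) := by
  classical
  letI := actTh H
  haveI : Fact p.Prime := ⟨H.prime⟩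
  haveI := isPrime_of_isPModular hM
  have h1 : ∀ θ : Th P C, θ ∉ MulAction.orbit (normalizer (P : Set G)) θ₀ → ∑ f : NT P, ((a θ.1 f.1 χ : ℤ) - a θ.1 1 χ) = 0 := by
    intro θ hθ
    obtain ⟨B', hB'⟩ := Cfsg.Agent.Lib.BlockSecond.exists_isInducedBlock_centralizer hM H.pgroup H.cen.symm
      (e := blockOf M (θ.1 : ↥C → ℂ)) ⟨θ.1, rfl⟩
    have hχ' : χ ∉ B' := by
      intro hχ'
      have h2 : B' = B := by
        rcases eq_or_disjoint_of_isPBlock hB'.2.1 hB with h2 | h2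
        · exact h2
        · exact absurd hχ (Set.disjoint_left.1 h2 hχ')
      rw [h2] at hB'
      obtain ⟨x, hx⟩ := exists_conj_of_same H hM hB hBP θ₀.2 θ.2 hind hB'
      exact hθ ⟨x, Subtype.ext (Subtype.ext hx.symm)⟩
    apply Finset.sum_eq_zero
    intro f _
    have h3 := inner_tw_eq_of_not_mem H hM θ.2 hB' hχ' f.1
    have h4 := ha θ.1 1 χ
    rw [tw_one] at h4
    rw [ha, h4] at h3
    have h5 : a θ.1 f.1 χ = a θ.1 1 χ := by exact_mod_cast h3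
    rw [h5, sub_self]
  have h2 : ∀ θ : Th P C, θ ∈ MulAction.orbit (normalizer (P : Set G)) θ₀ →
      (charDegree (θ.1 : ↥C → ℂ) : ℤ) * ∑ f : NT P, ((a θ.1 f.1 χ : ℤ) - a θ.1 1 χ) =
        (charDegree (θ₀.1 : ↥C → ℂ) : ℤ) * ∑ f : NT P, ((a θ₀.1 f.1 χ : ℤ) - a θ₀.1 1 χ) := by
    rintro θ ⟨x, rfl⟩
    have h3 : ((((x • θ₀ : Th P C).1 : IrrCharacter C)) : ↥C → ℂ) = cjT H x θ₀.1 := rfl
    rw [sum_NT_smul H ha χ x h3]
    congr 2
    unfold charDegree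
    rw [h3]
    show ⌊((θ₀.1 : ↥C → ℂ) (H.cjC x 1)).re⌋₊ = _
    have h4 : H.cjC x 1 = 1 := Subtype.ext (by simp)
    rw [h4]
  have h3 : ∀ θ : Th P C, (charDegree (θ.1 : ↥C → ℂ) : ℤ) * ∑ f : NT P, ((a θ.1 f.1 χ : ℤ) - a θ.1 1 χ) =
      if θ ∈ MulAction.orbit (normalizer (P : Set G)) θ₀ then (charDegree (θ₀.1 : ↥C → ℂ) : ℤ) * ∑ f : NT P, ((a θ₀.1 f.1 χ : ℤ) - a θ₀.1 1 χ) else 0 := by
    intro θ
    split_ifs with h4
    · exact h2 θ h4
    · rw [h1 θ h4, mul_zero]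
  rw [Finset.sum_congr rfl (fun θ _ => h3 θ), ← Finset.sum_filter, Finset.sum_const, nsmul_eq_mul]
  congr 2
  rw [Nat.card_eq_fintype_card, Fintype.card_subtype]

/-- Flatness in terms of the multiplicities. -/
theorem flat_iff {a : (↥P →* ℂˣ) → IrrCharacter G → ℕ} {θ : ↥C → ℂ}
    (ha : ∀ (f : ↥P →* ℂˣ) (χ : IrrCharacter G), classInner (tw r f θ) (fun c : ↥C => (χ : G → ℂ) c) = (a f χ : ℂ))
    (χ : IrrCharacter G) : Flat r θ (χ : G → ℂ) ↔ ∀ f, a f χ = a 1 χ := by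
  have h4 := ha 1 χ
  rw [tw_one] at h4
  constructor
  · intro h f
    have := h f
    rw [ha, h4] at this
    exact_mod_cast this
  · intro h f
    rw [ha, h4, h f]

/-- **The structure of a block with defect group `P`**. -/
theorem block_struct [Fintype (NT P)] (hcard : Nat.card P = p) (hidx : ¬ p ∣ P.index) (hM : IsPModular p M) {B : Set (IrrCharacter G)} (hB : IsPBlock M B)
    (hBP : IsDefectGroup p M B P) (θ : Th P C) (hind : IsInducedBlock M C (blockOf M (θ.1 : ↥C → ℂ)) B)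
    {e f₀ : ℕ} (hT : Nat.card (stabT H (θ.1 : ↥C → ℂ)) = Nat.card C * e) (hN : Nat.card (normalizer (P : Set G)) = Nat.card C * f₀)
    {a : IrrCharacter C → (↥P →* ℂˣ) → IrrCharacter G → ℕ}
    (ha : ∀ (θ : IrrCharacter C) (f : ↥P →* ℂˣ) (χ : IrrCharacter G),
      classInner (tw r f θ) (fun c : ↥C => (χ : G → ℂ) c) = (a θ f χ : ℂ)) :
    ∃ (w : IrrCharacter G → ℤ) (σ : ℤ) (ξ : NT P → IrrCharacter G) (n : ℕ),
      (σ = 1 ∨ σ = -1) ∧
      (∀ (f : NT P) (χ : IrrCharacter G), (a θ.1 f.1 χ : ℤ) - a θ.1 1 χ = w χ + σ * (if χ = ξ f then 1 else 0)) ∧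
      (∀ f, w (ξ f) = 0) ∧ (∀ f g : NT P, ξ f = ξ g ↔ ∃ x : stabT H (θ.1 : ↥C → ℂ), x • f = g) ∧
      (∑ χ, (w χ) ^ 2 = e) ∧ (∀ χ, w χ = 0 ∨ w χ = 1 ∨ w χ = -1) ∧
      (∀ (f : NT P) (g : G), ¬ p ∣ orderOf g →
        ∑ χ : IrrCharacter G, (w χ : ℂ) * (χ : G → ℂ) g + (σ : ℂ) * ((ξ f : IrrCharacter G) : G → ℂ) g = 0) ∧
      Nat.card (Set.range ξ) * e = p - 1 ∧
      (∀ χ, χ ∈ B ↔ (w χ ≠ 0 ∨ χ ∈ Set.range ξ)) ∧ n * e = f₀ ∧
      (∀ χ, w χ ≠ 0 → (charDegree (χ : G → ℂ) : ℤ) ≡ - w χ * ((n : ℤ) * charDegree (θ.1 : ↥C → ℂ)) [ZMOD p]) ∧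
      (∀ χ ∈ Set.range ξ, (charDegree (χ : G → ℂ) : ℤ) ≡ σ * ((e : ℤ) * ((n : ℤ) * charDegree (θ.1 : ↥C → ℂ))) [ZMOD p]) := by
  classical
  haveI : Fact p.Prime := ⟨H.prime⟩
  have hc : ∀ u ∈ P, ∀ v ∈ P, u * v = v * u := fun u hu v hv => (H.comm_P hu hv).symm
  haveI : Finite (↥P →* ℂˣ) := dual_finite hc
  letI : Fintype (↥P →* ℂˣ) := Fintype.ofFinite _
  letI : Fintype (Th P C) := Fintype.ofFinite _
  obtain ⟨w, σ, ξ, hσ, hrel, hw0, hξ, hsum, hval, hreg, hcd⟩ := struct_θ H (M := M) hcard hidx hM θ.1.2 θ.2 hT (ha θ.1)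
  have hpne : (↥P →* ℂˣ) ≠ PEmpty → True := fun _ => trivial
  -- a nontrivial character
  obtain ⟨f₁⟩ : Nonempty (NT P) := by
    have h1 : Nat.card (↥P →* ℂˣ) = p := by rw [card_dual hc, hcard]
    have h2 : Nontrivial (↥P →* ℂˣ) := by
      rw [← Finite.one_lt_card_iff_nontrivial, h1]
      exact H.prime.one_lt
    obtain ⟨f, hf⟩ := exists_ne (1 : ↥P →* ℂˣ)
    exact ⟨⟨f, hf⟩⟩
  have hσ0 : σ ≠ 0 := by rcases hσ with rfl | rfl <;> norm_num
  have hflat : ∀ χ : IrrCharacter G, ¬ Flat r (θ.1 : ↥C → ℂ) (χ : G → ℂ) ↔ (w χ ≠ 0 ∨ χ ∈ Set.range ξ) := by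
    intro χ
    rw [flat_iff H (ha θ.1) χ]
    constructor
    · intro h
      push Not at h
      obtain ⟨f, hf⟩ := h
      have hf1 : f ≠ 1 := by
        rintro rfl
        exact hf rfl
      have h1 := hrel ⟨f, hf1⟩ χ
      by_contra h2
      push Not at h2
      have h3 : χ ≠ ξ ⟨f, hf1⟩ := fun h4 => h2.2 ⟨_, h4.symm⟩
      rw [if_neg h3, h2.1] at h1
      apply hf
      have h5 : (a θ.1 f χ : ℤ) = a θ.1 1 χ := by linarith
      exact_mod_cast h5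
    · rintro h h2
      rcases h with h | ⟨f, rfl⟩
      · have h3 := hrel f₁ χ
        have h4 : χ ≠ ξ f₁ := by
          rintro rfl
          exact h (hw0 f₁)
        rw [if_neg h4, h2 f₁.1] at h3
        apply h
        linarith
      · have h3 := hrel f (ξ f)
        rw [if_pos rfl, h2 f.1, hw0 f] at h3
        apply hσ0
        linarith
  have hmem : ∀ χ, χ ∈ B ↔ (w χ ≠ 0 ∨ χ ∈ Set.range ξ) := by
    intro χ
    rw [← hflat χ]
    apply mem_iff_not_flat H hcard hidx hM hB hBP θ.2 hind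
    exact ⟨ξ f₁, (hflat _).2 (Or.inr ⟨f₁, rfl⟩)⟩
  letI := actTh H
  set n := Nat.card (MulAction.orbit (normalizer (P : Set G)) θ) with hn
  have hne : n * e = f₀ := by
    have h1 := card_orbit_mul H θ
    rw [hT, hN] at h1
    have h2 : Nat.card C * (n * e) = Nat.card C * f₀ := by
      rw [← h1, hn]
      ring
    exact Nat.eq_of_mul_eq_mul_left Nat.card_pos h2
  have hdeg : ∀ χ, χ ∈ B → (charDegree (χ : G → ℂ) : ℤ) ≡ (n : ℤ) *
      ((charDegree (θ.1 : ↥C → ℂ) : ℤ) * ∑ f : NT P, ((a θ.1 f.1 χ : ℤ) - a θ.1 1 χ)) [ZMOD p] := by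
    intro χ hχ
    have h1 := deg_modEq H hcard ha χ
    rw [sum_orbit H hM hB hBP θ hind ha hχ] at h1
    exact h1
  refine ⟨w, σ, ξ, n, hσ, hrel, hw0, hξ, hsum, hval, hreg, hcd, hmem, hne, ?_, ?_⟩
  · intro χ hχ
    have h1 := hdeg χ ((hmem χ).2 (Or.inl hχ))
    have h2 : ∑ f : NT P, ((a θ.1 f.1 χ : ℤ) - a θ.1 1 χ) = ((p : ℤ) - 1) * w χ := by
      have h3 : ∀ f : NT P, (a θ.1 f.1 χ : ℤ) - a θ.1 1 χ = w χ := by
        intro f
        have h4 : χ ≠ ξ f := by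
          rintro rfl
          exact hχ (hw0 f)
        rw [hrel f χ, if_neg h4, mul_zero, add_zero]
      simp_rw [h3]
      rw [Finset.sum_const, Finset.card_univ, nsmul_eq_mul, card_NT H hcard]
    rw [h2] at h1
    refine h1.trans ?_
    rw [Int.modEq_iff_dvd]
    exact ⟨-(n : ℤ) * charDegree (θ.1 : ↥C → ℂ) * w χ, by ring⟩
  · rintro χ ⟨f₂, rfl⟩
    have h1 := hdeg _ ((hmem _).2 (Or.inr ⟨f₂, rfl⟩))
    have h2 : ∑ f : NT P, ((a θ.1 f.1 (ξ f₂) : ℤ) - a θ.1 1 (ξ f₂)) = σ * e := by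
      have h3 : ∀ f : NT P, (a θ.1 f.1 (ξ f₂) : ℤ) - a θ.1 1 (ξ f₂) = if f ∈ MulAction.orbit ↥(stabT H (θ.1 : ↥C → ℂ)) f₂ then σ else 0 := by
        intro f
        rw [hrel f, hw0 f₂, zero_add]
        by_cases h4 : f ∈ MulAction.orbit ↥(stabT H (θ.1 : ↥C → ℂ)) f₂
        · rw [if_pos h4, if_pos, mul_one]
          obtain ⟨x, hx⟩ := h4
          exact (hξ f₂ f).2 ⟨x, hx⟩
        · rw [if_neg h4, if_neg, mul_zero]
          intro h5
          obtain ⟨x, hx⟩ := (hξ f₂ f).1 h5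
          exact h4 ⟨x, hx⟩
      simp_rw [h3]
      rw [← Finset.sum_filter, Finset.sum_const, nsmul_eq_mul, mul_comm]
      congr 2
      have hcl : IsClassFunction C (θ.1 : ↥C → ℂ) := isClassFunction_of_isCharacter (IsIrrCharacter.isCharacter θ.1.2)
      have h5 := card_orbit_T H hcl hT f₂
      rw [← h5, Nat.card_eq_fintype_card, Fintype.card_subtype]
    rw [h2] at h1
    refine h1.trans ?_
    have h6 : (n : ℤ) * ((charDegree (θ.1 : ↥C → ℂ) : ℤ) * (σ * e)) = σ * ((e : ℤ) * ((n : ℤ) * charDegree (θ.1 : ↥C → ℂ))) := by ring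
    rw [h6]

end Deg

end Cfsg.Agent.Lib.DefOneH
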