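import Mathlib
import Cfsg.Agent.Lib.DefOneH
import Cfsg.Agent.Lib.BlockGal
import Cfsg.Agent.Lib.ComplexAut
import Cfsg.Agent.Lib.CharGalois

/-!
# Field automorphisms and power maps on the characters in defect one
-/

set_option autoImplicit false
set_option linter.style.haveILetI false
set_option linter.unusedSectionVars false
set_option linter.unusedVariables false

namespace Cfsg.Agent.Lib.DefOneI

open Cfsg Cfsg.Agent.Lib.CharBasic Subgroup Cfsg.Agent.Lib.DefectOne Cfsg.Agent.Lib.BlkBasic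
open Cfsg.Agent.Lib.TICent Cfsg.Agent.Lib.DefOneC Cfsg.Agent.Lib.DefOneE Cfsg.Agent.Lib.DefOneF Cfsg.Agent.Lib.DefOneG
open Cfsg.Agent.Lib.DefOneH Cfsg.Agent.Lib.BlockGal
open Cfsg.Agent.Lib.BlockIdem Cfsg.Agent.Lib.BlockLocal
open scoped ComplexConjugate

section Field

/-- A field automorphism of `ℂ` acts on the `N`-th roots of unity as a power map. -/
theorem exists_pow_of_ringEquiv {N : ℕ} (hN : 0 < N) (σ : ℂ ≃+* ℂ) :
    ∃ k : ℕ, k.Coprime N ∧ ∀ z : ℂ, z ^ N = 1 → σ z = z ^ k := by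
  haveI : NeZero N := ⟨hN.ne'⟩
  have hω := Complex.isPrimitiveRoot_exp N hN.ne'
  set ω := Complex.exp (2 * Real.pi * Complex.I / N) with hωdef
  have h1 : IsPrimitiveRoot (σ ω) N := hω.map_of_injective σ.injective
  obtain ⟨k, -, hk⟩ := hω.eq_pow_of_pow_eq_one h1.pow_eq_one
  have h2 : k.Coprime N := by
    rw [← hω.pow_iff_coprime hN, hk]
    exact h1
  refine ⟨k, h2, fun z hz => ?_⟩
  obtain ⟨j, -, rfl⟩ := hω.eq_pow_of_pow_eq_one hz
  rw [map_pow, ← hk, ← pow_mul, ← pow_mul, mul_comm]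

variable {G : Type*} [Group G] [Finite G]

/-- A field automorphism on a character as a power map. -/
theorem ringEquiv_char {χ : G → ℂ} (hχ : IsCharacter G χ) {σ : ℂ ≃+* ℂ} {k : ℕ}
    (hk : ∀ z : ℂ, z ^ Nat.card G = 1 → σ z = z ^ k) (g : G) : σ (χ g) = χ (g ^ k) := by
  obtain ⟨m, μ, h1, h2⟩ := Cfsg.Agent.Lib.CharGalois.exists_roots hχ g
  have h3 := h2 1
  rw [pow_one] at h3
  rw [h3, h2 k, map_sum]
  refine Finset.sum_congr rfl fun i _ => ?_
  rw [pow_one, hk _ (h1 i)]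

end Field

variable {G : Type*} [Group G] [Fintype G] {p : ℕ} {P C : Subgroup G} {r : ↥C →* ↥P} {e₀ : ℕ}

section Pow

variable (H : Cfsg.Agent.Lib.TICent.Hyp p P C r e₀) [Fintype C] {k : ℕ}
include H

/-- Characters with `P` in the kernel are fixed by the power map. -/
theorem theta_pow (hk1 : ∀ y : G, ¬ p ∣ orderOf y → y ^ k = y) {θ : ↥C → ℂ} (hθ : IsIrrCharacter C θ) (hkP : KerP P C θ) (c : ↥C) :
    θ (c ^ k) = θ c := by
  letI : Fintype P := Fintype.ofFinite _
  letI : Fintype r.ker := Fintype.ofFinite _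
  set z := r c with hz
  set y : ↥C := (H.inP z)⁻¹ * c with hy
  have hry : r y = 1 := by
    rw [hy, map_mul, map_inv, H.r_inP, inv_mul_cancel]
  have hc : c = H.inP z * y := by
    rw [hy, mul_inv_cancel_left]
  have hcomm : Commute (H.inP z) y := inP_central H z y
  have hyk : y ^ k = y := by
    apply Subtype.ext
    rw [Subgroup.coe_pow]
    apply hk1
    rw [Subgroup.orderOf_coe]
    exact H.not_dvd_order hry
  have hpow : c ^ k = H.inP (z ^ k) * y := by
    rw [hc, hcomm.mul_pow, hyk]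
    congr 1
  have h2 : ∀ w : ↥P, θ (H.inP w * y) = θ y := by
    intro w
    rw [inP_central H]
    exact Cfsg.Agent.Lib.CharKernel.char_mul_of_mem_ker (IsIrrCharacter.isCharacter hθ) (hkP (H.inP w) w.2)
  rw [hpow, h2]
  conv_rhs => rw [hc]
  rw [h2]

/-- Power maps on the multiplicities. -/
theorem inner_pow (hkG : (Nat.card G).Coprime k) (hk1 : ∀ y : G, ¬ p ∣ orderOf y → y ^ k = y) {θ : ↥C → ℂ} (hθ : IsIrrCharacter C θ) (hkP : KerP P C θ)
    (f : ↥P →* ℂˣ) (χ : IrrCharacter G) :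
    classInner (tw r (f ^ k) θ) (fun c : ↥C => ((powIrr hkG χ : IrrCharacter G) : G → ℂ) c) =
      classInner (tw r f θ) (fun c : ↥C => (χ : G → ℂ) c) := by
  have hkC : (Nat.card C).Coprime k :=
    Nat.Coprime.coprime_dvd_left (Subgroup.card_subgroup_dvd_card C) hkG
  unfold classInner
  congr 1
  refine Fintype.sum_equiv (powCoprime hkC) _ _ fun c => ?_
  have h1 : powCoprime hkC c = c ^ k := rfl
  rw [h1]
  simp only [powIrr_apply, tw_apply, MonoidHom.pow_apply, Units.val_pow_eq_pow_val, map_pow, Subgroup.coe_pow, theta_pow H hk1 hθ hkP]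

/-- Equality of characters from the data of `C` and the `p`-regular values. -/
theorem eq_of_same (hcard : Nat.card P = p) (hidx : ¬ p ∣ P.index) {χ₁ χ₂ : IrrCharacter G} (hreg : ∀ g : G, ¬ p ∣ orderOf g → (χ₁ : G → ℂ) g = (χ₂ : G → ℂ) g)
    (hC : ∀ (θ : Th P C) (f : ↥P →* ℂˣ), classInner (tw r f θ.1) (fun c : ↥C => (χ₁ : G → ℂ) c) =
      classInner (tw r f θ.1) (fun c : ↥C => (χ₂ : G → ℂ) c)) : χ₁ = χ₂ := by
  classical
  have hcl1 : IsClassFunction C (fun c : ↥C => (χ₁ : G → ℂ) c) :=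
    isClassFunction_of_isCharacter (isCharacter_restrict C (IsIrrCharacter.isCharacter χ₁.2))
  have hcl2 : IsClassFunction C (fun c : ↥C => (χ₂ : G → ℂ) c) :=
    isClassFunction_of_isCharacter (isCharacter_restrict C (IsIrrCharacter.isCharacter χ₂.2))
  have hD : (fun c : ↥C => (χ₁ : G → ℂ) c) - (fun c : ↥C => (χ₂ : G → ℂ) c) = 0 := by
    have hcl : IsClassFunction C ((fun c : ↥C => (χ₁ : G → ℂ) c) - (fun c : ↥C => (χ₂ : G → ℂ) c)) := by
      intro c d
      have h1 : (χ₁ : G → ℂ) ((d * c * d⁻¹ : ↥C) : G) = (χ₁ : G → ℂ) c := hcl1 c d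
      have h2 : (χ₂ : G → ℂ) ((d * c * d⁻¹ : ↥C) : G) = (χ₂ : G → ℂ) c := hcl2 c d
      simp only [Pi.sub_apply]
      rw [h1, h2]
    apply eq_zero_of_orthogonal hcl
    intro τ
    obtain ⟨f, θ, hθ, hk, hτ⟩ := exists_tw H τ.2
    rw [classInner_sub_left, hτ, ← classInner_conj_symm (tw r f θ), ← classInner_conj_symm (tw r f θ)]
    rw [hC ⟨⟨θ, hθ⟩, hk⟩ f, sub_self]
  apply Subtype.ext
  funext g
  by_cases hg : p ∣ orderOf g
  · obtain ⟨t, c, hc, -⟩ := exists_conj_of_dvd H hcard hidx hg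
    have h1 := congrFun hD c
    simp only [Pi.sub_apply, Pi.zero_apply] at h1
    rw [← isClassFunction_of_isCharacter (IsIrrCharacter.isCharacter χ₁.2) g t,
      ← isClassFunction_of_isCharacter (IsIrrCharacter.isCharacter χ₂.2) g t, ← hc]
    exact sub_eq_zero.1 h1
  · exact hreg g hg

/-- If all multiplicities are constant outside the trivial character, the power map fixes `χ`. -/
theorem powIrr_eq_of_const (hcard : Nat.card P = p) (hidx : ¬ p ∣ P.index) (hkG : (Nat.card G).Coprime k) (hk1 : ∀ y : G, ¬ p ∣ orderOf y → y ^ k = y)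
    {χ : IrrCharacter G} (hconst : ∀ (θ : Th P C) (f₁ f₂ : NT P), classInner (tw r f₁.1 θ.1) (fun c : ↥C => (χ : G → ℂ) c) =
      classInner (tw r f₂.1 θ.1) (fun c : ↥C => (χ : G → ℂ) c)) : powIrr hkG χ = χ := by
  classical
  have hc : ∀ u ∈ P, ∀ v ∈ P, u * v = v * u := fun u hu v hv => (H.comm_P hu hv).symm
  haveI : Finite (↥P →* ℂˣ) := dual_finite hc
  have hkD : (Nat.card (↥P →* ℂˣ)).Coprime k := by
    rw [card_dual hc]
    exact Nat.Coprime.coprime_dvd_left (Subgroup.card_subgroup_dvd_card P) hkG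
  apply eq_of_same H hcard hidx
  · intro g hg
    rw [powIrr_apply, hk1 g hg]
  · intro θ f
    have hf₁ : (powCoprime hkD).symm f ^ k = f := (powCoprime hkD).apply_symm_apply f
    set f₁ := (powCoprime hkD).symm f with hf₁def
    have h1 := inner_pow H hkG hk1 θ.1.2 θ.2 f₁ χ
    rw [hf₁] at h1
    rw [h1]
    by_cases hf : f = 1
    · have h2 : f₁ = 1 := by
        apply (powCoprime hkD).injective
        have e1 : powCoprime hkD f₁ = f := hf₁
        have e2 : powCoprime hkD (1 : ↥P →* ℂˣ) = 1 := by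
          have e3 : (1 : ↥P →* ℂˣ) ^ k = 1 := by
            ext z
            simp
          exact e3
        rw [e1, e2, hf]
      rw [h2, hf]
    · have h2 : f₁ ≠ 1 := by
        intro h3
        have e3 : (1 : ↥P →* ℂˣ) ^ k = 1 := by
            ext z
            simp
        rw [h3, e3] at hf₁
        exact hf hf₁.symm
      exact hconst θ ⟨f₁, h2⟩ ⟨f, hf⟩

/-- Constancy at `θ₀` propagates to all `θ`. -/
theorem const_all {M : Ideal AlgInt} (hM : IsPModular p M) {B : Set (IrrCharacter G)} (hB : IsPBlock M B)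
    (hBP : IsDefectGroup p M B P) (θ₀ : Th P C) (hind : IsInducedBlock M C (blockOf M (θ₀.1 : ↥C → ℂ)) B)
    {χ : IrrCharacter G} (hχ : χ ∈ B)
    (h : ∀ f₁ f₂ : NT P, classInner (tw r f₁.1 θ₀.1) (fun c : ↥C => (χ : G → ℂ) c) =
      classInner (tw r f₂.1 θ₀.1) (fun c : ↥C => (χ : G → ℂ) c)) (θ : Th P C) (f₁ f₂ : NT P) :
    classInner (tw r f₁.1 θ.1) (fun c : ↥C => (χ : G → ℂ) c) =
      classInner (tw r f₂.1 θ.1) (fun c : ↥C => (χ : G → ℂ) c) := by
  classical
  haveI : Fact p.Prime := ⟨H.prime⟩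
  haveI := isPrime_of_isPModular hM
  obtain ⟨B', hB'⟩ := Cfsg.Agent.Lib.BlockSecond.exists_isInducedBlock_centralizer hM H.pgroup H.cen.symm
    (e := blockOf M (θ.1 : ↥C → ℂ)) ⟨θ.1, rfl⟩
  by_cases hχ' : χ ∈ B'
  · have h2 : B' = B := by
      rcases eq_or_disjoint_of_isPBlock hB'.2.1 hB with h2 | h2
      · exact h2
      · exact absurd hχ (Set.disjoint_left.1 h2 hχ')
    rw [h2] at hB'
    obtain ⟨x, hx⟩ := exists_conj_of_same H hM hB hBP θ₀.2 θ.2 hind hB'
    have hcl := isClassFunction_of_isCharacter (IsIrrCharacter.isCharacter χ.2)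
    have key : ∀ f : NT P, classInner (tw r f.1 θ.1) (fun c : ↥C => (χ : G → ℂ) c) =
        classInner (tw r (x⁻¹ • f).1 θ₀.1) (fun c : ↥C => (χ : G → ℂ) c) := by
      intro f
      have h3 := inner_tw_smul H x (x⁻¹ • f).1 θ₀.1 hcl
      have h4 : x • (x⁻¹ • f).1 = f.1 := by
        have := smul_inv_smul x f
        exact congrArg Subtype.val this
      rw [h4, ← hx] at h3
      exact h3
    rw [key f₁, key f₂]
    exact h _ _
  · rw [inner_tw_eq_of_not_mem H hM θ.2 hB' hχ' f₁.1, inner_tw_eq_of_not_mem H hM θ.2 hB' hχ' f₂.1]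

end Pow

/-- A positive defect block has a Sylow defect group, when `p` divides `|G|` once. -/
theorem exists_sylow_defect {p : ℕ} [hp : Fact p.Prime] {M : Ideal AlgInt} (hM : IsPModular p M) (hsq : ¬ p ^ 2 ∣ Nat.card G)
    {B : Set (IrrCharacter G)} (hB : IsPBlock M B) (hd : 0 < blockDefect p B) :
    ∃ S : Sylow p G, Nat.card (S : Subgroup G) = p ∧ IsDefectGroup p M B (S : Subgroup G) := by
  obtain ⟨D, hD⟩ := Cfsg.Agent.Lib.BlockDefect.exists_isDefectGroup hM hB
  have hcD := Cfsg.Agent.Lib.BlockDefect.card_isDefectGroup hM hB hD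
  have hdv : Nat.card D ∣ Nat.card G := Subgroup.card_subgroup_dvd_card D
  have hd1 : blockDefect p B = 1 := by
    by_contra h
    have h2 : 2 ≤ blockDefect p B := by omega
    apply hsq
    refine dvd_trans (pow_dvd_pow p h2) ?_
    rw [← hcD]
    exact hdv
  rw [hd1, pow_one] at hcD
  have hDp : IsPGroup p D := IsPGroup.of_card (n := 1) (by rw [hcD, pow_one])
  have hidx : ¬ p ∣ D.index := by
    intro h
    apply hsq
    have h1 := Subgroup.card_mul_index D
    rw [hcD] at h1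
    rw [← h1, pow_two]
    exact mul_dvd_mul_left p h
  refine ⟨hDp.toSylow hidx, ?_, ?_⟩
  · rw [IsPGroup.toSylow_coe]
    exact hcD
  · rw [IsPGroup.toSylow_coe]
    exact hD

section Dvd

variable (H : Cfsg.Agent.Lib.TICent.Hyp p P C r e₀) [Fintype C]
include H

theorem exists_e {θ : ↥C → ℂ} (hθ : IsClassFunction C θ) : ∃ e : ℕ, Nat.card (stabT H θ) = Nat.card C * e := by
  have h1 : C.subgroupOf (normalizer (P : Set G)) ≤ stabT H θ := by
    intro x hx
    exact le_stabT H hθ hx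
  have h2 : Nat.card (C.subgroupOf (normalizer (P : Set G))) = Nat.card C :=
    Nat.card_congr (Subgroup.subgroupOfEquivOfLe H.le_normalizer).toEquiv
  have h3 := Subgroup.card_dvd_of_le h1
  rw [h2] at h3
  obtain ⟨e, he⟩ := h3
  exact ⟨e, he⟩

theorem exists_f : ∃ f : ℕ, Nat.card (normalizer (P : Set G)) = Nat.card C * f := by
  obtain ⟨f, hf⟩ := Subgroup.card_dvd_of_le H.le_normalizer
  exact ⟨f, hf⟩

end Dvd


section Arith

theorem arith {N p : ℕ} (hp : p.Prime) (hdiv : p ∣ N) (hsq : ¬ p ^ 2 ∣ N) (hN : 0 < N) :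
    N.factorization p = 1 ∧ N = p * (N / p ^ N.factorization p) ∧ p.Coprime (N / p ^ N.factorization p) := by
  have h1 : N.factorization p = 1 := by
    have h2 : 1 ≤ N.factorization p := (hp.dvd_iff_one_le_factorization hN.ne').1 hdiv
    have h3 : ¬ 2 ≤ N.factorization p := fun h4 => hsq ((hp.pow_dvd_iff_le_factorization hN.ne').2 h4)
    omega
  refine ⟨h1, ?_, ?_⟩
  · rw [h1, pow_one]
    exact (Nat.mul_div_cancel' hdiv).symm
  · rw [h1, pow_one, hp.coprime_iff_not_dvd]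
    intro h2
    apply hsq
    obtain ⟨m, hm⟩ := hdiv
    obtain ⟨m', hm'⟩ := h2
    refine ⟨m', ?_⟩
    have h3 : N / p = m := by
      rw [hm]
      exact Nat.mul_div_cancel_left _ hp.pos
    rw [h3] at hm'
    rw [hm, hm', pow_two, mul_assoc]

variable {G : Type*} [Group G] [Finite G]

theorem pow_of_modEq {p g' k : ℕ} (hp : p.Prime) (hG : Nat.card G = p * g') (hk : k ≡ 1 [MOD g']) {y : G} (hy : ¬ p ∣ orderOf y) : y ^ k = y := by
  have h1 : orderOf y ∣ p * g' := by
    rw [← hG]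
    exact orderOf_dvd_natCard y
  have h2 : orderOf y ∣ g' := ((hp.coprime_iff_not_dvd.2 hy).symm).dvd_of_dvd_mul_left h1
  have h3 : k ≡ 1 [MOD orderOf y] := hk.of_dvd h2
  have h4 : y ^ k = y ^ 1 := pow_eq_pow_iff_modEq.2 h3
  rw [h4, pow_one]

/-- From a field automorphism fixing the `g'`-th roots of unity to a power map. -/
theorem from_ringEquiv {p g' : ℕ} (hp : p.Prime) (hG : Nat.card G = p * g') (σ' : ℂ ≃+* ℂ)
    (hσ' : σ' (Complex.exp (2 * Real.pi * Complex.I / (g' : ℕ))) = Complex.exp (2 * Real.pi * Complex.I / (g' : ℕ))) :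
    ∃ (k : ℕ) (hkG : (Nat.card G).Coprime k), k ≡ 1 [MOD g'] ∧ ∀ χ : IrrCharacter G,
      (fun g => σ' ((χ : G → ℂ) g)) = ((powIrr hkG χ : IrrCharacter G) : G → ℂ) := by
  have hN : 0 < Nat.card G := Nat.card_pos
  have hg0 : g' ≠ 0 := by
    rintro rfl
    rw [mul_zero] at hG
    omega
  obtain ⟨k, hkc, hk⟩ := exists_pow_of_ringEquiv hN σ'
  have hζ := Complex.isPrimitiveRoot_exp g' hg0
  set ζ := Complex.exp (2 * Real.pi * Complex.I / (g' : ℕ)) with hζdef
  have h1 : ζ ^ Nat.card G = 1 := by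
    rw [hG, mul_comm, pow_mul, hζ.pow_eq_one, one_pow]
  have h2 : ζ ^ k = ζ := by
    rw [← hk ζ h1, hσ']
  have hk0 : 1 ≤ k := by
    rcases Nat.eq_zero_or_pos k with h | h
    · rw [h, Nat.coprime_zero_left] at hkc
      rw [hG] at hkc
      exfalso
      have := Nat.eq_one_of_mul_eq_one_right hkc
      exact hp.one_lt.ne' this
    · exact h
  have h3 : ζ ^ (k - 1) = 1 := by
    have h4 : ζ ≠ 0 := hζ.ne_zero hg0
    have h5 : ζ ^ (k - 1) * ζ = 1 * ζ := by
      rw [← pow_succ, Nat.sub_add_cancel hk0, h2, one_mul]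
    exact mul_right_cancel₀ h4 h5
  have h4 : g' ∣ k - 1 := hζ.dvd_of_pow_eq_one _ h3
  have h5 : k ≡ 1 [MOD g'] := ((Nat.modEq_iff_dvd' hk0).2 h4).symm
  refine ⟨k, hkc.symm, h5, fun χ => ?_⟩
  funext g
  rw [powIrr_apply]
  exact ringEquiv_char (IsIrrCharacter.isCharacter χ.2) hk g

/-- From a power map to a field automorphism fixing the `g'`-th roots of unity. -/
theorem to_ringEquiv {p g' : ℕ} (hp : p.Prime) (hG : Nat.card G = p * g') {k : ℕ} (hkG : (Nat.card G).Coprime k) (hk : k ≡ 1 [MOD g']) :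
    ∃ σ' : ℂ ≃+* ℂ, σ' (Complex.exp (2 * Real.pi * Complex.I / (g' : ℕ))) = Complex.exp (2 * Real.pi * Complex.I / (g' : ℕ)) ∧
      ∀ χ : IrrCharacter G, (fun g => σ' ((χ : G → ℂ) g)) = ((powIrr hkG χ : IrrCharacter G) : G → ℂ) := by
  have hN : 0 < Nat.card G := Nat.card_pos
  have hg0 : g' ≠ 0 := by
    rintro rfl
    rw [mul_zero] at hG
    omega
  obtain ⟨σ', hσ'⟩ := Cfsg.Agent.Lib.ComplexAut.exists_ringEquiv_pow hN hkG.symm
  have hζ := Complex.isPrimitiveRoot_exp g' hg0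
  set ζ := Complex.exp (2 * Real.pi * Complex.I / (g' : ℕ)) with hζdef
  have h1 : ζ ^ Nat.card G = 1 := by
    rw [hG, mul_comm, pow_mul, hζ.pow_eq_one, one_pow]
  refine ⟨σ', ?_, fun χ => ?_⟩
  · rw [hσ' ζ h1]
    have h2 : ∀ n : ℕ, ζ ^ n = ζ ^ (n % g') := by
      intro n
      conv_lhs => rw [← Nat.mod_add_div n g', pow_add, pow_mul, hζ.pow_eq_one, one_pow, mul_one]
    rw [h2 k, hk, ← h2 1, pow_one]
  · funext g
    rw [powIrr_apply]
    exact ringEquiv_char (IsIrrCharacter.isCharacter χ.2) hσ' g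

end Arith

end Cfsg.Agent.Lib.DefOneI
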