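import Mathlib
import Cfsg.Agent.Lib.DefOneI
import Cfsg.Agent.Lib.RangeP0
import Cfsg.Agent.Lib.McKayTools

/-!
# Counting the characters of degree prime to `p` when `p` divides the order exactly once
-/

set_option autoImplicit false
set_option linter.style.haveILetI false
set_option linter.unusedSectionVars false
set_option linter.unusedVariables false

namespace Cfsg.Agent.Lib.DefOneJ

open Cfsg Cfsg.Agent.Lib.CharBasic Subgroup Cfsg.Agent.Lib.DefectOne Cfsg.Agent.Lib.BlkBasic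
open Cfsg.Agent.Lib.TICent Cfsg.Agent.Lib.DefOneC Cfsg.Agent.Lib.DefOneE Cfsg.Agent.Lib.DefOneF Cfsg.Agent.Lib.DefOneG
open Cfsg.Agent.Lib.DefOneH Cfsg.Agent.Lib.DefOneI
open Cfsg.Agent.Lib.BlockIdem Cfsg.Agent.Lib.BlockLocal
open scoped ComplexConjugate

variable {G : Type*} [Group G] [Fintype G] {p : ℕ} {P C : Subgroup G} {r : ↥C →* ↥P} {e₀ : ℕ}

/-- The contribution of a character of `C`. -/
def FF (p c s : ℕ) : ℕ := s * (s / c + (p - 1) / (s / c))

section Basic

variable (H : Cfsg.Agent.Lib.TICent.Hyp p P C r e₀) [Fintype C]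
include H

theorem not_sq_dvd (hcard : Nat.card P = p) (hidx : ¬ p ∣ P.index) : ¬ p * p ∣ Nat.card G := by
  intro h
  have h1 := Subgroup.card_mul_index P
  rw [hcard] at h1
  rw [← h1] at h
  exact hidx (Nat.dvd_of_mul_dvd_mul_left H.prime.pos h)

/-- Characters with `P` in the kernel have degree prime to `p`. -/
theorem not_dvd_deg_theta {θ : ↥C → ℂ} (hθ : IsIrrCharacter C θ) (hk : KerP P C θ) : ¬ p ∣ charDegree θ := by
  intro hdvd
  have hnorm : (P.subgroupOf C).Normal := by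
    constructor
    intro n hn g
    rw [Subgroup.mem_subgroupOf] at hn ⊢
    have h1 : g * n * g⁻¹ = n := by
      have h2 : n * g = g * n := by
        apply Subtype.ext
        exact (H.comm hn g.2).symm
      rw [← h2]
      group
    rw [h1]
    exact hn
  have h1 := Cfsg.Agent.Lib.CharKernel.charDegree_dvd_index (P.subgroupOf C) hθ (fun x hx => hk x (Subgroup.mem_subgroupOf.1 hx))
  have h2 := Subgroup.card_mul_index (P.subgroupOf C)
  have h3 : Nat.card (P.subgroupOf C) = Nat.card P := Nat.card_congr (Subgroup.subgroupOfEquivOfLe H.le).toEquiv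
  rw [h3, H.card_eq] at h2
  have h4 : (P.subgroupOf C).index = Nat.card r.ker := Nat.eq_of_mul_eq_mul_left Nat.card_pos h2
  rw [h4] at h1
  exact H.ker (dvd_trans hdvd h1)

theorem p_dvd_card_C (hcard : Nat.card P = p) : p ∣ Nat.card C := by
  rw [H.card_eq, hcard]
  exact dvd_mul_right _ _

/-- The induced block of the block of `θ` has defect group `P`. -/
theorem isDefectGroup_of_induced (hcard : Nat.card P = p) (hidx : ¬ p ∣ P.index) {M : Ideal AlgInt} (hM : IsPModular p M)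
    {B : Set (IrrCharacter G)} (θ : Th P C) (hind : IsInducedBlock M C (blockOf M (θ.1 : ↥C → ℂ)) B) :
    IsDefectGroup p M B P := by
  classical
  haveI : Fact p.Prime := ⟨H.prime⟩
  haveI := isPrime_of_isPModular hM
  have hB := hind.2.1
  have h1 : 1 ≤ blockDefect p (blockOf M (θ.1 : ↥C → ℂ)) := by
    unfold blockDefect
    have h2 : sInf ((fun χ : IrrCharacter C => (charDegree (χ : ↥C → ℂ)).factorization p) '' blockOf M (θ.1 : ↥C → ℂ)) = 0 := by
      apply Nat.eq_zero_of_le_zero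
      apply Nat.sInf_le
      refine ⟨θ.1, mem_blockOf_self θ.1, ?_⟩
      exact Nat.factorization_eq_zero_of_not_dvd (not_dvd_deg_theta H θ.1.2 θ.2)
    rw [h2, Nat.sub_zero]
    exact (H.prime.dvd_iff_one_le_factorization Nat.card_pos.ne').1 (p_dvd_card_C H hcard)
  have h2 := Cfsg.Agent.Lib.BlockDefectInd.blockDefect_le_of_isInducedBlock hM H.pgroup (by rw [H.cen]; exact H.le) H.cen.symm hind
  obtain ⟨D, hD⟩ := Cfsg.Agent.Lib.BlockDefect.exists_isDefectGroup hM hB
  have hcD := Cfsg.Agent.Lib.BlockDefect.card_isDefectGroup hM hB hD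
  have hdv : Nat.card D ∣ Nat.card G := Subgroup.card_subgroup_dvd_card D
  have hsq := not_sq_dvd H hcard hidx
  have hd1 : blockDefect p B = 1 := by
    by_contra h
    have h3 : 2 ≤ blockDefect p B := by omega
    apply hsq
    refine dvd_trans ?_ (dvd_trans (pow_dvd_pow p h3) ?_)
    · rw [pow_two]
    · rw [← hcD]
      exact hdv
  rw [hd1, pow_one] at hcD
  have hDp : IsPGroup p D := IsPGroup.of_card (n := 1) (by rw [hcD, pow_one])
  have hidxD : ¬ p ∣ D.index := by
    intro h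
    apply hsq
    have h3 := Subgroup.card_mul_index D
    rw [hcD] at h3
    rw [← h3]
    exact mul_dvd_mul_left p h
  obtain ⟨t, ht⟩ := MulAction.exists_smul_eq G (hDp.toSylow hidxD) (H.pgroup.toSylow hidx)
  have h3 := Cfsg.Agent.Lib.BlockDefect.IsDefectGroup.conj hD t
  have h4 : D.map (MulAut.conj t).toMonoidHom = P := by
    have h5 := congrArg (fun S : Sylow p G => (S : Subgroup G)) ht
    simp only [IsPGroup.toSylow_coe, Sylow.smul_def, Sylow.pointwise_smul_def] at h5
    rw [Subgroup.pointwise_smul_def] at h5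
    exact h5
  rw [h4] at h3
  exact h3

/-- Facts about the induced block. -/
theorem block_facts (hcard : Nat.card P = p) (hidx : ¬ p ∣ P.index) {M : Ideal AlgInt} (hM : IsPModular p M)
    {B : Set (IrrCharacter G)} (θ : Th P C) (hind : IsInducedBlock M C (blockOf M (θ.1 : ↥C → ℂ)) B) {e : ℕ}
    (hT : Nat.card (stabT H (θ.1 : ↥C → ℂ)) = Nat.card C * e) :
    Nat.card B = e + (p - 1) / e ∧ (∀ χ ∈ B, ¬ p ∣ charDegree (χ : G → ℂ)) ∧ ∀ χ : IrrCharacter G, χ ∈ B ↔ ¬ Flat r (θ.1 : ↥C → ℂ) (χ : G → ℂ) := by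
  classical
  haveI : Fact p.Prime := ⟨H.prime⟩
  haveI := isPrime_of_isPModular hM
  have hBP := isDefectGroup_of_induced H hcard hidx hM θ hind
  have hB := hind.2.1
  obtain ⟨f₀, hN⟩ := exists_f H
  have hex : ∀ (τ : IrrCharacter C) (g : ↥P →* ℂˣ) (χ : IrrCharacter G),
      ∃ n : ℕ, classInner (tw r g τ) (fun c : ↥C => (χ : G → ℂ) c) = n :=
    fun τ g χ => classInner_char_char (IsIrrCharacter.isCharacter (isIrr_tw g τ.2))
      (isCharacter_restrict _ (IsIrrCharacter.isCharacter χ.2))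
  choose a ha using hex
  letI : Fintype (NT P) := Fintype.ofFinite _
  obtain ⟨w, σ, ξ, n, hσ, hrel, hw0, hξ, hsum, hval, hreg, hcd, hmem, hne, hdX, hdY⟩ :=
    block_struct H hcard hidx hM hB hBP θ hind hT hN ha
  have hp := H.prime
  have hp1 : 0 < p - 1 := Nat.sub_pos_of_lt hp.one_lt
  have he0 : 0 < e := by
    rcases Nat.eq_zero_or_pos e with h | h
    · rw [h, mul_zero] at hcd
      omega
    · exact h
  have hdiv : (p - 1) / e = Nat.card (Set.range ξ) := Nat.div_eq_of_eq_mul_left he0 hcd.symm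
  have hBeq : B = {χ | w χ ≠ 0} ∪ Set.range ξ := by
    ext χ
    exact hmem χ
  have hdisj : Disjoint {χ | w χ ≠ 0} (Set.range ξ) := by
    rw [Set.disjoint_left]
    rintro χ hχ ⟨g, rfl⟩
    exact hχ (hw0 g)
  have hcX : Nat.card ({χ | w χ ≠ 0} : Set (IrrCharacter G)) = e := by
    have h1 : ∀ χ, (w χ) ^ 2 = if w χ ≠ 0 then 1 else 0 := by
      intro χ
      rcases hval χ with h | h | h <;> simp [h]
    simp_rw [h1] at hsum
    rw [Finset.sum_boole] at hsum
    have h2 : (Finset.univ.filter fun χ => w χ ≠ 0).card = e := by exact_mod_cast hsum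
    rw [← h2, Nat.card_eq_fintype_card]
    exact Fintype.card_subtype _
  have hcB : Nat.card B = e + Nat.card (Set.range ξ) := by
    rw [hBeq, Nat.card_coe_set_eq, Set.ncard_union_eq hdisj (Set.toFinite _) (Set.toFinite _),
      ← Nat.card_coe_set_eq, ← Nat.card_coe_set_eq, hcX]
  have hsq := not_sq_dvd H hcard hidx
  have hf₀ : ¬ p ∣ f₀ := by
    intro h1
    apply hsq
    have h2 : p * p ∣ Nat.card (normalizer (P : Set G)) := by
      rw [hN]
      exact mul_dvd_mul (p_dvd_card_C H hcard) h1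
    exact dvd_trans h2 (Subgroup.card_subgroup_dvd_card _)
  have hθdeg := not_dvd_deg_theta H θ.1.2 θ.2
  have hpZ : Prime (p : ℤ) := Nat.prime_iff_prime_int.1 hp
  have hn : ¬ p ∣ n := fun h1 => hf₀ (by rw [← hne]; exact Dvd.dvd.mul_right h1 _)
  have he : ¬ p ∣ e := fun h1 => hf₀ (by rw [← hne]; exact Dvd.dvd.mul_left h1 _)
  have hnZ : ¬ (p : ℤ) ∣ (n : ℤ) := by exact_mod_cast hn
  have heZ : ¬ (p : ℤ) ∣ (e : ℤ) := by exact_mod_cast he
  have hθZ : ¬ (p : ℤ) ∣ (charDegree (θ.1 : ↥C → ℂ) : ℤ) := by exact_mod_cast hθdeg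
  have hun : ∀ u : ℤ, (u = 1 ∨ u = -1) → ¬ (p : ℤ) ∣ u := by
    rintro u (rfl | rfl) h
    · exact hpZ.not_isUnit (isUnit_of_dvd_one h)
    · exact hpZ.not_isUnit (isUnit_of_dvd_one ((dvd_neg).1 (by simpa using h)))
  refine ⟨by rw [hcB, hdiv], ?_, ?_⟩
  · intro χ hχ hd
    have hdZ : (p : ℤ) ∣ (charDegree (χ : G → ℂ) : ℤ) := by exact_mod_cast hd
    rcases (hmem χ).1 hχ with h | h
    · have h1 := hdX χ h
      have h2 : (p : ℤ) ∣ - w χ * ((n : ℤ) * charDegree (θ.1 : ↥C → ℂ)) :=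
        h1.dvd_iff.1 hdZ
      rcases hpZ.dvd_or_dvd h2 with h3 | h3
      · have h4 : w χ = 1 ∨ w χ = -1 := by
          rcases hval χ with h5 | h5 | h5
          · exact absurd h5 h
          · exact Or.inl h5
          · exact Or.inr h5
        exact hun _ h4 ((dvd_neg).1 h3)
      · rcases hpZ.dvd_or_dvd h3 with h4 | h4
        · exact hnZ h4
        · exact hθZ h4
    · have h1 := hdY χ h
      have h2 : (p : ℤ) ∣ σ * ((e : ℤ) * ((n : ℤ) * charDegree (θ.1 : ↥C → ℂ))) :=
        h1.dvd_iff.1 hdZ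
      rcases hpZ.dvd_or_dvd h2 with h3 | h3
      · exact hun _ hσ h3
      · rcases hpZ.dvd_or_dvd h3 with h4 | h4
        · exact heZ h4
        · rcases hpZ.dvd_or_dvd h4 with h5 | h5
          · exact hnZ h5
          · exact hθZ h5
  · intro χ
    refine mem_iff_not_flat H hcard hidx hM hB hBP θ.2 hind ?_ χ
    have hc : ∀ u ∈ P, ∀ v ∈ P, u * v = v * u := fun u hu v hv => (H.comm_P hu hv).symm
    haveI : Finite (↥P →* ℂˣ) := dual_finite hc
    obtain ⟨f₁⟩ : Nonempty (NT P) := by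
      have h1 : Nat.card (↥P →* ℂˣ) = p := by rw [card_dual hc, hcard]
      have h2 : Nontrivial (↥P →* ℂˣ) := by
        rw [← Finite.one_lt_card_iff_nontrivial, h1]
        exact hp.one_lt
      obtain ⟨f, hf⟩ := exists_ne (1 : ↥P →* ℂˣ)
      exact ⟨⟨f, hf⟩⟩
    refine ⟨ξ f₁, fun hfl => ?_⟩
    have h1 := (flat_iff H (ha θ.1) (ξ f₁)).1 hfl f₁.1
    have h2 := hrel f₁ (ξ f₁)
    rw [if_pos rfl, hw0 f₁, h1] at h2
    have h3 : σ = 0 := by linarith
    rcases hσ with h4 | h4 <;> rw [h4] at h3 <;> norm_num at h3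

/-- The count of characters of degree prime to `p`. -/
theorem count_formula [Fintype (Th P C)] (hcard : Nat.card P = p) (hidx : ¬ p ∣ P.index) :
    Nat.card (normalizer (P : Set G)) * Nat.card {χ : IrrCharacter G // ¬ p ∣ charDegree (χ : G → ℂ)} =
      ∑ θ : Th P C, FF p (Nat.card C) (Nat.card (stabT H (θ.1 : ↥C → ℂ))) := by
  classical
  haveI : Fact p.Prime := ⟨H.prime⟩
  obtain ⟨M, hM⟩ := Cfsg.Agent.Lib.BlockVal.exists_isPModular H.prime
  haveI := isPrime_of_isPModular hM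
  have hex : ∀ θ : Th P C, ∃ B : Set (IrrCharacter G), IsInducedBlock M C (blockOf M (θ.1 : ↥C → ℂ)) B :=
    fun θ => Cfsg.Agent.Lib.BlockSecond.exists_isInducedBlock_centralizer hM H.pgroup H.cen.symm ⟨θ.1, rfl⟩
  choose B hB using hex
  have hcl : ∀ θ : Th P C, IsClassFunction C (θ.1 : ↥C → ℂ) :=
    fun θ => isClassFunction_of_isCharacter (IsIrrCharacter.isCharacter θ.1.2)
  have hee : ∀ θ : Th P C, ∃ e : ℕ, Nat.card (stabT H (θ.1 : ↥C → ℂ)) = Nat.card C * e := fun θ => exists_e H (hcl θ)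
  choose e he using hee
  have hC0 : 0 < Nat.card C := Nat.card_pos
  have hfacts := fun θ => block_facts H hcard hidx hM θ (hB θ) (he θ)
  have hFF : ∀ θ : Th P C, FF p (Nat.card C) (Nat.card (stabT H (θ.1 : ↥C → ℂ))) =
      Nat.card (stabT H (θ.1 : ↥C → ℂ)) * Nat.card (B θ) := by
    intro θ
    unfold FF
    rw [(hfacts θ).1, he θ, Nat.mul_div_cancel_left _ hC0]
  simp_rw [hFF]
  letI := actTh H
  -- the characters of degree prime to `p` lie in some `B θ`
  have h4 : ∀ χ : IrrCharacter G, ¬ p ∣ charDegree (χ : G → ℂ) → ∃ θ : Th P C, χ ∈ B θ := by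
    intro χ hχ
    by_contra hcon
    push Not at hcon
    have h5 := dvd_of_flat H hcard hidx (IsIrrCharacter.isCharacter χ.2) (fun θ hθ => fun f =>
      inner_tw_eq_of_not_mem H hM hθ (hB ⟨θ, hθ⟩) (hcon ⟨θ, hθ⟩) f)
    apply hχ
    refine dvd_trans ?_ h5
    have h6 : p ∣ Nat.card G := dvd_trans (p_dvd_card_C H hcard) (Subgroup.card_subgroup_dvd_card C)
    have h7 := (H.prime.dvd_iff_one_le_factorization Nat.card_pos.ne').1 h6
    exact dvd_pow_self p (by omega)
  -- the sets `B θ` containing a fixed character form an orbit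
  have h5 : ∀ (χ : IrrCharacter G) (θ₀ θ : Th P C), χ ∈ B θ₀ → (χ ∈ B θ ↔ θ ∈ MulAction.orbit (normalizer (P : Set G)) θ₀) := by
    intro χ θ₀ θ hχ
    constructor
    · intro hχ'
      have h6 : B θ = B θ₀ := by
        rcases eq_or_disjoint_of_isPBlock (hB θ).2.1 (hB θ₀).2.1 with h6 | h6
        · exact h6
        · exact absurd hχ (Set.disjoint_left.1 h6 hχ')
      have h7 := hB θ
      rw [h6] at h7
      obtain ⟨x, hx⟩ := exists_conj_of_same H hM (hB θ₀).2.1 (isDefectGroup_of_induced H hcard hidx hM θ₀ (hB θ₀)) θ₀.2 θ.2 (hB θ₀) h7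
      exact ⟨x, Subtype.ext (Subtype.ext hx.symm)⟩
    · rintro ⟨x, rfl⟩
      rw [(hfacts _).2.2]
      intro hfl
      have h6 := (hfacts θ₀).2.2 χ
      rw [h6] at hχ
      apply hχ
      have h7 : ((θ₀ : Th P C).1 : ↥C → ℂ) = cjT H x⁻¹ ((x • θ₀ : Th P C).1 : ↥C → ℂ) := by
        have h8 : (x⁻¹ • (x • θ₀) : Th P C) = θ₀ := inv_smul_smul x θ₀
        exact (congrArg (fun t : Th P C => ((t.1 : IrrCharacter C) : ↥C → ℂ)) h8).symm
      rw [h7]
      exact flat_smul H (isClassFunction_of_isCharacter (IsIrrCharacter.isCharacter χ.2)) hfl x⁻¹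
  have h6 : ∀ χ : IrrCharacter G, ∑ θ : Th P C, (if χ ∈ B θ then Nat.card (stabT H (θ.1 : ↥C → ℂ)) else 0) =
      if ¬ p ∣ charDegree (χ : G → ℂ) then Nat.card (normalizer (P : Set G)) else 0 := by
    intro χ
    by_cases hχ : p ∣ charDegree (χ : G → ℂ)
    · rw [if_neg (not_not.2 hχ)]
      apply Finset.sum_eq_zero
      intro θ _
      rw [if_neg]
      intro h7
      exact (hfacts θ).2.1 χ h7 hχ
    · rw [if_pos hχ]
      obtain ⟨θ₀, hθ₀⟩ := h4 χ hχ
      have h7 : ∀ θ : Th P C, (if χ ∈ B θ then Nat.card (stabT H (θ.1 : ↥C → ℂ)) else 0) =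
          if θ ∈ MulAction.orbit (normalizer (P : Set G)) θ₀ then Nat.card (stabT H (θ₀.1 : ↥C → ℂ)) else 0 := by
        intro θ
        by_cases h8 : θ ∈ MulAction.orbit (normalizer (P : Set G)) θ₀
        · rw [if_pos h8, if_pos ((h5 χ θ₀ θ hθ₀).2 h8)]
          have h9 := card_orbit_mul H θ
          have h10 := card_orbit_mul H θ₀
          rw [MulAction.orbit_eq_iff.2 h8] at h9
          have h11 : Nat.card (MulAction.orbit (normalizer (P : Set G)) θ₀) * Nat.card (stabT H (θ.1 : ↥C → ℂ)) =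
              Nat.card (MulAction.orbit (normalizer (P : Set G)) θ₀) * Nat.card (stabT H (θ₀.1 : ↥C → ℂ)) := by
            rw [h9, h10]
          haveI : Nonempty (MulAction.orbit (normalizer (P : Set G)) θ₀) := ⟨⟨θ₀, MulAction.mem_orbit_self θ₀⟩⟩
          exact Nat.eq_of_mul_eq_mul_left Nat.card_pos h11
        · rw [if_neg h8, if_neg (fun h9 => h8 ((h5 χ θ₀ θ hθ₀).1 h9))]
      rw [Finset.sum_congr rfl (fun θ _ => h7 θ), ← Finset.sum_filter, Finset.sum_const, nsmul_eq_mul]
      rw [← card_orbit_mul H θ₀]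
      congr 1
      rw [Nat.card_eq_fintype_card, Fintype.card_subtype]
      simp
  have h7 : ∀ θ : Th P C, Nat.card (stabT H (θ.1 : ↥C → ℂ)) * Nat.card (B θ) =
      ∑ χ : IrrCharacter G, (if χ ∈ B θ then Nat.card (stabT H (θ.1 : ↥C → ℂ)) else 0) := by
    intro θ
    rw [← Finset.sum_filter, Finset.sum_const, nsmul_eq_mul, mul_comm]
    congr 1
    rw [Nat.card_eq_fintype_card, Fintype.card_subtype]
    exact (Nat.cast_id _).symm
  simp_rw [h7]
  rw [Finset.sum_comm]
  simp_rw [h6]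
  rw [← Finset.sum_filter, Finset.sum_const, nsmul_eq_mul, mul_comm]
  congr 1
  rw [Nat.card_eq_fintype_card, Fintype.card_subtype]
  exact (Nat.cast_id _).symm

end Basic

section Transfer

variable (H : Cfsg.Agent.Lib.TICent.Hyp p P C r e₀)

/-- `C` as the centralizer of `P` inside `N(P)`. -/
def isoC (H : Cfsg.Agent.Lib.TICent.Hyp p P C r e₀) :
    ↥C ≃* ↥(centralizer ((P.subgroupOf (normalizer (P : Set G)) : Subgroup (normalizer (P : Set G))) : Set (normalizer (P : Set G)))) where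
  toFun c := ⟨⟨c, H.le_normalizer c.2⟩, by
    rw [mem_centralizer_iff]
    intro h hh
    apply Subtype.ext
    exact (H.comm (Subgroup.mem_subgroupOf.1 hh) c.2).symm⟩
  invFun c₁ := ⟨c₁.1.1, by
    rw [← H.cen, mem_centralizer_iff]
    intro h hh
    have h1 := mem_centralizer_iff.1 c₁.2 ⟨h, Subgroup.le_normalizer hh⟩ (by
      show _ ∈ (P.subgroupOf (normalizer (P : Set G)) : Subgroup (normalizer (P : Set G)))
      exact Subgroup.mem_subgroupOf.2 hh)
    exact congrArg Subtype.val h1⟩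
  left_inv _ := rfl
  right_inv _ := rfl
  map_mul' _ _ := rfl

variable {r₁ : ↥(centralizer ((P.subgroupOf (normalizer (P : Set G)) : Subgroup (normalizer (P : Set G))) : Set (normalizer (P : Set G)))) →* ↥(P.subgroupOf (normalizer (P : Set G)))} {e₁ : ℕ}
  (H₁ : Cfsg.Agent.Lib.TICent.Hyp p (P.subgroupOf (normalizer (P : Set G))) (centralizer ((P.subgroupOf (normalizer (P : Set G)) : Subgroup (normalizer (P : Set G))) : Set (normalizer (P : Set G)))) r₁ e₁)

/-- The correspondence of the characters. -/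
noncomputable def thE : Th (P.subgroupOf (normalizer (P : Set G))) (centralizer ((P.subgroupOf (normalizer (P : Set G)) : Subgroup (normalizer (P : Set G))) : Set (normalizer (P : Set G)))) ≃ Th P C where
  toFun θ₁ := ⟨Cfsg.Agent.Lib.BlkExtFMT.pull (isoC H) θ₁.1, by
    intro c hc
    have h1 := θ₁.2 (isoC H c) (Subgroup.mem_subgroupOf.2 hc)
    show (θ₁.1 : _ → ℂ) (isoC H c) = (θ₁.1 : _ → ℂ) (isoC H 1)
    rw [h1, map_one]⟩
  invFun θ := ⟨Cfsg.Agent.Lib.BlkExtFMT.pull (isoC H).symm θ.1, by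
    intro c hc
    have h1 := θ.2 ((isoC H).symm c) (Subgroup.mem_subgroupOf.1 hc)
    show (θ.1 : _ → ℂ) ((isoC H).symm c) = (θ.1 : _ → ℂ) ((isoC H).symm 1)
    rw [h1, map_one]⟩
  left_inv θ₁ := by
    apply Subtype.ext
    apply Subtype.ext
    funext c
    show (θ₁.1 : _ → ℂ) ((isoC H) ((isoC H).symm c)) = _
    rw [MulEquiv.apply_symm_apply]
  right_inv θ := by
    apply Subtype.ext
    apply Subtype.ext
    funext c
    show (θ.1 : _ → ℂ) ((isoC H).symm ((isoC H) c)) = _
    rw [MulEquiv.symm_apply_apply]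

theorem thE_apply (θ₁ : Th (P.subgroupOf (normalizer (P : Set G))) (centralizer ((P.subgroupOf (normalizer (P : Set G)) : Subgroup (normalizer (P : Set G))) : Set (normalizer (P : Set G))))) (c : ↥C) :
    (((thE H θ₁ : Th P C).1 : IrrCharacter C) : ↥C → ℂ) c = (θ₁.1 : _ → ℂ) (isoC H c) := rfl

variable [Fintype C] [Fintype (normalizer (P : Set G))] [Fintype (centralizer ((P.subgroupOf (normalizer (P : Set G)) : Subgroup (normalizer (P : Set G))) : Set (normalizer (P : Set G))))]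

theorem mem_normalizer₁ (y : normalizer (P : Set G)) :
    y ∈ normalizer ((P.subgroupOf (normalizer (P : Set G)) : Subgroup (normalizer (P : Set G))) : Set (normalizer (P : Set G))) := by
  rw [mem_normalizer_iff]
  intro h
  constructor
  · intro hh
    exact (Subgroup.normal_in_normalizer).conj_mem h hh y
  · intro hh
    have h1 := (Subgroup.normal_in_normalizer (H := P)).conj_mem _ hh y⁻¹
    simpa [mul_assoc] using h1

theorem isoC_cjC (y : normalizer (P : Set G)) (c : ↥C) :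
    isoC H (H.cjC y c) = H₁.cjC ⟨y, mem_normalizer₁ y⟩ (isoC H c) := rfl

/-- The stabilizers correspond. -/
theorem card_stabT_eq (θ₁ : Th (P.subgroupOf (normalizer (P : Set G))) (centralizer ((P.subgroupOf (normalizer (P : Set G)) : Subgroup (normalizer (P : Set G))) : Set (normalizer (P : Set G))))) :
    Nat.card (stabT H₁ (θ₁.1 : _ → ℂ)) = Nat.card (stabT H ((thE H θ₁ : Th P C).1 : ↥C → ℂ)) := by
  apply Nat.card_congr
  refine ⟨fun x => ⟨x.1.1, ?_⟩, fun y => ⟨⟨y.1, mem_normalizer₁ y.1⟩, ?_⟩, fun _ => rfl, fun _ => rfl⟩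
  · rw [mem_stabT]
    funext c
    have hx := x.2
    rw [mem_stabT] at hx
    have h1 := congrFun hx (isoC H c)
    show (θ₁.1 : _ → ℂ) (isoC H (H.cjC x.1.1 c)) = (θ₁.1 : _ → ℂ) (isoC H c)
    rw [isoC_cjC H H₁]
    exact h1
  · rw [mem_stabT]
    funext c₁
    have hy := y.2
    rw [mem_stabT] at hy
    have h1 := congrFun hy ((isoC H).symm c₁)
    have h2 : (θ₁.1 : _ → ℂ) (isoC H (H.cjC y.1 ((isoC H).symm c₁))) = (θ₁.1 : _ → ℂ) (isoC H ((isoC H).symm c₁)) := h1
    rw [isoC_cjC H H₁, MulEquiv.apply_symm_apply] at h2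
    exact h2

end Transfer

/-- **The number of characters of degree prime to `p`**. -/
theorem main_count (H : Cfsg.Agent.Lib.TICent.Hyp p P C r e₀) (hcard : Nat.card P = p) (hidx : ¬ p ∣ P.index) :
    Nat.card {χ : IrrCharacter G // ¬ p ∣ charDegree (χ : G → ℂ)} = Nat.card (ConjClasses (normalizer (P : Set G))) := by
  classical
  have hp := H.prime
  haveI : Fact p.Prime := ⟨hp⟩
  letI : Fintype C := Fintype.ofFinite _
  letI : Fintype (normalizer (P : Set G)) := Fintype.ofFinite _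
  set N := normalizer (P : Set G) with hNdef
  set P₁ : Subgroup N := P.subgroupOf N with hP₁
  have hc₁ : Nat.card P₁ = p := by
    rw [← hcard]
    exact Nat.card_congr (Subgroup.subgroupOfEquivOfLe Subgroup.le_normalizer).toEquiv
  have hP₁p : IsPGroup p P₁ := IsPGroup.of_card (n := 1) (by rw [hc₁, pow_one])
  have hidx₁ : ¬ p ∣ P₁.index := by
    intro h
    apply not_sq_dvd H hcard hidx
    have h1 := Subgroup.card_mul_index P₁
    rw [hc₁] at h1
    have h2 : p * p ∣ Nat.card N := by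
      rw [← h1]
      exact mul_dvd_mul_left p h
    exact dvd_trans h2 (Subgroup.card_subgroup_dvd_card N)
  obtain ⟨r₁, e₁, H₁⟩ := Cfsg.Agent.Lib.TICent.exists_hyp p hp (hP₁p.toSylow hidx₁)
    (fun x hx hx1 => Cfsg.Agent.Lib.RangeP0.star_of_prime hp hc₁ x hx hx1) (by
      show 1 < Nat.card P₁
      rw [hc₁]
      exact hp.one_lt)
  letI : Fintype (centralizer ((P₁ : Subgroup N) : Set N)) := Fintype.ofFinite _
  letI : Fintype (Th P₁ (centralizer ((P₁ : Subgroup N) : Set N))) := Fintype.ofFinite _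
  letI : Fintype (Th P C) := Fintype.ofFinite _
  have H₁' : Cfsg.Agent.Lib.TICent.Hyp p P₁ (centralizer ((P₁ : Subgroup N) : Set N)) r₁ e₁ := H₁
  have hG := count_formula H hcard hidx
  have hN := count_formula H₁' hc₁ hidx₁
  have hcC : Nat.card (centralizer ((P₁ : Subgroup N) : Set N)) = Nat.card C := (Nat.card_congr (isoC H).toEquiv).symm
  have hsum : ∑ θ : Th P₁ (centralizer ((P₁ : Subgroup N) : Set N)), FF p (Nat.card (centralizer ((P₁ : Subgroup N) : Set N))) (Nat.card (stabT H₁' (θ.1 : _ → ℂ))) =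
      ∑ θ : Th P C, FF p (Nat.card C) (Nat.card (stabT H (θ.1 : ↥C → ℂ))) := by
    refine Fintype.sum_equiv (thE H) _ _ fun θ₁ => ?_
    rw [hcC, card_stabT_eq H H₁' θ₁]
  have hN₁ : Nat.card (normalizer ((P₁ : Subgroup N) : Set N)) = Nat.card N := by
    have h1 : normalizer ((P₁ : Subgroup N) : Set N) = ⊤ := by
      rw [eq_top_iff]
      intro y _
      exact mem_normalizer₁ y
    rw [h1]
    exact Nat.card_congr Subgroup.topEquiv.toEquiv
  rw [hsum, hN₁, ← hG] at hN
  have hfin := Nat.eq_of_mul_eq_mul_left Nat.card_pos hN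
  rw [← hfin]
  haveI hnorm : P₁.Normal := Subgroup.normal_in_normalizer
  have hcomm : ∀ a b : P₁, a * b = b * a := by
    intro a b
    apply Subtype.ext
    apply Subtype.ext
    exact (H.comm_P (Subgroup.mem_subgroupOf.1 b.2) (Subgroup.mem_subgroupOf.1 a.2))
  exact Cfsg.Agent.Lib.McKayTools.count_all (P := fun d => ¬ p ∣ d) (fun χ hd =>
    hidx₁ (dvd_trans hd (Cfsg.Agent.Lib.McKayTools.ito_dvd P₁ hcomm χ.2)))

end Cfsg.Agent.Lib.DefOneJ
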