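import Mathlib
import Cfsg.Agent.Lib.D8CentChar
import Cfsg.Agent.Lib.DefOneE

/-!
# Counting products of two conjugates of an element, and the value at an element inverting `P`

`cnt t g` counts the pairs `(a, b)` with `(a t a⁻¹) (b t b⁻¹) = g`.  Row identity: the coefficient vector of the generalized character
`Ind_C^G ((f ∘ r - 1) θ)`, paired with `χ(t)² / χ(1)`, is the average of `(f ∘ r - 1) θ` against `cnt t`.
-/

set_option autoImplicit false
set_option linter.unusedVariables false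
set_option linter.unusedSectionVars false
set_option linter.style.haveILetI false

namespace Cfsg.Agent.Lib.Pm2A

open Subgroup Cfsg Cfsg.Agent.Lib.CharBasic Cfsg.Agent.Lib.DefOneC Cfsg.Agent.Lib.DefOneE
open scoped ComplexConjugate

variable {G : Type*} [Group G] [Fintype G]

open scoped Classical in
/-- The number of pairs `(a, b)` with `(a t a⁻¹) (b t b⁻¹) = g`. -/
noncomputable def cnt (t g : G) : ℕ :=
  ∑ a : G, ∑ b : G, if g⁻¹ * (a * t * a⁻¹) * (b * t * b⁻¹) = 1 then 1 else 0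

open scoped Classical in
theorem cnt_eq (t z : G) : (cnt t z : ℂ) = (Nat.card G : ℂ) * ∑ χ : IrrCharacter G,
    (χ : G → ℂ) t ^ 2 * (χ : G → ℂ) z⁻¹ / (χ : G → ℂ) 1 := by
  have h := Cfsg.Agent.Lib.D8CentChar.struct_formula t z
  have hG : (Nat.card G : ℂ) ≠ 0 := by
    exact_mod_cast Nat.card_pos.ne'
  apply mul_left_cancel₀ hG
  unfold cnt
  rw [h]
  ring

theorem cnt_conj (t g h : G) : cnt t (h * g * h⁻¹) = cnt t g := by
  have h1 : ((cnt t (h * g * h⁻¹) : ℕ) : ℂ) = (cnt t g : ℂ) := by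
    rw [cnt_eq, cnt_eq]
    congr 1
    refine Finset.sum_congr rfl fun χ _ => ?_
    have h2 : (h * g * h⁻¹)⁻¹ = h * g⁻¹ * h⁻¹ := by group
    rw [h2, isClassFunction_of_isCharacter (IsIrrCharacter.isCharacter χ.2) g⁻¹ h]
  exact_mod_cast h1

theorem isClass_cnt (t : G) : IsClassFunction G (fun g => (cnt t g : ℂ)) := by
  intro g h
  simp only [cnt_conj]

variable {p : ℕ} {P C : Subgroup G} {r : ↥C →* ↥P} {e₀ : ℕ}

/-- The row identity. -/
theorem row (H : Cfsg.Agent.Lib.TICent.Hyp p P C r e₀) [Fintype C] {θ : ↥C → ℂ} {a : (↥P →* ℂˣ) → IrrCharacter G → ℕ}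
    (ha : ∀ (f : ↥P →* ℂˣ) (χ : IrrCharacter G), classInner (tw r f θ) (fun c : ↥C => (χ : G → ℂ) c) = (a f χ : ℂ))
    (f : ↥P →* ℂˣ) (t : G) :
    (Nat.card G : ℂ) * ∑ χ : IrrCharacter G, ((a f χ : ℂ) - a 1 χ) * ((χ : G → ℂ) t ^ 2 / (χ : G → ℂ) 1) =
      (Nat.card C : ℂ)⁻¹ * ∑ c : ↥C, (tw r f θ c - θ c) * (cnt t (c : G) : ℂ) := by
  classical
  have hG : (Nat.card G : ℂ) ≠ 0 := by
    exact_mod_cast Nat.card_pos.ne'
  have h1 := classInner_tT (r := r) f θ (isClass_cnt t)
  have hL : classInner (tT r f θ) (fun g => (cnt t g : ℂ)) =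
      (Nat.card G : ℂ) * ∑ χ : IrrCharacter G, ((a f χ : ℂ) - a 1 χ) * ((χ : G → ℂ) t ^ 2 / (χ : G → ℂ) 1) := by
    have h2 : ∀ χ : IrrCharacter G, classInner (tT r f θ) (χ : G → ℂ) = (a f χ : ℂ) - a 1 χ :=
      fun χ => by
        have := classInner_tT (r := r) f θ (isClassFunction_of_isCharacter (IsIrrCharacter.isCharacter χ.2))
        rw [this, ha]
        have h3 := ha 1 χ
        rw [tw_one] at h3
        rw [h3]
    unfold classInner at h2 ⊢
    have h4 : ∀ g : G, conj (cnt t g : ℂ) = (Nat.card G : ℂ) * ∑ χ : IrrCharacter G,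
        ((χ : G → ℂ) t ^ 2 / (χ : G → ℂ) 1) * conj ((χ : G → ℂ) g) := by
      intro g
      rw [Complex.conj_natCast, cnt_eq]
      congr 1
      refine Finset.sum_congr rfl fun χ _ => ?_
      rw [char_conj_eq_inv (IsIrrCharacter.isCharacter χ.2)]
      ring
    simp_rw [h4]
    rw [Finset.mul_sum, Finset.mul_sum]
    have h5 : ∀ g : G, (Nat.card G : ℂ)⁻¹ * (tT r f θ g * ((Nat.card G : ℂ) * ∑ χ : IrrCharacter G,
        ((χ : G → ℂ) t ^ 2 / (χ : G → ℂ) 1) * conj ((χ : G → ℂ) g))) =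
        ∑ χ : IrrCharacter G, ((χ : G → ℂ) t ^ 2 / (χ : G → ℂ) 1) * (tT r f θ g * conj ((χ : G → ℂ) g)) := by
      intro g
      have h6 : (Nat.card G : ℂ)⁻¹ * (tT r f θ g * ((Nat.card G : ℂ) * ∑ χ : IrrCharacter G,
        ((χ : G → ℂ) t ^ 2 / (χ : G → ℂ) 1) * conj ((χ : G → ℂ) g))) = tT r f θ g * ∑ χ : IrrCharacter G,
        ((χ : G → ℂ) t ^ 2 / (χ : G → ℂ) 1) * conj ((χ : G → ℂ) g) := by
        field_simp
      rw [h6, Finset.mul_sum]
      refine Finset.sum_congr rfl fun χ _ => ?_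
      ring
    simp_rw [h5]
    rw [Finset.sum_comm]
    refine Finset.sum_congr rfl fun χ _ => ?_
    rw [← Finset.mul_sum, ← h2 χ]
    field_simp
  rw [← hL, h1]
  unfold classInner
  rw [← mul_sub, ← Finset.sum_sub_distrib]
  congr 1
  refine Finset.sum_congr rfl fun c _ => ?_
  rw [Complex.conj_natCast]
  ring

/-- The value of a character at an element inverting a subgroup of odd order. -/
theorem inv_val {n : ℕ} (ρ : Representation ℂ G (Fin n → ℂ)) {Q : Subgroup G} [Fintype Q] {u : G} (hu : u * u = 1)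
    (hinv : ∀ y ∈ Q, u * y * u⁻¹ = y⁻¹) (hodd : Odd (Nat.card Q)) :
    ∃ n₁ n₂ : ℕ, ((n₁ : ℂ) + n₂) * (Nat.card Q : ℂ) = ∑ y : Q, ρ.character (y : G) ∧ ρ.character u = (n₁ : ℂ) - n₂ := by
  classical
  have hQ : (Nat.card Q : ℂ) ≠ 0 := by
    exact_mod_cast Nat.card_pos.ne'
  have hu' : u⁻¹ = u := by
    rw [inv_eq_iff_mul_eq_one]; exact hu
  set c : ℂ := (Nat.card Q : ℂ)⁻¹ with hc
  set E : Module.End ℂ (Fin n → ℂ) := c • ∑ y : Q, ρ (y : G) with hE
  have hEmul : ∀ y : Q, ρ (y : G) * E = E := by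
    intro y
    rw [hE, mul_smul_comm, Finset.mul_sum]
    congr 1
    refine Fintype.sum_bijective (fun z : Q => y * z) (Group.mulLeft_bijective y) _ _ fun z => ?_
    rw [← map_mul]
    rfl
  have hEE : E * E = E := by
    have h0 : E * E = c • ∑ y : Q, (ρ (y : G) * E) := by
      nth_rw 1 [hE]
      rw [smul_mul_assoc, Finset.sum_mul]
    rw [h0]
    simp_rw [hEmul]
    rw [Finset.sum_const, Finset.card_univ, ← Nat.card_eq_fintype_card]
    rw [← Nat.cast_smul_eq_nsmul ℂ, smul_smul, hc, inv_mul_cancel₀ hQ, one_smul]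
  have huE : ρ u * E = E * ρ u := by
    rw [hE, mul_smul_comm, smul_mul_assoc, Finset.mul_sum, Finset.sum_mul]
    congr 1
    have hinv' : ∀ y : Q, u * (y : G) * u⁻¹ ∈ Q := fun y => by
      rw [hinv y y.2]
      exact Q.inv_mem y.2
    refine Fintype.sum_bijective (fun z : Q => z⁻¹) (inv_involutive.bijective) _ _ fun z => ?_
    rw [← map_mul, ← map_mul]
    congr 1
    have h3 := hinv z z.2
    rw [Subgroup.coe_inv, ← h3]
    group
  obtain ⟨T, hT⟩ : ∃ T : Module.End ℂ (Fin n → ℂ), T = ρ u * E := ⟨_, rfl⟩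
  have huu : ρ u * ρ u = 1 := by
    rw [← map_mul, hu, map_one]
  have hTE : T * E = T := by
    rw [hT, mul_assoc, hEE]
  have hET : E * T = T := by
    rw [hT, ← mul_assoc, ← huE, mul_assoc, hEE]
  have hTT : T * T = E := by
    calc T * T = ρ u * E * (ρ u * E) := by rw [hT]
      _ = ρ u * (E * ρ u) * E := by simp only [mul_assoc]
      _ = ρ u * (ρ u * E) * E := by rw [huE]
      _ = (ρ u * ρ u) * (E * E) := by simp only [mul_assoc]
      _ = E := by rw [huu, one_mul, hEE]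
  have hA : IsIdempotentElem ((1 / 2 : ℂ) • (E + T)) := by
    unfold IsIdempotentElem
    rw [smul_mul_smul_comm, add_mul, mul_add, mul_add, hEE, hET, hTE, hTT]
    rw [show E + T + (T + E) = (2 : ℂ) • (E + T) by
      rw [two_smul]; abel]
    rw [smul_smul]
    norm_num
  have hB : IsIdempotentElem ((1 / 2 : ℂ) • (E - T)) := by
    unfold IsIdempotentElem
    rw [smul_mul_smul_comm, sub_mul, mul_sub, mul_sub, hEE, hET, hTE, hTT]
    rw [show E - T - (T - E) = (2 : ℂ) • (E - T) by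
      rw [two_smul]; abel]
    rw [smul_smul]
    norm_num
  have h1 := (LinearMap.IsIdempotentElem.isProj_range _ hA).trace
  have h2 := (LinearMap.IsIdempotentElem.isProj_range _ hB).trace
  have htE : LinearMap.trace ℂ _ E = c * ∑ y : Q, ρ.character (y : G) := by
    rw [hE, map_smul, map_sum]
    rfl
  have hconj : ∀ y : Q, ρ.character (u * (y : G)) = ρ.character u := by
    intro y
    obtain ⟨k, hk⟩ := hodd
    have hy : y ^ Nat.card Q = 1 := pow_card_eq_one'
    set w : Q := y⁻¹ ^ (k + 1) with hw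
    have hww : w * w = y⁻¹ := by
      rw [hw, ← pow_add, show k + 1 + (k + 1) = Nat.card Q + 1 by omega, pow_succ, inv_pow, hy]
      simp
    have h3 := hinv (w⁻¹ : Q) (w⁻¹ : Q).2
    have h4 : u * (y : G) = (w : G) * u * (w : G)⁻¹ := by
      have h5 : u * (y : G) * u⁻¹ = (y : G)⁻¹ := hinv y y.2
      have h6 : ((w : G) * (w : G)) = (y : G)⁻¹ := by
        have := congrArg (Subtype.val) hww
        simpa using this
      have h7 : u * (w : G)⁻¹ * u⁻¹ = (w : G) := by
        have := hinv (w⁻¹ : Q) (w⁻¹ : Q).2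
        simpa using this
      calc u * (y : G) = (u * (y : G) * u⁻¹) * u := by group
        _ = (w : G) * (w : G) * u := by rw [h5, h6]
        _ = (w : G) * (u * (w : G)⁻¹ * u⁻¹) * u := by rw [h7]
        _ = _ := by group
    rw [h4]
    have hcl : IsClassFunction G ρ.character := isClassFunction_of_isCharacter ⟨n, ρ, rfl⟩
    exact hcl u w
  have htT : LinearMap.trace ℂ _ T = ρ.character u := by
    rw [hT, hE, mul_smul_comm, map_smul, Finset.mul_sum, map_sum]
    have h3 : ∀ y : Q, LinearMap.trace ℂ (Fin n → ℂ) (ρ u * ρ (y : G)) = ρ.character u := by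
      intro y
      rw [← hconj y, ← map_mul]
      rfl
    simp_rw [h3]
    rw [Finset.sum_const, Finset.card_univ, ← Nat.card_eq_fintype_card, nsmul_eq_mul, smul_eq_mul, ← mul_assoc, hc,
      inv_mul_cancel₀ hQ, one_mul]
  refine ⟨Module.finrank ℂ (LinearMap.range ((1 / 2 : ℂ) • (E + T))), Module.finrank ℂ (LinearMap.range ((1 / 2 : ℂ) • (E - T))), ?_, ?_⟩
  · rw [← h1, ← h2, map_smul, map_smul, map_add, map_sub, htE, htT]
    simp only [smul_eq_mul]
    have : c * (Nat.card Q : ℂ) = 1 := inv_mul_cancel₀ hQ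
    linear_combination (∑ y : Q, ρ.character (y : G)) * this
  · rw [← h1, ← h2, map_smul, map_smul, map_add, map_sub, htT]
    simp only [smul_eq_mul]
    ring

end Cfsg.Agent.Lib.Pm2A
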