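import Mathlib
import Cfsg.Agent.Lib.Pm2A
import Cfsg.Agent.Lib.DefOneJ
import Cfsg.Agent.Lib.BlockSecond
import Cfsg.Agent.Lib.BlockVal
import Cfsg.Agent.Lib.RigB

/-!
# A faithful irreducible character of degree `p - 2`: the local structure

`P` a Sylow subgroup of prime order `p > 5`, not normal, `ζ` a faithful irreducible character of degree `p - 2`.  Then `|N(P) : C(P)| = 2`,
the `p`-prime part of `C(P)` is central, and `ζ` is exceptional with sign `-1`.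
-/

set_option autoImplicit false
set_option linter.unusedVariables false
set_option linter.unusedSectionVars false
set_option linter.style.haveILetI false

namespace Cfsg.Agent.Lib.Pm2B

open Subgroup Cfsg Cfsg.Agent.Lib.CharBasic Cfsg.Agent.Lib.DefOneC Cfsg.Agent.Lib.DefOneE Cfsg.Agent.Lib.DefOneG Cfsg.Agent.Lib.DefOneH
open Cfsg.Agent.Lib.DefectOne Cfsg.Agent.Lib.BlkBasic Cfsg.Agent.Lib.TICent Cfsg.Agent.Lib.DefOneF
open scoped ComplexConjugate

variable {G : Type*} [Group G] [Fintype G] [DecidableEq G]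

/-- An element whose character value has maximal norm is central. -/
theorem central_of_norm {ζ : G → ℂ} (hζ : IsCharacter G ζ) (hfaith : ∀ g : G, ζ g = ζ 1 → g = 1) {c : G}
    (h : ‖ζ c‖ = (charDegree ζ : ℝ)) (g : G) : c * g = g * c := by
  obtain ⟨n, ρ, rfl⟩ := hζ
  have hdeg : charDegree ρ.character = n := by
    rw [charDegree, char_one_eq_rep]
    simp
  rw [hdeg] at h
  have h1 := (Cfsg.Agent.Lib.CharValues.norm_character_eq_iff ρ c).1 (by rw [Module.finrank_fin_fun]; exact h)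
  obtain ⟨ω, hω⟩ := h1
  have h2 : ρ (c * g) = ρ (g * c) := by
    rw [map_mul, map_mul, hω]
    ext v i
    simp
  have h3 : (g * c)⁻¹ * (c * g) = 1 := by
    apply hfaith
    have h4 : ρ ((g * c)⁻¹ * (c * g)) = ρ 1 := by
      rw [map_mul, h2, ← map_mul]
      simp
    simp only [Representation.character]
    show LinearMap.trace ℂ _ (ρ ((g * c)⁻¹ * (c * g))) = LinearMap.trace ℂ _ (ρ 1)
    rw [h4]
  exact (inv_mul_eq_one.1 h3).symm

/-- The arithmetic for the sign `-1`. -/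
theorem arith_minus {p e s c : ℕ} (hp : 5 < p) (he : e * c = p - 1) (hs : 1 ≤ s) (hsA : s * (p - e) ≤ p - 2)
    (hcong : ((p - 2 : ℕ) : ℤ) ≡ -1 * ((e : ℤ) * s) [ZMOD p]) : c = 1 ∨ (s = 1 ∧ e = 2) := by
  have hc0 : c ≠ 0 := by
    rintro rfl
    omega
  have hc1 : 1 ≤ c := Nat.pos_of_ne_zero hc0
  have hele : e ≤ p - 1 := by
    rw [← he]
    exact Nat.le_mul_of_pos_right _ hc1
  by_cases hc : c = 1
  · exact Or.inl hc
  right
  have hc2 : 2 ≤ c := by omega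
  have he2 : 2 * e ≤ p - 1 := by
    rw [← he, mul_comm e c]
    exact Nat.mul_le_mul_right _ hc2
  obtain ⟨d, hd⟩ : ∃ d, d = p - e := ⟨_, rfl⟩
  have hd1 : d + e = p := by omega
  rw [← hd] at hsA
  have hX : s * d = p - 2 := by
    have h1 : ((p : ℤ)) ∣ ((p - 2 : ℕ) : ℤ) - (((s * d : ℕ) : ℤ)) := by
      have h2 := hcong.symm.dvd
      have h3 : ((p - 2 : ℕ) : ℤ) - (((s * d : ℕ) : ℤ)) = ((p - 2 : ℕ) : ℤ) - (-1 * ((e : ℤ) * s)) - p * s := by
        push_cast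
        have : (p : ℤ) = d + e := by exact_mod_cast hd1.symm
        rw [this]
        ring
      rw [h3]
      exact dvd_sub h2 (dvd_mul_right _ _)
    have h4 : (((p - 2 : ℕ) : ℤ) - (((s * d : ℕ) : ℤ))) = (((p - 2) - s * d : ℕ) : ℤ) := by
      rw [Nat.cast_sub hsA]
    rw [h4] at h1
    have h5 : p ∣ (p - 2) - s * d := by exact_mod_cast h1
    have h6 : (p - 2) - s * d = 0 := by
      apply Nat.eq_zero_of_dvd_of_lt h5
      omega
    omega
  have hd2 : p + 1 ≤ 2 * d := by omega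
  have hs1 : s = 1 := by
    by_contra hne
    have hs2 : 2 ≤ s := by omega
    have : 2 * d ≤ s * d := Nat.mul_le_mul_right _ hs2
    omega
  subst hs1
  omega

/-- The arithmetic for the sign `+1`. -/
theorem arith_plus {p e s : ℕ} (hp : 5 < p) (hsA : e * s ≤ p - 2)
    (hcong : ((p - 2 : ℕ) : ℤ) ≡ 1 * ((e : ℤ) * s) [ZMOD p]) : e * s = p - 2 := by
  have h2 := hcong.symm.dvd
  have h3 : ((p : ℤ)) ∣ ((p - 2 - e * s : ℕ) : ℤ) := by
    rw [Nat.cast_sub hsA]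
    simpa using h2
  have h5 : p ∣ (p - 2) - e * s := by exact_mod_cast h3
  have h6 : (p - 2) - e * s = 0 := by
    apply Nat.eq_zero_of_dvd_of_lt h5
    omega
  omega

variable {p : ℕ} {P C : Subgroup G} {r : ↥C →* ↥P} {e₀ : ℕ}

section Loc

variable (H : Cfsg.Agent.Lib.TICent.Hyp p P C r e₀) [Fintype C]
include H

/-- The value of `χ` on `C` from the multiplicities. -/
theorem eval_tw [Fintype (↥P →* ℂˣ)] [Fintype (Th P C)] {a : IrrCharacter C → (↥P →* ℂˣ) → IrrCharacter G → ℕ}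
    (ha : ∀ (θ : IrrCharacter C) (f : ↥P →* ℂˣ) (χ : IrrCharacter G),
      classInner (tw r f θ) (fun c : ↥C => (χ : G → ℂ) c) = (a θ f χ : ℂ)) (χ : IrrCharacter G) (c₀ : ↥C) :
    (χ : G → ℂ) c₀ = ∑ θ : Th P C, ∑ f : ↥P →* ℂˣ, (a θ.1 f χ : ℂ) * tw r f θ.1 c₀ := by
  classical
  have hχc : IsClassFunction C (fun c : ↥C => (χ : G → ℂ) c) :=
    isClassFunction_of_isCharacter (isCharacter_restrict C (IsIrrCharacter.isCharacter χ.2))
  have h1 := eval_eq_sum hχc c₀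
  rw [← Fintype.sum_bijective _ (twI_bijective H) (fun x => classInner (fun c : ↥C => (χ : G → ℂ) c) ((twI r x.1 x.2.1 : IrrCharacter C) : ↥C → ℂ) *
    ((twI r x.1 x.2.1 : IrrCharacter C) : ↥C → ℂ) c₀) _ (fun x => rfl), Fintype.sum_prod_type_right] at h1
  rw [h1]
  refine Finset.sum_congr rfl fun θ _ => Finset.sum_congr rfl fun f _ => ?_
  rw [twI_coe, ← classInner_conj_symm, ha, Complex.conj_natCast]

/-- The orbit of `θ₀` contributes at most the degree. -/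
theorem orbit_le [Fintype (↥P →* ℂˣ)] [Fintype (Th P C)] {a : IrrCharacter C → (↥P →* ℂˣ) → IrrCharacter G → ℕ}
    (ha : ∀ (θ : IrrCharacter C) (f : ↥P →* ℂˣ) (χ : IrrCharacter G),
      classInner (tw r f θ) (fun c : ↥C => (χ : G → ℂ) c) = (a θ f χ : ℂ)) (χ : IrrCharacter G) (θ₀ : Th P C) :
    letI := actTh H
    (Nat.card (MulAction.orbit (normalizer (P : Set G)) θ₀) : ℤ) * ((charDegree (θ₀.1 : ↥C → ℂ) : ℤ) * ∑ f : ↥P →* ℂˣ, (a θ₀.1 f χ : ℤ)) ≤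
      charDegree (χ : G → ℂ) := by
  classical
  letI := actTh H
  rw [deg_eq_sum H ha χ]
  have h2 : ∀ θ : Th P C, θ ∈ MulAction.orbit (normalizer (P : Set G)) θ₀ →
      (charDegree (θ.1 : ↥C → ℂ) : ℤ) * ∑ f : ↥P →* ℂˣ, (a θ.1 f χ : ℤ) =
        (charDegree (θ₀.1 : ↥C → ℂ) : ℤ) * ∑ f : ↥P →* ℂˣ, (a θ₀.1 f χ : ℤ) := by
    rintro θ ⟨x, rfl⟩
    have h3 : ((((x • θ₀ : Th P C).1 : IrrCharacter C)) : ↥C → ℂ) = cjT H x θ₀.1 := rfl
    have h5 : ∑ f : ↥P →* ℂˣ, (a (x • θ₀ : Th P C).1 f χ : ℤ) = ∑ f : ↥P →* ℂˣ, (a θ₀.1 f χ : ℤ) := by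
      symm
      refine Fintype.sum_bijective (fun f : ↥P →* ℂˣ => x • f) (MulAction.bijective x) _ _ fun f => ?_
      rw [a_smul_act H ha χ x h3 f]
    rw [h5]
    congr 2
    unfold charDegree
    rw [h3]
    show ⌊((θ₀.1 : ↥C → ℂ) (H.cjC x 1)).re⌋₊ = _
    have h4 : H.cjC x 1 = 1 := Subtype.ext (by simp)
    rw [h4]
  have h6 : ∀ θ : Th P C, 0 ≤ (charDegree (θ.1 : ↥C → ℂ) : ℤ) * ∑ f : ↥P →* ℂˣ, (a θ.1 f χ : ℤ) := by
    intro θ
    apply mul_nonneg (by positivity)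
    exact Finset.sum_nonneg fun f _ => by positivity
  calc _ = ∑ θ ∈ Finset.univ.filter (fun θ : Th P C => θ ∈ MulAction.orbit (normalizer (P : Set G)) θ₀),
        (charDegree (θ.1 : ↥C → ℂ) : ℤ) * ∑ f : ↥P →* ℂˣ, (a θ.1 f χ : ℤ) := by
        rw [Finset.sum_congr rfl (fun θ hθ => h2 θ (Finset.mem_filter.1 hθ).2), Finset.sum_const, nsmul_eq_mul]
        congr 2
        rw [Nat.card_eq_fintype_card, Fintype.card_subtype]
    _ ≤ _ := Finset.sum_le_sum_of_subset_of_nonneg (Finset.filter_subset _ _) fun θ _ _ => h6 θ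

end Loc

/-- The structure theorem with `e = 2`. -/
structure Tree (p : ℕ) (P : Subgroup G) (a : (↥P →* ℂˣ) → IrrCharacter G → ℕ) where
  w : IrrCharacter G → ℤ
  σ : ℤ
  ξ : NT P → IrrCharacter G
  hσ : σ = 1 ∨ σ = -1
  hrel : ∀ (f : NT P) (χ : IrrCharacter G), (a f.1 χ : ℤ) - a 1 χ = w χ + σ * (if χ = ξ f then 1 else 0)
  hw0 : ∀ f, w (ξ f) = 0
  horb : ∀ f : NT P, Nat.card {g : NT P // ξ g = ξ f} = 2
  hsum : ∑ χ, (w χ) ^ 2 = 2
  hval : ∀ χ, w χ = 0 ∨ w χ = 1 ∨ w χ = -1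
  hreg : ∀ (f : NT P) (g : G), ¬ p ∣ orderOf g →
    ∑ χ : IrrCharacter G, (w χ : ℂ) * (χ : G → ℂ) g + (σ : ℂ) * ((ξ f : IrrCharacter G) : G → ℂ) g = 0
  hrange : Nat.card (Set.range ξ) * 2 = p - 1

section Loc

variable (H : Cfsg.Agent.Lib.TICent.Hyp p P C r e₀) [Fintype C]
include H

/-- The orbit of a nontrivial character under the stabilizer. -/
theorem card_fiber {θ : ↥C → ℂ} (hcl : IsClassFunction C θ) {e : ℕ} (hT : Nat.card (stabT H θ) = Nat.card C * e)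
    {ξ : NT P → IrrCharacter G} (hξ : ∀ f g : NT P, ξ f = ξ g ↔ ∃ x : stabT H θ, x • f = g) (f : NT P) :
    Nat.card {g : NT P // ξ g = ξ f} = e := by
  rw [← card_orbit_T H hcl hT f]
  apply Nat.card_congr
  refine Equiv.subtypeEquivRight fun g => ?_
  rw [MulAction.mem_orbit_iff]
  constructor
  · intro h
    exact (hξ f g).1 h.symm
  · intro h
    exact ((hξ f g).2 h).symm

/-- The sum of the multiplicities. -/
theorem sum_a_eq [Fintype (↥P →* ℂˣ)] [Fintype (NT P)] (hcard : Nat.card P = p) (X : (↥P →* ℂˣ) → ℕ) :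
    ∑ f : ↥P →* ℂˣ, (X f : ℤ) = (p : ℤ) * X 1 + ∑ f : NT P, ((X f.1 : ℤ) - X 1) := by
  classical
  have h2 : ∑ f : ↥P →* ℂˣ, (X f : ℤ) = (X 1 : ℤ) + ∑ f : NT P, (X f.1 : ℤ) := by
    convert Fintype.sum_eq_add_sum_subtype_ne _ (1 : ↥P →* ℂˣ)
  rw [h2, Finset.sum_sub_distrib]
  simp only [Finset.sum_const, Finset.card_univ, nsmul_eq_mul]
  rw [card_NT H hcard]
  ring

/-- All the multiplicities outside `θ₀` vanish. -/
theorem others_zero [Fintype (↥P →* ℂˣ)] [Fintype (Th P C)] {a : IrrCharacter C → (↥P →* ℂˣ) → IrrCharacter G → ℕ}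
    (ha : ∀ (θ : IrrCharacter C) (f : ↥P →* ℂˣ) (χ : IrrCharacter G),
      classInner (tw r f θ) (fun c : ↥C => (χ : G → ℂ) c) = (a θ f χ : ℂ)) (χ : IrrCharacter G) (θ₀ : Th P C)
    (h : (charDegree (θ₀.1 : ↥C → ℂ) : ℤ) * ∑ f : ↥P →* ℂˣ, (a θ₀.1 f χ : ℤ) = charDegree (χ : G → ℂ))
    (θ : Th P C) (hθ : θ ≠ θ₀) (f : ↥P →* ℂˣ) : a θ.1 f χ = 0 := by
  classical
  have h1 := deg_eq_sum H ha χ
  rw [← h, Fintype.sum_eq_add_sum_subtype_ne _ θ₀] at h1
  have h2 : ∑ t : {t : Th P C // t ≠ θ₀}, (charDegree (t.1.1 : ↥C → ℂ) : ℤ) * ∑ f : ↥P →* ℂˣ, (a t.1.1 f χ : ℤ) = 0 := by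
    linarith
  have hnn : ∀ t : Th P C, 0 ≤ (charDegree (t.1 : ↥C → ℂ) : ℤ) * ∑ f : ↥P →* ℂˣ, (a t.1 f χ : ℤ) := by
    intro t
    apply mul_nonneg (by positivity)
    exact Finset.sum_nonneg fun f _ => by positivity
  have h3 := (Finset.sum_eq_zero_iff_of_nonneg (fun t _ => hnn t.1)).1 h2 ⟨θ, hθ⟩ (Finset.mem_univ _)
  have h4 : (charDegree (θ.1 : ↥C → ℂ) : ℤ) ≠ 0 := by
    exact_mod_cast Cfsg.Agent.Lib.CharKernel.charDegree_ne_zero θ.1.2
  have h5 := (mul_eq_zero.1 h3).resolve_left h4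
  have h6 := (Finset.sum_eq_zero_iff_of_nonneg (fun t _ => by positivity)).1 h5 f (Finset.mem_univ _)
  exact_mod_cast h6

end Loc


section LocMain

variable (H : Cfsg.Agent.Lib.TICent.Hyp p P C r e₀) [Fintype C]
include H

set_option maxHeartbeats 2000000 in
/-- **Local structure.** -/
theorem loc [Fintype (↥P →* ℂˣ)] [Fintype (Th P C)] [Fintype (NT P)] [Fintype P] [Fintype r.ker]
    (hcard : Nat.card P = p) (hidx : ¬ p ∣ P.index) (hp5 : 5 < p) (hnn : ¬ P.Normal)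
    (ζ : IrrCharacter G) (hfaith : ∀ g : G, (ζ : G → ℂ) g = (ζ : G → ℂ) 1 → g = 1)
    (hdeg : charDegree (ζ : G → ℂ) = p - 2) {a : IrrCharacter C → (↥P →* ℂˣ) → IrrCharacter G → ℕ}
    (ha : ∀ (θ : IrrCharacter C) (f : ↥P →* ℂˣ) (χ : IrrCharacter G),
      classInner (tw r f θ) (fun c : ↥C => (χ : G → ℂ) c) = (a θ f χ : ℂ)) :
    Nat.card (normalizer (P : Set G)) = Nat.card C * 2 ∧
      ∃ (θ₀ : Th P C) (T : Tree p P (a θ₀.1)) (f₀ : NT P), charDegree (θ₀.1 : ↥C → ℂ) = 1 ∧ ζ = T.ξ f₀ ∧ T.σ = -1 ∧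
        a θ₀.1 1 ζ = 1 ∧ (∀ θ : Th P C, θ ≠ θ₀ → ∀ f, a θ.1 f ζ = 0) := by
  classical
  have hpp := H.prime
  haveI : Fact p.Prime := ⟨hpp⟩
  have hc : ∀ u ∈ P, ∀ v ∈ P, u * v = v * u := fun u hu v hv => (H.comm_P hu hv).symm
  have hζc : IsCharacter G (ζ : G → ℂ) := IsIrrCharacter.isCharacter ζ.2
  have hζ1 : (ζ : G → ℂ) 1 = ((p - 2 : ℕ) : ℂ) := by
    rw [Cfsg.Agent.Lib.CharKernel.one_eq_charDegree hζc, hdeg]
  have hp2 : ((p - 2 : ℕ) : ℤ) = (p : ℤ) - 2 := by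
    rw [Nat.cast_sub (by omega)]
    rfl
  -- Step 0
  obtain ⟨y₀, hy₀⟩ : ∃ z : ↥P, z ≠ 1 := by
    haveI : Nontrivial ↥P := by
      rw [← Finite.one_lt_card_iff_nontrivial, hcard]
      exact hpp.one_lt
    exact exists_ne 1
  have hstep0 : ∃ (θ₀ : Th P C) (f₁ : ↥P →* ℂˣ), f₁ ≠ 1 ∧ a θ₀.1 f₁ ζ ≠ 0 := by
    by_contra hcon
    push Not at hcon
    have h1 : ∀ c₀ : ↥C, (∀ θ : Th P C, (θ.1 : ↥C → ℂ) c₀ = (θ.1 : ↥C → ℂ) 1) → r c₀ = y₀ → (ζ : G → ℂ) c₀ = (ζ : G → ℂ) (1 : ↥C) := by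
      intro c₀ hθ hr
      rw [eval_tw H ha ζ c₀, eval_tw H ha ζ 1]
      refine Finset.sum_congr rfl fun θ _ => Finset.sum_congr rfl fun f _ => ?_
      by_cases hf : f = 1
      · subst hf
        simp [tw_apply, hθ θ]
      · rw [hcon θ f hf]
        simp
    have h2 := h1 (H.inP y₀) (fun θ => θ.2 _ y₀.2) (H.r_inP y₀)
    have h3 : (y₀ : G) = 1 := by
      apply hfaith
      rw [Subgroup.coe_one] at h2
      exact h2
    exact hy₀ (Subtype.ext h3)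
  obtain ⟨θ₀, f₁, hf₁, haf₁⟩ := hstep0
  letI := actTh H
  have hcl : IsClassFunction C (θ₀.1 : ↥C → ℂ) := isClassFunction_of_isCharacter (IsIrrCharacter.isCharacter θ₀.1.2)
  obtain ⟨e, hT⟩ := Cfsg.Agent.Lib.DefOneI.exists_e H hcl
  obtain ⟨f₀', hN⟩ := Cfsg.Agent.Lib.DefOneI.exists_f H
  have hCpos : 0 < Nat.card C := Nat.card_pos
  have hepos : 0 < e := by
    rcases Nat.eq_zero_or_pos e with h | h
    · subst h
      have : 0 < Nat.card (stabT H (θ₀.1 : ↥C → ℂ)) := Nat.card_pos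
      omega
    · exact h
  have hd₀ : 1 ≤ charDegree (θ₀.1 : ↥C → ℂ) := Cfsg.Agent.Lib.CharKernel.charDegree_pos θ₀.1.2
  -- the orbit
  have horb_pos : 0 < Nat.card (MulAction.orbit (normalizer (P : Set G)) θ₀) := by
    haveI : Nonempty (MulAction.orbit (normalizer (P : Set G)) θ₀) := ⟨⟨θ₀, MulAction.mem_orbit_self θ₀⟩⟩
    exact Nat.card_pos
  have hle := orbit_le H ha ζ θ₀
  rw [hdeg, hp2] at hle
  obtain ⟨A, hA⟩ : ∃ A : ℤ, A = ∑ f : ↥P →* ℂˣ, (a θ₀.1 f ζ : ℤ) := ⟨_, rfl⟩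
  rw [← hA] at hle
  have hA0 : 0 ≤ A := by
    rw [hA]
    exact Finset.sum_nonneg fun f _ => by positivity
  have hAle : A ≤ (p : ℤ) - 2 := by
    have h1 : (1 : ℤ) ≤ Nat.card (MulAction.orbit (normalizer (P : Set G)) θ₀) := by exact_mod_cast horb_pos
    have h2 : (1 : ℤ) ≤ charDegree (θ₀.1 : ↥C → ℂ) := by exact_mod_cast hd₀
    nlinarith [mul_nonneg (sub_nonneg.2 h1) (mul_nonneg (sub_nonneg.2 h2) hA0), mul_nonneg (sub_nonneg.2 h1) hA0, mul_nonneg (sub_nonneg.2 h2) hA0]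
  have hAexp := sum_a_eq H hcard (fun f => a θ₀.1 f ζ)
  rw [← hA] at hAexp
  -- non-flat
  have hnf : ¬ Flat r (θ₀.1 : ↥C → ℂ) (ζ : G → ℂ) := by
    intro hfl
    have h1 := (flat_iff H (ha θ₀.1) ζ).1 hfl
    have h2 : A = (p : ℤ) * a θ₀.1 1 ζ := by
      rw [hAexp]
      simp [h1]
    have h3 : a θ₀.1 1 ζ ≠ 0 := by
      rw [← h1 f₁]
      exact haf₁
    have h4 : (1 : ℤ) ≤ a θ₀.1 1 ζ := by
      have : 1 ≤ a θ₀.1 1 ζ := Nat.pos_of_ne_zero h3
      exact_mod_cast this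
    have hp0 : (0 : ℤ) < p := by exact_mod_cast hpp.pos
    nlinarith
  -- the block
  obtain ⟨M, hM⟩ := Cfsg.Agent.Lib.BlockVal.exists_isPModular hpp
  haveI := Cfsg.Agent.Lib.BlockLocal.isPrime_of_isPModular hM
  obtain ⟨B, hind⟩ := Cfsg.Agent.Lib.BlockSecond.exists_isInducedBlock_centralizer hM H.pgroup H.cen.symm
    (e := blockOf M (θ₀.1 : ↥C → ℂ)) ⟨θ₀.1, rfl⟩
  have hBP := Cfsg.Agent.Lib.DefOneJ.isDefectGroup_of_induced H hcard hidx hM θ₀ hind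
  have hB := hind.2.1
  have hζB : ζ ∈ B := mem_of_not_flat H hM θ₀.2 hind hnf
  obtain ⟨w, σ, ξ, n, hσ, hrel, hw0, hξ, hsum, hval, hreg, hrange, hmem, hne, hdX, hdY⟩ :=
    block_struct H hcard hidx hM hB hBP θ₀ hind hT hN ha
  -- `n` is the orbit size
  have hcm := card_orbit_mul H θ₀
  have hnorb : Nat.card (MulAction.orbit (normalizer (P : Set G)) θ₀) = n := by
    rw [hT, hN] at hcm
    have h1 : Nat.card C * (Nat.card (MulAction.orbit (normalizer (P : Set G)) θ₀) * e) = Nat.card C * (n * e) := by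
      rw [hne, ← hcm]
      ring
    have h2 := Nat.eq_of_mul_eq_mul_left hCpos h1
    exact Nat.eq_of_mul_eq_mul_right hepos h2
  rw [hnorb] at hle
  have hnpos : 1 ≤ n := by
    rw [← hnorb]
    exact horb_pos
  have hfib := card_fiber H hcl hT hξ
  -- `|N : C|` divides `p - 1`
  obtain ⟨D⟩ := Cfsg.Agent.Lib.RigB.exists_dat H hcard hidx hM hN
  have hf₀dvd : f₀' ∣ p - 1 := ⟨_, by rw [← D.hrange, mul_comm]⟩
  have hrel' : ∀ f : NT P, (a θ₀.1 f.1 ζ : ℤ) - a θ₀.1 1 ζ = w ζ + σ * (if ζ = ξ f then 1 else 0) := fun f => hrel f ζ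
  have hpZ : (6 : ℤ) ≤ p := by exact_mod_cast hp5
  have hcardNT : (Fintype.card (NT P) : ℤ) = (p : ℤ) - 1 := card_NT H hcard
  by_cases hζr : ∃ f₀ : NT P, ζ = ξ f₀
  swap
  · -- not exceptional
    exfalso
    push Not at hζr
    have h1 : ∀ f : NT P, (a θ₀.1 f.1 ζ : ℤ) - a θ₀.1 1 ζ = w ζ := by
      intro f
      rw [hrel' f, if_neg (hζr f)]
      ring
    have h2 : A = (p : ℤ) * a θ₀.1 1 ζ + ((p : ℤ) - 1) * w ζ := by
      rw [hAexp, Finset.sum_congr rfl fun f _ => h1 f, Finset.sum_const, Finset.card_univ, nsmul_eq_mul, hcardNT]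
    have hk0 : (0 : ℤ) ≤ a θ₀.1 1 ζ := by positivity
    rcases hval ζ with h | h | h
    · apply hnf
      rw [flat_iff H (ha θ₀.1) ζ]
      intro f
      by_cases hf : f = 1
      · rw [hf]
      · have := h1 ⟨f, hf⟩
        rw [h] at this
        simp only at this
        omega
    · rw [h] at h2
      nlinarith
    · have h3 := h1 ⟨f₁, hf₁⟩
      rw [h] at h3 h2
      simp only at h3
      have h4 : (1 : ℤ) ≤ a θ₀.1 f₁ ζ := by
        have : 1 ≤ a θ₀.1 f₁ ζ := Nat.pos_of_ne_zero haf₁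
        exact_mod_cast this
      have h5 : (2 : ℤ) ≤ a θ₀.1 1 ζ := by omega
      nlinarith
  obtain ⟨f₀, hf₀⟩ := hζr
  have hwζ : w ζ = 0 := by
    rw [hf₀]
    exact hw0 f₀
  have hfilter : ∑ f : NT P, (if ζ = ξ f then (1 : ℤ) else 0) = e := by
    rw [Finset.sum_boole, ← hfib f₀, Nat.card_eq_fintype_card, Fintype.card_subtype]
    congr 2
    ext g
    simp only [Finset.mem_filter, Finset.mem_univ, true_and, hf₀, eq_comm]
  have hAe : A = (p : ℤ) * a θ₀.1 1 ζ + σ * e := by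
    rw [hAexp, Finset.sum_congr rfl fun f _ => hrel' f, hwζ]
    simp only [zero_add]
    rw [← Finset.mul_sum, hfilter]
  have hedvd : e * Nat.card (Set.range ξ) = p - 1 := by
    rw [mul_comm]
    exact hrange
  have hcpos : 1 ≤ Nat.card (Set.range ξ) := by
    haveI : Nonempty (Set.range ξ) := ⟨⟨ξ f₀, f₀, rfl⟩⟩
    exact Nat.card_pos
  have hele : e ≤ p - 1 := by
    rw [← hedvd]
    exact Nat.le_mul_of_pos_right _ hcpos
  have heleZ : (e : ℤ) ≤ (p : ℤ) - 1 := by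
    have : (p : ℤ) - 1 = ((p - 1 : ℕ) : ℤ) := by
      rw [Nat.cast_sub (by omega)]
      rfl
    rw [this]
    exact_mod_cast hele
  have hdY' := hdY ζ ⟨f₀, hf₀.symm⟩
  rw [hdeg] at hdY'
  have hsle : (1 : ℤ) ≤ n * charDegree (θ₀.1 : ↥C → ℂ) := by
    have : 1 ≤ n * charDegree (θ₀.1 : ↥C → ℂ) := Nat.mul_pos hnpos hd₀
    exact_mod_cast this
  have hle' : ((n * charDegree (θ₀.1 : ↥C → ℂ) : ℕ) : ℤ) * A ≤ (p : ℤ) - 2 := by
    push_cast
    linarith
  have hk0 : (0 : ℤ) ≤ a θ₀.1 1 ζ := by positivity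
  have hepZ : (1 : ℤ) ≤ e := by exact_mod_cast hepos
  rcases hσ with hσ | hσ
  · -- sign `+1`
    exfalso
    rw [hσ] at hAe hdY'
    have hk : a θ₀.1 1 ζ = 0 := by
      by_contra hne0
      have : 1 ≤ a θ₀.1 1 ζ := Nat.pos_of_ne_zero hne0
      have h2 : (1 : ℤ) ≤ a θ₀.1 1 ζ := by exact_mod_cast this
      nlinarith
    rw [hk] at hAe
    simp only [Nat.cast_zero, mul_zero, zero_add, one_mul] at hAe
    have h3 : e * (n * charDegree (θ₀.1 : ↥C → ℂ)) ≤ p - 2 := by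
      have h4 : ((e * (n * charDegree (θ₀.1 : ↥C → ℂ)) : ℕ) : ℤ) ≤ ((p - 2 : ℕ) : ℤ) := by
        rw [hp2]
        push_cast at hle' ⊢
        rw [hAe] at hle'
        linarith
      exact_mod_cast h4
    have h5 := arith_plus (p := p) (e := e) (s := n * charDegree (θ₀.1 : ↥C → ℂ)) hp5 h3 (by
      push_cast
      exact hdY')
    -- `n e` divides `p - 1` and `p - 2`
    have h6 : n * e ∣ p - 1 := by
      rw [hne]
      exact hf₀dvd
    have h7 : n * e ∣ p - 2 := by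
      rw [← h5]
      exact ⟨charDegree (θ₀.1 : ↥C → ℂ), by ring⟩
    have h8 : n * e = 1 := by
      have h9 : p - 1 = (p - 2) + 1 := by omega
      rw [h9] at h6
      have h10 := (Nat.dvd_add_right h7).1 h6
      exact Nat.dvd_one.1 h10
    have hn1 : n = 1 := Nat.eq_one_of_mul_eq_one_right h8
    have he1 : e = 1 := Nat.eq_one_of_mul_eq_one_left h8
    subst hn1 he1
    simp only [one_mul] at h5
    have hA1 : A = 1 := by
      rw [hAe]
      simp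
    have hoth := others_zero H ha ζ θ₀ (by
      rw [← hA, hA1, h5, hdeg]
      simp)
    have hXf₀ : a θ₀.1 f₀.1 ζ = 1 := by
      have h10 := hrel' f₀
      rw [if_pos hf₀, hwζ, hσ, hk] at h10
      have : (a θ₀.1 f₀.1 ζ : ℤ) = 1 := by
        simpa using h10
      exact_mod_cast this
    have hsplit : ∑ f : ↥P →* ℂˣ, (a θ₀.1 f ζ : ℤ) = (a θ₀.1 f₀.1 ζ : ℤ) + ∑ t : {t : ↥P →* ℂˣ // t ≠ f₀.1}, (a θ₀.1 t.1 ζ : ℤ) :=
      Fintype.sum_eq_add_sum_subtype_ne _ f₀.1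
    rw [← hA, hA1, hXf₀] at hsplit
    have hzero : ∑ t : {t : ↥P →* ℂˣ // t ≠ f₀.1}, (a θ₀.1 t.1 ζ : ℤ) = 0 := by
      push_cast at hsplit
      linarith
    have hX0 : ∀ f : ↥P →* ℂˣ, f ≠ f₀.1 → a θ₀.1 f ζ = 0 := by
      intro f hf
      have h10 := (Finset.sum_eq_zero_iff_of_nonneg (fun t _ => by positivity)).1 hzero ⟨f, hf⟩ (Finset.mem_univ _)
      exact_mod_cast h10
    -- values on `P`
    have hval_P : ∀ y : ↥P, (ζ : G → ℂ) (y : G) = (charDegree (θ₀.1 : ↥C → ℂ) : ℂ) * ((f₀.1 y : ℂˣ) : ℂ) := by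
      intro y
      have h10 := eval_tw H ha ζ (H.inP y)
      rw [Fintype.sum_eq_single θ₀ (fun θ hθ => Finset.sum_eq_zero fun f _ => by rw [hoth θ hθ f]; simp),
        Fintype.sum_eq_single f₀.1 (fun f hf => by rw [hX0 f hf]; simp), hXf₀] at h10
      have h11 : (ζ : G → ℂ) (y : G) = (ζ : G → ℂ) ((H.inP y : ↥C) : G) := rfl
      rw [h11, h10, tw_apply, H.r_inP, θ₀.2 _ y.2, Cfsg.Agent.Lib.CharKernel.one_eq_charDegree (IsIrrCharacter.isCharacter θ₀.1.2)]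
      push_cast
      ring
    have hcentral : ∀ y ∈ P, ∀ g : G, y * g = g * y := by
      intro y hy g
      apply central_of_norm hζc hfaith _ g
      rw [hval_P ⟨y, hy⟩, norm_mul, Complex.norm_natCast]
      have h10 : ((f₀.1 ⟨y, hy⟩ : ℂˣ) : ℂ) ^ Nat.card P = 1 := by
        rw [← Units.val_pow_eq_pow_val, ← map_pow, pow_card_eq_one']
        simp
      rw [Complex.norm_eq_one_of_pow_eq_one h10 Nat.card_pos.ne', mul_one, h5, hdeg]
    apply hnn
    refine ⟨fun y hy g => ?_⟩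
    rw [← hcentral y hy g, mul_inv_cancel_right]
    exact hy
  · -- sign `-1`
    rw [hσ] at hAe hdY'
    have hk1 : a θ₀.1 1 ζ = 1 := by
      have h10 := hrel' f₀
      rw [if_pos hf₀, hwζ, hσ] at h10
      have h11 : (0 : ℤ) ≤ a θ₀.1 f₀.1 ζ := by positivity
      have h12 : (1 : ℤ) ≤ a θ₀.1 1 ζ := by linarith
      by_contra hne1
      have h13 : (2 : ℤ) ≤ a θ₀.1 1 ζ := by
        have : 2 ≤ a θ₀.1 1 ζ := by
          have h14 : 1 ≤ a θ₀.1 1 ζ := by exact_mod_cast h12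
          omega
        exact_mod_cast this
      nlinarith
    rw [hk1] at hAe
    simp only [Nat.cast_one, mul_one] at hAe
    have hAe' : A = ((p - e : ℕ) : ℤ) := by
      rw [Nat.cast_sub (by omega), hAe]
      ring
    have hsA : (n * charDegree (θ₀.1 : ↥C → ℂ)) * (p - e) ≤ p - 2 := by
      have h4 : (((n * charDegree (θ₀.1 : ↥C → ℂ)) * (p - e) : ℕ) : ℤ) ≤ ((p - 2 : ℕ) : ℤ) := by
        rw [hp2, Nat.cast_mul, ← hAe']
        exact hle'
      exact_mod_cast h4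
    have harith := arith_minus (p := p) (e := e) (s := n * charDegree (θ₀.1 : ↥C → ℂ)) (c := Nat.card (Set.range ξ)) hp5 hedvd
      (Nat.mul_pos hnpos hd₀) hsA (by
        push_cast
        exact hdY')
    rcases harith with hc1 | ⟨hs1, he2⟩
    · exfalso
      have hsub : Subsingleton (Set.range ξ) := by
        haveI : Finite (Set.range ξ) := Set.toFinite _
        exact (Nat.card_eq_one_iff_unique.1 hc1).1
      have h10 : ξ ⟨f₁, hf₁⟩ = ξ f₀ := by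
        have := Subsingleton.elim (⟨ξ ⟨f₁, hf₁⟩, _, rfl⟩ : Set.range ξ) ⟨ξ f₀, _, rfl⟩
        exact congrArg Subtype.val this
      have h11 := hrel' ⟨f₁, hf₁⟩
      rw [if_pos (by rw [h10]; exact hf₀), hwζ, hσ, hk1] at h11
      apply haf₁
      have : (a θ₀.1 f₁ ζ : ℤ) = 0 := by
        simpa using h11
      exact_mod_cast this
    · have hn1 : n = 1 := Nat.eq_one_of_mul_eq_one_right hs1
      have hd1 : charDegree (θ₀.1 : ↥C → ℂ) = 1 := Nat.eq_one_of_mul_eq_one_left hs1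
      subst hn1 he2
      have hoth := others_zero H ha ζ θ₀ (by
        rw [← hA, hd1, hAe', hdeg]
        simp)
      refine ⟨?_, θ₀, ⟨w, σ, ξ, Or.inr hσ, hrel, hw0, hfib, ?_, hval, hreg, hrange⟩, f₀, hd1, hf₀, hσ, hk1, hoth⟩
      · rw [hN, hne.symm]
      · rw [hsum]
        rfl

end LocMain

end Cfsg.Agent.Lib.Pm2B
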