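import Mathlib
import Cfsg.Agent.Lib.Pm2B

/-!
# `C(P) = P × K` with `K` central: the characters of `C` are linear and fixed by `N(P)`

Values on `C` of the members of a tree.
-/

set_option autoImplicit false
set_option linter.unusedVariables false
set_option linter.unusedSectionVars false
set_option linter.style.haveILetI false

namespace Cfsg.Agent.Lib.Pm2C

open Subgroup Cfsg Cfsg.Agent.Lib.CharBasic Cfsg.Agent.Lib.DefOneC Cfsg.Agent.Lib.DefOneE Cfsg.Agent.Lib.DefOneG Cfsg.Agent.Lib.DefOneH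
open Cfsg.Agent.Lib.DefectOne Cfsg.Agent.Lib.BlkBasic Cfsg.Agent.Lib.TICent Cfsg.Agent.Lib.DefOneF Cfsg.Agent.Lib.Pm2B
open scoped ComplexConjugate

variable {G : Type*} [Group G] [Fintype G] [DecidableEq G] {p : ℕ} {P C : Subgroup G} {r : ↥C →* ↥P} {e₀ : ℕ}

section Ctx

variable (H : Cfsg.Agent.Lib.TICent.Hyp p P C r e₀) (hZ : ∀ c : ↥C, r c = 1 → ∀ g : G, (c : G) * g = g * c)
include H hZ

/-- Every element of `C` is a product of an element of `P` and a central element. -/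
theorem exists_decomp (c : ↥C) : ∃ (y : ↥P) (z : ↥C), r z = 1 ∧ c = H.inP y * z := by
  refine ⟨r c, (H.inP (r c))⁻¹ * c, ?_, ?_⟩
  · rw [map_mul, map_inv, H.r_inP, inv_mul_cancel]
  · rw [mul_inv_cancel_left]

theorem comm_C (c d : ↥C) : c * d = d * c := by
  obtain ⟨y, z, hz, rfl⟩ := exists_decomp H hZ c
  apply Subtype.ext
  have h1 : ((z : ↥C) : G) * (d : G) = d * z := hZ z hz d
  have h2 : (y : G) * (d : G) = d * y := (H.comm y.2 d.2).symm
  show (y : G) * (z : G) * (d : G) = (d : G) * ((y : G) * (z : G))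
  rw [mul_assoc, h1, ← mul_assoc, h2, mul_assoc]

variable [Fintype C]

/-- The characters of `C` are linear. -/
theorem deg_one {θ : ↥C → ℂ} (hθ : IsIrrCharacter C θ) : charDegree θ = 1 := by
  have h1 := Cfsg.Agent.Lib.CharCentral.card_center_mul_sq_le hθ
  have h2 : Subgroup.center ↥C = ⊤ := by
    rw [eq_top_iff]
    intro c _
    rw [Subgroup.mem_center_iff]
    intro d
    exact comm_C H hZ d c
  rw [h2, Nat.card_congr Subgroup.topEquiv.toEquiv] at h1
  have hC : 0 < Nat.card ↥C := Nat.card_pos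
  have h3 : charDegree θ ^ 2 ≤ 1 := by
    have : Nat.card ↥C * charDegree θ ^ 2 ≤ Nat.card ↥C * 1 := by simpa using h1
    exact Nat.le_of_mul_le_mul_left this hC
  have h4 := Cfsg.Agent.Lib.CharKernel.charDegree_pos hθ
  nlinarith

theorem val_one {θ : ↥C → ℂ} (hθ : IsIrrCharacter C θ) : θ 1 = 1 := by
  rw [Cfsg.Agent.Lib.CharKernel.one_eq_charDegree (IsIrrCharacter.isCharacter hθ), deg_one H hZ hθ]
  simp

theorem th_mul {θ : ↥C → ℂ} (hθ : IsIrrCharacter C θ) (c d : ↥C) : θ (c * d) = θ c * θ d := by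
  have h1 := Cfsg.Agent.Lib.CharCentral.central_mul hθ (z := c) (fun g => comm_C H hZ c g) d
  rw [val_one H hZ hθ, one_mul] at h1
  exact h1

theorem th_norm {θ : ↥C → ℂ} (hθ : IsIrrCharacter C θ) (c : ↥C) : ‖θ c‖ = 1 := by
  have h1 := Cfsg.Agent.Lib.CharCentral.central_norm hθ (z := c) (fun g => comm_C H hZ c g)
  rw [val_one H hZ hθ, one_mul, Complex.mul_conj, Complex.normSq_eq_norm_sq] at h1
  have h2 : ‖θ c‖ ^ 2 = 1 := by exact_mod_cast h1
  have h3 : 0 ≤ ‖θ c‖ := norm_nonneg _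
  nlinarith

theorem th_inP {θ : ↥C → ℂ} (hθ : IsIrrCharacter C θ) (hk : KerP P C θ) (y : ↥P) (c : ↥C) : θ (H.inP y * c) = θ c := by
  rw [th_mul H hZ hθ, hk _ y.2, val_one H hZ hθ, one_mul]

/-- The stabilizer is everything. -/
theorem stab_top {θ : ↥C → ℂ} (hθ : IsIrrCharacter C θ) (hk : KerP P C θ) (x : normalizer (P : Set G)) :
    x ∈ stabT H θ := by
  rw [mem_stabT]
  funext c
  obtain ⟨y, z, hz, rfl⟩ := exists_decomp H hZ c
  show θ (H.cjC x (H.inP y * z)) = θ (H.inP y * z)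
  have hy : (x : G)⁻¹ * (y : G) * (x : G) ∈ P := by
    have := (mem_normalizer_iff.1 (x⁻¹ : normalizer (P : Set G)).2 y).1 y.2
    simpa using this
  have h1 : H.cjC x (H.inP y * z) = H.inP ⟨_, hy⟩ * z := by
    apply Subtype.ext
    have h2 : ((z : ↥C) : G) * (x : G) = (x : G) * z := hZ z hz _
    rw [Hyp.cjC_coe]
    show (x : G)⁻¹ * ((y : G) * (z : G)) * (x : G) = (x : G)⁻¹ * (y : G) * (x : G) * (z : G)
    rw [mul_assoc (x : G)⁻¹, mul_assoc (y : G), h2]
    group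
  rw [h1, th_inP H hZ hθ hk, th_inP H hZ hθ hk]

theorem card_stab {θ : ↥C → ℂ} (hθ : IsIrrCharacter C θ) (hk : KerP P C θ) :
    Nat.card (stabT H θ) = Nat.card (normalizer (P : Set G)) := by
  have h1 : stabT H θ = ⊤ := by
    rw [eq_top_iff]
    intro x _
    exact stab_top H hZ hθ hk x
  rw [h1]
  exact Nat.card_congr Subgroup.topEquiv.toEquiv

/-- The tree attached to a character of `C`. -/
theorem exists_tree {θ : ↥C → ℂ} (hθ : IsIrrCharacter C θ) (hk : KerP P C θ) (hN : Nat.card (normalizer (P : Set G)) = Nat.card C * 2)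
    (hcard : Nat.card P = p) (hidx : ¬ p ∣ P.index) {a : (↥P →* ℂˣ) → IrrCharacter G → ℕ}
    (ha : ∀ (f : ↥P →* ℂˣ) (χ : IrrCharacter G), classInner (tw r f θ) (fun c : ↥C => (χ : G → ℂ) c) = (a f χ : ℂ)) :
    Nonempty (Tree p P a) := by
  obtain ⟨M, hM⟩ := Cfsg.Agent.Lib.BlockVal.exists_isPModular H.prime
  have hT : Nat.card (stabT H θ) = Nat.card C * 2 := by
    rw [card_stab H hZ hθ hk, hN]
  obtain ⟨w, σ, ξ, hσ, hrel, hw0, hξ, hsum, hval, hreg, hrange⟩ := struct_θ H hcard hidx hM hθ hk hT ha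
  have hcl : IsClassFunction C θ := isClassFunction_of_isCharacter (IsIrrCharacter.isCharacter hθ)
  exact ⟨⟨w, σ, ξ, hσ, hrel, hw0, card_fiber H hcl hT hξ, by rw [hsum]; rfl, hval, hreg, hrange⟩⟩

end Ctx

end Cfsg.Agent.Lib.Pm2C
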