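import Mathlib
import Cfsg.Agent.Lib.Pm2C

/-!
# The members of a tree: support, degrees, and the values at an inverting involution
-/

set_option autoImplicit false
set_option linter.unusedVariables false
set_option linter.unusedSectionVars false
set_option linter.style.haveILetI false

namespace Cfsg.Agent.Lib.Pm2D

open Subgroup Cfsg Cfsg.Agent.Lib.CharBasic Cfsg.Agent.Lib.DefOneC Cfsg.Agent.Lib.DefOneE Cfsg.Agent.Lib.DefOneG Cfsg.Agent.Lib.DefOneH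
open Cfsg.Agent.Lib.DefectOne Cfsg.Agent.Lib.BlkBasic Cfsg.Agent.Lib.TICent Cfsg.Agent.Lib.DefOneF Cfsg.Agent.Lib.Pm2B Cfsg.Agent.Lib.Pm2C
open Cfsg.Agent.Lib.Pm2A
open scoped ComplexConjugate

variable {G : Type*} [Group G] [Fintype G] [DecidableEq G] {p : ℕ} {P C : Subgroup G} {r : ↥C →* ↥P} {e₀ : ℕ}

section Mem

variable (H : Cfsg.Agent.Lib.TICent.Hyp p P C r e₀) (hZ : ∀ c : ↥C, r c = 1 → ∀ g : G, (c : G) * g = g * c) [Fintype C]
  [Fintype (↥P →* ℂˣ)] [Fintype (Th P C)] [Fintype P] {a : IrrCharacter C → (↥P →* ℂˣ) → IrrCharacter G → ℕ}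
  (ha : ∀ (θ : IrrCharacter C) (f : ↥P →* ℂˣ) (χ : IrrCharacter G),
      classInner (tw r f θ) (fun c : ↥C => (χ : G → ℂ) c) = (a θ f χ : ℂ))
include H hZ ha

/-- The central character of `χ` is read off from any constituent on `C`. -/
theorem support {θ : IrrCharacter C} {f : ↥P →* ℂˣ} {χ : IrrCharacter G} (h : a θ f χ ≠ 0) {z : ↥C} (hz : r z = 1) :
    (θ : ↥C → ℂ) z * (χ : G → ℂ) 1 = (χ : G → ℂ) z := by
  have hcz : ∀ g : G, (z : G) * g = g * z := hZ z hz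
  have hα := Cfsg.Agent.Lib.CharKernel.one_eq_charDegree (IsIrrCharacter.isCharacter χ.2)
  have hα0 : (χ : G → ℂ) 1 ≠ 0 := by
    rw [hα]
    exact_mod_cast Cfsg.Agent.Lib.CharKernel.charDegree_ne_zero χ.2
  have hconjα : conj ((χ : G → ℂ) 1) = (χ : G → ℂ) 1 := by
    rw [hα, Complex.conj_natCast]
  have hCne : (Nat.card C : ℂ) ≠ 0 := by
    exact_mod_cast Nat.card_pos.ne'
  have h0 : ((a θ f χ : ℕ) : ℂ) ≠ 0 := by
    exact_mod_cast h
  have hsum := ha θ f χ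
  unfold classInner at hsum
  have h1 : ∑ c : ↥C, tw r f θ c * conj ((χ : G → ℂ) c) =
      (θ : ↥C → ℂ) z * (conj ((χ : G → ℂ) z) / (χ : G → ℂ) 1) * ∑ c : ↥C, tw r f θ c * conj ((χ : G → ℂ) c) := by
    conv_lhs => rw [← Fintype.sum_bijective (fun c : ↥C => z * c) (Group.mulLeft_bijective z)
      (fun c => tw r f θ (z * c) * conj ((χ : G → ℂ) ((z * c : ↥C) : G))) _ (fun c => rfl)]
    rw [Finset.mul_sum]
    refine Finset.sum_congr rfl fun c _ => ?_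
    have h2 := Cfsg.Agent.Lib.CharCentral.central_mul χ.2 hcz (c : G)
    have h3 : (χ : G → ℂ) ((z * c : ↥C) : G) = (χ : G → ℂ) z * (χ : G → ℂ) c / (χ : G → ℂ) 1 := by
      rw [eq_div_iff hα0, mul_comm _ ((χ : G → ℂ) 1), Subgroup.coe_mul]
      exact h2
    have h4 : tw r f θ (z * c) = (θ : ↥C → ℂ) z * tw r f θ c := by
      simp only [tw_apply, map_mul, hz, one_mul]
      rw [th_mul H hZ θ.2]
      ring
    rw [h3, h4, map_div₀, map_mul, hconjα]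
    ring
  have h5 : ∑ c : ↥C, tw r f θ c * conj ((χ : G → ℂ) c) ≠ 0 := by
    intro h6
    apply h0
    rw [← hsum, h6, mul_zero]
  have h6 : (θ : ↥C → ℂ) z * (conj ((χ : G → ℂ) z) / (χ : G → ℂ) 1) = 1 := by
    have := mul_right_cancel₀ h5 (by rw [one_mul]; exact h1.symm :
      (θ : ↥C → ℂ) z * (conj ((χ : G → ℂ) z) / (χ : G → ℂ) 1) * ∑ c : ↥C, tw r f θ c * conj ((χ : G → ℂ) c) =
        1 * ∑ c : ↥C, tw r f θ c * conj ((χ : G → ℂ) c))
    exact this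
  have h7 : (θ : ↥C → ℂ) z * conj ((θ : ↥C → ℂ) z) = 1 := by
    rw [Complex.mul_conj, Complex.normSq_eq_norm_sq, th_norm H hZ θ.2]
    simp
  have h8 : conj ((χ : G → ℂ) z) = conj ((θ : ↥C → ℂ) z) * (χ : G → ℂ) 1 := by
    field_simp at h6
    linear_combination (conj ((θ : ↥C → ℂ) z)) * h6 - (conj ((χ : G → ℂ) z)) * h7
  have h9 := congrArg conj h8
  rw [Complex.conj_conj, map_mul, Complex.conj_conj, hconjα] at h9
  exact h9.symm

/-- At most one `θ` occurs in `χ`. -/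
theorem support_unique {θ θ' : Th P C} {f f' : ↥P →* ℂˣ} {χ : IrrCharacter G} (h : a θ.1 f χ ≠ 0) (h' : a θ'.1 f' χ ≠ 0) : θ = θ' := by
  apply Subtype.ext
  apply Subtype.ext
  funext c
  obtain ⟨y, z, hz, rfl⟩ := exists_decomp H hZ c
  rw [th_inP H hZ θ.1.2 θ.2, th_inP H hZ θ'.1.2 θ'.2]
  have h1 := support H hZ ha h hz
  have h2 := support H hZ ha h' hz
  have hα := Cfsg.Agent.Lib.CharKernel.one_eq_charDegree (IsIrrCharacter.isCharacter χ.2)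
  have hα0 : (χ : G → ℂ) 1 ≠ 0 := by
    rw [hα]
    exact_mod_cast Cfsg.Agent.Lib.CharKernel.charDegree_ne_zero χ.2
  exact mul_right_cancel₀ hα0 (h1.trans h2.symm)

theorem eval_supp {θ : Th P C} {f₁ : ↥P →* ℂˣ} {χ : IrrCharacter G} (h : a θ.1 f₁ χ ≠ 0) (c₀ : ↥C) :
    (χ : G → ℂ) c₀ = ∑ f : ↥P →* ℂˣ, (a θ.1 f χ : ℂ) * tw r f θ.1 c₀ := by
  rw [eval_tw H ha χ c₀, Fintype.sum_eq_single θ]
  intro θ' hθ'
  refine Finset.sum_eq_zero fun f _ => ?_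
  have h1 : a θ'.1 f χ = 0 := by
    by_contra h2
    exact hθ' (support_unique H hZ ha h2 h)
  rw [h1]
  simp

theorem deg_supp {θ : Th P C} {f₁ : ↥P →* ℂˣ} {χ : IrrCharacter G} (h : a θ.1 f₁ χ ≠ 0) :
    (charDegree (χ : G → ℂ) : ℤ) = ∑ f : ↥P →* ℂˣ, (a θ.1 f χ : ℤ) := by
  rw [deg_eq_sum H ha χ, Fintype.sum_eq_single θ, deg_one H hZ θ.1.2]
  · simp
  · intro θ' hθ'
    have h1 : ∑ f : ↥P →* ℂˣ, (a θ'.1 f χ : ℤ) = 0 := by
      refine Finset.sum_eq_zero fun f _ => ?_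
      have h1 : a θ'.1 f χ = 0 := by
        by_contra h2
        exact hθ' (support_unique H hZ ha h2 h)
      rw [h1]
      simp
    rw [h1, mul_zero]

theorem eval_P {θ : Th P C} {f₁ : ↥P →* ℂˣ} {χ : IrrCharacter G} (h : a θ.1 f₁ χ ≠ 0) (y : ↥P) :
    (χ : G → ℂ) y = ∑ f : ↥P →* ℂˣ, (a θ.1 f χ : ℂ) * ((f y : ℂˣ) : ℂ) := by
  have h1 := eval_supp H hZ ha h (H.inP y)
  have h2 : (χ : G → ℂ) y = (χ : G → ℂ) ((H.inP y : ↥C) : G) := rfl
  rw [h2, h1]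
  refine Finset.sum_congr rfl fun f _ => ?_
  rw [tw_apply, H.r_inP, θ.2 _ y.2, val_one H hZ θ.1.2, mul_one]

theorem sum_P {θ : Th P C} {f₁ : ↥P →* ℂˣ} {χ : IrrCharacter G} (h : a θ.1 f₁ χ ≠ 0) :
    ∑ y : ↥P, (χ : G → ℂ) y = (a θ.1 1 χ : ℂ) * (Nat.card P : ℂ) := by
  classical
  simp_rw [eval_P H hZ ha h]
  rw [Finset.sum_comm, Fintype.sum_eq_single (1 : ↥P →* ℂˣ)]
  · simp [Nat.card_eq_fintype_card, mul_comm]
  · intro f hf
    rw [← Finset.mul_sum]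
    have h1 : ∑ y : ↥P, ((f y : ℂˣ) : ℂ) = 0 := by
      have h2 : ((Units.coeHom ℂ).comp f) ≠ 1 := by
        intro h3
        apply hf
        ext y
        have := DFunLike.congr_fun h3 y
        simpa using this
      have := sum_hom_units_eq_zero ((Units.coeHom ℂ).comp f) h2
      simpa using this
    rw [h1, mul_zero]

/-- The value at an involution inverting `P`. -/
theorem val_u {θ : Th P C} {f₁ : ↥P →* ℂˣ} {χ : IrrCharacter G} (h : a θ.1 f₁ χ ≠ 0) {u : G} (hu : u * u = 1)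
    (hinv : ∀ y ∈ P, u * y * u⁻¹ = y⁻¹) (hodd : Odd (Nat.card P)) :
    ∃ x : ℤ, (χ : G → ℂ) u = x ∧ |x| ≤ (a θ.1 1 χ : ℤ) := by
  obtain ⟨n, ρ, hρ⟩ := IsIrrCharacter.isCharacter χ.2
  obtain ⟨n₁, n₂, h1, h2⟩ := inv_val ρ hu hinv hodd
  have hP : (Nat.card P : ℂ) ≠ 0 := by
    exact_mod_cast Nat.card_pos.ne'
  have h3 : ∑ y : ↥P, ρ.character (y : G) = ∑ y : ↥P, (χ : G → ℂ) y := by
    rw [hρ]
  rw [h3, sum_P H hZ ha h] at h1
  have h4 := mul_right_cancel₀ hP h1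
  have h5 : n₁ + n₂ = a θ.1 1 χ := by exact_mod_cast h4
  refine ⟨(n₁ : ℤ) - n₂, ?_, ?_⟩
  · rw [hρ] at h2
    push_cast
    exact h2
  · rw [← h5, abs_le]
    push_cast
    constructor <;> linarith [(Nat.cast_nonneg n₁ : (0 : ℤ) ≤ n₁), (Nat.cast_nonneg n₂ : (0 : ℤ) ≤ n₂)]

end Mem

section TreeMem

variable {a : (↥P →* ℂˣ) → IrrCharacter G → ℕ} (T : Tree p P a)

theorem exists_first : ∃ A, T.w A ≠ 0 := by
  by_contra hcon
  push Not at hcon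
  have h1 := T.hsum
  simp [hcon] at h1

theorem exists_second {A : IrrCharacter G} (hA : T.w A ≠ 0) : ∃ B, B ≠ A ∧ T.w B ≠ 0 ∧ ∀ χ, χ ≠ A → χ ≠ B → T.w χ = 0 := by
  classical
  have hsq : ∀ χ, T.w χ ≠ 0 → (T.w χ) ^ 2 = 1 := by
    intro χ hχ
    rcases T.hval χ with h | h | h
    · exact absurd h hχ
    · rw [h]; norm_num
    · rw [h]; norm_num
  have h1 := T.hsum
  rw [← Finset.add_sum_erase _ _ (Finset.mem_univ A), hsq A hA] at h1
  have h2 : ∑ χ ∈ Finset.univ.erase A, (T.w χ) ^ 2 = 1 := by linarith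
  obtain ⟨B, hB, hwB⟩ : ∃ B ∈ Finset.univ.erase A, T.w B ≠ 0 := by
    by_contra hcon
    push Not at hcon
    rw [Finset.sum_eq_zero (fun χ hχ => by rw [hcon χ hχ]; norm_num)] at h2
    norm_num at h2
  refine ⟨B, (Finset.mem_erase.1 hB).1, hwB, fun χ hχA hχB => ?_⟩
  rw [← Finset.add_sum_erase _ _ hB, hsq B hwB] at h2
  have h3 : ∑ χ ∈ (Finset.univ.erase A).erase B, (T.w χ) ^ 2 = 0 := by linarith
  have h4 := (Finset.sum_eq_zero_iff_of_nonneg (fun χ _ => sq_nonneg (T.w χ))).1 h3 χ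
    (Finset.mem_erase.2 ⟨hχB, Finset.mem_erase.2 ⟨hχA, Finset.mem_univ _⟩⟩)
  exact pow_eq_zero_iff (two_ne_zero) |>.1 h4

theorem sum_w {A B : IrrCharacter G} (hne : B ≠ A) (h0 : ∀ χ, χ ≠ A → χ ≠ B → T.w χ = 0) (F : IrrCharacter G → ℂ) :
    ∑ χ, (T.w χ : ℂ) * F χ = (T.w A : ℂ) * F A + (T.w B : ℂ) * F B := by
  classical
  rw [Finset.sum_eq_add A B hne.symm]
  · intro χ _ hχ
    rw [h0 χ hχ.1 hχ.2]
    simp
  · simp
  · simp

/-- A nonzero weight is not exceptional. -/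
theorem ne_exc {χ : IrrCharacter G} (h : T.w χ ≠ 0) (f : NT P) : χ ≠ T.ξ f := by
  rintro rfl
  exact h (T.hw0 f)

theorem rel_nonexc {χ : IrrCharacter G} (h : T.w χ ≠ 0) (f : NT P) : (a f.1 χ : ℤ) - a 1 χ = T.w χ := by
  rw [T.hrel f χ, if_neg (ne_exc T h f)]
  ring

theorem rel_exc (f : NT P) : (a f.1 (T.ξ f) : ℤ) - a 1 (T.ξ f) = T.σ := by
  rw [T.hrel f, if_pos rfl, T.hw0 f]
  ring

theorem sigma_ne : T.σ ≠ 0 := by
  rcases T.hσ with h | h <;> rw [h] <;> norm_num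

end TreeMem

section TreeDeg

variable (H : Cfsg.Agent.Lib.TICent.Hyp p P C r e₀) (hZ : ∀ c : ↥C, r c = 1 → ∀ g : G, (c : G) * g = g * c) [Fintype C]
  [Fintype (↥P →* ℂˣ)] [Fintype (Th P C)] [Fintype (NT P)] [Fintype P] {a : IrrCharacter C → (↥P →* ℂˣ) → IrrCharacter G → ℕ}
  (ha : ∀ (θ : IrrCharacter C) (f : ↥P →* ℂˣ) (χ : IrrCharacter G),
      classInner (tw r f θ) (fun c : ↥C => (χ : G → ℂ) c) = (a θ f χ : ℂ))
  (hcard : Nat.card P = p) {θ : Th P C} (T : Tree p P (a θ.1))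
include H hZ ha hcard

theorem exists_NT : Nonempty (NT P) := by
  classical
  have h1 := card_NT H hcard
  have hp := H.prime.two_le
  have h2 : 0 < Fintype.card (NT P) := by
    have : (0 : ℤ) < Fintype.card (NT P) := by
      rw [h1]
      have : (2 : ℤ) ≤ p := by exact_mod_cast hp
      linarith
    exact_mod_cast this
  exact Fintype.card_pos_iff.1 h2

/-- A character with nonzero difference is supported on `θ`. -/
theorem supp_of_diff {f : ↥P →* ℂˣ} {χ : IrrCharacter G} (h : (a θ.1 f χ : ℤ) - a θ.1 1 χ ≠ 0) : ∃ f₁, a θ.1 f₁ χ ≠ 0 := by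
  by_cases h1 : a θ.1 f χ = 0
  · refine ⟨1, fun h2 => h ?_⟩
    rw [h1, h2]
    simp
  · exact ⟨f, h1⟩

theorem supp_nonexc {χ : IrrCharacter G} (h : T.w χ ≠ 0) : ∃ f₁, a θ.1 f₁ χ ≠ 0 := by
  obtain ⟨f⟩ := exists_NT H hZ ha hcard
  apply supp_of_diff H hZ ha hcard (f := f.1)
  rw [rel_nonexc T h f]
  exact h

theorem supp_exc (f : NT P) : ∃ f₁, a θ.1 f₁ (T.ξ f) ≠ 0 := by
  apply supp_of_diff H hZ ha hcard (f := f.1)
  rw [rel_exc T f]
  exact sigma_ne T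

theorem deg_nonexc {χ : IrrCharacter G} (h : T.w χ ≠ 0) :
    (charDegree (χ : G → ℂ) : ℤ) = (p : ℤ) * a θ.1 1 χ + ((p : ℤ) - 1) * T.w χ := by
  obtain ⟨f₁, hf₁⟩ := supp_nonexc H hZ ha hcard T h
  rw [deg_supp H hZ ha hf₁, sum_a_eq H hcard (fun f => a θ.1 f χ), Finset.sum_congr rfl (fun f _ => rel_nonexc T h f)]
  simp only [Finset.sum_const, Finset.card_univ, nsmul_eq_mul]
  rw [card_NT H hcard]

theorem deg_exc (f₀ : NT P) :
    (charDegree ((T.ξ f₀ : IrrCharacter G) : G → ℂ) : ℤ) = (p : ℤ) * a θ.1 1 (T.ξ f₀) + 2 * T.σ := by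
  classical
  obtain ⟨f₁, hf₁⟩ := supp_exc H hZ ha hcard T f₀
  rw [deg_supp H hZ ha hf₁, sum_a_eq H hcard (fun f => a θ.1 f (T.ξ f₀))]
  congr 1
  have h1 : ∀ f : NT P, (a θ.1 f.1 (T.ξ f₀) : ℤ) - a θ.1 1 (T.ξ f₀) = T.σ * (if T.ξ f = T.ξ f₀ then 1 else 0) := by
    intro f
    rw [T.hrel f, T.hw0 f₀, zero_add]
    congr 1
    by_cases h : T.ξ f = T.ξ f₀
    · rw [if_pos h.symm, if_pos h]
    · rw [if_neg (Ne.symm h), if_neg h]
  rw [Finset.sum_congr rfl (fun f _ => h1 f), ← Finset.mul_sum, Finset.sum_boole]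
  have h2 := T.horb f₀
  rw [Nat.card_eq_fintype_card, Fintype.card_subtype] at h2
  rw [h2]
  push_cast
  ring

end TreeDeg

end Cfsg.Agent.Lib.Pm2D
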