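import Mathlib
import Cfsg.Agent.Lib.Pm2D

/-!
# The count `cnt u` at an involution inverting `P`
-/

set_option autoImplicit false
set_option linter.unusedVariables false
set_option linter.unusedSectionVars false
set_option linter.style.haveILetI false

namespace Cfsg.Agent.Lib.Pm2E

open Subgroup Cfsg Cfsg.Agent.Lib.CharBasic Cfsg.Agent.Lib.DefOneC Cfsg.Agent.Lib.DefOneE Cfsg.Agent.Lib.DefOneG Cfsg.Agent.Lib.DefOneH
open Cfsg.Agent.Lib.DefectOne Cfsg.Agent.Lib.BlkBasic Cfsg.Agent.Lib.TICent Cfsg.Agent.Lib.DefOneF Cfsg.Agent.Lib.Pm2B Cfsg.Agent.Lib.Pm2C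
open Cfsg.Agent.Lib.Pm2A Cfsg.Agent.Lib.Pm2D
open scoped ComplexConjugate

variable {G : Type*} [Group G] [Fintype G]

section Fib

open scoped Classical in
/-- The number of `b` with `b t b⁻¹ = x`. -/
noncomputable def fib (t x : G) : ℕ := ∑ b : G, if b * t * b⁻¹ = x then 1 else 0

theorem fib_conj (t a₀ : G) : fib t (a₀ * t * a₀⁻¹) = fib t t := by
  classical
  unfold fib
  refine Fintype.sum_bijective (fun b => a₀⁻¹ * b) (Group.mulLeft_bijective a₀⁻¹) _ _ fun b => ?_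
  congr 1
  simp only [eq_iff_iff]
  constructor
  · intro h
    calc a₀⁻¹ * b * t * (a₀⁻¹ * b)⁻¹ = a₀⁻¹ * (b * t * b⁻¹) * a₀ := by group
      _ = t := by rw [h]; group
  · intro h
    calc b * t * b⁻¹ = a₀ * (a₀⁻¹ * b * t * (a₀⁻¹ * b)⁻¹) * a₀⁻¹ := by group
      _ = a₀ * t * a₀⁻¹ := by rw [h]

theorem fib_eq_zero {t x : G} (h : ∀ b : G, b * t * b⁻¹ ≠ x) : fib t x = 0 := by
  classical
  unfold fib
  exact Finset.sum_eq_zero fun b _ => if_neg (h b)

theorem fib_pos_of_ne {t x : G} (h : fib t x ≠ 0) : ∃ b : G, b * t * b⁻¹ = x := by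
  by_contra hcon
  push Not at hcon
  exact h (fib_eq_zero hcon)

theorem cnt_eq_sum_fib (t y : G) : cnt t y = ∑ a : G, fib t ((a * t * a⁻¹)⁻¹ * y) := by
  classical
  unfold cnt fib
  refine Finset.sum_congr rfl fun a _ => Finset.sum_congr rfl fun b _ => ?_
  congr 1
  simp only [eq_iff_iff]
  constructor
  · intro h
    have h1 : b * t * b⁻¹ = ((a * t * a⁻¹))⁻¹ * y := by
      calc b * t * b⁻¹ = (y⁻¹ * (a * t * a⁻¹))⁻¹ * (y⁻¹ * (a * t * a⁻¹) * (b * t * b⁻¹)) := by group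
        _ = _ := by rw [h]; group
    exact h1
  · intro h
    rw [h]
    group

theorem fib_self (t : G) : fib t t = Nat.card (centralizer ({t} : Set G)) := by
  classical
  unfold fib
  rw [Finset.sum_boole, Nat.cast_id, Nat.card_eq_fintype_card]
  symm
  apply Fintype.card_of_subtype
  intro x
  rw [Finset.mem_filter, mem_centralizer_iff]
  simp only [Finset.mem_univ, true_and, Set.mem_singleton_iff, forall_eq]
  constructor
  · intro h
    nth_rw 1 [← h]
    group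
  · intro h
    rw [← h]
    group

end Fib

/-- The product of two involutions is inverted by each. -/
theorem inverts_of_product {v w c : G} (hv2 : v * v = 1) (hw2 : w * w = 1) (hvw : v * w = c) : v * c * v⁻¹ = c⁻¹ := by
  have hvinv : v⁻¹ = v := inv_eq_iff_mul_eq_one.2 hv2
  have hwinv : w⁻¹ = w := inv_eq_iff_mul_eq_one.2 hw2
  subst hvw
  rw [mul_inv_rev, hvinv, hwinv]
  calc v * (v * w) * v = (v * v) * w * v := by group
    _ = w * v := by rw [hv2, one_mul]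

theorem conj_invol {u : G} (hu : u * u = 1) (a : G) : (a * u * a⁻¹) * (a * u * a⁻¹) = 1 := by
  calc a * u * a⁻¹ * (a * u * a⁻¹) = a * (u * u) * a⁻¹ := by group
    _ = 1 := by rw [hu]; group

section Inv

variable [DecidableEq G] {p : ℕ} {P C : Subgroup G} {r : ↥C →* ↥P} {e₀ : ℕ} (H : Cfsg.Agent.Lib.TICent.Hyp p P C r e₀)
  (hcard : Nat.card P = p)
include H hcard

theorem pow_gen {y h : G} (hy : y ∈ P) (hy1 : y ≠ 1) (hh : h ∈ P) : ∃ k : ℕ, h = y ^ k := by
  haveI : Fact p.Prime := ⟨H.prime⟩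
  have h1 := mem_powers_of_prime_card (G := ↥P) (p := p) (g := ⟨y, hy⟩) (g' := ⟨h, hh⟩) hcard
    (by intro h2; exact hy1 (congrArg Subtype.val h2))
  obtain ⟨k, hk⟩ := h1
  refine ⟨k, ?_⟩
  have := congrArg Subtype.val hk
  simpa using this.symm

theorem mem_N_of_inverts {y v : G} (hy : y ∈ P) (hy1 : y ≠ 1) (hv : v * y * v⁻¹ = y⁻¹) : v ∈ normalizer (P : Set G) := by
  rw [mem_normalizer_iff]
  intro h
  have hv' : v⁻¹ * y * v = y⁻¹ := by
    have h1 : v⁻¹ * y⁻¹ * v = y := by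
      rw [← hv]
      group
    calc v⁻¹ * y * v = (v⁻¹ * y⁻¹ * v)⁻¹ := by group
      _ = y⁻¹ := by rw [h1]
  constructor
  · intro hh
    obtain ⟨k, rfl⟩ := pow_gen H hcard hy hy1 hh
    rw [← conj_pow, hv]
    exact pow_mem (P.inv_mem hy) k
  · intro hh
    obtain ⟨k, hk⟩ := pow_gen H hcard hy hy1 hh
    have h1 : h = (v⁻¹ * y * v) ^ k := by
      have h2 := conj_pow (a := v⁻¹) (b := y) (i := k)
      rw [inv_inv] at h2
      rw [h2, ← hk]
      group
    rw [h1, hv']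
    exact pow_mem (P.inv_mem hy) k

theorem mul_self_ne {y : G} (hp2 : p ≠ 2) (hy : y ∈ P) (hy1 : y ≠ 1) : y * y ≠ 1 := by
  intro h
  have h2 : y ^ 2 = 1 := by rw [pow_two, h]
  have h3 : y ^ p = 1 := by
    have h4 : (⟨y, hy⟩ : ↥P) ^ Nat.card P = 1 := pow_card_eq_one'
    rw [hcard] at h4
    have := congrArg Subtype.val h4
    simpa using this
  have h5 : orderOf y ∣ Nat.gcd 2 p := Nat.dvd_gcd (orderOf_dvd_of_pow_eq_one h2) (orderOf_dvd_of_pow_eq_one h3)
  have h6 : Nat.gcd 2 p = 1 := by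
    have := (Nat.coprime_primes Nat.prime_two H.prime).2 (Ne.symm hp2)
    exact this
  rw [h6, Nat.dvd_one, orderOf_eq_one_iff] at h5
  exact hy1 h5

theorem not_mem_C_of_inverts {y v : G} (hp2 : p ≠ 2) (hy : y ∈ P) (hy1 : y ≠ 1) (hv : v * y * v⁻¹ = y⁻¹) : v ∉ C := by
  intro hvC
  apply mul_self_ne H hcard hp2 hy hy1
  have h1 := H.comm hy hvC
  rw [h1, mul_inv_cancel_right] at hv
  nth_rw 1 [hv]
  group

theorem mul_mem_C (hN : Nat.card (normalizer (P : Set G)) = Nat.card C * 2) {x y : G} (hx : x ∈ normalizer (P : Set G))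
    (hxC : x ∉ C) (hy : y ∈ normalizer (P : Set G)) (hyC : y ∉ C) : x * y ∈ C := by
  have h1 : (C.subgroupOf (normalizer (P : Set G))).index = 2 := by
    have h2 := (C.subgroupOf (normalizer (P : Set G))).card_mul_index
    rw [Nat.card_congr (subgroupOfEquivOfLe H.le_normalizer).toEquiv, hN] at h2
    exact Nat.eq_of_mul_eq_mul_left Nat.card_pos h2
  have h2 := (mul_mem_iff_of_index_two h1 (a := (⟨x, hx⟩ : normalizer (P : Set G))) (b := ⟨y, hy⟩)).2 (by
    rw [mem_subgroupOf, mem_subgroupOf]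
    exact iff_of_false hxC hyC)
  rw [mem_subgroupOf] at h2
  exact h2

variable {u : G} (hu : u * u = 1) (hinv : ∀ y ∈ P, u * y * u⁻¹ = y⁻¹)
include hu hinv

theorem coset_invol {y : G} (hy : y ∈ P) : (y * u) * (y * u) = 1 := by
  have hu' : u⁻¹ = u := inv_eq_iff_mul_eq_one.2 hu
  have h1 := hinv y hy
  rw [hu'] at h1
  calc (y * u) * (y * u) = y * (u * y * u) := by group
    _ = 1 := by rw [h1]; group

theorem conj_coset (hodd : Odd p) {y : G} (hy : y ∈ P) : ∃ w : G, w * u * w⁻¹ = y * u := by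
  obtain ⟨k, hk⟩ := hodd
  have h3 : y ^ p = 1 := by
    have h4 : (⟨y, hy⟩ : ↥P) ^ Nat.card P = 1 := pow_card_eq_one'
    rw [hcard] at h4
    have := congrArg Subtype.val h4
    simpa using this
  refine ⟨y ^ (k + 1), ?_⟩
  have hw : y ^ (k + 1) ∈ P := pow_mem hy _
  have hu' : u⁻¹ = u := inv_eq_iff_mul_eq_one.2 hu
  have h1 := hinv _ (P.inv_mem hw)
  rw [inv_inv] at h1
  have hww : y ^ (k + 1) * y ^ (k + 1) = y := by
    rw [← pow_add, show k + 1 + (k + 1) = p + 1 by omega, pow_succ, h3, one_mul]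
  calc y ^ (k + 1) * u * (y ^ (k + 1))⁻¹ = y ^ (k + 1) * (u * (y ^ (k + 1))⁻¹ * u⁻¹) * u := by group
    _ = y * u := by rw [h1, hww]

variable (hZ : ∀ c : ↥C, r c = 1 → ∀ g : G, (c : G) * g = g * c) (hoddK : ∀ z : ↥C, r z = 1 → z * z = 1 → z = 1)
  (hN : Nat.card (normalizer (P : Set G)) = Nat.card C * 2)
include hZ hoddK hN

/-- Involutions in `N(P) \ C` are in the coset `P u`. -/
theorem mem_coset (hp2 : p ≠ 2) {y₀ v : G} (hy₀ : y₀ ∈ P) (hy₀1 : y₀ ≠ 1) (hv : v ∈ normalizer (P : Set G)) (hvC : v ∉ C) (hv2 : v * v = 1) :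
    ∃ y ∈ P, v = y * u := by
  have hinv₀ := hinv y₀ hy₀
  have huN : u ∈ normalizer (P : Set G) := mem_N_of_inverts H hcard hy₀ hy₀1 hinv₀
  have huC : u ∉ C := not_mem_C_of_inverts H hcard hp2 hy₀ hy₀1 hinv₀
  have hu' : u⁻¹ = u := inv_eq_iff_mul_eq_one.2 hu
  have hc : v * u ∈ C := mul_mem_C H hcard hN hv hvC huN huC
  obtain ⟨y, z, hz, hcz⟩ := exists_decomp H hZ ⟨v * u, hc⟩
  have hcz' : v * u = (y : G) * z := by
    have h2 : v * u = ((H.inP y * z : ↥C) : G) := congrArg Subtype.val hcz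
    rw [h2]
    rfl
  have hv' : v = (z : G) * ((y : G) * u) := by
    have h1 : v = (v * u) * u := by rw [mul_assoc, hu, mul_one]
    rw [h1, hcz', ← hZ z hz (y : G), mul_assoc]
  have hzc := hZ z hz
  have hx := coset_invol H hcard hu hinv y.2
  have hzz : (z : G) * z = 1 := by
    have h1 : v * v = ((z : G) * z) * (((y : G) * u) * ((y : G) * u)) := by
      nth_rw 1 [hv']
      nth_rw 1 [hv']
      calc (z : G) * ((y : G) * u) * ((z : G) * ((y : G) * u)) = (z : G) * (((y : G) * u) * (z : G)) * ((y : G) * u) := by group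
        _ = (z : G) * ((z : G) * ((y : G) * u)) * ((y : G) * u) := by rw [hzc ((y : G) * u)]
        _ = _ := by group
    rw [hv2, hx, mul_one] at h1
    exact h1.symm
  have hz1 : z = 1 := hoddK z hz (Subtype.ext hzz)
  refine ⟨y, y.2, ?_⟩
  rw [hv', hz1]
  simp

/-- The count vanishes outside `P`. -/
theorem cnt_zero (c : ↥C) (hc : r c ≠ 1) (hcP : (c : G) ∉ P) : cnt u (c : G) = 0 := by
  classical
  unfold cnt
  refine Finset.sum_eq_zero fun a _ => Finset.sum_eq_zero fun b _ => if_neg fun hab => ?_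
  have hv2 := conj_invol hu a
  have hw2 := conj_invol hu b
  obtain ⟨v, hvdef⟩ : ∃ v, v = a * u * a⁻¹ := ⟨_, rfl⟩
  obtain ⟨w, hwdef⟩ : ∃ w, w = b * u * b⁻¹ := ⟨_, rfl⟩
  rw [← hvdef, ← hwdef] at hab
  rw [← hvdef] at hv2
  rw [← hwdef] at hw2
  have hvw : v * w = c := by
    calc v * w = (c : G) * ((c : G)⁻¹ * v * w) := by group
      _ = c := by rw [hab, mul_one]
  have hcinv := inverts_of_product hv2 hw2 hvw
  have hyinv : v * ((r c : ↥P) : G) * v⁻¹ = ((r c : ↥P) : G)⁻¹ := by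
    rw [H.pow, ← conj_pow, hcinv, inv_pow]
  obtain ⟨y, z, hz, hcz⟩ := exists_decomp H hZ c
  have hy : r c = y := by
    rw [hcz, map_mul, H.r_inP, hz, mul_one]
  have hcz' : (c : G) = (y : G) * z := by
    have h2 : (c : G) = ((H.inP y * z : ↥C) : G) := congrArg Subtype.val hcz
    rw [h2]
    rfl
  have hzc := hZ z hz
  rw [hy] at hyinv
  have h1 : v * (c : G) * v⁻¹ = (y : G)⁻¹ * z := by
    rw [hcz', ← mul_assoc v, mul_assoc _ (z : G), hzc, ← mul_assoc, hyinv]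
  have h2 : (y : G)⁻¹ * z = (y : G)⁻¹ * (z : G)⁻¹ := by
    rw [← h1, hcinv, hcz', mul_inv_rev]
    have h3 : (z : G)⁻¹ * (y : G)⁻¹ = (y : G)⁻¹ * (z : G)⁻¹ := by
      rw [← mul_inv_rev, ← mul_inv_rev, hzc]
    exact h3
  have h3 : (z : G) = (z : G)⁻¹ := mul_left_cancel h2
  have h4 : z * z = 1 := by
    apply Subtype.ext
    show (z : G) * z = 1
    nth_rw 1 [h3]
    simp
  have hz1 := hoddK z hz h4
  apply hcP
  rw [hcz', hz1]
  simp

open scoped Classical in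
/-- The fibre value. -/
theorem fib_val (hp2 : p ≠ 2) (hoddp : Odd p) {y : G} (hy : y ∈ P) (hy1 : y ≠ 1) (a : G) :
    fib u ((a * u * a⁻¹)⁻¹ * y) = if ∃ y' ∈ P, a * u * a⁻¹ = y' * u then fib u u else 0 := by
  classical
  have hv2 := conj_invol hu a
  obtain ⟨v, hvdef⟩ : ∃ v, v = a * u * a⁻¹ := ⟨_, rfl⟩
  rw [← hvdef] at hv2 ⊢
  have hvinv : v⁻¹ = v := inv_eq_iff_mul_eq_one.2 hv2
  have hu' : u⁻¹ = u := inv_eq_iff_mul_eq_one.2 hu
  rw [hvinv]
  split_ifs with h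
  · obtain ⟨y', hy', hv⟩ := h
    have h1 : v * y = (y' * y⁻¹) * u := by
      rw [hv, mul_assoc, mul_assoc]
      congr 1
      have h2 := hinv y hy
      calc u * y = (u * y * u⁻¹) * u := by group
        _ = y⁻¹ * u := by rw [h2]
    rw [h1]
    obtain ⟨w, hw⟩ := conj_coset H hcard hu hinv hoddp (P.mul_mem hy' (P.inv_mem hy))
    rw [← hw, fib_conj]
  · apply fib_eq_zero
    intro b hb
    apply h
    have hw2 : (v * y) * (v * y) = 1 := by
      rw [← hb]
      exact conj_invol hu b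
    have hvw : v * (v * y) = y := by
      rw [← mul_assoc, hv2, one_mul]
    have hinvv := inverts_of_product hv2 hw2 hvw
    exact mem_coset H hcard hu hinv hZ hoddK hN hp2 hy hy1 (mem_N_of_inverts H hcard hy hy1 hinvv)
      (not_mem_C_of_inverts H hcard hp2 hy hy1 hinvv) hv2

/-- The count on `P`. -/
theorem cnt_P (hp2 : p ≠ 2) (hoddp : Odd p) {y : G} (hy : y ∈ P) (hy1 : y ≠ 1) :
    cnt u y = p * fib u u ^ 2 := by
  classical
  letI : Fintype P := Fintype.ofFinite _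
  rw [cnt_eq_sum_fib]
  simp_rw [fib_val H hcard hu hinv hZ hoddK hN hp2 hoddp hy hy1]
  have h1 : ∀ a : G, (if ∃ y' ∈ P, a * u * a⁻¹ = y' * u then fib u u else 0) =
      fib u u * ∑ y' : ↥P, if a * u * a⁻¹ = (y' : G) * u then 1 else 0 := by
    intro a
    split_ifs with h
    · obtain ⟨y', hy', hv⟩ := h
      rw [Finset.sum_eq_single (⟨y', hy'⟩ : ↥P)]
      · rw [if_pos hv, mul_one]
      · intro b _ hb
        apply if_neg
        intro h2
        apply hb
        apply Subtype.ext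
        rw [hv] at h2
        exact (mul_right_cancel h2).symm
      · simp
    · rw [Finset.sum_eq_zero, mul_zero]
      intro b _
      apply if_neg
      intro h2
      exact h ⟨b, b.2, h2⟩
  simp_rw [h1]
  rw [← Finset.mul_sum, Finset.sum_comm]
  have h2 : ∀ y' : ↥P, (∑ a : G, if a * u * a⁻¹ = (y' : G) * u then 1 else 0) = fib u u := by
    intro y'
    obtain ⟨w, hw⟩ := conj_coset H hcard hu hinv hoddp y'.2
    rw [← fib_conj u w, hw]
    unfold fib
    refine Finset.sum_congr rfl fun a _ => ?_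
    split_ifs <;> rfl
  simp_rw [h2]
  rw [Finset.sum_const, Finset.card_univ, ← Nat.card_eq_fintype_card, hcard, smul_eq_mul]
  ring

/-- The sum in the row identity at `u`. -/
theorem R_eq [Fintype C] [Fintype P] (hp2 : p ≠ 2) (hoddp : Odd p) {θ : ↥C → ℂ} (hk : KerP P C θ) (hθ1 : θ 1 = 1) {f : ↥P →* ℂˣ}
    (hf : f ≠ 1) :
    ∑ c : ↥C, (tw r f θ c - θ c) * (cnt u (c : G) : ℂ) = -((p : ℂ) ^ 2 * (fib u u : ℂ) ^ 2) := by
  classical
  have hinj : Function.Injective H.inP := by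
    intro y y' h
    apply Subtype.ext
    exact congrArg (fun c : ↥C => (c : G)) h
  have h1 : ∀ y : ↥P, θ (H.inP y) = 1 := fun y => by rw [hk _ y.2, hθ1]
  rw [← Fintype.sum_of_injective H.inP hinj (fun y : ↥P => (((f y : ℂˣ) : ℂ) - 1) * ((p : ℂ) * (fib u u : ℂ) ^ 2))]
  · rw [← Finset.sum_mul, Finset.sum_sub_distrib]
    have h2 : ∑ y : ↥P, ((f y : ℂˣ) : ℂ) = 0 := by
      have h2 : ((Units.coeHom ℂ).comp f) ≠ 1 := by
        intro h3
        apply hf
        ext y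
        have := DFunLike.congr_fun h3 y
        simpa using this
      have := sum_hom_units_eq_zero ((Units.coeHom ℂ).comp f) h2
      simpa using this
    rw [h2]
    simp only [Finset.sum_const, Finset.card_univ, nsmul_eq_mul, mul_one]
    rw [← Nat.card_eq_fintype_card, hcard]
    ring
  · intro c hc
    by_cases hrc : r c = 1
    · simp [tw_apply, hrc]
    · have hcP : (c : G) ∉ P := by
        intro hcP
        apply hc
        refine ⟨⟨c, hcP⟩, Subtype.ext rfl⟩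
      rw [cnt_zero H hcard hu hinv hZ hoddK hN c hrc hcP]
      simp
  · intro y
    by_cases hy : y = 1
    · subst hy
      have h3 : r (H.inP 1) = 1 := H.r_inP 1
      simp [tw_apply, h3]
    · have hy' : (y : G) ≠ 1 := fun h => hy (Subtype.ext h)
      have h3 : ((H.inP y : ↥C) : G) = y := rfl
      rw [h3, cnt_P H hcard hu hinv hZ hoddK hN hp2 hoddp y.2 hy', tw_apply, H.r_inP, h1]
      push_cast
      ring

end Inv

section Row

variable [DecidableEq G] {p : ℕ} {P C : Subgroup G} {r : ↥C →* ↥P} {e₀ : ℕ} (H : Cfsg.Agent.Lib.TICent.Hyp p P C r e₀) [Fintype C]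
  {θ : ↥C → ℂ} {a : (↥P →* ℂˣ) → IrrCharacter G → ℕ}
  (ha : ∀ (f : ↥P →* ℂˣ) (χ : IrrCharacter G), classInner (tw r f θ) (fun c : ↥C => (χ : G → ℂ) c) = (a f χ : ℂ))
  (T : Tree p P a) {A B : IrrCharacter G} (hne : B ≠ A) (h0 : ∀ χ, χ ≠ A → χ ≠ B → T.w χ = 0)
include H ha hne h0

/-- The row identity for a tree. -/
theorem row_tree (f : NT P) (t : G) :
    (T.w A : ℂ) * ((A : G → ℂ) t ^ 2 / (A : G → ℂ) 1) + (T.w B : ℂ) * ((B : G → ℂ) t ^ 2 / (B : G → ℂ) 1) +
      (T.σ : ℂ) * (((T.ξ f : IrrCharacter G) : G → ℂ) t ^ 2 / ((T.ξ f : IrrCharacter G) : G → ℂ) 1) =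
    (Nat.card G : ℂ)⁻¹ * ((Nat.card C : ℂ)⁻¹ * ∑ c : ↥C, (tw r f.1 θ c - θ c) * (cnt t (c : G) : ℂ)) := by
  classical
  have hG : (Nat.card G : ℂ) ≠ 0 := by
    exact_mod_cast Nat.card_pos.ne'
  have h1 := row H ha f.1 t
  rw [← h1, ← mul_assoc, inv_mul_cancel₀ hG, one_mul]
  obtain ⟨F, hF⟩ : ∃ F : IrrCharacter G → ℂ, F = fun χ : IrrCharacter G => (χ : G → ℂ) t ^ 2 / (χ : G → ℂ) 1 := ⟨_, rfl⟩
  have h2 : ∀ χ : IrrCharacter G, ((a f.1 χ : ℂ) - a 1 χ) * ((χ : G → ℂ) t ^ 2 / (χ : G → ℂ) 1) =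
      (T.w χ : ℂ) * F χ + (T.σ : ℂ) * (if χ = T.ξ f then F χ else 0) := by
    intro χ
    have h3 := T.hrel f χ
    have h4 : (a f.1 χ : ℂ) - a 1 χ = (T.w χ : ℂ) + (T.σ : ℂ) * (if χ = T.ξ f then 1 else 0) := by
      have h5 : (((a f.1 χ : ℤ) - (a 1 χ : ℤ) : ℤ) : ℂ) = ((T.w χ + T.σ * (if χ = T.ξ f then 1 else 0) : ℤ) : ℂ) := by
        rw [h3]
      push_cast at h5
      exact h5
    rw [h4, hF]
    split_ifs <;> ring
  simp_rw [h2]
  rw [Finset.sum_add_distrib, ← Finset.mul_sum, Finset.sum_ite_eq' Finset.univ (T.ξ f) F, if_pos (Finset.mem_univ _),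
    sum_w T hne h0 F, hF]

end Row

end Cfsg.Agent.Lib.Pm2E
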