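import Mathlib
import Cfsg.Agent.Lib.BT97C
import Cfsg.Agent.Lib.Pm2B
import Cfsg.Agent.Lib.Pm2E

/-!
# Brauer-Tuan: involutions and Sylow subgroups

If the members with `w = 1` vanish at an involution `z` then a conjugate of `z` inverts `P`.  An involution inverting a Sylow subgroup of
order `p` gives the bound `p (ν - 1) + 1 ≤ M` for the size `ν` of the orbit of `P` under its centralizer.
-/

set_option autoImplicit false
set_option linter.style.haveILetI false
set_option linter.unusedSectionVars false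
set_option linter.unusedVariables false

namespace Cfsg.Agent.Lib.BT97D

open Cfsg Cfsg.Agent.Lib.CharBasic Subgroup Cfsg.Agent.Lib.DefectOne Cfsg.Agent.Lib.CharInd
open Cfsg.Agent.Lib.TICent Cfsg.Agent.Lib.RigA Cfsg.Agent.Lib.RangeStruct Cfsg.Agent.Lib.RigB Cfsg.Agent.Lib.RigC
open Cfsg.Agent.Lib.BT97A Cfsg.Agent.Lib.BT97B Cfsg.Agent.Lib.BT97C Cfsg.Agent.Lib.Pm2A
open scoped ComplexConjugate

section Count

variable {G : Type*} [Group G] [Finite G]

/-- Centralizers of conjugates have the same size. -/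
theorem card_centralizer_conj (a z : G) :
    Nat.card (centralizer ({a * z * a⁻¹} : Set G)) = Nat.card (centralizer ({z} : Set G)) := by
  refine Nat.card_congr ⟨fun c => ⟨a⁻¹ * c * a, ?_⟩, fun c => ⟨a * c * a⁻¹, ?_⟩, ?_, ?_⟩
  · have h := (mem_centralizer_singleton_iff.1 c.2)
    rw [mem_centralizer_singleton_iff]
    calc a⁻¹ * (c : G) * a * z = a⁻¹ * ((c : G) * (a * z * a⁻¹)) * a := by group
      _ = a⁻¹ * ((a * z * a⁻¹) * c) * a := by rw [h]
      _ = z * (a⁻¹ * c * a) := by group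
  · have h := (mem_centralizer_singleton_iff.1 c.2)
    rw [mem_centralizer_singleton_iff]
    calc a * (c : G) * a⁻¹ * (a * z * a⁻¹) = a * ((c : G) * z) * a⁻¹ := by group
      _ = a * (z * c) * a⁻¹ := by rw [h]
      _ = a * z * a⁻¹ * (a * c * a⁻¹) := by group
  · intro c
    apply Subtype.ext
    show a * (a⁻¹ * (c : G) * a) * a⁻¹ = c
    group
  · intro c
    apply Subtype.ext
    show a⁻¹ * (a * (c : G) * a⁻¹) * a = c
    group

variable {p : ℕ} [hp : Fact p.Prime]

/-- **The count.** -/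
theorem count_main (hp2 : p ≠ 2) (S : Sylow p G) (hS : Nat.card S = p) {s : G} (hs : s * s = 1)
    (hinv : ∀ y ∈ (S : Subgroup G), s * y * s⁻¹ = y⁻¹) {t : ℕ} (hN : Nat.card (normalizer ((S : Subgroup G) : Set G)) = p * t) :
    ∃ ν : ℕ, 1 ≤ ν ∧ Nat.card (centralizer ({s} : Set G)) ≤ ν * t ∧ p * (ν - 1) + 1 ≤ Nat.card (Sylow p G) := by
  classical
  letI : Fintype G := Fintype.ofFinite G
  have hpp : p.Prime := hp.out
  have hsinv : s⁻¹ = s := inv_eq_iff_mul_eq_one.2 hs
  set Cs := centralizer ({s} : Set G) with hCs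
  -- `s` normalizes `S`
  have hsmem : s ∈ normalizer ((S : Subgroup G) : Set G) := by
    rw [mem_normalizer_iff]
    intro y
    constructor
    · intro hy
      rw [hinv y hy]
      exact inv_mem hy
    · intro hy
      have h1 := hinv _ hy
      have h2 : s * (s * y * s⁻¹) * s⁻¹ = y := by
        rw [hsinv]
        calc s * (s * y * s) * s = (s * s) * y * (s * s) := by group
          _ = y := by
              rw [hs]
              group
      rw [h2] at h1
      rw [h1]
      exact inv_mem hy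
  have hsN : s • S = S := Sylow.smul_eq_iff_mem_normalizer.2 hsmem
  have hyN : ∀ y : G, y ∈ (S : Subgroup G) → y • S = S := by
    intro y hy
    apply Sylow.smul_eq_iff_mem_normalizer.2
    show y ∈ normalizer ((S : Subgroup G) : Set G)
    rw [mem_normalizer_iff]
    intro h
    constructor
    · intro hh
      exact mul_mem (mul_mem hy hh) (inv_mem hy)
    · intro hh
      have h1 := mul_mem (mul_mem (inv_mem hy) hh) hy
      have h2 : y⁻¹ * (y * h * y⁻¹) * y = h := by group
      rwa [h2] at h1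
  -- the orbit
  set O : Set (Sylow p G) := MulAction.orbit Cs S with hO
  have hSO : S ∈ O := MulAction.mem_orbit_self S
  have hfix : ∀ R ∈ O, s • R = R := by
    rintro R ⟨c, rfl⟩
    have h1 : s * (c : G) = (c : G) * s := by
      have := (mem_centralizer_singleton_iff.1 c.2)
      exact this.symm
    show s • ((c : G) • S) = (c : G) • S
    rw [smul_smul, h1, ← smul_smul, hsN]
  have hνpos : 1 ≤ O.ncard := by
    have h1 : O.Nonempty := ⟨S, hSO⟩
    exact (Set.ncard_pos (Set.toFinite O)).2 h1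
  refine ⟨O.ncard, hνpos, ?_, ?_⟩
  · -- the stabilizer
    have h1 : (MulAction.stabilizer Cs S).index = O.ncard := MulAction.index_stabilizer Cs S
    have h2 := Subgroup.card_mul_index (MulAction.stabilizer Cs S)
    rw [h1] at h2
    have h3 : Nat.card (MulAction.stabilizer Cs S) ≤ t := by
      have hmemN : ∀ c : MulAction.stabilizer Cs S, ((c : Cs) : G) ∈ normalizer ((S : Subgroup G) : Set G) := by
        intro c
        have h4 : ((c : Cs) : G) • S = S := c.2
        exact Sylow.smul_eq_iff_mem_normalizer.1 h4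
      have hyN' : ∀ y : (S : Subgroup G), (y : G) ∈ normalizer ((S : Subgroup G) : Set G) := by
        intro y
        exact Sylow.smul_eq_iff_mem_normalizer.1 (hyN y y.2)
      let F : ↥(MulAction.stabilizer Cs S) × ↥(S : Subgroup G) → ↥(normalizer ((S : Subgroup G) : Set G)) :=
        fun x => ⟨((x.1 : Cs) : G) * x.2, mul_mem (hmemN x.1) (hyN' x.2)⟩
      have hF : Function.Injective F := by
        rintro ⟨c, y⟩ ⟨c', y'⟩ h
        have h4 : ((c : Cs) : G) * y = ((c' : Cs) : G) * y' := congrArg Subtype.val h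
        have h5 : ((c' : Cs) : G)⁻¹ * ((c : Cs) : G) = y' * (y : G)⁻¹ := by
          calc ((c' : Cs) : G)⁻¹ * ((c : Cs) : G) = ((c' : Cs) : G)⁻¹ * (((c : Cs) : G) * y) * (y : G)⁻¹ := by group
            _ = _ := by rw [h4]; group
        have h6 : y' * (y : G)⁻¹ ∈ (S : Subgroup G) := mul_mem y'.2 (inv_mem y.2)
        have h7 : y' * (y : G)⁻¹ ∈ Cs := by
          rw [← h5]
          exact mul_mem (inv_mem (c' : Cs).2) (c : Cs).2
        have h8 : y' * (y : G)⁻¹ = 1 := by
          obtain ⟨u, hu⟩ : ∃ u, u = y' * (y : G)⁻¹ := ⟨_, rfl⟩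
          rw [← hu] at h6 h7 ⊢
          have h9 := hinv u h6
          have h10 : s * u = u * s := (mem_centralizer_singleton_iff.1 h7).symm
          rw [h10, mul_inv_cancel_right] at h9
          have h11 : u ^ 2 = 1 := by
            rw [pow_two]
            nth_rw 1 [h9]
            exact inv_mul_cancel u
          have h12 : u ^ p = 1 := by
            have h13 := pow_card_eq_one' (x := (⟨u, h6⟩ : (S : Subgroup G)))
            rw [hS] at h13
            exact congrArg Subtype.val h13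
          have hcop : Nat.Coprime 2 p := (Nat.coprime_primes Nat.prime_two hpp).2 (Ne.symm hp2)
          have h13 : u ^ Nat.gcd 2 p = 1 := pow_gcd_eq_one.2 ⟨h11, h12⟩
          rwa [hcop.gcd_eq_one, pow_one] at h13
        have h14 : y' = y := by
          apply Subtype.ext
          exact mul_inv_eq_one.1 h8
        subst h14
        have h15 : ((c : Cs) : G) = ((c' : Cs) : G) := mul_right_cancel h4
        have h16 : c = c' := Subtype.ext (Subtype.ext h15)
        rw [h16]
      have h4 := Nat.card_le_card_of_injective F hF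
      rw [Nat.card_prod, hS, hN, mul_comm] at h4
      exact Nat.le_of_mul_le_mul_left h4 hpp.pos
    rw [← h2, mul_comm]
    exact Nat.mul_le_mul_left _ h3
  · -- the injection
    have hM : 1 ≤ Nat.card (Sylow p G) := Nat.card_pos
    let A : Set (Sylow p G) := O \ {S}
    let B : Set (Sylow p G) := Set.univ \ {S}
    have hA : A.ncard = O.ncard - 1 := Set.ncard_sdiff_singleton_of_mem hSO
    have hB : B.ncard = Nat.card (Sylow p G) - 1 := by
      have := Set.ncard_sdiff_singleton_of_mem (s := (Set.univ : Set (Sylow p G))) (a := S) (Set.mem_univ S)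
      rwa [Set.ncard_univ] at this
    let Φ : ↥(S : Subgroup G) × ↥A → ↥B := fun x => ⟨(x.1 : G) • (x.2 : Sylow p G), Set.mem_univ _, by
      intro h
      apply x.2.2.2
      have h1 : (x.1 : G) • (x.2 : Sylow p G) = S := h
      have h2 : (x.2 : Sylow p G) = (x.1 : G)⁻¹ • S := eq_inv_smul_iff.2 h1
      exact h2.trans (hyN _ (inv_mem x.1.2))⟩
    have hΦ : Function.Injective Φ := by
      rintro ⟨y, R⟩ ⟨y', R'⟩ h
      have h1 : (y : G) • (R : Sylow p G) = (y' : G) • (R' : Sylow p G) := congrArg Subtype.val h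
      have hRfix : s • (R : Sylow p G) = R := hfix _ R.2.1
      have hR'fix : s • (R' : Sylow p G) = R' := hfix _ R'.2.1
      have hne : (y : G) • (R : Sylow p G) ≠ S := (Φ ⟨y, R⟩).2.2
      obtain ⟨R₂, hR₂⟩ : ∃ R₂, R₂ = (y : G) • (R : Sylow p G) := ⟨_, rfl⟩
      rw [← hR₂] at h1 hne
      have hs₁ : ((y : G) * s * (y : G)⁻¹) • R₂ = R₂ := by
        rw [hR₂, smul_smul]
        have h2 : (y : G) * s * (y : G)⁻¹ * y = (y : G) * s := by group
        rw [h2, ← smul_smul, hRfix]
      have hs₂ : ((y' : G) * s * (y' : G)⁻¹) • R₂ = R₂ := by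
        rw [h1, smul_smul]
        have h2 : (y' : G) * s * (y' : G)⁻¹ * y' = (y' : G) * s := by group
        rw [h2, ← smul_smul, hR'fix]
      have hs3 : ∀ v ∈ (S : Subgroup G), v * s * v⁻¹ = v * v * s := by
        intro v hv
        have h2 := hinv _ (inv_mem hv)
        rw [inv_inv] at h2
        calc v * s * v⁻¹ = v * (s * v⁻¹ * s⁻¹) * s := by group
          _ = v * v * s := by rw [h2]
      have hw : ((y : G) * y * ((y' : G)⁻¹ * (y' : G)⁻¹)) • R₂ = R₂ := by
        have h2 : (y : G) * y * ((y' : G)⁻¹ * (y' : G)⁻¹) = ((y : G) * s * (y : G)⁻¹) * ((y' : G) * s * (y' : G)⁻¹) := by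
          rw [hs3 _ y.2, hs3 _ y'.2]
          have h3 := hinv _ y'.2
          calc (y : G) * y * ((y' : G)⁻¹ * (y' : G)⁻¹) = (y : G) * y * ((s * y' * s⁻¹) * (s * y' * s⁻¹)) := by rw [h3]
            _ = (y : G) * y * s * ((y' : G) * y') * s⁻¹ := by group
            _ = (y : G) * y * s * ((y' : G) * y') * s := by rw [hsinv]
            _ = _ := by group
        rw [h2, ← smul_smul, hs₂, hs₁]
      set w : G := (y : G) * y * ((y' : G)⁻¹ * (y' : G)⁻¹) with hwdef
      have hwS : w ∈ (S : Subgroup G) := mul_mem (mul_mem y.2 y.2) (mul_mem (inv_mem y'.2) (inv_mem y'.2))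
      have hwN : w ∈ normalizer ((R₂ : Subgroup G) : Set G) := Sylow.smul_eq_iff_mem_normalizer.1 hw
      have hwp : w ^ p ^ 1 = 1 := by
        have h13 := pow_card_eq_one' (x := (⟨w, hwS⟩ : (S : Subgroup G)))
        rw [hS] at h13
        rw [pow_one]
        exact congrArg Subtype.val h13
      have hwR : w ∈ (R₂ : Subgroup G) := mem_of_pow_of_normalizer R₂.isPGroup' R₂.not_dvd_index hwN hwp
      have hw1 : w = 1 := by
        by_contra hne1
        apply hne
        have hcardR : Nat.card (R₂ : Subgroup G) = p := by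
          rw [Sylow.card_eq_multiplicity R₂, ← Sylow.card_eq_multiplicity S]
          exact hS
        apply Sylow.ext
        rw [← Cfsg.Agent.Lib.SmallGroups2.zpowers_eq_of_mem_of_ne_one hpp hcardR hwR hne1,
          Cfsg.Agent.Lib.SmallGroups2.zpowers_eq_of_mem_of_ne_one hpp hS hwS hne1]
      have hyy : (y : G) * y = (y' : G) * y' := by
        have h2 : (y : G) * y * ((y' : G) * y')⁻¹ = 1 := by
          rw [mul_inv_rev]
          exact hw1
        exact mul_inv_eq_one.1 h2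
      have hyy' : y = y' := by
        have hcop : (Nat.card (S : Subgroup G)).Coprime 2 := by
          rw [hS]
          exact (Nat.coprime_primes hpp Nat.prime_two).2 hp2
        apply (powCoprime hcop).injective
        simp only [powCoprime_apply]
        apply Subtype.ext
        simp only [pow_two]
        exact hyy
      subst hyy'
      have hRR : (R : Sylow p G) = R' := by
        rw [hR₂] at h1
        exact smul_left_cancel _ h1
      have hRR' : R = R' := Subtype.ext hRR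
      rw [hRR']
    have h5 := Nat.card_le_card_of_injective Φ hΦ
    rw [Nat.card_prod, hS] at h5
    have h6 : Nat.card A = A.ncard := rfl
    have h7 : Nat.card B = B.ncard := rfl
    rw [h6, h7, hA, hB] at h5
    omega

end Count

section Cnt

variable {G : Type*} [Group G] [Fintype G] [DecidableEq G] {p : ℕ} {P : Subgroup G} {e₀ t : ℕ}
  [Fintype P] [Fintype (MonoidHom.id ↥P).ker] [Fintype (↥P →* ℂˣ)]

variable (H : Hyp p P P (MonoidHom.id ↥P) e₀)
include H

theorem w_one (D : Dat p P P (MonoidHom.id ↥P) t) (f : NT P) (hne : D.ξ f ≠ oneIrr G) : D.w (oneIrr G) = -1 := by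
  have h1 := D.hform1 f (oneIrr G) hne.symm
  rw [a_one_trivial D H, a_ne_trivial D H f] at h1
  rw [← h1]
  simp

/-- A product of two conjugates of `z`. -/
theorem cnt_ne (hperf : _root_.commutator G = ⊤) (D : Dat p P P (MonoidHom.id ↥P) t) (hσ : D.σ = -1) (hp2 : p ≠ 2) (f₀ : NT P)
    (hne : D.ξ f₀ ≠ oneIrr G) {z : G} (hz : z * z = 1) (hw : ∀ χ : IrrCharacter G, D.w χ = 1 → (χ : G → ℂ) z = 0)
    {y : ↥P} (hy : y ≠ 1) : cnt z (y : G) ≠ 0 := by
  classical
  have hpp := H.prime
  have hn : ∀ χ : IrrCharacter G, ∃ n : ℤ, (χ : G → ℂ) z = n := fun χ => by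
    obtain ⟨k, hk⟩ := val_invol hperf (IsIrrCharacter.isCharacter χ.2) hz
    exact ⟨_, hk⟩
  choose n hn using hn
  set c : IrrCharacter G → ℝ := fun χ => (n χ : ℝ) ^ 2 / (charDegree (χ : G → ℂ) : ℝ) with hc
  have hcnn : ∀ χ, 0 ≤ c χ := fun χ => by
    rw [hc]
    positivity
  have hone : c (oneIrr G) = 1 := by
    have h1 : ((n (oneIrr G) : ℤ) : ℂ) = 1 := by
      rw [← hn]
      rfl
    have h2 : n (oneIrr G) = 1 := by exact_mod_cast h1
    show (n (oneIrr G) : ℝ) ^ 2 / (charDegree ((oneIrr G : IrrCharacter G) : G → ℂ) : ℝ) = 1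
    rw [h2, deg_oneI]
    simp
  have hy' : y⁻¹ ≠ 1 := fun h => hy (inv_eq_one.1 h)
  have hzreg : ¬ p ∣ orderOf z := by
    intro h1
    have h2 : orderOf z ∣ 2 := orderOf_dvd_of_pow_eq_one (by rw [pow_two, hz])
    exact hp2 ((Nat.prime_dvd_prime_iff_eq hpp Nat.prime_two).1 (h1.trans h2))
  have hcf : ∀ f : NT P, c (D.ξ f) = c (D.ξ f₀) := by
    intro f
    have h1 := xi_reg D f f₀ hzreg
    rw [hn, hn] at h1
    have h2 : n (D.ξ f) = n (D.ξ f₀) := by exact_mod_cast h1
    show (n (D.ξ f) : ℝ) ^ 2 / (charDegree ((D.ξ f : IrrCharacter G) : G → ℂ) : ℝ) =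
      (n (D.ξ f₀) : ℝ) ^ 2 / (charDegree ((D.ξ f₀ : IrrCharacter G) : G → ℂ) : ℝ)
    rw [h2, xi_deg H D f f₀]
  have hterm : ∀ χ : IrrCharacter G, (χ : G → ℂ) z ^ 2 * (χ : G → ℂ) (y : G)⁻¹ / (χ : G → ℂ) 1 =
      ((c χ : ℝ) : ℂ) * (-(D.w χ : ℂ) + D.σ * ex D χ y⁻¹) := by
    intro χ
    have h1 := val_all H D χ hy'
    have h2 : (χ : G → ℂ) (y : G)⁻¹ = (χ : G → ℂ) ((y⁻¹ : ↥P) : G) := rfl
    rw [h2, h1, hn, Cfsg.Agent.Lib.CharKernel.one_eq_charDegree (IsIrrCharacter.isCharacter χ.2)]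
    rw [hc]
    push_cast
    ring
  have hsumex : ∑ χ : IrrCharacter G, ((c χ : ℝ) : ℂ) * ex D χ y⁻¹ = -((c (D.ξ f₀) : ℝ) : ℂ) := by
    unfold ex
    simp_rw [Finset.mul_sum]
    rw [Finset.sum_comm]
    have h1 : ∀ f : NT P, ∑ χ : IrrCharacter G, ((c χ : ℝ) : ℂ) * (if χ = D.ξ f then chi f.1 y⁻¹ else 0) =
        ((c (D.ξ f₀) : ℝ) : ℂ) * chi f.1 y⁻¹ := by
      intro f
      rw [Finset.sum_eq_single (D.ξ f)]
      · rw [if_pos rfl, hcf]
      · intro χ _ hχ
        rw [if_neg hχ, mul_zero]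
      · intro h
        exact absurd (Finset.mem_univ _) h
    simp_rw [h1]
    rw [← Finset.mul_sum, sum_NT H hy']
    ring
  have hkey : (cnt z (y : G) : ℂ) = (Nat.card G : ℂ) * ((∑ χ : IrrCharacter G, (-(D.w χ : ℝ)) * c χ + c (D.ξ f₀) : ℝ) : ℂ) := by
    rw [cnt_eq]
    congr 1
    simp_rw [hterm, mul_add]
    rw [Finset.sum_add_distrib]
    have h3 : ∑ χ : IrrCharacter G, ((c χ : ℝ) : ℂ) * ((D.σ : ℂ) * ex D χ y⁻¹) = (D.σ : ℂ) * ∑ χ : IrrCharacter G, ((c χ : ℝ) : ℂ) * ex D χ y⁻¹ := by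
      rw [Finset.mul_sum]
      refine Finset.sum_congr rfl fun χ _ => ?_
      ring
    rw [h3, hsumex, hσ]
    push_cast
    congr 1
    · refine Finset.sum_congr rfl fun χ _ => ?_
      ring
    · ring
  intro h0
  rw [h0] at hkey
  have hG : (Nat.card G : ℂ) ≠ 0 := by exact_mod_cast Nat.card_pos.ne'
  have h4 : ((∑ χ : IrrCharacter G, (-(D.w χ : ℝ)) * c χ + c (D.ξ f₀) : ℝ) : ℂ) = 0 := by
    have : (Nat.card G : ℂ) * ((∑ χ : IrrCharacter G, (-(D.w χ : ℝ)) * c χ + c (D.ξ f₀) : ℝ) : ℂ) = 0 := by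
      rw [← hkey]
      simp
    exact (mul_eq_zero.1 this).resolve_left hG
  have h5 : (∑ χ : IrrCharacter G, (-(D.w χ : ℝ)) * c χ + c (D.ξ f₀) : ℝ) = 0 := by exact_mod_cast h4
  have hnn : ∀ χ : IrrCharacter G, 0 ≤ (-(D.w χ : ℝ)) * c χ := by
    intro χ
    rcases D.hval χ with h | h | h
    · rw [h]
      simp
    · have h6 := hw χ h
      rw [hn] at h6
      have h7 : n χ = 0 := by exact_mod_cast h6
      have h8 : c χ = 0 := by
        show (n χ : ℝ) ^ 2 / (charDegree (χ : G → ℂ) : ℝ) = 0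
        rw [h7]
        simp
      rw [h8]
      simp
    · rw [h]
      simpa using hcnn χ
  have h6 : (-(D.w (oneIrr G) : ℝ)) * c (oneIrr G) ≤ ∑ χ : IrrCharacter G, (-(D.w χ : ℝ)) * c χ :=
    Finset.single_le_sum (f := fun χ : IrrCharacter G => (-(D.w χ : ℝ)) * c χ) (fun χ _ => hnn χ) (Finset.mem_univ _)
  rw [w_one H D f₀ hne, hone] at h6
  have h7 := hcnn (D.ξ f₀)
  have h8 : (-(((-1 : ℤ)) : ℝ)) * 1 = 1 := by norm_num
  rw [h8] at h6
  linarith

end Cnt

section Inv

variable {G : Type*} [Group G] [Fintype G] [DecidableEq G] {p : ℕ} {P C : Subgroup G} {r : ↥C →* ↥P} {e₀ : ℕ}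

/-- A conjugate of `z` inverts `P`. -/
theorem exists_inverter (H : Hyp p P C r e₀) (hcard : Nat.card P = p) {z y : G} (hz : z * z = 1) (hy : y ∈ P) (hy1 : y ≠ 1) (hc : cnt z y ≠ 0) :
    ∃ a : G, ∀ h ∈ P, (a * z * a⁻¹) * h * (a * z * a⁻¹)⁻¹ = h⁻¹ := by
  classical
  unfold cnt at hc
  obtain ⟨a, -, ha⟩ := Finset.exists_ne_zero_of_sum_ne_zero hc
  obtain ⟨b, -, hb⟩ := Finset.exists_ne_zero_of_sum_ne_zero ha
  have hab : y⁻¹ * (a * z * a⁻¹) * (b * z * b⁻¹) = 1 := by
    by_contra h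
    exact hb (if_neg h)
  have hvw : (a * z * a⁻¹) * (b * z * b⁻¹) = y := by
    calc (a * z * a⁻¹) * (b * z * b⁻¹) = y * (y⁻¹ * (a * z * a⁻¹) * (b * z * b⁻¹)) := by group
      _ = y := by rw [hab, mul_one]
  have hv2 := Cfsg.Agent.Lib.Pm2E.conj_invol hz a
  have hinv := Cfsg.Agent.Lib.Pm2E.inverts_of_product hv2 (Cfsg.Agent.Lib.Pm2E.conj_invol hz b) hvw
  refine ⟨a, fun h hh => ?_⟩
  obtain ⟨k, rfl⟩ := Cfsg.Agent.Lib.Pm2E.pow_gen H hcard hy hy1 hh
  rw [← conj_pow, hinv, inv_pow]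

end Inv

end Cfsg.Agent.Lib.BT97D
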