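import Mathlib
import Cfsg.Agent.Lib.BT97D
import Cfsg.Agent.Lib.RigO

/-!
# Brauer-Tuan: the case `σ = -1`

`q = 2`, `|N : C| = 2^c`; if there are at least three exceptional characters and `t ≥ 3` a contradiction; if there are two, few Sylow subgroups.
-/

set_option autoImplicit false
set_option linter.style.haveILetI false
set_option linter.unusedSectionVars false
set_option linter.unusedVariables false

namespace Cfsg.Agent.Lib.BT97E

open Cfsg Cfsg.Agent.Lib.CharBasic Subgroup Cfsg.Agent.Lib.DefectOne Cfsg.Agent.Lib.CharInd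
open Cfsg.Agent.Lib.TICent Cfsg.Agent.Lib.RigA Cfsg.Agent.Lib.RangeStruct Cfsg.Agent.Lib.RigB Cfsg.Agent.Lib.RigC
open Cfsg.Agent.Lib.BT97A Cfsg.Agent.Lib.BT97B Cfsg.Agent.Lib.BT97C Cfsg.Agent.Lib.BT97D Cfsg.Agent.Lib.Pm2A
open scoped ComplexConjugate

variable {G : Type*} [Group G] [Fintype G] [DecidableEq G] {p : ℕ} {P : Subgroup G} {t : ℕ}
  [Fintype P] [Fintype (MonoidHom.id ↥P).ker] [Fintype (↥P →* ℂˣ)]

/-- The reductions for the sign `-1`. -/
theorem minus_setup [hpF : Fact p.Prime] (H : Hyp p P P (MonoidHom.id ↥P) 1) (hperf : _root_.commutator G = ⊤) (D : Dat p P P (MonoidHom.id ↥P) t)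
    (hcard : Nat.card P = p) (hidx : ¬ p ∣ P.index)
    (hN : Nat.card (normalizer (P : Set G)) = Nat.card P * t) {q b g₀ : ℕ} (hq : q.Prime)
    (hG' : Nat.card G = p * q ^ b * g₀) (hg : g₀ < p - 1) (f₀ : NT P) (hne : D.ξ f₀ ≠ oneIrr G) (hσ : D.σ = -1)
    (hd : charDegree ((D.ξ f₀ : IrrCharacter G) : G → ℂ) + t = p) (hdg : charDegree ((D.ξ f₀ : IrrCharacter G) : G → ℂ) ∣ g₀) :
    q = 2 ∧ g₀ = charDegree ((D.ξ f₀ : IrrCharacter G) : G → ℂ) ∧ t ∣ 2 ^ b ∧ 2 ≤ t ∧ 2 ≤ Nat.card (Set.range D.ξ) := by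
  classical
  have hpp := H.prime
  obtain ⟨d, hdd⟩ : ∃ d, d = charDegree ((D.ξ f₀ : IrrCharacter G) : G → ℂ) := ⟨_, rfl⟩
  rw [← hdd] at hd hdg ⊢
  have hmul : Nat.card (Set.range D.ξ) * t = p - 1 := D.hrange
  have hrpos : 0 < Nat.card (Set.range D.ξ) := by
    haveI : Nonempty (Set.range D.ξ) := ⟨⟨D.ξ f₀, f₀, rfl⟩⟩
    exact Nat.card_pos
  have ht2 : 2 ≤ t := Cfsg.Agent.Lib.RigO.two_le_t hperf hcard hidx H hN
  have hp2 := hpp.two_le
  have hd0 : 0 < d := by
    rw [hdd]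
    exact Cfsg.Agent.Lib.CharKernel.charDegree_pos (D.ξ f₀).2
  have hτ : 2 ≤ Nat.card (Set.range D.ξ) := by
    by_contra hcon
    have h1 : Nat.card (Set.range D.ξ) = 1 := by omega
    rw [h1, one_mul] at hmul
    have h2 : d = 1 := by omega
    apply hne
    apply eq_one_of_degree_one hperf
    rw [← hdd, h2]
  have h2t : 2 * t ≤ p - 1 := by
    rw [← hmul]
    exact Nat.mul_le_mul_right _ hτ
  have hg0 : 0 < g₀ := by
    rcases Nat.eq_zero_or_pos g₀ with h4 | h4
    · rw [h4, mul_zero] at hG'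
      exact absurd hG' Nat.card_pos.ne'
    · exact h4
  have hgd : g₀ = d := by
    obtain ⟨k, hk⟩ := hdg
    have hk0 : k ≠ 0 := by
      rintro rfl
      rw [mul_zero] at hk
      omega
    by_contra hne1
    have hk2 : 2 ≤ k := by
      by_contra h3
      have : k = 1 := by omega
      rw [this, mul_one] at hk
      exact hne1 hk
    have h4 : d * 2 ≤ d * k := Nat.mul_le_mul_left _ hk2
    omega
  -- `t` divides `q ^ b`
  have hcop1 : Nat.Coprime t p := by
    have h1 : t ∣ p - 1 := ⟨_, by rw [← hmul, mul_comm]⟩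
    have hp1 : p - 1 + 1 = p := Nat.sub_add_cancel hpp.one_le
    have h2 : Nat.Coprime (p - 1) p := by
      have := (Nat.coprime_self_add_right (m := p - 1) (n := 1)).2 (Nat.coprime_one_right _)
      rwa [hp1] at this
    exact Nat.Coprime.coprime_dvd_left h1 h2
  have hcop2 : Nat.Coprime t d := by
    rw [← hd] at hcop1
    exact (Nat.coprime_add_self_right).1 hcop1
  have htq : t ∣ q ^ b := by
    have h1 : t ∣ Nat.card G := by
      have h2 : t ∣ Nat.card (normalizer (P : Set G)) := ⟨Nat.card P, by rw [hN, mul_comm]⟩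
      exact h2.trans (Subgroup.card_subgroup_dvd_card _)
    rw [hG', hgd] at h1
    have h3 : t ∣ p * (q ^ b * d) := by
      rwa [← mul_assoc]
    have h4 := hcop1.dvd_of_dvd_mul_left h3
    exact hcop2.dvd_of_dvd_mul_right h4
  have hqt : q ∣ t := by
    obtain ⟨c, -, hc⟩ := (Nat.dvd_prime_pow hq).1 htq
    have hc0 : c ≠ 0 := by
      rintro rfl
      rw [pow_zero] at hc
      omega
    rw [hc]
    exact dvd_pow_self q hc0
  -- `q = 2`
  have hterm : ∀ χ : IrrCharacter G, χ ≠ oneIrr G → (q : ℤ) ∣ D.w χ * (charDegree (χ : G → ℂ) : ℤ) := by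
    intro χ hχ
    by_cases hw : D.w χ = 0
    · rw [hw, zero_mul]
      exact dvd_zero _
    · have h1 := q_dvd_of_w H hperf D hcard hq hG' hg hχ hw f₀
      exact Dvd.dvd.mul_left (by exact_mod_cast h1) _
  have hsum : (q : ℤ) ∣ ∑ χ : {χ : IrrCharacter G // χ ≠ oneIrr G}, D.w χ.1 * (charDegree (χ.1 : G → ℂ) : ℤ) :=
    Finset.dvd_sum fun χ _ => hterm χ.1 χ.2
  have hrel := rel_one D hpp f₀
  rw [Fintype.sum_eq_add_sum_subtype_ne _ (oneIrr G), deg_oneI, w_one H D f₀ hne, hσ, ← hdd] at hrel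
  have hq1 : (q : ℤ) ∣ 1 + d := by
    have h1 : (1 : ℤ) + d = ∑ χ : {χ : IrrCharacter G // χ ≠ oneIrr G}, D.w χ.1 * (charDegree (χ.1 : G → ℂ) : ℤ) := by
      push_cast at hrel
      linarith
    rw [h1]
    exact hsum
  have hq2 : q ∣ 1 + d := by exact_mod_cast hq1
  have hq3 : q ∣ p - 1 := hqt.trans ⟨_, by rw [← hmul, mul_comm]⟩
  have hq4 : q ∣ 2 := by
    have h1 : (1 + d) + t = (p - 1) + 2 := by omega
    have h2 : q ∣ (p - 1) + 2 := by
      rw [← h1]
      exact dvd_add hq2 hqt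
    exact (Nat.dvd_add_right hq3).1 h2
  have hq5 : q = 2 := (Nat.prime_dvd_prime_iff_eq hq Nat.prime_two).1 hq4
  subst hq5
  exact ⟨rfl, hgd, htq, ht2, hτ⟩

/-- The mod four argument. -/
theorem tau3_false (H : Hyp p P P (MonoidHom.id ↥P) 1) (hperf : _root_.commutator G = ⊤) (D : Dat p P P (MonoidHom.id ↥P) t)
    (hcard : Nat.card P = p) {b d : ℕ} (hG' : Nat.card G = p * 2 ^ b * d) (hg : d < p - 1) (f₀ : NT P) (hne : D.ξ f₀ ≠ oneIrr G)
    (hσ : D.σ = -1) (hd : charDegree ((D.ξ f₀ : IrrCharacter G) : G → ℂ) = d) (hdt : d + t = p) (ht : t ∣ 2 ^ b) (ht3 : 3 ≤ t)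
    (hτ : 3 ≤ Nat.card (Set.range D.ξ)) : False := by
  classical
  have hpp := H.prime
  have hmul : Nat.card (Set.range D.ξ) * t = p - 1 := D.hrange
  have hp2 := hpp.two_le
  -- `4 ∣ t`
  have h4t : 4 ∣ t := by
    obtain ⟨c, -, hc⟩ := (Nat.dvd_prime_pow Nat.prime_two).1 ht
    have hc2 : 2 ≤ c := by
      by_contra h
      have : c = 0 ∨ c = 1 := by omega
      rcases this with rfl | rfl <;> rw [hc] at ht3 <;> norm_num at ht3
    rw [hc]
    exact pow_dvd_pow 2 hc2
  have h4p : 4 ∣ p - 1 := h4t.trans ⟨_, by rw [← hmul, mul_comm]⟩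
  have h2G : 2 ∣ Nat.card G := by
    have h1 : 2 ∣ t := (by norm_num : 2 ∣ 4).trans h4t
    have h2 : t ∣ Nat.card G := by
      rw [hG']
      exact Dvd.dvd.mul_right (Dvd.dvd.mul_left ht _) _
    exact h1.trans h2
  obtain ⟨z, hz, hz1, hodd⟩ := exists_central_invol h2G
  have hp2' : p ≠ 2 := by
    intro h
    rw [h] at h4p
    omega
  have hzreg : ¬ p ∣ orderOf z := by
    intro h1
    have h2 : orderOf z ∣ 2 := orderOf_dvd_of_pow_eq_one (by rw [pow_two, hz])
    exact hp2' ((Nat.prime_dvd_prime_iff_eq hpp Nat.prime_two).1 (h1.trans h2))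
  have hk : ∀ χ : IrrCharacter G, ∃ k : ℤ, (χ : G → ℂ) z = (((charDegree (χ : G → ℂ) : ℤ) - 4 * k : ℤ) : ℂ) := fun χ =>
    val_invol hperf (IsIrrCharacter.isCharacter χ.2) hz
  choose k hk using hk
  obtain ⟨n, hn⟩ : ∃ n : IrrCharacter G → ℤ, n = fun χ : IrrCharacter G => (charDegree (χ : G → ℂ) : ℤ) - 4 * k χ := ⟨_, rfl⟩
  have hnz : ∀ χ : IrrCharacter G, (χ : G → ℂ) z = (n χ : ℂ) := fun χ => by rw [hk, hn]
  have hrel : ∑ χ : IrrCharacter G, D.w χ * n χ + D.σ * n (D.ξ f₀) = 0 := by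
    have h1 := D.hreg f₀ z hzreg
    simp_rw [hnz] at h1
    exact_mod_cast h1
  have hn1 : n (oneIrr G) = 1 := by
    have h1 : ((n (oneIrr G) : ℤ) : ℂ) = 1 := by
      rw [← hnz]
      rfl
    exact_mod_cast h1
  have hp1' : (p : ℤ) = (p - 1 : ℕ) + 1 := by
    have : p = (p - 1) + 1 := (Nat.sub_add_cancel hpp.one_le).symm
    exact_mod_cast this
  -- a member with small `2`-part
  have hex : ∃ χ : IrrCharacter G, χ ≠ oneIrr G ∧ D.w χ ≠ 0 ∧ ¬ (4 : ℤ) ∣ n χ := by
    by_contra hcon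
    push Not at hcon
    have hsum : (4 : ℤ) ∣ ∑ χ : {χ : IrrCharacter G // χ ≠ oneIrr G}, D.w χ.1 * n χ.1 := by
      refine Finset.dvd_sum fun χ _ => ?_
      by_cases hw : D.w χ.1 = 0
      · rw [hw, zero_mul]
        exact dvd_zero _
      · exact Dvd.dvd.mul_left (hcon χ.1 χ.2 hw) _
    rw [Fintype.sum_eq_add_sum_subtype_ne _ (oneIrr G), hn1, w_one H D f₀ hne, hσ] at hrel
    have h1 : n (D.ξ f₀) = (d : ℤ) - 4 * k (D.ξ f₀) := by
      rw [hn, ← hd]
    rw [h1] at hrel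
    have h2 : (4 : ℤ) ∣ 1 + d := by
      have h3 : (1 : ℤ) + d = ∑ χ : {χ : IrrCharacter G // χ ≠ oneIrr G}, D.w χ.1 * n χ.1 + 4 * k (D.ξ f₀) := by
        linarith
      rw [h3]
      exact dvd_add hsum (dvd_mul_right _ _)
    have h3 : 4 ∣ 1 + d := by exact_mod_cast h2
    have h5 : 4 ∣ (1 + d) + t := dvd_add h3 h4t
    have h6 : (1 + d) + t = (p - 1) + 2 := by omega
    rw [h6] at h5
    have h7 := (Nat.dvd_add_right h4p).1 h5
    omega
  obtain ⟨χ, hχ, hw, hn4⟩ := hex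
  have hdeg4 : ¬ 4 ∣ charDegree (χ : G → ℂ) := by
    intro h
    apply hn4
    have h1 := two_pow_dvd_val (k := 2) χ hodd (hnz χ) (by simpa using h)
    simpa using h1
  have hdeg2 : 2 ∣ charDegree (χ : G → ℂ) := q_dvd_of_w H hperf D hcard Nat.prime_two hG' hg hχ hw f₀
  obtain ⟨hnp, hle⟩ := le_of_w H hperf D hcard hχ hw f₀
  obtain ⟨y, hy⟩ := hdeg2
  have hyodd : ¬ 2 ∣ y := by
    intro h
    apply hdeg4
    rw [hy]
    have : (4 : ℕ) = 2 * 2 := rfl
    rw [this]
    exact Nat.mul_dvd_mul_left 2 h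
  have hyd : y ∣ d := by
    have h1 := Cfsg.Agent.Lib.CharKernel.charDegree_dvd_card χ.2
    rw [hG', hy] at h1
    have h2 : y ∣ p * (2 ^ b * d) := by
      rw [← mul_assoc]
      exact (Dvd.intro_left 2 rfl).trans h1
    have hcp : Nat.Coprime y p := by
      have h3 : ¬ p ∣ y := by
        intro h4
        apply hnp
        rw [hy]
        exact Dvd.dvd.mul_left h4 _
      exact ((Nat.Prime.coprime_iff_not_dvd hpp).2 h3).symm
    have h3 := hcp.dvd_of_dvd_mul_left h2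
    have hc2 : Nat.Coprime y (2 ^ b) := Nat.Coprime.pow_right _ ((Nat.Prime.coprime_iff_not_dvd Nat.prime_two).2 hyodd).symm
    exact hc2.dvd_of_dvd_mul_left h3
  have hd0 : 0 < d := by
    rw [← hd]
    exact Cfsg.Agent.Lib.CharKernel.charDegree_pos (D.ξ f₀).2
  have hyle := Nat.le_of_dvd hd0 hyd
  have hτt : 3 * t ≤ p - 1 := by
    rw [← hmul]
    exact Nat.mul_le_mul_right _ hτ
  rcases D.hval χ with h | h | h
  · exact hw h
  · -- `w = 1`
    obtain ⟨b', hb', h1⟩ := deg_plus H D hcard h f₀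
    have hb1 : b' = 1 := by
      by_contra hne1
      have hb2 : 2 ≤ b' := by omega
      have h2 : 2 * p ≤ b' * p := Nat.mul_le_mul_right _ hb2
      omega
    rw [hb1, one_mul] at h1
    apply hdeg4
    have h2 : charDegree (χ : G → ℂ) = p - 1 := by omega
    rw [h2]
    exact h4p
  · -- `w = -1`
    obtain ⟨u, h1⟩ := deg_minus H D hcard h f₀
    have hu0 : u ≠ 0 := by
      rintro rfl
      apply hχ
      apply eq_one_of_degree_one hperf
      rw [h1]
      simp
    have hu1 : u = 1 := by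
      by_contra hne1
      have hu2 : 2 ≤ u := by omega
      have h2 : 2 * p ≤ u * p := Nat.mul_le_mul_right _ hu2
      omega
    rw [hu1, one_mul] at h1
    have h2 : y ∣ t + 1 := by
      have h3 : y ∣ 2 * y := Dvd.intro_left 2 rfl
      have h4 : y ∣ d + (t + 1) := by
        have h5 : d + (t + 1) = 2 * y := by omega
        rw [h5]
        exact h3
      exact (Nat.dvd_add_right hyd).1 h4
    have h3 := Nat.le_of_dvd (by omega) h2
    omega

/-- **Two exceptional characters: few Sylow subgroups.** -/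
theorem tau2 [hpF : Fact p.Prime] (S : Sylow p G) [Fintype (S : Subgroup G)] [Fintype (MonoidHom.id ↥(S : Subgroup G)).ker]
    [Fintype (↥(S : Subgroup G) →* ℂˣ)] (H : Hyp p (S : Subgroup G) (S : Subgroup G) (MonoidHom.id _) 1) (hperf : _root_.commutator G = ⊤)
    (D : Dat p (S : Subgroup G) (S : Subgroup G) (MonoidHom.id _) t) (hcard : Nat.card (S : Subgroup G) = p)
    (hN : Nat.card (normalizer ((S : Subgroup G) : Set G)) = Nat.card (S : Subgroup G) * t) {b d : ℕ}
    (hG' : Nat.card G = p * 2 ^ b * d) (hg : d < p - 1) (f₀ : NT (S : Subgroup G)) (hne : D.ξ f₀ ≠ oneIrr G)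
    (hσ : D.σ = -1) (hd : charDegree ((D.ξ f₀ : IrrCharacter G) : G → ℂ) = d) (hdt : d + t = p) (ht : t ∣ 2 ^ b)
    (hτ : Nat.card (Set.range D.ξ) = 2) (hfaith : ∀ χ : IrrCharacter G, χ ≠ oneIrr G → ∀ g : G, (χ : G → ℂ) g = (χ : G → ℂ) 1 → g = 1)
    (hZ : ∀ c : G, (∀ g : G, c * g = g * c) → c = 1) : 2 * Nat.card (Sylow p G) < (p + 1) * (p + 2) := by
  classical
  have hpp := H.prime
  have hmul : Nat.card (Set.range D.ξ) * t = p - 1 := D.hrange
  rw [hτ] at hmul
  have hp1 := hpp.one_lt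
  have hpt : p = 2 * t + 1 := by omega
  have hp2 : p ≠ 2 := by omega
  have htpos : 0 < t := by
    rcases Nat.eq_zero_or_pos t with h | h
    · rw [h, mul_zero] at hN
      exact absurd hN Nat.card_pos.ne'
    · exact h
  have hdt' : d = t + 1 := by omega
  -- the second exceptional character
  obtain ⟨f₁, hf₁, hall⟩ : ∃ f₁ : NT (S : Subgroup G), D.ξ f₀ ≠ D.ξ f₁ ∧ ∀ f, D.ξ f = D.ξ f₀ ∨ D.ξ f = D.ξ f₁ := by
    obtain ⟨x, y, hxy, hxyU⟩ := Nat.card_eq_two_iff.1 hτ
    have hmem : ∀ v : Set.range D.ξ, v = x ∨ v = y := by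
      intro v
      have h1 : v ∈ ({x, y} : Set (Set.range D.ξ)) := by
        rw [hxyU]
        trivial
      simpa using h1
    obtain ⟨w, hw⟩ : ∃ w : Set.range D.ξ, (w : IrrCharacter G) ≠ D.ξ f₀ ∧ ∀ v : Set.range D.ξ, (v : IrrCharacter G) = D.ξ f₀ ∨ (v : IrrCharacter G) = w := by
      rcases hmem ⟨D.ξ f₀, f₀, rfl⟩ with h | h
      · refine ⟨y, fun h1 => hxy ?_, fun v => ?_⟩
        · rw [← h]
          exact (Subtype.ext h1).symm
        · rcases hmem v with h2 | h2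
          · left
            rw [h2, ← h]
          · right
            rw [h2]
      · refine ⟨x, fun h1 => hxy ?_, fun v => ?_⟩
        · rw [← h]
          exact Subtype.ext h1
        · rcases hmem v with h2 | h2
          · right
            rw [h2]
          · left
            rw [h2, ← h]
    obtain ⟨hw1, hw2⟩ := hw
    obtain ⟨f₁, hf₁⟩ := w.2
    refine ⟨f₁, ?_, fun f => ?_⟩
    · rw [hf₁]
      exact fun h => hw1 h.symm
    · have := hw2 ⟨D.ξ f, f, rfl⟩
      rw [hf₁]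
      exact this
  have ha : ∀ f : NT (S : Subgroup G), D.a 1 (D.ξ f) = 1 := by
    intro f
    obtain ⟨-, -, -, h4, -⟩ := stepA H hperf D hcard hN Nat.prime_two hG' hg f
    rcases h4 with ⟨h5, -⟩ | ⟨-, -, h5⟩
    · rw [h5] at hσ
      norm_num at hσ
    · exact h5
  -- the degrees of the members with `w = 1`
  have hw1deg : ∀ χ : IrrCharacter G, D.w χ = 1 → charDegree (χ : G → ℂ) = p - 1 := by
    intro χ hw
    have hw' : D.w χ ≠ 0 := by rw [hw]; norm_num
    have hχ : χ ≠ oneIrr G := by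
      rintro rfl
      rw [w_one H D f₀ hne] at hw
      norm_num at hw
    have h1 := a_one_le H D hσ f₀ f₁ hf₁ hall (ha f₀) (ha f₁) hw
    have h2 := deg_of_w H D hcard (not_eq_xi_of_w D hw')
    rw [hw, mul_one] at h2
    have h3 : 2 ∣ charDegree (χ : G → ℂ) := q_dvd_of_w H hperf D hcard Nat.prime_two hG' hg hχ hw' f₀
    have h4 : D.a 1 χ = 0 ∨ D.a 1 χ = 1 := by omega
    rcases h4 with h4 | h4
    · rw [h4] at h2
      have : (charDegree (χ : G → ℂ) : ℤ) = ((p - 1 : ℕ) : ℤ) := by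
        rw [h2, Nat.cast_sub hpp.one_le]
        push_cast
        ring
      exact_mod_cast this
    · exfalso
      rw [h4] at h2
      have h5 : charDegree (χ : G → ℂ) + 1 = 2 * p := by
        have : (charDegree (χ : G → ℂ) : ℤ) + 1 = 2 * p := by
          rw [h2]
          push_cast
          ring
        exact_mod_cast this
      omega
  -- the involution
  obtain ⟨c, -, hc⟩ := (Nat.dvd_prime_pow Nat.prime_two).1 ht
  have hdeg2 : p - 1 = 2 ^ (c + 1) := by
    rw [pow_succ, ← hc]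
    omega
  have h2G : 2 ∣ Nat.card G := by
    have h1 : 2 ∣ p - 1 := by
      rw [hdeg2]
      exact dvd_pow_self 2 (Nat.succ_ne_zero c)
    have h3 : t ∣ Nat.card G := by
      rw [hG']
      exact Dvd.dvd.mul_right (Dvd.dvd.mul_left ht _) _
    have h4 : t ≠ 1 → 2 ∣ t := by
      intro h5
      have hc0 : c ≠ 0 := by
        rintro rfl
        rw [pow_zero] at hc
        exact h5 hc
      rw [hc]
      exact dvd_pow_self 2 hc0
    by_cases h5 : t = 1
    · exfalso
      have : p = 3 := by omega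
      rw [hdt'] at hg
      omega
    · exact (h4 h5).trans h3
  obtain ⟨z, hz, hz1, hodd⟩ := exists_central_invol h2G
  have hw0 : ∀ χ : IrrCharacter G, D.w χ = 1 → (χ : G → ℂ) z = 0 := by
    intro χ hw
    have hχ : χ ≠ oneIrr G := by
      rintro rfl
      rw [w_one H D f₀ hne] at hw
      norm_num at hw
    obtain ⟨k, hk⟩ := val_invol hperf (IsIrrCharacter.isCharacter χ.2) hz
    obtain ⟨n, hn⟩ : ∃ n : ℤ, n = (charDegree (χ : G → ℂ) : ℤ) - 4 * k := ⟨_, rfl⟩
    rw [← hn] at hk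
    have hdegχ := hw1deg χ hw
    have h1 : (2 : ℤ) ^ (c + 1) ∣ n := two_pow_dvd_val χ hodd hk (by rw [hdegχ, hdeg2])
    rw [hk]
    by_contra hn0
    have hn0' : n ≠ 0 := by
      intro h
      apply hn0
      rw [h]
      simp
    have h2 : (2 : ℤ) ^ (c + 1) ≤ |n| := by
      have h3 := Int.le_of_dvd (abs_pos.2 hn0') ((dvd_abs _ _).2 h1)
      exact h3
    obtain ⟨m, ρ, hρ⟩ := IsIrrCharacter.isCharacter χ.2
    have hdeg : charDegree (χ : G → ℂ) = m := by
      rw [← hρ, charDegree, char_one_eq_rep]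
      simp
    have hnorm : ‖(χ : G → ℂ) z‖ ≤ m := by
      rw [← hρ]
      simpa using Cfsg.Agent.Lib.CharValues.norm_character_le ρ z
    rw [hk] at hnorm
    have h3 : ‖((n : ℤ) : ℂ)‖ = ((|n| : ℤ) : ℝ) := by
      rw [Complex.norm_intCast]
      push_cast
      rfl
    have h4 : ((|n| : ℤ) : ℝ) ≥ ((2 : ℤ) ^ (c + 1) : ℤ) := by exact_mod_cast h2
    have h5 : (m : ℝ) = ((2 : ℤ) ^ (c + 1) : ℤ) := by
      have h6 : m = 2 ^ (c + 1) := by rw [← hdeg, hdegχ, hdeg2]
      rw [h6]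
      push_cast
      ring
    have h6 : ‖(χ : G → ℂ) z‖ = (charDegree (χ : G → ℂ) : ℝ) := by
      rw [hk, hdeg]
      rw [h3] at hnorm ⊢
      linarith
    have h7 := Cfsg.Agent.Lib.Pm2B.central_of_norm (IsIrrCharacter.isCharacter χ.2) (hfaith χ hχ) h6
    exact hz1 (hZ z h7)
  -- a conjugate inverts `S`
  haveI : Nontrivial ↥(S : Subgroup G) := by
    rw [← Finite.one_lt_card_iff_nontrivial, hcard]
    exact hp1
  obtain ⟨y₀, hy₀⟩ := exists_ne (1 : ↥(S : Subgroup G))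
  have hcnt := cnt_ne H hperf D hσ hp2 f₀ hne hz hw0 hy₀
  have hy₀' : (y₀ : G) ≠ 1 := fun h => hy₀ (Subtype.ext h)
  obtain ⟨a, hinv⟩ := exists_inverter H hcard hz y₀.2 hy₀' hcnt
  have hs := Cfsg.Agent.Lib.Pm2E.conj_invol hz a
  have hN' : Nat.card (normalizer ((S : Subgroup G) : Set G)) = p * t := by rw [hN, hcard]
  obtain ⟨ν, hν1, hC, hM⟩ := count_main hp2 S hcard hs hinv hN'
  rw [card_centralizer_conj] at hC
  -- arithmetic
  obtain ⟨X, hX⟩ := ht
  have hdvdC : 2 ^ b ∣ Nat.card (centralizer ({z} : Set G)) := by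
    have h1 := Subgroup.card_mul_index (centralizer ({z} : Set G))
    rw [hG'] at h1
    have h2 : 2 ^ b ∣ Nat.card (centralizer ({z} : Set G)) * (centralizer ({z} : Set G)).index := by
      rw [h1]
      exact Dvd.dvd.mul_right (Dvd.intro_left _ rfl) _
    have hcop : Nat.Coprime (2 ^ b) (centralizer ({z} : Set G)).index :=
      Nat.Coprime.pow_left _ ((Nat.Prime.coprime_iff_not_dvd Nat.prime_two).2 hodd)
    exact hcop.dvd_of_dvd_mul_right h2
  have hCpos : 0 < Nat.card (centralizer ({z} : Set G)) := Nat.card_pos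
  have hle := Nat.le_of_dvd hCpos hdvdC
  have hXν : X ≤ ν := by
    have h1 : t * X ≤ ν * t := by
      rw [← hX]
      exact hle.trans hC
    rw [mul_comm ν t] at h1
    exact Nat.le_of_mul_le_mul_left h1 htpos
  have hXpos : 0 < X := by
    rcases Nat.eq_zero_or_pos X with h | h
    · rw [h, mul_zero] at hX
      exact absurd hX (by positivity)
    · exact h
  have hMeq : Nat.card (Sylow p G) = X * d := by
    have h1 := Subgroup.card_mul_index (normalizer ((S : Subgroup G) : Set G))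
    rw [hN', hG', hX] at h1
    have h2 : (normalizer ((S : Subgroup G) : Set G)).index = Nat.card (Sylow p G) := (Sylow.card_eq_index_normalizer S).symm
    rw [h2] at h1
    have h3 : (p * t) * Nat.card (Sylow p G) = (p * t) * (X * d) := by
      rw [h1]
      ring
    exact Nat.eq_of_mul_eq_mul_left (Nat.mul_pos hpp.pos htpos) h3
  rw [hMeq] at hM ⊢
  have hX2 : X ≤ 2 := by
    by_contra hcon
    have hX3 : 3 ≤ X := by omega
    obtain ⟨X', rfl⟩ : ∃ X', X = X' + 1 := ⟨X - 1, by omega⟩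
    have h1 : p * X' + 1 ≤ p * (ν - 1) + 1 := by
      have h2 : X' ≤ ν - 1 := by omega
      have h3 := Nat.mul_le_mul_left p h2
      omega
    have h4 : p * X' + 1 ≤ (X' + 1) * d := h1.trans hM
    rw [hpt, hdt'] at h4
    have h5 : 2 ≤ X' := by omega
    nlinarith
  have h6 : X * d ≤ 2 * d := Nat.mul_le_mul_right _ hX2
  rw [hpt, hdt'] at *
  nlinarith

end Cfsg.Agent.Lib.BT97E
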