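import Mathlib
import Cfsg.Agent.Lib.CharInd
import Cfsg.Agent.Lib.CharAvg

/-!
# Multiplicities over abelian sections

If `γ` is irreducible on `Γ`, `M ⊲ Γ` with abelian quotient and `γ_M = r β` with `β` irreducible,
then `r²` divides `|Γ : M|`.  Consequently, for a solvable `G` and `χ ∈ Irr G` which is homogeneous
on each normal subgroup, `χ_V = e β` forces `e² ∣ |G : V|`.
-/

set_option autoImplicit false
set_option linter.style.haveILetI false
set_option linter.unusedVariables false
set_option linter.unusedSectionVars false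

namespace Cfsg.Agent.Lib.BergerChain

open Cfsg Cfsg.Agent.Lib.CharBasic Cfsg.Agent.Lib.CharInd
open scoped ComplexConjugate

universe u v

/-- Orthogonality for the dual of a finite abelian group. -/
theorem dual_sum {A : Type u} [CommGroup A] [Finite A] [Fintype (A →* ℂˣ)] (a : A) (ha : a ≠ 1) :
    ∑ l : A →* ℂˣ, ((l a : ℂˣ) : ℂ) = 0 := by
  obtain ⟨l₀, hl₀⟩ := CommGroup.exists_apply_ne_one_of_hasEnoughRootsOfUnity A ℂ ha
  have h1 : ∑ l : A →* ℂˣ, ((l a : ℂˣ) : ℂ) = ((l₀ a : ℂˣ) : ℂ) * ∑ l : A →* ℂˣ, ((l a : ℂˣ) : ℂ) := by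
    rw [Finset.mul_sum]
    refine Fintype.sum_equiv (Equiv.mulLeft l₀⁻¹) _ _ fun l => ?_
    simp
  have h2 : (((l₀ a : ℂˣ) : ℂ) - 1) * ∑ l : A →* ℂˣ, ((l a : ℂˣ) : ℂ) = 0 := by
    rw [sub_mul, ← h1, one_mul, sub_self]
  rcases mul_eq_zero.mp h2 with h3 | h3
  · exfalso
    apply hl₀
    apply Units.ext
    exact sub_eq_zero.mp h3
  · exact h3

theorem dual_sum_one {A : Type u} [CommGroup A] [Finite A] [Fintype (A →* ℂˣ)] :
    ∑ l : A →* ℂˣ, ((l (1 : A) : ℂˣ) : ℂ) = Nat.card A := by
  have h := CommGroup.card_monoidHom_of_hasEnoughRootsOfUnity A ℂ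
  simp only [map_one, Units.val_one, Finset.sum_const, Finset.card_univ, nsmul_eq_mul, mul_one]
  rw [← h, Nat.card_eq_fintype_card]

/-- The step: `γ` irreducible on `Γ`, `f : M → Γ` an embedding onto a normal subgroup with abelian
quotient and `γ ∘ f = r β` with `β` irreducible.  Then `r²` divides the index of the image. -/
theorem chain_step {Γ : Type u} {M : Type v} [Group Γ] [Fintype Γ] [Group M] [Fintype M]
    (f : M →* Γ) (hf : Function.Injective f) [hn : f.range.Normal]
    (hab : ∀ a b : Γ, a * b * a⁻¹ * b⁻¹ ∈ f.range) {γ : Γ → ℂ} (hγ : IsIrrCharacter Γ γ) {β : M → ℂ}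
    (hβ : IsIrrCharacter M β) (r : ℕ) (hres : ∀ m, γ (f m) = r * β m) :
    r ^ 2 ∣ f.range.index := by
  classical
  set R := f.range with hR
  letI : CommGroup (Γ ⧸ R) :=
    { (inferInstance : Group (Γ ⧸ R)) with
      mul_comm := by
        intro x y
        induction x using QuotientGroup.induction_on with
        | H a =>
        induction y using QuotientGroup.induction_on with
        | H b =>
        have h1 := hab a b
        rw [← QuotientGroup.mk_mul, ← QuotientGroup.mk_mul, QuotientGroup.eq]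
        have : (a * b)⁻¹ * (b * a) = b⁻¹ * a⁻¹ * b * a := by group
        rw [this]
        have h2 := hab b⁻¹ a⁻¹
        simpa using h2 }
  let π : Γ →* (Γ ⧸ R) := QuotientGroup.mk' R
  haveI : Finite (Γ ⧸ R →* ℂˣ) := by
    haveI : Finite (Γ ⧸ R) := inferInstance
    exact Nat.finite_of_card_ne_zero (by
      rw [CommGroup.card_monoidHom_of_hasEnoughRootsOfUnity (Γ ⧸ R) ℂ]
      exact Nat.card_pos.ne')
  letI : Fintype (Γ ⧸ R →* ℂˣ) := Fintype.ofFinite _
  -- stabiliser in the dual
  let S : Subgroup (Γ ⧸ R →* ℂˣ) :=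
    { carrier := {l | ∀ g, ((l (π g) : ℂˣ) : ℂ) * γ g = γ g}
      mul_mem' := fun {a b} ha hb g => by
        have h1 := ha g
        have h2 := hb g
        simp only [MonoidHom.mul_apply, Units.val_mul]
        rw [mul_assoc, h2, h1]
      one_mem' := fun g => by simp
      inv_mem' := fun {a} ha g => by
        have h1 := ha g
        simp only [MonoidHom.inv_apply, Units.val_inv_eq_inv_val]
        have h2 : ((a (π g) : ℂˣ) : ℂ) ≠ 0 := Units.ne_zero _
        field_simp
        exact h1.symm }
  have hmemS : ∀ l, l ∈ S ↔ ∀ g, ((l (π g) : ℂˣ) : ℂ) * γ g = γ g := fun l => Iff.rfl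
  -- the twist is irreducible
  have hnorm : ∀ (l : Γ ⧸ R →* ℂˣ) (g : Γ), ((l (π g) : ℂˣ) : ℂ) * conj ((l (π g) : ℂˣ) : ℂ) = 1 := by
    intro l g
    have h1 : ((l (π g) : ℂˣ) : ℂ) ^ (Nat.card (Γ ⧸ R)) = 1 := by
      rw [← Units.val_pow_eq_pow_val, ← map_pow, pow_card_eq_one', map_one, Units.val_one]
    have h2 : ‖((l (π g) : ℂˣ) : ℂ)‖ = 1 :=
      Complex.norm_eq_one_of_pow_eq_one h1 Nat.card_pos.ne'
    rw [Complex.mul_conj, Complex.normSq_eq_norm_sq, h2]
    simp
  have hirr : ∀ l : Γ ⧸ R →* ℂˣ, IsIrrCharacter Γ (fun g => ((l (π g) : ℂˣ) : ℂ) * γ g) := by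
    intro l
    have hl : IsCharacter Γ (fun g => ((l (π g) : ℂˣ) : ℂ)) :=
      IsIrrCharacter.isCharacter (isIrrCharacter_of_hom (l.comp π))
    have h1 := isCharacter_mul hl (IsIrrCharacter.isCharacter hγ)
    apply isIrrCharacter_of_norm_one h1
    have h2 := classInner_irr_self hγ
    unfold classInner at h2 ⊢
    rw [← h2]
    congr 1
    refine Finset.sum_congr rfl fun g _ => ?_
    show ((l (π g) : ℂˣ) : ℂ) * γ g * conj (((l (π g) : ℂˣ) : ℂ) * γ g) = _
    rw [map_mul]
    have := hnorm l g
    linear_combination (γ g * conj (γ g)) * this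
  have hval : ∀ l : Γ ⧸ R →* ℂˣ, classInner (fun g => ((l (π g) : ℂˣ) : ℂ) * γ g) γ =
      if l ∈ S then 1 else 0 := by
    intro l
    split_ifs with hl
    · have : (fun g => ((l (π g) : ℂˣ) : ℂ) * γ g) = γ := funext fun g => hl g
      rw [this, classInner_irr_self hγ]
    · apply classInner_irr_ne (hirr l) hγ
      intro h
      exact hl fun g => congrFun h g
  -- compute the sum over the dual
  have hcardR : Nat.card R = Nat.card M := (Nat.card_congr (MonoidHom.ofInjective hf).toEquiv).symm
  have hindex : R.index * Nat.card M = Nat.card Γ := by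
    rw [← hcardR, mul_comm, Subgroup.card_mul_index]
  have hsum : ∑ l : Γ ⧸ R →* ℂˣ, classInner (fun g => ((l (π g) : ℂˣ) : ℂ) * γ g) γ = (r : ℂ) ^ 2 := by
    have hΓ : (Nat.card Γ : ℂ) ≠ 0 := by exact_mod_cast Nat.card_pos.ne'
    have hM : (Nat.card M : ℂ) ≠ 0 := by exact_mod_cast Nat.card_pos.ne'
    have h1 : ∀ g : Γ, (∑ l : Γ ⧸ R →* ℂˣ, ((l (π g) : ℂˣ) : ℂ)) =
        if g ∈ R then (Nat.card (Γ ⧸ R) : ℂ) else 0 := by
      intro g
      split_ifs with hg
      · have : π g = 1 := (QuotientGroup.eq_one_iff g).mpr hg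
        rw [this]
        exact dual_sum_one
      · apply dual_sum
        intro h
        exact hg ((QuotientGroup.eq_one_iff g).mp h)
    have h2 : ∑ l : Γ ⧸ R →* ℂˣ, classInner (fun g => ((l (π g) : ℂˣ) : ℂ) * γ g) γ =
        (Nat.card Γ : ℂ)⁻¹ * ∑ g : Γ, (∑ l : Γ ⧸ R →* ℂˣ, ((l (π g) : ℂˣ) : ℂ)) * (γ g * conj (γ g)) := by
      unfold classInner
      rw [← Finset.mul_sum, Finset.sum_comm]
      congr 1
      refine Finset.sum_congr rfl fun g _ => ?_
      rw [Finset.sum_mul]
      refine Finset.sum_congr rfl fun l _ => ?_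
      ring
    rw [h2]
    simp only [h1]
    have h3 : ∑ g : Γ, (if g ∈ R then (Nat.card (Γ ⧸ R) : ℂ) else 0) * (γ g * conj (γ g)) =
        (Nat.card (Γ ⧸ R) : ℂ) * ∑ m : M, γ (f m) * conj (γ (f m)) := by
      rw [Finset.mul_sum]
      have h4 : ∀ g : Γ, (if g ∈ R then (Nat.card (Γ ⧸ R) : ℂ) else 0) * (γ g * conj (γ g)) =
          if g ∈ R then (Nat.card (Γ ⧸ R) : ℂ) * (γ g * conj (γ g)) else 0 := by
        intro g
        split_ifs <;> simp
      simp only [h4]
      rw [← Finset.sum_filter]
      symm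
      refine Finset.sum_bij (fun m _ => f m) ?_ ?_ ?_ ?_
      · intro m _
        simp only [Finset.mem_filter, Finset.mem_univ, true_and]
        exact ⟨m, rfl⟩
      · intro a _ b _ h
        exact hf h
      · intro g hg
        simp only [Finset.mem_filter, Finset.mem_univ, true_and] at hg
        obtain ⟨m, rfl⟩ := hg
        exact ⟨m, Finset.mem_univ _, rfl⟩
      · intro m _
        rfl
    rw [h3]
    have h5 : ∑ m : M, γ (f m) * conj (γ (f m)) = (r : ℂ) ^ 2 * (Nat.card M : ℂ) := by
      have h6 := classInner_irr_self hβ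
      unfold classInner at h6
      have h7 : ∑ m : M, β m * conj (β m) = Nat.card M := by
        field_simp at h6
        linear_combination h6
      simp only [hres, map_mul, Complex.conj_natCast]
      rw [← h7, Finset.mul_sum]
      refine Finset.sum_congr rfl fun m _ => ?_
      ring
    rw [h5]
    have h8 : (Nat.card (Γ ⧸ R) : ℂ) * (Nat.card M : ℂ) = Nat.card Γ := by
      have : Nat.card (Γ ⧸ R) = R.index := rfl
      rw [this]
      exact_mod_cast hindex
    field_simp
    linear_combination (r : ℂ) ^ 2 * h8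
  simp only [hval] at hsum
  rw [Finset.sum_boole] at hsum
  have hcard : (Finset.univ.filter (fun l : Γ ⧸ R →* ℂˣ => l ∈ S)).card = Nat.card S := by
    rw [Nat.card_eq_fintype_card, Fintype.card_subtype]
  rw [hcard] at hsum
  have hsq : Nat.card S = r ^ 2 := by
    exact_mod_cast hsum
  rw [← hsq]
  have h1 := Subgroup.card_subgroup_dvd_card S
  rw [CommGroup.card_monoidHom_of_hasEnoughRootsOfUnity (Γ ⧸ R) ℂ] at h1
  exact h1

section Chain

variable {G : Type u} [Group G] [Fintype G]

/-- Homogeneity: from a normal subgroup to a smaller one with abelian quotient. -/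
theorem chain_down (χ : G → ℂ) (hχ : IsIrrCharacter G χ) {N₀ N₁ : Subgroup G} (hle : N₀ ≤ N₁)
    (hN₀ : N₀.Normal) (hab : ∀ a ∈ N₁, ∀ b ∈ N₁, a * b * a⁻¹ * b⁻¹ ∈ N₀)
    (γ : N₁ → ℂ) (e' : ℕ) (hγ : IsIrrCharacter N₁ γ) (hres' : (fun n : N₁ => χ n) = (e' : ℂ) • γ)
    (hdvd : e' ^ 2 ∣ N₁.index)
    (β : N₀ → ℂ) (e : ℕ) (hβ : IsIrrCharacter N₀ β) (hres : (fun n : N₀ => χ n) = (e : ℂ) • β) :
    e ^ 2 ∣ N₀.index := by
  classical
  let f : N₀ →* N₁ := Subgroup.inclusion hle
  have hf : Function.Injective f := Subgroup.inclusion_injective hle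
  have hrange : f.range = N₀.subgroupOf N₁ := Subgroup.inclusion_range hle
  haveI hn : f.range.Normal := by
    rw [hrange]
    exact Subgroup.normal_subgroupOf
  have hab' : ∀ a b : N₁, a * b * a⁻¹ * b⁻¹ ∈ f.range := by
    intro a b
    rw [hrange, Subgroup.mem_subgroupOf]
    exact hab a a.2 b b.2
  have hone : χ 1 ≠ 0 := Cfsg.Agent.Lib.CharAvg.irr_one_ne_zero hχ
  have he' : (e' : ℂ) ≠ 0 := by
    intro h
    apply hone
    have := congrFun hres' 1
    simpa [h] using this
  have h1 : ∀ m : N₀, (e' : ℂ) * γ (f m) = e * β m := by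
    intro m
    have h2 := congrFun hres' (f m)
    have h3 := congrFun hres m
    simp only [Pi.smul_apply, smul_eq_mul] at h2 h3
    rw [← h2, ← h3]
    rfl
  have hchar : IsCharacter N₀ (fun m => γ (f m)) :=
    isCharacter_comp f (IsIrrCharacter.isCharacter hγ)
  obtain ⟨r, hr⟩ := classInner_char_irr hchar hβ
  have h2 : (fun m => γ (f m)) = ((e : ℂ) / e') • β := by
    funext m
    simp only [Pi.smul_apply, smul_eq_mul]
    field_simp
    linear_combination h1 m
  have h3 : (e : ℂ) / e' = r := by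
    rw [h2, classInner_smul_left, classInner_irr_self hβ, mul_one] at hr
    exact hr
  have h4 : e = e' * r := by
    have : (e : ℂ) = e' * r := by
      rw [← h3]
      field_simp
    exact_mod_cast this
  have h5 : ∀ m, γ (f m) = r * β m := by
    intro m
    have := congrFun h2 m
    simp only [Pi.smul_apply, smul_eq_mul, h3] at this
    exact this
  have h6 := chain_step f hf hab' hγ hβ r h5
  rw [hrange] at h6
  have h7 : N₀.relIndex N₁ * N₁.index = N₀.index := Subgroup.relIndex_mul_index hle
  rw [← h7, h4, mul_pow, mul_comm]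
  exact mul_dvd_mul h6 hdvd

/-- Solvable `G`, `χ` homogeneous on normal subgroups: multiplicities are bounded by indices. -/
theorem chain_normal [Group.IsSolvable G] (χ : G → ℂ) (hχ : IsIrrCharacter G χ)
    (hqp : ∀ (N : Subgroup G), N.Normal → ∃ (ϑ : N → ℂ) (e : ℕ), IsIrrCharacter N ϑ ∧
      (fun n : N => χ n) = (e : ℂ) • ϑ)
    (V : Subgroup G) (hV : V.Normal) (β : V → ℂ) (e : ℕ) (hβ : IsIrrCharacter V β)
    (hres : (fun n : V => χ n) = (e : ℂ) • β) : e ^ 2 ∣ V.index := by
  classical
  let Q : Subgroup G → Prop := fun V => ∀ (β : V → ℂ) (e : ℕ), IsIrrCharacter V β →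
    (fun n : V => χ n) = (e : ℂ) • β → e ^ 2 ∣ V.index
  have htop : Q ⊤ := by
    intro β e hβ hres
    let f : (⊤ : Subgroup G) →* G := (⊤ : Subgroup G).subtype
    have hf : Function.Injective f := Subgroup.subtype_injective _
    have hrange : f.range = ⊤ := Subgroup.range_subtype _
    haveI hn : f.range.Normal := by
      rw [hrange]
      exact Subgroup.normal_top
    have h1 := chain_step f hf (fun a b => by rw [hrange]; exact Subgroup.mem_top _) hχ hβ e
      (fun m => by
        have := congrFun hres m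
        simp only [Pi.smul_apply, smul_eq_mul] at this
        exact this)
    rw [hrange] at h1
    rw [Subgroup.index_top] at h1 ⊢
    exact h1
  haveI : V.Normal := hV
  let π : G →* G ⧸ V := QuotientGroup.mk' V
  let N : ℕ → Subgroup G := fun j => (derivedSeries (G ⧸ V) j).comap π
  have hNn : ∀ j, (N j).Normal := fun j => (derivedSeries_normal (G ⧸ V) j).comap π
  have hQ : ∀ j, Q (N j) := by
    intro j
    induction j with
    | zero =>
      have : N 0 = ⊤ := by
        show (derivedSeries (G ⧸ V) 0).comap π = ⊤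
        rw [derivedSeries_zero, Subgroup.comap_top]
      rw [this]
      exact htop
    | succ j ih =>
      intro β e hβ hres
      obtain ⟨γ, e', hγ, hres'⟩ := hqp (N j) (hNn j)
      have hle : N (j + 1) ≤ N j := by
        apply Subgroup.comap_mono
        exact derivedSeries_antitone (G ⧸ V) (Nat.le_succ j)
      refine chain_down χ hχ hle (hNn (j + 1)) ?_ γ e' hγ hres' (ih γ e' hγ hres') β e hβ hres
      intro a ha b hb
      show π (a * b * a⁻¹ * b⁻¹) ∈ derivedSeries (G ⧸ V) (j + 1)
      rw [derivedSeries_succ, map_mul, map_mul, map_mul, map_inv, map_inv, ← commutatorElement_def]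
      exact Subgroup.commutator_mem_commutator ha hb
  obtain ⟨k, hk⟩ := (Group.isSolvable_def (G ⧸ V)).mp inferInstance
  have hNk : N k = V := by
    show (derivedSeries (G ⧸ V) k).comap π = V
    rw [hk]
    show π.ker = V
    exact QuotientGroup.ker_mk' V
  have h := hQ k
  rw [hNk] at h
  exact h β e hβ hres

/-- The arithmetic consequence of an induction from `H` with `H ∩ V = L`. -/
theorem char_part [Group.IsSolvable G] (χ : G → ℂ) (hχ : IsIrrCharacter G χ)
    (hqp : ∀ (N : Subgroup G), N.Normal → ∃ (ϑ : N → ℂ) (e : ℕ), IsIrrCharacter N ϑ ∧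
      (fun n : N => χ n) = (e : ℂ) • ϑ)
    {H : Subgroup G} {ϑ : H → ℂ} (hϑ : IsCharacter H ϑ) (hind : indFun H ϑ = χ)
    {L V : Subgroup G} (hLn : L.Normal) (hVn : V.Normal) (hLV : L ≤ V) (hLH : L ≤ H)
    (hHV : H ⊓ V = L) (hidx : H.index = L.relIndex V) : L.relIndex V ∣ V.index := by
  classical
  obtain ⟨α, eL, hα, hL⟩ := hqp L hLn
  obtain ⟨β, eV, hβ, hV⟩ := hqp V hVn
  have hchain := chain_normal χ hχ hqp V hVn β eV hβ hV
  have hone : χ 1 ≠ 0 := Cfsg.Agent.Lib.CharAvg.irr_one_ne_zero hχ
  have heV : (eV : ℂ) ≠ 0 := by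
    intro h
    apply hone
    have := congrFun hV 1
    simpa [h] using this
  have heL : (eL : ℂ) ≠ 0 := by
    intro h
    apply hone
    have := congrFun hL 1
    simpa [h] using this
  have hχV : ∀ v : V, χ v = eV * β v := fun v => by
    have := congrFun hV v
    simpa using this
  have hχL : ∀ l : L, χ l = eL * α l := fun l => by
    have := congrFun hL l
    simpa using this
  -- vanishing off `L`
  have hvanish : ∀ v : V, (v : G) ∉ L → β v = 0 := by
    intro v hv
    have h1 : χ v = 0 := by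
      rw [← hind]
      apply indFun_eq_zero_of_not_conj
      intro x hx
      apply hv
      have h2 : x⁻¹ * v * x ∈ V := by
        have := hVn.conj_mem v v.2 x⁻¹
        simpa using this
      have h3 : x⁻¹ * v * x ∈ L := by
        rw [← hHV]
        exact ⟨hx, h2⟩
      have h4 := hLn.conj_mem _ h3 x
      have h5 : x * (x⁻¹ * (v : G) * x) * x⁻¹ = v := by group
      rwa [h5] at h4
    rw [hχV] at h1
    exact (mul_eq_zero.mp h1).resolve_left heV
  -- restriction of `β`
  let ι : L →* V := Subgroup.inclusion hLV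
  have hβL : IsCharacter L (fun l => β (ι l)) := isCharacter_comp ι (IsIrrCharacter.isCharacter hβ)
  obtain ⟨m, hm⟩ := classInner_char_irr hβL hα
  have h1 : ∀ l : L, (eV : ℂ) * β (ι l) = eL * α l := by
    intro l
    rw [← hχL, ← hχV]
    rfl
  have h2 : (fun l => β (ι l)) = ((eL : ℂ) / eV) • α := by
    funext l
    simp only [Pi.smul_apply, smul_eq_mul]
    field_simp
    linear_combination h1 l
  have h3 : (eL : ℂ) / eV = m := by
    rw [h2, classInner_smul_left, classInner_irr_self hα, mul_one] at hm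
    exact hm
  have h4 : eL = eV * m := by
    have : (eL : ℂ) = eV * m := by
      rw [← h3]
      field_simp
    exact_mod_cast this
  have h5 : ∀ l, β (ι l) = m * α l := by
    intro l
    have := congrFun h2 l
    simp only [Pi.smul_apply, smul_eq_mul, h3] at this
    exact this
  have hm0 : m ≠ 0 := by
    intro h
    apply heL
    rw [h4, h]
    simp
  -- `m² |L| = |V|`
  have h6 : m ^ 2 * Nat.card L = Nat.card V := by
    have h7 := classInner_irr_self hβ
    have h8 := classInner_irr_self hα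
    unfold classInner at h7 h8
    have hV0 : (Nat.card V : ℂ) ≠ 0 := by exact_mod_cast Nat.card_pos.ne'
    have hL0 : (Nat.card L : ℂ) ≠ 0 := by exact_mod_cast Nat.card_pos.ne'
    have h9 : ∑ v : V, β v * conj (β v) = Nat.card V := by
      field_simp at h7
      linear_combination h7
    have h10 : ∑ l : L, α l * conj (α l) = Nat.card L := by
      field_simp at h8
      linear_combination h8
    have h11 : ∑ v : V, β v * conj (β v) = ∑ l : L, β (ι l) * conj (β (ι l)) := by
      symm
      refine Finset.sum_of_injOn (fun l => ι l) ?_ ?_ ?_ ?_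
      · intro a _ b _ h
        exact Subgroup.inclusion_injective hLV h
      · intro l _
        exact Finset.mem_coe.mpr (Finset.mem_univ _)
      · intro v _ hv
        have hv' : (v : G) ∉ L := by
          intro h
          apply hv
          exact ⟨⟨v, h⟩, Finset.mem_coe.mpr (Finset.mem_univ _), Subtype.ext rfl⟩
        rw [hvanish v hv', zero_mul]
      · intro l _
        rfl
    have h12 : (m : ℂ) ^ 2 * Nat.card L = Nat.card V := by
      rw [← h9, h11, ← h10, Finset.mul_sum]
      refine Finset.sum_congr rfl fun l _ => ?_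
      rw [h5, map_mul, Complex.conj_natCast]
      ring
    exact_mod_cast h12
  have h7 : L.relIndex V = m ^ 2 := by
    have h8 : L.relIndex V * Nat.card L = Nat.card V := by
      have h9 : Nat.card (L.subgroupOf V) = Nat.card L :=
        Nat.card_congr (Subgroup.subgroupOfEquivOfLe hLV).toEquiv
      rw [← h9, mul_comm]
      exact Subgroup.card_mul_index _
    have h9 : 0 < Nat.card L := Nat.card_pos
    rw [← h6] at h8
    exact Nat.eq_of_mul_eq_mul_right h9 h8
  -- `e_L = |G : H| c`
  let ϑL : L → ℂ := fun l => ϑ (Subgroup.inclusion hLH l)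
  have hϑL : IsCharacter L ϑL := isCharacter_comp (Subgroup.inclusion hLH) hϑ
  obtain ⟨c, hc⟩ := classInner_char_irr hϑL hα
  have hαinv : ∀ (x : G) (l : L), α (MulAut.conjNormal x⁻¹ l) = α l := by
    intro x l
    have h8 := hχL (MulAut.conjNormal x⁻¹ l)
    have h9 := hχL l
    have h10 : ((MulAut.conjNormal x⁻¹ l : L) : G) = x⁻¹ * l * x⁻¹⁻¹ := MulAut.conjNormal_apply _ _
    have h11 := Cfsg.Agent.Lib.CharInd.indFun_conj H ϑ (l : G) x⁻¹
    rw [hind] at h11
    rw [h10, h11, h9] at h8
    exact (mul_left_cancel₀ heL h8).symm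
  have hχval : ∀ l : L, χ l = (Nat.card H : ℂ)⁻¹ * ∑ x : G, ϑL (MulAut.conjNormal x⁻¹ l) := by
    intro l
    rw [← hind, indFun_apply]
    congr 1
    refine Finset.sum_congr rfl fun x _ => ?_
    have h10 : ((MulAut.conjNormal x⁻¹ l : L) : G) = x⁻¹ * l * x⁻¹⁻¹ := MulAut.conjNormal_apply _ _
    rw [inv_inv] at h10
    rw [← h10]
    exact extendByZero_of_mem H ϑ _
  have h8 : (eL : ℂ) = H.index * c := by
    have h9 : classInner (fun l : L => χ l) α = eL := by
      rw [hL, classInner_smul_left, classInner_irr_self hα, mul_one]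
    have hL0 : (Nat.card L : ℂ) ≠ 0 := by exact_mod_cast Nat.card_pos.ne'
    have hH0 : (Nat.card H : ℂ) ≠ 0 := by exact_mod_cast Nat.card_pos.ne'
    have h10 : ∑ l : L, ϑL l * conj (α l) = (Nat.card L : ℂ) * c := by
      unfold classInner at hc
      rw [← hc]
      field_simp
    have h11 : ∀ x : G, ∑ l : L, ϑL (MulAut.conjNormal x⁻¹ l) * conj (α l) = (Nat.card L : ℂ) * c := by
      intro x
      rw [← h10]
      refine Fintype.sum_equiv (MulAut.conjNormal x⁻¹).toEquiv _ _ fun l => ?_
      show ϑL (MulAut.conjNormal x⁻¹ l) * conj (α l) =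
        ϑL (MulAut.conjNormal x⁻¹ l) * conj (α (MulAut.conjNormal x⁻¹ l))
      rw [hαinv]
    have h12 : ∑ l : L, χ l * conj (α l) =
        (Nat.card H : ℂ)⁻¹ * ((Nat.card G : ℂ) * ((Nat.card L : ℂ) * c)) := by
      simp only [hχval, Finset.mul_sum, Finset.sum_mul]
      rw [Finset.sum_comm]
      have h13 : ∀ x : G, ∑ l : L, (Nat.card H : ℂ)⁻¹ * ϑL (MulAut.conjNormal x⁻¹ l) * conj (α l) =
          (Nat.card H : ℂ)⁻¹ * ((Nat.card L : ℂ) * c) := by
        intro x
        rw [← h11 x, Finset.mul_sum]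
        refine Finset.sum_congr rfl fun l _ => ?_
        ring
      simp only [h13]
      simp [Finset.card_univ, Nat.card_eq_fintype_card]
      ring
    have h14 : (Nat.card H : ℂ) * H.index = Nat.card G := by
      exact_mod_cast Subgroup.card_mul_index H
    unfold classInner at h9
    rw [h12] at h9
    rw [← h9, ← h14]
    field_simp
  have h9 : eV = m * c := by
    have h10 : eL = H.index * c := by exact_mod_cast h8
    rw [hidx, h7, h4] at h10
    have h11 : m * eV = m * (m * c) := by
      rw [mul_comm m eV, h10]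
      ring
    exact Nat.eq_of_mul_eq_mul_left (Nat.pos_of_ne_zero hm0) h11
  rw [h7]
  refine dvd_trans ?_ hchain
  rw [h9, mul_pow]
  exact dvd_mul_right _ _

end Chain

end Cfsg.Agent.Lib.BergerChain
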