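import Mathlib

/-!
# Linear groups over finite fields: invariant subspaces, restriction, Clifford

Basic vocabulary used for the bound on the `p`-part of a solvable completely reducible
linear group in characteristic `p`.
-/

set_option autoImplicit false
set_option linter.style.haveILetI false
set_option linter.unusedVariables false
set_option linter.unusedSectionVars false

namespace Cfsg.Agent.Lib.PPartBasic

universe u

variable {K V : Type u} [Field K] [AddCommGroup V] [Module K V]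

/-- `W` is invariant under the linear group `H`. -/
def InvS (H : Subgroup (V ≃ₗ[K] V)) (W : Submodule K V) : Prop :=
  ∀ h ∈ H, ∀ v ∈ W, h v ∈ W

/-- `H` is completely reducible. -/
def SS (H : Subgroup (V ≃ₗ[K] V)) : Prop :=
  ∀ W, InvS H W → ∃ W', InvS H W' ∧ IsCompl W W'

/-- `H` has no invariant subspace but the trivial ones. -/
def Irr (H : Subgroup (V ≃ₗ[K] V)) : Prop :=
  ∀ W, InvS H W → W = ⊥ ∨ W = ⊤

theorem InvS.bot (H : Subgroup (V ≃ₗ[K] V)) : InvS H (⊥ : Submodule K V) := by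
  intro h _ v hv
  rw [Submodule.mem_bot] at hv ⊢
  simp [hv]

theorem InvS.top (H : Subgroup (V ≃ₗ[K] V)) : InvS H (⊤ : Submodule K V) :=
  fun _ _ _ _ => Submodule.mem_top

theorem InvS.mono {N H : Subgroup (V ≃ₗ[K] V)} (hNH : N ≤ H) {W : Submodule K V}
    (hW : InvS H W) : InvS N W := fun h hh v hv => hW h (hNH hh) v hv

theorem InvS.sup {H : Subgroup (V ≃ₗ[K] V)} {W W' : Submodule K V} (hW : InvS H W)
    (hW' : InvS H W') : InvS H (W ⊔ W') := by
  intro h hh v hv
  obtain ⟨a, ha, b, hb, rfl⟩ := Submodule.mem_sup.1 hv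
  rw [map_add]
  exact Submodule.add_mem_sup (hW h hh a ha) (hW' h hh b hb)

theorem InvS.inf {H : Subgroup (V ≃ₗ[K] V)} {W W' : Submodule K V} (hW : InvS H W)
    (hW' : InvS H W') : InvS H (W ⊓ W') :=
  fun h hh v hv => ⟨hW h hh v hv.1, hW' h hh v hv.2⟩

/-- The restriction of a linear automorphism to a subspace stable under it and its inverse. -/
def resEquiv (g : V ≃ₗ[K] V) (W : Submodule K V) (h1 : ∀ v ∈ W, g v ∈ W)
    (h2 : ∀ v ∈ W, g⁻¹ v ∈ W) : ↥W ≃ₗ[K] ↥W :=
  LinearEquiv.ofLinear (g.toLinearMap.restrict h1) ((g⁻¹).toLinearMap.restrict h2)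
    (by
      ext w
      show g (g⁻¹ (w : V)) = w
      exact g.apply_symm_apply _)
    (by
      ext w
      show g⁻¹ (g (w : V)) = w
      exact g.symm_apply_apply _)

@[simp] theorem resEquiv_apply (g : V ≃ₗ[K] V) (W : Submodule K V) (h1 : ∀ v ∈ W, g v ∈ W)
    (h2 : ∀ v ∈ W, g⁻¹ v ∈ W) (w : W) : ((resEquiv g W h1 h2 w : W) : V) = g w := rfl

/-- Restriction to an invariant subspace. -/
def res (H : Subgroup (V ≃ₗ[K] V)) (W : Submodule K V) (hW : InvS H W) :
    ↥H →* (↥W ≃ₗ[K] ↥W) where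
  toFun h := resEquiv h.1 W (hW h.1 h.2) (hW h.1⁻¹ (H.inv_mem h.2))
  map_one' := by
    ext w
    rfl
  map_mul' x y := by
    ext w
    rfl

@[simp] theorem res_apply (H : Subgroup (V ≃ₗ[K] V)) (W : Submodule K V) (hW : InvS H W)
    (h : H) (w : W) : ((res H W hW h w : W) : V) = h.1 w := rfl

/-- The image of `H` on `W`. -/
def imgH (H : Subgroup (V ≃ₗ[K] V)) (W : Submodule K V) (hW : InvS H W) :
    Subgroup (↥W ≃ₗ[K] ↥W) := (res H W hW).range

/-- The image of a subgroup `P` on `W`. -/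
def imgP (H : Subgroup (V ≃ₗ[K] V)) (W : Submodule K V) (hW : InvS H W)
    (P : Subgroup (V ≃ₗ[K] V)) : Subgroup (↥W ≃ₗ[K] ↥W) :=
  (P.subgroupOf H).map (res H W hW)

theorem imgP_le (H : Subgroup (V ≃ₗ[K] V)) (W : Submodule K V) (hW : InvS H W)
    (P : Subgroup (V ≃ₗ[K] V)) : imgP H W hW P ≤ imgH H W hW := by
  rintro _ ⟨x, _, rfl⟩
  exact ⟨x, rfl⟩

theorem imgH_solvable (H : Subgroup (V ≃ₗ[K] V)) (W : Submodule K V) (hW : InvS H W)
    [Group.IsSolvable H] : Group.IsSolvable (imgH H W hW) :=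
  Group.isSolvable_of_surjective (f := (res H W hW).rangeRestrict)
    (MonoidHom.rangeRestrict_surjective _)

theorem imgP_isPGroup {p : ℕ} (H : Subgroup (V ≃ₗ[K] V)) (W : Submodule K V) (hW : InvS H W)
    {P : Subgroup (V ≃ₗ[K] V)} (hP : IsPGroup p P) : IsPGroup p (imgP H W hW P) := by
  rintro ⟨_, x, hx, rfl⟩
  obtain ⟨k, hk⟩ := hP ⟨x.1, hx⟩
  refine ⟨k, ?_⟩
  ext w
  have h1 : (x.1 ^ p ^ k) = 1 := by
    have := congrArg Subtype.val hk
    simpa using this
  have h2 : x ^ p ^ k = 1 := Subtype.ext (by simpa using h1)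
  have h3 : (res H W hW x) ^ p ^ k = 1 := by rw [← map_pow, h2, map_one]
  have h4 := congrArg (fun y : ↥W ≃ₗ[K] ↥W => ((y w : W) : V)) h3
  simpa using h4

/-- A complement of a subspace of `W` lifted from `V`. -/
theorem SS.res {H : Subgroup (V ≃ₗ[K] V)} (hss : SS H) (W : Submodule K V) (hW : InvS H W) :
    SS (imgH H W hW) := by
  intro U hU
  have hU' : InvS H (U.map W.subtype) := by
    rintro h hh _ ⟨w, hw, rfl⟩
    refine ⟨Cfsg.Agent.Lib.PPartBasic.res H W hW ⟨h, hh⟩ w, hU _ ⟨⟨h, hh⟩, rfl⟩ w hw, rfl⟩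
  obtain ⟨C', hC', hcompl⟩ := hss _ hU'
  refine ⟨C'.comap W.subtype, ?_, ?_⟩
  · rintro _ ⟨x, rfl⟩ w hw
    exact hC' x.1 x.2 _ hw
  · constructor
    · rw [Submodule.disjoint_def]
      intro w hw hw'
      have h1 : (w : V) ∈ U.map W.subtype := ⟨w, hw, rfl⟩
      have h2 : (w : V) ∈ C' := hw'
      have h3 := (Submodule.disjoint_def.1 hcompl.disjoint) _ h1 h2
      exact Subtype.ext h3
    · rw [codisjoint_iff, eq_top_iff]
      intro w _
      have h1 : (w : V) ∈ U.map W.subtype ⊔ C' := by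
        rw [hcompl.sup_eq_top]
        exact Submodule.mem_top
      obtain ⟨a, ha, c, hc, hac⟩ := Submodule.mem_sup.1 h1
      obtain ⟨u, hu, rfl⟩ := ha
      have hcW : c ∈ W := by
        have : c = (w : V) - u := by
          rw [← hac]
          simp
        rw [this]
        exact W.sub_mem w.2 u.2
      have : w = u + ⟨c, hcW⟩ := Subtype.ext (by simpa using hac.symm)
      rw [this]
      exact Submodule.add_mem_sup hu hc

section Finite

variable [Finite V]

instance instFiniteSubmodule : Finite (Submodule K V) :=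
  Finite.of_injective (fun W : Submodule K V => (W : Set V)) SetLike.coe_injective

/-- Clifford: a normal subgroup of an irreducible group is completely reducible. -/
theorem ss_of_normal {H N : Subgroup (V ≃ₗ[K] V)} (hNH : N ≤ H)
    (hN : ∀ h ∈ H, ∀ n ∈ N, h * n * h⁻¹ ∈ N) (hirr : Irr H) : SS N := by
  classical
  by_cases hV : Nontrivial V
  swap
  · rw [not_nontrivial_iff_subsingleton] at hV
    intro W _
    refine ⟨⊥, InvS.bot _, ?_⟩
    constructor
    · exact disjoint_bot_right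
    · rw [codisjoint_iff, eq_top_iff]
      intro v _
      have : v = 0 := Subsingleton.elim _ _
      rw [this]
      exact Submodule.zero_mem _
  let S : Set (Submodule K V) := {U | InvS N U ∧ U ≠ ⊥}
  have hSne : S.Nonempty := ⟨⊤, InvS.top _, top_ne_bot⟩
  obtain ⟨U, hU, hmin⟩ := (wellFounded_lt (α := Submodule K V)).has_min S hSne
  -- translates
  have htr : ∀ h ∈ H, InvS N (U.map h.toLinearMap) := by
    rintro h hh n hn _ ⟨u, hu, rfl⟩
    have h1 : h⁻¹ * n * h ∈ N := by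
      have := hN h⁻¹ (H.inv_mem hh) n hn
      simpa using this
    refine ⟨(h⁻¹ * n * h) u, hU.1 _ h1 u hu, ?_⟩
    show h ((h⁻¹ * n * h) u) = n (h u)
    have : h * (h⁻¹ * n * h) = n * h := by group
    exact congrArg (fun g : V ≃ₗ[K] V => g u) this
  have hsimple : ∀ h ∈ H, ∀ X, InvS N X → X ≤ U.map h.toLinearMap →
      X = ⊥ ∨ X = U.map h.toLinearMap := by
    intro h hh X hX hle
    by_cases hXb : X = ⊥
    · exact Or.inl hXb
    right
    let Y : Submodule K V := X.map (h⁻¹ : V ≃ₗ[K] V).toLinearMap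
    have hY : InvS N Y := by
      rintro n hn _ ⟨x, hx, rfl⟩
      have h1 : h * n * h⁻¹ ∈ N := hN h hh n hn
      refine ⟨(h * n * h⁻¹) x, hX _ h1 x hx, ?_⟩
      show h⁻¹ ((h * n * h⁻¹) x) = n (h⁻¹ x)
      have : h⁻¹ * (h * n * h⁻¹) = n * h⁻¹ := by group
      exact congrArg (fun g : V ≃ₗ[K] V => g x) this
    have hYb : Y ≠ ⊥ := by
      intro hb
      apply hXb
      rw [eq_bot_iff]
      intro x hx
      have h1 : (h⁻¹ : V ≃ₗ[K] V) x ∈ Y := ⟨x, hx, rfl⟩
      rw [hb, Submodule.mem_bot] at h1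
      have h2 : x = 0 := by
        have := congrArg h h1
        have h3 : h ((h⁻¹ : V ≃ₗ[K] V) x) = x := h.apply_symm_apply x
        rw [h3] at this
        simpa using this
      rw [h2]
      exact Submodule.zero_mem _
    have hYU : Y ≤ U := by
      rintro _ ⟨x, hx, rfl⟩
      obtain ⟨u, hu, rfl⟩ := hle hx
      show (h⁻¹ : V ≃ₗ[K] V) (h u) ∈ U
      have h3 : (h⁻¹ : V ≃ₗ[K] V) (h u) = u := h.symm_apply_apply u
      rw [h3]
      exact hu
    have hYeq : Y = U := by
      by_contra hne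
      exact hmin Y ⟨hY, hYb⟩ (lt_of_le_of_ne hYU hne)
    apply le_antisymm hle
    rintro _ ⟨u, hu, rfl⟩
    rw [← hYeq] at hu
    obtain ⟨x, hx, hxu⟩ := hu
    have h2 : x = h u := by
      have h3 : h ((h⁻¹ : V ≃ₗ[K] V) x) = x := h.apply_symm_apply x
      rw [← h3]
      exact congrArg h hxu
    show h u ∈ X
    rw [← h2]
    exact hx
  -- the sum of translates
  let T : Submodule K V := ⨆ h : H, U.map h.1.toLinearMap
  have hTinv : InvS H T := by
    intro g hg v hv
    have : T ≤ T.comap g.toLinearMap := by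
      refine iSup_le fun h => ?_
      rintro _ ⟨u, hu, rfl⟩
      show g (h.1 u) ∈ T
      refine Submodule.mem_iSup_of_mem ⟨g * h.1, H.mul_mem hg h.2⟩ ⟨u, hu, rfl⟩
    exact this hv
  have hTtop : T = ⊤ := by
    rcases hirr T hTinv with h | h
    · exfalso
      apply hU.2
      rw [eq_bot_iff, ← h]
      intro u hu
      exact Submodule.mem_iSup_of_mem (1 : H) ⟨u, hu, rfl⟩
    · exact h
  intro W hW
  let D : Set (Submodule K V) := {C | InvS N C ∧ Disjoint W C}
  have hDne : D.Nonempty := ⟨⊥, InvS.bot _, disjoint_bot_right⟩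
  obtain ⟨C, hC, hmax⟩ := (wellFounded_gt (α := Submodule K V)).has_min D hDne
  refine ⟨C, hC.1, hC.2, ?_⟩
  rw [codisjoint_iff, eq_top_iff, ← hTtop]
  refine iSup_le fun h => ?_
  by_contra hnot
  have hinv := htr h.1 h.2
  have hX : InvS N (U.map h.1.toLinearMap ⊓ (W ⊔ C)) := InvS.inf hinv (InvS.sup hW hC.1)
  rcases hsimple h.1 h.2 _ hX inf_le_left with hb | hb
  · -- enlarge `C`
    have hdisj : Disjoint W (C ⊔ U.map h.1.toLinearMap) := by
      rw [Submodule.disjoint_def]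
      intro w hw hw'
      obtain ⟨c, hc, x, hx, hcx⟩ := Submodule.mem_sup.1 hw'
      have hx0 : x ∈ U.map h.1.toLinearMap ⊓ (W ⊔ C) := by
        refine ⟨hx, ?_⟩
        have : x = w - c := by rw [← hcx]; simp
        rw [this, sub_eq_add_neg]
        exact Submodule.add_mem_sup hw (C.neg_mem hc)
      rw [hb, Submodule.mem_bot] at hx0
      subst hx0
      have hwc : w = c := by rw [← hcx]; simp
      rw [← hwc] at hc
      exact Submodule.disjoint_def.1 hC.2 w hw hc
    have hnle : ¬ U.map h.1.toLinearMap ≤ C := fun hle => hnot (hle.trans le_sup_right)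
    have hlt : C < C ⊔ U.map h.1.toLinearMap :=
      lt_of_le_of_ne le_sup_left fun heq => hnle (by rw [heq]; exact le_sup_right)
    exact hmax _ ⟨InvS.sup hC.1 hinv, hdisj⟩ hlt
  · apply hnot
    rw [inf_eq_left] at hb
    exact hb

/-- The cardinality of a sum of two complements. -/
theorem card_eq_of_compl {W W' : Submodule K V} (h : IsCompl W W') :
    Nat.card V = Nat.card W * Nat.card W' := by
  rw [← Nat.card_prod]
  exact (Nat.card_congr (Submodule.prodEquivOfIsCompl W W' h).toEquiv).symm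

end Finite

/-- A subgroup of `H` embeds in the product of its images on complementary invariant subspaces. -/
theorem card_le_of_compl [Finite V] [Finite K] (H P : Subgroup (V ≃ₗ[K] V)) (hPH : P ≤ H)
    {W W' : Submodule K V} (hW : InvS H W) (hW' : InvS H W') (h : IsCompl W W') :
    Nat.card P ≤ Nat.card (imgP H W hW P) * Nat.card (imgP H W' hW' P) := by
  classical
  rw [← Nat.card_prod]
  let f : P → (imgP H W hW P) × (imgP H W' hW' P) := fun x =>
    (⟨res H W hW ⟨x.1, hPH x.2⟩, ⟨x.1, hPH x.2⟩, Subgroup.mem_subgroupOf.2 x.2, rfl⟩,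
      ⟨res H W' hW' ⟨x.1, hPH x.2⟩, ⟨x.1, hPH x.2⟩, Subgroup.mem_subgroupOf.2 x.2, rfl⟩)
  have hfin : Finite (V ≃ₗ[K] V) :=
    Finite.of_injective (fun g : V ≃ₗ[K] V => (g : V → V)) DFunLike.coe_injective
  have hfin2 : Finite (↥W ≃ₗ[K] ↥W) :=
    Finite.of_injective (fun g : ↥W ≃ₗ[K] ↥W => (g : W → W)) DFunLike.coe_injective
  have hfin3 : Finite (↥W' ≃ₗ[K] ↥W') :=
    Finite.of_injective (fun g : ↥W' ≃ₗ[K] ↥W' => (g : W' → W')) DFunLike.coe_injective
  refine Nat.card_le_card_of_injective f ?_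
  intro x y hxy
  apply Subtype.ext
  ext v
  have h1 : v ∈ W ⊔ W' := by
    rw [h.sup_eq_top]
    exact Submodule.mem_top
  obtain ⟨a, ha, b, hb, rfl⟩ := Submodule.mem_sup.1 h1
  have h2 := congrArg (fun z => ((z.1.1 ⟨a, ha⟩ : W) : V)) hxy
  have h3 := congrArg (fun z => ((z.2.1 ⟨b, hb⟩ : W') : V)) hxy
  simp only [f, res_apply] at h2 h3
  rw [map_add, map_add, h2, h3]

section PFix

variable [Finite V]

/-- A `p`-group of automorphisms in characteristic `p` has a nonzero fixed vector. -/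
theorem exists_fixed_of_pgroup {p : ℕ} [hp : Fact p.Prime] (hpV : ∀ v : V, p • v = 0)
    [Nontrivial V] (Q : Subgroup (V ≃ₗ[K] V)) (hQ : IsPGroup p Q) :
    ∃ v : V, v ≠ 0 ∧ ∀ q ∈ Q, q v = v := by
  classical
  obtain ⟨v₀, hv₀⟩ := exists_ne (0 : V)
  have hord : addOrderOf v₀ = p := addOrderOf_eq_prime (hpV v₀) hv₀
  have hdvd : p ∣ Nat.card V := hord ▸ addOrderOf_dvd_natCard v₀
  haveI : Fintype V := Fintype.ofFinite V
  have hfin : Finite (V ≃ₗ[K] V) :=
    Finite.of_injective (fun g : V ≃ₗ[K] V => (g : V → V)) DFunLike.coe_injective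
  have hmod := hQ.card_modEq_card_fixedPoints V
  have hdvd2 : p ∣ Nat.card (MulAction.fixedPoints Q V) := by
    have h1 : Nat.card V ≡ 0 [MOD p] := (Nat.modEq_zero_iff_dvd).2 hdvd
    have h2 := hmod.symm.trans h1
    exact (Nat.modEq_zero_iff_dvd).1 h2
  have h0 : (0 : V) ∈ MulAction.fixedPoints Q V := fun q => map_zero _
  have hne : Nonempty (MulAction.fixedPoints Q V) := ⟨⟨0, h0⟩⟩
  have hgt : 1 < Nat.card (MulAction.fixedPoints Q V) := by
    have hpos : 0 < Nat.card (MulAction.fixedPoints Q V) := Nat.card_pos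
    have := Nat.le_of_dvd hpos hdvd2
    exact lt_of_lt_of_le hp.out.one_lt this
  obtain ⟨a, b, hab⟩ := (Finite.one_lt_card_iff_nontrivial.1 hgt).exists_pair_ne
  by_cases ha : (a : V) = 0
  · refine ⟨b, ?_, fun q hq => b.2 ⟨q, hq⟩⟩
    intro hb
    exact hab (Subtype.ext (ha.trans hb.symm))
  · exact ⟨a, ha, fun q hq => a.2 ⟨q, hq⟩⟩

/-- The fixed-point subspace of a normal subgroup. -/
def fixSub (Q : Subgroup (V ≃ₗ[K] V)) : Submodule K V where
  carrier := {v | ∀ q ∈ Q, q v = v}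
  add_mem' := by
    intro a b ha hb q hq
    rw [map_add, ha q hq, hb q hq]
  zero_mem' := fun q _ => map_zero _
  smul_mem' := by
    intro c a ha q hq
    rw [map_smul, ha q hq]

theorem mem_fixSub {Q : Subgroup (V ≃ₗ[K] V)} {v : V} : v ∈ fixSub Q ↔ ∀ q ∈ Q, q v = v :=
  Iff.rfl

theorem fixSub_inv {H Q : Subgroup (V ≃ₗ[K] V)} (hQ : ∀ h ∈ H, ∀ q ∈ Q, h⁻¹ * q * h ∈ Q) :
    InvS H (fixSub Q) := by
  intro h hh v hv q hq
  have h1 := hv _ (hQ h hh q hq)
  have h2 : (h⁻¹ * q * h) v = h⁻¹ (q (h v)) := rfl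
  rw [h2] at h1
  have h3 := congrArg h h1
  have h4 : h (h⁻¹ (q (h v))) = q (h v) := h.apply_symm_apply _
  rw [h4] at h3
  exact h3

/-- A normal `p`-subgroup of an irreducible group in characteristic `p` is trivial. -/
theorem normal_pgroup_trivial {p : ℕ} [hp : Fact p.Prime] (hpV : ∀ v : V, p • v = 0)
    [Nontrivial V] {H Q : Subgroup (V ≃ₗ[K] V)} (hirr : Irr H)
    (hQn : ∀ h ∈ H, ∀ q ∈ Q, h⁻¹ * q * h ∈ Q) (hQ : IsPGroup p Q) : Q = ⊥ := by
  obtain ⟨v, hv0, hv⟩ := exists_fixed_of_pgroup (K := K) hpV Q hQ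
  rcases hirr _ (fixSub_inv hQn) with h | h
  · exfalso
    apply hv0
    have : v ∈ fixSub Q := hv
    rw [h, Submodule.mem_bot] at this
    exact this
  · rw [eq_bot_iff]
    intro q hq
    rw [Subgroup.mem_bot]
    ext w
    have : w ∈ fixSub Q := by rw [h]; exact Submodule.mem_top
    exact this q hq

end PFix

end Cfsg.Agent.Lib.PPartBasic
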