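import Mathlib
import Cfsg.Agent.Lib.PPartBasic

/-!
# Commutative algebras normalized by an irreducible linear group

Either the algebra is a field, or the group permutes a system of orthogonal idempotents.
-/

set_option autoImplicit false
set_option linter.style.haveILetI false
set_option linter.unusedVariables false
set_option linter.unusedSectionVars false

namespace Cfsg.Agent.Lib.PPartBlocks

open Cfsg.Agent.Lib.PPartBasic

universe u

variable {K V : Type u} [Field K] [AddCommGroup V] [Module K V]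

/-- Conjugation on endomorphisms. -/
def cj (h : V ≃ₗ[K] V) (T : Module.End K V) : Module.End K V :=
  h.toLinearMap * T * (h⁻¹ : V ≃ₗ[K] V).toLinearMap

@[simp] theorem cj_apply (h : V ≃ₗ[K] V) (T : Module.End K V) (v : V) :
    cj h T v = h (T ((h⁻¹ : V ≃ₗ[K] V) v)) := rfl

theorem inv_apply_self (h : V ≃ₗ[K] V) (v : V) : (h⁻¹ : V ≃ₗ[K] V) (h v) = v :=
  h.symm_apply_apply v

theorem apply_inv_self (h : V ≃ₗ[K] V) (v : V) : h ((h⁻¹ : V ≃ₗ[K] V) v) = v :=
  h.apply_symm_apply v

theorem cj_mul (h : V ≃ₗ[K] V) (S T : Module.End K V) : cj h (S * T) = cj h S * cj h T := by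
  ext v
  simp [Module.End.mul_apply, inv_apply_self]

theorem cj_one (h : V ≃ₗ[K] V) : cj h (1 : Module.End K V) = 1 := by
  ext v
  simp [Module.End.one_apply, apply_inv_self]

theorem cj_zero (h : V ≃ₗ[K] V) : cj h (0 : Module.End K V) = 0 := by
  ext v
  simp

theorem cj_add (h : V ≃ₗ[K] V) (S T : Module.End K V) : cj h (S + T) = cj h S + cj h T := by
  ext v
  simp

theorem cj_sum {ι : Type*} (s : Finset ι) (h : V ≃ₗ[K] V) (f : ι → Module.End K V) :
    cj h (∑ i ∈ s, f i) = ∑ i ∈ s, cj h (f i) := by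
  classical
  induction s using Finset.induction_on with
  | empty => simp [cj_zero]
  | insert a s ha ih => rw [Finset.sum_insert ha, Finset.sum_insert ha, cj_add, ih]

theorem cj_cj (g h : V ≃ₗ[K] V) (T : Module.End K V) : cj g (cj h T) = cj (g * h) T := by
  ext v
  simp only [cj_apply, mul_inv_rev]
  rfl

theorem cj_inv_cj (h : V ≃ₗ[K] V) (T : Module.End K V) : cj h⁻¹ (cj h T) = T := by
  ext v
  simp [inv_inv, inv_apply_self]

theorem cj_cj_inv (h : V ≃ₗ[K] V) (T : Module.End K V) : cj h (cj h⁻¹ T) = T := by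
  ext v
  simp [inv_inv, apply_inv_self]

theorem cj_algebraMap (h : V ≃ₗ[K] V) (c : K) :
    cj h (algebraMap K (Module.End K V) c) = algebraMap K (Module.End K V) c := by
  ext v
  simp [Module.algebraMap_end_apply, apply_inv_self]

theorem cj_toLinear (h a : V ≃ₗ[K] V) : cj h a.toLinearMap = (h * a * h⁻¹).toLinearMap := rfl

/-- A system of orthogonal idempotents permuted by `H`, with sum one. -/
structure BlockSys (H : Subgroup (V ≃ₗ[K] V)) (O : Finset (Module.End K V)) : Prop where
  idem : ∀ a ∈ O, a * a = a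
  ne0 : ∀ a ∈ O, a ≠ 0
  orth : ∀ a ∈ O, ∀ b ∈ O, a ≠ b → a * b = 0
  sum : ∑ a ∈ O, a = 1
  perm : ∀ h ∈ H, ∀ a ∈ O, cj h a ∈ O
  card : 2 ≤ O.card

/-- Powers: every element of a finite monoid has a positive idempotent power. -/
theorem exists_idem_pow {M : Type*} [Monoid M] [Finite M] (b : M) :
    ∃ t : ℕ, 0 < t ∧ b ^ t * b ^ t = b ^ t := by
  obtain ⟨x, y, hne, hxy⟩ := Finite.exists_ne_map_eq_of_infinite (fun n : ℕ => b ^ n)
  wlog hlt : x < y generalizing x y
  · exact this y x hne.symm hxy.symm (lt_of_le_of_ne (not_lt.1 hlt) hne.symm)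
  obtain ⟨d, rfl⟩ : ∃ d, y = x + d := ⟨y - x, by omega⟩
  have hd : 0 < d := by omega
  have hper : ∀ k m : ℕ, b ^ (x + m + k * d) = b ^ (x + m) := by
    intro k
    induction k with
    | zero => simp
    | succ k ih =>
      intro m
      have h1 : x + m + (k + 1) * d = (x + d) + (m + k * d) := by ring
      rw [h1, pow_add, ← hxy, ← pow_add]
      have h2 : x + (m + k * d) = x + m + k * d := by ring
      rw [h2, ih]
  refine ⟨(x + 1) * d, by positivity, ?_⟩
  rw [← pow_add]
  obtain ⟨m, hm⟩ : ∃ m, (x + 1) * d = x + m := ⟨(x + 1) * d - x, by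
    have : x + 1 ≤ (x + 1) * d := Nat.le_mul_of_pos_right _ hd
    omega⟩
  have h3 := hper (x + 1) m
  rw [← hm] at h3
  exact h3

section Finite

variable [Finite K] [Finite V]

instance instFiniteEnd : Finite (Module.End K V) :=
  Finite.of_injective (fun T : Module.End K V => (T : V → V)) DFunLike.coe_injective

instance instFiniteGL : Finite (V ≃ₗ[K] V) :=
  Finite.of_injective (fun g : V ≃ₗ[K] V => (g : V → V)) DFunLike.coe_injective

instance instFD : FiniteDimensional K V := Module.Finite.of_finite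

/-- A finite family of commuting nilpotents has a common kernel. -/
theorem exists_common_kernel [Nontrivial V] (F : Finset (Module.End K V))
    (hcomm : ∀ a ∈ F, ∀ b ∈ F, a * b = b * a) (hnil : ∀ a ∈ F, ∃ k : ℕ, a ^ k = 0) :
    ∃ v : V, v ≠ 0 ∧ ∀ a ∈ F, a v = 0 := by
  classical
  induction F using Finset.induction_on with
  | empty =>
    obtain ⟨v, hv⟩ := exists_ne (0 : V)
    exact ⟨v, hv, by simp⟩
  | insert b F hb ih =>
    obtain ⟨v, hv0, hv⟩ := ih (fun a ha c hc => hcomm a (Finset.mem_insert_of_mem ha) c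
      (Finset.mem_insert_of_mem hc)) (fun a ha => hnil a (Finset.mem_insert_of_mem ha))
    obtain ⟨k, hk⟩ := hnil b (Finset.mem_insert_self _ _)
    have hex : ∃ n : ℕ, (b ^ n) v = 0 := ⟨k, by rw [hk]; rfl⟩
    classical
    let n := Nat.find hex
    have hn : (b ^ n) v = 0 := Nat.find_spec hex
    have hn0 : n ≠ 0 := by
      intro h0
      rw [h0, pow_zero] at hn
      exact hv0 hn
    obtain ⟨m, hm⟩ : ∃ m, n = m + 1 := ⟨n - 1, by omega⟩
    have hmin : (b ^ m) v ≠ 0 := Nat.find_min hex (m := m) (by omega)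
    refine ⟨(b ^ m) v, hmin, ?_⟩
    intro a ha
    rcases Finset.mem_insert.1 ha with rfl | ha'
    · have : a ^ n = a * a ^ m := by rw [hm, pow_succ']
      rw [this] at hn
      exact hn
    · have hc : Commute a (b ^ m) := by
        apply Commute.pow_right
        exact hcomm a (Finset.mem_insert_of_mem ha') b (Finset.mem_insert_self _ _)
      have h2 : a ((b ^ m) v) = (a * b ^ m) v := rfl
      rw [h2, hc.eq, Module.End.mul_apply, hv a ha', map_zero]

variable {H : Subgroup (V ≃ₗ[K] V)} {B : Subalgebra K (Module.End K V)}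

/-- The dichotomy: a commutative algebra normalized by an irreducible group. -/
theorem dichotomy [Nontrivial V] (hirr : Irr H) (hcomm : ∀ x ∈ B, ∀ y ∈ B, x * y = y * x)
    (hconj : ∀ h ∈ H, ∀ b ∈ B, cj h b ∈ B) :
    (∀ b ∈ B, b ≠ 0 → ∃ c ∈ B, b * c = 1) ∨ ∃ O, BlockSys H O := by
  classical
  by_cases hid : ∃ f ∈ B, f * f = f ∧ f ≠ 0 ∧ f ≠ 1
  · -- a minimal idempotent
    right
    obtain ⟨f, hfB, hff, hf0, hf1⟩ := hid
    let Id : Set (Module.End K V) := {e | e ∈ B ∧ e * e = e ∧ e ≠ 0}
    have hIdfin : Id.Finite := Set.toFinite _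
    let rk : Module.End K V → ℕ := fun e => Module.finrank K (LinearMap.range e)
    obtain ⟨e, he, hmin⟩ := Set.exists_min_image Id rk hIdfin ⟨f, hfB, hff, hf0⟩
    have hidem_range : ∀ a : Module.End K V, a * a = a → ∀ v ∈ LinearMap.range a, a v = v := by
      rintro a ha _ ⟨w, rfl⟩
      have : a (a w) = (a * a) w := rfl
      rw [this, ha]
    have hrange_top : ∀ a : Module.End K V, a * a = a → LinearMap.range a = ⊤ → a = 1 := by
      intro a ha hr
      ext v
      exact hidem_range a ha v (by rw [hr]; exact Submodule.mem_top)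
    have hrkf : rk f < Module.finrank K V := by
      apply Submodule.finrank_lt
      intro hr
      exact hf1 (hrange_top f hff hr)
    have hrke : rk e < Module.finrank K V := lt_of_le_of_lt (hmin f ⟨hfB, hff, hf0⟩) hrkf
    have he1 : e ≠ 1 := by
      intro h1
      have : rk e = Module.finrank K V := by
        show Module.finrank K (LinearMap.range e) = _
        rw [h1, LinearMap.range_eq_top.2 (fun v => ⟨v, rfl⟩)]
        exact finrank_top K V
      omega
    let OS : Set (Module.End K V) := {T | ∃ h ∈ H, cj h e = T}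
    let O : Finset (Module.End K V) := (Set.toFinite OS).toFinset
    have hmemO : ∀ T, T ∈ O ↔ ∃ h ∈ H, cj h e = T := fun T => by
      simp [O, OS]
    have heO : e ∈ O := (hmemO e).2 ⟨1, H.one_mem, by
      ext v
      simp⟩
    have hrk_cj : ∀ h : V ≃ₗ[K] V, rk (cj h e) = rk e := by
      intro h
      have h1 : LinearMap.range (cj h e) = (LinearMap.range e).map h.toLinearMap := by
        ext v
        constructor
        · rintro ⟨w, rfl⟩
          exact ⟨e ((h⁻¹ : V ≃ₗ[K] V) w), ⟨_, rfl⟩, rfl⟩
        · rintro ⟨_, ⟨w, rfl⟩, rfl⟩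
          refine ⟨h w, ?_⟩
          simp [inv_apply_self]
      show Module.finrank K (LinearMap.range (cj h e)) = _
      rw [h1]
      exact LinearEquiv.finrank_map_eq h _
    have hOB : ∀ a ∈ O, a ∈ B ∧ a * a = a ∧ a ≠ 0 ∧ rk a = rk e := by
      intro a ha
      obtain ⟨h, hh, rfl⟩ := (hmemO a).1 ha
      refine ⟨hconj h hh e he.1, ?_, ?_, hrk_cj h⟩
      · rw [← cj_mul, he.2.1]
      · intro h0
        apply he.2.2
        have := cj_inv_cj h e
        rw [h0, cj_zero] at this
        exact this.symm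
    have horth : ∀ a ∈ O, ∀ b ∈ O, a ≠ b → a * b = 0 := by
      intro a ha b hb hab
      by_contra hne
      obtain ⟨haB, haa, ha0, hark⟩ := hOB a ha
      obtain ⟨hbB, hbb, hb0, hbrk⟩ := hOB b hb
      have habcomm := hcomm a haB b hbB
      have hidem : (a * b) * (a * b) = a * b := by
        calc (a * b) * (a * b) = a * (b * a) * b := by noncomm_ring
          _ = a * (a * b) * b := by rw [← habcomm]
          _ = (a * a) * (b * b) := by noncomm_ring
          _ = a * b := by rw [haa, hbb]
      have hab_id : a * b ∈ Id := ⟨B.mul_mem haB hbB, hidem, hne⟩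
      have hge := hmin _ hab_id
      have key : ∀ c ∈ O, c * c = c → a * b = c * (a * b) → rk c = rk e →
          a * b = c := by
        intro c hcO hcc hfac hcrk
        have hle : LinearMap.range (a * b) ≤ LinearMap.range c := by
          rintro _ ⟨w, rfl⟩
          rw [hfac]
          exact ⟨(a * b) w, rfl⟩
        have heq : LinearMap.range (a * b) = LinearMap.range c := by
          apply Submodule.eq_of_le_of_finrank_le hle
          show rk c ≤ rk (a * b)
          rw [hcrk]
          exact hge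
        -- `c` acts as `a * b` on its range
        have hcB := (hOB c hcO).1
        have h1 : ∀ v, (a * b) (c v) = c v := fun v => by
          apply hidem_range (a * b) hidem
          rw [heq]
          exact ⟨v, rfl⟩
        have hcomm2 : c * (a * b) = (a * b) * c := hcomm c hcB _ (B.mul_mem haB hbB)
        ext v
        have h2 : (a * b) v = (c * (a * b)) v := by rw [← hfac]
        rw [h2, hcomm2]
        exact h1 v
      have h1 : a * b = a := key a ha haa (by
        rw [← mul_assoc, haa]) hark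
      have h2 : a * b = b := key b hb hbb (by
        rw [← mul_assoc, ← habcomm, mul_assoc, hbb]) hbrk
      exact hab (h1.symm.trans h2)
    have hperm : ∀ h ∈ H, ∀ a ∈ O, cj h a ∈ O := by
      intro h hh a ha
      obtain ⟨g, hg, rfl⟩ := (hmemO a).1 ha
      exact (hmemO _).2 ⟨h * g, H.mul_mem hh hg, (cj_cj h g e).symm⟩
    have hEid : ∀ a ∈ O, a * (∑ b ∈ O, b) = a := by
      intro a ha
      rw [Finset.mul_sum, Finset.sum_eq_single a]
      · exact (hOB a ha).2.1
      · intro b hb hne
        exact horth a ha b hb (Ne.symm hne)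
      · intro hna
        exact absurd ha hna
    set E : Module.End K V := ∑ b ∈ O, b with hE
    have hEE : E * E = E := by
      conv_lhs => rw [hE, Finset.sum_mul]
      rw [Finset.sum_congr rfl hEid]
    have hEcj : ∀ h ∈ H, cj h E = E := by
      intro h hh
      rw [hE, cj_sum]
      refine Finset.sum_bij' (fun a _ => cj h a) (fun a _ => cj h⁻¹ a)
        (fun a ha => hperm h hh a ha) (fun a ha => hperm _ (H.inv_mem hh) a ha)
        (fun a _ => cj_inv_cj h a) (fun a _ => cj_cj_inv h a) (fun a _ => rfl)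
    have hEinv : InvS H (LinearMap.range E) := by
      rintro h hh _ ⟨w, rfl⟩
      refine ⟨h w, ?_⟩
      have h1 := congrArg (fun T : Module.End K V => T (h w)) (hEcj h hh)
      simp only [cj_apply, inv_apply_self] at h1
      exact h1.symm
    have hEtop : LinearMap.range E = ⊤ := by
      rcases hirr _ hEinv with h | h
      · exfalso
        rw [LinearMap.range_eq_bot] at h
        have := hEid e heO
        rw [h, mul_zero] at this
        exact he.2.2 this.symm
      · exact h
    have hE1 : E = 1 := hrange_top E hEE hEtop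
    refine ⟨O, (fun a ha => (hOB a ha).2.1), (fun a ha => (hOB a ha).2.2.1), horth, hE1, hperm, ?_⟩
    by_contra hcard
    have hcard1 : O.card ≤ 1 := by omega
    have hOs : O = {e} := by
      apply Finset.eq_singleton_iff_unique_mem.2
      exact ⟨heO, fun x hx => Finset.card_le_one.1 hcard1 x hx e heO⟩
    apply he1
    rw [← hE1, hE, hOs, Finset.sum_singleton]
  · left
    push Not at hid
    -- all elements are units or nilpotent
    have hdich : ∀ b ∈ B, (∃ c ∈ B, b * c = 1) ∨ ∃ k : ℕ, b ^ k = 0 := by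
      intro b hb
      obtain ⟨t, ht, htt⟩ := exists_idem_pow b
      by_cases h0 : b ^ t = 0
      · exact Or.inr ⟨t, h0⟩
      · have h1 := hid (b ^ t) (B.pow_mem hb t) htt h0
        left
        refine ⟨b ^ (t - 1), B.pow_mem hb _, ?_⟩
        rw [← pow_succ', show t - 1 + 1 = t by omega, h1]
    -- nilpotents vanish
    have hN0 : ∀ b ∈ B, (∃ k : ℕ, b ^ k = 0) → b = 0 := by
      let NS : Set (Module.End K V) := {b | b ∈ B ∧ ∃ k : ℕ, b ^ k = 0}
      let N : Finset (Module.End K V) := (Set.toFinite NS).toFinset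
      have hmemN : ∀ b, b ∈ N ↔ b ∈ B ∧ ∃ k : ℕ, b ^ k = 0 := fun b => by simp [N, NS]
      obtain ⟨v, hv0, hv⟩ := exists_common_kernel N
        (fun a ha b hb => hcomm a ((hmemN a).1 ha).1 b ((hmemN b).1 hb).1)
        (fun a ha => ((hmemN a).1 ha).2)
      let C : Submodule K V :=
        { carrier := {w | ∀ a ∈ N, a w = 0}
          add_mem' := by
            intro x y hx hy a ha
            rw [map_add, hx a ha, hy a ha, add_zero]
          zero_mem' := fun a _ => map_zero a
          smul_mem' := by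
            intro c x hx a ha
            rw [map_smul, hx a ha, smul_zero] }
      have hCinv : InvS H C := by
        intro h hh w hw a ha
        obtain ⟨haB, k, hk⟩ := (hmemN a).1 ha
        have h1 : cj h⁻¹ a ∈ N := by
          refine (hmemN _).2 ⟨hconj _ (H.inv_mem hh) a haB, k, ?_⟩
          have : ∀ n : ℕ, cj h⁻¹ (a ^ n) = (cj h⁻¹ a) ^ n := by
            intro n
            induction n with
            | zero => simp [cj_one]
            | succ n ih => rw [pow_succ, pow_succ, cj_mul, ih]
          rw [← this, hk, cj_zero]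
        have h2 := hw _ h1
        simp only [cj_apply, inv_inv] at h2
        have h3 := congrArg h h2
        rw [apply_inv_self, map_zero] at h3
        exact h3
      have hCtop : C = ⊤ := by
        rcases hirr C hCinv with h | h
        · exfalso
          apply hv0
          have : v ∈ C := hv
          rw [h, Submodule.mem_bot] at this
          exact this
        · exact h
      intro b hb hk
      ext w
      have : w ∈ C := by rw [hCtop]; exact Submodule.mem_top
      exact this b ((hmemN b).2 ⟨hb, hk⟩)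
    intro b hb hb0
    rcases hdich b hb with h | h
    · exact h
    · exact absurd (hN0 b hb h) hb0

end Finite

section Bound

variable [Finite K] [Finite V] {H P : Subgroup (V ≃ₗ[K] V)} {O : Finset (Module.End K V)}

/-- The kernel of the permutation action on the idempotents. -/
def H0 (H : Subgroup (V ≃ₗ[K] V)) (O : Finset (Module.End K V)) : Subgroup (V ≃ₗ[K] V) where
  carrier := {h | h ∈ H ∧ ∀ a ∈ O, cj h a = a}
  mul_mem' := by
    rintro x y ⟨hx, hx'⟩ ⟨hy, hy'⟩
    refine ⟨H.mul_mem hx hy, fun a ha => ?_⟩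
    rw [← cj_cj, hy' a ha, hx' a ha]
  one_mem' := ⟨H.one_mem, fun a _ => by
    ext v
    simp⟩
  inv_mem' := by
    rintro x ⟨hx, hx'⟩
    refine ⟨H.inv_mem hx, fun a ha => ?_⟩
    have h1 := cj_inv_cj x a
    rw [hx' a ha] at h1
    exact h1

theorem H0_le : H0 H O ≤ H := fun _ h => h.1

theorem mem_H0 {h : V ≃ₗ[K] V} : h ∈ H0 H O ↔ h ∈ H ∧ ∀ a ∈ O, cj h a = a := Iff.rfl

theorem H0_normal (hO : BlockSys H O) : ∀ h ∈ H, ∀ n ∈ H0 H O, h * n * h⁻¹ ∈ H0 H O := by
  intro h hh n hn
  refine ⟨H.mul_mem (H.mul_mem hh hn.1) (H.inv_mem hh), fun a ha => ?_⟩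
  rw [← cj_cj, ← cj_cj, hn.2 _ (hO.perm _ (H.inv_mem hh) a ha), cj_cj_inv]

theorem inv_range {a : Module.End K V} (ha : a ∈ O) : InvS (H0 H O) (LinearMap.range a) := by
  rintro h hh _ ⟨w, rfl⟩
  refine ⟨h w, ?_⟩
  have h1 := congrArg (fun T : Module.End K V => T (h w)) (hh.2 a ha)
  simp only [cj_apply, inv_apply_self] at h1
  exact h1.symm

theorem ppart_le {p : ℕ} [hp : Fact p.Prime] {m k : ℕ} (hm : m ≠ 0) (hdvd : p ^ k ∣ m.factorial) :
    p ^ k ≤ 2 ^ (m - 1) := by
  have h0 : m.factorial ≠ 0 := Nat.factorial_ne_zero m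
  have h1 : k ≤ padicValNat p m.factorial := (padicValNat_dvd_iff_le h0).1 hdvd
  have h2 := sub_one_mul_padicValNat_factorial_lt_of_ne_zero p hm
  have h3 : (p - 1) * k ≤ m - 1 := by
    have : (p - 1) * k ≤ (p - 1) * padicValNat p m.factorial := Nat.mul_le_mul_left _ h1
    omega
  have h4 : p ≤ 2 ^ (p - 1) := by
    have := Nat.lt_two_pow_self (n := p - 1)
    have hp1 := hp.out.one_lt
    omega
  calc p ^ k ≤ (2 ^ (p - 1)) ^ k := Nat.pow_le_pow_left h4 k
    _ = 2 ^ ((p - 1) * k) := (pow_mul _ _ _).symm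
    _ ≤ 2 ^ (m - 1) := Nat.pow_le_pow_right (by norm_num) h3

/-- The permutation action of a subgroup of `H` on the idempotents. -/
def permHom (hO : BlockSys H O) (hPH : P ≤ H) : ↥P →* Equiv.Perm ↥O where
  toFun x :=
    { toFun := fun a => ⟨cj x.1 a.1, hO.perm _ (hPH x.2) a.1 a.2⟩
      invFun := fun a => ⟨cj x.1⁻¹ a.1, hO.perm _ (H.inv_mem (hPH x.2)) a.1 a.2⟩
      left_inv := fun a => Subtype.ext (cj_inv_cj _ _)
      right_inv := fun a => Subtype.ext (cj_cj_inv _ _) }
  map_one' := by
    ext a v
    simp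
  map_mul' x y := by
    ext a v
    simp

/-- The bound by the blocks. -/
theorem block_bound {p : ℕ} [hp : Fact p.Prime] (hPH : P ≤ H) (hP : IsPGroup p P)
    (hO : BlockSys H O) :
    Nat.card P ≤ 2 ^ (O.card - 1) * ∏ a : ↥O, Nat.card
      (imgP (H0 H O) (LinearMap.range a.1) (inv_range a.2) (P ⊓ H0 H O)) := by
  classical
  let f := permHom hO hPH
  have h1 : Nat.card P = Nat.card f.ker * Nat.card f.range := by
    rw [← Subgroup.index_ker, Subgroup.card_mul_index]
  have hrange : Nat.card f.range ≤ 2 ^ (O.card - 1) := by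
    have hpg : IsPGroup p f.range := by
      rintro ⟨_, x, rfl⟩
      obtain ⟨k, hk⟩ := hP x
      refine ⟨k, Subtype.ext ?_⟩
      show (f x) ^ p ^ k = 1
      rw [← map_pow, hk, map_one]
    obtain ⟨k, hk⟩ := IsPGroup.iff_card.1 hpg
    rw [hk]
    apply ppart_le
    · have : 0 < O.card := by
        have := hO.card
        omega
      omega
    · rw [← hk]
      have h3 := Subgroup.card_subgroup_dvd_card f.range
      rw [Nat.card_eq_fintype_card (α := Equiv.Perm ↥O), Fintype.card_perm,
        Fintype.card_coe] at h3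
      exact h3
  have hker : Nat.card f.ker ≤ ∏ a : ↥O, Nat.card
      (imgP (H0 H O) (LinearMap.range a.1) (inv_range a.2) (P ⊓ H0 H O)) := by
    rw [← Nat.card_pi]
    have hmem : ∀ x : f.ker, x.1.1 ∈ H0 H O := by
      intro x
      refine ⟨hPH x.1.2, fun a ha => ?_⟩
      have h2 := congrArg (fun T : Equiv.Perm ↥O => ((T ⟨a, ha⟩ : ↥O) : Module.End K V))
        (f.mem_ker.1 x.2)
      exact h2
    let g : f.ker → ∀ a : ↥O, (imgP (H0 H O) (LinearMap.range a.1) (inv_range a.2)
        (P ⊓ H0 H O)) := fun x a =>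
      ⟨res (H0 H O) (LinearMap.range a.1) (inv_range a.2) ⟨x.1.1, hmem x⟩,
        ⟨x.1.1, hmem x⟩, Subgroup.mem_subgroupOf.2 ⟨x.1.2, hmem x⟩, rfl⟩
    refine Nat.card_le_card_of_injective g ?_
    intro x y hxy
    apply Subtype.ext
    apply Subtype.ext
    ext v
    have hsum : v = ∑ a ∈ O, a v := by
      have := congrArg (fun T : Module.End K V => T v) hO.sum
      simpa [LinearMap.sum_apply] using this.symm
    rw [hsum, map_sum, map_sum]
    refine Finset.sum_congr rfl fun a ha => ?_
    have h3 := congrFun hxy ⟨a, ha⟩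
    have h4 := congrArg (fun z => ((z.1 ⟨a v, v, rfl⟩ : LinearMap.range a) : V)) h3
    simpa [g] using h4
  rw [h1, mul_comm]
  exact Nat.mul_le_mul hrange hker

/-- The product of the sizes of the blocks is at most the size of the space. -/
theorem prod_card_le (hO : BlockSys H O) :
    ∏ a : ↥O, Nat.card (LinearMap.range a.1) ≤ Nat.card V := by
  classical
  rw [← Nat.card_pi]
  refine Nat.card_le_card_of_injective
    (fun w : ∀ a : ↥O, (LinearMap.range a.1) => ∑ a : ↥O, ((w a : LinearMap.range a.1) : V)) ?_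
  intro w w' hww
  funext c
  have key : ∀ z : (∀ a : ↥O, (LinearMap.range a.1)),
      c.1 (∑ a : ↥O, ((z a : LinearMap.range a.1) : V)) = (z c : V) := by
    intro z
    rw [map_sum, Finset.sum_eq_single c]
    · obtain ⟨u, hu⟩ := (z c).2
      rw [← hu]
      have : c.1 (c.1 u) = (c.1 * c.1) u := rfl
      rw [this, hO.idem c.1 c.2]
    · intro b _ hne
      obtain ⟨u, hu⟩ := (z b).2
      rw [← hu]
      have : c.1 (b.1 u) = (c.1 * b.1) u := rfl
      rw [this, hO.orth c.1 c.2 b.1 b.2 (fun h => hne (Subtype.ext h.symm))]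
      rfl
    · intro h
      exact absurd (Finset.mem_univ c) h
  apply Subtype.ext
  have h1 := key w
  have h2 := key w'
  have hww' : ∑ a : ↥O, ((w a : LinearMap.range a.1) : V) =
      ∑ a : ↥O, ((w' a : LinearMap.range a.1) : V) := hww
  rw [hww'] at h1
  exact h1.symm.trans h2

/-- Each block is a proper subspace. -/
theorem finrank_range_lt (hO : BlockSys H O) {a : Module.End K V} (ha : a ∈ O) :
    Module.finrank K (LinearMap.range a) < Module.finrank K V := by
  classical
  apply Submodule.finrank_lt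
  intro hr
  have h1 : a = 1 := by
    ext v
    have hv : v ∈ LinearMap.range a := by rw [hr]; exact Submodule.mem_top
    obtain ⟨w, rfl⟩ := hv
    have : a (a w) = (a * a) w := rfl
    rw [Module.End.one_apply, this, hO.idem a ha]
  obtain ⟨b, hb, hne⟩ : ∃ b ∈ O, b ≠ a := by
    by_contra hcon
    push Not at hcon
    have : O.card ≤ 1 := Finset.card_le_one.2 fun x hx y hy => (hcon x hx).trans (hcon y hy).symm
    have := hO.card
    omega
  have h2 := hO.orth a ha b hb hne.symm
  rw [h1, one_mul] at h2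
  exact hO.ne0 b hb h2

/-- The block subgroup is completely reducible on each block. -/
theorem ss_block (hirr : Irr H) (hO : BlockSys H O) {a : Module.End K V} (ha : a ∈ O) :
    SS (imgH (H0 H O) (LinearMap.range a) (inv_range ha)) :=
  SS.res (ss_of_normal H0_le (H0_normal hO) hirr) _ _

end Bound

section Adj

/-- The algebra generated by a linear group. -/
def adj (A : Subgroup (V ≃ₗ[K] V)) : Subalgebra K (Module.End K V) :=
  Algebra.adjoin K ((fun a : V ≃ₗ[K] V => (a.toLinearMap : Module.End K V)) '' (A : Set _))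

theorem mem_adj {A : Subgroup (V ≃ₗ[K] V)} {a : V ≃ₗ[K] V} (ha : a ∈ A) :
    (a.toLinearMap : Module.End K V) ∈ adj A :=
  Algebra.subset_adjoin ⟨a, ha, rfl⟩

theorem adj_comm {A : Subgroup (V ≃ₗ[K] V)} (hA : ∀ a ∈ A, ∀ b ∈ A, a * b = b * a) :
    ∀ x ∈ adj A, ∀ y ∈ adj A, x * y = y * x := by
  have h1 : ∀ x ∈ adj A, ∀ b ∈ A, x * (b.toLinearMap : Module.End K V) = b.toLinearMap * x := by
    intro x hx b hb
    induction hx using Algebra.adjoin_induction with
    | mem x hx =>
      obtain ⟨a, ha, rfl⟩ := hx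
      have := congrArg (fun g : V ≃ₗ[K] V => (g.toLinearMap : Module.End K V)) (hA a ha b hb)
      exact this
    | algebraMap r =>
      exact (Algebra.commutes r _)
    | add x y _ _ hx hy => rw [add_mul, mul_add, hx, hy]
    | mul x y _ _ hx hy => rw [mul_assoc, hy, ← mul_assoc, hx, mul_assoc]
  intro x hx y hy
  induction hy using Algebra.adjoin_induction with
  | mem y hy =>
    obtain ⟨b, hb, rfl⟩ := hy
    exact h1 x hx b hb
  | algebraMap r =>
    exact (Algebra.commutes r _).symm
  | add y z _ _ hy hz => rw [mul_add, add_mul, hy, hz]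
  | mul y z _ _ hy hz => rw [← mul_assoc, hy, mul_assoc, hz, ← mul_assoc]

theorem adj_conj {H A : Subgroup (V ≃ₗ[K] V)} (hA : ∀ h ∈ H, ∀ a ∈ A, h * a * h⁻¹ ∈ A) :
    ∀ h ∈ H, ∀ b ∈ adj A, cj h b ∈ adj A := by
  intro h hh b hb
  induction hb using Algebra.adjoin_induction with
  | mem b hb =>
    obtain ⟨a, ha, rfl⟩ := hb
    rw [cj_toLinear]
    exact mem_adj (hA h hh a ha)
  | algebraMap r =>
    rw [cj_algebraMap]
    exact Subalgebra.algebraMap_mem _ r
  | add x y _ _ hx hy =>
    rw [cj_add]
    exact Subalgebra.add_mem _ hx hy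
  | mul x y _ _ hx hy =>
    rw [cj_mul]
    exact Subalgebra.mul_mem _ hx hy

end Adj

end Cfsg.Agent.Lib.PPartBlocks
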