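import Mathlib
import Cfsg.Agent.Lib.PPartBlocks

/-!
# Coprime `p`-groups of linear maps: the order bound

A `p`-group of automorphisms of a vector space `V` over a finite field, with `p` not dividing `#V`,
has order at most `#V² / p`.
-/

set_option autoImplicit false
set_option linter.style.haveILetI false
set_option linter.unusedVariables false
set_option linter.unusedSectionVars false

namespace Cfsg.Agent.Lib.PPartQ

open Cfsg.Agent.Lib.PPartBasic Cfsg.Agent.Lib.PPartBlocks

universe u

section Groups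

variable {G : Type u} [Group G]

/-- In a nilpotent group, a set containing `1` and not everything contains all the commutators of
some element outside it. -/
theorem exists_central_mod' [hnil : Group.IsNilpotent G] (Z : Set G)
    (h1 : (1 : G) ∈ Z) (hne : ∃ g, g ∉ Z) : ∃ a, a ∉ Z ∧ ∀ g, g * a * g⁻¹ * a⁻¹ ∈ Z := by
  classical
  obtain ⟨n, hn⟩ := hnil.nilpotent'
  have hex : ∃ i, ¬ ((Subgroup.upperCentralSeries G i : Set G) ⊆ Z) := by
    refine ⟨n, ?_⟩
    rw [hn]
    obtain ⟨g, hg⟩ := hne
    intro h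
    exact hg (h (Set.mem_univ g))
  have hmin : ∀ m, m < Nat.find hex → ¬ ¬ ((Subgroup.upperCentralSeries G m : Set G) ⊆ Z) :=
    fun m hm => Nat.find_min hex hm
  have hspec := Nat.find_spec hex
  rcases hi : Nat.find hex with _ | j
  · exfalso
    rw [hi] at hspec
    apply hspec
    rw [Subgroup.upperCentralSeries_zero]
    intro x hx
    have : x = 1 := by simpa using hx
    rw [this]
    exact h1
  · have h2 : (Subgroup.upperCentralSeries G j : Set G) ⊆ Z := by
      have := hmin j (by omega)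
      simpa using this
    rw [hi] at hspec
    rw [Set.not_subset] at hspec
    obtain ⟨a, ha, haZ⟩ := hspec
    refine ⟨a, haZ, fun g => h2 ?_⟩
    have h3 : a * g * a⁻¹ * g⁻¹ ∈ Subgroup.upperCentralSeries G j :=
      Subgroup.mem_upperCentralSeries_succ_iff.mp ha g
    have h4 : g * a * g⁻¹ * a⁻¹ = (a * g * a⁻¹ * g⁻¹)⁻¹ := by group
    rw [h4]
    exact (Subgroup.upperCentralSeries G j).inv_mem h3

/-- A `p`-group has a self-centralizing normal abelian subgroup. -/
theorem exists_selfcent [Finite G] {p : ℕ} [hp : Fact p.Prime] (hG : IsPGroup p G) :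
    ∃ A : Subgroup G, A.Normal ∧ (∀ a ∈ A, ∀ b ∈ A, a * b = b * a) ∧
      ∀ x, (∀ a ∈ A, x * a = a * x) → x ∈ A := by
  classical
  let S : Set (Subgroup G) := {A | A.Normal ∧ ∀ a ∈ A, ∀ b ∈ A, a * b = b * a}
  have hne : S.Nonempty := ⟨⊥, inferInstance, by
    intro a ha b hb
    rw [Subgroup.mem_bot] at ha hb
    simp [ha, hb]⟩
  obtain ⟨A, hA, hmax⟩ := (wellFounded_gt (α := Subgroup G)).has_min S hne
  haveI hAn : A.Normal := hA.1
  refine ⟨A, hA.1, hA.2, ?_⟩
  by_contra hcon
  push Not at hcon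
  obtain ⟨x₀, hx₀c, hx₀A⟩ := hcon
  let D := G ⧸ A
  haveI hnil : Group.IsNilpotent D := (hG.to_quotient A).isNilpotent
  let mk : G → D := fun g => (g : D)
  have hmk : ∀ g : G, mk g = 1 ↔ g ∈ A := fun g => QuotientGroup.eq_one_iff g
  let C : Set D := {a | ∃ c : G, (∀ b ∈ A, c * b = b * c) ∧ mk c = a}
  let Z : Set D := {a | a = 1 ∨ a ∉ C}
  obtain ⟨a, haZ, hacomm⟩ := exists_central_mod' Z (Or.inl rfl)
    ⟨mk x₀, fun h => by
      rcases h with h | h
      · exact hx₀A ((hmk _).1 h)
      · exact h ⟨x₀, fun b hb => (hx₀c b hb), rfl⟩⟩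
  have ha1 : a ≠ 1 := fun h => haZ (Or.inl h)
  have haC : a ∈ C := by
    by_contra h
    exact haZ (Or.inr h)
  obtain ⟨x, hxc, rfl⟩ := haC
  -- the central property
  have hcentral : ∀ g : G, g * x * g⁻¹ * x⁻¹ ∈ A := by
    intro g
    have h1 := hacomm (g : D)
    have hconj : ∀ b ∈ A, (g * x * g⁻¹ * x⁻¹) * b = b * (g * x * g⁻¹ * x⁻¹) := by
      intro b hb
      have hb' : g⁻¹ * b * g ∈ A := by
        have := hAn.conj_mem b hb g⁻¹
        simpa using this
      have hxb' := hxc _ hb'
      have hxb : x⁻¹ * b = b * x⁻¹ := by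
        have h2 := hxc b hb
        calc x⁻¹ * b = x⁻¹ * (b * x) * x⁻¹ := by group
          _ = x⁻¹ * (x * b) * x⁻¹ := by rw [h2]
          _ = b * x⁻¹ := by group
      calc (g * x * g⁻¹ * x⁻¹) * b = g * x * g⁻¹ * (x⁻¹ * b) := by group
        _ = g * x * g⁻¹ * (b * x⁻¹) := by rw [hxb]
        _ = g * (x * (g⁻¹ * b * g)) * g⁻¹ * x⁻¹ := by group
        _ = g * ((g⁻¹ * b * g) * x) * g⁻¹ * x⁻¹ := by rw [hxb']
        _ = b * (g * x * g⁻¹ * x⁻¹) := by group
    rcases h1 with h1 | h1
    · exact (hmk _).1 h1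
    · exfalso
      exact h1 ⟨_, hconj, rfl⟩
  -- the larger subgroup
  let T : Subgroup D := Subgroup.zpowers (mk x)
  haveI hTn : T.Normal := by
    constructor
    rintro _ ⟨k, rfl⟩ d
    obtain ⟨g, rfl⟩ := QuotientGroup.mk_surjective d
    have h1 : (g : D) * mk x * (g : D)⁻¹ = mk x := by
      have h2 : mk (g * x * g⁻¹ * x⁻¹) = 1 := (hmk _).2 (hcentral g)
      have h3 : mk (g * x * g⁻¹ * x⁻¹) = (g : D) * mk x * (g : D)⁻¹ * (mk x)⁻¹ := rfl
      rw [h3] at h2
      exact mul_inv_eq_one.1 h2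
    refine ⟨k, ?_⟩
    simp only
    rw [← MulAut.conj_apply, map_zpow, MulAut.conj_apply, h1]
  let A' : Subgroup G := T.comap (QuotientGroup.mk' A)
  haveI hA'n : A'.Normal := hTn.comap _
  have hform : ∀ y ∈ A', ∃ a ∈ A, ∃ k : ℤ, y = a * x ^ k := by
    intro y hy
    obtain ⟨k, hk⟩ := hy
    refine ⟨y * (x ^ k)⁻¹, ?_, k, by group⟩
    apply (hmk _).1
    have h1 : mk (y * (x ^ k)⁻¹) = mk y * (mk x ^ k)⁻¹ := by
      simp [mk]
    rw [h1, mul_inv_eq_one]
    exact hk.symm
  have hxcomm : ∀ (k : ℤ), ∀ b ∈ A, x ^ k * b = b * x ^ k := by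
    intro k b hb
    exact (Commute.zpow_left (hxc b hb) k)
  have hA'comm : ∀ a ∈ A', ∀ b ∈ A', a * b = b * a := by
    intro y hy z hz
    obtain ⟨a, ha, k, rfl⟩ := hform y hy
    obtain ⟨b, hb, l, rfl⟩ := hform z hz
    calc a * x ^ k * (b * x ^ l) = a * (x ^ k * b) * x ^ l := by group
      _ = a * (b * x ^ k) * x ^ l := by rw [hxcomm k b hb]
      _ = (a * b) * (x ^ k * x ^ l) := by group
      _ = (b * a) * (x ^ l * x ^ k) := by
        rw [hA.2 a ha b hb, (Commute.zpow_zpow_self x k l).eq]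
      _ = b * (a * x ^ l) * x ^ k := by group
      _ = b * (x ^ l * a) * x ^ k := by rw [hxcomm l a ha]
      _ = b * x ^ l * (a * x ^ k) := by group
  have hlt : A < A' := by
    refine lt_of_le_of_ne ?_ ?_
    · intro y hy
      show mk y ∈ T
      rw [(hmk y).2 hy]
      exact T.one_mem
    · intro heq
      have : x ∈ A' := ⟨1, by simp; rfl⟩
      rw [← heq] at this
      exact ha1 ((hmk x).2 this)
  exact hmax A' ⟨hA'n, hA'comm⟩ hlt

/-- The bound for a self-centralizing cyclic normal subgroup of a `p`-group. -/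
theorem card_le_of_cyclic_selfcent [Finite G] {p : ℕ} [hp : Fact p.Prime] (hG : IsPGroup p G)
    [Nontrivial G] (A : Subgroup G) [hAn : A.Normal] [hcyc : IsCyclic A]
    (hself : ∀ x, (∀ a ∈ A, x * a = a * x) → x ∈ A) :
    Nat.card G * p ≤ Nat.card A ^ 2 := by
  classical
  let f : G →* MulAut A := MulAut.conjNormal
  have hker : f.ker ≤ A := by
    intro x hx
    apply hself
    intro a ha
    have h1 := congrArg (fun φ : MulAut A => ((φ ⟨a, ha⟩ : A) : G)) (f.mem_ker.1 hx)
    simp only [f, MulAut.conjNormal_apply, MulAut.one_apply] at h1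
    exact mul_inv_eq_iff_eq_mul.1 h1
  have hcard : Nat.card G = Nat.card f.ker * Nat.card f.range := by
    rw [← Subgroup.index_ker, Subgroup.card_mul_index]
  have hkerle : Nat.card f.ker ≤ Nat.card A := Subgroup.card_le_of_le hker
  have hAp : IsPGroup p A := hG.to_subgroup A
  obtain ⟨a, ha⟩ := IsPGroup.iff_card.1 hAp
  have ha0 : a ≠ 0 := by
    intro h0
    rw [h0, pow_zero] at ha
    have hAb : A = ⊥ := (Subgroup.eq_bot_iff_card A).2 ha
    obtain ⟨g, hg⟩ := exists_ne (1 : G)
    apply hg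
    have : g ∈ A := hself g (fun b hb => by
      rw [hAb, Subgroup.mem_bot] at hb
      simp [hb])
    rw [hAb, Subgroup.mem_bot] at this
    exact this
  have hrangeP : IsPGroup p f.range := by
    rintro ⟨_, x, rfl⟩
    obtain ⟨k, hk⟩ := hG x
    refine ⟨k, Subtype.ext ?_⟩
    show (f x) ^ p ^ k = 1
    rw [← map_pow, hk, map_one]
  obtain ⟨k, hk⟩ := IsPGroup.iff_card.1 hrangeP
  have hdvd : p ^ k ∣ Nat.totient (p ^ a) := by
    rw [← hk, ← ha, ← IsCyclic.card_mulAut]
    exact Subgroup.card_subgroup_dvd_card _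
  rw [Nat.totient_prime_pow hp.out (Nat.pos_of_ne_zero ha0)] at hdvd
  have hcop : Nat.Coprime (p ^ k) (p - 1) := by
    apply Nat.Coprime.pow_left
    apply (Nat.Prime.coprime_iff_not_dvd hp.out).2
    intro hd
    have h2 := hp.out.two_le
    have := Nat.le_of_dvd (by omega) hd
    omega
  have hdvd2 : p ^ k ∣ p ^ (a - 1) := hcop.dvd_of_dvd_mul_right hdvd
  have hle : p ^ k ≤ p ^ (a - 1) := Nat.le_of_dvd (pow_pos hp.out.pos _) hdvd2
  rw [hcard, hk, ha]
  calc Nat.card f.ker * p ^ k * p ≤ p ^ a * p ^ (a - 1) * p :=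
        Nat.mul_le_mul_right _ (Nat.mul_le_mul (ha ▸ hkerle) hle)
    _ = (p ^ a) ^ 2 := by
        obtain ⟨b, rfl⟩ : ∃ b, a = b + 1 := ⟨a - 1, by omega⟩
        simp only [Nat.add_sub_cancel]
        ring

end Groups

section Maschke

variable {K V : Type u} [Field K] [AddCommGroup V] [Module K V] [Finite K] [Finite V]

/-- Maschke's theorem for a linear group of order invertible in the field. -/
theorem ss_of_coprime (P : Subgroup (V ≃ₗ[K] V)) (hcard : (Nat.card P : K) ≠ 0) : SS P := by
  classical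
  intro W hW
  haveI : Fintype P := Fintype.ofFinite P
  obtain ⟨C₀, hC₀⟩ := Submodule.exists_isCompl W
  let π : V →ₗ[K] W := W.linearProjOfIsCompl C₀ hC₀
  have hπ : ∀ w : W, π w = w := fun w => Submodule.linearProjOfIsCompl_apply_left hC₀ w
  let f : V →ₗ[K] W := (Nat.card P : K)⁻¹ • ∑ x : P,
    (res P W hW x).toLinearMap ∘ₗ π ∘ₗ ((x.1)⁻¹ : V ≃ₗ[K] V).toLinearMap
  have hfW : ∀ w : W, f w = w := by
    intro w
    have h1 : ∀ x : P, ((res P W hW x).toLinearMap ∘ₗ π ∘ₗ
        ((x.1)⁻¹ : V ≃ₗ[K] V).toLinearMap) (w : V) = w := by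
      intro x
      have h2 : ((x.1)⁻¹ : V ≃ₗ[K] V) (w : V) ∈ W := hW _ (P.inv_mem x.2) _ w.2
      have h3 : π (((x.1)⁻¹ : V ≃ₗ[K] V) (w : V)) = ⟨_, h2⟩ := hπ ⟨_, h2⟩
      apply Subtype.ext
      simp only [LinearMap.comp_apply, LinearEquiv.coe_coe]
      rw [h3]
      exact apply_inv_self x.1 w
    simp only [f, LinearMap.smul_apply, LinearMap.sum_apply]
    rw [Finset.sum_congr rfl (fun x _ => h1 x), Finset.sum_const, Finset.card_univ,
      ← Nat.card_eq_fintype_card, ← Nat.cast_smul_eq_nsmul K, smul_smul,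
      inv_mul_cancel₀ hcard, one_smul]
  have hfP : ∀ y ∈ P, ∀ v : V, ((f (y v) : W) : V) = y (f v) := by
    intro y hy v
    have h1 : ∀ x : P, ((((res P W hW x).toLinearMap ∘ₗ π ∘ₗ
        ((x.1)⁻¹ : V ≃ₗ[K] V).toLinearMap) (y v) : W) : V) =
        y ((((res P W hW (⟨y, hy⟩⁻¹ * x)).toLinearMap ∘ₗ π ∘ₗ
        (((⟨y, hy⟩⁻¹ * x : P).1)⁻¹ : V ≃ₗ[K] V).toLinearMap) v : W) : V) := by
      intro x
      simp only [LinearMap.comp_apply, LinearEquiv.coe_coe, res_apply]
      have h2 : ((⟨y, hy⟩⁻¹ * x : P).1)⁻¹ = (x.1)⁻¹ * y := by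
        simp
      rw [h2]
      show x.1 _ = y (y⁻¹ (x.1 _))
      rw [apply_inv_self]
      rfl
    simp only [f, LinearMap.smul_apply, LinearMap.sum_apply, Submodule.coe_smul, map_smul]
    congr 1
    rw [AddSubmonoidClass.coe_finset_sum, AddSubmonoidClass.coe_finset_sum, map_sum]
    rw [Finset.sum_congr rfl (fun x _ => h1 x)]
    exact Finset.sum_equiv (Equiv.mulLeft (⟨y, hy⟩⁻¹ : P)) (by simp) (fun x _ => rfl)
  refine ⟨LinearMap.ker f, ?_, LinearMap.isCompl_of_proj hfW⟩
  intro y hy v hv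
  rw [LinearMap.mem_ker] at hv ⊢
  apply Subtype.ext
  rw [hfP y hy v, hv]
  simp

end Maschke

section Field

variable {K V : Type u} [Field K] [AddCommGroup V] [Module K V] [Finite K] [Finite V]

/-- A subalgebra of endomorphisms in which the nonzero elements are invertible is a field. -/
noncomputable def fieldOf [Nontrivial V] (B : Subalgebra K (Module.End K V))
    (hcomm : ∀ x ∈ B, ∀ y ∈ B, x * y = y * x)
    (hinv : ∀ b ∈ B, b ≠ 0 → ∃ c ∈ B, b * c = 1) : Field ↥B :=
  IsField.toField (R := ↥B)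
    { exists_pair_ne := ⟨0, 1, fun h => by
        have h1 := congrArg Subtype.val h
        have h2 : (0 : Module.End K V) = 1 := h1
        exact zero_ne_one h2⟩
      mul_comm := fun x y => Subtype.ext (hcomm x.1 x.2 y.1 y.2)
      mul_inv_cancel := by
        intro a ha
        obtain ⟨c, hc, hac⟩ := hinv a.1 a.2 (fun h => ha (Subtype.ext h))
        exact ⟨⟨c, hc⟩, Subtype.ext hac⟩ }

/-- A linear group whose algebra is a field is cyclic. -/
theorem cyclic_of_field [Nontrivial V] (A : Subgroup (V ≃ₗ[K] V))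
    (hcomm : ∀ a ∈ A, ∀ b ∈ A, a * b = b * a)
    (hinv : ∀ b ∈ adj A, b ≠ 0 → ∃ c ∈ adj A, b * c = 1) : IsCyclic A := by
  classical
  letI : Field ↥(adj A) := fieldOf _ (adj_comm hcomm) hinv
  let j : ↥A →* ↥(adj A) :=
    { toFun := fun x => ⟨x.1.toLinearMap, mem_adj x.2⟩
      map_one' := rfl
      map_mul' := fun x y => rfl }
  have hj : Function.Injective j := by
    intro x y hxy
    apply Subtype.ext
    ext v
    have h1 := congrArg (fun z : ↥(adj A) => z.1 v) hxy
    exact h1
  exact isCyclic_of_subgroup_isDomain j hj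

/-- The elements of a linear group whose algebra is a field act freely on nonzero vectors. -/
theorem eq_one_of_fixed (A : Subgroup (V ≃ₗ[K] V))
    (hcomm : ∀ a ∈ A, ∀ b ∈ A, a * b = b * a)
    (hinv : ∀ b ∈ adj A, b ≠ 0 → ∃ c ∈ adj A, b * c = 1) {a : V ≃ₗ[K] V} (ha : a ∈ A)
    {v : V} (hv : v ≠ 0) (hfix : a v = v) : a = 1 := by
  by_contra hne
  have hmem : (a.toLinearMap - 1 : Module.End K V) ∈ adj A :=
    Subalgebra.sub_mem _ (mem_adj ha) (Subalgebra.one_mem _)
  have hne0 : (a.toLinearMap - 1 : Module.End K V) ≠ 0 := by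
    intro h0
    apply hne
    ext w
    have h1 := congrArg (fun T : Module.End K V => T w) h0
    simp only [LinearMap.sub_apply, LinearEquiv.coe_coe, Module.End.one_apply,
      LinearMap.zero_apply] at h1
    have h2 := sub_eq_zero.1 h1
    simpa using h2
  obtain ⟨c, hc, hac⟩ := hinv _ hmem hne0
  have hca := adj_comm hcomm _ hmem c hc
  have h3 : c * (a.toLinearMap - 1 : Module.End K V) = 1 := by rw [← hca, hac]
  have h4 := congrArg (fun T : Module.End K V => T v) h3
  simp only [Module.End.mul_apply, LinearMap.sub_apply, LinearEquiv.coe_coe, Module.End.one_apply,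
    hfix, sub_self, map_zero] at h4
  exact hv h4.symm

/-- ... and so they are fewer than the vectors. -/
theorem card_lt_of_field [Nontrivial V] (A : Subgroup (V ≃ₗ[K] V))
    (hcomm : ∀ a ∈ A, ∀ b ∈ A, a * b = b * a)
    (hinv : ∀ b ∈ adj A, b ≠ 0 → ∃ c ∈ adj A, b * c = 1) : Nat.card A ≤ Nat.card V := by
  classical
  obtain ⟨v, hv⟩ := exists_ne (0 : V)
  refine Nat.card_le_card_of_injective (fun a : A => a.1 v) ?_
  intro a b hab
  have h1 : (b.1⁻¹ * a.1) v = v := by
    have h2 : (b.1⁻¹ * a.1) v = (b.1⁻¹ : V ≃ₗ[K] V) (a.1 v) := rfl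
    have h3 : a.1 v = b.1 v := hab
    rw [h2, h3, inv_apply_self]
  have h4 := eq_one_of_fixed A hcomm hinv (A.mul_mem (A.inv_mem b.2) a.2) hv h1
  exact Subtype.ext (by
    rw [inv_mul_eq_one] at h4
    exact h4.symm)

end Field

section Main

variable (K : Type u) [Field K] [Finite K]

theorem card_submodule_dvd {V : Type u} [AddCommGroup V] [Module K V] [Finite V]
    (W : Submodule K V) : Nat.card W ∣ Nat.card V :=
  AddSubgroup.card_addSubgroup_dvd_card W.toAddSubgroup

theorem arith_two {p c A B x y : ℕ} (hp : 2 ≤ p) (hc : 0 < c) (hx : 0 < x) (hy : 0 < y)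
    (h : c ≤ A * B)
    (hA : A = 1 ∨ A * p ≤ x ^ 2) (hB : B = 1 ∨ B * p ≤ y ^ 2) : c = 1 ∨ c * p ≤ (x * y) ^ 2 := by
  have hx2 : 1 ≤ x ^ 2 := Nat.one_le_pow _ _ hx
  have hy2 : 1 ≤ y ^ 2 := Nat.one_le_pow _ _ hy
  rcases hA with rfl | hA
  · rcases hB with rfl | hB
    · left
      omega
    · right
      rw [one_mul] at h
      calc c * p ≤ B * p := Nat.mul_le_mul_right _ h
        _ ≤ y ^ 2 := hB
        _ ≤ x ^ 2 * y ^ 2 := Nat.le_mul_of_pos_left _ hx2
        _ = (x * y) ^ 2 := by ring
  · rcases hB with rfl | hB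
    · right
      rw [mul_one] at h
      calc c * p ≤ A * p := Nat.mul_le_mul_right _ h
        _ ≤ x ^ 2 := hA
        _ ≤ x ^ 2 * y ^ 2 := Nat.le_mul_of_pos_right _ hy2
        _ = (x * y) ^ 2 := by ring
    · right
      calc c * p ≤ A * B * p := Nat.mul_le_mul_right _ h
        _ ≤ A * B * p * p := Nat.le_mul_of_pos_right _ (by omega)
        _ = (A * p) * (B * p) := by ring
        _ ≤ x ^ 2 * y ^ 2 := Nat.mul_le_mul hA hB
        _ = (x * y) ^ 2 := by ring

/-- The bound for a `p`-group of automorphisms, `p` not dividing the order of the space. -/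
theorem lemmaQ {p : ℕ} [hp : Fact p.Prime] : ∀ (n : ℕ) (V : Type u) [AddCommGroup V] [Module K V]
    [Finite V] (P : Subgroup (V ≃ₗ[K] V)), IsPGroup p P → ¬ p ∣ Nat.card V →
    Module.finrank K V = n → Nat.card P = 1 ∨ Nat.card P * p ≤ Nat.card V ^ 2 := by
  classical
  intro n
  induction n using Nat.strong_induction_on with
  | _ n ih =>
    intro V _ _ _ P hP hcop hn
    have hp2 := hp.out.two_le
    by_cases hV : Nontrivial V
    swap
    · left
      rw [not_nontrivial_iff_subsingleton] at hV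
      have : Subsingleton (V ≃ₗ[K] V) := ⟨fun a b => by
        ext v
        exact Subsingleton.elim _ _⟩
      haveI : Subsingleton P := ⟨fun a b => Subtype.ext (Subsingleton.elim _ _)⟩
      exact Nat.card_of_subsingleton (1 : P)
    have hpK : (p : K) ≠ 0 := by
      intro h0
      obtain ⟨v, hv⟩ := exists_ne (0 : V)
      have h1 : p • v = 0 := by
        rw [← Nat.cast_smul_eq_nsmul K, h0, zero_smul]
      have hord : addOrderOf v = p := addOrderOf_eq_prime h1 hv
      exact hcop (hord ▸ addOrderOf_dvd_natCard v)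
    have hPcard : (Nat.card P : K) ≠ 0 := by
      obtain ⟨k, hk⟩ := IsPGroup.iff_card.1 hP
      rw [hk]
      push_cast
      exact pow_ne_zero _ hpK
    have hss := ss_of_coprime P hPcard
    have hcardV : 0 < Nat.card V := Nat.card_pos
    have hPpos : 0 < Nat.card P := Nat.card_pos
    by_cases hirr : Irr P
    swap
    · -- reducible
      have hex : ∃ W, InvS P W ∧ W ≠ ⊥ ∧ W ≠ ⊤ := by
        by_contra hcon
        push Not at hcon
        apply hirr
        intro W hW
        by_cases hb : W = ⊥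
        · exact Or.inl hb
        · exact Or.inr (hcon W hW hb)
      obtain ⟨W, hW, hWb, hWt⟩ := hex
      obtain ⟨W', hW', hc⟩ := hss W hW
      have hW't : W' ≠ ⊤ := by
        intro h
        apply hWb
        have := hc.inf_eq_bot
        rwa [h, inf_top_eq] at this
      have hWlt : Module.finrank K W < n := hn ▸ Submodule.finrank_lt hWt
      have hW'lt : Module.finrank K W' < n := hn ▸ Submodule.finrank_lt hW't
      have hcardle := card_le_of_compl P P le_rfl hW hW' hc
      have hcV := card_eq_of_compl hc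
      have hi1 := ih _ hWlt W (imgP P W hW P) (imgP_isPGroup P W hW hP)
        (fun h => hcop (h.trans (card_submodule_dvd K W))) rfl
      have hi2 := ih _ hW'lt W' (imgP P W' hW' P) (imgP_isPGroup P W' hW' hP)
        (fun h => hcop (h.trans (card_submodule_dvd K W'))) rfl
      rw [hcV]
      exact arith_two hp2 hPpos Nat.card_pos Nat.card_pos hcardle hi1 hi2
    · -- irreducible
      obtain ⟨A', hA'n, hA'c, hA's⟩ := exists_selfcent hP
      let A : Subgroup (V ≃ₗ[K] V) := A'.map P.subtype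
      have hAcomm : ∀ a ∈ A, ∀ b ∈ A, a * b = b * a := by
        rintro _ ⟨a, ha, rfl⟩ _ ⟨b, hb, rfl⟩
        have := congrArg Subtype.val (hA'c a ha b hb)
        exact this
      have hAnorm : ∀ h ∈ P, ∀ a ∈ A, h * a * h⁻¹ ∈ A := by
        rintro h hh _ ⟨a, ha, rfl⟩
        exact ⟨⟨h, hh⟩ * a * ⟨h, hh⟩⁻¹, hA'n.conj_mem a ha _, rfl⟩
      rcases dichotomy (B := adj A) hirr (adj_comm hAcomm) (adj_conj hAnorm) with hf | ⟨O, hO⟩
      · -- a field
        by_cases hPtriv : Nat.card P = 1
        · exact Or.inl hPtriv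
        right
        haveI : Nontrivial P := by
          apply Finite.one_lt_card_iff_nontrivial.1
          omega
        haveI hcycA : IsCyclic A := cyclic_of_field A hAcomm hf
        have hequiv : A' ≃* A := A'.equivMapOfInjective P.subtype P.subtype_injective
        haveI : IsCyclic A' := isCyclic_of_surjective hequiv.symm hequiv.symm.surjective
        have h1 := card_le_of_cyclic_selfcent hP A' hA's
        have h2 : Nat.card A' = Nat.card A := Nat.card_congr hequiv.toEquiv
        have h3 := card_lt_of_field A hAcomm hf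
        calc Nat.card P * p ≤ Nat.card A' ^ 2 := h1
          _ ≤ Nat.card V ^ 2 := Nat.pow_le_pow_left (h2 ▸ h3) 2
      · -- blocks
        have hbd := block_bound le_rfl hP hO
        let c : ↥O → ℕ := fun a => Nat.card
          (imgP (H0 P O) (LinearMap.range a.1) (inv_range a.2) (P ⊓ H0 P O))
        let x : ↥O → ℕ := fun a => Nat.card (LinearMap.range a.1)
        have hprod := prod_card_le hO
        have hi : ∀ a : ↥O, c a = 1 ∨ c a * p ≤ x a ^ 2 := by
          intro a
          exact ih _ (hn ▸ finrank_range_lt hO a.2) (LinearMap.range a.1) _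
            (imgP_isPGroup _ _ _ (hP.to_le inf_le_left))
            (fun h => hcop (h.trans (card_submodule_dvd K _))) rfl
        have hx2 : ∀ a : ↥O, 2 ≤ x a := by
          intro a
          have hne : LinearMap.range a.1 ≠ ⊥ := by
            intro h
            exact hO.ne0 a.1 a.2 (LinearMap.range_eq_bot.1 h)
          haveI : Nontrivial (LinearMap.range a.1) := Submodule.nontrivial_iff_ne_bot.2 hne
          exact Finite.one_lt_card_iff_nontrivial.2 this
        have hc2 : ∀ a : ↥O, c a * 2 ≤ x a ^ 2 := by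
          intro a
          rcases hi a with h | h
          · rw [h]
            have := hx2 a
            nlinarith
          · exact (Nat.mul_le_mul_left _ hp2).trans h
        by_cases hall : ∀ a : ↥O, c a = 1
        · have hbd2 : Nat.card P ≤ 2 ^ (O.card - 1) := by
            have h1 : ∏ a : ↥O, c a = 1 := Finset.prod_eq_one fun a _ => hall a
            have : Nat.card P ≤ 2 ^ (O.card - 1) * ∏ a : ↥O, c a := hbd
            rwa [h1, mul_one] at this
          by_cases hPtriv : Nat.card P = 1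
          · exact Or.inl hPtriv
          right
          obtain ⟨k, hk⟩ := IsPGroup.iff_card.1 hP
          have hk0 : k ≠ 0 := by
            intro h0
            rw [h0, pow_zero] at hk
            exact hPtriv hk
          have hpP : p ≤ Nat.card P := by
            rw [hk]
            exact Nat.le_self_pow hk0 p
          have hprodge : 2 ^ O.card ≤ ∏ a : ↥O, x a := by
            have h1 : ∏ _a : ↥O, 2 ≤ ∏ a : ↥O, x a :=
              Finset.prod_le_prod' (fun a _ => hx2 a)
            simpa using h1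
          have hVge : 2 ^ (O.card - 1) ≤ Nat.card V :=
            le_trans (Nat.pow_le_pow_right (by norm_num) (Nat.sub_le _ _))
              (hprodge.trans hprod)
          calc Nat.card P * p ≤ Nat.card P * Nat.card P := Nat.mul_le_mul_left _ hpP
            _ ≤ Nat.card V * Nat.card V := Nat.mul_le_mul (hbd2.trans hVge) (hbd2.trans hVge)
            _ = Nat.card V ^ 2 := by ring
        · right
          push Not at hall
          obtain ⟨a₀, ha₀⟩ := hall
          have hc0 : c a₀ * p ≤ x a₀ ^ 2 := (hi a₀).resolve_left ha₀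
          have hcardO : (Finset.univ.erase a₀).card = O.card - 1 := by
            rw [Finset.card_erase_of_mem (Finset.mem_univ _), Finset.card_univ, Fintype.card_coe]
          have h1 : ∏ a : ↥O, c a = c a₀ * ∏ a ∈ Finset.univ.erase a₀, c a :=
            (Finset.mul_prod_erase _ _ (Finset.mem_univ a₀)).symm
          have h2 : ∏ a : ↥O, x a ^ 2 = x a₀ ^ 2 * ∏ a ∈ Finset.univ.erase a₀, x a ^ 2 :=
            (Finset.mul_prod_erase _ (fun a => x a ^ 2) (Finset.mem_univ a₀)).symm
          have h3 : 2 ^ (O.card - 1) * ∏ a ∈ Finset.univ.erase a₀, c a ≤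
              ∏ a ∈ Finset.univ.erase a₀, x a ^ 2 := by
            rw [← hcardO, ← Finset.prod_const, ← Finset.prod_mul_distrib]
            refine Finset.prod_le_prod' fun a _ => ?_
            rw [mul_comm]
            exact hc2 a
          have hbd' : Nat.card P ≤ 2 ^ (O.card - 1) * ∏ a : ↥O, c a := hbd
          calc Nat.card P * p ≤ (2 ^ (O.card - 1) * ∏ a : ↥O, c a) * p :=
                Nat.mul_le_mul_right _ hbd'
            _ = (c a₀ * p) * (2 ^ (O.card - 1) * ∏ a ∈ Finset.univ.erase a₀, c a) := by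
                rw [h1]; ring
            _ ≤ x a₀ ^ 2 * ∏ a ∈ Finset.univ.erase a₀, x a ^ 2 := Nat.mul_le_mul hc0 h3
            _ = (∏ a : ↥O, x a) ^ 2 := by rw [← h2, Finset.prod_pow]
            _ ≤ Nat.card V ^ 2 := Nat.pow_le_pow_left hprod 2

end Main

end Cfsg.Agent.Lib.PPartQ
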