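import Mathlib
import Cfsg.Agent.Lib.PPartQ

/-!
# Coprime `p`-groups of automorphisms of a finite abelian group: the order bound
-/

set_option autoImplicit false
set_option linter.style.haveILetI false
set_option linter.unusedVariables false
set_option linter.unusedSectionVars false

namespace Cfsg.Agent.Lib.PPartQ2

open Cfsg.Agent.Lib.PPartBasic Cfsg.Agent.Lib.PPartBlocks Cfsg.Agent.Lib.PPartQ

instance instFiniteLinZ (W : Type) [AddCommGroup W] [Finite W] : Finite (W ≃ₗ[ℤ] W) :=
  Finite.of_injective (fun g : W ≃ₗ[ℤ] W => (g : W → W)) DFunLike.coe_injective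

section Res

variable {W : Type} [AddCommGroup W]

/-- Restriction of a group of automorphisms to an invariant subgroup. -/
def resA (P : Subgroup ((W ≃ₗ[ℤ] W))) (U : AddSubgroup W) (hU : ∀ x ∈ P, ∀ u ∈ U, x u ∈ U) :
    ↥P →* (↥U ≃ₗ[ℤ] ↥U) where
  toFun x :=
    { toFun := fun u => ⟨x.1 u.1, hU x.1 x.2 u.1 u.2⟩
      invFun := fun u => ⟨(x.1⁻¹ : W ≃ₗ[ℤ] W) u.1, hU _ (P.inv_mem x.2) u.1 u.2⟩
      left_inv := fun u => Subtype.ext (x.1.symm_apply_apply u)
      right_inv := fun u => Subtype.ext (x.1.apply_symm_apply u)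
      map_add' := fun a b => Subtype.ext (map_add x.1 a.1 b.1)
      map_smul' := fun c a => Subtype.ext (map_smul x.1 c a.1) }
  map_one' := rfl
  map_mul' x y := rfl

theorem resA_apply (P : Subgroup ((W ≃ₗ[ℤ] W))) (U : AddSubgroup W) (hU : ∀ x ∈ P, ∀ u ∈ U, x u ∈ U)
    (x : P) (u : U) : ((resA P U hU x u : U) : W) = x.1 u.1 := rfl

theorem range_isPGroup {p : ℕ} (P : Subgroup ((W ≃ₗ[ℤ] W))) (U : AddSubgroup W)
    (hU : ∀ x ∈ P, ∀ u ∈ U, x u ∈ U) (hP : IsPGroup p P) :
    IsPGroup p (resA P U hU).range := by
  rintro ⟨_, x, rfl⟩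
  obtain ⟨k, hk⟩ := hP x
  refine ⟨k, Subtype.ext ?_⟩
  show (resA P U hU x) ^ p ^ k = 1
  rw [← map_pow, hk, map_one]

/-- The `r`-torsion of `W`. -/
def tors (W : Type) [AddCommGroup W] (r : ℕ) : AddSubgroup W := (nsmulAddMonoidHom r : W →+ W).ker

theorem mem_tors {r : ℕ} {w : W} : w ∈ tors W r ↔ r • w = 0 := AddMonoidHom.mem_ker

theorem tors_inv (P : Subgroup ((W ≃ₗ[ℤ] W))) (r : ℕ) : ∀ x ∈ P, ∀ u ∈ tors W r, x u ∈ tors W r := by
  intro x _ u hu
  rw [mem_tors] at hu ⊢
  rw [← map_nsmul, hu, map_zero]

/-- A `p`-element acting trivially on the `r`-torsion of a group of `r`-power exponent. -/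
theorem eq_one_of_trivial_tors {p r : ℕ} [hp : Fact p.Prime] (hr : r.Prime) (hpr : p ≠ r)
    (hrg : ∀ y : W, ∃ k : ℕ, r ^ k • y = 0) (x : (W ≃ₗ[ℤ] W)) {b : ℕ} (hb : x ^ p ^ b = 1)
    (htriv : ∀ u ∈ tors W r, x u = u) : x = 1 := by
  have key : ∀ k : ℕ, ∀ y : W, r ^ k • y = 0 → x y = y := by
    intro k
    induction k with
    | zero =>
      intro y hy
      have : y = 0 := by simpa using hy
      rw [this, map_zero]
    | succ k ih =>
      intro y hy
      have h1 : x (r • y) = r • y := by
        apply ih
        rw [← mul_nsmul', ← pow_succ]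
        exact hy
      set d := x y - y with hd
      have h2 : d ∈ tors W r := by
        rw [mem_tors, hd, nsmul_sub, ← map_nsmul, h1, sub_self]
      have h3 : x d = d := htriv d h2
      have h4 : ∀ m : ℕ, (x ^ m) y = y + m • d := by
        intro m
        induction m with
        | zero => simp
        | succ m ih2 =>
          rw [pow_succ']
          show x ((x ^ m) y) = _
          rw [ih2, map_add, map_nsmul, h3, succ_nsmul]
          have : x y = y + d := by rw [hd]; abel
          rw [this]
          abel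
      have h5 := h4 (p ^ b)
      rw [hb] at h5
      have h6 : p ^ b • d = 0 := by
        have h7 : y = y + p ^ b • d := h5
        simpa using h7.symm
      have h7 : r • d = 0 := (mem_tors).1 h2
      have hcop : Nat.Coprime (p ^ b) r :=
        Nat.Coprime.pow_left _ ((Nat.coprime_primes hp.out hr).2 hpr)
      have h8 : d = 0 := by
        have h9 : Nat.gcd (p ^ b) r • d = 0 := by
          have h10 := addOrderOf_dvd_iff_nsmul_eq_zero.2 h6
          have h11 := addOrderOf_dvd_iff_nsmul_eq_zero.2 h7
          exact addOrderOf_dvd_iff_nsmul_eq_zero.1 (Nat.dvd_gcd h10 h11)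
        rwa [hcop, one_nsmul] at h9
      exact sub_eq_zero.1 h8
  ext y
  obtain ⟨k, hk⟩ := hrg y
  exact key k y hk

end Res

/-- The elementary abelian case. -/
theorem elem_case {p : ℕ} [hp : Fact p.Prime] (r : ℕ) [hr : Fact r.Prime] (W : Type)
    [AddCommGroup W] [Module (ZMod r) W] [Finite W] (P : Subgroup (W ≃ₗ[ℤ] W)) (hP : IsPGroup p P)
    (hcop : ¬ p ∣ Nat.card W) : Nat.card P = 1 ∨ Nat.card P * p ≤ Nat.card W ^ 2 := by
  let toLin : ↥P →* (W ≃ₗ[ZMod r] W) :=
    { toFun := fun x =>
        { toFun := x.1
          map_add' := map_add x.1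
          map_smul' := fun c a => ZMod.map_smul x.1 c a
          invFun := fun a => (x.1⁻¹ : W ≃ₗ[ℤ] W) a
          left_inv := fun a => x.1.symm_apply_apply a
          right_inv := fun a => x.1.apply_symm_apply a }
      map_one' := LinearEquiv.ext fun a => rfl
      map_mul' := fun x y => LinearEquiv.ext fun a => rfl }
  have hinj : Function.Injective toLin := by
    intro x y hxy
    apply Subtype.ext
    ext v
    exact congrArg (fun g : W ≃ₗ[ZMod r] W => g v) hxy
  have hcard : Nat.card toLin.range = Nat.card P :=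
    Nat.card_congr (MonoidHom.ofInjective hinj).toEquiv.symm
  have hrange : IsPGroup p toLin.range := by
    rintro ⟨_, x, rfl⟩
    obtain ⟨k, hk⟩ := hP x
    refine ⟨k, Subtype.ext ?_⟩
    show (toLin x) ^ p ^ k = 1
    rw [← map_pow, hk, map_one]
  have h := lemmaQ (ZMod r) _ W toLin.range hrange hcop rfl
  rwa [hcard] at h

/-- The bound for a `p`-group of automorphisms of a finite abelian `p'`-group. -/
theorem lemmaQ2 {p : ℕ} [hp : Fact p.Prime] : ∀ (N : ℕ) (W : Type) [AddCommGroup W] [Finite W]
    (P : Subgroup ((W ≃ₗ[ℤ] W))), IsPGroup p P → ¬ p ∣ Nat.card W → Nat.card W = N →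
    Nat.card P = 1 ∨ Nat.card P * p ≤ Nat.card W ^ 2 := by
  classical
  intro N
  induction N using Nat.strong_induction_on with
  | _ N ih =>
    intro W _ _ P hP hcop hN
    have hNpos : 0 < N := hN ▸ Nat.card_pos
    have hp2 := hp.out.two_le
    by_cases hN1 : N = 1
    · left
      have hsub : Subsingleton W := by
        rw [hN1] at hN
        exact (Nat.card_eq_one_iff_unique.1 hN).1
      have : Subsingleton ((W ≃ₗ[ℤ] W)) := ⟨fun a b => by
        ext v
        exact Subsingleton.elim _ _⟩
      haveI : Subsingleton P := ⟨fun a b => Subtype.ext (Subsingleton.elim _ _)⟩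
      exact Nat.card_of_subsingleton (1 : P)
    -- a prime divisor
    let r := N.minFac
    have hr : r.Prime := Nat.minFac_prime hN1
    have hrN : r ∣ N := Nat.minFac_dvd N
    haveI : Fact r.Prime := ⟨hr⟩
    have hpr : p ≠ r := by
      intro h
      apply hcop
      rw [hN, h]
      exact hrN
    by_cases hele : ∀ w : W, r • w = 0
    · -- elementary abelian
      letI : Module (ZMod r) W := AddCommGroup.zmodModule hele
      exact elem_case r W P hP hcop
    by_cases hrg : ∃ k : ℕ, N = r ^ k
    · -- a non-elementary `r`-group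
      obtain ⟨k, hk⟩ := hrg
      let U := tors W r
      have hU : ∀ x ∈ P, ∀ u ∈ U, x u ∈ U := tors_inv P r
      have hUlt : Nat.card U < N := by
        rw [← hN]
        push Not at hele
        obtain ⟨w, hw⟩ := hele
        have hne : U ≠ ⊤ := fun h => hw (mem_tors.1 (show w ∈ U by
          rw [h]; exact AddSubgroup.mem_top w))
        by_contra hge
        have hle : Nat.card W ≤ Nat.card U := not_lt.1 hge
        have : U = ⊤ := (AddSubgroup.card_eq_iff_eq_top U).1
          (le_antisymm (AddSubgroup.card_le_card_addGroup U) hle)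
        exact hne this
      have hUdvd : Nat.card U ∣ Nat.card W := AddSubgroup.card_addSubgroup_dvd_card U
      have hfaith : Function.Injective (resA P U hU) := by
        rw [injective_iff_map_eq_one]
        intro x hx
        obtain ⟨b, hb⟩ := hP x
        have hb' : x.1 ^ p ^ b = 1 := by
          have := congrArg Subtype.val hb
          simpa using this
        have h1 : x.1 = 1 := by
          apply eq_one_of_trivial_tors hr hpr ?_ x.1 hb'
          · intro u hu
            have := congrArg (fun φ : (↥U ≃ₗ[ℤ] ↥U) => ((φ ⟨u, hu⟩ : U) : W)) hx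
            exact this
          · intro y
            refine ⟨k, ?_⟩
            rw [← hk, ← hN]
            exact card_nsmul_eq_zero'
        exact Subtype.ext h1
      have hcard : Nat.card (resA P U hU).range = Nat.card P :=
        Nat.card_congr (MonoidHom.ofInjective hfaith).toEquiv.symm
      have h := ih _ hUlt U (resA P U hU).range (range_isPGroup P U hU hP)
        (fun h => hcop (h.trans hUdvd)) rfl
      rw [hcard] at h
      rcases h with h | h
      · exact Or.inl h
      · right
        refine h.trans (Nat.pow_le_pow_left ?_ 2)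
        exact AddSubgroup.card_le_card_addGroup U
    · -- at least two primes
      push Not at hrg
      let s := N.factorization r
      have hsdvd : r ^ s ∣ N := Nat.ordProj_dvd N r
      obtain ⟨m, hm⟩ := hsdvd
      have hm0 : m ≠ 0 := by
        intro h0
        rw [h0, mul_zero] at hm
        omega
      have hm1 : m ≠ 1 := by
        intro h1
        rw [h1, mul_one] at hm
        exact hrg s hm
      have hrm : ¬ r ∣ m := by
        have := Nat.not_dvd_ordCompl hr (by omega : N ≠ 0)
        have h2 : N / r ^ N.factorization r = m := by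
          rw [show r ^ N.factorization r = r ^ s from rfl]
          exact Nat.div_eq_of_eq_mul_right (pow_pos hr.pos _) hm
        rwa [h2] at this
      have hcopm : Nat.Coprime (r ^ s) m := Nat.Coprime.pow_left _ ((Nat.Prime.coprime_iff_not_dvd hr).2 hrm)
      let U₁ := tors W (r ^ s)
      let U₂ := tors W m
      have hU₁ := tors_inv P (r ^ s)
      have hU₂ := tors_inv P m
      have hNW : ∀ w : W, N • w = 0 := fun w => by rw [← hN]; exact card_nsmul_eq_zero'
      -- a decomposition
      obtain ⟨a, b, hab⟩ : ∃ a b : ℤ, a * (r ^ s : ℕ) + b * (m : ℕ) = 1 := by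
        refine ⟨Nat.gcdA (r ^ s) m, Nat.gcdB (r ^ s) m, ?_⟩
        have := Nat.gcd_eq_gcd_ab (r ^ s) m
        rw [hcopm] at this
        push_cast at this ⊢
        linarith
      have hdec : ∀ w : W, ∃ u ∈ U₁, ∃ v ∈ U₂, u + v = w := by
        intro w
        refine ⟨(b * (m : ℕ)) • w, ?_, (a * (r ^ s : ℕ)) • w, ?_, ?_⟩
        · rw [mem_tors]
          rw [← natCast_zsmul, smul_smul]
          have : ((r ^ s : ℕ) : ℤ) * (b * (m : ℕ)) = b * (N : ℕ) := by
            rw [hm]; push_cast; ring
          rw [this, mul_zsmul, natCast_zsmul, hNW, zsmul_zero]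
        · rw [mem_tors]
          rw [← natCast_zsmul, smul_smul]
          have : (m : ℤ) * (a * (r ^ s : ℕ)) = a * (N : ℕ) := by
            rw [hm]; push_cast; ring
          rw [this, mul_zsmul, natCast_zsmul, hNW, zsmul_zero]
        · rw [← add_zsmul, add_comm, hab, one_zsmul]
      have hdisj : ∀ w, w ∈ U₁ → w ∈ U₂ → w = 0 := by
        intro w h1 h2
        rw [mem_tors] at h1 h2
        have h3 : Nat.gcd (r ^ s) m • w = 0 := by
          have h10 := addOrderOf_dvd_iff_nsmul_eq_zero.2 h1
          have h11 := addOrderOf_dvd_iff_nsmul_eq_zero.2 h2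
          exact addOrderOf_dvd_iff_nsmul_eq_zero.1 (Nat.dvd_gcd h10 h11)
        rwa [hcopm, one_nsmul] at h3
      -- the orders
      have hprod : Nat.card U₁ * Nat.card U₂ ≤ Nat.card W := by
        rw [← Nat.card_prod]
        refine Nat.card_le_card_of_injective (fun z : U₁ × U₂ => (z.1 : W) + z.2) ?_
        rintro ⟨x₁, x₂⟩ ⟨y₁, y₂⟩ h
        simp only at h
        have h1 : (x₁ : W) - y₁ = y₂ - x₂ := by
          rw [sub_eq_sub_iff_add_eq_add, h, add_comm]
        have h2 : (x₁ : W) - y₁ = 0 := hdisj _ (U₁.sub_mem x₁.2 y₁.2) (h1 ▸ U₂.sub_mem y₂.2 x₂.2)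
        have h3 : (y₂ : W) - x₂ = 0 := h1 ▸ h2
        exact Prod.ext (Subtype.ext (sub_eq_zero.1 h2)) (Subtype.ext (sub_eq_zero.1 h3).symm)
      have hU₁lt : Nat.card U₁ < N := by
        obtain ⟨q, hq, hqm⟩ := Nat.exists_prime_and_dvd hm1
        have hqN : q ∣ Nat.card W := by
          rw [hN, hm]
          exact Dvd.dvd.mul_left hqm _
        haveI : Fact q.Prime := ⟨hq⟩
        obtain ⟨w, hw⟩ := exists_prime_addOrderOf_dvd_card' q hqN
        have hqr : q ≠ r := fun h => hrm (h ▸ hqm)
        have hwU : w ∉ U₁ := by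
          intro h
          rw [mem_tors] at h
          have h1 := addOrderOf_dvd_iff_nsmul_eq_zero.2 h
          rw [hw] at h1
          exact hqr ((Nat.prime_dvd_prime_iff_eq hq hr).1 (hq.dvd_of_dvd_pow h1))
        have hne : U₁ ≠ ⊤ := fun h => hwU (by rw [h]; exact AddSubgroup.mem_top w)
        rw [← hN]
        by_contra hge
        have hle : Nat.card W ≤ Nat.card U₁ := not_lt.1 hge
        exact hne ((AddSubgroup.card_eq_iff_eq_top U₁).1
          (le_antisymm (AddSubgroup.card_le_card_addGroup U₁) hle))
      have hU₂lt : Nat.card U₂ < N := by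
        have hqN : r ∣ Nat.card W := hN ▸ hrN
        obtain ⟨w, hw⟩ := exists_prime_addOrderOf_dvd_card' r hqN
        have hwU : w ∉ U₂ := by
          intro h
          rw [mem_tors] at h
          have h1 := addOrderOf_dvd_iff_nsmul_eq_zero.2 h
          rw [hw] at h1
          exact hrm h1
        have hne : U₂ ≠ ⊤ := fun h => hwU (by rw [h]; exact AddSubgroup.mem_top w)
        rw [← hN]
        by_contra hge
        have hle : Nat.card W ≤ Nat.card U₂ := not_lt.1 hge
        exact hne ((AddSubgroup.card_eq_iff_eq_top U₂).1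
          (le_antisymm (AddSubgroup.card_le_card_addGroup U₂) hle))
      have hle : Nat.card P ≤ Nat.card (resA P U₁ hU₁).range * Nat.card (resA P U₂ hU₂).range := by
        rw [← Nat.card_prod]
        refine Nat.card_le_card_of_injective
          (fun x : P => ((resA P U₁ hU₁).rangeRestrict x, (resA P U₂ hU₂).rangeRestrict x)) ?_
        intro x y hxy
        apply Subtype.ext
        ext w
        obtain ⟨u, hu, v, hv, rfl⟩ := hdec w
        have h1 := congrArg (fun z => ((z.1.1 ⟨u, hu⟩ : U₁) : W)) hxy
        have h2 := congrArg (fun z => ((z.2.1 ⟨v, hv⟩ : U₂) : W)) hxy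
        have h1' : x.1 u = y.1 u := h1
        have h2' : x.1 v = y.1 v := h2
        rw [map_add, map_add, h1', h2']
      have hi1 := ih _ hU₁lt U₁ (resA P U₁ hU₁).range (range_isPGroup P U₁ hU₁ hP)
        (fun h => hcop (h.trans (AddSubgroup.card_addSubgroup_dvd_card U₁))) rfl
      have hi2 := ih _ hU₂lt U₂ (resA P U₂ hU₂).range (range_isPGroup P U₂ hU₂ hP)
        (fun h => hcop (h.trans (AddSubgroup.card_addSubgroup_dvd_card U₂))) rfl
      have hfin := arith_two hp2 Nat.card_pos Nat.card_pos Nat.card_pos hle hi1 hi2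
      rcases hfin with h | h
      · exact Or.inl h
      · exact Or.inr (h.trans (Nat.pow_le_pow_left hprod 2))

/-- The order of a linear group divides the order of the general linear group. -/
theorem card_dvd_gl (r : ℕ) [hr : Fact r.Prime] (W : Type)
    [AddCommGroup W] [Module (ZMod r) W] [Finite W] (P : Subgroup (W ≃ₗ[ℤ] W)) :
    Nat.card P ∣ ∏ i : Fin (Module.finrank (ZMod r) W),
      (r ^ Module.finrank (ZMod r) W - r ^ (i : ℕ)) := by
  classical
  let toLin : ↥P →* (W ≃ₗ[ZMod r] W) :=
    { toFun := fun x =>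
        { toFun := x.1
          map_add' := map_add x.1
          map_smul' := fun c a => ZMod.map_smul x.1 c a
          invFun := fun a => (x.1⁻¹ : W ≃ₗ[ℤ] W) a
          left_inv := fun a => x.1.symm_apply_apply a
          right_inv := fun a => x.1.apply_symm_apply a }
      map_one' := LinearEquiv.ext fun a => rfl
      map_mul' := fun x y => LinearEquiv.ext fun a => rfl }
  have hinj : Function.Injective toLin := by
    intro x y hxy
    apply Subtype.ext
    ext v
    exact congrArg (fun g : W ≃ₗ[ZMod r] W => g v) hxy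
  haveI : Module.Finite (ZMod r) W := Module.Finite.of_finite
  let b := Module.finBasis (ZMod r) W
  let e : Matrix.GeneralLinearGroup (Fin (Module.finrank (ZMod r) W)) (ZMod r) ≃* (W ≃ₗ[ZMod r] W) :=
    (Matrix.GeneralLinearGroup.toLin' b).trans (LinearMap.GeneralLinearGroup.generalLinearEquiv _ _)
  have h1 : Nat.card P ∣ Nat.card (W ≃ₗ[ZMod r] W) := Subgroup.card_dvd_of_injective toLin hinj
  rw [← Nat.card_congr e.toEquiv, Matrix.card_GL_field] at h1
  rwa [ZMod.card] at h1

/-- A `3`-group acting faithfully on an abelian group of order `16` has order at most `9`. -/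
theorem special16 (W : Type) [AddCommGroup W] [Finite W] (P : Subgroup (W ≃ₗ[ℤ] W))
    (hP : IsPGroup 3 P) (hW : Nat.card W = 16) : Nat.card P ≤ 9 := by
  classical
  haveI h2 : Fact (Nat.Prime 2) := ⟨Nat.prime_two⟩
  haveI h3 : Fact (Nat.Prime 3) := ⟨Nat.prime_three⟩
  obtain ⟨k, hk⟩ := IsPGroup.iff_card.1 hP
  have hk3 : ∀ x : ℕ, Nat.card P ≤ x → x < 27 → Nat.card P ≤ 9 := by
    intro x hx hx27
    have hlt : k < 3 := by
      by_contra hge
      have : 3 ^ 3 ≤ 3 ^ k := Nat.pow_le_pow_right (by norm_num) (by omega)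
      omega
    have : 3 ^ k ≤ 3 ^ 2 := Nat.pow_le_pow_right (by norm_num) (by omega)
    rw [hk]
    simpa using this
  by_cases hele : ∀ w : W, 2 • w = 0
  · letI : Module (ZMod 2) W := AddCommGroup.zmodModule hele
    haveI : Module.Finite (ZMod 2) W := Module.Finite.of_finite
    have hn : Module.finrank (ZMod 2) W = 4 := by
      have h := Module.natCard_eq_pow_finrank (K := ZMod 2) (V := W)
      rw [hW, Nat.card_zmod] at h
      exact (Nat.pow_right_injective (le_refl 2) (h.symm.trans (by norm_num : (16 : ℕ) = 2 ^ 4)))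
    have hd := card_dvd_gl 2 W P
    rw [hn] at hd
    simp only [Fin.prod_univ_four] at hd
    norm_num at hd
    have hle := Nat.le_of_dvd (by norm_num) hd
    rw [hk] at hd
    have h3pow : 3 ^ 3 ∣ 3 ^ k ∨ k ≤ 2 := by
      by_cases h : k ≤ 2
      · exact Or.inr h
      · exact Or.inl (pow_dvd_pow 3 (by omega))
    rcases h3pow with h | h
    · exfalso
      have := h.trans hd
      norm_num at this
    · rw [hk]
      have : 3 ^ k ≤ 3 ^ 2 := Nat.pow_le_pow_right (by norm_num) h
      simpa using this
  · let U := tors W 2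
    have hU : ∀ x ∈ P, ∀ u ∈ U, x u ∈ U := tors_inv P 2
    have hne : U ≠ ⊤ := by
      intro h
      apply hele
      intro w
      exact mem_tors.1 (show w ∈ U by rw [h]; exact AddSubgroup.mem_top w)
    have hUdvd : Nat.card U ∣ 16 := hW ▸ AddSubgroup.card_addSubgroup_dvd_card U
    have hUne : Nat.card U ≠ 16 := by
      intro h
      exact hne ((AddSubgroup.card_eq_iff_eq_top U).1 (h.trans hW.symm))
    have hU8 : Nat.card U ≤ 8 := by
      have h1 : Nat.card U ∈ Nat.divisors 16 := Nat.mem_divisors.2 ⟨hUdvd, by norm_num⟩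
      have h2 : Nat.divisors 16 = {1, 2, 4, 8, 16} := by decide
      rw [h2] at h1
      simp only [Finset.mem_insert, Finset.mem_singleton] at h1
      omega
    have hfaith : Function.Injective (resA P U hU) := by
      rw [injective_iff_map_eq_one]
      intro x hx
      obtain ⟨b, hb⟩ := hP x
      have hb' : x.1 ^ 3 ^ b = 1 := by
        have := congrArg Subtype.val hb
        simpa using this
      have h1 : x.1 = 1 := by
        apply eq_one_of_trivial_tors Nat.prime_two (by norm_num) ?_ x.1 hb'
        · intro u hu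
          have := congrArg (fun φ : (↥U ≃ₗ[ℤ] ↥U) => ((φ ⟨u, hu⟩ : U) : W)) hx
          exact this
        · intro y
          refine ⟨4, ?_⟩
          have := card_nsmul_eq_zero' (G := W) (x := y)
          rw [hW] at this
          exact this
      exact Subtype.ext h1
    have hcard : Nat.card (resA P U hU).range = Nat.card P :=
      Nat.card_congr (MonoidHom.ofInjective hfaith).toEquiv.symm
    have hUodd : ¬ 3 ∣ Nat.card U := by
      intro h
      have := h.trans hUdvd
      norm_num at this
    have h := lemmaQ2 _ U (resA P U hU).range (range_isPGroup P U hU hP) hUodd rfl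
    rw [hcard] at h
    rcases h with h | h
    · omega
    · apply hk3 21 ?_ (by norm_num)
      have h5 : Nat.card U ^ 2 ≤ 64 := by nlinarith
      omega

/-- A `2`-group acting faithfully on an abelian group of order `9` has order at most `16`. -/
theorem special9 (W : Type) [AddCommGroup W] [Finite W] (P : Subgroup (W ≃ₗ[ℤ] W))
    (hP : IsPGroup 2 P) (hW : Nat.card W = 9) : Nat.card P ≤ 16 := by
  classical
  haveI h2 : Fact (Nat.Prime 2) := ⟨Nat.prime_two⟩
  haveI h3 : Fact (Nat.Prime 3) := ⟨Nat.prime_three⟩
  obtain ⟨k, hk⟩ := IsPGroup.iff_card.1 hP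
  by_cases hele : ∀ w : W, 3 • w = 0
  · letI : Module (ZMod 3) W := AddCommGroup.zmodModule hele
    haveI : Module.Finite (ZMod 3) W := Module.Finite.of_finite
    have hn : Module.finrank (ZMod 3) W = 2 := by
      have h := Module.natCard_eq_pow_finrank (K := ZMod 3) (V := W)
      rw [hW, Nat.card_zmod] at h
      exact (Nat.pow_right_injective (by norm_num : 2 ≤ 3)
        (h.symm.trans (by norm_num : (9 : ℕ) = 3 ^ 2)))
    have hd := card_dvd_gl 3 W P
    rw [hn] at hd
    simp only [Fin.prod_univ_two] at hd
    norm_num at hd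
    rw [hk] at hd
    have h2pow : 2 ^ 5 ∣ 2 ^ k ∨ k ≤ 4 := by
      by_cases h : k ≤ 4
      · exact Or.inr h
      · exact Or.inl (pow_dvd_pow 2 (by omega))
    rcases h2pow with h | h
    · exfalso
      have := h.trans hd
      norm_num at this
    · rw [hk]
      have : 2 ^ k ≤ 2 ^ 4 := Nat.pow_le_pow_right (by norm_num) h
      simpa using this
  · let U := tors W 3
    have hU : ∀ x ∈ P, ∀ u ∈ U, x u ∈ U := tors_inv P 3
    have hne : U ≠ ⊤ := by
      intro h
      apply hele
      intro w
      exact mem_tors.1 (show w ∈ U by rw [h]; exact AddSubgroup.mem_top w)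
    have hUdvd : Nat.card U ∣ 9 := hW ▸ AddSubgroup.card_addSubgroup_dvd_card U
    have hUne : Nat.card U ≠ 9 := by
      intro h
      exact hne ((AddSubgroup.card_eq_iff_eq_top U).1 (h.trans hW.symm))
    have hU3 : Nat.card U ≤ 3 := by
      have h1 : Nat.card U ∈ Nat.divisors 9 := Nat.mem_divisors.2 ⟨hUdvd, by norm_num⟩
      have h2 : Nat.divisors 9 = {1, 3, 9} := by decide
      rw [h2] at h1
      simp only [Finset.mem_insert, Finset.mem_singleton] at h1
      omega
    have hfaith : Function.Injective (resA P U hU) := by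
      rw [injective_iff_map_eq_one]
      intro x hx
      obtain ⟨b, hb⟩ := hP x
      have hb' : x.1 ^ 2 ^ b = 1 := by
        have := congrArg Subtype.val hb
        simpa using this
      have h1 : x.1 = 1 := by
        apply eq_one_of_trivial_tors Nat.prime_three (by norm_num) ?_ x.1 hb'
        · intro u hu
          have := congrArg (fun φ : (↥U ≃ₗ[ℤ] ↥U) => ((φ ⟨u, hu⟩ : U) : W)) hx
          exact this
        · intro y
          refine ⟨2, ?_⟩
          have := card_nsmul_eq_zero' (G := W) (x := y)
          rw [hW] at this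
          exact this
      exact Subtype.ext h1
    have hcard : Nat.card (resA P U hU).range = Nat.card P :=
      Nat.card_congr (MonoidHom.ofInjective hfaith).toEquiv.symm
    have hUodd : ¬ 2 ∣ Nat.card U := by
      intro h
      have := h.trans hUdvd
      norm_num at this
    have h := lemmaQ2 _ U (resA P U hU).range (range_isPGroup P U hU hP) hUodd rfl
    rw [hcard] at h
    rcases h with h | h
    · omega
    · have h5 : Nat.card U ^ 2 ≤ 9 := by nlinarith
      omega

end Cfsg.Agent.Lib.PPartQ2
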