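import Mathlib
import Cfsg.Agent.Lib.PPartQ2

/-!
# A maximal normal nilpotent subgroup when all normal abelian subgroups are central
-/

set_option autoImplicit false
set_option linter.style.haveILetI false
set_option linter.unusedVariables false
set_option linter.unusedSectionVars false

namespace Cfsg.Agent.Lib.PPartF

open Cfsg.Agent.Lib.PPartQ Cfsg.Agent.Lib.PPartQ2
open scoped commutatorElement

universe u

variable {G : Type u} [Group G]

/-- The center of `F`, as a subgroup of `G`. -/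
def Zf (F : Subgroup G) : Subgroup G := F ⊓ Subgroup.centralizer (F : Set G)

theorem mem_Zf {F : Subgroup G} {z : G} : z ∈ Zf F ↔ z ∈ F ∧ ∀ f ∈ F, f * z = z * f := by
  simp only [Zf, Subgroup.mem_inf, Subgroup.mem_centralizer_iff, SetLike.mem_coe]

instance Zf_normal (F : Subgroup G) [hF : F.Normal] : (Zf F).Normal := by
  constructor
  intro z hz g
  rw [mem_Zf] at hz ⊢
  refine ⟨hF.conj_mem z hz.1 g, fun f hf => ?_⟩
  have h1 : g⁻¹ * f * g ∈ F := by
    have := hF.conj_mem f hf g⁻¹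
    simpa using this
  have h2 := hz.2 _ h1
  calc f * (g * z * g⁻¹) = g * ((g⁻¹ * f * g) * z) * g⁻¹ := by group
    _ = g * (z * (g⁻¹ * f * g)) * g⁻¹ := by rw [h2]
    _ = g * z * g⁻¹ * f := by group

/-- The second center of `F`, as a subgroup of `G`. -/
def Z2 (F : Subgroup G) : Subgroup G where
  carrier := {x | x ∈ F ∧ ∀ y ∈ F, x * y * x⁻¹ * y⁻¹ ∈ Zf F}
  mul_mem' := by
    rintro x x' ⟨hx, hx2⟩ ⟨hx', hx2'⟩
    refine ⟨F.mul_mem hx hx', fun y hy => ?_⟩
    have h1 := hx2' y hy
    have h2 := (mem_Zf.1 h1).2 x hx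
    have h3 : x * x' * y * (x * x')⁻¹ * y⁻¹ =
        x * (x' * y * x'⁻¹ * y⁻¹) * x⁻¹ * (x * y * x⁻¹ * y⁻¹) := by group
    rw [h3, h2]
    have h4 : x' * y * x'⁻¹ * y⁻¹ * x * x⁻¹ * (x * y * x⁻¹ * y⁻¹) =
        (x' * y * x'⁻¹ * y⁻¹) * (x * y * x⁻¹ * y⁻¹) := by group
    rw [h4]
    exact (Zf F).mul_mem h1 (hx2 y hy)
  one_mem' := ⟨F.one_mem, fun y hy => by simp [(Zf F).one_mem]⟩
  inv_mem' := by
    rintro x ⟨hx, hx2⟩
    refine ⟨F.inv_mem hx, fun y hy => ?_⟩
    have h1 := hx2 y hy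
    have h2 := (mem_Zf.1 h1).2 x⁻¹ (F.inv_mem hx)
    have h3 : x⁻¹ * y * x⁻¹⁻¹ * y⁻¹ = (x * y * x⁻¹ * y⁻¹)⁻¹ := by
      have h4 : x⁻¹ * (x * y * x⁻¹ * y⁻¹) * x = y * x⁻¹ * y⁻¹ * x := by group
      have h5 : x⁻¹ * (x * y * x⁻¹ * y⁻¹) * x = x * y * x⁻¹ * y⁻¹ := by
        rw [h2]; group
      have h6 : y * x⁻¹ * y⁻¹ * x = x * y * x⁻¹ * y⁻¹ := h4.symm.trans h5
      have h7 : (x⁻¹ * y * x⁻¹⁻¹ * y⁻¹) * (y * x⁻¹ * y⁻¹ * x) = 1 := by group
      rw [h6] at h7
      exact eq_inv_of_mul_eq_one_left h7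
    rw [h3]
    exact (Zf F).inv_mem h1

theorem mem_Z2 {F : Subgroup G} {x : G} :
    x ∈ Z2 F ↔ x ∈ F ∧ ∀ y ∈ F, x * y * x⁻¹ * y⁻¹ ∈ Zf F := Iff.rfl

instance Z2_normal (F : Subgroup G) [hF : F.Normal] : (Z2 F).Normal := by
  constructor
  rintro x ⟨hx, hx2⟩ g
  refine ⟨hF.conj_mem x hx g, fun y hy => ?_⟩
  have h1 : g⁻¹ * y * g ∈ F := by
    have := hF.conj_mem y hy g⁻¹
    simpa using this
  have h2 := (Zf_normal F).conj_mem _ (hx2 _ h1) g
  have h3 : g * x * g⁻¹ * y * (g * x * g⁻¹)⁻¹ * y⁻¹ =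
      g * (x * (g⁻¹ * y * g) * x⁻¹ * (g⁻¹ * y * g)⁻¹) * g⁻¹ := by group
  rw [h3]
  exact h2

/-- An identity for commutators with central factors. -/
theorem comm_of_central {a b x y : G} (hax : a * x = x * a) (hay : a * y = y * a)
    (hbx : b * x = x * b) (hby : b * y = y * b) (hab : a * b = b * a) :
    (a * x) * (b * y) * (a * x)⁻¹ * (b * y)⁻¹ = x * y * x⁻¹ * y⁻¹ := by
  have h1 : (a * x) * (b * y) = (a * b) * (x * y) := by
    calc (a * x) * (b * y) = a * (x * b) * y := by group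
      _ = a * (b * x) * y := by rw [hbx]
      _ = (a * b) * (x * y) := by group
  have h2 : (b * y) * (a * x) = (a * b) * (y * x) := by
    calc (b * y) * (a * x) = b * (y * a) * x := by group
      _ = b * (a * y) * x := by rw [hay]
      _ = (b * a) * (y * x) := by group
      _ = (a * b) * (y * x) := by rw [hab]
  have h3 : (a * x) * (b * y) * (a * x)⁻¹ * (b * y)⁻¹ =
      ((a * x) * (b * y)) * ((b * y) * (a * x))⁻¹ := by group
  rw [h3, h1, h2]
  have h4 : (a * b) * (x * y) = (x * y) * (a * b) := by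
    calc (a * b) * (x * y) = a * (b * x) * y * 1 := by group
      _ = a * (x * b) * y := by rw [hbx]; group
      _ = (a * x) * (b * y) := by group
      _ = (x * a) * (y * b) := by rw [hax, hby]
      _ = x * (a * y) * b := by group
      _ = x * (y * a) * b := by rw [hay]
      _ = (x * y) * (a * b) := by group
  have h5 : (a * b) * (y * x) = (y * x) * (a * b) := by
    calc (a * b) * (y * x) = a * (b * y) * x * 1 := by group
      _ = a * (y * b) * x := by rw [hby]; group
      _ = (a * y) * (b * x) := by group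
      _ = (y * a) * (x * b) := by rw [hay, hbx]
      _ = y * (a * x) * b := by group
      _ = y * (x * a) * b := by rw [hax]
      _ = (y * x) * (a * b) := by group
  rw [h4, h5]
  group

/-- Class at most two when all commutators are central. -/
theorem nilp_of_comm_central {X : Type*} [Group X]
    (h : ∀ x y z : X, (x * y * x⁻¹ * y⁻¹) * z = z * (x * y * x⁻¹ * y⁻¹)) : Group.IsNilpotent X := by
  refine ⟨2, ?_⟩
  rw [eq_top_iff]
  intro x _
  rw [Subgroup.mem_upperCentralSeries_succ_iff]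
  intro y
  rw [Subgroup.mem_upperCentralSeries_succ_iff]
  intro z
  rw [Subgroup.upperCentralSeries_zero, Subgroup.mem_bot]
  rw [commutatorElement_eq_one_iff_mul_comm]
  exact h x y z

/-- The derived chain of a subgroup. -/
def chainT (C : Subgroup G) : ℕ → Subgroup G
  | 0 => C
  | n + 1 => ⁅chainT C n, chainT C n⁆

theorem chainT_normal (C : Subgroup G) [hC : C.Normal] (n : ℕ) : (chainT C n).Normal := by
  induction n with
  | zero => exact hC
  | succ n ih =>
    show (⁅chainT C n, chainT C n⁆).Normal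
    haveI := ih
    infer_instance

section Main

variable [Finite G]

/-- The main structure statement. -/
theorem exists_fitting [hsol : Group.IsSolvable G]
    (habc : ∀ A : Subgroup G, A.Normal → (∀ a ∈ A, ∀ b ∈ A, a * b = b * a) →
      ∀ a ∈ A, ∀ g, g * a = a * g) :
    ∃ F : Subgroup G, F.Normal ∧ Group.IsNilpotent F ∧ (∀ x, (∀ f ∈ F, x * f = f * x) → x ∈ F) ∧
      ∀ x ∈ F, ∀ y ∈ F, x * y * x⁻¹ * y⁻¹ ∈ Zf F := by
  classical
  let S : Set (Subgroup G) := {F | F.Normal ∧ Group.IsNilpotent F}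
  have hne : S.Nonempty := ⟨⊥, inferInstance, by
    haveI : Subsingleton (⊥ : Subgroup G) := by
      constructor
      rintro ⟨a, ha⟩ ⟨b, hb⟩
      rw [Subgroup.mem_bot] at ha hb
      exact Subtype.ext (ha.trans hb.symm)
    exact inferInstance⟩
  obtain ⟨F, hF, hmax⟩ := (wellFounded_gt (α := Subgroup G)).has_min S hne
  haveI hFn : F.Normal := hF.1
  haveI hFnil : Group.IsNilpotent F := hF.2
  refine ⟨F, hF.1, hF.2, ?_, ?_⟩
  · -- self-centralizing
    let C : Subgroup G := Subgroup.centralizer (F : Set G)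
    haveI hCn : C.Normal := Subgroup.normal_centralizer
    have hCmem : ∀ c ∈ C, ∀ f ∈ F, f * c = c * f := fun c hc f hf =>
      Subgroup.mem_centralizer_iff.1 hc f hf
    let T : ℕ → Subgroup G := chainT C
    have hTsucc : ∀ n, T (n + 1) = ⁅T n, T n⁆ := fun n => rfl
    have hTn : ∀ n, (T n).Normal := fun n => chainT_normal C n
    have hTC : ∀ n, T n ≤ C := by
      intro n
      induction n with
      | zero => exact le_rfl
      | succ n ih =>
        rw [hTsucc]
        haveI := hTn n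
        exact (Subgroup.commutator_le_left (T n) (T n)).trans ih
    have hTder : ∀ n, T n ≤ derivedSeries G n := by
      intro n
      induction n with
      | zero => exact le_top
      | succ n ih =>
        rw [hTsucc, derivedSeries_succ]
        exact Subgroup.commutator_mono ih ih
    obtain ⟨l, hl⟩ := hsol.solvable
    have hex : ∃ l, T l ≤ F := ⟨l, (hTder l).trans (by rw [hl]; exact bot_le)⟩
    intro x hx
    by_contra hxF
    have hxC : x ∈ C := Subgroup.mem_centralizer_iff.2 (fun f hf => (hx f hf).symm)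
    let m := Nat.find hex
    have hm : T m ≤ F := Nat.find_spec hex
    have hm0 : m ≠ 0 := by
      intro h0
      have : T 0 ≤ F := h0 ▸ hm
      exact hxF (this hxC)
    obtain ⟨i, hi⟩ : ∃ i, m = i + 1 := ⟨m - 1, by omega⟩
    have hTi : ¬ T i ≤ F := Nat.find_min hex (m := i) (by omega)
    have hTi1 : ⁅T i, T i⁆ ≤ F := by
      rw [← hTsucc, ← hi]
      exact hm
    let D := T i
    haveI hDn : D.Normal := hTn i
    have hDcomm : ∀ d ∈ D, ∀ f ∈ F, d * f = f * d := fun d hd f hf =>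
      (hCmem d (hTC i hd) f hf).symm
    have hDnil : Group.IsNilpotent D := by
      apply nilp_of_comm_central
      rintro ⟨x, hx⟩ ⟨y, hy⟩ ⟨z, hz⟩
      apply Subtype.ext
      have h1 : x * y * x⁻¹ * y⁻¹ ∈ F := hTi1 (Subgroup.commutator_mem_commutator hx hy)
      exact (hDcomm z hz _ h1).symm
    -- the product
    let μ : D × F →* G :=
      { toFun := fun z => (z.1 : G) * z.2
        map_one' := by simp
        map_mul' := by
          rintro ⟨⟨a, ha⟩, ⟨b, hb⟩⟩ ⟨⟨c, hc⟩, ⟨d, hd⟩⟩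
          simp only [Prod.mk_mul_mk, MulMemClass.mk_mul_mk]
          calc a * c * (b * d) = a * (c * b) * d := by group
            _ = a * (b * c) * d := by rw [hDcomm c hc b hb]
            _ = a * b * (c * d) := by group }
    have hrange : (D ⊔ F) = μ.range := by
      apply le_antisymm
      · rw [sup_le_iff]
        constructor
        · intro d hd
          exact ⟨(⟨d, hd⟩, 1), by simp [μ]⟩
        · intro f hf
          exact ⟨(1, ⟨f, hf⟩), by simp [μ]⟩
      · rintro _ ⟨⟨a, b⟩, rfl⟩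
        exact Subgroup.mul_mem_sup a.2 b.2
    have hTnil : Group.IsNilpotent (D ⊔ F : Subgroup G) := by
      rw [hrange]
      exact nilpotent_of_surjective μ.rangeRestrict μ.rangeRestrict_surjective
    have hTnorm : (D ⊔ F).Normal := Subgroup.sup_normal _ _
    by_cases hsup : F = D ⊔ F
    · apply hTi
      rw [hsup]
      exact le_sup_left
    · exact hmax _ ⟨hTnorm, hTnil⟩ (lt_of_le_of_ne le_sup_right hsup)
  · -- class two
    have hZ2n := Z2_normal F
    have hZfcomm : ∀ a ∈ Zf F, ∀ f ∈ F, f * a = a * f := fun a ha f hf => (mem_Zf.1 ha).2 f hf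
    -- commutators commute with the second center
    have hcomm2 : ∀ c ∈ Z2 F, ∀ x ∈ F, ∀ y ∈ F,
        c * (x * y * x⁻¹ * y⁻¹) = (x * y * x⁻¹ * y⁻¹) * c := by
      intro c hc x hx y hy
      have ha := hc.2 x hx
      have hb := hc.2 y hy
      set a := c * x * c⁻¹ * x⁻¹ with ha'
      set b := c * y * c⁻¹ * y⁻¹ with hb'
      have h1 : c * x * c⁻¹ = a * x := by rw [ha']; group
      have h2 : c * y * c⁻¹ = b * y := by rw [hb']; group
      have h3 : c * (x * y * x⁻¹ * y⁻¹) * c⁻¹ =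
          (c * x * c⁻¹) * (c * y * c⁻¹) * (c * x * c⁻¹)⁻¹ * (c * y * c⁻¹)⁻¹ := by group
      have h4 := comm_of_central (hZfcomm a ha x hx).symm (hZfcomm a ha y hy).symm
        (hZfcomm b hb x hx).symm (hZfcomm b hb y hy).symm
        (hZfcomm b hb a (mem_Zf.1 ha).1)
      rw [h1, h2, h4] at h3
      exact mul_inv_eq_iff_eq_mul.1 h3
    -- the centralizer of the second center in `F` is the center
    let D : Subgroup G := F ⊓ Subgroup.centralizer (Z2 F : Set G)
    have hDn : D.Normal := by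
      haveI := Z2_normal F
      haveI : (Subgroup.centralizer (Z2 F : Set G)).Normal := Subgroup.normal_centralizer
      exact Subgroup.normal_inf_normal _ _
    have hDle : D ≤ Zf F := by
      intro x₀ hx₀
      by_contra hx₀Z
      let Z' : Set F := {y | (y : G) ∉ D ∨ (y : G) ∈ Zf F}
      obtain ⟨a, haZ, hacomm⟩ := exists_central_mod' Z'
        (Or.inr (Zf F).one_mem) ⟨⟨x₀, hx₀.1⟩, fun h => by
          rcases h with h | h
          · exact h hx₀
          · exact hx₀Z h⟩
      have haD : (a : G) ∈ D := by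
        by_contra h
        exact haZ (Or.inl h)
      have haZf : (a : G) ∉ Zf F := fun h => haZ (Or.inr h)
      have hcommZ : ∀ g ∈ F, (a : G) * g * (a : G)⁻¹ * g⁻¹ ∈ Zf F := by
        intro g hg
        have h1 := hacomm ⟨g, hg⟩
        have h2 : (g * a * g⁻¹ * (a : G)⁻¹) ∈ D :=
          D.mul_mem (hDn.conj_mem _ haD g) (D.inv_mem haD)
        have h3 : (g * a * g⁻¹ * (a : G)⁻¹) ∈ Zf F := by
          rcases h1 with h1 | h1
          · exact absurd h2 h1
          · exact h1
        have h4 : (a : G) * g * (a : G)⁻¹ * g⁻¹ = (g * a * g⁻¹ * (a : G)⁻¹)⁻¹ := by group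
        rw [h4]
        exact (Zf F).inv_mem h3
      have haZ2 : (a : G) ∈ Z2 F := ⟨a.2, hcommZ⟩
      -- the abelian normal subgroup
      let A : Subgroup G := Z2 F ⊓ D
      have hAn : A.Normal := Subgroup.normal_inf_normal _ _
      have hAcomm : ∀ x ∈ A, ∀ y ∈ A, x * y = y * x := fun x hx y hy =>
        (Subgroup.mem_centralizer_iff.1 hy.2.2 x hx.1)
      have hcentral := habc A hAn hAcomm a ⟨haZ2, haD⟩
      exact haZf (mem_Zf.2 ⟨a.2, fun f _ => hcentral f⟩)
    intro x hx y hy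
    apply hDle
    refine ⟨F.mul_mem (F.mul_mem (F.mul_mem hx hy) (F.inv_mem hx)) (F.inv_mem hy),
      Subgroup.mem_centralizer_iff.2 fun c hc => ?_⟩
    exact hcomm2 c hc x hx y hy

/-- A `p`-element acting trivially on `F / Z(F)` and on `Z(F)`, where `F` is a `p'`-group,
centralizes `F`. -/
theorem comm_of_trivial {p : ℕ} [hp : Fact p.Prime] {F : Subgroup G} (hcop : ¬ p ∣ Nat.card F)
    (hZc : ∀ z ∈ Zf F, ∀ g, g * z = z * g) {x : G} {b : ℕ} (hb : x ^ p ^ b = 1)
    (hx : ∀ f ∈ F, x * f * x⁻¹ * f⁻¹ ∈ Zf F) : ∀ f ∈ F, x * f = f * x := by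
  intro f hf
  set z := x * f * x⁻¹ * f⁻¹ with hz
  have hzZ := hx f hf
  have hpow : ∀ m : ℕ, x ^ m * f * (x ^ m)⁻¹ = z ^ m * f := by
    intro m
    induction m with
    | zero => simp
    | succ m ih =>
      have h1 : x * f * x⁻¹ = z * f := by rw [hz]; group
      have h2 : x ^ (m + 1) * f * (x ^ (m + 1))⁻¹ = x * (x ^ m * f * (x ^ m)⁻¹) * x⁻¹ := by
        rw [pow_succ']
        group
      rw [h2, ih]
      have h3 : x * (z ^ m * f) * x⁻¹ = x * z ^ m * x⁻¹ * (x * f * x⁻¹) := by group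
      have h4 : x * z ^ m = z ^ m * x := (Commute.pow_right (hZc z hzZ x) m)
      rw [h3, h4, h1, pow_succ]
      group
  have h5 := hpow (p ^ b)
  rw [hb] at h5
  have h6 : z ^ p ^ b = 1 := by
    simpa using h5.symm
  have hzF : (⟨z, (mem_Zf.1 hzZ).1⟩ : F) ^ p ^ b = 1 := Subtype.ext (by simpa using h6)
  have h7 : orderOf (⟨z, (mem_Zf.1 hzZ).1⟩ : F) ∣ p ^ b := orderOf_dvd_of_pow_eq_one hzF
  have h8 : orderOf (⟨z, (mem_Zf.1 hzZ).1⟩ : F) ∣ Nat.card F := orderOf_dvd_natCard _
  have h9 : orderOf (⟨z, (mem_Zf.1 hzZ).1⟩ : F) = 1 := by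
    obtain ⟨k, _, hk⟩ := (Nat.dvd_prime_pow hp.out).1 h7
    rcases k with _ | k
    · simpa using hk
    · exfalso
      apply hcop
      rw [hk] at h8
      exact (dvd_pow_self p (by omega)).trans h8
  have h10 : (⟨z, (mem_Zf.1 hzZ).1⟩ : F) = 1 := orderOf_eq_one_iff.1 h9
  have h11 : z = 1 := congrArg Subtype.val h10
  rw [hz] at h11
  have h12 : x * f * x⁻¹ = f := by
    have := mul_inv_eq_one.1 h11
    exact this
  exact mul_inv_eq_iff_eq_mul.1 h12

end Main

section Bound

/-- The order bound for a `p`-group of automorphisms of a commutative group. -/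
theorem bound_mulaut {p : ℕ} [hp : Fact p.Prime] {Q : Type} [Group Q] [Finite Q]
    (hcomm : ∀ a b : Q, a * b = b * a) {Γ : Type} [Group Γ] [Finite Γ] (φ : Γ →* MulAut Q)
    (hinj : Function.Injective φ) (hΓ : IsPGroup p Γ) (hcop : ¬ p ∣ Nat.card Q) :
    (Nat.card Γ = 1 ∨ Nat.card Γ * p ≤ Nat.card Q ^ 2) ∧
      (Nat.card Q = 16 → p = 3 → Nat.card Γ ≤ 9) ∧
      (Nat.card Q = 9 → p = 2 → Nat.card Γ ≤ 16) := by
  classical
  letI : CommGroup Q := { ‹Group Q› with mul_comm := hcomm }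
  let ψ : Γ →* (Additive Q ≃ₗ[ℤ] Additive Q) :=
    { toFun := fun x =>
        { toFun := fun w => Additive.ofMul (φ x (Additive.toMul w))
          invFun := fun w => Additive.ofMul (φ x⁻¹ (Additive.toMul w))
          map_add' := fun a b => by
            show Additive.ofMul (φ x (Additive.toMul a * Additive.toMul b)) = _
            rw [map_mul]
            rfl
          map_smul' := fun c a => by
            show Additive.ofMul (φ x ((Additive.toMul a) ^ c)) = _
            rw [map_zpow]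
            rfl
          left_inv := fun w => by
            show Additive.ofMul (φ x⁻¹ (φ x (Additive.toMul w))) = w
            have h1 : φ x⁻¹ (φ x (Additive.toMul w)) = (φ x⁻¹ * φ x) (Additive.toMul w) := rfl
            rw [h1, ← map_mul, inv_mul_cancel, map_one]
            rfl
          right_inv := fun w => by
            show Additive.ofMul (φ x (φ x⁻¹ (Additive.toMul w))) = w
            have h1 : φ x (φ x⁻¹ (Additive.toMul w)) = (φ x * φ x⁻¹) (Additive.toMul w) := rfl
            rw [h1, ← map_mul, mul_inv_cancel, map_one]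
            rfl }
      map_one' := by
        ext w
        show Additive.ofMul (φ 1 (Additive.toMul w)) = w
        rw [map_one]
        rfl
      map_mul' := fun x y => by
        ext w
        show Additive.ofMul (φ (x * y) (Additive.toMul w)) = _
        rw [map_mul]
        rfl }
  have hψ : Function.Injective ψ := by
    intro x y hxy
    apply hinj
    ext a
    have h1 := congrArg (fun g : Additive Q ≃ₗ[ℤ] Additive Q => g (Additive.ofMul a)) hxy
    exact h1
  have hcard : Nat.card ψ.range = Nat.card Γ :=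
    Nat.card_congr (MonoidHom.ofInjective hψ).toEquiv.symm
  have hrange : IsPGroup p ψ.range := by
    rintro ⟨_, x, rfl⟩
    obtain ⟨k, hk⟩ := hΓ x
    refine ⟨k, Subtype.ext ?_⟩
    show (ψ x) ^ p ^ k = 1
    rw [← map_pow, hk, map_one]
  have hQW : Nat.card (Additive Q) = Nat.card Q := rfl
  refine ⟨?_, ?_, ?_⟩
  · have h := lemmaQ2 _ (Additive Q) ψ.range hrange (by rwa [hQW]) rfl
    rwa [hcard, hQW] at h
  · intro h16 hp3
    subst hp3
    rw [← hcard]
    exact special16 (Additive Q) ψ.range hrange (by rwa [hQW])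
  · intro h9 hp2
    subst hp2
    rw [← hcard]
    exact special9 (Additive Q) ψ.range hrange (by rwa [hQW])

variable {G₀ : Type} [Group G₀] [Finite G₀]

/-- The action of a `p`-subgroup on `F / Z(F)` gives the order bound. -/
theorem bound_on_quot {p : ℕ} [hp : Fact p.Prime] (F : Subgroup G₀) [hFn : F.Normal]
    (hcls : ∀ x ∈ F, ∀ y ∈ F, x * y * x⁻¹ * y⁻¹ ∈ Zf F) (hZc : ∀ z ∈ Zf F, ∀ g, g * z = z * g)
    (hself : ∀ x, (∀ f ∈ F, x * f = f * x) → x ∈ F) (hcop : ¬ p ∣ Nat.card F)
    (P : Subgroup G₀) (hP : IsPGroup p P) :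
    (Nat.card P = 1 ∨ Nat.card P * p ≤ Nat.card (↥F ⧸ Subgroup.center ↥F) ^ 2) ∧
      (Nat.card (↥F ⧸ Subgroup.center ↥F) = 16 → p = 3 → Nat.card P ≤ 9) ∧
      (Nat.card (↥F ⧸ Subgroup.center ↥F) = 9 → p = 2 → Nat.card P ≤ 16) := by
  classical
  let Q := ↥F ⧸ Subgroup.center ↥F
  have hmemc : ∀ z : F, (z : G₀) ∈ Zf F → z ∈ Subgroup.center ↥F := by
    intro z hz
    rw [Subgroup.mem_center_iff]
    intro g
    exact Subtype.ext ((mem_Zf.1 hz).2 g g.2)
  have hmemc' : ∀ z : F, z ∈ Subgroup.center ↥F → (z : G₀) ∈ Zf F := by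
    intro z hz
    refine mem_Zf.2 ⟨z.2, fun f hf => ?_⟩
    have := Subgroup.mem_center_iff.1 hz ⟨f, hf⟩
    exact congrArg Subtype.val this
  have hcomm : ∀ a b : Q, a * b = b * a := by
    intro a b
    obtain ⟨x, rfl⟩ := QuotientGroup.mk_surjective a
    obtain ⟨y, rfl⟩ := QuotientGroup.mk_surjective b
    show ((x * y : F) : Q) = ((y * x : F) : Q)
    rw [QuotientGroup.eq]
    apply hmemc
    have h1 := hcls _ (F.inv_mem y.2) _ (F.inv_mem x.2)
    have h2 : (((x * y : F)⁻¹ * (y * x) : F) : G₀) =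
        (y : G₀)⁻¹ * (x : G₀)⁻¹ * ((y : G₀)⁻¹)⁻¹ * ((x : G₀)⁻¹)⁻¹ := by
      simp only [Subgroup.coe_mul, Subgroup.coe_inv]
      group
    rw [h2]
    exact h1
  let cn : G₀ →* MulAut F := MulAut.conjNormal
  have hchar : ∀ e : MulAut F, (Subgroup.center ↥F).map e.toMonoidHom = Subgroup.center ↥F :=
    Subgroup.characteristic_iff_map_eq.1 inferInstance
  let cong : G₀ → MulAut Q := fun g => QuotientGroup.congr _ _ (cn g) (hchar (cn g))
  have hcong : ∀ (g : G₀) (f : F), cong g (f : Q) = ((cn g f : F) : Q) := fun g f => rfl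
  let φ : ↥P →* MulAut Q :=
    { toFun := fun x => cong x.1
      map_one' := by
        ext a
        obtain ⟨f, rfl⟩ := QuotientGroup.mk_surjective a
        show cong 1 (f : Q) = (f : Q)
        rw [hcong, map_one]
        rfl
      map_mul' := fun x y => by
        ext a
        obtain ⟨f, rfl⟩ := QuotientGroup.mk_surjective a
        show cong (x.1 * y.1) (f : Q) = cong x.1 (cong y.1 (f : Q))
        rw [hcong, hcong, hcong, map_mul]
        rfl }
  have hφ : Function.Injective φ := by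
    rw [injective_iff_map_eq_one]
    intro x hx
    have htriv : ∀ f ∈ F, x.1 * f * x.1⁻¹ * f⁻¹ ∈ Zf F := by
      intro f hf
      have h1 := congrArg (fun e : MulAut Q => e ((⟨f, hf⟩ : F) : Q)) hx
      have h2 : ((cn x.1 ⟨f, hf⟩ : F) : Q) = ((⟨f, hf⟩ : F) : Q) := h1
      rw [QuotientGroup.eq] at h2
      have h3 := hmemc' _ h2
      have h4 : (((cn x.1 ⟨f, hf⟩ : F)⁻¹ * ⟨f, hf⟩ : F) : G₀) = (x.1 * f * x.1⁻¹)⁻¹ * f := by
        simp [cn, MulAut.conjNormal_apply]
      rw [h4] at h3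
      have h5 := (Zf F).inv_mem h3
      have h6 := (mem_Zf.1 h5).2 f hf
      have h7 : x.1 * f * x.1⁻¹ * f⁻¹ = f * ((x.1 * f * x.1⁻¹)⁻¹ * f)⁻¹ * f⁻¹ := by group
      rw [h7, h6]
      have h8 : ((x.1 * f * x.1⁻¹)⁻¹ * f)⁻¹ * f * f⁻¹ = ((x.1 * f * x.1⁻¹)⁻¹ * f)⁻¹ := by group
      rw [h8]
      exact h5
    obtain ⟨b, hb⟩ := hP x
    have hb' : x.1 ^ p ^ b = 1 := by
      have := congrArg Subtype.val hb
      simpa using this
    have hxF : x.1 ∈ F := hself _ (comm_of_trivial hcop hZc hb' htriv)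
    -- `x` is a `p`-element in a `p'`-group
    have hzF : (⟨x.1, hxF⟩ : F) ^ p ^ b = 1 := Subtype.ext (by simpa using hb')
    have h7 : orderOf (⟨x.1, hxF⟩ : F) ∣ p ^ b := orderOf_dvd_of_pow_eq_one hzF
    have h8 : orderOf (⟨x.1, hxF⟩ : F) ∣ Nat.card F := orderOf_dvd_natCard _
    have h9 : orderOf (⟨x.1, hxF⟩ : F) = 1 := by
      obtain ⟨k, _, hk⟩ := (Nat.dvd_prime_pow hp.out).1 h7
      rcases k with _ | k
      · simpa using hk
      · exfalso
        apply hcop
        rw [hk] at h8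
        exact (dvd_pow_self p (by omega)).trans h8
    have h10 : (⟨x.1, hxF⟩ : F) = 1 := orderOf_eq_one_iff.1 h9
    have h11 : x.1 = 1 := congrArg Subtype.val h10
    exact Subtype.ext h11
  have hQdvd : Nat.card Q ∣ Nat.card F := by
    have := Subgroup.card_eq_card_quotient_mul_card_subgroup (Subgroup.center ↥F)
    exact Dvd.intro _ this.symm
  exact bound_mulaut hcomm φ hφ hP (fun h => hcop (h.trans hQdvd))

end Bound

end Cfsg.Agent.Lib.PPartF
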