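import Mathlib

/-!
# Numerical inequality for the final case of the `p`-part bound
-/

set_option autoImplicit false

namespace Cfsg.Agent.Lib.PPartNum

theorem pow4_le_five_pow (n : ℕ) : n ^ 4 ≤ 5 ^ n := by
  induction n using Nat.strong_induction_on with
  | _ n ih =>
    rcases (by omega : n ≤ 3 ∨ 4 ≤ n) with h | h
    · interval_cases n <;> norm_num
    · obtain ⟨m, rfl⟩ : ∃ m, n = m + 1 := ⟨n - 1, by omega⟩
      have h1 := ih m (by omega)
      have hm : 3 ≤ m := by omega
      rw [pow_succ 5]
      have h2 : (m + 1) ^ 4 ≤ m ^ 4 * 5 := by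
        nlinarith [pow_pos (show 0 < m by omega) 2, pow_pos (show 0 < m by omega) 3,
          mul_le_mul hm hm (by norm_num) (by omega), pow_le_pow_left₀ (by norm_num) hm 2,
          pow_le_pow_left₀ (by norm_num) hm 3]
      omega

theorem pow4_le_three_pow (n : ℕ) (hn : 8 ≤ n) : n ^ 4 ≤ 3 ^ n := by
  induction n, hn using Nat.le_induction with
  | base => norm_num
  | succ m hm ih =>
    rw [pow_succ 3]
    have h2 : (m + 1) ^ 4 ≤ m ^ 4 * 3 := by
      nlinarith [pow_pos (show 0 < m by omega) 2, pow_pos (show 0 < m by omega) 3,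
        pow_le_pow_left₀ (by norm_num) hm 2, pow_le_pow_left₀ (by norm_num) hm 3]
    omega

theorem pow4_le_four_pow (n : ℕ) (hn : 5 ≤ n) : n ^ 4 ≤ 4 ^ n := by
  induction n, hn using Nat.le_induction with
  | base => norm_num
  | succ m hm ih =>
    rw [pow_succ 4]
    have h2 : (m + 1) ^ 4 ≤ m ^ 4 * 4 := by
      nlinarith [pow_pos (show 0 < m by omega) 2, pow_pos (show 0 < m by omega) 3,
        pow_le_pow_left₀ (by norm_num) hm 2, pow_le_pow_left₀ (by norm_num) hm 3]
    omega

/-- The final numerical inequality. -/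
theorem num_final {p a f n w : ℕ} (hp : p.Prime) (hf : 1 ≤ f) (hn : 1 ≤ n) (hw : w ≤ n ^ 2)
    (hpw : ¬ p ∣ w) (h1 : p ^ a = 1 ∨ p ^ a * p ≤ w ^ 2) (h2 : w = 16 → p = 3 → p ^ a ≤ 9)
    (h3 : w = 9 → p = 2 → p ^ a ≤ 16) (h4 : p ^ f = 2 → w = 1) :
    p ^ a * p ^ f ≤ (p ^ f) ^ n := by
  have hp1 := hp.one_lt
  have hgoal : a + f ≤ f * n → p ^ a * p ^ f ≤ (p ^ f) ^ n := by
    intro h
    rw [← pow_add, ← pow_mul]
    exact Nat.pow_le_pow_right hp.pos h
  apply hgoal
  obtain ⟨m, rfl⟩ : ∃ m, n = m + 1 := ⟨n - 1, by omega⟩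
  have hfm : f * (m + 1) = f * m + f := by ring
  rw [hfm]
  suffices h : a ≤ f * m by omega
  rcases h1 with h1 | h1
  · have ha0 : a = 0 := by
      by_contra h0
      have := Nat.pow_le_pow_right hp.pos (Nat.one_le_iff_ne_zero.2 h0)
      rw [h1, pow_one] at this
      omega
    omega
  have hw4 : w ^ 2 ≤ (m + 1) ^ 4 := by
    calc w ^ 2 ≤ ((m + 1) ^ 2) ^ 2 := Nat.pow_le_pow_left hw 2
      _ = (m + 1) ^ 4 := by ring
  rw [← pow_succ] at h1
  -- it suffices to bound `a` by `m` in the odd case
  have hsuff : a ≤ m → a ≤ f * m := fun h => h.trans (Nat.le_mul_of_pos_left _ (by omega))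
  have hpow : ∀ b, m + 1 ≤ b → p ^ b ≤ p ^ (a + 1) → b ≤ a + 1 := fun b _ h =>
    (Nat.pow_le_pow_iff_right hp1).1 h
  rcases (by
    have := hp.two_le
    by_cases h2' : p = 2
    · exact Or.inl h2'
    · by_cases h3' : p = 3
      · exact Or.inr (Or.inl h3')
      · refine Or.inr (Or.inr ?_)
        by_contra hlt
        have hp4 : p = 4 := by omega
        rw [hp4] at hp
        norm_num at hp : p = 2 ∨ p = 3 ∨ 5 ≤ p) with hpe | hpe | hpe
  · -- `p = 2`
    subst hpe
    by_cases hf1 : f = 1
    · subst hf1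
      have hw1 := h4 (by norm_num)
      subst hw1
      have : 2 ^ (a + 1) ≥ 2 := by
        calc 2 ^ (a + 1) ≥ 2 ^ 1 := Nat.pow_le_pow_right (by norm_num) (by omega)
          _ = 2 := by norm_num
      omega
    have hf2 : 2 ≤ f := by omega
    have hle : a ≤ 2 * m → a ≤ f * m := fun h => h.trans (Nat.mul_le_mul_right _ hf2)
    apply hle
    by_contra hcon
    have ha : 2 * m + 1 ≤ a := by omega
    have h5 : 4 ^ (m + 1) ≤ w ^ 2 := by
      calc 4 ^ (m + 1) = 2 ^ (2 * m + 2) := by
            rw [show (4 : ℕ) = 2 ^ 2 by norm_num, ← pow_mul]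
            ring_nf
        _ ≤ 2 ^ (a + 1) := Nat.pow_le_pow_right (by norm_num) (by omega)
        _ ≤ w ^ 2 := h1
    by_cases hm5 : 4 ≤ m
    · have h6 := pow4_le_four_pow (m + 1) (by omega)
      -- strict inequality for large `m`
      have h7 : (m + 1) ^ 4 < 4 ^ (m + 1) := by
        have hstrict : ∀ k : ℕ, 5 ≤ k → k ^ 4 < 4 ^ k := by
          intro k hk
          induction k, hk using Nat.le_induction with
          | base => norm_num
          | succ k hk ih =>
            rw [pow_succ 4]
            have h2 : (k + 1) ^ 4 ≤ k ^ 4 * 4 := by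
              nlinarith [pow_pos (show 0 < k by omega) 2, pow_pos (show 0 < k by omega) 3,
                pow_le_pow_left₀ (by norm_num) hk 2, pow_le_pow_left₀ (by norm_num) hk 3]
            omega
        exact hstrict _ (by omega)
      omega
    · have hmlt : m ≤ 3 := by omega
      interval_cases m
      · -- `n = 1`
        have : w ≤ 1 := by simpa using hw
        have h6 : 4 ≤ w ^ 2 := by simpa using h5
        nlinarith
      · -- `n = 2`
        have hw' : w ≤ 4 := by simpa using hw
        have h6 : 16 ≤ w ^ 2 := by simpa using h5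
        have : w = 4 := by nlinarith
        subst this
        exact hpw (by norm_num)
      · -- `n = 3`
        have hw' : w ≤ 9 := by simpa using hw
        have h6 : 64 ≤ w ^ 2 := by simpa using h5
        have hge : 8 ≤ w := by nlinarith
        have : w = 8 ∨ w = 9 := by omega
        rcases this with rfl | rfl
        · exact hpw (by norm_num)
        · have h7 := h3 rfl rfl
          have h8 : 2 ^ 5 ≤ 2 ^ a := Nat.pow_le_pow_right (by norm_num) (by omega)
          omega
      · -- `n = 4`
        have hw' : w ≤ 16 := by simpa using hw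
        have h6 : 256 ≤ w ^ 2 := by simpa using h5
        have : w = 16 := by nlinarith
        subst this
        exact hpw (by norm_num)
  · -- `p = 3`
    subst hpe
    apply hsuff
    by_contra hcon
    have ha : m + 1 ≤ a := by omega
    have h5 : 3 ^ (m + 2) ≤ w ^ 2 := (Nat.pow_le_pow_right (by norm_num) (by omega)).trans h1
    by_cases hm7 : 7 ≤ m
    · have h6 := pow4_le_three_pow (m + 1) (by omega)
      have h7 : 3 ^ (m + 2) = 3 ^ (m + 1) * 3 := pow_succ _ _
      have h8 : 0 < 3 ^ (m + 1) := by positivity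
      omega
    · have hmlt : m ≤ 6 := by omega
      interval_cases m
      · have : w ≤ 1 := by simpa using hw
        have h6 : 9 ≤ w ^ 2 := by simpa using h5
        nlinarith
      · have hw' : w ≤ 4 := by simpa using hw
        have h6 : 27 ≤ w ^ 2 := by simpa using h5
        nlinarith
      · have hw' : w ≤ 9 := by simpa using hw
        have h6 : 81 ≤ w ^ 2 := by simpa using h5
        have : w = 9 := by nlinarith
        subst this
        exact hpw (by norm_num)
      · have hw' : w ≤ 16 := by simpa using hw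
        have h6 : 243 ≤ w ^ 2 := by simpa using h5
        have : w = 16 := by nlinarith
        subst this
        have h7 := h2 rfl rfl
        have h8 : 3 ^ 4 ≤ 3 ^ a := Nat.pow_le_pow_right (by norm_num) (by omega)
        omega
      · have hw' : w ≤ 25 := by simpa using hw
        have h6 : 729 ≤ w ^ 2 := by simpa using h5
        nlinarith
      · have hw' : w ≤ 36 := by simpa using hw
        have h6 : 2187 ≤ w ^ 2 := by simpa using h5
        nlinarith
      · have hw' : w ≤ 49 := by simpa using hw
        have h6 : 6561 ≤ w ^ 2 := by simpa using h5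
        nlinarith
  · -- `p ≥ 5`
    apply hsuff
    by_contra hcon
    have ha : m + 1 ≤ a := by omega
    have h5 : p ^ (m + 2) ≤ w ^ 2 := (Nat.pow_le_pow_right hp.pos (by omega)).trans h1
    have h6 := pow4_le_five_pow (m + 1)
    have h7 : 5 ^ (m + 1) ≤ p ^ (m + 1) := Nat.pow_le_pow_left hpe _
    have h8 : p ^ (m + 2) = p ^ (m + 1) * p := pow_succ _ _
    have h9 : 0 < p ^ (m + 1) := pow_pos hp.pos _
    nlinarith

end Cfsg.Agent.Lib.PPartNum
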