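import Mathlib
import Cfsg.Agent.Lib.PPartF
import Cfsg.Agent.Lib.PPartNum

/-!
# The `p`-part of a solvable irreducible linear group: the final case
-/

set_option autoImplicit false
set_option linter.style.haveILetI false
set_option linter.unusedVariables false
set_option linter.unusedSectionVars false

namespace Cfsg.Agent.Lib.PPartCore

open Cfsg.Agent.Lib.PPartBasic Cfsg.Agent.Lib.PPartBlocks Cfsg.Agent.Lib.PPartQ
open Cfsg.Agent.Lib.PPartQ2 Cfsg.Agent.Lib.PPartF Cfsg.Agent.Lib.PPartNum

/-- Eigenvectors for distinct weights are independent. -/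
theorem indep_of_eigen {K ι E Θ : Type*} [Field K] [AddCommGroup E] [Module K E]
    (T : ι → E) (τ : Θ → E →ₗ[K] E) (lam : Θ → ι → K) (hτ : ∀ t i, τ t (T i) = lam t i • T i)
    (hT : ∀ i, T i ≠ 0) (hsep : ∀ i j, i ≠ j → ∃ t, lam t i ≠ lam t j) :
    LinearIndependent K T := by
  classical
  rw [linearIndependent_iff']
  intro s
  induction s using Finset.induction_on with
  | empty => simp
  | insert a s ha ih =>
    intro g hg i hi
    rw [Finset.sum_insert ha] at hg
    have hs : ∀ j ∈ s, g j = 0 := by
      intro j hj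
      have hne : j ≠ a := fun h => ha (h ▸ hj)
      obtain ⟨t, ht⟩ := hsep j a hne
      have h1 := congrArg (τ t) hg
      simp only [map_add, map_sum, map_smul, hτ, map_zero] at h1
      have h2 : ∑ i ∈ s, (g i * (lam t i - lam t a)) • T i = 0 := by
        have h3 := congrArg (fun x => lam t a • x) hg
        simp only [smul_add, Finset.smul_sum, smul_zero] at h3
        have h4 : ∑ i ∈ s, (g i * (lam t i - lam t a)) • T i =
            (g a • lam t a • T a + ∑ x ∈ s, g x • lam t x • T x) -
              (lam t a • g a • T a + ∑ x ∈ s, lam t a • g x • T x) := by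
          rw [smul_comm (g a) (lam t a) (T a), add_sub_add_left_eq_sub, ← Finset.sum_sub_distrib]
          refine Finset.sum_congr rfl fun x _ => ?_
          rw [mul_sub, sub_smul, mul_smul, mul_comm (g x) (lam t a), mul_smul]
        rw [h4, h1, h3, sub_self]
      have h5 := ih _ h2 j hj
      rcases mul_eq_zero.1 h5 with h6 | h6
      · exact h6
      · exact absurd (sub_eq_zero.1 h6) ht
    have hsum0 : ∑ x ∈ s, g x • T x = 0 :=
      Finset.sum_eq_zero fun x hx => by rw [hs x hx, zero_smul]
    rw [hsum0, add_zero] at hg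
    have hga : g a = 0 := by
      rcases smul_eq_zero.1 hg with h | h
      · exact h
      · exact absurd h (hT a)
    rcases Finset.mem_insert.1 hi with rfl | hi'
    · exact hga
    · exact hs i hi'

section Nilp

variable {G : Type*} [Group G] [Finite G]

/-- A nilpotent normal subgroup without normal `p`-subgroups is a `p'`-group. -/
theorem not_dvd_card_of_nilp {p : ℕ} [hp : Fact p.Prime] (F : Subgroup G) [hFn : F.Normal]
    [hnil : Group.IsNilpotent F]
    (h : ∀ S : Subgroup G, S.Normal → S ≤ F → IsPGroup p S → S = ⊥) : ¬ p ∣ Nat.card F := by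
  classical
  intro hd
  obtain ⟨x, hx⟩ := exists_prime_orderOf_dvd_card' p hd
  have hzp : IsPGroup p (Subgroup.zpowers x) := by
    apply IsPGroup.of_card (n := 1)
    rw [Nat.card_zpowers, hx, pow_one]
  obtain ⟨S₀, hS₀⟩ := hzp.exists_le_sylow
  have hnorm : (S₀ : Subgroup F).Normal := by
    have q := (Group.isNilpotent_of_finite_tfae (G := F)).out 0 3
    exact q.mp hnil p hp S₀
  haveI hchar : (S₀ : Subgroup F).Characteristic := Sylow.characteristic_of_normal S₀ hnorm
  let S : Subgroup G := (S₀ : Subgroup F).map F.subtype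
  have hSn : S.Normal := inferInstance
  have hSp : IsPGroup p S := by
    rintro ⟨_, y, hy, rfl⟩
    obtain ⟨k, hk⟩ := S₀.isPGroup' ⟨y, hy⟩
    refine ⟨k, Subtype.ext ?_⟩
    have h1 := congrArg (fun z : (S₀ : Subgroup F) => ((z : F) : G)) hk
    simpa using h1
  have hS := h S hSn (Subgroup.map_subtype_le _) hSp
  have hxS : (x : G) ∈ S := ⟨x, hS₀ (Subgroup.mem_zpowers x), rfl⟩
  rw [hS, Subgroup.mem_bot] at hxS
  have hx1 : x = 1 := Subtype.ext hxS
  rw [hx1, orderOf_one] at hx
  exact hp.out.one_lt.ne hx

end Nilp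

section Final

variable {K V : Type} [Field K] [AddCommGroup V] [Module K V] [Finite K] [Finite V]

/-- Conjugation as a linear map on endomorphisms. -/
def cjL (h : V ≃ₗ[K] V) : Module.End K V →ₗ[K] Module.End K V where
  toFun := cj h
  map_add' := cj_add h
  map_smul' := fun c T => by
    ext v
    simp

/-- The final case of the bound: every normal abelian subgroup consists of scalars. -/
theorem final_case {p : ℕ} [hp : Fact p.Prime] [Nontrivial V] (H P : Subgroup (V ≃ₗ[K] V))
    [hsol : Group.IsSolvable H] (hirr : Irr H) (hPH : P ≤ H) (hP : IsPGroup p P)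
    (hpV : ∀ v : V, p • v = 0)
    (hsc : ∀ A : Subgroup (V ≃ₗ[K] V), A ≤ H → (∀ h ∈ H, ∀ a ∈ A, h * a * h⁻¹ ∈ A) →
      (∀ a ∈ A, ∀ b ∈ A, a * b = b * a) → ∀ a ∈ A, ∃ c : K, ∀ v, a v = c • v) :
    Nat.card P * Nat.card K ≤ Nat.card V := by
  classical
  -- the scalars
  have hsc' : ∀ A' : Subgroup H, A'.Normal → (∀ a ∈ A', ∀ b ∈ A', a * b = b * a) →
      ∀ a ∈ A', ∃ c : K, ∀ v, a.1 v = c • v := by
    intro A' hA' hcomm a ha
    refine hsc (A'.map H.subtype) (Subgroup.map_subtype_le _) ?_ ?_ a.1 ⟨a, ha, rfl⟩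
    · rintro h hh _ ⟨b, hb, rfl⟩
      exact ⟨⟨h, hh⟩ * b * ⟨h, hh⟩⁻¹, hA'.conj_mem b hb _, rfl⟩
    · rintro _ ⟨x, hx, rfl⟩ _ ⟨y, hy, rfl⟩
      exact congrArg Subtype.val (hcomm x hx y hy)
  have habc : ∀ A : Subgroup H, A.Normal → (∀ a ∈ A, ∀ b ∈ A, a * b = b * a) →
      ∀ a ∈ A, ∀ g, g * a = a * g := by
    intro A hA hcomm a ha g
    obtain ⟨c, hc⟩ := hsc' A hA hcomm a ha
    apply Subtype.ext
    ext v
    show g.1 (a.1 v) = a.1 (g.1 v)
    rw [hc, hc, map_smul]
  obtain ⟨F, hFn, hFnil, hself, hcls⟩ := exists_fitting habc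
  haveI := hFn
  haveI := hFnil
  have hZc : ∀ z ∈ Zf F, ∀ g, g * z = z * g := by
    refine habc (Zf F) inferInstance ?_
    intro a ha b hb
    exact ((mem_Zf.1 hb).2 a (mem_Zf.1 ha).1)
  have hZsc : ∀ z ∈ Zf F, ∃ c : K, ∀ v, z.1 v = c • v := by
    refine hsc' (Zf F) inferInstance ?_
    intro a ha b hb
    exact ((mem_Zf.1 hb).2 a (mem_Zf.1 ha).1)
  -- no normal `p`-subgroups
  have hnop : ∀ S : Subgroup H, S.Normal → S ≤ F → IsPGroup p S → S = ⊥ := by
    intro S hS _ hSp
    have hQn : ∀ h ∈ H, ∀ q ∈ S.map H.subtype, h⁻¹ * q * h ∈ S.map H.subtype := by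
      rintro h hh _ ⟨s, hs, rfl⟩
      let h' : H := ⟨h, hh⟩
      refine Subgroup.mem_map.2 ⟨h'⁻¹ * s * h'⁻¹⁻¹, hS.conj_mem s hs h'⁻¹, ?_⟩
      show (h⁻¹ * s.1 * h⁻¹⁻¹ : V ≃ₗ[K] V) = h⁻¹ * s.1 * h
      rw [inv_inv]
    have hQp : IsPGroup p (S.map H.subtype) := by
      rintro ⟨_, s, hs, rfl⟩
      obtain ⟨k, hk⟩ := hSp ⟨s, hs⟩
      refine ⟨k, Subtype.ext ?_⟩
      have h1 := congrArg (fun z : S => ((z : H) : V ≃ₗ[K] V)) hk
      simpa using h1
    have h0 := normal_pgroup_trivial hpV hirr hQn hQp
    rw [eq_bot_iff]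
    intro s hs
    have h1 : (s : V ≃ₗ[K] V) ∈ S.map H.subtype := ⟨s, hs, rfl⟩
    rw [h0, Subgroup.mem_bot] at h1
    rw [Subgroup.mem_bot]
    exact Subtype.ext h1
  have hcop : ¬ p ∣ Nat.card F := not_dvd_card_of_nilp F hnop
  -- the subgroup `P` in `H`
  let P' : Subgroup H := P.subgroupOf H
  have hP'card : Nat.card P' = Nat.card P :=
    Nat.card_congr (Subgroup.subgroupOfEquivOfLe hPH).toEquiv
  have hP'p : IsPGroup p P' := by
    rintro ⟨x, hx⟩
    obtain ⟨k, hk⟩ := hP ⟨x.1, Subgroup.mem_subgroupOf.1 hx⟩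
    refine ⟨k, Subtype.ext (Subtype.ext ?_)⟩
    have h1 := congrArg Subtype.val hk
    simpa using h1
  obtain ⟨hb1, hb2, hb3⟩ := bound_on_quot F hcls hZc hself hcop P' hP'p
  rw [hP'card] at hb1 hb2 hb3
  set Q := ↥F ⧸ Subgroup.center ↥F with hQ
  set w := Nat.card Q with hw
  have hn := Module.finrank_pos (R := K) (M := V)
  set n := Module.finrank K V with hndef
  -- independence
  let rep : Q → F := fun q => Quotient.out q
  have hrep : ∀ q : Q, ((rep q : F) : Q) = q := fun q => QuotientGroup.out_eq' q
  let T : Q → Module.End K V := fun q => (((rep q : F) : H) : V ≃ₗ[K] V).toLinearMap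
  have hlam : ∀ (t : F) (q : Q), ∃ c : K, ∀ v,
      (((t : H) * (rep q : H) * (t : H)⁻¹ * (rep q : H)⁻¹ : H) : V ≃ₗ[K] V) v = c • v :=
    fun t q => hZsc _ (hcls _ t.2 _ (rep q).2)
  choose lam hlamv using hlam
  have hindep : LinearIndependent K T := by
    refine indep_of_eigen T (fun t : F => cjL ((t : H) : V ≃ₗ[K] V)) lam ?_ ?_ ?_
    · intro t q
      ext v
      show ((t : H) : V ≃ₗ[K] V) (((rep q : F) : H).1
        ((((t : H) : V ≃ₗ[K] V))⁻¹ v)) = lam t q • ((rep q : F) : H).1 v
      rw [← hlamv t q]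
      show _ = (((t : H) * (rep q : H) * (t : H)⁻¹ * (rep q : H)⁻¹ : H) : V ≃ₗ[K] V)
        (((rep q : F) : H).1 v)
      have h1 : ((t : H) * (rep q : H) * (t : H)⁻¹ * (rep q : H)⁻¹) * (rep q : H) =
          (t : H) * (rep q : H) * (t : H)⁻¹ := by group
      have h2 := congrArg (fun g : H => g.1 v) h1
      exact h2.symm
    · intro q h0
      have h1 := congrArg (fun S : Module.End K V => S ((((rep q : F) : H) : V ≃ₗ[K] V)⁻¹
        (Classical.choose (exists_ne (0 : V))))) h0
      simp only [T, LinearEquiv.coe_coe, LinearMap.zero_apply] at h1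
      rw [apply_inv_self] at h1
      exact Classical.choose_spec (exists_ne (0 : V)) h1
    · intro q q' hne
      by_contra hcon
      push Not at hcon
      apply hne
      rw [← hrep q, ← hrep q']
      rw [QuotientGroup.eq]
      rw [Subgroup.mem_center_iff]
      intro t
      apply Subtype.ext
      have h1 : ((t : H) * (rep q : H) * (t : H)⁻¹ * (rep q : H)⁻¹ : H) =
          ((t : H) * (rep q' : H) * (t : H)⁻¹ * (rep q' : H)⁻¹ : H) := by
        apply Subtype.ext
        ext v
        rw [hlamv t q, hlamv t q', hcon t]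
      have h2 : (t : H) * (rep q : H) * (t : H)⁻¹ =
          ((t : H) * (rep q : H) * (t : H)⁻¹ * (rep q : H)⁻¹) * (rep q : H) := by group
      have h3 : (t : H) * (rep q' : H) * (t : H)⁻¹ =
          ((t : H) * (rep q : H) * (t : H)⁻¹ * (rep q : H)⁻¹) * (rep q' : H) := by
        rw [h1]
        group
      have h4 : (t : H) * ((rep q : H)⁻¹ * (rep q' : H)) * (t : H)⁻¹ =
          ((t : H) * (rep q : H) * (t : H)⁻¹)⁻¹ * ((t : H) * (rep q' : H) * (t : H)⁻¹) := by group
      rw [h2, h3] at h4
      have h5 : (t : H) * ((rep q : H)⁻¹ * (rep q' : H)) * (t : H)⁻¹ =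
          (rep q : H)⁻¹ * (rep q' : H) := by
        rw [h4]
        group
      have h6 := mul_inv_eq_iff_eq_mul.1 h5
      simpa using h6
  have hwle : w ≤ n ^ 2 := by
    haveI : Fintype Q := Fintype.ofFinite Q
    have h1 := hindep.fintype_card_le_finrank
    rw [Module.finrank_linearMap] at h1
    rw [hw, Nat.card_eq_fintype_card, pow_two]
    exact h1
  -- the characteristic of `K`
  have hchar : (p : K) = 0 := by
    obtain ⟨v, hv⟩ := exists_ne (0 : V)
    have h1 : (p : K) • v = 0 := by
      rw [Nat.cast_smul_eq_nsmul, hpV]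
    rcases smul_eq_zero.1 h1 with h | h
    · exact h
    · exact absurd h hv
  haveI hcharK : CharP K p := by
    haveI : Fintype K := Fintype.ofFinite K
    obtain ⟨r, hr⟩ := CharP.exists K
    have h1 : r ∣ p := (CharP.cast_eq_zero_iff K r p).1 hchar
    rcases (Nat.dvd_prime hp.out).1 h1 with h | h
    · rw [h] at hr
      exact absurd (CharP.ringChar_ne_one (R := K)) (by
        have := ringChar.eq K 1
        simpa using this)
    · rwa [h] at hr
  obtain ⟨f, hfp, hf⟩ : ∃ f : ℕ, 0 < f ∧ Nat.card K = p ^ f := by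
    haveI : Fintype K := Fintype.ofFinite K
    obtain ⟨f, _, hf⟩ := FiniteField.card K p
    exact ⟨f, f.2, by rw [Nat.card_eq_fintype_card, hf]⟩
  obtain ⟨a, ha⟩ := IsPGroup.iff_card.1 hP
  have hVcard : Nat.card V = (p ^ f) ^ n := by
    rw [Module.natCard_eq_pow_finrank (K := K) (V := V), hf]
  have hpw : ¬ p ∣ w := by
    intro h
    apply hcop
    refine h.trans ?_
    have := Subgroup.card_eq_card_quotient_mul_card_subgroup (Subgroup.center ↥F)
    exact Dvd.intro _ this.symm
  -- the field with two elements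
  have h2case : p ^ f = 2 → w = 1 := by
    intro hq2
    have hK : ∀ c : K, c ≠ 0 → c = 1 := by
      intro c hc
      have hcard : Nat.card K = 2 := by rw [hf, hq2]
      haveI : Fintype K := Fintype.ofFinite K
      have hcard' : Fintype.card K = 2 := by rwa [← Nat.card_eq_fintype_card]
      have hne : (1 : K) ≠ 0 := one_ne_zero
      by_contra hc1
      have h3 : ({0, 1, c} : Finset K).card = 3 := by
        rw [Finset.card_eq_three]
        exact ⟨0, 1, c, hne.symm, Ne.symm hc, Ne.symm hc1, rfl⟩
      have h4 := Finset.card_le_univ ({0, 1, c} : Finset K)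
      omega
    have hZ1 : ∀ z ∈ Zf F, z = 1 := by
      intro z hz
      obtain ⟨c, hc⟩ := hZsc z hz
      have hc0 : c ≠ 0 := by
        intro h0
        obtain ⟨v, hv⟩ := exists_ne (0 : V)
        have h1 := hc v
        rw [h0, zero_smul] at h1
        have h2 : (z.1⁻¹ : V ≃ₗ[K] V) (z.1 v) = v := inv_apply_self _ _
        rw [h1, map_zero] at h2
        exact hv h2.symm
      have hc1 := hK c hc0
      apply Subtype.ext
      ext v
      rw [hc, hc1, one_smul]
      rfl
    have hab : ∀ x ∈ F, x = 1 := by
      intro x hx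
      apply hZ1
      refine mem_Zf.2 ⟨hx, fun f hf => ?_⟩
      have h1 := hZ1 _ (hcls f hf x hx)
      have h2 : f * x = (f * x * f⁻¹ * x⁻¹) * (x * f) := by group
      rw [h2, h1, one_mul]
    have hFtriv : Subsingleton F := ⟨fun a b => Subtype.ext ((hab a a.2).trans (hab b b.2).symm)⟩
    rw [hw]
    haveI : Subsingleton Q := by
      constructor
      intro a b
      obtain ⟨x, rfl⟩ := QuotientGroup.mk_surjective a
      obtain ⟨y, rfl⟩ := QuotientGroup.mk_surjective b
      rw [Subsingleton.elim x y]
    exact Nat.card_of_subsingleton (1 : Q)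
  rw [hVcard, hf, ha]
  rw [ha] at hb1 hb2 hb3
  exact num_final hp.out hfp hn hwle hpw hb1 hb2 hb3 h2case

end Final

section FieldStep

variable {K L V : Type} [Field K] [Field L] [Algebra K L] [AddCommGroup V] [Module K V]
  [Module L V] [IsScalarTower K L V] [Finite K] [Finite L] [Finite V]

/-- The elements of `H` commuting with the scalars in `L`. -/
def centL (L : Type) [Field L] [Module L V] (H : Subgroup (V ≃ₗ[K] V)) : Subgroup (V ≃ₗ[K] V) where
  carrier := {h | h ∈ H ∧ ∀ (l : L) (v : V), h (l • v) = l • h v}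
  mul_mem' := by
    rintro x y ⟨hx, hx'⟩ ⟨hy, hy'⟩
    refine ⟨H.mul_mem hx hy, fun l v => ?_⟩
    show x (y (l • v)) = l • x (y v)
    rw [hy', hx']
  one_mem' := ⟨H.one_mem, fun l v => rfl⟩
  inv_mem' := by
    rintro x ⟨hx, hx'⟩
    refine ⟨H.inv_mem hx, fun l v => ?_⟩
    have h1 := hx' l ((x⁻¹ : V ≃ₗ[K] V) v)
    rw [apply_inv_self] at h1
    have h2 := congrArg (x⁻¹ : V ≃ₗ[K] V) h1
    rw [inv_apply_self] at h2
    exact h2.symm

/-- The field-extension step of the bound. -/
theorem field_step_abs {p : ℕ} [hp : Fact p.Prime] (H P : Subgroup (V ≃ₗ[K] V))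
    [hsol : Group.IsSolvable H] (hPH : P ≤ H) (hP : IsPGroup p P)
    (σ : ↥P →* (L ≃ₐ[K] L)) (hσ : ∀ (x : P) (l : L) (v : V), x.1 (l • v) = σ x l • x.1 v)
    (hss : ∀ W : Submodule K V, InvS (centL L H) W →
      ∃ W' : Submodule K V, InvS (centL L H) W' ∧ IsCompl W W' ∧ ∀ (l : L), ∀ v ∈ W', l • v ∈ W')
    (IH : ∀ H' P' : Subgroup (V ≃ₗ[L] V), Group.IsSolvable H' → SS H' → P' ≤ H' → IsPGroup p P' →
      Nat.card P' * Nat.card L ≤ Nat.card V) :
    Nat.card P * Nat.card K ≤ Nat.card V := by
  classical
  let H₁ := centL (K := K) L H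
  have hH₁ : H₁ ≤ H := fun _ h => h.1
  let P₁ : Subgroup (V ≃ₗ[K] V) := P ⊓ H₁
  let toL : ↥H₁ →* (V ≃ₗ[L] V) :=
    { toFun := fun g =>
        { toFun := g.1
          map_add' := map_add g.1
          map_smul' := g.2.2
          invFun := fun v => (g.1⁻¹ : V ≃ₗ[K] V) v
          left_inv := fun v => inv_apply_self g.1 v
          right_inv := fun v => apply_inv_self g.1 v }
      map_one' := LinearEquiv.ext fun v => rfl
      map_mul' := fun x y => LinearEquiv.ext fun v => rfl }
  have hinj : Function.Injective toL := by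
    intro x y hxy
    apply Subtype.ext
    ext v
    exact congrArg (fun g : V ≃ₗ[L] V => g v) hxy
  let P' : Subgroup (V ≃ₗ[L] V) := (P₁.subgroupOf H₁).map toL
  have hP'card : Nat.card P' = Nat.card P₁ := by
    have h1 : Nat.card P' = Nat.card (P₁.subgroupOf H₁) :=
      Nat.card_congr (Subgroup.equivMapOfInjective _ toL hinj).toEquiv.symm
    rw [h1]
    exact Nat.card_congr (Subgroup.subgroupOfEquivOfLe inf_le_right).toEquiv
  have hP'le : P' ≤ toL.range := by
    rintro _ ⟨x, _, rfl⟩
    exact ⟨x, rfl⟩
  have hP₁p : IsPGroup p P₁ := hP.to_le inf_le_left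
  have hP'p : IsPGroup p P' := by
    rintro ⟨_, x, hx, rfl⟩
    obtain ⟨k, hk⟩ := hP₁p ⟨x.1, Subgroup.mem_subgroupOf.1 hx⟩
    refine ⟨k, Subtype.ext ?_⟩
    have h1 : x.1 ^ p ^ k = 1 := by
      have := congrArg Subtype.val hk
      simpa using this
    have h2 : x ^ p ^ k = 1 := Subtype.ext (by simpa using h1)
    show (toL x) ^ p ^ k = 1
    rw [← map_pow, h2, map_one]
  haveI hsolH₁ : Group.IsSolvable H₁ :=
    Group.isSolvable_of_isSolvable_injective (f := Subgroup.inclusion hH₁) (Subgroup.inclusion_injective hH₁)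
  have hsolH' : Group.IsSolvable toL.range :=
    Group.isSolvable_of_surjective (f := toL.rangeRestrict) toL.rangeRestrict_surjective
  have hssH' : SS toL.range := by
    intro W₁ hW₁
    have hW : InvS H₁ (W₁.restrictScalars K) := by
      intro g hg v hv
      exact hW₁ _ ⟨⟨g, hg⟩, rfl⟩ v hv
    obtain ⟨W', hW', hc, hL⟩ := hss _ hW
    let W₂ : Submodule L V :=
      { carrier := W'
        add_mem' := fun ha hb => W'.add_mem ha hb
        zero_mem' := W'.zero_mem
        smul_mem' := fun l v hv => hL l v hv }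
    refine ⟨W₂, ?_, ?_, ?_⟩
    · rintro _ ⟨g, rfl⟩ v hv
      exact hW' g.1 g.2 v hv
    · rw [Submodule.disjoint_def]
      intro v hv hv'
      exact Submodule.disjoint_def.1 hc.disjoint v hv hv'
    · rw [codisjoint_iff, eq_top_iff]
      intro v _
      have h1 : v ∈ W₁.restrictScalars K ⊔ W' := by
        rw [hc.sup_eq_top]
        exact Submodule.mem_top
      obtain ⟨a, ha, b, hb, rfl⟩ := Submodule.mem_sup.1 h1
      exact Submodule.add_mem_sup ha hb
  have hIH := IH toL.range P' hsolH' hssH' hP'le hP'p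
  rw [hP'card] at hIH
  -- the action on the field
  have hcardP : Nat.card P = Nat.card σ.ker * Nat.card σ.range := by
    rw [← Subgroup.index_ker, Subgroup.card_mul_index]
  have hker : Nat.card σ.ker ≤ Nat.card P₁ := by
    refine Nat.card_le_card_of_injective (fun x : σ.ker => (⟨x.1.1, x.1.2, hPH x.1.2, fun l v => ?_⟩ : P₁))
      ?_
    · have h1 := hσ x.1 l v
      rw [σ.mem_ker.1 x.2] at h1
      exact h1
    · intro x y hxy
      have h2 : (x.1.1 : V ≃ₗ[K] V) = y.1.1 := congrArg (fun z : ↥P₁ => (z : V ≃ₗ[K] V)) hxy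
      exact Subtype.ext (Subtype.ext h2)
  have hfd : FiniteDimensional K L := Module.Finite.of_finite
  have hrange : Nat.card σ.range ≤ Module.finrank K L := by
    have h1 : Nat.card σ.range ≤ Nat.card (L ≃ₐ[K] L) := Subgroup.card_le_card_group _
    refine h1.trans ?_
    rw [Nat.card_eq_fintype_card]
    exact AlgEquiv.card_le
  set k := Module.finrank K L with hk
  set q := Nat.card K with hq
  have hq2 : 2 ≤ q := Finite.one_lt_card
  have hLcard : Nat.card L = q ^ k := Module.natCard_eq_pow_finrank (K := K) (V := L)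
  have hkq : k * q ≤ q ^ k := by
    rcases Nat.eq_zero_or_pos k with h0 | h0
    · rw [h0]; simp
    · obtain ⟨m, hm⟩ : ∃ m, k = m + 1 := ⟨k - 1, by omega⟩
      rw [hm, pow_succ]
      apply Nat.mul_le_mul_right
      calc m + 1 ≤ 2 ^ m := Nat.lt_two_pow_self
        _ ≤ q ^ m := Nat.pow_le_pow_left hq2 m
  calc Nat.card P * q = Nat.card σ.ker * Nat.card σ.range * q := by rw [hcardP]
    _ ≤ Nat.card P₁ * k * q := Nat.mul_le_mul_right _ (Nat.mul_le_mul hker hrange)
    _ = Nat.card P₁ * (k * q) := by ring
    _ ≤ Nat.card P₁ * q ^ k := Nat.mul_le_mul_left _ hkq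
    _ = Nat.card P₁ * Nat.card L := by rw [hLcard]
    _ ≤ Nat.card V := hIH

end FieldStep

section BTSection

variable {K V : Type} [Field K] [AddCommGroup V] [Module K V]

/-- A copy of a subalgebra of endomorphisms, on which only a field structure will be used. -/
def BT (B : Subalgebra K (Module.End K V)) : Type := ↥B

namespace BT

variable {B : Subalgebra K (Module.End K V)}

/-- The underlying endomorphism. -/
def val (b : BT B) : Module.End K V := Subtype.val b

theorem val_mem (b : BT B) : b.val ∈ B := Subtype.property b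

/-- The element given by an endomorphism in the algebra. -/
def mk (T : Module.End K V) (hT : T ∈ B) : BT B := ⟨T, hT⟩

theorem val_inj {a b : BT B} (h : a.val = b.val) : a = b := Subtype.ext h

/-- The field structure. -/
noncomputable def field [Nontrivial V] (hcomm : ∀ x ∈ B, ∀ y ∈ B, x * y = y * x)
    (hinv : ∀ b ∈ B, b ≠ 0 → ∃ c ∈ B, b * c = 1) : Field (BT B) :=
  letI : Ring (BT B) := inferInstanceAs (Ring ↥B)
  IsField.toField (R := BT B)
    { exists_pair_ne := ⟨(0 : ↥B), (1 : ↥B), fun h => by
        have h1 := congrArg Subtype.val h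
        have h2 : (0 : Module.End K V) = 1 := h1
        exact zero_ne_one h2⟩
      mul_comm := fun x y => Subtype.ext (hcomm x.1 x.2 y.1 y.2)
      mul_inv_cancel := by
        intro a ha
        obtain ⟨c, hc, hac⟩ := hinv a.1 a.2 (fun h => ha (Subtype.ext h))
        exact ⟨⟨c, hc⟩, Subtype.ext hac⟩ }

end BT

end BTSection

section Main

/-- The main bound: the `p`-part of a solvable completely reducible linear group. -/
theorem core {p : ℕ} [hp : Fact p.Prime] : ∀ (n : ℕ) (K V : Type) [Field K] [AddCommGroup V]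
    [Module K V] [Finite K] [Finite V] [Nontrivial V] (H P : Subgroup (V ≃ₗ[K] V)),
    Group.IsSolvable H → SS H → P ≤ H → IsPGroup p P → (∀ v : V, p • v = 0) →
    Module.finrank K V = n → Nat.card P * Nat.card K ≤ Nat.card V := by
  classical
  intro n
  induction n using Nat.strong_induction_on with
  | _ n ih =>
    intro K V _ _ _ _ _ _ H P hsol hss hPH hP hpV hn
    set q := Nat.card K with hq
    have hq2 : 2 ≤ q := Finite.one_lt_card
    by_cases hirr : Irr H
    swap
    · -- reducible
      have hex : ∃ W, InvS H W ∧ W ≠ ⊥ ∧ W ≠ ⊤ := by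
        by_contra hcon
        push Not at hcon
        apply hirr
        intro W hW
        by_cases hb : W = ⊥
        · exact Or.inl hb
        · exact Or.inr (hcon W hW hb)
      obtain ⟨W, hW, hWb, hWt⟩ := hex
      obtain ⟨W', hW', hc⟩ := hss W hW
      have hW't : W' ≠ ⊤ := by
        intro h
        apply hWb
        have := hc.inf_eq_bot
        rwa [h, inf_top_eq] at this
      have hW'b : W' ≠ ⊥ := by
        intro h
        apply hWt
        have := hc.sup_eq_top
        rwa [h, sup_bot_eq] at this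
      have hWlt : Module.finrank K W < n := hn ▸ Submodule.finrank_lt hWt
      have hW'lt : Module.finrank K W' < n := hn ▸ Submodule.finrank_lt hW't
      have hcardle := card_le_of_compl H P hPH hW hW' hc
      have hcV := card_eq_of_compl hc
      haveI : Nontrivial W := Submodule.nontrivial_iff_ne_bot.2 hWb
      haveI : Nontrivial W' := Submodule.nontrivial_iff_ne_bot.2 hW'b
      have hi1 := ih _ hWlt K W (imgH H W hW) (imgP H W hW P) (imgH_solvable H W hW)
        (hss.res W hW) (imgP_le H W hW P) (imgP_isPGroup H W hW hP)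
        (fun v => Subtype.ext (hpV v.1)) rfl
      have hi2 := ih _ hW'lt K W' (imgH H W' hW') (imgP H W' hW' P) (imgH_solvable H W' hW')
        (hss.res W' hW') (imgP_le H W' hW' P) (imgP_isPGroup H W' hW' hP)
        (fun v => Subtype.ext (hpV v.1)) rfl
      rw [hcV]
      calc Nat.card P * q ≤ Nat.card (imgP H W hW P) * Nat.card (imgP H W' hW' P) * q :=
            Nat.mul_le_mul_right _ hcardle
        _ ≤ Nat.card (imgP H W hW P) * Nat.card (imgP H W' hW' P) * q * q :=
            Nat.le_mul_of_pos_right _ (by omega)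
        _ = (Nat.card (imgP H W hW P) * q) * (Nat.card (imgP H W' hW' P) * q) := by ring
        _ ≤ Nat.card W * Nat.card W' := Nat.mul_le_mul hi1 hi2
    -- irreducible
    by_cases hsc : ∀ A : Subgroup (V ≃ₗ[K] V), A ≤ H → (∀ h ∈ H, ∀ a ∈ A, h * a * h⁻¹ ∈ A) →
      (∀ a ∈ A, ∀ b ∈ A, a * b = b * a) → ∀ a ∈ A, ∃ c : K, ∀ v, a v = c • v
    · exact final_case H P hirr hPH hP hpV hsc
    push Not at hsc
    obtain ⟨A, hAH, hAn, hAc, a₀, ha₀, hnonsc⟩ := hsc
    have hBcomm := adj_comm hAc
    have hBconj := adj_conj hAn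
    rcases dichotomy (B := adj A) hirr hBcomm hBconj with hf | ⟨O, hO⟩
    · -- the field step
      letI F : Field (BT (adj A)) := BT.field hBcomm hf
      let φ : K →+* BT (adj A) :=
        { toFun := fun c => BT.mk (algebraMap K (Module.End K V) c)
            (Subalgebra.algebraMap_mem _ c)
          map_one' := BT.val_inj (map_one _)
          map_mul' := fun x y => BT.val_inj (map_mul _ x y)
          map_zero' := BT.val_inj (map_zero _)
          map_add' := fun x y => BT.val_inj (map_add _ x y) }
      letI alg : Algebra K (BT (adj A)) := φ.toAlgebra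
      letI modL : Module (BT (adj A)) V :=
        { smul := fun b v => b.val v
          one_smul := fun v => rfl
          mul_smul := fun x y v => rfl
          smul_zero := fun b => map_zero _
          smul_add := fun b x y => map_add _ x y
          add_smul := fun x y v => rfl
          zero_smul := fun v => rfl }
      have hsmul : ∀ (b : BT (adj A)) (v : V), b • v = b.val v := fun b v => rfl
      haveI tower : IsScalarTower K (BT (adj A)) V := ⟨fun c b v => by
        have h1 : (c • b).val = algebraMap K (Module.End K V) c * b.val := rfl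
        rw [hsmul, hsmul, h1]
        rfl⟩
      haveI : Finite (BT (adj A)) := inferInstanceAs (Finite ↥(adj A))
      let σ : ↥P →* (BT (adj A) ≃ₐ[K] BT (adj A)) :=
        { toFun := fun x =>
            { toFun := fun b => BT.mk (cj x.1 b.val) (hBconj _ (hPH x.2) _ b.val_mem)
              invFun := fun b => BT.mk (cj x.1⁻¹ b.val)
                (hBconj _ (H.inv_mem (hPH x.2)) _ b.val_mem)
              left_inv := fun b => BT.val_inj (cj_inv_cj _ _)
              right_inv := fun b => BT.val_inj (cj_cj_inv _ _)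
              map_mul' := fun a b => BT.val_inj (cj_mul _ _ _)
              map_add' := fun a b => BT.val_inj (cj_add _ _ _)
              commutes' := fun c => BT.val_inj (cj_algebraMap _ _) }
          map_one' := by
            ext b
            apply BT.val_inj
            ext v
            rfl
          map_mul' := fun x y => by
            ext b
            apply BT.val_inj
            exact (cj_cj _ _ _).symm }
      have hσ : ∀ (x : P) (l : BT (adj A)) (v : V), x.1 (l • v) = σ x l • x.1 v := by
        intro x l v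
        show x.1 (l.val v) = x.1 (l.val ((x.1⁻¹ : V ≃ₗ[K] V) (x.1 v)))
        rw [inv_apply_self]
      have hcomm_cent : ∀ g ∈ centL (K := K) (BT (adj A)) H, ∀ b ∈ adj A, ∀ v,
          g (b v) = b (g v) := fun g hg b hb v => hg.2 (BT.mk b hb) v
      have hAcent : A ≤ centL (K := K) (BT (adj A)) H := by
        intro a ha
        refine ⟨hAH ha, fun l v => ?_⟩
        have h1 := hBcomm _ (mem_adj ha) _ l.val_mem
        exact congrArg (fun T : Module.End K V => T v) h1
      have hnormal : ∀ h ∈ H, ∀ g ∈ centL (K := K) (BT (adj A)) H,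
          h * g * h⁻¹ ∈ centL (K := K) (BT (adj A)) H := by
        intro h hh g hg
        refine ⟨H.mul_mem (H.mul_mem hh hg.1) (H.inv_mem hh), fun l v => ?_⟩
        have h1 : cj h⁻¹ l.val ∈ adj A := hBconj _ (H.inv_mem hh) _ l.val_mem
        have h2 := hcomm_cent g hg _ h1 ((h⁻¹ : V ≃ₗ[K] V) v)
        simp only [cj_apply, inv_inv, apply_inv_self] at h2
        show h (g ((h⁻¹ : V ≃ₗ[K] V) (l.val v))) = l.val (h (g ((h⁻¹ : V ≃ₗ[K] V) v)))
        rw [h2, apply_inv_self]
      have hssC : SS (centL (K := K) (BT (adj A)) H) :=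
        ss_of_normal (fun _ h => h.1) hnormal hirr
      have hss' : ∀ W : Submodule K V, InvS (centL (K := K) (BT (adj A)) H) W →
          ∃ W' : Submodule K V, InvS (centL (K := K) (BT (adj A)) H) W' ∧ IsCompl W W' ∧
            ∀ (l : BT (adj A)), ∀ v ∈ W', l • v ∈ W' := by
        intro W hW
        obtain ⟨W', hW', hc⟩ := hssC W hW
        refine ⟨W', hW', hc, fun l v hv => ?_⟩
        rw [hsmul]
        have key : ∀ b ∈ adj A, ∀ v ∈ W', b v ∈ W' := by
          intro b hb
          induction hb using Algebra.adjoin_induction with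
          | mem b hb =>
            obtain ⟨a, ha, rfl⟩ := hb
            intro v hv
            exact hW' a (hAcent ha) v hv
          | algebraMap r =>
            intro v hv
            rw [Module.algebraMap_end_apply]
            exact W'.smul_mem r hv
          | add x y _ _ hx hy =>
            intro v hv
            rw [LinearMap.add_apply]
            exact W'.add_mem (hx v hv) (hy v hv)
          | mul x y _ _ hx hy =>
            intro v hv
            rw [Module.End.mul_apply]
            exact hx _ (hy v hv)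
        exact key _ l.val_mem v hv
      -- the dimensions
      have hcardL : Nat.card (BT (adj A)) = q ^ Module.finrank K (BT (adj A)) :=
        Module.natCard_eq_pow_finrank (K := K) (V := BT (adj A))
      have hk : 2 ≤ Module.finrank K (BT (adj A)) := by
        by_contra hlt
        haveI : Module.Finite K (BT (adj A)) := Module.Finite.of_finite
        have hpos : 0 < Module.finrank K (BT (adj A)) := Module.finrank_pos
        have h1 : Module.finrank K (BT (adj A)) = 1 := by omega
        have h2 := Subalgebra.bot_eq_top_of_finrank_eq_one h1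
        have h3 : BT.mk _ (mem_adj ha₀) ∈ (⊥ : Subalgebra K (BT (adj A))) := by
          rw [h2]
          exact Algebra.mem_top
        obtain ⟨c, hc⟩ := Algebra.mem_bot.1 h3
        obtain ⟨v, hv⟩ := hnonsc c
        apply hv
        have h4 := congrArg (fun b : BT (adj A) => b.val v) hc
        exact h4.symm
      haveI : Module.Finite (BT (adj A)) V := Module.Finite.of_finite
      have hVL : Nat.card V = Nat.card (BT (adj A)) ^ Module.finrank (BT (adj A)) V :=
        Module.natCard_eq_pow_finrank
      have hVK : Nat.card V = q ^ n := by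
        rw [← hn]
        exact Module.natCard_eq_pow_finrank
      have hlt : Module.finrank (BT (adj A)) V < n := by
        have hpos : 0 < Module.finrank (BT (adj A)) V := Module.finrank_pos
        rw [hVK, hcardL, ← pow_mul] at hVL
        have h1 := Nat.pow_right_injective hq2 hVL
        rw [h1]
        nlinarith
      exact field_step_abs H P hPH hP σ hσ hss' (fun H' P' h1 h2 h3 h4 =>
        ih _ hlt (BT (adj A)) V H' P' h1 h2 h3 h4 hpV rfl)
    · -- blocks
      have hbd := block_bound hPH hP hO
      let c : ↥O → ℕ := fun a => Nat.card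
        (imgP (H0 H O) (LinearMap.range a.1) (inv_range a.2) (P ⊓ H0 H O))
      let x : ↥O → ℕ := fun a => Nat.card (LinearMap.range a.1)
      have hprod := prod_card_le hO
      haveI hsolH0 : Group.IsSolvable (H0 H O) :=
        Group.isSolvable_of_isSolvable_injective (f := Subgroup.inclusion H0_le)
          (Subgroup.inclusion_injective H0_le)
      have hi : ∀ a : ↥O, c a * q ≤ x a := by
        intro a
        have hne : LinearMap.range a.1 ≠ ⊥ := by
          intro h
          exact hO.ne0 a.1 a.2 (LinearMap.range_eq_bot.1 h)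
        haveI : Nontrivial (LinearMap.range a.1) := Submodule.nontrivial_iff_ne_bot.2 hne
        exact ih _ (hn ▸ finrank_range_lt hO a.2) K (LinearMap.range a.1)
          (imgH (H0 H O) (LinearMap.range a.1) (inv_range a.2)) _
          (imgH_solvable _ _ _) (ss_block hirr hO a.2) (imgP_le _ _ _ _)
          (imgP_isPGroup _ _ _ (hP.to_le inf_le_left)) (fun v => Subtype.ext (hpV v.1)) rfl
      have hOcard : 0 < O.card := by
        have := hO.card
        omega
      have hbd' : Nat.card P ≤ 2 ^ (O.card - 1) * ∏ a : ↥O, c a := hbd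
      calc Nat.card P * q ≤ (2 ^ (O.card - 1) * ∏ a : ↥O, c a) * q := Nat.mul_le_mul_right _ hbd'
        _ ≤ (q ^ (O.card - 1) * ∏ a : ↥O, c a) * q :=
            Nat.mul_le_mul_right _ (Nat.mul_le_mul_right _ (Nat.pow_le_pow_left hq2 _))
        _ = q ^ O.card * ∏ a : ↥O, c a := by
            obtain ⟨m, hm⟩ : ∃ m, O.card = m + 1 := ⟨O.card - 1, by omega⟩
            rw [hm]
            simp only [Nat.add_sub_cancel]
            ring
        _ = ∏ a : ↥O, (c a * q) := by
            rw [Finset.prod_mul_distrib, Finset.prod_const, Finset.card_univ, Fintype.card_coe,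
              mul_comm]
        _ ≤ ∏ a : ↥O, x a := Finset.prod_le_prod' fun a _ => hi a
        _ ≤ Nat.card V := hprod

end Main

section Abstract

universe u v

theorem exists_equiv_fin {p : ℕ} [hp : Fact p.Prime] (A : Type v) [AddCommGroup A]
    [Module (ZMod p) A] [Finite A] : ∃ d : ℕ, Nonempty (A ≃ₗ[ZMod p] (Fin d → ZMod p)) := by
  haveI : Module.Finite (ZMod p) A := Module.Finite.of_finite
  exact ⟨_, ⟨(Module.finBasis (ZMod p) A).equivFun⟩⟩

/-- **The bound**, additive form. -/
theorem p_part_bound_add {Γ : Type u} {A : Type v} [Group Γ] [Finite Γ] [Group.IsSolvable Γ]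
    [AddCommGroup A] [Finite A] [Nontrivial A] {p : ℕ} [hp : Fact p.Prime] [Module (ZMod p) A]
    (ρA : Γ → (A →+ A)) (hone : ∀ a, ρA 1 a = a) (hmul : ∀ g h a, ρA (g * h) a = ρA g (ρA h a))
    (hfaith : ∀ g h, (∀ a, ρA g a = ρA h a) → g = h)
    (hirr : ∀ S : AddSubgroup A, (∀ g, ∀ s ∈ S, ρA g s ∈ S) → S = ⊥ ∨ S = ⊤)
    (P : Subgroup Γ) (hP : IsPGroup p P) : Nat.card P * p ≤ Nat.card A := by
  classical
  obtain ⟨d, ⟨e⟩⟩ := exists_equiv_fin (p := p) A
  let V₀ := Fin d → ZMod p
  have hcardV : Nat.card V₀ = Nat.card A := (Nat.card_congr e.toEquiv).symm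
  haveI hnt : Nontrivial V₀ := e.symm.toEquiv.nontrivial
  have hρinv : ∀ g (a : A), ρA g⁻¹ (ρA g a) = a := by
    intro g a
    rw [← hmul, inv_mul_cancel, hone]
  have hρinv' : ∀ g (a : A), ρA g (ρA g⁻¹ a) = a := by
    intro g a
    rw [← hmul, mul_inv_cancel, hone]
  let θ : Γ →* (V₀ ≃ₗ[ZMod p] V₀) :=
    { toFun := fun g =>
        { toFun := fun v => e (ρA g (e.symm v))
          invFun := fun v => e (ρA g⁻¹ (e.symm v))
          map_add' := fun a b => by
            rw [map_add, map_add, map_add]
          map_smul' := fun c a => by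
            rw [map_smul, ZMod.map_smul, map_smul]
            rfl
          left_inv := fun v => by
            simp only [LinearEquiv.symm_apply_apply, hρinv, LinearEquiv.apply_symm_apply]
          right_inv := fun v => by
            simp only [LinearEquiv.symm_apply_apply, hρinv', LinearEquiv.apply_symm_apply] }
      map_one' := by
        ext v i
        show e (ρA 1 (e.symm v)) i = v i
        rw [hone, LinearEquiv.apply_symm_apply]
      map_mul' := fun x y => by
        apply LinearEquiv.ext
        intro v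
        show e (ρA (x * y) (e.symm v)) = e (ρA x (e.symm (e (ρA y (e.symm v)))))
        rw [LinearEquiv.symm_apply_apply, hmul] }
  have hθ : ∀ g v, θ g v = e (ρA g (e.symm v)) := fun g v => rfl
  have hθinj : Function.Injective θ := by
    intro x y hxy
    apply hfaith
    intro a
    have h1 := congrArg (fun g : V₀ ≃ₗ[ZMod p] V₀ => g (e a)) hxy
    simp only [hθ, LinearEquiv.symm_apply_apply] at h1
    exact e.injective h1
  let H₀ : Subgroup (V₀ ≃ₗ[ZMod p] V₀) := θ.range
  let P₀ : Subgroup (V₀ ≃ₗ[ZMod p] V₀) := P.map θ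
  have hP₀card : Nat.card P₀ = Nat.card P :=
    Nat.card_congr (Subgroup.equivMapOfInjective P θ hθinj).toEquiv.symm
  have hsol : Group.IsSolvable H₀ :=
    Group.isSolvable_of_surjective (f := θ.rangeRestrict) θ.rangeRestrict_surjective
  have hP₀le : P₀ ≤ H₀ := by
    rintro _ ⟨x, _, rfl⟩
    exact ⟨x, rfl⟩
  have hP₀p : IsPGroup p P₀ := by
    rintro ⟨_, x, hx, rfl⟩
    obtain ⟨k, hk⟩ := hP ⟨x, hx⟩
    refine ⟨k, Subtype.ext ?_⟩
    have h1 : x ^ p ^ k = 1 := by
      have := congrArg Subtype.val hk
      simpa using this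
    show (θ x) ^ p ^ k = 1
    rw [← map_pow, h1, map_one]
  have hIrr : Irr H₀ := by
    intro W hW
    let S : AddSubgroup A :=
      { carrier := {x | e x ∈ W}
        add_mem' := fun {a b} ha hb => by
          show e (a + b) ∈ W
          rw [map_add]
          exact W.add_mem ha hb
        zero_mem' := by
          show e 0 ∈ W
          rw [map_zero]
          exact W.zero_mem
        neg_mem' := fun {a} ha => by
          show e (-a) ∈ W
          rw [map_neg]
          exact W.neg_mem ha }
    have hS : ∀ g, ∀ s ∈ S, ρA g s ∈ S := by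
      intro g s hs
      have h1 := hW _ ⟨g, rfl⟩ _ hs
      simp only [hθ, LinearEquiv.symm_apply_apply] at h1
      exact h1
    rcases hirr S hS with h | h
    · left
      rw [eq_bot_iff]
      intro v hv
      rw [Submodule.mem_bot]
      have h1 : e.symm v ∈ S := by
        show e (e.symm v) ∈ W
        rw [LinearEquiv.apply_symm_apply]
        exact hv
      rw [h, AddSubgroup.mem_bot] at h1
      have h3 := congrArg e h1
      rwa [LinearEquiv.apply_symm_apply, map_zero] at h3
    · right
      rw [eq_top_iff]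
      intro v _
      have h1 : e.symm v ∈ S := by
        rw [h]
        exact AddSubgroup.mem_top _
      have h2 : e (e.symm v) ∈ W := h1
      rwa [LinearEquiv.apply_symm_apply] at h2
  have hSS : SS H₀ := by
    intro W hW
    rcases hIrr W hW with h | h
    · subst h
      exact ⟨⊤, InvS.top _, isCompl_bot_top⟩
    · subst h
      exact ⟨⊥, InvS.bot _, isCompl_top_bot⟩
  have hpV₀ : ∀ v : V₀, p • v = 0 := by
    intro v
    rw [← Nat.cast_smul_eq_nsmul (ZMod p), ZMod.natCast_self, zero_smul]
  have h := core _ (ZMod p) V₀ H₀ P₀ hsol hSS hP₀le hP₀p hpV₀ rfl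
  rwa [hP₀card, Nat.card_zmod, hcardV] at h

/-- **The bound**: a solvable group acting faithfully and irreducibly on an elementary abelian
`p`-group `Q` has Sylow `p`-subgroups of order less than `#Q`. -/
theorem p_part_bound {Γ : Type u} {Q : Type v} [Group Γ] [Finite Γ] [Group.IsSolvable Γ] [Group Q]
    [Finite Q] [Nontrivial Q] (hcomm : ∀ a b : Q, a * b = b * a) {p : ℕ} [hp : Fact p.Prime]
    (hexp : ∀ x : Q, x ^ p = 1) (ρ : Γ →* MulAut Q) (hfaith : Function.Injective ρ)
    (hirr : ∀ S : Subgroup Q, (∀ g, ∀ s ∈ S, ρ g s ∈ S) → S = ⊥ ∨ S = ⊤)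
    (P : Subgroup Γ) (hP : IsPGroup p P) : Nat.card P * p ≤ Nat.card Q := by
  classical
  letI : CommGroup Q := { ‹Group Q› with mul_comm := hcomm }
  have hA : ∀ a : Additive Q, p • a = 0 := fun a => hexp (Additive.toMul a)
  letI : Module (ZMod p) (Additive Q) := AddCommGroup.zmodModule hA
  let ρA : Γ → (Additive Q →+ Additive Q) := fun g => MonoidHom.toAdditive (ρ g).toMonoidHom
  have h := p_part_bound_add (A := Additive Q) (p := p) ρA
    (fun a => by
      show Additive.ofMul (ρ 1 (Additive.toMul a)) = a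
      rw [map_one]
      rfl)
    (fun g h a => by
      show Additive.ofMul (ρ (g * h) (Additive.toMul a)) = _
      rw [map_mul]
      rfl)
    (fun g h hgh => hfaith (by
      ext x
      exact congrArg Additive.toMul (hgh (Additive.ofMul x))))
    (fun S hS => by
      rcases hirr (AddSubgroup.toSubgroup' S) (fun g s hs => hS g (Additive.ofMul s) hs) with h | h
      · left
        rw [eq_bot_iff]
        intro a ha
        have h1 : Additive.toMul a ∈ AddSubgroup.toSubgroup' S := ha
        rw [h, Subgroup.mem_bot] at h1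
        exact h1
      · right
        rw [eq_top_iff]
        intro a _
        have h1 : Additive.toMul a ∈ AddSubgroup.toSubgroup' S := by
          rw [h]
          exact Subgroup.mem_top _
        exact h1)
    P hP
  exact h

end Abstract

end Cfsg.Agent.Lib.PPartCore
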