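import Mathlib
import Cfsg.Agent.Lib.PPartCore

/-!
# Primitive solvable groups: the complement does not cover the minimal normal subgroup
-/

set_option autoImplicit false
set_option linter.style.haveILetI false
set_option linter.unusedVariables false
set_option linter.unusedSectionVars false

namespace Cfsg.Agent.Lib.BergerGroup

open Cfsg.Agent.Lib.PPartCore

universe u

/-- A primitive solvable group with point stabiliser `H`: `H` complements the minimal normal
subgroup `V` and `|V|` does not divide `|H|`. -/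
theorem prim_facts {K : Type u} [Group K] [Finite K] [Group.IsSolvable K] (H V : Subgroup K)
    (hV : V.Normal) (hVb : V ≠ ⊥)
    (hmin : ∀ N : Subgroup K, N.Normal → N ≤ V → N = ⊥ ∨ N = V)
    (hcore : ∀ N : Subgroup K, N.Normal → N ≤ H → N = ⊥) (hsup : H ⊔ V = ⊤) :
    H ⊓ V = ⊥ ∧ ¬ (Nat.card V ∣ Nat.card H) := by
  classical
  haveI := hV
  -- decomposition
  have hdec : ∀ g : K, ∃ h ∈ H, ∃ v ∈ V, g = h * v := by
    intro g
    have h1 : g ∈ H ⊔ V := by
      rw [hsup]
      exact Subgroup.mem_top _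
    rw [← SetLike.mem_coe, Subgroup.mul_normal] at h1
    obtain ⟨h, hh, v, hv, rfl⟩ := Set.mem_mul.mp h1
    exact ⟨h, hh, v, hv, rfl⟩
  haveI hnt : Nontrivial V := (Subgroup.nontrivial_iff_ne_bot V).mpr hVb
  -- `V` is commutative
  have hcomm : ∀ a ∈ V, ∀ b ∈ V, a * b = b * a := by
    have h1 : (⁅V, V⁆ : Subgroup K).Normal := inferInstance
    have h2 : ⁅V, V⁆ ≤ V := Subgroup.commutator_le_left V V
    rcases hmin _ h1 h2 with h3 | h3
    · intro a ha b hb
      have h4 := Subgroup.commutator_mem_commutator ha hb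
      rw [h3, Subgroup.mem_bot, commutatorElement_eq_one_iff_mul_comm] at h4
      exact h4
    · exfalso
      have h4 : (commutator V) < ⊤ := IsSolvable.commutator_lt_top_of_nontrivial V
      have h5 : (commutator V).map V.subtype = (⊤ : Subgroup V).map V.subtype := by
        rw [Subgroup.map_subtype_commutator, h3]
        ext x
        simp
      exact h4.ne (Subgroup.map_injective (Subgroup.subtype_injective V) h5)
  -- elementary abelian
  obtain ⟨p, hp, hpdvd⟩ : ∃ p : ℕ, p.Prime ∧ p ∣ Nat.card V := by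
    refine Nat.exists_prime_and_dvd ?_
    have : 1 < Nat.card V := Finite.one_lt_card
    omega
  haveI : Fact p.Prime := ⟨hp⟩
  have hexp : ∀ x ∈ V, x ^ p = 1 := by
    let Ω : Subgroup K :=
      { carrier := {x | x ∈ V ∧ x ^ p = 1}
        mul_mem' := fun {a b} ha hb => by
          refine ⟨V.mul_mem ha.1 hb.1, ?_⟩
          have : Commute a b := hcomm a ha.1 b hb.1
          rw [this.mul_pow, ha.2, hb.2, one_mul]
        one_mem' := ⟨V.one_mem, one_pow _⟩
        inv_mem' := fun {a} ha => ⟨V.inv_mem ha.1, by rw [inv_pow, ha.2, inv_one]⟩ }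
    have hΩn : Ω.Normal := by
      constructor
      intro x hx g
      refine ⟨hV.conj_mem x hx.1 g, ?_⟩
      rw [conj_pow, hx.2, mul_one, mul_inv_cancel]
    rcases hmin Ω hΩn (fun x hx => hx.1) with h1 | h1
    · exfalso
      obtain ⟨x, hx⟩ := exists_prime_orderOf_dvd_card' p hpdvd
      have h2 : (x : K) ∈ Ω := by
        refine ⟨x.2, ?_⟩
        have : x ^ p = 1 := by rw [← hx, pow_orderOf_eq_one]
        have h3 := congrArg Subtype.val this
        simpa using h3
      rw [h1, Subgroup.mem_bot] at h2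
      have h3 : x = 1 := Subtype.ext h2
      rw [h3, orderOf_one] at hx
      exact hp.one_lt.ne hx
    · intro x hx
      rw [← h1] at hx
      exact hx.2
  -- disjointness
  have hinf : H ⊓ V = ⊥ := by
    apply hcore _ _ inf_le_left
    constructor
    intro x hx g
    obtain ⟨h, hh, v, hv, rfl⟩ := hdec g
    have h1 : h * v * x * (h * v)⁻¹ = h * x * h⁻¹ := by
      have : v * x = x * v := hcomm v hv x hx.2
      calc h * v * x * (h * v)⁻¹ = h * (v * x) * v⁻¹ * h⁻¹ := by group
        _ = h * (x * v) * v⁻¹ * h⁻¹ := by rw [this]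
        _ = h * x * h⁻¹ := by group
    rw [h1]
    exact ⟨H.mul_mem (H.mul_mem hh hx.1) (H.inv_mem hh), hV.conj_mem x hx.2 h⟩
  refine ⟨hinf, ?_⟩
  -- the action
  let ρ : H →* MulAut V := MulAut.conjNormal.comp H.subtype
  have hρ : ∀ (h : H) (v : V), ((ρ h v : V) : K) = h * v * (h : K)⁻¹ := fun h v =>
    MulAut.conjNormal_apply _ _
  have hfaith : Function.Injective ρ := by
    rw [injective_iff_map_eq_one]
    intro h hh
    have hcent : ∀ v ∈ V, (h : K) * v = v * h := by
      intro v hv
      have h1 := hρ h ⟨v, hv⟩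
      rw [hh] at h1
      have h2 : v = h * v * (h : K)⁻¹ := h1
      calc (h : K) * v = h * v * (h : K)⁻¹ * h := by group
        _ = v * h := by rw [← h2]
    let C : Subgroup K :=
      { carrier := {x | x ∈ H ∧ ∀ v ∈ V, x * v = v * x}
        mul_mem' := fun {a b} ha hb => by
          refine ⟨H.mul_mem ha.1 hb.1, fun v hv => ?_⟩
          rw [mul_assoc, hb.2 v hv, ← mul_assoc, ha.2 v hv, mul_assoc]
        one_mem' := ⟨H.one_mem, fun v _ => by group⟩
        inv_mem' := fun {a} ha => by
          refine ⟨H.inv_mem ha.1, fun v hv => ?_⟩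
          have h1 := ha.2 v hv
          calc a⁻¹ * v = a⁻¹ * (v * a) * a⁻¹ := by group
            _ = a⁻¹ * (a * v) * a⁻¹ := by rw [h1]
            _ = v * a⁻¹ := by group }
    have hCn : C.Normal := by
      constructor
      intro c hc g
      obtain ⟨k, hk, v, hv, rfl⟩ := hdec g
      have h1 : k * v * c * (k * v)⁻¹ = k * c * k⁻¹ := by
        have : v * c = c * v := (hc.2 v hv).symm
        calc k * v * c * (k * v)⁻¹ = k * (v * c) * v⁻¹ * k⁻¹ := by group
          _ = k * (c * v) * v⁻¹ * k⁻¹ := by rw [this]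
          _ = k * c * k⁻¹ := by group
      rw [h1]
      refine ⟨H.mul_mem (H.mul_mem hk hc.1) (H.inv_mem hk), fun w hw => ?_⟩
      have h2 : k⁻¹ * w * k ∈ V := by
        have := hV.conj_mem w hw k⁻¹
        simpa using this
      have h3 := hc.2 _ h2
      calc k * c * k⁻¹ * w = k * (c * (k⁻¹ * w * k)) * k⁻¹ := by group
        _ = k * ((k⁻¹ * w * k) * c) * k⁻¹ := by rw [h3]
        _ = w * (k * c * k⁻¹) := by group
    have hC := hcore C hCn (fun x hx => hx.1)
    have h1 : (h : K) ∈ C := ⟨h.2, hcent⟩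
    rw [hC, Subgroup.mem_bot] at h1
    exact Subtype.ext h1
  have hirr : ∀ S : Subgroup V, (∀ g, ∀ s ∈ S, ρ g s ∈ S) → S = ⊥ ∨ S = ⊤ := by
    intro S hS
    have hSn : (S.map V.subtype).Normal := by
      constructor
      rintro _ ⟨s, hs, rfl⟩ g
      obtain ⟨h, hh, v, hv, rfl⟩ := hdec g
      have h1 : h * v * (s : K) * (h * v)⁻¹ = h * s * h⁻¹ := by
        have : v * (s : K) = s * v := hcomm v hv s s.2
        calc h * v * (s : K) * (h * v)⁻¹ = h * (v * s) * v⁻¹ * h⁻¹ := by group
          _ = h * (s * v) * v⁻¹ * h⁻¹ := by rw [this]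
          _ = h * s * h⁻¹ := by group
      show h * v * (s : K) * (h * v)⁻¹ ∈ S.map V.subtype
      rw [h1]
      exact ⟨ρ ⟨h, hh⟩ s, hS ⟨h, hh⟩ s hs, hρ ⟨h, hh⟩ s⟩
    have hle : S.map V.subtype ≤ V := by
      rintro _ ⟨s, _, rfl⟩
      exact s.2
    rcases hmin _ hSn hle with h1 | h1
    · left
      exact (Subgroup.map_eq_bot_iff_of_injective S (Subgroup.subtype_injective V)).mp h1
    · right
      rw [eq_top_iff]
      intro x _
      have h2 : (x : K) ∈ S.map V.subtype := by
        rw [h1]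
        exact x.2
      obtain ⟨s, hs, hsx⟩ := h2
      have : s = x := Subtype.ext hsx
      rwa [← this]
  -- the Sylow subgroup
  obtain ⟨P⟩ : Nonempty (Sylow p H) := inferInstance
  have hP : IsPGroup p (P : Subgroup H) := P.isPGroup'
  have hexp' : ∀ x : V, x ^ p = 1 := fun x => Subtype.ext (by simpa using hexp x x.2)
  have hcomm' : ∀ a b : V, a * b = b * a := fun a b => Subtype.ext (hcomm a a.2 b b.2)
  have hbound := p_part_bound hcomm' hexp' ρ hfaith hirr (P : Subgroup H) hP
  intro hdvd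
  have hVp : IsPGroup p V := fun x => ⟨1, by simpa using hexp' x⟩
  obtain ⟨n, hn⟩ := IsPGroup.iff_card.mp hVp
  rw [hn] at hdvd hbound
  have h1 := Sylow.pow_dvd_card_of_pow_dvd_card P hdvd
  have h2 := Nat.le_of_dvd Nat.card_pos h1
  have h3 : Nat.card P * 1 < Nat.card P * p :=
    Nat.mul_lt_mul_of_pos_left hp.one_lt Nat.card_pos
  have h4 : Nat.card (P : Subgroup H) = Nat.card P := rfl
  rw [h4] at hbound
  omega

/-- The reduction from a maximal subgroup of a solvable group. -/
theorem group_part {G : Type u} [Group G] [Finite G] [Group.IsSolvable G] (H : Subgroup G)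
    (hH : IsCoatom H) : ∃ L V : Subgroup G, L.Normal ∧ V.Normal ∧ L ≤ V ∧ L ≤ H ∧ H ⊓ V = L ∧
      H.index = L.relIndex V ∧ ¬ L.relIndex V ∣ V.index := by
  classical
  let L := H.normalCore
  have hLn : L.Normal := Subgroup.normalCore_normal H
  haveI := hLn
  have hLH : L ≤ H := Subgroup.normalCore_le H
  have hLne : L ≠ ⊤ := by
    intro h
    apply hH.1
    rw [eq_top_iff, ← h]
    exact hLH
  let π : G →* G ⧸ L := QuotientGroup.mk' L
  have hπ : Function.Surjective π := QuotientGroup.mk'_surjective L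
  have hker : π.ker = L := QuotientGroup.ker_mk' L
  haveI hnt : Nontrivial (G ⧸ L) := QuotientGroup.nontrivial_iff.mpr hLne
  -- minimal normal subgroup
  obtain ⟨Vb, hVb⟩ := Set.Finite.exists_minimal (Set.toFinite {N : Subgroup (G ⧸ L) | N.Normal ∧ N ≠ ⊥})
    ⟨⊤, Subgroup.normal_top, top_ne_bot⟩
  have hVbn : Vb.Normal := hVb.prop.1
  haveI := hVbn
  have hVb0 : Vb ≠ ⊥ := hVb.prop.2
  have hmin : ∀ N : Subgroup (G ⧸ L), N.Normal → N ≤ Vb → N = ⊥ ∨ N = Vb := by
    intro N hN hle
    by_cases h : N = ⊥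
    · exact Or.inl h
    · right
      exact le_antisymm hle (hVb.le_of_le ⟨hN, h⟩ hle)
  let Hb := H.map π
  let V := Vb.comap π
  have hVn : V.Normal := hVbn.comap π
  have hLV : L ≤ V := by
    intro x hx
    show π x ∈ Vb
    have : π x = 1 := by
      rw [← MonoidHom.mem_ker, hker]
      exact hx
    rw [this]
    exact Vb.one_mem
  have hcomap : Hb.comap π = H := by
    show (H.map π).comap π = H
    rw [Subgroup.comap_map_eq, hker]
    exact sup_eq_left.mpr hLH
  have hcore : ∀ N : Subgroup (G ⧸ L), N.Normal → N ≤ Hb → N = ⊥ := by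
    intro N hN hle
    have h1 : (N.comap π).Normal := hN.comap π
    have h2 : N.comap π ≤ H := by
      rw [← hcomap]
      exact Subgroup.comap_mono hle
    have h3 : N.comap π ≤ L := (Subgroup.normal_le_normalCore).mpr h2
    rw [eq_bot_iff]
    intro y hy
    obtain ⟨x, rfl⟩ := hπ y
    have h4 : x ∈ L := h3 hy
    rw [Subgroup.mem_bot, ← MonoidHom.mem_ker, hker]
    exact h4
  have hVH : ¬ V ≤ H := by
    intro h
    have h1 : V ≤ L := (Subgroup.normal_le_normalCore).mpr h
    apply hVb0
    rw [eq_bot_iff]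
    intro y hy
    obtain ⟨x, rfl⟩ := hπ y
    have h2 : x ∈ L := h1 hy
    rw [Subgroup.mem_bot, ← MonoidHom.mem_ker, hker]
    exact h2
  have hsupG : H ⊔ V = ⊤ := by
    apply hH.2
    apply lt_of_le_of_ne le_sup_left
    intro h
    exact hVH (by rw [h]; exact le_sup_right)
  have hmapV : V.map π = Vb := Subgroup.map_comap_eq_self_of_surjective hπ Vb
  have hsup : Hb ⊔ Vb = ⊤ := by
    have h1 := congrArg (Subgroup.map π) hsupG
    rw [Subgroup.map_sup, hmapV, Subgroup.map_top_of_surjective π hπ] at h1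
    exact h1
  obtain ⟨hinf, hndvd⟩ := prim_facts Hb Vb hVbn hVb0 hmin hcore hsup
  -- cardinalities
  have hidxV : Vb.index = Nat.card Hb := by
    have h1 : Vb.relIndex (Hb ⊔ Vb) = Vb.relIndex Hb := Subgroup.relIndex_sup_right Hb Vb
    rw [hsup, Subgroup.relIndex_top_right] at h1
    rw [h1, ← Subgroup.inf_relIndex_right, inf_comm, hinf, Subgroup.relIndex_bot_left]
  have hmul1 : Nat.card Vb * Nat.card Hb = Nat.card (G ⧸ L) := by
    rw [← hidxV]
    exact Subgroup.card_mul_index Vb
  have hmul2 : Nat.card Hb * Hb.index = Nat.card (G ⧸ L) := Subgroup.card_mul_index Hb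
  have hidxH : Hb.index = Nat.card Vb := by
    have h1 : 0 < Nat.card Hb := Nat.card_pos
    apply Nat.eq_of_mul_eq_mul_left h1
    rw [hmul2, mul_comm, hmul1]
  have hHidx : H.index = Nat.card Vb := by
    rw [← hcomap, Subgroup.index_comap_of_surjective Hb hπ, hidxH]
  have hVidx : V.index = Nat.card Hb := by
    rw [Subgroup.index_comap_of_surjective Vb hπ, hidxV]
  have hrel : L.relIndex V = Nat.card Vb := by
    have h1 : L.relIndex V * V.index = L.index := Subgroup.relIndex_mul_index hLV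
    have h2 : L.index = Nat.card (G ⧸ L) := rfl
    rw [h2, hVidx, ← hmul1] at h1
    exact Nat.eq_of_mul_eq_mul_right Nat.card_pos h1
  refine ⟨L, V, hLn, hVn, hLV, hLH, ?_, ?_, ?_⟩
  · apply le_antisymm
    · rintro x ⟨hx1, hx2⟩
      have h1 : π x ∈ Hb ⊓ Vb := ⟨⟨x, hx1, rfl⟩, hx2⟩
      rw [hinf, Subgroup.mem_bot, ← MonoidHom.mem_ker, hker] at h1
      exact h1
    · exact le_inf hLH hLV
  · rw [hHidx, hrel]
  · rw [hrel, hVidx]
    exact hndvd

end Cfsg.Agent.Lib.BergerGroup
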