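import Mathlib

set_option autoImplicit false

/-!
Finite subsets of a finite type as natural numbers (bit masks), for fast kernel computation.
`e : α → ℕ` is an injective numbering of the points.
-/

namespace Cfsg.Agent.Lib.BitMask

section

variable {α : Type*} (e : α → ℕ)

/-- Mask of a finite set. -/
def toMask (s : Finset α) : ℕ := ∑ a ∈ s, 2 ^ e a

theorem toMask_empty : toMask e ∅ = 0 := rfl

variable {e}

theorem testBit_toMask (he : Function.Injective e) (s : Finset α) (a : α) :
    (toMask e s).testBit (e a) = true ↔ a ∈ s := by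
  classical
  have h1 : toMask e s = ∑ i ∈ s.image e, 2 ^ i := by
    rw [Finset.sum_image (fun x _ y _ h => he h)]
    rfl
  rw [h1, ← Nat.mem_bitIndices, ← List.mem_toFinset, Finset.toFinset_bitIndices_sum_two_pow,
    Finset.mem_image]
  constructor
  · rintro ⟨b, hb, hab⟩
    rwa [← he hab]
  · intro h
    exact ⟨a, h, rfl⟩

theorem testBit_toMask_of_notMem (he : Function.Injective e) (s : Finset α) (j : ℕ)
    (hj : j ∉ Set.range e) : (toMask e s).testBit j = false := by
  classical
  have h1 : toMask e s = ∑ i ∈ s.image e, 2 ^ i := by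
    rw [Finset.sum_image (fun x _ y _ h => he h)]
    rfl
  rw [Bool.eq_false_iff, ne_eq, h1, ← Nat.mem_bitIndices, ← List.mem_toFinset,
    Finset.toFinset_bitIndices_sum_two_pow, Finset.mem_image]
  rintro ⟨b, _, hab⟩
  exact hj ⟨b, hab⟩

theorem toMask_lt {n : ℕ} (hn : ∀ a, e a < n) (he : Function.Injective e) (s : Finset α) :
    toMask e s < 2 ^ n := by
  classical
  have h1 : toMask e s = ∑ i ∈ s.image e, 2 ^ i := by
    rw [Finset.sum_image (fun x _ y _ h => he h)]
    rfl
  rw [h1]
  apply Nat.geomSum_lt le_rfl
  intro k hk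
  obtain ⟨a, _, rfl⟩ := Finset.mem_image.1 hk
  exact hn a

theorem toMask_injective (he : Function.Injective e) : Function.Injective (toMask (α := α) e) := by
  intro s t h
  ext a
  rw [← testBit_toMask he, ← testBit_toMask he, h]

theorem mem_iff_testBit (he : Function.Injective e) {s : Finset α} {m : ℕ} (h : toMask e s = m)
    (a : α) : a ∈ s ↔ m.testBit (e a) = true := by
  rw [← h, testBit_toMask he]

/-- Subset as a mask computation. -/
theorem subset_iff_land (he : Function.Injective e) (s t : Finset α) :
    s ⊆ t ↔ toMask e s &&& toMask e t = toMask e s := by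
  constructor
  · intro h
    apply Nat.eq_of_testBit_eq
    intro j
    rw [Nat.testBit_land]
    by_cases hj : j ∈ Set.range e
    · obtain ⟨a, rfl⟩ := hj
      by_cases ha : a ∈ s
      · rw [(testBit_toMask he s a).2 ha, (testBit_toMask he t a).2 (h ha)]
        rfl
      · have : (toMask e s).testBit (e a) = false := by
          rw [Bool.eq_false_iff, ne_eq, testBit_toMask he]
          exact ha
        rw [this]
        rfl
    · rw [testBit_toMask_of_notMem he s j hj]
      rfl
  · intro h a ha
    have h1 := (testBit_toMask he s a).2 ha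
    rw [← h, Nat.testBit_land, Bool.and_eq_true] at h1
    exact (testBit_toMask he t a).1 h1.2

/-- Population count of the low `n` bits. -/
def popc : ℕ → ℕ → ℕ
  | 0, _ => 0
  | n + 1, m => popc n m + (m.testBit n).toNat

theorem popc_eq (n m : ℕ) :
    popc n m = ((Finset.range n).filter fun i => m.testBit i = true).card := by
  induction n with
  | zero => rfl
  | succ k ih =>
    rw [popc, ih, Finset.range_add_one, Finset.filter_insert]
    by_cases hk : m.testBit k = true
    · rw [if_pos hk, Finset.card_insert_of_notMem, hk]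
      · rfl
      · simp
    · rw [if_neg hk, Bool.eq_false_iff.2 hk]
      rfl

theorem card_eq_popc {n : ℕ} (hn : ∀ a, e a < n) (he : Function.Injective e) [Fintype α]
    (s : Finset α) (hsurj : ∀ i < n, i ∈ Set.range e) :
    s.card = popc n (toMask e s) := by
  classical
  rw [popc_eq, ← Finset.card_image_of_injective s he]
  congr 1
  ext i
  simp only [Finset.mem_image, Finset.mem_filter, Finset.mem_range]
  constructor
  · rintro ⟨a, ha, rfl⟩
    exact ⟨hn a, (testBit_toMask he s a).2 ha⟩
  · rintro ⟨hi, h⟩
    obtain ⟨a, rfl⟩ := hsurj i hi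
    exact ⟨a, (testBit_toMask he s a).1 h, rfl⟩

/-- The finite set of a mask. -/
def ofMask (e : α → ℕ) [Fintype α] (m : ℕ) : Finset α :=
  Finset.univ.filter fun a => m.testBit (e a) = true

theorem mem_ofMask [Fintype α] (m : ℕ) (a : α) : a ∈ ofMask e m ↔ m.testBit (e a) = true := by
  simp [ofMask]

theorem ofMask_toMask [Fintype α] (he : Function.Injective e) (s : Finset α) :
    ofMask e (toMask e s) = s := by
  ext a
  rw [mem_ofMask, testBit_toMask he]

theorem toMask_ofMask {n : ℕ} [Fintype α] (he : Function.Injective e)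
    (hsurj : ∀ i < n, i ∈ Set.range e) (hn : ∀ a, e a < n) {m : ℕ} (hm : m < 2 ^ n) :
    toMask e (ofMask e m) = m := by
  apply Nat.eq_of_testBit_eq
  intro j
  by_cases hj : j < n
  · obtain ⟨a, rfl⟩ := hsurj j hj
    rw [Bool.eq_iff_iff, testBit_toMask he, mem_ofMask]
  · have h1 : m.testBit j = false := by
      apply Nat.testBit_eq_false_of_lt
      exact lt_of_lt_of_le hm (Nat.pow_le_pow_right (by norm_num) (by omega))
    rw [h1, testBit_toMask_of_notMem he]
    rintro ⟨a, rfl⟩
    exact hj (hn a)

/-- A mask of a predicate: fast to evaluate. -/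
theorem toMask_filter [Fintype α] (P : α → Prop) [DecidablePred P] :
    toMask e (Finset.univ.filter P) = ∑ a, if P a then 2 ^ e a else 0 := by
  rw [toMask, Finset.sum_filter]

end

/-- Check a Boolean predicate on `[lo, lo + 2 ^ k)` with recursion depth `k` only. -/
def allRange (P : ℕ → Bool) : ℕ → ℕ → Bool
  | 0, lo => P lo
  | k + 1, lo => allRange P k lo && allRange P k (lo + 2 ^ k)

theorem of_allRange {P : ℕ → Bool} {k lo : ℕ} (h : allRange P k lo = true) {n : ℕ} (h1 : lo ≤ n)
    (h2 : n < lo + 2 ^ k) : P n = true := by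
  induction k generalizing lo with
  | zero =>
    rw [allRange] at h
    have : n = lo := by
      simp only [pow_zero] at h2
      omega
    rwa [this]
  | succ k ih =>
    rw [allRange, Bool.and_eq_true] at h
    rw [pow_succ] at h2
    by_cases hn : n < lo + 2 ^ k
    · exact ih h.1 h1 hn
    · exact ih h.2 (by omega) (by omega)

end Cfsg.Agent.Lib.BitMask
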