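import Mathlib
import Cfsg.Agent.Lib.BlkSylow

/-!
# Conjugation actions of subgroups on sets of pairs
-/

set_option autoImplicit false
set_option linter.unusedSectionVars false
set_option linter.unusedVariables false
set_option linter.style.haveILetI false

namespace Cfsg.Agent.Lib.BlkAct

open Cfsg.Agent.Lib.BlkSylow

variable {G : Type*} [Group G] 

/-- A subgroup acts by conjugation on an invariant set of pairs. -/
@[reducible] def pairAction (Q : Subgroup G) (S : Set (G × G))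
    (hS : ∀ u ∈ Q, ∀ xy ∈ S, (u * xy.1 * u⁻¹, u * xy.2 * u⁻¹) ∈ S) : MulAction Q S where
  smul u xy := ⟨((u : G) * xy.1.1 * (u : G)⁻¹, (u : G) * xy.1.2 * (u : G)⁻¹), hS u u.2 xy.1 xy.2⟩
  one_smul xy := by
    apply Subtype.ext
    show (((1 : Q) : G) * xy.1.1 * ((1 : Q) : G)⁻¹, ((1 : Q) : G) * xy.1.2 * ((1 : Q) : G)⁻¹) = xy.1
    simp
  mul_smul u v xy := by
    apply Subtype.ext
    show (((u * v : Q) : G) * xy.1.1 * ((u * v : Q) : G)⁻¹, ((u * v : Q) : G) * xy.1.2 * ((u * v : Q) : G)⁻¹) =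
      ((u : G) * ((v : G) * xy.1.1 * (v : G)⁻¹) * (u : G)⁻¹, (u : G) * ((v : G) * xy.1.2 * (v : G)⁻¹) * (u : G)⁻¹)
    simp [mul_assoc]

variable [Finite G] {p : ℕ} [hp : Fact p.Prime]

/-- The number of elements of an invariant set of pairs is, modulo `p`, the number of those centralized
by the `p`-subgroup. -/
theorem card_pairs_modEq {Q : Subgroup G} (hQ : IsPGroup p Q) (S : Set (G × G))
    (hS : ∀ u ∈ Q, ∀ xy ∈ S, (u * xy.1 * u⁻¹, u * xy.2 * u⁻¹) ∈ S) :
    Nat.card S ≡ Nat.card {xy : G × G // xy ∈ S ∧ xy.1 ∈ Subgroup.centralizer (Q : Set G) ∧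
      xy.2 ∈ Subgroup.centralizer (Q : Set G)} [MOD p] := by
  letI := pairAction Q S hS
  refine (hQ.card_modEq_card_fixedPoints S).trans ?_
  suffices e : Nat.card (MulAction.fixedPoints Q S) = Nat.card {xy : G × G // xy ∈ S ∧ xy.1 ∈ Subgroup.centralizer (Q : Set G) ∧
      xy.2 ∈ Subgroup.centralizer (Q : Set G)} by rw [e]
  apply Nat.card_congr
  refine ⟨fun t => ⟨t.1.1, t.1.2, ?_, ?_⟩, fun t => ⟨⟨t.1, t.2.1⟩, ?_⟩, ?_, ?_⟩
  · rw [Subgroup.mem_centralizer_iff]
    intro u hu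
    have h := t.2 ⟨u, hu⟩
    have h2 : ((u * t.1.1.1 * u⁻¹, u * t.1.1.2 * u⁻¹) : G × G) = t.1.1 := congrArg Subtype.val h
    have h3 := congrArg Prod.fst h2
    simp only at h3
    calc u * t.1.1.1 = (u * t.1.1.1 * u⁻¹) * u := by group
      _ = _ := by rw [h3]
  · rw [Subgroup.mem_centralizer_iff]
    intro u hu
    have h := t.2 ⟨u, hu⟩
    have h2 : ((u * t.1.1.1 * u⁻¹, u * t.1.1.2 * u⁻¹) : G × G) = t.1.1 := congrArg Subtype.val h
    have h3 := congrArg Prod.snd h2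
    simp only at h3
    calc u * t.1.1.2 = (u * t.1.1.2 * u⁻¹) * u := by group
      _ = _ := by rw [h3]
  · intro u
    apply Subtype.ext
    show (((u : G) * t.1.1 * (u : G)⁻¹, (u : G) * t.1.2 * (u : G)⁻¹) : G × G) = t.1
    have h1 := (Subgroup.mem_centralizer_iff.mp t.2.2.1) u u.2
    have h2 := (Subgroup.mem_centralizer_iff.mp t.2.2.2) u u.2
    ext
    · show (u : G) * t.1.1 * (u : G)⁻¹ = t.1.1
      rw [h1]; group
    · show (u : G) * t.1.2 * (u : G)⁻¹ = t.1.2
      rw [h2]; group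
  · intro t; rfl
  · intro t; rfl

/-- If `n` divides every orbit then it divides the whole set. -/
theorem dvd_card_of_dvd_orbits {Q X : Type*} [Group Q] [Finite Q] [Finite X] [MulAction Q X] {n : ℕ}
    (h : ∀ x : X, n ∣ Nat.card (MulAction.orbit Q x)) : n ∣ Nat.card X := by
  classical
  haveI := Fintype.ofFinite X
  letI : Setoid X := MulAction.orbitRel Q X
  rw [Nat.card_congr (MulAction.selfEquivSigmaOrbits Q X), Nat.card_sigma]
  apply Finset.dvd_sum
  intro ω _
  exact h _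

end Cfsg.Agent.Lib.BlkAct
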