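import Mathlib
import Cfsg.Agent.Lib.BlkCentralProd
import Cfsg.Agent.Lib.CharProduct
import Cfsg.Agent.Lib.CharCentral
import Cfsg.Agent.Lib.McKayTools

/-!
# Blocks with a normal defect group

The degree of a member of a block with normal defect group `P` is divisible by the `p`-part of the
index of `P` and by the degree of a constituent on `P`; this gives Reynolds' theorem.
-/

set_option autoImplicit false
set_option linter.unusedSectionVars false
set_option linter.unusedVariables false
set_option linter.style.haveILetI false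

namespace Cfsg.Agent.Lib.BlkNormalDefect

open Cfsg Cfsg.Agent.Lib.CharBasic Cfsg.Agent.Lib.CharInd Cfsg.Agent.Lib.CharIntegrality
open Cfsg.Agent.Lib.BlockLocal Cfsg.Agent.Lib.BlockIdem Cfsg.Agent.Lib.BlkBasic
open Cfsg.Agent.Lib.BlockVal Cfsg.Agent.Lib.CharInduction
open Cfsg.Agent.Lib.CharClifford Cfsg.Agent.Lib.BlkNormalSub Cfsg.Agent.Lib.CharProduct
open Cfsg.Agent.Lib.CharKernel
open scoped ComplexConjugate commutatorElement

universe u

variable {G : Type u} [Group G] [Fintype G] {p : ℕ} {M : Ideal AlgInt}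

/-- The value of a character at an element centralizing a normal subgroup `P` is divisible by the
degree of a constituent on `P`. -/
theorem exists_char_eq_mul {P : Subgroup G} (hPn : P.Normal) [Fintype P] {g : G}
    (hg : ∀ a ∈ P, a * g = g * a) (χ : IrrCharacter G) (μ : IrrCharacter P)
    (hc : classInner (fun n : P => (χ : G → ℂ) n) (μ : P → ℂ) ≠ 0) :
    ∃ w : ℂ, IsIntegral ℤ w ∧ (χ : G → ℂ) g = (μ : P → ℂ) 1 * w := by
  classical
  let Z₀ : Subgroup G := Subgroup.zpowers g
  letI : Fintype Z₀ := Fintype.ofFinite _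
  have hcomm : ∀ (a : P) (z : Z₀), Commute (a : G) (z : G) := by
    rintro ⟨a, ha⟩ ⟨z, k, rfl⟩
    exact Commute.zpow_right (hg a ha) k
  let f : P × Z₀ →* G := MonoidHom.noncommCoprod P.subtype Z₀.subtype (fun a z => hcomm a z)
  have hf : ∀ x : P × Z₀, f x = (x.1 : G) * (x.2 : G) := fun x => rfl
  have hχc := IsIrrCharacter.isCharacter χ.2
  have hχ' : IsCharacter (P × Z₀) ((χ : G → ℂ) ∘ f) := isCharacter_comp f hχc
  obtain ⟨m, hm⟩ := exists_nat_decomp hχ'
  have hex : ∀ ξ : IrrCharacter (P × Z₀), ∃ (θ : P → ℂ) (τ : Z₀ → ℂ),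
      IsIrrCharacter P θ ∧ IsIrrCharacter Z₀ τ ∧ (ξ : P × Z₀ → ℂ) = prodChar θ τ :=
    fun ξ => exists_prodChar ξ.2
  choose θ τ hθ hτ hξ using hex
  have hval : ∀ x : P × Z₀, (χ : G → ℂ) ((x.1 : G) * (x.2 : G)) =
      ∑ ξ, (m ξ : ℂ) * (θ ξ x.1 * τ ξ x.2) := by
    intro x
    have h1 := congrFun hm x
    simp only [Function.comp_apply, hf, Finset.sum_apply, Pi.smul_apply, nsmul_eq_mul] at h1
    rw [h1]
    refine Finset.sum_congr rfl fun ξ _ => ?_
    rw [hξ ξ]
    rfl
  -- the constituents
  have hdeg : ∀ ξ, m ξ ≠ 0 → θ ξ 1 = (μ : P → ℂ) 1 := by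
    intro ξ hξm
    have hcθ : classInner (fun n : P => (χ : G → ℂ) n) (θ ξ) ≠ 0 := by
      have hdec : (fun n : P => (χ : G → ℂ) n) = ∑ ξ', ((m ξ' : ℂ) * τ ξ' 1) • θ ξ' := by
        funext a
        have h1 := hval (a, 1)
        simp only [OneMemClass.coe_one, mul_one] at h1
        rw [h1]
        simp only [Finset.sum_apply, Pi.smul_apply, smul_eq_mul]
        refine Finset.sum_congr rfl fun ξ' _ => ?_
        ring
      rw [hdec, classInner_sum_left]
      have hterm : ∀ ξ', classInner (((m ξ' : ℂ) * τ ξ' 1) • θ ξ') (θ ξ) =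
          ((m ξ' * charDegree (τ ξ') * (if θ ξ' = θ ξ then 1 else 0) : ℕ) : ℂ) := by
        intro ξ'
        rw [classInner_smul_left]
        push_cast
        rw [one_eq_charDegree (IsIrrCharacter.isCharacter (hτ ξ'))]
        by_cases h : θ ξ' = θ ξ
        · rw [h, classInner_irr_self (hθ ξ)]
          simp
        · rw [classInner_irr_ne (hθ ξ') (hθ ξ) h]
          simp [h]
      simp_rw [hterm]
      rw [← Nat.cast_sum]
      intro h0
      have h1 : (∑ ξ', m ξ' * charDegree (τ ξ') * (if θ ξ' = θ ξ then 1 else 0)) = 0 := by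
        exact_mod_cast h0
      have h2 := (Finset.sum_eq_zero_iff.mp h1) ξ (Finset.mem_univ _)
      simp only [if_true, mul_one, mul_eq_zero] at h2
      rcases h2 with h2 | h2
      · exact hξm h2
      · exact (charDegree_pos (hτ ξ)).ne' h2
    obtain ⟨y, hy⟩ := exists_conj_of_constituents P hPn χ.2 μ.2 (hθ ξ) hc hcθ
    rw [hy, conjBy_apply]
    refine congrArg _ (Subtype.ext ?_)
    simp
  refine ⟨∑ ξ, (m ξ : ℂ) * τ ξ ⟨g, Subgroup.mem_zpowers g⟩, ?_, ?_⟩
  · refine IsIntegral.sum _ fun ξ _ => IsIntegral.mul (isIntegral_natCast _) ?_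
    exact Cfsg.Agent.Lib.BlockVal.isIntegral_char (IsIrrCharacter.isCharacter (hτ ξ)) _
  · have h1 := hval (1, ⟨g, Subgroup.mem_zpowers g⟩)
    simp only [OneMemClass.coe_one, one_mul] at h1
    rw [h1, Finset.mul_sum]
    refine Finset.sum_congr rfl fun ξ _ => ?_
    by_cases h : m ξ = 0
    · simp [h]
    · rw [hdeg ξ h]
      ring

/-- The degree of a member of a block with normal defect group. -/
theorem factorization_add_le [hp : Fact p.Prime] (hM : IsPModular p M) {P : Subgroup G}
    (hPn : P.Normal) [Fintype P] {B : Set (IrrCharacter G)} (hD : IsDefectGroup p M B P)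
    {χ : IrrCharacter G} (hχ : χ ∈ B) (μ : IrrCharacter P)
    (hc : classInner (fun n : P => (χ : G → ℂ) n) (μ : P → ℂ) ≠ 0) :
    P.index.factorization p + (charDegree (μ : P → ℂ)).factorization p ≤
      (charDegree (χ : G → ℂ)).factorization p := by
  classical
  have hPr := hM.2.1.isPrime
  obtain ⟨g, hg, S, hS⟩ := hD
  have hPg : ∀ a ∈ P, a * g = g * a := by
    intro a ha
    rw [hS] at ha
    obtain ⟨s, -, rfl⟩ := ha
    exact (Subgroup.mem_centralizer_singleton_iff.mp s.2)
  obtain ⟨w, hw, hval⟩ := exists_char_eq_mul hPn hPg χ μ hc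
  by_contra hlt
  push Not at hlt
  apply hg.2.2 χ hχ
  unfold centralChar
  have hμc := IsIrrCharacter.isCharacter μ.2
  have hχc := IsIrrCharacter.isCharacter χ.2
  have hχ1 := one_eq_charDegree hχc
  have hμ1 := one_eq_charDegree hμc
  have hD0 : charDegree (χ : G → ℂ) ≠ 0 := (charDegree_pos χ.2).ne'
  have hμ0 : charDegree (μ : P → ℂ) ≠ 0 := (charDegree_pos μ.2).ne'
  have hCi : (Subgroup.centralizer ({g} : Set G)).index ≠ 0 := Subgroup.index_ne_zero_of_finite
  have hPi : P.index ≠ 0 := Subgroup.index_ne_zero_of_finite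
  have hn0 : (Subgroup.centralizer ({g} : Set G)).index * charDegree (μ : P → ℂ) ≠ 0 := mul_ne_zero hCi hμ0
  have hcard : Nat.card P = p ^ (Nat.card (Subgroup.centralizer ({g} : Set G))).factorization p := by
    rw [hS, Subgroup.card_map_of_injective Subtype.val_injective]
    exact Sylow.card_eq_multiplicity S
  have hvP : (Nat.card P).factorization p = (Nat.card (Subgroup.centralizer ({g} : Set G))).factorization p := by
    rw [hcard, hp.out.factorization_pow]
    simp
  have h1 : (Nat.card P * P.index).factorization p = (Nat.card G).factorization p := by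
    rw [Subgroup.card_mul_index]
  have h2 : (Nat.card (Subgroup.centralizer ({g} : Set G)) * (Subgroup.centralizer ({g} : Set G)).index).factorization p = (Nat.card G).factorization p := by
    rw [Subgroup.card_mul_index]
  rw [Nat.factorization_mul Nat.card_pos.ne' hPi, Finsupp.add_apply] at h1
  rw [Nat.factorization_mul Nat.card_pos.ne' hCi, Finsupp.add_apply] at h2
  have hdvd : p ^ ((charDegree (χ : G → ℂ)).factorization p + 1) ∣
      (Subgroup.centralizer ({g} : Set G)).index * charDegree (μ : P → ℂ) := by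
    rw [hp.out.pow_dvd_iff_le_factorization hn0, Nat.factorization_mul hCi hμ0, Finsupp.add_apply]
    omega
  have hmem := memLocalIdeal_natCast_div_of_dvd hM hD0 hdvd
  have h3 := memLocalIdeal_mul_right hmem (memLocalRing_of_isIntegral hw)
  convert h3 using 1
  rw [hval, hχ1, hμ1]
  push_cast
  ring

/-- A `p`-group all of whose irreducible characters are linear is commutative. -/
theorem comm_of_forall_degree {P : Type u} [Group P] [Fintype P] [hp : Fact p.Prime]
    (hP : IsPGroup p P) (h : ∀ μ : IrrCharacter P, charDegree (μ : P → ℂ) = 1) (a b : P) :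
    a * b = b * a := by
  classical
  have h1 := Cfsg.Agent.Lib.CharCentral.pGroup_sum hP
  have h2 : Finset.univ.filter (fun χ : IrrCharacter P => p ∣ charDegree (χ : P → ℂ)) = ∅ := by
    ext χ
    simp only [Finset.mem_filter, Finset.mem_univ, true_and, Finset.notMem_empty, iff_false]
    rw [h χ]
    exact fun h3 => hp.out.one_lt.ne' (Nat.dvd_one.mp h3)
  rw [h2, Finset.sum_empty, zero_add] at h1
  have h3 := Subgroup.card_mul_index (commutator P)
  rw [h1] at h3
  have h4 : Nat.card (commutator P) = 1 := by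
    have h5 : 0 < Nat.card P := Nat.card_pos
    exact Nat.eq_of_mul_eq_mul_right h5 (by rw [h3, one_mul])
  have h6 : commutator P = ⊥ := Subgroup.card_eq_one.mp h4
  have h7 : ⁅a, b⁆ ∈ commutator P := Subgroup.commutator_mem_commutator (Subgroup.mem_top a) (Subgroup.mem_top b)
  rw [h6, Subgroup.mem_bot] at h7
  exact commutatorElement_eq_one_iff_mul_comm.mp h7

end Cfsg.Agent.Lib.BlkNormalDefect
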