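import Mathlib
import Cfsg.Agent.Lib.BlkDefect
import Cfsg.Agent.Lib.BlkNormalSub

/-!
# Blocks with abelian defect group over a normal subgroup of `p`-power index

If `G = N P`, `y ∈ N` is centralized by the abelian group `P` and the representation `ρ` of `G`
is irreducible with `χ(u y) ≠ 0` for all `u ∈ P`, then `ρ` restricted to `N` is irreducible.
The sum over `N`-conjugates of `u y` is central and non-zero, hence invertible, and it forces
every `N`-endomorphism to commute with `u`.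
-/

set_option autoImplicit false
set_option linter.style.haveILetI false
set_option linter.unusedVariables false
set_option linter.unusedSectionVars false

namespace Cfsg.Agent.Lib.BlockAbelIndex

open Cfsg Cfsg.Agent.Lib.CharBasic Cfsg.Agent.Lib.CharInd
open scoped ComplexConjugate

universe u

section Rep

variable {G : Type u} [Group G] [Fintype G] (N : Subgroup G) [hN : N.Normal] [Fintype N]
  {k : ℕ} (ρ : Representation ℂ G (Fin k → ℂ))

/-- The sum of the `N`-conjugates of `w` in the representation. -/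
noncomputable def sumN (w : G) : Module.End ℂ (Fin k → ℂ) :=
  ∑ n : N, ρ ((n : G) * w * (n : G)⁻¹)

theorem sumN_mul_N (w : G) (n₀ : N) : sumN N ρ w * ρ n₀ = ρ n₀ * sumN N ρ w := by
  unfold sumN
  rw [Finset.sum_mul, Finset.mul_sum]
  refine Fintype.sum_equiv (Equiv.mulLeft n₀⁻¹) _ _ fun n => ?_
  rw [← map_mul, ← map_mul]
  congr 1
  simp only [Equiv.coe_mulLeft, Subgroup.coe_mul, InvMemClass.coe_inv]
  group

theorem sumN_mul_comm (w g : G) (hg : Commute g w) : sumN N ρ w * ρ g = ρ g * sumN N ρ w := by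
  unfold sumN
  rw [Finset.sum_mul, Finset.mul_sum]
  let e : N ≃ N :=
    { toFun := fun n => ⟨g * n * g⁻¹, hN.conj_mem n n.2 g⟩
      invFun := fun n => ⟨g⁻¹ * n * g, by simpa using hN.conj_mem n n.2 g⁻¹⟩
      left_inv := fun n => Subtype.ext (by simp [mul_assoc])
      right_inv := fun n => Subtype.ext (by simp [mul_assoc]) }
  refine Fintype.sum_equiv e.symm _ _ fun n => ?_
  rw [← map_mul, ← map_mul]
  congr 1
  show (n : G) * w * (n : G)⁻¹ * g = g * ((g⁻¹ * n * g) * w * (g⁻¹ * n * g)⁻¹)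
  have h1 : g * w = w * g := hg
  have h2 : (g⁻¹ * (n : G) * g) * w * (g⁻¹ * n * g)⁻¹ = g⁻¹ * n * (g * w) * g⁻¹ * (n : G)⁻¹ * g := by
    group
  rw [h2, h1]
  group

theorem trace_sumN (w : G) :
    LinearMap.trace ℂ _ (sumN N ρ w) = (Nat.card N : ℂ) * ρ.character w := by
  unfold sumN
  rw [map_sum]
  have h : ∀ n : N, LinearMap.trace ℂ _ (ρ ((n : G) * w * (n : G)⁻¹)) = ρ.character w :=
    fun n => Representation.char_conj ρ w (n : G)
  simp only [h, Finset.sum_const, Finset.card_univ, nsmul_eq_mul, Nat.card_eq_fintype_card]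

/-- An `N`-endomorphism is moved by conjugation with `w` exactly as the sum of conjugates allows. -/
theorem sumN_mul_end (w : G) (Z : Module.End ℂ (Fin k → ℂ)) (hZ : ∀ n : N, Z * ρ n = ρ n * Z) :
    sumN N ρ w * Z = (ρ w * Z * ρ w⁻¹) * sumN N ρ w := by
  have hZ' : ∀ n : N, (ρ w * Z * ρ w⁻¹) * ρ n = ρ n * (ρ w * Z * ρ w⁻¹) := by
    intro n
    have hm : w⁻¹ * (n : G) * w ∈ N := by simpa using hN.conj_mem n n.2 w⁻¹
    have h1 := hZ ⟨_, hm⟩
    simp only at h1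
    have h2 : ρ (w⁻¹ * (n : G)) = ρ (w⁻¹ * (n : G) * w) * ρ w⁻¹ := by
      rw [← map_mul]; congr 1; group
    calc (ρ w * Z * ρ w⁻¹) * ρ n = ρ w * Z * ρ (w⁻¹ * (n : G)) := by
          rw [mul_assoc, ← map_mul]
      _ = ρ w * (Z * ρ (w⁻¹ * (n : G) * w)) * ρ w⁻¹ := by
          rw [h2]; simp only [mul_assoc]
      _ = ρ w * (ρ (w⁻¹ * (n : G) * w) * Z) * ρ w⁻¹ := by rw [h1]
      _ = ρ (w * (w⁻¹ * (n : G) * w)) * Z * ρ w⁻¹ := by
          rw [map_mul ρ w]; simp only [mul_assoc]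
      _ = ρ n * (ρ w * Z * ρ w⁻¹) := by
          have h3 : w * (w⁻¹ * (n : G) * w) = (n : G) * w := by group
          rw [h3, map_mul]; simp only [mul_assoc]
  unfold sumN
  rw [Finset.sum_mul, Finset.mul_sum]
  refine Finset.sum_congr rfl fun n _ => ?_
  have h4 : ρ ((n : G) * w * (n : G)⁻¹) = ρ n * ρ w * ρ (n⁻¹ : N) := by
    rw [← map_mul, ← map_mul]; rfl
  rw [h4]
  have h5 := hZ n⁻¹
  have h6 : ρ w * ρ (n⁻¹ : N) * Z = ρ w * Z * ρ (n⁻¹ : N) := by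
    rw [mul_assoc, ← h5, mul_assoc]
  have h7 : ρ w * Z = (ρ w * Z * ρ w⁻¹) * ρ w := by
    rw [mul_assoc, ← map_mul, inv_mul_cancel, map_one, mul_one]
  calc ρ n * ρ w * ρ (n⁻¹ : N) * Z = ρ n * (ρ w * ρ (n⁻¹ : N) * Z) := by simp only [mul_assoc]
    _ = ρ n * (ρ w * Z) * ρ (n⁻¹ : N) := by rw [h6]; simp only [mul_assoc]
    _ = ρ n * ((ρ w * Z * ρ w⁻¹) * ρ w) * ρ (n⁻¹ : N) := by rw [← h7]
    _ = (ρ n * (ρ w * Z * ρ w⁻¹)) * (ρ w * ρ (n⁻¹ : N)) := by simp only [mul_assoc]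
    _ = ((ρ w * Z * ρ w⁻¹) * ρ n) * (ρ w * ρ (n⁻¹ : N)) := by rw [hZ' n]
    _ = (ρ w * Z * ρ w⁻¹) * (ρ n * ρ w * ρ (n⁻¹ : N)) := by simp only [mul_assoc]

/-- If all `N`-endomorphisms are scalars, the restriction to `N` is irreducible. -/
theorem isIrreducible_comp_of_scalar (hV : Nontrivial (Fin k → ℂ))
    (h : ∀ Z : Module.End ℂ (Fin k → ℂ), (∀ n : N, Z * ρ n = ρ n * Z) →
      ∃ c : ℂ, Z = c • (1 : Module.End ℂ (Fin k → ℂ))) :
    (ρ.comp N.subtype : N →* Module.End ℂ (Fin k → ℂ)) = ρ.comp N.subtype ∧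
    ∀ U : Submodule ℂ (Fin k → ℂ), (∀ (n : N), ∀ v ∈ U, ρ n v ∈ U) → U = ⊥ ∨ U = ⊤ := by
  refine ⟨rfl, fun U hU => ?_⟩
  by_cases hU0 : U = ⊥
  · exact Or.inl hU0
  right
  obtain ⟨g₀, hg₀⟩ := LinearMap.exists_leftInverse_of_injective U.subtype (by simp)
  let π₀ : Module.End ℂ (Fin k → ℂ) := U.subtype ∘ₗ g₀
  have hπ₀U : ∀ v, π₀ v ∈ U := fun v => Subtype.property _
  have hπ₀fix : ∀ v ∈ U, π₀ v = v := by
    intro v hv
    have h1 := LinearMap.congr_fun hg₀ ⟨v, hv⟩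
    show ((g₀ v : U) : Fin k → ℂ) = v
    have h2 : g₀ v = ⟨v, hv⟩ := h1
    rw [h2]
  let Z : Module.End ℂ (Fin k → ℂ) := ∑ n : N, ρ n * π₀ * ρ (n⁻¹ : N)
  have hZc : ∀ n₀ : N, Z * ρ n₀ = ρ n₀ * Z := by
    intro n₀
    show (∑ n : N, ρ n * π₀ * ρ (n⁻¹ : N)) * ρ n₀ = ρ n₀ * ∑ n : N, ρ n * π₀ * ρ (n⁻¹ : N)
    rw [Finset.sum_mul, Finset.mul_sum]
    refine Fintype.sum_equiv (Equiv.mulLeft n₀⁻¹) _ _ fun n => ?_
    have e1 : ρ ((n₀⁻¹ * n : N) : G) = ρ (n₀⁻¹ : N) * ρ n := by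
      rw [← map_mul]; rfl
    have e2 : ρ (((n₀⁻¹ * n)⁻¹ : N) : G) = ρ (n⁻¹ : N) * ρ n₀ := by
      rw [← map_mul]; congr 1; simp
    simp only [Equiv.coe_mulLeft]
    rw [e1, e2]
    have e3 : ρ n₀ * (ρ (n₀⁻¹ : N) * ρ n) = ρ n := by
      rw [← mul_assoc, ← map_mul, ← map_mul]
      simp
    calc ρ n * π₀ * ρ (n⁻¹ : N) * ρ n₀ = (ρ n₀ * (ρ (n₀⁻¹ : N) * ρ n)) * π₀ * (ρ (n⁻¹ : N) * ρ n₀) := by
          rw [e3]; simp only [mul_assoc]
      _ = _ := by simp only [mul_assoc]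
  obtain ⟨c, hc⟩ := h Z hZc
  have hZU : ∀ v, Z v ∈ U := by
    intro v
    show (∑ n : N, ρ n * π₀ * ρ (n⁻¹ : N)) v ∈ U
    rw [LinearMap.sum_apply]
    exact U.sum_mem fun n _ => hU n _ (hπ₀U _)
  have hZfix : ∀ v ∈ U, Z v = (Fintype.card N : ℂ) • v := by
    intro v hv
    show (∑ n : N, ρ n * π₀ * ρ (n⁻¹ : N)) v = _
    rw [LinearMap.sum_apply]
    have h1 : ∀ n : N, (ρ n * π₀ * ρ (n⁻¹ : N)) v = v := by
      intro n
      have h2 : ρ (n⁻¹ : N) v ∈ U := hU n⁻¹ v hv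
      show ρ n (π₀ (ρ (n⁻¹ : N) v)) = v
      rw [hπ₀fix _ h2, ← Module.End.mul_apply, ← map_mul]
      simp
    simp only [h1, Finset.sum_const, Finset.card_univ]
    rw [Nat.cast_smul_eq_nsmul]
  obtain ⟨v₀, hv₀, hv₀0⟩ := U.ne_bot_iff.mp hU0
  have hcN : c = (Fintype.card N : ℂ) := by
    have h1 := hZfix v₀ hv₀
    rw [hc] at h1
    have h2 : c • v₀ = (Fintype.card N : ℂ) • v₀ := by simpa using h1
    exact smul_left_injective ℂ hv₀0 h2
  have hN0 : (Fintype.card N : ℂ) ≠ 0 := by exact_mod_cast Fintype.card_pos.ne'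
  rw [eq_top_iff]
  intro v _
  have h1 := hZU v
  rw [hc, hcN] at h1
  have h2 : (Fintype.card N : ℂ) • v ∈ U := by simpa using h1
  exact (U.smul_mem_iff hN0).mp h2

end Rep

section Main

variable {G : Type u} [Group G] [Fintype G] (N P : Subgroup G) [hN : N.Normal] [Fintype N]
  {k : ℕ} (ρ : Representation ℂ G (Fin k → ℂ))

/-- **Irreducible restriction.** -/
theorem isIrrCharacter_restrict (hsup : N ⊔ P = ⊤) {y : G} (hyN : y ∈ N)
    (hyP : ∀ u ∈ P, Commute u y) (hPab : ∀ a ∈ P, ∀ b ∈ P, a * b = b * a)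
    (hρ : ρ.IsIrreducible) (hne : ∀ u ∈ P, ρ.character (u * y) ≠ 0) :
    IsIrrCharacter N (fun n : N => ρ.character n) := by
  have hirr := (isIrreducible_iff ρ).mp hρ
  have hk : (k : ℂ) ≠ 0 := by
    have h1 := hirr.1
    have h2 : 0 < Module.finrank ℂ (Fin k → ℂ) := Module.finrank_pos
    have h3 : 0 < k := by simpa using h2
    exact_mod_cast h3.ne'
  have hcard : (Nat.card N : ℂ) ≠ 0 := by exact_mod_cast Nat.card_pos.ne'
  have hrep : ∀ g : G, ∃ n ∈ N, ∃ u ∈ P, g = n * u := by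
    intro g
    have hg : g ∈ ((N ⊔ P : Subgroup G) : Set G) := by
      rw [hsup]
      trivial
    rw [Subgroup.normal_mul N P] at hg
    obtain ⟨n, hn, u, hu, rfl⟩ := hg
    exact ⟨n, hn, u, hu, rfl⟩
  -- every `N`-endomorphism commutes with `P`
  have hcommP : ∀ Z : Module.End ℂ (Fin k → ℂ), (∀ n : N, Z * ρ n = ρ n * Z) → ∀ u ∈ P,
      Z * ρ u = ρ u * Z := by
    intro Z hZ u hu
    set w := u * y with hw
    have hwc : ∀ v ∈ P, Commute v w := by
      intro v hv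
      exact Commute.mul_right (hPab v hv u hu) (hyP v hv)
    have hcentral : ∀ g : G, sumN N ρ w ∘ₗ ρ g = ρ g ∘ₗ sumN N ρ w := by
      intro g
      obtain ⟨n, hn, v, hv, rfl⟩ := hrep g
      have h1 := sumN_mul_N N ρ w ⟨n, hn⟩
      have h2 := sumN_mul_comm N ρ w v (hwc v hv)
      show sumN N ρ w * ρ (n * v) = ρ (n * v) * sumN N ρ w
      rw [map_mul, ← mul_assoc, show sumN N ρ w * ρ n = ρ n * sumN N ρ w from h1, mul_assoc, h2,
        mul_assoc]
    obtain ⟨c, hc⟩ := schur_scalar hρ _ hcentral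
    have hc0 : c ≠ 0 := by
      rintro rfl
      have h1 := trace_sumN N ρ w
      rw [hc, zero_smul, map_zero] at h1
      rcases mul_eq_zero.mp h1.symm with h2 | h2
      · exact hcard h2
      · exact hne u hu h2
    have hs : sumN N ρ w = c • (1 : Module.End ℂ (Fin k → ℂ)) := hc
    have h3 := sumN_mul_end N ρ w Z hZ
    rw [hs, smul_mul_assoc, one_mul, mul_smul_comm, mul_one] at h3
    have h4 : Z = ρ w * Z * ρ w⁻¹ := smul_right_injective _ hc0 h3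
    have h5 : Z * ρ w = ρ w * Z := by
      conv_lhs => rw [h4]
      rw [mul_assoc, ← map_mul, inv_mul_cancel, map_one, mul_one]
    have h6 : Z * ρ y = ρ y * Z := hZ ⟨y, hyN⟩
    have h7 : ρ w = ρ u * ρ y := map_mul _ _ _
    rw [h7] at h5
    -- cancel `ρ y`
    have h8 : ρ y * ρ y⁻¹ = 1 := by rw [← map_mul, mul_inv_cancel, map_one]
    calc Z * ρ u = Z * (ρ u * ρ y) * ρ y⁻¹ := by
          simp only [mul_assoc, h8, mul_one]
      _ = ρ u * ρ y * Z * ρ y⁻¹ := by rw [h5]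
      _ = ρ u * Z * ρ y * ρ y⁻¹ := by
          rw [mul_assoc (ρ u) (ρ y) Z, ← h6, ← mul_assoc (ρ u) Z]
      _ = ρ u * Z := by simp only [mul_assoc, h8, mul_one]
  have hscal : ∀ Z : Module.End ℂ (Fin k → ℂ), (∀ n : N, Z * ρ n = ρ n * Z) →
      ∃ c : ℂ, Z = c • (1 : Module.End ℂ (Fin k → ℂ)) := by
    intro Z hZ
    exact schur_scalar hρ Z (by
      intro g
      obtain ⟨n, hn, v, hv, rfl⟩ := hrep g
      show Z * ρ (n * v) = ρ (n * v) * Z
      rw [map_mul, ← mul_assoc, show Z * ρ n = ρ n * Z from hZ ⟨n, hn⟩, mul_assoc,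
        hcommP Z hZ v hv, mul_assoc])
  have h := (isIrreducible_comp_of_scalar N ρ hirr.1 hscal).2
  let σ : Representation ℂ N (Fin k → ℂ) := ρ.comp N.subtype
  have hσ : σ.IsIrreducible := by
    rw [isIrreducible_iff]
    exact ⟨hirr.1, fun U hU => h U hU⟩
  exact ⟨k, σ, hσ, rfl⟩

end Main

end Cfsg.Agent.Lib.BlockAbelIndex
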