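import Mathlib
import Cfsg.Agent.Lib.BitMask

set_option autoImplicit false

/-!
Backtrack search for permutations of `{0, ..., n - 1}` preserving a list of block masks, with a
soundness theorem: every such permutation extending a partial assignment is found at a leaf.
-/

namespace Cfsg.Agent.Lib.BlockSearch

open Cfsg.Agent.Lib.BitMask

/-- The image of a mask under a map of the points `i < n`. -/
def imgOf (t : ℕ → ℕ) (n m : ℕ) : ℕ := ∑ i ∈ (Finset.range n).filter (fun i => m.testBit i = true), 2 ^ t i

/-- The image of a mask under an association list. -/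
def imgL (L : List (ℕ × ℕ)) (m : ℕ) : ℕ :=
  (L.map fun p => if m.testBit p.1 then 2 ^ p.2 else 0).sum

/-- The mask of the domain of an association list. -/
def domL (L : List (ℕ × ℕ)) : ℕ := (L.map fun p => 2 ^ p.1).sum

/-- Consistency of an assignment with the blocks: a block in the domain maps to a block. -/
def chk (B : List ℕ) (L : List (ℕ × ℕ)) : Bool :=
  let d := domL L
  B.all fun m => (m &&& d != m) || (imgL L m ∈ B)

/-- The backtrack search: at each leaf the predicate `leaf` must hold. -/
def search (B : List ℕ) (n : ℕ) (leaf : List (ℕ × ℕ) → Bool) : List ℕ → List (ℕ × ℕ) → Bool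
  | [], L => leaf L
  | x :: rest, L =>
    (List.range n).all fun y =>
      (L.any fun p => p.2 == y) || !(chk B ((x, y) :: L)) || search B n leaf rest ((x, y) :: L)

/-- `t` is a permutation-like map on the points below `n`, preserving the block masks. -/
structure Preserves (B : List ℕ) (n : ℕ) (t : ℕ → ℕ) : Prop where
  lt : ∀ i < n, t i < n
  inj : ∀ i < n, ∀ j < n, t i = t j → i = j
  pres : ∀ m ∈ B, imgOf t n m ∈ B
  small : ∀ m ∈ B, m < 2 ^ n

/-- `t` agrees with an association list. -/
def Agrees (t : ℕ → ℕ) (L : List (ℕ × ℕ)) : Prop := ∀ p ∈ L, t p.1 = p.2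

theorem sum_map_eq (L : List (ℕ × ℕ)) (hnd : (L.map Prod.fst).Nodup) (f : ℕ × ℕ → ℕ) (g : ℕ → ℕ)
    (hfg : ∀ p ∈ L, f p = g p.1) : (L.map f).sum = ∑ i ∈ (L.map Prod.fst).toFinset, g i := by
  classical
  induction L with
  | nil => simp
  | cons a L ih =>
    simp only [List.map_cons, List.sum_cons, List.toFinset_cons]
    rw [List.map_cons, List.nodup_cons] at hnd
    rw [Finset.sum_insert (by simpa using hnd.1), hfg a (by simp),
      ih hnd.2 (fun p hp => hfg p (List.mem_cons_of_mem _ hp))]

theorem testBit_domL (L : List (ℕ × ℕ)) (hnd : (L.map Prod.fst).Nodup) (i : ℕ) :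
    (domL L).testBit i = true ↔ i ∈ L.map Prod.fst := by
  classical
  have : domL L = ∑ i ∈ (L.map Prod.fst).toFinset, 2 ^ i :=
    sum_map_eq L hnd _ (fun i => 2 ^ i) (fun _ _ => rfl)
  rw [this, ← Nat.mem_bitIndices, ← List.mem_toFinset, Finset.toFinset_bitIndices_sum_two_pow,
    List.mem_toFinset]

theorem imgOf_eq_imgL {t : ℕ → ℕ} {n : ℕ} {L : List (ℕ × ℕ)} (hnd : (L.map Prod.fst).Nodup)
    (ha : Agrees t L) {m : ℕ} (hm : m < 2 ^ n) (hdom : m &&& domL L = m)
 : imgOf t n m = imgL L m := by
  classical
  have h1 : imgL L m = ∑ i ∈ (L.map Prod.fst).toFinset, if m.testBit i then 2 ^ t i else 0 :=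
    sum_map_eq L hnd _ _ (fun p hp => by rw [ha p hp])
  rw [h1, imgOf, Finset.sum_filter]
  -- both sums are over the set bits of `m`
  have h2 : ∀ i, m.testBit i = true → i ∈ L.map Prod.fst := by
    intro i hi
    have := hi
    rw [← hdom, Nat.testBit_land, Bool.and_eq_true] at this
    exact (testBit_domL L hnd i).1 this.2
  have h3 : ∀ i, m.testBit i = true → i < n := by
    intro i hi
    by_contra hn
    have : m.testBit i = false := by
      apply Nat.testBit_eq_false_of_lt
      exact lt_of_lt_of_le hm (Nat.pow_le_pow_right (by norm_num) (by omega))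
    simp [this] at hi
  have e1 : ∑ i ∈ Finset.range n, (if m.testBit i = true then 2 ^ t i else 0) =
      ∑ i ∈ (Finset.range n).filter (fun i => m.testBit i = true), 2 ^ t i := by
    rw [Finset.sum_filter]
  have e2 : ∑ i ∈ (L.map Prod.fst).toFinset, (if m.testBit i = true then 2 ^ t i else 0) =
      ∑ i ∈ (L.map Prod.fst).toFinset.filter (fun i => m.testBit i = true), 2 ^ t i := by
    rw [Finset.sum_filter]
  rw [e1, e2]
  congr 1
  ext i
  simp only [Finset.mem_filter, Finset.mem_range, List.mem_toFinset]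
  constructor
  · rintro ⟨_, h⟩; exact ⟨h2 i h, h⟩
  · rintro ⟨_, h⟩; exact ⟨h3 i h, h⟩

theorem chk_of_preserves {B : List ℕ} {n : ℕ} {t : ℕ → ℕ} (ht : Preserves B n t)
    {L : List (ℕ × ℕ)} (hnd : (L.map Prod.fst).Nodup) (ha : Agrees t L) : chk B L = true := by
  rw [chk, List.all_eq_true]
  intro m hm
  by_cases h : m &&& domL L = m
  · have := imgOf_eq_imgL hnd ha (ht.small m hm) h
    simp only [Bool.or_eq_true, bne_iff_ne, ne_eq, h, not_true_eq_false, false_or, decide_eq_true_eq]
    rw [← this]
    exact ht.pres m hm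
  · simp [h]

/-- Soundness of the search. -/
theorem search_sound {B : List ℕ} {n : ℕ} {leaf : List (ℕ × ℕ) → Bool} {t : ℕ → ℕ}
    (ht : Preserves B n t) (seq : List ℕ) (L : List (ℕ × ℕ))
    (hs : search B n leaf seq L = true)
    (hnd : (seq ++ L.map Prod.fst).Nodup) (hlt : ∀ x ∈ seq, x < n) (hL : ∀ p ∈ L, p.1 < n)
    (ha : Agrees t L) :
    ∃ L' : List (ℕ × ℕ), Agrees t L' ∧ leaf L' = true ∧
      ∀ x, x ∈ seq ∨ x ∈ L.map Prod.fst → x ∈ L'.map Prod.fst := by
  induction seq generalizing L with
  | nil =>
    refine ⟨L, ha, hs, ?_⟩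
    rintro x (hx | hx)
    · simp at hx
    · exact hx
  | cons x rest ih =>
    have hxn := hlt x (by simp)
    rw [search, List.all_eq_true] at hs
    have hy := hs (t x) (List.mem_range.2 (ht.lt x hxn))
    simp only [List.cons_append, List.nodup_cons] at hnd
    have hnotin : x ∉ L.map Prod.fst := by
      intro h
      exact hnd.1 (List.mem_append_right _ h)
    have hnd' : ((x, t x) :: L).map Prod.fst |>.Nodup := by
      simp only [List.map_cons, List.nodup_cons]
      exact ⟨hnotin, List.Nodup.of_append_right hnd.2⟩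
    have ha' : Agrees t ((x, t x) :: L) := by
      intro p hp
      rcases List.mem_cons.1 hp with rfl | hp
      · rfl
      · exact ha p hp
    have hL' : ∀ p ∈ (x, t x) :: L, p.1 < n := by
      intro p hp
      rcases List.mem_cons.1 hp with rfl | hp
      · exact hxn
      · exact hL p hp
    have h1 : (L.any fun p => p.2 == t x) = false := by
      rw [Bool.eq_false_iff, ne_eq, List.any_eq_true]
      rintro ⟨p, hp, he⟩
      rw [beq_iff_eq, ← ha p hp] at he
      have := ht.inj _ (hL p hp) _ hxn he
      exact hnotin (this ▸ List.mem_map_of_mem hp)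
    have h2 := chk_of_preserves ht hnd' ha'
    simp only [h1, h2, Bool.not_true, Bool.or_false, Bool.false_or] at hy
    have hnd2 : (rest ++ ((x, t x) :: L).map Prod.fst).Nodup := by
      rw [List.map_cons]
      exact List.perm_middle.nodup_iff.2 (List.nodup_cons.2 hnd)
    obtain ⟨L', h3, h4, h5⟩ := ih ((x, t x) :: L) hy hnd2
      (fun z hz => hlt z (List.mem_cons_of_mem _ hz)) hL' ha'
    refine ⟨L', h3, h4, ?_⟩
    rintro z (hz | hz)
    · rcases List.mem_cons.1 hz with rfl | hz
      · exact h5 _ (Or.inr (by simp))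
      · exact h5 _ (Or.inl hz)
    · exact h5 _ (Or.inr (by simp only [List.map_cons]; exact List.mem_cons_of_mem _ hz))

section Bridge

variable {α : Type*} [Fintype α] [DecidableEq α] {e : α → ℕ} {d : ℕ → α} {n : ℕ}

/-- The image mask of a permutation in terms of the numbering. -/
theorem imgOf_eq_toMask (hde : ∀ a, d (e a) = a) (hed : ∀ i < n, e (d i) = i) (hlt : ∀ a, e a < n)
    (τ : Equiv.Perm α) (s : Finset α) :
    imgOf (fun i => e (τ (d i))) n (toMask e s) = toMask e (s.image τ) := by
  have he : Function.Injective e := Function.LeftInverse.injective hde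
  have h0 : toMask e (s.image τ) = ∑ a ∈ s, 2 ^ e (τ a) := by
    rw [toMask, Finset.sum_image (fun x _ y _ h => τ.injective h)]
  rw [h0, imgOf]
  symm
  apply Finset.sum_bij (fun a _ => e a)
  · intro a ha
    simp only [Finset.mem_filter, Finset.mem_range]
    exact ⟨hlt a, (testBit_toMask he s a).2 ha⟩
  · intro a _ b _ h
    exact he h
  · intro i hi
    simp only [Finset.mem_filter, Finset.mem_range] at hi
    refine ⟨d i, ?_, hed i hi.1⟩
    have := hi.2
    rw [← hed i hi.1] at this
    exact (testBit_toMask he s _).1 this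
  · intro a _
    rw [hde]

/-- A permutation preserving a family of masks (given by `toMask`) is `Preserves`. -/
theorem preserves_of_perm (hde : ∀ a, d (e a) = a) (hed : ∀ i < n, e (d i) = i) (hlt : ∀ a, e a < n)
    (τ : Equiv.Perm α) {B : List ℕ} (hsmall : ∀ m ∈ B, m < 2 ^ n)
    (hpres : ∀ s : Finset α, toMask e s ∈ B → toMask e (s.image τ) ∈ B) :
    Preserves B n (fun i => e (τ (d i))) := by
  have he : Function.Injective e := Function.LeftInverse.injective hde
  have hsurj : ∀ i < n, i ∈ Set.range e := fun i hi => ⟨d i, hed i hi⟩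
  refine ⟨fun i _ => hlt _, ?_, ?_, hsmall⟩
  · intro i hi j hj h
    have h1 : τ (d i) = τ (d j) := he h
    have h2 : d i = d j := τ.injective h1
    rw [← hed i hi, ← hed j hj, h2]
  · intro m hm
    have ht : toMask e (ofMask e m) = m := toMask_ofMask he hsurj hlt (hsmall m hm)
    have := imgOf_eq_toMask hde hed hlt τ (ofMask e m)
    rw [ht] at this
    rw [this]
    apply hpres
    rw [ht]
    exact hm

/-- Rigidity from a search: a block-preserving permutation fixing the points of `L` (a list of
fixed points) and passing the search with the leaf test "everything fixed" is the identity. -/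
theorem eq_one_of_search (hde : ∀ a, d (e a) = a) (hed : ∀ i < n, e (d i) = i) (hlt : ∀ a, e a < n)
    (τ : Equiv.Perm α) {B : List ℕ} (hsmall : ∀ m ∈ B, m < 2 ^ n)
    (hpres : ∀ s : Finset α, toMask e s ∈ B → toMask e (s.image τ) ∈ B)
    (seq : List ℕ) (L : List (ℕ × ℕ))
    (hs : search B n (fun L' => L'.all fun p => p.1 == p.2) seq L = true)
    (hnd : (seq ++ L.map Prod.fst).Nodup) (hlts : ∀ x ∈ seq, x < n) (hL : ∀ p ∈ L, p.1 < n)
    (hfix : ∀ p ∈ L, τ (d p.1) = d p.2 ∧ p.2 < n)
    (hall : ∀ i < n, i ∈ seq ∨ i ∈ L.map Prod.fst) : τ = 1 := by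
  have he : Function.Injective e := Function.LeftInverse.injective hde
  have hP := preserves_of_perm hde hed hlt τ hsmall hpres
  have ha : Agrees (fun i => e (τ (d i))) L := by
    intro p hp
    obtain ⟨h1, h2⟩ := hfix p hp
    simp only
    rw [h1, hed _ h2]
  obtain ⟨L', h1, h2, h3⟩ := search_sound hP seq L hs hnd hlts hL ha
  ext a
  have hn := hlt a
  have hmem := h3 (e a) (hall (e a) hn)
  obtain ⟨p, hp, hpa⟩ := List.mem_map.1 hmem
  have h4 := h1 p hp
  have h5 := List.all_eq_true.1 h2 p hp
  rw [beq_iff_eq] at h5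
  simp only at h4
  rw [hpa, hde] at h4
  rw [← h5, hpa] at h4
  have := he h4
  simpa using this

end Bridge

end Cfsg.Agent.Lib.BlockSearch
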