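import Mathlib
import Cfsg.Agent.Lib.BlockKnorr
import Cfsg.Agent.Lib.BrauerConj
import Cfsg.Agent.Lib.CharIto

/-!
# Invariant characters of height zero in a stable block of a normal subgroup of `p`-power index

`N ⊴ L` of `p`-power index and `b` an `L`-stable block of `N`.  Then `b` contains an `L`-invariant
character of height zero (Murai).  Consequently a block of a normal subgroup contains a height zero
character whose stabilizer contains a Sylow subgroup of the stabilizer of the block.
-/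

set_option autoImplicit false
set_option linter.unusedSectionVars false
set_option linter.unusedVariables false
set_option linter.style.haveILetI false

namespace Cfsg.Agent.Lib.BlockStableHt

open Cfsg Cfsg.Agent.Lib.CharBasic Cfsg.Agent.Lib.CharInd Cfsg.Agent.Lib.CharIntegrality
open Cfsg.Agent.Lib.BlockLocal Cfsg.Agent.Lib.BlockIdem Cfsg.Agent.Lib.BlkBasic
open Cfsg.Agent.Lib.BrauerPair Cfsg.Agent.Lib.BlkNormalSub Cfsg.Agent.Lib.BlockDefect
open Cfsg.Agent.Lib.GroupAlgNil Cfsg.Agent.Lib.FongReynolds Cfsg.Agent.Lib.BlockCover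
open Cfsg.Agent.Lib.BlockQ Cfsg.Agent.Lib.BlockKnorr Cfsg.Agent.Lib.CharInduction

universe u

section Main

variable {L : Type u} [Group L] [Fintype L] {N : Subgroup L} [hN : N.Normal] [Fintype N]
  {p : ℕ} {M : Ideal AlgInt}

/-- The formula for the induced central character through the cosets of `N C_L(g)`. -/
theorem inducedCentralChar_eq_sum_cosets (θ : IrrCharacter N) (g : N)
    [Fintype (L ⧸ (N ⊔ Subgroup.centralizer ({(g : L)} : Set L)))] :
    inducedCentralChar N (θ : N → ℂ) (g : L) =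
      ∑ q : L ⧸ (N ⊔ Subgroup.centralizer ({(g : L)} : Set L)),
        centralChar (cjE N (Quotient.out q) θ : N → ℂ) g := by
  classical
  set C := Subgroup.centralizer ({(g : L)} : Set L) with hC
  set S := N ⊔ C with hS
  letI : Fintype S := Fintype.ofFinite S
  set K : ℕ := (Subgroup.centralizer ({g} : Set N)).index with hK
  have hθ1 : (θ : N → ℂ) 1 ≠ 0 := irr_one_ne_zero' θ.2
  have hθc := isClassFunction_of_isCharacter (IsIrrCharacter.isCharacter θ.2)
  set c : L → ℂ := fun t => centralChar (cjE N t θ : N → ℂ) g with hc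
  have hcdef : ∀ t : L, c t = (K : ℂ) * ((θ : N → ℂ) ⟨t * g * t⁻¹, hN.conj_mem _ g.2 _⟩ / (θ : N → ℂ) 1) := by
    intro t
    simp only [hc]
    unfold centralChar
    rw [cjE_apply, cjE_apply]
    have e1 : (⟨t * ((1 : N) : L) * t⁻¹, hN.conj_mem _ (1 : N).2 _⟩ : N) = 1 := by
      apply Subtype.ext
      simp
    rw [e1]
    ring
  have hcS : ∀ x, ∀ z ∈ S, c (x * z) = c x := by
    intro x z hz
    rw [hS] at hz
    have hz' : z ∈ ((N ⊔ C : Subgroup L) : Set L) := hz
    rw [Subgroup.normal_mul] at hz'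
    obtain ⟨n, hn, d, hd, rfl⟩ := hz'
    rw [hcdef, hcdef]
    congr 2
    have hdc : d * (g : L) * d⁻¹ = g := by
      have := Subgroup.mem_centralizer_singleton_iff.mp hd
      rw [this]
      group
    set n' : N := ⟨x * n * x⁻¹, hN.conj_mem _ hn _⟩ with hn'
    have e2 : (⟨(x * (n * d)) * g * (x * (n * d))⁻¹, hN.conj_mem _ g.2 _⟩ : N) =
        n' * ⟨x * g * x⁻¹, hN.conj_mem _ g.2 _⟩ * n'⁻¹ := by
      apply Subtype.ext
      simp only [Subgroup.coe_mul, InvMemClass.coe_inv, hn', mul_inv_rev]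
      calc x * (n * d) * (g : L) * (d⁻¹ * n⁻¹ * x⁻¹) = x * n * (d * (g : L) * d⁻¹) * n⁻¹ * x⁻¹ := by group
        _ = _ := by rw [hdc]; group
    rw [e2, hθc]
  -- the sum over the group
  have hsum1 : ∑ t : L, c t = (K : ℂ) * (Nat.card C : ℂ) * inducedCentralChar N (θ : N → ℂ) (g : L) := by
    have h1 := sum_conj_eq_card_mul (extendByZero N fun n : N => (θ : N → ℂ) n / (θ : N → ℂ) 1) (g : L)
    have h2 : ∑ y : L, (classIndicator (g : L) y : ℂ) *
        extendByZero N (fun n : N => (θ : N → ℂ) n / (θ : N → ℂ) 1) y =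
        inducedCentralChar N (θ : N → ℂ) (g : L) := by
      rw [sum_classIndicator_extendByZero, inducedCentralChar_eq_sum]
      exact Finset.sum_congr rfl fun h _ => by ring
    rw [h2] at h1
    rw [mul_assoc, ← h1, Finset.mul_sum, ← Equiv.sum_comp (Equiv.inv L)]
    refine Finset.sum_congr rfl fun t _ => ?_
    simp only [Equiv.inv_apply]
    have e : t⁻¹ * (g : L) * t ∈ N := by
      have := hN.conj_mem _ g.2 t⁻¹
      rwa [inv_inv] at this
    rw [hcdef, extendByZero_of_mem N _ e]
    have e1 : (⟨t⁻¹ * (g : L) * t⁻¹⁻¹, hN.conj_mem _ g.2 _⟩ : N) = ⟨t⁻¹ * (g : L) * t, e⟩ :=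
      Subtype.ext (by simp)
    rw [e1]
  have hsum2 := Cfsg.Agent.Lib.CharIto.sum_eq_card_mul_sum_quotient S c hcS
  -- the order of `S`
  have hSC : Nat.card S = K * Nat.card C := by
    have hNS : N ≤ S := le_sup_left
    have e1 : Nat.card S = Nat.card N * N.relIndex S := by
      have h1 := Subgroup.card_mul_index (N.subgroupOf S)
      rw [Nat.card_congr (Subgroup.subgroupOfEquivOfLe hNS).toEquiv] at h1
      exact h1.symm
    have e2 : N.relIndex S = N.relIndex C := Subgroup.relIndex_sup_left C N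
    have e3 : Nat.card C = Nat.card (N ⊓ C : Subgroup L) * N.relIndex C := by
      have h1 := Subgroup.card_mul_index (N.subgroupOf C)
      have h2 : N.subgroupOf C = (N ⊓ C).subgroupOf C := (Subgroup.inf_subgroupOf_right N C).symm
      rw [h2, Nat.card_congr (Subgroup.subgroupOfEquivOfLe inf_le_right).toEquiv] at h1
      have h3 : ((N ⊓ C).subgroupOf C).index = N.relIndex C := by
        rw [← h2]
        rfl
      rw [h3] at h1
      exact h1.symm
    have e4 : Nat.card N = Nat.card (N ⊓ C : Subgroup L) * K := by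
      have h1 := Subgroup.card_mul_index (Subgroup.centralizer ({g} : Set N))
      have h2 : Subgroup.centralizer ({g} : Set N) = (N ⊓ C).subgroupOf N := by
        ext x
        rw [Subgroup.mem_subgroupOf, Subgroup.mem_centralizer_singleton_iff]
        constructor
        · intro h
          refine ⟨x.2, ?_⟩
          show (x : L) ∈ Subgroup.centralizer ({(g : L)} : Set L)
          rw [Subgroup.mem_centralizer_singleton_iff]
          exact congrArg Subtype.val h
        · rintro ⟨-, h⟩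
          have h' : (x : L) ∈ Subgroup.centralizer ({(g : L)} : Set L) := h
          rw [Subgroup.mem_centralizer_singleton_iff] at h'
          exact Subtype.ext h'
      have h3 := h1
      rw [h2, Nat.card_congr (Subgroup.subgroupOfEquivOfLe inf_le_left).toEquiv, ← h2] at h3
      exact h3.symm
    rw [e1, e2, e4, e3]
    ring
  have hK0 : (K : ℂ) ≠ 0 := by
    have : K ≠ 0 := Subgroup.index_ne_zero_of_finite
    exact_mod_cast this
  have hC0 : (Nat.card C : ℂ) ≠ 0 := by
    have : Nat.card C ≠ 0 := Nat.card_pos.ne'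
    exact_mod_cast this
  rw [hsum1, hSC] at hsum2
  push_cast at hsum2
  have h9 : (K : ℂ) * (Nat.card C : ℂ) ≠ 0 := mul_ne_zero hK0 hC0
  convert mul_left_cancel₀ h9 hsum2

/-- `N C_L(g) = L` for an element of `N` with a unit central character on a stable block. -/
theorem sup_centralizer_eq_top (hM : IsPModular p M) [hp : Fact p.Prime] (hidx : ∃ k : ℕ, N.index = p ^ k)
    {b : Set (IrrCharacter N)} (hb : IsPBlock M b) (hstab : ∀ g : L, ∀ θ ∈ b, cjE N g θ ∈ b)
    {χ : IrrCharacter L} {θ : IrrCharacter N} (hθ : θ ∈ b)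
    (hc : classInner (fun n : N => (χ : L → ℂ) n) (θ : N → ℂ) ≠ 0) {g : N}
    (hg : ¬ MemLocalIdeal M (centralChar (χ : L → ℂ) (g : L))) :
    N ⊔ Subgroup.centralizer ({(g : L)} : Set L) = ⊤ := by
  classical
  haveI hMp : M.IsPrime := hM.2.1.isPrime
  set S := N ⊔ Subgroup.centralizer ({(g : L)} : Set L) with hS
  letI : Fintype (L ⧸ S) := Fintype.ofFinite _
  by_contra hne
  obtain ⟨k, hk⟩ := hidx
  have hdvd : S.index ∣ p ^ k := by
    rw [← hk]
    exact Subgroup.index_dvd_of_le le_sup_left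
  obtain ⟨j, -, hj⟩ := (Nat.dvd_prime_pow hp.out).mp hdvd
  have hj0 : j ≠ 0 := by
    rintro rfl
    rw [pow_zero] at hj
    exact hne (Subgroup.index_eq_one.mp hj)
  have hpS : p ∣ S.index := by
    rw [hj]
    exact dvd_pow_self p hj0
  apply hg
  rw [centralChar_eq_induced_of_constituent hN χ θ hc g, inducedCentralChar_eq_sum_cosets]
  set w := centralChar (θ : N → ℂ) g with hw
  have hwR : MemLocalRing M w := memLocalRing_of_isIntegral (isIntegral_centralChar θ _)
  have h1 : ∑ q : L ⧸ S, centralChar (cjE N (Quotient.out q) θ : N → ℂ) g =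
      ∑ q : L ⧸ S, (centralChar (cjE N (Quotient.out q) θ : N → ℂ) g - w) + (S.index : ℂ) * w := by
    rw [Finset.sum_sub_distrib, Finset.sum_const, Finset.card_univ, nsmul_eq_mul, Subgroup.index_eq_card,
      Nat.card_eq_fintype_card]
    ring
  rw [h1]
  refine memLocalIdeal_add (memLocalIdeal_sum _ _ fun q _ => ?_)
    (memLocalIdeal_mul_right (memLocalIdeal_natCast_of_dvd hM hpS) hwR)
  exact memLocalIdeal_sub_comm (sameBlock_of_mem hb hθ (hstab _ θ hθ) g)

/-- The number of conjugates of `θ` is the index of its stabilizer, a power of `p`. -/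
theorem exists_card_orbit (hidx : ∃ k : ℕ, N.index = p ^ k) [hp : Fact p.Prime] (θ : IrrCharacter N)
    [DecidableEq (N → ℂ)] :
    ∃ j : ℕ, (Finset.univ.image (fun g : L => conjBy N hN g (θ : N → ℂ))).card = p ^ j ∧
      (j = 0 → ∀ g : L, conjBy N hN g (θ : N → ℂ) = θ) := by
  classical
  have hθc := isClassFunction_of_isCharacter (IsIrrCharacter.isCharacter θ.2)
  letI act : MulAction L (N → ℂ) :=
    { smul := fun g f => conjBy N hN g⁻¹ f
      one_smul := fun f => by
        show conjBy N hN 1⁻¹ f = f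
        rw [inv_one, conjBy_one]
      mul_smul := fun a b f => by
        show conjBy N hN (a * b)⁻¹ f = conjBy N hN a⁻¹ (conjBy N hN b⁻¹ f)
        rw [conjBy_conjBy, mul_inv_rev] }
  have hsm : ∀ (g : L) (f : N → ℂ), g • f = conjBy N hN g⁻¹ f := fun _ _ => rfl
  set O := Finset.univ.image (fun g : L => conjBy N hN g (θ : N → ℂ)) with hO
  have h1 : MulAction.orbit L (θ : N → ℂ) = ↑O := by
    ext f
    simp only [hO, MulAction.mem_orbit_iff, Finset.coe_image, Finset.coe_univ, Set.image_univ,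
      Set.mem_range, hsm]
    constructor
    · rintro ⟨g, rfl⟩
      exact ⟨g⁻¹, rfl⟩
    · rintro ⟨g, rfl⟩
      exact ⟨g⁻¹, by rw [inv_inv]⟩
  set I := MulAction.stabilizer L (θ : N → ℂ) with hI
  have h2 : O.card = I.index := by
    rw [MulAction.index_stabilizer, h1, Set.ncard_coe_finset]
  have hNI : N ≤ I := by
    intro n hn
    rw [hI, MulAction.mem_stabilizer_iff, hsm]
    funext m
    rw [conjBy_apply]
    have := hθc m ⟨n⁻¹, N.inv_mem hn⟩
    exact this
  obtain ⟨k, hk⟩ := hidx
  have hdvd : I.index ∣ p ^ k := by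
    rw [← hk]
    exact Subgroup.index_dvd_of_le hNI
  obtain ⟨j, -, hj⟩ := (Nat.dvd_prime_pow hp.out).mp hdvd
  refine ⟨j, by rw [h2, hj], ?_⟩
  rintro rfl g
  rw [pow_zero] at hj
  have h3 : I = ⊤ := Subgroup.index_eq_one.mp hj
  have h4 : g⁻¹ ∈ I := by
    rw [h3]
    trivial
  have h5 := h4
  rw [hI, MulAction.mem_stabilizer_iff, hsm, inv_inv] at h5
  exact h5

/-- **Murai**: a block of a normal subgroup of `p`-power index, stable in the group, contains an invariant
character of height zero. -/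
theorem exists_invariant_height_zero (hM : IsPModular p M) [hp : Fact p.Prime] (hidx : ∃ k : ℕ, N.index = p ^ k)
    {b : Set (IrrCharacter N)} (hb : IsPBlock M b) (hstab : ∀ g : L, ∀ θ ∈ b, cjE N g θ ∈ b) :
    ∃ θ ∈ b, (charDegree (θ : N → ℂ)).factorization p = minExp p b ∧ ∀ g : L, cjE N g θ = θ := by
  classical
  haveI hMp : M.IsPrime := hM.2.1.isPrime
  obtain ⟨θ₀, hθ₀⟩ := isPBlock_nonempty hb
  obtain ⟨χ₀, hχ₀⟩ := exists_cover hN θ₀
  set B := blockOf M (χ₀ : L → ℂ) with hB
  have hBb : IsPBlock M B := ⟨χ₀, rfl⟩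
  have hχ₀B : χ₀ ∈ B := mem_blockOf_self χ₀
  have hcov : ∃ χ ∈ B, ∃ θ ∈ b, classInner (fun n : N => (χ : L → ℂ) n) (θ : N → ℂ) ≠ 0 :=
    ⟨χ₀, hχ₀B, θ₀, hθ₀, hχ₀⟩
  obtain ⟨Q₀, hQ₀⟩ := exists_isDefectGroup hM hb
  set Q : Subgroup L := Q₀.map N.subtype with hQ
  have hQN : Q ≤ N := Subgroup.map_subtype_le _
  have hQ' : IsDefectGroup p M b (Q.subgroupOf N) := by
    have e : Q.subgroupOf N = Q₀ := Subgroup.comap_map_eq_self_of_injective N.subtype_injective Q₀
    rw [e]
    exact hQ₀
  obtain ⟨P, hP, hPN⟩ := exists_defect_inf_eq hM hb hQN hQ' hBb hcov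
  obtain ⟨g, hg, hle, hcard⟩ := isDefectGroup_iff.mp hP
  obtain ⟨k, hk⟩ := id hidx
  -- the element `g` lies in `N`
  have hgN : g ∈ N := mem_of_regular_of_index hidx hN
    (Cfsg.Agent.Lib.BlkDefect.regular_of_isDefectClass hM hBb hg)
  have htop := sup_centralizer_eq_top (g := ⟨g, hgN⟩) hM hidx hb hstab hθ₀ hχ₀ (hg.2.2 χ₀ hχ₀B)
  set C := Subgroup.centralizer ({g} : Set L) with hC
  change N ⊔ C = ⊤ at htop
  -- orders
  have h1 : N.relIndex C = p ^ k := by
    rw [← Subgroup.relIndex_sup_left C N, htop, Subgroup.relIndex_top_right, hk]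
  have h2 : Nat.card C = Nat.card (N ⊓ C : Subgroup L) * p ^ k := by
    have h3 := Subgroup.card_mul_index (N.subgroupOf C)
    have h4 : N.subgroupOf C = (N ⊓ C).subgroupOf C := (Subgroup.inf_subgroupOf_right N C).symm
    have h5 : (N.subgroupOf C).index = p ^ k := h1
    rw [h5, h4, Nat.card_congr (Subgroup.subgroupOfEquivOfLe inf_le_right).toEquiv] at h3
    exact h3.symm
  have hpp : p.Prime := hp.out
  have h6 : (Nat.card C).factorization p = (Nat.card (N ⊓ C : Subgroup L)).factorization p + k := by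
    rw [h2, Nat.factorization_mul Nat.card_pos.ne' (pow_ne_zero _ hpp.ne_zero)]
    simp [hpp.factorization_self]
  have hQcard : Nat.card Q = p ^ blockDefect p b := by
    rw [hQ, Subgroup.card_map_of_injective N.subtype_injective]
    exact card_isDefectGroup hM hb hQ₀
  have hQle : Q ≤ N ⊓ C := by
    rw [← hPN]
    exact le_inf inf_le_right (inf_le_left.trans hle)
  have h7 : blockDefect p b ≤ (Nat.card (N ⊓ C : Subgroup L)).factorization p := by
    have h8 : Nat.card Q ∣ Nat.card (N ⊓ C : Subgroup L) := Subgroup.card_dvd_of_le hQle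
    rw [hQcard] at h8
    exact (hpp.pow_dvd_iff_le_factorization Nat.card_pos.ne').mp h8
  have h9 : blockDefect p B = (Nat.card C).factorization p := by
    have h10 := card_isDefectGroup hM hBb hP
    rw [hcard] at h10
    exact (Nat.pow_right_injective hpp.two_le h10).symm
  have h11 : (Nat.card L).factorization p = (Nat.card N).factorization p + k := by
    have h12 := Subgroup.card_mul_index N
    rw [hk] at h12
    rw [← h12, Nat.factorization_mul Nat.card_pos.ne' (pow_ne_zero _ hpp.ne_zero)]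
    simp [hpp.factorization_self]
  have h13 := card_factorization_eq (p := p) hBb
  have h14 := card_factorization_eq (p := p) hb
  have hmin : minExp p B ≤ minExp p b := by omega
  -- the constituent
  obtain ⟨χ, hχB, hχmin⟩ := exists_minExp (p := p) hBb
  obtain ⟨θ, hθc⟩ := BlkNormalSub.exists_constituent (N := N) χ
  have hθb : θ ∈ b := by
    have h15 := memLocalIdeal_of_covers (M := M) hN (sameBlock_of_mem hBb hχ₀B hχB) (sameBlock_refl _) hχ₀
    obtain ⟨t, ht⟩ := mem_orbitSet_of_congr (M := M) hN (blockClosed_of_isPBlock hb) hθ₀ h15 hθc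
    have h16 := hstab t⁻¹ _ ht
    have h17 : cjE N t⁻¹ (conjIrr N hN t θ) = θ := cjE_inv_cjE N t θ
    rwa [h17] at h16
  have hχdeg := Cfsg.Agent.Lib.CharKernel.one_eq_charDegree (IsIrrCharacter.isCharacter χ.2)
  have hθdeg := Cfsg.Agent.Lib.CharKernel.one_eq_charDegree (IsIrrCharacter.isCharacter θ.2)
  -- Clifford
  have hcl := Cfsg.Agent.Lib.CharClifford.restrict_eq_smul_sum N hN χ.2 θ.2 hθc
  obtain ⟨j, hj1, hj2⟩ := exists_card_orbit (L := L) hidx θ
  obtain ⟨a, ha⟩ := classInner_char_irr (isCharacter_restrict N (IsIrrCharacter.isCharacter χ.2)) θ.2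
  have hdeg : charDegree (χ : L → ℂ) = a * (p ^ j * charDegree (θ : N → ℂ)) := by
    have h18 := congrFun hcl 1
    simp only [OneMemClass.coe_one, Pi.smul_apply, smul_eq_mul, Finset.sum_apply] at h18
    have h19 : ∀ ψ ∈ Finset.univ.image (fun g : L => conjBy N hN g (θ : N → ℂ)), ψ 1 = (θ : N → ℂ) 1 := by
      intro ψ hψ
      obtain ⟨y, -, rfl⟩ := Finset.mem_image.mp hψ
      rw [conjBy_apply]
      have e1 : (⟨y * ((1 : N) : L) * y⁻¹, hN.conj_mem _ (1 : N).2 _⟩ : N) = 1 := Subtype.ext (by simp)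
      rw [e1]
    rw [Finset.sum_congr rfl h19, Finset.sum_const, hj1, nsmul_eq_mul, ha, hχdeg, hθdeg] at h18
    exact_mod_cast h18
  have hθ0 : charDegree (θ : N → ℂ) ≠ 0 := Cfsg.Agent.Lib.CharKernel.charDegree_ne_zero θ.2
  have hχ0 : charDegree (χ : L → ℂ) ≠ 0 := Cfsg.Agent.Lib.CharKernel.charDegree_ne_zero χ.2
  have ha0 : a ≠ 0 := by
    rintro rfl
    exact hχ0 (by simpa using hdeg)
  have hfac : (charDegree (χ : L → ℂ)).factorization p =
      a.factorization p + (j + (charDegree (θ : N → ℂ)).factorization p) := by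
    rw [hdeg, Nat.factorization_mul ha0 (mul_ne_zero (pow_ne_zero _ hpp.ne_zero) hθ0),
      Nat.factorization_mul (pow_ne_zero _ hpp.ne_zero) hθ0]
    simp [hpp.factorization_self]
  have hminθ := minExp_le (p := p) hθb
  have hj0 : j = 0 := by omega
  refine ⟨θ, hθb, by omega, fun y => ?_⟩
  apply Subtype.ext
  exact hj2 hj0 y

end Main

section Transport

open Cfsg.Agent.Lib.BrauerConj

variable {G : Type u} [Group G] [Fintype G] {p : ℕ} {M : Ideal AlgInt}

/-- **The theorem for a normal subgroup of an arbitrary finite group.** -/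
theorem exists_height_zero_stabilizer [hp : Fact p.Prime] (hM : IsPModular p M) (H : Subgroup G) [hH : H.Normal]
    [Fintype H] (b : Set (IrrCharacter H)) (hb : IsPBlock M b) (T : Subgroup G)
    (hT : ∀ g : G, g ∈ T ↔ ∀ θ ∈ b, ∀ θ' : IrrCharacter H,
      (∀ h h' : H, (h' : G) = g * h * g⁻¹ → (θ' : H → ℂ) h' = (θ : H → ℂ) h) → θ' ∈ b) :
    ∃ θ ∈ b, blockHeight p b (θ : H → ℂ) = 0 ∧ ∃ S : Subgroup G, S ≤ T ∧
      (∀ g : G, g ∈ S ↔ (g ∈ T ∧ ∀ h h' : H, (h' : G) = g * h * g⁻¹ → (θ : H → ℂ) h' = (θ : H → ℂ) h)) ∧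
      ¬ p ∣ S.relIndex T := by
  classical
  have hMp : M.IsPrime := hM.2.1.isPrime
  have hpp : p.Prime := hp.out
  -- `H ≤ T`
  have hHT : H ≤ T := by
    intro g hg
    rw [hT]
    intro θ hθ θ' h1
    have hθc := isClassFunction_of_isCharacter (IsIrrCharacter.isCharacter θ.2)
    have : θ' = θ := by
      apply Subtype.ext
      funext h'
      have h2 := h1 ⟨g⁻¹ * h' * g, by simpa using hH.conj_mem _ h'.2 g⁻¹⟩ h' (by simp [mul_assoc])
      rw [h2]
      have h3 := hθc h' ⟨g⁻¹, H.inv_mem hg⟩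
      have e1 : (⟨g⁻¹ * h' * g, by simpa using hH.conj_mem _ h'.2 g⁻¹⟩ : H) =
          ⟨g⁻¹, H.inv_mem hg⟩ * h' * (⟨g⁻¹, H.inv_mem hg⟩ : H)⁻¹ := Subtype.ext (by simp)
      rw [e1]
      exact h3
    rw [this]
    exact hθ
  -- the Sylow subgroup and the subgroup `L`
  obtain ⟨A₀⟩ : Nonempty (Sylow p T) := inferInstance
  set A : Subgroup G := (A₀ : Subgroup T).map T.subtype with hA
  have hAT : A ≤ T := Subgroup.map_subtype_le _
  have hAcard : Nat.card A = p ^ (Nat.card T).factorization p := by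
    rw [hA, Subgroup.card_map_of_injective T.subtype_injective]
    exact Sylow.card_eq_multiplicity A₀
  set L : Subgroup G := H ⊔ A with hL
  have hHL : H ≤ L := le_sup_left
  have hAL : A ≤ L := le_sup_right
  have hLT : L ≤ T := sup_le hHT hAT
  letI : Fintype L := Fintype.ofFinite L
  set N : Subgroup L := H.subgroupOf L with hN
  haveI hNn : N.Normal := Subgroup.normal_subgroupOf
  letI : Fintype N := Fintype.ofFinite N
  let e : N ≃* H := Subgroup.subgroupOfEquivOfLe hHL
  have he : ∀ n : N, ((e n : H) : G) = ((n : L) : G) := fun n => rfl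
  have he' : ∀ h : H, (((e.symm h : N) : L) : G) = (h : G) := fun h => by
    rw [← he, MulEquiv.apply_symm_apply]
  set b' : Set (IrrCharacter N) := twistSetE e.symm b with hb'
  have hb'b : IsPBlock M b' := isPBlock_twistSetE e.symm hb
  have hidx : ∃ k : ℕ, N.index = p ^ k := by
    have h1 : N.index = H.relIndex A := Subgroup.relIndex_sup_left A H
    have h2 : H.relIndex A ∣ Nat.card A := Subgroup.index_dvd_card _
    rw [hAcard] at h2
    obtain ⟨j, -, hj⟩ := (Nat.dvd_prime_pow hpp).mp h2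
    exact ⟨j, by rw [h1, hj]⟩
  have hstab : ∀ g : L, ∀ θ' ∈ b', cjE N g θ' ∈ b' := by
    rintro g _ ⟨θ, hθ, rfl⟩
    set ψ := twistE e (cjE N g (twistE e.symm θ)) with hψ
    have hψb : ψ ∈ b := by
      have hg : ((g : G))⁻¹ ∈ T := T.inv_mem (hLT g.2)
      refine (hT _).mp hg θ hθ ψ ?_
      intro h h' hh'
      rw [hψ, twistE_apply, cjE_apply, twistE_apply]
      refine congrArg (θ : H → ℂ) ?_
      apply Subtype.ext
      rw [MulEquiv.symm_symm, he]
      simp only [Subgroup.coe_mul, InvMemClass.coe_inv, he', hh']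
      group
    have : cjE N g (twistE e.symm θ) = twistE e.symm ψ := (twistE_twistE_symm e _).symm
    rw [this]
    exact ⟨ψ, hψb, rfl⟩
  obtain ⟨θ', hθ'b, hθ'min, hθ'inv⟩ := exists_invariant_height_zero hM hidx hb'b hstab
  obtain ⟨θ, hθ, rfl⟩ := hθ'b
  have hdeg : ∀ ψ : IrrCharacter H, charDegree (twistE e.symm ψ : N → ℂ) = charDegree (ψ : H → ℂ) := by
    intro ψ
    unfold charDegree
    rw [twistE_apply]
    simp
  have hθc := isClassFunction_of_isCharacter (IsIrrCharacter.isCharacter θ.2)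
  refine ⟨θ, hθ, ?_, ?_⟩
  · -- height zero
    unfold blockHeight
    apply Nat.sub_eq_zero_of_le
    have hne : ((fun ψ : IrrCharacter H => (charDegree (ψ : H → ℂ)).factorization p) '' b).Nonempty :=
      ⟨_, θ, hθ, rfl⟩
    refine le_csInf hne ?_
    rintro _ ⟨ψ, hψ, rfl⟩
    have h1 := minExp_le (p := p) (show twistE e.symm ψ ∈ b' from ⟨ψ, hψ, rfl⟩)
    rw [hdeg] at h1 hθ'min
    beta_reduce
    omega
  · -- the stabilizer
    let S : Subgroup G :=
      { carrier := {g | g ∈ T ∧ ∀ h h' : H, (h' : G) = g * h * g⁻¹ → (θ : H → ℂ) h' = (θ : H → ℂ) h}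
        one_mem' := ⟨T.one_mem, fun h h' hh => by
          have : h' = h := Subtype.ext (by simpa using hh)
          rw [this]⟩
        mul_mem' := by
          rintro a c ⟨ha, ha'⟩ ⟨hc, hc'⟩
          refine ⟨T.mul_mem ha hc, fun h h' hh => ?_⟩
          have h1 := hc' h ⟨c * h * c⁻¹, hH.conj_mem _ h.2 _⟩ rfl
          have h2 := ha' ⟨c * h * c⁻¹, hH.conj_mem _ h.2 _⟩ h' (by
            rw [hh]
            simp [mul_assoc])
          rw [h2, h1]
        inv_mem' := by
          rintro a ⟨ha, ha'⟩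
          refine ⟨T.inv_mem ha, fun h h' hh => ?_⟩
          have h1 := ha' h' h (by
            rw [hh]
            group)
          exact h1.symm }
    have hAS : A ≤ S := by
      intro a ha
      refine ⟨hAT ha, fun h h' hh => ?_⟩
      have h1 := congrArg (fun x : IrrCharacter N => (x : N → ℂ) (e.symm h)) (hθ'inv ⟨a, hAL ha⟩)
      simp only [cjE_apply, twistE_apply, MulEquiv.symm_symm, MulEquiv.apply_symm_apply] at h1
      rw [← h1]
      refine congrArg (θ : H → ℂ) ?_
      apply Subtype.ext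
      rw [hh, he]
      simp only [Subgroup.coe_mul, InvMemClass.coe_inv, he']
    have hST : S ≤ T := fun g hg => hg.1
    refine ⟨S, hST, fun g => Iff.rfl, ?_⟩
    intro hdvd
    have h1 : Nat.card T = Nat.card S * S.relIndex T := by
      have h2 := Subgroup.card_mul_index (S.subgroupOf T)
      rw [Nat.card_congr (Subgroup.subgroupOfEquivOfLe hST).toEquiv] at h2
      exact h2.symm
    have h3 : Nat.card A ∣ Nat.card S := Subgroup.card_dvd_of_le hAS
    rw [hAcard] at h3
    have h4 : p ^ ((Nat.card T).factorization p + 1) ∣ Nat.card T := by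
      have h5 := mul_dvd_mul h3 hdvd
      rw [← h1, ← pow_succ] at h5
      exact h5
    exact Nat.pow_succ_factorization_not_dvd Nat.card_pos.ne' hpp h4

end Transport

end Cfsg.Agent.Lib.BlockStableHt
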