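import Mathlib
import Cfsg.Prelude.Def_BlockFusion
import Cfsg.Agent.Lib.BrauerNil

/-!
# Normal centric pairs
-/

set_option autoImplicit false
set_option linter.unusedSectionVars false
set_option linter.unusedVariables false
set_option linter.style.haveILetI false

namespace Cfsg.Agent.Lib.BrauerCentric

open Cfsg Cfsg.Agent.Lib.CharBasic Cfsg.Agent.Lib.CharInd Cfsg.Agent.Lib.CharIntegrality
open Cfsg.Agent.Lib.BlockLocal Cfsg.Agent.Lib.BlockIdem Cfsg.Agent.Lib.BlockNormal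
open Cfsg.Agent.Lib.BrauerMap Cfsg.Agent.Lib.BrauerPair Cfsg.Agent.Lib.BrauerSub
open Cfsg.Agent.Lib.BrauerConj Cfsg.Agent.Lib.BrauerThird Cfsg.Agent.Lib.BrauerMax
open Cfsg.Agent.Lib.BrauerStab Cfsg.Agent.Lib.BlockDefect Cfsg.Agent.Lib.BrauerCen
open Cfsg.Agent.Lib.BrauerFull Cfsg.Agent.Lib.BrauerLift Cfsg.Agent.Lib.BrauerIdx
open Cfsg.Agent.Lib.BrauerSat Cfsg.Agent.Lib.BrauerNil
open scoped ComplexConjugate Pointwise

universe u

variable {G : Type u} [Group G] [Fintype G] {p : ℕ} [hp : Fact p.Prime] {M : Ideal AlgInt}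

local notation "𝐂[" R "]" => Subgroup.centralizer ((R : Subgroup G) : Set G)
local notation "𝐍[" R "]" => Subgroup.normalizer ((R : Subgroup G) : Set G)
local notation Q "^^" x => Subgroup.map (MulEquiv.toMonoidHom (MulAut.conj (x : G))) (Q : Subgroup G)

noncomputable local instance fintypeSubCc (K : Subgroup G) : Fintype K := Fintype.ofFinite K

variable {B : Set (IrrCharacter G)} {P Q : Subgroup G}
  {e : Set (IrrCharacter (Subgroup.centralizer (P : Set G)))}
  {f : Set (IrrCharacter (Subgroup.centralizer (Q : Set G)))} {F : FusionSystem P}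

/-- A stable block of `C_G(Q)`, `Q` normal, gives the idempotent of a block of `G`, the one of the
pair. -/
theorem blockCoeff_eq_of_stable (hM : IsPModular p M) [Q.Normal] (hQ : IsPGroup p Q)
    (hf : IsPBlock M f) (hst : ∀ x : G, StabilizesBlock 𝐂[Q] f x) (hQf : IsBrauerPairOf p M B Q f) :
    blockCoeff B = subgroupBlockCoeff 𝐂[Q] f := by
  haveI := isPrime_of_isPModular hM
  obtain ⟨E, hE, hEc⟩ := exists_block_of_stable hM Q hQ hf hst
  have hpair : IsBrauerPairOf p M E Q f := by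
    refine ⟨hQf.1, hE, fun ξ hξ => ?_⟩
    rw [brauerOmega_eq, hEc, brO_sbc_self, ind_of_mem hξ, sub_self]
    exact memLocalIdeal_zero
  have h := (existsUnique_isBrauerPairOf hM hQf.1).unique hQf hpair
  rw [h, hEc]

/-- **S4693.** -/
theorem centric_normal (hM : IsPModular p M) (hF : IsBlockFusionSystemOn p M B P e F)
    (hf : IsPBlock M f) (hle : SubpairLE p M Q f P e) (hcen : F.IsCentric Q)
    (hG : ∀ x : G, x ∈ 𝐍[Q] ∧ StabilizesBlock 𝐂[Q] f x) :
    (∀ g : G, MemLocalIdeal M (blockCoeff B g - subgroupBlockCoeff 𝐂[Q] f g)) ∧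
      ∃ F' : Set (IrrCharacter ↥(Q ⊔ 𝐂[Q])), IsPBlock M F' ∧
        (∀ t : ↥(Q ⊔ 𝐂[Q]), blockCoeff F' t = subgroupBlockCoeff 𝐂[Q] f (t : G)) ∧
        IsNilpotentBlock p M F' := by
  haveI := isPrime_of_isPModular hM
  have hmax := hF.1
  have he := hmax.1.1
  have hQP := le_of_subpairLE hle
  have hQp : IsPGroup p Q := he.1.to_le hQP
  haveI hQn : Q.Normal := ⟨fun n hn g => (Subgroup.mem_normalizer_iff.1 (hG g).1 n).1 hn⟩
  have hQf : IsBrauerPairOf p M B Q f := (isBrauerPairOf_iff_of_le hM hmax.1.2.1 hle).2 hmax.1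
  have hst : ∀ x : G, StabilizesBlock 𝐂[Q] f x := fun x => (hG x).2
  have hcoef := blockCoeff_eq_of_stable hM hQp hf hst hQf
  refine ⟨fun g => by rw [hcoef, sub_self]; exact memLocalIdeal_zero, ?_⟩
  set H := Q ⊔ 𝐂[Q] with hH
  have hQH : Q ≤ H := le_sup_left
  have hCH : 𝐂[Q] ≤ H := le_sup_right
  have hHN : H ≤ 𝐍[Q] := fun x _ => (hG x).1
  obtain ⟨E, hE, hEc⟩ := exists_block_of_stabilizer hM hQp hQH hCH hHN hf fun x _ => hst x
  refine ⟨E, hE, hEc, hE, fun Rh g hg x hxN hxs hxr => ?_⟩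
  -- the defect group
  have m : CenMatch (Q.subgroupOf H) Q := cenMatch_of_stable hQH hCH
  have hQhp : IsPGroup p (Q.subgroupOf H) :=
    IsPGroup.comap_of_injective hQp _ Subtype.val_injective
  have hself : IsNormalSubpair p M Q f Q f := by
    refine ⟨hQf.1, hQf.1, le_rfl, le_normalizer_self Q, fun x hx => hst x, fun ξ hξ => ?_⟩
    rw [brauerOmega_eq, brO_sbc_self, ind_of_mem hξ, sub_self]
    exact memLocalIdeal_zero
  have hpair := exists_pair_hat hM hE hEc hQhp m hself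
  haveI hCn : (𝐂[Q]).Normal := ⟨fun n hn g =>
    (Subgroup.mem_normalizer_iff.1 (normalizer_le_normalizer_centralizer Q (hG g).1) n).1 hn⟩
  have hPH : P ⊓ H ≤ Q := by
    have hc : FusionSystem.centralizerIn P Q ≤ Q := hcen.2 Q ((isConj_iff hM hF hle).2 ⟨1,
      (map_conj_one' Q).symm, by
        change Relation.ReflTransGen _ (cp 1 ⟨Q, f⟩) _
        rw [cp_one]
        exact hle⟩)
    rintro z ⟨hzP, hzH⟩
    have h1 : z ∈ ((Q : Set G) * (𝐂[Q] : Set G)) := by
      rw [← Subgroup.mul_normal]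
      exact hzH
    obtain ⟨q, hq, c, hc', rfl⟩ := Set.mem_mul.1 h1
    have h2 : c ∈ P := by
      have := P.mul_mem (P.inv_mem (hQP hq)) hzP
      simpa using this
    exact Q.mul_mem hq (hc ⟨h2, hc'⟩)
  haveI hHn : H.Normal := Subgroup.sup_normal Q 𝐂[Q]
  have hnmax : NMax p M ⟨Q.subgroupOf H, twistSetE m.iso.symm f⟩ := by
    rintro ⟨Sh, hh⟩ hb
    have hb' : IsNormalSubpair p M (Q.subgroupOf H) (twistSetE m.iso.symm f) Sh hh := hb
    change Sh = Q.subgroupOf H
    set S' := Sh.map H.subtype with hS'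
    have hQSh : Q.subgroupOf H ≤ Sh := hb'.2.2.1
    have hQS' : Q ≤ S' := fun q hq => ⟨⟨q, hQH hq⟩, hQSh hq, rfl⟩
    have mS := cenMatch_nor hCH Sh hQS'
    have hstep := normalSubpair_lift m mS hb' hQp (hb'.2.1.1.map _) hQS' (fun s _ => (hG s).1)
      (fun x _ => by rw [m.twistSetE_symm]; exact hst x)
    rw [m.twistSetE_symm] at hstep
    have hS'B := (isBrauerPairOf_iff_of_normal hM hmax.1.2.1 hstep).1 hQf
    obtain ⟨y, hy⟩ := exists_conj_subpairLE hM hmax hS'B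
    have h1 : (S' ^^ y) ≤ P := le_of_subpairLE hy
    have h2 : (S' ^^ y) ≤ H := by
      rintro _ ⟨_, ⟨s, hs, rfl⟩, rfl⟩
      exact hHn.conj_mem _ s.2 y
    have h3 : (S' ^^ y) ≤ Q := fun z hz => hPH ⟨h1 hz, h2 hz⟩
    have h4 : Nat.card S' ≤ Nat.card Q := by
      rw [← card_map_conj S' y]
      exact Subgroup.card_le_of_le h3
    have h5 : Q = S' := Subgroup.eq_of_le_of_card_ge hQS' h4
    apply Subgroup.map_injective (f := H.subtype) Subtype.val_injective
    rw [Subgroup.map_subgroupOf_eq_of_le hQH, ← hS', ← h5]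
  have hdef := isDefectGroup_of_nmax hM hpair hnmax
  -- every pair of `E` is on a subgroup of `Q`
  have hRQ : Rh ≤ Q.subgroupOf H := by
    obtain ⟨D, hD, hRD⟩ := exists_defect_ge hM hg
    obtain ⟨t, ht⟩ := exists_conj_of_isDefectGroup hM hE hdef hD
    rw [← ht] at hRD
    intro r hr
    obtain ⟨q, hq, hqr⟩ := hRD hr
    rw [Subgroup.mem_subgroupOf]
    rw [← hqr]
    exact hQn.conj_mem _ hq _
  -- regular elements centralize `Q`
  have hpp : p.Prime := Fact.out
  have hidx : ∃ k : ℕ, ((𝐂[Q]).subgroupOf H).index = p ^ k := by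
    have h1 : ((𝐂[Q]).subgroupOf H).index = (𝐂[Q]).relIndex Q := by
      change (𝐂[Q]).relIndex H = _
      rw [hH, sup_comm]
      exact Subgroup.relIndex_sup_left Q 𝐂[Q]
    obtain ⟨k, hk⟩ := IsPGroup.iff_card.1 hQp
    have h2 : (𝐂[Q]).relIndex Q ∣ p ^ k := hk ▸ Subgroup.relIndex_dvd_card _ _
    obtain ⟨j, -, hj⟩ := (Nat.dvd_prime_pow hpp).1 h2
    exact ⟨j, h1.trans hj⟩
  have hxC : (x : G) ∈ 𝐂[Q] := by
    by_contra h
    exact hxr (Cfsg.Agent.Lib.BlockExt.dvd_orderOf_of_not_mem hpp ((𝐂[Q]).subgroupOf H) hidx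
      (x := x) h)
  rw [Subgroup.mem_centralizer_iff]
  intro r hr
  exact Subtype.ext ((Subgroup.mem_centralizer_iff.1 hxC) _ (hRQ hr))

end Cfsg.Agent.Lib.BrauerCentric
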