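import Mathlib

set_option autoImplicit false
set_option linter.unusedSectionVars false
set_option linter.unusedVariables false

namespace Cfsg.Agent.Lib.BrauerCount50

open Finset MulAction

section rotation

variable {p : ℕ} [hp : Fact p.Prime]

/-- Weighted count of fixed points under a permutation of `p`-power order. -/
theorem sum_eq_sum_fixed {X M : Type*} [Fintype X] [DecidableEq X] [AddCommGroup M]
    (hM : ∀ m : M, p • m = 0) {r : Equiv.Perm X} {n : ℕ} (hr : r ^ (p ^ n) = 1) (φ : X → M)
    (hφ : ∀ x, φ (r x) = φ x) :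
    ∑ x, φ x = ∑ x with r x = x, φ x := by
  classical
  let P := Subgroup.zpowers r
  have hP : IsPGroup p P := by
    rintro ⟨g, hg⟩
    obtain ⟨z, rfl⟩ := Subgroup.mem_zpowers_iff.1 hg
    refine ⟨n, Subtype.ext ?_⟩
    show (r ^ z) ^ (p ^ n) = 1
    rw [← zpow_natCast, ← zpow_mul, mul_comm, zpow_mul, zpow_natCast, hr, one_zpow]
  have hzφ : ∀ (z : ℤ) (x : X), φ ((r ^ z) x) = φ x := by
    intro z x
    induction z using Int.induction_on with
    | zero => simp
    | succ i ih =>
      rw [add_comm, zpow_add, zpow_one, Equiv.Perm.mul_apply, hφ]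
      exact ih
    | pred i ih =>
      have h1 : φ (r ((r ^ (-(i:ℤ) - 1)) x)) = φ ((r ^ (-(i:ℤ) - 1)) x) := hφ _
      rw [← h1, ← Equiv.Perm.mul_apply, ← zpow_one_add]
      have : (1:ℤ) + (-(i:ℤ) - 1) = -i := by ring
      rw [this]
      exact ih
  let ψ : X → M := fun x => if r x = x then 0 else φ x
  have hsplit : ∑ x, φ x = ∑ x with r x = x, φ x + ∑ x, ψ x := by
    have h1 : ∑ x with r x = x, φ x = ∑ x, if r x = x then φ x else 0 := by
      rw [Finset.sum_filter]
    rw [h1, ← Finset.sum_add_distrib]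
    apply Finset.sum_congr rfl
    intro x _
    by_cases h : r x = x <;> simp [ψ, h]
  suffices h : ∑ x, ψ x = 0 by rw [hsplit, h, add_zero]
  let g : X → orbitRel.Quotient P X := Quotient.mk''
  rw [← Finset.sum_fiberwise (s := univ) (g := g) (f := ψ)]
  apply Finset.sum_eq_zero
  intro ω _
  induction ω using Quotient.inductionOn' with | h x₀ =>
  have hfib : ∀ x, g x = Quotient.mk'' x₀ ↔ x ∈ orbit P x₀ := by
    intro x
    exact (Quotient.eq'' (s₁ := orbitRel P X)).trans (orbitRel_apply)
  have hform : ∀ x, x ∈ orbit P x₀ → ∃ z : ℤ, x = (r ^ z) x₀ := by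
    rintro x ⟨⟨_, hg⟩, rfl⟩
    obtain ⟨z, rfl⟩ := Subgroup.mem_zpowers_iff.1 hg
    exact ⟨z, rfl⟩
  by_cases h0 : r x₀ = x₀
  · apply Finset.sum_eq_zero
    intro x hx
    have hx' := (hfib x).1 (Finset.mem_filter.1 hx).2
    obtain ⟨z, rfl⟩ := hform x hx'
    have : r ((r ^ z) x₀) = (r ^ z) x₀ := by
      rw [← Equiv.Perm.mul_apply, ← zpow_one_add, add_comm, zpow_add, zpow_one, Equiv.Perm.mul_apply, h0]
    simp [ψ, this]
  · have hc : ∀ x ∈ ({x | g x = Quotient.mk'' x₀} : Finset X), ψ x = φ x₀ := by
      intro x hx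
      have hx' := (hfib x).1 (Finset.mem_filter.1 hx).2
      obtain ⟨z, rfl⟩ := hform x hx'
      have : r ((r ^ z) x₀) ≠ (r ^ z) x₀ := by
        intro h
        apply h0
        rw [← Equiv.Perm.mul_apply, ← zpow_one_add, add_comm, zpow_add, zpow_one, Equiv.Perm.mul_apply] at h
        exact (r ^ z).injective h
      simp only [ψ, if_neg this]
      exact hzφ z x₀
    rw [Finset.sum_congr rfl hc, Finset.sum_const]
    have hcard : Fintype.card (orbit P x₀) = ({x | g x = Quotient.mk'' x₀} : Finset X).card := by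
      apply Fintype.card_of_subtype
      intro x
      rw [Finset.mem_filter]
      simp only [Finset.mem_univ, true_and, hfib]
    obtain ⟨m, hm⟩ := hP.card_orbit x₀
    rw [Nat.card_eq_fintype_card, hcard] at hm
    rw [hm]
    cases m with
    | zero =>
      exfalso
      apply h0
      rw [pow_zero] at hm
      have h1 : x₀ ∈ ({x | g x = Quotient.mk'' x₀} : Finset X) := by
        rw [Finset.mem_filter]
        exact ⟨Finset.mem_univ _, rfl⟩
      have h2 : r x₀ ∈ ({x | g x = Quotient.mk'' x₀} : Finset X) := by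
        rw [Finset.mem_filter]
        refine ⟨Finset.mem_univ _, (hfib _).2 ?_⟩
        exact ⟨⟨r, Subgroup.mem_zpowers r⟩, rfl⟩
      exact Finset.card_le_one.1 hm.le _ h2 _ h1
    | succ m =>
      rw [pow_succ, mul_comm, mul_smul, hM]

end rotation

section power

variable {R : Type*} [Ring R]

theorem sum_pow_eq {Y : Type*} [Fintype Y] [DecidableEq Y] (y : Y → R) (n : ℕ) :
    (∑ i, y i) ^ n = ∑ f : Fin n → Y, (List.ofFn (fun j => y (f j))).prod := by
  induction n with
  | zero => simp
  | succ n ih =>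
    rw [pow_succ', ih, Finset.sum_mul_sum, ← (Fin.consEquiv (fun _ : Fin (n+1) => Y)).sum_comp,
      Fintype.sum_prod_type]
    apply Finset.sum_congr rfl
    intro a _
    apply Finset.sum_congr rfl
    intro f _
    rw [List.ofFn_succ]
    simp [Fin.consEquiv]

/-- the rotation of tuples -/
def rot (Y : Type*) (m : ℕ) : Equiv.Perm (Fin (m + 1) → Y) :=
  Equiv.arrowCongr (finRotate (m + 1)).symm (Equiv.refl Y)

theorem rot_apply {Y : Type*} (m : ℕ) (f : Fin (m + 1) → Y) (j : Fin (m + 1)) :
    rot Y m f j = f (j + 1) := by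
  simp [rot, Equiv.arrowCongr]

theorem rot_pow_apply {Y : Type*} (m : ℕ) (k : ℕ) (f : Fin (m + 1) → Y) (j : Fin (m + 1)) :
    (rot Y m ^ k) f j = f (j + k • (1 : Fin (m + 1))) := by
  induction k generalizing j with
  | zero => simp
  | succ k ih =>
    rw [pow_succ', Equiv.Perm.mul_apply, rot_apply, ih]
    congr 1
    rw [succ_nsmul]
    abel

theorem rot_pow_self {Y : Type*} (m : ℕ) : rot Y m ^ (m + 1) = 1 := by
  ext f j
  rw [rot_pow_apply]
  have : (m + 1) • (1 : Fin (m + 1)) = 0 := by
    have := card_nsmul_eq_zero' (G := Fin (m + 1)) (x := 1)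
    simpa using this
  rw [this, add_zero]
  rfl

theorem rot_fixed {Y : Type*} (m : ℕ) (f : Fin (m + 1) → Y) (h : rot Y m f = f) (j : Fin (m + 1)) :
    f j = f 0 := by
  have h1 : ∀ j, f (j + 1) = f j := fun j => by
    have := rot_apply m f j
    rw [h] at this
    exact this.symm
  induction j using Fin.induction with
  | zero => rfl
  | succ i ih =>
    rw [← ih, ← Fin.coeSucc_eq_succ, h1]

theorem prod_rot {Y : Type*} (y : Y → R) (m : ℕ) (f : Fin (m + 1) → Y) :
    (List.ofFn (fun j => y (rot Y m f j))).prod =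
      (List.ofFn (fun j : Fin m => y (f j.succ))).prod * y (f 0) := by
  rw [List.ofFn_succ', List.prod_concat]
  simp only [rot_apply, Fin.coeSucc_eq_succ, Fin.last_add_one]

/-- **Frobenius modulo commutators**: for a trace form `σ`, `σ ((∑ y i) ^ p^n) = ∑ σ (y i ^ p^n)`. -/
theorem trace_sum_pow {p : ℕ} [hp : Fact p.Prime] {M Y : Type*} [AddCommGroup M] [Fintype Y]
    [DecidableEq Y] (hM : ∀ m : M, p • m = 0) (σ : R →+ M) (hσ : ∀ a b, σ (a * b) = σ (b * a))
    (y : Y → R) (n : ℕ) :
    σ ((∑ i, y i) ^ (p ^ n)) = ∑ i, σ (y i ^ (p ^ n)) := by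
  obtain ⟨m, hm⟩ : ∃ m, p ^ n = m + 1 := ⟨p ^ n - 1, by
    have := Nat.pos_of_ne_zero (pow_ne_zero n hp.out.ne_zero)
    omega⟩
  have hr : rot Y m ^ (p ^ n) = 1 := by rw [hm]; exact rot_pow_self m
  rw [hm, sum_pow_eq, map_sum]
  have h1 := sum_eq_sum_fixed (X := Fin (m + 1) → Y) (p := p) hM hr
    (fun f => σ (List.ofFn (fun j => y (f j))).prod) (by
      intro f
      show σ _ = σ _
      rw [prod_rot, List.ofFn_succ, List.prod_cons, hσ])
  rw [h1]
  have h2 : ∑ x : Fin (m + 1) → Y with rot Y m x = x, σ (List.ofFn fun j => y (x j)).prod =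
      ∑ i, σ (List.ofFn fun j : Fin (m + 1) => y ((fun _ => i : Fin (m + 1) → Y) j)).prod := by
    symm
    apply Finset.sum_bij (fun i _ => (fun _ => i : Fin (m + 1) → Y))
    · intro i _
      rw [Finset.mem_filter]
      refine ⟨Finset.mem_univ _, ?_⟩
      funext j
      rw [rot_apply]
    · intro i _ i' _ h
      exact congrFun h 0
    · intro f hf
      have hf' := (Finset.mem_filter.1 hf).2
      exact ⟨f 0, Finset.mem_univ _, by funext j; exact (rot_fixed m f hf' j).symm⟩
    · intro i _
      rfl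
  rw [h2]
  apply Finset.sum_congr rfl
  intro i _
  simp [List.ofFn_const]
  rw [pow_succ']

end power

/-- Trace of the Frobenius of a matrix. -/
theorem trace_pow_char_pow {k : Type*} [Field k] {p : ℕ} [hp : Fact p.Prime] [CharP k p] {d : ℕ}
    (M : Matrix (Fin d) (Fin d) k) (n : ℕ) :
    Matrix.trace (M ^ (p ^ n)) = Matrix.trace M ^ (p ^ n) := by
  have hM : ∀ m : k, p • m = 0 := by
    intro m
    rw [nsmul_eq_mul, CharP.cast_eq_zero, zero_mul]
  let σ : Matrix (Fin d) (Fin d) k →+ k := (Matrix.traceAddMonoidHom (Fin d) k)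
  have h1 := trace_sum_pow (p := p) hM σ (fun a b => Matrix.trace_mul_comm a b)
    (fun ab : Fin d × Fin d => Matrix.single ab.1 ab.2 (M ab.1 ab.2)) n
  have h2 : ∑ ab : Fin d × Fin d, Matrix.single ab.1 ab.2 (M ab.1 ab.2) = M := by
    rw [Fintype.sum_prod_type]
    exact (Matrix.matrix_eq_sum_single M).symm
  rw [h2] at h1
  have hn : p ^ n = (p ^ n - 1) + 1 := by
    have := Nat.pos_of_ne_zero (pow_ne_zero n hp.out.ne_zero)
    omega
  have h3 : ∀ ab : Fin d × Fin d, σ ((Matrix.single ab.1 ab.2 (M ab.1 ab.2)) ^ (p ^ n)) =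
      if ab.1 = ab.2 then (M ab.1 ab.2) ^ (p ^ n) else 0 := by
    rintro ⟨a, b⟩
    by_cases hab : a = b
    · subst hab
      simp only [if_true]
      have : ∀ N, (Matrix.single a a (M a a)) ^ (N + 1) = Matrix.single a a ((M a a) ^ (N + 1)) := by
        intro N
        induction N with
        | zero => simp
        | succ N ih => rw [pow_succ, ih, Matrix.single_mul_single_same, pow_succ (M a a) (N + 1)]
      rw [hn, this, ← hn]
      simp [σ, Matrix.trace_single_eq_same]
    · simp only [if_neg hab]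
      have h5 : ∀ N : ℕ, σ ((Matrix.single a b (M a b)) ^ (N + 1)) = 0 := by
        intro N
        cases N with
        | zero =>
          simp [σ, Matrix.trace_single_eq_of_ne, hab]
        | succ N =>
          have h6 : (Matrix.single a b (M a b)) ^ 2 = 0 := by
            rw [pow_two, Matrix.single_mul_single_of_ne _ _ _ _ (Ne.symm hab)]
          rw [show N + 1 + 1 = 2 + N by omega, pow_add, h6, zero_mul, map_zero]
      rw [hn]
      exact h5 _
  rw [show σ (M ^ p ^ n) = Matrix.trace (M ^ p ^ n) from rfl] at h1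
  rw [h1, Finset.sum_congr rfl (fun ab _ => h3 ab), Fintype.sum_prod_type]
  unfold Matrix.trace
  simp only [Matrix.diag_apply, Finset.sum_ite_eq, Finset.mem_univ, if_true]
  rw [sum_pow_char_pow]

section groupalg

open MonoidAlgebra

variable {G : Type*} [Group G] [Fintype G] {k : Type*} [Field k]

/-- The linear functional on the group algebra with prescribed values on the group. -/
noncomputable def lin (Φ : G → k) : MonoidAlgebra k G →ₗ[k] k where
  toFun a := ∑ g, a.coeff g * Φ g
  map_add' a b := by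
    rw [← Finset.sum_add_distrib]
    apply Finset.sum_congr rfl
    intro g _
    rw [MonoidAlgebra.coeff_add, Finsupp.add_apply, add_mul]
  map_smul' r a := by
    simp only [RingHom.id_apply, smul_eq_mul, Finset.mul_sum]
    apply Finset.sum_congr rfl
    intro g _
    rw [MonoidAlgebra.coeff_smul, Finsupp.smul_apply, smul_eq_mul, mul_assoc]

theorem lin_apply (Φ : G → k) (a : MonoidAlgebra k G) : lin Φ a = ∑ g, a.coeff g * Φ g := rfl

theorem lin_single (Φ : G → k) (g : G) (r : k) : lin Φ (single g r) = r * Φ g := by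
  classical
  rw [lin_apply, Finset.sum_eq_single g]
  · simp [MonoidAlgebra.coeff_single]
  · intro h _ hne
    simp [MonoidAlgebra.coeff_single, Ne.symm hne]
  · simp

theorem eq_sum_single (a : MonoidAlgebra k G) : a = ∑ g, single g (a.coeff g) := by
  classical
  apply MonoidAlgebra.coeff_injective
  ext u
  rw [MonoidAlgebra.coeff_sum, Finsupp.finsetSum_apply, Finset.sum_eq_single u]
  · simp [MonoidAlgebra.coeff_single]
  · intro h _ hne
    simp [MonoidAlgebra.coeff_single, hne]
  · simp

open Classical in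
/-- The sum of the coefficients over a conjugacy class. -/
noncomputable def mu (C : ConjClasses G) : MonoidAlgebra k G →ₗ[k] k :=
  lin (fun g => if ConjClasses.mk g = C then (1 : k) else 0)

theorem mu_single (C : ConjClasses G) (g : G) (r : k) [Decidable (ConjClasses.mk g = C)] :
    mu C (single g r) = if ConjClasses.mk g = C then r else 0 := by
  unfold mu
  rw [lin_single]
  by_cases h : ConjClasses.mk g = C <;> simp [h]

theorem mk_mul_comm (g h : G) : ConjClasses.mk (g * h) = ConjClasses.mk (h * g) := by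
  rw [ConjClasses.mk_eq_mk_iff_isConj, isConj_iff]
  exact ⟨g⁻¹, by group⟩

theorem mu_comm (C : ConjClasses G) (a b : MonoidAlgebra k G) : mu C (a * b) = mu C (b * a) := by
  classical
  induction a using MonoidAlgebra.induction_linear with
  | zero => simp
  | add x y hx hy => rw [add_mul, mul_add, map_add, map_add, hx, hy]
  | single g r =>
    induction b using MonoidAlgebra.induction_linear with
    | zero => simp
    | add x y hx hy => rw [add_mul, mul_add, map_add, map_add, hx, hy]
    | single h s =>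
      rw [MonoidAlgebra.single_mul_single, MonoidAlgebra.single_mul_single, mu_single, mu_single,
        mk_mul_comm, mul_comm r s]

variable {p : ℕ} [hp : Fact p.Prime] [hk : CharP k p]

include hp hk in
theorem k_p_smul (m : k) : p • m = 0 := by
  rw [nsmul_eq_mul, CharP.cast_eq_zero, zero_mul]

include hp hk in
theorem mu_sum_pow {Y : Type*} [Fintype Y] [DecidableEq Y] (C : ConjClasses G) (y : Y → G) (r : Y → k)
    (n : ℕ) :
    mu C ((∑ i, single (y i) (r i)) ^ (p ^ n)) =
      ∑ i, (r i) ^ (p ^ n) * (@ite k (ConjClasses.mk (y i ^ (p ^ n)) = C) (Classical.propDecidable _) 1 0) := by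
  classical
  have h := trace_sum_pow (p := p) (R := MonoidAlgebra k G) k_p_smul (mu (k := k) C).toAddMonoidHom
    (fun a b => mu_comm C a b) (fun i => single (y i) (r i)) n
  simp only [LinearMap.toAddMonoidHom_coe] at h
  rw [h]
  apply Finset.sum_congr rfl
  intro i _
  rw [MonoidAlgebra.single_pow, mu_single]
  by_cases hc : ConjClasses.mk (y i ^ p ^ n) = C <;> simp [hc]

theorem mk_pow_congr {g h : G} (e : ConjClasses.mk g = ConjClasses.mk h) (N : ℕ) :
    ConjClasses.mk (g ^ N) = ConjClasses.mk (h ^ N) := by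
  rw [ConjClasses.mk_eq_mk_iff_isConj] at e ⊢
  exact e.pow N

include hp hk in
/-- Elements with vanishing class sums stay so under `p`-power maps. -/
theorem mu_pow_of_zero (c : MonoidAlgebra k G) (hc : ∀ C, mu C c = 0) (C : ConjClasses G) (n : ℕ) :
    mu C (c ^ (p ^ n)) = 0 := by
  classical
  conv_lhs => rw [eq_sum_single c]
  rw [mu_sum_pow (p := p)]
  let ψ : ConjClasses G → k := fun D =>
    if ConjClasses.mk ((Classical.choose (ConjClasses.exists_rep D)) ^ (p ^ n)) = C then 1 else 0
  have hψ : ∀ g, (@ite k (ConjClasses.mk (g ^ (p ^ n)) = C) (Classical.propDecidable _) 1 0) = ψ (ConjClasses.mk g) := by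
    intro g
    have h1 := Classical.choose_spec (ConjClasses.exists_rep (ConjClasses.mk g))
    have h2 := mk_pow_congr h1 (p ^ n)
    simp only [ψ]
    rw [h2]
    congr
  simp_rw [hψ]
  rw [← Finset.sum_fiberwise (s := univ) (g := fun g : G => ConjClasses.mk g)]
  apply Finset.sum_eq_zero
  intro D _
  have h3 : ∑ g with ConjClasses.mk g = D, (c.coeff g) ^ (p ^ n) * ψ (ConjClasses.mk g) =
      (∑ g with ConjClasses.mk g = D, c.coeff g) ^ (p ^ n) * ψ D := by
    rw [sum_pow_char_pow, Finset.sum_mul]
    apply Finset.sum_congr rfl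
    intro g hg
    rw [(Finset.mem_filter.1 hg).2]
  rw [h3]
  have h4 : ∑ g with ConjClasses.mk g = D, c.coeff g = mu D c := by
    unfold mu
    rw [lin_apply, Finset.sum_filter]
    apply Finset.sum_congr rfl
    intro g _
    by_cases hg : ConjClasses.mk g = D <;> simp [hg]
  rw [h4, hc, zero_pow (pow_ne_zero n hp.out.ne_zero), zero_mul]

include hp hk in
theorem mu_add_pow (c j : MonoidAlgebra k G) (hc : ∀ C, mu C c = 0) (C : ConjClasses G) (n : ℕ) :
    mu C ((c + j) ^ (p ^ n)) = mu C (j ^ (p ^ n)) := by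
  classical
  have h1 := mu_pow_of_zero (p := p) c hc C n
  conv at h1 => lhs; rw [eq_sum_single c]
  conv_rhs => rw [eq_sum_single j]
  conv_lhs => rw [eq_sum_single (c + j)]
  rw [mu_sum_pow (p := p)] at h1 ⊢
  rw [mu_sum_pow (p := p)]
  have h2 : ∀ g, ((c + j).coeff g) ^ (p ^ n) = (c.coeff g) ^ (p ^ n) + (j.coeff g) ^ (p ^ n) := by
    intro g
    rw [MonoidAlgebra.coeff_add, Finsupp.add_apply, add_pow_char_pow]
  simp_rw [h2, add_mul]
  rw [Finset.sum_add_distrib, h1, zero_add]

end groupalg

section exponent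

variable {G : Type*} [Group G] [Fintype G] {p : ℕ} [hp : Fact p.Prime]

include hp in
theorem exists_good_n (m₀ : ℕ) : ∃ n, m₀ ≤ n ∧ 0 < n ∧ Fintype.card G ∣ p ^ n * (p ^ n - 1) := by
  have hpos : 0 < Fintype.card G := Fintype.card_pos
  let a := (Fintype.card G).factorization p
  let E := ordCompl[p] (Fintype.card G)
  have hE : p ^ a * E = Fintype.card G := Nat.ordProj_mul_ordCompl_eq_self _ _
  have hcop : Nat.Coprime p E := Nat.coprime_ordCompl hp.out hpos.ne'
  have hEpos : 0 < E := Nat.ordCompl_pos _ hpos.ne'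
  have hphi : 0 < Nat.totient E := Nat.totient_pos.2 hEpos
  let n := Nat.totient E * (a + m₀ + 1)
  have hn : a + m₀ + 1 ≤ n := Nat.le_mul_of_pos_left _ hphi
  refine ⟨n, by omega, by omega, ?_⟩
  rw [← hE]
  apply Nat.mul_dvd_mul (pow_dvd_pow p (by omega))
  have h1 : p ^ n ≡ 1 [MOD E] := by
    have h2 := Nat.ModEq.pow_totient hcop
    have h3 := h2.pow (a + m₀ + 1)
    rwa [one_pow, ← pow_mul] at h3
  exact (Nat.modEq_iff_dvd' (Nat.one_le_pow _ _ hp.out.pos)).1 h1.symm

variable {N : ℕ}

theorem pow_pow_self (hN : Fintype.card G ∣ N * (N - 1)) (hN1 : 1 ≤ N) (g : G) : (g ^ N) ^ N = g ^ N := by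
  have h1 : g ^ (N * (N - 1)) = 1 := by
    obtain ⟨c, hc⟩ := hN
    rw [hc, pow_mul, pow_card_eq_one, one_pow]
  have h2 : N * N = N * (N - 1) + N := by
    obtain ⟨M, rfl⟩ : ∃ M, N = M + 1 := ⟨N - 1, by omega⟩
    simp only [Nat.add_sub_cancel]
    ring
  rw [← pow_mul, h2, pow_add, h1, one_mul]

include hp in
theorem pow_reg (n : ℕ) (hn : 0 < n) (hN : Fintype.card G ∣ p ^ n * (p ^ n - 1)) (g : G) :
    (orderOf (g ^ (p ^ n))).Coprime p := by
  have hN1 : 1 ≤ p ^ n := Nat.one_le_pow _ _ hp.out.pos
  have h1 : (g ^ (p ^ n)) ^ (p ^ n - 1) = 1 := by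
    rw [← pow_mul]
    obtain ⟨c, hc⟩ := hN
    rw [hc, pow_mul, pow_card_eq_one, one_pow]
  have h2 := orderOf_dvd_of_pow_eq_one h1
  have h3 : Nat.Coprime (p ^ n - 1) p := by
    have h4 : Nat.Coprime (p ^ n - 1) (p ^ n) := by
      rw [Nat.coprime_comm]
      have : p ^ n = (p ^ n - 1) + 1 := by omega
      conv_lhs => rw [this]
      simp
    exact Nat.Coprime.coprime_dvd_right (dvd_pow_self p hn.ne') h4
  exact Nat.Coprime.coprime_dvd_left h2 h3

include hp in
theorem pow_of_reg (n : ℕ) (hN : Fintype.card G ∣ p ^ n * (p ^ n - 1)) {g : G}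
    (hg : (orderOf g).Coprime p) : g ^ (p ^ n) = g := by
  have hN1 : 1 ≤ p ^ n := Nat.one_le_pow _ _ hp.out.pos
  have h1 : orderOf g ∣ p ^ n * (p ^ n - 1) := (orderOf_dvd_card).trans hN
  have h2 : orderOf g ∣ p ^ n - 1 := (Nat.Coprime.pow_right n hg).dvd_of_dvd_mul_left h1
  have h3 : g ^ (p ^ n - 1) = 1 := orderOf_dvd_iff_pow_eq_one.1 h2
  have h4 : p ^ n = (p ^ n - 1) + 1 := by omega
  conv_lhs => rw [h4, pow_succ, h3, one_mul]

end exponent

section wedderburn

open MonoidAlgebra

/-- A Wedderburn system of the group algebra: the matrix quotients of `k G`, jointly onto, with nil kernel. -/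
structure WSys (k G : Type*) [Field k] [Group G] where
  r : ℕ
  d : Fin r → ℕ
  ρ : ∀ i, MonoidAlgebra k G →ₐ[k] Matrix (Fin (d i)) (Fin (d i)) k
  pos : ∀ i, 0 < d i
  surj : Function.Surjective (fun a i => ρ i a)
  nil : ∀ a, (∀ i, ρ i a = 0) → IsNilpotent a

variable (k G : Type*) [Field k] [IsAlgClosed k] [Group G] [Fintype G]

theorem exists_wsys : Nonempty (WSys k G) := by
  classical
  let A := MonoidAlgebra k G
  haveI : FiniteDimensional k A := inferInstance
  haveI : IsArtinianRing A := IsArtinianRing.of_finite k A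
  let J : Ideal A := Ring.jacobson A
  haveI : IsSemisimpleRing (A ⧸ J) := IsSemiprimaryRing.isSemisimpleRing
  obtain ⟨r, d, hd, ⟨e⟩⟩ := IsSemisimpleRing.exists_algEquiv_pi_matrix_of_isAlgClosed k (A ⧸ J)
  let π : A →ₐ[k] (A ⧸ J) := Ideal.Quotient.mkₐ k J
  refine ⟨⟨r, d, fun i => (Pi.evalAlgHom k (fun i => Matrix (Fin (d i)) (Fin (d i)) k) i).comp (e.toAlgHom.comp π), ?_, ?_, ?_⟩⟩
  · intro i
    exact Nat.pos_of_ne_zero (hd i).out
  · intro y
    obtain ⟨a, ha⟩ := Ideal.Quotient.mk_surjective (e.symm y)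
    refine ⟨a, ?_⟩
    funext i
    show (e (Ideal.Quotient.mk J a)) i = y i
    rw [ha]
    simp
  · intro a ha
    have h1 : e (Ideal.Quotient.mk J a) = 0 := by
      funext i
      exact ha i
    have h2 : Ideal.Quotient.mk J a = 0 := by
      have := e.injective (h1.trans (map_zero e).symm)
      exact this
    have h3 : a ∈ J := Ideal.Quotient.eq_zero_iff_mem.1 h2
    obtain ⟨n, hn⟩ : IsNilpotent J := IsSemiprimaryRing.isNilpotent
    refine ⟨n, ?_⟩
    have h4 : a ^ n ∈ J ^ n := Ideal.pow_mem_pow h3 n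
    rw [hn] at h4
    simpa using h4

end wedderburn

section tracezero

variable {k : Type*} [Field k] {d : ℕ}

/-- A subspace of matrices containing all commutators contains all matrices of trace zero. -/
theorem mem_of_trace_zero (hd : 0 < d) (W : Submodule k (Matrix (Fin d) (Fin d) k))
    (hW : ∀ X Y, X * Y - Y * X ∈ W) (M : Matrix (Fin d) (Fin d) k) (hM : Matrix.trace M = 0) : M ∈ W := by
  classical
  let a₀ : Fin d := ⟨0, hd⟩
  have hoff : ∀ a b, a ≠ b → Matrix.single a b (1 : k) ∈ W := by
    intro a b hab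
    have := hW (Matrix.single a a 1) (Matrix.single a b 1)
    rw [Matrix.single_mul_single_same, Matrix.single_mul_single_of_ne _ _ _ _ (Ne.symm hab)] at this
    simpa using this
  have hdiag : ∀ a, Matrix.single a a (1 : k) - Matrix.single a₀ a₀ 1 ∈ W := by
    intro a
    have := hW (Matrix.single a a₀ 1) (Matrix.single a₀ a 1)
    rw [Matrix.single_mul_single_same, Matrix.single_mul_single_same] at this
    simpa using this
  have hdecomp : M = ∑ a, ∑ b, if a = b then (M a a) • (Matrix.single a a (1 : k) - Matrix.single a₀ a₀ 1)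
      else (M a b) • Matrix.single a b (1 : k) := by
    have h1 : M = ∑ a, ∑ b, Matrix.single a b (M a b) := Matrix.matrix_eq_sum_single M
    have h2 : (∑ a, ∑ b, if a = b then (M a a) • (Matrix.single a a (1 : k) - Matrix.single a₀ a₀ 1)
        else (M a b) • Matrix.single a b (1 : k)) =
        (∑ a, ∑ b, Matrix.single a b (M a b)) - (∑ a, M a a) • Matrix.single a₀ a₀ (1 : k) := by
      rw [Finset.sum_smul, ← Finset.sum_sub_distrib]
      apply Finset.sum_congr rfl
      intro a _
      rw [eq_sub_iff_add_eq, ← Finset.add_sum_erase _ _ (Finset.mem_univ a),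
        ← Finset.add_sum_erase (a := a) (f := fun b => Matrix.single a b (M a b)) _ (Finset.mem_univ a)]
      rw [if_pos rfl]
      have h3 : ∑ b ∈ Finset.univ.erase a, (if a = b then (M a a) • (Matrix.single a a (1 : k) - Matrix.single a₀ a₀ 1)
          else (M a b) • Matrix.single a b (1 : k)) = ∑ b ∈ Finset.univ.erase a, Matrix.single a b (M a b) := by
        apply Finset.sum_congr rfl
        intro b hb
        rw [if_neg (Ne.symm (Finset.ne_of_mem_erase hb)), Matrix.smul_single, smul_eq_mul, mul_one]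
      rw [h3, smul_sub, Matrix.smul_single, smul_eq_mul, mul_one]
      abel
    have h4 : ∑ a, M a a = 0 := hM
    rw [h4, zero_smul, sub_zero] at h2
    rw [h2]
    exact h1
  rw [hdecomp]
  apply Submodule.sum_mem
  intro a _
  apply Submodule.sum_mem
  intro b _
  by_cases hab : a = b
  · rw [if_pos hab]
    exact W.smul_mem _ (hdiag a)
  · rw [if_neg hab]
    exact W.smul_mem _ (hoff a b hab)

end tracezero

section count

open MonoidAlgebra

variable {G : Type*} [Group G] [Fintype G] {k : Type*} [Field k] {p : ℕ} [hp : Fact p.Prime] [hk : CharP k p]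

/-- The value at `g` of the trace of `ρ i`. -/
noncomputable def bet (S : WSys k G) (i : Fin S.r) (g : G) : k := Matrix.trace (S.ρ i (single g 1))

theorem bet_conj (S : WSys k G) (i : Fin S.r) {g h : G} (e : ConjClasses.mk g = ConjClasses.mk h) :
    bet S i g = bet S i h := by
  rw [ConjClasses.mk_eq_mk_iff_isConj, isConj_iff] at e
  obtain ⟨c, rfl⟩ := e
  unfold bet
  have h1 : (single (c * g * c⁻¹) (1:k) : MonoidAlgebra k G) = single c 1 * (single g 1 * single c⁻¹ 1) := by
    simp [MonoidAlgebra.single_mul_single, mul_assoc]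
  have h2 : (single c⁻¹ (1:k) : MonoidAlgebra k G) * single c 1 = 1 := by
    simp [MonoidAlgebra.single_mul_single, MonoidAlgebra.one_def]
  rw [h1, map_mul, Matrix.trace_mul_comm, ← map_mul, mul_assoc, h2, mul_one]

include hp hk in
theorem bet_pow (S : WSys k G) (i : Fin S.r) (g : G) (n : ℕ) : bet S i (g ^ (p ^ n)) = (bet S i g) ^ (p ^ n) := by
  unfold bet
  rw [← trace_pow_char_pow, ← map_pow, MonoidAlgebra.single_pow, one_pow]

include hp hk in
theorem bet_reg (S : WSys k G) (i : Fin S.r) (g : G) (n : ℕ) (hn : Fintype.card G ∣ p ^ n * (p ^ n - 1)) :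
    bet S i g = bet S i (g ^ (p ^ n)) := by
  have hN1 : 1 ≤ p ^ n := Nat.one_le_pow _ _ hp.out.pos
  have h1 := bet_pow (p := p) S i g n
  have h2 := bet_pow (p := p) S i (g ^ (p ^ n)) n
  rw [pow_pow_self hn hN1] at h2
  have h3 : (bet S i g) ^ (p ^ n) = (bet S i (g ^ (p ^ n))) ^ (p ^ n) := by rw [← h1, ← h2]
  have h4 : (bet S i g - bet S i (g ^ (p ^ n))) ^ (p ^ n) = 0 := by
    rw [sub_pow_char_pow, h3, sub_self]
  exact sub_eq_zero.1 (pow_eq_zero_iff (pow_ne_zero n hp.out.ne_zero) |>.1 h4)

/-- The `p`-regular classes. -/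
abbrev RegC (G : Type*) [Group G] (p : ℕ) :=
  {c : ConjClasses G // ∃ g : G, ConjClasses.mk g = c ∧ (orderOf g).Coprime p}

/-- A representative of a regular class. -/
noncomputable def rp (C : RegC G p) : G := Classical.choose C.2

theorem mk_rp (C : RegC G p) : ConjClasses.mk (rp C) = C.1 := (Classical.choose_spec C.2).1

theorem rp_reg (C : RegC G p) : (orderOf (rp C)).Coprime p := (Classical.choose_spec C.2).2

noncomputable instance : Fintype (RegC G p) := Fintype.ofFinite _

include hp hk in
theorem card_le_reg (S : WSys k G) : S.r ≤ Fintype.card (RegC G p) := by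
  classical
  let L : (Fin S.r → k) →ₗ[k] (RegC G p → k) :=
    { toFun := fun c C => ∑ i, c i * bet S i (rp C)
      map_add' := by
        intro a b
        funext C
        simp [add_mul, Finset.sum_add_distrib]
      map_smul' := by
        intro a b
        funext C
        simp [Finset.mul_sum, mul_assoc] }
  have hL : Function.Injective L := by
    rw [← LinearMap.ker_eq_bot, LinearMap.ker_eq_bot']
    intro c hc
    have h1 : ∀ C : RegC G p, ∑ i, c i * bet S i (rp C) = 0 := fun C => congrFun hc C
    have h2 : ∀ s : G, (orderOf s).Coprime p → ∑ i, c i * bet S i s = 0 := by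
      intro s hs
      have h3 := h1 ⟨ConjClasses.mk s, s, rfl, hs⟩
      rwa [Finset.sum_congr rfl (fun i _ => by
        rw [bet_conj S i (mk_rp (⟨ConjClasses.mk s, s, rfl, hs⟩ : RegC G p))])] at h3
    obtain ⟨n, -, hn0, hn⟩ := exists_good_n (G := G) (p := p) 0
    have h4 : ∀ g : G, ∑ i, c i * bet S i g = 0 := by
      intro g
      rw [← h2 _ (pow_reg n hn0 hn g)]
      apply Finset.sum_congr rfl
      intro i _
      rw [bet_reg (p := p) S i g n hn]
    have h5 : ∀ a : MonoidAlgebra k G, ∑ i, c i * Matrix.trace (S.ρ i a) = 0 := by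
      intro a
      induction a using MonoidAlgebra.induction_linear with
      | zero => simp
      | add x y hx hy =>
        simp only [map_add, Matrix.trace_add, mul_add, Finset.sum_add_distrib, hx, hy, add_zero]
      | single g r =>
        have e : (single g r : MonoidAlgebra k G) = r • single g 1 := by simp
        simp only [e, map_smul, Matrix.trace_smul, smul_eq_mul]
        have := h4 g
        unfold bet at this
        calc _ = r * ∑ i, c i * Matrix.trace (S.ρ i (single g 1)) := by
              rw [Finset.mul_sum]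
              apply Finset.sum_congr rfl
              intro i _
              ring
          _ = 0 := by rw [this, mul_zero]
    funext i₀
    have hpos := S.pos i₀
    obtain ⟨a, ha⟩ := S.surj (Pi.single i₀ (Matrix.single ⟨0, hpos⟩ ⟨0, hpos⟩ 1))
    have h6 := h5 a
    rw [Finset.sum_eq_single i₀] at h6
    · have h7 : S.ρ i₀ a = Matrix.single ⟨0, hpos⟩ ⟨0, hpos⟩ 1 := by
        have := congrFun ha i₀
        simpa using this
      rw [h7, Matrix.trace_single_eq_same, mul_one] at h6
      exact h6
    · intro j _ hj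
      have h7 : S.ρ j a = 0 := by
        have := congrFun ha j
        simpa [Pi.single_eq_of_ne hj] using this
      rw [h7, Matrix.trace_zero, mul_zero]
    · simp
  have h := LinearMap.finrank_le_finrank_of_injective hL
  simpa using h

include hp hk in
/-- Decomposition of an element with all traces zero. -/
theorem exists_decomp (S : WSys k G) (e : MonoidAlgebra k G) (he : ∀ i, Matrix.trace (S.ρ i e) = 0) :
    ∃ c j, e = c + j ∧ (∀ C : ConjClasses G, mu C c = 0) ∧ ∀ i, S.ρ i j = 0 := by
  classical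
  let Z : Submodule k (MonoidAlgebra k G) := ⨅ C : ConjClasses G, LinearMap.ker (mu (k := k) C)
  have hZ : ∀ a b : MonoidAlgebra k G, a * b - b * a ∈ Z := by
    intro a b
    rw [Submodule.mem_iInf]
    intro C
    rw [LinearMap.mem_ker, map_sub, mu_comm, sub_self]
  let ρt : MonoidAlgebra k G →ₗ[k] ∀ i, Matrix (Fin (S.d i)) (Fin (S.d i)) k :=
    LinearMap.pi (fun i => (S.ρ i).toLinearMap)
  let W : Submodule k (∀ i, Matrix (Fin (S.d i)) (Fin (S.d i)) k) := Z.map ρt
  have hsingle : ∀ i (M : Matrix (Fin (S.d i)) (Fin (S.d i)) k), Matrix.trace M = 0 → (Pi.single i M : ∀ i, Matrix (Fin (S.d i)) (Fin (S.d i)) k) ∈ W := by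
    intro i M hM
    let W' : Submodule k (Matrix (Fin (S.d i)) (Fin (S.d i)) k) := W.comap (LinearMap.single k (fun i => Matrix (Fin (S.d i)) (Fin (S.d i)) k) i)
    have h1 := mem_of_trace_zero (S.pos i) W' (by
      intro X Y
      obtain ⟨a, ha⟩ := S.surj (Pi.single i X)
      obtain ⟨b, hb⟩ := S.surj (Pi.single i Y)
      refine ⟨a * b - b * a, hZ a b, ?_⟩
      funext j
      have ha' := congrFun ha j
      have hb' := congrFun hb j
      simp only at ha' hb'
      show S.ρ j (a * b - b * a) = _
      rw [map_sub, map_mul, map_mul, ha', hb']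
      by_cases hj : j = i
      · subst hj
        simp
      · simp [Pi.single_eq_of_ne hj]) M hM
    exact h1
  have hmem : ρt e ∈ W := by
    have h1 : ρt e = ∑ i, Pi.single i (S.ρ i e) := by
      funext j
      rw [Finset.sum_apply, Finset.sum_eq_single j]
      · simp [ρt]
      · intro i _ hi
        simp [Pi.single_eq_of_ne (Ne.symm hi)]
      · simp
    rw [h1]
    exact Submodule.sum_mem _ (fun i _ => hsingle i _ (he i))
  obtain ⟨c, hc, hce⟩ := hmem
  refine ⟨c, e - c, by abel, ?_, ?_⟩
  · intro C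
    exact (Submodule.mem_iInf _).1 hc C
  · intro i
    have := congrFun hce i
    simp only [ρt, LinearMap.pi_apply, AlgHom.toLinearMap_apply] at this
    rw [map_sub, this, sub_self]

include hp hk in
theorem reg_le_card (S : WSys k G) : Fintype.card (RegC G p) ≤ S.r := by
  classical
  let L : (RegC G p → k) →ₗ[k] (Fin S.r → k) :=
    { toFun := fun a i => ∑ C, a C * bet S i (rp C)
      map_add' := by
        intro a b
        funext C
        simp [add_mul, Finset.sum_add_distrib]
      map_smul' := by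
        intro a b
        funext C
        simp [Finset.mul_sum, mul_assoc] }
  have hL : Function.Injective L := by
    rw [← LinearMap.ker_eq_bot, LinearMap.ker_eq_bot']
    intro a ha
    have h1 : ∀ i, ∑ C, a C * bet S i (rp C) = 0 := fun i => congrFun ha i
    let e : MonoidAlgebra k G := ∑ C, single (rp C) (a C)
    have he : ∀ i, Matrix.trace (S.ρ i e) = 0 := by
      intro i
      rw [← h1 i]
      simp only [e, map_sum, Matrix.trace_sum]
      apply Finset.sum_congr rfl
      intro C _
      have e1 : (single (rp C) (a C) : MonoidAlgebra k G) = a C • single (rp C) 1 := by simp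
      rw [e1, map_smul, Matrix.trace_smul, smul_eq_mul]
      rfl
    obtain ⟨c, j, hej, hc, hj⟩ := exists_decomp (p := p) S e he
    obtain ⟨M, hM⟩ := S.nil j hj
    obtain ⟨n, hnM, hn0, hn⟩ := exists_good_n (G := G) (p := p) M
    have hjN : j ^ (p ^ n) = 0 := by
      have : M ≤ p ^ n := hnM.trans (Nat.lt_pow_self hp.out.one_lt).le
      exact pow_eq_zero_of_le this hM
    funext C₀
    have h2 : mu C₀.1 (e ^ (p ^ n)) = 0 := by
      rw [hej, mu_add_pow (p := p) c j hc, hjN, map_zero]
    have h3 := mu_sum_pow (p := p) (k := k) C₀.1 (fun C : RegC G p => rp C) a n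
    simp only [e] at h2
    rw [h2] at h3
    rw [Finset.sum_eq_single C₀] at h3
    · rw [pow_of_reg n hn (rp_reg C₀), mk_rp] at h3
      simp only [if_true, mul_one] at h3
      exact (pow_eq_zero_iff (pow_ne_zero n hp.out.ne_zero)).1 h3.symm
    · intro C _ hC
      rw [pow_of_reg n hn (rp_reg C), mk_rp]
      have : C.1 ≠ C₀.1 := fun h => hC (Subtype.ext h)
      rw [if_neg this, mul_zero]
    · simp
  have h := LinearMap.finrank_le_finrank_of_injective hL
  simpa using h

/-- **Brauer's count**: the number of matrix quotients of `k G` is the number of `p`-regular classes. -/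
theorem card_eq (S : WSys k G) : S.r = Fintype.card (RegC G p) :=
  le_antisymm (card_le_reg S) (reg_le_card S)

end count

end Cfsg.Agent.Lib.BrauerCount50
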