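import Cfsg.Agent.Lib.BrauerFowler2

/-!
# The number of involutions in a simple group: `3 m < |G|`
-/

set_option linter.style.haveILetI false
set_option linter.unusedSectionVars false

universe u

namespace Cfsg.Agent.Lib.BrauerFowler3

open Cfsg.Agent.Lib.InvolutionPairs Cfsg.Agent.Lib.InvolutionFusion
open Cfsg.Agent.Lib.InvolutionCount Cfsg.Agent.Lib.BrauerFowler
open Cfsg.Agent.Lib.InvolutionIndexTwo Cfsg.Agent.Lib.BrauerFowler2
open Equiv

variable {G : Type u} [Group G]

/-- number of even involutions of `Perm (Fin r)`. -/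
def evenInvol (r : ℕ) : Finset (Perm (Fin r)) :=
  Finset.univ.filter (fun σ : Perm (Fin r) => σ * σ = 1 ∧ σ ≠ 1 ∧ Perm.sign σ = 1)

lemma evenInvol_card_le : ∀ r ≤ 5, (evenInvol r).card ≤ 15 := by
  intro r hr
  interval_cases r <;> decide +kernel

lemma dvd_sixty_aux : ∀ r : ℕ, r ≤ 5 → 2 ≤ r → ∀ c : ℕ, 2 * c = r.factorial → c ∣ 60 := by
  intro r hr hr2 c hc
  have hc' : c = r.factorial / 2 := by omega
  subst hc'
  interval_cases r <;> decide

lemma order_cases_aux : ∀ n : ℕ, n ≤ 45 → n ∣ 60 → 2 ∣ n → 2 < n →
    n = 4 ∨ n = 6 ∨ n = 10 ∨ n = 12 ∨ n = 20 ∨ n = 30 := by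
  intro n h1 h2 h3 h4
  interval_cases n <;> omega

/-- The main part of S0234. -/
theorem three_mul_lt [Finite G] [IsSimpleGroup G] (heven : Even (Nat.card G))
    (hgt : 2 < Nat.card G) :
    3 * Nat.card {t : G // orderOf t = 2} < Nat.card G := by
  classical
  haveI := Fintype.ofFinite G
  by_contra hcon
  push Not at hcon
  set n := Nat.card G with hn
  set m := Nat.card {t : G // orderOf t = 2} with hm
  have hnpos : 0 < n := Nat.card_pos
  have hmpos : 0 < m := (odd_card_involutions heven).pos
  -- a generic exclusion: a proper subgroup whose index gives a contradiction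
  have hexcl : ∀ K : Subgroup G, K.index ≠ 1 → n ∣ K.index.factorial := by
    intro K hK
    apply card_dvd_factorial_index
    rintro rfl
    exact hK Subgroup.index_top
  -- an involution
  obtain ⟨t₀, ht₀⟩ := exists_prime_orderOf_dvd_card' (G := G) 2 (even_iff_two_dvd.1 heven)
  -- the centre is trivial
  have hZ : Subgroup.center G = ⊥ := by
    rcases (inferInstance : (Subgroup.center G).Normal).eq_bot_or_eq_top with h | h
    · exact h
    · exfalso
      have hcomm : ∀ a b : G, a * b = b * a := by
        intro a b
        have : a ∈ Subgroup.center G := by rw [h]; trivial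
        exact (Subgroup.mem_center_iff.1 this b).symm
      have hnorm : (Subgroup.zpowers t₀).Normal := by
        constructor
        intro a ha g
        rw [hcomm g a, mul_inv_cancel_right]
        exact ha
      rcases hnorm.eq_bot_or_eq_top with h1 | h1
      · rw [Subgroup.zpowers_eq_bot] at h1
        exact ne_one_of_orderOf ht₀ h1
      · have h2 : Nat.card (Subgroup.zpowers t₀) = 2 := by rw [Nat.card_zpowers, ht₀]
        rw [h1, Subgroup.card_top] at h2
        omega
  have hodd : Odd (Nat.card (Subgroup.center G)) := by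
    rw [hZ, Subgroup.card_bot]
    exact odd_one
  obtain ⟨H, hH, hcase⟩ := exists_subgroup_index heven hodd
  have hdvd := card_dvd_factorial_index H hH
  rcases hcase with h2 | hlt
  · rw [h2] at hdvd
    have h5 : Nat.factorial 2 = 2 := rfl
    rw [h5] at hdvd
    have := Nat.le_of_dvd (by norm_num) hdvd
    omega
  have h3 : 2 * H.index * m ^ 2 < m ^ 2 * 12 := by
    calc 2 * H.index * m ^ 2 < n * (n + m) := hlt
      _ ≤ (3 * m) * (3 * m + m) := Nat.mul_le_mul hcon (by omega)
      _ = m ^ 2 * 12 := by ring
  have h4 : 2 * H.index < 12 := by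
    apply Nat.lt_of_mul_lt_mul_left (a := m ^ 2)
    calc m ^ 2 * (2 * H.index) = 2 * H.index * m ^ 2 := by ring
      _ < _ := h3
  have hr5 : H.index ≤ 5 := by omega
  -- the permutation representation
  set r := H.index with hr
  have hcardq : Fintype.card (G ⧸ H) = r := by
    rw [hr, Subgroup.index_eq_card, Nat.card_eq_fintype_card]
  let e : (G ⧸ H) ≃ Fin r := Fintype.equivFinOfCardEq hcardq
  let f : G →* Perm (Fin r) :=
    (e.permCongrHom.toMonoidHom).comp (MulAction.toPermHom G (G ⧸ H))
  have hf : Function.Injective f :=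
    (e.permCongrHom.injective).comp (toPermHom_injective_of_simple H hH)
  -- the sign is trivial
  have hsign : ∀ g : G, Perm.sign (f g) = 1 := by
    let s : G →* ℤˣ := (Perm.sign).comp f
    rcases s.normal_ker.eq_bot_or_eq_top with h | h
    · exfalso
      have hs : Function.Injective s := (MonoidHom.ker_eq_bot_iff s).1 h
      have := Nat.card_le_card_of_injective s hs
      have h2 : Nat.card ℤˣ = 2 := by
        rw [Nat.card_eq_fintype_card]; rfl
      omega
    · intro g
      have : g ∈ s.ker := by rw [h]; trivial
      exact this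
  -- bound on `m`
  have hm15 : m ≤ 15 := by
    refine le_trans ?_ (evenInvol_card_le r hr5)
    rw [hm, Nat.card_eq_fintype_card]
    rw [← Finset.card_univ]
    apply Finset.card_le_card_of_injOn (fun t => f t.1)
    · intro t _
      simp only [evenInvol, Finset.coe_filter, Finset.mem_univ, true_and, Set.mem_ofPred_eq]
      refine ⟨?_, ?_, hsign _⟩
      · rw [← map_mul, mul_self_of_orderOf t.2, map_one]
      · intro h
        have : t.1 = 1 := hf (by rw [h, map_one])
        exact ne_one_of_orderOf t.2 this
    · intro a _ b _ hab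
      exact Subtype.ext (hf hab)
  have hn45 : n ≤ 45 := by omega
  -- `n` divides 60
  have hn60 : n ∣ 60 := by
    have h1 : Fintype.card (alternatingGroup (Fin r)) ∣ 60 := by
      have hr2 : r ≠ 1 := by
        intro h
        rw [hr] at h
        exact hH (Subgroup.index_eq_one.1 h)
      have hr0 : r ≠ 0 := Subgroup.index_ne_zero_of_finite
      have hr1 : 2 ≤ r := by omega
      haveI : Nontrivial (Fin r) := Fin.nontrivial_iff_two_le.2 hr1
      have h2 := two_mul_card_alternatingGroup (α := Fin r)
      rw [Fintype.card_perm, Fintype.card_fin] at h2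
      exact dvd_sixty_aux r hr5 hr1 _ h2
    refine Dvd.dvd.trans ?_ h1
    let f' : G →* alternatingGroup (Fin r) :=
      f.codRestrict _ (fun g => by
        rw [Equiv.Perm.mem_alternatingGroup]
        exact hsign g)
    have hf' : Function.Injective f' := by
      intro a b hab
      exact hf (congrArg Subtype.val hab)
    have := Subgroup.card_dvd_of_injective f' hf'
    rwa [Nat.card_eq_fintype_card (α := alternatingGroup (Fin r))] at this
  -- exclusion of the remaining orders
  have hfact : ∀ (p : ℕ) [Fact p.Prime] (k : ℕ), p ^ k ∣ n → p ^ k ≠ n →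
      n ∣ (n / p ^ k).factorial := by
    intro p _ k hk hne
    obtain ⟨K, hK⟩ := Sylow.exists_subgroup_card_pow_prime (G := G) p hk
    have h1 := Subgroup.card_mul_index K
    rw [hK, ← hn] at h1
    have hpos : 0 < p ^ k := Nat.pos_of_ne_zero (by
      intro h0
      rw [h0] at h1
      simp at h1
      omega)
    have h2 : K.index = n / p ^ k := by
      rw [← h1, Nat.mul_div_cancel_left _ hpos]
    rw [← h2]
    apply hexcl
    intro h3
    rw [h3, mul_one] at h1
    exact hne h1
  haveI : Fact (Nat.Prime 2) := ⟨Nat.prime_two⟩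
  haveI : Fact (Nat.Prime 3) := ⟨Nat.prime_three⟩
  haveI : Fact (Nat.Prime 5) := ⟨Nat.prime_five⟩
  have hneven : 2 ∣ n := even_iff_two_dvd.1 heven
  have hcases : n = 4 ∨ n = 6 ∨ n = 10 ∨ n = 12 ∨ n = 20 ∨ n = 30 :=
    order_cases_aux n hn45 hn60 hneven hgt
  have hn' : Nat.card G = n := rfl
  rcases hcases with h | h | h | h | h | h
  · have := hfact 2 1 (by rw [h]; norm_num) (by rw [h]; norm_num)
    rw [h] at this
    exact absurd this (by decide)
  · have := hfact 3 1 (by rw [h]; norm_num) (by rw [h]; norm_num)
    rw [h] at this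
    exact absurd this (by decide)
  · have := hfact 5 1 (by rw [h]; norm_num) (by rw [h]; norm_num)
    rw [h] at this
    exact absurd this (by decide)
  · have := hfact 2 2 (by rw [h]; norm_num) (by rw [h]; norm_num)
    rw [h] at this
    exact absurd this (by decide)
  · have := hfact 5 1 (by rw [h]; norm_num) (by rw [h]; norm_num)
    rw [h] at this
    exact absurd this (by decide)
  · -- order 30: the Sylow 2-subgroup has order 2
    obtain ⟨T⟩ : Nonempty (Sylow 2 G) := Sylow.nonempty
    have hTcard : Nat.card (T : Subgroup G) = 2 := by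
      obtain ⟨k, hk⟩ := T.isPGroup'.exists_card_eq
      have h1 := Subgroup.card_mul_index (T : Subgroup G)
      have h2 := T.not_dvd_index
      rw [hk, ← hn, h] at h1
      rcases k with _ | _ | k
      · rw [pow_zero, one_mul] at h1
        rw [h1] at h2
        exact absurd (by norm_num) h2
      · rw [hk]; norm_num
      · exfalso
        have h4 : 2 ^ (k + 1 + 1) = 4 * 2 ^ k := by ring
        rw [h4, mul_assoc] at h1
        omega
    have hcyc : IsCyclic (T : Subgroup G) := isCyclic_of_prime_card (p := 2) hTcard
    obtain ⟨K, hK⟩ := exists_index_two_of_isCyclic_sylow heven T hcyc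
    have := hexcl K (by omega)
    rw [hK, h] at this
    exact absurd this (by decide)

end Cfsg.Agent.Lib.BrauerFowler3
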