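import Mathlib
import Cfsg.Prelude.Def_BlockFusion
import Cfsg.Agent.Lib.BrauerConj

/-!
# Principal blocks along chains; the fusion system of the principal block
-/

set_option autoImplicit false
set_option linter.unusedSectionVars false
set_option linter.unusedVariables false
set_option linter.style.haveILetI false

namespace Cfsg.Agent.Lib.BrauerFus

open Cfsg Cfsg.Agent.Lib.CharBasic Cfsg.Agent.Lib.CharInd Cfsg.Agent.Lib.CharIntegrality
open Cfsg.Agent.Lib.BlockLocal Cfsg.Agent.Lib.BlockIdem Cfsg.Agent.Lib.BlockNormal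
open Cfsg.Agent.Lib.BrauerMap Cfsg.Agent.Lib.BrauerPair Cfsg.Agent.Lib.BrauerSub
open Cfsg.Agent.Lib.BrauerConj
open Cfsg.Agent.S4646
open scoped ComplexConjugate

universe u

variable {G : Type u} [Group G] [Fintype G] {p : ℕ} [hp : Fact p.Prime] {M : Ideal AlgInt}

local notation "𝐂[" R "]" => Subgroup.centralizer ((R : Subgroup G) : Set G)
local notation Q "^^" x => Subgroup.map (MulEquiv.toMonoidHom (MulAut.conj (x : G))) (Q : Subgroup G)

noncomputable local instance fintypeSub (K : Subgroup G) : Fintype K := Fintype.ofFinite K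

/-- Normal inclusion of principal pairs. -/
theorem isNormalSubpair_principal (hM : IsPModular p M) {Q R : Subgroup G} (hR : IsPGroup p R)
    (hQR : Q ≤ R) (hRN : R ≤ Subgroup.normalizer (Q : Set G)) :
    IsNormalSubpair p M Q (principalBlock M 𝐂[Q]) R (principalBlock M 𝐂[R]) := by
  classical
  haveI := isPrime_of_isPModular hM
  have hstab : ∀ u ∈ R, StabilizesBlock 𝐂[Q] (principalBlock M 𝐂[Q]) u :=
    fun u hu => stabilizes_principal Q u (hRN hu)
  refine ⟨⟨hR.to_le hQR, isPBlock_principalBlock M⟩, ⟨hR, isPBlock_principalBlock M⟩, hQR, hRN, hstab, ?_⟩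
  intro ξ hξ
  rw [brauerOmega_eq]
  set α := subgroupBlockCoeff 𝐂[Q] (principalBlock M 𝐂[Q]) with hα
  have hαR : ∀ x, MemLocalRing M (α x) :=
    memLocalRing_subgroupBlockCoeff _ (isPBlock_principalBlock M)
  have hαC : Inv 𝐂[R] α :=
    (inv_subgroupBlockCoeff _ _).mono (centralizer_le_centralizer hQR)
  have hαP : Inv R α := inv_subgroupBlockCoeff_of_stable _ R (isPBlock_principalBlock M) hstab
  have h1 := sum_sub_sum_centralizer' R hR hM α hαP hαR
  have h2 : ∑ x, α x = 1 := by
    rw [← sum_subgroup_eq_sum' 𝐂[Q] α (fun y hy => by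
      rw [hα, subgroupBlockCoeff_eq_ext0, ext0_of_not_mem _ _ hy])]
    have h3 := omega_blockCoeff (principalBlock M 𝐂[Q]) (irrOne 𝐂[Q])
    rw [ind_of_mem (irrOne_mem_principalBlock M)] at h3
    rw [← h3]
    unfold omega
    simp only [irrOne, mul_one, div_one]
    refine Finset.sum_congr rfl fun x _ => ?_
    rw [hα, subgroupBlockCoeff_eq_ext0, ext0_coe]
  have h4 : brO R α (irrOne 𝐂[R]) = ∑ x : 𝐂[R], α x := by
    unfold brO omega
    simp [irrOne]
  have h5 := brO_sub_of_sameBlock hαC hαR (ξ := irrOne 𝐂[R]) (ξ' := ξ) hξ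
  rw [h4] at h5
  rw [h2] at h1
  have h6 := memLocalIdeal_add h1 h5
  have e : 1 - ∑ x : 𝐂[R], α x + (∑ x : 𝐂[R], α x - brO R α ξ) = -(brO R α ξ - 1) := by ring
  rw [e] at h6
  have h7 := memLocalIdeal_neg h6
  rwa [neg_neg] at h7

/-- Inclusion of principal pairs. -/
theorem subpairLE_principal (hM : IsPModular p M) {S : Subgroup G} (hS : IsPGroup p S) {Q : Subgroup G}
    (hQS : Q ≤ S) : SubpairLE p M Q (principalBlock M 𝐂[Q]) S (principalBlock M 𝐂[S]) := by
  classical
  induction hn : Nat.card S - Nat.card Q using Nat.strong_induction_on generalizing Q with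
  | _ n ih =>
    rcases lt_or_eq_of_le hQS with hlt | rfl
    swap
    · exact Relation.ReflTransGen.refl
    let N : Subgroup G := S ⊓ Subgroup.normalizer (Q : Set G)
    have hQN : Q < N := lt_inf_normalizer hS hlt
    have hNP : N ≤ S := inf_le_left
    have hcard : Nat.card S - Nat.card N < n := by
      have h1 := card_lt_card_of_lt hQN
      have h2 := card_lt_card_of_lt hlt
      omega
    have h1 := ih _ hcard hNP rfl
    have h2 := isNormalSubpair_principal hM (hS.to_le hNP) hQN.le inf_le_right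
    exact Relation.ReflTransGen.head
      (show NormalSubpairRel p M ⟨Q, _⟩ ⟨N, _⟩ from h2) h1

theorem conjBlock_principal (Q : Subgroup G) (g : G) :
    conjBlock Q g (principalBlock M 𝐂[Q]) = principalBlock M 𝐂[Q ^^ g] := by
  rw [conjBlock_eq_twistSetE, twistSetE_principal]

/-- The principal pair on a Sylow subgroup is maximal, and the principal fusion system is the fusion
system of the group. -/
theorem principal_fusion (hM : IsPModular p M) (S : Sylow p G) :
    IsMaximalBrauerPair p M (principalBlock M G) (S : Subgroup G)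
      (principalBlock M 𝐂[(S : Subgroup G)]) ∧
    ∀ F : FusionSystem (S : Subgroup G), IsBlockFusionSystemOn p M (principalBlock M G) (S : Subgroup G)
      (principalBlock M 𝐂[(S : Subgroup G)]) F →
      ∀ Q : Subgroup G, F.Hom Q = (groupFusionSystem (S : Subgroup G)).Hom Q := by
  refine ⟨⟨isBrauerPairOf_principal hM _ S.isPGroup', fun R g hR hle => ?_⟩, fun F hF Q => ?_⟩
  · exact S.is_maximal' hR.1.1 (le_of_subpairLE hle)
  · ext φ
    rw [hF.2 Q φ]
    constructor
    · rintro ⟨hQ, g, hg, hle, -⟩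
      refine ⟨hQ, fun x => ?_, g, hg⟩
      rw [hg]
      exact hle ⟨x, x.2, by simp [MulAut.conj_apply]⟩
    · rintro ⟨hQ, hS, g, hg⟩
      have hle : (Q ^^ g) ≤ (S : Subgroup G) := by
        rintro _ ⟨q, hq, rfl⟩
        have := hS ⟨q, hq⟩
        rw [hg] at this
        simpa [MulAut.conj_apply] using this
      refine ⟨hQ, g, hg, hle, principalBlock M 𝐂[Q], subpairLE_principal hM S.isPGroup' hQ, ?_⟩
      rw [conjBlock_principal]
      exact subpairLE_principal hM S.isPGroup' hle

end Cfsg.Agent.Lib.BrauerFus
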