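import Mathlib
import Cfsg.Prelude.Def_BlockFusion
import Cfsg.Agent.Lib.BrauerCorr
import Cfsg.Agent.Lib.BrauerNil
import Cfsg.Agent.Lib.BlockExt
import Cfsg.Agent.Lib.BlockOrth

/-!
# Blocks and normal subgroups of `p`-power index: covering at the level of central characters
-/

set_option autoImplicit false
set_option linter.unusedSectionVars false
set_option linter.unusedVariables false
set_option linter.style.haveILetI false

namespace Cfsg.Agent.Lib.BrauerPIndex

open Cfsg Cfsg.Agent.Lib.CharBasic Cfsg.Agent.Lib.CharInd Cfsg.Agent.Lib.CharIntegrality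
open Cfsg.Agent.Lib.BlockLocal Cfsg.Agent.Lib.BlockIdem Cfsg.Agent.Lib.BlockNormal
open Cfsg.Agent.Lib.BrauerMap Cfsg.Agent.Lib.BrauerPair Cfsg.Agent.Lib.BrauerSub
open Cfsg.Agent.Lib.BrauerConj Cfsg.Agent.Lib.BrauerThird Cfsg.Agent.Lib.BrauerMax
open Cfsg.Agent.Lib.BrauerStab Cfsg.Agent.Lib.BlockDefect Cfsg.Agent.Lib.BrauerCen
open Cfsg.Agent.Lib.BrauerFull Cfsg.Agent.Lib.BrauerLift Cfsg.Agent.Lib.BrauerIdx
open Cfsg.Agent.Lib.BrauerSat Cfsg.Agent.Lib.BrauerNil Cfsg.Agent.Lib.BrauerCorr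
open scoped ComplexConjugate Pointwise

universe u

section KLevel

variable {H : Type u} [Group H] [Fintype H] {p : ℕ} {M : Ideal AlgInt} (K : Subgroup H) [hKn : K.Normal]
  [Fintype K]

/-- `θ` is a constituent of the restriction of `ξ`. -/
def Constit (ξ : IrrCharacter H) (θ : IrrCharacter K) : Prop :=
  classInner (fun n : K => (ξ : H → ℂ) n) (θ : K → ℂ) ≠ 0

theorem exists_constit (ξ : IrrCharacter H) : ∃ θ : IrrCharacter K, Constit K ξ θ := by
  classical
  by_contra hcon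
  push Not at hcon
  have hcl : IsClassFunction K (fun n : K => (ξ : H → ℂ) n) := by
    intro g k
    simp only [Subgroup.coe_mul, Subgroup.coe_inv]
    exact isClassFunction_of_isCharacter (IsIrrCharacter.isCharacter ξ.2) _ _
  have h1 := classFunction_eq_sum hcl
  have h3 := congrFun h1 1
  rw [Finset.sum_apply] at h3
  have h4 : ∀ θ : IrrCharacter K, classInner (fun n : K => (ξ : H → ℂ) n) (θ : K → ℂ) = 0 := by
    intro θ
    by_contra h
    exact hcon θ h
  simp only [h4, zero_smul, Pi.zero_apply, Finset.sum_const_zero] at h3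
  exact irr_one_ne_zero' ξ.2 h3

theorem omega_eq_of_sameBlock_of_constit [M.IsPrime] {a : H → ℂ} (hcl : IsClassFunction H a)
    (hR : ∀ x, MemLocalRing M (a x)) (hI : conv a a = a) (hs : ∀ x, x ∉ K → a x = 0)
    {ξ ξ' : IrrCharacter H} {θ θ' : IrrCharacter K} (h : Constit K ξ θ) (h' : Constit K ξ' θ')
    (hb : SameBlock M (θ : K → ℂ) θ') : omega (ξ : H → ℂ) a = omega (ξ' : H → ℂ) a := by
  have hE : ext0 K (resC K a) = a := ext0_resC K hs
  have hcl' : IsClassFunction K (resC K a) := by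
    intro g k
    show a ((k * g * k⁻¹ : K) : H) = a g
    simp only [Subgroup.coe_mul, Subgroup.coe_inv]
    exact hcl _ _
  have hI' : conv (resC K a) (resC K a) = resC K a := by
    have h1 := conv_ext0 K (resC K a) (resC K a)
    rw [hE, hI] at h1
    have h2 := congrArg (resC K) h1
    rw [resC_ext0] at h2
    exact h2.symm
  rw [BlockExt.omega_eq_of_constituent K hcl hs ξ θ h, BlockExt.omega_eq_of_constituent K hcl hs ξ' θ' h']
  exact (BlockExt.omega_idem (M := M) hcl' (fun x => hR x) hI').2 θ θ' hb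

/-- Characters lying over one block of a normal subgroup of `p`-power index are in one block. -/
theorem sameBlock_of_constit (hM : IsPModular p M) (hK : ∃ k : ℕ, K.index = p ^ k)
    {ξ ξ' : IrrCharacter H} {θ θ' : IrrCharacter K} (h : Constit K ξ θ) (h' : Constit K ξ' θ')
    (hb : SameBlock M (θ : K → ℂ) θ') : SameBlock M (ξ : H → ℂ) ξ' := by
  haveI := isPrime_of_isPModular hM
  have hB : IsPBlock M (blockOf M (ξ : H → ℂ)) := ⟨ξ, rfl⟩
  have e := omega_eq_of_sameBlock_of_constit K (BlockNormal.blockCoeff_isClassFunction _)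
    (memLocalRing_blockCoeff hB) (conv_blockCoeff_self _)
    (fun x hx => BlockOrth.blockCoeff_eq_zero hM hB (BlockExt.dvd_orderOf_of_not_mem hM.1 K hK hx)) h h' hb
  rw [omega_blockCoeff, omega_blockCoeff, ind_of_mem (mem_blockOf_self ξ)] at e
  by_contra hn
  have hn' : ξ' ∉ blockOf M (ξ : H → ℂ) := hn
  rw [ind_of_not_mem hn'] at e
  exact one_ne_zero e

theorem nK (t : H) : t ∈ Subgroup.normalizer (K : Set H) :=
  Subgroup.le_normalizer_of_normal (H := K) (K := ⊤) (Subgroup.mem_top t)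

/-- Characters of one block of `H` lie over `H`-conjugate blocks of `K`. -/
theorem exists_conj_of_sameBlock (hM : IsPModular p M)
    {ξ ξ' : IrrCharacter H} {θ θ' : IrrCharacter K} (h : Constit K ξ θ) (h' : Constit K ξ' θ')
    (hb : SameBlock M (ξ : H → ℂ) ξ') :
    ∃ t : H, SameBlock M (θ : K → ℂ) (twist (conjAut K t (nK K t)) θ') := by
  classical
  haveI := isPrime_of_isPModular hM
  set U : Set (IrrCharacter K) :=
    {ψ | ∃ t : H, SameBlock M (θ : K → ℂ) (twist (conjAut K t (nK K t)) ψ)} with hU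
  have hUb : IsBlockUnion M U := by
    rintro ψ ⟨t, ht⟩ ψ' hψ'
    exact ⟨t, sameBlock_trans ht (sameBlock_twist _ hψ')⟩
  have hUθ : θ ∈ U := by
    refine ⟨1, ?_⟩
    have : twist (conjAut K 1 (nK K 1)) θ = θ := by
      rw [conjAut_one, twist_one]
    rw [this]
    exact sameBlock_refl _
  have hUst : ∀ t : H, twistSet (conjAut K t (nK K t)) U = U := by
    have hsub : ∀ t : H, twistSet (conjAut K t (nK K t)) U ⊆ U := by
      rintro t _ ⟨ψ, ⟨s, hs⟩, rfl⟩
      refine ⟨s * t⁻¹, ?_⟩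
      have e : twist (conjAut K (s * t⁻¹) (nK K _)) (twist (conjAut K t (nK K t)) ψ) =
          twist (conjAut K s (nK K s)) ψ := by
        rw [conjAut_mul K s t⁻¹ (nK K s) (nK K t⁻¹), ← twist_mul, mul_assoc,
          ← conjAut_mul K t⁻¹ t (nK K t⁻¹) (nK K t) (nK K _)]
        simp only [inv_mul_cancel]
        rw [conjAut_one, mul_one]
      rw [e]
      exact hs
    intro t
    refine Set.Subset.antisymm (hsub t) fun ψ hψ => ?_
    have h1 := hsub t⁻¹ ⟨ψ, hψ, rfl⟩
    refine ⟨_, h1, ?_⟩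
    rw [← twist_mul, ← conjAut_mul K t t⁻¹ (nK K t) (nK K t⁻¹) (nK K _)]
    simp only [mul_inv_cancel]
    rw [conjAut_one, twist_one]
  set a := subgroupBlockCoeff K U with ha
  have hacl : IsClassFunction H a := fun g x =>
    subgroupBlockCoeff_conj K U x (nK K x) (hUst x) g
  have haR : ∀ x, MemLocalRing M (a x) := by
    intro x
    rw [ha, subgroupBlockCoeff_eq_ext0]
    exact memLocalRing_ext0 K (memLocalRing_blockCoeff_of_union hUb) x
  have haI : conv a a = a := by rw [ha, conv_subgroupBlockCoeff, Set.inter_self]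
  have has : ∀ x, x ∉ K → a x = 0 := fun x hx => by
    rw [ha, subgroupBlockCoeff_eq_ext0, ext0_of_not_mem K _ hx]
  have hres : (fun n : K => a n) = blockCoeff U := by
    funext n
    rw [ha, subgroupBlockCoeff_eq_ext0, ext0_coe]
  have e1 := BlockExt.omega_eq_of_constituent K hacl has ξ θ h
  have e2 := BlockExt.omega_eq_of_constituent K hacl has ξ' θ' h'
  rw [hres, omega_blockCoeff, ind_of_mem hUθ] at e1
  rw [hres, omega_blockCoeff] at e2
  have e3 := (BlockExt.omega_idem (M := M) hacl haR haI).2 ξ ξ' hb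
  by_contra hcon
  have hθ' : θ' ∉ U := fun ⟨t, ht⟩ => hcon ⟨t, ht⟩
  rw [e1, e2, ind_of_not_mem hθ'] at e3
  exact one_ne_zero e3

/-- Constituents under automorphisms. -/
theorem constit_twist {τ : H ≃* H} {σ : K ≃* K} (hτσ : ∀ k : K, ((σ k : K) : H) = τ k)
    {ξ : IrrCharacter H} {θ : IrrCharacter K} (h : Constit K ξ θ) :
    Constit K (twist τ ξ) (twist σ θ) := by
  unfold Constit classInner at h ⊢
  convert h using 2
  refine Fintype.sum_equiv σ.symm.toEquiv _ _ fun k => ?_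
  simp only [twist_apply, MulEquiv.toEquiv_eq_coe, MulEquiv.coe_toEquiv]
  have e : τ.symm (k : H) = ((σ.symm k : K) : H) := by
    apply τ.injective
    rw [MulEquiv.apply_symm_apply, ← hτσ, MulEquiv.apply_symm_apply]
  rw [e]

end KLevel

section Elem

variable {A : Type*} [Group A] [Finite A] {p : ℕ}

/-- A `p`-regular element is a power of its `p ^ m`-th power. -/
theorem exists_pow_eq_of_regular (hp : p.Prime) {x : A} (hx : ¬ p ∣ orderOf x) (m : ℕ) :
    ∃ j : ℕ, (x ^ p ^ m) ^ j = x := by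
  have hc : Nat.Coprime (orderOf x) (p ^ m) :=
    ((Nat.Prime.coprime_iff_not_dvd hp).mpr hx).symm.pow_right m
  rcases Nat.lt_or_ge 1 (orderOf x) with h3 | h3
  · obtain ⟨j, -, hj⟩ := Nat.exists_mul_mod_eq_one_of_coprime hc.symm h3
    refine ⟨j, ?_⟩
    rw [← pow_mul]
    conv_rhs => rw [← pow_one x]
    rw [← hj]
    exact (pow_mod_orderOf x _).symm
  · have h5 : orderOf x = 1 := by
      have := orderOf_pos x
      omega
    rw [orderOf_eq_one_iff] at h5
    exact ⟨0, by simp [h5]⟩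

/-- A commutator with a `p`-element, fixed by the `p`-regular `x`, is trivial. -/
theorem eq_one_of_conj_eq_mul {x r z : A} (hxz : x * z = z * x) (h : x * r * x⁻¹ = r * z)
    (hk : Nat.Coprime (orderOf x) (orderOf z)) : z = 1 := by
  have key : ∀ n : ℕ, x ^ n * r * (x ^ n)⁻¹ = r * z ^ n := by
    intro n
    induction n with
    | zero => simp
    | succ n ih =>
      have hcomm : Commute x (z ^ n) := Commute.pow_right hxz n
      calc x ^ (n + 1) * r * (x ^ (n + 1))⁻¹ = x * (x ^ n * r * (x ^ n)⁻¹) * x⁻¹ := by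
            rw [pow_succ']
            group
        _ = x * r * z ^ n * x⁻¹ := by rw [ih]; group
        _ = (x * r * x⁻¹) * (x * z ^ n * x⁻¹) := by group
        _ = (r * z) * z ^ n := by rw [h, hcomm.eq]; group
        _ = r * z ^ (n + 1) := by rw [pow_succ']; group
  have h1 := key (orderOf x)
  rw [pow_orderOf_eq_one] at h1
  simp only [one_mul, inv_one, mul_one] at h1
  have h2 : z ^ orderOf x = 1 := by
    have := mul_left_cancel (a := r) (b := 1) (c := z ^ orderOf x) (by rw [mul_one]; exact h1)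
    exact this.symm
  have h3 := orderOf_dvd_of_pow_eq_one h2
  have h4 : orderOf z = 1 := hk.symm.eq_one_of_dvd h3
  exact orderOf_eq_one_iff.1 h4

end Elem

section GLevel

variable {G : Type u} [Group G] [Fintype G] {p : ℕ} [hp : Fact p.Prime] {M : Ideal AlgInt}

local notation "𝐂[" R "]" => Subgroup.centralizer ((R : Subgroup G) : Set G)
local notation "𝐍[" R "]" => Subgroup.normalizer ((R : Subgroup G) : Set G)

noncomputable local instance fintypeSubPI {A : Type*} [Group A] [Finite A] (K : Subgroup A) : Fintype K :=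
  Fintype.ofFinite K

variable (N : Subgroup G) [hN : N.Normal] (Rh : Subgroup N)

/-- The elements of `N` in the centralizer. -/
abbrev KK : Subgroup 𝐂[Rh.map N.subtype] := N.subgroupOf 𝐂[Rh.map N.subtype]

theorem mem_cen_iff (c : N) :
    c ∈ Subgroup.centralizer (Rh : Set N) ↔ (c : G) ∈ 𝐂[Rh.map N.subtype] := by
  constructor
  · intro h
    rw [Subgroup.mem_centralizer_iff]
    rintro _ ⟨s, hs, rfl⟩
    exact congrArg Subtype.val ((Subgroup.mem_centralizer_iff.1 h) s hs)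
  · intro h
    rw [Subgroup.mem_centralizer_iff]
    intro s hs
    apply Subtype.ext
    exact (Subgroup.mem_centralizer_iff.1 h) s ⟨s, hs, rfl⟩

/-- The isomorphism of `C_N(R)` with the subgroup `N ∩ C_G(R)` of `C_G(R)`. -/
noncomputable def phi : Subgroup.centralizer (Rh : Set N) ≃* KK N Rh where
  toFun c := ⟨⟨((c : N) : G), (mem_cen_iff N Rh c).1 c.2⟩, (c : N).2⟩
  invFun k := ⟨⟨((k : 𝐂[Rh.map N.subtype]) : G), k.2⟩,
    (mem_cen_iff N Rh _).2 (k : 𝐂[Rh.map N.subtype]).2⟩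
  left_inv c := rfl
  right_inv c := rfl
  map_mul' a b := rfl

@[simp] theorem coe_phi (c : Subgroup.centralizer (Rh : Set N)) :
    (((phi N Rh c : KK N Rh) : 𝐂[Rh.map N.subtype]) : G) = ((c : N) : G) := rfl

@[simp] theorem coe_phi_symm (k : KK N Rh) :
    ((((phi N Rh).symm k : Subgroup.centralizer (Rh : Set N)) : N) : G) =
      ((k : 𝐂[Rh.map N.subtype]) : G) := rfl

theorem kk_index (hidx : ∃ k : ℕ, N.index = p ^ k) : ∃ k : ℕ, (KK N Rh).index = p ^ k := by
  obtain ⟨k, hk⟩ := hidx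
  have h2 : (KK N Rh).index ∣ p ^ k := hk ▸ Subgroup.relIndex_dvd_index_of_normal N _
  obtain ⟨j, -, hj⟩ := (Nat.dvd_prime_pow hp.out).1 h2
  exact ⟨j, hj⟩

/-- Conjugation on `N ∩ C_G(R)`. -/
noncomputable def sigK (y : G) (hy : y ∈ 𝐍[𝐂[Rh.map N.subtype]]) : KK N Rh ≃* KK N Rh where
  toFun k := ⟨conjAut _ y hy k, by
    show y * _ * y⁻¹ ∈ N
    exact hN.conj_mem _ k.2 y⟩
  invFun k := ⟨(conjAut _ y hy).symm k, by
    show y⁻¹ * _ * y ∈ N
    have := hN.conj_mem ((k : 𝐂[Rh.map N.subtype]) : G) k.2 y⁻¹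
    rwa [inv_inv] at this⟩
  left_inv k := Subtype.ext ((conjAut _ y hy).symm_apply_apply _)
  right_inv k := Subtype.ext ((conjAut _ y hy).apply_symm_apply _)
  map_mul' a b := Subtype.ext (map_mul (conjAut _ y hy) _ _)

@[simp] theorem coe_sigK (y : G) (hy) (k : KK N Rh) :
    ((sigK N Rh y hy k : KK N Rh) : 𝐂[Rh.map N.subtype]) = conjAut _ y hy k := rfl

@[simp] theorem coe_sigK_symm (y : G) (hy) (k : KK N Rh) :
    (((sigK N Rh y hy).symm k : KK N Rh) : 𝐂[Rh.map N.subtype]) = (conjAut _ y hy).symm k := rfl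

/-- The compatibility of the isomorphism with conjugation by elements of `N`. -/
theorem twistE_phi_conj (y : N) (hy₁ : y ∈ Subgroup.normalizer
      ((Subgroup.centralizer (Rh : Set N) : Subgroup N) : Set N))
    (hy₂ : (y : G) ∈ 𝐍[𝐂[Rh.map N.subtype]]) (θ' : IrrCharacter (Subgroup.centralizer (Rh : Set N))) :
    twistE (phi N Rh) (twist (conjAut _ y hy₁) θ') = twist (sigK N Rh y hy₂) (twistE (phi N Rh) θ') := by
  apply Subtype.ext
  funext k
  simp only [twistE_apply, twist_apply]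
  rfl

variable {N Rh}

/-- The key identity of the central characters. -/
theorem brO_eq_of_constit {c : Set (IrrCharacter N)} {B : Set (IrrCharacter G)}
    (hBc : ∀ g, blockCoeff B g = subgroupBlockCoeff N c g) (ξ : IrrCharacter 𝐂[Rh.map N.subtype])
    (θ : IrrCharacter (KK N Rh)) (h : Constit (KK N Rh) ξ θ) :
    brO (Rh.map N.subtype) (blockCoeff B) ξ = brO Rh (blockCoeff c) (twistE (phi N Rh).symm θ) := by
  have hcl : IsClassFunction 𝐂[Rh.map N.subtype] (resC _ (blockCoeff B)) :=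
    resC_isClassFunction (inv_of_isClassFunction (BlockNormal.blockCoeff_isClassFunction B) _)
  have hs : ∀ x, x ∉ KK N Rh → resC 𝐂[Rh.map N.subtype] (blockCoeff B) x = 0 := by
    intro x hx
    rw [resC_apply, hBc, subgroupBlockCoeff_eq_ext0, ext0_of_not_mem]
    exact hx
  unfold brO
  rw [BlockExt.omega_eq_of_constituent (KK N Rh) hcl hs ξ θ h]
  unfold omega
  have e1 : (twistE (phi N Rh).symm θ : Subgroup.centralizer (Rh : Set N) → ℂ) 1 =
      (θ : KK N Rh → ℂ) 1 := by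
    rw [twistE_apply, MulEquiv.symm_symm, map_one]
  rw [e1]
  congr 1
  refine Fintype.sum_equiv (phi N Rh).symm.toEquiv _ _ fun k => ?_
  simp only [resC_apply, twistE_apply, MulEquiv.toEquiv_eq_coe, MulEquiv.coe_toEquiv,
    MulEquiv.symm_symm, MulEquiv.apply_symm_apply]
  congr 1
  have := hBc ((k : 𝐂[Rh.map N.subtype]) : G)
  rw [subgroupBlockCoeff_eq_ext0,
    ext0_of_mem N _ (show ((k : 𝐂[Rh.map N.subtype]) : G) ∈ N from k.2)] at this
  exact this

/-- `(R, e)` is a pair of `c` iff the block of `C_G(R)` over `e` is a pair of `B`. -/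
theorem pair_of_constit (hM : IsPModular p M) {c : Set (IrrCharacter N)} {B : Set (IrrCharacter G)}
    (hc : IsPBlock M c) (hB : IsPBlock M B) (hRh : IsPGroup p Rh)
    (hBc : ∀ g, blockCoeff B g = subgroupBlockCoeff N c g) (ξ : IrrCharacter 𝐂[Rh.map N.subtype])
    (θ : IrrCharacter (KK N Rh)) (h : Constit (KK N Rh) ξ θ) :
    IsBrauerPairOf p M B (Rh.map N.subtype) (blockOf M (ξ : 𝐂[Rh.map N.subtype] → ℂ)) ↔
      IsBrauerPairOf p M c Rh (blockOf M (twistE (phi N Rh).symm θ :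
        Subgroup.centralizer (Rh : Set N) → ℂ)) := by
  haveI := isPrime_of_isPModular hM
  have h0 := brO_eq_of_constit hBc ξ θ h
  have hBR : IsBrauerPair p M (Rh.map N.subtype) (blockOf M (ξ : 𝐂[Rh.map N.subtype] → ℂ)) :=
    ⟨hRh.map _, ⟨ξ, rfl⟩⟩
  have hcR : IsBrauerPair p M Rh (blockOf M (twistE (phi N Rh).symm θ :
        Subgroup.centralizer (Rh : Set N) → ℂ)) := ⟨hRh, ⟨_, rfl⟩⟩
  constructor
  · intro hp1
    refine ⟨hcR, hc, fun ξ' hξ' => ?_⟩
    have h1 := hp1.2.2 ξ (mem_blockOf_self ξ)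
    rw [brauerOmega_eq, h0] at h1
    rw [brauerOmega_eq]
    have h2 := brO_sub_of_sameBlock (M := M) (P := Rh) (β := blockCoeff c)
      (inv_of_isClassFunction (BlockNormal.blockCoeff_isClassFunction c) _)
      (memLocalRing_blockCoeff hc) (sameBlock_symm hξ')
    have e : brO Rh (blockCoeff c) ξ' - 1 = (brO Rh (blockCoeff c) ξ' -
        brO Rh (blockCoeff c) (twistE (phi N Rh).symm θ)) +
        (brO Rh (blockCoeff c) (twistE (phi N Rh).symm θ) - 1) := by ring
    rw [e]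
    exact memLocalIdeal_add h2 h1
  · intro hp1
    refine ⟨hBR, hB, fun ξ' hξ' => ?_⟩
    have h1 := hp1.2.2 _ (mem_blockOf_self (twistE (phi N Rh).symm θ))
    rw [brauerOmega_eq, ← h0] at h1
    rw [brauerOmega_eq]
    have h2 := brO_sub_of_sameBlock (M := M) (P := Rh.map N.subtype) (β := blockCoeff B)
      (inv_of_isClassFunction (BlockNormal.blockCoeff_isClassFunction B) _)
      (memLocalRing_blockCoeff hB) (sameBlock_symm hξ')
    have e : brO (Rh.map N.subtype) (blockCoeff B) ξ' - 1 = (brO (Rh.map N.subtype) (blockCoeff B) ξ' -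
        brO (Rh.map N.subtype) (blockCoeff B) ξ) +
        (brO (Rh.map N.subtype) (blockCoeff B) ξ - 1) := by ring
    rw [e]
    exact memLocalIdeal_add h2 h1

theorem isPRegular_coe {u : N} : IsPRegular p (u : G) ↔ IsPRegular p u := by
  unfold IsPRegular
  rw [Subgroup.orderOf_coe]

/-- `B` nilpotent implies `c` nilpotent. -/
theorem nil_of_nil_top (hM : IsPModular p M) (hidx : ∃ k : ℕ, N.index = p ^ k)
    {c : Set (IrrCharacter N)} {B : Set (IrrCharacter G)} (hc : IsPBlock M c) (hB : IsPBlock M B)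
    (hBc : ∀ g, blockCoeff B g = subgroupBlockCoeff N c g) (hnil : IsNilpotentBlock p M B) :
    IsNilpotentBlock p M c := by
  haveI := isPrime_of_isPModular hM
  refine ⟨hc, fun Rh g' hg' y hyN hys hyr => ?_⟩
  obtain ⟨θ', hθ'⟩ := BlockQ.isPBlock_nonempty hg'.1.2
  have hg'b : g' = blockOf M (θ' : Subgroup.centralizer (Rh : Set N) → ℂ) := by
    obtain ⟨χ, rfl⟩ := hg'.1.2
    exact (blockOf_eq_of_mem hθ').symm
  set θ := twistE (phi N Rh) θ' with hθ
  have hθ'' : twistE (phi N Rh).symm θ = θ' := twistE_twistE_symm _ _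
  obtain ⟨ξ, hξ⟩ := BlockExt.exists_constituent (KK N Rh) θ
  have hξ' : Constit (KK N Rh) ξ θ := hξ
  have hpair : IsBrauerPairOf p M B (Rh.map N.subtype) (blockOf M (ξ : 𝐂[Rh.map N.subtype] → ℂ)) := by
    rw [pair_of_constit hM hc hB hg'.1.1 hBc ξ θ hξ', hθ'', ← hg'b]
    exact hg'
  have hyR : (y : G) ∈ 𝐍[Rh.map N.subtype] := mem_normalizer_map hyN
  have hy₁ := normalizer_le_normalizer_centralizer Rh hyN
  have hy₂ : (y : G) ∈ 𝐍[𝐂[Rh.map N.subtype]] := normalizer_le_normalizer_centralizer _ hyR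
  have h1 : SameBlock M (θ : KK N Rh → ℂ) (twist (sigK N Rh y hy₂) θ) := by
    rw [hθ, ← twistE_phi_conj N Rh y hy₁ hy₂]
    apply sameBlock_twistE
    have h2 : twist (conjAut _ y hy₁) θ' ∈ g' := by
      rw [← twistSet_eq_of_stabilizes hg'.1.2 hys]
      exact ⟨θ', hθ', rfl⟩
    exact sameBlock_of_mem hg'.1.2 hθ' h2
  have h3 : Constit (KK N Rh) (twist (conjAut _ y hy₂) ξ) (twist (sigK N Rh y hy₂) θ) :=
    constit_twist (KK N Rh) (fun k => rfl) hξ'
  have h4 := sameBlock_of_constit (KK N Rh) hM (kk_index N Rh hidx) hξ' h3 h1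
  have hst : StabilizesBlock 𝐂[Rh.map N.subtype] (blockOf M (ξ : 𝐂[Rh.map N.subtype] → ℂ)) (y : G) := by
    apply stabilizes_of_twistSet_eq hy₂
    rw [← blockOf_twist]
    exact blockOf_eq_of_mem h4
  exact (mem_cen_iff N Rh y).2 (hnil.2 _ _ hpair _ hyR hst (isPRegular_coe.2 hyr))

/-- Stabilizers of a pair stabilize the pairs below on a normalized subgroup. -/
theorem stabilizes_of_subpairLE (hM : IsPModular p M) {Q P : Subgroup G} {f : Set (IrrCharacter 𝐂[Q])}
    {e : Set (IrrCharacter 𝐂[P])} (he : IsBrauerPair p M P e) (h : SubpairLE p M Q f P e) {u : G}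
    (huP : u ∈ 𝐍[P]) (hus : StabilizesBlock 𝐂[P] e u) (huN : u ∈ 𝐍[Q]) :
    StabilizesBlock 𝐂[Q] f u := by
  haveI := isPrime_of_isPModular hM
  have h1 := relationCp hM u h
  have h2 : cp u ⟨P, e⟩ = ⟨P, e⟩ := by
    rw [cp_of_normalizer huP (normalizer_le_normalizer_centralizer P huP),
      twistSet_eq_of_stabilizes he.2 hus]
  rw [h2, cp_of_normalizer huN (normalizer_le_normalizer_centralizer Q huN)] at h1
  have h3 := eq_of_two_subpairLE hM he h h1
  exact stabilizes_of_twistSet_eq _ h3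

theorem twist_sigK_mul (u v : G) (hu hv huv) (χ : IrrCharacter (KK N Rh)) :
    twist (sigK N Rh (u * v) huv) χ = twist (sigK N Rh u hu) (twist (sigK N Rh v hv) χ) := by
  apply Subtype.ext
  funext k
  simp only [twist_apply]
  refine congrArg (χ : KK N Rh → ℂ) ?_
  apply Subtype.ext
  apply Subtype.ext
  show (u * v)⁻¹ * _ * (u * v) = v⁻¹ * (u⁻¹ * _ * u) * v
  group

theorem twist_sigK_one (h1) (χ : IrrCharacter (KK N Rh)) : twist (sigK N Rh 1 h1) χ = χ := by
  apply Subtype.ext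
  funext k
  simp only [twist_apply]
  refine congrArg (χ : KK N Rh → ℂ) ?_
  apply Subtype.ext
  apply Subtype.ext
  show (1 : G)⁻¹ * _ * 1 = _
  group

theorem mem_normalizer_of_map {u : N} (h : (u : G) ∈ 𝐍[Rh.map N.subtype]) :
    u ∈ Subgroup.normalizer (Rh : Set N) := by
  rw [Subgroup.mem_normalizer_iff]
  intro n
  have h1 := Subgroup.mem_normalizer_iff.1 h (n : G)
  have h2 : ∀ m : N, m ∈ Rh ↔ (m : G) ∈ Rh.map N.subtype := fun m =>
    (Subgroup.mem_map_iff_mem (f := N.subtype) Subtype.val_injective).symm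
  rw [h2, h2]
  exact h1

/-- `c` nilpotent implies `B` nilpotent. -/
theorem nil_top_of_nil (hM : IsPModular p M) (hidx : ∃ k : ℕ, N.index = p ^ k)
    {c : Set (IrrCharacter N)} {B : Set (IrrCharacter G)} (hc : IsPBlock M c) (hB : IsPBlock M B)
    (hBc : ∀ g, blockCoeff B g = subgroupBlockCoeff N c g) (hnil : IsNilpotentBlock p M c) :
    IsNilpotentBlock p M B := by
  classical
  haveI := isPrime_of_isPModular hM
  have hpp : p.Prime := hp.out
  refine ⟨hB, fun R h hpair x hxN hxs hxr => ?_⟩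
  have hxNN : x ∈ N := by
    by_contra hn
    exact hxr (BlockExt.dvd_orderOf_of_not_mem hpp N hidx hn)
  set Rh := R.subgroupOf N with hRh
  have hRmeq : ∀ z, z ∈ Rh.map N.subtype ↔ z ∈ R ∧ z ∈ N := by
    intro z
    constructor
    · rintro ⟨s, hs, rfl⟩
      exact ⟨hs, s.2⟩
    · rintro ⟨h1, h2⟩
      exact ⟨⟨z, h2⟩, h1, rfl⟩
  have hRmR : Rh.map N.subtype ≤ R := fun z hz => ((hRmeq z).1 hz).1
  have hRhp : IsPGroup p Rh := IsPGroup.comap_of_injective hpair.1.1 _ Subtype.val_injective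
  obtain ⟨h₀, hh₀, hle⟩ := exists_subpairLE hM hpair.1 hRmR
  have hpair₀ := (isBrauerPairOf_iff_of_le hM hB hle).2 hpair
  have hxRm : x ∈ 𝐍[Rh.map N.subtype] := by
    rw [Subgroup.mem_normalizer_iff]
    intro z
    rw [hRmeq, hRmeq]
    have a1 := Subgroup.mem_normalizer_iff.1 hxN z
    have a2 : z ∈ N ↔ x * z * x⁻¹ ∈ N := by
      constructor
      · exact fun hz => hN.conj_mem z hz x
      · intro hz
        have := hN.conj_mem _ hz x⁻¹
        simpa [mul_assoc] using this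
    rw [a1, a2]
  have hxs₀ := stabilizes_of_subpairLE hM hpair.1 hle hxN hxs hxRm
  obtain ⟨ξ, hξ⟩ := BlockQ.isPBlock_nonempty hh₀
  have hh₀b : h₀ = blockOf M (ξ : 𝐂[Rh.map N.subtype] → ℂ) := by
    obtain ⟨χ, rfl⟩ := hh₀
    exact (blockOf_eq_of_mem hξ).symm
  obtain ⟨θ, hθ⟩ := exists_constit (KK N Rh) ξ
  set θ' := twistE (phi N Rh).symm θ with hθ'
  have hθθ' : twistE (phi N Rh) θ' = θ := twistE_symm_twistE _ _
  have hpair' : IsBrauerPairOf p M c Rh (blockOf M (θ' : Subgroup.centralizer (Rh : Set N) → ℂ)) :=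
    (pair_of_constit hM hc hB hRhp hBc ξ θ hθ).1 (by rw [← hh₀b]; exact hpair₀)
  have hx₂ : x ∈ 𝐍[𝐂[Rh.map N.subtype]] := normalizer_le_normalizer_centralizer _ hxRm
  have h₁ : twist (conjAut _ x hx₂) ξ ∈ h₀ := by
    rw [← twistSet_eq_of_stabilizes hh₀ hxs₀]
    exact ⟨ξ, hξ, rfl⟩
  have h₂ : SameBlock M (ξ : 𝐂[Rh.map N.subtype] → ℂ) (twist (conjAut _ x hx₂) ξ) :=
    sameBlock_of_mem hh₀ hξ h₁
  have h₃ : Constit (KK N Rh) (twist (conjAut _ x hx₂) ξ) (twist (sigK N Rh x hx₂) θ) :=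
    constit_twist _ (fun k => rfl) hθ
  obtain ⟨t, ht⟩ := exists_conj_of_sameBlock (KK N Rh) hM hθ h₃ h₂
  have htRm : (t : G) ∈ 𝐍[Rh.map N.subtype] := mem_normalizer_of_mem_centralizer t.2
  have ht₂ : (t : G) ∈ 𝐍[𝐂[Rh.map N.subtype]] := Subgroup.le_normalizer t.2
  set y := (t : G) * x with hy
  have hy₂ : y ∈ 𝐍[𝐂[Rh.map N.subtype]] := Subgroup.mul_mem _ ht₂ hx₂
  have hyRm : y ∈ 𝐍[Rh.map N.subtype] := Subgroup.mul_mem _ htRm hxRm
  have hty : twist (conjAut (KK N Rh) t (nK _ t)) (twist (sigK N Rh x hx₂) θ) =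
      twist (sigK N Rh y hy₂) θ := by
    apply Subtype.ext
    funext k
    simp only [twist_apply]
    refine congrArg (θ : KK N Rh → ℂ) ?_
    apply Subtype.ext
    apply Subtype.ext
    show x⁻¹ * ((t : G)⁻¹ * _ * (t : G)) * x = ((t : G) * x)⁻¹ * _ * ((t : G) * x)
    group
  have hsb : SameBlock M (θ : KK N Rh → ℂ) (twist (sigK N Rh y hy₂) θ) := hty ▸ ht
  have hpow : ∀ (n : ℕ) (hn : y ^ n ∈ 𝐍[𝐂[Rh.map N.subtype]]),
      SameBlock M (θ : KK N Rh → ℂ) (twist (sigK N Rh (y ^ n) hn) θ) := by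
    intro n
    induction n with
    | zero =>
      intro hn
      have e : ∀ (v : G) (hv : v = 1) (hv' : v ∈ 𝐍[𝐂[Rh.map N.subtype]]),
          twist (sigK N Rh v hv') θ = θ := by
        rintro v rfl hv'
        exact twist_sigK_one _ _
      rw [e _ (pow_zero y) hn]
      exact sameBlock_refl _
    | succ n ih =>
      intro hn
      have hn' : y ^ n ∈ 𝐍[𝐂[Rh.map N.subtype]] := Subgroup.pow_mem _ hy₂ n
      have e : ∀ (v : G) (hv : v = y * y ^ n) (hv' : v ∈ 𝐍[𝐂[Rh.map N.subtype]]),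
          twist (sigK N Rh v hv') θ = twist (sigK N Rh y hy₂) (twist (sigK N Rh (y ^ n) hn') θ) := by
        rintro v rfl hv'
        exact twist_sigK_mul _ _ _ _ _ _
      rw [e _ (pow_succ' y n) hn]
      exact sameBlock_trans hsb (sameBlock_twist _ (ih hn'))
  obtain ⟨m, hm⟩ := exists_pow_isPRegular (p := p) y
  have hzN : y ^ p ^ m ∈ N := by
    by_contra hn
    exact hm (BlockExt.dvd_orderOf_of_not_mem hpp N hidx hn)
  set z' : N := ⟨y ^ p ^ m, hzN⟩ with hz'
  have hzRm : (z' : G) ∈ 𝐍[Rh.map N.subtype] := Subgroup.pow_mem _ hyRm _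
  have hz'N : z' ∈ Subgroup.normalizer (Rh : Set N) := mem_normalizer_of_map hzRm
  have hz₁ := normalizer_le_normalizer_centralizer Rh hz'N
  have hz₂ : (z' : G) ∈ 𝐍[𝐂[Rh.map N.subtype]] := normalizer_le_normalizer_centralizer _ hzRm
  have hstab : StabilizesBlock (Subgroup.centralizer (Rh : Set N))
      (blockOf M (θ' : Subgroup.centralizer (Rh : Set N) → ℂ)) z' := by
    apply stabilizes_of_twistSet_eq hz₁
    rw [← blockOf_twist]
    apply blockOf_eq_of_mem
    have h5 := twistE_phi_conj N Rh z' hz₁ hz₂ θ'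
    rw [hθθ'] at h5
    have h6 : SameBlock M (θ : KK N Rh → ℂ)
        (twistE (phi N Rh) (twist (conjAut _ (z' : N) hz₁) θ')) := by
      rw [h5]
      exact hpow _ hz₂
    have h7 := sameBlock_twistE (phi N Rh).symm h6
    rwa [twistE_twistE_symm] at h7
  have hzC := hnil.2 Rh _ hpair' z' hz'N hstab (isPRegular_coe.1 hm)
  have hzC' : y ^ p ^ m ∈ 𝐂[Rh.map N.subtype] := (mem_cen_iff N Rh z').1 hzC
  have hact : ∀ (n : ℕ), ∀ r ∈ Rh.map N.subtype, y ^ n * r * (y ^ n)⁻¹ = x ^ n * r * (x ^ n)⁻¹ := by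
    intro n
    induction n with
    | zero => intro r _; simp
    | succ n ih =>
      intro r hr
      have hmem : x ^ (n + 1) * r * (x ^ (n + 1))⁻¹ ∈ Rh.map N.subtype :=
        (Subgroup.mem_normalizer_iff.1 (Subgroup.pow_mem _ hxRm (n + 1)) r).1 hr
      have hc1 := (Subgroup.mem_centralizer_iff.1 t.2) _ hmem
      calc y ^ (n + 1) * r * (y ^ (n + 1))⁻¹ = y * (y ^ n * r * (y ^ n)⁻¹) * y⁻¹ := by
            rw [pow_succ']
            group
        _ = y * (x ^ n * r * (x ^ n)⁻¹) * y⁻¹ := by rw [ih r hr]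
        _ = (t : G) * (x ^ (n + 1) * r * (x ^ (n + 1))⁻¹) * (t : G)⁻¹ := by
            rw [hy, pow_succ']
            group
        _ = x ^ (n + 1) * r * (x ^ (n + 1))⁻¹ := by
            rw [← hc1]
            group
  have hxc : ∀ r ∈ Rh.map N.subtype, Commute (x ^ p ^ m) r := by
    intro r hr
    have h1 := hact (p ^ m) r hr
    have h2 := (Subgroup.mem_centralizer_iff.1 hzC') r hr
    have h3 : y ^ p ^ m * r * (y ^ p ^ m)⁻¹ = r := by
      rw [← h2]
      group
    rw [h3] at h1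
    have h4 : x ^ p ^ m * r = r * x ^ p ^ m := by
      conv_rhs => rw [h1]
      group
    exact h4
  obtain ⟨j, hj⟩ := exists_pow_eq_of_regular hpp hxr m
  have hxC₀ : ∀ r ∈ Rh.map N.subtype, Commute x r := by
    intro r hr
    rw [← hj]
    exact (hxc r hr).pow_left j
  rw [Subgroup.mem_centralizer_iff]
  intro r hr
  set z := r⁻¹ * (x * r * x⁻¹) with hz
  have hzR : z ∈ R := R.mul_mem (R.inv_mem hr) ((Subgroup.mem_normalizer_iff.1 hxN r).1 hr)
  have hzNN : z ∈ N := by
    have e : z = (r⁻¹ * x * r) * x⁻¹ := by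
      rw [hz]
      group
    rw [e]
    refine N.mul_mem ?_ (N.inv_mem hxNN)
    have := hN.conj_mem x hxNN r⁻¹
    simpa using this
  have hzRm' : z ∈ Rh.map N.subtype := (hRmeq z).2 ⟨hzR, hzNN⟩
  have hcomm : x * z = z * x := hxC₀ z hzRm'
  have hconj : x * r * x⁻¹ = r * z := by
    rw [hz]
    group
  have hcop : Nat.Coprime (orderOf x) (orderOf z) := by
    obtain ⟨a, ha⟩ := hpair.1.1 ⟨z, hzR⟩
    have h1 : z ^ p ^ a = 1 := congrArg Subtype.val ha
    have h2 : orderOf z ∣ p ^ a := orderOf_dvd_of_pow_eq_one h1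
    exact Nat.Coprime.coprime_dvd_right h2
      (((Nat.Prime.coprime_iff_not_dvd hpp).mpr hxr).symm.pow_right a)
  have hz1 := eq_one_of_conj_eq_mul hcomm hconj hcop
  rw [hz1, mul_one] at hconj
  have e : r * x = x * r * x⁻¹ * x := by rw [hconj]
  rw [e]
  group

/-- **`c` is nilpotent iff `B` is.** -/
theorem isNilpotentBlock_iff (hM : IsPModular p M) (hidx : ∃ k : ℕ, N.index = p ^ k)
    {c : Set (IrrCharacter N)} {B : Set (IrrCharacter G)} (hc : IsPBlock M c) (hB : IsPBlock M B)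
    (hBc : ∀ g, blockCoeff B g = subgroupBlockCoeff N c g) :
    IsNilpotentBlock p M c ↔ IsNilpotentBlock p M B :=
  ⟨nil_top_of_nil hM hidx hc hB hBc, nil_of_nil_top hM hidx hc hB hBc⟩

end GLevel

end Cfsg.Agent.Lib.BrauerPIndex
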