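import Mathlib
import Cfsg.Prelude.Def_Characters
import Cfsg.Agent.Lib.CharBasic
import Cfsg.Agent.Lib.CharInd
import Cfsg.Agent.Lib.CharDecomp
import Cfsg.Agent.Lib.CharEquiv
import Cfsg.Agent.Lib.BrauerInd
import Cfsg.Agent.Lib.Monomial
import Cfsg.Agent.Lib.GL2Char

/-!
# Brauer's splitting field theorem
-/

set_option autoImplicit false
set_option linter.style.haveILetI false
set_option linter.unusedSectionVars false
set_option linter.unusedVariables false

namespace Cfsg.Agent.Lib.BrauerSplit

open Cfsg Cfsg.Agent.Lib.CharBasic Cfsg.Agent.Lib.CharInd Cfsg.Agent.Lib.CharDecomp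
open scoped ComplexConjugate

universe u

section Abstract

variable {G : Type u} [Group G] [Fintype G]

theorem classInner_neg_left' (f θ : G → ℂ) : classInner (-f) θ = -classInner f θ := by
  have h := classInner_smul_left (-1 : ℂ) f θ
  simpa using h

theorem inner_char_pair_ne_zero {ψ₁ ψ₂ θ : G → ℂ} (h₁ : IsCharacter G ψ₁) (h₂ : IsCharacter G ψ₂)
    (hθ : IsIrrCharacter G θ) (h1 : classInner ψ₁ θ ≠ 0) (h2 : classInner ψ₂ θ ≠ 0) :
    classInner ψ₁ ψ₂ ≠ 0 := by
  obtain ⟨ψ₁', h₁', rfl⟩ := exists_char_add h₁ hθ h1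
  obtain ⟨ψ₂', h₂', rfl⟩ := exists_char_add h₂ hθ h2
  have hθc := IsIrrCharacter.isCharacter hθ
  rw [classInner_add_left, classInner_add_right, classInner_add_right, classInner_irr_self hθ]
  obtain ⟨a, ha⟩ := classInner_char_char hθc h₂'
  obtain ⟨b, hb⟩ := classInner_char_char h₁' hθc
  obtain ⟨c, hc⟩ := classInner_char_char h₁' h₂'
  rw [ha, hb, hc]
  have : ((1 + a + (b + c) : ℕ) : ℂ) ≠ 0 := by
    exact_mod_cast (by omega : 1 + a + (b + c) ≠ 0)
  push_cast at this
  exact this

/-- An irreducible character in the integral span of a set of pairwise orthogonal characters is a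
member of the set. -/
theorem mem_of_closure {S : Set (G → ℂ)} (hc : ∀ ψ ∈ S, IsCharacter G ψ)
    (hne : ∀ ψ₁ ∈ S, ∀ ψ₂ ∈ S, ψ₁ ≠ ψ₂ → classInner ψ₁ ψ₂ = 0) {χ : G → ℂ}
    (hχ : IsIrrCharacter G χ) (hmem : χ ∈ AddSubgroup.closure S) : χ ∈ S := by
  classical
  have hχc := IsIrrCharacter.isCharacter hχ
  -- a set member meeting `χ`
  obtain ⟨ψ₀, hψ₀, hψχ⟩ : ∃ ψ₀ ∈ S, classInner ψ₀ χ ≠ 0 := by
    by_contra hcon
    push Not at hcon
    have key : ∀ f ∈ AddSubgroup.closure S, classInner f χ = 0 := by
      intro f hf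
      induction hf using AddSubgroup.closure_induction with
      | mem f hf => exact hcon f hf
      | zero => exact classInner_zero_left _
      | add a b _ _ ha hb => rw [classInner_add_left, ha, hb, add_zero]
      | neg a _ ha => rw [classInner_neg_left', ha, neg_zero]
    have h1 := key χ hmem
    rw [classInner_irr_self hχ] at h1
    exact one_ne_zero h1
  -- the decomposition along `ψ₀`
  have hdec : ∀ f ∈ AddSubgroup.closure S, ∃ (z : ℤ) (g : G → ℂ), f = (z : ℂ) • ψ₀ + g ∧
      ∀ θ, IsIrrCharacter G θ → classInner ψ₀ θ ≠ 0 → classInner g θ = 0 := by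
    intro f hf
    induction hf using AddSubgroup.closure_induction with
    | mem f hf =>
      by_cases hfe : f = ψ₀
      · refine ⟨1, 0, ?_, fun θ _ _ => classInner_zero_left _⟩
        simp [hfe]
      · refine ⟨0, f, by simp, fun θ hθ h1 => ?_⟩
        by_contra h2
        exact inner_char_pair_ne_zero (hc f hf) (hc ψ₀ hψ₀) hθ h2 h1 (hne f hf ψ₀ hψ₀ hfe)
    | zero => exact ⟨0, 0, by simp, fun θ _ _ => classInner_zero_left _⟩
    | add a b _ _ ha hb =>
      obtain ⟨z₁, g₁, rfl, h₁⟩ := ha
      obtain ⟨z₂, g₂, rfl, h₂⟩ := hb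
      refine ⟨z₁ + z₂, g₁ + g₂, ?_, fun θ hθ h => ?_⟩
      · push_cast
        rw [add_smul]
        abel
      · rw [classInner_add_left, h₁ θ hθ h, h₂ θ hθ h, add_zero]
    | neg a _ ha =>
      obtain ⟨z, g, rfl, h⟩ := ha
      refine ⟨-z, -g, ?_, fun θ hθ h' => ?_⟩
      · push_cast
        rw [neg_smul]
        abel
      · rw [classInner_neg_left', h θ hθ h', neg_zero]
  obtain ⟨z, g, hχeq, hg⟩ := hdec χ hmem
  have hψc := hc ψ₀ hψ₀
  -- `z = 1` and the multiplicity is one
  obtain ⟨e, he⟩ := classInner_char_irr hψc hχ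
  have h1 : (z : ℂ) * (e : ℂ) = 1 := by
    have h2 := classInner_irr_self hχ
    nth_rw 1 [hχeq] at h2
    rw [classInner_add_left, classInner_smul_left, hg χ hχ hψχ, add_zero, he] at h2
    exact h2
  have h2 : z * (e : ℤ) = 1 := by exact_mod_cast h1
  have he1 : e = 1 := by
    have h3 : (e : ℤ) ∣ 1 := ⟨z, by rw [← h2]; ring⟩
    have h4 := Int.eq_one_of_dvd_one (by positivity) h3
    exact_mod_cast h4
  have hz1 : z = 1 := by
    rw [he1] at h2
    simpa using h2
  -- the rest of `ψ₀`
  obtain ⟨ψ', hψ', hψ₀eq⟩ := exists_char_add hψc hχ hψχ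
  by_cases h0 : ψ' 1 = 0
  · have : ψ' = 0 := char_eq_zero_of_one hψ' h0
    rw [hψ₀eq, this, add_zero] at hψ₀
    exact hψ₀
  · exfalso
    obtain ⟨θ, hθ, hθne⟩ := Cfsg.Agent.Lib.BrauerInd.exists_constituent hψ' h0
    have h3 : classInner ψ₀ θ ≠ 0 := by
      rw [hψ₀eq, classInner_add_left]
      obtain ⟨a, ha⟩ := classInner_char_irr hχc hθ
      obtain ⟨b, hb⟩ := classInner_char_irr hψ' hθ
      rw [ha, hb]
      rw [hb] at hθne
      have hb0 : b ≠ 0 := by
        rintro rfl
        simp at hθne
      have : ((a + b : ℕ) : ℂ) ≠ 0 := by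
        exact_mod_cast (by omega : a + b ≠ 0)
      push_cast at this
      exact this
    have h4 : classInner χ θ = classInner ψ₀ θ := by
      nth_rw 1 [hχeq]
      rw [classInner_add_left, classInner_smul_left, hg θ hθ h3, add_zero, hz1]
      simp
    have h5 : θ = χ := by
      by_contra hne'
      have h6 := classInner_irr_ne hχ hθ (Ne.symm hne')
      rw [h6] at h4
      exact h3 h4.symm
    subst h5
    have h6 : classInner ψ₀ θ = 1 + classInner ψ' θ := by
      rw [hψ₀eq, classInner_add_left, classInner_irr_self hθ]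
    rw [he, he1] at h6
    have h7 : classInner ψ' θ = 0 := by
      push_cast at h6
      linear_combination -h6
    exact hθne h7

end Abstract

section KReps

variable {G : Type u} [Group G] {K : Type} [Field K] (φ : K →+* ℂ)

/-- The complex valued character of a representation over `K`. -/
noncomputable def kChar {V : Type*} [AddCommGroup V] [Module K V] (τ : Representation K G V) :
    G → ℂ := fun g => φ (τ.character g)

/-- Scalar extension of a representation. -/
theorem exists_ext {V : Type*} [AddCommGroup V] [Module K V] [FiniteDimensional K V]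
    (τ : Representation K G V) :
    ∃ (n : ℕ) (σ : Representation ℂ G (Fin n → ℂ)), σ.character = kChar φ τ ∧
      ∀ g i j, LinearMap.toMatrix' (σ g) i j ∈ φ.range := by
  classical
  let b := Module.finBasis K V
  let n := Module.finrank K V
  let M : G → Matrix (Fin n) (Fin n) K := fun g => LinearMap.toMatrix b b (τ g)
  let σ : Representation ℂ G (Fin n → ℂ) :=
    { toFun := fun g => Matrix.toLin' ((M g).map φ)
      map_one' := by
        simp only [M, map_one, LinearMap.toMatrix_one]
        rw [Matrix.map_one _ (map_zero φ) (map_one φ), Matrix.toLin'_one]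
        rfl
      map_mul' := fun x y => by
        simp only [M, map_mul]
        rw [Module.End.mul_eq_comp, LinearMap.toMatrix_comp b b b, Matrix.map_mul,
          Matrix.toLin'_mul]
        rfl }
  refine ⟨n, σ, ?_, ?_⟩
  · funext g
    show LinearMap.trace ℂ (Fin n → ℂ) (Matrix.toLin' ((M g).map φ)) = φ (LinearMap.trace K V (τ g))
    rw [Matrix.trace_toLin'_eq, LinearMap.trace_eq_matrix_trace K b (τ g)]
    exact (AddMonoidHom.map_trace φ.toAddMonoidHom (M g)).symm
  · intro g i j
    show LinearMap.toMatrix' (Matrix.toLin' ((M g).map φ)) i j ∈ φ.range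
    rw [LinearMap.toMatrix'_toLin']
    exact ⟨M g i j, rfl⟩

theorem isCharacter_kChar {V : Type*} [AddCommGroup V] [Module K V] [FiniteDimensional K V]
    (τ : Representation K G V) : IsCharacter G (kChar φ τ) := by
  obtain ⟨n, σ, h, -⟩ := exists_ext φ τ
  exact ⟨n, σ, h⟩

/-- The characters of representations over `K`. -/
def KCharSet : Set (G → ℂ) :=
  {ψ | ∃ (V : Type u) (_ : AddCommGroup V) (_ : Module K V) (_ : FiniteDimensional K V)
    (τ : Representation K G V), ψ = kChar φ τ}

/-- The characters of irreducible representations over `K`. -/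
def KIrrSet : Set (G → ℂ) :=
  {ψ | ∃ (V : Type u) (_ : AddCommGroup V) (_ : Module K V) (_ : FiniteDimensional K V)
    (τ : Representation K G V), τ.IsIrreducible ∧ ψ = kChar φ τ}

theorem kChar_prod {V W : Type*} [AddCommGroup V] [Module K V] [FiniteDimensional K V]
    [AddCommGroup W] [Module K W] [FiniteDimensional K W]
    (τ : Representation K G V) (τ' : Representation K G W) :
    kChar φ (τ.prod τ') = kChar φ τ + kChar φ τ' := by
  funext g
  show φ (LinearMap.trace K (V × W) ((τ g).prodMap (τ' g))) = _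
  rw [LinearMap.trace_prodMap', map_add]
  rfl

theorem add_mem_KCharSet {a b : G → ℂ} (ha : a ∈ KCharSet (G := G) φ) (hb : b ∈ KCharSet (G := G) φ) :
    a + b ∈ KCharSet (G := G) φ := by
  obtain ⟨V, _, _, _, τ, rfl⟩ := ha
  obtain ⟨W, _, _, _, τ', rfl⟩ := hb
  exact ⟨V × W, inferInstance, inferInstance, inferInstance, τ.prod τ', (kChar_prod φ τ τ').symm⟩

theorem kChar_subsingleton {V : Type*} [AddCommGroup V] [Module K V] [Subsingleton V]
    (τ : Representation K G V) : kChar φ τ = 0 := by
  funext g
  have h1 : τ g = 0 := Subsingleton.elim _ _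
  have h2 : LinearMap.trace K V (τ g) = 0 := by rw [h1, map_zero]
  simp [kChar, Representation.character, h2]

theorem zero_mem_KCharSet : (0 : G → ℂ) ∈ KCharSet (G := G) φ :=
  ⟨PUnit.{u+1}, inferInstance, inferInstance, inferInstance, 1, (kChar_subsingleton φ _).symm⟩

/-- Character of a direct sum of two subrepresentations (over `K`). -/
theorem kChar_eq_add_of_isCompl {V : Type*} [AddCommGroup V] [Module K V] [FiniteDimensional K V]
    (ρ : Representation K G V) (S S' : Subrepresentation ρ)
    (h : IsCompl S.toSubmodule S'.toSubmodule) :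
    kChar φ ρ = kChar φ S.toRepresentation + kChar φ S'.toRepresentation := by
  funext g
  classical
  let e := Submodule.prodEquivOfIsCompl S.toSubmodule S'.toSubmodule h
  have h1 : LinearMap.trace K V (ρ g) =
      LinearMap.trace K (S.toSubmodule × S'.toSubmodule) (e.symm.conj (ρ g)) :=
    (LinearMap.trace_conj' (ρ g) e.symm).symm
  have h2 : e.symm.conj (ρ g) =
      LinearMap.prodMap (S.toRepresentation g) (S'.toRepresentation g) := by
    apply LinearMap.ext
    rintro ⟨x, y⟩
    apply e.injective
    have he : ∀ a : S.toSubmodule × S'.toSubmodule, e a = (a.1 : V) + a.2 := fun a =>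
      Submodule.coe_prodEquivOfIsCompl' _ _ h a
    simp only [LinearEquiv.conj_apply, LinearMap.comp_apply, LinearEquiv.coe_coe,
      LinearEquiv.apply_symm_apply, LinearEquiv.symm_symm]
    rw [he, he]
    simp only [LinearMap.prodMap_apply, map_add]
    rfl
  show φ (LinearMap.trace K V (ρ g)) = _
  rw [h1, h2, LinearMap.trace_prodMap', map_add]
  rfl

/-- Decomposition of the characters over `K` into irreducibles. -/
theorem kChar_mem_closure [Finite G] [CharZero K] (d : ℕ) :
    ∀ (V : Type u) [AddCommGroup V] [Module K V] [FiniteDimensional K V]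
      (τ : Representation K G V), Module.finrank K V = d →
      kChar φ τ ∈ AddSubmonoid.closure (KIrrSet (G := G) φ) := by
  induction d using Nat.strong_induction_on with
  | _ d ih =>
    intro V _ _ _ τ hd
    by_cases hs : Subsingleton V
    · rw [kChar_subsingleton φ τ]
      exact AddSubmonoid.zero_mem _
    rw [not_subsingleton_iff_nontrivial] at hs
    by_cases hi : τ.IsIrreducible
    · exact AddSubmonoid.subset_closure ⟨V, inferInstance, inferInstance, inferInstance, τ, hi, rfl⟩
    have hS : ∃ S : Subrepresentation τ, S.toSubmodule ≠ ⊥ ∧ S.toSubmodule ≠ ⊤ := by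
      by_contra hcon
      push Not at hcon
      apply hi
      have h1 : (⊥ : Subrepresentation τ) ≠ ⊤ := by
        intro h2
        exact bot_ne_top (congrArg Subrepresentation.toSubmodule h2)
      exact
        { exists_pair_ne := ⟨⊥, ⊤, h1⟩
          eq_bot_or_eq_top := fun S => by
            by_cases h2 : S.toSubmodule = ⊥
            · left
              exact Subrepresentation.toSubmodule_injective h2
            · right
              exact Subrepresentation.toSubmodule_injective (hcon S h2) }
    obtain ⟨S, hUb, hUt⟩ := hS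
    haveI : NeZero (Nat.card G : K) := ⟨by exact_mod_cast Nat.card_pos.ne'⟩
    obtain ⟨S', hS'⟩ := exists_isCompl S
    have hc : IsCompl S.toSubmodule S'.toSubmodule := by
      constructor
      · rw [disjoint_iff]
        exact congrArg Subrepresentation.toSubmodule (hS'.inf_eq_bot)
      · rw [codisjoint_iff]
        exact congrArg Subrepresentation.toSubmodule (hS'.sup_eq_top)
    have hdim := Submodule.finrank_add_eq_of_isCompl hc
    have hn1 : Nontrivial S.toSubmodule := by
      rw [Submodule.nontrivial_iff_ne_bot]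
      exact hUb
    have hn2 : Nontrivial S'.toSubmodule := by
      rw [Submodule.nontrivial_iff_ne_bot]
      intro hbot
      rw [hbot] at hc
      exact hUt (by simpa using hc.sup_eq_top)
    have h1 : 0 < Module.finrank K S.toSubmodule := Module.finrank_pos
    have h2 : 0 < Module.finrank K S'.toSubmodule := Module.finrank_pos
    rw [kChar_eq_add_of_isCompl φ τ S S' hc]
    exact AddSubmonoid.add_mem _ (ih _ (by omega) _ _ rfl) (ih _ (by omega) _ _ rfl)

/-- Orthogonality of distinct irreducible characters over `K`. -/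
theorem classInner_kIrr [Fintype G] [CharZero K] {ψ₁ ψ₂ : G → ℂ} (h₁ : ψ₁ ∈ KIrrSet (G := G) φ)
    (h₂ : ψ₂ ∈ KIrrSet (G := G) φ) (hne : ψ₁ ≠ ψ₂) : classInner ψ₁ ψ₂ = 0 := by
  classical
  obtain ⟨V, _, _, _, τ, hτ, rfl⟩ := h₁
  obtain ⟨W, _, _, _, τ', hτ', rfl⟩ := h₂
  haveI := hτ
  haveI := hτ'
  have hemp : IsEmpty (Representation.Equiv τ' τ) := by
    constructor
    intro e
    apply hne
    have := Representation.char_iso e
    funext g
    simp only [kChar]
    rw [this]
  haveI := hemp
  have hsub : Subsingleton (Representation.IntertwiningMap τ' τ) := inferInstance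
  have hinv : Invertible (Nat.card G : K) := invertibleOfNonzero (by exact_mod_cast Nat.card_pos.ne')
  have h0 := Representation.card_inv_mul_sum_char_mul_char_eq_finrank τ' τ
  rw [Module.finrank_zero_of_subsingleton] at h0
  have h1 := congrArg φ h0
  simp only [map_mul, map_inv₀, map_natCast, map_sum, Nat.cast_zero, map_zero] at h1
  rw [classInner_eq_inv (isCharacter_kChar φ τ')]
  exact h1

end KReps

section Mono

variable {G : Type u} [Group G] {K : Type} [Field K] (φ : K →+* ℂ) (E : Subgroup G)

/-- The cocycle of the transversal. -/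
noncomputable def coc (g : G) (c : G ⧸ E) : E :=
  ⟨(g • c).out⁻¹ * (g * c.out), by
    rw [← QuotientGroup.eq, QuotientGroup.out_eq']
    have h : ((g * c.out : G) : G ⧸ E) = g • (c.out : G ⧸ E) := rfl
    rw [h, QuotientGroup.out_eq']⟩

theorem coc_coe (g : G) (c : G ⧸ E) : (coc E g c : G) = (g • c).out⁻¹ * (g * c.out) := rfl

theorem coc_mul (a b : G) (c : G ⧸ E) : coc E (a * b) c = coc E a (b • c) * coc E b c := by
  apply Subtype.ext
  simp only [Subgroup.coe_mul, coc_coe, mul_smul]
  group

theorem coc_one (c : G ⧸ E) : coc E 1 c = 1 := by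
  apply Subtype.ext
  simp only [coc_coe, one_smul, one_mul, inv_mul_cancel, Subgroup.coe_one]

/-- The monomial representation induced from a linear character. -/
noncomputable def monoRep (l : E →* Kˣ) : Representation K G (G ⧸ E → K) where
  toFun g :=
    { toFun := fun f c => (l (coc E g (g⁻¹ • c)) : K) * f (g⁻¹ • c)
      map_add' := fun f f' => by
        funext c
        simp only [Pi.add_apply, mul_add]
      map_smul' := fun a f => by
        funext c
        simp only [Pi.smul_apply, smul_eq_mul, RingHom.id_apply]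
        ring }
  map_one' := by
    apply LinearMap.ext
    intro f
    funext c
    simp [coc_one]
  map_mul' a b := by
    apply LinearMap.ext
    intro f
    funext c
    simp only [Module.End.mul_apply, LinearMap.coe_mk, AddHom.coe_mk, mul_inv_rev, mul_smul]
    have h1 : coc E (a * b) (b⁻¹ • a⁻¹ • c) = coc E a (a⁻¹ • c) * coc E b (b⁻¹ • a⁻¹ • c) := by
      rw [coc_mul, smul_inv_smul]
    rw [h1, map_mul, Units.val_mul, mul_assoc]

theorem monoRep_apply (l : E →* Kˣ) (g : G) (f : G ⧸ E → K) (c : G ⧸ E) :
    monoRep E l g f c = (l (coc E g (g⁻¹ • c)) : K) * f (g⁻¹ • c) := rfl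

/-- The character of the monomial representation. -/
theorem kChar_monoRep [Fintype G] (l : E →* Kˣ) :
    kChar φ (monoRep E l) = indFun E (fun e => φ (l e : K)) := by
  classical
  letI : Fintype E := Fintype.ofFinite E
  letI : Fintype (G ⧸ E) := Fintype.ofFinite _
  funext g
  have hcl : IsClassFunction E (fun e => φ (l e : K)) := by
    intro x y
    simp only [map_mul, map_inv]
    rw [mul_comm (l y), mul_inv_cancel_right]
  have hbij : Function.Bijective (fun c : G ⧸ E => ((c.out : G) : G ⧸ E)) := by
    have h1 : (fun c : G ⧸ E => ((c.out : G) : G ⧸ E)) = id := by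
      funext c
      exact QuotientGroup.out_eq' c
    rw [h1]
    exact Function.bijective_id
  rw [Cfsg.Agent.Lib.GL2Char.indFun_eq_sum_reps E (fun c : G ⧸ E => c.out) hbij _ hcl g]
  simp only [kChar, Representation.character]
  rw [LinearMap.trace_eq_matrix_trace K (Pi.basisFun K (G ⧸ E)), Matrix.trace, map_sum]
  refine Finset.sum_congr rfl fun c _ => ?_
  rw [Matrix.diag_apply, LinearMap.toMatrix_apply, Pi.basisFun_repr, Pi.basisFun_apply,
    monoRep_apply]
  by_cases hc : g • c = c
  · have h1 : g⁻¹ • c = c := by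
      conv_lhs => rw [← hc]
      rw [inv_smul_smul]
    have hy : c.out⁻¹ * g * c.out ∈ E := by
      have h2 := (coc E g c).2
      rw [coc_coe, hc] at h2
      rwa [mul_assoc]
    rw [h1, extendByZero_of_mem E _ hy]
    simp only [Pi.single_eq_same, mul_one]
    congr 3
    apply Subtype.ext
    rw [coc_coe, hc]
    show _ = c.out⁻¹ * g * c.out
    group
  · have h1 : g⁻¹ • c ≠ c := by
      intro h2
      apply hc
      conv_lhs => rw [← h2]
      rw [smul_inv_smul]
    have hy : c.out⁻¹ * g * c.out ∉ E := by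
      intro h2
      apply hc
      have h3 : ((c.out : G) : G ⧸ E) = ((g * c.out : G) : G ⧸ E) := by
        rw [QuotientGroup.eq]
        rwa [mul_assoc] at h2
      rw [QuotientGroup.out_eq'] at h3
      have h4 : g • c = ((g * c.out : G) : G ⧸ E) := by
        conv_lhs => rw [← QuotientGroup.out_eq' c]
        rfl
      rw [h4]
      exact h3.symm
    rw [extendByZero_of_not_mem E _ hy]
    simp [Pi.single_eq_of_ne h1]

end Mono

section Main

variable {G : Type u} [Group G] [Fintype G] {K : Type} [Field K] [CharZero K] (φ : K →+* ℂ)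
  (hval : ∀ (E : Subgroup G) (lam : E →* ℂˣ), ∃ l : E →* Kˣ, ∀ e, φ (l e : K) = lam e)

include hval in
/-- Every irreducible character is afforded by a representation over `K`. -/
theorem irr_mem_KIrr {χ : G → ℂ} (hχ : IsIrrCharacter G χ) : χ ∈ KIrrSet (G := G) φ := by
  classical
  have hS : ∀ ψ ∈ KIrrSet (G := G) φ, IsCharacter G ψ := by
    rintro ψ ⟨V, _, _, _, τ, -, rfl⟩
    exact isCharacter_kChar φ τ
  apply mem_of_closure hS (fun ψ₁ h₁ ψ₂ h₂ hne => classInner_kIrr φ h₁ h₂ hne) hχ
  obtain ⟨L, -, hL⟩ := Cfsg.Agent.Lib.Monomial.brauer_induction (IsIrrCharacter.isCharacter hχ)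
  rw [hL]
  apply AddSubgroup.list_sum_mem
  intro f hf
  obtain ⟨t, -, rfl⟩ := List.mem_map.mp hf
  obtain ⟨l, hl⟩ := hval t.1 t.2.1
  have h1 : indFun t.1 (fun e => ((t.2.1 e : ℂˣ) : ℂ)) = kChar φ (monoRep t.1 l) := by
    rw [kChar_monoRep]
    congr 1
    funext e
    exact (hl e).symm
  have h2 := kChar_mem_closure φ _ _ (monoRep t.1 l) rfl
  have h3 : kChar φ (monoRep t.1 l) ∈ AddSubgroup.closure (KIrrSet (G := G) φ) := by
    have h4 : AddSubmonoid.closure (KIrrSet (G := G) φ) ≤
        (AddSubgroup.closure (KIrrSet (G := G) φ)).toAddSubmonoid :=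
      AddSubmonoid.closure_le.mpr AddSubgroup.subset_closure
    exact h4 h2
  rw [h1, Int.cast_smul_eq_zsmul ℂ t.2.2]
  exact AddSubgroup.zsmul_mem _ h3 _

include hval in
/-- Every character is afforded by a representation over `K`. -/
theorem char_mem_KChar {f : G → ℂ} (hf : IsCharacter G f) : f ∈ KCharSet (G := G) φ := by
  classical
  let A : AddSubmonoid (G → ℂ) :=
    { carrier := KCharSet (G := G) φ
      add_mem' := fun ha hb => add_mem_KCharSet φ ha hb
      zero_mem' := zero_mem_KCharSet φ }
  obtain ⟨m, rfl⟩ := exists_nat_decomp hf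
  apply AddSubmonoid.sum_mem A
  intro χ _
  apply AddSubmonoid.nsmul_mem A
  obtain ⟨V, i₁, i₂, i₃, τ, -, h⟩ := irr_mem_KIrr φ hval χ.2
  exact ⟨V, i₁, i₂, i₃, τ, h⟩

end Main

section Final

/-- **Brauer's splitting field theorem**. -/
theorem main {G : Type u} [Group G] [Finite G] (n : ℕ) (ρ : Representation ℂ G (Fin n → ℂ)) :
    ∃ σ : Representation ℂ G (Fin n → ℂ), Nonempty (ρ.Equiv σ) ∧ ∀ g : G, ∀ i j : Fin n,
      LinearMap.toMatrix' (σ g) i j ∈ Algebra.adjoin ℚ
        ({Complex.exp (2 * Real.pi * Complex.I / (Monoid.exponent G : ℂ))} : Set ℂ) := by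
  classical
  letI : Fintype G := Fintype.ofFinite G
  set m := Monoid.exponent G with hm
  have hm0 : m ≠ 0 := Monoid.exponent_ne_zero_of_finite
  set ζ := Complex.exp (2 * Real.pi * Complex.I / (m : ℂ)) with hζdef
  have hζ : IsPrimitiveRoot ζ m := Complex.isPrimitiveRoot_exp m hm0
  have hint : IsIntegral ℚ ζ :=
    (hζ.isIntegral (Nat.pos_of_ne_zero hm0)).tower_top
  let K : IntermediateField ℚ ℂ := IntermediateField.adjoin ℚ {ζ}
  have hKsub : K.toSubalgebra = Algebra.adjoin ℚ {ζ} :=
    IntermediateField.adjoin_simple_toSubalgebra_of_isAlgebraic hint.isAlgebraic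
  have hζK : ζ ∈ K := IntermediateField.mem_adjoin_simple_self ℚ ζ
  let φ : K →+* ℂ := K.val.toRingHom
  haveI : CharZero K := charZero_of_injective_algebraMap (algebraMap ℚ K).injective
  have hroot : ∀ x : ℂ, x ^ m = 1 → x ∈ K := by
    intro x hx
    haveI : NeZero m := ⟨hm0⟩
    obtain ⟨i, -, rfl⟩ := hζ.eq_pow_of_pow_eq_one hx
    exact pow_mem hζK i
  have hval : ∀ (E : Subgroup G) (lam : E →* ℂˣ), ∃ l : E →* Kˣ, ∀ e, φ (l e : K) = lam e := by
    intro E lam
    have h1 : ∀ e : E, ((lam e : ℂˣ) : ℂ) ∈ K := by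
      intro e
      apply hroot
      have h2 : e ^ m = 1 := by
        apply Subtype.ext
        simpa using Monoid.pow_exponent_eq_one (e : G)
      have h3 : (lam e) ^ m = 1 := by rw [← map_pow, h2, map_one]
      have h4 := congrArg Units.val h3
      simpa using h4
    let l : E →* Kˣ :=
      { toFun := fun e => Units.mk0 (⟨((lam e : ℂˣ) : ℂ), h1 e⟩ : K) (by
          intro h0
          exact (lam e).ne_zero (congrArg Subtype.val h0))
        map_one' := by
          apply Units.ext
          apply Subtype.ext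
          simp
        map_mul' := fun a b => by
          apply Units.ext
          apply Subtype.ext
          simp }
    exact ⟨l, fun e => rfl⟩
  have hρc : IsCharacter G ρ.character := ⟨n, ρ, rfl⟩
  obtain ⟨V, _, _, _, τ, hτ⟩ := char_mem_KChar φ hval hρc
  obtain ⟨n', σ, hσ, hent⟩ := exists_ext φ τ
  have hnn : n' = n := by
    have h1 := congrFun hσ 1
    have h2 := congrFun hτ 1
    rw [← h1] at h2
    rw [Representation.char_one, Representation.char_one] at h2
    simp only [Module.finrank_fin_fun] at h2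
    exact_mod_cast h2.symm
  subst hnn
  refine ⟨σ, ?_, ?_⟩
  · exact Cfsg.Agent.Lib.CharEquiv.equiv_of_character_eq _ _ _ ρ σ rfl (hτ.trans hσ.symm)
  · intro g i j
    obtain ⟨x, hx⟩ := hent g i j
    rw [← hx, ← hKsub]
    exact x.2

end Final

end Cfsg.Agent.Lib.BrauerSplit
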