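import Mathlib
import Cfsg.Prelude.Def_Characters
import Cfsg.Agent.Lib.HallParts
import Cfsg.Agent.Lib.FrobCount
import Cfsg.Agent.Lib.BrauerInd

/-!
# The Brauer-Suzuki transfer: the group theory

`H` is a Hall subgroup with controlled fusion and such that elementary subgroups of order dividing
`|H|` are conjugate into `H`. We show that the centraliser of `h ∈ H` in `H` contains the Hall part
of the centraliser in `G`, and derive the counting formula
`∑ x, f (x ^ k) = n * ∑ h : H, f h` for class functions `f`.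
-/

set_option autoImplicit false
set_option linter.style.haveILetI false
set_option linter.unusedVariables false
set_option linter.unusedSectionVars false

namespace Cfsg.Agent.Lib.BrauerSuzuki

open Cfsg Cfsg.Agent.Lib.HallParts

universe u

section Elementary

/-- A subgroup of an elementary group is elementary. -/
theorem isElementary_subgroup {E : Type*} [Group E] [Finite E] {p : ℕ} (hp : p.Prime)
    (hE : IsElementary p E) (A : Subgroup E) : IsElementary p A := by
  obtain ⟨x, hxc, hxo, k, hk⟩ := hE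
  let Z : Subgroup A := (Subgroup.zpowers x).subgroupOf A
  let f : Z →* Subgroup.zpowers x :=
    { toFun := fun z => ⟨((z : A) : E), z.2⟩
      map_one' := rfl
      map_mul' := fun _ _ => rfl }
  have hf : Function.Injective f := by
    intro a b hab
    have h1 : ((a : A) : E) = ((b : A) : E) := congrArg (fun z : Subgroup.zpowers x => (z : E)) hab
    exact Subtype.ext (Subtype.ext h1)
  haveI : IsCyclic Z := isCyclic_of_injective f hf
  obtain ⟨y, hy⟩ := IsCyclic.exists_generator (α := Z)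
  have hyx : ((y : A) : E) ∈ Subgroup.zpowers x := y.2
  have hcent : ∀ w : E, w * ((y : A) : E) = ((y : A) : E) * w := by
    intro w
    obtain ⟨j, hj⟩ := Subgroup.mem_zpowers_iff.mp hyx
    rw [← hj]
    have h1 : Commute w x := (Subgroup.mem_center_iff.mp hxc w)
    exact (h1.zpow_right j).eq
  refine ⟨(y : A), ?_, ?_, ?_⟩
  · rw [Subgroup.mem_center_iff]
    intro w
    exact Subtype.ext (hcent w)
  · have h1 : orderOf (y : A) = orderOf ((y : A) : E) := (Subgroup.orderOf_coe _).symm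
    rw [h1]
    exact Nat.Coprime.coprime_dvd_left (orderOf_dvd_of_mem_zpowers hyx) hxo
  · have h1 : Subgroup.zpowers (y : A) = Z := by
      apply le_antisymm
      · rw [Subgroup.zpowers_le]
        exact y.2
      · intro w hw
        have h2 := hy ⟨w, hw⟩
        obtain ⟨j, hj⟩ := Subgroup.mem_zpowers_iff.mp h2
        have h3 : (y : A) ^ j = w := congrArg Subtype.val hj
        rw [← h3]
        exact Subgroup.zpow_mem_zpowers _ _
    rw [h1]
    haveI : (Subgroup.zpowers x).Normal := by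
      constructor
      intro a ha g
      obtain ⟨j, rfl⟩ := Subgroup.mem_zpowers_iff.mp ha
      have h1 : Commute g x := (Subgroup.mem_center_iff.mp hxc g)
      have h2 : g * x ^ j * g⁻¹ = x ^ j := by
        rw [(h1.zpow_right j).eq]
        group
      rw [h2]
      exact Subgroup.zpow_mem_zpowers _ _
    have h2 : Z.index ∣ p ^ k := by
      rw [← hk]
      exact Subgroup.relIndex_dvd_index_of_normal _ _
    obtain ⟨j, -, hj⟩ := (Nat.dvd_prime_pow hp).mp h2
    exact ⟨j, hj⟩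

end Elementary

variable {G : Type u} [Group G]

/-- The hypotheses of the Brauer-Suzuki theorem. -/
structure BS (H : Subgroup G) : Prop where
  hall : Nat.Coprime (Nat.card H) H.index
  fus : ∀ x ∈ H, ∀ y ∈ H, IsConj x y → ∃ h ∈ H, h * x * h⁻¹ = y
  elem : ∀ (E : Subgroup G) (p : ℕ), p.Prime → IsElementary p E → Nat.card E ∣ Nat.card H →
    ∃ g : G, E.map (MulAut.conj g).toMonoidHom ≤ H

variable [Finite G] {H : Subgroup G} (hB : BS H)

include hB

/-- Every element killed by `|H|` is conjugate into `H`. -/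
theorem exists_conj_into {u : G} (hu : u ^ Nat.card H = 1) : ∃ t : G, t * u * t⁻¹ ∈ H := by
  obtain ⟨p, hp1, hp⟩ := Nat.exists_infinite_primes (orderOf u + 1)
  have hel : IsElementary p (Subgroup.zpowers u) := by
    refine ⟨⟨u, Subgroup.mem_zpowers u⟩, ?_, ?_, 0, ?_⟩
    · rw [Subgroup.mem_center_iff]
      rintro ⟨w, hw⟩
      obtain ⟨j, rfl⟩ := Subgroup.mem_zpowers_iff.mp hw
      exact Subtype.ext ((Commute.refl u).zpow_left j).eq
    · rw [Subgroup.orderOf_mk]
      apply Nat.Coprime.symm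
      rw [Nat.Prime.coprime_iff_not_dvd hp]
      intro h
      have h1 : 0 < orderOf u := orderOf_pos u
      have h2 := Nat.le_of_dvd h1 h
      omega
    · rw [pow_zero, Subgroup.index_eq_one]
      ext ⟨w, hw⟩
      simp only [Subgroup.mem_top, iff_true]
      obtain ⟨j, rfl⟩ := Subgroup.mem_zpowers_iff.mp hw
      exact ⟨j, Subtype.ext (by simp)⟩
  have hcard : Nat.card (Subgroup.zpowers u) ∣ Nat.card H := by
    rw [Nat.card_zpowers]
    exact orderOf_dvd_of_pow_eq_one hu
  obtain ⟨g, hg⟩ := hB.elem _ p hp hel hcard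
  refine ⟨g, hg ?_⟩
  exact ⟨u, Subgroup.mem_zpowers u, by simp [MulAut.conj_apply]⟩

theorem pow_card_H {h : G} (hh : h ∈ H) : h ^ Nat.card H = 1 := by
  have h1 : (⟨h, hh⟩ : H) ^ Nat.card H = 1 := pow_card_eq_one'
  exact congrArg Subtype.val h1

theorem card_eq_mul : Nat.card G = Nat.card H * H.index := (Subgroup.card_mul_index H).symm

/-- The `q`-part of the order of a centraliser divides the order of its intersection with `H`. -/
theorem hall_part {h : G} (hh : h ∈ H) {q : ℕ} (hq : q.Prime) (hqm : q ∣ Nat.card H) :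
    q ^ (Nat.card (Subgroup.centralizer ({h} : Set G))).factorization q ∣
      Nat.card ↥(H ⊓ Subgroup.centralizer ({h} : Set G)) := by
  classical
  haveI : Fact q.Prime := ⟨hq⟩
  set C := Subgroup.centralizer ({h} : Set G) with hC
  have hmemC : ∀ x, x ∈ C ↔ x * h = h * x := by
    intro x
    rw [hC, Subgroup.mem_centralizer_singleton_iff]
  have hhC : ∀ j : ℕ, h ^ j ∈ C := by
    intro j
    rw [hmemC]
    exact ((Commute.refl h).pow_left j).eq
  -- parts of `h`
  obtain ⟨a, b, hb, hd⟩ : ∃ a b : ℕ, ¬ q ∣ b ∧ orderOf h = q ^ a * b := by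
    refine ⟨(orderOf h).factorization q, ordCompl[q] (orderOf h), ?_, ?_⟩
    · exact Nat.not_dvd_ordCompl hq (orderOf_pos h).ne'
    · exact (Nat.ordProj_mul_ordCompl_eq_self _ _).symm
  have hcop : Nat.Coprime (q ^ a) b := Nat.Coprime.pow_left _ ((Nat.Prime.coprime_iff_not_dvd hq).mpr hb)
  obtain ⟨k, k', h1, h2, h3, h4⟩ := exists_exps (q ^ a) b hcop
  have hord : h ^ (q ^ a * b) = 1 := by
    rw [← hd]
    exact pow_orderOf_eq_one h
  have hparts : h ^ k * h ^ k' = h := parts_mul hcop h1 h2 h3 h4 hord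
  have hp1 : (h ^ k) ^ (q ^ a) = 1 := part_pow_left h2 hord
  have hp2 : (h ^ k') ^ b = 1 := part_pow_right h3 hord
  -- a Sylow subgroup containing the `q`-part
  let x₁ : C := ⟨h ^ k, hhC k⟩
  have hxP : IsPGroup q (Subgroup.zpowers x₁) := by
    rintro ⟨w, hw⟩
    obtain ⟨j, rfl⟩ := Subgroup.mem_zpowers_iff.mp hw
    refine ⟨a, Subtype.ext ?_⟩
    have h5 : x₁ ^ (q ^ a) = 1 := Subtype.ext hp1
    show (x₁ ^ j) ^ (q ^ a) = 1
    rw [← zpow_natCast, zpow_comm, zpow_natCast, h5, one_zpow]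
  obtain ⟨Q₀, hQ₀⟩ := hxP.exists_le_sylow
  let Q : Subgroup G := (Q₀ : Subgroup C).map C.subtype
  have hQcard : Nat.card Q = q ^ (Nat.card C).factorization q := by
    rw [← Sylow.card_eq_multiplicity Q₀]
    exact (Nat.card_congr ((Q₀ : Subgroup C).equivMapOfInjective C.subtype C.subtype_injective).toEquiv).symm
  have hQC : Q ≤ C := by
    rintro _ ⟨w, -, rfl⟩
    exact w.2
  have hh₁Q : h ^ k ∈ Q := ⟨x₁, hQ₀ (Subgroup.mem_zpowers x₁), rfl⟩
  -- the elementary subgroup
  set h₂ := h ^ k' with hh₂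
  have hcomm : ∀ (a : Subgroup.zpowers h₂) (b : Q),
      Commute ((Subgroup.zpowers h₂).subtype a) (Q.subtype b) := by
    rintro ⟨a, ha⟩ ⟨b, hb⟩
    obtain ⟨j, rfl⟩ := Subgroup.mem_zpowers_iff.mp ha
    have h5 : Commute b h := (hmemC b).mp (hQC hb)
    have h6 : Commute b h₂ := h5.pow_right k'
    exact (h6.zpow_right j).symm
  let φ : Subgroup.zpowers h₂ × Q →* G :=
    MonoidHom.noncommCoprod (Subgroup.zpowers h₂).subtype Q.subtype hcomm
  have hφ : ∀ a b, φ (a, b) = (a : G) * (b : G) := fun a b => rfl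
  let E : Subgroup G := φ.range
  have hEcard : Nat.card E ∣ orderOf h₂ * Nat.card Q := by
    have h5 := Subgroup.card_dvd_of_surjective φ.rangeRestrict φ.rangeRestrict_surjective
    rwa [Nat.card_prod, Nat.card_zpowers] at h5
  have hh₂E : h₂ ∈ E := ⟨(⟨h₂, Subgroup.mem_zpowers h₂⟩, 1), by simp [hφ]⟩
  have hQE : Q ≤ E := fun w hw => ⟨(1, ⟨w, hw⟩), by simp [hφ]⟩
  have hhE : h ∈ E := by
    refine ⟨(⟨h₂, Subgroup.mem_zpowers h₂⟩, ⟨h ^ k, hh₁Q⟩), ?_⟩
    rw [hφ]
    show h ^ k' * h ^ k = h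
    rw [← pow_add, add_comm, pow_add]
    exact hparts
  have hbo : Nat.Coprime (orderOf h₂) q := by
    have h5 : orderOf h₂ ∣ b := orderOf_dvd_of_pow_eq_one hp2
    apply Nat.Coprime.coprime_dvd_left h5
    exact Nat.Coprime.symm ((Nat.Prime.coprime_iff_not_dvd hq).mpr hb)
  have hEel : IsElementary q E := by
    refine ⟨⟨h₂, hh₂E⟩, ?_, ?_, ?_⟩
    · rw [Subgroup.mem_center_iff]
      rintro ⟨w, p', rfl⟩
      apply Subtype.ext
      show (φ p') * h₂ = h₂ * (φ p')
      obtain ⟨a', b'⟩ := p'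
      rw [hφ]
      obtain ⟨a', ha'⟩ := a'
      obtain ⟨b', hb'⟩ := b'
      obtain ⟨j, rfl⟩ := Subgroup.mem_zpowers_iff.mp ha'
      have h5 : Commute b' h := (hmemC b').mp (hQC hb')
      have h6 : Commute b' h₂ := h5.pow_right k'
      have h7 : Commute (h₂ ^ j) h₂ := (Commute.refl h₂).zpow_left j
      exact (h7.mul_left h6).eq
    · rw [Subgroup.orderOf_mk]
      exact hbo
    · have h5 : (Subgroup.zpowers (⟨h₂, hh₂E⟩ : E)).index * orderOf h₂ = Nat.card E := by
        have h6 := Subgroup.card_mul_index (Subgroup.zpowers (⟨h₂, hh₂E⟩ : E))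
        rw [Nat.card_zpowers, Subgroup.orderOf_mk] at h6
        rw [mul_comm]
        exact h6
      have h6 : (Subgroup.zpowers (⟨h₂, hh₂E⟩ : E)).index ∣ Nat.card Q := by
        have h7 : orderOf h₂ * (Subgroup.zpowers (⟨h₂, hh₂E⟩ : E)).index ∣ orderOf h₂ * Nat.card Q := by
          rw [mul_comm (orderOf h₂) (Subgroup.zpowers (⟨h₂, hh₂E⟩ : E)).index, h5]
          exact hEcard
        exact Nat.dvd_of_mul_dvd_mul_left (orderOf_pos h₂) h7
      rw [hQcard] at h6
      obtain ⟨j, -, hj⟩ := (Nat.dvd_prime_pow hq).mp h6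
      exact ⟨j, hj⟩
  -- order of `E`
  have hcopmn := hB.hall
  have hGcard : Nat.card G = Nat.card H * H.index := card_eq_mul hB
  have hh₂m : orderOf h₂ ∣ Nat.card H := by
    apply orderOf_dvd_of_pow_eq_one
    rw [hh₂, ← pow_mul, mul_comm, pow_mul, pow_card_H hB hh, one_pow]
  have hQm : Nat.card Q ∣ Nat.card H := by
    have h5 : Nat.card Q ∣ Nat.card H * H.index := by
      rw [← hGcard]
      exact Subgroup.card_subgroup_dvd_card Q
    have h6 : Nat.Coprime (Nat.card Q) H.index := by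
      rw [hQcard]
      apply Nat.Coprime.pow_left
      exact Nat.Coprime.coprime_dvd_left hqm hcopmn
    exact h6.dvd_of_dvd_mul_right h5
  have hEm : Nat.card E ∣ Nat.card H := by
    apply hEcard.trans
    apply Nat.Coprime.mul_dvd_of_dvd_of_dvd _ hh₂m hQm
    rw [hQcard]
    exact Nat.Coprime.pow_right _ hbo
  obtain ⟨g, hg⟩ := hB.elem E q hq hEel hEm
  have hgh : ∀ w ∈ E, g * w * g⁻¹ ∈ H := by
    intro w hw
    apply hg
    exact ⟨w, hw, by simp [MulAut.conj_apply]⟩
  obtain ⟨c, hc, hcg⟩ := hB.fus _ (hgh h hhE) h hh (by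
    rw [isConj_comm]
    exact isConj_iff.mpr ⟨g, rfl⟩)
  -- conjugating by `t = c * g`
  set t := c * g with ht
  have htC : t ∈ C := by
    rw [hmemC]
    have h5 : t * h * t⁻¹ = h := by
      conv_rhs => rw [← hcg]
      rw [ht]
      group
    calc t * h = t * h * t⁻¹ * t := by group
      _ = h * t := by rw [h5]
  let Q' : Subgroup G := Q.map (MulAut.conj t).toMonoidHom
  have hQ'card : Nat.card Q' = Nat.card Q :=
    (Nat.card_congr (Q.equivMapOfInjective _ (MulAut.conj t).injective).toEquiv).symm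
  have hQ'le : Q' ≤ H ⊓ C := by
    rintro _ ⟨w, hw, rfl⟩
    have h5 : (MulAut.conj t).toMonoidHom w = c * (g * w * g⁻¹) * c⁻¹ := by
      simp only [MulEquiv.toMonoidHom_eq_coe, MonoidHom.coe_coe, MulAut.conj_apply, ht]
      group
    refine ⟨?_, ?_⟩
    · rw [h5]
      exact H.mul_mem (H.mul_mem hc (hgh w (hQE hw))) (H.inv_mem hc)
    · have h6 : (MulAut.conj t).toMonoidHom w = t * w * t⁻¹ := by simp [MulAut.conj_apply]
      rw [h6]
      exact C.mul_mem (C.mul_mem htC (hQC hw)) (C.inv_mem htC)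
  rw [← hQcard, ← hQ'card]
  exact Subgroup.card_dvd_of_le hQ'le

/-- The order of the centraliser splits. -/
theorem card_split {h : G} (hh : h ∈ H) :
    ∃ b : ℕ, Nat.card (Subgroup.centralizer ({h} : Set G)) =
      Nat.card ↥(H ⊓ Subgroup.centralizer ({h} : Set G)) * b ∧ b ∣ H.index := by
  set C := Subgroup.centralizer ({h} : Set G) with hC
  set c := Nat.card C with hcd
  have hc0 : c ≠ 0 := Nat.card_pos.ne'
  have hdvd : c ∣ Nat.card H * H.index := by
    rw [← card_eq_mul hB]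
    exact Subgroup.card_subgroup_dvd_card C
  have hgcd : c.gcd (Nat.card H) * c.gcd H.index = c := by
    rw [← Nat.Coprime.gcd_mul c hB.hall]
    exact Nat.gcd_eq_left hdvd
  have ha'1 : Nat.card ↥(H ⊓ C) ∣ c.gcd (Nat.card H) :=
    Nat.dvd_gcd (Subgroup.card_dvd_of_le inf_le_right) (Subgroup.card_dvd_of_le inf_le_left)
  have ha0 : c.gcd (Nat.card H) ≠ 0 := (Nat.gcd_pos_of_pos_left _ (Nat.pos_of_ne_zero hc0)).ne'
  have ha'0 : Nat.card ↥(H ⊓ C) ≠ 0 := Nat.card_pos.ne'
  have ha'2 : c.gcd (Nat.card H) ∣ Nat.card ↥(H ⊓ C) := by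
    rw [← Nat.factorization_prime_le_iff_dvd ha0 ha'0]
    intro q hq
    by_cases hqa : q ∣ c.gcd (Nat.card H)
    · have h1 : q ∣ Nat.card H := hqa.trans (Nat.gcd_dvd_right _ _)
      have h2 := hall_part hB hh hq h1
      have h3 := (Nat.Prime.pow_dvd_iff_le_factorization hq ha'0).mp h2
      refine le_trans ?_ h3
      exact (Nat.factorization_le_iff_dvd ha0 hc0).mpr (Nat.gcd_dvd_left _ _) q
    · rw [Nat.factorization_eq_zero_of_not_dvd hqa]
      exact Nat.zero_le _
  have heq : Nat.card ↥(H ⊓ C) = c.gcd (Nat.card H) := Nat.dvd_antisymm ha'1 ha'2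
  refine ⟨c.gcd H.index, ?_, Nat.gcd_dvd_right _ _⟩
  rw [heq]
  exact hgcd.symm

variable {k : ℕ}

/-- `R h`, the number of `x` with `x ^ k = h`, is at least `b`. -/
theorem R_ge (h1 : k ≡ 1 [MOD Nat.card H]) (h2 : k ≡ 0 [MOD H.index]) {h : G} (hh : h ∈ H) {b : ℕ}
    (hb : Nat.card (Subgroup.centralizer ({h} : Set G)) =
      Nat.card ↥(H ⊓ Subgroup.centralizer ({h} : Set G)) * b) (hbn : b ∣ H.index) :
    b ≤ Nat.card {x : G // x ^ k = h} := by
  set C := Subgroup.centralizer ({h} : Set G) with hC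
  have hbC : b ∣ Nat.card C := ⟨_, by rw [hb, mul_comm]⟩
  have h3 := Cfsg.Agent.Lib.FrobCount.frobenius_dvd_card_pow_eq_one C b hbC
  haveI : Nonempty {y : C // y ^ b = 1} := ⟨⟨1, one_pow _⟩⟩
  have h4 : b ≤ Nat.card {y : C // y ^ b = 1} := Nat.le_of_dvd Nat.card_pos h3
  refine h4.trans ?_
  have hval : ∀ y : {y : C // y ^ b = 1}, (h * ((y.1 : C) : G)) ^ k = h := by
    rintro ⟨⟨y, hyC⟩, hy⟩
    have hcomm : Commute h y := by
      have := Subgroup.mem_centralizer_singleton_iff.mp hyC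
      exact this.symm
    refine part_left_eq h1 h2 hcomm (pow_card_H hB hh) ?_
    obtain ⟨c, hc⟩ := hbn
    have h5 : y ^ b = 1 := congrArg Subtype.val hy
    rw [hc, pow_mul, h5, one_pow]
  refine Nat.card_le_card_of_injective (fun y => ⟨h * ((y.1 : C) : G), hval y⟩) ?_
  intro y y' hyy
  have h5 : h * ((y.1 : C) : G) = h * ((y'.1 : C) : G) := congrArg Subtype.val hyy
  exact Subtype.ext (Subtype.ext (mul_left_cancel h5))

/-- The number of elements conjugating `h` into `H`. -/
theorem c_le {h : G} (hh : h ∈ H) {b : ℕ}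
    (hb : Nat.card (Subgroup.centralizer ({h} : Set G)) =
      Nat.card ↥(H ⊓ Subgroup.centralizer ({h} : Set G)) * b) :
    Nat.card {t : G // t * h * t⁻¹ ∈ H} ≤ Nat.card H * b := by
  set C := Subgroup.centralizer ({h} : Set G) with hC
  have hchoose : ∀ t : {t : G // t * h * t⁻¹ ∈ H}, ∃ c ∈ H, c⁻¹ * t.1 ∈ C := by
    rintro ⟨t, ht⟩
    obtain ⟨c, hc, hcg⟩ := hB.fus h hh _ ht (isConj_iff.mpr ⟨t, rfl⟩)
    refine ⟨c, hc, ?_⟩
    rw [hC, Subgroup.mem_centralizer_singleton_iff]
    have h5 : c⁻¹ * (t * h * t⁻¹) * c = h := by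
      rw [← hcg]
      group
    calc c⁻¹ * t * h = c⁻¹ * (t * h * t⁻¹) * c * (c⁻¹ * t) := by group
      _ = h * (c⁻¹ * t) := by rw [h5]
  choose κ hκ hκ' using hchoose
  let φ : {t : G // t * h * t⁻¹ ∈ H} × ↥(H ⊓ C) → H × C := fun q =>
    (⟨κ q.1 * (q.2 : G)⁻¹, H.mul_mem (hκ q.1) (H.inv_mem q.2.2.1)⟩,
      ⟨(q.2 : G) * ((κ q.1)⁻¹ * q.1.1), C.mul_mem q.2.2.2 (hκ' q.1)⟩)
  have hφ : Function.Injective φ := by
    rintro ⟨t, y⟩ ⟨t', y'⟩ hq
    have h5 : κ t * (y : G)⁻¹ = κ t' * (y' : G)⁻¹ := congrArg (fun z => ((z.1 : H) : G)) hq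
    have h6 : (y : G) * ((κ t)⁻¹ * t.1) = (y' : G) * ((κ t')⁻¹ * t'.1) :=
      congrArg (fun z => ((z.2 : C) : G)) hq
    have h7 : t.1 = t'.1 := by
      calc t.1 = (κ t * (y : G)⁻¹) * ((y : G) * ((κ t)⁻¹ * t.1)) := by group
        _ = (κ t' * (y' : G)⁻¹) * ((y' : G) * ((κ t')⁻¹ * t'.1)) := by rw [h5, h6]
        _ = t'.1 := by group
    have h8 : t = t' := Subtype.ext h7
    subst h8
    have h9 : (y : G) = y' := by
      have := mul_right_cancel (a := (y : G)) (b := ((κ t)⁻¹ * t.1)) (c := (y' : G)) h6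
      exact this
    exact Prod.ext rfl (Subtype.ext h9)
  have h5 := Nat.card_le_card_of_injective φ hφ
  rw [Nat.card_prod, Nat.card_prod, hb] at h5
  have h6 : 0 < Nat.card ↥(H ⊓ C) := Nat.card_pos
  have h7 : Nat.card {t : G // t * h * t⁻¹ ∈ H} * Nat.card ↥(H ⊓ C) ≤
      (Nat.card H * b) * Nat.card ↥(H ⊓ C) := by
    calc _ ≤ _ := h5
      _ = _ := by ring
  exact Nat.le_of_mul_le_mul_right h7 h6

omit hB in
/-- A cardinality as a sum. -/
theorem card_as_sum [Fintype G] (P : G → Prop) [DecidablePred P] :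
    ((Nat.card {x : G // P x} : ℕ) : ℂ) = ∑ x : G, if P x then (1 : ℂ) else 0 := by
  rw [Nat.card_eq_fintype_card, Fintype.card_subtype, Finset.sum_boole]

omit hB in
theorem R_class (s u : G) :
    Nat.card {x : G // x ^ k = s * u * s⁻¹} = Nat.card {x : G // x ^ k = u} := by
  refine Nat.card_congr (Equiv.subtypeEquiv (MulAut.conj s⁻¹).toEquiv ?_)
  intro x
  have h5 : ((MulAut.conj s⁻¹).toEquiv x) ^ k = s⁻¹ * x ^ k * s := by
    show (s⁻¹ * x * s⁻¹⁻¹) ^ k = _
    rw [conj_pow, inv_inv]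
  rw [h5]
  constructor
  · intro h
    rw [h]
    group
  · intro h
    have h6 : x ^ k = s * (s⁻¹ * x ^ k * s) * s⁻¹ := by group
    rw [h6, h]

omit hB in
theorem c_class (s u : G) :
    Nat.card {t : G // t * (s * u * s⁻¹) * t⁻¹ ∈ H} = Nat.card {t : G // t * u * t⁻¹ ∈ H} := by
  refine Nat.card_congr (Equiv.subtypeEquiv (Equiv.mulRight s) ?_)
  intro t
  have h5 : t * (s * u * s⁻¹) * t⁻¹ = (Equiv.mulRight s t) * u * (Equiv.mulRight s t)⁻¹ := by
    simp only [Equiv.coe_mulRight]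
    group
  rw [h5]

/-- The weighted counting formula. -/
theorem sum_weighted [Fintype G] [Fintype H] (h2 : k ≡ 0 [MOD H.index]) (f : G → ℂ)
    (hf : IsClassFunction G f) :
    ∑ x : G, f (x ^ k) = (Nat.card G : ℂ) *
      ∑ h : H, ((Nat.card {x : G // x ^ k = (h : G)} : ℕ) : ℂ) * f h /
        ((Nat.card {t : G // t * (h : G) * t⁻¹ ∈ H} : ℕ) : ℂ) := by
  classical
  let R' : G → ℂ := fun u => ((Nat.card {x : G // x ^ k = u} : ℕ) : ℂ)
  let c' : G → ℂ := fun u => ((Nat.card {t : G // t * u * t⁻¹ ∈ H} : ℕ) : ℂ)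
  let F : G → ℂ := fun u => R' u * f u / c' u
  have hF : IsClassFunction G F := by
    intro u s
    simp only [F, R', c']
    rw [R_class, c_class, hf]
  have hstep1 : ∑ x : G, f (x ^ k) = ∑ u : G, R' u * f u := by
    have h5 : ∀ u : G, R' u * f u = ∑ x : G, if x ^ k = u then f u else 0 := by
      intro u
      simp only [R']
      rw [card_as_sum, Finset.sum_mul]
      refine Finset.sum_congr rfl fun x _ => ?_
      split_ifs <;> simp
    simp only [h5]
    rw [Finset.sum_comm]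
    refine Finset.sum_congr rfl fun x _ => ?_
    simp
  have hstep2 : ∀ u : G, R' u * f u = c' u * F u := by
    intro u
    by_cases hc : c' u = 0
    · have hempty : IsEmpty {t : G // t * u * t⁻¹ ∈ H} := by
        have h50 : ((Nat.card {t : G // t * u * t⁻¹ ∈ H} : ℕ) : ℂ) = 0 := hc
        have h5 : Nat.card {t : G // t * u * t⁻¹ ∈ H} = 0 := by exact_mod_cast h50
        rcases Nat.card_eq_zero.mp h5 with h6 | h6
        · exact h6
        · exact absurd (inferInstance : Finite {t : G // t * u * t⁻¹ ∈ H}) (not_finite_iff_infinite.mpr h6)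
      have hR : R' u = 0 := by
        simp only [R']
        have h5 : IsEmpty {x : G // x ^ k = u} := by
          constructor
          rintro ⟨x, rfl⟩
          have hx : x ^ (Nat.card H * H.index) = 1 := by
            rw [← card_eq_mul hB]
            exact pow_card_eq_one'
          obtain ⟨t, ht⟩ := exists_conj_into hB (part_pow_left h2 hx)
          exact hempty.false ⟨t, ht⟩
        rw [Nat.card_of_isEmpty]
        simp
      rw [hR, hc]
      simp
    · simp only [F]
      field_simp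
  have hstep3 : ∑ u : G, c' u * F u = (Nat.card G : ℂ) * ∑ h : H, F h := by
    have h5 : ∀ u : G, c' u * F u = ∑ t : G, if t * u * t⁻¹ ∈ H then F u else 0 := by
      intro u
      simp only [c']
      rw [card_as_sum, Finset.sum_mul]
      refine Finset.sum_congr rfl fun x _ => ?_
      split_ifs <;> simp
    simp only [h5]
    rw [Finset.sum_comm]
    have h6 : ∀ t : G, (∑ u : G, if t * u * t⁻¹ ∈ H then F u else 0) = ∑ h : H, F h := by
      intro t
      have h7 : ∀ u : G, (if t * u * t⁻¹ ∈ H then F u else 0) =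
          (fun y : G => if y ∈ H then F y else 0) ((MulAut.conj t).toEquiv u) := by
        intro u
        show _ = if t * u * t⁻¹ ∈ H then F (t * u * t⁻¹) else 0
        rw [hF]
      simp only [h7]
      rw [Equiv.sum_comp (MulAut.conj t).toEquiv (fun y : G => if y ∈ H then F y else 0)]
      rw [← Finset.sum_filter, Finset.sum_subtype (p := fun y => y ∈ H) (Finset.univ.filter (· ∈ H)) (by simp) F]
    simp only [h6]
    rw [Finset.sum_const, Finset.card_univ, nsmul_eq_mul, Nat.card_eq_fintype_card]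
  rw [hstep1, Finset.sum_congr rfl (fun u _ => hstep2 u), hstep3]

/-- The counting formula. -/
theorem sum_part [Fintype G] [Fintype H] (h1 : k ≡ 1 [MOD Nat.card H]) (h2 : k ≡ 0 [MOD H.index])
    (f : G → ℂ) (hf : IsClassFunction G f) :
    ∑ x : G, f (x ^ k) = (H.index : ℂ) * ∑ h : H, f h := by
  classical
  let r : H → ℝ := fun h => ((Nat.card {x : G // x ^ k = (h : G)} : ℕ) : ℝ) /
    ((Nat.card {t : G // t * (h : G) * t⁻¹ ∈ H} : ℕ) : ℝ)
  have hG0 : (Nat.card G : ℂ) ≠ 0 := by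
    exact_mod_cast (Nat.card_pos (α := G)).ne'
  have hm0 : (Nat.card H : ℝ) ≠ 0 := by
    exact_mod_cast (Nat.card_pos (α := H)).ne'
  have hr1 : ∑ h : H, r h = 1 := by
    have h3 := sum_weighted hB h2 (fun _ => (1 : ℂ)) (fun _ _ => rfl)
    have h4 : ∑ x : G, (1 : ℂ) = (Nat.card G : ℂ) := by
      rw [Finset.sum_const, Finset.card_univ, nsmul_eq_mul, Nat.card_eq_fintype_card, mul_one]
    simp only [h4] at h3
    have h5 : ∑ h : H, ((Nat.card {x : G // x ^ k = (h : G)} : ℕ) : ℂ) * 1 /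
        ((Nat.card {t : G // t * (h : G) * t⁻¹ ∈ H} : ℕ) : ℂ) = 1 := by
      have := mul_left_cancel₀ hG0 (h3.symm.trans (mul_one _).symm)
      exact this
    apply Complex.ofReal_injective
    rw [Complex.ofReal_one, ← h5]
    simp only [r]
    push_cast
    refine Finset.sum_congr rfl fun h _ => ?_
    rw [mul_one]
  have hrge : ∀ h : H, 1 / (Nat.card H : ℝ) ≤ r h := by
    intro h
    obtain ⟨b, hb, hbn⟩ := card_split hB h.2
    have h3 := R_ge hB h1 h2 h.2 hb hbn
    have h4 := c_le hB h.2 hb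
    have h5 : 0 < Nat.card {t : G // t * (h : G) * t⁻¹ ∈ H} := by
      haveI : Nonempty {t : G // t * (h : G) * t⁻¹ ∈ H} := ⟨⟨1, by simpa using h.2⟩⟩
      exact Nat.card_pos
    have h6 : Nat.card {t : G // t * (h : G) * t⁻¹ ∈ H} ≤
        Nat.card H * Nat.card {x : G // x ^ k = (h : G)} :=
      h4.trans (Nat.mul_le_mul_left _ h3)
    simp only [r]
    rw [div_le_div_iff₀ (by exact_mod_cast Nat.card_pos) (by exact_mod_cast h5), one_mul]
    rw [mul_comm]
    exact_mod_cast h6
  have hrval : ∀ h : H, r h = 1 / (Nat.card H : ℝ) := by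
    have h3 : ∑ h : H, (r h - 1 / (Nat.card H : ℝ)) = 0 := by
      rw [Finset.sum_sub_distrib, hr1, Finset.sum_const, Finset.card_univ, nsmul_eq_mul,
        ← Nat.card_eq_fintype_card]
      field_simp
      simp
    have h4 := (Finset.sum_eq_zero_iff_of_nonneg
      (fun h _ => sub_nonneg.mpr (hrge h))).mp h3
    intro h
    have := h4 h (Finset.mem_univ h)
    linarith
  rw [sum_weighted hB h2 f hf]
  have h5 : ∀ h : H, ((Nat.card {x : G // x ^ k = (h : G)} : ℕ) : ℂ) * f h /
      ((Nat.card {t : G // t * (h : G) * t⁻¹ ∈ H} : ℕ) : ℂ) = (Nat.card H : ℂ)⁻¹ * f h := by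
    intro h
    have h6 : ((Nat.card {x : G // x ^ k = (h : G)} : ℕ) : ℂ) /
      ((Nat.card {t : G // t * (h : G) * t⁻¹ ∈ H} : ℕ) : ℂ) = (Nat.card H : ℂ)⁻¹ := by
      have h7 := congrArg (fun z : ℝ => (z : ℂ)) (hrval h)
      simp only [r] at h7
      push_cast at h7
      rw [h7, one_div]
    rw [mul_div_right_comm, h6]
  simp only [h5]
  rw [← Finset.mul_sum, ← mul_assoc]
  congr 1
  rw [card_eq_mul hB]
  have hm0' : (Nat.card H : ℂ) ≠ 0 := by
    exact_mod_cast (Nat.card_pos (α := H)).ne'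
  push_cast
  field_simp

end Cfsg.Agent.Lib.BrauerSuzuki
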