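import Mathlib

/-!
# Regular orbits of coprime abelian automorphism groups

A group `S` of pairwise commuting automorphisms of a finite abelian group `A` such that `A` has no
non-trivial element with order dividing `|S|` has a regular orbit on `A`.
-/

set_option autoImplicit false
set_option linter.style.haveILetI false

namespace Cfsg.Agent.Lib.RegOrbit

variable {A : Type*} [CommGroup A] [Finite A]

/-- The stabiliser in `S` of a point. -/
def stab (S : Subgroup (MulAut A)) (a : A) : Subgroup (MulAut A) where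
  carrier := {s | s ∈ S ∧ s a = a}
  mul_mem' := by
    rintro s t ⟨hs, hs'⟩ ⟨ht, ht'⟩
    refine ⟨S.mul_mem hs ht, ?_⟩
    rw [MulAut.mul_apply, ht', hs']
  one_mem' := ⟨S.one_mem, rfl⟩
  inv_mem' := by
    rintro s ⟨hs, hs'⟩
    refine ⟨S.inv_mem hs, ?_⟩
    nth_rewrite 1 [← hs']
    rw [← MulAut.mul_apply, inv_mul_cancel]
    rfl

/-- A group of pairwise commuting automorphisms of a finite abelian group, of order prime to the
group in the weak sense that there is no non-trivial element killed by the order of the group of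
automorphisms, has a regular orbit. -/
theorem exists_regular (S : Subgroup (MulAut A)) (hcomm : ∀ s ∈ S, ∀ t ∈ S, s * t = t * s)
    (hc : ∀ x : A, x ^ Nat.card S = 1 → x = 1) : ∃ a : A, ∀ s ∈ S, s a = a → s = 1 := by
  classical
  haveI : Finite (MulAut A) := Finite.of_injective (fun s : MulAut A => (s : A → A))
    (fun s t h => MulEquiv.ext (congrFun h))
  obtain ⟨a, ha⟩ := Finite.exists_min (fun a : A => Nat.card (stab S a))
  refine ⟨a, ?_⟩
  by_contra hcon
  push Not at hcon
  obtain ⟨s₀, hs₀S, hs₀a, hs₀⟩ := hcon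
  set T := stab S a with hT
  haveI : Fintype T := Fintype.ofFinite _
  set n := Nat.card T with hn
  have hTS : T ≤ S := fun t ht => ht.1
  have hndvd : n ∣ Nat.card S := Subgroup.card_dvd_of_le hTS
  have hkill : ∀ x : A, x ^ n = 1 → x = 1 := by
    intro x hx
    apply hc
    obtain ⟨k, hk⟩ := hndvd
    rw [hk, pow_mul, hx, one_pow]
  let f : A → A := fun x => ∏ t : T, (t : MulAut A) x
  have hf_mul : ∀ x y, f (x * y) = f x * f y := by
    intro x y
    simp only [f, map_mul, Finset.prod_mul_distrib]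
  have hf_one : f 1 = 1 := by simp [f]
  have hf_inv : ∀ x, f x⁻¹ = (f x)⁻¹ := by
    intro x
    simp only [f, map_inv, Finset.prod_inv_distrib]
  have hf_pow : ∀ x (k : ℕ), f (x ^ k) = f x ^ k := by
    intro x k
    simp only [f, map_pow, Finset.prod_pow]
  have hf_fix : ∀ x, ∀ t ∈ T, t (f x) = f x := by
    intro x t ht
    simp only [f, map_prod]
    refine Fintype.prod_equiv (Equiv.mulLeft (⟨t, ht⟩ : T)) _ _ fun u => ?_
    simp [MulAut.mul_apply]
  have hf_const : ∀ x, (∀ t ∈ T, t x = x) → f x = x ^ n := by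
    intro x hx
    simp only [f]
    rw [Finset.prod_congr rfl (fun (t : T) _ => hx (t : MulAut A) t.2)]
    simp [hn, Nat.card_eq_fintype_card]
  have hf_comm : ∀ s ∈ S, ∀ x, s (f x) = f (s x) := by
    intro s hs x
    simp only [f, map_prod]
    refine Finset.prod_congr rfl fun t _ => ?_
    rw [← MulAut.mul_apply, ← MulAut.mul_apply, hcomm s hs t (hTS t.2)]
  obtain ⟨c, hc'⟩ : ∃ c, s₀ c ≠ c := by
    by_contra hall
    push Not at hall
    exact hs₀ (MulEquiv.ext hall)
  set β := c ^ n * (f c)⁻¹ with hβ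
  have hfβ : f β = 1 := by
    rw [hβ, hf_mul, hf_inv, hf_pow, hf_const (f c) (hf_fix c), mul_inv_cancel]
  have hs₀T : s₀ ∈ T := ⟨hs₀S, hs₀a⟩
  have hβmov : s₀ β ≠ β := by
    intro h
    apply hc'
    rw [hβ, map_mul, map_inv, map_pow, hf_fix c s₀ hs₀T] at h
    have h2 : (s₀ c) ^ n = c ^ n := mul_right_cancel h
    have h3 : (s₀ c * c⁻¹) ^ n = 1 := by
      rw [mul_pow, h2, inv_pow, mul_inv_cancel]
    have h4 := hkill _ h3
    exact mul_inv_eq_one.mp h4
  have hle : stab S (a * β) ≤ T := by
    rintro s ⟨hs, hs'⟩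
    refine ⟨hs, ?_⟩
    rw [map_mul] at hs'
    set y := s a * a⁻¹ with hy
    have hy2 : y = β * (s β)⁻¹ := by
      rw [hy]
      have : s a * s β * (s β)⁻¹ * a⁻¹ = a * β * (s β)⁻¹ * a⁻¹ := by rw [hs']
      calc s a * a⁻¹ = s a * s β * (s β)⁻¹ * a⁻¹ := by group
        _ = a * β * (s β)⁻¹ * a⁻¹ := this
        _ = β * (s β)⁻¹ := by
          rw [mul_comm a β, mul_assoc β, mul_assoc β, mul_comm a (s β)⁻¹, mul_assoc (s β)⁻¹,
            mul_inv_cancel, mul_one]
    have hyfix : ∀ t ∈ T, t y = y := by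
      intro t ht
      rw [hy, map_mul, map_inv, ht.2, ← MulAut.mul_apply, hcomm t (hTS ht) s hs, MulAut.mul_apply,
        ht.2]
    have hfy : f y = 1 := by
      rw [hy2, hf_mul, hf_inv, hfβ, ← hf_comm s hs, hfβ, map_one]
      simp
    rw [hf_const y hyfix] at hfy
    have := hkill y hfy
    exact mul_inv_eq_one.mp this
  have hcard := ha (a * β)
  have heq : stab S (a * β) = T := Subgroup.eq_of_le_of_card_ge hle hcard
  have hmem : s₀ ∈ stab S (a * β) := heq ▸ hs₀T
  have h5 := hmem.2
  rw [map_mul, hs₀a] at h5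
  exact hβmov (mul_left_cancel h5)

end Cfsg.Agent.Lib.RegOrbit
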