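import Mathlib
import Cfsg.Agent.Lib.BrolineChar
import Cfsg.Agent.Lib.BrolineGT
import Cfsg.Agent.Lib.RegOrbit
import Cfsg.Agent.Lib.CharTwist

/-!
# The two cases of the Broline–Garrison lemma
-/

set_option autoImplicit false
set_option linter.style.haveILetI false
set_option linter.unusedSectionVars false

namespace Cfsg.Agent.Lib.BrolineCases

open Cfsg Cfsg.Agent.Lib.CharBasic Cfsg.Agent.Lib.CharInd Cfsg.Agent.Lib.CharInduction
  Cfsg.Agent.Lib.Clifford Cfsg.Agent.Lib.CharClifford Cfsg.Agent.Lib.CharDecomp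
  Cfsg.Agent.Lib.GenChar Cfsg.Agent.Lib.BrauerInd Cfsg.Agent.Lib.BrolineChar
  Cfsg.Agent.Lib.CharKernel Cfsg.Agent.Lib.IndFunBasic
open scoped ComplexConjugate

universe u

section Lemmas

variable {X : Type u} [Group X] [Fintype X]

/-- A non-normal subgroup `A`: some irreducible character has a non-zero `A`-fixed part but does not
kill `A`. -/
theorem exists_irr_not_ker (A : Subgroup X) [Fintype A] (hA : ¬ A.Normal) :
    ∃ ξ : X → ℂ, IsIrrCharacter X ξ ∧ classInner (fun a : A => ξ a) (fun _ => 1) ≠ 0 ∧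
      ∃ a ∈ A, ξ a ≠ ξ 1 := by
  classical
  by_contra hcon
  push Not at hcon
  apply hA
  set Φ := indFun A (fun _ => (1 : ℂ)) with hΦ
  have hΦc : IsCharacter X Φ := indFun_isCharacter A isCharacter_one
  obtain ⟨m, hm⟩ := exists_nat_decomp hΦc
  have h1 : ∀ a ∈ A, Φ a = Φ 1 := by
    intro a ha
    rw [hm]
    simp only [Finset.sum_apply, Pi.smul_apply]
    refine Finset.sum_congr rfl fun i _ => ?_
    by_cases hi : m i = 0
    · simp [hi]
    · have h7 : classInner Φ (i : X → ℂ) = m i := by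
        rw [hm]
        exact classInner_nat_decomp m _ i.2
      rw [Cfsg.Agent.Lib.CharInd.frobenius _ _
        (isClassFunction_of_isCharacter (IsIrrCharacter.isCharacter i.2))] at h7
      have h8 : classInner (fun a : A => (i : X → ℂ) a) (fun _ => 1) ≠ 0 := by
        intro h8
        rw [← classInner_conj_symm, h8] at h7
        simp only [map_zero] at h7
        exact hi (by exact_mod_cast h7.symm)
      rw [hcon _ i.2 h8 a ha]
  have hext : ∀ g : X, extendByZero A (fun _ => (1 : ℂ)) g = if g ∈ A then 1 else 0 := by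
    intro g
    split_ifs with hg
    · rw [Cfsg.Agent.Lib.CharInd.extendByZero_of_mem A _ hg]
    · rw [Cfsg.Agent.Lib.CharInd.extendByZero_of_not_mem A _ hg]
  have hA0 : (Nat.card A : ℂ) ≠ 0 := natCard_ne_zero'
  have h2 : ∀ a ∈ A, ∀ x : X, x⁻¹ * a * x ∈ A := by
    intro a ha x
    have h3 := h1 a ha
    simp only [hΦ, indFun, hext] at h3
    have h4 := mul_left_cancel₀ (inv_ne_zero hA0) h3
    simp only [mul_one, inv_mul_cancel, OneMemClass.one_mem, if_true, Finset.sum_const,
      Finset.card_univ, nsmul_eq_mul, Finset.sum_boole] at h4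
    have h5 : (Finset.univ.filter fun x : X => x⁻¹ * a * x ∈ A).card = Fintype.card X := by
      exact_mod_cast h4
    have h6 := (Finset.card_filter_eq_iff).mp (h5.trans (Finset.card_univ).symm)
    exact h6 x (Finset.mem_univ x)
  constructor
  intro a ha g
  have := h2 a ha g⁻¹
  simpa using this

/-- The multiplicity of the trivial character in a non-constant character is less than the degree. -/
theorem inner_one_lt {θ : X → ℂ} (hθ : IsCharacter X θ) {x : X} (hx : θ x ≠ θ 1) {a d : ℕ}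
    (ha : classInner θ (fun _ => 1) = a) (hd : θ 1 = d) : a < d := by
  classical
  by_contra hcon
  push Not at hcon
  obtain ⟨m, hm⟩ := exists_nat_decomp hθ
  let i₁ : IrrCharacter X := ⟨fun _ => 1, isIrrCharacter_one⟩
  have hm1 : m i₁ = a := by
    have h1 : classInner θ (fun _ => 1) = m i₁ := by
      rw [hm]
      exact classInner_nat_decomp m _ isIrrCharacter_one
    rw [ha] at h1
    exact_mod_cast h1.symm
  set ρ : X → ℂ := ∑ i ∈ Finset.univ.erase i₁, m i • (i : X → ℂ) with hρ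
  have hρc : IsCharacter X ρ := isCharacter_sum _ _ fun i _ =>
    isCharacter_nsmul (IsIrrCharacter.isCharacter i.2) _
  have hsplit : θ = a • (fun _ => (1 : ℂ)) + ρ := by
    rw [hm, ← Finset.add_sum_erase _ _ (Finset.mem_univ i₁), hm1]
  obtain ⟨r, hr⟩ := isCharacter_one_eq hρc
  have h2 : (d : ℂ) = a + r := by
    rw [← hd, hsplit, ← hr]
    simp
  have h3 : d = a + r := by exact_mod_cast h2
  have hr0 : r = 0 := by omega
  have hρ0 : ρ = 0 := char_eq_zero_of_one hρc (by rw [hr, hr0]; simp)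
  apply hx
  rw [hsplit, hρ0]
  simp

/-- A constituent of a character has the kernel of the character in its kernel. -/
theorem constituent_ker {φ ξ : X → ℂ} (hφ : IsCharacter X φ) (hξ : IsIrrCharacter X ξ)
    (h : classInner φ ξ ≠ 0) {x : X} (hx : φ x = φ 1) : ξ x = ξ 1 := by
  obtain ⟨θ, hθ, rfl⟩ := exists_char_add hφ hξ h
  have hξc := IsIrrCharacter.isCharacter hξ
  apply char_eq_one_of_re hξc
  have hbound : ∀ {f : X → ℂ}, IsCharacter X f → (f x).re ≤ (f 1).re := by
    intro f hf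
    obtain ⟨d, hd⟩ := isCharacter_one_eq hf
    have h1 := char_norm_le hf x
    rw [hd] at h1 ⊢
    simp only [Complex.norm_natCast, Complex.natCast_re] at h1 ⊢
    exact (Complex.re_le_norm _).trans h1
  have h1 := hbound hξc
  have h2 := hbound hθ
  have h3 := congrArg Complex.re hx
  simp only [Pi.add_apply, Complex.add_re] at h3
  linarith

/-- If `A Y = X` and `Y ≤ ker ξ` then the restriction of `ξ` to `A` is irreducible; so if it contains
the trivial character it is trivial. -/
theorem eq_one_of_sup_ker (A Y : Subgroup X) [hY : Y.Normal] [Fintype A] (hsup : A ⊔ Y = ⊤) {ξ : X → ℂ}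
    (hξ : IsIrrCharacter X ξ) (hYξ : ∀ y ∈ Y, ξ y = ξ 1)
    (h : classInner (fun a : A => ξ a) (fun _ => 1) ≠ 0) : ∀ a ∈ A, ξ a = 1 := by
  classical
  obtain ⟨ξ', hξ', hξ'e⟩ := exists_quotient_irr Y hξ hYξ
  let f : A →* X ⧸ Y := (QuotientGroup.mk' Y).comp A.subtype
  have hf : Function.Surjective f := by
    intro q
    obtain ⟨g, rfl⟩ := QuotientGroup.mk_surjective q
    have hg : g ∈ A ⊔ Y := by rw [hsup]; trivial
    obtain ⟨a, ha, y, hy, rfl⟩ := Subgroup.mem_sup_of_normal_right.mp hg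
    refine ⟨⟨a, ha⟩, ?_⟩
    show ((a : X) : X ⧸ Y) = ((a * y : X) : X ⧸ Y)
    rw [QuotientGroup.mk_mul, (QuotientGroup.eq_one_iff y).mpr hy, mul_one]
  have hirr := isIrrCharacter_comp_of_surjective f hf hξ'
  have heq : ξ' ∘ f = fun a : A => ξ a := by
    funext a
    exact hξ'e a
  rw [heq] at hirr
  by_contra hcon
  push Not at hcon
  obtain ⟨a, ha, ha1⟩ := hcon
  apply h
  apply classInner_irr_ne hirr isIrrCharacter_one
  intro h2
  exact ha1 (congrFun h2 ⟨a, ha⟩)

/-- A Frattini argument modulo a normal subgroup with nilpotent quotient. -/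
theorem normalizer_sup_ker_eq_top {Z : Type*} [Group Z] [hZ : Group.IsNilpotent Z] (f : X →* Z)
    (hf : Function.Surjective f) {q : ℕ} [Fact q.Prime] (P : Sylow q X) :
    Subgroup.normalizer (P : Set X) ⊔ f.ker = ⊤ := by
  haveI : Finite Z := Finite.of_surjective f hf
  let Pb : Sylow q Z := P.mapSurjective hf
  have hPb : ((Pb : Subgroup Z)).Normal := inferInstance
  let S : Subgroup X := (Pb : Subgroup Z).comap f
  haveI hS : S.Normal := Subgroup.Normal.comap hPb f
  have hPS : (P : Subgroup X) ≤ S := by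
    intro x hx
    exact Subgroup.mem_map_of_mem f hx
  have h1 := P.normalizer_sup_eq_top' hPS
  have h2 : S = (P : Subgroup X) ⊔ f.ker := Subgroup.comap_map_eq f _
  rw [h2] at h1
  rw [eq_top_iff, ← h1]
  exact sup_le le_sup_left (sup_le (Subgroup.le_normalizer.trans le_sup_left) le_sup_right)

end Lemmas

section Case1

variable {G : Type u} [Group G] [Fintype G]

/-- Case 1 of the lemma: `K = ker χ` non-nilpotent, with nilpotent quotients by non-trivial normal
subgroups of `G`. -/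
theorem case1 {χ : G → ℂ} (hχ : IsIrrCharacter G χ) (K : Subgroup G) [hKn : K.Normal]
    (hKχ : ∀ g, g ∈ K ↔ χ g = χ 1) (hnil : ¬ Group.IsNilpotent K)
    (hU : ∀ U : Subgroup G, ∀ _ : U.Normal, U ≤ K → U ≠ ⊥ →
      Group.IsNilpotent (K.map (QuotientGroup.mk' U))) :
    ∃ ψ : G → ℂ, IsIrrCharacter G ψ ∧ charDegree χ < charDegree ψ ∧ ∀ g, ψ g = ψ 1 → g = 1 := by
  classical
  haveI : Fintype K := Fintype.ofFinite _
  have hχc := IsIrrCharacter.isCharacter hχ
  obtain ⟨q, hq, P, hP⟩ : ∃ (q : ℕ) (_ : Fact q.Prime) (P : Sylow q K),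
      ¬ (P : Subgroup K).Normal := by
    by_contra hc
    push Not at hc
    exact hnil ((Group.isNilpotent_of_finite_tfae.out 0 3).mpr hc)
  haveI := hq
  set P' : Subgroup G := (P : Subgroup K).map K.subtype with hP'
  set R : Subgroup G := Subgroup.normalizer (P' : Set G) with hR
  have hsup : R ⊔ K = ⊤ := Sylow.normalizer_sup_eq_top P
  haveI : Fintype R := Fintype.ofFinite _
  set A₀ : Subgroup K := R.subgroupOf K with hA₀
  haveI : Fintype A₀ := Fintype.ofFinite _
  have hmemP : ∀ y : K, (y : G) ∈ P' ↔ y ∈ (P : Subgroup K) := by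
    intro y
    constructor
    · rintro ⟨z, hz, hzy⟩
      have : z = y := Subtype.ext hzy
      rwa [← this]
    · intro hy
      exact Subgroup.mem_map_of_mem _ hy
  have hP'K : ∀ y ∈ P', y ∈ K := by
    rintro y ⟨z, -, rfl⟩
    exact z.2
  have hA₀eq : A₀ = Subgroup.normalizer (((P : Subgroup K)) : Set K) := by
    ext x
    rw [hA₀, Subgroup.mem_subgroupOf, hR, Subgroup.mem_normalizer_iff, Subgroup.mem_normalizer_iff]
    constructor
    · intro h y
      have h1 := h y
      rw [hmemP y] at h1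
      have h2 : (x : G) * y * (x : G)⁻¹ = ((x * y * x⁻¹ : K) : G) := rfl
      rw [h2, hmemP] at h1
      exact h1
    · intro h y
      constructor
      · intro hy
        have hyK := hP'K y hy
        have h1 := (h ⟨y, hyK⟩).mp ((hmemP _).mp hy)
        exact (hmemP _).mpr h1
      · intro hy
        have hyK' := hP'K _ hy
        have hyK : y ∈ K := by
          have := hKn.conj_mem _ hyK' (x : G)⁻¹
          simpa [mul_assoc] using this
        have h1 := (h ⟨y, hyK⟩).mpr ((hmemP (x * ⟨y, hyK⟩ * x⁻¹)).mp hy)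
        exact (hmemP _).mpr h1
  have hA₀n : ¬ A₀.Normal := by
    rw [hA₀eq]
    exact fun h => hP (Sylow.normal_of_normalizer_normal P h)
  obtain ⟨ξ, hξ, hξne, a₀, ha₀, ha₀ne⟩ := exists_irr_not_ker A₀ hA₀n
  have hξc := IsIrrCharacter.isCharacter hξ
  obtain ⟨a, ha⟩ := classInner_char_irr (isCharacter_restrict A₀ hξc)
    (isIrrCharacter_one (G := A₀))
  have ha0 : a ≠ 0 := by
    rintro rfl
    apply hξne
    rw [ha]
    simp
  obtain ⟨d, hd⟩ := isCharacter_one_eq hξc
  have had : a < d := inner_one_lt (isCharacter_restrict A₀ hξc) (x := ⟨a₀, ha₀⟩) ha₀ne ha hd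
  obtain ⟨τ, hτ, hτR, e, he, he0, hea⟩ := exists_tau R K hsup hξ ha ha0
  have hτc := IsIrrCharacter.isCharacter hτ
  have hdeg0 : (χ * τ) 1 ≠ 0 := mul_ne_zero (irr_degree_ne_zero hχ) (irr_degree_ne_zero hτ)
  obtain ⟨ψ, hψ, hψne⟩ := exists_constituent (isCharacter_mul hχc hτc) hdeg0
  have hψc := IsIrrCharacter.isCharacter hψ
  have hχK : ∀ n ∈ K, χ n = χ 1 := fun n hn => (hKχ n).mp hn
  have heξ : classInner (fun n : K => τ n) ξ ≠ 0 := by
    rw [he]
    exact_mod_cast he0
  have hψξ := inner_restrict_ne_of_mul K hχ hτ hψ hχK hψne hξ heξ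
  set T : Subgroup G := charKer hψc with hT
  haveI hTn : T.Normal := charKer_normal hψc
  have hξT : ∀ x : K, (x : G) ∈ T → ξ x = ξ 1 := by
    intro x hx
    exact constituent_ker (isCharacter_restrict K hψc) hξ hψξ ((mem_charKer hψc).mp hx)
  set K₀ : Subgroup G := T ⊓ K with hK₀
  haveI hK₀n : K₀.Normal := Subgroup.normal_inf_normal _ _
  have hK₀b : K₀ = ⊥ := by
    by_contra hne
    have hnil₀ := hU K₀ hK₀n inf_le_right hne
    let f : K →* K.map (QuotientGroup.mk' K₀) := (QuotientGroup.mk' K₀).subgroupMap K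
    have hf : Function.Surjective f := (QuotientGroup.mk' K₀).subgroupMap_surjective K
    have h1 : A₀ ⊔ f.ker = ⊤ := by
      rw [hA₀eq]
      exact normalizer_sup_ker_eq_top f hf P
    have h2 : ∀ y ∈ f.ker, ξ y = ξ 1 := by
      intro y hy
      have h3 : QuotientGroup.mk' K₀ (y : G) = 1 := congrArg Subtype.val (MonoidHom.mem_ker.mp hy)
      have h4 : (y : G) ∈ K₀ := (QuotientGroup.eq_one_iff _).mp h3
      exact hξT y h4.1
    have h3 := eq_one_of_sup_ker A₀ f.ker h1 hξ h2 hξne
    apply ha₀ne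
    rw [h3 a₀ ha₀, ← (one_mem A₀ |> h3 1)]
  have hTKc : ∀ t ∈ T, ∀ k ∈ K, t * k = k * t := by
    intro t ht k hk
    have h1 : t * k * t⁻¹ * k⁻¹ ∈ T := by
      have h2 := T.mul_mem ht (hTn.conj_mem t⁻¹ (T.inv_mem ht) k)
      simpa [mul_assoc] using h2
    have h2 : t * k * t⁻¹ * k⁻¹ ∈ K := K.mul_mem (hKn.conj_mem k hk t) (K.inv_mem hk)
    have h3 : t * k * t⁻¹ * k⁻¹ ∈ K₀ := ⟨h1, h2⟩
    rw [hK₀b, Subgroup.mem_bot] at h3
    have h4 : t * k * t⁻¹ = k := mul_inv_eq_one.mp h3
    exact mul_inv_eq_iff_eq_mul.mp h4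
  have hTR : T ≤ R := by
    intro t ht
    rw [hR, Subgroup.mem_normalizer_iff]
    intro y
    constructor
    · intro hy
      have h1 : t * y * t⁻¹ = y := by
        rw [hTKc t ht y (hP'K y hy)]
        group
      rwa [h1]
    · intro hy
      have hyK' := hP'K _ hy
      have hyK : y ∈ K := by
        have := hKn.conj_mem _ hyK' t⁻¹
        simpa [mul_assoc] using this
      have h1 : t * y * t⁻¹ = y := by
        rw [hTKc t ht y hyK]
        group
      rwa [h1] at hy
  haveI : Fintype T := Fintype.ofFinite _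
  have hTχ := le_ker_of_le_ker_of_mul T R hTR hχ hτ hψ hτR hψne (fun t ht => (mem_charKer hψc).mp ht)
  have hTb : ∀ g, ψ g = ψ 1 → g = 1 := by
    intro g hg
    have h1 : g ∈ K₀ := ⟨(mem_charKer hψc).mpr hg, (hKχ g).mpr (hTχ g hg)⟩
    rw [hK₀b, Subgroup.mem_bot] at h1
    exact h1
  refine ⟨ψ, hψ, ?_, hTb⟩
  -- the degree
  obtain ⟨ρ, hρ, hsplit⟩ := exists_split hχ hτ hψ hψne
  have h1 := inner_eq_add K hsplit
  rw [inner_one_of_le_ker K hχK] at h1
  obtain ⟨r, hr⟩ := classInner_char_irr (isCharacter_restrict K hρ) (isIrrCharacter_one (G := K))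
  have h2 := inner_restrict_mul_degree K hτ hψ hξ heξ hψξ
  rw [h1, hr, he, hd, one_eq_charDegree hχc, one_eq_charDegree hψc] at h2
  have h3 : (charDegree χ + r) * d = e * charDegree ψ := by exact_mod_cast h2
  have hpos := charDegree_pos hψ
  have hed : e < d := lt_of_le_of_lt hea had
  by_contra hle
  push Not at hle
  have h4 : charDegree ψ * d ≤ (charDegree χ + r) * d :=
    Nat.mul_le_mul_right _ (hle.trans (Nat.le_add_right _ _))
  have h5 : e * charDegree ψ < d * charDegree ψ := Nat.mul_lt_mul_of_pos_right hed hpos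
  nlinarith

end Case1

section Regular

/-- The action of automorphisms on the dual. -/
def dualAut {Q : Type*} [Group Q] (s : MulAut Q) : MulAut (Q →* ℂˣ) where
  toFun μ := μ.comp (s⁻¹ : MulAut Q).toMonoidHom
  invFun μ := μ.comp s.toMonoidHom
  left_inv μ := by
    ext l
    simp [MulAut.inv_def]
  right_inv μ := by
    ext l
    simp [MulAut.inv_def]
  map_mul' μ ν := by
    ext l
    simp

theorem dualAut_apply {Q : Type*} [Group Q] (s : MulAut Q) (μ : Q →* ℂˣ) (l : Q) :
    dualAut s μ l = μ ((s⁻¹ : MulAut Q) l) := rfl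

/-- The action of automorphisms on the dual as a homomorphism. -/
def dualHom {Q : Type*} [Group Q] : MulAut Q →* MulAut (Q →* ℂˣ) where
  toFun := dualAut
  map_one' := by
    apply MulEquiv.ext
    intro μ
    ext l
    rw [dualAut_apply]
    simp
  map_mul' s t := by
    apply MulEquiv.ext
    intro μ
    ext l
    rw [MulAut.mul_apply, dualAut_apply, dualAut_apply, dualAut_apply, mul_inv_rev]
    simp [MulAut.mul_apply]

theorem dualHom_apply {Q : Type*} [Group Q] (s : MulAut Q) (μ : Q →* ℂˣ) (l : Q) :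
    dualHom s μ l = μ ((s⁻¹ : MulAut Q) l) := rfl

/-- A coprime group of pairwise commuting automorphisms of a finite abelian group has a regular orbit
on the dual group. -/
theorem regular_char {Q : Type*} [Group Q] [Finite Q] (hQ : ∀ x y : Q, x * y = y * x)
    (S : Subgroup (MulAut Q)) (hcomm : ∀ s ∈ S, ∀ t ∈ S, s * t = t * s)
    (hc : Nat.Coprime (Nat.card S) (Nat.card Q)) :
    ∃ lam : Q →* ℂˣ, ∀ s ∈ S, (∀ l, lam (s l) = lam l) → s = 1 := by
  classical
  have hsep : ∀ x : Q, x ≠ 1 → ∃ l : Q →* ℂˣ, l x ≠ 1 := by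
    intro x hx
    letI : CommGroup Q := { (inferInstance : Group Q) with mul_comm := hQ }
    exact Cfsg.Agent.Lib.CharTwist.exists_hom_ne_one hx
  have hcardA : Nat.card (Q →* ℂˣ) = Nat.card Q := by
    letI : CommGroup Q := { (inferInstance : Group Q) with mul_comm := hQ }
    exact Cfsg.Agent.Lib.CharTwist.card_hom
  haveI : Finite (Q →* ℂˣ) := Nat.finite_of_card_ne_zero (by rw [hcardA]; exact Nat.card_pos.ne')
  set S' := S.map (dualHom (Q := Q)) with hS'
  have hcomm' : ∀ s ∈ S', ∀ t ∈ S', s * t = t * s := by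
    rintro _ ⟨s, hs, rfl⟩ _ ⟨t, ht, rfl⟩
    rw [← map_mul, ← map_mul, hcomm s hs t ht]
  have hdvd : Nat.card S' ∣ Nat.card S := by
    rw [hS', ← Subgroup.relIndex_ker S dualHom]
    exact Subgroup.relIndex_dvd_card _ _
  have hc' : ∀ x : Q →* ℂˣ, x ^ Nat.card S' = 1 → x = 1 := by
    intro x hx
    ext l
    have h1 : (x l) ^ Nat.card S' = 1 := by
      have := congrArg (fun f : Q →* ℂˣ => f l) hx
      simpa using this
    have h2 : (x l) ^ Nat.card Q = 1 := by
      rw [← map_pow, pow_card_eq_one', map_one]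
    have h3 := pow_gcd_eq_one.mpr ⟨h1, h2⟩
    have h4 : Nat.gcd (Nat.card S') (Nat.card Q) = 1 := Nat.Coprime.coprime_dvd_left hdvd hc
    rw [h4, pow_one] at h3
    rw [h3]
    simp
  obtain ⟨a, ha⟩ := Cfsg.Agent.Lib.RegOrbit.exists_regular (A := Q →* ℂˣ) S' hcomm' hc'
  refine ⟨a, fun s hs hfix => ?_⟩
  have h1 : dualHom s a = a := by
    ext l
    rw [dualHom_apply]
    have h2 := hfix ((s⁻¹ : MulAut Q) l)
    have h3 : s ((s⁻¹ : MulAut Q) l) = l := by
      rw [← MulAut.mul_apply, mul_inv_cancel]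
      rfl
    rw [h3] at h2
    rw [h2]
  have h2 := ha (dualHom s) (Subgroup.mem_map_of_mem _ hs) h1
  have h3 : (s⁻¹ : MulAut Q) = 1 := by
    ext l
    by_contra hne
    have hne' : (s⁻¹ : MulAut Q) l * l⁻¹ ≠ 1 := by
      intro h
      exact hne (mul_inv_eq_one.mp h)
    obtain ⟨μ, hμ⟩ := hsep _ hne'
    apply hμ
    have h4 : dualHom s μ = μ := by rw [h2]; rfl
    have h5 := congrArg (fun f : Q →* ℂˣ => f l) h4
    simp only [dualHom_apply] at h5
    rw [map_mul, map_inv, h5, mul_inv_cancel]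
  exact inv_eq_one.mp h3

variable {G : Type u} [Group G]

/-- The regular orbit in the situation of the second case. -/
theorem exists_regular_hom [Finite G] (K L H : Subgroup G) [hLn : L.Normal]
    (hLab : ∀ x ∈ L, ∀ y ∈ L, x * y = y * x) (hcomm : ∀ x ∈ H, ∀ y ∈ H, x * y * x⁻¹ * y⁻¹ ∈ K)
    (hcop : Nat.Coprime (K.relIndex H) (Nat.card L))
    (hstab : ∀ x ∈ H, (∀ l ∈ L, x * l = l * x) → x ∈ K)
    (hKL : ∀ x ∈ K, ∀ l ∈ L, x * l = l * x) :
    ∃ lam : L →* ℂˣ, ∀ x ∈ H, (∀ l : L, lam ⟨x * l * x⁻¹, hLn.conj_mem l l.2 x⟩ = lam l) → x ∈ K := by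
  classical
  let c : G →* MulAut L := MulAut.conjNormal
  have hc : ∀ x (l : L), ((c x l : L) : G) = x * l * x⁻¹ := fun x l => MulAut.conjNormal_apply x l
  have hcK : K ≤ c.ker := by
    intro k hk
    rw [MonoidHom.mem_ker]
    ext l
    rw [hc]
    have := hKL k hk l l.2
    rw [this]
    simp
  set S := H.map c with hS
  have hQ : ∀ x y : L, x * y = y * x := fun x y => Subtype.ext (hLab x x.2 y y.2)
  have hcomm' : ∀ s ∈ S, ∀ t ∈ S, s * t = t * s := by
    rintro _ ⟨x, hx, rfl⟩ _ ⟨y, hy, rfl⟩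
    have h1 : x * y = (x * y * x⁻¹ * y⁻¹) * (y * x) := by group
    have h2 : c (x * y * x⁻¹ * y⁻¹) = 1 := hcK (hcomm x hx y hy)
    rw [← map_mul, ← map_mul]
    nth_rewrite 1 [h1]
    rw [map_mul, h2, one_mul]
  have hdvd : Nat.card S ∣ K.relIndex H := by
    rw [hS, ← Subgroup.relIndex_ker H c]
    exact Subgroup.relIndex_dvd_of_le_left H hcK
  obtain ⟨lam, hlam⟩ := regular_char hQ S hcomm' (Nat.Coprime.coprime_dvd_left hdvd hcop)
  refine ⟨lam, fun x hx hfix => ?_⟩
  have h1 := hlam (c x) (Subgroup.mem_map_of_mem _ hx) (fun l => by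
    have h2 := hfix l
    rw [← h2]
    congr 1)
  apply hstab x hx
  intro l hl
  have h2 : ((c x ⟨l, hl⟩ : L) : G) = l := by rw [h1]; rfl
  rw [hc] at h2
  exact mul_inv_eq_iff_eq_mul.mp h2

/-- The inertia group of a function on a normal subgroup. -/
def inertiaOf (L : Subgroup G) (hL : L.Normal) (θ : L → ℂ) : Subgroup G where
  carrier := {g | ∀ n : L, θ ⟨g * n * g⁻¹, hL.conj_mem n n.2 g⟩ = θ n}
  mul_mem' := by
    intro a b ha hb n
    have h1 := ha ⟨b * n * b⁻¹, hL.conj_mem n n.2 b⟩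
    have h2 := hb n
    rw [← h2, ← h1]
    congr 1
    apply Subtype.ext
    simp [mul_assoc]
  one_mem' := by
    intro n
    congr 1
    apply Subtype.ext
    simp
  inv_mem' := by
    intro a ha n
    have h1 := ha ⟨a⁻¹ * n * a⁻¹⁻¹, hL.conj_mem n n.2 a⁻¹⟩
    rw [← h1]
    congr 1
    apply Subtype.ext
    simp [mul_assoc]

/-- Comparing sums over nested subgroups. -/
theorem sum_restrict_eq [Fintype G] (S S' : Subgroup G) [Fintype S] [Fintype S'] (h : S ≤ S') (F : G → ℂ)
    (hF : ∀ x ∈ S', x ∉ S → F x = 0) : ∑ x : S', F x = ∑ x : S, F x := by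
  classical
  rw [← Finset.sum_subtype (Finset.univ.filter (· ∈ S')) (by simp) F,
    ← Finset.sum_subtype (Finset.univ.filter (· ∈ S)) (by simp) F]
  symm
  apply Finset.sum_subset
  · intro x hx
    simp only [Finset.mem_filter, Finset.mem_univ, true_and] at hx ⊢
    exact h hx
  · intro x hx hx'
    simp only [Finset.mem_filter, Finset.mem_univ, true_and] at hx hx'
    exact hF x hx hx'

/-- Case 2 of the lemma. -/
theorem case2 [Fintype G] {χ : G → ℂ} (hχ : IsIrrCharacter G χ) (K L R H : Subgroup G) [hKn : K.Normal]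
    [hLn : L.Normal] (hKχ : ∀ g, g ∈ K ↔ χ g = χ 1) (hLK : L ≤ K) (hLb : L ≠ ⊥)
    (hmin : ∀ U : Subgroup G, U.Normal → U ≤ L → U = ⊥ ∨ U = L)
    (hRinf : R ⊓ L = ⊥) (hRL : R ⊔ L = ⊤) (hT : ∀ T : Subgroup G, T.Normal → T ⊓ L = ⊥ → T ≤ R)
    (hHn : H.Normal) (hKH : K ≤ H) (hne : K ≠ H) (hcomm : ∀ x ∈ H, ∀ y ∈ H, x * y * x⁻¹ * y⁻¹ ∈ K)
    (hcop : Nat.Coprime (K.relIndex H) (Nat.card L))
    (hstab : ∀ x ∈ H, (∀ l ∈ L, x * l = l * x) → x ∈ K)
    (hKL : ∀ x ∈ K, ∀ l ∈ L, x * l = l * x) :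
    ∃ ψ : G → ℂ, IsIrrCharacter G ψ ∧ charDegree χ < charDegree ψ ∧
      ∃ L' : Subgroup G, (∀ g, g ∈ L' ↔ ψ g = ψ 1) ∧ L' < K := by
  classical
  haveI : Fintype K := Fintype.ofFinite _
  haveI : Fintype L := Fintype.ofFinite _
  haveI : Fintype R := Fintype.ofFinite _
  haveI : Fintype H := Fintype.ofFinite _
  haveI : Fintype (R.subgroupOf L) := Fintype.ofFinite _
  have hχc := IsIrrCharacter.isCharacter hχ
  have hLab : ∀ x ∈ L, ∀ y ∈ L, x * y = y * x := fun x hx y hy => hKL x (hLK hx) y hy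
  obtain ⟨lam, hlam⟩ := exists_regular_hom K L H hLab hcomm hcop hstab hKL
  set θ : L → ℂ := fun l => ((lam l : ℂˣ) : ℂ) with hθdef
  have hθ : IsIrrCharacter L θ := isIrrCharacter_of_hom lam
  have hθ1 : θ 1 = 1 := by simp [hθdef]
  set I := inertiaOf L hLn θ with hI
  haveI : Fintype I := Fintype.ofFinite _
  have hLI : L ≤ I := by
    intro l hl n
    congr 1
    apply Subtype.ext
    show l * n * l⁻¹ = n
    rw [hLab l hl n n.2]
    group
  have hIK : ∀ x ∈ H, x ∈ I → x ∈ K := fun x hx hxI =>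
    hlam x hx (fun l => Units.ext (hxI l))
  have ha : classInner (fun x : R.subgroupOf L => θ x) (fun _ => 1) = ((1 : ℕ) : ℂ) := by
    have h1 := inner_one_of_le_ker (R.subgroupOf L) (χ := θ) (fun n hn => by
      have h2 : (n : G) ∈ R ⊓ L := ⟨Subgroup.mem_subgroupOf.mp hn, n.2⟩
      rw [hRinf, Subgroup.mem_bot] at h2
      have h3 : n = 1 := Subtype.ext h2
      rw [h3])
    rw [h1, hθ1]
    simp
  obtain ⟨τ, hτ, hτR, e, he, he0, hea⟩ := exists_tau R L hRL hθ ha one_ne_zero
  have he1 : e = 1 := by omega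
  subst he1
  have heθ : classInner (fun n : L => τ n) θ ≠ 0 := by
    rw [he]
    simp
  have hτc := IsIrrCharacter.isCharacter hτ
  have hdeg0 : (χ * τ) 1 ≠ 0 := mul_ne_zero (irr_degree_ne_zero hχ) (irr_degree_ne_zero hτ)
  obtain ⟨ψ, hψ, hψne⟩ := exists_constituent (isCharacter_mul hχc hτc) hdeg0
  have hψc := IsIrrCharacter.isCharacter hψ
  have hχK : ∀ n ∈ K, χ n = χ 1 := fun n hn => (hKχ n).mp hn
  have hχL : ∀ n ∈ L, χ n = χ 1 := fun n hn => hχK n (hLK hn)
  have hψθ := inner_restrict_ne_of_mul L hχ hτ hψ hχL hψne hθ heθ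
  set T : Subgroup G := charKer hψc with hTdef
  haveI hTn : T.Normal := charKer_normal hψc
  haveI : Fintype T := Fintype.ofFinite _
  have hTL : T ⊓ L = ⊥ := by
    rcases hmin (T ⊓ L) (Subgroup.normal_inf_normal _ _) inf_le_right with h | h
    · exact h
    · exfalso
      have hLT : ∀ l ∈ L, ψ l = ψ 1 := by
        intro l hl
        have h1 : l ∈ T ⊓ L := by rw [h]; exact hl
        exact (mem_charKer hψc).mp h1.1
      have hθall : ∀ l : L, θ l = 1 := by
        intro l
        have h1 := constituent_ker (isCharacter_restrict L hψc) hθ hψθ (x := l)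
          (by simpa using hLT l l.2)
        rw [h1, hθ1]
      apply hne
      refine le_antisymm hKH fun x hx => hIK x hx ?_
      intro n
      rw [hθall, hθall]
  have hTR : T ≤ R := hT T hTn hTL
  have hTχ := le_ker_of_le_ker_of_mul T R hTR hχ hτ hψ hτR hψne (fun t ht => (mem_charKer hψc).mp ht)
  refine ⟨ψ, hψ, ?_, T, fun g => mem_charKer hψc, ?_⟩
  · obtain ⟨ρ, hρ, hsplit⟩ := exists_split hχ hτ hψ hψne
    have h1 := inner_eq_add L hsplit
    rw [inner_one_of_le_ker L hχL] at h1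
    obtain ⟨r, hr⟩ := classInner_char_irr (isCharacter_restrict L hρ) (isIrrCharacter_one (G := L))
    have h2 := inner_restrict_mul_degree L hτ hψ hθ heθ hψθ
    rw [h1, hr, he, hθ1, one_eq_charDegree hχc, one_eq_charDegree hψc] at h2
    have h3 : charDegree χ + r = charDegree ψ := by
      have h4 : (((charDegree χ + r : ℕ) : ℂ)) = (charDegree ψ : ℕ) := by
        push_cast
        simpa using h2
      exact_mod_cast h4
    suffices hr0 : r ≠ 0 by omega
    -- vanishing of `ψ` on `H \ K`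
    obtain ⟨ψ₀, hψ₀, hind, -⟩ := exists_inertia_char L I hθ (fun g => Iff.rfl) hLI hψ hψθ
    have hvan : ∀ x ∈ H, x ∉ K → ψ x = 0 := by
      intro x hx hxK
      rw [← hind, indFun]
      have h4 : ∀ g : G, extendByZero I ψ₀ (g⁻¹ * x * g) = 0 := by
        intro g
        apply Cfsg.Agent.Lib.CharInd.extendByZero_of_not_mem
        intro hy
        have hyH : g⁻¹ * x * g ∈ H := by
          have := hHn.conj_mem x hx g⁻¹
          simpa using this
        have hyK := hIK _ hyH hy
        apply hxK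
        have := hKn.conj_mem _ hyK g
        simpa [mul_assoc] using this
      simp only [h4, Finset.sum_const_zero, mul_zero]
    -- the inner product over `K`
    obtain ⟨ξ, hξ, hξne⟩ := exists_constituent (isCharacter_restrict K hτc)
      (by simpa using irr_degree_ne_zero hτ)
    have hψξ := inner_restrict_ne_of_mul K hχ hτ hψ hχK hψne hξ hξne
    have h4 := inner_restrict_mul_degree K hτ hψ hξ hξne hψξ
    have hKne : classInner (fun n : K => ψ n) (fun n : K => τ n) ≠ 0 := by
      intro h0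
      rw [h0, zero_mul] at h4
      exact (mul_ne_zero hξne (irr_degree_ne_zero hψ)) h4.symm
    have hsum := sum_restrict_eq K H hKH (fun x => ψ x * conj (τ x)) (fun x hx hxK => by
      simp only [hvan x hx hxK, zero_mul])
    have hHne : classInner (fun n : H => ψ n) (fun n : H => τ n) ≠ 0 := by
      intro h0
      apply hKne
      unfold classInner at h0 ⊢
      have h5 := (mul_eq_zero.mp h0).resolve_left (inv_ne_zero natCard_ne_zero')
      rw [hsum] at h5
      rw [h5, mul_zero]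
    have h5 := inner_eq_add H hsplit
    have hχH : classInner (fun n : H => χ n) (fun _ => 1) = 0 := by
      by_contra hcon
      have h6 := le_ker_of_inner_one_ne H hχ hcon
      exact hne (le_antisymm hKH fun x hx => (hKχ x).mpr (h6 x hx))
    rw [hχH, zero_add] at h5
    rw [h5] at hHne
    have hLH : L ≤ H := hLK.trans hKH
    have h6 := Cfsg.Agent.S4464.comp_one_ne_zero (Subgroup.inclusion hLH)
      (isCharacter_restrict H hρ) hHne
    have h7 : (fun n : H => ρ n) ∘ (Subgroup.inclusion hLH) = fun n : L => ρ n := rfl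
    rw [h7, hr] at h6
    intro h8
    rw [h8] at h6
    simp at h6
  · refine lt_of_le_of_ne (fun t ht => (hKχ t).mpr (hTχ t ht)) ?_
    intro hTK
    apply hLb
    rw [← hTL, hTK, inf_eq_right.mpr hLK]

end Regular

end Cfsg.Agent.Lib.BrolineCases
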