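import Mathlib

set_option autoImplicit false
set_option linter.all false

namespace Cfsg.Agent.Lib.CITFour

section Helpers

variable {Λ : Type*} [Group Λ]

theorem cconj {a b : Λ} (h : Commute a b) (g : Λ) : Commute (g * a * g⁻¹) (g * b * g⁻¹) := by
  have e : a * b = b * a := h
  show g * a * g⁻¹ * (g * b * g⁻¹) = g * b * g⁻¹ * (g * a * g⁻¹)
  calc g * a * g⁻¹ * (g * b * g⁻¹) = g * (a * b) * g⁻¹ := by group
    _ = g * (b * a) * g⁻¹ := by rw [e]
    _ = g * b * g⁻¹ * (g * a * g⁻¹) := by group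

theorem conj_conj (g h x : Λ) : g * (h * x * h⁻¹) * g⁻¹ = (g * h) * x * (g * h)⁻¹ := by group

theorem conj_eq_of_comm {g x : Λ} (h : Commute g x) : g * x * g⁻¹ = x := by
  have e : g * x = x * g := h
  rw [e]; group

theorem comm_of_conj_eq {g x : Λ} (h : g * x * g⁻¹ = x) : Commute g x := by
  show g * x = x * g
  calc g * x = (g * x * g⁻¹) * g := by group
    _ = x * g := by rw [h]

theorem conj_mul' (g a b : Λ) : g * (a * b) * g⁻¹ = (g * a * g⁻¹) * (g * b * g⁻¹) := by group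

theorem conj_pow' (g a : Λ) (n : ℕ) : (g * a * g⁻¹) ^ n = g * a ^ n * g⁻¹ := conj_pow

/-- Counting fixed points of a map of prime power order. -/
theorem card_mod_fix {α : Type*} [Finite α] (p k : ℕ) [Fact p.Prime] (f : Function.End α)
    (hf : f ^ p ^ k = 1) : Nat.card α ≡ Nat.card {x // f x = x} [MOD p] := by
  classical
  haveI := Fintype.ofFinite α
  have := Equiv.Perm.card_fixedPoints_modEq (p := p) (n := k) hf
  rw [Nat.card_eq_fintype_card]
  have e : Nat.card {x // f x = x} = Fintype.card (Function.fixedPoints f) := by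
    rw [← Nat.card_eq_fintype_card]
    rfl
  rw [e]
  exact this

/-- The map induced by conjugation on an invariant set. -/
def conjEnd (A : Set Λ) (hA : ∀ u ∈ A, ∀ g, g * u * g⁻¹ ∈ A) (g : Λ) : Function.End A :=
  fun x => ⟨g * x.1 * g⁻¹, hA x.1 x.2 g⟩

theorem conjEnd_pow (A : Set Λ) (hA : ∀ u ∈ A, ∀ g, g * u * g⁻¹ ∈ A) (g : Λ) (n : ℕ) :
    conjEnd A hA g ^ n = conjEnd A hA (g ^ n) := by
  induction n with
  | zero =>
    funext x
    apply Subtype.ext
    show x.1 = g ^ 0 * x.1 * (g ^ 0)⁻¹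
    simp
  | succ n ih =>
    rw [pow_succ', ih]
    funext x
    apply Subtype.ext
    show g * (g ^ n * x.1 * (g ^ n)⁻¹) * g⁻¹ = g ^ (n + 1) * x.1 * (g ^ (n + 1))⁻¹
    rw [conj_conj, pow_succ']

/-- Counting on an invariant set, a single element. -/
theorem card_mod_conj [Finite Λ] (A : Set Λ) (hA : ∀ u ∈ A, ∀ g, g * u * g⁻¹ ∈ A) (p k : ℕ)
    [Fact p.Prime] (g : Λ) (hg : g ^ p ^ k = 1) :
    Nat.card A ≡ Nat.card {x : A // g * x.1 * g⁻¹ = x.1} [MOD p] := by
  have hf : conjEnd A hA g ^ p ^ k = 1 := by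
    rw [conjEnd_pow, hg]
    funext x
    apply Subtype.ext
    show 1 * x.1 * 1⁻¹ = x.1
    simp
  have := card_mod_fix p k _ hf
  have e : Nat.card {x : A // conjEnd A hA g x = x} = Nat.card {x : A // g * x.1 * g⁻¹ = x.1} := by
    apply Nat.card_congr
    apply Equiv.subtypeEquivRight
    intro x
    exact Subtype.ext_iff
  rwa [e] at this

/-- Orbit-stabilizer for conjugation by a subgroup. -/
theorem orbit_card [Finite Λ] (K : Subgroup Λ) (x : Λ) (T : Set Λ) (h1 : ∀ g ∈ K, g * x * g⁻¹ ∈ T)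
    (h2 : ∀ y ∈ T, ∃ g ∈ K, g * x * g⁻¹ = y) :
    Nat.card T * Nat.card ↥(K ⊓ Subgroup.centralizer ({x} : Set Λ)) = Nat.card K := by
  letI : MulAction K Λ :=
    { smul := fun g y => g.1 * y * g.1⁻¹
      one_smul := fun y => by
        show (1 : Λ) * y * (1 : Λ)⁻¹ = y
        simp
      mul_smul := fun g g' y => by
        show (g.1 * g'.1) * y * (g.1 * g'.1)⁻¹ = g.1 * (g'.1 * y * g'.1⁻¹) * g.1⁻¹
        group }
  have hsmul : ∀ (g : K) (y : Λ), g • y = g.1 * y * g.1⁻¹ := fun _ _ => rfl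
  have e1 : MulAction.orbit K x = T := by
    ext y
    constructor
    · rintro ⟨g, rfl⟩
      exact h1 g.1 g.2
    · intro hy
      obtain ⟨g, hg, rfl⟩ := h2 y hy
      exact ⟨⟨g, hg⟩, rfl⟩
  have e2 := MulAction.index_stabilizer K x
  have e3 := Subgroup.card_mul_index (MulAction.stabilizer K x)
  rw [e2, e1, ← Nat.card_coe_set_eq] at e3
  have e4 : Nat.card ↥(K ⊓ Subgroup.centralizer ({x} : Set Λ)) = Nat.card (MulAction.stabilizer K x) := by
    apply Nat.card_congr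
    refine ⟨fun y => ⟨⟨y.1, y.2.1⟩, ?_⟩, fun y => ⟨y.1.1, y.1.2, ?_⟩, fun y => rfl, fun y => rfl⟩
    · have hy : y.1 ∈ Subgroup.centralizer ({x} : Set Λ) := y.2.2
      rw [Subgroup.mem_centralizer_singleton_iff] at hy
      show y.1 * x * y.1⁻¹ = x
      exact conj_eq_of_comm hy
    · have hy : y.1.1 * x * y.1.1⁻¹ = x := y.2
      show y.1.1 ∈ Subgroup.centralizer ({x} : Set Λ)
      rw [Subgroup.mem_centralizer_singleton_iff]
      exact comm_of_conj_eq hy
  rw [e4, mul_comm]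
  exact e3

/-- A `p`-subgroup acting on an invariant set of size prime to `p` has a fixed point. -/
theorem fixed_point_of_pgroup [Finite Λ] (A : Set Λ) (hA : ∀ u ∈ A, ∀ g, g * u * g⁻¹ ∈ A) (p : ℕ)
    [Fact p.Prime] (S : Subgroup Λ) (hS : IsPGroup p S) (hc : ¬ p ∣ Nat.card A) :
    ∃ y ∈ A, ∀ s ∈ S, Commute s y := by
  letI : MulAction S A :=
    { smul := fun g y => ⟨g.1 * y.1 * g.1⁻¹, hA y.1 y.2 g.1⟩
      one_smul := fun y => by
        apply Subtype.ext
        show (1 : Λ) * y.1 * (1 : Λ)⁻¹ = y.1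
        simp
      mul_smul := fun g g' y => by
        apply Subtype.ext
        show (g.1 * g'.1) * y.1 * (g.1 * g'.1)⁻¹ = g.1 * (g'.1 * y.1 * g'.1⁻¹) * g.1⁻¹
        group }
  obtain ⟨y, hy⟩ := hS.nonempty_fixed_point_of_prime_not_dvd_card A hc
  refine ⟨y.1, y.2, fun s hs => ?_⟩
  have := hy ⟨s, hs⟩
  have e : s * y.1 * s⁻¹ = y.1 := congrArg Subtype.val this
  exact comm_of_conj_eq e

/-- A second fixed point. -/
theorem second_fixed [Finite Λ] (A : Set Λ) (hA : ∀ u ∈ A, ∀ g, g * u * g⁻¹ ∈ A) (p : ℕ)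
    [Fact p.Prime] (S : Subgroup Λ) (hS : IsPGroup p S) (hc : p ∣ Nat.card A) {a : Λ} (ha : a ∈ A)
    (hfix : ∀ s ∈ S, Commute s a) : ∃ b ∈ A, b ≠ a ∧ ∀ s ∈ S, Commute s b := by
  letI : MulAction S A :=
    { smul := fun g y => ⟨g.1 * y.1 * g.1⁻¹, hA y.1 y.2 g.1⟩
      one_smul := fun y => by
        apply Subtype.ext
        show (1 : Λ) * y.1 * (1 : Λ)⁻¹ = y.1
        simp
      mul_smul := fun g g' y => by
        apply Subtype.ext
        show (g.1 * g'.1) * y.1 * (g.1 * g'.1)⁻¹ = g.1 * (g'.1 * y.1 * g'.1⁻¹) * g.1⁻¹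
        group }
  have hfp : (⟨a, ha⟩ : A) ∈ MulAction.fixedPoints S A := by
    intro s
    apply Subtype.ext
    exact conj_eq_of_comm (hfix s.1 s.2)
  obtain ⟨b, hb, hne⟩ := hS.exists_fixed_point_of_prime_dvd_card_of_fixed_point A hc hfp
  refine ⟨b.1, b.2, fun e => hne (Subtype.ext e.symm), fun s hs => ?_⟩
  have := hb ⟨s, hs⟩
  have e : s * b.1 * s⁻¹ = b.1 := congrArg Subtype.val this
  exact comm_of_conj_eq e

/-- Centralizers of conjugate elements have the same order. -/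
theorem card_centralizer_conj [Finite Λ] (y x : Λ) :
    Nat.card (Subgroup.centralizer ({y * x * y⁻¹} : Set Λ)) = Nat.card (Subgroup.centralizer ({x} : Set Λ)) := by
  apply Nat.card_congr
  refine ⟨fun c => ⟨y⁻¹ * c.1 * y, ?_⟩, fun c => ⟨y * c.1 * y⁻¹, ?_⟩, fun c => ?_, fun c => ?_⟩
  · rw [Subgroup.mem_centralizer_singleton_iff]
    have h1 := c.2
    rw [Subgroup.mem_centralizer_singleton_iff] at h1
    have h2 := cconj (show Commute c.1 (y * x * y⁻¹) from h1) y⁻¹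
    have e1 : y⁻¹ * (y * x * y⁻¹) * y⁻¹⁻¹ = x := by group
    rw [e1, inv_inv] at h2
    exact h2
  · rw [Subgroup.mem_centralizer_singleton_iff]
    have h1 := c.2
    rw [Subgroup.mem_centralizer_singleton_iff] at h1
    exact cconj (show Commute c.1 x from h1) y
  · apply Subtype.ext
    show y * (y⁻¹ * c.1 * y) * y⁻¹ = c.1
    group
  · apply Subtype.ext
    show y⁻¹ * (y * c.1 * y⁻¹) * y = c.1
    group

end Helpers

variable {Λ : Type*} [Group Λ] [Finite Λ]

/-- The hypotheses on a group with a central involution and a class of involutions. -/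
structure CT (A : Set Λ) (t : Λ) : Prop where
  t2 : t * t = 1
  t1 : t ≠ 1
  tc : ∀ g, Commute g t
  tA : t ∉ A
  sq : ∀ u ∈ A, u * u = 1
  conj : ∀ u ∈ A, ∀ g, g * u * g⁻¹ ∈ A
  trans : ∀ u ∈ A, ∀ v ∈ A, ∃ g, g * u * g⁻¹ = v
  card16 : ∀ u ∈ A, Nat.card (Subgroup.centralizer ({u} : Set Λ)) = 16
  line : ∀ u ∈ A, ∃ a ∈ A, a ≠ u ∧ Commute a u ∧ u * a ∈ A ∧
    ∀ b ∈ A, Commute b u → b = u ∨ b = a ∨ b = u * a
  cent : ∀ u ∈ A, ∀ g, Commute g u → ∀ v ∈ A, Commute v u → Commute g v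

/-- Elements moving a point inside its line. -/
def Fx (g u : Λ) : Prop := Commute (g * u * g⁻¹) u

namespace CT

variable {A : Set Λ} {t : Λ}

theorem ne_one (h : CT A t) {u : Λ} (hu : u ∈ A) : u ≠ 1 := by
  rintro rfl
  obtain ⟨a, ha, hne, -⟩ := h.line 1 hu
  obtain ⟨g, hg⟩ := h.trans 1 hu a ha
  apply hne
  rw [← hg]
  simp

theorem inv_eq (h : CT A t) {u : Λ} (hu : u ∈ A) : u⁻¹ = u :=
  inv_eq_of_mul_eq_one_left (h.sq u hu)

theorem conj_inv (h : CT A t) {u : Λ} (hu : u ∈ A) (g : Λ) : g⁻¹ * u * g ∈ A := by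
  have := h.conj u hu g⁻¹
  rwa [inv_inv] at this

theorem comm_trans (h : CT A t) {u v w : Λ} (hu : u ∈ A) (hv : v ∈ A) (huv : Commute u v)
    (hvw : Commute v w) : Commute u w := by
  by_cases hw : w ∈ A
  · exact (h.cent v hv w hvw.symm u hu huv).symm
  · exact (h.cent v hv w hvw.symm u hu huv).symm

theorem line_third (h : CT A t) {u a b : Λ} (hu : u ∈ A) (ha : a ∈ A) (hne : a ≠ u)
    (hc : Commute a u) (hb : b ∈ A) (hbc : Commute b u) : b = u ∨ b = a ∨ b = u * a := by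
  obtain ⟨a₀, ha₀, hne₀, hc₀, hm₀, hall⟩ := h.line u hu
  have huu := h.sq u hu
  rcases hall a ha hc with e | e | e
  · exact absurd e hne
  · rw [e]; exact hall b hb hbc
  · rcases hall b hb hbc with e2 | e2 | e2
    · exact Or.inl e2
    · right; right
      rw [e, e2, ← mul_assoc, huu, one_mul]
    · right; left
      rw [e, e2]

theorem close (h : CT A t) {u v : Λ} (hu : u ∈ A) (hv : v ∈ A) (hne : u ≠ v) (hc : Commute u v) :
    u * v ∈ A := by
  obtain ⟨a₀, ha₀, hne₀, hc₀, hm₀, hall⟩ := h.line u hu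
  have huu := h.sq u hu
  rcases hall v hv hc.symm with e | e | e
  · exact absurd e.symm hne
  · rw [e]; exact hm₀
  · rw [e, ← mul_assoc, huu, one_mul]; exact ha₀

theorem pow16 (h : CT A t) {u g : Λ} (hu : u ∈ A) (hg : Commute g u) : g ^ 16 = 1 := by
  have hm : g ∈ Subgroup.centralizer ({u} : Set Λ) := by
    rw [Subgroup.mem_centralizer_singleton_iff]
    exact hg
  have := pow_card_eq_one' (x := (⟨g, hm⟩ : Subgroup.centralizer ({u} : Set Λ)))
  rw [h.card16 u hu] at this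
  have e := congrArg Subtype.val this
  simpa using e

theorem fx_of_comm {g u : Λ} (hg : Commute g u) : Fx g u := by
  show Commute (g * u * g⁻¹) u
  rw [conj_eq_of_comm hg]

theorem fx_line (h : CT A t) {g u p : Λ} (hu : u ∈ A) (hg : Fx g u) (hpu : Commute p u) (hp : p ∈ A) :
    Commute (g * p * g⁻¹) u := by
  have h1 : Commute (g * p * g⁻¹) (g * u * g⁻¹) := cconj hpu g
  exact h.comm_trans (h.conj p hp g) (h.conj u hu g) h1 hg

theorem fx_mul (h : CT A t) {g g' u : Λ} (hu : u ∈ A) (hg : Fx g u) (hg' : Fx g' u) : Fx (g * g') u := by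
  show Commute ((g * g') * u * (g * g')⁻¹) u
  rw [← conj_conj]
  exact fx_line h hu hg hg' (h.conj u hu g')

theorem fx_inv {g u : Λ} (hg : Fx g u) : Fx g⁻¹ u := by
  have h1 : Commute (g * u * g⁻¹) u := hg
  have h2 := cconj h1 g⁻¹
  have e : g⁻¹ * (g * u * g⁻¹) * g⁻¹⁻¹ = u := by group
  rw [e] at h2
  exact h2.symm

/-- The stabilizer of a line. -/
def Kg (h : CT A t) {u : Λ} (hu : u ∈ A) : Subgroup Λ where
  carrier := {g | Fx g u}
  one_mem' := fx_of_comm (Commute.one_left u)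
  mul_mem' := fun ha hb => fx_mul h hu ha hb
  inv_mem' := fun ha => fx_inv ha

theorem mem_Kg (h : CT A t) {u g : Λ} (hu : u ∈ A) : g ∈ Kg h hu ↔ Fx g u := Iff.rfl

theorem fx_zpow (h : CT A t) {g u : Λ} (hu : u ∈ A) (hg : Fx g u) (n : ℤ) : Fx (g ^ n) u :=
  (Kg h hu).zpow_mem hg n

theorem fx_pow (h : CT A t) {g u : Λ} (hu : u ∈ A) (hg : Fx g u) (n : ℕ) : Fx (g ^ n) u :=
  (Kg h hu).pow_mem hg n

/-- If an element fixes a point of the line, it fixes all of it. -/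
theorem comm_of_line (h : CT A t) {g u p : Λ} (hp : p ∈ A) (hu : u ∈ A) (hpu : Commute u p)
    (hg : Commute g p) : Commute g u :=
  h.cent p hp g hg u hu hpu

/-- The three-cycle structure on the line. -/
theorem cycle (h : CT A t) {g u : Λ} (hu : u ∈ A) (hg : Fx g u) (hn : ¬ Commute g u) :
    g * u * g⁻¹ ≠ u ∧ g * (g * u * g⁻¹) * g⁻¹ = u * (g * u * g⁻¹) ∧
      g * (u * (g * u * g⁻¹)) * g⁻¹ = u := by
  set a := g * u * g⁻¹ with ha
  have haA : a ∈ A := h.conj u hu g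
  have hau : Commute a u := hg
  have hne : a ≠ u := fun e => hn (comm_of_conj_eq e)
  have hclose : u * a ∈ A := h.close hu haA hne.symm hau.symm
  have hbA : g * a * g⁻¹ ∈ A := h.conj a haA g
  have hb : Commute (g * a * g⁻¹) u := fx_line h hu hg hau haA
  have haa := h.sq a haA
  have huu := h.sq u hu
  have hmul : g * (u * a) * g⁻¹ = a * (g * a * g⁻¹) := by
    rw [conj_mul']
  rcases line_third h hu haA hne hau hbA hb with e | e | e
  · exfalso
    apply hn
    apply comm_of_line h hclose hu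
    · show u * (u * a) = (u * a) * u
      have : a * u = u * a := hau
      rw [mul_assoc, this, ← mul_assoc, ]
    · apply comm_of_conj_eq
      rw [hmul, e]
      exact hau
  · exfalso
    apply hn
    apply comm_of_line h haA hu hau.symm
    exact comm_of_conj_eq e
  · refine ⟨hne, e, ?_⟩
    rw [hmul, e]
    have hh : a * u = u * a := hau
    rw [← mul_assoc, hh, mul_assoc, haa, mul_one]

theorem cube (h : CT A t) {g u : Λ} (hu : u ∈ A) (hg : Fx g u) : Commute (g ^ 3) u := by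
  by_cases hn : Commute g u
  · exact hn.pow_left 3
  · obtain ⟨h1, h2, h3⟩ := cycle h hu hg hn
    apply comm_of_conj_eq
    have e : g ^ 3 = g * g * g := by simp only [pow_succ, pow_zero, one_mul]
    rw [e]
    have e2 : g * g * g * u * (g * g * g)⁻¹ = g * (g * (g * u * g⁻¹) * g⁻¹) * g⁻¹ := by group
    rw [e2, h2, h3]

theorem of_pow16 (h : CT A t) {g u : Λ} (hu : u ∈ A) (hg : Fx g u) (h16 : g ^ 16 = 1) :
    Commute g u := by
  have e : g = (g ^ 3) ^ 11 := by
    calc g = g ^ 16 * g ^ 16 * g := by rw [h16]; simp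
      _ = (g ^ 3) ^ 11 := by group
  rw [e]
  exact (cube h hu hg).pow_left 11

theorem ord3_move (h : CT A t) {τ x : Λ} (hτ : τ ^ 3 = 1) (hτ1 : τ ≠ 1) (hx : x ∈ A) :
    ¬ Commute τ x := by
  intro hc
  apply hτ1
  have h16 := pow16 h hx hc
  calc τ = τ ^ 16 * ((τ ^ 3) ^ 5)⁻¹ := by group
    _ = 1 := by rw [h16, hτ]; simp

/-- Parity of the set. -/
theorem line_ncard (h : CT A t) {u : Λ} (hu : u ∈ A) : {b | b ∈ A ∧ Commute b u}.ncard = 3 := by
  obtain ⟨a, ha, hne, hc, hm, hall⟩ := h.line u hu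
  rw [Set.ncard_eq_three]
  refine ⟨u, a, u * a, hne.symm, ?_, ?_, ?_⟩
  · intro e
    apply h.ne_one ha
    have : u * 1 = u * a := by rw [mul_one]; exact e
    exact (mul_left_cancel this).symm
  · intro e
    apply h.ne_one hu
    have : 1 * a = u * a := by rw [one_mul]; exact e
    exact (mul_right_cancel this).symm
  · ext b
    simp only [Set.mem_setOf_eq, Set.mem_insert_iff, Set.mem_singleton_iff]
    constructor
    · rintro ⟨hb, hbc⟩
      exact hall b hb hbc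
    · rintro (rfl | rfl | rfl)
      · exact ⟨hu, Commute.refl _⟩
      · exact ⟨ha, hc⟩
      · refine ⟨hm, ?_⟩
        exact (Commute.refl u).mul_left hc

theorem card_odd (h : CT A t) {u : Λ} (hu : u ∈ A) : ¬ 2 ∣ Nat.card A := by
  haveI : Fact (Nat.Prime 2) := ⟨Nat.prime_two⟩
  have h1 := card_mod_conj A h.conj 2 1 u (by simpa [pow_two] using h.sq u hu)
  have h2 : Nat.card {x : A // u * x.1 * u⁻¹ = x.1} = 3 := by
    have := line_ncard h hu
    rw [← Nat.card_coe_set_eq] at this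
    rw [← this]
    apply Nat.card_congr
    refine ⟨fun x => ⟨x.1.1, x.1.2, ?_⟩, fun x => ⟨⟨x.1, x.2.1⟩, ?_⟩, fun x => rfl, fun x => rfl⟩
    · exact (comm_of_conj_eq x.2).symm
    · exact conj_eq_of_comm x.2.2.symm
  rw [h2] at h1
  intro hd
  have h3 : Nat.card A % 2 = 0 := Nat.mod_eq_zero_of_dvd hd
  unfold Nat.ModEq at h1
  omega

/-- A two-subgroup lies in the centralizer of a point. -/
theorem two_fixed (h : CT A t) {u : Λ} (hu : u ∈ A) (S : Subgroup Λ) (hS : IsPGroup 2 S) :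
    ∃ y ∈ A, ∀ s ∈ S, Commute s y := by
  haveI : Fact (Nat.Prime 2) := ⟨Nat.prime_two⟩
  exact fixed_point_of_pgroup A h.conj 2 S hS (card_odd h hu)


theorem dih {u g : Λ} (hu : u * u = 1) (hi : u * g * u = g⁻¹) (n : ℕ) : u * g ^ n * u = (g ^ n)⁻¹ := by
  have e : u⁻¹ = u := inv_eq_of_mul_eq_one_left hu
  have e2 : (u * g * u⁻¹) ^ n = u * g ^ n * u⁻¹ := conj_pow
  rw [e] at e2
  rw [← e2, hi, inv_pow]

theorem anti_rel {u v : Λ} (hu : u * u = 1) (hv : v * v = 1) : u * (u * v) * u = (u * v)⁻¹ := by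
  have e : u⁻¹ = u := inv_eq_of_mul_eq_one_left hu
  have e' : v⁻¹ = v := inv_eq_of_mul_eq_one_left hv
  rw [mul_inv_rev, e, e', ← mul_assoc, hu, one_mul]

theorem anti_rel' {u v : Λ} (hu : u * u = 1) (hv : v * v = 1) : v * (u * v) * v = (u * v)⁻¹ := by
  have e : u⁻¹ = u := inv_eq_of_mul_eq_one_left hu
  have e' : v⁻¹ = v := inv_eq_of_mul_eq_one_left hv
  rw [mul_inv_rev, e, e', mul_assoc, mul_assoc, hv, mul_one]

/-- No element of two-power order and of order more than two is inverted by a point. -/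
theorem no_inv (h : CT A t) {u w : Λ} (hu : u ∈ A) (k : ℕ) (hw : w ^ 2 ^ k = 1)
    (hi : u * w * u = w⁻¹) : w * w = 1 := by
  haveI : Fact (Nat.Prime 2) := ⟨Nat.prime_two⟩
  have h1 := card_mod_conj A h.conj 2 k w hw
  have huu := h.sq u hu
  have hui := h.inv_eq hu
  let F : Set Λ := {x | x ∈ A ∧ w * x * w⁻¹ = x}
  have hFm : ∀ x ∈ F, u * x * u⁻¹ ∈ F := by
    rintro x ⟨hx, hwx⟩
    refine ⟨h.conj x hx u, ?_⟩
    have e1 : w * u = u * w⁻¹ := by
      calc w * u = u * (u * w * u) := by rw [← mul_assoc, ← mul_assoc, huu, one_mul]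
        _ = u * w⁻¹ := by rw [hi]
    have e2 : w⁻¹ * x * w = x := by
      conv_lhs => rw [← hwx]
      group
    calc w * (u * x * u⁻¹) * w⁻¹ = (w * u) * x * (w * u)⁻¹ := by group
      _ = (u * w⁻¹) * x * (u * w⁻¹)⁻¹ := by rw [e1]
      _ = u * (w⁻¹ * x * w) * u⁻¹ := by group
      _ = u * x * u⁻¹ := by rw [e2]
  let f : Function.End F := fun x => ⟨u * x.1 * u⁻¹, hFm x.1 x.2⟩
  have hf : f ^ 2 ^ 1 = 1 := by
    funext x
    apply Subtype.ext
    show u * (u * x.1 * u⁻¹) * u⁻¹ = x.1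
    rw [hui]
    calc u * (u * x.1 * u) * u = (u * u) * x.1 * (u * u) := by group
      _ = x.1 := by rw [huu]; group
  have h2 := card_mod_fix 2 1 f hf
  have h3 : Nat.card F = Nat.card {x : A // w * x.1 * w⁻¹ = x.1} := by
    apply Nat.card_congr
    exact ⟨fun x => ⟨⟨x.1, x.2.1⟩, x.2.2⟩, fun x => ⟨x.1.1, x.1.2, x.2⟩, fun x => rfl, fun x => rfl⟩
  rw [h3] at h2
  have h4 := card_odd h hu
  have h5 : Nat.card {x // f x = x} % 2 = 1 := by
    unfold Nat.ModEq at h1 h2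
    have : Nat.card A % 2 ≠ 0 := fun e => h4 (Nat.dvd_of_mod_eq_zero e)
    omega
  have h6 : Nonempty {x // f x = x} := by
    by_contra hne
    rw [not_nonempty_iff] at hne
    rw [Nat.card_of_isEmpty] at h5
    omega
  obtain ⟨⟨⟨x, hxA, hwx⟩, hfx⟩⟩ := h6
  have hux : u * x * u⁻¹ = x := congrArg Subtype.val hfx
  have hcw : Commute w u :=
    h.cent x hxA w (comm_of_conj_eq hwx) u hu (comm_of_conj_eq hux)
  have e : u * w * u = w := by
    rw [← hcw.eq, mul_assoc, huu, mul_one]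
  rw [e] at hi
  calc w * w = w * w⁻¹ := by rw [← hi]
    _ = 1 := mul_inv_cancel w

/-- Products of non-commuting points have odd order. -/
theorem odd_of_anti (h : CT A t) {u v : Λ} (hu : u ∈ A) (hv : v ∈ A) (hn : ¬ Commute u v) :
    Odd (orderOf (u * v)) := by
  have huu := h.sq u hu
  have hvv := h.sq v hv
  set g := u * v with hg
  by_contra hodd
  rw [Nat.not_odd_iff_even] at hodd
  obtain ⟨k, hk⟩ := hodd
  have hpos : 0 < orderOf g := orderOf_pos g
  have hk0 : k ≠ 0 := by omega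
  have hgk : g ^ (k + k) = 1 := by rw [← hk]; exact pow_orderOf_eq_one g
  have hw1 : g ^ k ≠ 1 := pow_ne_one_of_lt_orderOf hk0 (by omega)
  have hww : g ^ k * g ^ k = 1 := by rw [← pow_add, hgk]
  have hui : u * g * u = g⁻¹ := anti_rel huu hvv
  have hvi : v * g * v = g⁻¹ := anti_rel' huu hvv
  have hwi : (g ^ k)⁻¹ = g ^ k := inv_eq_of_mul_eq_one_left hww
  rcases Nat.even_or_odd' k with ⟨j, rfl | rfl⟩
  · -- even
    have hp : (g ^ j) ^ 2 ^ 2 = 1 := by
      rw [← pow_mul, ← hgk]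
      congr 1
      ring
    have := no_inv h hu 2 hp (dih huu hui j)
    rw [← pow_add] at this
    apply hw1
    rw [two_mul]
    exact this
  · -- odd
    set w := g ^ (2 * j + 1) with hw
    set G := g ^ (j + 1) with hGdef
    have hGu : u * G * u = G⁻¹ := dih huu hui (j + 1)
    have hvw : v * w * v = w := by
      have := dih hvv hvi (2 * j + 1)
      rw [hwi] at this
      exact this
    have huw : u * w * u = w := by
      have := dih huu hui (2 * j + 1)
      rw [hwi] at this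
      exact this
    have hcv : Commute v w := by
      show v * w = w * v
      calc v * w = (v * w * v) * v := by rw [mul_assoc, mul_assoc, hvv, mul_one]
        _ = w * v := by rw [hvw]
    have hcu : Commute u w := by
      show u * w = w * u
      calc u * w = (u * w * u) * u := by rw [mul_assoc, mul_assoc, huu, mul_one]
        _ = w * u := by rw [huw]
    have hrA : G⁻¹ * u * G ∈ A := h.conj_inv hu G
    have hr : G⁻¹ * u * G = v * w := by
      have e1 : G⁻¹ * u = u * G := by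
        rw [← hGu, mul_assoc, huu, mul_one]
      have e2 : v = u * g := by
        rw [hg, ← mul_assoc, huu, one_mul]
      rw [e1, e2, mul_assoc, mul_assoc]
      congr 1
      rw [hGdef, hw, ← pow_add, ← pow_succ', ]
      congr 1
      ring
    rw [hr] at hrA
    have hne : v ≠ v * w := by
      intro e
      apply hw1
      have : v * 1 = v * w := by rw [mul_one]; exact e
      exact (mul_left_cancel this).symm
    have hc2 : Commute v (v * w) := (Commute.refl v).mul_right hcv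
    have hw' := h.close hv hrA hne hc2
    rw [← mul_assoc, hvv, one_mul] at hw'
    exact hn (h.comm_trans hu hw' hcu hcv.symm)

/-- Midpoints. -/
theorem mid (h : CT A t) {u v : Λ} (hu : u ∈ A) (hv : v ∈ A) (hn : ¬ Commute u v) :
    ∃ w ∈ A, w * u * w = v := by
  have huu := h.sq u hu
  have hvv := h.sq v hv
  have hui' := h.inv_eq hu
  have hvi' := h.inv_eq hv
  set g := u * v with hg
  obtain ⟨k, hk⟩ := odd_of_anti h hu hv hn
  set G := g ^ (k * (k + 1)) with hGdef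
  have hui : u * g * u = g⁻¹ := anti_rel huu hvv
  have hGu : u * G * u = G⁻¹ := dih huu hui _
  have hGi : G * u = u * G⁻¹ := by
    rw [← hGu, ← mul_assoc, ← mul_assoc, huu, one_mul]
  refine ⟨G * u * G⁻¹, h.conj u hu G, ?_⟩
  have e1 : G * u * G⁻¹ = G * G * u := by
    rw [mul_assoc, ← hGi, mul_assoc]
  rw [e1]
  have e2 : G ^ 4 * g = 1 := by
    rw [hGdef, ← pow_mul, ← pow_succ]
    have : k * (k + 1) * 4 + 1 = orderOf g * orderOf g := by
      rw [hk]; ring
    rw [this, pow_mul, pow_orderOf_eq_one, one_pow]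
  have e3 : G * G * (G * G) = g⁻¹ := by
    apply eq_inv_of_mul_eq_one_left
    rw [← e2]
    simp only [pow_succ, pow_zero, one_mul, mul_assoc]
  calc G * G * u * u * (G * G * u) = G * G * (u * u) * (G * G * u) := by group
    _ = (G * G * (G * G)) * u := by rw [huu]; group
    _ = g⁻¹ * u := by rw [e3]
    _ = v := by
      rw [hg, mul_inv_rev, hui', hvi', mul_assoc, huu, mul_one]

/-- The element of order three attached to a midpoint. -/
theorem tau_of_mid (h : CT A t) {u v w₁ : Λ} (hu : u ∈ A) (hv : v ∈ A) (hn : ¬ Commute u v)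
    (hw₁ : w₁ ∈ A) (hm : w₁ * u * w₁ = v) :
    ∃ w₂ ∈ A, (w₁ * w₂) ^ 3 = 1 ∧ w₁ * w₂ ≠ 1 ∧ Fx (w₁ * w₂) u ∧ Fx (w₁ * w₂) v := by
  obtain ⟨v', hv', hne, hc, -, -⟩ := h.line v hv
  have hn' : ¬ Commute u v' := fun e => hn (h.comm_trans hu hv' e hc)
  obtain ⟨w₂, hw₂, hm₂⟩ := mid h hu hv' hn'
  have h11 := h.sq w₁ hw₁
  have h22 := h.sq w₂ hw₂
  have hi1 := h.inv_eq hw₁
  have hi2 := h.inv_eq hw₂
  refine ⟨w₂, hw₂, ?_⟩
  set τ := w₁ * w₂ with hτ
  have hτi : τ⁻¹ = w₂ * w₁ := by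
    rw [hτ, mul_inv_rev, hi1, hi2]
  have hconj : ∀ x, τ * x * τ⁻¹ = w₁ * (w₂ * x * w₂) * w₁ := by
    intro x
    rw [hτi, hτ]
    group
  have h2back : w₂ * v' * w₂ = u := by
    rw [← hm₂]
    calc w₂ * (w₂ * u * w₂) * w₂ = (w₂ * w₂) * u * (w₂ * w₂) := by group
      _ = u := by rw [h22]; group
  have h1back : w₁ * v * w₁ = u := by
    rw [← hm]
    calc w₁ * (w₁ * u * w₁) * w₁ = (w₁ * w₁) * u * (w₁ * w₁) := by group
      _ = u := by rw [h11]; group
  have hτv' : τ * v' * τ⁻¹ = v := by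
    rw [hconj, h2back, hm]
  have hτu : τ * u * τ⁻¹ = w₁ * v' * w₁ := by
    rw [hconj, hm₂]
  have hFv : Fx τ v := by
    show Commute (τ * v * τ⁻¹) v
    have := cconj hc.symm τ
    rwa [hτv'] at this
  have hFu : Fx τ u := by
    show Commute (τ * u * τ⁻¹) u
    rw [hτu]
    have := cconj hc w₁
    rw [hi1, h1back] at this
    exact this
  have hnc : ¬ Commute τ u := by
    intro e
    have e1 := conj_eq_of_comm e
    rw [hτu] at e1
    apply hne
    calc v' = w₁ * (w₁ * v' * w₁) * w₁ := by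
          calc v' = (w₁ * w₁) * v' * (w₁ * w₁) := by rw [h11]; group
            _ = w₁ * (w₁ * v' * w₁) * w₁ := by group
      _ = v := by rw [e1, hm]
  have hτ1 : τ ≠ 1 := by
    intro e
    apply hnc
    rw [e]
    exact Commute.one_left u
  refine ⟨?_, hτ1, hFu, hFv⟩
  by_cases hcw : Commute w₁ w₂
  · exfalso
    apply hnc
    apply of_pow16 h hu hFu
    have e2 : τ * τ = 1 := by
      have e3 : w₁ * w₂ = w₂ * w₁ := hcw
      calc τ * τ = w₁ * w₂ * (w₁ * w₂) := rfl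
        _ = w₁ * (w₂ * w₁) * w₂ := by group
        _ = w₁ * (w₁ * w₂) * w₂ := by rw [e3]
        _ = (w₁ * w₁) * (w₂ * w₂) := by group
        _ = 1 := by rw [h11, h22, one_mul]
    calc τ ^ 16 = (τ * τ) ^ 8 := by rw [← pow_two, ← pow_mul]
      _ = 1 := by rw [e2, one_pow]
  · have hodd := odd_of_anti h hw₁ hw₂ hcw
    have hc3 := cube h hu hFu
    have h16 := pow16 h hu hc3
    rw [← pow_mul] at h16
    have hd : orderOf τ ∣ 3 * 16 := orderOf_dvd_of_pow_eq_one h16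
    have hcop : Nat.Coprime (orderOf τ) 16 := by
      have : Nat.Coprime (orderOf τ) (2 ^ 4) :=
        Nat.Coprime.pow_right 4 (Nat.coprime_two_right.2 hodd)
      simpa using this
    have hd3 : orderOf τ ∣ 3 := hcop.dvd_of_dvd_mul_right hd
    exact orderOf_dvd_iff_pow_eq_one.1 hd3

/-- The subgroup formed by a line and the identity. -/
def Fs (h : CT A t) {u : Λ} (hu : u ∈ A) : Subgroup Λ where
  carrier := {g | g = 1 ∨ (g ∈ A ∧ Commute g u)}
  one_mem' := Or.inl rfl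
  mul_mem' := by
    rintro a b (rfl | ⟨ha, hau⟩) (rfl | ⟨hb, hbu⟩)
    · exact Or.inl (one_mul 1)
    · right; rw [one_mul]; exact ⟨hb, hbu⟩
    · right; rw [mul_one]; exact ⟨ha, hau⟩
    · by_cases e : a = b
      · subst e
        exact Or.inl (h.sq a ha)
      · right
        have hcab : Commute a b := h.comm_trans ha hu hau hbu.symm
        exact ⟨h.close ha hb e hcab, hau.mul_left hbu⟩
  inv_mem' := by
    rintro a (rfl | ⟨ha, hau⟩)
    · left; simp
    · right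
      rw [h.inv_eq ha]
      exact ⟨ha, hau⟩

theorem mem_Fs (h : CT A t) {u g : Λ} (hu : u ∈ A) : g ∈ Fs h hu ↔ g = 1 ∨ (g ∈ A ∧ Commute g u) :=
  Iff.rfl

theorem card_Fs (h : CT A t) {u : Λ} (hu : u ∈ A) : Nat.card (Fs h hu) = 4 := by
  have e : ((Fs h hu : Subgroup Λ) : Set Λ) = insert 1 {b | b ∈ A ∧ Commute b u} := by
    ext g
    rfl
  have : Nat.card (Fs h hu) = ((Fs h hu : Subgroup Λ) : Set Λ).ncard := Nat.card_coe_set_eq _
  rw [this, e, Set.ncard_insert_of_notMem, line_ncard h hu]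
  · rintro ⟨h1, -⟩
    exact h.ne_one h1 rfl

/-- Subgroups of a centralizer that avoid the set are small. -/
theorem small (h : CT A t) {u : Λ} (hu : u ∈ A) (S : Subgroup Λ) (hS : ∀ s ∈ S, Commute s u)
    (hA : ∀ s ∈ S, s ∉ A) : Nat.card S ≤ 4 := by
  have hin : ∀ p : S × Fs h hu, p.1.1 * p.2.1 ∈ Subgroup.centralizer ({u} : Set Λ) := by
    rintro ⟨s, f⟩
    rw [Subgroup.mem_centralizer_singleton_iff]
    have h2 : Commute f.1 u := by
      rcases f.2 with e | e
      · rw [e]; exact Commute.one_left u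
      · exact e.2
    exact (hS s.1 s.2).mul_left h2
  have hinj : Function.Injective (fun p : S × Fs h hu =>
      (⟨p.1.1 * p.2.1, hin p⟩ : Subgroup.centralizer ({u} : Set Λ))) := by
    rintro ⟨s, f⟩ ⟨s', f'⟩ e
    have e' : s.1 * f.1 = s'.1 * f'.1 := congrArg Subtype.val e
    have e2 : (s'.1)⁻¹ * s.1 = f'.1 * (f.1)⁻¹ := by
      calc (s'.1)⁻¹ * s.1 = (s'.1)⁻¹ * (s.1 * f.1) * (f.1)⁻¹ := by group
        _ = (s'.1)⁻¹ * (s'.1 * f'.1) * (f.1)⁻¹ := by rw [e']
        _ = f'.1 * (f.1)⁻¹ := by group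
    have h1 : (s'.1)⁻¹ * s.1 ∈ S := S.mul_mem (S.inv_mem s'.2) s.2
    have h2 : (s'.1)⁻¹ * s.1 ∈ Fs h hu := by
      rw [e2]
      exact (Fs h hu).mul_mem f'.2 ((Fs h hu).inv_mem f.2)
    have h3 : (s'.1)⁻¹ * s.1 = 1 := by
      rcases h2 with e3 | e3
      · exact e3
      · exact absurd e3.1 (hA _ h1)
    have h4 : s.1 = s'.1 := (inv_mul_eq_one.1 h3).symm
    have h5 : f.1 = f'.1 := by
      rw [h4] at e'
      exact mul_left_cancel e'
    rw [Subtype.ext h4, Subtype.ext h5]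
  have := Nat.card_le_card_of_injective _ hinj
  rw [Nat.card_prod, card_Fs h hu, h.card16 u hu] at this
  omega

/-- Conjugation by an element of the line stabilizer normalizes the centralizer. -/
theorem fx_norm (h : CT A t) {g u c : Λ} (hu : u ∈ A) (hg : Fx g u) (hc : Commute c u) :
    Commute (g * c * g⁻¹) u := by
  have h1 : Commute (g * c * g⁻¹) (g * u * g⁻¹) := cconj hc g
  exact h.cent _ (h.conj u hu g) _ h1 u hu hg.symm

/-- The fixed subgroup of an element of order three. -/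
theorem card_X (h : CT A t) {τ u : Λ} (hu : u ∈ A) (hτ : τ ^ 3 = 1) (hτ1 : τ ≠ 1) (hF : Fx τ u) :
    Nat.card ↥(Subgroup.centralizer ({τ} : Set Λ) ⊓ Subgroup.centralizer ({u} : Set Λ)) = 4 := by
  haveI : Fact (Nat.Prime 3) := ⟨by norm_num⟩
  set E := Subgroup.centralizer ({u} : Set Λ) with hE
  set X := Subgroup.centralizer ({τ} : Set Λ) ⊓ E with hX
  have hE16 : Nat.card E = 16 := h.card16 u hu
  have hmemE : ∀ c, c ∈ E ↔ Commute c u := fun c => by
    rw [hE, Subgroup.mem_centralizer_singleton_iff]; rfl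
  have hnorm : ∀ c, c ∈ E → τ * c * τ⁻¹ ∈ E := by
    intro c hc
    rw [hmemE] at hc ⊢
    exact fx_norm h hu hF hc
  let f : Function.End E := fun c => ⟨τ * c.1 * τ⁻¹, hnorm c.1 c.2⟩
  have hf : f ^ 3 ^ 1 = 1 := by
    funext c
    apply Subtype.ext
    show τ * (τ * (τ * c.1 * τ⁻¹) * τ⁻¹) * τ⁻¹ = c.1
    have e3 : τ * τ * τ = 1 := by rw [← hτ]; simp only [pow_succ, pow_zero, one_mul]
    calc τ * (τ * (τ * c.1 * τ⁻¹) * τ⁻¹) * τ⁻¹ = (τ * τ * τ) * c.1 * (τ * τ * τ)⁻¹ := by group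
      _ = c.1 := by rw [e3]; simp
  have hmod := card_mod_fix 3 1 f hf
  have hfix : Nat.card {c // f c = c} = Nat.card X := by
    apply Nat.card_congr
    refine ⟨fun c => ⟨c.1.1, ?_, c.1.2⟩, fun c => ⟨⟨c.1, c.2.2⟩, ?_⟩, fun c => rfl, fun c => rfl⟩
    · have e : τ * c.1.1 * τ⁻¹ = c.1.1 := congrArg Subtype.val c.2
      show c.1.1 ∈ Subgroup.centralizer ({τ} : Set Λ)
      rw [Subgroup.mem_centralizer_singleton_iff]
      exact (comm_of_conj_eq e).symm
    · apply Subtype.ext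
      have hc : c.1 ∈ Subgroup.centralizer ({τ} : Set Λ) := c.2.1
      rw [Subgroup.mem_centralizer_singleton_iff] at hc
      exact conj_eq_of_comm hc.symm
  rw [hfix, hE16] at hmod
  have hdvd : Nat.card X ∣ 16 := by
    rw [← hE16]
    exact Subgroup.card_dvd_of_le inf_le_right
  have htX : t ∈ X :=
    Subgroup.mem_inf.2 ⟨Subgroup.mem_centralizer_singleton_iff.2 (h.tc τ).symm,
      (hmemE t).2 (h.tc u).symm⟩
  have hne1 : Nat.card X ≠ 1 := by
    intro e
    have := (Subgroup.eq_bot_of_card_eq X e)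
    rw [this, Subgroup.mem_bot] at htX
    exact h.t1 htX
  have hne16 : Nat.card X ≠ 16 := by
    intro e
    have hle : X ≤ E := inf_le_right
    have heq : X = E := Subgroup.eq_of_le_of_card_ge hle (by rw [e, hE16])
    have huE : u ∈ E := by rw [hmemE]
    rw [← heq] at huE
    have := (Subgroup.mem_inf.1 huE).1
    rw [Subgroup.mem_centralizer_singleton_iff] at this
    exact ord3_move h hτ hτ1 hu this.symm
  have hle : Nat.card X ≤ 16 := Nat.le_of_dvd (by norm_num) hdvd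
  unfold Nat.ModEq at hmod
  interval_cases hc : Nat.card X <;> simp_all <;> omega


/-- Conjugating the relation. -/
theorem fx_conj {g x : Λ} (hg : Fx g x) (c : Λ) : Fx (c * g * c⁻¹) (c * x * c⁻¹) := by
  show Commute ((c * g * c⁻¹) * (c * x * c⁻¹) * (c * g * c⁻¹)⁻¹) (c * x * c⁻¹)
  have e : (c * g * c⁻¹) * (c * x * c⁻¹) * (c * g * c⁻¹)⁻¹ = c * (g * x * g⁻¹) * c⁻¹ := by group
  rw [e]
  exact cconj hg c

/-- Elements commuting with two non-commuting points commute with elements of order three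
that stabilize both lines. -/
theorem cent_Y (h : CT A t) {u v τ y : Λ} (hu : u ∈ A) (hv : v ∈ A) (hn : ¬ Commute u v)
    (hτ : τ ^ 3 = 1) (hFu : Fx τ u) (hFv : Fx τ v) (hyu : Commute y u) (hyv : Commute y v) :
    Commute τ y := by
  haveI : Fact (Nat.Prime 3) := ⟨by norm_num⟩
  set Y := Subgroup.centralizer ({u} : Set Λ) ⊓ Subgroup.centralizer ({v} : Set Λ) with hY
  have hmem : ∀ c, c ∈ Y ↔ Commute c u ∧ Commute c v := fun c => by
    rw [hY, Subgroup.mem_inf, Subgroup.mem_centralizer_singleton_iff,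
      Subgroup.mem_centralizer_singleton_iff]
    rfl
  have hnorm : ∀ c, c ∈ Y → τ * c * τ⁻¹ ∈ Y := by
    intro c hc
    rw [hmem] at hc ⊢
    exact ⟨fx_norm h hu hFu hc.1, fx_norm h hv hFv hc.2⟩
  have hsmall : Nat.card Y ≤ 4 := by
    apply small h hu Y
    · intro s hs
      exact ((hmem s).1 hs).1
    · intro s hs hsA
      have := (hmem s).1 hs
      exact hn (h.comm_trans hu hsA this.1.symm this.2)
  let f : Function.End Y := fun c => ⟨τ * c.1 * τ⁻¹, hnorm c.1 c.2⟩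
  have hf : f ^ 3 ^ 1 = 1 := by
    funext c
    apply Subtype.ext
    show τ * (τ * (τ * c.1 * τ⁻¹) * τ⁻¹) * τ⁻¹ = c.1
    have e3 : τ * τ * τ = 1 := by rw [← hτ]; simp only [pow_succ, pow_zero, one_mul]
    calc τ * (τ * (τ * c.1 * τ⁻¹) * τ⁻¹) * τ⁻¹ = (τ * τ * τ) * c.1 * (τ * τ * τ)⁻¹ := by group
      _ = c.1 := by rw [e3]; simp
  have hmod := card_mod_fix 3 1 f hf
  by_contra hne
  have hyY : y ∈ Y := (hmem y).2 ⟨hyu, hyv⟩
  have hlt : Nat.card {c // f c = c} < Nat.card Y := by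
    apply Finite.card_subtype_lt (x := ⟨y, hyY⟩)
    intro e
    apply hne
    have e' : τ * y * τ⁻¹ = y := congrArg Subtype.val e
    exact comm_of_conj_eq e'
  have htY : t ∈ Y := (hmem t).2 ⟨(h.tc u).symm, (h.tc v).symm⟩
  have hge : 1 < Nat.card {c // f c = c} := by
    have hfix1 : f 1 = 1 := by
      apply Subtype.ext
      show τ * 1 * τ⁻¹ = 1
      simp
    have hfixt : f ⟨t, htY⟩ = ⟨t, htY⟩ := by
      apply Subtype.ext
      exact conj_eq_of_comm (h.tc τ)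
    rw [Finite.one_lt_card_iff_nontrivial]
    refine ⟨⟨1, hfix1⟩, ⟨⟨t, htY⟩, hfixt⟩, ?_⟩
    intro e
    exact h.t1 (congrArg (fun w : {c // f c = c} => w.1.1) e).symm
  unfold Nat.ModEq at hmod
  omega

/-- The uniqueness step. -/
theorem U_key (h : CT A t) {u v τ τ' : Λ} (hu : u ∈ A) (hv : v ∈ A) (hn : ¬ Commute u v)
    (hτ : τ ^ 3 = 1) (hFu : Fx τ u) (hFv : Fx τ v) (hτ' : τ' ^ 3 = 1) (hFv' : Fx τ' v)
    (he : τ' * u * τ'⁻¹ = τ * u * τ⁻¹) : τ' = τ := by
  set y := τ⁻¹ * τ' with hy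
  have e1 : τ' = τ * y := by rw [hy]; group
  have hyu : Commute y u := by
    apply comm_of_conj_eq
    calc y * u * y⁻¹ = τ⁻¹ * (τ' * u * τ'⁻¹) * τ := by rw [hy]; group
      _ = τ⁻¹ * (τ * u * τ⁻¹) * τ := by rw [he]
      _ = u := by group
  have h16 := pow16 h hu hyu
  have hFy : Fx y v := fx_mul h hv (fx_inv hFv) hFv'
  have hyv : Commute y v := of_pow16 h hv hFy h16
  have hc : Commute τ y := cent_Y h hu hv hn hτ hFu hFv hyu hyv
  have h3 : y ^ 3 = 1 := by
    have := hc.mul_pow 3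
    rw [← e1, hτ', hτ, one_mul] at this
    exact this.symm
  have hy1 : y = 1 := by
    calc y = y ^ 16 * ((y ^ 3) ^ 5)⁻¹ := by group
      _ = 1 := by rw [h16, h3]; simp
  rw [e1, hy1, mul_one]

theorem U_lemma (h : CT A t) {u v τ τ' : Λ} (hu : u ∈ A) (hv : v ∈ A) (hn : ¬ Commute u v)
    (hτ : τ ^ 3 = 1) (hτ1 : τ ≠ 1) (hFu : Fx τ u) (hFv : Fx τ v) (hτ' : τ' ^ 3 = 1) (hτ'1 : τ' ≠ 1)
    (hFu' : Fx τ' u) (hFv' : Fx τ' v) : τ' = τ ∨ τ' = τ⁻¹ := by
  have hm := ord3_move h hτ hτ1 hu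
  have hm' := ord3_move h hτ' hτ'1 hu
  obtain ⟨h1, h2, h3⟩ := cycle h hu hFu hm
  obtain ⟨h1', h2', h3'⟩ := cycle h hu hFu' hm'
  have hA1 : τ * u * τ⁻¹ ∈ A := h.conj u hu τ
  have hA2 : τ' * u * τ'⁻¹ ∈ A := h.conj u hu τ'
  rcases line_third h hu hA1 h1 hFu hA2 hFu' with e | e | e
  · exact absurd e h1'
  · left
    exact U_key h hu hv hn hτ hFu hFv hτ' hFv' e
  · right
    have huu := h.sq u hu
    have key : τ'⁻¹ = τ := by
      apply U_key h hu hv hn hτ hFu hFv (by rw [inv_pow, hτ', inv_one]) (fx_inv hFv')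
      rw [inv_inv]
      -- `τ'⁻¹ u τ' = u * a'` with `a' = τ' u τ'⁻¹`
      have e4 : τ'⁻¹ * u * τ' = u * (τ' * u * τ'⁻¹) := by
        conv_lhs => rw [← h3']
        group
      rw [e4, e, ← mul_assoc, huu, one_mul]
    rw [← key, inv_inv]

/-- Midpoints invert. -/
theorem inv_of_mid (h : CT A t) {u v w τ : Λ} (hu : u ∈ A) (hv : v ∈ A) (hn : ¬ Commute u v)
    (hτ : τ ^ 3 = 1) (hτ1 : τ ≠ 1) (hFu : Fx τ u) (hFv : Fx τ v) (hw : w ∈ A) (hm : w * u * w = v) :
    w * τ * w = τ⁻¹ := by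
  obtain ⟨w₂, hw₂, h3, h1, hF1, hF2⟩ := tau_of_mid h hu hv hn hw hm
  have hww := h.sq w hw
  have hi := h.inv_eq hw
  have hi2 := h.inv_eq hw₂
  have e0 : w * (w * w₂) * w = (w * w₂)⁻¹ := by
    rw [mul_inv_rev, hi, hi2, ← mul_assoc, hww, one_mul]
  rcases U_lemma h hu hv hn h3 h1 hF1 hF2 hτ hτ1 hFu hFv with e | e
  · rw [e]; exact e0
  · rw [e, inv_inv]
    have : w * (w * w₂)⁻¹ * w = (w * (w * w₂) * w)⁻¹ := by
      rw [mul_inv_rev (w * (w * w₂)) w, mul_inv_rev w (w * w₂), hi, mul_assoc]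
    rw [this, e0, inv_inv]

theorem not_fx_of_inv (h : CT A t) {w τ : Λ} (hw : w ∈ A) (hτ : τ ^ 3 = 1) (hτ1 : τ ≠ 1)
    (hi : w * τ * w = τ⁻¹) : ¬ Fx τ w := by
  intro hF
  have hww := h.sq w hw
  have e1 : τ * w = w * τ⁻¹ := by
    rw [← hi, ← mul_assoc, ← mul_assoc, hww, one_mul]
  have e2 : τ * w * τ⁻¹ = τ * τ * w := by
    rw [mul_assoc, ← e1, mul_assoc]
  have hc : Commute (τ * w * τ⁻¹) w := hF
  rw [e2] at hc
  have e3 : τ * τ * w * w = w * (τ * τ * w) := hc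
  rw [mul_assoc, hww, mul_one] at e3
  have e4 : w * (τ * τ * w) = τ⁻¹ * τ⁻¹ := by
    rw [← hi]
    calc w * (τ * τ * w) = w * τ * 1 * τ * w := by group
      _ = w * τ * (w * w) * τ * w := by rw [hww]
      _ = w * τ * w * (w * τ * w) := by group
  rw [e4] at e3
  apply hτ1
  have e5 : τ * τ * τ = 1 := by rw [← hτ]; simp only [pow_succ, pow_zero, one_mul]
  calc τ = τ * (τ * τ * τ) := by rw [e5, mul_one]
    _ = (τ * τ) * (τ * τ) := by group
    _ = (τ⁻¹ * τ⁻¹) * (τ * τ) := by rw [e3]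
    _ = 1 := by group

/-- The points whose line is stabilized. -/
def Phi (A : Set Λ) (τ : Λ) : Set Λ := {x | x ∈ A ∧ Fx τ x}

theorem phi_even (h : CT A t) {w τ : Λ} (hw : w ∈ A) (hτ : τ ^ 3 = 1) (hτ1 : τ ≠ 1)
    (hi : w * τ * w = τ⁻¹) : 2 ∣ Nat.card (Phi A τ) := by
  haveI : Fact (Nat.Prime 2) := ⟨Nat.prime_two⟩
  have hww := h.sq w hw
  have hwi := h.inv_eq hw
  have hin : ∀ x ∈ Phi A τ, w * x * w⁻¹ ∈ Phi A τ := by
    rintro x ⟨hx, hF⟩
    refine ⟨h.conj x hx w, ?_⟩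
    have := fx_conj (fx_inv hF) w
    have e : w * τ⁻¹ * w⁻¹ = τ := by
      rw [hwi, ← hi]
      calc w * (w * τ * w) * w = (w * w) * τ * (w * w) := by group
        _ = τ := by rw [hww]; group
    rwa [e] at this
  let f : Function.End (Phi A τ) := fun x => ⟨w * x.1 * w⁻¹, hin x.1 x.2⟩
  have hf : f ^ 2 ^ 1 = 1 := by
    funext x
    apply Subtype.ext
    show w * (w * x.1 * w⁻¹) * w⁻¹ = x.1
    rw [hwi]
    calc w * (w * x.1 * w) * w = (w * w) * x.1 * (w * w) := by group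
      _ = x.1 := by rw [hww]; group
  have hmod := card_mod_fix 2 1 f hf
  have hemp : IsEmpty {x // f x = x} := by
    constructor
    rintro ⟨⟨x, hx, hF⟩, hfix⟩
    have e : w * x * w⁻¹ = x := congrArg Subtype.val hfix
    have hc : Commute w x := comm_of_conj_eq e
    apply not_fx_of_inv h hw hτ hτ1 hi
    show Commute (τ * w * τ⁻¹) w
    have h1 : Commute (τ * w * τ⁻¹) x := fx_line h hx hF hc hw
    exact h.comm_trans (h.conj w hw τ) hx h1 hc.symm
  have h0 : Nat.card {x // f x = x} = 0 := Nat.card_of_isEmpty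
  rw [h0] at hmod
  exact (Nat.modEq_zero_iff_dvd).1 hmod

/-- An element of order three stabilizes at most two lines, if it stabilizes more it has
too large a centralizer. -/
theorem no_three (h : CT A t) {τ a b c : Λ} (hτ : τ ^ 3 = 1) (hτ1 : τ ≠ 1) (ha : a ∈ Phi A τ)
    (hb : b ∈ Phi A τ) (hc : c ∈ Phi A τ) (hab : ¬ Commute a b) (hac : ¬ Commute a c)
    (hbc : ¬ Commute b c) : False := by
  classical
  haveI : Fact (Nat.Prime 2) := ⟨Nat.prime_two⟩
  set Ct := Subgroup.centralizer ({τ} : Set Λ) with hCt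
  have hmemC : ∀ g, g ∈ Ct ↔ Commute g τ := fun g => by
    rw [hCt, Subgroup.mem_centralizer_singleton_iff]; rfl
  have hinv : ∀ x ∈ Phi A τ, ∀ y ∈ Phi A τ, ¬ Commute x y → ∀ w ∈ A, w * x * w = y → w * τ * w = τ⁻¹ := by
    intro x hx y hy hxy w hw hm
    exact inv_of_mid h hx.1 hy.1 hxy hτ hτ1 hx.2 hy.2 hw hm
  have h1 : ∀ g ∈ Ct, g * a * g⁻¹ ∈ Phi A τ := by
    intro g hg
    refine ⟨h.conj a ha.1 g, ?_⟩
    have := fx_conj ha.2 g
    rwa [conj_eq_of_comm ((hmemC g).1 hg)] at this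
  have h2 : ∀ y ∈ Phi A τ, ∃ g ∈ Ct, g * a * g⁻¹ = y := by
    intro y hy
    by_cases hay : Commute a y
    · -- same line
      have hm := ord3_move h hτ hτ1 ha.1
      obtain ⟨e1, e2, e3⟩ := cycle h ha.1 ha.2 hm
      have hτC : τ ∈ Ct := (hmemC τ).2 (Commute.refl τ)
      rcases line_third h ha.1 (h.conj a ha.1 τ) e1 ha.2 hy.1 hay.symm with e | e | e
      · exact ⟨1, Ct.one_mem, by rw [e]; simp⟩
      · exact ⟨τ, hτC, e.symm⟩
      · refine ⟨τ * τ, Ct.mul_mem hτC hτC, ?_⟩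
        rw [e, ← e2]
        group
    · -- pick a third point
      have hex : ∃ p ∈ Phi A τ, ¬ Commute a p ∧ ¬ Commute p y := by
        by_cases hby : Commute b y
        · refine ⟨c, hc, hac, ?_⟩
          intro e
          exact hbc (h.comm_trans hb.1 hy.1 hby e.symm)
        · exact ⟨b, hb, hab, hby⟩
      obtain ⟨p, hp, hap, hpy⟩ := hex
      obtain ⟨w₁, hw₁, hm₁⟩ := mid h ha.1 hp.1 hap
      obtain ⟨w₂, hw₂, hm₂⟩ := mid h hp.1 hy.1 hpy
      have hi₁ := hinv a ha p hp hap w₁ hw₁ hm₁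
      have hi₂ := hinv p hp y hy hpy w₂ hw₂ hm₂
      have h11 := h.sq w₁ hw₁
      have h22 := h.sq w₂ hw₂
      have hii₁ := h.inv_eq hw₁
      have hii₂ := h.inv_eq hw₂
      refine ⟨w₂ * w₁, ?_, ?_⟩
      · rw [hmemC]
        apply comm_of_conj_eq
        have e1 : w₁ * τ * w₁⁻¹ = τ⁻¹ := by rw [hii₁]; exact hi₁
        have e2 : w₂ * τ⁻¹ * w₂⁻¹ = τ := by
          rw [hii₂, ← hi₂]
          calc w₂ * (w₂ * τ * w₂) * w₂ = (w₂ * w₂) * τ * (w₂ * w₂) := by group
            _ = τ := by rw [h22]; group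
        rw [← conj_conj, e1, e2]
      · rw [← conj_conj, hii₁, hm₁, hii₂, hm₂]
  have horb := orbit_card Ct a (Phi A τ) h1 h2
  rw [card_X h ha.1 hτ hτ1 ha.2] at horb
  obtain ⟨w, hw, hm⟩ := mid h ha.1 hb.1 hab
  have hev := phi_even h hw hτ hτ1 (hinv a ha b hb hab w hw hm)
  have h8 : 2 ^ 3 ∣ Nat.card Ct := by
    rw [← horb]
    obtain ⟨k, hk⟩ := hev
    rw [hk]
    exact ⟨k, by ring⟩
  obtain ⟨S', hS'⟩ := Sylow.exists_subgroup_card_pow_prime 2 h8
  set S := S'.map Ct.subtype with hS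
  have hSc : Nat.card S = 8 := by
    rw [hS, Subgroup.card_map_of_injective Ct.subtype_injective, hS']
    norm_num
  have hSp : IsPGroup 2 S := IsPGroup.of_card (n := 3) (by rw [hSc]; norm_num)
  obtain ⟨y, hy, hSy⟩ := two_fixed h ha.1 S hSp
  have := small h hy S hSy (by
    rintro s ⟨s', -, rfl⟩ hsA
    apply ord3_move h hτ hτ1 hsA
    exact ((hmemC _).1 s'.2).symm)
  omega


/-- The main counting theorem. -/
theorem card_A (h : CT A t) {u₀ : Λ} (hu₀ : u₀ ∈ A) : Nat.card A = 3 ∨ Nat.card A = 15 := by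
  classical
  by_cases hall : ∀ v ∈ A, Commute v u₀
  · left
    have e : A = {b | b ∈ A ∧ Commute b u₀} := by
      ext b
      exact ⟨fun hb => ⟨hb, hall b hb⟩, fun hb => hb.1⟩
    rw [Nat.card_coe_set_eq, e, line_ncard h hu₀]
  right
  push Not at hall
  obtain ⟨v₀, hv₀, hn₀'⟩ := hall
  have hn₀ : ¬ Commute u₀ v₀ := fun e => hn₀' e.symm
  obtain ⟨w₁, hw₁, hm₁⟩ := mid h hu₀ hv₀ hn₀
  obtain ⟨w₂, hw₂, hτ₃, hτ₁, hFu, hFv⟩ := tau_of_mid h hu₀ hv₀ hn₀ hw₁ hm₁
  set τ₀ := w₁ * w₂ with hτ₀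
  set K := Kg h hu₀ with hK
  have hKm : ∀ g, g ∈ K ↔ Fx g u₀ := fun g => Iff.rfl
  -- the order of `K`
  have hKC : K ⊓ Subgroup.centralizer ({u₀} : Set Λ) = Subgroup.centralizer ({u₀} : Set Λ) := by
    apply inf_eq_right.2
    intro c hc
    rw [Subgroup.mem_centralizer_singleton_iff] at hc
    exact fx_of_comm hc
  have hKcard : Nat.card K = 48 := by
    have e := orbit_card K u₀ {b | b ∈ A ∧ Commute b u₀}
      (fun g hg => ⟨h.conj u₀ hu₀ g, hg⟩)
      (fun y hy => by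
        obtain ⟨g, hg⟩ := h.trans u₀ hu₀ y hy.1
        refine ⟨g, ?_, hg⟩
        show Commute (g * u₀ * g⁻¹) u₀
        rw [hg]
        exact hy.2)
    rw [hKC, h.card16 u₀ hu₀, Nat.card_coe_set_eq, line_ncard h hu₀] at e
    omega
  -- three points fixed by `τ₀`
  have hPhi : ∀ r ∈ Phi A τ₀, ¬ Commute r u₀ → Commute r v₀ := by
    intro r hr hru
    by_contra hrv
    refine no_three h hτ₃ hτ₁ ⟨hu₀, hFu⟩ ⟨hv₀, hFv⟩ hr hn₀ (fun e => hru e.symm) ?_
    exact fun e => hrv e.symm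
  -- the stabilizer of `v₀`
  have hstab : K ⊓ Subgroup.centralizer ({v₀} : Set Λ)
      = Subgroup.centralizer ({τ₀} : Set Λ) ⊓ Subgroup.centralizer ({u₀} : Set Λ) := by
    ext y
    rw [Subgroup.mem_inf, Subgroup.mem_inf, Subgroup.mem_centralizer_singleton_iff,
      Subgroup.mem_centralizer_singleton_iff, Subgroup.mem_centralizer_singleton_iff, hKm]
    constructor
    · rintro ⟨hy, hyv⟩
      have h16 := pow16 h hv₀ hyv
      have hyu := of_pow16 h hu₀ hy h16
      exact ⟨(cent_Y h hu₀ hv₀ hn₀ hτ₃ hFu hFv hyu hyv).symm, hyu⟩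
    · rintro ⟨hyτ, hyu⟩
      refine ⟨fx_of_comm hyu, ?_⟩
      have h16 := pow16 h hu₀ hyu
      have hF : Fx y v₀ := by
        apply hPhi (y * v₀ * y⁻¹)
        · refine ⟨h.conj v₀ hv₀ y, ?_⟩
          have := fx_conj hFv y
          rwa [conj_eq_of_comm hyτ] at this
        · intro e
          have := cconj e y⁻¹
          have e1 : y⁻¹ * (y * v₀ * y⁻¹) * y⁻¹⁻¹ = v₀ := by group
          rw [e1, inv_inv] at this
          have e2 : y⁻¹ * u₀ * y = u₀ := by
            have := conj_eq_of_comm hyu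
            conv_lhs => rw [← this]
            group
          rw [e2] at this
          exact hn₀ this.symm
      exact of_pow16 h hv₀ hF h16
  -- transitivity on the rest
  have hB1 : ∀ g ∈ K, g * v₀ * g⁻¹ ∈ {r | r ∈ A ∧ ¬ Commute r u₀} := by
    intro g hg
    refine ⟨h.conj v₀ hv₀ g, ?_⟩
    intro e
    have h2 := cconj e g⁻¹
    have e1 : g⁻¹ * (g * v₀ * g⁻¹) * g⁻¹⁻¹ = v₀ := by group
    rw [e1] at h2
    have hg' : Commute (g⁻¹ * u₀ * g⁻¹⁻¹) u₀ := fx_inv hg
    exact hn₀ (h.comm_trans hu₀ (h.conj u₀ hu₀ g⁻¹) hg'.symm h2.symm)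
  have hB2 : ∀ r ∈ {r | r ∈ A ∧ ¬ Commute r u₀}, ∃ g ∈ K, g * v₀ * g⁻¹ = r := by
    rintro r ⟨hr, hru⟩
    have hur : ¬ Commute u₀ r := fun e => hru e.symm
    obtain ⟨x₁, hx₁, hmx⟩ := mid h hu₀ hr hur
    obtain ⟨x₂, hx₂, hτ₃', hτ₁', hFu', hFr'⟩ := tau_of_mid h hu₀ hr hur hx₁ hmx
    set τ := x₁ * x₂ with hτ
    -- Sylow
    haveI hp3 : Fact (Nat.Prime 3) := ⟨by norm_num⟩
    have hord : ∀ σ : Λ, σ ^ 3 = 1 → σ ≠ 1 → orderOf σ = 3 := by
      intro σ h1 h2
      exact orderOf_eq_prime h1 h2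
    let s₀ : K := ⟨τ₀, hFu⟩
    let s₁ : K := ⟨τ, hFu'⟩
    have hs₀ : orderOf s₀ = 3 := (Subgroup.orderOf_mk τ₀ hFu).trans (hord τ₀ hτ₃ hτ₁)
    have hs₁ : orderOf s₁ = 3 := (Subgroup.orderOf_mk τ hFu').trans (hord τ hτ₃' hτ₁')
    have hsyl : ∀ s : K, orderOf s = 3 → ∃ P : Sylow 3 K, (P : Subgroup K) = Subgroup.zpowers s := by
      intro s hs
      have hc : Nat.card (Subgroup.zpowers s) = 3 ^ 1 := by
        rw [Nat.card_zpowers, hs]; rfl
      have hpg : IsPGroup 3 (Subgroup.zpowers s) := IsPGroup.of_card hc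
      have hidx : ¬ 3 ∣ (Subgroup.zpowers s).index := by
        have e := Subgroup.card_mul_index (Subgroup.zpowers s)
        rw [hc, hKcard] at e
        have : (Subgroup.zpowers s).index = 16 := by omega
        rw [this]
        norm_num
      exact ⟨hpg.toSylow hidx, rfl⟩
    obtain ⟨P₀, hP₀⟩ := hsyl s₀ hs₀
    obtain ⟨P₁, hP₁⟩ := hsyl s₁ hs₁
    obtain ⟨g, hg⟩ := MulAction.exists_smul_eq K P₁ P₀
    have hmem : s₀ ∈ (P₀ : Subgroup K) := by
      rw [hP₀]
      exact Subgroup.mem_zpowers s₀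
    rw [← hg, Sylow.coe_subgroup_smul] at hmem
    obtain ⟨s, hs, hse⟩ := Subgroup.mem_smul_pointwise_iff_exists _ _ _ |>.1 hmem
    rw [hP₁] at hs
    obtain ⟨k, rfl⟩ := Subgroup.mem_zpowers_iff.1 hs
    have hτe : g.1 * τ ^ k * g.1⁻¹ = τ₀ := by
      have := congrArg Subtype.val hse
      simpa [s₁, s₀, MulAut.smul_def] using this
    have hF1 : Fx τ₀ (g.1 * r * g.1⁻¹) := by
      rw [← hτe]
      exact fx_conj (fx_zpow h hr hFr' k) g.1
    have hrA : g.1 * r * g.1⁻¹ ∈ A := h.conj r hr g.1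
    have hnc1 : ¬ Commute (g.1 * r * g.1⁻¹) u₀ := by
      intro e
      have h2 := cconj e g.1⁻¹
      have e1 : g.1⁻¹ * (g.1 * r * g.1⁻¹) * g.1⁻¹⁻¹ = r := by group
      rw [e1] at h2
      have hg' : Commute (g.1⁻¹ * u₀ * g.1⁻¹⁻¹) u₀ := fx_inv g.2
      exact hur (h.comm_trans hu₀ (h.conj u₀ hu₀ g.1⁻¹) hg'.symm h2.symm)
    have hc1 : Commute (g.1 * r * g.1⁻¹) v₀ := hPhi _ ⟨hrA, hF1⟩ hnc1
    have hm := ord3_move h hτ₃ hτ₁ hv₀
    obtain ⟨e1, e2, e3⟩ := cycle h hv₀ hFv hm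
    have hexg : ∃ g' ∈ K, g' * v₀ * g'⁻¹ = g.1 * r * g.1⁻¹ := by
      rcases line_third h hv₀ (h.conj v₀ hv₀ τ₀) e1 hFv hrA hc1 with e | e | e
      · exact ⟨1, K.one_mem, by rw [e]; simp⟩
      · exact ⟨τ₀, hFu, e.symm⟩
      · refine ⟨τ₀ * τ₀, K.mul_mem hFu hFu, ?_⟩
        rw [e, ← e2]
        group
    obtain ⟨g', hg', hge⟩ := hexg
    refine ⟨g.1⁻¹ * g', K.mul_mem (K.inv_mem g.2) hg', ?_⟩
    rw [← conj_conj, hge]
    group
  have hBcard : {r | r ∈ A ∧ ¬ Commute r u₀}.ncard * 4 = 48 := by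
    have e := orbit_card K v₀ {r | r ∈ A ∧ ¬ Commute r u₀} hB1 hB2
    rw [hstab, card_X h hu₀ hτ₃ hτ₁ hFu, hKcard, Nat.card_coe_set_eq] at e
    exact e
  have hsplit : A = {b | b ∈ A ∧ Commute b u₀} ∪ {r | r ∈ A ∧ ¬ Commute r u₀} := by
    ext b
    simp only [Set.mem_union, Set.mem_setOf_eq]
    tauto
  have hdisj : Disjoint {b | b ∈ A ∧ Commute b u₀} {r | r ∈ A ∧ ¬ Commute r u₀} := by
    rw [Set.disjoint_left]
    rintro b ⟨-, h1⟩ ⟨-, h2⟩
    exact h2 h1
  rw [Nat.card_coe_set_eq, hsplit, Set.ncard_union_eq hdisj, line_ncard h hu₀]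
  omega


/-- The construction of the structure from data at one point. -/
theorem of_base {b : Λ} (t2 : t * t = 1) (t1 : t ≠ 1) (tc : ∀ g, Commute g t) (tA : t ∉ A)
    (hsq : ∀ u ∈ A, u * u = 1) (hconj : ∀ u ∈ A, ∀ g, g * u * g⁻¹ ∈ A) (hb : b ∈ A)
    (htr : ∀ u ∈ A, ∃ g, g * b * g⁻¹ = u)
    (hcard : Nat.card (Subgroup.centralizer ({b} : Set Λ)) = 16)
    (hline : ∃ a ∈ A, a ≠ b ∧ Commute a b ∧ b * a ∈ A ∧
      ∀ c ∈ A, Commute c b → c = b ∨ c = a ∨ c = b * a)
    (hcent : ∀ g, Commute g b → ∀ v ∈ A, Commute v b → Commute g v) : CT A t := by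
  refine ⟨t2, t1, tc, tA, hsq, hconj, ?_, ?_, ?_, ?_⟩
  · intro u hu v hv
    obtain ⟨g, rfl⟩ := htr u hu
    obtain ⟨g', rfl⟩ := htr v hv
    refine ⟨g' * g⁻¹, ?_⟩
    group
  · intro u hu
    obtain ⟨g, rfl⟩ := htr u hu
    rw [card_centralizer_conj, hcard]
  · intro u hu
    obtain ⟨g, rfl⟩ := htr u hu
    obtain ⟨a, ha, hne, hc, hm, hall⟩ := hline
    refine ⟨g * a * g⁻¹, hconj a ha g, ?_, cconj hc g, ?_, ?_⟩
    · intro e
      apply hne
      have : g * a = g * b := by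
        have e2 : g * a * g⁻¹ * g = g * b * g⁻¹ * g := by rw [e]
        simpa using e2
      exact mul_left_cancel this
    · have := hconj _ hm g
      rwa [Cfsg.Agent.Lib.CITFour.conj_mul'] at this
    · intro c hc hcc
      have h1 : g⁻¹ * c * g ∈ A := by
        have := hconj c hc g⁻¹
        rwa [inv_inv] at this
      have h2 : Commute (g⁻¹ * c * g) b := by
        have := cconj hcc g⁻¹
        have e1 : g⁻¹ * (g * b * g⁻¹) * g⁻¹⁻¹ = b := by group
        rw [e1, inv_inv] at this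
        exact this
      have hback : c = g * (g⁻¹ * c * g) * g⁻¹ := by group
      rcases hall _ h1 h2 with e | e | e
      · left
        rw [hback, e]
      · right; left
        rw [hback, e]
      · right; right
        rw [hback, e, Cfsg.Agent.Lib.CITFour.conj_mul']
  · intro u hu k hk v hv hvu
    obtain ⟨g, rfl⟩ := htr u hu
    have hk' : Commute (g⁻¹ * k * g) b := by
      have := cconj hk g⁻¹
      have e1 : g⁻¹ * (g * b * g⁻¹) * g⁻¹⁻¹ = b := by group
      rw [e1, inv_inv] at this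
      exact this
    have hv' : g⁻¹ * v * g ∈ A := by
      have := hconj v hv g⁻¹
      rwa [inv_inv] at this
    have hvu' : Commute (g⁻¹ * v * g) b := by
      have := cconj hvu g⁻¹
      have e1 : g⁻¹ * (g * b * g⁻¹) * g⁻¹⁻¹ = b := by group
      rw [e1, inv_inv] at this
      exact this
    have := cconj (hcent _ hk' _ hv' hvu') g
    have e1 : g * (g⁻¹ * k * g) * g⁻¹ = k := by group
    have e2 : g * (g⁻¹ * v * g) * g⁻¹ = v := by group
    rwa [e1, e2] at this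

/-- The forward direction of the pair correspondence. -/
theorem forward (h : CT A t) {u v : Λ} (hu : u ∈ A) (hvv : v * v = 1)
    (htm : t ∈ Subgroup.zpowers (u * v)) : t * v ∈ A ∧ (t * v = u ∨ ¬ Commute u (t * v)) := by
  have huu := h.sq u hu
  have hui := h.inv_eq hu
  set y := u * v with hy
  have hi : u * y * u = y⁻¹ := anti_rel huu hvv
  obtain ⟨k, hk⟩ := Subgroup.mem_zpowers_iff.1 htm
  have ht2 : y ^ (2 * k) = 1 := by
    rw [two_mul, zpow_add, hk]
    exact h.t2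
  have hd : ((orderOf y : ℕ) : ℤ) ∣ 2 * k := orderOf_dvd_iff_zpow_eq_one.2 ht2
  have hk1 : ¬ ((orderOf y : ℕ) : ℤ) ∣ k := by
    intro e
    apply h.t1
    rw [← hk]
    exact orderOf_dvd_iff_zpow_eq_one.1 e
  -- the order is even
  have hev : Even (orderOf y) := by
    by_contra hodd
    rw [Nat.not_even_iff_odd] at hodd
    apply hk1
    have hco : IsCoprime ((orderOf y : ℕ) : ℤ) 2 := by
      have : Nat.Coprime (orderOf y) 2 := Nat.coprime_two_right.2 hodd
      exact Nat.isCoprime_iff_coprime.2 this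
    exact hco.dvd_of_dvd_mul_left hd
  obtain ⟨j, hj⟩ := hev
  have hj0 : 0 < j := by
    have := orderOf_pos y
    omega
  have hmz : ((orderOf y : ℕ) : ℤ) = 2 * (j : ℤ) := by
    rw [hj]; push_cast; ring
  -- `y ^ j = t`
  have hyj : y ^ j = t := by
    rw [hmz] at hd hk1
    have hd2 : (j : ℤ) ∣ k := by
      obtain ⟨c, hc⟩ := hd
      exact ⟨c, by nlinarith⟩
    obtain ⟨c, hc⟩ := hd2
    have hoddc : Odd c := by
      by_contra hc2
      rw [Int.not_odd_iff_even] at hc2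
      obtain ⟨d, hd3⟩ := hc2
      apply hk1
      exact ⟨d, by rw [hc, hd3]; ring⟩
    obtain ⟨d, hd3⟩ := hoddc
    have hjj : y ^ (j + j) = 1 := by rw [← hj]; exact pow_orderOf_eq_one y
    have e1 : y ^ k = y ^ j := by
      rw [hc, hd3]
      have : (j : ℤ) * (2 * d + 1) = ((j + j : ℕ) : ℤ) * d + (j : ℤ) := by push_cast; ring
      rw [this, zpow_add, zpow_mul, zpow_natCast, hjj, one_zpow, one_mul, zpow_natCast]
    rw [← hk, e1]
  -- `j` is odd
  have hjodd : Odd j := by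
    by_contra hc
    rw [Nat.not_odd_iff_even] at hc
    obtain ⟨i, hi2⟩ := hc
    have hp : (y ^ i) ^ 2 ^ 2 = 1 := by
      rw [← pow_mul]
      have : i * 2 ^ 2 = orderOf y := by omega
      rw [this]
      exact pow_orderOf_eq_one y
    have := no_inv h hu 2 hp (dih huu hi i)
    rw [← pow_add, ← hi2, hyj] at this
    exact h.t1 this
  obtain ⟨i, hi2⟩ := hjodd
  have hv' : v = u * y := by rw [hy, ← mul_assoc, huu, one_mul]
  have hYu : u * y ^ i * u = (y ^ i)⁻¹ := dih huu hi i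
  have hYu' : y ^ i * u = u * (y ^ i)⁻¹ := by
    rw [← hYu, ← mul_assoc, ← mul_assoc, huu, one_mul]
  have hr : t * v = y ^ i * u * (y ^ i)⁻¹ := by
    have hYj : u * t * u = t⁻¹ := by
      rw [← hyj]
      exact dih huu hi j
    have hti : t⁻¹ = t := inv_eq_of_mul_eq_one_left h.t2
    rw [hti] at hYj
    rw [← hyj, hi2, hv', hYu']
    have e1 : y ^ (2 * i + 1) * (u * y) = u * ((y ^ (2 * i + 1))⁻¹ * y) := by
      have := dih huu hi (2 * i + 1)
      have e2 : y ^ (2 * i + 1) * u = u * (y ^ (2 * i + 1))⁻¹ := by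
        rw [← this, ← mul_assoc, ← mul_assoc, huu, one_mul]
      rw [← mul_assoc, e2, mul_assoc]
    rw [e1, mul_assoc]
    congr 1
    rw [pow_succ, two_mul, pow_add]
    group
  have hrA : t * v ∈ A := by
    rw [hr]
    exact h.conj u hu _
  refine ⟨hrA, ?_⟩
  by_cases hc : Commute u (t * v)
  · left
    -- `u * (t * v) = y ^ (-2 i)`
    have hur : u * (t * v) = ((y ^ i) * (y ^ i))⁻¹ := by
      rw [hr, hYu']
      rw [← mul_assoc, ← mul_assoc, huu, one_mul]
      group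
    have hsq1 : (u * (t * v)) * (u * (t * v)) = 1 := by
      have hrr := h.sq _ hrA
      calc (u * (t * v)) * (u * (t * v)) = u * ((t * v) * u) * (t * v) := by group
        _ = u * (u * (t * v)) * (t * v) := by rw [← hc.eq]
        _ = (u * u) * ((t * v) * (t * v)) := by group
        _ = 1 := by rw [huu, hrr, one_mul]
    rw [hur] at hsq1
    have h4 : y ^ (4 * i) = 1 := by
      have e2 : (y ^ i * y ^ i)⁻¹ * (y ^ i * y ^ i)⁻¹ = (y ^ (4 * i))⁻¹ := by
        rw [← mul_inv_rev, ← pow_add, ← pow_add]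
        congr 2
        ring
      rw [e2] at hsq1
      exact inv_eq_one.1 hsq1
    have hdv : orderOf y ∣ 4 * i := orderOf_dvd_of_pow_eq_one h4
    have hi0 : i = 0 := by
      obtain ⟨c, hc2⟩ := hdv
      have e3 : 4 * i = 2 * (2 * i + 1) * c := by
        rw [hc2, hj, hi2]; ring
      have e4 : 2 * i = (2 * i + 1) * c := by nlinarith
      by_contra hne
      have hd2 : (2 * i + 1) ∣ 2 * i := ⟨c, e4⟩
      have hle := Nat.le_of_dvd (by omega) hd2
      omega
    subst hi0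
    rw [hr]
    simp
  · exact Or.inr hc

/-- The backward direction of the pair correspondence. -/
theorem backward (h : CT A t) {u r : Λ} (hu : u ∈ A) (hr : r ∈ A) (hor : r = u ∨ ¬ Commute u r) :
    t ∈ Subgroup.zpowers (u * (t * r)) := by
  have htc : u * (t * r) = t * (u * r) := by
    rw [← mul_assoc, ← mul_assoc, (h.tc u).eq]
  rw [htc]
  rcases hor with rfl | hn
  · rw [h.sq r hu, mul_one]
    exact Subgroup.mem_zpowers t
  · obtain ⟨k, hk⟩ := odd_of_anti h hu hr hn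
    have hc : Commute t (u * r) := (h.tc _).symm
    have e : (t * (u * r)) ^ (2 * k + 1) = t := by
      rw [hc.mul_pow, ← hk, pow_orderOf_eq_one, mul_one, hk, pow_succ, pow_mul, pow_two, h.t2, one_pow,
        one_mul]
    have h3 := Subgroup.npow_mem_zpowers (t * (u * r)) (2 * k + 1)
    rwa [e] at h3

/-- The number of pairs. -/
theorem card_pairs (h : CT A t) :
    Nat.card {p : Λ × Λ // p.1 ∈ A ∧ p.2 ∈ A ∧ (p.2 = p.1 ∨ ¬ Commute p.1 p.2)}
      = Nat.card A * (Nat.card A - 2) := by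
  classical
  haveI : Fintype A := Fintype.ofFinite _
  have hfib : ∀ u : A, Nat.card {r : Λ // r ∈ A ∧ (r = u.1 ∨ ¬ Commute u.1 r)} = Nat.card A - 2 := by
    intro u
    have h1 : {r | r ∈ A ∧ (r = u.1 ∨ ¬ Commute u.1 r)} ∪ ({b | b ∈ A ∧ Commute b u.1} \ {u.1}) = A := by
      ext r
      simp only [Set.mem_union, Set.mem_setOf_eq, Set.mem_diff, Set.mem_singleton_iff]
      constructor
      · rintro (h1 | h1)
        · exact h1.1
        · exact h1.1.1
      · intro hr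
        by_cases e : r = u.1
        · exact Or.inl ⟨hr, Or.inl e⟩
        · by_cases e2 : Commute u.1 r
          · exact Or.inr ⟨⟨hr, e2.symm⟩, e⟩
          · exact Or.inl ⟨hr, Or.inr e2⟩
    have h2 : Disjoint {r | r ∈ A ∧ (r = u.1 ∨ ¬ Commute u.1 r)} ({b | b ∈ A ∧ Commute b u.1} \ {u.1}) := by
      rw [Set.disjoint_left]
      rintro r ⟨-, h3⟩ ⟨⟨-, h4⟩, h5⟩
      rcases h3 with h3 | h3
      · exact h5 h3
      · exact h3 h4.symm
    have h3 : ({b | b ∈ A ∧ Commute b u.1} \ {u.1}).ncard = 2 := by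
      have := Set.ncard_diff_singleton_of_mem (s := {b | b ∈ A ∧ Commute b u.1}) (a := u.1)
        ⟨u.2, Commute.refl _⟩
      rw [this, line_ncard h u.2]
    have h4 := Set.ncard_union_eq h2 (Set.toFinite _) (Set.toFinite _)
    rw [h1, h3] at h4
    have h5 : Nat.card {r : Λ // r ∈ A ∧ (r = u.1 ∨ ¬ Commute u.1 r)}
        = ({r | r ∈ A ∧ (r = u.1 ∨ ¬ Commute u.1 r)} : Set Λ).ncard := Nat.card_coe_set_eq _
    rw [h5, Nat.card_coe_set_eq]
    omega
  have e : Nat.card {p : Λ × Λ // p.1 ∈ A ∧ p.2 ∈ A ∧ (p.2 = p.1 ∨ ¬ Commute p.1 p.2)}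
      = Nat.card (Σ u : A, {r : Λ // r ∈ A ∧ (r = u.1 ∨ ¬ Commute u.1 r)}) := by
    apply Nat.card_congr
    exact ⟨fun p => ⟨⟨p.1.1, p.2.1⟩, ⟨p.1.2, p.2.2⟩⟩, fun q => ⟨(q.1.1, q.2.1), q.1.2, q.2.2⟩,
      fun p => rfl, fun q => rfl⟩
  rw [e, Nat.card_sigma, Finset.sum_congr rfl (fun u _ => hfib u), Finset.sum_const, smul_eq_mul,
    Finset.card_univ, Nat.card_eq_fintype_card]

end CT

end Cfsg.Agent.Lib.CITFour
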