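import Mathlib
import Cfsg.Agent.Lib.CITFour

set_option autoImplicit false
set_option linter.all false

namespace Cfsg.Agent.Lib.CITFive

open Cfsg.Agent.Lib.CITFour
open Cfsg.Agent.Lib.CITFour.CT

/-- A group with a core-free subgroup of index `n` and half the order of the symmetric group is the alternating group. -/
theorem iso_alt {Γ : Type*} [Group Γ] [Finite Γ] (n : ℕ) (hn : 2 ≤ n) (K₀ : Subgroup Γ) (hidx : K₀.index = n)
    (hcore : ∀ g, (∀ h : Γ, h⁻¹ * g * h ∈ K₀) → g = 1) (hcard : 2 * Nat.card Γ = n.factorial) :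
    Nonempty (Γ ≃* alternatingGroup (Fin n)) := by
  classical
  haveI : Nontrivial (Fin n) := Fin.nontrivial_iff_two_le.2 hn
  let e₀ : (Γ ⧸ K₀) ≃ Fin n := Finite.equivFinOfCardEq hidx
  let φ : Γ →* Equiv.Perm (Γ ⧸ K₀) := MulAction.toPermHom Γ (Γ ⧸ K₀)
  let ψ : Γ →* Equiv.Perm (Fin n) := (e₀.permCongrHom.toMonoidHom).comp φ
  have hinj : Function.Injective ψ := by
    rw [injective_iff_map_eq_one]
    intro g hg
    apply hcore
    intro h
    have h1 : φ g = 1 := by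
      apply e₀.permCongrHom.injective
      rw [map_one]
      exact hg
    have h2 : ((g * h : Γ) : Γ ⧸ K₀) = (h : Γ ⧸ K₀) := by
      have := congrArg (fun σ : Equiv.Perm (Γ ⧸ K₀) => σ (h : Γ ⧸ K₀)) h1
      exact this
    have h3 := QuotientGroup.eq.1 h2
    have h4 := K₀.inv_mem h3
    have e : ((g * h)⁻¹ * h)⁻¹ = h⁻¹ * g * h := by group
    rwa [e] at h4
  have hcardr : Nat.card ψ.range = Nat.card Γ := Nat.card_congr (MonoidHom.ofInjective hinj).symm.toEquiv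
  have h1 := Subgroup.card_mul_index ψ.range
  rw [hcardr, Nat.card_perm, Nat.card_eq_fintype_card (α := Fin n), Fintype.card_fin] at h1
  have hpos : 0 < Nat.card Γ := Nat.card_pos
  have hidx2 : ψ.range.index = 2 := by
    have : Nat.card Γ * ψ.range.index = Nat.card Γ * 2 := by rw [h1, ← hcard, mul_comm]
    exact Nat.eq_of_mul_eq_mul_left hpos this
  have heq := Equiv.Perm.eq_alternatingGroup_of_index_eq_two hidx2
  exact ⟨(MonoidHom.ofInjective hinj).trans (MulEquiv.subgroupCongr heq)⟩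

variable {Λ : Type*} [Group Λ] [Finite Λ] {A : Set Λ} {t : Λ}

/-- The stabilizer of a line has order 48. -/
theorem card_Kg (h : CT A t) {u₀ : Λ} (hu₀ : u₀ ∈ A) : Nat.card (Kg h hu₀) = 48 := by
  have hKC : Kg h hu₀ ⊓ Subgroup.centralizer ({u₀} : Set Λ) = Subgroup.centralizer ({u₀} : Set Λ) := by
    apply inf_eq_right.2
    intro c hc
    rw [Subgroup.mem_centralizer_singleton_iff] at hc
    exact fx_of_comm hc
  have e := orbit_card (Kg h hu₀) u₀ {b | b ∈ A ∧ Commute b u₀}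
    (fun g hg => ⟨h.conj u₀ hu₀ g, hg⟩)
    (fun y hy => by
      obtain ⟨g, hg⟩ := h.trans u₀ hu₀ y hy.1
      refine ⟨g, ?_, hg⟩
      show Commute (g * u₀ * g⁻¹) u₀
      rw [hg]
      exact hy.2)
  rw [hKC, h.card16 u₀ hu₀, Nat.card_coe_set_eq, line_ncard h hu₀] at e
  omega

/-- Points fixed by an element of order three, given two lines. -/
theorem phi_two (h : CT A t) {u₀ v₀ τ₀ : Λ} (hu₀ : u₀ ∈ A) (hv₀ : v₀ ∈ A) (hn₀ : ¬ Commute u₀ v₀)
    (hτ₃ : τ₀ ^ 3 = 1) (hτ₁ : τ₀ ≠ 1) (hFu : Fx τ₀ u₀) (hFv : Fx τ₀ v₀) {r : Λ} (hr : r ∈ A)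
    (hF : Fx τ₀ r) (hru : ¬ Commute r u₀) : Commute r v₀ := by
  by_contra hrv
  exact no_three h hτ₃ hτ₁ ⟨hu₀, hFu⟩ ⟨hv₀, hFv⟩ ⟨hr, hF⟩ hn₀ (fun e => hru e.symm) (fun e => hrv e.symm)

/-- The two-point centralizer. -/
theorem Y_eq (h : CT A t) {u₀ v₀ τ₀ : Λ} (hu₀ : u₀ ∈ A) (hv₀ : v₀ ∈ A) (hn₀ : ¬ Commute u₀ v₀)
    (hτ₃ : τ₀ ^ 3 = 1) (hτ₁ : τ₀ ≠ 1) (hFu : Fx τ₀ u₀) (hFv : Fx τ₀ v₀) :
    Subgroup.centralizer ({u₀} : Set Λ) ⊓ Subgroup.centralizer ({v₀} : Set Λ)
      = Subgroup.centralizer ({τ₀} : Set Λ) ⊓ Subgroup.centralizer ({u₀} : Set Λ) := by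
  ext y
  rw [Subgroup.mem_inf, Subgroup.mem_inf, Subgroup.mem_centralizer_singleton_iff,
    Subgroup.mem_centralizer_singleton_iff, Subgroup.mem_centralizer_singleton_iff]
  constructor
  · rintro ⟨hyu, hyv⟩
    exact ⟨(cent_Y h hu₀ hv₀ hn₀ hτ₃ hFu hFv hyu hyv).symm, hyu⟩
  · rintro ⟨hyτ, hyu⟩
    refine ⟨hyu, ?_⟩
    have hyu' : Commute y u₀ := hyu
    have hyτ' : Commute y τ₀ := hyτ
    have h16 := pow16 h hu₀ hyu'
    have hF : Fx y v₀ := by
      apply phi_two h hu₀ hv₀ hn₀ hτ₃ hτ₁ hFu hFv (h.conj v₀ hv₀ y)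
      · have := fx_conj hFv y
        rwa [conj_eq_of_comm hyτ'] at this
      · intro e
        have := cconj e y⁻¹
        have e1 : y⁻¹ * (y * v₀ * y⁻¹) * y⁻¹⁻¹ = v₀ := by group
        rw [e1, inv_inv] at this
        have e2 : y⁻¹ * u₀ * y = u₀ := by
          have := conj_eq_of_comm hyu'
          conv_lhs => rw [← this]
          group
        rw [e2] at this
        exact hn₀ this.symm
    exact of_pow16 h hv₀ hF h16

/-- Existence of an element of order three for two non-commuting points. -/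
theorem exists_tau (h : CT A t) {u v : Λ} (hu : u ∈ A) (hv : v ∈ A) (hn : ¬ Commute u v) :
    ∃ w₁ ∈ A, ∃ w₂ ∈ A, (w₁ * w₂) ^ 3 = 1 ∧ w₁ * w₂ ≠ 1 ∧ Fx (w₁ * w₂) u ∧ Fx (w₁ * w₂) v := by
  obtain ⟨w₁, hw₁, hm₁⟩ := mid h hu hv hn
  obtain ⟨w₂, hw₂, h1, h2, h3, h4⟩ := tau_of_mid h hu hv hn hw₁ hm₁
  exact ⟨w₁, hw₁, w₂, hw₂, h1, h2, h3, h4⟩

/-- The order of the two-point centralizer. -/
theorem card_Y (h : CT A t) {u v : Λ} (hu : u ∈ A) (hv : v ∈ A) (hn : ¬ Commute u v) :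
    Nat.card ↥(Subgroup.centralizer ({u} : Set Λ) ⊓ Subgroup.centralizer ({v} : Set Λ)) = 4 := by
  obtain ⟨w₁, hw₁, w₂, hw₂, h1, h2, h3, h4⟩ := exists_tau h hu hv hn
  rw [Y_eq h hu hv hn h1 h2 h3 h4]
  exact card_X h hu h1 h2 h3

/-- The stabilizer of a line is transitive on the remaining points. -/
theorem K_trans (h : CT A t) {u₀ v₀ τ₀ : Λ} (hu₀ : u₀ ∈ A) (hv₀ : v₀ ∈ A) (hn₀ : ¬ Commute u₀ v₀)
    (hτ₃ : τ₀ ^ 3 = 1) (hτ₁ : τ₀ ≠ 1) (hFu : Fx τ₀ u₀) (hFv : Fx τ₀ v₀) {r : Λ} (hr : r ∈ A)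
    (hru : ¬ Commute r u₀) : ∃ g, Fx g u₀ ∧ g * v₀ * g⁻¹ = r := by
  classical
  set K := Kg h hu₀ with hK
  have hKcard : Nat.card K = 48 := card_Kg h hu₀
  have hur : ¬ Commute u₀ r := fun e => hru e.symm
  obtain ⟨x₁, hx₁, x₂, hx₂, hτ₃', hτ₁', hFu', hFr'⟩ := exists_tau h hu₀ hr hur
  set τ := x₁ * x₂ with hτ
  haveI hp3 : Fact (Nat.Prime 3) := ⟨by norm_num⟩
  have hord : ∀ σ : Λ, σ ^ 3 = 1 → σ ≠ 1 → orderOf σ = 3 := by
    intro σ h1 h2
    exact orderOf_eq_prime h1 h2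
  let s₀ : K := ⟨τ₀, hFu⟩
  let s₁ : K := ⟨τ, hFu'⟩
  have hs₀ : orderOf s₀ = 3 := (Subgroup.orderOf_mk τ₀ hFu).trans (hord τ₀ hτ₃ hτ₁)
  have hs₁ : orderOf s₁ = 3 := (Subgroup.orderOf_mk τ hFu').trans (hord τ hτ₃' hτ₁')
  have hsyl : ∀ s : K, orderOf s = 3 → ∃ P : Sylow 3 K, (P : Subgroup K) = Subgroup.zpowers s := by
    intro s hs
    have hc : Nat.card (Subgroup.zpowers s) = 3 ^ 1 := by
      rw [Nat.card_zpowers, hs]; rfl
    have hpg : IsPGroup 3 (Subgroup.zpowers s) := IsPGroup.of_card hc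
    have hidx : ¬ 3 ∣ (Subgroup.zpowers s).index := by
      have e := Subgroup.card_mul_index (Subgroup.zpowers s)
      rw [hc, hKcard] at e
      have : (Subgroup.zpowers s).index = 16 := by omega
      rw [this]
      norm_num
    exact ⟨hpg.toSylow hidx, rfl⟩
  obtain ⟨P₀, hP₀⟩ := hsyl s₀ hs₀
  obtain ⟨P₁, hP₁⟩ := hsyl s₁ hs₁
  obtain ⟨g, hg⟩ := MulAction.exists_smul_eq K P₁ P₀
  have hmem : s₀ ∈ (P₀ : Subgroup K) := by
    rw [hP₀]
    exact Subgroup.mem_zpowers s₀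
  rw [← hg, Sylow.coe_subgroup_smul] at hmem
  obtain ⟨s, hs, hse⟩ := Subgroup.mem_smul_pointwise_iff_exists _ _ _ |>.1 hmem
  rw [hP₁] at hs
  obtain ⟨k, rfl⟩ := Subgroup.mem_zpowers_iff.1 hs
  have hτe : g.1 * τ ^ k * g.1⁻¹ = τ₀ := by
    have := congrArg Subtype.val hse
    simpa [s₁, s₀, MulAut.smul_def] using this
  have hF1 : Fx τ₀ (g.1 * r * g.1⁻¹) := by
    rw [← hτe]
    exact fx_conj (fx_zpow h hr hFr' k) g.1
  have hrA : g.1 * r * g.1⁻¹ ∈ A := h.conj r hr g.1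
  have hnc1 : ¬ Commute (g.1 * r * g.1⁻¹) u₀ := by
    intro e
    have h2 := cconj e g.1⁻¹
    have e1 : g.1⁻¹ * (g.1 * r * g.1⁻¹) * g.1⁻¹⁻¹ = r := by group
    rw [e1] at h2
    have hg' : Commute (g.1⁻¹ * u₀ * g.1⁻¹⁻¹) u₀ := fx_inv g.2
    exact hur (h.comm_trans hu₀ (h.conj u₀ hu₀ g.1⁻¹) hg'.symm h2.symm)
  have hc1 : Commute (g.1 * r * g.1⁻¹) v₀ := phi_two h hu₀ hv₀ hn₀ hτ₃ hτ₁ hFu hFv hrA hF1 hnc1
  have hm := ord3_move h hτ₃ hτ₁ hv₀
  obtain ⟨e1, e2, e3⟩ := cycle h hv₀ hFv hm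
  have hexg : ∃ g' ∈ K, g' * v₀ * g'⁻¹ = g.1 * r * g.1⁻¹ := by
    rcases line_third h hv₀ (h.conj v₀ hv₀ τ₀) e1 hFv hrA hc1 with e | e | e
    · exact ⟨1, K.one_mem, by rw [e]; simp⟩
    · exact ⟨τ₀, hFu, e.symm⟩
    · refine ⟨τ₀ * τ₀, K.mul_mem hFu hFu, ?_⟩
      rw [e, ← e2]
      group
  obtain ⟨g', hg', hge⟩ := hexg
  refine ⟨g.1⁻¹ * g', K.mul_mem (K.inv_mem g.2) hg', ?_⟩
  rw [← conj_conj, hge]
  group

/-- Elements of the stabilizer of a line are products of an element of the centralizer and a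
power of an element of order three. -/
theorem K_decomp (h : CT A t) {u τ g : Λ} (hu : u ∈ A) (hτ₃ : τ ^ 3 = 1) (hτ₁ : τ ≠ 1) (hF : Fx τ u)
    (hg : Fx g u) : Commute g u ∨ Commute (τ⁻¹ * g) u ∨ Commute (τ⁻¹ * τ⁻¹ * g) u := by
  have hm := ord3_move h hτ₃ hτ₁ hu
  obtain ⟨e1, e2, e3⟩ := cycle h hu hF hm
  rcases line_third h hu (h.conj u hu τ) e1 hF (h.conj u hu g) hg with e | e | e
  · exact Or.inl (comm_of_conj_eq e)
  · right; left
    apply comm_of_conj_eq
    calc (τ⁻¹ * g) * u * (τ⁻¹ * g)⁻¹ = τ⁻¹ * (g * u * g⁻¹) * τ := by group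
      _ = τ⁻¹ * (τ * u * τ⁻¹) * τ := by rw [e]
      _ = u := by group
  · right; right
    apply comm_of_conj_eq
    rw [← e2] at e
    calc (τ⁻¹ * τ⁻¹ * g) * u * (τ⁻¹ * τ⁻¹ * g)⁻¹ = τ⁻¹ * τ⁻¹ * (g * u * g⁻¹) * τ * τ := by
          simp only [mul_inv_rev, inv_inv, mul_assoc]
      _ = τ⁻¹ * τ⁻¹ * (τ * (τ * u * τ⁻¹) * τ⁻¹) * τ * τ := by rw [e]
      _ = u := by group

/-- Decomposition of the centralizer of a point. -/
theorem E_decomp (h : CT A t) {u v c : Λ} (hu : u ∈ A) (hv : v ∈ A) (hn : ¬ Commute u v)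
    (hc : Commute c u) :
    ∃ y f : Λ, Commute y u ∧ Commute y v ∧ (f = 1 ∨ (f ∈ A ∧ Commute f u)) ∧ c = y * f := by
  set Y := Subgroup.centralizer ({u} : Set Λ) ⊓ Subgroup.centralizer ({v} : Set Λ) with hY
  have hYc : Nat.card Y = 4 := card_Y h hu hv hn
  have hmemY : ∀ y, y ∈ Y ↔ Commute y u ∧ Commute y v := fun y => by
    rw [hY, Subgroup.mem_inf, Subgroup.mem_centralizer_singleton_iff,
      Subgroup.mem_centralizer_singleton_iff]
    rfl
  have hin : ∀ p : Y × Fs h hu, p.1.1 * p.2.1 ∈ Subgroup.centralizer ({u} : Set Λ) := by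
    rintro ⟨y, f⟩
    rw [Subgroup.mem_centralizer_singleton_iff]
    have h2 : Commute f.1 u := by
      rcases f.2 with e | e
      · rw [e]; exact Commute.one_left u
      · exact e.2
    exact ((hmemY y.1).1 y.2).1.mul_left h2
  let F : Y × Fs h hu → Subgroup.centralizer ({u} : Set Λ) := fun p => ⟨p.1.1 * p.2.1, hin p⟩
  have hinj : Function.Injective F := by
    rintro ⟨s, f⟩ ⟨s', f'⟩ e
    have e' : s.1 * f.1 = s'.1 * f'.1 := congrArg Subtype.val e
    have e2 : (s'.1)⁻¹ * s.1 = f'.1 * (f.1)⁻¹ := by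
      calc (s'.1)⁻¹ * s.1 = (s'.1)⁻¹ * (s.1 * f.1) * (f.1)⁻¹ := by group
        _ = (s'.1)⁻¹ * (s'.1 * f'.1) * (f.1)⁻¹ := by rw [e']
        _ = f'.1 * (f.1)⁻¹ := by group
    have h1 : (s'.1)⁻¹ * s.1 ∈ Y := Y.mul_mem (Y.inv_mem s'.2) s.2
    have h2 : (s'.1)⁻¹ * s.1 ∈ Fs h hu := by
      rw [e2]
      exact (Fs h hu).mul_mem f'.2 ((Fs h hu).inv_mem f.2)
    have h3 : (s'.1)⁻¹ * s.1 = 1 := by
      rcases h2 with e3 | e3
      · exact e3
      · exfalso
        have := (hmemY _).1 h1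
        exact hn (h.comm_trans hu e3.1 this.1.symm this.2)
    have h4 : s.1 = s'.1 := (inv_mul_eq_one.1 h3).symm
    have h5 : f.1 = f'.1 := by
      rw [h4] at e'
      exact mul_left_cancel e'
    rw [Subtype.ext h4, Subtype.ext h5]
  have hcard : Nat.card (Y × Fs h hu) = Nat.card (Subgroup.centralizer ({u} : Set Λ)) := by
    rw [Nat.card_prod, hYc, card_Fs h hu, h.card16 u hu]
  have hsurj := (Nat.bijective_iff_injective_and_card F).2 ⟨hinj, hcard⟩
  obtain ⟨⟨y, f⟩, hyf⟩ := hsurj.2 ⟨c, Subgroup.mem_centralizer_singleton_iff.2 hc⟩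
  refine ⟨y.1, f.1, ((hmemY y.1).1 y.2).1, ((hmemY y.1).1 y.2).2, f.2, ?_⟩
  exact (congrArg Subtype.val hyf).symm

/-- The two-point centralizer is abelian. -/
theorem Y_abel (h : CT A t) {u v y y' : Λ} (hu : u ∈ A) (hv : v ∈ A) (hn : ¬ Commute u v)
    (hy1 : Commute y u) (hy2 : Commute y v) (hy1' : Commute y' u) (hy2' : Commute y' v) :
    Commute y y' := by
  haveI : Fact (Nat.Prime 2) := ⟨Nat.prime_two⟩
  set Y := Subgroup.centralizer ({u} : Set Λ) ⊓ Subgroup.centralizer ({v} : Set Λ) with hY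
  have hYc : Nat.card Y = 2 ^ 2 := card_Y h hu hv hn
  have hmemY : ∀ y, y ∈ Y ↔ Commute y u ∧ Commute y v := fun y => by
    rw [hY, Subgroup.mem_inf, Subgroup.mem_centralizer_singleton_iff,
      Subgroup.mem_centralizer_singleton_iff]
    rfl
  have hc := IsPGroup.isMulCommutative_of_card_eq_prime_sq hYc
  have := hc.is_comm.comm (⟨y, (hmemY y).2 ⟨hy1, hy2⟩⟩ : Y) ⟨y', (hmemY y').2 ⟨hy1', hy2'⟩⟩
  exact congrArg Subtype.val this

/-- The centralizer of a point is abelian. -/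
theorem E_abel (h : CT A t) {u v a b : Λ} (hu : u ∈ A) (hv : v ∈ A) (hn : ¬ Commute u v)
    (ha : Commute a u) (hb : Commute b u) : Commute a b := by
  obtain ⟨y, f, hy1, hy2, hf, rfl⟩ := E_decomp h hu hv hn ha
  obtain ⟨y', f', hy1', hy2', hf', rfl⟩ := E_decomp h hu hv hn hb
  have hcent : ∀ c, Commute c u → ∀ f : Λ, (f = 1 ∨ (f ∈ A ∧ Commute f u)) → Commute c f := by
    intro c hc f hf
    rcases hf with rfl | hf
    · exact Commute.one_right c
    · exact h.cent u hu c hc f hf.1 hf.2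
  have hfu : ∀ f : Λ, (f = 1 ∨ (f ∈ A ∧ Commute f u)) → Commute f u := by
    intro f hf
    rcases hf with rfl | hf
    · exact Commute.one_left u
    · exact hf.2
  have h1 : Commute y y' := Y_abel h hu hv hn hy1 hy2 hy1' hy2'
  have h2 : Commute y f' := hcent y hy1 f' hf'
  have h3 : Commute f y' := (hcent y' hy1' f hf).symm
  have h4 : Commute f f' := hcent f (hfu f hf) f' hf'
  exact (h1.mul_right h2).mul_left (h3.mul_right h4)

/-- A non-commuting partner exists in the large case. -/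
theorem exists_anti (h : CT A t) (hc : Nat.card A = 15) {u : Λ} (hu : u ∈ A) : ∃ v ∈ A, ¬ Commute u v := by
  by_contra hall
  push Not at hall
  have e : A = {b | b ∈ A ∧ Commute b u} := by
    ext b
    exact ⟨fun hb => ⟨hb, (hall b hb).symm⟩, fun hb => hb.1⟩
  rw [Nat.card_coe_set_eq, e, line_ncard h hu] at hc
  omega

/-- A point non-commuting with two given ones exists in the large case. -/
theorem exists_third (h : CT A t) (hc : Nat.card A = 15) {u v : Λ} (hu : u ∈ A) (hv : v ∈ A) :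
    ∃ p ∈ A, ¬ Commute u p ∧ ¬ Commute v p := by
  by_contra hall
  push Not at hall
  have hsub : A ⊆ {b | b ∈ A ∧ Commute b u} ∪ {b | b ∈ A ∧ Commute b v} := by
    intro p hp
    by_cases e : Commute u p
    · exact Or.inl ⟨hp, e.symm⟩
    · exact Or.inr ⟨hp, (hall p hp e).symm⟩
  have h1 := Set.ncard_le_ncard hsub (Set.toFinite _)
  have h2 := Set.ncard_union_le {b | b ∈ A ∧ Commute b u} {b | b ∈ A ∧ Commute b v}
  rw [line_ncard h hu, line_ncard h hv] at h2
  rw [Nat.card_coe_set_eq] at hc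
  omega

/-- Elements of the two-point centralizer commute with the stabilizer of the line. -/
theorem Y_K (h : CT A t) {u v y g : Λ} (hu : u ∈ A) (hv : v ∈ A) (hn : ¬ Commute u v)
    (hyu : Commute y u) (hyv : Commute y v) (hg : Fx g u) : Commute y g := by
  obtain ⟨w₁, hw₁, w₂, hw₂, h1, h2, h3, h4⟩ := exists_tau h hu hv hn
  set τ := w₁ * w₂
  have hτy : Commute y τ := (cent_Y h hu hv hn h1 h3 h4 hyu hyv).symm
  rcases K_decomp h hu h1 h2 h3 hg with e | e | e
  · exact E_abel h hu hv hn hyu e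
  · have h5 := E_abel h hu hv hn hyu e
    have e2 : g = τ * (τ⁻¹ * g) := by group
    rw [e2]
    exact hτy.mul_right h5
  · have h5 := E_abel h hu hv hn hyu e
    have e2 : g = τ * (τ * (τ⁻¹ * τ⁻¹ * g)) := by group
    rw [e2]
    exact hτy.mul_right (hτy.mul_right h5)

/-- Elements of the two-point centralizer commute with all points. -/
theorem Y_A (h : CT A t) {u v y r : Λ} (hu : u ∈ A) (hv : v ∈ A) (hn : ¬ Commute u v)
    (hyu : Commute y u) (hyv : Commute y v) (hr : r ∈ A) : Commute y r := by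
  by_cases hc : Commute r u
  · exact h.cent u hu y hyu r hr hc
  · obtain ⟨w₁, hw₁, w₂, hw₂, h1, h2, h3, h4⟩ := exists_tau h hu hv hn
    obtain ⟨g, hg, rfl⟩ := K_trans h hu hv hn h1 h2 h3 h4 hr hc
    have hyg := Y_K h hu hv hn hyu hyv hg
    exact (hyg.mul_right hyv).mul_right hyg.inv_right

/-- Elements of the two-point centralizer are central. -/
theorem Y_center (h : CT A t) {u v y : Λ} (hu : u ∈ A) (hv : v ∈ A) (hn : ¬ Commute u v)
    (hyu : Commute y u) (hyv : Commute y v) (g : Λ) : Commute y g := by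
  by_cases hc : Commute (g * u * g⁻¹) u
  · exact Y_K h hu hv hn hyu hyv hc
  · have hr : g * u * g⁻¹ ∈ A := h.conj u hu g
    obtain ⟨w, hw, hm⟩ := mid h hu hr (fun e => hc e.symm)
    have hww := h.sq w hw
    have hwi := h.inv_eq hw
    have hyw := Y_A h hu hv hn hyu hyv hw
    have h1 : Commute (w⁻¹ * g) u := by
      apply comm_of_conj_eq
      have e1 : u = w * (g * u * g⁻¹) * w := by
        rw [← hm]
        calc u = (w * w) * u * (w * w) := by rw [hww]; group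
          _ = w * (w * u * w) * w := by group
      calc w⁻¹ * g * u * (w⁻¹ * g)⁻¹ = w⁻¹ * (g * u * g⁻¹) * w := by group
        _ = w * (g * u * g⁻¹) * w := by rw [hwi]
        _ = u := e1.symm
    have h2 := E_abel h hu hv hn hyu h1
    have e2 : g = w * (w⁻¹ * g) := by group
    rw [e2]
    exact hyw.mul_right h2

/-- The index of the centralizer of a point. -/
theorem index_E (h : CT A t) (hc : Nat.card A = 15) {u : Λ} (hu : u ∈ A) :
    (Subgroup.centralizer ({u} : Set Λ)).index = 15 := by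
  have e := orbit_card (⊤ : Subgroup Λ) u A (fun g _ => h.conj u hu g) (fun y hy => by
    obtain ⟨g, hg⟩ := h.trans u hu y hy
    exact ⟨g, Subgroup.mem_top g, hg⟩)
  rw [top_inf_eq, Subgroup.card_top, h.card16 u hu, hc] at e
  have e2 := Subgroup.card_mul_index (Subgroup.centralizer ({u} : Set Λ))
  rw [h.card16 u hu, ← e] at e2
  omega

/-- The order of the group. -/
theorem card_Λ (h : CT A t) (hc : Nat.card A = 15) {u : Λ} (hu : u ∈ A) : Nat.card Λ = 240 := by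
  have e2 := Subgroup.card_mul_index (Subgroup.centralizer ({u} : Set Λ))
  rw [h.card16 u hu, index_E h hc hu] at e2
  omega

/-- The subgroup generated by the points meets the two-point centralizer trivially. -/
theorem closure_Y (h : CT A t) (hc : Nat.card A = 15) {u v y : Λ} (hu : u ∈ A) (hv : v ∈ A)
    (hn : ¬ Commute u v) (hyu : Commute y u) (hyv : Commute y v) (hy : y ∈ Subgroup.closure A) :
    y = 1 := by
  classical
  set E := Subgroup.centralizer ({u} : Set Λ) with hE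
  have hmemE : ∀ c, c ∈ E ↔ Commute c u := fun c => by
    rw [hE, Subgroup.mem_centralizer_singleton_iff]; rfl
  letI : CommGroup E :=
    { (inferInstance : Group E) with
      mul_comm := fun a b => Subtype.ext (E_abel h hu hv hn ((hmemE a.1).1 a.2) ((hmemE b.1).1 b.2)) }
  let ϕ : E →* E := MonoidHom.id E
  let V : Λ →* E := ϕ.transfer
  have hVconj : ∀ (g w : Λ), V (g * w * g⁻¹) = V w := by
    intro g w
    rw [map_mul, map_mul, map_inv, mul_comm (V g), mul_inv_cancel_right]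
  have hVA : ∀ w ∈ A, V w = 1 := by
    intro w hw
    obtain ⟨a, ha, hne, hcomm, hm, -⟩ := h.line w hw
    obtain ⟨g, hg⟩ := h.trans w hw a ha
    obtain ⟨g', hg'⟩ := h.trans w hw (w * a) hm
    have e1 : V a = V w := by rw [← hg, hVconj]
    have e2 : V (w * a) = V w := by rw [← hg', hVconj]
    rw [map_mul, e1] at e2
    exact mul_eq_left.1 e2
  have hle : Subgroup.closure A ≤ V.ker := by
    rw [Subgroup.closure_le]
    intro w hw
    exact hVA w hw
  have hVy : V y = 1 := hle hy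
  have hcen : ∀ g, Commute y g := fun g => Y_center h hu hv hn hyu hyv g
  have hkey : ∀ (k : ℕ) (g₀ : Λ), g₀⁻¹ * y ^ k * g₀ ∈ E → g₀⁻¹ * y ^ k * g₀ = y ^ k := by
    intro k g₀ _
    have : Commute (y ^ k) g₀ := (hcen g₀).pow_left k
    rw [mul_assoc, this.eq]
    group
  have hform := MonoidHom.transfer_eq_pow ϕ y hkey
  have hV2 : V y = ϕ ⟨y ^ E.index, MonoidHom.transfer_eq_pow_aux y hkey⟩ := hform
  rw [hVy] at hV2
  have h15 : y ^ E.index = 1 := by
    have := congrArg Subtype.val hV2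
    exact this.symm
  rw [index_E h hc hu] at h15
  have h16 := pow16 h hu hyu
  calc y = y ^ 16 * (y ^ 15)⁻¹ := by group
    _ = 1 := by rw [h16, h15]; simp

/-- The generated subgroup is transitive on the points. -/
theorem closure_trans (h : CT A t) (hc : Nat.card A = 15) {u r : Λ} (hu : u ∈ A) (hr : r ∈ A) :
    ∃ m ∈ Subgroup.closure A, m * u * m⁻¹ = r := by
  by_cases hn : Commute u r
  · obtain ⟨p, hp, h1, h2⟩ := exists_third h hc hu hr
    obtain ⟨w₁, hw₁, hm₁⟩ := mid h hu hp h1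
    have h2' : ¬ Commute p r := fun e => h2 e.symm
    obtain ⟨w₂, hw₂, hm₂⟩ := mid h hp hr h2'
    refine ⟨w₂ * w₁, Subgroup.mul_mem _ (Subgroup.subset_closure hw₂) (Subgroup.subset_closure hw₁), ?_⟩
    rw [← conj_conj, h.inv_eq hw₁, hm₁, h.inv_eq hw₂, hm₂]
  · obtain ⟨w, hw, hm⟩ := mid h hu hr hn
    refine ⟨w, Subgroup.subset_closure hw, ?_⟩
    rw [h.inv_eq hw, hm]

/-- The intersection of the generated subgroup with a point centralizer. -/
theorem closure_E (h : CT A t) (hc : Nat.card A = 15) {u : Λ} (hu : u ∈ A) :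
    Subgroup.closure A ⊓ Subgroup.centralizer ({u} : Set Λ) = Fs h hu := by
  obtain ⟨v, hv, hn⟩ := exists_anti h hc hu
  apply le_antisymm
  · rintro g ⟨hg1, hg2⟩
    have hg2' : Commute g u := Subgroup.mem_centralizer_singleton_iff.1 hg2
    obtain ⟨y, f, hy1, hy2, hf, rfl⟩ := E_decomp h hu hv hn hg2'
    have hfm : f ∈ Subgroup.closure A := by
      rcases hf with rfl | hf
      · exact Subgroup.one_mem _
      · exact Subgroup.subset_closure hf.1
    have hym : y ∈ Subgroup.closure A := by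
      have : y = (y * f) * f⁻¹ := by group
      rw [this]
      exact Subgroup.mul_mem _ hg1 (Subgroup.inv_mem _ hfm)
    rw [closure_Y h hc hu hv hn hy1 hy2 hym, one_mul]
    exact hf
  · rintro g (rfl | ⟨hg, hgu⟩)
    · exact Subgroup.one_mem _
    · exact ⟨Subgroup.subset_closure hg, Subgroup.mem_centralizer_singleton_iff.2 hgu⟩

/-- The generated subgroup has order 60. -/
theorem card_M (h : CT A t) (hc : Nat.card A = 15) {u : Λ} (hu : u ∈ A) :
    Nat.card (Subgroup.closure A) = 60 := by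
  have e := orbit_card (Subgroup.closure A) u A (fun g _ => h.conj u hu g)
    (fun y hy => closure_trans h hc hu hy)
  rw [closure_E h hc hu, card_Fs h hu, hc] at e
  omega

/-- Every element is a product of an element of the two-point centralizer and an element of the
generated subgroup. -/
theorem decomp (h : CT A t) (hc : Nat.card A = 15) {u v : Λ} (hu : u ∈ A) (hv : v ∈ A)
    (hn : ¬ Commute u v) (g : Λ) :
    ∃ y m : Λ, Commute y u ∧ Commute y v ∧ m ∈ Subgroup.closure A ∧ g = y * m := by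
  set Y := Subgroup.centralizer ({u} : Set Λ) ⊓ Subgroup.centralizer ({v} : Set Λ) with hY
  have hYc : Nat.card Y = 4 := card_Y h hu hv hn
  have hmemY : ∀ y, y ∈ Y ↔ Commute y u ∧ Commute y v := fun y => by
    rw [hY, Subgroup.mem_inf, Subgroup.mem_centralizer_singleton_iff,
      Subgroup.mem_centralizer_singleton_iff]
    rfl
  let F : Y × Subgroup.closure A → Λ := fun p => p.1.1 * p.2.1
  have hinj : Function.Injective F := by
    rintro ⟨s, f⟩ ⟨s', f'⟩ e
    have e' : s.1 * f.1 = s'.1 * f'.1 := e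
    have e2 : (s'.1)⁻¹ * s.1 = f'.1 * (f.1)⁻¹ := by
      calc (s'.1)⁻¹ * s.1 = (s'.1)⁻¹ * (s.1 * f.1) * (f.1)⁻¹ := by group
        _ = (s'.1)⁻¹ * (s'.1 * f'.1) * (f.1)⁻¹ := by rw [e']
        _ = f'.1 * (f.1)⁻¹ := by group
    have h1 : (s'.1)⁻¹ * s.1 ∈ Y := Y.mul_mem (Y.inv_mem s'.2) s.2
    have h2 : (s'.1)⁻¹ * s.1 ∈ Subgroup.closure A := by
      rw [e2]
      exact Subgroup.mul_mem _ f'.2 (Subgroup.inv_mem _ f.2)
    have h3 : (s'.1)⁻¹ * s.1 = 1 := by
      have := (hmemY _).1 h1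
      exact closure_Y h hc hu hv hn this.1 this.2 h2
    have h4 : s.1 = s'.1 := (inv_mul_eq_one.1 h3).symm
    have h5 : f.1 = f'.1 := by
      rw [h4] at e'
      exact mul_left_cancel e'
    rw [Subtype.ext h4, Subtype.ext h5]
  have hcard : Nat.card (Y × Subgroup.closure A) = Nat.card Λ := by
    rw [Nat.card_prod, hYc, card_M h hc hu, card_Λ h hc hu]
  have hsurj := (Nat.bijective_iff_injective_and_card F).2 ⟨hinj, hcard⟩
  obtain ⟨⟨y, m⟩, hym⟩ := hsurj.2 g
  exact ⟨y.1, m.1, ((hmemY y.1).1 y.2).1, ((hmemY y.1).1 y.2).2, m.2, hym.symm⟩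

/-- An element of the generated subgroup stabilizing all lines is trivial. -/
theorem fix_all (h : CT A t) (hc : Nat.card A = 15) {g : Λ} (hg : g ∈ Subgroup.closure A) {u : Λ}
    (hu : u ∈ A) (hall : ∀ r ∈ A, Fx g r) : g = 1 := by
  obtain ⟨v, hv, hn⟩ := exists_anti h hc hu
  have h3 : g ^ 3 = 1 :=
    closure_Y h hc hu hv hn (cube h hu (hall u hu)) (cube h hv (hall v hv))
      (Subgroup.pow_mem _ hg 3)
  by_contra hg1
  obtain ⟨p, hp, h1, h2⟩ := exists_third h hc hu hv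
  exact no_three h h3 hg1 ⟨hu, hall u hu⟩ ⟨hv, hall v hv⟩ ⟨hp, hall p hp⟩ hn h1 h2

/-- The generated subgroup is the alternating group. -/
theorem M_alt (h : CT A t) (hc : Nat.card A = 15) {u : Λ} (hu : u ∈ A) :
    Nonempty (Subgroup.closure A ≃* alternatingGroup (Fin 5)) := by
  set M := Subgroup.closure A with hM
  obtain ⟨v, hv, hn⟩ := exists_anti h hc hu
  obtain ⟨w₁, hw₁, w₂, hw₂, h1, h2, h3, h4⟩ := exists_tau h hu hv hn
  set τ := w₁ * w₂ with hτ
  have hτM : τ ∈ M := Subgroup.mul_mem _ (Subgroup.subset_closure hw₁) (Subgroup.subset_closure hw₂)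
  set K₀ := Kg h hu ⊓ M with hK₀
  have hcard12 : Nat.card K₀ = 12 := by
    have hle : K₀ ⊓ Subgroup.centralizer ({u} : Set Λ) = Fs h hu := by
      rw [← closure_E h hc hu]
      apply le_antisymm
      · rintro g ⟨⟨-, h6⟩, h7⟩
        exact ⟨h6, h7⟩
      · rintro g ⟨h6, h7⟩
        refine ⟨⟨fx_of_comm (Subgroup.mem_centralizer_singleton_iff.1 h7), h6⟩, h7⟩
    have e := orbit_card K₀ u {b | b ∈ A ∧ Commute b u}
      (fun g hg => ⟨h.conj u hu g, hg.1⟩)
      (fun y hy => by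
        have hm := ord3_move h h1 h2 hu
        obtain ⟨e1, e2, e3⟩ := cycle h hu h3 hm
        rcases line_third h hu (h.conj u hu τ) e1 h3 hy.1 hy.2 with e | e | e
        · exact ⟨1, K₀.one_mem, by rw [e]; simp⟩
        · exact ⟨τ, ⟨h3, hτM⟩, e.symm⟩
        · refine ⟨τ * τ, ⟨fx_mul h hu h3 h3, Subgroup.mul_mem _ hτM hτM⟩, ?_⟩
          rw [e, ← e2]
          group)
    rw [hle, card_Fs h hu, Nat.card_coe_set_eq, line_ncard h hu] at e
    omega
  have hM60 : Nat.card M = 60 := card_M h hc hu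
  have hcard' : Nat.card (K₀.subgroupOf M) = 12 := by
    rw [← hcard12]
    exact Nat.card_congr (Subgroup.subgroupOfEquivOfLe inf_le_right).toEquiv
  have hidx : (K₀.subgroupOf M).index = 5 := by
    have e := Subgroup.card_mul_index (K₀.subgroupOf M)
    rw [hcard', hM60] at e
    omega
  apply iso_alt 5 (by norm_num) (K₀.subgroupOf M) hidx
  · intro g hg
    apply Subtype.ext
    apply fix_all h hc g.2 hu
    intro r hr
    obtain ⟨m, hm, hme⟩ := closure_trans h hc hu hr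
    have h5 := hg ⟨m, hm⟩
    have h6 : (m⁻¹ * g.1 * m) ∈ K₀ := h5
    have h7 : Fx (m⁻¹ * g.1 * m) u := h6.1
    have h8 := fx_conj h7 m
    rw [hme] at h8
    have e : m * (m⁻¹ * g.1 * m) * m⁻¹ = g.1 := by group
    rwa [e] at h8
  · rw [hM60]
    decide

/-- Every point outside a line lies on a translate of a fixed line. -/
theorem F_cover (h : CT A t) {u v r : Λ} (hu : u ∈ A) (hv : v ∈ A) (hn : ¬ Commute u v) (hr : r ∈ A)
    (hru : ¬ Commute r u) : ∃ f : Λ, (f = 1 ∨ (f ∈ A ∧ Commute f u)) ∧ Commute r (f * v * f⁻¹) := by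
  obtain ⟨w₁, hw₁, w₂, hw₂, h1, h2, h3, h4⟩ := exists_tau h hu hv hn
  set τ := w₁ * w₂ with hτ
  obtain ⟨g, hg, rfl⟩ := K_trans h hu hv hn h1 h2 h3 h4 hr hru
  have hgi : Fx g⁻¹ u := fx_inv hg
  -- `g = e * τ⁻ⁱ`
  have hex : ∃ (e σ : Λ), Commute e u ∧ g = e * σ ∧ Commute (σ * v * σ⁻¹) v := by
    have hτi : Fx τ⁻¹ v := fx_inv h4
    rcases K_decomp h hu h1 h2 h3 hgi with e | e | e
    · refine ⟨g, 1, ?_, by simp, ?_⟩
      · have : Commute g⁻¹⁻¹ u := e.inv_left
        rwa [inv_inv] at this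
      · simp
    · refine ⟨g * τ, τ⁻¹, ?_, by group, hτi⟩
      have : Commute (τ⁻¹ * g⁻¹)⁻¹ u := e.inv_left
      rwa [mul_inv_rev, inv_inv, inv_inv] at this
    · refine ⟨g * τ * τ, τ⁻¹ * τ⁻¹, ?_, by group, fx_mul h hv hτi hτi⟩
      have : Commute (τ⁻¹ * τ⁻¹ * g⁻¹)⁻¹ u := e.inv_left
      have e2 : (τ⁻¹ * τ⁻¹ * g⁻¹)⁻¹ = g * τ * τ := by
        simp only [mul_inv_rev, inv_inv, mul_assoc]
      rwa [e2] at this
  obtain ⟨e, σ, he, rfl, hσ⟩ := hex
  obtain ⟨y, f, hy1, hy2, hf, rfl⟩ := E_decomp h hu hv hn he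
  refine ⟨f, hf, ?_⟩
  have hcen : ∀ g, Commute y g := fun g => Y_center h hu hv hn hy1 hy2 g
  -- rewrite
  have e1 : y * f * σ * v * (y * f * σ)⁻¹ = f * (σ * v * σ⁻¹) * f⁻¹ := by
    have e2 : y * f * σ * v * (y * f * σ)⁻¹ = y * (f * (σ * v * σ⁻¹) * f⁻¹) * y⁻¹ := by group
    rw [e2]
    exact conj_eq_of_comm (hcen _)
  rw [e1]
  exact cconj hσ f

/-- An endomorphism of period three preserving the points and fixing one of them is trivial on the
generated subgroup. -/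
theorem aut_three (h : CT A t) (hc : Nat.card A = 15) (s : Λ →* Λ) (hs3 : ∀ x, s (s (s x)) = x)
    (hsA : ∀ u ∈ A, s u ∈ A) {u₀ : Λ} (hu₀ : u₀ ∈ A) (hfix : s u₀ = u₀) :
    ∀ m ∈ Subgroup.closure A, s m = m := by
  have huu := h.sq u₀ hu₀
  obtain ⟨v₀, hv₀, hn⟩ := exists_anti h hc hu₀
  have hscomm : ∀ {a b : Λ}, Commute (s a) (s b) → Commute a b := by
    intro a b e
    have h1 := (e.map s).map s
    rwa [hs3, hs3] at h1
  have hF : ∀ f, (f = 1 ∨ (f ∈ A ∧ Commute f u₀)) → s f = f := by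
    rintro f (rfl | ⟨hf, hfu⟩)
    · exact map_one s
    · by_cases e : f = u₀
      · rw [e, hfix]
      · have h1 : Commute (s f) u₀ := by
          have := hfu.map s
          rwa [hfix] at this
        rcases line_third h hu₀ hf e hfu (hsA f hf) h1 with e1 | e1 | e1
        · exfalso
          apply e
          have h2 : s (s (s f)) = s (s u₀) := by rw [e1]
          rw [hs3, hfix, hfix] at h2
          exact h2
        · exact e1
        · exfalso
          have e2 : s (s f) = f := by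
            rw [e1, map_mul, hfix, e1, ← mul_assoc, huu, one_mul]
          have e3 := hs3 f
          rw [e2, e1] at e3
          exact h.ne_one hu₀ (mul_eq_right.1 e3)
  have hnv : ¬ Commute (s v₀) u₀ := by
    intro e
    apply hn
    have h1 : Commute (s v₀) (s u₀) := by rwa [hfix]
    exact (hscomm h1).symm
  have hv_fx : Commute (s v₀) v₀ := by
    obtain ⟨f, hf, hcf⟩ := F_cover h hu₀ hv₀ hn (hsA v₀ hv₀) hnv
    have hsf := hF f hf
    have hff : f * f = 1 := by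
      rcases hf with rfl | hf
      · simp
      · exact h.sq f hf.1
    have hfi : f⁻¹ = f := inv_eq_of_mul_eq_one_left hff
    have h1 : Commute (s (s v₀)) (f * s v₀ * f⁻¹) := by
      have h2 := hcf.map s
      rw [map_mul, map_mul, map_inv, hsf] at h2
      exact h2
    have h2 : Commute (f * s v₀ * f⁻¹) v₀ := by
      have h3 := cconj hcf f
      have e : f * (f * v₀ * f⁻¹) * f⁻¹ = v₀ := by
        rw [hfi]
        calc f * (f * v₀ * f) * f = (f * f) * v₀ * (f * f) := by group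
          _ = v₀ := by rw [hff]; simp
      rwa [e] at h3
    have h3 : Commute (s (s v₀)) v₀ :=
      comm_trans h (hsA _ (hsA _ hv₀)) (h.conj _ (hsA _ hv₀) f) h1 h2
    have h4 := h3.map s
    rw [hs3] at h4
    exact h4.symm
  have hr_fx : ∀ r ∈ A, Commute (s r) r := by
    intro r hr
    by_cases hru : Commute r u₀
    · have h1 : Commute (s r) u₀ := by
        have := hru.map s
        rwa [hfix] at this
      exact comm_trans h (hsA r hr) hu₀ h1 hru.symm
    · obtain ⟨f, hf, hcf⟩ := F_cover h hu₀ hv₀ hn hr hru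
      have hsf := hF f hf
      have hq : f * v₀ * f⁻¹ ∈ A := h.conj v₀ hv₀ f
      have h1 : s (f * v₀ * f⁻¹) = f * s v₀ * f⁻¹ := by
        rw [map_mul, map_mul, map_inv, hsf]
      have h2 : Commute (s (f * v₀ * f⁻¹)) (f * v₀ * f⁻¹) := by
        rw [h1]
        exact cconj hv_fx f
      have h3 : Commute (s r) (s (f * v₀ * f⁻¹)) := hcf.map s
      have h4 : Commute (s r) (f * v₀ * f⁻¹) := comm_trans h (hsA r hr) (hsA _ hq) h3 h2
      exact comm_trans h (hsA r hr) hq h4 hcf.symm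
  have hsM : ∀ m ∈ Subgroup.closure A, s m ∈ Subgroup.closure A := by
    intro m hm
    have hle : (Subgroup.closure A).map s ≤ Subgroup.closure A := by
      rw [MonoidHom.map_closure, Subgroup.closure_le]
      rintro _ ⟨a, ha, rfl⟩
      exact Subgroup.subset_closure (hsA a ha)
    exact hle ⟨m, hm, rfl⟩
  intro m hm
  have hcM : s m * m⁻¹ ∈ Subgroup.closure A := Subgroup.mul_mem _ (hsM m hm) (Subgroup.inv_mem _ hm)
  have hall : ∀ r ∈ A, Fx (s m * m⁻¹) r := by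
    intro r hr
    have hr' : m⁻¹ * r * m⁻¹⁻¹ ∈ A := h.conj r hr m⁻¹
    have hr'' : s (s (m⁻¹ * r * m⁻¹⁻¹)) ∈ A := hsA _ (hsA _ hr')
    have hp : m * s (s (m⁻¹ * r * m⁻¹⁻¹)) * m⁻¹ ∈ A := h.conj _ hr'' m
    have e : (s m * m⁻¹) * r * (s m * m⁻¹)⁻¹ = s (m * s (s (m⁻¹ * r * m⁻¹⁻¹)) * m⁻¹) := by
      rw [map_mul, map_mul, map_inv, hs3]
      group
    show Commute ((s m * m⁻¹) * r * (s m * m⁻¹)⁻¹) r
    rw [e]
    have h1 := hr_fx _ hp
    have h3 : Commute (s (s (m⁻¹ * r * m⁻¹⁻¹))) (m⁻¹ * r * m⁻¹⁻¹) :=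
      comm_trans h hr'' (hsA _ hr') (hr_fx _ (hsA _ hr')) (hr_fx _ hr')
    have h2 : Commute (m * s (s (m⁻¹ * r * m⁻¹⁻¹)) * m⁻¹) r := by
      have h4 := cconj h3 m
      have e2 : m * (m⁻¹ * r * m⁻¹⁻¹) * m⁻¹ = r := by group
      rwa [e2] at h4
    exact comm_trans h (hsA _ hp) hp h1 h2
  have hc1 := fix_all h hc hcM hu₀ hall
  exact mul_inv_eq_one.1 hc1

end Cfsg.Agent.Lib.CITFive
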