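import Cfsg.Agent.Lib.CRCore50
import Cfsg.Agent.Lib.StChevP50
import Cfsg.Agent.Lib.Chev.RankOne
import Cfsg.Agent.Lib.Chev.CoxChev
import Cfsg.Agent.Lib.Chev.WeylPerm
import Cfsg.Agent.Lib.Chev.Cells
import Cfsg.Agent.Lib.Chev.Opp

/-!
# The Curtis--Richen data of a Chevalley group
-/

set_option autoImplicit false
set_option linter.unusedSectionVars false
set_option linter.unusedVariables false

namespace Cfsg.Agent.Lib.CRChev50

open Cfsg Cfsg.Lie Cfsg.Agent.Lib.Chev Cfsg.Agent.Lib.StChev50 Cfsg.Agent.Lib.ExchangeCoxeter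
open Cfsg.Agent.Lib.Chev.WeylAbs
open Cfsg.Agent.Lib

variable {F : Type*} [Field F] {T : Tabs} {X : Extra} {R : RootTab} {D : ChevalleyDatum}
  (hF : Full T X R D)

/-- `N` in the group. -/
abbrev NN (D : ChevalleyDatum) (F : Type*) [Field F] : Subgroup ↥(D.group F) :=
  (D.monomialSubgroup F).subgroupOf (D.group F)

/-- The root element of a fundamental root. -/
noncomputable def xx (hF : Full T X R D) (F : Type*) [Field F] (i : Fin D.rank) (t : F) : ↥(D.group F) :=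
  ⟨hF.c.xG (D.simple i) t, hF.c.xG_mem_group (hF.simple_lt i.2) t⟩

/-- The root element of the negative of a fundamental root. -/
noncomputable def yy (hF : Full T X R D) (F : Type*) [Field F] (i : Fin D.rank) (t : F) : ↥(D.group F) :=
  ⟨hF.c.xG (D.neg (D.simple i)) t, hF.c.xG_mem_group (hF.neg_lt (hF.simple_lt i.2)) t⟩

/-- The generators of `N` -/
noncomputable def nn (hF : Full T X R D) (F : Type*) [Field F] (i : Fin D.rank) : ↥(D.group F) :=
  hF.nGp i.2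

/-- The coroot elements -/
noncomputable def hhh (hF : Full T X R D) (F : Type*) [Field F] (i : Fin D.rank) (t : Fˣ) : ↥(D.group F) :=
  ⟨hF.hS F i.2 t, hF.c.diagonal_le_group (hF.tor_mem_diagonal _)⟩

/-- The element `m` of `N` sends the `i`-th fundamental root to a positive root. -/
def upp (hF : Full T X R D) (F : Type*) [Field F] (m : ↥(D.group F)) (i : Fin D.rank) : Prop :=
  ∃ hm : m.1 ∈ D.monomialSubgroup F, R.N ≤ ((hF.rhoN F ⟨m.1, hm⟩ (hF.pF i) : Fin D.nroots) : ℕ)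

open Classical in
/-- The number of positive roots made negative. -/
noncomputable def lenn (hF : Full T X R D) (F : Type*) [Field F] (m : ↥(D.group F)) : ℕ :=
  if hm : m.1 ∈ D.monomialSubgroup F then Full.invF R D (hF.rhoN F ⟨m.1, hm⟩) else 0

include hF

theorem xx_mem (i : Fin D.rank) (t : F) : xx hF F i t ∈ UU D F :=
  Subgroup.mem_subgroupOf.2 (hF.xG_mem_U (hF.simple_lt i.2) (hF.simple_ge i.2) t)

theorem nn_mem (i : Fin D.rank) : nn hF F i ∈ NN D F :=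
  Subgroup.mem_subgroupOf.2 (hF.nS_mem_monomial i.2)

theorem hhh_mem (i : Fin D.rank) (t : Fˣ) : hhh hF F i t ∈ HH D F :=
  Subgroup.mem_subgroupOf.2 (hF.tor_mem_diagonal _)

theorem hhh_mul (i : Fin D.rank) (a b : Fˣ) : hhh hF F i (a * b) = hhh hF F i a * hhh hF F i b :=
  Subtype.ext (map_mul (hF.hS F i.2) a b)

theorem HH_comm (a : ↥(D.group F)) (ha : a ∈ HH D F) (b : ↥(D.group F)) (hb : b ∈ HH D F) :
    a * b = b * a := by
  obtain ⟨c, hc⟩ := (hF.mem_diagonal_iff).1 (Subgroup.mem_subgroupOf.1 ha)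
  obtain ⟨e, he⟩ := (hF.mem_diagonal_iff).1 (Subgroup.mem_subgroupOf.1 hb)
  apply Subtype.ext
  show a.1 * b.1 = b.1 * a.1
  rw [hc, he, tor_mul, tor_mul, mul_comm]

theorem HH_le_NN : HH D F ≤ NN D F := fun a ha =>
  Subgroup.mem_subgroupOf.2 (hF.c.diagonal_le_monomial (Subgroup.mem_subgroupOf.1 ha))

theorem NN_HH (m : ↥(D.group F)) (hm : m ∈ NN D F) (h : ↥(D.group F)) (hh : h ∈ HH D F) :
    m * h * m⁻¹ ∈ HH D F := by
  rw [Subgroup.mem_subgroupOf] at hm hh ⊢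
  exact (Subgroup.mem_set_normalizer_iff.1 (hF.monomial_le_normalizer hm) h.1).1 hh

theorem HH_UU (h : ↥(D.group F)) (hh : h ∈ HH D F) (u : ↥(D.group F)) (hu : u ∈ UU D F) :
    h * u * h⁻¹ ∈ UU D F := by
  rw [Subgroup.mem_subgroupOf] at hh hu ⊢
  exact (Subgroup.mem_set_normalizer_iff.1 (hF.diagonal_le_normalizer_U hh) u.1).1 hu

theorem bruhat (g : ↥(D.group F)) : ∃ u ∈ UU D F, ∃ m ∈ NN D F, ∃ u' ∈ UU D F, g = u * m * u' := by
  obtain ⟨n, hn, hg⟩ := Cfsg.Agent.Lib.BNPair.exists_mem_dc (P := hF.bnPair F) g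
  obtain ⟨b, hb, b', hb', rfl⟩ := Cfsg.Agent.Lib.BNPair.mem_dc.1 hg
  have hB : (hF.bnPair F).B = (D.borelSubgroup F).subgroupOf (D.group F) := rfl
  rw [hB] at hb hb'
  obtain ⟨u, hu, h, hh, e⟩ := (hF.mem_borel_iff).1 (Subgroup.mem_subgroupOf.1 hb)
  obtain ⟨u', hu', h', hh', e'⟩ := (hF.mem_borel_iff).1 (Subgroup.mem_subgroupOf.1 hb')
  have hG := hF.c.posUnipotent_le_group (F := F)
  have hG' := hF.c.diagonal_le_group (F := F)
  let U₁ : ↥(D.group F) := ⟨u, hG hu⟩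
  let H₁ : ↥(D.group F) := ⟨h, hG' hh⟩
  let U₂ : ↥(D.group F) := ⟨u', hG hu'⟩
  let H₂ : ↥(D.group F) := ⟨h', hG' hh'⟩
  have hH₁ : H₁ ∈ HH D F := Subgroup.mem_subgroupOf.2 hh
  have hH₂ : H₂ ∈ HH D F := Subgroup.mem_subgroupOf.2 hh'
  have e1 : b = U₁ * H₁ := Subtype.ext e
  have e2 : b' = U₂ * H₂ := Subtype.ext e'
  refine ⟨U₁, Subgroup.mem_subgroupOf.2 hu, H₁ * n * H₂, ?_, H₂⁻¹ * U₂ * H₂, ?_, ?_⟩
  · have hn' : n ∈ NN D F := hn
    exact Subgroup.mul_mem _ (Subgroup.mul_mem _ (HH_le_NN hF hH₁) hn') (HH_le_NN hF hH₂)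
  · have := HH_UU hF H₂⁻¹ (Subgroup.inv_mem _ hH₂) U₂ (Subgroup.mem_subgroupOf.2 hu')
    simpa using this
  · rw [e1, e2]
    group

/-- Powers in `H U`. -/
theorem pow_mul_U (h : ↥(D.group F)) (hh : h ∈ HH D F) (v : ↥(D.group F)) (hv : v ∈ UU D F) (k : ℕ) :
    ∃ v' ∈ UU D F, (h * v) ^ k = h ^ k * v' := by
  induction k with
  | zero => exact ⟨1, Subgroup.one_mem _, by simp⟩
  | succ k ih =>
    obtain ⟨v', hv', e⟩ := ih
    refine ⟨h⁻¹ * v' * h * v, Subgroup.mul_mem _ ?_ hv, ?_⟩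
    · have := HH_UU hF h⁻¹ (Subgroup.inv_mem _ hh) v' hv'
      simpa using this
    · rw [pow_succ, e, pow_succ]
      group

theorem uniq (p : ℕ) [hp : Fact p.Prime] [CharP F p] [Fintype F] (u : ↥(D.group F)) (hu : u ∈ UU D F) (m : ↥(D.group F)) (hm : m ∈ NN D F)
    (u' : ↥(D.group F)) (hu' : u' ∈ UU D F) (m' : ↥(D.group F)) (hm' : m' ∈ NN D F)
    (e : u * m * u' = m') : m = m' := by
  have hm1 : m.1 ∈ D.monomialSubgroup F := Subgroup.mem_subgroupOf.1 hm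
  have hm1' : m'.1 ∈ D.monomialSubgroup F := Subgroup.mem_subgroupOf.1 hm'
  have h1 : m'.1 ∈ Full.cellS D F m.1 :=
    ⟨u.1, hF.c.posUnipotent_le_borel (Subgroup.mem_subgroupOf.1 hu), u'.1,
      hF.c.posUnipotent_le_borel (Subgroup.mem_subgroupOf.1 hu'), by rw [← e]; rfl⟩
  have h2 := hF.cell_disjoint hm1 hm1' h1 (Full.self_mem_cell _)
  have h3 : m.1⁻¹ * m'.1 ∈ D.diagonalSubgroup F := by
    rw [← hF.B_inf_N]
    exact ⟨h2, Subgroup.mul_mem _ (Subgroup.inv_mem _ hm1) hm1'⟩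
  set h : ↥(D.group F) := m⁻¹ * m' with hdef
  have hh : h ∈ HH D F := Subgroup.mem_subgroupOf.2 h3
  -- `m⁻¹ u m = h u'⁻¹`
  have e2 : m⁻¹ * u * m = h * u'⁻¹ := by
    rw [hdef, ← e]
    group
  obtain ⟨v', hv', e3⟩ := pow_mul_U hF h hh u'⁻¹ (Subgroup.inv_mem _ hu') (Nat.card (UU D F))
  have h4 : (m⁻¹ * u * m) ^ Nat.card (UU D F) = 1 := by
    have h5 : u ^ Nat.card (UU D F) = 1 := by
      have := pow_card_eq_one' (G := UU D F) (x := ⟨u, hu⟩)
      exact congrArg Subtype.val this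
    have h6 : m⁻¹ * u * m = (MulAut.conj m⁻¹) u := by simp
    rw [h6, ← map_pow, h5, map_one]
  rw [e2, e3] at h4
  have h5 : h ^ Nat.card (UU D F) = (v')⁻¹ := eq_inv_of_mul_eq_one_left h4
  have h6 : h ^ Nat.card (UU D F) ∈ UU D F := by
    rw [h5]
    exact Subgroup.inv_mem _ hv'
  have h7 : h ^ Nat.card (UU D F) ∈ HH D F := Subgroup.pow_mem _ hh _
  have h8 : (h ^ Nat.card (UU D F)).1 ∈ D.posUnipotent F ⊓ D.diagonalSubgroup F :=
    ⟨Subgroup.mem_subgroupOf.1 h6, Subgroup.mem_subgroupOf.1 h7⟩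
  rw [hF.U_inf_H, Subgroup.mem_bot] at h8
  have h9 : h ^ Nat.card (UU D F) = 1 := Subtype.ext h8
  obtain ⟨n, _, hn⟩ := FiniteField.card F p
  have hpp := hp.out
  have h10 : Nat.card (UU D F) = p ^ (n * R.N) := by
    rw [card_UU hF, hn, pow_mul]
  rw [h10] at h9
  obtain ⟨f, _, hf⟩ := (Nat.dvd_prime_pow hpp).1 (orderOf_dvd_of_pow_eq_one h9)
  have h11 : orderOf h ∣ Nat.card (D.diagonalSubgroup F) := by
    have h12 : orderOf h = orderOf (⟨h, hh⟩ : HH D F) := (Subgroup.orderOf_mk _ _).symm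
    rw [h12, ← card_HH hF]
    exact orderOf_dvd_natCard _
  have hf0 : f = 0 := by
    by_contra hf0
    apply not_dvd_card_diag (F := F) (p := p) hF
    apply Dvd.dvd.trans _ h11
    rw [hf]
    exact dvd_pow_self _ hf0
  rw [hf0, pow_zero, orderOf_eq_one_iff] at hf
  rw [hdef] at hf
  exact (inv_mul_eq_one.1 hf)


theorem up_x (m : ↥(D.group F)) (i : Fin D.rank) (t : F) (h : upp hF F m i) :
    m * xx hF F i t * m⁻¹ ∈ UU D F := by
  obtain ⟨hm, hpos⟩ := h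
  obtain ⟨u, hu⟩ := hF.rhoN_spec_apply ⟨m.1, hm⟩ (hF.pF i)
  rw [Subgroup.mem_subgroupOf]
  have h1 := hu t
  have h2 : ((m * xx hF F i t * m⁻¹ : ↥(D.group F)) : GL D.Idx F) =
      m.1 * hF.c.xG ((hF.pF i : Fin D.nroots) : ℕ) t * m.1⁻¹ := rfl
  rw [h2, h1]
  exact hF.xG_mem_U (Fin.is_lt _) hpos _

theorem down_y (m : ↥(D.group F)) (hm : m ∈ NN D F) (i : Fin D.rank) (t : F) (h : ¬ upp hF F m i) :
    m * yy hF F i t * m⁻¹ ∈ UU D F := by
  have hm1 : m.1 ∈ D.monomialSubgroup F := Subgroup.mem_subgroupOf.1 hm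
  have hneg : ¬ R.N ≤ ((hF.rhoN F ⟨m.1, hm1⟩ (hF.pF i) : Fin D.nroots) : ℕ) := fun h' => h ⟨hm1, h'⟩
  obtain ⟨u, hu⟩ := hF.rhoN_spec ⟨m.1, hm1⟩
  have h1 := hu.conj (hF.negF (hF.pF i)) t
  rw [hu.neg_σ] at h1
  rw [Subgroup.mem_subgroupOf]
  have h2 : ((m * yy hF F i t * m⁻¹ : ↥(D.group F)) : GL D.Idx F) =
      m.1 * hF.c.xG ((hF.negF (hF.pF i) : Fin D.nroots) : ℕ) t * m.1⁻¹ := rfl
  rw [h2, h1]
  exact hF.xG_mem_U (Fin.is_lt _) (hF.neg_ge_N (not_le.1 hneg)) _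

theorem sl2 (i : Fin D.rank) (t : Fˣ) :
    ∃ a b, xx hF F i t * nn hF F i = yy hF F i a * hhh hF F i (-t) * xx hF F i b := by
  have hR := hF.rankOne (F := F) i.2
  set c : Fˣ := -t with hc
  have h0 := hR.nt c⁻¹
  have hcoe : -(((c⁻¹ : Fˣ) : F))⁻¹ = (t : F) := by
    rw [hc]
    simp
  rw [hcoe] at h0
  have h1 := hR.hx c ((c⁻¹ : Fˣ) : F)
  have h2 : ((c : F) ^ 2 * ((c⁻¹ : Fˣ) : F)) = (c : F) := by
    have hc0 : (c : F) ≠ 0 := c.ne_zero
    simp only [Units.val_inv_eq_inv_val]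
    field_simp
  rw [h2] at h1
  have h3 : (c : F) = -(t : F) := by rw [hc]; simp
  have h4 := hF.tor_conj_xG (Pi.mulSingle i c) (hF.neg_lt (hF.simple_lt i.2)) (t : F)
  rw [← hF.hS_apply] at h4
  refine ⟨((chiT D (Pi.mulSingle i c) (D.neg (D.simple i)) : Fˣ) : F) * t, ((c⁻¹ : Fˣ) : F), ?_⟩
  apply Subtype.ext
  show hF.c.xG (D.simple i) (t : F) * hF.nS i =
    hF.c.xG (D.neg (D.simple i)) (((chiT D (Pi.mulSingle i c) (D.neg (D.simple i)) : Fˣ) : F) * t) *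
      hF.hS F i.2 c * hF.c.xG (D.simple i) ((c⁻¹ : Fˣ) : F)
  rw [← h4]
  have h5 : hF.hS F i.2 c⁻¹ = (hF.hS F i.2 c)⁻¹ := map_inv _ _
  rw [h5] at h0
  have h6 : hF.nS (F := F) i = hF.hS F i.2 c * (hF.c.xG (D.simple i) ((c⁻¹ : Fˣ) : F) *
      hF.c.xG (D.neg (D.simple i)) (t : F) * hF.c.xG (D.simple i) ((c⁻¹ : Fˣ) : F)) := by
    rw [h0, mul_inv_cancel_left]
  have h7 : hF.hS F i.2 c * hF.c.xG (D.simple i) ((c⁻¹ : Fˣ) : F) =
      hF.c.xG (D.simple i) (c : F) * hF.hS F i.2 c := by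
    rw [← h1]
    group
  have h8 : hF.c.xG (D.simple i) (t : F) * hF.c.xG (D.simple i) (c : F) = 1 := by
    rw [hF.c.xG_add, h3, add_neg_cancel, hF.c.xG_zero]
  calc hF.c.xG (D.simple i) (t : F) * hF.nS i
      = hF.c.xG (D.simple i) (t : F) * (hF.hS F i.2 c * hF.c.xG (D.simple i) ((c⁻¹ : Fˣ) : F)) *
          (hF.c.xG (D.neg (D.simple i)) (t : F) * hF.c.xG (D.simple i) ((c⁻¹ : Fˣ) : F)) := by
        conv_lhs => rw [h6]
        group
    _ = (hF.c.xG (D.simple i) (t : F) * hF.c.xG (D.simple i) (c : F)) * hF.hS F i.2 c *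
          (hF.c.xG (D.neg (D.simple i)) (t : F) * hF.c.xG (D.simple i) ((c⁻¹ : Fˣ) : F)) := by
        rw [h7]
        group
    _ = _ := by
        rw [h8]
        group

theorem n_sq (i : Fin D.rank) : nn hF F i * nn hF F i = hhh hF F i (-1) :=
  Subtype.ext (hF.nS_sq_eq i.2)

theorem rhoN_nn (m : ↥(D.group F)) (hm : m.1 ∈ D.monomialSubgroup F) (i : Fin D.rank)
    (hm' : (m * nn hF F i).1 ∈ D.monomialSubgroup F) :
    hF.rhoN F ⟨(m * nn hF F i).1, hm'⟩ = hF.rhoN F ⟨m.1, hm⟩ * hF.wPerm i.2 := by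
  rw [← hF.rhoN_nN (F := F) i.2, ← map_mul]
  rfl

theorem up_n (m : ↥(D.group F)) (hm : m ∈ NN D F) (i : Fin D.rank) :
    upp hF F (m * nn hF F i) i ↔ ¬ upp hF F m i := by
  have hm1 : m.1 ∈ D.monomialSubgroup F := Subgroup.mem_subgroupOf.1 hm
  have hm2 : (m * nn hF F i).1 ∈ D.monomialSubgroup F :=
    Subgroup.mul_mem _ hm1 (Subgroup.mem_subgroupOf.1 (nn_mem hF i))
  have key : ((hF.rhoN F ⟨(m * nn hF F i).1, hm2⟩ (hF.pF i) : Fin D.nroots) : ℕ) =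
      D.neg ((hF.rhoN F ⟨m.1, hm1⟩ (hF.pF i) : Fin D.nroots) : ℕ) := by
    rw [rhoN_nn hF m hm1 i hm2, Equiv.Perm.mul_apply]
    have h1 : hF.wPerm i.2 (hF.pF i) = hF.negF (hF.pF i) := hF.wPerm_simple i.2
    rw [h1, hF.neg_comm (hF.rhoN_mem_Wk _)]
    rfl
  constructor
  · rintro ⟨_, h⟩ ⟨_, h'⟩
    rw [key] at h
    have := hF.neg_lt_N (Fin.is_lt _) h'
    omega
  · intro h
    refine ⟨hm2, ?_⟩
    rw [key]
    apply hF.neg_ge_N
    by_contra h'
    exact h ⟨hm1, not_lt.1 h'⟩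

theorem len_up (m : ↥(D.group F)) (hm : m ∈ NN D F) (i : Fin D.rank) (h : upp hF F m i) :
    lenn hF F (m * nn hF F i) = lenn hF F m + 1 := by
  have hm1 : m.1 ∈ D.monomialSubgroup F := Subgroup.mem_subgroupOf.1 hm
  have hm2 : (m * nn hF F i).1 ∈ D.monomialSubgroup F :=
    Subgroup.mul_mem _ hm1 (Subgroup.mem_subgroupOf.1 (nn_mem hF i))
  obtain ⟨_, hpos⟩ := h
  unfold lenn
  rw [dif_pos hm2, dif_pos hm1, rhoN_nn hF m hm1 i hm2]
  exact (hF.invF_mul (hF.rhoN_mem_Wk _) i.2).1 hpos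

theorem len_H (m : ↥(D.group F)) (hm : m ∈ NN D F) (h : ↥(D.group F)) (hh : h ∈ HH D F) :
    lenn hF F (m * h) = lenn hF F m := by
  have hm1 : m.1 ∈ D.monomialSubgroup F := Subgroup.mem_subgroupOf.1 hm
  have hh1 : h.1 ∈ D.diagonalSubgroup F := Subgroup.mem_subgroupOf.1 hh
  have hh2 : h.1 ∈ D.monomialSubgroup F := hF.c.diagonal_le_monomial hh1
  have hm2 : (m * h).1 ∈ D.monomialSubgroup F := Subgroup.mul_mem _ hm1 hh2
  unfold lenn
  rw [dif_pos hm2, dif_pos hm1]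
  have e : hF.rhoN F ⟨(m * h).1, hm2⟩ = hF.rhoN F ⟨m.1, hm1⟩ * hF.rhoN F ⟨h.1, hh2⟩ := by
    rw [← map_mul]
    rfl
  rw [e, hF.rhoN_of_mem_diagonal ⟨h.1, hh2⟩ hh1, mul_one]

theorem shift (i : Fin D.rank) (u : ↥(D.group F)) (hu : u ∈ UU D F) :
    ∃ τ : Equiv.Perm F, ∀ t, ∃ u' ∈ UU D F, u * (xx hF F i t * nn hF F i) =
      (xx hF F i (τ t) * nn hF F i) * u' := by
  have hu1 : u.1 ∈ D.posUnipotent F := Subgroup.mem_subgroupOf.1 hu
  obtain ⟨u₀, hu₀, a, e⟩ := hF.mem_U_iff i.2 (Subgroup.inv_mem _ hu1)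
  have e' : u.1 = hF.c.xG (D.simple i) (-a) * u₀⁻¹ := by
    have : u.1 = (u₀ * hF.c.xG (D.simple i) a)⁻¹ := by rw [← e, inv_inv]
    rw [this, _root_.mul_inv_rev, hF.c.xG_inv]
  refine ⟨Equiv.addLeft (-a), fun t => ?_⟩
  set v : GL D.Idx F := (hF.c.xG (D.simple i) t)⁻¹ * u₀⁻¹ * hF.c.xG (D.simple i) t with hv
  have hv1 : v ∈ Full.Up D F i := by
    have h1 := (Subgroup.mem_set_normalizer_iff.1 (hF.xp_mem_normalizer (F := F) i.2 (-t)) u₀⁻¹).1
      (Subgroup.inv_mem _ hu₀)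
    rw [hF.c.xG_inv _ t] at hv
    rw [hv]
    have h2 : hF.c.xG (D.simple i) t = (hF.c.xG (D.simple i) (-t))⁻¹ := by
      rw [hF.c.xG_inv, neg_neg]
    conv => enter [2]; rw [h2]
    exact h1
  have hv2 : hF.nS i * v * (hF.nS i)⁻¹ ∈ Full.Up D F i := hF.nS_conj_Up i.2 hv1
  -- `n⁻¹ v n` is in `U`
  have hsq := hF.nS_sq_mem (F := F) i.2
  have h3 : (hF.nS i)⁻¹ * v * hF.nS i = (hF.nS i * hF.nS i)⁻¹ * (hF.nS i * v * (hF.nS i)⁻¹) * (hF.nS i * hF.nS i) := by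
    group
  have h4 : (hF.nS i)⁻¹ * v * hF.nS i ∈ D.posUnipotent F := by
    rw [h3]
    have h5 := (Subgroup.mem_set_normalizer_iff.1 (hF.diagonal_le_normalizer_U
      (Subgroup.inv_mem _ hsq)) _).1 (hF.Up_le_U i hv2)
    simpa using h5
  refine ⟨⟨(hF.nS i)⁻¹ * v * hF.nS i, hF.c.posUnipotent_le_group h4⟩, Subgroup.mem_subgroupOf.2 h4, ?_⟩
  apply Subtype.ext
  show u.1 * (hF.c.xG (D.simple i) t * hF.nS i) =
    hF.c.xG (D.simple i) (-a + t) * hF.nS i * ((hF.nS i)⁻¹ * v * hF.nS i)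
  rw [e', ← hF.c.xG_add, hv]
  group

theorem H_x (h : ↥(D.group F)) (hh : h ∈ HH D F) (i : Fin D.rank) :
    ∃ a : Fˣ, ∀ t, h * xx hF F i t * h⁻¹ = xx hF F i ((a : F) * t) := by
  obtain ⟨c, hc⟩ := (hF.mem_diagonal_iff).1 (Subgroup.mem_subgroupOf.1 hh)
  refine ⟨chiT D c (D.simple i), fun t => ?_⟩
  apply Subtype.ext
  show h.1 * hF.c.xG (D.simple i) t * h.1⁻¹ = hF.c.xG (D.simple i) (((chiT D c (D.simple i) : Fˣ) : F) * t)
  rw [hc, hF.tor_conj_xG c (hF.simple_lt i.2)]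


theorem cartan_wf_gen {i j s : ℕ} (hi : i < D.rank) (hj : j < D.rank) (hs : s < D.nroots) :
    D.cartan j (X.wf i s) = D.cartan j s - D.cartan i s * D.cartan j (D.simple i) := by
  have hw := hF.wf_lt hi hs
  rw [hF.r.cartan_lin j hj _ hw, sumZ_eq]
  have h1 : ∀ k ∈ Finset.range D.rank, R.rcAt (X.wf i s) k * D.cartan j (D.simple k) =
      R.rcAt s k * D.cartan j (D.simple k) -
        (if k = i then D.cartan i s * D.cartan j (D.simple k) else 0) := by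
    intro k hk
    rw [hF.wf_rc hi hs (Finset.mem_range.1 hk)]
    by_cases hki : k = i
    · simp only [hki, if_true]
      ring
    · simp [hki]
  rw [Finset.sum_congr rfl h1, Finset.sum_sub_distrib, ← sumZ_eq, ← hF.r.cartan_lin j hj s hs,
    Finset.sum_ite_eq' (Finset.range D.rank) i, if_pos (Finset.mem_range.2 hi)]

omit hF in
theorem chiT_mul (c d : Fin D.rank → Fˣ) (s : ℕ) : chiT D (c * d) s = chiT D c s * chiT D d s := by
  unfold chiT
  rw [← Finset.prod_mul_distrib]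
  apply Finset.prod_congr rfl
  intro i _
  rw [Pi.mul_apply, mul_zpow]

theorem chiT_wf (c : Fin D.rank → Fˣ) {i s : ℕ} (hi : i < D.rank) (hs : s < D.nroots) :
    chiT D c (X.wf i s) = chiT D c s * (chiT D c (D.simple i))⁻¹ ^ D.cartan i s := by
  unfold chiT
  rw [← Finset.prod_inv_distrib, ← Finset.prod_zpow, ← Finset.prod_mul_distrib]
  apply Finset.prod_congr rfl
  intro j _
  rw [cartan_wf_gen hF hi j.2 hs, _root_.zpow_sub, mul_comm (D.cartan i s), _root_.zpow_mul, _root_.inv_zpow]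

theorem hS_eq_tor (i : Fin D.rank) (a : Fˣ) : hF.hS F i.2 a = tor R D (Pi.mulSingle i a) := rfl

theorem refl (h : ↥(D.group F)) (hh : h ∈ HH D F) (i : Fin D.rank) :
    ∃ a : Fˣ, (nn hF F i)⁻¹ * h * nn hF F i = h * hhh hF F i a := by
  obtain ⟨c, hc⟩ := (hF.mem_diagonal_iff).1 (Subgroup.mem_subgroupOf.1 hh)
  refine ⟨(chiT D c (D.simple i))⁻¹, ?_⟩
  set a : Fˣ := (chiT D c (D.simple i))⁻¹ with ha
  apply Subtype.ext
  show (hF.nS (F := F) i)⁻¹ * h.1 * hF.nS i = h.1 * hF.hS F i.2 a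
  have hmem : (hF.nS (F := F) i)⁻¹ * h.1 * hF.nS i ∈ D.diagonalSubgroup F := by
    have h1 := (Subgroup.mem_set_normalizer_iff.1 (hF.monomial_le_normalizer
      (Subgroup.inv_mem _ (hF.nS_mem_monomial (F := F) i.2))) h.1).1 (Subgroup.mem_subgroupOf.1 hh)
    simpa using h1
  obtain ⟨e, he⟩ := (hF.mem_diagonal_iff).1 hmem
  rw [he, hS_eq_tor, hc, tor_mul, hF.tor_eq, hF.tor_eq]
  apply diagG_congr
  intro s hs
  have hw := hF.wf_lt i.2 hs
  have h1 := hF.tor_conj_xG e hs (1 : F)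
  rw [← he, hc] at h1
  have h2 : (hF.nS (F := F) i)⁻¹ * tor R D c * hF.nS i * hF.c.xG s 1 * ((hF.nS i)⁻¹ * tor R D c * hF.nS i)⁻¹ =
      (hF.nS i)⁻¹ * (tor R D c * (hF.nS i * hF.c.xG s 1 * (hF.nS i)⁻¹) * (tor R D c)⁻¹) * hF.nS i := by
    group
  rw [h2, hF.nS_conj_xG i.2 hs, hF.tor_conj_xG _ hw, hF.nS_inv_conj_xG i.2 hw, hF.wf_wf i.2 hs] at h1
  have h3 := hF.xG_param_inj hs h1
  have h4 := hF.eta_sq (F := F) i.2 hs
  apply Units.ext
  have h5 : ((chiT D e s : Fˣ) : F) = ((chiT D c (X.wf i s) : Fˣ) : F) := by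
    linear_combination (-1 : F) * h3 + ((chiT D c (X.wf i s) : Fˣ) : F) * h4
  rw [h5, chiT_wf hF c i.2 hs, chiT_mul, hF.mulSingle_chiT]

/-- The element of the monomial group given by a word -/
noncomputable def nnM (hF : Full T X R D) (F : Type*) [Field F] (l : List (Fin D.rank)) :
    ↥(D.monomialSubgroup F) :=
  (l.map (fun i : Fin D.rank => hF.nN (F := F) i.2)).prod

theorem nnM_coe (l : List (Fin D.rank)) :
    (nnM hF F l).1 = (((l.map (nn hF F)).prod : ↥(D.group F))).1 := by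
  induction l with
  | nil => rfl
  | cons i l ih =>
    simp only [nnM, List.map_cons, List.prod_cons] at ih ⊢
    show hF.nS i * _ = hF.nS i * _
    rw [ih]

theorem rhoN_nnM_mem (J : Set ℕ) (l : List (Fin D.rank)) (hl : ∀ i ∈ l, (i : ℕ) ∈ J) :
    hF.rhoN F (nnM hF F l) ∈ hF.Wk J := by
  induction l with
  | nil =>
    simp only [nnM, List.map_nil, List.prod_nil, map_one]
    exact Subgroup.one_mem _
  | cons i l ih =>
    simp only [nnM, List.map_cons, List.prod_cons, map_mul]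
    refine Subgroup.mul_mem _ ?_ (ih fun j hj => hl j (List.mem_cons_of_mem _ hj))
    rw [hF.rhoN_nN]
    exact hF.wPerm_mem i.2 (hl i List.mem_cons_self)

theorem exists_nzero : ∃ n0 : ↥(D.group F), n0 ∈ NN D F ∧
    (∀ m ∈ NN D F, (∀ i, ¬ upp hF F m i) → n0⁻¹ * m ∈ HH D F) ∧
    (∀ (l : List (Fin D.rank)) (i : Fin D.rank), i ∉ l → ∀ h ∈ HH D F,
      ¬ upp hF F (n0 * (l.map (nn hF F)).prod * h) i) := by
  obtain ⟨n, hn, σ, u, h1, h2⟩ := hF.exists_opp_act (F := F)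
  have hσ : hF.rhoN F ⟨n, hn⟩ = σ := hF.rhoN_eq (g := ⟨n, hn⟩) h1
  refine ⟨⟨n, hF.c.monomial_le_group hn⟩, Subgroup.mem_subgroupOf.2 hn, ?_, ?_⟩
  · intro m hm hd
    have hm1 : m.1 ∈ D.monomialSubgroup F := Subgroup.mem_subgroupOf.1 hm
    rw [Subgroup.mem_subgroupOf]
    set g : ↥(D.monomialSubgroup F) := ⟨n, hn⟩⁻¹ * ⟨m.1, hm1⟩ with hg
    have hgσ : hF.rhoN F g = σ⁻¹ * hF.rhoN F ⟨m.1, hm1⟩ := by
      rw [hg, map_mul, map_inv, hσ]
    have hpos : ∀ (j : ℕ) (hj : j < D.rank), j ∈ (Set.univ : Set ℕ) →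
        R.N ≤ ((hF.rhoN F g ⟨D.simple j, hF.simple_lt hj⟩ : Fin D.nroots) : ℕ) := by
      intro j hj _
      rw [hgσ, Equiv.Perm.mul_apply]
      have h3 : ¬ R.N ≤ ((hF.rhoN F ⟨m.1, hm1⟩ (hF.pF ⟨j, hj⟩) : Fin D.nroots) : ℕ) :=
        fun h' => hd ⟨j, hj⟩ ⟨hm1, h'⟩
      rw [h2]
      have h4 : σ (σ⁻¹ (hF.rhoN F ⟨m.1, hm1⟩ ⟨D.simple j, hF.simple_lt hj⟩)) =
          hF.rhoN F ⟨m.1, hm1⟩ ⟨D.simple j, hF.simple_lt hj⟩ := by simp
      rw [h4]
      exact not_le.1 h3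
    exact hF.mem_diagonal_of_pos' (g := g) fun x hx =>
      hF.pos_of_simple_pos (J := Set.univ) (hF.rhoN_mem_Wk g) hpos hx
        ((hF.inRootSub_iff).2 ⟨x.2, fun i _ hi => absurd (Set.mem_univ i) hi⟩)
  · rintro l i hi h hh ⟨hm, hup⟩
    have hh1 : h.1 ∈ D.diagonalSubgroup F := Subgroup.mem_subgroupOf.1 hh
    have hh2 : h.1 ∈ D.monomialSubgroup F := hF.c.diagonal_le_monomial hh1
    set n0 : ↥(D.group F) := ⟨n, hF.c.monomial_le_group hn⟩ with hn0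
    have e : (⟨(n0 * (l.map (nn hF F)).prod * h).1, hm⟩ : ↥(D.monomialSubgroup F)) =
        (⟨n, hn⟩ : ↥(D.monomialSubgroup F)) * nnM hF F l * ⟨h.1, hh2⟩ := by
      apply Subtype.ext
      show n * ((l.map (nn hF F)).prod : ↥(D.group F)).1 * h.1 = n * (nnM hF F l).1 * h.1
      rw [nnM_coe]
    rw [e, map_mul, map_mul, hσ, hF.rhoN_of_mem_diagonal ⟨h.1, hh2⟩ hh1, mul_one, Equiv.Perm.mul_apply] at hup
    have h3 : ¬ R.N ≤ ((hF.rhoN F (nnM hF F l) (hF.pF i) : Fin D.nroots) : ℕ) := by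
      intro h'
      have := (h2 _).1 h'
      omega
    apply h3
    set J : Set ℕ := {j | ∃ a ∈ l, (a : ℕ) = j} with hJ
    have hWk := rhoN_nnM_mem hF (F := F) J l (fun a ha => ⟨a, ha, rfl⟩)
    have hiJ : (i : ℕ) ∉ J := by
      rintro ⟨a, ha, hai⟩
      exact hi (by rwa [← Fin.ext hai])
    have h4 := hF.rc_outside hWk (hF.pF i) i.2 hiJ
    apply hF.pos_of_rc_pos (Fin.is_lt _) i.2
    rw [h4]
    show 0 < R.rcAt (D.simple i) i
    rw [hF.simple_rc i.2 i.2, if_pos rfl]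
    exact one_pos


omit hF in
/-- Restriction of a root system to a subset of the fundamental roots. -/
theorem rootSys_restrict {W Φ ι κ : Type*} [Group W] {ρ : W →* Equiv.Perm Φ} {s : ι → W} {p : ι → Φ}
    {Pos : Φ → Prop} {neg : Φ → Φ} (h : RootSys ρ s p Pos neg) (f : κ → ι) (hf : Function.Injective f) :
    RootSys ρ (fun j => s (f j)) (fun j => p (f j)) Pos neg where
  sq j := h.sq _
  neg_comm := h.neg_comm
  pos_neg := h.pos_neg
  pos_p j := h.pos_p _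
  act_p j := h.act_p _
  act_pos j := h.act_pos _
  lift w i j := h.lift w _ _
  p_inj := h.p_inj.comp hf

omit hF in
/-- A word trivial in the Coxeter group is trivial modulo a subgroup containing the relators -/
theorem word_mem {B W G : Type*} [Group W] [Group G] {s : B → W} (hs : ∀ i, s i * s i = 1)
    (hexch : Exch s) (hinj : Function.Injective s) (n : B → G) (Q : Subgroup G)
    (hsq : ∀ i, n i * n i ∈ Q) (hnorm : ∀ i, ∀ h ∈ Q, n i * h * (n i)⁻¹ ∈ Q)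
    (hbr : ∀ i j, (n i * n j) ^ orderOf (s i * s j) ∈ Q)
    (l l' : List B) (h : wp s l' = wp s l) : (wp n l')⁻¹ * wp n l ∈ Q := by
  have hN : ∀ i, n i ∈ Subgroup.normalizer (Q : Set G) := by
    intro i
    rw [Subgroup.mem_set_normalizer_iff]
    intro h
    refine ⟨hnorm i h, fun h' => ?_⟩
    have h1 := hnorm i _ h'
    have h2 : h = (n i * n i)⁻¹ * (n i * (n i * h * (n i)⁻¹) * (n i)⁻¹) * (n i * n i) := by group
    rw [h2]
    exact Q.mul_mem (Q.mul_mem (Q.inv_mem (hsq i)) h1) (hsq i)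
  let M : Subgroup G := Subgroup.normalizer (Q : Set G)
  haveI : (Q.subgroupOf M).Normal := Subgroup.normal_in_normalizer
  let nM : B → M := fun i => ⟨n i, hN i⟩
  let φ : M →* M ⧸ Q.subgroupOf M := QuotientGroup.mk' _
  let t : B → M ⧸ Q.subgroupOf M := fun i => φ (nM i)
  have hone : ∀ x : M, x.1 ∈ Q → φ x = 1 := fun x hx =>
    (QuotientGroup.eq_one_iff x).2 (Subgroup.mem_subgroupOf.2 hx)
  have ht : ∀ i, t i * t i = 1 := fun i => by
    show φ (nM i) * φ (nM i) = 1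
    rw [← map_mul]
    exact hone _ (hsq i)
  have htbr : ∀ i j, (t i * t j) ^ orderOf (s i * s j) = 1 := fun i j => by
    show (φ (nM i) * φ (nM j)) ^ _ = 1
    rw [← map_mul, ← map_pow]
    exact hone _ (hbr i j)
  have hl : wp t (l'.reverse ++ l) = 1 := by
    apply wp_eq_one_of_exchange hs ht hexch hinj htbr
    rw [wp_append, wp_reverse hs, h, inv_mul_cancel]
  rw [wp_append, wp_reverse ht] at hl
  have hwp : ∀ a : List B, wp t a = φ (wp nM a) := by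
    intro a
    induction a with
    | nil => simp
    | cons x a ih => rw [wp_cons, wp_cons, map_mul, ih]
  have hwp' : ∀ a : List B, (wp nM a).1 = wp n a := by
    intro a
    induction a with
    | nil => rfl
    | cons x a ih =>
      rw [wp_cons, wp_cons, ← ih]
      rfl
  rw [hwp, hwp, ← map_inv, ← map_mul] at hl
  have h3 := (QuotientGroup.eq_one_iff _).1 hl
  rw [Subgroup.mem_subgroupOf] at h3
  have h4 : (((wp nM l')⁻¹ * wp nM l : M) : G) = (wp n l')⁻¹ * wp n l := by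
    rw [Subgroup.coe_mul, Subgroup.coe_inv, hwp', hwp']
  rw [← h4]
  exact h3

section quot

variable [hN : ((D.diagonalSubgroup F).subgroupOf (D.monomialSubgroup F)).Normal]

theorem nn_pow_coe (i j : Fin D.rank) (k : ℕ) : ((nn hF F i * nn hF F j) ^ k : ↥(D.group F)).1 =
    (hF.nS (F := F) i * hF.nS j) ^ k := rfl

theorem braid_pow (hpos : ∀ e ∈ R.braid, 0 < e.2.2.1) {i j : Fin D.rank} (hij : i < j) :
    ∃ a b : ℕ, (nn hF F i * nn hF F j) ^ orderOf (hF.sW F i * hF.sW F j) =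
      (nn hF F i * nn hF F i) ^ a * (nn hF F j * nn hF F j) ^ b := by
  obtain ⟨e, he, e1, e2⟩ := hF.r.braid_cover i i.2 j j.2 hij
  have h1 : e.1 < D.rank := by rw [e1]; exact i.2
  have h2 : e.2.1 < D.rank := by rw [e2]; exact j.2
  have h5 : (⟨e.1, h1⟩ : Fin D.rank) = i := Fin.ext e1
  have h6 : (⟨e.2.1, h2⟩ : Fin D.rank) = j := Fin.ext e2
  have h7 := hF.sW_braid (F := F) he h1 h2
  have h8 := hF.dvd_order (F := F) he h1 h2 (hpos e he)
  rw [h5, h6] at h7 h8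
  have h9 : orderOf (hF.sW F i * hF.sW F j) = e.2.2.1 :=
    Nat.dvd_antisymm (orderOf_dvd_of_pow_eq_one h7) h8
  rw [h9]
  refine ⟨e.2.2.2.1, e.2.2.2.2, ?_⟩
  have h10 := hF.braid_eq (F := F) he h1 h2
  rw [e1, e2] at h10
  exact Subtype.ext h10

end quot

theorem word (hpos : ∀ e ∈ R.braid, 0 < e.2.2.1) (J : Set (Fin D.rank)) (Q : Subgroup ↥(D.group F))
    (h1 : ∀ i ∈ J, ∀ t, hhh hF F i t ∈ Q)
    (h2 : ∀ i ∈ J, ∀ h ∈ Q, nn hF F i * h * (nn hF F i)⁻¹ ∈ Q) (l l' : List (Fin D.rank))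
    (hl : ∀ i ∈ l, i ∈ J) (hl' : ∀ i ∈ l', i ∈ J)
    (hH : ((l'.map (nn hF F)).prod)⁻¹ * (l.map (nn hF F)).prod ∈ HH D F) :
    ((l'.map (nn hF F)).prod)⁻¹ * (l.map (nn hF F)).prod ∈ Q := by
  haveI hN := hF.diagonal_normal (F := F)
  have hRS := hF.rootSys (F := F)
  have hRJ := rootSys_restrict hRS (Subtype.val : ↥J → Fin D.rank) Subtype.val_injective
  -- the word in the Weyl group
  have hW : ∀ a : List (Fin D.rank), wp (hF.sW F) a = QuotientGroup.mk (nnM hF F a) := by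
    intro a
    induction a with
    | nil => rfl
    | cons i a ih =>
      rw [wp_cons, ih]
      rfl
  have hwW : wp (hF.sW F) l' = wp (hF.sW F) l := by
    rw [hW, hW]
    apply QuotientGroup.eq.2
    rw [Subgroup.mem_subgroupOf]
    have : ((nnM hF F l')⁻¹ * nnM hF F l).1 =
        (((l'.map (nn hF F)).prod)⁻¹ * (l.map (nn hF F)).prod : ↥(D.group F)).1 := by
      rw [Subgroup.coe_mul, Subgroup.coe_inv, nnM_coe, nnM_coe]
      rfl
    rw [this]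
    exact Subgroup.mem_subgroupOf.1 hH
  obtain ⟨L, rfl⟩ : ∃ L : List ↥J, L.map Subtype.val = l := ⟨l.attachWith _ hl, by simp⟩
  obtain ⟨L', rfl⟩ : ∃ L : List ↥J, L.map Subtype.val = l' := ⟨l'.attachWith _ hl', by simp⟩
  have e1 : ∀ a : List ↥J, ((a.map Subtype.val).map (nn hF F)).prod =
      wp (fun j : ↥J => nn hF F j.1) a := by
    intro a
    simp [wp]
  have e2 : ∀ a : List ↥J, wp (hF.sW F) (a.map Subtype.val) = wp (fun j : ↥J => hF.sW F j.1) a := by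
    intro a
    simp [wp]
  rw [e1, e1]
  rw [e2, e2] at hwW
  have hsqQ : ∀ i ∈ J, nn hF F i * nn hF F i ∈ Q := fun i hi => by
    rw [n_sq hF]
    exact h1 i hi _
  have hconj : ∀ (a b : ↥(D.group F)) (k : ℕ), (a * b) ^ k = a * (b * a) ^ k * a⁻¹ := by
    intro a b k
    have : a * b = a * (b * a) * a⁻¹ := by group
    conv_lhs => rw [this]
    exact conj_pow
  have hbr1 : ∀ (i j : Fin D.rank), i ∈ J → j ∈ J → i < j →
      (nn hF F i * nn hF F j) ^ orderOf (hF.sW F i * hF.sW F j) ∈ Q := by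
    intro i j hi hj hij
    obtain ⟨a, b, e⟩ := braid_pow hF hpos (F := F) hij
    rw [e]
    exact Q.mul_mem (Q.pow_mem (hsqQ i hi) _) (Q.pow_mem (hsqQ j hj) _)
  apply word_mem hRJ.sq hRJ.exch (hRS.s_injective.comp Subtype.val_injective)
    (fun j : ↥J => nn hF F j.1) Q (fun i => hsqQ i.1 i.2) (fun i => h2 i.1 i.2) ?_ L L' hwW
  rintro ⟨i, hi⟩ ⟨j, hj⟩
  show (nn hF F i * nn hF F j) ^ orderOf (hF.sW F i * hF.sW F j) ∈ Q
  rcases lt_trichotomy i j with h | h | h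
  · exact hbr1 i j hi hj h
  · subst h
    rw [hRS.sq, orderOf_one, pow_one]
    exact hsqQ i hi
  · have h3 : orderOf (hF.sW F i * hF.sW F j) = orderOf (hF.sW F j * hF.sW F i) := by
      rw [← orderOf_inv, _root_.mul_inv_rev, hRS.inv_s, hRS.inv_s]
    rw [h3, hconj]
    exact h2 i hi _ (hbr1 j i hj hi h)

/-- The data of a Chevalley group. -/
noncomputable def crData (hF : Full T X R D) (hpos : ∀ e ∈ R.braid, 0 < e.2.2.1) (F : Type*) [Field F]
    (p : ℕ) [Fact p.Prime] [CharP F p] [Fintype F] : CRCore50.CRData ↥(D.group F) F (Fin D.rank) where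
  U := UU D F
  H := HH D F
  N := NN D F
  x := xx hF F
  y := yy hF F
  n := nn hF F
  hh := hhh hF F
  up := upp hF F
  len := lenn hF F
  n0 := Classical.choose (exists_nzero hF (F := F))
  x_zero i := Subtype.ext (hF.c.xG_zero _)
  x_mem := xx_mem hF
  n_mem := nn_mem hF
  hh_mem := hhh_mem hF
  hh_mul := hhh_mul hF
  H_comm := HH_comm hF
  H_le_N := HH_le_NN hF
  N_H := NN_HH hF
  H_U := HH_UU hF
  bruhat := bruhat hF
  uniq := uniq hF p
  up_x m _ i t := up_x hF m i t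
  down_y := down_y hF
  sl2 := sl2 hF
  n_sq := n_sq hF
  up_n := up_n hF
  len_up := len_up hF
  len_H := len_H hF
  shift := shift hF
  H_x := H_x hF
  refl := refl hF
  n0_mem := (Classical.choose_spec (exists_nzero hF (F := F))).1
  top := (Classical.choose_spec (exists_nzero hF (F := F))).2.1
  coset_down := (Classical.choose_spec (exists_nzero hF (F := F))).2.2
  word := fun J Q h1 h2 l l' hl hl' hH => word hF hpos J Q h1 h2 l l' hl hl' hH

end Cfsg.Agent.Lib.CRChev50
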