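import Cfsg.Agent.Lib.BrauerCount50
import Cfsg.Agent.Lib.PermModule

/-!
# Curtis--Richen: the simple modules in the defining characteristic

Let `G` be a finite group with a split `BN`-pair of characteristic `p`.  The simple `k G`-modules
(`k` algebraically closed of characteristic `p`) are classified by a linear character of the torus
and a choice of eigenvalues of the Hecke operators on the unique `U`-fixed line.

The whole argument is carried out on matrix coefficients
`Φ (g) = f (g x)`, on the double cosets of `U`.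
-/

set_option autoImplicit false
set_option linter.unusedSectionVars false
set_option linter.unusedVariables false
set_option linter.style.haveILetI false

namespace Cfsg.Agent.Lib.CRCore50

open Finset Matrix
open Cfsg.Agent.Lib.BrauerCount50

/-- The combinatorial data of a split `BN`-pair needed for the classification. -/
structure CRData (G F I : Type*) [Group G] [Field F] where
  U : Subgroup G
  H : Subgroup G
  N : Subgroup G
  x : I → F → G
  y : I → F → G
  n : I → G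
  hh : I → Fˣ → G
  up : G → I → Prop
  len : G → ℕ
  n0 : G
  x_zero : ∀ i, x i 0 = 1
  x_mem : ∀ i t, x i t ∈ U
  n_mem : ∀ i, n i ∈ N
  hh_mem : ∀ i t, hh i t ∈ H
  hh_mul : ∀ i a b, hh i (a * b) = hh i a * hh i b
  H_comm : ∀ a ∈ H, ∀ b ∈ H, a * b = b * a
  H_le_N : H ≤ N
  N_H : ∀ m ∈ N, ∀ h ∈ H, m * h * m⁻¹ ∈ H
  H_U : ∀ h ∈ H, ∀ u ∈ U, h * u * h⁻¹ ∈ U
  bruhat : ∀ g, ∃ u ∈ U, ∃ m ∈ N, ∃ u' ∈ U, g = u * m * u'
  uniq : ∀ u ∈ U, ∀ m ∈ N, ∀ u' ∈ U, ∀ m' ∈ N, u * m * u' = m' → m = m'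
  up_x : ∀ m ∈ N, ∀ i t, up m i → m * x i t * m⁻¹ ∈ U
  down_y : ∀ m ∈ N, ∀ i t, ¬ up m i → m * y i t * m⁻¹ ∈ U
  sl2 : ∀ i (t : Fˣ), ∃ a b, x i t * n i = y i a * hh i (-t) * x i b
  n_sq : ∀ i, n i * n i = hh i (-1)
  up_n : ∀ m ∈ N, ∀ i, up (m * n i) i ↔ ¬ up m i
  len_up : ∀ m ∈ N, ∀ i, up m i → len (m * n i) = len m + 1
  len_H : ∀ m ∈ N, ∀ h ∈ H, len (m * h) = len m
  shift : ∀ i, ∀ u ∈ U, ∃ τ : Equiv.Perm F, ∀ t, ∃ u' ∈ U, u * (x i t * n i) = (x i (τ t) * n i) * u'
  H_x : ∀ h ∈ H, ∀ i, ∃ a : Fˣ, ∀ t, h * x i t * h⁻¹ = x i (a * t)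
  refl : ∀ h ∈ H, ∀ i, ∃ a : Fˣ, (n i)⁻¹ * h * n i = h * hh i a
  n0_mem : n0 ∈ N
  top : ∀ m ∈ N, (∀ i, ¬ up m i) → n0⁻¹ * m ∈ H
  coset_down : ∀ (l : List I) (i : I), i ∉ l → ∀ h ∈ H, ¬ up (n0 * (l.map n).prod * h) i
  word : ∀ (J : Set I) (R : Subgroup G), (∀ i ∈ J, ∀ t, hh i t ∈ R) →
    (∀ i ∈ J, ∀ h ∈ R, n i * h * (n i)⁻¹ ∈ R) → ∀ l l' : List I, (∀ i ∈ l, i ∈ J) → (∀ i ∈ l', i ∈ J) →
      ((l'.map n).prod)⁻¹ * (l.map n).prod ∈ H → ((l'.map n).prod)⁻¹ * (l.map n).prod ∈ R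

namespace CRData

variable {G F I : Type*} [Group G] [Field F] [Fintype F] [DecidableEq F] (C : CRData G F I)
  {k : Type*} [Field k]

theorem hh_one (i : I) : C.hh i 1 = 1 := by
  have h := C.hh_mul i 1 1
  rw [mul_one] at h
  exact (mul_eq_left.1 h.symm)

/-- The coroot map as a homomorphism into `H`. -/
def hhH (i : I) : Fˣ →* C.H :=
  MonoidHom.mk' (fun t => ⟨C.hh i t, C.hh_mem i t⟩) (fun a b => Subtype.ext (C.hh_mul i a b))

@[simp] theorem hhH_coe (i : I) (t : Fˣ) : ((C.hhH i t : C.H) : G) = C.hh i t := rfl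

/-- The Gauss sum `∑_t χ (h_i (t))`. -/
noncomputable def ee (χ : C.H →* kˣ) (i : I) : k := ∑ t : Fˣ, ((χ (C.hhH i t) : kˣ) : k)

/-- `χ ∘ h_i` is trivial. -/
def Triv (χ : C.H →* kˣ) (i : I) : Prop := ∀ t, χ (C.hhH i t) = 1

theorem ee_of_triv (hq : ((Fintype.card F : ℕ) : k) = 0) {χ : C.H →* kˣ} {i : I} (h : C.Triv χ i) :
    C.ee χ i = -1 := by
  unfold ee
  have h1 : ∀ t : Fˣ, ((χ (C.hhH i t) : kˣ) : k) = 1 := fun t => by rw [h t]; rfl
  rw [Finset.sum_congr rfl (fun t _ => h1 t), Finset.sum_const, Finset.card_univ, Fintype.card_units,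
    nsmul_eq_mul, mul_one, Nat.cast_sub Fintype.card_pos, hq]
  simp

theorem ee_of_not_triv {χ : C.H →* kˣ} {i : I} (h : ¬ C.Triv χ i) : C.ee χ i = 0 := by
  classical
  unfold ee
  let f : Fˣ →* k := (Units.coeHom k).comp (χ.comp (C.hhH i))
  have hf : f ≠ 1 := by
    intro hf
    apply h
    intro t
    have := DFunLike.congr_fun hf t
    exact Units.ext this
  exact sum_hom_units_eq_zero f hf

/-- Bi-invariance under `U` and equivariance under `H` -/
structure IsBi (χ : C.H →* kˣ) (Φ : G → k) : Prop where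
  left : ∀ u ∈ C.U, ∀ g, Φ (u * g) = Φ g
  right : ∀ u ∈ C.U, ∀ g, Φ (g * u) = Φ g
  torus : ∀ (h : C.H) g, Φ (g * h) = (χ h : k) * Φ g

/-- The Hecke eigenvalue condition -/
def IsHecke (c : I → k) (Φ : G → k) : Prop :=
  ∀ i g, ∑ t : F, Φ (g * (C.x i t * C.n i)) = c i * Φ g

theorem sum_field_eq {M : Type*} [AddCommMonoid M] (f : F → M) : ∑ t, f t = f 0 + ∑ u : Fˣ, f u := by
  rw [← Finset.add_sum_erase _ _ (Finset.mem_univ (0 : F))]
  congr 1
  symm
  apply Finset.sum_bij (fun (u : Fˣ) _ => (u : F))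
  · intro u _
    exact Finset.mem_erase.2 ⟨u.ne_zero, Finset.mem_univ _⟩
  · intro a _ b _ h
    exact Units.ext h
  · intro b hb
    exact ⟨Units.mk0 b (Finset.ne_of_mem_erase hb), Finset.mem_univ _, rfl⟩
  · intro _ _
    rfl

variable {C}

theorem calc_up (hq : ((Fintype.card F : ℕ) : k) = 0) {χ : C.H →* kˣ} {Φ : G → k} (hΦ : C.IsBi χ Φ) {m : G}
    (hm : m ∈ C.N) (i : I) (hu : C.up m i) :
    ∑ t : F, Φ (m * (C.x i t * C.n i)) = 0 := by
  have h1 : ∀ t : F, Φ (m * (C.x i t * C.n i)) = Φ (m * C.n i) := by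
    intro t
    have e : m * (C.x i t * C.n i) = (m * C.x i t * m⁻¹) * (m * C.n i) := by group
    rw [e, hΦ.left _ (C.up_x m hm i t hu)]
  rw [Finset.sum_congr rfl (fun t _ => h1 t), Finset.sum_const, Finset.card_univ, nsmul_eq_mul, hq, zero_mul]

theorem calc_down {χ : C.H →* kˣ} {Φ : G → k} (hΦ : C.IsBi χ Φ) {m : G}
    (hm : m ∈ C.N) (i : I) (hu : ¬ C.up m i) :
    ∑ t : F, Φ (m * (C.x i t * C.n i)) = Φ (m * C.n i) + C.ee χ i * Φ m := by
  rw [sum_field_eq, C.x_zero, one_mul]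
  congr 1
  have h1 : ∀ t : Fˣ, Φ (m * (C.x i t * C.n i)) = ((χ (C.hhH i (-t)) : kˣ) : k) * Φ m := by
    intro t
    obtain ⟨a, b, e⟩ := C.sl2 i t
    rw [e]
    have e1 : m * (C.y i a * C.hh i (-t) * C.x i b) = m * C.y i a * C.hh i (-t) * C.x i b := by group
    rw [e1, hΦ.right _ (C.x_mem i b)]
    have e2 := hΦ.torus (C.hhH i (-t)) (m * C.y i a)
    rw [hhH_coe] at e2
    rw [e2]
    have e3 : m * C.y i a = (m * C.y i a * m⁻¹) * m := by group
    rw [e3, hΦ.left _ (C.down_y m hm i a hu)]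
  rw [Finset.sum_congr rfl (fun t _ => h1 t), ← Finset.sum_mul]
  congr 1
  unfold ee
  exact Equiv.sum_comp (Equiv.neg Fˣ) (fun t => ((χ (C.hhH i t) : kˣ) : k))

/-- Admissible eigenvalues. -/
def Adm (χ : C.H →* kˣ) (c : I → k) : Prop := ∀ i, c i = 0 ∨ (c i = -1 ∧ C.Triv χ i)

/-- The set `J`: those `i` with `χ ∘ h_i = 1` and eigenvalue `0`. -/
def InJ (χ : C.H →* kˣ) (c : I → k) (i : I) : Prop := c i = 0 ∧ C.Triv χ i

theorem n_mul_n {m : G} (i : I) : m * C.n i * C.n i = m * C.hh i (-1) := by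
  rw [mul_assoc, C.n_sq]

theorem coef_J (hq : ((Fintype.card F : ℕ) : k) = 0) {χ : C.H →* kˣ} {c : I → k} {Φ : G → k}
    (hΦ : C.IsBi χ Φ) (hH : C.IsHecke c Φ)
    {m : G} (hm : m ∈ C.N) {i : I} (hi : InJ χ c i) : Φ (m * C.n i) = Φ m := by
  have hdown : ∀ m ∈ C.N, ¬ C.up m i → Φ (m * C.n i) = Φ m := by
    intro m hm hu
    have h1 := hH i m
    rw [calc_down hΦ hm i hu, hi.1, C.ee_of_triv hq hi.2] at h1
    simp only [zero_mul, neg_mul, one_mul] at h1
    exact add_neg_eq_zero.1 h1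
  by_cases hu : C.up m i
  · have hm' : m * C.n i ∈ C.N := C.N.mul_mem hm (C.n_mem i)
    have hu' : ¬ C.up (m * C.n i) i := fun h => ((C.up_n m hm i).1 h) hu
    have h1 := hdown _ hm' hu'
    rw [n_mul_n] at h1
    have h2 := hΦ.torus (C.hhH i (-1)) m
    rw [hhH_coe, hi.2, Units.val_one, one_mul] at h2
    rw [← h1, h2]
  · exact hdown m hm hu

theorem coef_notJ (hq : ((Fintype.card F : ℕ) : k) = 0) {χ : C.H →* kˣ} {c : I → k} {Φ : G → k}
    (hΦ : C.IsBi χ Φ) (hH : C.IsHecke c Φ) (hc : Adm (C := C) χ c)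
    {m : G} (hm : m ∈ C.N) {i : I} (hi : ¬ InJ χ c i) (hu : C.up m i) : Φ m = 0 := by
  have hee : C.ee χ i = c i := by
    rcases hc i with h0 | ⟨h1, h2⟩
    · have : ¬ C.Triv χ i := fun h => hi ⟨h0, h⟩
      rw [C.ee_of_not_triv this, h0]
    · rw [C.ee_of_triv hq h2, h1]
  have hm' : m * C.n i ∈ C.N := C.N.mul_mem hm (C.n_mem i)
  have hu' : ¬ C.up (m * C.n i) i := fun h => ((C.up_n m hm i).1 h) hu
  have h1 := hH i (m * C.n i)
  rw [calc_down hΦ hm' i hu', hee] at h1
  have h2 : Φ (m * C.n i * C.n i) = 0 := by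
    simpa using h1
  rw [n_mul_n] at h2
  have h3 := hΦ.torus (C.hhH i (-1)) m
  rw [hhH_coe] at h3
  rw [h3] at h2
  exact (mul_eq_zero.1 h2).resolve_left (Units.ne_zero _)

variable [Finite G]

theorem exists_len_bound : ∃ L, ∀ g : G, C.len g ≤ L := by
  classical
  haveI := Fintype.ofFinite G
  exact ⟨Finset.univ.sup C.len, fun g => Finset.le_sup (Finset.mem_univ g)⟩

/-- A matrix coefficient that does not vanish identically is nonzero at `n₀`. -/
theorem coef_n0 (hq : ((Fintype.card F : ℕ) : k) = 0) {χ : C.H →* kˣ} {c : I → k} {Φ : G → k}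
    (hΦ : C.IsBi χ Φ) (hH : C.IsHecke c Φ) (hc : Adm (C := C) χ c) (hne : ∃ g, Φ g ≠ 0) : Φ C.n0 ≠ 0 := by
  obtain ⟨g, hg⟩ := hne
  obtain ⟨u, hu, m, hm, u', hu', rfl⟩ := C.bruhat g
  rw [hΦ.right _ hu', hΦ.left _ hu] at hg
  obtain ⟨L, hL⟩ := exists_len_bound (C := C)
  have key : ∀ s : ℕ, ∀ m ∈ C.N, L - C.len m ≤ s → Φ m ≠ 0 → Φ C.n0 ≠ 0 := by
    intro s
    induction s with
    | zero =>
      intro m hm hs hm0
      by_cases hd : ∀ i, ¬ C.up m i
      · have h1 := C.top m hm hd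
        have h2 := hΦ.torus ⟨_, h1⟩ C.n0
        have e : C.n0 * (C.n0⁻¹ * m) = m := by group
        simp only [e] at h2
        intro h3
        rw [h3, mul_zero] at h2
        exact hm0 h2
      · push Not at hd
        obtain ⟨i, hi⟩ := hd
        by_cases hJ : InJ χ c i
        · have h1 := C.len_up m hm i hi
          have h2 := hL (m * C.n i)
          omega
        · exact absurd (coef_notJ hq hΦ hH hc hm hJ hi) hm0
    | succ s ih =>
      intro m hm hs hm0
      by_cases hd : ∀ i, ¬ C.up m i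
      · have h1 := C.top m hm hd
        have h2 := hΦ.torus ⟨_, h1⟩ C.n0
        have e : C.n0 * (C.n0⁻¹ * m) = m := by group
        simp only [e] at h2
        intro h3
        rw [h3, mul_zero] at h2
        exact hm0 h2
      · push Not at hd
        obtain ⟨i, hi⟩ := hd
        by_cases hJ : InJ χ c i
        · have h1 := C.len_up m hm i hi
          have h2 := hL (m * C.n i)
          apply ih (m * C.n i) (C.N.mul_mem hm (C.n_mem i)) (by omega)
          rw [coef_J hq hΦ hH hm hJ]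
          exact hm0
        · exact absurd (coef_notJ hq hΦ hH hc hm hJ hi) hm0
  exact key _ m hm le_rfl hg

/-- A matrix coefficient is determined by `(χ, c)` and its value at `n₀`. -/
theorem coef_unique (hq : ((Fintype.card F : ℕ) : k) = 0) {χ : C.H →* kˣ} {c : I → k} {Φ Ψ : G → k}
    (hΦ : C.IsBi χ Φ) (hH : C.IsHecke c Φ) (hΨ : C.IsBi χ Ψ) (hH' : C.IsHecke c Ψ)
    (hc : Adm (C := C) χ c) (h0 : Φ C.n0 = Ψ C.n0) : Φ = Ψ := by
  obtain ⟨L, hL⟩ := exists_len_bound (C := C)
  have key : ∀ s : ℕ, ∀ m ∈ C.N, L - C.len m ≤ s → Φ m = Ψ m := by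
    intro s
    induction s with
    | zero =>
      intro m hm hs
      by_cases hd : ∀ i, ¬ C.up m i
      · have h1 := C.top m hm hd
        have h2 := hΦ.torus ⟨_, h1⟩ C.n0
        have h3 := hΨ.torus ⟨_, h1⟩ C.n0
        have e : C.n0 * (C.n0⁻¹ * m) = m := by group
        simp only [e] at h2 h3
        rw [h2, h3, h0]
      · push Not at hd
        obtain ⟨i, hi⟩ := hd
        by_cases hJ : InJ χ c i
        · have h1 := C.len_up m hm i hi
          have h2 := hL (m * C.n i)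
          omega
        · rw [coef_notJ hq hΦ hH hc hm hJ hi, coef_notJ hq hΨ hH' hc hm hJ hi]
    | succ s ih =>
      intro m hm hs
      by_cases hd : ∀ i, ¬ C.up m i
      · have h1 := C.top m hm hd
        have h2 := hΦ.torus ⟨_, h1⟩ C.n0
        have h3 := hΨ.torus ⟨_, h1⟩ C.n0
        have e : C.n0 * (C.n0⁻¹ * m) = m := by group
        simp only [e] at h2 h3
        rw [h2, h3, h0]
      · push Not at hd
        obtain ⟨i, hi⟩ := hd
        by_cases hJ : InJ χ c i
        · have h1 := C.len_up m hm i hi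
          have h2 := hL (m * C.n i)
          rw [← coef_J hq hΦ hH hm hJ, ← coef_J hq hΨ hH' hm hJ]
          exact ih _ (C.N.mul_mem hm (C.n_mem i)) (by omega)
        · rw [coef_notJ hq hΦ hH hc hm hJ hi, coef_notJ hq hΨ hH' hc hm hJ hi]
  funext g
  obtain ⟨u, hu, m, hm, u', hu', rfl⟩ := C.bruhat g
  rw [hΦ.right _ hu', hΦ.left _ hu, hΨ.right _ hu', hΨ.left _ hu]
  exact key _ m hm le_rfl

section rep

variable {ι : Type*} [Fintype ι] [DecidableEq ι] (τ : G →* Matrix ι ι k)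

/-- Column vectors fixed by `U`. -/
def IsFixV (C : CRData G F I) (v : ι → k) : Prop := ∀ u ∈ C.U, τ u *ᵥ v = v

/-- Row vectors fixed by `U`. -/
def IsFixR (C : CRData G F I) (f : ι → k) : Prop := ∀ u ∈ C.U, f ᵥ* τ u = f

/-- A weight vector. -/
def IsWt (χ : C.H →* kˣ) (v : ι → k) : Prop := ∀ h : C.H, τ h *ᵥ v = ((χ h : kˣ) : k) • v

/-- An eigenvector of the Hecke operators -/
def IsEig (C : CRData G F I) (c : I → k) (v : ι → k) : Prop :=
  ∀ i, ∑ t : F, τ (C.x i t * C.n i) *ᵥ v = c i • v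

/-- The matrix coefficient. -/
def coefF (f v : ι → k) : G → k := fun g => f ⬝ᵥ (τ g *ᵥ v)

/-- Irreducibility, in the form needed. -/
def Irr : Prop := ∀ f v : ι → k, f ≠ 0 → v ≠ 0 → ∃ g, f ⬝ᵥ (τ g *ᵥ v) ≠ 0

variable {τ}

theorem coefF_mul (f v : ι → k) (a b : G) : coefF τ f v (a * b) = f ⬝ᵥ (τ a *ᵥ (τ b *ᵥ v)) := by
  unfold coefF
  rw [map_mul, Matrix.mulVec_mulVec]

theorem isBi_coef {χ : C.H →* kˣ} {f v : ι → k} (hf : IsFixR τ C f) (hv : IsFixV τ C v) (hw : IsWt τ χ v) :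
    C.IsBi χ (coefF τ f v) where
  left u hu g := by
    rw [coefF_mul, Matrix.dotProduct_mulVec, hf u hu]
    rfl
  right u hu g := by
    rw [coefF_mul, hv u hu]
    rfl
  torus h g := by
    rw [coefF_mul, hw h, Matrix.mulVec_smul, dotProduct_smul, smul_eq_mul]
    rfl

theorem dot_sum_eig (f v : ι → k) (i : I) (g : G) :
    f ⬝ᵥ (τ g *ᵥ ∑ t : F, τ (C.x i t * C.n i) *ᵥ v) = ∑ t : F, coefF τ f v (g * (C.x i t * C.n i)) := by
  rw [Matrix.mulVec_sum, dotProduct_sum]
  apply Finset.sum_congr rfl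
  intro t _
  rw [coefF_mul]

theorem isHecke_coef {c : I → k} {f v : ι → k} (he : IsEig τ C c v) : C.IsHecke c (coefF τ f v) := by
  intro i g
  rw [← dot_sum_eig, he i, Matrix.mulVec_smul, dotProduct_smul, smul_eq_mul]
  rfl

/-- `T_i v` is fixed by `U`. -/
theorem isFixV_hecke {v : ι → k} (hv : IsFixV τ C v) (i : I) :
    IsFixV τ C (∑ t : F, τ (C.x i t * C.n i) *ᵥ v) := by
  intro u hu
  rw [Matrix.mulVec_sum]
  obtain ⟨σ, hσ⟩ := C.shift i u hu
  rw [← Equiv.sum_comp σ (fun t => τ (C.x i t * C.n i) *ᵥ v)]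
  apply Finset.sum_congr rfl
  intro t _
  obtain ⟨u', hu', e⟩ := hσ t
  rw [Matrix.mulVec_mulVec, ← map_mul, e, map_mul, ← Matrix.mulVec_mulVec, hv u' hu']

/-- Conjugation by `n_i⁻¹` on `H`. -/
noncomputable def nH (C : CRData G F I) (i : I) : C.H →* C.H :=
  MonoidHom.mk' (fun h => ⟨(C.n i)⁻¹ * h * C.n i, by
    have := C.N_H _ (C.N.inv_mem (C.n_mem i)) h h.2
    simpa using this⟩) (fun a b => Subtype.ext (by
      show (C.n i)⁻¹ * (a.1 * b.1) * C.n i = ((C.n i)⁻¹ * a.1 * C.n i) * ((C.n i)⁻¹ * b.1 * C.n i)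
      group))

theorem nH_coe (i : I) (h : C.H) : ((C.nH i h : C.H) : G) = (C.n i)⁻¹ * h * C.n i := rfl

theorem isWt_hecke {χ : C.H →* kˣ} {v : ι → k} (hw : IsWt τ χ v) (i : I) :
    IsWt τ (χ.comp (C.nH i)) (∑ t : F, τ (C.x i t * C.n i) *ᵥ v) := by
  intro h
  obtain ⟨a, ha⟩ := C.H_x h h.2 i
  rw [Matrix.mulVec_sum, Finset.smul_sum]
  rw [← Equiv.sum_comp (Units.mulLeft a) (fun t => ((χ.comp (C.nH i) h : kˣ) : k) • τ (C.x i t * C.n i) *ᵥ v)]
  apply Finset.sum_congr rfl
  intro t _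
  have e : (h : G) * (C.x i t * C.n i) = C.x i (a * t) * C.n i * (C.nH i h : C.H) := by
    rw [nH_coe, ← ha t]
    group
  rw [Matrix.mulVec_mulVec, ← map_mul, e, map_mul, ← Matrix.mulVec_mulVec, hw]
  simp [Matrix.mulVec_smul, Units.mulLeft]

theorem comp_nH_of_triv {χ : C.H →* kˣ} {i : I} (h : C.Triv χ i) : χ.comp (C.nH i) = χ := by
  ext g
  obtain ⟨a, ha⟩ := C.refl g g.2 i
  have e : C.nH i g = g * C.hhH i a := Subtype.ext ha
  simp only [MonoidHom.comp_apply]
  rw [e, map_mul, h a, mul_one]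

theorem exists_fixV {p : ℕ} [hp : Fact p.Prime] [hk : CharP k p] (hU : IsPGroup p C.U) [Nonempty ι] :
    ∃ v : ι → k, v ≠ 0 ∧ IsFixV τ C v := by
  let ρ : Representation k C.U (ι → k) :=
    { toFun := fun u => Matrix.mulVecLin (τ u)
      map_one' := by
        simp
        rfl
      map_mul' := fun a b => by
        simp [Matrix.mulVecLin_mul]
        rfl }
  obtain ⟨v, -, hv, hfix⟩ := PermModule.exists_fixed_vector hU ρ ⊤ (fun _ _ _ => Submodule.mem_top)
    (v₀ := fun _ => 1) Submodule.mem_top (by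
      intro h
      have := congrFun h (Classical.arbitrary ι)
      simp at this)
  refine ⟨v, hv, fun u hu => ?_⟩
  exact hfix ⟨u, hu⟩

/-- The dual representation. -/
def dualRep (τ : G →* Matrix ι ι k) : G →* Matrix ι ι k where
  toFun g := (τ g⁻¹)ᵀ
  map_one' := by simp
  map_mul' a b := by
    rw [_root_.mul_inv_rev, map_mul, Matrix.transpose_mul]

theorem dualRep_mulVec (g : G) (v : ι → k) : dualRep τ g *ᵥ v = v ᵥ* τ g⁻¹ := by
  show (τ g⁻¹)ᵀ *ᵥ v = _
  rw [Matrix.mulVec_transpose]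

theorem vecMul_dualRep (g : G) (v : ι → k) : v ᵥ* dualRep τ g = τ g⁻¹ *ᵥ v := by
  show v ᵥ* (τ g⁻¹)ᵀ = _
  rw [Matrix.vecMul_transpose]

theorem isFixR_of_dual {f : ι → k} (h : IsFixV (dualRep τ) C f) : IsFixR τ C f := by
  intro u hu
  have h1 := h u⁻¹ (C.U.inv_mem hu)
  rwa [dualRep_mulVec, inv_inv] at h1

theorem isFixV_dual_of {f : ι → k} (h : IsFixR τ C f) : IsFixV (dualRep τ) C f := by
  intro u hu
  rw [dualRep_mulVec]
  exact h u⁻¹ (C.U.inv_mem hu)

theorem isFixR_dual_of {v : ι → k} (h : IsFixV τ C v) : IsFixR (dualRep τ) C v := by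
  intro u hu
  rw [vecMul_dualRep]
  exact h u⁻¹ (C.U.inv_mem hu)

theorem irr_dual (h : Irr τ) : Irr (dualRep τ) := by
  intro f v hf hv
  obtain ⟨g, hg⟩ := h v f hv hf
  refine ⟨g⁻¹, ?_⟩
  rw [dualRep_mulVec, inv_inv, dotProduct_comm, ← Matrix.dotProduct_mulVec]
  exact hg

theorem exists_fixR {p : ℕ} [hp : Fact p.Prime] [hk : CharP k p] (hU : IsPGroup p C.U) [Nonempty ι] :
    ∃ f : ι → k, f ≠ 0 ∧ IsFixR τ C f := by
  obtain ⟨v, hv, h⟩ := exists_fixV (τ := dualRep τ) (C := C) hU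
  exact ⟨v, hv, isFixR_of_dual h⟩

variable [IsAlgClosed k]

/-- An `H`-stable nonzero subspace contains a common eigenvector. -/
theorem exists_common_eig (W : Submodule k (ι → k)) (hW : W ≠ ⊥)
    (hst : ∀ h : C.H, ∀ v ∈ W, τ h *ᵥ v ∈ W) : ∃ v ∈ W, v ≠ 0 ∧ ∀ h : C.H, ∃ a : k, τ h *ᵥ v = a • v := by
  classical
  induction hn : Module.finrank k W using Nat.strong_induction_on generalizing W with
  | _ n ih =>
    by_cases hs : ∀ h : C.H, ∃ a : k, ∀ v ∈ W, τ h *ᵥ v = a • v
    · obtain ⟨v, hv, hv0⟩ := (Submodule.ne_bot_iff W).1 hW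
      exact ⟨v, hv, hv0, fun h => by
        obtain ⟨a, ha⟩ := hs h
        exact ⟨a, ha v hv⟩⟩
    · push Not at hs
      obtain ⟨h₀, hh₀⟩ := hs
      let E : Module.End k W := (Matrix.mulVecLin (τ h₀)).restrict (hst h₀)
      haveI : Nontrivial W := Submodule.nontrivial_iff_ne_bot.2 hW
      obtain ⟨a, ha⟩ := Module.End.exists_eigenvalue E
      obtain ⟨w, hw⟩ := ha.exists_hasEigenvector
      have hw1 : τ h₀ *ᵥ (w : ι → k) = a • (w : ι → k) := by
        have := congrArg Subtype.val hw.apply_eq_smul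
        exact this
      have hw0 : (w : ι → k) ≠ 0 := fun h => hw.2 (Subtype.ext h)
      let K : Submodule k (ι → k) := LinearMap.ker (Matrix.mulVecLin (τ h₀) - a • LinearMap.id)
      have hmemK : ∀ v, v ∈ K ↔ τ h₀ *ᵥ v = a • v := by
        intro v
        simp [K, sub_eq_zero]
      obtain ⟨v₁, hv₁, hne⟩ := hh₀ a
      have hlt : W ⊓ K < W := by
        refine lt_of_le_of_ne inf_le_left ?_
        intro h
        exact hne ((hmemK v₁).1 (h.symm ▸ hv₁ : v₁ ∈ W ⊓ K).2)
      have hW' : W ⊓ K ≠ ⊥ := by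
        intro h
        have : (w : ι → k) ∈ W ⊓ K := ⟨w.2, (hmemK _).2 hw1⟩
        rw [h] at this
        exact hw0 (by simpa using this)
      have hst' : ∀ h : C.H, ∀ v ∈ W ⊓ K, τ h *ᵥ v ∈ W ⊓ K := by
        intro h v hv
        refine ⟨hst h v hv.1, (hmemK _).2 ?_⟩
        rw [Matrix.mulVec_mulVec, ← map_mul, C.H_comm _ h₀.2 _ h.2, map_mul, ← Matrix.mulVec_mulVec,
          (hmemK _).1 hv.2, Matrix.mulVec_smul]
      obtain ⟨v, hv, hv0, hh⟩ := ih _ (hn ▸ Submodule.finrank_lt_finrank_of_lt hlt) (W ⊓ K) hW' hst' rfl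
      exact ⟨v, hv.1, hv0, hh⟩

/-- A common eigenvector defines a character. -/
theorem exists_wt {v : ι → k} (hv : v ≠ 0) (h : ∀ h : C.H, ∃ a : k, τ h *ᵥ v = a • v) :
    ∃ χ : C.H →* kˣ, IsWt τ χ v := by
  classical
  choose a ha using h
  have hinj : ∀ x y : k, x • v = y • v → x = y := fun x y hxy => smul_left_injective k hv hxy
  have hmul : ∀ x y : C.H, a (x * y) = a x * a y := by
    intro x y
    apply hinj
    rw [← ha (x * y)]
    show τ ((x : G) * y) *ᵥ v = _
    rw [map_mul, ← Matrix.mulVec_mulVec, ha y, Matrix.mulVec_smul, ha x, smul_smul, mul_comm]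
  have hone : a 1 = 1 := by
    apply hinj
    rw [← ha 1]
    simp
  have hne : ∀ x : C.H, a x ≠ 0 := by
    intro x h0
    have := hmul x x⁻¹
    rw [mul_inv_cancel, hone, h0, zero_mul] at this
    exact one_ne_zero this
  refine ⟨MonoidHom.mk' (fun x => Units.mk0 (a x) (hne x)) (fun x y => Units.ext (by
    simpa using hmul x y)), fun x => ?_⟩
  exact ha x

variable {p : ℕ} [hp : Fact p.Prime] [hk : CharP k p]

/-- **Every simple module has a line in the `U`-fixed points**, which is an eigenvector of the torus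
and of the Hecke operators. -/
theorem exists_line (hq : ((Fintype.card F : ℕ) : k) = 0) (hU : IsPGroup p C.U) [Nonempty ι] (hI : Irr τ) :
    ∃ (χ : C.H →* kˣ) (c : I → k) (v : ι → k), v ≠ 0 ∧ IsFixV τ C v ∧ IsWt τ χ v ∧ IsEig τ C c v ∧
      Adm (C := C) χ c := by
  classical
  obtain ⟨f, hf0, hf⟩ := exists_fixR (τ := τ) (C := C) hU
  obtain ⟨L, hL⟩ := exists_len_bound (C := C)
  -- vanishing below level `m₀`
  let Van : ℕ → (ι → k) → Prop := fun m₀ v => ∀ m ∈ C.N, C.len m < m₀ → f ⬝ᵥ (τ m *ᵥ v) = 0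
  let Good : ℕ → Prop := fun m₀ => ∃ (χ : C.H →* kˣ) (v : ι → k), v ≠ 0 ∧ IsFixV τ C v ∧ IsWt τ χ v ∧ Van m₀ v
  have hzero : ∀ v : ι → k, IsFixV τ C v → v ≠ 0 → ¬ Van (L + 1) v := by
    intro v hv hv0 hvan
    obtain ⟨g, hg⟩ := hI f v hf0 hv0
    obtain ⟨u, hu, m, hm, u', hu', rfl⟩ := C.bruhat g
    apply hg
    rw [map_mul, map_mul, ← Matrix.mulVec_mulVec, hv u' hu', ← Matrix.mulVec_mulVec,
      Matrix.dotProduct_mulVec, hf u hu]
    exact hvan m hm (Nat.lt_succ_of_le (hL m))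
  have hgood0 : Good 0 := by
    obtain ⟨v₀, hv₀, hfix₀⟩ := exists_fixV (τ := τ) (C := C) hU
    let W : Submodule k (ι → k) :=
      { carrier := {v | IsFixV τ C v}
        add_mem' := fun {a b} ha hb u hu => by rw [Matrix.mulVec_add, ha u hu, hb u hu]
        zero_mem' := fun u _ => Matrix.mulVec_zero _
        smul_mem' := fun c a ha u hu => by rw [Matrix.mulVec_smul, ha u hu] }
    have hW : W ≠ ⊥ := by
      intro h
      have : v₀ ∈ W := hfix₀
      rw [h] at this
      exact hv₀ (by simpa using this)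
    have hst : ∀ h : C.H, ∀ v ∈ W, τ h *ᵥ v ∈ W := by
      intro h v hv u hu
      have e : u * (h : G) = h * ((h : G)⁻¹ * u * h) := by group
      rw [Matrix.mulVec_mulVec, ← map_mul, e, map_mul, ← Matrix.mulVec_mulVec]
      have hin := C.H_U _ (C.H.inv_mem h.2) u hu
      rw [inv_inv] at hin
      rw [hv _ hin]
    obtain ⟨v, hv, hv0, hh⟩ := exists_common_eig (C := C) (τ := τ) W hW hst
    obtain ⟨χ, hχ⟩ := exists_wt (C := C) hv0 hh
    exact ⟨χ, v, hv0, hv, hχ, fun m _ hm => absurd hm (Nat.not_lt_zero _)⟩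
  have hgoodL : ¬ Good (L + 1) := by
    rintro ⟨χ, v, hv0, hv, -, hvan⟩
    exact hzero v hv hv0 hvan
  let M := Nat.findGreatest Good (L + 1)
  have hM : Good M := Nat.findGreatest_spec (Nat.zero_le _) hgood0
  have hML : M < L + 1 := by
    apply lt_of_le_of_ne (Nat.findGreatest_le _)
    intro h
    exact hgoodL (h ▸ hM)
  have hM1 : ¬ Good (M + 1) := Nat.findGreatest_is_greatest (Nat.lt_succ_self _) hML
  obtain ⟨χ, v₀, hv₀, hfix₀, hwt₀, hvan₀⟩ := hM
  -- the support at level `M`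
  let A : (ι → k) → Finset G := fun v => by
    haveI := Fintype.ofFinite G
    exact Finset.univ.filter (fun m => m ∈ C.N ∧ C.len m = M ∧ f ⬝ᵥ (τ m *ᵥ v) ≠ 0)
  have hmemA : ∀ v m, m ∈ A v ↔ m ∈ C.N ∧ C.len m = M ∧ f ⬝ᵥ (τ m *ᵥ v) ≠ 0 := by
    intro v m
    simp [A]
  let S : Set (ι → k) := {v | v ≠ 0 ∧ IsFixV τ C v ∧ IsWt τ χ v ∧ Van M v}
  obtain ⟨v, hvS, hmin⟩ := (InvImage.wf (fun v => (A v).card) Nat.lt_wfRel.wf).has_min S ⟨v₀, hv₀, hfix₀, hwt₀, hvan₀⟩
  obtain ⟨hv0, hfix, hwt, hvan⟩ := hvS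
  have hmin' : ∀ v' ∈ S, (A v).card ≤ (A v').card := fun v' hv' => not_lt.1 (hmin v' hv')
  have hBi := isBi_coef (C := C) (τ := τ) hf hfix hwt
  have hpre : ∀ m ∈ C.N, ∀ i, ¬ C.up m i → C.len (m * C.n i) + 1 = C.len m := by
    intro m hm i hu
    have hm' := C.N.mul_mem hm (C.n_mem i)
    have hu' : C.up (m * C.n i) i := (C.up_n m hm i).2 hu
    have h1 := C.len_up _ hm' i hu'
    rw [n_mul_n, C.len_H m hm _ (C.hh_mem i _)] at h1
    omega
  have hstep : ∀ i, ∃ a : k, ∑ t : F, τ (C.x i t * C.n i) *ᵥ v = a • v ∧ (a = 0 ∨ (a = -1 ∧ C.Triv χ i)) := by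
    intro i
    by_cases hT : C.Triv χ i
    · -- the diagonal case
      have hne : (A v).Nonempty := by
        by_contra hemp
        rw [Finset.not_nonempty_iff_eq_empty] at hemp
        apply hM1
        refine ⟨χ, v, hv0, hfix, hwt, ?_⟩
        intro m hm hlt
        by_cases hlt' : C.len m < M
        · exact hvan m hm hlt'
        · by_contra hc
          have : m ∈ A v := (hmemA v m).2 ⟨hm, by omega, hc⟩
          rw [hemp] at this
          exact absurd this (Finset.notMem_empty _)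
      obtain ⟨m₁, hm₁⟩ := hne
      obtain ⟨hm₁N, hm₁L, hm₁0⟩ := (hmemA v m₁).1 hm₁
      let D : G → k := fun m => if C.up m i then 0 else -1
      have hval : ∀ m ∈ C.N, C.len m ≤ M →
          f ⬝ᵥ (τ m *ᵥ ∑ t : F, τ (C.x i t * C.n i) *ᵥ v) = D m * f ⬝ᵥ (τ m *ᵥ v) := by
        intro m hm hle
        rw [dot_sum_eig]
        by_cases hu : C.up m i
        · rw [calc_up hq hBi hm i hu]
          simp [D, hu]
        · rw [calc_down hBi hm i hu, C.ee_of_triv hq hT]
          have h1 := hpre m hm i hu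
          have h2 := hvan _ (C.N.mul_mem hm (C.n_mem i)) (by omega)
          have h3 : coefF τ f v (m * C.n i) = 0 := h2
          rw [h3]
          simp [D, hu, coefF]
      refine ⟨D m₁, ?_, ?_⟩
      · by_contra hcon
        let v' := (∑ t : F, τ (C.x i t * C.n i) *ᵥ v) - D m₁ • v
        have hv'0 : v' ≠ 0 := sub_ne_zero.2 hcon
        have hval' : ∀ m ∈ C.N, C.len m ≤ M → f ⬝ᵥ (τ m *ᵥ v') = (D m - D m₁) * f ⬝ᵥ (τ m *ᵥ v) := by
          intro m hm hle
          simp only [v']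
          rw [Matrix.mulVec_sub, dotProduct_sub, hval m hm hle, Matrix.mulVec_smul, dotProduct_smul,
            smul_eq_mul, sub_mul]
        have hv'S : v' ∈ S := by
          refine ⟨hv'0, ?_, ?_, ?_⟩
          · intro u hu
            simp only [v']
            rw [Matrix.mulVec_sub, isFixV_hecke hfix i u hu, Matrix.mulVec_smul, hfix u hu]
          · intro h
            simp only [v']
            have h1 := isWt_hecke (C := C) hwt i h
            rw [comp_nH_of_triv hT] at h1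
            rw [Matrix.mulVec_sub, h1, Matrix.mulVec_smul, hwt h, smul_sub, smul_comm]
          · intro m hm hlt
            rw [hval' m hm hlt.le, hvan m hm hlt, mul_zero]
        have hsub : A v' ⊂ A v := by
          rw [Finset.ssubset_iff_of_subset]
          · refine ⟨m₁, hm₁, ?_⟩
            intro hin
            obtain ⟨h1, h2, h3⟩ := (hmemA _ _).1 hin
            apply h3
            rw [hval' m₁ h1 h2.le, sub_self, zero_mul]
          · intro m hm
            obtain ⟨h1, h2, h3⟩ := (hmemA _ _).1 hm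
            refine (hmemA _ _).2 ⟨h1, h2, ?_⟩
            intro h4
            apply h3
            rw [hval' m h1 h2.le, h4, mul_zero]
        have := hmin' v' hv'S
        have h5 := Finset.card_lt_card hsub
        omega
      · by_cases hu : C.up m₁ i
        · left
          simp [D, hu]
        · right
          exact ⟨by simp [D, hu], hT⟩
    · -- off the diagonal: `T_i v` vanishes one level further
      refine ⟨0, ?_, Or.inl rfl⟩
      rw [zero_smul]
      by_contra hcon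
      apply hM1
      refine ⟨χ.comp (C.nH i), _, hcon, isFixV_hecke hfix i, isWt_hecke hwt i, ?_⟩
      intro m hm hlt
      rw [dot_sum_eig]
      by_cases hu : C.up m i
      · exact calc_up hq hBi hm i hu
      · rw [calc_down hBi hm i hu, C.ee_of_not_triv hT, zero_mul, add_zero]
        have h1 := hpre m hm i hu
        exact hvan _ (C.N.mul_mem hm (C.n_mem i)) (by omega)
  choose c hc using hstep
  exact ⟨χ, c, v, hv0, hfix, hwt, fun i => (hc i).1, fun i => (hc i).2⟩

/-- **The `U`-fixed line is unique**: `(χ, c)` is an invariant of the simple module. -/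
theorem line_unique (hq : ((Fintype.card F : ℕ) : k) = 0) (hU : IsPGroup p C.U) [Nonempty ι] (hI : Irr τ)
    {χ χ' : C.H →* kˣ} {c c' : I → k} {v v' : ι → k} (hv0 : v ≠ 0) (hv : IsFixV τ C v) (hw : IsWt τ χ v)
    (he : IsEig τ C c v) (hv0' : v' ≠ 0) (hv' : IsFixV τ C v') (hw' : IsWt τ χ' v') (he' : IsEig τ C c' v') :
    χ = χ' ∧ c = c' := by
  obtain ⟨χd, cd, z, hz0, hz, hzw, hze, hza⟩ := exists_line (τ := dualRep τ) (C := C) hq hU (irr_dual hI)
  let ξ : (ι → k) → k := fun y => y ⬝ᵥ (dualRep τ C.n0 *ᵥ z)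
  have hξ : ∀ y : ι → k, y ≠ 0 → IsFixV τ C y → ξ y ≠ 0 := by
    intro y hy0 hy
    have h1 := isBi_coef (C := C) (τ := dualRep τ) (isFixR_dual_of hy) hz hzw
    have h2 := isHecke_coef (f := y) hze
    exact coef_n0 hq h1 h2 hza (irr_dual hI y z hy0 hz0)
  have hzero : ξ v' • v - ξ v • v' = 0 := by
    by_contra hne
    refine hξ _ hne ?_ ?_
    · intro u hu
      rw [Matrix.mulVec_sub, Matrix.mulVec_smul, Matrix.mulVec_smul, hv u hu, hv' u hu]
    · simp only [ξ, sub_dotProduct, smul_dotProduct, smul_eq_mul]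
      ring
  have hv'eq : v' = (ξ v' / ξ v) • v := by
    have h1 := hξ v hv0 hv
    have h2 : ξ v • v' = ξ v' • v := (sub_eq_zero.1 hzero).symm
    rw [div_eq_inv_mul, mul_smul, ← h2, smul_smul, inv_mul_cancel₀ h1, one_smul]
  have ha : ξ v' / ξ v ≠ 0 := div_ne_zero (hξ v' hv0' hv') (hξ v hv0 hv)
  constructor
  · ext h
    have h1 := hw' h
    have h2 := hw h
    rw [hv'eq, Matrix.mulVec_smul, h2, smul_smul, smul_smul, mul_comm] at h1
    exact mul_right_cancel₀ ha (smul_left_injective k hv0 h1)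
  · funext i
    have h1 := he' i
    have h2 := he i
    rw [hv'eq] at h1
    simp_rw [Matrix.mulVec_smul] at h1
    rw [← Finset.smul_sum, h2, smul_smul, smul_smul, mul_comm] at h1
    exact mul_right_cancel₀ ha (smul_left_injective k hv0 h1)

end rep

section exist

/-- The coset `n₀ N_J` -/
def InCoset (C : CRData G F I) (J : I → Prop) (m : G) (h : C.H) : Prop :=
  ∃ l : List I, (∀ i ∈ l, J i) ∧ m = C.n0 * (l.map C.n).prod * h

/-- `χ` on the coset `n₀ N_J`. -/
noncomputable def lam (C : CRData G F I) (J : I → Prop) (χ : C.H →* kˣ) (m : G) : k :=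
  by
    classical
    exact if hm : ∃ h : C.H, InCoset C J m h then ((χ hm.choose : kˣ) : k) else 0

theorem triv_conj {χ : C.H →* kˣ} {i : I} (hT : C.Triv χ i) (h : C.H) : χ (C.nH i h) = χ h := by
  have := comp_nH_of_triv hT
  exact DFunLike.congr_fun this h

theorem coset_wd {χ : C.H →* kˣ} {J : I → Prop} (hJ : ∀ i, J i → C.Triv χ i) {m : G} {h h' : C.H}
    (hm : InCoset C J m h) (hm' : InCoset C J m h') : χ h = χ h' := by
  obtain ⟨l, hl, e⟩ := hm
  obtain ⟨l', hl', e'⟩ := hm'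
  let R : Subgroup G := (χ.ker).map C.H.subtype
  have hR : ∀ g ∈ R, ∃ hg : g ∈ C.H, χ ⟨g, hg⟩ = 1 := by
    rintro g ⟨a, ha, rfl⟩
    exact ⟨a.2, ha⟩
  have h1 : ∀ i ∈ {i | J i}, ∀ t, C.hh i t ∈ R := fun i hi t => ⟨C.hhH i t, hJ i hi t, rfl⟩
  have h2 : ∀ i ∈ {i | J i}, ∀ g ∈ R, C.n i * g * (C.n i)⁻¹ ∈ R := by
    intro i hi g hg
    obtain ⟨hgH, hg1⟩ := hR g hg
    have hin : C.n i * g * (C.n i)⁻¹ ∈ C.H := C.N_H _ (C.n_mem i) _ hgH
    have h9 : χ ⟨_, hin⟩ = 1 := by
      rw [← triv_conj (hJ i hi) ⟨_, hin⟩, ← hg1]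
      congr 1
      apply Subtype.ext
      rw [nH_coe]
      group
    exact ⟨⟨_, hin⟩, h9, rfl⟩
  have e2 : ((l'.map C.n).prod)⁻¹ * (l.map C.n).prod = (h' : G) * (h : G)⁻¹ := by
    have e3 : C.n0 * (l.map C.n).prod * h = C.n0 * (l'.map C.n).prod * h' := e.symm.trans e'
    have e4 : (l.map C.n).prod * h = (l'.map C.n).prod * h' := by
      rw [mul_assoc, mul_assoc] at e3
      exact mul_left_cancel e3
    rw [inv_mul_eq_iff_eq_mul, ← mul_assoc, ← e4]
    group
  have h3 := C.word {i | J i} R h1 h2 l l' hl hl' (by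
    rw [e2]
    exact C.H.mul_mem h'.2 (C.H.inv_mem h.2))
  rw [e2] at h3
  obtain ⟨h8, h4⟩ := hR _ h3
  have h6 : χ (h' * h⁻¹) = 1 := h4
  rw [map_mul, map_inv, mul_inv_eq_one] at h6
  exact h6.symm

theorem lam_eq {χ : C.H →* kˣ} {J : I → Prop} (hJ : ∀ i, J i → C.Triv χ i) {m : G} {h : C.H}
    (hm : InCoset C J m h) : lam C J χ m = ((χ h : kˣ) : k) := by
  have hex : ∃ h : C.H, InCoset C J m h := ⟨h, hm⟩
  unfold lam
  rw [dif_pos hex, coset_wd hJ hex.choose_spec hm]

theorem lam_eq_zero {χ : C.H →* kˣ} {J : I → Prop} {m : G} (hm : ¬ ∃ h : C.H, InCoset C J m h) :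
    lam C J χ m = 0 := by
  unfold lam
  rw [dif_neg hm]

theorem lam_torus {χ : C.H →* kˣ} {J : I → Prop} (hJ : ∀ i, J i → C.Triv χ i) (m : G) (h' : C.H) :
    lam C J χ (m * h') = ((χ h' : kˣ) : k) * lam C J χ m := by
  by_cases hm : ∃ h : C.H, InCoset C J m h
  · obtain ⟨h, hh⟩ := hm
    rw [lam_eq hJ hh]
    obtain ⟨l, hl, rfl⟩ := hh
    rw [lam_eq hJ (h := h * h') ⟨l, hl, by
      show _ = _ * ((h : G) * h')
      group⟩, map_mul, Units.val_mul, mul_comm]
  · rw [lam_eq_zero hm, mul_zero]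
    apply lam_eq_zero
    rintro ⟨h, l, hl, e⟩
    apply hm
    refine ⟨h * h'⁻¹, l, hl, ?_⟩
    have e1 : m = (m * h') * (h' : G)⁻¹ := by group
    rw [e1, e]
    show _ = _ * ((h : G) * (h' : G)⁻¹)
    group

theorem coset_mul_n {J : I → Prop} {m : G} {h : C.H} {i : I}
    (hi : J i) (hm : InCoset C J m h) : InCoset C J (m * C.n i) (C.nH i h) := by
  obtain ⟨l, hl, rfl⟩ := hm
  refine ⟨l ++ [i], ?_, ?_⟩
  · intro j hj
    rcases List.mem_append.1 hj with h1 | h1
    · exact hl j h1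
    · rw [List.mem_singleton] at h1
      rw [h1]
      exact hi
  · rw [List.map_append, List.prod_append, nH_coe]
    simp only [List.map_cons, List.map_nil, List.prod_cons, List.prod_nil, mul_one]
    group

theorem lam_n {χ : C.H →* kˣ} {J : I → Prop} (hJ : ∀ i, J i → C.Triv χ i) (m : G) {i : I} (hi : J i) :
    lam C J χ (m * C.n i) = lam C J χ m := by
  have hco := fun {m : G} {h : C.H} (hm : InCoset C J m h) =>
    coset_mul_n (J := J) hi hm
  by_cases hm : ∃ h : C.H, InCoset C J m h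
  · obtain ⟨h, hh⟩ := hm
    rw [lam_eq hJ hh, lam_eq hJ (hco hh), triv_conj (hJ i hi)]
  · rw [lam_eq_zero hm]
    apply lam_eq_zero
    rintro ⟨h, hh⟩
    apply hm
    have h1 := hco hh
    have e : m * C.n i * C.n i = m * C.hh i (-1) := n_mul_n i
    rw [e] at h1
    refine ⟨C.nH i h * (C.hhH i (-1))⁻¹, ?_⟩
    obtain ⟨l, hl, e2⟩ := h1
    refine ⟨l, hl, ?_⟩
    have e3 : m = (m * C.hh i (-1)) * (C.hh i (-1))⁻¹ := by group
    rw [e3, e2]
    show _ = _ * (((C.nH i h : C.H) : G) * (C.hh i (-1))⁻¹)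
    group

theorem lam_n0 {χ : C.H →* kˣ} {J : I → Prop} (hJ : ∀ i, J i → C.Triv χ i) : lam C J χ C.n0 = 1 := by
  have h : InCoset C J C.n0 1 := ⟨[], by simp, by simp⟩
  rw [lam_eq hJ h, map_one, Units.val_one]

theorem coset_down' {J : I → Prop} {m : G} {h : C.H} (hm : InCoset C J m h) {i : I} (hi : ¬ J i) :
    ¬ C.up m i := by
  obtain ⟨l, hl, rfl⟩ := hm
  exact C.coset_down l i (fun h1 => hi (hl i h1)) h h.2

/-- The function on `G` obtained from `lam` by bi-invariance. -/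
noncomputable def bigPhi (C : CRData G F I) (lamb : G → k) (g : G) : k :=
  lamb (Classical.choose (Classical.choose_spec (C.bruhat g)).2)

theorem bigPhi_eq (lamb : G → k) {u m u' : G} (hu : u ∈ C.U) (hm : m ∈ C.N) (hu' : u' ∈ C.U) :
    bigPhi C lamb (u * m * u') = lamb m := by
  unfold bigPhi
  obtain ⟨hu₁, hex⟩ := Classical.choose_spec (C.bruhat (u * m * u'))
  obtain ⟨hm₁, u₁', hu₁', e⟩ := Classical.choose_spec hex
  have h6 : u⁻¹ * Classical.choose (C.bruhat (u * m * u')) * Classical.choose hex * (u₁' * u'⁻¹) = m := by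
    have : u⁻¹ * Classical.choose (C.bruhat (u * m * u')) * Classical.choose hex * (u₁' * u'⁻¹) =
        u⁻¹ * (Classical.choose (C.bruhat (u * m * u')) * Classical.choose hex * u₁') * u'⁻¹ := by group
    rw [this, ← e]
    group
  have h7 := C.uniq _ (C.U.mul_mem (C.U.inv_mem hu) hu₁) _ hm₁ _ (C.U.mul_mem hu₁' (C.U.inv_mem hu')) m hm h6
  rw [h7]

theorem bigPhi_N (lamb : G → k) {m : G} (hm : m ∈ C.N) : bigPhi C lamb m = lamb m := by
  have := bigPhi_eq (C := C) lamb C.U.one_mem hm C.U.one_mem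
  simpa using this

/-- **Existence**: every admissible pair is afforded by a matrix coefficient. -/
theorem exists_coef (hq : ((Fintype.card F : ℕ) : k) = 0) {χ : C.H →* kˣ} {c : I → k} (hc : Adm (C := C) χ c) :
    ∃ Φ : G → k, C.IsBi χ Φ ∧ C.IsHecke c Φ ∧ Φ C.n0 = 1 := by
  let J : I → Prop := InJ χ c
  have hJ : ∀ i, J i → C.Triv χ i := fun i hi => hi.2
  let Φ : G → k := bigPhi C (lam C J χ)
  have hBi : C.IsBi χ Φ := by
    refine ⟨?_, ?_, ?_⟩
    · intro v hv g
      obtain ⟨u, hu, m, hm, u', hu', rfl⟩ := C.bruhat g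
      have e : v * (u * m * u') = (v * u) * m * u' := by group
      simp only [Φ]
      rw [e, bigPhi_eq _ (C.U.mul_mem hv hu) hm hu', bigPhi_eq _ hu hm hu']
    · intro v hv g
      obtain ⟨u, hu, m, hm, u', hu', rfl⟩ := C.bruhat g
      have e : u * m * u' * v = u * m * (u' * v) := by group
      simp only [Φ]
      rw [e, bigPhi_eq _ hu hm (C.U.mul_mem hu' hv), bigPhi_eq _ hu hm hu']
    · intro h g
      obtain ⟨u, hu, m, hm, u', hu', rfl⟩ := C.bruhat g
      have e : u * m * u' * h = u * (m * h) * ((h : G)⁻¹ * u' * h) := by group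
      have h1 : (h : G)⁻¹ * u' * h ∈ C.U := by
        have := C.H_U _ (C.H.inv_mem h.2) u' hu'
        simpa using this
      simp only [Φ]
      rw [e, bigPhi_eq _ hu (C.N.mul_mem hm (C.H_le_N h.2)) h1, bigPhi_eq _ hu hm hu', lam_torus hJ]
  refine ⟨Φ, hBi, ?_, ?_⟩
  · intro i g
    obtain ⟨u, hu, m, hm, u', hu', rfl⟩ := C.bruhat g
    have hR : Φ (u * m * u') = Φ m := by
      simp only [Φ]
      rw [bigPhi_eq _ hu hm hu', bigPhi_N _ hm]
    rw [hR]
    obtain ⟨σ, hσ⟩ := C.shift i u' hu'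
    have h1 : ∀ t, Φ (u * m * u' * (C.x i t * C.n i)) = Φ (m * (C.x i (σ t) * C.n i)) := by
      intro t
      obtain ⟨u'', hu'', e⟩ := hσ t
      have e1 : u * m * u' * (C.x i t * C.n i) = u * (m * (C.x i (σ t) * C.n i)) * u'' := by
        rw [mul_assoc (u * m), e]
        group
      rw [e1, hBi.right _ hu'', hBi.left _ hu]
    rw [Finset.sum_congr rfl (fun t _ => h1 t), Equiv.sum_comp σ (fun t => Φ (m * (C.x i t * C.n i)))]
    have hΦm : ∀ m' ∈ C.N, Φ m' = lam C J χ m' := fun m' hm' => bigPhi_N _ hm'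
    by_cases hu0 : C.up m i
    · rw [calc_up hq hBi hm i hu0]
      by_cases hcz : c i = 0
      · rw [hcz, zero_mul]
      · have hnJ : ¬ J i := fun h => hcz h.1
        have : Φ m = 0 := by
          rw [hΦm m hm]
          apply lam_eq_zero
          rintro ⟨h, hh⟩
          exact coset_down' hh hnJ hu0
        rw [this, mul_zero]
    · rw [calc_down hBi hm i hu0]
      by_cases hiJ : J i
      · rw [hΦm _ (C.N.mul_mem hm (C.n_mem i)), lam_n hJ m hiJ, hΦm m hm, C.ee_of_triv hq hiJ.2, hiJ.1]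
        ring
      · have hee : C.ee χ i = c i := by
          rcases hc i with h0 | ⟨h1, h2⟩
          · have : ¬ C.Triv χ i := fun h => hiJ ⟨h0, h⟩
            rw [C.ee_of_not_triv this, h0]
          · rw [C.ee_of_triv hq h2, h1]
        have h0 : Φ (m * C.n i) = 0 := by
          rw [hΦm _ (C.N.mul_mem hm (C.n_mem i))]
          apply lam_eq_zero
          rintro ⟨h, hh⟩
          exact coset_down' hh hiJ ((C.up_n m hm i).2 hu0)
        rw [h0, zero_add, hee]
  · simp only [Φ]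
    rw [bigPhi_N _ C.n0_mem, lam_n0 hJ]

end exist

section matrixideal

variable {d : ℕ}

/-- A left ideal of a matrix algebra without a common kernel vector is the whole algebra. -/
theorem one_mem_of_left_ideal (W : Submodule k (Matrix (Fin d) (Fin d) k))
    (hW : ∀ M, ∀ X ∈ W, M * X ∈ W) (hK : ∀ v : Fin d → k, v ≠ 0 → ∃ X ∈ W, X *ᵥ v ≠ 0) : (1 : Matrix (Fin d) (Fin d) k) ∈ W := by
  classical
  let R : Submodule k (Fin d → k) := Submodule.span k {r | ∃ X ∈ W, ∃ a, r = X a}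
  have hR : R = ⊤ := by
    by_contra hne
    obtain ⟨f, hf, hle⟩ := Submodule.exists_le_ker_of_lt_top R (lt_top_iff_ne_top.2 hne)
    let v : Fin d → k := fun b => f (Pi.single b 1)
    have hfv : ∀ r, f r = r ⬝ᵥ v := by
      intro r
      have h1 := LinearMap.pi_apply_eq_sum_univ f r
      rw [h1]
      simp only [dotProduct, smul_eq_mul, v]
      apply Finset.sum_congr rfl
      intro i _
      congr 2
      funext j
      simp [Pi.single_apply, eq_comm]
    have hv0 : v ≠ 0 := by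
      intro h0
      apply hf
      ext b
      simp only [LinearMap.zero_comp, LinearMap.zero_apply]
      have := congrFun h0 b
      simpa [v] using this
    obtain ⟨X, hX, hXv⟩ := hK v hv0
    apply hXv
    funext a
    have h1 : X a ∈ R := Submodule.subset_span ⟨X, hX, a, rfl⟩
    have h2 := hle h1
    rw [LinearMap.mem_ker, hfv] at h2
    exact h2
  have hrow : ∀ r ∈ R, ∀ b, (Matrix.of fun i j => if i = b then r j else 0 : Matrix (Fin d) (Fin d) k) ∈ W := by
    intro r hr b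
    induction hr using Submodule.span_induction with
    | mem r hr =>
      obtain ⟨X, hX, a, rfl⟩ := hr
      have e : (Matrix.of fun i j => if i = b then X a j else 0 : Matrix (Fin d) (Fin d) k) =
          Matrix.single b a 1 * X := by
        ext i j
        simp only [Matrix.of_apply]
        by_cases h : i = b
        · subst h
          simp
        · simp [h, Matrix.single_mul_apply_of_ne _ _ _ _ _ h]
      rw [e]
      exact hW _ _ hX
    | zero =>
      have e : (Matrix.of fun i j => if i = b then (0 : Fin d → k) j else 0 : Matrix (Fin d) (Fin d) k) = 0 := by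
        ext i j
        simp
      rw [e]
      exact W.zero_mem
    | add x y _ _ hx hy =>
      have e : (Matrix.of fun i j => if i = b then (x + y) j else 0 : Matrix (Fin d) (Fin d) k) =
          (Matrix.of fun i j => if i = b then x j else 0) + (Matrix.of fun i j => if i = b then y j else 0) := by
        ext i j
        by_cases h : i = b <;> simp [h]
      rw [e]
      exact W.add_mem hx hy
    | smul c x _ hx =>
      have e : (Matrix.of fun i j => if i = b then (c • x) j else 0 : Matrix (Fin d) (Fin d) k) =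
          c • (Matrix.of fun i j => if i = b then x j else 0) := by
        ext i j
        by_cases h : i = b <;> simp [h]
      rw [e]
      exact W.smul_mem _ hx
  have e1 : (1 : Matrix (Fin d) (Fin d) k) = ∑ b, (Matrix.of fun i j => if i = b then (Pi.single b 1 : Fin d → k) j else 0) := by
    ext i j
    rw [Matrix.sum_apply, Finset.sum_eq_single i]
    · simp [Matrix.one_apply, Pi.single_apply, eq_comm]
    · intro b _ hb
      simp [Ne.symm hb]
    · simp
  rw [e1]
  exact Submodule.sum_mem _ (fun b _ => hrow _ (hR ▸ Submodule.mem_top) b)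

end matrixideal

section main

open MonoidAlgebra

variable [Fintype G]

/-- The representation of `G` on a matrix quotient. -/
noncomputable def tauOf (S : WSys k G) (i : Fin S.r) : G →* Matrix (Fin (S.d i)) (Fin (S.d i)) k :=
  ((S.ρ i : MonoidAlgebra k G →* Matrix (Fin (S.d i)) (Fin (S.d i)) k)).comp (MonoidAlgebra.of k G)

theorem tauOf_apply (S : WSys k G) (i : Fin S.r) (g : G) : tauOf S i g = S.ρ i (single g 1) := rfl

theorem rho_single (S : WSys k G) (i : Fin S.r) (g : G) (r : k) : S.ρ i (single g r) = r • tauOf S i g := by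
  have e : (single g r : MonoidAlgebra k G) = r • single g 1 := by simp
  rw [e, map_smul]
  rfl

theorem lin_coef (S : WSys k G) (i : Fin S.r) (f v : Fin (S.d i) → k) (a : MonoidAlgebra k G) :
    lin (coefF (tauOf S i) f v) a = f ⬝ᵥ (S.ρ i a *ᵥ v) := by
  induction a using MonoidAlgebra.induction_linear with
  | zero => simp
  | add x y hx hy => rw [map_add, map_add, hx, hy, Matrix.add_mulVec, dotProduct_add]
  | single g r =>
    rw [lin_single, rho_single, Matrix.smul_mulVec, dotProduct_smul, smul_eq_mul]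
    rfl

theorem irr_tau (S : WSys k G) (i : Fin S.r) : Irr (tauOf S i) := by
  classical
  intro f v hf hv
  by_contra hcon
  push Not at hcon
  have h1 : ∀ M : Matrix (Fin (S.d i)) (Fin (S.d i)) k, f ⬝ᵥ (M *ᵥ v) = 0 := by
    intro M
    obtain ⟨a, ha⟩ := S.surj (Pi.single i M)
    have h2 : S.ρ i a = M := by
      have := congrFun ha i
      simpa using this
    rw [← h2, ← lin_coef]
    have h3 : coefF (tauOf S i) f v = 0 := by
      funext g
      exact hcon g
    rw [h3]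
    simp [lin_apply]
  obtain ⟨a₀, ha₀⟩ := Function.ne_iff.1 hf
  obtain ⟨b₀, hb₀⟩ := Function.ne_iff.1 hv
  have h4 := h1 (Matrix.single a₀ b₀ 1)
  rw [Matrix.single_mulVec] at h4
  have h5 : f ⬝ᵥ Pi.single a₀ ((1 : k) * v b₀) = 0 := h4
  rw [dotProduct_single, one_mul] at h5
  rcases mul_eq_zero.1 h5 with h6 | h6
  · exact ha₀ h6
  · exact hb₀ h6

/-- The admissible pairs. -/
abbrev Pairs (C : CRData G F I) (k : Type*) [Field k] := Σ χ : C.H →* kˣ, {c : I → k // Adm (C := C) χ c}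

variable [IsAlgClosed k] {p : ℕ} [hp : Fact p.Prime] [hk : CharP k p]

theorem nonempty_fin (S : WSys k G) (i : Fin S.r) : Nonempty (Fin (S.d i)) := ⟨⟨0, S.pos i⟩⟩

theorem exists_pair (hq : ((Fintype.card F : ℕ) : k) = 0) (hU : IsPGroup p C.U) (S : WSys k G) (i : Fin S.r) :
    ∃ P : Pairs C k, ∃ v : Fin (S.d i) → k, v ≠ 0 ∧ IsFixV (tauOf S i) C v ∧ IsWt (tauOf S i) P.1 v ∧
      IsEig (tauOf S i) C P.2.1 v := by
  haveI := nonempty_fin S i
  obtain ⟨χ, c, v, h0, h1, h2, h3, h4⟩ := exists_line (τ := tauOf S i) (C := C) hq hU (irr_tau S i)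
  exact ⟨⟨χ, c, h4⟩, v, h0, h1, h2, h3⟩

/-- The invariant of a simple module. -/
noncomputable def pairOf (hq : ((Fintype.card F : ℕ) : k) = 0) (hU : IsPGroup p C.U) (S : WSys k G) (i : Fin S.r) :
    Pairs C k := Classical.choose (exists_pair hq hU S i)

theorem pairOf_spec (hq : ((Fintype.card F : ℕ) : k) = 0) (hU : IsPGroup p C.U) (S : WSys k G) (i : Fin S.r) :
    ∃ v : Fin (S.d i) → k, v ≠ 0 ∧ IsFixV (tauOf S i) C v ∧ IsWt (tauOf S i) (pairOf hq hU S i).1 v ∧
      IsEig (tauOf S i) C (pairOf hq hU S i).2.1 v := Classical.choose_spec (exists_pair hq hU S i)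

theorem pairOf_eq (hq : ((Fintype.card F : ℕ) : k) = 0) (hU : IsPGroup p C.U) (S : WSys k G) (i : Fin S.r)
    (P : Pairs C k) {v : Fin (S.d i) → k} (h0 : v ≠ 0) (h1 : IsFixV (tauOf S i) C v) (h2 : IsWt (tauOf S i) P.1 v)
    (h3 : IsEig (tauOf S i) C P.2.1 v) : pairOf hq hU S i = P := by
  haveI := nonempty_fin S i
  obtain ⟨v', h0', h1', h2', h3'⟩ := pairOf_spec hq hU S i
  obtain ⟨e1, e2⟩ := line_unique (τ := tauOf S i) (C := C) hq hU (irr_tau S i) h0' h1' h2' h3' h0 h1 h2 h3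
  generalize pairOf hq hU S i = Q at e1 e2 ⊢
  obtain ⟨χ', c', hc'⟩ := Q
  obtain ⟨χ, c, hc⟩ := P
  simp only at e1 e2
  subst e1
  subst e2
  rfl

/-- Normalised matrix coefficient. -/
theorem exists_norm (hq : ((Fintype.card F : ℕ) : k) = 0) (hU : IsPGroup p C.U) (S : WSys k G) (i : Fin S.r)
    (P : Pairs C k) {v : Fin (S.d i) → k} (h0 : v ≠ 0) (h1 : IsFixV (tauOf S i) C v) (h2 : IsWt (tauOf S i) P.1 v)
    (h3 : IsEig (tauOf S i) C P.2.1 v) :
    ∃ f : Fin (S.d i) → k, C.IsBi P.1 (coefF (tauOf S i) f v) ∧ C.IsHecke P.2.1 (coefF (tauOf S i) f v) ∧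
      coefF (tauOf S i) f v C.n0 = 1 := by
  haveI := nonempty_fin S i
  obtain ⟨f, hf0, hf⟩ := exists_fixR (τ := tauOf S i) (C := C) hU
  have hB := isBi_coef (C := C) hf h1 h2
  have hH := isHecke_coef (f := f) h3
  have hn := coef_n0 hq hB hH P.2.2 (irr_tau S i f v hf0 h0)
  let a := (coefF (tauOf S i) f v C.n0)⁻¹
  have hf' : IsFixR (tauOf S i) C (a • f) := by
    intro u hu
    rw [Matrix.smul_vecMul, hf u hu]
  refine ⟨a • f, isBi_coef (C := C) hf' h1 h2, isHecke_coef h3, ?_⟩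
  unfold coefF
  rw [smul_dotProduct, smul_eq_mul]
  exact inv_mul_cancel₀ hn

theorem pairOf_injective (hq : ((Fintype.card F : ℕ) : k) = 0) (hU : IsPGroup p C.U) (S : WSys k G) :
    Function.Injective (pairOf (C := C) hq hU S) := by
  classical
  intro i j hij
  by_contra hne
  obtain ⟨v, h0, h1, h2, h3⟩ := pairOf_spec (C := C) hq hU S i
  obtain ⟨v', h0', h1', h2', h3'⟩ := pairOf_spec (C := C) hq hU S j
  rw [← hij] at h2' h3'
  obtain ⟨f, hB, hH, hN⟩ := exists_norm hq hU S i _ h0 h1 h2 h3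
  obtain ⟨f', hB', hH', hN'⟩ := exists_norm hq hU S j _ h0' h1' h2' h3'
  have heq := coef_unique hq hB hH hB' hH' (pairOf hq hU S i).2.2 (hN.trans hN'.symm)
  -- separate `i` and `j`
  obtain ⟨a, ha⟩ := S.surj (Pi.single i 1)
  have hai : S.ρ i a = 1 := by
    have := congrFun ha i
    simpa using this
  have haj : S.ρ j a = 0 := by
    have := congrFun ha j
    simpa [Pi.single_eq_of_ne (Ne.symm hne)] using this
  have e1 := lin_coef S i f v (single C.n0 1 * a)
  have e2 := lin_coef S j f' v' (single C.n0 1 * a)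
  rw [heq, e2, map_mul, map_mul, haj, hai, mul_zero, mul_one, Matrix.zero_mulVec, dotProduct_zero] at e1
  have e3 : coefF (tauOf S i) f v C.n0 = f ⬝ᵥ (S.ρ i (single C.n0 1) *ᵥ v) := rfl
  rw [← e3, hN] at e1
  exact one_ne_zero e1.symm

/-- Values of a linear functional on left multiples. -/
theorem lin_mul_sum {T : Type*} [Fintype T] (Φ : G → k) (g : T → G) (b : MonoidAlgebra k G) :
    lin Φ (b * ∑ t, single (g t) 1) = lin (fun a => ∑ t, Φ (a * g t)) b := by
  induction b using MonoidAlgebra.induction_linear with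
  | zero => simp
  | add x y hx hy => rw [add_mul, map_add, map_add, hx, hy]
  | single a r =>
    rw [Finset.mul_sum, map_sum, lin_single, Finset.mul_sum]
    apply Finset.sum_congr rfl
    intro t _
    rw [MonoidAlgebra.single_mul_single, lin_single, mul_one]

theorem pairOf_surjective (hq : ((Fintype.card F : ℕ) : k) = 0) (hU : IsPGroup p C.U) (S : WSys k G) :
    Function.Surjective (pairOf (C := C) hq hU S) := by
  classical
  intro P
  obtain ⟨Φ, hB, hH, hN⟩ := exists_coef hq P.2.2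
  let ψ := lin Φ
  let L : Submodule k (MonoidAlgebra k G) :=
    { carrier := {a | ∀ b, ψ (b * a) = 0}
      add_mem' := fun {x y} hx hy b => by rw [mul_add, map_add, hx b, hy b, add_zero]
      zero_mem' := fun b => by simp
      smul_mem' := fun c x hx b => by
        rw [mul_smul_comm, map_smul, hx b, smul_zero] }
  have hL : ∀ b, ∀ a ∈ L, b * a ∈ L := fun b a ha b' => by rw [← mul_assoc]; exact ha _
  have h1 : (1 : MonoidAlgebra k G) ∉ L := by
    intro h
    have := h (single C.n0 1)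
    simp only [ψ, mul_one] at this
    rw [lin_single, one_mul, hN] at this
    exact one_ne_zero this
  -- a common kernel vector in one of the matrix quotients
  have hex : ∃ i, ∃ v : Fin (S.d i) → k, v ≠ 0 ∧ ∀ a ∈ L, S.ρ i a *ᵥ v = 0 := by
    by_contra hcon
    push Not at hcon
    have h2 : ∀ i, ∃ l ∈ L, S.ρ i l = 1 := by
      intro i
      have h3 := one_mem_of_left_ideal (L.map (S.ρ i).toLinearMap) (by
        rintro M _ ⟨a, ha, rfl⟩
        obtain ⟨b, hb⟩ := S.surj (Pi.single i M)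
        have hb' : S.ρ i b = M := by
          have := congrFun hb i
          simpa using this
        refine ⟨b * a, hL b a ha, ?_⟩
        simp [hb']) (by
        intro v hv
        obtain ⟨a, ha, hne⟩ := hcon i v hv
        exact ⟨_, ⟨a, ha, rfl⟩, hne⟩)
      obtain ⟨l, hl, e⟩ := h3
      exact ⟨l, hl, e⟩
    choose l hl hl1 using h2
    have h4 : ∀ i, ∃ a : MonoidAlgebra k G, S.ρ i a = 1 ∧ ∀ j, j ≠ i → S.ρ j a = 0 := by
      intro i
      obtain ⟨a, ha⟩ := S.surj (Pi.single i 1)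
      refine ⟨a, ?_, ?_⟩
      · have := congrFun ha i
        simpa using this
      · intro j hj
        have := congrFun ha j
        simpa [Pi.single_eq_of_ne hj] using this
    choose a ha1 ha0 using h4
    let s : MonoidAlgebra k G := ∑ i, a i * l i
    have hs : s ∈ L := Submodule.sum_mem _ (fun i _ => hL _ _ (hl i))
    have hs1 : ∀ j, S.ρ j (1 - s) = 0 := by
      intro j
      rw [map_sub, map_one, map_sum, Finset.sum_eq_single j]
      · rw [map_mul, ha1, hl1, mul_one, sub_self]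
      · intro i _ hi
        rw [map_mul, ha0 i j (Ne.symm hi), zero_mul]
      · simp
    have hnil := S.nil _ hs1
    have hunit : IsUnit s := by
      have := hnil.isUnit_one_sub
      simpa using this
    obtain ⟨w, hw⟩ := hunit
    apply h1
    have : (w⁻¹ : (MonoidAlgebra k G)ˣ).1 * s = 1 := by
      rw [← hw]
      simp
    rw [← this]
    exact hL _ _ hs
  obtain ⟨i, v, hv0, hv⟩ := hex
  refine ⟨i, ?_⟩
  -- the kernel vector is a line
  have hkey : ∀ (T : Type _) [Fintype T] (g : T → G) (r : k), (∀ a, ∑ t, Φ (a * g t) = r * Φ a) →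
      ∑ t, tauOf S i (g t) *ᵥ v = r • v := by
    intro T _ g r hr
    have hmem : (∑ t, single (g t) (1 : k)) - r • (1 : MonoidAlgebra k G) ∈ L := by
      intro b
      have h5 : b * ((∑ t, single (g t) (1 : k)) - r • (1 : MonoidAlgebra k G)) =
          b * (∑ t, single (g t) (1 : k)) - r • b := by
        rw [mul_sub, mul_smul_comm, mul_one]
      rw [h5, map_sub, map_smul]
      simp only [ψ]
      rw [lin_mul_sum]
      have h6 : (fun a => ∑ t, Φ (a * g t)) = fun a => r * Φ a := funext hr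
      rw [h6]
      simp only [lin_apply, Finset.mul_sum, smul_eq_mul, sub_eq_zero]
      apply Finset.sum_congr rfl
      intro x _
      ring
    have h7 := hv _ hmem
    rw [map_sub, map_smul, map_one, map_sum, Matrix.sub_mulVec, Matrix.smul_mulVec, Matrix.one_mulVec,
      sub_eq_zero, Matrix.sum_mulVec] at h7
    exact h7
  have hfix : IsFixV (tauOf S i) C v := by
    intro u hu
    have := hkey PUnit (fun _ => u) 1 (fun a => by simpa using hB.right u hu a)
    simpa using this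
  have hwt : IsWt (tauOf S i) P.1 v := by
    intro h
    have := hkey PUnit (fun _ => (h : G)) ((P.1 h : kˣ) : k) (fun a => by simpa using hB.torus h a)
    simpa using this
  have heig : IsEig (tauOf S i) C P.2.1 v := by
    intro j
    exact hkey F (fun t => C.x j t * C.n j) (P.2.1 j) (fun a => hH j a)
  exact pairOf_eq hq hU S i P hv0 hfix hwt heig

/-- **The Curtis--Richen classification, combined with Brauer's count.** -/
theorem card_reg_eq (hq : ((Fintype.card F : ℕ) : k) = 0) (hU : IsPGroup p C.U) :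
    Nat.card (RegC G p) = Nat.card (Pairs C k) := by
  obtain ⟨S⟩ := exists_wsys k G
  have h1 := card_eq (p := p) S
  have h2 : Function.Bijective (pairOf (C := C) hq hU S) :=
    ⟨pairOf_injective hq hU S, pairOf_surjective hq hU S⟩
  rw [← Nat.card_congr (Equiv.ofBijective _ h2), Nat.card_eq_fintype_card, Nat.card_eq_fintype_card, ← h1]
  simp

end main

end CRData

end Cfsg.Agent.Lib.CRCore50
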