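import Cfsg.Agent.Lib.CRChev50
import Cfsg.Agent.Lib.Chev.TorusCard
import Cfsg.Agent.Lib.Chev.Core

/-!
# Counting the pairs: the number of `p`-regular classes
-/

set_option autoImplicit false
set_option linter.unusedSectionVars false
set_option linter.unusedVariables false

namespace Cfsg.Agent.Lib.CRChev50

open Cfsg Cfsg.Lie Cfsg.Agent.Lib.Chev Cfsg.Agent.Lib.StChev50
open Cfsg.Agent.Lib Cfsg.Agent.Lib.CRCore50 Cfsg.Agent.Lib.CRCore50.CRData

section abstract

variable {G F I : Type*} [Group G] [Field F] (C : CRData G F I) {k : Type*} [Field k]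

/-- The local factor -/
abbrev XX (F k : Type*) [Field F] [Field k] := Σ ψ : Fˣ →* kˣ, {a : k // a = 0 ∨ (a = -1 ∧ ψ = 1)}

theorem XX_ext {x y : XX F k} (h1 : x.1 = y.1) (h2 : x.2.1 = y.2.1) : x = y := by
  obtain ⟨a, b, hb⟩ := x
  obtain ⟨a', b', hb'⟩ := y
  simp only at h1 h2
  subst h1
  subst h2
  rfl

theorem card_XX [Finite (Fˣ →* kˣ)] : Nat.card (XX F k) = Nat.card (Fˣ →* kˣ) + 1 := by
  rw [← Finite.card_option]
  symm
  apply Nat.card_congr
  refine Equiv.ofBijective (fun o => match o with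
    | none => ⟨1, ⟨-1, Or.inr ⟨rfl, rfl⟩⟩⟩
    | some ψ => ⟨ψ, ⟨0, Or.inl rfl⟩⟩) ⟨?_, ?_⟩
  · rintro (_ | a) (_ | b) h
    · rfl
    · have := congrArg (fun x : XX F k => x.2.1) h
      simp at this
    · have := congrArg (fun x : XX F k => x.2.1) h
      simp at this
    · have := congrArg (fun x : XX F k => x.1) h
      simp only at this
      rw [this]
  · rintro ⟨ψ, a, h⟩
    rcases h with rfl | ⟨rfl, rfl⟩
    · exact ⟨some ψ, rfl⟩
    · exact ⟨none, rfl⟩

theorem card_pairs [Fintype F] [DecidableEq F] [Fintype I] [DecidableEq I] (φ : (I → Fˣ) ≃* C.H)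
    (hφ : ∀ i t, ((φ (Pi.mulSingle i t) : C.H) : G) = C.hh i t) :
    Nat.card (Pairs C k) = Nat.card (XX F k) ^ Fintype.card I := by
  have hφ' : ∀ i t, φ (Pi.mulSingle i t) = C.hhH i t := fun i t => Subtype.ext (hφ i t)
  have hTriv : ∀ (χ : C.H →* kˣ) (i : I), C.Triv χ i → χ.comp (C.hhH i) = 1 := fun χ i h =>
    MonoidHom.ext fun t => h t
  let T : Pairs C k → (I → XX F k) := fun P i =>
    ⟨P.1.comp (C.hhH i), ⟨P.2.1 i, (P.2.2 i).imp id (fun h => ⟨h.1, hTriv _ _ h.2⟩)⟩⟩
  have hT : Function.Bijective T := by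
    constructor
    · rintro ⟨χ, c, hc⟩ ⟨χ', c', hc'⟩ h
      have h1 : ∀ i, χ.comp (C.hhH i) = χ'.comp (C.hhH i) := fun i =>
        congrArg (fun x : XX F k => x.1) (congrFun h i)
      have h2 : ∀ i, c i = c' i := fun i =>
        congrArg (fun x : XX F k => x.2.1) (congrFun h i)
      have h3 : χ.comp φ.toMonoidHom = χ'.comp φ.toMonoidHom := by
        apply (Pi.monoidHomMulEquiv (fun _ : I => Fˣ) kˣ).injective
        funext i
        ext t
        have := congrArg (fun f => ((f t : kˣ) : k)) (h1 i)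
        simp only [MonoidHom.comp_apply] at this
        simpa [Pi.monoidHomMulEquiv, hφ'] using this
      have h4 : χ = χ' := by
        ext x
        have := congrArg (fun f => ((f (φ.symm x) : kˣ) : k)) h3
        simpa using this
      subst h4
      have h5 : c = c' := funext h2
      subst h5
      rfl
    · intro f
      let e := Pi.monoidHomMulEquiv (fun _ : I => Fˣ) kˣ
      let χ : C.H →* kˣ := (e.symm (fun i => (f i).1)).comp φ.symm.toMonoidHom
      have hχ : ∀ i, χ.comp (C.hhH i) = (f i).1 := by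
        intro i
        ext t
        have h1 : φ.symm (C.hhH i t) = Pi.mulSingle i t := by
          rw [← hφ', MulEquiv.symm_apply_apply]
        have h2 := congrFun (e.apply_symm_apply (fun i => (f i).1)) i
        have h3 := congrArg (fun g => ((g t : kˣ) : k)) h2
        rw [← h3]
        show ((e.symm (fun i => (f i).1) (φ.symm (C.hhH i t)) : kˣ) : k) = _
        rw [h1]
        rfl
      refine ⟨⟨χ, fun i => (f i).2.1, fun i => ?_⟩, ?_⟩
      · rcases (f i).2.2 with h | ⟨h, h'⟩
        · exact Or.inl h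
        · refine Or.inr ⟨h, fun t => ?_⟩
          have := DFunLike.congr_fun (hχ i) t
          rw [h'] at this
          exact this
      · funext i
        exact XX_ext (hχ i) rfl
  rw [Nat.card_congr (Equiv.ofBijective T hT), Nat.card_fun, Nat.card_eq_fintype_card (α := I)]

variable [Fintype F] (p : ℕ) [hp : Fact p.Prime] [CharP F p] [IsAlgClosed k] [CharP k p]

include p hp in
theorem card_hom : Nat.card (Fˣ →* kˣ) + 1 = Fintype.card F := by
  classical
  have hpp := hp.out
  obtain ⟨n, _, hn⟩ := FiniteField.card F p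
  have hcard : Nat.card Fˣ + 1 = Fintype.card F := by
    rw [Nat.card_eq_fintype_card, Fintype.card_units]
    have : 1 ≤ Fintype.card F := Fintype.card_pos
    omega
  haveI : NeZero ((Monoid.exponent Fˣ : ℕ) : k) := ⟨by
    intro h
    rw [CharP.cast_eq_zero_iff k p] at h
    have h1 : p ∣ Nat.card Fˣ := h.trans (by
      rw [Nat.card_eq_fintype_card]
      exact Group.exponent_dvd_card)
    have h2 : p ∣ Fintype.card F := by
      rw [hn]
      exact dvd_pow_self _ n.ne_zero
    rw [← hcard] at h2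
    exact hpp.one_lt.ne' (Nat.dvd_one.1 ((Nat.dvd_add_right h1).1 h2))⟩
  rw [CommGroup.card_monoidHom_of_hasEnoughRootsOfUnity, hcard]

include p hp in
theorem finite_hom : Finite (Fˣ →* kˣ) := by
  apply Nat.finite_of_card_ne_zero
  have h1 := card_hom (F := F) (k := k) p
  have h2 : 1 < Fintype.card F := Fintype.one_lt_card
  omega

include p hp in
theorem card_XX_eq : Nat.card (XX F k) = Fintype.card F := by
  haveI := finite_hom (F := F) (k := k) p
  rw [card_XX, card_hom p]

end abstract

variable {F : Type*} [Field F] {T : Tabs} {X : Extra} {R : RootTab} {D : ChevalleyDatum}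
  (hF : Full T X R D)

/-- The torus. -/
noncomputable def torH (hF : Full T X R D) (F : Type*) [Field F] : (Fin D.rank → Fˣ) →* HH D F where
  toFun c := ⟨⟨tor R D c, hF.c.diagonal_le_group (hF.tor_mem_diagonal c)⟩,
    Subgroup.mem_subgroupOf.2 (hF.tor_mem_diagonal c)⟩
  map_one' := by
    apply Subtype.ext
    apply Subtype.ext
    exact tor_one R D
  map_mul' a b := by
    apply Subtype.ext
    apply Subtype.ext
    exact (tor_mul R D a b).symm

include hF

theorem torH_bij [Fintype F] (hcard : Nat.card (D.diagonalSubgroup F) = (Fintype.card F - 1) ^ D.rank) :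
    Function.Bijective (torH hF F) := by
  classical
  have hsurj : Function.Surjective (torH hF F) := by
    rintro ⟨⟨h, hh⟩, hh'⟩
    obtain ⟨c, hc⟩ := (hF.mem_diagonal_iff).1 (Subgroup.mem_subgroupOf.1 hh')
    refine ⟨c, ?_⟩
    apply Subtype.ext
    apply Subtype.ext
    exact hc.symm
  refine (Nat.bijective_iff_surjective_and_card _).2 ⟨hsurj, ?_⟩
  rw [card_HH hF, hcard, Nat.card_fun, Nat.card_eq_fintype_card, Fintype.card_units, Nat.card_eq_fintype_card,
    Fintype.card_fin]

/-- **The number of `p`-regular classes.** -/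
theorem card_reg (hpos : ∀ e ∈ R.braid, 0 < e.2.2.1) [Fintype F] (p : ℕ) [hp : Fact p.Prime] [CharP F p]
    (hcard : Nat.card (D.diagonalSubgroup F) = (Fintype.card F - 1) ^ D.rank) :
    Nat.card {c : ConjClasses ↥(D.group F) // ∃ g : ↥(D.group F), ConjClasses.mk g = c ∧
      (orderOf g).Coprime p} = Fintype.card F ^ D.rank := by
  classical
  let k := AlgebraicClosure F
  haveI : CharP k p := inferInstance
  haveI : Fintype ↥(D.group F) := Fintype.ofFinite _
  let C := crData hF hpos F p
  have hq : ((Fintype.card F : ℕ) : k) = 0 := by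
    rw [CharP.cast_eq_zero_iff k p]
    obtain ⟨n, _, hn⟩ := FiniteField.card F p
    rw [hn]
    exact dvd_pow_self _ n.ne_zero
  have hU : IsPGroup p C.U := isPGroup_UU hF
  have h1 := CRData.card_reg_eq (C := C) (k := k) hq hU
  have h2 := card_pairs (k := k) C (MulEquiv.ofBijective (torH hF F) (torH_bij hF hcard))
    (fun i t => rfl)
  rw [card_XX_eq p, Fintype.card_fin] at h2
  exact h1.trans h2


omit hF in
/-- The tables of the exceptional types -/
theorem exists_full_pos (D : ChevalleyDatum)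
    (hD : D ∈ [chevG2, chevB2, chevD4, chevF4, chevE6, chevE7, chevE8]) :
    ∃ T X R, Full T X R D ∧ ∀ e ∈ R.braid, 0 < e.2.2.1 := by
  simp only [List.mem_cons, List.not_mem_nil, or_false] at hD
  rcases hD with rfl | rfl | rfl | rfl | rfl | rfl | rfl
  · exact ⟨_, _, _, ⟨RelG2.checks, RootG2.checks⟩, by decide +kernel⟩
  · exact ⟨_, _, _, ⟨RelB2.checks, RootB2.checks⟩, by decide +kernel⟩
  · exact ⟨_, _, _, ⟨RelD4.checks, RootD4.checks⟩, by decide +kernel⟩
  · exact ⟨_, _, _, ⟨RelF4.checks, RootF4.checks⟩, by decide +kernel⟩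
  · exact ⟨_, _, _, ⟨RelE6.checks, RootE6.checks⟩, by decide +kernel⟩
  · exact ⟨_, _, _, ⟨RelE7.checks, RootE7.checks⟩, by decide +kernel⟩
  · exact ⟨_, _, _, ⟨RelE8.checks, RootE8.checks⟩, by decide +kernel⟩

end Cfsg.Agent.Lib.CRChev50
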