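import Mathlib
import Cfsg.Agent.Lib.Inv2Count

/-!
# Centralisers of involutions through frames
-/

set_option autoImplicit false
set_option linter.unusedSectionVars false
set_option linter.unusedSimpArgs false
set_option linter.unusedVariables false

namespace Cfsg.Agent.Lib.CentFrame

open Module Matrix
open Cfsg.Agent.Lib.Inv2 Cfsg.Agent.Lib.Inv2Count

/-- Orbit counting in a group. -/
theorem card_of_fibration {H Y : Type*} [Group H] (S : Subgroup H) (φ : H → Y)
    (hs : Function.Surjective φ) (hf : ∀ a b, φ a = φ b ↔ a⁻¹ * b ∈ S) : Nat.card H = Nat.card Y * Nat.card S := by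
  rw [S.card_eq_card_quotient_mul_card_subgroup]
  congr 1
  refine Nat.card_congr (Equiv.ofBijective (Quotient.lift φ (fun a b hab => ?_)) ⟨?_, ?_⟩)
  · exact (hf a b).2 (QuotientGroup.leftRel_apply.mp hab)
  · rintro ⟨a⟩ ⟨b⟩ h
    exact Quotient.sound (QuotientGroup.leftRel_apply.mpr ((hf a b).1 h))
  · intro y
    obtain ⟨a, rfl⟩ := hs y
    exact ⟨Quotient.mk'' a, rfl⟩

section main

variable {F V : Type*} [Field F] [AddCommGroup V] [Module F V]
variable {κ : Type*} [Fintype κ] [DecidableEq κ]

/-- The square-zero map attached to a frame. -/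
def Nv (f : LinearMap.BilinForm F V) (M : Matrix κ κ F) (v : κ → V) (y : V) : V :=
  ∑ a, ∑ b, (M a b * f (v a) y) • v b

/-- Linear combinations of a frame. -/
def lin (A : Matrix κ κ F) (v : κ → V) (i : κ) : V := ∑ a, A i a • v a

theorem Nv_lin (f : LinearMap.BilinForm F V) (M A : Matrix κ κ F) (v : κ → V) (y : V) :
    Nv f M (lin A v) y = Nv f (Aᵀ * M * A) v y := by
  simp only [Nv, lin, map_sum, map_smul, LinearMap.sum_apply, LinearMap.smul_apply, smul_eq_mul, Matrix.mul_apply,
    Matrix.transpose_apply]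
  calc ∑ i, ∑ j, (M i j * ∑ a, A i a * f (v a) y) • ∑ b, A j b • v b
      = ∑ i, ∑ j, ∑ a, ∑ b, (A i a * M i j * A j b * f (v a) y) • v b := by
        refine Finset.sum_congr rfl fun i _ => Finset.sum_congr rfl fun j _ => ?_
        rw [Finset.mul_sum, Finset.sum_smul]
        refine Finset.sum_congr rfl fun a _ => ?_
        rw [Finset.smul_sum]
        refine Finset.sum_congr rfl fun b _ => ?_
        rw [smul_smul]
        congr 1
        ring
    _ = ∑ a, ∑ b, ∑ j, ∑ i, (A i a * M i j * A j b * f (v a) y) • v b := by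
        refine (Finset.sum_congr rfl fun i _ => Finset.sum_comm).trans ?_
        refine Finset.sum_comm.trans ?_
        refine Finset.sum_congr rfl fun a _ => ?_
        refine (Finset.sum_congr rfl fun i _ => Finset.sum_comm).trans ?_
        refine Finset.sum_comm.trans ?_
        refine Finset.sum_congr rfl fun b _ => ?_
        exact Finset.sum_comm
    _ = ∑ a, ∑ b, ((∑ j, (∑ i, A i a * M i j) * A j b) * f (v a) y) • v b := by
        refine Finset.sum_congr rfl fun a _ => Finset.sum_congr rfl fun b _ => ?_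
        rw [Finset.sum_mul, Finset.sum_smul]
        refine Finset.sum_congr rfl fun j _ => ?_
        rw [Finset.sum_mul, Finset.sum_mul, Finset.sum_smul]

variable {f : LinearMap.BilinForm F V} {N : V →ₗ[F] V} {Γ Γ' : Matrix κ κ F} {x : κ → V}

theorem Nv_conj (g : V ≃ₗ[F] V) (hg : ∀ u v, f (g u) (g v) = f u v) (M : Matrix κ κ F) (v : κ → V) (y : V) :
    g (Nv f M v y) = Nv f M (fun i => g (v i)) (g y) := by
  simp only [Nv, map_sum, map_smul, hg]

theorem Nv_eq (hN : SA f N) (h2 : Γ' * Γ = 1) (hsym : Γ'ᵀ = Γ') (hd : IsData f N Γ x) (y : V) :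
    N y = Nv f Γ' (fun i => N (x i)) y := by
  obtain ⟨c, hc⟩ := hd.hspan y
  have h3 : ∀ a, f (N (x a)) y = ∑ i, c i * Γ a i := by
    intro a
    rw [hN.adj, hc, map_sum]
    refine Finset.sum_congr rfl fun i _ => ?_
    rw [map_smul, smul_eq_mul, hd.hΓ]
  simp only [Nv, h3]
  rw [hc]
  have h4 : ∀ b i, ∑ a, Γ' a b * Γ a i = (1 : Matrix κ κ F) b i := by
    intro b i
    rw [← h2, Matrix.mul_apply]
    refine Finset.sum_congr rfl fun a _ => ?_
    have := congrFun (congrFun hsym a) b
    simp only [Matrix.transpose_apply] at this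
    rw [this]
  calc ∑ i, c i • N (x i) = ∑ b, ∑ i, ((1 : Matrix κ κ F) b i * c i) • N (x b) := by
        refine Finset.sum_congr rfl fun b _ => ?_
        rw [← Finset.sum_smul]
        congr 1
        simp [Matrix.one_apply]
    _ = ∑ b, ∑ i, ∑ a, (Γ' a b * Γ a i * c i) • N (x b) := by
        refine Finset.sum_congr rfl fun b _ => Finset.sum_congr rfl fun i _ => ?_
        rw [← h4, Finset.sum_mul, Finset.sum_smul]
    _ = ∑ a, ∑ b, ∑ i, (Γ' a b * Γ a i * c i) • N (x b) := by
        refine (Finset.sum_congr rfl fun b _ => Finset.sum_comm).trans ?_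
        exact Finset.sum_comm
    _ = ∑ a, ∑ b, (Γ' a b * ∑ i, c i * Γ a i) • N (x b) := by
        refine Finset.sum_congr rfl fun a _ => Finset.sum_congr rfl fun b _ => ?_
        rw [Finset.mul_sum, Finset.sum_smul]
        refine Finset.sum_congr rfl fun i _ => ?_
        congr 1
        ring

variable {G : Type*} [Group G]

/-- The stabiliser of a frame. -/
def Stab (e : G →* (V ≃ₗ[F] V)) (v : κ → V) : Subgroup G where
  carrier := {g | ∀ i, e g (v i) = v i}
  one_mem' := by
    intro i
    rw [map_one]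
    rfl
  mul_mem' := by
    intro a b ha hb i
    rw [map_mul]
    show e a (e b (v i)) = v i
    rw [hb, ha]
  inv_mem' := by
    intro a ha i
    rw [map_inv]
    have h := ha i
    show (e a).symm (v i) = v i
    rw [LinearEquiv.symm_apply_eq, h]

theorem mem_Stab (e : G →* (V ≃ₗ[F] V)) (v : κ → V) (g : G) : g ∈ Stab e v ↔ ∀ i, e g (v i) = v i := Iff.rfl

/-- The map from the group to frames. -/
def orb (e : G →* (V ≃ₗ[F] V)) (v : κ → V) (g : G) : κ → V := fun i => e g (v i)

theorem orb_eq_iff (e : G →* (V ≃ₗ[F] V)) (v : κ → V) (a b : G) :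
    orb e v a = orb e v b ↔ a⁻¹ * b ∈ Stab e v := by
  rw [mem_Stab]
  constructor
  · intro h i
    have h1 := congrFun h i
    simp only [orb] at h1
    rw [map_mul, map_inv]
    show (e a).symm (e b (v i)) = v i
    rw [LinearEquiv.symm_apply_eq, h1]
  · intro h
    funext i
    have h1 := h i
    rw [map_mul, map_inv] at h1
    have h2 : (e a).symm (e b (v i)) = v i := h1
    rw [LinearEquiv.symm_apply_eq] at h2
    exact h2.symm

variable (e : G →* (V ≃ₗ[F] V)) (he : Function.Injective e) (hf : ∀ g u v, f (e g u) (e g v) = f u v)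
variable {t : G} (hNt : ∀ y, N y = e t y - y) (hN : SA f N) (h1 : Γ * Γ' = 1) (h2 : Γ' * Γ = 1) (hsym : Γ'ᵀ = Γ')
  (hd : IsData f N Γ x)

include he hf hNt hN h2 hsym hd in
/-- Commuting with the involution in terms of the frame. -/
theorem comm_iff (g : G) :
    g * t = t * g ↔ ∀ y, Nv f Γ' (orb e (fun i => N (x i)) g) y = Nv f Γ' (fun i => N (x i)) y := by
  have hcj : ∀ y, e g (Nv f Γ' (fun i => N (x i)) y) = Nv f Γ' (orb e (fun i => N (x i)) g) (e g y) := fun y =>
    Nv_conj (e g) (hf g) Γ' _ y
  constructor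
  · intro hc y
    have hcomm : ∀ u, e g (N u) = N (e g u) := by
      intro u
      have h3 : e g (e t u) = e t (e g u) := by
        have := LinearEquiv.congr_fun (congrArg e hc) u
        rw [map_mul, map_mul] at this
        exact this
      rw [hNt, hNt, map_sub, h3]
    obtain ⟨y', rfl⟩ := (e g).surjective y
    rw [← hcj, ← Nv_eq hN h2 hsym hd, ← Nv_eq hN h2 hsym hd, hcomm]
  · intro h
    apply he
    apply LinearEquiv.ext
    intro u
    rw [map_mul, map_mul]
    show e g (e t u) = e t (e g u)
    have h3 : e g (N u) = N (e g u) := by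
      rw [Nv_eq hN h2 hsym hd u, hcj, h, ← Nv_eq hN h2 hsym hd]
    have e1 : ∀ w, e t w = N w + w := fun w => by rw [hNt]; abel
    rw [e1, e1, map_add, h3]

variable (X : Set (κ → V))

include he hf hNt hN h1 h2 hsym hd in
/-- The general count. -/
theorem cent_count [Finite G]
    (hX0 : (fun i => N (x i)) ∈ X) (hXg : ∀ g, ∀ v ∈ X, orb e v g ∈ X)
    (htrans : ∀ v ∈ X, ∃ g, orb e (fun i => N (x i)) g = v)
    (hOX : ∀ A : Matrix κ κ F, Aᵀ * Γ' * A = Γ' → lin A (fun i => N (x i)) ∈ X)
    (hS : ∀ x y, f x y = f y x) :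
    Nat.card (Subgroup.centralizer ({t} : Set G)) * Nat.card X = Nat.card {A : Matrix κ κ F // Aᵀ * Γ' * A = Γ'} * Nat.card G := by
  classical
  obtain ⟨v₀, hv₀⟩ : ∃ v₀ : κ → V, v₀ = fun i => N (x i) := ⟨_, rfl⟩
  rw [← hv₀] at hX0 htrans hOX
  have hli : LinearIndependent F v₀ := by
    rw [hv₀]
    exact (li_fam hN hS hd h1 h2).comp Sum.inr Sum.inr_injective
  have hcomm := comm_iff e he hf hNt hN h2 hsym hd
  rw [← hv₀] at hcomm
  have hNeq := Nv_eq hN h2 hsym hd
  rw [← hv₀] at hNeq
  -- the count in the group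
  have hG : Nat.card G = Nat.card X * Nat.card (Stab e v₀) := by
    refine card_of_fibration (Stab e v₀) (fun g => (⟨orb e v₀ g, hXg g _ hX0⟩ : X)) ?_ ?_
    · rintro ⟨v, hv⟩
      obtain ⟨g, hg⟩ := htrans v hv
      exact ⟨g, Subtype.ext hg⟩
    · intro a b
      rw [Subtype.mk.injEq, orb_eq_iff]
  -- the fibre
  let Fib : Set (κ → V) := {v | v ∈ X ∧ ∀ y, Nv f Γ' v y = Nv f Γ' v₀ y}
  have hC : ∀ g : G, g ∈ Subgroup.centralizer ({t} : Set G) ↔ g * t = t * g := by
    intro g
    rw [Subgroup.mem_centralizer_singleton_iff]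
  let SH : Subgroup ↥(Subgroup.centralizer ({t} : Set G)) := (Stab e v₀).comap (Subgroup.subtype _)
  have hH : Nat.card (Subgroup.centralizer ({t} : Set G)) = Nat.card Fib * Nat.card SH := by
    refine card_of_fibration SH (fun g => (⟨orb e v₀ g.1, hXg g.1 _ hX0, (hcomm g.1).1 ((hC g.1).1 g.2)⟩ : Fib)) ?_ ?_
    · rintro ⟨v, hv, hv2⟩
      obtain ⟨g, hg⟩ := htrans v hv
      have hg2 : g * t = t * g := by
        rw [hcomm]
        intro y
        rw [hg]
        exact hv2 y
      exact ⟨⟨g, (hC g).2 hg2⟩, Subtype.ext hg⟩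
    · intro a b
      rw [Subtype.mk.injEq, orb_eq_iff]
      exact Iff.rfl
  have hSS : Nat.card SH = Nat.card (Stab e v₀) := by
    refine Nat.card_congr ⟨fun g => ⟨g.1.1, g.2⟩, fun g => ⟨⟨g.1, (hC g.1).2 ?_⟩, g.2⟩, fun g => rfl, fun g => rfl⟩
    rw [hcomm]
    intro y
    have : orb e v₀ g.1 = v₀ := funext fun i => g.2 i
    rw [this]
  -- the fibre and the matrices
  have hFib : Nat.card Fib = Nat.card {A : Matrix κ κ F // Aᵀ * Γ' * A = Γ'} := by
    symm
    refine Nat.card_congr (Equiv.ofBijective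
      (fun A => (⟨lin A.1 v₀, hOX A.1 A.2, fun y => by rw [Nv_lin, A.2]⟩ : Fib)) ⟨?_, ?_⟩)
    · rintro ⟨A, hA⟩ ⟨B, hB⟩ hAB
      apply Subtype.ext
      ext i a
      have h3 : lin A v₀ i = lin B v₀ i := congrFun (congrArg Subtype.val hAB) i
      simp only [lin] at h3
      have h4 := (Fintype.linearIndependent_iff.mp hli) (fun a => A i a - B i a) (by
        simp only [sub_smul, Finset.sum_sub_distrib, h3, sub_self]) a
      exact sub_eq_zero.mp h4
    · rintro ⟨v, hv, hv2⟩
      obtain ⟨g, hg⟩ := htrans v hv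
      have h3 : ∀ c, v c = N (e g (x c)) := by
        intro c
        rw [hNeq, ← hv2]
        simp only [Nv]
        have h4 : ∀ a, f (v a) (e g (x c)) = Γ a c := by
          intro a
          rw [← hg]
          simp only [orb]
          rw [hf, hv₀]
          simp only
          rw [hN.adj, hd.hΓ]
        simp only [h4]
        have h5 : ∀ b, ∑ a, Γ' a b * Γ a c = (1 : Matrix κ κ F) b c := by
          intro b
          rw [← h2, Matrix.mul_apply]
          refine Finset.sum_congr rfl fun a _ => ?_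
          have := congrFun (congrFun hsym a) b
          simp only [Matrix.transpose_apply] at this
          rw [this]
        rw [Finset.sum_comm]
        simp only [← Finset.sum_smul, h5]
        simp [Matrix.one_apply]
      have h4 : ∀ c, ∃ A : κ → F, v c = ∑ a, A a • v₀ a := by
        intro c
        obtain ⟨A, hA⟩ := hd.hspan (e g (x c))
        exact ⟨A, by rw [h3, hA, hv₀]⟩
      choose A hA using h4
      let A' : Matrix κ κ F := Matrix.of A
      have hvA : v = lin A' v₀ := by
        funext c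
        exact hA c
      have hM : A'ᵀ * Γ' * A' = Γ' := by
        obtain ⟨M, hM⟩ : ∃ M, M = A'ᵀ * Γ' * A' := ⟨_, rfl⟩
        rw [← hM]
        have h5 : ∀ y, Nv f M v₀ y = Nv f Γ' v₀ y := by
          intro y
          rw [hM, ← Nv_lin, ← hvA]
          exact hv2 y
        have h6 : ∀ (M : Matrix κ κ F) (c b : κ), ∀ y, y = x c → True := fun _ _ _ _ _ => trivial
        have h7 : ∀ (M : Matrix κ κ F) (c : κ), Nv f M v₀ (x c) = ∑ b, (∑ a, M a b * Γ a c) • v₀ b := by
          intro M c
          simp only [Nv]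
          rw [Finset.sum_comm]
          refine Finset.sum_congr rfl fun b _ => ?_
          rw [Finset.sum_smul]
          refine Finset.sum_congr rfl fun a _ => ?_
          rw [hv₀]
          simp only
          rw [hN.adj, hd.hΓ]
        have h8 : ∀ b c, ∑ a, M a b * Γ a c = ∑ a, Γ' a b * Γ a c := by
          intro b c
          have h9 := h5 (x c)
          rw [h7, h7] at h9
          have h10 := (Fintype.linearIndependent_iff.mp hli)
            (fun b => ∑ a, M a b * Γ a c - ∑ a, Γ' a b * Γ a c) (by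
              simp only [sub_smul, Finset.sum_sub_distrib, h9, sub_self]) b
          exact sub_eq_zero.mp h10
        have h11 : Mᵀ * Γ = Γ'ᵀ * Γ := by
          ext b c
          simp only [Matrix.mul_apply, Matrix.transpose_apply]
          exact h8 b c
        have h12 : Mᵀ = Γ'ᵀ := by
          have := congrArg (· * Γ') h11
          simpa only [Matrix.mul_assoc, h1, Matrix.mul_one] using this
        have := congrArg Matrix.transpose h12
        simpa only [Matrix.transpose_transpose] using this
      refine ⟨⟨A', hM⟩, Subtype.ext ?_⟩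
      exact hvA.symm
  rw [hH, hG, hFib, hSS]
  ring

end main

end Cfsg.Agent.Lib.CentFrame
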