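import Mathlib
import Cfsg.Agent.Lib.CentFrame
import Cfsg.Agent.Lib.SpOrder

/-!
# Counting totally isotropic frames and orthonormal frames
-/

set_option autoImplicit false
set_option linter.unusedSectionVars false
set_option linter.unusedSimpArgs false
set_option linter.unusedVariables false

namespace Cfsg.Agent.Lib.CentFrameCount

open Module Matrix Finset

/-- Extending tuples by one entry. -/
theorem card_snoc {X : Type*} [Finite X] {n : ℕ} (P : (Fin (n + 1) → X) → Prop) (Q : (Fin n → X) → Prop)
    (R : (Fin n → X) → X → Prop) (h : ∀ v w, P (Fin.snoc v w) ↔ Q v ∧ R v w) (c : ℕ)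
    (hc : ∀ v, Q v → Nat.card {w // R v w} = c) :
    Nat.card {u // P u} = Nat.card {v // Q v} * c := by
  classical
  haveI : Fintype {v // Q v} := Fintype.ofFinite _
  let φ : (Σ v : {v // Q v}, {w // R v.1 w}) → {u // P u} :=
    fun x => ⟨Fin.snoc x.1.1 x.2.1, (h _ _).2 ⟨x.1.2, x.2.2⟩⟩
  have hφ : Function.Bijective φ := by
    constructor
    · rintro ⟨⟨v, hv⟩, ⟨w, hw⟩⟩ ⟨⟨v', hv'⟩, ⟨w', hw'⟩⟩ he
      have he' : Fin.snoc (α := fun _ => X) v w = Fin.snoc (α := fun _ => X) v' w' := congrArg Subtype.val he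
      have e1 : v = v' := by
        have := congrArg Fin.init he'
        simpa using this
      subst e1
      have e2 : w = w' := by
        have := congrFun he' (Fin.last n)
        simpa using this
      subst e2
      rfl
    · rintro ⟨u, hu⟩
      have hu' : P (Fin.snoc (α := fun _ => X) (Fin.init u) (u (Fin.last n))) := by
        rw [Fin.snoc_init_self]
        exact hu
      have h3 := (h _ _).1 hu'
      exact ⟨⟨⟨Fin.init u, h3.1⟩, ⟨u (Fin.last n), h3.2⟩⟩, Subtype.ext (Fin.snoc_init_self u)⟩
  rw [← Nat.card_congr (Equiv.ofBijective φ hφ), Nat.card_sigma, Finset.sum_congr rfl (fun v _ => hc v.1 v.2), Finset.sum_const,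
    smul_eq_mul, Finset.card_univ, Nat.card_eq_fintype_card]

section isotropic

variable {F V : Type*} [Field F] [Fintype F] [AddCommGroup V] [Module F V] [FiniteDimensional F V]

theorem card_diff (A B : Submodule F V) (h : B ≤ A) :
    Nat.card {w // w ∈ A ∧ w ∉ B} = Nat.card A - Nat.card B := by
  classical
  haveI : Finite V := Module.finite_of_finite F
  have h1 : Nat.card A = Nat.card {w : A // (w : V) ∈ B} + Nat.card {w : A // (w : V) ∉ B} := by
    rw [← Nat.card_sum]
    exact Nat.card_congr (Equiv.sumCompl _).symm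
  have h2 : Nat.card {w : A // (w : V) ∈ B} = Nat.card B :=
    Nat.card_congr ⟨fun w => ⟨w.1.1, w.2⟩, fun w => ⟨⟨w.1, h w.2⟩, w.2⟩, fun _ => rfl, fun _ => rfl⟩
  have h3 : Nat.card {w : A // (w : V) ∉ B} = Nat.card {w // w ∈ A ∧ w ∉ B} :=
    Nat.card_congr ⟨fun w => ⟨w.1.1, w.1.2, w.2⟩, fun w => ⟨⟨w.1, w.2.1⟩, w.2.2⟩, fun _ => rfl, fun _ => rfl⟩
  omega

/-- Frames of a form. -/
def FrSet (f : LinearMap.BilinForm F V) (κ : Type*) : Set (κ → V) :=
  {v | LinearIndependent F v ∧ ∀ i j, f (v i) (v j) = 0}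

variable {f : LinearMap.BilinForm F V}

theorem card_Fr (hnd : f.Nondegenerate) (halt : f.IsAlt) (hS : ∀ x y, f x y = f y x) {d : ℕ} (hd : finrank F V = d) (n : ℕ) :
    Nat.card (FrSet f (Fin n)) = ∏ i ∈ range n, (Fintype.card F ^ (d - i) - Fintype.card F ^ i) := by
  classical
  haveI : Finite V := Module.finite_of_finite F
  induction n with
  | zero =>
    have : Nat.card (FrSet f (Fin 0)) = 1 := by
      rw [Nat.card_eq_one_iff_unique]
      refine ⟨⟨?_⟩, ⟨⟨fun i => i.elim0, ?_⟩⟩⟩
      · rintro ⟨a, ha⟩ ⟨b, hb⟩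
        exact Subtype.ext (funext fun i => i.elim0)
      · exact ⟨linearIndependent_empty_type, fun i => i.elim0⟩
    simpa using this
  | succ n ih =>
    rw [Finset.prod_range_succ, ← ih]
    refine card_snoc (fun u => LinearIndependent F u ∧ ∀ i j, f (u i) (u j) = 0)
      (fun v => LinearIndependent F v ∧ ∀ i j, f (v i) (v j) = 0)
      (fun v w => (∀ i, f (v i) w = 0) ∧ w ∉ Submodule.span F (Set.range v)) ?_ _ ?_
    · intro v w
      constructor
      · rintro ⟨hli, h⟩
        rw [linearIndependent_finSnoc] at hli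
        refine ⟨⟨hli.1, fun i j => ?_⟩, fun i => ?_, hli.2⟩
        · simpa using h i.castSucc j.castSucc
        · simpa using h i.castSucc (Fin.last n)
      · rintro ⟨⟨h1, h2⟩, h3, h4⟩
        refine ⟨linearIndependent_finSnoc.2 ⟨h1, h4⟩, fun i j => ?_⟩
        induction i using Fin.lastCases with
        | last =>
          induction j using Fin.lastCases with
          | last => simpa using halt w
          | cast j =>
            simp only [Fin.snoc_last, Fin.snoc_castSucc]
            rw [hS]
            exact h3 j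
        | cast i =>
          induction j using Fin.lastCases with
          | last => simpa using h3 i
          | cast j => simpa using h2 i j
    · rintro v ⟨h1, h2⟩
      obtain ⟨W, hW⟩ : ∃ W, W = Submodule.span F (Set.range v) := ⟨_, rfl⟩
      have hle : W ≤ f.orthogonal W := by
        rw [hW, Submodule.span_le]
        rintro _ ⟨i, rfl⟩
        show v i ∈ f.orthogonal _
        rw [LinearMap.BilinForm.mem_orthogonal_iff]
        intro y hy
        induction hy using Submodule.span_induction with
        | mem y hy =>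
          obtain ⟨j, rfl⟩ := hy
          exact h2 j i
        | zero => simp
        | add a b _ _ ha hb => simp [ha, hb]
        | smul c a _ ha => simp [ha]
      have hmem : ∀ w, (∀ i, f (v i) w = 0) ↔ w ∈ f.orthogonal W := by
        intro w
        rw [LinearMap.BilinForm.mem_orthogonal_iff]
        constructor
        · intro h y hy
          rw [hW] at hy
          induction hy using Submodule.span_induction with
          | mem y hy =>
            obtain ⟨j, rfl⟩ := hy
            exact h j
          | zero => simp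
          | add a b _ _ ha hb => simp [ha, hb]
          | smul c a _ ha => simp [ha]
        · intro h i
          exact h _ (by rw [hW]; exact Submodule.subset_span ⟨i, rfl⟩)
      simp only [hmem, ← hW]
      rw [card_diff _ _ hle, Module.natCard_eq_pow_finrank (K := F) (V := ↥(f.orthogonal W)), Module.natCard_eq_pow_finrank (K := F) (V := W),
        LinearMap.BilinForm.finrank_orthogonal hnd, hd, Nat.card_eq_fintype_card (α := F)]
      have : finrank F W = n := by
        rw [hW, finrank_span_eq_card h1]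
        simp
      rw [this]

end isotropic

section dot

variable {F : Type*} [Field F] [Fintype F] [CharP F 2] {s : ℕ}

/-- The all-ones vector. -/
def ee (s : ℕ) (F : Type*) [Field F] : Fin s → F := fun _ => 1

theorem dot_self (w : Fin s → F) : w ⬝ᵥ w = (ee s F ⬝ᵥ w) ^ 2 := by
  haveI : Fact (Nat.Prime 2) := ⟨Nat.prime_two⟩
  simp only [dotProduct, ee, one_mul]
  rw [sum_pow_char 2]
  simp [pow_two]

theorem sq_eq_one_iff (x : F) : x ^ 2 = 1 ↔ x = 1 := by
  constructor
  · intro h
    have : (x - 1) ^ 2 = 0 := by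
      rw [sub_pow_char]
      simp [h]
    have h2 : x - 1 = 0 := by simpa using this
    exact sub_eq_zero.mp h2
  · rintro rfl
    simp

theorem dot_one_iff (w : Fin s → F) : w ⬝ᵥ w = 1 ↔ ee s F ⬝ᵥ w = 1 := by
  rw [dot_self, sq_eq_one_iff]

/-- The standard form. -/
noncomputable def bdot (s : ℕ) (F : Type*) [Field F] : LinearMap.BilinForm F (Fin s → F) :=
  Matrix.toBilin' (1 : Matrix (Fin s) (Fin s) F)

theorem bdot_apply (u v : Fin s → F) : bdot s F u v = u ⬝ᵥ v := by
  simp [bdot, Matrix.toBilin'_apply']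

theorem bdot_nd : (bdot s F).Nondegenerate := by
  classical
  constructor
  · intro x hx
    funext i
    have := hx (Pi.single i 1)
    simpa [bdot_apply] using this
  · intro x hx
    funext i
    have := hx (Pi.single i 1)
    simpa [bdot_apply] using this

/-- Orthonormal tuples. -/
def ONP {n : ℕ} (v : Fin n → Fin s → F) : Prop := ∀ i j, v i ⬝ᵥ v j = if i = j then 1 else 0

/-- Good orthonormal tuples. -/
def ONG {n : ℕ} (v : Fin n → Fin s → F) : Prop := ONP v ∧ ∑ i, v i ≠ ee s F

/-- Allowed extensions. -/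
def Ext {n : ℕ} (v : Fin n → Fin s → F) (w : Fin s → F) : Prop := (∀ i, v i ⬝ᵥ w = 0) ∧ w ⬝ᵥ w = 1

theorem ee_dot {n : ℕ} {v : Fin n → Fin s → F} (h : ONP v) (i : Fin n) : ee s F ⬝ᵥ v i = 1 := by
  have := h i i
  rw [if_pos rfl, dot_one_iff] at this
  exact this

theorem li_of_ONP {n : ℕ} {v : Fin n → Fin s → F} (h : ONP v) : LinearIndependent F v := by
  classical
  rw [Fintype.linearIndependent_iff]
  intro c hc i
  have h' : ∀ i j, v i ⬝ᵥ v j = if i = j then 1 else 0 := h
  have h1 := congrArg (fun u => u ⬝ᵥ v i) hc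
  simp only [sum_dotProduct, smul_dotProduct, smul_eq_mul, zero_dotProduct, h'] at h1
  simpa using h1

theorem snoc_ONP {n : ℕ} (v : Fin n → Fin s → F) (w : Fin s → F) :
    ONP (Fin.snoc (α := fun _ => Fin s → F) v w) ↔ ONP v ∧ Ext v w := by
  constructor
  · intro h
    refine ⟨fun i j => ?_, fun i => ?_, ?_⟩
    · simpa using h i.castSucc j.castSucc
    · simpa [(Fin.castSucc_ne_last _)] using h i.castSucc (Fin.last n)
    · simpa using h (Fin.last n) (Fin.last n)
  · rintro ⟨h1, h2, h3⟩ i j
    induction i using Fin.lastCases with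
    | last =>
      induction j using Fin.lastCases with
      | last => simpa using h3
      | cast j =>
        simp only [Fin.snoc_last, Fin.snoc_castSucc]
        rw [dotProduct_comm, h2 j, if_neg (Fin.castSucc_ne_last j).symm]
    | cast i =>
      induction j using Fin.lastCases with
      | last =>
        simp only [Fin.snoc_last, Fin.snoc_castSucc]
        rw [h2 i, if_neg (Fin.castSucc_ne_last i)]
      | cast j => simpa using h1 i j

/-- The sum of a good tuple. -/
theorem sum_snoc {n : ℕ} (v : Fin n → Fin s → F) (w : Fin s → F) :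
    ∑ i, (Fin.snoc (α := fun _ => Fin s → F) v w) i = ∑ i, v i + w := by
  rw [Fin.sum_univ_castSucc]
  simp only [Fin.snoc_castSucc, Fin.snoc_last]

theorem ext_bad {n : ℕ} {v : Fin n → Fin s → F} (h : ONP v) (hb : ∑ i, v i = ee s F) (w : Fin s → F) : ¬ Ext v w := by
  rintro ⟨h1, h2⟩
  rw [dot_one_iff, ← hb, sum_dotProduct] at h2
  simp only [h1, Finset.sum_const_zero] at h2
  exact zero_ne_one h2

/-- The number of extensions of a good tuple. -/
theorem card_ext {n : ℕ} {v : Fin n → Fin s → F} (h : ONG v) (hn : n < s) :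
    Nat.card {w // Ext v w} = Fintype.card F ^ (s - n - 1) := by
  classical
  obtain ⟨h1, h2⟩ := h
  obtain ⟨W, hW⟩ : ∃ W, W = Submodule.span F (Set.range v) := ⟨_, rfl⟩
  obtain ⟨U, hU⟩ : ∃ U, U = (bdot s F).orthogonal W := ⟨_, rfl⟩
  have hmem : ∀ w, w ∈ U ↔ ∀ i, v i ⬝ᵥ w = 0 := by
    intro w
    rw [hU, LinearMap.BilinForm.mem_orthogonal_iff]
    constructor
    · intro h i
      rw [← bdot_apply]
      exact h _ (by rw [hW]; exact Submodule.subset_span ⟨i, rfl⟩)
    · intro h y hy
      rw [hW] at hy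
      induction hy using Submodule.span_induction with
      | mem y hy =>
        obtain ⟨j, rfl⟩ := hy
        rw [bdot_apply]
        exact h j
      | zero => simp
      | add a b _ _ ha hb => simp [ha, hb]
      | smul c a _ ha => simp [ha]
  have hfr : finrank F U = s - n := by
    rw [hU, LinearMap.BilinForm.finrank_orthogonal bdot_nd, hW, finrank_span_eq_card (li_of_ONP h1)]
    simp
  -- the functional
  let φ : U →+ F :=
    { toFun := fun w => ee s F ⬝ᵥ (w : Fin s → F)
      map_zero' := by simp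
      map_add' := fun a b => by simp [dotProduct_add] }
  have hφ : Function.Surjective φ := by
    have hne : ∃ w : U, φ w ≠ 0 := by
      by_contra hc
      push Not at hc
      have h3 : ee s F ∈ (bdot s F).orthogonal U := by
        rw [LinearMap.BilinForm.mem_orthogonal_iff]
        intro y hy
        rw [bdot_apply, dotProduct_comm]
        exact hc ⟨y, hy⟩
      have hrefl : (bdot s F).IsRefl := by
        intro a b hab
        rw [bdot_apply] at hab ⊢
        rw [dotProduct_comm]
        exact hab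
      rw [hU, LinearMap.BilinForm.orthogonal_orthogonal bdot_nd hrefl, hW] at h3
      obtain ⟨c, hc⟩ := (Submodule.mem_span_range_iff_exists_fun F).mp h3
      have h4 : ∀ k, c k = 1 := by
        intro k
        have h' : ∀ i j, v i ⬝ᵥ v j = if i = j then 1 else 0 := h1
        have h5 := congrArg (fun u => u ⬝ᵥ v k) hc
        simp only [sum_dotProduct, smul_dotProduct, smul_eq_mul, h', ee_dot h1] at h5
        simpa using h5
      apply h2
      rw [← hc]
      simp [h4]
    obtain ⟨w, hw⟩ := hne
    intro y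
    refine ⟨(y / φ w) • w, ?_⟩
    show ee s F ⬝ᵥ ((y / φ w) • (w : Fin s → F)) = y
    rw [dotProduct_smul, smul_eq_mul]
    have : ee s F ⬝ᵥ (w : Fin s → F) = φ w := rfl
    rw [this]
    field_simp
  have hfib := Cfsg.Agent.Lib.SpOrder.card_fiber_mul φ hφ 1
  have heq : Nat.card {w // Ext v w} = Nat.card {y : U // φ y = 1} := by
    refine Nat.card_congr ⟨fun w => ⟨⟨w.1, (hmem _).2 w.2.1⟩, (dot_one_iff _).1 w.2.2⟩,
      fun y => ⟨y.1.1, (hmem _).1 y.1.2, (dot_one_iff _).2 y.2⟩, fun _ => rfl, fun _ => rfl⟩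
  rw [heq]
  rw [Module.natCard_eq_pow_finrank (K := F) (V := U), hfr, Nat.card_eq_fintype_card (α := F)] at hfib
  have hq : 0 < Fintype.card F := Fintype.card_pos
  have e : s - n = (s - n - 1) + 1 := by omega
  rw [e, pow_succ] at hfib
  exact Nat.eq_of_mul_eq_mul_right hq hfib

/-- The number of orthonormal tuples extending to the next length. -/
theorem card_ON_succ {n : ℕ} (hn : n < s) :
    Nat.card {u : Fin (n + 1) → Fin s → F // ONP u} =
      Nat.card {v : Fin n → Fin s → F // ONG v} * Fintype.card F ^ (s - n - 1) := by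
  refine card_snoc _ _ Ext ?_ _ fun v hv => card_ext hv hn
  intro v w
  rw [snoc_ONP]
  constructor
  · rintro ⟨h1, h2⟩
    exact ⟨⟨h1, fun hb => ext_bad h1 hb w h2⟩, h2⟩
  · rintro ⟨h1, h2⟩
    exact ⟨h1.1, h2⟩

theorem cast_parity (k : ℕ) : (k : F) = 1 ↔ Odd k := by
  rcases Nat.even_or_odd' k with ⟨r, rfl | rfl⟩
  · have h0 : ((2 * r : ℕ) : F) = 0 := by
      push_cast
      rw [CharTwo.two_eq_zero, zero_mul]
    rw [h0]
    simp [zero_ne_one]
  · have h0 : ((2 * r + 1 : ℕ) : F) = 1 := by
      push_cast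
      rw [CharTwo.two_eq_zero, zero_mul, zero_add]
    rw [h0]
    simp

theorem sub_cast_iff {s n : ℕ} : (s : F) - n = 1 ↔ Odd (s + n) := by
  rw [← cast_parity (F := F)]
  push_cast
  rw [CharTwo.sub_eq_add]

/-- Whether the complement of a good tuple extends it. -/
theorem complement_ext {n : ℕ} {v : Fin n → Fin s → F} (h : ONP v) :
    Ext v (ee s F - ∑ i, v i) ↔ (s : F) - n = 1 := by
  have hd : ee s F ⬝ᵥ (ee s F - ∑ i, v i) = (s : F) - n := by
    rw [dotProduct_sub, dotProduct_sum]
    simp only [ee_dot h]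
    simp [ee, dotProduct]
  constructor
  · rintro ⟨-, h2⟩
    rw [dot_one_iff, hd] at h2
    exact h2
  · intro h2
    refine ⟨fun i => ?_, ?_⟩
    · have h' : ∀ i j, v i ⬝ᵥ v j = if i = j then 1 else 0 := h
      rw [dotProduct_sub, dotProduct_sum]
      simp only [h', dotProduct_comm (v i) (ee s F), ee_dot h]
      simp
    · rw [dot_one_iff, hd, h2]

/-- The recursion for good tuples. -/
theorem card_ONG_succ {n : ℕ} (hn : n < s) :
    Nat.card {u : Fin (n + 1) → Fin s → F // ONG u} =
      Nat.card {v : Fin n → Fin s → F // ONG v} *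
        (Fintype.card F ^ (s - n - 1) - if Odd (s + n) then 1 else 0) := by
  classical
  simp only [← sub_cast_iff (F := F)]
  refine card_snoc _ _ (fun v w => Ext v w ∧ w ≠ ee s F - ∑ i, v i) ?_ _ fun v hv => ?_
  · intro v w
    unfold ONG
    rw [snoc_ONP, sum_snoc]
    constructor
    · rintro ⟨⟨h1, h2⟩, h3⟩
      refine ⟨⟨h1, fun hb => ext_bad h1 hb w h2⟩, h2, fun he => h3 ?_⟩
      rw [he]
      abel
    · rintro ⟨⟨h1, h2⟩, h3, h4⟩
      refine ⟨⟨h1, h3⟩, fun he => h4 ?_⟩
      rw [← he]
      abel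
  · have h1 := card_ext hv hn
    have h2 : Nat.card {w // Ext v w} =
        Nat.card {w // Ext v w ∧ w ≠ ee s F - ∑ i, v i} + if (s : F) - n = 1 then 1 else 0 := by
      have e1 : Nat.card {w // Ext v w} = Nat.card {w : {w // Ext v w} // w.1 ≠ ee s F - ∑ i, v i} +
          Nat.card {w : {w // Ext v w} // ¬ (w.1 ≠ ee s F - ∑ i, v i)} := by
        rw [← Nat.card_sum]
        exact Nat.card_congr (Equiv.sumCompl _).symm
      have e2 : Nat.card {w : {w // Ext v w} // w.1 ≠ ee s F - ∑ i, v i} =
          Nat.card {w // Ext v w ∧ w ≠ ee s F - ∑ i, v i} :=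
        Nat.card_congr ⟨fun w => ⟨w.1.1, w.1.2, w.2⟩, fun w => ⟨⟨w.1, w.2.1⟩, w.2.2⟩, fun _ => rfl, fun _ => rfl⟩
      rw [e1, e2]
      congr 1
      by_cases hc : (s : F) - n = 1
      · rw [if_pos hc]
        have hx := (complement_ext hv.1).2 hc
        rw [Nat.card_eq_one_iff_unique]
        refine ⟨⟨?_⟩, ⟨⟨⟨_, hx⟩, by simp⟩⟩⟩
        rintro ⟨⟨a, ha⟩, ha'⟩ ⟨⟨b, hb⟩, hb'⟩
        push Not at ha' hb'
        apply Subtype.ext
        apply Subtype.ext
        simp only at ha' hb' ⊢
        rw [ha', hb']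
      · rw [if_neg hc]
        have : IsEmpty {w : {w // Ext v w} // ¬ (w.1 ≠ ee s F - ∑ i, v i)} := by
          constructor
          rintro ⟨⟨a, ha⟩, ha'⟩
          push Not at ha'
          simp only at ha'
          rw [ha'] at ha
          exact hc ((complement_ext hv.1).1 ha)
        exact Nat.card_of_isEmpty
    rw [h1] at h2
    omega

/-- The number of good tuples of each length. -/
theorem card_ONG (hs : 0 < s) (n : ℕ) (hn : n < s) :
    Nat.card {v : Fin n → Fin s → F // ONG v} =
      ∏ i ∈ range n, (Fintype.card F ^ (s - i - 1) - if Odd (s + i) then 1 else 0) := by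
  induction n with
  | zero =>
    simp only [Finset.range_zero, Finset.prod_empty]
    rw [Nat.card_eq_one_iff_unique]
    refine ⟨⟨?_⟩, ⟨⟨fun i => i.elim0, fun i => i.elim0, ?_⟩⟩⟩
    · rintro ⟨a, ha⟩ ⟨b, hb⟩
      exact Subtype.ext (funext fun i => i.elim0)
    · simp only [Finset.univ_eq_empty, Finset.sum_empty]
      intro h
      have := congrFun h ⟨0, hs⟩
      simp [ee] at this
  | succ n ih =>
    rw [card_ONG_succ (by omega), ih (by omega), Finset.prod_range_succ]

/-- The number of orthonormal bases. -/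
theorem card_ON (k : ℕ) :
    Nat.card {u : Fin (k + 1) → Fin (k + 1) → F // ONP u} =
      ∏ i ∈ range k, (Fintype.card F ^ (k - i) - if Odd (k + 1 + i) then 1 else 0) := by
  have h1 := card_ON_succ (F := F) (s := k + 1) (n := k) (by omega)
  rw [h1, card_ONG (by omega) k (by omega)]
  have e1 : k + 1 - k - 1 = 0 := by omega
  rw [e1, pow_zero, mul_one]
  exact Finset.prod_congr rfl fun i _ => by rw [show k + 1 - i - 1 = k - i by omega]

/-- Reflected form of the product. -/
theorem prod_reflect (q k : ℕ) :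
    ∏ i ∈ range k, (q ^ (k - i) - if Odd (k + 1 + i) then 1 else 0) =
      ∏ j ∈ range k, (q ^ (j + 1) - if Odd j then 1 else 0) := by
  rw [← Finset.prod_range_reflect]
  refine Finset.prod_congr rfl fun j hj => ?_
  have hj' := Finset.mem_range.mp hj
  have e1 : k - (k - 1 - j) = j + 1 := by omega
  have e2 : Odd (k + 1 + (k - 1 - j)) ↔ Odd j := by
    have e3 : k + 1 + (k - 1 - j) = 2 * k - j := by omega
    rw [e3, Nat.odd_sub' (by omega)]
    simp
  rw [e1]
  simp only [e2]

theorem prod_even (q r : ℕ) :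
    ∏ j ∈ range (2 * r), (q ^ (j + 1) - if Odd j then 1 else 0) =
      q ^ (r ^ 2) * ∏ i ∈ range r, (q ^ (2 * (i + 1)) - 1) := by
  induction r with
  | zero => simp
  | succ r ih =>
    have e : 2 * (r + 1) = 2 * r + 1 + 1 := by ring
    rw [e, Finset.prod_range_succ, Finset.prod_range_succ, ih, Finset.prod_range_succ]
    have h1 : ¬ Odd (2 * r) := by simp
    have h2 : Odd (2 * r + 1) := by simp
    rw [if_neg h1, if_pos h2]
    have e1 : 2 * r + 1 + 1 = 2 * (r + 1) := by ring
    rw [e1, Nat.sub_zero]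
    have e2 : (r + 1) ^ 2 = r ^ 2 + (2 * r + 1) := by ring
    rw [e2, pow_add q (r ^ 2)]
    ring

theorem prod_odd (q r : ℕ) :
    ∏ j ∈ range (2 * r + 1), (q ^ (j + 1) - if Odd j then 1 else 0) =
      q ^ ((r + 1) ^ 2) * ∏ i ∈ range r, (q ^ (2 * (i + 1)) - 1) := by
  rw [Finset.prod_range_succ, prod_even]
  have h1 : ¬ Odd (2 * r) := by simp
  rw [if_neg h1, Nat.sub_zero]
  have e2 : (r + 1) ^ 2 = r ^ 2 + (2 * r + 1) := by ring
  rw [e2, pow_add q (r ^ 2)]
  ring

/-- Orthogonal matrices as orthonormal tuples. -/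
theorem card_orth_eq (s : ℕ) :
    Nat.card {A : Matrix (Fin s) (Fin s) F // Aᵀ * 1 * A = 1} = Nat.card {u : Fin s → Fin s → F // ONP u} := by
  classical
  refine Nat.card_congr ⟨fun A => ⟨fun i j => A.1 j i, ?_⟩, fun u => ⟨Matrix.of fun j i => u.1 i j, ?_⟩, fun A => rfl, fun u => rfl⟩
  · intro i j
    have := congrFun (congrFun A.2 i) j
    rw [Matrix.mul_one, Matrix.mul_apply, Matrix.one_apply] at this
    simpa [dotProduct, Matrix.transpose_apply] using this
  · rw [Matrix.mul_one]
    ext i j
    have : u.1 i ⬝ᵥ u.1 j = if i = j then 1 else 0 := u.2 i j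
    rw [Matrix.mul_apply, Matrix.one_apply]
    simpa [dotProduct, Matrix.transpose_apply] using this

/-- The number of orthogonal matrices, odd size. -/
theorem card_orth_odd (r : ℕ) :
    Nat.card {A : Matrix (Fin (2 * r + 1)) (Fin (2 * r + 1)) F // Aᵀ * 1 * A = 1} =
      Fintype.card F ^ (r ^ 2) * ∏ i ∈ range r, (Fintype.card F ^ (2 * (i + 1)) - 1) := by
  rw [card_orth_eq, card_ON, prod_reflect, prod_even]

/-- The number of orthogonal matrices, even size. -/
theorem card_orth_even (r : ℕ) :
    Nat.card {A : Matrix (Fin (2 * r + 2)) (Fin (2 * r + 2)) F // Aᵀ * 1 * A = 1} =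
      Fintype.card F ^ ((r + 1) ^ 2) * ∏ i ∈ range r, (Fintype.card F ^ (2 * (i + 1)) - 1) := by
  rw [card_orth_eq, card_ON, prod_reflect, prod_odd]

end dot

end Cfsg.Agent.Lib.CentFrameCount
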