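import Mathlib
import Cfsg.Agent.Lib.CentFrameCount
import Cfsg.Agent.Lib.Inv2Conv

/-!
# Centralisers of involutions in the symplectic group, characteristic two
-/

set_option autoImplicit false
set_option linter.unusedSectionVars false
set_option linter.unusedSimpArgs false
set_option linter.unusedVariables false

namespace Cfsg.Agent.Lib.CentSp

open Module Matrix QuadraticMap
open Cfsg.Agent.Lib.Inv2 Cfsg.Agent.Lib.Inv2Count Cfsg.Agent.Lib.CentFrame Cfsg.Agent.Lib.CentFrameCount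
  Cfsg.Agent.Lib.OrthoCount

section gen

variable {F V : Type*} [Field F] [AddCommGroup V] [Module F V]
variable {κ : Type*} [Fintype κ] [DecidableEq κ]

/-- An isometric matrix for an invertible Gram matrix is invertible. -/
theorem det_ne_of_mem {Γ Γ' A : Matrix κ κ F} (h1 : Γ * Γ' = 1) (hA : Aᵀ * Γ' * A = Γ') : A.det ≠ 0 := by
  have hd : Γ'.det ≠ 0 := by
    intro h0
    have := congrArg Matrix.det h1
    rw [Matrix.det_mul, h0, mul_zero, Matrix.det_one] at this
    exact zero_ne_one this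
  intro h0
  have := congrArg Matrix.det hA
  rw [Matrix.det_mul, h0, mul_zero] at this
  exact hd this.symm

theorem li_lin {A : Matrix κ κ F} (hA : A.det ≠ 0) {v : κ → V} (hv : LinearIndependent F v) :
    LinearIndependent F (lin A v) := by
  rw [Fintype.linearIndependent_iff]
  intro c hc
  have h1 : ∀ a, ∑ i, c i * A i a = 0 := by
    have h2 : ∑ a, (∑ i, c i * A i a) • v a = 0 := by
      rw [← hc]
      simp only [lin, Finset.smul_sum, Finset.sum_smul, smul_smul]
      exact Finset.sum_comm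
    exact (Fintype.linearIndependent_iff.mp hv) _ h2
  have h3 : Matrix.vecMul c A = 0 := by
    funext a
    simpa [Matrix.vecMul, dotProduct] using h1 a
  have h4 : c = 0 := by
    have hu : IsUnit A.det := isUnit_iff_ne_zero.mpr hA
    have h5 := congrArg (fun w => Matrix.vecMul w A⁻¹) h3
    simpa [Matrix.vecMul_vecMul, Matrix.mul_nonsing_inv _ hu] using h5
  intro i
  exact congrFun h4 i

theorem card_Fr_equiv [Fintype F] [FiniteDimensional F V] (f : LinearMap.BilinForm F V) {κ' : Type*} (σ : κ ≃ κ') :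
    Nat.card (FrSet f κ') = Nat.card (FrSet f κ) := by
  refine Nat.card_congr ⟨fun v => ⟨v.1 ∘ σ, ?_, fun i j => v.2.2 _ _⟩, fun v => ⟨v.1 ∘ σ.symm, ?_, fun i j => v.2.2 _ _⟩, ?_, ?_⟩
  · exact (linearIndependent_equiv σ).2 v.2.1
  · exact (linearIndependent_equiv σ.symm).2 v.2.1
  · intro v
    apply Subtype.ext
    funext i
    simp
  · intro v
    apply Subtype.ext
    funext i
    simp

end gen

section arith

open Finset

theorem prod_split (q m s : ℕ) (hs : s ≤ m) :
    ∏ i ∈ range m, (q ^ (2 * (i + 1)) - 1) =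
      (∏ i ∈ range (m - s), (q ^ (2 * (i + 1)) - 1)) * ∏ i ∈ range s, (q ^ (2 * (m - i)) - 1) := by
  obtain ⟨k, rfl⟩ : ∃ k, m = k + s := ⟨m - s, by omega⟩
  rw [Nat.add_sub_cancel, Finset.prod_range_add]
  congr 1
  rw [← Finset.prod_range_reflect]
  refine Finset.prod_congr rfl fun i hi => ?_
  have hi' := Finset.mem_range.mp hi
  congr 2
  omega

theorem prod_frame (q m s : ℕ) (hq : 1 ≤ q) (hs : s ≤ m) :
    ∏ i ∈ range s, (q ^ (2 * m - i) - q ^ i) =
      q ^ (∑ i ∈ range s, i) * ∏ i ∈ range s, (q ^ (2 * (m - i)) - 1) := by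
  rw [← Finset.prod_pow_eq_pow_sum, ← Finset.prod_mul_distrib]
  refine Finset.prod_congr rfl fun i hi => ?_
  have hi' := Finset.mem_range.mp hi
  have e : 2 * m - i = i + 2 * (m - i) := by omega
  rw [e, pow_add, Nat.mul_sub_one, mul_comm]

theorem sum_range_id' (s : ℕ) : 2 * ∑ i ∈ range s, i = s * (s - 1) := by
  rw [mul_comm]
  exact Finset.sum_range_id_mul_two s

/-- The arithmetic of the final formula. -/
theorem final_arith {q m s C O : ℕ} (hq : 2 ≤ q) (hs : s ≤ m)
    (h : C * ∏ i ∈ range s, (q ^ (2 * m - i) - q ^ i) = O * (q ^ (m ^ 2) * ∏ i ∈ range m, (q ^ (2 * (i + 1)) - 1))) :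
    C = q ^ (2 * m * s - (3 * s ^ 2 - s) / 2) * O * (q ^ ((m - s) ^ 2) * ∏ i ∈ range (m - s), (q ^ (2 * (i + 1)) - 1)) := by
  rw [prod_frame q m s (by omega) hs, prod_split q m s hs] at h
  obtain ⟨P, hP⟩ : ∃ P, P = ∏ i ∈ range s, (q ^ (2 * (m - i)) - 1) := ⟨_, rfl⟩
  obtain ⟨R, hR⟩ : ∃ R, R = ∏ i ∈ range (m - s), (q ^ (2 * (i + 1)) - 1) := ⟨_, rfl⟩
  obtain ⟨T, hT⟩ : ∃ T, T = ∑ i ∈ range s, i := ⟨_, rfl⟩
  rw [← hP, ← hR, ← hT] at h
  rw [← hR]
  have hPpos : 0 < P := by
    rw [hP]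
    refine Finset.prod_pos fun i hi => ?_
    have hi' := Finset.mem_range.mp hi
    have h2 : q ≤ q ^ (2 * (m - i)) := Nat.le_self_pow (by omega) q
    omega
  have hT2 : 2 * T = s * (s - 1) := by
    rw [hT]
    exact sum_range_id' s
  -- exponents
  have hE : (3 * s ^ 2 - s) / 2 = s ^ 2 + T := by
    have h1 : 3 * s ^ 2 - s = 2 * (s ^ 2 + T) := by
      rcases s with _ | s
      · simp at hT2 ⊢
        omega
      · simp only [Nat.add_sub_cancel] at hT2
        have : 2 * (( s + 1) ^ 2 + T) = 2 * (s + 1) ^ 2 + (s + 1) * s := by rw [mul_add, hT2]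
        rw [this]
        have e : 3 * (s + 1) ^ 2 = 2 * (s + 1) ^ 2 + (s + 1) * s + (s + 1) := by ring
        omega
    omega
  have hsum : m ^ 2 = (2 * m * s - (3 * s ^ 2 - s) / 2) + T + (m - s) ^ 2 := by
    rw [hE]
    obtain ⟨k, rfl⟩ : ∃ k, m = k + s := ⟨m - s, by omega⟩
    rw [Nat.add_sub_cancel]
    have hle : s ^ 2 + T ≤ 2 * (k + s) * s := by
      have : 2 * T ≤ 2 * s ^ 2 := by
        rw [hT2]
        rcases s with _ | s
        · simp
        · simp only [Nat.add_sub_cancel]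
          nlinarith
      nlinarith
    have : 2 * (k + s) * s - (s ^ 2 + T) + T = 2 * (k + s) * s - s ^ 2 := by
      have : s ^ 2 ≤ 2 * (k + s) * s := by nlinarith
      omega
    rw [this]
    have h3 : s ^ 2 ≤ 2 * (k + s) * s := by nlinarith
    have : (k + s) ^ 2 = 2 * (k + s) * s - s ^ 2 + k ^ 2 := by
      have e : (k + s) ^ 2 + s ^ 2 = 2 * (k + s) * s + k ^ 2 := by ring
      omega
    exact this
  rw [hsum, pow_add, pow_add] at h
  have hqT : 0 < q ^ T := by positivity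
  have h2 : C * (q ^ T * P) = (q ^ (2 * m * s - (3 * s ^ 2 - s) / 2) * O * (q ^ ((m - s) ^ 2) * R)) * (q ^ T * P) := by
    rw [h]
    ring
  exact Nat.eq_of_mul_eq_mul_right (by positivity) h2

end arith

section sp

open Finset Cfsg.Agent.Lib.SpBasic Cfsg.Agent.Lib.Inv2Conv

variable {F : Type*} [Field F] [Fintype F] [CharP F 2] {m : ℕ}

theorem hnd_S : (polarBilin (qPlus m F)).Nondegenerate := nd_plus

/-- The centraliser count in the symplectic group for given data. -/
theorem sp_cent {κ : Type*} [Fintype κ] [DecidableEq κ] {Γ Γ' : Matrix κ κ F} (h1 : Γ * Γ' = 1) (h2 : Γ' * Γ = 1)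
    (hsym : Γ'ᵀ = Γ') {t : ↥(symplecticGroup (Fin m) F)} (hN : SA (polarBilin (qPlus m F)) (Nx (eS t)))
    {x : κ → (Fin m ⊕ Fin m → F)} (hd : IsData (polarBilin (qPlus m F)) (Nx (eS t)) Γ x) :
    Nat.card (Subgroup.centralizer ({t} : Set ↥(symplecticGroup (Fin m) F))) *
        Nat.card (FrSet (polarBilin (qPlus m F)) κ) =
      Nat.card {A : Matrix κ κ F // Aᵀ * Γ' * A = Γ'} * Nat.card ↥(symplecticGroup (Fin m) F) := by
  have hS := pB_comm (qPlus m F)
  have halt := pB_alt (qPlus m F)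
  have hnd : (polarBilin (qPlus m F)).Nondegenerate := nd_plus
  have hli : LinearIndependent F (fun i => Nx (eS t) (x i)) :=
    (li_fam hN hS hd h1 h2).comp Sum.inr Sum.inr_injective
  have horth : ∀ i j, polarBilin (qPlus m F) (Nx (eS t) (x i)) (Nx (eS t) (x j)) = 0 := by
    intro i j
    rw [hN.adj, hN.sq, map_zero]
  refine cent_count eS eS_inj eS_isometry (fun y => rfl) hN h1 h2 hsym hd (FrSet (polarBilin (qPlus m F)) κ)
    ⟨hli, horth⟩ ?_ ?_ ?_ hS
  · rintro g v ⟨hv1, hv2⟩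
    refine ⟨?_, fun i j => ?_⟩
    · exact hv1.map' (eS g : (Fin m ⊕ Fin m → F) →ₗ[F] (Fin m ⊕ Fin m → F)) (LinearEquiv.ker _)
    · simp only [orb]
      rw [eS_isometry]
      exact hv2 i j
  · rintro v ⟨hv1, hv2⟩
    obtain ⟨g, hg1, hg2⟩ := witt_family_alt hnd halt hli hv1 (fun i j => by rw [hv2, horth])
    obtain ⟨γ, rfl⟩ := eS_surj hg1
    exact ⟨γ, funext hg2⟩
  · intro A hA
    refine ⟨li_lin (det_ne_of_mem h1 hA) hli, fun i j => ?_⟩
    simp only [lin, map_sum, map_smul, LinearMap.sum_apply, LinearMap.smul_apply, horth, smul_zero, Finset.sum_const_zero]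

theorem two_le_card : 2 ≤ Fintype.card F := Fintype.one_lt_card

theorem rank_le (t : ↥(symplecticGroup (Fin m) F)) (hN : SA (polarBilin (qPlus m F)) (Nx (eS t))) :
    finrank F (LinearMap.range (Nx (eS t))) ≤ m := by
  have := hnd_range_le hN
  rw [finrank_plus] at this
  omega

theorem card_Sp' (r : ℕ) :
    Nat.card ↥(symplecticGroup (Fin r) F) = Fintype.card F ^ (r ^ 2) * ∏ i ∈ range r, (Fintype.card F ^ (2 * (i + 1)) - 1) :=
  Cfsg.Agent.Lib.SpOrder.card_Sp r

theorem hyp_eq_J (r : ℕ) : hyp r F = Matrix.J (Fin r) F := by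
  rw [hyp, Matrix.J]
  congr 1
  ext i j
  simp [Matrix.neg_apply, CharTwo.neg_eq]

theorem card_hyp (r : ℕ) :
    Nat.card {A : Matrix (Fin r ⊕ Fin r) (Fin r ⊕ Fin r) F // Aᵀ * hyp r F * A = hyp r F} =
      Nat.card ↥(symplecticGroup (Fin r) F) := by
  refine Nat.card_congr ⟨fun A => ⟨A.1, SymplecticGroup.mem_iff'.2 ?_⟩, fun A => ⟨A.1, ?_⟩, fun A => rfl, fun A => rfl⟩
  · rw [← hyp_eq_J]
    exact A.2
  · rw [hyp_eq_J]
    exact SymplecticGroup.mem_iff'.1 A.2

theorem hyp_symm (r : ℕ) : (hyp r F)ᵀ = hyp r F := by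
  simp [hyp, Matrix.fromBlocks_transpose]

theorem order_of (t : ↥(symplecticGroup (Fin m) F)) (ht : t ^ 2 = 1) (ht1 : t ≠ 1) : orderOf t = 2 :=
  orderOf_two_of (by rw [← pow_two, ht]) ht1

/-- The centraliser, alternating case. -/
theorem cent_alt (t : ↥(symplecticGroup (Fin m) F)) (ht : orderOf t = 2)
    (halt : ∀ v, polarBilin (qPlus m F) v (Nx (eS t) v) = 0) {r : ℕ}
    (hs : finrank F (LinearMap.range (Nx (eS t))) = 2 * r) :
    Nat.card (Subgroup.centralizer ({t} : Set ↥(symplecticGroup (Fin m) F))) =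
      Fintype.card F ^ (2 * m * (2 * r) - (3 * (2 * r) ^ 2 - 2 * r) / 2) *
        (Fintype.card F ^ (r ^ 2) * ∏ i ∈ range r, (Fintype.card F ^ (2 * (i + 1)) - 1)) *
        (Fintype.card F ^ ((m - 2 * r) ^ 2) * ∏ i ∈ range (m - 2 * r), (Fintype.card F ^ (2 * (i + 1)) - 1)) := by
  have hN := sp_h1 t ht
  have hS := pB_comm (qPlus m F)
  have hnd : (polarBilin (qPlus m F)).Nondegenerate := nd_plus
  obtain ⟨r', x, hr', hd⟩ := exists_data_alt hnd hN hS (pB_self _) halt
  obtain rfl : r' = r := by omega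
  have hc := sp_cent (hyp_sq r') (hyp_sq r') (hyp_symm r') hN hd
  rw [card_hyp, card_Fr_equiv (polarBilin (qPlus m F)) (finSumFinEquiv (m := r') (n := r')).symm,
    card_Fr hnd (pB_alt _) hS finrank_plus, card_Sp', card_Sp'] at hc
  have hle := rank_le t hN
  rw [hs] at hle
  have e2 : r' + r' = 2 * r' := by ring
  rw [e2] at hc
  exact final_arith two_le_card hle hc

/-- The centraliser, non-alternating case, in terms of the number of orthogonal matrices. -/
theorem cent_nonalt (t : ↥(symplecticGroup (Fin m) F)) (ht : orderOf t = 2)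
    (hna : ∃ v, polarBilin (qPlus m F) v (Nx (eS t) v) ≠ 0) {s : ℕ}
    (hs : finrank F (LinearMap.range (Nx (eS t))) = s) :
    Nat.card (Subgroup.centralizer ({t} : Set ↥(symplecticGroup (Fin m) F))) =
      Fintype.card F ^ (2 * m * s - (3 * s ^ 2 - s) / 2) *
        Nat.card {A : Matrix (Fin s) (Fin s) F // Aᵀ * 1 * A = 1} *
        (Fintype.card F ^ ((m - s) ^ 2) * ∏ i ∈ range (m - s), (Fintype.card F ^ (2 * (i + 1)) - 1)) := by
  have hN := sp_h1 t ht
  have hS := pB_comm (qPlus m F)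
  have hnd : (polarBilin (qPlus m F)).Nondegenerate := nd_plus
  obtain ⟨x, hd⟩ := exists_data_nonalt hnd hN hS (pB_self _) hna hs
  have hc := sp_cent (Γ := 1) (Γ' := 1) (Matrix.one_mul _) (Matrix.one_mul _) (Matrix.transpose_one) hN hd
  rw [card_Fr hnd (pB_alt _) hS finrank_plus, card_Sp'] at hc
  have hle := rank_le t hN
  rw [hs] at hle
  exact final_arith two_le_card hle hc

end sp

end Cfsg.Agent.Lib.CentSp
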