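import Mathlib
import Cfsg.Agent.Lib.CentSp
import Cfsg.Agent.Lib.HypNeg

/-!
# Centralisers of involutions in the orthogonal group of plus type, characteristic two: frames
-/

set_option autoImplicit false
set_option linter.unusedSectionVars false
set_option linter.unusedSimpArgs false
set_option linter.unusedVariables false

namespace Cfsg.Agent.Lib.CentOrth

open Module Matrix QuadraticMap
open Cfsg.Agent.Lib.Inv2 Cfsg.Agent.Lib.Inv2Count Cfsg.Agent.Lib.CentFrame Cfsg.Agent.Lib.CentFrameCount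
  Cfsg.Agent.Lib.OrthoCount Cfsg.Agent.Lib.CentSp

section general

variable {F : Type*} [Field F] [Fintype F] [CharP F 2] {ι : Type} [Fintype ι] [DecidableEq ι]
variable {κ : Type*} [Fintype κ] [DecidableEq κ]

/-- Frames with prescribed values. -/
def FrQ (Q : QuadraticForm F (ι → F)) (κ : Type*) (c : F) : Set (κ → ι → F) :=
  {v | LinearIndependent F v ∧ (∀ i j, polarBilin Q (v i) (v j) = 0) ∧ ∀ i, Q (v i) = c}

/-- The centraliser count for quadratic frames. -/
theorem orth_cent {Q : QuadraticForm F (ι → F)} (hnd : (polarBilin Q).Nondegenerate) {Γ Γ' : Matrix κ κ F}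
    (h1 : Γ * Γ' = 1) (h2 : Γ' * Γ = 1) (hsym : Γ'ᵀ = Γ') {t : ↥(Cfsg.isometryGroup F ⇑Q)}
    (hN : SAQ Q (Nx (eO Q t))) {x : κ → (ι → F)} (hd : IsData (polarBilin Q) (Nx (eO Q t)) Γ x) (c : F)
    (hc : ∀ i, Γ i i = c) (hA : ∀ A : Matrix κ κ F, Aᵀ * Γ' * A = Γ' → ∀ i, ∑ a, A i a ^ 2 * c = c) :
    Nat.card (Subgroup.centralizer ({t} : Set ↥(Cfsg.isometryGroup F ⇑Q))) * Nat.card (FrQ Q κ c) =
      Nat.card {A : Matrix κ κ F // Aᵀ * Γ' * A = Γ'} * Nat.card ↥(Cfsg.isometryGroup F ⇑Q) := by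
  have hS := pB_comm Q
  have hli : LinearIndependent F (fun i => Nx (eO Q t) (x i)) :=
    (li_fam hN.sa hS hd h1 h2).comp Sum.inr Sum.inr_injective
  have horth : ∀ i j, polarBilin Q (Nx (eO Q t) (x i)) (Nx (eO Q t) (x j)) = 0 := by
    intro i j
    rw [hN.sa.adj, hN.sa.sq, map_zero]
  have hval : ∀ i, Q (Nx (eO Q t) (x i)) = c := by
    intro i
    rw [hN.q, hd.hΓ, hc]
  refine cent_count (eO Q) (eO_inj Q) (eO_isometry Q) (fun y => rfl) hN.sa h1 h2 hsym hd (FrQ Q κ c)
    ⟨hli, horth, hval⟩ ?_ ?_ ?_ hS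
  · rintro g v ⟨hv1, hv2, hv3⟩
    refine ⟨?_, fun i j => ?_, fun i => ?_⟩
    · exact hv1.map' (eO Q g : (ι → F) →ₗ[F] (ι → F)) (LinearEquiv.ker _)
    · simp only [orb]
      rw [eO_isometry]
      exact hv2 i j
    · simp only [orb]
      rw [eO_mem Q g]
      exact hv3 i
  · rintro v ⟨hv1, hv2, hv3⟩
    obtain ⟨g, hg1, hg2⟩ := witt_family_quad hnd hli hv1 (fun i j => by rw [hv2, horth]) (fun i => by rw [hv3, hval])
    obtain ⟨γ, rfl⟩ := eO_surj Q (x := g) hg1
    exact ⟨γ, funext hg2⟩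
  · intro A hA'
    refine ⟨li_lin (det_ne_of_mem h1 hA') hli, fun i j => ?_, fun i => ?_⟩
    · simp only [lin, map_sum, map_smul, LinearMap.sum_apply, LinearMap.smul_apply, horth, smul_zero, Finset.sum_const_zero]
    · simp only [lin]
      rw [Cfsg.Agent.Lib.Inv2Rep.Q_sum Q _ horth]
      simp only [hval]
      exact hA A hA' i

/-- Removing a subspace from a set containing it. -/
theorem card_remove {V : Type*} [Finite V] (P : V → Prop) (W : Set V) :
    Nat.card {w // P w ∧ w ∉ W} = Nat.card {w // P w} - Nat.card {w // P w ∧ w ∈ W} := by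
  classical
  have h1 : Nat.card {w // P w} = Nat.card {w : {w // P w} // w.1 ∈ W} + Nat.card {w : {w // P w} // w.1 ∉ W} := by
    rw [← Nat.card_sum]
    exact Nat.card_congr (Equiv.sumCompl _).symm
  have h2 : Nat.card {w : {w // P w} // w.1 ∈ W} = Nat.card {w // P w ∧ w ∈ W} :=
    Nat.card_congr ⟨fun w => ⟨w.1.1, w.1.2, w.2⟩, fun w => ⟨⟨w.1, w.2.1⟩, w.2.2⟩, fun _ => rfl, fun _ => rfl⟩
  have h3 : Nat.card {w : {w // P w} // w.1 ∉ W} = Nat.card {w // P w ∧ w ∉ W} :=
    Nat.card_congr ⟨fun w => ⟨w.1.1, w.1.2, w.2⟩, fun w => ⟨⟨w.1, w.2.1⟩, w.2.2⟩, fun _ => rfl, fun _ => rfl⟩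
  omega

/-- Membership in the perpendicular of a family. -/
theorem mem_perp_iff {V : Type*} [AddCommGroup V] [Module F V] (f : LinearMap.BilinForm F V) {n : ℕ} (v : Fin n → V) (w : V) :
    (∀ j, f (v j) w = 0) ↔ w ∈ f.orthogonal (Submodule.span F (Set.range v)) := by
  rw [LinearMap.BilinForm.mem_orthogonal_iff]
  constructor
  · intro h y hy
    induction hy using Submodule.span_induction with
    | mem y hy =>
      obtain ⟨j, rfl⟩ := hy
      exact h j
    | zero => simp
    | add a b _ _ ha hb => simp [ha, hb]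
    | smul c a _ ha => simp [ha]
  · intro h i
    exact h _ (Submodule.subset_span ⟨i, rfl⟩)

/-- The tuple criterion for quadratic frames. -/
theorem snoc_FrQ (Q : QuadraticForm F (ι → F)) {n : ℕ} (c : F) (v : Fin n → ι → F) (w : ι → F) :
    (LinearIndependent F (Fin.snoc (α := fun _ => ι → F) v w) ∧
      (∀ i j, polarBilin Q ((Fin.snoc (α := fun _ => ι → F) v w : Fin (n + 1) → ι → F) i) ((Fin.snoc (α := fun _ => ι → F) v w : Fin (n + 1) → ι → F) j) = 0) ∧
      ∀ i, Q ((Fin.snoc (α := fun _ => ι → F) v w : Fin (n + 1) → ι → F) i) = c) ↔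
    (LinearIndependent F v ∧ (∀ i j, polarBilin Q (v i) (v j) = 0) ∧ ∀ i, Q (v i) = c) ∧
      ((∀ j, polarBilin Q (v j) w = 0) ∧ Q w = c ∧ w ∉ Submodule.span F (Set.range v)) := by
  constructor
  · rintro ⟨hli, h, h2⟩
    rw [linearIndependent_finSnoc] at hli
    refine ⟨⟨hli.1, fun i j => ?_, fun i => ?_⟩, fun i => ?_, ?_, hli.2⟩
    · simpa using h i.castSucc j.castSucc
    · simpa using h2 i.castSucc
    · simpa using h i.castSucc (Fin.last n)
    · simpa using h2 (Fin.last n)
  · rintro ⟨⟨h1, h2, h3⟩, h4, h5, h6⟩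
    refine ⟨linearIndependent_finSnoc.2 ⟨h1, h6⟩, fun i j => ?_, fun i => ?_⟩
    · induction i using Fin.lastCases with
      | last =>
        induction j using Fin.lastCases with
        | last => simpa using pB_self Q w
        | cast j =>
          simp only [Fin.snoc_last, Fin.snoc_castSucc]
          rw [pB_comm]
          exact h4 j
      | cast i =>
        induction j using Fin.lastCases with
        | last => simpa using h4 i
        | cast j => simpa using h2 i j
    · induction i using Fin.lastCases with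
      | last => simpa using h5
      | cast i => simpa using h3 i

end general

section plus

variable {F : Type*} [Field F] [Fintype F] [CharP F 2]

/-- Counting zeros in the perpendicular of a standard frame. -/
theorem card_perp_zeros (i k : ℕ) :
    Nat.card {x : Fin (i + k) ⊕ Fin (i + k) → F //
        (∀ j : Fin i, x (Sum.inr (Fin.castAdd k j)) = 0) ∧ Cfsg.quadFormPlus (i + k) F x = 0} =
      Fintype.card F ^ i * Nat.card {y : Fin k ⊕ Fin k → F // Cfsg.quadFormPlus k F y = 0} := by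
  classical
  have e : ∀ x : Fin (i + k) ⊕ Fin (i + k) → F, (∀ j : Fin i, x (Sum.inr (Fin.castAdd k j)) = 0) →
      Cfsg.quadFormPlus (i + k) F x =
        Cfsg.quadFormPlus k F (fun p => x (Sum.map (Fin.natAdd i) (Fin.natAdd i) p)) := by
    intro x hx
    simp only [Cfsg.quadFormPlus]
    rw [Fin.sum_univ_add]
    simp only [hx, mul_zero, Finset.sum_const_zero, zero_add, Sum.map_inl, Sum.map_inr]
  let E : {x : Fin (i + k) ⊕ Fin (i + k) → F //
        (∀ j : Fin i, x (Sum.inr (Fin.castAdd k j)) = 0) ∧ Cfsg.quadFormPlus (i + k) F x = 0} ≃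
      (Fin i → F) × {y : Fin k ⊕ Fin k → F // Cfsg.quadFormPlus k F y = 0} :=
    { toFun := fun x => (fun j => x.1 (Sum.inl (Fin.castAdd k j)),
        ⟨fun p => x.1 (Sum.map (Fin.natAdd i) (Fin.natAdd i) p), by rw [← e x.1 x.2.1]; exact x.2.2⟩)
      invFun := fun u => ⟨Sum.elim (Fin.addCases u.1 (fun a => u.2.1 (Sum.inl a)))
          (Fin.addCases (fun _ => 0) (fun a => u.2.1 (Sum.inr a))), by
          refine ⟨fun j => by simp, ?_⟩
          rw [e _ (fun j => by simp)]
          convert u.2.2 using 2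
          funext p
          cases p <;> simp⟩
      left_inv := by
        rintro ⟨x, hx1, hx2⟩
        apply Subtype.ext
        funext p
        rcases p with l | l
        · refine Fin.addCases (fun j => ?_) (fun a => ?_) l <;> simp
        · refine Fin.addCases (fun j => ?_) (fun a => ?_) l
          · simp [hx1 j]
          · simp
      right_inv := by
        rintro ⟨u, ⟨y, hy⟩⟩
        apply Prod.ext
        · funext j
          simp
        · apply Subtype.ext
          funext p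
          cases p <;> simp }
  rw [Nat.card_congr E, Nat.card_prod, Nat.card_fun, Nat.card_eq_fintype_card (α := F), Nat.card_eq_fintype_card (α := Fin i), Fintype.card_fin]

/-- The standard frame. -/
noncomputable def stdE {m i : ℕ} (hi : i ≤ m) (j : Fin i) : Fin m ⊕ Fin m → F :=
  by classical exact Pi.single (Sum.inl (Fin.castLE hi j)) 1

theorem polar_std {m i : ℕ} (hi : i ≤ m) (j : Fin i) (x : Fin m ⊕ Fin m → F) :
    polarBilin (qPlus m F) (stdE hi j) x = x (Sum.inr (Fin.castLE hi j)) := by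
  classical
  have h := Cfsg.Agent.Lib.HypNeg.B_qPlus (F := F) m (stdE hi j) x
  rw [Cfsg.Agent.Lib.OrthGroup.B] at h
  rw [h, Finset.sum_eq_single (Fin.castLE hi j)]
  · simp [stdE]
  · intro l _ hl
    simp [stdE, Pi.single_apply, hl]
  · simp

theorem q_std {m i : ℕ} (hi : i ≤ m) (j : Fin i) : qPlus m F (stdE hi j) = 0 := by
  classical
  rw [qPlus_apply]
  simp [Cfsg.quadFormPlus, stdE]

theorem li_std {m i : ℕ} (hi : i ≤ m) : LinearIndependent F (stdE (F := F) hi) := by
  classical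
  rw [Fintype.linearIndependent_iff]
  intro c hc j
  have h1 := congrFun hc (Sum.inl (Fin.castLE hi j))
  simp only [Finset.sum_apply, Pi.smul_apply, smul_eq_mul, Pi.zero_apply, stdE] at h1
  rw [Finset.sum_eq_single j] at h1
  · simpa using h1
  · intro l _ hl
    have : Fin.castLE hi l ≠ Fin.castLE hi j := fun h => hl (Fin.castLE_injective hi h)
    simp [Pi.single_apply, this]
  · simp

/-- Counting singular vectors perpendicular to a singular frame. -/
theorem card_perp_frame {m i : ℕ} (hi : i ≤ m) {v : Fin i → Fin m ⊕ Fin m → F}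
    (hv : v ∈ FrQ (qPlus m F) (Fin i) 0) :
    Nat.card {w // (∀ j, polarBilin (qPlus m F) (v j) w = 0) ∧ qPlus m F w = 0} =
      Fintype.card F ^ i * Nat.card {y : Fin (m - i) ⊕ Fin (m - i) → F // Cfsg.quadFormPlus (m - i) F y = 0} := by
  classical
  obtain ⟨k, rfl⟩ : ∃ k, m = i + k := ⟨m - i, by omega⟩
  rw [Nat.add_sub_cancel_left, ← card_perp_zeros i k]
  have hnd : (polarBilin (qPlus (i + k) F)).Nondegenerate := nd_plus
  obtain ⟨g, hg1, hg2⟩ := witt_family_quad hnd (li_std hi) hv.1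
    (fun a b => by
      rw [hv.2.1, polar_std]
      simp [stdE, Pi.single_apply])
    (fun a => by rw [hv.2.2, q_std])
  have hgf : ∀ a b, polarBilin (qPlus (i + k) F) (g a) (g b) = polarBilin (qPlus (i + k) F) a b := by
    intro a b
    simp only [polarBilin_apply_apply, polar, ← map_add, hg1]
  refine Nat.card_congr (Equiv.subtypeEquiv g.toEquiv.symm fun w => ?_)
  obtain ⟨x, rfl⟩ := g.surjective w
  have e1 : g.toEquiv.symm (g x) = x := g.symm_apply_apply x
  rw [e1]
  constructor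
  · rintro ⟨h1, h2⟩
    refine ⟨fun j => ?_, ?_⟩
    · have := h1 j
      rw [← hg2 j, hgf, polar_std] at this
      exact this
    · rw [hg1, qPlus_apply] at h2
      exact h2
  · rintro ⟨h1, h2⟩
    refine ⟨fun j => ?_, ?_⟩
    · rw [← hg2 j, hgf, polar_std]
      exact h1 j
    · rw [hg1, qPlus_apply]
      exact h2

theorem finite_V (m : ℕ) : Finite (Fin m ⊕ Fin m → F) := inferInstance

/-- The span of a singular frame. -/
theorem card_zero_span {m i : ℕ} {v : Fin i → Fin m ⊕ Fin m → F} (hv : v ∈ FrQ (qPlus m F) (Fin i) 0) :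
    Nat.card {w // ((∀ j, polarBilin (qPlus m F) (v j) w = 0) ∧ qPlus m F w = 0) ∧ w ∈ Submodule.span F (Set.range v)} =
      Fintype.card F ^ i := by
  classical
  obtain ⟨W, hW⟩ : ∃ W, W = Submodule.span F (Set.range v) := ⟨_, rfl⟩
  have h1 : Nat.card W = Fintype.card F ^ i := by
    rw [Module.natCard_eq_pow_finrank (K := F), hW, finrank_span_eq_card hv.1, Nat.card_eq_fintype_card, Fintype.card_fin]
  rw [← h1, ← hW]
  refine Nat.card_congr ⟨fun w => ⟨w.1, w.2.2⟩, fun w => ⟨w.1, ⟨fun j => ?_, ?_⟩, w.2⟩, fun _ => rfl, fun _ => rfl⟩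
  · obtain ⟨w, hw⟩ := w
    rw [hW] at hw
    obtain ⟨c, rfl⟩ := (Submodule.mem_span_range_iff_exists_fun F).mp hw
    simp only [map_sum, map_smul, hv.2.1, smul_zero, Finset.sum_const_zero]
  · obtain ⟨w, hw⟩ := w
    rw [hW] at hw
    obtain ⟨c, rfl⟩ := (Submodule.mem_span_range_iff_exists_fun F).mp hw
    simp only
    rw [Cfsg.Agent.Lib.Inv2Rep.Q_sum _ _ hv.2.1]
    simp [hv.2.2]

theorem card_FrQ_zero {m : ℕ} (n : ℕ) (hn : n ≤ m) :
    Nat.card (FrQ (qPlus m F) (Fin n) 0) =
      ∏ i ∈ Finset.range n, (Fintype.card F ^ i * Nat.card {y : Fin (m - i) ⊕ Fin (m - i) → F // Cfsg.quadFormPlus (m - i) F y = 0} -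
        Fintype.card F ^ i) := by
  classical
  induction n with
  | zero =>
    have : Nat.card (FrQ (qPlus m F) (Fin 0) 0) = 1 := by
      rw [Nat.card_eq_one_iff_unique]
      refine ⟨⟨?_⟩, ⟨⟨fun i => i.elim0, linearIndependent_empty_type, fun i => i.elim0, fun i => i.elim0⟩⟩⟩
      rintro ⟨a, ha⟩ ⟨b, hb⟩
      exact Subtype.ext (funext fun i => i.elim0)
    simpa using this
  | succ n ih =>
    rw [Finset.prod_range_succ, ← ih (by omega)]
    refine card_snoc (fun u => LinearIndependent F u ∧ (∀ i j, polarBilin (qPlus m F) (u i) (u j) = 0) ∧ ∀ i, qPlus m F (u i) = 0)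
      (fun v => LinearIndependent F v ∧ (∀ i j, polarBilin (qPlus m F) (v i) (v j) = 0) ∧ ∀ i, qPlus m F (v i) = 0)
      (fun v w => (∀ j, polarBilin (qPlus m F) (v j) w = 0) ∧ qPlus m F w = 0 ∧ w ∉ Submodule.span F (Set.range v))
      (fun v w => snoc_FrQ _ 0 v w) _ ?_
    intro v hv
    have e : Nat.card {w // (∀ j, polarBilin (qPlus m F) (v j) w = 0) ∧ qPlus m F w = 0 ∧ w ∉ Submodule.span F (Set.range v)} =
        Nat.card {w // ((∀ j, polarBilin (qPlus m F) (v j) w = 0) ∧ qPlus m F w = 0) ∧ w ∉ (Submodule.span F (Set.range v) : Set _)} :=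
      Nat.card_congr (Equiv.subtypeEquivRight fun w => by simp only [SetLike.mem_coe, and_assoc])
    rw [e, card_remove]
    rw [card_perp_frame (by omega) hv]
    have := card_zero_span hv
    simp only [SetLike.mem_coe]
    rw [this]

/-- The number of vectors with value one. -/
theorem card_value_one {m : ℕ} (hm : 1 ≤ m) :
    Nat.card {w // qPlus m F w = 1} = Fintype.card F ^ (2 * m - 1) - Fintype.card F ^ (m - 1) := by
  classical
  obtain ⟨q, hq⟩ : ∃ q, q = Fintype.card F := ⟨_, rfl⟩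
  rw [← hq]
  have hq2 : 2 ≤ q := by rw [hq]; exact Fintype.one_lt_card
  have hZ := card_zeros_plus hq.symm m hm
  have hZ' : Nat.card {v // qPlus m F v = 0} = q ^ (2 * m - 1) + q ^ m - q ^ (m - 1) := by
    rw [← hZ]
    exact Nat.card_congr (Equiv.subtypeEquivRight fun v => by rw [qPlus_apply])
  have hsc : ∀ c : F, c ≠ 0 → Nat.card {w // qPlus m F w = c} = Nat.card {w // qPlus m F w = 1} := by
    intro c hc
    obtain ⟨s, rfl⟩ := FiniteField.isSquare_of_char_two (ringChar.eq F 2) c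
    have hs : s ≠ 0 := fun h => hc (by simp [h])
    refine Nat.card_congr (Equiv.subtypeEquiv (LinearEquiv.smulOfNeZero F _ s⁻¹ (inv_ne_zero hs)).toEquiv fun w => ?_)
    show _ ↔ qPlus m F (s⁻¹ • w) = 1
    rw [QuadraticMap.map_smul, smul_eq_mul]
    constructor
    · intro h
      rw [h]
      field_simp
    · intro h
      field_simp at h
      rw [h]
      ring
  have htot : q ^ (2 * m) = Nat.card {v // qPlus m F v = 0} + (q - 1) * Nat.card {w // qPlus m F w = 1} := by
    have h1 : Nat.card (Fin m ⊕ Fin m → F) = ∑ c : F, Nat.card {w // qPlus m F w = c} := by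
      rw [← Nat.card_sigma]
      exact Nat.card_congr (Equiv.sigmaFiberEquiv _).symm
    rw [card_fun_plus, ← hq] at h1
    rw [h1, ← Finset.add_sum_erase _ _ (Finset.mem_univ (0 : F))]
    congr 1
    rw [Finset.sum_congr rfl (fun c hc => hsc c (Finset.ne_of_mem_erase hc)), Finset.sum_const, Finset.card_erase_of_mem (Finset.mem_univ _),
      Finset.card_univ, ← hq, smul_eq_mul]
  rw [hZ'] at htot
  obtain ⟨a, ha⟩ : ∃ a, a = q ^ (m - 1) := ⟨_, rfl⟩
  obtain ⟨k, rfl⟩ : ∃ k, m = k + 1 := ⟨m - 1, by omega⟩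
  simp only [Nat.add_sub_cancel] at ha htot ⊢
  have e1 : q ^ (k + 1) = a * q := by rw [ha, pow_succ]
  have e2 : q ^ (2 * (k + 1) - 1) = a * a * q := by
    have : 2 * (k + 1) - 1 = k + k + 1 := by omega
    rw [this, ha, pow_succ, pow_add]
  have e3 : q ^ (2 * (k + 1)) = a * a * q * q := by
    have : 2 * (k + 1) = k + k + 1 + 1 := by omega
    rw [this, ha, pow_succ, pow_succ, pow_add]
  rw [e1, e2, e3, ← ha] at htot
  rw [e2, ← ha]
  have ha1 : 1 ≤ a := by rw [ha]; exact Nat.one_le_pow _ _ (by omega)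
  obtain ⟨r, rfl⟩ : ∃ r, q = r + 2 := ⟨q - 2, by omega⟩
  obtain ⟨N, hN⟩ : ∃ N, N = Nat.card {w // qPlus (k + 1) F w = 1} := ⟨_, rfl⟩
  rw [← hN] at htot ⊢
  have hle : a ≤ a * a * (r + 2) + a * (r + 2) := by nlinarith
  have hle2 : a ≤ a * a * (r + 2) := by nlinarith
  have hsub : r + 2 - 1 = r + 1 := by omega
  rw [hsub] at htot
  zify [hle, hle2] at htot ⊢
  have h0 : ((r : ℤ) + 1) * ((N : ℤ) - ((a : ℤ) * a * ((r : ℤ) + 2) - a)) = 0 := by
    linear_combination (-1 : ℤ) * htot
  rcases mul_eq_zero.mp h0 with h | h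
  · have : (0 : ℤ) ≤ r := by positivity
    omega
  · linarith

theorem Q_shift {m : ℕ} {v₀ w : Fin m ⊕ Fin m → F} (h1 : qPlus m F v₀ = 1) (h2 : polarBilin (qPlus m F) v₀ w = 0) (a : F) :
    qPlus m F (w + a • v₀) = qPlus m F w + a * a := by
  rw [Q_add', QuadraticMap.map_smul, h1, map_smul, pB_comm, h2]
  simp

theorem sq_inj (a b : F) (h : a * a = b * b) : a = b := by
  have h1 : (a - b) ^ 2 = 0 := by
    rw [sub_pow_char, pow_two, pow_two, h, sub_self]
  have h2 : a - b = 0 := by simpa using h1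
  exact sub_eq_zero.mp h2

/-- Vectors of value one in the perpendicular of a frame. -/
theorem card_one_perp {m n : ℕ} {v : Fin (n + 1) → Fin m ⊕ Fin m → F} (hv : v ∈ FrQ (qPlus m F) (Fin (n + 1)) 1) :
    Nat.card {w // (∀ j, polarBilin (qPlus m F) (v j) w = 0) ∧ qPlus m F w = 1} * Fintype.card F =
      Fintype.card F ^ (2 * m - (n + 1)) := by
  classical
  have hnd : (polarBilin (qPlus m F)).Nondegenerate := nd_plus
  obtain ⟨A, hA⟩ : ∃ A, A = LinearMap.BilinForm.orthogonal (polarBilin (qPlus m F)) (Submodule.span F (Set.range v)) := ⟨_, rfl⟩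
  have hmem : ∀ w, (∀ j, polarBilin (qPlus m F) (v j) w = 0) ↔ w ∈ A := fun w => by
    rw [hA]
    exact mem_perp_iff _ v w
  obtain ⟨v₀, hv₀⟩ : ∃ v₀, v₀ = v 0 := ⟨_, rfl⟩
  have hv1 : qPlus m F v₀ = 1 := by rw [hv₀]; exact hv.2.2 0
  have hv2 : v₀ ∈ A := by
    rw [← hmem, hv₀]
    exact fun j => hv.2.1 j 0
  have hf0 : ∀ w, w ∈ A → polarBilin (qPlus m F) v₀ w = 0 := fun w hw => by
    rw [hv₀]
    exact (hmem w).2 hw 0
  have hcard : Nat.card A = Fintype.card F ^ (2 * m - (n + 1)) := by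
    rw [Module.natCard_eq_pow_finrank (K := F), hA, LinearMap.BilinForm.finrank_orthogonal hnd, finrank_span_eq_card hv.1,
      finrank_plus, Nat.card_eq_fintype_card (α := F), Fintype.card_fin]
  rw [← hcard, ← Nat.card_eq_fintype_card (α := F), ← Nat.card_prod]
  refine Nat.card_congr (Equiv.ofBijective
    (fun u => (⟨u.1.1 + u.2 • v₀, A.add_mem ((hmem _).1 u.1.2.1) (A.smul_mem _ hv2)⟩ : A)) ⟨?_, ?_⟩)
  · rintro ⟨⟨u, hu1, hu2⟩, a⟩ ⟨⟨u', hu1', hu2'⟩, a'⟩ h
    have h1' := congrArg Subtype.val h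
    have h1 : u + a • v₀ = u' + a' • v₀ := h1'
    have h2 := congrArg (qPlus m F) h1
    rw [Q_shift hv1 (hf0 _ ((hmem _).1 hu1)), Q_shift hv1 (hf0 _ ((hmem _).1 hu1')), hu2, hu2'] at h2
    have h3 : a = a' := sq_inj a a' (add_left_cancel h2)
    subst h3
    have h4 : u = u' := add_right_cancel h1
    subst h4
    rfl
  · rintro ⟨w, hw⟩
    obtain ⟨a, ha⟩ := FiniteField.isSquare_of_char_two (ringChar.eq F 2) (1 + qPlus m F w)
    refine ⟨(⟨w + a • v₀, (hmem _).2 (A.add_mem hw (A.smul_mem _ hv2)), ?_⟩, a), ?_⟩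
    · rw [Q_shift hv1 (hf0 _ hw), ← ha, add_comm, add_assoc, CharTwo.add_self_eq_zero, add_zero]
    · apply Subtype.ext
      show w + a • v₀ + a • v₀ = w
      rw [add_assoc, Cfsg.Agent.Lib.Inv2Count.add_self_V F, add_zero]

/-- Vectors of value one in the span of a frame. -/
theorem card_one_span {m n : ℕ} {v : Fin (n + 1) → Fin m ⊕ Fin m → F} (hv : v ∈ FrQ (qPlus m F) (Fin (n + 1)) 1) :
    Nat.card {w // ((∀ j, polarBilin (qPlus m F) (v j) w = 0) ∧ qPlus m F w = 1) ∧ w ∈ Submodule.span F (Set.range v)} =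
      Fintype.card F ^ n := by
  classical
  haveI : Fact (Nat.Prime 2) := ⟨Nat.prime_two⟩
  have hQ : ∀ c : Fin (n + 1) → F, qPlus m F (∑ i, c i • v i) = (∑ i, c i) ^ 2 := by
    intro c
    rw [Cfsg.Agent.Lib.Inv2Rep.Q_sum _ _ hv.2.1, sum_pow_char 2]
    simp [hv.2.2]
  let φ : (Fin (n + 1) → F) →+ F :=
    { toFun := fun c => ∑ i, c i
      map_zero' := by simp
      map_add' := fun a b => by simp [Finset.sum_add_distrib] }
  have hφ : Function.Surjective φ := by
    intro y
    refine ⟨Pi.single 0 y, ?_⟩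
    show ∑ i, (Pi.single 0 y : Fin (n + 1) → F) i = y
    simp
  have hc := Cfsg.Agent.Lib.SpOrder.card_fiber_mul φ hφ 1
  have e1 : Nat.card {y // φ y = 1} = Fintype.card F ^ n := by
    rw [Nat.card_fun, Nat.card_eq_fintype_card (α := F), Nat.card_eq_fintype_card (α := Fin (n + 1)), Fintype.card_fin, pow_succ] at hc
    exact Nat.eq_of_mul_eq_mul_right Fintype.card_pos hc
  rw [← e1]
  symm
  refine Nat.card_congr (Equiv.ofBijective
    (fun c => ⟨∑ i, c.1 i • v i, ⟨fun j => ?_, ?_⟩, Submodule.sum_mem _ fun i _ => Submodule.smul_mem _ _ (Submodule.subset_span ⟨i, rfl⟩)⟩) ⟨?_, ?_⟩)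
  · simp only [map_sum, map_smul, hv.2.1, smul_zero, Finset.sum_const_zero]
  · rw [hQ]
    have : ∑ i, c.1 i = 1 := c.2
    rw [this, one_pow]
  · rintro ⟨c, hc1⟩ ⟨d, hd1⟩ h
    have h1' := congrArg Subtype.val h
    have h1 : ∑ i, c i • v i = ∑ i, d i • v i := h1'
    apply Subtype.ext
    funext i
    have h2 := (Fintype.linearIndependent_iff.mp hv.1) (fun i => c i - d i) (by
      simp only [sub_smul, Finset.sum_sub_distrib, h1, sub_self]) i
    exact sub_eq_zero.mp h2
  · rintro ⟨w, ⟨hw1, hw2⟩, hw3⟩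
    obtain ⟨c, rfl⟩ := (Submodule.mem_span_range_iff_exists_fun F).mp hw3
    rw [hQ, CentFrameCount.sq_eq_one_iff] at hw2
    exact ⟨⟨c, hw2⟩, rfl⟩

/-- The number of frames of value one. -/
theorem card_FrQ_one {m : ℕ} (hm : 1 ≤ m) (n : ℕ) (hn : n + 1 ≤ m) :
    Nat.card (FrQ (qPlus m F) (Fin (n + 1)) 1) =
      (Fintype.card F ^ (2 * m - 1) - Fintype.card F ^ (m - 1)) *
        ∏ i ∈ Finset.range n, (Fintype.card F ^ (2 * m - i - 2) - Fintype.card F ^ i) := by
  classical
  induction n with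
  | zero =>
    have h1 := card_snoc (n := 0) (X := Fin m ⊕ Fin m → F)
      (fun u => LinearIndependent F u ∧ (∀ i j, polarBilin (qPlus m F) (u i) (u j) = 0) ∧ ∀ i, qPlus m F (u i) = 1)
      (fun v => LinearIndependent F v ∧ (∀ i j, polarBilin (qPlus m F) (v i) (v j) = 0) ∧ ∀ i, qPlus m F (v i) = 1)
      (fun v w => (∀ j, polarBilin (qPlus m F) (v j) w = 0) ∧ qPlus m F w = 1 ∧ w ∉ Submodule.span F (Set.range v))
      (fun v w => snoc_FrQ _ 1 v w) (Fintype.card F ^ (2 * m - 1) - Fintype.card F ^ (m - 1)) (by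
        intro v _
        rw [← card_value_one hm]
        refine Nat.card_congr (Equiv.subtypeEquivRight fun w => ?_)
        have hs : Set.range v = ∅ := Set.range_eq_empty v
        rw [hs, Submodule.span_empty, Submodule.mem_bot]
        constructor
        · rintro ⟨-, h2, -⟩
          exact h2
        · intro h2
          refine ⟨fun j => j.elim0, h2, ?_⟩
          rintro rfl
          rw [map_zero] at h2
          exact zero_ne_one h2)
    have h2 : Nat.card {v : Fin 0 → Fin m ⊕ Fin m → F // LinearIndependent F v ∧ (∀ i j, polarBilin (qPlus m F) (v i) (v j) = 0) ∧ ∀ i, qPlus m F (v i) = 1} = 1 := by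
      rw [Nat.card_eq_one_iff_unique]
      refine ⟨⟨?_⟩, ⟨⟨fun i => i.elim0, linearIndependent_empty_type, fun i => i.elim0, fun i => i.elim0⟩⟩⟩
      rintro ⟨a, ha⟩ ⟨b, hb⟩
      exact Subtype.ext (funext fun i => i.elim0)
    rw [h2, one_mul] at h1
    rw [Finset.prod_range_zero, mul_one]
    exact h1
  | succ n ih =>
    rw [Finset.prod_range_succ, ← mul_assoc, ← ih (by omega)]
    refine card_snoc (fun u => LinearIndependent F u ∧ (∀ i j, polarBilin (qPlus m F) (u i) (u j) = 0) ∧ ∀ i, qPlus m F (u i) = 1)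
      (fun v => LinearIndependent F v ∧ (∀ i j, polarBilin (qPlus m F) (v i) (v j) = 0) ∧ ∀ i, qPlus m F (v i) = 1)
      (fun v w => (∀ j, polarBilin (qPlus m F) (v j) w = 0) ∧ qPlus m F w = 1 ∧ w ∉ Submodule.span F (Set.range v))
      (fun v w => snoc_FrQ _ 1 v w) _ ?_
    intro v hv
    have e : Nat.card {w // (∀ j, polarBilin (qPlus m F) (v j) w = 0) ∧ qPlus m F w = 1 ∧ w ∉ Submodule.span F (Set.range v)} =
        Nat.card {w // ((∀ j, polarBilin (qPlus m F) (v j) w = 0) ∧ qPlus m F w = 1) ∧ w ∉ (Submodule.span F (Set.range v) : Set _)} :=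
      Nat.card_congr (Equiv.subtypeEquivRight fun w => by simp only [SetLike.mem_coe, and_assoc])
    rw [e, card_remove]
    have h2 := card_one_span hv
    simp only [SetLike.mem_coe]
    rw [h2]
    have h3 := card_one_perp hv
    have h4 : 2 * m - (n + 1) = (2 * m - n - 2) + 1 := by omega
    rw [h4, pow_succ] at h3
    rw [Nat.eq_of_mul_eq_mul_right Fintype.card_pos h3]

end plus

end Cfsg.Agent.Lib.CentOrth
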