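import Mathlib
import Cfsg.Agent.Lib.CentOrth
import Cfsg.Agent.Lib.OrthoOrder

/-!
# Centralisers of involutions in the commutator subgroup of the orthogonal group of plus type, characteristic two
-/

set_option autoImplicit false
set_option linter.unusedSectionVars false
set_option linter.unusedSimpArgs false
set_option linter.unusedVariables false

namespace Cfsg.Agent.Lib.CentOrth2

open Module Matrix QuadraticMap
open Cfsg.Agent.Lib.Inv2 Cfsg.Agent.Lib.Inv2Count Cfsg.Agent.Lib.Inv2Omega Cfsg.Agent.Lib.Inv2Conv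
  Cfsg.Agent.Lib.CentFrame Cfsg.Agent.Lib.CentFrameCount Cfsg.Agent.Lib.OrthoCount Cfsg.Agent.Lib.CentSp
  Cfsg.Agent.Lib.CentOrth Cfsg.Agent.Lib.OrthGroup Cfsg.Agent.Lib.OrthMatrix

section parity

variable {F : Type*} [Field F] [Fintype F] [CharP F 2] {ι : Type} [Fintype ι] [DecidableEq ι]
variable {Q : QuadraticForm F (ι → F)}

theorem card_cent_eq (x : ↥(Cfsg.isometryGroup F ⇑Q)) :
    Nat.card {g : ↥(Cfsg.Omega F ⇑Q) // (g : ↥(Cfsg.isometryGroup F ⇑Q)) * x = x * (g : ↥(Cfsg.isometryGroup F ⇑Q))} =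
      Nat.card {g : ↥(Subgroup.centralizer ({x} : Set ↥(Cfsg.isometryGroup F ⇑Q))) // g.1 ∈ Cfsg.Omega F ⇑Q} := by
  refine Nat.card_congr ⟨fun g => ⟨⟨g.1.1, Subgroup.mem_centralizer_singleton_iff.2 g.2⟩, g.1.2⟩,
    fun g => ⟨⟨g.1.1, g.2⟩, Subgroup.mem_centralizer_singleton_iff.1 g.1.2⟩, fun _ => rfl, fun _ => rfl⟩

theorem card_split (x : ↥(Cfsg.isometryGroup F ⇑Q)) (hall : ∀ c, Commute c x → c ∈ Cfsg.Omega F ⇑Q) :
    Nat.card {g : ↥(Cfsg.Omega F ⇑Q) // (g : ↥(Cfsg.isometryGroup F ⇑Q)) * x = x * (g : ↥(Cfsg.isometryGroup F ⇑Q))} =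
      Nat.card (Subgroup.centralizer ({x} : Set ↥(Cfsg.isometryGroup F ⇑Q))) := by
  rw [card_cent_eq]
  exact Nat.card_congr (Equiv.subtypeUnivEquiv fun g => hall g.1 (Subgroup.mem_centralizer_singleton_iff.1 g.2))

theorem card_nonsplit (hnd : (polarBilin Q).Nondegenerate) (hOG : O Q ≤ G Q) (x c : ↥(Cfsg.isometryGroup F ⇑Q))
    (hc : Commute c x) (hc2 : c ∉ Cfsg.Omega F ⇑Q) :
    Nat.card (Subgroup.centralizer ({x} : Set ↥(Cfsg.isometryGroup F ⇑Q))) =
      2 * Nat.card {g : ↥(Cfsg.Omega F ⇑Q) // (g : ↥(Cfsg.isometryGroup F ⇑Q)) * x = x * (g : ↥(Cfsg.isometryGroup F ⇑Q))} := by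
  classical
  rw [card_cent_eq]
  obtain ⟨C, hC⟩ : ∃ C : Subgroup ↥(Cfsg.isometryGroup F ⇑Q), C = Subgroup.centralizer ({x} : Set ↥(Cfsg.isometryGroup F ⇑Q)) := ⟨_, rfl⟩
  rw [← hC]
  have hcC : c ∈ C := by
    rw [hC]
    exact Subgroup.mem_centralizer_singleton_iff.2 hc
  have h1 : Nat.card C = Nat.card {g : C // g.1 ∈ Cfsg.Omega F ⇑Q} + Nat.card {g : C // g.1 ∉ Cfsg.Omega F ⇑Q} := by
    rw [← Nat.card_sum]
    exact Nat.card_congr (Equiv.sumCompl _).symm
  have hinv : ∀ g : ↥(Cfsg.isometryGroup F ⇑Q), g ∉ Cfsg.Omega F ⇑Q → g⁻¹ ∉ Cfsg.Omega F ⇑Q := fun g hg h =>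
    hg (by simpa using Subgroup.inv_mem _ h)
  have h2 : Nat.card {g : C // g.1 ∉ Cfsg.Omega F ⇑Q} = Nat.card {g : C // g.1 ∈ Cfsg.Omega F ⇑Q} := by
    refine Nat.card_congr ⟨fun g => ⟨⟨c⁻¹ * g.1.1, C.mul_mem (C.inv_mem hcC) g.1.2⟩, ?_⟩,
      fun g => ⟨⟨c * g.1.1, C.mul_mem hcC g.1.2⟩, ?_⟩, ?_, ?_⟩
    · have := index_two hnd hOG g.1.1⁻¹ c⁻¹ (hinv _ g.2) (hinv _ hc2)
      simpa using this
    · intro h
      apply hc2
      have h3 := Subgroup.mul_mem _ h (Subgroup.inv_mem _ g.2)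
      simpa using h3
    · intro g
      apply Subtype.ext
      apply Subtype.ext
      simp
    · intro g
      apply Subtype.ext
      apply Subtype.ext
      simp
  rw [h1, h2, two_mul]

end parity

section arith

open Finset

/-- The order of the orthogonal group of plus type. -/
def DD (q k : ℕ) : ℕ :=
  if k = 0 then 1 else 2 * q ^ (k * (k - 1)) * (q ^ k - 1) * ∏ i ∈ range (k - 1), (q ^ (2 * (i + 1)) - 1)

theorem DD_succ (q k : ℕ) (hq : 1 ≤ q) :
    DD q (k + 1) = (q ^ (k + 1) - 1) * (q ^ k + 1) * q ^ (2 * k) * DD q k := by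
  rcases k with _ | k
  · simp only [DD]
    simp
    ring
  · have h1 : DD q (k + 1 + 1) = 2 * q ^ ((k + 2) * (k + 1)) * (q ^ (k + 2) - 1) * ∏ i ∈ range (k + 1), (q ^ (2 * (i + 1)) - 1) := by
      simp [DD]
    have h2 : DD q (k + 1) = 2 * q ^ ((k + 1) * k) * (q ^ (k + 1) - 1) * ∏ i ∈ range k, (q ^ (2 * (i + 1)) - 1) := by
      simp [DD]
    rw [h1, h2, Finset.prod_range_succ]
    have h3 : 1 ≤ q ^ (k + 1) := Nat.one_le_pow _ _ (by omega)
    have h4 : q ^ (2 * (k + 1)) - 1 = (q ^ (k + 1) - 1) * (q ^ (k + 1) + 1) := by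
      obtain ⟨a, ha⟩ : ∃ a, q ^ (k + 1) = a + 1 := ⟨q ^ (k + 1) - 1, by omega⟩
      have e : q ^ (2 * (k + 1)) = q ^ (k + 1) * q ^ (k + 1) := by rw [← pow_add]; congr 1; ring
      rw [e, ha]
      simp only [Nat.add_sub_cancel]
      have e2 : (a + 1) * (a + 1) = a * (a + 1 + 1) + 1 := by ring
      rw [e2, Nat.add_sub_cancel]
    rw [h4]
    have e : (k + 2) * (k + 1) = (k + 1) * k + 2 * (k + 1) := by ring
    rw [e, pow_add]
    have e1 : k + 1 + 1 = k + 2 := rfl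
    ring

theorem DD_prod (q m s : ℕ) (hq : 1 ≤ q) (hs : s ≤ m) :
    DD q m = (∏ i ∈ range s, ((q ^ (m - i) - 1) * (q ^ (m - i - 1) + 1) * q ^ (2 * (m - i - 1)))) * DD q (m - s) := by
  induction s with
  | zero => simp
  | succ s ih =>
    rw [ih (by omega), Finset.prod_range_succ, mul_assoc]
    congr 1
    obtain ⟨k, hk⟩ : ∃ k, m - s = k + 1 := ⟨m - s - 1, by omega⟩
    have e1 : m - (s + 1) = k := by omega
    have e2 : m - s - 1 = k := by omega
    rw [e1, e2, hk, DD_succ q k hq]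

theorem sum_exp (m s : ℕ) (hs : s ≤ m) :
    (∑ i ∈ range s, 2 * (m - i - 1)) + 2 * (∑ i ∈ range s, i) + 2 * s = 2 * m * s := by
  induction s with
  | zero => simp
  | succ s ih =>
    rw [Finset.sum_range_succ, Finset.sum_range_succ]
    have := ih (by omega)
    have e : 2 * m * (s + 1) = 2 * m * s + 2 * m := by ring
    have e2 : 2 * (m - s - 1) + 2 * s + 2 = 2 * m := by omega
    rw [e]
    omega

/-- Arithmetic, alternating type. -/
theorem final_alt {q m s C O : ℕ} (hq : 2 ≤ q) (hs : s ≤ m)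
    (h : C * ∏ i ∈ range s, (q ^ i * ((q ^ (m - i) - 1) * (q ^ (m - i - 1) + 1))) = O * DD q m) :
    C = q ^ (2 * m * s - (3 * s ^ 2 + s) / 2) * O * DD q (m - s) := by
  have eL : ∏ i ∈ range s, (q ^ i * ((q ^ (m - i) - 1) * (q ^ (m - i - 1) + 1))) =
      q ^ (∑ i ∈ range s, i) * ∏ i ∈ range s, ((q ^ (m - i) - 1) * (q ^ (m - i - 1) + 1)) := by
    rw [Finset.prod_mul_distrib, Finset.prod_pow_eq_pow_sum]
  have eR : ∏ i ∈ range s, ((q ^ (m - i) - 1) * (q ^ (m - i - 1) + 1) * q ^ (2 * (m - i - 1))) =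
      (∏ i ∈ range s, ((q ^ (m - i) - 1) * (q ^ (m - i - 1) + 1))) * q ^ (∑ i ∈ range s, 2 * (m - i - 1)) := by
    rw [Finset.prod_mul_distrib, Finset.prod_pow_eq_pow_sum]
  rw [DD_prod q m s (by omega) hs, eL, eR] at h
  obtain ⟨Y, hY⟩ : ∃ Y, Y = ∏ i ∈ range s, ((q ^ (m - i) - 1) * (q ^ (m - i - 1) + 1)) := ⟨_, rfl⟩
  obtain ⟨T, hT⟩ : ∃ T, T = ∑ i ∈ range s, i := ⟨_, rfl⟩
  obtain ⟨U, hU⟩ : ∃ U, U = ∑ i ∈ range s, 2 * (m - i - 1) := ⟨_, rfl⟩
  rw [← hY, ← hT, ← hU] at h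
  have hYpos : 0 < Y := by
    rw [hY]
    refine Finset.prod_pos fun i hi => ?_
    have hi' := Finset.mem_range.mp hi
    have h2 : q ≤ q ^ (m - i) := Nat.le_self_pow (by omega) q
    have h3 : 0 < q ^ (m - i) - 1 := by omega
    positivity
  have hT2 : 2 * T = s * (s - 1) := by
    rw [hT]
    exact sum_range_id' s
  have hsum := sum_exp m s hs
  rw [← hU, ← hT] at hsum
  have hE : (3 * s ^ 2 + s) / 2 = s ^ 2 + s + T := by
    have h1 : 3 * s ^ 2 + s = 2 * (s ^ 2 + s + T) := by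
      rcases s with _ | s
      · simp at hT2 ⊢
        omega
      · simp only [Nat.add_sub_cancel] at hT2
        have : 2 * ((s + 1) ^ 2 + (s + 1) + T) = 2 * (s + 1) ^ 2 + 2 * (s + 1) + (s + 1) * s := by
          rw [mul_add, hT2]
          ring
        rw [this]
        ring
    omega
  have hle : s ^ 2 + s + T ≤ 2 * m * s := by
    have h1 : 2 * s ^ 2 ≤ 2 * m * s := by nlinarith
    have h2 : s + T ≤ s ^ 2 := by
      rcases s with _ | s
      · simp at hT2 ⊢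
        omega
      · simp only [Nat.add_sub_cancel] at hT2
        nlinarith
    nlinarith
  have hU2 : U = (2 * m * s - (3 * s ^ 2 + s) / 2) + T := by
    rw [hE]
    have h1 : s ^ 2 + s ≤ 2 * m * s := by omega
    have h2 : U + s = 2 * m * s - s ^ 2 := by
      have e1 : 2 * T = s ^ 2 - s := by
        rw [hT2, Nat.mul_sub_one]
        congr 1
        ring
      have e2 : s ≤ s ^ 2 := by nlinarith
      omega
    omega
  rw [hU2, pow_add] at h
  have h2 : C * (q ^ T * Y) = (q ^ (2 * m * s - (3 * s ^ 2 + s) / 2) * O * DD q (m - s)) * (q ^ T * Y) := by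
    calc C * (q ^ T * Y) = C * (q ^ T * Y) := rfl
      _ = O * (Y * (q ^ (2 * m * s - (3 * s ^ 2 + s) / 2) * q ^ T) * DD q (m - s)) := h
      _ = _ := by ring
  exact Nat.eq_of_mul_eq_mul_right (by positivity) h2

/-- Arithmetic, non-alternating type. -/
theorem final_nonalt {q m s C O : ℕ} (hq : 2 ≤ q) (hs1 : 1 ≤ s) (hs : s ≤ m)
    (h : C * ((q ^ (2 * m - 1) - q ^ (m - 1)) * ∏ i ∈ range (s - 1), (q ^ (2 * m - i - 2) - q ^ i)) =
      O * (2 * q ^ (m * (m - 1)) * (q ^ m - 1) * ∏ i ∈ range (m - 1), (q ^ (2 * (i + 1)) - 1))) :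
    C = 2 * (q ^ (2 * m * (s - 1) - (3 * s ^ 2 - 3 * s) / 2) * O *
      (q ^ ((m - s) ^ 2) * ∏ i ∈ range (m - s), (q ^ (2 * (i + 1)) - 1))) := by
  obtain ⟨k, rfl⟩ : ∃ k, m = k + 1 := ⟨m - 1, by omega⟩
  obtain ⟨u, rfl⟩ : ∃ u, s = u + 1 := ⟨s - 1, by omega⟩
  have huk : u ≤ k := by omega
  simp only [Nat.add_sub_cancel, Nat.add_sub_add_right] at h ⊢
  have e1 : ∀ i, 2 * (k + 1) - i - 2 = 2 * k - i := fun i => by omega
  simp only [e1] at h
  rw [prod_frame q k u (by omega) huk, prod_split q k u huk] at h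
  obtain ⟨P, hP⟩ : ∃ P, P = ∏ i ∈ range u, (q ^ (2 * (k - i)) - 1) := ⟨_, rfl⟩
  obtain ⟨R, hR⟩ : ∃ R, R = ∏ i ∈ range (k - u), (q ^ (2 * (i + 1)) - 1) := ⟨_, rfl⟩
  obtain ⟨T, hT⟩ : ∃ T, T = ∑ i ∈ range u, i := ⟨_, rfl⟩
  rw [← hP, ← hR, ← hT] at h
  rw [← hR]
  have hPpos : 0 < P := by
    rw [hP]
    refine Finset.prod_pos fun i hi => ?_
    have hi' := Finset.mem_range.mp hi
    have h2 : q ≤ q ^ (2 * (k - i)) := Nat.le_self_pow (by omega) q
    omega
  have hT2 : 2 * T = u * (u - 1) := by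
    rw [hT]
    exact sum_range_id' u
  -- the first factor
  obtain ⟨a, ha⟩ : ∃ a, a = q ^ k := ⟨_, rfl⟩
  obtain ⟨b, hb⟩ : ∃ b, b = q ^ (k + 1) - 1 := ⟨_, rfl⟩
  have hbpos : 0 < b := by
    rw [hb]
    have : q ≤ q ^ (k + 1) := Nat.le_self_pow (by omega) q
    omega
  have e2 : q ^ (2 * (k + 1) - 1) - q ^ k = a * b := by
    have : 2 * (k + 1) - 1 = k + (k + 1) := by omega
    rw [this, pow_add, ← ha, hb, Nat.mul_sub_one]
  rw [e2, ← hb] at h
  have e3 : q ^ ((k + 1) * k) = a * q ^ (k ^ 2) := by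
    rw [ha, ← pow_add]
    congr 1
    ring
  rw [e3] at h
  -- cancel
  have hexp : k ^ 2 = T + (2 * (k + 1) * u - (3 * (u + 1) ^ 2 - 3 * (u + 1)) / 2) + (k - u) ^ 2 := by
    have h3 : (3 * (u + 1) ^ 2 - 3 * (u + 1)) / 2 = 3 * u + 3 * T + u ^ 2 * 0 := by
      have h5 : 3 * (u + 1) ^ 2 - 3 * (u + 1) = 2 * (3 * u + 3 * T) := by
        rcases u with _ | u
        · simp at hT2 ⊢
          omega
        · simp only [Nat.add_sub_cancel] at hT2
          have e5 : 2 * (3 * (u + 1) + 3 * T) = 6 * (u + 1) + 3 * ((u + 1) * u) := by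
            rw [mul_add, ← hT2]
            ring
          rw [e5]
          have e6 : 3 * (u + 1 + 1) ^ 2 = 6 * (u + 1) + 3 * ((u + 1) * u) + 3 * (u + 1 + 1) := by ring
          omega
      simp only [mul_zero, add_zero]
      omega
    rw [h3]
    obtain ⟨l, rfl⟩ : ∃ l, k = l + u := ⟨k - u, by omega⟩
    rw [Nat.add_sub_cancel]
    have hU : u ^ 2 = u + 2 * T := by
      rcases u with _ | u
      · simp at hT2 ⊢
        omega
      · simp only [Nat.add_sub_cancel] at hT2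
        rw [hT2]
        ring
    simp only [mul_zero, add_zero]
    have h6 : 3 * u + 3 * T ≤ 2 * (l + u + 1) * u := by nlinarith
    have h7 : (l + u) ^ 2 + (3 * u + 3 * T) = T + 2 * (l + u + 1) * u + l ^ 2 := by
      nlinarith
    omega
  have h2 : C * (q ^ T * (a * b * P)) =
      (2 * (q ^ (2 * (k + 1) * u - (3 * (u + 1) ^ 2 - 3 * (u + 1)) / 2) * O * (q ^ ((k - u) ^ 2) * R))) * (q ^ T * (a * b * P)) := by
    have h8 : q ^ (k ^ 2) = q ^ T * q ^ (2 * (k + 1) * u - (3 * (u + 1) ^ 2 - 3 * (u + 1)) / 2) * q ^ ((k - u) ^ 2) := by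
      rw [← pow_add, ← pow_add, ← hexp]
    rw [h8] at h
    calc C * (q ^ T * (a * b * P)) = C * (a * b * (q ^ T * P)) := by ring
      _ = _ := h
      _ = _ := by ring
  have hapos : 0 < a := by rw [ha]; positivity
  exact Nat.eq_of_mul_eq_mul_right (by positivity) h2

end arith

section main

open Finset

variable {F : Type*} [Field F] [Fintype F] [CharP F 2] {m : ℕ}

theorem card_FrQ_equiv {ι : Type} [Fintype ι] [DecidableEq ι] (Q : QuadraticForm F (ι → F)) {κ κ' : Type*} (σ : κ ≃ κ') (c : F) :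
    Nat.card (FrQ Q κ' c) = Nat.card (FrQ Q κ c) := by
  refine Nat.card_congr ⟨fun v => ⟨v.1 ∘ σ, (linearIndependent_equiv σ).2 v.2.1, fun i j => v.2.2.1 _ _, fun i => v.2.2.2 _⟩,
    fun v => ⟨v.1 ∘ σ.symm, (linearIndependent_equiv σ.symm).2 v.2.1, fun i j => v.2.2.1 _ _, fun i => v.2.2.2 _⟩, ?_, ?_⟩
  · intro v
    apply Subtype.ext
    funext i
    simp
  · intro v
    apply Subtype.ext
    funext i
    simp

theorem card_iso_plus (hm : 1 ≤ m) :
    Nat.card ↥(Cfsg.isometryGroup F ⇑(qPlus m F)) =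
      2 * Fintype.card F ^ (m * (m - 1)) * (Fintype.card F ^ m - 1) *
        ∏ i ∈ range (m - 1), (Fintype.card F ^ (2 * (i + 1)) - 1) := by
  have e : ⇑(qPlus m F) = Cfsg.quadFormPlus m F := funext (qPlus_apply m)
  rw [e]
  exact Cfsg.Agent.Lib.OrthoOrder.card_isometry_plus rfl m hm

theorem Z_arith (i k : ℕ) (hk : 1 ≤ k) :
    Fintype.card F ^ i * Nat.card {y : Fin k ⊕ Fin k → F // Cfsg.quadFormPlus k F y = 0} - Fintype.card F ^ i =
      Fintype.card F ^ i * ((Fintype.card F ^ k - 1) * (Fintype.card F ^ (k - 1) + 1)) := by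
  rw [card_zeros_plus rfl k hk]
  obtain ⟨q, hq⟩ : ∃ q, q = Fintype.card F := ⟨_, rfl⟩
  rw [← hq]
  have hq2 : 2 ≤ q := by
    rw [hq]
    exact two_le_card
  obtain ⟨l, rfl⟩ : ∃ l, k = l + 1 := ⟨k - 1, by omega⟩
  simp only [Nat.add_sub_cancel]
  have e : 2 * (l + 1) - 1 = l + l + 1 := by omega
  rw [e]
  obtain ⟨a, ha⟩ : ∃ a, q ^ l = a + 1 := ⟨q ^ l - 1, by
    have : 1 ≤ q ^ l := Nat.one_le_pow _ _ (by omega)
    omega⟩
  have e1 : q ^ (l + l + 1) = (a + 1) * (a + 1) * q := by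
    rw [pow_succ, pow_add, ha]
  have e2 : q ^ (l + 1) = (a + 1) * q := by
    rw [pow_succ, ha]
  rw [e1, e2, ha]
  obtain ⟨b, rfl⟩ : ∃ b, q = b + 1 := ⟨q - 1, by omega⟩
  have e3 : (a + 1) * (a + 1) * (b + 1) + (a + 1) * (b + 1) - (a + 1) = (a + 1) * (a + 1) * (b + 1) + (a + 1) * b := by
    have : (a + 1) * (a + 1) * (b + 1) + (a + 1) * (b + 1) = (a + 1) * (a + 1) * (b + 1) + (a + 1) * b + (a + 1) := by ring
    omega
  rw [e3]
  have e5 : (a + 1) * (b + 1) - 1 = a * b + a + b := by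
    have : (a + 1) * (b + 1) = a * b + a + b + 1 := by ring
    omega
  rw [e5]
  have e6 : (b + 1) ^ i * ((a + 1) * (a + 1) * (b + 1) + (a + 1) * b) = (b + 1) ^ i * ((a * b + a + b) * (a + 1 + 1)) + (b + 1) ^ i := by
    ring
  rw [e6, Nat.add_sub_cancel]

theorem rank_pos_of_ne (x : ↥(Cfsg.isometryGroup F ⇑(qPlus m F))) (hx : x ≠ 1) :
    0 < finrank F (LinearMap.range (Nx (eO (qPlus m F) x))) := by
  by_contra h
  have h0 : finrank F (LinearMap.range (Nx (eO (qPlus m F) x))) = 0 := by omega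
  rw [Submodule.finrank_eq_zero, LinearMap.range_eq_bot] at h0
  apply hx
  apply eO_inj (qPlus m F)
  rw [map_one]
  refine LinearEquiv.ext fun v => ?_
  have h1 := LinearMap.congr_fun h0 v
  rw [Nx_apply, LinearMap.zero_apply, sub_eq_zero] at h1
  exact h1

/-- The non-alternating case. -/
theorem main_nonalt (hOG : O (qPlus m F) ≤ G (qPlus m F)) (x : ↥(Cfsg.isometryGroup F ⇑(qPlus m F))) (hx : orderOf x = 2)
    {s : ℕ} (hfr : finrank F (LinearMap.range (Nx (eO (qPlus m F) x))) = s)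
    (hna : ∃ v, polarBilin (qPlus m F) v (Nx (eO (qPlus m F) x) v) ≠ 0) :
    Nat.card {g : ↥(Cfsg.Omega F ⇑(qPlus m F)) // (g : ↥(Cfsg.isometryGroup F ⇑(qPlus m F))) * x = x * (g : ↥(Cfsg.isometryGroup F ⇑(qPlus m F)))} =
      Fintype.card F ^ (2 * m * (s - 1) - (3 * s ^ 2 - 3 * s) / 2) *
        Nat.card {A : Matrix (Fin s) (Fin s) F // Aᵀ * 1 * A = 1} *
        (Fintype.card F ^ ((m - s) ^ 2) * ∏ i ∈ range (m - s), (Fintype.card F ^ (2 * (i + 1)) - 1)) := by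
  have hnd : (polarBilin (qPlus m F)).Nondegenerate := nd_plus
  have hN := adm_of_order (qPlus m F) x hx
  have hS := pB_comm (qPlus m F)
  have hle := hnd_range_le hN.sa
  rw [finrank_plus, hfr] at hle
  have hs0 : s ≠ 0 := by
    rintro rfl
    obtain ⟨v, hv⟩ := hna
    apply hv
    rw [Submodule.finrank_eq_zero, LinearMap.range_eq_bot] at hfr
    rw [hfr, LinearMap.zero_apply, map_zero]
  obtain ⟨u, rfl⟩ : ∃ u, s = u + 1 := ⟨s - 1, by omega⟩
  have hm : 1 ≤ m := by omega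
  obtain ⟨y, hd⟩ := exists_data_nonalt hnd hN.sa hS (pB_self _) hna hfr
  have hcent := orth_cent hnd (Γ := (1 : Matrix (Fin (u + 1)) (Fin (u + 1)) F)) (Γ' := 1) (mul_one _) (mul_one _) transpose_one hN hd 1
    (fun i => Matrix.one_apply_eq i) (by
      intro A hA i
      have h1 : Aᵀ * A = 1 := by simpa using hA
      have h2 : A * Aᵀ = 1 := mul_eq_one_comm.mp h1
      have h3 := congrFun (congrFun h2 i) i
      rw [Matrix.mul_apply, Matrix.one_apply_eq] at h3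
      simp only [Matrix.transpose_apply] at h3
      simp only [mul_one]
      rw [← h3]
      exact Finset.sum_congr rfl fun j _ => by rw [_root_.sq])
  rw [card_FrQ_one hm u (by omega), card_iso_plus hm] at hcent
  have hfin := final_nonalt two_le_card (s := u + 1) (by omega) (by omega) hcent
  obtain ⟨c, hc1, hc2⟩ : ∃ c : ↥(Cfsg.isometryGroup F ⇑(qPlus m F)), Commute c x ∧ c ∉ Cfsg.Omega F ⇑(qPlus m F) := by
    by_contra hcon
    push Not at hcon
    obtain ⟨-, h2⟩ := split_of_comm hnd hOG finrank_plus hN hcon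
    obtain ⟨v, hv⟩ := hna
    exact hv (h2 v)
  have hpar := card_nonsplit hnd hOG x c hc1 hc2
  rw [hfin] at hpar
  have := Nat.eq_of_mul_eq_mul_left (by omega : 0 < 2) hpar
  rw [← this]

/-- The alternating case. -/
theorem main_alt (hOG : O (qPlus m F) ≤ G (qPlus m F)) (x : ↥(Cfsg.isometryGroup F ⇑(qPlus m F))) (hx : orderOf x = 2) (hx1 : x ≠ 1)
    {r : ℕ} (hfr : finrank F (LinearMap.range (Nx (eO (qPlus m F) x))) = 2 * r)
    (ha : ∀ v, polarBilin (qPlus m F) v (Nx (eO (qPlus m F) x) v) = 0) :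
    Nat.card {g : ↥(Cfsg.Omega F ⇑(qPlus m F)) // (g : ↥(Cfsg.isometryGroup F ⇑(qPlus m F))) * x = x * (g : ↥(Cfsg.isometryGroup F ⇑(qPlus m F)))} =
      Fintype.card F ^ (2 * m * (2 * r) - (3 * (2 * r) ^ 2 + 2 * r) / 2) *
        (Fintype.card F ^ (r ^ 2) * ∏ i ∈ range r, (Fintype.card F ^ (2 * (i + 1)) - 1)) *
        (if 2 * r = m then 1 else Fintype.card F ^ ((m - 2 * r) * (m - 2 * r - 1)) * (Fintype.card F ^ (m - 2 * r) - 1) *
          ∏ i ∈ range (m - 2 * r - 1), (Fintype.card F ^ (2 * (i + 1)) - 1)) := by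
  have hnd : (polarBilin (qPlus m F)).Nondegenerate := nd_plus
  have hN := adm_of_order (qPlus m F) x hx
  have hS := pB_comm (qPlus m F)
  have hle := hnd_range_le hN.sa
  rw [finrank_plus, hfr] at hle
  have hpos := rank_pos_of_ne x hx1
  rw [hfr] at hpos
  have hm : 1 ≤ m := by omega
  have hle2 : r + r ≤ m := by omega
  obtain ⟨r', y, hr', hd⟩ := exists_data_alt hnd hN.sa hS (pB_self _) ha
  have hrr : r' = r := by omega
  subst hrr
  have hcent := orth_cent hnd (hyp_sq r') (hyp_sq r') (hyp_symm r') hN hd 0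
    (fun i => by rcases i with i | i <;> simp [hyp]) (fun A _ i => by simp)
  rw [card_hyp, card_Sp', card_FrQ_equiv (qPlus m F) (finSumFinEquiv (m := r') (n := r')).symm,
    card_FrQ_zero (r' + r') hle2, card_iso_plus hm] at hcent
  have e1 : ∏ i ∈ range (r' + r'), (Fintype.card F ^ i * Nat.card {y : Fin (m - i) ⊕ Fin (m - i) → F // Cfsg.quadFormPlus (m - i) F y = 0} - Fintype.card F ^ i) =
      ∏ i ∈ range (r' + r'), (Fintype.card F ^ i * ((Fintype.card F ^ (m - i) - 1) * (Fintype.card F ^ (m - i - 1) + 1))) := by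
    refine Finset.prod_congr rfl fun i hi => ?_
    have hi' := Finset.mem_range.mp hi
    exact Z_arith i (m - i) (by omega)
  rw [e1] at hcent
  have e2 : 2 * Fintype.card F ^ (m * (m - 1)) * (Fintype.card F ^ m - 1) *
      ∏ i ∈ range (m - 1), (Fintype.card F ^ (2 * (i + 1)) - 1) = DD (Fintype.card F) m := by
    rw [DD, if_neg (by omega)]
  rw [e2] at hcent
  have hfin := final_alt two_le_card hle2 hcent
  have e3 : r' + r' = 2 * r' := by ring
  rw [e3] at hfin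
  by_cases hsm : 2 * r' = m
  · rw [if_pos hsm]
    have hall : ∀ c, Commute c x → c ∈ Cfsg.Omega F ⇑(qPlus m F) := fun c hc =>
      comm_mem_of_split hnd hOG finrank_plus hN (by rw [hfr, hsm]) ha hc
    rw [card_split x hall, hfin, hsm]
    simp [DD]
  · rw [if_neg hsm]
    obtain ⟨c, hc1, hc2⟩ : ∃ c : ↥(Cfsg.isometryGroup F ⇑(qPlus m F)), Commute c x ∧ c ∉ Cfsg.Omega F ⇑(qPlus m F) := by
      by_contra hcon
      push Not at hcon
      obtain ⟨h1, -⟩ := split_of_comm hnd hOG finrank_plus hN hcon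
      omega
    have hpar := card_nonsplit hnd hOG x c hc1 hc2
    rw [hfin, DD, if_neg (by omega)] at hpar
    have h3 : Fintype.card F ^ (2 * m * (2 * r') - (3 * (2 * r') ^ 2 + 2 * r') / 2) *
        (Fintype.card F ^ (r' ^ 2) * ∏ i ∈ range r', (Fintype.card F ^ (2 * (i + 1)) - 1)) *
        (2 * Fintype.card F ^ ((m - 2 * r') * (m - 2 * r' - 1)) * (Fintype.card F ^ (m - 2 * r') - 1) *
          ∏ i ∈ range (m - 2 * r' - 1), (Fintype.card F ^ (2 * (i + 1)) - 1)) =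
      2 * (Fintype.card F ^ (2 * m * (2 * r') - (3 * (2 * r') ^ 2 + 2 * r') / 2) *
        (Fintype.card F ^ (r' ^ 2) * ∏ i ∈ range r', (Fintype.card F ^ (2 * (i + 1)) - 1)) *
        (Fintype.card F ^ ((m - 2 * r') * (m - 2 * r' - 1)) * (Fintype.card F ^ (m - 2 * r') - 1) *
          ∏ i ∈ range (m - 2 * r' - 1), (Fintype.card F ^ (2 * (i + 1)) - 1))) := by ring
    rw [h3] at hpar
    exact (Nat.eq_of_mul_eq_mul_left (by omega : 0 < 2) hpar).symm

/-- The hypothesis on the group. -/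
theorem hOG_plus (h : Fintype.card F ≠ 2 ∨ m ≠ 2) : O (qPlus m F) ≤ G (qPlus m F) := by
  refine O_le_G nd_plus (hF_of (n := 2 * m) ?_ finrank_plus)
  rcases h with h | h
  · exact Or.inl h
  · exact Or.inr (by omega)

end main

end Cfsg.Agent.Lib.CentOrth2
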