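import Mathlib
import Cfsg.Agent.Lib.BlockMajorR
import Cfsg.Agent.Lib.BrauerConj

/-!
# Bessel inequality for subsections, and Galois means

* `sum_th_cross`, `sum_RR_cross`: subsections that are not conjugate give orthogonal projections;
* `bessel`: the Bessel inequality for a family of orthogonal projections;
* `exists_pow_of_emb`: an embedding of a cyclotomic field is a power map on roots of unity;
* `emb_RR`: the Galois group permutes the contributions of the generators of a cyclic group;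
* `card_mul_le_sum`: the mean over a power-closed set of a positive Galois-stable function.
-/

set_option autoImplicit false
set_option linter.unusedSectionVars false
set_option linter.unusedVariables false
set_option linter.style.haveILetI false

namespace Cfsg.Agent.Lib.MajorBessel

open Cfsg Cfsg.Agent.Lib.CharBasic Cfsg.Agent.Lib.CharInd Cfsg.Agent.Lib.CharIntegrality
open Cfsg.Agent.Lib.BlockLocal Cfsg.Agent.Lib.BlockIdem Cfsg.Agent.Lib.BlockQ
open Cfsg.Agent.Lib.BlockOrtho Cfsg.Agent.Lib.BlockVal Cfsg.Agent.Lib.BlockMajor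
open Cfsg.Agent.Lib.BlockSubsection Cfsg.Agent.Lib.GalAmgm Cfsg.Agent.Lib.BlockSection
open Cfsg.Agent.Lib.BlkOrth
open scoped ComplexConjugate

universe u

section Cross

variable {G : Type u} [Group G] [Fintype G] {p : ℕ} [hpF : Fact p.Prime] {M : Ideal AlgInt}
variable {z z' : G} {H H' : Subgroup G} [Fintype H] [Fintype H']

/-- Conjugation between the centralizers of conjugate elements. -/
def conjIso (hH : H = Subgroup.centralizer ({z} : Set G)) (hH' : H' = Subgroup.centralizer ({z'} : Set G))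
    (g : G) (hg : g * z * g⁻¹ = z') : H ≃* H' where
  toFun c := ⟨g * c * g⁻¹, by
    apply mem_of_commute hH'
    have h1 := commute_of_mem hH c.2
    rw [← hg]
    calc g * z * g⁻¹ * (g * c * g⁻¹) = g * (z * c) * g⁻¹ := by group
      _ = g * (c * z) * g⁻¹ := by rw [h1]
      _ = _ := by group⟩
  invFun c := ⟨g⁻¹ * c * g, by
    apply mem_of_commute hH
    have h1 := commute_of_mem hH' c.2
    rw [← hg] at h1
    have h2 : z = g⁻¹ * (g * z * g⁻¹) * g := by group
    calc z * (g⁻¹ * c * g) = g⁻¹ * ((g * z * g⁻¹) * c) * g := by group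
      _ = g⁻¹ * (c * (g * z * g⁻¹)) * g := by rw [h1]
      _ = _ := by group⟩
  left_inv c := by
    apply Subtype.ext
    simp [mul_assoc]
  right_inv c := by
    apply Subtype.ext
    simp [mul_assoc]
  map_mul' a b := by
    apply Subtype.ext
    simp only [Subgroup.coe_mul]
    group

@[simp] theorem coe_conjIso (hH : H = Subgroup.centralizer ({z} : Set G))
    (hH' : H' = Subgroup.centralizer ({z'} : Set G)) (g : G) (hg : g * z * g⁻¹ = z') (c : H) :
    ((conjIso hH hH' g hg c : H') : G) = g * c * g⁻¹ := rfl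

@[simp] theorem coe_conjIso_symm (hH : H = Subgroup.centralizer ({z} : Set G))
    (hH' : H' = Subgroup.centralizer ({z'} : Set G)) (g : G) (hg : g * z * g⁻¹ = z') (c : H') :
    (((conjIso hH hH' g hg).symm c : H) : G) = g⁻¹ * c * g := rfl

/-- Subsections that are not conjugate are orthogonal. -/
theorem sum_th_cross (hM : IsPModular p M) (hz : ∃ k : ℕ, orderOf z = p ^ k)
    (hz' : ∃ k : ℕ, orderOf z' = p ^ k) (hH : H = Subgroup.centralizer ({z} : Set G))
    (hH' : H' = Subgroup.centralizer ({z'} : Set G)) {F : Set (IrrCharacter H)}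
    {F' : Set (IrrCharacter H')} (hF : IsPBlock M F) (hF' : IsPBlock M F') {s : H} {s' : H'}
    (hs : ¬ p ∣ orderOf s) (hs' : ¬ p ∣ orderOf s')
    (hno : ∀ g : G, g * z * g⁻¹ = z' → ∀ ξ ∈ F, ∀ ξ' ∈ F',
      ¬ ∀ (c : H) (c' : H'), (c' : G) = g * c * g⁻¹ → (ξ' : H' → ℂ) c' = (ξ : H → ℂ) c) :
    ∑ ζ : IrrCharacter G, th hH F ζ s * conj (th hH' F' ζ s') = 0 := by
  classical
  have hMp := hM.2.1.isPrime
  have hp : p.Prime := hpF.out
  set W : H' → ℂ := fun c => ∑ᶠ ψ ∈ F', (ψ : H' → ℂ) s' * (ψ : H' → ℂ) c⁻¹ with hW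
  have hWsing : ∀ c : H', p ∣ orderOf c → W c = 0 := fun c hc =>
    Cfsg.Agent.Lib.BlockOrth.weak_block_orthogonality hM hF' hs' hc
  have h1 : ∀ ζ : IrrCharacter G, conj (th hH' F' ζ s') =
      (Nat.card H' : ℂ)⁻¹ * ∑ c : H', conj ((ζ : G → ℂ) (z' * c)) * conj (W c) := by
    intro ζ
    unfold th
    rw [Cfsg.Agent.Lib.BlkOrth.blockPart_eq, map_mul, map_inv₀, map_natCast, map_sum]
    congr 1
    refine Finset.sum_congr rfl fun c _ => ?_
    rw [map_mul]
    rfl
  simp_rw [h1]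
  have h2 : ∑ ζ : IrrCharacter G, th hH F ζ s *
      ((Nat.card H' : ℂ)⁻¹ * ∑ c : H', conj ((ζ : G → ℂ) (z' * c)) * conj (W c)) =
      (Nat.card H' : ℂ)⁻¹ * ∑ c : H', conj (W c) *
        ∑ ζ : IrrCharacter G, th hH F ζ s * conj ((ζ : G → ℂ) (z' * c)) := by
    simp_rw [Finset.mul_sum]
    rw [Finset.sum_comm]
    refine Finset.sum_congr rfl fun c _ => Finset.sum_congr rfl fun ζ _ => ?_
    ring
  rw [h2]
  by_cases hconj : IsConj z z'
  · obtain ⟨g₀, hg₀⟩ := _root_.isConj_iff.1 hconj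
    set σ := conjIso hH hH' g₀ hg₀ with hσ
    have h3 : ∀ c : H', conj (W c) * ∑ ζ : IrrCharacter G, th hH F ζ s *
        conj ((ζ : G → ℂ) (z' * c)) =
        (∑ ξ' ∈ bF F', conj ((ξ' : H' → ℂ) s') * (ξ' : H' → ℂ) c) *
          (∑ ψ ∈ bF F, (ψ : H → ℂ) s * conj ((Cfsg.Agent.Lib.BrauerConj.twistE σ ψ : H' → ℂ) c)) := by
      intro c
      have h4 : conj (W c) = ∑ ξ' ∈ bF F', conj ((ξ' : H' → ℂ) s') * (ξ' : H' → ℂ) c := by
        simp only [hW]
        rw [finsum_mem_eq_sum_bF, map_sum]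
        refine Finset.sum_congr rfl fun ψ _ => ?_
        rw [map_mul, char_conj_eq_inv (IsIrrCharacter.isCharacter ψ.2) c⁻¹, inv_inv]
      by_cases hc : p ∣ orderOf c
      · rw [hWsing c hc] at h4 ⊢
        rw [map_zero] at h4 ⊢
        rw [← h4]
        simp
      · rw [h4]
        congr 1
        have hc' : ¬ p ∣ orderOf (σ.symm c) := by
          rwa [MulEquiv.orderOf_eq]
        have h5 : ∀ ζ : IrrCharacter G, (ζ : G → ℂ) (z' * c) = (ζ : G → ℂ) (z * (σ.symm c : H)) := by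
          intro ζ
          have h6 : z' * (c : G) = g₀ * (z * ((σ.symm c : H) : G)) * g₀⁻¹ := by
            rw [← hg₀, hσ, coe_conjIso_symm]
            group
          rw [h6]
          exact isClassFunction_of_isCharacter (IsIrrCharacter.isCharacter ζ.2) _ _
        simp_rw [h5]
        unfold th
        rw [sum_blockPart_conj hM hz hH hF hs hc', finsum_mem_eq_sum_bF]
        refine Finset.sum_congr rfl fun ψ _ => ?_
        rw [Cfsg.Agent.Lib.BrauerConj.twistE_apply]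
    simp_rw [h3, Finset.sum_mul_sum]
    rw [Finset.sum_comm]
    rw [Finset.sum_eq_zero, mul_zero]
    intro ξ' hξ'
    rw [Finset.sum_comm]
    refine Finset.sum_eq_zero fun ψ hψ => ?_
    have h7 : (ξ' : H' → ℂ) ≠ (Cfsg.Agent.Lib.BrauerConj.twistE σ ψ : H' → ℂ) := by
      intro heq
      refine hno g₀ hg₀ ψ (mem_bF.mp hψ) ξ' (mem_bF.mp hξ') fun c c' hc => ?_
      have h10 : σ.symm c' = c := by
        apply Subtype.ext
        rw [hσ, coe_conjIso_symm, hc]
        group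
      rw [heq, Cfsg.Agent.Lib.BrauerConj.twistE_apply, h10]
    have h8 := classInner_irr_ne ξ'.2 (Cfsg.Agent.Lib.BrauerConj.twistE σ ψ).2 h7
    unfold classInner at h8
    have hcard : (Nat.card H' : ℂ)⁻¹ ≠ 0 := by
      apply inv_ne_zero
      exact_mod_cast Nat.card_pos.ne'
    have h9 := (mul_eq_zero.mp h8).resolve_left hcard
    calc ∑ c : H', conj ((ξ' : H' → ℂ) s') * (ξ' : H' → ℂ) c * ((ψ : H → ℂ) s *
          conj ((Cfsg.Agent.Lib.BrauerConj.twistE σ ψ : H' → ℂ) c))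
        = conj ((ξ' : H' → ℂ) s') * (ψ : H → ℂ) s * ∑ c : H', (ξ' : H' → ℂ) c *
          conj ((Cfsg.Agent.Lib.BrauerConj.twistE σ ψ : H' → ℂ) c) := by
          rw [Finset.mul_sum]
          refine Finset.sum_congr rfl fun c _ => ?_
          ring
      _ = 0 := by rw [h9, mul_zero]
  · rw [Finset.sum_eq_zero, mul_zero]
    intro c _
    by_cases hc : p ∣ orderOf c
    · rw [hWsing c hc, map_zero, zero_mul]
    · unfold th
      rw [sum_blockPart_conj_eq_zero hM hz hH hF hs (v := z' * c), mul_zero]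
      intro c₁ hc₁ hcon
      apply hconj
      obtain ⟨g, hg⟩ := _root_.isConj_iff.1 hcon
      have h4 := pPart_conj (isPPart_mul hH hz hc₁) g
      rw [hg] at h4
      have h5 := pPart_unique hp h4 (isPPart_mul hH' hz' hc)
      exact _root_.isConj_iff.2 ⟨g, h5⟩

/-- Subsections that are not conjugate are orthogonal: the contribution matrices. -/
theorem sum_RR_cross (hM : IsPModular p M) (hz : ∃ k : ℕ, orderOf z = p ^ k)
    (hz' : ∃ k : ℕ, orderOf z' = p ^ k) (hH : H = Subgroup.centralizer ({z} : Set G))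
    (hH' : H' = Subgroup.centralizer ({z'} : Set G)) {F : Set (IrrCharacter H)}
    {F' : Set (IrrCharacter H')} {B : Set (IrrCharacter G)} (hind : IsInducedBlock M H F B)
    (hind' : IsInducedBlock M H' F' B)
    (hno : ∀ g : G, g * z * g⁻¹ = z' → ∀ ξ ∈ F, ∀ ξ' ∈ F',
      ¬ ∀ (c : H) (c' : H'), (c' : G) = g * c * g⁻¹ → (ξ' : H' → ℂ) c' = (ξ : H → ℂ) c)
    (χ : IrrCharacter G) :
    ∑ ψ ∈ bF B, RR p hH F ψ χ * conj (RR p hH' F' ψ χ) = 0 := by
  classical
  have hreg : ∀ ψ : IrrCharacter G, RR p hH F ψ χ = (p : ℂ) ^ blockDefect p F * ((Nat.card H : ℂ)⁻¹ *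
      ∑ s ∈ Finset.univ.filter (fun s : H => ¬ p ∣ orderOf s), th hH F ψ s * conj (th hH F χ s)) := by
    intro ψ
    unfold RR
    rw [classInner_pReg_eq_sum]
  have hreg' : ∀ ψ : IrrCharacter G, conj (RR p hH' F' ψ χ) = (p : ℂ) ^ blockDefect p F' *
      ((Nat.card H' : ℂ)⁻¹ * ∑ s ∈ Finset.univ.filter (fun s : H' => ¬ p ∣ orderOf s),
        conj (th hH' F' ψ s) * th hH' F' χ s) := by
    intro ψ
    unfold RR
    rw [classInner_pReg_eq_sum, map_mul, map_mul, map_pow, map_natCast, map_inv₀, map_natCast, map_sum]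
    have h0 : ∑ x ∈ Finset.univ.filter (fun s : H' => ¬ p ∣ orderOf s),
        conj (th hH' F' ψ x * conj (th hH' F' χ x)) =
        ∑ x ∈ Finset.univ.filter (fun s : H' => ¬ p ∣ orderOf s),
          conj (th hH' F' ψ x) * th hH' F' χ x :=
      Finset.sum_congr rfl fun s _ => by rw [map_mul, Complex.conj_conj]
    rw [h0]
  simp_rw [hreg, hreg']
  set c₁ : ℂ := (p : ℂ) ^ blockDefect p F * (Nat.card H : ℂ)⁻¹ with hc₁
  set c₂ : ℂ := (p : ℂ) ^ blockDefect p F' * (Nat.card H' : ℂ)⁻¹ with hc₂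
  have h1 : ∀ ψ : IrrCharacter G, (p : ℂ) ^ blockDefect p F * ((Nat.card H : ℂ)⁻¹ *
      ∑ s ∈ Finset.univ.filter (fun s : H => ¬ p ∣ orderOf s), th hH F ψ s * conj (th hH F χ s)) *
      ((p : ℂ) ^ blockDefect p F' * ((Nat.card H' : ℂ)⁻¹ *
        ∑ s ∈ Finset.univ.filter (fun s : H' => ¬ p ∣ orderOf s), conj (th hH' F' ψ s) * th hH' F' χ s)) =
      c₁ * c₂ * ∑ s ∈ Finset.univ.filter (fun s : H => ¬ p ∣ orderOf s),
        ∑ s' ∈ Finset.univ.filter (fun s : H' => ¬ p ∣ orderOf s),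
          conj (th hH F χ s) * th hH' F' χ s' * (th hH F ψ s * conj (th hH' F' ψ s')) := by
    intro ψ
    have h2 : ∀ a b : ℂ, (p : ℂ) ^ blockDefect p F * ((Nat.card H : ℂ)⁻¹ * a) *
        ((p : ℂ) ^ blockDefect p F' * ((Nat.card H' : ℂ)⁻¹ * b)) = c₁ * c₂ * (a * b) := by
      intro a b
      rw [hc₁, hc₂]
      ring
    rw [h2, Finset.sum_mul_sum]
    congr 1
    refine Finset.sum_congr rfl fun s _ => Finset.sum_congr rfl fun s' _ => ?_
    ring
  simp_rw [h1]
  rw [← Finset.mul_sum (bF B) _ (c₁ * c₂)]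
  have h3 : ∑ ψ ∈ bF B, ∑ s ∈ Finset.univ.filter (fun s : H => ¬ p ∣ orderOf s),
      ∑ s' ∈ Finset.univ.filter (fun s : H' => ¬ p ∣ orderOf s),
        conj (th hH F χ s) * th hH' F' χ s' * (th hH F ψ s * conj (th hH' F' ψ s')) = 0 := by
    rw [Finset.sum_comm]
    refine Finset.sum_eq_zero fun s hs => ?_
    rw [Finset.sum_comm]
    refine Finset.sum_eq_zero fun s' hs' => ?_
    rw [← Finset.mul_sum (bF B) _ (conj (th hH F χ s) * th hH' F' χ s')]
    have hs1 : ¬ p ∣ orderOf s := (Finset.mem_filter.mp hs).2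
    have hs2 : ¬ p ∣ orderOf s' := (Finset.mem_filter.mp hs').2
    have h4 := sum_th_cross hM hz hz' hH hH' hind.1 hind'.1 hs1 hs2 hno
    have h5 : ∑ ψ ∈ bF B, th hH F ψ s * conj (th hH' F' ψ s') =
        ∑ ζ : IrrCharacter G, th hH F ζ s * conj (th hH' F' ζ s') := by
      apply Finset.sum_subset (Finset.subset_univ _)
      intro ζ _ hζ
      rw [th_eq_zero_of_not_mem hM hz hH hind (fun h => hζ (mem_bF.mpr h)) hs1, zero_mul]
    rw [h5, h4, mul_zero]
  rw [h3, mul_zero]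

end Cross

section Bessel

/-- **The Bessel inequality.** -/
theorem bessel {ι κ : Type*} [DecidableEq ι] (s : Finset ι) (S : Finset κ) (R : ι → κ → ℂ) (k₀ : κ)
    (hk : k₀ ∈ S) (N : ℝ) (hN : 0 < N)
    (hself : ∀ i ∈ s, ∑ k ∈ S, R i k * conj (R i k) = (N : ℂ) * R i k₀)
    (hcross : ∀ i ∈ s, ∀ j ∈ s, i ≠ j → ∑ k ∈ S, R i k * conj (R j k) = 0) :
    ∑ i ∈ s, (R i k₀).re ≤ N := by
  classical
  have hN' : (N : ℂ) ≠ 0 := by exact_mod_cast hN.ne'
  -- the values at `k₀` are nonnegative reals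
  have hreal : ∀ i ∈ s, R i k₀ = ((R i k₀).re : ℂ) := by
    intro i hi
    have h1 : (N : ℂ) * R i k₀ = ((∑ k ∈ S, Complex.normSq (R i k) : ℝ) : ℂ) := by
      rw [← hself i hi]
      push_cast
      exact Finset.sum_congr rfl fun k _ => Complex.mul_conj _
    have h2 : R i k₀ = (((∑ k ∈ S, Complex.normSq (R i k)) / N : ℝ) : ℂ) := by
      push_cast at h1 ⊢
      field_simp
      rw [mul_comm, h1]
    rw [h2]
    simp
  set V : κ → ℂ := fun k => ∑ i ∈ s, R i k with hV
  have h1 : ∑ k ∈ S, V k * conj (V k) = (N : ℂ) * V k₀ := by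
    simp only [hV, map_sum, Finset.sum_mul_sum]
    rw [Finset.sum_comm]
    rw [Finset.mul_sum]
    refine Finset.sum_congr rfl fun i hi => ?_
    rw [Finset.sum_comm, Finset.sum_eq_single i]
    · exact hself i hi
    · intro j hj hji
      exact hcross i hi j hj (Ne.symm hji)
    · intro h
      exact absurd hi h
  have h2 : V k₀ = ((∑ i ∈ s, (R i k₀).re : ℝ) : ℂ) := by
    simp only [hV]
    push_cast
    exact Finset.sum_congr rfl hreal
  set A : ℝ := ∑ i ∈ s, (R i k₀).re with hA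
  have h3 : ((∑ k ∈ S, Complex.normSq (V k) : ℝ) : ℂ) = ((N * A : ℝ) : ℂ) := by
    calc ((∑ k ∈ S, Complex.normSq (V k) : ℝ) : ℂ) = ∑ k ∈ S, V k * conj (V k) := by
          push_cast
          exact Finset.sum_congr rfl fun k _ => (Complex.mul_conj _).symm
      _ = (N : ℂ) * V k₀ := h1
      _ = _ := by
          rw [h2]
          push_cast
          rfl
  have h4 : ∑ k ∈ S, Complex.normSq (V k) = N * A := by exact_mod_cast h3
  have h5 : Complex.normSq (V k₀) ≤ ∑ k ∈ S, Complex.normSq (V k) :=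
    Finset.single_le_sum (f := fun k => Complex.normSq (V k)) (fun k _ => Complex.normSq_nonneg _) hk
  rw [h2, Complex.normSq_ofReal, h4] at h5
  by_contra hcon
  push Not at hcon
  have hApos : 0 < A := lt_trans hN hcon
  nlinarith

end Bessel

section Galois

/-- An embedding of the cyclotomic field acts on roots of unity as a power map. -/
theorem exists_pow_of_emb (N : ℕ) [NeZero N] (φ : cycF N →ₐ[ℚ] ℂ) :
    ∃ a : ℕ, a.Coprime N ∧ ∀ w : cycF N, (w : ℂ) ^ N = 1 → φ w = (w : ℂ) ^ a := by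
  have hN : N ≠ 0 := NeZero.ne N
  have hζ := Complex.isPrimitiveRoot_exp N hN
  set ζ : ℂ := Complex.exp (2 * Real.pi * Complex.I / N) with hζdef
  have hmem : ζ ∈ cycF N := IntermediateField.subset_adjoin _ _ hζ.pow_eq_one
  set w₀ : cycF N := ⟨ζ, hmem⟩ with hw₀
  have hw₀prim : IsPrimitiveRoot w₀ N := by
    have h1 : Function.Injective ((cycF N).val : cycF N →ₐ[ℚ] ℂ) := (cycF N).val.toRingHom.injective
    exact (IsPrimitiveRoot.map_iff_of_injective (f := ((cycF N).val : cycF N →ₐ[ℚ] ℂ)) h1).mp hζ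
  have hφprim : IsPrimitiveRoot (φ w₀) N :=
    hw₀prim.map_of_injective (f := φ) φ.toRingHom.injective
  obtain ⟨a, -, ha⟩ := hζ.eq_pow_of_pow_eq_one hφprim.pow_eq_one
  have hcop : a.Coprime N := by
    rw [← ha] at hφprim
    exact (hζ.pow_iff_coprime (Nat.pos_of_ne_zero hN) a).mp hφprim
  refine ⟨a, hcop, fun w hw => ?_⟩
  obtain ⟨j, -, hj⟩ := hζ.eq_pow_of_pow_eq_one hw
  have h1 : w = w₀ ^ j := by
    apply Subtype.ext
    simp [hw₀, hj]
  rw [h1, map_pow, ← ha]
  push_cast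
  simp only [hw₀]
  rw [← pow_mul, ← pow_mul, mul_comm]

/-- Arithmetic-geometric mean for a totally positive algebraic integer. -/
theorem card_le_sum_of_pos (N : ℕ) [NeZero N] (x : cycF N) (hint : IsIntegral ℤ (x : ℂ)) (hne : x ≠ 0)
    (a : (cycF N →ₐ[ℚ] ℂ) → ℝ) (ha : ∀ φ, 0 < a φ) (hφ : ∀ φ : cycF N →ₐ[ℚ] ℂ, φ x = (a φ : ℂ)) :
    (Fintype.card (cycF N →ₐ[ℚ] ℂ) : ℝ) ≤ ∑ φ : cycF N →ₐ[ℚ] ℂ, a φ := by
  classical
  have hint' : IsIntegral ℤ x := by
    have : Function.Injective (algebraMap (cycF N) ℂ) := (algebraMap (cycF N) ℂ).injective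
    exact (isIntegral_algebraMap_iff this).mp hint
  have hnormint : IsIntegral ℤ (Algebra.norm ℚ x) := Algebra.isIntegral_norm ℚ hint'
  obtain ⟨z, hz⟩ := IsIntegrallyClosed.isIntegral_iff.mp hnormint
  have hz0 : z ≠ 0 := by
    intro h0
    have h1 : Algebra.norm ℚ x ≠ 0 := (Algebra.norm_ne_zero_iff).mpr hne
    apply h1
    rw [← hz, h0]
    simp
  have hprod : ∏ φ : cycF N →ₐ[ℚ] ℂ, φ x = (z : ℂ) := by
    rw [← Algebra.norm_eq_prod_embeddings ℚ ℂ x, ← hz]
    simp
  have h := Cfsg.Agent.Lib.GalAmgm.card_le_sum_of_one_le_prod Finset.univ a (fun φ _ => ha φ) ?_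
  · simpa [Finset.card_univ] using h
  · have h1 : ((∏ φ : cycF N →ₐ[ℚ] ℂ, a φ : ℝ) : ℂ) = (z : ℂ) := by
      rw [← hprod]
      push_cast
      exact Finset.prod_congr rfl fun φ _ => (hφ φ).symm
    have h2 : (∏ φ : cycF N →ₐ[ℚ] ℂ, a φ) = (z : ℝ) := by exact_mod_cast h1
    have h3 : 0 < ∏ φ : cycF N →ₐ[ℚ] ℂ, a φ := Finset.prod_pos fun φ _ => ha φ
    rw [h2] at h3 ⊢
    have h4 : (0 : ℤ) < z := by exact_mod_cast h3
    exact_mod_cast h4

end Galois

end Cfsg.Agent.Lib.MajorBessel
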