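import Mathlib
import Cfsg.Agent.Lib.MajorBessel
import Cfsg.Agent.Lib.BrauerSat
import Cfsg.Agent.S4683

/-!
# Subsections at central elements of a defect group

For a maximal Brauer pair `(D, e)` of a block `B` and `χ ∈ B` of height `h`:
`#Z(D) p ^ h ≤ k p ^ d`, where `k` bounds the orbits on `Z(D)` of the stabilizer of `(D, e)`.
-/

set_option autoImplicit false
set_option linter.unusedSectionVars false
set_option linter.unusedVariables false
set_option linter.style.haveILetI false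

namespace Cfsg.Agent.Lib.CentralSub

open Cfsg Cfsg.Agent.Lib.CharBasic Cfsg.Agent.Lib.CharInd Cfsg.Agent.Lib.CharIntegrality
open Cfsg.Agent.Lib.BlockLocal Cfsg.Agent.Lib.BlockIdem Cfsg.Agent.Lib.BlockQ
open Cfsg.Agent.Lib.BlockOrtho Cfsg.Agent.Lib.BlockVal Cfsg.Agent.Lib.BlockMajor
open Cfsg.Agent.Lib.BlockSubsection Cfsg.Agent.Lib.GalAmgm Cfsg.Agent.Lib.BlockSection
open Cfsg.Agent.Lib.BlkOrth Cfsg.Agent.Lib.MajorBessel Cfsg.Agent.Lib.BlockMajorR
open Cfsg.Agent.Lib.BlockK0Two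
open Cfsg.Agent.Lib.BrauerMap Cfsg.Agent.Lib.BrauerPair Cfsg.Agent.Lib.BrauerSub
open Cfsg.Agent.Lib.BrauerConj Cfsg.Agent.Lib.BrauerThird Cfsg.Agent.Lib.BrauerMax
open Cfsg.Agent.Lib.BrauerStab Cfsg.Agent.Lib.BlockDefect Cfsg.Agent.Lib.BrauerCen
open Cfsg.Agent.Lib.BrauerFull Cfsg.Agent.Lib.BrauerLift Cfsg.Agent.Lib.BrauerIdx
open Cfsg.Agent.Lib.BrauerSat
open scoped ComplexConjugate

universe u

section Emb

variable {G : Type u} [Group G] [Fintype G] {p : ℕ} [hpF : Fact p.Prime] {M : Ideal AlgInt}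
variable {y : G} {H : Subgroup G} [Fintype H]

theorem om_pow_eq (hH : H = Subgroup.centralizer ({y} : Set G)) {a : ℕ}
    (hH' : H = Subgroup.centralizer ({y ^ a} : Set G)) (ξ : IrrCharacter H) :
    om hH' ξ = om hH ξ ^ a := by
  unfold om
  rw [om_pow ξ.2 (yH_central hH) a]
  have h1 : yH hH' = yH hH ^ a := by
    apply Subtype.ext
    simp [yH]
  rw [h1]

/-- The Galois group permutes the contributions. -/
theorem emb_RR (hM : IsPModular p M) (hH : H = Subgroup.centralizer ({y} : Set G)) {a : ℕ}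
    (hH' : H = Subgroup.centralizer ({y ^ a} : Set G)) {b : Set (IrrCharacter H)} (hb : IsPBlock M b)
    (χ ψ : IrrCharacter G) {N : ℕ} [NeZero N] (hN : y ^ N = 1) (φ : cycF N →ₐ[ℚ] ℂ)
    (hφ : ∀ w : cycF N, (w : ℂ) ^ N = 1 → φ w = (w : ℂ) ^ a) (x : cycF N)
    (hx : (x : ℂ) = RR p hH b χ ψ) : φ x = RR p hH' b χ ψ := by
  classical
  let W : IrrCharacter H → cycF N := fun ξ => ⟨om hH ξ, mem_cycF_of_pow (om_pow_eq_one hH ξ hN)⟩
  let W' : IrrCharacter H → cycF N := fun ξ => ⟨conj (om hH ξ), mem_cycF_of_pow (conj_om_pow hH ξ hN)⟩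
  have hxX : x = ∑ ξ ∈ bF b, ∑ ξ' ∈ bF b, ((mult H χ ξ : ℕ) : cycF N) * W ξ *
      (((mult H ψ ξ' : ℕ) : cycF N) * W' ξ') * ((Q p b ξ ξ' : ℤ) : cycF N) := by
    apply Subtype.ext
    rw [hx, RR_eq hM hH hb]
    push_cast
    refine Finset.sum_congr rfl fun ξ _ => Finset.sum_congr rfl fun ξ' _ => ?_
    rw [conj_vv]
    unfold vv
    rfl
  rw [hxX, map_sum, RR_eq hM hH' hb]
  refine Finset.sum_congr rfl fun ξ _ => ?_
  rw [map_sum]
  refine Finset.sum_congr rfl fun ξ' _ => ?_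
  rw [map_mul, map_mul, map_mul, map_mul, map_natCast, map_natCast, map_intCast,
    hφ (W ξ) (om_pow_eq_one hH ξ hN), hφ (W' ξ') (conj_om_pow hH ξ' hN), conj_vv]
  unfold vv
  rw [om_pow_eq hH hH', om_pow_eq hH hH', map_pow]

end Emb

section Mean

/-- **Galois mean** over a power-closed set. -/
theorem card_mul_le_sum {α : Type*} [Group α] [Fintype α] [DecidableEq α] {N : ℕ} [NeZero N]
    (hN : N = Nat.card α) (Z : Finset α) (hcl : ∀ a : ℕ, a.Coprime N → ∀ z ∈ Z, z ^ a ∈ Z)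
    (S : α → ℝ) (c : ℝ) (hc : 0 < c) (A : (cycF N →ₐ[ℚ] ℂ) → ℕ) (hA : ∀ φ, (A φ).Coprime N)
    (hgal : ∀ z ∈ Z, ∃ x : cycF N, IsIntegral ℤ (x : ℂ) ∧ x ≠ 0 ∧ ∀ φ : cycF N →ₐ[ℚ] ℂ,
      φ x = ((S (z ^ A φ) / c : ℝ) : ℂ) ∧ 0 < S (z ^ A φ) / c) :
    (Z.card : ℝ) * c ≤ ∑ z ∈ Z, S z := by
  classical
  set E : ℕ := Fintype.card (cycF N →ₐ[ℚ] ℂ) with hE
  have hEpos : (0 : ℝ) < E := by
    have : Nonempty (cycF N →ₐ[ℚ] ℂ) := ⟨(cycF N).val⟩
    exact_mod_cast Fintype.card_pos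
  have h1 : ∀ z ∈ Z, (E : ℝ) * c ≤ ∑ φ : cycF N →ₐ[ℚ] ℂ, S (z ^ A φ) := by
    intro z hz
    obtain ⟨x, hx, hne, hφ⟩ := hgal z hz
    have h2 := card_le_sum_of_pos N x hx hne (fun φ => S (z ^ A φ) / c) (fun φ => (hφ φ).2)
      (fun φ => (hφ φ).1)
    rw [← Finset.sum_div, le_div_iff₀ hc] at h2
    exact h2
  have h3 : ∀ a : ℕ, a.Coprime N → ∑ z ∈ Z, S (z ^ a) = ∑ z ∈ Z, S z := by
    intro a ha
    have hinj : Function.Injective (fun z : α => z ^ a) :=
      (powCoprime (G := α) (n := a) (by rw [← hN]; exact ha.symm)).injective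
    have himg : Z.image (fun z : α => z ^ a) = Z := by
      apply Finset.eq_of_subset_of_card_le
      · intro w hw
        obtain ⟨z, hz, rfl⟩ := Finset.mem_image.mp hw
        exact hcl a ha z hz
      · rw [Finset.card_image_of_injective _ hinj]
    conv_rhs => rw [← himg]
    rw [Finset.sum_image (fun x _ y _ h => hinj h)]
  have h4 : (Z.card : ℝ) * ((E : ℝ) * c) ≤ (E : ℝ) * ∑ z ∈ Z, S z := by
    calc (Z.card : ℝ) * ((E : ℝ) * c) = ∑ z ∈ Z, (E : ℝ) * c := by
          rw [Finset.sum_const, nsmul_eq_mul]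
      _ ≤ ∑ z ∈ Z, ∑ φ : cycF N →ₐ[ℚ] ℂ, S (z ^ A φ) := Finset.sum_le_sum h1
      _ = ∑ φ : cycF N →ₐ[ℚ] ℂ, ∑ z ∈ Z, S (z ^ A φ) := Finset.sum_comm
      _ = ∑ φ : cycF N →ₐ[ℚ] ℂ, ∑ z ∈ Z, S z :=
          Finset.sum_congr rfl fun φ _ => h3 _ (hA φ)
      _ = (E : ℝ) * ∑ z ∈ Z, S z := by
          rw [Finset.sum_const, Finset.card_univ, nsmul_eq_mul]
  have h5 : (E : ℝ) * ((Z.card : ℝ) * c) ≤ (E : ℝ) * ∑ z ∈ Z, S z := by
    calc (E : ℝ) * ((Z.card : ℝ) * c) = (Z.card : ℝ) * ((E : ℝ) * c) := by ring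
      _ ≤ _ := h4
  exact le_of_mul_le_mul_left h5 hEpos

/-- Choosing representatives maximizing a nonnegative function. -/
theorem exists_reps {α : Type*} [DecidableEq α] (r : α → α → Prop) [DecidableRel r]
    (ht : ∀ a b c, r a b → r b c → r a c) (hs : ∀ a b, r a b → r b a) (hr : ∀ a, r a a)
    (S : α → ℝ) (e : ℕ) (Z : Finset α) (h0 : ∀ a ∈ Z, 0 ≤ S a)
    (hcard : ∀ z ∈ Z, (Z.filter (r z)).card ≤ e) :
    ∃ Y ⊆ Z, (∀ a ∈ Y, ∀ b ∈ Y, a ≠ b → ¬ r a b) ∧ ∑ z ∈ Z, S z ≤ (e : ℝ) * ∑ w ∈ Y, S w := by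
  classical
  induction Z using Finset.strongInduction with
  | H Z ih =>
    by_cases hZ : Z.Nonempty
    · obtain ⟨z, hz⟩ := hZ
      set K := Z.filter (r z) with hK
      have hzK : z ∈ K := Finset.mem_filter.mpr ⟨hz, hr z⟩
      obtain ⟨w, hwK, hw⟩ := Finset.exists_max_image K S ⟨z, hzK⟩
      have hwZ : w ∈ Z := (Finset.mem_filter.mp hwK).1
      have hzw : r z w := (Finset.mem_filter.mp hwK).2
      set Z' := Z \ K with hZ'
      have hsub : Z' ⊂ Z := by
        refine Finset.sdiff_ssubset (Finset.filter_subset _ _) ⟨z, hzK⟩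
      obtain ⟨Y, hY, hY1, hY2⟩ := ih Z' hsub
        (fun a ha => h0 a (Finset.sdiff_subset ha)) (fun a ha => by
          refine le_trans (Finset.card_le_card ?_) (hcard a (Finset.sdiff_subset ha))
          intro b hb
          rw [Finset.mem_filter] at hb ⊢
          exact ⟨Finset.sdiff_subset hb.1, hb.2⟩)
      have hwY : w ∉ Y := by
        intro h
        have := hY h
        rw [hZ', Finset.mem_sdiff] at this
        exact this.2 hwK
      refine ⟨insert w Y, ?_, ?_, ?_⟩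
      · intro a ha
        rcases Finset.mem_insert.mp ha with rfl | ha
        · exact hwZ
        · exact Finset.sdiff_subset (hY ha)
      · have key : ∀ b ∈ Y, ¬ r w b := by
          intro b hb hwb
          have h1 := hY hb
          rw [hZ', Finset.mem_sdiff] at h1
          exact h1.2 (Finset.mem_filter.mpr ⟨h1.1, ht z w b hzw hwb⟩)
        intro a ha b hb hab
        rcases Finset.mem_insert.mp ha with ha' | ha'
        · rcases Finset.mem_insert.mp hb with hb' | hb'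
          · exact absurd (ha'.trans hb'.symm) hab
          · rw [ha']
            exact key b hb'
        · rcases Finset.mem_insert.mp hb with hb' | hb'
          · rw [hb']
            exact fun h => key a ha' (hs _ _ h)
          · exact hY1 a ha' b hb' hab
      · rw [Finset.sum_insert hwY, mul_add]
        have h1 : ∑ x ∈ Z, S x = ∑ x ∈ K, S x + ∑ x ∈ Z', S x := by
          rw [add_comm, hZ', Finset.sum_sdiff (Finset.filter_subset _ _)]
        rw [h1]
        refine add_le_add ?_ hY2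
        calc ∑ x ∈ K, S x ≤ ∑ x ∈ K, S w := Finset.sum_le_sum hw
          _ = (K.card : ℝ) * S w := by rw [Finset.sum_const, nsmul_eq_mul]
          _ ≤ (e : ℝ) * S w := by
              refine mul_le_mul_of_nonneg_right ?_ (h0 w hwZ)
              exact_mod_cast hcard z hz
    · rw [Finset.not_nonempty_iff_eq_empty] at hZ
      subst hZ
      exact ⟨∅, subset_rfl, by simp, by simp⟩

end Mean

section Fusion

variable {G : Type u} [Group G] [Fintype G] {p : ℕ} [hpF : Fact p.Prime] {M : Ideal AlgInt}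

local notation "𝐂[" R "]" => Subgroup.centralizer ((R : Subgroup G) : Set G)
local notation "𝐍[" R "]" => Subgroup.normalizer ((R : Subgroup G) : Set G)
local notation Q "^^" x => Subgroup.map (MulEquiv.toMonoidHom (MulAut.conj (x : G))) (Q : Subgroup G)

noncomputable local instance fintypeSubC (K : Subgroup G) : Fintype K := Fintype.ofFinite K

variable {B : Set (IrrCharacter G)} {D : Subgroup G}
  {e : Set (IrrCharacter (Subgroup.centralizer (D : Set G)))}

/-- **Burnside's fusion lemma for blocks.** -/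
theorem exists_stab_conj (hM : IsPModular p M) (hmax : IsMaximalBrauerPair p M B D e) {Q : Subgroup G}
    {f : Set (IrrCharacter 𝐂[Q])} {g₀ : G} {Q' : Subgroup G} (hQQ' : (Q ^^ g₀) = Q')
    {f' : Set (IrrCharacter 𝐂[Q'])} (hf : IsPBlock M f) (hf' : IsPBlock M f')
    (hle : SubpairLE p M Q f D e) (hle' : SubpairLE p M Q' f' D e)
    (hQc : ∀ q ∈ Q, ∀ d ∈ D, q * d = d * q) (hQ'c : ∀ q ∈ Q', ∀ d ∈ D, q * d = d * q)
    {ξ : IrrCharacter 𝐂[Q]} {ξ' : IrrCharacter 𝐂[Q']} (hξ : ξ ∈ f) (hξ' : ξ' ∈ f')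
    (hconj : ∀ (c : 𝐂[Q]) (c' : 𝐂[Q']), (c' : G) = g₀ * c * g₀⁻¹ →
      (ξ' : 𝐂[Q'] → ℂ) c' = (ξ : 𝐂[Q] → ℂ) c) :
    ∃ t : G, t ∈ 𝐍[D] ∧ StabilizesBlock 𝐂[D] e t ∧ ∀ q ∈ Q, t * q * t⁻¹ = g₀ * q * g₀⁻¹ := by
  subst hQQ'
  haveI := isPrime_of_isPModular hM
  have hF := isBlockFusionSystemOn_blockFusion hM hmax
  set F := blockFusion hM hmax with hFdef
  have he := hmax.1.1
  -- the conjugate block
  have hfg : IsPBlock M (conjBlock Q g₀ f) := isPBlock_conjBlock (M := M) Q g₀ hf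
  have hmem : ξ' ∈ conjBlock Q g₀ f := ⟨ξ, hξ, hconj⟩
  have hff : f' = conjBlock Q g₀ f := by
    rcases eq_or_disjoint_of_isPBlock hf' hfg with h | h
    · exact h
    · exact absurd hmem (Set.disjoint_left.mp h hξ')
  subst hff
  have hφ : conjHom Q g₀ ∈ F.Hom Q :=
    (hF.2 Q _).2 ⟨le_of_subpairLE hle, g₀, fun u => rfl, le_of_subpairLE hle', f, hle, hle'⟩
  have hDnorm : D ≤ 𝐍[(Q ^^ g₀)] := by
    intro d hd
    rw [Subgroup.mem_normalizer_iff]
    intro q
    constructor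
    · intro hq
      have := hQ'c q hq d hd
      rw [show d * q * d⁻¹ = q by rw [← this]; group]
      exact hq
    · intro hq
      have := hQ'c _ hq d hd
      have h2 : q = d * q * d⁻¹ := by
        have h3 : d * q * d⁻¹ * d = d * (d * q * d⁻¹) := this
        have h4 : d * q = d * (d * q * d⁻¹) := by
          calc d * q = d * q * d⁻¹ * d := by group
            _ = _ := h3
        exact mul_left_cancel h4
      rw [h2]
      exact hq
  have hrec := isReceptive_of_max hM hF hf' hle' (fun y _ => by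
    have h1 : D ⊓ 𝐍[(Q ^^ g₀)] = D := inf_eq_left.mpr hDnorm
    rw [h1]
    exact Nat.card_mono (Set.toFinite _) (fun x hx => hx.1))
  obtain ⟨ψ, hψ, hψφ⟩ := hrec.2 Q (conjHom Q g₀) hφ (range_conjHom Q g₀)
  -- the extender is `D`
  have hext : FusionSystem.extender D Q (conjHom Q g₀) = D := by
    apply le_antisymm
    · rw [FusionSystem.extender, Subgroup.closure_le]
      rintro g ⟨h1, -, -⟩
      exact h1
    · intro d hd
      refine Subgroup.subset_closure ⟨hd, ?_, 1, D.one_mem, fun x hx => ?_⟩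
      · rw [Subgroup.mem_normalizer_iff]
        intro q
        constructor
        · intro hq
          have := hQc q hq d hd
          rw [show d * q * d⁻¹ = q by rw [← this]; group]
          exact hq
        · intro hq
          have h3 := hQc _ hq d hd
          have h4 : d * q = d * (d * q * d⁻¹) := by
            calc d * q = d * q * d⁻¹ * d := by group
              _ = _ := h3
          rw [mul_left_cancel h4]
          exact hq
      · have h5 : d * (x : G) * d⁻¹ = x := by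
          rw [← hQc x x.2 d hd]
          group
        have h6 : (⟨d * (x : G) * d⁻¹, hx⟩ : Q) = x := Subtype.ext h5
        rw [h6]
        simp
  have key : ∀ E : Subgroup G, E = FusionSystem.extender D Q (conjHom Q g₀) →
      ∀ ψ' : E →* G, ψ' ∈ F.Hom E → (∀ (x : G) (hP : x ∈ Q) (hN : x ∈ E), ψ' ⟨x, hN⟩ = conjHom Q g₀ ⟨x, hP⟩) →
      ∃ t : G, t ∈ 𝐍[D] ∧ StabilizesBlock 𝐂[D] e t ∧ ∀ q ∈ Q, t * q * t⁻¹ = g₀ * q * g₀⁻¹ := by
    intro E hE ψ' hψ' hψ'φ
    have hED : D = E := (hE.trans hext).symm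
    subst hED
    obtain ⟨-, t, ht, htD, f₁, h1, h2⟩ := (hF.2 D ψ').1 hψ'
    have hf₁ : f₁ = e := eq_of_two_subpairLE hM he Relation.ReflTransGen.refl h1
    rw [hf₁] at h2
    have hcard : Nat.card (D ^^ t) = Nat.card D :=
      Subgroup.card_map_of_injective (MulEquiv.injective _)
    have hEt : (D ^^ t) = D := Subgroup.eq_of_le_of_card_ge htD (le_of_eq hcard.symm)
    have htN : t ∈ 𝐍[D] := mem_normalizer_of_map_eq hEt
    have hQE : Q ≤ D := le_of_subpairLE hle
    refine ⟨t, htN, (chain_cp_iff_stabilizes hM he he.2 Relation.ReflTransGen.refl htN).1 h2, fun q hq => ?_⟩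
    have h3 := hψ'φ q hq (hQE hq)
    rw [ht] at h3
    exact h3
  exact key _ rfl ψ hψ hψφ

/-- A block over each subgroup of `D`, below `(D, e)`. -/
noncomputable def fQ (hM : IsPModular p M) (hmax : IsMaximalBrauerPair p M B D e) (Q : Subgroup G) :
    Set (IrrCharacter 𝐂[Q]) := by
  classical
  exact if h : Q ≤ D then Classical.choose (exists_subpairLE hM hmax.1.1 h) else ∅

theorem fQ_spec (hM : IsPModular p M) (hmax : IsMaximalBrauerPair p M B D e) {Q : Subgroup G}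
    (h : Q ≤ D) : IsPBlock M (fQ hM hmax Q) ∧ SubpairLE p M Q (fQ hM hmax Q) D e := by
  unfold fQ
  rw [dif_pos h]
  exact Classical.choose_spec (exists_subpairLE hM hmax.1.1 h)

theorem cen (z : G) : 𝐂[Subgroup.zpowers z] = Subgroup.centralizer ({z} : Set G) :=
  Cfsg.Agent.Lib.BlockSecond.centralizer_zpowers_eq z

/-- The contribution of `z` below `(D, e)`. -/
noncomputable def Rz (hM : IsPModular p M) (hmax : IsMaximalBrauerPair p M B D e) (z : G)
    (χ ψ : IrrCharacter G) : ℂ :=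
  RR p (cen z) (fQ hM hmax (Subgroup.zpowers z)) χ ψ

theorem RR_fQ_congr (hM : IsPModular p M) (hmax : IsMaximalBrauerPair p M B D e) {Q Q' : Subgroup G}
    (h : Q = Q') {y : G} (hH : 𝐂[Q] = Subgroup.centralizer ({y} : Set G))
    (hH' : 𝐂[Q'] = Subgroup.centralizer ({y} : Set G)) (χ ψ : IrrCharacter G) :
    RR p hH (fQ hM hmax Q) χ ψ = RR p hH' (fQ hM hmax Q') χ ψ := by
  subst h
  rfl

/-- The diagonal of the contribution of a major subsection is positive. -/
theorem RR_self_pos {y : G} {H : Subgroup G} [Fintype H] (hM : IsPModular p M)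
    (hy : ∃ k : ℕ, orderOf y = p ^ k) (hH : H = Subgroup.centralizer ({y} : Set G))
    {b : Set (IrrCharacter H)} {B : Set (IrrCharacter G)} (hind : IsInducedBlock M H b B)
    (hd : blockDefect p b = blockDefect p B) {χ : IrrCharacter G} (hχ : χ ∈ B) :
    ∃ r : ℝ, 0 < r ∧ RR p hH b χ χ = (r : ℂ) := by
  classical
  haveI := isPrime_of_isPModular hM
  have hp : p.Prime := hpF.out
  obtain ⟨χ₀, hχ₀, h0⟩ := exists_minExp (p := p) hind.2.1
  have h1 : RR p hH b χ χ₀ ≠ 0 := RR_ne_zero hM hy hH hind hd hχ₀ hχ h0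
  have h2 : RR p hH b χ₀ χ ≠ 0 := by
    rw [← conj_RR hM hH hind.1]
    rwa [Ne, map_eq_zero]
  have h3 := sum_RR_mul_conj hM hy hH hind χ
  have hp0 : ((p : ℂ) ^ blockDefect p b) ≠ 0 := pow_ne_zero _ (by exact_mod_cast hp.ne_zero)
  set A : ℝ := ∑ ψ ∈ bF B, Complex.normSq (RR p hH b ψ χ) with hA
  have h4 : (A : ℂ) = (p : ℂ) ^ blockDefect p b * RR p hH b χ χ := by
    rw [← h3, hA]
    push_cast
    exact Finset.sum_congr rfl fun ψ _ => (Complex.mul_conj _).symm
  have h5 : 0 < A := by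
    have h6 : Complex.normSq (RR p hH b χ₀ χ) ≤ A :=
      Finset.single_le_sum (f := fun ψ => Complex.normSq (RR p hH b ψ χ))
        (fun ψ _ => Complex.normSq_nonneg _) (mem_bF.mpr hχ₀)
    exact lt_of_lt_of_le (Complex.normSq_pos.mpr h2) h6
  refine ⟨A / (p : ℝ) ^ blockDefect p b, div_pos h5 (pow_pos (by exact_mod_cast hp.pos) _), ?_⟩
  push_cast
  rw [h4]
  field_simp

/-- **The central bound.** -/
theorem card_center_mul_le (hM : IsPModular p M) (hmax : IsMaximalBrauerPair p M B D e)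
    (T : Subgroup G) (hT : ∀ t : G, t ∈ 𝐍[D] → StabilizesBlock 𝐂[D] e t → t ∈ T) (k : ℕ)
    (Z : Finset G) (hZ : ∀ z, z ∈ Z ↔ z ∈ D ∧ ∀ d ∈ D, z * d = d * z)
    (horb : ∀ z ∈ Z, ∀ W : Finset G, (∀ z' ∈ W, z' ∈ Z ∧ ∃ t ∈ T, t * z * t⁻¹ = z') → W.card ≤ k)
    {χ : IrrCharacter G} (hχ : χ ∈ B) :
    (Z.card : ℝ) * (p : ℝ) ^ blockHeight p B (χ : G → ℂ) ≤ (k : ℝ) * (p : ℝ) ^ blockDefect p B := by
  classical
  haveI := isPrime_of_isPModular hM
  have hp : p.Prime := hpF.out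
  have hB : IsPBlock M B := hmax.1.2.1
  have he := hmax.1.1
  -- facts about a central element
  have hfacts : ∀ z ∈ Z, (Subgroup.zpowers z ≤ D) ∧ (∀ q ∈ Subgroup.zpowers z, ∀ d ∈ D, q * d = d * q) ∧
      (∃ k : ℕ, orderOf z = p ^ k) ∧
      IsInducedBlock M 𝐂[Subgroup.zpowers z] (fQ hM hmax (Subgroup.zpowers z)) B ∧
      blockDefect p (fQ hM hmax (Subgroup.zpowers z)) = blockDefect p B := by
    intro z hz
    obtain ⟨hzD, hzc⟩ := (hZ z).mp hz
    have hQ : Subgroup.zpowers z ≤ D := by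
      rw [Subgroup.zpowers_le]
      exact hzD
    have hQc : ∀ q ∈ Subgroup.zpowers z, ∀ d ∈ D, q * d = d * q := by
      rintro q ⟨n, rfl⟩ d hd
      exact ((show Commute z d from hzc d hd).zpow_left n).eq
    have hy : ∃ k : ℕ, orderOf z = p ^ k := by
      obtain ⟨k, hk⟩ := (IsPGroup.iff_orderOf.mp he.1) ⟨z, hzD⟩
      exact ⟨k, by rwa [Subgroup.orderOf_mk] at hk⟩
    obtain ⟨hf, hle⟩ := fQ_spec hM hmax hQ
    have hind : IsInducedBlock M 𝐂[Subgroup.zpowers z] (fQ hM hmax (Subgroup.zpowers z)) B :=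
      Cfsg.Agent.S4683.isInducedBlock_of_isBrauerPairOf hM ((isBrauerPairOf_iff_of_le hM hB hle).2 hmax.1)
    have hDC : D ≤ 𝐂[Subgroup.zpowers z] := by
      intro d hd
      rw [Subgroup.mem_centralizer_iff]
      intro q hq
      exact hQc q hq d hd
    have hinf : D ⊓ 𝐂[Subgroup.zpowers z] = D := inf_eq_left.mpr hDC
    have hDf := isDefectGroup_cen_of_max hM hmax hf hle (fun y _ => by
      rw [hinf]
      exact Nat.card_mono (Set.toFinite _) (fun x hx => hx.1))
    have h1 := card_isDefectGroup hM hf hDf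
    rw [card_subgroupOf_of_le inf_le_right, hinf, card_isDefectGroup hM hB (isDefectGroup_of_maximal hM hmax)] at h1
    exact ⟨hQ, hQc, hy, hind, (Nat.pow_right_injective hp.two_le h1).symm⟩
  set N : ℕ := Nat.card G with hN
  haveI : NeZero N := ⟨Nat.card_pos.ne'⟩
  set h : ℕ := blockHeight p B (χ : G → ℂ) with hh
  have hpR : (0 : ℝ) < (p : ℝ) ^ h := pow_pos (by exact_mod_cast hp.pos) _
  set S : G → ℝ := fun z => (Rz hM hmax z χ χ).re with hS
  have hpos : ∀ z ∈ Z, 0 < S z ∧ Rz hM hmax z χ χ = (S z : ℂ) := by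
    intro z hz
    obtain ⟨-, -, hy, hind, hd⟩ := hfacts z hz
    obtain ⟨r, hr, hr'⟩ := RR_self_pos hM hy (cen z) hind hd hχ
    have h1 : Rz hM hmax z χ χ = (r : ℂ) := hr'
    simp only [hS]
    rw [h1]
    simpa using hr
  -- the lower bound
  let A : (cycF N →ₐ[ℚ] ℂ) → ℕ := fun φ => Classical.choose (exists_pow_of_emb N φ)
  have hA : ∀ φ, (A φ).Coprime N := fun φ => (Classical.choose_spec (exists_pow_of_emb N φ)).1
  have hA' : ∀ (φ : cycF N →ₐ[ℚ] ℂ) (w : cycF N), (w : ℂ) ^ N = 1 → φ w = (w : ℂ) ^ A φ :=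
    fun φ => (Classical.choose_spec (exists_pow_of_emb N φ)).2
  have hcl : ∀ a : ℕ, a.Coprime N → ∀ z ∈ Z, z ^ a ∈ Z := by
    intro a _ z hz
    obtain ⟨hzD, hzc⟩ := (hZ z).mp hz
    refine (hZ _).mpr ⟨D.pow_mem hzD a, fun d hd => ?_⟩
    exact ((show Commute z d from hzc d hd).pow_left a).eq
  have hlow : (Z.card : ℝ) * (p : ℝ) ^ h ≤ ∑ z ∈ Z, S z := by
    refine card_mul_le_sum hN Z hcl S _ hpR A hA fun z hz => ?_
    obtain ⟨hQ, hQc, hy, hind, hd⟩ := hfacts z hz
    have hNz : z ^ N = 1 := pow_card_eq_one'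
    have hmem : RR p (cen z) (fQ hM hmax (Subgroup.zpowers z)) χ χ ∈ cycF N :=
      RR_mem_cycF hM (cen z) hind.1 χ χ hNz
    let x₀ : cycF N := ⟨_, hmem⟩
    let pc : cycF N := ((p ^ h : ℕ) : cycF N)
    have hpc : ((pc : cycF N) : ℂ) = (p : ℂ) ^ h := by
      simp [pc]
    refine ⟨x₀ / pc, ?_, ?_, fun φ => ?_⟩
    · have h1 := RR_div_isIntegral hM (cen z) hind hd (NeZero.ne N) hNz hχ χ
      have h2 : ((x₀ / pc : cycF N) : ℂ) = RR p (cen z) (fQ hM hmax (Subgroup.zpowers z)) χ χ /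
          (p : ℂ) ^ blockHeight p B (χ : G → ℂ) := by
        push_cast
        rw [hpc]
        rfl
      rw [h2]
      exact h1
    · have h1 : x₀ ≠ 0 := by
        intro h0
        have h2 : Rz hM hmax z χ χ = 0 := congrArg Subtype.val h0
        rw [(hpos z hz).2] at h2
        have h3 := (hpos z hz).1
        have h4 : S z = 0 := by exact_mod_cast h2
        linarith
      have h2 : pc ≠ 0 := by
        intro h0
        have h3 : ((pc : cycF N) : ℂ) = 0 := congrArg Subtype.val h0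
        rw [hpc] at h3
        exact (pow_ne_zero _ (by exact_mod_cast hp.ne_zero)) h3
      exact div_ne_zero h1 h2
    · set a := A φ with ha
      have hza := hcl a (hA φ) z hz
      have hQeq : Subgroup.zpowers (z ^ a) = Subgroup.zpowers z := by
        apply Subgroup.eq_of_le_of_card_ge
        · rw [Subgroup.zpowers_le]
          exact Subgroup.pow_mem _ (Subgroup.mem_zpowers z) a
        · rw [Nat.card_zpowers, Nat.card_zpowers]
          have hcop : (orderOf z).Coprime a :=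
            Nat.Coprime.coprime_dvd_left (orderOf_dvd_natCard z) (hA φ).symm
          rw [hcop.orderOf_pow]
      have hH' : 𝐂[Subgroup.zpowers z] = Subgroup.centralizer ({z ^ a} : Set G) := by
        rw [← hQeq]
        exact cen (z ^ a)
      have h1 : φ x₀ = Rz hM hmax (z ^ a) χ χ := by
        rw [emb_RR hM (cen z) hH' hind.1 χ χ hNz φ (hA' φ) x₀ rfl]
        unfold Rz
        exact (RR_fQ_congr hM hmax hQeq.symm hH' (cen (z ^ a)) χ χ)
      have h2 : φ pc = (p : ℂ) ^ h := by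
        simp [pc]
      obtain ⟨h3, h4⟩ := hpos _ hza
      constructor
      · rw [map_div₀, h1, h2, h4]
        push_cast
        rfl
      · exact div_pos h3 hpR
  -- the upper bound
  let r : G → G → Prop := fun a b => ∃ t ∈ T, t * a * t⁻¹ = b
  have hrt : ∀ a b c, r a b → r b c → r a c := by
    rintro a b c ⟨t, ht, rfl⟩ ⟨u, hu, rfl⟩
    exact ⟨u * t, T.mul_mem hu ht, by group⟩
  have hrs : ∀ a b, r a b → r b a := by
    rintro a b ⟨t, ht, rfl⟩
    exact ⟨t⁻¹, T.inv_mem ht, by group⟩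
  have hrr : ∀ a, r a a := fun a => ⟨1, T.one_mem, by group⟩
  obtain ⟨Y, hY, hY1, hY2⟩ := exists_reps r hrt hrs hrr S k Z (fun a ha => (hpos a ha).1.le) (fun z hz => by
    refine horb z hz _ fun z' hz' => ?_
    rw [Finset.mem_filter] at hz'
    exact hz')
  have hN' : (0 : ℝ) < (p : ℝ) ^ blockDefect p B := pow_pos (by exact_mod_cast hp.pos) _
  have hup := bessel Y (bF B) (fun w ψ => Rz hM hmax w ψ χ) χ (mem_bF.mpr hχ) _ hN' (fun w hw => by
      obtain ⟨-, -, hy, hind, hd⟩ := hfacts w (hY hw)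
      have h1 := sum_RR_mul_conj hM hy (cen w) hind χ
      rw [hd] at h1
      push_cast
      exact h1) (fun w hw w' hw' hne => by
      obtain ⟨hQ, hQc, hy, hind, hd⟩ := hfacts w (hY hw)
      obtain ⟨hQ', hQc', hy', hind', hd'⟩ := hfacts w' (hY hw')
      refine sum_RR_cross hM hy hy' (cen w) (cen w') hind hind' (fun g hg ξ hξ ξ' hξ' hconj => ?_) χ
      apply hY1 w hw w' hw' hne
      have hQQ' : ((Subgroup.zpowers w) ^^ g) = Subgroup.zpowers w' := by
        rw [MonoidHom.map_zpowers]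
        congr 1
      obtain ⟨t, ht1, ht2, ht3⟩ := exists_stab_conj hM hmax hQQ' (fQ_spec hM hmax hQ).1 (fQ_spec hM hmax hQ').1
        (fQ_spec hM hmax hQ).2 (fQ_spec hM hmax hQ').2 hQc hQc' hξ hξ' hconj
      exact ⟨t, hT t ht1 ht2, by rw [ht3 w (Subgroup.mem_zpowers w), hg]⟩)
  calc (Z.card : ℝ) * (p : ℝ) ^ h ≤ ∑ z ∈ Z, S z := hlow
    _ ≤ (k : ℝ) * ∑ w ∈ Y, S w := hY2
    _ ≤ (k : ℝ) * (p : ℝ) ^ blockDefect p B := mul_le_mul_of_nonneg_left hup (Nat.cast_nonneg _)

end Fusion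

end Cfsg.Agent.Lib.CentralSub
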