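import Mathlib
import Cfsg.Prelude.Def_Characters
import Cfsg.Agent.Lib.CharWeight
import Cfsg.Agent.Lib.Clifford
import Cfsg.Agent.Lib.IndFunBasic

/-!
# Induction from a stabiliser when an abelian-by-kernel normal subgroup is not central

If `ρ` is an irreducible representation of `G`, and `A` is a normal subgroup whose image under `ρ`
is commutative and some element of `A` does not act by a scalar, then the character of `ρ` is
induced from an irreducible character of a proper subgroup.
-/

set_option autoImplicit false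
set_option linter.style.haveILetI false
set_option linter.unusedSectionVars false

namespace Cfsg.Agent.Lib.CharMono

open Cfsg
open Cfsg.Agent.Lib
open Cfsg.Agent.Lib.CharBasic
open Cfsg.Agent.Lib.CharWeight
open Module

universe u v

variable {G : Type u} [Group G] {V : Type v} [AddCommGroup V] [Module ℂ V]
  (ρ : Representation ℂ G V) {A : Subgroup G}

/-- A weight exists as soon as the image of `A` is commutative. -/
theorem exists_weight' [FiniteDimensional ℂ V] [Nontrivial V]
    (hcomm : ∀ a ∈ A, ∀ b ∈ A, ρ a * ρ b = ρ b * ρ a) :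
    ∃ ν : A →* ℂ, weightSpace ρ A ν ≠ ⊥ := by
  obtain ⟨v, hv0, hv⟩ := CharInduction.exists_common_eigenvector (fun a : A => ρ (a : G)) (by
    intro i j
    exact hcomm _ i.2 _ j.2)
  choose c hc using hv
  have hinj : ∀ {x y : ℂ}, x • v = y • v → x = y := fun {x y} h => smul_left_injective ℂ hv0 h
  let ν : A →* ℂ :=
    { toFun := c
      map_one' := by
        apply hinj
        rw [← hc 1]
        simp
      map_mul' := by
        intro a b
        apply hinj
        have h1 : ρ ((a * b : A) : G) v = ρ (a : G) (ρ (b : G) v) := by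
          rw [Subgroup.coe_mul, map_mul, Module.End.mul_apply]
        rw [← hc (a * b), h1, hc b, map_smul, hc a, smul_smul, mul_comm] }
  refine ⟨ν, fun h => hv0 ?_⟩
  have h1 : v ∈ weightSpace ρ A ν := fun a => hc a
  rw [h] at h1
  exact (Submodule.mem_bot _).mp h1

/-- A normal subgroup lies in the stabiliser of any of its weights. -/
theorem le_inertia' (hA : A.Normal) (ν : A →* ℂ) : A ≤ inertia hA ν := by
  intro a ha
  rw [mem_inertia]
  ext b
  rw [twist_apply]
  have h1 : CharInduction.conjAut A hA a⁻¹ b = ⟨a, ha⟩⁻¹ * b * ⟨a, ha⟩ := by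
    apply Subtype.ext
    rw [CharInduction.conjAut_apply]
    simp
  rw [h1, map_mul, map_mul, mul_comm (ν _) (ν b), mul_assoc, ← map_mul]
  simp

/-- The stabiliser is proper when some element of `A` is not scalar. -/
theorem inertia_ne_top [Finite G] [Fintype A] [FiniteDimensional ℂ V] (hρ : ρ.IsIrreducible)
    (hA : A.Normal) (ν : A →* ℂ) (hν : weightSpace ρ A ν ≠ ⊥) {a : G} (ha : a ∈ A)
    (hna : ∀ c : ℂ, ρ a ≠ c • 1) : inertia hA ν ≠ ⊤ := by
  intro htop
  have h1 := finrank_eq_index_mul ρ hρ hA ν hν
  rw [htop, Subgroup.index_top, one_mul] at h1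
  have h2 : weightSpace ρ A ν = ⊤ := Submodule.eq_top_of_finrank_eq h1.symm
  apply hna (ν ⟨a, ha⟩)
  apply LinearMap.ext
  intro w
  have hw : w ∈ weightSpace ρ A ν := by rw [h2]; trivial
  exact hw ⟨a, ha⟩

/-- The projection to a weight space is a projection in the sense of `LinearMap.IsProj`. -/
theorem isProj_proj [Fintype A] (ν : A →* ℂ) :
    LinearMap.IsProj (weightSpace ρ A ν) (proj ρ ν) := by
  classical
  refine ⟨?_, ?_⟩
  · intro x b
    have hb : ν b * ν b⁻¹ = 1 := by
      rw [← map_mul]
      simp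
    have h : ∑ a : A, ν a⁻¹ • ρ (b : G) (ρ (a : G) x) = ν b • ∑ c : A, ν c⁻¹ • ρ (c : G) x := by
      rw [Finset.smul_sum]
      refine Fintype.sum_equiv (Equiv.mulLeft b) _ _ fun a => ?_
      rw [Equiv.coe_mulLeft, mul_inv_rev, map_mul, smul_smul, mul_comm (ν a⁻¹), ← mul_assoc, hb,
        one_mul, Subgroup.coe_mul, map_mul, Module.End.mul_apply]
    unfold proj
    simp only [LinearMap.smul_apply, LinearMap.sum_apply, map_smul, map_sum]
    rw [h, smul_comm]
  · intro x hx
    have h := proj_apply_of_mem ρ ν ν hx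
    rwa [if_pos rfl] at h

/-- The trace of the projection is the dimension of the weight space. -/
theorem trace_proj [Fintype A] [FiniteDimensional ℂ V] (ν : A →* ℂ) :
    LinearMap.trace ℂ V (proj ρ ν) = (finrank ℂ (weightSpace ρ A ν) : ℂ) :=
  (isProj_proj ρ ν).trace

/-- The weight `ν` occurs in the restriction of the character to `A`. -/
theorem classInner_restrict_weight [Finite G] [Fintype A] [FiniteDimensional ℂ V] (ν : A →* ℂ) :
    classInner (fun a : A => ρ.character (a : G)) (fun a : A => ν a)
      = (finrank ℂ (weightSpace ρ A ν) : ℂ) := by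
  classical
  rw [← trace_proj]
  have hν : ∀ a : A, ν a * ν a⁻¹ = 1 := by
    intro a
    rw [← map_mul]
    simp
  let ν' : A →* ℂˣ := MonoidHom.toHomUnits ν
  have hν' : ∀ a : A, ((ν' a : ℂˣ) : ℂ) = ν a := fun a => rfl
  have hc : IsCharacter A (fun a : A => ((ν' a : ℂˣ) : ℂ)) :=
    IsIrrCharacter.isCharacter (isIrrCharacter_of_hom ν')
  have hconj : ∀ a : A, (starRingEnd ℂ) (ν a) = ν a⁻¹ := by
    intro a
    have := char_conj_eq_inv hc a
    simpa [hν'] using this
  unfold classInner proj
  rw [map_smul, map_sum]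
  simp only [smul_eq_mul, map_smul, hconj]
  congr 1
  refine Finset.sum_congr rfl fun a _ => ?_
  rw [mul_comm]
  rfl

/-- If `A` is normal with commutative image and some element of `A` is not scalar, then the
character is induced from a proper subgroup. -/
theorem exists_induced [Fintype G] {n : ℕ} (ρ : Representation ℂ G (Fin n → ℂ))
    (hρ : ρ.IsIrreducible) (hA : A.Normal) (hcomm : ∀ a ∈ A, ∀ b ∈ A, ρ a * ρ b = ρ b * ρ a)
    {a : G} (ha : a ∈ A) (hna : ∀ c : ℂ, ρ a ≠ c • 1) :
    ∃ T : Subgroup G, T ≠ ⊤ ∧ ∃ ψ : T → ℂ, IsIrrCharacter T ψ ∧ indFun T ψ = ρ.character := by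
  classical
  haveI : Nontrivial (Fin n → ℂ) := ((isIrreducible_iff ρ).mp hρ).1
  haveI : Fintype A := Fintype.ofFinite _
  obtain ⟨ν, hν⟩ := exists_weight' ρ hcomm
  have hne := inertia_ne_top ρ hρ hA ν hν ha hna
  let ν' : A →* ℂˣ := MonoidHom.toHomUnits ν
  have hθ : IsIrrCharacter A (fun a : A => ν a) := isIrrCharacter_of_hom ν'
  have hHT := le_inertia' hA ν
  haveI : Fintype (inertia hA ν) := Fintype.ofFinite _
  haveI : A.Normal := hA
  have hχ : IsIrrCharacter G ρ.character := ⟨n, ρ, hρ, rfl⟩
  have hpos : (finrank ℂ (weightSpace ρ A ν) : ℂ) ≠ 0 := by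
    have h1 : 0 < finrank ℂ (weightSpace ρ A ν) := by
      haveI : Nontrivial (weightSpace ρ A ν) := Submodule.nontrivial_iff_ne_bot.mpr hν
      exact finrank_pos
    exact_mod_cast h1.ne'
  obtain ⟨ψ, hψ, hind, -⟩ := Clifford.exists_inertia_char A (inertia hA ν) hθ (by
    intro g
    rw [mem_inertia]
    constructor
    · intro h n
      have h1 := congrArg (fun f : A →* ℂ => f ⟨g * n * g⁻¹, hA.conj_mem _ n.2 g⟩) h
      simp only [twist_apply] at h1
      rw [← h1]
      congr 1
      apply Subtype.ext
      rw [CharInduction.conjAut_apply]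
      simp [mul_assoc]
    · intro h
      ext b
      rw [twist_apply]
      have h1 := h (CharInduction.conjAut A hA g⁻¹ b)
      rw [← h1]
      congr 1
      apply Subtype.ext
      show g * ((CharInduction.conjAut A hA g⁻¹ b : A) : G) * g⁻¹ = b
      rw [CharInduction.conjAut_apply]
      simp [mul_assoc]) hHT hχ (by
    rw [classInner_restrict_weight]
    exact hpos)
  exact ⟨inertia hA ν, hne, ψ, hψ, hind⟩

end Cfsg.Agent.Lib.CharMono
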