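/-
The Suzuki group: central extensions.  For `m ≥ 2` the Schur multiplier of `Sz(2^(2m+1))` is trivial.
-/
import Mathlib
import Cfsg.Prelude.Def_KGroupFacts
import Cfsg.Agent.Lib.SzSolB
import Cfsg.Agent.Lib.StemSylow
import Cfsg.Agent.Lib.SchurBasic

set_option autoImplicit false
set_option linter.unusedSectionVars false
set_option linter.unusedVariables false
set_option linter.unnecessarySimpa false
set_option linter.style.haveILetI false

namespace Cfsg.Agent.Lib.SzTorus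

open Cfsg Cfsg.Agent.Lib.SuzukiBasic Cfsg.Agent.Lib.Suzuki Cfsg.Agent.Lib.Suzuki2
  Cfsg.Agent.Lib.Suzuki3 Cfsg.Agent.Lib.Suzuki4 Cfsg.Agent.Lib.SuzukiMax Cfsg.Agent.Lib.SzSub
open Subgroup
open scoped Pointwise commutatorElement

section ext

variable {Γ G : Type*} [Group Γ] [Group G] {σ : Γ →* G}

theorem exists_ker_of_map {x y : Γ} (h : σ x = σ y) : ∃ k, σ k = 1 ∧ x = y * k :=
  ⟨y⁻¹ * x, by rw [map_mul, map_inv, h, inv_mul_cancel], by group⟩

theorem comm_eq_of_map (hc : ∀ k, σ k = 1 → ∀ x, k * x = x * k) {x x' y y' : Γ} (hx : σ x = σ x')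
    (hy : σ y = σ y') : ⁅x, y⁆ = ⁅x', y'⁆ := by
  obtain ⟨k, hk, rfl⟩ := exists_ker_of_map hx
  obtain ⟨l, hl, rfl⟩ := exists_ker_of_map hy
  rw [commutatorElement_def, commutatorElement_def]
  have h1 := hc k hk
  have h2 := hc l hl
  calc x' * k * (y' * l) * (x' * k)⁻¹ * (y' * l)⁻¹
      = x' * (k * y') * l * k⁻¹ * x'⁻¹ * l⁻¹ * y'⁻¹ := by group
    _ = x' * (y' * k) * l * k⁻¹ * x'⁻¹ * l⁻¹ * y'⁻¹ := by rw [h1]
    _ = x' * y' * (k * l * k⁻¹) * x'⁻¹ * l⁻¹ * y'⁻¹ := by group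
    _ = x' * y' * l * x'⁻¹ * l⁻¹ * y'⁻¹ := by
        rw [h1 l]
        group
    _ = x' * y' * (l * x'⁻¹) * l⁻¹ * y'⁻¹ := by group
    _ = x' * y' * (x'⁻¹ * l) * l⁻¹ * y'⁻¹ := by rw [h2]
    _ = x' * y' * x'⁻¹ * y'⁻¹ := by group

theorem conj_eq_of_map (hc : ∀ k, σ k = 1 → ∀ x, k * x = x * k) {u u' : Γ} (h : σ u = σ u') (x : Γ) :
    u * x * u⁻¹ = u' * x * u'⁻¹ := by
  obtain ⟨k, hk, rfl⟩ := exists_ker_of_map h
  calc u' * k * x * (u' * k)⁻¹ = u' * (k * x) * k⁻¹ * u'⁻¹ := by group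
    _ = u' * (x * k) * k⁻¹ * u'⁻¹ := by rw [hc k hk]
    _ = u' * x * u'⁻¹ := by group

theorem conj_comm_eq (u x y : Γ) : u * ⁅x, y⁆ * u⁻¹ = ⁅u * x * u⁻¹, u * y * u⁻¹⁆ := by
  rw [commutatorElement_def, commutatorElement_def]
  group

theorem cm_mul_right {x y z : Γ} (h : y * ⁅x, z⁆ = ⁅x, z⁆ * y) : ⁅x, y * z⁆ = ⁅x, y⁆ * ⁅x, z⁆ := by
  have e : ⁅x, y * z⁆ = ⁅x, y⁆ * (y * ⁅x, z⁆ * y⁻¹) := by
    simp only [commutatorElement_def]
    group
  rw [e, h]
  group

theorem cm_mul_left {x y z : Γ} (h : x * ⁅y, z⁆ = ⁅y, z⁆ * x) : ⁅x * y, z⁆ = ⁅y, z⁆ * ⁅x, z⁆ := by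
  have e : ⁅x * y, z⁆ = (x * ⁅y, z⁆ * x⁻¹) * ⁅x, z⁆ := by
    simp only [commutatorElement_def]
    group
  rw [e, h]
  group

theorem cm_eq_one_of_comm {x y : Γ} (h : x * y = y * x) : ⁅x, y⁆ = 1 :=
  commutatorElement_eq_one_iff_mul_comm.2 h

theorem comm_of_cm_eq_one {x y : Γ} (h : ⁅x, y⁆ = 1) : x * y = y * x :=
  commutatorElement_eq_one_iff_mul_comm.1 h

theorem mul_self_mul_of_comm {x y : Γ} (h : x * y = y * x) : (x * y) * (x * y) = (x * x) * (y * y) := by
  calc (x * y) * (x * y) = x * (y * x) * y := by group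
    _ = x * (x * y) * y := by rw [h]
    _ = (x * x) * (y * y) := by group

end ext

variable {F : Type*} [Field F] [Fintype F] {m : ℕ} [CharP F 2] [SzHyp F m]

theorem tt_zero_comm (b a c : F) : (tt 0 b * tt a c : Sz F m) = tt a c * tt 0 b := by
  rw [tt_mul, tt_mul, phi_zero, zero_mul, mul_zero, add_zero, add_zero, zero_add, add_comm b, add_zero]

theorem tt_cm (a b a' b' : F) :
    (⁅(tt a b : Sz F m), (tt a' b' : Sz F m)⁆ : Sz F m) = tt 0 (phi m a * a' + phi m a' * a) := by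
  have h := congrArg Subtype.val (commutator_ttS (F := F) (m := m) a b a' b')
  exact h

theorem tt_split (a b : F) : (tt a b : Sz F m) = tt a 0 * tt 0 b := by
  rw [tt_mul]
  simp

theorem lam_mul (a b : F) : phi m (a * b) * (a * b) = (phi m a * a) * (phi m b * b) := by
  rw [phi_mul]
  ring

theorem aux_inv {x y : F} (hx : x ≠ 0) (hy : y ≠ 0) (h : y⁻¹ = x⁻¹ + 1) : x = y * (1 + x) := by
  have h1 : y⁻¹ * x = 1 + x := by
    rw [h, add_mul, inv_mul_cancel₀ hx, one_mul]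
  calc x = y * (y⁻¹ * x) := by rw [← mul_assoc, mul_inv_cancel₀ hy, one_mul]
    _ = y * (1 + x) := by rw [h1]

/-- The polynomial argument: `μ(a) = 1/a^(s+1)` is not additive when `m ≥ 2`. -/
theorem exists_mu_ne (hm2 : 2 ≤ m) :
    ∃ a : F, a ≠ 0 ∧ a + 1 ≠ 0 ∧ (phi m (a + 1) * (a + 1))⁻¹ ≠ (phi m a * a)⁻¹ + 1 := by
  classical
  by_contra hcon
  push Not at hcon
  set s := 2 ^ (m + 1) with hs
  have hs8 : 8 ≤ s := by
    have : 2 ^ 3 ≤ 2 ^ (m + 1) := Nat.pow_le_pow_right (by norm_num) (by omega)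
    simpa using this
  obtain ⟨q, s', hq, hs', h8, -, -, hss, -, -⟩ := ar_base (hm_of F m)
  have hss' : s ^ 2 = 2 * q := by
    rw [hs, ← hs']
    exact hss
  have hFq : Fintype.card F = q := by
    rw [hq]
    exact card_F
  let P : Polynomial F := Polynomial.X ^ (s + 1) +
    (Polynomial.X ^ s + 1) * (Polynomial.X + 1) * (1 + Polynomial.X ^ (s + 1))
  have hdeg : P.natDegree ≤ 2 * s + 2 := by
    apply (Polynomial.natDegree_add_le _ _).trans
    apply max_le
    · rw [Polynomial.natDegree_X_pow]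
      omega
    · refine Polynomial.natDegree_mul_le.trans ?_
      have h1 : ((Polynomial.X ^ s + 1) * (Polynomial.X + 1) : Polynomial F).natDegree ≤ s + 1 := by
        refine Polynomial.natDegree_mul_le.trans ?_
        have h2 : ((Polynomial.X ^ s + 1 : Polynomial F)).natDegree ≤ s := by
          apply (Polynomial.natDegree_add_le _ _).trans
          rw [Polynomial.natDegree_X_pow, Polynomial.natDegree_one]
          omega
        have h3 : ((Polynomial.X + 1 : Polynomial F)).natDegree ≤ 1 := by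
          apply (Polynomial.natDegree_add_le _ _).trans
          rw [Polynomial.natDegree_X, Polynomial.natDegree_one]
          omega
        omega
      have h4 : ((1 + Polynomial.X ^ (s + 1) : Polynomial F)).natDegree ≤ s + 1 := by
        apply (Polynomial.natDegree_add_le _ _).trans
        rw [Polynomial.natDegree_X_pow, Polynomial.natDegree_one]
        omega
      omega
  let S : Finset F := Finset.univ.filter (fun a => a ≠ 0 ∧ a + 1 ≠ 0)
  have hroot : ∀ a ∈ S, P.eval a = 0 := by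
    intro a ha
    obtain ⟨-, ha0, ha1⟩ := Finset.mem_filter.1 ha
    have h := hcon a ha0 ha1
    have hp : phi m a = a ^ s := rfl
    have hl0 : phi m a * a ≠ 0 := mul_ne_zero (phi_ne_zero ha0) ha0
    have hl1 : phi m (a + 1) * (a + 1) ≠ 0 := mul_ne_zero (phi_ne_zero ha1) ha1
    have e1 : phi m a * a = phi m (a + 1) * (a + 1) * (1 + phi m a * a) := aux_inv hl0 hl1 h
    have e2 : a ^ (s + 1) = phi m a * a := by
      rw [hp, pow_succ]
    simp only [P, Polynomial.eval_add, Polynomial.eval_mul, Polynomial.eval_pow, Polynomial.eval_X,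
      Polynomial.eval_one]
    rw [phi_add, phi_one, hp] at e1
    rw [e2, hp]
    calc a ^ s * a + (a ^ s + 1) * (a + 1) * (1 + a ^ s * a)
        = a ^ s * a + a ^ s * a := by rw [← e1]
      _ = 0 := add_self_F _
  have hcard : P.natDegree < S.card := by
    have h1 : S.card + 2 = Fintype.card F := by
      have h2 : S = (Finset.univ.erase (0 : F)).erase 1 := by
        ext a
        simp only [S, Finset.mem_filter, Finset.mem_univ, true_and, Finset.mem_erase, ne_eq, and_true]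
        constructor
        · rintro ⟨h3, h4⟩
          refine ⟨?_, h3⟩
          rintro rfl
          exact h4 (add_self_F 1)
        · rintro ⟨h3, h4⟩
          refine ⟨h4, fun h5 => h3 ?_⟩
          have := add_self_F (1 : F)
          exact add_right_cancel (h5.trans this.symm)
      rw [h2, Finset.card_erase_of_mem (by simp), Finset.card_erase_of_mem (by simp), Finset.card_univ]
      omega
    rw [hFq] at h1
    have h3 : 4 * s ≤ q := by nlinarith
    omega
  have hP0 := Polynomial.eq_zero_of_natDegree_lt_card_of_eval_eq_zero' P S hroot hcard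
  have h5 : P.eval 0 = 1 := by
    simp only [P, Polynomial.eval_add, Polynomial.eval_mul, Polynomial.eval_pow, Polynomial.eval_X,
      Polynomial.eval_one]
    have h6 : s ≠ 0 := by omega
    rw [zero_pow h6, zero_pow (by omega)]
    simp
  rw [hP0, Polynomial.eval_zero] at h5
  exact zero_ne_one h5

section core

variable {Γ : Type*} [Group Γ] {σ : Γ →* Sz F m} {L : Sz F m → Γ}

/-- Lifts of central elements commute. -/
theorem zz_comm (hL : ∀ g, σ (L g) = g) (hc : ∀ k, σ k = 1 → ∀ x, k * x = x * k) {x x' : Γ} {b b' : F}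
    (hx : σ x = tt 0 b) (hx' : σ x' = tt 0 b') : x * x' = x' * x := by
  obtain ⟨a, a', hcc⟩ := exists_comm_eq (F := F) (m := m) b'
  set y := L (tt a 0) with hy
  set y' := L (tt a' 0) with hy'
  have h1 : σ ⁅y, y'⁆ = σ x' := by
    rw [map_commutatorElement, hL, hL, tt_cm, hx', hcc]
  obtain ⟨k, hk, hke⟩ := exists_ker_of_map h1.symm
  have h2 : x * ⁅y, y'⁆ * x⁻¹ = ⁅y, y'⁆ := by
    rw [conj_comm_eq]
    apply comm_eq_of_map hc
    · rw [map_mul, map_mul, map_inv, hx, hL, tt_zero_comm]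
      group
    · rw [map_mul, map_mul, map_inv, hx, hL, tt_zero_comm]
      group
  have h3 : x * ⁅y, y'⁆ = ⁅y, y'⁆ * x := by
    calc x * ⁅y, y'⁆ = (x * ⁅y, y'⁆ * x⁻¹) * x := by group
      _ = ⁅y, y'⁆ * x := by rw [h2]
  rw [hke]
  calc x * (⁅y, y'⁆ * k) = (x * ⁅y, y'⁆) * k := by group
    _ = (⁅y, y'⁆ * x) * k := by rw [h3]
    _ = ⁅y, y'⁆ * (x * k) := by group
    _ = ⁅y, y'⁆ * (k * x) := by rw [hc k hk]
    _ = ⁅y, y'⁆ * k * x := by group

/-- The commutator pairing of `Z` with `V`. -/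
def Bm (L : Sz F m → Γ) (b a : F) : Γ := ⁅L (tt 0 b), L (tt a 0)⁆

theorem Bm_ker (hL : ∀ g, σ (L g) = g) (b a : F) : σ (Bm L b a) = 1 := by
  unfold Bm
  rw [map_commutatorElement, hL, hL]
  exact cm_eq_one_of_comm (tt_zero_comm b a 0)

theorem Bm_add_left (hL : ∀ g, σ (L g) = g) (hc : ∀ k, σ k = 1 → ∀ x, k * x = x * k) (b b' a : F) :
    Bm L (b + b') a = Bm L b a * Bm L b' a := by
  unfold Bm
  have h1 : ⁅L (tt 0 (b + b')), L (tt a 0)⁆ = ⁅L (tt 0 b) * L (tt 0 b'), L (tt a 0)⁆ := by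
    apply comm_eq_of_map hc _ rfl
    rw [map_mul, hL, hL, hL, tt_mul]
    simp
  have h2 := hc _ (Bm_ker hL b' a)
  have h3 := hc _ (Bm_ker hL b a)
  unfold Bm at h2 h3
  rw [h1, cm_mul_left (h2 _).symm, h3]

theorem Bm_add_right (hL : ∀ g, σ (L g) = g) (hc : ∀ k, σ k = 1 → ∀ x, k * x = x * k) (b a a' : F) :
    Bm L b (a + a') = Bm L b a * Bm L b a' := by
  unfold Bm
  have h2 := hc _ (Bm_ker hL b a')
  unfold Bm at h2
  rw [← cm_mul_right (h2 _).symm]
  have h1 : ⁅L (tt 0 b), L (tt a 0) * L (tt a' 0)⁆ =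
      ⁅L (tt 0 b), L (tt (a + a') 0) * L (tt 0 (phi m a * a'))⁆ := by
    apply comm_eq_of_map hc rfl
    rw [map_mul, map_mul, hL, hL, hL, hL, tt_mul, tt_mul]
    simp
  rw [h1]
  have h3 : L (tt 0 b) * L (tt 0 (phi m a * a')) = L (tt 0 (phi m a * a')) * L (tt 0 b) :=
    zz_comm hL hc (hL _) (hL _)
  have h4 : ⁅L (tt 0 b), L (tt 0 (phi m a * a'))⁆ = 1 := cm_eq_one_of_comm h3
  rw [cm_mul_right (by rw [h4, mul_one, one_mul]), h4, mul_one]

theorem Bm_conj (hL : ∀ g, σ (L g) = g) (hc : ∀ k, σ k = 1 → ∀ x, k * x = x * k) (β : Fˣ) (b a : F) :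
    Bm L (phi m (β : F) * β * b) ((β : F) * a) = Bm L b a := by
  have h1 := hc _ (Bm_ker hL b a)
  have h2 : L (hh β) * Bm L b a * (L (hh β))⁻¹ = Bm L b a := by
    rw [← h1 (L (hh β))]
    group
  rw [← h2]
  unfold Bm
  rw [conj_comm_eq]
  apply comm_eq_of_map hc
  · rw [hL, map_mul, map_mul, map_inv, hL, hL, hh_conj_tt, mul_zero]
  · rw [hL, map_mul, map_mul, map_inv, hL, hL, hh_conj_tt, mul_zero]

theorem Bm_zero_left (hL : ∀ g, σ (L g) = g) (hc : ∀ k, σ k = 1 → ∀ x, k * x = x * k) (a : F) :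
    Bm L 0 a = 1 := by
  unfold Bm
  apply cm_eq_one_of_comm
  apply hc
  rw [hL, tt_zero]

theorem Bm_zero_right (hL : ∀ g, σ (L g) = g) (hc : ∀ k, σ k = 1 → ∀ x, k * x = x * k) (b : F) :
    Bm L b 0 = 1 := by
  unfold Bm
  apply cm_eq_one_of_comm
  exact (hc _ (by rw [hL, tt_zero]) _).symm

theorem Bm_eq_one (hm2 : 2 ≤ m) (hL : ∀ g, σ (L g) = g) (hc : ∀ k, σ k = 1 → ∀ x, k * x = x * k)
    (b a : F) : Bm L b a = 1 := by
  obtain ⟨a₀, ha0, ha1, hne⟩ := exists_mu_ne (F := F) (m := m) hm2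
  by_cases ha : a = 0
  · rw [ha, Bm_zero_right hL hc]
  have hmu : ∀ (c u : F), u ≠ 0 → Bm L c u = Bm L ((phi m u * u)⁻¹ * c) 1 := by
    intro c u hu
    have h := Bm_conj hL hc (Units.mk0 u⁻¹ (inv_ne_zero hu)) c u
    simp only [Units.val_mk0] at h
    rw [inv_mul_cancel₀ hu, phi_inv'] at h
    rw [← h]
    congr 1
    rw [mul_inv]
  have hsq : ∀ y : F, Bm L y 1 * Bm L y 1 = 1 := by
    intro y
    rw [← Bm_add_left hL hc, add_self_F, Bm_zero_left hL hc]
  set d : F := (phi m (a₀ + 1) * (a₀ + 1))⁻¹ + ((phi m a₀ * a₀)⁻¹ + 1) with hd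
  have hd0 : d ≠ 0 := by
    intro h
    apply hne
    have := add_self_F ((phi m a₀ * a₀)⁻¹ + 1)
    rw [hd] at h
    exact add_right_cancel (h.trans this.symm)
  have hall : ∀ c : F, Bm L (d * c) 1 = 1 := by
    intro c
    have h1 := Bm_add_right hL hc c a₀ 1
    rw [hmu c (a₀ + 1) ha1, hmu c a₀ ha0] at h1
    have h2 : Bm L ((phi m a₀ * a₀)⁻¹ * c) 1 * Bm L c 1 = Bm L (((phi m a₀ * a₀)⁻¹ + 1) * c) 1 := by
      rw [← Bm_add_left hL hc]
      congr 1
      ring
    rw [h2] at h1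
    have h3 : d * c = (phi m (a₀ + 1) * (a₀ + 1))⁻¹ * c + ((phi m a₀ * a₀)⁻¹ + 1) * c := by
      rw [hd]
      ring
    rw [h3, Bm_add_left hL hc, h1, hsq]
  have hone : ∀ c : F, Bm L c 1 = 1 := by
    intro c
    have := hall (c / d)
    rwa [mul_div_cancel₀ _ hd0] at this
  rw [hmu b a ha, hone]

/-- Lifts of central elements of `T` commute with the lifts of `T`. -/
theorem zt_central (hm2 : 2 ≤ m) (hL : ∀ g, σ (L g) = g) (hc : ∀ k, σ k = 1 → ∀ x, k * x = x * k)
    {x y : Γ} {b a c : F} (hx : σ x = tt 0 b) (hy : σ y = tt a c) : x * y = y * x := by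
  apply comm_of_cm_eq_one
  have h1 : ⁅x, y⁆ = ⁅L (tt 0 b), L (tt a 0) * L (tt 0 c)⁆ := by
    apply comm_eq_of_map hc
    · rw [hx, hL]
    · rw [hy, map_mul, hL, hL, ← tt_split]
  have h3 : L (tt 0 b) * L (tt 0 c) = L (tt 0 c) * L (tt 0 b) := zz_comm hL hc (hL _) (hL _)
  have h4 : ⁅L (tt 0 b), L (tt 0 c)⁆ = 1 := cm_eq_one_of_comm h3
  rw [h1, cm_mul_right (by rw [h4, mul_one, one_mul]), h4, mul_one]
  exact Bm_eq_one hm2 hL hc b a

/-- The squares of the lifts of `Z`. -/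
theorem zt_sq (hL : ∀ g, σ (L g) = g) (hc : ∀ k, σ k = 1 → ∀ x, k * x = x * k)
    (h2 : ∀ k, σ k = 1 → k * k = 1) {x : Γ} {b : F} (hx : σ x = tt 0 b) : x * x = 1 := by
  have hsq : ∀ {u v : Γ}, σ u = σ v → u * u = v * v := by
    intro u v huv
    obtain ⟨k, hk, rfl⟩ := exists_ker_of_map huv
    calc v * k * (v * k) = v * (k * v) * k := by group
      _ = v * (v * k) * k := by rw [hc k hk]
      _ = v * v * (k * k) := by group
      _ = v * v := by rw [h2 k hk, mul_one]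
  have hker : ∀ e : F, σ (L (tt 0 e) * L (tt 0 e)) = 1 := by
    intro e
    rw [map_mul, hL, tt_zero_mul_self]
  have hinv : ∀ (β : Fˣ) (e : F), L (tt 0 (phi m (β : F) * β * e)) * L (tt 0 (phi m (β : F) * β * e)) =
      L (tt 0 e) * L (tt 0 e) := by
    intro β e
    have h3 : L (hh β) * (L (tt 0 e) * L (tt 0 e)) * (L (hh β))⁻¹ = L (tt 0 e) * L (tt 0 e) := by
      rw [← hc _ (hker e) (L (hh β))]
      group
    rw [← h3]
    have h4 : L (hh β) * (L (tt 0 e) * L (tt 0 e)) * (L (hh β))⁻¹ =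
        (L (hh β) * L (tt 0 e) * (L (hh β))⁻¹) * (L (hh β) * L (tt 0 e) * (L (hh β))⁻¹) := by
      group
    rw [h4]
    apply hsq
    rw [hL, map_mul, map_mul, map_inv, hL, hL, hh_conj_tt, mul_zero]
  have hadd : ∀ e e' : F, L (tt 0 (e + e')) * L (tt 0 (e + e')) =
      (L (tt 0 e) * L (tt 0 e)) * (L (tt 0 e') * L (tt 0 e')) := by
    intro e e'
    rw [← mul_self_mul_of_comm (zz_comm hL hc (hL _) (hL _))]
    apply hsq
    rw [map_mul, hL, hL, hL, tt_mul]
    simp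
  -- all squares coincide
  have hconst : ∀ e : F, e ≠ 0 → L (tt 0 e) * L (tt 0 e) = L (tt 0 1) * L (tt 0 1) := by
    intro e he
    obtain ⟨a, ha⟩ := lam_surj (m := m) e
    have ha0 : a ≠ 0 := by
      rintro rfl
      rw [mul_zero] at ha
      exact he ha.symm
    have h3 := hinv (Units.mk0 a ha0) 1
    simp only [Units.val_mk0, mul_one] at h3
    rwa [ha] at h3
  -- a third element
  have h8 := card_F_ge F m
  obtain ⟨a₁, ha₁⟩ : ∃ a₁ : F, a₁ ≠ 0 ∧ a₁ ≠ 1 := by
    classical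
    have h3 : 2 < Fintype.card F := by omega
    obtain ⟨u, hu⟩ : ∃ u : F, u ∉ ({0, 1} : Finset F) := by
      by_contra hcon
      push Not at hcon
      have h4 : Fintype.card F ≤ ({0, 1} : Finset F).card := by
        rw [← Finset.card_univ]
        exact Finset.card_le_card (fun u _ => hcon u)
      have h5 : ({0, 1} : Finset F).card ≤ 2 := Finset.card_le_two
      omega
    simp only [Finset.mem_insert, Finset.mem_singleton, not_or] at hu
    exact ⟨u, hu.1, hu.2⟩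
  have ha₂ : a₁ + 1 ≠ 0 := by
    intro h
    apply ha₁.2
    have := add_self_F (1 : F)
    exact add_right_cancel (h.trans this.symm)
  have hε : L (tt 0 1) * L (tt 0 1) = 1 := by
    have h3 := hadd a₁ 1
    rw [hconst _ ha₂, hconst _ ha₁.1] at h3
    exact left_eq_mul.1 h3
  have hx' : x * x = L (tt 0 b) * L (tt 0 b) := hsq (by rw [hx, hL])
  rw [hx']
  by_cases hb : b = 0
  · subst hb
    apply h2
    rw [hL, tt_zero]
  · rw [hconst b hb, hε]

end core

section core2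

variable {Γ : Type*} [Group Γ] {σ : Γ →* Sz F m} {L : Sz F m → Γ}

/-- The equivariant section of `Z`. -/
def xi (L : Sz F m → Γ) (β₀ : Fˣ) (b : F) : Γ :=
  ⁅L (hh β₀), L (tt 0 (b / (phi m (β₀ : F) * β₀ + 1)))⁆

variable {β₀ : Fˣ}

theorem xi_map (hβ₀ : β₀ ≠ 1) (hL : ∀ g, σ (L g) = g) (b : F) : σ (xi L β₀ b) = tt 0 b := by
  have hδ := lam_unit_add_one_ne (m := m) hβ₀
  unfold xi
  rw [map_commutatorElement, hL, hL, commutatorElement_def, hh_conj_tt, tt_inv, tt_mul]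
  simp only [mul_zero, phi_zero, add_zero]
  congr 1
  field_simp

theorem xi_add (hβ₀ : β₀ ≠ 1) (hL : ∀ g, σ (L g) = g) (hc : ∀ k, σ k = 1 → ∀ x, k * x = x * k)
    (hF1 : ∀ {x y : Γ} {b a c : F}, σ x = tt 0 b → σ y = tt a c → x * y = y * x) (b b' : F) :
    xi L β₀ (b + b') = xi L β₀ b * xi L β₀ b' := by
  unfold xi
  rw [add_div]
  set e := b / (phi m (β₀ : F) * β₀ + 1)
  set e' := b' / (phi m (β₀ : F) * β₀ + 1)
  have h1 : ⁅L (hh β₀), L (tt 0 (e + e'))⁆ = ⁅L (hh β₀), L (tt 0 e) * L (tt 0 e')⁆ := by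
    apply comm_eq_of_map hc rfl
    rw [map_mul, hL, hL, hL, tt_mul]
    simp
  have hz : σ ⁅L (hh β₀), L (tt 0 e')⁆ = tt 0 (b' ) := by
    have := xi_map hβ₀ hL b'
    exact this
  rw [h1, cm_mul_right (hF1 hz (hL _)).symm]

theorem xi_conj (hL : ∀ g, σ (L g) = g) (hc : ∀ k, σ k = 1 → ∀ x, k * x = x * k) (β : Fˣ) (b : F) :
    L (hh β) * xi L β₀ b * (L (hh β))⁻¹ = xi L β₀ (phi m (β : F) * β * b) := by
  unfold xi
  rw [conj_comm_eq]
  apply comm_eq_of_map hc
  · rw [map_mul, map_mul, map_inv, hL, hL, hh_inv, hh_mul, hh_mul, mul_comm β, mul_assoc,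
      mul_inv_cancel, mul_one]
  · rw [map_mul, map_mul, map_inv, hL, hL, hL, hh_conj_tt, mul_zero, mul_div_assoc]

/-- The hypotheses of the second half of the argument. -/
structure CD (σ : Γ →* Sz F m) (L : Sz F m → Γ) (β₀ : Fˣ) : Prop where
  hβ : β₀ ≠ 1
  hL : ∀ g, σ (L g) = g
  hc : ∀ k, σ k = 1 → ∀ x, k * x = x * k
  h2 : ∀ k, σ k = 1 → k * k = 1
  hF1 : ∀ {x y : Γ} {b a c : F}, σ x = tt 0 b → σ y = tt a c → x * y = y * x
  hF2 : ∀ {x : Γ} {b : F}, σ x = tt 0 b → x * x = 1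

/-- The defect of the squares. -/
def kap (L : Sz F m → Γ) (β₀ : Fˣ) (a : F) : Γ :=
  (L (tt a 0) * L (tt a 0)) * xi L β₀ (phi m a * a)

/-- The defect of the commutators. -/
def tau (L : Sz F m → Γ) (β₀ : Fˣ) (a a' : F) : Γ :=
  ⁅L (tt a 0), L (tt a' 0)⁆ * xi L β₀ (phi m a * a' + phi m a' * a)

theorem rearr6 {A P Q X Y Z : Γ} (h1 : P * X = X * P) (h2 : Q * X = X * Q) (h3 : Q * Y = Y * Q) :
    A * P * Q * (X * Y * Z) = A * X * (P * Y) * (Q * Z) := by
  calc A * P * Q * (X * Y * Z) = A * P * (Q * X) * Y * Z := by group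
    _ = A * P * (X * Q) * Y * Z := by rw [h2]
    _ = A * (P * X) * Q * Y * Z := by group
    _ = A * (X * P) * Q * Y * Z := by rw [h1]
    _ = A * X * P * (Q * Y) * Z := by group
    _ = A * X * P * (Y * Q) * Z := by rw [h3]
    _ = A * X * (P * Y) * (Q * Z) := by group

namespace CD

variable (C : CD σ L β₀)
include C

theorem xi_map' (b : F) : σ (xi L β₀ b) = tt 0 b := xi_map C.hβ C.hL b

theorem xi_add' (b b' : F) : xi L β₀ (b + b') = xi L β₀ b * xi L β₀ b' :=
  xi_add C.hβ C.hL C.hc C.hF1 b b'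

theorem xi_mul_self (b : F) : xi L β₀ b * xi L β₀ b = 1 := C.hF2 (C.xi_map' b)

theorem xi_zero : xi L β₀ 0 = 1 := by
  have h := C.xi_add' 0 0
  rw [add_zero] at h
  exact left_eq_mul.1 h

theorem sq_map (a : F) : σ (L (tt a 0) * L (tt a 0)) = tt 0 (phi m a * a) := by
  rw [map_mul, C.hL, tt_sq]

theorem cm_map (a a' : F) : σ ⁅L (tt a 0), L (tt a' 0)⁆ = tt 0 (phi m a * a' + phi m a' * a) := by
  rw [map_commutatorElement, C.hL, C.hL, tt_cm]

theorem kap_ker (a : F) : σ (kap L β₀ a) = 1 := by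
  unfold kap
  rw [map_mul, C.sq_map, C.xi_map', tt_zero_mul_self]

theorem tau_ker (a a' : F) : σ (tau L β₀ a a') = 1 := by
  unfold tau
  rw [map_mul, C.cm_map, C.xi_map', tt_zero_mul_self]

theorem sq_of_map {u v : Γ} (h : σ u = σ v) : u * u = v * v := by
  obtain ⟨k, hk, rfl⟩ := exists_ker_of_map h
  calc v * k * (v * k) = v * (k * v) * k := by group
    _ = v * (v * k) * k := by rw [C.hc k hk]
    _ = v * v * (k * k) := by group
    _ = v * v := by rw [C.h2 k hk, mul_one]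

theorem kap_conj (β : Fˣ) (a : F) : kap L β₀ ((β : F) * a) = kap L β₀ a := by
  have h1 : L (hh β) * kap L β₀ a * (L (hh β))⁻¹ = kap L β₀ a := by
    rw [← C.hc _ (C.kap_ker a) (L (hh β))]
    group
  rw [← h1]
  unfold kap
  have h2 : L (hh β) * (L (tt a 0) * L (tt a 0) * xi L β₀ (phi m a * a)) * (L (hh β))⁻¹ =
      (L (hh β) * L (tt a 0) * (L (hh β))⁻¹) * (L (hh β) * L (tt a 0) * (L (hh β))⁻¹) *
        (L (hh β) * xi L β₀ (phi m a * a) * (L (hh β))⁻¹) := by
    group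
  rw [h2, xi_conj C.hL C.hc, ← lam_mul]
  congr 1
  apply C.sq_of_map
  rw [C.hL, map_mul, map_mul, map_inv, C.hL, C.hL, hh_conj_tt, mul_zero]

theorem kap_const (a : F) (ha : a ≠ 0) : kap L β₀ a = kap L β₀ 1 := by
  have h := C.kap_conj (Units.mk0 a ha) 1
  simp only [Units.val_mk0, mul_one] at h
  exact h

theorem kap_add (a a' : F) : kap L β₀ (a + a') = tau L β₀ a' a * kap L β₀ a * kap L β₀ a' := by
  set x := L (tt a 0) with hx
  set y := L (tt a' 0) with hy
  set v := L (tt (a + a') 0) with hv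
  set w := L (tt 0 (phi m a * a')) with hw
  have h1 : x * y * (x * y) = v * v := by
    have h2 : σ (x * y) = σ (v * w) := by
      rw [map_mul, map_mul, C.hL, C.hL, C.hL, C.hL, tt_mul, tt_mul]
      simp
    rw [C.sq_of_map h2]
    have h3 : v * w = w * v := (C.hF1 (C.hL _) (C.hL _)).symm
    rw [mul_self_mul_of_comm h3, C.hF2 (C.hL _), mul_one]
  -- commutator expansion
  have hcx : σ ⁅y, x⁆ = tt 0 (phi m a' * a + phi m a * a') := C.cm_map a' a
  have hcx1 : x * ⁅y, x⁆ = ⁅y, x⁆ * x := (C.hF1 hcx (C.hL _)).symm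
  have h4 : x * y * (x * y) = ⁅y, x⁆ * (x * x) * (y * y) := by
    have e : y * x = ⁅y, x⁆ * x * y := by
      rw [commutatorElement_def]
      group
    calc x * y * (x * y) = x * (y * x) * y := by group
      _ = x * (⁅y, x⁆ * x * y) * y := by rw [e]
      _ = (x * ⁅y, x⁆) * x * y * y := by group
      _ = (⁅y, x⁆ * x) * x * y * y := by rw [hcx1]
      _ = ⁅y, x⁆ * (x * x) * (y * y) := by group
  have hlam : phi m (a + a') * (a + a') = (phi m a' * a + phi m a * a') + (phi m a * a) + (phi m a' * a') := by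
    rw [phi_add]
    ring
  unfold kap tau
  rw [← hx, ← hy, ← hv, ← h1, h4, hlam, C.xi_add', C.xi_add', rearr6]
  · exact C.hF1 (C.sq_map a) (C.xi_map' _)
  · exact C.hF1 (C.sq_map a') (C.xi_map' _)
  · exact C.hF1 (C.sq_map a') (C.xi_map' _)

theorem tau_add (a' a'' a : F) : tau L β₀ (a' + a'') a = tau L β₀ a' a * tau L β₀ a'' a := by
  set x' := L (tt a' 0) with hx'
  set x'' := L (tt a'' 0) with hx''
  set y := L (tt a 0) with hy
  set v := L (tt (a' + a'') 0) with hv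
  set w := L (tt 0 (phi m a' * a'')) with hw
  have h1 : ⁅v, y⁆ = ⁅x'', y⁆ * ⁅x', y⁆ := by
    have h2 : ⁅v * w, y⁆ = ⁅x' * x'', y⁆ := by
      apply comm_eq_of_map C.hc _ rfl
      rw [map_mul, map_mul, C.hL, C.hL, C.hL, C.hL, tt_mul, tt_mul]
      simp
    have h3 : ⁅w, y⁆ = 1 := cm_eq_one_of_comm (C.hF1 (C.hL _) (C.hL _))
    rw [cm_mul_left (by rw [h3, mul_one, one_mul]), h3, one_mul] at h2
    rw [h2, cm_mul_left]
    exact (C.hF1 (C.cm_map a'' a) (C.hL _)).symm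
  have hlam : phi m (a' + a'') * a + phi m a * (a' + a'') =
      (phi m a' * a + phi m a * a') + (phi m a'' * a + phi m a * a'') := by
    rw [phi_add]
    ring
  unfold tau
  rw [← hx', ← hx'', ← hy, ← hv, h1, hlam, C.xi_add']
  set A := ⁅x', y⁆ with hA
  set B := ⁅x'', y⁆ with hB
  set X := xi L β₀ (phi m a' * a + phi m a * a') with hX
  set Y := xi L β₀ (phi m a'' * a + phi m a * a'') with hY
  have hAB : B * A = A * B := C.hF1 (C.cm_map a'' a) (C.cm_map a' a)
  have hBX : B * X = X * B := C.hF1 (C.cm_map a'' a) (C.xi_map' _)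
  calc B * A * (X * Y) = (B * A) * X * Y := by group
    _ = (A * B) * X * Y := by rw [hAB]
    _ = A * (B * X) * Y := by group
    _ = A * (X * B) * Y := by rw [hBX]
    _ = A * X * (B * Y) := by group

theorem exists_triple : ∃ a₁ a₂ : F, a₁ ≠ 0 ∧ a₁ + 1 ≠ 0 ∧ a₂ ≠ 0 ∧ a₂ + 1 ≠ 0 ∧ a₁ + a₂ ≠ 0 ∧
    a₁ + a₂ + 1 ≠ 0 := by
  classical
  have h8 := card_F_ge F m
  obtain ⟨a₁, h1⟩ : ∃ u : F, u ∉ ({0, 1} : Finset F) := by
    by_contra hcon
    push Not at hcon
    have h4 : Fintype.card F ≤ ({0, 1} : Finset F).card := by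
      rw [← Finset.card_univ]
      exact Finset.card_le_card (fun u _ => hcon u)
    have h5 : ({0, 1} : Finset F).card ≤ 2 := Finset.card_le_two
    omega
  obtain ⟨a₂, h2⟩ : ∃ u : F, u ∉ ({0, 1, a₁, a₁ + 1} : Finset F) := by
    by_contra hcon
    push Not at hcon
    have h4 : Fintype.card F ≤ ({0, 1, a₁, a₁ + 1} : Finset F).card := by
      rw [← Finset.card_univ]
      exact Finset.card_le_card (fun u _ => hcon u)
    have h5 : ({0, 1, a₁, a₁ + 1} : Finset F).card ≤ 4 := Finset.card_le_four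
    omega
  simp only [Finset.mem_insert, Finset.mem_singleton, not_or] at h1 h2
  have cancel : ∀ {u v : F}, u + v = 0 → u = v := by
    intro u v h
    have := add_self_F v
    exact add_right_cancel (h.trans this.symm)
  refine ⟨a₁, a₂, h1.1, fun h => h1.2 (cancel h), h2.1, fun h => h2.2.1 (cancel h),
    fun h => h2.2.2.1 (cancel h).symm, fun h => h2.2.2.2 ?_⟩
  have h3 := cancel h
  have e : a₂ = a₁ + (a₁ + a₂) := by
    rw [← add_assoc, add_self_F, zero_add]
  rw [e, h3]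

theorem kap_one_eq : kap L β₀ 1 = 1 := by
  obtain ⟨a₁, a₂, h1, h2, h3, h4, h5, h6⟩ := C.exists_triple
  set ε := kap L β₀ 1 with hε
  have hεε : ε * ε = 1 := C.h2 _ (C.kap_ker 1)
  have hkey : ∀ a' a : F, a' ≠ 0 → a ≠ 0 → a + a' ≠ 0 → tau L β₀ a' a = ε := by
    intro a' a h1 h2 h3
    have h := C.kap_add a a'
    rw [C.kap_const _ h3, C.kap_const _ h1, C.kap_const _ h2, mul_assoc, hεε, mul_one] at h
    exact h.symm
  have e1 := hkey a₁ 1 h1 one_ne_zero (by rwa [add_comm])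
  have e2 := hkey a₂ 1 h3 one_ne_zero (by rwa [add_comm])
  have e3 := hkey (a₁ + a₂) 1 h5 one_ne_zero (by rwa [add_comm])
  have e4 := C.tau_add a₁ a₂ 1
  rw [e1, e2, e3, hεε] at e4
  exact e4

theorem tau_eq_one (a' a : F) : tau L β₀ a' a = 1 := by
  by_cases h1 : a' = 0
  · subst h1
    unfold tau
    have e : L (tt (0 : F) 0) * L (tt a 0) = L (tt a 0) * L (tt 0 0) :=
      C.hc _ (by rw [C.hL, tt_zero]) _
    rw [cm_eq_one_of_comm e, phi_zero]
    simp only [zero_mul, mul_zero, add_zero, C.xi_zero, mul_one]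
  by_cases h2 : a = 0
  · subst h2
    unfold tau
    have e : L (tt a' 0) * L (tt (0 : F) 0) = L (tt 0 0) * L (tt a' 0) :=
      (C.hc _ (by rw [C.hL, tt_zero]) _).symm
    rw [cm_eq_one_of_comm e, phi_zero]
    simp only [zero_mul, mul_zero, add_zero, C.xi_zero, mul_one]
  by_cases h3 : a + a' = 0
  · have h4 : a' = a := (add_right_cancel (h3.trans (add_self_F a').symm)).symm
    subst h4
    unfold tau
    rw [cm_eq_one_of_comm rfl, add_self_F, C.xi_zero, mul_one]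
  · have h := C.kap_add a a'
    rw [C.kap_const _ h3, C.kap_const _ h1, C.kap_const _ h2, C.kap_one_eq, mul_one, mul_one] at h
    exact h.symm

theorem cm_eq_xi (a' a : F) :
    ⁅L (tt a' 0), L (tt a 0)⁆ = xi L β₀ (phi m a' * a + phi m a * a') := by
  have h := C.tau_eq_one a' a
  unfold tau at h
  have h2 := C.xi_mul_self (phi m a' * a + phi m a * a')
  calc ⁅L (tt a' 0), L (tt a 0)⁆
      = ⁅L (tt a' 0), L (tt a 0)⁆ * (xi L β₀ (phi m a' * a + phi m a * a') *
          xi L β₀ (phi m a' * a + phi m a * a')) := by rw [h2, mul_one]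
    _ = (⁅L (tt a' 0), L (tt a 0)⁆ * xi L β₀ (phi m a' * a + phi m a * a')) *
          xi L β₀ (phi m a' * a + phi m a * a') := by group
    _ = _ := by rw [h, one_mul]

theorem cm_general {x y : Γ} {a' b' a b : F} (hx : σ x = tt a' b') (hy : σ y = tt a b) :
    ⁅x, y⁆ = xi L β₀ (phi m a' * a + phi m a * a') := by
  rw [← C.cm_eq_xi]
  have h1 : ⁅x, y⁆ = ⁅L (tt a' 0) * L (tt 0 b'), L (tt a 0) * L (tt 0 b)⁆ := by
    apply comm_eq_of_map C.hc
    · rw [hx, map_mul, C.hL, C.hL, ← tt_split]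
    · rw [hy, map_mul, C.hL, C.hL, ← tt_split]
  have h2 : σ (L (tt a 0) * L (tt 0 b)) = tt a b := by
    rw [map_mul, C.hL, C.hL, ← tt_split]
  have h3 : ⁅L (tt 0 b'), L (tt a 0) * L (tt 0 b)⁆ = 1 :=
    cm_eq_one_of_comm (C.hF1 (C.hL _) h2)
  have h4 : ⁅L (tt a' 0), L (tt 0 b)⁆ = 1 :=
    cm_eq_one_of_comm (C.hF1 (C.hL _) (C.hL _)).symm
  rw [h1, cm_mul_left (by rw [h3, mul_one, one_mul]), h3, one_mul,
    cm_mul_right (by rw [h4, mul_one, one_mul]), h4, mul_one]

end CD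

end core2

section final

universe u

/-- If no stem extension has kernel of prime order, every stem extension is an isomorphism. -/
theorem ker_bot_of_prime {G : Type u} [Group G] [Finite G]
    (h : ∀ (Γ : Type u) [Group Γ] [Finite Γ] (σ : Γ →* G), IsStemExtension σ →
      ∀ p : ℕ, p.Prime → Nat.card σ.ker ≠ p) :
    ∀ (n : ℕ) (Γ : Type u) [Group Γ] [Finite Γ] (σ : Γ →* G), Nat.card Γ = n → IsStemExtension σ →
      σ.ker = ⊥ := by
  intro n
  induction n using Nat.strong_induction_on with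
  | _ n ih =>
    intro Γ _ _ σ hn hσ
    by_contra hne
    haveI : Nontrivial σ.ker := (Subgroup.nontrivial_iff_ne_bot _).2 hne
    obtain ⟨p, hp, hdvd⟩ := Nat.exists_prime_and_dvd (Finite.one_lt_card (α := σ.ker)).ne'
    haveI : Fact p.Prime := ⟨hp⟩
    obtain ⟨⟨k, hk⟩, hko⟩ := exists_prime_orderOf_dvd_card' p hdvd
    have hko' : orderOf k = p := (Subgroup.orderOf_mk k hk).symm.trans hko
    let N : Subgroup Γ := Subgroup.zpowers k
    have hNK : N ≤ σ.ker := by
      rw [Subgroup.zpowers_le]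
      exact hk
    haveI hN : N.Normal := by
      constructor
      intro x hx g
      have hc := Subgroup.mem_center_iff.1 (hσ.2.1 (hNK hx)) g
      rw [hc, mul_assoc, mul_inv_cancel, mul_one]
      exact hx
    let τ : Γ ⧸ N →* G := QuotientGroup.lift N σ hNK
    have hτ : ∀ x : Γ, τ (x : Γ ⧸ N) = σ x := fun x => rfl
    have hcardN : Nat.card N = p := by
      change Nat.card (Subgroup.zpowers k) = p
      rw [Nat.card_zpowers, hko']
    have hst : IsStemExtension τ := by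
      refine ⟨?_, ?_, ?_⟩
      · intro g
        obtain ⟨x, rfl⟩ := hσ.1 g
        exact ⟨(x : Γ ⧸ N), rfl⟩
      · intro q hq
        obtain ⟨x, rfl⟩ := QuotientGroup.mk_surjective q
        have hx : σ x = 1 := hq
        rw [Subgroup.mem_center_iff]
        intro q'
        obtain ⟨y, rfl⟩ := QuotientGroup.mk_surjective q'
        rw [← QuotientGroup.mk_mul, ← QuotientGroup.mk_mul, Subgroup.mem_center_iff.1 (hσ.2.1 hx) y]
      · intro q hq
        obtain ⟨x, rfl⟩ := QuotientGroup.mk_surjective q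
        have hx : x ∈ commutator Γ := hσ.2.2 hq
        have hle : (commutator Γ).map (QuotientGroup.mk' N) ≤ commutator (Γ ⧸ N) := by
          rw [_root_.commutator_def, _root_.commutator_def, Subgroup.map_commutator]
          exact Subgroup.commutator_mono le_top le_top
        exact hle ⟨x, hx, rfl⟩
    have hlt : Nat.card (Γ ⧸ N) < n := by
      have h1 := Subgroup.card_mul_index N
      rw [hcardN] at h1
      have h2 : Nat.card (Γ ⧸ N) = N.index := rfl
      rw [h2, ← hn]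
      have h3 := hp.two_le
      have h4 : 0 < N.index := Nat.pos_of_ne_zero (by
        intro h0
        rw [h0, mul_zero] at h1
        exact (Nat.card_pos (α := Γ)).ne' h1.symm)
      nlinarith
    have hbot := ih _ hlt (Γ ⧸ N) τ rfl hst
    have hKN : σ.ker ≤ N := by
      intro x hx
      have h1 : (x : Γ ⧸ N) ∈ τ.ker := hx
      rw [hbot, Subgroup.mem_bot] at h1
      exact (QuotientGroup.eq_one_iff x).1 h1
    have hKeq : σ.ker = N := le_antisymm hKN hNK
    apply h Γ σ hσ p hp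
    rw [hKeq, hcardN]

variable {F : Type u} [Field F] [Fintype F] {m : ℕ} [CharP F 2] [SzHyp F m]

theorem no_prime_kernel (hm2 : 2 ≤ m) (Γ : Type u) [Group Γ] [Finite Γ] (σ : Γ →* Sz F m)
    (hσ : IsStemExtension σ) (p : ℕ) (hp : p.Prime) : Nat.card σ.ker ≠ p := by
  intro hK
  haveI : Fact p.Prime := ⟨hp⟩
  have hc : ∀ k, σ k = 1 → ∀ x, k * x = x * k := by
    intro k hk x
    exact (Subgroup.mem_center_iff.1 (hσ.2.1 hk) x).symm
  obtain ⟨⟨z, hz⟩, hzo⟩ := exists_prime_orderOf_dvd_card' (G := σ.ker) p (by rw [hK])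
  have hzo' : orderOf z = p := (Subgroup.orderOf_mk z hz).symm.trans hzo
  have hz1 : z ≠ 1 := by
    rintro rfl
    rw [orderOf_one] at hzo'
    exact hp.one_lt.ne hzo'
  by_cases hp2 : p = 2
  · subst hp2
    have h2 : ∀ k, σ k = 1 → k * k = 1 := by
      intro k hk
      have h3 : (⟨k, hk⟩ : σ.ker) ^ 2 = 1 := by
        rw [← hK]
        exact pow_card_eq_one'
      have h4 := congrArg Subtype.val h3
      simpa [pow_two] using h4
    let L : Sz F m → Γ := Function.surjInv hσ.1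
    have hL : ∀ g, σ (L g) = g := Function.surjInv_eq hσ.1
    obtain ⟨β₀, hβ₀⟩ := exists_unit_ne F m
    have C : CD σ L β₀ := ⟨hβ₀, hL, hc, h2,
      fun hx hy => zt_central hm2 hL hc hx hy, fun hx => zt_sq hL hc h2 hx⟩
    obtain ⟨P, hzP, hPm⟩ := Cfsg.Agent.Lib.StemSylow.exists_sylow_over hσ.1 (sylowT F m)
      (hσ.2.1 hz) hzo'
    rw [coe_sylowT] at hPm
    have hPT : ∀ x ∈ (P : Subgroup Γ), ∃ a b : F, σ x = tt a b := by
      intro x hx
      have : σ x ∈ (P : Subgroup Γ).map σ := ⟨x, hx, rfl⟩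
      rw [hPm] at this
      exact this
    have hcom := Cfsg.Agent.Lib.StemSylow.ker_mem_commutator hσ P hz hzP
    -- commutators are values of `xi`
    let W : Subgroup Γ :=
      { carrier := Set.range (xi L β₀)
        one_mem' := ⟨0, C.xi_zero⟩
        mul_mem' := by
          rintro _ _ ⟨b, rfl⟩ ⟨b', rfl⟩
          exact ⟨b + b', C.xi_add' b b'⟩
        inv_mem' := by
          rintro _ ⟨b, rfl⟩
          exact ⟨b, (inv_eq_of_mul_eq_one_left (C.xi_mul_self b)).symm⟩ }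
    have hle : commutator ↥(P : Subgroup Γ) ≤ W.comap (P : Subgroup Γ).subtype := by
      rw [_root_.commutator_def, Subgroup.commutator_le]
      rintro ⟨x, hx⟩ - ⟨y, hy⟩ -
      obtain ⟨a', b', hx'⟩ := hPT x hx
      obtain ⟨a, b, hy'⟩ := hPT y hy
      exact ⟨_, (C.cm_general hx' hy').symm⟩
    obtain ⟨b, hb⟩ := hle hcom
    have hb' : xi L β₀ b = z := hb
    have hσz : σ z = 1 := hz
    rw [← hb', C.xi_map'] at hσz
    have hb0 : b = 0 := (tt_eq_one hσz).2
    rw [hb0, C.xi_zero] at hb'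
    exact hz1 hb'.symm
  · let U : Sylow p (Sz F m) := default
    obtain ⟨P, hzP, hPm⟩ := Cfsg.Agent.Lib.StemSylow.exists_sylow_over hσ.1 U (hσ.2.1 hz) hzo'
    have hcyc : IsCyclic ((P : Subgroup Γ).map σ) := by
      rw [hPm]
      exact isCyclic_sylow hp2 U
    exact hz1 (Cfsg.Agent.Lib.StemSylow.crit_cyclic hσ P hcyc hz hzP)

theorem stem_ker_eq_bot (hm2 : 2 ≤ m) (Γ : Type u) [Group Γ] [Finite Γ] (σ : Γ →* Sz F m)
    (hσ : IsStemExtension σ) : σ.ker = ⊥ :=
  ker_bot_of_prime (fun Γ _ _ σ hσ p hp => no_prime_kernel hm2 Γ σ hσ p hp) _ Γ σ rfl hσ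

end final

end Cfsg.Agent.Lib.SzTorus
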