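import Cfsg.Agent.Lib.DZChev50

/-!
# The Steinberg character is the only character of `p`-defect zero
-/

set_option autoImplicit false
set_option linter.unusedSectionVars false
set_option linter.unusedVariables false
set_option linter.style.haveILetI false

namespace Cfsg.Agent.Lib.StChev50

open Cfsg Cfsg.Lie Cfsg.Agent.Lib.Chev Cfsg.Agent.Lib.StBN50 Cfsg.Agent.Lib.BNPair
open Cfsg.Agent.Lib.CoxLen50 Cfsg.Agent.Lib.DZGG50 Cfsg.Agent.Lib.LamRep50 Cfsg.Agent.Lib.CharBasic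
open scoped ComplexConjugate

variable {F : Type*} [Field F] {T : Tabs} {X : Extra} {R : RootTab} {D : ChevalleyDatum}
  (hF : Full T X R D)

include hF

theorem HH_comm (a b : ↥(HH D F)) : a * b = b * a := by
  obtain ⟨c, hc⟩ := (hF.mem_diagonal_iff).1 (Subgroup.mem_subgroupOf.1 a.2)
  obtain ⟨e, he⟩ := (hF.mem_diagonal_iff).1 (Subgroup.mem_subgroupOf.1 b.2)
  apply Subtype.ext
  apply Subtype.ext
  show a.1.1 * b.1.1 = b.1.1 * a.1.1
  rw [hc, he, tor_mul, tor_mul, mul_comm]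

theorem HH_torsion {p : ℕ} [hp : Fact p.Prime] [CharP F p] [Fintype F] (t : ↥(HH D F)) (k : ℕ)
    (h : t ^ p ^ k = 1) : t = 1 := by
  have hpp := hp.out
  have h1 : orderOf t ∣ p ^ k := orderOf_dvd_of_pow_eq_one h
  obtain ⟨j, -, hj⟩ := (Nat.dvd_prime_pow hpp).1 h1
  rcases Nat.eq_zero_or_pos j with rfl | hj0
  · rw [pow_zero, orderOf_eq_one_iff] at hj
    exact hj
  · exfalso
    have h2 : p ∣ orderOf t := by
      rw [hj]
      exact dvd_pow_self _ hj0.ne'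
    have h3 : orderOf t ∣ Nat.card ↥(HH D F) := orderOf_dvd_natCard t
    rw [card_HH hF] at h3
    exact not_dvd_card_diag hF (p := p) (h2.trans h3)

theorem UU_inf_HH : UU D F ⊓ HH D F = ⊥ := by
  rw [eq_bot_iff]
  rintro g ⟨h1, h2⟩
  have h3 : g.1 ∈ D.posUnipotent F ⊓ D.diagonalSubgroup F :=
    ⟨Subgroup.mem_subgroupOf.1 h1, Subgroup.mem_subgroupOf.1 h2⟩
  rw [hF.U_inf_H, Subgroup.mem_bot] at h3
  exact Subgroup.mem_bot.2 (Subtype.ext h3)

theorem UU_le_B : UU D F ≤ (hF.bnPair F).B := by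
  intro u hu
  exact Subgroup.mem_subgroupOf.2 (hF.c.posUnipotent_le_borel (Subgroup.mem_subgroupOf.1 hu))

theorem HH_le_B : HH D F ≤ (hF.bnPair F).B := by
  intro u hu
  exact Subgroup.mem_subgroupOf.2 (hF.c.diagonal_le_borel (Subgroup.mem_subgroupOf.1 hu))

theorem UU_norm : ∀ b ∈ (hF.bnPair F).B, ∀ u ∈ UU D F, b * u * b⁻¹ ∈ UU D F := by
  intro b hb u hu
  have hb' : b.1 ∈ D.borelSubgroup F := Subgroup.mem_subgroupOf.1 hb
  rw [Subgroup.mem_subgroupOf] at hu ⊢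
  exact (Subgroup.mem_set_normalizer_iff.1 (hF.borel_le_normalizer_U hb') u.1).1 hu

theorem B_split {b : ↥(D.group F)} (hb : b ∈ (hF.bnPair F).B) :
    ∃ u ∈ UU D F, ∃ t ∈ (hF.bnPair F).B ⊓ (hF.bnPair F).N, b = u * t := by
  have hb' : b.1 ∈ D.borelSubgroup F := Subgroup.mem_subgroupOf.1 hb
  obtain ⟨u, hu, h, hh, e⟩ := (hF.mem_borel_iff).1 hb'
  rw [bn_inf hF]
  exact ⟨⟨u, U_le_group hF hu⟩, Subgroup.mem_subgroupOf.2 hu, ⟨h, hF.c.diagonal_le_group hh⟩,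
    Subgroup.mem_subgroupOf.2 hh, Subtype.ext e⟩

theorem B_dec : ∀ b ∈ (hF.bnPair F).B, ∃ t ∈ HH D F, t⁻¹ * b ∈ UU D F := by
  intro b hb
  obtain ⟨u, hu, t, ht, rfl⟩ := B_split hF hb
  rw [bn_inf hF] at ht
  refine ⟨t, ht, ?_⟩
  have h1 := UU_norm hF t⁻¹ ((hF.bnPair F).B.inv_mem (HH_le_B hF ht)) u hu
  rw [inv_inv] at h1
  have e : t⁻¹ * (u * t) = t⁻¹ * u * t := by group
  rw [e]
  exact h1

/-- The data for the Gelfand–Graev argument. -/
theorem exists_borelD {p : ℕ} [hp : Fact p.Prime] [CharP F p] [Fintype F] [Fintype ↥(D.group F)]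
    [Fintype ↥(UU D F)] :
    ∃ (π : ↥(hF.bnPair F).B →* ↥(HH D F)) (ψ : ↥(UU D F) →* ℂˣ),
      BorelD ↥(D.group F) p (hF.bnPair F).B (UU D F) (HH D F) π ψ := by
  classical
  obtain ⟨π, hπT, hπU⟩ := exists_proj (B := (hF.bnPair F).B) (U := UU D F) (T := HH D F)
    (UU_le_B hF) (HH_le_B hF) (UU_norm hF) (B_dec hF) (UU_inf_HH hF)
  obtain ⟨ψ, hψ⟩ := exists_psi hF (F := F)
  obtain ⟨n₀, hn₀, hf, h0⟩ := exists_n00 hF (F := F)
  refine ⟨π, ψ, UU_le_B hF, HH_le_B hF, hπT, hπU, HH_comm hF, isPGroup_UU hF, HH_torsion hF, ?_⟩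
  refine ⟨Nat.card {g : ↥(D.group F) // del (hF.bnPair F) g = pi (hF.bnPair F) n₀}, ?_, ?_⟩
  · rw [card_del_eq, card_chambers hF, pow_lW_w₀ hF hf]
  · apply gg_sum ψ (UU_le_B hF) (fun b hb => B_split hF hb) hn₀
    · intro u hu
      exact Subtype.ext (h0 u.1 u.2 hu)
    · intro n hn hne
      obtain ⟨i, hi⟩ := exists_nondeg hF hf hn hne
      exact ⟨⟨⟨hF.c.xG (D.simple i) (1 : F), hF.c.xG_mem_group (hF.simple_lt i.2) 1⟩,
        Subgroup.mem_subgroupOf.2 (hF.xG_mem_U (hF.simple_lt i.2) (hF.simple_ge i.2) 1)⟩, hi, hψ i _⟩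

/-- The spherical function satisfies the axioms. -/
theorem lamData {p : ℕ} [hp : Fact p.Prime] [CharP F p] [Fintype F] [Fintype ↥(D.group F)]
    [Fintype ↥(UU D F)] [Fintype ↥(hF.bnPair F).B] [Fintype ↥(HH D F)]
    {π : ↥(hF.bnPair F).B →* ↥(HH D F)} {ψ : ↥(UU D F) →* ℂˣ}
    (hD : BorelD ↥(D.group F) p (hF.bnPair F).B (UU D F) (HH D F) π ψ)
    (χ : IrrCharacter ↥(D.group F)) (hχ : ∀ g, p ∣ orderOf g → (χ : ↥(D.group F) → ℂ) g = 0) :
    LamData (hF.bnPair F) (UU D F) (Fintype.card F) (lamF (χ : ↥(D.group F) → ℂ) (UU D F)) := by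
  classical
  obtain ⟨n₀, hn₀, hf, h0⟩ := exists_n00 hF (F := F)
  have h1 := hD.lamF_one hχ
  have hchar : IsCharacter ↥(D.group F) (χ : ↥(D.group F) → ℂ) := IsIrrCharacter.isCharacter χ.2
  refine ⟨Fintype.one_lt_card, UU_le_B hF, UU_norm hF, fun b hb => B_split hF hb, ?_, h1,
    fun u hu g => lamF_left hchar hu g, fun u hu g => lamF_right _ hu g, lam_mul_of_irr χ.2 h1,
    lamF_inv hchar, ?_, card_chambers hF, ⟨_, hf, pow_lW_w₀ hF hf⟩⟩
  · intro u hu g hg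
    obtain ⟨k, hk⟩ := hD.coe_pow_eq_one hu
    have h2 : (⟨g * u * g⁻¹, hg⟩ : ↥(hF.bnPair F).B) ^ p ^ k = 1 := by
      apply Subtype.ext
      simp only [SubmonoidClass.mk_pow, OneMemClass.coe_one]
      rw [conj_pow, hk]
      group
    have h3 : π ⟨g * u * g⁻¹, hg⟩ ^ p ^ k = 1 := by
      rw [← map_pow, h2, map_one]
    have h4 := hD.hTp _ _ h3
    exact (hD.hπU _).1 h4
  · have h2 := lam_schur_of_irr χ.2 h1
    have h3 : (χ : ↥(D.group F) → ℂ) 1 = (Nat.card ↥(UU D F) : ℂ) := by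
      have hc := card_ne (UU D F)
      unfold lamF at h1
      rw [Finset.sum_eq_single (1 : ↥(UU D F))] at h1
      · simp only [OneMemClass.coe_one, mul_one] at h1
        rw [inv_mul_eq_div, div_eq_one_iff_eq hc] at h1
        exact h1
      · intro u _ hu
        rw [one_mul]
        exact hχ _ (hD.orderOf_dvd_of_U hu)
      · simp
    rw [h3] at h2
    rw [eq_div_iff (card_ne (UU D F)), mul_comm]
    exact h2

section lam

variable [Fintype ↥(D.group F)] [Fintype ↥(UU D F)] {q : ℕ} {Lam : ↥(D.group F) → ℂ}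
  (h : LamData (hF.bnPair F) (UU D F) q Lam)

include h

theorem lam_nG [Fintype (WW (hF.bnPair F))] (i : Fin D.rank) {d : F} (hd : d ≠ 0) :
    Lam ⟨hF.c.nG (D.simple i) d, hF.c.nG_mem_group (hF.simple_lt i.2) d⟩ = -((q : ℂ)⁻¹) := by
  have hi := i.2
  have hs := hF.simple_lt hi
  set t : F := d⁻¹ with ht
  have ht0 : t ≠ 0 := inv_ne_zero hd
  set c : F := -t with hc
  have hc0 : c ≠ 0 := neg_ne_zero.2 ht0
  have hcinv : -c⁻¹ = d := by
    rw [hc, ht, inv_neg, inv_inv, neg_neg]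
  -- the elements
  let u : ↥(D.group F) := ⟨hF.c.xG (D.simple i) t, hF.c.xG_mem_group hs t⟩
  have hu : u ∈ UU D F := Subgroup.mem_subgroupOf.2 (hF.xG_mem_U hs (hF.simple_ge hi) t)
  let v : ↥(D.group F) := ⟨hF.c.xG (D.simple i) c⁻¹, hF.c.xG_mem_group hs c⁻¹⟩
  have hv : v ∈ UU D F := Subgroup.mem_subgroupOf.2 (hF.xG_mem_U hs (hF.simple_ge hi) c⁻¹)
  have hsS := sig_mem hF (F := F) (Finset.mem_range.2 hi)
  have e1 : ((sig hF F i * u * (sig hF F i)⁻¹ : ↥(D.group F)) : GL D.Idx F) =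
      hF.c.xG (D.neg (D.simple i)) c := by
    show (sig hF F i : GL D.Idx F) * hF.c.xG (D.simple i) t * ((sig hF F i : GL D.Idx F))⁻¹ = _
    rw [sig_of_lt hF hi, hF.nS_conj_xG hi hs, hF.wf_simple hi, hF.eta_simple hi]
    congr 1
    rw [hc]
    push_cast
    ring
  have hnotB : sig hF F i * u * (sig hF F i)⁻¹ ∉ (hF.bnPair F).B := by
    intro hB
    have h1 : ((sig hF F i * u * (sig hF F i)⁻¹ : ↥(D.group F)) : GL D.Idx F) ∈ D.borelSubgroup F :=
      Subgroup.mem_subgroupOf.1 hB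
    rw [e1] at h1
    have h2 : hF.c.xG (D.neg (D.simple i)) c ∈ D.borelSubgroup F ⊓ D.negUnipotent F :=
      ⟨h1, hF.xG_mem_V (hF.neg_lt_N hs (hF.simple_ge hi)) _⟩
    rw [hF.B_inf_V, Subgroup.mem_bot] at h2
    have h3 := congrArg (fun g : GL D.Idx F => (g : Matrix D.Idx D.Idx F)) h2
    simp only [Checks.coe_xG, Units.val_one] at h3
    exact hc0 ((hF.c.x_eq_one_iff (hF.neg_lt hs) _).1 h3)
  have h4 := h.lam_conj_eq hsS hu hnotB
  have e2 : sig hF F i * u * (sig hF F i)⁻¹ = v * ⟨hF.c.nG (D.simple i) d, hF.c.nG_mem_group hs d⟩ * v := by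
    apply Subtype.ext
    rw [e1, hF.xG_neg_eq (D.simple i) hc0, hcinv]
    rfl
  rw [e2, h.lam_right v hv, h.lam_left v hv] at h4
  exact h4

theorem lam_hG [Fintype (WW (hF.bnPair F))] (hq : q ≠ 0) (i : Fin D.rank) {d : F} (hd : d ≠ 0) :
    Lam ⟨hF.c.hG (D.simple i) d, hF.c.hG_mem_group (hF.simple_lt i.2) d⟩ = 1 := by
  have hs := hF.simple_lt i.2
  have hT : (⟨hF.c.hG (D.simple i) d, hF.c.hG_mem_group hs d⟩ : ↥(D.group F)) ∈
      (hF.bnPair F).B ⊓ (hF.bnPair F).N := by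
    rw [bn_inf hF]
    exact Subgroup.mem_subgroupOf.2 (hF.c.hG_mem_diagonal hs hd)
  have h1 := h.lam_T_mul hT ⟨hF.c.nG (D.simple i) 1, hF.c.nG_mem_group hs 1⟩
  have e : (⟨hF.c.hG (D.simple i) d, hF.c.hG_mem_group hs d⟩ : ↥(D.group F)) *
      ⟨hF.c.nG (D.simple i) 1, hF.c.nG_mem_group hs 1⟩ = ⟨hF.c.nG (D.simple i) d, hF.c.nG_mem_group hs d⟩ :=
    Subtype.ext (hF.c.nG_eq_hG_mul _ d).symm
  rw [e, lam_nG hF h i hd, lam_nG hF h i one_ne_zero] at h1
  have hq' : -((q : ℂ)⁻¹) ≠ 0 := neg_ne_zero.2 (inv_ne_zero (by exact_mod_cast hq))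
  have h2 : Lam ⟨hF.c.hG (D.simple i) d, hF.c.hG_mem_group hs d⟩ * -((q : ℂ)⁻¹) = 1 * -((q : ℂ)⁻¹) := by
    rw [← h1, one_mul]
  exact mul_right_cancel₀ hq' h2

theorem lam_tor [Fintype (WW (hF.bnPair F))] (hq : q ≠ 0) (c : Fin D.rank → Fˣ) :
    Lam ⟨tor R D c, hF.c.diagonal_le_group (hF.tor_mem_diagonal c)⟩ = 1 := by
  classical
  have hmem : ∀ c : Fin D.rank → Fˣ, (⟨tor R D c, hF.c.diagonal_le_group (hF.tor_mem_diagonal c)⟩ : ↥(D.group F)) ∈
      (hF.bnPair F).B ⊓ (hF.bnPair F).N := by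
    intro c
    rw [bn_inf hF]
    exact Subgroup.mem_subgroupOf.2 (hF.tor_mem_diagonal c)
  have hc : c = ∏ i : Fin D.rank, Pi.mulSingle i (c i) := (Finset.univ_prod_mulSingle c).symm
  let f : (Fin D.rank → Fˣ) → Prop := fun c =>
    Lam ⟨tor R D c, hF.c.diagonal_le_group (hF.tor_mem_diagonal c)⟩ = 1
  have key : f (∏ i : Fin D.rank, Pi.mulSingle i (c i)) := by
    apply Finset.prod_induction _ f
    · intro a b ha hb
      show Lam _ = 1
      have h1 := h.lam_T_mul (hmem b) ⟨tor R D a, hF.c.diagonal_le_group (hF.tor_mem_diagonal a)⟩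
      have e : (⟨tor R D b, hF.c.diagonal_le_group (hF.tor_mem_diagonal b)⟩ : ↥(D.group F)) *
          ⟨tor R D a, hF.c.diagonal_le_group (hF.tor_mem_diagonal a)⟩ =
          ⟨tor R D (a * b), hF.c.diagonal_le_group (hF.tor_mem_diagonal (a * b))⟩ := by
        apply Subtype.ext
        show tor R D b * tor R D a = _
        rw [tor_mul, mul_comm]
      rw [e] at h1
      rw [h1, ha, hb, one_mul]
    · show Lam _ = 1
      have e : (⟨tor R D 1, hF.c.diagonal_le_group (hF.tor_mem_diagonal 1)⟩ : ↥(D.group F)) = 1 :=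
        Subtype.ext (tor_one R D)
      rw [e]
      exact h.lam_one
    · intro i _
      show Lam _ = 1
      have e : (⟨tor R D (Pi.mulSingle i (c i)), hF.c.diagonal_le_group (hF.tor_mem_diagonal _)⟩ : ↥(D.group F)) =
          ⟨hF.c.hG (D.simple i) ((c i : Fˣ) : F), hF.c.hG_mem_group (hF.simple_lt i.2) _⟩ :=
        Subtype.ext (hF.hSimple_eq_tor i (c i)).symm
      rw [e]
      exact lam_hG hF h hq i (c i).ne_zero
  rw [← hc] at key
  exact key

theorem lam_HH [Fintype (WW (hF.bnPair F))] (hq : q ≠ 0) (t : ↥(HH D F)) : Lam (t : ↥(D.group F)) = 1 := by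
  obtain ⟨c, hc⟩ := (hF.mem_diagonal_iff).1 (Subgroup.mem_subgroupOf.1 t.2)
  have e : (t : ↥(D.group F)) = ⟨tor R D c, hF.c.diagonal_le_group (hF.tor_mem_diagonal c)⟩ := Subtype.ext hc
  rw [e]
  exact lam_tor hF h hq c

end lam

/-- **The Steinberg character is the unique irreducible character vanishing on `p`-singular
elements.** -/
theorem eq_steinberg_of_vanish {p : ℕ} [hp : Fact p.Prime] [CharP F p] [Fintype F]
    {χ : ↥(D.group F) → ℂ} (hχ : IsIrrCharacter ↥(D.group F) χ)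
    (hv : ∀ g : ↥(D.group F), p ∣ orderOf g → χ g = 0) : χ = D.steinbergCharacter F := by
  classical
  haveI : Fintype ↥(D.group F) := Fintype.ofFinite _
  haveI : Fintype ↥(UU D F) := Fintype.ofFinite _
  haveI : Fintype ↥(HH D F) := Fintype.ofFinite _
  haveI : Fintype ↥(hF.bnPair F).B := Fintype.ofFinite _
  haveI : Fintype (WW (hF.bnPair F)) := Fintype.ofFinite _
  obtain ⟨π, ψ, hD⟩ := exists_borelD hF (F := F) (p := p)
  have hq : Fintype.card F ≠ 0 := Fintype.card_ne_zero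
  have h := hD.unique_of_vanish (fun χ' hχ' t => lam_HH hF (lamData hF hD χ' hχ') hq t)
    ⟨χ, hχ⟩ ⟨D.steinbergCharacter F, isIrr_steinberg hF⟩ hv (fun g hg => steinberg_vanish hF g hg)
  exact congrArg Subtype.val h

end Cfsg.Agent.Lib.StChev50
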