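import Cfsg.Agent.Lib.ChevCent50
import Cfsg.Agent.Lib.DZMain50
import Cfsg.Agent.Lib.SLnBlocks50
import Cfsg.Agent.S0953
import Cfsg.Agent.S0955

/-!
# The `p`-blocks of the Chevalley groups

A Chevalley group over a field of characteristic `p`, whose Dynkin diagram satisfies a mild
spanning condition, has exactly two `p`-blocks.
-/

set_option autoImplicit false
set_option linter.unusedSectionVars false
set_option linter.unusedVariables false
set_option linter.style.haveILetI false

namespace Cfsg.Agent.Lib.ChevBlocks50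

open Cfsg Cfsg.Lie Cfsg.Agent.Lib.Chev Matrix
open Cfsg.Agent.Lib.BorelTits50 Cfsg.Agent.Lib.ChevCent50

section general

variable {G : Type*} [Group G] [Finite G] {p : ℕ} [hp : Fact p.Prime]

/-- A radical `p`-subgroup inside a normal `p`-subgroup of an overgroup of its normaliser is
that `p`-subgroup. -/
theorem eq_of_radical {Q V P : Subgroup G} (hV : IsPGroup p V) (hQV : Q ≤ V)
    (hN : Subgroup.normalizer (Q : Set G) ≤ P) (hPV : P ≤ Subgroup.normalizer (V : Set G))
    (hrad : (pCore p (Subgroup.normalizer (Q : Set G))).map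
      (Subgroup.normalizer (Q : Set G)).subtype = Q) : Q = V := by
  by_contra hne
  have hlt : Q < V := lt_of_le_of_ne hQV hne
  haveI : Group.IsNilpotent ↥V := hV.isNilpotent
  have hcond := Group.normalizerCondition_of_isNilpotent (G := ↥V)
  have hlt' : Q.subgroupOf V < ⊤ := by
    rw [lt_top_iff_ne_top]
    intro h
    apply hne
    apply le_antisymm hQV
    intro v hv
    have : (⟨v, hv⟩ : ↥V) ∈ Q.subgroupOf V := h ▸ Subgroup.mem_top _
    exact Subgroup.mem_subgroupOf.1 this
  obtain ⟨v, hv, hvQ⟩ := SetLike.exists_of_lt (hcond _ hlt')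
  have hvQ' : v.1 ∉ Q := fun h => hvQ (Subgroup.mem_subgroupOf.2 h)
  have h2 : v.1 ∈ Subgroup.normalizer (Q : Set G) := by
    rw [Subgroup.mem_set_normalizer_iff]
    intro q
    have h3 := Subgroup.mem_set_normalizer_iff.1 hv
    constructor
    · intro hq
      have h4 := (h3 ⟨q, hQV hq⟩).1 (Subgroup.mem_subgroupOf.2 hq)
      exact Subgroup.mem_subgroupOf.1 h4
    · intro hq
      have hq' : q ∈ V := by
        have h5 := hQV hq
        have h6 : v.1⁻¹ * (v.1 * q * v.1⁻¹) * v.1 = q := by group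
        rw [← h6]
        exact mul_mem (mul_mem (inv_mem v.2) h5) v.2
      have h4 := (h3 ⟨q, hq'⟩).2 (Subgroup.mem_subgroupOf.2 hq)
      exact Subgroup.mem_subgroupOf.1 h4
  set N := Subgroup.normalizer (Q : Set G) with hNdef
  have hnorm : (V.subgroupOf N).Normal := by
    constructor
    intro w hw n
    rw [Subgroup.mem_subgroupOf] at hw ⊢
    exact (Subgroup.mem_set_normalizer_iff.1 (hPV (hN n.2)) _).1 hw
  have hpg : IsPGroup p (V.subgroupOf N) := hV.comap_subtype
  have h3 := Cfsg.Agent.Lib.PCore.le_pCore hnorm hpg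
  have h4 : (⟨v.1, h2⟩ : ↥N) ∈ pCore p ↥N := h3 (Subgroup.mem_subgroupOf.2 v.2)
  apply hvQ'
  rw [← hrad]
  exact ⟨_, h4, rfl⟩

end general

variable {F : Type*} [Field F] {T : Tabs} {X : Extra} {R : RootTab} {D : ChevalleyDatum}

/-- Conjugation by `g⁻¹`, with values in `GL`. -/
noncomputable def conjG (g : ↥(D.group F)) : ↥(D.group F) →* GL D.Idx F :=
  (D.group F).subtype.comp (MulAut.conj g⁻¹).toMonoidHom

theorem conjG_apply (g z : ↥(D.group F)) : conjG g z = g.1⁻¹ * z.1 * g.1 := by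
  simp [conjG]

/-- A `p'`-element centralizing a nontrivial radical `p`-subgroup is trivial. -/
theorem regular_cent_radical [Fintype F] (hF : Full T X R D) (hS : SpanH D) {p : ℕ}
    [hp : Fact p.Prime] [CharP F p] {Q : Subgroup ↥(D.group F)} (hQ : IsPGroup p Q) (hne : Q ≠ ⊥)
    (hrad : (pCore p (Subgroup.normalizer (Q : Set ↥(D.group F)))).map
      (Subgroup.normalizer (Q : Set ↥(D.group F))).subtype = Q)
    {y : ↥(D.group F)} (hy : y ∈ Subgroup.centralizer (Q : Set ↥(D.group F)))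
    (hreg : ¬ p ∣ orderOf y) : y = 1 := by
  classical
  have hUne : Q.map (D.group F).subtype ≠ ⊥ := by
    intro h
    apply hne
    rwa [Subgroup.map_eq_bot_iff_of_injective _ (D.group F).subtype_injective] at h
  obtain ⟨g, hg, J, ⟨i, hi, hiJ⟩, hN, hUJ⟩ := BorelTits50.borel_tits hF (Q.map (D.group F).subtype)
    (Subgroup.map_subtype_le Q) (hQ.map _) hUne
  set g' : ↥(D.group F) := ⟨g, hg⟩ with hg'
  set V : Subgroup ↥(D.group F) := (D.unipotentRadical F J).comap (conjG g') with hV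
  set P : Subgroup ↥(D.group F) := (D.parabolicSubgroup F J).comap (conjG g') with hP
  have hmemV : ∀ z : ↥(D.group F), z ∈ V ↔ g⁻¹ * z.1 * g ∈ D.unipotentRadical F J := by
    intro z
    rw [hV, Subgroup.mem_comap, conjG_apply]
  have hmemP : ∀ z : ↥(D.group F), z ∈ P ↔ g⁻¹ * z.1 * g ∈ D.parabolicSubgroup F J := by
    intro z
    rw [hP, Subgroup.mem_comap, conjG_apply]
  have hVp : IsPGroup p V := by
    rintro ⟨z, hz⟩
    have h1 := (hmemV z).1 hz
    have h2 := hF.radical_le_U J h1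
    obtain ⟨k, hk⟩ := StChev50.isPGroup_UU (p := p) hF
      (⟨⟨g⁻¹ * z.1 * g, StChev50.U_le_group hF h2⟩, Subgroup.mem_subgroupOf.2 h2⟩ :
        ↥(StChev50.UU D F))
    refine ⟨k, ?_⟩
    have hk1 : (g⁻¹ * z.1 * g) ^ p ^ k = 1 := by
      have := congrArg (fun z : ↥(StChev50.UU D F) => (z.1.1 : GL D.Idx F)) hk
      simpa using this
    apply Subtype.ext
    apply Subtype.ext
    have e : z.1 = g * (g⁻¹ * z.1 * g) * g⁻¹ := by group
    show z.1 ^ p ^ k = 1
    rw [e, conj_pow, hk1]
    group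
  have hQV : Q ≤ V := by
    intro q hq
    rw [hmemV]
    obtain ⟨w, hw, e⟩ := hUJ (Subgroup.mem_map_of_mem _ hq)
    have e2 : g * w * g⁻¹ = q.1 := e
    have e3 : g⁻¹ * q.1 * g = w := by
      rw [← e2]
      group
    rw [e3]
    exact hw
  have hNP : Subgroup.normalizer (Q : Set ↥(D.group F)) ≤ P := by
    intro n hn
    rw [hmemP]
    have h1 : n.1 ∈ Subgroup.normalizer ((Q.map (D.group F).subtype : Subgroup (GL D.Idx F)) :
        Set (GL D.Idx F)) ⊓ D.group F := by
      refine ⟨Subgroup.mem_set_normalizer_iff.2 ?_, n.2⟩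
      intro w
      constructor
      · rintro ⟨q, hq, rfl⟩
        exact ⟨n * q * n⁻¹, (Subgroup.mem_set_normalizer_iff.1 hn q).1 hq, rfl⟩
      · rintro ⟨q, hq, e⟩
        have e1 : (q : GL D.Idx F) = n.1 * w * n.1⁻¹ := e
        have e2 : w = ((n⁻¹ * q * n : ↥(D.group F)) : GL D.Idx F) := by
          show w = n.1⁻¹ * q.1 * n.1
          rw [e1]
          group
        refine ⟨n⁻¹ * q * n, ?_, e2.symm⟩
        have h3 := (Subgroup.mem_set_normalizer_iff.1 (inv_mem hn) q).1 hq
        simpa using h3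
    obtain ⟨w, hw, e⟩ := hN h1
    have e2 : g * w * g⁻¹ = n.1 := e
    have e3 : g⁻¹ * n.1 * g = w := by
      rw [← e2]
      group
    rw [e3]
    exact hw
  have hPV : P ≤ Subgroup.normalizer (V : Set ↥(D.group F)) := by
    intro z hz
    rw [Subgroup.mem_set_normalizer_iff]
    intro v
    show v ∈ V ↔ z * v * z⁻¹ ∈ V
    rw [hmemV, hmemV]
    have h1 := Subgroup.mem_set_normalizer_iff.1 (hF.parabolic_le_normalizer J ((hmemP z).1 hz))
      (g⁻¹ * v.1 * g)
    have e : g⁻¹ * ((z * v * z⁻¹ : ↥(D.group F)) : GL D.Idx F) * g =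
        (g⁻¹ * z.1 * g) * (g⁻¹ * v.1 * g) * (g⁻¹ * z.1 * g)⁻¹ := by
      show g⁻¹ * (z.1 * v.1 * z.1⁻¹) * g = _
      group
    rw [e]
    exact h1
  have hEq : Q = V := eq_of_radical hVp hQV hNP hPV hrad
  have hcent : ∀ v ∈ D.unipotentRadical F J,
      (g⁻¹ * y.1 * g) * v * (g⁻¹ * y.1 * g)⁻¹ = v := by
    intro v hv
    have hvG : v ∈ D.group F := StChev50.U_le_group hF (hF.radical_le_U J hv)
    set q : ↥(D.group F) := ⟨g * v * g⁻¹, mul_mem (mul_mem hg hvG) (inv_mem hg)⟩ with hq
    have hqV : q ∈ V := by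
      rw [hmemV]
      have e : g⁻¹ * q.1 * g = v := by
        show g⁻¹ * (g * v * g⁻¹) * g = v
        group
      rw [e]
      exact hv
    rw [← hEq] at hqV
    have h1 := Subgroup.mem_centralizer_iff.1 hy q hqV
    have h2 : (g * v * g⁻¹) * y.1 = y.1 * (g * v * g⁻¹) := congrArg Subtype.val h1
    calc (g⁻¹ * y.1 * g) * v * (g⁻¹ * y.1 * g)⁻¹
        = g⁻¹ * (y.1 * (g * v * g⁻¹)) * y.1⁻¹ * g := by group
      _ = g⁻¹ * ((g * v * g⁻¹) * y.1) * y.1⁻¹ * g := by rw [h2]
      _ = v := by group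
  have hreg' : ¬ p ∣ orderOf (g⁻¹ * y.1 * g) := by
    have e : g⁻¹ * y.1 * g = (MulAut.conj g⁻¹) y.1 := by
      simp
    rw [e, MulEquiv.orderOf_eq, Subgroup.orderOf_coe]
    exact hreg
  have h1 := eq_one_of_centralizes hF hS hi hiJ
    (mul_mem (mul_mem (inv_mem hg) y.2) hg) hcent hreg'
  apply Subtype.ext
  have e : y.1 = g * (g⁻¹ * y.1 * g) * g⁻¹ := by group
  show y.1 = 1
  rw [e, h1]
  group

/-- **The dichotomy for defect groups.** -/
theorem defect_dichotomy [Fintype F] (hF : Full T X R D) (hS : SpanH D) {p : ℕ}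
    [hp : Fact p.Prime] [CharP F p] {M : Ideal AlgInt} (hM : IsPModular p M)
    (B : Set (IrrCharacter ↥(D.group F))) (hB : IsPBlock M B) (Q : Subgroup ↥(D.group F))
    (hQ : IsDefectGroup p M B Q) (hne : Q ≠ ⊥) : IsPGroup p Q ∧ ¬ p ∣ Q.index := by
  classical
  obtain ⟨g, hg, P, hPD⟩ := id hQ
  have hreg := Cfsg.Agent.Lib.BlkDefect.regular_of_isDefectClass hM hB hg
  have hrad := Cfsg.Agent.S0955.result p M hM B hB Q hQ
  have hDp : IsPGroup p Q := by
    rw [hPD]
    exact P.isPGroup'.map _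
  have hcent : g ∈ Subgroup.centralizer (Q : Set ↥(D.group F)) := by
    rw [Subgroup.mem_centralizer_iff]
    intro d hd
    rw [hPD] at hd
    obtain ⟨x, -, rfl⟩ := hd
    have := x.2
    rw [Subgroup.mem_centralizer_singleton_iff] at this
    exact this
  have hg1 := regular_cent_radical hF hS hDp hne hrad hcent hreg
  refine ⟨hDp, ?_⟩
  have htop : Subgroup.centralizer ({g} : Set ↥(D.group F)) = ⊤ := by
    rw [eq_top_iff, hg1]
    intro x _
    rw [Subgroup.mem_centralizer_singleton_iff]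
    simp
  have h1 : (Subgroup.centralizer ({g} : Set ↥(D.group F))).index = 1 := by
    rw [htop, Subgroup.index_top]
  rw [hPD, Subgroup.index_map_subtype, h1, mul_one]
  exact P.not_dvd_index

theorem N_pos (hF : Full T X R D) (hr : 0 < D.rank) : 0 < R.N := by
  have h1 := hF.simple_lt hr
  have h2 := hF.two
  omega

/-- `p` divides the order of the group. -/
theorem dvd_card [Fintype F] (hF : Full T X R D) (hr : 0 < D.rank) {p : ℕ} [hp : Fact p.Prime]
    [CharP F p] : p ∣ Nat.card ↥(D.group F) := by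
  by_contra h
  have h1 := StChev50.p_part (p := p) (F := F) hF
  rw [Nat.factorization_eq_zero_of_not_dvd h, pow_zero] at h1
  have h2 : 1 < Fintype.card F ^ R.N :=
    Nat.one_lt_pow (N_pos hF hr).ne' Fintype.one_lt_card
  omega

/-- The Steinberg character has defect zero. -/
theorem exists_defect_zero [Fintype F] (hF : Full T X R D) {p : ℕ} [hp : Fact p.Prime] [CharP F p] :
    ∃ χ : IrrCharacter ↥(D.group F), ¬ p ∣ Nat.card ↥(D.group F) / charDegree (χ : ↥(D.group F) → ℂ) := by
  refine ⟨⟨D.steinbergCharacter F, StChev50.isIrr_steinberg hF⟩, ?_⟩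
  have h1 : charDegree (D.steinbergCharacter F : ↥(D.group F) → ℂ) = Fintype.card F ^ R.N := by
    unfold charDegree
    rw [StChev50.steinberg_one hF, hF.two]
    have h2 : 2 * R.N / 2 = R.N := by omega
    rw [h2]
    have h3 : ((Fintype.card F : ℂ) ^ R.N) = ((Fintype.card F ^ R.N : ℕ) : ℂ) := by push_cast; rfl
    rw [h3, Complex.natCast_re]
    exact Nat.floor_natCast _
  show ¬ p ∣ Nat.card ↥(D.group F) / charDegree (D.steinbergCharacter F : ↥(D.group F) → ℂ)
  rw [h1, ← StChev50.p_part (p := p) hF]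
  exact Nat.not_dvd_ordCompl hp.out Nat.card_pos.ne'

/-- The character of defect zero is unique. -/
theorem defect_zero_unique [Fintype F] (hF : Full T X R D) {p : ℕ} [hp : Fact p.Prime] [CharP F p]
    (χ χ' : IrrCharacter ↥(D.group F))
    (h : ¬ p ∣ Nat.card ↥(D.group F) / charDegree (χ : ↥(D.group F) → ℂ))
    (h' : ¬ p ∣ Nat.card ↥(D.group F) / charDegree (χ' : ↥(D.group F) → ℂ)) : χ = χ' := by
  apply Subtype.ext
  rw [StChev50.eq_steinberg_of_vanish (p := p) hF χ.2
      (Cfsg.Agent.Lib.SLnSteinberg50.vanish_of_not_dvd hp.out χ h),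
    StChev50.eq_steinberg_of_vanish (p := p) hF χ'.2
      (Cfsg.Agent.Lib.SLnSteinberg50.vanish_of_not_dvd hp.out χ' h')]

/-- The classes of `p'`-elements of `N(P)` centralizing a Sylow subgroup. -/
theorem card_classes [Fintype F] (hF : Full T X R D) (hS : SpanH D) (hr : 0 < D.rank) {p : ℕ}
    [hp : Fact p.Prime] [CharP F p] (P : Sylow p ↥(D.group F)) :
    Nat.card {C : ConjClasses (Subgroup.normalizer ((P : Subgroup ↥(D.group F)) : Set ↥(D.group F))) //
      ∀ x : Subgroup.normalizer ((P : Subgroup ↥(D.group F)) : Set ↥(D.group F)),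
        ConjClasses.mk x = C →
        ¬ p ∣ orderOf x ∧ (x : ↥(D.group F)) ∈
          Subgroup.centralizer ((P : Subgroup ↥(D.group F)) : Set ↥(D.group F))} = 1 := by
  classical
  have hPne : ((P : Subgroup ↥(D.group F))) ≠ ⊥ := by
    intro h
    have := P.not_dvd_index
    rw [h, Subgroup.index_bot] at this
    exact this (dvd_card hF hr)
  have hrad := Cfsg.Agent.Lib.SLnBlocks50.radical_of_sylow P
  set N := Subgroup.normalizer ((P : Subgroup ↥(D.group F)) : Set ↥(D.group F)) with hN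
  have hone : ∀ x : N, ¬ p ∣ orderOf x → (x : ↥(D.group F)) ∈
      Subgroup.centralizer ((P : Subgroup ↥(D.group F)) : Set ↥(D.group F)) → x = 1 := by
    intro x h1 h2
    rw [← Subgroup.orderOf_coe] at h1
    exact Subtype.ext (regular_cent_radical hF hS P.isPGroup' hPne hrad h2 h1)
  rw [Nat.card_eq_one_iff_unique]
  constructor
  · constructor
    rintro ⟨C, hC⟩ ⟨C', hC'⟩
    apply Subtype.ext
    obtain ⟨x, rfl⟩ := ConjClasses.mk_surjective C
    obtain ⟨x', rfl⟩ := ConjClasses.mk_surjective C'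
    have h1 := hC x rfl
    have h2 := hC' x' rfl
    show ConjClasses.mk x = ConjClasses.mk x'
    rw [hone x h1.1 h1.2, hone x' h2.1 h2.2]
  · refine ⟨⟨ConjClasses.mk 1, ?_⟩⟩
    intro x hx
    have h1 : x = 1 := by
      have := ConjClasses.mk_eq_mk_iff_isConj.1 hx
      exact isConj_one_right.1 this.symm
    subst h1
    refine ⟨?_, one_mem _⟩
    rw [orderOf_one]
    intro h
    exact hp.out.one_lt.ne' (Nat.dvd_one.1 h)

/-- **The number of `p`-blocks.** -/
theorem card_blocks [Fintype F] (hF : Full T X R D) (hS : SpanH D) (hr : 0 < D.rank) {p : ℕ}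
    [hp : Fact p.Prime] [CharP F p] {M : Ideal AlgInt} (hM : IsPModular p M) :
    Nat.card {B : Set (IrrCharacter ↥(D.group F)) // IsPBlock M B} = 2 := by
  obtain ⟨P⟩ : Nonempty (Sylow p ↥(D.group F)) := inferInstance
  have h1 := Cfsg.Agent.Lib.SLnBlocks50.card_blocks_general (M := M) hM
    (defect_dichotomy hF hS hM) (exists_defect_zero hF) (defect_zero_unique hF)
    (dvd_card hF hr) P
  rw [h1, Cfsg.Agent.S0953.result p M hM P, card_classes hF hS hr P]

end Cfsg.Agent.Lib.ChevBlocks50
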