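import Cfsg.Agent.Lib.ChevTorTab
import Cfsg.Agent.Lib.Chev.RootG2
import Cfsg.Agent.Lib.Chev.RelG2

/-!
# Tables for the lifts of root elements in type G2
-/

set_option autoImplicit false

namespace Cfsg.Agent.Lib.ChevTorG2

open Cfsg.Lie Cfsg.Agent.Lib.Chev Cfsg.Agent.Lib.ChevBL Cfsg.Agent.Lib.ChevTorTab
open Cfsg.Agent.Lib.Chev.TabG2 Cfsg.Agent.Lib.Chev.RootG2T

def dual : List (List ℤ) := [[0, -1], [0, 1], [-1, 0], [0, -1], [0, 1], [1, 1], [-1, -1], [0, -1], [-1, 0], [1, 0], [0, -1], [0, 1]]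

def witV : List (List (List ℤ)) := [[[], [], [], [], [], [], [], [], [], [], [], []], [[], [], [], [], [], [], [], [], [], [], [], []], [[], [], [], [], [], [], [], [], [], [], [], []], [[], [], [], [], [], [], [], [], [], [], [], []], [[], [], [], [], [], [], [], [], [], [], [], []], [[], [], [], [], [], [], [], [], [], [], [], []], [[], [], [], [], [], [], [], [1, 2], [-1, -1], [0, 1], [1, 3], [-1, 0]], [[], [], [], [], [], [], [], [], [1, 1], [0, -1], [-1, -3], [1, 0]], [[], [], [], [], [], [], [], [], [], [0, 1], [1, 3], [-1, 0]], [[], [], [], [], [], [], [], [], [], [], [1, 3], [1, 0]], [[], [], [], [], [], [], [], [], [], [], [], [1, 0]], [[], [], [], [], [], [], [], [], [], [], [], []]]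

def words : List (List ℕ) := [[], [0, 1, 0, 1, 0], [1, 0, 1], [1, 0], [1, 0, 1, 0, 1], [1], [0, 1, 0], [0], [0, 1], [1, 0, 1, 0], [0, 1, 0, 1], [1, 0, 1, 0, 1, 0]]

theorem dual_ok : dualOk chevG2 dual = true := by decide +kernel

theorem wit_ok : witOk R chevG2 witV [1, 2, 3] = true := by decide +kernel

set_option maxRecDepth 100000 in
theorem tab_ok : tabOk X R chevG2 words = true := by decide +kernel

theorem brChk_ok : ∀ e ∈ R.braid, brChk X chevG2 e.1 e.2.1 e.2.2.1 = true := by decide +kernel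

end Cfsg.Agent.Lib.ChevTorG2
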