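import Mathlib
import Cfsg.Prelude.Def_ChevWords
import Cfsg.Prelude.Def_ChevF4

set_option autoImplicit false

/-!
# Reflection for the adjoint action of Chevalley root elements

For a tabulated datum `D`, the columns of `x_r(t)` as sparse lists of monomials in `t`, and the
structure constants of the Lie algebra read off the tables, as computable lists of natural-number
coded coordinates; and a Boolean test that `x_r(t)` is an automorphism of the bracket.
-/

namespace Cfsg.Agent.Lib.ChevLieCheck

open Cfsg.Lie

variable (D : ChevalleyDatum)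

/-- A monomial `c t^p` at coordinate `k`: `(k, p, c)`. -/
abbrev Term := ℕ × ℕ × ℤ

/-- Number of coordinates. -/
def dimN : ℕ := D.rank + D.nroots

/-- The chain part of the column of `x_r(t)` at `e_s`. -/
def chainCol (r s : ℕ) : List Term :=
  ((D.chain.getD r #[]).toList.filter (fun e => e.1 = s)).flatMap fun e =>
    (e.2.toList.zipIdx).map fun q => (D.rank + q.1.1, q.2 + 1, q.1.2)

/-- The column of `x_r(t)` with coded index `col`, as a list of monomials. -/
def xCol (r col : ℕ) : List Term :=
  if dimN D ≤ col then [] else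
  if col < D.rank then
    [(col, 0, 1), (D.rank + r, 1, - (D.cartanSR.getD col #[]).getD r 0)]
  else
    let s := col - D.rank
    if s = r then [(col, 0, 1)]
    else if s = D.negIdx.getD r 0 then
      (List.range D.rank).map (fun i => (i, 1, (D.coroot.getD r #[]).getD i 0)) ++
        [(col, 0, 1), (D.rank + r, 2, -1)]
    else (col, 0, 1) :: chainCol D r s

/-- The structure constants: `[b_a, b_b]` as a list of (coordinate, coefficient). -/
def brk (a b : ℕ) : List (ℕ × ℤ) :=
  if dimN D ≤ a ∨ dimN D ≤ b then [] else
  if a < D.rank then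
    if b < D.rank then [] else [(b, (D.cartanSR.getD a #[]).getD (b - D.rank) 0)]
  else if b < D.rank then [(a, - (D.cartanSR.getD b #[]).getD (a - D.rank) 0)]
  else
    let r := a - D.rank
    let s := b - D.rank
    if s = D.negIdx.getD r 0 then
      (List.range D.rank).map (fun i => (i, (D.coroot.getD r #[]).getD i 0))
    else
      match (D.chain.getD r #[]).toList.find? (fun e => e.1 = s) with
      | none => []
      | some e =>
        match e.2.toList with
        | [] => []
        | q :: _ => [(D.rank + q.1, q.2)]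

/-- `x_r(t)` applied to the vector `Σ c b_k` (list `l`). -/
def applyList (r : ℕ) (l : List (ℕ × ℤ)) : List Term :=
  l.flatMap fun e => (xCol D r e.1).map fun f => (f.1, f.2.1, e.2 * f.2.2)

/-- The bracket of two monomial vectors. -/
def pairList (l₁ l₂ : List Term) : List Term :=
  l₁.flatMap fun e => l₂.flatMap fun f =>
    (brk D e.1 f.1).map fun g => (g.1, e.2.1 + f.2.1, e.2.2 * f.2.2 * g.2)

/-- Sum of the coefficients of the monomials with coordinate `k` and power `p`. -/
def sumAt (l : List Term) (k p : ℕ) : ℤ :=
  l.foldr (fun e acc => if e.1 = k ∧ e.2.1 = p then e.2.2 + acc else acc) 0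

/-- The two lists of monomials have equal coefficients. -/
def sameSum (l₁ l₂ : List Term) : Bool :=
  (l₁ ++ l₂).all fun e => sumAt l₁ e.1 e.2.1 == sumAt l₂ e.1 e.2.1

/-- `x_r(t)` respects the bracket of `b_a, b_b`. -/
def autPair (r a b : ℕ) : Bool :=
  sameSum (applyList D r (brk D a b)) (pairList D (xCol D r a) (xCol D r b))

/-- `x_r(t)` respects the bracket on all basis pairs. -/
def autRoot (r : ℕ) : Bool :=
  (List.range (dimN D)).all fun a => (List.range (dimN D)).all fun b => autPair D r a b


/-! ### Semantics -/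

section Semantics

variable {D}
variable {F : Type*} [Field F]

/-- Natural-number code of a coordinate. -/
def code : D.Idx → ℕ
  | .inl i => i.val
  | .inr u => D.rank + u.val

lemma code_lt (i : D.Idx) : code i < dimN D := by
  cases i with
  | inl i => exact lt_of_lt_of_le i.isLt (Nat.le_add_right _ _)
  | inr u => exact Nat.add_lt_add_left u.isLt _

lemma code_injective : Function.Injective (code (D := D)) := by
  intro i j h
  cases i with
  | inl i =>
    cases j with
    | inl j => simpa [code, Fin.ext_iff] using h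
    | inr u =>
      have := i.isLt
      simp only [code] at h
      omega
  | inr u =>
    cases j with
    | inl j =>
      have := j.isLt
      simp only [code] at h
      omega
    | inr v =>
      simp only [code] at h
      congr 1
      exact Fin.ext (by omega)

lemma exists_code {k : ℕ} (hk : k < dimN D) : ∃ i : D.Idx, code i = k := by
  by_cases h : k < D.rank
  · exact ⟨.inl ⟨k, h⟩, rfl⟩
  · refine ⟨.inr ⟨k - D.rank, ?_⟩, ?_⟩
    · unfold dimN at hk; omega
    · simp only [code]; omega

/-- The basis vector with coded index `k` (the zero vector out of range). -/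
def cv (k : ℕ) : D.Idx → F := fun i => if code i = k then 1 else 0

lemma cv_code (i : D.Idx) : (cv (code i) : D.Idx → F) = Pi.single i 1 := by
  classical
  ext j
  simp only [cv, Pi.single_apply]
  by_cases h : j = i
  · simp [h]
  · have : code j ≠ code i := fun h' => h (code_injective h')
    simp [h, this]

lemma cv_of_ge {k : ℕ} (hk : dimN D ≤ k) : (cv k : D.Idx → F) = 0 := by
  ext j
  have := code_lt j
  have hne : code j ≠ k := by omega
  simp [cv, hne]

/-- The value of a monomial at `t`. -/
def monoVal (t : F) (e : Term) : F := ((e.2.2 : ℤ) : F) * t ^ e.2.1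

/-- The vector of a list of monomials. -/
def vec (t : F) (l : List Term) : D.Idx → F := (l.map fun e => monoVal t e • cv e.1).sum

/-- The vector of a list of (coordinate, coefficient). -/
def bvec (l : List (ℕ × ℤ)) : D.Idx → F := (l.map fun e => ((e.2 : ℤ) : F) • cv e.1).sum

@[simp] lemma vec_nil (t : F) : vec t ([] : List Term) = (0 : D.Idx → F) := rfl
@[simp] lemma vec_cons (t : F) (e : Term) (l : List Term) :
    (vec t (e :: l) : D.Idx → F) = monoVal t e • cv e.1 + vec t l := by
  simp [vec]
@[simp] lemma vec_append (t : F) (l₁ l₂ : List Term) :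
    (vec t (l₁ ++ l₂) : D.Idx → F) = vec t l₁ + vec t l₂ := by
  simp [vec]
@[simp] lemma bvec_nil : bvec ([] : List (ℕ × ℤ)) = (0 : D.Idx → F) := rfl
@[simp] lemma bvec_cons (e : ℕ × ℤ) (l : List (ℕ × ℤ)) :
    (bvec (e :: l) : D.Idx → F) = ((e.2 : ℤ) : F) • cv e.1 + bvec l := by
  simp [bvec]

/-- Coordinates of `vec`. -/
lemma vec_apply (t : F) (l : List Term) (i : D.Idx) :
    (vec t l : D.Idx → F) i = ((l.filter (fun e => code i = e.1)).map (monoVal t)).sum := by
  induction l with
  | nil => simp
  | cons e l ih =>
    by_cases h : code i = e.1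
    · simp [vec_cons, cv, h, ih]
    · simp [vec_cons, cv, h, ih]


lemma vec_range_sum (t : F) (c : ℕ → ℤ) (n : ℕ) (x : D.Idx) :
    (vec t ((List.range n).map (fun j => ((j, 1, c j) : Term))) : D.Idx → F) x
      = ∑ j ∈ Finset.range n, ((c j : ℤ) : F) * t * (cv j : D.Idx → F) x := by
  induction n with
  | zero => simp
  | succ n ih =>
    rw [List.range_succ, List.map_append, vec_append, Pi.add_apply, ih, Finset.sum_range_succ]
    simp [monoVal]

lemma vec_range_inl (t : F) (c : ℕ → ℤ) (i : Fin D.rank) :
    (vec t ((List.range D.rank).map (fun j => ((j, 1, c j) : Term))) : D.Idx → F) (.inl i)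
      = ((c i : ℤ) : F) * t := by
  rw [vec_range_sum, Finset.sum_eq_single i.val]
  · simp [cv, code]
  · intro b _ hb
    have : ¬ (i.val = b) := fun h => hb h.symm
    simp [cv, code, this]
  · intro h
    exact absurd (Finset.mem_range.mpr i.isLt) h

lemma vec_range_inr (t : F) (c : ℕ → ℤ) (u : Fin D.nroots) :
    (vec t ((List.range D.rank).map (fun j => ((j, 1, c j) : Term))) : D.Idx → F) (.inr u) = 0 := by
  rw [vec_range_sum]
  apply Finset.sum_eq_zero
  intro j hj
  have hj' := Finset.mem_range.mp hj
  have : ¬ (D.rank + u.val = j) := by omega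
  simp [cv, code, this]

lemma vec_chainCol_inl (t : F) (r s : ℕ) (i : Fin D.rank) :
    (vec t (chainCol D r s) : D.Idx → F) (.inl i) = 0 := by
  rw [vec_apply]
  have : ((chainCol D r s).filter (fun e => code (D := D) (.inl i) = e.1)) = [] := by
    rw [List.filter_eq_nil_iff]
    intro e he
    simp only [chainCol, List.mem_flatMap, List.mem_map, List.mem_filter] at he
    obtain ⟨a, _, q, _, rfl⟩ := he
    have := i.isLt
    have h : ¬ (i.val = D.rank + q.1.1) := by omega
    simp only [code, Bool.not_eq_true]
    exact decide_eq_false h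
  rw [this]; simp

lemma chainCol_aux (t : F) (rk u : ℕ) (Q : List ((ℕ × ℤ) × ℕ)) :
    (((Q.map (fun q => ((rk + q.1.1, q.2 + 1, q.1.2) : Term))).filter
      (fun e => decide (rk + u = e.1))).map (monoVal t)).sum
    = (((Q.filter (fun q => decide (q.1.1 = u))).map (fun q => (q.2 + 1, q.1.2))).map
        (fun km : ℕ × ℤ => ((km.2 : ℤ) : F) * t ^ km.1)).sum := by
  induction Q with
  | nil => rfl
  | cons q Q ih =>
    by_cases hq : q.1.1 = u
    · rw [List.map_cons, List.filter_cons_of_pos (by simp [hq]),
        List.filter_cons_of_pos (by simp [hq]), List.map_cons, List.map_cons, List.map_cons,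
        List.sum_cons, List.sum_cons, ih]
      simp [monoVal]
    · have h2 : ¬ (u = q.1.1) := fun h => hq h.symm
      rw [List.map_cons, List.filter_cons_of_neg (by simp [h2]),
        List.filter_cons_of_neg (by simp [hq]), ih]

lemma vec_chainCol_inr (t : F) (r s : ℕ) (u : Fin D.nroots) :
    (vec t (chainCol D r s) : D.Idx → F) (.inr u)
      = ((D.chainCoeff r s u.val).map fun km => ((km.2 : ℤ) : F) * t ^ km.1).sum := by
  rw [vec_apply]
  unfold chainCol ChevalleyDatum.chainCoeff
  generalize ((D.chain.getD r #[]).toList.filter (fun e => e.1 = s)) = E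
  induction E with
  | nil => simp
  | cons a E ih =>
    simp only [List.flatMap_cons, List.filter_append, List.map_append, List.sum_append, ih]
    congr 1
    exact chainCol_aux t D.rank u.val a.2.toList.zipIdx

@[simp] lemma cv_inl (k : ℕ) (i : Fin D.rank) :
    (cv k : D.Idx → F) (.inl i) = if i.val = k then 1 else 0 := rfl

@[simp] lemma cv_inr (k : ℕ) (u : Fin D.nroots) :
    (cv k : D.Idx → F) (.inr u) = if D.rank + u.val = k then 1 else 0 := rfl

lemma xMat_apply (r : Fin D.nroots) (t : F) (row col : D.Idx) :
    D.xMat F r t row col = (vec t (xCol D r.val (code col)) : D.Idx → F) row := by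
  have hlt := code_lt (D := D) col
  unfold xCol
  rw [if_neg (by omega)]
  cases col with
  | inl i =>
    have hi : code (D := D) (.inl i) = i.val := rfl
    rw [hi, if_pos i.isLt]
    cases row with
    | inl i' =>
      have h2 : ¬ (i'.val = D.rank + r.val) := by have := i'.isLt; omega
      by_cases h : i' = i
      · subst h
        simp [ChevalleyDatum.xMat, monoVal, h2]
      · have h1 : ¬ (i'.val = i.val) := fun h' => h (Fin.ext h')
        simp [ChevalleyDatum.xMat, monoVal, h2, h, h1]
    | inr u =>
      have h2 : ¬ (D.rank + u.val = i.val) := by have := i.isLt; omega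
      by_cases h : u = r
      · subst h
        simp [ChevalleyDatum.xMat, monoVal, h2]
      · have h1 : ¬ (u.val = r.val) := fun h' => h (Fin.ext h')
        simp [ChevalleyDatum.xMat, monoVal, h2, h, h1]
  | inr s =>
    have hs : code (D := D) (.inr s) = D.rank + s.val := rfl
    rw [hs, if_neg (by omega)]
    simp only [Nat.add_sub_cancel_left]
    by_cases h1 : s.val = r.val
    · have h1' : s = r := Fin.ext h1
      subst h1'
      rw [if_pos rfl]
      cases row with
      | inl i =>
        have h2 : ¬ (i.val = D.rank + s.val) := by have := i.isLt; omega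
        simp [ChevalleyDatum.xMat, monoVal, h2]
      | inr u =>
        by_cases h : u = s
        · subst h
          simp [ChevalleyDatum.xMat, monoVal]
        · have h3 : ¬ (u.val = s.val) := fun h' => h (Fin.ext h')
          simp [ChevalleyDatum.xMat, monoVal, h, h3]
    · rw [if_neg h1]
      have h1' : s ≠ r := fun h => h1 (congrArg _ h)
      have hgetD : D.negIdx.getD r.val 0 = D.negIdx[r.val]?.getD 0 := by simp
      by_cases h4 : s.val = D.negIdx.getD r.val 0
      · rw [if_pos h4]
        have h4' : s.val = D.negIdx[r.val]?.getD 0 := by rw [← hgetD]; exact h4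
        cases row with
        | inl i =>
          have h2 : ¬ (i.val = D.rank + s.val) := by have := i.isLt; omega
          have h3 : ¬ (i.val = D.rank + r.val) := by have := i.isLt; omega
          rw [vec_append, Pi.add_apply, vec_range_inl]
          simp only [ChevalleyDatum.xMat, Matrix.of_apply, h1', if_false, vec_cons, vec_nil,
            Pi.add_apply, Pi.smul_apply, cv_inl, h2, h3, monoVal, if_pos h4]
          simp [mul_comm]
        | inr u =>
          rw [vec_append, Pi.add_apply, vec_range_inr]
          have h3 : (D.rank + u.val = D.rank + s.val) ↔ u = s := by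
            constructor
            · intro h; exact Fin.ext (by omega)
            · intro h; rw [h]
          have h5 : (D.rank + u.val = D.rank + r.val) ↔ u = r := by
            constructor
            · intro h; exact Fin.ext (by omega)
            · intro h; rw [h]
          simp only [ChevalleyDatum.xMat, Matrix.of_apply, h1', if_false, vec_cons, vec_nil,
            Pi.add_apply, Pi.smul_apply, cv_inr, h3, h5, monoVal, if_pos h4]
          by_cases h6 : u = s
          · subst h6
            simp [h1']
          · by_cases h7 : u = r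
            · subst h7
              simp [h6]
            · simp [h6, h7]
      · rw [if_neg h4]
        have h4' : ¬ s.val = D.negIdx[r.val]?.getD 0 := by rw [← hgetD]; exact h4
        cases row with
        | inl i =>
          have h2 : ¬ (i.val = D.rank + s.val) := by have := i.isLt; omega
          rw [vec_cons, Pi.add_apply, vec_chainCol_inl]
          simp only [ChevalleyDatum.xMat, Matrix.of_apply, h1', if_false, Pi.add_apply,
            Pi.smul_apply, cv_inl, h2, monoVal, if_neg h4]
          simp
        | inr u =>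
          rw [vec_cons, Pi.add_apply, vec_chainCol_inr]
          have h3 : (D.rank + u.val = D.rank + s.val) ↔ u = s := by
            constructor
            · intro h; exact Fin.ext (by omega)
            · intro h; rw [h]
          simp only [ChevalleyDatum.xMat, Matrix.of_apply, h1', if_false, Pi.smul_apply,
            cv_inr, h3, monoVal, if_neg h4]
          simp

open Matrix in
lemma xMat_mulVec_cv (r : Fin D.nroots) (t : F) (k : ℕ) :
    D.xMat F r t *ᵥ (cv k : D.Idx → F) = vec t (xCol D r.val k) := by
  classical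
  by_cases hk : dimN D ≤ k
  · rw [cv_of_ge hk]
    unfold xCol
    rw [if_pos hk]
    simp
  · obtain ⟨col, rfl⟩ := exists_code (D := D) (not_le.mp hk)
    rw [cv_code]
    ext row
    rw [Matrix.mulVec_single_one]
    exact xMat_apply r t row col

lemma vec_map_smul (t : F) (c : ℤ) (L : List Term) :
    (vec t (L.map fun f => ((f.1, f.2.1, c * f.2.2) : Term)) : D.Idx → F) = ((c : ℤ) : F) • vec t L := by
  induction L with
  | nil => simp
  | cons f L ih =>
    simp only [List.map_cons, vec_cons, ih, smul_add, smul_smul, monoVal]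
    congr 2
    push_cast
    ring

lemma vec_map_bvec (t : F) (c : ℤ) (p : ℕ) (L : List (ℕ × ℤ)) :
    (vec t (L.map fun g => ((g.1, p, c * g.2) : Term)) : D.Idx → F)
      = (((c : ℤ) : F) * t ^ p) • bvec L := by
  induction L with
  | nil => simp
  | cons g L ih =>
    simp only [List.map_cons, vec_cons, bvec_cons, ih, smul_add, smul_smul, monoVal]
    congr 2
    push_cast
    ring

open Matrix in
lemma xMat_mulVec_bvec (r : Fin D.nroots) (t : F) (l : List (ℕ × ℤ)) :
    D.xMat F r t *ᵥ (bvec l : D.Idx → F) = vec t (applyList D r.val l) := by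
  induction l with
  | nil => simp [applyList]
  | cons e l ih =>
    rw [bvec_cons, Matrix.mulVec_add, Matrix.mulVec_smul, ih, xMat_mulVec_cv]
    simp only [applyList, List.flatMap_cons, vec_append, vec_map_smul]

/-- The bracket on the coordinate space, read off the tables. -/
noncomputable def bk (u v : D.Idx → F) : D.Idx → F :=
  ∑ i, ∑ j, (u i * v j) • (bvec (brk D (code i) (code j)) : D.Idx → F)

lemma bk_add_left (u u' v : D.Idx → F) : bk (u + u') v = bk u v + bk u' v := by
  simp [bk, add_mul, add_smul, Finset.sum_add_distrib]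

lemma bk_add_right (u v v' : D.Idx → F) : bk u (v + v') = bk u v + bk u v' := by
  simp [bk, mul_add, add_smul, Finset.sum_add_distrib]

lemma bk_smul_left (c : F) (u v : D.Idx → F) : bk (c • u) v = c • bk u v := by
  simp [bk, Finset.smul_sum, mul_assoc, mul_smul]

lemma bk_smul_right (c : F) (u v : D.Idx → F) : bk u (c • v) = c • bk u v := by
  simp only [bk, Finset.smul_sum, Pi.smul_apply, smul_eq_mul, smul_smul]
  refine Finset.sum_congr rfl fun i _ => Finset.sum_congr rfl fun j _ => ?_
  congr 1
  ring

@[simp] lemma bk_zero_left (v : D.Idx → F) : bk 0 v = 0 := by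
  simp [bk]

@[simp] lemma bk_zero_right (u : D.Idx → F) : bk u 0 = 0 := by
  simp [bk]

lemma bk_sum_left {ι : Type*} (s : Finset ι) (f : ι → D.Idx → F) (v : D.Idx → F) :
    bk (∑ i ∈ s, f i) v = ∑ i ∈ s, bk (f i) v := by
  classical
  induction s using Finset.induction_on with
  | empty => simp
  | insert a s ha ih => rw [Finset.sum_insert ha, Finset.sum_insert ha, bk_add_left, ih]

lemma bk_sum_right {ι : Type*} (s : Finset ι) (f : ι → D.Idx → F) (u : D.Idx → F) :
    bk u (∑ i ∈ s, f i) = ∑ i ∈ s, bk u (f i) := by
  classical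
  induction s using Finset.induction_on with
  | empty => simp
  | insert a s ha ih => rw [Finset.sum_insert ha, Finset.sum_insert ha, bk_add_right, ih]

lemma bk_cv (a b : ℕ) : (bk (cv a) (cv b) : D.Idx → F) = bvec (brk D a b) := by
  classical
  by_cases ha : dimN D ≤ a
  · rw [cv_of_ge ha, bk_zero_left]
    simp [brk, ha]
  by_cases hb : dimN D ≤ b
  · rw [cv_of_ge hb, bk_zero_right]
    simp [brk, hb]
  obtain ⟨i, rfl⟩ := exists_code (D := D) (not_le.mp ha)
  obtain ⟨j, rfl⟩ := exists_code (D := D) (not_le.mp hb)
  rw [cv_code, cv_code]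
  unfold bk
  rw [Finset.sum_eq_single i, Finset.sum_eq_single j]
  · simp
  · intro b _ hb
    simp [hb]
  · simp
  · intro b _ hb
    simp [hb]
  · simp

lemma bk_cv_vec (t : F) (e : Term) (l₂ : List Term) :
    monoVal t e • (bk (cv e.1) (vec t l₂) : D.Idx → F)
      = vec t (l₂.flatMap fun f => (brk D e.1 f.1).map fun g => (g.1, e.2.1 + f.2.1, e.2.2 * f.2.2 * g.2)) := by
  induction l₂ with
  | nil => simp
  | cons f l₂ ih =>
    rw [vec_cons, bk_add_right, bk_smul_right, bk_cv, smul_add, ih, List.flatMap_cons, vec_append,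
      vec_map_bvec, smul_smul]
    congr 2
    simp only [monoVal]
    push_cast
    ring

lemma bk_vec_vec (t : F) (l₁ l₂ : List Term) :
    (bk (vec t l₁) (vec t l₂) : D.Idx → F) = vec t (pairList D l₁ l₂) := by
  induction l₁ with
  | nil => simp [pairList]
  | cons e l₁ ih =>
    rw [vec_cons, bk_add_left, bk_smul_left, ih, bk_cv_vec]
    simp only [pairList, List.flatMap_cons, vec_append]

/-- The polynomial with the coefficients of the monomials at coordinate `k`. -/
noncomputable def polyOf (l : List Term) (k : ℕ) : Polynomial ℤ :=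
  (l.map fun e => if e.1 = k then Polynomial.C e.2.2 * Polynomial.X ^ e.2.1 else 0).sum

lemma coeff_polyOf (l : List Term) (k n : ℕ) : (polyOf l k).coeff n = sumAt l k n := by
  induction l with
  | nil => simp [polyOf, sumAt]
  | cons e l ih =>
    have h1 : polyOf (e :: l) k = (if e.1 = k then Polynomial.C e.2.2 * Polynomial.X ^ e.2.1 else 0) + polyOf l k := by
      simp [polyOf]
    have h2 : sumAt (e :: l) k n = if e.1 = k ∧ e.2.1 = n then e.2.2 + sumAt l k n else sumAt l k n := rfl
    rw [h1, h2, Polynomial.coeff_add, ih]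
    by_cases h3 : e.1 = k
    · by_cases h4 : e.2.1 = n
      · simp [h3, h4, Polynomial.coeff_C_mul_X_pow]
      · have h5 : ¬ n = e.2.1 := fun h => h4 h.symm
        simp [h3, h4, h5, Polynomial.coeff_C_mul_X_pow]
    · simp [h3]

lemma vec_apply_poly (t : F) (l : List Term) (i : D.Idx) :
    (vec t l : D.Idx → F) i = Polynomial.aeval t (polyOf l (code i)) := by
  induction l with
  | nil => simp [polyOf]
  | cons e l ih =>
    have h1 : polyOf (e :: l) (code i) = (if e.1 = code i then Polynomial.C e.2.2 * Polynomial.X ^ e.2.1 else 0) + polyOf l (code i) := by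
      simp [polyOf]
    rw [h1, map_add, ← ih, vec_cons, Pi.add_apply, Pi.smul_apply]
    congr 1
    by_cases h3 : e.1 = code i
    · have h4 : code i = e.1 := h3.symm
      simp [h3, cv, monoVal]
    · have h4 : ¬ code i = e.1 := fun h => h3 h.symm
      simp [h3, h4, cv]

lemma sumAt_eq_zero (l : List Term) (k p : ℕ) (h : ∀ e ∈ l, ¬ (e.1 = k ∧ e.2.1 = p)) :
    sumAt l k p = 0 := by
  induction l with
  | nil => rfl
  | cons e l ih =>
    have h2 : sumAt (e :: l) k p = if e.1 = k ∧ e.2.1 = p then e.2.2 + sumAt l k p else sumAt l k p := rfl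
    rw [h2, if_neg (h e (List.mem_cons_self)), ih (fun e' he' => h e' (List.mem_cons_of_mem _ he'))]

lemma polyOf_eq_of_sameSum {l₁ l₂ : List Term} (h : sameSum l₁ l₂ = true) (k : ℕ) :
    polyOf l₁ k = polyOf l₂ k := by
  ext n
  rw [coeff_polyOf, coeff_polyOf]
  unfold sameSum at h
  rw [List.all_eq_true] at h
  by_cases hex : ∃ e ∈ l₁ ++ l₂, e.1 = k ∧ e.2.1 = n
  · obtain ⟨e, he, rfl, rfl⟩ := hex
    simpa using h e he
  · rw [sumAt_eq_zero, sumAt_eq_zero]
    · intro e he ⟨h1, h2⟩
      exact hex ⟨e, List.mem_append_right _ he, h1, h2⟩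
    · intro e he ⟨h1, h2⟩
      exact hex ⟨e, List.mem_append_left _ he, h1, h2⟩

lemma vec_eq_of_sameSum {l₁ l₂ : List Term} (h : sameSum l₁ l₂ = true) (t : F) :
    (vec t l₁ : D.Idx → F) = vec t l₂ := by
  ext i
  rw [vec_apply_poly, vec_apply_poly, polyOf_eq_of_sameSum h]

open Matrix in
/-- The Boolean test gives the automorphism property on a pair of basis vectors. -/
lemma xMat_bk_cv (r : Fin D.nroots) (t : F) (a b : ℕ) (h : autPair D r.val a b = true) :
    D.xMat F r t *ᵥ (bk (cv a) (cv b) : D.Idx → F)
      = bk (D.xMat F r t *ᵥ cv a) (D.xMat F r t *ᵥ cv b) := by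
  rw [bk_cv, xMat_mulVec_bvec, xMat_mulVec_cv, xMat_mulVec_cv, bk_vec_vec]
  exact vec_eq_of_sameSum h t

end Semantics

/-! ### An invariant coordinate ideal in characteristic two -/

section Ideal

variable (inS : ℕ → Bool)

/-- All columns of `x_r(t)` at coordinates of `S` stay in `S`, modulo 2. -/
def stabRoot (r : ℕ) : Bool :=
  (List.range (dimN D)).all fun col => !inS col ||
    (xCol D r col).all fun e => inS e.1 || e.2.2 % 2 == 0

/-- `x_r(t)` respects the bracket on all pairs of basis vectors with the second one in `S`. -/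
def autRootS (r : ℕ) : Bool :=
  (List.range (dimN D)).all fun a => (List.range (dimN D)).all fun b => !inS b || autPair D r a b

/-- The coordinate subspace of `S` is an ideal modulo 2. -/
def idealOK : Bool :=
  (List.range (dimN D)).all fun a => (List.range (dimN D)).all fun b => !inS b ||
    (brk D a b).all fun g => inS g.1 || g.2 % 2 == 0

/-- The coefficient at coordinate `k`. -/
def coefAt (l : List (ℕ × ℤ)) (k : ℕ) : ℤ :=
  l.foldr (fun g acc => if g.1 = k then g.2 + acc else acc) 0

/-- A certificate that the centraliser of the ideal is trivial modulo 2. -/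
def certOK (cert : ℕ → List (ℕ × ℕ)) : Bool :=
  (List.range (dimN D)).all fun k =>
    ((cert k).all fun c => inS c.1 && decide (c.1 < dimN D) && decide (c.2 < dimN D)) &&
    (List.range (dimN D)).all fun i =>
      ((cert k).foldr (fun c acc => coefAt (brk D i c.1) c.2 + acc) 0) % 2 == if i = k then 1 else 0

variable {D inS}
variable {F : Type*} [Field F]

/-- Vectors supported on `S`. -/
def Sv (inS : ℕ → Bool) (y : D.Idx → F) : Prop := ∀ i, inS (code i) = false → y i = 0

lemma int_cast_eq_zero_of_mod (h2 : (2 : F) = 0) {c : ℤ} (hc : c % 2 = 0) : ((c : ℤ) : F) = 0 := by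
  obtain ⟨d, rfl⟩ := Int.dvd_of_emod_eq_zero hc
  simp [h2]

lemma int_cast_eq_one_of_mod (h2 : (2 : F) = 0) {c : ℤ} (hc : c % 2 = 1) : ((c : ℤ) : F) = 1 := by
  have : c = 2 * (c / 2) + 1 := by omega
  rw [this]
  push_cast
  simp [h2]

lemma Sv_vec (h2 : (2 : F) = 0) (t : F) (l : List Term)
    (hl : ∀ e ∈ l, inS e.1 = true ∨ e.2.2 % 2 = 0) : Sv inS (vec t l : D.Idx → F) := by
  induction l with
  | nil => intro i _; simp
  | cons e l ih =>
    intro i hi
    rw [vec_cons, Pi.add_apply, ih (fun e' he' => hl e' (List.mem_cons_of_mem _ he')) i hi,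
      add_zero, Pi.smul_apply]
    rcases hl e List.mem_cons_self with h | h
    · have : code i ≠ e.1 := by
        intro h'
        rw [h', h] at hi
        exact absurd hi (by simp)
      simp [cv, this]
    · simp [monoVal, int_cast_eq_zero_of_mod h2 h]

lemma Sv_bvec (h2 : (2 : F) = 0) (l : List (ℕ × ℤ))
    (hl : ∀ e ∈ l, inS e.1 = true ∨ e.2 % 2 = 0) : Sv inS (bvec l : D.Idx → F) := by
  induction l with
  | nil => intro i _; simp
  | cons e l ih =>
    intro i hi
    rw [bvec_cons, Pi.add_apply, ih (fun e' he' => hl e' (List.mem_cons_of_mem _ he')) i hi,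
      add_zero, Pi.smul_apply]
    rcases hl e List.mem_cons_self with h | h
    · have : code i ≠ e.1 := by
        intro h'
        rw [h', h] at hi
        exact absurd hi (by simp)
      simp [cv, this]
    · simp [int_cast_eq_zero_of_mod h2 h]

lemma Sv_add {x y : D.Idx → F} (hx : Sv inS x) (hy : Sv inS y) : Sv inS (x + y) := by
  intro i hi
  simp [hx i hi, hy i hi]

lemma Sv_smul (c : F) {x : D.Idx → F} (hx : Sv inS x) : Sv inS (c • x) := by
  intro i hi
  simp [hx i hi]

lemma Sv_sum {ι : Type*} (s : Finset ι) (f : ι → D.Idx → F) (h : ∀ a ∈ s, Sv inS (f a)) :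
    Sv inS (∑ a ∈ s, f a) := by
  intro i hi
  rw [Finset.sum_apply]
  exact Finset.sum_eq_zero fun a ha => h a ha i hi

lemma sum_cv (u : D.Idx → F) : u = ∑ i, u i • (cv (code i) : D.Idx → F) := by
  classical
  ext j
  rw [Finset.sum_apply, Finset.sum_eq_single j]
  · simp [cv]
  · intro b _ hb
    have : code j ≠ code b := fun h => hb (code_injective h).symm
    simp [cv, this]
  · simp

lemma mem_of_stabRoot {r col : ℕ} (h : stabRoot D inS r = true) (hcol : col < dimN D)
    (hin : inS col = true) : ∀ e ∈ xCol D r col, inS e.1 = true ∨ e.2.2 % 2 = 0 := by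
  unfold stabRoot at h
  rw [List.all_eq_true] at h
  have := h col (List.mem_range.mpr hcol)
  simp only [hin, Bool.not_true, Bool.false_or, List.all_eq_true] at this
  intro e he
  have h3 := this e he
  simp only [Bool.or_eq_true, beq_iff_eq] at h3
  exact h3

lemma autPair_of_autRootS {r a b : ℕ} (h : autRootS D inS r = true) (ha : a < dimN D)
    (hb : b < dimN D) (hin : inS b = true) : autPair D r a b = true := by
  unfold autRootS at h
  rw [List.all_eq_true] at h
  have := h a (List.mem_range.mpr ha)
  rw [List.all_eq_true] at this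
  have h3 := this b (List.mem_range.mpr hb)
  simpa [hin] using h3

open Matrix

/-- The property of matrices maintained by all generators. -/
def Good (inS : ℕ → Bool) (M : Matrix D.Idx D.Idx F) : Prop :=
  (∀ y, Sv inS y → Sv inS (M *ᵥ y)) ∧
    ∀ u y : D.Idx → F, Sv inS y → M *ᵥ bk u y = bk (M *ᵥ u) (M *ᵥ y)

lemma good_one : Good inS (1 : Matrix D.Idx D.Idx F) := by
  constructor
  · intro y hy; simpa using hy
  · intro u y _; simp

lemma Good.mul {M N : Matrix D.Idx D.Idx F} (hM : Good inS M) (hN : Good inS N) :
    Good inS (M * N) := by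
  constructor
  · intro y hy
    rw [← Matrix.mulVec_mulVec]
    exact hM.1 _ (hN.1 _ hy)
  · intro u y hy
    rw [← Matrix.mulVec_mulVec, ← Matrix.mulVec_mulVec, ← Matrix.mulVec_mulVec, hN.2 u y hy,
      hM.2 _ _ (hN.1 _ hy)]

lemma Good.pow {M : Matrix D.Idx D.Idx F} (hM : Good inS M) (n : ℕ) : Good inS (M ^ n) := by
  induction n with
  | zero => simpa using good_one
  | succ n ih =>
    rw [pow_succ]
    exact ih.mul hM

/-- The root elements for good roots are good. -/
lemma good_xMat (h2 : (2 : F) = 0) (r : Fin D.nroots) (hst : stabRoot D inS r.val = true)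
    (haut : autRootS D inS r.val = true) (t : F) : Good inS (D.xMat F r t) := by
  classical
  constructor
  · intro y hy
    rw [sum_cv y, Matrix.mulVec_sum]
    refine Sv_sum _ _ fun i _ => ?_
    rw [Matrix.mulVec_smul, xMat_mulVec_cv]
    by_cases hi : inS (code i) = true
    · exact Sv_smul _ (Sv_vec h2 t _ (mem_of_stabRoot hst (code_lt i) hi))
    · have hi' : inS (code i) = false := by simpa using hi
      rw [hy i hi', zero_smul]
      intro j _
      simp
  · intro u y hy
    conv_lhs => rw [sum_cv u, sum_cv y, bk_sum_left, Matrix.mulVec_sum]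
    conv_rhs => rw [sum_cv u, sum_cv y, Matrix.mulVec_sum, Matrix.mulVec_sum, bk_sum_left]
    refine Finset.sum_congr rfl fun i _ => ?_
    rw [Matrix.mulVec_smul, bk_smul_left, bk_sum_right, Matrix.mulVec_smul, bk_smul_left,
      Matrix.mulVec_sum, bk_sum_right]
    congr 1
    refine Finset.sum_congr rfl fun j _ => ?_
    rw [bk_smul_right, Matrix.mulVec_smul, Matrix.mulVec_smul, bk_smul_right]
    by_cases hj : inS (code j) = true
    · rw [xMat_bk_cv r t _ _ (autPair_of_autRootS haut (code_lt i) (code_lt j) hj)]
    · have hj' : inS (code j) = false := by simpa using hj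
      rw [hy j hj']
      simp

lemma bvec_apply (l : List (ℕ × ℤ)) (i : D.Idx) :
    (bvec l : D.Idx → F) i = ((coefAt l (code i) : ℤ) : F) := by
  induction l with
  | nil => simp [coefAt]
  | cons e l ih =>
    have h1 : coefAt (e :: l) (code i) = if e.1 = code i then e.2 + coefAt l (code i) else coefAt l (code i) := rfl
    rw [bvec_cons, Pi.add_apply, ih, h1, Pi.smul_apply]
    by_cases h3 : e.1 = code i
    · have h4 : code i = e.1 := h3.symm
      simp [h3, cv]
    · have h4 : ¬ code i = e.1 := fun h => h3 h.symm
      simp [h3, h4, cv]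

lemma bk_cv_right_apply (w : D.Idx → F) (b : ℕ) (i' : D.Idx) :
    (bk w (cv b) : D.Idx → F) i' = ∑ i, w i * ((coefAt (brk D (code i) b) (code i') : ℤ) : F) := by
  conv_lhs => rw [sum_cv w, bk_sum_left, Finset.sum_apply]
  refine Finset.sum_congr rfl fun i _ => ?_
  rw [bk_smul_left, bk_cv, Pi.smul_apply, bvec_apply, smul_eq_mul]

lemma eq_zero_of_cert (h2 : (2 : F) = 0) {cert : ℕ → List (ℕ × ℕ)}
    (hC : certOK D inS cert = true) (w : D.Idx → F)
    (hw : ∀ b, inS b = true → bk w (cv b) = 0) : w = 0 := by
  classical
  ext i₀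
  unfold certOK at hC
  rw [List.all_eq_true] at hC
  have h3 := hC (code i₀) (List.mem_range.mpr (code_lt i₀))
  rw [Bool.and_eq_true, List.all_eq_true, List.all_eq_true] at h3
  obtain ⟨h4, h5⟩ := h3
  have key : ∀ C : List (ℕ × ℕ), (∀ c ∈ C, inS c.1 = true ∧ c.2 < dimN D) →
      ∑ i, w i * (((C.foldr (fun c acc => coefAt (brk D (code i) c.1) c.2 + acc) 0 : ℤ)) : F) = 0 := by
    intro C
    induction C with
    | nil => intro _; simp
    | cons c C ih =>
      intro hCc
      simp only [List.foldr_cons, Int.cast_add, mul_add, Finset.sum_add_distrib]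
      rw [ih (fun c' hc' => hCc c' (List.mem_cons_of_mem _ hc')), add_zero]
      obtain ⟨hc1, hc2⟩ := hCc c List.mem_cons_self
      obtain ⟨i', hi'⟩ := exists_code (D := D) hc2
      rw [← hi', ← bk_cv_right_apply, hw _ hc1]
      rfl
  have h6 := key (cert (code i₀)) (by
    intro c hc
    have := h4 c hc
    simp only [Bool.and_eq_true, decide_eq_true_eq] at this
    exact ⟨this.1.1, this.2⟩)
  rw [Finset.sum_eq_single i₀] at h6
  · have h7 := h5 (code i₀) (List.mem_range.mpr (code_lt i₀))
    simp only [if_true, beq_iff_eq] at h7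
    rw [int_cast_eq_one_of_mod h2 h7, mul_one] at h6
    simpa using h6
  · intro i _ hi
    have h7 := h5 (code i) (List.mem_range.mpr (code_lt i))
    have hne : code i ≠ code i₀ := fun h => hi (code_injective h)
    simp only [hne, if_false, beq_iff_eq] at h7
    rw [int_cast_eq_zero_of_mod h2 h7, mul_zero]
  · simp

lemma Sv_cv {b : ℕ} (hb : inS b = true) : Sv inS (cv b : D.Idx → F) := by
  intro i hi
  have : code i ≠ b := by
    intro h
    rw [h, hb] at hi
    exact absurd hi (by simp)
  simp [cv, this]

lemma Sv_bk (h2 : (2 : F) = 0) (hI : idealOK D inS = true) (u : D.Idx → F) {b : ℕ}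
    (hb : inS b = true) (hb' : b < dimN D) : Sv inS (bk u (cv b) : D.Idx → F) := by
  rw [sum_cv u, bk_sum_left]
  refine Sv_sum _ _ fun i _ => ?_
  rw [bk_smul_left, bk_cv]
  refine Sv_smul _ (Sv_bvec h2 _ ?_)
  unfold idealOK at hI
  rw [List.all_eq_true] at hI
  have h3 := hI (code i) (List.mem_range.mpr (code_lt i))
  rw [List.all_eq_true] at h3
  have h4 := h3 b (List.mem_range.mpr hb')
  simp only [hb, Bool.not_true, Bool.false_or, List.all_eq_true] at h4
  intro e he
  have h5 := h4 e he
  simpa using h5

/-- A good matrix that is the identity on the ideal is the identity. -/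
lemma trivial_of_fix (h2 : (2 : F) = 0) (hI : idealOK D inS = true) {cert : ℕ → List (ℕ × ℕ)}
    (hC : certOK D inS cert = true) {z : Matrix D.Idx D.Idx F} (hz : Good inS z)
    (hfix : ∀ y, Sv inS y → z *ᵥ y = y) (u : D.Idx → F) : z *ᵥ u = u := by
  have h0 : z *ᵥ u + (-1 : F) • u = 0 := by
    apply eq_zero_of_cert h2 hC
    intro b hb
    by_cases hb' : b < dimN D
    · rw [bk_add_left, bk_smul_left]
      have h3 := hz.2 u (cv b) (Sv_cv hb)
      rw [hfix _ (Sv_cv hb), hfix _ (Sv_bk h2 hI u hb hb')] at h3
      rw [← h3]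
      simp
    · rw [cv_of_ge (not_lt.mp hb')]
      simp
  have h3 : z *ᵥ u + (-1 : F) • u = z *ᵥ u - u := by simp [sub_eq_add_neg]
  rw [h3, sub_eq_zero] at h0
  exact h0

/-- The ideal as a submodule. -/
def idealSub (inS : ℕ → Bool) : Submodule F (D.Idx → F) where
  carrier := {y | Sv inS y}
  add_mem' := Sv_add
  zero_mem' := by intro i _; rfl
  smul_mem' := fun c _ hx => Sv_smul c hx

lemma finrank_idealSub_le :
    Module.finrank F (idealSub (D := D) (F := F) inS) ≤ ((List.range (dimN D)).filter inS).length := by
  classical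
  let ST := {i : D.Idx // inS (code i) = true}
  let φ : (idealSub (D := D) (F := F) inS) →ₗ[F] (ST → F) :=
    { toFun := fun y i => y.1 i.1
      map_add' := fun _ _ => rfl
      map_smul' := fun _ _ => rfl }
  have hφ : Function.Injective φ := by
    intro y y' h
    ext i
    by_cases hi : inS (code i) = true
    · exact congrFun h ⟨i, hi⟩
    · have hi' : inS (code i) = false := by simpa using hi
      rw [y.2 i hi', y'.2 i hi']
  have h1 := LinearMap.finrank_le_finrank_of_injective hφ
  rw [Module.finrank_fintype_fun_eq_card] at h1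
  refine h1.trans ?_
  rw [← List.toFinset_card_of_nodup ((List.nodup_range).filter _)]
  have h2 : Fintype.card ST = (Finset.univ.filter fun i : D.Idx => inS (code i) = true).card := by
    exact Fintype.card_subtype _
  rw [h2]
  apply Finset.card_le_card_of_injOn code
  · intro i hi
    have hi' : inS (code i) = true := by simpa using hi
    have : code i ∈ ((List.range (dimN D)).filter inS).toFinset := by
      simp [code_lt i, hi']
    exact this
  · intro i _ j _ h
    exact code_injective h

lemma pow_finrank_eq_zero_of_nilp {V : Type*} [AddCommGroup V] [Module F V] [FiniteDimensional F V]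
    (f : Module.End F V) (h : IsNilpotent f) : f ^ (Module.finrank F V) = 0 := by
  have h1 := LinearMap.aeval_self_charpoly f
  rw [h.charpoly_eq_X_pow_finrank] at h1
  simpa using h1

lemma sub_one_pow_two_pow (h2 : (2 : F) = 0) (M : Matrix D.Idx D.Idx F) (n : ℕ) :
    (M - 1) ^ (2 ^ n) = M ^ (2 ^ n) - 1 := by
  have h2M : ∀ X : Matrix D.Idx D.Idx F, X + X = 0 := by
    intro X
    ext i j
    simp only [Matrix.add_apply, Matrix.zero_apply]
    rw [← two_mul, h2, zero_mul]
  induction n with
  | zero => simp
  | succ n ih =>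
    rw [pow_succ 2 n, pow_mul, pow_mul, ih]
    set A := M ^ (2 ^ n)
    have h1 : (A - 1) ^ 2 = A ^ 2 - (A + A) + (1 + 1) - 1 := by noncomm_ring
    rw [h1, h2M, h2M]
    simp

/-- The main consequence: in characteristic two, a good matrix of 2-power order has its 32nd power
trivial on the ideal, when the ideal has dimension at most 32. -/
lemma pow32_fix (h2 : (2 : F) = 0) (hcard : ((List.range (dimN D)).filter inS).length ≤ 32)
    {M : Matrix D.Idx D.Idx F} (hM : Good inS M) {j : ℕ} (hj : M ^ (2 ^ j) = 1)
    (y : D.Idx → F) (hy : Sv inS y) : M ^ 32 *ᵥ y = y := by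
  classical
  have hf : ∀ y ∈ idealSub (D := D) (F := F) inS,
      (M - 1).mulVecLin y ∈ idealSub (D := D) (F := F) inS := by
    intro y hy
    have h1 : (M - 1).mulVecLin y = M *ᵥ y + (-1 : F) • y := by
      simp [Matrix.sub_mulVec, sub_eq_add_neg]
    rw [h1]
    exact Sv_add (hM.1 y hy) (Sv_smul _ hy)
  let g : Module.End F (idealSub (D := D) (F := F) inS) := (M - 1).mulVecLin.restrict hf
  have hg : ∀ (n : ℕ) (y : idealSub (D := D) (F := F) inS),
      ((g ^ n) y).1 = ((M - 1) ^ n) *ᵥ y.1 := by
    intro n
    induction n with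
    | zero => intro y; simp
    | succ n ih =>
      intro y
      rw [pow_succ', Module.End.mul_apply]
      change (M - 1) *ᵥ ((g ^ n) y).1 = _
      rw [ih, Matrix.mulVec_mulVec, pow_succ']
  have hnil : IsNilpotent g := by
    refine ⟨2 ^ j, ?_⟩
    ext y
    rw [hg, sub_one_pow_two_pow h2 M j, hj]
    simp
  have h3 : g ^ 32 = 0 := by
    have h4 := pow_finrank_eq_zero_of_nilp g hnil
    exact pow_eq_zero_of_le ((finrank_idealSub_le (D := D) (F := F) (inS := inS)).trans hcard) h4
  have h5 := hg 32 ⟨y, hy⟩
  rw [h3] at h5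
  have h6 : ((M - 1) ^ 32) = M ^ 32 - 1 := sub_one_pow_two_pow h2 M 5
  rw [h6, Matrix.sub_mulVec, Matrix.one_mulVec] at h5
  simp only [LinearMap.zero_apply, ZeroMemClass.coe_zero] at h5
  exact (sub_eq_zero.mp h5.symm)

end Ideal

end Cfsg.Agent.Lib.ChevLieCheck
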