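import Cfsg.Agent.Lib.ChevTorD4
import Cfsg.Agent.Lib.ChevPresNegD4
import Cfsg.Agent.Lib.ChevPresTabD4
import Cfsg.Agent.Lib.ChevStemN

/-!
# Stem extensions of the presented group of type D₄ over fields with more than two elements
-/

set_option autoImplicit false

namespace Cfsg.Agent.Lib.ChevStD4

open Cfsg Cfsg.Lie Cfsg.Agent.Lib.Chev Cfsg.Agent.Lib.ChevStRed Cfsg.Agent.Lib.ChevStem Cfsg.Agent.Lib.ChevTorTab
  Cfsg.Agent.Lib.ChevTorD4 Cfsg.Agent.Lib.ChevPres

theorem multiplier_D4 {F : Type*} [Field F] [Fintype F] (hq : 3 ≤ Fintype.card F) :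
    HasCyclicSchurMultiplier (chevD4.SteinbergGroup F) 1 := by
  have hF : Full _ _ _ chevD4 := ⟨RelD4.checks, RootD4.checks⟩
  have hP : PresOK _ chevD4 :=
    ⟨negOK_of_check hF Cfsg.Agent.Lib.ChevPresNegD4.neg_ok, Cfsg.Agent.Lib.ChevPresTabD4.w_ok⟩
  apply multiplier_St hF hP
  intro Γ _ _ π hπ
  have hcen : (thetaG (K := F) hF).ker ≤ Subgroup.center (chevD4.SteinbergGroup F) := by
    rw [ker_eq_center hF hP]
  have hperf := ChevStemN.commutator_St (K := F) hF self_ok
  have hσ := stem_comp π (thetaG hF) hπ (thetaG_surjective hF) hcen hperf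
  refine ker_St_of_wit hF hP hperf π hπ hσ ?_ ?_ ?_ (hTab_of_ok tab_ok)
  · intro κ a b
    exact hA_of_ok hF _ hσ.1 hσ.2.1 self_ok κ a b
  · intro κ
    exact hchi_of_dual hq (dual_of_ok dual_ok κ)
  · by_cases h3 : Fintype.card F = 3
    · exact wit_of_ok3 hF _ hσ.1 hσ.2.1 h3 wit_ok3
    · refine wit_of_ok hF _ hσ.1 wit_ok ?_
      intro d hd h
      have h1 : d ≠ 0 := by
        rintro rfl
        simp at hd
      have h2 := Nat.le_of_dvd (Nat.pos_of_ne_zero h1) h
      have h4 : d ≤ 2 := by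
        simp at hd
        omega
      omega

end Cfsg.Agent.Lib.ChevStD4
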