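import Cfsg.Agent.Lib.StOrbit50
import Cfsg.Agent.Lib.CoprimeInv

/-!
# The Steinberg function on a parabolic subgroup

For `s ∈ P_J` the alternating sum over the cosets of the `P_K` reduces to the single double coset
of `d = w_J w_0`.
-/

set_option autoImplicit false
set_option linter.unusedSectionVars false
set_option linter.unusedVariables false

namespace Cfsg.Agent.Lib.CoxLen50

namespace CoxLen

variable {W : Type*} [Group W] {S : Set W} {l : W → ℕ} (h : CoxLen S l)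

include h

/-- An element of `W_J` of length one lies in `J`. -/
theorem mem_of_len_one {J : Set W} (hJ : J ⊆ S) {b : W} (hb : b ∈ Subgroup.closure J) (h1 : l b = 1) :
    b ∈ J := by
  have hne : b ≠ 1 := by
    rintro rfl
    rw [h.one_len] at h1
    omega
  obtain ⟨t, ht, hd⟩ := h.desc J hJ b hb hne
  have h2 : l (b * t) = 0 := by omega
  have h3 := (h.zero_iff _).1 h2
  have h4 : b = t⁻¹ := eq_inv_of_mul_eq_one_left h3
  rw [h4, h.s_inv (hJ ht)]
  exact ht

/-- Conjugation into `I`: Kilmoyer's theorem. -/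
theorem mem_closure_conj {I K : Set W} (hI : I ⊆ S) (hK : K ⊆ S) {d : W} (hd : LRed I l d)
    (hd' : RRed K l d) {w : W} (hw : w ∈ Subgroup.closure K) (hc : d * w * d⁻¹ ∈ Subgroup.closure I) :
    w ∈ Subgroup.closure {s | s ∈ K ∧ d * s * d⁻¹ ∈ I} := by
  induction hk : l w using Nat.strong_induction_on generalizing w with
  | _ k ih =>
    by_cases hw1 : w = 1
    · subst hw1
      exact Subgroup.one_mem _
    obtain ⟨s, hs, hdesc⟩ := h.desc K hK w hw hw1
    have hsS := hK hs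
    set a := d * w * d⁻¹ with ha
    have e1 : a * d = d * w := by rw [ha]; group
    have h1 := h.add_of_rred hK hd' hw
    have h2 := h.add_of_lred hI hd hc
    rw [e1, h1] at h2
    have hws : w * s ∈ Subgroup.closure K := Subgroup.mul_mem _ hw (Subgroup.subset_closure hs)
    have h3 := h.add_of_rred hK hd' hws
    have h4 : l (a * d * s) < l (a * d) := by
      rw [e1, h1, mul_assoc, h3]
      omega
    have h5 : l (a * d) = l a + l d := by
      rw [e1, h1]
      omega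
    rcases h.exch a d s hsS h5 h4 with h6 | ⟨a', ha1, e2, hcl⟩
    · have := hd' s hs
      omega
    · have ha' := hcl I hI hc
      -- `d s = b d`
      set b := a⁻¹ * a' with hb
      have hbI : b ∈ Subgroup.closure I := Subgroup.mul_mem _ (Subgroup.inv_mem _ hc) ha'
      have e3 : d * s = b * d := by
        rw [hb, mul_assoc, ← e2]
        group
      have h7 := h.add_of_lred hI hd hbI
      rw [← e3] at h7
      have h8 : l (d * s) = l d + 1 := by
        have h9 := hd' s hs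
        rcases h.step d s hsS with h10 | h10 <;> omega
      have h9 : l b = 1 := by omega
      have hbJ := h.mem_of_len_one hI hbI h9
      have e4 : d * s * d⁻¹ = b := by
        rw [e3]
        group
      have hsT : s ∈ {s | s ∈ K ∧ d * s * d⁻¹ ∈ I} := ⟨hs, by rw [e4]; exact hbJ⟩
      have e5 : d * (w * s) * d⁻¹ = a * b := by
        rw [ha, ← e4]
        group
      have h10 := ih (l (w * s)) (by omega) hws (by rw [e5]; exact Subgroup.mul_mem _ hc hbI) rfl
      have e6 : w = w * s * s := (h.mul_s_s hsS w).symm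
      rw [e6]
      exact Subgroup.mul_mem _ h10 (Subgroup.subset_closure hsT)

/-- Deodhar's lemma. -/
theorem deodhar {I : Set W} (hI : I ⊆ S) {d s : W} (hd : LRed I l d) (hs : s ∈ S)
    (hup : l d < l (d * s)) : LRed I l (d * s) ∨ ∃ t ∈ I, d * s = t * d := by
  by_cases hL : LRed I l (d * s)
  · exact Or.inl hL
  · right
    unfold LRed at hL
    push Not at hL
    obtain ⟨t, ht, hle⟩ := hL
    have htS := hI ht
    have hstep : l (t * (d * s)) < l (d * s) := by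
      rcases h.step_left (d * s) htS with h1 | h1 <;> omega
    have hl1 : l (d * s) = l d + 1 := by
      rcases h.step d s hs with h1 | h1 <;> omega
    have hss : l s = 1 := by
      have h1 := h.step 1 s hs
      rw [one_mul, h.one_len] at h1
      omega
    have h5 : l (s * d⁻¹) = l s + l d⁻¹ := by
      rw [← h.inv (s * d⁻¹), mul_inv_rev, inv_inv, h.s_inv hs, hl1, hss, h.inv]
      omega
    have h6 : l (s * d⁻¹ * t) < l (s * d⁻¹) := by
      have e : s * d⁻¹ * t = (t * (d * s))⁻¹ := by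
        rw [mul_inv_rev, mul_inv_rev, h.s_inv hs, h.s_inv htS, mul_assoc]
      rw [e, h.inv]
      have e' : s * d⁻¹ = (d * s)⁻¹ := by rw [mul_inv_rev, h.s_inv hs]
      rw [e', h.inv]
      exact hstep
    rcases h.exch s d⁻¹ t htS h5 h6 with h7 | ⟨x', hx1, e2, _⟩
    · exfalso
      have h8 := hd t ht
      have h9 : l (d⁻¹ * t) = l (t * d) := by
        rw [← h.inv (t * d), mul_inv_rev, h.s_inv htS]
      rw [h.inv] at h7
      omega
    · refine ⟨t, ht, ?_⟩
      have hx0 : l x' = 0 := by omega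
      have hx1 := (h.zero_iff _).1 hx0
      rw [hx1, one_mul] at e2
      have e4 : d * s * d⁻¹ * t = 1 := by
        have e5 : d * (s * d⁻¹ * t) = d * d⁻¹ := by rw [e2]
        rw [mul_inv_cancel] at e5
        rw [← e5]
        group
      have e6 : d * s * d⁻¹ = t⁻¹ := eq_inv_of_mul_eq_one_left e4
      rw [h.s_inv htS] at e6
      rw [← e6]
      group

/-- `l (x a) = l a - l x` for the longest element `a` of `W_J`. -/
theorem len_mul_fullD {J : Set W} (hJ : J ⊆ S) {a x : W} (ha : a ∈ Subgroup.closure J)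
    (hf : FullD J l a) (hx : x ∈ Subgroup.closure J) : l a = l x + l (x * a) := by
  obtain ⟨z, _, e, h1⟩ := h.exists_right_factor hJ ha hf (Subgroup.mul_mem _ hx ha)
  have e2 : z = x⁻¹ := by
    have e3 : z * x * a = a := by
      rw [mul_assoc]
      exact e.symm
    have e4 : z * x = 1 := by
      simpa using e3
    exact eq_inv_of_mul_eq_one_left e4
  rw [e2, h.inv] at h1
  exact h1

theorem inv_of_fullD {J : Set W} (hJ : J ⊆ S) {a : W} (ha : a ∈ Subgroup.closure J)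
    (hf : FullD J l a) : a⁻¹ = a := by
  apply h.eq_of_fullD hJ (Subgroup.inv_mem _ ha) ha _ hf
  intro s hs
  have h1 := h.len_mul_fullD hJ ha hf (Subgroup.subset_closure hs)
  have h2 : l s = 1 := by
    have h3 := h.step 1 s (hJ hs)
    rw [one_mul, h.one_len] at h3
    omega
  have e : a⁻¹ * s = (s * a)⁻¹ := by rw [mul_inv_rev, h.s_inv (hJ hs)]
  rw [e, h.inv, h.inv]
  omega

/-- Conjugation by the longest element preserves `J`. -/
theorem conj_fullD {J : Set W} (hJ : J ⊆ S) {a t : W} (ha : a ∈ Subgroup.closure J)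
    (hf : FullD J l a) (ht : t ∈ J) : a⁻¹ * t * a ∈ J := by
  have htS := hJ ht
  have h1 := h.len_mul_fullD hJ ha hf (Subgroup.subset_closure ht)
  have h2 : l t = 1 := by
    have h3 := h.step 1 t htS
    rw [one_mul, h.one_len] at h3
    omega
  have hx : a⁻¹ * t ∈ Subgroup.closure J :=
    Subgroup.mul_mem _ (Subgroup.inv_mem _ ha) (Subgroup.subset_closure ht)
  have h3 := h.len_mul_fullD hJ ha hf hx
  have e : a⁻¹ * t = (t * a)⁻¹ := by rw [mul_inv_rev, h.s_inv htS]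
  rw [e, h.inv] at h3
  rw [← e] at h3
  apply h.mem_of_len_one hJ (Subgroup.mul_mem _ hx ha)
  omega

/-- The unique maximal element: existence. -/
theorem exists_max_lred [Finite W] {I : Set W} (hI : I ⊆ S) :
    ∃ d, LRed I l d ∧ ∀ s ∈ S, l d < l (d * s) → ∃ t ∈ I, d * s = t * d := by
  classical
  have hne : {k | ∃ d, LRed I l d ∧ l d = k}.Nonempty := by
    refine ⟨_, 1, ?_, rfl⟩
    intro s hs
    rw [mul_one, h.one_len]
    have h1 := h.step 1 s (hI hs)
    rw [one_mul, h.one_len] at h1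
    omega
  have hfin : {k | ∃ d, LRed I l d ∧ l d = k}.Finite := by
    apply (Set.finite_range l).subset
    rintro _ ⟨d, _, rfl⟩
    exact ⟨d, rfl⟩
  obtain ⟨m, ⟨d, hd, rfl⟩, hmax⟩ := hfin.exists_maximal hne
  refine ⟨d, hd, ?_⟩
  intro s hs hup
  rcases h.deodhar hI hd hs hup with h1 | h1
  · have := hmax ⟨d * s, h1, rfl⟩ (by omega)
    omega
  · exact h1

/-- `a d` is the longest element of `W`. -/
theorem fullD_mul {I : Set W} (hI : I ⊆ S) {a d : W} (ha : a ∈ Subgroup.closure I)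
    (hf : FullD I l a) (hd : LRed I l d) (hd' : ∀ s ∈ S, l d < l (d * s) → ∃ t ∈ I, d * s = t * d) :
    FullD S l (a * d) := by
  intro s hs
  have h0 := h.add_of_lred hI hd ha
  by_cases hup : l d < l (d * s)
  · obtain ⟨t, ht, e⟩ := hd' s hs hup
    have hat : a * t ∈ Subgroup.closure I := Subgroup.mul_mem _ ha (Subgroup.subset_closure ht)
    have h1 := h.add_of_lred hI hd hat
    have h2 := hf t ht
    rw [mul_assoc a d s, e, ← mul_assoc, h1, h0]
    omega
  · rw [mul_assoc]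
    have h1 := h.mul_le a (d * s)
    have h2 := h.step_ne d hs
    omega

end CoxLen

end Cfsg.Agent.Lib.CoxLen50

namespace Cfsg.Agent.Lib.StBN50

open Cfsg Cfsg.Agent.Lib.BNPair Cfsg.Agent.Lib.CoxLen50 MulAction

variable {G : Type*} [Group G] {P : Cfsg.BNPair G}

section

variable {ι : Type*} [DecidableEq ι] (σ : ι → G)

/-- The subgroup `W_K`. -/
abbrev Wp (P : Cfsg.BNPair G) (σ : ι → G) (K : Finset ι) : Subgroup (WW P) :=
  Subgroup.closure (pi P '' (σ '' (K : Set ι)))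

theorem mem_par_iff {A K : Finset ι} (hK : K ⊆ A) (hA' : ∀ i ∈ A, σ i ∈ P.S) {g : G} :
    g ∈ Par P σ K ↔ del P g ∈ Wp P σ K :=
  mem_parabolic_iff_del (Set.image_subset_iff.2 (fun i hi => hA' i (hK hi)))

open Classical in
/-- The set of `i` such that `d s_i d⁻¹` lies in `J`. -/
noncomputable def TT (P : Cfsg.BNPair G) (σ : ι → G) (A J : Finset ι) (d : WW P) : Finset ι :=
  A.filter (fun i => d * pi P (σ i) * d⁻¹ ∈ pi P '' (σ '' (J : Set ι)))

theorem mem_TT {A J : Finset ι} {d : WW P} {i : ι} :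
    i ∈ TT P σ A J d ↔ i ∈ A ∧ d * pi P (σ i) * d⁻¹ ∈ pi P '' (σ '' (J : Set ι)) := by
  classical
  simp [TT]

theorem TT_card_le (A J : Finset ι) (hA' : ∀ i ∈ A, σ i ∈ P.S) (hσ : Set.InjOn σ (A : Set ι)) (d : WW P) :
    (TT P σ A J d).card ≤ J.card := by
  classical
  have hex : ∀ i ∈ TT P σ A J d, ∃ j ∈ J, d * pi P (σ i) * d⁻¹ = pi P (σ j) := by
    intro i hi
    obtain ⟨_, ⟨j, hj, rfl⟩, e⟩ := ((mem_TT σ).1 hi).2
    exact ⟨j, hj, e.symm⟩
  choose! f hf1 hf2 using hex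
  apply Finset.card_le_card_of_injOn f hf1
  intro i hi i' hi' e
  have h1 := hf2 i hi
  have h2 := hf2 i' hi'
  rw [e, ← h2] at h1
  have h3 : pi P (σ i) = pi P (σ i') := by
    have := mul_right_cancel h1
    exact mul_left_cancel this
  exact hσ (Finset.mem_coe.2 ((mem_TT σ).1 hi).1) (Finset.mem_coe.2 ((mem_TT σ).1 hi').1)
    (pi_S_inj (hA' i ((mem_TT σ).1 hi).1) (hA' i' ((mem_TT σ).1 hi').1) h3)

/-- The map between coset spaces. -/
def qMap {K₁ K₂ : Subgroup G} (h : K₁ ≤ K₂) : G ⧸ K₁ → G ⧸ K₂ :=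
  Quotient.map' id (fun a b hab => by
    rw [QuotientGroup.leftRel_apply] at *
    exact h hab)

@[simp] theorem qMap_mk {K₁ K₂ : Subgroup G} (h : K₁ ≤ K₂) (x : G) :
    qMap h (x : G ⧸ K₁) = (x : G ⧸ K₂) := rfl

theorem qMap_smul {K₁ K₂ : Subgroup G} (h : K₁ ≤ K₂) (g : G) (c : G ⧸ K₁) :
    qMap h (g • c) = g • qMap h c := by
  induction c using QuotientGroup.induction_on with
  | H x => rfl

theorem image_sub {A K : Finset ι} (hK : K ⊆ A) (hA' : ∀ i ∈ A, σ i ∈ P.S) :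
    σ '' (K : Set ι) ⊆ P.S := by
  rintro _ ⟨i, hi, rfl⟩
  exact hA' i (hK hi)

/-- The intersection `P_K ∩ n⁻¹ P_J n` lies in `P_{K ∩ T}`. -/
theorem mem_par_inter {A J K : Finset ι} (hA' : ∀ i ∈ A, σ i ∈ P.S) (hJ : J ⊆ A) (hK : K ⊆ A)
    {n x : G} (hn : n ∈ P.N)
    (h1 : LR P (σ '' (J : Set ι)) (pi P n)) (h2 : RR P (σ '' (K : Set ι)) (pi P n))
    (hx : x ∈ Par P σ K) (hc : n * x * n⁻¹ ∈ Par P σ J) :
    x ∈ Par P σ (K ∩ TT P σ A J (pi P n)) := by
  classical
  have hS := coxLen (P := P)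
  have hJS := image_sub σ hJ hA'
  have hKS := image_sub σ hK hA'
  have hJ' : pi P '' (σ '' (J : Set ι)) ⊆ SW P := Set.image_mono hJS
  have hK' : pi P '' (σ '' (K : Set ι)) ⊆ SW P := Set.image_mono hKS
  have hw := (mem_par_iff σ hK hA').1 hx
  have hadd := hS.add_of_rred hK' h2 hw
  have h3 : del P (n * x) = pi P n * del P x := by
    have := del_mul_of_add (P := P) (x := n) (y := x) (by rw [del_of_mem hn]; exact hadd)
    rwa [del_of_mem hn] at this
  have h4 := del_mul_mem_left hJS n (n * x * n⁻¹) ((mem_par_iff σ hJ hA').1 hc)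
  have e : n * x * n⁻¹ * n = n * x := by group
  rw [e, h3, del_of_mem hn] at h4
  have h5 := hS.mem_closure_conj hJ' hK' h1 h2 hw h4
  refine (mem_par_iff σ (Finset.inter_subset_left.trans hK) hA').2 ?_
  refine Subgroup.closure_mono ?_ h5
  rintro _ ⟨⟨_, ⟨i, hi, rfl⟩, rfl⟩, h6⟩
  refine ⟨σ i, ⟨i, ?_, rfl⟩, rfl⟩
  simp only [Finset.coe_inter, Set.mem_inter_iff]
  exact ⟨hi, (mem_TT σ).2 ⟨hK hi, h6⟩⟩

/-- The number of fixed points in the orbit `P_J n P_K / P_K`. -/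
noncomputable def FF (P : Cfsg.BNPair G) (σ : ι → G) (J K : Finset ι) (n s : G) : ℕ :=
  Nat.card {q : G ⧸ Par P σ K // (∃ p ∈ Par P σ J, q = ((p * n : G) : G ⧸ Par P σ K)) ∧ s • q = q}

theorem par_mono_aux {K₁ K₂ : Finset ι} (h : K₁ ⊆ K₂) : Par P σ K₁ ≤ Par P σ K₂ :=
  parabolic_mono (Set.image_mono (Finset.coe_subset.2 h))

/-- The count only depends on `K ∩ T`. -/
theorem FF_congr {A J K : Finset ι} (hA' : ∀ i ∈ A, σ i ∈ P.S) (hJ : J ⊆ A) (hK : K ⊆ A)
    {n s : G} (hn : n ∈ P.N)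
    (h1 : LR P (σ '' (J : Set ι)) (pi P n)) (h2 : RR P (σ '' (K : Set ι)) (pi P n))
    (hs : s ∈ Par P σ J) :
    FF P σ J K n s = FF P σ J (K ∩ TT P σ A J (pi P n)) n s := by
  classical
  set K' := K ∩ TT P σ A J (pi P n) with hK'
  have hle : Par P σ K' ≤ Par P σ K := par_mono_aux σ Finset.inter_subset_left
  have key : ∀ p₁ ∈ Par P σ J, ∀ p₂ ∈ Par P σ J, (p₁ * n)⁻¹ * (p₂ * n) ∈ Par P σ K →
      (p₁ * n)⁻¹ * (p₂ * n) ∈ Par P σ K' := by
    intro p₁ hp₁ p₂ hp₂ hx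
    apply mem_par_inter σ hA' hJ hK hn h1 h2 hx
    have e : n * ((p₁ * n)⁻¹ * (p₂ * n)) * n⁻¹ = p₁⁻¹ * p₂ := by group
    rw [e]
    exact Subgroup.mul_mem _ (Subgroup.inv_mem _ hp₁) hp₂
  symm
  apply Nat.card_congr
  refine Equiv.ofBijective (fun q => ⟨qMap hle q.1, ?_, ?_⟩) ⟨?_, ?_⟩
  · obtain ⟨q, ⟨p, hp, rfl⟩, _⟩ := q
    exact ⟨p, hp, rfl⟩
  · obtain ⟨q, _, hf⟩ := q
    show s • qMap hle q = qMap hle q
    rw [← qMap_smul, hf]
  · rintro ⟨q, ⟨p, hp, rfl⟩, hf⟩ ⟨q', ⟨p', hp', rfl⟩, hf'⟩ e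
    apply Subtype.ext
    have e' : qMap hle ((p * n : G) : G ⧸ Par P σ K') = qMap hle ((p' * n : G) : G ⧸ Par P σ K') :=
      congrArg Subtype.val e
    rw [qMap_mk, qMap_mk, QuotientGroup.eq] at e'
    exact QuotientGroup.eq.2 (key p hp p' hp' e')
  · rintro ⟨q, ⟨p, hp, rfl⟩, hf⟩
    refine ⟨⟨((p * n : G) : G ⧸ Par P σ K'), ⟨p, hp, rfl⟩, ?_⟩, rfl⟩
    have h3 : ((s * (p * n) : G) : G ⧸ Par P σ K) = ((p * n : G) : G ⧸ Par P σ K) := hf
    have h4 := QuotientGroup.eq.1 h3.symm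
    have hsp : s * p ∈ Par P σ J := Subgroup.mul_mem _ hs hp
    have h5 := key p hp (s * p) hsp (by
      have e : (p * n)⁻¹ * (s * p * n) = (p * n)⁻¹ * (s * (p * n)) := by group
      rw [e]
      exact h4)
    have e : (p * n)⁻¹ * (s * p * n) = (p * n)⁻¹ * (s * (p * n)) := by group
    rw [e] at h5
    exact (QuotientGroup.eq.2 h5).symm

/-- A lift of an element of the Weyl group. -/
noncomputable def liftN (P : Cfsg.BNPair G) (w : WW P) : G := Classical.choose (exists_pi w)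

theorem liftN_mem (w : WW P) : liftN P w ∈ P.N := (Classical.choose_spec (exists_pi w)).1

theorem pi_liftN (w : WW P) : pi P (liftN P w) = w := (Classical.choose_spec (exists_pi w)).2

/-- Elements with `δ(g) = a δ(n) b`. -/
theorem exists_double_of_del {I J : Set G} (hI : I ⊆ P.S) (hJ : J ⊆ P.S) {g n : G} (hn : n ∈ P.N)
    {a b : WW P} (ha : a ∈ Subgroup.closure (pi P '' I)) (hb : b ∈ Subgroup.closure (pi P '' J))
    (e : del P g = a * pi P n * b) : ∃ p ∈ P.parabolic I, ∃ k ∈ P.parabolic J, g = p * n * k := by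
  have hle1 : Subgroup.closure I ≤ P.N := (Subgroup.closure_le _).2 (hI.trans P.subset)
  have hle2 : Subgroup.closure J ≤ P.N := (Subgroup.closure_le _).2 (hJ.trans P.subset)
  obtain ⟨na, hna, ea⟩ := (mem_closure_image hI).1 ha
  obtain ⟨nb, hnb, eb⟩ := (mem_closure_image hJ).1 hb
  have hNa := hle1 hna
  have hNb := hle2 hnb
  have hM : na * n * nb ∈ P.N := P.N.mul_mem (P.N.mul_mem hNa hn) hNb
  have hd : del P g = pi P (na * n * nb) := by
    rw [e, pi_mul (P.N.mul_mem hNa hn) hNb, pi_mul hNa hn, ea, eb]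
  obtain ⟨c, hc, c', hc', rfl⟩ := mem_dc.1 (mem_dc_of_del hM hd)
  refine ⟨c * na, Subgroup.mul_mem _ (B_le_parabolic I hc) (closure_le_parabolic I hna),
    nb * c', Subgroup.mul_mem _ (closure_le_parabolic J hnb) (B_le_parabolic J hc'), ?_⟩
  group

/-- The double coset type of a coset. -/
noncomputable def typ {I J : Set G} (hI : I ⊆ P.S) (hJ : J ⊆ P.S) (q : G ⧸ P.parabolic J) : WW P :=
  minDC hI hJ (del P q.out)

theorem typ_iff {I J : Set G} (hI : I ⊆ P.S) (hJ : J ⊆ P.S) {n : G} (hn : n ∈ P.N)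
    (h1 : LR P I (pi P n)) (h2 : RR P J (pi P n)) (q : G ⧸ P.parabolic J) :
    typ hI hJ q = pi P n ↔ ∃ p ∈ P.parabolic I, q = ((p * n : G) : G ⧸ P.parabolic J) := by
  constructor
  · intro h
    obtain ⟨_, _, a, ha, b, hb, e⟩ := minDC_spec hI hJ (del P q.out)
    have h3 : minDC hI hJ (del P q.out) = pi P n := h
    rw [h3] at e
    have e2 : del P q.out = a⁻¹ * pi P n * b⁻¹ := by
      rw [e]
      group
    obtain ⟨p, hp, k, hk, e3⟩ := exists_double_of_del hI hJ hn (Subgroup.inv_mem _ ha)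
      (Subgroup.inv_mem _ hb) e2
    refine ⟨p, hp, ?_⟩
    have h4 : ((q.out : G) : G ⧸ P.parabolic J) = q := QuotientGroup.out_eq' q
    rw [← h4, e3]
    apply QuotientGroup.eq.2
    have e4 : (p * n * k)⁻¹ * (p * n) = k⁻¹ := by group
    rw [e4]
    exact Subgroup.inv_mem _ hk
  · rintro ⟨p, hp, rfl⟩
    unfold typ
    have h3 : (((p * n : G) : G ⧸ P.parabolic J).out) = (p * n) * (((p * n : G))⁻¹ *
        (((p * n : G) : G ⧸ P.parabolic J).out)) := by group
    have h4 : ((p * n : G))⁻¹ * (((p * n : G) : G ⧸ P.parabolic J).out) ∈ P.parabolic J := by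
      apply QuotientGroup.eq.1
      exact (QuotientGroup.out_eq' _).symm
    obtain ⟨a, ha, b, hb, e⟩ := del_double (g := n) hI hJ hp h4
    rw [← minDC_self hI hJ h1 h2]
    apply minDC_congr hI hJ ha hb
    rw [h3, ← mul_assoc, ← mul_assoc] at *
    rw [del_of_mem hn] at e
    rw [← e]
    congr 1
    group

theorem typ_spec {I J : Set G} (hI : I ⊆ P.S) (hJ : J ⊆ P.S) (q : G ⧸ P.parabolic J) :
    LR P I (typ hI hJ q) ∧ RR P J (typ hI hJ q) :=
  ⟨(minDC_spec hI hJ _).1, (minDC_spec hI hJ _).2.1⟩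

open Classical in
/-- The fixed points of `s` in `G / P_K`, sorted by double coset. -/
theorem card_fix_eq_sum [Finite G] [Fintype (WW P)] {J K : Finset ι} (hJ : σ '' (J : Set ι) ⊆ P.S)
    (hK : σ '' (K : Set ι) ⊆ P.S) (s : G) :
    Nat.card (fixedBy (G ⧸ Par P σ K) s) = ∑ w : WW P,
      if LR P (σ '' (J : Set ι)) w ∧ RR P (σ '' (K : Set ι)) w then FF P σ J K (liftN P w) s else 0 := by
  letI : Fintype (G ⧸ Par P σ K) := Fintype.ofFinite _
  set X : Finset (G ⧸ Par P σ K) := Finset.univ.filter (fun q => s • q = q) with hX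
  have h0 : Nat.card (fixedBy (G ⧸ Par P σ K) s) = X.card := by
    rw [Nat.card_eq_fintype_card, ← Fintype.card_coe]
    apply Fintype.card_congr
    refine Equiv.subtypeEquivRight ?_
    intro q
    simp [hX, MulAction.mem_fixedBy]
  have h1 := Finset.card_eq_sum_card_fiberwise (s := X) (f := fun q : G ⧸ Par P σ K => typ hJ hK q)
    (t := Finset.univ) (fun _ _ => Finset.mem_coe.2 (Finset.mem_univ _))
  rw [h0, h1]
  apply Finset.sum_congr rfl
  intro w _
  split_ifs with hc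
  · obtain ⟨hc1, hc2⟩ := hc
    have hn := liftN_mem w
    have hp := pi_liftN w
    have h3 : ∀ q, typ hJ hK q = w ↔ ∃ p ∈ Par P σ J, q = ((p * liftN P w : G) : G ⧸ Par P σ K) := by
      intro q
      have := typ_iff hJ hK hn (by rw [hp]; exact hc1) (by rw [hp]; exact hc2) q
      rwa [hp] at this
    unfold FF
    rw [Nat.card_eq_fintype_card, Fintype.card_subtype]
    congr 1
    ext q
    simp only [hX, Finset.mem_filter, Finset.mem_univ, true_and]
    rw [h3 q]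
    tauto
  · apply Finset.card_eq_zero.2
    apply Finset.eq_empty_of_forall_notMem
    intro q hq
    simp only [Finset.mem_filter] at hq
    obtain ⟨_, rfl⟩ := hq
    exact hc (typ_spec hJ hK q)

theorem lt_of_mem_TT {A J : Finset ι} {d : WW P} (hd : LR P (σ '' (J : Set ι)) d) {i : ι}
    (hi : i ∈ TT P σ A J d) : lW P d < lW P (d * pi P (σ i)) := by
  obtain ⟨_, ⟨j, hj, rfl⟩, e⟩ := ((mem_TT σ).1 hi).2
  have e2 : d * pi P (σ i) = pi P (σ j) * d := by
    rw [e]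
    group
  rw [e2]
  exact hd _ ⟨σ j, ⟨j, hj, rfl⟩, rfl⟩

/-- The element `d = w_J w_0`. -/
def IsTop (P : Cfsg.BNPair G) (σ : ι → G) (A J : Finset ι) (d : WW P) : Prop :=
  LR P (σ '' (J : Set ι)) d ∧ ∀ i ∈ A, lW P d < lW P (d * pi P (σ i)) → i ∈ TT P σ A J d

theorem exists_top [Finite G] {A J : Finset ι} (hA' : ∀ i ∈ A, σ i ∈ P.S) (hJ : J ⊆ A) :
    ∃ d, IsTop P σ A J d := by
  have hS := coxLen (P := P)
  have hJ' : pi P '' (σ '' (J : Set ι)) ⊆ SW P := Set.image_mono (image_sub σ hJ hA')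
  obtain ⟨d, h1, h2⟩ := hS.exists_max_lred hJ'
  refine ⟨d, h1, ?_⟩
  intro i hi hup
  obtain ⟨t, ht, e⟩ := h2 _ (pi_mem_SW (hA' i hi)) hup
  refine (mem_TT σ).2 ⟨hi, ?_⟩
  rw [e]
  simpa using ht

theorem top_fullD {A J : Finset ι} (hA : ∀ s ∈ P.S, ∃ i ∈ A, σ i = s) (hA' : ∀ i ∈ A, σ i ∈ P.S)
    (hJ : J ⊆ A) {a d : WW P} (ha : a ∈ Wp P σ J) (hf : FullD (pi P '' (σ '' (J : Set ι))) (lW P) a)
    (hd : IsTop P σ A J d) : FullD (SW P) (lW P) (a * d) := by
  have hS := coxLen (P := P)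
  have hJ' : pi P '' (σ '' (J : Set ι)) ⊆ SW P := Set.image_mono (image_sub σ hJ hA')
  apply hS.fullD_mul hJ' ha hf hd.1
  rintro _ ⟨s, hs, rfl⟩ hup
  obtain ⟨i, hi, rfl⟩ := hA s hs
  obtain ⟨h1, h2⟩ := (mem_TT σ).1 (hd.2 i hi hup)
  refine ⟨_, h2, ?_⟩
  group

theorem top_unique [Finite G] {A J : Finset ι} (hA : ∀ s ∈ P.S, ∃ i ∈ A, σ i = s)
    (hA' : ∀ i ∈ A, σ i ∈ P.S) (hJ : J ⊆ A) {d d' : WW P} (hd : IsTop P σ A J d)
    (hd' : IsTop P σ A J d') : d = d' := by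
  have hS := coxLen (P := P)
  have hJ' : pi P '' (σ '' (J : Set ι)) ⊆ SW P := Set.image_mono (image_sub σ hJ hA')
  obtain ⟨a, ha, hf⟩ := hS.exists_fullD hJ'
  have h1 := top_fullD σ hA hA' hJ ha hf hd
  have h2 := top_fullD σ hA hA' hJ ha hf hd'
  have h3 := hS.eq_of_fullD subset_rfl (by rw [hS.gen]; trivial) (by rw [hS.gen]; trivial) h1 h2
  exact mul_left_cancel h3

theorem top_surj [Finite G] {A J : Finset ι} (hA : ∀ s ∈ P.S, ∃ i ∈ A, σ i = s)
    (hA' : ∀ i ∈ A, σ i ∈ P.S) (hJ : J ⊆ A) {d : WW P} (hd : IsTop P σ A J d) {j : ι} (hj : j ∈ J) :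
    ∃ i ∈ TT P σ A J d, d * pi P (σ i) = pi P (σ j) * d := by
  have hS := coxLen (P := P)
  have hJ' : pi P '' (σ '' (J : Set ι)) ⊆ SW P := Set.image_mono (image_sub σ hJ hA')
  obtain ⟨a, ha, hf⟩ := hS.exists_fullD hJ'
  have h1 := top_fullD σ hA hA' hJ ha hf hd
  have hw₀ : a * d ∈ Subgroup.closure (SW P) := by rw [hS.gen]; trivial
  have ht : pi P (σ j) ∈ pi P '' (σ '' (J : Set ι)) := ⟨σ j, ⟨j, hj, rfl⟩, rfl⟩
  have h2 := hS.conj_fullD hJ' ha hf ht
  have h3 := hS.conj_fullD subset_rfl hw₀ h1 (hJ' h2)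
  have hinv := hS.inv_of_fullD hJ' ha hf
  have e : (a * d)⁻¹ * (a⁻¹ * pi P (σ j) * a) * (a * d) = d⁻¹ * pi P (σ j) * d := by
    rw [hinv]
    have h4 : a * a = 1 := by
      nth_rewrite 1 [← hinv]
      exact inv_mul_cancel a
    calc (a * d)⁻¹ * (a * pi P (σ j) * a) * (a * d)
        = d⁻¹ * (a⁻¹ * a) * pi P (σ j) * (a * a) * d := by group
      _ = _ := by rw [inv_mul_cancel, h4]; group
  rw [e] at h3
  obtain ⟨s, hs, e2⟩ := h3
  obtain ⟨i, hi, rfl⟩ := hA s hs
  have e3 : d * pi P (σ i) = pi P (σ j) * d := by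
    rw [e2]
    group
  refine ⟨i, (mem_TT σ).2 ⟨hi, ?_⟩, e3⟩
  rw [e3]
  simpa using ht

open Classical in
/-- The sum over `K` for fixed `w` with `LR J w`. -/
theorem sum_asc [Finite G] {A J : Finset ι} (hA' : ∀ i ∈ A, σ i ∈ P.S) (w : WW P) (hw : LR P (σ '' (J : Set ι)) w) (s : G) :
    ∑ K ∈ A.powerset, (-1 : ℂ) ^ K.card * ((if LR P (σ '' (J : Set ι)) w ∧ RR P (σ '' (K : Set ι)) w then
      FF P σ J K (liftN P w) s else 0 : ℕ) : ℂ) =
    ∑ K ∈ (A.filter (fun i => lW P w < lW P (w * pi P (σ i)))).powerset,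
      (-1 : ℂ) ^ K.card * (FF P σ J K (liftN P w) s : ℂ) := by
  have hR : ∀ K ∈ A.powerset, (RR P (σ '' (K : Set ι)) w ↔
      K ∈ (A.filter (fun i => lW P w < lW P (w * pi P (σ i)))).powerset) := by
    intro K hK
    rw [rr_image_iff, Finset.mem_powerset]
    constructor
    · intro h i hi
      exact Finset.mem_filter.2 ⟨Finset.mem_powerset.1 hK hi, h i hi⟩
    · intro h i hi
      exact (Finset.mem_filter.1 (h hi)).2
  have hsub : (A.filter (fun i => lW P w < lW P (w * pi P (σ i)))).powerset ⊆ A.powerset := by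
    apply Finset.powerset_mono.2
    exact Finset.filter_subset _ _
  rw [← Finset.sum_subset hsub]
  · apply Finset.sum_congr rfl
    intro K hK
    rw [if_pos ⟨hw, (hR K (hsub hK)).2 hK⟩]
  · intro K hK hK'
    rw [if_neg, Nat.cast_zero, mul_zero]
    rintro ⟨_, h⟩
    exact hK' ((hR K hK).1 h)

/-- Terms with an ascent outside `T_w` cancel. -/
theorem sum_cancel {A J : Finset ι} (hA' : ∀ i ∈ A, σ i ∈ P.S) (hJ : J ⊆ A) {w : WW P}
    (hw : LR P (σ '' (J : Set ι)) w) {s : G} (hs : s ∈ Par P σ J) [DecidablePred (fun i => lW P w < lW P (w * pi P (σ i)))] {i : ι}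
    (hi : i ∈ A.filter (fun i => lW P w < lW P (w * pi P (σ i)))) (hiT : i ∉ TT P σ A J w) :
    ∑ K ∈ (A.filter (fun i => lW P w < lW P (w * pi P (σ i)))).powerset,
      (-1 : ℂ) ^ K.card * (FF P σ J K (liftN P w) s : ℂ) = 0 := by
  classical
  set Asc := A.filter (fun i => lW P w < lW P (w * pi P (σ i))) with hAsc
  have hn := liftN_mem w
  have hp := pi_liftN w
  have hcongr : ∀ K, K ⊆ Asc → FF P σ J K (liftN P w) s = FF P σ J (K ∩ TT P σ A J w) (liftN P w) s := by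
    intro K hK
    have hKA : K ⊆ A := hK.trans (Finset.filter_subset _ _)
    have h1 := FF_congr σ hA' hJ hKA (s := s) hn (by rw [hp]; exact hw) (by
      rw [hp, rr_image_iff]
      intro j hj
      exact (Finset.mem_filter.1 (hK hj)).2) hs
    rwa [hp] at h1
  have e : Asc = insert i (Asc.erase i) := (Finset.insert_erase hi).symm
  rw [e, Finset.sum_powerset_insert (Finset.notMem_erase i Asc)]
  rw [← Finset.sum_add_distrib]
  apply Finset.sum_eq_zero
  intro K hK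
  have hK' := Finset.mem_powerset.1 hK
  have hKA : K ⊆ Asc := hK'.trans (Finset.erase_subset _ _)
  have hiK : i ∉ K := fun h => Finset.notMem_erase i Asc (hK' h)
  have h1 := hcongr K hKA
  have h2 := hcongr (insert i K) (Finset.insert_subset hi hKA)
  have h3 : insert i K ∩ TT P σ A J w = K ∩ TT P σ A J w := Finset.insert_inter_of_notMem hiT
  rw [h3, ← h1] at h2
  rw [h2, Finset.card_insert_of_notMem hiK, pow_succ]
  ring

open Classical in
/-- The Steinberg function on `P_J`. -/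
theorem St_par_eq [Finite G] {A J : Finset ι} (hA : ∀ s ∈ P.S, ∃ i ∈ A, σ i = s)
    (hA' : ∀ i ∈ A, σ i ∈ P.S) (hJ : J ⊆ A) {d : WW P} (hd : IsTop P σ A J d) {s : G}
    (hs : s ∈ Par P σ J) :
    St P σ A s = ∑ K ∈ (TT P σ A J d).powerset, (-1 : ℂ) ^ K.card * (FF P σ J K (liftN P d) s : ℂ) := by
  letI : Fintype (WW P) := Fintype.ofFinite _
  have hJS := image_sub σ hJ hA'
  unfold St fixedPointCharacter
  have h1 : ∀ K ∈ A.powerset, (Nat.card (fixedBy (G ⧸ Par P σ K) s) : ℂ) =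
      ∑ w : WW P, ((if LR P (σ '' (J : Set ι)) w ∧ RR P (σ '' (K : Set ι)) w then
        FF P σ J K (liftN P w) s else 0 : ℕ) : ℂ) := by
    intro K hK
    rw [card_fix_eq_sum σ hJS (image_sub σ (Finset.mem_powerset.1 hK) hA') s]
    push_cast
    rfl
  rw [Finset.sum_congr rfl (fun K hK => by rw [h1 K hK])]
  simp only [Finset.mul_sum]
  rw [Finset.sum_comm, Finset.sum_eq_single d]
  · rw [sum_asc σ hA' d hd.1 s]
    congr 2
    ext i
    simp only [Finset.mem_filter]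
    constructor
    · rintro ⟨h2, h3⟩
      exact hd.2 i h2 h3
    · intro h2
      exact ⟨((mem_TT σ).1 h2).1, lt_of_mem_TT σ hd.1 h2⟩
  · intro w _ hne
    by_cases hw : LR P (σ '' (J : Set ι)) w
    · rw [sum_asc σ hA' w hw s]
      have hnt : ¬ IsTop P σ A J w := fun h => hne (top_unique σ hA hA' hJ h hd)
      have hex : ∃ i ∈ A, lW P w < lW P (w * pi P (σ i)) ∧ i ∉ TT P σ A J w := by
        by_contra hcon
        push Not at hcon
        exact hnt ⟨hw, hcon⟩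
      obtain ⟨i, hi, h2, h3⟩ := hex
      exact sum_cancel σ hA' hJ hw hs (Finset.mem_filter.2 ⟨hi, h2⟩) h3
    · apply Finset.sum_eq_zero
      intro K _
      rw [if_neg (fun h => hw h.1), Nat.cast_zero, mul_zero]
  · intro h
    exact absurd (Finset.mem_univ _) h

/-- The orbit `P_J n P_T / P_T` is regular under `V`: the number of fixed points of a `p'`-element
is the order of its centraliser in `V`. -/
theorem FF_regular [Finite G] {p : ℕ} [hp : Fact p.Prime] {J T : Finset ι} {n s : G}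
    (V L : Subgroup G) (hVJ : V ≤ Par P σ J) (hVn : Par P σ J ≤ Subgroup.normalizer (V : Set G))
    (hVp : IsPGroup p V) (hVL : ∀ x ∈ Par P σ J, ∃ v ∈ V, ∃ l ∈ L, x = v * l)
    (hL : ∀ l ∈ L, n⁻¹ * l * n ∈ Par P σ T) (hVM : ∀ v ∈ V, n⁻¹ * v * n ∈ Par P σ T → v = 1)
    (hs : s ∈ Par P σ J) (hsp : ¬ p ∣ orderOf s) :
    FF P σ J T n s = Nat.card ↥(V ⊓ Subgroup.centralizer ({s} : Set G)) := by
  classical
  let M : Subgroup G := Cfsg.Agent.Lib.CoprimeInv.cj (Par P σ T) n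
  have hM : ∀ x, x ∈ M ↔ n⁻¹ * x * n ∈ Par P σ T := fun x => Cfsg.Agent.Lib.CoprimeInv.mem_cj
  have hVM' : ∀ v ∈ V, v ∈ M → v = 1 := fun v hv h => hVM v hv ((hM v).1 h)
  have hLM : ∀ l ∈ L, l ∈ M := fun l hl => (hM l).2 (hL l hl)
  have hcop : Nat.Coprime (Nat.card V) (Nat.card (Subgroup.zpowers s)) := by
    obtain ⟨k, hk⟩ := IsPGroup.iff_card.1 hVp
    rw [hk, Nat.card_zpowers]
    exact Nat.Coprime.pow_left k ((Nat.Prime.coprime_iff_not_dvd hp.out).2 hsp)
  -- a fixed point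
  obtain ⟨v₁, hv₁, hs₁⟩ : ∃ v₁ ∈ V, v₁⁻¹ * s * v₁ ∈ M := by
    have hSn : Subgroup.zpowers s ≤ Subgroup.normalizer (V : Set G) :=
      Subgroup.zpowers_le.2 (hVn hs)
    have hVle : V ⊔ Subgroup.zpowers s ≤ Subgroup.normalizer (V : Set G) :=
      sup_le Subgroup.le_normalizer hSn
    have hd₁ : V ⊓ Subgroup.zpowers s = ⊥ :=
      Cfsg.Agent.Lib.CoprimeInv.inf_eq_bot_of_coprime' hcop
    have hd₂ : V ⊓ ((V ⊔ Subgroup.zpowers s) ⊓ M) = ⊥ := by
      rw [eq_bot_iff]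
      rintro x ⟨hx1, _, hx3⟩
      exact Subgroup.mem_bot.2 (hVM' x hx1 hx3)
    have hsup : V ⊔ Subgroup.zpowers s = V ⊔ ((V ⊔ Subgroup.zpowers s) ⊓ M) := by
      apply le_antisymm
      · apply sup_le le_sup_left
        rw [Subgroup.zpowers_le]
        obtain ⟨v, hv, l, hl, e⟩ := hVL s hs
        have h1 : l ∈ (V ⊔ Subgroup.zpowers s) ⊓ M := by
          refine Subgroup.mem_inf.2 ⟨?_, hLM l hl⟩
          have e2 : l = v⁻¹ * s := by rw [e]; group
          rw [e2]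
          exact Subgroup.mul_mem _ (Subgroup.mem_sup_left (Subgroup.inv_mem _ hv))
            (Subgroup.mem_sup_right (Subgroup.mem_zpowers s))
        have h2 : v * l ∈ V ⊔ ((V ⊔ Subgroup.zpowers s) ⊓ M) :=
          Subgroup.mul_mem _ (Subgroup.mem_sup_left hv) (Subgroup.mem_sup_right h1)
        rwa [← e] at h2
      · exact sup_le le_sup_left inf_le_left
    have hIsP : Group.IsSolvable V := by
      haveI := hVp.isNilpotent
      infer_instance
    obtain ⟨m, hm, e⟩ := Cfsg.Agent.Lib.CoprimeInv.exists_conj_rel hIsP hSn (inf_le_left.trans hVle)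
      hd₁ hd₂ hsup hcop
    refine ⟨m⁻¹, Subgroup.inv_mem _ hm, ?_⟩
    have h1 : m * s * m⁻¹ ∈ Cfsg.Agent.Lib.CoprimeInv.cj (Subgroup.zpowers s) m :=
      Cfsg.Agent.Lib.CoprimeInv.conj_mem_cj (Subgroup.mem_zpowers s)
    rw [← e] at h1
    rw [inv_inv]
    exact h1.2
  have hv₁J := hVJ hv₁
  have hs₁J : v₁⁻¹ * s * v₁ ∈ Par P σ J :=
    Subgroup.mul_mem _ (Subgroup.mul_mem _ (Subgroup.inv_mem _ hv₁J) hs) hv₁J
  symm
  unfold FF
  apply Nat.card_congr
  refine Equiv.ofBijective (fun w => ⟨((w.1 * v₁ * n : G) : G ⧸ Par P σ T),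
    ⟨w.1 * v₁, hVJ (Subgroup.mul_mem _ (Subgroup.mem_inf.1 w.2).1 hv₁), rfl⟩, ?_⟩) ⟨?_, ?_⟩
  · -- fixed
    have hw : w.1 * s = s * w.1 :=
      Subgroup.mem_centralizer_singleton_iff.1 (Subgroup.mem_inf.1 w.2).2
    show ((s * (w.1 * v₁ * n) : G) : G ⧸ Par P σ T) = _
    symm
    apply QuotientGroup.eq.2
    have e : (w.1 * v₁ * n)⁻¹ * (s * (w.1 * v₁ * n)) = n⁻¹ * (v₁⁻¹ * s * v₁) * n := by
      have : s * w.1 = w.1 * s := hw.symm
      calc (w.1 * v₁ * n)⁻¹ * (s * (w.1 * v₁ * n)) = n⁻¹ * v₁⁻¹ * w.1⁻¹ * (s * w.1) * v₁ * n := by group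
        _ = _ := by rw [this]; group
    rw [e]
    exact (hM _).1 hs₁
  · -- injective
    rintro ⟨w, hw⟩ ⟨w', hw'⟩ e
    have e' : ((w * v₁ * n : G) : G ⧸ Par P σ T) = ((w' * v₁ * n : G) : G ⧸ Par P σ T) :=
      congrArg Subtype.val e
    have h1 := QuotientGroup.eq.1 e'
    apply Subtype.ext
    show w = w'
    have e2 : (w * v₁ * n)⁻¹ * (w' * v₁ * n) = n⁻¹ * (v₁⁻¹ * (w⁻¹ * w') * v₁) * n := by group
    rw [e2] at h1
    have hw1 := (Subgroup.mem_inf.1 hw).1
    have hw2 := (Subgroup.mem_inf.1 hw').1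
    have h2 : v₁⁻¹ * (w⁻¹ * w') * v₁ ∈ V :=
      Subgroup.mul_mem _ (Subgroup.mul_mem _ (Subgroup.inv_mem _ hv₁)
        (Subgroup.mul_mem _ (Subgroup.inv_mem _ hw1) hw2)) hv₁
    have h3 := hVM _ h2 h1
    have h4 : w⁻¹ * w' = 1 := by
      have : w⁻¹ * w' = v₁ * (v₁⁻¹ * (w⁻¹ * w') * v₁) * v₁⁻¹ := by group
      rw [this, h3]
      group
    exact inv_mul_eq_one.1 h4
  · -- surjective
    rintro ⟨q, ⟨p', hp', rfl⟩, hf⟩
    obtain ⟨v, hv, l, hl, rfl⟩ := hVL p' hp'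
    have e1 : ((v * l * n : G) : G ⧸ Par P σ T) = ((v * n : G) : G ⧸ Par P σ T) := by
      symm
      apply QuotientGroup.eq.2
      have e : (v * n)⁻¹ * (v * l * n) = n⁻¹ * l * n := by group
      rw [e]
      exact hL l hl
    have hf' : ((s * (v * n) : G) : G ⧸ Par P σ T) = ((v * n : G) : G ⧸ Par P σ T) := by
      rw [e1] at hf
      exact hf
    have h2 : (v * n)⁻¹ * (s * (v * n)) ∈ Par P σ T := QuotientGroup.eq.1 hf'.symm
    have h3 : v⁻¹ * s * v ∈ M := by
      rw [hM]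
      have e : n⁻¹ * (v⁻¹ * s * v) * n = (v * n)⁻¹ * (s * (v * n)) := by group
      rw [e]
      exact h2
    -- `v⁻¹ s v = v₁⁻¹ s v₁`
    set s₁ := v₁⁻¹ * s * v₁ with hs₁def
    set u := v₁⁻¹ * v with hu
    have huV : u ∈ V := Subgroup.mul_mem _ (Subgroup.inv_mem _ hv₁) hv
    have h4 : s₁ * u * s₁⁻¹ ∈ V := (Subgroup.mem_set_normalizer_iff.1 (hVn hs₁J) u).1 huV
    have e3 : (v⁻¹ * s * v) * s₁⁻¹ = u⁻¹ * (s₁ * u * s₁⁻¹) := by
      rw [hu, hs₁def]
      group
    have h5 : (v⁻¹ * s * v) * s₁⁻¹ ∈ V := by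
      rw [e3]
      exact Subgroup.mul_mem _ (Subgroup.inv_mem _ huV) h4
    have h6 : (v⁻¹ * s * v) * s₁⁻¹ ∈ M := Subgroup.mul_mem _ h3 (Subgroup.inv_mem _ hs₁)
    have h7 := hVM' _ h5 h6
    have h8 : v⁻¹ * s * v = s₁ := mul_inv_eq_one.1 h7
    have hwV : v * v₁⁻¹ ∈ V := Subgroup.mul_mem _ hv (Subgroup.inv_mem _ hv₁)
    have hwc : v * v₁⁻¹ ∈ Subgroup.centralizer ({s} : Set G) := by
      rw [Subgroup.mem_centralizer_singleton_iff]
      have e4 : s = v * s₁ * v⁻¹ := by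
        rw [← h8]
        group
      have e5 : v * s₁ * v⁻¹ = v * (v₁⁻¹ * s * v₁) * v⁻¹ := by rw [hs₁def]
      have e6 : v * v₁⁻¹ * s = (v * (v₁⁻¹ * s * v₁) * v⁻¹) * (v * v₁⁻¹) := by group
      rw [e6, ← e5, ← e4]
    refine ⟨⟨v * v₁⁻¹, Subgroup.mem_inf.2 ⟨hwV, hwc⟩⟩, ?_⟩
    apply Subtype.ext
    show ((v * v₁⁻¹ * v₁ * n : G) : G ⧸ Par P σ T) = ((v * l * n : G) : G ⧸ Par P σ T)
    rw [e1]
    congr 1
    group

/-- The value of the Steinberg function at a `p'`-element of `P_J`, with `J` of minimal size. -/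
theorem St_value [Finite G] {p : ℕ} [hp : Fact p.Prime] {A J : Finset ι}
    (hA : ∀ s ∈ P.S, ∃ i ∈ A, σ i = s) (hA' : ∀ i ∈ A, σ i ∈ P.S) (hσ : Set.InjOn σ (A : Set ι))
    (hJ : J ⊆ A) {s : G} (hs : s ∈ Par P σ J) (hsp : ¬ p ∣ orderOf s)
    (hmin : ∀ K ⊆ A, K.card < J.card → ∀ g, g⁻¹ * s * g ∉ Par P σ K)
    (V L : Subgroup G) (hVB : V ≤ P.B) (hVJ : V ≤ Par P σ J)
    (hVn : Par P σ J ≤ Subgroup.normalizer (V : Set G))
    (hVp : IsPGroup p V) (hVL : ∀ x ∈ Par P σ J, ∃ v ∈ V, ∃ l ∈ L, x = v * l)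
    (hσL : ∀ j ∈ J, σ j ∈ L)
    (hLM : ∀ n ∈ P.N, ∀ T ⊆ A, LR P (σ '' (J : Set ι)) (pi P n) →
      (∀ j ∈ J, ∃ i ∈ T, pi P n * pi P (σ i) = pi P (σ j) * pi P n) → ∀ l ∈ L, n⁻¹ * l * n ∈ Par P σ T)
    (hVopp : ∀ n₀ ∈ P.N, FullD (SW P) (lW P) (pi P n₀) → ∀ v ∈ V, n₀⁻¹ * v * n₀ ∈ P.B → v = 1) :
    ∃ k : ℕ, St P σ A s = (-1 : ℂ) ^ k * (Nat.card ↥(V ⊓ Subgroup.centralizer ({s} : Set G)) : ℂ) := by
  classical
  have hS := coxLen (P := P)
  obtain ⟨d, hd⟩ := exists_top σ hA' hJ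
  set T := TT P σ A J d with hT
  have hTA : T ⊆ A := Finset.filter_subset _ _
  set n := liftN P d with hn
  have hnN : n ∈ P.N := liftN_mem d
  have hpi : pi P n = d := pi_liftN d
  refine ⟨T.card, ?_⟩
  rw [St_par_eq σ hA hA' hJ hd hs]
  have hTJ : T.card ≤ J.card := TT_card_le σ A J hA' hσ d
  rw [Finset.sum_eq_single T]
  · congr 2
    have hL := hLM n hnN T hTA (by rw [hpi]; exact hd.1) (by
      intro j hj
      rw [hpi]
      exact top_surj σ hA hA' hJ hd hj)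
    apply FF_regular σ V L hVJ hVn hVp hVL hL _ hs hsp
    -- `V ∩ n P_T n⁻¹ = 1`
    have hJ' : pi P '' (σ '' (J : Set ι)) ⊆ SW P := Set.image_mono (image_sub σ hJ hA')
    have hTS := image_sub σ hTA hA'
    have hRR : RR P (σ '' (T : Set ι)) (del P n) := by
      rw [del_of_mem hnN, hpi, rr_image_iff]
      intro i hi
      exact lt_of_mem_TT σ hd.1 hi
    have hclaim : ∀ u ∈ V, n⁻¹ * u * n ∈ Par P σ T → n⁻¹ * u * n ∈ P.B := by
      intro u hu h1
      apply gate_unique hTS h1 hRR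
      have e : n * (n⁻¹ * u * n) = u * n := by group
      rw [e, B_mul_del (hVB hu)]
      exact hRR
    intro u hu h1
    obtain ⟨a, ha, hf⟩ := hS.exists_fullD hJ'
    obtain ⟨nJ, hnJ, hnJa⟩ := (mem_closure_image (image_sub σ hJ hA')).1 ha
    have hcl : Subgroup.closure (σ '' (J : Set ι)) ≤ L := by
      rw [Subgroup.closure_le]
      rintro _ ⟨j, hj, rfl⟩
      exact hσL j hj
    have hcl2 : Subgroup.closure (σ '' (J : Set ι)) ≤ P.N :=
      (Subgroup.closure_le _).2 ((image_sub σ hJ hA').trans P.subset)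
    have hnJL := hcl hnJ
    have hnJP : nJ ∈ Par P σ J := closure_le_parabolic _ hnJ
    have hu' : nJ⁻¹ * u * nJ ∈ V := by
      have := (Subgroup.mem_set_normalizer_iff.1 (hVn (Subgroup.inv_mem _ hnJP)) u).1 hu
      simpa using this
    have h2 : n⁻¹ * (nJ⁻¹ * u * nJ) * n ∈ Par P σ T := by
      have h3 := hL nJ hnJL
      have e : n⁻¹ * (nJ⁻¹ * u * nJ) * n = (n⁻¹ * nJ * n)⁻¹ * (n⁻¹ * u * n) * (n⁻¹ * nJ * n) := by group
      rw [e]
      exact Subgroup.mul_mem _ (Subgroup.mul_mem _ (Subgroup.inv_mem _ h3) h1) h3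
    have h3 := hclaim _ hu' h2
    have hn₀ : nJ * n ∈ P.N := P.N.mul_mem (hcl2 hnJ) hnN
    have hfull : FullD (SW P) (lW P) (pi P (nJ * n)) := by
      rw [pi_mul (hcl2 hnJ) hnN, hnJa, hpi]
      exact top_fullD σ hA hA' hJ ha hf hd
    apply hVopp _ hn₀ hfull u hu
    have e : (nJ * n)⁻¹ * u * (nJ * n) = n⁻¹ * (nJ⁻¹ * u * nJ) * n := by group
    rw [e]
    exact h3
  · intro K hK hne
    have hK' := Finset.mem_powerset.1 hK
    have hlt : K.card < J.card := lt_of_lt_of_le (Finset.card_lt_card (Finset.ssubset_iff_subset_ne.2 ⟨hK', hne⟩)) hTJ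
    have h0 : FF P σ J K n s = 0 := by
      unfold FF
      apply Nat.card_eq_zero.2
      left
      constructor
      rintro ⟨q, _, hf⟩
      induction q using QuotientGroup.induction_on with | H y =>
      have h1 : ((s * y : G) : G ⧸ Par P σ K) = (y : G ⧸ Par P σ K) := hf
      have h2 := QuotientGroup.eq.1 h1.symm
      apply hmin K (hK'.trans hTA) hlt y
      have e : y⁻¹ * s * y = y⁻¹ * (s * y) := by group
      rw [e]
      exact h2
    rw [h0, Nat.cast_zero, mul_zero]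
  · intro h
    exact absurd (Finset.mem_powerset.2 subset_rfl) h

/-- Commuting elements of coprime orders lie in the cyclic group generated by their product. -/
theorem mem_stabilizer_of_mul {X : Type*} [MulAction G X] {s q : G} (hc : q * s = s * q)
    (hco : Nat.Coprime (orderOf s) (orderOf q)) {x : X} (h : (s * q) • x = x) :
    s • x = x ∧ q • x = x := by
  have hcomm : Commute s q := hc.symm
  have hst : s * q ∈ stabilizer G x := h
  obtain ⟨u, v, huv⟩ : ∃ u v : ℤ, (u * (orderOf s : ℤ) + v * (orderOf q : ℤ)) = 1 := by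
    have := Nat.gcd_eq_gcd_ab (orderOf s) (orderOf q)
    rw [hco] at this
    exact ⟨Nat.gcdA (orderOf s) (orderOf q), Nat.gcdB (orderOf s) (orderOf q), by
      push_cast at this
      linarith⟩
  have h1 : (s * q) ^ (v * (orderOf q : ℤ)) = s := by
    rw [hcomm.mul_zpow]
    have h2 : q ^ (v * (orderOf q : ℤ)) = 1 := by
      rw [mul_comm, zpow_mul, zpow_natCast, pow_orderOf_eq_one, one_zpow]
    have h3 : v * (orderOf q : ℤ) = 1 - u * (orderOf s : ℤ) := by linarith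
    have h4 : s ^ (v * (orderOf q : ℤ)) = s := by
      rw [h3, zpow_sub, zpow_one, mul_comm u, zpow_mul, zpow_natCast, pow_orderOf_eq_one, one_zpow]
      simp
    rw [h2, h4, mul_one]
  have h1' : (s * q) ^ (u * (orderOf s : ℤ)) = q := by
    rw [hcomm.mul_zpow]
    have h2 : s ^ (u * (orderOf s : ℤ)) = 1 := by
      rw [mul_comm, zpow_mul, zpow_natCast, pow_orderOf_eq_one, one_zpow]
    have h3 : u * (orderOf s : ℤ) = 1 - v * (orderOf q : ℤ) := by linarith
    have h4 : q ^ (u * (orderOf s : ℤ)) = q := by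
      rw [h3, zpow_sub, zpow_one, mul_comm v, zpow_mul, zpow_natCast, pow_orderOf_eq_one, one_zpow]
      simp
    rw [h2, h4, one_mul]
  constructor
  · have := Subgroup.zpow_mem _ hst (v * (orderOf q : ℤ))
    rw [h1] at this
    exact this
  · have := Subgroup.zpow_mem _ hst (u * (orderOf s : ℤ))
    rw [h1'] at this
    exact this

/-- The fixed points of `s` in a `G`-set, as a set with an action of `Q`. -/
def fixSub {X : Type*} [MulAction G X] (Q : Subgroup G) {s : G} (hQc : ∀ q ∈ Q, q * s = s * q) :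
    SubMulAction Q X where
  carrier := fixedBy X s
  smul_mem' := by
    rintro ⟨q, hq⟩ x hx
    have h : s • x = x := hx
    show s • (q • x) = q • x
    rw [← mul_smul, ← hQc q hq, mul_smul, h]

/-- Burnside's lemma for the fixed points of `s`. -/
theorem sum_fix_mul {X : Type*} [MulAction G X] [Finite X] [Finite G] {p : ℕ} [hp : Fact p.Prime]
    {s : G} (hsp : ¬ p ∣ orderOf s) (Q : Subgroup G) [Fintype Q] (hQ : IsPGroup p Q)
    (hQc : ∀ q ∈ Q, q * s = s * q) :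
    ∃ m : ℕ, ∑ q : Q, Nat.card (fixedBy X (s * (q : G))) = m * Nat.card Q := by
  classical
  letI : Fintype (fixSub (X := X) Q hQc) := Fintype.ofFinite _
  letI : ∀ a : Q, Fintype (fixedBy (fixSub (X := X) Q hQc) a) := fun a => Fintype.ofFinite _
  letI : Fintype (Quotient (orbitRel Q (fixSub (X := X) Q hQc))) := Fintype.ofFinite _
  refine ⟨Fintype.card (Quotient (orbitRel Q (fixSub (X := X) Q hQc))), ?_⟩
  have h1 := sum_card_fixedBy_eq_card_orbits_mul_card_group Q (fixSub (X := X) Q hQc)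
  rw [Nat.card_eq_fintype_card (α := Q), ← h1]
  apply Finset.sum_congr rfl
  intro q _
  rw [← Nat.card_eq_fintype_card]
  symm
  apply Nat.card_congr
  have hco : Nat.Coprime (orderOf s) (orderOf (q : G)) := by
    obtain ⟨k, hk⟩ := hQ q
    have h2 : (q : G) ^ p ^ k = 1 := by
      have := congrArg Subtype.val hk
      simpa using this
    exact Nat.Coprime.coprime_dvd_right (orderOf_dvd_of_pow_eq_one h2)
      (Nat.Coprime.pow_right k ((Nat.Prime.coprime_iff_not_dvd hp.out).2 hsp).symm)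
  refine Equiv.ofBijective (fun x => ⟨x.1.1, ?_⟩) ⟨?_, ?_⟩
  · have h2 : s • x.1.1 = x.1.1 := x.1.2
    have h3 : (q : G) • x.1.1 = x.1.1 := congrArg Subtype.val x.2
    show (s * (q : G)) • x.1.1 = x.1.1
    rw [mul_smul, h3, h2]
  · rintro ⟨⟨x, _⟩, _⟩ ⟨⟨y, _⟩, _⟩ e
    have e' : x = y := congrArg Subtype.val e
    subst e'
    rfl
  · rintro ⟨x, hx⟩
    have hx' : (s * (q : G)) • x = x := hx
    obtain ⟨h2, h3⟩ := mem_stabilizer_of_mul (hQc q q.2) hco hx'
    exact ⟨⟨⟨x, h2⟩, Subtype.ext h3⟩, rfl⟩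

/-- `|Q|` divides the value of the Steinberg function at `s`, for `Q` a `p`-subgroup centralizing the
`p'`-element `s`, as the Steinberg function vanishes on `p`-singular elements. -/
theorem St_dvd [Finite G] {p : ℕ} [hp : Fact p.Prime] (A : Finset ι)
    (hvan : ∀ g, p ∣ orderOf g → St P σ A g = 0) {s : G} (hsp : ¬ p ∣ orderOf s) (Q : Subgroup G)
    (hQ : IsPGroup p Q) (hQc : ∀ q ∈ Q, q * s = s * q) :
    ∃ m : ℤ, St P σ A s = (Nat.card Q : ℂ) * (m : ℂ) := by
  classical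
  letI : Fintype Q := Fintype.ofFinite _
  have h1 : ∑ q : Q, St P σ A (s * (q : G)) = St P σ A s := by
    rw [Finset.sum_eq_single (1 : Q)]
    · simp
    · intro q _ hq
      apply hvan
      have hq1 : (q : G) ≠ 1 := fun h => hq (Subtype.ext h)
      obtain ⟨k, hk⟩ := hQ q
      have h2 : (q : G) ^ p ^ k = 1 := by
        have := congrArg Subtype.val hk
        simpa using this
      have hco : Nat.Coprime (orderOf s) (orderOf (q : G)) :=
        Nat.Coprime.coprime_dvd_right (orderOf_dvd_of_pow_eq_one h2)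
          (Nat.Coprime.pow_right k ((Nat.Prime.coprime_iff_not_dvd hp.out).2 hsp).symm)
      have hcomm : Commute s (q : G) := (hQc q q.2).symm
      rw [hcomm.orderOf_mul_eq_mul_orderOf_of_coprime hco]
      apply Dvd.dvd.mul_left
      -- the order of a nontrivial `p`-element
      have h3 : orderOf (q : G) ∣ p ^ k := orderOf_dvd_of_pow_eq_one h2
      obtain ⟨j, _, hj⟩ := (Nat.dvd_prime_pow hp.out).1 h3
      rw [hj]
      have hj0 : j ≠ 0 := by
        rintro rfl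
        rw [pow_zero, orderOf_eq_one_iff] at hj
        exact hq1 hj
      exact dvd_pow_self p hj0
    · intro h
      exact absurd (Finset.mem_univ _) h
  have h2 : ∀ K : Finset ι, ∃ m : ℕ, ∑ q : Q, (Nat.card (fixedBy (G ⧸ Par P σ K) (s * (q : G))) : ℂ) =
      (m : ℂ) * (Nat.card Q : ℂ) := by
    intro K
    obtain ⟨m, hm⟩ := sum_fix_mul (X := G ⧸ Par P σ K) hsp Q hQ hQc
    refine ⟨m, ?_⟩
    rw [← Nat.cast_mul, ← hm]
    push_cast
    rfl
  choose m hm using h2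
  refine ⟨∑ K ∈ A.powerset, (-1) ^ K.card * (m K : ℤ), ?_⟩
  rw [← h1]
  unfold St fixedPointCharacter
  rw [Finset.sum_comm]
  push_cast
  rw [Finset.mul_sum]
  apply Finset.sum_congr rfl
  intro K _
  rw [← Finset.mul_sum, hm K]
  ring

/-- The Steinberg function is a class function. -/
theorem St_conj (A : Finset ι) (x s : G) : St P σ A (x * s * x⁻¹) = St P σ A s := by
  unfold St fixedPointCharacter
  apply Finset.sum_congr rfl
  intro K _
  congr 2
  apply Nat.card_congr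
  refine ⟨fun q => ⟨x⁻¹ • q.1, ?_⟩, fun q => ⟨x • q.1, ?_⟩, ?_, ?_⟩
  · have h : (x * s * x⁻¹) • q.1 = q.1 := q.2
    show s • x⁻¹ • q.1 = x⁻¹ • q.1
    calc s • x⁻¹ • q.1 = x⁻¹ • ((x * s * x⁻¹) • q.1) := by
          simp only [smul_smul]
          congr 1
          group
      _ = _ := by rw [h]
  · have h : s • q.1 = q.1 := q.2
    show (x * s * x⁻¹) • x • q.1 = x • q.1
    calc (x * s * x⁻¹) • x • q.1 = x • (s • q.1) := by
          simp only [smul_smul]
          congr 1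
          group
      _ = _ := by rw [h]
  · intro q
    apply Subtype.ext
    simp
  · intro q
    apply Subtype.ext
    simp

theorem card_centralizer_conj (x g : G) : Nat.card ↥(Subgroup.centralizer ({x⁻¹ * g * x} : Set G)) =
    Nat.card ↥(Subgroup.centralizer ({g} : Set G)) := by
  apply Nat.card_congr
  refine ⟨fun y => ⟨x * y.1 * x⁻¹, ?_⟩, fun y => ⟨x⁻¹ * y.1 * x, ?_⟩, ?_, ?_⟩
  · have h := Subgroup.mem_centralizer_singleton_iff.1 y.2
    rw [Subgroup.mem_centralizer_singleton_iff]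
    calc x * y.1 * x⁻¹ * g = x * (y.1 * (x⁻¹ * g * x)) * x⁻¹ := by group
      _ = x * ((x⁻¹ * g * x) * y.1) * x⁻¹ := by rw [h]
      _ = _ := by group
  · have h := Subgroup.mem_centralizer_singleton_iff.1 y.2
    rw [Subgroup.mem_centralizer_singleton_iff]
    calc x⁻¹ * y.1 * x * (x⁻¹ * g * x) = x⁻¹ * (y.1 * g) * x := by group
      _ = x⁻¹ * (g * y.1) * x := by rw [h]
      _ = _ := by group
  · intro y
    apply Subtype.ext
    simp [mul_assoc]
  · intro y
    apply Subtype.ext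
    simp [mul_assoc]

/-- The Steinberg function at a `p'`-element is `± |C(g)|_p`. -/
theorem St_pm [Finite G] {p : ℕ} [hp : Fact p.Prime] {A : Finset ι}
    (hA : ∀ s ∈ P.S, ∃ i ∈ A, σ i = s) (hA' : ∀ i ∈ A, σ i ∈ P.S) (hσ : Set.InjOn σ (A : Set ι))
    (hvan : ∀ g, p ∣ orderOf g → St P σ A g = 0)
    (hdata : ∀ J ⊆ A, ∃ V L : Subgroup G, V ≤ P.B ∧ V ≤ Par P σ J ∧
      Par P σ J ≤ Subgroup.normalizer (V : Set G) ∧ IsPGroup p V ∧
      (∀ x ∈ Par P σ J, ∃ v ∈ V, ∃ l ∈ L, x = v * l) ∧ (∀ j ∈ J, σ j ∈ L) ∧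
      (∀ n ∈ P.N, ∀ T ⊆ A, LR P (σ '' (J : Set ι)) (pi P n) →
        (∀ j ∈ J, ∃ i ∈ T, pi P n * pi P (σ i) = pi P (σ j) * pi P n) → ∀ l ∈ L, n⁻¹ * l * n ∈ Par P σ T) ∧
      (∀ n₀ ∈ P.N, FullD (SW P) (lW P) (pi P n₀) → ∀ v ∈ V, n₀⁻¹ * v * n₀ ∈ P.B → v = 1))
    (g : G) (hg : ¬ p ∣ orderOf g) :
    St P σ A g = ((p ^ (Nat.card ↥(Subgroup.centralizer ({g} : Set G))).factorization p : ℕ) : ℂ) ∨
      St P σ A g = -((p ^ (Nat.card ↥(Subgroup.centralizer ({g} : Set G))).factorization p : ℕ) : ℂ) := by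
  classical
  -- the minimal `J`
  have htop : Par P σ A = ⊤ := par_top σ hA hA'
  let 𝓙 : Finset (Finset ι) := A.powerset.filter (fun J => ∃ x, x⁻¹ * g * x ∈ Par P σ J)
  have hne : 𝓙.Nonempty := ⟨A, Finset.mem_filter.2 ⟨Finset.mem_powerset.2 subset_rfl, 1, by rw [htop]; trivial⟩⟩
  obtain ⟨J, hJ, hJmin⟩ := Finset.exists_min_image 𝓙 Finset.card hne
  obtain ⟨hJA, x, hx⟩ := Finset.mem_filter.1 hJ
  have hJA' := Finset.mem_powerset.1 hJA
  set s := x⁻¹ * g * x with hs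
  have hgs : g = x * s * x⁻¹ := by
    rw [hs]
    group
  have hord : orderOf s = orderOf g := by
    rw [hs]
    have : x⁻¹ * g * x = (MulAut.conj x⁻¹) g := by simp [MulAut.conj_apply]
    rw [this]
    exact MulEquiv.orderOf_eq _ g
  have hsp : ¬ p ∣ orderOf s := by rwa [hord]
  have hmin : ∀ K ⊆ A, K.card < J.card → ∀ y, y⁻¹ * s * y ∉ Par P σ K := by
    intro K hK hlt y hy
    have h1 : K ∈ 𝓙 := Finset.mem_filter.2 ⟨Finset.mem_powerset.2 hK, x * y, by
      have e : (x * y)⁻¹ * g * (x * y) = y⁻¹ * s * y := by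
        rw [hs]
        group
      rw [e]
      exact hy⟩
    have := hJmin K h1
    omega
  obtain ⟨V, L, hVB, hVJ, hVn, hVp, hVL, hσL, hLM, hVopp⟩ := hdata J hJA'
  obtain ⟨k, hk⟩ := St_value σ hA hA' hσ hJA' hx hsp hmin V L hVB hVJ hVn hVp hVL hσL hLM hVopp
  -- the Sylow subgroup of the centralizer
  set C := Subgroup.centralizer ({s} : Set G) with hC
  let S₀ : Sylow p C := default
  let Q : Subgroup G := (S₀ : Subgroup C).map C.subtype
  have hQcard : Nat.card Q = p ^ (Nat.card C).factorization p := by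
    have h1 : Nat.card Q = Nat.card (S₀ : Subgroup C) :=
      Nat.card_congr (Subgroup.equivMapOfInjective _ _ C.subtype_injective).symm.toEquiv
    rw [h1]
    exact S₀.card_eq_multiplicity
  have hQp : IsPGroup p Q := (S₀.isPGroup').map C.subtype
  have hQc : ∀ q ∈ Q, q * s = s * q := by
    rintro _ ⟨q, _, rfl⟩
    exact Subgroup.mem_centralizer_singleton_iff.1 q.2
  obtain ⟨m, hm⟩ := St_dvd σ A hvan hsp Q hQp hQc
  have hcent := card_centralizer_conj x g
  rw [← hs, ← hC] at hcent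
  rw [← hcent]
  set a := Nat.card ↥(V ⊓ C) with ha
  set b := p ^ (Nat.card C).factorization p with hb
  -- `a` divides `b`
  have hab : a ∣ b := by
    have h1 : a ∣ Nat.card C := Subgroup.card_dvd_of_le inf_le_right
    have h2 : IsPGroup p ↥(V ⊓ C) := hVp.to_le inf_le_left
    obtain ⟨i, hi⟩ := IsPGroup.iff_card.1 h2
    rw [← ha] at hi
    rw [hi] at h1 ⊢
    have hCne : Nat.card C ≠ 0 := Nat.card_pos.ne'
    exact pow_dvd_pow p ((hp.out.pow_dvd_iff_le_factorization hCne).1 h1)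
  -- `b` divides `a`
  have hsign : ((-1 : ℤ) ^ k) * (a : ℤ) = (b : ℤ) * m := by
    have h1 : ((((-1 : ℤ) ^ k) * (a : ℤ) : ℤ) : ℂ) = (((b : ℤ) * m : ℤ) : ℂ) := by
      push_cast
      rw [← hk, hm, hQcard]
    exact_mod_cast h1
  have hba : b ∣ a := by
    have h1 : (b : ℤ) ∣ ((-1 : ℤ) ^ k) * (a : ℤ) := ⟨m, hsign⟩
    have h2 : (b : ℤ) ∣ (a : ℤ) := by
      rcases neg_one_pow_eq_or ℤ k with h3 | h3
      · rwa [h3, one_mul] at h1
      · rw [h3, neg_one_mul, dvd_neg] at h1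
        exact h1
    exact_mod_cast h2
  have hab' : a = b := Nat.dvd_antisymm hab hba
  rw [hgs, St_conj, hk, hab']
  rcases neg_one_pow_eq_or ℂ k with h3 | h3
  · left
    rw [h3, one_mul]
  · right
    rw [h3, neg_one_mul]

end

end Cfsg.Agent.Lib.StBN50
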