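import Mathlib
import Cfsg.Agent.Lib.ClCount2
import Cfsg.Agent.Lib.StPar50

/-!
# Polar systems: the number of `p`-elements
-/

set_option autoImplicit false
set_option linter.unusedSectionVars false
set_option linter.unusedVariables false

namespace Cfsg.Agent.Lib.ClPolar

open Module Cfsg.Agent.Lib.ClBN2 Cfsg.Agent.Lib.ClBN1 Cfsg.Agent.Lib.StBN50 Cfsg.Agent.Lib.CoxLen50
open Cfsg.Agent.Lib.BNPair

noncomputable section

variable {F V A K : Type*} [Field F] [AddCommGroup V] [Module F V] [Group A] {m : ℕ}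

namespace Sys

variable {S : Sys F V A K m} [Finite A] [Fintype K] [IsEmpty K]

/-- The parabolic subgroups stabilise the flags. -/
theorem par_le_Stb (hf : S.Full) (hthick : S.Thick) (J : Finset (Fin m)) :
    Par (S.bn hf hthick) (sig hf hthick) J ≤ S.Stb (flagSet J) := by
  unfold Par Cfsg.BNPair.parabolic
  apply sup_le
  · intro g hg j hj
    exact hg j hj.1
  · rw [Subgroup.closure_le]
    rintro _ ⟨i, hi, rfl⟩
    obtain ⟨U, -, hd⟩ := sig_spec hf hthick i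
    intro j hj
    exact hd.sQ j ⟨hj.1, hj.2 i hi⟩

variable (p : ℕ) [hp : Fact p.Prime] [CharP F p]

theorem hUT (hf : S.Full) (hthick : S.Thick) : ∀ b ∈ (S.bn hf hthick).B, ∃ u ∈ S.UU,
    ∃ t ∈ (S.bn hf hthick).B ⊓ (S.bn hf hthick).N, b = u * t := by
  intro b hb
  obtain ⟨u, hu, t, ht, e⟩ := exists_UT (S := S) hf.fullM hb
  refine ⟨u, hu, t, ?_, e⟩
  show t ∈ S.B ⊓ S.NN
  rw [S.inf_eq]
  exact ht

theorem hdvdT (hf : S.Full) (hthick : S.Thick)
    (hT : ∀ t ∈ S.TT, (∀ a, S.ρ t (S.X a) = S.X a) → t ^ p = 1 → t = 1) :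
    ¬ p ∣ Nat.card ↥((S.bn hf hthick).B ⊓ (S.bn hf hthick).N) := by
  show ¬ p ∣ Nat.card ↥(S.B ⊓ S.NN)
  rw [S.inf_eq]
  exact not_dvd_card_of p _ le_rfl hT

theorem card_UU_eq (hf : S.Full) (hthick : S.Thick)
    (hT : ∀ t ∈ S.TT, (∀ a, S.ρ t (S.X a) = S.X a) → t ^ p = 1 → t = 1) :
    p ^ (Nat.card A).factorization p = Nat.card S.UU := by
  apply card_eq_of_split (P := S.bn hf hthick) (hUT hf hthick)
    (fun b hb u hu => UU_conj hb hu) UU_le_B (isPGroup_UU p) (hdvdT p hf hthick hT)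
  show S.UU ⊓ (S.B ⊓ S.NN) = ⊥
  rw [S.inf_eq]
  exact UU_inf_TT

theorem not_dvd_index_UU' (hf : S.Full) (hthick : S.Thick)
    (hT : ∀ t ∈ S.TT, (∀ a, S.ρ t (S.X a) = S.X a) → t ^ p = 1 → t = 1) : ¬ p ∣ S.UU.index := by
  intro h
  have hpp := hp.out
  have h1 := card_UU_eq p hf hthick hT
  have h2 : Nat.card A = Nat.card S.UU * S.UU.index := (Subgroup.card_mul_index _).symm
  have h0 : Nat.card A ≠ 0 := Nat.card_pos.ne'
  have h3 : p ^ ((Nat.card A).factorization p + 1) ∣ Nat.card A := by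
    rw [pow_succ, h1, h2]
    exact Nat.mul_dvd_mul_left _ h
  exact Nat.pow_succ_factorization_not_dvd h0 hpp h3

/-- The sum over the `p`-elements of a parabolic subgroup. -/
theorem sum_StR_J [Fintype A] (hf : S.Full) (hthick : S.Thick)
    (hT : ∀ t ∈ S.TT, (∀ a, S.ρ t (S.X a) = S.X a) → t ^ p = 1 → t = 1) (J : Finset (Fin m)) :
    ∑ x ∈ PE p (Par (S.bn hf hthick) (sig hf hthick) J), StR (S.bn hf hthick) (sig hf hthick) J x =
      (Nat.card S.UU : ℂ) := by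
  classical
  have hS := coxLen (P := S.bn hf hthick)
  have hJS : pi (S.bn hf hthick) '' (sig hf hthick '' (J : Set (Fin m))) ⊆ SW (S.bn hf hthick) := by
    rintro _ ⟨_, ⟨i, hi, rfl⟩, rfl⟩
    exact pi_mem_SW (sig_mem hf hthick i)
  haveI : Finite (WW (S.bn hf hthick)) := inferInstance
  obtain ⟨w₀, hw₀, hf₀⟩ := hS.exists_fullD hJS
  obtain ⟨n, hn, rfl⟩ := exists_pi w₀
  have hinv := hS.inv_of_fullD hJS hw₀ hf₀
  have hpinv : pi (S.bn hf hthick) n⁻¹ = pi (S.bn hf hthick) n := by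
    rw [pi_inv hn, hinv]
  obtain ⟨τ, hτ⟩ : ∃ τ, S.Mon τ n := id hn
  have hd : ∀ i ∈ J, (∀ j : Fin m, j.val = i.val + 1 → ht (τ⁻¹ (j, true)) < ht (τ⁻¹ (i, true))) ∧
      (i.val + 1 = m → ht (τ⁻¹ (i, false)) < ht (τ⁻¹ (i, true))) := by
    intro i hi
    apply descent_perm hf hthick i hτ.inv
    rw [hpinv]
    exact hf₀ _ ⟨_, ⟨i, hi, rfl⟩, rfl⟩
  apply sum_StR_of_radical (P := S.bn hf hthick) (sig hf hthick) (R := S.RR J)
    (fun i _ => sig_mem hf hthick i) (isPGroup_UU p) (not_dvd_index_UU' p hf hthick hT) UU_le_B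
    (fun b hb u hu => UU_conj hb hu) (RR_le_UU J) ?_ hn hw₀ hf₀ ?_ ?_
  · intro g hg r hr
    exact RR_conj (par_le_Stb hf hthick J hg) hr
  · intro u hu hc
    apply mem_RR_of_conj hτ.inv (fun i hi => (hd i hi).1) (fun i hi => (hd i hi).2) hu
    rw [inv_inv]
    exact hc
  · intro b hb
    obtain ⟨u, hu, t, ht, e⟩ := exists_UT (S := S) hf.fullM hb
    refine ⟨u, hu, ?_⟩
    rw [e, inv_mul_cancel_left]
    exact S.conj_TT n hn t ⟨S.TT_le_B ht, S.TT_le_NN ht⟩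

/-- The number of `p`-elements. -/
theorem card_pelements (hf : S.Full) (hthick : S.Thick)
    (hT : ∀ t ∈ S.TT, (∀ a, S.ρ t (S.X a) = S.X a) → t ^ p = 1 → t = 1) :
    Nat.card {g : A // ∃ k : ℕ, orderOf g = p ^ k} = Nat.card S.UU * Nat.card S.UU := by
  classical
  haveI : Fintype A := Fintype.ofFinite A
  have hA : ∀ s ∈ (S.bn hf hthick).S, ∃ i ∈ (Finset.univ : Finset (Fin m)), sig hf hthick i = s := by
    intro s hs
    obtain ⟨i, hi⟩ := exists_sig hf hthick hs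
    exact ⟨i, Finset.mem_univ _, hi⟩
  have hA' : ∀ i ∈ (Finset.univ : Finset (Fin m)), sig hf hthick i ∈ (S.bn hf hthick).S :=
    fun i _ => sig_mem hf hthick i
  have h1 := card_PE_top (P := S.bn hf hthick) (sig hf hthick) p Finset.univ (Nat.card S.UU : ℂ)
    (fun J _ => sum_StR_J p hf hthick hT J)
  obtain ⟨n₀, hn₀, hopp⟩ := exists_opp (S := S) hf
  have hopp' : ∀ x ∈ (S.bn hf hthick).B, n₀⁻¹ * x * n₀ ∈ (S.bn hf hthick).B → x ∈ (S.bn hf hthick).N :=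
    fun x hx hy => S.TT_le_NN (hopp x hx hy)
  let Y : Subgroup ↥(S.bn hf hthick).B := ((S.bn hf hthick).B ⊓ (S.bn hf hthick).N).subgroupOf (S.bn hf hthick).B
  have hY : ∀ x : ↥(S.bn hf hthick).B, x ∈ Y ↔ n₀⁻¹ * (x : A) * n₀ ∈ (S.bn hf hthick).B := by
    intro x
    rw [Subgroup.mem_subgroupOf]
    constructor
    · intro h
      exact T_conj' hn₀ h.1 h.2
    · intro h
      exact ⟨x.2, hopp' x.1 x.2 h⟩
  have hf₀ := fullD_of_inf hn₀ hopp'
  have hone : St (S.bn hf hthick) (sig hf hthick) Finset.univ 1 = (Nat.card S.UU : ℂ) := by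
    rw [St_one_eq (P := S.bn hf hthick) (sig hf hthick) hA hA' hn₀ hf₀ Y hY]
    refine congrArg _ (card_quot_of_split (S.bn hf hthick) (hUT hf hthick) UU_le_B ?_)
    show S.UU ⊓ (S.B ⊓ S.NN) = ⊥
    rw [S.inf_eq]
    exact UU_inf_TT
  rw [← St_eq_StR _ hA hA', hone, par_top _ hA hA'] at h1
  have h2 : Nat.card {g : A // ∃ k : ℕ, orderOf g = p ^ k} = (PE p (⊤ : Subgroup A)).card := by
    rw [Nat.card_eq_fintype_card, Fintype.card_subtype]
    congr 1
    ext x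
    simp [mem_PE, IsPE]
  rw [h2]
  exact_mod_cast h1

end Sys

end

end Cfsg.Agent.Lib.ClPolar
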