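import Mathlib
import Cfsg.Agent.Lib.GenChar
import Cfsg.Agent.Lib.CharInd
import Cfsg.Agent.Lib.BlkBasic

/-!
# Class tables of finite groups

A list of pairwise non-conjugate elements with bounded centralizers and class sizes adding up to the
group order gives a parametrization of class functions by vectors.  A table of integer data of the
right norms then gives all irreducible characters, and the blocks can be read off.
-/

set_option autoImplicit false
set_option linter.style.haveILetI false
set_option linter.unusedVariables false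
set_option linter.unusedSectionVars false

namespace Cfsg.Agent.Lib.ClassTab

open Cfsg Cfsg.Agent.Lib.CharBasic Cfsg.Agent.Lib.GenChar
open scoped ComplexConjugate

universe u

/-- A class table. -/
structure Tab (G : Type u) [Group G] (n : ℕ) where
  /-- representatives -/
  r : Fin n → G
  /-- centralizer orders -/
  cc : Fin n → ℕ
  /-- class sizes -/
  cs : Fin n → ℕ
  cent_le : ∀ i, Nat.card (Subgroup.centralizer ({r i} : Set G)) ≤ cc i
  not_conj : ∀ i j, i ≠ j → ¬ IsConj (r i) (r j)
  mul_eq : ∀ i, cs i * cc i = Nat.card G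
  cc_pos : ∀ i, 0 < cc i
  sum_eq : ∑ i, cs i = Nat.card G

variable {G : Type u} [Group G] [Finite G] {n : ℕ} (T : Tab G n)

namespace Tab

theorem card_conj_ge (i : Fin n) : T.cs i ≤ Nat.card {x : G // IsConj (T.r i) x} := by
  haveI : Fintype G := Fintype.ofFinite G
  have h1 := Cfsg.Agent.Lib.CharInd.card_conj_mul_card_centralizer (T.r i)
  have h2 := T.mul_eq i
  have h3 := T.cent_le i
  have h4 : T.cs i * T.cc i ≤ Nat.card {x : G // IsConj (T.r i) x} * T.cc i := by
    rw [h2, ← h1]
    exact Nat.mul_le_mul_left _ h3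
  exact Nat.le_of_mul_le_mul_right h4 (T.cc_pos i)

theorem exists_conj_and_card (g : G) : ∃ i : Fin n, IsConj (T.r i) g := by
  classical
  haveI : Fintype G := Fintype.ofFinite G
  let K : Fin n → Finset G := fun i => Finset.univ.filter (fun x => IsConj (T.r i) x)
  have hK : ∀ i, T.cs i ≤ (K i).card := by
    intro i
    have h := T.card_conj_ge i
    rwa [Nat.card_eq_fintype_card, Fintype.card_subtype] at h
  have hdisj : ∀ i ∈ (Finset.univ : Finset (Fin n)), ∀ j ∈ (Finset.univ : Finset (Fin n)), i ≠ j →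
      Disjoint (K i) (K j) := by
    intro i _ j _ hij
    rw [Finset.disjoint_left]
    intro x hxi hxj
    simp only [K, Finset.mem_filter, Finset.mem_univ, true_and] at hxi hxj
    exact T.not_conj i j hij (hxi.trans hxj.symm)
  have hcard : Nat.card G ≤ (Finset.univ.biUnion K).card := by
    rw [Finset.card_biUnion hdisj, ← T.sum_eq]
    exact Finset.sum_le_sum fun i _ => hK i
  have huniv : Finset.univ.biUnion K = Finset.univ := by
    apply Finset.eq_univ_of_card
    apply le_antisymm (Finset.card_le_univ _)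
    rwa [Nat.card_eq_fintype_card] at hcard
  have hg : g ∈ Finset.univ.biUnion K := by
    rw [huniv]
    exact Finset.mem_univ g
  obtain ⟨i, _, hi⟩ := Finset.mem_biUnion.mp hg
  exact ⟨i, by simpa [K] using hi⟩

/-- The class of an element. -/
noncomputable def cl (g : G) : Fin n := Classical.choose (T.exists_conj_and_card g)

theorem cl_spec (g : G) : IsConj (T.r (T.cl g)) g := Classical.choose_spec (T.exists_conj_and_card g)

theorem cl_eq_of_conj {i : Fin n} {g : G} (h : IsConj (T.r i) g) : T.cl g = i := by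
  by_contra hne
  exact T.not_conj _ _ hne ((T.cl_spec g).trans h.symm)

theorem cl_r (i : Fin n) : T.cl (T.r i) = i := T.cl_eq_of_conj (IsConj.refl _)

theorem cl_conj (g h : G) : T.cl (h * g * h⁻¹) = T.cl g := by
  apply T.cl_eq_of_conj
  refine (T.cl_spec g).trans ?_
  rw [isConj_iff]
  exact ⟨h, rfl⟩

theorem cl_eq_iff {i : Fin n} {g : G} : T.cl g = i ↔ IsConj (T.r i) g :=
  ⟨fun h => h ▸ T.cl_spec g, T.cl_eq_of_conj⟩

/-- Exact sizes of the classes. -/
theorem card_conj (i : Fin n) : Nat.card {x : G // IsConj (T.r i) x} = T.cs i := by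
  classical
  haveI : Fintype G := Fintype.ofFinite G
  let K : Fin n → Finset G := fun i => Finset.univ.filter (fun x => IsConj (T.r i) x)
  have hK : ∀ i, T.cs i ≤ (K i).card := by
    intro i
    have h := T.card_conj_ge i
    rwa [Nat.card_eq_fintype_card, Fintype.card_subtype] at h
  have hdisj : ∀ i ∈ (Finset.univ : Finset (Fin n)), ∀ j ∈ (Finset.univ : Finset (Fin n)), i ≠ j →
      Disjoint (K i) (K j) := by
    intro i _ j _ hij
    rw [Finset.disjoint_left]
    intro x hxi hxj
    simp only [K, Finset.mem_filter, Finset.mem_univ, true_and] at hxi hxj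
    exact T.not_conj i j hij (hxi.trans hxj.symm)
  have htot : ∑ i, (K i).card ≤ ∑ i, T.cs i := by
    rw [← Finset.card_biUnion hdisj, T.sum_eq, Nat.card_eq_fintype_card]
    exact Finset.card_le_univ _
  have h1 : ∀ i ∈ (Finset.univ : Finset (Fin n)), (K i).card ≤ T.cs i := by
    by_contra hcon
    push Not at hcon
    obtain ⟨i, hi, hlt⟩ := hcon
    have := Finset.sum_lt_sum (fun j _ => hK j) ⟨i, hi, hlt⟩
    omega
  rw [Nat.card_eq_fintype_card, Fintype.card_subtype]
  exact le_antisymm (h1 i (Finset.mem_univ i)) (hK i)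

/-- The centralizers have exactly the given orders. -/
theorem card_cent (i : Fin n) : Nat.card (Subgroup.centralizer ({T.r i} : Set G)) = T.cc i := by
  haveI : Fintype G := Fintype.ofFinite G
  have h1 := Cfsg.Agent.Lib.CharInd.card_conj_mul_card_centralizer (T.r i)
  rw [T.card_conj i, ← T.mul_eq i] at h1
  have hpos : 0 < T.cs i := by
    rcases Nat.eq_zero_or_pos (T.cs i) with h | h
    · have h2 := T.mul_eq i
      rw [h, zero_mul] at h2
      exact absurd h2.symm Nat.card_pos.ne'
    · exact h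
  exact Nat.eq_of_mul_eq_mul_left hpos h1

theorem card_cent_conj (g : G) :
    Nat.card (Subgroup.centralizer ({g} : Set G)) = T.cc (T.cl g) := by
  haveI : Fintype G := Fintype.ofFinite G
  have h := Cfsg.Agent.Lib.CharInd.card_conj_mul_card_centralizer g
  have h2 := Cfsg.Agent.Lib.CharInd.card_conj_mul_card_centralizer (T.r (T.cl g))
  have h3 : Nat.card {x : G // IsConj g x} = Nat.card {x : G // IsConj (T.r (T.cl g)) x} := by
    refine Nat.card_congr (Equiv.subtypeEquivRight fun x => ?_)
    exact ⟨fun hx => (T.cl_spec g).trans hx, fun hx => (T.cl_spec g).symm.trans hx⟩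
  rw [h3] at h
  rw [← T.card_cent (T.cl g)]
  have hpos : 0 < Nat.card {x : G // IsConj (T.r (T.cl g)) x} := by
    apply Nat.card_pos_iff.mpr
    exact ⟨⟨⟨_, IsConj.refl _⟩⟩, inferInstance⟩
  exact Nat.eq_of_mul_eq_mul_left hpos (h.trans h2.symm)

/-- The index of the centralizer of an element is the size of its class. -/
theorem index_cent (g : G) : (Subgroup.centralizer ({g} : Set G)).index = T.cs (T.cl g) := by
  have h1 := Subgroup.index_mul_card (Subgroup.centralizer ({g} : Set G))
  rw [T.card_cent_conj g, ← T.mul_eq (T.cl g)] at h1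
  exact Nat.eq_of_mul_eq_mul_right (T.cc_pos _) h1

theorem fiber_card (i : Fin n) [Fintype G] : (Finset.univ.filter (fun g : G => T.cl g = i)).card = T.cs i := by
  classical
  rw [← T.card_conj i, Nat.card_eq_fintype_card, Fintype.card_subtype]
  congr 1
  ext g
  simp only [Finset.mem_filter, Finset.mem_univ, true_and]
  exact T.cl_eq_iff

/-- Sums of class functions. -/
theorem sum_tf [Fintype G] (v : Fin n → ℂ) : ∑ g : G, v (T.cl g) = ∑ i, (T.cs i : ℂ) * v i := by
  classical
  rw [← Finset.sum_fiberwise Finset.univ T.cl]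
  refine Finset.sum_congr rfl fun i _ => ?_
  have h1 : ∀ g ∈ Finset.univ.filter (fun g : G => T.cl g = i), v (T.cl g) = v i := by
    intro g hg
    rw [(Finset.mem_filter.mp hg).2]
  rw [Finset.sum_congr rfl h1, Finset.sum_const, T.fiber_card, nsmul_eq_mul]

/-- The class function with prescribed values. -/
noncomputable def tf (v : Fin n → ℂ) : G → ℂ := fun g => v (T.cl g)

theorem tf_r (v : Fin n → ℂ) (i : Fin n) : T.tf v (T.r i) = v i := by
  simp [tf, cl_r]

theorem tf_isClass (v : Fin n → ℂ) : IsClassFunction G (T.tf v) := by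
  intro g h
  simp [tf, cl_conj]

/-- A class function is determined by its values on representatives. -/
theorem eq_tf {f : G → ℂ} (hf : IsClassFunction G f) {v : Fin n → ℂ} (h : ∀ i, f (T.r i) = v i) :
    f = T.tf v := by
  funext g
  have h1 := T.cl_spec g
  rw [isConj_iff] at h1
  obtain ⟨c, hc⟩ := h1
  rw [← hc, hf, h, tf, cl_conj]
  congr 1
  exact (T.cl_r _).symm

theorem card_conjClasses (T : Tab G n) : Nat.card (ConjClasses G) = n := by
  classical
  let f : Fin n → ConjClasses G := fun i => ConjClasses.mk (T.r i)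
  have hf : Function.Bijective f := by
    constructor
    · intro i j hij
      by_contra hne
      exact T.not_conj _ _ hne (ConjClasses.mk_eq_mk_iff_isConj.mp hij)
    · intro c
      obtain ⟨g, rfl⟩ := ConjClasses.mk_surjective c
      exact ⟨T.cl g, ConjClasses.mk_eq_mk_iff_isConj.mpr (T.cl_spec g)⟩
  rw [← Nat.card_congr (Equiv.ofBijective f hf)]
  simp

theorem isGen_of_values {f : G → ℂ} (hf : IsCharacter G f) {v : Fin n → ℂ}
    (h : ∀ i, f (T.r i) = v i) : IsGeneralizedCharacter G (T.tf v) := by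
  rw [← T.eq_tf (isClassFunction_of_isCharacter hf) h]
  exact isGen_of_isChar hf

end Tab

/-! ### Vectors of integers and one irrationality -/

/-- Values `A i + B i * w`. -/
def vw {n : ℕ} (w : ℂ) (A B : Fin n → ℤ) : Fin n → ℂ := fun i => (A i : ℂ) + (B i : ℂ) * w

/-- The vector `A + B w` gives a generalized character. -/
def GVW (w : ℂ) (A B : Fin n → ℤ) : Prop := IsGeneralizedCharacter G (T.tf (vw w A B))

theorem tf_add (u v : Fin n → ℂ) : T.tf (u + v) = T.tf u + T.tf v := rfl

theorem tf_sub (u v : Fin n → ℂ) : T.tf (u - v) = T.tf u - T.tf v := rfl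

theorem tf_mul (u v : Fin n → ℂ) : T.tf (u * v) = T.tf u * T.tf v := rfl

theorem isGen_mul {a b : G → ℂ} (ha : IsGeneralizedCharacter G a)
    (hb : IsGeneralizedCharacter G b) : IsGeneralizedCharacter G (a * b) := by
  obtain ⟨a1, a2, h1, h2, rfl⟩ := ha
  obtain ⟨b1, b2, h3, h4, rfl⟩ := hb
  exact ⟨a1 * b1 + a2 * b2, a1 * b2 + a2 * b1,
    isCharacter_add (isCharacter_mul h1 h3) (isCharacter_mul h2 h4),
    isCharacter_add (isCharacter_mul h1 h4) (isCharacter_mul h2 h3), by ring⟩

namespace GVW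

variable {T} {w : ℂ} {A A' B B' : Fin n → ℤ}

theorem add (h : GVW T w A B) (h' : GVW T w A' B') : GVW T w (A + A') (B + B') := by
  have : vw w (A + A') (B + B') = vw w A B + vw w A' B' := by
    funext i
    simp only [vw, Pi.add_apply]
    push_cast
    ring
  unfold GVW
  rw [this, tf_add]
  exact isGen_add h h'

theorem sub (h : GVW T w A B) (h' : GVW T w A' B') : GVW T w (A - A') (B - B') := by
  have : vw w (A - A') (B - B') = vw w A B - vw w A' B' := by
    funext i
    simp only [vw, Pi.sub_apply]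
    push_cast
    ring
  unfold GVW
  rw [this, tf_sub]
  exact isGen_sub h h'

theorem smul (k : ℤ) (h : GVW T w A B) : GVW T w (k • A) (k • B) := by
  have : vw w (k • A) (k • B) = k • vw w A B := by
    funext i
    simp only [vw, Pi.smul_apply, smul_eq_mul, zsmul_eq_mul]
    push_cast
    ring
  unfold GVW
  rw [this]
  have h2 : T.tf (k • vw w A B) = k • T.tf (vw w A B) := by
    funext g
    simp [Tab.tf]
  rw [h2]
  exact isGen_zsmul h k

theorem mul_rat (h : GVW T w A 0) (h' : GVW T w A' B') : GVW T w (A * A') (A * B') := by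
  have : vw w (A * A') (A * B') = vw w A 0 * vw w A' B' := by
    funext i
    simp only [vw, Pi.mul_apply, Pi.zero_apply]
    push_cast
    ring
  unfold GVW
  rw [this, tf_mul]
  exact isGen_mul h h'

theorem change {w' : ℂ} (h : GVW T w A 0) : GVW T w' A 0 := by
  have : vw w' A 0 = vw w A 0 := by
    funext i
    simp [vw]
  unfold GVW
  rw [this]
  exact h

theorem congr (h : GVW T w A B) (hA : A = A') (hB : B = B') : GVW T w A' B' := by
  subst hA hB
  exact h

end GVW

/-- The trivial character. -/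
theorem gen_one {w : ℂ} (A : Fin n → ℤ) (hA : ∀ i, A i = 1) : GVW T w A 0 := by
  refine T.isGen_of_values (f := fun _ => 1) (IsIrrCharacter.isCharacter isIrrCharacter_one) fun i => ?_
  simp [vw, hA]

/-! ### Characters induced from cyclic subgroups -/

section Cyclic

open Cfsg.Agent.Lib.CharIntegrality

/-- The character induced from a linear character of a cyclic subgroup. -/
theorem cyc_ind' {G : Type*} [Group G] [Fintype G] (a : G) (z : ℂ) (hz : z ^ orderOf a = 1) :
    IsCharacter G (fun g => (orderOf a : ℂ)⁻¹ *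
      ((Nat.card (Subgroup.centralizer ({g} : Set G)) : ℂ) *
        ∑ k ∈ Finset.range (orderOf a), (classIndicator g (a ^ k) : ℂ) * z ^ k)) := by
  classical
  have hn : 0 < orderOf a := orderOf_pos a
  have hz0 : z ≠ 0 := by
    rintro rfl
    rw [zero_pow hn.ne'] at hz
    exact zero_ne_one hz
  let H : Subgroup G := Subgroup.zpowers a
  let gn : H := ⟨a, Subgroup.mem_zpowers a⟩
  have hgn : ∀ x : H, x ∈ Subgroup.zpowers gn := by
    rintro ⟨x, k, rfl⟩
    exact ⟨k, Subtype.ext (by simp [gn])⟩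
  have hord : orderOf gn = orderOf a := Subgroup.orderOf_mk a _
  let u : ℂˣ := Units.mk0 z hz0
  have hu : orderOf u ∣ orderOf gn := by
    rw [hord]
    apply orderOf_dvd_of_pow_eq_one
    apply Units.ext
    simpa [u] using hz
  let φ : H →* ℂˣ := monoidHomOfForallMemZpowers hgn hu
  have hφ : φ gn = u := monoidHomOfForallMemZpowers_apply_gen hgn hu
  have h1 : IsCharacter H (fun h => ((φ h : ℂˣ) : ℂ)) :=
    IsIrrCharacter.isCharacter (isIrrCharacter_of_hom φ)
  have h2 := Cfsg.Agent.Lib.CharInd.indFun_isCharacter H h1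
  have h3 : indFun H (fun h => ((φ h : ℂˣ) : ℂ)) = fun g => (orderOf a : ℂ)⁻¹ *
      ((Nat.card (Subgroup.centralizer ({g} : Set G)) : ℂ) *
        ∑ k ∈ Finset.range (orderOf a), (classIndicator g (a ^ k) : ℂ) * z ^ k) := by
    funext g
    rw [Cfsg.Agent.Lib.BlkBasic.indFun_eq_sum]
    have hcard : Nat.card H = orderOf a := Nat.card_zpowers a
    rw [hcard]
    congr 2
    have himg := IsCyclic.image_range_orderOf hgn
    rw [hord] at himg
    rw [← himg, Finset.sum_image]
    · refine Finset.sum_congr rfl fun k _ => ?_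
      have h4 : ((gn ^ k : H) : G) = a ^ k := by simp [gn]
      rw [h4, map_pow, hφ]
      simp [u]
    · intro i hi j hj hij
      have := pow_injOn_Iio_orderOf (x := gn)
      rw [hord] at this
      apply this _ _ hij
      · simpa using hi
      · simpa using hj
  rw [← h3]
  exact h2

variable {T}

theorem indic (i : Fin n) (y : G) :
    ((Cfsg.Agent.Lib.CharIntegrality.classIndicator (T.r i) y : ℤ) : ℂ) =
      if T.cl y = i then 1 else 0 := by
  by_cases h : T.cl y = i
  · rw [if_pos h, Cfsg.Agent.Lib.BlkBasic.classIndicator_of_conj]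
    · simp
    · subst h
      exact T.cl_spec y
  · rw [if_neg h, Cfsg.Agent.Lib.BlkBasic.classIndicator_of_not_conj]
    · simp
    · intro hc
      exact h (T.cl_eq_of_conj hc)

/-- A generalized character from a cyclic subgroup. -/
theorem gen_cyc (a : G) (m : ℕ) (hm : orderOf a = m) (cmap : Fin m → Fin n)
    (hcl : ∀ k : Fin m, T.cl (a ^ (k : ℕ)) = cmap k) (z : ℂ) (hz : z ^ m = 1) (w : ℂ)
    (A B : Fin n → ℤ)
    (hval : ∀ i, (T.cc i : ℂ) * ∑ k : Fin m, (if cmap k = i then z ^ (k : ℕ) else 0) =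
      m * ((A i : ℂ) + (B i : ℂ) * w)) : GVW T w A B := by
  classical
  haveI : Fintype G := Fintype.ofFinite G
  have hm0 : (m : ℂ) ≠ 0 := by
    have : 0 < orderOf a := orderOf_pos a
    rw [hm] at this
    exact_mod_cast this.ne'
  have hz' : z ^ orderOf a = 1 := by rw [hm]; exact hz
  refine T.isGen_of_values (cyc_ind' a z hz') fun i => ?_
  show ((orderOf a : ℕ) : ℂ)⁻¹ * (((Nat.card (Subgroup.centralizer ({T.r i} : Set G)) : ℕ) : ℂ) *
    ∑ k ∈ Finset.range (orderOf a), ((classIndicator (T.r i) (a ^ k) : ℤ) : ℂ) * z ^ k) = _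
  rw [T.card_cent, hm, Finset.sum_range]
  have h1 : ∑ k : Fin m, ((classIndicator (T.r i) (a ^ (k : ℕ)) : ℤ) : ℂ) * z ^ (k : ℕ) =
      ∑ k : Fin m, (if cmap k = i then z ^ (k : ℕ) else 0) := by
    refine Finset.sum_congr rfl fun k _ => ?_
    rw [indic, hcl]
    split_ifs <;> simp
  rw [h1, hval i]
  show _ = vw w A B i
  unfold vw
  field_simp


/-- The sum over the exponents in a fibre, as a list. -/
theorem sum_fibre_list {m : ℕ} (cmap : Fin m → Fin n) (i : Fin n) (f : ℕ → ℂ) (l : List ℕ)
    (hl : ((List.finRange m).filter fun k => decide (cmap k = i)).map Fin.val = l) :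
    ∑ k : Fin m, (if cmap k = i then f (k : ℕ) else 0) = (l.map f).sum := by
  classical
  rw [← hl, ← Finset.sum_filter, List.map_map]
  have h1 : (Finset.univ.filter fun k : Fin m => cmap k = i) =
      ((List.finRange m).filter fun k => decide (cmap k = i)).toFinset := by
    ext k
    simp
  rw [h1, List.sum_toFinset _ ((List.nodup_finRange m).filter _)]
  rfl

/-- A generalized character from a cyclic subgroup, with the exponents given in lists. -/
theorem gen_cyc_list (a : G) (m : ℕ) (hm : orderOf a = m) (cmap : Fin m → Fin n)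
    (hcl : ∀ k : Fin m, T.cl (a ^ (k : ℕ)) = cmap k) (z : ℂ) (hz : z ^ m = 1) (w : ℂ)
    (A B : Fin n → ℤ) (l : Fin n → List ℕ)
    (hl : ∀ i, ((List.finRange m).filter fun k => decide (cmap k = i)).map Fin.val = l i)
    (hval : ∀ i, (T.cc i : ℂ) * ((l i).map fun k => z ^ k).sum =
      m * ((A i : ℂ) + (B i : ℂ) * w)) : GVW T w A B := by
  refine gen_cyc a m hm cmap hcl z hz w A B fun i => ?_
  rw [sum_fibre_list cmap i (fun k => z ^ k) (l i) (hl i)]
  exact hval i

end Cyclic

/-! ### Separating vectors -/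

theorem im_ne_of_trace_norm {w : ℂ} {a b : ℤ} (h1 : w + conj w = a) (h2 : w * conj w = b)
    (h : a * a ≠ 4 * b) : w.im ≠ 0 := by
  intro him
  apply h
  have hw : conj w = w := Complex.conj_eq_iff_im.mpr him
  rw [hw] at h1 h2
  have h3 : ((a * a : ℤ) : ℂ) = ((4 * b : ℤ) : ℂ) := by
    push_cast
    rw [← h1, ← h2]
    ring
  exact_mod_cast h3

theorem vw_ne_of_rat {w w' : ℂ} {A B A' B' : Fin n → ℤ} {i : Fin n} (h1 : B i = 0) (h2 : B' i = 0)
    (h3 : A i ≠ A' i) : vw w A B ≠ vw w' A' B' := by
  intro h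
  have h4 := congrFun h i
  simp only [vw, h1, h2, Int.cast_zero, zero_mul, add_zero] at h4
  exact h3 (by exact_mod_cast h4)

theorem vw_ne_of_irr {w : ℂ} (hw : w.im ≠ 0) {A B A' B' : Fin n → ℤ} {i : Fin n}
    (h : A i ≠ A' i ∨ B i ≠ B' i) : vw w A B ≠ vw w A' B' := by
  intro he
  have h4 := congrFun he i
  simp only [vw] at h4
  have him := congrArg Complex.im h4
  simp only [Complex.add_im, Complex.intCast_im, Complex.mul_im, Complex.intCast_re, zero_add,
    zero_mul, add_zero] at him
  have hB : (B i : ℝ) = B' i := mul_right_cancel₀ hw him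
  have hB' : B i = B' i := by exact_mod_cast hB
  have hre := congrArg Complex.re h4
  rw [hB'] at h4
  have hA : (A i : ℂ) = A' i := add_right_cancel h4
  have hA' : A i = A' i := by exact_mod_cast hA
  rcases h with h | h
  · exact h hA'
  · exact h hB'


/-- The separation test. -/
theorem sep_of {q : ℕ} {W : Fin n → ℂ} {A B : Fin n → Fin n → ℤ} {wi : Fin n → Fin (q + 1)}
    {Wq : Fin (q + 1) → ℂ} (hW : ∀ j, W j = Wq (wi j)) (him : ∀ j, j ≠ 0 → (Wq j).im ≠ 0)
    (htest : ∀ j k, j ≠ k → (∃ i, B j i = 0 ∧ B k i = 0 ∧ A j i ≠ A k i) ∨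
      (wi j = wi k ∧ wi j ≠ 0 ∧ ∃ i, A j i ≠ A k i ∨ B j i ≠ B k i)) :
    ∀ j k, j ≠ k → vw (W j) (A j) (B j) ≠ vw (W k) (A k) (B k) := by
  intro j k hjk
  rcases htest j k hjk with ⟨i, h1, h2, h3⟩ | ⟨h1, h2, i, h3⟩
  · exact vw_ne_of_rat h1 h2 h3
  · rw [hW j, hW k, ← h1]
    exact vw_ne_of_irr (him _ h2) h3

/-! ### The complete list of irreducible characters -/

/-- Data for a character table. -/
structure Chars (T : Tab G n) where
  /-- rational parts -/
  A : Fin n → Fin n → ℤ
  /-- coefficients of the irrationality -/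
  B : Fin n → Fin n → ℤ
  /-- the irrationalities -/
  W : Fin n → ℂ
  /-- traces -/
  t : Fin n → ℤ
  /-- norms -/
  N : Fin n → ℤ
  /-- the index of the trivial class -/
  i0 : Fin n
  r_i0 : T.r i0 = 1
  trace_W : ∀ j, W j + conj (W j) = t j
  norm_W : ∀ j, W j * conj (W j) = N j
  gen : ∀ j, GVW T (W j) (A j) (B j)
  norm_eq : ∀ j, ∑ i, (T.cs i : ℤ) *
    (A j i * A j i + t j * (A j i * B j i) + N j * (B j i * B j i)) = Nat.card G
  deg0 : ∀ j, B j i0 = 0
  deg_pos : ∀ j, 0 < A j i0
  sep : ∀ j k, j ≠ k → vw (W j) (A j) (B j) ≠ vw (W k) (A k) (B k)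

namespace Chars

variable {T} (C : Chars T)

/-- The value vectors. -/
noncomputable def V (j : Fin n) : Fin n → ℂ := vw (C.W j) (C.A j) (C.B j)

theorem cl_one : T.cl 1 = C.i0 := by
  rw [← C.r_i0]
  exact T.cl_r _

theorem V_i0 (j : Fin n) : C.V j C.i0 = (C.A j C.i0 : ℂ) := by
  simp [V, vw, C.deg0 j]

theorem tf_one (j : Fin n) : T.tf (C.V j) 1 = (C.A j C.i0 : ℂ) := by
  rw [Tab.tf, C.cl_one, C.V_i0]

theorem norm_complex (j : Fin n) [Fintype G] :
    ∑ i, (T.cs i : ℂ) * (C.V j i * conj (C.V j i)) = (Nat.card G : ℂ) := by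
  have h := congrArg (fun z : ℤ => (z : ℂ)) (C.norm_eq j)
  simp only [Int.cast_sum, Int.cast_mul, Int.cast_natCast, Int.cast_add] at h
  rw [← h]
  refine Finset.sum_congr rfl fun i _ => ?_
  congr 1
  simp only [V, vw, map_add, map_mul, map_intCast]
  have h1 := C.trace_W j
  have h2 := C.norm_W j
  linear_combination ((C.A j i : ℂ) * (C.B j i : ℂ)) * h1 + ((C.B j i : ℂ) * (C.B j i : ℂ)) * h2

theorem irr (j : Fin n) : IsIrrCharacter G (T.tf (C.V j)) := by
  classical
  haveI : Fintype G := Fintype.ofFinite G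
  have hcardne : (Nat.card G : ℂ) ≠ 0 := by exact_mod_cast Nat.card_pos.ne'
  have h1 : classInner (T.tf (C.V j)) (T.tf (C.V j)) = 1 := by
    unfold classInner
    have h2 : ∑ g : G, T.tf (C.V j) g * conj (T.tf (C.V j) g) =
        ∑ g : G, (fun i => C.V j i * conj (C.V j i)) (T.cl g) := rfl
    rw [h2, T.sum_tf (fun i => C.V j i * conj (C.V j i)), C.norm_complex j]
    exact inv_mul_cancel₀ hcardne
  rcases gen_norm_one (C.gen j) h1 with h | h
  · exact h
  · exfalso
    obtain ⟨d', hd', h3⟩ := isIrr_one_pos h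
    have h4 : -(C.A j C.i0 : ℂ) = d' := by
      rw [← h3, ← C.tf_one j]
      rfl
    have h5 : (-(C.A j C.i0) : ℤ) = d' := by exact_mod_cast h4
    have h6 := C.deg_pos j
    omega

/-- The irreducible characters. -/
noncomputable def irrMap (j : Fin n) : IrrCharacter G := ⟨T.tf (C.V j), C.irr j⟩

theorem irrMap_inj : Function.Injective C.irrMap := by
  intro j k h
  by_contra hne
  apply C.sep j k hne
  funext i
  have h1 : T.tf (C.V j) = T.tf (C.V k) := congrArg Subtype.val h
  have h2 := congrFun h1 (T.r i)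
  rwa [T.tf_r, T.tf_r] at h2

include C in
theorem card_irr : Nat.card (IrrCharacter G) = n := by
  classical
  haveI : Fintype G := Fintype.ofFinite G
  rw [Cfsg.Agent.Lib.CharInd.card_irr_eq_card_conjClasses, T.card_conjClasses]

theorem irrMap_bij : Function.Bijective C.irrMap := by
  apply C.irrMap_inj.bijective_of_nat_card_le
  rw [C.card_irr]
  simp

theorem exists_eq (χ : IrrCharacter G) : ∃ j, (χ : G → ℂ) = T.tf (C.V j) := by
  obtain ⟨j, rfl⟩ := C.irrMap_bij.2 χ
  exact ⟨j, rfl⟩

open Cfsg.Agent.Lib.BlockLocal in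
/-- Reading off that all characters lie in one 2-block. -/
theorem sameBlock_all {M : Ideal AlgInt} (hM : IsPModular 2 M)
    (hint : ∀ j, IsIntegral ℤ (C.W j)) (E D : Fin n → ℕ)
    (hdeg : ∀ j, C.A j C.i0 = 2 ^ (E j) * (D j : ℤ)) (hodd : ∀ j, ¬ 2 ∣ D j)
    (hX : ∀ j i, (2 : ℤ) ^ (E j + 1) ∣ (T.cs i : ℤ) * (C.A j i - C.A j C.i0))
    (hY : ∀ j i, (2 : ℤ) ^ (E j + 1) ∣ (T.cs i : ℤ) * C.B j i)
    (χ ψ : IrrCharacter G) : SameBlock M (χ : G → ℂ) (ψ : G → ℂ) := by
  haveI : M.IsPrime := hM.2.1.isPrime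
  haveI : Fact (Nat.Prime 2) := ⟨Nat.prime_two⟩
  have key : ∀ (j : Fin n) (g : G), MemLocalIdeal M
      (centralChar (T.tf (C.V j)) g - (T.cs (T.cl g) : ℂ)) := by
    intro j g
    set i := T.cl g with hi
    obtain ⟨X, hX'⟩ := hX j i
    obtain ⟨Y, hY'⟩ := hY j i
    have hd0 : (D j : ℂ) ≠ 0 := by
      intro h
      have h1 : D j = 0 := by exact_mod_cast h
      exact hodd j (h1 ▸ dvd_zero 2)
    have h2e : ((2 : ℂ) ^ (E j)) ≠ 0 := pow_ne_zero _ two_ne_zero
    have hval : centralChar (T.tf (C.V j)) g - (T.cs i : ℂ) =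
        (2 : ℂ) * (((X : ℂ) + (Y : ℂ) * C.W j) * (D j : ℂ)⁻¹) := by
      have hdegc : (C.A j C.i0 : ℂ) = 2 ^ (E j) * (D j : ℂ) := by exact_mod_cast hdeg j
      have hXc : (T.cs i : ℂ) * ((C.A j i : ℂ) - (C.A j C.i0 : ℂ)) = 2 ^ (E j + 1) * (X : ℂ) := by
        exact_mod_cast hX'
      have hYc : (T.cs i : ℂ) * (C.B j i : ℂ) = 2 ^ (E j + 1) * (Y : ℂ) := by
        exact_mod_cast hY'
      unfold centralChar
      rw [T.index_cent g, C.tf_one j, hdegc, ← hi]
      have h3 : T.tf (C.V j) g = (C.A j i : ℂ) + (C.B j i : ℂ) * C.W j := rfl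
      rw [h3]
      field_simp
      rw [pow_succ] at hXc hYc
      have hXc' := hXc
      rw [hdegc] at hXc'
      linear_combination hXc' + C.W j * hYc
    rw [hval]
    apply memLocalIdeal_mul_right
    · have := memLocalIdeal_natCast_of_dvd hM (dvd_refl 2)
      simpa using this
    · apply memLocalRing_mul
      · exact memLocalRing_add (memLocalRing_intCast _)
          (memLocalRing_mul (memLocalRing_intCast _) (memLocalRing_of_isIntegral (hint j)))
      · exact memLocalRing_inv_natCast hM (hodd j)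
  intro g
  obtain ⟨j, hj⟩ := C.exists_eq χ
  obtain ⟨k, hk⟩ := C.exists_eq ψ
  rw [hj, hk]
  have h := memLocalIdeal_sub (key j g) (key k g)
  have e : centralChar (T.tf (C.V j)) g - centralChar (T.tf (C.V k)) g =
      (centralChar (T.tf (C.V j)) g - (T.cs (T.cl g) : ℂ)) -
        (centralChar (T.tf (C.V k)) g - (T.cs (T.cl g) : ℂ)) := by ring
  rw [e]
  exact h

end Chars

end Cfsg.Agent.Lib.ClassTab
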