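import Mathlib
import Cfsg.Agent.Lib.GenChar

/-!
# The exterior square of a character

If `f` is a generalized character then so is `g ↦ (f g ^ 2 - f (g * g)) / 2`.
-/

set_option autoImplicit false
set_option linter.style.haveILetI false
set_option linter.unusedVariables false
set_option linter.unusedSectionVars false

namespace Cfsg.Agent.Lib.LamTwo

open Cfsg Cfsg.Agent.Lib.CharBasic Cfsg.Agent.Lib.GenChar

universe u v

variable {G : Type u} [Group G]

/-- The character of the part cut out by an idempotent in the commutant. -/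
theorem isCharacter_of_proj {V : Type v} [AddCommGroup V] [Module ℂ V] [FiniteDimensional ℂ V]
    (R : Representation ℂ G V) (P : V →ₗ[ℂ] V) (hP : P ∘ₗ P = P) (hc : ∀ g, P ∘ₗ R g = R g ∘ₗ P) :
    IsCharacter G (fun g => LinearMap.trace ℂ V (P ∘ₗ R g)) := by
  let S : Submodule ℂ V := LinearMap.range P
  let ι : S →ₗ[ℂ] V := S.subtype
  let π : V →ₗ[ℂ] S := P.rangeRestrict
  have h1 : ι ∘ₗ π = P := by
    ext v
    rfl
  have h2 : π ∘ₗ ι = LinearMap.id := by
    ext ⟨v, w, rfl⟩
    have := LinearMap.congr_fun hP w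
    simpa [π, ι] using this
  have h3 : π ∘ₗ P = π := by
    rw [← h1, ← LinearMap.comp_assoc, h2, LinearMap.id_comp]
  let R' : Representation ℂ G S :=
    { toFun := fun g => π ∘ₗ R g ∘ₗ ι
      map_one' := by
        rw [map_one]
        exact h2
      map_mul' := by
        intro g h
        rw [map_mul]
        show π ∘ₗ (R g ∘ₗ R h) ∘ₗ ι = (π ∘ₗ R g ∘ₗ ι) ∘ₗ (π ∘ₗ R h ∘ₗ ι)
        have h4 : (π ∘ₗ R g ∘ₗ ι) ∘ₗ (π ∘ₗ R h ∘ₗ ι) = π ∘ₗ R g ∘ₗ (ι ∘ₗ π) ∘ₗ R h ∘ₗ ι := rfl
        rw [h4, h1]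
        have h5 : π ∘ₗ R g ∘ₗ P ∘ₗ R h ∘ₗ ι = π ∘ₗ (P ∘ₗ R g) ∘ₗ R h ∘ₗ ι := by
          rw [hc g]
          rfl
        rw [h5]
        have h6 : π ∘ₗ (P ∘ₗ R g) ∘ₗ R h ∘ₗ ι = (π ∘ₗ P) ∘ₗ R g ∘ₗ R h ∘ₗ ι := rfl
        rw [h6, h3]
        rfl }
  have h7 : R'.character = fun g => LinearMap.trace ℂ V (P ∘ₗ R g) := by
    funext g
    show LinearMap.trace ℂ S (π ∘ₗ (R g ∘ₗ ι)) = _
    rw [LinearMap.trace_comp_comm', LinearMap.comp_assoc, h1, LinearMap.trace_comp_comm']
  rw [← h7]
  exact isCharacter_of_rep' R'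

/-- The exterior square of a character. -/
theorem isCharacter_lam2 {f : G → ℂ} (hf : IsCharacter G f) :
    IsCharacter G (fun g => (f g * f g - f (g * g)) / 2) := by
  obtain ⟨n, ρ, rfl⟩ := hf
  let A : G → Matrix (Fin n) (Fin n) ℂ := fun g => LinearMap.toMatrix' (ρ g)
  have hA1 : A 1 = 1 := by
    simp [A]
  have hAm : ∀ g h, A (g * h) = A g * A h := by
    intro g h
    simp only [A, map_mul]
    rw [Module.End.mul_eq_comp, LinearMap.toMatrix'_comp]
  have htr : ∀ g, ρ.character g = (A g).trace := by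
    intro g
    show LinearMap.trace ℂ (Fin n → ℂ) (ρ g) = _
    rw [LinearMap.trace_eq_matrix_trace ℂ (Pi.basisFun ℂ (Fin n)) (ρ g)]
    rfl
  let X : G → Matrix (Fin n × Fin n) (Fin n × Fin n) ℂ := fun g =>
    Matrix.kroneckerMap (· * ·) (A g) (A g)
  have hX : ∀ g p q, X g p q = A g p.1 q.1 * A g p.2 q.2 := fun g p q => rfl
  let R : Representation ℂ G (Fin n × Fin n → ℂ) :=
    { toFun := fun g => Matrix.toLin' (X g)
      map_one' := by
        have : X 1 = 1 := by
          show Matrix.kroneckerMap (· * ·) (A 1) (A 1) = 1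
          rw [hA1]
          exact Matrix.kroneckerMap_one_one _ (by simp) (by simp) (by simp)
        rw [this]
        exact Matrix.toLin'_one
      map_mul' := by
        intro g h
        have : X (g * h) = X g * X h := by
          show Matrix.kroneckerMap (· * ·) (A (g * h)) (A (g * h)) = _
          rw [hAm]
          exact Matrix.mul_kronecker_mul _ _ _ _
        rw [this]
        exact Matrix.toLin'_mul _ _ }
  let τ : (Fin n × Fin n → ℂ) →ₗ[ℂ] (Fin n × Fin n → ℂ) := LinearMap.funLeft ℂ ℂ Prod.swap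
  have hτ : ∀ v p, τ v p = v p.swap := fun v p => rfl
  have hττ : τ ∘ₗ τ = LinearMap.id := by
    ext v p
    simp [hτ]
  let P : (Fin n × Fin n → ℂ) →ₗ[ℂ] (Fin n × Fin n → ℂ) := (1 / 2 : ℂ) • (LinearMap.id - τ)
  have hPv : ∀ v p, P v p = (1 / 2 : ℂ) * (v p - v p.swap) := fun v p => rfl
  have hP : P ∘ₗ P = P := by
    apply LinearMap.ext
    intro v
    funext p
    show P (P v) p = P v p
    simp only [hPv, Prod.swap_swap]
    ring
  have hRv : ∀ g v p, R g v p = ∑ q, X g p q * v q := fun g v p => rfl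
  have hswap : ∀ g (v : Fin n × Fin n → ℂ) p, ∑ q, X g p q * v q.swap = ∑ q, X g p.swap q * v q := by
    intro g v p
    refine Fintype.sum_equiv (Equiv.prodComm _ _) _ _ fun q => ?_
    simp only [hX, Equiv.prodComm_apply, Prod.fst_swap, Prod.snd_swap, Prod.swap_swap]
    ring
  have hc : ∀ g, P ∘ₗ R g = R g ∘ₗ P := by
    intro g
    apply LinearMap.ext
    intro v
    funext p
    show P (R g v) p = R g (P v) p
    have h1 : R g (P v) p = (1 / 2 : ℂ) * (∑ q, X g p q * v q - ∑ q, X g p q * v q.swap) := by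
      rw [hRv, ← Finset.sum_sub_distrib, Finset.mul_sum]
      refine Finset.sum_congr rfl fun q _ => ?_
      rw [hPv]
      ring
    rw [h1, hswap, hPv, hRv, hRv]
  have key := isCharacter_of_proj R P hP hc
  convert key using 1
  funext g
  let Y : Matrix (Fin n × Fin n) (Fin n × Fin n) ℂ :=
    Matrix.of fun p q => (1 / 2 : ℂ) * (X g p q - X g p.swap q)
  have h1 : P ∘ₗ R g = Matrix.toLin' Y := by
    apply LinearMap.ext
    intro v
    funext p
    show P (R g v) p = ∑ q, Y p q * v q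
    rw [hPv, hRv, hRv, ← Finset.sum_sub_distrib, Finset.mul_sum]
    refine Finset.sum_congr rfl fun q _ => ?_
    show _ = (1 / 2 : ℂ) * (X g p q - X g p.swap q) * v q
    ring
  rw [h1, Matrix.trace_toLin'_eq Y, htr, htr, hAm]
  have e1 : Y.trace = ∑ p : Fin n × Fin n, (1 / 2 : ℂ) * (X g p p - X g p.swap p) := rfl
  have e2 : (A g).trace * (A g).trace = ∑ p : Fin n × Fin n, X g p p := by
    rw [Fintype.sum_prod_type]
    simp only [hX, Matrix.trace, Matrix.diag_apply]
    rw [Finset.sum_mul_sum]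
  have e3 : (A g * A g).trace = ∑ p : Fin n × Fin n, X g p.swap p := by
    rw [Fintype.sum_prod_type]
    simp only [hX, Matrix.trace, Matrix.diag_apply, Matrix.mul_apply, Prod.swap_prod_mk]
    refine Finset.sum_congr rfl fun i _ => Finset.sum_congr rfl fun j _ => ?_
    ring
  rw [e1, e2, e3, ← Finset.mul_sum, Finset.sum_sub_distrib]
  ring

/-- The exterior square of a generalized character. -/
theorem isGen_lam2 {f : G → ℂ} (hf : IsGeneralizedCharacter G f) :
    IsGeneralizedCharacter G (fun g => (f g * f g - f (g * g)) / 2) := by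
  obtain ⟨a, b, ha, hb, rfl⟩ := hf
  refine ⟨(fun g => (a g * a g - a (g * g)) / 2) + b * b,
    (fun g => (b g * b g - b (g * g)) / 2) + a * b,
    isCharacter_add (isCharacter_lam2 ha) (isCharacter_mul hb hb),
    isCharacter_add (isCharacter_lam2 hb) (isCharacter_mul ha hb), ?_⟩
  funext g
  simp only [Pi.sub_apply, Pi.add_apply, Pi.mul_apply]
  ring

end Cfsg.Agent.Lib.LamTwo
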