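import Mathlib
import Cfsg.Agent.Lib.ClassTab
import Cfsg.Agent.Lib.LamTwo

/-!
# Exterior squares on class tables
-/

set_option autoImplicit false
set_option linter.style.haveILetI false
set_option linter.unusedVariables false
set_option linter.unusedSectionVars false

namespace Cfsg.Agent.Lib.ClassTab

open Cfsg Cfsg.Agent.Lib.CharBasic Cfsg.Agent.Lib.GenChar Cfsg.Agent.Lib.LamTwo

universe u

variable {G : Type u} [Group G] [Finite G] {n : ℕ}

theorem GVW.lam2 {T : Tab G n} {w : ℂ} {A C : Fin n → ℤ} (h : GVW T w A 0) (pm2 : Fin n → Fin n)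
    (hpm : ∀ i, T.cl (T.r i * T.r i) = pm2 i) (hC : ∀ i, 2 * C i = A i * A i - A (pm2 i)) :
    GVW T w C 0 := by
  have h1 := isGen_lam2 h
  have h2 := T.eq_tf (isGen_isClassFunction h1) (v := vw w C 0) (fun i => ?_)
  · unfold GVW
    rw [← h2]
    exact h1
  · have h3 : T.tf (vw w A 0) (T.r i * T.r i) = vw w A 0 (pm2 i) := by
      show vw w A 0 (T.cl (T.r i * T.r i)) = _
      rw [hpm]
    show (T.tf (vw w A 0) (T.r i) * T.tf (vw w A 0) (T.r i) - T.tf (vw w A 0) (T.r i * T.r i)) / 2 = _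
    rw [h3, T.tf_r]
    simp only [vw, Pi.zero_apply, Int.cast_zero, zero_mul, add_zero]
    have h4 : (2 : ℂ) * (C i : ℂ) = (A i : ℂ) * (A i : ℂ) - (A (pm2 i) : ℂ) := by
      exact_mod_cast hC i
    rw [← h4]
    ring

end Cfsg.Agent.Lib.ClassTab
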