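import Mathlib

/-!
# `PGL_2(F)` is sharply 3-transitive on the projective line.
-/

set_option autoImplicit false

namespace Cfsg.Agent.Lib.ClassicalPGL2

open Matrix MulAction
open scoped MatrixGroups LinearAlgebra.Projectivization Pointwise

variable {F : Type*} [Field F]

/-- The standard basis vectors and their sum. -/
abbrev e₀ : Fin 2 → F := Pi.single 0 1
/-- The second basis vector. -/
abbrev e₁ : Fin 2 → F := Pi.single 1 1

lemma e₀_ne : (e₀ : Fin 2 → F) ≠ 0 := Pi.single_ne_zero_iff.2 one_ne_zero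
lemma e₁_ne : (e₁ : Fin 2 → F) ≠ 0 := Pi.single_ne_zero_iff.2 one_ne_zero
lemma e₂_ne : (e₀ + e₁ : Fin 2 → F) ≠ 0 := by
  intro h
  have := congrFun h 0
  simp at this

lemma indep_e : LinearIndependent F ![(e₀ : Fin 2 → F), e₁] := by
  rw [LinearIndependent.pair_iff]
  intro s t h
  have h0 := congrFun h 0
  have h1 := congrFun h 1
  simp at h0 h1
  exact ⟨h0, h1⟩

/-- The GL element with prescribed columns. -/
lemma exists_GL_of_indep {u v : Fin 2 → F} (h : LinearIndependent F ![u, v]) :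
    ∃ g : GL (Fin 2) F, g.1 *ᵥ e₀ = u ∧ g.1 *ᵥ e₁ = v := by
  let A : Matrix (Fin 2) (Fin 2) F := Matrix.of fun i j => ![u, v] j i
  have hA : A.col = ![u, v] := by
    funext j
    fin_cases j <;> rfl
  have hu : IsUnit A := by
    rw [← Matrix.linearIndependent_cols_iff_isUnit, hA]
    exact h
  refine ⟨hu.unit, ?_, ?_⟩
  · rw [IsUnit.unit_spec, Matrix.mulVec_single_one]
    exact congrFun hA 0
  · rw [IsUnit.unit_spec, Matrix.mulVec_single_one]
    exact congrFun hA 1

lemma eq_of_rep_eq_smul {b c : ℙ F (Fin 2 → F)} {y : F} (h : c.rep = y • b.rep) : c = b := by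
  rw [← Projectivization.mk_rep c, ← Projectivization.mk_rep b, Projectivization.mk_eq_mk_iff']
  exact ⟨y, h.symm⟩

/-- The GL-level statement: three distinct points are the image of the standard triple. -/
lemma exists_GL_triple {a b c : ℙ F (Fin 2 → F)} (hab : a ≠ b) (hac : a ≠ c) (hbc : b ≠ c) :
    ∃ (g : GL (Fin 2) F) (x y : F), x ≠ 0 ∧ y ≠ 0 ∧
      g.1 *ᵥ e₀ = x • a.rep ∧ g.1 *ᵥ e₁ = y • b.rep ∧ c.rep = g.1 *ᵥ (e₀ + e₁) := by
  have hind : LinearIndependent F ![a.rep, b.rep] :=
    Projectivization.linearIndependent_pair_iff_ne.mpr hab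
  have hspan : Submodule.span F (Set.range ![a.rep, b.rep]) = ⊤ :=
    hind.span_eq_top_of_card_eq_finrank (by simp)
  have hw : c.rep ∈ Submodule.span F {a.rep, b.rep} := by
    have : Submodule.span F {a.rep, b.rep} = ⊤ := by
      rw [← hspan]
      congr 1
      ext z
      simp
      tauto
    rw [this]
    trivial
  obtain ⟨x, y, hxy⟩ := Submodule.mem_span_pair.mp hw
  have hx : x ≠ 0 := by
    rintro rfl
    exact hbc (eq_of_rep_eq_smul (y := y) (by rw [← hxy]; simp)).symm
  have hy : y ≠ 0 := by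
    rintro rfl
    exact hac (eq_of_rep_eq_smul (y := x) (by rw [← hxy]; simp)).symm
  have hind' : LinearIndependent F ![x • a.rep, y • b.rep] := by
    rw [LinearIndependent.pair_iff] at hind ⊢
    intro s t hst
    have := hind (s * x) (t * y) (by rw [mul_smul, mul_smul]; exact hst)
    exact ⟨(mul_eq_zero.mp this.1).resolve_right hx, (mul_eq_zero.mp this.2).resolve_right hy⟩
  obtain ⟨g, h0, h1⟩ := exists_GL_of_indep hind'
  exact ⟨g, x, y, hx, hy, h0, h1, by rw [mulVec_add, h0, h1, hxy]⟩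

/-- The standard triple of points. -/
noncomputable def std : Fin 3 ↪ ℙ F (Fin 2 → F) where
  toFun := ![Projectivization.mk F e₀ e₀_ne, Projectivization.mk F e₁ e₁_ne,
    Projectivization.mk F (e₀ + e₁) e₂_ne]
  inj' := by
    have h01 : Projectivization.mk F (e₀ : Fin 2 → F) e₀_ne ≠ Projectivization.mk F e₁ e₁_ne := by
      rw [Ne, Projectivization.mk_eq_mk_iff']
      rintro ⟨a, ha⟩
      have := congrFun ha 0
      simp at this
    have h02 : Projectivization.mk F (e₀ : Fin 2 → F) e₀_ne ≠ Projectivization.mk F (e₀ + e₁) e₂_ne := by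
      rw [Ne, Projectivization.mk_eq_mk_iff']
      rintro ⟨a, ha⟩
      have h0 := congrFun ha 0
      have h1 := congrFun ha 1
      simp at h0 h1
      simp [h1] at h0
    have h12 : Projectivization.mk F (e₁ : Fin 2 → F) e₁_ne ≠ Projectivization.mk F (e₀ + e₁) e₂_ne := by
      rw [Ne, Projectivization.mk_eq_mk_iff']
      rintro ⟨a, ha⟩
      have h0 := congrFun ha 0
      have h1 := congrFun ha 1
      simp at h0 h1
      simp [h0] at h1
    intro i j hij
    fin_cases i <;> fin_cases j <;> first | rfl | simp at hij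
    · exact (h01 hij).elim
    · exact (h02 hij).elim
    · exact (h01 hij.symm).elim
    · exact (h12 hij).elim
    · exact (h02 hij.symm).elim
    · exact (h12 hij.symm).elim

/-- The GL action on a point in terms of `mulVec`. -/
lemma PGL_mk_smul_mk (g : GL (Fin 2) F) {v : Fin 2 → F} (hv : v ≠ 0) (hv' : g.1 *ᵥ v ≠ 0) :
    (ProjGenLinGroup.mk g) • Projectivization.mk F v hv = Projectivization.mk F (g.1 *ᵥ v) hv' := rfl

lemma mk_eq_of_eq_smul {v w : Fin 2 → F} (hv : v ≠ 0) (hw : w ≠ 0) {c : F} (h : v = c • w) :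
    Projectivization.mk F v hv = Projectivization.mk F w hw :=
  (Projectivization.mk_eq_mk_iff' F _ _ _ _).mpr ⟨c, h.symm⟩

lemma mulVec_ne_zero (g : GL (Fin 2) F) {v : Fin 2 → F} (hv : v ≠ 0) : g.1 *ᵥ v ≠ 0 := by
  intro h
  apply hv
  have h2 : g⁻¹.1 *ᵥ (g.1 *ᵥ v) = v := by
    rw [mulVec_mulVec, ← Units.val_mul, inv_mul_cancel]; simp
  rw [← h2, h, mulVec_zero]

/-- Any triple of distinct points is the image of the standard triple. -/
lemma exists_GL_smul_std (x : Fin 3 ↪ ℙ F (Fin 2 → F)) :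
    ∃ g : GL (Fin 2) F, ProjGenLinGroup.mk g • (std : Fin 3 ↪ ℙ F (Fin 2 → F)) = x := by
  have h01 : x 0 ≠ x 1 := fun h => by simpa using x.injective h
  have h02 : x 0 ≠ x 2 := fun h => by simpa using x.injective h
  have h12 : x 1 ≠ x 2 := fun h => by simpa using x.injective h
  obtain ⟨g, a, b, ha, hb, h0, h1, h2⟩ := exists_GL_triple h01 h02 h12
  refine ⟨g, ?_⟩
  ext i
  fin_cases i
  · change ProjGenLinGroup.mk g • Projectivization.mk F e₀ e₀_ne = x 0
    rw [PGL_mk_smul_mk g e₀_ne (mulVec_ne_zero g e₀_ne), ← Projectivization.mk_rep (x 0)]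
    exact mk_eq_of_eq_smul _ _ h0
  · change ProjGenLinGroup.mk g • Projectivization.mk F e₁ e₁_ne = x 1
    rw [PGL_mk_smul_mk g e₁_ne (mulVec_ne_zero g e₁_ne), ← Projectivization.mk_rep (x 1)]
    exact mk_eq_of_eq_smul _ _ h1
  · change ProjGenLinGroup.mk g • Projectivization.mk F (e₀ + e₁) e₂_ne = x 2
    rw [PGL_mk_smul_mk g e₂_ne (mulVec_ne_zero g e₂_ne), ← Projectivization.mk_rep (x 2)]
    exact mk_eq_of_eq_smul _ _ (c := 1) (by rw [one_smul, h2])

/-- `PGL_2(F)` is 3-transitive on the projective line. -/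
theorem isMultiplyPretransitive_PGL :
    MulAction.IsMultiplyPretransitive (ProjGenLinGroup (Fin 2) F) (ℙ F (Fin 2 → F)) 3 := by
  rw [MulAction.isMultiplyPretransitive_iff]
  intro x y
  obtain ⟨g, hg⟩ := exists_GL_smul_std x
  obtain ⟨h, hh⟩ := exists_GL_smul_std y
  refine ⟨ProjGenLinGroup.mk h * (ProjGenLinGroup.mk g)⁻¹, ?_⟩
  rw [mul_smul, ← hg, inv_smul_smul, hh]

/-- Fixing three distinct points forces scalars, in `GL_2`. -/
theorem eq_one_of_fixes_three (g : GL (Fin 2) F) (a b c : ℙ F (Fin 2 → F)) (hab : a ≠ b)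
    (hac : a ≠ c) (hbc : b ≠ c) (ha : ProjGenLinGroup.mk g • a = a)
    (hb : ProjGenLinGroup.mk g • b = b) (hc : ProjGenLinGroup.mk g • c = c) :
    ProjGenLinGroup.mk g = 1 := by
  have key : ∀ p : ℙ F (Fin 2 → F), ProjGenLinGroup.mk g • p = p → ∃ t : F, g.1 *ᵥ p.rep = t • p.rep := by
    intro p hp
    rw [← Projectivization.mk_rep p, PGL_mk_smul_mk g p.rep_nonzero (mulVec_ne_zero g p.rep_nonzero),
      Projectivization.mk_eq_mk_iff'] at hp
    obtain ⟨t, ht⟩ := hp
    exact ⟨t, ht.symm⟩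
  obtain ⟨α, hα⟩ := key a ha
  obtain ⟨β, hβ⟩ := key b hb
  obtain ⟨γ, hγ⟩ := key c hc
  have hind : LinearIndependent F ![a.rep, b.rep] :=
    Projectivization.linearIndependent_pair_iff_ne.mpr hab
  have hspan : Submodule.span F (Set.range ![a.rep, b.rep]) = ⊤ :=
    hind.span_eq_top_of_card_eq_finrank (by simp)
  have hw : c.rep ∈ Submodule.span F {a.rep, b.rep} := by
    have : Submodule.span F {a.rep, b.rep} = ⊤ := by
      rw [← hspan]
      congr 1
      ext z
      simp
      tauto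
    rw [this]
    trivial
  obtain ⟨x, y, hxy⟩ := Submodule.mem_span_pair.mp hw
  have hx : x ≠ 0 := by
    rintro rfl
    exact hbc (eq_of_rep_eq_smul (y := y) (by rw [← hxy]; simp)).symm
  have hy : y ≠ 0 := by
    rintro rfl
    exact hac (eq_of_rep_eq_smul (y := x) (by rw [← hxy]; simp)).symm
  have heq : (x * α - γ * x) • a.rep + (y * β - γ * y) • b.rep = 0 := by
    have h1 : g.1 *ᵥ c.rep = x • (α • a.rep) + y • (β • b.rep) := by
      rw [← hxy, mulVec_add, mulVec_smul, mulVec_smul, hα, hβ]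
    rw [hγ, ← hxy] at h1
    rw [sub_smul, sub_smul, mul_smul, mul_smul, mul_smul, mul_smul]
    rw [smul_add] at h1
    have h2 : γ • x • a.rep = γ • x • a.rep := rfl
    rw [sub_add_sub_comm, sub_eq_zero, ← h1]
  rw [LinearIndependent.pair_iff] at hind
  obtain ⟨h1, h2⟩ := hind _ _ heq
  have hαγ : α = γ := by
    have : x * (α - γ) = 0 := by linear_combination h1
    exact sub_eq_zero.mp ((mul_eq_zero.mp this).resolve_left hx)
  have hβγ : β = γ := by
    have : y * (β - γ) = 0 := by linear_combination h2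
    exact sub_eq_zero.mp ((mul_eq_zero.mp this).resolve_left hy)
  rw [hαγ] at hα
  rw [hβγ] at hβ
  -- so `g` is the scalar `γ`
  have hγ0 : γ ≠ 0 := by
    rintro rfl
    rw [zero_smul] at hα
    exact mulVec_ne_zero g a.rep_nonzero hα
  rw [ProjGenLinGroup.mk_eq_one, GeneralLinearGroup.center_eq_range_scalar]
  refine ⟨Units.mk0 γ hγ0, ?_⟩
  apply Units.ext
  apply Matrix.mulVec_injective
  have hsc : ∀ v : Fin 2 → F, (GeneralLinearGroup.scalar (Fin 2) (Units.mk0 γ hγ0)).1 *ᵥ v = γ • v := by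
    intro v
    ext i
    simp [GeneralLinearGroup.coe_scalar, Matrix.scalar_apply, Matrix.mulVec_diagonal]
  have hlin : Matrix.mulVecLin ((GeneralLinearGroup.scalar (Fin 2) (Units.mk0 γ hγ0)).1) =
      Matrix.mulVecLin g.1 := by
    apply LinearMap.ext_on_range hspan
    intro i
    fin_cases i
    · simp only [Matrix.mulVecLin_apply, hsc]
      exact hα.symm
    · simp only [Matrix.mulVecLin_apply, hsc]
      exact hβ.symm
  funext v
  exact LinearMap.congr_fun hlin v

/-- `PGL_2(F)` is sharply 3-transitive on the projective line. -/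
theorem sharply_three_PGL :
    MulAction.IsMultiplyPretransitive (ProjGenLinGroup (Fin 2) F) (ℙ F (Fin 2 → F)) 3 ∧
      ∀ (g : ProjGenLinGroup (Fin 2) F) (a b c : ℙ F (Fin 2 → F)), a ≠ b → a ≠ c → b ≠ c →
        g • a = a → g • b = b → g • c = c → g = 1 := by
  refine ⟨isMultiplyPretransitive_PGL, ?_⟩
  intro g a b c hab hac hbc ha hb hc
  induction g using ProjGenLinGroup.induction_on with
  | mk g => exact eq_one_of_fixes_three g a b c hab hac hbc ha hb hc

section SL2

/-- In `SL_2`, elements act as in `GL_2`. -/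
lemma SL_smul_mk (g : SL(2, F)) {v : Fin 2 → F} (hv : v ≠ 0) (hv' : g.1 *ᵥ v ≠ 0) :
    g • Projectivization.mk F v hv = Projectivization.mk F (g.1 *ᵥ v) hv' := rfl

/-- Over a field in which every element is a square, `SL_2` is 3-transitive on the line. -/
theorem isMultiplyPretransitive_SL_of_isSquare (hs : ∀ a : F, IsSquare a) :
    MulAction.IsMultiplyPretransitive (SL(2, F)) (ℙ F (Fin 2 → F)) 3 := by
  have key : ∀ x : Fin 3 ↪ ℙ F (Fin 2 → F), ∃ g : SL(2, F), g • (std : Fin 3 ↪ ℙ F (Fin 2 → F)) = x := by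
    intro x
    obtain ⟨g, hg⟩ := exists_GL_smul_std x
    have hd : g.1.det ≠ 0 := GeneralLinearGroup.det_ne_zero g
    obtain ⟨s, hs'⟩ := hs g.1.det
    have hs0 : s ≠ 0 := by
      rintro rfl
      apply hd
      rw [hs']
      simp
    let h : SL(2, F) := ⟨s⁻¹ • g.1, by
      rw [Matrix.det_smul, hs', Fintype.card_fin]
      field_simp⟩
    refine ⟨h, ?_⟩
    rw [← hg]
    ext i
    have hv : ∀ (v : Fin 2 → F) (hv : v ≠ 0), h • Projectivization.mk F v hv =
        ProjGenLinGroup.mk g • Projectivization.mk F v hv := by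
      intro v hv
      rw [PGL_mk_smul_mk g hv (mulVec_ne_zero g hv)]
      have hne : h.1 *ᵥ v ≠ 0 := by
        intro h0
        apply mulVec_ne_zero g hv
        have : h.1 *ᵥ v = s⁻¹ • g.1 *ᵥ v := by
          simp [h, Matrix.smul_mulVec]
        rw [this] at h0
        exact (smul_eq_zero.mp h0).resolve_left (inv_ne_zero hs0)
      rw [SL_smul_mk h hv hne]
      exact mk_eq_of_eq_smul _ _ (c := s⁻¹) (by simp [h, Matrix.smul_mulVec])
    fin_cases i
    · exact hv e₀ e₀_ne
    · exact hv e₁ e₁_ne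
    · exact hv (e₀ + e₁) e₂_ne
  rw [MulAction.isMultiplyPretransitive_iff]
  intro x y
  obtain ⟨g, hg⟩ := key x
  obtain ⟨h, hh⟩ := key y
  refine ⟨h * g⁻¹, ?_⟩
  rw [mul_smul, ← hg, inv_smul_smul, hh]

/-- If `SL_2` is 3-transitive on the line then every element of the field is a square. -/
theorem isSquare_of_isMultiplyPretransitive_SL
    (h3 : MulAction.IsMultiplyPretransitive (SL(2, F)) (ℙ F (Fin 2 → F)) 3) (δ : F) (hδ : δ ≠ 0) :
    IsSquare δ := by
  have hne : (e₀ + δ • e₁ : Fin 2 → F) ≠ 0 := by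
    intro h
    have := congrFun h 0
    simp at this
  let y : Fin 3 ↪ ℙ F (Fin 2 → F) :=
    { toFun := ![Projectivization.mk F e₀ e₀_ne, Projectivization.mk F e₁ e₁_ne,
        Projectivization.mk F (e₀ + δ • e₁) hne]
      inj' := by
        have h01 : Projectivization.mk F (e₀ : Fin 2 → F) e₀_ne ≠ Projectivization.mk F e₁ e₁_ne := by
          rw [Ne, Projectivization.mk_eq_mk_iff']
          rintro ⟨a, ha⟩
          have := congrFun ha 0
          simp at this
        have h02 : Projectivization.mk F (e₀ : Fin 2 → F) e₀_ne ≠ Projectivization.mk F (e₀ + δ • e₁) hne := by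
          rw [Ne, Projectivization.mk_eq_mk_iff']
          rintro ⟨a, ha⟩
          have h0 := congrFun ha 0
          have h1 := congrFun ha 1
          simp at h0 h1
          rcases h1 with h1 | h1
          · simp [h1] at h0
          · exact hδ h1
        have h12 : Projectivization.mk F (e₁ : Fin 2 → F) e₁_ne ≠ Projectivization.mk F (e₀ + δ • e₁) hne := by
          rw [Ne, Projectivization.mk_eq_mk_iff']
          rintro ⟨a, ha⟩
          have h0 := congrFun ha 0
          have h1 := congrFun ha 1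
          simp at h0 h1
          simp [h0] at h1
        intro i j hij
        fin_cases i <;> fin_cases j <;> first | rfl | simp at hij
        · exact (h01 hij).elim
        · exact (h02 hij).elim
        · exact (h01 hij.symm).elim
        · exact (h12 hij).elim
        · exact (h02 hij.symm).elim
        · exact (h12 hij.symm).elim }
  obtain ⟨g, hg⟩ := (MulAction.isMultiplyPretransitive_iff (G := SL(2, F))
    (α := ℙ F (Fin 2 → F))).mp h3 std y
  have hnz : ∀ {v : Fin 2 → F}, v ≠ 0 → g.1 *ᵥ v ≠ 0 := by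
    intro v hv h0
    apply hv
    have h2 : g⁻¹.1 *ᵥ (g.1 *ᵥ v) = v := by
      rw [mulVec_mulVec]
      change ((g⁻¹ * g : SL(2, F)) : Matrix (Fin 2) (Fin 2) F) *ᵥ v = v
      rw [inv_mul_cancel]
      simp
    rw [← h2, h0, mulVec_zero]
  have h0 : g • (std 0 : ℙ F (Fin 2 → F)) = y 0 := DFunLike.congr_fun hg 0
  have h1 : g • (std 1 : ℙ F (Fin 2 → F)) = y 1 := DFunLike.congr_fun hg 1
  have h2 : g • (std 2 : ℙ F (Fin 2 → F)) = y 2 := DFunLike.congr_fun hg 2
  change g • Projectivization.mk F e₀ e₀_ne = Projectivization.mk F e₀ e₀_ne at h0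
  change g • Projectivization.mk F e₁ e₁_ne = Projectivization.mk F e₁ e₁_ne at h1
  change g • Projectivization.mk F (e₀ + e₁) e₂_ne = Projectivization.mk F (e₀ + δ • e₁) hne at h2
  rw [SL_smul_mk g _ (hnz e₀_ne), Projectivization.mk_eq_mk_iff'] at h0
  rw [SL_smul_mk g _ (hnz e₁_ne), Projectivization.mk_eq_mk_iff'] at h1
  rw [SL_smul_mk g _ (hnz e₂_ne), Projectivization.mk_eq_mk_iff'] at h2
  obtain ⟨α, hα⟩ := h0
  obtain ⟨β, hβ⟩ := h1
  obtain ⟨γ, hγ⟩ := h2
  have ha0 := congrFun hα 0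
  have ha1 := congrFun hα 1
  have hb0 := congrFun hβ 0
  have hb1 := congrFun hβ 1
  simp at ha0 ha1 hb0 hb1
  rw [mulVec_add, ← hα, ← hβ] at hγ
  have hc0 := congrFun hγ 0
  have hc1 := congrFun hγ 1
  simp at hc0 hc1
  have hdet := g.2
  rw [Matrix.det_fin_two, ← ha0, ← ha1, ← hb0, ← hb1] at hdet
  simp at hdet
  have hγ0 : γ ≠ 0 := by
    rintro rfl
    rw [← hc0] at hdet
    simp at hdet
  refine ⟨γ⁻¹, ?_⟩
  -- `γ * γ * δ = 1`
  have h4 : γ * γ * δ = 1 := by
    linear_combination γ * hc1 + β * hc0 + hdet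
  field_simp
  linear_combination h4

end SL2

end Cfsg.Agent.Lib.ClassicalPGL2
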