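import Mathlib
import Cfsg.Agent.Lib.Co0RelTab
import Cfsg.Agent.Lib.CoCo1

set_option autoImplicit false
set_option linter.unusedVariables false
set_option linter.unusedSectionVars false
set_option maxRecDepth 100000

/-!
# Orbits of the McLaughlin group on the short vectors

The stabiliser of two short vectors of inner product `-8` has one orbit for each pair of inner products.
-/

namespace Cfsg.Agent.Lib.Co0Rel

open Cfsg Cfsg.Agent.Lib.CoVec Cfsg.Agent.Lib.CoConf MulAction

/-- the first vector -/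
noncomputable abbrev lv : LL := McLWG.lv0
/-- the second vector -/
noncomputable abbrev lw : LL := McLWG.lw0
/-- the conditions for a pair of inner products -/
noncomputable abbrev LV (a b : ℤ) : List (LL × ℤ) := [(lw, b), (lv, a)]

theorem norm_lv : sqNorm (lv : GolayPt → ℤ) = 32 := norm_lv0'
theorem norm_lw : sqNorm (lw : GolayPt → ℤ) = 32 := norm_lw0
theorem dot_lv_lw : dotInt (lv : GolayPt → ℤ) (lw : GolayPt → ℤ) = -8 := dot_v0w0
theorem dot_lw_lv : dotInt (lw : GolayPt → ℤ) (lv : GolayPt → ℤ) = -8 := by rw [dot_comm]; exact dot_lv_lw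

theorem mem_LV {a b : ℤ} {x : LL} : x ∈ DS (LV a b) ↔ sqNorm (x : GolayPt → ℤ) = 32 ∧
    dotInt (lw : GolayPt → ℤ) (x : GolayPt → ℤ) = b ∧ dotInt (lv : GolayPt → ℤ) (x : GolayPt → ℤ) = a := by
  simp only [DS, Set.mem_setOf_eq, List.mem_cons, List.not_mem_nil, or_false, forall_eq_or_imp, forall_eq]

/-- The size and the transitivity for a pair of inner products. -/
def OKL (a b : ℤ) (n : ℕ) : Prop := (DS (LV a b)).ncard = n ∧ TransOn (LV a b)

theorem OKL.neg {a b : ℤ} {n : ℕ} (h : OKL a b n) : OKL (-a) (-b) n := by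
  refine ⟨?_, ?_⟩
  · have := ncard_neg (LV a b)
    simp only [List.map_cons, List.map_nil] at this
    rw [this]
    exact h.1
  · intro x hx y hy
    have hx' := mem_LV.1 hx
    have hy' := mem_LV.1 hy
    have h1 : -x ∈ DS (LV a b) := by
      refine mem_LV.2 ⟨?_, ?_, ?_⟩
      · show sqNorm (-(x : GolayPt → ℤ)) = 32
        rw [norm_neg, hx'.1]
      · show dotInt _ (-(x : GolayPt → ℤ)) = b
        rw [dot_neg_right, hx'.2.1, neg_neg]
      · show dotInt _ (-(x : GolayPt → ℤ)) = a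
        rw [dot_neg_right, hx'.2.2, neg_neg]
    have h2 : -y ∈ DS (LV a b) := by
      refine mem_LV.2 ⟨?_, ?_, ?_⟩
      · show sqNorm (-(y : GolayPt → ℤ)) = 32
        rw [norm_neg, hy'.1]
      · show dotInt _ (-(y : GolayPt → ℤ)) = b
        rw [dot_neg_right, hy'.2.1, neg_neg]
      · show dotInt _ (-(y : GolayPt → ℤ)) = a
        rw [dot_neg_right, hy'.2.2, neg_neg]
    obtain ⟨k, hk, e⟩ := h.2 _ h1 _ h2
    refine ⟨k, ?_, ?_⟩
    · intro p hp
      simp only [List.mem_cons, List.not_mem_nil, or_false] at hp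
      rcases hp with rfl | rfl
      · exact hk (lw, b) (by simp)
      · exact hk (lv, a) (by simp)
    · rw [smul_neg'] at e
      exact neg_injective e

/-- The element exchanging the two vectors. -/
theorem exists_swap : ∃ s : Co0, s • lv = lw ∧ s • lw = lv :=
  Cfsg.Agent.Lib.Co0Pair.pairM8 norm_lv norm_lw norm_lw norm_lv dot_lv_lw dot_lw_lv

theorem DS_pair_comm (p q : LL × ℤ) : DS [p, q] = DS [q, p] := by
  ext x
  simp only [DS, Set.mem_setOf_eq, List.mem_cons, List.not_mem_nil, or_false, forall_eq_or_imp, forall_eq]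
  tauto

theorem OKL.swap {a b : ℤ} {n : ℕ} (h : OKL a b n) : OKL b a n := by
  obtain ⟨s, s1, s2⟩ := exists_swap
  have e : moveL s (LV b a) = [(lv, a), (lw, b)] := by
    simp only [moveL_cons, moveL_nil, s1, s2]
  refine ⟨?_, ?_⟩
  · rw [← ncard_move s, e, DS_pair_comm]
    exact h.1
  · apply TransOn.of_move (g := s)
    rw [e]
    intro x hx y hy
    rw [DS_pair_comm] at hx hy
    obtain ⟨k, hk, e2⟩ := h.2 x hx y hy
    refine ⟨k, ?_, e2⟩
    intro p hp
    simp only [List.mem_cons, List.not_mem_nil, or_false] at hp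
    rcases hp with rfl | rfl
    · exact hk (lv, a) (by simp)
    · exact hk (lw, b) (by simp)

/-- The data in one column. -/
theorem rkw : RankData [(lv, -8)] lw (insert 32 ({-16, 16, -8, 8, 0} : Finset ℤ))
    (fun d => if d = 32 then 1 else if d = -16 then 275 else if d = 16 then 2025 else if d = -8 then 7128 else
      if d = 8 then 15400 else 22275) :=
  rank_std4

theorem ok_m8_m16 : OKL (-8) (-16) 275 := ⟨rkw.1 _ (by decide), rkw.2.1 _ (by decide) (by decide)⟩
theorem ok_m8_p16 : OKL (-8) 16 2025 := ⟨rkw.1 _ (by decide), rkw.2.1 _ (by decide) (by decide)⟩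
theorem ok_m8_m8 : OKL (-8) (-8) 7128 := ⟨rkw.1 _ (by decide), rkw.2.1 _ (by decide) (by decide)⟩
theorem ok_m8_p8 : OKL (-8) 8 15400 := ⟨rkw.1 _ (by decide), rkw.2.1 _ (by decide) (by decide)⟩
theorem ok_m8_z : OKL (-8) 0 22275 := ⟨rkw.1 _ (by decide), rkw.2.1 _ (by decide) (by decide)⟩

theorem lw_mem : lw ∈ DS (LV (-8) 32) :=
  mem_LV.2 ⟨norm_lw, (dot_self _).trans norm_lw, dot_lv_lw⟩

theorem ok_m8_32 : OKL (-8) 32 1 := by
  have hc : (DS (LV (-8) 32)).ncard = 1 := rkw.1 _ (by decide)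
  refine ⟨hc, ?_⟩
  intro x hx y hy
  obtain ⟨b, hb⟩ := Set.ncard_eq_one.1 hc
  rw [hb] at hx hy
  rw [Set.mem_singleton_iff.1 hx, Set.mem_singleton_iff.1 hy]
  refine ⟨1, fun p _ => one_smul _ _, one_smul _ _⟩

/-- The set of the pairs with inner products `0` and `16`. -/
theorem DS_z_16 : DS [(lv, 0), (lv + lw, 16)] = DS (LV 0 16) := by
  ext x
  rw [mem_LV]
  simp only [DS, Set.mem_setOf_eq, List.mem_cons, List.not_mem_nil, or_false, forall_eq_or_imp, forall_eq]
  have e : dotInt ((lv + lw : LL) : GolayPt → ℤ) (x : GolayPt → ℤ) =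
      dotInt (lv : GolayPt → ℤ) (x : GolayPt → ℤ) + dotInt (lw : GolayPt → ℤ) (x : GolayPt → ℤ) := dot_add_left _ _ _
  rw [e]
  constructor
  · rintro ⟨h1, h2, h3⟩
    rw [h2, zero_add] at h3
    exact ⟨h1, h3, h2⟩
  · rintro ⟨h1, h2, h3⟩
    rw [h2, h3]
    exact ⟨h1, rfl, by norm_num⟩

theorem ok_z_16 : OKL 0 16 2025 := by
  refine ⟨?_, ?_⟩
  · rw [← DS_z_16]
    exact ncard_2025 lv lw norm_lv norm_lw dot_lv_lw
  · intro x hx y hy
    rw [← DS_z_16] at hx hy
    obtain ⟨k, hk, e⟩ := transOn_2025' lv lw norm_lv norm_lw dot_lv_lw x hx y hy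
    refine ⟨k, ?_, e⟩
    have h1 : k • lv = lv := hk (lv, 0) (by simp)
    have h2 : k • (lv + lw) = lv + lw := hk (lv + lw, 16) (by simp)
    rw [smul_add', h1] at h2
    have h3 : k • lw = lw := add_left_cancel h2
    intro p hp
    simp only [List.mem_cons, List.not_mem_nil, or_false] at hp
    rcases hp with rfl | rfl
    · exact h3
    · exact h1

/-- The size of the set for one inner product. -/
theorem ncard_lv (d : ℤ) : (DS [(lv, d)]).ncard = (Cfsg.Agent.Lib.CoCensus.Tv (lv : GolayPt → ℤ) d).ncard :=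
  ncard_DS_single lv d

theorem part_z : (∀ d ∈ ({-16, -8, 0, 8, 16} : Finset ℤ), (DS (LV 0 d)).ncard =
      (if d = 16 ∨ d = -16 then 2025 else if d = 8 ∨ d = -8 then 22275 else 44550)) ∧
    ∀ x ∈ DS [(lv, (0 : ℤ))], dotInt (lw : GolayPt → ℤ) (x : GolayPt → ℤ) ∈ ({-16, -8, 0, 8, 16} : Finset ℤ) := by
  apply partition [(lv, (0 : ℤ))] lw
  · intro d hd
    simp only [Finset.mem_insert, Finset.mem_singleton] at hd
    rcases hd with rfl | rfl | rfl | rfl | rfl
    · simpa using (ok_z_16.neg).1.ge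
    · simpa using (ok_m8_z.swap).1.ge
    · refine le_trans (le_of_eq ?_) McLWG.lowRz
      norm_num
    · simpa using (ok_m8_z.neg.swap).1.ge
    · simpa using ok_z_16.1.ge
  · rw [ncard_lv, (Cfsg.Agent.Lib.CoCensus.census lv norm_lv).2.2.1]
    decide

theorem part_m16 : (∀ d ∈ ({-8, 0, 8, 16} : Finset ℤ), (DS (LV (-16) d)).ncard =
      (if d = 16 ∨ d = -8 then 275 else 2025)) ∧
    ∀ x ∈ DS [(lv, (-16 : ℤ))], dotInt (lw : GolayPt → ℤ) (x : GolayPt → ℤ) ∈ ({-8, 0, 8, 16} : Finset ℤ) := by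
  apply partition [(lv, (-16 : ℤ))] lw
  · intro d hd
    simp only [Finset.mem_insert, Finset.mem_singleton] at hd
    rcases hd with rfl | rfl | rfl | rfl
    · simpa using (ok_m8_m16.swap).1.ge
    · simpa using (ok_z_16.swap.neg).1.ge
    · simpa using (ok_m8_p16.neg.swap).1.ge
    · refine le_trans (le_of_eq ?_) McLWG.lowRm
      norm_num
  · rw [ncard_lv, (Cfsg.Agent.Lib.CoCensus.census lv norm_lv).1]
    decide

theorem ok_z_z : OKL 0 0 44550 := by
  have hc : (DS (LV 0 0)).ncard = 44550 := by simpa using part_z.1 0 (by decide)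
  exact ⟨hc, transOn_of_table McLWG.fixARz (McLWG.transRz hc.le)⟩

theorem ok_m16_16 : OKL (-16) 16 275 := by
  have hc : (DS (LV (-16) 16)).ncard = 275 := by simpa using part_m16.1 16 (by decide)
  exact ⟨hc, transOn_of_table McLWG.fixARm (McLWG.transRm hc.le)⟩

/-! ### All the pairs -/

/-- The possible pairs of inner products. -/
def levL : List (ℤ × ℤ) :=
  [(-32, 8), (-16, -8), (-16, 0), (-16, 8), (-16, 16), (-8, -16), (-8, -8), (-8, 0), (-8, 8), (-8, 16), (-8, 32),
   (0, -16), (0, -8), (0, 0), (0, 8), (0, 16), (8, -32), (8, -16), (8, -8), (8, 0), (8, 8), (8, 16),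
   (16, -16), (16, -8), (16, 0), (16, 8), (32, -8)]

theorem levL_trans : ∀ p ∈ levL, TransOn (LV p.1 p.2) := by
  intro p hp
  simp only [levL, List.mem_cons, List.not_mem_nil, or_false] at hp
  rcases hp with rfl | rfl | rfl | rfl | rfl | rfl | rfl | rfl | rfl | rfl | rfl | rfl | rfl | rfl | rfl | rfl | rfl |
    rfl | rfl | rfl | rfl | rfl | rfl | rfl | rfl | rfl | rfl
  · exact (ok_m8_32.swap.neg).2
  · exact (ok_m8_m16.swap).2
  · exact (ok_z_16.swap.neg).2
  · exact (ok_m8_p16.neg.swap).2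
  · exact ok_m16_16.2
  · exact ok_m8_m16.2
  · exact ok_m8_m8.2
  · exact ok_m8_z.2
  · exact ok_m8_p8.2
  · exact ok_m8_p16.2
  · exact ok_m8_32.2
  · exact (ok_z_16.neg).2
  · exact (ok_m8_z.swap).2
  · exact ok_z_z.2
  · exact (ok_m8_z.neg.swap).2
  · exact ok_z_16.2
  · exact (ok_m8_32.neg).2
  · exact (ok_m8_p16.neg).2
  · exact (ok_m8_p8.neg).2
  · exact (ok_m8_z.neg).2
  · exact (ok_m8_m8.neg).2
  · exact (ok_m8_m16.neg).2
  · exact (ok_m16_16.neg).2
  · exact (ok_m8_p16.swap).2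
  · exact (ok_z_16.swap).2
  · exact (ok_m8_m16.neg.swap).2
  · exact (ok_m8_32.swap).2

theorem neg_mem_lv {a : ℤ} {x : LL} (hx : x ∈ DS [(lv, a)]) : -x ∈ DS [(lv, -a)] := by
  refine ⟨?_, ?_⟩
  · show sqNorm (-(x : GolayPt → ℤ)) = 32
    rw [norm_neg]
    exact hx.1
  · intro p hp
    simp only [List.mem_singleton] at hp
    subst hp
    show dotInt _ (-(x : GolayPt → ℤ)) = -a
    rw [dot_neg_right, hx.2 (lv, a) (by simp)]

theorem dot_neg_x (u x : LL) : dotInt (u : GolayPt → ℤ) ((-x : LL) : GolayPt → ℤ) = -dotInt (u : GolayPt → ℤ) (x : GolayPt → ℤ) :=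
  dot_neg_right _ _

/-- Every short vector has one of the listed pairs of inner products. -/
theorem lev_mem {x : LL} (hx : sqNorm (x : GolayPt → ℤ) = 32) :
    (dotInt (lv : GolayPt → ℤ) (x : GolayPt → ℤ), dotInt (lw : GolayPt → ℤ) (x : GolayPt → ℤ)) ∈ levL := by
  have ha := dot_values lv norm_lv hx
  simp only [Finset.mem_insert, Finset.mem_singleton] at ha
  have hA : ∀ a : ℤ, dotInt (lv : GolayPt → ℤ) (x : GolayPt → ℤ) = a → x ∈ DS [(lv, a)] := by
    intro a h
    refine ⟨hx, ?_⟩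
    intro p hp
    simp only [List.mem_singleton] at hp
    subst hp
    exact h
  rcases ha with h | h | h | h | h | h | h
  · have e := eq_of_dot32 lv norm_lv hx h
    rw [e, (dot_self _).trans norm_lv, dot_lw_lv]
    simp [levL]
  · have e := eq_of_dotm32 lv norm_lv hx h
    rw [e, dot_neg_x, dot_neg_x, (dot_self _).trans norm_lv, dot_lw_lv]
    simp [levL]
  · have h2 := part_m16.2 _ (neg_mem_lv (hA 16 h))
    rw [dot_neg_x] at h2
    simp only [Finset.mem_insert, Finset.mem_singleton] at h2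
    rw [h]
    rcases h2 with h2 | h2 | h2 | h2
    · rw [show dotInt (lw : GolayPt → ℤ) (x : GolayPt → ℤ) = 8 by omega]
      simp [levL]
    · rw [show dotInt (lw : GolayPt → ℤ) (x : GolayPt → ℤ) = 0 by omega]
      simp [levL]
    · rw [show dotInt (lw : GolayPt → ℤ) (x : GolayPt → ℤ) = -8 by omega]
      simp [levL]
    · rw [show dotInt (lw : GolayPt → ℤ) (x : GolayPt → ℤ) = -16 by omega]
      simp [levL]
  · have h2 := part_m16.2 _ (hA (-16) h)
    simp only [Finset.mem_insert, Finset.mem_singleton] at h2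
    rw [h]
    rcases h2 with h2 | h2 | h2 | h2 <;> rw [h2] <;> simp [levL]
  · have h2 := rkw.2.2 _ (neg_mem_lv (hA 8 h))
    rw [dot_neg_x] at h2
    simp only [Finset.mem_insert, Finset.mem_singleton] at h2
    rw [h]
    rcases h2 with h2 | h2 | h2 | h2 | h2 | h2
    · rw [show dotInt (lw : GolayPt → ℤ) (x : GolayPt → ℤ) = -32 by omega]
      simp [levL]
    · rw [show dotInt (lw : GolayPt → ℤ) (x : GolayPt → ℤ) = 16 by omega]
      simp [levL]
    · rw [show dotInt (lw : GolayPt → ℤ) (x : GolayPt → ℤ) = -16 by omega]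
      simp [levL]
    · rw [show dotInt (lw : GolayPt → ℤ) (x : GolayPt → ℤ) = 8 by omega]
      simp [levL]
    · rw [show dotInt (lw : GolayPt → ℤ) (x : GolayPt → ℤ) = -8 by omega]
      simp [levL]
    · rw [show dotInt (lw : GolayPt → ℤ) (x : GolayPt → ℤ) = 0 by omega]
      simp [levL]
  · have h2 := rkw.2.2 _ (hA (-8) h)
    simp only [Finset.mem_insert, Finset.mem_singleton] at h2
    rw [h]
    rcases h2 with h2 | h2 | h2 | h2 | h2 | h2 <;> rw [h2] <;> simp [levL]
  · have h2 := part_z.2 _ (hA 0 h)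
    simp only [Finset.mem_insert, Finset.mem_singleton] at h2
    rw [h]
    rcases h2 with h2 | h2 | h2 | h2 | h2 <;> rw [h2] <;> simp [levL]

end Cfsg.Agent.Lib.Co0Rel
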