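import Mathlib

set_option autoImplicit false
set_option linter.unusedVariables false
set_option linter.unusedSectionVars false

/-!
# Stem extensions over a transitive action with a split point stabiliser

Let `π : Γ → G` be a central extension, `G` transitive on `X`, and suppose the stabiliser of `x₀` lifts to
a subgroup `W` of `Γ`. If each point is *good* (the stabilisers of two points have compatible lifts), the
cosets of `W` lying over `X` have a `W`-invariant section. Another generator `Y` then gives a function `κ`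
on `X` with values in the kernel, constant on the orbits of the stabiliser of `x₀` and `Y⁻¹ x₀`, whose sums over
cycles of `Y` are constant. If all such functions are coboundaries, a stem extension is trivial.
-/

namespace Cfsg.Agent.Lib.SchurRel19

open MulAction

universe u v w

variable {Γ : Type u} {G : Type v} {X : Type w} [Group Γ] [Group G] [MulAction G X]

/-- The subgroup `W` complements the kernel in the preimage of the stabiliser of `x₀`. -/
structure Compl (π : Γ →* G) (x₀ : X) (W : Subgroup Γ) : Prop where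
  surj : Function.Surjective π
  cen : ∀ k, π k = 1 → ∀ g, k * g = g * k
  mem : ∀ w ∈ W, π w • x₀ = x₀
  dec : ∀ g, π g • x₀ = x₀ → ∃ k, π k = 1 ∧ ∃ w ∈ W, g = k * w
  inter : ∀ k, π k = 1 → k ∈ W → k = 1

/-- A point is good: elements of `W` fixing it conjugate into `W` by any lift. -/
def Good (π : Γ →* G) (x₀ : X) (W : Subgroup Γ) (x : X) : Prop :=
  ∀ g : Γ, π g • x₀ = x → ∀ w ∈ W, π w • x = x → g⁻¹ * w * g ∈ W

variable {π : Γ →* G} {x₀ : X} {W : Subgroup Γ}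

namespace Compl

theorem exists_lift (C : Compl π x₀ W) {h : G} (hh : h • x₀ = x₀) : ∃ w ∈ W, π w = h := by
  obtain ⟨g, rfl⟩ := C.surj h
  obtain ⟨k, hk, w, hw, e⟩ := C.dec g hh
  refine ⟨w, hw, ?_⟩
  rw [e, map_mul, hk, one_mul]

theorem lift_unique (C : Compl π x₀ W) {a b : Γ} (ha : a ∈ W) (hb : b ∈ W) (e : π a = π b) : a = b := by
  have h1 : π (a * b⁻¹) = 1 := by rw [map_mul, map_inv, e, mul_inv_cancel]
  have h2 := C.inter _ h1 (W.mul_mem ha (W.inv_mem hb))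
  exact mul_inv_eq_one.mp h2

theorem conj_central (C : Compl π x₀ W) {k : Γ} (hk : π k = 1) (g : Γ) : g⁻¹ * k * g = k := by
  rw [mul_assoc, C.cen k hk g, inv_mul_cancel_left]

/-- Writing `g` over a fixed point. -/
theorem split (C : Compl π x₀ W) {g : Γ} (hg : π g • x₀ = x₀) : ∃ k, π k = 1 ∧ ∃ w ∈ W, g = k * w :=
  C.dec g hg

end Compl

/-- The subgroup of the stabiliser of `x₀` whose lifts conjugate into `W` by the lifts over `x`. -/
def Nx (C : Compl π x₀ W) (x : X) : Subgroup G where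
  carrier := {h | h • x₀ = x₀ ∧ ∀ g : Γ, π g • x₀ = x → ∀ w ∈ W, π w = h → g⁻¹ * w * g ∈ W}
  one_mem' := by
    refine ⟨one_smul _ _, fun g _ w hw e => ?_⟩
    rw [C.inter w e hw]
    simpa using W.one_mem
  mul_mem' := by
    rintro a b ⟨ha, h1⟩ ⟨hb, h2⟩
    refine ⟨by rw [mul_smul, hb, ha], fun g hg w hw e => ?_⟩
    obtain ⟨wa, hwa, ea⟩ := C.exists_lift ha
    obtain ⟨wb, hwb, eb⟩ := C.exists_lift hb
    have e' : w = wa * wb := C.lift_unique hw (W.mul_mem hwa hwb) (by rw [e, map_mul, ea, eb])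
    have : g⁻¹ * w * g = (g⁻¹ * wa * g) * (g⁻¹ * wb * g) := by rw [e']; group
    rw [this]
    exact W.mul_mem (h1 g hg wa hwa ea) (h2 g hg wb hwb eb)
  inv_mem' := by
    rintro a ⟨ha, h1⟩
    have ha' : a⁻¹ • x₀ = x₀ := by
      conv_lhs => rw [← ha]
      simp
    refine ⟨ha', fun g hg w hw e => ?_⟩
    obtain ⟨wa, hwa, ea⟩ := C.exists_lift ha
    have e' : w = wa⁻¹ := C.lift_unique hw (W.inv_mem hwa) (by rw [e, map_inv, ea])
    have : g⁻¹ * w * g = (g⁻¹ * wa * g)⁻¹ := by rw [e']; group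
    rw [this]
    exact W.inv_mem (h1 g hg wa hwa ea)

theorem mem_Nx {C : Compl π x₀ W} {x : X} {h : G} :
    h ∈ Nx C x ↔ h • x₀ = x₀ ∧ ∀ g : Γ, π g • x₀ = x → ∀ w ∈ W, π w = h → g⁻¹ * w * g ∈ W := Iff.rfl

/-- The stabiliser in the point stabiliser. -/
def Sx (x₀ x : X) : Subgroup G := stabilizer G x₀ ⊓ stabilizer G x

theorem mem_Sx {x : X} {h : G} : h ∈ Sx (G := G) x₀ x ↔ h • x₀ = x₀ ∧ h • x = x := Iff.rfl

/-- Good points in terms of the subgroup. -/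
theorem good_of_le (C : Compl π x₀ W) {x : X} (h : Sx (G := G) x₀ x ≤ Nx C x) : Good π x₀ W x := by
  intro g hg w hw hwx
  exact (h ⟨C.mem w hw, hwx⟩).2 g hg w hw rfl

/-- Commutators of the stabiliser lie in the subgroup. -/
theorem comm_le_Nx (C : Compl π x₀ W) (x : X) :
    ⁅Sx (G := G) x₀ x, Sx (G := G) x₀ x⁆ ≤ Nx C x := by
  rw [Subgroup.commutator_le]
  rintro a ⟨ha1, ha2⟩ b ⟨hb1, hb2⟩
  have ha1' : a • x₀ = x₀ := ha1
  have hb1' : b • x₀ = x₀ := hb1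
  have ha2' : a • x = x := ha2
  have hb2' : b • x = x := hb2
  have hai : a⁻¹ • x₀ = x₀ := by
    conv_lhs => rw [← ha1']
    simp
  have hbi : b⁻¹ • x₀ = x₀ := by
    conv_lhs => rw [← hb1']
    simp
  refine ⟨?_, fun g hg w hw e => ?_⟩
  · show (a * b * a⁻¹ * b⁻¹) • x₀ = x₀
    simp only [mul_smul, hbi, hai, hb1', ha1']
  obtain ⟨wa, hwa, ea⟩ := C.exists_lift ha1'
  obtain ⟨wb, hwb, eb⟩ := C.exists_lift hb1'
  have e' : w = wa * wb * wa⁻¹ * wb⁻¹ := by
    apply C.lift_unique hw (W.mul_mem (W.mul_mem (W.mul_mem hwa hwb) (W.inv_mem hwa)) (W.inv_mem hwb))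
    rw [e]
    simp [ea, eb, commutatorElement_def]
  have fix : ∀ u, π u • x = x → π (g⁻¹ * u * g) • x₀ = x₀ := by
    intro u hu
    simp only [map_mul, map_inv, mul_smul, hg, hu]
    rw [← hg]
    simp
  obtain ⟨k1, hk1, v1, hv1, e1⟩ := C.dec _ (fix wa (by rw [ea]; exact ha2'))
  obtain ⟨k2, hk2, v2, hv2, e2⟩ := C.dec _ (fix wb (by rw [eb]; exact hb2'))
  have key : g⁻¹ * w * g = v1 * v2 * v1⁻¹ * v2⁻¹ := by
    have h1 : g⁻¹ * w * g = (g⁻¹ * wa * g) * (g⁻¹ * wb * g) * (g⁻¹ * wa * g)⁻¹ * (g⁻¹ * wb * g)⁻¹ := by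
      rw [e']; group
    rw [h1, e1, e2]
    have c1 := C.cen k1 hk1
    have c2 := C.cen k2 hk2
    calc k1 * v1 * (k2 * v2) * (k1 * v1)⁻¹ * (k2 * v2)⁻¹
        = k1 * v1 * (k2 * v2) * (v1⁻¹ * k1⁻¹) * (v2⁻¹ * k2⁻¹) := by group
      _ = (k1 * k1⁻¹) * (k2 * k2⁻¹) * (v1 * v2 * v1⁻¹ * v2⁻¹) := by
        have c1' : ∀ g, k1⁻¹ * g = g * k1⁻¹ := by
          intro g
          have := c1 g
          calc k1⁻¹ * g = k1⁻¹ * (g * k1) * k1⁻¹ := by group
            _ = k1⁻¹ * (k1 * g) * k1⁻¹ := by rw [c1]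
            _ = g * k1⁻¹ := by group
        have c2' : ∀ g, k2⁻¹ * g = g * k2⁻¹ := by
          intro g
          calc k2⁻¹ * g = k2⁻¹ * (g * k2) * k2⁻¹ := by group
            _ = k2⁻¹ * (k2 * g) * k2⁻¹ := by rw [c2]
            _ = g * k2⁻¹ := by group
        have s1 : k1 * v1 * (k2 * v2) * (v1⁻¹ * k1⁻¹) * (v2⁻¹ * k2⁻¹)
            = k1 * (v1 * (k2 * v2) * (v1⁻¹ * k1⁻¹)) * (v2⁻¹ * k2⁻¹) := by group
        rw [s1]
        have s2 : v1 * (k2 * v2) * (v1⁻¹ * k1⁻¹) = k1⁻¹ * (v1 * (k2 * v2) * v1⁻¹) := by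
          rw [c1' (v1 * (k2 * v2) * v1⁻¹)]
          group
        rw [s2]
        have s3 : v1 * (k2 * v2) * v1⁻¹ = k2 * (v1 * v2 * v1⁻¹) := by
          have : v1 * (k2 * v2) = k2 * (v1 * v2) := by
            rw [← mul_assoc, ← c2 v1, mul_assoc]
          rw [this]
          group
        rw [s3]
        have s4 : k1 * (k1⁻¹ * (k2 * (v1 * v2 * v1⁻¹))) * (v2⁻¹ * k2⁻¹) =
            k2 * (v1 * v2 * v1⁻¹) * v2⁻¹ * k2⁻¹ := by group
        rw [s4, ← c2' ((k2 * (v1 * v2 * v1⁻¹) * v2⁻¹))]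
        group
      _ = v1 * v2 * v1⁻¹ * v2⁻¹ := by group
  rw [key]
  exact W.mul_mem (W.mul_mem (W.mul_mem hv1 hv2) (W.inv_mem hv1)) (W.inv_mem hv2)

/-- Transport along `Y`. -/
theorem transport_mem_Nx (C : Compl π x₀ W) {Y l : G} {x : X}
    (hq : Good π x₀ W (Y⁻¹ • x₀)) (hY : Good π x₀ W (Y • x))
    (hl1 : l • x₀ = x₀) (hl2 : l • x = x) (hl3 : l • (Y⁻¹ • x₀) = Y⁻¹ • x₀) : l ∈ Nx C x := by
  refine ⟨hl1, fun g hg w hw e => ?_⟩
  obtain ⟨y, rfl⟩ := C.surj Y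
  have h1 : y * w * y⁻¹ ∈ W := by
    have := hq y⁻¹ (by rw [map_inv]) w hw (by rw [e]; exact hl3)
    simpa using this
  have h2 := hY (y * g) (by rw [map_mul, mul_smul, hg]) _ h1 (by
    rw [map_mul, map_mul, map_inv, e]
    simp only [mul_smul]
    rw [inv_smul_smul, hl2])
  have e2 : (y * g)⁻¹ * (y * w * y⁻¹) * (y * g) = g⁻¹ * w * g := by group
  rwa [e2] at h2

theorem good_base (C : Compl π x₀ W) : Good π x₀ W x₀ := by
  intro g hg w hw _
  obtain ⟨k, hk, v, hv, rfl⟩ := C.dec g hg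
  have e : (k * v)⁻¹ * w * (k * v) = v⁻¹ * w * v := by
    have h1 : (k * v)⁻¹ * w * (k * v) = v⁻¹ * (k⁻¹ * (w * k)) * v := by group
    rw [h1, ← C.cen k hk w]
    group
  rw [e]
  exact W.mul_mem (W.mul_mem (W.inv_mem hv) hw) hv

theorem good_smul (C : Compl π x₀ W) {x : X} (hx : Good π x₀ W x) {h : G} (hh : h • x₀ = x₀) :
    Good π x₀ W (h • x) := by
  intro g hg w hw hwx
  obtain ⟨v, hv, rfl⟩ := C.exists_lift hh
  have h1 := hx (v⁻¹ * g) (by rw [map_mul, mul_smul, hg, map_inv, inv_smul_smul]) (v⁻¹ * w * v)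
    (W.mul_mem (W.mul_mem (W.inv_mem hv) hw) hv) (by
      simp only [map_mul, map_inv, mul_smul]
      rw [hwx, inv_smul_smul])
  have e : (v⁻¹ * g)⁻¹ * (v⁻¹ * w * v) * (v⁻¹ * g) = g⁻¹ * w * g := by group
  rwa [e] at h1

/-- A section over `X`. -/
theorem exists_section [IsPretransitive G X] (C : Compl π x₀ W) (hgood : ∀ x, Good π x₀ W x) :
    ∃ t : X → Γ, (∀ x, π (t x) • x₀ = x) ∧ ∀ w ∈ W, ∀ x, (t (π w • x))⁻¹ * w * t x ∈ W := by
  classical
  let s : Setoid X :=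
    { r := fun a b => ∃ w ∈ W, π w • a = b
      iseqv := ⟨fun a => ⟨1, W.one_mem, by simp⟩,
        fun {a b} ⟨w, hw, e⟩ => ⟨w⁻¹, W.inv_mem hw, by rw [← e, map_inv, inv_smul_smul]⟩,
        fun {a b c} ⟨w, hw, e⟩ ⟨w', hw', e'⟩ => ⟨w' * w, W.mul_mem hw' hw, by rw [map_mul, mul_smul, e, e']⟩⟩ }
  have hl : ∀ a : X, ∃ c : Γ, π c • x₀ = a := fun a => by
    obtain ⟨g, hg⟩ := exists_smul_eq G x₀ a
    obtain ⟨c, rfl⟩ := C.surj g
    exact ⟨c, hg⟩
  choose c hc using hl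
  let r : X → X := fun x => (Quotient.mk s x).out
  have hr : ∀ x, ∃ w ∈ W, π w • r x = x := fun x => Quotient.mk_out (s := s) x
  choose w hw hw' using hr
  refine ⟨fun x => w x * c (r x), fun x => ?_, fun a ha x => ?_⟩
  · rw [map_mul, mul_smul, hc, hw']
  · have hrr : r (π a • x) = r x := by
      have : Quotient.mk s (π a • x) = Quotient.mk s x := by
        apply Quotient.sound
        exact ⟨a⁻¹, W.inv_mem ha, by rw [map_inv, inv_smul_smul]⟩
      show (Quotient.mk s (π a • x)).out = (Quotient.mk s x).out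
      rw [this]
    have e : (w (π a • x) * c (r (π a • x)))⁻¹ * a * (w x * c (r x)) =
        (c (r x))⁻¹ * ((w (π a • x))⁻¹ * a * w x) * c (r x) := by
      rw [hrr]; group
    rw [e]
    apply hgood (r x) (c (r x)) (hc _) _ (W.mul_mem (W.mul_mem (W.inv_mem (hw _)) ha) (hw x))
    simp only [map_mul, map_inv, mul_smul]
    rw [hw', ]
    have : (π (w (π a • x)))⁻¹ • π a • x = r (π a • x) := inv_smul_eq_iff.mpr (hw' _).symm
    rw [this, hrr]

/-- `A = k B v` with `k` in the kernel and `v` in `W`. -/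
def Rel (π : Γ →* G) (W : Subgroup Γ) (A k B : Γ) : Prop := π k = 1 ∧ ∃ v ∈ W, A = k * B * v

theorem Rel.unique (C : Compl π x₀ W) {A k₁ k₂ B : Γ} (h₁ : Rel π W A k₁ B) (h₂ : Rel π W A k₂ B) : k₁ = k₂ := by
  obtain ⟨hk1, v1, hv1, e1⟩ := h₁
  obtain ⟨hk2, v2, hv2, e2⟩ := h₂
  have hk : π (k₂⁻¹ * k₁) = 1 := by rw [map_mul, map_inv, hk1, hk2]; simp
  have h3 : k₁ * B * v1 = k₂ * B * v2 := e1 ▸ e2
  have h4 : (k₂⁻¹ * k₁) * B = B * (v2 * v1⁻¹) := by
    calc (k₂⁻¹ * k₁) * B = k₂⁻¹ * (k₁ * B * v1) * v1⁻¹ := by group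
      _ = k₂⁻¹ * (k₂ * B * v2) * v1⁻¹ := by rw [h3]
      _ = B * (v2 * v1⁻¹) := by group
  rw [C.cen _ hk B] at h4
  have h5 : k₂⁻¹ * k₁ = v2 * v1⁻¹ := mul_left_cancel h4
  have h6 := C.inter _ hk (h5 ▸ W.mul_mem hv2 (W.inv_mem hv1))
  exact (inv_mul_eq_one.mp h6).symm

theorem Rel.trans (C : Compl π x₀ W) {A k k' B D : Γ} (h₁ : Rel π W A k B) (h₂ : Rel π W B k' D) :
    Rel π W A (k * k') D := by
  obtain ⟨hk1, v1, hv1, e1⟩ := h₁
  obtain ⟨hk2, v2, hv2, e2⟩ := h₂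
  refine ⟨by rw [map_mul, hk1, hk2, one_mul], v2 * v1, W.mul_mem hv2 hv1, ?_⟩
  rw [e1, e2]
  group

theorem Rel.lmul (C : Compl π x₀ W) {A k B : Γ} (h : Rel π W A k B) (c : Γ) : Rel π W (c * A) k (c * B) := by
  obtain ⟨hk, v, hv, e⟩ := h
  refine ⟨hk, v, hv, ?_⟩
  rw [e, ← mul_assoc, ← mul_assoc, ← mul_assoc, ← C.cen k hk c]

theorem Rel.rmul {A k B v₀ : Γ} (h : Rel π W A k B) (hv₀ : v₀ ∈ W) : Rel π W (A * v₀) k B := by
  obtain ⟨hk, v, hv, e⟩ := h
  exact ⟨hk, v * v₀, W.mul_mem hv hv₀, by rw [e]; group⟩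

/-- The main criterion. -/
theorem ker_eq_bot_of_system [IsPretransitive G X] (C : Compl π x₀ W) (hstem : π.ker ≤ commutator Γ)
    (hgood : ∀ x, Good π x₀ W x) (Y : G) (m : ℕ) (hY : Y ^ m = 1)
    (hgen : Subgroup.closure ((stabilizer G x₀ : Set G) ∪ {Y}) = ⊤)
    (hsys : ∀ (A : Type u) [AddCommGroup A] (κ : X → A) (v : A),
      (∀ x, ∀ l : G, l • x₀ = x₀ → l • (Y⁻¹ • x₀) = Y⁻¹ • x₀ → κ (l • x) = κ x) →
      (∀ x, ∑ e ∈ Finset.range m, κ ((Y ^ e) • x) = v) →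
      ∃ (g : X → A) (c : A), (∀ h : G, h • x₀ = x₀ → ∀ x, g (h • x) = g x) ∧ ∀ x, κ x = g (Y • x) - g x - c) :
    π.ker = ⊥ := by
  classical
  obtain ⟨t, ht1, ht2⟩ := exists_section C hgood
  obtain ⟨y, rfl⟩ := C.surj Y
  have hcomm : ∀ a b : π.ker, a * b = b * a := fun a b => Subtype.ext (C.cen a.1 a.2 b.1)
  letI : CommGroup π.ker := { (inferInstance : Group π.ker) with mul_comm := hcomm }
  -- the values of the function
  have hκ : ∀ x, ∃ k : π.ker, Rel π W (y * t x) (k : Γ) (t (π y • x)) := by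
    intro x
    have h0 : π ((t (π y • x))⁻¹ * y * t x) • x₀ = x₀ := by
      simp only [map_mul, map_inv, mul_smul]
      rw [ht1, inv_smul_eq_iff, ht1]
    obtain ⟨k, hk, v, hv, e⟩ := C.dec _ h0
    refine ⟨⟨k, MonoidHom.mem_ker.mpr hk⟩, hk, v, hv, ?_⟩
    have e2 : y * t x = t (π y • x) * (k * v) := by
      rw [← e]; group
    show y * t x = k * t (π y • x) * v
    calc y * t x = t (π y • x) * (k * v) := e2
      _ = t (π y • x) * k * v := (mul_assoc _ _ _).symm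
      _ = k * t (π y • x) * v := by rw [C.cen k hk (t (π y • x))]
  choose κ hκ using hκ
  -- W and the section
  have hW : ∀ w ∈ W, ∀ x, Rel π W (w * t x) 1 (t (π w • x)) := by
    intro w hw x
    refine ⟨map_one π, _, ht2 w hw x, ?_⟩
    group
  -- invariance
  have hinv : ∀ x, ∀ l : G, l • x₀ = x₀ → l • ((π y)⁻¹ • x₀) = (π y)⁻¹ • x₀ → κ (l • x) = κ x := by
    intro x l hl1 hl2
    obtain ⟨w, hw, rfl⟩ := C.exists_lift hl1
    have h1 : y * w * y⁻¹ ∈ W := by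
      have := hgood _ y⁻¹ (by rw [map_inv]) w hw hl2
      simpa using this
    -- y * t (w x) = y * (w * t x) * v
    obtain ⟨-, v, hv, e⟩ := hW w hw x
    have h2 : t (π w • x) = w * t x * v⁻¹ := by
      rw [e]; simp
    have h3 : Rel π W (y * t (π w • x)) (κ x : Γ) (t (π y • (π w • x))) := by
      rw [h2]
      have e3 : y * (w * t x) = (y * w * y⁻¹) * (y * t x) := by group
      have e4 : y * (w * t x * v⁻¹) = y * (w * t x) * v⁻¹ := by group
      rw [e4]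
      apply Rel.rmul _ (W.inv_mem hv)
      rw [e3]
      have h4 := (hκ x).lmul C (y * w * y⁻¹)
      have h5 := hW _ h1 (π y • x)
      have e5 : π (y * w * y⁻¹) • π y • x = π y • π w • x := by
        simp only [map_mul, map_inv, mul_smul]
        rw [inv_smul_smul]
      rw [e5] at h5
      have := h4.trans C h5
      rwa [mul_one] at this
    have := (hκ (π w • x)).unique C h3
    exact Subtype.ext this
  -- the cycles
  have hprod : ∀ (e : ℕ) (x : X), Rel π W (y ^ e * t x) ((∏ i ∈ Finset.range e, κ ((π y ^ i) • x) : π.ker) : Γ)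
      (t ((π y ^ e) • x)) := by
    intro e x
    induction e with
    | zero =>
      refine ⟨by simp, 1, W.one_mem, by simp⟩
    | succ e ih =>
      rw [Finset.prod_range_succ, pow_succ' y e, mul_assoc]
      have h1 := ih.lmul C y
      have h2 := hκ ((π y ^ e) • x)
      have h3 := h1.trans C h2
      rw [← mul_smul, ← pow_succ'] at h3
      exact h3
  have hval : π (y ^ m) = 1 := by rw [map_pow, hY]
  have hrow : ∀ x, ∑ e ∈ Finset.range m, Additive.ofMul (κ ((π y ^ e) • x)) = Additive.ofMul (⟨y ^ m, hval⟩ : π.ker) := by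
    intro x
    have h1 := hprod m x
    rw [hY, one_smul] at h1
    have h2 : Rel π W (y ^ m * t x) (y ^ m) (t x) := ⟨hval, 1, W.one_mem, by simp⟩
    have h3 := h1.unique C h2
    have h4 : (∏ i ∈ Finset.range m, κ ((π y ^ i) • x)) = (⟨y ^ m, hval⟩ : π.ker) := Subtype.ext h3
    rw [← h4, ofMul_prod]
  obtain ⟨g, c, hg, hc⟩ := hsys (Additive π.ker) (fun x => Additive.ofMul (κ x)) _
    (fun x l h1 h2 => by rw [hinv x l h1 h2]) hrow
  -- new section
  let g₁ : X → π.ker := fun x => Additive.toMul (g x)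
  let c₁ : π.ker := Additive.toMul c
  have hg₁ : ∀ x, κ x = g₁ (π y • x) * (g₁ x)⁻¹ * c₁⁻¹ := by
    intro x
    have := hc x
    apply Additive.ofMul.injective
    rw [this]
    simp only [g₁, c₁, ofMul_mul, ofMul_inv, ofMul_toMul]
    abel
  let t' : X → Γ := fun x => (g₁ x : Γ) * t x
  let y' : Γ := (c₁ : Γ) * y
  have hπy' : π y' = π y := by
    simp only [y', map_mul]
    rw [c₁.2, one_mul]
  have cen : ∀ (k : π.ker) (a : Γ), (k : Γ) * a = a * (k : Γ) := fun k a => C.cen k.1 k.2 a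
  have hy' : ∀ x, ∃ v ∈ W, y' * t' x = t' (π y' • x) * v := by
    intro x
    obtain ⟨-, v, hv, e⟩ := hκ x
    refine ⟨v, hv, ?_⟩
    rw [hπy']
    simp only [y', t']
    have h1 : (c₁ : Γ) * y * ((g₁ x : Γ) * t x) = (c₁ : Γ) * (g₁ x : Γ) * (y * t x) := by
      rw [mul_assoc (c₁ : Γ), ← mul_assoc y, ← cen (g₁ x) y, mul_assoc (g₁ x : Γ), mul_assoc (c₁ : Γ)]
    rw [h1, e]
    have h2 : c₁ * g₁ x * κ x = g₁ (π y • x) := by
      rw [hg₁ x]
      have h5 : ∀ a b c : π.ker, a * b * (c * b⁻¹ * a⁻¹) = c := by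
        intro a b c
        have e1 : c * b⁻¹ * a⁻¹ = (a * b)⁻¹ * c := by
          rw [hcomm _ c]
          group
        rw [e1]
        group
      exact h5 _ _ _
    have h3 : (c₁ : Γ) * (g₁ x : Γ) * (κ x : Γ) = (g₁ (π y • x) : Γ) := congrArg Subtype.val h2
    calc (c₁ : Γ) * (g₁ x : Γ) * ((κ x : Γ) * t (π y • x) * v)
        = ((c₁ : Γ) * (g₁ x : Γ) * (κ x : Γ)) * t (π y • x) * v := by group
      _ = (g₁ (π y • x) : Γ) * t (π y • x) * v := by rw [h3]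
  have hw' : ∀ w ∈ W, ∀ x, ∃ v ∈ W, w * t' x = t' (π w • x) * v := by
    intro w hw x
    obtain ⟨-, v, hv, e⟩ := hW w hw x
    refine ⟨v, hv, ?_⟩
    simp only [t']
    have hgi : g₁ (π w • x) = g₁ x := by
      simp only [g₁]
      rw [hg (π w) (C.mem w hw) x]
    rw [hgi, ← mul_assoc, ← cen (g₁ x) w, mul_assoc, e]
    group
  -- the subgroup
  let T : Subgroup Γ := Subgroup.closure ((W : Set Γ) ∪ {y'})
  have hT : ∀ a ∈ T, ∀ x, ∃ v ∈ W, a * t' x = t' (π a • x) * v := by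
    intro a ha
    induction ha using Subgroup.closure_induction with
    | mem a ha =>
      intro x
      rcases ha with ha | ha
      · exact hw' a ha x
      · rw [Set.mem_singleton_iff] at ha
        subst ha
        exact hy' x
    | one =>
      intro x
      exact ⟨1, W.one_mem, by simp⟩
    | mul a b _ _ iha ihb =>
      intro x
      obtain ⟨v, hv, e⟩ := ihb x
      obtain ⟨v', hv', e'⟩ := iha (π b • x)
      refine ⟨v' * v, W.mul_mem hv' hv, ?_⟩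
      rw [mul_assoc, e, ← mul_assoc, e', map_mul, mul_smul]
      group
    | inv a _ iha =>
      intro x
      obtain ⟨v, hv, e⟩ := iha (π a⁻¹ • x)
      refine ⟨v⁻¹, W.inv_mem hv, ?_⟩
      have h1 : π a • π a⁻¹ • x = x := by
        rw [map_inv, smul_inv_smul]
      rw [h1] at e
      calc a⁻¹ * t' x = a⁻¹ * (t' x * v) * v⁻¹ := by group
        _ = a⁻¹ * (a * t' (π a⁻¹ • x)) * v⁻¹ := by rw [e]
        _ = t' (π a⁻¹ • x) * v⁻¹ := by group
  have hTK : ∀ k ∈ T, π k = 1 → k = 1 := by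
    intro k hk h1
    obtain ⟨v, hv, e⟩ := hT k hk x₀
    rw [h1, one_smul] at e
    have h2 : k * t' x₀ = t' x₀ * k := C.cen k h1 _
    rw [h2] at e
    have h3 : k = v := mul_left_cancel e
    exact C.inter k h1 (h3 ▸ hv)
  have hTtop : ∀ g : G, ∃ τ ∈ T, π τ = g := by
    have hle : Subgroup.closure ((stabilizer G x₀ : Set G) ∪ {π y}) ≤ T.map π := by
      rw [Subgroup.closure_le]
      rintro h (hh | hh)
      · obtain ⟨w, hw, e⟩ := C.exists_lift (h := h) hh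
        exact ⟨w, Subgroup.subset_closure (Or.inl hw), e⟩
      · rw [Set.mem_singleton_iff] at hh
        subst hh
        exact ⟨y', Subgroup.subset_closure (Or.inr rfl), hπy'⟩
    rw [hgen] at hle
    intro g
    obtain ⟨τ, hτ, e⟩ := hle (Subgroup.mem_top g)
    exact ⟨τ, hτ, e⟩
  have hcT : commutator Γ ≤ T := by
    rw [commutator_def, Subgroup.commutator_le]
    intro a _ b _
    obtain ⟨τa, hτa, ea⟩ := hTtop (π a)
    obtain ⟨τb, hτb, eb⟩ := hTtop (π b)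
    have ka : π (τa⁻¹ * a) = 1 := by rw [map_mul, map_inv, ea]; simp
    have kb : π (τb⁻¹ * b) = 1 := by rw [map_mul, map_inv, eb]; simp
    have e1 : a = τa * (τa⁻¹ * a) := by group
    have e2 : b = τb * (τb⁻¹ * b) := by group
    have h3 : a * b * a⁻¹ * b⁻¹ = τa * τb * τa⁻¹ * τb⁻¹ := by
      generalize τa⁻¹ * a = ka' at ka e1
      generalize τb⁻¹ * b = kb' at kb e2
      subst e1
      subst e2
      have c1 := C.cen ka' ka
      have c2 := C.cen kb' kb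
      have c1' : ∀ g, ka'⁻¹ * g = g * ka'⁻¹ := by
        intro g
        calc ka'⁻¹ * g = ka'⁻¹ * (g * ka') * ka'⁻¹ := by group
          _ = ka'⁻¹ * (ka' * g) * ka'⁻¹ := by rw [c1]
          _ = g * ka'⁻¹ := by group
      have c2' : ∀ g, kb'⁻¹ * g = g * kb'⁻¹ := by
        intro g
        calc kb'⁻¹ * g = kb'⁻¹ * (g * kb') * kb'⁻¹ := by group
          _ = kb'⁻¹ * (kb' * g) * kb'⁻¹ := by rw [c2]
          _ = g * kb'⁻¹ := by group
      calc τa * ka' * (τb * kb') * (τa * ka')⁻¹ * (τb * kb')⁻¹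
          = τa * ka' * τb * kb' * ka'⁻¹ * τa⁻¹ * kb'⁻¹ * τb⁻¹ := by group
        _ = τa * (ka' * τb) * (kb' * ka'⁻¹) * τa⁻¹ * kb'⁻¹ * τb⁻¹ := by group
        _ = τa * (τb * ka') * (kb' * ka'⁻¹) * τa⁻¹ * kb'⁻¹ * τb⁻¹ := by rw [c1]
        _ = τa * τb * (ka' * kb' * ka'⁻¹) * τa⁻¹ * kb'⁻¹ * τb⁻¹ := by group
        _ = τa * τb * kb' * τa⁻¹ * kb'⁻¹ * τb⁻¹ := by
          rw [c1 kb']; group
        _ = τa * τb * (kb' * τa⁻¹) * kb'⁻¹ * τb⁻¹ := by group
        _ = τa * τb * (τa⁻¹ * kb') * kb'⁻¹ * τb⁻¹ := by rw [c2]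
        _ = τa * τb * τa⁻¹ * τb⁻¹ := by group
    show a * b * a⁻¹ * b⁻¹ ∈ T
    rw [h3]
    exact T.mul_mem (T.mul_mem (T.mul_mem hτa hτb) (T.inv_mem hτa)) (T.inv_mem hτb)
  rw [eq_bot_iff]
  intro k hk
  rw [Subgroup.mem_bot]
  exact hTK k (hcT (hstem hk)) hk

/-- The complement from a retraction. -/
theorem compl_of_retraction [Finite G] (hs : Function.Surjective π) (hc : π.ker ≤ Subgroup.center Γ)
    (ρ : (stabilizer G x₀).comap π →* π.ker)
    (hρ : ∀ k (hk : k ∈ π.ker) (h : k ∈ (stabilizer G x₀).comap π), ρ ⟨k, h⟩ = ⟨k, hk⟩) :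
    Compl π x₀ (ρ.ker.map ((stabilizer G x₀).comap π).subtype) := by
  refine ⟨hs, ?_, ?_, ?_, ?_⟩
  · intro k hk g
    exact (Subgroup.mem_center_iff.mp (hc hk) g).symm
  · rintro _ ⟨w, -, rfl⟩
    exact w.2
  · intro g hg
    have hg' : g ∈ (stabilizer G x₀).comap π := hg
    refine ⟨(ρ ⟨g, hg'⟩ : π.ker), (ρ ⟨g, hg'⟩).2, ((ρ ⟨g, hg'⟩ : π.ker) : Γ)⁻¹ * g, ?_, by group⟩
    have hk : ((ρ ⟨g, hg'⟩ : π.ker) : Γ) ∈ (stabilizer G x₀).comap π := by
      show π _ ∈ stabilizer G x₀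
      rw [(ρ ⟨g, hg'⟩).2]
      exact Subgroup.one_mem _
    refine ⟨⟨((ρ ⟨g, hg'⟩ : π.ker) : Γ)⁻¹ * g, Subgroup.mul_mem _ (Subgroup.inv_mem _ hk) hg'⟩, ?_, rfl⟩
    rw [SetLike.mem_coe, MonoidHom.mem_ker]
    have e : (⟨((ρ ⟨g, hg'⟩ : π.ker) : Γ)⁻¹ * g, Subgroup.mul_mem _ (Subgroup.inv_mem _ hk) hg'⟩ :
        (stabilizer G x₀).comap π) = (⟨_, hk⟩ : (stabilizer G x₀).comap π)⁻¹ * ⟨g, hg'⟩ := rfl
    rw [e, map_mul, map_inv, hρ _ (ρ ⟨g, hg'⟩).2 hk]
    simp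
  · rintro k hk ⟨w, hw, rfl⟩
    have h1 := hρ w.1 hk w.2
    have h2 : ρ w = 1 := hw
    have h3 : (⟨w.1, w.2⟩ : (stabilizer G x₀).comap π) = w := rfl
    rw [h3, h2] at h1
    have := congrArg Subtype.val h1
    exact this.symm

end Cfsg.Agent.Lib.SchurRel19
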