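import Mathlib
import Cfsg.Agent.Lib.SchurRel19
import Cfsg.Agent.Lib.CoCo3
import Cfsg.Agent.Lib.CoSimpleM22
import Cfsg.Agent.Lib.Co3Rel19Data

set_option autoImplicit false
set_option linter.unusedVariables false
set_option linter.unusedSectionVars false
set_option maxRecDepth 100000

/-!
# Codes for the proof that Conway's third group has trivial multiplier
-/

namespace Cfsg.Agent.Lib.Co3Rel19

open Cfsg Cfsg.Agent.Lib.CoVec Cfsg.Agent.Lib.CoConf MulAction
open Cfsg.Agent.Lib.Golay (isM24 rowMasks)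

/-- the vector of squared length 48 -/
noncomputable abbrev lu0 : LL := Co3G.lu0
/-- its stabiliser -/
noncomputable abbrev G0 : Subgroup Co0 := Co3G.H

/-- The vector of a code, when this makes sense. -/
noncomputable def dd (n : ℕ) : LL := by
  classical exact if h : St n then ⟨dec n, h.2.1⟩ else 0

theorem dd_val {n : ℕ} (h : St n) : ((dd n : LL) : GolayPt → ℤ) = dec n := by
  classical
  unfold dd
  rw [dif_pos h]

theorem dd_eq {n : ℕ} (h : St n) : dd n = ⟨dec n, h.2.1⟩ := Subtype.ext (dd_val h)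

theorem smul_dd {g : Co0} {f : ℕ → ℕ} (hg : ActsOn g f) {n : ℕ} (h : St n) : g • dd n = dd (f n) := by
  apply Subtype.ext
  rw [dd_val (hg.st h), ← (hg n h).2, dd_eq h]
  rfl

theorem smul_dd_eq {g : Co0} {f : ℕ → ℕ} (hg : ActsOn g f) {n m : ℕ} (h : St n) (e : f n = m) : g • dd n = dd m :=
  e ▸ smul_dd hg h

theorem dd_inj {a b : ℕ} (ha : St a) (hb : St b) (h : dd a = dd b) : a = b := by
  apply dec_injOn ha.1 hb.1
  rw [← dd_val ha, ← dd_val hb, h]

/-! ### Checks on the generators of the lattice -/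

/-- The check at a code. -/
def eq1 (f f' : ℕ → ℕ) (n : ℕ) : Bool := stChk n && Nat.beq (f n) (f' n)

/-- The check on generators of the lattice. -/
def eqChk (f f' : ℕ → ℕ) : Bool :=
  (List.range 23).all (fun i => eq1 f f' (encF (e4F i))) && eq1 f f' (encF e8F) &&
    rowMasks.all (fun r => eq1 f f' (encF (twoF r))) && eq1 f f' (encF oddF)

theorem eq_of_eq1 {g g' : Co0} {f f' : ℕ → ℕ} (hg : ActsOn g f) (hg' : ActsOn g' f') {n : ℕ} (h : eq1 f f' n = true) :
    ∃ hm : dec n ∈ leechLattice, g • (⟨dec n, hm⟩ : LL) = g' • (⟨dec n, hm⟩ : LL) := by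
  simp only [eq1, Bool.and_eq_true] at h
  have hn := St_of_stChk h.1
  have he : f n = f' n := Nat.eq_of_beq_eq_true h.2
  refine ⟨hn.2.1, ?_⟩
  apply Subtype.ext
  have h1 := (hg n hn).2
  have h2 := (hg' n hn).2
  rw [he] at h1
  exact h1.trans h2.symm

/-- Two elements agree if they agree on generators of the lattice. -/
theorem eq_of_eqChk {g g' : Co0} {f f' : ℕ → ℕ} (hg : ActsOn g f) (hg' : ActsOn g' f') (h : eqChk f f' = true) :
    g = g' := by
  classical
  simp only [eqChk, Bool.and_eq_true, List.all_eq_true] at h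
  obtain ⟨⟨⟨h1, h2⟩, h3⟩, h4⟩ := h
  let Q : AddSubgroup (GolayPt → ℤ) :=
    { carrier := {x | ∃ hm : x ∈ leechLattice, g • (⟨x, hm⟩ : LL) = g' • (⟨x, hm⟩ : LL)}
      zero_mem' := ⟨zero_mem _, (smul_zero' g).trans (smul_zero' g').symm⟩
      add_mem' := by
        rintro a b ⟨ha, ea⟩ ⟨hb, eb⟩
        refine ⟨add_mem ha hb, ?_⟩
        have h5 := smul_add' g ⟨a, ha⟩ ⟨b, hb⟩
        have h6 := smul_add' g' ⟨a, ha⟩ ⟨b, hb⟩
        rw [ea, eb, ← h6] at h5
        exact h5
      neg_mem' := by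
        rintro a ⟨ha, ea⟩
        refine ⟨neg_mem ha, ?_⟩
        have h5 := smul_neg' g ⟨a, ha⟩
        have h6 := smul_neg' g' ⟨a, ha⟩
        rw [ea, ← h6] at h5
        exact h5 }
  have hQ : leechLattice ≤ Q := by
    apply lattice_induction
    · intro i hi
      exact eq_of_eq1 hg hg' (h1 i (List.mem_range.2 hi))
    · exact eq_of_eq1 hg hg' h2
    · intro r hr
      exact eq_of_eq1 hg hg' (h3 r hr)
    · exact eq_of_eq1 hg hg' h4
  apply Subtype.ext
  apply Equiv.ext
  intro x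
  obtain ⟨hm, e⟩ := hQ x.2
  exact e

/-! ### The extra generator -/

/-- The action of the extra generator. -/
def actY (n : ℕ) : ℕ := Co3G.act 2 (actPerm hy (Co3G.act 2 n))

theorem h_hy : isM24 hy = true := by decide +kernel

/-- The extra generator. -/
noncomputable def Yc : Co0 := Co3G.e2 * (permCo0 h_hy * Co3G.e2)

theorem acts_Y : ActsOn Yc actY := Co3G.acts2.mul ((actPerm_acts h_hy).mul Co3G.acts2)

theorem hy_mem : permCo0 h_hy ∈ G0 := mem_stabilizer_of_acts (actPerm_acts h_hy) Co3G.St_u0 rfl (by decide +kernel)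

theorem Yc_mem : Yc ∈ G0 := G0.mul_mem Co3G.mem2 (G0.mul_mem hy_mem Co3G.mem2)

theorem Yc_pow : Yc ^ 5 = 1 := by
  have e : Yc ^ 5 = Yc * (Yc * (Yc * (Yc * Yc))) := by
    simp only [pow_succ, pow_zero, one_mul, mul_assoc]
  rw [e]
  have h := acts_Y.mul (acts_Y.mul (acts_Y.mul (acts_Y.mul acts_Y)))
  exact eq_of_eqChk h ActsOn.one (by decide +kernel)

/-! ### The stabiliser of the base point -/

theorem St_r0 : St r0 := St_of_stChk (by decide +kernel)
theorem St_q0 : St q0 := St_of_stChk (by decide +kernel)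

/-- The base point. -/
noncomputable def lx0 : LL := dd r0

/-- The joint stabiliser. -/
noncomputable def H0c : Subgroup Co0 := stabilizer Co0 lu0 ⊓ stabilizer Co0 lx0

theorem lu0_eq : lu0 = dd Co3G.u0 := (dd_eq Co3G.St_u0).symm

theorem mem_H0c {g : Co0} : g ∈ H0c ↔ g • lu0 = lu0 ∧ g • lx0 = lx0 := Iff.rfl

/-- The check of an element of the stabiliser. -/
def inH (c : ℕ) : Bool := isM24 c && Nat.beq (actPerm c Co3G.u0) Co3G.u0 && Nat.beq (actPerm c r0) r0

theorem inH_M24 {c : ℕ} (h : inH c = true) : isM24 c = true := by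
  simp only [inH, Bool.and_eq_true] at h
  exact h.1.1

theorem inH_spec {c : ℕ} (h : inH c = true) : permCo0 (inH_M24 h) ∈ H0c := by
  have h' := h
  simp only [inH, Bool.and_eq_true] at h'
  refine mem_H0c.2 ⟨?_, ?_⟩
  · rw [lu0_eq]
    exact smul_dd_eq (actPerm_acts _) Co3G.St_u0 (Nat.eq_of_beq_eq_true h'.1.2)
  · exact smul_dd_eq (actPerm_acts _) St_r0 (Nat.eq_of_beq_eq_true h'.2)

/-- The subgroup generated by a list of codes. -/
noncomputable def Qc (gs : List ℕ) : Subgroup Co0 :=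
  Subgroup.closure {g | ∃ c ∈ gs, ∃ hc : isM24 c = true, g = permCo0 hc}

theorem actsIn_Qc {gs : List ℕ} {c : ℕ} (h : c ∈ gs) (hc : isM24 c = true) : ActsIn (Qc gs) (actPerm c) :=
  (actPerm_acts hc).actsIn (Subgroup.subset_closure ⟨c, h, hc, rfl⟩)

theorem getD_mem_of {gs : List ℕ} {c : ℕ} (h : c ∈ gs) (g : ℕ) : gs.getD g c ∈ gs := by
  rw [List.getD_eq_getElem?_getD]
  cases h1 : gs[g]? with
  | none => simpa using h
  | some a =>
    simp only [Option.getD_some]
    exact List.mem_of_getElem? h1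

theorem actsIn_getD {gs : List ℕ} {c : ℕ} (h : c ∈ gs) (hall : gs.all isM24 = true) (g : ℕ) :
    ActsIn (Qc gs) (actPerm (gs.getD g c)) := by
  have hm := getD_mem_of h g
  exact actsIn_Qc hm (List.all_eq_true.1 hall _ hm)

/-- A table gives a lower bound for the order of a group. -/
theorem card_le_of_table {K : Subgroup Co0} {act : ℕ → ℕ → ℕ} (hact : ∀ g, ActsIn K (act g)) {r : ℕ} (hr : St r)
    {T U : Tr} {N M : ℕ} (hN : N ≤ 256 * M) (hall : ∀ k < M, chunkOK act T U r N k (cntOf N k) = true) :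
    N ≤ Nat.card K := by
  classical
  haveI := finite_Co0'
  obtain ⟨-, S, hc, hS, -⟩ := table_orbit hact hr hN hall
  rw [← hc]
  have h1 : ∀ s : S, ∃ k : K, (((k : Co0) : Equiv.Perm leechLattice) ⟨dec r, hr.2.1⟩ : GolayPt → ℤ) = s := by
    rintro ⟨s, hs⟩
    obtain ⟨k, hk, e⟩ := hS (Finset.mem_coe.2 hs)
    exact ⟨⟨k, hk⟩, e⟩
  choose f hf using h1
  have inj : Function.Injective f := by
    intro a b e
    apply Subtype.ext
    rw [← hf a, ← hf b, e]
  calc S.card = Nat.card S := by simp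
    _ ≤ Nat.card K := Nat.card_le_card_of_injective f inj

/-! ### The set of points -/

/-- The set of points, as a list of conditions. -/
noncomputable abbrev AQ : List (LL × ℤ) := Co3G.AQ48600

theorem ncard_AQ : (DS AQ).ncard = 48600 := by
  have h := partition [] Co3G.lu0 ({24, -24, 16, -16, 8, -8, 0} : Finset ℤ)
    (fun d => if d = 24 ∨ d = -24 then 552 else if d = 16 ∨ d = -16 then 11178 else if d = 8 ∨ d = -8 then 48600 else 75900)
    ?_ ?_
  · exact h.1 (-8) (by decide)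
  · have n24 : ∀ d : ℤ, (DS [(Co3G.lu0, -d)]).ncard = (DS [(Co3G.lu0, d)]).ncard := fun d => ncard_neg [(Co3G.lu0, d)]
    have a1 := ncard_fib Co3G.lu0 norm_u0_co3
    have a2 := n24 24
    have a3 := Co3G.lowQ11178
    have a4 := n24 (-16)
    have a5 := Co3G.lowQ48600
    have a6 := n24 (-8)
    have a7 := Co3G.lowQ75900
    intro d hd
    simp only [Finset.mem_insert, Finset.mem_singleton] at hd
    rcases hd with rfl | rfl | rfl | rfl | rfl | rfl | rfl
    · exact a1.ge
    · simpa using (a2.trans a1).ge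
    · simp only [neg_neg] at a4
      rw [a4]
      exact a3
    · exact a3
    · simp only [neg_neg] at a6
      rw [a6]
      exact a5
    · exact a5
    · exact a7
  · rw [ncard_nil]
    decide

/-- The check of a vector of the set. -/
def inDS (n : ℕ) : Bool :=
  stChk n && Nat.beq (sqN n) 32 && Nat.beq (dotA Co3G.u0 n + 8) (dotB Co3G.u0 n)

theorem St_of_inDS {n : ℕ} (h : inDS n = true) : St n := by
  simp only [inDS, Bool.and_eq_true] at h
  exact St_of_stChk h.1.1

theorem dd_mem_DS {n : ℕ} (h : inDS n = true) : dd n ∈ DS AQ := by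
  have hs := St_of_inDS h
  simp only [inDS, Bool.and_eq_true] at h
  rw [dd_eq hs]
  refine ⟨norm_code (Nat.eq_of_beq_eq_true h.1.2), ?_⟩
  intro p hp
  simp only [AQ, Co3G.AQ48600, List.mem_singleton] at hp
  subst hp
  show dotInt ((⟨dec Co3G.u0, Co3G.St_u0.2.1⟩ : LL) : GolayPt → ℤ) ((⟨dec n, hs.2.1⟩ : LL) : GolayPt → ℤ) = -8
  apply dot_code
  have := Nat.eq_of_beq_eq_true h.2
  omega

theorem lx0_mem_DS : lx0 ∈ DS AQ := dd_mem_DS (by decide +kernel)

theorem smul_mem_DS_AQ {g : Co0} (hg : g ∈ G0) {x : LL} (hx : x ∈ DS AQ) : g • x ∈ DS AQ :=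
  smul_mem_DS (Co3G.fixAQ48600 g hg) hx

theorem orbit_eq_DS : (orbit ↥G0 lx0 : Set LL) = DS AQ := by
  apply Set.Subset.antisymm
  · rintro _ ⟨g, rfl⟩
    exact smul_mem_DS_AQ g.2 lx0_mem_DS
  · intro x hx
    obtain ⟨h, hh, e⟩ := Co3G.transQ48600 ncard_AQ.le lx0 lx0_mem_DS x hx
    exact ⟨⟨h, hh⟩, e⟩

/-- The points of the action. -/
abbrev XX : Type := ↥(orbit ↥G0 lx0)

/-- The base point. -/
noncomputable def x0X : XX := ⟨lx0, mem_orbit_self _⟩

instance instFinG0 : Finite ↥G0 :=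
  haveI := finite_Co0'
  inferInstance

theorem card_G0 : Nat.card ↥G0 = 495766656000 := card_stb48 Co3G.lu0 norm_u0_co3

/-- The orbit has the right size. -/
theorem card_H0c : Nat.card ↥H0c = 10200960 := by
  have h1 : (stabilizer ↥G0 lx0).index = 48600 := by
    rw [index_stabilizer, orbit_eq_DS, ncard_AQ]
  have h2 := Subgroup.card_mul_index (stabilizer ↥G0 lx0)
  rw [h1, card_G0] at h2
  have e : ↥(stabilizer ↥G0 lx0) ≃ ↥H0c :=
    { toFun := fun k => ⟨k.1.1, k.1.2, k.2⟩
      invFun := fun k => ⟨⟨k.1, k.2.1⟩, k.2.2⟩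
      left_inv := fun _ => rfl
      right_inv := fun _ => rfl }
  rw [← Nat.card_congr e]
  omega

end Cfsg.Agent.Lib.Co3Rel19
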