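import Mathlib
import Cfsg.Agent.Lib.SchurRel19
import Cfsg.Agent.Lib.Co0RelLev
import Cfsg.Agent.Lib.Co0RelData
import Cfsg.Agent.Lib.Co3Rel19A

set_option autoImplicit false
set_option linter.unusedVariables false
set_option linter.unusedSectionVars false
set_option maxRecDepth 100000

/-!
# The linear system for the automorphism group of the lattice
-/

namespace Cfsg.Agent.Lib.Co0Rel

open Cfsg Cfsg.Agent.Lib.CoVec Cfsg.Agent.Lib.CoConf MulAction Cfsg.Agent.Lib.SchurRel19
open Cfsg.Agent.Lib.Co3Rel19 (dd dd_val dd_eq smul_dd smul_dd_eq dd_inj eqChk eq_of_eqChk)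

theorem lv_eq : lv = dd McLWG.v0 := (dd_eq McLWG.St_v0).symm
theorem lw_eq : lw = dd McLWG.w0 := (dd_eq McLWG.St_w0).symm

theorem Yc_pow : Yc ^ 3 = 1 := by
  have e : Yc ^ 3 = Yc * (Yc * Yc) := by simp only [pow_succ, pow_zero, one_mul, mul_assoc]
  rw [e]
  exact eq_of_eqChk (acts_Y.mul (acts_Y.mul acts_Y)) ActsOn.one (by decide +kernel)

theorem Yw : Yc • lw = lv := by
  rw [lw_eq, lv_eq]
  exact smul_dd_eq acts_Y McLWG.St_w0 (by decide +kernel)

theorem Yinv_lv : Yc⁻¹ • lv = lw := inv_smul_eq_iff.2 Yw.symm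

/-! ### The points -/

/-- The points of the action. -/
abbrev XX : Type := ↥(orbit Co0 lv)

/-- The base point. -/
noncomputable def x0X : XX := ⟨lv, mem_orbit_self _⟩

theorem orbit_eq : (orbit Co0 lv : Set LL) = DS [] := by
  ext x
  constructor
  · rintro ⟨g, rfl⟩
    exact ⟨(norm_smul g lv).trans norm_lv, by simp⟩
  · intro hx
    obtain ⟨g, hg⟩ := Cfsg.Agent.Lib.Co0Trans.trans32 lv x norm_lv hx.1
    exact ⟨g, hg⟩

theorem smul_val (g : Co0) (x : XX) : ((g • x : XX) : LL) = g • (x : LL) := rfl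

theorem x_norm (x : XX) : sqNorm ((x : LL) : GolayPt → ℤ) = 32 := by
  have h : (x : LL) ∈ DS [] := orbit_eq ▸ x.2
  exact h.1

/-- A point from a short vector. -/
noncomputable def mkX (v : LL) (h : sqNorm (v : GolayPt → ℤ) = 32) : XX :=
  ⟨v, orbit_eq.symm ▸ (⟨h, by simp⟩ : v ∈ DS [])⟩

theorem mkX_val (v : LL) (h : sqNorm (v : GolayPt → ℤ) = 32) : ((mkX v h : XX) : LL) = v := rfl

theorem stab_iff {h : Co0} : h • x0X = x0X ↔ h • lv = lv := by
  constructor
  · intro e
    exact congrArg Subtype.val e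
  · intro e
    exact Subtype.ext e

theorem Yinv_x0 : ((Yc⁻¹ • x0X : XX) : LL) = lw := Yinv_lv

/-! ### The classes of short vectors -/

/-- the first inner product of a class -/
def lvA (i : ℕ) : ℤ := (levL.getD i (0, 0)).1
/-- the second inner product of a class -/
def lvB (i : ℕ) : ℤ := (levL.getD i (0, 0)).2
/-- the representative of a class -/
def rep (i : ℕ) : ℕ := repL.getD i 0

/-- The check that a code is in a class. -/
def inLev (i n : ℕ) : Bool :=
  stChk n && Nat.beq (sqN n) 32 &&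
    decide (((dotA McLWG.w0 n : ℕ) : ℤ) - ((dotB McLWG.w0 n : ℕ) : ℤ) = lvB i) &&
    decide (((dotA McLWG.v0 n : ℕ) : ℤ) - ((dotB McLWG.v0 n : ℕ) : ℤ) = lvA i)

theorem St_of_inLev {i n : ℕ} (h : inLev i n = true) : St n := by
  simp only [inLev, Bool.and_eq_true] at h
  exact St_of_stChk h.1.1.1

theorem dd_mem_of_inLev {i n : ℕ} (h : inLev i n = true) : dd n ∈ DS (LV (lvA i) (lvB i)) := by
  have hs := St_of_inLev h
  simp only [inLev, Bool.and_eq_true, decide_eq_true_eq] at h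
  obtain ⟨⟨⟨h1, h2⟩, h3⟩, h4⟩ := h
  rw [dd_eq hs]
  refine mem_LV.2 ⟨norm_code (Nat.eq_of_beq_eq_true h2), ?_, ?_⟩
  · exact dot_code h3
  · exact dot_code h4

theorem chk_reps : (List.range 27).all (fun i => inLev i (rep i)) = true := by decide +kernel

theorem rep_ok {i : ℕ} (hi : i < 27) : inLev i (rep i) = true :=
  List.all_eq_true.1 chk_reps i (List.mem_range.2 hi)

theorem levL_length : levL.length = 27 := rfl

theorem lev_getD {i : ℕ} (hi : i < 27) : levL.getD i (0, 0) ∈ levL := by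
  rw [List.getD_eq_getElem _ _ (by rw [levL_length]; exact hi)]
  exact List.getElem_mem _

theorem trans_lev {i : ℕ} (hi : i < 27) : TransOn (LV (lvA i) (lvB i)) := levL_trans _ (lev_getD hi)

theorem cover_lev {x : LL} (hx : sqNorm (x : GolayPt → ℤ) = 32) : ∃ i < 27, x ∈ DS (LV (lvA i) (lvB i)) := by
  obtain ⟨i, hi, e⟩ := List.mem_iff_getElem.1 (lev_mem hx)
  refine ⟨i, hi, mem_LV.2 ⟨hx, ?_, ?_⟩⟩
  · have : lvB i = levL[i].2 := by
      unfold lvB
      rw [List.getD_eq_getElem _ _ hi]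
    rw [this, e]
  · have : lvA i = levL[i].1 := by
      unfold lvA
      rw [List.getD_eq_getElem _ _ hi]
    rw [this, e]

/-! ### The linear algebra -/

section linear

variable {A : Type*} [AddCommGroup A]

/-- The coefficient in a row. -/
def rowF (l : List ℕ) (i : ℕ) : ℤ := if i = 27 then -1 else (l.count i : ℤ)

/-- Evaluation of a linear form. -/
def ev (a : ℕ → A) (f : ℕ → ℤ) : A := ∑ i ∈ Finset.range 28, f i • a i

theorem ev_row_aux (a : ℕ → A) (l : List ℕ) (hl : ∀ k ∈ l, k < 27) :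
    ∑ i ∈ Finset.range 27, ((l.count i : ℤ)) • a i = (l.map a).sum := by
  induction l with
  | nil => simp
  | cons b l ih =>
    have hb := hl b (by simp)
    rw [List.map_cons, List.sum_cons, ← ih (fun k hk => hl k (by simp [hk]))]
    have h1 : ∀ i, ((b :: l).count i : ℤ) • a i = (if b = i then a i else 0) + ((l.count i : ℤ)) • a i := by
      intro i
      rw [List.count_cons]
      by_cases h : b = i
      · subst h
        simp [add_smul, add_comm]
      · simp [h]
    simp only [h1]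
    rw [Finset.sum_add_distrib, Finset.sum_ite_eq, if_pos (Finset.mem_range.2 hb)]

theorem ev_row (a : ℕ → A) (l : List ℕ) (hl : ∀ k ∈ l, k < 27) : ev a (rowF l) = (l.map a).sum - a 27 := by
  unfold ev
  rw [Finset.sum_range_succ]
  have h1 : ∑ i ∈ Finset.range 27, rowF l i • a i = ∑ i ∈ Finset.range 27, ((l.count i : ℤ)) • a i := by
    apply Finset.sum_congr rfl
    intro i hi
    have : i ≠ 27 := by
      have := Finset.mem_range.1 hi
      omega
    simp [rowF, this]
  rw [h1, ev_row_aux a l hl]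
  simp [rowF, sub_eq_add_neg]

/-- A combination of rows. -/
def comb : List ℤ → List (List ℕ) → ℕ → ℤ
  | c :: cs, r :: rs, i => c * rowF r i + comb cs rs i
  | _, _, _ => 0

theorem ev_comb (a : ℕ → A) (cs : List ℤ) (rs : List (List ℕ)) (h : ∀ r ∈ rs, ev a (rowF r) = 0) :
    ev a (comb cs rs) = 0 := by
  induction cs generalizing rs with
  | nil => simp [ev, comb]
  | cons c cs ih =>
    cases rs with
    | nil => simp [ev, comb]
    | cons r rs =>
      have h1 := h r (by simp)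
      have h2 := ih rs (fun r' hr' => h r' (by simp [hr']))
      unfold ev at h1 h2 ⊢
      have h3 : ∀ i, comb (c :: cs) (r :: rs) i • a i = c • (rowF r i • a i) + comb cs rs i • a i := by
        intro i
        show (c * rowF r i + comb cs rs i) • a i = _
        rw [add_smul, mul_smul]
      simp only [h3]
      rw [Finset.sum_add_distrib, ← Finset.smul_sum, h1, h2]
      simp

end linear

/-- The rows. -/
def rowLabels : List (List ℕ) := rowsL.map Prod.snd

/-- The forms. -/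
def Gf (j i : ℕ) : ℤ := (GfL.getD j []).getD i 0
/-- The form of the constant. -/
def Cf (i : ℕ) : ℤ := CfL.getD i 0

/-- The index of the form for a value of the inner product. -/
def gidx (d : ℤ) : ℕ :=
  if d = 32 then 0 else if d = -32 then 1 else if d = 16 then 2 else if d = -16 then 3 else if d = 8 then 4 else
    if d = -8 then 5 else 6

/-- The target. -/
def tgt (k i : ℕ) : ℤ := (if i = k then 1 else 0) - Gf (gidx (lvB k)) i + Gf (gidx (lvA k)) i + Cf i

theorem cert_ok : ∀ k, k < 27 → ∀ i, i < 28 → comb (certL.getD k []) rowLabels i = tgt k i := by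
  decide +kernel

theorem linear_solve {A : Type*} [AddCommGroup A] (a : ℕ → A) (h : ∀ r ∈ rowLabels, ev a (rowF r) = 0) {k : ℕ}
    (hk : k < 27) : a k = ev a (Gf (gidx (lvB k))) - ev a (Gf (gidx (lvA k))) - ev a Cf := by
  have h1 := ev_comb a (certL.getD k []) rowLabels h
  have h2 : ev a (comb (certL.getD k []) rowLabels) = ev a (tgt k) := by
    apply Finset.sum_congr rfl
    intro i hi
    rw [cert_ok k hk i (Finset.mem_range.1 hi)]
  rw [h2] at h1
  have h3 : ev a (tgt k) = a k - ev a (Gf (gidx (lvB k))) + ev a (Gf (gidx (lvA k))) + ev a Cf := by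
    unfold ev
    have h4 : ∀ i, tgt k i • a i = (if i = k then a i else 0) - Gf (gidx (lvB k)) i • a i + Gf (gidx (lvA k)) i • a i +
        Cf i • a i := by
      intro i
      unfold tgt
      rw [add_smul, add_smul, sub_smul]
      by_cases hi : i = k
      · simp [hi]
      · simp [hi]
    simp only [h4]
    rw [Finset.sum_add_distrib, Finset.sum_add_distrib, Finset.sum_sub_distrib, Finset.sum_ite_eq',
      if_pos (Finset.mem_range.2 (by omega))]
  rw [h3] at h1
  have h5 : a k = (a k - ev a (Gf (gidx (lvB k))) + ev a (Gf (gidx (lvA k))) + ev a Cf) + ev a (Gf (gidx (lvB k))) -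
      ev a (Gf (gidx (lvA k))) - ev a Cf := by
    abel
  rw [h1, zero_add] at h5
  exact h5

/-! ### The check of a row -/

/-- The check of a row. -/
def rowChk : ℕ → List ℕ → Bool
  | _, [] => true
  | x, i :: t => Nat.ble (i + 1) 27 && inLev i x && rowChk (actY x) t

/-- The check of the first entry of a row. -/
def inX (n : ℕ) : Bool := stChk n && Nat.beq (sqN n) 32

theorem rows_ok : rowsL.all (fun r => rowChk r.1 r.2 && Nat.beq r.2.length 3 && inX r.1) = true := by decide +kernel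

theorem norm_dd_of_inX {n : ℕ} (h : inX n = true) : St n ∧ sqNorm ((dd n : LL) : GolayPt → ℤ) = 32 := by
  simp only [inX, Bool.and_eq_true] at h
  have hs := St_of_stChk h.1
  refine ⟨hs, ?_⟩
  rw [dd_eq hs]
  exact norm_code (Nat.eq_of_beq_eq_true h.2)

theorem sys_row {A : Type} [AddCommGroup A] (κ' : LL → A) (a : ℕ → A)
    (hinv : ∀ k, k < 27 → ∀ n, inLev k n = true → κ' (dd n) = a k) :
    ∀ (l : List ℕ) (x : ℕ), rowChk x l = true → St x →
      ∑ e ∈ Finset.range l.length, κ' ((Yc ^ e) • dd x) = (l.map a).sum ∧ ∀ k ∈ l, k < 27 := by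
  intro l
  induction l with
  | nil => simp
  | cons p t ih =>
    intro x hx hst
    simp only [rowChk, Bool.and_eq_true] at hx
    obtain ⟨⟨h1, h2⟩, h3⟩ := hx
    have hk : p < 27 := Nat.le_of_ble_eq_true h1
    obtain ⟨i1, i2⟩ := ih _ h3 (acts_Y.st hst)
    refine ⟨?_, ?_⟩
    · have e1 : κ' ((Yc ^ 0) • dd x) = a p := by
        rw [pow_zero, one_smul]
        exact hinv p hk x h2
      have e2 : ∑ e ∈ Finset.range t.length, κ' ((Yc ^ (e + 1)) • dd x) = (t.map a).sum := by
        rw [← i1]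
        apply Finset.sum_congr rfl
        intro e _
        rw [pow_succ, mul_smul, smul_dd acts_Y hst]
      rw [List.length_cons, Finset.sum_range_succ', List.map_cons, List.sum_cons, e1, e2, add_comm]
    · intro k hk'
      rcases List.mem_cons.1 hk' with rfl | h
      · exact hk
      · exact i2 k h

theorem dot_lv_smul {h : Co0} (h1 : h • lv = lv) (y : LL) :
    dotInt (lv : GolayPt → ℤ) ((h • y : LL) : GolayPt → ℤ) = dotInt (lv : GolayPt → ℤ) (y : GolayPt → ℤ) := by
  have := dot_smul h lv y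
  rwa [h1] at this

theorem dot_Y (y : LL) :
    dotInt (lv : GolayPt → ℤ) ((Yc • y : LL) : GolayPt → ℤ) = dotInt (lw : GolayPt → ℤ) (y : GolayPt → ℤ) := by
  have := dot_smul Yc lw y
  rwa [Yw] at this

/-- The solution of the system. -/
theorem hsys (A : Type) [AddCommGroup A] (κ : XX → A) (v : A)
    (hinv : ∀ x, ∀ l : Co0, l • x0X = x0X → l • (Yc⁻¹ • x0X) = Yc⁻¹ • x0X → κ (l • x) = κ x)
    (hrow : ∀ x, ∑ e ∈ Finset.range 3, κ ((Yc ^ e) • x) = v) :
    ∃ (g : XX → A) (c : A), (∀ h : Co0, h • x0X = x0X → ∀ x, g (h • x) = g x) ∧ ∀ x, κ x = g (Yc • x) - g x - c := by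
  classical
  let κ' : LL → A := fun w => if hw : w ∈ orbit Co0 lv then κ ⟨w, hw⟩ else 0
  have κ'_val : ∀ x : XX, κ' x.1 = κ x := fun x => by
    simp only [κ']
    rw [dif_pos x.2]
  let a₀ : ℕ → A := fun k => κ' (dd (rep k))
  -- `κ` is constant on the classes
  have hval : ∀ k, k < 27 → ∀ x : LL, x ∈ DS (LV (lvA k) (lvB k)) → κ' x = a₀ k := by
    intro k hk x hx
    have h0 := dd_mem_of_inLev (rep_ok hk)
    obtain ⟨l, hl, e⟩ := trans_lev hk _ h0 _ hx
    have l1 : l • lw = lw := hl (lw, lvB k) (by simp)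
    have l2 : l • lv = lv := hl (lv, lvA k) (by simp)
    have hn : sqNorm ((dd (rep k) : LL) : GolayPt → ℤ) = 32 := h0.1
    have h1 := hinv (mkX _ hn) l (stab_iff.2 l2) (by
      apply Subtype.ext
      rw [smul_val, Yinv_x0]
      exact l1)
    have h3 := κ'_val (l • mkX _ hn)
    have h4 := κ'_val (mkX _ hn)
    rw [← h3, ← h4] at h1
    rw [← e]
    exact h1
  have hinv' : ∀ k, k < 27 → ∀ n, inLev k n = true → κ' (dd n) = a₀ k := fun k hk n hn =>
    hval k hk _ (dd_mem_of_inLev hn)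
  have hrows : ∀ r ∈ rowsL, (r.2.map a₀).sum = v ∧ ∀ k ∈ r.2, k < 27 := by
    intro r hr
    have h1 := List.all_eq_true.1 rows_ok r hr
    simp only [Bool.and_eq_true] at h1
    obtain ⟨⟨h2, h3⟩, h4⟩ := h1
    obtain ⟨hst, hn⟩ := norm_dd_of_inX h4
    obtain ⟨i1, i2⟩ := sys_row κ' a₀ hinv' r.2 r.1 h2 hst
    refine ⟨?_, i2⟩
    rw [← i1]
    have h5 : r.2.length = 3 := Nat.eq_of_beq_eq_true h3
    rw [h5, ← hrow (mkX _ hn)]
    apply Finset.sum_congr rfl
    intro e _
    rw [← κ'_val]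
    rfl
  -- the vector of values
  let a : ℕ → A := fun i => if i = 27 then v else a₀ i
  have ha : ∀ k, k < 27 → a k = a₀ k := fun k hk => by
    simp only [a]
    rw [if_neg (by omega)]
  have ha27 : a 27 = v := by simp [a]
  have hlin : ∀ r ∈ rowLabels, ev a (rowF r) = 0 := by
    intro r hr
    obtain ⟨r', hr', rfl⟩ := List.mem_map.1 hr
    obtain ⟨h1, h2⟩ := hrows r' hr'
    rw [ev_row a _ h2, ha27, sub_eq_zero, ← h1]
    congr 1
    apply List.map_congr_left
    intro k hk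
    exact ha k (h2 k hk)
  refine ⟨fun x => ev a (Gf (gidx (dotInt (lv : GolayPt → ℤ) ((x : LL) : GolayPt → ℤ)))), ev a Cf, ?_, ?_⟩
  · intro h hh x
    have h1 : h • lv = lv := stab_iff.1 hh
    have h2 : dotInt (lv : GolayPt → ℤ) (((h • x : XX) : LL) : GolayPt → ℤ) =
        dotInt (lv : GolayPt → ℤ) ((x : LL) : GolayPt → ℤ) := by
      rw [smul_val]
      exact dot_lv_smul h1 _
    simp only [h2]
  · intro x
    obtain ⟨k, hk, hx⟩ := cover_lev (x_norm x)
    obtain ⟨-, hb, ha'⟩ := mem_LV.1 hx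
    have h1 : κ x = a k := by
      rw [ha k hk, ← κ'_val]
      exact hval k hk _ hx
    have h2 : dotInt (lv : GolayPt → ℤ) (((Yc • x : XX) : LL) : GolayPt → ℤ) = lvB k := by
      rw [smul_val, ← hb]
      exact dot_Y _
    simp only [h2, ha']
    rw [h1]
    exact linear_solve a hlin hk

/-! ### Generation -/

/-- Transitivity of the stabiliser on the vectors of a given inner product. -/
theorem move_lv {x x' : LL} (hx : sqNorm (x : GolayPt → ℤ) = 32) (hx' : sqNorm (x' : GolayPt → ℤ) = 32) {d : ℤ}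
    (h : dotInt (lv : GolayPt → ℤ) (x : GolayPt → ℤ) = d) (h' : dotInt (lv : GolayPt → ℤ) (x' : GolayPt → ℤ) = d)
    (hd : d = -16 ∨ d = 16 ∨ d = -8 ∨ d = 8 ∨ d = 0) : ∃ k : Co0, k • lv = lv ∧ k • x = x' := by
  have neg1 : ∀ {y : LL}, sqNorm (y : GolayPt → ℤ) = 32 → sqNorm ((-y : LL) : GolayPt → ℤ) = 32 := by
    intro y hy
    show sqNorm (-(y : GolayPt → ℤ)) = 32
    rw [norm_neg, hy]
  have neg2 : ∀ {k : Co0} {y y' : LL}, k • (-y) = -y' → k • y = y' := by
    intro k y y' e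
    rw [smul_neg'] at e
    exact neg_injective e
  rcases hd with rfl | rfl | rfl | rfl | rfl
  · exact Cfsg.Agent.Lib.Co0Pair.pairM16 norm_lv norm_lv hx hx' h h'
  · obtain ⟨k, k1, k2⟩ := Cfsg.Agent.Lib.Co0Pair.pairM16 norm_lv norm_lv (neg1 hx) (neg1 hx')
      (by rw [dot_neg_x]; exact neg_inj.2 h) (by rw [dot_neg_x]; exact neg_inj.2 h')
    exact ⟨k, k1, neg2 k2⟩
  · exact Cfsg.Agent.Lib.Co0Pair.pairM8 norm_lv norm_lv hx hx' h h'
  · obtain ⟨k, k1, k2⟩ := Cfsg.Agent.Lib.Co0Pair.pairM8 norm_lv norm_lv (neg1 hx) (neg1 hx')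
      (by rw [dot_neg_x]; exact neg_inj.2 h) (by rw [dot_neg_x]; exact neg_inj.2 h')
    exact ⟨k, k1, neg2 k2⟩
  · exact Cfsg.Agent.Lib.Co0Pair.pair0 norm_lv norm_lv hx hx' h h'

theorem hgen : Subgroup.closure ((stabilizer Co0 x0X : Set Co0) ∪ {Yc}) = ⊤ := by
  set T : Subgroup Co0 := Subgroup.closure ((stabilizer Co0 x0X : Set Co0) ∪ {Yc}) with hT
  have hHT : ∀ h : Co0, h • lv = lv → h ∈ T := fun h hh =>
    Subgroup.subset_closure (Or.inl (stab_iff.2 hh))
  have hYT : Yc ∈ T := Subgroup.subset_closure (Or.inr rfl)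
  let P : LL → Prop := fun w => ∃ τ ∈ T, τ • lv = w
  have Ph : ∀ (h : Co0) (w : LL), h • lv = lv → P w → P (h • w) := by
    rintro h w hh ⟨τ, hτ, rfl⟩
    exact ⟨h * τ, T.mul_mem (hHT h hh) hτ, mul_smul _ _ _⟩
  have PY : ∀ w, P w → P (Yc • w) := by
    rintro w ⟨τ, hτ, rfl⟩
    exact ⟨Yc * τ, T.mul_mem hYT hτ, mul_smul _ _ _⟩
  have Plv : P lv := ⟨1, T.one_mem, one_smul _ _⟩
  have Plw : P lw := ⟨Yc⁻¹, T.inv_mem hYT, Yinv_lv⟩
  -- a level is reached from one vector
  have Plev : ∀ {x x' : LL} {d : ℤ}, sqNorm (x : GolayPt → ℤ) = 32 → sqNorm (x' : GolayPt → ℤ) = 32 →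
      dotInt (lv : GolayPt → ℤ) (x : GolayPt → ℤ) = d → dotInt (lv : GolayPt → ℤ) (x' : GolayPt → ℤ) = d →
      (d = -16 ∨ d = 16 ∨ d = -8 ∨ d = 8 ∨ d = 0) → P x → P x' := by
    intro x x' d hx hx' h h' hd hp
    obtain ⟨k, k1, k2⟩ := move_lv hx hx' h h' hd
    rw [← k2]
    exact Ph k x k1 hp
  have Pm8 : ∀ x : LL, sqNorm (x : GolayPt → ℤ) = 32 → dotInt (lv : GolayPt → ℤ) (x : GolayPt → ℤ) = -8 → P x :=
    fun x hx h => Plev norm_lw hx dot_lv_lw h (by norm_num) Plw
  -- the image of a vector with given inner products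
  have Pim : ∀ {b : ℤ} {n : ℕ}, OKL (-8) b n → n ≠ 0 → (b = -16 ∨ b = 16 ∨ b = -8 ∨ b = 8 ∨ b = 0) →
      ∀ x : LL, sqNorm (x : GolayPt → ℤ) = 32 → dotInt (lv : GolayPt → ℤ) (x : GolayPt → ℤ) = b → P x := by
    intro b n hk hn hb x hx hd
    obtain ⟨y, hy⟩ : (DS (LV (-8) b)).Nonempty := Set.nonempty_of_ncard_ne_zero (by rw [hk.1]; exact hn)
    obtain ⟨y1, y2, y3⟩ := mem_LV.1 hy
    have h1 := PY y (Pm8 y y1 y3)
    have h2 : dotInt (lv : GolayPt → ℤ) ((Yc • y : LL) : GolayPt → ℤ) = b := by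
      rw [← y2]
      exact dot_Y _
    exact Plev ((norm_smul Yc y).trans y1) hx h2 hd hb h1
  have P16 := Pim ok_m8_p16 (by norm_num) (by norm_num)
  have Pm16 := Pim ok_m8_m16 (by norm_num) (by norm_num)
  have P8 := Pim ok_m8_p8 (by norm_num) (by norm_num)
  have P0 := Pim ok_m8_z (by norm_num) (by norm_num)
  have hnlw : sqNorm ((-lw : LL) : GolayPt → ℤ) = 32 := by
    show sqNorm (-(lw : GolayPt → ℤ)) = 32
    rw [norm_neg, norm_lw]
  have Pmlv : P (-lv) := by
    have h1 := PY _ (P8 (-lw) hnlw (by rw [dot_neg_x, dot_lv_lw]; norm_num))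
    rwa [smul_neg', Yw] at h1
  have pall : ∀ x : LL, sqNorm (x : GolayPt → ℤ) = 32 → P x := by
    intro x hx
    have hd := dot_values lv norm_lv hx
    simp only [Finset.mem_insert, Finset.mem_singleton] at hd
    rcases hd with h | h | h | h | h | h | h
    · rw [eq_of_dot32 lv norm_lv hx h]
      exact Plv
    · rw [eq_of_dotm32 lv norm_lv hx h]
      exact Pmlv
    · exact P16 x hx h
    · exact Pm16 x hx h
    · exact P8 x hx h
    · exact Pm8 x hx h
    · exact P0 x hx h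
  rw [eq_top_iff]
  intro g _
  obtain ⟨τ, hτ, e⟩ := pall _ ((norm_smul g lv).trans norm_lv)
  have h1 : τ⁻¹ * g ∈ T := by
    apply hHT
    rw [mul_smul, ← e, inv_smul_smul]
  have h2 := T.mul_mem hτ h1
  simpa using h2

end Cfsg.Agent.Lib.Co0Rel
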