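import Mathlib
import Cfsg.Agent.Lib.Co0RelSys
import Cfsg.Agent.Lib.Co0RelGData

set_option autoImplicit false
set_option linter.unusedVariables false
set_option linter.unusedSectionVars false
set_option maxRecDepth 100000

/-!
# All points are good for the automorphism group of the lattice
-/

namespace Cfsg.Agent.Lib.Co0Rel

open Cfsg Cfsg.Agent.Lib.CoVec Cfsg.Agent.Lib.CoConf MulAction Cfsg.Agent.Lib.SchurRel19
open Cfsg.Agent.Lib.Co3Rel19 (dd dd_val dd_eq smul_dd smul_dd_eq dd_inj eqChk eq_of_eqChk)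
open Cfsg.Agent.Lib.Golay (isM24)

/-! ### Double counting -/

theorem double_count (A B : List (LL × ℤ)) (β : ℤ) {m n : ℕ}
    (h1 : ∀ x ∈ DS A, (DS ((x, β) :: B)).ncard = m) (h2 : ∀ y ∈ DS B, (DS ((y, β) :: A)).ncard = n) :
    (DS A).ncard * m = (DS B).ncard * n := by
  classical
  have hF : (DS A).ncard = (finite_DS A).toFinset.card := Set.ncard_eq_toFinset_card _ _
  have hG : (DS B).ncard = (finite_DS B).toFinset.card := Set.ncard_eq_toFinset_card _ _
  rw [hF, hG]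
  apply Finset.card_mul_eq_card_mul (fun (x y : LL) => dotInt (x : GolayPt → ℤ) (y : GolayPt → ℤ) = β)
  · intro x hx
    have hx' : x ∈ DS A := by simpa using hx
    rw [← h1 x hx', ← Set.ncard_coe_finset]
    congr 1
    ext y
    simp only [Finset.bipartiteAbove, Finset.coe_filter, Set.Finite.mem_toFinset, Set.mem_setOf_eq, mem_DS_cons]
  · intro y hy
    have hy' : y ∈ DS B := by simpa using hy
    rw [← h2 y hy', ← Set.ncard_coe_finset]
    congr 1
    ext x
    simp only [Finset.bipartiteBelow, Finset.coe_filter, Set.Finite.mem_toFinset, Set.mem_setOf_eq, mem_DS_cons]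
    rw [dot_comm]

/-- The number of vectors with given inner products with two vectors, by double counting. -/
theorem count_of {a : ℤ} {x : LL} (hx : sqNorm (x : GolayPt → ℤ) = 32)
    (hax : dotInt (lv : GolayPt → ℤ) (x : GolayPt → ℤ) = a) (had : a = -16 ∨ a = 16 ∨ a = -8 ∨ a = 8 ∨ a = 0) (β : ℤ)
    {n : ℕ} (hn : (DS (LV a β)).ncard = n) :
    (DS [(lv, a)]).ncard * (DS [(x, β), (lv, -8)]).ncard = (DS [(lv, (-8 : ℤ))]).ncard * n := by
  apply double_count _ _ β
  · intro x' hx'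
    have h1 : dotInt (lv : GolayPt → ℤ) (x' : GolayPt → ℤ) = a := hx'.2 (lv, a) (by simp)
    obtain ⟨k, k1, k2⟩ := move_lv hx'.1 hx h1 hax had
    rw [← ncard_move k]
    simp only [moveL_cons, moveL_nil, k1, k2]
  · intro y hy
    have h1 : dotInt (lv : GolayPt → ℤ) (y : GolayPt → ℤ) = -8 := hy.2 (lv, -8) (by simp)
    obtain ⟨k, k1, k2⟩ := move_lv hy.1 norm_lw h1 dot_lv_lw (by norm_num)
    rw [← hn, ← ncard_move k]
    simp only [moveL_cons, moveL_nil, k1, k2]

theorem count_neg (x : LL) (β a : ℤ) :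
    DS [(-x, -β), (lv, a)] = DS [(x, β), (lv, a)] := by
  ext y
  simp only [mem_DS_cons]
  have e : dotInt ((-x : LL) : GolayPt → ℤ) (y : GolayPt → ℤ) = -dotInt (x : GolayPt → ℤ) (y : GolayPt → ℤ) :=
    dot_neg_left _ _
  rw [e, neg_inj]

/-! ### Elements with a fixed point -/

section good

variable {Γ : Type} [Group Γ] {π : Γ →* Co0} {W : Subgroup Γ}

/-- All points at a given inner product with the base point are good. -/
def GoodAt (π : Γ →* Co0) (W : Subgroup Γ) (d : ℤ) : Prop :=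
  ∀ x : XX, dotInt (lv : GolayPt → ℤ) ((x : LL) : GolayPt → ℤ) = d → Good π x0X W x

variable (C : Compl π x0X W)

include C

theorem gd_of_smul {x y : XX} {h : Co0} (hh : h • lv = lv) (e : (y : LL) = h • (x : LL))
    (hx : Good π x0X W x) : Good π x0X W y := by
  have e1 : y = h • x := Subtype.ext e
  rw [e1]
  exact good_smul C hx (stab_iff.2 hh)

theorem goodAt_of_rep {d : ℤ} (hd : d = -16 ∨ d = 16 ∨ d = -8 ∨ d = 8 ∨ d = 0) {x₁ : XX}
    (h1 : dotInt (lv : GolayPt → ℤ) ((x₁ : LL) : GolayPt → ℤ) = d) (hg : Good π x0X W x₁) : GoodAt π W d := by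
  intro x hx
  obtain ⟨k, k1, k2⟩ := move_lv (x_norm x₁) (x_norm x) h1 hx hd
  exact gd_of_smul C k1 k2.symm hg

/-- Elements fixing a further point. -/
theorem mem_Nx_of_pt {x : XX} {β : ℤ} (g8 : GoodAt π W (-8)) (gβ : GoodAt π W β) {l : Co0} {y : LL}
    (hl1 : l • lv = lv) (hl2 : l • (x : LL) = x) (hl3 : l • y = y) (hy : y ∈ DS [((x : LL), β), (lv, -8)]) :
    l ∈ Nx C x := by
  obtain ⟨hy1, hy2⟩ := mem_DS_cons.1 hy
  have hy3 : dotInt (lv : GolayPt → ℤ) (y : GolayPt → ℤ) = -8 := hy1.2 (lv, -8) (by simp)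
  obtain ⟨Z, hZ⟩ := Cfsg.Agent.Lib.Co0Trans.trans32 y lv hy1.1 norm_lv
  have e1 : Z⁻¹ • lv = y := inv_smul_eq_iff.2 hZ.symm
  have hq : Good π x0X W (Z⁻¹ • x0X) := by
    apply g8
    rw [smul_val]
    show dotInt (lv : GolayPt → ℤ) ((Z⁻¹ • lv : LL) : GolayPt → ℤ) = -8
    rw [e1]
    exact hy3
  have hY : Good π x0X W (Z • x) := by
    apply gβ
    rw [smul_val]
    have e2 := dot_smul Z y (x : LL)
    rw [hZ] at e2
    rw [e2, dot_comm]
    exact hy2
  refine transport_mem_Nx C hq hY (stab_iff.2 hl1) (Subtype.ext hl2) ?_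
  apply Subtype.ext
  rw [smul_val, smul_val]
  show l • (Z⁻¹ • lv) = Z⁻¹ • lv
  rw [e1]
  exact hl3

/-- The subgroup acting on the further points. -/
noncomputable def Kx (C : Compl π x0X W) (x : XX) : Subgroup Co0 := Nx C x ⊓ stabilizer Co0 (x : LL)

theorem Kx_fix {x : XX} {k : Co0} (hk : k ∈ Kx C x) : k • lv = lv ∧ k • (x : LL) = x :=
  ⟨stab_iff.1 hk.1.1, hk.2⟩

theorem Kx_mem {x : XX} {β : ℤ} (g8 : GoodAt π W (-8)) (gβ : GoodAt π W β) {l : Co0} {y : LL}
    (hl1 : l • lv = lv) (hl2 : l • (x : LL) = x) (hl3 : l • y = y) (hy : y ∈ DS [((x : LL), β), (lv, -8)]) :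
    l ∈ Kx C x :=
  ⟨mem_Nx_of_pt C g8 gβ hl1 hl2 hl3 hy, hl2⟩

/-- A point is good when the further points form one orbit. -/
theorem gd_orbit {x : XX} {β : ℤ} (g8 : GoodAt π W (-8)) (gβ : GoodAt π W β) {r : LL}
    (hr : r ∈ DS [((x : LL), β), (lv, -8)])
    (ho : ∀ y ∈ DS [((x : LL), β), (lv, -8)], ∃ k ∈ Kx C x, k • r = y) : Good π x0X W x := by
  apply good_of_le C
  rintro s ⟨hs1, hs2⟩
  have s1 : s • lv = lv := stab_iff.1 hs1
  have s2 : s • (x : LL) = x := congrArg Subtype.val hs2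
  have hsr : s • r ∈ DS [((x : LL), β), (lv, -8)] := by
    apply smul_mem_DS _ hr
    intro p hp
    simp only [List.mem_cons, List.not_mem_nil, or_false] at hp
    rcases hp with rfl | rfl
    · exact s2
    · exact s1
  obtain ⟨k, hk, e⟩ := ho _ hsr
  obtain ⟨k1, k2⟩ := Kx_fix C hk
  have hm : k⁻¹ * s ∈ Nx C x := by
    apply mem_Nx_of_pt C g8 gβ _ _ _ hr
    · rw [mul_smul, s1, inv_smul_eq_iff, k1]
    · rw [mul_smul, s2, inv_smul_eq_iff, k2]
    · rw [mul_smul, ← e, inv_smul_smul]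
  have := (Nx C x).mul_mem hk.1 hm
  simpa using this

/-- The result for a table. -/
theorem gd_table {x : XX} {β : ℤ} (g8 : GoodAt π W (-8)) (gβ : GoodAt π W β) {act : ℕ → ℕ → ℕ}
    (hact : ∀ g, ActsIn (Kx C x) (act g)) {r : ℕ} (hr : St r) {T U : Tr} {N M : ℕ} (hN : N ≤ 256 * M)
    (hall : ∀ k < M, chunkOK act T U r N k (cntOf N k) = true)
    (hrm : dd r ∈ DS [((x : LL), β), (lv, -8)]) (hc : (DS [((x : LL), β), (lv, -8)]).ncard ≤ N) : Good π x0X W x := by
  obtain ⟨-, S, h1, h2, -⟩ := table_orbit hact hr hN hall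
  rw [dd_eq hr] at hrm
  apply gd_orbit C g8 gβ hrm
  apply orbit_of_table h2 _ (h1 ▸ hc)
  intro h hh
  apply smul_mem_DS _ hrm
  intro p hp
  simp only [List.mem_cons, List.not_mem_nil, or_false] at hp
  rcases hp with rfl | rfl
  · exact (Kx_fix C hh).2
  · exact (Kx_fix C hh).1

end good

/-! ### Perfect stabilisers -/

theorem comm_self_of_simple (K : Subgroup Co0) (hs : IsSimpleGroup K) {a b : Co0} (ha : a ∈ K) (hb : b ∈ K)
    (hab : a * b ≠ b * a) : ⁅K, K⁆ = K := by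
  have h : commutator K = ⊤ := by
    rcases (inferInstance : (commutator K).Normal).eq_bot_or_eq_top with h | h
    · exfalso
      have h1 : Subgroup.center K = ⊤ := (commutator_eq_bot_iff_center_eq_top K).1 h
      have h2 : (⟨a, ha⟩ : K) ∈ Subgroup.center K := by rw [h1]; trivial
      have h3 := Subgroup.mem_center_iff.1 h2 ⟨b, hb⟩
      exact hab (congrArg Subtype.val h3).symm
    · exact h
  have e : (commutator K).map K.subtype = ⁅K, K⁆ := by
    rw [commutator_def, Subgroup.map_commutator, ← MonoidHom.range_eq_map, K.range_subtype]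
  rw [← e, h, ← MonoidHom.range_eq_map, K.range_subtype]

theorem ne_of_code {g g' : Co0} {f f' : ℕ → ℕ} (hg : ActsOn g f) (hg' : ActsOn g' f') {n : ℕ} (h : St n)
    (hne : f n ≠ f' n) : g ≠ g' := by
  rintro rfl
  apply hne
  exact dec_injOn (hg n h).1 (hg' n h).1 (((hg n h).2).symm.trans (hg' n h).2)

/-- a code moved differently by the two elements -/
def zc : ℕ := 3150858910311745638317572730080710985337652928985868305540

theorem St_zc : St zc := St_of_stChk (by decide +kernel)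

theorem e0e1_ne : McLWG.e0 * McLWG.e1 ≠ McLWG.e1 * McLWG.e0 :=
  ne_of_code (McLWG.acts0.mul McLWG.acts1) (McLWG.acts1.mul McLWG.acts0) St_zc (by decide +kernel)

theorem fix_e0 : McLWG.e0 • lv = lv ∧ McLWG.e0 • lw = lw := McLWG.mem0
theorem fix_e1 : McLWG.e1 • lv = lv ∧ McLWG.e1 • lw = lw := McLWG.mem1

section good2

variable {Γ : Type} [Group Γ] {π : Γ →* Co0} {W : Subgroup Γ} (C : Compl π x0X W)

include C

theorem gd_of_comm {x : XX} {K : Subgroup Co0} (hK : Sx (G := Co0) x0X x = K) (h : ⁅K, K⁆ = K) : Good π x0X W x := by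
  apply good_of_le C
  have h1 := comm_le_Nx C x
  rw [hK, h] at h1
  rw [hK]
  exact h1

theorem good_32 : GoodAt π W 32 := by
  intro x hx
  have e : x = x0X := Subtype.ext (eq_of_dot32 lv norm_lv (x_norm x) hx)
  rw [e]
  exact good_base C

theorem good_m32 : GoodAt π W (-32) := by
  intro x hx
  have e : (x : LL) = -lv := eq_of_dotm32 lv norm_lv (x_norm x) hx
  apply gd_of_comm C (K := stb lv)
  · ext k
    constructor
    · rintro ⟨h1, -⟩
      exact stab_iff.1 h1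
    · intro h1
      have h1' : k • lv = lv := h1
      refine ⟨stab_iff.2 h1', ?_⟩
      apply Subtype.ext
      rw [smul_val, e, smul_neg', h1']
  · exact comm_self_of_simple _ (co2_simple lv norm_lv) fix_e0.1 fix_e1.1 e0e1_ne

theorem Sx_eq_mcl {x : XX} (h : (x : LL) = lw ∨ (x : LL) = -lw) : Sx (G := Co0) x0X x = stb lv ⊓ stb lw := by
  ext k
  constructor
  · rintro ⟨h1, h2⟩
    have h2' : k • (x : LL) = x := congrArg Subtype.val h2
    refine ⟨stab_iff.1 h1, ?_⟩
    show k • lw = lw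
    rcases h with e | e
    · rwa [e] at h2'
    · rw [e, smul_neg'] at h2'
      exact neg_injective h2'
  · rintro ⟨h1, h2⟩
    have h1' : k • lv = lv := h1
    have h2' : k • lw = lw := h2
    refine ⟨stab_iff.2 h1', ?_⟩
    apply Subtype.ext
    rw [smul_val]
    rcases h with e | e
    · rw [e, h2']
    · rw [e, smul_neg', h2']

theorem gd_mcl {x : XX} (h : (x : LL) = lw ∨ (x : LL) = -lw) : Good π x0X W x :=
  gd_of_comm C (Sx_eq_mcl C h) (comm_self_of_simple _ (mcl_simple lv lw norm_lv norm_lw dot_lv_lw)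
    ⟨fix_e0.1, fix_e0.2⟩ ⟨fix_e1.1, fix_e1.2⟩ e0e1_ne)

theorem good_m8 : GoodAt π W (-8) :=
  goodAt_of_rep C (by norm_num) (x₁ := mkX lw norm_lw) dot_lv_lw (gd_mcl C (Or.inl rfl))

theorem norm_neg_lw : sqNorm ((-lw : LL) : GolayPt → ℤ) = 32 := by
  show sqNorm (-(lw : GolayPt → ℤ)) = 32
  rw [norm_neg, norm_lw]

theorem good_p8 : GoodAt π W 8 :=
  goodAt_of_rep C (by norm_num) (x₁ := mkX (-lw) (norm_neg_lw C)) (by
    show dotInt (lv : GolayPt → ℤ) ((-lw : LL) : GolayPt → ℤ) = 8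
    rw [dot_neg_x, dot_lv_lw]
    norm_num) (gd_mcl C (Or.inr rfl))

end good2

/-! ### The generators -/

theorem h_ka0P : isM24 ka0P = true := by decide +kernel
theorem h_ka1P : isM24 ka1P = true := by decide +kernel
theorem h_kb0P : isM24 kb0P = true := by decide +kernel
theorem h_kb1P : isM24 kb1P = true := by decide +kernel
theorem hl_ka0M : ka0M < 2 ^ 24 := by decide +kernel
theorem hl_ka1M : ka1M < 2 ^ 24 := by decide +kernel
theorem hl_kb0M : kb0M < 2 ^ 24 := by decide +kernel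
theorem hl_kb1M : kb1M < 2 ^ 24 := by decide +kernel
theorem hr_ka0M : Cfsg.Agent.Lib.Golay.reduce ka0M = 0 := by decide +kernel
theorem hr_ka1M : Cfsg.Agent.Lib.Golay.reduce ka1M = 0 := by decide +kernel
theorem hr_kb0M : Cfsg.Agent.Lib.Golay.reduce kb0M = 0 := by decide +kernel
theorem hr_kb1M : Cfsg.Agent.Lib.Golay.reduce kb1M = 0 := by decide +kernel

/-- a generator -/
noncomputable def gka0 : Co0 := signCo0 hl_ka0M hr_ka0M * (permCo0 h_ka0P * xiCo0)
/-- a generator -/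
noncomputable def gka1 : Co0 := signCo0 hl_ka1M hr_ka1M * (permCo0 h_ka1P * xiCo0)
/-- a generator -/
noncomputable def gkb0 : Co0 := signCo0 hl_kb0M hr_kb0M * permCo0 h_kb0P
/-- a generator -/
noncomputable def gkb1 : Co0 := signCo0 hl_kb1M hr_kb1M * permCo0 h_kb1P

theorem actKa0_eq : actKa 0 = fun n => actSign ka0M (actPerm ka0P (actXi n)) := rfl
theorem actKa1_eq : actKa 1 = fun n => actSign ka1M (actPerm ka1P (actXi n)) := rfl
theorem actKb0_eq : actKb 0 = fun n => actSign kb0M (actPerm kb0P n) := rfl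
theorem actKb1_eq : actKb 1 = fun n => actSign kb1M (actPerm kb1P n) := rfl

theorem acts_ka0 : ActsOn gka0 (actKa 0) := by
  rw [actKa0_eq]
  exact (actSign_acts hl_ka0M hr_ka0M).mul ((actPerm_acts h_ka0P).mul actXi_acts)
theorem acts_ka1 : ActsOn gka1 (actKa 1) := by
  rw [actKa1_eq]
  exact (actSign_acts hl_ka1M hr_ka1M).mul ((actPerm_acts h_ka1P).mul actXi_acts)
theorem acts_kb0 : ActsOn gkb0 (actKb 0) := by
  rw [actKb0_eq]
  exact (actSign_acts hl_kb0M hr_kb0M).mul (actPerm_acts h_kb0P)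
theorem acts_kb1 : ActsOn gkb1 (actKb 1) := by
  rw [actKb1_eq]
  exact (actSign_acts hl_kb1M hr_kb1M).mul (actPerm_acts h_kb1P)

theorem St_x1c : St x1c := St_of_stChk (by decide +kernel)
theorem St_x2c : St x2c := St_of_stChk (by decide +kernel)
theorem St_ka0Y : St ka0Y := St_of_stChk (by decide +kernel)
theorem St_ka1Y : St ka1Y := St_of_stChk (by decide +kernel)
theorem St_kb0Y : St kb0Y := St_of_stChk (by decide +kernel)
theorem St_kb1Y : St kb1Y := St_of_stChk (by decide +kernel)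

/-- the vector of inner product 16 -/
noncomputable def x1L : LL := dd x1c
/-- the vector of inner product 0 -/
noncomputable def x2L : LL := dd x2c

theorem norm_x1 : sqNorm (x1L : GolayPt → ℤ) = 32 := by
  rw [x1L, dd_eq St_x1c]
  exact norm_code (by decide +kernel)
theorem norm_x2 : sqNorm (x2L : GolayPt → ℤ) = 32 := by
  rw [x2L, dd_eq St_x2c]
  exact norm_code (by decide +kernel)

theorem dot_x1 : dotInt (lv : GolayPt → ℤ) (x1L : GolayPt → ℤ) = 16 := by
  rw [x1L, dd_eq St_x1c]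
  exact dot_code (by decide +kernel)
theorem dot_x2 : dotInt (lv : GolayPt → ℤ) (x2L : GolayPt → ℤ) = 0 := by
  rw [x2L, dd_eq St_x2c]
  exact dot_code (by decide +kernel)

/-- Membership in the further points from codes. -/
theorem mem_DS2 {n β : ℕ} {u : ℕ} (hu : St u) (hn : St n) (hq : sqN n = 32)
    (h1 : ((dotA u n : ℕ) : ℤ) - ((dotB u n : ℕ) : ℤ) = (β : ℤ))
    (h2 : ((dotA McLWG.v0 n : ℕ) : ℤ) - ((dotB McLWG.v0 n : ℕ) : ℤ) = -8) :
    dd n ∈ DS [(dd u, (β : ℤ)), (lv, -8)] := by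
  rw [dd_eq hn, dd_eq hu]
  refine mem_DS_cons.2 ⟨mem_DS_cons.2 ⟨⟨norm_code hq, by simp⟩, dot_code h2⟩, dot_code h1⟩

theorem ka0_fix : gka0 • lv = lv ∧ gka0 • x1L = x1L ∧ gka0 • dd ka0Y = dd ka0Y :=
  ⟨by rw [lv_eq]; exact smul_dd_eq acts_ka0 McLWG.St_v0 (by decide +kernel),
   smul_dd_eq acts_ka0 St_x1c (by decide +kernel), smul_dd_eq acts_ka0 St_ka0Y (by decide +kernel)⟩
theorem ka1_fix : gka1 • lv = lv ∧ gka1 • x1L = x1L ∧ gka1 • dd ka1Y = dd ka1Y :=
  ⟨by rw [lv_eq]; exact smul_dd_eq acts_ka1 McLWG.St_v0 (by decide +kernel),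
   smul_dd_eq acts_ka1 St_x1c (by decide +kernel), smul_dd_eq acts_ka1 St_ka1Y (by decide +kernel)⟩
theorem kb0_fix : gkb0 • lv = lv ∧ gkb0 • x2L = x2L ∧ gkb0 • dd kb0Y = dd kb0Y :=
  ⟨by rw [lv_eq]; exact smul_dd_eq acts_kb0 McLWG.St_v0 (by decide +kernel),
   smul_dd_eq acts_kb0 St_x2c (by decide +kernel), smul_dd_eq acts_kb0 St_kb0Y (by decide +kernel)⟩
theorem kb1_fix : gkb1 • lv = lv ∧ gkb1 • x2L = x2L ∧ gkb1 • dd kb1Y = dd kb1Y :=
  ⟨by rw [lv_eq]; exact smul_dd_eq acts_kb1 McLWG.St_v0 (by decide +kernel),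
   smul_dd_eq acts_kb1 St_x2c (by decide +kernel), smul_dd_eq acts_kb1 St_kb1Y (by decide +kernel)⟩

theorem ka0Y_mem : dd ka0Y ∈ DS [(x1L, 8), (lv, -8)] :=
  mem_DS2 (β := 8) St_x1c St_ka0Y (by decide +kernel) (by decide +kernel) (by decide +kernel)
theorem ka1Y_mem : dd ka1Y ∈ DS [(x1L, 8), (lv, -8)] :=
  mem_DS2 (β := 8) St_x1c St_ka1Y (by decide +kernel) (by decide +kernel) (by decide +kernel)
theorem kb0Y_mem : dd kb0Y ∈ DS [(x2L, 8), (lv, -8)] :=
  mem_DS2 (β := 8) St_x2c St_kb0Y (by decide +kernel) (by decide +kernel) (by decide +kernel)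
theorem kb1Y_mem : dd kb1Y ∈ DS [(x2L, 8), (lv, -8)] :=
  mem_DS2 (β := 8) St_x2c St_kb1Y (by decide +kernel) (by decide +kernel) (by decide +kernel)
theorem rKa_mem : dd rKa ∈ DS [(x1L, 8), (lv, -8)] :=
  mem_DS2 (β := 8) St_x1c St_rKa (by decide +kernel) (by decide +kernel) (by decide +kernel)
theorem rKb_mem : dd rKb ∈ DS [(x2L, 8), (lv, -8)] :=
  mem_DS2 (β := 8) St_x2c St_rKb (by decide +kernel) (by decide +kernel) (by decide +kernel)

theorem c_16_8 : (DS (LV 16 8)).ncard = 275 := by simpa using (ok_m8_m16.neg.swap).1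
theorem c_m16_m8 : (DS (LV (-16) (-8))).ncard = 275 := by simpa using (ok_m8_m16.swap).1
theorem c_0_8 : (DS (LV 0 8)).ncard = 22275 := by simpa using (ok_m8_z.neg.swap).1

theorem count_x1 : (DS [(x1L, 8), (lv, -8)]).ncard = 2816 := by
  have h := count_of norm_x1 dot_x1 (by norm_num) 8 c_16_8
  rw [ncard_lv, ncard_lv, (Cfsg.Agent.Lib.CoCensus.census lv norm_lv).2.2.2.1,
    (Cfsg.Agent.Lib.CoCensus.census lv norm_lv).2.1] at h
  omega

theorem count_x2 : (DS [(x2L, 8), (lv, -8)]).ncard = 11264 := by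
  have h := count_of norm_x2 dot_x2 (by norm_num) 8 c_0_8
  rw [ncard_lv, ncard_lv, (Cfsg.Agent.Lib.CoCensus.census lv norm_lv).2.2.1,
    (Cfsg.Agent.Lib.CoCensus.census lv norm_lv).2.1] at h
  omega

section good3

variable {Γ : Type} [Group Γ] {π : Γ →* Co0} {W : Subgroup Γ} (C : Compl π x0X W)

include C

theorem norm_neg_x1 : sqNorm ((-x1L : LL) : GolayPt → ℤ) = 32 := by
  show sqNorm (-(x1L : GolayPt → ℤ)) = 32
  rw [norm_neg, norm_x1]

theorem good_p16 : GoodAt π W 16 := by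
  apply goodAt_of_rep C (by norm_num) (x₁ := mkX x1L norm_x1) dot_x1
  have g8 := good_p8 C
  have gm8 := good_m8 C
  have hact : ∀ g, ActsIn (Kx C (mkX x1L norm_x1)) (actKa g) := by
    intro g
    match g with
    | 0 => exact acts_ka0.actsIn (Kx_mem C gm8 g8 ka0_fix.1 ka0_fix.2.1 ka0_fix.2.2 ka0Y_mem)
    | _ + 1 => exact acts_ka1.actsIn (Kx_mem C gm8 g8 ka1_fix.1 ka1_fix.2.1 ka1_fix.2.2 ka1Y_mem)
  exact gd_table C gm8 g8 hact St_rKa (N := 2816) (M := 11) (by norm_num) allKa rKa_mem count_x1.le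

theorem good_m16 : GoodAt π W (-16) := by
  apply goodAt_of_rep C (by norm_num) (x₁ := mkX (-x1L) (norm_neg_x1 C))
    (by show dotInt (lv : GolayPt → ℤ) ((-x1L : LL) : GolayPt → ℤ) = -16; rw [dot_neg_x, dot_x1])
  have gm8 := good_m8 C
  have nf : ∀ {l : Co0}, l • x1L = x1L → l • ((mkX (-x1L) (norm_neg_x1 C) : XX) : LL) = (mkX (-x1L) (norm_neg_x1 C) : XX) := by
    intro l hl
    show l • (-x1L) = -x1L
    rw [smul_neg', hl]
  have hs : ∀ {y : LL}, y ∈ DS [(x1L, 8), (lv, -8)] →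
      y ∈ DS [(((mkX (-x1L) (norm_neg_x1 C) : XX) : LL), -8), (lv, -8)] := by
    intro y hy
    have := count_neg x1L 8 (-8)
    show y ∈ DS [(-x1L, -8), (lv, -8)]
    rwa [this]
  have hact : ∀ g, ActsIn (Kx C (mkX (-x1L) (norm_neg_x1 C))) (actKa g) := by
    intro g
    match g with
    | 0 => exact acts_ka0.actsIn (Kx_mem C gm8 gm8 ka0_fix.1 (nf ka0_fix.2.1) ka0_fix.2.2 (hs ka0Y_mem))
    | _ + 1 => exact acts_ka1.actsIn (Kx_mem C gm8 gm8 ka1_fix.1 (nf ka1_fix.2.1) ka1_fix.2.2 (hs ka1Y_mem))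
  refine gd_table C gm8 gm8 hact St_rKa (N := 2816) (M := 11) (by norm_num) allKa (hs rKa_mem) ?_
  show (DS [(-x1L, -8), (lv, -8)]).ncard ≤ 2816
  rw [count_neg x1L 8 (-8), count_x1]

theorem good_z : GoodAt π W 0 := by
  apply goodAt_of_rep C (by norm_num) (x₁ := mkX x2L norm_x2) dot_x2
  have g8 := good_p8 C
  have gm8 := good_m8 C
  have hact : ∀ g, ActsIn (Kx C (mkX x2L norm_x2)) (actKb g) := by
    intro g
    match g with
    | 0 => exact acts_kb0.actsIn (Kx_mem C gm8 g8 kb0_fix.1 kb0_fix.2.1 kb0_fix.2.2 kb0Y_mem)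
    | _ + 1 => exact acts_kb1.actsIn (Kx_mem C gm8 g8 kb1_fix.1 kb1_fix.2.1 kb1_fix.2.2 kb1Y_mem)
  exact gd_table C gm8 g8 hact St_rKb (N := 11264) (M := 44) (by norm_num) allKb rKb_mem count_x2.le

/-- All points are good. -/
theorem good_all : ∀ x : XX, Good π x0X W x := by
  intro x
  have hd := dot_values lv norm_lv (x_norm x)
  simp only [Finset.mem_insert, Finset.mem_singleton] at hd
  rcases hd with h | h | h | h | h | h | h
  · exact good_32 C x h
  · exact good_m32 C x h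
  · exact good_p16 C x h
  · exact good_m16 C x h
  · exact good_p8 C x h
  · exact good_m8 C x h
  · exact good_z C x h

end good3

end Cfsg.Agent.Lib.Co0Rel
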