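import Mathlib
import Cfsg.Agent.Lib.Co0RelGood
import Cfsg.Agent.Lib.SchurCoset46
import Cfsg.Agent.Lib.StMain

set_option autoImplicit false
set_option linter.unusedVariables false
set_option linter.unusedSectionVars false
set_option maxRecDepth 100000

/-!
# The multiplier of the first Conway group, from that of the second
-/

namespace Cfsg.Agent.Lib.Co0Rel

open Cfsg Cfsg.Agent.Lib.CoVec Cfsg.Agent.Lib.CoConf MulAction Cfsg.Agent.Lib.SchurRel19
open Cfsg.Agent.Lib.Co3Rel19 (dd dd_val dd_eq smul_dd smul_dd_eq dd_inj eqChk eq_of_eqChk)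
open Cfsg.Agent.Lib.Golay (isM24)
open Cfsg.Agent.Lib.Co0Mono (negCo0 negCo0_apply)
open scoped commutatorElement

/-- The stabiliser of the base point. -/
noncomputable abbrev H1 : Subgroup Co0 := stabilizer Co0 x0X

theorem lv_eq_U : lv = Spor.leechU :=
  Subtype.ext (Co2G.dec_v0).symm

/-- The group of the statement as the stabiliser of the base point. -/
noncomputable def e2 : ↥Spor.Co2 ≃* ↥H1 where
  toFun σ := ⟨⟨σ.1, σ.2.1⟩, by
    apply stab_iff.2
    rw [lv_eq_U]
    exact σ.2.2⟩
  invFun k := ⟨k.1.1, ⟨k.1.2, by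
    have h := stab_iff.1 k.2
    rw [lv_eq_U] at h
    exact h⟩⟩
  left_inv σ := rfl
  right_inv k := rfl
  map_mul' a b := rfl

theorem perf_H1 : commutator ↥H1 = ⊤ := by
  have hs : IsSimpleGroup ↥(stb lv) := co2_simple lv norm_lv
  have e : H1 = stb lv := by
    ext k
    exact stab_iff
  have h0 : ⁅stb lv, stb lv⁆ = stb lv :=
    comm_self_of_simple _ hs fix_e0.1 fix_e1.1 e0e1_ne
  rw [← e] at h0
  rw [eq_top_iff]
  rintro ⟨k, hk⟩ -
  rw [← h0] at hk
  have h1 : ⁅H1, H1⁆ = (commutator ↥H1).map H1.subtype := by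
    rw [commutator_def, Subgroup.map_commutator, ← MonoidHom.range_eq_map, H1.range_subtype]
  rw [h1] at hk
  obtain ⟨z, hz, e3⟩ := hk
  have : z = ⟨k, by rw [← e3]; exact z.2⟩ := Subtype.ext e3
  rwa [this] at hz

theorem perf_Co2 : commutator ↥Spor.Co2 = ⊤ := by
  rw [eq_top_iff]
  intro x _
  have h1 := perf_H1
  have h2 : e2 x ∈ commutator ↥H1 := by rw [h1]; trivial
  have h3 : (commutator ↥H1).map e2.symm.toMonoidHom ≤ commutator ↥Spor.Co2 := by
    rw [commutator_def, commutator_def, Subgroup.map_commutator]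
    exact Subgroup.commutator_mono le_top le_top
  have h4 := h3 ⟨e2 x, h2, rfl⟩
  simpa using h4

instance instFinCo0 : Finite Co0 := finite_Co0'

/-- Stem extensions of the automorphism group of the lattice are trivial. -/
theorem ker_eq_bot (hM : HasCyclicSchurMultiplier ↥Spor.Co2 1) (Γ : Type) [Group Γ] [Finite Γ] (σ : Γ →* Co0)
    (hσ : IsStemExtension σ) : σ.ker = ⊥ := by
  let τ : (H1.comap σ) →* ↥Spor.Co2 := e2.symm.toMonoidHom.comp (σ.subgroupComap H1)
  have hτ : Function.Surjective τ :=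
    e2.symm.surjective.comp (σ.subgroupComap_surjective_of_surjective H1 hσ.1)
  have hker : ∀ y : (H1.comap σ), τ y = 1 ↔ σ y = 1 := by
    intro y
    have h1 : τ y = e2.symm (σ.subgroupComap H1 y) := rfl
    rw [h1, map_eq_one_iff _ e2.symm.injective]
    constructor
    · intro h
      exact congrArg Subtype.val h
    · intro h
      exact Subtype.ext h
  obtain ⟨ρ, hρ⟩ := Cfsg.Agent.Lib.SchurCoset46.exists_retraction' hσ.2.1 hM perf_Co2 τ hτ hker
  have C := compl_of_retraction hσ.1 hσ.2.1 ρ hρ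
  exact ker_eq_bot_of_system C hσ.2.2 (good_all C) Yc 3 Yc_pow hgen (fun A _ κ v h1 h2 => hsys A κ v h1 h2)

/-! ### The group is perfect -/

/-- a dodecad -/
def dodM : ℕ := 4377555
/-- a permutation moving the dodecad to its complement -/
def dodP : ℕ := 585493772000789827382197653009039703
/-- all coordinates -/
def fullM : ℕ := 16777215

theorem hl_dod : dodM < 2 ^ 24 := by decide +kernel
theorem hr_dod : Cfsg.Agent.Lib.Golay.reduce dodM = 0 := by decide +kernel
theorem hl_full : fullM < 2 ^ 24 := by decide +kernel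
theorem hr_full : Cfsg.Agent.Lib.Golay.reduce fullM = 0 := by decide +kernel
theorem h_dodP : isM24 dodP = true := by decide +kernel

theorem full_mem : ∀ k : GolayPt, k ∈ Cfsg.Agent.Lib.Golay.ofMask fullM := by decide +kernel

theorem decode_id (k : GolayPt) : Cfsg.Agent.Lib.Golay.decode cId k = k := by
  rw [Cfsg.Agent.Lib.Golay.decode_apply (Cfsg.Agent.Lib.Golay.isM24_valid cId_isM24), ap_cId _ (Cfsg.Agent.Lib.Golay.idx_lt k),
    Cfsg.Agent.Lib.Golay.pt_idx]

theorem signFull_eq : signCo0 hl_full hr_full = negCo0 := by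
  apply Cfsg.Agent.Lib.Co0Frame.monoCo0_ext
  intro v
  unfold signCo0
  rw [Cfsg.Agent.Lib.Co0Mono.monoCo0_apply]
  funext k
  rw [Cfsg.Agent.Lib.Co0Mono.mono_apply, if_pos (full_mem k), decode_id]
  rfl

theorem sign_dod_sq : signCo0 hl_dod hr_dod * signCo0 hl_dod hr_dod = 1 :=
  eq_of_eqChk ((actSign_acts hl_dod hr_dod).mul (actSign_acts hl_dod hr_dod)) ActsOn.one (by decide +kernel)

theorem dod_rel : signCo0 hl_dod hr_dod * (permCo0 h_dodP * signCo0 hl_dod hr_dod) =
    signCo0 hl_full hr_full * permCo0 h_dodP :=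
  eq_of_eqChk ((actSign_acts hl_dod hr_dod).mul ((actPerm_acts h_dodP).mul (actSign_acts hl_dod hr_dod)))
    ((actSign_acts hl_full hr_full).mul (actPerm_acts h_dodP)) (by decide +kernel)

theorem neg_mem_comm : negCo0 ∈ commutator Co0 := by
  have e : negCo0 = ⁅signCo0 hl_dod hr_dod, permCo0 h_dodP⁆ := by
    rw [commutatorElement_def, ← signFull_eq]
    have h1 : (signCo0 hl_dod hr_dod)⁻¹ = signCo0 hl_dod hr_dod := inv_eq_of_mul_eq_one_left sign_dod_sq
    rw [h1]
    have h2 := dod_rel
    rw [eq_mul_inv_iff_mul_eq]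
    rw [mul_assoc] at *
    exact h2.symm
  rw [e, commutator_def]
  exact Subgroup.commutator_mem_commutator (Subgroup.mem_top _) (Subgroup.mem_top _)

/-- The group is perfect. -/
theorem perf_Co0 : commutator Co0 = ⊤ := by
  have hcen : Subgroup.center Co0 ≤ commutator Co0 := by
    intro z hz
    rcases Cfsg.Agent.Lib.Co0Frame.center_cases hz with rfl | rfl
    · exact Subgroup.one_mem _
    · exact neg_mem_comm
  -- the quotient is perfect
  have hq : commutator Gq = ⊤ := by
    haveI := co1_simple lv norm_lv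
    rcases (inferInstance : (commutator Gq).Normal).eq_bot_or_eq_top with h | h
    · exfalso
      have h1 : (⁅McLWG.e0, McLWG.e1⁆ : Co0) ∈ Subgroup.center Co0 := by
        have h2 : ((⁅McLWG.e0, McLWG.e1⁆ : Co0) : Gq) = 1 := by
          have h3 : (⁅(McLWG.e0 : Gq), (McLWG.e1 : Gq)⁆ : Gq) ∈ commutator Gq := by
            rw [commutator_def]
            exact Subgroup.commutator_mem_commutator (Subgroup.mem_top _) (Subgroup.mem_top _)
          rw [h] at h3
          exact (Subgroup.mem_bot.1 h3)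
        exact (QuotientGroup.eq_one_iff _).1 h2
      rcases Cfsg.Agent.Lib.Co0Frame.center_cases h1 with h2 | h2
      · apply e0e1_ne
        exact commutatorElement_eq_one_iff_mul_comm.1 h2
      · have h3 : (⁅McLWG.e0, McLWG.e1⁆ : Co0) • lv = lv := by
          rw [commutatorElement_def]
          have a1 : McLWG.e0⁻¹ • lv = lv := by rw [inv_smul_eq_iff]; exact fix_e0.1.symm
          have a2 : McLWG.e1⁻¹ • lv = lv := by rw [inv_smul_eq_iff]; exact fix_e1.1.symm
          simp only [mul_smul, a1, a2, fix_e0.1, fix_e1.1]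
        rw [h2] at h3
        have h4 : -lv = lv := h3
        exact ne_neg_self norm_lv h4.symm
    · exact h
  rw [eq_top_iff]
  intro g _
  have h1 : (commutator Co0).map (QuotientGroup.mk' (Subgroup.center Co0)) = commutator Gq := by
    rw [commutator_def, commutator_def, Subgroup.map_commutator, ← MonoidHom.range_eq_map,
      MonoidHom.range_eq_top.2 (QuotientGroup.mk'_surjective _)]
  have h2 : ((g : Co0) : Gq) ∈ (commutator Co0).map (QuotientGroup.mk' (Subgroup.center Co0)) := by
    rw [h1, hq]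
    trivial
  obtain ⟨k, hk, e⟩ := h2
  have h3 : k⁻¹ * g ∈ Subgroup.center Co0 := (QuotientGroup.eq).1 e
  have h4 := (commutator Co0).mul_mem hk (hcen h3)
  simpa using h4

/-- The multiplier of the first Conway group, from that of the second. -/
theorem multiplier_Co1 (hM : HasCyclicSchurMultiplier ↥Spor.Co2 1) : HasCyclicSchurMultiplier Spor.Co1 2 := by
  have hc : Nat.card (Subgroup.center Co0) = 2 := card_center
  haveI : Fact (Nat.Prime (Nat.card (Subgroup.center Co0))) := ⟨by rw [hc]; exact Nat.prime_two⟩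
  exact Cfsg.Agent.Lib.StMain.multiplier_of_quotient perf_Co0 (fun Γ _ _ σ hσ => ker_eq_bot hM Γ σ hσ)
    (isCyclic_of_prime_card rfl) hc

end Cfsg.Agent.Lib.Co0Rel
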