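import Mathlib
import Cfsg.Agent.Lib.Co0Order
import Cfsg.Agent.Lib.CoXi
import Cfsg.Agent.Lib.CoXi2
import Cfsg.Agent.Lib.DodecadFacts
import Cfsg.Agent.Lib.Co1MaxData

/-!
# Overgroups of the monomial subgroup of `Co0`: generalities and normal forms of vectors.
-/

set_option autoImplicit false
set_option linter.unusedSimpArgs false
set_option linter.unusedVariables false

open Cfsg Cfsg.Agent.Lib.Leech Cfsg.Agent.Lib.Co0Mono Cfsg.Agent.Lib.Co0Xi Cfsg.Agent.Lib.Co0Frame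
open Cfsg.Agent.Lib.Co0Stab2 Cfsg.Agent.Lib.LeechFourForm Cfsg.Agent.S0398 Cfsg.Agent.Lib.Co0Trans
open Cfsg.Agent.Lib.Co0Order Cfsg.Agent.Lib.CoVec Cfsg.Agent.Lib.Co1MaxData
open Cfsg.Agent.Lib.Golay (pt idx ofMask toMask reduce mem_ofMask isM24 decode decode_mem_M24 img ap)
open scoped Pointwise

namespace Cfsg.Agent.Lib.Co1MaxA

/-! ### Blocks -/

/-- The orbit of the standard vector under `K`. -/
def InS (K : Subgroup Co0) (x : leechLattice) : Prop :=
  ∃ k ∈ K, (k : Equiv.Perm leechLattice) (e8 none) = x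

variable {K : Subgroup Co0}

theorem inS_base : InS K (e8 none) := ⟨1, K.one_mem, rfl⟩

theorem mem_of_fix (hN : NN ≤ K) {g : Co0}
    (h : (g : Equiv.Perm leechLattice) (e8 none) = e8 none) : g ∈ K := by
  obtain ⟨c, σ, hc, hσ, rfl⟩ := exists_mono_of_cong (i := none) (u := 0) (g := g) (by rw [h]; simp)
  exact hN ⟨c, σ, hc, hσ, rfl⟩

theorem inv_apply_apply (k : Co0) (x : leechLattice) :
    ((k⁻¹ : Co0) : Equiv.Perm leechLattice) ((k : Equiv.Perm leechLattice) x) = x := by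
  show ((k⁻¹ * k : Co0) : Equiv.Perm leechLattice) x = x
  simp

theorem apply_inv_apply (k : Co0) (x : leechLattice) :
    (k : Equiv.Perm leechLattice) (((k⁻¹ : Co0) : Equiv.Perm leechLattice) x) = x := by
  show ((k * k⁻¹ : Co0) : Equiv.Perm leechLattice) x = x
  simp

theorem mem_of_InS (hN : NN ≤ K) {g : Co0}
    (h : InS K ((g : Equiv.Perm leechLattice) (e8 none))) : g ∈ K := by
  obtain ⟨k, hk, hx⟩ := h
  have h1 : k⁻¹ * g ∈ K := mem_of_fix hN (by
    show ((k⁻¹ : Co0) : Equiv.Perm leechLattice) ((g : Equiv.Perm leechLattice) (e8 none)) = _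
    rw [← hx, inv_apply_apply])
  have h2 := K.mul_mem hk h1
  simpa using h2

theorem InS.move {x : leechLattice} (hx : InS K x) {g : Co0} (hg : g ∈ K) :
    InS K ((g : Equiv.Perm leechLattice) x) := by
  obtain ⟨k, hk, rfl⟩ := hx
  exact ⟨g * k, K.mul_mem hg hk, rfl⟩

theorem InS.of_move {x : leechLattice} {g : Co0} (hg : g ∈ K)
    (hx : InS K ((g : Equiv.Perm leechLattice) x)) : InS K x := by
  have h := hx.move (K.inv_mem hg)
  rwa [inv_apply_apply] at h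

theorem xi_mem_of (hN : NN ≤ K) {y : leechLattice} (h1 : InS K y)
    (h2 : InS K (((xi : Co0) : Equiv.Perm leechLattice) y)) : (xi : Co0) ∈ K := by
  obtain ⟨k, hk, rfl⟩ := h1
  have h3 : (xi : Co0) * k ∈ K := mem_of_InS hN h2
  have h4 := K.mul_mem h3 (K.inv_mem hk)
  simpa using h4

theorem InS.mate (hN : NN ≤ K) {x y u : leechLattice} (hx : InS K x)
    (hy : sqNorm (y : GolayPt → ℤ) = 64) (h : y = x + (u + u)) : InS K y := by
  obtain ⟨k, hk, rfl⟩ := hx
  set z : leechLattice := ((k⁻¹ : Co0) : Equiv.Perm leechLattice) y with hz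
  have hzn : sqNorm (z : GolayPt → ℤ) = 64 := ((k⁻¹ : Co0).2.2 y).trans hy
  obtain ⟨g, hg⟩ := trans64 (e8 none) z (sqNorm_e8 _) hzn
  have hg' : (g : Equiv.Perm leechLattice) (e8 none) = z := hg
  set u' : leechLattice := ((k⁻¹ : Co0) : Equiv.Perm leechLattice) u with hu'
  have h1 : z = e8 none + (u' + u') := by
    rw [hz, h, (k⁻¹ : Co0).2.1, (k⁻¹ : Co0).2.1, inv_apply_apply]
  obtain ⟨c, σ, hc, hσ, hgm⟩ := exists_mono_of_cong (i := none) (u := u') (g := g) (by rw [hg', h1])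
  have hgK : g ∈ K := hN ⟨c, σ, hc, hσ, hgm⟩
  refine ⟨k * g, K.mul_mem hk hgK, ?_⟩
  show (k : Equiv.Perm leechLattice) ((g : Equiv.Perm leechLattice) (e8 none)) = y
  rw [hg', hz, apply_inv_apply]

/-! ### Choice of signs -/

/-- The code separates the points of `L`. -/
def SepL (L : Finset GolayPt) : Prop := ∀ u ∈ L, ∃ b ∈ codeSets, ∀ v ∈ L, (v ∈ b ↔ v = u)

theorem exists_code_of_sep {L : Finset GolayPt} (hL : SepL L) (P : GolayPt → Prop) :
    ∃ c ∈ codeSets, ∀ v ∈ L, (v ∈ c ↔ P v) := by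
  classical
  have key : ∀ A : Finset GolayPt, A ⊆ L → ∃ c ∈ codeSets, ∀ v ∈ L, (v ∈ c ↔ (v ∈ A ∧ P v)) := by
    intro A
    induction A using Finset.induction_on with
    | empty =>
      intro _
      exact ⟨∅, empty_mem_codeSets, fun v _ => by simp⟩
    | insert a A ha ih =>
      intro hA
      obtain ⟨c, hc, h1⟩ := ih (fun x hx => hA (Finset.mem_insert_of_mem hx))
      have haL := hA (Finset.mem_insert_self _ _)
      by_cases hP : P a
      · obtain ⟨b, hb, h2⟩ := hL a haL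
        refine ⟨symmDiff c b, symmDiff_mem_codeSets hc hb, fun v hv => ?_⟩
        have h3 := h1 v hv
        have h4 := h2 v hv
        rw [Finset.mem_symmDiff, h3, h4, Finset.mem_insert]
        by_cases hva : v = a
        · subst hva
          simp [ha, hP]
        · simp [hva]
      · refine ⟨c, hc, fun v hv => ?_⟩
        rw [h1 v hv, Finset.mem_insert]
        by_cases hva : v = a
        · subst hva
          simp [ha, hP]
        · simp [hva]
  obtain ⟨c, hc, h⟩ := key L (Finset.Subset.refl _)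
  exact ⟨c, hc, fun v hv => (h v hv).trans ⟨fun h => h.2, fun h => ⟨hv, h⟩⟩⟩

/-- Check of separation by masks. -/
def sepChk (ML : ℕ) (P : List ℕ) : Bool :=
  Cfsg.Agent.Lib.Golay.idxL.all fun i => !ML.testBit i ||
    (Nat.beq (reduce (P.getD i 0)) 0 && Nat.blt (P.getD i 0) (2 ^ 24) &&
      Nat.beq (Nat.land (P.getD i 0) ML) (2 ^ i))

theorem sep_of_chk {ML : ℕ} {P : List ℕ} (h : sepChk ML P = true) : SepL (ofMask ML) := by
  intro u hu
  have hu' := mem_ofMask.1 hu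
  have hi : idx u ∈ Cfsg.Agent.Lib.Golay.idxL := Cfsg.Agent.Lib.Golay.mem_idxL.2 (Cfsg.Agent.Lib.Golay.idx_lt u)
  have h1 := List.all_eq_true.1 h _ hi
  simp only [hu', Bool.not_true, Bool.false_or, Bool.and_eq_true] at h1
  obtain ⟨⟨h2, h3⟩, h4⟩ := h1
  have h5 : P.getD (idx u) 0 < 2 ^ 24 := by simpa [Nat.blt_eq] using h3
  refine ⟨ofMask (P.getD (idx u) 0), ofMask_mem_codeSets h5 (Nat.eq_of_beq_eq_true h2), fun v hv => ?_⟩
  have hv' := mem_ofMask.1 hv
  have h6 : Nat.land (P.getD (idx u) 0) ML = 2 ^ idx u := Nat.eq_of_beq_eq_true h4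
  have h7 : (P.getD (idx u) 0).testBit (idx v) = (2 ^ idx u : ℕ).testBit (idx v) := by
    have h8 : (Nat.land (P.getD (idx u) 0) ML).testBit (idx v) = (2 ^ idx u : ℕ).testBit (idx v) := by rw [h6]
    have h9 : Nat.land (P.getD (idx u) 0) ML = (P.getD (idx u) 0) &&& ML := rfl
    rw [h9, Nat.testBit_land, hv', Bool.and_true] at h8
    exact h8
  rw [mem_ofMask, h7, Nat.testBit_two_pow]
  simp only [decide_eq_true_eq]
  constructor
  · intro h
    exact Cfsg.Agent.Lib.Golay.idx_injective h.symm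
  · intro h
    rw [h]

/-! ### Coordinates: squares and signs -/

theorem eq_of_le_sum {f g : GolayPt → ℤ} (h : ∀ k, g k ≤ f k) (hs : ∑ k, f k = ∑ k, g k) (k : GolayPt) :
    f k = g k := by
  have h1 : ∑ k, (f k - g k) = 0 := by
    rw [Finset.sum_sub_distrib, hs, sub_self]
  have h2 := (Finset.sum_eq_zero_iff_of_nonneg (fun k _ => sub_nonneg.2 (h k))).1 h1 k (Finset.mem_univ _)
  linarith

theorem sq_of_le {x y : GolayPt → ℤ} {σ : Equiv.Perm GolayPt} (hx : sqNorm x = 64) (hy : sqNorm y = 64)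
    (h : ∀ k, y k ^ 2 ≤ x (σ k) ^ 2) (k : GolayPt) : x (σ k) ^ 2 = y k ^ 2 := by
  apply eq_of_le_sum (f := fun k => x (σ k) ^ 2) (g := fun k => y k ^ 2) h
  have h1 : ∑ k, x (σ k) ^ 2 = sqNorm x := Equiv.sum_comp σ (fun k => x k ^ 2)
  have h2 : ∑ k, y k ^ 2 = sqNorm y := rfl
  rw [h1, h2, hx, hy]

theorem sum_even {x : GolayPt → ℤ} (hx : x ∈ leechLattice) (he : ∀ i, x i % 2 = 0) :
    (∑ i, x i) % 8 = 0 := by
  rw [mem_leechLattice_iff_leechSet] at hx
  obtain ⟨m, hm1, hm2, -⟩ := hx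
  have h1 := hm1 none
  have h2 := he none
  simp only [Int.ModEq] at h1 hm2
  omega

/-- A monomial move which reads the signs on a separated set. -/
theorem exists_sign_move {x Y : leechLattice} {σ : Equiv.Perm GolayPt} (hσ : σ ∈ M24)
    (hsq : ∀ k, (x : GolayPt → ℤ) (σ k) ^ 2 = (Y : GolayPt → ℤ) k ^ 2) {L : Finset GolayPt} (hL : SepL L) :
    ∃ g ∈ NN, (∀ k, ((g : Equiv.Perm leechLattice) x : GolayPt → ℤ) k ^ 2 = (Y : GolayPt → ℤ) k ^ 2) ∧
      (∀ k ∈ L, ((g : Equiv.Perm leechLattice) x : GolayPt → ℤ) k = (Y : GolayPt → ℤ) k) ∧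
      ∀ k, ((g : Equiv.Perm leechLattice) x : GolayPt → ℤ) k % 2 = (x : GolayPt → ℤ) (σ k) % 2 := by
  obtain ⟨c, hc, h1⟩ := exists_code_of_sep hL (fun v => (x : GolayPt → ℤ) (σ v) ≠ (Y : GolayPt → ℤ) v)
  refine ⟨monoCo0 hc hσ, ⟨c, σ, hc, hσ, rfl⟩, fun k => ?_, fun k hk => ?_, fun k => ?_⟩
  · rw [monoCo0_apply, mono_apply]
    split_ifs
    · rw [neg_sq, hsq]
    · rw [hsq]
  · rw [monoCo0_apply, mono_apply]
    have h2 := h1 k hk
    split_ifs with h3
    · rcases sq_eq_sq_iff_eq_or_eq_neg.1 (hsq k) with h4 | h4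
      · exact absurd h4 (h2.1 h3)
      · rw [h4, neg_neg]
    · by_contra h4
      exact h3 (h2.2 h4)
  · rw [monoCo0_apply, mono_apply]
    split_ifs <;> omega

/-- A vector agreeing with another off one coordinate, the sum determines that coordinate. -/
theorem force_eq {w Y : leechLattice} (hw : ∀ i, (w : GolayPt → ℤ) i % 2 = 0) (hY : ∀ i, (Y : GolayPt → ℤ) i % 2 = 0)
    (hsq : ∀ k, (w : GolayPt → ℤ) k ^ 2 = (Y : GolayPt → ℤ) k ^ 2) {q : GolayPt}
    (hne : ∀ k, k ≠ q → (w : GolayPt → ℤ) k = (Y : GolayPt → ℤ) k)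
    (hq : (Y : GolayPt → ℤ) q = 0 ∨ (Y : GolayPt → ℤ) q % 4 = 2) : w = Y := by
  have h1 := sum_even w.2 hw
  have h2 := sum_even Y.2 hY
  have h3 : ∑ k, ((w : GolayPt → ℤ) k - (Y : GolayPt → ℤ) k) = (w : GolayPt → ℤ) q - (Y : GolayPt → ℤ) q := by
    apply Finset.sum_eq_single q
    · intro k _ hk
      rw [hne k hk, sub_self]
    · intro h
      exact absurd (Finset.mem_univ _) h
  rw [Finset.sum_sub_distrib] at h3
  have h4 : (w : GolayPt → ℤ) q = (Y : GolayPt → ℤ) q := by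
    rcases sq_eq_sq_iff_eq_or_eq_neg.1 (hsq q) with h5 | h5
    · exact h5
    · rcases hq with h6 | h6
      · rw [h5, h6, neg_zero]
      · exfalso
        omega
  apply Subtype.ext
  funext k
  by_cases hk : k = q
  · rw [hk, h4]
  · exact hne k hk

/-- The normal form of even vectors. -/
theorem nf_even {x Y : leechLattice} {σ : Equiv.Perm GolayPt} (hσ : σ ∈ M24)
    (hsq : ∀ k, (x : GolayPt → ℤ) (σ k) ^ 2 = (Y : GolayPt → ℤ) k ^ 2) {L : Finset GolayPt} (hL : SepL L)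
    (hxE : ∀ i, (x : GolayPt → ℤ) i % 2 = 0) (hYE : ∀ i, (Y : GolayPt → ℤ) i % 2 = 0)
    {q : GolayPt} (hLq : ∀ k, k ∉ L → k ≠ q → (Y : GolayPt → ℤ) k = 0)
    (hq : (Y : GolayPt → ℤ) q = 0 ∨ (Y : GolayPt → ℤ) q % 4 = 2) :
    ∃ g ∈ NN, (g : Equiv.Perm leechLattice) x = Y := by
  obtain ⟨g, hg, h1, h2, h3⟩ := exists_sign_move hσ hsq hL
  refine ⟨g, hg, force_eq (fun i => ?_) hYE h1 (fun k hk => ?_) hq⟩
  · rw [h3, hxE]
  · by_cases hkL : k ∈ L
    · exact h2 k hkL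
    · have h4 := hLq k hkL hk
      have h5 := h1 k
      rw [h4] at h5 ⊢
      simpa using h5

/-- The normal form of odd vectors. -/
theorem nf_odd {x Y : leechLattice} {σ : Equiv.Perm GolayPt} (hσ : σ ∈ M24)
    (hsq : ∀ k, (x : GolayPt → ℤ) (σ k) ^ 2 = (Y : GolayPt → ℤ) k ^ 2)
    (hxO : ∀ i, (x : GolayPt → ℤ) i % 2 = 1) (hYO : ∀ i, (Y : GolayPt → ℤ) i % 4 = 1) :
    ∃ g ∈ NN, (g : Equiv.Perm leechLattice) x = Y := by
  classical
  have hx := x.2
  rw [mem_leechLattice_iff_leechSet] at hx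
  obtain ⟨m, -, -, hm3⟩ := hx
  have hC : (Finset.univ.filter fun i => (x : GolayPt → ℤ) i ≡ 3 [ZMOD 4]) ∈ codeSets := hm3 3
  have hC' := image_mem_codeSets (inv_mem hσ) hC
  refine ⟨monoCo0 hC' hσ, ⟨_, σ, hC', hσ, rfl⟩, ?_⟩
  apply Subtype.ext
  funext k
  rw [monoCo0_apply, mono_apply]
  have hm : k ∈ (Finset.univ.filter fun i => (x : GolayPt → ℤ) i ≡ 3 [ZMOD 4]).image (σ⁻¹ : Equiv.Perm GolayPt) ↔
      (x : GolayPt → ℤ) (σ k) % 4 = 3 := by
    rw [Finset.mem_image]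
    constructor
    · rintro ⟨a, ha, rfl⟩
      have h1 := (Finset.mem_filter.1 ha).2
      have h2 : σ ((σ⁻¹ : Equiv.Perm GolayPt) a) = a := by simp
      rw [h2]
      simp only [Int.ModEq] at h1
      omega
    · intro h
      refine ⟨σ k, Finset.mem_filter.2 ⟨Finset.mem_univ _, ?_⟩, by simp⟩
      simp only [Int.ModEq]
      omega
  have h1 := hxO (σ k)
  have h2 := hYO k
  have h3 := hsq k
  by_cases h4 : k ∈ (Finset.univ.filter fun i => (x : GolayPt → ℤ) i ≡ 3 [ZMOD 4]).image (σ⁻¹ : Equiv.Perm GolayPt)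
  · rw [if_pos h4]
    have h5 := hm.1 h4
    rcases sq_eq_sq_iff_eq_or_eq_neg.1 h3 with h6 | h6
    · omega
    · rw [h6, neg_neg]
  · rw [if_neg h4]
    have h5 : (x : GolayPt → ℤ) (σ k) % 4 ≠ 3 := fun h => h4 (hm.2 h)
    rcases sq_eq_sq_iff_eq_or_eq_neg.1 h3 with h6 | h6
    · exact h6
    · omega

end Cfsg.Agent.Lib.Co1MaxA
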