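import Mathlib
import Cfsg.Agent.Lib.Co1MaxA

/-!
# Overgroups of the monomial subgroup of `Co0`: the classes of vectors of squared length 64 under
the monomial group.
-/

set_option autoImplicit false
set_option linter.unusedSimpArgs false
set_option linter.unusedVariables false

open Cfsg Cfsg.Agent.Lib.Leech Cfsg.Agent.Lib.Co0Mono Cfsg.Agent.Lib.Co0Xi Cfsg.Agent.Lib.Co0Frame
open Cfsg.Agent.Lib.Co0Stab2 Cfsg.Agent.Lib.LeechFourForm Cfsg.Agent.S0398 Cfsg.Agent.Lib.Co0Trans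
open Cfsg.Agent.Lib.Co0Order Cfsg.Agent.Lib.CoVec Cfsg.Agent.Lib.Co1MaxData Cfsg.Agent.Lib.Co1MaxA
open Cfsg.Agent.Lib.Golay (pt idx ofMask toMask reduce mem_ofMask isM24 decode decode_mem_M24 img ap
  octads_steiner smul_mem_octads smul_mem_dodecads mem_octads_iff_list testBit_toMask ofMask_toMask
  ofMask_mem_octads ofMask_mem_dodecads decode_pt decode_smul_ofMask isM24_valid idx_pt octL)
open Cfsg.Agent.Lib.M24Facts (exists_M24_emb exists_three)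
open Cfsg.Agent.Lib.DodecadFacts (exists_emb_extend exists_M24_dodecad_pattern dod1 d1Mask_mem)
open scoped Pointwise

namespace Cfsg.Agent.Lib.Co1MaxB

/-! ### `M24` on octads and dodecads -/

theorem exists_oct_emb {O O' : Finset GolayPt} (hO : O ∈ octads) (hO' : O' ∈ octads) (x y : Fin 5 ↪ GolayPt)
    (hx : ∀ i, x i ∈ O') (hy : ∀ i, y i ∈ O) : ∃ g ∈ M24, g • O' = O ∧ ∀ i, g (x i) = y i := by
  obtain ⟨g, hg, hxy⟩ := exists_M24_emb x y
  refine ⟨g, hg, ?_, hxy⟩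
  have hs : (Finset.univ.map y).card = 5 := by simp
  obtain ⟨b, -, huniq⟩ := octads_steiner.2 _ hs
  have h1 : g • O' = b := by
    apply huniq
    refine ⟨smul_mem_octads hg hO', ?_⟩
    intro p hp
    obtain ⟨i, -, rfl⟩ := Finset.mem_map.1 hp
    rw [← hxy i]
    exact Finset.smul_mem_smul_finset (hx i)
  have h2 : O = b := by
    apply huniq
    refine ⟨hO, ?_⟩
    intro p hp
    obtain ⟨i, -, rfl⟩ := Finset.mem_map.1 hp
    exact hy i
  rw [h1, h2]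

theorem exists_oct_pt {O O' : Finset GolayPt} (hO : O ∈ octads) (hO' : O' ∈ octads) {p p' : GolayPt}
    (hp : p ∈ O) (hp' : p' ∈ O') : ∃ g ∈ M24, g • O' = O ∧ g p' = p := by
  have hc : ∀ {d : Finset GolayPt}, d ∈ octads → 5 ≤ d.card := fun hd => by rw [hd.2]; norm_num
  let e : GolayPt → (Fin 1 ↪ GolayPt) := fun q => ⟨fun _ => q, fun i j _ => Subsingleton.elim i j⟩
  obtain ⟨x, hx, hx0⟩ := exists_emb_extend (k := 1) (by norm_num) (hc hO') (e p') (fun _ => hp')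
  obtain ⟨y, hy, hy0⟩ := exists_emb_extend (k := 1) (by norm_num) (hc hO) (e p) (fun _ => hp)
  obtain ⟨g, hg, h1, h2⟩ := exists_oct_emb hO hO' x y hx hy
  refine ⟨g, hg, h1, ?_⟩
  have h3 := h2 (Fin.castLE (show 1 ≤ 5 by norm_num) 0)
  rw [hx0, hy0] at h3
  exact h3

/-- Checks for the twelve elements. -/
def checkT12 : Bool :=
  (T12.all fun c => isM24 c && Nat.beq (ap c 23) 23 && Nat.beq (ap c 0) 0 && Nat.beq (ap c 1) 1 &&
    Nat.beq (ap c 2) 2 && Nat.beq (ap c 3) 3) &&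
  (octL.all fun m => (!(m.testBit 23 && !m.testBit 0 && !m.testBit 1 && m.testBit 2 && m.testBit 3)) ||
    T12.any fun c => Nat.beq (img c R0m) m)

theorem checkT12_ok : checkT12 = true := by decide +kernel

/-- Any octad with two points off it comes from the standard configuration. -/
theorem exists_oct_pair0 {O : Finset GolayPt} (hO : O ∈ octads) {a b : GolayPt} (ha : a ∉ O) (hb : b ∉ O)
    (hab : a ≠ b) : ∃ g ∈ M24, g • ofMask R0m = O ∧ g (pt 0) = a ∧ g (pt 1) = b := by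
  obtain ⟨o1, o2, o3, h1, h2, h3, h12, h13, h23⟩ := Finset.two_lt_card_iff.1 (show 2 < O.card by rw [hO.2]; norm_num)
  have ne : ∀ {u v : GolayPt}, u ∈ O → v ∉ O → u ≠ v := fun hu hv h => hv (h ▸ hu)
  obtain ⟨g0, hg0, e0, e1, e2, e3, e4⟩ := Cfsg.Agent.Lib.Golay.exists_M24_five o1 a b o2 o3 (ne h1 ha) (ne h1 hb)
    h12 h13 hab (Ne.symm (ne h2 ha)) (Ne.symm (ne h3 ha)) (Ne.symm (ne h2 hb)) (Ne.symm (ne h3 hb)) h23
  have hO' : g0⁻¹ • O ∈ octads := smul_mem_octads (M24.inv_mem hg0) hO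
  set d' := g0⁻¹ • O with hd'
  have hmem : ∀ q : GolayPt, q ∈ d' ↔ g0 q ∈ O := by
    intro q
    rw [hd', Finset.mem_inv_smul_finset_iff, Equiv.Perm.smul_def]
  have hm : toMask d' ∈ octL := (mem_octads_iff_list d').mp hO'
  have tb : ∀ q : GolayPt, (toMask d').testBit (idx q) = decide (g0 q ∈ O) := by
    intro q
    rw [testBit_toMask]
    simp only [hmem]
  have b23 := tb (pt 23)
  have b0 := tb (pt 0)
  have b1 := tb (pt 1)
  have b2 := tb (pt 2)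
  have b3 := tb (pt 3)
  rw [idx_pt (by norm_num)] at b23 b0 b1 b2 b3
  rw [e0, decide_eq_true h1] at b23
  rw [e1, decide_eq_false ha] at b0
  rw [e2, decide_eq_false hb] at b1
  rw [e3, decide_eq_true h2] at b2
  rw [e4, decide_eq_true h3] at b3
  have hT := checkT12_ok
  simp only [checkT12, Bool.and_eq_true, List.all_eq_true, Bool.or_eq_true, Bool.not_eq_true',
    Bool.and_eq_false_iff, List.any_eq_true] at hT
  obtain ⟨hT1, hT2⟩ := hT
  rcases hT2 _ hm with h | ⟨t, ht, himg⟩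
  · simp [b23, b0, b1, b2, b3] at h
  · obtain ⟨⟨⟨⟨⟨htM, ht23⟩, ht0⟩, ht1⟩, ht2⟩, ht3⟩ := hT1 t ht
    have hv := isM24_valid htM
    have himg' : img t R0m = toMask d' := Nat.eq_of_beq_eq_true himg
    have hsd : decode t • ofMask R0m = d' := by
      rw [decode_smul_ofMask hv, himg', ofMask_toMask]
    refine ⟨g0 * decode t, M24.mul_mem hg0 (decode_mem_M24 htM), ?_, ?_, ?_⟩
    · rw [mul_smul, hsd, hd', smul_inv_smul]
    · rw [Equiv.Perm.mul_apply, decode_pt hv (by norm_num), Nat.eq_of_beq_eq_true ht0, e1]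
    · rw [Equiv.Perm.mul_apply, decode_pt hv (by norm_num), Nat.eq_of_beq_eq_true ht1, e2]

theorem exists_oct_pair {O O' : Finset GolayPt} (hO : O ∈ octads) (hO' : O' ∈ octads) {a b a' b' : GolayPt}
    (ha : a ∉ O) (hb : b ∉ O) (hab : a ≠ b) (ha' : a' ∉ O') (hb' : b' ∉ O') (hab' : a' ≠ b') :
    ∃ g ∈ M24, g • O' = O ∧ g a' = a ∧ g b' = b := by
  obtain ⟨g, hg, h1, h2, h3⟩ := exists_oct_pair0 hO ha hb hab
  obtain ⟨g', hg', h1', h2', h3'⟩ := exists_oct_pair0 hO' ha' hb' hab'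
  refine ⟨g * g'⁻¹, M24.mul_mem hg (M24.inv_mem hg'), ?_, ?_, ?_⟩
  · rw [mul_smul, ← h1', inv_smul_smul, h1]
  · rw [Equiv.Perm.mul_apply, ← h2']
    simp [h2]
  · rw [Equiv.Perm.mul_apply, ← h3']
    simp [h3]

theorem exists_dod_pt0 {d : Finset GolayPt} (hd : d ∈ dodecads) {p : GolayPt} (hp : p ∉ d) :
    ∃ g ∈ M24, g • dod1 = d ∧ g (pt 0) = p := by
  have hc : d.card = 12 := hd.2
  obtain ⟨a, ha⟩ : d.Nonempty := Finset.card_pos.1 (by omega)
  have hc2 : 1 < (dᶜ.erase p).card := by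
    rw [Finset.card_erase_of_mem (Finset.mem_compl.2 hp), Finset.card_compl, hc, card_golayPt]
    norm_num
  obtain ⟨c, hc1, e, he1, hce⟩ := Finset.one_lt_card.1 hc2
  obtain ⟨hc3, hc4⟩ := Finset.mem_erase.1 hc1
  obtain ⟨he3, he4⟩ := Finset.mem_erase.1 he1
  have hc5 := Finset.mem_compl.1 hc4
  have he5 := Finset.mem_compl.1 he4
  have ne : ∀ {u v : GolayPt}, u ∈ d → v ∉ d → u ≠ v := fun hu hv h => hv (h ▸ hu)
  obtain ⟨g, hg, h1, h2, h3, h4, h5⟩ := exists_M24_dodecad_pattern hd a p c e (ne ha hp) (ne ha hc5) (ne ha he5)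
    (Ne.symm hc3) (Ne.symm he3) hce ha hp hc5 he5
  exact ⟨g, hg, h1, h3⟩

theorem exists_dod_pt {d d' : Finset GolayPt} (hd : d ∈ dodecads) (hd' : d' ∈ dodecads) {p p' : GolayPt}
    (hp : p ∉ d) (hp' : p' ∉ d') : ∃ g ∈ M24, g • d' = d ∧ g p' = p := by
  obtain ⟨g, hg, h1, h2⟩ := exists_dod_pt0 hd hp
  obtain ⟨g', hg', h1', h2'⟩ := exists_dod_pt0 hd' hp'
  refine ⟨g * g'⁻¹, M24.mul_mem hg (M24.inv_mem hg'), ?_, ?_⟩
  · rw [mul_smul, ← h1', inv_smul_smul, h1]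
  · rw [Equiv.Perm.mul_apply, ← h2']
    simp [h2]

/-! ### Coordinates congruent to two modulo four -/

section Two

variable {x : leechLattice}

/-- The coordinates congruent to two modulo four. -/
def Two (x : leechLattice) : Finset GolayPt := Finset.univ.filter fun i => (x : GolayPt → ℤ) i ≡ 2 [ZMOD 4]

theorem two_mem_code (x : leechLattice) : Two x ∈ codeSets := by
  have hx := x.2
  rw [mem_leechLattice_iff_leechSet] at hx
  obtain ⟨m, -, -, hm3⟩ := hx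
  exact hm3 2

theorem two_key (t : ℤ) (ht : t % 2 = 0) (h3 : t ≤ 8) (h4 : -8 ≤ t) : t % 4 = 2 ↔ t ^ 2 = 4 ∨ t ^ 2 = 36 := by
  interval_cases t <;> first | decide | (exfalso; revert ht; decide)

theorem mem_two_iff (hn : sqNorm (x : GolayPt → ℤ) = 64) (he : ∀ i, (x : GolayPt → ℤ) i % 2 = 0) (i : GolayPt) :
    i ∈ Two x ↔ (x : GolayPt → ℤ) i ^ 2 = 4 ∨ (x : GolayPt → ℤ) i ^ 2 = 36 := by
  have h1 := sq_le_norm (x : GolayPt → ℤ) i
  rw [hn] at h1
  have h2 := he i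
  have h3 : (x : GolayPt → ℤ) i ≤ 8 := by nlinarith
  have h4 : -8 ≤ (x : GolayPt → ℤ) i := by nlinarith
  rw [← two_key _ h2 h3 h4]
  simp only [Two, Finset.mem_filter, Finset.mem_univ, true_and, Int.ModEq]
  norm_num

theorem card_two (hn : sqNorm (x : GolayPt → ℤ) = 64) (he : ∀ i, (x : GolayPt → ℤ) i % 2 = 0) :
    (Two x).card = cnt (x : GolayPt → ℤ) 4 + cnt (x : GolayPt → ℤ) 36 := by
  have h1 : Two x = (Finset.univ.filter fun i => (x : GolayPt → ℤ) i ^ 2 = 4) ∪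
      (Finset.univ.filter fun i => (x : GolayPt → ℤ) i ^ 2 = 36) := by
    ext i
    rw [mem_two_iff hn he, Finset.mem_union, Finset.mem_filter, Finset.mem_filter]
    simp
  rw [h1, Finset.card_union_of_disjoint]
  · rfl
  · rw [Finset.disjoint_filter]
    intro i _ h2 h3
    rw [h2] at h3
    norm_num at h3

theorem uniq_of_cnt1 {v : ℤ} (h : cnt (x : GolayPt → ℤ) v = 1) {p q : GolayPt}
    (hp : (x : GolayPt → ℤ) p ^ 2 = v) (hq : (x : GolayPt → ℤ) q ^ 2 = v) : p = q := by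
  have h1 : (Finset.univ.filter fun i => (x : GolayPt → ℤ) i ^ 2 = v).card ≤ 1 := le_of_eq h
  exact Finset.card_le_one.1 h1 _ (Finset.mem_filter.2 ⟨Finset.mem_univ _, hp⟩) _
    (Finset.mem_filter.2 ⟨Finset.mem_univ _, hq⟩)

theorem not_of_cnt0 {v : ℤ} (h : cnt (x : GolayPt → ℤ) v = 0) (p : GolayPt) : (x : GolayPt → ℤ) p ^ 2 ≠ v := by
  intro hp
  have := cnt_ge1 (x := (x : GolayPt → ℤ)) hp
  omega

end Two

/-! ### Explicit vectors -/

/-- An explicit vector. -/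
def vc (n : ℕ) (h : memL n = true) : leechLattice := ⟨dec n, mem_of_memL h⟩

theorem vc_norm {n : ℕ} {h : memL n = true} (hn : sqN n = 64) : sqNorm ((vc n h : leechLattice) : GolayPt → ℤ) = 64 := by
  show sqNorm (dec n) = 64
  rw [sqNorm_dec, hn]
  rfl

/-- The last step for even vectors. -/
theorem nf_even_c {x : leechLattice} {n : ℕ} {hm : memL n = true} {σ : Equiv.Perm GolayPt} (hσ : σ ∈ M24)
    (hn : sqNorm (x : GolayPt → ℤ) = 64) (hnY : sqN n = 64) (hle : ∀ k, dec n k ^ 2 ≤ (x : GolayPt → ℤ) (σ k) ^ 2)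
    (hxE : ∀ i, (x : GolayPt → ℤ) i % 2 = 0) (hYE : ∀ i, dec n i % 2 = 0) {ML : ℕ} {P : List ℕ}
    (hP : sepChk ML P = true) {q : GolayPt} (hLq : ∀ k, ML.testBit (idx k) = true ∨ k = q ∨ dec n k = 0)
    (hq : dec n q = 0 ∨ dec n q % 4 = 2) : ∃ g ∈ NN, (g : Equiv.Perm leechLattice) x = vc n hm := by
  have hsq : ∀ k, (x : GolayPt → ℤ) (σ k) ^ 2 = ((vc n hm : leechLattice) : GolayPt → ℤ) k ^ 2 :=
    sq_of_le hn (vc_norm hnY) hle
  refine nf_even hσ hsq (sep_of_chk hP) hxE hYE (q := q) (fun k hk1 hk2 => ?_) hq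
  rcases hLq k with h | h | h
  · exact absurd (mem_ofMask.2 h) hk1
  · exact absurd h hk2
  · exact h

/-- Coordinates of a vector of even coordinates. -/
theorem even_of_pt {x : leechLattice} {p : GolayPt} {v : ℤ} (h : (x : GolayPt → ℤ) p ^ 2 = v) (hv : v % 2 = 0) (i : GolayPt) :
    (x : GolayPt → ℤ) i % 2 = 0 :=
  even_of_sq x.2 (p := p) (by rw [h, hv]) i

theorem odd_of_pt {x : leechLattice} {p : GolayPt} {v : ℤ} (h : (x : GolayPt → ℤ) p ^ 2 = v) (hv : v % 2 = 1) (i : GolayPt) :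
    (x : GolayPt → ℤ) i % 2 = 1 :=
  odd_of_sq x.2 (p := p) (by rw [h, hv]) i

theorem mem_of_smul {g : Equiv.Perm GolayPt} {S T : Finset GolayPt} (h : g • S = T) {k : GolayPt} (hk : k ∈ S) :
    g k ∈ T := by
  rw [← h]
  exact Finset.smul_mem_smul_finset hk

theorem not_mem_of_smul {g : Equiv.Perm GolayPt} {S T : Finset GolayPt} (h : g • S = T) {k : GolayPt} (hk : k ∉ S) :
    g k ∉ T := by
  rw [← h]
  intro h2
  obtain ⟨a, ha, h3⟩ := Finset.mem_smul_finset.1 h2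
  have h4 : a = k := g.injective h3
  exact hk (h4 ▸ ha)

/-! #### Shape `4^4` -/

theorem Y1_ok : memL Y1 = true ∧ sqN Y1 = 64 ∧ (∀ i, dec Y1 i % 2 = 0) ∧ sepChk L1m P1 = true ∧
    (∀ k, L1m.testBit (idx k) = true ∨ k = pt 2 ∨ dec Y1 k = 0) ∧ dec Y1 (pt 2) = 0 ∧
    (∀ k, dec Y1 k = 0 ∨ ((k = pt 0 ∨ k = pt 1 ∨ k = pt 13 ∨ k = pt 18) ∧ dec Y1 k ^ 2 = 16)) := by
  decide +kernel

/-- The standard vector of shape `4^4`. -/
def V1 : leechLattice := vc Y1 Y1_ok.1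

theorem nf1 {x : leechLattice} (hn : sqNorm (x : GolayPt → ℤ) = 64) (h16 : cnt (x : GolayPt → ℤ) 16 = 4) :
    ∃ g ∈ NN, (g : Equiv.Perm leechLattice) x = V1 := by
  obtain ⟨a, b, c, d, ha, hb, hc, hd, h1, h2, h3, h4, h5, h6⟩ := pts4 (x := (x : GolayPt → ℤ)) (v := 16) (by omega)
  obtain ⟨σ, s0, s1, s2, s3⟩ := exists_four (a := pt 0) (b := pt 1) (c := pt 13) (d := pt 18)
    (by decide +kernel) (by decide +kernel) (by decide +kernel) (by decide +kernel) (by decide +kernel)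
    (by decide +kernel) h1 h2 h3 h4 h5 h6
  obtain ⟨_, hnY, hYE, hP, hLq, hq, hT⟩ := Y1_ok
  refine nf_even_c σ.2 hn hnY (fun k => ?_) (even_of_pt ha (by norm_num)) hYE hP hLq (Or.inl hq)
  rcases hT k with h | ⟨h, h7⟩
  · rw [h]
    norm_num
    positivity
  · rw [h7]
    rcases h with rfl | rfl | rfl | rfl
    · rw [s0, ha]
    · rw [s1, hb]
    · rw [s2, hc]
    · rw [s3, hd]

/-! #### Shape `6 2^7` -/

theorem Y2_ok : memL Y2 = true ∧ sqN Y2 = 64 ∧ (∀ i, dec Y2 i % 2 = 0) ∧ sepChk L2m P2 = true ∧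
    (∀ k, L2m.testBit (idx k) = true ∨ k = pt 21 ∨ dec Y2 k = 0) ∧ dec Y2 (pt 21) % 4 = 2 ∧
    (∀ k, dec Y2 k = 0 ∨ (k = pt 0 ∧ dec Y2 k ^ 2 = 36) ∨ (k ≠ pt 0 ∧ O2m.testBit (idx k) = true ∧ dec Y2 k ^ 2 = 4)) ∧
    O2m ∈ octL ∧ O2m.testBit (idx (pt 0)) = true := by
  decide +kernel

/-- The standard vector of shape `6 2^7`. -/
def V2 : leechLattice := vc Y2 Y2_ok.1

theorem nf2 {x : leechLattice} (hn : sqNorm (x : GolayPt → ℤ) = 64) (h36 : cnt (x : GolayPt → ℤ) 36 = 1)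
    (h4 : cnt (x : GolayPt → ℤ) 4 = 7) : ∃ g ∈ NN, (g : Equiv.Perm leechLattice) x = V2 := by
  obtain ⟨p, hp⟩ := pts1 (x := (x : GolayPt → ℤ)) (v := 36) (by omega)
  have he := even_of_pt hp (by norm_num)
  have hO : Two x ∈ octads := ⟨two_mem_code x, by rw [card_two hn he]; omega⟩
  obtain ⟨_, hnY, hYE, hP, hLq, hq, hT, hO2, hp0⟩ := Y2_ok
  obtain ⟨σ, hσ, s0, s1⟩ := exists_oct_pt hO (ofMask_mem_octads hO2) (p := p) (p' := pt 0)
    ((mem_two_iff hn he p).2 (Or.inr hp)) (mem_ofMask.2 hp0)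
  refine nf_even_c hσ hn hnY (fun k => ?_) he hYE hP hLq (Or.inr hq)
  rcases hT k with h | ⟨rfl, h⟩ | ⟨h1, h2, h3⟩
  · rw [h]
    norm_num
    positivity
  · rw [h, s1, hp]
  · rw [h3]
    rcases (mem_two_iff hn he _).1 (mem_of_smul s0 (mem_ofMask.2 h2)) with h5 | h5
    · exact h5.ge
    · exfalso
      have h6 := uniq_of_cnt1 h36 h5 hp
      exact h1 (σ.injective (h6.trans s1.symm))

/-! #### Shape `4^2 2^8` -/

theorem Y3_ok : memL Y3 = true ∧ sqN Y3 = 64 ∧ (∀ i, dec Y3 i % 2 = 0) ∧ sepChk L3m P3 = true ∧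
    (∀ k, L3m.testBit (idx k) = true ∨ k = pt 23 ∨ dec Y3 k = 0) ∧ dec Y3 (pt 23) % 4 = 2 ∧
    (∀ k, dec Y3 k = 0 ∨ ((k = pt 0 ∨ k = pt 1) ∧ dec Y3 k ^ 2 = 16) ∨ (O3m.testBit (idx k) = true ∧ dec Y3 k ^ 2 = 4)) ∧
    O3m ∈ octL ∧ O3m.testBit (idx (pt 0)) = false ∧ O3m.testBit (idx (pt 1)) = false ∧ pt 0 ≠ pt 1 := by
  decide +kernel

/-- The standard vector of shape `4^2 2^8`. -/
def V3 : leechLattice := vc Y3 Y3_ok.1

theorem nf3 {x : leechLattice} (hn : sqNorm (x : GolayPt → ℤ) = 64) (h16 : cnt (x : GolayPt → ℤ) 16 = 2)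
    (h4 : cnt (x : GolayPt → ℤ) 4 = 8) (h36 : cnt (x : GolayPt → ℤ) 36 = 0) :
    ∃ g ∈ NN, (g : Equiv.Perm leechLattice) x = V3 := by
  obtain ⟨a, b, ha, hb, hab⟩ := pts2 (x := (x : GolayPt → ℤ)) (v := 16) (by omega)
  have he := even_of_pt ha (by norm_num)
  have hO : Two x ∈ octads := ⟨two_mem_code x, by rw [card_two hn he]; omega⟩
  obtain ⟨_, hnY, hYE, hP, hLq, hq, hT, hO3, h0, h1, h01⟩ := Y3_ok
  have hout : ∀ {c : GolayPt}, (x : GolayPt → ℤ) c ^ 2 = 16 → c ∉ Two x := by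
    intro c hc h
    rcases (mem_two_iff hn he c).1 h with h2 | h2 <;> rw [hc] at h2 <;> norm_num at h2
  have hm0 : ∀ {c : GolayPt}, O3m.testBit (idx c) = false → c ∉ ofMask O3m := by
    intro c hc h
    rw [mem_ofMask, hc] at h
    exact absurd h (by simp)
  obtain ⟨σ, hσ, s0, s1, s2⟩ := exists_oct_pair hO (ofMask_mem_octads hO3) (a := a) (b := b) (a' := pt 0) (b' := pt 1)
    (hout ha) (hout hb) hab (hm0 h0) (hm0 h1) h01
  refine nf_even_c hσ hn hnY (fun k => ?_) he hYE hP hLq (Or.inr hq)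
  rcases hT k with h | ⟨h, h7⟩ | ⟨h2, h3⟩
  · rw [h]
    norm_num
    positivity
  · rw [h7]
    rcases h with rfl | rfl
    · rw [s1, ha]
    · rw [s2, hb]
  · rw [h3]
    rcases (mem_two_iff hn he _).1 (mem_of_smul s0 (mem_ofMask.2 h2)) with h5 | h5
    · exact h5.ge
    · exact absurd h5 (not_of_cnt0 h36 _)

/-! #### Shape `4 2^12` -/

theorem Y4_ok : memL Y4 = true ∧ sqN Y4 = 64 ∧ (∀ i, dec Y4 i % 2 = 0) ∧ sepChk L4m P4 = true ∧
    (∀ k, L4m.testBit (idx k) = true ∨ k = pt 20 ∨ dec Y4 k = 0) ∧ dec Y4 (pt 20) % 4 = 2 ∧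
    (∀ k, dec Y4 k = 0 ∨ (k = pt 0 ∧ dec Y4 k ^ 2 = 16) ∨ (D4m.testBit (idx k) = true ∧ dec Y4 k ^ 2 = 4)) ∧
    D4m ∈ Cfsg.Agent.Lib.Golay.dodL ∧ D4m.testBit (idx (pt 0)) = false := by
  decide +kernel

/-- The standard vector of shape `4 2^12`. -/
def V4 : leechLattice := vc Y4 Y4_ok.1

theorem nf4 {x : leechLattice} (hn : sqNorm (x : GolayPt → ℤ) = 64) (h16 : cnt (x : GolayPt → ℤ) 16 = 1)
    (h4 : cnt (x : GolayPt → ℤ) 4 = 12) (h36 : cnt (x : GolayPt → ℤ) 36 = 0) :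
    ∃ g ∈ NN, (g : Equiv.Perm leechLattice) x = V4 := by
  obtain ⟨a, ha⟩ := pts1 (x := (x : GolayPt → ℤ)) (v := 16) (by omega)
  have he := even_of_pt ha (by norm_num)
  have hO : Two x ∈ dodecads := ⟨two_mem_code x, by rw [card_two hn he]; omega⟩
  obtain ⟨_, hnY, hYE, hP, hLq, hq, hT, hD4, h0⟩ := Y4_ok
  have hout : a ∉ Two x := by
    intro h
    rcases (mem_two_iff hn he a).1 h with h2 | h2 <;> rw [ha] at h2 <;> norm_num at h2
  have hm0 : pt 0 ∉ ofMask D4m := by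
    intro h
    rw [mem_ofMask, h0] at h
    exact absurd h (by simp)
  obtain ⟨σ, hσ, s0, s1⟩ := exists_dod_pt hO (ofMask_mem_dodecads hD4) hout hm0
  refine nf_even_c hσ hn hnY (fun k => ?_) he hYE hP hLq (Or.inr hq)
  rcases hT k with h | ⟨rfl, h7⟩ | ⟨h2, h3⟩
  · rw [h]
    norm_num
    positivity
  · rw [h7, s1, ha]
  · rw [h3]
    rcases (mem_two_iff hn he _).1 (mem_of_smul s0 (mem_ofMask.2 h2)) with h5 | h5
    · exact h5.ge
    · exact absurd h5 (not_of_cnt0 h36 _)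

/-! #### Shape `3^5 1^19` -/

/-- Five standard points. -/
def xt5 : Fin 5 → GolayPt := ![pt 0, pt 13, pt 5, pt 8, pt 6]

theorem xt5_inj : Function.Injective xt5 := by decide +kernel

theorem Y5_ok : memL Y5 = true ∧ sqN Y5 = 64 ∧ (∀ i, dec Y5 i % 4 = 1) ∧
    (∀ k, dec Y5 k ^ 2 = 1 ∨ ∃ i, k = xt5 i ∧ dec Y5 k ^ 2 = 9) := by
  decide +kernel

/-- The standard vector of shape `3^5 1^19`. -/
def V5 : leechLattice := vc Y5 Y5_ok.1

theorem one_le_sq_of_odd {a : ℤ} (h : a % 2 = 1) : 1 ≤ a ^ 2 := by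
  have h1 : a ≠ 0 := by
    rintro rfl
    norm_num at h
  have := sq_pos_of_ne_zero h1
  omega

theorem nf5 {x : leechLattice} (hn : sqNorm (x : GolayPt → ℤ) = 64) (h9 : cnt (x : GolayPt → ℤ) 9 = 5) :
    ∃ g ∈ NN, (g : Equiv.Perm leechLattice) x = V5 := by
  classical
  have hc : (Finset.univ.filter fun i => (x : GolayPt → ℤ) i ^ 2 = 9).card = 5 := h9
  let e := (Finset.equivFinOfCardEq hc).symm
  let y : Fin 5 ↪ GolayPt := ⟨fun i => ((e i : {p // p ∈ Finset.univ.filter fun i => (x : GolayPt → ℤ) i ^ 2 = 9}) : GolayPt),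
    fun i j h => e.injective (Subtype.ext h)⟩
  have hy : ∀ i, (x : GolayPt → ℤ) (y i) ^ 2 = 9 := fun i => (Finset.mem_filter.1 (e i).2).2
  obtain ⟨σ, hσ, hxy⟩ := exists_M24_emb ⟨xt5, xt5_inj⟩ y
  obtain ⟨_, hnY, hYO, hT⟩ := Y5_ok
  have hodd := odd_of_pt (hy 0) (by norm_num)
  have hle : ∀ k, dec Y5 k ^ 2 ≤ (x : GolayPt → ℤ) (σ k) ^ 2 := by
    intro k
    rcases hT k with h | ⟨i, rfl, h⟩
    · rw [h]
      exact one_le_sq_of_odd (hodd _)
    · have h1 : σ (xt5 i) = y i := hxy i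
      rw [h, h1, hy]
  exact nf_odd hσ (sq_of_le hn (vc_norm hnY) hle) hodd hYO

/-! #### Shape `5 3^2 1^21` -/

theorem Y6_ok : memL Y6 = true ∧ sqN Y6 = 64 ∧ (∀ i, dec Y6 i % 4 = 1) ∧
    (∀ k, dec Y6 k ^ 2 = 1 ∨ (k = pt 0 ∧ dec Y6 k ^ 2 = 25) ∨ ((k = pt 1 ∨ k = pt 2) ∧ dec Y6 k ^ 2 = 9)) := by
  decide +kernel

/-- The standard vector of shape `5 3^2 1^21`. -/
def V6 : leechLattice := vc Y6 Y6_ok.1

theorem nf6 {x : leechLattice} (hn : sqNorm (x : GolayPt → ℤ) = 64) (h25 : cnt (x : GolayPt → ℤ) 25 = 1)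
    (h9 : cnt (x : GolayPt → ℤ) 9 = 2) : ∃ g ∈ NN, (g : Equiv.Perm leechLattice) x = V6 := by
  obtain ⟨p, hp⟩ := pts1 (x := (x : GolayPt → ℤ)) (v := 25) (by omega)
  obtain ⟨a, b, ha, hb, hab⟩ := pts2 (x := (x : GolayPt → ℤ)) (v := 9) (by omega)
  obtain ⟨σ, s0, s1, s2⟩ := exists_three (a := pt 0) (b := pt 1) (c := pt 2) (a' := p) (b' := a) (c' := b)
    (by decide +kernel) (by decide +kernel) (by decide +kernel) (ne_of_sq hp ha (by norm_num))
    (ne_of_sq hp hb (by norm_num)) hab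
  have s0' : (σ : Equiv.Perm GolayPt) (pt 0) = p := s0
  have s1' : (σ : Equiv.Perm GolayPt) (pt 1) = a := s1
  have s2' : (σ : Equiv.Perm GolayPt) (pt 2) = b := s2
  obtain ⟨_, hnY, hYO, hT⟩ := Y6_ok
  have hodd := odd_of_pt hp (by norm_num)
  have hle : ∀ k, dec Y6 k ^ 2 ≤ (x : GolayPt → ℤ) ((σ : Equiv.Perm GolayPt) k) ^ 2 := by
    intro k
    rcases hT k with h | ⟨rfl, h⟩ | ⟨h1, h⟩
    · rw [h]
      exact one_le_sq_of_odd (hodd _)
    · rw [h, s0', hp]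
    · rw [h]
      rcases h1 with rfl | rfl
      · rw [s1', ha]
      · rw [s2', hb]
  exact nf_odd σ.2 (sq_of_le hn (vc_norm hnY) hle) hodd hYO

/-! #### Shape `8` -/

theorem Y8_ok : memL E8 = true ∧ sqN E8 = 64 ∧ (∀ i, dec E8 i % 2 = 0) ∧ sepChk (2 ^ 23) (List.replicate 23 0 ++ [R0m]) = true ∧
    (∀ k, (2 ^ 23 : ℕ).testBit (idx k) = true ∨ k = pt 0 ∨ dec E8 k = 0) ∧ dec E8 (pt 0) = 0 ∧
    (∀ k, dec E8 k = 0 ∨ (k = pt 23 ∧ dec E8 k ^ 2 = 64)) := by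
  decide +kernel

theorem vE8 : vc E8 Y8_ok.1 = e8 none := by
  apply Subtype.ext
  funext k
  show dec E8 k = _
  rw [e8_apply]
  revert k
  decide +kernel

/-- A vector with a coordinate of square 64 is in the class of the standard one. -/
theorem nf8 {x : leechLattice} (hn : sqNorm (x : GolayPt → ℤ) = 64) {p : GolayPt} (hp : (x : GolayPt → ℤ) p ^ 2 = 64) :
    ∃ g ∈ NN, (g : Equiv.Perm leechLattice) x = e8 none := by
  obtain ⟨_, hnY, hYE, hP, hLq, hq, hT⟩ := Y8_ok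
  obtain ⟨σ, s0, -⟩ := Cfsg.Agent.Lib.M24Facts.exists_two (a := pt 23) (b := pt 0) (c := p)
    (d := if p = pt 0 then pt 1 else pt 0) (by decide +kernel) (by
      split_ifs with h
      · rw [h]
        decide +kernel
      · exact h)
  have s0' : (σ : Equiv.Perm GolayPt) (pt 23) = p := s0
  rw [← vE8]
  refine nf_even_c σ.2 hn hnY (fun k => ?_) (even_of_pt hp (by norm_num)) hYE hP hLq (Or.inl hq)
  rcases hT k with h | ⟨rfl, h⟩
  · rw [h]
    norm_num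
    positivity
  · rw [h, s0', hp]

end Cfsg.Agent.Lib.Co1MaxB
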