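import Mathlib
import Cfsg.Agent.Lib.Co1MaxB

/-!
# The monomial subgroup of `Co0` is maximal.
-/

set_option autoImplicit false
set_option linter.unusedSimpArgs false
set_option linter.unusedVariables false

open Cfsg Cfsg.Agent.Lib.Leech Cfsg.Agent.Lib.Co0Mono Cfsg.Agent.Lib.Co0Xi Cfsg.Agent.Lib.Co0Frame
open Cfsg.Agent.Lib.Co0Stab2 Cfsg.Agent.Lib.LeechFourForm Cfsg.Agent.S0398 Cfsg.Agent.Lib.Co0Trans
open Cfsg.Agent.Lib.Co0Order Cfsg.Agent.Lib.CoVec Cfsg.Agent.Lib.Co1MaxData Cfsg.Agent.Lib.Co1MaxA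
open Cfsg.Agent.Lib.Co1MaxB
open Cfsg.Agent.Lib.Golay (pt idx ofMask toMask reduce mem_ofMask isM24 decode decode_mem_M24 img ap
  octads_steiner smul_mem_octads smul_mem_dodecads mem_octads_iff_list testBit_toMask ofMask_toMask
  ofMask_mem_octads ofMask_mem_dodecads decode_pt decode_smul_ofMask isM24_valid idx_pt octL)
open scoped Pointwise

namespace Cfsg.Agent.Lib.Co1MaxC

/-! ### Shape `2^16` -/

theorem Y7_ok : memL Y7 = true ∧ sqN Y7 = 64 ∧ (∀ i, dec Y7 i % 2 = 0) ∧ sepChk L7m P7 = true ∧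
    (∀ k, dec Y7 k = 0 ∨ (O2m.testBit (idx k) = false ∧ dec Y7 k ^ 2 = 4)) ∧ O2m ∈ octL ∧
    dec Y7 (pt 17) ^ 2 = 4 ∧ dec Y7 (pt 23) ^ 2 = 4 ∧ dec Y7 (pt 16) ^ 2 = 4 ∧ dec Y7 (pt 19) ^ 2 = 4 := by
  decide +kernel

/-- The sixteen classes. -/
def rj (j : Fin 16) : ℕ := R16.getD j.1 0
/-- Their neighbours. -/
def mj (j : Fin 16) : ℕ := M16.getD j.1 0
/-- Half the differences. -/
def lj (j : Fin 16) : ℕ := L16.getD j.1 0

theorem R_ok : ∀ j : Fin 16, memL (rj j) = true ∧ memL (mj j) = true ∧ memL (lj j) = true ∧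
    sqN (rj j) = 64 ∧ sqN (mj j) = 64 ∧ (∀ k, dec (rj j) k = dec (mj j) k + 2 * dec (lj j) k) ∧
    (∀ i, dec (rj j) i % 2 = 0) ∧
    ((cnt (dec (mj j)) 36 = 1 ∧ cnt (dec (mj j)) 4 = 7) ∨
      (cnt (dec (mj j)) 16 = 2 ∧ cnt (dec (mj j)) 4 = 8 ∧ cnt (dec (mj j)) 36 = 0)) ∧
    (∀ k, k = pt 17 ∨ k = pt 23 ∨ k = pt 16 ∨ k = pt 19 ∨ k = pt 22 ∨
      (L7m.testBit (idx k) = true ∧ dec (rj j) k = dec Y7 k) ∨ (dec (rj j) k = 0 ∧ dec Y7 k = 0)) ∧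
    dec (rj j) (pt 22) % 4 = 2 ∧ (∀ k, dec (rj j) k ^ 2 = dec Y7 k ^ 2) := by
  decide +kernel

theorem sign_key (a b c d : ℤ) (ha : a = 2 ∨ a = -2) (hb : b = 2 ∨ b = -2) (hc : c = 2 ∨ c = -2) (hd : d = 2 ∨ d = -2) :
    ∃ j : Fin 16, dec (rj j) (pt 17) = a ∧ dec (rj j) (pt 23) = b ∧ dec (rj j) (pt 16) = c ∧ dec (rj j) (pt 19) = d := by
  rcases ha with rfl | rfl <;> rcases hb with rfl | rfl <;> rcases hc with rfl | rfl <;> rcases hd with rfl | rfl <;>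
    decide +kernel

/-- The vector `R j`. -/
def VR (j : Fin 16) : leechLattice := vc (rj j) (R_ok j).1
/-- The vector `M j`. -/
def VM (j : Fin 16) : leechLattice := vc (mj j) (R_ok j).2.1
/-- The vector `L j`. -/
def VL (j : Fin 16) : leechLattice := vc (lj j) (R_ok j).2.2.1

theorem sq4 {a b : ℤ} (h : a ^ 2 = b) (hb : b = 4) : a = 2 ∨ a = -2 := by
  have : a ^ 2 = 2 ^ 2 := by rw [h, hb]; norm_num
  exact sq_eq_sq_iff_eq_or_eq_neg.1 this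

theorem nf7 {x : leechLattice} (hn : sqNorm (x : GolayPt → ℤ) = 64) (h4 : cnt (x : GolayPt → ℤ) 4 = 16)
    (h36 : cnt (x : GolayPt → ℤ) 36 = 0) : ∃ j : Fin 16, ∃ g ∈ NN, (g : Equiv.Perm leechLattice) x = VR j := by
  obtain ⟨p, hp⟩ := pts1 (x := (x : GolayPt → ℤ)) (v := 4) (by omega)
  have he := even_of_pt hp (by norm_num)
  have hO : (Two x)ᶜ ∈ octads := ⟨compl_mem_codeSets (two_mem_code x), by
    rw [Finset.card_compl, card_two hn he, card_golayPt]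
    omega⟩
  obtain ⟨hmY, hnY, hYE, hP, hT, hO2, q1, q2, q3, q4⟩ := Y7_ok
  obtain ⟨σ, hσ, s0⟩ := Cfsg.Agent.Lib.M24Facts.exists_smul_octad (ofMask_mem_octads hO2) hO
  have hle : ∀ k, ((vc Y7 hmY : leechLattice) : GolayPt → ℤ) k ^ 2 ≤ (x : GolayPt → ℤ) (σ k) ^ 2 := by
    intro k
    show dec Y7 k ^ 2 ≤ _
    rcases hT k with h | ⟨h2, h3⟩
    · rw [h]
      norm_num
      positivity
    · rw [h3]
      have h5 : k ∉ ofMask O2m := by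
        intro h
        rw [mem_ofMask, h2] at h
        exact absurd h (by simp)
      have h6 := not_mem_of_smul s0 h5
      rw [Finset.mem_compl, not_not] at h6
      rcases (mem_two_iff hn he _).1 h6 with h7 | h7
      · exact h7.ge
      · exact absurd h7 (not_of_cnt0 h36 _)
  have hsq := sq_of_le hn (vc_norm hnY) hle
  obtain ⟨g, hg, h1, h2, h3⟩ := exists_sign_move (Y := vc Y7 hmY) hσ hsq (sep_of_chk hP)
  obtain ⟨j, j1, j2, j3, j4⟩ := sign_key _ _ _ _ (sq4 (h1 (pt 17)) q1) (sq4 (h1 (pt 23)) q2) (sq4 (h1 (pt 16)) q3)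
    (sq4 (h1 (pt 19)) q4)
  obtain ⟨-, -, -, -, -, -, hRE, -, hTb, hq, hRsq⟩ := R_ok j
  refine ⟨j, g, hg, force_eq (q := pt 22) (fun i => ?_) hRE (fun k => ?_) (fun k hk => ?_) (Or.inr hq)⟩
  · rw [h3, he]
  · rw [h1 k]
    exact (hRsq k).symm
  · show _ = dec (rj j) k
    rcases hTb k with rfl | rfl | rfl | rfl | rfl | ⟨h5, h6⟩ | ⟨h5, h6⟩
    · exact j1.symm
    · exact j2.symm
    · exact j3.symm
    · exact j4.symm
    · exact absurd rfl hk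
    · rw [h6]
      exact h2 k (mem_ofMask.2 h5)
    · rw [h5]
      have h7 := h1 k
      have h8 : ((vc Y7 hmY : leechLattice) : GolayPt → ℤ) k = 0 := h6
      rw [h8] at h7
      simpa using h7

/-! ### Explicit images under `xi` -/

theorem xi_vc {n n' : ℕ} {h : memL n = true} {h' : memL n' = true} (hk : ∀ k, xiF (dec n) k = dec n' k) :
    ((xi : Co0) : Equiv.Perm leechLattice) (vc n h) = vc n' h' :=
  Subtype.ext (funext hk)

theorem XY1_ok : memL XY1 = true ∧ sqN XY1 = 64 ∧ (∀ k, xiF (dec Y1) k = dec XY1 k) ∧ cnt (dec XY1) 16 = 4 := by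
  decide +kernel

theorem XY2_ok : memL XY2 = true ∧ sqN XY2 = 64 ∧ (∀ k, xiF (dec Y2) k = dec XY2 k) ∧ cnt (dec XY2) 36 = 1 ∧
    cnt (dec XY2) 4 = 7 := by
  decide +kernel

theorem XY3_ok : memL XY3 = true ∧ sqN XY3 = 64 ∧ (∀ k, xiF (dec Y3) k = dec XY3 k) ∧ cnt (dec XY3) 16 = 2 ∧
    cnt (dec XY3) 4 = 8 ∧ cnt (dec XY3) 36 = 0 := by
  decide +kernel

theorem XY4_ok : memL XY4 = true ∧ sqN XY4 = 64 ∧ (∀ k, xiF (dec Y4) k = dec XY4 k) ∧ cnt (dec XY4) 16 = 1 ∧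
    cnt (dec XY4) 4 = 12 ∧ cnt (dec XY4) 36 = 0 := by
  decide +kernel

theorem XY5_ok : memL XY5 = true ∧ sqN XY5 = 64 ∧ (∀ k, xiF (dec Y5) k = dec XY5 k) ∧ cnt (dec XY5) 9 = 5 := by
  decide +kernel

theorem XY6_ok : memL XY6 = true ∧ sqN XY6 = 64 ∧ (∀ k, xiF (dec Y6) k = dec XY6 k) ∧ cnt (dec XY6) 25 = 1 ∧
    cnt (dec XY6) 9 = 2 := by
  decide +kernel

theorem XE8_ok : memL XE8 = true ∧ sqN XE8 = 64 ∧ (∀ k, xiF (dec E8) k = dec XE8 k) ∧ cnt (dec XE8) 16 = 4 ∧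
    dec XE8 (pt 5) ≠ 0 ∧ dec XE8 (pt 14) ≠ 0 ∧ pt 5 ≠ pt 14 := by
  decide +kernel

theorem Vb_ok : memL Vb = true ∧ sqN Vb = 64 ∧ cnt (dec Vb) 16 = 4 ∧ memL XVb = true ∧ sqN XVb = 64 ∧
    (∀ k, xiF (dec Vb) k = dec XVb k) ∧ cnt (dec XVb) 36 = 1 ∧ cnt (dec XVb) 4 = 7 := by
  decide +kernel

theorem Vc_ok : memL Vc = true ∧ sqN Vc = 64 ∧ cnt (dec Vc) 16 = 4 ∧ memL XVc = true ∧ sqN XVc = 64 ∧
    (∀ k, xiF (dec Vc) k = dec XVc k) ∧ cnt (dec XVc) 16 = 2 ∧ cnt (dec XVc) 4 = 8 ∧ cnt (dec XVc) 36 = 0 := by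
  decide +kernel

theorem Vd_ok : memL Vd = true ∧ sqN Vd = 64 ∧ cnt (dec Vd) 16 = 2 ∧ cnt (dec Vd) 4 = 8 ∧ cnt (dec Vd) 36 = 0 ∧
    memL XVd = true ∧ sqN XVd = 64 ∧ (∀ k, xiF (dec Vd) k = dec XVd k) ∧ cnt (dec XVd) 16 = 1 ∧
    cnt (dec XVd) 4 = 12 ∧ cnt (dec XVd) 36 = 0 := by
  decide +kernel

theorem Ve_ok : memL Ve = true ∧ sqN Ve = 64 ∧ cnt (dec Ve) 36 = 1 ∧ cnt (dec Ve) 4 = 7 ∧
    memL XVe = true ∧ sqN XVe = 64 ∧ (∀ k, xiF (dec Ve) k = dec XVe k) ∧ cnt (dec XVe) 9 = 5 := by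
  decide +kernel

theorem Vf_ok : memL Vf = true ∧ sqN Vf = 64 ∧ cnt (dec Vf) 36 = 1 ∧ cnt (dec Vf) 4 = 7 ∧
    memL XVf = true ∧ sqN XVf = 64 ∧ (∀ k, xiF (dec Vf) k = dec XVf k) ∧ cnt (dec XVf) 25 = 1 ∧
    cnt (dec XVf) 9 = 2 := by
  decide +kernel

theorem VM_eq (j : Fin 16) : VM j = VR j + (-VL j + -VL j) := by
  apply Subtype.ext
  funext k
  have h := (R_ok j).2.2.2.2.2.1 k
  show dec (mj j) k = dec (rj j) k + (-dec (lj j) k + -dec (lj j) k)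
  rw [h]
  ring

theorem VR_eq (j : Fin 16) : VR j = VM j + (VL j + VL j) := by
  apply Subtype.ext
  funext k
  have h := (R_ok j).2.2.2.2.2.1 k
  show dec (rj j) k = dec (mj j) k + (dec (lj j) k + dec (lj j) k)
  rw [h]
  ring

/-! ### Overgroups -/

section Over

variable {K : Subgroup Co0} (hN : NN ≤ K)

include hN

theorem inS_iff {x y : leechLattice} (h : ∃ g ∈ NN, (g : Equiv.Perm leechLattice) x = y) : InS K x ↔ InS K y := by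
  obtain ⟨g, hg, rfl⟩ := h
  exact ⟨fun h1 => h1.move (hN hg), fun h1 => h1.of_move (hN hg)⟩

theorem xi_of_V1 (h : InS K V1) : (xi : Co0) ∈ K := by
  obtain ⟨hm, hn, hx, hc⟩ := XY1_ok
  refine xi_mem_of hN h ?_
  rw [V1, xi_vc (h' := hm) hx]
  exact (inS_iff hN (nf1 (vc_norm hn) hc)).2 h

theorem xi_of_V2 (h : InS K V2) : (xi : Co0) ∈ K := by
  obtain ⟨hm, hn, hx, hc, hc2⟩ := XY2_ok
  refine xi_mem_of hN h ?_
  rw [V2, xi_vc (h' := hm) hx]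
  exact (inS_iff hN (nf2 (vc_norm hn) hc hc2)).2 h

theorem xi_of_V3 (h : InS K V3) : (xi : Co0) ∈ K := by
  obtain ⟨hm, hn, hx, hc, hc2, hc3⟩ := XY3_ok
  refine xi_mem_of hN h ?_
  rw [V3, xi_vc (h' := hm) hx]
  exact (inS_iff hN (nf3 (vc_norm hn) hc hc2 hc3)).2 h

theorem xi_of_V4 (h : InS K V4) : (xi : Co0) ∈ K := by
  obtain ⟨hm, hn, hx, hc, hc2, hc3⟩ := XY4_ok
  refine xi_mem_of hN h ?_
  rw [V4, xi_vc (h' := hm) hx]
  exact (inS_iff hN (nf4 (vc_norm hn) hc hc2 hc3)).2 h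

theorem xi_of_V5 (h : InS K V5) : (xi : Co0) ∈ K := by
  obtain ⟨hm, hn, hx, hc⟩ := XY5_ok
  refine xi_mem_of hN h ?_
  rw [V5, xi_vc (h' := hm) hx]
  exact (inS_iff hN (nf5 (vc_norm hn) hc)).2 h

theorem xi_of_V6 (h : InS K V6) : (xi : Co0) ∈ K := by
  obtain ⟨hm, hn, hx, hc, hc2⟩ := XY6_ok
  refine xi_mem_of hN h ?_
  rw [V6, xi_vc (h' := hm) hx]
  exact (inS_iff hN (nf6 (vc_norm hn) hc hc2)).2 h

theorem xi_of_VR (j : Fin 16) (h : InS K (VR j)) : (xi : Co0) ∈ K := by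
  have h1 : InS K (VM j) := h.mate hN (vc_norm (R_ok j).2.2.2.2.1) (VM_eq j)
  rcases (R_ok j).2.2.2.2.2.2.2.1 with ⟨a1, a2⟩ | ⟨a1, a2, a3⟩
  · exact xi_of_V2 hN ((inS_iff hN (nf2 (vc_norm (R_ok j).2.2.2.2.1) a1 a2)).1 h1)
  · exact xi_of_V3 hN ((inS_iff hN (nf3 (vc_norm (R_ok j).2.2.2.2.1) a1 a2 a3)).1 h1)

theorem shape_cases (x : leechLattice) (hn : sqNorm (x : GolayPt → ℤ) = 64) :
    (∃ p, (x : GolayPt → ℤ) p ^ 2 = 64) ∨ cnt (x : GolayPt → ℤ) 16 = 4 ∨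
      (cnt (x : GolayPt → ℤ) 36 = 1 ∧ cnt (x : GolayPt → ℤ) 4 = 7) ∨
      (cnt (x : GolayPt → ℤ) 16 = 2 ∧ cnt (x : GolayPt → ℤ) 4 = 8 ∧ cnt (x : GolayPt → ℤ) 36 = 0) ∨
      (cnt (x : GolayPt → ℤ) 16 = 1 ∧ cnt (x : GolayPt → ℤ) 4 = 12 ∧ cnt (x : GolayPt → ℤ) 36 = 0) ∨
      (cnt (x : GolayPt → ℤ) 4 = 16 ∧ cnt (x : GolayPt → ℤ) 36 = 0) ∨
      cnt (x : GolayPt → ℤ) 9 = 5 ∨ (cnt (x : GolayPt → ℤ) 25 = 1 ∧ cnt (x : GolayPt → ℤ) 9 = 2) := by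
  rcases parity_cases x with h | h
  · by_cases h64 : 1 ≤ cnt (x : GolayPt → ℤ) 64
    · exact Or.inl (pts1 h64)
    · right
      have E := evenC x.2 hn (by norm_num) h
      have h1 := E.norm
      have h2 := E.code
      generalize cnt (x : GolayPt → ℤ) 4 = a at *
      generalize cnt (x : GolayPt → ℤ) 16 = b at *
      generalize cnt (x : GolayPt → ℤ) 36 = c at *
      generalize cnt (x : GolayPt → ℤ) 64 = d at *
      have hd : d = 0 := by omega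
      subst hd
      have hc : c ≤ 1 := by omega
      have hb : b ≤ 4 := by omega
      interval_cases c <;> interval_cases b <;> omega
  · right
    have E := oddC hn (by norm_num) h
    have h1 := E.norm
    have h2 := E.total
    generalize cnt (x : GolayPt → ℤ) 1 = a at *
    generalize cnt (x : GolayPt → ℤ) 9 = b at *
    generalize cnt (x : GolayPt → ℤ) 25 = c at *
    generalize cnt (x : GolayPt → ℤ) 49 = d at *
    have hd : d = 0 := by omega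
    subst hd
    have hc : c ≤ 1 := by omega
    have hb : b ≤ 5 := by omega
    interval_cases c <;> interval_cases b <;> omega

theorem xi_of_inS {x : leechLattice} (hn : sqNorm (x : GolayPt → ℤ) = 64) (hx : InS K x)
    (hp : ∀ p, (x : GolayPt → ℤ) p ^ 2 ≠ 64) : (xi : Co0) ∈ K := by
  rcases shape_cases hN x hn with ⟨p, h⟩ | h | ⟨h1, h2⟩ | ⟨h1, h2, h3⟩ | ⟨h1, h2, h3⟩ | ⟨h1, h2⟩ | h | ⟨h1, h2⟩
  · exact absurd h (hp p)
  · exact xi_of_V1 hN ((inS_iff hN (nf1 hn h)).1 hx)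
  · exact xi_of_V2 hN ((inS_iff hN (nf2 hn h1 h2)).1 hx)
  · exact xi_of_V3 hN ((inS_iff hN (nf3 hn h1 h2 h3)).1 hx)
  · exact xi_of_V4 hN ((inS_iff hN (nf4 hn h1 h2 h3)).1 hx)
  · obtain ⟨j, hj⟩ := nf7 hn h1 h2
    exact xi_of_VR hN j ((inS_iff hN hj).1 hx)
  · exact xi_of_V5 hN ((inS_iff hN (nf5 hn h)).1 hx)
  · exact xi_of_V6 hN ((inS_iff hN (nf6 hn h1 h2)).1 hx)

/-- Once `xi` is there the whole group is. -/
theorem all_of_xi (hξ : (xi : Co0) ∈ K) {x : leechLattice} (hn : sqNorm (x : GolayPt → ℤ) = 64) : InS K x := by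
  have h8 : InS K (vc E8 Y8_ok.1) := by
    rw [vE8]
    exact inS_base
  have hX : ∀ {n n' : ℕ} {h : memL n = true} {h' : memL n' = true}, (∀ k, xiF (dec n) k = dec n' k) →
      InS K (vc n h) → InS K (vc n' h') := by
    intro n n' h h' hk hI
    rw [← xi_vc hk]
    exact hI.move hξ
  have hV1 : InS K V1 := by
    obtain ⟨hm, hn', hx, hc, -⟩ := XE8_ok
    have h1 : InS K (vc XE8 hm) := hX hx h8
    exact (inS_iff hN (nf1 (vc_norm hn') hc)).1 h1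
  have hV2 : InS K V2 := by
    obtain ⟨m1, n1, c1, m2, n2, hx, c2, c3⟩ := Vb_ok
    have h1 : InS K (vc Vb m1) := (inS_iff hN (nf1 (vc_norm n1) c1)).2 hV1
    have h2 : InS K (vc XVb m2) := hX hx h1
    exact (inS_iff hN (nf2 (vc_norm n2) c2 c3)).1 h2
  have hV3 : InS K V3 := by
    obtain ⟨m1, n1, c1, m2, n2, hx, c2, c3, c4⟩ := Vc_ok
    have h1 : InS K (vc Vc m1) := (inS_iff hN (nf1 (vc_norm n1) c1)).2 hV1
    have h2 : InS K (vc XVc m2) := hX hx h1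
    exact (inS_iff hN (nf3 (vc_norm n2) c2 c3 c4)).1 h2
  have hV4 : InS K V4 := by
    obtain ⟨m1, n1, c1, c1', c1'', m2, n2, hx, c2, c3, c4⟩ := Vd_ok
    have h1 : InS K (vc Vd m1) := (inS_iff hN (nf3 (vc_norm n1) c1 c1' c1'')).2 hV3
    have h2 : InS K (vc XVd m2) := hX hx h1
    exact (inS_iff hN (nf4 (vc_norm n2) c2 c3 c4)).1 h2
  have hV5 : InS K V5 := by
    obtain ⟨m1, n1, c1, c1', m2, n2, hx, c2⟩ := Ve_ok
    have h1 : InS K (vc Ve m1) := (inS_iff hN (nf2 (vc_norm n1) c1 c1')).2 hV2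
    have h2 : InS K (vc XVe m2) := hX hx h1
    exact (inS_iff hN (nf5 (vc_norm n2) c2)).1 h2
  have hV6 : InS K V6 := by
    obtain ⟨m1, n1, c1, c1', m2, n2, hx, c2, c3⟩ := Vf_ok
    have h1 : InS K (vc Vf m1) := (inS_iff hN (nf2 (vc_norm n1) c1 c1')).2 hV2
    have h2 : InS K (vc XVf m2) := hX hx h1
    exact (inS_iff hN (nf6 (vc_norm n2) c2 c3)).1 h2
  rcases shape_cases hN x hn with ⟨p, h⟩ | h | ⟨h1, h2⟩ | ⟨h1, h2, h3⟩ | ⟨h1, h2, h3⟩ | ⟨h1, h2⟩ | h | ⟨h1, h2⟩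
  · exact (inS_iff hN (nf8 hn h)).2 inS_base
  · exact (inS_iff hN (nf1 hn h)).2 hV1
  · exact (inS_iff hN (nf2 hn h1 h2)).2 hV2
  · exact (inS_iff hN (nf3 hn h1 h2 h3)).2 hV3
  · exact (inS_iff hN (nf4 hn h1 h2 h3)).2 hV4
  · obtain ⟨j, hj⟩ := nf7 hn h1 h2
    refine (inS_iff hN hj).2 ?_
    have hM : InS K (VM j) := by
      rcases (R_ok j).2.2.2.2.2.2.2.1 with ⟨a1, a2⟩ | ⟨a1, a2, a3⟩
      · exact (inS_iff hN (nf2 (vc_norm (R_ok j).2.2.2.2.1) a1 a2)).2 hV2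
      · exact (inS_iff hN (nf3 (vc_norm (R_ok j).2.2.2.2.1) a1 a2 a3)).2 hV3
    exact hM.mate hN (vc_norm (R_ok j).2.2.2.1) (VR_eq j)
  · exact (inS_iff hN (nf5 hn h)).2 hV5
  · exact (inS_iff hN (nf6 hn h1 h2)).2 hV6

end Over

theorem xi_not_mem : (xi : Co0) ∉ NN := by
  rintro ⟨c, σ, hc, hσ, h⟩
  obtain ⟨hm, hn, hx, hcn, h1, h2, h3⟩ := XE8_ok
  have hE : ((xi : Co0) : Equiv.Perm leechLattice) (e8 none) = vc XE8 hm := by
    rw [← vE8]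
    exact xi_vc hx
  have h4 : ∀ k, mono c σ (e8 none : GolayPt → ℤ) k = dec XE8 k := by
    intro k
    rw [← monoCo0_apply hc hσ, ← h, hE]
    rfl
  have h5 := h4 (pt 5)
  have h6 := h4 (pt 14)
  rw [mono_e8] at h5 h6
  have h7 : σ (pt 5) = none := by
    by_contra h8
    rw [if_neg h8] at h5
    exact h1 h5.symm
  have h8 : σ (pt 14) = none := by
    by_contra h9
    rw [if_neg h9] at h6
    exact h2 h6.symm
  exact h3 (σ.injective (h7.trans h8.symm))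

/-- The monomial subgroup is a maximal subgroup. -/
theorem isCoatom_NN : IsCoatom NN := by
  refine ⟨fun h => xi_not_mem (h ▸ Subgroup.mem_top _), fun K hK => ?_⟩
  have hN : NN ≤ K := hK.le
  obtain ⟨g, hgK, hgN⟩ := SetLike.exists_of_lt hK
  have hn : sqNorm (((g : Equiv.Perm leechLattice) (e8 none) : leechLattice) : GolayPt → ℤ) = 64 := by
    rw [g.2.2, sqNorm_e8]
  have hp : ∀ p, (((g : Equiv.Perm leechLattice) (e8 none) : leechLattice) : GolayPt → ℤ) p ^ 2 ≠ 64 := by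
    intro p h
    obtain ⟨m, hm, h1⟩ := nf8 hn h
    have h2 : m * g ∈ NN := mem_of_fix (le_refl NN) h1
    have h3 := NN.mul_mem (NN.inv_mem hm) h2
    apply hgN
    simpa using h3
  have hξ := xi_of_inS hN hn ⟨g, hgK, rfl⟩ hp
  rw [eq_top_iff]
  intro a _
  refine mem_of_InS hN (all_of_xi hN hξ ?_)
  rw [a.2.2, sqNorm_e8]

end Cfsg.Agent.Lib.Co1MaxC
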