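import Mathlib
import Cfsg.Agent.Lib.SchurRel19
import Cfsg.Agent.Lib.Co3Rel19A
import Cfsg.Agent.Lib.CoSimple2

set_option autoImplicit false
set_option linter.unusedVariables false
set_option linter.unusedSectionVars false
set_option maxRecDepth 100000

/-!
# Relative linear systems for stabilisers of vectors in the automorphism group of the rank-24 lattice

`RS K` collects the data for the criterion `ker_eq_bot_of_system` applied to a subgroup `K` of the group, acting on an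
orbit of a coded vector: an extra generator, the orbits of the stabiliser of two points, the rows of the linear system and
an integer certificate. The invariant of the point stabiliser is the inner product with the base point.
-/

namespace Cfsg.Agent.Lib.Co2Rel20

open Cfsg Cfsg.Agent.Lib.CoVec Cfsg.Agent.Lib.CoConf MulAction Cfsg.Agent.Lib.SchurRel19
open Cfsg.Agent.Lib.Co3Rel19 (dd dd_val dd_eq smul_dd smul_dd_eq dd_inj)
open Cfsg.Agent.Lib.Golay (isM24 reduce)

universe u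

/-! ### Words -/

/-- the action of a token -/
def actT (t : ℕ × ℕ) (n : ℕ) : ℕ :=
  match t.1 with
  | 0 => actPerm t.2 n
  | 1 => actSign t.2 n
  | _ => actXi n

/-- the action of a word -/
def actW : List (ℕ × ℕ) → ℕ → ℕ
  | [], n => n
  | t :: w, n => actT t (actW w n)

/-- the validity of a token -/
def okT (t : ℕ × ℕ) : Bool :=
  match t.1 with
  | 0 => isM24 t.2
  | 1 => Nat.blt t.2 (2 ^ 24) && Nat.beq (reduce t.2) 0
  | _ => true

theorem exists_T {t : ℕ × ℕ} (h : okT t = true) : ∃ g : Co0, ActsOn g (actT t) := by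
  rcases t with ⟨a, c⟩
  match a, h with
  | 0, h => exact ⟨permCo0 h, actPerm_acts h⟩
  | 1, h =>
    have h' : Nat.blt c (2 ^ 24) = true ∧ Nat.beq (reduce c) 0 = true := by
      simpa [okT] using h
    have h1 : c < 2 ^ 24 := by simpa [Nat.blt_eq] using h'.1
    have h2 : reduce c = 0 := Nat.eq_of_beq_eq_true h'.2
    exact ⟨signCo0 h1 h2, actSign_acts h1 h2⟩
  | _ + 2, h => exact ⟨xiCo0, actXi_acts⟩

/-- the validity of a word -/
def okW (w : List (ℕ × ℕ)) : Bool := w.all okT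

theorem exists_W {w : List (ℕ × ℕ)} (h : okW w = true) : ∃ g : Co0, ActsOn g (actW w) := by
  induction w with
  | nil => exact ⟨1, ActsOn.one⟩
  | cons t w ih =>
    simp only [okW, List.all_cons, Bool.and_eq_true] at h
    obtain ⟨g, hg⟩ := exists_T h.1
    obtain ⟨g', hg'⟩ := ih h.2
    exact ⟨g * g', hg.mul hg'⟩

/-- An element acting on codes sends coded vectors to coded vectors. -/
theorem smul_dd' {g : Co0} {f : ℕ → ℕ} (hg : ActsOn g f) {n m : ℕ} (h : St n) (e : f n = m) : g • dd n = dd m :=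
  smul_dd_eq hg h e

/-- the inner product of codes -/
def dotZ (a b : ℕ) : ℤ := ((dotA a b : ℕ) : ℤ) - ((dotB a b : ℕ) : ℤ)

theorem dot_dd {a b : ℕ} (ha : St a) (hb : St b) :
    dotInt ((dd a : LL) : GolayPt → ℤ) ((dd b : LL) : GolayPt → ℤ) = dotZ a b := by
  rw [dd_val ha, dd_val hb, dotInt_dec]
  rfl

theorem norm_dd {a : ℕ} (ha : St a) : sqNorm ((dd a : LL) : GolayPt → ℤ) = (sqN a : ℤ) := by
  rw [dd_val ha, sqNorm_dec]

/-! ### Evaluating words in the generators -/

/-- the value of a word in the generators -/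
def evalL (actL : ℕ → ℕ → ℕ) : List ℕ → ℕ → ℕ
  | [], n => n
  | g :: w, n => actL g (evalL actL w n)

/-- The check of a row. -/
def rowChk (actL : ℕ → ℕ → ℕ) (actY : ℕ → ℕ) (root : ℕ → ℕ) (N : ℕ) : ℕ → List (ℕ × List ℕ) → Bool
  | _, [] => true
  | x, p :: t =>
    Nat.ble (p.1 + 1) N && Nat.beq (evalL actL p.2 (root p.1)) x && rowChk actL actY root N (actY x) t

/-! ### Linear algebra -/

section linear

variable {A : Type*} [AddCommGroup A]

/-- The coefficient in a row. -/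
def rowF (N : ℕ) (l : List ℕ) (i : ℕ) : ℤ := if i = N then -1 else (l.count i : ℤ)

/-- Evaluation of a linear form. -/
def ev (N : ℕ) (a : ℕ → A) (f : ℕ → ℤ) : A := ∑ i ∈ Finset.range (N + 1), f i • a i

theorem ev_row_aux (N : ℕ) (a : ℕ → A) (l : List ℕ) (hl : ∀ k ∈ l, k < N) :
    ∑ i ∈ Finset.range N, ((l.count i : ℤ)) • a i = (l.map a).sum := by
  induction l with
  | nil => simp
  | cons b l ih =>
    have hb := hl b (by simp)
    rw [List.map_cons, List.sum_cons, ← ih (fun k hk => hl k (by simp [hk]))]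
    have h1 : ∀ i, ((b :: l).count i : ℤ) • a i = (if b = i then a i else 0) + ((l.count i : ℤ)) • a i := by
      intro i
      rw [List.count_cons]
      by_cases h : b = i
      · subst h
        simp [add_smul, add_comm]
      · simp [h]
    simp only [h1]
    rw [Finset.sum_add_distrib, Finset.sum_ite_eq, if_pos (Finset.mem_range.2 hb)]

theorem ev_row (N : ℕ) (a : ℕ → A) (l : List ℕ) (hl : ∀ k ∈ l, k < N) :
    ev N a (rowF N l) = (l.map a).sum - a N := by
  unfold ev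
  rw [Finset.sum_range_succ]
  have h1 : ∑ i ∈ Finset.range N, rowF N l i • a i = ∑ i ∈ Finset.range N, ((l.count i : ℤ)) • a i := by
    apply Finset.sum_congr rfl
    intro i hi
    have : i ≠ N := by
      have := Finset.mem_range.1 hi
      omega
    simp [rowF, this]
  rw [h1, ev_row_aux N a l hl]
  simp [rowF, sub_eq_add_neg]

/-- A combination of rows. -/
def comb (N : ℕ) : List ℤ → List (List ℕ) → ℕ → ℤ
  | c :: cs, r :: rs, i => c * rowF N r i + comb N cs rs i
  | _, _, _ => 0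

theorem ev_comb (N : ℕ) (a : ℕ → A) (cs : List ℤ) (rs : List (List ℕ)) (h : ∀ r ∈ rs, ev N a (rowF N r) = 0) :
    ev N a (comb N cs rs) = 0 := by
  induction cs generalizing rs with
  | nil => simp [ev, comb]
  | cons c cs ih =>
    cases rs with
    | nil => simp [ev, comb]
    | cons r rs =>
      have h1 := h r (by simp)
      have h2 := ih rs (fun r' hr' => h r' (by simp [hr']))
      unfold ev at h1 h2 ⊢
      have h3 : ∀ i, comb N (c :: cs) (r :: rs) i • a i = c • (rowF N r i • a i) + comb N cs rs i • a i := by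
        intro i
        show (c * rowF N r i + comb N cs rs i) • a i = _
        rw [add_smul, mul_smul]
      simp only [h3]
      rw [Finset.sum_add_distrib, ← Finset.smul_sum, h1, h2]
      simp

/-- The forms. -/
def GfOf (GfL : List (List ℤ)) (j i : ℕ) : ℤ := (GfL.getD j []).getD i 0
/-- The forms. -/
def CfOf (CfL : List ℤ) (i : ℕ) : ℤ := CfL.getD i 0
/-- The target. -/
def tgtOf (GfL : List (List ℤ)) (CfL : List ℤ) (jk jp : List ℕ) (k i : ℕ) : ℤ :=
  (if i = k then 1 else 0) - GfOf GfL (jp.getD k 0) i + GfOf GfL (jk.getD k 0) i + CfOf CfL i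

theorem linear_solve {N : ℕ} {GfL : List (List ℤ)} {CfL : List ℤ} {jk jp : List ℕ} {certL : List (List ℤ)}
    {rowLabels : List (List ℕ)}
    (hcert : ∀ k, k < N → ∀ i, i < N + 1 → comb N (certL.getD k []) rowLabels i = tgtOf GfL CfL jk jp k i)
    (a : ℕ → A) (h : ∀ r ∈ rowLabels, ev N a (rowF N r) = 0) {k : ℕ} (hk : k < N) :
    a k = ev N a (GfOf GfL (jp.getD k 0)) - ev N a (GfOf GfL (jk.getD k 0)) - ev N a (CfOf CfL) := by
  have h1 := ev_comb N a (certL.getD k []) rowLabels h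
  have h2 : ev N a (comb N (certL.getD k []) rowLabels) = ev N a (tgtOf GfL CfL jk jp k) := by
    apply Finset.sum_congr rfl
    intro i hi
    rw [hcert k hk i (Finset.mem_range.1 hi)]
  rw [h2] at h1
  have h3 : ev N a (tgtOf GfL CfL jk jp k) =
      a k - ev N a (GfOf GfL (jp.getD k 0)) + ev N a (GfOf GfL (jk.getD k 0)) + ev N a (CfOf CfL) := by
    unfold ev
    have h4 : ∀ i, tgtOf GfL CfL jk jp k i • a i = (if i = k then a i else 0) - GfOf GfL (jp.getD k 0) i • a i +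
        GfOf GfL (jk.getD k 0) i • a i + CfOf CfL i • a i := by
      intro i
      unfold tgtOf
      rw [add_smul, add_smul, sub_smul]
      by_cases hi : i = k
      · simp [hi]
      · simp [hi]
    simp only [h4]
    rw [Finset.sum_add_distrib, Finset.sum_add_distrib, Finset.sum_sub_distrib, Finset.sum_ite_eq',
      if_pos (Finset.mem_range.2 (by omega))]
  rw [h3] at h1
  have h5 : a k = (a k - ev N a (GfOf GfL (jp.getD k 0)) + ev N a (GfOf GfL (jk.getD k 0)) + ev N a (CfOf CfL)) +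
      ev N a (GfOf GfL (jp.getD k 0)) - ev N a (GfOf GfL (jk.getD k 0)) - ev N a (CfOf CfL) := by
    abel
  rw [h1, zero_add] at h5
  exact h5

end linear

/-! ### The data -/

/-- The data of a relative system for the subgroup `K`. -/
structure RS (K : Subgroup Co0) where
  r : ℕ
  q : ℕ
  m : ℕ
  N : ℕ
  hm : 0 < m
  hr : St r
  hq : St q
  Yc : Co0
  hYK : Yc ∈ K
  actY : ℕ → ℕ
  hYa : ActsOn Yc actY
  hYq : actY q = r
  hYm : Yc ^ m = 1
  root : ℕ → ℕ
  hroot : ∀ k, k < N → St (root k)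
  hrO : ∀ k, k < N → dd (root k) ∈ orbit ↥K (dd r)
  actL : ℕ → ℕ → ℕ
  hL : ∀ g, ∃ l ∈ K, l • dd r = dd r ∧ l • dd q = dd q ∧ ActsOn l (actL g)
  cover : ∀ x ∈ orbit ↥K (dd r), ∃ k, k < N ∧ ∃ l ∈ K, l • dd r = dd r ∧ l • dd q = dd q ∧ l • dd (root k) = x
  rows : List (ℕ × List (ℕ × List ℕ))
  hrows : rows.all (fun p => rowChk actL actY root N p.1 p.2 && Nat.beq p.2.length m) = true
  certL : List (List ℤ)
  GfL : List (List ℤ)
  CfL : List ℤ
  jk : List ℕ
  jp : List ℕ
  hcert : ∀ k, k < N → ∀ i, i < N + 1 →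
    comb N (certL.getD k []) (rows.map fun p => p.2.map Prod.fst) i = tgtOf GfL CfL jk jp k i
  lab : ℤ → ℕ
  hjk : ∀ k, k < N → lab (dotZ r (root k)) = jk.getD k 0
  hjp : ∀ k, k < N → lab (dotZ r (actY (root k))) = jp.getD k 0

/-- Elements of the subgroup preserve orbits. -/
theorem smul_mem_orbitK {K : Subgroup Co0} {a y : LL} {l : Co0} (hl : l ∈ K) (hy : y ∈ orbit ↥K a) : l • y ∈ orbit ↥K a :=
  mem_orbit_of_mem_orbit (⟨l, hl⟩ : ↥K) hy

/-- The inner product with a fixed vector. -/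
theorem dot_fix {g : Co0} {a : LL} (h : g • a = a) (y : LL) :
    dotInt (a : GolayPt → ℤ) ((g • y : LL) : GolayPt → ℤ) = dotInt (a : GolayPt → ℤ) (y : GolayPt → ℤ) := by
  have := dot_smul g a y
  rwa [h] at this

section sys

variable {K : Subgroup Co0} (D : RS K)

namespace RS

/-- The points. -/
abbrev XX : Type := ↥(orbit ↥K (dd D.r))

/-- The base point. -/
noncomputable def x0X : D.XX := ⟨dd D.r, mem_orbit_self _⟩

/-- The extra generator. -/
noncomputable def Yg : ↥K := ⟨D.Yc, D.hYK⟩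

theorem Yg_pow : D.Yg ^ D.m = 1 := Subtype.ext D.hYm

theorem smul_val (g : ↥K) (x : D.XX) : ((g • x : D.XX) : LL) = (g : Co0) • (x : LL) := rfl

theorem Yq : D.Yc • dd D.q = dd D.r := smul_dd_eq D.hYa D.hq D.hYq

theorem Yinv_val : ((D.Yg⁻¹ • D.x0X : D.XX) : LL) = dd D.q := by
  have h : (D.Yc)⁻¹ • dd D.r = dd D.q := inv_smul_eq_iff.2 D.Yq.symm
  exact h

theorem evalL_spec (w : List ℕ) {n : ℕ} (hn : St n) :
    St (evalL D.actL w n) ∧ ∃ l ∈ K, l • dd D.r = dd D.r ∧ l • dd D.q = dd D.q ∧ l • dd n = dd (evalL D.actL w n) := by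
  induction w with
  | nil => exact ⟨hn, 1, K.one_mem, one_smul _ _, one_smul _ _, one_smul _ _⟩
  | cons g w ih =>
    obtain ⟨h1, l, hl, l1, l2, l3⟩ := ih
    obtain ⟨l', hl', l1', l2', l3'⟩ := D.hL g
    refine ⟨l3'.st h1, l' * l, K.mul_mem hl' hl, ?_, ?_, ?_⟩
    · rw [mul_smul, l1, l1']
    · rw [mul_smul, l2, l2']
    · rw [mul_smul, l3]
      exact smul_dd l3' h1

theorem dot_smul_K (g : Co0) (x y : LL) :
    dotInt ((g • x : LL) : GolayPt → ℤ) ((g • y : LL) : GolayPt → ℤ) = dotInt (x : GolayPt → ℤ) (y : GolayPt → ℤ) :=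
  dot_smul g x y

section hsys

variable {A : Type u} [AddCommGroup A]

theorem sys_row (κ' : LL → A) (a : ℕ → A)
    (hinv : ∀ k, k < D.N → ∀ l ∈ K, l • dd D.r = dd D.r → l • dd D.q = dd D.q → κ' (l • dd (D.root k)) = a k) :
    ∀ (l : List (ℕ × List ℕ)) (x : ℕ), rowChk D.actL D.actY D.root D.N x l = true → (l ≠ [] → St x) ∧
      ∑ e ∈ Finset.range l.length, κ' ((D.Yc ^ e) • dd x) = ((l.map Prod.fst).map a).sum ∧
        ∀ k ∈ l.map Prod.fst, k < D.N := by
  intro l
  induction l with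
  | nil => simp
  | cons p t ih =>
    intro x hx
    simp only [rowChk, Bool.and_eq_true] at hx
    obtain ⟨⟨h1, h2⟩, h6⟩ := hx
    have hk : p.1 < D.N := Nat.le_of_ble_eq_true h1
    have he : evalL D.actL p.2 (D.root p.1) = x := Nat.eq_of_beq_eq_true h2
    obtain ⟨hs, l₀, hl₀, l1, l2, l3⟩ := D.evalL_spec p.2 (D.hroot _ hk)
    rw [he] at hs l3
    obtain ⟨-, i1, i2⟩ := ih _ h6
    refine ⟨fun _ => hs, ?_, ?_⟩
    · have e1 : κ' ((D.Yc ^ 0) • dd x) = a p.1 := by
        rw [pow_zero, one_smul, ← l3]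
        exact hinv _ hk _ hl₀ l1 l2
      have e2 : ∑ e ∈ Finset.range t.length, κ' ((D.Yc ^ (e + 1)) • dd x) = ((t.map Prod.fst).map a).sum := by
        rw [← i1]
        apply Finset.sum_congr rfl
        intro e _
        rw [pow_succ, mul_smul, smul_dd D.hYa hs]
      rw [List.length_cons, Finset.sum_range_succ', List.map_cons, List.map_cons, List.sum_cons, e1, e2, add_comm]
    · intro k hk'
      rcases List.mem_cons.1 (by simpa using hk' : k ∈ p.1 :: t.map Prod.fst) with rfl | h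
      · exact hk
      · exact i2 k h

/-- A row starts at a point of the orbit. -/
theorem row_mem (p : ℕ × List ℕ) (t : List (ℕ × List ℕ)) {x : ℕ}
    (h : rowChk D.actL D.actY D.root D.N x (p :: t) = true) : dd x ∈ orbit ↥K (dd D.r) := by
  simp only [rowChk, Bool.and_eq_true] at h
  obtain ⟨⟨h1, h2⟩, -⟩ := h
  have hk : p.1 < D.N := Nat.le_of_ble_eq_true h1
  have he : evalL D.actL p.2 (D.root p.1) = x := Nat.eq_of_beq_eq_true h2
  obtain ⟨hs, l₀, hl₀, l1, l2, l3⟩ := D.evalL_spec p.2 (D.hroot _ hk)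
  rw [he] at hs l3
  rw [← l3]
  exact smul_mem_orbitK hl₀ (D.hrO _ hk)

/-- The solution of the system. -/
theorem hsys (κ : D.XX → A) (v : A)
    (hinv : ∀ x, ∀ l : ↥K, l • D.x0X = D.x0X → l • (D.Yg⁻¹ • D.x0X) = D.Yg⁻¹ • D.x0X → κ (l • x) = κ x)
    (hrow : ∀ x, ∑ e ∈ Finset.range D.m, κ ((D.Yg ^ e) • x) = v) :
    ∃ (g : D.XX → A) (c : A), (∀ h : ↥K, h • D.x0X = D.x0X → ∀ x, g (h • x) = g x) ∧
      ∀ x, κ x = g (D.Yg • x) - g x - c := by
  classical
  let κ' : LL → A := fun w => if hw : w ∈ orbit ↥K (dd D.r) then κ ⟨w, hw⟩ else 0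
  have κ'_val : ∀ x : D.XX, κ' x.1 = κ x := fun x => by
    simp only [κ']
    rw [dif_pos x.2]
  let a₀ : ℕ → A := fun k => κ' (dd (D.root k))
  have hinv' : ∀ k, k < D.N → ∀ l ∈ K, l • dd D.r = dd D.r → l • dd D.q = dd D.q → κ' (l • dd (D.root k)) = a₀ k := by
    intro k hk l hl l1 l2
    let x : D.XX := ⟨_, D.hrO k hk⟩
    have h1 := hinv x ⟨l, hl⟩ (Subtype.ext l1) (by
      apply Subtype.ext
      rw [D.smul_val, D.Yinv_val]
      exact l2)
    have h2 := κ'_val x
    have h3 := κ'_val ((⟨l, hl⟩ : ↥K) • x)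
    show κ' (l • x.1) = κ' x.1
    rw [h2, ← h1, ← h3]
    rfl
  have hrows : ∀ r ∈ D.rows, ((r.2.map Prod.fst).map a₀).sum = v ∧ ∀ k ∈ r.2.map Prod.fst, k < D.N := by
    intro r hr
    have h1 := List.all_eq_true.1 D.hrows r hr
    simp only [Bool.and_eq_true] at h1
    obtain ⟨h2, h3⟩ := h1
    obtain ⟨-, i1, i2⟩ := D.sys_row κ' a₀ hinv' r.2 r.1 h2
    refine ⟨?_, i2⟩
    rw [← i1]
    have h5 : r.2.length = D.m := Nat.eq_of_beq_eq_true h3
    cases hl : r.2 with
    | nil =>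
      rw [hl] at h5
      have := D.hm
      simp only [List.length_nil] at h5
      omega
    | cons p t =>
      have hmem := D.row_mem p t (hl ▸ h2)
      rw [← hl, h5, ← hrow ⟨_, hmem⟩]
      apply Finset.sum_congr rfl
      intro e _
      rw [← κ'_val]
      rfl
  -- the vector of values
  let a : ℕ → A := fun i => if i = D.N then v else a₀ i
  have ha : ∀ k, k < D.N → a k = a₀ k := fun k hk => by
    simp only [a]
    rw [if_neg (by omega)]
  have haN : a D.N = v := by simp [a]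
  have hlin : ∀ r ∈ D.rows.map (fun p => p.2.map Prod.fst), ev D.N a (rowF D.N r) = 0 := by
    intro r hr
    obtain ⟨r', hr', rfl⟩ := List.mem_map.1 hr
    obtain ⟨h1, h2⟩ := hrows r' hr'
    rw [ev_row D.N a _ h2, haN, sub_eq_zero, ← h1]
    congr 1
    apply List.map_congr_left
    intro k hk
    exact ha k (h2 k hk)
  refine ⟨fun x => ev D.N a (GfOf D.GfL (D.lab (dotInt ((dd D.r : LL) : GolayPt → ℤ) ((x : LL) : GolayPt → ℤ)))),
    ev D.N a (CfOf D.CfL), ?_, ?_⟩
  · intro h hh x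
    have h0 : (h : Co0) • dd D.r = dd D.r := congrArg Subtype.val hh
    have e : dotInt ((dd D.r : LL) : GolayPt → ℤ) (((h • x : D.XX) : LL) : GolayPt → ℤ) =
        dotInt ((dd D.r : LL) : GolayPt → ℤ) ((x : LL) : GolayPt → ℤ) := dot_fix h0 x.1
    simp only [e]
  · intro x
    obtain ⟨k, hk, l, hl, l1, l2, e⟩ := D.cover x.1 x.2
    have hval : κ x = a k := by
      rw [ha k hk, ← κ'_val, ← e]
      exact hinv' k hk l hl l1 l2
    have hs := D.hroot k hk
    have hl2 : D.lab (dotInt ((dd D.r : LL) : GolayPt → ℤ) ((x : LL) : GolayPt → ℤ)) = D.jk.getD k 0 := by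
      rw [← D.hjk k hk, ← dot_dd D.hr hs, ← e]
      congr 1
      exact dot_fix l1 _
    have hl3 : D.lab (dotInt ((dd D.r : LL) : GolayPt → ℤ) (((D.Yg • x : D.XX) : LL) : GolayPt → ℤ)) = D.jp.getD k 0 := by
      have hs2 := D.hYa.st hs
      rw [← D.hjp k hk, ← dot_dd D.hr hs2]
      congr 1
      have e1 : ((D.Yg • x : D.XX) : LL) = D.Yc • (x : LL) := rfl
      have e2 : dd (D.actY (D.root k)) = D.Yc • dd (D.root k) := (smul_dd D.hYa hs).symm
      rw [e1, e2]
      have key : ∀ y : LL, dotInt ((dd D.r : LL) : GolayPt → ℤ) ((D.Yc • y : LL) : GolayPt → ℤ) =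
          dotInt ((dd D.q : LL) : GolayPt → ℤ) (y : GolayPt → ℤ) := by
        intro y
        have := dot_smul D.Yc (dd D.q) y
        rwa [D.Yq] at this
      rw [key, key, ← e]
      exact dot_fix l2 _
    show κ x = ev D.N a (GfOf D.GfL (D.lab _)) - ev D.N a (GfOf D.GfL (D.lab _)) - ev D.N a (CfOf D.CfL)
    rw [hl2, hl3, hval]
    exact linear_solve D.hcert a hlin hk

end hsys

/-! ### Generation -/

/-- Reached points -/
def Pt (w : LL) : Prop :=
  ∃ τ ∈ Subgroup.closure ((stabilizer ↥K D.x0X : Set ↥K) ∪ {D.Yg}), (τ : ↥K) • (dd D.r : LL) = w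

/-- A value of the inner product is reached. -/
def Reach (d : ℤ) : Prop := ∀ y ∈ orbit ↥K (dd D.r), dotInt ((dd D.r : LL) : GolayPt → ℤ) (y : GolayPt → ℤ) = d → D.Pt y

theorem Pt_stab {l : Co0} (hl : l ∈ K) (hl1 : l • dd D.r = dd D.r) {w : LL} (h : D.Pt w) : D.Pt (l • w) := by
  obtain ⟨τ, hτ, rfl⟩ := h
  have hs : (⟨l, hl⟩ : ↥K) ∈ stabilizer ↥K D.x0X := Subtype.ext hl1
  exact ⟨⟨l, hl⟩ * τ, Subgroup.mul_mem _ (Subgroup.subset_closure (Or.inl hs)) hτ, mul_smul _ _ _⟩

theorem Pt_Y {w : LL} (h : D.Pt w) : D.Pt (D.Yc • w) := by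
  obtain ⟨τ, hτ, rfl⟩ := h
  exact ⟨D.Yg * τ, Subgroup.mul_mem _ (Subgroup.subset_closure (Or.inr rfl)) hτ, mul_smul _ _ _⟩

theorem Pt_base : D.Pt (dd D.r) := ⟨1, Subgroup.one_mem _, one_smul _ _⟩

/-- The transitivity of the point stabiliser on the fibres of the inner product. -/
def Fib : Prop := ∀ y ∈ orbit ↥K (dd D.r), ∀ z ∈ orbit ↥K (dd D.r),
  dotInt ((dd D.r : LL) : GolayPt → ℤ) (y : GolayPt → ℤ) = dotInt ((dd D.r : LL) : GolayPt → ℤ) (z : GolayPt → ℤ) →
    ∃ k ∈ K, k • dd D.r = dd D.r ∧ k • y = z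

theorem reach_of_pt (hF : D.Fib) {y : LL} (hy : y ∈ orbit ↥K (dd D.r)) (hp : D.Pt y) :
    D.Reach (dotInt ((dd D.r : LL) : GolayPt → ℤ) (y : GolayPt → ℤ)) := by
  intro z hz hd
  obtain ⟨k, hk, h1, h2⟩ := hF y hy z hz hd.symm
  rw [← h2]
  exact D.Pt_stab hk h1 hp

theorem reach_base (hF : D.Fib) : D.Reach (dotZ D.r D.r) := by
  rw [← dot_dd D.hr D.hr]
  exact D.reach_of_pt hF (mem_orbit_self _) D.Pt_base

theorem reach_step (hF : D.Fib) {k : ℕ} (hk : k < D.N) (h : D.Reach (dotZ D.r (D.root k))) :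
    D.Reach (dotZ D.r (D.actY (D.root k))) := by
  have hs := D.hroot k hk
  have h1 := h _ (D.hrO k hk) (dot_dd D.hr hs)
  have h2 := D.Pt_Y h1
  rw [smul_dd D.hYa hs] at h2
  have h3 : dd (D.actY (D.root k)) ∈ orbit ↥K (dd D.r) := by
    rw [← smul_dd D.hYa hs]
    exact smul_mem_orbitK D.hYK (D.hrO k hk)
  have h4 := D.reach_of_pt hF h3 h2
  rwa [dot_dd D.hr (D.hYa.st hs)] at h4

theorem hgen (h : ∀ y ∈ orbit ↥K (dd D.r), D.Pt y) :
    Subgroup.closure ((stabilizer ↥K D.x0X : Set ↥K) ∪ {D.Yg}) = ⊤ := by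
  rw [eq_top_iff]
  intro g _
  obtain ⟨τ, hτ, e⟩ := h _ (mem_orbit (dd D.r) g)
  have h1 : τ⁻¹ * g ∈ Subgroup.closure ((stabilizer ↥K D.x0X : Set ↥K) ∪ {D.Yg}) := by
    apply Subgroup.subset_closure
    left
    show (τ⁻¹ * g) • D.x0X = D.x0X
    apply Subtype.ext
    show ((τ⁻¹ * g : ↥K)) • (dd D.r : LL) = dd D.r
    rw [mul_smul]
    have e' : τ • (dd D.r : LL) = g • (dd D.r : LL) := e
    rw [← e', inv_smul_smul]
  have h2 := Subgroup.mul_mem _ hτ h1
  simpa using h2

/-! ### The criterion -/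

theorem ker_bot {Γ : Type u} [Group Γ] {π : Γ →* ↥K} {W : Subgroup Γ} (C : Compl π D.x0X W)
    (hstem : π.ker ≤ commutator Γ) (hgood : ∀ x, Good π D.x0X W x) (hall : ∀ y ∈ orbit ↥K (dd D.r), D.Pt y) :
    π.ker = ⊥ :=
  ker_eq_bot_of_system C hstem hgood D.Yg D.m D.Yg_pow (D.hgen hall)
    (fun A _ κ v h1 h2 => D.hsys κ v h1 h2)

/-! ### Good points -/

section good

variable {Γ : Type u} [Group Γ] {π : Γ →* ↥K} {W : Subgroup Γ} (C : Compl π D.x0X W)

include C

/-- Good points stay good along the fibres. -/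
theorem good_fib (hF : D.Fib) {x y : D.XX}
    (hd : dotInt ((dd D.r : LL) : GolayPt → ℤ) ((x : LL) : GolayPt → ℤ) =
      dotInt ((dd D.r : LL) : GolayPt → ℤ) ((y : LL) : GolayPt → ℤ)) (h : Good π D.x0X W x) : Good π D.x0X W y := by
  obtain ⟨k, hk, h1, h2⟩ := hF x.1 x.2 y.1 y.2 hd
  have e : y = (⟨k, hk⟩ : ↥K) • x := Subtype.ext h2.symm
  rw [e]
  exact good_smul C h (Subtype.ext h1)

/-- Transport along a third point. -/
theorem mem_Nx_of_fix {P : ℤ → Prop} (hP : ∀ x : D.XX, P (dotInt ((dd D.r : LL) : GolayPt → ℤ) ((x : LL) : GolayPt → ℤ)) →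
      Good π D.x0X W x) (x z : D.XX) {l : ↥K} (h0 : l • D.x0X = D.x0X) (h1 : l • x = x) (h2 : l • z = z)
    (hz : P (dotInt ((dd D.r : LL) : GolayPt → ℤ) ((z : LL) : GolayPt → ℤ)))
    (hzx : P (dotInt ((z : LL) : GolayPt → ℤ) ((x : LL) : GolayPt → ℤ))) : l ∈ Nx C x := by
  obtain ⟨g, hg⟩ := exists_smul_eq ↥K z D.x0X
  have e : g⁻¹ • D.x0X = z := inv_smul_eq_iff.2 hg.symm
  refine transport_mem_Nx C (Y := g) ?_ ?_ h0 h1 ?_
  · rw [e]
    exact hP z hz
  · apply hP
    have h3 : (g : Co0) • z.1 = dd D.r := congrArg Subtype.val hg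
    have h4 := dot_smul (g : Co0) z.1 x.1
    rw [h3] at h4
    show P (dotInt ((dd D.r : LL) : GolayPt → ℤ) (((g : Co0) • x.1 : LL) : GolayPt → ℤ))
    rw [h4]
    exact hzx
  · rw [e]
    exact h2

/-- The stabiliser is inside the subgroup if the subgroup is transitive on an invariant set with good stabilisers. -/
theorem good_of_set {x : D.XX}
    (z₀ : D.XX) (Ω : Set D.XX)
    (hinv : ∀ s : ↥K, s • D.x0X = D.x0X → s • x = x → s • z₀ ∈ Ω)
    (htrans : ∀ y ∈ Ω, ∃ t ∈ Nx C x, t • x = x ∧ t • z₀ = y)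
    (hstab : ∀ s : ↥K, s • D.x0X = D.x0X → s • x = x → s • z₀ = z₀ → s ∈ Nx C x) : Good π D.x0X W x := by
  apply good_of_le C
  rintro s ⟨hs1, hs2⟩
  have hs1' : s • D.x0X = D.x0X := hs1
  have hs2' : s • x = x := hs2
  obtain ⟨t, hN, htx, e⟩ := htrans _ (hinv s hs1' hs2')
  have h3 : t⁻¹ * s ∈ Nx C x := by
    apply hstab
    · rw [mul_smul, hs1', inv_smul_eq_iff]
      exact hN.1.symm
    · rw [mul_smul, hs2', inv_smul_eq_iff]
      exact htx.symm
    · rw [mul_smul, ← e, inv_smul_smul]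
  have := Subgroup.mul_mem _ hN h3
  simpa using this

end good

end RS

end sys

/-! ### Tables for the orbits of the stabiliser of two points -/

/-- the action used for a table of the orbits of the stabiliser of two points -/
def actCov (nG N : ℕ) (actL : ℕ → ℕ → ℕ) (root : ℕ → ℕ) (g x : ℕ) : ℕ :=
  cond (Nat.blt g nG) (actL g x) (cond (Nat.blt (Nat.sub g nG) N) (root (Nat.sub g nG)) (root 0))

theorem cover_of_table {K : Subgroup Co0} {r q N nG : ℕ} {actL : ℕ → ℕ → ℕ} {root : ℕ → ℕ}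
    (hL : ∀ g, ∃ l ∈ K, l • dd r = dd r ∧ l • dd q = dd q ∧ ActsOn l (actL g))
    (hroot : ∀ k, k < N → St (root k)) (hrO : ∀ k, k < N → dd (root k) ∈ orbit ↥K (dd r))
    (hN : 0 < N) (h0 : root 0 = r) {T U : Tr} {n M : ℕ} (hn : n ≤ 256 * M)
    (hall : ∀ k < M, chunkOK (actCov nG N actL root) T U r n k (cntOf n k) = true)
    (hcard : (orbit ↥K (dd r)).ncard ≤ n) :
    ∀ x ∈ orbit ↥K (dd r), ∃ k, k < N ∧ ∃ l ∈ K, l • dd r = dd r ∧ l • dd q = dd q ∧ l • dd (root k) = x := by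
  classical
  let P : ℕ → Prop := fun n => St n ∧ ∃ k, k < N ∧ ∃ l ∈ K, l • dd r = dd r ∧ l • dd q = dd q ∧ l • dd (root k) = dd n
  have hPr : ∀ k, k < N → P (root k) := fun k hk =>
    ⟨hroot k hk, k, hk, 1, K.one_mem, one_smul _ _, one_smul _ _, one_smul _ _⟩
  have hP : ∀ g x, P x → P (actCov nG N actL root g x) := by
    intro g x hx
    unfold actCov
    cases h1 : Nat.blt g nG with
    | true =>
      simp only [cond_true]
      obtain ⟨hs, k, hk, l, hl, l1, l2, l3⟩ := hx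
      obtain ⟨l', hl', m1, m2, ha⟩ := hL g
      refine ⟨ha.st hs, k, hk, l' * l, K.mul_mem hl' hl, ?_, ?_, ?_⟩
      · rw [mul_smul, l1, m1]
      · rw [mul_smul, l2, m2]
      · rw [mul_smul, l3]
        exact smul_dd ha hs
    | false =>
      simp only [cond_false]
      cases h2 : Nat.blt (Nat.sub g nG) N with
      | true =>
        simp only [cond_true]
        exact hPr _ (by simpa [Nat.blt_eq] using h2)
      | false =>
        simp only [cond_false]
        exact hPr 0 hN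
  have hr : P r := h0 ▸ hPr 0 hN
  have hent := entries_of_chunks hn hall
  have hreach := entry_reach (c := fun i => laneC (U.get (i / 256)) (i % 256)) hr hP (fun i hi => (hent i hi).1)
  have hmono := order_lt (fun i hi => (hent i hi).2)
  have hinj : Set.InjOn (fun i => dec (lCode (atW T i))) (Finset.range n : Finset ℕ) := by
    intro i hi j hj hij
    have hi' := Finset.mem_range.1 (Finset.mem_coe.1 hi)
    have hj' := Finset.mem_range.1 (Finset.mem_coe.1 hj)
    have e := dec_injOn (hreach i hi').1.1 (hreach j hj').1.1 hij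
    rcases lt_trichotomy i j with h | h | h
    · exact absurd e (ne_of_lt (hmono i j h hj'))
    · exact h
    · exact absurd e.symm (ne_of_lt (hmono j i h hi'))
  let S : Finset (GolayPt → ℤ) := (Finset.range n).image fun i => dec (lCode (atW T i))
  have hScard : S.card = n := by
    rw [Finset.card_image_of_injOn hinj, Finset.card_range]
  have hsub : (S : Set (GolayPt → ℤ)) ⊆ Subtype.val '' (orbit ↥K (dd r)) := by
    intro y hy
    obtain ⟨i, hi, rfl⟩ := Finset.mem_image.1 (Finset.mem_coe.1 hy)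
    obtain ⟨hs, k, hk, l, hl, l1, l2, e⟩ := hreach i (Finset.mem_range.1 hi)
    refine ⟨dd (lCode (atW T i)), ?_, dd_val hs⟩
    rw [← e]
    exact smul_mem_orbitK hl (hrO k hk)
  have hfin : (orbit ↥K (dd r)).Finite := by
    haveI := finite_Co0'
    exact Set.finite_range _
  have heq : (S : Set (GolayPt → ℤ)) = Subtype.val '' (orbit ↥K (dd r)) := by
    apply Set.eq_of_subset_of_ncard_le hsub _ (hfin.image _)
    rw [Set.ncard_coe_finset, Set.ncard_image_of_injective _ Subtype.val_injective, hScard]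
    exact hcard
  intro x hx
  have h3 : (x : GolayPt → ℤ) ∈ (S : Set (GolayPt → ℤ)) := heq ▸ ⟨x, hx, rfl⟩
  obtain ⟨i, hi, e⟩ := Finset.mem_image.1 (Finset.mem_coe.1 h3)
  obtain ⟨hs, k, hk, l, hl, l1, l2, e2⟩ := hreach i (Finset.mem_range.1 hi)
  refine ⟨k, hk, l, hl, l1, l2, ?_⟩
  rw [e2]
  apply Subtype.ext
  rw [dd_val hs]
  exact e

end Cfsg.Agent.Lib.Co2Rel20
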