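import Mathlib
import Cfsg.Agent.Lib.Co2Rel20Base

set_option autoImplicit false
set_option linter.unusedVariables false
set_option linter.unusedSectionVars false
set_option maxRecDepth 100000

/-!
# Facts for relative linear systems: fibres, generation and stabilisers
-/

namespace Cfsg.Agent.Lib.Co2Rel20

open Cfsg Cfsg.Agent.Lib.CoVec Cfsg.Agent.Lib.CoConf MulAction Cfsg.Agent.Lib.SchurRel19
open Cfsg.Agent.Lib.Co3Rel19 (dd dd_val dd_eq smul_dd smul_dd_eq dd_inj Qc card_le_of_table actsIn_getD eq_of_eqChk eqChk)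
open Cfsg.Agent.Lib.Golay (isM24 reduce)

universe u

/-- Powers of an element on codes. -/
theorem acts_pow {g : Co0} {f : ℕ → ℕ} (hg : ActsOn g f) (n : ℕ) : ActsOn (g ^ n) (f^[n]) := by
  induction n with
  | zero =>
    rw [pow_zero]
    exact ActsOn.one
  | succ n ih =>
    rw [pow_succ]
    have e : f^[n + 1] = fun x => f^[n] (f x) := rfl
    rw [e]
    exact ih.mul hg

/-- The fibres of a set with suborbit data. -/
theorem fib_of_rank {K : Subgroup Co0} {A : List (LL × ℤ)} {a : LL} {D : Finset ℤ} {n : ℤ → ℕ}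
    (hK2 : ∀ k : Co0, (∀ p ∈ A, k • p.1 = p.1) → k ∈ K) (h : RankData A a D n) (ha : a ∈ DS A) (h32 : (32 : ℤ) ∈ D)
    (hn : n 32 = 1) {y z : LL} (hy : y ∈ DS A) (hz : z ∈ DS A)
    (hd : dotInt (a : GolayPt → ℤ) (y : GolayPt → ℤ) = dotInt (a : GolayPt → ℤ) (z : GolayPt → ℤ)) :
    ∃ k ∈ K, k • a = a ∧ k • y = z := by
  by_cases e : dotInt (a : GolayPt → ℤ) (y : GolayPt → ℤ) = 32
  · have h1 := fibre32_eq ha ((h.1 32 h32).trans hn)
    have h2 : y ∈ DS ((a, 32) :: A) := mem_DS_cons.2 ⟨hy, e⟩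
    have h3 : z ∈ DS ((a, 32) :: A) := mem_DS_cons.2 ⟨hz, hd ▸ e⟩
    rw [h1] at h2 h3
    have h2' : y = a := h2
    have h3' : z = a := h3
    exact ⟨1, K.one_mem, one_smul _ _, by rw [h2', h3', one_smul]⟩
  · have hdD := h.2.2 y hy
    obtain ⟨k, hk, e2⟩ := h.2.1 _ hdD e y (mem_DS_cons.2 ⟨hy, rfl⟩) z (mem_DS_cons.2 ⟨hz, hd.symm⟩)
    refine ⟨k, hK2 k (fun p hp => hk p (List.mem_cons_of_mem _ hp)), hk (a, dotInt (a : GolayPt → ℤ) (y : GolayPt → ℤ)) (by simp), e2⟩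

/-- The size of a point stabiliser from the size of the fibre. -/
theorem card_fib {K : Subgroup Co0} {A : List (LL × ℤ)} {a x : LL} {d : ℤ} (hK1 : ∀ k ∈ K, ∀ p ∈ A, k • p.1 = p.1)
    (hK2 : ∀ k : Co0, (∀ p ∈ A, k • p.1 = p.1) → k ∈ K) (hT : TransOn ((a, d) :: A)) (hx : x ∈ DS ((a, d) :: A)) :
    Nat.card ↥(K ⊓ stb a) = (DS ((a, d) :: A)).ncard * Nat.card ↥(K ⊓ stb a ⊓ stb x) := by
  refine card_orbit_stab (K := K ⊓ stb a) (T := DS ((a, d) :: A)) (x₀ := x) ?_ ?_ hx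
  · intro k hk y hy
    refine smul_mem_DS ?_ hy
    intro p hp
    rcases List.mem_cons.1 hp with rfl | hp
    · exact hk.2
    · exact hK1 k hk.1 p hp
  · intro y hy
    obtain ⟨k, hk, e⟩ := hT x hx y hy
    refine ⟨k, ⟨hK2 k (fun p hp => hk p (List.mem_cons_of_mem _ hp)), hk (a, d) (by simp)⟩, e⟩

section

variable {K : Subgroup Co0} (D : RS K)

/-- All points are reached if each value is. -/
theorem RS.all_pt {F : Finset ℤ} (hF : ∀ y ∈ orbit ↥K (dd D.r), dotInt ((dd D.r : LL) : GolayPt → ℤ) (y : GolayPt → ℤ) ∈ F)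
    (hR : ∀ d ∈ F, D.Reach d) : ∀ y ∈ orbit ↥K (dd D.r), D.Pt y :=
  fun y hy => hR _ (hF y hy) y hy rfl

variable {Γ : Type u} [Group Γ] {π : Γ →* ↥K} {W : Subgroup Γ} (C : Compl π D.x0X W)

include C in
/-- A subgroup generated by elements of the subgroup `Nx` of the right order. -/
theorem RS.good_of_Qc (x : D.XX) {gs : List ℕ}
    (hgs : ∀ c ∈ gs, ∀ hc : isM24 c = true, ∃ hm : permCo0 hc ∈ K, (⟨permCo0 hc, hm⟩ : ↥K) ∈ Nx C x)
    (hle : Qc gs ≤ K ⊓ stb (dd D.r) ⊓ stb (x : LL))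
    (hcard : Nat.card ↥(K ⊓ stb (dd D.r) ⊓ stb (x : LL)) ≤ Nat.card (Qc gs)) : Good π D.x0X W x := by
  classical
  have := finite_Co0'
  have heq : Qc gs = K ⊓ stb (dd D.r) ⊓ stb (x : LL) := Subgroup.eq_of_le_of_card_ge hle hcard
  apply good_of_le C
  rintro s ⟨hs1, hs2⟩
  have hs1' : s • D.x0X = D.x0X := hs1
  have hs2' : s • x = x := hs2
  have e1 : (s : Co0) • dd D.r = dd D.r := congrArg Subtype.val hs1'
  have e2 : (s : Co0) • (x : LL) = x := congrArg Subtype.val hs2'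
  have hm : (s : Co0) ∈ Qc gs := by
    rw [heq]
    exact ⟨⟨s.2, e1⟩, e2⟩
  have hle2 : Qc gs ≤ (Nx C x).map K.subtype := by
    rw [Qc, Subgroup.closure_le]
    rintro g ⟨c, hc, hc', rfl⟩
    obtain ⟨hm, h⟩ := hgs c hc hc'
    exact ⟨⟨_, hm⟩, h, rfl⟩
  obtain ⟨b, hb, e⟩ := hle2 hm
  have e' : b = s := Subtype.ext e
  exact e' ▸ hb

include C in
/-- A commutator of elements of the stabiliser of two points is in the subgroup `Nx`. -/
theorem RS.comm_mem (x : D.XX) {c a b : ℕ} (hc : isM24 c = true) (ha : isM24 a = true) (hb : isM24 b = true)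
    {fa fb : Co0} (hfa : fa = permCo0 ha) (hfb : fb = permCo0 hb)
    (hKa : fa ∈ K) (hKb : fb ∈ K) (h1a : fa • dd D.r = dd D.r) (h1b : fb • dd D.r = dd D.r)
    (h2a : fa • (x : LL) = x) (h2b : fb • (x : LL) = x)
    (hchk : eqChk (fun n => actPerm c (actPerm b (actPerm a n))) (fun n => actPerm a (actPerm b n)) = true) :
    ∃ hm : permCo0 hc ∈ K, (⟨permCo0 hc, hm⟩ : ↥K) ∈ Nx C x := by
  subst hfa hfb
  let A : ↥K := ⟨_, hKa⟩
  let B : ↥K := ⟨_, hKb⟩
  have hA : A ∈ Sx (G := ↥K) D.x0X x := ⟨Subtype.ext h1a, Subtype.ext h2a⟩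
  have hB : B ∈ Sx (G := ↥K) D.x0X x := ⟨Subtype.ext h1b, Subtype.ext h2b⟩
  have e := eq_of_eqChk ((actPerm_acts hc).mul ((actPerm_acts hb).mul (actPerm_acts ha)))
    ((actPerm_acts ha).mul (actPerm_acts hb)) hchk
  have e2 : permCo0 hc = (A : Co0) * (B : Co0) * (A : Co0)⁻¹ * (B : Co0)⁻¹ := by
    show permCo0 hc = permCo0 ha * permCo0 hb * (permCo0 ha)⁻¹ * (permCo0 hb)⁻¹
    rw [← e]
    group
  have hm : permCo0 hc ∈ K := by
    rw [e2]
    exact K.mul_mem (K.mul_mem (K.mul_mem A.2 B.2) (K.inv_mem A.2)) (K.inv_mem B.2)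
  refine ⟨hm, ?_⟩
  have e3 : (⟨permCo0 hc, hm⟩ : ↥K) = A * B * A⁻¹ * B⁻¹ := Subtype.ext e2
  rw [e3]
  have h5 : A * B * A⁻¹ * B⁻¹ ∈ Nx C x := comm_le_Nx C x (Subgroup.commutator_mem_commutator hA hB)
  exact h5

/-- A table gives a transitive action of a subgroup of the stabiliser of two points. -/
theorem RS.trans_of_table (x : D.XX) {act : ℕ → ℕ → ℕ} {z : ℕ} (hz : St z)
    (hact : ∀ g, ∃ t : ↥K, t ∈ Nx C x ∧ t • x = x ∧ ActsOn (t : Co0) (act g))
    {T U : Tr} {n M : ℕ} (hN : n ≤ 256 * M) (hall : ∀ k < M, chunkOK act T U z n k (cntOf n k) = true)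
    {Ω : Set LL} (hΩf : Ω.Finite) (hΩ : Ω.ncard ≤ n)
    (hsub : ∀ t : ↥K, t • D.x0X = D.x0X → t • x = x → (t : Co0) • dd z ∈ Ω) :
    ∀ y ∈ Ω, ∃ t : ↥K, t ∈ Nx C x ∧ t • x = x ∧ (t : Co0) • dd z = y := by
  classical
  let H : Subgroup Co0 := ((Nx C x) ⊓ stabilizer ↥K x).map K.subtype
  have hactH : ∀ g, ActsIn H (act g) := by
    intro g n hn
    obtain ⟨t, h1, h2, h3⟩ := hact g
    have hm : (t : Co0) ∈ H := ⟨t, ⟨h1, h2⟩, rfl⟩
    exact (h3.actsIn hm) n hn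
  obtain ⟨-, S, hc, hS, -⟩ := table_orbit hactH hz hN hall
  have hsub2 : (S : Set (GolayPt → ℤ)) ⊆ Subtype.val '' Ω := by
    intro y hy
    obtain ⟨h, ⟨t, ⟨h1, h2⟩, rfl⟩, e⟩ := hS hy
    refine ⟨(t : Co0) • dd z, hsub t h1.1 h2, ?_⟩
    rw [dd_eq hz]
    exact e
  have heq : (S : Set (GolayPt → ℤ)) = Subtype.val '' Ω := by
    apply Set.eq_of_subset_of_ncard_le hsub2 _ (hΩf.image _)
    rw [Set.ncard_coe_finset, Set.ncard_image_of_injective _ Subtype.val_injective, hc]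
    exact hΩ
  intro y hy
  have h3 : (y : GolayPt → ℤ) ∈ (S : Set (GolayPt → ℤ)) := heq ▸ ⟨y, hy, rfl⟩
  obtain ⟨h, ⟨t, ⟨h1, h2⟩, rfl⟩, e⟩ := hS h3
  refine ⟨t, h1, h2, ?_⟩
  apply Subtype.ext
  rw [dd_eq hz]
  exact e

include C in
/-- A point is good if the elements fixing it are transitive on a suitable set of good points. -/
theorem RS.good_step {P : ℤ → Prop}
    (hP : ∀ x : D.XX, P (dotInt ((dd D.r : LL) : GolayPt → ℤ) ((x : LL) : GolayPt → ℤ)) → Good π D.x0X W x)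
    {x z₀ : D.XX} {d₀ d₂ : ℤ} (hd₀ : P d₀) (hd₂ : P d₂)
    (h1 : dotInt ((dd D.r : LL) : GolayPt → ℤ) ((z₀ : LL) : GolayPt → ℤ) = d₀)
    (h2 : dotInt ((x : LL) : GolayPt → ℤ) ((z₀ : LL) : GolayPt → ℤ) = d₂)
    (htrans : ∀ y : D.XX, dotInt ((dd D.r : LL) : GolayPt → ℤ) ((y : LL) : GolayPt → ℤ) = d₀ →
      dotInt ((x : LL) : GolayPt → ℤ) ((y : LL) : GolayPt → ℤ) = d₂ → ∃ t ∈ Nx C x, t • x = x ∧ t • z₀ = y) :
    Good π D.x0X W x := by
  refine D.good_of_set C z₀ {y | dotInt ((dd D.r : LL) : GolayPt → ℤ) ((y : LL) : GolayPt → ℤ) = d₀ ∧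
    dotInt ((x : LL) : GolayPt → ℤ) ((y : LL) : GolayPt → ℤ) = d₂} ?_ ?_ ?_
  · intro s hs1 hs2
    constructor
    · have e : (s : Co0) • dd D.r = dd D.r := congrArg Subtype.val hs1
      exact (dot_fix e z₀.1).trans h1
    · have e : (s : Co0) • (x : LL) = x := congrArg Subtype.val hs2
      exact (dot_fix e z₀.1).trans h2
  · rintro y ⟨e1, e2⟩
    exact htrans y e1 e2
  · intro s hs1 hs2 hs3
    refine D.mem_Nx_of_fix C hP x z₀ hs1 hs2 hs3 (h1 ▸ hd₀) ?_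
    rw [dot_comm, h2]
    exact hd₂

include C in
/-- A good representative gives a good fibre. -/
theorem RS.good_of_rep (hF : D.Fib) {x : D.XX} (hx : Good π D.x0X W x) (y : D.XX)
    (hd : dotInt ((dd D.r : LL) : GolayPt → ℤ) ((x : LL) : GolayPt → ℤ) =
      dotInt ((dd D.r : LL) : GolayPt → ℤ) ((y : LL) : GolayPt → ℤ)) : Good π D.x0X W y :=
  D.good_fib C hF hd hx

end

/-- Membership of `getD` in a list with the default. -/
theorem getD_mem_cons {α : Type*} (l : List α) (a : α) (g : ℕ) : l.getD g a ∈ a :: l := by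
  rw [List.getD_eq_getElem?_getD]
  cases h1 : l[g]? with
  | none => simp
  | some b =>
    simp only [Option.getD_some]
    exact List.mem_cons_of_mem _ (List.mem_of_getElem? h1)

/-- A simple group whose order is not a prime is perfect. -/
theorem perfect_of_card {G : Type*} [Group G] [Finite G] [IsSimpleGroup G] {n : ℕ} (h : Nat.card G = n) (hn : ¬ n.Prime) :
    commutator G = ⊤ := by
  rcases (inferInstance : (commutator G).Normal).eq_bot_or_eq_top with h1 | h1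
  · exfalso
    apply hn
    rw [← h]
    have h2 : Subgroup.center G = ⊤ := (commutator_eq_bot_iff_center_eq_top G).1 h1
    letI : CommGroup G := { (inferInstance : Group G) with
      mul_comm := fun a b => by
        have h3 : a ∈ Subgroup.center G := by rw [h2]; trivial
        exact (Subgroup.mem_center_iff.1 h3 b).symm }
    exact IsSimpleGroup.prime_card
  · exact h1

end Cfsg.Agent.Lib.Co2Rel20
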