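import Mathlib
import Cfsg.Agent.Lib.Co2Rel20Gen
import Cfsg.Agent.Lib.Co2Rel20ACov

set_option autoImplicit false
set_option linter.unusedVariables false
set_option linter.unusedSectionVars false
set_option maxRecDepth 100000

/-!
# The linear system for the McLaughlin group on 2025 points
-/

namespace Cfsg.Agent.Lib.Co2Rel20

open Cfsg Cfsg.Agent.Lib.CoVec Cfsg.Agent.Lib.CoConf MulAction Cfsg.Agent.Lib.SchurRel19
open Cfsg.Agent.Lib.Co3Rel19 (dd dd_val dd_eq smul_dd smul_dd_eq dd_inj Qc card_le_of_table actsIn_getD eq_of_eqChk eqChk)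
open Cfsg.Agent.Lib.Golay (isM24 reduce)

universe u

/-- The subgroup. -/
noncomputable abbrev KA : Subgroup Co0 := McLWG.H

/-- The conditions for the points. -/
noncomputable abbrev AA : List (LL × ℤ) := [(McLWG.lv0, 0), (McLWG.lv0 + McLWG.lw0, 16)]

theorem lv0_eq : McLWG.lv0 = dd McLWG.v0 := (dd_eq McLWG.St_v0).symm
theorem lw0_eq : McLWG.lw0 = dd McLWG.w0 := (dd_eq McLWG.St_w0).symm

theorem KA_fix : ∀ k ∈ KA, ∀ p ∈ AA, k • p.1 = p.1 := by
  intro k hk p hp
  have a1 : k • McLWG.lv0 = McLWG.lv0 := hk.1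
  have a2 : k • McLWG.lw0 = McLWG.lw0 := hk.2
  simp only [AA, List.mem_cons, List.not_mem_nil, or_false] at hp
  rcases hp with rfl | rfl
  · exact a1
  · show k • (McLWG.lv0 + McLWG.lw0) = _
    rw [smul_add', a1, a2]

theorem KA_of : ∀ k : Co0, (∀ p ∈ AA, k • p.1 = p.1) → k ∈ KA := by
  intro k hk
  have h1 : k • McLWG.lv0 = McLWG.lv0 := hk (McLWG.lv0, 0) (by simp [AA])
  have h2 : k • (McLWG.lv0 + McLWG.lw0) = McLWG.lv0 + McLWG.lw0 := hk (_, 16) (by simp [AA])
  rw [smul_add', h1] at h2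
  exact ⟨h1, add_left_cancel h2⟩

theorem transA : TransOn AA := transOn_2025' _ _ norm_lv0' norm_lw0 dot_v0w0
theorem ncardA : (DS AA).ncard = 2025 := ncard_2025 _ _ norm_lv0' norm_lw0 dot_v0w0

/-- The check of a point. -/
def inDA (n : ℕ) : Bool :=
  stChk n && Nat.beq (sqN n) 32 && decide (dotZ McLWG.v0 n = 0) && decide (dotZ McLWG.w0 n = 16)

theorem St_of_inDA {n : ℕ} (h : inDA n = true) : St n := by
  simp only [inDA, Bool.and_eq_true] at h
  exact St_of_stChk h.1.1.1

theorem dd_mem_A {n : ℕ} (h : inDA n = true) : dd n ∈ DS AA := by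
  have hs := St_of_inDA h
  simp only [inDA, Bool.and_eq_true, decide_eq_true_eq] at h
  obtain ⟨⟨⟨-, h2⟩, h3⟩, h4⟩ := h
  refine ⟨?_, ?_⟩
  · rw [norm_dd hs, Nat.eq_of_beq_eq_true h2]
    rfl
  · intro p hp
    simp only [AA, List.mem_cons, List.not_mem_nil, or_false] at hp
    have e1 : dotInt (McLWG.lv0 : GolayPt → ℤ) ((dd n : LL) : GolayPt → ℤ) = 0 := by
      rw [lv0_eq, dot_dd McLWG.St_v0 hs, h3]
    have e2 : dotInt (McLWG.lw0 : GolayPt → ℤ) ((dd n : LL) : GolayPt → ℤ) = 16 := by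
      rw [lw0_eq, dot_dd McLWG.St_w0 hs, h4]
    rcases hp with rfl | rfl
    · exact e1
    · show dotInt ((McLWG.lv0 : GolayPt → ℤ) + (McLWG.lw0 : GolayPt → ℤ)) _ = 16
      rw [dot_add_left, e1, e2]
      rfl

theorem St_xA : St xA := St_of_stChk (by decide +kernel)
theorem St_qA : St qA := St_of_stChk (by decide +kernel)
theorem xA_in : inDA xA = true := by decide +kernel
theorem xA_mem : dd xA ∈ DS AA := dd_mem_A xA_in

theorem orbitA : orbit ↥KA (dd xA) = DS AA := orbit_eq_DS KA_fix KA_of transA xA_mem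

theorem Y_powA : McLWG.e2 ^ 11 = 1 := eq_of_eqChk (acts_pow McLWG.acts2 11) ActsOn.one (by decide +kernel)

/-- the roots -/
def rootA (k : ℕ) : ℕ := rootsA.getD k 0

theorem root_inA : ∀ k, k < 17 → inDA (rootA k) = true := by decide +kernel

theorem hL0 : isM24 lA0 = true := by decide +kernel
theorem hL1 : isM24 lA1 = true := by decide +kernel

/-- The check that a permutation fixes the given vectors. -/
def fixA (c : ℕ) : Bool := Nat.beq (actPerm c McLWG.v0) McLWG.v0 && Nat.beq (actPerm c McLWG.w0) McLWG.w0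

theorem mem_KA {c : ℕ} (hc : isM24 c = true) (h : fixA c = true) : permCo0 hc ∈ KA := by
  simp only [fixA, Bool.and_eq_true] at h
  exact ⟨mem_stabilizer_of_acts (actPerm_acts hc) McLWG.St_v0 rfl (Nat.eq_of_beq_eq_true h.1),
    mem_stabilizer_of_acts (actPerm_acts hc) McLWG.St_w0 rfl (Nat.eq_of_beq_eq_true h.2)⟩

theorem actLA_zero : actLA 0 = actPerm lA0 := by
  funext n
  simp [actLA]

theorem actLA_succ (g : ℕ) : actLA (g + 1) = actPerm lA1 := by
  funext n
  have e : Nat.beq (g + 1) 0 = false := rfl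
  simp [actLA, e]

theorem hLA (g : ℕ) : ∃ l ∈ KA, l • dd xA = dd xA ∧ l • dd qA = dd qA ∧ ActsOn l (actLA g) := by
  cases g with
  | zero =>
    rw [actLA_zero]
    exact ⟨permCo0 hL0, mem_KA hL0 (by decide +kernel), smul_dd_eq (actPerm_acts hL0) St_xA (by decide +kernel),
      smul_dd_eq (actPerm_acts hL0) St_qA (by decide +kernel), actPerm_acts hL0⟩
  | succ g =>
    rw [actLA_succ]
    exact ⟨permCo0 hL1, mem_KA hL1 (by decide +kernel), smul_dd_eq (actPerm_acts hL1) St_xA (by decide +kernel),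
      smul_dd_eq (actPerm_acts hL1) St_qA (by decide +kernel), actPerm_acts hL1⟩

theorem root_orbitA : ∀ k, k < 17 → dd (rootA k) ∈ orbit ↥KA (dd xA) := fun k hk => by
  rw [orbitA]
  exact dd_mem_A (root_inA k hk)

theorem rootA_zero : rootA 0 = xA := by decide +kernel

theorem coverA : ∀ x ∈ orbit ↥KA (dd xA), ∃ k, k < 17 ∧ ∃ l ∈ KA, l • dd xA = dd xA ∧ l • dd qA = dd qA ∧ l • dd (rootA k) = x :=
  cover_of_table (nG := 2) (T := TCovA) (U := UCovA) (n := 2025) (M := 8) hLA (fun k hk => St_of_inDA (root_inA k hk))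
    root_orbitA (by norm_num) rootA_zero (by norm_num) allCovA (by rw [orbitA, ncardA])

/-- labels -/
def labA (d : ℤ) : ℕ := if d = 32 then 0 else if d = 16 then 1 else if d = 8 then 2 else 3

theorem rowsA_ok : rowsA.all (fun p => rowChk actLA (McLWG.act 2) rootA 17 p.1 p.2 && Nat.beq p.2.length 11) = true := by
  decide +kernel

theorem certA_ok : ∀ k, k < 17 → ∀ i, i < 17 + 1 →
    comb 17 (certA.getD k []) (rowsA.map fun p => p.2.map Prod.fst) i = tgtOf GfA CfA jkA jpA k i := by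
  decide +kernel

theorem hjkA : ∀ k, k < 17 → labA (dotZ xA (rootA k)) = jkA.getD k 0 := by decide +kernel
theorem hjpA : ∀ k, k < 17 → labA (dotZ xA (McLWG.act 2 (rootA k))) = jpA.getD k 0 := by decide +kernel

/-- The data of the system. -/
noncomputable def DA : RS KA where
  r := xA
  q := qA
  m := 11
  N := 17
  hm := by norm_num
  hr := St_xA
  hq := St_qA
  Yc := McLWG.e2
  hYK := McLWG.mem2
  actY := McLWG.act 2
  hYa := McLWG.acts2
  hYq := by decide +kernel
  hYm := Y_powA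
  root := rootA
  hroot := fun k hk => St_of_inDA (root_inA k hk)
  hrO := root_orbitA
  actL := actLA
  hL := hLA
  cover := coverA
  rows := rowsA
  hrows := rowsA_ok
  certL := certA
  GfL := GfA
  CfL := CfA
  jk := jkA
  jp := jpA
  hcert := certA_ok
  lab := labA
  hjk := hjkA
  hjp := hjpA

/-! ### Fibres -/

/-- The suborbit data. -/
theorem rankA : RankData AA (dd xA) ({32, 0, 16, 8} : Finset ℤ)
    (fun d => if d = 32 then 1 else if d = 0 then 330 else if d = 16 then 462 else 1232) :=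
  rank_2025 _ _ norm_lv0' norm_lw0 dot_v0w0 _ xA_mem

theorem fibA : DA.Fib := by
  intro y hy z hz hd
  have hy' : y ∈ DS AA := orbitA ▸ hy
  have hz' : z ∈ DS AA := orbitA ▸ hz
  exact fib_of_rank KA_of rankA xA_mem (by decide) (by decide) hy' hz' hd

theorem dot_rootA (k : ℕ) (d : ℤ) (hk : k < DA.N) (h : dotZ DA.r (DA.root k) = d) {d' : ℤ}
    (h' : dotZ DA.r (DA.actY (DA.root k)) = d') (hr : DA.Reach d) : DA.Reach d' := by
  rw [← h']
  apply DA.reach_step fibA hk
  rw [h]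
  exact hr

theorem reachA32 : DA.Reach 32 := by
  have := DA.reach_base fibA
  rwa [show dotZ DA.r DA.r = 32 by decide +kernel] at this
theorem reachA0 : DA.Reach 0 := dot_rootA 0 32 (by decide +kernel) (by decide +kernel) (by decide +kernel) reachA32
theorem reachA8 : DA.Reach 8 := dot_rootA 1 0 (by decide +kernel) (by decide +kernel) (by decide +kernel) reachA0
theorem reachA16 : DA.Reach 16 := dot_rootA 4 0 (by decide +kernel) (by decide +kernel) (by decide +kernel) reachA0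

theorem ptA : ∀ y ∈ orbit ↥KA (dd DA.r), DA.Pt y := by
  apply DA.all_pt (F := ({32, 0, 16, 8} : Finset ℤ))
  · intro y hy
    have hy' : y ∈ DS AA := orbitA ▸ hy
    exact rankA.2.2 y hy'
  · intro d hd
    simp only [Finset.mem_insert, Finset.mem_singleton] at hd
    rcases hd with rfl | rfl | rfl | rfl
    · exact reachA32
    · exact reachA0
    · exact reachA16
    · exact reachA8

/-! ### Good points -/

/-- The check of a triple. -/
def chkA (rep : ℕ) (t : ℕ × ℕ × ℕ) : Bool :=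
  isM24 t.1 && isM24 t.2.1 && isM24 t.2.2 && fixA t.1 && fixA t.2.1 && fixA t.2.2 &&
    Nat.beq (actPerm t.1 xA) xA && Nat.beq (actPerm t.2.1 xA) xA && Nat.beq (actPerm t.2.2 xA) xA &&
    Nat.beq (actPerm t.1 rep) rep && Nat.beq (actPerm t.2.1 rep) rep && Nat.beq (actPerm t.2.2 rep) rep &&
    eqChk (fun n => actPerm t.1 (actPerm t.2.2 (actPerm t.2.1 n))) (fun n => actPerm t.2.1 (actPerm t.2.2 n))

theorem St_zzA : St zzA := St_of_stChk (by decide +kernel)

theorem chk0 : cmtA0.all (chkA repA0) = true := by decide +kernel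
theorem chk1 : cmtA1.all (chkA repA1) = true := by decide +kernel
theorem chk2 : cmtA2.all (chkA repA2) = true := by decide +kernel

theorem card_Q0 : 960 ≤ Nat.card (Qc gsA0) :=
  card_le_of_table (act := actQA0) (fun g => actsIn_getD (by decide +kernel) (by decide +kernel) g) St_zzA (M := 4) (by norm_num) allQA0
theorem card_Q1 : 360 ≤ Nat.card (Qc gsA1) :=
  card_le_of_table (act := actQA1) (fun g => actsIn_getD (by decide +kernel) (by decide +kernel) g) St_zzA (M := 2) (by norm_num) allQA1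
theorem card_Q2 : 1344 ≤ Nat.card (Qc gsA2) :=
  card_le_of_table (act := actQA2) (fun g => actsIn_getD (by decide +kernel) (by decide +kernel) g) St_zzA (M := 6) (by norm_num) allQA2

theorem card_KA_x : Nat.card ↥(KA ⊓ stb (dd xA)) = 443520 :=
  card_mcl_pt _ _ _ norm_lv0' norm_lw0 dot_v0w0 xA_mem

/-- A lemma for the orders of the stabilisers. -/
theorem card_stabA {d : ℤ} (hd : d ∈ ({0, 16, 8} : Finset ℤ)) {n a : ℕ} (hn : (if d = 32 then 1 else if d = 0 then 330 else if d = 16 then 462 else 1232) = n)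
    (hna : n * a = 443520) (ha : 0 < n) {x : LL} (hx : x ∈ DS ((dd xA, d) :: AA)) :
    Nat.card ↥(KA ⊓ stb (dd xA) ⊓ stb x) = a := by
  have hd' : d ∈ ({32, 0, 16, 8} : Finset ℤ) := by
    simp only [Finset.mem_insert, Finset.mem_singleton] at hd ⊢
    tauto
  have hne : d ≠ 32 := by
    simp only [Finset.mem_insert, Finset.mem_singleton] at hd
    rcases hd with rfl | rfl | rfl <;> decide
  have h1 := card_fib KA_fix KA_of (rankA.2.1 d hd' hne) hx
  rw [card_KA_x, rankA.1 d hd'] at h1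
  beta_reduce at h1
  rw [hn, ← hna] at h1
  exact (Nat.eq_of_mul_eq_mul_left ha h1).symm

theorem inr0 : inDA repA0 = true := by decide +kernel
theorem inr1 : inDA repA1 = true := by decide +kernel
theorem inr2 : inDA repA2 = true := by decide +kernel

section good

variable {Γ : Type u} [Group Γ] {π : Γ →* ↥KA} {W : Subgroup Γ} (C : Compl π DA.x0X W)

include C

/-- A point from a code. -/
noncomputable def ptA_of (n : ℕ) (h : inDA n = true) : DA.XX := ⟨dd n, by
  show dd n ∈ orbit ↥KA (dd xA)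
  rw [orbitA]
  exact dd_mem_A h⟩

omit C in
theorem ptA_of_val (n : ℕ) (h : inDA n = true) : (ptA_of n h : LL) = dd n := rfl

theorem comm_listA {rep : ℕ} (hrep : inDA rep = true) {l : List (ℕ × ℕ × ℕ)} (h : l.all (chkA rep) = true)
    {c : ℕ} (hc : c ∈ l.map Prod.fst) (hc' : isM24 c = true) :
    ∃ hm : permCo0 hc' ∈ KA, (⟨permCo0 hc', hm⟩ : ↥KA) ∈ Nx C (ptA_of rep hrep) := by
  obtain ⟨t, ht, rfl⟩ := List.mem_map.1 hc
  have h0 := List.all_eq_true.1 h t ht
  simp only [chkA, Bool.and_eq_true] at h0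
  obtain ⟨⟨⟨⟨⟨⟨⟨⟨⟨⟨⟨⟨h1, ha⟩, hb⟩, f1⟩, fa⟩, fb⟩, x1⟩, xa⟩, xb⟩, r1⟩, ra⟩, rb⟩, hchk⟩ := h0
  have hs := St_of_inDA hrep
  refine DA.comm_mem C (ptA_of rep hrep) hc' ha hb rfl rfl (mem_KA ha fa) (mem_KA hb fb) ?_ ?_ ?_ ?_ hchk
  · exact smul_dd_eq (actPerm_acts ha) St_xA (Nat.eq_of_beq_eq_true xa)
  · exact smul_dd_eq (actPerm_acts hb) St_xA (Nat.eq_of_beq_eq_true xb)
  · exact smul_dd_eq (actPerm_acts ha) hs (Nat.eq_of_beq_eq_true ra)
  · exact smul_dd_eq (actPerm_acts hb) hs (Nat.eq_of_beq_eq_true rb)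

/-- A subgroup generated by commutators. -/
theorem good_repA {rep : ℕ} (hrep : inDA rep = true) {l : List (ℕ × ℕ × ℕ)} (h : l.all (chkA rep) = true)
    {gs : List ℕ} (hgs : gs = l.map Prod.fst) {a : ℕ} (hQ : a ≤ Nat.card (Qc gs))
    (hS : Nat.card ↥(KA ⊓ stb (dd xA) ⊓ stb (dd rep)) = a) : Good π DA.x0X W (ptA_of rep hrep) := by
  have hs := St_of_inDA hrep
  apply DA.good_of_Qc C (ptA_of rep hrep) (gs := gs)
  · intro c hc hc'
    exact comm_listA C hrep h (hgs ▸ hc) hc'
  · rw [Qc, Subgroup.closure_le]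
    rintro g ⟨c, hc, hc', rfl⟩
    obtain ⟨t, ht, rfl⟩ := List.mem_map.1 (hgs ▸ hc)
    have h0 := List.all_eq_true.1 h t ht
    simp only [chkA, Bool.and_eq_true] at h0
    obtain ⟨⟨⟨⟨⟨⟨⟨⟨⟨⟨⟨⟨h1, ha⟩, hb⟩, f1⟩, fa⟩, fb⟩, x1⟩, xa⟩, xb⟩, r1⟩, ra⟩, rb⟩, hchk⟩ := h0
    refine ⟨⟨mem_KA hc' f1, smul_dd_eq (actPerm_acts hc') St_xA (Nat.eq_of_beq_eq_true x1)⟩, ?_⟩
    exact smul_dd_eq (actPerm_acts hc') hs (Nat.eq_of_beq_eq_true r1)
  · show Nat.card ↥(KA ⊓ stb (dd xA) ⊓ stb (dd rep)) ≤ _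
    rw [hS]
    exact hQ

omit C in
theorem dd_fibA {n : ℕ} (h : inDA n = true) {d : ℤ} (hd : dotZ xA n = d) : dd n ∈ DS ((dd xA, d) :: AA) :=
  mem_DS_cons.2 ⟨dd_mem_A h, by rw [dot_dd St_xA (St_of_inDA h), hd]⟩

/-- All points are good. -/
theorem goodA : ∀ x : DA.XX, Good π DA.x0X W x := by
  have g0 := good_repA C inr0 chk0 (gs := gsA0) (by decide +kernel) card_Q0
    (card_stabA (d := 16) (by decide) (n := 462) (by decide) (by norm_num) (by norm_num) (dd_fibA inr0 (by decide +kernel)))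
  have g1 := good_repA C inr1 chk1 (gs := gsA1) (by decide +kernel) card_Q1
    (card_stabA (d := 8) (by decide) (n := 1232) (by decide) (by norm_num) (by norm_num) (dd_fibA inr1 (by decide +kernel)))
  have g2 := good_repA C inr2 chk2 (gs := gsA2) (by decide +kernel) card_Q2
    (card_stabA (d := 0) (by decide) (n := 330) (by decide) (by norm_num) (by norm_num) (dd_fibA inr2 (by decide +kernel)))
  have gb := good_base C
  intro x
  have hx : (x : LL) ∈ DS AA := orbitA ▸ x.2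
  have hd := rankA.2.2 _ hx
  simp only [Finset.mem_insert, Finset.mem_singleton] at hd
  have dot0 : dotInt ((dd DA.r : LL) : GolayPt → ℤ) ((ptA_of repA0 inr0 : LL) : GolayPt → ℤ) = 16 := by
    rw [ptA_of_val]
    exact (dot_dd St_xA (St_of_inDA inr0)).trans (by decide +kernel)
  have dot1 : dotInt ((dd DA.r : LL) : GolayPt → ℤ) ((ptA_of repA1 inr1 : LL) : GolayPt → ℤ) = 8 := by
    rw [ptA_of_val]
    exact (dot_dd St_xA (St_of_inDA inr1)).trans (by decide +kernel)
  have dot2 : dotInt ((dd DA.r : LL) : GolayPt → ℤ) ((ptA_of repA2 inr2 : LL) : GolayPt → ℤ) = 0 := by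
    rw [ptA_of_val]
    exact (dot_dd St_xA (St_of_inDA inr2)).trans (by decide +kernel)
  have dotb : dotInt ((dd DA.r : LL) : GolayPt → ℤ) ((DA.x0X : LL) : GolayPt → ℤ) = 32 :=
    (dot_dd St_xA St_xA).trans (by decide +kernel)
  rcases hd with e | e | e | e
  · exact DA.good_fib C fibA (dotb.trans e.symm) gb
  · exact DA.good_fib C fibA (dot2.trans e.symm) g2
  · exact DA.good_fib C fibA (dot0.trans e.symm) g0
  · exact DA.good_fib C fibA (dot1.trans e.symm) g1

end good

/-- The extension is trivial. -/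
theorem ker_A {Γ : Type u} [Group Γ] {π : Γ →* ↥KA} {W : Subgroup Γ} (C : Compl π DA.x0X W)
    (hstem : π.ker ≤ commutator Γ) : π.ker = ⊥ :=
  DA.ker_bot C hstem (goodA C) ptA

end Cfsg.Agent.Lib.Co2Rel20
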