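import Mathlib
import Cfsg.Agent.Lib.Co2Rel20Gen
import Cfsg.Agent.Lib.Co2Rel20BCov
import Cfsg.Agent.Lib.Co2Rel20BTab

set_option autoImplicit false
set_option linter.unusedVariables false
set_option linter.unusedSectionVars false
set_option maxRecDepth 100000

/-!
# The linear system for the second Conway group on 47104 points
-/

namespace Cfsg.Agent.Lib.Co2Rel20

open Cfsg Cfsg.Agent.Lib.CoVec Cfsg.Agent.Lib.CoConf MulAction Cfsg.Agent.Lib.SchurRel19
open Cfsg.Agent.Lib.Co3Rel19 (dd dd_val dd_eq smul_dd smul_dd_eq dd_inj Qc card_le_of_table actsIn_getD eq_of_eqChk eqChk)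
open Cfsg.Agent.Lib.Golay (isM24 reduce)

universe u

/-- The subgroup. -/
noncomputable abbrev KB : Subgroup Co0 := stb McLWG.lw0

/-- The conditions for the points. -/
noncomputable abbrev AB : List (LL × ℤ) := [(McLWG.lw0, -8)]

theorem lv0_eq' : McLWG.lv0 = dd McLWG.v0 := (dd_eq McLWG.St_v0).symm
theorem lw0_eq' : McLWG.lw0 = dd McLWG.w0 := (dd_eq McLWG.St_w0).symm

theorem KB_fix : ∀ k ∈ KB, ∀ p ∈ AB, k • p.1 = p.1 := by
  intro k hk p hp
  simp only [AB, List.mem_singleton] at hp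
  subst hp
  exact hk

theorem KB_of : ∀ k : Co0, (∀ p ∈ AB, k • p.1 = p.1) → k ∈ KB :=
  fun k hk => hk (McLWG.lw0, -8) (by simp [AB])

theorem transB : TransOn AB := by
  intro y hy z hz
  have hy2 : dotInt (McLWG.lw0 : GolayPt → ℤ) (y : GolayPt → ℤ) = -8 := hy.2 (McLWG.lw0, -8) (by simp [AB])
  have hz2 : dotInt (McLWG.lw0 : GolayPt → ℤ) (z : GolayPt → ℤ) = -8 := hz.2 (McLWG.lw0, -8) (by simp [AB])
  obtain ⟨g, g1, g2⟩ := Cfsg.Agent.Lib.Co0Pair.pairM8 norm_lw0 norm_lw0 hy.1 hz.1 hy2 hz2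
  refine ⟨g, ?_, g2⟩
  intro p hp
  simp only [AB, List.mem_singleton] at hp
  subst hp
  exact g1

theorem ncardB : (DS AB).ncard = 47104 := ncard_47104 _ norm_lw0

/-- The check of a point. -/
def inDB (n : ℕ) : Bool :=
  stChk n && Nat.beq (sqN n) 32 && decide (dotZ McLWG.w0 n = -8)

theorem St_of_inDB {n : ℕ} (h : inDB n = true) : St n := by
  simp only [inDB, Bool.and_eq_true] at h
  exact St_of_stChk h.1.1

theorem dd_mem_B {n : ℕ} (h : inDB n = true) : dd n ∈ DS AB := by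
  have hs := St_of_inDB h
  simp only [inDB, Bool.and_eq_true, decide_eq_true_eq] at h
  obtain ⟨⟨-, h2⟩, h3⟩ := h
  refine ⟨?_, ?_⟩
  · rw [norm_dd hs, Nat.eq_of_beq_eq_true h2]
    rfl
  · intro p hp
    simp only [AB, List.mem_singleton] at hp
    subst hp
    show dotInt (McLWG.lw0 : GolayPt → ℤ) ((dd n : LL) : GolayPt → ℤ) = -8
    rw [lw0_eq', dot_dd McLWG.St_w0 hs, h3]

theorem St_qB : St qB := St_of_stChk (by decide +kernel)
theorem v0_in : inDB McLWG.v0 = true := by decide +kernel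
theorem v0_mem : dd McLWG.v0 ∈ DS AB := dd_mem_B v0_in

theorem orbitB : orbit ↥KB (dd McLWG.v0) = DS AB := orbit_eq_DS KB_fix KB_of transB v0_mem

/-! ### The extra generator -/

theorem hyB : isM24 yB = true := by decide +kernel

/-- The extra generator -/
noncomputable def YcB : Co0 := permCo0 hyB

theorem acts_YB : ActsOn YcB (actPerm yB) := actPerm_acts hyB

theorem mem_of_fix {g : Co0} {f : ℕ → ℕ} (hg : ActsOn g f) (h : f McLWG.w0 = McLWG.w0) : g ∈ KB :=
  mem_stabilizer_of_acts hg McLWG.St_w0 rfl h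

theorem YB_mem : YcB ∈ KB := mem_of_fix acts_YB (by decide +kernel)

theorem Y_powB : YcB ^ 7 = 1 := eq_of_eqChk (acts_pow acts_YB 7) ActsOn.one (by decide +kernel)

/-- the roots -/
def rootB (k : ℕ) : ℕ := rootsB.getD k 0

theorem root_inB : ∀ k, k < 23 → inDB (rootB k) = true := by decide +kernel

theorem hL0B : isM24 lB0 = true := by decide +kernel
theorem hL1B : isM24 lB1 = true := by decide +kernel

theorem actLB_zero : actLB 0 = actPerm lB0 := by
  funext n
  simp [actLB]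

theorem actLB_one : actLB 1 = actPerm lB1 := by
  funext n
  have e : Nat.beq 1 0 = false := rfl
  simp [actLB, e]

theorem actLB_two (g : ℕ) : actLB (g + 2) = actW lstarB := by
  funext n
  have e1 : Nat.beq (g + 2) 0 = false := rfl
  have e2 : Nat.beq (g + 2) 1 = false := by
    cases h : Nat.beq (g + 2) 1
    · rfl
    · have := Nat.eq_of_beq_eq_true h
      omega
  simp [actLB, e1, e2]

theorem hLB (g : ℕ) : ∃ l ∈ KB, l • dd McLWG.v0 = dd McLWG.v0 ∧ l • dd qB = dd qB ∧ ActsOn l (actLB g) := by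
  match g with
  | 0 =>
    rw [actLB_zero]
    exact ⟨permCo0 hL0B, mem_of_fix (actPerm_acts hL0B) (by decide +kernel),
      smul_dd_eq (actPerm_acts hL0B) McLWG.St_v0 (by decide +kernel),
      smul_dd_eq (actPerm_acts hL0B) St_qB (by decide +kernel), actPerm_acts hL0B⟩
  | 1 =>
    rw [actLB_one]
    exact ⟨permCo0 hL1B, mem_of_fix (actPerm_acts hL1B) (by decide +kernel),
      smul_dd_eq (actPerm_acts hL1B) McLWG.St_v0 (by decide +kernel),
      smul_dd_eq (actPerm_acts hL1B) St_qB (by decide +kernel), actPerm_acts hL1B⟩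
  | g + 2 =>
    rw [actLB_two]
    obtain ⟨l, hl⟩ := exists_W (w := lstarB) (by decide +kernel)
    exact ⟨l, mem_of_fix hl (by decide +kernel), smul_dd_eq hl McLWG.St_v0 (by decide +kernel),
      smul_dd_eq hl St_qB (by decide +kernel), hl⟩

theorem root_orbitB : ∀ k, k < 23 → dd (rootB k) ∈ orbit ↥KB (dd McLWG.v0) := fun k hk => by
  rw [orbitB]
  exact dd_mem_B (root_inB k hk)

theorem rootB_zero : rootB 0 = McLWG.v0 := by decide +kernel

theorem coverB : ∀ x ∈ orbit ↥KB (dd McLWG.v0), ∃ k, k < 23 ∧ ∃ l ∈ KB, l • dd McLWG.v0 = dd McLWG.v0 ∧ l • dd qB = dd qB ∧ l • dd (rootB k) = x :=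
  cover_of_table (nG := 3) (T := TCovB) (U := UCovB) (n := 47104) (M := 184) hLB (fun k hk => St_of_inDB (root_inB k hk))
    root_orbitB (by norm_num) rootB_zero (by norm_num) allCovB (by rw [orbitB, ncardB])

/-- labels -/
def labB (d : ℤ) : ℕ := if d = 32 then 0 else if d = 16 then 1 else if d = 8 then 2 else if d = 0 then 3 else if d = -8 then 4 else 5

theorem rowsB_ok : rowsB.all (fun p => rowChk actLB (actPerm yB) rootB 23 p.1 p.2 && Nat.beq p.2.length 7) = true := by
  decide +kernel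

theorem certB_ok : ∀ k, k < 23 → ∀ i, i < 23 + 1 →
    comb 23 (certB.getD k []) (rowsB.map fun p => p.2.map Prod.fst) i = tgtOf GfB CfB jkB jpB k i := by
  decide +kernel

theorem hjkB : ∀ k, k < 23 → labB (dotZ McLWG.v0 (rootB k)) = jkB.getD k 0 := by decide +kernel
theorem hjpB : ∀ k, k < 23 → labB (dotZ McLWG.v0 (actPerm yB (rootB k))) = jpB.getD k 0 := by decide +kernel
theorem hYqB : actPerm yB qB = McLWG.v0 := by decide +kernel

/-- The data of the system. -/
noncomputable def DB : RS KB where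
  r := McLWG.v0
  q := qB
  m := 7
  N := 23
  hm := by norm_num
  hr := McLWG.St_v0
  hq := St_qB
  Yc := YcB
  hYK := YB_mem
  actY := actPerm yB
  hYa := acts_YB
  hYq := hYqB
  hYm := Y_powB
  root := rootB
  hroot := fun k hk => St_of_inDB (root_inB k hk)
  hrO := root_orbitB
  actL := actLB
  hL := hLB
  cover := coverB
  rows := rowsB
  hrows := rowsB_ok
  certL := certB
  GfL := GfB
  CfL := CfB
  jk := jkB
  jp := jpB
  hcert := certB_ok
  lab := labB
  hjk := hjkB
  hjp := hjpB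

/-! ### Fibres -/

theorem lv0_mem : McLWG.lv0 ∈ DS AB := lv0_eq' ▸ v0_mem

/-- The suborbit data. -/
theorem rankB : RankData AB (dd McLWG.v0) (insert 32 ({-16, 16, -8, 8, 0} : Finset ℤ))
    (fun d => if d = 32 then 1 else if d = -16 then 275 else if d = 16 then 2025 else if d = -8 then 7128 else
      if d = 8 then 15400 else 22275) := by
  rw [← lv0_eq']
  exact rank_47104 _ _ norm_lw0 lv0_mem

theorem fibB : DB.Fib := by
  intro y hy z hz hd
  have hy' : y ∈ DS AB := orbitB ▸ hy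
  have hz' : z ∈ DS AB := orbitB ▸ hz
  exact fib_of_rank KB_of rankB v0_mem (by decide) (by decide) hy' hz' hd

theorem dot_rootB (k : ℕ) (d : ℤ) (hk : k < DB.N) (h : dotZ DB.r (DB.root k) = d) {d' : ℤ}
    (h' : dotZ DB.r (DB.actY (DB.root k)) = d') (hr : DB.Reach d) : DB.Reach d' := by
  rw [← h']
  apply DB.reach_step fibB hk
  rw [h]
  exact hr

theorem reachB32 : DB.Reach 32 := by
  have := DB.reach_base fibB
  rwa [show dotZ DB.r DB.r = 32 by decide +kernel] at this
theorem reachB16 : DB.Reach 16 := dot_rootB 0 32 (by decide +kernel) (by decide +kernel) (by decide +kernel) reachB32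
theorem reachB0 : DB.Reach 0 := dot_rootB 3 16 (by decide +kernel) (by decide +kernel) (by decide +kernel) reachB16
theorem reachB8 : DB.Reach 8 := dot_rootB 5 16 (by decide +kernel) (by decide +kernel) (by decide +kernel) reachB16
theorem reachBm8 : DB.Reach (-8) := dot_rootB 12 0 (by decide +kernel) (by decide +kernel) (by decide +kernel) reachB0
theorem reachBm16 : DB.Reach (-16) := dot_rootB 18 0 (by decide +kernel) (by decide +kernel) (by decide +kernel) reachB0

theorem ptB : ∀ y ∈ orbit ↥KB (dd DB.r), DB.Pt y := by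
  apply DB.all_pt (F := insert 32 ({-16, 16, -8, 8, 0} : Finset ℤ))
  · intro y hy
    have hy' : y ∈ DS AB := orbitB ▸ hy
    exact rankB.2.2 y hy'
  · intro d hd
    simp only [Finset.mem_insert, Finset.mem_singleton] at hd
    rcases hd with rfl | rfl | rfl | rfl | rfl | rfl
    · exact reachB32
    · exact reachBm16
    · exact reachB16
    · exact reachBm8
    · exact reachB8
    · exact reachB0

/-! ### The fibre of inner product 16 -/

/-- The set of points of the fibre -/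
noncomputable abbrev F16 : List (LL × ℤ) := (dd McLWG.v0, 16) :: AB

theorem ncard_F16 : (DS F16).ncard = 2025 := by
  have h := rankB.1 16 (by decide)
  simpa using h

/-- The check of a point of the fibre. -/
def inF (n : ℕ) : Bool := inDB n && decide (dotZ McLWG.v0 n = 16)

theorem inDB_of_inF {n : ℕ} (h : inF n = true) : inDB n = true := by
  simp only [inF, Bool.and_eq_true] at h
  exact h.1

theorem dd_mem_F {n : ℕ} (h : inF n = true) : dd n ∈ DS F16 := by
  simp only [inF, Bool.and_eq_true, decide_eq_true_eq] at h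
  refine mem_DS_cons.2 ⟨dd_mem_B h.1, ?_⟩
  rw [dot_dd McLWG.St_v0 (St_of_inDB h.1), h.2]

theorem St_f0B : St f0B := St_of_stChk (by decide +kernel)
theorem f0B_in : inF f0B = true := by decide +kernel

theorem McL_fix_F : ∀ k ∈ McLWG.H, ∀ p ∈ F16, k • p.1 = p.1 := by
  intro k hk p hp
  have a1 : k • McLWG.lv0 = McLWG.lv0 := hk.1
  have a2 : k • McLWG.lw0 = McLWG.lw0 := hk.2
  simp only [F16, AB, List.mem_cons, List.not_mem_nil, or_false] at hp
  rcases hp with rfl | rfl
  · rw [← lv0_eq']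
    exact a1
  · exact a2

/-- Each point of the fibre is in the list. -/
theorem exists_F16 {y : LL} (hy : y ∈ DS F16) : ∃ i < 2025, St (lCode (atW TF16 i)) ∧ y = dd (lCode (atW TF16 i)) := by
  classical
  obtain ⟨h1, S, hc, hS, hS2⟩ := table_orbit McLWG.act_in St_f0B (N := 2025) (M := 8) (by norm_num) allF16
  have hsub : (S : Set (GolayPt → ℤ)) ⊆ Subtype.val '' DS F16 := by
    intro a ha
    obtain ⟨k, hk, e⟩ := hS ha
    refine ⟨k • dd f0B, smul_mem_DS (McL_fix_F k hk) (dd_mem_F f0B_in), ?_⟩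
    rw [dd_eq St_f0B]
    exact e
  have heq : (S : Set (GolayPt → ℤ)) = Subtype.val '' DS F16 := by
    apply Set.eq_of_subset_of_ncard_le hsub _ ((finite_DS _).image _)
    rw [Set.ncard_coe_finset, Set.ncard_image_of_injective _ Subtype.val_injective, hc, ncard_F16]
  have h3 : (y : GolayPt → ℤ) ∈ (S : Set (GolayPt → ℤ)) := heq ▸ ⟨y, hy, rfl⟩
  rw [hS2] at h3
  obtain ⟨i, hi, e⟩ := Finset.mem_image.1 (Finset.mem_coe.1 h3)
  have hi' := Finset.mem_range.1 hi
  refine ⟨i, hi', (h1 i hi').1, ?_⟩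
  apply Subtype.ext
  rw [dd_val (h1 i hi').1]
  exact e.symm

/-- The number of points of the fibre with a given inner product. -/
theorem card_Om {xc : ℕ} (hx : St xc) {d₂ : ℤ} {n : ℕ}
    (h : ((List.range 2025).filter (fun i => decide (dotZ xc (lCode (atW TF16 i)) = d₂))).length = n) :
    {y : LL | y ∈ DS F16 ∧ dotInt ((dd xc : LL) : GolayPt → ℤ) (y : GolayPt → ℤ) = d₂}.ncard ≤ n := by
  classical
  let L := (List.range 2025).filter (fun i => decide (dotZ xc (lCode (atW TF16 i)) = d₂))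
  have hsub : {y : LL | y ∈ DS F16 ∧ dotInt ((dd xc : LL) : GolayPt → ℤ) (y : GolayPt → ℤ) = d₂} ⊆
      (fun i => dd (lCode (atW TF16 i))) '' (L.toFinset : Set ℕ) := by
    rintro y ⟨hy, hd⟩
    obtain ⟨i, hi, hs, rfl⟩ := exists_F16 hy
    refine ⟨i, ?_, rfl⟩
    simp only [L, List.coe_toFinset, Set.mem_ofPred_eq, List.mem_filter, List.mem_range, decide_eq_true_eq]
    refine ⟨hi, ?_⟩
    rw [← hd, dot_dd hx hs]
  have hfin : ((fun i => dd (lCode (atW TF16 i))) '' (L.toFinset : Set ℕ)).Finite := (Finset.finite_toSet _).image _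
  refine (Set.ncard_le_ncard hsub hfin).trans ((Set.ncard_image_le (Finset.finite_toSet _)).trans ?_)
  rw [Set.ncard_coe_finset, ← h]
  exact List.toFinset_card_le _

theorem finite_Om (xc : ℕ) (d₂ : ℤ) :
    {y : LL | y ∈ DS F16 ∧ dotInt ((dd xc : LL) : GolayPt → ℤ) (y : GolayPt → ℤ) = d₂}.Finite :=
  (finite_DS _).subset (fun y hy => hy.1)

/-- The check of a generator. -/
def chkG (rep : ℕ) (d₂ : ℤ) (p : ℕ × List (ℕ × ℕ)) : Bool :=
  okW p.2 && Nat.beq (actW p.2 McLWG.w0) McLWG.w0 && Nat.beq (actW p.2 McLWG.v0) McLWG.v0 && Nat.beq (actW p.2 rep) rep &&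
    Nat.beq (actW p.2 p.1) p.1 && inF p.1 && decide (dotZ rep p.1 = d₂)

theorem dotZ_comm {a b : ℕ} (ha : St a) (hb : St b) : dotZ a b = dotZ b a := by
  rw [← dot_dd ha hb, dot_comm, dot_dd hb ha]

section good

variable {Γ : Type u} [Group Γ] {π : Γ →* ↥KB} {W : Subgroup Γ} (C : Compl π DB.x0X W)

/-- A point from a code. -/
noncomputable def ptB_of (n : ℕ) (h : inDB n = true) : DB.XX := ⟨dd n, by
  show dd n ∈ orbit ↥KB (dd McLWG.v0)
  rw [orbitB]
  exact dd_mem_B h⟩

theorem ptB_of_val (n : ℕ) (h : inDB n = true) : (ptB_of n h : LL) = dd n := rfl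

include C

/-- The step for a fibre with a table. -/
theorem good_tab {P : ℤ → Prop}
    (hP : ∀ x : DB.XX, P (dotInt ((dd DB.r : LL) : GolayPt → ℤ) ((x : LL) : GolayPt → ℤ)) → Good π DB.x0X W x)
    (hP16 : P 16) {d₂ : ℤ} (hP2 : P d₂) {rep z : ℕ} (hrep : inDB rep = true) (hz : inF z = true)
    (hzd : dotZ rep z = d₂) {gn : List (ℕ × List (ℕ × ℕ))} (hgn : ((z, []) :: gn).all (chkG rep d₂) = true)
    {T U : Tr} {n M : ℕ} (hN : n ≤ 256 * M)
    (hall : ∀ k < M, chunkOK (fun g x => actW (gn.getD g (z, [])).2 x) T U z n k (cntOf n k) = true)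
    (hcount : ((List.range 2025).filter (fun i => decide (dotZ rep (lCode (atW TF16 i)) = d₂))).length = n) :
    Good π DB.x0X W (ptB_of rep hrep) := by
  have hsrep := St_of_inDB hrep
  have hzB := inDB_of_inF hz
  have hsz := St_of_inDB hzB
  have dr : ∀ {m : ℕ} (h : inF m = true),
      dotInt ((dd DB.r : LL) : GolayPt → ℤ) ((dd m : LL) : GolayPt → ℤ) = 16 := fun {m} h => (dd_mem_F h).2 (dd McLWG.v0, 16) (by simp)
  have hact : ∀ g, ∃ t : ↥KB, t ∈ Nx C (ptB_of rep hrep) ∧ t • ptB_of rep hrep = ptB_of rep hrep ∧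
      ActsOn (t : Co0) (fun x => actW (gn.getD g (z, [])).2 x) := by
    intro g
    have hm := getD_mem_cons gn (z, []) g
    have h0 := List.all_eq_true.1 hgn _ hm
    simp only [chkG, Bool.and_eq_true, decide_eq_true_eq] at h0
    obtain ⟨⟨⟨⟨⟨⟨h1, h2⟩, h3⟩, h4⟩, h5⟩, h6⟩, h7⟩ := h0
    obtain ⟨l, hl⟩ := exists_W h1
    have hlK : l ∈ KB := mem_of_fix hl (Nat.eq_of_beq_eq_true h2)
    have l1 : l • dd McLWG.v0 = dd McLWG.v0 := smul_dd_eq hl McLWG.St_v0 (Nat.eq_of_beq_eq_true h3)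
    have l2 : l • dd rep = dd rep := smul_dd_eq hl hsrep (Nat.eq_of_beq_eq_true h4)
    have hz6 := St_of_inDB (inDB_of_inF h6)
    have l3 := smul_dd_eq hl hz6 (Nat.eq_of_beq_eq_true h5)
    refine ⟨⟨l, hlK⟩, ?_, Subtype.ext l2, hl⟩
    refine DB.mem_Nx_of_fix C hP (ptB_of rep hrep) (ptB_of _ (inDB_of_inF h6)) (Subtype.ext l1) (Subtype.ext l2) (Subtype.ext l3) ?_ ?_
    · rw [ptB_of_val, dr h6]
      exact hP16
    · rw [ptB_of_val, ptB_of_val, dot_dd hz6 hsrep]
      rw [dotZ_comm hz6 hsrep, h7]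
      exact hP2
  have htr := DB.trans_of_table C (ptB_of rep hrep) hsz hact hN hall (finite_Om rep d₂) (card_Om hsrep hcount) (by
    intro t ht1 ht2
    refine ⟨smul_mem_DS ?_ (dd_mem_F hz), ?_⟩
    · intro p hp
      simp only [F16, AB, List.mem_cons, List.not_mem_nil, or_false] at hp
      rcases hp with rfl | rfl
      · exact congrArg Subtype.val ht1
      · exact t.2
    · have e : (t : Co0) • dd rep = dd rep := congrArg Subtype.val ht2
      rw [dot_fix e, dot_dd hsrep hsz, hzd])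
  refine DB.good_step C hP (z₀ := ptB_of z hzB) hP16 hP2 (dr hz) (by
    rw [ptB_of_val, ptB_of_val, dot_dd hsrep hsz, hzd]) ?_
  intro y e1 e2
  have hyF : (y : LL) ∈ DS F16 := by
    refine mem_DS_cons.2 ⟨?_, e1⟩
    exact (Set.ext_iff.1 orbitB _).1 y.2
  obtain ⟨t, t1, t2, t3⟩ := htr _ ⟨hyF, e2⟩
  exact ⟨t, t1, t2, Subtype.ext t3⟩

/-- The points with inner product 16 are good: the stabiliser of two points is a simple group. -/
theorem good16 (x : DB.XX) (hx : dotInt ((dd DB.r : LL) : GolayPt → ℤ) ((x : LL) : GolayPt → ℤ) = 16) :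
    Good π DB.x0X W x := by
  have hx0 : (x : LL) ∈ DS AB := (Set.ext_iff.1 orbitB _).1 x.2
  have hxw : dotInt (McLWG.lw0 : GolayPt → ℤ) ((x : LL) : GolayPt → ℤ) = -8 := hx0.2 (McLWG.lw0, -8) (by simp [AB])
  have hxv : dotInt (McLWG.lv0 : GolayPt → ℤ) ((x : LL) : GolayPt → ℤ) = 16 := by
    rw [lv0_eq']
    exact hx
  have hwv : dotInt (McLWG.lw0 : GolayPt → ℤ) (McLWG.lv0 : GolayPt → ℤ) = -8 := by
    rw [dot_comm]
    exact dot_v0w0
  let x' : LL := McLWG.lv0 - (x : LL)
  have hx'a : dotInt (McLWG.lw0 : GolayPt → ℤ) (x' : GolayPt → ℤ) = 0 := by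
    show dotInt (McLWG.lw0 : GolayPt → ℤ) ((McLWG.lv0 : GolayPt → ℤ) - ((x : LL) : GolayPt → ℤ)) = 0
    rw [dot_sub_right, hwv, hxw]
    norm_num
  have hx'b : dotInt (McLWG.lv0 : GolayPt → ℤ) (x' : GolayPt → ℤ) = 16 := by
    show dotInt (McLWG.lv0 : GolayPt → ℤ) ((McLWG.lv0 : GolayPt → ℤ) - ((x : LL) : GolayPt → ℤ)) = 16
    rw [dot_sub_right, hxv, dot_self, norm_lv0']
    norm_num
  have hx'n : sqNorm (x' : GolayPt → ℤ) = 32 := by
    show sqNorm ((McLWG.lv0 : GolayPt → ℤ) - ((x : LL) : GolayPt → ℤ)) = 32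
    rw [norm_sub, norm_lv0', hx0.1, hxv]
    norm_num
  have hx'd : x' ∈ DS [(McLWG.lw0, 0), (McLWG.lw0 + McLWG.lv0, 16)] := by
    refine ⟨hx'n, ?_⟩
    intro p hp
    simp only [List.mem_cons, List.not_mem_nil, or_false] at hp
    rcases hp with rfl | rfl
    · exact hx'a
    · show dotInt ((McLWG.lw0 : GolayPt → ℤ) + (McLWG.lv0 : GolayPt → ℤ)) (x' : GolayPt → ℤ) = 16
      rw [dot_add_left, hx'a, hx'b]
      norm_num
  have hsimple := mcl_pt_simple _ _ _ norm_lw0 norm_lv0' hwv hx'd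
  have hcard := card_mcl_pt _ _ _ norm_lw0 norm_lv0' hwv hx'd
  have hfin : Finite ↥(stb McLWG.lw0 ⊓ stb McLWG.lv0 ⊓ stb x') := by
    have := finite_Co0'
    infer_instance
  have hperf := perfect_of_card hcard (by norm_num)
  let φ : ↥(stb McLWG.lw0 ⊓ stb McLWG.lv0 ⊓ stb x') →* ↥KB := Subgroup.inclusion (inf_le_left.trans inf_le_left)
  have hφ : (⊤ : Subgroup ↥(stb McLWG.lw0 ⊓ stb McLWG.lv0 ⊓ stb x')).map φ ≤ Sx (G := ↥KB) DB.x0X x := by
    rintro _ ⟨⟨h, ⟨h1, h2⟩, h3⟩, -, rfl⟩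
    have a1 : h • McLWG.lv0 = McLWG.lv0 := h2
    have a3 : h • x' = x' := h3
    have a4 : h • (x : LL) = x := by
      have e : (x : LL) = McLWG.lv0 - x' := by
        simp [x']
      rw [e, smul_sub', a1, a3]
    refine ⟨?_, ?_⟩
    · apply Subtype.ext
      show h • dd DB.r = dd DB.r
      show h • dd McLWG.v0 = dd McLWG.v0
      rw [← lv0_eq']
      exact a1
    · exact Subtype.ext a4
  apply good_of_le C
  rintro s ⟨hs1, hs2⟩
  have e1 : (s : Co0) • dd McLWG.v0 = dd McLWG.v0 := congrArg Subtype.val hs1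
  have e2 : (s : Co0) • (x : LL) = x := congrArg Subtype.val hs2
  have e1' : (s : Co0) • McLWG.lv0 = McLWG.lv0 := by
    rw [lv0_eq']
    exact e1
  have hsH : (s : Co0) ∈ stb McLWG.lw0 ⊓ stb McLWG.lv0 ⊓ stb x' := by
    refine ⟨⟨s.2, e1'⟩, ?_⟩
    show (s : Co0) • x' = x'
    show (s : Co0) • (McLWG.lv0 - (x : LL)) = _
    rw [smul_sub', e1', e2]
  have h5 : (⟨(s : Co0), hsH⟩ : ↥(stb McLWG.lw0 ⊓ stb McLWG.lv0 ⊓ stb x')) ∈
      commutator ↥(stb McLWG.lw0 ⊓ stb McLWG.lv0 ⊓ stb x') := by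
    rw [hperf]
    exact Subgroup.mem_top _
  have h6 : s ∈ (commutator ↥(stb McLWG.lw0 ⊓ stb McLWG.lv0 ⊓ stb x')).map φ := ⟨_, h5, Subtype.ext rfl⟩
  rw [_root_.commutator_def, Subgroup.map_commutator] at h6
  exact comm_le_Nx C x (Subgroup.commutator_mono hφ hφ h6)

end good

theorem chkG0 : ((zB0, []) :: gnB0).all (chkG repB0 16) = true := by decide +kernel
theorem chkG1 : ((zB1, []) :: gnB1).all (chkG repB1 0) = true := by decide +kernel
theorem chkG2 : ((zB2, []) :: gnB2).all (chkG repB2 (-16)) = true := by decide +kernel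
theorem chkG3 : ((zB3, []) :: gnB3).all (chkG repB3 (-8)) = true := by decide +kernel
theorem cnt0 : ((List.range 2025).filter (fun i => decide (dotZ repB0 (lCode (atW TF16 i)) = 16))).length = 30 := by decide +kernel
theorem cnt1 : ((List.range 2025).filter (fun i => decide (dotZ repB1 (lCode (atW TF16 i)) = 0))).length = 567 := by decide +kernel
theorem cnt2 : ((List.range 2025).filter (fun i => decide (dotZ repB2 (lCode (atW TF16 i)) = -16))).length = 50 := by decide +kernel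
theorem cnt3 : ((List.range 2025).filter (fun i => decide (dotZ repB3 (lCode (atW TF16 i)) = -8))).length = 81 := by decide +kernel
theorem inZ0 : inF zB0 = true := by decide +kernel
theorem inZ1 : inF zB1 = true := by decide +kernel
theorem inZ2 : inF zB2 = true := by decide +kernel
theorem inZ3 : inF zB3 = true := by decide +kernel
theorem dr0 : dotZ McLWG.v0 repB0 = 0 := by decide +kernel
theorem dr1 : dotZ McLWG.v0 repB1 = -16 := by decide +kernel
theorem dr2 : dotZ McLWG.v0 repB2 = -8 := by decide +kernel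
theorem dr3 : dotZ McLWG.v0 repB3 = 8 := by decide +kernel
theorem dz0 : dotZ repB0 zB0 = 16 := by decide +kernel
theorem dz1 : dotZ repB1 zB1 = 0 := by decide +kernel
theorem dz2 : dotZ repB2 zB2 = -16 := by decide +kernel
theorem dz3 : dotZ repB3 zB3 = -8 := by decide +kernel
theorem inR0 : inDB repB0 = true := by decide +kernel
theorem inR1 : inDB repB1 = true := by decide +kernel
theorem inR2 : inDB repB2 = true := by decide +kernel
theorem inR3 : inDB repB3 = true := by decide +kernel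

section good2

variable {Γ : Type u} [Group Γ] {π : Γ →* ↥KB} {W : Subgroup Γ} (C : Compl π DB.x0X W)

include C

theorem good_fibre {P : ℤ → Prop}
    (hP : ∀ x : DB.XX, P (dotInt ((dd DB.r : LL) : GolayPt → ℤ) ((x : LL) : GolayPt → ℤ)) → Good π DB.x0X W x)
    (hP16 : P 16) {d₂ d : ℤ} (hP2 : P d₂) {rep z : ℕ} (hrep : inDB rep = true) (hz : inF z = true)
    (hrd : dotZ McLWG.v0 rep = d)
    (hzd : dotZ rep z = d₂) {gn : List (ℕ × List (ℕ × ℕ))} (hgn : ((z, []) :: gn).all (chkG rep d₂) = true)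
    {T U : Tr} {n M : ℕ} (hN : n ≤ 256 * M) {act : ℕ → ℕ → ℕ} (hact : act = fun g x => actW (gn.getD g (z, [])).2 x)
    (hall : ∀ k < M, chunkOK act T U z n k (cntOf n k) = true)
    (hcount : ((List.range 2025).filter (fun i => decide (dotZ rep (lCode (atW TF16 i)) = d₂))).length = n)
    (y : DB.XX) (hy : dotInt ((dd DB.r : LL) : GolayPt → ℤ) ((y : LL) : GolayPt → ℤ) = d) : Good π DB.x0X W y := by
  subst hact
  have h := good_tab C hP hP16 hP2 hrep hz hzd hgn hN hall hcount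
  refine DB.good_fib C fibB ?_ h
  rw [hy, ptB_of_val]
  exact (dot_dd McLWG.St_v0 (St_of_inDB hrep)).trans hrd

/-- All points are good. -/
theorem goodB : ∀ x : DB.XX, Good π DB.x0X W x := by
  have g16 := good16 C
  have g0 := good_fibre C (P := fun e => e = 16) g16 rfl (d₂ := 16) rfl inR0 inZ0 dr0 dz0 chkG0 (n := 30) (M := 1)
    (by norm_num) (act := actOm0) rfl allOm0 cnt0
  have gm16 := good_fibre C (P := fun e => e = 16 ∨ e = 0) (fun x hx => hx.elim (g16 x) (g0 x)) (Or.inl rfl) (d₂ := 0) (Or.inr rfl)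
    inR1 inZ1 dr1 dz1 chkG1 (n := 567) (M := 3) (by norm_num) (act := actOm1) rfl allOm1 cnt1
  have gm8 := good_fibre C (P := fun e => e = 16 ∨ e = -16) (fun x hx => hx.elim (g16 x) (gm16 x)) (Or.inl rfl) (d₂ := -16) (Or.inr rfl)
    inR2 inZ2 dr2 dz2 chkG2 (n := 50) (M := 1) (by norm_num) (act := actOm2) rfl allOm2 cnt2
  have g8 := good_fibre C (P := fun e => e = 16 ∨ e = -8) (fun x hx => hx.elim (g16 x) (gm8 x)) (Or.inl rfl) (d₂ := -8) (Or.inr rfl)
    inR3 inZ3 dr3 dz3 chkG3 (n := 81) (M := 1) (by norm_num) (act := actOm3) rfl allOm3 cnt3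
  have gb := good_base C
  intro x
  have hx : (x : LL) ∈ DS AB := (Set.ext_iff.1 orbitB _).1 x.2
  have hd := rankB.2.2 _ hx
  simp only [Finset.mem_insert, Finset.mem_singleton] at hd
  rcases hd with e | e | e | e | e | e
  · refine DB.good_fib C fibB ?_ gb
    rw [show dotInt ((dd DB.r : LL) : GolayPt → ℤ) ((x : LL) : GolayPt → ℤ) = 32 from e]
    exact (dot_dd McLWG.St_v0 McLWG.St_v0).trans (by decide +kernel)
  · exact gm16 x e
  · exact g16 x e
  · exact gm8 x e
  · exact g8 x e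
  · exact g0 x e

end good2

/-- The extension is trivial. -/
theorem ker_B {Γ : Type u} [Group Γ] {π : Γ →* ↥KB} {W : Subgroup Γ} (C : Compl π DB.x0X W)
    (hstem : π.ker ≤ commutator Γ) : π.ker = ⊥ :=
  DB.ker_bot C hstem (goodB C) ptB

end Cfsg.Agent.Lib.Co2Rel20
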