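import Mathlib
import Cfsg.Agent.Lib.Co3Rel19A
import Cfsg.Agent.Lib.Co3Rel19Q1
import Cfsg.Agent.Lib.Co3Rel19Q2
import Cfsg.Agent.Lib.Co3Rel19Q3
import Cfsg.Agent.Lib.Co3Rel19Q4
import Cfsg.Agent.Lib.Co3Rel19Q5
import Cfsg.Agent.Lib.Co3Rel19Q6
import Cfsg.Agent.Lib.Co3Rel19Q7
import Cfsg.Agent.Lib.Co3Rel19Cov

set_option autoImplicit false
set_option linter.unusedVariables false
set_option linter.unusedSectionVars false
set_option maxRecDepth 100000

/-!
# The orbits of the stabiliser on the points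
-/

namespace Cfsg.Agent.Lib.Co3Rel19

open Cfsg Cfsg.Agent.Lib.CoVec Cfsg.Agent.Lib.CoConf MulAction
open Cfsg.Agent.Lib.Golay (isM24 rowMasks)

/-- a root -/
def root (k : ℕ) : ℕ := rootsL.getD k 0
/-- a representative -/
def rp (j : ℕ) : ℕ := repsL.getD j 0
/-- a label -/
def jkf (k : ℕ) : ℕ := jkL.getD k 0
/-- a label -/
def jpf (k : ℕ) : ℕ := jpL.getD k 0
/-- an element -/
def hkf (k : ℕ) : ℕ := hkL.getD k 0
/-- an element -/
def hpf (k : ℕ) : ℕ := hpL.getD k 0

/-- the check for a root -/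
def chkRoot (k : ℕ) : Bool :=
  inDS (root k) && inH (hkf k) && Nat.beq (actPerm (hkf k) (rp (jkf k))) (root k) && inH (hpf k) &&
    Nat.beq (actPerm (hpf k) (rp (jpf k))) (actY (root k)) && Nat.ble (jkf k) 7 && Nat.ble (jpf k) 7

theorem chkRoot_all : (List.range 46).all chkRoot = true := by decide +kernel
theorem chkRep_all : (List.range 8).all (fun j => inDS (rp j)) = true := by decide +kernel

theorem chkRoot_of {k : ℕ} (hk : k < 46) : chkRoot k = true :=
  List.all_eq_true.1 chkRoot_all k (List.mem_range.2 hk)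

theorem inDS_rp {j : ℕ} (hj : j < 8) : inDS (rp j) = true :=
  List.all_eq_true.1 chkRep_all j (List.mem_range.2 hj)

theorem St_rp {j : ℕ} (hj : j < 8) : St (rp j) := St_of_inDS (inDS_rp hj)

/-- facts about a root -/
theorem root_spec {k : ℕ} (hk : k < 46) :
    inDS (root k) = true ∧ jkf k < 8 ∧ jpf k < 8 ∧
    (∃ h ∈ H0c, h • dd (rp (jkf k)) = dd (root k)) ∧ (∃ h ∈ H0c, h • dd (rp (jpf k)) = Yc • dd (root k)) := by
  have h := chkRoot_of hk
  simp only [chkRoot, Bool.and_eq_true] at h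
  obtain ⟨⟨⟨⟨⟨⟨h1, h2⟩, h3⟩, h4⟩, h5⟩, h6⟩, h7⟩ := h
  have j1 : jkf k < 8 := Nat.lt_succ_of_le (Nat.le_of_ble_eq_true h6)
  have j2 : jpf k < 8 := Nat.lt_succ_of_le (Nat.le_of_ble_eq_true h7)
  refine ⟨h1, j1, j2, ⟨_, inH_spec h2, ?_⟩, ⟨_, inH_spec h4, ?_⟩⟩
  · exact smul_dd_eq (actPerm_acts _) (St_rp j1) (Nat.eq_of_beq_eq_true h3)
  · rw [smul_dd acts_Y (St_of_inDS h1)]
    exact smul_dd_eq (actPerm_acts _) (St_rp j2) (Nat.eq_of_beq_eq_true h5)

theorem St_root {k : ℕ} (hk : k < 46) : St (root k) := St_of_inDS (root_spec hk).1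

/-! ### The stabiliser of two points -/

/-- The stabiliser of the base point and the point moved to it. -/
noncomputable def Lp : Subgroup Co0 := H0c ⊓ stabilizer Co0 (dd q0)

theorem Lp_le : Lp ≤ H0c := inf_le_left
theorem H0c_le : H0c ≤ G0 := inf_le_left

theorem inL_spec {c : ℕ} (h : inH c = true) (h2 : actPerm c q0 = q0) : permCo0 (inH_M24 h) ∈ Lp :=
  ⟨inH_spec h, smul_dd_eq (actPerm_acts _) St_q0 h2⟩

theorem l0_ok : inH l0 = true := by decide +kernel
theorem l1_ok : inH l1 = true := by decide +kernel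
theorem l0_fix : actPerm l0 q0 = q0 := by decide +kernel
theorem l1_fix : actPerm l1 q0 = q0 := by decide +kernel

theorem getD_root (k : ℕ) : (k < 46 ∧ rootsL.getD k r0 = root k) ∨ rootsL.getD k r0 = r0 := by
  by_cases hk : k < 46
  · left
    refine ⟨hk, ?_⟩
    have h : ∀ k, k < 46 → rootsL.getD k r0 = root k := by decide +kernel
    exact h k hk
  · right
    apply List.getD_eq_default
    have : rootsL.length = 46 := by decide +kernel
    omega

theorem root_zero : root 0 = r0 := by decide +kernel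

/-- Each point is in the orbit of a root. -/
theorem cover : ∀ x ∈ DS AQ, ∃ k < 46, ∃ l ∈ Lp, l • dd (root k) = x := by
  classical
  let P : ℕ → Prop := fun n => St n ∧ ∃ k < 46, ∃ l ∈ Lp, l • dd (root k) = dd n
  have hPr : ∀ k < 46, P (root k) := fun k hk => ⟨St_root hk, k, hk, 1, Lp.one_mem, by simp⟩
  have hP : ∀ g x, P x → P (actCov g x) := by
    intro g x hx
    rcases g with _ | _ | k
    · obtain ⟨hs, k, hk, l, hl, e⟩ := hx
      have ha := actPerm_acts (inH_M24 l0_ok)
      refine ⟨ha.st hs, k, hk, _, Lp.mul_mem (inL_spec l0_ok l0_fix) hl, ?_⟩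
      rw [mul_smul, e]
      exact smul_dd ha hs
    · obtain ⟨hs, k, hk, l, hl, e⟩ := hx
      have ha := actPerm_acts (inH_M24 l1_ok)
      refine ⟨ha.st hs, k, hk, _, Lp.mul_mem (inL_spec l1_ok l1_fix) hl, ?_⟩
      rw [mul_smul, e]
      exact smul_dd ha hs
    · show P (rootsL.getD k r0)
      rcases getD_root k with ⟨hk, e⟩ | e
      · rw [e]
        exact hPr k hk
      · rw [e, ← root_zero]
        exact hPr 0 (by norm_num)
  have hr : P r0 := root_zero ▸ hPr 0 (by norm_num)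
  have hent := entries_of_chunks (N := 48600) (M := 190) (by norm_num) allCov
  have hreach := entry_reach (c := fun i => laneC (UCov.get (i / 256)) (i % 256)) hr hP (fun i hi => (hent i hi).1)
  have hmono := order_lt (fun i hi => (hent i hi).2)
  have hinj : Set.InjOn (fun i => dec (lCode (atW TCov i))) (Finset.range 48600 : Finset ℕ) := by
    intro i hi j hj hij
    have hi' := Finset.mem_range.1 (Finset.mem_coe.1 hi)
    have hj' := Finset.mem_range.1 (Finset.mem_coe.1 hj)
    have e := dec_injOn (hreach i hi').1.1 (hreach j hj').1.1 hij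
    rcases lt_trichotomy i j with h | h | h
    · exact absurd e (ne_of_lt (hmono i j h hj'))
    · exact h
    · exact absurd e.symm (ne_of_lt (hmono j i h hi'))
  let S : Finset (GolayPt → ℤ) := (Finset.range 48600).image fun i => dec (lCode (atW TCov i))
  have hcard : S.card = 48600 := by
    rw [Finset.card_image_of_injOn hinj, Finset.card_range]
  have hsub : (S : Set (GolayPt → ℤ)) ⊆ Subtype.val '' DS AQ := by
    intro y hy
    obtain ⟨i, hi, rfl⟩ := Finset.mem_image.1 (Finset.mem_coe.1 hy)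
    obtain ⟨hs, k, hk, l, hl, e⟩ := hreach i (Finset.mem_range.1 hi)
    refine ⟨dd (lCode (atW TCov i)), ?_, dd_val hs⟩
    rw [← e]
    exact smul_mem_DS_AQ (H0c_le (Lp_le hl)) (dd_mem_DS (root_spec hk).1)
  have heq : (S : Set (GolayPt → ℤ)) = Subtype.val '' DS AQ := by
    apply Set.eq_of_subset_of_ncard_le hsub _ ((finite_DS _).image _)
    rw [Set.ncard_coe_finset, Set.ncard_image_of_injective _ Subtype.val_injective, ncard_AQ, hcard]
  intro x hx
  have h3 : (x : GolayPt → ℤ) ∈ (S : Set (GolayPt → ℤ)) := heq ▸ ⟨x, hx, rfl⟩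
  obtain ⟨i, hi, e⟩ := Finset.mem_image.1 (Finset.mem_coe.1 h3)
  obtain ⟨hs, k, hk, l, hl, e2⟩ := hreach i (Finset.mem_range.1 hi)
  refine ⟨k, hk, l, hl, ?_⟩
  rw [e2]
  apply Subtype.ext
  rw [dd_val hs]
  exact e

/-- The representatives -/
noncomputable def rv (j : ℕ) : LL := dd (rp j)

/-- Each point is in the orbit of a representative. -/
theorem cover_H0c : ∀ x ∈ DS AQ, ∃ j < 8, x ∈ orbit ↥H0c (rv j) := by
  intro x hx
  obtain ⟨k, hk, l, hl, rfl⟩ := cover x hx
  obtain ⟨-, hj, -, ⟨h, hh, e⟩, -⟩ := root_spec hk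
  refine ⟨jkf k, hj, ⟨l, Lp_le hl⟩ * ⟨h, hh⟩, ?_⟩
  show (l * h) • dd (rp (jkf k)) = _
  rw [mul_smul, e]

/-! ### Lower bounds for stabilisers -/

/-- lists of generators -/
def gsf (j : ℕ) : List ℕ :=
  match j with
  | 1 => gs1
  | 2 => gs2
  | 3 => gs3
  | 4 => gs4
  | 5 => gs5
  | 6 => gs6
  | _ => gs7

/-- the orders -/
def Nj (j : ℕ) : ℕ := [10200960, 40320, 20160, 5760, 1344, 1152, 720, 660].getD j 0
/-- the lengths of the orbits -/
def Mj (j : ℕ) : ℕ := [1, 253, 506, 1771, 7590, 8855, 14168, 15456].getD j 0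

theorem St_zz : St zz := St_of_stChk (by decide +kernel)

theorem card_Qc1 : 40320 ≤ Nat.card (Qc gs1) :=
  card_le_of_table (act := actQ1) (fun g => actsIn_getD (by decide +kernel) (by decide +kernel) g) St_zz (M := 158) (by norm_num) allQ1
theorem card_Qc2 : 20160 ≤ Nat.card (Qc gs2) :=
  card_le_of_table (act := actQ2) (fun g => actsIn_getD (by decide +kernel) (by decide +kernel) g) St_zz (M := 79) (by norm_num) allQ2
theorem card_Qc3 : 5760 ≤ Nat.card (Qc gs3) :=
  card_le_of_table (act := actQ3) (fun g => actsIn_getD (by decide +kernel) (by decide +kernel) g) St_zz (M := 23) (by norm_num) allQ3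
theorem card_Qc4 : 1344 ≤ Nat.card (Qc gs4) :=
  card_le_of_table (act := actQ4) (fun g => actsIn_getD (by decide +kernel) (by decide +kernel) g) St_zz (M := 6) (by norm_num) allQ4
theorem card_Qc5 : 1152 ≤ Nat.card (Qc gs5) :=
  card_le_of_table (act := actQ5) (fun g => actsIn_getD (by decide +kernel) (by decide +kernel) g) St_zz (M := 5) (by norm_num) allQ5
theorem card_Qc6 : 720 ≤ Nat.card (Qc gs6) :=
  card_le_of_table (act := actQ6) (fun g => actsIn_getD (by decide +kernel) (by decide +kernel) g) St_zz (M := 3) (by norm_num) allQ6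
theorem card_Qc7 : 660 ≤ Nat.card (Qc gs7) :=
  card_le_of_table (act := actQ7) (fun g => actsIn_getD (by decide +kernel) (by decide +kernel) g) St_zz (M := 3) (by norm_num) allQ7

theorem card_Qc {j : ℕ} (h1 : 1 ≤ j) (h2 : j < 8) : Nj j ≤ Nat.card (Qc (gsf j)) := by
  interval_cases j
  · exact card_Qc1
  · exact card_Qc2
  · exact card_Qc3
  · exact card_Qc4
  · exact card_Qc5
  · exact card_Qc6
  · exact card_Qc7

/-- the check of the generators -/
def chkGs (j : ℕ) : Bool := (gsf j).all fun c => inH c && Nat.beq (actPerm c (rp j)) (rp j)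

theorem chkGs_all : (List.range 7).all (fun j => chkGs (j + 1)) = true := by decide +kernel

theorem Qc_le {j : ℕ} (h1 : 1 ≤ j) (h2 : j < 8) : Qc (gsf j) ≤ H0c ⊓ stabilizer Co0 (rv j) := by
  have h3 : chkGs j = true := by
    have := List.all_eq_true.1 chkGs_all (j - 1) (List.mem_range.2 (by omega))
    rwa [Nat.sub_add_cancel h1] at this
  rw [Qc, Subgroup.closure_le]
  rintro g ⟨c, hc, hc', rfl⟩
  have h4 := List.all_eq_true.1 h3 c hc
  simp only [Bool.and_eq_true] at h4
  exact ⟨inH_spec h4.1, smul_dd_eq (actPerm_acts _) (St_rp h2) (Nat.eq_of_beq_eq_true h4.2)⟩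

theorem card_le_stab {K : Subgroup Co0} {v : LL} (h : K ≤ H0c ⊓ stabilizer Co0 v) :
    Nat.card K ≤ Nat.card (stabilizer ↥H0c v) := by
  haveI := finite_Co0'
  let f : K → stabilizer ↥H0c v := fun k => ⟨⟨k.1, (h k.2).1⟩, (h k.2).2⟩
  apply Nat.card_le_card_of_injective f
  intro a b e
  apply Subtype.ext
  exact congrArg (fun z : stabilizer ↥H0c v => ((z : ↥H0c) : Co0)) e

theorem rv_zero : rv 0 = lx0 := by
  have : rp 0 = r0 := by decide +kernel
  rw [rv, this, lx0]

theorem Nj_le {j : ℕ} (hj : j < 8) : Nj j ≤ Nat.card (stabilizer ↥H0c (rv j)) := by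
  by_cases h0 : j = 0
  · subst h0
    have e : stabilizer ↥H0c (rv 0) = ⊤ := by
      rw [eq_top_iff]
      rintro k -
      rw [rv_zero]
      exact k.2.2
    rw [e, Subgroup.card_top, card_H0c]
    exact le_rfl
  · exact (card_Qc (by omega) hj).trans (card_le_stab (Qc_le (by omega) hj))

/-- the size of an orbit -/
noncomputable def nj (j : ℕ) : ℕ := (orbit ↥H0c (rv j)).ncard

instance instFinH0c : Finite ↥H0c :=
  haveI := finite_Co0'
  inferInstance

theorem nj_mul (j : ℕ) : Nat.card (stabilizer ↥H0c (rv j)) * nj j = 10200960 := by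
  have h := Subgroup.card_mul_index (stabilizer ↥H0c (rv j))
  rw [index_stabilizer, card_H0c] at h
  exact h

theorem Mj_mul {j : ℕ} (hj : j < 8) : Nj j * Mj j = 10200960 := by
  interval_cases j <;> decide

theorem nj_le {j : ℕ} (hj : j < 8) : nj j ≤ Mj j := by
  have h1 := nj_mul j
  have h2 := Mj_mul hj
  have h3 := Nj_le hj
  have h4 : 0 < Nj j := by interval_cases j <;> decide
  by_contra h
  push Not at h
  have h5 : Nj j * Mj j < Nj j * nj j := Nat.mul_lt_mul_of_pos_left h h4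
  have h6 : Nj j * nj j ≤ Nat.card (stabilizer ↥H0c (rv j)) * nj j := Nat.mul_le_mul_right _ h3
  omega

theorem finite_orbit (j : ℕ) : (orbit ↥H0c (rv j)).Finite := by
  exact Set.finite_range _

/-- The union bound. -/
theorem union_bound (s : Finset ℕ) (hs : ∀ x ∈ DS AQ, ∃ j ∈ s, x ∈ orbit ↥H0c (rv j)) :
    48600 ≤ ∑ j ∈ s, nj j := by
  classical
  have h1 : DS AQ ⊆ ⋃ j ∈ s, orbit ↥H0c (rv j) := by
    intro x hx
    obtain ⟨j, hj, h⟩ := hs x hx
    exact Set.mem_biUnion hj h
  have hfin : (⋃ j ∈ s, orbit ↥H0c (rv j)).Finite :=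
    Set.Finite.biUnion s.finite_toSet (fun j _ => finite_orbit j)
  have h2 := Set.ncard_le_ncard h1 hfin
  rw [ncard_AQ] at h2
  refine h2.trans ?_
  have h3 : (⋃ j ∈ s, orbit ↥H0c (rv j)) = ((s.biUnion fun j => (finite_orbit j).toFinset : Finset LL) : Set LL) := by
    ext x
    simp
  rw [h3, Set.ncard_coe_finset]
  refine Finset.card_biUnion_le.trans (le_of_eq ?_)
  apply Finset.sum_congr rfl
  intro j _
  rw [nj, Set.ncard_eq_toFinset_card _ (finite_orbit j)]

theorem sum_Mj : ∑ j ∈ Finset.range 8, Mj j = 48600 := by decide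

theorem nj_eq {j : ℕ} (hj : j < 8) : nj j = Mj j := by
  have h1 : 48600 ≤ ∑ j ∈ Finset.range 8, nj j := by
    apply union_bound
    intro x hx
    obtain ⟨j, hj, h⟩ := cover_H0c x hx
    exact ⟨j, Finset.mem_range.2 hj, h⟩
  have h2 : ∀ i ∈ Finset.range 8, nj i ≤ Mj i := fun i hi => nj_le (Finset.mem_range.1 hi)
  by_contra h
  have h3 : nj j < Mj j := lt_of_le_of_ne (nj_le hj) h
  have h4 := Finset.sum_lt_sum h2 ⟨j, Finset.mem_range.2 hj, h3⟩
  rw [sum_Mj] at h4
  omega

theorem stab_card {j : ℕ} (hj : j < 8) : Nat.card (stabilizer ↥H0c (rv j)) = Nj j := by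
  have h1 := nj_mul j
  rw [nj_eq hj] at h1
  have h2 := Mj_mul hj
  have h4 : 0 < Mj j := by interval_cases j <;> decide
  exact Nat.eq_of_mul_eq_mul_right h4 (h1.trans h2.symm)

/-- The orbits are disjoint. -/
theorem orbit_disj {a b : ℕ} (ha : a < 8) (hb : b < 8) {x : LL} (h1 : x ∈ orbit ↥H0c (rv a))
    (h2 : x ∈ orbit ↥H0c (rv b)) : a = b := by
  classical
  by_contra hab
  have e : orbit ↥H0c (rv a) = orbit ↥H0c (rv b) := by
    rw [← orbit_eq_iff.2 h1, ← orbit_eq_iff.2 h2]
  have h3 : 48600 ≤ ∑ j ∈ (Finset.range 8).erase b, nj j := by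
    apply union_bound
    intro y hy
    obtain ⟨j, hj, h⟩ := cover_H0c y hy
    by_cases hjb : j = b
    · subst hjb
      exact ⟨a, Finset.mem_erase.2 ⟨hab, Finset.mem_range.2 ha⟩, e ▸ h⟩
    · exact ⟨j, Finset.mem_erase.2 ⟨hjb, Finset.mem_range.2 hj⟩, h⟩
  have h4 := Finset.sum_erase_add (Finset.range 8) nj (Finset.mem_range.2 hb)
  have h5 : ∑ j ∈ Finset.range 8, nj j = 48600 := by
    rw [← sum_Mj]
    exact Finset.sum_congr rfl (fun j hj => nj_eq (Finset.mem_range.1 hj))
  have h6 : 0 < nj b := by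
    rw [nj_eq hb]
    interval_cases b <;> decide
  omega

/-- The subgroup generated by the generators is the whole stabiliser. -/
theorem mem_Qc {j : ℕ} (h1 : 1 ≤ j) (h2 : j < 8) {s : Co0} (hs : s ∈ H0c) (hf : s • rv j = rv j) : s ∈ Qc (gsf j) := by
  classical
  haveI := finite_Co0'
  have hle := Qc_le h1 h2
  let K : Subgroup (stabilizer ↥H0c (rv j)) :=
    ((Qc (gsf j)).comap (H0c.subtype.comp (stabilizer ↥H0c (rv j)).subtype))
  have hcard : Nat.card (Qc (gsf j)) ≤ Nat.card K := by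
    let f : Qc (gsf j) → K := fun k => ⟨⟨⟨k.1, (hle k.2).1⟩, (hle k.2).2⟩, k.2⟩
    apply Nat.card_le_card_of_injective f
    intro a b e
    apply Subtype.ext
    exact congrArg (fun z : K => (((z : stabilizer ↥H0c (rv j)) : ↥H0c) : Co0)) e
  have htop : K = ⊤ := by
    apply Subgroup.eq_top_of_card_eq
    apply le_antisymm (Subgroup.card_le_card_group K)
    rw [stab_card h2]
    exact (card_Qc h1 h2).trans hcard
  have h3 : (⟨⟨s, hs⟩, hf⟩ : stabilizer ↥H0c (rv j)) ∈ K := by
    rw [htop]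
    exact Subgroup.mem_top _
  exact h3

end Cfsg.Agent.Lib.Co3Rel19
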