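import Mathlib
import Cfsg.Agent.Lib.Co3Rel19B

set_option autoImplicit false
set_option linter.unusedVariables false
set_option linter.unusedSectionVars false
set_option maxRecDepth 100000

/-!
# The linear system for Conway's third group
-/

namespace Cfsg.Agent.Lib.Co3Rel19

open Cfsg Cfsg.Agent.Lib.CoVec Cfsg.Agent.Lib.CoConf MulAction Cfsg.Agent.Lib.SchurRel19
open Cfsg.Agent.Lib.Golay (isM24 rowMasks)

/-- The extra generator as an element of the group. -/
noncomputable def Yg : ↥G0 := ⟨Yc, Yc_mem⟩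

theorem Yg_pow : Yg ^ 5 = 1 := Subtype.ext Yc_pow

theorem smul_val (g : ↥G0) (x : XX) : ((g • x : XX) : LL) = (g : Co0) • (x : LL) := rfl

theorem x_mem_DS (x : XX) : (x : LL) ∈ DS AQ := orbit_eq_DS ▸ x.2

/-- A point from a vector of the set. -/
noncomputable def mkX (v : LL) (h : v ∈ DS AQ) : XX := ⟨v, orbit_eq_DS.symm ▸ h⟩

theorem Yq : Yc • dd q0 = lx0 := smul_dd_eq acts_Y St_q0 (by decide +kernel)

theorem Yinv_val : ((Yg⁻¹ • x0X : XX) : LL) = dd q0 := by
  have h : (Yc)⁻¹ • lx0 = dd q0 := inv_smul_eq_iff.2 Yq.symm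
  exact h

theorem stab_of_H0c {h : Co0} (hh : h ∈ H0c) : (⟨h, H0c_le hh⟩ : ↥G0) • x0X = x0X :=
  Subtype.ext (mem_H0c.1 hh).2

theorem H0c_of_stab {h : ↥G0} (hh : h • x0X = x0X) : (h : Co0) ∈ H0c :=
  mem_H0c.2 ⟨h.2, congrArg Subtype.val hh⟩

/-! ### The linear algebra -/

section linear

variable {A : Type*} [AddCommGroup A]

/-- The coefficient in a row. -/
def rowF (l : List ℕ) (i : ℕ) : ℤ := if i = 46 then -1 else (l.count i : ℤ)

/-- Evaluation of a linear form. -/
def ev (a : ℕ → A) (f : ℕ → ℤ) : A := ∑ i ∈ Finset.range 47, f i • a i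

theorem ev_row_aux (a : ℕ → A) (l : List ℕ) (hl : ∀ k ∈ l, k < 46) :
    ∑ i ∈ Finset.range 46, ((l.count i : ℤ)) • a i = (l.map a).sum := by
  induction l with
  | nil => simp
  | cons b l ih =>
    have hb := hl b (by simp)
    rw [List.map_cons, List.sum_cons, ← ih (fun k hk => hl k (by simp [hk]))]
    have h1 : ∀ i, ((b :: l).count i : ℤ) • a i = (if b = i then a i else 0) + ((l.count i : ℤ)) • a i := by
      intro i
      rw [List.count_cons]
      by_cases h : b = i
      · subst h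
        simp [add_smul, add_comm]
      · simp [h]
    simp only [h1]
    rw [Finset.sum_add_distrib, Finset.sum_ite_eq, if_pos (Finset.mem_range.2 hb)]

theorem ev_row (a : ℕ → A) (l : List ℕ) (hl : ∀ k ∈ l, k < 46) : ev a (rowF l) = (l.map a).sum - a 46 := by
  unfold ev
  rw [Finset.sum_range_succ]
  have h1 : ∑ i ∈ Finset.range 46, rowF l i • a i = ∑ i ∈ Finset.range 46, ((l.count i : ℤ)) • a i := by
    apply Finset.sum_congr rfl
    intro i hi
    have : i ≠ 46 := by
      have := Finset.mem_range.1 hi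
      omega
    simp [rowF, this]
  rw [h1, ev_row_aux a l hl]
  simp [rowF, sub_eq_add_neg]

/-- A combination of rows. -/
def comb : List ℤ → List (List ℕ) → ℕ → ℤ
  | c :: cs, r :: rs, i => c * rowF r i + comb cs rs i
  | _, _, _ => 0

theorem ev_comb (a : ℕ → A) (cs : List ℤ) (rs : List (List ℕ)) (h : ∀ r ∈ rs, ev a (rowF r) = 0) :
    ev a (comb cs rs) = 0 := by
  induction cs generalizing rs with
  | nil => simp [ev, comb]
  | cons c cs ih =>
    cases rs with
    | nil => simp [ev, comb]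
    | cons r rs =>
      have h1 := h r (by simp)
      have h2 := ih rs (fun r' hr' => h r' (by simp [hr']))
      unfold ev at h1 h2 ⊢
      have h3 : ∀ i, comb (c :: cs) (r :: rs) i • a i = c • (rowF r i • a i) + comb cs rs i • a i := by
        intro i
        show (c * rowF r i + comb cs rs i) • a i = _
        rw [add_smul, mul_smul]
      simp only [h3]
      rw [Finset.sum_add_distrib, ← Finset.smul_sum, h1, h2]
      simp

end linear

/-- The rows. -/
def rowLabels : List (List ℕ) := rowsL.map fun r => r.2.map Prod.fst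

/-- The forms. -/
def Gf (j i : ℕ) : ℤ := (GfL.getD j []).getD i 0
/-- The forms. -/
def Cf (i : ℕ) : ℤ := CfL.getD i 0

/-- The target. -/
def tgt (k i : ℕ) : ℤ := (if i = k then 1 else 0) - Gf (jpf k) i + Gf (jkf k) i + Cf i

theorem cert_ok : ∀ k, k < 46 → ∀ i, i < 47 → comb (certL.getD k []) rowLabels i = tgt k i := by
  decide +kernel

theorem linear_solve {A : Type*} [AddCommGroup A] (a : ℕ → A) (h : ∀ r ∈ rowLabels, ev a (rowF r) = 0) {k : ℕ}
    (hk : k < 46) : a k = ev a (Gf (jpf k)) - ev a (Gf (jkf k)) - ev a Cf := by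
  have h1 := ev_comb a (certL.getD k []) rowLabels h
  have h2 : ev a (comb (certL.getD k []) rowLabels) = ev a (tgt k) := by
    apply Finset.sum_congr rfl
    intro i hi
    rw [cert_ok k hk i (Finset.mem_range.1 hi)]
  rw [h2] at h1
  have h3 : ev a (tgt k) = a k - ev a (Gf (jpf k)) + ev a (Gf (jkf k)) + ev a Cf := by
    unfold ev
    have h4 : ∀ i, tgt k i • a i = (if i = k then a i else 0) - Gf (jpf k) i • a i + Gf (jkf k) i • a i + Cf i • a i := by
      intro i
      unfold tgt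
      rw [add_smul, add_smul, sub_smul]
      by_cases hi : i = k
      · simp [hi]
      · simp [hi]
    simp only [h4]
    rw [Finset.sum_add_distrib, Finset.sum_add_distrib, Finset.sum_sub_distrib, Finset.sum_ite_eq',
      if_pos (Finset.mem_range.2 (by omega))]
  rw [h3] at h1
  have h5 : a k = (a k - ev a (Gf (jpf k)) + ev a (Gf (jkf k)) + ev a Cf) + ev a (Gf (jpf k)) - ev a (Gf (jkf k)) - ev a Cf := by
    abel
  rw [h1, zero_add] at h5
  exact h5

/-! ### The check of a row -/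

/-- The check of a row. -/
def rowChk : ℕ → List (ℕ × ℕ) → Bool
  | _, [] => true
  | x, p :: t =>
    Nat.ble (p.1 + 1) 46 && inH p.2 && Nat.beq (actPerm p.2 q0) q0 && Nat.beq (actPerm p.2 (root p.1)) x && inDS x &&
      rowChk (actY x) t

theorem rows_ok : rowsL.all (fun r => rowChk r.1 r.2 && Nat.beq r.2.length 5 && inDS r.1) = true := by decide +kernel

section sys

variable {A : Type} [AddCommGroup A] (κ : XX → A) (v : A)

theorem sys_row (κ' : LL → A) (a : ℕ → A)
    (hinv : ∀ k, k < 46 → ∀ l ∈ Lp, κ' (l • dd (root k)) = a k) :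
    ∀ (l : List (ℕ × ℕ)) (x : ℕ), rowChk x l = true →
      ∑ e ∈ Finset.range l.length, κ' ((Yc ^ e) • dd x) = ((l.map Prod.fst).map a).sum ∧ ∀ k ∈ l.map Prod.fst, k < 46 := by
  intro l
  induction l with
  | nil => simp
  | cons p t ih =>
    intro x hx
    simp only [rowChk, Bool.and_eq_true] at hx
    obtain ⟨⟨⟨⟨⟨h1, h2⟩, h3⟩, h4⟩, h5⟩, h6⟩ := hx
    have hk : p.1 < 46 := Nat.le_of_ble_eq_true h1
    have hs := St_of_inDS h5
    obtain ⟨i1, i2⟩ := ih _ h6
    refine ⟨?_, ?_⟩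
    · have e1 : κ' ((Yc ^ 0) • dd x) = a p.1 := by
        rw [pow_zero, one_smul]
        have h7 := hinv p.1 hk _ (inL_spec h2 (Nat.eq_of_beq_eq_true h3))
        rwa [smul_dd_eq (actPerm_acts _) (St_root hk) (Nat.eq_of_beq_eq_true h4)] at h7
      have e2 : ∑ e ∈ Finset.range t.length, κ' ((Yc ^ (e + 1)) • dd x) = ((t.map Prod.fst).map a).sum := by
        rw [← i1]
        apply Finset.sum_congr rfl
        intro e _
        rw [pow_succ, mul_smul, smul_dd acts_Y hs]
      rw [List.length_cons, Finset.sum_range_succ', List.map_cons, List.map_cons, List.sum_cons, e1, e2, add_comm]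
    · intro k hk'
      rcases List.mem_cons.1 (by simpa using hk' : k ∈ p.1 :: t.map Prod.fst) with rfl | h
      · exact hk
      · exact i2 k h

end sys

/-- The function for the gauge. -/
theorem exists_lab : ∃ lab : LL → ℕ, ∀ j < 8, ∀ x ∈ orbit ↥H0c (rv j), lab x = j := by
  classical
  refine ⟨fun x => if h : ∃ j < 8, x ∈ orbit ↥H0c (rv j) then h.choose else 0, ?_⟩
  intro j hj x hx
  have h : ∃ j < 8, x ∈ orbit ↥H0c (rv j) := ⟨j, hj, hx⟩
  simp only [dif_pos h]
  exact orbit_disj h.choose_spec.1 hj h.choose_spec.2 hx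

/-- The solution of the system. -/
theorem hsys (A : Type) [AddCommGroup A] (κ : XX → A) (v : A)
    (hinv : ∀ x, ∀ l : ↥G0, l • x0X = x0X → l • (Yg⁻¹ • x0X) = Yg⁻¹ • x0X → κ (l • x) = κ x)
    (hrow : ∀ x, ∑ e ∈ Finset.range 5, κ ((Yg ^ e) • x) = v) :
    ∃ (g : XX → A) (c : A), (∀ h : ↥G0, h • x0X = x0X → ∀ x, g (h • x) = g x) ∧ ∀ x, κ x = g (Yg • x) - g x - c := by
  classical
  let κ' : LL → A := fun w => if hw : w ∈ orbit ↥G0 lx0 then κ ⟨w, hw⟩ else 0
  have κ'_val : ∀ x : XX, κ' x.1 = κ x := fun x => by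
    simp only [κ']
    rw [dif_pos x.2]
  let a₀ : ℕ → A := fun k => κ' (dd (root k))
  have hinv' : ∀ k, k < 46 → ∀ l ∈ Lp, κ' (l • dd (root k)) = a₀ k := by
    intro k hk l hl
    let x : XX := mkX _ (dd_mem_DS (root_spec hk).1)
    have hl1 : l ∈ H0c := Lp_le hl
    have h1 := hinv x ⟨l, H0c_le hl1⟩ (stab_of_H0c hl1) (by
      apply Subtype.ext
      rw [smul_val, Yinv_val]
      exact hl.2)
    have h2 := κ'_val x
    have h3 := κ'_val ((⟨l, H0c_le hl1⟩ : ↥G0) • x)
    show κ' (l • x.1) = κ' x.1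
    rw [h2, ← h1, ← h3]
    rfl
  have hrows : ∀ r ∈ rowsL, ((r.2.map Prod.fst).map a₀).sum = v ∧ ∀ k ∈ r.2.map Prod.fst, k < 46 := by
    intro r hr
    have h1 := List.all_eq_true.1 rows_ok r hr
    simp only [Bool.and_eq_true] at h1
    obtain ⟨⟨h2, h3⟩, h4⟩ := h1
    obtain ⟨i1, i2⟩ := sys_row κ' a₀ hinv' r.2 r.1 h2
    refine ⟨?_, i2⟩
    rw [← i1]
    have h5 : r.2.length = 5 := Nat.eq_of_beq_eq_true h3
    rw [h5, ← hrow (mkX _ (dd_mem_DS h4))]
    apply Finset.sum_congr rfl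
    intro e _
    rw [← κ'_val]
    have h6 : ((((Yg ^ e) • mkX _ (dd_mem_DS h4) : XX)) : LL) = (Yc ^ e) • dd r.1 := rfl
    rw [h6]
  -- the vector of values
  let a : ℕ → A := fun i => if i = 46 then v else a₀ i
  have ha : ∀ k, k < 46 → a k = a₀ k := fun k hk => by
    simp only [a]
    rw [if_neg (by omega)]
  have ha46 : a 46 = v := by simp [a]
  have hlin : ∀ r ∈ rowLabels, ev a (rowF r) = 0 := by
    intro r hr
    obtain ⟨r', hr', rfl⟩ := List.mem_map.1 hr
    obtain ⟨h1, h2⟩ := hrows r' hr'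
    rw [ev_row a _ h2, ha46, sub_eq_zero, ← h1]
    congr 1
    apply List.map_congr_left
    intro k hk
    exact ha k (h2 k hk)
  obtain ⟨lab, hlab⟩ := exists_lab
  refine ⟨fun x => ev a (Gf (lab x.1)), ev a Cf, ?_, ?_⟩
  · intro h hh x
    obtain ⟨j, hj, hx⟩ := cover_H0c x.1 (x_mem_DS x)
    have h1 : (⟨h, H0c_of_stab hh⟩ : ↥H0c) • x.1 ∈ orbit ↥H0c (rv j) := mem_orbit_of_mem_orbit _ hx
    have h2 : lab (h • x).1 = j := hlab j hj _ h1
    show ev a (Gf (lab (h • x).1)) = ev a (Gf (lab x.1))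
    rw [h2, hlab j hj _ hx]
  · intro x
    obtain ⟨k, hk, l, hl, e⟩ := cover x.1 (x_mem_DS x)
    obtain ⟨-, hj1, hj2, ⟨h1, hh1, e1⟩, ⟨h2, hh2, e2⟩⟩ := root_spec hk
    have hl1 : l ∈ H0c := Lp_le hl
    have hval : κ x = a k := by
      rw [ha k hk, ← κ'_val, ← e]
      exact hinv' k hk l hl
    have hl2 : lab x.1 = jkf k := by
      apply hlab _ hj1
      refine ⟨⟨l, hl1⟩ * ⟨h1, hh1⟩, ?_⟩
      show (l * h1) • dd (rp (jkf k)) = x.1
      rw [mul_smul, e1, e]
    have hl3 : lab (Yg • x).1 = jpf k := by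
      apply hlab _ hj2
      have hc : Yc * l * Yc⁻¹ ∈ H0c := by
        refine mem_H0c.2 ⟨G0.mul_mem (G0.mul_mem Yc_mem (H0c_le hl1)) (G0.inv_mem Yc_mem), ?_⟩
        · rw [mul_smul, mul_smul]
          have h3 : Yc⁻¹ • lx0 = dd q0 := inv_smul_eq_iff.2 Yq.symm
          rw [h3]
          have h4 : l • dd q0 = dd q0 := hl.2
          rw [h4, Yq]
      refine ⟨⟨Yc * l * Yc⁻¹, hc⟩ * ⟨h2, hh2⟩, ?_⟩
      show (Yc * l * Yc⁻¹ * h2) • dd (rp (jpf k)) = Yc • x.1
      rw [mul_smul, e2, ← e]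
      simp only [mul_smul, inv_smul_smul]
    show κ x = ev a (Gf (lab (Yg • x).1)) - ev a (Gf (lab x.1)) - ev a Cf
    rw [hl2, hl3, hval]
    exact linear_solve a hlin hk

/-! ### Generation -/

theorem hgen : Subgroup.closure ((stabilizer ↥G0 x0X : Set ↥G0) ∪ {Yg}) = ⊤ := by
  set T : Subgroup ↥G0 := Subgroup.closure ((stabilizer ↥G0 x0X : Set ↥G0) ∪ {Yg}) with hT
  have hHT : ∀ h (hh : h ∈ H0c), (⟨h, H0c_le hh⟩ : ↥G0) ∈ T := fun h hh =>
    Subgroup.subset_closure (Or.inl (stab_of_H0c hh))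
  have hYT : Yg ∈ T := Subgroup.subset_closure (Or.inr rfl)
  let P : LL → Prop := fun w => ∃ τ ∈ T, τ • lx0 = w
  have Ph : ∀ (h : Co0) (w : LL), h ∈ H0c → P w → P (h • w) := by
    rintro h w hh ⟨τ, hτ, rfl⟩
    exact ⟨⟨h, H0c_le hh⟩ * τ, T.mul_mem (hHT h hh) hτ, mul_smul _ _ _⟩
  have PY : ∀ w, P w → P (Yc • w) := by
    rintro w ⟨τ, hτ, rfl⟩
    exact ⟨Yg * τ, T.mul_mem hYT hτ, mul_smul _ _ _⟩
  have step : ∀ k, k < 46 → P (rv (jkf k)) → P (rv (jpf k)) := by
    intro k hk h0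
    obtain ⟨-, -, -, ⟨h1, hh1, e1⟩, ⟨h2, hh2, e2⟩⟩ := root_spec hk
    have h3 : P (dd (root k)) := by
      rw [← e1]
      exact Ph _ _ hh1 h0
    have h4 := PY _ h3
    rw [← e2] at h4
    have h5 := Ph h2⁻¹ _ (H0c.inv_mem hh2) h4
    rwa [inv_smul_smul] at h5
  have p0 : P (rv 0) := ⟨1, T.one_mem, by rw [one_smul, rv_zero]⟩
  have p2 : P (rv 2) := step 0 (by norm_num) (by simpa [show jkf 0 = 0 by decide +kernel] using p0) |> fun h => by
    simpa [show jpf 0 = 2 by decide +kernel] using h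
  have p3 : P (rv 3) := by
    have := step 33 (by norm_num) (by rw [show jkf 33 = 2 by decide +kernel]; exact p2)
    rwa [show jpf 33 = 3 by decide +kernel] at this
  have p6 : P (rv 6) := by
    have := step 38 (by norm_num) (by rw [show jkf 38 = 2 by decide +kernel]; exact p2)
    rwa [show jpf 38 = 6 by decide +kernel] at this
  have p4 : P (rv 4) := by
    have := step 44 (by norm_num) (by rw [show jkf 44 = 2 by decide +kernel]; exact p2)
    rwa [show jpf 44 = 4 by decide +kernel] at this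
  have p5 : P (rv 5) := by
    have := step 25 (by norm_num) (by rw [show jkf 25 = 3 by decide +kernel]; exact p3)
    rwa [show jpf 25 = 5 by decide +kernel] at this
  have p7 : P (rv 7) := by
    have := step 30 (by norm_num) (by rw [show jkf 30 = 3 by decide +kernel]; exact p3)
    rwa [show jpf 30 = 7 by decide +kernel] at this
  have p1 : P (rv 1) := by
    have := step 43 (by norm_num) (by rw [show jkf 43 = 6 by decide +kernel]; exact p6)
    rwa [show jpf 43 = 1 by decide +kernel] at this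
  have pj : ∀ j, j < 8 → P (rv j) := by
    intro j hj
    interval_cases j <;> assumption
  have pall : ∀ x ∈ DS AQ, P x := by
    intro x hx
    obtain ⟨j, hj, h, rfl⟩ := cover_H0c x hx
    exact Ph _ _ h.2 (pj j hj)
  rw [eq_top_iff]
  intro g _
  obtain ⟨τ, hτ, e⟩ := pall _ (smul_mem_DS_AQ g.2 lx0_mem_DS)
  have h1 : τ⁻¹ * g ∈ T := by
    apply Subgroup.subset_closure
    left
    show (τ⁻¹ * g) • x0X = x0X
    apply Subtype.ext
    show ((τ⁻¹ * g : ↥G0) : Co0) • lx0 = lx0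
    show ((τ : Co0)⁻¹ * (g : Co0)) • lx0 = lx0
    rw [mul_smul]
    have : (τ : Co0) • lx0 = (g : Co0) • lx0 := e
    rw [← this, inv_smul_smul]
  have h2 := T.mul_mem hτ h1
  simpa using h2

end Cfsg.Agent.Lib.Co3Rel19
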