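import Mathlib
import Cfsg.Agent.Lib.Co3Rel19C

set_option autoImplicit false
set_option linter.unusedVariables false
set_option linter.unusedSectionVars false
set_option maxRecDepth 100000

/-!
# All points are good for Conway's third group
-/

namespace Cfsg.Agent.Lib.Co3Rel19

open Cfsg Cfsg.Agent.Lib.CoVec Cfsg.Agent.Lib.CoConf MulAction Cfsg.Agent.Lib.SchurRel19
open Cfsg.Agent.Lib.Golay (isM24 rowMasks)

/-- The check of a commutator. -/
def commOK (j : ℕ) (t : ℕ × ℕ × ℕ) : Bool :=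
  inH t.1 && inH t.2.1 && inH t.2.2 && Nat.beq (actPerm t.2.1 (rp j)) (rp j) && Nat.beq (actPerm t.2.2 (rp j)) (rp j) &&
    eqChk (fun n => actPerm t.1 (actPerm t.2.2 (actPerm t.2.1 n))) (fun n => actPerm t.2.1 (actPerm t.2.2 n))

theorem comm1 : cmt1.all (commOK 1) = true := by decide +kernel
theorem comm2 : cmt2.all (commOK 2) = true := by decide +kernel
theorem comm3 : cmt3.all (commOK 3) = true := by decide +kernel
theorem comm4 : cmt4.all (commOK 4) = true := by decide +kernel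
theorem comm5 : cmt5.all (commOK 5) = true := by decide +kernel
theorem comm6 : cmt6.all (commOK 6) = true := by decide +kernel
theorem comm7 : cmt7.all (commOK 7) = true := by decide +kernel

/-- The point of a representative. -/
noncomputable def xr (j : ℕ) (hj : j < 8) : XX := mkX (rv j) (dd_mem_DS (inDS_rp hj))

theorem xr_val (j : ℕ) (hj : j < 8) : (xr j hj : LL) = rv j := rfl

section good

variable {Γ : Type} [Group Γ] {π : Γ →* ↥G0} {W : Subgroup Γ} (C : Compl π x0X W)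

include C

theorem gd_of_smul {x y : XX} {h : Co0} (hh : h ∈ H0c) (e : (y : LL) = h • (x : LL)) (hx : Good π x0X W x) :
    Good π x0X W y := by
  have e1 : y = (⟨h, H0c_le hh⟩ : ↥G0) • x := Subtype.ext e
  rw [e1]
  exact good_smul C hx (stab_of_H0c hh)

theorem gd_rep {j : ℕ} (h1 : 1 ≤ j) (h2 : j < 8) (x : XX) (hx : (x : LL) = rv j)
    (hN : ∀ c ∈ gsf j, ∀ hc : isM24 c = true, ∃ hm : permCo0 hc ∈ G0, (⟨permCo0 hc, hm⟩ : ↥G0) ∈ Nx C x) :
    Good π x0X W x := by
  apply good_of_le C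
  rintro s ⟨hs1, hs2⟩
  have hs1' : s • x0X = x0X := hs1
  have hs2' : s • x = x := hs2
  have e1 : (s : Co0) • lx0 = lx0 := congrArg Subtype.val hs1'
  have e2 : (s : Co0) • rv j = rv j := by
    have := congrArg Subtype.val hs2'
    rw [smul_val, hx] at this
    exact this
  have hm := mem_Qc h1 h2 (s := (s : Co0)) (mem_H0c.2 ⟨s.2, e1⟩) e2
  have hle : Qc (gsf j) ≤ (Nx C x).map G0.subtype := by
    rw [Qc, Subgroup.closure_le]
    rintro g ⟨c, hc, hc', rfl⟩
    obtain ⟨hm, h⟩ := hN c hc hc'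
    exact ⟨⟨_, hm⟩, h, rfl⟩
  obtain ⟨b, hb, e⟩ := hle hm
  have e' : b = s := Subtype.ext e
  exact e' ▸ hb

theorem comm_mem {j : ℕ} (h2 : j < 8) (x : XX) (hx : (x : LL) = rv j) {t : ℕ × ℕ × ℕ} (h : commOK j t = true)
    (hc : isM24 t.1 = true) : ∃ hm : permCo0 hc ∈ G0, (⟨permCo0 hc, hm⟩ : ↥G0) ∈ Nx C x := by
  simp only [commOK, Bool.and_eq_true] at h
  obtain ⟨⟨⟨⟨⟨h1, ha⟩, hb⟩, hfa⟩, hfb⟩, hchk⟩ := h
  have hsa := inH_spec ha
  have hsb := inH_spec hb
  have hsc := inH_spec h1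
  let A : ↥G0 := ⟨_, H0c_le hsa⟩
  let B : ↥G0 := ⟨_, H0c_le hsb⟩
  have hA : A ∈ Sx (G := ↥G0) x0X x := by
    refine ⟨stab_of_H0c hsa, ?_⟩
    apply Subtype.ext
    rw [smul_val, hx]
    exact smul_dd_eq (actPerm_acts (inH_M24 ha)) (St_rp h2) (Nat.eq_of_beq_eq_true hfa)
  have hB : B ∈ Sx (G := ↥G0) x0X x := by
    refine ⟨stab_of_H0c hsb, ?_⟩
    apply Subtype.ext
    rw [smul_val, hx]
    exact smul_dd_eq (actPerm_acts (inH_M24 hb)) (St_rp h2) (Nat.eq_of_beq_eq_true hfb)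
  have e := eq_of_eqChk ((actPerm_acts (inH_M24 h1)).mul ((actPerm_acts (inH_M24 hb)).mul (actPerm_acts (inH_M24 ha))))
    ((actPerm_acts (inH_M24 ha)).mul (actPerm_acts (inH_M24 hb))) hchk
  have e2 : (⟨permCo0 hc, H0c_le hsc⟩ : ↥G0) = A * B * A⁻¹ * B⁻¹ := by
    apply Subtype.ext
    show permCo0 hc = ((A * B * A⁻¹ * B⁻¹ : ↥G0) : Co0)
    show permCo0 hc = (A : Co0) * (B : Co0) * (A : Co0)⁻¹ * (B : Co0)⁻¹
    show permCo0 hc = permCo0 (inH_M24 ha) * permCo0 (inH_M24 hb) * (permCo0 (inH_M24 ha))⁻¹ * (permCo0 (inH_M24 hb))⁻¹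
    rw [← e]
    group
  refine ⟨H0c_le hsc, ?_⟩
  rw [e2]
  have h5 : A * B * A⁻¹ * B⁻¹ ∈ Nx C x := comm_le_Nx C x (Subgroup.commutator_mem_commutator hA hB)
  exact h5

theorem comm_list {j : ℕ} (h2 : j < 8) (x : XX) (hx : (x : LL) = rv j) {l : List (ℕ × ℕ × ℕ)} (h : l.all (commOK j) = true)
    {c : ℕ} (hcm : c ∈ l.map Prod.fst) (hc : isM24 c = true) : ∃ hm : permCo0 hc ∈ G0, (⟨permCo0 hc, hm⟩ : ↥G0) ∈ Nx C x := by
  obtain ⟨t, ht, rfl⟩ := List.mem_map.1 hcm
  exact comm_mem C h2 x hx (List.all_eq_true.1 h t ht) hc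

theorem trans_mem {j : ℕ} (h2 : j < 8) (x : XX) (hx : (x : LL) = rv j) {s : ℕ} (hs : inH s = true)
    (h3 : actPerm s (rp j) = rp j) (h4 : actPerm s q0 = q0)
    (hq : Good π x0X W (Yg⁻¹ • x0X)) (hY : Good π x0X W (Yg • x)) (hc : isM24 s = true) :
    ∃ hm : permCo0 hc ∈ G0, (⟨permCo0 hc, hm⟩ : ↥G0) ∈ Nx C x := by
  have hss := inH_spec hs
  refine ⟨H0c_le hss, transport_mem_Nx C hq hY (stab_of_H0c hss) ?_ ?_⟩
  · apply Subtype.ext
    rw [smul_val, hx]
    exact smul_dd_eq (actPerm_acts (inH_M24 hs)) (St_rp h2) h3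
  · apply Subtype.ext
    rw [smul_val, Yinv_val]
    exact smul_dd_eq (actPerm_acts (inH_M24 hs)) St_q0 h4

theorem gd_comm {j : ℕ} (h1 : 1 ≤ j) (h2 : j < 8) {l : List (ℕ × ℕ × ℕ)} (hl : gsf j = l.map Prod.fst)
    (h : l.all (commOK j) = true) : Good π x0X W (xr j h2) := by
  apply gd_rep C h1 h2 _ (xr_val j h2)
  intro c hc hc'
  exact comm_list C h2 _ (xr_val j h2) h (hl ▸ hc) hc'

theorem gd_mix {j : ℕ} (h1 : 1 ≤ j) (h2 : j < 8) {l : List (ℕ × ℕ × ℕ)} {s : ℕ} (hl : gsf j = l.map Prod.fst ++ [s])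
    (h : l.all (commOK j) = true) (hs : inH s = true)
    (h3 : actPerm s (rp j) = rp j) (h4 : actPerm s q0 = q0)
    (hq : Good π x0X W (Yg⁻¹ • x0X)) (hY : Good π x0X W (Yg • xr j h2)) :
    Good π x0X W (xr j h2) := by
  apply gd_rep C h1 h2 _ (xr_val j h2)
  intro c hc hc'
  rw [hl] at hc
  rcases List.mem_append.1 hc with hc | hc
  · exact comm_list C h2 _ (xr_val j h2) h hc hc'
  · rw [List.mem_singleton] at hc
    subst hc
    exact trans_mem C h2 _ (xr_val j h2) hs h3 h4 hq hY hc'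

/-- Good points: from a root. -/
theorem gd_Y {j k j' : ℕ} (h2 : j < 8) (hk : k < 46) (h3 : rp j = root k) (h4 : jpf k = j') (hj' : j' < 8)
    (hg : Good π x0X W (xr j' hj')) : Good π x0X W (Yg • xr j h2) := by
  obtain ⟨-, -, -, -, ⟨h, hh, e⟩⟩ := root_spec hk
  subst h4
  apply gd_of_smul C hh _ hg
  rw [smul_val, xr_val, xr_val]
  show Yc • dd (rp j) = h • dd (rp (jpf k))
  rw [h3, e]

theorem good_all : ∀ x : XX, Good π x0X W x := by
  have g2 : Good π x0X W (xr 2 (by norm_num)) := gd_comm C (by norm_num) _ (l := cmt2) (by decide +kernel) comm2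
  have g3 : Good π x0X W (xr 3 (by norm_num)) := gd_comm C (by norm_num) _ (l := cmt3) (by decide +kernel) comm3
  have g4 : Good π x0X W (xr 4 (by norm_num)) := gd_comm C (by norm_num) _ (l := cmt4) (by decide +kernel) comm4
  have g7 : Good π x0X W (xr 7 (by norm_num)) := gd_comm C (by norm_num) _ (l := cmt7) (by decide +kernel) comm7
  have hq : Good π x0X W (Yg⁻¹ • x0X) := by
    have e : Yg⁻¹ • x0X = xr 2 (by norm_num) := by
      apply Subtype.ext
      rw [Yinv_val, xr_val, rv]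
      congr 1
    rw [e]
    exact g2
  have g6 : Good π x0X W (xr 6 (by norm_num)) :=
    gd_mix C (by norm_num) _ (l := cmt6) (s := sx6) (by decide +kernel) comm6 (by decide +kernel) (by decide +kernel)
      (by decide +kernel) hq (gd_Y C (k := 4) (j' := 4) _ (by norm_num) (by decide +kernel) (by decide +kernel) (by norm_num) g4)
  have g5 : Good π x0X W (xr 5 (by norm_num)) :=
    gd_mix C (by norm_num) _ (l := cmt5) (s := sx5) (by decide +kernel) comm5 (by decide +kernel) (by decide +kernel)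
      (by decide +kernel) hq (gd_Y C (k := 12) (j' := 4) _ (by norm_num) (by decide +kernel) (by decide +kernel) (by norm_num) g4)
  have g1 : Good π x0X W (xr 1 (by norm_num)) :=
    gd_mix C (by norm_num) _ (l := cmt1) (s := sx1) (by decide +kernel) comm1 (by decide +kernel) (by decide +kernel)
      (by decide +kernel) hq (gd_Y C (k := 39) (j' := 5) _ (by norm_num) (by decide +kernel) (by decide +kernel) (by norm_num) g5)
  have g0 : Good π x0X W (xr 0 (by norm_num)) := by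
    have e : xr 0 (by norm_num) = x0X := by
      apply Subtype.ext
      rw [xr_val, rv_zero]
      rfl
    rw [e]
    exact good_base C
  intro x
  obtain ⟨j, hj, h, e⟩ := cover_H0c x.1 (x_mem_DS x)
  apply gd_of_smul C h.2 (x := xr j hj) e.symm
  interval_cases j <;> assumption

end good

end Cfsg.Agent.Lib.Co3Rel19
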