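import Mathlib
import Cfsg.Agent.Lib.CoHS
import Cfsg.Agent.Lib.CoHSInvGens

set_option autoImplicit false
set_option linter.unusedVariables false

/-! An involution of the Higman-Sims group without fixed points on 100 points. -/

namespace Cfsg.Agent.Lib.CoConf

open Cfsg Cfsg.Agent.Lib.CoVec Cfsg.Agent.Lib.Golay

/-- check of one vector -/
def fixChk (f : ℕ → ℕ) (n : ℕ) : Bool := stChk n && Nat.beq (f (f n)) n

/-- check on the generators of the lattice -/
def sqChk (f : ℕ → ℕ) : Bool :=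
  (List.range 23).all (fun i => fixChk f (encF (e4F i))) && fixChk f (encF e8F) &&
    rowMasks.all (fun r => fixChk f (encF (twoF r))) && fixChk f (encF oddF)

theorem fix_of_chk {g : Co0} {f : ℕ → ℕ} (hg : ActsOn g f) {n : ℕ} (h : fixChk f n = true) :
    ∃ hm : dec n ∈ leechLattice, (g * g) • (⟨dec n, hm⟩ : LL) = ⟨dec n, hm⟩ := by
  simp only [fixChk, Bool.and_eq_true] at h
  have hn := St_of_stChk h.1
  have he : f (f n) = n := Nat.eq_of_beq_eq_true h.2
  refine ⟨hn.2.1, ?_⟩
  have h1 := hg n hn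
  have hfn : St (f n) := hg.st hn
  have h2 := hg (f n) hfn
  rw [he] at h2
  apply Subtype.ext
  rw [mul_smul]
  show (((g : Equiv.Perm LL) ((g : Equiv.Perm LL) ⟨dec n, hn.2.1⟩) : LL) : GolayPt → ℤ) = dec n
  have h3 : (g : Equiv.Perm LL) ⟨dec n, hn.2.1⟩ = ⟨dec (f n), hfn.2.1⟩ := Subtype.ext h1.2
  rw [h3]
  exact h2.2

theorem sq_eq_one_of_chk {g : Co0} {f : ℕ → ℕ} (hg : ActsOn g f) (h : sqChk f = true) : g * g = 1 := by
  classical
  simp only [sqChk, Bool.and_eq_true, List.all_eq_true] at h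
  obtain ⟨⟨⟨h1, h2⟩, h3⟩, h4⟩ := h
  let Q : AddSubgroup (GolayPt → ℤ) :=
    { carrier := {x | ∃ hm : x ∈ leechLattice, (g * g) • (⟨x, hm⟩ : LL) = ⟨x, hm⟩}
      zero_mem' := ⟨zero_mem _, smul_zero' _⟩
      add_mem' := by
        rintro a b ⟨ha, ea⟩ ⟨hb, eb⟩
        refine ⟨add_mem ha hb, ?_⟩
        have := smul_add' (g * g) ⟨a, ha⟩ ⟨b, hb⟩
        rw [ea, eb] at this
        exact this
      neg_mem' := by
        rintro a ⟨ha, ea⟩
        refine ⟨neg_mem ha, ?_⟩
        have := smul_neg' (g * g) ⟨a, ha⟩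
        rw [ea] at this
        exact this }
  have hQ : leechLattice ≤ Q := by
    apply lattice_induction
    · intro i hi
      exact fix_of_chk hg (h1 i (List.mem_range.2 hi))
    · exact fix_of_chk hg h2
    · intro r hr
      exact fix_of_chk hg (h3 r hr)
    · exact fix_of_chk hg h4
  apply Subtype.ext
  apply Equiv.ext
  intro x
  obtain ⟨hm, e⟩ := hQ x.2
  exact e

/-- The vectors of a full table. -/
theorem mem_table_of_mem {H : Subgroup Co0} {r : LL} {A : List (LL × ℤ)} {S : Finset (GolayPt → ℤ)}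
    (hS : (S : Set (GolayPt → ℤ)) ⊆ Orb H r) (hsub : ∀ h ∈ H, (h : Co0) • r ∈ DS A)
    (hc : (DS A).ncard ≤ S.card) : ∀ x ∈ DS A, (x : GolayPt → ℤ) ∈ S := by
  classical
  have hfin : (Subtype.val '' DS A).Finite := (finite_DS A).image _
  have h1 : (S : Set (GolayPt → ℤ)) ⊆ Subtype.val '' DS A := by
    intro x hx
    obtain ⟨h, hh, rfl⟩ := hS hx
    exact ⟨_, hsub h hh, rfl⟩
  have h2 : (S : Set (GolayPt → ℤ)) = Subtype.val '' DS A := by
    apply Set.eq_of_subset_of_ncard_le h1 _ hfin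
    rw [Set.ncard_coe_finset, Set.ncard_image_of_injective _ Subtype.val_injective]
    exact hc
  intro x hx
  have h3 : (x : GolayPt → ℤ) ∈ (S : Set (GolayPt → ℤ)) := h2 ▸ ⟨x, hx, rfl⟩
  exact h3

open HSInvG in
theorem inv_sq : e0 * e0 = 1 := sq_eq_one_of_chk acts0 (by decide +kernel)

/-- no fixed vector in the table -/
def noFixChk : Bool :=
  (List.range 100).all fun i => !(Nat.beq (HSInvG.act 0 (lCode (atW HSG.TR100 i))) (lCode (atW HSG.TR100 i)))

theorem noFixChk_true : noFixChk = true := by decide +kernel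

theorem inv_nofix : ∀ x ∈ DS A100, HSInvG.e0 • x ≠ x := by
  intro x hx e
  obtain ⟨h1, S, h2, h3, h4⟩ := table_orbit HSG.act_in HSG.St_rR100 (N := 100) (M := 1) (by norm_num) HSG.allR100
  have hm := mem_table_of_mem (r := HSG.lrR100) h3 (orbit_sub HSG.fixAR100 HSG.rootR100)
    (h2 ▸ parts_hs.1.le) x hx
  rw [h4] at hm
  obtain ⟨i, hi, hix⟩ := Finset.mem_image.1 hm
  have hi' := Finset.mem_range.1 hi
  have hst := (h1 i hi').1
  have hc := noFixChk_true
  simp only [noFixChk, List.all_eq_true, List.mem_range, Bool.not_eq_true'] at hc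
  have hne := hc i hi'
  have hact := HSInvG.acts0 _ hst
  have hsame : (x : LL) = ⟨dec (lCode (atW HSG.TR100 i)), hst.2.1⟩ := Subtype.ext hix.symm
  have h5 : dec (HSInvG.act 0 (lCode (atW HSG.TR100 i))) = dec (lCode (atW HSG.TR100 i)) := by
    rw [← hact.2]
    rw [hsame] at e
    exact congrArg Subtype.val e
  have h6 := dec_injOn hact.1 hst.1 h5
  rw [h6] at hne
  simp at hne

theorem inv_ne_one : HSInvG.e0 ≠ 1 := by
  intro h
  have hx : HSG.lrR100 ∈ DS A100 := HSG.rootR100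
  have := inv_nofix _ hx
  rw [h, one_smul] at this
  exact this rfl

theorem inv_order : orderOf HSInvG.e0 = 2 := by
  apply orderOf_eq_prime
  · rw [pow_two]
    exact inv_sq
  · exact inv_ne_one

end Cfsg.Agent.Lib.CoConf
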