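import Mathlib
import Cfsg.Agent.Lib.CoTwoData
import Cfsg.Agent.Lib.CoTree
import Cfsg.Agent.Lib.Co0Frame
import Cfsg.Agent.Lib.MonsterSplit
import Cfsg.Agent.S5552

/-!
# An involution `t2` of `Co0`: the classes modulo two of the vectors supported on an octad.

The classes are numbered by the numbers below `256`: `cc` is the numbering, `M a` a vector of minimal
length in the class number `a`.
-/

set_option autoImplicit false
set_option maxRecDepth 100000

open Cfsg Cfsg.Agent.Lib.Leech Cfsg.Agent.Lib.Co0Mono Cfsg.Agent.Lib.Co0Frame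
open Cfsg.Agent.Lib.CoTwoData Cfsg.Agent.Lib.CoVec Cfsg.Agent.Lib.MonsterSplit
open Cfsg.Agent.Lib.Golay (idx pt idx_pt pt_idx idx_lt idxL mem_idxL ap bit bit_eq ofMask mem_ofMask
  decode idx_decode isM24 decode_mem_M24 isM24_valid reduce)

namespace Cfsg.Agent.Lib.CoTwo1

/-! ### The element -/

theorem mOc_ok : Nat.blt mOc (2 ^ 24) = true ∧ reduce mOc = 0 := by decide +kernel

theorem mOc_lt : mOc < 2 ^ 24 := by
  have := mOc_ok.1
  simpa [Nat.blt_eq] using this

theorem Oc_mem : ofMask mOc ∈ codeSets := ofMask_mem_codeSets mOc_lt mOc_ok.2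

/-- The involution: the change of signs off the octad. -/
noncomputable def t2 : Co0 := monoCo0 Oc_mem M24.one_mem

theorem t2_apply (v : leechLattice) (p : GolayPt) :
    ((t2 : Equiv.Perm leechLattice) v : GolayPt → ℤ) p =
      if p ∈ ofMask mOc then -(v : GolayPt → ℤ) p else (v : GolayPt → ℤ) p := rfl

theorem t2_eq (v : leechLattice) : (t2 : Equiv.Perm leechLattice) v = v ↔ ∀ p ∈ ofMask mOc, (v : GolayPt → ℤ) p = 0 := by
  constructor
  · intro h p hp
    have h1 := t2_apply v p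
    rw [h, if_pos hp] at h1
    omega
  · intro h
    apply Subtype.ext
    funext p
    rw [t2_apply]
    by_cases hp : p ∈ ofMask mOc
    · rw [if_pos hp, h p hp, neg_zero]
    · rw [if_neg hp]

/-! ### Codes of vectors -/

/-- The code of the vector number `a`. -/
def tab (a : ℕ) : ℕ :=
  if a < 256 then Nat.land (Nat.shiftRight tabP (Nat.mul 192 a)) (2 ^ 192 - 1) else
    Nat.land (Nat.shiftRight tabP (Nat.mul 192 0)) (2 ^ 192 - 1)

/-- The dual codes. -/
def ny (i : ℕ) : ℕ := nyL.getD i 0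

/-- The codes of a basis. -/
def bas (i : ℕ) : ℕ := basL.getD i 0

/-- The bit of the inner product with the dual vector `i`, on codes. -/
def bitN (n i : ℕ) : Bool :=
  decide ((((dotA n (ny i) : ℕ) : ℤ) - ((dotB n (ny i) : ℕ) : ℤ)) % 16 ≠ 0)

/-- The number of a class, on codes. -/
def ccN (n : ℕ) : ℕ := Nat.ofBits (fun i : Fin 8 => bitN n i)

/-- The length of the vector number `a`. -/
def nt (a : ℕ) : ℕ := sqN (tab a)

/-- The numbers of points off the octad. -/
def offL : List ℕ := idxL.filter (fun i => mOc.testBit i)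

theorem mem_offL {i : ℕ} (hi : i < 24) (h : mOc.testBit i = true) : i ∈ offL :=
  List.mem_filter.2 ⟨mem_idxL.2 hi, h⟩

theorem tab_ok : ∀ a < 256, memL (tab a) = true ∧ Nat.blt (tab a) (2 ^ 192) = true ∧
    ccN (tab a) = a ∧ (nt a = 0 ∨ nt a = 32 ∨ nt a = 64) ∧ (nt a = 0 ↔ a = 0) ∧
    offL.all (fun i => Nat.beq (byte (tab a) i) 128) = true := by
  decide +kernel

theorem ny_ok : ∀ i < 8, memL (ny i) = true ∧ Nat.blt (ny i) (2 ^ 192) = true := by
  decide +kernel

theorem bas_ok : ∀ i < 8, memL (bas i) = true ∧ offL.all (fun j => Nat.beq (byte (bas i) j) 128) = true := by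
  decide +kernel

theorem ny_mem (i : Fin 8) : dec (ny i) ∈ leechLattice := mem_of_memL (ny_ok i i.2).1

theorem bas_mem (i : Fin 8) : dec (bas i) ∈ leechLattice := mem_of_memL (bas_ok i i.2).1

theorem tab_ge {a : ℕ} (h : ¬ a < 256) : tab a = tab 0 := by
  simp [tab, h]

theorem tab_mem (a : ℕ) : memL (tab a) = true := by
  by_cases h : a < 256
  · exact (tab_ok a h).1
  · rw [tab_ge h]
    exact (tab_ok 0 (by norm_num)).1

theorem tab_lt (a : ℕ) : tab a < 2 ^ 192 := by
  by_cases h : a < 256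
  · have := (tab_ok a h).2.1
    simpa [Nat.blt_eq] using this
  · rw [tab_ge h]
    have := (tab_ok 0 (by norm_num)).2.1
    simpa [Nat.blt_eq] using this

/-- The vector number `a`. -/
def M (a : ℕ) : leechLattice := ⟨dec (tab a), mem_of_memL (tab_mem a)⟩

theorem M_coe (a : ℕ) : ((M a : leechLattice) : GolayPt → ℤ) = dec (tab a) := rfl

theorem nt_cases (a : ℕ) : nt a = 0 ∨ nt a = 32 ∨ nt a = 64 := by
  by_cases h : a < 256
  · exact (tab_ok a h).2.2.2.1
  · have : nt a = nt 0 := by unfold nt; rw [tab_ge h]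
    rw [this]
    exact (tab_ok 0 (by norm_num)).2.2.2.1

theorem sqNorm_M (a : ℕ) : sqNorm (M a : GolayPt → ℤ) = (nt a : ℤ) := sqNorm_dec _

theorem tab_st (a : ℕ) : St (tab a) := by
  refine ⟨tab_lt a, mem_of_memL (tab_mem a), ?_⟩
  rw [sqNorm_dec]
  rcases nt_cases a with h | h | h <;> (unfold nt at h; rw [h]; norm_num)

/-- A vector vanishing off the octad. -/
def InM (x : GolayPt → ℤ) : Prop := ∀ p ∈ ofMask mOc, x p = 0

theorem dec_off {n : ℕ} (h : offL.all (fun i => Nat.beq (byte n i) 128) = true) : InM (dec n) := by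
  intro p hp
  have h1 := List.all_eq_true.1 h _ (mem_offL (idx_lt p) (mem_ofMask.1 hp))
  have h2 := Nat.eq_of_beq_eq_true h1
  show ((byte n (idx p) : ℕ) : ℤ) - 128 = 0
  rw [h2]
  norm_num

theorem M_inM {a : ℕ} (h : a < 256) : InM (M a : GolayPt → ℤ) := dec_off (tab_ok a h).2.2.2.2.2

/-! ### The numbering -/

/-- The number of a class. -/
def cc (x : GolayPt → ℤ) : ℕ :=
  Nat.ofBits (fun i : Fin 8 => decide (dotInt x (dec (ny i)) % 16 ≠ 0))

theorem cc_dec (n : ℕ) : cc (dec n) = ccN n := by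
  have h : (fun i : Fin 8 => decide (dotInt (dec n) (dec (ny i)) % 16 ≠ 0)) = fun i : Fin 8 => bitN n i := by
    funext i
    unfold bitN
    rw [dotInt_dec]
  unfold cc ccN
  rw [h]

theorem cc_lt (x : GolayPt → ℤ) : cc x < 256 := Nat.ofBits_lt_two_pow (n := 8) _

theorem cc_M {a : ℕ} (h : a < 256) : cc (M a : GolayPt → ℤ) = a := by
  rw [M_coe, cc_dec]
  exact (tab_ok a h).2.2.1

theorem testBit_cc (x : GolayPt → ℤ) (i : Fin 8) :
    (cc x).testBit i = decide (dotInt x (dec (ny i)) % 16 ≠ 0) := by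
  unfold cc
  rw [Nat.testBit_ofBits_lt _ _ i.2]

theorem lt_ext {a b : ℕ} (ha : a < 256) (hb : b < 256) (h : ∀ i : Fin 8, a.testBit i = b.testBit i) : a = b := by
  apply Nat.eq_of_testBit_eq
  intro i
  by_cases hi : i < 8
  · exact h ⟨i, hi⟩
  · have h1 : ∀ {c : ℕ}, c < 256 → c.testBit i = false := fun {c} hc =>
      Nat.testBit_lt_two_pow (lt_of_lt_of_le hc (by
        calc 256 = 2 ^ 8 := by norm_num
          _ ≤ 2 ^ i := Nat.pow_le_pow_right (by norm_num) (by omega)))
    rw [h1 ha, h1 hb]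

theorem cc_add (v w : leechLattice) :
    cc ((v + w : leechLattice) : GolayPt → ℤ) = cc (v : GolayPt → ℤ) ^^^ cc (w : GolayPt → ℤ) := by
  apply lt_ext (cc_lt _)
  · have := Nat.xor_lt_two_pow (n := 8) (cc_lt (v : GolayPt → ℤ)) (cc_lt (w : GolayPt → ℤ))
    simpa using this
  intro i
  rw [Nat.testBit_xor, testBit_cc, testBit_cc, testBit_cc]
  obtain ⟨a, ha⟩ := Cfsg.Agent.S5552.dot8 v.2 (ny_mem i)
  obtain ⟨b, hb⟩ := Cfsg.Agent.S5552.dot8 w.2 (ny_mem i)
  have h1 : dotInt ((v + w : leechLattice) : GolayPt → ℤ) (dec (ny i)) = 8 * a + 8 * b := by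
    rw [AddSubgroup.coe_add, Cfsg.dotInt_add_left, ha, hb]
  rw [h1, ha, hb]
  by_cases h2 : a % 2 = 0 <;> by_cases h3 : b % 2 = 0
  · have e1 : (8 * a + 8 * b) % 16 = 0 := by omega
    have e2 : (8 * a) % 16 = 0 := by omega
    have e3 : (8 * b) % 16 = 0 := by omega
    simp [e1, e2, e3]
  · have e1 : (8 * a + 8 * b) % 16 ≠ 0 := by omega
    have e2 : (8 * a) % 16 = 0 := by omega
    have e3 : (8 * b) % 16 ≠ 0 := by omega
    simp [e1, e2, e3]
  · have e1 : (8 * a + 8 * b) % 16 ≠ 0 := by omega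
    have e2 : (8 * a) % 16 ≠ 0 := by omega
    have e3 : (8 * b) % 16 = 0 := by omega
    simp [e1, e2, e3]
  · have e1 : (8 * a + 8 * b) % 16 = 0 := by omega
    have e2 : (8 * a) % 16 ≠ 0 := by omega
    have e3 : (8 * b) % 16 ≠ 0 := by omega
    simp [e1, e2, e3]

theorem cc_double (u : leechLattice) : cc ((u + u : leechLattice) : GolayPt → ℤ) = 0 := by
  rw [cc_add, Nat.xor_self]

theorem cc_congr (v u : leechLattice) : cc ((v + (u + u) : leechLattice) : GolayPt → ℤ) = cc (v : GolayPt → ℤ) := by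
  rw [cc_add, cc_double, Nat.xor_zero]

/-- Equal numbers mean the difference is orthogonal modulo `16` to the dual vectors. -/
theorem dvd_of_cc_eq {v w : leechLattice} (h : cc (v : GolayPt → ℤ) = cc (w : GolayPt → ℤ)) (i : Fin 8) :
    (16 : ℤ) ∣ dotInt ((v - w : leechLattice) : GolayPt → ℤ) (dec (ny i)) := by
  obtain ⟨a, ha⟩ := Cfsg.Agent.S5552.dot8 v.2 (ny_mem i)
  obtain ⟨b, hb⟩ := Cfsg.Agent.S5552.dot8 w.2 (ny_mem i)
  have h1 : dotInt ((v - w : leechLattice) : GolayPt → ℤ) (dec (ny i)) = 8 * a - 8 * b := by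
    have : ((v - w : leechLattice) : GolayPt → ℤ) = (v : GolayPt → ℤ) + -(w : GolayPt → ℤ) := by
      rw [AddSubgroup.coe_sub, sub_eq_add_neg]
    rw [this, Cfsg.dotInt_add_left, Cfsg.dotInt_neg_left, ha, hb]
    ring
  have h2 := congrArg (fun c => c.testBit i) h
  simp only [testBit_cc, ha, hb, decide_eq_decide] at h2
  rw [h1]
  by_cases h3 : a % 2 = 0
  · have e2 : (8 * a) % 16 = 0 := by omega
    have e3 : (8 * b) % 16 = 0 := by
      by_contra e4
      exact (h2.2 e4) e2
    omega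
  · have e2 : (8 * a) % 16 ≠ 0 := by omega
    have e3 := h2.1 e2
    omega

/-! ### Vectors on the octad -/

/-- The points of the octad. -/
def rep (l : Fin 8) : GolayPt := pt (repL.getD l 0)

theorem rep_lt : ∀ l : Fin 8, repL.getD l 0 < 24 := by decide +kernel

theorem rep_inj_num : ∀ l l' : Fin 8, repL.getD l 0 = repL.getD l' 0 → l = l' := by decide +kernel

theorem rep_injective : Function.Injective rep := fun l l' h =>
  rep_inj_num l l' (Cfsg.Agent.Lib.Golay.pt_injOn (rep_lt l) (rep_lt l') h)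

theorem rep_num : ∀ i < 24, mOc.testBit i = true ∨ ∃ l : Fin 8, repL.getD l 0 = i := by decide +kernel

theorem rep_cover (p : GolayPt) (hp : p ∉ ofMask mOc) : ∃ l, p = rep l := by
  rcases rep_num (idx p) (idx_lt p) with h | ⟨l, h⟩
  · exact absurd (mem_ofMask.2 h) hp
  · refine ⟨l, ?_⟩
    show p = pt (repL.getD l 0)
    rw [h, pt_idx]

/-- Inner products with vectors vanishing off the octad. -/
theorem dot_M {x : GolayPt → ℤ} (hx : InM x) (y : GolayPt → ℤ) :
    dotInt x y = ∑ j : Fin 8, x (rep j) * y (rep j) := by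
  classical
  unfold dotInt
  have h1 : ∑ j : Fin 8, x (rep j) * y (rep j) = ∑ p ∈ Finset.univ.image rep, x p * y p := by
    rw [Finset.sum_image (fun a _ b _ h => rep_injective h)]
  rw [h1]
  symm
  apply Finset.sum_subset (Finset.subset_univ _)
  intro p _ hp
  have h2 : p ∈ ofMask mOc := by
    by_contra h3
    obtain ⟨l, hl⟩ := rep_cover p h3
    exact hp (Finset.mem_image.2 ⟨l, Finset.mem_univ _, hl.symm⟩)
  rw [hx p h2, zero_mul]

/-- The coordinates of the dual vectors on the octad. -/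
def Yd (i j : Fin 8) : ℤ := dec (ny i) (rep j)

/-- The coordinates of the basis on the octad. -/
def Bd (i l : Fin 8) : ℤ := dec (bas i) (rep l)

theorem mat_eq : ∀ j l : Fin 8, ∑ i : Fin 8, Yd i j * Bd i l = if j = l then 8 else 0 := by
  decide +kernel

theorem dot_fixed {x : GolayPt → ℤ} (hx : InM x) (i : Fin 8) :
    dotInt x (dec (ny i)) = ∑ j : Fin 8, x (rep j) * Yd i j := dot_M hx _

theorem bas_inM (i : Fin 8) : InM (dec (bas i)) := dec_off (bas_ok i i.2).2

/-- A vector on the octad, orthogonal modulo `16` to the dual vectors, is a double. -/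
theorem fixed_two {w : leechLattice} (hw : InM (w : GolayPt → ℤ))
    (h16 : ∀ i : Fin 8, (16 : ℤ) ∣ dotInt (w : GolayPt → ℤ) (dec (ny i))) : ∃ u : leechLattice, w = u + u := by
  choose m hm using h16
  set F : Fin 8 → ℤ := fun l => (w : GolayPt → ℤ) (rep l) with hF
  have key : ∀ l, F l = 2 * ∑ i : Fin 8, m i * Bd i l := by
    intro l
    have h1 : ∑ i : Fin 8, (∑ j : Fin 8, F j * Yd i j) * Bd i l = 8 * F l := by
      simp only [Finset.sum_mul]
      rw [Finset.sum_comm]
      have h2 : ∀ j : Fin 8, ∑ i : Fin 8, F j * Yd i j * Bd i l = F j * (if j = l then 8 else 0) := by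
        intro j
        rw [← mat_eq j l, Finset.mul_sum]
        exact Finset.sum_congr rfl fun i _ => by ring
      simp only [h2]
      rw [Finset.sum_eq_single l]
      · rw [if_pos rfl]; ring
      · intro j _ hj
        rw [if_neg hj, mul_zero]
      · simp
    have h3 : ∀ i : Fin 8, ∑ j : Fin 8, F j * Yd i j = 16 * m i := by
      intro i
      rw [← hm i, dot_fixed hw]
    simp only [h3] at h1
    have h4 : ∑ i : Fin 8, 16 * m i * Bd i l = 8 * (2 * ∑ i : Fin 8, m i * Bd i l) := by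
      rw [Finset.mul_sum, Finset.mul_sum]
      exact Finset.sum_congr rfl fun i _ => by ring
    rw [h4] at h1
    linarith
  let B : Fin 8 → leechLattice := fun i => ⟨dec (bas i), bas_mem i⟩
  refine ⟨∑ i : Fin 8, m i • B i, ?_⟩
  apply Subtype.ext
  funext p
  have h5 : ∀ q, ((∑ i : Fin 8, m i • B i : leechLattice) : GolayPt → ℤ) q = ∑ i : Fin 8, m i * dec (bas i) q := by
    intro q
    simp only [AddSubgroup.val_finsetSum, Finset.sum_apply, AddSubgroup.coe_zsmul, Pi.smul_apply, smul_eq_mul, B]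
  show (w : GolayPt → ℤ) p = ((∑ i : Fin 8, m i • B i : leechLattice) : GolayPt → ℤ) p + ((∑ i : Fin 8, m i • B i : leechLattice) : GolayPt → ℤ) p
  rw [h5]
  by_cases hp : p ∈ ofMask mOc
  · rw [hw p hp]
    have : ∀ i : Fin 8, m i * dec (bas i) p = 0 := fun i => by rw [bas_inM i p hp, mul_zero]
    simp [this]
  · obtain ⟨l, rfl⟩ := rep_cover p hp
    have := key l
    simp only [hF] at this
    rw [this]
    have e : ∀ i : Fin 8, m i * dec (bas i) (rep l) = m i * Bd i l := fun i => rfl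
    simp only [e]
    ring

theorem inM_add {x y : GolayPt → ℤ} (hx : InM x) (hy : InM y) : InM (x + y) := by
  intro p hp
  show x p + y p = 0
  rw [hx p hp, hy p hp, add_zero]

theorem inM_neg {x : GolayPt → ℤ} (hx : InM x) : InM (-x) := by
  intro p hp
  show - x p = 0
  rw [hx p hp, neg_zero]

/-- A vector on the octad is congruent to the minimal vector of its number. -/
theorem exists_cong_M {v : leechLattice} (hv : InM (v : GolayPt → ℤ)) :
    ∃ u : leechLattice, v = M (cc (v : GolayPt → ℤ)) + (u + u) := by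
  set a := cc (v : GolayPt → ℤ) with ha
  have hlt : a < 256 := cc_lt _
  have hcc : cc (v : GolayPt → ℤ) = cc (M a : GolayPt → ℤ) := by rw [cc_M hlt]
  have hm : InM ((v - M a : leechLattice) : GolayPt → ℤ) := by
    have : ((v - M a : leechLattice) : GolayPt → ℤ) = (v : GolayPt → ℤ) + -(M a : GolayPt → ℤ) := by
      rw [AddSubgroup.coe_sub, sub_eq_add_neg]
    rw [this]
    exact inM_add hv (inM_neg (M_inM hlt))
  obtain ⟨u, hu⟩ := fixed_two hm (dvd_of_cc_eq hcc)
  refine ⟨u, ?_⟩
  rw [← hu]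
  abel

end Cfsg.Agent.Lib.CoTwo1
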