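import Mathlib
import Cfsg.Agent.Lib.CoTwo1
import Cfsg.Agent.Lib.Five3
import Cfsg.Agent.Lib.GolayClasses

/-!
# The centralizer of `t2` in the stabilizer of the vector `leechU`: its action on the classes, and a bound for its order.
-/

set_option autoImplicit false
set_option maxRecDepth 100000

open Cfsg Cfsg.Agent.Lib.Leech Cfsg.Agent.Lib.Co0Mono Cfsg.Agent.Lib.Co0Frame
open Cfsg.Agent.Lib.CoTwoData Cfsg.Agent.Lib.CoVec Cfsg.Agent.Lib.MonsterSplit Cfsg.Agent.Lib.CoTwo1
open Cfsg.Agent.Lib.Five3 (co0_ext_e8 eN dec_eN eN_st)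
open Cfsg.Agent.Lib.Golay (idx pt idx_pt pt_idx idx_lt idxL mem_idxL ap bit bit_eq ofMask mem_ofMask
  decode idx_decode isM24 decode_mem_M24 isM24_valid reduce S48L exists_S48_of_agree toMask RepBy repBy_decode idC decode_idC)
open Cfsg.Agent.S0398 (e8 e8_apply neg_center)

namespace Cfsg.Agent.Lib.CoTwo2

/-- The centralizer of `t2` in the stabilizer of the vector. -/
def X : Subgroup Co0 where
  carrier := {g | g * t2 = t2 * g ∧ (g : Equiv.Perm leechLattice) Spor.leechU = Spor.leechU}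
  mul_mem' := by
    rintro a b ⟨h1, h2⟩ ⟨h3, h4⟩
    refine ⟨?_, ?_⟩
    · rw [mul_assoc, h3, ← mul_assoc, h1, mul_assoc]
    · show (a : Equiv.Perm leechLattice) ((b : Equiv.Perm leechLattice) Spor.leechU) = _
      rw [h4, h2]
  one_mem' := ⟨by rw [one_mul, mul_one], rfl⟩
  inv_mem' := by
    rintro a ⟨h1, h2⟩
    refine ⟨?_, ?_⟩
    · exact Commute.inv_left (show Commute a t2 from h1)
    · show (a⁻¹ : Equiv.Perm leechLattice) Spor.leechU = _
      rw [Equiv.Perm.inv_eq_iff_eq]
      exact h2.symm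

theorem mem_X {g : Co0} : g ∈ X ↔ g * t2 = t2 * g ∧ (g : Equiv.Perm leechLattice) Spor.leechU = Spor.leechU := Iff.rfl

/-- The commutation with `t2`. -/
abbrev Cm (g : Co0) : Prop := g * t2 = t2 * g

theorem map_inM {g : Co0} (hg : Cm g) {v : leechLattice} (hv : InM (v : GolayPt → ℤ)) :
    InM (((g : Equiv.Perm leechLattice) v : leechLattice) : GolayPt → ℤ) := by
  have h1 := (t2_eq v).2 hv
  apply (t2_eq _).1
  have h2 := congrArg (fun k : Co0 => (k : Equiv.Perm leechLattice) v) hg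
  have h3 : (g : Equiv.Perm leechLattice) ((t2 : Equiv.Perm leechLattice) v) =
      (t2 : Equiv.Perm leechLattice) ((g : Equiv.Perm leechLattice) v) := h2
  rw [← h3, h1]

/-! ### The action on numbers -/

/-- The action on numbers. -/
noncomputable def A (g : Co0) (a : ℕ) : ℕ := cc ((g : Equiv.Perm leechLattice) (M a) : leechLattice)

theorem A_lt (g : Co0) (a : ℕ) : A g a < 256 := cc_lt _

/-- The lengths of the vectors of a class. -/
theorem nt_of_norm {v : leechLattice} (hv : InM (v : GolayPt → ℤ)) (h64 : sqNorm (v : GolayPt → ℤ) ≤ 64) :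
    (nt (cc (v : GolayPt → ℤ)) : ℤ) = sqNorm (v : GolayPt → ℤ) := by
  obtain ⟨u, hu⟩ := exists_cong_M hv
  set b := cc (v : GolayPt → ℤ) with hb
  have h1 := sqNorm_M b
  have h2 : (nt b : ℤ) ≤ 64 := by
    rcases nt_cases b with h | h | h <;> (rw [h]; norm_num)
  have h3 : (v : GolayPt → ℤ) - (M b : GolayPt → ℤ) = (2 : ℕ) • (u : GolayPt → ℤ) := by
    rw [hu, two_nsmul]
    simp only [AddSubgroup.coe_add]
    abel
  rcases Cfsg.Agent.Lib.LeechCong.cong_main (M b).2 u.2 h64 (by omega) h3 with h4 | h4 | h4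
  · rw [h4, h1]
  · rw [h4, Cfsg.Agent.Lib.LeechCong.sqNorm_neg, h1]
  · rw [h4.1, ← h1, h4.2.1]

theorem A_nt {g : Co0} (hg : Cm g) {a : ℕ} (h : a < 256) : nt (A g a) = nt a := by
  have h1 : sqNorm (((g : Equiv.Perm leechLattice) (M a) : leechLattice) : GolayPt → ℤ) = (nt a : ℤ) := by
    rw [g.2.2, sqNorm_M]
  have h2 : (nt a : ℤ) ≤ 64 := by
    rcases nt_cases a with h | h | h <;> (rw [h]; norm_num)
  have h3 := nt_of_norm (map_inM hg (M_inM h)) (by rw [h1]; exact h2)
  rw [h1] at h3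
  exact_mod_cast h3

/-- Two vectors with the same number are congruent. -/
theorem cong_of_cc {v w : leechLattice} (hv : InM (v : GolayPt → ℤ)) (hw : InM (w : GolayPt → ℤ))
    (h : cc (v : GolayPt → ℤ) = cc (w : GolayPt → ℤ)) : ∃ u : leechLattice, v = w + (u + u) := by
  obtain ⟨a, ha⟩ := exists_cong_M hv
  obtain ⟨b, hb⟩ := exists_cong_M hw
  rw [h] at ha
  refine ⟨a - b, ?_⟩
  have e : w + ((a - b) + (a - b)) = (w - (b + b)) + (a + a) := by abel
  rw [e]
  have e2 : w - (b + b) = M (cc (w : GolayPt → ℤ)) := by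
    conv_lhs => rw [hb]
    abel
  rw [e2]
  exact ha

theorem A_xor (g : Co0) {a b : ℕ} (ha : a < 256) (hb : b < 256) : A g (a ^^^ b) = A g a ^^^ A g b := by
  have hab : a ^^^ b < 256 := by
    have := Nat.xor_lt_two_pow (n := 8) ha hb
    simpa using this
  have h1 : InM ((M a + M b : leechLattice) : GolayPt → ℤ) := inM_add (M_inM ha) (M_inM hb)
  have h2 : cc ((M a + M b : leechLattice) : GolayPt → ℤ) = cc (M (a ^^^ b) : GolayPt → ℤ) := by
    rw [cc_add, cc_M ha, cc_M hb, cc_M hab]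
  obtain ⟨u, hu⟩ := cong_of_cc h1 (M_inM hab) h2
  have h3 : (g : Equiv.Perm leechLattice) (M a) + (g : Equiv.Perm leechLattice) (M b) =
      (g : Equiv.Perm leechLattice) (M (a ^^^ b)) + ((g : Equiv.Perm leechLattice) u + (g : Equiv.Perm leechLattice) u) := by
    rw [← co0_add, ← co0_add, ← co0_add, hu]
  unfold A
  have h4 := congrArg (fun v : leechLattice => cc (v : GolayPt → ℤ)) h3
  simp only [cc_add] at h4
  rw [h4, Nat.xor_self, Nat.xor_zero]

theorem A_mul (g : Co0) {h : Co0} (hh : Cm h) {a : ℕ} (ha : a < 256) : A (g * h) a = A g (A h a) := by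
  have h1 := map_inM hh (M_inM ha)
  have h2 : cc ((h : Equiv.Perm leechLattice) (M a) : leechLattice) = cc (M (A h a) : GolayPt → ℤ) := by
    rw [cc_M (A_lt h a)]
    rfl
  obtain ⟨u, hu⟩ := cong_of_cc h1 (M_inM (A_lt h a)) h2
  show cc ((g : Equiv.Perm leechLattice) ((h : Equiv.Perm leechLattice) (M a)) : leechLattice) = _
  rw [hu, co0_add, co0_add, cc_congr]
  rfl

theorem A_one {a : ℕ} (ha : a < 256) : A 1 a = a := cc_M ha

theorem A_zero (g : Co0) : A g 0 = 0 := by
  have := A_xor g (a := 0) (b := 0) (by norm_num) (by norm_num)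
  rw [Nat.xor_self, Nat.xor_self] at this
  simpa using this

theorem A_inv {g : Co0} (hg : Cm g) {a : ℕ} (ha : a < 256) : A g⁻¹ (A g a) = a := by
  rw [← A_mul _ hg ha, inv_mul_cancel, A_one ha]

theorem A_inj {g : Co0} (hg : Cm g) {a b : ℕ} (ha : a < 256) (hb : b < 256) (h : A g a = A g b) : a = b := by
  rw [← A_inv hg ha, h, A_inv hg hb]

/-! ### The vector and the frame -/

theorem dec_tab64 : ∀ p : GolayPt, dec (tab 64) p = Spor.vecU p := by decide +kernel

theorem M64 : M 64 = Spor.leechU := by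
  apply Subtype.ext
  funext p
  exact dec_tab64 p

theorem A_64 {g : Co0} (hg : g ∈ X) : A g 64 = 64 := by
  unfold A
  rw [M64, hg.2, ← M64]
  exact cc_M (by norm_num)

theorem tab1 : tab 1 = eN 0 := by decide +kernel

theorem M1 : M 1 = e8 (pt 0) := by
  apply Subtype.ext
  rw [M_coe, tab1]
  exact dec_eN (pt 0)

/-! ### The quadratic form -/

/-- The quadratic form on numbers. -/
def qB (a : ℕ) : Bool :=
  xor (xor (xor (xor (a.testBit 0 && a.testBit 3) (a.testBit 1 && a.testBit 4)) (a.testBit 2 && a.testBit 5)) (a.testBit 6))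
    (a.testBit 6 && a.testBit 7)

theorem qB_nt : ∀ a < 256, qB a = Nat.beq (nt a) 32 := by decide +kernel

theorem qB_A {g : Co0} (hg : Cm g) {a : ℕ} (h : a < 256) : qB (A g a) = qB a := by
  rw [qB_nt _ (A_lt g a), qB_nt _ h, A_nt hg h]

/-- The bilinear form on numbers. -/
def fB (a b : ℕ) : Bool := xor (xor (qB (a ^^^ b)) (qB a)) (qB b)

theorem fB_A {g : Co0} (hg : Cm g) {a b : ℕ} (ha : a < 256) (hb : b < 256) : fB (A g a) (A g b) = fB a b := by
  have hab : a ^^^ b < 256 := by
    have := Nat.xor_lt_two_pow (n := 8) ha hb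
    simpa using this
  unfold fB
  rw [← A_xor g ha hb, qB_A hg hab, qB_A hg ha, qB_A hg hb]

theorem fB_64 : ∀ a < 256, fB a 64 = a.testBit 7 := by decide +kernel

theorem A_bit7 {g : Co0} (hg : g ∈ X) {a : ℕ} (h : a < 256) : (A g a).testBit 7 = a.testBit 7 := by
  rw [← fB_64 _ (A_lt g a), ← fB_64 _ h]
  conv_lhs => rw [← A_64 hg]
  exact fB_A hg.1 h (by norm_num)

/-! ### The stabilizer of the frame -/

/-- The signs. -/
def D10L : Finset ℕ := (Finset.range 4096).filter (fun n =>
  (!(Cfsg.Agent.Lib.GolayBits.word n).testBit 0) && (!(Cfsg.Agent.Lib.GolayBits.word n).testBit 23))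

theorem card_D10L : D10L.card = 1024 := by decide +kernel

/-- The signs. -/
noncomputable def D10F : Finset (Finset GolayPt) :=
  D10L.image (fun n => Cfsg.Agent.Lib.GolayBits.toSet (Cfsg.Agent.Lib.GolayBits.word n))

theorem card_D10F : D10F.card ≤ 1024 := by
  rw [← card_D10L]
  exact Finset.card_image_le

theorem mem_D10F {c : Finset GolayPt} (hc : c ∈ codeSets) (h0 : (some 0 : GolayPt) ∉ c) (h23 : (none : GolayPt) ∉ c) :
    c ∈ D10F := by
  obtain ⟨n, hn, rfl⟩ := (Cfsg.Agent.Lib.GolayBits.mem_supports_iff).1 hc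
  refine Finset.mem_image.2 ⟨n, Finset.mem_filter.2 ⟨Finset.mem_range.2 hn, ?_⟩, rfl⟩
  rw [Cfsg.Agent.Lib.GolayBits.mem_toSet] at h0 h23
  have e0 : (Cfsg.Agent.Lib.GolayBits.word n).testBit 0 = false := by
    have e : Cfsg.Agent.Lib.GolayBits.idx (some 0 : GolayPt) = 0 := by decide
    rw [e] at h0
    simpa using h0
  have e1 : (Cfsg.Agent.Lib.GolayBits.word n).testBit 23 = false := by
    have e : Cfsg.Agent.Lib.GolayBits.idx (none : GolayPt) = 23 := rfl
    rw [e] at h23
    simpa using h23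
  rw [e0, e1]
  rfl

theorem L240_ok : L240.length = 240 ∧ L240.all isM24 = true := by decide +kernel

theorem S48_len : S48L.length = 48 := by decide +kernel

/-- The points of the octad off the pair. -/
def O6 : List ℕ := [1, 2, 3, 5, 14, 17]

theorem O6_num : ∀ i < 24, mOc.testBit i = true ∨ i = 0 ∨ i = 23 ∨ i ∈ O6 := by decide +kernel

theorem cov240 : [0, 23].all (fun a => [0, 23].all fun b => Nat.beq a b || O6.all fun x => O6.all fun y => O6.all fun z =>
    (Nat.beq x y || Nat.beq x z || Nat.beq y z) || L240.any fun u =>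
      Nat.beq (ap u 23) a && Nat.beq (ap u 0) b && Nat.beq (ap u 1) x && Nat.beq (ap u 2) y && Nat.beq (ap u 3) z) = true := by
  decide +kernel

/-- The permutations. -/
noncomputable def SF : Finset (Equiv.Perm GolayPt) :=
  (L240.toFinset ×ˢ S48L.toFinset).image (fun p => decode p.1 * decode p.2)

theorem card_SF : SF.card ≤ 11520 := by
  refine Finset.card_image_le.trans ?_
  rw [Finset.card_product]
  have h1 := List.toFinset_card_le L240
  have h2 := List.toFinset_card_le S48L
  rw [L240_ok.1] at h1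
  rw [S48_len] at h2
  calc _ ≤ 240 * 48 := Nat.mul_le_mul h1 h2
    _ = 11520 := by norm_num

theorem pt0 : pt 0 = (some 0 : GolayPt) := rfl
theorem pt23 : pt 23 = (none : GolayPt) := rfl

theorem mem_SF {σ : Equiv.Perm GolayPt} (hσ : σ ∈ M24) (hO : ∀ p, p ∉ ofMask mOc → σ p ∉ ofMask mOc)
    (h0 : σ (pt 0) = pt 0 ∨ σ (pt 0) = pt 23) (h23 : σ (pt 23) = pt 0 ∨ σ (pt 23) = pt 23) : σ ∈ SF := by
  have hne : ∀ {i j : ℕ}, i < 24 → j < 24 → i ≠ j → σ (pt i) ≠ σ (pt j) := by
    intro i j hi hj hij h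
    exact hij (Cfsg.Agent.Lib.Golay.pt_injOn hi hj (σ.injective h))
  have e023 : idx (σ (pt 0)) ≠ idx (σ (pt 23)) := by
    intro h
    exact hne (i := 0) (j := 23) (by norm_num) (by norm_num) (by norm_num) (Cfsg.Agent.Lib.Golay.idx_injective h)
  have hidx : ∀ {i : ℕ}, i < 24 → i ≠ 0 → i ≠ 23 → ¬ mOc.testBit i = true → idx (σ (pt i)) ∈ O6 := by
    intro i hi hi0 hi23 hm
    have h1 : pt i ∉ ofMask mOc := by
      rw [mem_ofMask, idx_pt hi]
      exact hm
    have h2 := hO _ h1
    rw [mem_ofMask] at h2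
    rcases O6_num _ (idx_lt (σ (pt i))) with h | h | h | h
    · exact absurd h h2
    · exfalso
      have : σ (pt i) = pt 0 := by rw [← pt_idx (σ (pt i)), h]
      rcases h0 with h3 | h3
      · exact hne hi (by norm_num) hi0 (this.trans h3.symm)
      · rcases h23 with h4 | h4
        · exact hne hi (by norm_num) hi23 (this.trans h4.symm)
        · exact hne (i := 0) (j := 23) (by norm_num) (by norm_num) (by norm_num) (h3.trans h4.symm)
    · exfalso
      have : σ (pt i) = pt 23 := by rw [← pt_idx (σ (pt i)), h]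
      rcases h0 with h3 | h3
      · rcases h23 with h4 | h4
        · exact hne (i := 0) (j := 23) (by norm_num) (by norm_num) (by norm_num) (h3.trans h4.symm)
        · exact hne hi (by norm_num) hi23 (this.trans h4.symm)
      · exact hne hi (by norm_num) hi0 (this.trans h3.symm)
    · exact h
  have hb1 : ¬ mOc.testBit 1 = true := by decide +kernel
  have hb2 : ¬ mOc.testBit 2 = true := by decide +kernel
  have hb3 : ¬ mOc.testBit 3 = true := by decide +kernel
  have hx := hidx (i := 1) (by norm_num) (by norm_num) (by norm_num) hb1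
  have hy := hidx (i := 2) (by norm_num) (by norm_num) (by norm_num) hb2
  have hz := hidx (i := 3) (by norm_num) (by norm_num) (by norm_num) hb3
  have ha : idx (σ (pt 23)) = 0 ∨ idx (σ (pt 23)) = 23 := by
    rcases h23 with h | h <;> rw [h]
    · left; rfl
    · right; rfl
  have hb : idx (σ (pt 0)) = 0 ∨ idx (σ (pt 0)) = 23 := by
    rcases h0 with h | h <;> rw [h]
    · left; rfl
    · right; rfl
  have hmem : ∀ {n : ℕ}, (n = 0 ∨ n = 23) → n ∈ [0, 23] := by
    rintro n (rfl | rfl) <;> simp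
  have hc := List.all_eq_true.1 (List.all_eq_true.1 cov240 _ (hmem ha)) _ (hmem hb)
  simp only [Bool.or_eq_true, Nat.beq_eq] at hc
  rcases hc with hc | hc
  · exact absurd hc.symm e023
  have hc2 := List.all_eq_true.1 (List.all_eq_true.1 (List.all_eq_true.1 hc _ hx) _ hy) _ hz
  simp only [Bool.or_eq_true, Nat.beq_eq, List.any_eq_true, Bool.and_eq_true] at hc2
  have nexy : ∀ {i j : ℕ}, i < 24 → j < 24 → i ≠ j → ¬ idx (σ (pt i)) = idx (σ (pt j)) := by
    intro i j hi hj hij h
    exact hne hi hj hij (Cfsg.Agent.Lib.Golay.idx_injective h)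
  rcases hc2 with ((h | h) | h) | ⟨u, huL, ⟨⟨⟨⟨e1, e2⟩, e3⟩, e4⟩, e5⟩⟩
  · exact absurd h (nexy (by norm_num) (by norm_num) (by norm_num))
  · exact absurd h (nexy (by norm_num) (by norm_num) (by norm_num))
  · exact absurd h (nexy (by norm_num) (by norm_num) (by norm_num))
  have huM : isM24 u = true := List.all_eq_true.1 L240_ok.2 u huL
  have hv := isM24_valid huM
  have hagree : ∀ i ∈ [3, 2, 1, 0, 23], σ (pt i) = decode u (pt i) := by
    intro i hi
    simp only [List.mem_cons, List.not_mem_nil, or_false] at hi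
    rcases hi with rfl | rfl | rfl | rfl | rfl
    · rw [Cfsg.Agent.Lib.Golay.decode_pt hv (by norm_num), e5, pt_idx]
    · rw [Cfsg.Agent.Lib.Golay.decode_pt hv (by norm_num), e4, pt_idx]
    · rw [Cfsg.Agent.Lib.Golay.decode_pt hv (by norm_num), e3, pt_idx]
    · rw [Cfsg.Agent.Lib.Golay.decode_pt hv (by norm_num), e2, pt_idx]
    · rw [Cfsg.Agent.Lib.Golay.decode_pt hv (by norm_num), e1, pt_idx]
  obtain ⟨s, hs, e⟩ := exists_S48_of_agree hσ (decode_mem_M24 huM) hagree
  refine Finset.mem_image.2 ⟨(u, s), Finset.mem_product.2 ⟨List.mem_toFinset.2 huL, List.mem_toFinset.2 hs⟩, e.symm⟩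

attribute [local irreducible] D10F SF

/-- The monomial elements of the group. -/
theorem mono_data {c : Finset GolayPt} {σ : Equiv.Perm GolayPt} {hc : c ∈ codeSets} {hσ : σ ∈ M24}
    (hg : monoCo0 hc hσ ∈ X) :
    (some 0 : GolayPt) ∉ c ∧ (none : GolayPt) ∉ c ∧ (∀ p, p ∉ ofMask mOc → σ p ∉ ofMask mOc) ∧
      (σ (pt 0) = pt 0 ∨ σ (pt 0) = pt 23) ∧ (σ (pt 23) = pt 0 ∨ σ (pt 23) = pt 23) := by
  classical
  have hU : ∀ p, (monoCo0 hc hσ : Equiv.Perm leechLattice) Spor.leechU = Spor.leechU →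
      (if p ∈ c then - Spor.vecU (σ p) else Spor.vecU (σ p)) = Spor.vecU p := by
    intro p h
    have := congrArg (fun v : leechLattice => (v : GolayPt → ℤ) p) h
    exact this
  have hval : ∀ q : GolayPt, Spor.vecU q = 0 ∨ (Spor.vecU q = 4 ∧ (q = pt 0 ∨ q = pt 23)) := by
    intro q
    unfold Spor.vecU
    by_cases h : q = none ∨ q = some 0
    · right
      rw [if_pos h]
      refine ⟨rfl, ?_⟩
      rcases h with h | h
      · right; exact h
      · left; exact h
    · left
      rw [if_neg h]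
  have key : ∀ p, Spor.vecU p = 4 → p ∉ c ∧ (σ p = pt 0 ∨ σ p = pt 23) := by
    intro p hp
    have h1 := hU p hg.2
    rw [hp] at h1
    rcases hval (σ p) with h2 | ⟨h2, h3⟩
    · rw [h2] at h1
      split_ifs at h1 <;> norm_num at h1
    · rw [h2] at h1
      by_cases h4 : p ∈ c
      · rw [if_pos h4] at h1
        norm_num at h1
      · exact ⟨h4, h3⟩
  have e0 : Spor.vecU (some 0 : GolayPt) = 4 := by decide
  have e23 : Spor.vecU (none : GolayPt) = 4 := by decide
  obtain ⟨h1, h2⟩ := key _ e0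
  obtain ⟨h3, h4⟩ := key _ e23
  refine ⟨h1, h3, ?_, h2, h4⟩
  have hcomm := hg.1
  unfold t2 at hcomm
  rw [monoCo0_mul, monoCo0_mul] at hcomm
  obtain ⟨h5, -⟩ := monoCo0_part_eq hcomm
  have h6 : c.image ((1 : Equiv.Perm GolayPt)⁻¹ : Equiv.Perm GolayPt) = c := by
    ext q
    simp
  rw [h6, symmDiff_comm (ofMask mOc) c, symmDiff_right_inj] at h5
  intro p hp hp2
  apply hp
  rw [← h5]
  exact Finset.mem_image.2 ⟨σ p, hp2, by simp⟩

/-- The elements of the group fixing the class of the frame are few. -/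
theorem exists_mono_stab {g : Co0} (hg : g ∈ X) (h : A g 1 = 1) :
    ∃ p ∈ D10F ×ˢ SF, ∃ (hc : p.1 ∈ codeSets) (hσ : p.2 ∈ M24), g = monoCo0 hc hσ := by
  classical
  have h1 := map_inM hg.1 (M_inM (a := 1) (by norm_num))
  have h2 : cc ((g : Equiv.Perm leechLattice) (M 1) : leechLattice) = cc (M 1 : GolayPt → ℤ) := by
    rw [cc_M (by norm_num)]
    exact h
  obtain ⟨u, hu⟩ := cong_of_cc h1 (M_inM (by norm_num)) h2
  rw [M1] at hu
  obtain ⟨c, σ, hc, hσ, rfl⟩ := exists_mono_of_cong hu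
  obtain ⟨h3, h4, h5, h6, h7⟩ := mono_data hg
  exact ⟨(c, σ), Finset.mem_product.2 ⟨mem_D10F hc h3 h4, mem_SF hσ h5 h6 h7⟩, hc, hσ, rfl⟩

/-- The action of the group on the numbers. -/
@[reducible] noncomputable def actFin : MulAction X (Fin 256) where
  smul g a := ⟨A g a, A_lt _ _⟩
  one_smul a := Fin.ext (A_one a.2)
  mul_smul g h a := Fin.ext (A_mul _ h.2.1 a.2)

theorem card_pts : ((Finset.univ : Finset (Fin 256)).filter
    (fun a : Fin 256 => nt (a : ℕ) = 64 ∧ (a : ℕ).testBit 7 = false)).card = 63 := by decide +kernel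

theorem nt1 : nt 1 = 64 := by decide +kernel

theorem bit71 : (1 : ℕ).testBit 7 = false := by decide

/-- The order of the group. -/
theorem card_X_le : Nat.card X ≤ 743178240 := by
  classical
  letI := actFin
  let a₀ : Fin 256 := ⟨1, by norm_num⟩
  have h1 : (MulAction.stabilizer X a₀).index = (MulAction.orbit X a₀).ncard := MulAction.index_stabilizer _ _
  have h2 : (MulAction.orbit X a₀).ncard ≤ 63 := by
    rw [← card_pts, ← Set.ncard_coe_finset]
    apply Set.ncard_le_ncard _ (Finset.finite_toSet _)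
    rintro _ ⟨g, rfl⟩
    have h4 := A_nt g.2.1 (a := 1) (by norm_num)
    rw [nt1] at h4
    have h5 := A_bit7 g.2 (a := 1) (by norm_num)
    rw [bit71] at h5
    exact Finset.mem_coe.2 (Finset.mem_filter.2 ⟨Finset.mem_univ _, h4, h5⟩)
  have h3 : Nat.card (MulAction.stabilizer X a₀) ≤ 11796480 := by
    have hex : ∀ g : MulAction.stabilizer X a₀, ∃ p : ↥(D10F ×ˢ SF), ∃ (hc : p.1.1 ∈ codeSets) (hσ : p.1.2 ∈ M24),
        ((g : X) : Co0) = monoCo0 hc hσ := by
      intro g
      have hg : A ((g : X) : Co0) 1 = 1 := by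
        have h7 : (g : X) • a₀ = a₀ := MulAction.mem_stabilizer_iff.1 g.2
        exact congrArg Fin.val h7
      obtain ⟨p, hp, hc, hσ, e⟩ := exists_mono_stab (g : X).2 hg
      exact ⟨⟨p, hp⟩, hc, hσ, e⟩
    choose f hf1 hf2 hf3 using hex
    have hinj : Function.Injective f := by
      intro g g' h
      apply Subtype.ext
      apply Subtype.ext
      rw [hf3 g, hf3 g']
      apply monoCo0_congr
      · rw [h]
      · rw [h]
    have h4 := Nat.card_le_card_of_injective f hinj
    have h8 : Nat.card ↥(D10F ×ˢ SF) = (D10F ×ˢ SF).card := by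
      rw [Nat.card_eq_fintype_card, Fintype.card_coe]
    rw [h8, Finset.card_product] at h4
    have h5 := card_D10F
    have h6 := card_SF
    calc _ ≤ D10F.card * SF.card := h4
      _ ≤ 1024 * 11520 := Nat.mul_le_mul h5 h6
      _ = 11796480 := by norm_num
  have h4 := Subgroup.card_mul_index (MulAction.stabilizer X a₀)
  rw [← h4, h1]
  calc _ ≤ 11796480 * 63 := Nat.mul_le_mul h3 h2
    _ = 743178240 := by norm_num

end Cfsg.Agent.Lib.CoTwo2
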