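import Mathlib
import Cfsg.Agent.Lib.CoTwo2
import Cfsg.Agent.Lib.SympForm
import Cfsg.Agent.S0765

/-!
# The homomorphism from the centralizer to the symplectic group, and its surjectivity.
-/

set_option autoImplicit false
set_option maxRecDepth 100000

open Cfsg Cfsg.Agent.Lib.Leech Cfsg.Agent.Lib.Co0Mono Cfsg.Agent.Lib.Co0Frame
open Cfsg.Agent.Lib.CoTwoData Cfsg.Agent.Lib.CoVec Cfsg.Agent.Lib.MonsterSplit Cfsg.Agent.Lib.CoTwo1
open Cfsg.Agent.Lib.CoTwo2 Cfsg.Agent.Lib.SympForm
open Cfsg.Agent.Lib.Five3 (co0_ext_e8 eN dec_eN eN_st)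
open Cfsg.Agent.Lib.Golay (idx pt idx_pt pt_idx idx_lt idxL mem_idxL ap bit bit_eq ofMask mem_ofMask
  decode idx_decode isM24 decode_mem_M24 isM24_valid reduce S48L exists_S48_of_agree toMask RepBy repBy_decode idC decode_idC isM24_idC)
open Cfsg.Agent.S0398 (e8 e8_apply neg_center)
open Matrix

namespace Cfsg.Agent.Lib.CoTwo3

/-! ### The space -/

/-- The space. -/
abbrev V6 := Fin 3 ⊕ Fin 3 → ZMod 2

/-- The group. -/
abbrev Sp6 := Matrix.symplecticGroup (Fin 3) (ZMod 2)

/-- Booleans in the field. -/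
def b2z (b : Bool) : ZMod 2 := if b then 1 else 0

theorem b2z_xor (x y : Bool) : b2z (xor x y) = b2z x + b2z y := by
  cases x <;> cases y <;> decide

theorem b2z_and (x y : Bool) : b2z (x && y) = b2z x * b2z y := by
  cases x <;> cases y <;> decide

/-- The vector of a number. -/
def toV (a : ℕ) : V6 := Sum.elim (fun k => b2z (a.testBit k)) (fun k => b2z (a.testBit (k + 3)))

theorem toV_xor (a b : ℕ) : toV (a ^^^ b) = toV a + toV b := by
  funext k
  rcases k with k | k <;> simp [toV, Nat.testBit_xor, b2z_xor]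

theorem toV_zero : toV 0 = 0 := by
  funext k
  rcases k with k | k <;> simp [toV, b2z]

theorem toV_64 : toV 64 = 0 := by
  funext k
  rcases k with k | k <;> fin_cases k <;> decide

/-- The position of a bit. -/
def pos6 (i : Fin 6) : Fin 3 ⊕ Fin 3 :=
  if h : i.val < 3 then Sum.inl ⟨i, h⟩ else Sum.inr ⟨i - 3, by omega⟩

/-- The number of a vector. -/
def num (x : V6) : ℕ := Nat.ofBits (fun i : Fin 6 => decide (x (pos6 i) = 1))

theorem num_lt (x : V6) : num x < 64 := Nat.ofBits_lt_two_pow (n := 6) _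

theorem testBit_num (x : V6) (i : Fin 6) : (num x).testBit i = decide (x (pos6 i) = 1) :=
  Nat.testBit_ofBits_lt _ _ i.2

theorem testBit_ge {a i : ℕ} (ha : a < 64) (hi : 6 ≤ i) : a.testBit i = false :=
  Nat.testBit_lt_two_pow (lt_of_lt_of_le ha (by
    calc 64 = 2 ^ 6 := by norm_num
      _ ≤ 2 ^ i := Nat.pow_le_pow_right (by norm_num) hi))

theorem b2z_decide : ∀ u : ZMod 2, b2z (decide (u = 1)) = u := by decide

theorem decide_add : ∀ u v : ZMod 2, decide (u + v = 1) = xor (decide (u = 1)) (decide (v = 1)) := by decide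

theorem num_add (x y : V6) : num (x + y) = num x ^^^ num y := by
  apply Nat.eq_of_testBit_eq
  intro i
  by_cases hi : i < 6
  · rw [Nat.testBit_xor]
    have h1 := testBit_num (x + y) ⟨i, hi⟩
    have h2 := testBit_num x ⟨i, hi⟩
    have h3 := testBit_num y ⟨i, hi⟩
    simp only at h1 h2 h3
    rw [h1, h2, h3, Pi.add_apply, decide_add]
  · rw [Nat.testBit_xor, testBit_ge (num_lt _) (by omega), testBit_ge (num_lt _) (by omega), testBit_ge (num_lt _) (by omega)]
    rfl

theorem pos6_inl : ∀ k : Fin 3, pos6 ⟨k, by omega⟩ = Sum.inl k := by decide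

theorem pos6_inr : ∀ k : Fin 3, pos6 ⟨k + 3, by omega⟩ = Sum.inr k := by decide

theorem toV_num (x : V6) : toV (num x) = x := by
  funext k
  rcases k with k | k
  · show b2z ((num x).testBit k) = _
    have h := testBit_num x ⟨k, by omega⟩
    simp only at h
    rw [h, b2z_decide, pos6_inl]
  · show b2z ((num x).testBit (k + 3)) = _
    have h := testBit_num x ⟨k + 3, by omega⟩
    simp only at h
    rw [h, b2z_decide, pos6_inr]

theorem decide_b2z : ∀ b : Bool, decide (b2z b = 1) = b := by decide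

theorem toV_testBit (a : ℕ) (i : Fin 6) : decide (toV a (pos6 i) = 1) = a.testBit i := by
  have hi := i.2
  by_cases h : i.val < 3
  · have e : pos6 i = Sum.inl ⟨i, h⟩ := by
      unfold pos6
      rw [dif_pos h]
    rw [e]
    exact decide_b2z _
  · have e : pos6 i = Sum.inr ⟨i - 3, by omega⟩ := by
      unfold pos6
      rw [dif_neg h]
    rw [e]
    have h2 : (i : ℕ) - 3 + 3 = i := by omega
    show decide (b2z (a.testBit ((i : ℕ) - 3 + 3)) = 1) = _
    rw [h2]
    exact decide_b2z _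

theorem num_toV (a : ℕ) : num (toV a) = a % 64 := by
  apply Nat.eq_of_testBit_eq
  intro i
  have e : (64 : ℕ) = 2 ^ 6 := by norm_num
  by_cases hi : i < 6
  · have h1 := testBit_num (toV a) ⟨i, hi⟩
    simp only at h1
    rw [h1, toV_testBit, e, Nat.testBit_mod_two_pow]
    simp [hi]
  · rw [testBit_ge (num_lt _) (by omega), testBit_ge (Nat.mod_lt _ (by norm_num)) (by omega)]

theorem toV_mod (a : ℕ) : toV (a % 64) = toV a := by
  rw [← num_toV, toV_num]

/-! ### The form -/

/-- The form on numbers. -/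
def sB (a b : ℕ) : Bool :=
  xor (xor (xor (xor (xor (a.testBit 3 && b.testBit 0) (a.testBit 0 && b.testBit 3))
    (a.testBit 4 && b.testBit 1)) (a.testBit 1 && b.testBit 4))
    (a.testBit 5 && b.testBit 2)) (a.testBit 2 && b.testBit 5)

theorem sympForm_toV (a b : ℕ) : sympForm 3 (ZMod 2) (toV a) (toV b) = b2z (sB a b) := by
  rw [sympForm_apply]
  simp only [Fin.sum_univ_three, toV, Sum.elim_inl, Sum.elim_inr, sB, b2z_xor, b2z_and]
  simp only [sub_eq_add_neg, CharTwo.neg_eq]
  simp only [Fin.val_zero, Fin.val_one, Fin.val_two, zero_add]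
  norm_num
  ring

theorem fB_sB : ∀ a < 128, ∀ b < 128, fB a b = sB a b := by decide +kernel

theorem lt_128 : ∀ a < 256, a.testBit 7 = false → a < 128 := by decide +kernel

theorem bit7_64 : ∀ a < 64, a.testBit 7 = false := by decide +kernel

theorem split_64 : ∀ a < 256, a.testBit 7 = false → a = a % 64 ∨ a = a % 64 ^^^ 64 := by decide +kernel

/-! ### The action -/

/-- The action on vectors. -/
noncomputable def L (g : Co0) (x : V6) : V6 := toV (A g (num x))

theorem lt256 {a : ℕ} (h : a < 64) : a < 256 := by omega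

theorem L_add (g : Co0) (x y : V6) : L g (x + y) = L g x + L g y := by
  unfold L
  rw [num_add, A_xor g (lt256 (num_lt x)) (lt256 (num_lt y)), toV_xor]

theorem L_toV {g : Co0} (hg : g ∈ X) {a : ℕ} (ha : a < 256) (h7 : a.testBit 7 = false) :
    L g (toV a) = toV (A g a) := by
  unfold L
  rw [num_toV]
  have hlt : a % 64 < 64 := Nat.mod_lt _ (by norm_num)
  rcases split_64 a ha h7 with h | h
  · rw [← h]
  · conv_rhs => rw [h, A_xor g (lt256 hlt) (by norm_num), A_64 hg, toV_xor, toV_64, add_zero]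

theorem bit7_A {g : Co0} (hg : g ∈ X) {a : ℕ} (ha : a < 64) : (A g a).testBit 7 = false := by
  rw [A_bit7 hg (lt256 ha)]
  exact bit7_64 a ha

theorem L_mul {g h : Co0} (hg : g ∈ X) (hh : h ∈ X) (x : V6) : L (g * h) x = L g (L h x) := by
  have h1 := L_toV hg (A_lt h (num x)) (bit7_A hh (num_lt x))
  show toV (A (g * h) (num x)) = L g (toV (A h (num x)))
  rw [h1, A_mul _ hh.1 (lt256 (num_lt x))]

theorem L_one (x : V6) : L 1 x = x := by
  unfold L
  rw [A_one (lt256 (num_lt x)), toV_num]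

/-- The linear map. -/
noncomputable def Lin (g : Co0) : V6 →ₗ[ZMod 2] V6 :=
  AddMonoidHom.toZModLinearMap 2 (AddMonoidHom.mk' (L g) (L_add g))

theorem Lin_apply (g : Co0) (x : V6) : Lin g x = L g x := rfl

/-- The matrix. -/
noncomputable def mat (g : Co0) : Matrix (Fin 3 ⊕ Fin 3) (Fin 3 ⊕ Fin 3) (ZMod 2) := LinearMap.toMatrix' (Lin g)

theorem mat_mulVec (g : Co0) (x : V6) : mat g *ᵥ x = L g x := by
  unfold mat
  rw [LinearMap.toMatrix'_mulVec, Lin_apply]

theorem mat_mem {g : Co0} (hg : g ∈ X) : mat g ∈ symplecticGroup (Fin 3) (ZMod 2) := by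
  rw [mem_symplecticGroup_iff_preserves]
  intro x y
  rw [mat_mulVec, mat_mulVec]
  unfold L
  conv_rhs => rw [← toV_num x, ← toV_num y]
  rw [sympForm_toV, sympForm_toV]
  have h1 := lt_128 _ (A_lt g (num x)) (bit7_A hg (num_lt x))
  have h2 := lt_128 _ (A_lt g (num y)) (bit7_A hg (num_lt y))
  rw [← fB_sB _ h1 _ h2, fB_A hg.1 (lt256 (num_lt x)) (lt256 (num_lt y)),
    fB_sB _ (by have := num_lt x; omega) _ (by have := num_lt y; omega)]

/-- The homomorphism to the symplectic group. -/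
noncomputable def rho : X →* Sp6 where
  toFun g := ⟨mat g, mat_mem g.2⟩
  map_one' := by
    apply Subtype.ext
    show mat 1 = 1
    have : Lin 1 = LinearMap.id := by
      apply LinearMap.ext
      intro x
      exact L_one x
    unfold mat
    rw [this, LinearMap.toMatrix'_id]
  map_mul' g h := by
    apply Subtype.ext
    show mat ((g : Co0) * (h : Co0)) = mat g * mat h
    have : Lin ((g : Co0) * (h : Co0)) = (Lin g).comp (Lin h) := by
      apply LinearMap.ext
      intro x
      exact L_mul g.2 h.2 x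
    unfold mat
    rw [this, LinearMap.toMatrix'_comp]

theorem rho_mulVec (g : X) (x : V6) : ((rho g : Sp6) : Matrix (Fin 3 ⊕ Fin 3) (Fin 3 ⊕ Fin 3) (ZMod 2)) *ᵥ x = L g x :=
  mat_mulVec _ x

theorem rho_toV (g : X) {a : ℕ} (ha : a < 256) (h7 : a.testBit 7 = false) :
    ((rho g : Sp6) : Matrix (Fin 3 ⊕ Fin 3) (Fin 3 ⊕ Fin 3) (ZMod 2)) *ᵥ toV a = toV (A g a) := by
  rw [rho_mulVec, L_toV g.2 ha h7]

theorem sp_ext {a b : Sp6} (h : ∀ x : V6, (a : Matrix (Fin 3 ⊕ Fin 3) (Fin 3 ⊕ Fin 3) (ZMod 2)) *ᵥ x =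
    (b : Matrix (Fin 3 ⊕ Fin 3) (Fin 3 ⊕ Fin 3) (ZMod 2)) *ᵥ x) : a = b := by
  apply Subtype.ext
  ext i j
  have := congrFun (h (Pi.single j 1)) i
  simpa [mulVec_single_one] using this

theorem rho_eq_one {g : X} (h : ∀ a < 64, A g a = a) : rho g = 1 := by
  apply sp_ext
  intro x
  rw [rho_mulVec]
  unfold L
  rw [h _ (num_lt x), toV_num]
  simp

/-! ### Transvections -/

/-- Transvections. -/
def T (v : V6) : Sp6 := transvElt v 1

theorem T_mulVec (v x : V6) : ((T v : Sp6) : Matrix (Fin 3 ⊕ Fin 3) (Fin 3 ⊕ Fin 3) (ZMod 2)) *ᵥ x =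
    x + (sympForm 3 (ZMod 2) x v) • v := by
  show sympTransvection 3 v 1 *ᵥ x = _
  rw [mulVec_sympTransvection, one_mul]

theorem T_conj (h : Sp6) (v : V6) :
    h * T v * h⁻¹ = T ((h : Matrix (Fin 3 ⊕ Fin 3) (Fin 3 ⊕ Fin 3) (ZMod 2)) *ᵥ v) := by
  rw [mul_inv_eq_iff_eq_mul]
  apply sp_ext
  intro x
  rw [mulVec_val_mul, mulVec_val_mul, T_mulVec, T_mulVec, sp_preserves, mulVec_add, mulVec_smul]

theorem T_range {h : X} {a : ℕ} (ha : a < 256) (h7 : a.testBit 7 = false) (hT : T (toV a) ∈ rho.range) :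
    T (toV (A h a)) ∈ rho.range := by
  rw [← rho_toV h ha h7, ← T_conj]
  exact Subgroup.mul_mem _ (Subgroup.mul_mem _ ⟨h, rfl⟩ hT) (Subgroup.inv_mem _ ⟨h, rfl⟩)

/-! ### Explicit elements -/

theorem t2_eq_mono : t2 = monoCo0 (ofMask_mem_codeSets mOc_lt mOc_ok.2) (decode_mem_M24 isM24_idC) := by
  unfold t2
  apply monoCo0_congr
  · rfl
  · exact decode_idC.symm

/-- The action of `t2` on codes. -/
def actT (n : ℕ) : ℕ := actMono idC mOc n

theorem t2_acts : ActsOn t2 actT := by
  rw [t2_eq_mono]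
  exact actMono_spec isM24_idC mOc_lt mOc_ok.2

/-- The commutation can be checked on the frame. -/
theorem comm_of {g : Co0} {f : ℕ → ℕ} (hf : ActsOn g f)
    (h : ∀ i < 24, f (actT (eN i)) = actT (f (eN i))) : g * t2 = t2 * g := by
  apply co0_ext_e8
  intro p
  have h1 := hf.mul t2_acts (eN (idx p)) (eN_st p)
  have h2 := t2_acts.mul hf (eN (idx p)) (eN_st p)
  apply Subtype.ext
  have e : (⟨dec (eN (idx p)), (eN_st p).2.1⟩ : leechLattice) = e8 p := Subtype.ext (dec_eN p)
  rw [e] at h1 h2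
  rw [h1.2, h2.2]
  show dec (f (actT (eN (idx p)))) = dec (actT (f (eN (idx p))))
  rw [h _ (idx_lt p)]

/-- The number of the image of a vector. -/
theorem A_of {g : Co0} {f : ℕ → ℕ} (hf : ActsOn g f) (a : ℕ) : A g a = ccN (f (tab a)) := by
  unfold A
  rw [← cc_dec, ← (hf (tab a) (tab_st a)).2]
  rfl

theorem fix_of {g : Co0} {f : ℕ → ℕ} (hf : ActsOn g f) (h : f (tab 64) = tab 64) :
    (g : Equiv.Perm leechLattice) Spor.leechU = Spor.leechU := by
  rw [← M64]
  apply Subtype.ext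
  have h1 := (hf (tab 64) (tab_st 64)).2
  rw [h] at h1
  exact h1

theorem X_of {g : Co0} {f : ℕ → ℕ} (hf : ActsOn g f)
    (h : ∀ i < 24, f (actT (eN i)) = actT (f (eN i))) (h2 : f (tab 64) = tab 64) : g ∈ X :=
  ⟨comm_of hf h, fix_of hf h2⟩

/-! #### The transvection -/

theorem g0_ok : Nat.blt g0m (2 ^ 24) = true ∧ reduce g0m = 0 := by decide +kernel

theorem g0m_lt : g0m < 2 ^ 24 := by
  have := g0_ok.1
  simpa [Nat.blt_eq] using this

/-- A change of signs, acting as a transvection. -/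
noncomputable def g0 : Co0 := monoCo0 (ofMask_mem_codeSets g0m_lt g0_ok.2) (decode_mem_M24 isM24_idC)

theorem g0_acts : ActsOn g0 (actMono idC g0m) := actMono_spec isM24_idC g0m_lt g0_ok.2

theorem g0_mem : g0 ∈ X := X_of g0_acts (by decide +kernel) (by decide +kernel)

theorem g0_tab : ∀ b < 64, ccN (actMono idC g0m (tab b)) % 64 = if sB b 1 then b ^^^ 1 else b := by decide +kernel

theorem rho_g0 : rho ⟨g0, g0_mem⟩ = T (toV 1) := by
  apply sp_ext
  intro x
  rw [rho_mulVec, T_mulVec]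
  show toV (A g0 (num x)) = _
  rw [A_of g0_acts, ← toV_mod, g0_tab _ (num_lt x)]
  conv_rhs => rw [← toV_num x]
  rw [sympForm_toV]
  cases h : sB (num x) 1
  · simp [b2z]
  · simp [b2z, toV_xor]

/-! #### The generators -/

theorem g1_ok : (isM24 g1c = true ∧ Nat.blt g1m (2 ^ 24) = true ∧ reduce g1m = 0) ∧
    (isM24 g2c = true ∧ Nat.blt g2m (2 ^ 24) = true ∧ reduce g2m = 0) ∧ isM24 tauc = true := by decide +kernel

theorem g1m_lt : g1m < 2 ^ 24 := by
  have := g1_ok.1.2.1
  simpa [Nat.blt_eq] using this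

theorem g2m_lt : g2m < 2 ^ 24 := by
  have := g1_ok.2.1.2.1
  simpa [Nat.blt_eq] using this

/-- A monomial element. -/
noncomputable def g1 : Co0 := monoCo0 (ofMask_mem_codeSets g1m_lt g1_ok.1.2.2) (decode_mem_M24 g1_ok.1.1)

/-- A monomial element. -/
noncomputable def g2 : Co0 := monoCo0 (ofMask_mem_codeSets g2m_lt g1_ok.2.1.2.2) (decode_mem_M24 g1_ok.2.1.1)

/-- A further element. -/
noncomputable def g3 : Co0 :=
  monoCo0 (ofMask_mem_codeSets (m := 0) (by norm_num) reduce_zero) (decode_mem_M24 g1_ok.2.2) * xiCo0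

theorem g1_acts : ActsOn g1 (actMono g1c g1m) := actMono_spec g1_ok.1.1 g1m_lt g1_ok.1.2.2

theorem g2_acts : ActsOn g2 (actMono g2c g2m) := actMono_spec g1_ok.2.1.1 g2m_lt g1_ok.2.1.2.2

/-- The action on codes. -/
def f3 (n : ℕ) : ℕ := actMono tauc 0 (actXi n)

theorem g3_acts : ActsOn g3 f3 :=
  (actMono_spec g1_ok.2.2 (m := 0) (by norm_num) reduce_zero).mul actXi_acts

theorem g1_mem : g1 ∈ X := X_of g1_acts (by decide +kernel) (by decide +kernel)

theorem g2_mem : g2 ∈ X := X_of g2_acts (by decide +kernel) (by decide +kernel)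

theorem g3_mem : g3 ∈ X := X_of g3_acts (by decide +kernel) (by decide +kernel)

/-- The action of the generators on numbers. -/
def actG (k a : ℕ) : ℕ :=
  if k = 0 then ccN (actMono g1c g1m (tab a)) % 64 else
  if k = 1 then ccN (actMono g2c g2m (tab a)) % 64 else
  ccN (f3 (tab a)) % 64

theorem exists_gen (k a : ℕ) : ∃ h : X, toV (A h a) = toV (actG k a) := by
  unfold actG
  split_ifs with h0 h1
  · refine ⟨⟨g1, g1_mem⟩, ?_⟩
    rw [toV_mod]
    exact congrArg toV (A_of g1_acts a)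
  · refine ⟨⟨g2, g2_mem⟩, ?_⟩
    rw [toV_mod]
    exact congrArg toV (A_of g2_acts a)
  · refine ⟨⟨g3, g3_mem⟩, ?_⟩
    rw [toV_mod]
    exact congrArg toV (A_of g3_acts a)

/-- The parent. -/
def par (v : ℕ) : ℕ := parL.getD v 0

/-- The generator. -/
def gen (v : ℕ) : ℕ := genL.getD v 0

/-- The depth. -/
def dep (v : ℕ) : ℕ := depL.getD v 0

theorem tree_ok : ∀ v < 64, v = 0 ∨ v = 1 ∨ (par v ≠ 0 ∧ par v < 64 ∧ dep (par v) < dep v ∧ actG (gen v) (par v) = v) := by
  decide +kernel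

theorem T_all (n : ℕ) : ∀ v < 64, v ≠ 0 → dep v = n → T (toV v) ∈ rho.range := by
  induction n using Nat.strong_induction_on with
  | _ n ih =>
    intro v hv hv0 hd
    rcases tree_ok v hv with h | h | ⟨h1, h2, h3, h4⟩
    · exact absurd h hv0
    · rw [h]
      exact ⟨⟨g0, g0_mem⟩, rho_g0⟩
    · have h5 := ih (dep (par v)) (hd ▸ h3) (par v) h2 h1 rfl
      obtain ⟨h, e⟩ := exists_gen (gen v) (par v)
      rw [← h4, ← e]
      exact T_range (lt256 h2) (bit7_64 _ h2) h5

theorem zmod2_cases : ∀ c : ZMod 2, c = 0 ∨ c = 1 := by decide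

theorem rho_surj : Function.Surjective rho := by
  rw [← MonoidHom.range_eq_top, eq_top_iff, ← Cfsg.Agent.S0765.result (F := ZMod 2) 3, Subgroup.closure_le]
  rintro A ⟨w, c, hA⟩
  have hA' : A = transvElt w c := Subtype.ext hA
  rw [hA']
  have h1 : ∀ w : V6, transvElt w (0 : ZMod 2) = 1 := by
    intro w
    apply sp_ext
    intro x
    show sympTransvection 3 w 0 *ᵥ x = _
    rw [mulVec_sympTransvection]
    simp
  rcases zmod2_cases c with rfl | rfl
  · rw [h1]
    exact Subgroup.one_mem _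
  · by_cases hw : num w = 0
    · have e : w = 0 := by
        rw [← toV_num w, hw, toV_zero]
      have h2 : transvElt w (1 : ZMod 2) = 1 := by
        apply sp_ext
        intro x
        show sympTransvection 3 w 1 *ᵥ x = _
        rw [mulVec_sympTransvection, e]
        simp
      rw [h2]
      exact Subgroup.one_mem _
    · have := T_all _ (num w) (num_lt w) hw rfl
      rw [toV_num] at this
      exact this

end Cfsg.Agent.Lib.CoTwo3
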