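import Mathlib
import Cfsg.Agent.Lib.CoTwo3
import Cfsg.Agent.Lib.SpSimple
import Cfsg.Agent.Lib.SpOrder
import Cfsg.Agent.Lib.SpCenter
import Cfsg.Agent.Lib.LargeQuot
import Cfsg.Agent.Lib.PCore

/-!
# The kernel of the homomorphism to the symplectic group: an extraspecial group of order `2 ^ 9`.
-/

set_option autoImplicit false
set_option maxRecDepth 100000

open Cfsg Cfsg.Agent.Lib.Leech Cfsg.Agent.Lib.Co0Mono Cfsg.Agent.Lib.Co0Frame
open Cfsg.Agent.Lib.CoTwoData Cfsg.Agent.Lib.CoVec Cfsg.Agent.Lib.MonsterSplit Cfsg.Agent.Lib.CoTwo1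
open Cfsg.Agent.Lib.CoTwo2 Cfsg.Agent.Lib.CoTwo3 Cfsg.Agent.Lib.SympForm
open Cfsg.Agent.Lib.Golay (idx pt idx_pt pt_idx idx_lt idxL mem_idxL ap bit bit_eq ofMask mem_ofMask
  decode idx_decode isM24 decode_mem_M24 isM24_valid reduce S48L exists_S48_of_agree toMask RepBy repBy_decode idC decode_idC isM24_idC
  S48L_isM24 toMask_ofMask)

namespace Cfsg.Agent.Lib.CoTwo4

/-! ### The data of the kernel -/

/-- The permutations fixing the octad pointwise. -/
def T16L : List ℕ := S48L.filter (fun s => repL.all fun i => Nat.beq (ap s i) i)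

/-- The mask of an image. -/
def pm (s m : ℕ) : ℕ := Nat.ofBits (fun i : Fin 24 => m.testBit (ap s i))

theorem pm_lt (s m : ℕ) : pm s m < 2 ^ 24 := Nat.ofBits_lt_two_pow _

theorem testBit_pm (s m : ℕ) {i : ℕ} (hi : i < 24) : (pm s m).testBit i = m.testBit (ap s i) :=
  Nat.testBit_ofBits_lt _ _ hi

theorem E32_ok : E32L.all (fun m => Nat.blt m (2 ^ 24) && Nat.beq (reduce m) 0 && repL.all (fun i => !m.testBit i)) = true := by
  decide +kernel

theorem E32_len : E32L.length = 32 ∧ E32L.Nodup := by decide +kernel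

theorem T16_len : T16L.length = 16 ∧ (T16L.map (fun s => ap s 4)).Nodup := by decide +kernel

theorem mem_special : (0 : ℕ) ∈ E32L ∧ mOc ∈ E32L ∧ idC ∈ T16L := by decide +kernel

theorem E_T : E32L.all (fun m => T16L.all fun s => Nat.beq (pm s m) m || Nat.beq (pm s m) (m ^^^ mOc)) = true := by
  decide +kernel

theorem T_comm : T16L.all (fun s => T16L.all fun s' => idxL.all fun i => Nat.beq (ap s (ap s' i)) (ap s' (ap s i))) = true := by
  decide +kernel

theorem T_sq : T16L.all (fun s => idxL.all fun i => Nat.beq (ap s (ap s i)) i) = true := by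
  decide +kernel

theorem nondeg1 : T16L.all (fun s => Nat.beq s idC || E32L.any fun m => !Nat.beq (pm s m) m) = true := by
  decide +kernel

theorem nondeg2 : E32L.all (fun m => Nat.beq m 0 || Nat.beq m mOc || T16L.any fun s => !Nat.beq (pm s m) m) = true := by
  decide +kernel

theorem pm_idC : E32L.all (fun m => Nat.beq (pm idC m) m) = true := by decide +kernel

theorem pm_zero : T16L.all (fun s => Nat.beq (pm s 0) 0) = true := by decide +kernel

theorem witness : ∃ s ∈ T16L, ∃ m ∈ E32L, pm s m ≠ m := by decide +kernel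

section
variable {m s m' s' : ℕ}

theorem E_data (hm : m ∈ E32L) : m < 2 ^ 24 ∧ reduce m = 0 ∧ ∀ i ∈ repL, m.testBit i = false := by
  have h := List.all_eq_true.1 E32_ok m hm
  simp only [Bool.and_eq_true, List.all_eq_true, Nat.blt_eq, Nat.beq_eq, Bool.not_eq_true'] at h
  exact ⟨h.1.1, h.1.2, h.2⟩

theorem E_mem (hm : m ∈ E32L) : ofMask m ∈ codeSets := ofMask_mem_codeSets (E_data hm).1 (E_data hm).2.1

theorem T_data (hs : s ∈ T16L) : isM24 s = true ∧ ∀ i ∈ repL, ap s i = i := by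
  obtain ⟨h1, h2⟩ := List.mem_filter.1 hs
  refine ⟨S48L_isM24 s h1, ?_⟩
  intro i hi
  exact Nat.eq_of_beq_eq_true (List.all_eq_true.1 h2 i hi)

theorem T_mem (hs : s ∈ T16L) : decode s ∈ M24 := decode_mem_M24 (T_data hs).1

theorem T_valid (hs : s ∈ T16L) : Cfsg.Agent.Lib.Golay.valid s = true := isM24_valid (T_data hs).1

/-- An element of the kernel. -/
noncomputable def qq (hm : m ∈ E32L) (hs : s ∈ T16L) : Co0 := monoCo0 (E_mem hm) (T_mem hs)

theorem rep_mem (l : Fin 8) : repL.getD l 0 ∈ repL := by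
  revert l
  decide +kernel

theorem T_fix (hs : s ∈ T16L) {p : GolayPt} (hp : p ∉ ofMask mOc) : decode s p = p := by
  obtain ⟨l, rfl⟩ := rep_cover p hp
  show decode s (pt (repL.getD l 0)) = pt (repL.getD l 0)
  rw [Cfsg.Agent.Lib.Golay.decode_pt (T_valid hs) (rep_lt l), (T_data hs).2 _ (rep_mem l)]

theorem T_Oc (hs : s ∈ T16L) (p : GolayPt) : decode s p ∈ ofMask mOc ↔ p ∈ ofMask mOc := by
  constructor
  · intro h
    by_contra hp
    rw [T_fix hs hp] at h
    exact hp h
  · intro h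
    by_contra hp
    have h1 := T_fix hs hp
    have h2 := (decode s).injective h1
    rw [h2] at hp
    exact hp h

theorem E_off (hm : m ∈ E32L) {p : GolayPt} (hp : p ∉ ofMask mOc) : p ∉ ofMask m := by
  obtain ⟨l, rfl⟩ := rep_cover p hp
  rw [mem_ofMask]
  show ¬ m.testBit (idx (pt (repL.getD l 0))) = true
  rw [idx_pt (rep_lt l), (E_data hm).2.2 _ (rep_mem l)]
  simp

/-- The elements of the kernel fix the vectors on the octad. -/
theorem qq_fix (hm : m ∈ E32L) (hs : s ∈ T16L) {v : leechLattice} (hv : InM (v : GolayPt → ℤ)) :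
    (qq hm hs : Equiv.Perm leechLattice) v = v := by
  apply Subtype.ext
  funext p
  show mono (ofMask m) (decode s) v p = _
  rw [mono_apply]
  by_cases hp : p ∈ ofMask mOc
  · rw [hv _ ((T_Oc hs p).2 hp), hv _ hp]
    simp
  · rw [if_neg (E_off hm hp), T_fix hs hp]

theorem image_pm (hs : s ∈ T16L) (m : ℕ) :
    (ofMask m).image ((decode s)⁻¹ : Equiv.Perm GolayPt) = ofMask (pm s m) := by
  ext p
  rw [Finset.mem_image, mem_ofMask, testBit_pm _ _ (idx_lt p), ← idx_decode (T_valid hs)]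
  constructor
  · rintro ⟨q, hq, rfl⟩
    simpa [mem_ofMask] using hq
  · intro h
    exact ⟨decode s p, mem_ofMask.2 h, by simp⟩

theorem ofMask_xor (a b : ℕ) : symmDiff (ofMask a) (ofMask b) = ofMask (a ^^^ b) := by
  ext p
  rw [Finset.mem_symmDiff, mem_ofMask, mem_ofMask, mem_ofMask, Nat.testBit_xor]
  cases a.testBit (idx p) <;> cases b.testBit (idx p) <;> simp

theorem image_one (c : Finset GolayPt) : c.image ((1 : Equiv.Perm GolayPt)⁻¹ : Equiv.Perm GolayPt) = c := by
  ext q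
  simp

theorem qq_mem (hm : m ∈ E32L) (hs : s ∈ T16L) : qq hm hs ∈ X := by
  constructor
  · unfold qq t2
    rw [monoCo0_mul, monoCo0_mul]
    apply monoCo0_congr
    · rw [image_one, symmDiff_comm (ofMask mOc), symmDiff_right_inj]
      ext p
      rw [Finset.mem_image]
      constructor
      · rintro ⟨q, hq, rfl⟩
        rw [← T_Oc hs]
        simpa using hq
      · intro hp
        exact ⟨decode s p, (T_Oc hs p).2 hp, by simp⟩
    · rw [one_mul, mul_one]
  · rw [← M64]
    exact qq_fix hm hs (M_inM (by norm_num))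

/-- The element of the group. -/
noncomputable def qX (hm : m ∈ E32L) (hs : s ∈ T16L) : X := ⟨qq hm hs, qq_mem hm hs⟩

theorem rho_qX (hm : m ∈ E32L) (hs : s ∈ T16L) : rho (qX hm hs) = 1 := by
  apply rho_eq_one
  intro a ha
  have hlt : a < 256 := by omega
  show cc (((qq hm hs : Equiv.Perm leechLattice) (M a) : leechLattice) : GolayPt → ℤ) = a
  rw [qq_fix hm hs (M_inM hlt), cc_M hlt]

theorem mask_inj {a b : ℕ} (ha : a < 2 ^ 24) (hb : b < 2 ^ 24) (h : ofMask a = ofMask b) : a = b := by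
  rw [← toMask_ofMask ha, ← toMask_ofMask hb, h]

theorem decode_inj (hs : s ∈ T16L) (hs' : s' ∈ T16L) (h : decode s = decode s') : s = s' := by
  have h1 : ap s 4 = ap s' 4 := by
    have := congrArg (fun g : Equiv.Perm GolayPt => idx (g (pt 4))) h
    simp only [idx_decode (T_valid hs), idx_decode (T_valid hs')] at this
    rwa [idx_pt (by norm_num)] at this
  exact List.inj_on_of_nodup_map T16_len.2 hs hs' h1

theorem qq_inj (hm : m ∈ E32L) (hs : s ∈ T16L) (hm' : m' ∈ E32L) (hs' : s' ∈ T16L) (h : qq hm hs = qq hm' hs') :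
    m = m' ∧ s = s' := by
  obtain ⟨h1, h2⟩ := monoCo0_part_eq h
  exact ⟨mask_inj (E_data hm).1 (E_data hm').1 h1, decode_inj hs hs' h2⟩

/-! ### The order of the kernel -/

theorem card_Sp6 : Nat.card Sp6 = 1451520 := by
  have h2 := Cfsg.Agent.Lib.SpOrder.card_Sp (F := ZMod 2) 3
  rw [ZMod.card] at h2
  simp only [Finset.prod_range_succ, Finset.prod_range_zero] at h2
  norm_num at h2
  exact h2

theorem card_ker_le : Nat.card rho.ker ≤ 512 := by
  have h1 := Subgroup.card_eq_card_quotient_mul_card_subgroup rho.ker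
  have h2 : Nat.card (X ⧸ rho.ker) = Nat.card Sp6 :=
    Nat.card_congr (QuotientGroup.quotientKerEquivOfSurjective rho rho_surj).toEquiv
  rw [h2, card_Sp6] at h1
  have h3 := card_X_le
  omega

/-- The map to the kernel. -/
noncomputable def qK (p : ↥E32L.toFinset × ↥T16L.toFinset) : rho.ker :=
  ⟨qX (List.mem_toFinset.1 p.1.2) (List.mem_toFinset.1 p.2.2), rho_qX _ _⟩

theorem qK_inj : Function.Injective qK := by
  rintro ⟨⟨a, ha⟩, ⟨b, hb⟩⟩ ⟨⟨c, hc⟩, ⟨d, hd⟩⟩ h
  have h1 : qq (List.mem_toFinset.1 ha) (List.mem_toFinset.1 hb) = qq (List.mem_toFinset.1 hc) (List.mem_toFinset.1 hd) :=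
    congrArg (fun x : rho.ker => ((x : X) : Co0)) h
  obtain ⟨h2, h3⟩ := qq_inj _ _ _ _ h1
  subst h2 h3
  rfl

theorem card_dom : Nat.card (↥E32L.toFinset × ↥T16L.toFinset) = 512 := by
  rw [Nat.card_prod, Nat.card_eq_fintype_card, Nat.card_eq_fintype_card, Fintype.card_coe, Fintype.card_coe,
    List.toFinset_card_of_nodup E32_len.2, List.toFinset_card_of_nodup (List.Nodup.of_map _ T16_len.2), E32_len.1, T16_len.1]

instance : Finite X := inferInstance

theorem qK_bij : Function.Bijective qK :=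
  qK_inj.bijective_of_nat_card_le (by rw [card_dom]; exact card_ker_le)

theorem card_ker : Nat.card rho.ker = 512 := by
  rw [← Nat.card_congr (Equiv.ofBijective qK qK_bij), card_dom]

/-- The elements of the kernel. -/
theorem ker_form {g : X} (hg : rho g = 1) : ∃ (m s : ℕ) (hm : m ∈ E32L) (hs : s ∈ T16L), g = qX hm hs := by
  obtain ⟨⟨⟨a, ha⟩, ⟨b, hb⟩⟩, e⟩ := qK_bij.2 ⟨g, hg⟩
  refine ⟨a, b, List.mem_toFinset.1 ha, List.mem_toFinset.1 hb, ?_⟩
  exact (congrArg Subtype.val e).symm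

/-! ### Commutators and squares -/

theorem xor_left {a b c : ℕ} (h : a ^^^ b = a ^^^ c) : b = c := by
  have := congrArg (fun x => a ^^^ x) h
  simpa [← Nat.xor_assoc] using this

theorem xor1 (a b : ℕ) : a ^^^ b = b ^^^ a := Nat.xor_comm a b

theorem xor2 (a b c : ℕ) : a ^^^ (b ^^^ c) = b ^^^ (a ^^^ c) := by
  rw [← Nat.xor_assoc, ← Nat.xor_assoc, Nat.xor_comm a b]

theorem E_T' (hm : m ∈ E32L) (hs : s ∈ T16L) : pm s m = m ∨ pm s m = m ^^^ mOc := by
  have h := List.all_eq_true.1 (List.all_eq_true.1 E_T m hm) s hs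
  simp only [Bool.or_eq_true, Nat.beq_eq] at h
  exact h

theorem T_comm' (hs : s ∈ T16L) (hs' : s' ∈ T16L) : decode s * decode s' = decode s' * decode s := by
  apply Cfsg.Agent.Lib.Golay.comm_of_repBy (repBy_decode (T_valid hs)) (repBy_decode (T_valid hs')) (repBy_decode (T_valid hs'))
  intro i hi
  have h := List.all_eq_true.1 (List.all_eq_true.1 (List.all_eq_true.1 T_comm s hs) s' hs') i (mem_idxL.2 hi)
  exact Nat.eq_of_beq_eq_true h

theorem T_sq' (hs : s ∈ T16L) : decode s * decode s = 1 := by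
  apply Equiv.ext
  intro p
  apply Cfsg.Agent.Lib.Golay.idx_injective
  rw [Equiv.Perm.mul_apply, idx_decode (T_valid hs), idx_decode (T_valid hs), Equiv.Perm.one_apply]
  exact Nat.eq_of_beq_eq_true (List.all_eq_true.1 (List.all_eq_true.1 T_sq s hs) _ (mem_idxL.2 (idx_lt p)))

theorem qq_mul (hm : m ∈ E32L) (hs : s ∈ T16L) (hm' : m' ∈ E32L) (hs' : s' ∈ T16L) :
    ∃ (hc : ofMask (m ^^^ pm s m') ∈ codeSets) (hσ : decode s' * decode s ∈ M24),
      qq hm hs * qq hm' hs' = monoCo0 hc hσ := by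
  have h := monoCo0_mul (E_mem hm) (E_mem hm') (T_mem hs) (T_mem hs')
  have h1 := symmDiff_image_mem (E_mem hm) (E_mem hm') (T_mem hs)
  rw [image_pm hs, ofMask_xor] at h1
  refine ⟨h1, M24.mul_mem (T_mem hs') (T_mem hs), h.trans ?_⟩
  apply monoCo0_congr
  · rw [image_pm hs, ofMask_xor]
  · rfl

theorem t2_mul {c : ℕ} {σ : Equiv.Perm GolayPt} (hc : ofMask c ∈ codeSets) (hσ : σ ∈ M24) :
    ∃ (hc' : ofMask (mOc ^^^ c) ∈ codeSets) (hσ' : σ ∈ M24), t2 * monoCo0 hc hσ = monoCo0 hc' hσ' := by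
  have h := monoCo0_mul Oc_mem hc M24.one_mem hσ
  have h1 := symmDiff_image_mem Oc_mem hc M24.one_mem
  rw [image_one, ofMask_xor] at h1
  refine ⟨h1, hσ, h.trans ?_⟩
  apply monoCo0_congr
  · rw [image_one, ofMask_xor]
  · exact mul_one σ

theorem qq_comm (hm : m ∈ E32L) (hs : s ∈ T16L) (hm' : m' ∈ E32L) (hs' : s' ∈ T16L) :
    qq hm hs * qq hm' hs' = qq hm' hs' * qq hm hs ∨ qq hm hs * qq hm' hs' = t2 * (qq hm' hs' * qq hm hs) := by
  obtain ⟨hc, hσ, h1⟩ := qq_mul hm hs hm' hs'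
  obtain ⟨hc', hσ', h2⟩ := qq_mul hm' hs' hm hs
  obtain ⟨hc'', hσ'', h3⟩ := t2_mul hc' hσ'
  rw [h2, h3, h1]
  have hp := T_comm' hs hs'
  rcases E_T' hm' hs with e1 | e1 <;> rcases E_T' hm hs' with e2 | e2
  · left
    apply monoCo0_congr
    · rw [e1, e2, xor1]
    · exact hp.symm
  · right
    apply monoCo0_congr
    · rw [e1, e2]
      congr 1
      apply Nat.eq_of_testBit_eq
      intro i
      simp only [Nat.testBit_xor]
      cases m.testBit i <;> cases m'.testBit i <;> cases mOc.testBit i <;> rfl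
    · exact hp.symm
  · right
    apply monoCo0_congr
    · rw [e1, e2]
      congr 1
      apply Nat.eq_of_testBit_eq
      intro i
      simp only [Nat.testBit_xor]
      cases m.testBit i <;> cases m'.testBit i <;> cases mOc.testBit i <;> rfl
    · exact hp.symm
  · left
    apply monoCo0_congr
    · rw [e1, e2]
      congr 1
      apply Nat.eq_of_testBit_eq
      intro i
      simp only [Nat.testBit_xor]
      cases m.testBit i <;> cases m'.testBit i <;> cases mOc.testBit i <;> rfl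
    · exact hp.symm

theorem monoCo0_one' (hc : ofMask 0 ∈ codeSets) (hσ : (1 : Equiv.Perm GolayPt) ∈ M24) : monoCo0 hc hσ = 1 := by
  rw [← monoCo0_one]
  apply monoCo0_congr
  · ext p
    simp [mem_ofMask]
  · rfl

theorem qq_sq (hm : m ∈ E32L) (hs : s ∈ T16L) : qq hm hs * qq hm hs = 1 ∨ qq hm hs * qq hm hs = t2 := by
  obtain ⟨hc, hσ, h1⟩ := qq_mul hm hs hm hs
  rw [h1]
  have hp := T_sq' hs
  rcases E_T' hm hs with e1 | e1
  · left
    rw [← monoCo0_one' (ofMask_mem_codeSets (m := 0) (by norm_num) reduce_zero) M24.one_mem]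
    apply monoCo0_congr
    · rw [e1, Nat.xor_self]
    · exact hp
  · right
    unfold t2
    apply monoCo0_congr
    · rw [e1, ← Nat.xor_assoc, Nat.xor_self, Nat.zero_xor]
    · exact hp

end

end Cfsg.Agent.Lib.CoTwo4
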