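import Mathlib
import Cfsg.Agent.Lib.CoTwo4

/-!
# The structure of the centralizer of `t2` in the stabilizer of the vector.
-/

set_option autoImplicit false
set_option maxRecDepth 100000

open Cfsg Cfsg.Agent.Lib.Leech Cfsg.Agent.Lib.Co0Mono Cfsg.Agent.Lib.Co0Frame
open Cfsg.Agent.Lib.CoTwoData Cfsg.Agent.Lib.CoVec Cfsg.Agent.Lib.MonsterSplit Cfsg.Agent.Lib.CoTwo1
open Cfsg.Agent.Lib.CoTwo2 Cfsg.Agent.Lib.CoTwo3 Cfsg.Agent.Lib.CoTwo4
open Cfsg.Agent.Lib.Golay (idx pt idx_pt pt_idx idx_lt idxL mem_idxL ap bit bit_eq ofMask mem_ofMask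
  decode idx_decode isM24 decode_mem_M24 isM24_valid reduce idC decode_idC isM24_idC)

namespace Cfsg.Agent.Lib.CoTwo5

theorem h0E : (0 : ℕ) ∈ E32L := mem_special.1
theorem hOE : mOc ∈ E32L := mem_special.2.1
theorem hiT : idC ∈ T16L := mem_special.2.2

theorem qq_t2 : qq hOE hiT = t2 := by
  unfold qq t2
  apply monoCo0_congr
  · rfl
  · exact decode_idC

theorem t2_mem : t2 ∈ X := by
  rw [← qq_t2]
  exact qq_mem _ _

/-- The involution in the group. -/
noncomputable def tX : X := ⟨t2, t2_mem⟩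

theorem qX_t : qX hOE hiT = tX := Subtype.ext qq_t2

theorem qq_one : qq h0E hiT = 1 := by
  rw [← monoCo0_one]
  unfold qq
  apply monoCo0_congr
  · ext p
    simp [mem_ofMask]
  · exact decode_idC

theorem qX_one : qX h0E hiT = 1 := Subtype.ext qq_one

theorem rho_tX : rho tX = 1 := by
  rw [← qX_t]
  exact rho_qX _ _

theorem mem_pt4 : (pt 4) ∈ ofMask mOc := by
  rw [mem_ofMask, idx_pt (by norm_num)]
  decide +kernel

theorem tX_ne : tX ≠ 1 := by
  intro h
  have h1 : qq hOE hiT = qq h0E hiT := by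
    rw [qq_t2, qq_one]
    exact congrArg Subtype.val h
  have h2 := (qq_inj _ _ _ _ h1).1
  have h3 : mOc ≠ 0 := by decide +kernel
  exact h3 h2

theorem mul_qX {m s m' s' : ℕ} (hm : m ∈ E32L) (hs : s ∈ T16L) (hm' : m' ∈ E32L) (hs' : s' ∈ T16L) :
    ((qX hm hs * qX hm' hs' : X) : Co0) = qq hm hs * qq hm' hs' := rfl

theorem comm_X {a b : X} (ha : rho a = 1) (hb : rho b = 1) :
    a * b * a⁻¹ * b⁻¹ = 1 ∨ a * b * a⁻¹ * b⁻¹ = tX := by
  obtain ⟨m, s, hm, hs, rfl⟩ := ker_form ha
  obtain ⟨m', s', hm', hs', rfl⟩ := ker_form hb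
  rcases qq_comm hm hs hm' hs' with h | h
  · left
    have h1 : qX hm hs * qX hm' hs' = qX hm' hs' * qX hm hs := Subtype.ext h
    rw [h1]
    group
  · right
    have h1 : qX hm hs * qX hm' hs' = tX * (qX hm' hs' * qX hm hs) := Subtype.ext h
    rw [h1]
    group

theorem sq_X {a : X} (ha : rho a = 1) : a ^ 2 = 1 ∨ a ^ 2 = tX := by
  obtain ⟨m, s, hm, hs, rfl⟩ := ker_form ha
  rw [pow_two]
  rcases qq_sq hm hs with h | h
  · left
    exact Subtype.ext h
  · right
    exact Subtype.ext h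

theorem tX_sq : tX ^ 2 = 1 := by
  rcases sq_X rho_tX with h | h
  · exact h
  · exfalso
    apply tX_ne
    rw [pow_two] at h
    exact mul_left_cancel (h.trans (mul_one tX).symm)

/-- The equality of the masks of two commuting elements. -/
theorem mask_of_comm {m s m' s' : ℕ} (hm : m ∈ E32L) (hs : s ∈ T16L) (hm' : m' ∈ E32L) (hs' : s' ∈ T16L)
    (h : qX hm hs * qX hm' hs' = qX hm' hs' * qX hm hs) : m ^^^ pm s m' = m' ^^^ pm s' m := by
  have h1 : qq hm hs * qq hm' hs' = qq hm' hs' * qq hm hs := congrArg Subtype.val h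
  obtain ⟨hc, hσ, h2⟩ := qq_mul hm hs hm' hs'
  obtain ⟨hc', hσ', h3⟩ := qq_mul hm' hs' hm hs
  rw [h2, h3] at h1
  obtain ⟨h4, -⟩ := monoCo0_part_eq h1
  have hlt : ∀ {x y : ℕ}, x ∈ E32L → x ^^^ y < 2 ^ 24 ∨ ¬ y < 2 ^ 24 := by
    intro x y hx
    by_cases hy : y < 2 ^ 24
    · exact Or.inl (Nat.xor_lt_two_pow (E_data hx).1 hy)
    · exact Or.inr hy
  have h5 := (hlt (y := pm s m') hm).resolve_right (by simpa using pm_lt s m')
  have h6 := (hlt (y := pm s' m) hm').resolve_right (by simpa using pm_lt s' m)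
  exact mask_inj h5 h6 h4

theorem cen_X {a : X} (ha : rho a = 1) (hc : ∀ b : X, rho b = 1 → a * b = b * a) : a = 1 ∨ a = tX := by
  obtain ⟨m, s, hm, hs, rfl⟩ := ker_form ha
  have hp1 : ∀ {m : ℕ}, m ∈ E32L → pm idC m = m := fun {m} hm =>
    Nat.eq_of_beq_eq_true (List.all_eq_true.1 pm_idC m hm)
  have h1 : ∀ m' ∈ E32L, pm s m' = m' := by
    intro m' hm'
    have h2 := mask_of_comm hm hs hm' hiT (hc _ (rho_qX hm' hiT))
    rw [hp1 hm, Nat.xor_comm m' m] at h2
    exact xor_left h2
  have h3 : s = idC := by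
    have h4 := List.all_eq_true.1 nondeg1 s hs
    simp only [Bool.or_eq_true, Nat.beq_eq, List.any_eq_true, Bool.not_eq_true'] at h4
    rcases h4 with h4 | ⟨m', hm', h5⟩
    · exact h4
    · rw [h1 m' hm'] at h5
      simp at h5
  subst h3
  have h5 : ∀ s' ∈ T16L, pm s' m = m := by
    intro s' hs'
    have h2 := mask_of_comm hm hs h0E hs' (hc _ (rho_qX h0E hs'))
    rw [hp1 h0E, Nat.xor_zero, Nat.zero_xor] at h2
    exact h2.symm
  have h6 := List.all_eq_true.1 nondeg2 m hm
  simp only [Bool.or_eq_true, Nat.beq_eq, List.any_eq_true, Bool.not_eq_true'] at h6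
  rcases h6 with (h6 | h6) | ⟨s', hs', h7⟩
  · left
    subst h6
    exact qX_one
  · right
    subst h6
    exact qX_t
  · rw [h5 s' hs'] at h7
    simp at h7

theorem non_X : ∃ a b : X, rho a = 1 ∧ rho b = 1 ∧ a * b * a⁻¹ * b⁻¹ ≠ 1 := by
  obtain ⟨s, hs, m, hm, h⟩ := witness
  refine ⟨qX hm hiT, qX h0E hs, rho_qX _ _, rho_qX _ _, ?_⟩
  intro h1
  have h2 : qX hm hiT * qX h0E hs = qX h0E hs * qX hm hiT := by
    calc _ = (qX hm hiT * qX h0E hs * (qX hm hiT)⁻¹ * (qX h0E hs)⁻¹) * (qX h0E hs * qX hm hiT) := by group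
      _ = _ := by rw [h1, one_mul]
  have h3 := mask_of_comm hm hiT h0E hs h2
  have h4 : pm idC 0 = 0 := Nat.eq_of_beq_eq_true (List.all_eq_true.1 pm_idC 0 h0E)
  rw [h4, Nat.xor_zero, Nat.zero_xor] at h3
  exact h h3.symm

/-- The symplectic group has no nontrivial normal `2`-subgroup. -/
theorem no_normal (P : Subgroup Sp6) (hN : P.Normal) (h2 : IsPGroup 2 P) : P = ⊥ := by
  have hcard : Nat.card (Subgroup.center Sp6) = 1 := by
    have := Cfsg.Agent.Lib.SpCenter.card_center (l := Fin 3) (F := ZMod 2)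
    rw [ZMod.card] at this
    simpa using this
  have hcen : Subgroup.center Sp6 = ⊥ := Subgroup.eq_bot_of_card_eq _ hcard
  have hsimple : IsSimpleGroup (Cfsg.PSp 3 (ZMod 2)) :=
    Cfsg.Agent.Lib.SpSimple.isSimpleGroup_PSp' 3 (by norm_num) (by omega)
  have hM : (P.map (QuotientGroup.mk' (Subgroup.center Sp6))).Normal :=
    Subgroup.Normal.map hN _ (QuotientGroup.mk'_surjective _)
  rcases hsimple.eq_bot_or_eq_top_of_normal _ hM with h | h
  · have h3 := (Subgroup.map_eq_bot_iff _).1 h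
    rw [QuotientGroup.ker_mk', hcen] at h3
    exact le_bot_iff.1 h3
  · exfalso
    have h4 : P = ⊤ := by
      rw [eq_top_iff]
      intro x _
      have h5 : (QuotientGroup.mk' (Subgroup.center Sp6) x) ∈ P.map (QuotientGroup.mk' (Subgroup.center Sp6)) := by
        rw [h]
        exact Subgroup.mem_top _
      obtain ⟨y, hy, e⟩ := h5
      have h6 : y⁻¹ * x ∈ Subgroup.center Sp6 := by
        rw [← QuotientGroup.ker_mk' (Subgroup.center Sp6), MonoidHom.mem_ker, map_mul, map_inv, e, inv_mul_cancel]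
      rw [hcen, Subgroup.mem_bot] at h6
      rw [← inv_mul_eq_one.1 h6]
      exact hy
    obtain ⟨n, hn⟩ := IsPGroup.iff_card.1 h2
    rw [h4, Subgroup.card_top, card_Sp6] at hn
    have h7 : 3 ∣ 2 ^ n := by
      rw [← hn]
      norm_num
    have h8 := Nat.Prime.dvd_of_dvd_pow Nat.prime_three h7
    omega

/-- The structure of a group isomorphic to the centralizer. -/
theorem final {C : Type*} [Group C] (e : C ≃* X) :
    IsExtraspecial 2 (pCore 2 C) ∧ Nat.card (pCore 2 C) = 2 ^ 9 ∧ Nonempty (C ⧸ pCore 2 C ≃* Sp6) := by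
  have hp : Fact (Nat.Prime 2) := ⟨Nat.prime_two⟩
  have hfin : Finite C := Finite.of_equiv X e.symm.toEquiv
  let F : C →* Sp6 := rho.comp e.toMonoidHom
  have hFa : ∀ x, F x = rho (e x) := fun x => rfl
  have hsurj : Function.Surjective F := rho_surj.comp e.surjective
  have hker : ∀ x : F.ker, rho (e (x : C)) = 1 := fun x => x.2
  have hm : ∀ x y : C, e (x * y) = e x * e y := fun x y => map_mul e x y
  have hζ : e.symm tX ∈ F.ker := by
    rw [MonoidHom.mem_ker, hFa, e.apply_symm_apply, rho_tX]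
  let ζ : F.ker := ⟨e.symm tX, hζ⟩
  have hζe : e ((ζ : F.ker) : C) = tX := e.apply_symm_apply _
  have inj : ∀ {x y : F.ker}, e (x : C) = e (y : C) → x = y := fun h => Subtype.ext (e.injective h)
  have hone : ∀ {x : F.ker}, e (x : C) = 1 → x = 1 := by
    intro x h
    apply Subtype.ext
    apply e.injective
    rw [h]
    simp
  have hP : IsPGroup 2 F.ker := by
    intro x
    refine ⟨2, hone ?_⟩
    have e1 : e ((x ^ 2 ^ 2 : F.ker) : C) = (e (x : C)) ^ 2 ^ 2 := by
      simp
    rw [e1]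
    have e2 : (e (x : C)) ^ 2 ^ 2 = ((e (x : C)) ^ 2) ^ 2 := by
      rw [← pow_mul]
      norm_num
    rw [e2]
    rcases sq_X (hker x) with h | h
    · rw [h, one_pow]
    · rw [h, tX_sq]
  have hcore : pCore 2 C = F.ker := by
    apply le_antisymm
    · have hM : ((pCore 2 C).map F).Normal := Subgroup.Normal.map inferInstance _ hsurj
      have hQ : IsPGroup 2 ((pCore 2 C).map F) := (Cfsg.Agent.Lib.PCore.isPGroup_pCore 2).map _
      exact (Subgroup.map_eq_bot_iff _).1 (no_normal _ hM hQ)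
    · exact Cfsg.Agent.Lib.PCore.le_pCore inferInstance hP
  have hcardK : Nat.card F.ker = 512 := by
    rw [← card_ker]
    apply Nat.card_congr
    refine ⟨fun x => ⟨e (x : C), x.2⟩, fun y => ⟨e.symm (y : X), ?_⟩, ?_, ?_⟩
    · rw [MonoidHom.mem_ker, hFa, e.apply_symm_apply]
      exact y.2
    · intro x
      apply Subtype.ext
      exact e.symm_apply_apply _
    · intro y
      apply Subtype.ext
      exact e.apply_symm_apply _
  have hfinK : Finite F.ker := inferInstance
  have hextra : IsExtraspecial 2 F.ker := by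
    refine Cfsg.Agent.Lib.LargeQuot.extraspecial_of_elements hP ζ ?_ ?_ ?_ ?_ ?_
    · intro h
      apply tX_ne
      rw [← hζe, h]
      simp
    · intro a b
      rcases comm_X (hker a) (hker b) with h | h
      · left
        apply hone
        simpa using h
      · right
        apply inj
        rw [hζe]
        simpa using h
    · intro a
      rcases sq_X (hker a) with h | h
      · left
        apply hone
        simpa using h
      · right
        apply inj
        rw [hζe]
        simpa using h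
    · intro a ha
      rcases cen_X (hker a) (fun b hb => by
        have hb' : e.symm b ∈ F.ker := by
          rw [MonoidHom.mem_ker, hFa, e.apply_symm_apply]
          exact hb
        have h1 := ha ⟨e.symm b, hb'⟩
        have h2 := congrArg (fun x : F.ker => e (x : C)) h1
        simpa using h2) with h | h
      · left
        exact hone h
      · right
        apply inj
        rw [hζe]
        exact h
    · obtain ⟨a, b, ha, hb, hab⟩ := non_X
      have ha' : e.symm a ∈ F.ker := by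
        rw [MonoidHom.mem_ker, hFa, e.apply_symm_apply]
        exact ha
      have hb' : e.symm b ∈ F.ker := by
        rw [MonoidHom.mem_ker, hFa, e.apply_symm_apply]
        exact hb
      refine ⟨⟨_, ha'⟩, ⟨_, hb'⟩, ?_⟩
      intro h
      apply hab
      have h2 := congrArg (fun x : F.ker => e (x : C)) h
      simpa using h2
  have h1 : IsExtraspecial 2 (pCore 2 C) := by
    rw [hcore]
    exact hextra
  have h2 : Nat.card (pCore 2 C) = 2 ^ 9 := by
    rw [hcore, hcardK]
    norm_num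
  exact ⟨h1, h2, ⟨(QuotientGroup.quotientMulEquivOfEq hcore).trans
    (QuotientGroup.quotientKerEquivOfSurjective F hsurj)⟩⟩

end Cfsg.Agent.Lib.CoTwo5
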