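import Mathlib
import Cfsg.Agent.Lib.CoTwo5
import Cfsg.Agent.Lib.O8Bridge46
import Cfsg.Agent.Lib.OrthoOrder
import Cfsg.Agent.Lib.CoOneData

/-!
# The centralizer of the involution `t2` of `Co0`: its action on the classes modulo two of the
vectors supported on an octad, as an orthogonal group in dimension eight over the field with two elements.
-/

set_option autoImplicit false
set_option maxRecDepth 100000

open Cfsg Cfsg.Agent.Lib.Leech Cfsg.Agent.Lib.Co0Mono Cfsg.Agent.Lib.Co0Frame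
open Cfsg.Agent.Lib.CoTwoData Cfsg.Agent.Lib.CoVec Cfsg.Agent.Lib.MonsterSplit Cfsg.Agent.Lib.CoTwo1
open Cfsg.Agent.Lib.CoTwo2 Cfsg.Agent.Lib.CoTwo3 Cfsg.Agent.Lib.CoTwo4 Cfsg.Agent.Lib.CoTwo5
open Cfsg.Agent.Lib.OrthoBasic Cfsg.Agent.Lib.CoOneData
open Cfsg.Agent.Lib.Golay (idx pt idx_pt pt_idx idx_lt idxL mem_idxL ap bit bit_eq ofMask mem_ofMask
  decode idx_decode isM24 decode_mem_M24 isM24_valid reduce idC decode_idC isM24_idC)

namespace Cfsg.Agent.Lib.CoOne1

/-- The field. -/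
abbrev K : Type := ZMod 2

/-- The space. -/
abbrev V8 : Type := Fin 8 → K

/-- The quadratic form. -/
noncomputable abbrev Q0 : QuadraticForm K V8 := Cfsg.Agent.Lib.O8Bridge46.Q0

/-! ### Numbers and vectors -/

/-- A bit of a number. -/
def bb (a i : ℕ) : K := b2z (a.testBit i)

/-- The vector of a number. -/
def tv (a : ℕ) : V8 := ![bb a 0, bb a 1, bb a 2, bb a 6, bb a 3, bb a 4, bb a 5, bb a 6 + bb a 7]

/-- The bits of a vector. -/
def wv (x : V8) : Fin 8 → K := ![x 0, x 1, x 2, x 4, x 5, x 6, x 3, x 3 + x 7]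

/-- The number of a vector. -/
def nm (x : V8) : ℕ := Nat.ofBits (fun i : Fin 8 => decide (wv x i = 1))

theorem nm_lt (x : V8) : nm x < 256 := by
  have := Nat.ofBits_lt_two_pow (n := 8) (fun i : Fin 8 => decide (wv x i = 1))
  unfold nm
  simpa using this

theorem testBit_nm (x : V8) (i : Fin 8) : (nm x).testBit i = decide (wv x i = 1) :=
  Nat.testBit_ofBits_lt _ _ i.2

theorem testBit_ge8 {a i : ℕ} (ha : a < 256) (hi : 8 ≤ i) : a.testBit i = false :=
  Nat.testBit_lt_two_pow (lt_of_lt_of_le ha (by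
    calc 256 = 2 ^ 8 := by norm_num
      _ ≤ 2 ^ i := Nat.pow_le_pow_right (by norm_num) hi))

theorem bb_nm (x : V8) (i : Fin 8) : bb (nm x) i = wv x i := by
  unfold bb
  rw [testBit_nm, b2z_decide]

theorem bb_xor (a b i : ℕ) : bb (a ^^^ b) i = bb a i + bb b i := by
  unfold bb
  rw [Nat.testBit_xor, b2z_xor]

theorem k_two : ∀ x : K, x + x = 0 := by decide

theorem k_idem : ∀ x : K, x * x = x := by decide

theorem tv_nm (x : V8) : tv (nm x) = x := by
  have h : ∀ i : Fin 8, bb (nm x) i = wv x i := bb_nm x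
  have h0 := h 0
  have h1 := h 1
  have h2 := h 2
  have h3 := h 3
  have h4 := h 4
  have h5 := h 5
  have h6 := h 6
  have h7 := h 7
  funext i
  fin_cases i
  · exact h0
  · exact h1
  · exact h2
  · exact h6
  · exact h3
  · exact h4
  · exact h5
  · show bb (nm x) 6 + bb (nm x) 7 = x 7
    have e6 : bb (nm x) 6 = x 3 := h6
    have e7 : bb (nm x) 7 = x 3 + x 7 := h7
    rw [e6, e7, ← add_assoc, k_two, zero_add]

theorem nm_tv : ∀ a < 256, nm (tv a) = a := by decide +kernel

theorem tv_inj {a b : ℕ} (ha : a < 256) (hb : b < 256) (h : tv a = tv b) : a = b := by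
  rw [← nm_tv a ha, ← nm_tv b hb, h]

theorem tv_xor (a b : ℕ) : tv (a ^^^ b) = tv a + tv b := by
  funext i
  fin_cases i
  · exact bb_xor a b 0
  · exact bb_xor a b 1
  · exact bb_xor a b 2
  · exact bb_xor a b 6
  · exact bb_xor a b 3
  · exact bb_xor a b 4
  · exact bb_xor a b 5
  · show bb (a ^^^ b) 6 + bb (a ^^^ b) 7 = (bb a 6 + bb a 7) + (bb b 6 + bb b 7)
    rw [bb_xor, bb_xor]
    abel

theorem wv_add (x y : V8) (i : Fin 8) : wv (x + y) i = wv x i + wv y i := by
  fin_cases i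
  · rfl
  · rfl
  · rfl
  · rfl
  · rfl
  · rfl
  · rfl
  · show (x 3 + y 3) + (x 7 + y 7) = (x 3 + x 7) + (y 3 + y 7)
    abel

theorem nm_add (x y : V8) : nm (x + y) = nm x ^^^ nm y := by
  apply Nat.eq_of_testBit_eq
  intro i
  by_cases hi : i < 8
  · rw [Nat.testBit_xor]
    have h1 := testBit_nm (x + y) ⟨i, hi⟩
    have h2 := testBit_nm x ⟨i, hi⟩
    have h3 := testBit_nm y ⟨i, hi⟩
    simp only at h1 h2 h3
    rw [h1, h2, h3, wv_add, decide_add]
  · rw [Nat.testBit_xor, testBit_ge8 (nm_lt _) (by omega), testBit_ge8 (nm_lt _) (by omega),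
      testBit_ge8 (nm_lt _) (by omega)]
    rfl

theorem Q_tv (a : ℕ) : Q0 (tv a) = b2z (qB a) := by
  rw [Cfsg.Agent.Lib.O8Bridge46.Q0_apply]
  show bb a 0 * bb a 3 + bb a 1 * bb a 4 + bb a 2 * bb a 5 + bb a 6 * (bb a 6 + bb a 7) = _
  unfold qB
  simp only [b2z_xor, b2z_and]
  unfold bb
  rw [mul_add, k_idem]
  ring

/-! ### The group -/

/-- The centralizer of the involution. -/
abbrev G : Subgroup Co0 := Subgroup.centralizer ({t2} : Set Co0)

theorem Cm_of (g : G) : Cm (g : Co0) := Subgroup.mem_centralizer_singleton_iff.1 g.2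

theorem mem_G {g : Co0} : g ∈ G ↔ Cm g := Subgroup.mem_centralizer_singleton_iff

/-- The action on vectors. -/
noncomputable def LL (g : Co0) (x : V8) : V8 := tv (A g (nm x))

theorem LL_add (g : Co0) (x y : V8) : LL g (x + y) = LL g x + LL g y := by
  unfold LL
  rw [nm_add, A_xor g (nm_lt x) (nm_lt y), tv_xor]

theorem LL_tv (g : Co0) {a : ℕ} (ha : a < 256) : LL g (tv a) = tv (A g a) := by
  unfold LL
  rw [nm_tv a ha]

theorem LL_mul (g : Co0) {h : Co0} (hh : Cm h) (x : V8) : LL (g * h) x = LL g (LL h x) := by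
  unfold LL
  rw [nm_tv _ (A_lt h (nm x)), A_mul g hh (nm_lt x)]

theorem LL_one (x : V8) : LL 1 x = x := by
  unfold LL
  rw [A_one (nm_lt x), tv_nm]

theorem Q_LL {g : Co0} (hg : Cm g) (x : V8) : Q0 (LL g x) = Q0 x := by
  unfold LL
  rw [Q_tv, qB_A hg (nm_lt x), ← Q_tv, tv_nm]

/-- The linear map. -/
noncomputable def Lin8 (g : Co0) : V8 →ₗ[K] V8 :=
  AddMonoidHom.toZModLinearMap 2 (AddMonoidHom.mk' (LL g) (LL_add g))

theorem Lin8_apply (g : Co0) (x : V8) : Lin8 g x = LL g x := rfl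

/-- The linear equivalence. -/
noncomputable def LE (g : G) : V8 ≃ₗ[K] V8 :=
  LinearEquiv.ofLinear (Lin8 g) (Lin8 ((g⁻¹ : G) : Co0))
    (by
      apply LinearMap.ext
      intro x
      show LL g (LL ((g⁻¹ : G) : Co0) x) = x
      rw [← LL_mul _ (Cm_of g⁻¹)]
      have : (g : Co0) * ((g⁻¹ : G) : Co0) = 1 := by simp
      rw [this, LL_one])
    (by
      apply LinearMap.ext
      intro x
      show LL ((g⁻¹ : G) : Co0) (LL g x) = x
      rw [← LL_mul _ (Cm_of g)]
      have : ((g⁻¹ : G) : Co0) * (g : Co0) = 1 := by simp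
      rw [this, LL_one])

theorem LE_apply (g : G) (x : V8) : LE g x = LL g x := rfl

/-- The homomorphism to the orthogonal group. -/
noncomputable def F0 : G →* OG Q0 where
  toFun g := ⟨LE g, fun x => Q_LL (Cm_of g) x⟩
  map_one' := by
    apply Subtype.ext
    apply LinearEquiv.ext
    intro x
    exact LL_one x
  map_mul' g h := by
    apply Subtype.ext
    apply LinearEquiv.ext
    intro x
    exact LL_mul _ (Cm_of h) x

theorem F0_apply (g : G) (x : V8) : ((F0 g : OG Q0) : V8 ≃ₗ[K] V8) x = LL g x := rfl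

theorem F0_tv (g : G) {a : ℕ} (ha : a < 256) : ((F0 g : OG Q0) : V8 ≃ₗ[K] V8) (tv a) = tv (A g a) :=
  LL_tv g ha

theorem F0_eq_one_iff (g : G) : F0 g = 1 ↔ ∀ a < 256, A g a = a := by
  constructor
  · intro h a ha
    have h1 := F0_tv g ha
    rw [h] at h1
    exact (tv_inj ha (A_lt _ _) h1).symm
  · intro h
    apply Subtype.ext
    apply LinearEquiv.ext
    intro x
    show LL g x = x
    unfold LL
    rw [h _ (nm_lt x), tv_nm]

/-! ### The negative of the involution -/

theorem cc_neg (v : leechLattice) : cc ((-v : leechLattice) : GolayPt → ℤ) = cc (v : GolayPt → ℤ) := by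
  have h := cc_congr (-v) v
  have e : -v + (v + v) = v := by abel
  rw [e] at h
  exact h.symm

/-- The involution acting as `-1` on the vectors of the octad. -/
noncomputable def eO : Co0 := negCo0 * t2

theorem eO_apply {v : leechLattice} (hv : InM (v : GolayPt → ℤ)) : (eO : Equiv.Perm leechLattice) v = -v := by
  show (negCo0 : Equiv.Perm leechLattice) ((t2 : Equiv.Perm leechLattice) v) = -v
  rw [(t2_eq v).2 hv, negCo0_apply]

theorem neg_central (g : Co0) : negCo0 * g = g * negCo0 :=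
  (Subgroup.mem_center_iff.1 Cfsg.Agent.S0398.neg_center g).symm

theorem eO_cm : Cm eO := by
  show negCo0 * t2 * t2 = t2 * (negCo0 * t2)
  rw [← mul_assoc t2, ← neg_central, mul_assoc]

theorem A_eO {a : ℕ} (ha : a < 256) : A eO a = a := by
  unfold A
  rw [eO_apply (M_inM ha), cc_neg, cc_M ha]

/-- An element fixing the class number `64` lies in the stabilizer, up to the involution. -/
theorem stab_cases {g : Co0} (hg : Cm g) (h : A g 64 = 64) : g ∈ X ∨ eO * g ∈ X := by
  have h1 := map_inM hg (M_inM (a := 64) (by norm_num))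
  have h2 : cc ((g : Equiv.Perm leechLattice) (M 64) : leechLattice) = cc (M 64 : GolayPt → ℤ) := by
    rw [cc_M (by norm_num)]
    exact h
  obtain ⟨u, hu⟩ := cong_of_cc h1 (M_inM (by norm_num)) h2
  have n1 : sqNorm (M 64 : GolayPt → ℤ) = 32 := by
    rw [sqNorm_M]
    have : nt 64 = 32 := by decide +kernel
    rw [this]
    norm_num
  have n2 : sqNorm (((g : Equiv.Perm leechLattice) (M 64) : leechLattice) : GolayPt → ℤ) = 32 := by
    rw [g.2.2, n1]
  rcases Cfsg.Agent.Lib.Co0Stab2.pm_of_cong n1 n2 hu with e | e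
  · left
    refine ⟨hg, ?_⟩
    rw [← M64]
    exact e
  · right
    refine ⟨?_, ?_⟩
    · show eO * g * t2 = t2 * (eO * g)
      have hg' : g * t2 = t2 * g := hg
      have he : eO * t2 = t2 * eO := eO_cm
      rw [mul_assoc, hg', ← mul_assoc, he, mul_assoc]
    · rw [← M64]
      show (eO : Equiv.Perm leechLattice) ((g : Equiv.Perm leechLattice) (M 64)) = M 64
      rw [e, co0_neg, eO_apply (M_inM (by norm_num)), neg_neg]

end Cfsg.Agent.Lib.CoOne1
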