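import Mathlib
import Cfsg.Agent.Lib.CoOne1

/-!
# The image of the centralizer in the orthogonal group has index two, and it is the commutator subgroup.
-/

set_option autoImplicit false
set_option maxRecDepth 100000

open Cfsg Cfsg.Agent.Lib.Leech Cfsg.Agent.Lib.Co0Mono Cfsg.Agent.Lib.Co0Frame
open Cfsg.Agent.Lib.CoTwoData Cfsg.Agent.Lib.CoVec Cfsg.Agent.Lib.MonsterSplit Cfsg.Agent.Lib.CoTwo1
open Cfsg.Agent.Lib.CoTwo2 Cfsg.Agent.Lib.CoTwo3 Cfsg.Agent.Lib.CoTwo4 Cfsg.Agent.Lib.CoTwo5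
open Cfsg.Agent.Lib.OrthoBasic Cfsg.Agent.Lib.CoOneData Cfsg.Agent.Lib.CoOne1
open Cfsg.Agent.Lib.Golay (idx pt idx_pt pt_idx idx_lt idxL mem_idxL ap bit bit_eq ofMask mem_ofMask
  decode idx_decode isM24 decode_mem_M24 isM24_valid reduce idC decode_idC isM24_idC)

namespace Cfsg.Agent.Lib.CoOne2

/-! ### One more generator, and the orbit of the class number `64` -/

theorem hc_ok : isM24 hcC = true := by decide +kernel

/-- A monomial element moving the class number `64`. -/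
noncomputable def h0 : Co0 :=
  monoCo0 (ofMask_mem_codeSets (m := 0) (by norm_num) reduce_zero) (decode_mem_M24 hc_ok)

theorem h0_acts : ActsOn h0 (actMono hcC 0) :=
  actMono_spec hc_ok (m := 0) (by norm_num) reduce_zero

theorem h0_cm : Cm h0 := comm_of h0_acts (by decide +kernel)

/-- The action of the generators on numbers. -/
def actO (k a : ℕ) : ℕ :=
  if k = 0 then ccN (actMono g1c g1m (tab a)) else
  if k = 1 then ccN (actMono g2c g2m (tab a)) else
  if k = 2 then ccN (f3 (tab a)) else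
  ccN (actMono hcC 0 (tab a))

theorem exists_genO (k a : ℕ) : ∃ g : Co0, Cm g ∧ A g a = actO k a := by
  unfold actO
  split_ifs
  · exact ⟨g1, g1_mem.1, A_of g1_acts a⟩
  · exact ⟨g2, g2_mem.1, A_of g2_acts a⟩
  · exact ⟨g3, g3_mem.1, A_of g3_acts a⟩
  · exact ⟨h0, h0_cm, A_of h0_acts a⟩

/-- The parent. -/
def parO (a : ℕ) : ℕ := parOL.getD a 0

/-- The generator. -/
def genO (a : ℕ) : ℕ := genOL.getD a 0

/-- The depth. -/
def depO (a : ℕ) : ℕ := depOL.getD a 0

theorem treeO_ok : ∀ a < 256, qB a = true → a = 64 ∨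
    (parO a < 256 ∧ qB (parO a) = true ∧ depO (parO a) < depO a ∧ actO (genO a) (parO a) = a) := by
  decide +kernel

theorem Cm_one : Cm 1 := by
  show 1 * t2 = t2 * 1
  rw [one_mul, mul_one]

theorem Cm_mul {g h : Co0} (hg : Cm g) (hh : Cm h) : Cm (g * h) := by
  have hg' : g * t2 = t2 * g := hg
  have hh' : h * t2 = t2 * h := hh
  show g * h * t2 = t2 * (g * h)
  rw [mul_assoc, hh', ← mul_assoc, hg', mul_assoc]

theorem orbit_all (n : ℕ) : ∀ a < 256, qB a = true → depO a = n → ∃ g : Co0, Cm g ∧ A g 64 = a := by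
  induction n using Nat.strong_induction_on with
  | _ n ih =>
    intro a ha hq hd
    rcases treeO_ok a ha hq with h | ⟨h1, h2, h3, h4⟩
    · refine ⟨1, Cm_one, ?_⟩
      rw [h]
      exact A_one (by norm_num)
    · obtain ⟨g', hg', e'⟩ := ih (depO (parO a)) (hd ▸ h3) (parO a) h1 h2 rfl
      obtain ⟨g, hg, e⟩ := exists_genO (genO a) (parO a)
      refine ⟨g * g', Cm_mul hg hg', ?_⟩
      rw [A_mul g hg' (by norm_num), e', e, h4]

/-! ### The image and its action -/

/-- The image in the orthogonal group. -/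
noncomputable abbrev II : Subgroup (OG Q0) := F0.range

/-- The action of the image on the space. -/
@[reducible] noncomputable def actI : MulAction II V8 where
  smul y v := (((y : OG Q0) : V8 ≃ₗ[K] V8)) v
  one_smul _ := rfl
  mul_smul _ _ _ := rfl

theorem qB_64 : qB 64 = true := by decide +kernel

theorem Q_x0 : Q0 (tv 64) = 1 := by
  rw [Q_tv, qB_64]
  rfl

theorem orbit_I : letI := actI; MulAction.orbit II (tv 64) = {v | Q0 v = 1} := by
  letI := actI
  ext v
  constructor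
  · rintro ⟨⟨y, g, rfl⟩, rfl⟩
    show Q0 (((F0 g : OG Q0) : V8 ≃ₗ[K] V8) (tv 64)) = 1
    rw [(F0 g).2, Q_x0]
  · intro hv
    have hv' : Q0 v = 1 := hv
    have hq : qB (nm v) = true := by
      have h1 := Q_tv (nm v)
      rw [tv_nm, hv'] at h1
      cases h2 : qB (nm v)
      · rw [h2] at h1
        exact absurd h1 (by decide)
      · rfl
    obtain ⟨g, hg, e⟩ := orbit_all _ (nm v) (nm_lt v) hq rfl
    refine ⟨⟨F0 ⟨g, mem_G.2 hg⟩, ⟨_, rfl⟩⟩, ?_⟩
    show ((F0 ⟨g, mem_G.2 hg⟩ : OG Q0) : V8 ≃ₗ[K] V8) (tv 64) = v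
    rw [F0_tv _ (by norm_num)]
    show tv (A g 64) = v
    rw [e, tv_nm]

/-- The inclusion of the stabilizer. -/
noncomputable def incl : X →* G :=
  Subgroup.inclusion (fun _ hx => mem_G.2 hx.1)

/-- The map from the stabilizer. -/
noncomputable def F0X : X →* OG Q0 := F0.comp incl

theorem A_qX {m s : ℕ} (hm : m ∈ E32L) (hs : s ∈ T16L) {a : ℕ} (ha : a < 256) : A (qq hm hs) a = a := by
  unfold A
  rw [qq_fix hm hs (M_inM ha), cc_M ha]

theorem F0_eO : F0 ⟨eO, mem_G.2 eO_cm⟩ = 1 := by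
  rw [F0_eq_one_iff]
  intro a ha
  exact A_eO ha

theorem ker_F0X : F0X.ker = rho.ker := by
  ext g
  rw [MonoidHom.mem_ker, MonoidHom.mem_ker]
  constructor
  · intro h
    apply rho_eq_one
    intro a ha
    exact (F0_eq_one_iff _).1 h a (by omega)
  · intro h
    obtain ⟨m, s, hm, hs, rfl⟩ := ker_form h
    apply (F0_eq_one_iff _).2
    intro a ha
    exact A_qX hm hs ha

theorem card_range_F0X : Nat.card F0X.range = 1451520 := by
  rw [← Subgroup.index_ker, ker_F0X, Subgroup.index_ker, MonoidHom.range_eq_top.2 rho_surj,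
    Subgroup.card_top, card_Sp6]

theorem stab_I : letI := actI; (MulAction.stabilizer II (tv 64)).map II.subtype = F0X.range := by
  letI := actI
  ext y
  constructor
  · rintro ⟨⟨_, g, rfl⟩, hs, rfl⟩
    have h1 : ((F0 g : OG Q0) : V8 ≃ₗ[K] V8) (tv 64) = tv 64 := MulAction.mem_stabilizer_iff.1 hs
    rw [F0_tv _ (by norm_num)] at h1
    have h2 : A g 64 = 64 := tv_inj (A_lt _ _) (by norm_num) h1
    rcases stab_cases (Cm_of g) h2 with h3 | h3
    · exact ⟨⟨g, h3⟩, rfl⟩
    · refine ⟨⟨_, h3⟩, ?_⟩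
      have e : incl ⟨_, h3⟩ = (⟨eO, mem_G.2 eO_cm⟩ : G) * g := rfl
      show F0 (incl ⟨_, h3⟩) = _
      rw [e, map_mul, F0_eO, one_mul]
      rfl
  · rintro ⟨x, rfl⟩
    refine ⟨⟨F0 (incl x), ⟨_, rfl⟩⟩, ?_, rfl⟩
    show _ ∈ MulAction.stabilizer _ _
    rw [MulAction.mem_stabilizer_iff]
    show ((F0 (incl x) : OG Q0) : V8 ≃ₗ[K] V8) (tv 64) = tv 64
    rw [F0_tv _ (by norm_num)]
    exact congrArg tv (A_64 x.2)

theorem card_nonsing : ({v | Q0 v = 1} : Set V8).ncard = 120 := by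
  rw [← Nat.card_coe_set_eq]
  have h := Nat.card_congr Cfsg.Agent.Lib.O8Bridge46.eS
  rw [Nat.card_eq_fintype_card, Fintype.card_fin] at h
  exact h.symm

theorem card_II : Nat.card II = 174182400 := by
  letI := actI
  have h1 : (MulAction.stabilizer II (tv 64)).index = (MulAction.orbit II (tv 64)).ncard :=
    MulAction.index_stabilizer _ _
  rw [orbit_I, card_nonsing] at h1
  have h2 : Nat.card (MulAction.stabilizer II (tv 64)) = 1451520 := by
    rw [← card_range_F0X, ← stab_I]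
    exact Nat.card_congr ((MulAction.stabilizer II (tv 64)).equivMapOfInjective II.subtype
      II.subtype_injective).toEquiv
  have h3 := Subgroup.card_mul_index (MulAction.stabilizer II (tv 64))
  rw [← h3, h1, h2]

/-! ### The orthogonal group -/

/-- The coordinates. -/
noncomputable def phi : (Fin 8 → K) ≃ₗ[K] (Fin 4 ⊕ Fin 4 → K) := LinearEquiv.funCongrLeft K K finSumFinEquiv

theorem phi_spec (v : Fin 8 → K) : Cfsg.Agent.Lib.OrthoCount.qPlus 4 K (phi v) = Q0 v := by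
  rw [Cfsg.Agent.Lib.OrthoCount.qPlus_apply]
  show _ = Cfsg.Agent.Lib.OmegaD4.qD K v
  rw [Cfsg.Agent.Lib.OmegaD4.qD_apply]
  simp only [Cfsg.quadFormPlus, Fin.sum_univ_four, phi]
  rfl

/-- The isometry group is the orthogonal group. -/
noncomputable def isoE : Cfsg.isometryGroup K (Cfsg.quadFormPlus 4 K) ≃* OG Q0 :=
  (Cfsg.Agent.Lib.OrthoCount.isoOG (Cfsg.quadFormPlus 4 K) (Cfsg.Agent.Lib.OrthoCount.qPlus 4 K)
    (fun v => (Cfsg.Agent.Lib.OrthoCount.qPlus_apply 4 v).symm)).trans (OG.congr phi phi_spec).symm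

theorem card_OG : Nat.card (OG Q0) = 348364800 := by
  rw [← Nat.card_congr isoE.toEquiv,
    Cfsg.Agent.Lib.OrthoOrder.card_isometry_plus (F := K) (q := 2) (ZMod.card 2) 4 (by norm_num)]
  norm_num [Finset.prod_range_succ]

/-- The commutator subgroup. -/
noncomputable abbrev Om : Subgroup (OG Q0) := Cfsg.Agent.Lib.O8Bridge46.Ω

theorem card_Om : Nat.card Om = 174182400 := by
  rw [Nat.card_congr Cfsg.Agent.Lib.O8Bridge46.eΩ.toEquiv]
  exact Cfsg.Agent.Lib.O8Bridge46.card_PG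

theorem II_eq : II = Om := by
  have hi : II.index = 2 := by
    have h := Subgroup.card_mul_index II
    rw [card_II, card_OG] at h
    omega
  have hn : II.Normal := Subgroup.normal_of_index_eq_two hi
  have hc : Nat.card (OG Q0 ⧸ II) = 2 := by
    rw [← Subgroup.index_eq_card]
    exact hi
  have hp : Fact (Nat.Prime (Nat.card (OG Q0 ⧸ II))) := ⟨by rw [hc]; exact Nat.prime_two⟩
  have hcomm : ∀ a b : OG Q0 ⧸ II, a * b = b * a := by
    have := isCyclic_of_prime_card (α := OG Q0 ⧸ II) rfl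
    exact fun a b => (IsCyclic.commGroup (α := OG Q0 ⧸ II)).mul_comm a b
  have hle : Om ≤ II := (Subgroup.Normal.quotient_commutative_iff_commutator_le).1 ⟨⟨hcomm⟩⟩
  have hcard : Nat.card II ≤ Nat.card Om := by rw [card_II, card_Om]
  have hfin : Finite (OG Q0) := Nat.finite_of_card_ne_zero (by rw [card_OG]; norm_num)
  exact (Subgroup.eq_of_le_of_card_ge hle hcard).symm

/-! ### Simplicity -/

open Cfsg.Lie Cfsg.Agent.Lib.ChevRep Cfsg.Agent.Lib.Chev Cfsg.Agent.Lib.ChevOmega Cfsg.Agent.Lib.RepD4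
  Cfsg.Agent.Lib.OmegaD4 in
theorem isSimple_Om : IsSimpleGroup Om := by
  have hF : Full _ _ _ chevD4 := ⟨RelD4.checks, RootD4.checks⟩
  have hperf := hF.perfect_main (F := K) (by simp) (by
    intro h
    exfalso
    rcases h with h | h <;> exact absurd (congrArg ChevalleyDatum.rank h) (by decide +kernel))
  have hs : IsSimpleGroup ↥(chevD4.group K) := (hF.isSimple_main connD4 (by decide +kernel) hperf).1
  obtain ⟨e₁⟩ := main (F := K)
  obtain ⟨e₂⟩ := Cfsg.Agent.Lib.O8Bridge46.pomegaK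
  have e₃ : ↥(chevD4.group K) ≃* ↥Cfsg.Agent.Lib.O8Main46.PG := e₁.trans e₂
  have e₄ : ↥Om ≃* ↥Cfsg.Agent.Lib.O8Main46.PG := Cfsg.Agent.Lib.O8Bridge46.eΩ
  have e₅ : ↥Om ≃* ↥(chevD4.group K) := e₄.trans e₃.symm
  exact @MulEquiv.isSimpleGroup _ _ _ _ hs e₅

end Cfsg.Agent.Lib.CoOne2
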