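import Mathlib
import Cfsg.Prelude.Def_MonsterType
import Cfsg.Agent.Lib.LargeQuot
import Cfsg.Agent.Lib.CharTwoLocal

/-!
# A criterion for the extraspecial-centralizer setting, in terms of a cover `π : L → C(zb)`.
-/

set_option autoImplicit false

open Cfsg

namespace Cfsg.Agent.Lib.CoverW

/-- The data of a cover `π : L → C(zb)`, a map `F₁` from `L` to the quotient, and the lift `R0` of the
extraspecial group. -/
structure Cover {H : Type*} [Group H] (zb : H) {L : Type*} [Group L]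
    (π : L →* Subgroup.centralizer ({zb} : Set H)) (ζ : L) {A : Type*} [Group A] (F₁ : L →* A) (R0 : Subgroup L)
    (w : ℕ) : Prop where
  π_surj : Function.Surjective π
  π_ζ : ((π ζ : Subgroup.centralizer ({zb} : Set H)) : H) = zb
  inj : ∀ q ∈ R0, π q = 1 → q = 1
  F_surj : Function.Surjective F₁
  F_ker : ∀ x, F₁ x = 1 ↔ ∃ r ∈ R0, π x = π r
  ζ_mem : ζ ∈ R0
  ζ_ne : ζ ≠ 1
  ζ_sq : ζ * ζ = 1
  card : Nat.card R0 = 2 ^ (2 * w + 1)
  comm : ∀ a ∈ R0, ∀ b ∈ R0, a * b * a⁻¹ * b⁻¹ = 1 ∨ a * b * a⁻¹ * b⁻¹ = ζ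
  sq : ∀ a ∈ R0, a ^ 2 = 1 ∨ a ^ 2 = ζ
  cen : ∀ a ∈ R0, (∀ b ∈ R0, a * b = b * a) → a = 1 ∨ a = ζ
  non : ∃ a ∈ R0, ∃ b ∈ R0, a * b ≠ b * a
  hO : ∀ P : Subgroup A, P.Normal → IsPGroup 2 P → P = ⊥
  hC : ∀ x, (∀ q ∈ R0, π x * π q = π q * π x) → ∃ r ∈ R0, π x = π r
  weak : ∃ g : H, ∃ q ∈ R0, g * zb * g⁻¹ = ((π q : Subgroup.centralizer ({zb} : Set H)) : H) ∧
    g * zb * g⁻¹ ≠ zb

variable {H : Type*} [Group H] {zb : H} {L : Type*} [Group L]
  {π : L →* Subgroup.centralizer ({zb} : Set H)} {ζ : L} {A : Type*} [Group A] {F₁ : L →* A} {R0 : Subgroup L}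
  {w : ℕ}

namespace Cover

variable (C : Cover zb π ζ F₁ R0 w)

include C in
theorem ker_le : π.ker ≤ F₁.ker := by
  intro x hx
  rw [MonoidHom.mem_ker] at hx ⊢
  apply (C.F_ker x).2
  exact ⟨1, R0.one_mem, by rw [hx, map_one]⟩

/-- The map to the quotient. -/
noncomputable def F : Subgroup.centralizer ({zb} : Set H) →* A :=
  (π.liftOfSurjective C.π_surj) ⟨F₁, C.ker_le⟩

theorem F_π (x : L) : C.F (π x) = F₁ x :=
  π.liftOfRightInverse_comp_apply _ _ ⟨F₁, C.ker_le⟩ x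

theorem F_surjective : Function.Surjective C.F := by
  intro y
  obtain ⟨x, rfl⟩ := C.F_surj y
  exact ⟨π x, C.F_π x⟩

theorem mem_ker_iff {d : Subgroup.centralizer ({zb} : Set H)} :
    d ∈ C.F.ker ↔ ∃ q ∈ R0, π q = d := by
  constructor
  · intro hd
    obtain ⟨x, rfl⟩ := C.π_surj d
    rw [MonoidHom.mem_ker, C.F_π] at hd
    obtain ⟨r, hr, e⟩ := (C.F_ker x).1 hd
    exact ⟨r, hr, e.symm⟩
  · rintro ⟨q, hq, rfl⟩
    rw [MonoidHom.mem_ker, C.F_π]
    exact (C.F_ker q).2 ⟨q, hq, rfl⟩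

/-- Elements of `R`. -/
def toR (q : L) (hq : q ∈ R0) : C.F.ker := ⟨π q, C.mem_ker_iff.2 ⟨q, hq, rfl⟩⟩

theorem exists_toR (r : C.F.ker) : ∃ (q : L) (hq : q ∈ R0), r = C.toR q hq := by
  obtain ⟨q, hq, h⟩ := C.mem_ker_iff.1 r.2
  exact ⟨q, hq, Subtype.ext h.symm⟩

theorem toR_eq_one_iff {q : L} (hq : q ∈ R0) : C.toR q hq = 1 ↔ q = 1 := by
  constructor
  · intro h
    exact C.inj q hq (congrArg Subtype.val h)
  · rintro rfl
    exact Subtype.ext (map_one π)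

theorem toR_conj {q r : L} (hq : q ∈ R0) (hr : r ∈ R0) :
    C.toR (q * r * q⁻¹ * r⁻¹) (R0.mul_mem (R0.mul_mem (R0.mul_mem hq hr) (R0.inv_mem hq)) (R0.inv_mem hr)) =
      C.toR q hq * C.toR r hr * (C.toR q hq)⁻¹ * (C.toR r hr)⁻¹ :=
  Subtype.ext (by simp [toR])

theorem toR_pow {q : L} (hq : q ∈ R0) (n : ℕ) : C.toR (q ^ n) (R0.pow_mem hq n) = C.toR q hq ^ n :=
  Subtype.ext (by simp [toR])

theorem comm_zeta (r : C.F.ker) : r * C.toR ζ C.ζ_mem = C.toR ζ C.ζ_mem * r := by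
  apply Subtype.ext
  apply Subtype.ext
  show ((r : Subgroup.centralizer ({zb} : Set H)) : H) * ((π ζ : Subgroup.centralizer ({zb} : Set H)) : H) = ((π ζ : Subgroup.centralizer ({zb} : Set H)) : H) * ((r : Subgroup.centralizer ({zb} : Set H)) : H)
  rw [C.π_ζ]
  exact Subgroup.mem_centralizer_singleton_iff.1 (r : Subgroup.centralizer ({zb} : Set H)).2

theorem toR_central_iff {q : L} (hq : q ∈ R0) :
    C.toR q hq ∈ Subgroup.center C.F.ker ↔ q = 1 ∨ q = ζ := by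
  constructor
  · intro h
    apply C.cen q hq
    intro b hb
    have h1 := Subgroup.mem_center_iff.1 h (C.toR b hb)
    have h2 : C.toR (q * b * q⁻¹ * b⁻¹) (R0.mul_mem (R0.mul_mem (R0.mul_mem hq hb) (R0.inv_mem hq)) (R0.inv_mem hb)) = 1 := by
      rw [C.toR_conj hq hb, ← h1]
      group
    have h3 := (C.toR_eq_one_iff _).1 h2
    calc q * b = (q * b * q⁻¹ * b⁻¹) * (b * q) := by group
      _ = b * q := by rw [h3, one_mul]
  · rintro (rfl | rfl)
    · have : C.toR 1 hq = 1 := (C.toR_eq_one_iff _).2 rfl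
      rw [this]
      exact Subgroup.one_mem _
    · rw [Subgroup.mem_center_iff]
      exact C.comm_zeta

theorem isPGroup_ker : IsPGroup 2 C.F.ker := by
  intro r
  obtain ⟨q, hq, rfl⟩ := C.exists_toR r
  refine ⟨2, ?_⟩
  rw [← C.toR_pow hq]
  apply (C.toR_eq_one_iff _).2
  have h4 : q ^ 2 ^ 2 = (q ^ 2) ^ 2 := by
    rw [← pow_mul]
    norm_num
  rw [h4]
  rcases C.sq q hq with h | h
  · rw [h, one_pow]
  · rw [h, pow_two, C.ζ_sq]

theorem extra [Finite H] : IsExtraspecial 2 C.F.ker := by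
  refine Cfsg.Agent.Lib.LargeQuot.extraspecial_of_elements C.isPGroup_ker (C.toR ζ C.ζ_mem) ?_ ?_ ?_ ?_ ?_
  · intro h
    exact C.ζ_ne ((C.toR_eq_one_iff _).1 h)
  · intro a b
    obtain ⟨q, hq, rfl⟩ := C.exists_toR a
    obtain ⟨r, hr, rfl⟩ := C.exists_toR b
    rw [← C.toR_conj hq hr]
    rcases C.comm q hq r hr with h | h
    · left
      exact (C.toR_eq_one_iff _).2 h
    · right
      apply Subtype.ext
      exact congrArg π h
  · intro a
    obtain ⟨q, hq, rfl⟩ := C.exists_toR a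
    rw [← C.toR_pow hq]
    rcases C.sq q hq with h | h
    · left
      exact (C.toR_eq_one_iff _).2 h
    · right
      apply Subtype.ext
      exact congrArg π h
  · intro a ha
    obtain ⟨q, hq, rfl⟩ := C.exists_toR a
    have h1 : C.toR q hq ∈ Subgroup.center C.F.ker := Subgroup.mem_center_iff.2 (fun b => (ha b).symm)
    rcases (C.toR_central_iff hq).1 h1 with rfl | rfl
    · left
      exact (C.toR_eq_one_iff _).2 rfl
    · right
      rfl
  · obtain ⟨a, ha, b, hb, hab⟩ := C.non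
    refine ⟨C.toR a ha, C.toR b hb, ?_⟩
    rw [← C.toR_conj ha hb]
    intro h
    have h1 := (C.toR_eq_one_iff _).1 h
    apply hab
    calc a * b = (a * b * a⁻¹ * b⁻¹) * (b * a) := by group
      _ = b * a := by rw [h1, one_mul]

theorem card_ker : Nat.card C.F.ker = 2 ^ (2 * w + 1) := by
  rw [← C.card]
  apply Nat.card_congr
  symm
  refine Equiv.ofBijective (fun q : R0 => C.toR q q.2) ⟨?_, ?_⟩
  · intro a b h
    have h1 : π (a : L) = π (b : L) := congrArg Subtype.val h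
    have h2 : π ((a : L) * (b : L)⁻¹) = 1 := by
      rw [map_mul, map_inv, h1, mul_inv_cancel]
    have h3 := C.inj _ (R0.mul_mem a.2 (R0.inv_mem b.2)) h2
    exact Subtype.ext (mul_inv_eq_one.1 h3)
  · intro r
    obtain ⟨q, hq, rfl⟩ := C.exists_toR r
    exact ⟨⟨q, hq⟩, rfl⟩

include C in
/-- The main theorem. -/
theorem setting [Finite H] : ∃ (Q : Subgroup (Subgroup.centralizer ({zb} : Set H))) (_ : Q.Normal),
    IsExtraspecialCentralizerSetting zb Q w ∧ Nonempty ((Subgroup.centralizer ({zb} : Set H)) ⧸ Q ≃* A) := by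
  have hp : Fact (Nat.Prime 2) := ⟨Nat.prime_two⟩
  have hzb1 : zb ≠ 1 := by
    intro h
    have h1 : π ζ = 1 := Subtype.ext (C.π_ζ.trans h)
    exact C.ζ_ne (C.inj ζ C.ζ_mem h1)
  have hzb2 : orderOf zb = 2 := by
    apply orderOf_eq_prime _ hzb1
    rw [← C.π_ζ, pow_two, ← Subgroup.coe_mul, ← map_mul, C.ζ_sq, map_one]
    rfl
  have hcore : pCore 2 (Subgroup.centralizer ({zb} : Set H)) = C.F.ker := by
    apply le_antisymm
    · have hM : ((pCore 2 (Subgroup.centralizer ({zb} : Set H))).map C.F).Normal :=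
        Subgroup.Normal.map inferInstance _ C.F_surjective
      have hP : IsPGroup 2 ((pCore 2 (Subgroup.centralizer ({zb} : Set H))).map C.F) :=
        (Cfsg.Agent.Lib.PCore.isPGroup_pCore 2).map _
      have := C.hO _ hM hP
      exact (Subgroup.map_eq_bot_iff _).1 this
    · exact Cfsg.Agent.Lib.PCore.le_pCore inferInstance C.isPGroup_ker
  have hfit : generalizedFittingSubgroup (Subgroup.centralizer ({zb} : Set H)) = C.F.ker := by
    rw [← hcore]
    apply Cfsg.Agent.Lib.CharTwoLocal.generalizedFitting_eq_pCore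
    rw [hcore]
    intro d hd
    obtain ⟨x, rfl⟩ := C.π_surj d
    obtain ⟨r, hr, e⟩ := C.hC x (fun q hq => by
      have h2 := Subgroup.mem_centralizer_iff.1 hd (π q) (C.mem_ker_iff.2 ⟨q, hq, rfl⟩)
      exact h2.symm)
    exact C.mem_ker_iff.2 ⟨r, hr, e.symm⟩
  obtain ⟨g, q, hq, hg1, hg2⟩ := C.weak
  refine ⟨C.F.ker, inferInstance, ⟨hzb2, hfit, C.extra, C.card_ker, g, ?_, hg2⟩,
    ⟨QuotientGroup.quotientKerEquivOfSurjective C.F C.F_surjective⟩⟩
  have hmem : g * zb * g⁻¹ ∈ Subgroup.centralizer ({zb} : Set H) := by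
    rw [hg1]
    exact (π q).2
  refine ⟨hmem, ?_⟩
  have h1 : (⟨g * zb * g⁻¹, hmem⟩ : Subgroup.centralizer ({zb} : Set H)) = π q := Subtype.ext hg1
  rw [h1]
  exact C.mem_ker_iff.2 ⟨q, hq, rfl⟩

end Cover

end Cfsg.Agent.Lib.CoverW
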