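import Mathlib
import Cfsg.Agent.Lib.CoverW

/-!
# The criterion for the extraspecial-centralizer setting, with the explicit normal subgroup.
-/

set_option autoImplicit false

open Cfsg
open Cfsg.Agent.Lib.CoverW

namespace Cfsg.Agent.Lib.CoverW

variable {H : Type*} [Group H] {zb : H} {L : Type*} [Group L]
  {π : L →* Subgroup.centralizer ({zb} : Set H)} {ζ : L} {A : Type*} [Group A] {F₁ : L →* A} {R0 : Subgroup L}
  {w : ℕ}

namespace Cover

variable (C : Cover zb π ζ F₁ R0 w)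

include C in
/-- The main theorem. -/
theorem setting' [Finite H] : IsExtraspecialCentralizerSetting zb C.F.ker w ∧
    Nonempty ((Subgroup.centralizer ({zb} : Set H)) ⧸ C.F.ker ≃* A) := by
  have hp : Fact (Nat.Prime 2) := ⟨Nat.prime_two⟩
  have hzb1 : zb ≠ 1 := by
    intro h
    have h1 : π ζ = 1 := Subtype.ext (C.π_ζ.trans h)
    exact C.ζ_ne (C.inj ζ C.ζ_mem h1)
  have hzb2 : orderOf zb = 2 := by
    apply orderOf_eq_prime _ hzb1
    rw [← C.π_ζ, pow_two, ← Subgroup.coe_mul, ← map_mul, C.ζ_sq, map_one]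
    rfl
  have hcore : pCore 2 (Subgroup.centralizer ({zb} : Set H)) = C.F.ker := by
    apply le_antisymm
    · have hM : ((pCore 2 (Subgroup.centralizer ({zb} : Set H))).map C.F).Normal :=
        Subgroup.Normal.map inferInstance _ C.F_surjective
      have hP : IsPGroup 2 ((pCore 2 (Subgroup.centralizer ({zb} : Set H))).map C.F) :=
        (Cfsg.Agent.Lib.PCore.isPGroup_pCore 2).map _
      have := C.hO _ hM hP
      exact (Subgroup.map_eq_bot_iff _).1 this
    · exact Cfsg.Agent.Lib.PCore.le_pCore inferInstance C.isPGroup_ker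
  have hfit : generalizedFittingSubgroup (Subgroup.centralizer ({zb} : Set H)) = C.F.ker := by
    rw [← hcore]
    apply Cfsg.Agent.Lib.CharTwoLocal.generalizedFitting_eq_pCore
    rw [hcore]
    intro d hd
    obtain ⟨x, rfl⟩ := C.π_surj d
    obtain ⟨r, hr, e⟩ := C.hC x (fun q hq => by
      have h2 := Subgroup.mem_centralizer_iff.1 hd (π q) (C.mem_ker_iff.2 ⟨q, hq, rfl⟩)
      exact h2.symm)
    exact C.mem_ker_iff.2 ⟨r, hr, e.symm⟩
  obtain ⟨g, q, hq, hg1, hg2⟩ := C.weak
  refine ⟨⟨hzb2, hfit, C.extra, C.card_ker, g, ?_, hg2⟩,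
    ⟨QuotientGroup.quotientKerEquivOfSurjective C.F C.F_surjective⟩⟩
  have hmem : g * zb * g⁻¹ ∈ Subgroup.centralizer ({zb} : Set H) := by
    rw [hg1]
    exact (π q).2
  refine ⟨hmem, ?_⟩
  have h1 : (⟨g * zb * g⁻¹, hmem⟩ : Subgroup.centralizer ({zb} : Set H)) = π q := Subtype.ext hg1
  rw [h1]
  exact C.mem_ker_iff.2 ⟨q, hq, rfl⟩

end Cover

end Cfsg.Agent.Lib.CoverW
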