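import Mathlib
import Cfsg.Agent.Lib.CoOne2
import Cfsg.Agent.Lib.CoverW2
import Cfsg.Agent.Lib.Co0Pair

/-!
# The involution of `Co1`: the cover of its centralizer.
-/

set_option autoImplicit false
set_option maxRecDepth 100000

open Cfsg Cfsg.Agent.Lib.Leech Cfsg.Agent.Lib.Co0Mono Cfsg.Agent.Lib.Co0Frame
open Cfsg.Agent.Lib.CoTwoData Cfsg.Agent.Lib.CoVec Cfsg.Agent.Lib.MonsterSplit Cfsg.Agent.Lib.CoTwo1
open Cfsg.Agent.Lib.CoTwo2 Cfsg.Agent.Lib.CoTwo3 Cfsg.Agent.Lib.CoTwo4 Cfsg.Agent.Lib.CoTwo5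
open Cfsg.Agent.Lib.OrthoBasic Cfsg.Agent.Lib.CoOneData Cfsg.Agent.Lib.CoOne1 Cfsg.Agent.Lib.CoOne2
open Cfsg.Agent.Lib.Five3 (co0_ext_e8 eN dec_eN eN_st)
open Cfsg.Agent.Lib.Golay (idx pt idx_pt pt_idx idx_lt idxL mem_idxL ap bit bit_eq ofMask mem_ofMask
  decode idx_decode isM24 decode_mem_M24 isM24_valid reduce idC decode_idC isM24_idC)
open Cfsg.Agent.S0398 (e8 e8_apply neg_center)

namespace Cfsg.Agent.Lib.CoOne3

/-! ### Codes of the frame -/

theorem acts_pos {g : Co0} {f : ℕ → ℕ} (hf : ActsOn g f) {i i' : ℕ} (hi : i < 24) (hi' : i' < 24)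
    (h : f (eN i) = eN i') : (g : Equiv.Perm leechLattice) (e8 (pt i)) = e8 (pt i') := by
  have h1 := hf (eN i) (by
    have := eN_st (pt i)
    rwa [idx_pt hi] at this)
  apply Subtype.ext
  have e : (⟨dec (eN i), (by
      have := eN_st (pt i)
      rw [idx_pt hi] at this
      exact this.2.1)⟩ : leechLattice) = e8 (pt i) := by
    apply Subtype.ext
    have := dec_eN (pt i)
    rwa [idx_pt hi] at this
  rw [← e, h1.2, h]
  have := dec_eN (pt i')
  rwa [idx_pt hi'] at this

theorem actNeg2 : ∀ i < 24, actNeg (actNeg (eN i)) = eN i := by decide +kernel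

theorem acts_neg {g : Co0} {f : ℕ → ℕ} (hf : ActsOn g f) {i i' : ℕ} (hi : i < 24) (hi' : i' < 24)
    (h : f (eN i) = actNeg (eN i')) : (g : Equiv.Perm leechLattice) (e8 (pt i)) = -e8 (pt i') := by
  have h1 : ActsOn (negCo0 * g) (fun n => actNeg (f n)) := actNeg_spec.mul hf
  have h2 : actNeg (actNeg (eN i')) = eN i' := actNeg2 i' hi'
  have h3 := acts_pos h1 hi hi' (by
    show actNeg (f (eN i)) = _
    rw [h, h2])
  have h4 : (negCo0 : Equiv.Perm leechLattice) ((g : Equiv.Perm leechLattice) (e8 (pt i))) = e8 (pt i') := h3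
  rw [negCo0_apply] at h4
  rw [← h4, neg_neg]

/-- Equality of elements can be checked on the frame, on codes. -/
theorem eq_of_acts {g h : Co0} {f f' : ℕ → ℕ} (hf : ActsOn g f) (hf' : ActsOn h f')
    (H : ∀ i < 24, f (eN i) = f' (eN i)) : g = h := by
  apply co0_ext_e8
  intro p
  have h1 := hf _ (eN_st p)
  have h2 := hf' _ (eN_st p)
  have e : (⟨dec (eN (idx p)), (eN_st p).2.1⟩ : leechLattice) = e8 p := Subtype.ext (dec_eN p)
  rw [e] at h1 h2
  apply Subtype.ext
  rw [h1.2, h2.2, H _ (idx_lt p)]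

/-! ### No element inverts the involution -/

/-- Nine points off the octad. -/
def off9 : List ℕ := [4, 6, 7, 8, 9, 10, 11, 12, 13]

/-- Nine points off the octad. -/
def p9 (i : Fin 9) : GolayPt := pt (off9.getD i 0)

theorem off9_ok : ∀ i : Fin 9, off9.getD i 0 < 24 ∧ mOc.testBit (off9.getD i 0) = true := by decide +kernel

theorem off9_inj : ∀ i i' : Fin 9, off9.getD i 0 = off9.getD i' 0 → i = i' := by decide +kernel

theorem p9_inj {i i' : Fin 9} (h : p9 i = p9 i') : i = i' :=
  off9_inj i i' (Cfsg.Agent.Lib.Golay.pt_injOn (off9_ok i).1 (off9_ok i').1 h)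

theorem p9_mem (i : Fin 9) : p9 i ∈ ofMask mOc := by
  rw [mem_ofMask]
  show mOc.testBit (idx (pt (off9.getD i 0))) = true
  rw [idx_pt (off9_ok i).1]
  exact (off9_ok i).2

theorem t2_e8 {j : GolayPt} (hj : j ∈ ofMask mOc) : (t2 : Equiv.Perm leechLattice) (e8 j) = -e8 j := by
  apply Subtype.ext
  funext p
  rw [t2_apply]
  show _ = -((e8 j : leechLattice) : GolayPt → ℤ) p
  rw [e8_apply]
  by_cases hp : p = j
  · subst hp
    rw [if_pos hj]
  · simp [hp]

theorem dot_e8 (i j : GolayPt) : dotInt (e8 i : GolayPt → ℤ) (e8 j : GolayPt → ℤ) = if i = j then 64 else 0 := by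
  unfold dotInt
  rw [Finset.sum_eq_single i]
  · rw [e8_apply, e8_apply]
    by_cases h : i = j <;> simp [h]
  · intro b _ hb
    rw [e8_apply, if_neg hb, zero_mul]
  · simp

/-- There are no nine orthogonal vectors of length `64` in dimension eight. -/
theorem no_nine (A : Matrix (Fin 9) (Fin 8) ℚ) (h : A * A.transpose = (64 : ℚ) • 1) : False := by
  have h1 : A * ((1 / 64 : ℚ) • A.transpose) = 1 := by
    rw [Matrix.mul_smul, h, smul_smul]
    norm_num
  have h2 := Matrix.rank_mul_le_left A ((1 / 64 : ℚ) • A.transpose)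
  rw [h1, Matrix.rank_one] at h2
  have h3 := A.rank_le_width
  simp only [Fintype.card_fin] at h2
  omega

theorem no_anti (x : Co0) (h : x * t2 = negCo0 * (t2 * x)) : False := by
  have hM : ∀ i : Fin 9, InM (((x : Equiv.Perm leechLattice) (e8 (p9 i)) : leechLattice) : GolayPt → ℤ) := by
    intro i
    apply (t2_eq _).1
    have h1 := congrArg (fun k : Co0 => (k : Equiv.Perm leechLattice) (e8 (p9 i))) h
    have h2 : (x : Equiv.Perm leechLattice) ((t2 : Equiv.Perm leechLattice) (e8 (p9 i))) =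
        -(t2 : Equiv.Perm leechLattice) ((x : Equiv.Perm leechLattice) (e8 (p9 i))) := h1
    rw [t2_e8 (p9_mem i), co0_neg] at h2
    exact (neg_injective h2).symm
  apply no_nine (Matrix.of fun (i : Fin 9) (l : Fin 8) =>
    ((((x : Equiv.Perm leechLattice) (e8 (p9 i)) : leechLattice) : GolayPt → ℤ) (rep l) : ℚ))
  ext i i'
  simp only [Matrix.mul_apply, Matrix.transpose_apply, Matrix.of_apply, Matrix.smul_apply, Matrix.one_apply,
    smul_eq_mul]
  have h1 := dot_M (hM i) (((x : Equiv.Perm leechLattice) (e8 (p9 i')) : leechLattice) : GolayPt → ℤ)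
  rw [Cfsg.Agent.Lib.Co0Pair.dot_co0, dot_e8] at h1
  have h2 := congrArg (fun a : ℤ => (a : ℚ)) h1
  simp only [Int.cast_sum, Int.cast_mul] at h2
  rw [← h2]
  by_cases hi : i = i'
  · subst hi
    simp
  · have : p9 i ≠ p9 i' := fun e => hi (p9_inj e)
    simp [hi, this]

/-! ### The cover -/

/-- The involution of the quotient. -/
noncomputable def zb : Spor.Co1 := QuotientGroup.mk t2

/-- The map to the quotient. -/
noncomputable def piH : G →* Spor.Co1 := (QuotientGroup.mk' (Subgroup.center Co0)).comp G.subtype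

theorem piH_apply (x : G) : piH x = QuotientGroup.mk (x : Co0) := rfl

theorem mk_mul (a b : Co0) : (QuotientGroup.mk (a * b) : Spor.Co1) = QuotientGroup.mk a * QuotientGroup.mk b := rfl

theorem mk_eq_iff {x y : Co0} : (QuotientGroup.mk x : Spor.Co1) = QuotientGroup.mk y ↔ x = y ∨ x = negCo0 * y := by
  rw [QuotientGroup.eq]
  constructor
  · intro h
    rcases center_cases h with h1 | h1
    · left
      exact (inv_mul_eq_one.1 h1)
    · right
      have h2 : y = x * negCo0 := by
        rw [← h1, mul_inv_cancel_left]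
      rw [h2, ← neg_central, ← mul_assoc]
      have : negCo0 * negCo0 = 1 := by
        apply Subtype.ext
        apply Equiv.ext
        intro v
        show -(-v) = v
        exact neg_neg v
      rw [this, one_mul]
  · rintro (rfl | rfl)
    · rw [inv_mul_cancel]
      exact Subgroup.one_mem _
    · rw [neg_central y, mul_inv_rev, inv_mul_cancel_right]
      exact Subgroup.inv_mem _ neg_center

theorem mk_neg_mul (y : Co0) : (QuotientGroup.mk (negCo0 * y) : Spor.Co1) = QuotientGroup.mk y :=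
  mk_eq_iff.2 (Or.inr rfl)

theorem pi_mem (x : G) : piH x ∈ Subgroup.centralizer ({zb} : Set Spor.Co1) := by
  rw [Subgroup.mem_centralizer_singleton_iff]
  show (QuotientGroup.mk ((x : Co0) * t2) : Spor.Co1) = QuotientGroup.mk (t2 * (x : Co0))
  rw [show (x : Co0) * t2 = t2 * (x : Co0) from Cm_of x]

/-- The cover. -/
noncomputable def pi : G →* Subgroup.centralizer ({zb} : Set Spor.Co1) := piH.codRestrict _ pi_mem

theorem pi_coe (x : G) : ((pi x : Subgroup.centralizer ({zb} : Set Spor.Co1)) : Spor.Co1) = QuotientGroup.mk (x : Co0) := rfl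

theorem pi_eq_iff {x y : G} : pi x = pi y ↔ (x : Co0) = y ∨ (x : Co0) = negCo0 * y := by
  rw [← mk_eq_iff, ← pi_coe, ← pi_coe]
  exact Subtype.ext_iff

theorem pi_surj : Function.Surjective pi := by
  rintro ⟨d, hd⟩
  obtain ⟨x, rfl⟩ := QuotientGroup.mk_surjective d
  rw [Subgroup.mem_centralizer_singleton_iff] at hd
  have h1 : (QuotientGroup.mk (x * t2) : Spor.Co1) = QuotientGroup.mk (t2 * x) := hd
  rcases mk_eq_iff.1 h1 with h | h
  · exact ⟨⟨x, mem_G.2 h⟩, rfl⟩
  · exact (no_anti x h).elim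

/-- The lift of the involution. -/
noncomputable def zG : G := incl tX

theorem zG_coe : (zG : Co0) = t2 := rfl

/-- The extraspecial group. -/
noncomputable def R0 : Subgroup G := rho.ker.map incl

theorem incl_inj : Function.Injective incl := Subgroup.inclusion_injective _

theorem incl_coe (a : X) : (incl a : Co0) = a := rfl

theorem mem_R0 {q : G} : q ∈ R0 ↔ ∃ a : X, rho a = 1 ∧ incl a = q := by
  constructor
  · rintro ⟨a, ha, rfl⟩
    exact ⟨a, ha, rfl⟩
  · rintro ⟨a, ha, rfl⟩
    exact ⟨a, ha, rfl⟩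

theorem zG_mem : zG ∈ R0 := mem_R0.2 ⟨tX, rho_tX, rfl⟩

theorem leechU_ne (h : Spor.leechU = -Spor.leechU) : False := by
  have h1 := congrArg (fun v : leechLattice => (v : GolayPt → ℤ) none) h
  have h2 : Spor.vecU (none : GolayPt) = - Spor.vecU (none : GolayPt) := h1
  revert h2
  decide

theorem neg_not_X : negCo0 ∉ X := by
  intro h
  have h1 := h.2
  rw [negCo0_apply] at h1
  exact leechU_ne h1.symm

theorem R0_inj : ∀ q ∈ R0, pi q = 1 → q = 1 := by
  intro q hq h
  obtain ⟨a, -, rfl⟩ := mem_R0.1 hq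
  have h1 : incl a = (1 : G) ∨ (incl a : Co0) = negCo0 * ((1 : G) : Co0) := by
    have := pi_eq_iff (x := incl a) (y := 1)
    rw [map_one] at this
    rcases this.1 h with h2 | h2
    · left
      exact Subtype.ext h2
    · right
      exact h2
  rcases h1 with h1 | h1
  · exact h1
  · exfalso
    apply neg_not_X
    have h2 : (a : Co0) = negCo0 * 1 := h1
    rw [mul_one] at h2
    rw [← h2]
    exact a.2

theorem card_R0 : Nat.card R0 = 2 ^ (2 * 4 + 1) := by
  have h := Nat.card_congr (rho.ker.equivMapOfInjective incl incl_inj).toEquiv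
  rw [card_ker] at h
  show Nat.card (rho.ker.map incl) = _
  rw [← h]
  norm_num

theorem R0_comm : ∀ a ∈ R0, ∀ b ∈ R0, a * b * a⁻¹ * b⁻¹ = 1 ∨ a * b * a⁻¹ * b⁻¹ = zG := by
  intro a ha b hb
  obtain ⟨a', ha', rfl⟩ := mem_R0.1 ha
  obtain ⟨b', hb', rfl⟩ := mem_R0.1 hb
  rcases comm_X ha' hb' with h | h
  · left
    have := congrArg incl h
    simpa using this
  · right
    have := congrArg incl h
    simpa [zG] using this

theorem R0_sq : ∀ a ∈ R0, a ^ 2 = 1 ∨ a ^ 2 = zG := by
  intro a ha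
  obtain ⟨a', ha', rfl⟩ := mem_R0.1 ha
  rcases sq_X ha' with h | h
  · left
    have := congrArg incl h
    simpa using this
  · right
    have := congrArg incl h
    simpa [zG] using this

theorem R0_cen : ∀ a ∈ R0, (∀ b ∈ R0, a * b = b * a) → a = 1 ∨ a = zG := by
  intro a ha hc
  obtain ⟨a', ha', rfl⟩ := mem_R0.1 ha
  rcases cen_X ha' (fun b hb => incl_inj (by
    have := hc (incl b) (mem_R0.2 ⟨b, hb, rfl⟩)
    simpa using this)) with h | h
  · left
    rw [h, map_one]
  · right
    rw [h]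
    rfl

theorem R0_non : ∃ a ∈ R0, ∃ b ∈ R0, a * b ≠ b * a := by
  obtain ⟨a, b, ha, hb, h⟩ := non_X
  refine ⟨incl a, mem_R0.2 ⟨a, ha, rfl⟩, incl b, mem_R0.2 ⟨b, hb, rfl⟩, ?_⟩
  intro e
  apply h
  have e2 : a * b = b * a := incl_inj (by simpa using e)
  rw [e2]
  group

theorem zG_ne : zG ≠ 1 := by
  intro h
  apply tX_ne
  exact incl_inj (h.trans (map_one incl).symm)

theorem zG_sq : zG * zG = 1 := by
  have := tX_sq
  rw [pow_two] at this
  have h2 := congrArg incl this
  simpa [zG] using h2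

/-- The negation as an element of the group. -/
noncomputable def nG : G := ⟨negCo0, mem_G.2 (neg_central t2)⟩

theorem A_neg {a : ℕ} (ha : a < 256) : A negCo0 a = a := by
  unfold A
  rw [negCo0_apply, cc_neg, cc_M ha]

theorem F0_nG : F0 nG = 1 := by
  rw [F0_eq_one_iff]
  intro a ha
  exact A_neg ha

theorem F0_R0 {r : G} (hr : r ∈ R0) : F0 r = 1 := by
  obtain ⟨a, ha, rfl⟩ := mem_R0.1 hr
  rw [← MonoidHom.mem_ker (f := rho), ← ker_F0X] at ha
  exact ha

theorem F0_of_pi {x r : G} (h : pi x = pi r) : F0 x = F0 r := by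
  rcases pi_eq_iff.1 h with h1 | h1
  · rw [Subtype.ext h1]
  · have e : x = nG * r := Subtype.ext h1
    rw [e, map_mul, F0_nG, one_mul]

theorem F_ker' (x : G) : F0 x = 1 ↔ ∃ r ∈ R0, pi x = pi r := by
  constructor
  · intro h
    have hA := (F0_eq_one_iff x).1 h
    rcases stab_cases (Cm_of x) (hA 64 (by norm_num)) with h1 | h1
    · refine ⟨incl ⟨x, h1⟩, mem_R0.2 ⟨⟨x, h1⟩, ?_, rfl⟩, rfl⟩
      apply rho_eq_one
      intro a ha
      exact hA a (by omega)
    · have h2 : rho ⟨eO * x, h1⟩ = 1 := by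
        apply rho_eq_one
        intro a ha
        show A (eO * x) a = a
        rw [A_mul _ (Cm_of x) (by omega), hA a (by omega), A_eO (by omega)]
      refine ⟨zG * incl ⟨eO * x, h1⟩, Subgroup.mul_mem _ zG_mem (mem_R0.2 ⟨_, h2, rfl⟩), ?_⟩
      rw [pi_eq_iff]
      right
      show (x : Co0) = negCo0 * (t2 * (eO * x))
      have e1 : eO = negCo0 * t2 := rfl
      have e2 : t2 * t2 = 1 := by
        have := zG_sq
        exact congrArg Subtype.val this
      have e3 : negCo0 * negCo0 = 1 := by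
        apply Subtype.ext
        apply Equiv.ext
        intro v
        show -(-v) = v
        exact neg_neg v
      have e4 : negCo0 * (t2 * (negCo0 * t2 * (x : Co0))) = (negCo0 * negCo0) * (t2 * t2) * x := by
        simp only [mul_assoc]
        rw [← mul_assoc t2 negCo0, ← neg_central t2]
        simp only [mul_assoc]
      rw [e1, e4, e2, e3]
      simp
  · rintro ⟨r, hr, e⟩
    rw [F0_of_pi e, F0_R0 hr]

/-! ### The quotient -/

/-- The map to the quotient. -/
noncomputable def F1 : G →* II := F0.rangeRestrict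

theorem F1_surj : Function.Surjective F1 := MonoidHom.rangeRestrict_surjective _

theorem F1_eq_one {x : G} : F1 x = 1 ↔ F0 x = 1 := by
  constructor
  · intro h
    exact congrArg Subtype.val h
  · intro h
    exact Subtype.ext h

theorem isSimple_II : IsSimpleGroup II := by
  rw [II_eq]
  exact isSimple_Om

theorem II_no_normal (P : Subgroup II) (hN : P.Normal) (h2 : IsPGroup 2 P) : P = ⊥ := by
  have hs := isSimple_II
  rcases hs.eq_bot_or_eq_top_of_normal _ hN with h | h
  · exact h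
  · exfalso
    have hfin : Finite II := Nat.finite_of_card_ne_zero (by rw [card_II]; norm_num)
    rw [h] at h2
    obtain ⟨n, hn⟩ := IsPGroup.iff_card.1 h2
    rw [Subgroup.card_top, card_II] at hn
    have h7 : 3 ∣ 2 ^ n := by
      rw [← hn]
      norm_num
    have h8 := Nat.Prime.dvd_of_dvd_pow Nat.prime_three h7
    omega

/-! ### An element acting non-trivially on the extraspecial group -/

theorem m0_mem : (337856 : ℕ) ∈ E32L := by decide +kernel

/-- An element of the extraspecial group. -/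
noncomputable def q0 : Co0 := qq m0_mem hiT

theorem q0_acts : ActsOn q0 (actMono idC 337856) :=
  actMono_spec isM24_idC (E_data m0_mem).1 (E_data m0_mem).2.1

theorem e8_ne {i : ℕ} : e8 (pt i) ≠ -e8 (pt i) := by
  intro h
  exact e8_ne_neg (i := pt i) (j := pt i) (congrArg Subtype.val h)

theorem no_sign (y : Co0) (h1 : (y : Equiv.Perm leechLattice) (e8 (pt 4)) = e8 (pt 4))
    (h2 : (y : Equiv.Perm leechLattice) (e8 (pt 11)) = -e8 (pt 11))
    (hy : ((y : Equiv.Perm leechLattice) (e8 (pt 4)) = e8 (pt 4) ∧ (y : Equiv.Perm leechLattice) (e8 (pt 11)) = e8 (pt 11)) ∨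
      ((y : Equiv.Perm leechLattice) (e8 (pt 4)) = -e8 (pt 4) ∧ (y : Equiv.Perm leechLattice) (e8 (pt 11)) = -e8 (pt 11))) : False := by
  rcases hy with ⟨-, h4⟩ | ⟨h3, -⟩
  · rw [h2] at h4
    exact e8_ne h4.symm
  · rw [h1] at h3
    exact e8_ne h3

theorem h0q0_eq (y : Co0) (h : h0 * q0 = y * h0) :
    (y : Equiv.Perm leechLattice) (e8 (pt 4)) = e8 (pt 4) ∧ (y : Equiv.Perm leechLattice) (e8 (pt 11)) = -e8 (pt 11) := by
  have a4 : (h0 : Equiv.Perm leechLattice) (e8 (pt 4)) = e8 (pt 4) :=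
    acts_pos h0_acts (by norm_num) (by norm_num) (by decide +kernel)
  have a16 : (h0 : Equiv.Perm leechLattice) (e8 (pt 16)) = e8 (pt 11) :=
    acts_pos h0_acts (by norm_num) (by norm_num) (by decide +kernel)
  have b4 : ((h0 * q0 : Co0) : Equiv.Perm leechLattice) (e8 (pt 4)) = e8 (pt 4) :=
    acts_pos (h0_acts.mul q0_acts) (by norm_num) (by norm_num) (by decide +kernel)
  have b16 : ((h0 * q0 : Co0) : Equiv.Perm leechLattice) (e8 (pt 16)) = -e8 (pt 11) :=
    acts_neg (h0_acts.mul q0_acts) (by norm_num) (by norm_num) (by decide +kernel)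
  rw [h] at b4 b16
  have c4 : (y : Equiv.Perm leechLattice) ((h0 : Equiv.Perm leechLattice) (e8 (pt 4))) = e8 (pt 4) := b4
  have c16 : (y : Equiv.Perm leechLattice) ((h0 : Equiv.Perm leechLattice) (e8 (pt 16))) = -e8 (pt 11) := b16
  rw [a4] at c4
  rw [a16] at c16
  exact ⟨c4, c16⟩

theorem y_signs : ∀ y : Co0, (y = q0 ∨ y = t2 * q0 ∨ y = negCo0 * q0 ∨ y = negCo0 * (t2 * q0)) →
    ((y : Equiv.Perm leechLattice) (e8 (pt 4)) = e8 (pt 4) ∧ (y : Equiv.Perm leechLattice) (e8 (pt 11)) = e8 (pt 11)) ∨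
      ((y : Equiv.Perm leechLattice) (e8 (pt 4)) = -e8 (pt 4) ∧ (y : Equiv.Perm leechLattice) (e8 (pt 11)) = -e8 (pt 11)) := by
  rintro y (rfl | rfl | rfl | rfl)
  · left
    exact ⟨acts_pos q0_acts (by norm_num) (by norm_num) (by decide +kernel),
      acts_pos q0_acts (by norm_num) (by norm_num) (by decide +kernel)⟩
  · right
    exact ⟨acts_neg (t2_acts.mul q0_acts) (by norm_num) (by norm_num) (by decide +kernel),
      acts_neg (t2_acts.mul q0_acts) (by norm_num) (by norm_num) (by decide +kernel)⟩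
  · right
    exact ⟨acts_neg (actNeg_spec.mul q0_acts) (by norm_num) (by norm_num) (by decide +kernel),
      acts_neg (actNeg_spec.mul q0_acts) (by norm_num) (by norm_num) (by decide +kernel)⟩
  · left
    exact ⟨acts_pos (actNeg_spec.mul (t2_acts.mul q0_acts)) (by norm_num) (by norm_num) (by decide +kernel),
      acts_pos (actNeg_spec.mul (t2_acts.mul q0_acts)) (by norm_num) (by norm_num) (by decide +kernel)⟩

/-- The subgroup of elements commuting with the extraspecial group, modulo the centre. -/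
noncomputable def NN1 : Subgroup G :=
  (Subgroup.centralizer (pi '' (R0 : Set G))).comap pi

theorem mem_NN1 {x : G} : x ∈ NN1 ↔ ∀ q ∈ R0, pi q * pi x = pi x * pi q := by
  show pi x ∈ Subgroup.centralizer (pi '' (R0 : Set G)) ↔ _
  rw [Subgroup.mem_centralizer_iff]
  constructor
  · intro h q hq
    exact h _ ⟨q, hq, rfl⟩
  · rintro h _ ⟨q, hq, rfl⟩
    exact h q hq

theorem conj_R0 (y : G) {q : G} (hq : q ∈ R0) : ∃ r ∈ R0, pi (y⁻¹ * q * y) = pi r := by
  apply (F_ker' _).1
  rw [map_mul, map_mul, F0_R0 hq, mul_one, map_inv, inv_mul_cancel]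

instance NN1_normal : NN1.Normal := by
  constructor
  intro n hn y
  rw [mem_NN1] at hn ⊢
  intro q hq
  obtain ⟨r, hr, e⟩ := conj_R0 y hq
  have h1 := hn r hr
  rw [← e] at h1
  simp only [map_mul, map_inv] at h1 ⊢
  calc pi q * (pi y * pi n * (pi y)⁻¹)
      = pi y * (((pi y)⁻¹ * pi q * pi y) * pi n) * (pi y)⁻¹ := by group
    _ = pi y * (pi n * ((pi y)⁻¹ * pi q * pi y)) * (pi y)⁻¹ := by rw [h1]
    _ = pi y * pi n * (pi y)⁻¹ * pi q := by group

theorem hC' (x : G) (h : ∀ q ∈ R0, pi x * pi q = pi q * pi x) : ∃ r ∈ R0, pi x = pi r := by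
  have hx : x ∈ NN1 := mem_NN1.2 (fun q hq => (h q hq).symm)
  have hN : (NN1.map F1).Normal := Subgroup.Normal.map inferInstance _ F1_surj
  rcases isSimple_II.eq_bot_or_eq_top_of_normal _ hN with hb | ht
  · have h1 : F1 x ∈ NN1.map F1 := ⟨x, hx, rfl⟩
    rw [hb, Subgroup.mem_bot] at h1
    exact (F_ker' x).1 (F1_eq_one.1 h1)
  · exfalso
    let x0 : G := ⟨h0, mem_G.2 h0_cm⟩
    let q0' : G := incl (qX m0_mem hiT)
    have hq0 : q0' ∈ R0 := mem_R0.2 ⟨_, rho_qX _ _, rfl⟩
    have h1 : F1 x0 ∈ NN1.map F1 := by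
      rw [ht]
      exact Subgroup.mem_top _
    obtain ⟨n, hn, e⟩ := h1
    have h2 : F1 (n⁻¹ * x0) = 1 := by
      rw [map_mul, map_inv, e, inv_mul_cancel]
    obtain ⟨r, hr, e2⟩ := (F_ker' _).1 (F1_eq_one.1 h2)
    have e3 : pi x0 = pi n * pi r := by
      rw [← e2, map_mul, map_inv, mul_inv_cancel_left]
    -- the conjugate of `q0'` under `r`
    obtain ⟨q1, hq1, hq1c⟩ : ∃ q1 ∈ R0, (q1 = q0' ∨ q1 = zG * q0') ∧ r * q0' = q1 * r := by
      rcases R0_comm r hr q0' hq0 with c | c
      · refine ⟨q0', hq0, Or.inl rfl, ?_⟩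
        calc r * q0' = (r * q0' * r⁻¹ * q0'⁻¹) * (q0' * r) := by group
          _ = q0' * r := by rw [c, one_mul]
      · refine ⟨zG * q0', Subgroup.mul_mem _ zG_mem hq0, Or.inr rfl, ?_⟩
        calc r * q0' = (r * q0' * r⁻¹ * q0'⁻¹) * (q0' * r) := by group
          _ = zG * q0' * r := by rw [c, mul_assoc]
    obtain ⟨hq1', hq1r⟩ := hq1c
    have e4 : pi (x0 * q0') = pi (q1 * x0) := by
      have h5 := mem_NN1.1 hn q1 hq1
      rw [map_mul, map_mul, e3]
      calc pi n * pi r * pi q0' = pi n * (pi r * pi q0') := mul_assoc _ _ _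
        _ = pi n * pi (r * q0') := by rw [map_mul]
        _ = pi n * (pi q1 * pi r) := by rw [hq1r, map_mul]
        _ = (pi n * pi q1) * pi r := (mul_assoc _ _ _).symm
        _ = (pi q1 * pi n) * pi r := by rw [h5]
        _ = pi q1 * (pi n * pi r) := mul_assoc _ _ _
    have hq0c : (q0' : Co0) = q0 := rfl
    have key : ∀ y : Co0, (y = q0 ∨ y = t2 * q0 ∨ y = negCo0 * q0 ∨ y = negCo0 * (t2 * q0)) → h0 * q0 = y * h0 → False := by
      intro y hy hh
      obtain ⟨k1, k2⟩ := h0q0_eq y hh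
      exact no_sign y k1 k2 (y_signs y hy)
    rcases pi_eq_iff.1 e4 with e5 | e5
    · rcases hq1' with rfl | rfl
      · exact key q0 (Or.inl rfl) e5
      · exact key (t2 * q0) (Or.inr (Or.inl rfl)) e5
    · rcases hq1' with rfl | rfl
      · exact key (negCo0 * q0) (Or.inr (Or.inr (Or.inl rfl))) (by
          rw [mul_assoc]
          exact e5)
      · exact key (negCo0 * (t2 * q0)) (Or.inr (Or.inr (Or.inr rfl))) (by
          rw [mul_assoc negCo0]
          exact e5)

/-! ### The involution is not weakly closed -/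

/-- A permutation moving the octad off itself. -/
def wc : ℕ := 173173777416368323520430823649366256

/-- The mask of the image of the octad. -/
def wm : ℕ := 6100032

theorem wc_ok : isM24 wc = true ∧ wm ∈ E32L := by decide +kernel

/-- The conjugating element. -/
noncomputable def gw : Co0 :=
  monoCo0 (ofMask_mem_codeSets (m := 0) (by norm_num) reduce_zero) (decode_mem_M24 wc_ok.1)

theorem gw_acts : ActsOn gw (actMono wc 0) := actMono_spec wc_ok.1 (m := 0) (by norm_num) reduce_zero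

/-- The conjugate. -/
noncomputable def qw : Co0 := qq wc_ok.2 hiT

theorem qw_acts : ActsOn qw (actMono idC wm) :=
  actMono_spec isM24_idC (E_data wc_ok.2).1 (E_data wc_ok.2).2.1

theorem gw_conj : gw * eO = qw * gw :=
  eq_of_acts (gw_acts.mul (actNeg_spec.mul t2_acts)) (qw_acts.mul gw_acts) (by decide +kernel)

theorem zb_eq : zb = QuotientGroup.mk eO := (mk_neg_mul t2).symm

theorem qw_ne (h : (QuotientGroup.mk qw : Spor.Co1) = QuotientGroup.mk t2) : False := by
  rcases mk_eq_iff.1 h with e | e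
  · have h1 : (qw : Equiv.Perm leechLattice) (e8 (pt 4)) = e8 (pt 4) :=
      acts_pos qw_acts (by norm_num) (by norm_num) (by decide +kernel)
    have h2 : (t2 : Equiv.Perm leechLattice) (e8 (pt 4)) = -e8 (pt 4) :=
      acts_neg t2_acts (by norm_num) (by norm_num) (by decide +kernel)
    rw [e, h2] at h1
    exact e8_ne h1.symm
  · have h1 : (qw : Equiv.Perm leechLattice) (e8 (pt 0)) = e8 (pt 0) :=
      acts_pos qw_acts (by norm_num) (by norm_num) (by decide +kernel)
    have h2 : ((negCo0 * t2 : Co0) : Equiv.Perm leechLattice) (e8 (pt 0)) = -e8 (pt 0) :=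
      acts_neg (actNeg_spec.mul t2_acts) (by norm_num) (by norm_num) (by decide +kernel)
    rw [e, h2] at h1
    exact e8_ne h1.symm

theorem weak' : ∃ g : Spor.Co1, ∃ q ∈ R0, g * zb * g⁻¹ = ((pi q : Subgroup.centralizer ({zb} : Set Spor.Co1)) : Spor.Co1) ∧
    g * zb * g⁻¹ ≠ zb := by
  have h1 : (QuotientGroup.mk gw : Spor.Co1) * zb * (QuotientGroup.mk gw)⁻¹ = QuotientGroup.mk qw := by
    rw [zb_eq, ← mk_mul, gw_conj, mk_mul, mul_assoc]
    simp
  refine ⟨QuotientGroup.mk gw, incl (qX wc_ok.2 hiT), mem_R0.2 ⟨_, rho_qX _ _, rfl⟩, ?_, ?_⟩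
  · rw [h1]
    rfl
  · rw [h1]
    exact qw_ne

/-! ### The main theorem -/

/-- The cover of the centralizer. -/
theorem cover : Cfsg.Agent.Lib.CoverW.Cover zb pi zG F1 R0 4 where
  π_surj := pi_surj
  π_ζ := rfl
  inj := R0_inj
  F_surj := F1_surj
  F_ker := fun x => by
    rw [F1_eq_one]
    exact F_ker' x
  ζ_mem := zG_mem
  ζ_ne := zG_ne
  ζ_sq := zG_sq
  card := card_R0
  comm := R0_comm
  sq := R0_sq
  cen := R0_cen
  non := R0_non
  hO := II_no_normal
  hC := hC'
  weak := weak'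

/-- The commutator subgroup in the matrix form. -/
noncomputable def OmE : Om ≃* Cfsg.Omega K (Cfsg.quadFormPlus 4 K) :=
  (isoE.symm.subgroupMap Om).trans (MulEquiv.subgroupCongr
    (Cfsg.Agent.Lib.OrthoFinal.map_commutator_equiv isoE.symm))

end Cfsg.Agent.Lib.CoOne3
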