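import Mathlib

/-!
# Counting conjugates of a subgroup of prime order

If a subgroup `A` of prime order `p` lies in the finite subgroup `K` and `p ^ 2` does not divide `|K|`,
then `|K| = m * |K ⊓ N(A)|` with `m ≡ 1` mod `p`; and `A` can be conjugated into any subgroup of order
divisible by `p`.
-/

set_option autoImplicit false

namespace Cfsg.Agent.Lib.SylowCount

open Subgroup

variable {X : Type*} [Group X]

theorem card_map_normalizer (K A : Subgroup X) (hAK : A ≤ K) :
    Nat.card ↥(normalizer ((A.subgroupOf K : Subgroup K) : Set K)) = Nat.card ↥(K ⊓ normalizer (A : Set X)) := by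
  apply Nat.card_congr
  refine
    { toFun := fun g => ⟨g.1.1, g.1.2, ?_⟩
      invFun := fun g => ⟨⟨g.1, g.2.1⟩, ?_⟩
      left_inv := fun g => rfl
      right_inv := fun g => rfl }
  · show g.1.1 ∈ normalizer (A : Set X)
    rw [mem_normalizer_iff]
    intro x
    have hg : g.1 ∈ normalizer ((A.subgroupOf K : Subgroup K) : Set K) := g.2
    rw [mem_normalizer_iff] at hg
    constructor
    · intro hx
      have hxK : x ∈ K := hAK hx
      have := (hg ⟨x, hxK⟩).1 (by rwa [mem_subgroupOf])
      rwa [mem_subgroupOf] at this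
    · intro hx
      have h1 : (g.1.1 * x * g.1.1⁻¹) ∈ K := hAK hx
      have hxK : x ∈ K := by
        have h2 : g.1.1⁻¹ * (g.1.1 * x * g.1.1⁻¹) * g.1.1 = x := by group
        rw [← h2]
        exact K.mul_mem (K.mul_mem (K.inv_mem g.1.2) h1) g.1.2
      have := (hg ⟨x, hxK⟩).2 (by rw [mem_subgroupOf]; exact hx)
      rwa [mem_subgroupOf] at this
  · rw [mem_normalizer_iff]
    rintro ⟨x, hx⟩
    have hg : g.1 ∈ normalizer (A : Set X) := g.2.2
    rw [mem_normalizer_iff] at hg
    rw [mem_subgroupOf, mem_subgroupOf]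
    exact hg x

theorem factorization_eq_one {n p : ℕ} (hn : n ≠ 0) [hp : Fact p.Prime] (h1 : p ∣ n)
    (h2 : ¬ p ^ 2 ∣ n) : n.factorization p = 1 := by
  have h3 : 1 ≤ n.factorization p := (hp.out.dvd_iff_one_le_factorization hn).1 h1
  have h4 : ¬ 2 ≤ n.factorization p := fun h => h2 ((hp.out.pow_dvd_iff_le_factorization hn).2 h)
  omega

/-- The count of conjugates. -/
theorem exists_count (K A : Subgroup X) [Finite K] (hAK : A ≤ K) {p : ℕ} [hp : Fact p.Prime]
    (hA : Nat.card A = p) (hp2 : ¬ p ^ 2 ∣ Nat.card K) :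
    ∃ m, m % p = 1 ∧ Nat.card K = m * Nat.card ↥(K ⊓ normalizer (A : Set X)) := by
  have hdvd : p ∣ Nat.card K := by
    rw [← hA]
    exact card_dvd_of_le hAK
  have hfac := factorization_eq_one Nat.card_pos.ne' hdvd hp2
  have hA' : Nat.card ↥(A.subgroupOf K) = p ^ (Nat.card K).factorization p := by
    rw [hfac, pow_one, ← hA]
    exact Nat.card_congr (subgroupOfEquivOfLe hAK).toEquiv
  let P : Sylow p K := Sylow.ofCard _ hA'
  have hP : (P : Subgroup K) = A.subgroupOf K := Sylow.coe_ofCard _ hA'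
  have h1 := card_sylow_modEq_one p K
  have h2 := Sylow.card_eq_index_normalizer P
  have hPset : (P : Set K) = ((A.subgroupOf K : Subgroup K) : Set K) := by
    rw [← hP]; rfl
  rw [hPset] at h2
  have h3 := (normalizer ((A.subgroupOf K : Subgroup K) : Set K)).index_mul_card
  rw [← h2, card_map_normalizer K A hAK] at h3
  refine ⟨Nat.card (Sylow p K), ?_, h3.symm⟩
  have hp1 : 1 < p := hp.out.one_lt
  have h4 : Nat.card (Sylow p K) % p = 1 % p := h1
  rwa [Nat.mod_eq_of_lt hp1] at h4

/-- An element of order `p` is conjugated into a subgroup of order divisible by `p`. -/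
theorem exists_conj_mem {G K : Subgroup X} [Finite G] (hKG : K ≤ G) {z : X} (hzG : z ∈ G) {p : ℕ}
    [hp : Fact p.Prime] (hz : orderOf z = p) (hp2 : ¬ p ^ 2 ∣ Nat.card G) (hpK : p ∣ Nat.card K) :
    ∃ g ∈ G, g⁻¹ * z * g ∈ K := by
  have : Finite K := Finite.of_injective _ (Subgroup.inclusion_injective hKG)
  obtain ⟨x, hx⟩ := exists_prime_orderOf_dvd_card' (G := K) p hpK
  have hdvd : p ∣ Nat.card G := hpK.trans (card_dvd_of_le hKG)
  have hfac := factorization_eq_one Nat.card_pos.ne' hdvd hp2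
  let z' : G := ⟨z, hzG⟩
  let x' : G := ⟨x.1, hKG x.2⟩
  have hz' : orderOf z' = p := by
    rw [← hz]
    exact Subgroup.orderOf_mk z hzG
  have hx' : orderOf x' = p := by
    rw [← hx, ← Subgroup.orderOf_coe x]
    exact Subgroup.orderOf_mk x.1 (hKG x.2)
  have hc1 : Nat.card (zpowers z') = p ^ (Nat.card G).factorization p := by
    rw [hfac, pow_one, Nat.card_zpowers, hz']
  have hc2 : Nat.card (zpowers x') = p ^ (Nat.card G).factorization p := by
    rw [hfac, pow_one, Nat.card_zpowers, hx']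
  let P : Sylow p G := Sylow.ofCard _ hc1
  let Q : Sylow p G := Sylow.ofCard _ hc2
  obtain ⟨g, hg⟩ := MulAction.exists_smul_eq G Q P
  have hP : (P : Subgroup G) = zpowers z' := Sylow.coe_ofCard _ hc1
  have hQ : (Q : Subgroup G) = zpowers x' := Sylow.coe_ofCard _ hc2
  have hmem : z' ∈ (P : Subgroup G) := by
    rw [hP]
    exact mem_zpowers z'
  rw [← hg, Sylow.coe_subgroup_smul, Subgroup.mem_pointwise_smul_iff_inv_smul_mem, hQ] at hmem
  obtain ⟨k, hk⟩ := mem_zpowers_iff.1 hmem
  refine ⟨g.1, g.2, ?_⟩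
  have h3 : (MulAut.conj g)⁻¹ • z' = g⁻¹ * z' * g := by
    rw [← map_inv, MulAut.smul_def, MulAut.conj_apply, inv_inv]
  rw [h3] at hk
  have h4 := congrArg (Subtype.val) hk
  have h5 : (g : X)⁻¹ * z * g = (x : X) ^ k := by
    have e1 : ((g⁻¹ * z' * g : G) : X) = (g : X)⁻¹ * z * g := rfl
    have e2 : ((x' ^ k : G) : X) = (x : X) ^ k := rfl
    rw [← e1, ← e2, h4]
  rw [h5]
  exact K.zpow_mem x.2 k

/-- A normaliser condition from a single conjugation. -/
theorem mem_normalizer_zpowers {a z : X} {k : ℕ} (ha : IsOfFinOrder a) (h : a * z * a⁻¹ = z ^ k) :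
    a ∈ normalizer ((zpowers z : Subgroup X) : Set X) := by
  have key : ∀ u ∈ zpowers z, a * u * a⁻¹ ∈ zpowers z := by
    intro u hu
    obtain ⟨n, rfl⟩ := mem_zpowers_iff.1 hu
    have : a * z ^ n * a⁻¹ = (a * z * a⁻¹) ^ n := by
      rw [conj_zpow]
    rw [this, h]
    exact zpow_mem (pow_mem (mem_zpowers z) k) n
  have key2 : ∀ n : ℕ, ∀ u ∈ zpowers z, a ^ n * u * (a ^ n)⁻¹ ∈ zpowers z := by
    intro n
    induction n with
    | zero => intro u hu; simpa using hu
    | succ n ih =>
      intro u hu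
      have : a ^ (n + 1) * u * (a ^ (n + 1))⁻¹ = a ^ n * (a * u * a⁻¹) * (a ^ n)⁻¹ := by
        rw [pow_succ]; group
      rw [this]
      exact ih _ (key u hu)
  obtain ⟨n, hn, hpow⟩ := isOfFinOrder_iff_pow_eq_one.1 ha
  rw [mem_normalizer_iff]
  intro u
  constructor
  · exact key u
  · intro hu
    have h1 := key2 (n - 1) _ hu
    have h2 : a ^ (n - 1) * (a * u * a⁻¹) * (a ^ (n - 1))⁻¹ = u := by
      have e : a ^ (n - 1) * a = 1 := by
        rw [← pow_succ, Nat.sub_add_cancel hn, hpow]
      have e2 : (a ^ (n - 1))⁻¹ = a := inv_eq_of_mul_eq_one_right e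
      have e3 : a⁻¹ * a = 1 := by group
      rw [e2]
      calc a ^ (n - 1) * (a * u * a⁻¹) * a = (a ^ (n - 1) * a) * u * (a⁻¹ * a) := by group
        _ = u := by rw [e, e3]; group
    rwa [h2] at h1

/-- The step: the normaliser in `K` has order dividing that of the normaliser in `G`, divisible by `p`,
and `|K| / |N_K(A)| ≡ 1`. -/
theorem norm_step {G K : Subgroup X} [Finite G] (hKG : K ≤ G) {z : X} (hzK : z ∈ K) {p : ℕ}
    [hp : Fact p.Prime] (hz : orderOf z = p) (hp2 : ¬ p ^ 2 ∣ Nat.card G) :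
    Nat.card ↥(K ⊓ normalizer ((zpowers z : Subgroup X) : Set X)) ∣
        Nat.card ↥(G ⊓ normalizer ((zpowers z : Subgroup X) : Set X)) ∧
      p ∣ Nat.card ↥(K ⊓ normalizer ((zpowers z : Subgroup X) : Set X)) ∧
      ∃ m, m % p = 1 ∧ Nat.card K = m * Nat.card ↥(K ⊓ normalizer ((zpowers z : Subgroup X) : Set X)) := by
  have : Finite K := Finite.of_injective _ (Subgroup.inclusion_injective hKG)
  have hcz : Nat.card (zpowers z) = p := by rw [Nat.card_zpowers, hz]
  refine ⟨card_dvd_of_le (inf_le_inf_right _ hKG), ?_, ?_⟩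
  · have hle : zpowers z ≤ K ⊓ normalizer ((zpowers z : Subgroup X) : Set X) :=
      le_inf ((zpowers_le).2 hzK) le_normalizer
    have : Finite ↥(K ⊓ normalizer ((zpowers z : Subgroup X) : Set X)) :=
      Finite.of_injective _ (Subgroup.inclusion_injective (inf_le_left.trans hKG))
    rw [← hcz]
    exact card_dvd_of_le hle
  · apply exists_count K (zpowers z) ((zpowers_le).2 hzK) hcz
    intro h
    exact hp2 (h.trans (card_dvd_of_le hKG))

/-- If the two normalisers have the same order, the normaliser in `G` lies in `K`. -/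
theorem norm_le_of_card {G K : Subgroup X} [Finite G] (hKG : K ≤ G) (N : Subgroup X)
    (h : Nat.card ↥(K ⊓ N) = Nat.card ↥(G ⊓ N)) : G ⊓ N ≤ K := by
  have : Finite ↥(G ⊓ N) := Finite.of_injective _ (Subgroup.inclusion_injective inf_le_left)
  have hle : K ⊓ N ≤ G ⊓ N := inf_le_inf_right _ hKG
  have := Subgroup.eq_of_le_of_card_ge hle (le_of_eq h.symm)
  rw [← this]
  exact inf_le_left

/-- Cover by a finite type. -/
theorem card_le_of_cover (S : Subgroup X) {α : Type*} [Fintype α] (f : α → X)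
    (h : ∀ g ∈ S, ∃ a, f a = g) : Nat.card S ≤ Fintype.card α := by
  classical
  have hf : S ≤ S := le_refl _
  have hsub : (S : Set X) ⊆ Set.range f := fun g hg => h g hg
  have hfin : (Set.range f).Finite := Set.finite_range f
  have h1 : Nat.card S = (S : Set X).ncard := (Nat.card_coe_set_eq _)
  rw [h1]
  calc (S : Set X).ncard ≤ (Set.range f).ncard := Set.ncard_le_ncard hsub hfin
    _ ≤ Fintype.card α := by
      have := Set.ncard_image_le (s := (Set.univ : Set α)) (f := f) (Set.toFinite _)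
      rw [Set.image_univ, Set.ncard_univ, Nat.card_eq_fintype_card] at this
      exact this

end Cfsg.Agent.Lib.SylowCount
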