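import Mathlib
import Cfsg.Agent.Lib.MathieuSimple
import Cfsg.Agent.Lib.SylowCount

/-!
# Subgroups of permutations of the 24 points given by an explicit list of codes

`codeGroup L ..` is the subgroup `{decode c | c ∈ L}` for a list `L` of codes closed under composition.
Also: Sylow conjugacy into a subgroup of the right order, and congruences modulo a prime for the number of fixed
points of a permutation of prime order on an invariant set.
-/

set_option autoImplicit false

namespace Cfsg.Agent.Lib.CodeGroup

open Cfsg Cfsg.Agent.Lib.Golay Cfsg.Agent.Lib.GolaySift Cfsg.Agent.Lib.MathieuSimple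

/-- The list of values. -/
def vals (c : ℕ) : List ℕ := idxL.map (ap c)

/-- A check that a list of codes is a group. -/
def isGroupL (L : List ℕ) : Bool :=
  L.contains idC && L.all (fun c => valid c) &&
    L.all (fun a => L.all fun b => L.contains (comp a b)) &&
    L.all (fun a => L.any fun b => Nat.beq (comp b a) idC)

/-- The group from a list of codes. -/
noncomputable def codeGroup (L : List ℕ) (h : isGroupL L = true) : Subgroup (Equiv.Perm GolayPt) where
  carrier := {g | ∃ c ∈ L, g = decode c}
  one_mem' := by
    simp only [isGroupL, Bool.and_eq_true, List.contains_iff_mem] at h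
    refine ⟨idC, h.1.1.1, ?_⟩
    have hv : valid idC = true := List.all_eq_true.1 h.1.1.2 idC h.1.1.1
    exact rep_unique rep_one (rep_decode hv)
  mul_mem' := by
    simp only [isGroupL, Bool.and_eq_true, List.contains_iff_mem] at h
    rintro _ _ ⟨a, ha, rfl⟩ ⟨b, hb, rfl⟩
    have hva : valid a = true := List.all_eq_true.1 h.1.1.2 a ha
    have hvb : valid b = true := List.all_eq_true.1 h.1.1.2 b hb
    have hab : comp a b ∈ L := by
      have := List.all_eq_true.1 (List.all_eq_true.1 h.1.2 a ha) b hb
      simpa using this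
    have hvab : valid (comp a b) = true := List.all_eq_true.1 h.1.1.2 _ hab
    exact ⟨comp a b, hab, rep_unique ((rep_decode hva).mul (rep_decode hvb)) (rep_decode hvab)⟩
  inv_mem' := by
    simp only [isGroupL, Bool.and_eq_true, List.contains_iff_mem] at h
    rintro _ ⟨a, ha, rfl⟩
    have hva : valid a = true := List.all_eq_true.1 h.1.1.2 a ha
    obtain ⟨b, hb, hba⟩ := List.any_eq_true.1 (List.all_eq_true.1 h.2 a ha)
    have hvb : valid b = true := List.all_eq_true.1 h.1.1.2 b hb
    refine ⟨b, hb, ?_⟩
    have h1 := (rep_decode hvb).mul (rep_decode hva)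
    rw [Nat.eq_of_beq_eq_true hba] at h1
    have h2 := rep_unique h1 rep_one
    exact inv_eq_of_mul_eq_one_left h2

theorem mem_codeGroup {L : List ℕ} {h : isGroupL L = true} {g : Equiv.Perm GolayPt} :
    g ∈ codeGroup L h ↔ ∃ c ∈ L, g = decode c := Iff.rfl

theorem valid_of_mem {L : List ℕ} (h : isGroupL L = true) {c : ℕ} (hc : c ∈ L) : valid c = true := by
  simp only [isGroupL, Bool.and_eq_true] at h
  exact List.all_eq_true.1 h.1.1.2 c hc

theorem vals_eq_of_decode {c c' : ℕ} (hv : valid c = true) (hv' : valid c' = true)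
    (h : decode c = decode c') : vals c = vals c' := by
  apply List.map_congr_left
  intro i hi
  have hi' := mem_idxL.1 hi
  have h1 := idx_decode hv (pt i)
  have h2 := idx_decode hv' (pt i)
  rw [h, h2, idx_pt hi'] at h1
  exact h1.symm

/-- The order of the group from a list. -/
theorem card_codeGroup {L : List ℕ} (h : isGroupL L = true) (hnd : (L.map vals).Nodup) :
    Nat.card (codeGroup L h) = L.length := by
  classical
  have hinj : Set.InjOn decode {c | c ∈ L} := by
    intro a ha b hb hab
    exact List.inj_on_of_nodup_map hnd ha hb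
      (vals_eq_of_decode (valid_of_mem h ha) (valid_of_mem h hb) hab)
  have h1 := ncard_image_list L decode (List.Nodup.of_map _ hnd) hinj
  rw [← h1]
  have h2 : ((codeGroup L h : Subgroup (Equiv.Perm GolayPt)) : Set (Equiv.Perm GolayPt)) =
      decode '' {c | c ∈ L} := by
    ext g
    constructor
    · rintro ⟨c, hc, rfl⟩
      exact ⟨c, hc, rfl⟩
    · rintro ⟨c, hc, rfl⟩
      exact ⟨c, hc, rfl⟩
  rw [← h2]
  rfl

/-- Sylow conjugacy: a subgroup of the full `p`-part of the order of `G` is conjugated into a subgroup
of `G` of order divisible by the full `p`-part. -/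
theorem exists_conj_sylow {X : Type*} [Group X] {G K S : Subgroup X} [Finite G] (hKG : K ≤ G) (hSG : S ≤ G) {p : ℕ}
    [hp : Fact p.Prime] (hS : Nat.card S = p ^ (Nat.card G).factorization p)
    (hK : p ^ (Nat.card G).factorization p ∣ Nat.card K) :
    ∃ g ∈ G, ∀ s ∈ S, g⁻¹ * s * g ∈ K := by
  have : Finite K := Finite.of_injective _ (Subgroup.inclusion_injective hKG)
  obtain ⟨Q⟩ : Nonempty (Sylow p K) := inferInstance
  have hQcard : Nat.card Q = p ^ (Nat.card K).factorization p := Sylow.card_eq_multiplicity Q
  have hfac : (Nat.card K).factorization p = (Nat.card G).factorization p := by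
    apply le_antisymm
    · exact (Nat.factorization_le_iff_dvd Nat.card_pos.ne' Nat.card_pos.ne').2
        (Subgroup.card_dvd_of_le hKG) p
    · exact (hp.out.pow_dvd_iff_le_factorization Nat.card_pos.ne').1 hK
  let Q' : Subgroup G := ((Q : Subgroup K).map K.subtype).subgroupOf G
  have hQ' : Nat.card Q' = p ^ (Nat.card G).factorization p := by
    have h1 : (Q : Subgroup K).map K.subtype ≤ G := by
      rintro _ ⟨x, -, rfl⟩
      exact hKG x.2
    have h2 : Nat.card Q' = Nat.card ((Q : Subgroup K).map K.subtype) :=
      Nat.card_congr (Subgroup.subgroupOfEquivOfLe h1).toEquiv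
    rw [h2, ← hfac, ← hQcard]
    exact Nat.card_congr (Subgroup.equivMapOfInjective _ K.subtype K.subtype_injective).symm.toEquiv
  have hS' : Nat.card (S.subgroupOf G) = p ^ (Nat.card G).factorization p := by
    rw [← hS]
    exact Nat.card_congr (Subgroup.subgroupOfEquivOfLe hSG).toEquiv
  let P1 : Sylow p G := Sylow.ofCard _ hS'
  let P2 : Sylow p G := Sylow.ofCard _ hQ'
  have hP1 : (P1 : Subgroup G) = S.subgroupOf G := Sylow.coe_ofCard _ hS'
  have hP2 : (P2 : Subgroup G) = Q' := Sylow.coe_ofCard _ hQ'
  obtain ⟨g, hg⟩ := MulAction.exists_smul_eq G P2 P1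
  refine ⟨g.1, g.2, fun s hs => ?_⟩
  have hmem : (⟨s, hSG hs⟩ : G) ∈ (P1 : Subgroup G) := by
    rw [hP1]
    exact Subgroup.mem_subgroupOf.2 hs
  rw [← hg, Sylow.coe_subgroup_smul, Subgroup.mem_pointwise_smul_iff_inv_smul_mem, hP2] at hmem
  have h3 : (MulAut.conj g)⁻¹ • (⟨s, hSG hs⟩ : G) = g⁻¹ * ⟨s, hSG hs⟩ * g := by
    rw [← map_inv, MulAut.smul_def, MulAut.conj_apply, inv_inv]
  rw [h3] at hmem
  obtain ⟨x, -, hx⟩ := Subgroup.mem_subgroupOf.1 hmem
  have : (g : X)⁻¹ * s * g = x.1 := by
    rw [show ((K.subtype x : X)) = x.1 from rfl] at hx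
    rw [hx]
    rfl
  rw [this]
  exact x.2

/-- The number of fixed points modulo a prime. -/
theorem card_mod_fixed {α : Type*} [DecidableEq α] (R : Finset α) (y : Equiv.Perm α)
    (hinv : ∀ q ∈ R, y q ∈ R) {p : ℕ} [hp : Fact p.Prime] (hy : y ^ p = 1) :
    R.card % p = (R.filter fun q => y q = q).card % p := by
  let f : Function.End {q // q ∈ R} := fun q => ⟨y q.1, hinv q.1 q.2⟩
  have hpow : ∀ n (q : {q // q ∈ R}), ((f ^ n) q).1 = (y ^ n) q.1 := by
    intro n q
    induction n with
    | zero => rfl
    | succ n ih =>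
      rw [pow_succ', pow_succ']
      show y (((f ^ n) q).1) = _
      rw [ih]
      rfl
  have hf : f ^ p ^ 1 = 1 := by
    rw [pow_one]
    funext q
    apply Subtype.ext
    rw [hpow, hy]
    rfl
  have h1 := Equiv.Perm.card_fixedPoints_modEq (f := f) hf
  have h2 : Fintype.card (Function.fixedPoints f) = (R.filter fun q => y q = q).card := by
    rw [Fintype.card_of_subtype ((R.filter fun q => y q = q).subtype (· ∈ R))]
    · rw [Finset.card_subtype]
      congr 1
      ext q
      simp only [Finset.mem_filter]
      tauto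
    · intro q
      simp only [Finset.mem_subtype, Finset.mem_filter]
      constructor
      · intro h
        exact Subtype.ext h.2
      · intro h
        exact ⟨q.2, congrArg Subtype.val h⟩
  rw [Fintype.card_coe, h2] at h1
  exact h1

end Cfsg.Agent.Lib.CodeGroup

namespace Cfsg.Agent.Lib.CodeGroup

open Cfsg Cfsg.Agent.Lib.Golay Cfsg.Agent.Lib.GolaySift Cfsg.Agent.Lib.MathieuSimple
open scoped Pointwise

/-- The subgroup generated by the permutations with given codes. -/
noncomputable def genGroup (gens : List ℕ) : Subgroup (Equiv.Perm GolayPt) :=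
  Subgroup.closure (decode '' {c | c ∈ gens})

/-- A check that a list contains the identity and is closed under left multiplication by the generators. -/
def isClosedL (gens T : List ℕ) : Bool :=
  T.contains idC && gens.all (fun c => valid c) && T.all (fun c => valid c) &&
    gens.all fun g => T.all fun b => T.contains (comp g b)

theorem genGroup_eq_of_closed {gens T : List ℕ} (h : isClosedL gens T = true)
    (hreach : ∀ c ∈ T, InH (genGroup gens) c) {g : Equiv.Perm GolayPt} :
    g ∈ genGroup gens ↔ ∃ c ∈ T, g = decode c := by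
  classical
  simp only [isClosedL, Bool.and_eq_true, List.contains_iff_mem] at h
  obtain ⟨⟨⟨h1, h2⟩, h3⟩, h4⟩ := h
  have hv : ∀ c ∈ T, valid c = true := fun c hc => List.all_eq_true.1 h3 c hc
  have hg : ∀ c ∈ gens, valid c = true := fun c hc => List.all_eq_true.1 h2 c hc
  constructor
  · intro hmem
    let A : Finset (Equiv.Perm GolayPt) := (T.map decode).toFinset
    have hA : ∀ x, x ∈ A ↔ ∃ c ∈ T, decode c = x := by
      intro x
      simp [A]
    have hle : genGroup gens ≤ MulAction.stabilizer (Equiv.Perm GolayPt) A := by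
      unfold genGroup
      rw [Subgroup.closure_le]
      rintro _ ⟨c, hc, rfl⟩
      show decode c • A = A
      apply Finset.eq_of_subset_of_card_le
      · intro x hx
        obtain ⟨y, hy, rfl⟩ := Finset.mem_smul_finset.1 hx
        obtain ⟨b, hb, rfl⟩ := (hA y).1 hy
        rw [hA]
        have hcb : comp c b ∈ T := by
          have := List.all_eq_true.1 (List.all_eq_true.1 h4 c hc) b hb
          simpa using this
        refine ⟨comp c b, hcb, ?_⟩
        exact rep_unique (rep_decode (hv _ hcb)) ((rep_decode (hg c hc)).mul (rep_decode (hv b hb)))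
      · rw [Finset.card_smul_finset]
    have h5 := hle hmem
    have h6 : g • A = A := h5
    have h7 : (1 : Equiv.Perm GolayPt) ∈ A := by
      rw [hA]
      exact ⟨idC, h1, rep_unique (rep_decode (hv _ h1)) rep_one⟩
    have h8 : g • (1 : Equiv.Perm GolayPt) ∈ A := by
      rw [← h6]
      exact Finset.smul_mem_smul_finset h7
    rw [smul_eq_mul, mul_one] at h8
    obtain ⟨c, hc, rfl⟩ := (hA g).1 h8
    exact ⟨c, hc, rfl⟩
  · rintro ⟨c, hc, rfl⟩
    obtain ⟨x, hx, hxr⟩ := hreach c hc
    rwa [rep_unique (rep_decode (hv c hc)) hxr]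

theorem mem_genGroup_of_mem {gens : List ℕ} {c : ℕ} (hc : c ∈ gens) : decode c ∈ genGroup gens :=
  Subgroup.subset_closure ⟨c, hc, rfl⟩

/-- Everything obtained by a straight-line program from the identity and the generators is in the group. -/
theorem reach_runSLP {gens : List ℕ} (hv : ∀ c ∈ gens, valid c = true) (ins : List (ℕ × ℕ)) :
    ∀ c ∈ runSLP (idC :: gens) ins, InH (genGroup gens) c := by
  apply runSLP_spec
  intro c hc
  rcases List.mem_cons.1 hc with rfl | hc
  · exact InH.idC _
  · exact ⟨decode c, mem_genGroup_of_mem hc, rep_decode (hv c hc)⟩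

/-- The order of a generated group. -/
theorem card_genGroup {gens T : List ℕ} (h : isClosedL gens T = true)
    (hreach : ∀ c ∈ T, InH (genGroup gens) c) (hnd : (T.map vals).Nodup) :
    Nat.card (genGroup gens) = T.length := by
  classical
  have hvT : ∀ c ∈ T, valid c = true := by
    simp only [isClosedL, Bool.and_eq_true] at h
    exact fun c hc => List.all_eq_true.1 h.1.2 c hc
  have hinj : Set.InjOn decode {c | c ∈ T} := by
    intro a ha b hb hab
    exact List.inj_on_of_nodup_map hnd ha hb (vals_eq_of_decode (hvT a ha) (hvT b hb) hab)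
  have h1 := ncard_image_list T decode (List.Nodup.of_map _ hnd) hinj
  rw [← h1]
  have h2 : ((genGroup gens : Subgroup (Equiv.Perm GolayPt)) : Set (Equiv.Perm GolayPt)) =
      decode '' {c | c ∈ T} := by
    ext g
    rw [SetLike.mem_coe, genGroup_eq_of_closed h hreach]
    constructor
    · rintro ⟨c, hc, rfl⟩
      exact ⟨c, hc, rfl⟩
    · rintro ⟨c, hc, rfl⟩
      exact ⟨c, hc, rfl⟩
  rw [← h2]
  rfl

end Cfsg.Agent.Lib.CodeGroup
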