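import Mathlib
import Cfsg.Agent.Lib.FrobCoh9
import Cfsg.Agent.Lib.CharKernel

/-!
# Two abstract coherence lemmas

* `coherent_levels`: the induction over the degrees with Feit's extension criterion.
* `coherent_union`: two coherent sets with three common members of equal degree.
-/

set_option autoImplicit false
set_option linter.unusedSectionVars false
open Cfsg

namespace Cfsg.Agent.Lib.CohLevels

open Cfsg.Agent.Lib.CharBasic Cfsg.Agent.Lib.GenChar Cfsg.Agent.Lib.CoherenceBasic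
  Cfsg.Agent.Lib.CoherenceExt Cfsg.Agent.Lib.CoherenceSys Cfsg.Agent.Lib.FrobCoh9
  Cfsg.Agent.Lib.CohExt9 Cfsg.Agent.Lib.CharKernel
open scoped ComplexConjugate

variable {L : Type*} [Group L] [Fintype L] {G : Type*} [Group G] [Fintype G]

/-- The induction over the degrees. -/
theorem coherent_levels (F : Finset (L → ℂ)) (hirr : ∀ ξ ∈ F, IsIrrCharacter L ξ) (d₀ : ℕ)
    (hdvd : ∀ ξ ∈ F, d₀ ∣ charDegree ξ)
    (h2 : ∃ a ∈ F, ∃ b ∈ F, a ≠ b ∧ charDegree a = d₀ ∧ charDegree b = d₀)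
    (hbig : ∀ χ ∈ F, charDegree χ ≠ d₀ →
      2 * d₀ * charDegree χ < ∑ ξ ∈ F.filter (fun ξ => charDegree ξ < charDegree χ), charDegree ξ ^ 2)
    (τ : (L → ℂ) → (G → ℂ)) (hτ : IsLinearIsometryOn (zspanOn (↑F : Set (L → ℂ)) {1}ᶜ) τ)
    (hτ1 : ∀ α ∈ zspanOn (↑F : Set (L → ℂ)) {1}ᶜ, τ α 1 = 0) :
    IsCoherent (↑F : Set (L → ℂ)) {1}ᶜ τ := by
  classical
  set d : (L → ℂ) → ℕ := charDegree with hd
  have hd1 : ∀ ξ ∈ F, ξ 1 = (d ξ : ℂ) := fun ξ hξ =>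
    one_eq_charDegree (IsIrrCharacter.isCharacter (hirr ξ hξ))
  have hdpos : ∀ ξ ∈ F, 0 < d ξ := fun ξ hξ => charDegree_pos (hirr ξ hξ)
  set S₀ := F.filter (fun ξ => d ξ = d₀) with hS₀
  have hS₀F : S₀ ⊆ F := Finset.filter_subset _ _
  obtain ⟨a₀, ha₀, b₀, hb₀, hab₀, hda₀, hdb₀⟩ := h2
  have ha₀S : a₀ ∈ S₀ := Finset.mem_filter.mpr ⟨ha₀, hda₀⟩
  have hb₀S : b₀ ∈ S₀ := Finset.mem_filter.mpr ⟨hb₀, hdb₀⟩
  have hd₀pos : 0 < d₀ := by
    rw [← hda₀]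
    exact hdpos a₀ ha₀
  have hle : ∀ ξ ∈ F, d₀ ≤ d ξ := fun ξ hξ => Nat.le_of_dvd (hdpos ξ hξ) (hdvd ξ hξ)
  -- the base case
  have hbase : IsCoherent (↑S₀ : Set (L → ℂ)) {1}ᶜ τ := by
    have hsubS : (↑S₀ : Set (L → ℂ)) ⊆ ↑F := fun ξ hξ => hS₀F hξ
    apply coherent_same_degree (↑S₀ : Set (L → ℂ)) (fun ξ hξ => hirr ξ (hS₀F hξ))
    · intro φ hφ ψ hψ
      rw [hd1 φ (hS₀F hφ), hd1 ψ (hS₀F hψ), (Finset.mem_filter.mp hφ).2, (Finset.mem_filter.mp hψ).2]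
    · exact ⟨a₀, ha₀S, b₀, hb₀S, hab₀⟩
    · exact iso_mono hτ (zspanOn_mono hsubS)
    · exact fun α hα => hτ1 α (zspanOn_mono hsubS hα)
  -- the induction over the sets closed below
  have hind : ∀ n : ℕ, ∀ X : Finset (L → ℂ), X.card = n → S₀ ⊆ X → X ⊆ F →
      (∀ χ ∈ X, ∀ ξ ∈ F, d ξ < d χ → ξ ∈ X) → IsCoherent (↑X : Set (L → ℂ)) {1}ᶜ τ := by
    intro n
    induction n with
    | zero =>
      intro X hX hSX
      rw [Finset.card_eq_zero] at hX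
      subst hX
      exact absurd (hSX ha₀S) (by simp)
    | succ n ih =>
      intro X hX hSX hXF hdown
      by_cases hXS : X = S₀
      · rw [hXS]; exact hbase
      have hXne : X.Nonempty := by
        rw [← Finset.card_pos]; omega
      obtain ⟨χ, hχX, hχmax⟩ := Finset.exists_max_image X d hXne
      have hχnot : χ ∉ S₀ := by
        intro hχ
        apply hXS
        apply Finset.Subset.antisymm _ hSX
        intro ξ hξ
        rw [hS₀, Finset.mem_filter]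
        refine ⟨hXF hξ, ?_⟩
        have h1 := hχmax ξ hξ
        rw [(Finset.mem_filter.mp hχ).2] at h1
        exact le_antisymm h1 (hle ξ (hXF hξ))
      set X' := X.erase χ with hX'
      have hinsert : insert χ X' = X := Finset.insert_erase hχX
      have hχX' : χ ∉ X' := Finset.notMem_erase _ _
      have hcard' : X'.card = n := by
        rw [hX', Finset.card_erase_of_mem hχX]; omega
      have hSX' : S₀ ⊆ X' := by
        intro ξ hξ
        refine Finset.mem_erase.mpr ⟨?_, hSX hξ⟩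
        rintro rfl
        exact hχnot hξ
      have hX'F : X' ⊆ F := (Finset.erase_subset _ _).trans hXF
      have hdown' : ∀ φ ∈ X', ∀ ξ ∈ F, d ξ < d φ → ξ ∈ X' := by
        intro φ hφ ξ hξ hlt
        refine Finset.mem_erase.mpr ⟨?_, hdown φ (Finset.mem_of_mem_erase hφ) ξ hξ hlt⟩
        rintro rfl
        have := hχmax φ (Finset.mem_of_mem_erase hφ)
        omega
      have hcoh := ih X' hcard' hSX' hX'F hdown'
      rw [← hinsert]
      have hχF := hXF hχX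
      have hsubS : (↑(insert χ X') : Set (L → ℂ)) ⊆ ↑F := by
        rw [hinsert]
        exact fun ξ hξ => hXF hξ
      have hχne : d χ ≠ d₀ := fun h => hχnot (Finset.mem_filter.mpr ⟨hχF, h⟩)
      refine extend_coh X' χ (fun ξ hξ => hirr ξ (hX'F hξ)) (hirr χ hχF) hχX' d ?_ τ
        (iso_mono hτ (zspanOn_mono hsubS)) (fun α hα => hτ1 α (zspanOn_mono hsubS hα)) hcoh a₀
        (hSX' ha₀S) ?_ ?_
      · intro ξ hξ
        rw [hinsert] at hξ
        exact hd1 ξ (hXF hξ)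
      · rw [(Finset.mem_filter.mp ha₀S).2]
        exact hdvd χ hχF
      · rw [(Finset.mem_filter.mp ha₀S).2]
        have hb := hbig χ hχF hχne
        have hsub : F.filter (fun ξ => charDegree ξ < charDegree χ) ⊆ X' := by
          intro ξ hξ
          have h1 := Finset.mem_filter.mp hξ
          refine Finset.mem_erase.mpr ⟨?_, hdown χ hχX ξ h1.1 h1.2⟩
          rintro rfl
          exact absurd h1.2 (lt_irrefl _)
        have hle' : ∑ ξ ∈ F.filter (fun ξ => charDegree ξ < charDegree χ), charDegree ξ ^ 2 ≤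
            ∑ ξ ∈ X', d ξ ^ 2 :=
          Finset.sum_le_sum_of_subset_of_nonneg hsub (fun _ _ _ => Nat.zero_le _)
        exact lt_of_lt_of_le hb hle'
  exact hind F.card F rfl hS₀F subset_rfl (fun _ _ ξ hξ _ => hξ)

/-- The gluing of two coherent sets with three common members of equal degree. -/
theorem coherent_union {X Y : Set (L → ℂ)} (hXi : ∀ ξ ∈ X, IsIrrCharacter L ξ)
    (hYi : ∀ ξ ∈ Y, IsIrrCharacter L ξ) (τ : (L → ℂ) → (G → ℂ))
    (hτ : IsLinearIsometryOn (zspanOn (X ∪ Y) {1}ᶜ) τ)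
    (hcX : IsCoherent X {1}ᶜ τ) (hcY : IsCoherent Y {1}ᶜ τ)
    {φ₁ φ₂ φ₃ : L → ℂ} (h₁X : φ₁ ∈ X) (h₁Y : φ₁ ∈ Y) (h₂X : φ₂ ∈ X) (h₂Y : φ₂ ∈ Y)
    (h₃X : φ₃ ∈ X) (h₃Y : φ₃ ∈ Y) (h12 : φ₁ ≠ φ₂) (h13 : φ₁ ≠ φ₃) (h23 : φ₂ ≠ φ₃)
    (hd12 : φ₁ 1 = φ₂ 1) (hd13 : φ₁ 1 = φ₃ 1) :
    IsCoherent (X ∪ Y) {1}ᶜ τ := by
  classical
  obtain ⟨-, τX, hτX, hXa⟩ := hcX
  obtain ⟨-, τY, hτY, hYa⟩ := hcY
  have hXY : ∀ ξ ∈ X ∪ Y, IsIrrCharacter L ξ := fun ξ hξ => hξ.elim (hXi ξ) (hYi ξ)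
  have hselfX : ∀ ξ ∈ X, classInner ξ ξ = 1 := fun ξ hξ => classInner_irr_self (hXi ξ hξ)
  have hselfY : ∀ ξ ∈ Y, classInner ξ ξ = 1 := fun ξ hξ => classInner_irr_self (hYi ξ hξ)
  -- the differences
  have hdiff : ∀ (S : Set (L → ℂ)) (a b : L → ℂ), a ∈ S → b ∈ S → a 1 = b 1 →
      a - b ∈ zspanOn S {1}ᶜ := by
    intro S a b ha hb hab
    rw [mem_zspanOn_compl_one]
    exact ⟨zspan_sub (mem_zspan ha) (mem_zspan hb), by simp [hab]⟩
  have hXYdiff : ∀ (a b : L → ℂ), a ∈ X → a ∈ Y → b ∈ X → b ∈ Y → a 1 = b 1 →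
      τX a - τX b = τY a - τY b := by
    intro a b haX haY hbX hbY hab
    rw [← iso_sub_zspan hτX (mem_zspan haX) (mem_zspan hbX),
      ← iso_sub_zspan hτY (mem_zspan haY) (mem_zspan hbY),
      hXa _ (hdiff X a b haX hbX hab), hYa _ (hdiff Y a b haY hbY hab)]
  set c : G → ℂ := τX φ₁ - τY φ₁ with hc
  have hgX : ∀ ξ ∈ X, IsGeneralizedCharacter G (τX ξ) := fun ξ hξ => iso_gen hτX (mem_zspan hξ)
  have hgY : ∀ ξ ∈ Y, IsGeneralizedCharacter G (τY ξ) := fun ξ hξ => iso_gen hτY (mem_zspan hξ)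
  have hcg : IsGeneralizedCharacter G c := isGen_sub (hgX _ h₁X) (hgY _ h₁Y)
  have hinX : ∀ a ∈ X, ∀ b ∈ X, classInner (τX a) (τX b) = classInner a b := fun a ha b hb =>
    iso_inner hτX (mem_zspan ha) (mem_zspan hb)
  have hinY : ∀ a ∈ Y, ∀ b ∈ Y, classInner (τY a) (τY b) = classInner a b := fun a ha b hb =>
    iso_inner hτY (mem_zspan ha) (mem_zspan hb)
  -- the common difference
  have hc2 : τX φ₂ = τY φ₂ + c := by
    have h := hXYdiff φ₁ φ₂ h₁X h₁Y h₂X h₂Y hd12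
    rw [hc]
    have h3 : τX φ₂ = τX φ₁ - (τX φ₁ - τX φ₂) := by abel
    rw [h3, h]
    abel
  have hc3 : τX φ₃ = τY φ₃ + c := by
    have h := hXYdiff φ₁ φ₃ h₁X h₁Y h₃X h₃Y hd13
    rw [hc]
    have h3 : τX φ₃ = τX φ₁ - (τX φ₁ - τX φ₃) := by abel
    rw [h3, h]
    abel
  have hc1 : τX φ₁ = τY φ₁ + c := by
    rw [hc]
    abel
  obtain ⟨N, hN⟩ := classInner_self_eq_nat hcg
  have hval : ∀ a : L → ℂ, a ∈ X → a ∈ Y → τX a = τY a + c → ∃ k : ℤ, classInner c (τY a) = k ∧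
      2 * k + (N : ℤ) = 0 := by
    intro a haX haY h
    obtain ⟨k, hk⟩ := classInner_gen_gen hcg (hgY a haY)
    refine ⟨k, hk, ?_⟩
    have h1 := hinX a haX a haX
    rw [hselfX a haX, h] at h1
    simp only [classInner_add_left, classInner_add_right] at h1
    rw [hinY a haY a haY, hselfY a haY, hN, hk, ← classInner_conj_symm c (τY a), hk] at h1
    simp only [map_intCast] at h1
    have h2 : ((2 * k + (N : ℤ) : ℤ) : ℂ) = 0 := by
      push_cast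
      linear_combination h1
    exact_mod_cast h2
  obtain ⟨k₁, hk₁, hk₁'⟩ := hval φ₁ h₁X h₁Y hc1
  obtain ⟨k₂, hk₂, hk₂'⟩ := hval φ₂ h₂X h₂Y hc2
  obtain ⟨k₃, hk₃, hk₃'⟩ := hval φ₃ h₃X h₃Y hc3
  have hk12 : k₂ = k₁ := by omega
  have hk13 : k₃ = k₁ := by omega
  rw [hk12] at hk₂
  rw [hk13] at hk₃
  -- Bessel
  set V : G → ℂ := τY φ₁ + τY φ₂ + τY φ₃ with hV
  have hVg : IsGeneralizedCharacter G V := isGen_add (isGen_add (hgY _ h₁Y) (hgY _ h₂Y)) (hgY _ h₃Y)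
  have hVV : classInner V V = 3 := by
    simp only [hV, classInner_add_left, classInner_add_right]
    rw [hinY _ h₁Y _ h₁Y, hinY _ h₁Y _ h₂Y, hinY _ h₁Y _ h₃Y, hinY _ h₂Y _ h₁Y, hinY _ h₂Y _ h₂Y,
      hinY _ h₂Y _ h₃Y, hinY _ h₃Y _ h₁Y, hinY _ h₃Y _ h₂Y, hinY _ h₃Y _ h₃Y,
      hselfY _ h₁Y, hselfY _ h₂Y, hselfY _ h₃Y,
      classInner_irr_ne (hYi _ h₁Y) (hYi _ h₂Y) h12, classInner_irr_ne (hYi _ h₁Y) (hYi _ h₃Y) h13,
      classInner_irr_ne (hYi _ h₂Y) (hYi _ h₁Y) h12.symm,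
      classInner_irr_ne (hYi _ h₂Y) (hYi _ h₃Y) h23,
      classInner_irr_ne (hYi _ h₃Y) (hYi _ h₁Y) h13.symm,
      classInner_irr_ne (hYi _ h₃Y) (hYi _ h₂Y) h23.symm]
    norm_num
  have hcV : classInner c V = 3 * (k₁ : ℂ) := by
    simp only [hV, classInner_add_right]
    rw [hk₁, hk₂, hk₃]
    ring
  have hVc : classInner V c = 3 * (k₁ : ℂ) := by
    rw [← classInner_conj_symm, hcV, map_mul, map_ofNat, map_intCast]
  have hw := classInner_self_eq_nat (isGen_sub hcg (isGen_zsmul hVg k₁))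
  obtain ⟨M, hM⟩ := hw
  simp only [classInner_sub_left, classInner_sub_right, classInner_zsmul_left,
    classInner_zsmul_right, hN, hcV, hVc, hVV] at hM
  have hM' : (N : ℤ) - 3 * k₁ ^ 2 = M := by
    have h : (((N : ℤ) - 3 * k₁ ^ 2 : ℤ) : ℂ) = ((M : ℤ) : ℂ) := by
      push_cast
      push_cast at hM
      linear_combination hM
    exact_mod_cast h
  have hk0 : k₁ = 0 := by
    have h1 : (0 : ℤ) ≤ M := Int.natCast_nonneg M
    have h2 : (N : ℤ) = -2 * k₁ := by omega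
    rw [h2] at hM'
    have h3 : (0 : ℤ) ≤ N := Int.natCast_nonneg N
    have h4 : k₁ ≤ 0 := by omega
    by_contra hne
    have h5 : k₁ ≤ -1 := by omega
    nlinarith
  have hN0 : N = 0 := by
    have : (N : ℤ) = 0 := by omega
    exact_mod_cast this
  have hc0 : c = 0 := by
    apply classInner_self_eq_zero
    rw [hN, hN0]
    simp
  have hu : τX φ₁ = τY φ₁ := sub_eq_zero.mp hc0
  -- the degrees
  obtain ⟨d, hd0, hd⟩ := isIrr_one_pos (hXi φ₁ h₁X)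
  have hdne : (d : ℂ) ≠ 0 := by exact_mod_cast hd0.ne'
  have hdeg : ∀ ξ ∈ X ∪ Y, ξ 1 = ((charDegree ξ : ℕ) : ℂ) := fun ξ hξ =>
    one_eq_charDegree (IsIrrCharacter.isCharacter (hXY ξ hξ))
  let β : (L → ℂ) → (L → ℂ) := fun ξ => (d : ℤ) • ξ - (charDegree ξ : ℤ) • φ₁
  have hβX : ∀ ξ ∈ X, β ξ ∈ zspanOn X {1}ᶜ := by
    intro ξ hξ
    rw [mem_zspanOn_compl_one]
    refine ⟨zspan_sub (zspan_zsmul (mem_zspan hξ) _) (zspan_zsmul (mem_zspan h₁X) _), ?_⟩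
    simp only [β, Pi.sub_apply, zsmul_apply, hdeg ξ (Or.inl hξ), hd]
    push_cast
    ring
  have hβY : ∀ ξ ∈ Y, β ξ ∈ zspanOn Y {1}ᶜ := by
    intro ξ hξ
    rw [mem_zspanOn_compl_one]
    refine ⟨zspan_sub (zspan_zsmul (mem_zspan hξ) _) (zspan_zsmul (mem_zspan h₁Y) _), ?_⟩
    simp only [β, Pi.sub_apply, zsmul_apply, hdeg ξ (Or.inr hξ), hd]
    push_cast
    ring
  have hβτX : ∀ ξ ∈ X, τ (β ξ) = (d : ℤ) • τX ξ - (charDegree ξ : ℤ) • τX φ₁ := by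
    intro ξ hξ
    rw [← hXa _ (hβX ξ hξ)]
    simp only [β]
    rw [iso_sub_zspan hτX (zspan_zsmul (mem_zspan hξ) _) (zspan_zsmul (mem_zspan h₁X) _),
      iso_zsmul hτX (mem_zspan hξ), iso_zsmul hτX (mem_zspan h₁X)]
  have hβτY : ∀ ξ ∈ Y, τ (β ξ) = (d : ℤ) • τY ξ - (charDegree ξ : ℤ) • τX φ₁ := by
    intro ξ hξ
    rw [hu, ← hYa _ (hβY ξ hξ)]
    simp only [β]
    rw [iso_sub_zspan hτY (zspan_zsmul (mem_zspan hξ) _) (zspan_zsmul (mem_zspan h₁Y) _),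
      iso_zsmul hτY (mem_zspan hξ), iso_zsmul hτY (mem_zspan h₁Y)]
  have hsubX : zspanOn X {1}ᶜ ⊆ zspanOn (X ∪ Y) {1}ᶜ := zspanOn_mono Set.subset_union_left
  have hsubY : zspanOn Y {1}ᶜ ⊆ zspanOn (X ∪ Y) {1}ᶜ := zspanOn_mono Set.subset_union_right
  -- the cross terms
  have hcross : ∀ ξ ∈ X, ∀ η ∈ Y, classInner (τX ξ) (τY η) = classInner ξ η := by
    intro ξ hξ η hη
    have h1 := iso_inner hτ (hsubX (hβX ξ hξ)) (hsubY (hβY η hη))
    rw [hβτX ξ hξ, hβτY η hη] at h1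
    simp only [β, classInner_sub_left, classInner_sub_right, classInner_zsmul_left,
      classInner_zsmul_right] at h1
    rw [hinX ξ hξ φ₁ h₁X, hinX φ₁ h₁X φ₁ h₁X] at h1
    have h2 : classInner (τX φ₁) (τY η) = classInner φ₁ η := by
      rw [hu]
      exact hinY φ₁ h₁Y η hη
    rw [h2] at h1
    push_cast at h1
    have h3 : (d : ℂ) * ((d : ℂ) * (classInner (τX ξ) (τY η) - classInner ξ η)) = 0 := by
      linear_combination h1
    have h4 := (mul_eq_zero.mp h3).resolve_left hdne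
    have h5 := (mul_eq_zero.mp h4).resolve_left hdne
    exact sub_eq_zero.mp h5
  have hcross' : ∀ ξ ∈ X, ∀ η ∈ Y, classInner (τY η) (τX ξ) = classInner η ξ := by
    intro ξ hξ η hη
    rw [← classInner_conj_symm, hcross ξ hξ η hη, classInner_conj_symm]
  have hsame : ∀ ξ, ξ ∈ X → ξ ∈ Y → τX ξ = τY ξ := by
    intro ξ hX hY
    apply sub_eq_zero.mp
    apply classInner_self_eq_zero
    simp only [classInner_sub_left, classInner_sub_right]
    rw [hinX ξ hX ξ hX, hinY ξ hY ξ hY, hcross ξ hX ξ hY, hcross' ξ hX ξ hY]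
    ring
  set f : (L → ℂ) → (G → ℂ) := fun ξ => if ξ ∈ X then τX ξ else τY ξ with hf
  have hfX : ∀ ξ ∈ X, f ξ = τX ξ := fun ξ hξ => by simp only [hf, if_pos hξ]
  have hfY : ∀ ξ ∈ Y, f ξ = τY ξ := by
    intro ξ hξ
    by_cases h : ξ ∈ X
    · rw [hfX ξ h, hsame ξ h hξ]
    · simp only [hf, if_neg h]
  have hfi : ∀ x ∈ X ∪ Y, ∀ y ∈ X ∪ Y, classInner (f x) (f y) = classInner x y := by
    intro x hx y hy
    rcases hx with hx | hx <;> rcases hy with hy | hy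
    · rw [hfX x hx, hfX y hy, hinX x hx y hy]
    · rw [hfX x hx, hfY y hy, hcross x hx y hy]
    · rw [hfY x hx, hfX y hy, hcross' y hy x hx]
    · rw [hfY x hx, hfY y hy, hinY x hx y hy]
  have hfg : ∀ x ∈ X ∪ Y, IsGeneralizedCharacter G (f x) := by
    intro x hx
    rcases hx with hx | hx
    · rw [hfX x hx]; exact hgX x hx
    · rw [hfY x hx]; exact hgY x hx
  obtain ⟨τ₁, hτ₁, hτ₁v⟩ := exists_iso_of_values
    (fun x hx => by rw [classInner_irr_self (hXY x hx)]; exact one_ne_zero)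
    (fun x hx y hy hxy => classInner_irr_ne (hXY x hx) (hXY y hy) hxy) f hfi hfg
  have hφ₁XY : φ₁ ∈ X ∪ Y := Or.inl h₁X
  have hτ₁φ : τ₁ φ₁ = τX φ₁ := by rw [hτ₁v φ₁ hφ₁XY, hfX φ₁ h₁X]
  have hdecomp : ∀ θ ∈ zspan (X ∪ Y), ∃ k : ℤ, (d : ℤ) • θ - k • φ₁ ∈ zspanOn (X ∪ Y) {1}ᶜ ∧
      (d : ℤ) • τ₁ θ - k • τ₁ φ₁ = τ ((d : ℤ) • θ - k • φ₁) := by
    intro θ hθ
    have hθ' := hθ
    unfold zspan at hθ'
    induction hθ' using Submodule.span_induction with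
    | mem ψ hψ =>
      refine ⟨(charDegree ψ : ℤ), ?_, ?_⟩
      · rcases hψ with hψ | hψ
        · exact hsubX (hβX ψ hψ)
        · exact hsubY (hβY ψ hψ)
      · rw [hτ₁φ, hτ₁v ψ hψ]
        rcases hψ with hψ | hψ
        · rw [hfX ψ hψ]
          exact (hβτX ψ hψ).symm
        · rw [hfY ψ hψ]
          exact (hβτY ψ hψ).symm
    | zero =>
      refine ⟨0, by simpa using zspanOn_zero (X ∪ Y) _, ?_⟩
      simp only [zero_smul, smul_zero, sub_zero]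
      rw [iso_zero hτ₁ (zspan_zero _), iso_zero hτ (zspanOn_zero (X ∪ Y) _)]
      simp
    | add x y hx hy ihx ihy =>
      obtain ⟨c₁, h1, h2⟩ := ihx hx
      obtain ⟨c₂, h3, h4⟩ := ihy hy
      refine ⟨c₁ + c₂, ?_, ?_⟩
      · have e : (d : ℤ) • (x + y) - (c₁ + c₂) • φ₁ = ((d : ℤ) • x - c₁ • φ₁) + ((d : ℤ) • y - c₂ • φ₁) := by
          rw [add_smul, smul_add]; abel
        rw [e]
        exact zspanOn_add h1 h3
      · have e : (d : ℤ) • (x + y) - (c₁ + c₂) • φ₁ = ((d : ℤ) • x - c₁ • φ₁) + ((d : ℤ) • y - c₂ • φ₁) := by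
          rw [add_smul, smul_add]; abel
        rw [e, iso_add hτ h1 h3, ← h2, ← h4, iso_add hτ₁ hx hy, add_smul, smul_add]
        abel
    | smul k x hx ihx =>
      obtain ⟨c₁, h1, h2⟩ := ihx hx
      refine ⟨k * c₁, ?_, ?_⟩
      · have e : (d : ℤ) • (k • x) - (k * c₁) • φ₁ = k • ((d : ℤ) • x - c₁ • φ₁) := by
          rw [smul_sub, mul_smul, smul_comm]
        rw [e]
        exact zspanOn_zsmul h1 k
      · have e : (d : ℤ) • (k • x) - (k * c₁) • φ₁ = k • ((d : ℤ) • x - c₁ • φ₁) := by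
          rw [smul_sub, mul_smul, smul_comm]
        rw [e, iso_zsmul hτ h1, ← h2, iso_zsmul hτ₁ hx, smul_sub, mul_smul, smul_comm]
  refine ⟨⟨φ₁ - φ₂, hsubX (hdiff X _ _ h₁X h₂X hd12), ?_⟩, τ₁, hτ₁, ?_⟩
  · intro h
    exact h12 (sub_eq_zero.mp h)
  · intro θ hθ
    obtain ⟨k, h1, h2⟩ := hdecomp θ hθ.1
    have h3 := (mem_zspanOn_compl_one.mp h1).2
    have h4 := (mem_zspanOn_compl_one.mp hθ).2
    simp only [Pi.sub_apply, zsmul_apply, h4, hd] at h3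
    have hk : k = 0 := by
      have h5 : (k : ℂ) * (d : ℂ) = 0 := by
        simp only [mul_zero, zero_sub, neg_eq_zero] at h3
        exact_mod_cast h3
      have h6 := (mul_eq_zero.mp h5).resolve_right hdne
      exact_mod_cast h6
    subst hk
    simp only [zero_smul, sub_zero] at h2
    rw [iso_zsmul hτ hθ] at h2
    funext g
    have h5 := congrFun h2 g
    simp only [zsmul_apply] at h5
    push_cast at h5
    exact mul_left_cancel₀ hdne h5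

end Cfsg.Agent.Lib.CohLevels
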