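import Mathlib
import Cfsg.Agent.S1516
import Cfsg.Agent.Lib.InducedIrr

/-!
# Iterating the coherence extension lemma
-/

set_option autoImplicit false
set_option linter.unusedSectionVars false
set_option linter.unusedVariables false

namespace Cfsg.Agent.Lib.CoherenceLoop

open Cfsg Cfsg.Agent.Lib.CharBasic Cfsg.Agent.Lib.GenChar Cfsg.Agent.Lib.CoherenceBasic
open Cfsg.Agent.Lib.CoherenceExt Cfsg.Agent.Lib.CoherenceSys
open scoped ComplexConjugate

variable {L : Type*} [Group L] [Fintype L] {G : Type*} [Group G] [Fintype G]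

/-- Coherence restricts to subsets. -/
theorem coherent_restrict {S₂ S' : Set (L → ℂ)} {τ : (L → ℂ) → (G → ℂ)}
    (h : IsCoherent S₂ {1}ᶜ τ) (hsub : S' ⊆ S₂) (hne : ∃ α ∈ zspanOn S' {1}ᶜ, α ≠ 0) :
    IsCoherent S' {1}ᶜ τ := by
  obtain ⟨-, τ₁, hτ₁, hagree⟩ := h
  exact ⟨hne, τ₁, iso_mono hτ₁ (zspan_mono hsub), fun α hα => hagree α (zspanOn_mono hsub hα)⟩

/-- A set with a member of a coherence system has a nonzero element in `zspanOn`. -/
theorem exists_ne_of_mem {S S' : Set (L → ℂ)} {τ : (L → ℂ) → (G → ℂ)}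
    {R : (L → ℂ) → Finset (G → ℂ)} (hS : IsCoherenceSystem S τ R) (hsub : S' ⊆ S)
    (hc : ∀ φ ∈ S', conjFun φ ∈ S') {χ : L → ℂ} (hχ : χ ∈ S') :
    ∃ α ∈ zspanOn S' {1}ᶜ, α ≠ 0 := by
  refine ⟨χ - conjFun χ, ?_, ?_⟩
  · rw [mem_zspanOn_compl_one]
    refine ⟨zspan_sub (mem_zspan hχ) (mem_zspan (hc χ hχ)), ?_⟩
    simp [sys_one_conj hS (hsub hχ)]
  · intro h
    exact hS.conj_ne χ (hsub hχ) (sub_eq_zero.mp h).symm

/-- Iterating Sibley's extension lemma. -/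
theorem coherent_extend_many {S : Set (L → ℂ)} {τ : (L → ℂ) → (G → ℂ)}
    {R : (L → ℂ) → Finset (G → ℂ)} (hS : IsCoherenceSystem S τ R) (d n : (L → ℂ) → ℕ)
    (hd : ∀ φ ∈ S, φ 1 = (d φ : ℂ)) (hn : ∀ φ ∈ S, classInner φ φ = (n φ : ℂ))
    (S₀ : Finset (L → ℂ)) (hS₀ : (↑S₀ : Set (L → ℂ)) ⊆ S) (hS₀c : ∀ φ ∈ S₀, conjFun φ ∈ S₀)
    (hcoh : IsCoherent (↑S₀ : Set (L → ℂ)) {1}ᶜ τ) (X : Finset (L → ℂ))
    (hX : (↑X : Set (L → ℂ)) ⊆ S)
    (hb : ∀ χ ∈ X, ∃ ξ ∈ S₀, d ξ ∣ d χ ∧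
      (2 * d χ * d ξ : ℝ) < ∑ φ ∈ S₀, ((d φ : ℝ) ^ 2 / (n φ : ℝ))) :
    ∃ S₂ : Finset (L → ℂ), S₀ ⊆ S₂ ∧ X ⊆ S₂ ∧ (↑S₂ : Set (L → ℂ)) ⊆ S ∧
      (∀ φ ∈ S₂, conjFun φ ∈ S₂) ∧ IsCoherent (↑S₂ : Set (L → ℂ)) {1}ᶜ τ := by
  classical
  induction X using Finset.induction_on with
  | empty => exact ⟨S₀, subset_rfl, Finset.empty_subset _, hS₀, hS₀c, hcoh⟩
  | insert χ X hχX ih =>
    obtain ⟨S₂, h1, h2, h3, h4, h5⟩ := ih
      (fun x hx => hX (Finset.mem_coe.mpr (Finset.mem_insert_of_mem hx)))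
      (fun x hx => hb x (Finset.mem_insert_of_mem hx))
    have hχS : χ ∈ S := hX (Finset.mem_coe.mpr (Finset.mem_insert_self _ _))
    by_cases hχ₂ : χ ∈ S₂
    · refine ⟨S₂, h1, ?_, h3, h4, h5⟩
      intro x hx
      rcases Finset.mem_insert.mp hx with rfl | hx
      · exact hχ₂
      · exact h2 hx
    · have hχc : conjFun χ ∉ S₂ := by
        intro h
        apply hχ₂
        have := h4 _ h
        rwa [conjFun_conjFun'] at this
      obtain ⟨ξ, hξ, hdvd, hlt⟩ := hb χ (Finset.mem_insert_self _ _)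
      have hmono : ∑ φ ∈ S₀, ((d φ : ℝ) ^ 2 / (n φ : ℝ)) ≤ ∑ φ ∈ S₂, ((d φ : ℝ) ^ 2 / (n φ : ℝ)) :=
        Finset.sum_le_sum_of_subset_of_nonneg h1 (fun _ _ _ => by positivity)
      have hcoh' := Cfsg.Agent.S1516.result S τ R hS d n hd hn S₂ h3 h4 h5 χ hχS hχ₂ hχc ξ (h1 hξ)
        hdvd (lt_of_lt_of_le hlt hmono)
      refine ⟨S₂ ∪ {χ, conjFun χ}, h1.trans Finset.subset_union_left, ?_, ?_, ?_, ?_⟩
      · intro x hx
        rcases Finset.mem_insert.mp hx with rfl | hx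
        · simp
        · exact Finset.mem_union_left _ (h2 hx)
      · intro x hx
        rcases Finset.mem_union.mp (Finset.mem_coe.mp hx) with hx | hx
        · exact h3 (Finset.mem_coe.mpr hx)
        · simp only [Finset.mem_insert, Finset.mem_singleton] at hx
          rcases hx with rfl | rfl
          · exact hχS
          · exact hS.conj_mem χ hχS
      · intro x hx
        rcases Finset.mem_union.mp hx with hx | hx
        · exact Finset.mem_union_left _ (h4 x hx)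
        · simp only [Finset.mem_insert, Finset.mem_singleton] at hx
          rcases hx with rfl | rfl
          · simp
          · simp [conjFun_conjFun']
      · have e : (↑(S₂ ∪ {χ, conjFun χ}) : Set (L → ℂ)) = ↑S₂ ∪ {χ, conjFun χ} := by
          simp
        rw [e]
        exact hcoh'

end Cfsg.Agent.Lib.CoherenceLoop
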