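import Mathlib

/-!
# An element of prime order commuting with a nonzero nilpotent matrix
-/

set_option autoImplicit false
set_option linter.unusedSectionVars false
set_option linter.unusedVariables false

namespace Cfsg.Agent.Lib.CommUnip

open Matrix Module

variable {F : Type*} [Field F] [Fintype F] {n : ℕ}

/-- The fixed points on a stable subspace. -/
abbrev Fx (g : Matrix (Fin n) (Fin n) F) (Z : Submodule F (Fin n → F)) : Submodule F (Fin n → F) :=
  Z ⊓ LinearMap.ker (g.mulVecLin - LinearMap.id)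

lemma mem_Fx {g : Matrix (Fin n) (Fin n) F} {Z : Submodule F (Fin n → F)} {x : Fin n → F} :
    x ∈ Fx g Z ↔ x ∈ Z ∧ g *ᵥ x = x := by
  simp [Fx, sub_eq_zero]

/-- Counting modulo `r` on a stable subspace. -/
lemma dvd_of_stable {r : ℕ} [hr : Fact r.Prime] (hrq : ¬ r ∣ Fintype.card F)
    {g : Matrix (Fin n) (Fin n) F} (hg : g ^ r = 1) {Z : Submodule F (Fin n → F)}
    (hZ : ∀ z ∈ Z, g *ᵥ z ∈ Z) :
    r ∣ Fintype.card F ^ (finrank F Z - finrank F (Fx g Z)) - 1 := by
  classical
  let f : Function.End Z := fun z => ⟨g *ᵥ z.1, hZ _ z.2⟩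
  have hpow : ∀ (k : ℕ) (z : Z), ((f ^ k) z : Z).1 = (g ^ k) *ᵥ z.1 := by
    intro k
    induction k with
    | zero =>
      intro z
      rw [pow_zero, pow_zero, one_mulVec]
      rfl
    | succ k ih =>
      intro z
      rw [pow_succ]
      change ((f ^ k) (f z)).1 = _
      rw [ih]
      change g ^ k *ᵥ (g *ᵥ z.1) = _
      rw [mulVec_mulVec, ← pow_succ]
  have hf : f ^ r ^ 1 = 1 := by
    rw [pow_one]
    funext z
    apply Subtype.ext
    rw [hpow, hg, one_mulVec]
    rfl
  have hmod := Equiv.Perm.card_fixedPoints_modEq (f := f) hf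
  -- the cardinalities
  have hcard : Fintype.card f.fixedPoints = Fintype.card (Fx g Z) := by
    refine Fintype.card_congr ⟨fun z => ⟨z.1.1, mem_Fx.2 ⟨z.1.2, ?_⟩⟩, fun z => ⟨⟨z.1, (mem_Fx.1 z.2).1⟩, ?_⟩, ?_, ?_⟩
    · have := congrArg Subtype.val (show f z.1 = z.1 from z.2)
      exact this
    · apply Subtype.ext
      exact (mem_Fx.1 z.2).2
    · intro z
      rfl
    · intro z
      rfl
  have h1 : Fintype.card Z = Fintype.card F ^ finrank F Z := Module.card_eq_pow_finrank
  have h2 : Fintype.card (Fx g Z) = Fintype.card F ^ finrank F (Fx g Z) := Module.card_eq_pow_finrank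
  rw [hcard, h1, h2] at hmod
  have hle : finrank F (Fx g Z) ≤ finrank F Z := Submodule.finrank_mono inf_le_left
  set a := finrank F Z with ha
  set b := finrank F (Fx g Z) with hb
  have hq : 1 ≤ Fintype.card F := Fintype.card_pos
  have h3 : r ∣ Fintype.card F ^ a - Fintype.card F ^ b := (Nat.modEq_iff_dvd' (Nat.pow_le_pow_right hq hle)).1 hmod.symm
  have h4 : Fintype.card F ^ a - Fintype.card F ^ b = Fintype.card F ^ b * (Fintype.card F ^ (a - b) - 1) := by
    rw [Nat.mul_sub, mul_one, ← pow_add]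
    congr 2
    omega
  rw [h4] at h3
  rcases (Nat.Prime.dvd_mul hr.out).1 h3 with h5 | h5
  · exact absurd (hr.out.dvd_of_dvd_pow h5) hrq
  · exact h5

/-- The key lemma: a nontrivial element of prime order `r` different from the characteristic
commuting with a nonzero nilpotent matrix moves a subspace of dimension at most `n - 2`. -/
theorem exists_dvd {p r : ℕ} [hp : Fact p.Prime] [CharP F p] [hr : Fact r.Prime] (hn : 3 ≤ n)
    (hrp : r ≠ p) (hrq : ¬ r ∣ Fintype.card F)
    (g N : Matrix (Fin n) (Fin n) F) (hg : g ^ r = 1) (hg1 : g ≠ 1) (hgN : g * N = N * g)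
    (hN : N ≠ 0) (hNp : IsNilpotent N) :
    ∃ i, 1 ≤ i ∧ i + 2 ≤ n ∧ r ∣ Fintype.card F ^ i - 1 := by
  classical
  set I : Submodule F (Fin n → F) := LinearMap.range N.mulVecLin with hI
  set K : Submodule F (Fin n → F) := LinearMap.ker N.mulVecLin with hK
  have memI : ∀ {x : Fin n → F}, x ∈ I ↔ ∃ y, N *ᵥ y = x := by
    intro x
    simp [hI]
  have memK : ∀ {x : Fin n → F}, x ∈ K ↔ N *ᵥ x = 0 := by
    intro x
    simp [hK]
  have hIst : ∀ z ∈ I, g *ᵥ z ∈ I := by
    intro z hz
    obtain ⟨y, rfl⟩ := memI.1 hz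
    refine memI.2 ⟨g *ᵥ y, ?_⟩
    rw [mulVec_mulVec, mulVec_mulVec, hgN]
  have hKst : ∀ z ∈ K, g *ᵥ z ∈ K := by
    intro z hz
    rw [memK] at hz ⊢
    rw [mulVec_mulVec, ← hgN, ← mulVec_mulVec, hz, mulVec_zero]
  have hrank : finrank F I + finrank F K = n := by
    have := LinearMap.finrank_range_add_finrank_ker N.mulVecLin
    simpa using this
  -- `I ∩ K` is nonzero
  have hIK : ∃ x, x ≠ 0 ∧ x ∈ I ∧ x ∈ K := by
    obtain ⟨k, hk⟩ := hNp
    have hk0 : k ≠ 0 := by
      rintro rfl
      rw [pow_zero] at hk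
      have hne : Nonempty (Fin n) := by
        by_contra he
        rw [not_nonempty_iff] at he
        apply hN
        ext i
        exact (he.false i).elim
      exact one_ne_zero hk
    have h1 : ∃ j, N ^ (j + 1) ≠ 0 ∧ N ^ (j + 2) = 0 := by
      by_contra hcon
      push Not at hcon
      have : ∀ j, N ^ (j + 1) ≠ 0 := by
        intro j
        induction j with
        | zero => simpa using hN
        | succ j ih => exact hcon j ih
      obtain ⟨m, rfl⟩ : ∃ m, k = m + 1 := ⟨k - 1, by omega⟩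
      exact this m hk
    obtain ⟨j, hj1, hj2⟩ := h1
    have h2 : ∃ y, (N ^ (j + 1)) *ᵥ y ≠ 0 := by
      by_contra hcon
      push Not at hcon
      apply hj1
      apply Matrix.mulVec_injective
      funext y
      rw [hcon, zero_mulVec]
    obtain ⟨y, hy⟩ := h2
    refine ⟨_, hy, memI.2 ⟨(N ^ j) *ᵥ y, ?_⟩, memK.2 ?_⟩
    · rw [mulVec_mulVec, pow_succ']
    · rw [mulVec_mulVec, ← pow_succ', hj2, zero_mulVec]
  obtain ⟨x0, hx0, hx0I, hx0K⟩ := hIK
  have hIpos : 1 ≤ finrank F I := by
    by_contra h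
    have h1 : finrank F I = 0 := by omega
    have h2 : I = ⊥ := Submodule.finrank_eq_zero.1 h1
    rw [h2, Submodule.mem_bot] at hx0I
    exact hx0 hx0I
  have hKpos : 1 ≤ finrank F K := by
    by_contra h
    have h1 : finrank F K = 0 := by omega
    have h2 : K = ⊥ := Submodule.finrank_eq_zero.1 h1
    rw [h2, Submodule.mem_bot] at hx0K
    exact hx0 hx0K
  -- not both trivial
  have hboth : ¬ (finrank F (Fx g I) = finrank F I ∧ finrank F (Fx g K) = finrank F K) := by
    rintro ⟨h1, h2⟩
    have hI' : Fx g I = I := Submodule.eq_of_le_of_finrank_eq inf_le_left h1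
    have hK' : Fx g K = K := Submodule.eq_of_le_of_finrank_eq inf_le_left h2
    have hIfix : ∀ z ∈ I, g *ᵥ z = z := fun z hz => (mem_Fx.1 (hI' ▸ hz)).2
    have hKfix : ∀ z ∈ K, g *ᵥ z = z := fun z hz => (mem_Fx.1 (hK' ▸ hz)).2
    have hsq : (g - 1) * (g - 1) = 0 := by
      apply Matrix.mulVec_injective
      funext y
      rw [zero_mulVec, ← mulVec_mulVec, sub_mulVec, one_mulVec]
      have h3 : g *ᵥ y - y ∈ K := by
        rw [memK, mulVec_sub, mulVec_mulVec, ← hgN, ← mulVec_mulVec, hIfix _ (memI.2 ⟨y, rfl⟩), sub_self]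
      rw [sub_mulVec, one_mulVec, hKfix _ h3, sub_self]
    have : CharP (Matrix (Fin n) (Fin n) F) p := by
      have hne : Nonempty (Fin n) := by
        by_contra he
        rw [not_nonempty_iff] at he
        apply hN
        ext i
        exact (he.false i).elim
      infer_instance
    have hgp : g ^ p = 1 := by
      have h3 : (g - 1) ^ p = g ^ p - 1 := by
        rw [sub_pow_char_of_commute p (Commute.one_right g), one_pow]
      have h4 : (g - 1) ^ p = 0 := by
        obtain ⟨m, hm⟩ : ∃ m, p = m + 2 := ⟨p - 2, by have := hp.out.two_le; omega⟩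
        rw [hm, pow_add, pow_two, hsq, mul_zero]
      rw [h4] at h3
      exact (sub_eq_zero.1 h3.symm)
    have hcop : Nat.Coprime r p := (Nat.coprime_primes hr.out hp.out).2 hrp
    apply hg1
    have h5 := pow_gcd_eq_one.2 ⟨hg, hgp⟩
    rwa [hcop.gcd_eq_one, pow_one] at h5
  have hmv : ∀ Z : Submodule F (Fin n → F), (∀ z ∈ Z, g *ᵥ z ∈ Z) →
      finrank F (Fx g Z) ≠ finrank F Z → finrank F Z - finrank F (Fx g Z) + 2 ≤ n →
      ∃ i, 1 ≤ i ∧ i + 2 ≤ n ∧ r ∣ Fintype.card F ^ i - 1 := by
    intro Z hZ h1 h2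
    have hle : finrank F (Fx g Z) ≤ finrank F Z := Submodule.finrank_mono inf_le_left
    exact ⟨_, by omega, h2, dvd_of_stable hrq hg hZ⟩
  -- a line inside the other subspace
  have hline : ∀ Y Z : Submodule F (Fin n → F), finrank F Y = 1 → (∃ x, x ≠ 0 ∧ x ∈ Y ∧ x ∈ Z) →
      finrank F (Fx g Y) = finrank F Y → 1 ≤ finrank F (Fx g Z) := by
    intro Y Z hY ⟨x, hx0, hxY, hxZ⟩ h
    have hY' : Fx g Y = Y := Submodule.eq_of_le_of_finrank_eq inf_le_left h
    have hfix : g *ᵥ x = x := (mem_Fx.1 (hY' ▸ hxY)).2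
    by_contra hcon
    have h1 : finrank F (Fx g Z) = 0 := by omega
    have h2 := Submodule.finrank_eq_zero.1 h1
    have h3 : x ∈ Fx g Z := mem_Fx.2 ⟨hxZ, hfix⟩
    rw [h2, Submodule.mem_bot] at h3
    exact hx0 h3
  by_cases hIt : finrank F (Fx g I) = finrank F I
  · -- `g` moves `K`
    have hKt : finrank F (Fx g K) ≠ finrank F K := fun h => hboth ⟨hIt, h⟩
    by_cases hd : finrank F I = 1
    · have := hline I K hd ⟨x0, hx0, hx0I, hx0K⟩ hIt
      exact hmv K hKst hKt (by
        have hle : finrank F (Fx g K) ≤ finrank F K := Submodule.finrank_mono inf_le_left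
        omega)
    · exact hmv K hKst hKt (by
        have hle : finrank F (Fx g K) ≤ finrank F K := Submodule.finrank_mono inf_le_left
        omega)
  · by_cases hKt : finrank F (Fx g K) = finrank F K
    · by_cases hd : finrank F K = 1
      · have := hline K I hd ⟨x0, hx0, hx0K, hx0I⟩ hKt
        exact hmv I hIst hIt (by
          have hle : finrank F (Fx g I) ≤ finrank F I := Submodule.finrank_mono inf_le_left
          omega)
      · exact hmv I hIst hIt (by
          have hle : finrank F (Fx g I) ≤ finrank F I := Submodule.finrank_mono inf_le_left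
          omega)
    · -- both are moved
      by_cases hd : finrank F K = 1
      · refine hmv K hKst hKt ?_
        have hle : finrank F (Fx g K) ≤ finrank F K := Submodule.finrank_mono inf_le_left
        omega
      · exact hmv I hIst hIt (by
          have hle : finrank F (Fx g I) ≤ finrank F I := Submodule.finrank_mono inf_le_left
          omega)

end Cfsg.Agent.Lib.CommUnip
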