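import Mathlib
import Cfsg.Agent.S0126
import Cfsg.Agent.Lib.OddPGroup

/-!
# `p`-groups, `p` odd, acting with constant stabiliser order on an elementary abelian group
-/

set_option autoImplicit false
set_option linter.unusedSectionVars false
set_option linter.unusedVariables false

namespace Cfsg.Agent.Lib.ConstStab

open MulAction

variable {P E : Type*} [Group P] [AddCommGroup E] [DistribMulAction P E]

/-- The norm operator of an element. -/
def nrm (p : ℕ) (z : P) (e : E) : E := ∑ i ∈ Finset.range p, z ^ i • e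

lemma nrm_smul_self {p : ℕ} {z : P} (hz : z ^ p = 1) (e : E) : z • nrm p z e = nrm p z e := by
  unfold nrm
  rw [Finset.smul_sum]
  have h1 : ∀ i, z • (z ^ i • e) = z ^ (i + 1) • e := by
    intro i
    rw [smul_smul, pow_succ']
  simp_rw [h1]
  have h2 := Finset.sum_range_succ (fun i => z ^ i • e) p
  have h3 := Finset.sum_range_succ' (fun i => z ^ i • e) p
  simp only [hz, one_smul, pow_zero] at h2 h3
  rw [h2] at h3
  exact (add_right_cancel h3).symm

lemma pow_smul_of_fixed {z : P} {e : E} (h : z • e = e) (i : ℕ) : z ^ i • e = e := by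
  induction i with
  | zero => simp
  | succ i ih => rw [pow_succ, mul_smul, h, ih]

lemma nrm_of_fixed {p : ℕ} {z : P} {e : E} (h : z • e = e) : nrm p z e = p • e := by
  unfold nrm
  simp [pow_smul_of_fixed h]

lemma nrm_comm {p : ℕ} {z h : P} (hc : h * z = z * h) (e : E) :
    nrm p z (h • e) = h • nrm p z e := by
  unfold nrm
  rw [Finset.smul_sum]
  apply Finset.sum_congr rfl
  intro i _
  have : Commute h (z ^ i) := (Commute.pow_right hc i)
  rw [smul_smul, smul_smul, this.eq]

lemma nrm_add {p : ℕ} {z : P} (e f : E) : nrm p z (e + f) = nrm p z e + nrm p z f := by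
  unfold nrm
  simp [smul_add, Finset.sum_add_distrib]

lemma nrm_neg {p : ℕ} {z : P} (e : E) : nrm p z (-e) = - nrm p z e := by
  unfold nrm
  simp [smul_neg, Finset.sum_neg_distrib]

lemma nrm_sub {p : ℕ} {z : P} (e f : E) : nrm p z (e - f) = nrm p z e - nrm p z f := by
  rw [sub_eq_add_neg, nrm_add, nrm_neg, sub_eq_add_neg]

/-- The projection `π = n • nrm`. -/
def prj (n p : ℕ) (z : P) (e : E) : E := n • nrm p z e

section

variable {n p : ℕ} (hinv : ∀ e : E, (n * p) • e = e)
include hinv

lemma prj_of_fixed {z : P} {e : E} (h : z • e = e) : prj n p z e = e := by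
  unfold prj
  rw [nrm_of_fixed h, smul_smul, hinv]

lemma prj_smul_self {z : P} (hz : z ^ p = 1) (e : E) : z • prj n p z e = prj n p z e := by
  unfold prj
  rw [smul_comm, nrm_smul_self hz]

lemma prj_comm {z h : P} (hc : h * z = z * h) (e : E) : prj n p z (h • e) = h • prj n p z e := by
  unfold prj
  rw [nrm_comm hc, smul_comm]

lemma prj_add {z : P} (e f : E) : prj n p z (e + f) = prj n p z e + prj n p z f := by
  unfold prj
  rw [nrm_add, smul_add]

lemma prj_sub {z : P} (e f : E) : prj n p z (e - f) = prj n p z e - prj n p z f := by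
  unfold prj
  rw [nrm_sub, smul_sub]

end

variable [Finite P]

/-- Central elements of order `p` have no nonzero fixed vector. -/
lemma central_fpf [FaithfulSMul P E] {n p : ℕ} (hinv : ∀ e : E, (n * p) • e = e)
    (hconst : ∀ a b : E, a ≠ 0 → b ≠ 0 → Nat.card (stabilizer P a) = Nat.card (stabilizer P b))
    {z : P} (hzc : z ∈ Subgroup.center P) (hzp : z ^ p = 1) (hz1 : z ≠ 1) {a₀ : E}
    (ha₀ : z • a₀ = a₀) : a₀ = 0 := by
  by_contra ha₀0
  obtain ⟨e, he⟩ : ∃ e : E, z • e ≠ e := by
    by_contra hne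
    push Not at hne
    apply hz1
    apply FaithfulSMul.eq_of_smul_eq_smul (α := E)
    intro e
    rw [hne e, one_smul]
  set a₁ := e - prj n p z e with ha₁
  have hπ1 : prj n p z a₁ = 0 := by
    rw [ha₁, prj_sub hinv, prj_of_fixed hinv (prj_smul_self hinv hzp e), sub_self]
  have ha₁0 : a₁ ≠ 0 := by
    intro h
    apply he
    have h2 : e = prj n p z e := sub_eq_zero.mp h
    rw [h2]
    exact prj_smul_self hinv hzp e
  have hπ0 : prj n p z a₀ = a₀ := prj_of_fixed hinv ha₀
  have hb0 : a₀ + a₁ ≠ 0 := by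
    intro h
    have h2 := congrArg (prj n p z) h
    rw [prj_add hinv, hπ0, hπ1, add_zero] at h2
    have h3 : prj n p z (0 : E) = 0 := by
      unfold prj nrm
      simp
    rw [h3] at h2
    exact ha₀0 h2
  have hle1 : stabilizer P (a₀ + a₁) ≤ stabilizer P a₀ := by
    intro h hh
    have hh' : h • (a₀ + a₁) = a₀ + a₁ := hh
    have hcomm : h * z = z * h := (Subgroup.mem_center_iff.mp hzc h)
    have h2 := congrArg (prj n p z) hh'
    rw [smul_add, prj_add hinv, prj_comm hinv hcomm, prj_comm hinv hcomm, hπ0, hπ1, prj_add hinv,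
      hπ0, hπ1, smul_zero, add_zero, add_zero] at h2
    exact h2
  have hle2 : stabilizer P (a₀ + a₁) ≤ stabilizer P a₁ := by
    intro h hh
    have hh' : h • (a₀ + a₁) = a₀ + a₁ := hh
    have h3 : h • a₀ = a₀ := hle1 hh
    rw [smul_add, h3] at hh'
    exact add_left_cancel hh'
  have e1 : stabilizer P (a₀ + a₁) = stabilizer P a₀ :=
    Subgroup.eq_of_le_of_card_ge hle1 (hconst _ _ ha₀0 hb0).le
  have e2 : stabilizer P (a₀ + a₁) = stabilizer P a₁ :=
    Subgroup.eq_of_le_of_card_ge hle2 (hconst _ _ ha₁0 hb0).le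
  have hz2 : z ∈ stabilizer P a₁ := by
    rw [← e2, e1]
    exact ha₀
  have h4 : z • a₁ = a₁ := hz2
  have h5 := prj_of_fixed hinv h4
  rw [hπ1] at h5
  exact ha₁0 h5.symm

/-- No normal elementary abelian subgroup of order `p²`. -/
theorem no_normal_p2 [FaithfulSMul P E] {n p : ℕ} [Fact p.Prime] (hp2 : p ≠ 2)
    (hP : IsPGroup p P) (hinv : ∀ e : E, (n * p) • e = e)
    (hconst : ∀ a b : E, a ≠ 0 → b ≠ 0 → Nat.card (stabilizer P a) = Nat.card (stabilizer P b))
    (A : Subgroup P) (hAn : A.Normal) (hAc : ∀ a ∈ A, ∀ b ∈ A, a * b = b * a)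
    (hAp : ∀ a ∈ A, a ^ p = 1) (hAcard : Nat.card A = p ^ 2) : False := by
  classical
  have hpp : p.Prime := Fact.out
  have hodd : Odd p := hpp.odd_of_ne_two hp2
  have hA0 : A ≠ ⊥ := by
    intro h
    rw [h, Subgroup.card_bot] at hAcard
    have : 1 < p ^ 2 := Nat.one_lt_pow (by norm_num) hpp.one_lt
    omega
  obtain ⟨z, hzA, hz1, hzc⟩ := Cfsg.Agent.Lib.OddPGroup.exists_central_of_normal hP A hAn hA0
  have hzp := hAp z hzA
  have hzo : orderOf z = p := orderOf_eq_prime hzp hz1
  have hz0 : ∀ v : E, z • v = v → v = 0 := fun v hv => central_fpf hinv hconst hzc hzp hz1 hv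
  -- `x ∈ A` outside `⟨z⟩`
  obtain ⟨x, hxA, hxz⟩ : ∃ x ∈ A, x ∉ Subgroup.zpowers z := by
    by_contra hne
    push Not at hne
    have h1 : A ≤ Subgroup.zpowers z := fun x hx => hne x hx
    have h2 := Subgroup.card_le_of_le h1
    rw [Nat.card_zpowers, hzo, hAcard] at h2
    have : p < p ^ 2 := by
      rw [pow_two]
      exact lt_mul_of_one_lt_left hpp.pos hpp.one_lt
    omega
  -- a nonzero vector
  obtain ⟨e, he⟩ : ∃ e : E, z • e ≠ e := by
    by_contra hne
    push Not at hne
    apply hz1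
    apply FaithfulSMul.eq_of_smul_eq_smul (α := E)
    intro e
    rw [hne e, one_smul]
  have he0 : e ≠ 0 := by
    rintro rfl
    exact he (smul_zero z)
  -- the norm of `z^k` vanishes
  have hSz : ∀ k, 1 ≤ k → k < p → ∀ f : E, nrm p (z ^ k) f = 0 := by
    intro k hk1 hkp f
    apply hz0
    have hcop : Nat.Coprime k p :=
      Nat.Coprime.symm ((Nat.Prime.coprime_iff_not_dvd hpp).2 (Nat.not_dvd_of_pos_of_lt hk1 hkp))
    obtain ⟨m, _, hm⟩ := Nat.exists_mul_mod_eq_one_of_coprime hcop hpp.one_lt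
    have h1 : (z ^ k) ^ m = z := by
      rw [← pow_mul]
      conv_lhs => rw [← Nat.mod_add_div (k * m) p, hm]
      rw [pow_add, pow_mul, hzp, one_pow, mul_one, pow_one]
    have h2 : (z ^ k) • nrm p (z ^ k) f = nrm p (z ^ k) f := by
      apply nrm_smul_self
      rw [← pow_mul, mul_comm, pow_mul, hzp, one_pow]
    have h3 := pow_smul_of_fixed h2 m
    rwa [h1] at h3
  have hxzc : x * z = z * x := hAc x hxA z hzA
  -- the sum of the norms
  have hsum : ∑ i ∈ Finset.range p, nrm p (x * z ^ i) e = p • e := by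
    have h1 : ∀ i k : ℕ, (x * z ^ i) ^ k • e = x ^ k • ((z ^ k) ^ i • e) := by
      intro i k
      have hc : Commute x (z ^ i) := (Commute.pow_right hxzc i)
      rw [hc.mul_pow, mul_smul, ← pow_mul, ← pow_mul, mul_comm]
    unfold nrm
    simp_rw [h1]
    rw [Finset.sum_comm]
    simp_rw [← Finset.smul_sum]
    rw [Finset.sum_eq_single 0]
    · simp
    · intro k hk hk0
      have := hSz k (Nat.pos_of_ne_zero hk0) (Finset.mem_range.mp hk) e
      unfold nrm at this
      rw [this, smul_zero]
    · intro h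
      exact absurd (Finset.mem_range.mpr hpp.pos) h
  have hpe : p • e ≠ 0 := by
    intro h
    have h1 := hinv e
    rw [mul_smul, h, smul_zero] at h1
    exact he0 h1.symm
  obtain ⟨i, _, hi⟩ : ∃ i ∈ Finset.range p, nrm p (x * z ^ i) e ≠ 0 := by
    by_contra hne
    push Not at hne
    rw [← hsum] at hpe
    exact hpe (Finset.sum_eq_zero hne)
  set y := x * z ^ i with hy
  have hyA : y ∈ A := A.mul_mem hxA (A.pow_mem hzA i)
  have hyp : y ^ p = 1 := hAp y hyA
  have hy1 : y ≠ 1 := by
    intro h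
    apply hxz
    have : x = (z ^ i)⁻¹ := eq_inv_of_mul_eq_one_left h
    rw [this]
    exact Subgroup.inv_mem _ (Subgroup.pow_mem _ (Subgroup.mem_zpowers z) i)
  have hyo : orderOf y = p := orderOf_eq_prime hyp hy1
  set a := nrm p y e with ha
  have hya : y • a = a := nrm_smul_self hyp e
  -- fixing two independent elements of `A` forces `0`
  have hfix : ∀ u ∈ A, ∀ v ∈ A, u ≠ 1 → v ∉ Subgroup.zpowers u → ∀ c : E, u • c = c → v • c = c → c = 0 := by
    intro u huA v hvA hu1 hvu c huc hvc
    apply hz0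
    have huo : orderOf u = p := orderOf_eq_prime (hAp u huA) hu1
    let F : Subgroup P := stabilizer P c ⊓ A
    have huF : u ∈ F := ⟨huc, huA⟩
    have hvF : v ∈ F := ⟨hvc, hvA⟩
    have hFA : F ≤ A := inf_le_right
    have hdvd : Nat.card F ∣ p ^ 2 := by
      rw [← hAcard]
      exact Subgroup.card_dvd_of_le hFA
    obtain ⟨k, hk, hkc⟩ := (Nat.dvd_prime_pow hpp).mp hdvd
    have hle : Subgroup.zpowers u ≤ F := Subgroup.zpowers_le.mpr huF
    have h1 : p ≤ Nat.card F := by
      have := Subgroup.card_le_of_le hle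
      rwa [Nat.card_zpowers, huo] at this
    have h2 : k = 2 := by
      interval_cases k
      · rw [pow_zero] at hkc
        rw [hkc] at h1
        have := hpp.one_lt
        omega
      · exfalso
        rw [pow_one] at hkc
        have h3 : Subgroup.zpowers u = F := by
          apply Subgroup.eq_of_le_of_card_ge hle
          rw [hkc, Nat.card_zpowers, huo]
        exact hvu (h3 ▸ hvF)
      · rfl
    have h3 : F = A := by
      apply Subgroup.eq_of_le_of_card_ge hFA
      rw [hAcard, hkc, h2]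
    have h4 : z ∈ F := h3 ▸ hzA
    exact h4.1
  -- projection vanishes on vectors fixed by an independent element
  have hprj0 : ∀ u ∈ A, ∀ v ∈ A, u ≠ 1 → v ∉ Subgroup.zpowers u → ∀ c : E, v • c = c →
      prj n p u c = 0 := by
    intro u huA v hvA hu1 hvu c hvc
    apply hfix u huA v hvA hu1 hvu
    · exact prj_smul_self hinv (hAp u huA) c
    · have := prj_comm (n := n) (p := p) hinv (h := v) (z := u) (hAc v hvA u huA) c
      rw [hvc] at this
      exact this.symm
  -- `⟨y⟩` is not normal
  obtain ⟨g, hg⟩ : ∃ g : P, g * y * g⁻¹ ∉ Subgroup.zpowers y := by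
    by_contra hne
    push Not at hne
    have hL : (Subgroup.zpowers y).Normal := by
      constructor
      rintro _ ⟨k, rfl⟩ g
      have h1 : g * y ^ k * g⁻¹ = (g * y * g⁻¹) ^ k := by rw [conj_zpow]
      show g * y ^ k * g⁻¹ ∈ _
      rw [h1]
      exact Subgroup.zpow_mem _ (hne g) k
    have hL0 : Subgroup.zpowers y ≠ ⊥ := by
      simpa using hy1
    obtain ⟨w, hwL, hw1, hwc⟩ :=
      Cfsg.Agent.Lib.OddPGroup.exists_central_of_normal hP _ hL hL0
    obtain ⟨k, rfl⟩ := hwL
    have hwa : y ^ k • a = a := by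
      have : (stabilizer P a) ≥ Subgroup.zpowers y := Subgroup.zpowers_le.mpr hya
      exact this ⟨k, rfl⟩
    have hwp : (y ^ k) ^ p = 1 := by
      rw [← zpow_natCast, ← zpow_mul, mul_comm, zpow_mul, zpow_natCast, hyp, one_zpow]
    exact hi (central_fpf hinv hconst hwc hwp hw1 hwa)
  set y' := g * y * g⁻¹ with hy'
  have hy'A : y' ∈ A := hAn.conj_mem y hyA g
  have hy'1 : y' ≠ 1 := by
    intro h
    apply hy1
    have : y = g⁻¹ * y' * g := by rw [hy']; group
    rw [this, h]; group
  have hy'o : orderOf y' = p := orderOf_eq_prime (hAp y' hy'A) hy'1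
  have hdisj : ∀ u, u ∈ Subgroup.zpowers y → u ∈ Subgroup.zpowers y' → u = 1 := by
    intro u hu hu'
    by_contra hu1
    have huA : u ∈ A := (Subgroup.zpowers_le.mpr hyA) hu
    have huo : orderOf u = p := orderOf_eq_prime (hAp u huA) hu1
    have h1 : Subgroup.zpowers u = Subgroup.zpowers y := by
      apply Subgroup.eq_of_le_of_card_ge (Subgroup.zpowers_le.mpr hu)
      rw [Nat.card_zpowers, Nat.card_zpowers, huo, hyo]
    have h2 : Subgroup.zpowers u = Subgroup.zpowers y' := by
      apply Subgroup.eq_of_le_of_card_ge (Subgroup.zpowers_le.mpr hu')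
      rw [Nat.card_zpowers, Nat.card_zpowers, huo, hy'o]
    apply hg
    rw [← h1, h2]
    exact Subgroup.mem_zpowers y'
  have hyy' : y ∉ Subgroup.zpowers y' := fun h => hy1 (hdisj y (Subgroup.mem_zpowers y) h)
  set a₂ := g • a with ha₂
  have hy'a₂ : y' • a₂ = a₂ := by
    rw [hy', ha₂, mul_smul, mul_smul, inv_smul_smul, hya]
  have ha₂0 : a₂ ≠ 0 := by
    intro h
    apply hi
    rw [ha₂] at h
    exact (smul_eq_zero_iff_eq g).mp h
  have hπya : prj n p y a = a := prj_of_fixed hinv hya
  have hπy'a₂ : prj n p y' a₂ = a₂ := prj_of_fixed hinv hy'a₂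
  have hπya₂ : prj n p y a₂ = 0 := hprj0 y hyA y' hy'A hy1 hg a₂ hy'a₂
  have hπy'a : prj n p y' a = 0 := hprj0 y' hy'A y hyA hy'1 hyy' a hya
  -- generators: conjugates of order `p` generate the same subgroup
  have hsame : ∀ u ∈ A, ∀ v, u ≠ 1 → u ∈ Subgroup.zpowers v → v ∈ A → ∀ c : E, u • c = c → v • c = c := by
    intro u huA v hu1 huv hvA c huc
    have huo : orderOf u = p := orderOf_eq_prime (hAp u huA) hu1
    have hv1 : v ≠ 1 := by
      rintro rfl
      rw [Subgroup.zpowers_one_eq_bot, Subgroup.mem_bot] at huv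
      exact hu1 huv
    have hvo : orderOf v = p := orderOf_eq_prime (hAp v hvA) hv1
    have h1 : Subgroup.zpowers u = Subgroup.zpowers v := by
      apply Subgroup.eq_of_le_of_card_ge (Subgroup.zpowers_le.mpr huv)
      rw [Nat.card_zpowers, Nat.card_zpowers, huo, hvo]
    have h2 : v ∈ Subgroup.zpowers u := h1 ▸ Subgroup.mem_zpowers v
    have h3 : (stabilizer P c) ≥ Subgroup.zpowers u := Subgroup.zpowers_le.mpr huc
    exact h3 h2
  have hb0 : a + a₂ ≠ 0 := by
    intro h
    have h1 : a = -a₂ := eq_neg_of_add_eq_zero_left h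
    apply hi
    apply hfix y hyA y' hy'A hy1 hg a hya
    rw [h1, smul_neg, hy'a₂]
  -- the stabiliser of `a + a₂` lies in that of `a`
  have hle : stabilizer P (a + a₂) ≤ stabilizer P a := by
    intro h hh
    have hh' : h • (a + a₂) = a + a₂ := hh
    rw [smul_add] at hh'
    show h • a = a
    set y₁ := h * y * h⁻¹ with hy₁
    set y₂ := h * y' * h⁻¹ with hy₂
    have hy₁A : y₁ ∈ A := hAn.conj_mem y hyA h
    have hy₂A : y₂ ∈ A := hAn.conj_mem y' hy'A h
    have hy₁1 : y₁ ≠ 1 := by
      intro h0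
      apply hy1
      have : y = h⁻¹ * y₁ * h := by rw [hy₁]; group
      rw [this, h0]; group
    have hy₂1 : y₂ ≠ 1 := by
      intro h0
      apply hy'1
      have : y' = h⁻¹ * y₂ * h := by rw [hy₂]; group
      rw [this, h0]; group
    have hfy₁ : y₁ • (h • a) = h • a := by
      rw [hy₁, mul_smul, mul_smul, inv_smul_smul, hya]
    have hfy₂ : y₂ • (h • a₂) = h • a₂ := by
      rw [hy₂, mul_smul, mul_smul, inv_smul_smul, hy'a₂]
    -- applying the projections to `h a + h a₂ = a + a₂`
    have hπ1 : prj n p y (h • a) + prj n p y (h • a₂) = a := by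
      rw [← prj_add hinv, hh', prj_add hinv, hπya, hπya₂, add_zero]
    have hπ2 : prj n p y' (h • a) + prj n p y' (h • a₂) = a₂ := by
      rw [← prj_add hinv, hh', prj_add hinv, hπy'a₂, hπy'a, zero_add]
    have hP1 : y₁ ∈ Subgroup.zpowers y ∨ y₂ ∈ Subgroup.zpowers y := by
      by_contra hne
      push Not at hne
      rw [hprj0 y hyA y₁ hy₁A hy1 hne.1 _ hfy₁, hprj0 y hyA y₂ hy₂A hy1 hne.2 _ hfy₂, add_zero] at hπ1
      exact hi hπ1.symm
    have hP2 : y₁ ∈ Subgroup.zpowers y' ∨ y₂ ∈ Subgroup.zpowers y' := by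
      by_contra hne
      push Not at hne
      rw [hprj0 y' hy'A y₁ hy₁A hy'1 hne.1 _ hfy₁, hprj0 y' hy'A y₂ hy₂A hy'1 hne.2 _ hfy₂, add_zero] at hπ2
      exact ha₂0 hπ2.symm
    rcases hP1 with h1 | h1
    · rcases hP2 with h2 | h2
      · exact absurd (hdisj y₁ h1 h2) hy₁1
      · -- the good case
        have h3 : y • (h • a) = h • a := hsame y₁ hy₁A y hy₁1 h1 hyA _ hfy₁
        have h4 : y' • (h • a₂) = h • a₂ := hsame y₂ hy₂A y' hy₂1 h2 hy'A _ hfy₂
        rw [prj_of_fixed hinv h3, hprj0 y hyA y' hy'A hy1 hg _ h4, add_zero] at hπ1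
        exact hπ1
    · rcases hP2 with h2 | h2
      · -- the swap case: impossible, `h` has odd order
        exfalso
        obtain ⟨m, hm⟩ : ∃ m, orderOf h = 2 * m + 1 := by
          obtain ⟨k, hk⟩ := (IsPGroup.iff_orderOf.mp hP) h
          have : Odd (orderOf h) := by
            rw [hk]; exact hodd.pow
          exact this
        have hconj : ∀ (u : P) (hu : u ∈ Subgroup.zpowers y'), h * u * h⁻¹ ∈ Subgroup.zpowers y := by
          rintro _ ⟨k, rfl⟩
          have e : h * y' ^ k * h⁻¹ = (h * y' * h⁻¹) ^ k := (conj_zpow (a := h) (b := y') (i := k)).symm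
          simp only
          rw [e]
          exact Subgroup.zpow_mem _ h1 k
        have hconj' : ∀ (u : P) (hu : u ∈ Subgroup.zpowers y), h * u * h⁻¹ ∈ Subgroup.zpowers y' := by
          rintro _ ⟨k, rfl⟩
          have e : h * y ^ k * h⁻¹ = (h * y * h⁻¹) ^ k := (conj_zpow (a := h) (b := y) (i := k)).symm
          simp only
          rw [e]
          exact Subgroup.zpow_mem _ h2 k
        have hpow : ∀ k : ℕ, h ^ (2 * k) * y * (h ^ (2 * k))⁻¹ ∈ Subgroup.zpowers y := by
          intro k
          induction k with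
          | zero => simpa using Subgroup.mem_zpowers y
          | succ k ih =>
            have e : h ^ (2 * (k + 1)) * y * (h ^ (2 * (k + 1)))⁻¹
                = h * (h * (h ^ (2 * k) * y * (h ^ (2 * k))⁻¹) * h⁻¹) * h⁻¹ := by
              have : 2 * (k + 1) = 2 * k + 2 := by ring
              rw [this, pow_add, pow_two]
              have hc : Commute (h ^ (2 * k)) (h * h) := Commute.pow_left (Commute.mul_right (Commute.refl h) (Commute.refl h)) _
              rw [hc.eq]
              group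
            rw [e]
            exact hconj _ (hconj' _ ih)
        have h5 := hconj' _ (hpow m)
        have e : h * (h ^ (2 * m) * y * (h ^ (2 * m))⁻¹) * h⁻¹ = y := by
          have h6 : h ^ (2 * m + 1) = 1 := by rw [← hm]; exact pow_orderOf_eq_one h
          have h7 : h * h ^ (2 * m) = 1 := by rw [← pow_succ']; exact h6
          calc h * (h ^ (2 * m) * y * (h ^ (2 * m))⁻¹) * h⁻¹
              = (h * h ^ (2 * m)) * y * (h * h ^ (2 * m))⁻¹ := by group
            _ = y := by rw [h7]; group
        rw [e] at h5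
        exact hyy' h5
      · exact absurd (hdisj y₂ h1 h2) hy₂1
  have heq : stabilizer P (a + a₂) = stabilizer P a :=
    Subgroup.eq_of_le_of_card_ge hle (hconst _ _ hi hb0).le
  have hy2 : y ∈ stabilizer P (a + a₂) := by
    rw [heq]
    exact hya
  have h8 : y • (a + a₂) = a + a₂ := hy2
  rw [smul_add, hya] at h8
  have h9 : y • a₂ = a₂ := add_left_cancel h8
  exact ha₂0 (hfix y hyA y' hy'A hy1 hg a₂ h9 hy'a₂)

end Cfsg.Agent.Lib.ConstStab
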