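import Mathlib

/-!
# The B. H. Neumann bound, and P. M. Neumann's theorem for involution centralizers

* `card_commutator_le_of_class_le`: if all conjugacy classes of `K` have at most `M` elements, then
  the commutator subgroup of `K` has bounded order.
* `exists_large_subset`: an involution with centralizer of order at most `n` forces many elements to
  have small classes.
-/

set_option autoImplicit false
set_option linter.unusedSectionVars false
set_option linter.style.haveILetI false

namespace Cfsg.Agent.Lib.NeumannBFC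

open Subgroup
open scoped commutatorElement

universe u

section Classes

variable {G : Type u} [Group G]

/-- The size of the class of `z`. -/
noncomputable abbrev cl (z : G) : ℕ := (centralizer ({z} : Set G)).index

theorem centralizer_inv (z : G) :
    centralizer ({z⁻¹} : Set G) = centralizer ({z} : Set G) := by
  ext x
  rw [mem_centralizer_singleton_iff, mem_centralizer_singleton_iff]
  constructor
  · intro h
    have hc : Commute x z⁻¹ := h
    have := hc.inv_right
    rwa [inv_inv] at this
  · intro h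
    have hc : Commute x z := h
    exact hc.inv_right

theorem cl_inv (z : G) : cl z⁻¹ = cl z := by
  unfold cl
  rw [centralizer_inv]

theorem inf_le_centralizer_mul (a b : G) :
    centralizer ({a} : Set G) ⊓ centralizer ({b} : Set G) ≤ centralizer ({a * b} : Set G) := by
  intro x hx
  have h1 := (Subgroup.mem_inf.mp hx).1
  have h2 := (Subgroup.mem_inf.mp hx).2
  rw [mem_centralizer_singleton_iff] at h1 h2
  rw [mem_centralizer_singleton_iff]
  have hc1 : Commute x a := h1
  have hc2 : Commute x b := h2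
  exact hc1.mul_right hc2

theorem cl_mul_le [Finite G] (a b : G) : cl (a * b) ≤ cl a * cl b := by
  refine le_trans ?_ index_inf_le
  apply Subgroup.index_antitone (inf_le_centralizer_mul a b)

theorem cl_one : cl (1 : G) = 1 := by
  unfold cl
  rw [Subgroup.index_eq_one]
  ext x
  simp [mem_centralizer_singleton_iff]

section Finset

variable [Finite G]

open Classical in
/-- The class of `z` as a finset. -/
noncomputable def clF (z : G) : Finset G :=
  letI := Fintype.ofFinite G
  Finset.univ.image (fun g => g * z * g⁻¹)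

theorem mem_clF {z w : G} : w ∈ clF z ↔ ∃ g, g * z * g⁻¹ = w := by
  classical
  letI := Fintype.ofFinite G
  simp [clF]

theorem card_clF (z : G) : (clF z).card = cl z := by
  classical
  letI := Fintype.ofFinite G
  letI : Fintype (G ⧸ centralizer ({z} : Set G)) := Fintype.ofFinite _
  let L : G ⧸ centralizer ({z} : Set G) → G :=
    Quotient.lift (fun g => g * z * g⁻¹) (by
      intro g h hgh
      have h1 : g⁻¹ * h ∈ centralizer ({z} : Set G) := QuotientGroup.leftRel_apply.mp hgh
      rw [mem_centralizer_singleton_iff] at h1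
      have h2 : g⁻¹ * h * z = z * (g⁻¹ * h) := h1
      show g * z * g⁻¹ = h * z * h⁻¹
      have h3 : h * z = g * z * g⁻¹ * h := by
        calc h * z = g * (g⁻¹ * h * z) := by group
          _ = g * (z * (g⁻¹ * h)) := by rw [h2]
          _ = g * z * g⁻¹ * h := by group
      rw [h3]
      group)
  have hL : Function.Injective L := by
    intro a b
    induction a using QuotientGroup.induction_on with
    | H g =>
      induction b using QuotientGroup.induction_on with
      | H h =>
        intro hab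
        have hab' : g * z * g⁻¹ = h * z * h⁻¹ := hab
        apply QuotientGroup.eq.mpr
        rw [mem_centralizer_singleton_iff]
        show g⁻¹ * h * z = z * (g⁻¹ * h)
        calc g⁻¹ * h * z = g⁻¹ * (h * z * h⁻¹) * h := by group
          _ = g⁻¹ * (g * z * g⁻¹) * h := by rw [hab']
          _ = z * (g⁻¹ * h) := by group
  have himg : clF z = Finset.univ.image L := by
    ext w
    rw [mem_clF, Finset.mem_image]
    constructor
    · rintro ⟨g, rfl⟩
      exact ⟨(g : G ⧸ centralizer ({z} : Set G)), Finset.mem_univ _, rfl⟩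
    · rintro ⟨a, _, rfl⟩
      induction a using QuotientGroup.induction_on with
      | H g => exact ⟨g, rfl⟩
  rw [himg, Finset.card_image_of_injective _ hL, Finset.card_univ, ← Nat.card_eq_fintype_card]
  rfl

end Finset

end Classes

section BFC

variable {K : Type u} [Group K] [Finite K]

/-- Bound for the number of commutators. -/
def commBound (M : ℕ) : ℕ := M ^ (M + 1) * M ^ 2 * M

/-- If all classes have at most `M` elements, there are at most `commBound M` commutators. -/
theorem card_commutatorSet_le {M : ℕ} (hM : ∀ z : K, cl z ≤ M) :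
    Nat.card (commutatorSet K) ≤ commBound M := by
  classical
  letI := Fintype.ofFinite K
  -- an element with the largest class
  obtain ⟨x, -, hx⟩ := Finset.exists_max_image Finset.univ (fun z : K => cl z)
    ⟨1, Finset.mem_univ _⟩
  set C := centralizer ({x} : Set K) with hC
  letI : Fintype (K ⧸ C) := Fintype.ofFinite _
  let f : K ⧸ C → K := Quotient.out
  have hf : ∀ q : K ⧸ C, ((f q : K) : K ⧸ C) = q := fun q => QuotientGroup.out_eq' q
  let Y : Subgroup K := C ⊓ ⨅ q : K ⧸ C, centralizer ({f q} : Set K)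
  have hcardq : Fintype.card (K ⧸ C) = cl x := by
    rw [← Nat.card_eq_fintype_card]
    rfl
  have hYidx : Y.index ≤ M ^ (M + 1) := by
    have hMpos : 1 ≤ M := by
      have h0 : 0 < cl (1 : K) := Nat.pos_of_ne_zero Subgroup.index_ne_zero_of_finite
      exact h0.trans_le (hM 1)
    calc Y.index ≤ C.index * (⨅ q : K ⧸ C, centralizer ({f q} : Set K)).index := index_inf_le
      _ ≤ M * ∏ q : K ⧸ C, (centralizer ({f q} : Set K)).index :=
          Nat.mul_le_mul (hM x) (index_iInf_le _)
      _ ≤ M * ∏ _q : K ⧸ C, M := Nat.mul_le_mul_left _ (Finset.prod_le_prod' fun q _ => hM _)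
      _ = M * M ^ cl x := by
          rw [Finset.prod_const, Finset.card_univ, hcardq]
      _ ≤ M * M ^ M := Nat.mul_le_mul_left _ (Nat.pow_le_pow_right hMpos (hM x))
      _ = M ^ (M + 1) := by rw [pow_succ, mul_comm]
  -- the key property of `Y`
  have hkey : ∀ y ∈ Y, ∀ g : K, ∃ u ∈ clF x, ∃ v ∈ clF x, g * y * g⁻¹ * y⁻¹ = u⁻¹ * v := by
    intro y hy g
    have hyC : ∀ q : K ⧸ C, f q * y * (f q)⁻¹ = y := by
      intro q
      have h1 : y ∈ centralizer ({f q} : Set K) := (Subgroup.mem_iInf.mp (Subgroup.mem_inf.mp hy).2) q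
      rw [mem_centralizer_singleton_iff] at h1
      have h2 : y * f q = f q * y := h1
      rw [← h2]
      group
    have hyx : x * y = y * x := by
      have h1 := (Subgroup.mem_inf.mp hy).1
      rw [hC, mem_centralizer_singleton_iff] at h1
      exact h1.symm
    let φ : K ⧸ C → K := fun q => f q * (x * y) * (f q)⁻¹
    have hφ : ∀ q, φ q = (f q * x * (f q)⁻¹) * y := by
      intro q
      show f q * (x * y) * (f q)⁻¹ = _
      have := hyC q
      calc f q * (x * y) * (f q)⁻¹ = (f q * x * (f q)⁻¹) * (f q * y * (f q)⁻¹) := by group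
        _ = _ := by rw [this]
    have hφinj : Function.Injective φ := by
      intro q₁ q₂ h
      rw [hφ, hφ] at h
      have h1 := mul_right_cancel h
      rw [← hf q₁, ← hf q₂]
      apply QuotientGroup.eq.mpr
      rw [hC, mem_centralizer_singleton_iff]
      show (f q₁)⁻¹ * f q₂ * x = x * ((f q₁)⁻¹ * f q₂)
      have h2 : f q₂ * x = f q₁ * x * (f q₁)⁻¹ * f q₂ := by
        calc f q₂ * x = (f q₂ * x * (f q₂)⁻¹) * f q₂ := by group
          _ = (f q₁ * x * (f q₁)⁻¹) * f q₂ := by rw [h1]
      calc (f q₁)⁻¹ * f q₂ * x = (f q₁)⁻¹ * (f q₂ * x) := by group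
        _ = (f q₁)⁻¹ * (f q₁ * x * (f q₁)⁻¹ * f q₂) := by rw [h2]
        _ = x * ((f q₁)⁻¹ * f q₂) := by group
    have himg : Finset.univ.image φ = clF (x * y) := by
      apply Finset.eq_of_subset_of_card_le
      · intro w hw
        obtain ⟨q, _, rfl⟩ := Finset.mem_image.mp hw
        exact mem_clF.mpr ⟨f q, rfl⟩
      · rw [Finset.card_image_of_injective _ hφinj, Finset.card_univ, hcardq, card_clF]
        exact hx _ (Finset.mem_univ _)
    have hmem : g * (x * y) * g⁻¹ ∈ Finset.univ.image φ := by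
      rw [himg]
      exact mem_clF.mpr ⟨g, rfl⟩
    obtain ⟨q, _, hq⟩ := Finset.mem_image.mp hmem
    rw [hφ] at hq
    refine ⟨g * x * g⁻¹, mem_clF.mpr ⟨g, rfl⟩, f q * x * (f q)⁻¹, mem_clF.mpr ⟨f q, rfl⟩, ?_⟩
    have h2 : (g * x * g⁻¹) * (g * y * g⁻¹) = (f q * x * (f q)⁻¹) * y := by
      rw [hq]
      group
    calc g * y * g⁻¹ * y⁻¹ = (g * x * g⁻¹)⁻¹ * ((g * x * g⁻¹) * (g * y * g⁻¹)) * y⁻¹ := by group
      _ = (g * x * g⁻¹)⁻¹ * ((f q * x * (f q)⁻¹) * y) * y⁻¹ := by rw [h2]
      _ = _ := by group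
  -- the finset containing all commutators
  letI : Fintype (K ⧸ Y) := Fintype.ofFinite _
  let r : K ⧸ Y → K := Quotient.out
  have hr : ∀ q : K ⧸ Y, ((r q : K) : K ⧸ Y) = q := fun q => QuotientGroup.out_eq' q
  let T : Finset K := (clF x ×ˢ clF x).image (fun p => p.1⁻¹ * p.2)
  have hTcard : T.card ≤ M ^ 2 := by
    calc T.card ≤ (clF x ×ˢ clF x).card := Finset.card_image_le
      _ = cl x * cl x := by rw [Finset.card_product, card_clF]
      _ ≤ M * M := Nat.mul_le_mul (hM x) (hM x)
      _ = M ^ 2 := (pow_two M).symm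
  let W : Finset K := Finset.univ.biUnion (fun q : K ⧸ Y =>
    (T ×ˢ clF (r q)⁻¹).image (fun p => r q * p.1 * (r q)⁻¹ * (r q * p.2)))
  have hWcard : W.card ≤ commBound M := by
    calc W.card ≤ ∑ q : K ⧸ Y, ((T ×ˢ clF (r q)⁻¹).image
          (fun p => r q * p.1 * (r q)⁻¹ * (r q * p.2))).card := Finset.card_biUnion_le
      _ ≤ ∑ _q : K ⧸ Y, M ^ 2 * M := by
          apply Finset.sum_le_sum
          intro q _
          calc _ ≤ (T ×ˢ clF (r q)⁻¹).card := Finset.card_image_le
            _ = T.card * (clF (r q)⁻¹).card := Finset.card_product _ _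
            _ ≤ M ^ 2 * M := Nat.mul_le_mul hTcard (by rw [card_clF]; exact hM _)
      _ = Y.index * (M ^ 2 * M) := by
          rw [Finset.sum_const, Finset.card_univ, smul_eq_mul, ← Nat.card_eq_fintype_card]
          rfl
      _ ≤ M ^ (M + 1) * (M ^ 2 * M) := Nat.mul_le_mul_right _ hYidx
      _ = commBound M := by unfold commBound; ring
  have hsub : commutatorSet K ⊆ (W : Set K) := by
    rintro _ ⟨a, b, rfl⟩
    have hmem : (r (a : K ⧸ Y))⁻¹ * a ∈ Y := by
      apply QuotientGroup.eq.mp
      rw [hr]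
    set c := r (a : K ⧸ Y) with hc
    set y := c⁻¹ * a with hy
    have hay : a = c * y := by rw [hy]; group
    obtain ⟨u, hu, v, hv, huv⟩ := hkey y hmem b
    have hτ : v⁻¹ * u ∈ T := by
      apply Finset.mem_image.mpr
      exact ⟨(v, u), Finset.mem_product.mpr ⟨hv, hu⟩, rfl⟩
    have hw : b * c⁻¹ * b⁻¹ ∈ clF c⁻¹ := mem_clF.mpr ⟨b, rfl⟩
    rw [Finset.mem_coe]
    apply Finset.mem_biUnion.mpr
    refine ⟨(a : K ⧸ Y), Finset.mem_univ _, ?_⟩
    apply Finset.mem_image.mpr
    refine ⟨(v⁻¹ * u, b * c⁻¹ * b⁻¹), Finset.mem_product.mpr ⟨hτ, hw⟩, ?_⟩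
    show c * (v⁻¹ * u) * c⁻¹ * (c * (b * c⁻¹ * b⁻¹)) = ⁅a, b⁆
    have h1 : v⁻¹ * u = y * b * y⁻¹ * b⁻¹ := by
      have h2 : (b * y * b⁻¹ * y⁻¹)⁻¹ = (u⁻¹ * v)⁻¹ := by rw [huv]
      rw [← inv_inj.mpr rfl] at h2
      calc v⁻¹ * u = (u⁻¹ * v)⁻¹ := by group
        _ = (b * y * b⁻¹ * y⁻¹)⁻¹ := by rw [huv]
        _ = y * b * y⁻¹ * b⁻¹ := by group
    rw [h1, hay, commutatorElement_def]
    group
  calc Nat.card (commutatorSet K) = (commutatorSet K).ncard := Nat.card_coe_set_eq _
    _ ≤ (W : Set K).ncard := Set.ncard_le_ncard hsub (Finset.finite_toSet W)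
    _ = W.card := Set.ncard_coe_finset W
    _ ≤ commBound M := hWcard

/-- **B. H. Neumann's theorem, with a bound.** -/
theorem card_commutator_le_of_class_le {M : ℕ} (hM : ∀ z : K, cl z ≤ M) :
    Nat.card (commutator K) ≤ cardCommutatorBound (commBound M) := by
  have h1 := card_commutator_le_of_finite_commutatorSet (G := K)
  refine h1.trans ?_
  unfold cardCommutatorBound
  have h2 := card_commutatorSet_le hM
  have hpos : 0 < Nat.card (commutatorSet K) := Nat.card_pos
  set a := Nat.card (commutatorSet K)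
  set b := commBound M
  have hb : 0 < b := lt_of_lt_of_le hpos h2
  calc (a ^ (2 * a)) ^ (a ^ (2 * a + 1) + 1) ≤ (b ^ (2 * a)) ^ (a ^ (2 * a + 1) + 1) :=
        Nat.pow_le_pow_left (Nat.pow_le_pow_left h2 _) _
    _ ≤ (b ^ (2 * b)) ^ (a ^ (2 * a + 1) + 1) :=
        Nat.pow_le_pow_left (Nat.pow_le_pow_right hb (by omega)) _
    _ ≤ (b ^ (2 * b)) ^ (b ^ (2 * b + 1) + 1) := by
        apply Nat.pow_le_pow_right (Nat.pow_pos hb)
        have : a ^ (2 * a + 1) ≤ b ^ (2 * b + 1) :=
          (Nat.pow_le_pow_left h2 _).trans (Nat.pow_le_pow_right hb (by omega))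
        omega

end BFC

section Words

variable {X : Type u} [Group X]

/-- The words of length `i` in `S`. -/
def wordSet (S : Set X) : ℕ → Set X
  | 0 => {1}
  | i + 1 => {z | ∃ b ∈ wordSet S i, ∃ s ∈ S, z = b * s}

theorem wordSet_succ_mono {S : Set X} (h1 : (1 : X) ∈ S) (i : ℕ) :
    wordSet S i ⊆ wordSet S (i + 1) := fun z hz => ⟨z, hz, 1, h1, by simp⟩

theorem wordSet_mono {S : Set X} (h1 : (1 : X) ∈ S) {i j : ℕ} (hij : i ≤ j) :
    wordSet S i ⊆ wordSet S j := by
  induction j, hij using Nat.le_induction with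
  | base => exact subset_rfl
  | succ j _ ih => exact ih.trans (wordSet_succ_mono h1 j)

theorem one_mem_wordSet {S : Set X} (h1 : (1 : X) ∈ S) (i : ℕ) : (1 : X) ∈ wordSet S i :=
  wordSet_mono h1 (Nat.zero_le i) rfl

theorem cl_le_of_mem_wordSet [Finite X] {S : Set X} {m : ℕ} (hS : ∀ s ∈ S, cl s ≤ m) :
    ∀ (i : ℕ) (z : X), z ∈ wordSet S i → cl z ≤ m ^ i := by
  intro i
  induction i with
  | zero =>
    intro z hz
    rw [show z = 1 from hz, cl_one]
    simp
  | succ i ih =>
    rintro z ⟨b, hb, s, hs, rfl⟩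
    calc cl (b * s) ≤ cl b * cl s := cl_mul_le b s
      _ ≤ m ^ i * m := Nat.mul_le_mul (ih b hb) (hS s hs)
      _ = m ^ (i + 1) := (pow_succ m i).symm

theorem mem_wordSet_of_stable {S : Set X} (h1 : (1 : X) ∈ S) (hsymm : ∀ s ∈ S, s⁻¹ ∈ S) {i : ℕ}
    (hst : wordSet S (i + 1) ⊆ wordSet S i) {z : X} (hz : z ∈ Subgroup.closure S) :
    z ∈ wordSet S i := by
  induction hz using Subgroup.closure_induction_right with
  | one => exact one_mem_wordSet h1 i
  | mul_right x _ y hy ih => exact hst ⟨x, ih, y, hy, rfl⟩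
  | mul_inv_cancel x _ y hy ih => exact hst ⟨x, ih, y⁻¹, hsymm y hy, rfl⟩

theorem wordSet_growth [Finite X] {S : Set X} (h1 : (1 : X) ∈ S) (hsymm : ∀ s ∈ S, s⁻¹ ∈ S) {i : ℕ}
    {z : X} (hz : z ∈ wordSet S (i + 2)) (hz' : z ∉ wordSet S (i + 1)) :
    (wordSet S i).ncard + S.ncard ≤ (wordSet S (i + 3)).ncard := by
  have hsub : wordSet S i ∪ (fun s => z * s) '' S ⊆ wordSet S (i + 3) := by
    apply Set.union_subset (wordSet_mono h1 (by omega))
    rintro _ ⟨s, hs, rfl⟩
    exact ⟨z, hz, s, hs, rfl⟩
  have hdisj : Disjoint (wordSet S i) ((fun s => z * s) '' S) := by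
    rw [Set.disjoint_left]
    rintro b hb ⟨s, hs, rfl⟩
    apply hz'
    exact ⟨z * s, hb, s⁻¹, hsymm s hs, by group⟩
  calc (wordSet S i).ncard + S.ncard
      = (wordSet S i).ncard + ((fun s => z * s) '' S).ncard := by
        rw [Set.ncard_image_of_injective S (mul_right_injective z)]
    _ = (wordSet S i ∪ (fun s => z * s) '' S).ncard :=
        (Set.ncard_union_eq hdisj (Set.toFinite _) (Set.toFinite _)).symm
    _ ≤ _ := Set.ncard_le_ncard hsub (Set.toFinite _)

/-- A symmetric subset of density at least `1 / d` generates its subgroup in `3 d + 1` steps. -/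
theorem closure_subset_wordSet [Finite X] {S : Set X} (h1 : (1 : X) ∈ S)
    (hsymm : ∀ s ∈ S, s⁻¹ ∈ S) {d : ℕ} (hd : Nat.card X ≤ d * S.ncard) {z : X}
    (hz : z ∈ Subgroup.closure S) : z ∈ wordSet S (3 * d + 1) := by
  by_contra hcon
  have hgrow : ∀ j : ℕ, j ≤ d + 1 → j * S.ncard ≤ (wordSet S (3 * j)).ncard := by
    intro j
    induction j with
    | zero => intro _; simp
    | succ j ih =>
      intro hj
      have hj1 : z ∉ wordSet S (3 * j + 1) := fun h =>
        hcon (wordSet_mono h1 (by omega) h)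
      have hex : ∃ w, w ∈ wordSet S (3 * j + 2) ∧ w ∉ wordSet S (3 * j + 1) := by
        by_contra hno
        push Not at hno
        exact hj1 (mem_wordSet_of_stable h1 hsymm (i := 3 * j + 1) hno hz)
      obtain ⟨w, hw, hw'⟩ := hex
      have h2 := wordSet_growth (i := 3 * j) h1 hsymm hw hw'
      have h3 := ih (by omega)
      rw [show 3 * (j + 1) = 3 * j + 3 by ring, add_mul, one_mul]
      omega
  have h2 := hgrow (d + 1) le_rfl
  have h3 : (wordSet S (3 * (d + 1))).ncard ≤ Nat.card X := by
    rw [← Set.ncard_univ]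
    exact Set.ncard_le_ncard (Set.subset_univ _) (Set.toFinite _)
  have h4 : 0 < S.ncard := (Set.ncard_pos (Set.toFinite S)).mpr ⟨1, h1⟩
  rw [add_mul, one_mul] at h2
  omega

/-- The index of the subgroup generated by a set of density at least `1 / d`. -/
theorem index_closure_le [Finite X] {S : Set X} {d : ℕ} (hd : Nat.card X ≤ d * S.ncard) :
    (Subgroup.closure S).index ≤ d := by
  have h1 := Subgroup.index_mul_card (Subgroup.closure S)
  have h2 : S.ncard ≤ Nat.card (Subgroup.closure S) := by
    have h5 : Nat.card (Subgroup.closure S) = ((Subgroup.closure S : Subgroup X) : Set X).ncard :=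
      Nat.card_coe_set_eq _
    rw [h5]
    exact Set.ncard_le_ncard Subgroup.subset_closure (Set.toFinite _)
  have h3 : 0 < Nat.card (Subgroup.closure S) := Nat.card_pos
  have h4 : (Subgroup.closure S).index * Nat.card (Subgroup.closure S) ≤
      d * Nat.card (Subgroup.closure S) := by
    rw [h1]
    exact hd.trans (Nat.mul_le_mul_left _ h2)
  exact Nat.le_of_mul_le_mul_right h4 h3

end Words

section Density

variable {X : Type u} [Group X] [Finite X]

/-- Many elements have small classes when an involution has a small centralizer. -/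
theorem card_le_small_classes {t : X} (ht : orderOf t = 2) {n : ℕ}
    (hn : Nat.card (centralizer ({t} : Set X)) ≤ n) :
    Nat.card X ≤ 2 * n ^ 2 * {g : X | cl g ≤ 2 * n ^ 2}.ncard := by
  classical
  letI := Fintype.ofFinite X
  set N := Nat.card X with hN
  have hNpos : 0 < N := Nat.card_pos
  set T := clF t with hT
  have htt : t * t = 1 := by
    have := pow_orderOf_eq_one t
    rwa [ht, pow_two] at this
  have hTinv : ∀ s ∈ T, s * s = 1 := by
    intro s hs
    obtain ⟨c, rfl⟩ := mem_clF.mp hs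
    calc c * t * c⁻¹ * (c * t * c⁻¹) = c * (t * t) * c⁻¹ := by group
      _ = 1 := by rw [htt]; group
  have hTN : N ≤ T.card * n := by
    have h1 := Subgroup.index_mul_card (centralizer ({t} : Set X))
    rw [hT, card_clF, hN, ← h1]
    exact Nat.mul_le_mul_left _ hn
  have hTle : T.card ≤ N := by
    rw [hN, Nat.card_eq_fintype_card]
    exact Finset.card_le_univ T
  let P : Finset (X × X) := T ×ˢ T
  have hP : P.card = T.card ^ 2 := by
    show (T ×ˢ T).card = _
    rw [Finset.card_product, pow_two]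
  let F : X → Finset (X × X) := fun g => P.filter (fun q => q.1 * q.2 = g)
  have hsum : P.card = ∑ g : X, (F g).card :=
    Finset.card_eq_sum_card_fiberwise (f := fun q : X × X => q.1 * q.2) (fun _ _ => Finset.mem_univ _)
  -- bound one: by `|T|`
  have hF1 : ∀ g, (F g).card ≤ T.card := by
    intro g
    apply Finset.card_le_card_of_injOn (fun q => q.1)
    · intro q hq
      have hq' := Finset.mem_filter.mp hq
      exact (Finset.mem_product.mp hq'.1).1
    · intro q hq q' hq' h
      have h1 := (Finset.mem_filter.mp hq).2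
      have h2 := (Finset.mem_filter.mp hq').2
      have h3 : q.1 = q'.1 := h
      have h4 : q.2 = q'.2 := by
        apply mul_left_cancel (a := q.1)
        rw [h1, h3, h2]
      exact Prod.ext h3 h4
  -- bound two: by `|C(g)|`
  have hF2 : ∀ g, (F g).card ≤ Nat.card (centralizer ({g} : Set X)) := by
    intro g
    rcases (F g).eq_empty_or_nonempty with h | ⟨q₀, hq₀⟩
    · rw [h]
      simp
    · have hinv : ∀ q ∈ F g, q.1 * g * q.1⁻¹ = g⁻¹ := by
        intro q hq
        have h1 := (Finset.mem_filter.mp hq).2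
        have h2 := Finset.mem_product.mp (Finset.mem_filter.mp hq).1
        have h3 := hTinv _ h2.1
        have h4 := hTinv _ h2.2
        have h5 : q.1⁻¹ = q.1 := inv_eq_of_mul_eq_one_left h3
        have h6 : q.2⁻¹ = q.2 := inv_eq_of_mul_eq_one_left h4
        rw [← h1, h5, mul_inv_rev, h5, h6]
        calc q.1 * (q.1 * q.2) * q.1 = (q.1 * q.1) * q.2 * q.1 := by group
          _ = q.2 * q.1 := by rw [h3, one_mul]
      have hmem : ∀ q : F g, q₀.1⁻¹ * q.1.1 ∈ centralizer ({g} : Set X) := by
        intro q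
        rw [mem_centralizer_singleton_iff]
        show q₀.1⁻¹ * q.1.1 * g = g * (q₀.1⁻¹ * q.1.1)
        have h1 := hinv q.1 q.2
        have h2 := hinv q₀ hq₀
        have h3 : q₀.1 * g * q₀.1⁻¹ = q.1.1 * g * q.1.1⁻¹ := by rw [h1, h2]
        calc q₀.1⁻¹ * q.1.1 * g = q₀.1⁻¹ * (q.1.1 * g * q.1.1⁻¹) * q.1.1 := by group
          _ = q₀.1⁻¹ * (q₀.1 * g * q₀.1⁻¹) * q.1.1 := by rw [h3]
          _ = g * (q₀.1⁻¹ * q.1.1) := by group
      let φ : F g → centralizer ({g} : Set X) := fun q => ⟨q₀.1⁻¹ * q.1.1, hmem q⟩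
      have hφ : Function.Injective φ := by
        intro q q' h
        have h1 : q₀.1⁻¹ * q.1.1 = q₀.1⁻¹ * q'.1.1 := congrArg Subtype.val h
        have h2 : q.1.1 = q'.1.1 := mul_left_cancel h1
        have h3 := (Finset.mem_filter.mp q.2).2
        have h4 := (Finset.mem_filter.mp q'.2).2
        have h5 : q.1.2 = q'.1.2 := by
          apply mul_left_cancel (a := q.1.1)
          rw [h3, h2, h4]
        exact Subtype.ext (Prod.ext h2 h5)
      have := Nat.card_le_card_of_injective φ hφ
      rwa [Nat.card_eq_fintype_card, Fintype.card_coe] at this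
  let Sf : Finset X := Finset.univ.filter (fun g => cl g ≤ 2 * n ^ 2)
  have hSf : {g : X | cl g ≤ 2 * n ^ 2}.ncard = Sf.card := by
    have : {g : X | cl g ≤ 2 * n ^ 2} = (Sf : Set X) := by
      ext g
      simp [Sf]
    rw [this, Set.ncard_coe_finset]
  rw [hSf]
  have hbound : ∀ g : X, 2 * n ^ 2 * (F g).card ≤ (if g ∈ Sf then 2 * n ^ 2 * N else N) := by
    intro g
    by_cases hg : g ∈ Sf
    · rw [if_pos hg]
      exact Nat.mul_le_mul_left _ ((hF1 g).trans hTle)
    · rw [if_neg hg]
      have h1 : 2 * n ^ 2 < cl g := by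
        by_contra h2
        exact hg (Finset.mem_filter.mpr ⟨Finset.mem_univ _, not_lt.mp h2⟩)
      have h2 := Subgroup.index_mul_card (centralizer ({g} : Set X))
      calc 2 * n ^ 2 * (F g).card ≤ cl g * Nat.card (centralizer ({g} : Set X)) :=
            Nat.mul_le_mul h1.le (hF2 g)
        _ = N := h2
  have hsum2 : 2 * n ^ 2 * T.card ^ 2 ≤ Sf.card * (2 * n ^ 2 * N) + N * N := by
    rw [← hP, hsum, Finset.mul_sum]
    calc ∑ g, 2 * n ^ 2 * (F g).card ≤ ∑ g, (if g ∈ Sf then 2 * n ^ 2 * N else N) :=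
          Finset.sum_le_sum fun g _ => hbound g
      _ = ∑ g ∈ Finset.univ.filter (· ∈ Sf), 2 * n ^ 2 * N +
          ∑ g ∈ Finset.univ.filter (· ∉ Sf), N := Finset.sum_ite _ _
      _ ≤ Sf.card * (2 * n ^ 2 * N) + N * N := by
          apply Nat.add_le_add
          · rw [Finset.sum_const, smul_eq_mul]
            apply Nat.mul_le_mul_right
            apply Finset.card_le_card
            intro g hg
            exact (Finset.mem_filter.mp hg).2
          · rw [Finset.sum_const, smul_eq_mul]
            apply Nat.mul_le_mul_right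
            calc _ ≤ Fintype.card X := Finset.card_le_univ _
              _ = N := by rw [hN, Nat.card_eq_fintype_card]
  have hsq : N ^ 2 ≤ T.card ^ 2 * n ^ 2 := by
    rw [← mul_pow]
    exact Nat.pow_le_pow_left hTN 2
  have h3 : 2 * N ^ 2 ≤ Sf.card * (2 * n ^ 2 * N) + N * N := by
    calc 2 * N ^ 2 ≤ 2 * (T.card ^ 2 * n ^ 2) := Nat.mul_le_mul_left _ hsq
      _ = 2 * n ^ 2 * T.card ^ 2 := by ring
      _ ≤ _ := hsum2
  have h4 : N * N ≤ (2 * n ^ 2 * Sf.card) * N := by nlinarith
  exact Nat.le_of_mul_le_mul_right h4 hNpos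

end Density

end Cfsg.Agent.Lib.NeumannBFC
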