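import Mathlib
import Cfsg.Agent.Lib.NeumannBFC

/-!
# Bounded classes: from elements of prime power order to all elements

If all elements of prime power order of a finite group have at most `L` conjugates, then all elements
have at most `L ^ L` conjugates.
-/

set_option autoImplicit false
set_option linter.unusedSectionVars false
set_option linter.style.haveILetI false

namespace Cfsg.Agent.Lib.CopBdA

open Subgroup Cfsg.Agent.Lib.NeumannBFC

universe u

variable {K : Type u} [Group K] [Finite K]

/-- Elements of prime power order (including the identity). -/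
def IsPP (w : K) : Prop := ∃ p n : ℕ, p.Prime ∧ w ^ (p ^ n) = 1

/-- Splitting off the part for the smallest prime. -/
theorem exists_split (g : K) (hg : orderOf g ≠ 1) :
    ∃ (g1 g2 : K) (r a : ℕ), r.Prime ∧ r ∈ (orderOf g).primeFactors ∧ g1 ^ (r ^ a) = 1 ∧ g = g2 * g1 ∧
      orderOf g2 < orderOf g ∧ (orderOf g2).primeFactors ⊆ (orderOf g).primeFactors.erase r := by
  classical
  have hpos : 0 < orderOf g := orderOf_pos g
  set n := orderOf g with hn
  set r := n.minFac with hr
  have hrp : r.Prime := Nat.minFac_prime hg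
  have hrd : r ∣ n := Nat.minFac_dvd n
  set a := n.factorization r with ha
  set n' := n / r ^ a with hn'
  have hfac : r ^ a * n' = n := Nat.ordProj_mul_ordCompl_eq_self n r
  have hcop : Nat.Coprime (r ^ a) n' := (Nat.coprime_ordCompl hrp hpos.ne').pow_left a |>.symm.symm
  have hapos : 0 < a := hrp.factorization_pos_of_dvd hpos.ne' hrd
  have h1 : ((r ^ a : ℕ) : ℤ) * Nat.gcdA (r ^ a) n' + (n' : ℤ) * Nat.gcdB (r ^ a) n' = 1 := by
    have := Nat.gcd_eq_gcd_ab (r ^ a) n'
    rw [hcop] at this
    simpa using this.symm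
  have hgn : g ^ n = 1 := by rw [hn]; exact pow_orderOf_eq_one g
  let g1 : K := g ^ ((n' : ℤ) * Nat.gcdB (r ^ a) n')
  let g2 : K := g ^ (((r ^ a : ℕ) : ℤ) * Nat.gcdA (r ^ a) n')
  have hg12 : g = g2 * g1 := by
    show g = g ^ _ * g ^ _
    rw [← zpow_add, h1, zpow_one]
  have h11 : g1 ^ (r ^ a) = 1 := by
    show (g ^ ((n' : ℤ) * Nat.gcdB (r ^ a) n')) ^ (r ^ a) = 1
    rw [← zpow_natCast, ← zpow_mul]
    have : ((n' : ℤ) * Nat.gcdB (r ^ a) n') * ((r ^ a : ℕ) : ℤ) = (n : ℤ) * Nat.gcdB (r ^ a) n' := by
      rw [← hfac]; push_cast; ring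
    rw [this, zpow_mul, zpow_natCast, hgn, one_zpow]
  have h21 : g2 ^ n' = 1 := by
    show (g ^ (((r ^ a : ℕ) : ℤ) * Nat.gcdA (r ^ a) n')) ^ n' = 1
    rw [← zpow_natCast, ← zpow_mul]
    have : (((r ^ a : ℕ) : ℤ) * Nat.gcdA (r ^ a) n') * (n' : ℤ) = (n : ℤ) * Nat.gcdA (r ^ a) n' := by
      rw [← hfac]; push_cast; ring
    rw [this, zpow_mul, zpow_natCast, hgn, one_zpow]
  have hd : orderOf g2 ∣ n' := orderOf_dvd_of_pow_eq_one h21
  have hn'pos : 0 < n' := by
    rcases Nat.eq_zero_or_pos n' with h | h
    · rw [h, mul_zero] at hfac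
      omega
    · exact h
  have hlt : n' < n := by
    rw [← hfac]
    have : 1 < r ^ a := Nat.one_lt_pow hapos.ne' hrp.one_lt
    nlinarith
  refine ⟨g1, g2, r, a, hrp, ?_, h11, hg12, lt_of_le_of_lt (Nat.le_of_dvd hn'pos hd) hlt, ?_⟩
  · exact Nat.mem_primeFactors.2 ⟨hrp, hrd, hpos.ne'⟩
  · intro s hs
    have hs' := Nat.mem_primeFactors.1 hs
    have hsd : s ∣ n' := hs'.2.1.trans hd
    rw [Finset.mem_erase]
    constructor
    · rintro rfl
      have hc : Nat.Coprime r n' := Nat.coprime_ordCompl hrp hpos.ne'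
      have := Nat.dvd_gcd (dvd_refl r) hsd
      rw [hc] at this
      exact hs'.1.one_lt.ne' (Nat.dvd_one.1 this)
    · refine Nat.mem_primeFactors.2 ⟨hs'.1, ?_, hpos.ne'⟩
      exact hsd.trans (Dvd.intro_left _ hfac)

/-- An element of order a power of a prime `r > L` commutes with the elements of prime power order. -/
theorem commute_of_pp {L r a : ℕ} (hr : r.Prime) (hL : ∀ w : K, IsPP w → cl w ≤ L) (hrL : L < r) {u : K}
    (hu : u ^ (r ^ a) = 1) {w : K} (hw : IsPP w) : u * w = w * u := by
  have h1 : (centralizer ({w} : Set K)).relIndex (zpowers u) ≤ cl w := by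
    unfold cl
    have h0 := Subgroup.relIndex_le_of_le_right (H := centralizer ({w} : Set K)) (le_top : zpowers u ≤ ⊤)
      (by rw [Subgroup.relIndex_top_right]; exact Subgroup.index_ne_zero_of_finite)
    rwa [Subgroup.relIndex_top_right] at h0
  have hcard : Nat.card (zpowers u) ∣ r ^ a := by
    rw [Nat.card_zpowers]
    exact orderOf_dvd_of_pow_eq_one hu
  have h2 : (centralizer ({w} : Set K)).relIndex (zpowers u) ∣ r ^ a :=
    (Subgroup.relIndex_dvd_card _ _).trans hcard
  obtain ⟨k, _, hk⟩ := (Nat.dvd_prime_pow hr).1 h2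
  have h3 : (centralizer ({w} : Set K)).relIndex (zpowers u) = 1 := by
    rcases Nat.eq_zero_or_pos k with h0 | h0
    · rw [hk, h0, pow_zero]
    · exfalso
      have h4 : r ≤ r ^ k := Nat.le_self_pow h0.ne' r
      have := hL w hw
      omega
  have h4 : zpowers u ≤ centralizer ({w} : Set K) := Subgroup.relIndex_eq_one.1 h3
  have h5 : u ∈ centralizer ({w} : Set K) := h4 (mem_zpowers u)
  rw [mem_centralizer_singleton_iff] at h5
  exact h5

/-- An element of order a power of a prime `r > L` is central. -/
theorem commute_all {L r a : ℕ} (hr : r.Prime) (hL : ∀ w : K, IsPP w → cl w ≤ L) (hrL : L < r) {u : K}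
    (hu : u ^ (r ^ a) = 1) : ∀ (n : ℕ) (w : K), orderOf w = n → u * w = w * u := by
  intro n
  induction n using Nat.strong_induction_on with
  | _ n ih =>
    intro w hw
    by_cases h1 : orderOf w = 1
    · rw [orderOf_eq_one_iff] at h1
      rw [h1, mul_one, one_mul]
    · obtain ⟨g1, g2, s, b, hs, -, h11, h12, hlt, -⟩ := exists_split w h1
      have hc1 : u * g1 = g1 * u := commute_of_pp hr hL hrL hu ⟨s, b, hs, h11⟩
      have hc2 : u * g2 = g2 * u := ih _ (by omega) g2 rfl
      rw [h12]
      calc u * (g2 * g1) = (u * g2) * g1 := by group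
        _ = g2 * (u * g1) := by rw [hc2]; group
        _ = g2 * (g1 * u) := by rw [hc1]
        _ = g2 * g1 * u := by group

theorem cl_eq_one_of_central {u : K} (hu : ∀ w : K, u * w = w * u) : cl u = 1 := by
  unfold cl
  rw [Subgroup.index_eq_one]
  ext x
  simp only [mem_centralizer_singleton_iff, Subgroup.mem_top, iff_true]
  exact (hu x).symm

/-- The class bound by the number of small primes. -/
theorem cl_le_aux {L : ℕ} (hL1 : 1 ≤ L) (hL : ∀ w : K, IsPP w → cl w ≤ L) :
    ∀ (n : ℕ) (g : K), orderOf g = n → cl g ≤ L ^ (n.primeFactors.filter (· ≤ L)).card := by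
  classical
  intro n
  induction n using Nat.strong_induction_on with
  | _ n ih =>
    intro g hg
    by_cases h1 : orderOf g = 1
    · rw [orderOf_eq_one_iff] at h1
      rw [h1, cl_one]
      exact Nat.one_le_pow _ _ hL1
    · obtain ⟨g1, g2, s, b, hs, hsm, h11, h12, hlt, hsub⟩ := exists_split g h1
      have h2 := ih _ (by omega) g2 rfl
      have h3 : cl g ≤ cl g2 * cl g1 := by
        rw [h12]
        exact cl_mul_le g2 g1
      have hsub' : ((orderOf g2).primeFactors.filter (· ≤ L)) ⊆
          (n.primeFactors.erase s).filter (· ≤ L) := by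
        rw [← hg]
        exact Finset.filter_subset_filter _ hsub
      by_cases hsL : s ≤ L
      · have h4 : cl g1 ≤ L := hL g1 ⟨s, b, hs, h11⟩
        have hcard : ((orderOf g2).primeFactors.filter (· ≤ L)).card + 1 ≤
            (n.primeFactors.filter (· ≤ L)).card := by
          have hs1 : s ∈ n.primeFactors.filter (· ≤ L) :=
            Finset.mem_filter.2 ⟨hg ▸ hsm, hsL⟩
          have h5 : (n.primeFactors.erase s).filter (· ≤ L) = (n.primeFactors.filter (· ≤ L)).erase s := by
            ext x
            simp only [Finset.mem_filter, Finset.mem_erase]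
            tauto
          rw [h5] at hsub'
          have h6 := Finset.card_le_card hsub'
          rw [Finset.card_erase_of_mem hs1] at h6
          have h7 : 0 < (n.primeFactors.filter (· ≤ L)).card := Finset.card_pos.2 ⟨s, hs1⟩
          omega
        calc cl g ≤ cl g2 * cl g1 := h3
          _ ≤ L ^ ((orderOf g2).primeFactors.filter (· ≤ L)).card * L := Nat.mul_le_mul h2 h4
          _ = L ^ (((orderOf g2).primeFactors.filter (· ≤ L)).card + 1) := (pow_succ _ _).symm
          _ ≤ _ := Nat.pow_le_pow_right hL1 hcard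
      · have hc : ∀ w : K, g1 * w = w * g1 := fun w =>
          commute_all hs hL (by omega) h11 _ w rfl
        have h4 : cl g1 = 1 := cl_eq_one_of_central hc
        rw [h4, mul_one] at h3
        refine h3.trans (h2.trans (Nat.pow_le_pow_right hL1 ?_))
        refine Finset.card_le_card (hsub'.trans ?_)
        exact Finset.filter_subset_filter _ (Finset.erase_subset _ _)

/-- **Class bound**: bounded classes for elements of prime power order imply bounded classes. -/
theorem cl_le_of_pp {L : ℕ} (hL : ∀ w : K, IsPP w → cl w ≤ L) (g : K) : cl g ≤ L ^ L := by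
  classical
  have hL1 : 1 ≤ L := by
    have := hL 1 ⟨2, 0, Nat.prime_two, by simp⟩
    rw [cl_one] at this
    exact this
  refine (cl_le_aux hL1 hL _ g rfl).trans (Nat.pow_le_pow_right hL1 ?_)
  have hsub : ((orderOf g).primeFactors.filter (· ≤ L)) ⊆ Finset.Icc 1 L := by
    intro x hx
    obtain ⟨h1, h2⟩ := Finset.mem_filter.1 hx
    exact Finset.mem_Icc.2 ⟨(Nat.mem_primeFactors.1 h1).1.one_le, h2⟩
  have := Finset.card_le_card hsub
  rwa [Nat.card_Icc, Nat.add_sub_cancel] at this

/-- The class size is invariant under conjugation. -/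
theorem cl_conj (g z : K) : cl (g * z * g⁻¹) = cl z := by
  classical
  rw [← card_clF, ← card_clF]
  congr 1
  ext w
  rw [mem_clF, mem_clF]
  constructor
  · rintro ⟨h, rfl⟩
    exact ⟨h * g, by group⟩
  · rintro ⟨h, rfl⟩
    exact ⟨h * g⁻¹, by group⟩

/-- The class size is at most the order of the commutator subgroup. -/
theorem cl_le_card_commutator (z : K) : cl z ≤ Nat.card (commutator K) := by
  classical
  rw [← card_clF]
  have hinj : Function.Injective (fun w : K => w * z⁻¹) := mul_left_injective _
  rw [← Finset.card_image_of_injective _ hinj]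
  have hsub : (((clF z).image (fun w : K => w * z⁻¹) : Finset K) : Set K) ⊆ (commutator K : Set K) := by
    intro x hx
    simp only [Finset.coe_image, Set.mem_image, Finset.mem_coe] at hx
    obtain ⟨w, hw, rfl⟩ := hx
    obtain ⟨g, rfl⟩ := mem_clF.1 hw
    show g * z * g⁻¹ * z⁻¹ ∈ commutator K
    rw [commutator_def]
    exact Subgroup.commutator_mem_commutator (Subgroup.mem_top g) (Subgroup.mem_top z)
  calc ((clF z).image (fun w : K => w * z⁻¹)).card
      = ((((clF z).image (fun w : K => w * z⁻¹) : Finset K) : Set K)).ncard := (Set.ncard_coe_finset _).symm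
    _ ≤ (commutator K : Set K).ncard := Set.ncard_le_ncard hsub (Set.toFinite _)
    _ = Nat.card (commutator K) := Nat.card_coe_set_eq _

end Cfsg.Agent.Lib.CopBdA
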