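import Mathlib
import Cfsg.Agent.Lib.CopBdA
import Cfsg.Agent.Lib.BrauerWielandt

/-!
# Coprime action of a rank three elementary abelian group: bounded classes

Let `E` be elementary abelian of order `q ^ 3` normalizing `T` with `q ∤ |T|`; suppose that the derived
subgroups of `T ∩ C(e)`, `1 ≠ e ∈ E`, have order at most `m`.  Then elements of `T` centralized by a
subgroup of rank two of `E` have boundedly many conjugates in `T` (Brauer-Wielandt), invariant `r`-groups
are bounded products of such elements, and so all elements of `T` have boundedly many conjugates.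
-/

set_option autoImplicit false
set_option linter.unusedSectionVars false
set_option linter.style.haveILetI false
set_option linter.unusedVariables false

namespace Cfsg.Agent.Lib.CopBdB

open Subgroup Cfsg.Agent.Lib.NeumannBFC Cfsg.Agent.Lib.BrauerWielandt Cfsg.Agent.Lib.CopBdA
open Cfsg.Agent.Lib.CoprimeInv
open scoped commutatorElement

universe u

variable {H : Type u} [Group H] [Finite H]

local notation "C[" D "]" => Subgroup.centralizer ((D : Subgroup H) : Set H)
local notation "N[" D "]" => Subgroup.normalizer ((D : Subgroup H) : Set H)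

/-- The number of `T`-conjugates of `z`. -/
noncomputable def cr (T : Subgroup H) (z : H) : ℕ := (centralizer ({z} : Set H)).relIndex T

theorem relIndex_ne_zero' (A B : Subgroup H) : A.relIndex B ≠ 0 := by
  unfold Subgroup.relIndex
  exact Subgroup.index_ne_zero_of_finite

theorem cr_mul (T : Subgroup H) (a b : H) : cr T (a * b) ≤ cr T a * cr T b := by
  unfold cr
  exact (Subgroup.relIndex_le_of_le_left (inf_le_centralizer_mul a b) (relIndex_ne_zero' _ _)).trans
    Subgroup.relIndex_inf_le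

theorem cr_one (T : Subgroup H) : cr T (1 : H) = 1 := by
  unfold cr
  rw [Subgroup.relIndex_eq_one]
  intro x _
  rw [mem_centralizer_singleton_iff]
  simp

theorem cr_list {I : Type*} (T : Subgroup H) {β : ℕ} (hβ : 1 ≤ β) (l : List I) (f : I → H)
    (h : ∀ i, cr T (f i) ≤ β) : cr T (l.map f).prod ≤ β ^ l.length := by
  induction l with
  | nil => simp [cr_one]
  | cons a t ih =>
    rw [List.map_cons, List.prod_cons, List.length_cons, pow_succ']
    exact (cr_mul T _ _).trans (Nat.mul_le_mul (h a) ih)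

/-- The class size and the relative index. -/
theorem cl_eq_cr (T : Subgroup H) (z : T) : cl z = cr T (z : H) := by
  unfold cl cr Subgroup.relIndex
  congr 1
  ext x
  rw [Subgroup.mem_subgroupOf, mem_centralizer_singleton_iff, mem_centralizer_singleton_iff]
  constructor
  · intro h
    exact congrArg Subtype.val h
  · intro h
    exact Subtype.ext h

theorem card_eq_of_relIndex (A B : Subgroup H) :
    Nat.card B = A.relIndex B * Nat.card ↥(B ⊓ A) := by
  have h1 := Subgroup.card_mul_index (A.subgroupOf B)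
  have h2 : Nat.card ↥(A.subgroupOf B) = Nat.card ↥(B ⊓ A) := by
    have h3 : (A.subgroupOf B).map B.subtype = B ⊓ A := by
      rw [Subgroup.subgroupOf_map_subtype, inf_comm]
    rw [← h3]
    exact (Subgroup.card_map_of_injective B.subtype_injective).symm
  rw [h2] at h1
  rw [← h1, Subgroup.relIndex, mul_comm]

theorem le_centralizer_of_mem {E : Subgroup H} {t : H} (ht : t ∈ C[E]) :
    E ≤ centralizer ({t} : Set H) := by
  intro g hg
  rw [mem_centralizer_singleton_iff]
  exact Subgroup.mem_centralizer_iff.1 ht g hg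

section Lines

variable {q : ℕ} [hq : Fact q.Prime] {E : Subgroup H} {I : Type*} [Fintype I] {D : I → Subgroup H}

/-- **The Brauer-Wielandt bound**: an element centralized by `E` (of rank two) has boundedly many
conjugates. -/
theorem cr_le_of_lines (hL : Lines q E D) (T : Subgroup H) (hT : ¬ q ∣ Nat.card T) (hET : E ≤ N[T])
    {m : ℕ} (hm : ∀ i, Nat.card (commutator ↥(T ⊓ C[D i])) ≤ m) {t : H} (htT : t ∈ T)
    (htE : t ∈ C[E]) : cr T t ≤ m ^ (q + 1) := by
  classical
  set Cn : Subgroup H := T ⊓ centralizer ({t} : Set H) with hCn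
  have hEC : E ≤ N[centralizer ({t} : Set H)] :=
    (le_centralizer_of_mem htE).trans Subgroup.le_normalizer
  have hEN : E ≤ N[Cn] := le_normalizer_inf hET hEC
  have hCq : ¬ q ∣ Nat.card Cn := fun h => hT (h.trans (Subgroup.card_dvd_of_le inf_le_left))
  have bT := bw_general hL hT hET
  have bC := bw_general hL hCq hEN
  unfold BW at bT bC
  have hi : ∀ i, Nat.card ↥(T ⊓ C[D i]) ≤ m * Nat.card ↥(Cn ⊓ C[D i]) := by
    intro i
    set Ti : Subgroup H := T ⊓ C[D i] with hTi
    have htTi : t ∈ Ti := ⟨htT, centralizer_le_of_le (hL.le i) htE⟩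
    let t' : Ti := ⟨t, htTi⟩
    have h1 : cl t' ≤ m := (cl_le_card_commutator t').trans (hm i)
    have h2 := Subgroup.card_mul_index (centralizer ({t'} : Set Ti))
    have h3 : Nat.card (centralizer ({t'} : Set Ti)) = Nat.card ↥(Cn ⊓ C[D i]) := by
      have h4 : (centralizer ({t'} : Set Ti)).map Ti.subtype = Cn ⊓ C[D i] := by
        ext x
        constructor
        · rintro ⟨y, hy, rfl⟩
          rw [SetLike.mem_coe, mem_centralizer_singleton_iff] at hy
          refine ⟨⟨y.2.1, ?_⟩, y.2.2⟩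
          show (y : H) ∈ centralizer ({t} : Set H)
          rw [mem_centralizer_singleton_iff]
          exact congrArg Subtype.val hy
        · rintro ⟨⟨h5, h6⟩, h7⟩
          refine ⟨⟨x, h5, h7⟩, ?_, rfl⟩
          rw [SetLike.mem_coe, mem_centralizer_singleton_iff]
          have h6' : x ∈ centralizer ({t} : Set H) := h6
          rw [mem_centralizer_singleton_iff] at h6'
          exact Subtype.ext h6'
      rw [← h4]
      exact (Subgroup.card_map_of_injective Ti.subtype_injective).symm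
    rw [← h2, h3, mul_comm]
    exact Nat.mul_le_mul_right _ h1
  have hI : Fintype.card I = q + 1 := hL.card_I
  have h1 : Nat.card T * Nat.card ↥(T ⊓ C[E]) ^ q ≤
      m ^ (q + 1) * (Nat.card Cn * Nat.card ↥(Cn ⊓ C[E]) ^ q) := by
    rw [← bT, ← bC]
    calc ∏ i, Nat.card ↥(T ⊓ C[D i]) ≤ ∏ i, (m * Nat.card ↥(Cn ⊓ C[D i])) :=
          Finset.prod_le_prod' (fun i _ => hi i)
      _ = m ^ (q + 1) * ∏ i, Nat.card ↥(Cn ⊓ C[D i]) := by
          rw [Finset.prod_mul_distrib, Finset.prod_const, Finset.card_univ, hI]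
  have h2 : Nat.card ↥(Cn ⊓ C[E]) ≤ Nat.card ↥(T ⊓ C[E]) :=
    Subgroup.card_le_of_le (inf_le_inf_right _ inf_le_left)
  have h3 : Nat.card T * Nat.card ↥(T ⊓ C[E]) ^ q ≤
      (m ^ (q + 1) * Nat.card Cn) * Nat.card ↥(T ⊓ C[E]) ^ q := by
    calc _ ≤ _ := h1
      _ = (m ^ (q + 1) * Nat.card Cn) * Nat.card ↥(Cn ⊓ C[E]) ^ q := by ring
      _ ≤ _ := Nat.mul_le_mul_left _ (Nat.pow_le_pow_left h2 q)
  have h4 : Nat.card T ≤ m ^ (q + 1) * Nat.card Cn :=
    Nat.le_of_mul_le_mul_right h3 (pow_pos Nat.card_pos _)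
  have h5 := card_eq_of_relIndex (centralizer ({t} : Set H)) T
  have h6 : cr T t * Nat.card Cn ≤ m ^ (q + 1) * Nat.card Cn := by
    unfold cr
    rw [← hCn] at h5
    rw [← h5]
    exact h4
  exact Nat.le_of_mul_le_mul_right h6 Nat.card_pos

end Lines

section Chain

/-- The lower central chain of `P` inside `H`. -/
def chain (P : Subgroup H) : ℕ → Subgroup H
  | 0 => P
  | k + 1 => ⁅chain P k, P⁆

theorem chain_le (P : Subgroup H) (k : ℕ) : chain P k ≤ P := by
  induction k with
  | zero => exact le_rfl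
  | succ k ih =>
    show ⁅chain P k, P⁆ ≤ P
    rw [Subgroup.commutator_le]
    intro a ha b hb
    rw [commutatorElement_def]
    exact P.mul_mem (P.mul_mem (P.mul_mem (ih ha) hb) (P.inv_mem (ih ha))) (P.inv_mem hb)

theorem mem_normalizer_commutator {A B : Subgroup H} {g : H} (hA : g ∈ N[A]) (hB : g ∈ N[B]) :
    g ∈ N[⁅A, B⁆] := by
  have key : ∀ h : H, h ∈ N[A] → h ∈ N[B] → ∀ x ∈ ⁅A, B⁆, h * x * h⁻¹ ∈ ⁅A, B⁆ := by
    intro h hhA hhB x hx
    have hle : ⁅A, B⁆ ≤ (⁅A, B⁆).comap (MulAut.conj h).toMonoidHom := by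
      rw [Subgroup.commutator_le]
      intro a ha b hb
      show (MulAut.conj h) ⁅a, b⁆ ∈ ⁅A, B⁆
      rw [map_commutatorElement]
      apply Subgroup.commutator_mem_commutator
      · exact (Subgroup.mem_normalizer_iff.1 hhA a).1 ha
      · exact (Subgroup.mem_normalizer_iff.1 hhB b).1 hb
    exact hle hx
  rw [Subgroup.mem_normalizer_iff]
  intro x
  refine ⟨key g hA hB x, fun hx => ?_⟩
  have := key g⁻¹ (inv_mem hA) (inv_mem hB) _ hx
  simpa [mul_assoc] using this

theorem chain_norm (P : Subgroup H) {g : H} (hg : g ∈ N[P]) (k : ℕ) : g ∈ N[chain P k] := by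
  induction k with
  | zero => exact hg
  | succ k ih => exact mem_normalizer_commutator ih hg

theorem chain_eq (P : Subgroup H) (k : ℕ) : chain P k = P.lowerCentralSeries k := by
  induction k with
  | zero => rfl
  | succ k ih =>
    show ⁅chain P k, P⁆ = ⁅P.lowerCentralSeries k, P⁆
    rw [ih]

theorem chain_bot {P : Subgroup H} {r : ℕ} [Fact r.Prime] (hP : IsPGroup r P) :
    ∃ n, chain P n = ⊥ := by
  haveI : Group.IsNilpotent ↥P := hP.isNilpotent
  obtain ⟨n, hn⟩ := (Subgroup.isNilpotent_iff_lowerCentralSeries P).1 inferInstance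
  exact ⟨n, by rw [chain_eq, hn]⟩

variable {I : Type*}

theorem list_prod_mem {A : Subgroup H} (l : List I) {f : I → H} (hf : ∀ i, f i ∈ A) :
    (l.map f).prod ∈ A := by
  induction l with
  | nil => simp [A.one_mem]
  | cons a t ih =>
    rw [List.map_cons, List.prod_cons]
    exact A.mul_mem (hf a) ih

/-- Merging two products. -/
theorem merge {P A : Subgroup H} (hA : A ≤ P) (hnorm : P ≤ N[⁅A, P⁆]) (l : List I) {f d : I → H}
    (hf : ∀ i, f i ∈ P) (hd : ∀ i, d i ∈ A) :
    ∃ z ∈ ⁅A, P⁆, (l.map f).prod * (l.map d).prod = (l.map (fun i => f i * d i)).prod * z := by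
  induction l with
  | nil => exact ⟨1, Subgroup.one_mem _, by simp⟩
  | cons a t ih =>
    obtain ⟨z0, hz0, h0⟩ := ih
    simp only [List.map_cons, List.prod_cons]
    set F := (t.map f).prod with hF
    set Dd := (t.map d).prod with hDd
    set F' := (t.map (fun i => f i * d i)).prod with hF'
    have hFP : F ∈ P := list_prod_mem t hf
    have hF'P : F' ∈ P := list_prod_mem t (fun i => P.mul_mem (hf i) (hA (hd i)))
    have hc : ⁅(d a)⁻¹, F⁆ ∈ ⁅A, P⁆ :=
      Subgroup.commutator_mem_commutator (A.inv_mem (hd a)) hFP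
    have hconj : F'⁻¹ * ⁅(d a)⁻¹, F⁆ * F'⁻¹⁻¹ ∈ ⁅A, P⁆ :=
      (Subgroup.mem_normalizer_iff.1 (hnorm (P.inv_mem hF'P)) _).1 hc
    refine ⟨(F'⁻¹ * ⁅(d a)⁻¹, F⁆ * F'⁻¹⁻¹) * z0, Subgroup.mul_mem _ hconj hz0, ?_⟩
    rw [commutatorElement_def]
    calc f a * F * (d a * Dd) = f a * d a * ((d a)⁻¹ * F * (d a)⁻¹⁻¹ * F⁻¹) * (F * Dd) := by group
      _ = f a * d a * ((d a)⁻¹ * F * (d a)⁻¹⁻¹ * F⁻¹) * (F' * z0) := by rw [h0]
      _ = _ := by group

theorem list_prod_update [DecidableEq I] (l : List I) (hl : l.Nodup) {i : I} (hi : i ∈ l) (y : H) :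
    (l.map (Function.update (fun _ => (1 : H)) i y)).prod = y := by
  induction l with
  | nil => simp at hi
  | cons a t ih =>
    rw [List.nodup_cons] at hl
    simp only [List.map_cons, List.prod_cons]
    by_cases hia : i = a
    · subst hia
      have h1 : (t.map (Function.update (fun _ => (1 : H)) i y)).prod = 1 := by
        apply List.prod_eq_one
        intro x hx
        obtain ⟨j, hj, rfl⟩ := List.mem_map.1 hx
        rw [Function.update_of_ne]
        rintro rfl
        exact hl.1 hj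
      rw [h1, Function.update_self, mul_one]
    · have hit : i ∈ t := by
        rcases List.mem_cons.1 hi with h | h
        · exact absurd h hia
        · exact h
      rw [ih hl.2 hit, Function.update_of_ne (Ne.symm hia), one_mul]

end Chain

section Prod

variable {q : ℕ} [hq : Fact q.Prime] {E : Subgroup H} {I : Type*} [Fintype I] {D : I → Subgroup H}

/-- One section of the central chain. -/
theorem exists_section (hL : Lines q E D) {P A : Subgroup H} (hA : A ≤ P) (hAq : ¬ q ∣ Nat.card A)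
    (hEA : E ≤ N[A]) (hnorm : P ≤ N[⁅A, P⁆]) (l : List I) (hl : l.Nodup) (hall : ∀ i, i ∈ l)
    {y : H} (hy : y ∈ A) :
    ∃ d : I → H, (∀ i, d i ∈ A ⊓ C[D i]) ∧ ∃ z ∈ ⁅A, P⁆, y = (l.map d).prod * z := by
  classical
  have hsup := Cfsg.Agent.Lib.CoprimeHyper.eq_iSup_inf_centralizer (p := q) E A hL.comm hL.exp hAq hEA
  rw [hsup] at hy
  refine Subgroup.iSup_induction _
    (C := fun w => ∃ d : I → H, (∀ i, d i ∈ A ⊓ C[D i]) ∧ ∃ z ∈ ⁅A, P⁆, w = (l.map d).prod * z)
    hy ?_ ?_ ?_
  · rintro ⟨B, hB1, hB2⟩ x hx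
    obtain ⟨i, hi⟩ := hL.cover B hB1 hB2
    refine ⟨Function.update (fun _ => (1 : H)) i x, ?_, 1, Subgroup.one_mem _, ?_⟩
    · intro j
      by_cases hj : j = i
      · subst hj
        rw [Function.update_self]
        exact ⟨hx.1, centralizer_le_of_le hi hx.2⟩
      · rw [Function.update_of_ne hj]
        exact Subgroup.one_mem _
    · rw [list_prod_update l hl (hall i), mul_one]
  · refine ⟨fun _ => 1, fun i => Subgroup.one_mem _, 1, Subgroup.one_mem _, ?_⟩
    rw [mul_one, List.prod_eq_one]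
    intro x hx
    obtain ⟨j, _, rfl⟩ := List.mem_map.1 hx
    rfl
  · rintro x y' ⟨d1, hd1, z1, hz1, rfl⟩ ⟨d2, hd2, z2, hz2, rfl⟩
    obtain ⟨z0, hz0, h0⟩ := merge hA hnorm l (f := d1) (d := d2) (fun i => hA (hd1 i).1)
      (fun i => (hd2 i).1)
    set D2 := (l.map d2).prod with hD2
    have hD2P : D2 ∈ P := hA (list_prod_mem l (fun i => (hd2 i).1))
    have hconj : D2⁻¹ * z1 * D2⁻¹⁻¹ ∈ ⁅A, P⁆ :=
      (Subgroup.mem_normalizer_iff.1 (hnorm (P.inv_mem hD2P)) _).1 hz1
    refine ⟨fun i => d1 i * d2 i, fun i => Subgroup.mul_mem _ (hd1 i) (hd2 i),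
      z0 * (D2⁻¹ * z1 * D2⁻¹⁻¹) * z2,
      Subgroup.mul_mem _ (Subgroup.mul_mem _ hz0 hconj) hz2, ?_⟩
    calc (l.map d1).prod * z1 * (D2 * z2) = ((l.map d1).prod * D2) * (D2⁻¹ * z1 * D2⁻¹⁻¹) * z2 := by
          group
      _ = _ := by rw [h0]; group

/-- **Product decomposition**: a `p`-group normalized by `E` of rank two is a product of its
fixed point subgroups. -/
theorem exists_list_prod (hL : Lines q E D) {P : Subgroup H} {r : ℕ} [Fact r.Prime] (hP : IsPGroup r P)
    (hPq : ¬ q ∣ Nat.card P) (hEP : E ≤ N[P]) (l : List I) (hl : l.Nodup) (hall : ∀ i, i ∈ l)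
    {x : H} (hx : x ∈ P) : ∃ f : I → H, (∀ i, f i ∈ P ⊓ C[D i]) ∧ x = (l.map f).prod := by
  have hT : ∀ k, ∃ f : I → H, (∀ i, f i ∈ P ⊓ C[D i]) ∧ ∃ y ∈ chain P k, x = (l.map f).prod * y := by
    intro k
    induction k with
    | zero =>
      refine ⟨fun _ => 1, fun i => Subgroup.one_mem _, x, hx, ?_⟩
      rw [List.prod_eq_one, one_mul]
      intro z hz
      obtain ⟨j, _, rfl⟩ := List.mem_map.1 hz
      rfl
    | succ k ih =>
      obtain ⟨f, hf, y, hy, hxy⟩ := ih
      have hAP := chain_le P k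
      have hAq : ¬ q ∣ Nat.card (chain P k) := fun h => hPq (h.trans (Subgroup.card_dvd_of_le hAP))
      have hEA : E ≤ N[chain P k] := fun g hg => chain_norm P (hEP hg) k
      have hnorm : P ≤ N[⁅chain P k, P⁆] := fun g hg => chain_norm P (Subgroup.le_normalizer hg) (k + 1)
      obtain ⟨d, hd, z, hz, hyz⟩ := exists_section hL hAP hAq hEA hnorm l hl hall hy
      obtain ⟨z0, hz0, h0⟩ := merge hAP hnorm l (f := f) (d := d) (fun i => (hf i).1)
        (fun i => (hd i).1)
      refine ⟨fun i => f i * d i, fun i => ?_, z0 * z, Subgroup.mul_mem _ hz0 hz, ?_⟩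
      · exact ⟨P.mul_mem (hf i).1 (hAP (hd i).1), Subgroup.mul_mem _ (hf i).2 (hd i).2⟩
      · rw [hxy, hyz, ← mul_assoc, h0]
        group
  obtain ⟨n, hn⟩ := chain_bot hP
  obtain ⟨f, hf, y, hy, hxy⟩ := hT n
  rw [hn, Subgroup.mem_bot] at hy
  exact ⟨f, hf, by rw [hxy, hy, mul_one]⟩

end Prod

end Cfsg.Agent.Lib.CopBdB
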