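import Mathlib
import Cfsg.Agent.Lib.CopBdB

/-!
# Coprime action of a rank three elementary abelian group: the bound for the derived subgroup
-/

set_option autoImplicit false
set_option linter.unusedSectionVars false
set_option linter.style.haveILetI false
set_option linter.unusedVariables false

namespace Cfsg.Agent.Lib.CopBdC

open Subgroup Cfsg.Agent.Lib.NeumannBFC Cfsg.Agent.Lib.BrauerWielandt Cfsg.Agent.Lib.CopBdA
open Cfsg.Agent.Lib.CoprimeInv Cfsg.Agent.Lib.CopBdB
open scoped commutatorElement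

universe u

variable {H : Type u} [Group H] [Finite H]

local notation "C[" D "]" => Subgroup.centralizer ((D : Subgroup H) : Set H)
local notation "N[" D "]" => Subgroup.normalizer ((D : Subgroup H) : Set H)

variable {q : ℕ} [hq : Fact q.Prime]

/-- The data: `E` elementary abelian of order `q³`. -/
structure Rank3 (q : ℕ) (E : Subgroup H) : Prop where
  comm : ∀ a ∈ E, ∀ b ∈ E, a * b = b * a
  exp : ∀ a ∈ E, a ^ q = 1
  card : Nat.card E = q ^ 3

variable {E : Subgroup H}

theorem mem_normalizer_centralizer {g : H} {D : Subgroup H} (hg : ∀ d ∈ D, g * d = d * g) :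
    g ∈ N[C[D]] := by
  have key : ∀ h : H, (∀ d ∈ D, h * d = d * h) → ∀ x ∈ C[D], h * x * h⁻¹ ∈ C[D] := by
    intro h hh x hx
    rw [Subgroup.mem_centralizer_iff] at hx ⊢
    intro d hd
    have h1 : h⁻¹ * d = d * h⁻¹ := by
      have := hh d hd
      calc h⁻¹ * d = h⁻¹ * (d * h) * h⁻¹ := by group
        _ = h⁻¹ * (h * d) * h⁻¹ := by rw [this]
        _ = d * h⁻¹ := by group
    calc d * (h * x * h⁻¹) = (d * h) * x * h⁻¹ := by group
      _ = (h * d) * x * h⁻¹ := by rw [hh d hd]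
      _ = h * (d * x) * h⁻¹ := by group
      _ = h * (x * d) * h⁻¹ := by rw [hx d hd]
      _ = h * x * (d * h⁻¹) := by group
      _ = h * x * (h⁻¹ * d) := by rw [h1]
      _ = h * x * h⁻¹ * d := by group
  rw [Subgroup.mem_normalizer_iff]
  intro x
  refine ⟨key g hg x, fun hx => ?_⟩
  have h2 : ∀ d ∈ D, g⁻¹ * d = d * g⁻¹ := by
    intro d hd
    have := hg d hd
    calc g⁻¹ * d = g⁻¹ * (d * g) * g⁻¹ := by group
      _ = g⁻¹ * (g * d) * g⁻¹ := by rw [this]
      _ = d * g⁻¹ := by group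
  have := key g⁻¹ h2 _ hx
  simpa [mul_assoc] using this

theorem mem_centralizer_zpowers_iff' {x a : H} : x ∈ C[zpowers a] ↔ a * x = x * a :=
  mem_centralizer_zpowers

theorem mem_centralizer_sup {x a b : H} (ha : a * x = x * a) (hb : b * x = x * b) :
    x ∈ C[zpowers a ⊔ zpowers b] := by
  rw [Subgroup.mem_centralizer_iff]
  have hle : zpowers a ⊔ zpowers b ≤ centralizer ({x} : Set H) := by
    refine sup_le ?_ ?_
    · rw [zpowers_le, mem_centralizer_singleton_iff]
      exact ha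
    · rw [zpowers_le, mem_centralizer_singleton_iff]
      exact hb
  intro h hh
  have := hle hh
  rw [mem_centralizer_singleton_iff] at this
  exact this

/-- Line generators are non-trivial members of `E`. -/
theorem lineGen_mem (h3 : Rank3 q E) {a b : H} (ha : a ∈ E) (hb : b ∈ E) (i : Option (Fin q)) :
    lineGen a b i ∈ E := by
  rcases i with _ | k
  · exact ha
  · exact E.mul_mem (E.pow_mem ha _) hb

theorem lineGen_ne_one {a b : H} (ha1 : a ≠ 1) (hb : b ∉ zpowers a) (i : Option (Fin q)) :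
    lineGen a b i ≠ 1 := by
  rcases i with _ | k
  · exact ha1
  · intro h
    apply hb
    have h1 : a ^ (k : ℕ) * b = 1 := h
    have e : b = (a ^ (k : ℕ))⁻¹ := eq_inv_of_mul_eq_one_right h1
    rw [e]
    exact Subgroup.inv_mem _ (Subgroup.pow_mem _ (Subgroup.mem_zpowers a) _)

/-- The order of a non-trivial element. -/
theorem order_eq (h3 : Rank3 q E) {a : H} (ha : a ∈ E) (ha1 : a ≠ 1) : orderOf a = q :=
  orderOf_eq_prime (h3.exp a ha) ha1

theorem card_lt (h3 : Rank3 q E) : q < Nat.card E := by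
  rw [h3.card]
  have h2 := hq.out.two_le
  calc q = q ^ 1 := (pow_one q).symm
    _ < q ^ 3 := Nat.pow_lt_pow_right (by omega) (by norm_num)

theorem exists_ne_one (h3 : Rank3 q E) : ∃ a ∈ E, a ≠ 1 := by
  by_contra hcon
  push Not at hcon
  have h1 : E = ⊥ := by
    rw [eq_bot_iff]
    intro a ha
    exact hcon a ha
  have := card_lt h3
  rw [h1, Subgroup.card_bot] at this
  have := hq.out.pos
  omega

theorem exists_not_mem_zpowers (h3 : Rank3 q E) {a : H} (ha : a ∈ E) (ha1 : a ≠ 1) :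
    ∃ b ∈ E, b ∉ zpowers a := by
  by_contra hcon
  push Not at hcon
  have h1 := Subgroup.card_le_of_le (show E ≤ zpowers a from hcon)
  rw [Nat.card_zpowers, order_eq h3 ha ha1] at h1
  have := card_lt h3
  omega

theorem exists_not_mem_sup (h3 : Rank3 q E) {a b : H} (ha : a ∈ E) (hb : b ∈ E) (ha1 : a ≠ 1) :
    ∃ c ∈ E, c ∉ zpowers a ⊔ zpowers b := by
  by_contra hcon
  push Not at hcon
  have h1 := Subgroup.card_le_of_le (show E ≤ zpowers a ⊔ zpowers b from hcon)
  have hcomm : Commute a b := h3.comm a ha b hb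
  have hN : zpowers a ≤ N[zpowers b] := by
    intro g hg
    apply Cfsg.Agent.Lib.CharTwoLocal.mem_normalizer_of_commute
    intro y hy
    obtain ⟨i, rfl⟩ := Subgroup.mem_zpowers_iff.1 hg
    obtain ⟨j, rfl⟩ := Subgroup.mem_zpowers_iff.1 hy
    exact (hcomm.zpow_zpow i j).symm.eq
  have h2 := card_sup_mul_card_inf hN
  have h4 : Nat.card (zpowers a) = q := by rw [Nat.card_zpowers, order_eq h3 ha ha1]
  have h5 : Nat.card (zpowers b) ≤ q := by
    rw [Nat.card_zpowers]
    exact Nat.le_of_dvd hq.out.pos (orderOf_dvd_of_pow_eq_one (h3.exp b hb))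
  have h6 : Nat.card ↥(zpowers a ⊔ zpowers b) ≤ q ^ 2 := by
    have h7 : 0 < Nat.card ↥(zpowers a ⊓ zpowers b) := Nat.card_pos
    calc Nat.card ↥(zpowers a ⊔ zpowers b)
        ≤ Nat.card ↥(zpowers a ⊔ zpowers b) * Nat.card ↥(zpowers a ⊓ zpowers b) :=
          Nat.le_mul_of_pos_right _ h7
      _ = q * Nat.card (zpowers b) := by rw [h2, h4]
      _ ≤ q * q := Nat.mul_le_mul_left _ h5
      _ = q ^ 2 := (pow_two q).symm
  rw [h3.card] at h1
  have h8 : q ^ 2 < q ^ 3 := Nat.pow_lt_pow_right hq.out.one_lt (by norm_num)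
  omega

/-- The index list of the lines. -/
noncomputable def lst (q : ℕ) : List (Option (Fin q)) := (Finset.univ : Finset (Option (Fin q))).toList

theorem lst_nodup : (lst q).Nodup := Finset.nodup_toList _

theorem mem_lst (i : Option (Fin q)) : i ∈ lst q := Finset.mem_toList.2 (Finset.mem_univ i)

theorem lst_length : (lst q).length = q + 1 := by
  unfold lst
  rw [Finset.length_toList, Finset.card_univ, Fintype.card_option, Fintype.card_fin]

section Main

variable (h3 : Rank3 q E) (T : Subgroup H) (hT : ¬ q ∣ Nat.card T)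
  (hET : E ≤ Subgroup.normalizer ((T : Subgroup H) : Set H)) {m : ℕ}
  (hm : ∀ a ∈ E, a ≠ 1 → Nat.card (_root_.commutator
    ↥(T ⊓ Subgroup.centralizer ((zpowers a : Subgroup H) : Set H))) ≤ m)

include h3 hT hET hm

theorem one_le_m : 1 ≤ m := by
  obtain ⟨a, ha, ha1⟩ := exists_ne_one h3
  exact (Nat.card_pos).trans_le (hm a ha ha1)

/-- Elements of `r`-subgroups fixed by one element of `E`. -/
theorem cr_le_fix {P : Subgroup H} {r : ℕ} [Fact r.Prime] (hPT : P ≤ T) (hP : IsPGroup r P)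
    (hEP : E ≤ N[P]) {e : H} (heE : e ∈ E) (he1 : e ≠ 1) {x : H} (hx : x ∈ P ⊓ C[zpowers e]) :
    cr T x ≤ (m ^ (q + 1)) ^ (q + 1) := by
  classical
  have hm1 : 1 ≤ m := one_le_m h3 T hT hET hm
  obtain ⟨b, hbE, hbe⟩ := exists_not_mem_zpowers h3 heE he1
  obtain ⟨c, hcE, hc⟩ := exists_not_mem_sup h3 heE hbE he1
  have hb1 : b ≠ 1 := fun h => hbe (h ▸ Subgroup.one_mem _)
  have hcb : c ∉ zpowers b := fun h => hc (Subgroup.mem_sup_right h)
  have hL := lines_of_pair (h3.comm b hbE c hcE) (order_eq h3 hbE hb1) (h3.exp c hcE) hcb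
  have hE'E : zpowers b ⊔ zpowers c ≤ E :=
    sup_le (zpowers_le.2 hbE) (zpowers_le.2 hcE)
  have hP'p : IsPGroup r ↥(P ⊓ C[zpowers e]) := hP.to_le inf_le_left
  have hP'q : ¬ q ∣ Nat.card ↥(P ⊓ C[zpowers e]) :=
    fun h => hT (h.trans (Subgroup.card_dvd_of_le (inf_le_left.trans hPT)))
  have hEN : E ≤ N[C[zpowers e]] := by
    intro g hg
    apply mem_normalizer_centralizer
    intro d hd
    obtain ⟨i, rfl⟩ := Subgroup.mem_zpowers_iff.1 hd
    exact ((show Commute g e from h3.comm g hg e heE).zpow_right i)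
  have hE'P' : zpowers b ⊔ zpowers c ≤ N[P ⊓ C[zpowers e]] :=
    hE'E.trans (le_normalizer_inf hEP hEN)
  obtain ⟨f, hf, rfl⟩ := exists_list_prod hL hP'p hP'q hE'P' (lst q) lst_nodup mem_lst hx
  have hbound : ∀ j, cr T (f j) ≤ m ^ (q + 1) := by
    intro j
    set g := lineGen b c j with hg
    have hgE : g ∈ E := lineGen_mem h3 hbE hcE j
    have hge : g ∉ zpowers e := by
      rcases j with _ | k
      · exact hbe
      · intro h
        apply hc
        have e1 : c = (b ^ (k : ℕ))⁻¹ * g := by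
          show c = (b ^ (k : ℕ))⁻¹ * (b ^ (k : ℕ) * c)
          group
        rw [e1]
        exact Subgroup.mul_mem _ (Subgroup.inv_mem _ (Subgroup.mem_sup_right
          (Subgroup.pow_mem _ (Subgroup.mem_zpowers b) _))) (Subgroup.mem_sup_left h)
    have hL2 := lines_of_pair (h3.comm e heE g hgE) (order_eq h3 heE he1) (h3.exp g hgE) hge
    have hE''E : zpowers e ⊔ zpowers g ≤ E :=
      sup_le (zpowers_le.2 heE) (zpowers_le.2 hgE)
    have hfj := hf j
    refine cr_le_of_lines hL2 T hT (hE''E.trans hET) (m := m) (fun i => ?_) (hPT hfj.1.1) ?_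
    · exact hm _ (lineGen_mem h3 heE hgE i) (lineGen_ne_one he1 hge i)
    · exact mem_centralizer_sup (mem_centralizer_zpowers.1 hfj.1.2) (mem_centralizer_zpowers.1 hfj.2)
  have h1 := cr_list T (Nat.one_le_pow _ _ hm1) (lst q) f hbound
  rwa [lst_length] at h1

/-- Elements of invariant `r`-subgroups. -/
theorem cr_le_sylow {P : Subgroup H} {r : ℕ} [Fact r.Prime] (hPT : P ≤ T) (hP : IsPGroup r P)
    (hEP : E ≤ N[P]) {x : H} (hx : x ∈ P) : cr T x ≤ ((m ^ (q + 1)) ^ (q + 1)) ^ (q + 1) := by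
  classical
  have hm1 : 1 ≤ m := one_le_m h3 T hT hET hm
  obtain ⟨a, haE, ha1⟩ := exists_ne_one h3
  obtain ⟨b, hbE, hba⟩ := exists_not_mem_zpowers h3 haE ha1
  have hL := lines_of_pair (h3.comm a haE b hbE) (order_eq h3 haE ha1) (h3.exp b hbE) hba
  have hE'E : zpowers a ⊔ zpowers b ≤ E :=
    sup_le (zpowers_le.2 haE) (zpowers_le.2 hbE)
  have hPq : ¬ q ∣ Nat.card P := fun h => hT (h.trans (Subgroup.card_dvd_of_le hPT))
  obtain ⟨f, hf, rfl⟩ := exists_list_prod hL hP hPq (hE'E.trans hEP) (lst q) lst_nodup mem_lst hx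
  have hbound : ∀ j, cr T (f j) ≤ (m ^ (q + 1)) ^ (q + 1) := by
    intro j
    exact cr_le_fix h3 T hT hET hm hPT hP hEP (lineGen_mem h3 haE hbE j) (lineGen_ne_one ha1 hba j) (hf j)
  have h1 := cr_list T (Nat.one_le_pow _ _ (Nat.one_le_pow _ _ hm1)) (lst q) f hbound
  rwa [lst_length] at h1

/-- **All elements of prime power order have bounded classes.** -/
theorem cl_le_pp (w : T) (hw : IsPP w) : cl w ≤ ((m ^ (q + 1)) ^ (q + 1)) ^ (q + 1) := by
  classical
  obtain ⟨r, n, hr, hwr⟩ := hw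
  haveI : Fact r.Prime := ⟨hr⟩
  have hcop : (Nat.card E).Coprime (Nat.card T) := by
    rw [h3.card]
    exact Nat.Coprime.pow_left 3 ((Nat.Prime.coprime_iff_not_dvd hq.out).2 hT)
  have hsolv : Group.IsSolvable E :=
    Group.isSolvable_of_comm (fun a b => Subtype.ext (h3.comm a a.2 b b.2))
  obtain ⟨P₀, hP₀⟩ := Cfsg.Agent.Lib.Glauberman2.exists_invariant_sylow hET hcop (Or.inl hsolv) r
  have hzp : IsPGroup r (zpowers w) :=
    Cfsg.Agent.Lib.LocalBalance2.isPGroup_zpowers_of_ppow (k := n) hwr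
  obtain ⟨Q, hQ⟩ := hzp.exists_le_sylow
  obtain ⟨g, hg⟩ := MulAction.exists_smul_eq T Q P₀
  have hwQ : w ∈ (Q : Subgroup T) := hQ (mem_zpowers w)
  have hmem : g * w * g⁻¹ ∈ (P₀ : Subgroup T) := by
    rw [← hg, Sylow.coe_subgroup_smul]
    exact ⟨w, hwQ, rfl⟩
  rw [← cl_conj g w, cl_eq_cr]
  have hS := Cfsg.Agent.Lib.CoprimeInv.isSylowIn_map P₀
  exact cr_le_sylow h3 T hT hET hm hS.1 hS.2.1 hP₀ ⟨_, hmem, rfl⟩

/-- **The bound** for the derived subgroup. -/
theorem card_commutator_le :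
    Nat.card (_root_.commutator T) ≤ cardCommutatorBound (commBound
      ((((m ^ (q + 1)) ^ (q + 1)) ^ (q + 1)) ^ (((m ^ (q + 1)) ^ (q + 1)) ^ (q + 1)))) :=
  card_commutator_le_of_class_le (fun z => cl_le_of_pp (cl_le_pp h3 T hT hET hm) z)

end Main

end Cfsg.Agent.Lib.CopBdC
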