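import Mathlib
import Cfsg.Agent.Lib.Five4

/-!
# Sylow arguments for subgroups of prime order, and normal `2`-subgroups of the wreath product.
-/

set_option autoImplicit false
set_option maxRecDepth 100000

open Cfsg

namespace Cfsg.Agent.Lib.FiveGp1

variable {G : Type*} [Group G] [Finite G]

/-- Conjugacy of subgroups of the order of a Sylow subgroup. -/
theorem sylow_conj {p : ℕ} [hp : Fact p.Prime] {X A A' : Subgroup G} (hA : A ≤ X) (hA' : A' ≤ X)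
    (hc : Nat.card A = p ^ (Nat.card X).factorization p) (hc' : Nat.card A' = Nat.card A) :
    ∃ l ∈ X, A'.map (MulAut.conj l).toMonoidHom = A := by
  have h1 : Nat.card (A.subgroupOf X) = Nat.card A := Nat.card_congr (Subgroup.subgroupOfEquivOfLe hA).toEquiv
  have h2 : Nat.card (A'.subgroupOf X) = Nat.card A' := Nat.card_congr (Subgroup.subgroupOfEquivOfLe hA').toEquiv
  have hP1 : IsPGroup p (A.subgroupOf X) := IsPGroup.of_card (n := (Nat.card X).factorization p) (by rw [h1, hc])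
  have hP2 : IsPGroup p (A'.subgroupOf X) := IsPGroup.of_card (n := (Nat.card X).factorization p) (by rw [h2, hc', hc])
  obtain ⟨P₁, hP₁⟩ := hP1.exists_le_sylow
  obtain ⟨P₂, hP₂⟩ := hP2.exists_le_sylow
  have e1 : A.subgroupOf X = P₁ := Subgroup.eq_of_le_of_card_ge hP₁ (by
    rw [P₁.card_eq_multiplicity, h1, hc])
  have e2 : A'.subgroupOf X = P₂ := Subgroup.eq_of_le_of_card_ge hP₂ (by
    rw [P₂.card_eq_multiplicity, h2, hc', hc])
  obtain ⟨l, hl⟩ := MulAction.exists_smul_eq X P₂ P₁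
  refine ⟨l, l.2, ?_⟩
  have h3 : A'.map (MulAut.conj (l : G)).toMonoidHom ≤ A := by
    rintro _ ⟨a, ha, rfl⟩
    have h4 : (⟨a, hA' ha⟩ : X) ∈ (P₂ : Subgroup X) := by
      rw [← e2]
      exact ha
    have h5 : (l * ⟨a, hA' ha⟩ * l⁻¹ : X) ∈ ((l • P₂ : Sylow p X) : Subgroup X) := by
      rw [Sylow.coe_subgroup_smul]
      exact Subgroup.smul_mem_pointwise_smul (⟨a, hA' ha⟩ : X) (MulAut.conj l) _ h4
    rw [hl, ← e1] at h5
    exact h5
  apply Subgroup.eq_of_le_of_card_ge h3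
  rw [Subgroup.card_map_of_injective (MulAut.conj (l : G)).injective, hc']

/-- Elements of odd order in `2`-groups are trivial. -/
theorem eq_one_of_two_five {x : G} (h1 : ∃ k : ℕ, x ^ 2 ^ k = 1) {m : ℕ} (hm : Odd m) (h2 : x ^ m = 1) : x = 1 := by
  obtain ⟨k, hk⟩ := h1
  have h3 : Nat.Coprime (2 ^ k) m := Nat.Coprime.pow_left _ (Nat.coprime_two_left.2 hm)
  have h4 : x ^ Nat.gcd (2 ^ k) m = 1 := pow_gcd_eq_one.2 ⟨hk, h2⟩
  rw [h3.gcd_eq_one, pow_one] at h4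
  exact h4

section coprime

variable {N : Subgroup G} {b : G}

/-- The subgroup `⟨b⟩ N`, for `N` normalized by `b`. -/
def prodS (N : Subgroup G) (b : G) (hb5 : b ^ 5 = 1) (hn : ∀ x ∈ N, b * x * b⁻¹ ∈ N) : Subgroup G where
  carrier := {x | ∃ (i : ℕ) (q : G), q ∈ N ∧ x = b ^ i * q}
  mul_mem' := by
    have hn' : ∀ (j : ℕ), ∀ x ∈ N, b ^ j * x * (b ^ j)⁻¹ ∈ N := by
      intro j
      induction j with
      | zero =>
        intro x hx
        simpa using hx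
      | succ j ih =>
        intro x hx
        have : b ^ (j + 1) * x * (b ^ (j + 1))⁻¹ = b * (b ^ j * x * (b ^ j)⁻¹) * b⁻¹ := by
          rw [pow_succ']
          group
        rw [this]
        exact hn _ (ih x hx)
    have hinv : ∀ j : ℕ, (b ^ j)⁻¹ = b ^ (4 * j) := by
      intro j
      apply inv_eq_of_mul_eq_one_left
      rw [← pow_add, show 4 * j + j = 5 * j by ring, pow_mul, hb5, one_pow]
    rintro _ _ ⟨i, q, hq, rfl⟩ ⟨j, q', hq', rfl⟩
    refine ⟨i + j, (b ^ j)⁻¹ * q * b ^ j * q', ?_, ?_⟩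
    · apply N.mul_mem _ hq'
      have h1 := hn' (4 * j) q hq
      rw [← hinv] at h1
      simpa using h1
    · rw [pow_add]
      group
  one_mem' := ⟨0, 1, N.one_mem, by simp⟩
  inv_mem' := by
    have hn' : ∀ (j : ℕ), ∀ x ∈ N, b ^ j * x * (b ^ j)⁻¹ ∈ N := by
      intro j
      induction j with
      | zero =>
        intro x hx
        simpa using hx
      | succ j ih =>
        intro x hx
        have : b ^ (j + 1) * x * (b ^ (j + 1))⁻¹ = b * (b ^ j * x * (b ^ j)⁻¹) * b⁻¹ := by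
          rw [pow_succ']
          group
        rw [this]
        exact hn _ (ih x hx)
    have hinv : ∀ j : ℕ, (b ^ j)⁻¹ = b ^ (4 * j) := by
      intro j
      apply inv_eq_of_mul_eq_one_left
      rw [← pow_add, show 4 * j + j = 5 * j by ring, pow_mul, hb5, one_pow]
    rintro _ ⟨i, q, hq, rfl⟩
    refine ⟨4 * i, b ^ i * q⁻¹ * (b ^ i)⁻¹, ?_, ?_⟩
    · exact hn' i _ (N.inv_mem hq)
    · rw [← hinv]
      group

/-- Conjugacy of elements of order five in a coset of a `2`-group normalized by it. -/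
theorem coprime_conj (hN : IsPGroup 2 N) (hb5 : b ^ 5 = 1) (hb1 : b ≠ 1) (hn : ∀ x ∈ N, b * x * b⁻¹ ∈ N)
    {b' : G} (hb'5 : b' ^ 5 = 1) (hb' : b⁻¹ * b' ∈ N) : ∃ q ∈ N, q * b' * q⁻¹ = b := by
  have hfive : Fact (Nat.Prime 5) := ⟨by norm_num⟩
  have hb2 : orderOf b = 5 := orderOf_eq_prime hb5 hb1
  -- the group
  set X := prodS N b hb5 hn with hX
  have hmemX : ∀ x, x ∈ X ↔ ∃ (i : ℕ) (q : G), q ∈ N ∧ x = b ^ i * q := fun x => Iff.rfl
  have hinter : ∀ {i : ℕ}, b ^ i ∈ N → b ^ i = 1 := by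
    intro i hi
    obtain ⟨k, hk⟩ := hN ⟨_, hi⟩
    have h1 : (b ^ i) ^ 2 ^ k = 1 := congrArg Subtype.val hk
    have h2 : (b ^ i) ^ 5 = 1 := by
      rw [← pow_mul, mul_comm, pow_mul, hb5, one_pow]
    exact eq_one_of_two_five ⟨k, h1⟩ (by decide) h2
  -- its order
  have hcard : Nat.card X = 5 * Nat.card N := by
    let f : Fin 5 × N → X := fun p => ⟨b ^ (p.1 : ℕ) * p.2, p.1, p.2, p.2.2, rfl⟩
    have hf : Function.Bijective f := by
      constructor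
      · rintro ⟨i, q⟩ ⟨j, r⟩ h
        have h1 : b ^ (i : ℕ) * (q : G) = b ^ (j : ℕ) * (r : G) := congrArg Subtype.val h
        have h2 : (b ^ (j : ℕ))⁻¹ * b ^ (i : ℕ) = (r : G) * (q : G)⁻¹ := by
          calc (b ^ (j : ℕ))⁻¹ * b ^ (i : ℕ) = (b ^ (j : ℕ))⁻¹ * (b ^ (i : ℕ) * q) * (q : G)⁻¹ := by group
            _ = (b ^ (j : ℕ))⁻¹ * (b ^ (j : ℕ) * r) * (q : G)⁻¹ := by rw [h1]
            _ = _ := by group
        have h3 : (b ^ (j : ℕ))⁻¹ = b ^ (4 * (j : ℕ)) := by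
          apply inv_eq_of_mul_eq_one_left
          rw [← pow_add, show 4 * (j : ℕ) + j = 5 * j by ring, pow_mul, hb5, one_pow]
        rw [h3, ← pow_add] at h2
        have h4 : b ^ (4 * (j : ℕ) + i) = 1 := hinter (by
          rw [h2]
          exact N.mul_mem r.2 (N.inv_mem q.2))
        have h5 : (b ^ (j : ℕ))⁻¹ * b ^ (i : ℕ) = 1 := by
          rw [h3, ← pow_add, h4]
        have h6 : b ^ (i : ℕ) = b ^ (j : ℕ) := (inv_mul_eq_one.1 h5).symm
        have hlt : ∀ k : Fin 5, (k : ℕ) ∈ Set.Iio (orderOf b) := by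
          intro k
          rw [hb2]
          exact k.2
        have h7 : (i : ℕ) = j := pow_injOn_Iio_orderOf (hlt i) (hlt j) h6
        have h8 : i = j := Fin.ext h7
        subst h8
        have h9 : (q : G) = r := mul_left_cancel h1
        rw [Subtype.ext h9]
      · rintro ⟨x, i, q, hq, rfl⟩
        have hlt : i % 5 < 5 := Nat.mod_lt _ (by norm_num)
        refine ⟨(⟨i % 5, hlt⟩, ⟨q, hq⟩), Subtype.ext ?_⟩
        show b ^ (i % 5) * q = b ^ i * q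
        congr 1
        conv_rhs => rw [← Nat.div_add_mod i 5, pow_add, pow_mul, hb5, one_pow, one_mul]
    rw [← Nat.card_congr (Equiv.ofBijective f hf), Nat.card_prod, Nat.card_eq_fintype_card (α := Fin 5), Fintype.card_fin]
  obtain ⟨k, hk⟩ := IsPGroup.iff_card.1 hN
  have hfac : (Nat.card X).factorization 5 = 1 := by
    rw [hcard, hk, Nat.factorization_mul (by norm_num) (by positivity)]
    have h2 : (Nat.factorization 2) 5 = 0 := Nat.factorization_eq_zero_of_not_dvd (by norm_num)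
    simp [Nat.factorization_pow, Nat.Prime.factorization (by norm_num : Nat.Prime 5), h2]
  -- the two subgroups
  have hbX : b ∈ X := ⟨1, 1, N.one_mem, by simp⟩
  have hb'X : b' ∈ X := by
    refine ⟨1, b⁻¹ * b', hb', ?_⟩
    rw [pow_one]
    group
  have hcb : Nat.card (Subgroup.zpowers b) = 5 := by
    rw [Nat.card_zpowers, hb2]
  have hb'1 : b' ≠ 1 := by
    rintro rfl
    apply hb1
    have h1 : b⁻¹ ∈ N := by simpa using hb'
    have h2 : b ∈ N := by simpa using N.inv_mem h1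
    have h3 : b ^ 1 = 1 := hinter (by simpa using h2)
    simpa using h3
  have hb'2 : orderOf b' = 5 := orderOf_eq_prime hb'5 hb'1
  have hcb' : Nat.card (Subgroup.zpowers b') = 5 := by
    rw [Nat.card_zpowers, hb'2]
  obtain ⟨l, hl, hm⟩ := sylow_conj (p := 5) (X := X) (A := Subgroup.zpowers b) (A' := Subgroup.zpowers b')
    (Subgroup.zpowers_le.2 hbX) (Subgroup.zpowers_le.2 hb'X) (by rw [hcb, hfac]; norm_num) (by rw [hcb, hcb'])
  obtain ⟨i, q, hq, rfl⟩ := hl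
  have h1 : (b ^ i * q) * b' * (b ^ i * q)⁻¹ ∈ Subgroup.zpowers b := by
    rw [← hm]
    exact ⟨b', Subgroup.mem_zpowers b', rfl⟩
  have h2 : q * b' * q⁻¹ ∈ Subgroup.zpowers b := by
    have h3 : q * b' * q⁻¹ = (b ^ i)⁻¹ * ((b ^ i * q) * b' * (b ^ i * q)⁻¹) * b ^ i := by group
    rw [h3]
    exact Subgroup.mul_mem _ (Subgroup.mul_mem _ (Subgroup.inv_mem _ (Subgroup.pow_mem _ (Subgroup.mem_zpowers b) i)) h1)
      (Subgroup.pow_mem _ (Subgroup.mem_zpowers b) i)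
  obtain ⟨m, hm⟩ := h2
  -- reduce the exponent
  have hbN : ∀ x ∈ N, b' * x * b'⁻¹ ∈ N := by
    intro x hx
    have e : b' = b * (b⁻¹ * b') := by group
    rw [e]
    have h3 : b * (b⁻¹ * b') * x * (b * (b⁻¹ * b'))⁻¹ = b * ((b⁻¹ * b') * x * (b⁻¹ * b')⁻¹) * b⁻¹ := by group
    rw [h3]
    exact hn _ (N.mul_mem (N.mul_mem hb' hx) (N.inv_mem hb'))
  have h4 : b⁻¹ * (q * b' * q⁻¹) ∈ N := by
    have h5 : b⁻¹ * (q * b' * q⁻¹) = (b⁻¹ * b') * (b'⁻¹ * q * b') * q⁻¹ := by group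
    rw [h5]
    refine N.mul_mem (N.mul_mem hb' ?_) (N.inv_mem hq)
    have h6 : ∀ j : ℕ, ∀ x ∈ N, b' ^ j * x * (b' ^ j)⁻¹ ∈ N := by
      intro j
      induction j with
      | zero =>
        intro x hx
        simpa using hx
      | succ j ih =>
        intro x hx
        have : b' ^ (j + 1) * x * (b' ^ (j + 1))⁻¹ = b' * (b' ^ j * x * (b' ^ j)⁻¹) * b'⁻¹ := by
          rw [pow_succ']
          group
        rw [this]
        exact hbN _ (ih x hx)
    have h7 := h6 4 q hq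
    have h8 : b' ^ 4 = b'⁻¹ := by
      apply eq_inv_of_mul_eq_one_left
      rw [← pow_succ, hb'5]
    rw [h8] at h7
    simpa using h7
  refine ⟨q, hq, ?_⟩
  rw [← hm] at h4 ⊢
  have h9 : b⁻¹ * b ^ m = b ^ (m + 4 : ℤ) := by
    have h10 : b⁻¹ = b ^ (4 : ℤ) := by
      apply inv_eq_of_mul_eq_one_left
      rw [← zpow_add_one, show (4 : ℤ) + 1 = 5 by norm_num]
      exact_mod_cast hb5
    rw [h10, ← zpow_add, add_comm]
  rw [h9] at h4
  have h11 : (b ^ (m + 4 : ℤ)) ^ 5 = 1 := by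
    rw [← zpow_natCast, ← zpow_mul, mul_comm, zpow_mul]
    have : b ^ ((5 : ℕ) : ℤ) = 1 := by rw [zpow_natCast]; exact hb5
    rw [this, one_zpow]
  obtain ⟨k', hk'⟩ := hN ⟨_, h4⟩
  have h12 : (b ^ (m + 4 : ℤ)) ^ 2 ^ k' = 1 := congrArg Subtype.val hk'
  have h13 := eq_one_of_two_five ⟨k', h12⟩ (by decide) h11
  have h14 : b⁻¹ * b ^ m = 1 := by rw [h9, h13]
  exact (inv_mul_eq_one.1 h14).symm

end coprime

/-! ### The wreath product has no normal `2`-subgroups -/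

/-- Commutators in `A₅`. -/
theorem comm_a5' : ∀ σ : Equiv.Perm (Fin 5), σ = 1 ∨ Equiv.Perm.sign σ ≠ 1 ∨ ∃ β : Equiv.Perm (Fin 5),
    Equiv.Perm.sign β = 1 ∧ σ * β * σ⁻¹ * β⁻¹ ≠ 1 ∧
      ((σ * β * σ⁻¹ * β⁻¹) ^ 3 = 1 ∨ (σ * β * σ⁻¹ * β⁻¹) ^ 5 = 1) := by
  decide +kernel

theorem comm_a5 (σ : Equiv.Perm (Fin 5)) (h1 : Equiv.Perm.sign σ = 1) (h2 : σ ≠ 1) : ∃ β : Equiv.Perm (Fin 5),
    Equiv.Perm.sign β = 1 ∧ σ * β * σ⁻¹ * β⁻¹ ≠ 1 ∧
      ((σ * β * σ⁻¹ * β⁻¹) ^ 3 = 1 ∨ (σ * β * σ⁻¹ * β⁻¹) ^ 5 = 1) := by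
  rcases comm_a5' σ with h | h | h
  · exact absurd h h2
  · exact absurd h1 h
  · exact h

theorem sumCongr_comm (a b c d : Equiv.Perm (Fin 5)) :
    Equiv.Perm.sumCongr a b * Equiv.Perm.sumCongr c d * (Equiv.Perm.sumCongr a b)⁻¹ * (Equiv.Perm.sumCongr c d)⁻¹ =
      Equiv.Perm.sumCongr (a * c * a⁻¹ * c⁻¹) (b * d * b⁻¹ * d⁻¹) := by
  ext t
  cases t <;> rfl

/-- The elements of the wreath product. -/
theorem W_cases {x : Equiv.Perm (Fin 5 ⊕ Fin 5)} (hx : x ∈ alternatingFiveWreathTwo) :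
    ∃ σ τ : Equiv.Perm (Fin 5), σ ∈ alternatingGroup (Fin 5) ∧ τ ∈ alternatingGroup (Fin 5) ∧
      (x = Equiv.Perm.sumCongr σ τ ∨ x = Equiv.Perm.sumCongr σ τ * Equiv.sumComm (Fin 5) (Fin 5)) := by
  unfold alternatingFiveWreathTwo at hx
  have hsw : ∀ a b : Equiv.Perm (Fin 5), Equiv.sumComm (Fin 5) (Fin 5) * Equiv.Perm.sumCongr a b =
      Equiv.Perm.sumCongr b a * Equiv.sumComm (Fin 5) (Fin 5) := by
    intro a b
    ext t
    cases t <;> rfl
  have hss : (Equiv.sumComm (Fin 5) (Fin 5) : Equiv.Perm (Fin 5 ⊕ Fin 5)) * Equiv.sumComm (Fin 5) (Fin 5) = 1 := by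
    ext t
    cases t <;> rfl
  have hmm : ∀ a b c d : Equiv.Perm (Fin 5), Equiv.Perm.sumCongr a b * Equiv.Perm.sumCongr c d = Equiv.Perm.sumCongr (a * c) (b * d) := by
    intro a b c d
    ext t
    cases t <;> rfl
  induction hx using Subgroup.closure_induction with
  | mem x hx =>
    rcases hx with ⟨σ, τ, rfl⟩ | hx
    · exact ⟨σ, τ, σ.2, τ.2, Or.inl rfl⟩
    · refine ⟨1, 1, Subgroup.one_mem _, Subgroup.one_mem _, Or.inr ?_⟩
      rw [Set.mem_singleton_iff.1 hx]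
      ext t
      cases t <;> rfl
  | one =>
    refine ⟨1, 1, Subgroup.one_mem _, Subgroup.one_mem _, Or.inl ?_⟩
    ext t
    cases t <;> rfl
  | mul x y _ _ hx hy =>
    obtain ⟨a, b, ha, hb, h1⟩ := hx
    obtain ⟨c, d, hc, hd, h2⟩ := hy
    rcases h1 with rfl | rfl <;> rcases h2 with rfl | rfl
    · exact ⟨a * c, b * d, Subgroup.mul_mem _ ha hc, Subgroup.mul_mem _ hb hd, Or.inl (hmm _ _ _ _)⟩
    · exact ⟨a * c, b * d, Subgroup.mul_mem _ ha hc, Subgroup.mul_mem _ hb hd, Or.inr (by rw [← mul_assoc, hmm])⟩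
    · refine ⟨a * d, b * c, Subgroup.mul_mem _ ha hd, Subgroup.mul_mem _ hb hc, Or.inr ?_⟩
      rw [mul_assoc, hsw, ← mul_assoc, hmm]
    · refine ⟨a * d, b * c, Subgroup.mul_mem _ ha hd, Subgroup.mul_mem _ hb hc, Or.inl ?_⟩
      rw [mul_assoc, ← mul_assoc (Equiv.sumComm (Fin 5) (Fin 5)), hsw, mul_assoc, hss, mul_one, hmm]
  | inv x _ hx =>
    obtain ⟨a, b, ha, hb, h1⟩ := hx
    rcases h1 with rfl | rfl
    · refine ⟨a⁻¹, b⁻¹, Subgroup.inv_mem _ ha, Subgroup.inv_mem _ hb, Or.inl ?_⟩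
      ext t
      cases t <;> rfl
    · refine ⟨b⁻¹, a⁻¹, Subgroup.inv_mem _ hb, Subgroup.inv_mem _ ha, Or.inr ?_⟩
      ext t
      cases t <;> rfl

theorem sumCongr_mem {σ τ : Equiv.Perm (Fin 5)} (hσ : σ ∈ alternatingGroup (Fin 5)) (hτ : τ ∈ alternatingGroup (Fin 5)) :
    Equiv.Perm.sumCongr σ τ ∈ alternatingFiveWreathTwo :=
  Subgroup.subset_closure (Or.inl ⟨⟨σ, hσ⟩, ⟨τ, hτ⟩, rfl⟩)

/-- The wreath product has no normal `2`-subgroups. -/
theorem W_no_normal (P : Subgroup alternatingFiveWreathTwo) (hn : P.Normal) (h2 : IsPGroup 2 P) : P = ⊥ := by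
  rw [eq_bot_iff]
  intro x hx
  -- the commutator with any element lies in `P`
  have hcomm : ∀ u : alternatingFiveWreathTwo, x * u * x⁻¹ * u⁻¹ ∈ P := by
    intro u
    have h1 : x * u * x⁻¹ * u⁻¹ = x * (u * x⁻¹ * u⁻¹) := by group
    rw [h1]
    exact P.mul_mem hx (hn.conj_mem _ (P.inv_mem hx) u)
  have hodd : ∀ y ∈ P, ∀ {m : ℕ}, Odd m → y ^ m = 1 → y = 1 := by
    intro y hy m hm h
    obtain ⟨k, hk⟩ := h2 ⟨y, hy⟩
    have h1 : y ^ 2 ^ k = 1 := by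
      have := congrArg Subtype.val hk
      simpa using this
    exact eq_one_of_two_five ⟨k, h1⟩ hm h
  -- the homomorphism
  let Φ := Equiv.Perm.sumCongrHom (Fin 5) (Fin 5)
  have hΦ : ∀ a b, Equiv.Perm.sumCongr a b = Φ (a, b) := fun _ _ => rfl
  have hΦinj : Function.Injective Φ := Equiv.Perm.sumCongrHom_injective
  have hΦodd : ∀ y ∈ P, ∀ a b, (y : Equiv.Perm (Fin 5 ⊕ Fin 5)) = Φ (a, b) → ∀ {m : ℕ}, Odd m → a ^ m = 1 → b ^ m = 1 →
      a = 1 ∧ b = 1 := by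
    intro y hy a b hyv m hm ha hb
    have h3 : y = 1 := by
      apply hodd y hy hm
      apply Subtype.ext
      rw [Subgroup.coe_pow, hyv, ← map_pow, Prod.pow_mk, ha, hb]
      exact map_one Φ
    have h4 : Φ (a, b) = Φ 1 := by
      rw [← hyv, h3, map_one]
      rfl
    have h5 := hΦinj h4
    exact ⟨congrArg Prod.fst h5, congrArg Prod.snd h5⟩
  obtain ⟨σ, τ, hσ, hτ, hcases⟩ := W_cases x.2
  rw [hΦ] at hcases
  have hone : (1 : Equiv.Perm (Fin 5)) ∈ alternatingGroup (Fin 5) := Subgroup.one_mem _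
  rcases hcases with hc | hc
  · -- the diagonal case
    have hσ1 : σ = 1 := by
      by_contra hne
      obtain ⟨β, hβ, h3, h4⟩ := comm_a5 σ (Equiv.Perm.mem_alternatingGroup.1 hσ) hne
      have hβ' : β ∈ alternatingGroup (Fin 5) := Equiv.Perm.mem_alternatingGroup.2 hβ
      let u : alternatingFiveWreathTwo := ⟨_, sumCongr_mem hβ' hone⟩
      have hu : (u : Equiv.Perm (Fin 5 ⊕ Fin 5)) = Φ (β, 1) := rfl
      have h6 : ((x * u * x⁻¹ * u⁻¹ : alternatingFiveWreathTwo) : Equiv.Perm (Fin 5 ⊕ Fin 5)) =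
          Φ (σ * β * σ⁻¹ * β⁻¹, 1) := by
        show (x : Equiv.Perm (Fin 5 ⊕ Fin 5)) * u * (x : Equiv.Perm (Fin 5 ⊕ Fin 5))⁻¹ * (u : Equiv.Perm (Fin 5 ⊕ Fin 5))⁻¹ = _
        rw [hc, hu, ← map_inv, ← map_inv, ← map_mul, ← map_mul, ← map_mul]
        congr 1
        ext i <;> simp
      rcases h4 with h4 | h4
      · exact h3 (hΦodd _ (hcomm u) _ _ h6 (m := 3) (by decide) h4 (one_pow _)).1
      · exact h3 (hΦodd _ (hcomm u) _ _ h6 (m := 5) (by decide) h4 (one_pow _)).1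
    have hτ1 : τ = 1 := by
      by_contra hne
      obtain ⟨β, hβ, h3, h4⟩ := comm_a5 τ (Equiv.Perm.mem_alternatingGroup.1 hτ) hne
      have hβ' : β ∈ alternatingGroup (Fin 5) := Equiv.Perm.mem_alternatingGroup.2 hβ
      let u : alternatingFiveWreathTwo := ⟨_, sumCongr_mem hone hβ'⟩
      have hu : (u : Equiv.Perm (Fin 5 ⊕ Fin 5)) = Φ (1, β) := rfl
      have h6 : ((x * u * x⁻¹ * u⁻¹ : alternatingFiveWreathTwo) : Equiv.Perm (Fin 5 ⊕ Fin 5)) =
          Φ (1, τ * β * τ⁻¹ * β⁻¹) := by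
        show (x : Equiv.Perm (Fin 5 ⊕ Fin 5)) * u * (x : Equiv.Perm (Fin 5 ⊕ Fin 5))⁻¹ * (u : Equiv.Perm (Fin 5 ⊕ Fin 5))⁻¹ = _
        rw [hc, hu, ← map_inv, ← map_inv, ← map_mul, ← map_mul, ← map_mul]
        congr 1
        ext i <;> simp
      rcases h4 with h4 | h4
      · exact h3 (hΦodd _ (hcomm u) _ _ h6 (m := 3) (by decide) (one_pow _) h4).2
      · exact h3 (hΦodd _ (hcomm u) _ _ h6 (m := 5) (by decide) (one_pow _) h4).2
    rw [Subgroup.mem_bot]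
    apply Subtype.ext
    rw [hc, hσ1, hτ1]
    exact map_one Φ
  · -- the swapping case
    exfalso
    have hc3 : Cfsg.Agent.Lib.Five3.cP ∈ alternatingGroup (Fin 5) := by
      rw [Equiv.Perm.mem_alternatingGroup]
      decide +kernel
    let u : alternatingFiveWreathTwo := ⟨_, sumCongr_mem hc3 hone⟩
    have hu : (u : Equiv.Perm (Fin 5 ⊕ Fin 5)) = Φ (Cfsg.Agent.Lib.Five3.cP, 1) := rfl
    have hsw : ∀ a b : Equiv.Perm (Fin 5), Equiv.sumComm (Fin 5) (Fin 5) * Φ (a, b) * (Equiv.sumComm (Fin 5) (Fin 5))⁻¹ =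
        Φ (b, a) := by
      intro a b
      ext t
      cases t <;> rfl
    have h6 : ((x * u * x⁻¹ * u⁻¹ : alternatingFiveWreathTwo) : Equiv.Perm (Fin 5 ⊕ Fin 5)) =
        Φ (Cfsg.Agent.Lib.Five3.cP⁻¹, τ * Cfsg.Agent.Lib.Five3.cP * τ⁻¹) := by
      show (x : Equiv.Perm (Fin 5 ⊕ Fin 5)) * u * (x : Equiv.Perm (Fin 5 ⊕ Fin 5))⁻¹ * (u : Equiv.Perm (Fin 5 ⊕ Fin 5))⁻¹ = _
      rw [hc, hu]
      have e : ∀ A B S : Equiv.Perm (Fin 5 ⊕ Fin 5), (A * S) * B * (A * S)⁻¹ * B⁻¹ = A * (S * B * S⁻¹) * A⁻¹ * B⁻¹ := by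
        intros; group
      rw [e, hsw, ← map_inv, ← map_inv, ← map_mul, ← map_mul, ← map_mul]
      congr 1
      ext i <;> simp
    have h8 : Cfsg.Agent.Lib.Five3.cP ^ 3 = 1 := by decide +kernel
    have h9 : (τ * Cfsg.Agent.Lib.Five3.cP * τ⁻¹) ^ 3 = 1 := by
      rw [conj_pow, h8]
      simp
    have h10 := (hΦodd _ (hcomm u) _ _ h6 (m := 3) (by decide) (by rw [inv_pow, h8, inv_one]) h9).1
    have h11 : Cfsg.Agent.Lib.Five3.cP = 1 := by simpa using h10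
    revert h11
    decide +kernel

end Cfsg.Agent.Lib.FiveGp1
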