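import Mathlib
import Cfsg.Agent.Lib.FiveGp1

/-!
# Conjugacy of elements of odd prime order modulo a normal `2`-subgroup.
-/

set_option autoImplicit false

open Cfsg
open Cfsg.Agent.Lib.FiveGp1 (sylow_conj eq_one_of_two_five)

namespace Cfsg.Agent.Lib.CoprimeConj

variable {G : Type*} [Group G] [Finite G]

theorem inv_pow_eq {b : G} {p : ℕ} (hp1 : 1 ≤ p) (hb : b ^ p = 1) (j : ℕ) : (b ^ j)⁻¹ = b ^ ((p - 1) * j) := by
  apply inv_eq_of_mul_eq_one_left
  have e : (p - 1) * j + j = p * j := by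
    conv_rhs => rw [← Nat.sub_add_cancel hp1, add_mul, one_mul]
  rw [← pow_add, e, pow_mul, hb, one_pow]

section coprime

variable {N : Subgroup G} {b : G}

/-- The subgroup `⟨b⟩ N`, for `N` normalized by `b`. -/
def prodS (N : Subgroup G) (b : G) {p : ℕ} (hp1 : 1 ≤ p) (hb5 : b ^ p = 1) (hn : ∀ x ∈ N, b * x * b⁻¹ ∈ N) : Subgroup G where
  carrier := {x | ∃ (i : ℕ) (q : G), q ∈ N ∧ x = b ^ i * q}
  mul_mem' := by
    have hn' : ∀ (j : ℕ), ∀ x ∈ N, b ^ j * x * (b ^ j)⁻¹ ∈ N := by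
      intro j
      induction j with
      | zero =>
        intro x hx
        simpa using hx
      | succ j ih =>
        intro x hx
        have : b ^ (j + 1) * x * (b ^ (j + 1))⁻¹ = b * (b ^ j * x * (b ^ j)⁻¹) * b⁻¹ := by
          rw [pow_succ']
          group
        rw [this]
        exact hn _ (ih x hx)
    have hinv : ∀ j : ℕ, (b ^ j)⁻¹ = b ^ ((p - 1) * j) := inv_pow_eq hp1 hb5
    rintro _ _ ⟨i, q, hq, rfl⟩ ⟨j, q', hq', rfl⟩
    refine ⟨i + j, (b ^ j)⁻¹ * q * b ^ j * q', ?_, ?_⟩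
    · apply N.mul_mem _ hq'
      have h1 := hn' ((p - 1) * j) q hq
      rw [← hinv] at h1
      simpa using h1
    · rw [pow_add]
      group
  one_mem' := ⟨0, 1, N.one_mem, by simp⟩
  inv_mem' := by
    have hn' : ∀ (j : ℕ), ∀ x ∈ N, b ^ j * x * (b ^ j)⁻¹ ∈ N := by
      intro j
      induction j with
      | zero =>
        intro x hx
        simpa using hx
      | succ j ih =>
        intro x hx
        have : b ^ (j + 1) * x * (b ^ (j + 1))⁻¹ = b * (b ^ j * x * (b ^ j)⁻¹) * b⁻¹ := by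
          rw [pow_succ']
          group
        rw [this]
        exact hn _ (ih x hx)
    have hinv : ∀ j : ℕ, (b ^ j)⁻¹ = b ^ ((p - 1) * j) := inv_pow_eq hp1 hb5
    rintro _ ⟨i, q, hq, rfl⟩
    refine ⟨(p - 1) * i, b ^ i * q⁻¹ * (b ^ i)⁻¹, ?_, ?_⟩
    · exact hn' i _ (N.inv_mem hq)
    · rw [← hinv]
      group

/-- Conjugacy of elements of odd prime order in a coset of a `2`-group normalized by it. -/
theorem coprime_conj {p : ℕ} (hpp : p.Prime) (hodd : Odd p) (hN : IsPGroup 2 N) (hb5 : b ^ p = 1) (hb1 : b ≠ 1) (hn : ∀ x ∈ N, b * x * b⁻¹ ∈ N)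
    {b' : G} (hb'5 : b' ^ p = 1) (hb' : b⁻¹ * b' ∈ N) : ∃ q ∈ N, q * b' * q⁻¹ = b := by
  have hfive : Fact (Nat.Prime p) := ⟨hpp⟩
  have hp1 : 1 ≤ p := hpp.one_le
  have hb2 : orderOf b = p := orderOf_eq_prime hb5 hb1
  -- the group
  set X := prodS N b hp1 hb5 hn with hX
  have hmemX : ∀ x, x ∈ X ↔ ∃ (i : ℕ) (q : G), q ∈ N ∧ x = b ^ i * q := fun x => Iff.rfl
  have hinter : ∀ {i : ℕ}, b ^ i ∈ N → b ^ i = 1 := by
    intro i hi
    obtain ⟨k, hk⟩ := hN ⟨_, hi⟩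
    have h1 : (b ^ i) ^ 2 ^ k = 1 := congrArg Subtype.val hk
    have h2 : (b ^ i) ^ p = 1 := by
      rw [← pow_mul, mul_comm, pow_mul, hb5, one_pow]
    exact eq_one_of_two_five ⟨k, h1⟩ hodd h2
  -- its order
  have hcard : Nat.card X = p * Nat.card N := by
    let f : Fin p × N → X := fun p => ⟨b ^ (p.1 : ℕ) * p.2, p.1, p.2, p.2.2, rfl⟩
    have hf : Function.Bijective f := by
      constructor
      · rintro ⟨i, q⟩ ⟨j, r⟩ h
        have h1 : b ^ (i : ℕ) * (q : G) = b ^ (j : ℕ) * (r : G) := congrArg Subtype.val h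
        have h2 : (b ^ (j : ℕ))⁻¹ * b ^ (i : ℕ) = (r : G) * (q : G)⁻¹ := by
          calc (b ^ (j : ℕ))⁻¹ * b ^ (i : ℕ) = (b ^ (j : ℕ))⁻¹ * (b ^ (i : ℕ) * q) * (q : G)⁻¹ := by group
            _ = (b ^ (j : ℕ))⁻¹ * (b ^ (j : ℕ) * r) * (q : G)⁻¹ := by rw [h1]
            _ = _ := by group
        have h3 : (b ^ (j : ℕ))⁻¹ = b ^ ((p - 1) * (j : ℕ)) := inv_pow_eq hp1 hb5 j
        rw [h3, ← pow_add] at h2
        have h4 : b ^ ((p - 1) * (j : ℕ) + i) = 1 := hinter (by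
          rw [h2]
          exact N.mul_mem r.2 (N.inv_mem q.2))
        have h5 : (b ^ (j : ℕ))⁻¹ * b ^ (i : ℕ) = 1 := by
          rw [h3, ← pow_add, h4]
        have h6 : b ^ (i : ℕ) = b ^ (j : ℕ) := (inv_mul_eq_one.1 h5).symm
        have hlt : ∀ k : Fin p, (k : ℕ) ∈ Set.Iio (orderOf b) := by
          intro k
          rw [hb2]
          exact k.2
        have h7 : (i : ℕ) = j := pow_injOn_Iio_orderOf (hlt i) (hlt j) h6
        have h8 : i = j := Fin.ext h7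
        subst h8
        have h9 : (q : G) = r := mul_left_cancel h1
        rw [Subtype.ext h9]
      · rintro ⟨x, i, q, hq, rfl⟩
        have hlt : i % p < p := Nat.mod_lt _ hpp.pos
        refine ⟨(⟨i % p, hlt⟩, ⟨q, hq⟩), Subtype.ext ?_⟩
        show b ^ (i % p) * q = b ^ i * q
        congr 1
        conv_rhs => rw [← Nat.div_add_mod i p, pow_add, pow_mul, hb5, one_pow, one_mul]
    rw [← Nat.card_congr (Equiv.ofBijective f hf), Nat.card_prod, Nat.card_eq_fintype_card (α := Fin p), Fintype.card_fin]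
  obtain ⟨k, hk⟩ := IsPGroup.iff_card.1 hN
  have hp2 : p ≠ 2 := by
    rintro rfl
    exact absurd hodd (by decide)
  have hfac : (Nat.card X).factorization p = 1 := by
    rw [hcard, hk, Nat.factorization_mul hpp.ne_zero (by positivity)]
    have h2 : (Nat.factorization 2) p = 0 := Nat.factorization_eq_zero_of_not_dvd (by
      intro h
      exact hp2 ((Nat.prime_dvd_prime_iff_eq hpp Nat.prime_two).1 (by
        rcases (Nat.dvd_prime Nat.prime_two).1 h with h3 | h3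
        · exact absurd h3 hpp.one_lt.ne'
        · rw [h3])))
    simp [Nat.factorization_pow, Nat.Prime.factorization hpp, h2]
  -- the two subgroups
  have hbX : b ∈ X := ⟨1, 1, N.one_mem, by simp⟩
  have hb'X : b' ∈ X := by
    refine ⟨1, b⁻¹ * b', hb', ?_⟩
    rw [pow_one]
    group
  have hcb : Nat.card (Subgroup.zpowers b) = p := by
    rw [Nat.card_zpowers, hb2]
  have hb'1 : b' ≠ 1 := by
    rintro rfl
    apply hb1
    have h1 : b⁻¹ ∈ N := by simpa using hb'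
    have h2 : b ∈ N := by simpa using N.inv_mem h1
    have h3 : b ^ 1 = 1 := hinter (by simpa using h2)
    simpa using h3
  have hb'2 : orderOf b' = p := orderOf_eq_prime hb'5 hb'1
  have hcb' : Nat.card (Subgroup.zpowers b') = p := by
    rw [Nat.card_zpowers, hb'2]
  obtain ⟨l, hl, hm⟩ := sylow_conj (p := p) (X := X) (A := Subgroup.zpowers b) (A' := Subgroup.zpowers b')
    (Subgroup.zpowers_le.2 hbX) (Subgroup.zpowers_le.2 hb'X) (by rw [hcb, hfac, pow_one]) (by rw [hcb, hcb'])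
  obtain ⟨i, q, hq, rfl⟩ := hl
  have h1 : (b ^ i * q) * b' * (b ^ i * q)⁻¹ ∈ Subgroup.zpowers b := by
    rw [← hm]
    exact ⟨b', Subgroup.mem_zpowers b', rfl⟩
  have h2 : q * b' * q⁻¹ ∈ Subgroup.zpowers b := by
    have h3 : q * b' * q⁻¹ = (b ^ i)⁻¹ * ((b ^ i * q) * b' * (b ^ i * q)⁻¹) * b ^ i := by group
    rw [h3]
    exact Subgroup.mul_mem _ (Subgroup.mul_mem _ (Subgroup.inv_mem _ (Subgroup.pow_mem _ (Subgroup.mem_zpowers b) i)) h1)
      (Subgroup.pow_mem _ (Subgroup.mem_zpowers b) i)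
  obtain ⟨m, hm⟩ := h2
  -- reduce the exponent
  have hbN : ∀ x ∈ N, b' * x * b'⁻¹ ∈ N := by
    intro x hx
    have e : b' = b * (b⁻¹ * b') := by group
    rw [e]
    have h3 : b * (b⁻¹ * b') * x * (b * (b⁻¹ * b'))⁻¹ = b * ((b⁻¹ * b') * x * (b⁻¹ * b')⁻¹) * b⁻¹ := by group
    rw [h3]
    exact hn _ (N.mul_mem (N.mul_mem hb' hx) (N.inv_mem hb'))
  have h4 : b⁻¹ * (q * b' * q⁻¹) ∈ N := by
    have h5 : b⁻¹ * (q * b' * q⁻¹) = (b⁻¹ * b') * (b'⁻¹ * q * b') * q⁻¹ := by group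
    rw [h5]
    refine N.mul_mem (N.mul_mem hb' ?_) (N.inv_mem hq)
    have h6 : ∀ j : ℕ, ∀ x ∈ N, b' ^ j * x * (b' ^ j)⁻¹ ∈ N := by
      intro j
      induction j with
      | zero =>
        intro x hx
        simpa using hx
      | succ j ih =>
        intro x hx
        have : b' ^ (j + 1) * x * (b' ^ (j + 1))⁻¹ = b' * (b' ^ j * x * (b' ^ j)⁻¹) * b'⁻¹ := by
          rw [pow_succ']
          group
        rw [this]
        exact hbN _ (ih x hx)
    have h7 := h6 (p - 1) q hq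
    have h8 : b' ^ (p - 1) = b'⁻¹ := by
      apply eq_inv_of_mul_eq_one_left
      rw [← pow_succ, Nat.sub_add_cancel hp1, hb'5]
    rw [h8] at h7
    simpa using h7
  refine ⟨q, hq, ?_⟩
  rw [← hm] at h4 ⊢
  have h9 : b⁻¹ * b ^ m = b ^ (m - 1 : ℤ) := by
    rw [sub_eq_neg_add, zpow_add, zpow_neg_one]
  rw [h9] at h4
  have h11 : (b ^ (m - 1 : ℤ)) ^ p = 1 := by
    rw [← zpow_natCast, ← zpow_mul, mul_comm, zpow_mul]
    have : b ^ ((p : ℕ) : ℤ) = 1 := by rw [zpow_natCast]; exact hb5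
    rw [this, one_zpow]
  obtain ⟨k', hk'⟩ := hN ⟨_, h4⟩
  have h12 : (b ^ (m - 1 : ℤ)) ^ 2 ^ k' = 1 := congrArg Subtype.val hk'
  have h13 := eq_one_of_two_five ⟨k', h12⟩ hodd h11
  have h14 : b⁻¹ * b ^ m = 1 := by rw [h9, h13]
  exact (inv_mul_eq_one.1 h14).symm

end coprime

end Cfsg.Agent.Lib.CoprimeConj
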