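import Mathlib

/-!
# Counting solutions of `u * a w = w * b u` for commuting automorphisms of a finite abelian group

For commuting automorphisms `a`, `b` of a finite abelian group `A`, with `a` of order coprime to `|A|`, the
number of pairs `(u, w)` with `u * a w = w * b u` is `|A| * |C_A(a, b)|`.  This is the count of commuting
lifts in the semidirect product. Also: invariance of the class number under isomorphism.
-/

set_option autoImplicit false

namespace Cfsg.Agent.Lib.CoprimeCount

/-- Size of a group from a homomorphism. -/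
theorem card_eq_ker_mul_range {B C : Type*} [Group B] [Group C] [Finite B] (f : B →* C) :
    Nat.card B = Nat.card f.ker * Nat.card f.range := by
  rw [← Subgroup.index_ker, Subgroup.card_mul_index]

/-- Abstract count. -/
theorem abstract_count {A : Type*} [CommGroup A] [Finite A] (E F P : A →* A)
    (hEF : ∀ a, E (F a) = F (E a)) (hFP : ∀ a, F (P a) = P (F a))
    (h1 : ∀ a, E (P a) = 1) (h2 : ∀ a, E a = 1 → P a = a) (h3 : ∀ b, P (E b) = 1) :
    Nat.card {p : A × A // F p.1 = E p.2} = Nat.card A * Nat.card {a : A // E a = 1 ∧ F a = 1} := by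
  classical
  -- kernel of P is the range of E
  have hPrange : P.range = E.ker := by
    ext a
    constructor
    · rintro ⟨b, rfl⟩
      exact h1 b
    · intro ha
      exact ⟨a, h2 a ha⟩
  have hRle : E.range ≤ P.ker := by
    rintro _ ⟨b, rfl⟩
    exact h3 b
  have hcardE := card_eq_ker_mul_range E
  have hcardP := card_eq_ker_mul_range P
  rw [hPrange] at hcardP
  have hpos : 0 < Nat.card E.ker := Nat.card_pos
  have hcardR : Nat.card P.ker = Nat.card E.range := by
    have h : Nat.card E.ker * Nat.card P.ker = Nat.card E.ker * Nat.card E.range := by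
      rw [← hcardE, hcardP, mul_comm]
    exact Nat.eq_of_mul_eq_mul_left hpos h
  have hR : E.range = P.ker := Subgroup.eq_of_le_of_card_ge hRle hcardR.le
  -- the subgroup L
  let L : Subgroup A := E.range.comap F
  have hRL : E.range ≤ L := by
    rintro _ ⟨b, rfl⟩
    exact ⟨F b, hEF b⟩
  have hLmem : ∀ u : A, u ∈ L ↔ F (P u) = 1 := by
    intro u
    constructor
    · rintro ⟨b, hb⟩
      rw [hFP, ← hb, h3]
    · intro hu
      -- u = P u * (u * (P u)⁻¹) with the second factor in the range of E
      have h4 : u * (P u)⁻¹ ∈ P.ker := by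
        rw [MonoidHom.mem_ker, map_mul, map_inv, h2 (P u) (h1 u), mul_inv_cancel]
      rw [← hR] at h4
      have h5 : u = P u * (u * (P u)⁻¹) := by
        rw [mul_comm u, ← mul_assoc, mul_inv_cancel, one_mul]
      show F u ∈ E.range
      rw [h5, map_mul, hu, one_mul]
      obtain ⟨b, hb⟩ := h4
      rw [← hb, ← hEF]
      exact ⟨F b, rfl⟩
  -- |L| = |R| |K|
  let K : Subgroup A := E.ker ⊓ F.ker
  have hcardL : Nat.card L = Nat.card E.range * Nat.card K := by
    let P' : L →* A := P.comp L.subtype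
    have hrange : P'.range = K := by
      ext a
      constructor
      · rintro ⟨⟨u, hu⟩, rfl⟩
        exact ⟨h1 u, (hLmem u).1 hu⟩
      · rintro ⟨ha1, ha2⟩
        have ha3 : a ∈ L := by
          show F a ∈ E.range
          rw [MonoidHom.mem_ker.mp ha2]
          exact one_mem _
        exact ⟨⟨a, ha3⟩, h2 a ha1⟩
    have hker : Nat.card P'.ker = Nat.card E.range := by
      refine Nat.card_congr ⟨fun x => ⟨x.1.1, ?_⟩, fun y => ⟨⟨y.1, hRL y.2⟩, ?_⟩, fun x => rfl, fun y => rfl⟩
      · rw [hR]
        exact x.2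
      · have : y.1 ∈ P.ker := hR ▸ y.2
        exact this
    rw [card_eq_ker_mul_range P', hker, hrange]
  -- the pullback
  let τ : A × A →* A :=
    { toFun := fun p => F p.1 * (E p.2)⁻¹
      map_one' := by simp
      map_mul' := fun p q => by
        simp only [Prod.fst_mul, Prod.snd_mul, map_mul, mul_inv]
        ac_rfl }
  have hY : Nat.card {p : A × A // F p.1 = E p.2} = Nat.card τ.ker := by
    apply Nat.card_congr
    apply Equiv.subtypeEquivRight
    intro p
    rw [MonoidHom.mem_ker]
    show F p.1 = E p.2 ↔ F p.1 * (E p.2)⁻¹ = 1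
    rw [mul_inv_eq_one]
  let pr : τ.ker →* A := (MonoidHom.fst A A).comp τ.ker.subtype
  have hprrange : pr.range = L := by
    ext u
    constructor
    · rintro ⟨⟨p, hp⟩, rfl⟩
      have : F p.1 * (E p.2)⁻¹ = 1 := hp
      exact ⟨p.2, (mul_inv_eq_one.mp this).symm⟩
    · rintro ⟨w, hw⟩
      refine ⟨⟨(u, w), ?_⟩, rfl⟩
      rw [MonoidHom.mem_ker]
      show F u * (E w)⁻¹ = 1
      rw [mul_inv_eq_one]
      exact hw.symm
  have hprker : Nat.card pr.ker = Nat.card E.ker := by
    refine Nat.card_congr ⟨fun x => ⟨x.1.1.2, ?_⟩, fun y => ⟨⟨(1, y.1), ?_⟩, ?_⟩, ?_, ?_⟩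
    · have h6 : x.1.1.1 = 1 := x.2
      have h7 : F x.1.1.1 * (E x.1.1.2)⁻¹ = 1 := x.1.2
      rw [h6, map_one, one_mul, inv_eq_one] at h7
      exact h7
    · rw [MonoidHom.mem_ker]
      show F 1 * (E y.1)⁻¹ = 1
      rw [map_one, one_mul, MonoidHom.mem_ker.mp y.2, inv_one]
    · rfl
    · intro x
      have h6 : x.1.1.1 = 1 := x.2
      apply Subtype.ext
      apply Subtype.ext
      exact Prod.ext h6.symm rfl
    · intro y
      rfl
  have hKcard : Nat.card {a : A // E a = 1 ∧ F a = 1} = Nat.card K := rfl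
  rw [hY, card_eq_ker_mul_range pr, hprker, hprrange, hcardL, hKcard, hcardE]
  ring

/-- `t` with `t * n ≡ 1` in exponent `|A|`. -/
theorem exists_pow_inv {A : Type*} [CommGroup A] [Finite A] (n : ℕ) (hcop : n.Coprime (Nat.card A)) :
    ∃ t : ℕ, ∀ a : A, (a ^ n) ^ t = a := by
  classical
  have : NeZero (Nat.card A) := ⟨Nat.card_pos.ne'⟩
  refine ⟨((n : ZMod (Nat.card A))⁻¹).val, fun a => ?_⟩
  have hunit : ((n : ZMod (Nat.card A)) * (n : ZMod (Nat.card A))⁻¹) = 1 := ZMod.coe_mul_inv_eq_one n hcop
  rw [← pow_mul]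
  have h1 : a ^ Nat.card A = 1 := pow_card_eq_one'
  have h2 : ((n * ((n : ZMod (Nat.card A))⁻¹).val : ℕ) : ZMod (Nat.card A)) = ((1 : ℕ) : ZMod (Nat.card A)) := by
    push_cast
    rw [ZMod.natCast_zmod_val, hunit]
  rw [ZMod.natCast_eq_natCast_iff] at h2
  have h3 : a ^ (n * ((n : ZMod (Nat.card A))⁻¹).val) = a ^ 1 := by
    rw [pow_eq_pow_mod _ h1, h2, ← pow_eq_pow_mod _ h1]
  rw [h3, pow_one]

/-- Count of solutions of `u * a w = w * b u`. -/
theorem card_solutions {A : Type*} [CommGroup A] [Finite A] (a b : MulAut A) (hab : a * b = b * a)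
    (n : ℕ) (hn : a ^ n = 1) (hcop : n.Coprime (Nat.card A)) :
    Nat.card {p : A × A // p.1 * a p.2 = p.2 * b p.1} =
      Nat.card A * Nat.card {c : A // a c = c ∧ b c = c} := by
  classical
  obtain ⟨t, ht⟩ := exists_pow_inv (A := A) n hcop
  have habx : ∀ x, a (b x) = b (a x) := fun x => by
    have := congrArg (fun f : MulAut A => f x) hab
    exact this
  have hapow : ∀ (i : ℕ) x, b ((a ^ i) x) = (a ^ i) (b x) := by
    intro i
    induction i with
    | zero => simp
    | succ i ih =>
      intro x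
      rw [pow_succ, MulAut.mul_apply, MulAut.mul_apply, ih, habx]
  let E : A →* A := MonoidHom.mk' (fun x => x * (a x)⁻¹) (fun x y => by
    simp only [map_mul, mul_inv]
    ac_rfl)
  let F : A →* A := MonoidHom.mk' (fun x => x * (b x)⁻¹) (fun x y => by
    simp only [map_mul, mul_inv]
    ac_rfl)
  let N : A → A := fun x => ∏ i ∈ Finset.range n, (a ^ i) x
  have hNmul : ∀ x y, N (x * y) = N x * N y := by
    intro x y
    simp only [N, map_mul, Finset.prod_mul_distrib]
  let P : A →* A := MonoidHom.mk' (fun x => (N x) ^ t) (fun x y => by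
    rw [hNmul, mul_pow])
  have hNshift : ∀ x, N (a x) = N x := by
    intro x
    have h1 : ∏ i ∈ Finset.range (n + 1), (a ^ i) x = (∏ i ∈ Finset.range n, (a ^ (i + 1)) x) * (a ^ 0) x :=
      Finset.prod_range_succ' _ _
    have h2 : ∏ i ∈ Finset.range (n + 1), (a ^ i) x = (∏ i ∈ Finset.range n, (a ^ i) x) * (a ^ n) x :=
      Finset.prod_range_succ _ _
    have h3 : (a ^ n) x = (a ^ 0) x := by rw [hn]; simp
    rw [h2, h3] at h1
    have h4 := mul_right_cancel h1
    simp only [N]
    rw [h4]
    refine Finset.prod_congr rfl fun i _ => ?_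
    rw [pow_succ, MulAut.mul_apply]
  have hNa : ∀ x, a (N x) = N x := by
    intro x
    have : a (N x) = N (a x) := by
      simp only [N, map_prod]
      refine Finset.prod_congr rfl fun i _ => ?_
      rw [← MulAut.mul_apply, ← MulAut.mul_apply, ← pow_succ, ← pow_succ']
    rw [this, hNshift]
  have hNb : ∀ x, b (N x) = N (b x) := by
    intro x
    simp only [N, map_prod, hapow]
  have hNfix : ∀ x, a x = x → N x = x ^ n := by
    intro x hx
    have hi : ∀ i : ℕ, (a ^ i) x = x := by
      intro i
      induction i with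
      | zero => simp
      | succ i ih => rw [pow_succ, MulAut.mul_apply, hx, ih]
    simp only [N, hi, Finset.prod_const, Finset.card_range]
  have hfin := abstract_count E F P
    (fun x => by
      show x * (b x)⁻¹ * (a (x * (b x)⁻¹))⁻¹ = x * (a x)⁻¹ * (b (x * (a x)⁻¹))⁻¹
      simp only [map_mul, map_inv, habx, mul_inv, inv_inv]
      ac_rfl)
    (fun x => by
      show (N x) ^ t * (b ((N x) ^ t))⁻¹ = (N (x * (b x)⁻¹)) ^ t
      have hNinv : N (x * (b x)⁻¹) = N x * (N (b x))⁻¹ := by
        simp only [N, map_mul, map_inv, Finset.prod_mul_distrib, Finset.prod_inv_distrib]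
      rw [hNinv, mul_pow, inv_pow, map_pow, hNb])
    (fun x => by
      show (N x) ^ t * (a ((N x) ^ t))⁻¹ = 1
      rw [map_pow, hNa, mul_inv_cancel])
    (fun x hx => by
      have hx' : x * (a x)⁻¹ = 1 := hx
      have hax : a x = x := (mul_inv_eq_one.mp hx').symm
      show (N x) ^ t = x
      rw [hNfix x hax, ht])
    (fun x => by
      show (N (x * (a x)⁻¹)) ^ t = 1
      have hNinv : N (x * (a x)⁻¹) = N x * (N (a x))⁻¹ := by
        simp only [N, map_mul, map_inv, Finset.prod_mul_distrib, Finset.prod_inv_distrib]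
      rw [hNinv, hNshift, mul_inv_cancel, one_pow])
  have hleft : Nat.card {p : A × A // p.1 * a p.2 = p.2 * b p.1} = Nat.card {p : A × A // F p.1 = E p.2} := by
    apply Nat.card_congr
    apply Equiv.subtypeEquivRight
    rintro ⟨u, w⟩
    show u * a w = w * b u ↔ u * (b u)⁻¹ = w * (a w)⁻¹
    constructor
    · intro h
      rw [mul_inv_eq_iff_eq_mul, mul_assoc, mul_comm (a w)⁻¹, ← mul_assoc, eq_mul_inv_iff_mul_eq, h]
    · intro h
      rw [mul_inv_eq_iff_eq_mul, mul_assoc, mul_comm (a w)⁻¹, ← mul_assoc, eq_mul_inv_iff_mul_eq] at h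
      rw [h]
  have hright : Nat.card {c : A // a c = c ∧ b c = c} = Nat.card {c : A // E c = 1 ∧ F c = 1} := by
    apply Nat.card_congr
    apply Equiv.subtypeEquivRight
    intro c
    show a c = c ∧ b c = c ↔ c * (a c)⁻¹ = 1 ∧ c * (b c)⁻¹ = 1
    rw [mul_inv_eq_one, mul_inv_eq_one, eq_comm, @eq_comm _ c (b c)]
  rw [hleft, hright, hfin]

/-- Number of conjugacy classes is an isomorphism invariant. -/
theorem card_conjClasses_congr {H K : Type*} [Group H] [Group K] [Finite H] (e : H ≃* K) :
    Nat.card (ConjClasses H) = Nat.card (ConjClasses K) := by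
  have : Finite K := Finite.of_equiv H e.toEquiv
  have h1 : Nat.card { p : H × H // Commute p.1 p.2 } = Nat.card { p : K × K // Commute p.1 p.2 } := by
    apply Nat.card_congr
    refine Equiv.subtypeEquiv (e.toEquiv.prodCongr e.toEquiv) ?_
    rintro ⟨a, b⟩
    show a * b = b * a ↔ e a * e b = e b * e a
    rw [← map_mul, ← map_mul, e.injective.eq_iff]
  rw [card_comm_eq_card_conjClasses_mul_card, card_comm_eq_card_conjClasses_mul_card,
    Nat.card_congr e.toEquiv] at h1
  exact Nat.eq_of_mul_eq_mul_right Nat.card_pos h1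

end Cfsg.Agent.Lib.CoprimeCount
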