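import Mathlib
import Cfsg.Agent.Lib.MinNorm
import Cfsg.Agent.Lib.SuperSolv2
import Cfsg.Agent.Lib.Subnormal

/-!
Maximal subgroups with trivial normal core.
-/

set_option autoImplicit false

namespace Cfsg.Agent.Lib.CoreFree

open Subgroup
open scoped Pointwise commutatorElement
open Cfsg.Agent.Lib.Subnormal

universe u v

variable {G : Type u} [Group G]

theorem sup_eq_top_of_normal {U K : Subgroup G} (hU : IsCoatom U) (hcore : U.normalCore = ⊥)
    (hK : K.Normal) (hKb : K ≠ ⊥) : K ⊔ U = ⊤ := by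
  have h1 : ¬ K ≤ U := fun h => hKb (le_bot_iff.1 (hcore ▸ (Subgroup.normal_le_normalCore.2 h)))
  apply hU.2
  rw [sup_comm]
  exact lt_of_le_of_ne le_sup_left (fun h3 => h1 (h3 ▸ le_sup_right))

theorem eq_bot_of_normal_of_le {U K : Subgroup G} (hcore : U.normalCore = ⊥) (hK : K.Normal)
    (h : K ≤ U) : K = ⊥ :=
  le_bot_iff.1 (hcore ▸ (Subgroup.normal_le_normalCore.2 h))

/-- Elements of `G = N U`. -/
theorem exists_mul_of_sup_eq_top {N U : Subgroup G} [hN : N.Normal] (h : N ⊔ U = ⊤) (g : G) :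
    ∃ n ∈ N, ∃ u ∈ U, g = n * u := by
  have hg : g ∈ (N : Set G) * (U : Set G) := by
    rw [← Subgroup.normal_mul, h]
    exact Subgroup.mem_top g
  obtain ⟨n, hn, u, hu, rfl⟩ := hg
  exact ⟨n, hn, u, hu, rfl⟩

/-- `C ⊓ U = 1`. -/
theorem centralizer_inf_eq_bot {U N : Subgroup G} (hU : IsCoatom U) (hcore : U.normalCore = ⊥)
    [hN : N.Normal] (hNb : N ≠ ⊥) : Subgroup.centralizer (N : Set G) ⊓ U = ⊥ := by
  apply eq_bot_of_normal_of_le hcore _ inf_le_right
  have hC : (Subgroup.centralizer (N : Set G)).Normal := inferInstance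
  have hsup := sup_eq_top_of_normal hU hcore hN hNb
  constructor
  rintro d ⟨hd1, hd2⟩ g
  obtain ⟨n, hn, u, hu, rfl⟩ := exists_mul_of_sup_eq_top hsup g
  have h1 : u * d * u⁻¹ ∈ Subgroup.centralizer (N : Set G) := hC.conj_mem d hd1 u
  have h2 : u * d * u⁻¹ ∈ U := U.mul_mem (U.mul_mem hu hd2) (U.inv_mem hu)
  have h3 : n * (u * d * u⁻¹) = (u * d * u⁻¹) * n := (Subgroup.mem_centralizer_iff.1 h1) n hn
  have h4 : n * u * d * (n * u)⁻¹ = u * d * u⁻¹ := by
    calc n * u * d * (n * u)⁻¹ = n * (u * d * u⁻¹) * n⁻¹ := by group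
      _ = u * d * u⁻¹ := by rw [h3, mul_inv_cancel_right]
  rw [h4]
  exact ⟨h1, h2⟩

/-- A normal subgroup inside the centralizer is trivial or everything. -/
theorem eq_bot_or_eq_centralizer {U N K : Subgroup G} (hU : IsCoatom U) (hcore : U.normalCore = ⊥)
    [hN : N.Normal] (hNb : N ≠ ⊥) (hK : K.Normal) (hKC : K ≤ Subgroup.centralizer (N : Set G)) :
    K = ⊥ ∨ K = Subgroup.centralizer (N : Set G) := by
  by_cases hKb : K = ⊥
  · exact Or.inl hKb
  right
  apply le_antisymm hKC
  intro x hx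
  have hsup := sup_eq_top_of_normal hU hcore hK hKb
  obtain ⟨k, hk, u, hu, rfl⟩ := exists_mul_of_sup_eq_top hsup x
  have h1 : u ∈ Subgroup.centralizer (N : Set G) ⊓ U := by
    refine ⟨?_, hu⟩
    have h2 : u = k⁻¹ * (k * u) := by group
    rw [h2]
    exact Subgroup.mul_mem _ (Subgroup.inv_mem _ (hKC hk)) hx
  rw [centralizer_inf_eq_bot hU hcore hNb, Subgroup.mem_bot] at h1
  rw [h1, mul_one]
  exact hk

/-- An injective restriction gives an isomorphism onto the image. -/
noncomputable def equivMapOfDisjoint {G' : Type v} [Group G'] (f : G →* G') (B : Subgroup G)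
    (h : B ⊓ f.ker = ⊥) : B ≃* B.map f :=
  MulEquiv.ofBijective (f.subgroupMap B)
    ⟨by
      intro a b hab
      have h1 : f a = f b := congrArg Subtype.val hab
      have h2 : (a : G)⁻¹ * b ∈ B ⊓ f.ker := by
        refine ⟨B.mul_mem (B.inv_mem a.2) b.2, MonoidHom.mem_ker.2 ?_⟩
        rw [map_mul, map_inv, h1, inv_mul_cancel]
      rw [h, Subgroup.mem_bot, inv_mul_eq_one] at h2
      exact Subtype.ext h2,
     f.subgroupMap_surjective B⟩

/-- The structure statement for two distinct minimal normal subgroups. -/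
theorem two_minimal_normal {U A B : Subgroup G} (hU : IsCoatom U) (hcore : U.normalCore = ⊥)
    [hAn : A.Normal] [hBn : B.Normal] (hA : A ≠ ⊥) (hB : B ≠ ⊥)
    (hAmin : ∀ K : Subgroup G, K.Normal → K ≤ A → K = ⊥ ∨ K = A)
    (hBmin : ∀ K : Subgroup G, K.Normal → K ≤ B → K = ⊥ ∨ K = B) (hAB : A ≠ B) :
    Subgroup.centralizer (B : Set G) = A ∧ Subgroup.centralizer (A : Set G) = B ∧
      Subgroup.IsComplement' A U ∧ Subgroup.IsComplement' B U ∧ ¬ IsMulCommutative A ∧
      Nonempty (A ≃* B) ∧ Nonempty (A ≃* ↥((A ⊔ B) ⊓ U)) := by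
  have hAnotB : ¬ A ≤ B := fun h => by
    rcases hBmin A hAn h with h1 | h1
    · exact hA h1
    · exact hAB h1
  have hBnotA : ¬ B ≤ A := fun h => by
    rcases hAmin B hBn h with h1 | h1
    · exact hB h1
    · exact hAB h1.symm
  have hinf : A ⊓ B = ⊥ := by
    have hn : (A ⊓ B).Normal := Subgroup.normal_inf_normal A B
    rcases hAmin _ hn inf_le_left with h1 | h1
    · exact h1
    · exact absurd (inf_eq_left.1 h1) hAnotB
  have hcomm : ∀ a ∈ A, ∀ b ∈ B, a * b = b * a := by
    intro a ha b hb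
    have h1 := Subgroup.commutator_le_inf A B (Subgroup.commutator_mem_commutator ha hb)
    rw [hinf, Subgroup.mem_bot] at h1
    exact commutatorElement_eq_one_iff_mul_comm.1 h1
  have hBC : B ≤ Subgroup.centralizer (A : Set G) := fun b hb =>
    Subgroup.mem_centralizer_iff.2 (fun a ha => hcomm a ha b hb)
  have hAC : A ≤ Subgroup.centralizer (B : Set G) := fun a ha =>
    Subgroup.mem_centralizer_iff.2 (fun b hb => (hcomm a ha b hb).symm)
  have hCA : Subgroup.centralizer (A : Set G) = B :=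
    ((eq_bot_or_eq_centralizer hU hcore hA hBn hBC).resolve_left hB).symm
  have hCB : Subgroup.centralizer (B : Set G) = A :=
    ((eq_bot_or_eq_centralizer hU hcore hB hAn hAC).resolve_left hA).symm
  have hBU : B ⊓ U = ⊥ := by
    rw [← hCA]; exact centralizer_inf_eq_bot hU hcore hA
  have hAU : A ⊓ U = ⊥ := by
    rw [← hCB]; exact centralizer_inf_eq_bot hU hcore hB
  have hAsup : A ⊔ U = ⊤ := sup_eq_top_of_normal hU hcore hAn hA
  have hBsup : B ⊔ U = ⊤ := sup_eq_top_of_normal hU hcore hBn hB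
  refine ⟨hCB, hCA, Cfsg.Agent.Lib.SuperSolv2.isComplement'_of_normal hAU hAsup,
    Cfsg.Agent.Lib.SuperSolv2.isComplement'_of_normal hBU hBsup, ?_, ?_⟩
  · intro hc
    apply hAnotB
    rw [← hCA]
    intro a ha
    apply Subgroup.mem_centralizer_iff.2
    intro a' ha'
    exact congrArg Subtype.val (mul_comm' (⟨a', ha'⟩ : A) ⟨a, ha⟩)
  -- the isomorphisms
  set X := (A ⊔ B) ⊓ U with hX
  have hXU : X ≤ U := inf_le_right
  have hXT : X ≤ A ⊔ B := inf_le_left
  have hXA : X ⊓ A = ⊥ := by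
    apply le_bot_iff.1
    rw [← hAU, inf_comm]
    exact inf_le_inf_left _ hXU
  have hXB : X ⊓ B = ⊥ := by
    apply le_bot_iff.1
    rw [← hBU, inf_comm]
    exact inf_le_inf_left _ hXU
  have hsupX : ∀ (N : Subgroup G) [N.Normal], N ≤ A ⊔ B → N ⊔ U = ⊤ → X ⊔ N = A ⊔ B := by
    intro N _ hNT hNU
    apply le_antisymm (sup_le hXT hNT)
    intro x hx
    obtain ⟨n, hn, u, hu, rfl⟩ := exists_mul_of_sup_eq_top hNU x
    have h2 : u ∈ X := by
      refine ⟨?_, hu⟩
      have h3 : u = n⁻¹ * (n * u) := by group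
      rw [h3]
      exact Subgroup.mul_mem _ (Subgroup.inv_mem _ (hNT hn)) hx
    exact Subgroup.mul_mem _ (Subgroup.mem_sup_right hn) (Subgroup.mem_sup_left h2)
  have hXsA := hsupX A le_sup_left hAsup
  have hXsB := hsupX B le_sup_right hBsup
  -- images in the quotient by `A` and by `B`
  have e1 : B ≃* X := by
    let q := QuotientGroup.mk' A
    have hk : q.ker = A := QuotientGroup.ker_mk' A
    have h1 : B.map q = X.map q := by
      have h2 : (X ⊔ A).map q = X.map q := by
        rw [Subgroup.map_sup]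
        have : A.map q = ⊥ := by rw [Subgroup.map_eq_bot_iff, hk]
        rw [this, sup_bot_eq]
      have h3 : (B ⊔ A).map q = B.map q := by
        rw [Subgroup.map_sup]
        have : A.map q = ⊥ := by rw [Subgroup.map_eq_bot_iff, hk]
        rw [this, sup_bot_eq]
      rw [← h2, ← h3, hXsA, sup_comm]
    have e2 := equivMapOfDisjoint q B (by rw [hk, inf_comm]; exact hinf)
    have e3 := equivMapOfDisjoint q X (by rw [hk]; exact hXA)
    exact e2.trans ((MulEquiv.subgroupCongr h1).trans e3.symm)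
  have e4 : A ≃* X := by
    let q := QuotientGroup.mk' B
    have hk : q.ker = B := QuotientGroup.ker_mk' B
    have h1 : A.map q = X.map q := by
      have h2 : (X ⊔ B).map q = X.map q := by
        rw [Subgroup.map_sup]
        have : B.map q = ⊥ := by rw [Subgroup.map_eq_bot_iff, hk]
        rw [this, sup_bot_eq]
      have h3 : (A ⊔ B).map q = A.map q := by
        rw [Subgroup.map_sup]
        have : B.map q = ⊥ := by rw [Subgroup.map_eq_bot_iff, hk]
        rw [this, sup_bot_eq]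
      rw [← h2, ← h3, hXsB]
    have e2 := equivMapOfDisjoint q A (by rw [hk]; exact hinf)
    have e3 := equivMapOfDisjoint q X (by rw [hk]; exact hXB)
    exact e2.trans ((MulEquiv.subgroupCongr h1).trans e3.symm)
  exact ⟨⟨e4.trans e1.symm⟩, ⟨e4⟩⟩

end Cfsg.Agent.Lib.CoreFree
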