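import Mathlib
import Cfsg.Agent.Lib.CoreFree
import Cfsg.Agent.Lib.Hall
import Cfsg.Agent.Lib.SysNorm

/-!
Conjugacy of core-free maximal subgroups in finite solvable groups; solvable groups all of whose
maximal subgroups are Hall subgroups.
-/

set_option autoImplicit false

namespace Cfsg.Agent.Lib.CoreFree2

open Subgroup
open scoped Pointwise commutatorElement
open Cfsg.Agent.Lib.Subnormal Cfsg.Agent.Lib.CoreFree Cfsg.Agent.Lib.SuperSolv2

universe u v

variable {G : Type u} [Group G]

/-- A `p`-subgroup `F` centralizes a non-trivial element of each normal subgroup of order divisible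
by `p`. -/
theorem exists_fixed_of_isPGroup [Finite G] {F M : Subgroup G} [hMn : M.Normal] {r : ℕ}
    [Fact r.Prime] (hF : IsPGroup r F) (hMr : r ∣ Nat.card M) :
    ∃ x ∈ M, x ≠ 1 ∧ ∀ f ∈ F, f * x = x * f := by
  let _ : MulAction F M :=
    MulAction.compHom M ((MulAut.conjNormal : G →* MulAut M).comp F.subtype)
  have hsmul : ∀ (f : F) (m : M), ((f • m : M) : G) = (f : G) * m * (f : G)⁻¹ := by
    intro f m
    exact MulAut.conjNormal_apply (f : G) m
  have h1 : (1 : M) ∈ MulAction.fixedPoints F M := by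
    intro f
    apply Subtype.ext
    rw [hsmul]
    simp
  obtain ⟨b, hb, hne⟩ := hF.exists_fixed_point_of_prime_dvd_card_of_fixed_point M hMr h1
  refine ⟨b, b.2, fun h => hne (Subtype.ext h.symm), fun f hf => ?_⟩
  have h2 := hb ⟨f, hf⟩
  have h3 := congrArg Subtype.val h2
  rw [hsmul] at h3
  simp only at h3
  calc f * (b : G) = (f * b * f⁻¹) * f := by group
    _ = b * f := by rw [h3]

theorem normal_of_sylow_of_not_dvd_index [Finite G] {N : Subgroup G} [N.Normal] {r : ℕ}
    [Fact r.Prime] (hNp : IsPGroup r N) (hd : ¬ r ∣ N.index) (P : Sylow r G) :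
    (P : Subgroup G).Normal := by
  let S : Sylow r G := hNp.toSylow hd
  have hS : (S : Subgroup G) = N := rfl
  have hSn : (S : Subgroup G).Normal := by rw [hS]; infer_instance
  obtain ⟨g, rfl⟩ := MulAction.exists_smul_eq G S P
  rw [Sylow.smul_eq_of_normal]
  exact hSn

/-- Coatoms in quotients pull back to coatoms. -/
theorem isCoatom_comap_mk {N : Subgroup G} [N.Normal] {T : Subgroup (G ⧸ N)} (hT : IsCoatom T) :
    IsCoatom (T.comap (QuotientGroup.mk' N)) := by
  have hs := QuotientGroup.mk'_surjective N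
  constructor
  · intro h
    apply hT.1
    have := congrArg (Subgroup.map (QuotientGroup.mk' N)) h
    rw [Subgroup.map_comap_eq_self_of_surjective hs,
      Subgroup.map_top_of_surjective _ hs] at this
    exact this
  · intro S hS
    have hNS : N ≤ S := by
      have h1 : N ≤ T.comap (QuotientGroup.mk' N) := by
        have : (QuotientGroup.mk' N).ker ≤ T.comap (QuotientGroup.mk' N) := Subgroup.ker_le_comap _ _
        rwa [QuotientGroup.ker_mk'] at this
      exact h1.trans hS.le
    have h1 : T < S.map (QuotientGroup.mk' N) := by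
      constructor
      · have := Subgroup.map_mono (f := QuotientGroup.mk' N) hS.le
        rwa [Subgroup.map_comap_eq_self_of_surjective hs] at this
      · intro h2
        apply hS.2
        intro x hx
        exact Subgroup.mem_comap.2 (h2 ⟨x, hx, rfl⟩)
    have h2 := hT.2 _ h1
    have h3 := congrArg (Subgroup.comap (QuotientGroup.mk' N)) h2
    rw [Subgroup.comap_map_eq, QuotientGroup.ker_mk', sup_eq_left.2 hNS, Subgroup.comap_top] at h3
    exact h3

/-- A nontrivial finite solvable group, all of whose maximal subgroups have order coprime to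
their index, has a normal Sylow subgroup. -/
theorem exists_normal_sylow_of_coprime_coatoms [Finite G] [Group.IsSolvable G] [Nontrivial G]
    (h : ∀ M : Subgroup G, IsCoatom M → (Nat.card M).Coprime M.index) :
    ∃ p : ℕ, p.Prime ∧ p ∣ Nat.card G ∧ ∀ P : Sylow p G, (P : Subgroup G).Normal := by
  induction hc : Nat.card G using Nat.strong_induction_on generalizing G with
  | _ m ih =>
    obtain ⟨r, N, hr, hNn, hNb, -, -, hNe⟩ :=
      Cfsg.Agent.Lib.MinNorm.exists_abelian_exponent_normal_le (⊤ : Subgroup G) inferInstance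
        (by simp)
    have hfr : Fact r.Prime := ⟨hr⟩
    have hNp : IsPGroup r N := Cfsg.Agent.Lib.MinNorm.isPGroup_of_exponent hNe
    obtain ⟨k, hk⟩ := IsPGroup.iff_card.1 hNp
    by_cases hT : ∃ T : Subgroup G, IsCoatom T ∧ ¬ N ≤ T
    · obtain ⟨T, hT, hNT⟩ := hT
      have hsup : T ⊔ N = ⊤ := hT.2 _ (lt_of_le_of_ne le_sup_left (fun h3 => hNT (h3 ▸ le_sup_right)))
      have h1 := card_sup_mul_card_inf T N
      rw [hsup, Subgroup.card_top, ← T.index_mul_card] at h1
      have h2 : T.index * Nat.card (T ⊓ N : Subgroup G) = Nat.card N := by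
        have hpos : 0 < Nat.card T := Nat.card_pos
        apply Nat.eq_of_mul_eq_mul_left hpos
        rw [← h1]; ring
      have h3 : T.index ∣ r ^ k := by rw [← hk, ← h2]; exact dvd_mul_right _ _
      have h4 : T.index ≠ 1 := fun h5 => hT.1 (Subgroup.index_eq_one.1 h5)
      obtain ⟨j, -, hj⟩ := (Nat.dvd_prime_pow hr).1 h3
      have hj0 : j ≠ 0 := by
        rintro rfl
        rw [pow_zero] at hj
        exact h4 hj
      have hrT : r ∣ T.index := by rw [hj]; exact dvd_pow_self _ hj0
      have hcop := h T hT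
      have hrnT : ¬ r ∣ Nat.card T := fun h5 => by
        have := Nat.dvd_gcd h5 hrT
        rw [hcop] at this
        exact hr.one_lt.ne' (Nat.dvd_one.1 this)
      have hinf : T ⊓ N = ⊥ := by
        apply disjoint_iff.1
        apply Subgroup.disjoint_of_coprime_natCard
        rw [hk]
        exact Nat.Coprime.pow_right _ ((Nat.Prime.coprime_iff_not_dvd hr).2 hrnT).symm
      have hNi : N.index = Nat.card T := by
        have hcompl : Subgroup.IsComplement' N T := isComplement'_of_normal
          (by rw [inf_comm]; exact hinf) (by rw [sup_comm]; exact hsup)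
        exact hcompl.symm.index_eq_card
      refine ⟨r, hr, ?_, fun P => ?_⟩
      · rw [← hc]
        have h5 : 1 < Nat.card N := (Subgroup.one_lt_card_iff_ne_bot N).2 hNb
        have hk0 : k ≠ 0 := by
          rintro rfl
          rw [pow_zero] at hk
          omega
        have h6 : r ∣ Nat.card N := by rw [hk]; exact dvd_pow_self _ hk0
        exact h6.trans (Subgroup.card_subgroup_dvd_card N)
      · exact normal_of_sylow_of_not_dvd_index hNp (by rw [hNi]; exact hrnT) P
    · have hTN : ∀ T : Subgroup G, IsCoatom T → N ≤ T := by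
        intro T hT'
        by_contra hle
        exact hT ⟨T, hT', hle⟩
      have hNt : N ≠ ⊤ := by
        intro hNt
        obtain ⟨T, hT', -⟩ := (eq_top_or_exists_le_coatom (⊥ : Subgroup G)).resolve_left bot_ne_top
        apply hT'.1
        exact top_le_iff.1 (hNt ▸ hTN T hT')
      have hnt : Nontrivial (G ⧸ N) := by
        rw [← not_subsingleton_iff_nontrivial, QuotientGroup.subsingleton_iff]
        exact hNt
      have hlt : Nat.card (G ⧸ N) < m := hc ▸ card_quotient_lt N hNb
      obtain ⟨q, hq, hqd, hqn⟩ := ih _ hlt (fun Tb hTb => by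
        have h1 := h _ (isCoatom_comap_mk hTb)
        rw [Subgroup.index_comap_of_surjective _ (QuotientGroup.mk'_surjective N)] at h1
        rw [card_comap_mk] at h1
        exact Nat.Coprime.coprime_dvd_left (dvd_mul_right _ _) h1) rfl
      have hfq : Fact q.Prime := ⟨hq⟩
      refine ⟨q, hq, hc ▸ hqd.trans ⟨Nat.card N, (card_quotient_mul N).symm⟩, fun P => ?_⟩
      set f := QuotientGroup.mk' N with hf
      have hfs : Function.Surjective f := QuotientGroup.mk'_surjective N
      let Pb : Sylow q (G ⧸ N) := P.mapSurjective hfs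
      have hPbn : (Pb : Subgroup (G ⧸ N)).Normal := hqn Pb
      have hPbc : (Pb : Subgroup (G ⧸ N)) = (P : Subgroup G).map f := Sylow.coe_mapSurjective _ _
      rw [hPbc] at hPbn
      have hL : (((P : Subgroup G).map f).comap f).Normal := hPbn.comap f
      have hLe : ((P : Subgroup G).map f).comap f = (P : Subgroup G) ⊔ N := by
        rw [Subgroup.comap_map_eq, hf, QuotientGroup.ker_mk']
      have hPL : (P : Subgroup G) ≤ ((P : Subgroup G).map f).comap f := by
        rw [hLe]; exact le_sup_left
      have hfr := Sylow.normalizer_sup_eq_top' (N := ((P : Subgroup G).map f).comap f) P hPL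
      rw [hLe] at hfr
      have hsup : Subgroup.normalizer ((P : Subgroup G) : Set G) ⊔ N = ⊤ := by
        rw [eq_top_iff, ← hfr]
        exact sup_le le_sup_left (sup_le (Subgroup.le_normalizer.trans le_sup_left) le_sup_right)
      rw [← Subgroup.normalizer_eq_top_iff]
      by_contra hne
      obtain ⟨T, hT', hle⟩ := (eq_top_or_exists_le_coatom _).resolve_left hne
      apply hT'.1
      rw [eq_top_iff, ← hsup]
      exact sup_le hle (hTN T hT')

set_option maxHeartbeats 400000 in
/-- **All core-free maximal subgroups of a finite solvable group are conjugate.** -/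
theorem coreFree_conj [Finite G] [Group.IsSolvable G] (U V : Subgroup G) (hU : IsCoatom U)
    (hV : IsCoatom V) (hUc : U.normalCore = ⊥) (hVc : V.normalCore = ⊥) :
    ∃ g : G, MulAut.conj g • U = V := by
  have hnt : Nontrivial G := by
    by_contra hnt
    rw [not_nontrivial_iff_subsingleton] at hnt
    exact hU.1 (Subsingleton.elim _ _)
  obtain ⟨M, hMn, hMb, -, hMmin⟩ := Cfsg.Agent.Lib.MinNorm.exists_minimal_normal_le
    (⊤ : Subgroup G) inferInstance (by simp)
  obtain ⟨r, hr, hMc, hMe⟩ := Cfsg.Agent.Lib.MinNorm.minimal_normal_abelian M hMb hMmin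
  have hfr : Fact r.Prime := ⟨hr⟩
  have hMp : IsPGroup r M := Cfsg.Agent.Lib.MinNorm.isPGroup_of_exponent hMe
  -- complements
  have hMsup : ∀ W : Subgroup G, IsCoatom W → W.normalCore = ⊥ → M ⊔ W = ⊤ :=
    fun W hW hWc => sup_eq_top_of_normal hW hWc hMn hMb
  have hMinf : ∀ W : Subgroup G, IsCoatom W → W.normalCore = ⊥ → M ⊓ W = ⊥ := by
    intro W hW hWc
    apply eq_bot_of_normal_of_le hWc _ inf_le_right
    constructor
    rintro x ⟨hx1, hx2⟩ g
    obtain ⟨m, hm, w, hw, rfl⟩ := exists_mul_of_sup_eq_top (hMsup W hW hWc) g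
    have h1 : w * x * w⁻¹ ∈ M := hMn.conj_mem x hx1 w
    have h2 : w * x * w⁻¹ ∈ W := W.mul_mem (W.mul_mem hw hx2) (W.inv_mem hw)
    have h3 : m * w * x * (m * w)⁻¹ = w * x * w⁻¹ := by
      calc m * w * x * (m * w)⁻¹ = m * (w * x * w⁻¹) * m⁻¹ := by group
        _ = w * x * w⁻¹ := by rw [hMc m hm _ h1, mul_inv_cancel_right]
    rw [h3]
    exact ⟨h1, h2⟩
  have hMC : Subgroup.centralizer (M : Set G) = M := by
    have h1 : M ≤ Subgroup.centralizer (M : Set G) := fun x hx =>
      Subgroup.mem_centralizer_iff.2 (fun y hy => hMc y hy x hx)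
    exact ((eq_bot_or_eq_centralizer hU hUc hMb hMn h1).resolve_left hMb).symm
  by_cases hMt : M = ⊤
  · have h1 := hMinf U hU hUc
    have h2 := hMinf V hV hVc
    rw [hMt, top_inf_eq] at h1 h2
    exact ⟨1, by rw [map_one, one_smul, h1, h2]⟩
  have hntq : Nontrivial (G ⧸ M) := by
    rw [← not_subsingleton_iff_nontrivial, QuotientGroup.subsingleton_iff]
    exact hMt
  obtain ⟨s, Fb, hs, hFbn, hFbb, -, -, hFbe⟩ :=
    Cfsg.Agent.Lib.MinNorm.exists_abelian_exponent_normal_le (⊤ : Subgroup (G ⧸ M)) inferInstance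
      (by simp)
  have hfs : Fact s.Prime := ⟨hs⟩
  have hFbp : IsPGroup s Fb := Cfsg.Agent.Lib.MinNorm.isPGroup_of_exponent hFbe
  set q := QuotientGroup.mk' M with hq
  have hqs : Function.Surjective q := QuotientGroup.mk'_surjective M
  set F := Fb.comap q with hF
  have hFn : F.Normal := hFbn.comap q
  have hMF : M ≤ F := by
    have : q.ker ≤ F := Subgroup.ker_le_comap _ _
    rwa [hq, QuotientGroup.ker_mk'] at this
  have hFc : Nat.card F = Nat.card Fb * Nat.card M := card_comap_mk M Fb
  obtain ⟨b, hb⟩ := IsPGroup.iff_card.1 hFbp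
  obtain ⟨c, hc⟩ := IsPGroup.iff_card.1 hMp
  have hb0 : b ≠ 0 := by
    rintro rfl
    rw [pow_zero] at hb
    exact hFbb (Subgroup.card_eq_one.1 hb)
  have hc0 : c ≠ 0 := by
    rintro rfl
    rw [pow_zero] at hc
    exact hMb (Subgroup.card_eq_one.1 hc)
  have hFbgt : 1 < Nat.card Fb := (Subgroup.one_lt_card_iff_ne_bot Fb).2 hFbb
  have hMcpos : 0 < Nat.card M := Nat.card_pos
  -- `s ≠ r`
  have hsr : s ≠ r := by
    rintro rfl
    have hFp : IsPGroup s F := by
      apply IsPGroup.of_card (n := b + c)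
      rw [hFc, hb, hc, pow_add]
    obtain ⟨x, hxM, hx1, hxc⟩ := exists_fixed_of_isPGroup hFp (by rw [hc]; exact dvd_pow_self _ hc0)
    have hDn : (M ⊓ Subgroup.centralizer (F : Set G)).Normal := Subgroup.normal_inf_normal _ _
    have hDb : M ⊓ Subgroup.centralizer (F : Set G) ≠ ⊥ := by
      intro h
      have h1 : x ∈ M ⊓ Subgroup.centralizer (F : Set G) :=
        ⟨hxM, Subgroup.mem_centralizer_iff.2 hxc⟩
      rw [h, Subgroup.mem_bot] at h1
      exact hx1 h1
    have hD := (hMmin _ hDn inf_le_left).resolve_left hDb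
    have h2 : M ≤ Subgroup.centralizer (F : Set G) := inf_eq_left.1 hD
    have h3 : F ≤ Subgroup.centralizer (M : Set G) := fun f hf =>
      Subgroup.mem_centralizer_iff.2 (fun m hm =>
        ((Subgroup.mem_centralizer_iff.1 (h2 hm)) f hf).symm)
    rw [hMC] at h3
    have h4 : F = M := le_antisymm h3 hMF
    have h5 : Nat.card F = Nat.card M := by rw [h4]
    rw [hFc] at h5
    nlinarith
  have hcopFM : (Nat.card Fb).Coprime (Nat.card M) := by
    rw [hb, hc]
    exact Nat.Coprime.pow _ _ ((Nat.coprime_primes hs hr).2 hsr)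
  have hFfac : (Nat.card F).factorization s = b := by
    rw [hFc, hb]
    apply Cfsg.Agent.Lib.SysNorm.factorization_pow_mul_of_coprime hs
    · rw [hc]; exact Nat.Coprime.pow_left _ ((Nat.coprime_primes hr hs).2 hsr.symm)
    · exact hMcpos.ne'
  -- the local structure around `W`
  have key : ∀ W : Subgroup G, IsCoatom W → W.normalCore = ⊥ →
      (∃ P : Sylow s F, (P : Subgroup F) = (W ⊓ F).subgroupOf F) ∧
      Subgroup.normalizer ((W ⊓ F : Subgroup G) : Set G) = W := by
    intro W hW hWc
    set Q := W ⊓ F with hQ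
    have hQF : Q ≤ F := inf_le_right
    have hQM : Q ⊓ M = ⊥ := by
      apply le_bot_iff.1
      rw [← hMinf W hW hWc, inf_comm]
      exact inf_le_inf_left _ inf_le_left
    have hQsup : Q ⊔ M = F := by
      apply le_antisymm (sup_le hQF hMF)
      intro x hx
      obtain ⟨m, hm, w, hw, rfl⟩ := exists_mul_of_sup_eq_top (hMsup W hW hWc) x
      have h1 : w ∈ Q := by
        refine ⟨hw, ?_⟩
        have h2 : w = m⁻¹ * (m * w) := by group
        rw [h2]
        exact F.mul_mem (F.inv_mem (hMF hm)) hx
      exact Subgroup.mul_mem _ (Subgroup.mem_sup_right hm) (Subgroup.mem_sup_left h1)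
    have hQc : Nat.card Q = Nat.card Fb := by
      have h1 := card_sup_mul_card_inf Q M
      rw [hQM, Subgroup.card_bot, mul_one, hQsup, hFc] at h1
      exact (Nat.eq_of_mul_eq_mul_right hMcpos h1).symm
    have hQ'c : Nat.card (Q.subgroupOf F) = s ^ (Nat.card F).factorization s := by
      rw [card_subgroupOf_of_le hQF, hQc, hb, hFfac]
    let P : Sylow s F := Sylow.ofCard (Q.subgroupOf F) hQ'c
    have hP : (P : Subgroup F) = Q.subgroupOf F := Sylow.coe_ofCard _ hQ'c
    have hPm : (P : Subgroup F).map F.subtype = Q := by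
      rw [hP]; exact Subgroup.map_subgroupOf_eq_of_le hQF
    refine ⟨⟨P, hP⟩, ?_⟩
    have hFrat : Subgroup.normalizer (Q : Set G) ⊔ F = ⊤ := by
      have := Sylow.normalizer_sup_eq_top P
      rwa [hPm] at this
    have hNsup : M ⊔ Subgroup.normalizer (Q : Set G) = ⊤ := by
      have h1 : Q ⊔ M ≤ M ⊔ Subgroup.normalizer (Q : Set G) :=
        sup_le (Subgroup.le_normalizer.trans le_sup_right) le_sup_left
      rw [hQsup] at h1
      rw [eq_top_iff, ← hFrat]
      exact sup_le le_sup_right h1
    have hZn : (Subgroup.normalizer (Q : Set G) ⊓ M).Normal := by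
      constructor
      rintro x ⟨hx1, hx2⟩ g
      obtain ⟨m, hm, n, hn, rfl⟩ := exists_mul_of_sup_eq_top hNsup g
      have h1 : n * x * n⁻¹ ∈ M := hMn.conj_mem x hx2 n
      have h3 : m * n * x * (m * n)⁻¹ = n * x * n⁻¹ := by
        calc m * n * x * (m * n)⁻¹ = m * (n * x * n⁻¹) * m⁻¹ := by group
          _ = n * x * n⁻¹ := by rw [hMc m hm _ h1, mul_inv_cancel_right]
      rw [h3]
      exact ⟨Subgroup.mul_mem _ (Subgroup.mul_mem _ hn hx1) (Subgroup.inv_mem _ hn), h1⟩
    have hZ : Subgroup.normalizer (Q : Set G) ⊓ M = ⊥ := by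
      refine (hMmin _ hZn inf_le_right).resolve_right ?_
      intro h1
      have h2 : M ≤ Subgroup.normalizer (Q : Set G) := inf_eq_right.1 h1
      have h3 : Q ≤ Subgroup.centralizer (M : Set G) := by
        intro u hu
        apply Subgroup.mem_centralizer_iff.2
        intro m hm
        have h4 : ⁅m, u⁆ ∈ Q ⊓ M := by
          constructor
          · have h5 := (Subgroup.mem_normalizer_iff.1 (h2 hm) u).1 hu
            exact Q.mul_mem h5 (Q.inv_mem hu)
          · have h5 : u * m⁻¹ * u⁻¹ ∈ M := hMn.conj_mem _ (M.inv_mem hm) u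
            have h6 : ⁅m, u⁆ = m * (u * m⁻¹ * u⁻¹) := by
              simp [commutatorElement_def, mul_assoc]
            rw [h6]
            exact M.mul_mem hm h5
        rw [hQM, Subgroup.mem_bot] at h4
        exact commutatorElement_eq_one_iff_mul_comm.1 h4
      rw [hMC] at h3
      have h4 : Q ≤ Q ⊓ M := le_inf le_rfl h3
      rw [hQM] at h4
      have h5 : Q = ⊥ := le_bot_iff.1 h4
      rw [h5, Subgroup.card_bot] at hQc
      omega
    have hWle : W ≤ Subgroup.normalizer (Q : Set G) := by
      intro w hw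
      apply mem_normalizer_of_conj_mem
      rintro d ⟨hd1, hd2⟩
      exact ⟨W.mul_mem (W.mul_mem hw hd1) (W.inv_mem hw), hFn.conj_mem d hd2 w⟩
    rcases eq_or_lt_of_le hWle with h1 | h1
    · exact h1.symm
    · exfalso
      have h2 := hW.2 _ h1
      rw [h2, top_inf_eq] at hZ
      exact hMb hZ
  obtain ⟨⟨PU, hPU⟩, hNU⟩ := key U hU hUc
  obtain ⟨⟨PV, hPV⟩, hNV⟩ := key V hV hVc
  obtain ⟨f, hf⟩ := MulAction.exists_smul_eq F PU PV
  refine ⟨f, ?_⟩
  have h1 : MulAut.conj (f : G) • (U ⊓ F) = V ⊓ F := by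
    have h2 := congrArg (fun S : Sylow s F => (S : Subgroup F)) hf
    simp only [Sylow.coe_subgroup_smul, hPU, hPV] at h2
    rw [Subgroup.conj_smul_subgroupOf inf_le_right f] at h2
    have h3 := Subgroup.subgroupOf_inj.1 h2
    rwa [inf_eq_left.2 (conj_smul_le_of_mem inf_le_right f.2), inf_eq_left.2 inf_le_right] at h3
  have hle : MulAut.conj (f : G) • U ≤ V := by
    rw [← hNV, ← h1]
    intro x hx
    rw [mem_conj_smul] at hx
    apply mem_normalizer_of_conj_mem
    intro d hd
    rw [mem_conj_smul] at hd ⊢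
    rw [← hNU] at hx
    have h2 := (Subgroup.mem_normalizer_iff.1 hx _).1 hd
    have h3 : (f : G)⁻¹ * (x * d * x⁻¹) * f =
        (f : G)⁻¹ * x * f * ((f : G)⁻¹ * d * f) * ((f : G)⁻¹ * x * f)⁻¹ := by group
    rw [h3]
    exact h2
  apply Subgroup.eq_of_le_of_card_ge hle
  have hcU : U.index = Nat.card M :=
    (isComplement'_of_normal (hMinf U hU hUc) (hMsup U hU hUc)).index_eq_card
  have hcV : V.index = Nat.card M :=
    (isComplement'_of_normal (hMinf V hV hVc) (hMsup V hV hVc)).index_eq_card
  have hcconj : Nat.card (MulAut.conj (f : G) • U : Subgroup G) = Nat.card U :=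
    Cfsg.Agent.Lib.Coprime.card_conj_smul _ _
  rw [hcconj]
  have hU2 := U.index_mul_card
  have hV2 := V.index_mul_card
  rw [hcU] at hU2
  rw [hcV] at hV2
  have : Nat.card M * Nat.card U = Nat.card M * Nat.card V := by rw [hU2, hV2]
  exact (Nat.eq_of_mul_eq_mul_left hMcpos this).ge

end Cfsg.Agent.Lib.CoreFree2
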