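import Mathlib

/-!
Coset action on `Fin (m+1)`: the permutation representation of a finite group on the cosets of a subgroup, the point `0`
being the trivial coset; realisation of `G/Z` as a transitive permutation group.
-/

set_option autoImplicit false
set_option linter.style.haveILetI false

namespace Cfsg.Agent.Lib.CosetPerm

open Subgroup

variable {G : Type*} [Group G]

/-- A numbering of cosets with the trivial coset as `0`. -/
theorem exists_equiv (L : Subgroup G) (m : ℕ) (hc : Nat.card (G ⧸ L) = m + 1) :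
    ∃ e : (G ⧸ L) ≃ Fin (m + 1), e ((1 : G) : G ⧸ L) = 0 := by
  classical
  haveI : Finite (G ⧸ L) := Nat.finite_of_card_ne_zero (by omega)
  let e0 := Finite.equivFinOfCardEq hc
  exact ⟨e0.trans (Equiv.swap (e0 ((1 : G) : G ⧸ L)) 0), by simp⟩

/-- The permutation representation from a numbering of cosets. -/
def rep (L : Subgroup G) {m : ℕ} (e : (G ⧸ L) ≃ Fin (m + 1)) : G →* Equiv.Perm (Fin (m + 1)) where
  toFun g := e.symm.trans ((MulAction.toPerm g).trans e)
  map_one' := by
    ext i
    simp
  map_mul' x y := by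
    ext i
    simp [mul_smul]

theorem rep_apply (L : Subgroup G) {m : ℕ} (e : (G ⧸ L) ≃ Fin (m + 1)) (g : G) (i : Fin (m + 1)) :
    rep L e g i = e (g • e.symm i) := rfl

theorem mem_ker_rep (L : Subgroup G) {m : ℕ} (e : (G ⧸ L) ≃ Fin (m + 1)) (g : G) :
    g ∈ (rep L e).ker ↔ ∀ q : G ⧸ L, g • q = q := by
  rw [MonoidHom.mem_ker]
  constructor
  · intro h q
    have h1 := congrArg (fun p : Equiv.Perm (Fin (m + 1)) => p (e q)) h
    simp only [rep_apply, Equiv.symm_apply_apply, Equiv.Perm.coe_one, id_eq] at h1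
    exact e.injective h1
  · intro h
    ext i
    rw [rep_apply, h]
    simp

theorem ker_le (L : Subgroup G) {m : ℕ} (e : (G ⧸ L) ≃ Fin (m + 1)) : (rep L e).ker ≤ L := by
  intro g hg
  have h := (mem_ker_rep L e g).1 hg ((1 : G) : G ⧸ L)
  have h2 : ((g * 1 : G) : G ⧸ L) = ((1 : G) : G ⧸ L) := h
  rw [mul_one] at h2
  rw [QuotientGroup.eq] at h2
  simpa using L.inv_mem h2

theorem le_ker (L : Subgroup G) {m : ℕ} (e : (G ⧸ L) ≃ Fin (m + 1)) {Z : Subgroup G}
    (hZ : Z ≤ center G) (hZL : Z ≤ L) : Z ≤ (rep L e).ker := by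
  intro z hz
  rw [mem_ker_rep]
  intro q
  induction q using QuotientGroup.induction_on with
  | H h =>
    have h2 : z • ((h : G) : G ⧸ L) = ((z * h : G) : G ⧸ L) := rfl
    rw [h2, QuotientGroup.eq]
    have hc : z * h = h * z := (mem_center_iff.1 (hZ hz) h).symm
    have h3 : (z * h)⁻¹ * h = z⁻¹ := by
      rw [hc]; group
    rw [h3]
    exact L.inv_mem (hZL hz)

theorem transitive_range (L : Subgroup G) {m : ℕ} (e : (G ⧸ L) ≃ Fin (m + 1)) :
    MulAction.IsPretransitive (rep L e).range (Fin (m + 1)) := by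
  refine ⟨fun i j => ?_⟩
  obtain ⟨g, hg⟩ := MulAction.exists_smul_eq G (e.symm i) (e.symm j)
  refine ⟨⟨rep L e g, ⟨g, rfl⟩⟩, ?_⟩
  show rep L e g i = j
  rw [rep_apply, hg]
  simp

/-- Main construction: if normal subgroups are `⊤` or central, `Z(G) ≤ L ≠ ⊤`, the image of the representation on cosets of `L`
is a copy of `G/Z(G)`, which is transitive. -/
theorem exists_rep (L : Subgroup G) (m : ℕ) (hc : Nat.card (G ⧸ L) = m + 1) (hm : 0 < m)
    (hZ : center G ≤ L)
    (hd : ∀ N : Subgroup G, N.Normal → N = ⊤ ∨ N ≤ center G) :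
    ∃ H : Subgroup (Equiv.Perm (Fin (m + 1))), Nonempty ((G ⧸ center G) ≃* H) ∧
      MulAction.IsPretransitive H (Fin (m + 1)) := by
  obtain ⟨e, -⟩ := exists_equiv L m hc
  have hker : (rep L e).ker = center G := by
    apply le_antisymm
    · rcases hd (rep L e).ker inferInstance with h | h
      · exfalso
        have h1 : L = ⊤ := by
          rw [eq_top_iff, ← h]
          exact ker_le L e
        rw [h1] at hc
        have h2 : Nat.card (G ⧸ (⊤ : Subgroup G)) = 1 := by
          have := Subgroup.index_top (G := G)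
          rwa [Subgroup.index_eq_card] at this
        omega
      · exact h
    · exact le_ker L e le_rfl hZ
  refine ⟨(rep L e).range, ⟨?_⟩, transitive_range L e⟩
  exact (QuotientGroup.quotientMulEquivOfEq hker.symm).trans (QuotientGroup.quotientKerEquivRange _)

/-- The stabilizer of a point in a transitive group. -/
theorem card_stabilizer {α : Type*} [Finite α] (H : Subgroup (Equiv.Perm α)) [Finite H]
    [MulAction.IsPretransitive H α] (a : α) :
    Nat.card α * Nat.card (MulAction.stabilizer H a) = Nat.card H := by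
  classical
  have h1 : Nat.card (MulAction.orbit H a) = Nat.card α := by
    rw [MulAction.orbit_eq_univ]
    simp
  rw [← h1, ← Nat.card_prod]
  exact Nat.card_congr (MulAction.orbitProdStabilizerEquivGroup H a)

end Cfsg.Agent.Lib.CosetPerm
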