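import Mathlib
import Cfsg.Prelude.Def_KGroupFacts
import Cfsg.Agent.Lib.SchurCover46

/-!
# Stem extensions from covers of graphs

Let `G` act on `n` objects, and let the generators of `G` act on `p * n` points, fibred over the objects, commuting
with the cyclic shift on the fibres, and preserving a graph on the points which covers a connected graph on the
fibres.  If a word in the generators which is trivial in `G` gives the shift, then the subgroup of the product of `G`
with the symmetric group generated by the pairs is a stem extension of `G` with kernel of order `p`.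
-/

set_option autoImplicit false

universe u v

namespace Cfsg.Agent.Lib.CoverStem

open Cfsg Subgroup

open Cfsg.Agent.Lib.SchurCover46 in
/-- See `mem_commutator_of_gens`. -/
theorem mem_commutator_of_gens' {P : Type*} [Group P] (S : Set P) {n t : ℕ} (hS : ∀ g ∈ S, g ^ n = 1)
    (hc : Nat.Coprime n t) (x : ↥(Subgroup.closure S)) (hx : x ^ t = 1) :
    x ∈ commutator ↥(Subgroup.closure S) := mem_commutator_of_gens S hS hc x hx

/-- The cyclic shift on the fibres. -/
def tauF (p y : ℕ) : ℕ := p * (y / p) + (y % p + 1) % p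

/-- The `k`-fold iteration of a function. -/
def itF (g : ℕ → ℕ) : ℕ → ℕ → ℕ
  | 0, y => y
  | k + 1, y => g (itF g k y)

theorem itF_eq (g : ℕ → ℕ) (k y : ℕ) : itF g k y = g^[k] y := by
  induction k with
  | zero => rfl
  | succ k ih => rw [itF, ih, Function.iterate_succ_apply']

/-- The image of a point under a word in the generators. -/
def wordF (f : ℕ → ℕ → ℕ) : List ℕ → ℕ → ℕ
  | [], y => y
  | i :: w, y => f i (wordF f w y)

/-- The product of a word. -/
def prodW {H : Type*} [Monoid H] (g : ℕ → H) : List ℕ → H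
  | [] => 1
  | i :: w => g i * prodW g w

/-- The mask of a list of points. -/
def orL : List ℕ → ℕ
  | [] => 0
  | z :: L => Nat.lor (2 ^ z) (orL L)

theorem mem_of_testBit {L : List ℕ} {z : ℕ} (h : Nat.testBit (orL L) z = true) : z ∈ L := by
  induction L with
  | nil =>
    simp [orL] at h
  | cons a L ih =>
    have e : orL (a :: L) = 2 ^ a ||| orL L := rfl
    rw [e, Nat.testBit_or, Bool.or_eq_true, Nat.testBit_two_pow] at h
    rcases h with h | h
    · have : a = z := by simpa using h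
      rw [this]; exact List.mem_cons_self
    · exact List.mem_cons_of_mem _ (ih h)

/-- The data for a cover. -/
structure CoverCert where
  /-- the size of the fibres -/
  p : ℕ
  /-- the number of fibres -/
  n : ℕ
  /-- the number of generators -/
  m : ℕ
  /-- a common multiple of the orders of the generators -/
  k : ℕ
  /-- the action of the generators on the points -/
  f : ℕ → ℕ → ℕ
  /-- the neighbours of a point -/
  nb : ℕ → List ℕ
  /-- the mask of the neighbours of a point -/
  mks : ℕ → ℕ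
  /-- a point of an earlier fibre, for each fibre -/
  prt : ℕ → ℕ
  /-- the only neighbour in the fibre of this point -/
  lead : ℕ → ℕ
  /-- the word for the shift, in the generators -/
  word : List ℕ

namespace CoverCert

variable (C : CoverCert)

/-- The number of points. -/
def N : ℕ := C.p * C.n

/-- The test for a generator at a point. -/
def genChk (i y : ℕ) : Bool :=
  Nat.blt (C.f i y) C.N && Nat.beq (itF (C.f i) C.k y) y && Nat.beq (C.f i (tauF C.p y)) (tauF C.p (C.f i y))

/-- The test for the neighbours of a point. -/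
def adjChk (y : ℕ) : Bool :=
  Nat.beq (C.mks y) (orL (C.nb y)) && (C.nb y).all fun z =>
    Nat.blt z C.N && (List.range C.m).all fun i => Nat.testBit (C.mks (C.f i y)) (C.f i z)

/-- The test for the tree of fibres. -/
def treeChk (c : ℕ) : Bool :=
  Nat.beq c 0 || (Nat.blt (C.prt c) C.N && Nat.blt (C.prt c / C.p) c && Nat.beq (C.lead c / C.p) c &&
    Nat.blt (C.lead c) C.N && (C.nb (C.prt c)).contains (C.lead c) &&
    (C.nb (C.prt c)).all fun z => !(Nat.beq (z / C.p) c) || Nat.beq z (C.lead c))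

/-- The test for the word. -/
def wordChk : Bool :=
  C.word.all (fun i => Nat.blt i C.m) && (List.range C.N).all fun y => Nat.beq (wordF C.f C.word y) (tauF C.p y)

/-- The full test. -/
def check : Bool :=
  Nat.ble 2 C.p && Nat.blt 0 C.n && Nat.blt 0 C.k && Nat.beq (Nat.gcd C.k C.p) 1 &&
    (List.range C.m).all (fun i => (List.range C.N).all (C.genChk i)) &&
    (List.range C.N).all C.adjChk && (List.range C.n).all C.treeChk && C.wordChk

end CoverCert

/-! ### The shift -/

section Tau

variable {p : ℕ}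

theorem tauF_div (hp : 2 ≤ p) (y : ℕ) : tauF p y / p = y / p := by
  have h1 : (y % p + 1) % p < p := Nat.mod_lt _ (by omega)
  rw [tauF, Nat.mul_add_div (by omega), Nat.div_eq_of_lt h1, add_zero]

theorem tauF_mod (hp : 2 ≤ p) (y : ℕ) : tauF p y % p = (y % p + 1) % p := by
  rw [tauF, Nat.mul_add_mod, Nat.mod_mod]

theorem tauF_lt (hp : 2 ≤ p) {n y : ℕ} (hy : y < p * n) : tauF p y < p * n := by
  have h0 : 0 < p := by omega
  have h1 : y / p < n := Nat.div_lt_of_lt_mul hy
  have h2 : (y % p + 1) % p < p := Nat.mod_lt _ h0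
  have h3 : p * (y / p + 1) ≤ p * n := Nat.mul_le_mul_left _ h1
  rw [tauF]
  rw [Nat.mul_succ] at h3
  omega

theorem iter_tauF (hp : 2 ≤ p) (j y : ℕ) :
    (tauF p)^[j] y / p = y / p ∧ (tauF p)^[j] y % p = (y % p + j) % p := by
  induction j with
  | zero => simp
  | succ j ih =>
    rw [Function.iterate_succ_apply', tauF_div hp, tauF_mod hp, ih.1, ih.2]
    refine ⟨rfl, ?_⟩
    rw [Nat.mod_add_mod, add_assoc]

theorem eq_of_div_mod {y z : ℕ} (h1 : y / p = z / p) (h2 : y % p = z % p) : y = z := by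
  rw [← Nat.div_add_mod y p, ← Nat.div_add_mod z p, h1, h2]

theorem iter_tauF_self (hp : 2 ≤ p) (y : ℕ) : (tauF p)^[p] y = y := by
  obtain ⟨h1, h2⟩ := iter_tauF hp p y
  apply eq_of_div_mod h1
  rw [h2, Nat.add_mod_right, Nat.mod_mod]

/-- Two points in a fibre differ by a power of the shift. -/
theorem exists_iter_tauF (hp : 2 ≤ p) {y z : ℕ} (h : y / p = z / p) : ∃ j, (tauF p)^[j] y = z := by
  refine ⟨z % p + (p - y % p), ?_⟩
  obtain ⟨h1, h2⟩ := iter_tauF hp (z % p + (p - y % p)) y
  apply eq_of_div_mod (h1.trans h)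
  rw [h2]
  have h3 : y % p < p := Nat.mod_lt _ (by omega)
  have e : y % p + (z % p + (p - y % p)) = z % p + p := by omega
  rw [e, Nat.add_mod_right, Nat.mod_mod]

end Tau

/-- A permutation from a map with a trivial power. -/
def permOfIter {N : ℕ} (g : ℕ → ℕ) (k : ℕ) (hk : 0 < k) (h1 : ∀ y, y < N → g y < N)
    (h2 : ∀ y, y < N → g^[k] y = y) : Equiv.Perm (Fin N) where
  toFun y := ⟨g y, h1 y y.2⟩
  invFun y := ⟨g^[k - 1] y, by
    have : ∀ j y, y < N → g^[j] y < N := by
      intro j
      induction j with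
      | zero => exact fun y hy => hy
      | succ j ih =>
        intro y hy
        rw [Function.iterate_succ_apply']
        exact h1 _ (ih y hy)
    exact this _ _ y.2⟩
  left_inv y := by
    apply Fin.ext
    show g^[k - 1] (g y) = y
    rw [← Function.iterate_succ_apply, Nat.succ_eq_add_one, Nat.sub_add_cancel hk]
    exact h2 y y.2
  right_inv y := by
    apply Fin.ext
    show g (g^[k - 1] y) = y
    rw [← Function.iterate_succ_apply' g (k - 1), Nat.succ_eq_add_one, Nat.sub_add_cancel hk]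
    exact h2 y y.2

theorem permOfIter_val {N : ℕ} (g : ℕ → ℕ) (k : ℕ) (hk : 0 < k) (h1 : ∀ y, y < N → g y < N)
    (h2 : ∀ y, y < N → g^[k] y = y) (y : Fin N) : (permOfIter g k hk h1 h2 y).val = g y.val := rfl

/-! ### The stem extension -/

section Main

variable {G : Type u} [Group G] {Ω : Type v} [MulAction G Ω]

/-- The conditions on a pair. -/
structure InvP {N p : ℕ} (T : Equiv.Perm (Fin N)) (Ad : ℕ → ℕ → Prop) (rep : ℕ → Ω) (g : G) (π : Equiv.Perm (Fin N)) :
    Prop where
  fib : ∀ y : Fin N, g • rep (y.val / p) = rep ((π y).val / p)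
  comm : π * T = T * π
  adj : ∀ y z : Fin N, Ad y.val z.val ↔ Ad (π y).val (π z).val

/-- The subgroup of the pairs with the conditions. -/
def Inv {N : ℕ} (p : ℕ) (T : Equiv.Perm (Fin N)) (Ad : ℕ → ℕ → Prop) (rep : ℕ → Ω) : Subgroup (G × Equiv.Perm (Fin N)) where
  carrier := {q | InvP (p := p) T Ad rep q.1 q.2}
  one_mem' := ⟨fun y => by simp, by simp, fun y z => by simp⟩
  mul_mem' := by
    rintro ⟨a, α⟩ ⟨b, β⟩ ⟨h1, h2, h3⟩ ⟨h4, h5, h6⟩
    refine ⟨fun y => ?_, ?_, fun y z => ?_⟩
    · show (a * b) • rep _ = rep ((α (β y)).val / p)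
      rw [mul_smul, h4, h1]
    · show α * β * T = T * (α * β)
      rw [mul_assoc, h5, ← mul_assoc, h2, mul_assoc]
    · show _ ↔ Ad (α (β y)).val (α (β z)).val
      rw [h6, h3]
  inv_mem' := by
    rintro ⟨a, α⟩ ⟨h1, h2, h3⟩
    refine ⟨fun y => ?_, ?_, fun y z => ?_⟩
    · show a⁻¹ • rep _ = rep ((α⁻¹ y).val / p)
      rw [inv_smul_eq_iff, h1]
      simp
    · show α⁻¹ * T = T * α⁻¹
      rw [inv_mul_eq_iff_eq_mul, ← mul_assoc, h2, mul_assoc]
      simp
    · show _ ↔ Ad (α⁻¹ y).val (α⁻¹ z).val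
      rw [h3 (α⁻¹ y) (α⁻¹ z)]
      simp

variable [Finite G]

theorem exists_stem (C : CoverCert) (hC : C.check = true) (hp : C.p.Prime)
    {s : ℕ → G} (hgen : closure (s '' Set.Iio C.m) = ⊤) (hs : ∀ i, i < C.m → s i ^ C.k = 1)
    {rep : ℕ → Ω} (hfib : ∀ i, i < C.m → ∀ y, y < C.N → s i • rep (y / C.p) = rep (C.f i y / C.p))
    (hrep : ∀ c d, c < C.n → d < C.n → rep c = rep d → c = d)
    (hW : prodW s C.word = 1) :
    ∃ (Γ : Type u) (_ : Group Γ) (_ : Finite Γ) (σ : Γ →* G), IsStemExtension σ ∧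
      Nonempty (σ.ker ≃* Multiplicative (ZMod C.p)) := by
  classical
  simp only [CoverCert.check, Bool.and_eq_true, List.all_eq_true, List.mem_range, Nat.blt_eq] at hC
  obtain ⟨⟨⟨⟨⟨⟨⟨h2p', hn⟩, hk⟩, hgcd⟩, hgenC⟩, hadjC⟩, htreeC⟩, hwordC⟩ := hC
  have h2p : 2 ≤ C.p := Nat.le_of_ble_eq_true h2p'
  have hp0 : 0 < C.p := by omega
  have hNe : C.N = C.p * C.n := rfl
  have hcop : Nat.Coprime C.k C.p := Nat.eq_of_beq_eq_true hgcd
  have hdivlt : ∀ y, y < C.N → y / C.p < C.n := fun y hy => Nat.div_lt_of_lt_mul hy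
  -- the shift
  let T : Equiv.Perm (Fin C.N) := permOfIter (tauF C.p) C.p hp0 (fun y hy => tauF_lt h2p hy)
    (fun y _ => iter_tauF_self h2p y)
  have hT : ∀ y : Fin C.N, (T y).val = tauF C.p y.val := fun y => rfl
  -- the generators
  have hgenC' : ∀ i, i < C.m → ∀ y, y < C.N → C.f i y < C.N ∧ (C.f i)^[C.k] y = y ∧
      C.f i (tauF C.p y) = tauF C.p (C.f i y) := by
    intro i hi y hy
    have h := hgenC i hi y hy
    simp only [CoverCert.genChk, Bool.and_eq_true, Nat.blt_eq] at h
    obtain ⟨⟨h1, h2⟩, h3⟩ := h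
    have h2' := Nat.eq_of_beq_eq_true h2
    rw [itF_eq] at h2'
    exact ⟨h1, h2', Nat.eq_of_beq_eq_true h3⟩
  have hP : ∀ i, ∃ π : Equiv.Perm (Fin C.N), i < C.m → ∀ y : Fin C.N, (π y).val = C.f i y.val := by
    intro i
    by_cases hi : i < C.m
    · exact ⟨permOfIter (C.f i) C.k hk (fun y hy => (hgenC' i hi y hy).1) (fun y hy => (hgenC' i hi y hy).2.1),
        fun _ _ => rfl⟩
    · exact ⟨1, fun h => absurd h hi⟩
  choose Pf hPf using hP
  have hPpow : ∀ i, i < C.m → ∀ j (y : Fin C.N), (((Pf i) ^ j) y).val = (C.f i)^[j] y.val := by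
    intro i hi j y
    induction j with
    | zero => rfl
    | succ j ih =>
      rw [pow_succ', Equiv.Perm.mul_apply, hPf i hi, ih, Function.iterate_succ_apply']
  have hPk : ∀ i, i < C.m → (Pf i) ^ C.k = 1 := by
    intro i hi
    ext y
    rw [hPpow i hi]
    exact (hgenC' i hi y.val y.2).2.1
  -- the graph
  let Ad : ℕ → ℕ → Prop := fun y z => z ∈ C.nb y
  have hadjC' : ∀ y, y < C.N → C.mks y = orL (C.nb y) ∧ ∀ z ∈ C.nb y, z < C.N ∧
      ∀ i, i < C.m → Nat.testBit (C.mks (C.f i y)) (C.f i z) = true := by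
    intro y hy
    have h := hadjC y hy
    simp only [CoverCert.adjChk, Bool.and_eq_true, List.all_eq_true, List.mem_range, Nat.blt_eq] at h
    exact ⟨Nat.eq_of_beq_eq_true h.1, h.2⟩
  have hfwd : ∀ i, i < C.m → ∀ y, y < C.N → ∀ z, Ad y z → Ad (C.f i y) (C.f i z) := by
    intro i hi y hy z hz
    have h1 := ((hadjC' y hy).2 z hz).2 i hi
    rw [(hadjC' _ (hgenC' i hi y hy).1).1] at h1
    exact mem_of_testBit h1
  have hPfwd : ∀ i, i < C.m → ∀ j (y z : Fin C.N), Ad y.val z.val →
      Ad (((Pf i) ^ j) y).val (((Pf i) ^ j) z).val := by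
    intro i hi j y z h
    induction j with
    | zero => exact h
    | succ j ih =>
      rw [pow_succ', Equiv.Perm.mul_apply, Equiv.Perm.mul_apply, hPf i hi, hPf i hi]
      exact hfwd i hi _ (Fin.is_lt _) _ ih
  -- the pairs
  let g : ℕ → G × Equiv.Perm (Fin C.N) := fun i => (s i, Pf i)
  have hgInv : ∀ i, i < C.m → g i ∈ Inv C.p T Ad rep := by
    intro i hi
    refine ⟨fun y => ?_, ?_, fun y z => ⟨fun h => ?_, fun h => ?_⟩⟩
    · show s i • rep _ = rep ((Pf i y).val / C.p)
      rw [hPf i hi, hfib i hi _ y.2]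
    · show Pf i * T = T * Pf i
      ext y
      show (Pf i (T y)).val = (T (Pf i y)).val
      rw [hPf i hi, hT, hT, hPf i hi, (hgenC' i hi _ y.2).2.2]
    · show Ad (Pf i y).val (Pf i z).val
      rw [hPf i hi, hPf i hi]
      exact hfwd i hi _ y.2 _ h
    · have h1 : Ad (Pf i y).val (Pf i z).val := h
      have h2 := hPfwd i hi (C.k - 1) (Pf i y) (Pf i z) h1
      have h3 : ∀ w : Fin C.N, (((Pf i) ^ (C.k - 1)) (Pf i w)) = w := by
        intro w
        have h4 : (Pf i) ^ (C.k - 1) * Pf i = 1 := by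
          rw [← pow_succ, Nat.sub_add_cancel hk, hPk i hi]
        have h5 := congrArg (fun q : Equiv.Perm (Fin C.N) => q w) h4
        exact h5
      rw [h3, h3] at h2
      exact h2
  let S : Set (G × Equiv.Perm (Fin C.N)) := g '' Set.Iio C.m
  let Γ₀ : Subgroup (G × Equiv.Perm (Fin C.N)) := closure S
  have hle : Γ₀ ≤ Inv C.p T Ad rep := by
    rw [closure_le]
    rintro _ ⟨i, hi, rfl⟩
    exact hgInv i hi
  let σ₀ : ↥Γ₀ →* G := (MonoidHom.fst G _).comp Γ₀.subtype
  have hsurj : Function.Surjective σ₀ := by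
    intro x
    have h1 : Γ₀.map (MonoidHom.fst G (Equiv.Perm (Fin C.N))) = ⊤ := by
      rw [MonoidHom.map_closure, ← hgen]
      congr 1
      ext a
      constructor
      · rintro ⟨_, ⟨i, hi, rfl⟩, rfl⟩
        exact ⟨i, hi, rfl⟩
      · rintro ⟨i, hi, rfl⟩
        exact ⟨g i, ⟨i, hi, rfl⟩, rfl⟩
    have h2 : x ∈ Γ₀.map (MonoidHom.fst G (Equiv.Perm (Fin C.N))) := by rw [h1]; trivial
    obtain ⟨q, hq, hqx⟩ := h2
    exact ⟨⟨q, hq⟩, hqx⟩
  -- the word
  simp only [CoverCert.wordChk, Bool.and_eq_true, List.all_eq_true, List.mem_range, Nat.blt_eq] at hwordC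
  obtain ⟨hw1, hw2⟩ := hwordC
  have hwmem : ∀ w : List ℕ, (∀ i ∈ w, i < C.m) → prodW g w ∈ Γ₀ := by
    intro w hw
    induction w with
    | nil => exact Γ₀.one_mem
    | cons i w ih =>
      exact Γ₀.mul_mem (subset_closure ⟨i, hw i List.mem_cons_self, rfl⟩)
        (ih fun j hj => hw j (List.mem_cons_of_mem _ hj))
  have hwfst : ∀ w : List ℕ, (prodW g w).1 = prodW s w := by
    intro w
    induction w with
    | nil => rfl
    | cons i w ih =>
      show s i * (prodW g w).1 = s i * prodW s w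
      rw [ih]
  have hwsnd : ∀ w : List ℕ, (∀ i ∈ w, i < C.m) → ∀ y : Fin C.N, ((prodW g w).2 y).val = wordF C.f w y.val := by
    intro w hw y
    induction w with
    | nil => rfl
    | cons i w ih =>
      show (Pf i ((prodW g w).2 y)).val = C.f i (wordF C.f w y.val)
      rw [hPf i (hw i List.mem_cons_self), ih fun j hj => hw j (List.mem_cons_of_mem _ hj)]
  have hwT : (prodW g C.word).2 = T := by
    ext y
    rw [hwsnd _ hw1, hT]
    exact Nat.eq_of_beq_eq_true (hw2 y.val y.2)
  have hwG : (prodW g C.word).1 = 1 := by rw [hwfst, hW]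
  let zt : ↥Γ₀ := ⟨prodW g C.word, hwmem _ hw1⟩
  have hzt1 : (zt.1).1 = 1 := hwG
  have hzt2 : (zt.1).2 = T := hwT
  have hztpow : ∀ j : ℕ, ((zt ^ j).1).1 = 1 ∧ ((zt ^ j).1).2 = T ^ j := by
    intro j
    induction j with
    | zero =>
      rw [pow_zero, pow_zero]
      exact ⟨rfl, rfl⟩
    | succ j ih =>
      rw [pow_succ]
      refine ⟨?_, ?_⟩
      · show ((zt ^ j).1).1 * (zt.1).1 = 1
        rw [ih.1, hzt1, one_mul]
      · show ((zt ^ j).1).2 * (zt.1).2 = T ^ (j + 1)
        rw [ih.2, hzt2, pow_succ]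
  have hTpow : ∀ j (y : Fin C.N), ((T ^ j) y).val = (tauF C.p)^[j] y.val := by
    intro j y
    induction j with
    | zero => rfl
    | succ j ih =>
      rw [pow_succ', Equiv.Perm.mul_apply, hT, ih, Function.iterate_succ_apply']
  have hNpos : 0 < C.N := Nat.mul_pos hp0 hn
  let y0 : Fin C.N := ⟨0, hNpos⟩
  have hTne : T ≠ 1 := by
    intro h
    have h1 : (T y0).val = 0 := by rw [h]; rfl
    rw [hT] at h1
    have h2 : tauF C.p 0 = 1 := by
      rw [tauF, Nat.zero_div, Nat.mul_zero, Nat.zero_mod, Nat.zero_add, Nat.zero_add]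
      exact Nat.mod_eq_of_lt (by omega)
    have h3 : tauF C.p y0.val = 1 := h2
    omega
  have hTp : T ^ C.p = 1 := by
    ext y
    rw [hTpow]
    exact iter_tauF_self h2p y.val
  have hztp : zt ^ C.p = 1 := by
    apply Subtype.ext
    apply Prod.ext
    · exact (hztpow C.p).1
    · rw [(hztpow C.p).2, hTp]; rfl
  have hztne : zt ≠ 1 := by
    intro h
    apply hTne
    rw [← hzt2, h]
    rfl
  -- the kernel
  have hfixed : ∀ q : ↥Γ₀, (q.1).1 = 1 → (q.1).2 y0 = y0 → (q.1).2 = 1 := by
    intro q hq1 hq2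
    obtain ⟨i1, i2, i3⟩ := hle q.2
    set π := (q.1).2 with hπ
    have hcomm : ∀ j (y : Fin C.N), π ((T ^ j) y) = (T ^ j) (π y) := by
      intro j y
      have h1 : π * T ^ j = T ^ j * π := (Commute.pow_right (show Commute π T from i2) j)
      exact congrArg (fun r : Equiv.Perm (Fin C.N) => r y) h1
    have hfib0 : ∀ y : Fin C.N, (π y).val / C.p = y.val / C.p := by
      intro y
      have h1 := i1 y
      rw [hq1, one_smul] at h1
      exact (hrep _ _ (hdivlt _ y.2) (hdivlt _ (π y).2) h1).symm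
    have hspread : ∀ w y : Fin C.N, π w = w → y.val / C.p = w.val / C.p → π y = y := by
      intro w y hw hy
      obtain ⟨j, hj⟩ := exists_iter_tauF h2p hy.symm
      have h1 : (T ^ j) w = y := by
        apply Fin.ext
        rw [hTpow, hj]
      rw [← h1, hcomm, hw]
    have hall : ∀ c, c < C.n → ∀ y : Fin C.N, y.val / C.p = c → π y = y := by
      intro c
      induction c using Nat.strong_induction_on with
      | _ c ih =>
        intro hc y hy
        by_cases hc0 : c = 0
        · refine hspread y0 y hq2 ?_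
          rw [hy, hc0]
          exact (Nat.zero_div _).symm
        · have h1 := htreeC c hc
          simp only [CoverCert.treeChk, Bool.or_eq_true, Bool.and_eq_true, Nat.blt_eq, List.all_eq_true,
            List.contains_iff_mem] at h1
          rcases h1 with h1 | h1
          · exact absurd (Nat.eq_of_beq_eq_true h1) hc0
          obtain ⟨⟨⟨⟨⟨h2, h3⟩, h4⟩, h5⟩, h6⟩, h7⟩ := h1
          let w : Fin C.N := ⟨C.prt c, h2⟩
          let l : Fin C.N := ⟨C.lead c, h5⟩
          have hw : π w = w := ih _ h3 (by omega) w rfl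
          have hl : π l = l := by
            have h8 := (i3 w l).mp h6
            rw [hw] at h8
            have h9 := h7 _ h8
            rcases h9 with h9 | h9
            · exfalso
              have h10 : Nat.beq ((π l).val / C.p) c = true := by
                rw [hfib0]
                exact h4
              rw [h10] at h9
              simp at h9
            · exact Fin.ext (Nat.eq_of_beq_eq_true h9)
          refine hspread l y hl ?_
          rw [hy]
          exact (Nat.eq_of_beq_eq_true h4).symm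
    ext y
    exact congrArg Fin.val (hall _ (hdivlt _ y.2) y rfl)
  have hker : ∀ z : ↥Γ₀, z ∈ σ₀.ker → ∃ j : ℕ, z = zt ^ j := by
    intro z hz
    have hz1 : (z.1).1 = 1 := hz
    obtain ⟨i1, -, -⟩ := hle z.2
    have h1 := i1 y0
    rw [hz1, one_smul] at h1
    have h2 : (y0.val / C.p) = ((z.1).2 y0).val / C.p :=
      hrep _ _ (hdivlt _ y0.2) (hdivlt _ (Fin.is_lt _)) h1
    obtain ⟨j, hj⟩ := exists_iter_tauF h2p h2
    have h3 : (T ^ j) y0 = (z.1).2 y0 := by
      apply Fin.ext
      rw [hTpow, hj]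
    refine ⟨j, ?_⟩
    have h4 : ((zt ^ j)⁻¹ * z).1.1 = 1 := by
      show (((zt ^ j).1).1)⁻¹ * (z.1).1 = 1
      rw [(hztpow j).1, hz1, inv_one, one_mul]
    have h5 : ((zt ^ j)⁻¹ * z).1.2 y0 = y0 := by
      show (((zt ^ j).1).2)⁻¹ ((z.1).2 y0) = y0
      rw [(hztpow j).2, ← h3]
      simp
    have h6 := hfixed _ h4 h5
    have h7 : (zt ^ j)⁻¹ * z = 1 := by
      apply Subtype.ext
      exact Prod.ext h4 h6
    exact (inv_mul_eq_one.mp h7).symm
  have hzt_ker : zt ∈ σ₀.ker := hzt1
  have hztcen : ∀ w : ↥Γ₀, w * zt = zt * w := by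
    intro w
    apply Subtype.ext
    apply Prod.ext
    · show (w.1).1 * (zt.1).1 = (zt.1).1 * (w.1).1
      rw [hzt1, one_mul, mul_one]
    · show (w.1).2 * (zt.1).2 = (zt.1).2 * (w.1).2
      rw [hzt2]
      exact (hle w.2).comm
  have : Fact C.p.Prime := ⟨hp⟩
  have hord : orderOf zt = C.p := orderOf_eq_prime hztp hztne
  have hkerz : σ₀.ker = zpowers zt := by
    apply le_antisymm
    · intro z hz
      obtain ⟨j, rfl⟩ := hker z hz
      exact npow_mem_zpowers _ _
    · rw [zpowers_le]
      exact hzt_ker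
  have hcard : Nat.card σ₀.ker = C.p := by
    rw [hkerz, Nat.card_zpowers, hord]
  refine ⟨↥Γ₀, inferInstance, inferInstance, σ₀, ⟨hsurj, ?_, ?_⟩, ⟨mulEquivOfPrimeCardEq hcard ?_⟩⟩
  · intro z hz
    obtain ⟨j, rfl⟩ := hker z hz
    rw [Subgroup.mem_center_iff]
    intro w
    exact ((Commute.pow_right (show Commute w zt from hztcen w) j)).eq
  · intro z hz
    obtain ⟨j, rfl⟩ := hker z hz
    have hS : ∀ a ∈ S, a ^ C.k = 1 := by
      rintro _ ⟨i, hi, rfl⟩
      exact Prod.ext (hs i hi) (hPk i hi)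
    refine mem_commutator_of_gens' S hS hcop _ ?_
    rw [← pow_mul, mul_comm, pow_mul, hztp, one_pow]
  · simp [Nat.card_eq_fintype_card, ZMod.card]

end Main

end Cfsg.Agent.Lib.CoverStem
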