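import Mathlib
import Cfsg.Prelude.Def_KGroupFacts

/-!
# Stem extensions from generators modulo a central element

Let `Q` be a presented group, perfect and finite, and let `y x` be elements of a group `P`, indexed by the generators
of the presentation, commuting with an element `τ`, on which the relators take values in the powers of `τ`.
If a word in the commutator subgroup of the free group is trivial in `Q` and has value `τ`, the image of the
commutator subgroup of the free group in `Q × P` is a stem extension of `Q` with kernel isomorphic to the powers of `τ`.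
-/

set_option autoImplicit false
set_option linter.style.haveILetI false

namespace Cfsg.Agent.Lib.CoverTau12

open Cfsg Subgroup
open scoped commutatorElement

variable {α : Type} {R : Set (FreeGroup α)} {P : Type} [Group P]

theorem commute_lift {y : α → P} {τ : P} (hc : ∀ x, Commute (y x) τ) (g : FreeGroup α) :
    Commute (FreeGroup.lift y g) τ := by
  induction g using FreeGroup.induction_on with
  | C1 => simp
  | of x => simpa using hc x
  | inv_of x h =>
    rw [map_inv]
    exact h.inv_left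
  | mul a b ha hb =>
    rw [map_mul]
    exact ha.mul_left hb

theorem lift_of_mk_one {y : α → P} {τ : P} (hc : ∀ x, Commute (y x) τ)
    (hrel : ∀ r ∈ R, FreeGroup.lift y r ∈ zpowers τ) {f : FreeGroup α} (hf : PresentedGroup.mk R f = 1) :
    FreeGroup.lift y f ∈ zpowers τ := by
  let N : Subgroup (FreeGroup α) := (zpowers τ).comap (FreeGroup.lift y)
  haveI hN : N.Normal := by
    constructor
    intro n hn g
    have h1 : FreeGroup.lift y n ∈ zpowers τ := hn
    obtain ⟨i, hi⟩ := Subgroup.mem_zpowers_iff.mp h1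
    show FreeGroup.lift y (g * n * g⁻¹) ∈ zpowers τ
    have h2 : Commute (FreeGroup.lift y g) (FreeGroup.lift y n) := by
      rw [← hi]
      exact (commute_lift hc g).zpow_right i
    rw [map_mul, map_mul, map_inv, h2.eq, mul_inv_cancel_right]
    exact h1
  have h1 : normalClosure R ≤ N := Subgroup.normalClosure_le_normal (fun r hr => hrel r hr)
  have h2 : f ∈ normalClosure R := (QuotientGroup.eq_one_iff f).mp hf
  exact h1 h2

/-- Commutators do not see central factors. -/
theorem comm_central {G : Type*} [Group G] {a b u v : G} (h2 : Commute u b) (h3 : Commute v a) (h5 : Commute u v) :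
    ⁅a * u, b * v⁆ = ⁅a, b⁆ := by
  rw [commutatorElement_def, commutatorElement_def]
  have e2 : u * b = b * u := h2
  have e3 : v * a⁻¹ = a⁻¹ * v := (h3.inv_right).eq
  have e5 : u * v = v * u := h5
  calc a * u * (b * v) * (a * u)⁻¹ * (b * v)⁻¹
      = a * (u * b) * v * u⁻¹ * a⁻¹ * v⁻¹ * b⁻¹ := by group
    _ = a * b * (u * v) * u⁻¹ * a⁻¹ * v⁻¹ * b⁻¹ := by rw [e2]; group
    _ = a * b * (v * a⁻¹) * v⁻¹ * b⁻¹ := by rw [e5]; group
    _ = a * b * a⁻¹ * b⁻¹ := by rw [e3]; group

/-- The stem extension. -/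
theorem exists_stem [Finite (PresentedGroup R)] (hperf : commutator (PresentedGroup R) = ⊤)
    {y : α → P} {τ : P} (hc : ∀ x, Commute (y x) τ) (hrel : ∀ r ∈ R, FreeGroup.lift y r ∈ zpowers τ)
    {n : ℕ} [NeZero n] (hτ : orderOf τ = n) (w : FreeGroup α) (hw : w ∈ commutator (FreeGroup α))
    (hw1 : PresentedGroup.mk R w = 1) (hwτ : FreeGroup.lift y w = τ) :
    ∃ (Γ : Type) (_ : Group Γ) (_ : Finite Γ) (σ : Γ →* PresentedGroup R), IsStemExtension σ ∧
      Nonempty (σ.ker ≃* Multiplicative (ZMod n)) := by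
  classical
  let Q := PresentedGroup R
  let mk : FreeGroup α →* Q := PresentedGroup.mk R
  have hmk : Function.Surjective mk := PresentedGroup.mk_surjective R
  let L : FreeGroup α →* Q × P := FreeGroup.lift (fun x => (PresentedGroup.of x, y x))
  have hL1 : ∀ f, (L f).1 = mk f := by
    intro f
    have h : (MonoidHom.fst Q P).comp L = mk := by
      apply FreeGroup.ext_hom
      intro x
      simp [L, mk]
      rfl
    exact DFunLike.congr_fun h f
  have hL2 : ∀ f, (L f).2 = FreeGroup.lift y f := by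
    intro f
    have h : (MonoidHom.snd Q P).comp L = FreeGroup.lift y := by
      apply FreeGroup.ext_hom
      intro x
      simp [L]
    exact DFunLike.congr_fun h f
  let C : Subgroup (FreeGroup α) := commutator (FreeGroup α)
  let D : Subgroup (Q × P) := C.map L
  let σ : ↥D →* Q := (MonoidHom.fst Q P).comp D.subtype
  -- every element of `Q` comes from the commutator subgroup
  have hCs : ∀ q : Q, ∃ f ∈ C, mk f = q := by
    intro q
    have h1 : C.map mk = ⊤ := by
      show (commutator (FreeGroup α)).map mk = ⊤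
      rw [commutator_def, Subgroup.map_commutator, Subgroup.map_top_of_surjective mk hmk]
      exact hperf
    have h2 : q ∈ C.map mk := by rw [h1]; exact mem_top _
    obtain ⟨f, hf, hfq⟩ := h2
    exact ⟨f, hf, hfq⟩
  have hsurj : Function.Surjective σ := by
    intro q
    obtain ⟨f, hf, hfq⟩ := hCs q
    exact ⟨⟨L f, f, hf, rfl⟩, by simpa [σ] using (hL1 f).trans hfq⟩
  -- the elements over the identity
  have hZ : ∀ f, mk f = 1 → (L f).2 ∈ zpowers τ := by
    intro f hf
    rw [hL2]
    exact lift_of_mk_one hc hrel hf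
  have hCm : ∀ f, mk f = 1 → ∀ g, Commute (L f) (L g) := by
    intro f hf g
    obtain ⟨i, hi⟩ := Subgroup.mem_zpowers_iff.mp (hZ f hf)
    have h1 : (L f).1 = 1 := by rw [hL1, hf]
    apply Prod.ext
    · show (L f).1 * (L g).1 = (L g).1 * (L f).1
      rw [h1, one_mul, mul_one]
    · show (L f).2 * (L g).2 = (L g).2 * (L f).2
      rw [← hi, hL2 g]
      exact (((commute_lift hc g).zpow_right i).symm).eq
  have hker : ∀ x : ↥D, x ∈ σ.ker → ∃ f, f ∈ C ∧ x.1 = L f ∧ mk f = 1 := by
    rintro ⟨x, f, hf, rfl⟩ hx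
    refine ⟨f, hf, rfl, ?_⟩
    have h1 : σ ⟨L f, f, hf, rfl⟩ = 1 := hx
    have h2 : (L f).1 = 1 := h1
    rw [← hL1, h2]
  have hcen : σ.ker ≤ center ↥D := by
    intro x hx
    obtain ⟨f, -, hxf, hf⟩ := hker x hx
    rw [Subgroup.mem_center_iff]
    rintro ⟨z, g, -, rfl⟩
    apply Subtype.ext
    show L g * x.1 = x.1 * L g
    rw [hxf]
    exact ((hCm f hf g).symm).eq
  -- `D` is perfect
  have hDD : D ≤ ⁅D, D⁆ := by
    have e : D = ⁅L.range, L.range⁆ := by
      show (commutator (FreeGroup α)).map L = _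
      rw [commutator_def, Subgroup.map_commutator, ← MonoidHom.range_eq_map]
    conv_lhs => rw [e]
    rw [Subgroup.commutator_le]
    rintro _ ⟨a, rfl⟩ _ ⟨b, rfl⟩
    obtain ⟨c₁, hc₁, h₁⟩ := hCs (mk a)
    obtain ⟨c₂, hc₂, h₂⟩ := hCs (mk b)
    have hn₁ : mk (c₁⁻¹ * a) = 1 := by rw [map_mul, map_inv, h₁, inv_mul_cancel]
    have hn₂ : mk (c₂⁻¹ * b) = 1 := by rw [map_mul, map_inv, h₂, inv_mul_cancel]
    have ea : L a = L c₁ * L (c₁⁻¹ * a) := by rw [← map_mul, mul_inv_cancel_left]
    have eb : L b = L c₂ * L (c₂⁻¹ * b) := by rw [← map_mul, mul_inv_cancel_left]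
    rw [ea, eb, comm_central (hCm _ hn₁ c₂) (hCm _ hn₂ c₁) (hCm _ hn₁ _)]
    exact Subgroup.commutator_mem_commutator ⟨c₁, hc₁, rfl⟩ ⟨c₂, hc₂, rfl⟩
  have hperfD : commutator ↥D = ⊤ := by
    rw [eq_top_iff]
    intro x _
    have h1 : x.1 ∈ ⁅D, D⁆ := hDD x.2
    rw [← Subgroup.map_subtype_commutator] at h1
    obtain ⟨z, hz, hzx⟩ := h1
    have : z = x := Subtype.ext hzx
    rwa [← this]
  have hstem : IsStemExtension σ := by
    refine ⟨hsurj, hcen, ?_⟩
    rw [hperfD]
    exact le_top
  -- the element `τ`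
  have hLw : L w = (1, τ) := by
    apply Prod.ext
    · show (L w).1 = 1
      rw [hL1]
      exact hw1
    · show (L w).2 = τ
      rw [hL2, hwτ]
  let u : ↥D := ⟨L w, w, hw, rfl⟩
  have hu : u ∈ σ.ker := by
    show (L w).1 = 1
    rw [hL1]
    exact hw1
  -- the kernel
  have hmem : ∀ x : σ.ker, x.1.1.2 ∈ zpowers τ := by
    intro x
    obtain ⟨f, -, hxf, hf⟩ := hker x.1 x.2
    rw [hxf]
    exact hZ f hf
  let ψ : σ.ker →* zpowers τ :=
    { toFun := fun x => ⟨x.1.1.2, hmem x⟩
      map_one' := rfl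
      map_mul' := fun _ _ => rfl }
  have hψi : Function.Injective ψ := by
    intro a b hab
    apply Subtype.ext
    apply Subtype.ext
    apply Prod.ext
    · have h1 : a.1.1.1 = 1 := a.2
      have h2 : b.1.1.1 = 1 := b.2
      rw [h1, h2]
    · exact congrArg Subtype.val hab
  have hψs : Function.Surjective ψ := by
    rintro ⟨_, i, rfl⟩
    refine ⟨(⟨u, hu⟩ : σ.ker) ^ i, ?_⟩
    rw [map_zpow]
    have : ψ ⟨u, hu⟩ = ⟨τ, mem_zpowers τ⟩ := by
      apply Subtype.ext
      show (L w).2 = τ
      rw [hLw]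
    rw [this]
    rfl
  have hn0 : Nat.card (zpowers τ) ≠ 0 := by
    rw [Nat.card_zpowers, hτ]
    exact NeZero.ne n
  haveI : Finite (zpowers τ) := Nat.finite_of_card_ne_zero hn0
  haveI : Finite σ.ker := Finite.of_injective ψ hψi
  haveI : Finite Q := inferInstanceAs (Finite (PresentedGroup R))
  haveI : Finite σ.range := inferInstance
  haveI hD : Finite ↥D := σ.finite_iff_finite_ker_range.mpr ⟨inferInstance, inferInstance⟩
  refine ⟨↥D, inferInstance, hD, σ, hstem, ?_⟩
  let e1 : σ.ker ≃* zpowers τ := MulEquiv.ofBijective ψ ⟨hψi, hψs⟩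
  have e2 := zmodCyclicMulEquiv (G := zpowers τ) inferInstance
  rw [Nat.card_zpowers, hτ] at e2
  exact ⟨e1.trans e2.symm⟩

end Cfsg.Agent.Lib.CoverTau12
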