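import Mathlib
import Cfsg.Prelude.Def_ChevStructure
import Cfsg.Agent.Lib.CoxOrder

/-! Order and faithful reflection representation of the Coxeter group of type B2.
Generated certificates: coset tables and orbits along the chain of parabolic subgroups. -/

set_option autoImplicit false
set_option maxRecDepth 1000000

namespace Cfsg.Agent.Lib.CoxB2

open Cfsg.Agent.Lib.CoxOrder

/-- The Coxeter matrix. -/
abbrev M : CoxeterMatrix (Fin 2) := CoxeterMatrix.B 2

/-- Coxeter matrix table. -/
def mT (i j : ℕ) : ℕ := pk 0x1441 4 (i * 2 + j)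

/-- Cartan matrix table. -/
def A (i j : ℕ) : ℤ := (pk 0xa67a 4 (i * 2 + j) : ℤ) - 8

theorem hM0 : ∀ i j : Fin 2, decide (M i j = mT i j) = true := by decide +kernel

theorem hM : ∀ i j : Fin 2, M i j = mT i j := fun i j => of_decide_eq_true (hM0 i j)

theorem hrel : ∀ i j : Fin 2, (R A i * R A j) ^ M i j = 1 := by decide +kernel

/-! Level 1: orbit of size 2. -/
def T1 (c i : ℕ) : ℕ := pk 0x1 2 (c * 2 + i)
def par1 (d : ℕ) : ℕ := pk 0x0 2 d
def gen1 (d : ℕ) : ℕ := pk 0x0 4 d
def pts1 (c k : ℕ) : ℤ := (pk 0x9789 4 (c * 2 + k) : ℤ) - 8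

theorem final1 : finalMask 2 2 (List.range 1) (List.range 0) mT T1 par1 gen1 = 0x4 := by
  decide +kernel

theorem upper1 : upperCheck 2 2 (List.range 1) (List.range 0) T1 par1 gen1 0x4 = true := by
  decide +kernel

theorem lower1 : lowerCheck 2 2 (List.range 1) (List.range 0) A pts1 par1 gen1 = true := by
  decide +kernel

theorem chain1 : Chain (sN M) (permRep M A hrel) (List.range 1) 2 := by
  have h := level M A hrel mT hM 2 2 (List.range 1) (List.range 0) T1 par1 gen1 pts1
    (by rw [final1]; exact upper1) lower1 (chain_nil _ _)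
  simpa using h

/-! Level 2: orbit of size 4. -/
def T2 (c i : ℕ) : ℕ := pk 0x4d9088 3 (c * 2 + i)
def par2 (d : ℕ) : ℕ := pk 0x440 3 d
def gen2 (d : ℕ) : ℕ := pk 0x1010 4 d
def pts2 (c k : ℕ) : ℤ := (pk 0x78967a98 4 (c * 2 + k) : ℤ) - 8

theorem final2 : finalMask 4 2 (List.range 2) (List.range 1) mT T2 par2 gen2 = 0xd8 := by
  decide +kernel

theorem upper2 : upperCheck 4 2 (List.range 2) (List.range 1) T2 par2 gen2 0xd8 = true := by
  decide +kernel

theorem lower2 : lowerCheck 2 4 (List.range 2) (List.range 1) A pts2 par2 gen2 = true := by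
  decide +kernel

theorem chain2 : Chain (sN M) (permRep M A hrel) (List.range 2) 8 := by
  have h := level M A hrel mT hM 4 2 (List.range 2) (List.range 1) T2 par2 gen2 pts2
    (by rw [final2]; exact upper2) lower2 chain1
  simpa using h

/-- Finite, of the right order, with faithful reflection representation. -/
theorem main : Finite M.Group ∧ Nat.card M.Group = 8 ∧ Function.Injective (matRep M A hrel) :=
  final M A hrel _ chain2

/-- The table of powers of the Coxeter element in the reflection representation. -/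
def Y (d : ℕ) : Matrix (Fin 2) (Fin 2) ℤ :=
  Matrix.of fun i j => (pk 0x818080817f7f82817f80807f81817e7f81808081 8 ((d * 2 + i) * 2 + j) : ℤ) - 128

theorem Y0 : Y 0 = 1 := by decide +kernel
theorem Ys : ∀ d < 4, Y (d + 1) = Y d * ((List.finRange 2).map (R A)).prod := by decide +kernel
theorem Yh : Y 4 = 1 := by decide +kernel
theorem Yne : ∀ d < 4, 0 < d → Y d ≠ 1 := by decide +kernel

/-- The order of the Coxeter element. -/
theorem orderOf_coxeterElement : orderOf ((List.finRange 2).map M.simple).prod = 4 :=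
  orderOf_coxeter M A hrel main.2.2 Y 4 (by norm_num) Y0 Ys Yh Yne

end Cfsg.Agent.Lib.CoxB2
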