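import Mathlib
import Cfsg.Agent.Lib.CoxOrder

set_option autoImplicit false
set_option linter.unusedSectionVars false
set_option linter.unusedVariables false

namespace Cfsg.Agent.Lib.CoxCenter

open Cfsg.Agent.Lib.CoxOrder

variable {n : ℕ}

/-- Commuting with a reflection matrix: entries. -/
theorem entry_eq (A : ℕ → ℕ → ℤ) (W : Matrix (Fin n) (Fin n) ℤ) (i j k : Fin n)
    (h : W * R A i = R A i * W) :
    (if k = i then ∑ l : Fin n, W j l * A i l else 0) = A i j * W i k := by
  classical
  have h1 := congrFun (congrFun h j) k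
  simp only [Matrix.mul_apply, R, Matrix.of_apply, mul_sub, sub_mul, Finset.sum_sub_distrib, mul_ite,
    ite_mul, mul_one, one_mul, mul_zero, zero_mul, Finset.sum_ite_eq, Finset.mem_univ, if_true,
    Finset.sum_ite_eq', Finset.sum_const_zero] at h1
  by_cases hk : k = i
  · subst hk
    simp only [if_true] at h1 ⊢
    linarith
  · simp only [hk, if_false, Finset.sum_const_zero, sub_zero] at h1 ⊢
    linarith

/-- Commuting with all reflection matrices forces a scalar matrix. -/
theorem scalar_of_commute (A : ℕ → ℕ → ℤ) (hA : ∀ i : Fin n, A i i = 2)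
    (r : Fin n) (d : Fin n → ℕ) (hd : ∀ i : Fin n, i = r ∨ ∃ j : Fin n, d j < d i ∧ A j i ≠ 0)
    (W : Matrix (Fin n) (Fin n) ℤ) (hW : ∀ i, W * R A i = R A i * W) :
    W = (W r r) • (1 : Matrix (Fin n) (Fin n) ℤ) := by
  classical
  have hoff : ∀ i k : Fin n, k ≠ i → W i k = 0 := by
    intro i k hk
    have h1 := entry_eq A W i i k (hW i)
    rw [if_neg hk, hA i] at h1
    omega
  have hsum : ∀ i j : Fin n, ∑ l : Fin n, W j l * A i l = W j j * A i j := by
    intro i j
    rw [Finset.sum_eq_single j]
    · intro l _ hl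
      rw [hoff j l hl, zero_mul]
    · simp
  have heq : ∀ i j : Fin n, A i j ≠ 0 → W i i = W j j := by
    intro i j hij
    have h1 := entry_eq A W i j i (hW i)
    rw [if_pos rfl, hsum] at h1
    have h2 : A i j * (W j j - W i i) = 0 := by linarith
    rcases mul_eq_zero.mp h2 with h | h
    · exact absurd h hij
    · linarith
  have hall : ∀ i : Fin n, W i i = W r r := by
    intro i
    induction hm : d i using Nat.strong_induction_on generalizing i with
    | _ m ih =>
      rcases hd i with rfl | ⟨j, hj, hji⟩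
      · rfl
      · rw [← heq j i hji]
        exact ih (d j) (by omega) j rfl
  ext i j
  by_cases hij : i = j
  · subst hij
    simp [hall]
  · rw [hoff i j (Ne.symm hij)]
    simp [hij, Matrix.smul_apply, Matrix.one_apply]

variable (M : CoxeterMatrix (Fin n)) (A : ℕ → ℕ → ℤ) (hrel : ∀ i j : Fin n, (R A i * R A j) ^ M i j = 1)

/-- The image of a central element is `±1`. -/
theorem center_dichotomy [Finite M.Group] (hA : ∀ i : Fin n, A i i = 2)
    (r : Fin n) (d : Fin n → ℕ) (hd : ∀ i : Fin n, i = r ∨ ∃ j : Fin n, d j < d i ∧ A j i ≠ 0)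
    {w : M.Group} (hw : w ∈ Subgroup.center M.Group) :
    matRep M A hrel w = 1 ∨ matRep M A hrel w = -1 := by
  classical
  set W := matRep M A hrel w with hWd
  have hW : ∀ i, W * R A i = R A i * W := by
    intro i
    rw [← matRep_simple M A hrel i, hWd, ← map_mul, ← map_mul]
    congr 1
    exact (Subgroup.mem_center_iff.mp hw _).symm
  have hs := scalar_of_commute A hA r d hd W hW
  set lam := W r r with hlam
  have hord : 0 < orderOf w := orderOf_pos w
  have hpow : W ^ orderOf w = 1 := by
    rw [hWd, ← map_pow, pow_orderOf_eq_one, map_one]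
  have hl : lam ^ orderOf w = 1 := by
    rw [hs, smul_pow, one_pow] at hpow
    have h1 := congrFun (congrFun hpow r) r
    simpa [Matrix.smul_apply, Matrix.one_apply] using h1
  have hu : IsUnit lam := IsUnit.of_pow_eq_one hl hord.ne'
  rcases Int.isUnit_iff.mp hu with h | h
  · left
    rw [hs, h, one_smul]
  · right
    rw [hs, h, neg_smul, one_smul]

/-- If a group element is represented by `-1`, the centre is `{1, X}`. -/
theorem center_of_neg [Finite M.Group] (hinj : Function.Injective (matRep M A hrel)) (hn : 0 < n)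
    (hA : ∀ i : Fin n, A i i = 2)
    (r : Fin n) (d : Fin n → ℕ) (hd : ∀ i : Fin n, i = r ∨ ∃ j : Fin n, d j < d i ∧ A j i ≠ 0)
    (c : M.Group) (k : ℕ) (hX : matRep M A hrel (c ^ k) = -1) :
    Nat.card (Subgroup.center M.Group) = 2 ∧ Subgroup.center M.Group ≤ Subgroup.zpowers c := by
  classical
  have hXc : c ^ k ∈ Subgroup.center M.Group := by
    rw [Subgroup.mem_center_iff]
    intro g
    apply hinj
    rw [map_mul, map_mul, hX]
    simp
  have hne : c ^ k ≠ 1 := by
    intro h
    rw [h, map_one] at hX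
    have h1 := congrFun (congrFun hX r) r
    simp at h1
  have hmem : ∀ w ∈ Subgroup.center M.Group, w = 1 ∨ w = c ^ k := by
    intro w hw
    rcases center_dichotomy M A hrel hA r d hd hw with h | h
    · left
      apply hinj
      rw [h, map_one]
    · right
      apply hinj
      rw [h, hX]
  constructor
  · rw [Nat.card_eq_two_iff]
    refine ⟨1, ⟨c ^ k, hXc⟩, fun h => hne (congrArg Subtype.val h).symm, ?_⟩
    ext x
    simp only [Set.mem_insert_iff, Set.mem_singleton_iff, Set.mem_univ, iff_true]
    rcases hmem x x.2 with h | h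
    · left
      exact Subtype.ext h
    · right
      exact Subtype.ext h
  · intro w hw
    rcases hmem w hw with h | h
    · rw [h]
      exact Subgroup.one_mem _
    · rw [h]
      exact Subgroup.npow_mem_zpowers c k

/-- A linear form modulo `3` fixed by the reflections: no element is represented by `-1`. -/
theorem not_neg_of_form (ℓ : Fin n → ℤ) (hℓ : ∀ i : Fin n, (3 : ℤ) ∣ ∑ k : Fin n, ℓ k * A i k)
    (k₀ : Fin n) (hk₀ : ¬ (3 : ℤ) ∣ ℓ k₀) (g : M.Group) : matRep M A hrel g ≠ -1 := by
  classical
  have key : ∀ (g : M.Group) (v : Fin n → ℤ),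
      (3 : ℤ) ∣ (∑ k, ℓ k * ((matRep M A hrel g).mulVec v) k) - ∑ k, ℓ k * v k := by
    intro g
    refine M.toCoxeterSystem.simple_induction (p := fun g => ∀ v : Fin n → ℤ,
      (3 : ℤ) ∣ (∑ k, ℓ k * ((matRep M A hrel g).mulVec v) k) - ∑ k, ℓ k * v k) g ?_ ?_ ?_
    · intro i v
      have hs : matRep M A hrel (M.toCoxeterSystem.simple i) = R A i := matRep_simple M A hrel i
      rw [hs]
      have h1 : ∀ k, ((R A i).mulVec v) k = v k - v i * A i k := fun k => R_mulVec A i v k
      simp only [h1, mul_sub, Finset.sum_sub_distrib]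
      have h2 : ∑ k, ℓ k * (v i * A i k) = v i * ∑ k, ℓ k * A i k := by
        rw [Finset.mul_sum]
        refine Finset.sum_congr rfl fun k _ => ?_
        ring
      rw [h2]
      have h3 := (hℓ i).mul_left (v i)
      have h4 : (∑ k, ℓ k * v k) - v i * ∑ k, ℓ k * A i k - ∑ k, ℓ k * v k = - (v i * ∑ k, ℓ k * A i k) := by ring
      rw [h4]
      exact (dvd_neg).mpr h3
    · intro v
      simp
    · intro a b ha hb v
      rw [map_mul, ← Matrix.mulVec_mulVec]
      have h1 := ha ((matRep M A hrel b).mulVec v)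
      have h2 := hb v
      have h3 := dvd_add h1 h2
      simpa using h3
  intro hg
  have h1 := key g (fun k => if k = k₀ then 1 else 0)
  rw [hg] at h1
  have h2 : (∑ k, ℓ k * ((-1 : Matrix (Fin n) (Fin n) ℤ).mulVec fun k => if k = k₀ then (1 : ℤ) else 0) k) = - ℓ k₀ := by
    simp [Matrix.neg_mulVec]
  have h3 : (∑ k, ℓ k * (fun k => if k = k₀ then (1 : ℤ) else 0) k) = ℓ k₀ := by
    simp
  rw [h2, h3] at h1
  apply hk₀
  omega

/-- The centre is trivial if `-1` is not in the image. -/
theorem center_trivial [Finite M.Group] (hinj : Function.Injective (matRep M A hrel))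
    (hA : ∀ i : Fin n, A i i = 2)
    (r : Fin n) (d : Fin n → ℕ) (hd : ∀ i : Fin n, i = r ∨ ∃ j : Fin n, d j < d i ∧ A j i ≠ 0)
    (ℓ : Fin n → ℤ) (hℓ : ∀ i : Fin n, (3 : ℤ) ∣ ∑ k : Fin n, ℓ k * A i k)
    (k₀ : Fin n) (hk₀ : ¬ (3 : ℤ) ∣ ℓ k₀) (c : M.Group) :
    Nat.card (Subgroup.center M.Group) = 1 ∧ Subgroup.center M.Group ≤ Subgroup.zpowers c := by
  have h : Subgroup.center M.Group = ⊥ := by
    rw [eq_bot_iff]
    intro w hw
    rcases center_dichotomy M A hrel hA r d hd hw with h | h
    · apply hinj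
      rw [h, map_one]
    · exact absurd h (not_neg_of_form M A hrel ℓ hℓ k₀ hk₀ w)
  rw [h]
  simp

end Cfsg.Agent.Lib.CoxCenter
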