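import Mathlib
import Cfsg.Agent.Lib.MatConj

/-!
# Endomorphisms killed by `(X - 1) Φ`, `Φ` irreducible of degree `dim - 1`
-/

set_option autoImplicit false

namespace Cfsg.Agent.Lib.CycBlock

open Matrix Polynomial Module
open Cfsg.Agent.Lib.MatConj

variable {F : Type*} [Field F] {V : Type*} [AddCommGroup V] [Module F V]

/-- `map_pow_all` for a vector killed by `f`. -/
theorem map_pow_all_vec {V' : Type*} [AddCommGroup V'] [Module F V']
    (T : V →ₗ[F] V) (T' : V' →ₗ[F] V') (S : V →ₗ[F] V') (f : F[X]) (hm : f.Monic)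
    (hd : 0 < f.natDegree) (v : V) (v' : V') (hv : aeval T f v = 0) (hv' : aeval T' f v' = 0)
    (h : ∀ i < f.natDegree, S ((T ^ i) v) = (T' ^ i) v') (i : ℕ) : S ((T ^ i) v) = (T' ^ i) v' := by
  classical
  have h1 : (X ^ i : F[X]) %ₘ f + f * ((X ^ i : F[X]) /ₘ f) = X ^ i := Polynomial.modByMonic_add_div _ f
  have h2 : aeval T ((X ^ i : F[X]) %ₘ f) v = (T ^ i) v := by
    have e : (T ^ i) v = aeval T (X ^ i : F[X]) v := by simp
    conv_rhs => rw [e, ← h1]
    rw [map_add, LinearMap.add_apply, mul_comm f, map_mul, Module.End.mul_apply, hv, map_zero, add_zero]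
  have h2' : aeval T' ((X ^ i : F[X]) %ₘ f) v' = (T' ^ i) v' := by
    have e : (T' ^ i) v' = aeval T' (X ^ i : F[X]) v' := by simp
    conv_rhs => rw [e, ← h1]
    rw [map_add, LinearMap.add_apply, mul_comm f, map_mul, Module.End.mul_apply, hv', map_zero, add_zero]
  have h3 : ((X ^ i : F[X]) %ₘ f).natDegree < f.natDegree := by
    apply Polynomial.natDegree_modByMonic_lt _ hm
    intro h
    rw [h] at hd
    simp at hd
  rw [← h2, ← h2', Polynomial.aeval_eq_sum_range' h3, Polynomial.aeval_eq_sum_range' h3]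
  simp only [LinearMap.sum_apply, LinearMap.smul_apply, map_sum, map_smul]
  refine Finset.sum_congr rfl fun k hk => ?_
  rw [h k (Finset.mem_range.mp hk)]

theorem aeval_restrict_apply (T : Module.End F V) (W : Submodule F V) (h : ∀ v ∈ W, T v ∈ W) (p : F[X]) (v : W) :
    ((aeval (T.restrict h : Module.End F W) p v : W) : V) = aeval T p (v : V) := by
  induction p using Polynomial.induction_on generalizing v with
  | C a => simp
  | add p q hp hq =>
    simp only [map_add, LinearMap.add_apply, Submodule.coe_add, hp, hq]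
  | monomial n a ih =>
    have e : (C a * X ^ (n + 1) : F[X]) = (C a * X ^ n) * X := by ring
    rw [e, map_mul (aeval (T.restrict h : Module.End F W)) (C a * X ^ n) X, map_mul (aeval T) (C a * X ^ n) X, aeval_X, aeval_X,
      Module.End.mul_apply, Module.End.mul_apply, ih]
    rfl

/-- The structure of `T`. -/
theorem exists_cyc_basis [FiniteDimensional F V] (T : Module.End F V) (n : ℕ) (hn : 3 ≤ n) (hV : finrank F V = n)
    (Φ : F[X]) (hirr : Irreducible Φ) (hdeg : Φ.natDegree = n - 1) (hcop : IsCoprime (X - C 1 : F[X]) Φ)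
    (h0 : aeval T ((X - C 1) * Φ) = 0) (hT : T ≠ 1) :
    ∃ (l u : V) (e : Basis (Option (Fin (n - 1))) F V), T l = l ∧ aeval T Φ u = 0 ∧ e none = l ∧
      ∀ j : Fin (n - 1), e (some j) = (T ^ (j : ℕ)) u := by
  classical
  set A := LinearMap.ker (aeval T (X - C 1 : F[X])) with hA
  set B := LinearMap.ker (aeval T Φ) with hB
  have hdisj : Disjoint A B := Polynomial.disjoint_ker_aeval_of_isCoprime T hcop
  have hsup : A ⊔ B = ⊤ := by
    rw [hA, hB, Polynomial.sup_ker_aeval_eq_ker_aeval_mul_of_coprime T hcop, h0, LinearMap.ker_zero]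
  have hc : IsCompl A B := ⟨hdisj, codisjoint_iff.mpr hsup⟩
  have hmemA : ∀ v, v ∈ A ↔ T v = v := by
    intro v
    rw [hA, LinearMap.mem_ker]
    simp [sub_eq_zero]
  have hcomm : ∀ v, aeval T Φ (T v) = T (aeval T Φ v) := by
    intro v
    have : aeval T Φ * aeval T (X : F[X]) = aeval T (X : F[X]) * aeval T Φ := by
      rw [← map_mul, ← map_mul, mul_comm]
    rw [aeval_X] at this
    have := LinearMap.congr_fun this v
    simpa using this
  have hTB : ∀ v ∈ B, T v ∈ B := by
    intro v hv
    rw [hB, LinearMap.mem_ker] at hv ⊢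
    rw [hcomm, hv, map_zero]
  let R : Module.End F B := T.restrict hTB
  have hR0 : aeval R Φ = 0 := by
    apply LinearMap.ext
    intro v
    apply Subtype.ext
    rw [aeval_restrict_apply]
    simpa using v.2
  obtain ⟨m, w, b, hb⟩ := exists_poly_basis' R Φ hirr hR0 (n - 1) hdeg
  have hdimB : finrank F B = (n - 1) * m := by
    have := Module.finrank_eq_card_basis b
    simpa using this
  have hsum : finrank F A + finrank F B = n := by
    rw [← hV]
    exact Submodule.finrank_add_eq_of_isCompl hc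
  have hm0 : m ≠ 0 := by
    rintro rfl
    apply hT
    have hB0 : B = ⊥ := by
      rw [← Submodule.finrank_eq_zero, hdimB, mul_zero]
    rw [hB0, sup_bot_eq] at hsup
    apply LinearMap.ext
    intro v
    have : v ∈ A := by rw [hsup]; trivial
    rw [hmemA] at this
    simpa using this
  have hm1 : m = 1 := by
    have h2 : (n - 1) * m ≤ n := by omega
    by_contra hne
    have h3 : 2 ≤ m := by omega
    have h4 : (n - 1) * 2 ≤ (n - 1) * m := Nat.mul_le_mul_left _ h3
    omega
  subst hm1
  have hdimA : finrank F A = 1 := by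
    rw [mul_one] at hdimB
    omega
  let bA : Basis (Fin 1) F A := Module.finBasisOfFinrankEq F A hdimA
  let e₀ : Basis (Fin 1 ⊕ (Fin (n - 1) × Fin 1)) F V :=
    (bA.prod b).map (Submodule.prodEquivOfIsCompl A B hc)
  let σ : Fin 1 ⊕ (Fin (n - 1) × Fin 1) ≃ Option (Fin (n - 1)) :=
    { toFun := fun x => match x with
        | Sum.inl _ => none
        | Sum.inr p => some p.1
      invFun := fun x => match x with
        | none => Sum.inl 0
        | some j => Sum.inr (j, 0)
      left_inv := by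
        rintro (i | ⟨i, j⟩)
        · have : i = 0 := Subsingleton.elim _ _
          subst this
          rfl
        · have : j = 0 := Subsingleton.elim _ _
          subst this
          rfl
      right_inv := by
        rintro (_ | j) <;> rfl }
  have hRpow : ∀ (i : ℕ) (v : B), (((R ^ i) v : B) : V) = (T ^ i) (v : V) := by
    intro i
    induction i with
    | zero => intro v; simp
    | succ i ih =>
      intro v
      rw [pow_succ', Module.End.mul_apply, pow_succ', Module.End.mul_apply, ← ih]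
      rfl
  refine ⟨(bA 0 : V), (w 0 : V), e₀.reindex σ, ?_, ?_, ?_, ?_⟩
  · exact (hmemA _).mp (bA 0).2
  · exact (w 0).2
  · have : σ.symm none = Sum.inl 0 := rfl
    rw [Basis.reindex_apply, this]
    simp [e₀, Basis.prod_apply]
  · intro j
    have : σ.symm (some j) = Sum.inr (j, 0) := rfl
    rw [Basis.reindex_apply, this, ← hRpow, ← hb]
    simp [e₀, Basis.prod_apply]

/-- Two such endomorphisms are similar. -/
theorem exists_equiv_cyc [FiniteDimensional F V] (T T' : Module.End F V) (n : ℕ) (hn : 3 ≤ n)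
    (Φ : F[X]) (hm : Φ.Monic) (hdeg : Φ.natDegree = n - 1)
    (l u l' u' : V) (e e' : Basis (Option (Fin (n - 1))) F V) (hl : T l = l) (hu : aeval T Φ u = 0)
    (hel : e none = l) (heu : ∀ j : Fin (n - 1), e (some j) = (T ^ (j : ℕ)) u)
    (hl' : T' l' = l') (hu' : aeval T' Φ u' = 0)
    (hel' : e' none = l') (heu' : ∀ j : Fin (n - 1), e' (some j) = (T' ^ (j : ℕ)) u') :
    ∃ E : V ≃ₗ[F] V, ∀ v, E (T v) = T' (E v) := by
  classical
  let E : V ≃ₗ[F] V := e.equiv e' (Equiv.refl _)
  have hE : ∀ p, E (e p) = e' p := by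
    intro p
    simp [E, Basis.equiv_apply]
  have hpow : ∀ i : ℕ, (E : V →ₗ[F] V) ((T ^ i) u) = (T' ^ i) u' := by
    intro i
    apply map_pow_all_vec T T' (E : V →ₗ[F] V) Φ hm (by omega) u u' hu hu'
    intro i hi
    rw [hdeg] at hi
    have h1 := heu ⟨i, hi⟩
    have h2 := heu' ⟨i, hi⟩
    simp only at h1 h2
    rw [← h1, ← h2]
    exact hE _
  refine ⟨E, ?_⟩
  have : (E : V →ₗ[F] V) ∘ₗ T = T' ∘ₗ (E : V →ₗ[F] V) := by
    apply e.ext
    rintro (_ | j)
    · simp only [LinearMap.comp_apply, LinearEquiv.coe_coe]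
      rw [hel, hl, ← hel, hE, hel', hl']
    · simp only [LinearMap.comp_apply]
      rw [heu]
      have h1 : T ((T ^ (j : ℕ)) u) = (T ^ ((j : ℕ) + 1)) u := by
        rw [pow_succ', Module.End.mul_apply]
      rw [h1, hpow, hpow, pow_succ', Module.End.mul_apply]
  intro v
  exact LinearMap.congr_fun this v

/-- Commuting endomorphisms of any determinant. -/
theorem exists_comm_det_cyc [FiniteDimensional F V] (T : Module.End F V) (n : ℕ) (hn : 3 ≤ n)
    (Φ : F[X]) (hm : Φ.Monic) (hdeg : Φ.natDegree = n - 1)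
    (l u : V) (e : Basis (Option (Fin (n - 1))) F V) (hl : T l = l) (hu : aeval T Φ u = 0)
    (hel : e none = l) (heu : ∀ j : Fin (n - 1), e (some j) = (T ^ (j : ℕ)) u) (d : F) :
    ∃ D : Module.End F V, D * T = T * D ∧ LinearMap.det D = d := by
  classical
  let D : Module.End F V := e.constr F (fun o => match o with
    | none => d • e none
    | some j => e (some j))
  have hD0 : D (e none) = d • e none := e.constr_basis F _ none
  have hD1 : ∀ j, D (e (some j)) = e (some j) := fun j => e.constr_basis F _ (some j)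
  have hpow : ∀ i : ℕ, D ((T ^ i) u) = (T ^ i) u := by
    intro i
    apply map_pow_all_vec T T D Φ hm (by omega) u u hu hu
    intro i hi
    rw [hdeg] at hi
    have h1 := heu ⟨i, hi⟩
    simp only at h1
    rw [← h1, hD1]
  refine ⟨D, ?_, ?_⟩
  · apply e.ext
    rintro (_ | j)
    · simp only [Module.End.mul_apply]
      rw [hD0, hel, hl, ← hel, hD0, map_smul, hel, hl]
    · simp only [Module.End.mul_apply]
      rw [heu]
      have h1 : T ((T ^ (j : ℕ)) u) = (T ^ ((j : ℕ) + 1)) u := by
        rw [pow_succ', Module.End.mul_apply]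
      rw [h1, hpow, hpow, h1]
  · rw [← LinearMap.det_toMatrix e D]
    have : LinearMap.toMatrix e e D = Matrix.diagonal (fun o : Option (Fin (n - 1)) => match o with
        | none => d
        | some _ => (1 : F)) := by
      ext i j
      rw [LinearMap.toMatrix_apply]
      rcases j with _ | j
      · rw [hD0]
        simp [Matrix.diagonal_apply, Finsupp.single_apply]
        by_cases h : i = none
        · subst h; simp
        · rw [if_neg (Ne.symm h), if_neg h]
      · rw [hD1]
        simp [Matrix.diagonal_apply, Finsupp.single_apply]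
        by_cases h : i = some j
        · subst h; simp
        · rw [if_neg (Ne.symm h), if_neg h]
    rw [this, Matrix.det_diagonal, Fintype.prod_option]
    simp

/-- Conjugacy of matrices killed by `(X - 1) Φ`, by a conjugator of determinant one. -/
theorem exists_conj_det_one {ι : Type*} [Fintype ι] [DecidableEq ι] (x y : GL ι F) (n : ℕ) (hn : 3 ≤ n)
    (hι : Fintype.card ι = n) (Φ : F[X]) (hirr : Irreducible Φ) (hm : Φ.Monic) (hdeg : Φ.natDegree = n - 1)
    (hcop : IsCoprime (X - C 1 : F[X]) Φ)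
    (hx : aeval (x : Matrix ι ι F) ((X - C 1) * Φ) = 0) (hy : aeval (y : Matrix ι ι F) ((X - C 1) * Φ) = 0)
    (hx1 : x ≠ 1) (hy1 : y ≠ 1) : ∃ P : GL ι F, (P : Matrix ι ι F).det = 1 ∧ P⁻¹ * x * P = y := by
  classical
  set T : Module.End F (ι → F) := Matrix.toLinAlgEquiv' (x : Matrix ι ι F) with hT
  set T' : Module.End F (ι → F) := Matrix.toLinAlgEquiv' (y : Matrix ι ι F) with hT'
  have hTx : ∀ v, T v = (x : Matrix ι ι F) *ᵥ v := fun v => by simp [hT, Matrix.toLinAlgEquiv'_apply]
  have hTy : ∀ v, T' v = (y : Matrix ι ι F) *ᵥ v := fun v => by simp [hT', Matrix.toLinAlgEquiv'_apply]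
  have hV : finrank F (ι → F) = n := by simp [hι]
  have h0 : aeval T ((X - C 1) * Φ) = 0 := by
    rw [hT, Polynomial.aeval_algEquiv]
    show Matrix.toLinAlgEquiv' (aeval (x : Matrix ι ι F) ((X - C 1) * Φ)) = 0
    rw [hx, map_zero]
  have h0' : aeval T' ((X - C 1) * Φ) = 0 := by
    rw [hT', Polynomial.aeval_algEquiv]
    show Matrix.toLinAlgEquiv' (aeval (y : Matrix ι ι F) ((X - C 1) * Φ)) = 0
    rw [hy, map_zero]
  have hT1 : T ≠ 1 := by
    intro h
    apply hx1
    apply Units.ext
    apply (Matrix.toLinAlgEquiv' (R := F) (n := ι)).injective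
    rw [← hT, h]
    simp
  have hT1' : T' ≠ 1 := by
    intro h
    apply hy1
    apply Units.ext
    apply (Matrix.toLinAlgEquiv' (R := F) (n := ι)).injective
    rw [← hT', h]
    simp
  obtain ⟨l, u, e, hl, hu, hel, heu⟩ := exists_cyc_basis T n hn hV Φ hirr hdeg hcop h0 hT1
  obtain ⟨l', u', e', hl', hu', hel', heu'⟩ := exists_cyc_basis T' n hn hV Φ hirr hdeg hcop h0' hT1'
  obtain ⟨E, hE⟩ := exists_equiv_cyc T T' n hn Φ hm hdeg l u l' u' e e' hl hu hel heu hl' hu' hel' heu'
  obtain ⟨P, hP⟩ := exists_conj_of_equiv E x y (fun v => by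
    rw [← hTx, hE, hTy])
  have hPd : (P : Matrix ι ι F).det ≠ 0 := (Matrix.isUnits_det_units P).ne_zero
  obtain ⟨D, hD, hDd⟩ := exists_comm_det_cyc T n hn Φ hm hdeg l u e hl hu hel heu ((P : Matrix ι ι F).det)⁻¹
  have hDM : ∃ D' : Matrix ι ι F, D' * (x : Matrix ι ι F) = (x : Matrix ι ι F) * D' ∧ D'.det = ((P : Matrix ι ι F).det)⁻¹ := by
    refine ⟨LinearMap.toMatrix' D, ?_, ?_⟩
    · have hTT : LinearMap.toMatrix' T = (x : Matrix ι ι F) := by
        rw [hT]
        exact LinearMap.toMatrix'_toLin' _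
      rw [← hTT, ← LinearMap.toMatrix'_mul, ← LinearMap.toMatrix'_mul, hD]
    · rw [LinearMap.det_toMatrix', hDd]
  obtain ⟨D', hD1, hD2⟩ := hDM
  have hD'0 : D'.det ≠ 0 := by
    rw [hD2]
    exact inv_ne_zero hPd
  let G : GL ι F := Matrix.GeneralLinearGroup.mkOfDetNeZero D' hD'0
  have hGv : (G : Matrix ι ι F) = D' := rfl
  have hGx : x * G = G * x := by
    apply Units.ext
    rw [Units.val_mul, Units.val_mul, hGv, hD1]
  refine ⟨G * P, ?_, ?_⟩
  · rw [Units.val_mul, Matrix.det_mul, hGv, hD2, inv_mul_cancel₀ hPd]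
  · have : (G * P)⁻¹ * x * (G * P) = P⁻¹ * (G⁻¹ * (x * G)) * P := by group
    rw [this, hGx]
    rw [show G⁻¹ * (G * x) = x by group]
    exact hP

end Cfsg.Agent.Lib.CycBlock
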