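import Mathlib
import Cfsg.Agent.Lib.ThompsonTransfer

/-!
# Groups with a cyclic Sylow 2-subgroup: the sign character
-/

set_option autoImplicit false

namespace Cfsg.Agent.Lib.CycChar

open Cfsg.Agent.Lib.ThompsonTransfer Subgroup

variable {C : Type*} [Group C] [Finite C]

/-- A homomorphism to `ℤˣ` killing a subgroup of odd index is trivial. -/
lemma hom_trivial (x : C) (hi : ¬ 2 ∣ (zpowers x).index) (θ : C →* ℤˣ) (hθ : θ x = 1) (y : C) : θ y = 1 := by
  by_contra hne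
  have h1 : zpowers x ≤ θ.ker := by
    rw [zpowers_le]; exact hθ
  have h2 : θ.ker.index = 2 := by
    have h3 : θ.ker.index = Nat.card θ.range := Subgroup.index_ker θ
    have h4 : Nat.card θ.range ≤ 2 := by
      calc Nat.card θ.range ≤ Nat.card ℤˣ := Nat.card_le_card_of_injective (fun a => (a : ℤˣ)) Subtype.val_injective
        _ = 2 := by simp [Nat.card_eq_fintype_card]
    have h5 : Nat.card θ.range ≠ 0 := Nat.card_pos.ne'
    have h6 : Nat.card θ.range ≠ 1 := by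
      intro h7
      have h8 : Subsingleton θ.range := (Nat.card_eq_one_iff_unique.mp h7).1
      have h9 : (⟨θ y, ⟨_, rfl⟩⟩ : θ.range) = ⟨1, ⟨1, map_one θ⟩⟩ := Subsingleton.elim _ _
      exact hne (congrArg Subtype.val h9)
    omega
  have h3 := Subgroup.index_dvd_of_le h1
  rw [h2] at h3
  exact hi h3

/-- A cyclic Sylow 2-subgroup yields a sign character. -/
lemma exists_char (x : C) (k : ℕ) (hx : orderOf x = 2 ^ (k + 1)) (hi : ¬ 2 ∣ (zpowers x).index) :
    ∃ l : C →* ℤˣ, l x = -1 := by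
  by_contra hno
  have hG : ∀ H : Subgroup C, H.index ≠ 2 := by
    intro H hH
    apply hno
    refine ⟨signHom H hH, signHom_of_not_mem H hH ?_⟩
    intro hxH
    have h1 := Subgroup.index_dvd_of_le ((Subgroup.zpowers_le).mpr hxH)
    rw [hH] at h1
    exact hi h1
  have hx1 : x ^ 2 ^ (k + 1) = 1 := by rw [← hx]; exact pow_orderOf_eq_one x
  have hx2 : x ^ 2 ^ k ≠ 1 := by
    intro h
    have h1 := orderOf_dvd_of_pow_eq_one h
    rw [hx] at h1
    have h2 := Nat.le_of_dvd (by positivity) h1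
    rw [pow_succ] at h2
    have : 0 < 2 ^ k := by positivity
    omega
  have hMS : zpowers (x ^ 2) ≤ zpowers x := by
    rw [zpowers_le]; exact npow_mem_zpowers x 2
  have hcardM : Nat.card (zpowers (x ^ 2)) = 2 ^ k := by
    rw [Nat.card_zpowers, orderOf_pow, hx]
    have h1 : Nat.gcd (2 ^ (k + 1)) 2 = 2 := Nat.gcd_eq_right (dvd_pow_self 2 (by omega))
    rw [h1, pow_succ]
    simp
  have hM : (zpowers (x ^ 2)).relIndex (zpowers x) = 2 := by
    have h1 := Subgroup.card_mul_index ((zpowers (x ^ 2)).subgroupOf (zpowers x))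
    have h2 : Nat.card ((zpowers (x ^ 2)).subgroupOf (zpowers x)) = 2 ^ k := by
      rw [← hcardM]
      exact Nat.card_congr (Subgroup.subgroupOfEquivOfLe hMS).toEquiv
    rw [h2, Nat.card_zpowers, hx] at h1
    have hpos : 0 < 2 ^ k := by positivity
    have h3 : 2 ^ k * 2 = 2 ^ (k + 1) := (pow_succ 2 k).symm
    exact Nat.eq_of_mul_eq_mul_left hpos (h1.trans h3.symm)
  have hkey : ∀ (m : ℕ) (g : C), 2 ∣ m → m ≠ 0 → g⁻¹ * x ^ m * g ∈ zpowers x → g⁻¹ * x ^ m * g ∈ zpowers (x ^ 2) := by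
    rintro m g ⟨c, rfl⟩ - ⟨t, ht⟩
    have ht' : x ^ t = g⁻¹ * x ^ (2 * c) * g := ht
    rw [← ht]
    have h1 : (x ^ t) ^ (2 ^ k : ℕ) = 1 := by
      rw [ht']
      have h2 : (g⁻¹ * x ^ (2 * c) * g) ^ (2 ^ k : ℕ) = g⁻¹ * (x ^ (2 * c)) ^ (2 ^ k) * g := by
        have := map_pow (MulAut.conj g⁻¹) (x ^ (2 * c)) (2 ^ k)
        simpa [MulAut.conj_apply] using this.symm
      rw [h2, ← pow_mul]
      have h3 : 2 * c * 2 ^ k = 2 ^ (k + 1) * c := by rw [pow_succ]; ring
      rw [h3, pow_mul, hx1, one_pow]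
      simp
    rw [← zpow_natCast, ← zpow_mul] at h1
    have h2 := orderOf_dvd_iff_zpow_eq_one.mpr h1
    rw [hx] at h2
    have h3 : (2 : ℤ) ∣ t := by
      push_cast at h2
      rw [pow_succ, mul_comm] at h2
      have hne : ((2 : ℤ) ^ k) ≠ 0 := by positivity
      exact (mul_dvd_mul_iff_right hne).mp h2
    obtain ⟨t', rfl⟩ := h3
    refine ⟨t', ?_⟩
    show (x ^ 2) ^ t' = _
    rw [← zpow_natCast, ← zpow_mul]
    norm_num
  obtain ⟨g, t, hg⟩ := exists_conj_mem hG (zpowers x) (zpowers (x ^ 2)) hMS hM hi x (k + 1) hx1 hkey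
  have hg' : (x ^ 2) ^ t = g⁻¹ * x * g := hg
  apply hx2
  have h1 : (g⁻¹ * x * g) ^ (2 ^ k : ℕ) = 1 := by
    rw [← hg', ← zpow_natCast, ← zpow_mul, mul_comm, zpow_mul]
    have h2 : ((x ^ 2) ^ (((2 ^ k : ℕ) : ℤ))) = 1 := by
      rw [zpow_natCast, ← pow_mul]
      rw [show 2 * 2 ^ k = 2 ^ (k + 1) by rw [pow_succ]; ring, hx1]
    rw [h2, one_zpow]
  have h2 : (g⁻¹ * x * g) ^ (2 ^ k : ℕ) = g⁻¹ * x ^ (2 ^ k) * g := by
    have := map_pow (MulAut.conj g⁻¹) x (2 ^ k)
    simpa [MulAut.conj_apply] using this.symm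
  rw [h2] at h1
  have h3 : x ^ 2 ^ k = g * (g⁻¹ * x ^ 2 ^ k * g) * g⁻¹ := by group
  rw [h3, h1]
  simp

/-- The sign character is invariant under an endomorphism inverting the generator. -/
lemma char_invariant (x : C) (hi : ¬ 2 ∣ (zpowers x).index) (l : C →* ℤˣ) (σ : C →* C) (hσ : σ x = x⁻¹) (y : C) :
    l (σ y) = l y := by
  have h1 := hom_trivial x hi (l * l.comp σ) (by
    rw [MonoidHom.mul_apply, MonoidHom.comp_apply, hσ, map_inv, mul_inv_cancel]) y
  rw [MonoidHom.mul_apply, MonoidHom.comp_apply] at h1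
  have h2 : l y * l y = 1 := Int.units_mul_self _
  have h3 : l y * l (σ y) = l y * l y := by rw [h1, h2]
  exact mul_left_cancel h3

end Cfsg.Agent.Lib.CycChar
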