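import Mathlib

/-!
# Automorphisms of cyclic `p`-groups of order prime to `p`

A `p'`-automorphism of a cyclic `p`-group fixing a non-identity element is trivial; a `p'`-subgroup
of the automorphism group is cyclic of order dividing `p - 1`.
-/

set_option autoImplicit false

namespace Cfsg.Agent.Lib.CycPAut

variable {P : Type*} [Group P] [Finite P] [IsCyclic P] {p : ℕ} [hp : Fact p.Prime]

theorem eq_one_of_fixes (hP : IsPGroup p P) (α : MulAut P) (hα : ¬ p ∣ orderOf α) {x : P}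
    (hx : x ≠ 1) (hfix : α x = x) : α = 1 := by
  classical
  obtain ⟨y, hy⟩ := IsCyclic.exists_generator (α := P)
  have hord : orderOf y = Nat.card P := orderOf_eq_card_of_forall_mem_zpowers hy
  obtain ⟨n, hn⟩ := IsPGroup.iff_card.1 hP
  obtain ⟨k, hk⟩ := Subgroup.mem_zpowers_iff.1 (hy (α y))
  obtain ⟨s, hs⟩ := Subgroup.mem_zpowers_iff.1 (hy x)
  have hpz : Prime (p : ℤ) := Nat.prime_iff_prime_int.1 hp.out
  have hzp : ∀ (m : ℤ), α (y ^ m) = (y ^ k) ^ m := fun m => by rw [map_zpow, hk]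
  have hdv : ((p ^ n : ℕ) : ℤ) ∣ (k - 1) * s := by
    rw [← hn, ← hord, orderOf_dvd_iff_zpow_eq_one]
    have h1 : α (y ^ s) = y ^ s := by rw [hs]; exact hfix
    rw [hzp, ← zpow_mul] at h1
    have h2 : y ^ ((k - 1) * s) = y ^ (k * s) * (y ^ s)⁻¹ := by
      rw [sub_mul, one_mul, zpow_sub]
    rw [h2, h1, mul_inv_cancel]
  have hpk : (p : ℤ) ∣ k - 1 := by
    by_contra hcon
    have h3 : ((p : ℤ) ^ n) ∣ s := by
      apply hpz.pow_dvd_of_dvd_mul_left n hcon
      simpa using hdv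
    have h4 : ((orderOf y : ℕ) : ℤ) ∣ s := by
      rw [hord, hn]; simpa using h3
    apply hx
    rw [← hs]
    exact orderOf_dvd_iff_zpow_eq_one.1 h4
  have hn0 : n ≠ 0 := by
    rintro rfl
    rw [pow_zero] at hn
    have : Subsingleton P := (Nat.card_eq_one_iff_unique.1 hn).1
    exact hx (Subsingleton.elim _ _)
  obtain ⟨m, rfl⟩ := Nat.exists_eq_succ_of_ne_zero hn0
  have hpow : ∀ j : ℕ, (α ^ j) y = y ^ (k ^ j) := by
    intro j
    induction j with
    | zero => simp
    | succ j ih =>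
      rw [pow_succ', MulAut.mul_apply, ih, map_zpow, ← hk, ← zpow_mul, pow_succ']
  have h5 : ((p : ℤ) ^ (m + 1)) ∣ k ^ p ^ m - 1 := by
    have := dvd_sub_pow_of_dvd_sub (R := ℤ) (p := p) (a := k) (b := 1) hpk m
    simpa using this
  have h6 : (α ^ p ^ m) y = y := by
    rw [hpow]
    have h7 : ((orderOf y : ℕ) : ℤ) ∣ k ^ p ^ m - 1 := by
      rw [hord, hn]; simpa using h5
    have h8 := orderOf_dvd_iff_zpow_eq_one.1 h7
    rw [zpow_sub, zpow_one, mul_inv_eq_one] at h8
    exact h8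
  have h9 : α ^ p ^ m = 1 := by
    ext z
    obtain ⟨t, rfl⟩ := Subgroup.mem_zpowers_iff.1 (hy z)
    rw [map_zpow, h6, MulAut.one_apply]
  have h10 : orderOf α ∣ p ^ m := orderOf_dvd_of_pow_eq_one h9
  obtain ⟨j, -, hj⟩ := (Nat.dvd_prime_pow hp.out).1 h10
  rcases j with _ | j
  · rw [pow_zero] at hj
    exact orderOf_eq_one_iff.1 hj
  · exact absurd (hj ▸ dvd_pow_self p (Nat.succ_ne_zero j)) hα

theorem card_dvd_of_not_dvd (hP : IsPGroup p P) (hne : Nontrivial P) (A : Subgroup (MulAut P))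
    (hA : ¬ p ∣ Nat.card A) : IsCyclic A ∧ Nat.card A ∣ p - 1 := by
  classical
  obtain ⟨n, hn⟩ := IsPGroup.iff_card.1 hP
  have hn0 : n ≠ 0 := by
    rintro rfl
    rw [pow_zero] at hn
    have h0 : Subsingleton P := (Nat.card_eq_one_iff_unique.1 hn).1
    exact not_subsingleton P h0
  obtain ⟨m, rfl⟩ := Nat.exists_eq_succ_of_ne_zero hn0
  have h1 : Nat.card A ∣ Nat.card (MulAut P) := Subgroup.card_subgroup_dvd_card A
  rw [IsCyclic.card_mulAut, hn, Nat.totient_prime_pow_succ hp.out] at h1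
  have hco : Nat.Coprime (Nat.card A) (p ^ m) :=
    Nat.Coprime.pow_right _ ((Nat.Prime.coprime_iff_not_dvd hp.out).2 hA).symm
  have h2 : Nat.card A ∣ p - 1 := hco.dvd_of_dvd_mul_left h1
  refine ⟨?_, h2⟩
  by_cases h2p : p = 2
  · subst h2p
    have h3 : Nat.card A = 1 := Nat.dvd_one.1 (by simpa using h2)
    have : Subsingleton A := (Nat.card_eq_one_iff_unique.1 h3).1
    exact isCyclic_of_subsingleton
  · have h3 := ZMod.isCyclic_units_of_prime_pow p hp.out h2p (m + 1)
    have h4 : IsCyclic (MulAut P) := by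
      rw [← hn] at h3
      exact isCyclic_of_surjective _ (IsCyclic.mulAutMulEquiv P).symm.surjective
    exact Subgroup.isCyclic A

end Cfsg.Agent.Lib.CycPAut
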