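import Mathlib

/-!
# Roots of unity and quadratic periods
-/

set_option autoImplicit false
set_option linter.style.haveILetI false
set_option linter.unusedVariables false
set_option linter.unusedSectionVars false

namespace Cfsg.Agent.Lib.CycRoots

open scoped ComplexConjugate

/-- A primitive `m`-th root of unity. -/
noncomputable def zr (m : ℕ) : ℂ := Complex.exp (2 * Real.pi * Complex.I / (m : ℕ))

theorem zr_prim {m : ℕ} (hm : m ≠ 0) : IsPrimitiveRoot (zr m) m := Complex.isPrimitiveRoot_exp m hm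

theorem zr_pow {m : ℕ} (hm : m ≠ 0) : zr m ^ m = 1 := (zr_prim hm).pow_eq_one

theorem conj_of_norm {z : ℂ} {n : ℕ} (hn : 0 < n) (hz : z ^ n = 1) : conj z = z ^ (n - 1) := by
  have h1 : ‖z‖ = 1 := Complex.norm_eq_one_of_pow_eq_one hz hn.ne'
  rw [← Complex.inv_eq_conj h1]
  have hz0 : z ≠ 0 := by
    rintro rfl
    rw [zero_pow hn.ne'] at hz
    exact zero_ne_one hz
  field_simp
  rw [← pow_succ', Nat.sub_add_cancel hn, hz]

theorem conj_zr {m : ℕ} (hm : m ≠ 0) : conj (zr m) = zr m ^ (m - 1) :=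
  conj_of_norm (Nat.pos_of_ne_zero hm) (zr_pow hm)

theorem zr_integral {m : ℕ} (hm : m ≠ 0) : IsIntegral ℤ (zr m) :=
  (zr_prim hm).isIntegral (Nat.pos_of_ne_zero hm)

theorem geom_zero {m : ℕ} (hm : 1 < m) : ∑ k ∈ Finset.range m, zr m ^ k = 0 :=
  (zr_prim (by omega)).geom_sum_eq_zero hm

end Cfsg.Agent.Lib.CycRoots
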