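import Mathlib
import Cfsg.Agent.Lib.BEndo

/-!
# Faithful irreducible modular representations with a cyclic TI Sylow subgroup

`x` generates a cyclic TI Sylow `p`-subgroup of order `q = p ^ n`, `n ≥ 2`, `T = x - 1`.  If `φ` commutes with the normalizer `N`, the relative trace of `φ`
from `N` to `G` is an endomorphism of the module, and it differs from `φ` by traces from `1` to `⟨x⟩`.  A trace maps the module into `T ^ (q - d)` of it, when `T ^ d = 0`.
Apply this to `φ = S ^ (p - 1)`, `S` a semi-invariant with `S = T * unit` in the group algebra of `⟨x⟩`.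
-/

set_option autoImplicit false
set_option linter.style.haveILetI false
set_option linter.unusedSectionVars false
set_option linter.unusedVariables false

namespace Cfsg.Agent.Lib.CycTI

open Subgroup Module Polynomial Cfsg.Agent.Lib.RangeMod Cfsg.Agent.Lib.BTate Cfsg.Agent.Lib.BEndo

section Exp

variable {G : Type*} [Group G] {q : ℕ} [hq : Fact (1 < q)]

instance neZeroQ : NeZero q := ⟨(Nat.zero_lt_of_lt hq.out).ne'⟩

theorem conj_mul_val {x : G} (hx : x ^ q = 1) {g h : G} {a b : (ZMod q)ˣ} (hg : g * x * g⁻¹ = x ^ (a : ZMod q).val)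
    (hh : h * x * h⁻¹ = x ^ (b : ZMod q).val) : (g * h) * x * (g * h)⁻¹ = x ^ ((a * b : (ZMod q)ˣ) : ZMod q).val := by
  have h1 : g * h * x * (g * h)⁻¹ = g * (h * x * h⁻¹) * g⁻¹ := by group
  rw [h1, hh, ← conj_pow, hg, ← pow_mul, Units.val_mul, ZMod.val_mul, ← pow_eq_pow_mod _ hx]

theorem conj_inv_val {x : G} (hx : x ^ q = 1) {g : G} {a : (ZMod q)ˣ} (hg : g * x * g⁻¹ = x ^ (a : ZMod q).val) :
    g⁻¹ * x * g = x ^ ((a⁻¹ : (ZMod q)ˣ) : ZMod q).val := by
  have h1 : x ^ ((a : ZMod q).val * ((a⁻¹ : (ZMod q)ˣ) : ZMod q).val) = x := by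
    rw [pow_eq_pow_mod _ hx, ← ZMod.val_mul, ← Units.val_mul, mul_inv_cancel, Units.val_one, ZMod.val_one]
    exact pow_one x
  have h2 : g * x ^ ((a⁻¹ : (ZMod q)ˣ) : ZMod q).val * g⁻¹ = x := by
    rw [← conj_pow, hg, ← pow_mul, h1]
  calc g⁻¹ * x * g = g⁻¹ * (g * x ^ ((a⁻¹ : (ZMod q)ˣ) : ZMod q).val * g⁻¹) * g := by rw [h2]
    _ = _ := by group

/-- The group of exponents of conjugates of `x`. -/
def expSub {x : G} (hx : x ^ q = 1) : Subgroup (ZMod q)ˣ where
  carrier := {c | ∃ g : G, g * x * g⁻¹ = x ^ (c : ZMod q).val}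
  one_mem' := by
    refine ⟨1, ?_⟩
    simp [ZMod.val_one]
  mul_mem' := by
    rintro a b ⟨g, hg⟩ ⟨h, hh⟩
    exact ⟨g * h, conj_mul_val hx hg hh⟩
  inv_mem' := by
    rintro a ⟨g, hg⟩
    exact ⟨g⁻¹, by rw [inv_inv]; exact conj_inv_val hx hg⟩

theorem mem_expSub {x : G} (hx : x ^ q = 1) {c : (ZMod q)ˣ} :
    c ∈ expSub hx ↔ ∃ g : G, g * x * g⁻¹ = x ^ (c : ZMod q).val := Iff.rfl

theorem conj_pow_val {x : G} (hx : x ^ q = 1) {g : G} {a : (ZMod q)ˣ} (hg : g * x * g⁻¹ = x ^ (a : ZMod q).val) (j : ℕ) :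
    g ^ j * x * (g ^ j)⁻¹ = x ^ ((a ^ j : (ZMod q)ˣ) : ZMod q).val := by
  induction j with
  | zero => simp [ZMod.val_one]
  | succ j ih =>
    rw [pow_succ, pow_succ]
    exact conj_mul_val hx ih hg

/-- Elements with an exponent normalize `⟨x⟩`. -/
theorem mem_normalizer_of_val {x : G} (hx : x ^ q = 1) {g : G} {a : (ZMod q)ˣ} (hg : g * x * g⁻¹ = x ^ (a : ZMod q).val) :
    g ∈ normalizer (zpowers x : Set G) := by
  have hgi := conj_inv_val hx hg
  rw [Subgroup.mem_normalizer_iff]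
  intro h
  constructor
  · rintro ⟨i, rfl⟩
    simp only
    rw [← conj_zpow, hg]
    exact Subgroup.zpow_mem _ (Subgroup.pow_mem _ (mem_zpowers x) _) i
  · intro hm
    obtain ⟨i, hi⟩ := hm
    simp only at hi
    have h1 : h = g⁻¹ * (g * h * g⁻¹) * g := by group
    rw [h1, ← hi]
    have h2 : g⁻¹ * x ^ i * g = (g⁻¹ * x * g) ^ i := by
      have := conj_zpow (a := g⁻¹) (b := x) (i := i)
      rw [inv_inv] at this
      exact this.symm
    rw [h2, hgi]
    exact Subgroup.zpow_mem _ (Subgroup.pow_mem _ (mem_zpowers x) _) i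

end Exp

section Sylow

variable {G : Type*} [Group G] [Finite G] {p : ℕ} [hp : Fact p.Prime] {n : ℕ}

/-- `p`-elements of the normalizer of a Sylow subgroup. -/
theorem mem_sylow_of_pow (P : Sylow p G) {y : G} (hy : y ∈ normalizer ((P : Subgroup G) : Set G)) (hyp : y ^ (p ^ n) = 1) :
    y ∈ (P : Subgroup G) := by
  have hz : IsPGroup p (zpowers y) := by
    rintro ⟨z, i, rfl⟩
    refine ⟨n, ?_⟩
    apply Subtype.ext
    simp only [OneMemClass.coe_one, Subgroup.coe_pow]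
    change (y ^ i) ^ (p ^ n) = 1
    rw [← zpow_natCast, ← zpow_mul, mul_comm, zpow_mul, zpow_natCast, hyp, one_zpow]
  have h1 : zpowers y ⊓ normalizer ((P : Subgroup G) : Set G) = zpowers y ⊓ P := hz.inf_normalizer_sylow P
  have h2 : y ∈ zpowers y ⊓ normalizer ((P : Subgroup G) : Set G) := ⟨mem_zpowers y, hy⟩
  rw [h1] at h2
  exact h2.2

end Sylow

section ExpCard

variable {G : Type*} [Group G] [Finite G] {p : ℕ} [hp : Fact p.Prime] {n : ℕ} [hq : Fact (1 < p ^ n)]

/-- The exponents are `p'`-elements. -/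
theorem exp_pow_index (P : Sylow p G) {x : G} (hPx : (P : Subgroup G) = zpowers x) (hxo : orderOf x = p ^ n) (hx : x ^ (p ^ n) = 1)
    {c : (ZMod (p ^ n))ˣ} (hc : c ∈ expSub hx) : c ^ (zpowers x).index = 1 := by
  obtain ⟨g, hg⟩ := hc
  have h1 := conj_pow_val hx hg (zpowers x).index
  have hN : g ^ (zpowers x).index ∈ normalizer ((P : Subgroup G) : Set G) := by
    rw [hPx]
    exact Subgroup.pow_mem _ (mem_normalizer_of_val hx hg) _
  have hcard : Nat.card G = p ^ n * (zpowers x).index := by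
    rw [← Subgroup.card_mul_index (zpowers x), Nat.card_zpowers, hxo]
  have hp2 : (g ^ (zpowers x).index) ^ (p ^ n) = 1 := by
    rw [← pow_mul, mul_comm, ← hcard, pow_card_eq_one']
  have h2 := mem_sylow_of_pow P hN hp2
  rw [hPx] at h2
  obtain ⟨i, hi⟩ := h2
  simp only at hi
  have h3 : (g ^ (zpowers x).index) * x * (g ^ (zpowers x).index)⁻¹ = x := by
    rw [← hi]
    have := (Commute.refl x).zpow_left i
    rw [this.eq]
    group
  rw [h3] at h1
  have h4 : x ^ 1 = x ^ ((c ^ (zpowers x).index : (ZMod (p ^ n))ˣ) : ZMod (p ^ n)).val := by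
    rw [pow_one]
    exact h1
  rw [pow_eq_pow_iff_modEq, hxo] at h4
  have h5 : ((1 : ℕ) : ZMod (p ^ n)) = ((((c ^ (zpowers x).index : (ZMod (p ^ n))ˣ) : ZMod (p ^ n)).val : ℕ) : ZMod (p ^ n)) :=
    (ZMod.natCast_eq_natCast_iff _ _ _).2 h4
  rw [ZMod.natCast_zmod_val, Nat.cast_one] at h5
  exact Units.ext h5.symm

theorem not_dvd_card_exp (P : Sylow p G) {x : G} (hPx : (P : Subgroup G) = zpowers x) (hxo : orderOf x = p ^ n) (hx : x ^ (p ^ n) = 1)
    (hidx : ¬ p ∣ (zpowers x).index) : ¬ p ∣ Nat.card (expSub hx) := by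
  intro h
  obtain ⟨c, hc⟩ := exists_prime_orderOf_dvd_card' p h
  have h1 := exp_pow_index P hPx hxo hx c.2
  have h2 : c ^ (zpowers x).index = 1 := Subtype.ext h1
  have h3 := orderOf_dvd_of_pow_eq_one h2
  rw [hc] at h3
  exact hidx h3

end ExpCard

section Semi

variable {G : Type*} [Group G] [Finite G] {k : Type*} [Field k] {V : Type*} [AddCommGroup V] [Module k V] {p : ℕ}
  [hp : Fact p.Prime] [CharP k p] {n : ℕ} [hq : Fact (1 < p ^ n)]

variable (p n) in
theorem dvd_q : p ∣ p ^ n := by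
  have h : n ≠ 0 := by
    rintro rfl
    have := hq.out
    simp at this
  exact dvd_pow_self p h

variable (k p n) in
/-- The inclusion of the residues. -/
noncomputable abbrev iot : ZMod (p ^ n) →+* k := ZMod.castHom (dvd_q p n) k

theorem iot_val (a : ZMod (p ^ n)) : iot k p n a = ((a.val : ℕ) : k) := by
  rw [← map_natCast (iot k p n), ZMod.natCast_zmod_val]

noncomputable instance finExp {x : G} (hx : x ^ (p ^ n) = 1) : Fintype (expSub hx) := Fintype.ofFinite _

/-- The semi-invariant of the exponent group, as a polynomial in `x`. -/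
noncomputable def PS (k : Type*) [Field k] [CharP k p] {x : G} (hx : x ^ (p ^ n) = 1) : k[X] :=
  ∑ a : expSub hx, C (iot k p n (((a : (ZMod (p ^ n))ˣ)⁻¹ : (ZMod (p ^ n))ˣ) : ZMod (p ^ n))) *
    (X ^ ((a : (ZMod (p ^ n))ˣ) : ZMod (p ^ n)).val - 1)

/-- The semi-invariant. -/
noncomputable def SS (ρ : G →* Module.End k V) {x : G} (hx : x ^ (p ^ n) = 1) : Module.End k V := aeval (ρ x) (PS k hx)

theorem SS_eq (ρ : G →* Module.End k V) {x : G} (hx : x ^ (p ^ n) = 1) :
    SS ρ hx = ∑ a : expSub hx, iot k p n (((a : (ZMod (p ^ n))ˣ)⁻¹ : (ZMod (p ^ n))ˣ) : ZMod (p ^ n)) •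
      (ρ x ^ ((a : (ZMod (p ^ n))ˣ) : ZMod (p ^ n)).val - 1) := by
  rw [SS, PS, map_sum]
  refine Finset.sum_congr rfl fun a _ => ?_
  rw [map_mul, aeval_C, map_sub, map_pow, aeval_X, map_one, Algebra.algebraMap_eq_smul_one, smul_mul_assoc, one_mul]

theorem SS_conj (ρ : G →* Module.End k V) {x : G} (hx : x ^ (p ^ n) = 1) {g : G} {c₀ : (ZMod (p ^ n))ˣ} (hc₀ : c₀ ∈ expSub hx)
    (hg : g * x * g⁻¹ = x ^ (c₀ : ZMod (p ^ n)).val) :
    ρ g * SS ρ hx * ρ g⁻¹ = iot k p n (c₀ : ZMod (p ^ n)) • SS ρ hx := by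
  rw [SS_eq, Finset.smul_sum, Finset.mul_sum, Finset.sum_mul]
  let c₁ : expSub hx := ⟨c₀, hc₀⟩
  rw [← Equiv.sum_comp (Equiv.mulLeft c₁) (fun b : expSub hx => iot k p n (c₀ : ZMod (p ^ n)) •
    iot k p n (((b : (ZMod (p ^ n))ˣ)⁻¹ : (ZMod (p ^ n))ˣ) : ZMod (p ^ n)) •
    (ρ x ^ ((b : (ZMod (p ^ n))ˣ) : ZMod (p ^ n)).val - 1))]
  refine Finset.sum_congr rfl fun a _ => ?_
  simp only [Equiv.coe_mulLeft]
  have h1 : ρ g * (ρ x ^ ((a : (ZMod (p ^ n))ˣ) : ZMod (p ^ n)).val - 1) * ρ g⁻¹ =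
      ρ x ^ (((c₁ * a : expSub hx) : (ZMod (p ^ n))ˣ) : ZMod (p ^ n)).val - 1 := by
    have h2 : ρ g * ρ g⁻¹ = 1 := by rw [← map_mul, mul_inv_cancel, map_one]
    rw [mul_sub, sub_mul, mul_one, h2, ← map_pow, ← map_pow, ← map_mul, ← map_mul, ← conj_pow, hg, ← pow_mul]
    congr 2
    simp only [Subgroup.coe_mul, c₁]
    rw [Units.val_mul, ZMod.val_mul, ← pow_eq_pow_mod _ hx]
  rw [mul_smul_comm, smul_mul_assoc, h1, smul_smul, ← map_mul]
  congr 2
  have h3 : (c₀ : ZMod (p ^ n)) * ((((c₁ * a : expSub hx) : (ZMod (p ^ n))ˣ)⁻¹ : (ZMod (p ^ n))ˣ) : ZMod (p ^ n)) =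
      (((a : (ZMod (p ^ n))ˣ)⁻¹ : (ZMod (p ^ n))ˣ) : ZMod (p ^ n)) := by
    rw [← Units.val_mul]
    congr 1
    simp only [Subgroup.coe_mul, c₁]
    rw [mul_inv, ← mul_assoc, mul_inv_cancel, one_mul]
  exact h3.symm

/-- The value of the character on exponents is an element of the prime field. -/
theorem iot_pow (c : (ZMod (p ^ n))ˣ) : iot k p n (c : ZMod (p ^ n)) ^ (p - 1) = 1 := by
  have h1 : iot k p n (c : ZMod (p ^ n)) ^ p = iot k p n (c : ZMod (p ^ n)) := by
    rw [iot_val]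
    have := map_natCast (frobenius k p) (c : ZMod (p ^ n)).val
    rwa [frobenius_def] at this
  have h0 : iot k p n (c : ZMod (p ^ n)) ≠ 0 := by
    intro h
    have h2 : iot k p n (c : ZMod (p ^ n)) * iot k p n ((c⁻¹ : (ZMod (p ^ n))ˣ) : ZMod (p ^ n)) = 1 := by
      rw [← map_mul, ← Units.val_mul, mul_inv_cancel, Units.val_one, map_one]
    rw [h, zero_mul] at h2
    exact zero_ne_one h2
  have h3 : p - 1 + 1 = p := Nat.sub_add_cancel hp.out.one_le
  set t := iot k p n (c : ZMod (p ^ n)) with ht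
  have h4 : t ^ (p - 1) * t = 1 * t := by
    rw [← pow_succ, h3, one_mul]
    exact h1
  exact mul_right_cancel₀ h0 h4

/-- Conjugating the invariant. -/
theorem SS_pow_conj (ρ : G →* Module.End k V) {x : G} (hx : x ^ (p ^ n) = 1) {g : G} {c₀ : (ZMod (p ^ n))ˣ} (hc₀ : c₀ ∈ expSub hx)
    (hg : g * x * g⁻¹ = x ^ (c₀ : ZMod (p ^ n)).val) :
    ρ g * SS ρ hx ^ (p - 1) * ρ g⁻¹ = SS ρ hx ^ (p - 1) := by
  have h2 : ρ g⁻¹ * ρ g = 1 := by rw [← map_mul, inv_mul_cancel, map_one]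
  have h1 : ∀ j : ℕ, ρ g * SS ρ hx ^ j * ρ g⁻¹ = (ρ g * SS ρ hx * ρ g⁻¹) ^ j := by
    intro j
    induction j with
    | zero =>
      rw [pow_zero, pow_zero, mul_one, ← map_mul, mul_inv_cancel, map_one]
    | succ j ih =>
      rw [pow_succ, pow_succ, ← ih]
      calc ρ g * (SS ρ hx ^ j * SS ρ hx) * ρ g⁻¹ = ρ g * SS ρ hx ^ j * (ρ g⁻¹ * ρ g) * SS ρ hx * ρ g⁻¹ := by
            rw [h2]
            noncomm_ring
        _ = _ := by noncomm_ring
  rw [h1, SS_conj ρ hx hc₀ hg, _root_.smul_pow, iot_pow, one_smul]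

/-- `S = T * unit`. -/
theorem SS_unit (ρ : G →* Module.End k V) {x : G} (hx : x ^ (p ^ n) = 1) (hcard : ¬ p ∣ Nat.card (expSub hx))
    (hT : IsNilpotent (ρ x - 1)) :
    ∃ U : Module.End k V, IsUnit U ∧ Commute (ρ x - 1) U ∧ SS ρ hx = (ρ x - 1) * U := by
  classical
  let Q : k[X] := ∑ a : expSub hx, C (iot k p n (((a : (ZMod (p ^ n))ˣ)⁻¹ : (ZMod (p ^ n))ˣ) : ZMod (p ^ n))) *
    ∑ i ∈ Finset.range ((a : (ZMod (p ^ n))ˣ) : ZMod (p ^ n)).val, X ^ i
  have hQ : PS k hx = (X - 1) * Q := by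
    rw [PS, Finset.mul_sum]
    refine Finset.sum_congr rfl fun a _ => ?_
    rw [mul_left_comm, mul_geom_sum]
  have hQe : Q.eval 1 = (Fintype.card (expSub hx) : k) := by
    simp only [Q, eval_finsetSum, eval_mul, eval_C, eval_pow, eval_X, one_pow, Finset.sum_const, Finset.card_range,
      nsmul_eq_mul, mul_one]
    have h1 : ∀ a : expSub hx, iot k p n (((a : (ZMod (p ^ n))ˣ)⁻¹ : (ZMod (p ^ n))ˣ) : ZMod (p ^ n)) *
        (((a : (ZMod (p ^ n))ˣ) : ZMod (p ^ n)).val : k) = 1 := by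
      intro a
      rw [← iot_val, ← map_mul, ← Units.val_mul, inv_mul_cancel, Units.val_one, map_one]
    rw [Finset.sum_congr rfl (fun a _ => h1 a)]
    simp
  obtain ⟨Q₂, hQ₂⟩ : (X - C (1 : k)) ∣ Q - C (Q.eval 1) := X_sub_C_dvd_sub_C_eval
  rw [C_1] at hQ₂
  have hQ3 : Q = C (Q.eval 1) + (X - 1) * Q₂ := by
    rw [← hQ₂]
    ring
  set c : k := Q.eval 1 with hc
  have hc0 : c ≠ 0 := by
    rw [hQe, Ne, CharP.cast_eq_zero_iff k p, ← Nat.card_eq_fintype_card]
    exact hcard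
  set T := ρ x - 1 with hTdef
  have haT : aeval (ρ x) (X - 1 : k[X]) = T := by
    rw [map_sub, aeval_X, map_one]
  have hUeq : aeval (ρ x) Q = algebraMap k _ c + T * aeval (ρ x) Q₂ := by
    conv_lhs => rw [hQ3]
    rw [map_add, aeval_C, map_mul, haT]
  have hcommQ : ∀ f : k[X], Commute T (aeval (ρ x) f) := by
    intro f
    rw [← haT]
    exact (Commute.all (X - 1 : k[X]) f).map (aeval (ρ x))
  refine ⟨aeval (ρ x) Q, ?_, hcommQ Q, ?_⟩
  · rw [hUeq]
    have h1 : IsNilpotent (T * aeval (ρ x) Q₂) := (hcommQ Q₂).isNilpotent_mul_right hT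
    have h2 : IsUnit (algebraMap k (Module.End k V) c) := (IsUnit.mk0 c hc0).map (algebraMap k _)
    exact h1.isUnit_add_left_of_commute h2 (Algebra.commutes c _).symm
  · rw [SS, hQ, map_mul, haT]

end Semi

section Trace

variable {k : Type*} [Field k] {V : Type*} [AddCommGroup V] [Module k V]

/-- The image of a power of `ad T`. -/
theorem ad_pow_mem (T B : Module.End k V) {N d s : ℕ} (hT : T ^ d = 0) (hs : s + d ≤ N + 1) (v : V) :
    ((ad T ^ N) B) v ∈ LinearMap.range (T ^ s) := by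
  have hc : Commute (LinearMap.mulLeft k T) (-LinearMap.mulRight k T) := by
    have h0 : Commute (LinearMap.mulLeft k T) (LinearMap.mulRight k T) := by
      ext A v
      simp [mul_assoc]
    exact h0.neg_right
  have h4 : ad T = LinearMap.mulLeft k T + -LinearMap.mulRight k T := by
    rw [ad, sub_eq_add_neg]
  rw [h4, hc.add_pow, LinearMap.sum_apply, LinearMap.sum_apply]
  refine Submodule.sum_mem _ fun m hm => ?_
  have hm' : m ≤ N := Nat.lt_succ_iff.1 (Finset.mem_range.1 hm)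
  by_cases hms : m < s
  · have h5 : (-LinearMap.mulRight k T) ^ (N - m) = 0 := by
      have h6 : d ≤ N - m := by omega
      have h7 : T ^ (N - m) = 0 := pow_eq_zero_of_le h6 hT
      rw [neg_pow (LinearMap.mulRight k T) (N - m), LinearMap.pow_mulRight, h7]
      ext
      simp
    rw [h5]
    simp
  · push Not at hms
    obtain ⟨t, rfl⟩ := Nat.exists_eq_add_of_le hms
    refine ⟨(T ^ t) ((((-LinearMap.mulRight k T) ^ (N - (s + t))) (((N.choose (s + t) : ℕ) : Module.End k (Module.End k V)) B)) v), ?_⟩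
    rw [Module.End.mul_apply, Module.End.mul_apply, LinearMap.pow_mulLeft, LinearMap.mulLeft_apply, Module.End.mul_apply, pow_add,
      Module.End.mul_apply]

end Trace

section TraceG

variable {G : Type*} [Group G] [Finite G] {k : Type*} [Field k] {V : Type*} [AddCommGroup V] [Module k V] {p : ℕ}
  [hp : Fact p.Prime] [CharP k p] {n : ℕ}

theorem geom_eq_pow {A : Type*} [Ring A] [Algebra k A] (Y : A) (n : ℕ) :
    ∑ i ∈ Finset.range (p ^ n), Y ^ i = (Y - 1) ^ (p ^ n - 1) := by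
  have hpos : 0 < p ^ n := pow_pos hp.out.pos n
  have h1 : ((X : k[X]) - 1) * ∑ i ∈ Finset.range (p ^ n), X ^ i = (X - 1) * (X - 1) ^ (p ^ n - 1) := by
    rw [mul_geom_sum, ← pow_succ', Nat.sub_add_cancel hpos, sub_pow_char_pow, one_pow]
  have hne : ((X : k[X]) - 1) ≠ 0 := by
    have := X_sub_C_ne_zero (1 : k)
    rwa [C_1] at this
  have h2 := mul_left_cancel₀ hne h1
  have h3 := congrArg (aeval Y) h2
  simpa [map_sum, map_pow] using h3

theorem sum_zpowers_gen {A : Type*} [AddCommMonoid A] {x : G} {m : ℕ} (hx : orderOf x = m) [Fintype (zpowers x)] (g : G → A) :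
    ∑ u : zpowers x, g u = ∑ i ∈ Finset.range m, g (x ^ i) := by
  have hfin : IsOfFinOrder x := isOfFinOrder_of_finite x
  rw [← hx, Finset.sum_range (fun i => g (x ^ i))]
  refine (Fintype.sum_equiv (finEquivZPowers hfin) _ _ fun i => ?_).symm
  rw [finEquivZPowers_apply]

/-- Traces land in a power of `T`. -/
theorem tr_mem (ρ : G →* Module.End k V) {x : G} (hx : orderOf x = p ^ n) [Fintype (zpowers x)] (B : Module.End k V) {d s : ℕ}
    (hT : (ρ x - 1) ^ d = 0) (hs : s + d ≤ p ^ n) (v : V) :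
    (∑ u : zpowers x, ρ u * B * ρ (u : G)⁻¹) v ∈ LinearMap.range ((ρ x - 1) ^ s) := by
  have hpos : 0 < p ^ n := pow_pos hp.out.pos n
  have h1 : ∑ u : zpowers x, ρ u * B * ρ (u : G)⁻¹ = ∑ i ∈ Finset.range (p ^ n), ((cj ρ x) ^ i) B := by
    rw [sum_zpowers_gen hx (fun g => ρ g * B * ρ g⁻¹)]
    refine Finset.sum_congr rfl fun i _ => ?_
    rw [← map_pow]
    rfl
  have h2 : ∑ i ∈ Finset.range (p ^ n), ((cj ρ x) ^ i) B = (yy (cj ρ) x ^ (p ^ n - 1)) B := by
    rw [← LinearMap.sum_apply, geom_eq_pow (k := k) (p := p) (cj ρ x) n]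
    rfl
  rw [h1, h2, yy_cj_pow]
  exact ad_pow_mem _ _ hT (by omega) _

end TraceG

section Transfer

variable {G : Type*} [Group G] [Fintype G] [DecidableEq G] {k : Type*} [Field k] {V : Type*} [AddCommGroup V] [Module k V] {p : ℕ}
  [hp : Fact p.Prime] [CharP k p] {n : ℕ}

theorem out_smul' {A : Type*} (N : Subgroup G) (F : G → A) (hR : ∀ g, ∀ u ∈ N, F (g * u) = F g) (h : G) (q : G ⧸ N) :
    F (h * q.out) = F (h • q).out := by
  have h1 : ((h * q.out : G) : G ⧸ N) = h • q := by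
    conv_rhs => rw [← QuotientGroup.out_eq' q]
    rfl
  have h2 : ((h • q).out)⁻¹ * (h * q.out) ∈ N := by
    rw [← QuotientGroup.eq, QuotientGroup.out_eq', h1]
  have h3 := hR (h • q).out _ h2
  rw [← h3]
  congr 1
  group

/-- **The relative trace**. -/
theorem exists_trace (ρ : G →* Module.End k V) (P : Sylow p G) {x : G} (hPx : (P : Subgroup G) = zpowers x) (hxp : x ^ (p ^ n) = 1)
    (hTI : ∀ g u : G, u ∈ zpowers x → u ≠ 1 → g * u * g⁻¹ ∈ zpowers x → g ∈ normalizer (zpowers x : Set G))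
    (φ : Module.End k V) (hφ : ∀ g ∈ normalizer (zpowers x : Set G), ρ g * φ * ρ g⁻¹ = φ) (M : Submodule k (Module.End k V))
    [Fintype (zpowers x)] (hM : ∀ B : Module.End k V, ∑ u : zpowers x, ρ u * B * ρ (u : G)⁻¹ ∈ M) :
    ∃ Λ : Module.End k V, (∀ g, ρ g * Λ = Λ * ρ g) ∧ Λ - φ ∈ M := by
  classical
  set N := normalizer (zpowers x : Set G) with hN
  let F : G → Module.End k V := fun g => ρ g * φ * ρ g⁻¹
  have hmulinv : ∀ g : G, ρ g * ρ g⁻¹ = 1 := fun g => by rw [← map_mul, mul_inv_cancel, map_one]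
  have hinvmul : ∀ g : G, ρ g⁻¹ * ρ g = 1 := fun g => by rw [← map_mul, inv_mul_cancel, map_one]
  have hR : ∀ g, ∀ u ∈ N, F (g * u) = F g := by
    intro g u hu
    simp only [F]
    rw [mul_inv_rev, map_mul, map_mul]
    calc ρ g * ρ u * φ * (ρ u⁻¹ * ρ g⁻¹) = ρ g * (ρ u * φ * ρ u⁻¹) * ρ g⁻¹ := by noncomm_ring
      _ = _ := by rw [hφ u hu]
  have hFm : ∀ g h : G, F (g * h) = ρ g * F h * ρ g⁻¹ := by
    intro g h
    simp only [F]
    rw [mul_inv_rev, map_mul, map_mul]
    noncomm_ring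
  haveI : Fintype (G ⧸ N) := Fintype.ofFinite _
  let Λ : Module.End k V := ∑ q : G ⧸ N, F q.out
  have hcomm : ∀ g, ρ g * Λ * ρ g⁻¹ = Λ := by
    intro g
    simp only [Λ]
    rw [Finset.mul_sum, Finset.sum_mul]
    have h1 : ∀ q : G ⧸ N, ρ g * F q.out * ρ g⁻¹ = F (g • q).out := by
      intro q
      rw [← hFm, out_smul' N F hR]
    simp only [h1]
    exact Equiv.sum_comp (MulAction.toPerm g) (fun q : G ⧸ N => F q.out)
  refine ⟨Λ, ?_, ?_⟩
  · intro g
    calc ρ g * Λ = (ρ g * Λ * ρ g⁻¹) * ρ g := by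
          rw [mul_assoc, hinvmul, mul_one]
      _ = Λ * ρ g := by rw [hcomm]
  set e : G ⧸ N := ((1 : G) : G ⧸ N) with he
  have hsmul_e : ∀ u : G, u ∈ N → u • e = e := by
    intro u hu
    change ((u * 1 : G) : G ⧸ N) = ((1 : G) : G ⧸ N)
    rw [mul_one, QuotientGroup.eq]
    simpa using hu
  have hFe : F e.out = φ := by
    have h1 : e.out ∈ N := by
      have h2 : (e.out : G ⧸ N) = ((1 : G) : G ⧸ N) := QuotientGroup.out_eq' e
      rw [QuotientGroup.eq] at h2
      simpa using h2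
    exact hφ _ h1
  have hzN : ∀ u : zpowers x, (u : G) ∈ N := fun u => Subgroup.le_normalizer u.2
  have hzp : ∀ u : zpowers x, (u : G) ^ (p ^ n) = 1 := by
    rintro ⟨u, i, rfl⟩
    change (x ^ i) ^ (p ^ n) = 1
    rw [← zpow_natCast, ← zpow_mul, mul_comm, zpow_mul, zpow_natCast, hxp, one_zpow]
  -- the sum over the free orbits
  let S : Finset (G ⧸ N) := Finset.univ.erase e
  have hsum : ∑ q ∈ S, (Submodule.Quotient.mk (F q.out) : Module.End k V ⧸ M) = 0 := by
    refine sum_eq_zero_of_orbit (H := zpowers x) (fun q : G ⧸ N => (Submodule.Quotient.mk (F q.out) : Module.End k V ⧸ M)) S ?_ ?_ ?_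
    · intro q hq u
      rw [Finset.mem_erase] at hq ⊢
      refine ⟨?_, Finset.mem_univ _⟩
      intro h
      apply hq.1
      have h1 : ((u : G)) • q = e := h
      have h2 : q = ((u : G)⁻¹) • e := by
        rw [← h1, inv_smul_smul]
      rw [h2]
      exact hsmul_e _ (N.inv_mem (hzN u))
    · intro q hq u hu
      by_contra hne
      have hu1 : (u : G) ≠ 1 := fun h => hne (Subtype.ext h)
      rw [Finset.mem_erase] at hq
      apply hq.1
      set r := q.out with hr
      have hqr : (r : G ⧸ N) = q := QuotientGroup.out_eq' q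
      have h1 : ((u : G) * r : G) = ((u : G) * r : G) := rfl
      have h2 : ((((u : G) * r : G)) : G ⧸ N) = (r : G ⧸ N) := by
        have h3 : ((u : G)) • q = q := hu
        rw [hqr]
        rw [← hqr] at h3 ⊢
        exact h3
      rw [eq_comm, QuotientGroup.eq] at h2
      have h4 : r⁻¹ * (u : G) * r ∈ N := by
        rw [← mul_assoc] at h2
        exact h2
      have h5 : (r⁻¹ * (u : G) * r) ^ (p ^ n) = 1 := by
        have h6 := conj_pow (a := r⁻¹) (b := (u : G)) (i := p ^ n)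
        rw [inv_inv] at h6
        rw [h6, hzp u]
        group
      have hN' : r⁻¹ * (u : G) * r ∈ normalizer ((P : Subgroup G) : Set G) := by
        rw [hPx]
        exact h4
      have h7 := mem_sylow_of_pow P hN' h5
      rw [hPx] at h7
      have h8 : r⁻¹ ∈ N := by
        apply hTI r⁻¹ (u : G) u.2 hu1
        rw [inv_inv]
        exact h7
      have h9 : r ∈ N := by
        simpa using N.inv_mem h8
      rw [← hqr]
      have := hsmul_e r h9
      have h10 : r • e = (r : G ⧸ N) := by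
        change ((r * 1 : G) : G ⧸ N) = (r : G ⧸ N)
        rw [mul_one]
      rw [← h10, this]
    · intro q hq
      have h1 : ∀ u : zpowers x, (Submodule.Quotient.mk (F (u • q).out) : Module.End k V ⧸ M) =
          Submodule.Quotient.mk (ρ (u : G) * F q.out * ρ (u : G)⁻¹) := by
        intro u
        congr 1
        rw [← hFm, out_smul' N F hR]
        rfl
      rw [Finset.sum_congr rfl (fun u _ => h1 u)]
      have h2 : ∑ u : zpowers x, (Submodule.Quotient.mk (ρ (u : G) * F q.out * ρ (u : G)⁻¹) : Module.End k V ⧸ M) =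
          Submodule.Quotient.mk (∑ u : zpowers x, ρ (u : G) * F q.out * ρ (u : G)⁻¹) := by
        rw [← Submodule.mkQ_apply, map_sum]
        rfl
      rw [h2]
      exact (Submodule.Quotient.mk_eq_zero M).2 (hM _)
  have h3 : (Submodule.Quotient.mk (∑ q ∈ S, F q.out) : Module.End k V ⧸ M) = 0 := by
    rw [← hsum, ← Submodule.mkQ_apply, map_sum]
    rfl
  have h4 : ∑ q ∈ S, F q.out ∈ M := (Submodule.Quotient.mk_eq_zero M).1 h3
  have h5 : Λ - φ = ∑ q ∈ S, F q.out := by
    simp only [Λ]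
    rw [← Finset.add_sum_erase Finset.univ (fun q : G ⧸ N => F q.out) (Finset.mem_univ e), hFe]
    simp [S]
  rw [h5]
  exact h4

end Transfer

section Main

variable {G : Type*} [Group G] [Fintype G] [DecidableEq G] {k : Type*} [Field k] {V : Type*} [AddCommGroup V] [Module k V]
  [FiniteDimensional k V] {p : ℕ} [hp : Fact p.Prime] [CharP k p] {n : ℕ}

omit [DecidableEq G] k V hp in
/-- Elements of the normalizer have an exponent. -/
theorem exists_val {q : ℕ} [hq : Fact (1 < q)] {x : G} (hxo : orderOf x = q) {g : G} (hg : g ∈ normalizer (zpowers x : Set G)) :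
    ∃ c₀ : (ZMod q)ˣ, g * x * g⁻¹ = x ^ (c₀ : ZMod q).val := by
  have hxq : x ^ q = 1 := by rw [← hxo, pow_orderOf_eq_one]
  have h1 : g * x * g⁻¹ ∈ zpowers x := (mem_normalizer_iff.1 hg x).1 (mem_zpowers x)
  have h2 : g⁻¹ * x * g⁻¹⁻¹ ∈ zpowers x := (mem_normalizer_iff.1 (Subgroup.inv_mem _ hg) x).1 (mem_zpowers x)
  rw [inv_inv] at h2
  have hfin : IsOfFinOrder x := isOfFinOrder_of_finite x
  obtain ⟨j, hj⟩ := hfin.mem_powers_iff_mem_zpowers.2 h1
  obtain ⟨j', hj'⟩ := hfin.mem_powers_iff_mem_zpowers.2 h2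
  simp only at hj hj'
  have h3 : x ^ 1 = x ^ (j * j') := by
    rw [pow_one, pow_mul, hj, conj_pow, hj']
    group
  rw [pow_eq_pow_iff_modEq, hxo] at h3
  have h4 : ((j : ℕ) : ZMod q) * ((j' : ℕ) : ZMod q) = 1 := by
    have h5 := (ZMod.natCast_eq_natCast_iff _ _ _).2 h3
    rw [Nat.cast_one, Nat.cast_mul] at h5
    exact h5.symm
  refine ⟨⟨(j : ZMod q), (j' : ZMod q), h4, by rw [mul_comm]; exact h4⟩, ?_⟩
  simp only
  rw [ZMod.val_natCast, ← pow_eq_pow_mod _ hxq, hj]

/-- **Dimension bound**. -/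
theorem main (ρ : G →* Module.End k V) (hinj : Function.Injective ρ) (hirr : ∀ U : Submodule k V, (∀ g, ∀ v ∈ U, ρ g v ∈ U) → U = ⊥ ∨ U = ⊤)
    (P : Sylow p G) {x : G} (hPx : (P : Subgroup G) = zpowers x) (hn : 2 ≤ n) (hxo : orderOf x = p ^ n)
    (hidx : ¬ p ∣ (zpowers x).index)
    (hTI : ∀ g u : G, u ∈ zpowers x → u ≠ 1 → g * u * g⁻¹ ∈ zpowers x → g ∈ normalizer (zpowers x : Set G)) :
    p ^ n - (p - 1) ≤ finrank k V := by
  classical
  by_contra hcon
  push Not at hcon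
  have hxp : x ^ (p ^ n) = 1 := by rw [← hxo, pow_orderOf_eq_one]
  have hp2 : 2 ≤ p := hp.out.two_le
  have hq1 : 1 < p ^ n := Nat.one_lt_pow (by omega) hp.out.one_lt
  haveI hq : Fact (1 < p ^ n) := ⟨hq1⟩
  set T := ρ x - 1 with hT
  set d := finrank k V with hd
  have hTq : T ^ (p ^ n) = 0 := by
    have h1 : ((X : k[X]) - 1) ^ (p ^ n) = X ^ (p ^ n) - 1 := by
      have := sub_pow_char_pow (X : k[X]) 1 (p := p) (n := n)
      simpa using this
    have h2 := congrArg (aeval (ρ x)) h1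
    simp only [map_pow, map_sub, map_one, aeval_X] at h2
    rw [hT, h2, ← map_pow, hxp, map_one, sub_self]
  have hTd : T ^ d = 0 := nil_pow_finrank hTq
  have hnil : IsNilpotent T := ⟨_, hTq⟩
  set s := p ^ n - d with hs
  have hsp : p ≤ s := by omega
  have hsd : s + d ≤ p ^ n := by omega
  -- the submodule of maps into `T ^ s`
  let W : Submodule k V := LinearMap.range (T ^ s)
  let M : Submodule k (Module.End k V) :=
    { carrier := {B | ∀ v, B v ∈ W}
      add_mem' := fun {a b} ha hb v => W.add_mem (ha v) (hb v)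
      zero_mem' := fun v => W.zero_mem
      smul_mem' := fun c B hB v => W.smul_mem c (hB v) }
  have hmemM : ∀ B : Module.End k V, B ∈ M ↔ ∀ v, B v ∈ W := fun B => Iff.rfl
  haveI : Fintype (zpowers x) := Fintype.ofFinite _
  have hM : ∀ B : Module.End k V, ∑ u : zpowers x, ρ u * B * ρ (u : G)⁻¹ ∈ M := fun B v => tr_mem ρ hxo B hTd hsd v
  set φ := SS ρ hxp ^ (p - 1) with hφdef
  have hφ : ∀ g ∈ normalizer (zpowers x : Set G), ρ g * φ * ρ g⁻¹ = φ := by
    intro g hg
    obtain ⟨c₀, hc₀⟩ := exists_val hxo hg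
    exact SS_pow_conj ρ hxp ⟨g, hc₀⟩ hc₀
  obtain ⟨Λ, hΛ, hΛM⟩ := exists_trace ρ P hPx hxp hTI φ hφ M hM
  have hcardE := not_dvd_card_exp P hPx hxo hxp hidx
  obtain ⟨U, hU, hTU, hSU⟩ := SS_unit ρ hxp hcardE hnil
  have hφU : φ = T ^ (p - 1) * U ^ (p - 1) := by
    rw [hφdef, hSU, hTU.mul_pow]
  -- everything lands in `range T`
  have hs1 : ∀ {j : ℕ}, 1 ≤ j → ∀ v, (T ^ j) v ∈ LinearMap.range T := by
    intro j hj v
    obtain ⟨t, rfl⟩ := Nat.exists_eq_add_of_le hj
    refine ⟨(T ^ t) v, ?_⟩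
    rw [pow_add, pow_one, Module.End.mul_apply]
  have hφT : ∀ v, φ v ∈ LinearMap.range T := by
    intro v
    rw [hφU, Module.End.mul_apply]
    exact hs1 (by omega) _
  have hWT : ∀ w ∈ W, w ∈ LinearMap.range T := by
    rintro _ ⟨v, rfl⟩
    exact hs1 (by omega) v
  have hΛT : ∀ v, Λ v ∈ LinearMap.range T := by
    intro v
    have h1 : Λ v = φ v + (Λ - φ) v := by simp
    rw [h1]
    exact Submodule.add_mem _ (hφT v) (hWT _ (hΛM v))
  have hV : Nontrivial V := by
    by_contra hnon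
    rw [not_nontrivial_iff_subsingleton] at hnon
    have h1 : ρ x = ρ 1 := by
      ext v
      exact Subsingleton.elim _ _
    have h2 := hinj h1
    rw [h2, orderOf_one] at hxo
    omega
  have hΛ0 : Λ = 0 := by
    have hinv : ∀ g, ∀ v ∈ LinearMap.ker Λ, ρ g v ∈ LinearMap.ker Λ := by
      intro g v hv
      rw [LinearMap.mem_ker] at hv ⊢
      have h1 := congrArg (fun B : Module.End k V => B v) (hΛ g)
      simp only [Module.End.mul_apply, hv, map_zero] at h1
      exact h1.symm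
    rcases hirr _ hinv with h | h
    · exfalso
      have hΛinj : Function.Injective Λ := LinearMap.ker_eq_bot.1 h
      have hΛsurj : Function.Surjective Λ := LinearMap.injective_iff_surjective.1 hΛinj
      have hTsurj : Function.Surjective T := by
        intro v
        obtain ⟨w, rfl⟩ := hΛsurj v
        exact hΛT w
      have hpow : Function.Surjective (T ^ d) := by
        rw [Module.End.coe_pow]
        exact hTsurj.iterate d
      rw [hTd] at hpow
      obtain ⟨v, hv⟩ := exists_ne (0 : V)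
      obtain ⟨w, hw⟩ := hpow v
      apply hv
      rw [← hw]
      simp
    · exact LinearMap.ker_eq_top.1 h
  -- `T ^ (p - 1)` lands in `T ^ s`
  have hφW : ∀ v, φ v ∈ W := by
    intro v
    have h1 := hΛM v
    rw [hΛ0] at h1
    simp only [zero_sub] at h1
    simpa using W.neg_mem h1
  have hTW : ∀ v, (T ^ (p - 1)) v ∈ W := by
    intro v
    let u := hU.unit
    have hu : (u : Module.End k V) = U := hU.unit_spec
    let w : Module.End k V := ((u ^ (p - 1))⁻¹ : (Module.End k V)ˣ)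
    have h1 : U ^ (p - 1) * w = 1 := by
      rw [← hu, ← Units.val_pow_eq_pow_val]
      exact Units.mul_inv _
    have h2 : φ (w v) = (T ^ (p - 1)) v := by
      rw [hφU, Module.End.mul_apply, ← Module.End.mul_apply (U ^ (p - 1)), h1, Module.End.one_apply]
    rw [← h2]
    exact hφW _
  have hWp : ∀ w ∈ W, w ∈ LinearMap.range (T ^ p) := by
    rintro _ ⟨v, rfl⟩
    obtain ⟨t, ht⟩ := Nat.exists_eq_add_of_le hsp
    rw [ht, pow_add, Module.End.mul_apply]
    exact ⟨_, rfl⟩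
  have hiter : ∀ (j : ℕ) (v : V), (T ^ (p - 1)) v ∈ LinearMap.range (T ^ (p - 1 + j)) := by
    intro j
    induction j with
    | zero => exact fun v => ⟨v, rfl⟩
    | succ j ih =>
      intro v
      obtain ⟨w, hw⟩ := hWp _ (hTW v)
      obtain ⟨w', hw'⟩ := ih w
      refine ⟨w', ?_⟩
      rw [← hw]
      have h3 : T ^ p = T * T ^ (p - 1) := by
        rw [← pow_succ', Nat.sub_add_cancel hp.out.one_le]
      rw [h3, Module.End.mul_apply, ← hw', ← add_assoc, pow_succ', Module.End.mul_apply]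
  have hTp1 : T ^ (p - 1) = 0 := by
    ext v
    obtain ⟨w, hw⟩ := hiter d v
    rw [LinearMap.zero_apply, ← hw, pow_add, hTd, mul_zero, LinearMap.zero_apply]
  have hTp : T ^ p = 0 := by
    rw [← Nat.sub_add_cancel hp.out.one_le, pow_succ, hTp1, zero_mul]
  have hxpp : x ^ p = 1 := by
    have h1 : ((X : k[X]) - 1) ^ p = X ^ p - 1 := by
      have := sub_pow_char (X : k[X]) 1 (p := p)
      simpa using this
    have h2 := congrArg (aeval (ρ x)) h1
    simp only [map_pow, map_sub, map_one, aeval_X] at h2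
    rw [← hT, hTp] at h2
    apply hinj
    rw [map_pow, map_one]
    exact (sub_eq_zero.1 h2.symm)
  have h5 := orderOf_dvd_of_pow_eq_one hxpp
  rw [hxo] at h5
  have h6 : p ^ 2 ≤ p ^ n := Nat.pow_le_pow_right hp.out.pos hn
  have h7 := Nat.le_of_dvd hp.out.pos h5
  nlinarith [hp.out.two_le]

end Main

end Cfsg.Agent.Lib.CycTI
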