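import Mathlib
import Cfsg.Prelude.Def_OddOrderChar
import Cfsg.Prelude.Def_OddOrderLocal
import Cfsg.Agent.Lib.CharBasic
import Cfsg.Agent.Lib.CharInd
import Cfsg.Agent.Lib.IndFunBasic
import Cfsg.Agent.Lib.DadeBasic

/-!
# Cyclic TI subgroups: the linear characters of `W₁ ⊔ W₂`

Decomposition of linear characters of `W = W₁ ⊔ W₂`, orthogonality of linear characters, duality for the
characters trivial on a subgroup, and the isometry of induction from `W` on functions vanishing on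
`W₁ ∪ W₂`.
-/

set_option autoImplicit false
set_option linter.unusedSectionVars false
set_option linter.unusedVariables false

open Cfsg
open scoped ComplexConjugate

namespace Cfsg.Agent.Lib.CyclicTI

open Cfsg.Agent.Lib.CharBasic Cfsg.Agent.Lib.CharInd

section hom

/-- The number of linear characters of a finite commutative group. -/
theorem card_hom (K : Type*) [Group K] [Finite K] (hK : ∀ a b : K, a * b = b * a) :
    Nat.card (K →* ℂˣ) = Nat.card K := by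
  letI : CommGroup K := { (inferInstance : Group K) with mul_comm := hK }
  haveI : NeZero (Monoid.exponent K) := ⟨Monoid.exponent_ne_zero_of_finite⟩
  exact CommGroup.card_monoidHom_of_hasEnoughRootsOfUnity K ℂ

theorem finite_hom (K : Type*) [Group K] [Finite K] (hK : ∀ a b : K, a * b = b * a) :
    Finite (K →* ℂˣ) := by
  apply Nat.finite_of_card_ne_zero
  rw [card_hom K hK]
  exact Nat.card_pos.ne'

/-- Linear characters trivial on `M` separate points outside `M`. -/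
theorem exists_sep {K : Type*} [Group K] [Finite K] (hK : ∀ a b : K, a * b = b * a)
    (M : Subgroup K) {x : K} (hx : x ∉ M) : ∃ f : K →* ℂˣ, (∀ m ∈ M, f m = 1) ∧ f x ≠ 1 := by
  letI : CommGroup K := { (inferInstance : Group K) with mul_comm := hK }
  haveI : NeZero (Monoid.exponent (K ⧸ M)) := ⟨Monoid.exponent_ne_zero_of_finite⟩
  have hne : (QuotientGroup.mk x : K ⧸ M) ≠ 1 := by
    rwa [Ne, QuotientGroup.eq_one_iff]
  obtain ⟨g, hg⟩ := CommGroup.exists_apply_ne_one_of_hasEnoughRootsOfUnity (K ⧸ M) ℂ hne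
  refine ⟨g.comp (QuotientGroup.mk' M), fun m hm => ?_, hg⟩
  have h : (QuotientGroup.mk m : K ⧸ M) = 1 := (QuotientGroup.eq_one_iff m).mpr hm
  show g (QuotientGroup.mk m) = 1
  rw [h, map_one]

variable {K : Type*} [Group K]

/-- Second orthogonality for the linear characters trivial on `M`. -/
theorem sum_dual [Fintype (K →* ℂˣ)] [Finite K] (hK : ∀ a b : K, a * b = b * a) (M : Subgroup K) (x : K)
    [DecidablePred fun f : K →* ℂˣ => ∀ m ∈ M, f m = 1] [Decidable (x ∈ M)] :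
    ∑ f ∈ Finset.univ.filter (fun f : K →* ℂˣ => ∀ m ∈ M, f m = 1), ((f x : ℂˣ) : ℂ) =
      if x ∈ M then ((Finset.univ.filter (fun f : K →* ℂˣ => ∀ m ∈ M, f m = 1)).card : ℂ) else 0 := by
  by_cases hx : x ∈ M
  · rw [if_pos hx, Finset.card_eq_sum_ones, Nat.cast_sum]
    refine Finset.sum_congr rfl fun f hf => ?_
    rw [(Finset.mem_filter.mp hf).2 x hx]
    simp
  · rw [if_neg hx]
    obtain ⟨f₀, hf₀, hne⟩ := exists_sep hK M hx
    set s := ∑ f ∈ Finset.univ.filter (fun f : K →* ℂˣ => ∀ m ∈ M, f m = 1), ((f x : ℂˣ) : ℂ) with hs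
    have hcomm : ∀ f g : K →* ℂˣ, f * g = g * f := fun f g => by
      ext k
      simp [mul_comm]
    have h1 : ((f₀ x : ℂˣ) : ℂ) * s = s := by
      rw [hs, Finset.mul_sum]
      refine Finset.sum_bij (fun f _ => f₀ * f) ?_ ?_ ?_ ?_
      · intro f hf
        refine Finset.mem_filter.mpr ⟨Finset.mem_univ _, fun m hm => ?_⟩
        have := (Finset.mem_filter.mp hf).2 m hm
        simp [this, hf₀ m hm]
      · intro f _ g _ h
        have h2 : f₀⁻¹ * (f₀ * f) = f₀⁻¹ * (f₀ * g) := by rw [h]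
        simpa using h2
      · intro g hg
        refine ⟨f₀⁻¹ * g, Finset.mem_filter.mpr ⟨Finset.mem_univ _, fun m hm => ?_⟩, ?_⟩
        · have := (Finset.mem_filter.mp hg).2 m hm
          simp [this, hf₀ m hm]
        · ext k
          simp
      · intro f _
        simp
    have h2 : ((f₀ x : ℂˣ) : ℂ) ≠ 1 := by
      intro h
      exact hne (Units.ext h)
    have h3 : (((f₀ x : ℂˣ) : ℂ) - 1) * s = 0 := by
      rw [sub_mul, h1, one_mul, sub_self]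
    exact (mul_eq_zero.mp h3).resolve_left (sub_ne_zero.mpr h2)

/-- A linear character of a finite group has values of norm one. -/
theorem norm_hom [Finite K] (f : K →* ℂˣ) (k : K) : ‖((f k : ℂˣ) : ℂ)‖ = 1 := by
  have h1 : ((f k : ℂˣ) : ℂ) ^ orderOf k = 1 := by
    have := congrArg (fun u : ℂˣ => (u : ℂ)) (show (f k) ^ orderOf k = 1 by
      rw [← map_pow, pow_orderOf_eq_one, map_one])
    simpa using this
  exact Complex.norm_eq_one_of_pow_eq_one h1 (orderOf_pos k).ne'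

theorem conj_hom [Finite K] (f : K →* ℂˣ) (k : K) :
    conj ((f k : ℂˣ) : ℂ) = ((f k⁻¹ : ℂˣ) : ℂ) := by
  have h1 := norm_hom f k
  have h2 : ((f k⁻¹ : ℂˣ) : ℂ) = ((f k : ℂˣ) : ℂ)⁻¹ := by
    rw [map_inv, Units.val_inv_eq_inv_val]
  rw [h2, Complex.inv_eq_conj h1]

/-- First orthogonality. -/
theorem inner_hom [Fintype K] (f g : K →* ℂˣ) :
    classInner (fun k => ((f k : ℂˣ) : ℂ)) (fun k => ((g k : ℂˣ) : ℂ)) = if f = g then 1 else 0 := by
  classical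
  by_cases h : f = g
  · subst h
    rw [if_pos rfl]
    exact classInner_irr_self (isIrrCharacter_of_hom f)
  · rw [if_neg h]
    refine classInner_irr_ne (isIrrCharacter_of_hom f) (isIrrCharacter_of_hom g) ?_
    intro h2
    apply h
    ext k
    exact congrFun h2 k

end hom

section decomp

variable {G : Type*} [Group G] {W₁ W₂ : Subgroup G}

theorem hom_eq_one_of_trivial (χ : ↥(W₁ ⊔ W₂) →* ℂˣ) (h2 : ∀ w : ↥(W₁ ⊔ W₂), (w : G) ∈ W₂ → χ w = 1)
    (h1 : ∀ w : ↥(W₁ ⊔ W₂), (w : G) ∈ W₁ → χ w = 1) : χ = 1 := by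
  have hle : W₁ ⊔ W₂ ≤ (χ.ker).map (W₁ ⊔ W₂).subtype := by
    apply sup_le
    · intro a ha
      refine ⟨⟨a, Subgroup.mem_sup_left ha⟩, ?_, rfl⟩
      exact h1 _ ha
    · intro a ha
      refine ⟨⟨a, Subgroup.mem_sup_right ha⟩, ?_, rfl⟩
      exact h2 _ ha
  ext w
  obtain ⟨w', hw', hw''⟩ := hle w.2
  have : w' = w := Subtype.ext hw''
  subst this
  have h3 : χ w' = 1 := hw'
  simp [h3]

/-- Uniqueness of the decomposition of a linear character. -/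
theorem hom_unique {φ φ' ψ ψ' : ↥(W₁ ⊔ W₂) →* ℂˣ}
    (hφ : ∀ w : ↥(W₁ ⊔ W₂), (w : G) ∈ W₂ → φ w = 1) (hφ' : ∀ w : ↥(W₁ ⊔ W₂), (w : G) ∈ W₂ → φ' w = 1)
    (hψ : ∀ w : ↥(W₁ ⊔ W₂), (w : G) ∈ W₁ → ψ w = 1) (hψ' : ∀ w : ↥(W₁ ⊔ W₂), (w : G) ∈ W₁ → ψ' w = 1)
    (h : φ * ψ = φ' * ψ') : φ = φ' ∧ ψ = ψ' := by
  have hw : ∀ w, (φ w) * (ψ w) = (φ' w) * (ψ' w) := fun w => DFunLike.congr_fun h w
  have h1 : φ * φ'⁻¹ = 1 := by
    apply hom_eq_one_of_trivial
    · intro w hw2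
      simp [hφ w hw2, hφ' w hw2]
    · intro w hw1
      have := hw w
      rw [hψ w hw1, hψ' w hw1, mul_one, mul_one] at this
      simp [this]
  have h2 : ψ * ψ'⁻¹ = 1 := by
    apply hom_eq_one_of_trivial
    · intro w hw2
      have := hw w
      rw [hφ w hw2, hφ' w hw2, one_mul, one_mul] at this
      simp [this]
    · intro w hw1
      simp [hψ w hw1, hψ' w hw1]
  constructor
  · ext w
    have := DFunLike.congr_fun h1 w
    simp only [MonoidHom.mul_apply, MonoidHom.inv_apply, MonoidHom.one_apply] at this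
    rw [mul_inv_eq_one.mp this]
  · ext w
    have := DFunLike.congr_fun h2 w
    simp only [MonoidHom.mul_apply, MonoidHom.inv_apply, MonoidHom.one_apply] at this
    rw [mul_inv_eq_one.mp this]

theorem mem_sup_decomp (hcomm : ∀ a ∈ W₁, ∀ b ∈ W₂, a * b = b * a) {w : G} (hw : w ∈ W₁ ⊔ W₂) :
    ∃ a ∈ W₁, ∃ b ∈ W₂, w = a * b := by
  have hle : W₁ ≤ Subgroup.normalizer (W₂ : Set G) := by
    rw [Subgroup.le_set_normalizer_iff]
    intro a ha b hb
    have : a * b * a⁻¹ = b := by rw [hcomm a ha b hb]; group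
    rw [this]; exact hb
  have h1 := Subgroup.coe_mul_of_left_le_normalizer_right _ _ hle
  have h2 : w ∈ ((W₁ ⊔ W₂ : Subgroup G) : Set G) := hw
  rw [h1, Set.mem_mul] at h2
  obtain ⟨a, ha, b, hb, rfl⟩ := h2
  exact ⟨a, ha, b, hb, rfl⟩

/-- The isomorphism `W₁ × W₂ ≃ W₁ ⊔ W₂`. -/
noncomputable def prodEquiv (hinf : W₁ ⊓ W₂ = ⊥) (hcomm : ∀ a ∈ W₁, ∀ b ∈ W₂, a * b = b * a) :
    W₁ × W₂ ≃* ↥(W₁ ⊔ W₂) :=
  MulEquiv.ofBijective
    (MonoidHom.mk' (fun q : W₁ × W₂ => ⟨(q.1 : G) * q.2,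
        Subgroup.mul_mem_sup q.1.2 q.2.2⟩) (by
      rintro ⟨a, b⟩ ⟨a', b'⟩
      apply Subtype.ext
      simp only [Prod.mk_mul_mk, Subgroup.coe_mul]
      have := hcomm a' a'.2 b b.2
      calc (a : G) * a' * (b * b') = a * (a' * b) * b' := by group
        _ = a * (b * a') * b' := by rw [this]
        _ = a * b * (a' * b') := by group))
    (by
      constructor
      · rintro ⟨a, b⟩ ⟨a', b'⟩ h
        have h1 : (a : G) * b = a' * b' := congrArg Subtype.val h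
        have h2 : (a' : G)⁻¹ * a = b' * (b : G)⁻¹ := by
          calc (a' : G)⁻¹ * a = (a' : G)⁻¹ * (a * b) * (b : G)⁻¹ := by group
            _ = b' * (b : G)⁻¹ := by rw [h1]; group
        have h3 : (a' : G)⁻¹ * a ∈ W₁ ⊓ W₂ := by
          refine ⟨W₁.mul_mem (W₁.inv_mem a'.2) a.2, ?_⟩
          rw [h2]
          exact W₂.mul_mem b'.2 (W₂.inv_mem b.2)
        rw [hinf, Subgroup.mem_bot, inv_mul_eq_one] at h3
        have h4 : (b : G) = b' := by
          rw [← h3] at h1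
          exact mul_left_cancel h1
        exact Prod.ext (Subtype.ext h3.symm) (Subtype.ext h4)
      · rintro ⟨w, hw⟩
        obtain ⟨a, ha, b, hb, rfl⟩ := mem_sup_decomp hcomm hw
        exact ⟨(⟨a, ha⟩, ⟨b, hb⟩), rfl⟩)

/-- The projection onto `W₁` along `W₂`. -/
noncomputable def proj₁ (hinf : W₁ ⊓ W₂ = ⊥) (hcomm : ∀ a ∈ W₁, ∀ b ∈ W₂, a * b = b * a) :
    ↥(W₁ ⊔ W₂) →* W₁ :=
  (MonoidHom.fst W₁ W₂).comp (prodEquiv hinf hcomm).symm.toMonoidHom

/-- The projection onto `W₂` along `W₁`. -/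
noncomputable def proj₂ (hinf : W₁ ⊓ W₂ = ⊥) (hcomm : ∀ a ∈ W₁, ∀ b ∈ W₂, a * b = b * a) :
    ↥(W₁ ⊔ W₂) →* W₂ :=
  (MonoidHom.snd W₁ W₂).comp (prodEquiv hinf hcomm).symm.toMonoidHom

theorem proj_mul (hinf : W₁ ⊓ W₂ = ⊥) (hcomm : ∀ a ∈ W₁, ∀ b ∈ W₂, a * b = b * a)
    (w : ↥(W₁ ⊔ W₂)) : ((proj₁ hinf hcomm w : W₁) : G) * (proj₂ hinf hcomm w : W₂) = w := by
  have h := (prodEquiv hinf hcomm).apply_symm_apply w
  have h2 := congrArg Subtype.val h
  exact h2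

theorem proj₁_of_mem_left (hinf : W₁ ⊓ W₂ = ⊥) (hcomm : ∀ a ∈ W₁, ∀ b ∈ W₂, a * b = b * a)
    (a : W₁) : proj₁ hinf hcomm ⟨a, Subgroup.mem_sup_left a.2⟩ = a := by
  have h : (prodEquiv hinf hcomm).symm ⟨a, Subgroup.mem_sup_left a.2⟩ = (a, 1) := by
    rw [MulEquiv.symm_apply_eq]
    apply Subtype.ext
    show (a : G) = (a : G) * ((1 : W₂) : G)
    simp
  show ((prodEquiv hinf hcomm).symm ⟨a, Subgroup.mem_sup_left a.2⟩).1 = a
  rw [h]

theorem proj₂_of_mem_left (hinf : W₁ ⊓ W₂ = ⊥) (hcomm : ∀ a ∈ W₁, ∀ b ∈ W₂, a * b = b * a)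
    (a : W₁) : proj₂ hinf hcomm ⟨a, Subgroup.mem_sup_left a.2⟩ = 1 := by
  have h : (prodEquiv hinf hcomm).symm ⟨a, Subgroup.mem_sup_left a.2⟩ = (a, 1) := by
    rw [MulEquiv.symm_apply_eq]
    apply Subtype.ext
    show (a : G) = (a : G) * ((1 : W₂) : G)
    simp
  show ((prodEquiv hinf hcomm).symm ⟨a, Subgroup.mem_sup_left a.2⟩).2 = 1
  rw [h]

theorem proj₁_of_mem_right (hinf : W₁ ⊓ W₂ = ⊥) (hcomm : ∀ a ∈ W₁, ∀ b ∈ W₂, a * b = b * a)
    (b : W₂) : proj₁ hinf hcomm ⟨b, Subgroup.mem_sup_right b.2⟩ = 1 := by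
  have h : (prodEquiv hinf hcomm).symm ⟨b, Subgroup.mem_sup_right b.2⟩ = (1, b) := by
    rw [MulEquiv.symm_apply_eq]
    apply Subtype.ext
    show (b : G) = ((1 : W₁) : G) * (b : G)
    simp
  show ((prodEquiv hinf hcomm).symm ⟨b, Subgroup.mem_sup_right b.2⟩).1 = 1
  rw [h]

theorem proj₂_of_mem_right (hinf : W₁ ⊓ W₂ = ⊥) (hcomm : ∀ a ∈ W₁, ∀ b ∈ W₂, a * b = b * a)
    (b : W₂) : proj₂ hinf hcomm ⟨b, Subgroup.mem_sup_right b.2⟩ = b := by
  have h : (prodEquiv hinf hcomm).symm ⟨b, Subgroup.mem_sup_right b.2⟩ = (1, b) := by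
    rw [MulEquiv.symm_apply_eq]
    apply Subtype.ext
    show (b : G) = ((1 : W₁) : G) * (b : G)
    simp
  show ((prodEquiv hinf hcomm).symm ⟨b, Subgroup.mem_sup_right b.2⟩).2 = b
  rw [h]

/-- A linear character of `W` is a product of one trivial on `W₂` and one trivial on `W₁`. -/
theorem exists_decomp (hinf : W₁ ⊓ W₂ = ⊥) (hcomm : ∀ a ∈ W₁, ∀ b ∈ W₂, a * b = b * a)
    (ω : ↥(W₁ ⊔ W₂) →* ℂˣ) : ∃ φ ψ : ↥(W₁ ⊔ W₂) →* ℂˣ,
      (∀ w : ↥(W₁ ⊔ W₂), (w : G) ∈ W₂ → φ w = 1) ∧ (∀ w : ↥(W₁ ⊔ W₂), (w : G) ∈ W₁ → ψ w = 1) ∧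
        ω = φ * ψ := by
  let ι₁ : W₁ →* ↥(W₁ ⊔ W₂) := Subgroup.inclusion le_sup_left
  let ι₂ : W₂ →* ↥(W₁ ⊔ W₂) := Subgroup.inclusion le_sup_right
  refine ⟨ω.comp (ι₁.comp (proj₁ hinf hcomm)), ω.comp (ι₂.comp (proj₂ hinf hcomm)), ?_, ?_, ?_⟩
  · rintro ⟨w, hw⟩ hw2
    have := proj₁_of_mem_right hinf hcomm ⟨w, hw2⟩
    simp only [MonoidHom.comp_apply]
    rw [show proj₁ hinf hcomm ⟨w, hw⟩ = 1 from this]
    simp
  · rintro ⟨w, hw⟩ hw1
    have := proj₂_of_mem_left hinf hcomm ⟨w, hw1⟩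
    simp only [MonoidHom.comp_apply]
    rw [show proj₂ hinf hcomm ⟨w, hw⟩ = 1 from this]
    simp
  · ext w
    simp only [MonoidHom.mul_apply, MonoidHom.comp_apply]
    rw [← map_mul]
    congr 2
    apply Subtype.ext
    exact (proj_mul hinf hcomm w).symm

/-- The number of linear characters of `W` trivial on `W₂` is `|W₁|`. -/
theorem card_triv₂ [Finite G] (hinf : W₁ ⊓ W₂ = ⊥) (hcomm : ∀ a ∈ W₁, ∀ b ∈ W₂, a * b = b * a)
    (hW₁ : ∀ a b : W₁, a * b = b * a) :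
    Nat.card {φ : ↥(W₁ ⊔ W₂) →* ℂˣ // ∀ w : ↥(W₁ ⊔ W₂), (w : G) ∈ W₂ → φ w = 1} = Nat.card W₁ := by
  rw [← card_hom W₁ hW₁]
  let ι₁ : W₁ →* ↥(W₁ ⊔ W₂) := Subgroup.inclusion le_sup_left
  let ι₂ : W₂ →* ↥(W₁ ⊔ W₂) := Subgroup.inclusion le_sup_right
  refine Nat.card_congr
    { toFun := fun φ => φ.1.comp ι₁
      invFun := fun l => ⟨l.comp (proj₁ hinf hcomm), ?_⟩
      left_inv := ?_
      right_inv := ?_ }
  · rintro ⟨w, hw⟩ hw2
    have := proj₁_of_mem_right hinf hcomm ⟨w, hw2⟩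
    simp only [MonoidHom.comp_apply]
    rw [show proj₁ hinf hcomm ⟨w, hw⟩ = 1 from this]
    simp
  · rintro ⟨φ, hφ⟩
    apply Subtype.ext
    ext w
    simp only [MonoidHom.comp_apply]
    have h1 : (w : ↥(W₁ ⊔ W₂)) = ι₁ (proj₁ hinf hcomm w) * ι₂ (proj₂ hinf hcomm w) :=
      Subtype.ext (proj_mul hinf hcomm w).symm
    have h2 : φ (ι₂ (proj₂ hinf hcomm w)) = 1 := hφ _ (proj₂ hinf hcomm w).2
    conv_rhs => rw [h1, map_mul, h2, mul_one]
  · intro l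
    ext a
    simp only [MonoidHom.comp_apply]
    have := proj₁_of_mem_left hinf hcomm a
    rw [show proj₁ hinf hcomm (ι₁ a) = a from this]

/-- The number of linear characters of `W` trivial on `W₁` is `|W₂|`. -/
theorem card_triv₁ [Finite G] (hinf : W₁ ⊓ W₂ = ⊥) (hcomm : ∀ a ∈ W₁, ∀ b ∈ W₂, a * b = b * a)
    (hW₂ : ∀ a b : W₂, a * b = b * a) :
    Nat.card {ψ : ↥(W₁ ⊔ W₂) →* ℂˣ // ∀ w : ↥(W₁ ⊔ W₂), (w : G) ∈ W₁ → ψ w = 1} = Nat.card W₂ := by
  rw [← card_hom W₂ hW₂]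
  let ι₁ : W₁ →* ↥(W₁ ⊔ W₂) := Subgroup.inclusion le_sup_left
  let ι₂ : W₂ →* ↥(W₁ ⊔ W₂) := Subgroup.inclusion le_sup_right
  refine Nat.card_congr
    { toFun := fun φ => φ.1.comp ι₂
      invFun := fun l => ⟨l.comp (proj₂ hinf hcomm), ?_⟩
      left_inv := ?_
      right_inv := ?_ }
  · rintro ⟨w, hw⟩ hw2
    have := proj₂_of_mem_left hinf hcomm ⟨w, hw2⟩
    simp only [MonoidHom.comp_apply]
    rw [show proj₂ hinf hcomm ⟨w, hw⟩ = 1 from this]
    simp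
  · rintro ⟨φ, hφ⟩
    apply Subtype.ext
    ext w
    simp only [MonoidHom.comp_apply]
    have h1 : (w : ↥(W₁ ⊔ W₂)) = ι₁ (proj₁ hinf hcomm w) * ι₂ (proj₂ hinf hcomm w) :=
      Subtype.ext (proj_mul hinf hcomm w).symm
    have h2 : φ (ι₁ (proj₁ hinf hcomm w)) = 1 := hφ _ (proj₁ hinf hcomm w).2
    conv_rhs => rw [h1, map_mul, h2, one_mul]
  · intro l
    ext a
    simp only [MonoidHom.comp_apply]
    have := proj₂_of_mem_right hinf hcomm a
    rw [show proj₂ hinf hcomm (ι₂ a) = a from this]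

end decomp

section ti

variable {G : Type*} [Group G] {W₁ W₂ : Subgroup G}

theorem comm_of_cyclic (hc : IsCyclic ↥(W₁ ⊔ W₂)) (a b : ↥(W₁ ⊔ W₂)) : a * b = b * a := by
  letI := IsCyclic.commGroup (α := ↥(W₁ ⊔ W₂))
  exact mul_comm a b

/-- In a cyclic group, the elements of `W` killed by `|M|`, for `M ≤ W`, are exactly the elements of
`M`. -/
theorem mem_of_pow_card [Finite G] {W M : Subgroup G} (hc : IsCyclic W) (hM : M ≤ W) {x : G}
    (hx : x ∈ W) (hp : x ^ Nat.card M = 1) : x ∈ M := by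
  classical
  haveI : Fintype W := Fintype.ofFinite _
  haveI : Fintype M := Fintype.ofFinite _
  have hn : 0 < Nat.card M := Nat.card_pos
  have hle : (Finset.univ.filter (fun a : W => a ^ Nat.card M = 1)).card ≤ Nat.card M :=
    IsCyclic.card_pow_eq_one_le hn
  let s : Finset W := Finset.univ.filter (fun a : W => (a : G) ∈ M)
  have hs : s.card = Nat.card M := by
    rw [Nat.card_eq_fintype_card (α := M)]
    refine Finset.card_bij' (i := fun a ha => (⟨a, (Finset.mem_filter.mp ha).2⟩ : M))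
      (j := fun a _ => (⟨a, hM a.2⟩ : W)) ?_ ?_ ?_ ?_ <;> simp [s, Subtype.ext_iff]
  have hsub : s ⊆ Finset.univ.filter (fun a : W => a ^ Nat.card M = 1) := by
    intro a ha
    refine Finset.mem_filter.mpr ⟨Finset.mem_univ _, Subtype.ext ?_⟩
    have h2 : (a : G) ^ Nat.card M = 1 :=
      Cfsg.Agent.Lib.DadeBasic.pow_card_subgroup (Finset.mem_filter.mp ha).2
    simpa using h2
  have heq : s = Finset.univ.filter (fun a : W => a ^ Nat.card M = 1) :=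
    Finset.eq_of_subset_of_card_le hsub (by rw [hs]; exact hle)
  have hm : (⟨x, hx⟩ : W) ∈ s := by
    rw [heq]
    refine Finset.mem_filter.mpr ⟨Finset.mem_univ _, Subtype.ext ?_⟩
    simpa using hp
  exact (Finset.mem_filter.mp hm).2

/-- The TI set of a self-normalising cyclic pair. -/
def Tset (W₁ W₂ : Subgroup G) : Set G := (↑(W₁ ⊔ W₂) : Set G) \ (↑W₁ ∪ ↑W₂)

theorem mem_Tset {x : G} : x ∈ Tset W₁ W₂ ↔ x ∈ W₁ ⊔ W₂ ∧ x ∉ W₁ ∧ x ∉ W₂ := by
  simp [Tset, not_or]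

theorem Tset_nonempty (hW : IsSelfNormalizingCyclic W₁ W₂) : (Tset W₁ W₂).Nonempty := by
  obtain ⟨h1, h2, hinf, hcomm, -, -⟩ := hW
  obtain ⟨a, ha, ha1⟩ := (Subgroup.ne_bot_iff_exists_ne_one (H := W₁)).mp h1 |>.elim
    (fun a h => (⟨a, a.2, fun e => h (Subtype.ext e)⟩ : ∃ x ∈ W₁, x ≠ 1))
  obtain ⟨b, hb, hb1⟩ := (Subgroup.ne_bot_iff_exists_ne_one (H := W₂)).mp h2 |>.elim
    (fun a h => (⟨a, a.2, fun e => h (Subtype.ext e)⟩ : ∃ x ∈ W₂, x ≠ 1))
  refine ⟨a * b, mem_Tset.mpr ⟨Subgroup.mul_mem_sup ha hb, ?_, ?_⟩⟩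
  · intro h
    have : b ∈ W₁ ⊓ W₂ := ⟨by simpa using W₁.mul_mem (W₁.inv_mem ha) h, hb⟩
    rw [hinf] at this
    exact hb1 this
  · intro h
    have : a ∈ W₁ ⊓ W₂ := ⟨ha, by simpa using W₂.mul_mem h (W₂.inv_mem hb)⟩
    rw [hinf] at this
    exact ha1 this

theorem normalizer_Tset (hW : IsSelfNormalizingCyclic W₁ W₂) :
    Subgroup.normalizer (Tset W₁ W₂) = W₁ ⊔ W₂ :=
  hW.2.2.2.2.2 _ (fun x hx => hx) (Tset_nonempty hW)

/-- The centraliser of an element of the TI set is `W`. -/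
theorem centralizer_of_mem_Tset (hW : IsSelfNormalizingCyclic W₁ W₂) {t : G} (ht : t ∈ Tset W₁ W₂)
    {g : G} : g * t * g⁻¹ = t ↔ g ∈ W₁ ⊔ W₂ := by
  have h := hW.2.2.2.2.2 {t} (Set.singleton_subset_iff.mpr ht) (Set.singleton_nonempty t)
  rw [← h, Subgroup.mem_set_normalizer_iff]
  constructor
  · intro hg x
    simp only [Set.mem_singleton_iff]
    constructor
    · rintro rfl; exact hg
    · intro hx
      rw [← hg] at hx
      have : g * x * g⁻¹ = g * t * g⁻¹ := hx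
      exact mul_left_cancel (mul_right_cancel this)
  · intro hg
    have := (hg t).mp rfl
    simpa using this

/-- The TI property. -/
theorem mem_sup_of_conj_mem_Tset [Finite G] (hW : IsSelfNormalizingCyclic W₁ W₂) {g t : G}
    (ht : t ∈ Tset W₁ W₂) (hg : g * t * g⁻¹ ∈ Tset W₁ W₂) : g ∈ W₁ ⊔ W₂ := by
  have hcyc : IsCyclic ↥(W₁ ⊔ W₂) := hW.2.2.2.2.1
  -- g normalizes W
  have hnorm : ∀ w ∈ W₁ ⊔ W₂, g * w * g⁻¹ ∈ W₁ ⊔ W₂ := by
    intro w hw
    rw [← centralizer_of_mem_Tset hW hg]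
    have h1 := (centralizer_of_mem_Tset hW ht).mpr hw
    calc g * w * g⁻¹ * (g * t * g⁻¹) * (g * w * g⁻¹)⁻¹ = g * (w * t * w⁻¹) * g⁻¹ := by group
      _ = g * t * g⁻¹ := by rw [h1]
  have hnorm' : ∀ w ∈ W₁ ⊔ W₂, g⁻¹ * w * g ∈ W₁ ⊔ W₂ := by
    intro w hw
    -- `g` permutes the finite set `W`
    have hinj : Function.Injective (fun v : ↥(W₁ ⊔ W₂) =>
        (⟨g * v * g⁻¹, hnorm v v.2⟩ : ↥(W₁ ⊔ W₂))) := by
      intro a b hab
      have := congrArg Subtype.val hab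
      exact Subtype.ext (mul_left_cancel (mul_right_cancel this))
    obtain ⟨v, hv⟩ := (Finite.injective_iff_surjective.mp hinj) ⟨w, hw⟩
    have h2 := congrArg Subtype.val hv
    simp only at h2
    have : g⁻¹ * w * g = v := by rw [← h2]; group
    rw [this]
    exact v.2
  have hchar : ∀ M : Subgroup G, M ≤ W₁ ⊔ W₂ → ∀ x ∈ M, g * x * g⁻¹ ∈ M := by
    intro M hM x hx
    apply mem_of_pow_card hcyc hM (hnorm x (hM hx))
    rw [conj_pow]
    have h3 : x ^ Nat.card M = 1 := Cfsg.Agent.Lib.DadeBasic.pow_card_subgroup hx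
    rw [h3]
    group
  have hchar' : ∀ M : Subgroup G, M ≤ W₁ ⊔ W₂ → ∀ x ∈ M, g⁻¹ * x * g ∈ M := by
    intro M hM x hx
    apply mem_of_pow_card hcyc hM (hnorm' x (hM hx))
    have e : g⁻¹ * x * g = g⁻¹ * x * g⁻¹⁻¹ := by group
    rw [e, conj_pow]
    have h3 : x ^ Nat.card M = 1 := Cfsg.Agent.Lib.DadeBasic.pow_card_subgroup hx
    rw [h3]
    group
  rw [← normalizer_Tset hW, Subgroup.mem_set_normalizer_iff]
  intro x
  constructor
  · intro hx
    obtain ⟨hx1, hx2, hx3⟩ := mem_Tset.mp hx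
    refine mem_Tset.mpr ⟨hnorm x hx1, fun h => hx2 ?_, fun h => hx3 ?_⟩
    · have := hchar' W₁ le_sup_left _ h
      have e : g⁻¹ * (g * x * g⁻¹) * g = x := by group
      rwa [e] at this
    · have := hchar' W₂ le_sup_right _ h
      have e : g⁻¹ * (g * x * g⁻¹) * g = x := by group
      rwa [e] at this
  · intro hx
    obtain ⟨hx1, hx2, hx3⟩ := mem_Tset.mp hx
    have hmem : x ∈ W₁ ⊔ W₂ := by
      have := hnorm' _ hx1
      have e : g⁻¹ * (g * x * g⁻¹) * g = x := by group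
      rwa [e] at this
    refine mem_Tset.mpr ⟨hmem, fun h => hx2 (hchar W₁ le_sup_left x h),
      fun h => hx3 (hchar W₂ le_sup_right x h)⟩

end ti

section isometry

variable {G : Type*} [Group G] [Fintype G] {W₁ W₂ : Subgroup G}

private theorem inner_ind_aux (T : Set G) (K : Subgroup G) (hK : Subgroup.normalizer T = K)
    (hTI : ∀ g : G, ∀ t ∈ T, g * t * g⁻¹ ∈ T → g ∈ K) [Fintype K] (ψ θ : K → ℂ)
    (hθ : IsClassFunction K θ) (hψT : ∀ x : K, (x : G) ∉ T → ψ x = 0)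
    (hθT : ∀ x : K, (x : G) ∉ T → θ x = 0) (hψ1 : ψ 1 = 0) :
    classInner (indFun K ψ) (indFun K θ) = classInner ψ θ := by
  subst hK
  refine Cfsg.Agent.Lib.IndFunBasic.classInner_indFun_normalizer T ?_ ψ θ hθ hψT hθT hψ1
  intro g hg t ht hgt
  exact absurd (hTI g t ht hgt) hg

/-- The isometry of induction from `W` on functions vanishing on `W₁ ∪ W₂`. -/
theorem inner_ind_ind (hW : IsSelfNormalizingCyclic W₁ W₂) [Fintype ↥(W₁ ⊔ W₂)]
    (ψ θ : ↥(W₁ ⊔ W₂) → ℂ)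
    (hψ : ∀ w : ↥(W₁ ⊔ W₂), (w : G) ∈ W₁ ∨ (w : G) ∈ W₂ → ψ w = 0)
    (hθ : ∀ w : ↥(W₁ ⊔ W₂), (w : G) ∈ W₁ ∨ (w : G) ∈ W₂ → θ w = 0) :
    classInner (indFun (W₁ ⊔ W₂) ψ) (indFun (W₁ ⊔ W₂) θ) = classInner ψ θ := by
  have hcomm := comm_of_cyclic hW.2.2.2.2.1
  refine inner_ind_aux (Tset W₁ W₂) (W₁ ⊔ W₂) (normalizer_Tset hW)
    (fun g t ht hg => mem_sup_of_conj_mem_Tset hW ht hg) ψ θ ?_ ?_ ?_ ?_
  · intro g h
    rw [hcomm h g, mul_assoc, mul_inv_cancel, mul_one]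
  · intro x hx
    apply hψ
    by_contra hcon
    push Not at hcon
    exact hx (mem_Tset.mpr ⟨x.2, hcon.1, hcon.2⟩)
  · intro x hx
    apply hθ
    by_contra hcon
    push Not at hcon
    exact hx (mem_Tset.mpr ⟨x.2, hcon.1, hcon.2⟩)
  · exact hψ 1 (Or.inl W₁.one_mem)

end isometry

end Cfsg.Agent.Lib.CyclicTI
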