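import Cfsg.Agent.Lib.ChevReg250
import Cfsg.Agent.Lib.Chev.TwD4BN

/-!
# A cyclic torus of `³D₄(q)`: the arithmetic of the exponents and the torus elements
-/

set_option autoImplicit false
set_option linter.unusedSectionVars false
set_option linter.unusedVariables false
set_option linter.unusedSimpArgs false

namespace Cfsg.Agent.Lib.D4Tor50

open Cfsg Cfsg.Lie Cfsg.Agent.Lib.Chev Cfsg.Agent.Lib.Chev.TwD4

/-- The exponent of the value on the root `r` of the torus element with parameter `z`. -/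
def EE (q : ℤ) (r : ℕ) : ℤ :=
  (q + 1) * chevD4.cartan 0 r + (q ^ 2 + q + 1) * chevD4.cartan 1 r + (q ^ 2 + q) * chevD4.cartan 2 r +
    (q ^ 3 + q ^ 2) * chevD4.cartan 3 r

/-- The order of the torus. -/
def NN (q : ℤ) : ℤ := (q ^ 3 - 1) * (q + 1)

theorem tab_pair : ∀ q : Fin 14, 3 ≤ q.1 → ∀ r s : Fin 24, r ≠ s →
    ¬ (NN (q.1 : ℤ) ∣ EE (q.1 : ℤ) r.1 - EE (q.1 : ℤ) s.1) := by
  decide +kernel

theorem tab_single : ∀ q : Fin 14, 2 ≤ q.1 → ∀ r : Fin 24, ¬ (NN (q.1 : ℤ) ∣ EE (q.1 : ℤ) r.1) := by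
  decide +kernel

theorem tab_bound : ∀ r : Fin 24, |chevD4.cartan 0 r.1| ≤ 2 ∧ |chevD4.cartan 1 r.1| ≤ 2 ∧ |chevD4.cartan 2 r.1| ≤ 2 ∧
    |chevD4.cartan 3 r.1| ≤ 2 := by
  decide +kernel

theorem tab_inj : ∀ r s : Fin 24, chevD4.cartan 0 r.1 = chevD4.cartan 0 s.1 → chevD4.cartan 1 r.1 = chevD4.cartan 1 s.1 →
    chevD4.cartan 2 r.1 = chevD4.cartan 2 s.1 → chevD4.cartan 3 r.1 = chevD4.cartan 3 s.1 → r = s := by
  decide +kernel

theorem tab_nonzero : ∀ r : Fin 24, ¬ (chevD4.cartan 0 r.1 = 0 ∧ chevD4.cartan 1 r.1 = 0 ∧ chevD4.cartan 2 r.1 = 0 ∧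
    chevD4.cartan 3 r.1 = 0) := by
  decide +kernel

theorem big (q d0 d1 d2 d3 : ℤ) (hq : 14 ≤ q) (h0 : |d0| ≤ 4) (h1 : |d1| ≤ 4) (h2 : |d2| ≤ 4) (h3 : |d3| ≤ 4)
    (h : NN q ∣ (q + 1) * d0 + (q ^ 2 + q + 1) * d1 + (q ^ 2 + q) * d2 + (q ^ 3 + q ^ 2) * d3) :
    d0 = 0 ∧ d1 = 0 ∧ d2 = 0 ∧ d3 = 0 := by
  obtain ⟨a0, b0⟩ := abs_le.1 h0
  obtain ⟨a1, b1⟩ := abs_le.1 h1
  obtain ⟨a2, b2⟩ := abs_le.1 h2
  obtain ⟨a3, b3⟩ := abs_le.1 h3
  have hq0 : 0 < q := by linarith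
  have hq2 : 0 < q ^ 2 := by positivity
  have hq3 : 0 < q ^ 3 := by positivity
  have hbig : 14 * q ^ 3 ≤ q ^ 4 := by
    have : q ^ 4 = q * q ^ 3 := by ring
    rw [this]
    exact mul_le_mul_of_nonneg_right hq hq3.le
  have hbig2 : 14 * q ^ 2 ≤ q ^ 3 := by
    have : q ^ 3 = q * q ^ 2 := by ring
    rw [this]
    exact mul_le_mul_of_nonneg_right hq hq2.le
  have hbig3 : 14 * q ≤ q ^ 2 := by
    have : q ^ 2 = q * q := by ring
    rw [this]
    exact mul_le_mul_of_nonneg_right hq hq0.le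
  set E := (q + 1) * d0 + (q ^ 2 + q + 1) * d1 + (q ^ 2 + q) * d2 + (q ^ 3 + q ^ 2) * d3 with hE
  have hNN : NN q = q ^ 4 + q ^ 3 - q - 1 := by unfold NN; ring
  have hNpos : 0 < NN q := by rw [hNN]; nlinarith
  have hE0 : E = 0 := by
    apply Int.eq_zero_of_abs_lt_dvd h
    rw [abs_lt, hNN]
    have e : E = d3 * q ^ 3 + (d1 + d2 + d3) * q ^ 2 + (d0 + d1 + d2) * q + (d0 + d1) := by
      rw [hE]
      ring
    rw [e]
    have t1 : d3 * q ^ 3 ≤ 4 * q ^ 3 := mul_le_mul_of_nonneg_right b3 hq3.le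
    have t1' : -4 * q ^ 3 ≤ d3 * q ^ 3 := mul_le_mul_of_nonneg_right a3 hq3.le
    have t2 : (d1 + d2 + d3) * q ^ 2 ≤ 12 * q ^ 2 := mul_le_mul_of_nonneg_right (by linarith) hq2.le
    have t2' : -12 * q ^ 2 ≤ (d1 + d2 + d3) * q ^ 2 := mul_le_mul_of_nonneg_right (by linarith) hq2.le
    have t3 : (d0 + d1 + d2) * q ≤ 12 * q := mul_le_mul_of_nonneg_right (by linarith) hq0.le
    have t3' : -12 * q ≤ (d0 + d1 + d2) * q := mul_le_mul_of_nonneg_right (by linarith) hq0.le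
    constructor <;> linarith
  have e : E = q * (d3 * q ^ 2 + (d1 + d2 + d3) * q + (d0 + d1 + d2)) + (d0 + d1) := by
    rw [hE]
    ring
  have h01 : d0 + d1 = 0 := by
    apply Int.eq_zero_of_abs_lt_dvd (m := q)
    · refine ⟨-(d3 * q ^ 2 + (d1 + d2 + d3) * q + (d0 + d1 + d2)), ?_⟩
      linarith
    · rw [abs_lt]
      constructor <;> linarith
  have e2 : d3 * q ^ 2 + (d1 + d2 + d3) * q + (d0 + d1 + d2) = 0 := by
    have : q * (d3 * q ^ 2 + (d1 + d2 + d3) * q + (d0 + d1 + d2)) = 0 := by linarith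
    rcases mul_eq_zero.1 this with h4 | h4
    · omega
    · exact h4
  have h012 : d0 + d1 + d2 = 0 := by
    apply Int.eq_zero_of_abs_lt_dvd (m := q)
    · refine ⟨-(d3 * q + (d1 + d2 + d3)), ?_⟩
      have : d3 * q ^ 2 + (d1 + d2 + d3) * q + (d0 + d1 + d2) = q * (d3 * q + (d1 + d2 + d3)) + (d0 + d1 + d2) := by ring
      linarith
    · rw [abs_lt]
      constructor <;> linarith
  have hd2 : d2 = 0 := by linarith
  have e3 : d3 * q + (d1 + d2 + d3) = 0 := by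
    have : q * (d3 * q + (d1 + d2 + d3)) = 0 := by
      have : d3 * q ^ 2 + (d1 + d2 + d3) * q + (d0 + d1 + d2) = q * (d3 * q + (d1 + d2 + d3)) + (d0 + d1 + d2) := by ring
      linarith
    rcases mul_eq_zero.1 this with h4 | h4
    · omega
    · exact h4
  have h13 : d1 + d2 + d3 = 0 := by
    apply Int.eq_zero_of_abs_lt_dvd (m := q)
    · exact ⟨-d3, by linarith⟩
    · rw [abs_lt]
      constructor <;> linarith
  have hd3 : d3 = 0 := by
    have : d3 * q = 0 := by linarith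
    rcases mul_eq_zero.1 this with h4 | h4
    · exact h4
    · omega
  have hd1 : d1 = 0 := by linarith
  have hd0 : d0 = 0 := by linarith
  exact ⟨hd0, hd1, hd2, hd3⟩

theorem EE_not_dvd_single {q : ℕ} (hq : 2 ≤ q) (r : Fin 24) : ¬ (NN (q : ℤ) ∣ EE (q : ℤ) r.1) := by
  by_cases h14 : q < 14
  · exact tab_single ⟨q, h14⟩ hq r
  · intro h
    obtain ⟨b0, b1, b2, b3⟩ := tab_bound r
    have := big (q : ℤ) _ _ _ _ (by omega) (b0.trans (by norm_num)) (b1.trans (by norm_num)) (b2.trans (by norm_num))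
      (b3.trans (by norm_num)) h
    exact tab_nonzero r this

theorem EE_not_dvd_pair {q : ℕ} (hq : 3 ≤ q) {r s : Fin 24} (hrs : r ≠ s) :
    ¬ (NN (q : ℤ) ∣ EE (q : ℤ) r.1 - EE (q : ℤ) s.1) := by
  by_cases h14 : q < 14
  · exact tab_pair ⟨q, h14⟩ hq r s hrs
  · intro h
    obtain ⟨b0, b1, b2, b3⟩ := tab_bound r
    obtain ⟨c0, c1, c2, c3⟩ := tab_bound s
    have hd : ∀ u v : ℤ, |u| ≤ 2 → |v| ≤ 2 → |u - v| ≤ 4 := by
      intro u v hu hv
      obtain ⟨a1, a2⟩ := abs_le.1 hu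
      obtain ⟨a3, a4⟩ := abs_le.1 hv
      exact abs_le.2 ⟨by linarith, by linarith⟩
    have e : EE (q : ℤ) r.1 - EE (q : ℤ) s.1 =
      ((q : ℤ) + 1) * (chevD4.cartan 0 r.1 - chevD4.cartan 0 s.1) + ((q : ℤ) ^ 2 + q + 1) * (chevD4.cartan 1 r.1 - chevD4.cartan 1 s.1) +
        ((q : ℤ) ^ 2 + q) * (chevD4.cartan 2 r.1 - chevD4.cartan 2 s.1) + ((q : ℤ) ^ 3 + (q : ℤ) ^ 2) * (chevD4.cartan 3 r.1 - chevD4.cartan 3 s.1) := by
      unfold EE
      ring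
    rw [e] at h
    obtain ⟨h0, h1, h2, h3⟩ := big (q : ℤ) _ _ _ _ (by omega) (hd _ _ b0 c0) (hd _ _ b1 c1) (hd _ _ b2 c2) (hd _ _ b3 c3) h
    exact hrs (tab_inj r s (sub_eq_zero.1 h0) (sub_eq_zero.1 h1) (sub_eq_zero.1 h2) (sub_eq_zero.1 h3))

/-- The exceptional case `q = 2`. -/
theorem tab_two : ∀ r s : Fin 24, (21 : ℤ) ∣ EE 2 r.1 - EE 2 s.1 →
    r = s ∨ (r.1 ∈ [0, 14, 22] ∧ s.1 ∈ [0, 14, 22]) ∨ (r.1 ∈ [1, 9, 23] ∧ s.1 ∈ [1, 9, 23]) := by
  decide +kernel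

/-! ### The action of the Weyl group on the Cartan integers -/

theorem tab_wf : ∀ j < chevD4.rank, ∀ i < chevD4.rank, ∀ r < chevD4.nroots,
    chevD4.cartan i (TabD4.X.wf j r) = chevD4.cartan i r - chevD4.cartan j r * chevD4.cartan i (chevD4.simple j) := by
  decide +kernel

/-- The Cartan-additive triples. -/
def Add3 (r s t : ℕ) : Prop :=
  ∀ i < chevD4.rank, chevD4.cartan i r + chevD4.cartan i s = chevD4.cartan i t

theorem add_Wk {σ : Equiv.Perm (Fin chevD4.nroots)} (hσ : σ ∈ TwD4.hF.Wk Set.univ) :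
    ∀ r s t : Fin chevD4.nroots, Add3 r s t ↔ Add3 (σ r) (σ s) (σ t) := by
  unfold Full.Wk at hσ
  induction hσ using Subgroup.closure_induction with
  | mem x hx =>
    obtain ⟨j, hj, -, rfl⟩ := hx
    have key : ∀ r s t : Fin chevD4.nroots, Add3 r s t → Add3 (hF.wPerm hj r) (hF.wPerm hj s) (hF.wPerm hj t) := by
      intro r s t h i hi
      simp only [Full.wPerm_apply]
      rw [tab_wf j hj i hi r r.2, tab_wf j hj i hi s s.2, tab_wf j hj i hi t t.2, ← h i hi, ← h j hj]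
      ring
    intro r s t
    refine ⟨key r s t, fun h => ?_⟩
    have h2 := key _ _ _ h
    have hinv : ∀ u : Fin chevD4.nroots, hF.wPerm hj (hF.wPerm hj u) = u := by
      intro u
      apply Fin.ext
      simp only [Full.wPerm_apply]
      exact hF.wf_wf hj u.2
    rwa [hinv, hinv, hinv] at h2
  | one => intro r s t; rfl
  | mul x y _ _ hx hy =>
    intro r s t
    rw [hy r s t, hx (y r) (y s) (y t)]
    rfl
  | inv x _ hx =>
    intro r s t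
    have := hx (x⁻¹ r) (x⁻¹ s) (x⁻¹ t)
    have e : ∀ u, x (x⁻¹ u) = u := fun u => x.apply_symm_apply u
    rw [e, e, e] at this
    exact this.symm

theorem tab_inj' {r s : Fin chevD4.nroots}
    (h : ∀ i < chevD4.rank, chevD4.cartan i r = chevD4.cartan i s) : r = s := by
  have h1 := tab_inj ⟨r.1, r.2⟩ ⟨s.1, s.2⟩ (h 0 (by decide)) (h 1 (by decide)) (h 2 (by decide)) (h 3 (by decide))
  exact Fin.ext (congrArg Fin.val h1)

end Cfsg.Agent.Lib.D4Tor50
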