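import Cfsg.Agent.Lib.D4Tor50A

/-!
# A cyclic torus of `³D₄(q)`: torus elements, the twist
-/

set_option autoImplicit false
set_option linter.unusedSectionVars false
set_option linter.unusedVariables false
set_option linter.unusedSimpArgs false

namespace Cfsg.Agent.Lib.D4Tor50

open Cfsg Cfsg.Lie Cfsg.Agent.Lib.Chev Cfsg.Agent.Lib.Chev.TwD4

section Tor

variable {L : Type*} [Field L]

/-- Coordinates. -/
def i0 : Fin chevD4.rank := ⟨0, by decide⟩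
/-- Coordinates. -/
def i1 : Fin chevD4.rank := ⟨1, by decide⟩
/-- Coordinates. -/
def i2 : Fin chevD4.rank := ⟨2, by decide⟩
/-- Coordinates. -/
def i3 : Fin chevD4.rank := ⟨3, by decide⟩

theorem chiT_expand (c : Fin chevD4.rank → Lˣ) (s : ℕ) :
    chiT chevD4 c s = c i0 ^ chevD4.cartan 0 s * c i1 ^ chevD4.cartan 1 s * c i2 ^ chevD4.cartan 2 s *
      c i3 ^ chevD4.cartan 3 s :=
  Fin.prod_univ_four (fun i : Fin 4 => c i ^ chevD4.cartan i s)

/-- The twisted action of the reflection `s_β` on the parameters. -/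
noncomputable def sB (c : Fin chevD4.rank → Lˣ) : Fin chevD4.rank → Lˣ :=
  fun j => if j = i1 then c i0 * c i2 * c i3 * (c i1)⁻¹ else c j

theorem sB_i0 (c : Fin chevD4.rank → Lˣ) : sB c i0 = c i0 := if_neg (by decide)
theorem sB_i1 (c : Fin chevD4.rank → Lˣ) : sB c i1 = c i0 * c i2 * c i3 * (c i1)⁻¹ := if_pos rfl
theorem sB_i2 (c : Fin chevD4.rank → Lˣ) : sB c i2 = c i2 := if_neg (by decide)
theorem sB_i3 (c : Fin chevD4.rank → Lˣ) : sB c i3 = c i3 := if_neg (by decide)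

theorem tab_sB : ∀ s < chevD4.nroots, chevD4.cartan 0 (TabD4.X.wf 1 s) = chevD4.cartan 0 s + chevD4.cartan 1 s ∧
    chevD4.cartan 1 (TabD4.X.wf 1 s) = - chevD4.cartan 1 s ∧
    chevD4.cartan 2 (TabD4.X.wf 1 s) = chevD4.cartan 2 s + chevD4.cartan 1 s ∧
    chevD4.cartan 3 (TabD4.X.wf 1 s) = chevD4.cartan 3 s + chevD4.cartan 1 s := by
  decide +kernel

theorem chiT_sB (c : Fin chevD4.rank → Lˣ) {s : ℕ} (hs : s < chevD4.nroots) :
    chiT chevD4 (sB c) s = chiT chevD4 c (TabD4.X.wf 1 s) := by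
  obtain ⟨h0, h1, h2, h3⟩ := tab_sB s hs
  rw [chiT_expand, chiT_expand, sB_i0, sB_i1, sB_i2, sB_i3, h0, h1, h2, h3]
  simp only [mul_zpow, inv_zpow, _root_.zpow_add, zpow_neg]
  simp only [mul_assoc, mul_comm, mul_left_comm]

theorem tor_eq_of_chi {c c' : Fin chevD4.rank → Lˣ}
    (h : ∀ s, s < chevD4.nroots → chiT chevD4 c s = chiT chevD4 c' s) :
    tor RootD4T.R chevD4 c = (tor RootD4T.R chevD4 c' : GL chevD4.Idx L) := by
  rw [hF.tor_eq, hF.tor_eq]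
  exact diagG_congr _ h

/-- Conjugation by `n_β`. -/
theorem nS_conj_tor (c : Fin chevD4.rank → Lˣ) :
    hF.nS (F := L) 1 * tor RootD4T.R chevD4 c * (hF.nS (F := L) 1)⁻¹ = tor RootD4T.R chevD4 (sB c) := by
  have hi : (1 : ℕ) < chevD4.rank := by decide
  have hN : hF.nS (F := L) 1 ∈ chevD4.monomialSubgroup L := hF.nS_mem_monomial hi
  have hH : hF.nS (F := L) 1 * tor RootD4T.R chevD4 c * (hF.nS (F := L) 1)⁻¹ ∈ chevD4.diagonalSubgroup L := by
    have := hF.diagonal_normal (F := L)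
    have h3 := this.conj_mem ⟨tor RootD4T.R chevD4 c, hF.c.diagonal_le_monomial ((hF.mem_diagonal_iff).2 ⟨c, rfl⟩)⟩
      (Subgroup.mem_subgroupOf.2 ((hF.mem_diagonal_iff).2 ⟨c, rfl⟩)) ⟨_, hN⟩
    exact Subgroup.mem_subgroupOf.1 h3
  obtain ⟨c', hc'⟩ := (hF.mem_diagonal_iff).1 hH
  rw [hc']
  apply tor_eq_of_chi
  intro s hs
  rw [chiT_sB c hs]
  have hw := hF.wf_lt hi hs
  have h1 := hF.tor_conj_xG c' hs (1 : L)
  rw [← hc'] at h1
  have h2 : (hF.nS (F := L) 1 * tor RootD4T.R chevD4 c * (hF.nS (F := L) 1)⁻¹) * hF.c.xG s (1 : L) *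
      (hF.nS (F := L) 1 * tor RootD4T.R chevD4 c * (hF.nS (F := L) 1)⁻¹)⁻¹ =
      hF.nS (F := L) 1 * (tor RootD4T.R chevD4 c * ((hF.nS (F := L) 1)⁻¹ * hF.c.xG s (1 : L) * hF.nS (F := L) 1) *
        (tor RootD4T.R chevD4 c)⁻¹) * (hF.nS (F := L) 1)⁻¹ := by
    group
  rw [h2, hF.nS_inv_conj_xG hi hs, hF.tor_conj_xG c hw, hF.nS_conj_xG hi hw, hF.wf_wf hi hs] at h1
  have h3 := hF.xG_param_inj hs h1
  apply Units.ext
  rw [← mul_one ((chiT chevD4 c' s : Lˣ) : L), ← h3]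
  have := hF.eta_sq (F := L) hi hw
  linear_combination ((chiT chevD4 c (TabD4.X.wf 1 s) : Lˣ) : L) * this

/-- Conjugation by `n_β(u)`. -/
theorem nG_conj_tor (u : Lˣ) (c : Fin chevD4.rank → Lˣ) :
    hF.c.nG (chevD4.simple 1) (u : L) * tor RootD4T.R chevD4 c * (hF.c.nG (chevD4.simple 1) (u : L))⁻¹ =
      tor RootD4T.R chevD4 (sB c) := by
  have hi : (1 : ℕ) < chevD4.rank := by decide
  rw [hF.c.nG_eq_hG_mul, hF.hG_eq_tor (hF.simple_lt hi) u]
  set E := (fun i : Fin chevD4.rank => u ^ (chevD4.coroot.getD (chevD4.simple 1) #[]).getD i 0) with hE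
  have e1 : tor RootD4T.R chevD4 E * hF.c.nG (chevD4.simple 1) (1 : L) * tor RootD4T.R chevD4 c *
      (tor RootD4T.R chevD4 E * hF.c.nG (chevD4.simple 1) (1 : L))⁻¹ =
      tor RootD4T.R chevD4 E * (hF.nS (F := L) 1 * tor RootD4T.R chevD4 c * (hF.nS (F := L) 1)⁻¹) * (tor RootD4T.R chevD4 E)⁻¹ := by
    show tor RootD4T.R chevD4 E * hF.nS (F := L) 1 * tor RootD4T.R chevD4 c *
      (tor RootD4T.R chevD4 E * hF.nS (F := L) 1)⁻¹ = _
    group
  rw [e1, nS_conj_tor, tor_inv, tor_mul, tor_mul, mul_comm E, mul_inv_cancel_right]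

/-- The parameters of the torus, in terms of one element. -/
noncomputable def psi (q : ℕ) (x : Lˣ) : Fin chevD4.rank → Lˣ :=
  fun j => if j = i0 then x ^ (q + 1) else if j = i1 then x ^ (q ^ 2 + q + 1) else if j = i2 then x ^ (q ^ 2 + q) else x ^ (q ^ 3 + q ^ 2)

theorem psi_i0 (q : ℕ) (x : Lˣ) : psi q x i0 = x ^ (q + 1) := if_pos rfl
theorem psi_i1 (q : ℕ) (x : Lˣ) : psi q x i1 = x ^ (q ^ 2 + q + 1) := by
  unfold psi
  rw [if_neg (by decide), if_pos rfl]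
theorem psi_i2 (q : ℕ) (x : Lˣ) : psi q x i2 = x ^ (q ^ 2 + q) := by
  unfold psi
  rw [if_neg (by decide), if_neg (by decide), if_pos rfl]
theorem psi_i3 (q : ℕ) (x : Lˣ) : psi q x i3 = x ^ (q ^ 3 + q ^ 2) := by
  unfold psi
  rw [if_neg (by decide), if_neg (by decide), if_neg (by decide)]

theorem fin_ext {α : Type*} {c c' : Fin chevD4.rank → α} (h0 : c i0 = c' i0) (h1 : c i1 = c' i1) (h2 : c i2 = c' i2)
    (h3 : c i3 = c' i3) : c = c' := by
  funext j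
  exact fin4_cases (P := fun j => c j = c' j) h0 h1 h2 h3 j

theorem psi_mul (q : ℕ) (x y : Lˣ) : psi q (x * y) = psi q x * psi q y := by
  apply fin_ext
  · simp only [Pi.mul_apply, psi_i0, mul_pow]
  · simp only [Pi.mul_apply, psi_i1, mul_pow]
  · simp only [Pi.mul_apply, psi_i2, mul_pow]
  · simp only [Pi.mul_apply, psi_i3, mul_pow]

theorem psi_one (q : ℕ) : psi q (1 : Lˣ) = 1 := by
  apply fin_ext <;> simp [psi_i0, psi_i1, psi_i2, psi_i3]

/-- The torus element. -/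
noncomputable def Psi (q : ℕ) : Lˣ →* GL chevD4.Idx L where
  toFun x := tor RootD4T.R chevD4 (psi q x)
  map_one' := by rw [psi_one, tor_one]
  map_mul' x y := by rw [psi_mul, tor_mul]

theorem Psi_apply (q : ℕ) (x : Lˣ) : Psi q x = tor RootD4T.R chevD4 (psi q x) := rfl

theorem chiT_psi (q : ℕ) (x : Lˣ) (r : ℕ) : chiT chevD4 (psi q x) r = x ^ (EE (q : ℤ) r) := by
  rw [chiT_expand, psi_i0, psi_i1, psi_i2, psi_i3]
  simp only [← zpow_natCast, ← _root_.zpow_mul, ← _root_.zpow_add]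
  congr 1

theorem Psi_injective (q : ℕ) : Function.Injective (Psi (L := L) q) := by
  rw [injective_iff_map_eq_one]
  intro x hx
  have h1 := (hF.tor_eq_one_iff (psi q x)).1 hx
  have hs : ∀ j, j < chevD4.rank → x ^ (EE (q : ℤ) (chevD4.simple j)) = 1 := by
    intro j hj
    rw [← chiT_psi]
    have h2 := h1 j hj
    rw [← h2]
    rfl
  -- `A₀ + 2 A₁ + A₃ = 2`
  have e0 : EE (q : ℤ) (chevD4.simple 0) = (q : ℤ) + 1 - q * q := by
    have h : chevD4.simple 0 = 18 := by decide +kernel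
    rw [h]
    have h2 : chevD4.cartan 0 18 = 2 ∧ chevD4.cartan 1 18 = -1 ∧ chevD4.cartan 2 18 = 0 ∧ chevD4.cartan 3 18 = 0 := by decide +kernel
    unfold EE
    rw [h2.1, h2.2.1, h2.2.2.1, h2.2.2.2]
    ring
  have e1 : EE (q : ℤ) (chevD4.simple 1) = 1 - (q : ℤ) ^ 3 := by
    have h : chevD4.simple 1 = 14 := by decide +kernel
    rw [h]
    have h2 : chevD4.cartan 0 14 = -1 ∧ chevD4.cartan 1 14 = 2 ∧ chevD4.cartan 2 14 = -1 ∧ chevD4.cartan 3 14 = -1 := by decide +kernel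
    unfold EE
    rw [h2.1, h2.2.1, h2.2.2.1, h2.2.2.2]
    ring
  have e3 : EE (q : ℤ) (chevD4.simple 3) = 2 * (q : ℤ) ^ 3 + (q : ℤ) ^ 2 - q - 1 := by
    have h : chevD4.simple 3 = 12 := by decide +kernel
    rw [h]
    have h2 : chevD4.cartan 0 12 = 0 ∧ chevD4.cartan 1 12 = -1 ∧ chevD4.cartan 2 12 = 0 ∧ chevD4.cartan 3 12 = 2 := by decide +kernel
    unfold EE
    rw [h2.1, h2.2.1, h2.2.2.1, h2.2.2.2]
    ring
  have h0 := hs 0 (by decide)
  have h1' := hs 1 (by decide)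
  have h3 := hs 3 (by decide)
  rw [e0] at h0
  rw [e1] at h1'
  rw [e3] at h3
  have hsq : x ^ (2 : ℤ) = 1 := by
    have e : (2 : ℤ) = ((q : ℤ) + 1 - q * q) + 2 * (1 - (q : ℤ) ^ 3) + (2 * (q : ℤ) ^ 3 + (q : ℤ) ^ 2 - q - 1) := by ring
    have h4 : x ^ (2 * (1 - (q : ℤ) ^ 3)) = 1 := by
      rw [mul_comm, _root_.zpow_mul, h1', one_zpow]
    rw [e, _root_.zpow_add, _root_.zpow_add, h0, h4, h3]
    simp
  -- `q + 1 - q²` is odd
  obtain ⟨m, hm⟩ : ∃ m : ℤ, (q : ℤ) + 1 - q * q = 1 + 2 * m := by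
    have h5 : Even ((q : ℤ) * ((q : ℤ) - 1)) := by
      exact Int.even_mul_pred_self (q : ℤ)
    obtain ⟨k, hk⟩ := h5
    exact ⟨-k, by linarith⟩
  rw [hm, _root_.zpow_add, zpow_one, _root_.zpow_mul, hsq, one_zpow, mul_one] at h0
  exact h0

end Tor

end Cfsg.Agent.Lib.D4Tor50
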