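import Cfsg.Agent.Lib.D4Tor50B

/-!
# A cyclic torus of `³D₄(q)`: the twist
-/

set_option autoImplicit false
set_option linter.unusedSectionVars false
set_option linter.unusedVariables false
set_option linter.unusedSimpArgs false

namespace Cfsg.Agent.Lib.D4Tor50

open Cfsg Cfsg.Lie Cfsg.Agent.Lib.Chev Cfsg.Agent.Lib.Chev.TwD4

section Twist

variable {L : Type*} [Field L] [Fintype L] (f : L ≃+* L)

theorem r_beta : TwTabD4.S.r (chevD4.simple 1) = chevD4.simple 1 ∧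
    TwTabD4.S.r (chevD4.neg (chevD4.simple 1)) = chevD4.neg (chevD4.simple 1) := by
  decide +kernel

theorem s_x_pos (a : L) : (τ f).s (hF.c.xG (chevD4.simple 1) a) = hF.c.xG (chevD4.simple 1) (f a) := by
  have := (sc f).s_pos 1 (by decide) a
  rwa [r_beta.1] at this

theorem s_x_neg (a : L) : (τ f).s (hF.c.xG (chevD4.neg (chevD4.simple 1)) a) =
    hF.c.xG (chevD4.neg (chevD4.simple 1)) (f a) := by
  have := (sc f).s_neg 1 (by decide) a
  rwa [r_beta.2] at this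

/-- The element conjugating the split torus to the twisted one. -/
noncomputable def yy (ε : L) : GL chevD4.Idx L :=
  hF.c.xG (chevD4.neg (chevD4.simple 1)) ε * hF.c.xG (chevD4.simple 1) (f ε - ε)⁻¹

theorem yy_mem (ε : L) : yy f ε ∈ chevD4.group L :=
  mul_mem (hF.c.xG_mem_group (by decide) _) (hF.c.xG_mem_group (by decide) _)

theorem s_yy {ε : L} (hε : f (f ε) = ε) (hne : f ε ≠ ε) :
    (τ f).s (yy f ε) = yy f ε * hF.c.nG (chevD4.simple 1) (-(f ε - ε)⁻¹) := by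
  set δ := f ε - ε with hδ
  have hδ0 : δ ≠ 0 := sub_ne_zero.2 hne
  have hfδ : f δ = -δ := by
    rw [hδ, map_sub, hε]
    ring
  unfold yy
  rw [(τ f).s_mul (hF.c.xG_mem_group (by decide) _) (hF.c.xG_mem_group (by decide) _), s_x_neg, s_x_pos,
    map_inv₀, ← hδ, hfδ]
  unfold Checks.nG
  have e1 : -(-δ⁻¹)⁻¹ = δ := by
    rw [inv_neg, neg_neg, inv_inv]
  rw [e1, inv_neg]
  have e2 : hF.c.xG (chevD4.neg (chevD4.simple 1)) ε * hF.c.xG (chevD4.simple 1) δ⁻¹ *
      (hF.c.xG (chevD4.simple 1) (-δ⁻¹) * hF.c.xG (chevD4.neg (chevD4.simple 1)) δ * hF.c.xG (chevD4.simple 1) (-δ⁻¹)) =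
      hF.c.xG (chevD4.neg (chevD4.simple 1)) ε * (hF.c.xG (chevD4.simple 1) δ⁻¹ * hF.c.xG (chevD4.simple 1) (-δ⁻¹)) *
        hF.c.xG (chevD4.neg (chevD4.simple 1)) δ * hF.c.xG (chevD4.simple 1) (-δ⁻¹) := by
    group
  rw [e2, hF.c.xG_add, add_neg_cancel, hF.c.xG_zero, mul_one, hF.c.xG_add]
  congr 2
  rw [hδ]
  ring

theorem FTh_vals (c : Fin chevD4.rank → Lˣ) : (sc f).FTh c i2 = unitsF f (c i0) ∧ (sc f).FTh c i1 = unitsF f (c i1) ∧
    (sc f).FTh c i3 = unitsF f (c i2) ∧ (sc f).FTh c i0 = unitsF f (c i3) := by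
  obtain ⟨p0, p1, p2, p3⟩ := pi_vals f
  have h := (sc f).FTh_apply c
  refine ⟨?_, ?_, ?_, ?_⟩
  · have := h i0
    have e : (τ f).π i0 = i2 := p0
    rwa [e] at this
  · have := h i1
    have e : (τ f).π i1 = i1 := p1
    rwa [e] at this
  · have := h i2
    have e : (τ f).π i2 = i3 := p2
    rwa [e] at this
  · have := h i3
    have e : (τ f).π i3 = i0 := p3
    rwa [e] at this

/-- The action of the twist on a conjugate of the torus. -/
theorem s_conj {ε : L} (hε : f (f ε) = ε) (hne : f ε ≠ ε) (c : Fin chevD4.rank → Lˣ) :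
    (τ f).s (yy f ε * tor RootD4T.R chevD4 c * (yy f ε)⁻¹) =
      yy f ε * tor RootD4T.R chevD4 (sB ((sc f).FTh c)) * (yy f ε)⁻¹ := by
  have hy := yy_mem f ε
  have ht : tor RootD4T.R chevD4 c ∈ chevD4.group L := hF.c.diagonal_le_group ((hF.mem_diagonal_iff).2 ⟨c, rfl⟩)
  rw [(τ f).s_mul (mul_mem hy ht) (inv_mem hy), (τ f).s_mul hy ht, (τ f).s_inv hy, (sc f).s_tor c, s_yy f hε hne]
  have hu : -(f ε - ε)⁻¹ ≠ 0 := neg_ne_zero.2 (inv_ne_zero (sub_ne_zero.2 hne))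
  have e := nG_conj_tor (Units.mk0 _ hu) ((sc f).FTh c)
  rw [Units.val_mk0] at e
  rw [← e]
  show _ = _
  have e2 : tor RootD4T.R chevD4 ((τ f).FT (fun _ => unitsF f) c) = tor RootD4T.R chevD4 ((sc f).FTh c) := rfl
  rw [e2]
  group

variable {f} {q : ℕ}

theorem unitsF_eq (hf : ∀ t, f t = t ^ q) (u : Lˣ) : unitsF f u = u ^ q := by
  apply Units.ext
  rw [unitsF_val, hf, Units.val_pow_eq_pow_val]

/-- The elements of the twisted torus are fixed. -/
theorem sB_FTh_psi (hf : ∀ t, f t = t ^ q) (hq : 1 ≤ q) {x : Lˣ} (hx : x ^ ((q ^ 3 - 1) * (q + 1)) = 1) :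
    sB ((sc f).FTh (psi q x)) = psi q x := by
  obtain ⟨v2, v1, v3, v0⟩ := FTh_vals f (psi q x)
  simp only [unitsF_eq hf, psi_i0, psi_i1, psi_i2, psi_i3] at v2 v1 v3 v0
  have hq3 : 1 ≤ q ^ 3 := Nat.one_le_pow _ _ hq
  have e0 : x ^ (q ^ 3 + q ^ 2) ^ 1 = x ^ (q ^ 3 + q ^ 2) := by rw [pow_one]
  have h00 : (x ^ (q ^ 3 + q ^ 2)) ^ q = x ^ (q + 1) := by
    rw [← pow_mul]
    have e : (q ^ 3 + q ^ 2) * q = (q ^ 3 - 1) * (q + 1) + (q + 1) := by
      obtain ⟨k, hk⟩ : ∃ k, q ^ 3 = k + 1 := ⟨q ^ 3 - 1, by omega⟩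
      rw [hk, Nat.add_sub_cancel]
      have : q ^ 2 * q = q ^ 3 := by ring
      nlinarith
    rw [e, pow_add, hx, one_mul]
  apply fin_ext
  · rw [sB_i0, v0, h00, psi_i0]
  · rw [sB_i1, v0, v2, v3, v1, h00, psi_i1]
    rw [mul_inv_eq_iff_eq_mul]
    simp only [← pow_mul, ← pow_add]
    congr 1
    ring
  · rw [sB_i2, v2, psi_i2, ← pow_mul]
    congr 1
    ring
  · rw [sB_i3, v3, psi_i3, ← pow_mul]
    congr 1
    ring

theorem unitsF_sq {u : Lˣ} (hu : u ^ 2 = 1) (f : L ≃+* L) : unitsF f u = u := by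
  have h1 : ((u : L) - 1) * ((u : L) + 1) = 0 := by
    have := congrArg (Units.val) hu
    rw [Units.val_pow_eq_pow_val, Units.val_one] at this
    linear_combination this
  apply Units.ext
  rcases mul_eq_zero.1 h1 with h2 | h2
  · have : (u : L) = 1 := by linear_combination h2
    rw [unitsF_val, this, map_one]
  · have : (u : L) = -1 := by linear_combination h2
    rw [unitsF_val, this, map_neg, map_one]

/-- An element of the torus fixed by the twist is in the twisted torus. -/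
theorem exists_psi (hf : ∀ t, f t = t ^ q) (hq : 1 ≤ q) (c : Fin chevD4.rank → Lˣ)
    (hc : tor RootD4T.R chevD4 (sB ((sc f).FTh c)) = (tor RootD4T.R chevD4 c : GL chevD4.Idx L)) :
    ∃ x : Lˣ, x ^ ((q ^ 3 - 1) * (q + 1)) = 1 ∧ tor RootD4T.R chevD4 c = (Psi q x : GL chevD4.Idx L) := by
  set C := (sc f).FTh c with hC
  set δ := sB C * c⁻¹ with hδdef
  have htδ : tor RootD4T.R chevD4 δ = (1 : GL chevD4.Idx L) := by
    rw [hδdef, ← tor_mul, hc, ← tor_inv, mul_inv_cancel]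
  have hsq : ∀ j, δ j ^ 2 = 1 := ker_sq htδ
  have hcart := (hF.tor_eq_one_iff δ).1 htδ
  obtain ⟨a0, a1, a2, a3, b0, b1, b2, b3⟩ := cartan_vals
  have j0 := hcart 0 (by decide)
  have j1 := hcart 1 (by decide)
  rw [cartanMap_expand] at j0 j1
  rw [a0, a1, a2, a3] at j0
  rw [b0, b1, b2, b3] at j1
  have s0 : δ i0 ^ (2 : ℤ) = 1 := by exact_mod_cast hsq i0
  have s1 : δ i1 ^ (2 : ℤ) = 1 := by exact_mod_cast hsq i1
  have hi0 : (⟨0, by decide⟩ : Fin chevD4.rank) = i0 := rfl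
  have hi1 : (⟨1, by decide⟩ : Fin chevD4.rank) = i1 := rfl
  have hi2 : (⟨2, by decide⟩ : Fin chevD4.rank) = i2 := rfl
  have hi3 : (⟨3, by decide⟩ : Fin chevD4.rank) = i3 := rfl
  simp only [hi0, hi1, hi2, hi3] at j0 j1
  have h1 : δ i1 = 1 := by
    simp only [s0, zpow_zero, mul_one, zpow_neg, zpow_one, one_mul] at j0
    simpa using j0
  have hinv : ∀ j, (δ j)⁻¹ = δ j := by
    intro j
    rw [inv_eq_iff_mul_eq_one, ← sq]
    exact hsq j
  have h023 : δ i0 * δ i2 * δ i3 = 1 := by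
    rw [h1] at j1
    simp only [one_zpow, mul_one, zpow_neg, zpow_one, hinv] at j1
    exact j1 ▸ (by
      simp only [mul_assoc, mul_comm, mul_left_comm, one_mul])
  have hfu : ∀ u : Lˣ, unitsF f u = u ^ q := unitsF_eq hf
  obtain ⟨v2, v1, v3, v0⟩ := FTh_vals f c
  rw [← hC] at v2 v1 v3 v0
  -- the equations for `δ`
  have d0 : δ i0 = C i0 * (c i0)⁻¹ := by
    rw [hδdef, Pi.mul_apply, Pi.inv_apply, sB_i0]
  have d1 : δ i1 = C i0 * C i2 * C i3 * (C i1)⁻¹ * (c i1)⁻¹ := by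
    rw [hδdef, Pi.mul_apply, Pi.inv_apply, sB_i1]
  have d2 : δ i2 = C i2 * (c i2)⁻¹ := by
    rw [hδdef, Pi.mul_apply, Pi.inv_apply, sB_i2]
  have d3 : δ i3 = C i3 * (c i3)⁻¹ := by
    rw [hδdef, Pi.mul_apply, Pi.inv_apply, sB_i3]
  have f3 : unitsF f (c i3) = δ i0 * c i0 := by
    rw [d0, ← v0]
    group
  have f0 : unitsF f (c i0) = δ i2 * c i2 := by
    rw [d2, ← v2]
    group
  have f2 : unitsF f (c i2) = δ i3 * c i3 := by
    rw [d3, ← v3]
    group
  have f1 : unitsF f (c i3) * unitsF f (c i0) * unitsF f (c i2) = unitsF f (c i1) * c i1 := by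
    have h := d1
    rw [h1] at h
    have e : C i0 * C i2 * C i3 = C i1 * c i1 := by
      calc C i0 * C i2 * C i3 = (C i0 * C i2 * C i3 * (C i1)⁻¹ * (c i1)⁻¹) * (c i1 * C i1) := by group
        _ = C i1 * c i1 := by rw [← h, one_mul, mul_comm]
    rw [v0, v2, v3, v1] at e
    exact e
  -- new coordinates
  set a := c i0 * δ i3 with ha
  set a₂ := c i2 * δ i0 with ha₂
  set a₃ := c i3 * δ i2 with ha₃
  set b := c i1 with hb
  have e23 : δ i2 * δ i3 = δ i0 := by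
    have : δ i0 * (δ i2 * δ i3) = 1 := by rw [← mul_assoc]; exact h023
    have h5 := eq_inv_of_mul_eq_one_right this
    rw [hinv] at h5
    exact h5
  have e03 : δ i0 * δ i3 = δ i2 := by
    have : δ i2 * (δ i0 * δ i3) = 1 := by
      rw [← h023]
      simp only [mul_assoc, mul_comm, mul_left_comm]
    have h5 := eq_inv_of_mul_eq_one_right this
    rw [hinv] at h5
    exact h5
  have e02 : δ i0 * δ i2 = δ i3 := by
    have : δ i3 * (δ i0 * δ i2) = 1 := by
      rw [← h023]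
      simp only [mul_assoc, mul_comm, mul_left_comm]
    have h5 := eq_inv_of_mul_eq_one_right this
    rw [hinv] at h5
    exact h5
  have g1 : a ^ q = a₂ := by
    rw [← hfu, ha, map_mul, f0, unitsF_sq (hsq i3) f, ha₂, ← e23]
    simp only [mul_assoc, mul_comm, mul_left_comm]
  have g2 : a₂ ^ q = a₃ := by
    rw [← hfu, ha₂, map_mul, f2, unitsF_sq (hsq i0) f, ha₃, ← e03]
    simp only [mul_assoc, mul_comm, mul_left_comm]
  have g3 : a₃ ^ q = a := by
    rw [← hfu, ha₃, map_mul, f3, unitsF_sq (hsq i2) f, ha, ← e02]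
    simp only [mul_assoc, mul_comm, mul_left_comm]
  have g4 : b ^ (q + 1) = a * a₂ * a₃ := by
    have e1 : b ^ (q + 1) = unitsF f b * b := by
      rw [hfu, pow_succ]
    rw [e1, hb, ← f1, f3, f0, f2, ha, ha₂, ha₃]
    have e5 : δ i0 * c i0 * (δ i2 * c i2) * (δ i3 * c i3) = (δ i0 * δ i2 * δ i3) * (c i0 * c i2 * c i3) := by
      simp only [mul_assoc, mul_comm, mul_left_comm]
    have e6 : c i0 * δ i3 * (c i2 * δ i0) * (c i3 * δ i2) = (δ i0 * δ i2 * δ i3) * (c i0 * c i2 * c i3) := by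
      simp only [mul_assoc, mul_comm, mul_left_comm]
    rw [e5, e6]
  set x := b * a₂⁻¹ with hx
  have p1 : x ^ (q + 1) = a := by
    rw [hx, mul_pow, g4, inv_pow, pow_succ a₂, g2, mul_inv_eq_iff_eq_mul, mul_assoc, mul_comm a₂ a₃]
  have p0 : psi q x i0 = a := by
    rw [psi_i0, p1]
  have p1' : psi q x i1 = b := by
    rw [psi_i1]
    have e : q ^ 2 + q + 1 = (q + 1) * q + 1 := by ring
    rw [e, pow_succ, pow_mul, p1, g1, hx, mul_comm, inv_mul_cancel_right]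
  have p2 : psi q x i2 = a₂ := by
    rw [psi_i2]
    have e : q ^ 2 + q = (q + 1) * q := by ring
    rw [e, pow_mul, p1, g1]
  have p3 : psi q x i3 = a₃ := by
    rw [psi_i3]
    have e : q ^ 3 + q ^ 2 = ((q + 1) * q) * q := by ring
    rw [e, pow_mul, pow_mul, p1, g1, g2]
  refine ⟨x, ?_, ?_⟩
  · have hq3 : 1 ≤ q ^ 3 := Nat.one_le_pow _ _ hq
    have e1 : a ^ (q ^ 3) = a := by
      have e : q ^ 3 = q * q * q := by ring
      rw [e, pow_mul, pow_mul, g1, g2, g3]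
    have e2 : a ^ (q ^ 3 - 1) = 1 := by
      have h5 : a ^ (q ^ 3 - 1) * a = a := by
        rw [← pow_succ, Nat.sub_add_cancel hq3, e1]
      exact mul_eq_right.1 h5
    rw [mul_comm, pow_mul, p1, e2]
  · -- the correction
    set z := (sc f).FTh δ with hz
    have htz : tor RootD4T.R chevD4 z = (1 : GL chevD4.Idx L) := by
      have := (sc f).s_tor δ
      rw [htδ, Tw.s_one] at this
      exact this.symm
    obtain ⟨z2, z1, z3, z0⟩ := FTh_vals f δ
    rw [← hz] at z2 z1 z3 z0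
    have hpsi : psi q x = c * z := by
      apply fin_ext
      · rw [p0, Pi.mul_apply, z0, unitsF_sq (hsq i3) f]
      · rw [p1', Pi.mul_apply, z1, h1, map_one, mul_one]
      · rw [p2, Pi.mul_apply, z2, unitsF_sq (hsq i0) f]
      · rw [p3, Pi.mul_apply, z3, unitsF_sq (hsq i2) f]
    rw [Psi_apply, hpsi, ← tor_mul, htz, mul_one]

end Twist

end Cfsg.Agent.Lib.D4Tor50
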