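import Cfsg.Agent.Lib.D4Tor50C
import Cfsg.Agent.Lib.FixIso

/-!
# A cyclic torus of `³D₄(q)`: regularity, fixed points and the main theorem
-/

set_option autoImplicit false
set_option linter.unusedSectionVars false
set_option linter.unusedVariables false
set_option linter.unusedSimpArgs false

namespace Cfsg.Agent.Lib.D4Tor50

open Cfsg Cfsg.Lie Cfsg.Agent.Lib.Chev Cfsg.Agent.Lib.Chev.TwD4 Cfsg.Agent.Lib.ChevFix

section Reg

variable {L : Type*} [Field L]

theorem NN_cast {q : ℕ} (hq : 1 ≤ q) : NN (q : ℤ) = (((q ^ 3 - 1) * (q + 1) : ℕ) : ℤ) := by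
  unfold NN
  have h : 1 ≤ q ^ 3 := Nat.one_le_pow _ _ hq
  push_cast [Nat.cast_sub h]
  ring

theorem reg1 {q : ℕ} (hq : 2 ≤ q) {z : Lˣ} (hz : orderOf z = (q ^ 3 - 1) * (q + 1)) (r : ℕ) (hr : r < chevD4.nroots) :
    chiT chevD4 (psi q z) r ≠ 1 := by
  rw [chiT_psi]
  intro h
  have h2 := orderOf_dvd_iff_zpow_eq_one.2 h
  rw [hz, ← NN_cast (by omega)] at h2
  exact EE_not_dvd_single hq ⟨r, hr⟩ h2

theorem add3_a : Add3 18 14 19 ∧ Add3 17 18 22 ∧ Add3 17 19 23 := by
  unfold Add3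
  decide +kernel

theorem reg2 [Fintype L] {q : ℕ} (hq : 2 ≤ q) {z : Lˣ} (hz : orderOf z = (q ^ 3 - 1) * (q + 1))
    (n : ↥(chevD4.monomialSubgroup L))
    (hn : ∀ s : Fin chevD4.nroots, chiT chevD4 (psi q z) (hF.rhoN L n s) = chiT chevD4 (psi q z) s) :
    n.1 ∈ chevD4.diagonalSubgroup L := by
  have key : ∀ s : Fin chevD4.nroots, NN (q : ℤ) ∣ EE (q : ℤ) (hF.rhoN L n s) - EE (q : ℤ) s := by
    intro s
    have h := hn s
    rw [chiT_psi, chiT_psi] at h
    rw [NN_cast (by omega), ← hz, orderOf_dvd_iff_zpow_eq_one, _root_.zpow_sub, h, mul_inv_cancel]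
  apply hF.mem_diagonal_of_pos'
  intro x hx
  by_cases h3 : 3 ≤ q
  · have e : hF.rhoN L n x = x := by
      by_contra hne
      exact EE_not_dvd_pair h3 (r := ⟨_, (hF.rhoN L n x).2⟩) (s := ⟨_, x.2⟩)
        (fun e => hne (Fin.ext (congrArg Fin.val e))) (key x)
    rw [e]
    exact hx
  · have q2 : q = 2 := by omega
    subst q2
    have hσ := hF.rhoN_mem_Wk (F := L) n
    set σ := hF.rhoN L n with hσdef
    have key2 : ∀ s : Fin chevD4.nroots, σ s = s ∨ ((σ s).1 ∈ [0, 14, 22] ∧ s.1 ∈ [0, 14, 22]) ∨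
        ((σ s).1 ∈ [1, 9, 23] ∧ s.1 ∈ [1, 9, 23]) := by
      intro s
      have h := key s
      have e1 : NN (((2 : ℕ) : ℤ)) = 21 := by decide +kernel
      rw [e1] at h
      have e2 : ((2 : ℕ) : ℤ) = 2 := rfl
      rw [e2] at h
      rcases tab_two ⟨_, (σ s).2⟩ ⟨_, s.2⟩ h with h4 | h4 | h4
      · exact Or.inl (Fin.ext (congrArg Fin.val h4))
      · exact Or.inr (Or.inl h4)
      · exact Or.inr (Or.inr h4)
    have hfix : ∀ s : Fin chevD4.nroots, s.1 ∉ [0, 14, 22] → s.1 ∉ [1, 9, 23] → σ s = s := by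
      intro s h1 h2
      rcases key2 s with h4 | h4 | h4
      · exact h4
      · exact absurd h4.2 h1
      · exact absurd h4.2 h2
    have hadd := add_Wk hσ
    have a17 : σ ⟨17, by decide⟩ = ⟨17, by decide⟩ := hfix _ (by decide) (by decide)
    have a18 : σ ⟨18, by decide⟩ = ⟨18, by decide⟩ := hfix _ (by decide) (by decide)
    have a19 : σ ⟨19, by decide⟩ = ⟨19, by decide⟩ := hfix _ (by decide) (by decide)
    obtain ⟨t1, t2, t3⟩ := add3_a
    have a14 : σ ⟨14, by decide⟩ = ⟨14, by decide⟩ := by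
      have h5 := (hadd ⟨18, by decide⟩ ⟨14, by decide⟩ ⟨19, by decide⟩).1 t1
      rw [a18, a19] at h5
      apply tab_inj'
      intro i hi
      have h6 := h5 i hi
      have h7 := t1 i hi
      show chevD4.cartan i ↑(σ ⟨14, by decide⟩) = chevD4.cartan i 14
      have h6' : chevD4.cartan i 18 + chevD4.cartan i ↑(σ ⟨14, by decide⟩) = chevD4.cartan i 19 := h6
      linarith
    have a22 : σ ⟨22, by decide⟩ = ⟨22, by decide⟩ := by
      have h5 := (hadd ⟨17, by decide⟩ ⟨18, by decide⟩ ⟨22, by decide⟩).1 t2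
      rw [a17, a18] at h5
      apply tab_inj'
      intro i hi
      have h6 := h5 i hi
      have h7 := t2 i hi
      show chevD4.cartan i ↑(σ ⟨22, by decide⟩) = chevD4.cartan i 22
      have h6' : chevD4.cartan i 17 + chevD4.cartan i 18 = chevD4.cartan i ↑(σ ⟨22, by decide⟩) := h6
      linarith
    have a23 : σ ⟨23, by decide⟩ = ⟨23, by decide⟩ := by
      have h5 := (hadd ⟨17, by decide⟩ ⟨19, by decide⟩ ⟨23, by decide⟩).1 t3
      rw [a17, a19] at h5
      apply tab_inj'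
      intro i hi
      have h6 := h5 i hi
      have h7 := t3 i hi
      show chevD4.cartan i ↑(σ ⟨23, by decide⟩) = chevD4.cartan i 23
      have h6' : chevD4.cartan i 17 + chevD4.cartan i 19 = chevD4.cartan i ↑(σ ⟨23, by decide⟩) := h6
      linarith
    have hx12 : 12 ≤ x.1 := hx
    have e : σ x = x := by
      by_cases c14 : x.1 = 14
      · have : x = ⟨14, by decide⟩ := Fin.ext c14
        rw [this]; exact a14
      by_cases c22 : x.1 = 22
      · have : x = ⟨22, by decide⟩ := Fin.ext c22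
        rw [this]; exact a22
      by_cases c23 : x.1 = 23
      · have : x = ⟨23, by decide⟩ := Fin.ext c23
        rw [this]; exact a23
      apply hfix
      · simp only [List.mem_cons, List.not_mem_nil, or_false]
        omega
      · simp only [List.mem_cons, List.not_mem_nil, or_false]
        omega
    rw [e]
    exact hx

end Reg

section Fix

variable {L : Type*} [Field L] [Fintype L]

theorem ker_vals {δ : Fin chevD4.rank → Lˣ} (htδ : tor RootD4T.R chevD4 δ = (1 : GL chevD4.Idx L)) :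
    δ i1 = 1 ∧ δ i2 * δ i3 = δ i0 ∧ δ i0 * δ i3 = δ i2 ∧ δ i0 * δ i2 = δ i3 := by
  have hsq : ∀ j, δ j ^ 2 = 1 := ker_sq htδ
  have hcart := (hF.tor_eq_one_iff δ).1 htδ
  obtain ⟨a0, a1, a2, a3, b0, b1, b2, b3⟩ := cartan_vals
  have j0 := hcart 0 (by decide)
  have j1 := hcart 1 (by decide)
  rw [cartanMap_expand] at j0 j1
  rw [a0, a1, a2, a3] at j0
  rw [b0, b1, b2, b3] at j1
  have s0 : δ i0 ^ (2 : ℤ) = 1 := by exact_mod_cast hsq i0
  have s1 : δ i1 ^ (2 : ℤ) = 1 := by exact_mod_cast hsq i1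
  have hi0 : (⟨0, by decide⟩ : Fin chevD4.rank) = i0 := rfl
  have hi1 : (⟨1, by decide⟩ : Fin chevD4.rank) = i1 := rfl
  have hi2 : (⟨2, by decide⟩ : Fin chevD4.rank) = i2 := rfl
  have hi3 : (⟨3, by decide⟩ : Fin chevD4.rank) = i3 := rfl
  simp only [hi0, hi1, hi2, hi3] at j0 j1
  have h1 : δ i1 = 1 := by
    simp only [s0, zpow_zero, mul_one, zpow_neg, zpow_one, one_mul] at j0
    simpa using j0
  have hinv : ∀ j, (δ j)⁻¹ = δ j := by
    intro j
    rw [inv_eq_iff_mul_eq_one, ← sq]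
    exact hsq j
  have h023 : δ i0 * δ i2 * δ i3 = 1 := by
    rw [h1] at j1
    simp only [one_zpow, mul_one, zpow_neg, zpow_one, hinv] at j1
    exact j1 ▸ (by
      simp only [mul_assoc, mul_comm, mul_left_comm, one_mul])
  refine ⟨h1, ?_, ?_, ?_⟩
  · have : δ i0 * (δ i2 * δ i3) = 1 := by rw [← mul_assoc]; exact h023
    have h5 := eq_inv_of_mul_eq_one_right this
    rw [hinv] at h5
    exact h5
  · have : δ i2 * (δ i0 * δ i3) = 1 := by
      rw [← h023]
      simp only [mul_assoc, mul_comm, mul_left_comm]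
    have h5 := eq_inv_of_mul_eq_one_right this
    rw [hinv] at h5
    exact h5
  · have : δ i3 * (δ i0 * δ i2) = 1 := by
      rw [← h023]
      simp only [mul_assoc, mul_comm, mul_left_comm]
    have h5 := eq_inv_of_mul_eq_one_right this
    rw [hinv] at h5
    exact h5

/-- Elements of the torus fixed by the twist come from fixed parameters, for any field automorphism. -/
theorem hκ' (f : L ≃+* L) (c : Fin chevD4.rank → Lˣ)
    (hc : tor RootD4T.R chevD4 ((sc f).FTh c) = (tor RootD4T.R chevD4 c : GL chevD4.Idx L)) :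
    ∃ c', (sc f).FTh c' = c' ∧ tor RootD4T.R chevD4 c' = (tor RootD4T.R chevD4 c : GL chevD4.Idx L) := by
  set δ := (sc f).FTh c * c⁻¹ with hδdef
  have htδ : tor RootD4T.R chevD4 δ = (1 : GL chevD4.Idx L) := by
    rw [hδdef, ← tor_mul, hc, ← tor_inv, mul_inv_cancel]
  obtain ⟨h1, e23, e03, e02⟩ := ker_vals htδ
  have hsq : ∀ j, δ j ^ 2 = 1 := ker_sq htδ
  set z := (sc f).FTh δ with hz
  have htz : tor RootD4T.R chevD4 z = (1 : GL chevD4.Idx L) := by
    have := (sc f).s_tor δ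
    rw [htδ, Tw.s_one] at this
    exact this.symm
  have hd : ∀ j, (sc f).FTh c j = δ j * c j := by
    intro j
    rw [hδdef, Pi.mul_apply, Pi.inv_apply, inv_mul_cancel_right]
  obtain ⟨z2, z1, z3, z0⟩ := FTh_vals f δ
  rw [← hz, unitsF_sq (hsq _) f] at z2 z1 z3 z0
  obtain ⟨u2, u1, u3, u0⟩ := FTh_vals f c
  obtain ⟨v2, v1, v3, v0⟩ := FTh_vals f (c * z)
  have hsqz : ∀ j, z j ^ 2 = 1 := ker_sq htz
  refine ⟨c * z, ?_, by rw [← tor_mul, htz, mul_one]⟩
  apply fin_ext
  · rw [v0, Pi.mul_apply, map_mul, Pi.mul_apply, unitsF_sq (hsqz _) f, ← u0, hd, z3, z0, ← e02]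
    simp only [mul_assoc, mul_comm, mul_left_comm]
  · rw [v1, Pi.mul_apply, map_mul, unitsF_sq (hsqz _) f, ← u1, hd, h1, one_mul]
  · rw [v2, Pi.mul_apply, map_mul, Pi.mul_apply, unitsF_sq (hsqz _) f, ← u2, hd, z0, z2, ← e23]
    simp only [mul_assoc, mul_comm, mul_left_comm]
  · rw [v3, Pi.mul_apply, map_mul, Pi.mul_apply, unitsF_sq (hsqz _) f, ← u3, hd, z2, z3, ← e03]
    simp only [mul_assoc, mul_comm, mul_left_comm]

theorem Fx_le (f : L ≃+* L) : (τ f).Fx ≤ (sc f).G1 :=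
  Cfsg.Agent.Lib.FixIso.Fx_le_G1 (sc f) (hκ' f) (hmem f)

end Fix

section Map

variable {K L : Type*} [Field K] [Field L] [Fintype K] [Fintype L] [Algebra K L] {f : K ≃+* K} {fL : L ≃+* L}

theorem iter_alg (halg : ∀ x, fL (algebraMap K L x) = algebraMap K L (f x)) (k : ℕ) (t : K) :
    fL^[k] (algebraMap K L t) = algebraMap K L (f^[k] t) := by
  induction k with
  | zero => rfl
  | succ k ih => rw [Function.iterate_succ_apply', Function.iterate_succ_apply', ih, halg]

theorem cw_alg (halg : ∀ x, fL (algebraMap K L x) = algebraMap K L (f x)) (ρ' : ℕ → ℕ) (r d : ℕ) (t : K) :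
    (cw ρ' f r d t).map (fun p => (p.1, algebraMap K L p.2)) = cw ρ' fL r d (algebraMap K L t) := by
  unfold cw
  rw [List.map_map]
  apply List.map_congr_left
  intro k _
  simp only [Function.comp_apply, iter_alg halg]

theorem G1_map_le (halg : ∀ x, fL (algebraMap K L x) = algebraMap K L (f x)) :
    ((sc f).G1).map (glM chevD4 (algebraMap K L)) ≤ (sc fL).G1 := by
  unfold SCOK.G1
  rw [MonoidHom.map_closure, Subgroup.closure_le]
  rintro _ ⟨g, ⟨i, hi, t, ht, rfl | rfl⟩, rfl⟩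
  · apply Subgroup.subset_closure
    refine ⟨i, hi, algebraMap K L t, ?_, Or.inl ?_⟩
    · rw [iter_alg halg, ht]
    · rw [Fix.glM_wordG hF, cw_alg halg]
  · apply Subgroup.subset_closure
    refine ⟨i, hi, algebraMap K L t, ?_, Or.inr ?_⟩
    · rw [iter_alg halg, ht]
    · rw [Fix.glM_wordG hF, cw_alg halg]

theorem dd_iter {i : ℕ} (hi : i < chevD4.rank) {t : L} (h : fL^[dd i] t = t) : fL^[3] t = t := by
  have hi' : i < 4 := hi
  interval_cases i
  · exact h
  · have h1 : fL t = t := h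
    show fL (fL (fL t)) = t
    rw [h1, h1, h1]
  · exact h
  · exact h

theorem G1_le_map (halg : ∀ x, fL (algebraMap K L x) = algebraMap K L (f x))
    (hfix : ∀ t : L, fL^[3] t = t → ∃ t₀, algebraMap K L t₀ = t) :
    (sc fL).G1 ≤ ((sc f).G1).map (glM chevD4 (algebraMap K L)) := by
  unfold SCOK.G1
  rw [Subgroup.closure_le]
  rintro g ⟨i, hi, t, ht, rfl | rfl⟩
  · obtain ⟨t₀, rfl⟩ := hfix t (dd_iter hi ht)
    refine ⟨_, Subgroup.subset_closure ⟨i, hi, t₀, ?_, Or.inl rfl⟩, ?_⟩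
    · apply (algebraMap K L).injective
      rw [← iter_alg halg, ht]
    · show glM chevD4 (algebraMap K L) _ = _
      rw [Fix.glM_wordG hF, cw_alg halg]
  · obtain ⟨t₀, rfl⟩ := hfix t (dd_iter hi ht)
    refine ⟨_, Subgroup.subset_closure ⟨i, hi, t₀, ?_, Or.inr rfl⟩, ?_⟩
    · apply (algebraMap K L).injective
      rw [← iter_alg halg, ht]
    · show glM chevD4 (algebraMap K L) _ = _
      rw [Fix.glM_wordG hF, cw_alg halg]

theorem mem_range_pow {x : L} (h : x ^ Fintype.card K = x) : ∃ y, algebraMap K L y = x := by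
  classical
  set q := Fintype.card K with hq
  have hq2 : 1 < q := Fintype.one_lt_card
  have hne : (Polynomial.X ^ q - Polynomial.X : Polynomial L) ≠ 0 := FiniteField.X_pow_card_sub_X_ne_zero L hq2
  set R := (Polynomial.X ^ q - Polynomial.X : Polynomial L).roots.toFinset with hR
  have hRcard : R.card ≤ q := by
    calc R.card ≤ Multiset.card (Polynomial.X ^ q - Polynomial.X : Polynomial L).roots := Multiset.toFinset_card_le _
      _ ≤ (Polynomial.X ^ q - Polynomial.X : Polynomial L).natDegree := Polynomial.card_roots' _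
      _ = q := FiniteField.X_pow_card_sub_X_natDegree_eq L hq2
  have hmem : ∀ u : L, u ∈ R ↔ u ^ q = u := by
    intro u
    simp only [hR, Multiset.mem_toFinset, Polynomial.mem_roots hne, Polynomial.IsRoot.def, Polynomial.eval_sub,
      Polynomial.eval_pow, Polynomial.eval_X, sub_eq_zero]
  have hsub : (Finset.univ.image (algebraMap K L)) ⊆ R := by
    intro u hu
    obtain ⟨y, -, rfl⟩ := Finset.mem_image.1 hu
    rw [hmem, ← map_pow, hq, FiniteField.pow_card]
  have hcard : (Finset.univ.image (algebraMap K L)).card = q := by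
    rw [Finset.card_image_of_injective _ (algebraMap K L).injective, Finset.card_univ]
  have heq := Finset.eq_of_subset_of_card_le hsub (by rw [hcard]; exact hRcard)
  have hx : x ∈ R := (hmem x).2 h
  rw [← heq] at hx
  obtain ⟨y, -, rfl⟩ := Finset.mem_image.1 hx
  exact ⟨y, rfl⟩

/-- The main theorem, given the extension of degree two. -/
theorem core (q : ℕ) (hq : IsPrimePow q) (hK : Fintype.card K = q ^ 3) (hL : Fintype.card L = q ^ 6) :
    ∃ H : Subgroup ↥(twistedD4 K q), IsCyclic ↥H ∧ Nat.card ↥H = (q ^ 3 - 1) * (q + 1) ∧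
      Subgroup.centralizer (H : Set ↥(twistedD4 K q)) = H := by
  classical
  have hq2 : 2 ≤ q := hq.two_le
  have hq1 : 1 ≤ q := by omega
  obtain ⟨f, hf, hf3⟩ := exists_frob3 hq hK
  obtain ⟨fL, hfL⟩ := exists_frob hq hL (by norm_num)
  have halg : ∀ x : K, fL (algebraMap K L x) = algebraMap K L (f x) := by
    intro x
    rw [hf, hfL, map_pow]
  have hfix : ∀ t : L, fL^[3] t = t → ∃ t₀, algebraMap K L t₀ = t := by
    intro t ht
    rw [iter_frob hfL] at ht
    exact mem_range_pow (K := K) (by rw [hK]; exact ht)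
  set ι := glM chevD4 (algebraMap K L) with hιdef
  have hG1 : (sc f).G1 = twistedD4 K q := G1_eq f hf hf3
  have hFx : (τ fL).Fx ≤ (twistedD4 K q).map ι := by
    rw [← hG1]
    exact (Fx_le fL).trans (G1_le_map halg hfix)
  have hFx' : (twistedD4 K q).map ι ≤ (τ fL).Fx := by
    rw [← hG1]
    exact (G1_map_le halg).trans (sc fL).G1_le_Fx
  -- arithmetic
  set N := (q ^ 3 - 1) * (q + 1) with hN
  have hN0 : N ≠ 0 := by
    have h1 : 1 < q ^ 3 := Nat.one_lt_pow (by norm_num) (by omega)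
    exact Nat.mul_ne_zero (by omega) (by omega)
  set m := q ^ 2 - q + 1 with hm
  have hm0 : m ≠ 0 := by omega
  have hqq : q ≤ q ^ 2 := Nat.le_self_pow (by norm_num) q
  have hq6 : q ^ 6 - 1 = m * N := by
    have h1 : 1 ≤ q ^ 3 := Nat.one_le_pow _ _ (by omega)
    have h6 : 1 ≤ q ^ 6 := Nat.one_le_pow _ _ (by omega)
    zify [hN, hm, hqq, h1, h6]
    ring
  have hq6' : q ^ 6 - 1 = (q ^ 2 - 1) * (q ^ 4 + q ^ 2 + 1) := by
    have h1 : 1 ≤ q ^ 2 := Nat.one_le_pow _ _ (by omega)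
    have h6 : 1 ≤ q ^ 6 := Nat.one_le_pow _ _ (by omega)
    zify [h1, h6]
    ring
  -- the generator of the multiplicative group
  obtain ⟨γ, hγ⟩ := IsCyclic.exists_generator (α := Lˣ)
  have hordγ : orderOf γ = m * N := by
    rw [orderOf_eq_card_of_forall_mem_zpowers hγ, Nat.card_eq_fintype_card, Fintype.card_units, hL, hq6]
  set z := γ ^ m with hz
  have hordz : orderOf z = N := by
    rw [hz, orderOf_pow' γ hm0, hordγ, Nat.gcd_eq_right (Nat.dvd_mul_right _ _),
      Nat.mul_div_cancel_left _ (Nat.pos_of_ne_zero hm0)]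
  have hzN : z ^ N = 1 := by rw [← hordz]; exact pow_orderOf_eq_one z
  -- the element `ε`
  obtain ⟨ε, hε1, hε2⟩ : ∃ ε : L, fL (fL ε) = ε ∧ fL ε ≠ ε := by
    set u := γ ^ (q ^ 4 + q ^ 2 + 1) with hu
    have hu0 : q ^ 4 + q ^ 2 + 1 ≠ 0 := by omega
    have hordγ' : orderOf γ = (q ^ 2 - 1) * (q ^ 4 + q ^ 2 + 1) := by rw [hordγ, ← hq6, hq6']
    have hordu : orderOf u = q ^ 2 - 1 := by
      rw [hu, orderOf_pow' γ hu0, hordγ', Nat.gcd_eq_right (Nat.dvd_mul_left _ _),
        Nat.mul_div_cancel _ (Nat.pos_of_ne_zero hu0)]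
    have h2 : 1 ≤ q ^ 2 := Nat.one_le_pow _ _ (by omega)
    have huu : u ^ (q ^ 2) = u := by
      have h5 : u ^ (q ^ 2 - 1) = 1 := by rw [← hordu]; exact pow_orderOf_eq_one u
      calc u ^ (q ^ 2) = u ^ (q ^ 2 - 1) * u := by rw [← pow_succ, Nat.sub_add_cancel h2]
        _ = u := by rw [h5, one_mul]
    refine ⟨(u : L), ?_, ?_⟩
    · rw [hfL, hfL, ← pow_mul, ← sq, ← Units.val_pow_eq_pow_val, huu]
    · rw [hfL]
      intro h
      have h3 : u ^ q = u := Units.ext (by rw [Units.val_pow_eq_pow_val]; exact h)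
      have h4 : u ^ (q - 1) = 1 := by
        have h5 : u ^ (q - 1) * u = u := by rw [← pow_succ, Nat.sub_add_cancel hq1, h3]
        exact mul_eq_right.1 h5
      have h6 := orderOf_dvd_of_pow_eq_one h4
      rw [hordu] at h6
      have h7 := Nat.le_of_dvd (by omega) h6
      have h8 : q ^ 2 = q * q := sq q
      have h9 : 2 * q ≤ q * q := Nat.mul_le_mul_right q hq2
      omega
  set y := yy fL ε with hy
  have hyG : y ∈ chevD4.group L := yy_mem fL ε
  set s₀' := y * Psi q z * y⁻¹ with hs₀'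
  have htorG : ∀ c, tor RootD4T.R chevD4 c ∈ chevD4.group L := fun c =>
    hF.c.diagonal_le_group ((hF.mem_diagonal_iff).2 ⟨c, rfl⟩)
  have hs₀Fx : s₀' ∈ (τ fL).Fx := by
    refine ⟨mul_mem (mul_mem hyG (htorG _)) (inv_mem hyG), ?_⟩
    rw [hs₀', Psi_apply, s_conj fL hε1 hε2, sB_FTh_psi hfL hq1 hzN]
  obtain ⟨s₀, hs₀, hιs₀⟩ := hFx hs₀Fx
  have hιs₀pow : ∀ k : ℤ, ι (s₀ ^ k) = y * Psi q (z ^ k) * y⁻¹ := by
    intro k
    rw [map_zpow, hιs₀, hs₀', map_zpow, conj_zpow]
  have hpow : ∀ k : ℕ, s₀ ^ k = 1 ↔ z ^ k = 1 := by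
    intro k
    have h0 := hιs₀pow (k : ℤ)
    simp only [zpow_natCast] at h0
    constructor
    · intro h
      rw [h, map_one] at h0
      have h2 : Psi q (z ^ k) = 1 := by
        have e : Psi q (z ^ k) = y⁻¹ * (y * Psi q (z ^ k) * y⁻¹) * y := by group
        rw [e, ← h0]
        group
      exact (injective_iff_map_eq_one (Psi (L := L) q)).1 (Psi_injective q) _ h2
    · intro h
      apply glM_injective chevD4 (algebraMap K L)
      rw [h0, h, map_one, map_one, mul_one, mul_inv_cancel]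
  refine ⟨Subgroup.zpowers ⟨s₀, hs₀⟩, inferInstance, ?_, ?_⟩
  · rw [Nat.card_zpowers, Subgroup.orderOf_mk, orderOf_eq_orderOf_iff.2 hpow, hordz]
  · ext g
    constructor
    · intro hg
      have hcomm : g.1 * s₀ = s₀ * g.1 := by
        have h1 := Subgroup.mem_centralizer_iff.1 hg ⟨s₀, hs₀⟩ (Subgroup.mem_zpowers _)
        exact (congrArg Subtype.val h1).symm
      have hιgFx : ι g.1 ∈ (τ fL).Fx := hFx' ⟨g.1, g.2, rfl⟩
      have hcomm2 : ι g.1 * s₀' = s₀' * ι g.1 := by
        rw [← hιs₀, ← map_mul, ← map_mul, hcomm]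
      set g' := y⁻¹ * ι g.1 * y with hg'
      have hg'mem : g' ∈ chevD4.group L := mul_mem (mul_mem (inv_mem hyG) hιgFx.1) hyG
      have hg'comm : g' * tor RootD4T.R chevD4 (psi q z) = tor RootD4T.R chevD4 (psi q z) * g' := by
        rw [hs₀', Psi_apply] at hcomm2
        have e1 : g' * tor RootD4T.R chevD4 (psi q z) = y⁻¹ * (ι g.1 * (y * tor RootD4T.R chevD4 (psi q z) * y⁻¹)) * y := by
          rw [hg']; group
        have e2 : tor RootD4T.R chevD4 (psi q z) * g' = y⁻¹ * ((y * tor RootD4T.R chevD4 (psi q z) * y⁻¹) * ι g.1) * y := by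
          rw [hg']; group
        rw [e1, e2, hcomm2]
      have hdiag := Cfsg.Agent.Lib.ChevReg250.mem_diagonal_of_comm2 hF (psi q z) (reg1 hq2 hordz) (reg2 hq2 hordz)
        hg'mem hg'comm
      obtain ⟨c, hc⟩ := (hF.mem_diagonal_iff).1 hdiag
      have hιg : ι g.1 = y * tor RootD4T.R chevD4 c * y⁻¹ := by
        rw [← hc, hg']
        group
      have hfixg := hιgFx.2
      rw [hιg, s_conj fL hε1 hε2] at hfixg
      have h5 : tor RootD4T.R chevD4 (sB ((sc fL).FTh c)) = (tor RootD4T.R chevD4 c : GL chevD4.Idx L) :=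
        mul_left_cancel (mul_right_cancel hfixg)
      obtain ⟨x, hxN, hxc⟩ := exists_psi hfL hq1 c h5
      -- `x` is a power of `z`
      obtain ⟨k, hk⟩ := Subgroup.mem_zpowers_iff.1 (hγ x)
      have hdvd : ((orderOf γ : ℕ) : ℤ) ∣ k * N := by
        rw [orderOf_dvd_iff_zpow_eq_one, _root_.zpow_mul, hk]
        exact_mod_cast hxN
      rw [hordγ] at hdvd
      have hdvd2 : ((m : ℕ) : ℤ) ∣ k := by
        rw [Nat.cast_mul] at hdvd
        have hN0' : (N : ℤ) ≠ 0 := by exact_mod_cast hN0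
        exact (mul_dvd_mul_iff_right hN0').1 hdvd
      obtain ⟨k', rfl⟩ := hdvd2
      have hx : x = z ^ k' := by
        rw [← hk, hz, ← zpow_natCast, ← _root_.zpow_mul]
      have hg1 : g.1 = s₀ ^ k' := by
        apply glM_injective chevD4 (algebraMap K L)
        rw [hιs₀pow, ← hx, ← hxc]
        exact hιg
      refine Subgroup.mem_zpowers_iff.2 ⟨k', ?_⟩
      apply Subtype.ext
      rw [hg1]
      simp
    · intro hg
      obtain ⟨k, rfl⟩ := Subgroup.mem_zpowers_iff.1 hg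
      refine Subgroup.mem_centralizer_iff.2 ?_
      intro h hh
      obtain ⟨l, rfl⟩ := Subgroup.mem_zpowers_iff.1 hh
      exact zpow_mul_comm _ _ _

end Map

end Cfsg.Agent.Lib.D4Tor50
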