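import Cfsg.Agent.Lib.StRootJ50
import Mathlib.GroupTheory.FiniteAbelian.Duality
import Mathlib.RingTheory.RootsOfUnity.AlgebraicallyClosed

/-!
# A nondegenerate linear character of the unipotent subgroup
-/

set_option autoImplicit false
set_option linter.unusedSectionVars false
set_option linter.unusedVariables false

namespace Cfsg.Agent.Lib.StChev50

open Cfsg Cfsg.Lie Cfsg.Agent.Lib.Chev Cfsg.Agent.Lib.StBN50 Cfsg.Agent.Lib.BNPair

variable {F : Type*} [Field F] {T : Tabs} {X : Extra} {R : RootTab} {D : ChevalleyDatum}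
  (hF : Full T X R D)

include hF

theorem simple_not_inRootSub {i j : ℕ} (hj : j < D.rank) (hji : j ≠ i) :
    ¬ D.InRootSub ({i} : Set ℕ) (D.simple j) := by
  intro h
  have h1 := ((hF.inRootSub_iff).1 h).2 j hj (by simpa using hji)
  rw [hF.simple_rc hj hj, if_pos rfl] at h1
  exact one_ne_zero h1

theorem simple_isPos {j : ℕ} (hj : j < D.rank) : D.IsPosRoot (D.simple j) :=
  (hF.isPos_iff).2 ⟨hF.simple_lt hj, hF.simple_ge hj⟩

/-- `U = U_{i} X_{α_i}` -/
theorem exists_radical_mul {i : ℕ} (hi : i < D.rank) {a : GL D.Idx F} (ha : a ∈ D.posUnipotent F) :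
    ∃ r ∈ D.unipotentRadical F ({i} : Set ℕ), ∃ t : F, a = r * hF.c.xG (D.simple i) t := by
  let φ₀ : Multiplicative F →* GL D.Idx F :=
    MonoidHom.mk' (fun t => hF.c.xG (D.simple i) (Multiplicative.toAdd t)) (by
      intro s t
      rw [toAdd_mul, hF.c.xG_add])
  have hnorm : φ₀.range ≤ Subgroup.normalizer (D.unipotentRadical F ({i} : Set ℕ) : Set (GL D.Idx F)) := by
    rintro _ ⟨t, rfl⟩
    rw [Full.unipotentRadical_eq]
    exact hF.xG_mem_normalizer_UJ (Or.inl (simple_isPos hF hi)) _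
  have hle : D.posUnipotent F ≤ D.unipotentRadical F ({i} : Set ℕ) ⊔ φ₀.range := by
    rw [ChevalleyDatum.posUnipotent, Subgroup.closure_le]
    rintro g ⟨r, t, hr, hg⟩
    by_cases hrJ : D.InRootSub ({i} : Set ℕ) r
    · refine Subgroup.mem_sup_right ⟨Multiplicative.ofAdd t, ?_⟩
      have hr' := (hF.isPos_iff).1 hr
      have hs : r = D.simple i := by
        apply hF.r.only_simple r hr'.1 hr'.2 i hi
        intro j hj
        by_cases hji : j = i
        · exact Or.inl hji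
        · exact Or.inr (((hF.inRootSub_iff).1 hrJ).2 j hj (by simpa using hji))
      subst hs
      rw [hF.c.eq_xG hg]
      rfl
    · exact Subgroup.mem_sup_left (Subgroup.subset_closure ⟨r, t, hr, hrJ, hg⟩)
  obtain ⟨r, hr, k, ⟨t, rfl⟩, e⟩ := (GroupLem.mem_sup_iff_of_le_normalizer hnorm).1 (hle ha)
  exact ⟨r, hr, Multiplicative.toAdd t, e⟩

/-- A radical element with a root element. -/
theorem eq_of_radical_mul {i : ℕ} (hi : i < D.rank) {r r' : GL D.Idx F} {s t : F}
    (hr : r ∈ D.unipotentRadical F ({i} : Set ℕ)) (hr' : r' ∈ D.unipotentRadical F ({i} : Set ℕ))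
    (h : r * hF.c.xG (D.simple i) s = r' * hF.c.xG (D.simple i) t) : s = t := by
  have h1 : hF.c.xG (D.simple i) (s - t) = r⁻¹ * r' := by
    have e : hF.c.xG (D.simple i) (s - t) = hF.c.xG (D.simple i) s * (hF.c.xG (D.simple i) t)⁻¹ := by
      rw [hF.c.xG_inv, hF.c.xG_add, sub_eq_add_neg]
    rw [e, eq_inv_mul_iff_mul_eq, ← mul_assoc, h]
    group
  have h2 : hF.c.xG (D.simple i) (s - t) ∈ D.unipotentRadical F ({i} : Set ℕ) ⊓ D.leviSubgroup F ({i} : Set ℕ) := by
    refine ⟨?_, Subgroup.mem_sup_right (Subgroup.subset_closure ⟨_, _, hF.simple_inRootSub hi rfl, rfl⟩)⟩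
    rw [h1]
    exact Subgroup.mul_mem _ (Subgroup.inv_mem _ hr) hr'
  rw [hF.radical_inf_levi, Subgroup.mem_bot] at h2
  have h3 := congrArg (fun g : GL D.Idx F => (g : Matrix D.Idx D.Idx F)) h2
  simp only [Checks.coe_xG, Units.val_one] at h3
  exact sub_eq_zero.1 ((hF.c.x_eq_one_iff (hF.simple_lt hi) _).1 h3)

/-- The `i`-th coordinate on `U`. -/
theorem exists_coord {i : ℕ} (hi : i < D.rank) :
    ∃ c : ↥(D.posUnipotent F) →* Multiplicative F,
      (∀ (t : F) (h : hF.c.xG (D.simple i) t ∈ D.posUnipotent F),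
        c ⟨hF.c.xG (D.simple i) t, h⟩ = Multiplicative.ofAdd t) ∧
      ∀ (r : ↥(D.posUnipotent F)), (r : GL D.Idx F) ∈ D.unipotentRadical F ({i} : Set ℕ) → c r = 1 := by
  choose r hr f hf using fun a : ↥(D.posUnipotent F) => exists_radical_mul hF (F := F) hi a.2
  have hnorm : ∀ (x : GL D.Idx F), x ∈ D.posUnipotent F → ∀ y ∈ D.unipotentRadical F ({i} : Set ℕ),
      x * y * x⁻¹ ∈ D.unipotentRadical F ({i} : Set ℕ) := by
    intro x hx y hy
    have hp : x ∈ D.parabolicSubgroup F ({i} : Set ℕ) :=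
      hF.borel_le_parabolic _ (hF.c.posUnipotent_le_borel hx)
    exact (Subgroup.mem_set_normalizer_iff.1 (hF.parabolic_le_normalizer _ hp) y).1 hy
  have hU : ∀ t : F, hF.c.xG (D.simple i) t ∈ D.posUnipotent F := fun t =>
    hF.xG_mem_U (hF.simple_lt hi) (hF.simple_ge hi) t
  refine ⟨MonoidHom.mk' (fun a => Multiplicative.ofAdd (f a)) ?_, ?_, ?_⟩
  · intro a b
    show Multiplicative.ofAdd (f (a * b)) = Multiplicative.ofAdd (f a) * Multiplicative.ofAdd (f b)
    rw [← ofAdd_add]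
    congr 1
    have e : ((a * b : ↥(D.posUnipotent F)) : GL D.Idx F) =
        (r a * (hF.c.xG (D.simple i) (f a) * r b * (hF.c.xG (D.simple i) (f a))⁻¹)) *
          hF.c.xG (D.simple i) (f a + f b) := by
      have e1 := hf a
      have e2 := hf b
      rw [Subgroup.coe_mul, e1, e2, ← hF.c.xG_add]
      group
    apply eq_of_radical_mul hF hi (hr _) (Subgroup.mul_mem _ (hr a) (hnorm _ (hU _) _ (hr b)))
    rw [← hf (a * b), e]
  · intro t h
    show Multiplicative.ofAdd (f _) = _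
    congr 1
    apply eq_of_radical_mul hF hi (hr _) (Subgroup.one_mem _)
    rw [← hf, one_mul]
  · intro y hy
    show Multiplicative.ofAdd (f y) = 1
    have : f y = 0 := by
      apply eq_of_radical_mul hF hi (hr _) hy
      rw [← hf, hF.c.xG_zero, mul_one]
    rw [this]
    rfl

/-- The `i`-th coordinate of a linear character. -/
theorem exists_psi_i [Fintype F] (i : Fin D.rank) : ∃ ψ : ↥(D.posUnipotent F) →* ℂˣ,
    (∀ h, ψ ⟨hF.c.xG (D.simple i) (1 : F), h⟩ ≠ 1) ∧
    ∀ j : Fin D.rank, j ≠ i → ∀ h, ψ ⟨hF.c.xG (D.simple j) (1 : F), h⟩ = 1 := by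
  obtain ⟨c, hc1, hc2⟩ := exists_coord hF (F := F) i.2
  have hne : Multiplicative.ofAdd (1 : F) ≠ 1 := by
    intro h
    exact one_ne_zero (Multiplicative.ofAdd.injective (h.trans ofAdd_zero.symm))
  obtain ⟨l, hl⟩ := CommGroup.exists_apply_ne_one_of_hasEnoughRootsOfUnity (Multiplicative F) ℂ hne
  refine ⟨l.comp c, ?_, ?_⟩
  · intro h
    rw [MonoidHom.comp_apply, hc1]
    exact hl
  · intro j hj h
    rw [MonoidHom.comp_apply, hc2, map_one]
    have hjne : (j : ℕ) ≠ i := fun e => hj (Fin.ext e)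
    have hQ : Full.QU D ({(i : ℕ)} : Set ℕ) (D.simple j) :=
      ⟨simple_isPos hF j.2, simple_not_inRootSub hF j.2 hjne⟩
    rw [Full.unipotentRadical_eq]
    exact hF.xG_mem_rootClosure hQ _

/-- A nondegenerate linear character on `U`. -/
theorem exists_psi [Fintype F] : ∃ ψ : ↥(UU D F) →* ℂˣ, ∀ (i : Fin D.rank) (h : _),
    ψ ⟨⟨hF.c.xG (D.simple i) (1 : F), hF.c.xG_mem_group (hF.simple_lt i.2) 1⟩, h⟩ ≠ 1 := by
  classical
  choose ψi h1 h2 using fun i : Fin D.rank => exists_psi_i hF (F := F) i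
  let ψ₀ : ↥(D.posUnipotent F) →* ℂˣ := ∏ i : Fin D.rank, ψi i
  refine ⟨ψ₀.comp (Subgroup.subgroupOfEquivOfLe (U_le_group hF)).toMonoidHom, ?_⟩
  intro i h
  rw [MonoidHom.comp_apply]
  have h3 : (Subgroup.subgroupOfEquivOfLe (U_le_group hF)).toMonoidHom
      (⟨⟨hF.c.xG (D.simple i) (1 : F), hF.c.xG_mem_group (hF.simple_lt i.2) 1⟩, h⟩ : ↥(UU D F)) =
      ⟨hF.c.xG (D.simple i) (1 : F), Subgroup.mem_subgroupOf.1 h⟩ := rfl
  rw [h3]
  show (∏ j : Fin D.rank, ψi j) _ ≠ 1
  rw [MonoidHom.finsetProd_apply, Finset.prod_eq_single i]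
  · exact h1 i _
  · intro j _ hj
    exact h2 j i (Ne.symm hj) _
  · simp

end Cfsg.Agent.Lib.StChev50
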