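import Cfsg.Agent.Lib.GGAbs50
import Cfsg.Agent.Lib.DZPsi50
import Cfsg.Agent.Lib.Chev.Cells

/-!
# The Borel data of a Chevalley group; sizes of the cells
-/

set_option autoImplicit false
set_option linter.unusedSectionVars false
set_option linter.unusedVariables false
set_option linter.style.haveILetI false

namespace Cfsg.Agent.Lib.StChev50

open Cfsg Cfsg.Lie Cfsg.Agent.Lib.Chev Cfsg.Agent.Lib.StBN50 Cfsg.Agent.Lib.BNPair
open Cfsg.Agent.Lib.CoxLen50 Cfsg.Agent.Lib.ExchangeCoxeter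

variable {F : Type*} [Field F] {T : Tabs} {X : Extra} {R : RootTab} {D : ChevalleyDatum}
  (hF : Full T X R D)

include hF

theorem pos_of_right_ascent [hN : ((D.diagonalSubgroup F).subgroupOf (D.monomialSubgroup F)).Normal]
    (x : Fin D.rank) (w : WW (hF.bnPair F))
    (h : lW (hF.bnPair F) w < lW (hF.bnPair F) (w * pi (hF.bnPair F) (sig hF F x))) :
    R.N ≤ (((hF.rhoW F (psiW hF F w)) (hF.pF x) : Fin D.nroots) : ℕ) := by
  have hS := coxLen (P := hF.bnPair F)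
  by_contra hcon
  have h1 := lW_left_lt hF x w⁻¹ (by
    rw [map_inv, map_inv, inv_inv]
    exact hcon)
  have hs := pi_sig_mem hF (F := F) x
  have h2 : lW (hF.bnPair F) (pi (hF.bnPair F) (sig hF F x) * w⁻¹) =
      lW (hF.bnPair F) (w * pi (hF.bnPair F) (sig hF F x)) := by
    rw [← lW_inv, mul_inv_rev, inv_inv, hS.s_inv hs]
  rw [h2, lW_inv] at h1
  omega

theorem lW_eq_invF (n : ↥(D.group F)) (hn : n ∈ (hF.bnPair F).N) :
    lW (hF.bnPair F) (pi (hF.bnPair F) n) = Full.invF R D (hF.rhoN F (psiN hF F ⟨n, hn⟩)) := by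
  classical
  haveI hN := hF.diagonal_normal (F := F)
  have hS := coxLen (P := hF.bnPair F)
  induction hk : lW (hF.bnPair F) (pi (hF.bnPair F) n) using Nat.strong_induction_on generalizing n with
  | _ k ih =>
    by_cases hw : pi (hF.bnPair F) n = 1
    · have h0 : k = 0 := by
        rw [← hk, hw]
        exact (hS.zero_iff 1).2 rfl
      have h1 : n ∈ (hF.bnPair F).B := (pi_eq_one_iff hn).1 hw
      have h2 : n.1 ∈ D.borelSubgroup F ⊓ D.monomialSubgroup F :=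
        ⟨Subgroup.mem_subgroupOf.1 h1, Subgroup.mem_subgroupOf.1 hn⟩
      rw [hF.B_inf_N] at h2
      rw [hF.rhoN_of_mem_diagonal (psiN hF F ⟨n, hn⟩) h2, h0]
      symm
      unfold Full.invF
      rw [Finset.card_eq_zero, Finset.filter_eq_empty_iff]
      rintro r _ ⟨h3, h4⟩
      simp only [Equiv.Perm.one_apply] at h4
      omega
    · have hcl : pi (hF.bnPair F) n ∈ Subgroup.closure (SW (hF.bnPair F)) := by rw [hS.gen]; trivial
      obtain ⟨_, ⟨t, ht, rfl⟩, hd⟩ := hS.desc _ subset_rfl _ hcl hw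
      obtain ⟨i, hi, rfl⟩ := exists_sig hF ht
      have hi' := Finset.mem_range.1 hi
      have hsN : sig hF F i ∈ (hF.bnPair F).N := (hF.bnPair F).subset ht
      have h1 := neg_of_right_descent hF ⟨i, hi'⟩ (pi (hF.bnPair F) n) (by
        show lW (hF.bnPair F) (pi (hF.bnPair F) n * pi (hF.bnPair F) (sig hF F i)) < _
        omega)
      have h2 : pi (hF.bnPair F) (n * sig hF F i) = pi (hF.bnPair F) n * pi (hF.bnPair F) (sig hF F i) :=
        pi_mul hn hsN
      have hn' := (hF.bnPair F).N.mul_mem hn hsN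
      have h3 := ih (lW (hF.bnPair F) (pi (hF.bnPair F) n * pi (hF.bnPair F) (sig hF F i))) (by omega)
        (n * sig hF F i) hn' (by rw [h2])
      have h4 : hF.rhoN F (psiN hF F ⟨n * sig hF F i, hn'⟩) =
          hF.rhoN F (psiN hF F ⟨n, hn⟩) * hF.wPerm hi' := by
        have e : psiN hF F ⟨n * sig hF F i, hn'⟩ = psiN hF F ⟨n, hn⟩ * hF.nN hi' := by
          apply Subtype.ext
          show n.1 * (sig hF F i).1 = n.1 * hF.nS i
          rw [sig_of_lt hF hi']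
        rw [e, map_mul, hF.rhoN_nN]
      rw [h4] at h3
      have h5 : (((hF.rhoN F (psiN hF F ⟨n, hn⟩)) ⟨D.simple i, hF.simple_lt hi'⟩ : Fin D.nroots) : ℕ) < R.N := by
        rw [pi_of_mem hn, psiW_mk hF, hF.rhoW_mk] at h1
        exact h1
      have h6 := (hF.invF_mul (hF.rhoN_mem_Wk (psiN hF F ⟨n, hn⟩)) hi').2 h5
      rw [← hk]
      omega

/-- The cell in the group and in `GL`. -/
theorem card_del_chev [Fintype F] (n : ↥(D.group F)) (hn : n ∈ (hF.bnPair F).N) :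
    Nat.card {g : ↥(D.group F) // del (hF.bnPair F) g = pi (hF.bnPair F) n} =
      Nat.card (D.borelSubgroup F) * Fintype.card F ^ lW (hF.bnPair F) (pi (hF.bnPair F) n) := by
  have h1 := hF.card_cell (F := F) (lW (hF.bnPair F) (pi (hF.bnPair F) n)) (psiN hF F ⟨n, hn⟩) (lW_eq_invF hF n hn).symm
  rw [← h1]
  apply Nat.card_congr
  have hB : (hF.bnPair F).B = (D.borelSubgroup F).subgroupOf (D.group F) := rfl
  refine Equiv.ofBijective (fun g => ⟨g.1.1, ?_⟩) ⟨?_, ?_⟩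
  · have h2 := mem_dc_of_del hn g.2
    obtain ⟨b, hb, b', hb', e⟩ := mem_dc.1 h2
    rw [hB, Subgroup.mem_subgroupOf] at hb hb'
    exact ⟨b.1, hb, b'.1, hb', by rw [e]; rfl⟩
  · intro a b hab
    have h : a.1.1 = b.1.1 := congrArg (fun z => z.1) hab
    exact Subtype.ext (Subtype.ext h)
  · rintro ⟨y, b₁, hb₁, b₂, hb₂, e⟩
    have hy : y ∈ D.group F := by
      rw [e]
      exact Subgroup.mul_mem _ (Subgroup.mul_mem _ (hF.c.borel_le_group hb₁) n.2) (hF.c.borel_le_group hb₂)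
    have h3 : (⟨y, hy⟩ : ↥(D.group F)) ∈ dc (hF.bnPair F) n := by
      refine mem_dc.2 ⟨⟨b₁, hF.c.borel_le_group hb₁⟩, ?_, ⟨b₂, hF.c.borel_le_group hb₂⟩, ?_, Subtype.ext e⟩
      · rw [hB]; exact Subgroup.mem_subgroupOf.2 hb₁
      · rw [hB]; exact Subgroup.mem_subgroupOf.2 hb₂
    exact ⟨⟨⟨y, hy⟩, del_eq hn h3⟩, rfl⟩

theorem card_B_eq : Nat.card ↥(hF.bnPair F).B = Nat.card (D.borelSubgroup F) :=
  Nat.card_congr (Subgroup.subgroupOfEquivOfLe hF.c.borel_le_group).toEquiv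

/-- The number of chambers at a given position. -/
theorem card_chambers [Fintype F] [Fintype ↥(D.group F)] (w : WW (hF.bnPair F)) :
    Nat.card {c : ↥(D.group F) ⧸ (hF.bnPair F).B // delC (hF.bnPair F) c = w} =
      Fintype.card F ^ lW (hF.bnPair F) w := by
  obtain ⟨n, hn, rfl⟩ := exists_pi w
  have h1 := card_del_eq (P := hF.bnPair F) (pi (hF.bnPair F) n)
  rw [card_del_chev hF n hn, card_B_eq hF, mul_comm] at h1
  have hpos : 0 < Nat.card (D.borelSubgroup F) := Nat.card_pos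
  exact (Nat.eq_of_mul_eq_mul_right hpos h1).symm

theorem radical_top : D.unipotentRadical F ((Finset.range D.rank : Finset ℕ) : Set ℕ) = ⊥ := by
  rw [eq_bot_iff, ChevalleyDatum.unipotentRadical, Subgroup.closure_le]
  rintro g ⟨r, t, hr, hn, hg⟩
  exfalso
  apply hn
  have hr' := (hF.isPos_iff).1 hr
  refine (hF.inRootSub_iff).2 ⟨hr'.1, fun i hi hiJ => absurd ?_ hiJ⟩
  exact Finset.mem_coe.2 (Finset.mem_range.2 hi)

theorem image_sig_top : pi (hF.bnPair F) '' (sig hF F '' ((Finset.range D.rank : Finset ℕ) : Set ℕ)) =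
    SW (hF.bnPair F) := by
  have : sig hF F '' ((Finset.range D.rank : Finset ℕ) : Set ℕ) = (hF.bnPair F).S := by
    ext s
    constructor
    · rintro ⟨i, hi, rfl⟩
      exact sig_mem hF hi
    · intro hs
      obtain ⟨i, hi, rfl⟩ := exists_sig hF hs
      exact ⟨i, hi, rfl⟩
  rw [this]
  rfl

/-- The longest element, with its property. -/
theorem exists_n00 [Finite ↥(D.group F)] : ∃ n₀ : ↥(D.group F), n₀ ∈ (hF.bnPair F).N ∧
    FullD (SW (hF.bnPair F)) (lW (hF.bnPair F)) (pi (hF.bnPair F) n₀) ∧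
    ∀ u : ↥(D.group F), u ∈ UU D F → n₀⁻¹ * u * n₀ ∈ (hF.bnPair F).B → u = 1 := by
  obtain ⟨n, hn, -, hf, h⟩ := exists_nJ hF (F := F) (Finset.range D.rank) subset_rfl
  rw [image_sig_top hF] at hf
  refine ⟨n, hn, hf, ?_⟩
  intro u hu hb
  have h1 := h u hu hb
  rw [Subgroup.mem_subgroupOf, radical_top hF, Subgroup.mem_bot] at h1
  exact Subtype.ext h1

/-- `q` to the length of `w₀` -/
theorem pow_lW_w₀ [Fintype F] [Fintype ↥(D.group F)] {n₀ : ↥(D.group F)}
    (hf : FullD (SW (hF.bnPair F)) (lW (hF.bnPair F)) (pi (hF.bnPair F) n₀)) :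
    Fintype.card F ^ lW (hF.bnPair F) (pi (hF.bnPair F) n₀) = Nat.card (UU D F) := by
  have hA : ∀ s ∈ (hF.bnPair F).S, ∃ i ∈ Finset.range D.rank, sig hF F i = s :=
    fun s hs => exists_sig hF hs
  have hA' : ∀ i ∈ Finset.range D.rank, sig hF F i ∈ (hF.bnPair F).S := fun i hi => sig_mem hF hi
  have h1 := St_one (P := hF.bnPair F) (sig hF F) hA hA' hf
  rw [← steinberg_eq hF, steinberg_one hF, card_chambers hF] at h1
  rw [card_UU hF]
  have h2 : (Fintype.card F ^ R.N : ℕ) = Fintype.card F ^ lW (hF.bnPair F) (pi (hF.bnPair F) n₀) := by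
    have h3 : D.nroots / 2 = R.N := by
      rw [hF.two]
      simp
    rw [h3] at h1
    exact_mod_cast h1
  exact h2.symm

/-- Nondegeneracy. -/
theorem exists_nondeg {n₀ : ↥(D.group F)} [Finite ↥(D.group F)]
    (hf : FullD (SW (hF.bnPair F)) (lW (hF.bnPair F)) (pi (hF.bnPair F) n₀))
    {n : ↥(D.group F)} (hn : n ∈ (hF.bnPair F).N) (hne : pi (hF.bnPair F) n ≠ pi (hF.bnPair F) n₀) :
    ∃ i : Fin D.rank, n⁻¹ * (⟨hF.c.xG (D.simple i) (1 : F), hF.c.xG_mem_group (hF.simple_lt i.2) 1⟩ : ↥(D.group F)) * n ∈ (hF.bnPair F).B := by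
  classical
  haveI hN := hF.diagonal_normal (F := F)
  have hS := coxLen (P := hF.bnPair F)
  have hinv := inv_fullD hf
  have hne' : (pi (hF.bnPair F) n)⁻¹ ≠ pi (hF.bnPair F) n₀ := by
    intro h
    apply hne
    rw [← hinv, ← h, inv_inv]
  have h1 : (pi (hF.bnPair F) n)⁻¹ ∈ Subgroup.closure (SW (hF.bnPair F)) := by rw [hS.gen]; trivial
  have h2 : pi (hF.bnPair F) n₀ ∈ Subgroup.closure (SW (hF.bnPair F)) := by rw [hS.gen]; trivial
  obtain ⟨_, ⟨t, ht, rfl⟩, hl⟩ := hS.exists_ascent subset_rfl h1 h2 hf hne'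
  obtain ⟨i, hi, rfl⟩ := exists_sig hF ht
  have hi' := Finset.mem_range.1 hi
  refine ⟨⟨i, hi'⟩, ?_⟩
  have h3 := pos_of_right_ascent hF ⟨i, hi'⟩ _ hl
  have hninv := (hF.bnPair F).N.inv_mem hn
  rw [← pi_inv hn, pi_of_mem hninv, psiW_mk hF, hF.rhoW_mk] at h3
  have h4 := hF.conj_xG_mem_borel (n := psiN hF F ⟨n⁻¹, hninv⟩) hi' h3 1
  have hB : (hF.bnPair F).B = (D.borelSubgroup F).subgroupOf (D.group F) := rfl
  rw [hB, Subgroup.mem_subgroupOf]
  show (n⁻¹).1 * hF.c.xG (D.simple i) 1 * n.1 ∈ _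
  have e : n.1 = ((psiN hF F ⟨n⁻¹, hninv⟩).1)⁻¹ := by
    show n.1 = ((n⁻¹).1)⁻¹
    simp
  rw [e]
  exact h4

end Cfsg.Agent.Lib.StChev50
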