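import Mathlib
import Cfsg.Agent.Lib.KleinDefect
import Cfsg.Agent.Lib.BlockRankOne

/-!
# Tools for perfect isometries

* On `p`-regular elements, combinations of irreducible characters with local coefficients that
  vanish on `p`-singular elements are divisible by the order of the centralizer.
* Elements of height zero.
-/

set_option autoImplicit false
set_option linter.unusedSectionVars false
set_option linter.unusedVariables false
set_option linter.style.haveILetI false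

namespace Cfsg.Agent.Lib.KlPerf

open Cfsg Cfsg.Agent.Lib.CharBasic Cfsg.Agent.Lib.CharInd Cfsg.Agent.Lib.CharIntegrality
open Cfsg.Agent.Lib.BlockLocal Cfsg.Agent.Lib.BlockIdem Cfsg.Agent.Lib.BlockQ
open Cfsg.Agent.Lib.BlockOrtho Cfsg.Agent.Lib.BlockVal Cfsg.Agent.Lib.BlockMajor
open Cfsg.Agent.Lib.BlockUniform Cfsg.Agent.Lib.BlockSubsection
open scoped ComplexConjugate

universe u

section Vanish

variable {X : Type u} [Group X] [Fintype X] {p : ℕ} [hpF : Fact p.Prime] {M : Ideal AlgInt}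

noncomputable local instance fintypeSubKl {A : Type*} [Group A] [Finite A] (K : Subgroup A) : Fintype K :=
  Fintype.ofFinite K

/-- The sum over a subgroup of the function `χ (x σ)`, with `x` commuting with the subgroup, is
the order of the subgroup times an algebraic integer. -/
theorem exists_sum_mul_subgroup (χ : IrrCharacter X) {x : X} (S : Subgroup X)
    (hS : ∀ σ ∈ S, σ ∈ Subgroup.centralizer ({x} : Set X)) :
    ∃ a : ℂ, IsIntegral ℤ a ∧ ∑ σ : S, (χ : X → ℂ) (x * σ) = (Nat.card S : ℂ) * a := by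
  classical
  set H := Subgroup.centralizer ({x} : Set X) with hHd
  have hH : H = Subgroup.centralizer ({x} : Set X) := rfl
  have hcl := thetaZ_isClassFunction hH (isClassFunction_of_isCharacter (IsIrrCharacter.isCharacter χ.2))
  have hexp : ∀ s : H, (χ : X → ℂ) (x * s) =
      ∑ ξ : IrrCharacter H, vv hH χ ξ * (ξ : H → ℂ) s := by
    intro s
    have h1 := congrFun (classFunction_eq_sum hcl) s
    rw [Finset.sum_apply] at h1
    change thetaZ (χ : X → ℂ) x H s = _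
    rw [h1]
    refine Finset.sum_congr rfl fun ξ _ => ?_
    rw [Pi.smul_apply, smul_eq_mul, classInner_thetaZ hH χ ξ]
    rfl
  -- each irreducible of `H`
  have hpart : ∀ ξ : IrrCharacter H, ∃ m : ℕ,
      ∑ σ : S, (ξ : H → ℂ) ⟨σ, hS σ σ.2⟩ = (Nat.card S : ℂ) * m := by
    intro ξ
    letI : Fintype (S.subgroupOf H) := Fintype.ofFinite _
    obtain ⟨m, hm⟩ := classInner_char_char (G := S.subgroupOf H)
      (isCharacter_restrict (S.subgroupOf H) (IsIrrCharacter.isCharacter ξ.2)) isCharacter_one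
    refine ⟨m, ?_⟩
    have hcard : Nat.card (S.subgroupOf H) = Nat.card S :=
      Nat.card_congr (Subgroup.subgroupOfEquivOfLe hS).toEquiv
    have h1 : ∑ z : S.subgroupOf H, (ξ : H → ℂ) (z : H) = (Nat.card S : ℂ) * m := by
      rw [← hm, ← hcard]
      unfold classInner
      have : (Nat.card (S.subgroupOf H) : ℂ) ≠ 0 := natCard_ne_zero'
      rw [mul_inv_cancel_left₀ this]
      simp
    rw [← h1]
    exact (Fintype.sum_equiv (Subgroup.subgroupOfEquivOfLe hS).toEquiv _ _ fun z => rfl).symm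
  choose m hm using hpart
  refine ⟨∑ ξ : IrrCharacter H, vv hH χ ξ * (m ξ : ℂ), ?_, ?_⟩
  · refine IsIntegral.sum _ fun ξ _ => IsIntegral.mul ?_ (isIntegral_natCast _)
    unfold vv
    refine IsIntegral.mul (isIntegral_natCast _) (isIntegral_of_root (n := orderOf x) ?_
      (om_pow_eq_one hH ξ (pow_orderOf_eq_one x)))
    exact (orderOf_pos x).ne'
  · have h1 : ∀ σ : S, (χ : X → ℂ) (x * σ) =
        ∑ ξ : IrrCharacter H, vv hH χ ξ * (ξ : H → ℂ) ⟨σ, hS σ σ.2⟩ := fun σ => hexp ⟨σ, hS σ σ.2⟩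
    rw [Finset.sum_congr rfl fun σ _ => h1 σ, Finset.sum_comm, Finset.mul_sum]
    refine Finset.sum_congr rfl fun ξ _ => ?_
    rw [← Finset.mul_sum, hm ξ]
    ring

/-- A product with a `p`-element commuting with a regular element is singular. -/
theorem dvd_orderOf_mul {x σ : X} (hx : ¬ p ∣ orderOf x) (hc : Commute x σ) {k : ℕ}
    (hk : orderOf σ = p ^ k) (hσ : σ ≠ 1) : p ∣ orderOf (x * σ) := by
  have hp := hpF.out
  have hk0 : k ≠ 0 := by
    rintro rfl
    apply hσ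
    have : orderOf σ = 1 := by simpa using hk
    exact orderOf_eq_one_iff.mp this
  have hcop : Nat.Coprime (orderOf x) (orderOf σ) := by
    rw [hk]
    exact Nat.Coprime.pow_right _ ((Nat.Prime.coprime_iff_not_dvd hp).mpr hx).symm
  rw [hc.orderOf_mul_eq_mul_orderOf_of_coprime hcop, hk]
  exact Dvd.dvd.mul_left (dvd_pow_self p hk0) _

/-- **Combinations vanishing on singular elements are divisible by the centralizer at regular
elements.** -/
theorem local_of_vanish (hM : IsPModular p M) {ι : Type*} (s : Finset ι) (ρ : ι → IrrCharacter X)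
    (a : ι → ℂ) (ha : ∀ i ∈ s, MemLocalRing M (a i))
    (hv : ∀ g : X, p ∣ orderOf g → ∑ i ∈ s, a i * (ρ i : X → ℂ) g = 0) {x : X}
    (hx : ¬ p ∣ orderOf x) :
    MemLocalRing M ((∑ i ∈ s, a i * (ρ i : X → ℂ) x) /
      (Nat.card (Subgroup.centralizer ({x} : Set X)) : ℂ)) := by
  classical
  haveI := isPrime_of_isPModular hM
  have hp := hpF.out
  set C := Subgroup.centralizer ({x} : Set X) with hC
  -- a Sylow subgroup of the centralizer
  obtain ⟨P₀⟩ : Nonempty (Sylow p C) := inferInstance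
  set S : Subgroup X := (P₀ : Subgroup C).map C.subtype with hS
  have hSC : ∀ σ ∈ S, σ ∈ C := by
    rintro _ ⟨t, _, rfl⟩
    exact t.2
  have hSp : IsPGroup p S := P₀.isPGroup'.map _
  have hcardS : Nat.card S = p ^ (Nat.card C).factorization p := by
    rw [← Sylow.card_eq_multiplicity P₀]
    exact (Nat.card_congr (Subgroup.equivMapOfInjective _ _ C.subtype_injective).toEquiv).symm
  have hC0 : Nat.card C ≠ 0 := Nat.card_pos.ne'
  set m := ordCompl[p] (Nat.card C) with hm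
  have hmp : ¬ p ∣ m := Nat.not_dvd_ordCompl hp hC0
  have hcC : (Nat.card C : ℂ) = (Nat.card S : ℂ) * (m : ℂ) := by
    rw [hcardS, hm, ← Nat.cast_mul, Nat.ordProj_mul_ordCompl_eq_self]
  have h1 : ∀ i, ∃ b : ℂ, IsIntegral ℤ b ∧
      ∑ σ : S, (ρ i : X → ℂ) (x * σ) = (Nat.card S : ℂ) * b :=
    fun i => exists_sum_mul_subgroup (ρ i) S hSC
  choose b hb1 hb2 using h1
  have h2 : ∑ σ : S, ∑ i ∈ s, a i * (ρ i : X → ℂ) (x * σ) = ∑ i ∈ s, a i * (ρ i : X → ℂ) x := by
    rw [Finset.sum_eq_single (1 : S)]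
    · simp
    · intro σ _ hσ
      have hσ1 : (σ : X) ≠ 1 := fun h => hσ (Subtype.ext h)
      obtain ⟨k, hk⟩ := (IsPGroup.iff_orderOf.mp hSp) σ
      apply hv
      have hcomm : Commute x σ := by
        have := Subgroup.mem_centralizer_singleton_iff.mp (hSC σ σ.2)
        exact this.symm
      exact dvd_orderOf_mul hx hcomm (by rw [Subgroup.orderOf_coe, hk]) hσ1
    · intro h
      exact absurd (Finset.mem_univ _) h
  have h3 : ∑ σ : S, ∑ i ∈ s, a i * (ρ i : X → ℂ) (x * σ) =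
      (Nat.card S : ℂ) * ∑ i ∈ s, a i * b i := by
    rw [Finset.sum_comm, Finset.mul_sum]
    refine Finset.sum_congr rfl fun i _ => ?_
    rw [← Finset.mul_sum, hb2 i]
    ring
  have hSne : (Nat.card S : ℂ) ≠ 0 := natCard_ne_zero'
  have hmne : (m : ℂ) ≠ 0 := by
    have : m ≠ 0 := fun h => hmp (by rw [h]; exact dvd_zero _)
    exact_mod_cast this
  have h4 : (∑ i ∈ s, a i * (ρ i : X → ℂ) x) / (Nat.card C : ℂ) =
      (∑ i ∈ s, a i * b i) * (m : ℂ)⁻¹ := by
    rw [← h2, h3, hcC]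
    field_simp
  rw [h4]
  exact memLocalRing_mul (memLocalRing_sum _ _ fun i hi => memLocalRing_mul (ha i hi)
    (memLocalRing_of_isIntegral (hb1 i))) (memLocalRing_inv_natCast hM hmp)

/-- **Height zero members of a block.** -/
theorem local_height_zero (hM : IsPModular p M) {b : Set (IrrCharacter X)} (hb : IsPBlock M b)
    {θ : IrrCharacter X} (h0 : (charDegree (θ : X → ℂ)).factorization p = minExp p b) (s : X) :
    MemLocalRing M ((p : ℂ) ^ blockDefect p b * (θ : X → ℂ) s /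
      (Nat.card (Subgroup.centralizer ({s} : Set X)) : ℂ)) := by
  classical
  haveI := isPrime_of_isPModular hM
  have hp := hpF.out
  have hint := isIntegral_centralChar θ s
  have hG := card_factorization_eq (p := p) hb
  set d := charDegree (θ : X → ℂ) with hd
  have hd0 : d ≠ 0 := Cfsg.Agent.Lib.CharKernel.charDegree_ne_zero θ.2
  have hθ1 : (θ : X → ℂ) 1 = (d : ℂ) :=
    Cfsg.Agent.Lib.CharKernel.one_eq_charDegree (IsIrrCharacter.isCharacter θ.2)
  set m₁ := ordCompl[p] d with hm₁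
  have hX0 : Nat.card X ≠ 0 := Nat.card_pos.ne'
  set m₂ := ordCompl[p] (Nat.card X) with hm₂
  have hm₂p : ¬ p ∣ m₂ := Nat.not_dvd_ordCompl hp hX0
  have hdd : (d : ℂ) = (p : ℂ) ^ minExp p b * (m₁ : ℂ) := by
    rw [← h0, hm₁, ← Nat.cast_pow, ← Nat.cast_mul, Nat.ordProj_mul_ordCompl_eq_self]
  have hXX : (Nat.card X : ℂ) = (p : ℂ) ^ (blockDefect p b + minExp p b) * (m₂ : ℂ) := by
    rw [← hG, hm₂, ← Nat.cast_pow, ← Nat.cast_mul, Nat.ordProj_mul_ordCompl_eq_self]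
  set C := Subgroup.centralizer ({s} : Set X) with hC
  have hCi : (Nat.card C : ℂ) * (C.index : ℂ) = (Nat.card X : ℂ) := by
    rw [← Nat.cast_mul, Subgroup.card_mul_index]
  have hpne : (p : ℂ) ≠ 0 := by exact_mod_cast hp.ne_zero
  have hm₂ne : (m₂ : ℂ) ≠ 0 := by
    have : m₂ ≠ 0 := fun h => hm₂p (by rw [h]; exact dvd_zero _)
    exact_mod_cast this
  have hCne : (Nat.card C : ℂ) ≠ 0 := natCard_ne_zero'
  have hdne : (d : ℂ) ≠ 0 := by exact_mod_cast hd0
  have hminne : (p : ℂ) ^ minExp p b ≠ 0 := pow_ne_zero _ hpne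
  have hm₁ne : (m₁ : ℂ) ≠ 0 := by
    intro h
    rw [hdd, h, mul_zero] at hdne
    exact hdne rfl
  have h1 : (p : ℂ) ^ blockDefect p b * (θ : X → ℂ) s / (Nat.card C : ℂ) =
      centralChar (θ : X → ℂ) s * ((m₁ : ℂ) * (m₂ : ℂ)⁻¹) := by
    unfold centralChar
    rw [← hC, hθ1]
    have hidx : (C.index : ℂ) = (Nat.card X : ℂ) / (Nat.card C : ℂ) := by
      rw [← hCi]
      field_simp
    rw [hidx, hXX, hdd, pow_add]
    field_simp
  rw [h1]
  exact memLocalRing_mul (memLocalRing_of_isIntegral hint)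
    (memLocalRing_mul (memLocalRing_natCast _) (memLocalRing_inv_natCast hM hm₂p))

end Vanish

section Perf

universe v

variable {G : Type u} [Group G] [Fintype G] {H : Type v} [Group H] [Fintype H] {p : ℕ}
  [hpF : Fact p.Prime] {M : Ideal AlgInt}

/-- The regular values are automatic. -/
theorem perf_of_index (hM : IsPModular p M) {J : Type*} (s : Finset J) (χ : J → IrrCharacter G)
    (ψ : J → IrrCharacter H) (ε : J → ℤ)
    (hA : ∀ (x : G) (y : H), p ∣ orderOf x → ¬ p ∣ orderOf y →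
      ∑ j ∈ s, (ε j : ℂ) * (χ j : G → ℂ) x * (ψ j : H → ℂ) y = 0)
    (hB : ∀ (x : G) (y : H), ¬ p ∣ orderOf x → p ∣ orderOf y →
      ∑ j ∈ s, (ε j : ℂ) * (χ j : G → ℂ) x * (ψ j : H → ℂ) y = 0)
    (hC1 : ∀ (x : G) (y : H), p ∣ orderOf x → p ∣ orderOf y →
      MemLocalRing M ((∑ j ∈ s, (ε j : ℂ) * (χ j : G → ℂ) x * (ψ j : H → ℂ) y) /
        (Nat.card (Subgroup.centralizer ({x} : Set G)) : ℂ)))
    (hC2 : ∀ (x : G) (y : H), p ∣ orderOf x → p ∣ orderOf y →
      MemLocalRing M ((∑ j ∈ s, (ε j : ℂ) * (χ j : G → ℂ) x * (ψ j : H → ℂ) y) /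
        (Nat.card (Subgroup.centralizer ({y} : Set H)) : ℂ)))
    (x : G) (y : H) :
    MemLocalRing M ((∑ j ∈ s, (ε j : ℂ) * (χ j : G → ℂ) x * (ψ j : H → ℂ) y) /
        (Nat.card (Subgroup.centralizer ({x} : Set G)) : ℂ)) ∧
    MemLocalRing M ((∑ j ∈ s, (ε j : ℂ) * (χ j : G → ℂ) x * (ψ j : H → ℂ) y) /
        (Nat.card (Subgroup.centralizer ({y} : Set H)) : ℂ)) ∧
    ((IsPRegular p x ↔ IsPRegular p y) ∨
      ∑ j ∈ s, (ε j : ℂ) * (χ j : G → ℂ) x * (ψ j : H → ℂ) y = 0) := by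
  classical
  haveI := isPrime_of_isPModular hM
  by_cases hx : p ∣ orderOf x <;> by_cases hy : p ∣ orderOf y
  · refine ⟨hC1 x y hx hy, hC2 x y hx hy, Or.inl ?_⟩
    unfold IsPRegular
    tauto
  · rw [hA x y hx hy, zero_div, zero_div]
    exact ⟨memLocalRing_zero, memLocalRing_zero, Or.inr rfl⟩
  · rw [hB x y hx hy, zero_div, zero_div]
    exact ⟨memLocalRing_zero, memLocalRing_zero, Or.inr rfl⟩
  · refine ⟨?_, ?_, Or.inl ?_⟩
    · have h1 := local_of_vanish hM s χ (fun j => (ε j : ℂ) * (ψ j : H → ℂ) y)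
        (fun j _ => memLocalRing_mul (memLocalRing_intCast _)
          (memLocalRing_of_isIntegral (isIntegral_irr _ _)))
        (fun g hg => by
          rw [← hA g y hg hy]
          exact Finset.sum_congr rfl fun j _ => by ring) hx
      convert h1 using 2
      exact Finset.sum_congr rfl fun j _ => by ring
    · have h1 := local_of_vanish hM s ψ (fun j => (ε j : ℂ) * (χ j : G → ℂ) x)
        (fun j _ => memLocalRing_mul (memLocalRing_intCast _)
          (memLocalRing_of_isIntegral (isIntegral_irr _ _)))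
        (fun g hg => hB x g hx hg) hy
      exact h1
    · unfold IsPRegular
      tauto

/-- Perfect isometry from the index form. -/
theorem isPerfectIsometry_of_index (hM : IsPModular p M) {c : Set (IrrCharacter H)}
    {B : Set (IrrCharacter G)} {I : IrrCharacter H → IrrCharacter G} {ε : IrrCharacter H → ℤ}
    (hI : Set.BijOn I c B) (hε : ∀ η ∈ c, ε η = 1 ∨ ε η = -1)
    (hA : ∀ (x : G) (y : H), p ∣ orderOf x → ¬ p ∣ orderOf y →
      ∑ j ∈ bF c, (ε j : ℂ) * (I j : G → ℂ) x * (j : H → ℂ) y = 0)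
    (hB : ∀ (x : G) (y : H), ¬ p ∣ orderOf x → p ∣ orderOf y →
      ∑ j ∈ bF c, (ε j : ℂ) * (I j : G → ℂ) x * (j : H → ℂ) y = 0)
    (hC1 : ∀ (x : G) (y : H), p ∣ orderOf x → p ∣ orderOf y →
      MemLocalRing M ((∑ j ∈ bF c, (ε j : ℂ) * (I j : G → ℂ) x * (j : H → ℂ) y) /
        (Nat.card (Subgroup.centralizer ({x} : Set G)) : ℂ)))
    (hC2 : ∀ (x : G) (y : H), p ∣ orderOf x → p ∣ orderOf y →
      MemLocalRing M ((∑ j ∈ bF c, (ε j : ℂ) * (I j : G → ℂ) x * (j : H → ℂ) y) /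
        (Nat.card (Subgroup.centralizer ({y} : Set H)) : ℂ))) :
    IsPerfectIsometry p M c B I ε := by
  refine ⟨hI, hε, fun x y => ?_⟩
  have h1 : signedBijectionKernel c I ε x y =
      ∑ j ∈ bF c, (ε j : ℂ) * (I j : G → ℂ) x * (j : H → ℂ) y := by
    unfold signedBijectionKernel
    exact finsum_mem_eq_sum_bF c _
  rw [h1]
  exact perf_of_index hM (bF c) I id ε hA hB hC1 hC2 x y

/-- Sums along a bijection. -/
theorem sum_bF_comp {c : Set (IrrCharacter H)} {B : Set (IrrCharacter G)}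
    {I : IrrCharacter H → IrrCharacter G} (hI : Set.BijOn I c B) {A : Type*} [AddCommMonoid A]
    (g : IrrCharacter G → A) : ∑ η ∈ bF c, g (I η) = ∑ χ ∈ bF B, g χ := by
  classical
  refine Finset.sum_bij (fun η _ => I η) ?_ ?_ ?_ ?_
  · intro η hη
    exact mem_bF.mpr (hI.mapsTo (mem_bF.mp hη))
  · intro a ha b hb h
    exact hI.injOn (mem_bF.mp ha) (mem_bF.mp hb) h
  · intro χ hχ
    obtain ⟨η, hη, rfl⟩ := hI.surjOn (mem_bF.mp hχ)
    exact ⟨η, mem_bF.mpr hη, rfl⟩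
  · intro _ _
    rfl

/-- A bijection between sets of the same size. -/
theorem exists_bijOn {c : Set (IrrCharacter H)} {B : Set (IrrCharacter G)}
    (hcard : (bF c).card = (bF B).card) (hne : B.Nonempty) :
    ∃ I : IrrCharacter H → IrrCharacter G, Set.BijOn I c B := by
  classical
  obtain ⟨χ₀, hχ₀⟩ := hne
  let e := Finset.equivOfCardEq hcard
  refine ⟨fun η => if h : η ∈ bF c then (e ⟨η, h⟩ : IrrCharacter G) else χ₀, ?_, ?_, ?_⟩
  · intro η hη
    have h : η ∈ bF c := mem_bF.mpr hη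
    simp only [dif_pos h]
    exact mem_bF.mp (e ⟨η, h⟩).2
  · intro a ha b hb hab
    have ha' : a ∈ bF c := mem_bF.mpr ha
    have hb' : b ∈ bF c := mem_bF.mpr hb
    simp only [dif_pos ha', dif_pos hb'] at hab
    have := e.injective (Subtype.ext hab)
    exact congrArg Subtype.val this
  · intro χ hχ
    have h : χ ∈ bF B := mem_bF.mpr hχ
    refine ⟨(e.symm ⟨χ, h⟩ : IrrCharacter H), mem_bF.mp (e.symm ⟨χ, h⟩).2, ?_⟩
    have h2 := (e.symm ⟨χ, h⟩).2
    simp only [dif_pos h2, Subtype.coe_eta, Equiv.apply_symm_apply]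

/-- Arithmetic with four signs. -/
theorem four_dvd_sum {J : Type*} (s : Finset J) (hs : s.card = 4) (a b : J → ℤ)
    (ha : ∀ j ∈ s, a j = 1 ∨ a j = -1) (hb : ∀ j ∈ s, b j = 1 ∨ b j = -1)
    (ha0 : ∑ j ∈ s, a j = 0) (hb0 : ∑ j ∈ s, b j = 0) : (4 : ℤ) ∣ ∑ j ∈ s, a j * b j := by
  have h1 : (4 : ℤ) ∣ ∑ j ∈ s, (a j - 1) * (b j - 1) := by
    refine Finset.dvd_sum fun j hj => ?_
    rcases ha j hj with h | h <;> rcases hb j hj with h' | h' <;> rw [h, h'] <;> norm_num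
  have h2 : ∑ j ∈ s, (a j - 1) * (b j - 1) = ∑ j ∈ s, a j * b j + 4 := by
    have h3 : ∀ j ∈ s, (a j - 1) * (b j - 1) = a j * b j - a j - b j + 1 := fun j _ => by ring
    rw [Finset.sum_congr rfl h3, Finset.sum_add_distrib, Finset.sum_sub_distrib,
      Finset.sum_sub_distrib, ha0, hb0]
    simp [hs]
  rw [h2] at h1
  obtain ⟨k, hk⟩ := h1
  exact ⟨k - 1, by linarith⟩

end Perf

section Data

universe v

/-- The sections of a block, with signs. -/
def KlSections {G : Type u} [Group G] [Fintype G] (M : Ideal AlgInt) (B : Set (IrrCharacter G)) : Prop :=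
  ∀ x : G, 2 ∣ orderOf x → ∃ (ι : Type u) (_ : Fintype ι) (n : ι → IrrCharacter G → ℤ) (val : ι → ℂ),
    (∀ i, ∀ χ ∈ B, n i χ = 1 ∨ n i χ = -1) ∧
    (∀ χ ∈ B, (χ : G → ℂ) x = ∑ i, (n i χ : ℂ) * val i) ∧
    (∀ i (r : G), ¬ 2 ∣ orderOf r → ∑ χ ∈ bF B, (n i χ : ℂ) * (χ : G → ℂ) r = 0) ∧
    (∀ i, IsIntegral ℤ (val i)) ∧
    (∀ i, MemLocalRing M (4 * val i / (Nat.card (Subgroup.centralizer ({x} : Set G)) : ℂ)))

/-- All sections have one row. -/
def KlRow {G : Type u} [Group G] [Fintype G] (M : Ideal AlgInt) (B : Set (IrrCharacter G))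
    (n₀ : IrrCharacter G → ℤ) : Prop :=
  (∀ χ ∈ B, n₀ χ = 1 ∨ n₀ χ = -1) ∧
  (∀ r : G, ¬ 2 ∣ orderOf r → ∑ χ ∈ bF B, (n₀ χ : ℂ) * (χ : G → ℂ) r = 0) ∧
  (∀ x : G, 2 ∣ orderOf x → ∃ val : ℂ, IsIntegral ℤ val ∧
    MemLocalRing M (4 * val / (Nat.card (Subgroup.centralizer ({x} : Set G)) : ℂ)) ∧
    ∀ χ ∈ B, (χ : G → ℂ) x = (n₀ χ : ℂ) * val)

variable {G : Type u} [Group G] [Fintype G] {H : Type v} [Group H] [Fintype H] {M : Ideal AlgInt}

/-- **Two blocks with rows: a perfect isometry.** -/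
theorem perf_row (hM : IsPModular 2 M) {B : Set (IrrCharacter G)} {c : Set (IrrCharacter H)}
    {I : IrrCharacter H → IrrCharacter G} (hI : Set.BijOn I c B) (hc4 : (bF c).card = 4)
    {n₀ : IrrCharacter G → ℤ} {n₁ : IrrCharacter H → ℤ} (h₀ : KlRow M B n₀) (h₁ : KlRow M c n₁) :
    IsPerfectIsometry 2 M c B I (fun η => n₀ (I η) * n₁ η) := by
  classical
  haveI : Fact (Nat.Prime 2) := ⟨Nat.prime_two⟩
  haveI := isPrime_of_isPModular hM
  obtain ⟨h₀1, h₀2, h₀3⟩ := h₀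
  obtain ⟨h₁1, h₁2, h₁3⟩ := h₁
  have hmem : ∀ η ∈ bF c, I η ∈ B := fun η hη => hI.mapsTo (mem_bF.mp hη)
  have hsq₀ : ∀ χ ∈ B, ((n₀ χ : ℂ)) * (n₀ χ : ℂ) = 1 := by
    intro χ hχ
    rcases h₀1 χ hχ with h | h <;> rw [h] <;> norm_num
  have hsq₁ : ∀ η ∈ c, ((n₁ η : ℂ)) * (n₁ η : ℂ) = 1 := by
    intro χ hχ
    rcases h₁1 χ hχ with h | h <;> rw [h] <;> norm_num
  -- the two sums
  have hA : ∀ (x : G) (y : H), 2 ∣ orderOf x → ¬ 2 ∣ orderOf y →
      ∑ j ∈ bF c, ((n₀ (I j) * n₁ j : ℤ) : ℂ) * (I j : G → ℂ) x * (j : H → ℂ) y = 0 := by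
    intro x y hx hy
    obtain ⟨val, -, -, hval⟩ := h₀3 x hx
    have h1 : ∀ j ∈ bF c, ((n₀ (I j) * n₁ j : ℤ) : ℂ) * (I j : G → ℂ) x * (j : H → ℂ) y =
        val * ((n₁ j : ℂ) * (j : H → ℂ) y) := by
      intro j hj
      rw [hval _ (hmem j hj)]
      push_cast
      linear_combination ((n₁ j : ℂ) * val * (j : H → ℂ) y) * hsq₀ _ (hmem j hj)
    rw [Finset.sum_congr rfl h1, ← Finset.mul_sum, h₁2 y hy, mul_zero]
  have hB : ∀ (x : G) (y : H), ¬ 2 ∣ orderOf x → 2 ∣ orderOf y →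
      ∑ j ∈ bF c, ((n₀ (I j) * n₁ j : ℤ) : ℂ) * (I j : G → ℂ) x * (j : H → ℂ) y = 0 := by
    intro x y hx hy
    obtain ⟨val, -, -, hval⟩ := h₁3 y hy
    have h1 : ∀ j ∈ bF c, ((n₀ (I j) * n₁ j : ℤ) : ℂ) * (I j : G → ℂ) x * (j : H → ℂ) y =
        val * ((n₀ (I j) : ℂ) * (I j : G → ℂ) x) := by
      intro j hj
      rw [hval _ (mem_bF.mp hj)]
      push_cast
      linear_combination ((n₀ (I j) : ℂ) * val * (I j : G → ℂ) x) * hsq₁ _ (mem_bF.mp hj)
    rw [Finset.sum_congr rfl h1, ← Finset.mul_sum,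
      sum_bF_comp hI (fun χ => (n₀ χ : ℂ) * (χ : G → ℂ) x), h₀2 x hx, mul_zero]
  have hC : ∀ (x : G) (y : H), 2 ∣ orderOf x → 2 ∣ orderOf y → ∃ v w : ℂ,
      IsIntegral ℤ v ∧ IsIntegral ℤ w ∧
      MemLocalRing M (4 * v / (Nat.card (Subgroup.centralizer ({x} : Set G)) : ℂ)) ∧
      MemLocalRing M (4 * w / (Nat.card (Subgroup.centralizer ({y} : Set H)) : ℂ)) ∧
      ∑ j ∈ bF c, ((n₀ (I j) * n₁ j : ℤ) : ℂ) * (I j : G → ℂ) x * (j : H → ℂ) y = 4 * v * w := by
    intro x y hx hy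
    obtain ⟨v, hv1, hv2, hv3⟩ := h₀3 x hx
    obtain ⟨w, hw1, hw2, hw3⟩ := h₁3 y hy
    refine ⟨v, w, hv1, hw1, hv2, hw2, ?_⟩
    have h1 : ∀ j ∈ bF c, ((n₀ (I j) * n₁ j : ℤ) : ℂ) * (I j : G → ℂ) x * (j : H → ℂ) y = v * w := by
      intro j hj
      rw [hv3 _ (hmem j hj), hw3 _ (mem_bF.mp hj)]
      push_cast
      linear_combination (v * w) * (hsq₀ _ (hmem j hj) * ((n₁ j : ℂ) * (n₁ j : ℂ)) + hsq₁ _ (mem_bF.mp hj))
    rw [Finset.sum_congr rfl h1, Finset.sum_const, hc4]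
    simp
    ring
  refine isPerfectIsometry_of_index hM hI ?_ hA hB ?_ ?_
  · intro η hη
    have h1 := h₀1 _ (hI.mapsTo hη)
    have h2 := h₁1 η hη
    rcases h1 with h | h <;> rcases h2 with h' | h' <;> simp [h, h']
  · intro x y hx hy
    obtain ⟨v, w, hv, hw, hv2, hw2, h⟩ := hC x y hx hy
    rw [h]
    have : 4 * v * w / (Nat.card (Subgroup.centralizer ({x} : Set G)) : ℂ) =
        (4 * v / (Nat.card (Subgroup.centralizer ({x} : Set G)) : ℂ)) * w := by ring
    rw [this]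
    exact memLocalRing_mul hv2 (memLocalRing_of_isIntegral hw)
  · intro x y hx hy
    obtain ⟨v, w, hv, hw, hv2, hw2, h⟩ := hC x y hx hy
    rw [h]
    have : 4 * v * w / (Nat.card (Subgroup.centralizer ({y} : Set H)) : ℂ) =
        v * (4 * w / (Nat.card (Subgroup.centralizer ({y} : Set H)) : ℂ)) := by ring
    rw [this]
    exact memLocalRing_mul (memLocalRing_of_isIntegral hv) hw2

/-- The sum of a row of a block all of whose members agree on regular elements. -/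
theorem sum_row_eq_zero {B : Set (IrrCharacter G)} {n : IrrCharacter G → ℤ} {χ₀ : IrrCharacter G}
    (hag : ∀ χ ∈ B, ∀ r : G, ¬ 2 ∣ orderOf r → (χ : G → ℂ) r = (χ₀ : G → ℂ) r)
    (hrow : ∀ r : G, ¬ 2 ∣ orderOf r → ∑ χ ∈ bF B, (n χ : ℂ) * (χ : G → ℂ) r = 0) :
    ∑ χ ∈ bF B, n χ = 0 := by
  have h1reg : ¬ 2 ∣ orderOf (1 : G) := by simp
  have h1 := hrow 1 h1reg
  rw [Finset.sum_congr rfl fun χ hχ => by rw [hag χ (mem_bF.mp hχ) 1 h1reg], ← Finset.sum_mul] at h1
  have h2 : (χ₀ : G → ℂ) 1 ≠ 0 := irr_one_ne_zero' χ₀.2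
  have h3 := (mul_eq_zero.mp h1).resolve_right h2
  exact_mod_cast h3

/-- **Two blocks whose members agree on regular elements: a perfect isometry.** -/
theorem perf_agree (hM : IsPModular 2 M) {B : Set (IrrCharacter G)} {c : Set (IrrCharacter H)}
    {I : IrrCharacter H → IrrCharacter G} (hI : Set.BijOn I c B) (hc4 : (bF c).card = 4)
    {χ₀ : IrrCharacter G} {ψ₀ : IrrCharacter H}
    (hagB : ∀ χ ∈ B, ∀ r : G, ¬ 2 ∣ orderOf r → (χ : G → ℂ) r = (χ₀ : G → ℂ) r)
    (hagc : ∀ ψ ∈ c, ∀ r : H, ¬ 2 ∣ orderOf r → (ψ : H → ℂ) r = (ψ₀ : H → ℂ) r)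
    (h₀ : KlSections M B) (h₁ : KlSections M c) :
    IsPerfectIsometry 2 M c B I (fun _ => 1) := by
  classical
  haveI : Fact (Nat.Prime 2) := ⟨Nat.prime_two⟩
  haveI := isPrime_of_isPModular hM
  have hmem : ∀ η ∈ bF c, I η ∈ B := fun η hη => hI.mapsTo (mem_bF.mp hη)
  have hA : ∀ (x : G) (y : H), 2 ∣ orderOf x → ¬ 2 ∣ orderOf y →
      ∑ j ∈ bF c, (((1 : ℤ) : ℂ)) * (I j : G → ℂ) x * (j : H → ℂ) y = 0 := by
    intro x y hx hy
    obtain ⟨ι, _, n, val, h1, h2, h3, h4, h5⟩ := h₀ x hx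
    have e1 : ∀ j ∈ bF c, (((1 : ℤ) : ℂ)) * (I j : G → ℂ) x * (j : H → ℂ) y =
        (ψ₀ : H → ℂ) y * (I j : G → ℂ) x := by
      intro j hj
      rw [hagc j (mem_bF.mp hj) y hy]
      push_cast
      ring
    rw [Finset.sum_congr rfl e1, ← Finset.mul_sum, sum_bF_comp hI (fun χ => (χ : G → ℂ) x)]
    rw [Finset.sum_congr rfl fun χ hχ => h2 χ (mem_bF.mp hχ), Finset.sum_comm]
    have e2 : ∀ i, ∑ χ ∈ bF B, (n i χ : ℂ) * val i = 0 := by
      intro i
      rw [← Finset.sum_mul]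
      have := sum_row_eq_zero hagB (h3 i)
      have h6 : ∑ χ ∈ bF B, (n i χ : ℂ) = 0 := by exact_mod_cast this
      rw [h6, zero_mul]
    rw [Finset.sum_eq_zero fun i _ => e2 i, mul_zero]
  have hB : ∀ (x : G) (y : H), ¬ 2 ∣ orderOf x → 2 ∣ orderOf y →
      ∑ j ∈ bF c, (((1 : ℤ) : ℂ)) * (I j : G → ℂ) x * (j : H → ℂ) y = 0 := by
    intro x y hx hy
    obtain ⟨ι, _, n, val, h1, h2, h3, h4, h5⟩ := h₁ y hy
    have e1 : ∀ j ∈ bF c, (((1 : ℤ) : ℂ)) * (I j : G → ℂ) x * (j : H → ℂ) y =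
        (χ₀ : G → ℂ) x * (j : H → ℂ) y := by
      intro j hj
      rw [hagB _ (hmem j hj) x hx]
      push_cast
      ring
    rw [Finset.sum_congr rfl e1, ← Finset.mul_sum]
    rw [Finset.sum_congr rfl fun χ hχ => h2 χ (mem_bF.mp hχ), Finset.sum_comm]
    have e2 : ∀ i, ∑ χ ∈ bF c, (n i χ : ℂ) * val i = 0 := by
      intro i
      rw [← Finset.sum_mul]
      have := sum_row_eq_zero hagc (h3 i)
      have h6 : ∑ χ ∈ bF c, (n i χ : ℂ) = 0 := by exact_mod_cast this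
      rw [h6, zero_mul]
    rw [Finset.sum_eq_zero fun i _ => e2 i, mul_zero]
  -- the main expansion
  have hC : ∀ (x : G) (y : H), 2 ∣ orderOf x → 2 ∣ orderOf y →
      (MemLocalRing M ((∑ j ∈ bF c, (((1 : ℤ) : ℂ)) * (I j : G → ℂ) x * (j : H → ℂ) y) /
          (Nat.card (Subgroup.centralizer ({x} : Set G)) : ℂ))) ∧
      (MemLocalRing M ((∑ j ∈ bF c, (((1 : ℤ) : ℂ)) * (I j : G → ℂ) x * (j : H → ℂ) y) /
          (Nat.card (Subgroup.centralizer ({y} : Set H)) : ℂ))) := by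
    intro x y hx hy
    obtain ⟨ι, _, n, val, h1, h2, h3, h4, h5⟩ := h₀ x hx
    obtain ⟨ι', _, n', val', h1', h2', h3', h4', h5'⟩ := h₁ y hy
    have hdvd : ∀ i i', ∃ m : ℤ, ∑ j ∈ bF c, n i (I j) * n' i' j = 4 * m := by
      intro i i'
      apply four_dvd_sum (bF c) hc4
      · exact fun j hj => h1 i _ (hmem j hj)
      · exact fun j hj => h1' i' _ (mem_bF.mp hj)
      · rw [sum_bF_comp hI (fun χ => n i χ)]
        exact sum_row_eq_zero hagB (h3 i)
      · exact sum_row_eq_zero hagc (h3' i')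
    choose m hm using hdvd
    have hexp : ∑ j ∈ bF c, (((1 : ℤ) : ℂ)) * (I j : G → ℂ) x * (j : H → ℂ) y =
        ∑ i, ∑ i', 4 * (m i i' : ℂ) * val i * val' i' := by
      have e1 : ∀ j ∈ bF c, (((1 : ℤ) : ℂ)) * (I j : G → ℂ) x * (j : H → ℂ) y =
          ∑ i, ∑ i', (n i (I j) : ℂ) * (n' i' j : ℂ) * (val i * val' i') := by
        intro j hj
        rw [h2 _ (hmem j hj), h2' _ (mem_bF.mp hj), Int.cast_one, one_mul, Finset.sum_mul_sum]
        refine Finset.sum_congr rfl fun i _ => Finset.sum_congr rfl fun i' _ => ?_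
        ring
      rw [Finset.sum_congr rfl e1, Finset.sum_comm]
      refine Finset.sum_congr rfl fun i _ => ?_
      rw [Finset.sum_comm]
      refine Finset.sum_congr rfl fun i' _ => ?_
      rw [← Finset.sum_mul]
      have e2 : ∑ j ∈ bF c, (n i (I j) : ℂ) * (n' i' j : ℂ) = 4 * (m i i' : ℂ) := by
        have := hm i i'
        exact_mod_cast this
      rw [e2]
      ring
    rw [hexp]
    constructor
    · rw [Finset.sum_div]
      refine memLocalRing_sum _ _ fun i _ => ?_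
      rw [Finset.sum_div]
      refine memLocalRing_sum _ _ fun i' _ => ?_
      have : 4 * (m i i' : ℂ) * val i * val' i' / (Nat.card (Subgroup.centralizer ({x} : Set G)) : ℂ) =
          (m i i' : ℂ) * (4 * val i / (Nat.card (Subgroup.centralizer ({x} : Set G)) : ℂ)) * val' i' := by
        ring
      rw [this]
      exact memLocalRing_mul (memLocalRing_mul (memLocalRing_intCast _) (h5 i))
        (memLocalRing_of_isIntegral (h4' i'))
    · rw [Finset.sum_div]
      refine memLocalRing_sum _ _ fun i _ => ?_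
      rw [Finset.sum_div]
      refine memLocalRing_sum _ _ fun i' _ => ?_
      have : 4 * (m i i' : ℂ) * val i * val' i' / (Nat.card (Subgroup.centralizer ({y} : Set H)) : ℂ) =
          (m i i' : ℂ) * val i * (4 * val' i' / (Nat.card (Subgroup.centralizer ({y} : Set H)) : ℂ)) := by
        ring
      rw [this]
      exact memLocalRing_mul (memLocalRing_mul (memLocalRing_intCast _)
        (memLocalRing_of_isIntegral (h4 i))) (h5' i')
  exact isPerfectIsometry_of_index hM hI (fun _ _ => Or.inl rfl) hA hB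
    (fun x y hx hy => (hC x y hx hy).1) (fun x y hx hy => (hC x y hx hy).2)

end Data

end Cfsg.Agent.Lib.KlPerf
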