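import Mathlib
import Cfsg.Agent.Lib.KlPerf

/-!
# Composition of perfect isometries; a group with a self-centralizing cyclic subgroup
-/

set_option autoImplicit false
set_option linter.unusedSectionVars false
set_option linter.unusedVariables false
set_option linter.unusedSimpArgs false
set_option linter.style.haveILetI false

namespace Cfsg.Agent.Lib.DcComp

open Cfsg Subgroup
open Cfsg.Agent.Lib.CharBasic Cfsg.Agent.Lib.CharInd Cfsg.Agent.Lib.BlockLocal Cfsg.Agent.Lib.BlockQ Cfsg.Agent.Lib.KlPerf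
open scoped ComplexConjugate

universe u v w

section Comp

variable {G : Type u} [Group G] [Fintype G] {H : Type v} [Group H] [Fintype H] {F : Type w} [Group F] [Fintype F]
  {p : ℕ} [hpF : Fact p.Prime] {M : Ideal AlgInt}

theorem centralizer_inv (y : F) : Subgroup.centralizer ({y⁻¹} : Set F) = Subgroup.centralizer ({y} : Set F) := by
  ext t
  rw [Subgroup.mem_centralizer_singleton_iff, Subgroup.mem_centralizer_singleton_iff]
  constructor
  · intro h
    calc t * y = y * (y⁻¹ * t) * y := by group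
      _ = y * (t * y⁻¹) * y := by rw [h]
      _ = y * t := by group
  · intro h
    calc t * y⁻¹ = y⁻¹ * (y * t) * y⁻¹ := by group
      _ = y⁻¹ * (t * y) * y⁻¹ := by rw [h]
      _ = y⁻¹ * t := by group

open Classical in
/-- The mean of a class function as a sum over classes. -/
theorem mean_eq [Fintype (ConjClasses F)] {f : F → ℂ} (hf : IsClassFunction F f) :
    (Nat.card F : ℂ)⁻¹ * ∑ y, f y = ∑ K : ConjClasses F, f (Quotient.out K) /
      (Nat.card (Subgroup.centralizer ({Quotient.out K} : Set F)) : ℂ) := by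
  rw [Cfsg.Agent.Lib.CharIntegrality.sum_eq_sum_conjClasses f hf, Finset.mul_sum]
  refine Finset.sum_congr rfl fun K _ => ?_
  set z := (Quotient.out K : F) with hz
  have hF : (Nat.card F : ℂ) ≠ 0 := by exact_mod_cast Nat.card_pos.ne'
  have hi := Subgroup.card_mul_index (Subgroup.centralizer ({z} : Set F))
  have hi' : (Nat.card (Subgroup.centralizer ({z} : Set F)) : ℂ) * ((Subgroup.centralizer ({z} : Set F)).index : ℂ) = (Nat.card F : ℂ) := by
    exact_mod_cast hi
  have hidx : ((Subgroup.centralizer ({z} : Set F)).index : ℂ) ≠ 0 := by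
    intro h0
    rw [h0, mul_zero] at hi'
    exact hF hi'.symm
  have hCz : (Nat.card (Subgroup.centralizer ({z} : Set F)) : ℂ) ≠ 0 := by
    exact_mod_cast Nat.card_pos.ne'
  rw [← hi']
  field_simp

set_option maxHeartbeats 1000000 in
/-- **Composition of perfect isometries** (through a common group `F`). -/
theorem perf_comp (hM : IsPModular p M) {B : Set (IrrCharacter G)} {c : Set (IrrCharacter H)}
    {I₁ : IrrCharacter F → IrrCharacter G} {ε₁ : IrrCharacter F → ℤ}
    {I₂ : IrrCharacter F → IrrCharacter H} {ε₂ : IrrCharacter F → ℤ}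
    (h₁ : IsPerfectIsometry p M Set.univ B I₁ ε₁) (h₂ : IsPerfectIsometry p M Set.univ c I₂ ε₂) :
    ∃ (I : IrrCharacter H → IrrCharacter G) (ε : IrrCharacter H → ℤ), IsPerfectIsometry p M c B I ε := by
  classical
  haveI hMp := isPrime_of_isPModular hM
  letI : Fintype (ConjClasses F) := Fintype.ofFinite _
  obtain ⟨hI₁, hε₁, hμ₁⟩ := h₁
  obtain ⟨hI₂, hε₂, hμ₂⟩ := h₂
  have hinj : Function.Injective I₂ := Set.injOn_univ.1 hI₂.injOn
  haveI : Nonempty (IrrCharacter F) := ⟨⟨fun _ => 1, isIrrCharacter_one⟩⟩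
  let J : IrrCharacter H → IrrCharacter F := Function.invFunOn I₂ Set.univ
  have hJ : ∀ η, J (I₂ η) = η := fun η => hinj (Function.invFunOn_eq ⟨η, Set.mem_univ _, rfl⟩)
  have hJ' : ∀ χ ∈ c, I₂ (J χ) = χ := by
    intro χ hχ
    obtain ⟨η, hη, rfl⟩ := hI₂.surjOn hχ
    rw [hJ]
  let I : IrrCharacter H → IrrCharacter G := fun χ => I₁ (J χ)
  let ε : IrrCharacter H → ℤ := fun χ => ε₁ (J χ) * ε₂ (J χ)
  have hI : Set.BijOn I c B := by
    refine ⟨fun χ _ => hI₁.mapsTo (Set.mem_univ _), ?_, ?_⟩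
    · intro χ hχ χ' hχ' h
      have h1 : J χ = J χ' := hI₁.injOn (Set.mem_univ _) (Set.mem_univ _) h
      rw [← hJ' χ hχ, ← hJ' χ' hχ', h1]
    · intro χ hχ
      obtain ⟨η, -, rfl⟩ := hI₁.surjOn hχ
      refine ⟨I₂ η, hI₂.mapsTo (Set.mem_univ _), ?_⟩
      show I₁ (J (I₂ η)) = _
      rw [hJ]
  have hbF : bF (Set.univ : Set (IrrCharacter F)) = Finset.univ := by
    ext η
    simp
  set ψ₁ := signedBijectionKernel (Set.univ : Set (IrrCharacter F)) I₁ ε₁ with hψ₁
  set ψ₂ := signedBijectionKernel (Set.univ : Set (IrrCharacter F)) I₂ ε₂ with hψ₂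
  have h1 : ∀ x y, ψ₁ x y = ∑ η, ((ε₁ η : ℂ) * (I₁ η : G → ℂ) x) * (η : F → ℂ) y := by
    intro x y
    show signedBijectionKernel _ _ _ _ _ = _
    unfold signedBijectionKernel
    rw [finsum_mem_eq_sum_bF, hbF]
  have h2 : ∀ z y, ψ₂ z y = ∑ η, ((ε₂ η : ℂ) * (I₂ η : H → ℂ) z) * (η : F → ℂ) y := by
    intro x y
    show signedBijectionKernel _ _ _ _ _ = _
    unfold signedBijectionKernel
    rw [finsum_mem_eq_sum_bF, hbF]
  have hker : ∀ x z, signedBijectionKernel c I ε x z = (Nat.card F : ℂ)⁻¹ * ∑ y, ψ₁ x y * ψ₂ z y⁻¹ := by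
    intro x z
    have h3 : signedBijectionKernel c I ε x z =
        ∑ η : IrrCharacter F, ((ε₁ η : ℂ) * (I₁ η : G → ℂ) x) * ((ε₂ η : ℂ) * (I₂ η : H → ℂ) z) := by
      unfold signedBijectionKernel
      rw [finsum_mem_eq_sum_bF, ← hbF,
        ← sum_bF_comp hI₂ (fun χ : IrrCharacter H => (ε χ : ℂ) * (I χ : G → ℂ) x * (χ : H → ℂ) z)]
      refine Finset.sum_congr rfl fun η _ => ?_
      show ((ε₁ (J (I₂ η)) * ε₂ (J (I₂ η)) : ℤ) : ℂ) * (I₁ (J (I₂ η)) : G → ℂ) x * (I₂ η : H → ℂ) z = _
      rw [hJ]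
      push_cast
      ring
    rw [h3]
    have h4 : ∀ η η' : IrrCharacter F, classInner (η : F → ℂ) (η' : F → ℂ) = (Nat.card F : ℂ)⁻¹ * ∑ y, (η : F → ℂ) y * (η' : F → ℂ) y⁻¹ := by
      intro η η'
      unfold classInner
      congr 1
      refine Finset.sum_congr rfl fun y _ => ?_
      rw [char_conj_eq_inv (IsIrrCharacter.isCharacter η'.2)]
    have h5 : ∀ η : IrrCharacter F, ((ε₁ η : ℂ) * (I₁ η : G → ℂ) x) * ((ε₂ η : ℂ) * (I₂ η : H → ℂ) z) =
        ∑ η' : IrrCharacter F, ((ε₁ η : ℂ) * (I₁ η : G → ℂ) x) * ((ε₂ η' : ℂ) * (I₂ η' : H → ℂ) z) * classInner (η : F → ℂ) (η' : F → ℂ) := by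
      intro η
      rw [Finset.sum_eq_single η]
      · rw [classInner_irr_self η.2, mul_one]
      · intro η' _ hne
        rw [classInner_irr_ne η.2 η'.2 (fun h => hne (Subtype.ext h).symm), mul_zero]
      · simp
    rw [Finset.sum_congr rfl (fun η _ => h5 η)]
    have h6 : ∑ y, ψ₁ x y * ψ₂ z y⁻¹ = ∑ η : IrrCharacter F, ∑ η' : IrrCharacter F,
        ((ε₁ η : ℂ) * (I₁ η : G → ℂ) x) * ((ε₂ η' : ℂ) * (I₂ η' : H → ℂ) z) * ∑ y, (η : F → ℂ) y * (η' : F → ℂ) y⁻¹ := by
      calc ∑ y, ψ₁ x y * ψ₂ z y⁻¹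
          = ∑ y, ∑ η : IrrCharacter F, ∑ η' : IrrCharacter F,
            ((ε₁ η : ℂ) * (I₁ η : G → ℂ) x) * ((ε₂ η' : ℂ) * (I₂ η' : H → ℂ) z) * ((η : F → ℂ) y * (η' : F → ℂ) y⁻¹) := by
            refine Finset.sum_congr rfl fun y _ => ?_
            rw [h1, h2, Finset.sum_mul_sum]
            refine Finset.sum_congr rfl fun η _ => Finset.sum_congr rfl fun η' _ => ?_
            ring
        _ = ∑ η : IrrCharacter F, ∑ y, ∑ η' : IrrCharacter F,
            ((ε₁ η : ℂ) * (I₁ η : G → ℂ) x) * ((ε₂ η' : ℂ) * (I₂ η' : H → ℂ) z) * ((η : F → ℂ) y * (η' : F → ℂ) y⁻¹) :=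
            Finset.sum_comm
        _ = ∑ η : IrrCharacter F, ∑ η' : IrrCharacter F, ∑ y,
            ((ε₁ η : ℂ) * (I₁ η : G → ℂ) x) * ((ε₂ η' : ℂ) * (I₂ η' : H → ℂ) z) * ((η : F → ℂ) y * (η' : F → ℂ) y⁻¹) :=
            Finset.sum_congr rfl fun η _ => Finset.sum_comm
        _ = _ := by
            refine Finset.sum_congr rfl fun η _ => Finset.sum_congr rfl fun η' _ => ?_
            rw [Finset.mul_sum]
    rw [h6, Finset.mul_sum]
    refine Finset.sum_congr rfl fun η _ => ?_
    rw [Finset.mul_sum]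
    refine Finset.sum_congr rfl fun η' _ => ?_
    rw [h4]
    ring
  have hcl : ∀ x z, IsClassFunction F (fun y => ψ₁ x y * ψ₂ z y⁻¹) := by
    intro x z g c
    show ψ₁ x (c * g * c⁻¹) * ψ₂ z (c * g * c⁻¹)⁻¹ = ψ₁ x g * ψ₂ z g⁻¹
    have e : (c * g * c⁻¹)⁻¹ = c * g⁻¹ * c⁻¹ := by group
    rw [e, h1, h1, h2, h2]
    congr 1
    · refine Finset.sum_congr rfl fun η _ => ?_
      rw [isClassFunction_of_isCharacter (IsIrrCharacter.isCharacter η.2) g c]
    · refine Finset.sum_congr rfl fun η _ => ?_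
      rw [isClassFunction_of_isCharacter (IsIrrCharacter.isCharacter η.2) g⁻¹ c]
  have hmean : ∀ x z, signedBijectionKernel c I ε x z = ∑ K : ConjClasses F, ψ₁ x (Quotient.out K) * ψ₂ z (Quotient.out K)⁻¹ /
      (Nat.card (Subgroup.centralizer ({Quotient.out K} : Set F)) : ℂ) := by
    intro x z
    rw [hker]
    exact mean_eq (hcl x z)
  refine ⟨I, ε, hI, ?_, ?_⟩
  · intro χ hχ
    have h3 := hε₁ (J χ) (Set.mem_univ _)
    have h4 := hε₂ (J χ) (Set.mem_univ _)
    show ε₁ (J χ) * ε₂ (J χ) = 1 ∨ ε₁ (J χ) * ε₂ (J χ) = -1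
    rcases h3 with h3 | h3 <;> rcases h4 with h4 | h4 <;> simp [h3, h4]
  · intro x z
    refine ⟨?_, ?_, ?_⟩
    · rw [hmean, Finset.sum_div]
      refine memLocalRing_sum _ _ fun K _ => ?_
      set y := (Quotient.out K : F) with hy
      have e : ψ₁ x y * ψ₂ z y⁻¹ / (Nat.card (Subgroup.centralizer ({y} : Set F)) : ℂ) /
            (Nat.card (Subgroup.centralizer ({x} : Set G)) : ℂ) =
          (ψ₁ x y / (Nat.card (Subgroup.centralizer ({x} : Set G)) : ℂ)) *
            (ψ₂ z y⁻¹ / (Nat.card (Subgroup.centralizer ({y} : Set F)) : ℂ)) := by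
        ring
      rw [e]
      refine memLocalRing_mul (hμ₁ x y).1 ?_
      have h3 := (hμ₂ z y⁻¹).2.1
      rwa [centralizer_inv] at h3
    · rw [hmean, Finset.sum_div]
      refine memLocalRing_sum _ _ fun K _ => ?_
      set y := (Quotient.out K : F) with hy
      have e : ψ₁ x y * ψ₂ z y⁻¹ / (Nat.card (Subgroup.centralizer ({y} : Set F)) : ℂ) /
            (Nat.card (Subgroup.centralizer ({z} : Set H)) : ℂ) =
          (ψ₁ x y / (Nat.card (Subgroup.centralizer ({y} : Set F)) : ℂ)) *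
            (ψ₂ z y⁻¹ / (Nat.card (Subgroup.centralizer ({z} : Set H)) : ℂ)) := by
        ring
      rw [e]
      exact memLocalRing_mul (hμ₁ x y).2.1 (hμ₂ z y⁻¹).1
    · by_cases hr : IsPRegular p x ↔ IsPRegular p z
      · exact Or.inl hr
      · right
        rw [hker, Finset.sum_eq_zero, mul_zero]
        intro y _
        have hy : IsPRegular p y⁻¹ ↔ IsPRegular p y := by
          unfold IsPRegular
          rw [orderOf_inv]
        rcases (hμ₁ x y).2.2 with h3 | h3
        · rcases (hμ₂ z y⁻¹).2.2 with h4 | h4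
          · exact absurd (h3.trans (hy.symm.trans h4.symm)) hr
          · rw [h4, mul_zero]
        · rw [h3, zero_mul]

end Comp

section Frob

/-- A finite group with a self-centralizing cyclic normal subgroup and a prescribed group of automorphisms as quotient. -/
theorem exists_frob {P : Type u} [Group P] [Finite P] [IsCyclic P] (U : Subgroup (MulAut P)) :
    ∃ (F : Type u) (_ : Group F) (_ : Finite F) (Q : Subgroup F), IsCyclic Q ∧ Nat.card Q = Nat.card P ∧
      Nat.card F = Nat.card P * Nat.card U ∧ Subgroup.centralizer (Q : Set F) = Q := by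
  classical
  have hab : ∀ x y : P, x * y = y * x := fun x y => (IsCyclic.commGroup (α := P)).mul_comm x y
  haveI : Finite (MulAut P) := Finite.of_injective (fun σ : MulAut P => (σ : P → P)) DFunLike.coe_injective
  haveI : Finite (P ⋊[U.subtype] U) := Finite.of_equiv _ SemidirectProduct.equivProd.symm
  have hinj : Function.Injective (SemidirectProduct.inl : P →* P ⋊[U.subtype] U) := SemidirectProduct.inl_injective
  let eQ : P ≃* (SemidirectProduct.inl : P →* P ⋊[U.subtype] U).range := MonoidHom.ofInjective hinj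
  refine ⟨P ⋊[U.subtype] U, inferInstance, inferInstance, (SemidirectProduct.inl : P →* P ⋊[U.subtype] U).range, ?_, ?_, ?_, ?_⟩
  · exact isCyclic_of_surjective eQ.toMonoidHom eQ.surjective
  · exact (Nat.card_congr eQ.toEquiv).symm
  · exact SemidirectProduct.card
  · ext x
    simp only [SetLike.mem_coe, Subgroup.mem_centralizer_iff]
    constructor
    · intro h
      have h1 : x.right = 1 := by
        apply Subtype.ext
        ext m
        have h2 := h (SemidirectProduct.inl m) ⟨m, rfl⟩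
        have h3 := congrArg SemidirectProduct.left h2
        simp only [SemidirectProduct.mul_left, SemidirectProduct.left_inl, SemidirectProduct.right_inl, map_one,
          MulAut.one_apply] at h3
        have h4 : (x.right : MulAut P) m = m := by
          have h5 : x.left * (x.right : MulAut P) m = x.left * m := by
            rw [hab x.left m]
            exact h3.symm
          exact mul_left_cancel h5
        exact h4
      rw [SemidirectProduct.range_inl_eq_ker_rightHom]
      exact h1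
    · rintro ⟨n, rfl⟩ y ⟨m, rfl⟩
      rw [← map_mul, ← map_mul, hab]

/-- The automorphisms of `P` induced by a subgroup of its normalizer. -/
theorem exists_aut_range {G : Type u} [Group G] {P T : Subgroup G} (hT : T ≤ Subgroup.normalizer (P : Set G)) :
    ∃ U : Subgroup (MulAut P), Nat.card U = (Subgroup.centralizer (P : Set G)).relIndex T := by
  classical
  let ρT : T →* MulAut P := MonoidHom.mk' (fun t => Cfsg.Agent.Lib.BrauerPair.conjAut P (t : G) (hT t.2))
    (fun s t => Cfsg.Agent.Lib.BrauerPair.conjAut_mul _ _ _ _ _ _)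
  have hρT : ∀ t : T, ρT t = Cfsg.Agent.Lib.BrauerPair.conjAut P (t : G) (hT t.2) := fun t => rfl
  have hkerT : ρT.ker = (Subgroup.centralizer (P : Set G)).subgroupOf T := by
    ext t
    rw [MonoidHom.mem_ker, Subgroup.mem_subgroupOf, Subgroup.mem_centralizer_iff, hρT]
    constructor
    · intro h y hy
      have h1 : ((Cfsg.Agent.Lib.BrauerPair.conjAut P (t : G) (hT t.2) ⟨y, hy⟩ : P) : G) = y := by
        rw [h]
        rfl
      rw [Cfsg.Agent.Lib.BrauerPair.coe_conjAut] at h1
      have h2 : (t : G) * y * (t : G)⁻¹ = y := h1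
      show y * (t : G) = (t : G) * y
      calc y * (t : G) = ((t : G) * y * (t : G)⁻¹) * (t : G) := by rw [h2]
        _ = (t : G) * y := by group
    · intro h
      ext y
      show (t : G) * y * (t : G)⁻¹ = y
      rw [← h y y.2]
      group
  refine ⟨ρT.range, ?_⟩
  rw [← Subgroup.index_ker, hkerT]
  rfl

end Frob

end Cfsg.Agent.Lib.DcComp
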