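import Mathlib
import Cfsg.Agent.Lib.DcSetup

/-!
# The data of the main theorem on blocks with a cyclic defect group
-/

set_option autoImplicit false
set_option linter.unusedSectionVars false
set_option linter.unusedVariables false
set_option linter.unusedSimpArgs false
set_option linter.style.haveILetI false

namespace Cfsg.Agent.Lib.DcData

open Cfsg Module Subgroup
open Cfsg.Agent.Lib.BlockQ Cfsg.Agent.Lib.BlockIdem Cfsg.Agent.Lib.BlkBasic Cfsg.Agent.Lib.BrauerPair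
open Cfsg.Agent.Lib.DcGrpA Cfsg.Agent.Lib.DcGrp Cfsg.Agent.Lib.DcL Cfsg.Agent.Lib.DcAbs Cfsg.Agent.Lib.BlockOrtho
open Cfsg.Agent.Lib.CharBasic Cfsg.Agent.Lib.CharInd Cfsg.Agent.Lib.StarGen Cfsg.Agent.Lib.StarGlob
open Cfsg.Agent.Lib.DcGram Cfsg.Agent.Lib.StarInner Cfsg.Agent.Lib.DcSetup Cfsg.Agent.Lib.BrauerConj
open scoped ComplexConjugate

universe u

variable {G : Type u} [Group G] [Fintype G]

local notation "𝐂[" R "]" => Subgroup.centralizer ((R : Subgroup G) : Set G)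
local notation "𝐍[" R "]" => Subgroup.normalizer ((R : Subgroup G) : Set G)

attribute [local instance] Cfsg.Agent.Lib.DcGrp.fintypeSubDc Cfsg.Agent.Lib.DcGrp.fintypeQuotDc

variable {p : ℕ} [hpF : Fact p.Prime] {M : Ideal AlgInt} [DecidableEq G]

open Cfsg.Agent.Lib.BrauerCen Cfsg.Agent.Lib.BrauerIn Cfsg.Agent.Lib.BrauerMax Cfsg.Agent.Lib.BlockSection Cfsg.Agent.Lib.BrauerSub
  Cfsg.Agent.Lib.BrauerCyc Cfsg.Agent.Lib.BrauerSat Cfsg.Agent.Lib.BlockLocal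

/-- The data. -/
structure DadeD (p : ℕ) [Fact p.Prime] (M : Ideal AlgInt) (D : Subgroup G) (b : Set (IrrCharacter 𝐂[D])) (T : Subgroup G)
    (B : Set (IrrCharacter G)) (a e : ℕ) where
  u : G
  huD : u ∈ D
  hu : orderOf u = p
  hPC : D ≤ 𝐂[zpowers u]
  f : Set (IrrCharacter 𝐂[zpowers u])
  ν₁ : IrrCharacter 𝐂[zpowers u]
  Rf : Finset (IrrCharacter 𝐂[zpowers u])
  hfb : IsPBlock M f
  hν₁ : ν₁ ∈ f
  hmax : IsMaximalBrauerPair p M f (D.subgroupOf 𝐂[zpowers u])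
    (twistSetE (cenMatch_in (zpowers_le.2 huD) hPC).iso.symm b)
  hnil : IsNilpotentBlock p M f
  h0 : (charDegree (ν₁ : 𝐂[zpowers u] → ℂ)).factorization p = minExp p f
  hTN : T ≤ normalizer (𝐂[zpowers u] : Set G)
  hfix : ∀ t ∈ T, actN 𝐂[zpowers u] t ν₁ = ν₁
  hfT : ∀ t ∈ T, ∀ ν ∈ f, actN 𝐂[zpowers u] t ν ∈ f
  hR1 : ∀ r ∈ Rf, r ∈ f ∧ r ≠ ν₁
  hR2 : ∀ r ∈ Rf, ∀ r' ∈ Rf, ∀ t ∈ T, actN 𝐂[zpowers u] t r' = r → r = r'
  hR3 : ∀ ν ∈ f, ν ≠ ν₁ → ∃ r ∈ Rf, ∃ t ∈ T, actN 𝐂[zpowers u] t r = ν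
  hq : Rf.card * e + 1 = p ^ a
  c : Rf → IrrCharacter G
  X₀ : Finset (IrrCharacter G)
  δ : IrrCharacter G → ℤ
  δ₀ : ℤ
  hcinj : Function.Injective c
  hX₀ : X₀.card = e
  hBeq : B = (X₀ : Set (IrrCharacter G)) ∪ Set.range c
  hcX : ∀ j, c j ∉ X₀
  hδ : ∀ χ ∈ X₀, δ χ = 1 ∨ δ χ = -1
  hδ₀ : δ₀ = 1 ∨ δ₀ = -1
  hE : ∀ (j : Rf) (g : G), indFun 𝐂[zpowers u] (((j : IrrCharacter 𝐂[zpowers u]) : 𝐂[zpowers u] → ℂ) - (ν₁ : 𝐂[zpowers u] → ℂ)) g =
    (δ₀ : ℂ) * (c j : G → ℂ) g + ∑ χ ∈ X₀, (δ χ : ℂ) * (χ : G → ℂ) g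
  hsing : ∀ χ ∈ X₀, ∀ g : G, p ∣ orderOf g → (χ : G → ℂ) g = (δ χ : ℂ) / (p : ℂ) ^ a *
    ∑ j : Rf, indFun 𝐂[zpowers u] (((j : IrrCharacter 𝐂[zpowers u]) : 𝐂[zpowers u] → ℂ) - (ν₁ : 𝐂[zpowers u] → ℂ)) g
  hreg : ∀ (j : Rf) (g : G), ¬ p ∣ orderOf g →
    indFun 𝐂[zpowers u] (((j : IrrCharacter 𝐂[zpowers u]) : 𝐂[zpowers u] → ℂ) - (ν₁ : 𝐂[zpowers u] → ℂ)) g = 0

set_option maxHeartbeats 4000000 in
/-- **The data of Dade's theorem.** -/
theorem dade_data (hM : IsPModular p M) {D : Subgroup G} (hD : IsCyclic D) {a : ℕ} (ha : 1 ≤ a) (hDa : Nat.card D = p ^ a)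
    {B : Set (IrrCharacter G)} (hB : IsPBlock M B) (hBD : IsDefectGroup p M B D) {b : Set (IrrCharacter 𝐂[D])}
    (hind : IsInducedBlock M 𝐂[D] b B) {T : Subgroup G} (hT : ∀ g : G, g ∈ T ↔ (g ∈ 𝐍[D] ∧ StabilizesBlock 𝐂[D] b g))
    {e : ℕ} (he : (𝐂[D]).relIndex T = e) :
    e ∣ p - 1 ∧ Nonempty (DadeD p M D b T B a e) := by
  classical
  haveI hMp := isPrime_of_isPModular hM
  have hp := hM.1
  have hPp : IsPGroup p D := IsPGroup.of_card hDa
  have ha0 : a ≠ 0 := by omega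
  have hpq : p ≤ p ^ a := Nat.le_self_pow ha0 p
  obtain ⟨u', hu'⟩ : ∃ x : D, orderOf x = p := exists_prime_orderOf_dvd_card' p (by
    rw [hDa]
    exact dvd_pow_self p ha0)
  obtain ⟨u, huD⟩ := u'
  have hu : orderOf u = p := by rwa [Subgroup.orderOf_mk] at hu'
  have hu1 : u ≠ 1 := by
    rintro rfl
    rw [orderOf_one] at hu
    exact hp.one_lt.ne hu
  have hQP : zpowers u ≤ D := zpowers_le.2 huD
  have hQ1 : zpowers u ≠ ⊥ := by
    rw [Ne, zpowers_eq_bot]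
    exact hu1
  have hD1 : D ≠ ⊥ := by
    rintro rfl
    exact hu1 (Subgroup.mem_bot.1 huD)
  have hab : ∀ x ∈ D, ∀ y ∈ D, x * y = y * x := by
    intro x hx y hy
    exact congrArg Subtype.val (hD.isMulCommutative.is_comm.comm (⟨x, hx⟩ : D) ⟨y, hy⟩)
  have hPC : D ≤ 𝐂[zpowers u] := by
    intro x hx
    rw [Subgroup.mem_centralizer_iff]
    intro q hq
    exact hab q (hQP hq) x hx
  obtain ⟨f, hf⟩ := exists_isInducedBlockIn hM hPp hQP hPC hind.1
  have hfb := hf.2.1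
  let T' : Subgroup G := 𝐍[zpowers u] ⊓ stabSub _ f hfb
  have hT' : ∀ g : G, g ∈ T' ↔ (g ∈ 𝐍[zpowers u] ∧ StabilizesBlock 𝐂[zpowers u] f g) := fun g => Iff.rfl
  obtain ⟨hT1, hT2, hl, hnil⟩ := Cfsg.Agent.S4645.result p M hM B hB D hBD hD1 hD b hind T hT (zpowers u) hQP hQ1 f hf T' hT'
  have heT' : (𝐂[zpowers u]).relIndex T' = e := hT2.trans he
  -- the maximal pairs
  have hcB := isBrauerPairOf_of_isInducedBlock hM hPp hind
  have hmaxB := Cfsg.Agent.Lib.BrauerLift.isMaximal_of_isDefectGroup hM hcB hBD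
  have hbp := isBrauerPairOf_in hM hPp hQP hPC hf
  have hmax' := isMaximal_in hM hBD hQP hPC hcB hbp hfb
  have hD' := isDefectGroup_of_maximal hM hmax'
  have hcyc' : IsCyclic (D.subgroupOf 𝐂[zpowers u]) :=
    isCyclic_of_injective (Subgroup.subgroupOfEquivOfLe hPC).toMonoidHom (MulEquiv.injective _)
  -- the values
  obtain ⟨V, hV1, hV2⟩ := Cfsg.Agent.Lib.BlockResidue.exists_val M
  have hpV := Cfsg.Agent.S4648.natCast_residue hM hV2
  obtain ⟨χ₀, hχ₀⟩ := isPBlock_nonempty hfb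
  have hagree := fun ξ hξ s hs => Cfsg.Agent.Lib.CycRankOne.agree_of_rank_one_bdd hV1 hV2 hpV hfb hl (Nat.card 𝐂[zpowers u])
    (fun f' e he hf' W _ _ _ R h1 h2 => Cfsg.Agent.Lib.CycRankOne.module_bound hM hV2 hpV hfb hD' hcyc' f' e he hf' W R h1 h2)
    hχ₀ ξ hξ s hs
  have huni := (Cfsg.Agent.Lib.BlockUniform.uniform hM hfb hχ₀ hagree).2
  have hcard := Cfsg.Agent.Lib.BlockDefect.card_isDefectGroup hM hfb hD'
  have hcardD' : Nat.card (D.subgroupOf 𝐂[zpowers u]) = p ^ a :=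
    (Nat.card_congr (Subgroup.subgroupOfEquivOfLe hPC).toEquiv).trans hDa
  have hfq : (bF f).card = p ^ a := by rw [huni, ← hcard, hcardD']
  have hq2 : 2 ≤ (bF f).card := by
    rw [hfq]
    exact le_trans hp.two_le hpq
  have hcp : p ^ (a - 1) * p = (bF f).card := by
    rw [hfq, ← pow_succ, Nat.sub_add_cancel ha]
  -- a generator
  have hTN : T' ≤ normalizer (zpowers u : Set G) := fun x hx => hx.1
  obtain ⟨t₀, ht₀, hgen, hte, hdvd, hndvd⟩ := exists_t0 hu hTN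
  obtain ⟨g, l, zc, hg, hdeg, hzc, hlt, hL1, hL2, hinj, hfree⟩ := L_main hM hV1 hV2 hpV hu hfb hl hD' hcyc'
    (Subgroup.mem_subgroupOf.2 huD) hT' hq2 hcp ht₀ hgen hte hdvd
  rw [heT'] at hdvd hte hndvd
  have he0 : 0 < e := Nat.pos_of_dvd_of_pos hdvd (by have := hp.two_le; omega)
  have hTNH : T' ≤ normalizer (𝐂[zpowers u] : Set G) := fun x hx => normalizer_le_normalizer_centralizer _ hx.1
  have hfT : ∀ t ∈ T', ∀ ν ∈ f, actN 𝐂[zpowers u] t ν ∈ f := by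
    intro t ht ν hν
    obtain ⟨h1, h2⟩ := (hT' t).1 ht
    rw [actN_of_mem (hTNH ht)]
    have h3 := twistSet_eq_of_stabilizes hfb h2
    have h4 : twist (conjAut 𝐂[zpowers u] t (hTNH ht)) ν ∈ twistSet (conjAut 𝐂[zpowers u] t (hTNH ht)) f := ⟨ν, hν, rfl⟩
    rw [h3] at h4
    exact h4
  obtain ⟨ν₁, hν₁, hfix, hfree'⟩ := exists_nu1 hTNH ⟨χ₀, hχ₀⟩ hfT hinj hfree ht₀ hzc hlt hgen heT' hte hndvd hdvd hfq he0
  have hreg : ∀ ν ∈ f, ∀ ν' ∈ f, ∀ y : 𝐂[zpowers u], ¬ p ∣ orderOf (y : G) →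
      (ν : 𝐂[zpowers u] → ℂ) y = (ν' : 𝐂[zpowers u] → ℂ) y := by
    intro ν hν ν' hν' y hy
    rw [Subgroup.orderOf_coe] at hy
    rw [hagree ν hν y hy, hagree ν' hν' y hy]
  have hsupp : ∀ ν ∈ f, ∀ ν' ∈ f, ∀ y : 𝐂[zpowers u], (ν : 𝐂[zpowers u] → ℂ) y ≠ (ν' : 𝐂[zpowers u] → ℂ) y →
      u ∈ zpowers (pp p (y : G)) := by
    intro ν hν ν' hν' y hy
    have hsing : p ∣ orderOf (y : G) := by
      by_contra h
      exact hy (hreg ν hν ν' hν' y h)
    by_cases h0 : (ν : 𝐂[zpowers u] → ℂ) y = 0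
    · have h1 : (ν' : 𝐂[zpowers u] → ℂ) y ≠ 0 := fun h => hy (by rw [h0, h])
      exact supp_lemma hM hD hu huD hmax' hν' h1 hsing
    · exact supp_lemma hM hD hu huD hmax' hν h0 hsing
  have hL : LocData p M u f T' ν₁ :=
    { hu := hu, hf := hfb, hT' := hT', hν₁ := hν₁, hfix := hfix, hfree := hfree', hsupp := hsupp, hreg := hreg }
  -- the representatives on the local block
  have hCT' : 𝐂[zpowers u] ≤ T' := C_le_T hL
  have hactinj : ∀ {x y : IrrCharacter 𝐂[zpowers u]} (t : T'), actN 𝐂[zpowers u] (t : G) x = actN 𝐂[zpowers u] (t : G) y → x = y := by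
    intro x y t h
    rw [actN_of_mem (hTNH t.2), actN_of_mem (hTNH t.2)] at h
    exact twist_injective _ h
  obtain ⟨Rf, hRf1, hRf2, hRf3, hRf4⟩ := exists_transversal (A := T') (fun t ν => actN 𝐂[zpowers u] (t : G) ν)
    (fun x => by
      have h1 : ((1 : T') : G) ∈ 𝐂[zpowers u] := Subgroup.one_mem _
      rw [actN_of_mem (hTNH (1 : T').2), twist_conj_inner h1])
    (fun a b x => by
      have hab' : ((a * b : T') : G) ∈ normalizer (𝐂[zpowers u] : Set G) := hTNH (a * b).2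
      rw [actN_of_mem hab', actN_of_mem (hTNH b.2), actN_of_mem (hTNH a.2), ← twist_mul]
      congr 1
      exact conjAut_mul _ _ _ (hTNH a.2) (hTNH b.2) _)
    he0 ((bF f).erase ν₁)
    (fun a x hx => by
      obtain ⟨hx1, hx2⟩ := Finset.mem_erase.1 hx
      refine Finset.mem_erase.2 ⟨fun h => hx1 ?_, mem_bF.2 (hfT _ a.2 _ (mem_bF.1 hx2))⟩
      exact hactinj a (h.trans (hfix _ a.2).symm))
    (fun x hx => by
      obtain ⟨hx1, hx2⟩ := Finset.mem_erase.1 hx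
      have h1 : (Finset.univ.filter (fun a : T' => actN 𝐂[zpowers u] (a : G) x = x)) = Finset.univ.filter (fun a : T' => (a : G) ∈ 𝐂[zpowers u]) := by
        ext a
        simp only [Finset.mem_filter, Finset.mem_univ, true_and]
        refine ⟨fun h => hfree' x (mem_bF.1 hx2) hx1 a a.2 h, fun h => ?_⟩
        rw [actN_of_mem (hTNH a.2), twist_conj_inner h]
      rw [h1, card_filter_mem hCT', ← Nat.card_eq_fintype_card, card_eq_relIndex_mul hCT', heT', mul_comm])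
  have hR1 : ∀ r ∈ Rf, r ∈ f ∧ r ≠ ν₁ := by
    intro r hr
    obtain ⟨h1, h2⟩ := Finset.mem_erase.1 (hRf1 hr)
    exact ⟨mem_bF.1 h2, h1⟩
  have hR2 : ∀ r ∈ Rf, ∀ r' ∈ Rf, ∀ t ∈ T', actN 𝐂[zpowers u] t r' = r → r = r' :=
    fun r hr r' hr' t ht h => hRf4 r hr r' hr' ⟨t, ht⟩ h
  have hq : Rf.card * e + 1 = p ^ a := by
    rw [hRf2, Finset.card_erase_of_mem (mem_bF.2 hν₁), hfq]
    have : 1 ≤ p ^ a := Nat.one_le_pow _ _ hp.pos
    omega
  have hRne : Nonempty Rf := by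
    have h1 : 0 < Rf.card := by
      rcases Nat.eq_zero_or_pos Rf.card with h | h
      · rw [h, zero_mul] at hq
        have := hp.two_le
        omega
      · exact h
    obtain ⟨r, hr⟩ := Finset.card_pos.1 h1
    exact ⟨⟨r, hr⟩⟩
  -- representatives on the defect group
  have hTND : T ≤ 𝐍[D] := fun y hy => ((hT y).1 hy).1
  have hCT : 𝐂[D] ≤ T := (stab_facts hT).2.1
  have hpe : ¬ p ∣ e := by
    intro h
    have h1 := Nat.le_of_dvd he0 h
    have h2 := Nat.le_of_dvd (by have := hp.two_le; omega) hdvd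
    have := hp.two_le
    omega
  have hkerind : (theta hTND).ker.index = e := by
    have h1 : (theta hTND).ker = (𝐂[D]).subgroupOf T := by
      ext t
      rw [mem_ker_theta, Subgroup.mem_subgroupOf]
    rw [h1]
    exact he
  haveI hDcyc : IsCyclic D := hD
  have hfreeD : ∀ t : T, ∀ v ∈ D, v ≠ 1 → (t : G) * v * (t : G)⁻¹ = v → (t : G) ∈ 𝐂[D] := by
    intro t v hv hv1 htv
    have h1 := (cyc_aut hPp (theta hTND) (by rw [hkerind]; exact hpe)).2.2 t ⟨v, hv⟩ (fun h => hv1 (congrArg Subtype.val h))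
      (Subtype.ext (by rw [coe_theta]; exact htv))
    exact (mem_ker_theta hTND t).1 h1
  obtain ⟨A, hA1, hA2, hA3, hA4⟩ := exists_transversal (A := T) (fun t v => (t : G) * v * (t : G)⁻¹)
    (fun x => by simp) (fun a b x => by
      simp only [Subgroup.coe_mul]
      group) he0 ((Finset.univ.filter (· ∈ D)).erase 1)
    (fun a x hx => by
      obtain ⟨hx1, hx2⟩ := Finset.mem_erase.1 hx
      have hxD : x ∈ D := (Finset.mem_filter.1 hx2).2
      refine Finset.mem_erase.2 ⟨fun h => hx1 ?_, Finset.mem_filter.2 ⟨Finset.mem_univ _, (Subgroup.mem_normalizer_iff.1 (hTND a.2) x).1 hxD⟩⟩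
      have h1 : (a : G) * x * (a : G)⁻¹ = (a : G) * 1 * (a : G)⁻¹ := by rw [h]; group
      exact mul_left_cancel (mul_right_cancel h1))
    (fun x hx => by
      obtain ⟨hx1, hx2⟩ := Finset.mem_erase.1 hx
      have hxD : x ∈ D := (Finset.mem_filter.1 hx2).2
      have h1 : (Finset.univ.filter (fun a : T => (a : G) * x * (a : G)⁻¹ = x)) = Finset.univ.filter (fun a : T => (a : G) ∈ 𝐂[D]) := by
        ext a
        simp only [Finset.mem_filter, Finset.mem_univ, true_and]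
        refine ⟨fun h => hfreeD a x hxD hx1 h, fun h => ?_⟩
        rw [← (Subgroup.mem_centralizer_iff.1 h) x hxD]
        group
      rw [h1, card_filter_mem hCT, ← Nat.card_eq_fintype_card, card_eq_relIndex_mul hCT, he, mul_comm])
  have hAcard : A.card = Rf.card := by
    have h1 : ((Finset.univ.filter (· ∈ D)).erase (1 : G)).card + 1 = p ^ a := by
      rw [Finset.card_erase_add_one (Finset.mem_filter.2 ⟨Finset.mem_univ _, D.one_mem⟩), ← hDa, Nat.card_eq_fintype_card, Fintype.card_subtype]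
    have h2 : A.card * e = Rf.card * e := by
      rw [hA2]
      omega
    exact Nat.eq_of_mul_eq_mul_right he0 h2
  -- local blocks have rank one
  have hloc : ∀ z ∈ D, z ≠ 1 → ∀ f' : Set (IrrCharacter 𝐂[zpowers z]), IsPBlock M f' → SubpairLE p M (zpowers z) f' D b → blockRank p f' = 1 := by
    intro z hz hz1 f' hf' hle
    have hQP' : zpowers z ≤ D := zpowers_le.2 hz
    have hQ1' : zpowers z ≠ ⊥ := by
      rw [Ne, zpowers_eq_bot]
      exact hz1
    have hPC' : D ≤ 𝐂[zpowers z] := by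
      intro x hx
      rw [Subgroup.mem_centralizer_iff]
      intro q hq
      exact hab q (hQP' hq) x hx
    obtain ⟨f'', hf''⟩ := exists_isInducedBlockIn hM hPp hQP' hPC' hind.1
    have hbp' := isBrauerPairOf_in hM hPp hQP' hPC' hf''
    have hn := isNormalSubpair_of_in hPp hQP' hPC' hbp' hind.1 hf''.2.1
    have hle' := subpairLE_of_normal hn
    have hff : f' = f'' := eq_of_two_subpairLE hM hmaxB.1.1 hle' hle
    subst hff
    let T'' : Subgroup G := 𝐍[zpowers z] ⊓ stabSub _ f' hf'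
    exact (Cfsg.Agent.S4645.result p M hM B hB D hBD hD1 hD b hind T hT (zpowers z) hQP' hQ1' f' hf'' T'' (fun g => Iff.rfl)).2.2.1
  have hcount : (bF B).card ≤ blockRank p B + Rf.card := by
    rw [← hAcard]
    refine Cfsg.Agent.Lib.DcCount.card_le_rank_add hM hmaxB hab hloc A ?_ ?_
    · intro w hw
      obtain ⟨h1, h2⟩ := Finset.mem_erase.1 (hA1 hw)
      exact ⟨h1, (Finset.mem_filter.1 h2).2⟩
    · intro z₀ hz₀ hz₀1
      obtain ⟨r, hr, t, ht⟩ := hA3 z₀ (Finset.mem_erase.2 ⟨hz₀1, Finset.mem_filter.2 ⟨Finset.mem_univ _, hz₀⟩⟩)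
      obtain ⟨h1, h2⟩ := (hT _).1 (T.inv_mem t.2)
      refine ⟨_, h1, h2, ?_⟩
      have h3 : (t : G)⁻¹ * z₀ * ((t : G)⁻¹)⁻¹ = r := by
        rw [← ht]
        group
      rw [h3]
      exact hr
  have hdef : blockDefect p B = a := by
    have h1 := Cfsg.Agent.Lib.BlockDefect.card_isDefectGroup hM hB hBD
    rw [hDa] at h1
    exact (Nat.pow_right_injective hp.two_le h1).symm
  have hinduced : IsInducedBlock M 𝐂[zpowers u] f B := by
    have hn := isNormalSubpair_of_in hPp hQP hPC hbp hind.1 hfb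
    have hle := subpairLE_of_normal hn
    exact Cfsg.Agent.S4683.isInducedBlock_of_isBrauerPairOf hM ((isBrauerPairOf_iff_of_le hM hB hle).2 hcB)
  have hp1 : ¬ p ∣ orderOf (1 : G) := by
    rw [orderOf_one]
    exact fun h1 => hp.one_lt.ne' (Nat.dvd_one.mp h1)
  refine ⟨hdvd, ?_⟩
  -- the action of `T`
  have hTT' : T ≤ T' := by
    rw [hT1]
    exact le_sup_left
  have hTN' : T ≤ normalizer (𝐂[zpowers u] : Set G) := fun t ht => hTNH (hTT' ht)
  have hact_in : ∀ (h : G), h ∈ 𝐂[zpowers u] → ∀ ν : IrrCharacter 𝐂[zpowers u], actN 𝐂[zpowers u] h ν = ν := by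
    intro h hh ν
    have h2 : h ∈ normalizer (𝐂[zpowers u] : Set G) := Subgroup.le_normalizer hh
    rw [actN_of_mem h2, twist_conj_inner hh]
  have hact_mul : ∀ (t h : G), t ∈ normalizer (𝐂[zpowers u] : Set G) → h ∈ normalizer (𝐂[zpowers u] : Set G) →
      ∀ ν : IrrCharacter 𝐂[zpowers u], actN 𝐂[zpowers u] (t * h) ν = actN 𝐂[zpowers u] t (actN 𝐂[zpowers u] h ν) := by
    intro t h ht hh ν
    rw [actN_of_mem (mul_mem ht hh), actN_of_mem ht, actN_of_mem hh, ← twist_mul]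
    congr 1
    exact conjAut_mul _ _ _ ht hh _
  have hdecomp : ∀ t ∈ T', ∃ t₁ ∈ T, ∀ ν : IrrCharacter 𝐂[zpowers u], actN 𝐂[zpowers u] t ν = actN 𝐂[zpowers u] t₁ ν := by
    intro t ht
    have h1 : t ∈ ((T ⊔ 𝐂[zpowers u] : Subgroup G) : Set G) := by
      rw [← hT1]
      exact ht
    rw [Subgroup.coe_mul_of_left_le_normalizer_right T 𝐂[zpowers u] hTN'] at h1
    obtain ⟨t₁, ht₁, h, hh, rfl⟩ := Set.mem_mul.1 h1
    refine ⟨t₁, ht₁, fun ν => ?_⟩
    rw [hact_mul _ _ (hTN' ht₁) (Subgroup.le_normalizer hh), hact_in h hh]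
  -- now the sets
  obtain ⟨c, X₀, hcinj, hX₀card, hc1, hc2, hX₀, hcov, hcX⟩ := Cfsg.Agent.Lib.DcSets.sets_main (ss_values hν₁ hR1 hL1) (ss_same hν₁ hR1 hL1) (gram_int hL hR1 hR2 heT')
    (ss_exclude hν₁ hR1 hL1 hL2 hp1 (Ee_reg hL hR1))
  set s := ss ν₁ Rf with hsdef
  have hs1 : ∀ χ j, s χ j = 0 ∨ s χ j = 1 ∨ s χ j = -1 := ss_values hν₁ hR1 hL1
  have hs2 : ∀ χ j k, s χ j ≠ 0 → s χ k ≠ 0 → s χ j = s χ k := ss_same hν₁ hR1 hL1
  have hG : ∀ j k, ∑ χ, s χ j * s χ k = (if j = k then 1 else 0) + (e : ℤ) := gram_int hL hR1 hR2 heT'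
  have hreg' : ∀ j g, ¬ p ∣ orderOf g → Ee s j g = 0 := Ee_reg hL hR1
  have hsB : ∀ χ j, s χ j ≠ 0 → χ ∈ B := mem_of_ss_ne hM hL hR1 hinduced
  have hq' : Fintype.card Rf * e + 1 = p ^ a := by rw [Fintype.card_coe]; exact hq
  have hcount' : (bF B).card ≤ blockRank p B + Fintype.card Rf := by rw [Fintype.card_coe]; exact hcount
  have hsf := fun {χ : IrrCharacter G} (h : χ ∈ B) (g : G) => sing_formula hsB hcount' hc1 hc2 hreg' hG hq' hdef hM hB h g
  -- every member of the block has a nonzero coordinate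
  have hnz : ∀ χ ∈ B, ∃ j, s χ j ≠ 0 := by
    intro χ hχ
    by_contra hcon
    push Not at hcon
    obtain ⟨j₀⟩ := hRne
    have hv : ∀ g, p ∣ orderOf g → (χ : G → ℂ) g = 0 := by
      intro g hg
      have h1 := hsf hχ g
      rw [pRegularPart_of_sing _ hg, sub_zero] at h1
      rw [h1]
      refine Finset.sum_eq_zero fun j _ => ?_
      have h2 : Ss s χ = 0 := by
        unfold Ss
        exact Finset.sum_eq_zero fun j _ => hcon j
      rw [hcon j, h2]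
      simp
    have h3 := dvd_charDegree_of_vanish hp (IsIrrCharacter.isCharacter χ.2) hv
    obtain ⟨χ₀', rfl⟩ := id hB
    have hχ' : blockOf M ((χ₀' : IrrCharacter G) : G → ℂ) = blockOf M (χ : G → ℂ) :=
      (Cfsg.Agent.Lib.BlockIdem.blockOf_eq_of_mem hχ).symm
    have h4 : c j₀ ∈ blockOf M (χ : G → ℂ) := by
      rw [← hχ']
      exact hsB _ j₀ (hc2 j₀)
    have h5 := eq_of_mem_blockOf_of_dvd hM h3 h4
    apply hc2 j₀
    rw [h5]
    exact hcon j₀
  have hBeq : B = (X₀ : Set (IrrCharacter G)) ∪ Set.range c := by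
    ext χ
    constructor
    · intro hχ
      obtain ⟨j, hj⟩ := hnz χ hχ
      rcases hcov χ j hj with h | h
      · exact Or.inl h
      · exact Or.inr ⟨j, h.symm⟩
    · rintro (h | ⟨j, rfl⟩)
      · obtain ⟨j₀⟩ := hRne
        exact hsB _ j₀ (hX₀ χ h j₀)
      · exact hsB _ j (hc2 j)
  have hsgn : ∀ χ j, s χ j ≠ 0 → s χ j = 1 ∨ s χ j = -1 := by
    intro χ j h
    rcases hs1 χ j with h1 | h1 | h1
    · exact absurd h1 h
    · exact Or.inl h1
    · exact Or.inr h1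
  obtain ⟨j₀⟩ := hRne
  have hdiff : ∀ j k, j ≠ k → ∀ g, Ee s j g - Ee s k g = (s (c j) j : ℂ) * (c j : G → ℂ) g - (s (c k) k : ℂ) * (c k : G → ℂ) g := by
    intro j k hjk g
    rw [Ee_apply, Ee_apply, ← Finset.sum_sub_distrib]
    have hne : c j ≠ c k := fun h => hjk (hcinj h)
    rw [Finset.sum_eq_add (c j) (c k) hne]
    · rw [hc1 j k hjk.symm, hc1 k j hjk]
      push_cast
      ring
    · intro χ _ hχ
      have h1 : s χ j = s χ k := by
        by_cases hχX : χ ∈ X₀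
        · exact hs2 χ j k (hX₀ χ hχX j) (hX₀ χ hχX k)
        · have h2 : s χ j = 0 := by
            by_contra h3
            rcases hcov χ j h3 with h4 | h4
            · exact hχX h4
            · exact hχ.1 h4
          have h5 : s χ k = 0 := by
            by_contra h3
            rcases hcov χ k h3 with h4 | h4
            · exact hχX h4
            · exact hχ.2 h4
          rw [h2, h5]
      rw [h1, sub_self]
    · intro h
      exact absurd (Finset.mem_univ _) h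
    · intro h
      exact absurd (Finset.mem_univ _) h
  have hdeg : ∀ χ : IrrCharacter G, (χ : G → ℂ) 1 = (charDegree (χ : G → ℂ) : ℂ) := fun χ =>
    Cfsg.Agent.Lib.CharKernel.one_eq_charDegree (IsIrrCharacter.isCharacter χ.2)
  have hdpos : ∀ χ : IrrCharacter G, 0 < charDegree (χ : G → ℂ) := fun χ =>
    Cfsg.Agent.Lib.CharKernel.charDegree_pos χ.2
  have hsign : ∀ j k, s (c j) j = s (c k) k := by
    intro j k
    by_cases hjk : j = k
    · rw [hjk]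
    have h1 := hdiff j k hjk 1
    rw [hreg' j 1 hp1, hreg' k 1 hp1, sub_self, hdeg, hdeg] at h1
    have h2 : (s (c j) j) * (charDegree ((c j : IrrCharacter G) : G → ℂ) : ℤ) = (s (c k) k) * (charDegree ((c k : IrrCharacter G) : G → ℂ) : ℤ) := by
      have h3 : ((s (c j) j : ℤ) : ℂ) * (charDegree ((c j : IrrCharacter G) : G → ℂ) : ℂ) = ((s (c k) k : ℤ) : ℂ) * (charDegree ((c k : IrrCharacter G) : G → ℂ) : ℂ) := by
        linear_combination -h1
      exact_mod_cast h3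
    have h4 : (0 : ℤ) < (charDegree ((c j : IrrCharacter G) : G → ℂ) : ℤ) := by exact_mod_cast hdpos (c j)
    have h5 : (0 : ℤ) < (charDegree ((c k : IrrCharacter G) : G → ℂ) : ℤ) := by exact_mod_cast hdpos (c k)
    rcases hsgn _ j (hc2 j) with h6 | h6 <;> rcases hsgn _ k (hc2 k) with h7 | h7 <;> rw [h6, h7] at h2 ⊢
    · nlinarith
    · nlinarith
  have hpne : (p : ℂ) ^ a ≠ 0 := pow_ne_zero _ (by exact_mod_cast hp.ne_zero)
  have hqC : ((Rf.card : ℂ)) * (e : ℂ) + 1 = (p : ℂ) ^ a := by exact_mod_cast hq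
  have hEj : ∀ (j : Rf) (g : G), Ee s j g = (s (c j₀) j₀ : ℂ) * (c j : G → ℂ) g + ∑ χ ∈ X₀, (s χ j₀ : ℂ) * (χ : G → ℂ) g := by
    intro j g
    rw [Ee_apply, hsign j₀ j]
    have hins : (c j) ∉ X₀ := hcX j
    have h2 : ∑ χ, (s χ j : ℂ) * (χ : G → ℂ) g = ∑ χ ∈ insert (c j) X₀, (s χ j : ℂ) * (χ : G → ℂ) g := by
      symm
      refine Finset.sum_subset (Finset.subset_univ _) fun χ _ hχ => ?_
      have h3 : s χ j = 0 := by
        by_contra h4
        rcases hcov χ j h4 with h5 | h5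
        · exact hχ (Finset.mem_insert_of_mem h5)
        · exact hχ (by rw [h5]; exact Finset.mem_insert_self _ _)
      rw [h3]
      simp
    rw [h2, Finset.sum_insert hins]
    congr 1
    refine Finset.sum_congr rfl fun χ hχ => ?_
    rw [hs2 χ j₀ j (hX₀ χ hχ j₀) (hX₀ χ hχ j)]
  have hdeg0 : (charDegree (ν₁ : 𝐂[zpowers u] → ℂ)).factorization p = minExp p f := by
    obtain ⟨χ₁, hχ₁, hmin⟩ := exists_minExp (p := p) hfb
    have h1 := hreg ν₁ hν₁ χ₁ hχ₁ 1 (by simpa using hp1)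
    have h2 := Cfsg.Agent.Lib.CharKernel.one_eq_charDegree (IsIrrCharacter.isCharacter ν₁.2)
    have h3 := Cfsg.Agent.Lib.CharKernel.one_eq_charDegree (IsIrrCharacter.isCharacter χ₁.2)
    rw [h2, h3] at h1
    have h4 : charDegree (ν₁ : 𝐂[zpowers u] → ℂ) = charDegree (χ₁ : 𝐂[zpowers u] → ℂ) := by exact_mod_cast h1
    rw [h4, hmin]
  refine ⟨{ u := u, huD := huD, hu := hu, hPC := hPC, f := f, ν₁ := ν₁, Rf := Rf, hfb := hfb, hν₁ := hν₁,
            hmax := hmax', hnil := hnil, h0 := hdeg0, hTN := hTN', hfix := fun t ht => hfix t (hTT' ht),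
            hfT := fun t ht ν hν => hfT t (hTT' ht) ν hν, hR1 := hR1,
            hR2 := fun r hr r' hr' t ht h => hR2 r hr r' hr' t (hTT' ht) h,
            hR3 := ?_, hq := hq, c := c, X₀ := X₀, δ := fun χ => s χ j₀, δ₀ := s (c j₀) j₀,
            hcinj := hcinj, hX₀ := hX₀card, hBeq := hBeq, hcX := hcX, hδ := fun χ hχ => hsgn χ j₀ (hX₀ χ hχ j₀),
            hδ₀ := hsgn _ j₀ (hc2 j₀), hE := ?_, hsing := ?_, hreg := ?_ }⟩
  · intro ν hν hν1
    obtain ⟨r, hr, t, ht⟩ := hRf3 ν (Finset.mem_erase.2 ⟨hν1, mem_bF.2 hν⟩)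
    obtain ⟨t₁, ht₁, h1⟩ := hdecomp t t.2
    exact ⟨r, hr, t₁, ht₁, by rw [← h1, ht]⟩
  · intro j g
    rw [ind_eq_Ee, hEj]
  · intro χ hχ g hg
    have hχB : χ ∈ B := hsB _ j₀ (hX₀ χ hχ j₀)
    have h1 := hsf hχB g
    rw [pRegularPart_of_sing _ hg, sub_zero] at h1
    have hSS : ((Ss s χ : ℤ) : ℂ) = (Rf.card : ℂ) * (s χ j₀ : ℂ) := by
      unfold Ss
      rw [Finset.sum_congr rfl (fun j _ => hs2 χ j j₀ (hX₀ χ hχ j) (hX₀ χ hχ j₀)), Finset.sum_const, Finset.card_univ, nsmul_eq_mul, Fintype.card_coe]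
      push_cast
      rfl
    rw [h1]
    have hIE : ∀ (j : Rf) (g : G), Ee s j g = indFun 𝐂[zpowers u] (((j : IrrCharacter 𝐂[zpowers u]) : 𝐂[zpowers u] → ℂ) - (ν₁ : 𝐂[zpowers u] → ℂ)) g := fun j g => by
      rw [ind_eq_Ee ν₁ Rf j]
    simp_rw [hIE]
    rw [Finset.mul_sum]
    refine Finset.sum_congr rfl fun j _ => ?_
    congr 1
    rw [hs2 χ j j₀ (hX₀ χ hχ j) (hX₀ χ hχ j₀), hSS]
    field_simp
    linear_combination (-(s χ j₀ : ℂ)) * hqC
  · intro j g hg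
    rw [ind_eq_Ee]
    exact hreg' j g hg

end Cfsg.Agent.Lib.DcData
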