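import Mathlib
import Cfsg.Agent.Lib.StarAct
import Cfsg.Agent.Lib.BrauerLift

/-!
# Characters of height zero: good idempotents and the action of stable linear characters
-/

set_option autoImplicit false
set_option linter.unusedSectionVars false
set_option linter.unusedVariables false
set_option linter.style.haveILetI false

namespace Cfsg.Agent.Lib.StarH0

open Polynomial IsLocalRing Cfsg Cfsg.Agent.Lib.StarFit Cfsg.Agent.Lib.StarGrp
open Cfsg.Agent.Lib.StarLoc Cfsg.Agent.Lib.BlockLocal Cfsg.Agent.Lib.BlockCover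
open Cfsg.Agent.Lib.BlockResidue Cfsg.Agent.Lib.BrauerMap Cfsg.Agent.Lib.BrauerPair
open Cfsg.Agent.Lib.BrauerSub Cfsg.Agent.Lib.BlockIdem Cfsg.Agent.Lib.CharIntegrality
open Cfsg.Agent.Lib.BlkBasic Cfsg.Agent.Lib.StarBlk Cfsg.Agent.Lib.StarP Cfsg.Agent.Lib.StarTh
open Cfsg.Agent.Lib.StarFit.LocSys Cfsg.Agent.Lib.GenChar Cfsg.Agent.Lib.CharBasic
open Cfsg.Agent.Lib.CharInd Cfsg.Agent.Lib.StarGen Cfsg.Agent.Lib.BrauerConj
open Cfsg.Agent.Lib.BrauerCen Cfsg.Agent.Lib.BrauerMax Cfsg.Agent.Lib.StarII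
open Cfsg.Agent.Lib.StarGlob Cfsg.Agent.Lib.BlockOrtho Cfsg.Agent.Lib.StarInner
open Cfsg.Agent.Lib.StarNorm Cfsg.Agent.Lib.BrauerNil Cfsg.Agent.Lib.BrauerStab
open Cfsg.Agent.Lib.StarNil Cfsg.Agent.Lib.StarAct
open scoped ComplexConjugate

universe u

section Abstract

variable {R A : Type*} [CommRing R] [IsDomain R] [Ring A] [Algebra R A]

/-- **A central element of finite order acts on a primitive idempotent by a scalar** when the
ring contains enough roots of unity. -/
theorem exists_scalar_of_prim {S : Subalgebra R A} {i y : A} (hi : i ∈ S) (hii : i * i = i)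
    (h0 : i ≠ 0) (prim : ∀ q ∈ S, q * q = q → i * q = q → q * i = q → q = 0 ∨ q = i)
    (hy : y ∈ S) (hcomm : ∀ a ∈ S, y * a = a * y) {n : ℕ} (hn : 0 < n) (hyn : y ^ n = 1)
    {ξ : R} (hξ : IsPrimitiveRoot ξ n) {ν : R} (hν : (n : R) * ν = 1) :
    ∃ ε : R, y * i = ε • i := by
  classical
  -- the elements
  let z : ℕ → A := fun j => (ξ ^ j) • y
  have hzn : ∀ j, (z j) ^ n = 1 := by
    intro j
    show ((ξ ^ j) • y) ^ n = 1
    rw [_root_.smul_pow, hyn, ← pow_mul, mul_comm, pow_mul, hξ.pow_eq_one, one_pow, one_smul]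
  let F : ℕ → A := fun j => ∑ t ∈ Finset.range n, (z j) ^ t
  have hzS : ∀ j, z j ∈ S := fun j => S.smul_mem hy _
  have hFS : ∀ j, F j ∈ S := fun j => S.sum_mem fun t _ => S.pow_mem (hzS j) t
  have hzF : ∀ j, z j * F j = F j := by
    intro j
    have h1 := mul_geom_sum (z j) n
    rw [hzn, sub_self, sub_mul, one_mul, sub_eq_zero] at h1
    exact h1
  have hzpF : ∀ j t, (z j) ^ t * F j = F j := by
    intro j t
    induction t with
    | zero => simp
    | succ t ih => rw [pow_succ, mul_assoc, hzF, ih]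
  have hFF : ∀ j, F j * F j = (n : R) • F j := by
    intro j
    show (∑ t ∈ Finset.range n, (z j) ^ t) * F j = _
    rw [Finset.sum_mul, Finset.sum_congr rfl fun t _ => hzpF j t, Finset.sum_const, Finset.card_range,
      Nat.cast_smul_eq_nsmul]
  let f : ℕ → A := fun j => ν • F j
  have hfS : ∀ j, f j ∈ S := fun j => S.smul_mem (hFS j) _
  have hzf : ∀ j, z j * f j = f j := by
    intro j
    show z j * (ν • F j) = ν • F j
    rw [mul_smul_comm, hzF]
  have hff : ∀ j, f j * f j = f j := by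
    intro j
    show (ν • F j) * (ν • F j) = ν • F j
    have h1 : ν * ν * (n : R) = ν := by linear_combination ν * hν
    rw [smul_mul_smul_comm, hFF, smul_smul, h1]
  -- the sum
  have hsumF : ∑ j ∈ Finset.range n, F j = (n : R) • 1 := by
    have h1 : ∀ j, F j = ∑ t ∈ Finset.range n, ((ξ ^ t) ^ j) • y ^ t := by
      intro j
      refine Finset.sum_congr rfl fun t _ => ?_
      show ((ξ ^ j) • y) ^ t = _
      rw [_root_.smul_pow, ← pow_mul, ← pow_mul, mul_comm]
    simp_rw [h1]
    rw [Finset.sum_comm]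
    have h2 : ∀ t ∈ Finset.range n, ∑ j ∈ Finset.range n, ((ξ ^ t) ^ j) • y ^ t =
        if t = 0 then (n : R) • 1 else 0 := by
      intro t ht
      rw [← Finset.sum_smul]
      by_cases h3 : t = 0
      · subst h3
        simp
      · rw [if_neg h3]
        have h4 : ξ ^ t ≠ 1 := hξ.pow_ne_one_of_pos_of_lt h3 (Finset.mem_range.1 ht)
        have h5 : (ξ ^ t - 1) * ∑ j ∈ Finset.range n, (ξ ^ t) ^ j = (ξ ^ t) ^ n - 1 := mul_geom_sum _ _
        have h5' : (ξ ^ t) ^ n = 1 := by rw [← pow_mul, mul_comm, pow_mul, hξ.pow_eq_one, one_pow]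
        rw [h5', sub_self] at h5
        have h6 : ∑ j ∈ Finset.range n, (ξ ^ t) ^ j = 0 := by
          rcases mul_eq_zero.1 h5 with h7 | h7
          · exact absurd (sub_eq_zero.1 h7) h4
          · exact h7
        rw [h6, zero_smul]
    rw [Finset.sum_congr rfl h2, Finset.sum_ite_eq' (Finset.range n) 0, if_pos (Finset.mem_range.2 hn)]
  have hsumf : ∑ j ∈ Finset.range n, f j = 1 := by
    show ∑ j ∈ Finset.range n, ν • F j = 1
    rw [← Finset.smul_sum, hsumF, smul_smul, mul_comm, hν, one_smul]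
  -- the commutation
  have hfc : ∀ j, ∀ a ∈ S, f j * a = a * f j := by
    intro j a ha
    have hya := hcomm a ha
    have h1 : ∀ c : A, c ∈ Algebra.adjoin R {y} → c * a = a * c := by
      intro c hc
      induction hc using Algebra.adjoin_induction with
      | mem x hx =>
        rw [Set.mem_singleton_iff] at hx
        rw [hx]
        exact hya
      | algebraMap r => exact (Algebra.commutes r a)
      | add x y _ _ hx hy => rw [add_mul, mul_add, hx, hy]
      | mul x y _ _ hx hy => rw [mul_assoc, hy, ← mul_assoc, hx, mul_assoc]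
    refine h1 _ ?_
    refine Subalgebra.smul_mem _ (Subalgebra.sum_mem _ fun t _ => Subalgebra.pow_mem _ ?_ _) _
    exact Subalgebra.smul_mem _ (Algebra.subset_adjoin (Set.mem_singleton y)) _
  -- the primitive idempotent
  have hdec : ∀ j, i * f j = 0 ∨ i * f j = i := by
    intro j
    refine prim _ (S.mul_mem hi (hfS j)) ?_ ?_ ?_
    · calc i * f j * (i * f j) = i * (f j * i) * f j := by simp only [mul_assoc]
        _ = i * (i * f j) * f j := by rw [hfc j i hi]
        _ = (i * i) * (f j * f j) := by simp only [mul_assoc]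
        _ = i * f j := by rw [hii, hff]
    · rw [← mul_assoc, hii]
    · rw [mul_assoc, hfc j i hi, ← mul_assoc, hii]
  obtain ⟨j, hj⟩ : ∃ j, i * f j = i := by
    by_contra hno
    push Not at hno
    apply h0
    have h1 : i = ∑ j ∈ Finset.range n, i * f j := by
      rw [← Finset.mul_sum, hsumf, mul_one]
    rw [h1]
    refine Finset.sum_eq_zero fun j _ => ?_
    rcases hdec j with h | h
    · exact h
    · exact absurd h (hno j)
  have hzi : z j * i = i := by
    rw [← hj, ← hfc j i hi, ← mul_assoc, hzf]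
  refine ⟨(ξ ^ j) ^ (n - 1), ?_⟩
  have h1 : (ξ ^ j) • (y * i) = i := by
    rw [← smul_mul_assoc]
    exact hzi
  have h2 : (ξ ^ j) ^ (n - 1) * ξ ^ j = 1 := by
    rw [← pow_succ, Nat.sub_add_cancel hn, ← pow_mul, mul_comm, pow_mul, hξ.pow_eq_one, one_pow]
  calc y * i = ((ξ ^ j) ^ (n - 1) * ξ ^ j) • (y * i) := by rw [h2, one_smul]
    _ = (ξ ^ j) ^ (n - 1) • ((ξ ^ j) • (y * i)) := by rw [smul_smul]
    _ = _ := by rw [h1]

end Abstract

variable {G : Type u} [Group G] [Fintype G] {p : ℕ} [hp : Fact p.Prime] {M : Ideal AlgInt}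
  [hMp : M.IsPrime]

local notation "𝐂[" R "]" => Subgroup.centralizer ((R : Subgroup G) : Set G)
local notation "𝐍[" R "]" => Subgroup.normalizer ((R : Subgroup G) : Set G)
local notation Q "^^" x => Subgroup.map (MulEquiv.toMonoidHom (MulAut.conj (x : G))) (Q : Subgroup G)

noncomputable local instance fintypeSubH0 {A : Type*} [Group A] [Finite A] (K : Subgroup A) : Fintype K :=
  Fintype.ofFinite K

/-- Roots of unity in the local ring. -/
theorem exists_primitiveRoot (M : Ideal AlgInt) [M.IsPrime] {n : ℕ} (hn : 0 < n) :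
    ∃ ξ : localSubring M, IsPrimitiveRoot ξ n := by
  have h1 := Complex.isPrimitiveRoot_exp n hn.ne'
  have h2 : IsIntegral ℤ (Complex.exp (2 * Real.pi * Complex.I / n)) :=
    IsIntegral.of_pow hn (by rw [h1.pow_eq_one]; exact isIntegral_one)
  refine ⟨⟨_, memLocalRing_of_isIntegral h2⟩, ?_⟩
  exact IsPrimitiveRoot.of_map_of_injective (f := (localSubring M).subtype) (hf := Subtype.val_injective) h1

theorem chiT_local {χ : G → ℂ} (hχ : IsCharacter G χ) (x : MonoidAlgebra (localSubring M) G) :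
    MemLocalRing M (chiT χ x) := by
  rw [chiT_apply]
  refine memLocalRing_sum _ _ fun k _ => memLocalRing_mul (coeF_local x k) ?_
  exact memLocalRing_of_isIntegral (char_isIntegral hχ k)

section H0

variable {P H : Subgroup G} {e : Set (IrrCharacter (Subgroup.centralizer (P : Set G)))}
  {B : Set (IrrCharacter G)}

/-- A group element of finite order centralizing the algebra acts by a scalar on a primitive idempotent. -/
theorem exists_scalar_ofG {y : G} (hyP : ∀ τ ∈ P, τ * y = y * τ) (hyH : y ∈ H)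
    (hH : ∀ s ∈ H, s * y = y * s) (hy : ¬ p ∣ orderOf y) (hM : IsPModular p M)
    {i : MonoidAlgebra (localSubring M) G} (hi : PrimIn (SS M P H) i) :
    ∃ ε : localSubring M, ofG (localSubring M) y * i = ε • i := by
  have hn : 0 < orderOf y := orderOf_pos y
  obtain ⟨ξ, hξ⟩ := exists_primitiveRoot M hn
  have hν : ((orderOf y : ℕ) : localSubring M) *
      (⟨((orderOf y : ℕ) : ℂ)⁻¹, memLocalRing_inv_natCast hM hy⟩ : localSubring M) = 1 := by
    apply Subtype.ext
    show ((orderOf y : ℕ) : ℂ) * ((orderOf y : ℕ) : ℂ)⁻¹ = 1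
    exact mul_inv_cancel₀ (by exact_mod_cast hn.ne')
  refine exists_scalar_of_prim (S := SS M P H) hi.mem hi.idem hi.ne hi.prim ?_ ?_ hn ?_ hξ hν
  · rw [mem_cen]
    rintro t (ht | ht)
    · rw [← ofG_mul, ← ofG_mul, hyP t ht]
    · rw [← ofG_mul, ← ofG_mul, hH t ht]
  · intro a ha
    exact (mem_cen.1 ha y (Or.inr hyH))
  · rw [show ofG (localSubring M) y ^ orderOf y = ofG (localSubring M) (y ^ orderOf y) from ?_,
      pow_orderOf_eq_one, ofG_one]
    generalize orderOf y = n
    induction n with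
    | zero => simp
    | succ n ih => rw [pow_succ, ih, pow_succ, ofG_mul]

/-- A character of height zero is a unit at a defect class. -/
theorem not_mem_char_defectClass (hM : IsPModular p M) (hB : IsPBlock M B) {k : G}
    (hk : IsDefectClass M B k) (S : Sylow p (Subgroup.centralizer ({k} : Set G)))
    (hS : IsDefectGroup p M B ((S : Subgroup (Subgroup.centralizer ({k} : Set G))).map
      (Subgroup.centralizer ({k} : Set G)).subtype))
    {χ : IrrCharacter G} (hχ : χ ∈ B) (h0 : blockHeight p B (χ : G → ℂ) = 0) :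
    ¬ MemLocalIdeal M ((χ : G → ℂ) k) := by
  obtain ⟨u, hu1, hu2, hu3⟩ := Cfsg.Agent.Lib.BlockQ.exists_unit_formula hM hB hχ
  rw [h0, pow_zero, one_mul] at hu3
  have hcard := Cfsg.Agent.Lib.BlockDefect.card_isDefectGroup hM hB hS
  have hSc : Nat.card ((S : Subgroup (Subgroup.centralizer ({k} : Set G))).map (Subgroup.centralizer ({k} : Set G)).subtype) =
      Nat.card (S : Subgroup (Subgroup.centralizer ({k} : Set G))) :=
    Nat.card_congr (Subgroup.equivMapOfInjective _ _ (Subgroup.subtype_injective _)).toEquiv.symm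
  obtain ⟨m, hm⟩ : ∃ m, m = (S : Subgroup (Subgroup.centralizer ({k} : Set G))).index := ⟨_, rfl⟩
  have hmp : ¬ p ∣ m := by
    rw [hm]
    exact S.not_dvd_index
  have hCc : Nat.card (Subgroup.centralizer ({k} : Set G)) = p ^ blockDefect p B * m := by
    rw [← hcard, hSc, hm, Subgroup.card_mul_index]
  have hidx : ((Subgroup.centralizer ({k} : Set G)).index : ℂ) * (Nat.card (Subgroup.centralizer ({k} : Set G)) : ℂ) = (Nat.card G : ℂ) := by
    exact_mod_cast (Subgroup.centralizer ({k} : Set G)).index_mul_card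
  have hG0 : (Nat.card G : ℂ) ≠ 0 := by exact_mod_cast Nat.card_pos.ne'
  have hχ1 : (χ : G → ℂ) 1 ≠ 0 := isIrr_one_ne_zero χ.2
  have key : (χ : G → ℂ) k = centralChar (χ : G → ℂ) k * u * (m : ℂ) := by
    unfold centralChar
    rw [← hu3]
    have hCc' : (Nat.card (Subgroup.centralizer ({k} : Set G)) : ℂ) = (p : ℂ) ^ blockDefect p B * (m : ℂ) := by
      rw [hCc]
      push_cast
      ring
    rw [← hidx, hCc']
    have h1 : ((Subgroup.centralizer ({k} : Set G)).index : ℂ) ≠ 0 := by
      intro h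
      rw [h, zero_mul] at hidx
      exact hG0 hidx.symm
    have h2 : (p : ℂ) ^ blockDefect p B ≠ 0 := pow_ne_zero _ (by exact_mod_cast hp.out.ne_zero)
    have h3 : (m : ℂ) ≠ 0 := by
      intro h
      have : m = 0 := by exact_mod_cast h
      rw [this] at hmp
      exact hmp (dvd_zero p)
    field_simp
  obtain ⟨-, -, hk3⟩ := hk
  have hcent : MemLocalRing M (centralChar (χ : G → ℂ) k) :=
    memLocalRing_of_isIntegral (isIntegral_centralChar χ k)
  intro h
  rw [key] at h
  rcases (memLocalIdeal_mul_iff (memLocalRing_mul hcent hu1) (memLocalRing_natCast m)).1 h with h1 | h1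
  · rcases (memLocalIdeal_mul_iff hcent hu1).1 h1 with h2 | h2
    · exact hk3 χ hχ h2
    · exact hu2 h2
  · exact not_memLocalIdeal_natCast hM hmp h1

theorem chiT_smul (χ : G → ℂ) (r : localSubring M) (x : MonoidAlgebra (localSubring M) G) :
    chiT χ (r • x) = (r : ℂ) * chiT χ x := by
  rw [chiT_apply, chiT_apply, Finset.mul_sum]
  refine Finset.sum_congr rfl fun k _ => ?_
  simp only [coeF_apply, MonoidAlgebra.coeff_smul, Finsupp.smul_apply, smul_eq_mul]
  push_cast
  ring

/-- **The good idempotent of a character of height zero.** -/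
theorem exists_good_idem (hM : IsPModular p M) (hmax : IsMaximalBrauerPair p M B P e)
    {χ : IrrCharacter G} (hχ : χ ∈ B) (h0 : blockHeight p B (χ : G → ℂ) = 0) :
    ∃ (H : Subgroup G) (i : MonoidAlgebra (localSubring M) G) (c : BlockT M 𝐂[P]) (g : G),
      (∀ s ∈ H, ¬ p ∣ orderOf s) ∧ (∀ τ ∈ P, ∀ s ∈ H, τ * s = s * τ) ∧ PrimIn (SS M P H) i ∧
      br P i ≠ 0 ∧ br P i * bb P c = br P i ∧ cp g ⟨P, c.1⟩ = ⟨P, e⟩ ∧
      ∀ w ∈ P, ¬ MemLocalIdeal M (chiT (χ : G → ℂ) (ofG (localSubring M) w * i)) := by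
  classical
  have hpp : p.Prime := hp.out
  have hB := hmax.1.2.1
  have hPp : IsPGroup p P := hmax.1.1.1
  have hD := isDefectGroup_of_maximal hM hmax
  have hχc : IsCharacter G (χ : G → ℂ) := IsIrrCharacter.isCharacter χ.2
  have hχcl : IsClassFunction G (χ : G → ℂ) := isClassFunction_of_isCharacter hχc
  obtain ⟨k, hk, S, hS⟩ := id hD
  have hkunit := not_mem_char_defectClass hM hB hk S (hS ▸ hD) hχ h0
  have hPk : ∀ τ ∈ P, τ * k = k * τ := by
    intro τ hτ
    rw [hS] at hτ
    obtain ⟨c, -, rfl⟩ := hτ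
    exact (Subgroup.mem_centralizer_singleton_iff.1 c.2)
  -- the parts of `k`
  have hpart := pp_spec (p := p) k
  obtain ⟨y, hy, hc, ⟨a, ha⟩, hyp⟩ := id hpart
  obtain ⟨N, hN⟩ := Cfsg.Agent.Lib.BlkOrth.pPart_exists_pow hpp hpart
  have hPkp : ∀ τ ∈ P, τ * pp p k = pp p k * τ := by
    intro τ hτ
    rw [← hN]
    exact ((Commute.pow_right (show Commute τ k from hPk τ hτ) N)).eq
  have hPy : ∀ τ ∈ P, τ * y = y * τ := by
    intro τ hτ
    have h1 : y = (pp p k)⁻¹ * k := eq_inv_mul_of_mul_eq hy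
    rw [h1]
    have h2 := hPk τ hτ
    have h3 := hPkp τ hτ
    calc τ * ((pp p k)⁻¹ * k) = (pp p k)⁻¹ * (pp p k * τ * (pp p k)⁻¹) * k := by group
      _ = (pp p k)⁻¹ * (τ * pp p k * (pp p k)⁻¹) * k := by rw [h3]
      _ = (pp p k)⁻¹ * (τ * k) := by group
      _ = (pp p k)⁻¹ * (k * τ) := by rw [h2]
      _ = _ := by group
  -- the `p`-part lies in the defect group
  have hkpP : pp p k ∈ P := by
    have hmem : pp p k ∈ Subgroup.centralizer ({k} : Set G) := by
      rw [Subgroup.mem_centralizer_singleton_iff, ← hN]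
      exact (Commute.pow_left (Commute.refl k) N).eq
    set K : Subgroup.centralizer ({k} : Set G) := ⟨pp p k, hmem⟩ with hK
    have hKz : ∀ c : Subgroup.centralizer ({k} : Set G), c * K = K * c := by
      intro c
      apply Subtype.ext
      show (c : G) * pp p k = pp p k * c
      rw [← hN]
      have h1 : Commute (c : G) k := Subgroup.mem_centralizer_singleton_iff.1 c.2
      exact (Commute.pow_right h1 N).eq
    have hKp : IsPGroup p (Subgroup.zpowers K) := by
      apply IsPGroup.of_card (n := a)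
      rw [Nat.card_zpowers, Subgroup.orderOf_mk, ha]
    have hKn : K ∈ Subgroup.normalizer ((S : Subgroup (Subgroup.centralizer ({k} : Set G))) : Set (Subgroup.centralizer ({k} : Set G))) := by
      rw [Subgroup.mem_normalizer_iff]
      intro h
      have e1 : K * h * K⁻¹ = h := by
        rw [← hKz h]
        group
      rw [e1]
    have h1 := hKp.inf_normalizer_sylow S
    have h2 := h1.le ⟨Subgroup.mem_zpowers K, hKn⟩
    rw [hS]
    exact ⟨K, h2.2, rfl⟩
  -- the subgroup `H`
  set H : Subgroup G := Subgroup.zpowers y with hH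
  have hHp : ∀ s ∈ H, ¬ p ∣ orderOf s := by
    intro s hs h1
    exact hyp (h1.trans (orderOf_dvd_of_mem_zpowers hs))
  have hHc : ∀ s ∈ H, s * y = y * s := by
    intro s hs
    obtain ⟨n, rfl⟩ := Subgroup.mem_zpowers_iff.1 hs
    exact ((Commute.refl y).zpow_left n).eq
  have hQH : ∀ τ ∈ P, ∀ s ∈ H, τ * s = s * τ := by
    intro τ hτ s hs
    obtain ⟨n, rfl⟩ := Subgroup.mem_zpowers_iff.1 hs
    exact (Commute.zpow_right (show Commute τ y from hPy τ hτ) n).eq
  -- the decomposition of the identity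
  obtain ⟨κ, _, E, hE1, -, hE3⟩ := exists_prim_decomp (LL M G) (S := SS M P H) (a := 1)
    (Subalgebra.one_mem _) (one_mul 1)
  have hsum : ∑ j, chiT (χ : G → ℂ) (ofG (localSubring M) k * E j) = (χ : G → ℂ) k := by
    rw [← map_sum, ← Finset.mul_sum, hE3, mul_one, chiT_ofG]
  obtain ⟨j, hj⟩ : ∃ j, ¬ MemLocalIdeal M (chiT (χ : G → ℂ) (ofG (localSubring M) k * E j)) := by
    by_contra hno
    push Not at hno
    apply hkunit
    rw [← hsum]
    exact memLocalIdeal_sum _ _ fun j _ => hno j
  set i := E j with hi'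
  have hi : PrimIn (SS M P H) i := hE1 j
  -- the scalar
  obtain ⟨ε, hε⟩ := exists_scalar_ofG (P := P) (H := H) (y := y) hPy (Subgroup.mem_zpowers y) hHc hyp hM hi
  have hθkp : ¬ MemLocalIdeal M (chiT (χ : G → ℂ) (ofG (localSubring M) (pp p k) * i)) := by
    intro h
    apply hj
    have e1 : ofG (localSubring M) k * i = ε • (ofG (localSubring M) (pp p k) * i) := by
      have e2 : ofG (localSubring M) k = ofG (localSubring M) (pp p k) * ofG (localSubring M) y := by
        rw [← ofG_mul, hy]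
      rw [e2, mul_assoc, hε, mul_smul_comm]
    rw [e1, chiT_smul]
    exact memLocalIdeal_mul_left ε.2 h
  -- the generalized character
  have hgen := gen_chiT (M := M) hχc (E := P) (i := i) (fun t ht => mem_cen.1 hi.mem t (Or.inl ht)) hi.idem
  have hcong : ∀ w : P, MemLocalIdeal M (chiT (χ : G → ℂ) (ofG (localSubring M) (w : G) * i) -
      chiT (χ : G → ℂ) (ofG (localSubring M) (1 : G) * i)) := by
    intro w
    exact gen_sub_one_mem hM hPp hgen w
  have hθ1 : ¬ MemLocalIdeal M (chiT (χ : G → ℂ) (ofG (localSubring M) (1 : G) * i)) := by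
    intro h
    apply hθkp
    have h1 := hcong ⟨pp p k, hkpP⟩
    have h2 := memLocalIdeal_add h1 h
    simpa using h2
  have hall : ∀ w ∈ P, ¬ MemLocalIdeal M (chiT (χ : G → ℂ) (ofG (localSubring M) w * i)) := by
    intro w hw h
    apply hθ1
    have h1 := hcong ⟨w, hw⟩
    have h2 := memLocalIdeal_sub h h1
    simpa using h2
  -- the idempotent is local
  have hbr : br P i ≠ 0 := by
    intro hbr0
    obtain ⟨Z, hZQ, hidx, w, hwS, hiw, hwi, hrtr⟩ := rosenberg splitR_local hPp hHp hQH hi hbr0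
    have hZne : Z ≠ P := by
      rintro rfl
      have : (Z.subgroupOf Z).index = 1 := by
        rw [Subgroup.subgroupOf_self, Subgroup.index_top]
      rw [this] at hidx
      exact hpp.one_lt.ne hidx
    obtain ⟨τ, hτQ, hτZ⟩ : ∃ t ∈ P, t ∉ Z := by
      by_contra hne
      push Not at hne
      exact hZne (le_antisymm hZQ hne)
    have h1 := rtr_eq_sum_pow hPp hZQ hidx hτQ hτZ (SS_left hwS)
    apply hθ1
    rw [ofG_one, one_mul, ← hrtr, h1, map_sum]
    have h2 : ∀ n ∈ Finset.range p, chiT (χ : G → ℂ) (cj (τ ^ n) w) = chiT (χ : G → ℂ) w :=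
      fun n _ => chiT_cj hχcl _ _
    rw [Finset.sum_congr rfl h2, Finset.sum_const, Finset.card_range, nsmul_eq_mul]
    exact memLocalIdeal_mul_right (memLocalIdeal_natCast_of_dvd hM dvd_rfl) (chiT_local hχc w)
  -- the block
  obtain ⟨c, hc'⟩ := exists_block hM hPp hQH hi
  have hie : i * eG B hB = i := by
    have hei : i * eG B hB ∈ SS M P H := (SS M P H).mul_mem hi.mem (eG_mem_cen B hB _)
    have hidem : (i * eG B hB) * (i * eG B hB) = i * eG B hB := by
      calc (i * eG B hB) * (i * eG B hB) = i * (eG B hB * i) * eG B hB := by simp only [mul_assoc]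
        _ = i * (i * eG B hB) * eG B hB := by rw [eG_comm]
        _ = (i * i) * (eG B hB * eG B hB) := by simp only [mul_assoc]
        _ = i * eG B hB := by rw [hi.idem, eG_idem]
    rcases hi.prim _ hei hidem (by rw [← mul_assoc, hi.idem]) (by
      rw [mul_assoc, eG_comm, ← mul_assoc, hi.idem]) with h1 | h1
    · exfalso
      apply hj
      rw [← chiT_mul_eG hB hχ, mul_assoc, h1, mul_zero, map_zero]
      exact memLocalIdeal_zero
    · exact h1
  have hψ := homD (H := H) hM hPp (le_refl P)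
  have hne : br P (eG B hB) * bb P c ≠ 0 := by
    intro h
    apply hbr
    have h1 : br P i = br P i * br P (eG B hB) := by
      rw [← hψ.mul _ hi.mem _ (eG_mem_cen B hB _), hie]
    rw [← hc', h1, mul_assoc, h, mul_zero]
  have hpair := pair_of_br_ne hM hB hPp c hne
  have hmaxc := Cfsg.Agent.Lib.BrauerLift.isMaximal_of_isDefectGroup hM hpair hD
  obtain ⟨g, hg⟩ := exists_cp_eq_of_maximal hM hmax hmaxc
  exact ⟨H, i, c, g, hHp, hQH, hi, hbr, hc', hg, hall⟩

end H0

end Cfsg.Agent.Lib.StarH0
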