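import Mathlib
import Cfsg.Agent.Lib.StarH0
import Cfsg.Agent.Lib.LinearExt
import Cfsg.Prelude.Def_BlockFusion

/-!
# The focal subgroup of a block and characters
-/

set_option autoImplicit false
set_option linter.unusedSectionVars false
set_option linter.unusedVariables false
set_option linter.style.haveILetI false

namespace Cfsg.Agent.Lib.StarFocal

open Polynomial IsLocalRing Cfsg Cfsg.Agent.Lib.StarFit Cfsg.Agent.Lib.StarGrp
open Cfsg.Agent.Lib.StarLoc Cfsg.Agent.Lib.BlockLocal Cfsg.Agent.Lib.BlockCover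
open Cfsg.Agent.Lib.BlockResidue Cfsg.Agent.Lib.BrauerMap Cfsg.Agent.Lib.BrauerPair
open Cfsg.Agent.Lib.BrauerSub Cfsg.Agent.Lib.BlockIdem Cfsg.Agent.Lib.CharIntegrality
open Cfsg.Agent.Lib.BlkBasic Cfsg.Agent.Lib.StarBlk Cfsg.Agent.Lib.StarP Cfsg.Agent.Lib.StarTh
open Cfsg.Agent.Lib.StarFit.LocSys Cfsg.Agent.Lib.GenChar Cfsg.Agent.Lib.CharBasic
open Cfsg.Agent.Lib.CharInd Cfsg.Agent.Lib.StarGen Cfsg.Agent.Lib.BrauerConj
open Cfsg.Agent.Lib.BrauerCen Cfsg.Agent.Lib.BrauerMax Cfsg.Agent.Lib.StarII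
open Cfsg.Agent.Lib.StarGlob Cfsg.Agent.Lib.BlockOrtho Cfsg.Agent.Lib.StarInner
open Cfsg.Agent.Lib.StarNorm Cfsg.Agent.Lib.BrauerNil Cfsg.Agent.Lib.BrauerStab
open Cfsg.Agent.Lib.StarNil Cfsg.Agent.Lib.StarAct Cfsg.Agent.Lib.StarH0
open scoped ComplexConjugate

universe u

section Counting

/-- Free actions modulo a subgroup: the index divides the number of points. -/
theorem index_dvd_card_of_stab {Γ Y : Type*} [Group Γ] [Finite Γ] [Finite Y] [MulAction Γ Y]
    (K : Subgroup Γ) (h : ∀ y : Y, MulAction.stabilizer Γ y ≤ K) : K.index ∣ Nat.card Y := by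
  classical
  letI : Fintype (MulAction.orbitRel.Quotient Γ Y) := Fintype.ofFinite _
  have e := MulAction.selfEquivSigmaOrbits Γ Y
  rw [Nat.card_congr e, Nat.card_sigma]
  refine Finset.dvd_sum fun ω _ => ?_
  rw [Nat.card_coe_set_eq, ← MulAction.index_stabilizer]
  exact Subgroup.index_dvd_of_le (h _)

/-- **The dual group of the quotient by a subgroup containing the commutators.** -/
theorem exists_dual {X W : Type u} [Group X] [Finite X] [Group W] [Finite W] (N : Subgroup X)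
    (hN : ∀ a b : X, a * b * a⁻¹ * b⁻¹ ∈ N) (j : W →* X) :
    ∃ (Γ : Type u) (_ : CommGroup Γ) (_ : Finite Γ) (ρ : Γ →* (X →* ℂˣ)) (K : Subgroup Γ),
      (∀ γ, ∀ y ∈ N, ρ γ y = 1) ∧ (∀ γ, (∀ w, ρ γ (j w) = 1) → γ ∈ K) ∧
      K.index = (N.comap j).index := by
  classical
  haveI hNn : N.Normal := by
    constructor
    intro n hn g
    have h1 := hN g n
    have h2 : g * n * g⁻¹ = (g * n * g⁻¹ * n⁻¹) * n := by group
    rw [h2]
    exact N.mul_mem h1 hn
  letI : CommGroup (X ⧸ N) :=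
    { (inferInstance : Group (X ⧸ N)) with
      mul_comm := by
        intro x y
        induction x using QuotientGroup.induction_on with
        | H a =>
        induction y using QuotientGroup.induction_on with
        | H b =>
        rw [← QuotientGroup.mk_mul, ← QuotientGroup.mk_mul, QuotientGroup.eq]
        have : (a * b)⁻¹ * (b * a) = b⁻¹ * a⁻¹ * b * a := by group
        rw [this]
        have h2 := hN b⁻¹ a⁻¹
        simpa using h2 }
  let π : X →* (X ⧸ N) := QuotientGroup.mk' N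
  let f : W →* (X ⧸ N) := π.comp j
  haveI : NeZero ((Monoid.exponent (X ⧸ N) : ℕ) : ℂ) :=
    ⟨by exact_mod_cast Monoid.exponent_ne_zero_of_finite⟩
  haveI : Finite ((X ⧸ N) →* ℂˣ) := inferInstance
  let ρ : ((X ⧸ N) →* ℂˣ) →* (X →* ℂˣ) :=
    { toFun := fun γ => γ.comp π
      map_one' := rfl
      map_mul' := fun _ _ => rfl }
  have hdvd : Monoid.exponent f.range ∣ Monoid.exponent (X ⧸ N) :=
    Monoid.exponent_submonoid_dvd f.range.toSubmonoid
  haveI : HasEnoughRootsOfUnity ℂ (Monoid.exponent f.range) :=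
    HasEnoughRootsOfUnity.of_dvd ℂ hdvd
  refine ⟨(X ⧸ N) →* ℂˣ, inferInstance, inferInstance, ρ,
    (MonoidHom.domRestrictHom f.range ℂˣ).ker, ?_, ?_, ?_⟩
  · intro γ y hy
    show γ (π y) = 1
    have : π y = 1 := (QuotientGroup.eq_one_iff y).2 hy
    rw [this, map_one]
  · intro γ hγ
    rw [MonoidHom.mem_ker]
    ext ⟨z, hz⟩
    obtain ⟨w, rfl⟩ := hz
    exact congrArg Units.val (hγ w)
  · rw [Subgroup.index_ker, MonoidHom.range_eq_top.2 (MonoidHom.domRestrict_surjective (M := ℂ) f.range),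
      Nat.card_congr Subgroup.topEquiv.toEquiv, CommGroup.card_monoidHom_of_hasEnoughRootsOfUnity,
      ← Subgroup.index_ker]
    congr 1
    ext w
    rw [MonoidHom.mem_ker, Subgroup.mem_comap]
    exact QuotientGroup.eq_one_iff (j w)

end Counting

variable {G : Type u} [Group G] [Fintype G] {p : ℕ} [hp : Fact p.Prime] {M : Ideal AlgInt}
  [hMp : M.IsPrime]

local notation "𝐂[" R "]" => Subgroup.centralizer ((R : Subgroup G) : Set G)
local notation "𝐍[" R "]" => Subgroup.normalizer ((R : Subgroup G) : Set G)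
local notation Q "^^" x => Subgroup.map (MulEquiv.toMonoidHom (MulAut.conj (x : G))) (Q : Subgroup G)

noncomputable local instance fintypeSubFoc {A : Type*} [Group A] [Finite A] (K : Subgroup A) : Fintype K :=
  Fintype.ofFinite K

section Twist

variable {P : Subgroup G} {e : Set (IrrCharacter (Subgroup.centralizer (P : Set G)))}
  {B : Set (IrrCharacter G)}

/-- The function on `G` attached to a linear character of `P`. -/
noncomputable def lamF (l : P →* ℂˣ) : G → ℂ := extendByZero P (fun y => ((l y : ℂˣ) : ℂ))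

theorem lamF_coe (l : P →* ℂˣ) (y : P) : lamF l (y : G) = ((l y : ℂˣ) : ℂ) :=
  extendByZero_coe P _ y

theorem lamF_of_mem (l : P →* ℂˣ) {y : G} (hy : y ∈ P) : lamF l y = ((l ⟨y, hy⟩ : ℂˣ) : ℂ) :=
  extendByZero_of_mem P _ hy

/-- Linear characters trivial on the focal subgroup. -/
def Stable (F : FusionSystem P) (l : P →* ℂˣ) : Prop :=
  ∀ y : P, (y : G) ∈ F.focalSubgroup → l y = 1

theorem stable_one (F : FusionSystem P) : Stable F (1 : P →* ℂˣ) := fun _ _ => rfl

theorem Stable.mul {F : FusionSystem P} {l l' : P →* ℂˣ} (h : Stable F l) (h' : Stable F l') :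
    Stable F (l * l') := fun y hy => by
  rw [MonoidHom.mul_apply, h y hy, h' y hy, one_mul]

/-- **Linear characters trivial on the focal subgroup are stable.** -/
theorem hst_lamF {F : FusionSystem P} (hF : IsBlockFusionSystemOn p M B P e F) {l : P →* ℂˣ}
    (hl : Stable F l) (u : G) (x : MonoidAlgebra (localSubring M) G) (g g' : G)
    (hg : Wit p M P e u x g) (hg' : Wit p M P e u x g') :
    lamF l (g * u * g⁻¹) = lamF l (g' * u * g'⁻¹) := by
  obtain ⟨b, rfl, hb⟩ := hg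
  obtain ⟨b', hbb, hb'⟩ := hg'
  obtain rfl : b = b' := eB_inj _ hbb
  set t := g' * g⁻¹ with ht
  have hQP : ((Subgroup.zpowers u) ^^ g) ≤ P := le_of_subpairLE hb
  have hle' : SubpairLE p M (((Subgroup.zpowers u) ^^ g) ^^ t)
      (conjBlock ((Subgroup.zpowers u) ^^ g) t (conjBlock (Subgroup.zpowers u) g b.1)) P e := by
    have h1 : cp t (cp g ⟨Subgroup.zpowers u, b.1⟩) = cp g' ⟨Subgroup.zpowers u, b.1⟩ := by
      rw [← cp_mul, ht]
      congr 1
      group
    show Relation.ReflTransGen (NormalSubpairRel (G := G) p M)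
      (cp t (cp g ⟨Subgroup.zpowers u, b.1⟩)) ⟨P, e⟩
    rw [h1]
    exact hb'
  let φ : ((Subgroup.zpowers u) ^^ g) →* G := conjHom _ t
  have hφ : φ ∈ F.Hom ((Subgroup.zpowers u) ^^ g) :=
    (hF.2 _ φ).2 ⟨hQP, t, fun y => rfl, le_of_subpairLE hle', _, hb, hle'⟩
  have hmem : g * u * g⁻¹ ∈ ((Subgroup.zpowers u) ^^ g) := ⟨u, Subgroup.mem_zpowers u, rfl⟩
  have hfoc : (g * u * g⁻¹)⁻¹ * φ ⟨g * u * g⁻¹, hmem⟩ ∈ F.focalSubgroup :=
    Subgroup.subset_closure ⟨_, φ, ⟨_, hmem⟩, hφ, rfl⟩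
  have h4 : φ ⟨g * u * g⁻¹, hmem⟩ = g' * u * g'⁻¹ := by
    show t * (g * u * g⁻¹) * t⁻¹ = _
    rw [ht]
    group
  rw [h4] at hfoc
  have hmem1 : g * u * g⁻¹ ∈ P := hQP hmem
  have hmem2 : g' * u * g'⁻¹ ∈ P := by
    have h5 := le_of_subpairLE (show SubpairLE p M _ _ P e from hb')
    exact h5 ⟨u, Subgroup.mem_zpowers u, rfl⟩
  rw [lamF_of_mem l hmem1, lamF_of_mem l hmem2]
  have h5 := hl ((⟨_, hmem1⟩ : P)⁻¹ * ⟨_, hmem2⟩) hfoc
  rw [map_mul, map_inv, inv_mul_eq_one] at h5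
  exact congrArg Units.val h5

variable (p M e) in
/-- The twist of a function by a linear character. -/
noncomputable def twL (l : P →* ℂˣ) (χ : G → ℂ) : G → ℂ := TT p M (LamH p M P e (lamF l)) χ

theorem twL_one (hM : IsPModular p M) {F : FusionSystem P} (hF : IsBlockFusionSystemOn p M B P e F)
    {χ : IrrCharacter G} (hχ : χ ∈ B) : twL p M e (1 : P →* ℂˣ) (χ : G → ℂ) = χ := by
  refine TT_LamH_one hM hF.1 (hst_lamF hF (stable_one F)) (fun w hw => ?_) hχ
  rw [lamF_of_mem _ hw]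
  rfl

theorem twL_mul (hM : IsPModular p M) {F : FusionSystem P} (hF : IsBlockFusionSystemOn p M B P e F)
    {l l' : P →* ℂˣ} (hl : Stable F l) (hl' : Stable F l') {χ : G → ℂ} (hχ : IsClassFunction G χ) :
    twL p M e l' (twL p M e l χ) = twL p M e (l' * l) χ := by
  unfold twL
  rw [TT_TT hM (lamH_conj (hst_lamF hF hl)) _ hχ]
  congr 1
  funext u x
  by_cases hex : ∃ g, Wit p M P e u x g
  · obtain ⟨g, hg⟩ := hex
    rw [lamH_eq (hst_lamF hF hl) hg, lamH_eq (hst_lamF hF hl') hg,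
      lamH_eq (hst_lamF hF (hl'.mul hl)) hg]
    obtain ⟨b, rfl, hb⟩ := id hg
    have hmem : g * u * g⁻¹ ∈ P := by
      have h5 := le_of_subpairLE (show SubpairLE p M _ _ P e from hb)
      exact h5 ⟨u, Subgroup.mem_zpowers u, rfl⟩
    rw [lamF_of_mem _ hmem, lamF_of_mem _ hmem, lamF_of_mem _ hmem, MonoidHom.mul_apply, Units.val_mul]
  · rw [lamH_of_not hex, lamH_of_not hex, lamH_of_not hex, zero_mul]

theorem lam_mul_conj (l : P →* ℂˣ) (y : P) :
    ((l y : ℂˣ) : ℂ) * conj ((l y : ℂˣ) : ℂ) = 1 := by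
  have h1 : conj ((l y : ℂˣ) : ℂ) = ((l y⁻¹ : ℂˣ) : ℂ) :=
    char_conj_eq_inv (Cfsg.Agent.Lib.LinearExt.isCharacter_of_hom l) y
  rw [h1, ← Units.val_mul, ← map_mul, mul_inv_cancel, map_one, Units.val_one]

/-- The twists have the same norm. -/
theorem inner_twL (hM : IsPModular p M) {F : FusionSystem P} (hF : IsBlockFusionSystemOn p M B P e F)
    {l : P →* ℂˣ} (hl : Stable F l) {χ : IrrCharacter G} (hχ : χ ∈ B) :
    classInner (twL p M e l (χ : G → ℂ)) (twL p M e l (χ : G → ℂ)) = 1 := by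
  have hχc : IsClassFunction G (χ : G → ℂ) := isClassFunction_of_isCharacter (IsIrrCharacter.isCharacter χ.2)
  have h1 := inner_TT_LamH hM hF.1.1.1 hχc hχc (hst_lamF hF hl) (hst_lamF hF hl)
  have h2 := inner_TT_LamH hM hF.1.1.1 hχc hχc (hst_lamF hF (stable_one F)) (hst_lamF hF (stable_one F))
  have h3 : twL p M e (1 : P →* ℂˣ) (χ : G → ℂ) = χ := twL_one hM hF hχ
  unfold twL at h3
  rw [h3, classInner_irr_self χ.2] at h2
  show classInner (TT p M (LamH p M P e (lamF l)) (χ : G → ℂ)) (TT p M (LamH p M P e (lamF l)) (χ : G → ℂ)) = 1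
  refine h1.trans (Eq.trans ?_ h2.symm)
  refine Finset.sum_congr rfl fun w _ => ?_
  rw [lamF_coe, lamF_coe, lam_mul_conj, lam_mul_conj]

theorem twL_reg (hM : IsPModular p M) {F : FusionSystem P} (hF : IsBlockFusionSystemOn p M B P e F)
    {l : P →* ℂˣ} (hl : Stable F l) {χ : IrrCharacter G} (hχ : χ ∈ B) {v : G} (hv : ¬ p ∣ orderOf v) :
    twL p M e l (χ : G → ℂ) v = (χ : G → ℂ) v := by
  unfold twL
  rw [TT_LamH_reg hM hF.1 (hst_lamF hF hl) hχ hv, lamF_of_mem _ P.one_mem]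
  have h1 : l ⟨1, P.one_mem⟩ = 1 := map_one l
  rw [h1, Units.val_one, one_mul]

/-- The twist of an irreducible character of the block is irreducible. -/
theorem isIrr_twL (hM : IsPModular p M) {F : FusionSystem P} (hF : IsBlockFusionSystemOn p M B P e F)
    {l : P →* ℂˣ} (hl : Stable F l) {χ : IrrCharacter G} (hχ : χ ∈ B) :
    IsIrrCharacter G (twL p M e l (χ : G → ℂ)) := by
  have hlam : IsGeneralizedCharacter P (fun y : P => lamF l (y : G)) := by
    have h1 := isGen_of_isChar (Cfsg.Agent.Lib.LinearExt.isCharacter_of_hom l)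
    convert h1 using 1
    funext y
    exact lamF_coe l y
  have hgen := isGen_TT hM hF.1.1.2.1 hF.1 hχ hlam (hst_lamF hF hl)
  rcases gen_norm_one hgen (inner_twL hM hF hl hχ) with h | h
  · exact h
  · exfalso
    have hv : ¬ p ∣ orderOf (1 : G) := by
      simp [hp.out.one_lt.ne']
    have h1 := twL_reg hM hF hl hχ hv
    obtain ⟨d₂, hd₂, hd₂'⟩ := isIrr_one_pos χ.2
    obtain ⟨d₃, hd₃, hd₃'⟩ := isIrr_one_pos h
    rw [hd₂'] at h1
    simp only [Pi.neg_apply] at hd₃'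
    have h4 : TT p M (LamH p M P e (lamF l)) (χ : G → ℂ) 1 = (d₂ : ℂ) := h1
    rw [h4] at hd₃'
    have h2 : ((d₂ + d₃ : ℕ) : ℂ) = 0 := by
      push_cast
      linear_combination -hd₃'
    have h3 : d₂ + d₃ = 0 := by exact_mod_cast h2
    omega

theorem twL_mem (hM : IsPModular p M) {F : FusionSystem P} (hF : IsBlockFusionSystemOn p M B P e F)
    {l : P →* ℂˣ} (hl : Stable F l) {χ : IrrCharacter G} (hχ : χ ∈ B) :
    (⟨twL p M e l (χ : G → ℂ), isIrr_twL hM hF hl hχ⟩ : IrrCharacter G) ∈ B := by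
  by_contra hne
  have h1 := classInner_TT_of_not_mem (p := p) (lam := lamF l) (χ := χ) hM hF.1 hne
  have h2 := classInner_irr_self (isIrr_twL hM hF hl hχ)
  have h3 : classInner (twL p M e l (χ : G → ℂ)) (twL p M e l (χ : G → ℂ)) = 0 := h1
  rw [h3] at h2
  exact zero_ne_one h2

theorem height_twL (hM : IsPModular p M) {F : FusionSystem P} (hF : IsBlockFusionSystemOn p M B P e F)
    {l : P →* ℂˣ} (hl : Stable F l) {χ : IrrCharacter G} (hχ : χ ∈ B) :
    blockHeight p B (twL p M e l (χ : G → ℂ)) = blockHeight p B (χ : G → ℂ) := by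
  have hv : ¬ p ∣ orderOf (1 : G) := by
    simp [hp.out.one_lt.ne']
  unfold blockHeight charDegree
  rw [twL_reg hM hF hl hχ hv]

/-- **The counting argument.** -/
theorem focal_dvd (hM : IsPModular p M) {F : FusionSystem P} (hF : IsBlockFusionSystemOn p M B P e F)
    (h : ℕ) {Z : Subgroup G} (hZ : Z ≤ P)
    (hfree : ∀ χ : IrrCharacter G, χ ∈ B → blockHeight p B (χ : G → ℂ) = h → ∀ l : P →* ℂˣ, Stable F l →
      twL p M e l (χ : G → ℂ) = χ → ∀ z : Z, l (Subgroup.inclusion hZ z) = 1) :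
    ((Z ⊓ F.focalSubgroup).subgroupOf Z).index ∣
      Nat.card {χ : IrrCharacter G // χ ∈ B ∧ blockHeight p B (χ : G → ℂ) = h} := by
  classical
  have hN : ∀ a b : P, a * b * a⁻¹ * b⁻¹ ∈ F.focalSubgroup.subgroupOf P := by
    intro a b
    rw [Subgroup.mem_subgroupOf]
    have h1 := F.conj_mem (P := P) (le_refl P) b.2
    refine Subgroup.subset_closure ⟨P, _, a⁻¹, h1, ?_⟩
    show (a : G) * b * (a : G)⁻¹ * (b : G)⁻¹ = ((a⁻¹ : P) : G)⁻¹ * ((b : G) * ((a⁻¹ : P) : G) * (b : G)⁻¹)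
    simp only [InvMemClass.coe_inv]
    group
  obtain ⟨Γ, _, _, ρ, K, h1, h2, h3⟩ := exists_dual (F.focalSubgroup.subgroupOf P) hN
    (Subgroup.inclusion hZ)
  have hst : ∀ γ : Γ, Stable F (ρ γ) := fun γ y hy => h1 γ y (Subgroup.mem_subgroupOf.2 hy)
  letI : MulAction Γ {χ : IrrCharacter G // χ ∈ B ∧ blockHeight p B (χ : G → ℂ) = h} :=
    { smul := fun γ χ => ⟨⟨twL p M e (ρ γ) (χ.1 : G → ℂ), isIrr_twL hM hF (hst γ) χ.2.1⟩,
        twL_mem hM hF (hst γ) χ.2.1, (height_twL hM hF (hst γ) χ.2.1).trans χ.2.2⟩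
      one_smul := by
        intro χ
        apply Subtype.ext
        apply Subtype.ext
        show twL p M e (ρ 1) (χ.1 : G → ℂ) = χ.1
        rw [map_one]
        exact twL_one hM hF χ.2.1
      mul_smul := by
        intro a b χ
        apply Subtype.ext
        apply Subtype.ext
        show twL p M e (ρ (a * b)) (χ.1 : G → ℂ) =
          twL p M e (ρ a) (twL p M e (ρ b) (χ.1 : G → ℂ))
        rw [map_mul, twL_mul hM hF (hst b) (hst a)
          (isClassFunction_of_isCharacter (IsIrrCharacter.isCharacter χ.1.2))] }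
  have hdvd := index_dvd_card_of_stab (Γ := Γ)
    (Y := {χ : IrrCharacter G // χ ∈ B ∧ blockHeight p B (χ : G → ℂ) = h}) K (by
      intro χ γ hγ
      rw [MulAction.mem_stabilizer_iff] at hγ
      apply h2
      have h4 : twL p M e (ρ γ) (χ.1 : G → ℂ) = χ.1 := by
        have := congrArg (fun y : {χ : IrrCharacter G // χ ∈ B ∧ blockHeight p B (χ : G → ℂ) = h} =>
          ((y.1 : IrrCharacter G) : G → ℂ)) hγ
        exact this
      exact hfree χ.1 χ.2.1 χ.2.2 _ (hst γ) h4)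
  rw [h3] at hdvd
  convert hdvd using 2
  ext z
  rw [Subgroup.mem_subgroupOf, Subgroup.mem_comap, Subgroup.mem_subgroupOf]
  constructor
  · intro h5
    exact h5.2
  · intro h5
    exact ⟨z.2, h5⟩

/-- **Freeness at height zero.** -/
theorem twL_free (hM : IsPModular p M) {F : FusionSystem P} (hF : IsBlockFusionSystemOn p M B P e F)
    {χ : IrrCharacter G} (hχ : χ ∈ B) (h0 : blockHeight p B (χ : G → ℂ) = 0) {l : P →* ℂˣ}
    (hl : Stable F l) (h : twL p M e l (χ : G → ℂ) = χ) (y : P) : l y = 1 := by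
  classical
  have hpp := hp.out
  have hmax := hF.1
  have hPp : IsPGroup p P := hmax.1.1.1
  have hχc : IsClassFunction G (χ : G → ℂ) := isClassFunction_of_isCharacter (IsIrrCharacter.isCharacter χ.2)
  obtain ⟨H, i, c, g, hHp, hQH, hi, hbr, hc, hg, hall⟩ := exists_good_idem hM hmax hχ h0
  have hPg : (P ^^ g) = P := congrArg Sigma.fst hg
  have hw : g⁻¹ * (y : G) * g ∈ P := by
    have h1 : (y : G) ∈ (P ^^ g) := by
      rw [hPg]
      exact y.2
    exact (mem_conj_iff P g y).1 h1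
  set w := g⁻¹ * (y : G) * g with hwdef
  have hwy : g * w * g⁻¹ = y := by
    rw [hwdef]
    group
  have hzw : Subgroup.zpowers w ≤ P := by
    rw [Subgroup.zpowers_le]
    exact hw
  have hcmax : IsBrauerPair p M P c.1 := ⟨hPp, c.2⟩
  obtain ⟨f, hf, hle⟩ := exists_subpairLE hM hcmax hzw
  have hbelow := local_below hM hHp _ P rfl hPp hQH i c hi hbr hc (Subgroup.zpowers w) ⟨f, hf⟩ hzw hle
  have hWit : Wit p M P e w (eB _ (⟨f, hf⟩ : BlockT M 𝐂[Subgroup.zpowers w])) g := by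
    refine ⟨⟨f, hf⟩, rfl, ?_⟩
    have h1 := relationCp hM g hle
    rw [hg] at h1
    exact h1
  have hΛ := lamH_conj (p := p) (M := M) (e := e) (lam := lamF l) (hst_lamF hF hl)
  have hL := lamH_eq (hst_lamF hF hl) hWit
  rw [hwy, lamF_coe] at hL
  obtain ⟨k, hk⟩ := (IsPGroup.iff_orderOf.1 hPp) ⟨w, hw⟩
  have hpart : IsPPart p w w := Cfsg.Agent.Lib.BlkOrth.isPPart_self ⟨k, by rwa [Subgroup.orderOf_mk] at hk⟩ hpp
  have hq : i ∈ SV M w := SS_le_SV (Subgroup.mem_sup_left hw) hi.mem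
  have h1 := chiT_TT_idem hM hΛ hχc hpart ⟨f, hf⟩ hq hi.idem hbelow
  have h2 : TT p M (LamH p M P e (lamF l)) (χ : G → ℂ) = χ := h
  rw [h2, hL] at h1
  have h3 := ne_zero_of_not_memLocalIdeal (hall w hw)
  have h4 : ((l y : ℂˣ) : ℂ) = 1 := by
    have h5 : (((l y : ℂˣ) : ℂ) - 1) * chiT (χ : G → ℂ) (ofG (localSubring M) w * i) = 0 := by
      rw [sub_mul, one_mul, ← h1, sub_self]
    rcases mul_eq_zero.1 h5 with h6 | h6
    · exact sub_eq_zero.1 h6
    · exact absurd h6 h3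
  exact Units.ext h4

end Twist

end Cfsg.Agent.Lib.StarFocal
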