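import Mathlib
import Cfsg.Agent.Lib.DcGram
import Cfsg.Agent.Lib.BSWAb
import Cfsg.Agent.Lib.StarFocal

/-!
# Characters of a finite group with a self-centralizing cyclic `p`-subgroup of index dividing `p - 1`
-/

set_option autoImplicit false
set_option linter.unusedSectionVars false
set_option linter.unusedVariables false
set_option linter.unusedSimpArgs false
set_option linter.style.haveILetI false

namespace Cfsg.Agent.Lib.DcFrob

open Cfsg Subgroup
open Cfsg.Agent.Lib.CharBasic Cfsg.Agent.Lib.CharInd Cfsg.Agent.Lib.BrauerPair Cfsg.Agent.Lib.DcL Cfsg.Agent.Lib.DcGram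
open Cfsg.Agent.Lib.DcAbs Cfsg.Agent.Lib.DcGrp Cfsg.Agent.Lib.GenChar
open scoped ComplexConjugate

universe u

attribute [local instance] Cfsg.Agent.Lib.DcGrp.fintypeSubDc Cfsg.Agent.Lib.DcGrp.fintypeQuotDc

section Arith

variable {A : Type*} [Group A]

/-- Automorphisms of a cyclic group are power maps. -/
theorem exists_power [IsCyclic A] (σ : A ≃* A) : ∃ n : ℤ, ∀ y, σ y = y ^ n := by
  classical
  obtain ⟨g, hg⟩ := IsCyclic.exists_generator (α := A)
  obtain ⟨n, hn⟩ := Subgroup.mem_zpowers_iff.1 (hg (σ g))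
  refine ⟨n, fun y => ?_⟩
  obtain ⟨k, rfl⟩ := Subgroup.mem_zpowers_iff.1 (hg y)
  rw [map_zpow, ← hn, ← zpow_mul, ← zpow_mul, mul_comm]

theorem aut_comm [IsCyclic A] (σ τ : A ≃* A) : σ * τ = τ * σ := by
  obtain ⟨n, hn⟩ := exists_power σ
  obtain ⟨k, hk⟩ := exists_power τ
  ext y
  simp only [MulAut.mul_apply]
  rw [hn, hk, hk, hn, ← zpow_mul, ← zpow_mul, mul_comm]

/-- An automorphism of order prime to `p` of a cyclic `p`-group which is a power map with exponent `1` modulo `p` is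
trivial. -/
theorem aut_eq_one [IsCyclic A] [Finite A] {p a e : ℕ} (hp : p.Prime) (hcard : Nat.card A = p ^ a) (ha : 1 ≤ a)
    (σ : A ≃* A) {n : ℤ} (hn : ∀ y, σ y = y ^ n) (he : σ ^ e = 1) (hpe : ¬ p ∣ e) (he0 : 0 < e)
    (hpn : (p : ℤ) ∣ n - 1) : σ = 1 := by
  have h1 := dvd_sub_pow_of_dvd_sub hpn (a - 1)
  have h2 : a - 1 + 1 = a := Nat.sub_add_cancel ha
  rw [h2, one_pow] at h1
  have hpow : ∀ (k : ℕ) (y : A), (σ ^ k) y = y ^ (n ^ k) := by
    intro k
    induction k with
    | zero => intro y; simp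
    | succ k ih =>
      intro y
      rw [pow_succ, MulAut.mul_apply, ih, hn, ← zpow_mul, pow_succ, mul_comm]
  have hord : σ ^ (p ^ (a - 1)) = 1 := by
    ext y
    rw [hpow]
    obtain ⟨t, ht⟩ := h1
    have h3 : n ^ p ^ (a - 1) = 1 + (p : ℤ) ^ a * t := by linarith
    have h4 : y ^ ((p : ℤ) ^ a) = 1 := by
      have h5 : y ^ (Nat.card A) = 1 := pow_card_eq_one'
      rw [hcard] at h5
      exact_mod_cast h5
    rw [h3, zpow_add, zpow_one, zpow_mul, h4, one_zpow, mul_one]
    rfl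
  have h5 : orderOf σ ∣ Nat.gcd e (p ^ (a - 1)) :=
    Nat.dvd_gcd (orderOf_dvd_of_pow_eq_one he) (orderOf_dvd_of_pow_eq_one hord)
  have h6 : Nat.Coprime e (p ^ (a - 1)) :=
    Nat.Coprime.pow_right _ ((Nat.Prime.coprime_iff_not_dvd hp).2 hpe).symm
  rw [h6] at h5
  exact orderOf_eq_one_iff.1 (Nat.dvd_one.1 h5)

end Arith

variable {F : Type u} [Group F] [Fintype F] [DecidableEq F] {p a e : ℕ} [hpF : Fact p.Prime] {Q : Subgroup F}

/-- The hypotheses. -/
structure FD (p a e : ℕ) (Q : Subgroup F) : Prop where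
  cyc : IsCyclic Q
  card : Nat.card Q = p ^ a
  ha : 1 ≤ a
  cardF : Nat.card F = p ^ a * e
  self : Subgroup.centralizer (Q : Set F) = Q
  dvd : e ∣ p - 1

namespace FD

variable (hd : FD p a e Q)

include hd

theorem e_pos : 0 < e := by
  rcases Nat.eq_zero_or_pos e with h | h
  · have h1 := hd.cardF
    rw [h, mul_zero] at h1
    exact absurd h1 Nat.card_pos.ne'
  · exact h

theorem not_dvd : ¬ p ∣ e := by
  have hp := hpF.out
  intro h
  have h1 := Nat.le_of_dvd hd.e_pos h
  have h2 := Nat.le_of_dvd (by have := hp.two_le; omega) hd.dvd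
  have := hp.two_le
  omega

theorem index_eq : Q.index = e := by
  have h1 := Subgroup.card_mul_index Q
  rw [hd.card, hd.cardF] at h1
  exact Nat.eq_of_mul_eq_mul_left (pow_pos hpF.out.pos _) h1

theorem isPGroup : IsPGroup p Q := IsPGroup.of_card hd.card

theorem normal : Q.Normal := by
  classical
  have hp := hpF.out
  have hfac : (Nat.card F).factorization p = a := by
    rw [hd.cardF, Nat.factorization_mul (pow_pos hp.pos _).ne' hd.e_pos.ne', hp.factorization_pow]
    simp [Nat.factorization_eq_zero_of_not_dvd hd.not_dvd]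
  let S : Sylow p F := Sylow.ofCard Q (by rw [hd.card, hfac])
  have hS : (S : Subgroup F) = Q := rfl
  have h1 := card_sylow_modEq_one p F
  have h2 := S.card_dvd_index
  rw [hS, hd.index_eq] at h2
  have h3 := Nat.le_of_dvd hd.e_pos h2
  have h4 := Nat.le_of_dvd (by have := hp.two_le; omega) hd.dvd
  have h5 : Nat.card (Sylow p F) < p := by
    have := hp.two_le
    omega
  have h6 : Nat.card (Sylow p F) = 1 := by
    have h7 : Nat.card (Sylow p F) % p = 1 % p := h1
    rw [Nat.mod_eq_of_lt h5, Nat.mod_eq_of_lt hp.one_lt] at h7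
    exact h7
  haveI : Subsingleton (Sylow p F) := (Nat.card_eq_one_iff_unique.1 h6).1
  have h8 := S.normal_of_subsingleton
  rwa [hS] at h8

theorem mem_norm (g : F) : g ∈ normalizer (Q : Set F) := by
  haveI := hd.normal
  exact Subgroup.le_normalizer_of_normal (H := Q) (K := ⊤) (Subgroup.mem_top g)

theorem comm {x y : F} (hx : x ∈ Q) (hy : y ∈ Q) : x * y = y * x := by
  haveI := hd.cyc
  have := (IsCyclic.commGroup (α := Q)).mul_comm ⟨x, hx⟩ ⟨y, hy⟩
  exact congrArg Subtype.val this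

/-- The conjugation action. -/
noncomputable def rho (hd : FD p a e Q) : F →* MulAut Q :=
  MonoidHom.mk' (fun g => conjAut Q g (hd.mem_norm g)) (fun a b => conjAut_mul _ _ _ _ _ _)

theorem rho_apply (g : F) : hd.rho g = conjAut Q g (hd.mem_norm g) := rfl

theorem rho_eq_one_iff (g : F) : hd.rho g = 1 ↔ g ∈ Q := by
  constructor
  · intro h
    rw [← SetLike.mem_coe, ← hd.self, SetLike.mem_coe, Subgroup.mem_centralizer_iff]
    intro y hy
    have h1 := congrArg (fun σ : MulAut Q => ((σ ⟨y, hy⟩ : Q) : F)) h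
    simp only [rho_apply, coe_conjAut, MulAut.one_apply] at h1
    calc y * g = g * y * g⁻¹ * g := by rw [h1]
      _ = g * y := by group
  · intro hg
    ext y
    simp only [rho_apply, coe_conjAut, MulAut.one_apply]
    rw [hd.comm hg y.2]
    group

theorem rho_pow (g : F) : hd.rho g ^ e = 1 := by
  haveI := hd.normal
  rw [← map_pow, hd.rho_eq_one_iff, ← hd.index_eq]
  exact Subgroup.pow_index_mem Q g

/-- Fixing a nontrivial element. -/
theorem free_elem {g z : F} (hz : z ∈ Q) (hz1 : z ≠ 1) (hgz : g * z * g⁻¹ = z) : g ∈ Q := by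
  haveI := hd.cyc
  have hp := hpF.out
  obtain ⟨n, hn⟩ := exists_power (hd.rho g)
  rw [← hd.rho_eq_one_iff]
  refine aut_eq_one hp hd.card hd.ha _ hn (hd.rho_pow g) hd.not_dvd hd.e_pos ?_
  have h1 := hn ⟨z, hz⟩
  have h2 : hd.rho g ⟨z, hz⟩ = ⟨z, hz⟩ := Subtype.ext hgz
  rw [h2] at h1
  have h3 : (⟨z, hz⟩ : Q) ^ (n - 1) = 1 := by
    rw [zpow_sub_one, ← h1, mul_inv_cancel]
  have h4 := orderOf_dvd_iff_zpow_eq_one.2 h3
  obtain ⟨k, hk⟩ := (IsPGroup.iff_orderOf.1 hd.isPGroup) ⟨z, hz⟩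
  have hk0 : k ≠ 0 := by
    rintro rfl
    apply hz1
    have h5 : orderOf (⟨z, hz⟩ : Q) = 1 := by simpa using hk
    have h6 := orderOf_eq_one_iff.1 h5
    exact congrArg Subtype.val h6
  have h7 : (p : ℤ) ∣ (orderOf (⟨z, hz⟩ : Q) : ℤ) := by
    rw [hk]
    exact_mod_cast dvd_pow_self p hk0
  exact h7.trans h4

/-- The trivial character of `Q`. -/
noncomputable abbrev triv (Q : Subgroup F) : IrrCharacter Q := Cfsg.Agent.Lib.BSWAb.triv (A := Q)

omit hd in
theorem comm_Q (hd : FD p a e Q) (x y : Q) : x * y = y * x :=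
  Subtype.ext (hd.comm x.2 y.2)

/-- Fixing a nontrivial character. -/
theorem free_irr {g : F} {l : IrrCharacter Q} (hl : l ≠ triv Q) (hgl : actN Q g l = l) : g ∈ Q := by
  haveI := hd.cyc
  have hp := hpF.out
  have hc := hd.comm_Q
  obtain ⟨f, hf⟩ := Cfsg.Agent.Lib.BSWAb.exists_hom hc l
  obtain ⟨n, hn⟩ := exists_power (hd.rho g)⁻¹
  have h0 : hd.rho g⁻¹ = (hd.rho g)⁻¹ := map_inv _ _
  have hσ : hd.rho g = 1 := by
    have h1 : (hd.rho g)⁻¹ = 1 := by
      refine aut_eq_one hp hd.card hd.ha _ hn (by rw [inv_pow, hd.rho_pow, inv_one]) hd.not_dvd hd.e_pos ?_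
      by_contra hnd
      apply hl
      -- `l` is trivial
      rw [actN_of_mem (hd.mem_norm g)] at hgl
      have h2 : ∀ y : Q, f (y ^ (n - 1)) = 1 := by
        intro y
        have h3 := congrFun (congrArg Subtype.val hgl) y
        rw [twist_apply] at h3
        have h4 : (conjAut Q g (hd.mem_norm g)).symm y = (hd.rho g)⁻¹ y := rfl
        rw [h4, hn, hf, hf] at h3
        have h5 : f (y ^ n) = f y := Units.ext h3
        rw [zpow_sub_one, map_mul, h5, map_inv, mul_inv_cancel]
      apply Subtype.ext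
      funext y
      show (l : Q → ℂ) y = 1
      rw [hf]
      have h6 : f y ^ (n - 1) = 1 := by
        rw [← map_zpow, h2]
      have h7 : f y ^ ((p : ℤ) ^ a) = 1 := by
        have h8 : y ^ (Nat.card Q) = 1 := pow_card_eq_one'
        rw [hd.card] at h8
        have h9 : f y ^ (p ^ a) = 1 := by rw [← map_pow, h8, map_one]
        exact_mod_cast h9
      have hcop : IsCoprime (n - 1) ((p : ℤ) ^ a) := by
        apply IsCoprime.pow_right
        have h10 : IsCoprime ((p : ℤ)) (n - 1) := (Nat.prime_iff_prime_int.1 hp).coprime_iff_not_dvd.2 hnd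
        exact h10.symm
      obtain ⟨u, v, huv⟩ := hcop
      have h11 : f y = 1 := by
        have h12 : f y ^ (u * (n - 1) + v * (p : ℤ) ^ a) = 1 := by
          rw [zpow_add, mul_comm u, zpow_mul, h6, mul_comm v, zpow_mul, h7, one_zpow, one_zpow, one_mul]
        rw [huv, zpow_one] at h12
        exact h12
      rw [h11, Units.val_one]
    exact inv_eq_one.1 h1
  rwa [hd.rho_eq_one_iff] at hσ

/-- The singular elements are the nontrivial elements of `Q`. -/
theorem sing_iff (y : F) : p ∣ orderOf y ↔ y ∈ Q ∧ y ≠ 1 := by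
  have hp := hpF.out
  haveI := hd.normal
  constructor
  · intro h
    obtain ⟨t, ht⟩ := h
    have hpos := orderOf_pos y
    have ht0 : 0 < t := by
      rcases Nat.eq_zero_or_pos t with h0 | h0
      · rw [h0, mul_zero] at ht
        omega
      · exact h0
    set z := y ^ t with hz
    have hzp : orderOf z = p := by
      rw [hz, orderOf_pow' _ ht0.ne', ht, Nat.gcd_mul_left_left]
      exact Nat.div_eq_of_eq_mul_left ht0 (by ring)
    have hzQ : z ∈ Q := by
      have h1 : z ^ Q.index ∈ Q := Subgroup.pow_index_mem Q z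
      rw [hd.index_eq] at h1
      have h2 : Nat.Coprime e (orderOf z) := by
        rw [hzp]
        exact ((Nat.Prime.coprime_iff_not_dvd hp).2 hd.not_dvd).symm
      obtain ⟨u, -, hu⟩ := Nat.exists_mul_mod_eq_one_of_coprime h2 (by rw [hzp]; exact hp.one_lt)
      have h4 : (z ^ e) ^ u = z := by
        rw [← pow_mul, ← pow_mod_orderOf, hu, pow_one]
      have h5 := Q.pow_mem h1 u
      rwa [h4] at h5
    have hz1 : z ≠ 1 := by
      intro h1
      rw [h1, orderOf_one] at hzp
      exact hp.one_lt.ne hzp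
    have hc : y * z * y⁻¹ = z := by
      rw [hz, ((Commute.refl y).pow_right t).eq, mul_inv_cancel_right]
    refine ⟨hd.free_elem hzQ hz1 hc, ?_⟩
    rintro rfl
    rw [orderOf_one] at ht
    have := Nat.dvd_one.1 (Dvd.intro _ ht.symm)
    exact hp.one_lt.ne' this
  · rintro ⟨hy, hy1⟩
    obtain ⟨k, hk⟩ := (IsPGroup.iff_orderOf.1 hd.isPGroup) ⟨y, hy⟩
    rw [Subgroup.orderOf_mk] at hk
    rw [hk]
    refine dvd_pow_self p ?_
    rintro rfl
    apply hy1
    exact orderOf_eq_one_iff.1 (by simpa using hk)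

/-- The centralizer of a nontrivial element of `Q`. -/
theorem card_cent {y : F} (hy : y ∈ Q) (hy1 : y ≠ 1) :
    Nat.card (Subgroup.centralizer ({y} : Set F)) = p ^ a := by
  have h1 : Subgroup.centralizer ({y} : Set F) = Q := by
    ext g
    rw [Subgroup.mem_centralizer_singleton_iff]
    constructor
    · intro h
      refine hd.free_elem hy hy1 ?_
      rw [h]
      group
    · intro h
      exact hd.comm h hy
  rw [h1, hd.card]

/-! ### Induction from `Q` -/

/-- The induced function. -/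
noncomputable def xi (Q : Subgroup F) (l : IrrCharacter Q) : F → ℂ := indFun Q (l : Q → ℂ)

omit hd in
theorem xi_of_not_mem (hd : FD p a e Q) (l : IrrCharacter Q) {y : F} (hy : y ∉ Q) : xi Q l y = 0 := by
  unfold xi
  rw [indFun_apply, Finset.sum_eq_zero, mul_zero]
  intro x _
  apply extendByZero_of_not_mem
  intro h
  apply hy
  haveI := hd.normal
  have h2 := Subgroup.Normal.conj_mem ‹_› _ h x
  have h3 : x * (x⁻¹ * y * x) * x⁻¹ = y := by group
  rwa [h3] at h2

omit hd in
theorem xi_of_mem (hd : FD p a e Q) (l : IrrCharacter Q) (y : Q) :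
    xi Q l y = (Nat.card Q : ℂ)⁻¹ * ∑ x : F, (actN Q x l : Q → ℂ) y := by
  unfold xi
  rw [indFun_apply]
  congr 1
  refine Finset.sum_congr rfl fun x _ => ?_
  exact ext_conj_eq (hd.mem_norm x) l y

omit hd in
theorem xi_one (hd : FD p a e Q) (l : IrrCharacter Q) : xi Q l 1 = e := by
  unfold xi
  rw [indFun_one, hd.index_eq, Cfsg.Agent.Lib.BSWAb.deg_one hd.comm_Q, mul_one]

omit hd in
theorem xi_char (l : IrrCharacter Q) : IsCharacter F (xi Q l) :=
  indFun_isCharacter Q (IsIrrCharacter.isCharacter l.2)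

/-- The scalar product of induced characters. -/
theorem inner_xi (l l' : IrrCharacter Q) :
    classInner (xi Q l) (xi Q l') =
      (Nat.card Q : ℂ)⁻¹ * (open scoped Classical in (Finset.univ.filter (fun x : F => l = actN Q x l')).card : ℂ) := by
  classical
  unfold xi
  rw [inner_ind_ind]
  congr 1
  rw [← Finset.sum_boole]
  refine Finset.sum_congr rfl fun x _ => ?_
  unfold BB
  have h1 : (fun h : Q => extendByZero Q (l' : Q → ℂ) (x⁻¹ * h * x)) = (actN Q x l' : Q → ℂ) := by
    funext h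
    exact ext_conj_eq (hd.mem_norm x) l' h
  rw [h1, inner_irr_irr]

/-- The induced character of a nontrivial character is irreducible. -/
theorem xi_irr {l : IrrCharacter Q} (hl : l ≠ triv Q) : IsIrrCharacter F (xi Q l) := by
  classical
  have h1 := hd.inner_xi l l
  have h2 : (Finset.univ.filter (fun x : F => l = actN Q x l)).card = Nat.card Q := by
    rw [Nat.card_eq_fintype_card, Fintype.card_subtype]
    congr 1
    ext x
    simp only [Finset.mem_filter, Finset.mem_univ, true_and]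
    constructor
    · intro h
      exact hd.free_irr hl h.symm
    · intro h
      rw [actN_of_mem (hd.mem_norm x), twist_conj_inner h]
  have hc : (Nat.card Q : ℂ) ≠ 0 := natCard_subgroup_ne_zero Q
  have h3 : classInner (xi Q l) (xi Q l) = 1 := by
    rw [h1]
    have h4 : ((open scoped Classical in (Finset.univ.filter (fun x : F => l = actN Q x l)).card) : ℂ) = (Nat.card Q : ℂ) := by
      exact_mod_cast h2
    rw [h4]
    field_simp
  rcases gen_norm_one (isGen_of_isChar (xi_char l)) h3 with h | h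
  · exact h
  · exfalso
    have h5 := hd.xi_one l
    obtain ⟨d, hd0, hd1⟩ := isIrr_one_pos h
    simp only [Pi.neg_apply, h5] at hd1
    have h6 : ((e + d : ℕ) : ℂ) = 0 := by
      push_cast
      linear_combination -hd1
    have h7 : e + d = 0 := by exact_mod_cast h6
    omega

/-- The character `ξ`. -/
noncomputable def xiI (hd : FD p a e Q) {l : IrrCharacter Q} (hl : l ≠ triv Q) : IrrCharacter F :=
  ⟨xi Q l, hd.xi_irr hl⟩

/-- Equality of the induced characters. -/
theorem xi_eq_iff {l l' : IrrCharacter Q} (hl : l ≠ triv Q) (hl' : l' ≠ triv Q) :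
    xi Q l = xi Q l' ↔ ∃ g : F, l = actN Q g l' := by
  classical
  have hc : (Nat.card Q : ℂ) ≠ 0 := natCard_subgroup_ne_zero Q
  have h1 := hd.inner_xi l l'
  constructor
  · intro h
    rw [← h, classInner_irr_self (hd.xi_irr hl)] at h1
    by_contra hcon
    push Not at hcon
    rw [Finset.filter_false_of_mem (fun x _ => hcon x)] at h1
    simp at h1
  · rintro ⟨g, hg⟩
    by_contra hne
    rw [classInner_irr_ne (hd.xi_irr hl) (hd.xi_irr hl') hne] at h1
    have h2 : ((open scoped Classical in (Finset.univ.filter (fun x : F => l = actN Q x l')).card) : ℂ) = 0 := by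
      have h3 := (mul_eq_zero.1 h1.symm).resolve_left (inv_ne_zero hc)
      exact h3
    have h4 : (Finset.univ.filter (fun x : F => l = actN Q x l')).card = 0 := by exact_mod_cast h2
    rw [Finset.card_eq_zero, Finset.filter_eq_empty_iff] at h4
    exact h4 (Finset.mem_univ g) hg

/-- The irreducible characters of `F`. -/
theorem irr_cases (η : IrrCharacter F) :
    (∀ y ∈ Q, (η : F → ℂ) y = (η : F → ℂ) 1) ∨ ∃ (l : IrrCharacter Q) (hl : l ≠ triv Q), η = hd.xiI hl := by
  classical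
  by_cases hall : ∀ l : IrrCharacter Q, l ≠ triv Q → classInner (fun h : Q => (η : F → ℂ) h) (l : Q → ℂ) = 0
  · left
    have hηc : IsClassFunction F (η : F → ℂ) := isClassFunction_of_isCharacter (IsIrrCharacter.isCharacter η.2)
    have hres : IsClassFunction Q (fun h : Q => (η : F → ℂ) h) :=
      isClassFunction_of_isCharacter (isCharacter_restrict Q (IsIrrCharacter.isCharacter η.2))
    have h1 := classFunction_eq_sum hres
    have h2 : ∀ y : Q, (η : F → ℂ) y = classInner (fun h : Q => (η : F → ℂ) h) (triv Q : Q → ℂ) := by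
      intro y
      have h3 := congrFun h1 y
      rw [Finset.sum_apply, Finset.sum_eq_single (triv Q)] at h3
      · have h4 : ((triv Q : IrrCharacter Q) : Q → ℂ) y = 1 := rfl
        simp only [Pi.smul_apply, smul_eq_mul, h4, mul_one] at h3
        exact h3
      · intro l _ hl
        simp only [Pi.smul_apply, smul_eq_mul]
        rw [hall l hl, zero_mul]
      · intro h
        exact absurd (Finset.mem_univ _) h
    intro y hy
    rw [h2 ⟨y, hy⟩]
    have h5 := h2 1
    simpa using h5.symm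
  · right
    push Not at hall
    obtain ⟨l, hl, hne⟩ := hall
    refine ⟨l, hl, ?_⟩
    by_contra hne2
    apply hne
    have hηc : IsClassFunction F (η : F → ℂ) := isClassFunction_of_isCharacter (IsIrrCharacter.isCharacter η.2)
    have h1 := frobenius Q (l : Q → ℂ) hηc
    have h2 : classInner (xi Q l) (η : F → ℂ) = 0 := by
      apply classInner_irr_ne (hd.xi_irr hl) η.2
      intro h3
      apply hne2
      apply Subtype.ext
      exact h3.symm
    have h3 : classInner (l : Q → ℂ) (fun h : Q => (η : F → ℂ) h) = 0 := by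
      rw [← h1]
      exact h2
    rw [← classInner_conj_symm, h3, map_zero]

/-- Commutators lie in `Q`. -/
theorem commutator_mem (x y : F) : x * y * x⁻¹ * y⁻¹ ∈ Q := by
  haveI := hd.cyc
  rw [← hd.rho_eq_one_iff]
  simp only [map_mul, map_inv]
  rw [aut_comm (hd.rho x) (hd.rho y)]
  group

/-- At least `e` linear characters are trivial on `Q`. -/
theorem le_card_linear :
    e ≤ (open scoped Classical in Finset.univ.filter (fun η : IrrCharacter F => (∀ y ∈ Q, (η : F → ℂ) y = 1) ∧ (η : F → ℂ) 1 = 1)).card := by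
  classical
  obtain ⟨Γ, _, _, ρ, K, h1, h2, h3⟩ := Cfsg.Agent.Lib.StarFocal.exists_dual Q hd.commutator_mem (MonoidHom.id F)
  have hidx : K.index = e := by
    rw [h3, ← hd.index_eq]
    congr 1
  have hker : ρ.ker ≤ K := by
    intro γ hγ
    apply h2
    intro w
    rw [MonoidHom.mem_ker] at hγ
    rw [hγ]
    rfl
  have hle : e ≤ ρ.ker.index := by
    rw [← hidx]
    haveI : Finite Γ := inferInstance
    exact Nat.le_of_dvd (Nat.pos_of_ne_zero (Subgroup.index_ne_zero_of_finite)) (Subgroup.index_dvd_of_le hker)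
  rw [Subgroup.index_ker] at hle
  refine hle.trans ?_
  classical
  letI : Fintype ρ.range := Fintype.ofFinite _
  rw [Nat.card_eq_fintype_card, ← Finset.card_univ]
  apply Finset.card_le_card_of_injOn (fun l : ρ.range => (⟨fun g => (((l : F →* ℂˣ) g : ℂˣ) : ℂ), isIrrCharacter_of_hom (l : F →* ℂˣ)⟩ : IrrCharacter F))
  · rintro ⟨_, γ, rfl⟩ -
    simp only [Finset.coe_filter, Finset.mem_univ, true_and, Set.mem_ofPred_eq]
    refine ⟨fun y hy => ?_, ?_⟩
    · show (((ρ γ) y : ℂˣ) : ℂ) = 1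
      rw [h1 γ y hy, Units.val_one]
    · show (((ρ γ) 1 : ℂˣ) : ℂ) = 1
      rw [map_one, Units.val_one]
  · intro l _ l' _ hll
    have h4 := congrArg Subtype.val hll
    apply Subtype.ext
    ext g
    exact congrFun h4 g

/-- **The character table of `F`.** -/
theorem frob_main {R : Type*} [Fintype R] (κ : R → IrrCharacter Q) (hκ1 : ∀ j, κ j ≠ triv Q)
    (hκ2 : ∀ j k (g : F), κ j = actN Q g (κ k) → j = k) (hκ3 : ∀ l : IrrCharacter Q, l ≠ triv Q → ∃ j, ∃ g : F, l = actN Q g (κ j))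
    (hcard : Fintype.card R * e + 1 = p ^ a) :
    ∃ XF : Finset (IrrCharacter F), XF.card = e ∧ (∀ η ∈ XF, ∀ y ∈ Q, (η : F → ℂ) y = 1) ∧
      (∀ j, hd.xiI (hκ1 j) ∉ XF) ∧ Function.Injective (fun j => hd.xiI (hκ1 j)) ∧
      (∀ G : IrrCharacter F → ℂ, ∑ η, G η = ∑ η ∈ XF, G η + ∑ j, G (hd.xiI (hκ1 j))) ∧
      (∀ y, y ∉ Q → ∑ η ∈ XF, (η : F → ℂ) y = 0) ∧
      (∀ y ∈ Q, y ≠ 1 → ∑ j, (hd.xiI (hκ1 j) : F → ℂ) y = -1) ∧
      (∀ η, η ∉ XF → ∃ j, hd.xiI (hκ1 j) = η) := by
  classical
  set ξ : R → IrrCharacter F := fun j => hd.xiI (hκ1 j) with hξ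
  have hξv : ∀ j y, (ξ j : F → ℂ) y = xi Q (κ j) y := fun j y => rfl
  have hinj : Function.Injective ξ := by
    intro j k h
    have h1 : xi Q (κ j) = xi Q (κ k) := congrArg Subtype.val h
    obtain ⟨g, hg⟩ := (hd.xi_eq_iff (hκ1 j) (hκ1 k)).1 h1
    exact hκ2 j k g hg
  set X' : Finset (IrrCharacter F) := Finset.univ.filter (fun η => ∀ y ∈ Q, (η : F → ℂ) y = (η : F → ℂ) 1) with hX'
  set XF : Finset (IrrCharacter F) := Finset.univ.filter (fun η : IrrCharacter F => (∀ y ∈ Q, (η : F → ℂ) y = 1) ∧ (η : F → ℂ) 1 = 1) with hXF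
  have hsub : XF ⊆ X' := by
    intro η hη
    obtain ⟨-, h1, h2⟩ := Finset.mem_filter.1 hη
    refine Finset.mem_filter.2 ⟨Finset.mem_univ _, fun y hy => ?_⟩
    rw [h1 y hy, h2]
  have hle := hd.le_card_linear
  -- `ξ j` is not trivial on `Q`
  have hnot : ∀ j, ξ j ∉ X' := by
    intro j hj
    obtain ⟨-, h1⟩ := Finset.mem_filter.1 hj
    have hηc : IsClassFunction F (ξ j : F → ℂ) := isClassFunction_of_isCharacter (IsIrrCharacter.isCharacter (ξ j).2)
    have h2 := frobenius Q (κ j : Q → ℂ) hηc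
    have h3 : classInner (xi Q (κ j)) (ξ j : F → ℂ) = 1 := classInner_irr_self (hd.xi_irr (hκ1 j))
    have h4 : (fun h : Q => (ξ j : F → ℂ) h) = ((ξ j : F → ℂ) 1) • (triv Q : Q → ℂ) := by
      funext h
      rw [h1 h h.2]
      simp [triv, Cfsg.Agent.Lib.BSWAb.triv]
    have h5 : classInner (κ j : Q → ℂ) (fun h : Q => (ξ j : F → ℂ) h) = 0 := by
      rw [h4, classInner_smul_right, classInner_irr_ne (κ j).2 (triv Q).2 (fun h => hκ1 j (Subtype.ext h)), mul_zero]
    have h6 : classInner (xi Q (κ j)) (ξ j : F → ℂ) = 0 := by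
      rw [← h5]
      exact h2
    rw [h3] at h6
    exact one_ne_zero h6
  have hcov : ∀ η : IrrCharacter F, η ∉ X' → ∃ j, η = ξ j := by
    intro η hη
    rcases hd.irr_cases η with h | ⟨l, hl, rfl⟩
    · exact absurd (Finset.mem_filter.2 ⟨Finset.mem_univ _, h⟩) hη
    · obtain ⟨j, g, hg⟩ := hκ3 l hl
      refine ⟨j, Subtype.ext ?_⟩
      exact (hd.xi_eq_iff hl (hκ1 j)).2 ⟨g, hg⟩
  have hunion : (Finset.univ : Finset (IrrCharacter F)) = X' ∪ Finset.univ.image ξ := by
    ext η
    simp only [Finset.mem_univ, Finset.mem_union, Finset.mem_image, true_and, true_iff]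
    by_cases h : η ∈ X'
    · exact Or.inl h
    · obtain ⟨j, hj⟩ := hcov η h
      exact Or.inr ⟨j, hj.symm⟩
  have hdisj : Disjoint X' (Finset.univ.image ξ) := by
    rw [Finset.disjoint_left]
    intro η hη h2
    obtain ⟨j, -, rfl⟩ := Finset.mem_image.1 h2
    exact hnot j hη
  have hsum' : ∀ G : IrrCharacter F → ℕ, ∑ η, G η = ∑ η ∈ X', G η + ∑ j, G (ξ j) := by
    intro G
    rw [hunion, Finset.sum_union hdisj, Finset.sum_image (fun a _ b _ h => hinj h)]
  have hdeg : ∀ η : IrrCharacter F, (η : F → ℂ) 1 = (charDegree (η : F → ℂ) : ℂ) := fun η =>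
    Cfsg.Agent.Lib.CharKernel.one_eq_charDegree (IsIrrCharacter.isCharacter η.2)
  have hdξ : ∀ j, charDegree (ξ j : F → ℂ) = e := by
    intro j
    have h1 := hdeg (ξ j)
    rw [hξv, hd.xi_one] at h1
    exact_mod_cast h1.symm
  have hsq := Cfsg.Agent.Lib.CharKernel.sum_charDegree_sq (G := F)
  rw [hsum' (fun η => charDegree (η : F → ℂ) ^ 2), hd.cardF] at hsq
  simp only [hdξ, Finset.sum_const, Finset.card_univ, smul_eq_mul] at hsq
  have hX'sum : ∑ η ∈ X', charDegree (η : F → ℂ) ^ 2 = e := by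
    have h1 : p ^ a * e = (Fintype.card R * e + 1) * e := by rw [hcard]
    rw [h1] at hsq
    have h2 : (Fintype.card R * e + 1) * e = e + Fintype.card R * e ^ 2 := by ring
    omega
  have hpos : ∀ η : IrrCharacter F, 1 ≤ charDegree (η : F → ℂ) ^ 2 := fun η =>
    Nat.one_le_pow _ _ (Cfsg.Agent.Lib.CharKernel.charDegree_pos η.2)
  have hcardX' : X'.card ≤ e := by
    calc X'.card = ∑ η ∈ X', 1 := by simp
      _ ≤ ∑ η ∈ X', charDegree (η : F → ℂ) ^ 2 := Finset.sum_le_sum fun η _ => hpos η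
      _ = e := hX'sum
  have hXX' : XF = X' := Finset.eq_of_subset_of_card_le hsub (hcardX'.trans hle)
  have hcardXF : XF.card = e := le_antisymm (by rw [hXX']; exact hcardX') hle
  have hsplit : ∀ G : IrrCharacter F → ℂ, ∑ η, G η = ∑ η ∈ XF, G η + ∑ j, G (ξ j) := by
    intro G
    rw [hXX', hunion, Finset.sum_union hdisj, Finset.sum_image (fun a _ b _ h => hinj h)]
  have hXv : ∀ η ∈ XF, ∀ y ∈ Q, (η : F → ℂ) y = 1 := fun η hη y hy => (Finset.mem_filter.1 hη).2.1 y hy
  have hX1 : ∀ η ∈ XF, (η : F → ℂ) 1 = 1 := fun η hη => (Finset.mem_filter.1 hη).2.2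
  have hcol : ∀ y, y ≠ 1 → ∑ η : IrrCharacter F, (η : F → ℂ) y * conj ((η : F → ℂ) 1) = 0 := by
    intro y hy
    rw [sum_irr_mul_conj, if_neg]
    intro h
    exact hy (isConj_one_right.1 h.symm)
  refine ⟨XF, hcardXF, hXv, fun j h => hnot j (hXX' ▸ h), hinj, hsplit, ?_, ?_, ?_⟩
  · intro y hy
    have hy1 : y ≠ 1 := fun h => hy (h ▸ Q.one_mem)
    have h1 := hcol y hy1
    rw [hsplit] at h1
    have h2 : ∀ j, (ξ j : F → ℂ) y * conj ((ξ j : F → ℂ) 1) = 0 := by
      intro j
      rw [hξv, hd.xi_of_not_mem _ hy, zero_mul]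
    rw [Finset.sum_eq_zero (s := Finset.univ) (fun j _ => h2 j), add_zero] at h1
    rw [← h1]
    refine Finset.sum_congr rfl fun η hη => ?_
    rw [hX1 η hη]
    simp
  · intro y hy hy1
    have h1 := hcol y hy1
    rw [hsplit] at h1
    have h2 : ∀ η ∈ XF, (η : F → ℂ) y * conj ((η : F → ℂ) 1) = 1 := by
      intro η hη
      rw [hX1 η hη, hXv η hη y hy]
      simp
    have h3 : ∀ j, (ξ j : F → ℂ) y * conj ((ξ j : F → ℂ) 1) = (e : ℂ) * (ξ j : F → ℂ) y := by
      intro j
      rw [hξv _ 1, hd.xi_one]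
      simp
      ring
    rw [Finset.sum_congr rfl h2, Finset.sum_congr rfl (fun j _ => h3 j), ← Finset.mul_sum] at h1
    simp only [Finset.sum_const, hcardXF, nsmul_eq_mul, mul_one] at h1
    have he0 : (e : ℂ) ≠ 0 := by exact_mod_cast hd.e_pos.ne'
    have h4 : (e : ℂ) * (1 + ∑ j, (ξ j : F → ℂ) y) = 0 := by
      linear_combination h1
    have h5 := (mul_eq_zero.1 h4).resolve_left he0
    linear_combination h5
  · intro η hη
    obtain ⟨j, hj⟩ := hcov η (fun h => hη (hXX' ▸ h))
    exact ⟨j, hj.symm⟩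

theorem actN_mul (g g' : F) (l : IrrCharacter Q) : actN Q (g * g') l = actN Q g (actN Q g' l) := by
  rw [actN_of_mem (hd.mem_norm (g * g')), actN_of_mem (hd.mem_norm g), actN_of_mem (hd.mem_norm g'),
    conjAut_mul Q g g' (hd.mem_norm g) (hd.mem_norm g'), twist_mul]

theorem actN_of_Q {z : F} (hz : z ∈ Q) (l : IrrCharacter Q) : actN Q z l = l := by
  rw [actN_of_mem (hd.mem_norm z), twist_conj_inner hz]

theorem actN_triv (g : F) : actN Q g (triv Q) = triv Q := by
  rw [actN_of_mem (hd.mem_norm g)]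
  rfl

theorem actN_ne_triv (g : F) {l : IrrCharacter Q} (hl : l ≠ triv Q) : actN Q g l ≠ triv Q := by
  intro h
  apply hl
  have h1 := hd.actN_mul g⁻¹ g l
  rw [h, hd.actN_triv, inv_mul_cancel, hd.actN_of_Q Q.one_mem] at h1
  exact h1

/-- Summing over the orbits. -/
theorem sum_orbit {R : Type*} [Fintype R] (κ : R → IrrCharacter Q) (hκ1 : ∀ j, κ j ≠ triv Q)
    (hκ2 : ∀ j k (g : F), κ j = actN Q g (κ k) → j = k) (hκ3 : ∀ l : IrrCharacter Q, l ≠ triv Q → ∃ j, ∃ g : F, l = actN Q g (κ j))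
    (h : IrrCharacter Q → ℂ) :
    ∑ j, ∑ g : F, h (actN Q g (κ j)) = (Nat.card Q : ℂ) * ∑ l ∈ Finset.univ.erase (triv Q), h l := by
  classical
  have h1 : ∑ j, ∑ g : F, h (actN Q g (κ j)) = ∑ x : R × F, h (actN Q x.2 (κ x.1)) := by
    rw [Fintype.sum_prod_type]
  rw [h1]
  have hmaps : ∀ x ∈ (Finset.univ : Finset (R × F)), actN Q x.2 (κ x.1) ∈ Finset.univ.erase (triv Q) := by
    intro x _
    exact Finset.mem_erase.2 ⟨hd.actN_ne_triv _ (hκ1 _), Finset.mem_univ _⟩
  rw [← Finset.sum_fiberwise_of_maps_to hmaps, Finset.mul_sum]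
  refine Finset.sum_congr rfl fun l hl => ?_
  have hl1 : l ≠ triv Q := (Finset.mem_erase.1 hl).1
  obtain ⟨j₀, g₀, hg₀⟩ := hκ3 l hl1
  have h2 : ∀ x ∈ (Finset.univ.filter (fun x : R × F => actN Q x.2 (κ x.1) = l)), h (actN Q x.2 (κ x.1)) = h l := by
    intro x hx
    rw [(Finset.mem_filter.1 hx).2]
  rw [Finset.sum_congr rfl h2, Finset.sum_const, nsmul_eq_mul]
  congr 1
  have hcard : (Finset.univ.filter (fun x : R × F => actN Q x.2 (κ x.1) = l)).card = Nat.card Q := by
    rw [← Fintype.card_eq_nat_card, ← Finset.card_univ]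
    symm
    refine Finset.card_bij (fun z _ => (j₀, g₀ * (z : F))) ?_ ?_ ?_
    · intro z _
      refine Finset.mem_filter.2 ⟨Finset.mem_univ _, ?_⟩
      show actN Q (g₀ * (z : F)) (κ j₀) = l
      rw [hd.actN_mul, hd.actN_of_Q z.2, hg₀]
    · intro z _ z' _ hzz
      have := congrArg Prod.snd hzz
      exact Subtype.ext (mul_left_cancel this)
    · rintro ⟨j, g⟩ hx
      have hx2 : actN Q g (κ j) = l := (Finset.mem_filter.1 hx).2
      have hj : j = j₀ := by
        apply hκ2 j j₀ (g⁻¹ * g₀)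
        rw [hd.actN_mul, ← hg₀, ← hx2, ← hd.actN_mul, inv_mul_cancel, hd.actN_of_Q Q.one_mem]
      subst hj
      have hz : g₀⁻¹ * g ∈ Q := by
        apply hd.free_irr (hκ1 j)
        rw [hd.actN_mul, hx2, hg₀, ← hd.actN_mul, inv_mul_cancel, hd.actN_of_Q Q.one_mem]
      refine ⟨⟨g₀⁻¹ * g, hz⟩, Finset.mem_univ _, ?_⟩
      simp
  rw [hcard]

end FD

end Cfsg.Agent.Lib.DcFrob
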