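import Mathlib
import Cfsg.Agent.Lib.DcGram
import Cfsg.Agent.Lib.BlockIdem

/-!
# Induction and locality; subgroups of the automorphism group of a cyclic group
-/

set_option autoImplicit false
set_option linter.unusedSectionVars false
set_option linter.unusedVariables false
set_option linter.unusedSimpArgs false
set_option linter.style.haveILetI false

namespace Cfsg.Agent.Lib.DcInd

open Cfsg Subgroup
open Cfsg.Agent.Lib.CharBasic Cfsg.Agent.Lib.CharInd Cfsg.Agent.Lib.BrauerPair Cfsg.Agent.Lib.DcL Cfsg.Agent.Lib.DcGram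
open Cfsg.Agent.Lib.BlockLocal
open scoped ComplexConjugate

universe u

attribute [local instance] Cfsg.Agent.Lib.DcGrp.fintypeSubDc Cfsg.Agent.Lib.DcGrp.fintypeQuotDc

section Ind

variable {G : Type u} [Group G] [Fintype G] {M : Ideal AlgInt} [hMp : M.IsPrime]

/-- Conjugate elements have centralizers of the same order. -/
theorem card_centralizer_conj (g v : G) :
    Nat.card (Subgroup.centralizer ({g * v * g⁻¹} : Set G)) = Nat.card (Subgroup.centralizer ({v} : Set G)) := by
  have h5 : Subgroup.centralizer ({g * v * g⁻¹} : Set G) =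
      (Subgroup.centralizer ({v} : Set G)).map (MulAut.conj g).toMonoidHom := by
    ext t
    rw [Subgroup.mem_centralizer_singleton_iff, Subgroup.mem_map]
    constructor
    · intro h
      refine ⟨g⁻¹ * t * g, ?_, by simp [MulAut.conj_apply]; group⟩
      rw [Subgroup.mem_centralizer_singleton_iff]
      calc g⁻¹ * t * g * v = g⁻¹ * (t * (g * v * g⁻¹)) * g := by group
        _ = g⁻¹ * ((g * v * g⁻¹) * t) * g := by rw [h]
        _ = _ := by group
    · rintro ⟨k, hk, rfl⟩
      rw [Subgroup.mem_centralizer_singleton_iff] at hk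
      simp only [MulEquiv.coe_toMonoidHom, MulAut.conj_apply]
      calc g * k * g⁻¹ * (g * v * g⁻¹) = g * (k * v) * g⁻¹ := by group
        _ = g * (v * k) * g⁻¹ := by rw [hk]
        _ = _ := by group
  rw [h5]
  exact Nat.card_congr (Subgroup.equivMapOfInjective _ _ (MulEquiv.injective _)).symm.toEquiv

/-- The centralizer in a subgroup divides the centralizer in the group. -/
theorem card_centralizer_dvd (H : Subgroup G) (z : H) :
    Nat.card (Subgroup.centralizer ({z} : Set H)) ∣ Nat.card (Subgroup.centralizer ({(z : G)} : Set G)) := by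
  let f : Subgroup.centralizer ({z} : Set H) →* Subgroup.centralizer ({(z : G)} : Set G) :=
    { toFun := fun c => ⟨((c : H) : G), by
        have h1 := c.2
        rw [Subgroup.mem_centralizer_singleton_iff] at h1 ⊢
        exact congrArg Subtype.val h1⟩
      map_one' := rfl
      map_mul' := fun _ _ => rfl }
  refine Subgroup.card_dvd_of_injective f ?_
  intro a b h
  have h1 : ((f a : Subgroup.centralizer ({(z : G)} : Set G)) : G) = ((f b : Subgroup.centralizer ({(z : G)} : Set G)) : G) := congrArg Subtype.val h
  exact Subtype.ext (Subtype.ext h1)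

open Classical in
/-- **The induced function in terms of classes of the subgroup.** -/
theorem indFun_eq_sum (H : Subgroup G) [Fintype (ConjClasses H)] {φ : H → ℂ} (hφ : IsClassFunction H φ) (x : G) :
    indFun H φ x / (Nat.card (Subgroup.centralizer ({x} : Set G)) : ℂ) =
      ∑ K : ConjClasses H, (if IsConj x ((Quotient.out K : H) : G) then φ (Quotient.out K) /
        (Nat.card (Subgroup.centralizer ({Quotient.out K} : Set H)) : ℂ) else 0) := by
  set ψ : G → ℂ := fun g => if IsConj x g then 1 else 0 with hψ
  have hψc : IsClassFunction G ψ := by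
    intro g c
    simp only [hψ]
    have : IsConj x (c * g * c⁻¹) ↔ IsConj x g := by
      constructor
      · intro h
        refine h.trans ?_
        exact (isConj_iff.2 ⟨c, rfl⟩).symm
      · intro h
        exact h.trans (isConj_iff.2 ⟨c, rfl⟩)
    simp only [this]
  have h1 := frobenius H φ hψc
  have hcl := indFun_isClassFunction H φ
  have hconj : ∀ g, IsConj x g → indFun H φ g = indFun H φ x := by
    intro g hg
    obtain ⟨c, rfl⟩ := isConj_iff.1 hg
    exact hcl x c
  have hG : (Nat.card G : ℂ) ≠ 0 := by exact_mod_cast Nat.card_pos.ne'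
  have hH : (Nat.card H : ℂ) ≠ 0 := natCard_subgroup_ne_zero H
  have hC : (Nat.card (Subgroup.centralizer ({x} : Set G)) : ℂ) ≠ 0 := by
    exact_mod_cast Nat.card_pos.ne'
  have hcard := card_conj_mul_card_centralizer x
  have h2 : classInner (indFun H φ) ψ = indFun H φ x / (Nat.card (Subgroup.centralizer ({x} : Set G)) : ℂ) := by
    unfold classInner
    have h3 : ∀ g : G, indFun H φ g * conj (ψ g) = if IsConj x g then indFun H φ x else 0 := by
      intro g
      by_cases hg : IsConj x g
      · simp only [hψ, if_pos hg, map_one, mul_one]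
        exact hconj g hg
      · simp only [hψ, if_neg hg, map_zero, mul_zero]
    simp_rw [h3]
    rw [Finset.sum_ite, Finset.sum_const_zero, add_zero, Finset.sum_const, nsmul_eq_mul]
    have h4 : ((Finset.univ.filter (fun g => IsConj x g)).card : ℂ) = (Nat.card {y : G // IsConj x y} : ℂ) := by
      rw [Nat.card_eq_fintype_card, Fintype.card_subtype]
    rw [h4, ← hcard]
    push_cast
    have h5 : (Nat.card {y : G // IsConj x y} : ℂ) ≠ 0 := by
      have : Nat.card {y : G // IsConj x y} ≠ 0 := by
        intro h0
        rw [h0, zero_mul] at hcard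
        exact Nat.card_pos.ne' hcard.symm
      exact_mod_cast this
    field_simp
  rw [← h2, h1]
  unfold classInner
  set Fφ : H → ℂ := fun h => if IsConj x (h : G) then φ h else 0 with hFφ
  have hF : IsClassFunction H Fφ := by
    intro g c
    simp only [hFφ]
    have : IsConj x (((c * g * c⁻¹ : H)) : G) ↔ IsConj x (g : G) := by
      have e : (((c * g * c⁻¹ : H)) : G) = (c : G) * g * (c : G)⁻¹ := rfl
      rw [e]
      constructor
      · intro h
        exact h.trans (isConj_iff.2 ⟨(c : G), rfl⟩).symm
      · intro h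
        exact h.trans (isConj_iff.2 ⟨(c : G), rfl⟩)
    by_cases hg : IsConj x (g : G)
    · rw [if_pos (this.2 hg), if_pos hg]
      exact hφ g c
    · rw [if_neg (fun h => hg (this.1 h)), if_neg hg]
  have h6 : ∀ h : H, φ h * conj (ψ (h : G)) = Fφ h := by
    intro h
    by_cases hh : IsConj x (h : G)
    · simp [hψ, hFφ, hh]
    · simp [hψ, hFφ, hh]
  simp_rw [h6]
  rw [Cfsg.Agent.Lib.CharIntegrality.sum_eq_sum_conjClasses Fφ hF, Finset.mul_sum]
  refine Finset.sum_congr rfl fun K _ => ?_
  set z := (Quotient.out K : H) with hz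
  have hCz : (Nat.card (Subgroup.centralizer ({z} : Set H)) : ℂ) ≠ 0 := by
    exact_mod_cast Nat.card_pos.ne'
  have hi := Subgroup.card_mul_index (Subgroup.centralizer ({z} : Set H))
  have hi' : (Nat.card (Subgroup.centralizer ({z} : Set H)) : ℂ) * ((Subgroup.centralizer ({z} : Set H)).index : ℂ) = (Nat.card H : ℂ) := by
    exact_mod_cast hi
  by_cases hx : IsConj x (z : G)
  · simp only [hFφ, if_pos hx]
    rw [← hi']
    have hidx : ((Subgroup.centralizer ({z} : Set H)).index : ℂ) ≠ 0 := by
      intro h0
      rw [h0, mul_zero] at hi'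
      exact hH hi'.symm
    field_simp
  · simp only [hFφ, if_neg hx]
    simp

/-- **Locality of induced functions.** -/
theorem ind_local (H : Subgroup G) {φ : H → ℂ} (hφ : IsClassFunction H φ) {q : ℂ} (hq0 : q ≠ 0)
    (h1 : ∀ z, MemLocalRing M (φ z / q))
    (h2 : ∀ z : H, MemLocalRing M (φ z / (Nat.card (Subgroup.centralizer ({z} : Set H)) : ℂ))) (x : G) :
    MemLocalRing M (indFun H φ x / q) ∧
      MemLocalRing M (indFun H φ x / (Nat.card (Subgroup.centralizer ({x} : Set G)) : ℂ)) := by
  classical
  letI : Fintype (ConjClasses H) := Fintype.ofFinite _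
  have h3 := indFun_eq_sum H hφ x
  have hC : (Nat.card (Subgroup.centralizer ({x} : Set G)) : ℂ) ≠ 0 := by
    exact_mod_cast Nat.card_pos.ne'
  constructor
  · have h4 : indFun H φ x / q = (Nat.card (Subgroup.centralizer ({x} : Set G)) : ℂ) / q *
        (indFun H φ x / (Nat.card (Subgroup.centralizer ({x} : Set G)) : ℂ)) := by
      field_simp
    rw [h4, h3, Finset.mul_sum]
    refine memLocalRing_sum _ _ fun K _ => ?_
    set z := (Quotient.out K : H) with hz
    by_cases hx : IsConj x (z : G)
    · rw [if_pos hx]
      obtain ⟨c, hc⟩ := isConj_iff.1 hx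
      have h5 : Nat.card (Subgroup.centralizer ({x} : Set G)) = Nat.card (Subgroup.centralizer ({(z : G)} : Set G)) := by
        rw [← hc, card_centralizer_conj]
      obtain ⟨n, hn⟩ := card_centralizer_dvd H z
      rw [← h5] at hn
      have hCz : (Nat.card (Subgroup.centralizer ({z} : Set H)) : ℂ) ≠ 0 := by
        exact_mod_cast Nat.card_pos.ne'
      have h6 : (Nat.card (Subgroup.centralizer ({x} : Set G)) : ℂ) / q * (φ z / (Nat.card (Subgroup.centralizer ({z} : Set H)) : ℂ)) =
          (n : ℂ) * (φ z / q) := by
        rw [hn]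
        push_cast
        field_simp
      rw [h6]
      exact memLocalRing_mul (memLocalRing_natCast _) (h1 z)
    · rw [if_neg hx, mul_zero]
      exact memLocalRing_zero
  · rw [h3]
    refine memLocalRing_sum _ _ fun K _ => ?_
    by_cases hx : IsConj x ((Quotient.out K : H) : G)
    · rw [if_pos hx]
      exact h2 _
    · rw [if_neg hx]
      exact memLocalRing_zero

variable [DecidableEq G]

/-- Induction does not see conjugation by the normalizer. -/
theorem indFun_actN {H : Subgroup G} {t : G} (ht : t ∈ normalizer (H : Set G)) (ν : IrrCharacter H) :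
    indFun H (actN H t ν : H → ℂ) = indFun H (ν : H → ℂ) := by
  funext g
  rw [indFun_apply, indFun_apply]
  congr 1
  have h1 : ∀ z : G, extendByZero H (actN H t ν : H → ℂ) z = extendByZero H (ν : H → ℂ) (t⁻¹ * z * t) := by
    intro z
    by_cases hz : z ∈ H
    · rw [extendByZero_of_mem H _ hz]
      exact (ext_conj_eq ht ν ⟨z, hz⟩).symm
    · rw [extendByZero_of_not_mem H _ hz, extendByZero_of_not_mem]
      intro h
      apply hz
      have h2 := (Subgroup.mem_normalizer_iff.1 ht (t⁻¹ * z * t)).1 h
      have h3 : t * (t⁻¹ * z * t) * t⁻¹ = z := by group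
      rwa [h3] at h2
  simp_rw [h1]
  refine Fintype.sum_equiv (Equiv.mulRight t) _ _ fun x => ?_
  simp only [Equiv.coe_mulRight]
  congr 1
  group

end Ind

section Match

/-- Subgroups of the same order of a finite cyclic group are equal. -/
theorem subgroup_eq_of_card {A : Type*} [Group A] [Finite A] [IsCyclic A] {U V : Subgroup A} {e : ℕ}
    (hU : Nat.card U = e) (hV : Nat.card V = e) : U = V := by
  classical
  letI : Fintype A := Fintype.ofFinite A
  have he : 0 < e := by
    rw [← hU]
    exact Nat.card_pos
  have hle := IsCyclic.card_pow_eq_one_le (α := A) he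
  have key : ∀ W : Subgroup A, Nat.card W = e → ∀ x : A, x ^ e = 1 → x ∈ W := by
    intro W hW x hx
    have hsub : (Finset.univ.filter (fun y : A => y ∈ W)) ⊆ (Finset.univ.filter (fun y : A => y ^ e = 1)) := by
      intro y hy
      obtain ⟨-, hy⟩ := Finset.mem_filter.1 hy
      refine Finset.mem_filter.2 ⟨Finset.mem_univ _, ?_⟩
      have h1 : (⟨y, hy⟩ : W) ^ (Nat.card W) = 1 := pow_card_eq_one'
      rw [hW] at h1
      exact congrArg Subtype.val h1
    have hcard : (Finset.univ.filter (fun y : A => y ∈ W)).card = e := by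
      rw [← hW, Nat.card_eq_fintype_card, Fintype.card_subtype]
    have h2 := Finset.eq_of_subset_of_card_le hsub (by rw [hcard]; exact hle)
    have h3 : x ∈ Finset.univ.filter (fun y : A => y ^ e = 1) := Finset.mem_filter.2 ⟨Finset.mem_univ _, hx⟩
    rw [← h2] at h3
    exact (Finset.mem_filter.1 h3).2
  have hpow : ∀ W : Subgroup A, Nat.card W = e → ∀ x ∈ W, x ^ e = 1 := by
    intro W hW x hx
    have h1 : (⟨x, hx⟩ : W) ^ (Nat.card W) = 1 := pow_card_eq_one'
    rw [hW] at h1
    exact congrArg Subtype.val h1
  ext x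
  exact ⟨fun h => key V hV x (hpow U hU x h), fun h => key U hU x (hpow V hV x h)⟩

/-- **Matching of subgroups of the automorphism groups of cyclic groups.** -/
theorem exists_match {A A' : Type*} [Group A] [Group A'] [Finite A] [IsCyclic A] {p a e : ℕ} (hp : p.Prime)
    (hcard : Nat.card A = p ^ a) (he : e ∣ p - 1) (β : A ≃* A') (U : Subgroup (MulAut A))
    (U' : Subgroup (MulAut A')) (hU : Nat.card U = e) (hU' : Nat.card U' = e) :
    ∀ σ ∈ U, ∃ σ' ∈ U', ∀ y, β (σ y) = σ' (β y) := by
  classical
  haveI : Finite A' := Finite.of_equiv A β.toEquiv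
  set c : MulAut A ≃* MulAut A' := MulAut.congr β with hc
  set V : Subgroup (MulAut A) := U'.map c.symm.toMonoidHom with hV
  have hVc : Nat.card V = e := by
    rw [← hU']
    exact (Nat.card_congr (Subgroup.equivMapOfInjective _ _ c.symm.injective).toEquiv).symm
  have hUV : U = V := by
    by_cases hp2 : p = 2
    · subst hp2
      have he1 : e = 1 := Nat.dvd_one.1 he
      rw [he1] at hU hVc
      rw [(Subgroup.eq_bot_of_card_eq U hU), (Subgroup.eq_bot_of_card_eq V hVc)]
    · haveI h1 : IsCyclic (ZMod (Nat.card A))ˣ := by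
        rw [hcard]
        exact ZMod.isCyclic_units_of_prime_pow p hp hp2 a
      haveI h2 : IsCyclic (MulAut A) :=
        isCyclic_of_injective (IsCyclic.mulAutMulEquiv A).toMonoidHom (MulEquiv.injective _)
      exact subgroup_eq_of_card hU hVc
  intro σ hσ
  rw [hUV] at hσ
  obtain ⟨σ', hσ', rfl⟩ := hσ
  refine ⟨σ', hσ', fun y => ?_⟩
  have h3 : c (c.symm.toMonoidHom σ') = σ' := by simp
  rw [← h3]
  simp [hc, MulAut.congr]

end Match

end Cfsg.Agent.Lib.DcInd
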