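import Mathlib
import Cfsg.Agent.Lib.StarNil
import Cfsg.Agent.Lib.StarFocal
import Cfsg.Agent.Lib.BrauerIn
import Cfsg.Agent.Lib.BSWAb
import Cfsg.Agent.Lib.KlPerf

/-!
# Sums of the twists of a member of a nilpotent block with abelian defect group

The combinations `∑ α, conj (α w) • tw α χ` are divisible by the order of the defect group, and their
values divided by the order of the centralizer are local.
-/

set_option autoImplicit false
set_option linter.unusedSectionVars false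
set_option linter.unusedVariables false
set_option linter.style.haveILetI false

namespace Cfsg.Agent.Lib.DcNil

open Polynomial IsLocalRing Cfsg Cfsg.Agent.Lib.StarFit Cfsg.Agent.Lib.StarGrp
open Cfsg.Agent.Lib.StarLoc Cfsg.Agent.Lib.BlockLocal Cfsg.Agent.Lib.BlockCover
open Cfsg.Agent.Lib.BlockResidue Cfsg.Agent.Lib.BrauerMap Cfsg.Agent.Lib.BrauerPair
open Cfsg.Agent.Lib.BrauerSub Cfsg.Agent.Lib.BlockIdem Cfsg.Agent.Lib.CharIntegrality
open Cfsg.Agent.Lib.BlkBasic Cfsg.Agent.Lib.StarBlk Cfsg.Agent.Lib.StarP Cfsg.Agent.Lib.StarTh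
open Cfsg.Agent.Lib.StarFit.LocSys Cfsg.Agent.Lib.GenChar Cfsg.Agent.Lib.CharBasic
open Cfsg.Agent.Lib.CharInd Cfsg.Agent.Lib.StarGen Cfsg.Agent.Lib.BrauerConj
open Cfsg.Agent.Lib.BrauerCen Cfsg.Agent.Lib.BrauerMax Cfsg.Agent.Lib.StarII
open Cfsg.Agent.Lib.StarGlob Cfsg.Agent.Lib.BlockOrtho Cfsg.Agent.Lib.StarInner
open Cfsg.Agent.Lib.StarNorm Cfsg.Agent.Lib.BrauerNil Cfsg.Agent.Lib.BrauerStab
open Cfsg.Agent.Lib.StarNil Cfsg.Agent.Lib.StarAct Cfsg.Agent.Lib.StarH0
open Cfsg.Agent.Lib.BlockQ Cfsg.Agent.Lib.BlockMajor Cfsg.Agent.Lib.BlockSubsection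
open Cfsg.Agent.Lib.BrauerIn
open scoped ComplexConjugate

universe u

section Mem

variable {X : Type u} [Group X] [Fintype X] {p : ℕ} [hpF : Fact p.Prime] {M : Ideal AlgInt}

/-- **All members of a block.** -/
theorem local_of_mem (hM : IsPModular p M) {b : Set (IrrCharacter X)} (hb : IsPBlock M b)
    {θ : IrrCharacter X} (hθ : θ ∈ b) (s : X) :
    MemLocalRing M ((p : ℂ) ^ blockDefect p b * (θ : X → ℂ) s /
      (Nat.card (Subgroup.centralizer ({s} : Set X)) : ℂ)) := by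
  classical
  haveI := isPrime_of_isPModular hM
  have hp := hpF.out
  have hint := isIntegral_centralChar θ s
  have hG := card_factorization_eq (p := p) hb
  set d := charDegree (θ : X → ℂ) with hd
  have hd0 : d ≠ 0 := Cfsg.Agent.Lib.CharKernel.charDegree_ne_zero θ.2
  have hθ1 : (θ : X → ℂ) 1 = (d : ℂ) :=
    Cfsg.Agent.Lib.CharKernel.one_eq_charDegree (IsIrrCharacter.isCharacter θ.2)
  set m₁ := ordCompl[p] d with hm₁
  have hX0 : Nat.card X ≠ 0 := Nat.card_pos.ne'
  set m₂ := ordCompl[p] (Nat.card X) with hm₂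
  have hm₂p : ¬ p ∣ m₂ := Nat.not_dvd_ordCompl hp hX0
  have hmin : minExp p b ≤ d.factorization p := minExp_le hθ
  obtain ⟨h, hh⟩ : ∃ h, d.factorization p = minExp p b + h := ⟨_, (Nat.add_sub_cancel' hmin).symm⟩
  have hdd : (d : ℂ) = (p : ℂ) ^ minExp p b * ((p : ℂ) ^ h * (m₁ : ℂ)) := by
    rw [← mul_assoc, ← pow_add, ← hh, hm₁, ← Nat.cast_pow, ← Nat.cast_mul, Nat.ordProj_mul_ordCompl_eq_self]
  have hXX : (Nat.card X : ℂ) = (p : ℂ) ^ (blockDefect p b + minExp p b) * (m₂ : ℂ) := by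
    rw [← hG, hm₂, ← Nat.cast_pow, ← Nat.cast_mul, Nat.ordProj_mul_ordCompl_eq_self]
  set C := Subgroup.centralizer ({s} : Set X) with hC
  have hCi : (Nat.card C : ℂ) * (C.index : ℂ) = (Nat.card X : ℂ) := by
    rw [← Nat.cast_mul, Subgroup.card_mul_index]
  have hpne : (p : ℂ) ≠ 0 := by exact_mod_cast hp.ne_zero
  have hm₂ne : (m₂ : ℂ) ≠ 0 := by
    have : m₂ ≠ 0 := fun h => hm₂p (by rw [h]; exact dvd_zero _)
    exact_mod_cast this
  have hCne : (Nat.card C : ℂ) ≠ 0 := natCard_ne_zero'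
  have hdne : (d : ℂ) ≠ 0 := by exact_mod_cast hd0
  have hminne : (p : ℂ) ^ minExp p b ≠ 0 := pow_ne_zero _ hpne
  have hm₁ne : (p : ℂ) ^ h * (m₁ : ℂ) ≠ 0 := by
    intro h'
    rw [hdd, h', mul_zero] at hdne
    exact hdne rfl
  have h1 : (p : ℂ) ^ blockDefect p b * (θ : X → ℂ) s / (Nat.card C : ℂ) =
      centralChar (θ : X → ℂ) s * (((p : ℂ) ^ h * (m₁ : ℂ)) * (m₂ : ℂ)⁻¹) := by
    unfold centralChar
    rw [← hC, hθ1]
    have hidx : (C.index : ℂ) = (Nat.card X : ℂ) / (Nat.card C : ℂ) := by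
      rw [← hCi]
      field_simp
    rw [hidx, hXX, hdd, pow_add]
    have hm₁0 : (m₁ : ℂ) ≠ 0 := fun h' => hm₁ne (by rw [h', mul_zero])
    have hph : (p : ℂ) ^ h ≠ 0 := fun h' => hm₁ne (by rw [h', zero_mul])
    field_simp
  rw [h1]
  refine memLocalRing_mul (memLocalRing_of_isIntegral hint)
    (memLocalRing_mul (memLocalRing_mul (memLocalRing_pow (memLocalRing_natCast _) _) (memLocalRing_natCast _)) (memLocalRing_inv_natCast hM hm₂p))

end Mem

variable {G : Type u} [Group G] [Fintype G] {p : ℕ} [hp : Fact p.Prime] {M : Ideal AlgInt}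
  [hMp : M.IsPrime]

local notation "𝐂[" R "]" => Subgroup.centralizer ((R : Subgroup G) : Set G)
local notation "𝐍[" R "]" => Subgroup.normalizer ((R : Subgroup G) : Set G)

noncomputable local instance fintypeSubDn {A : Type*} [Group A] [Finite A] (K : Subgroup A) : Fintype K :=
  Fintype.ofFinite K

section Term

variable {P : Subgroup G} {e : Set (IrrCharacter (Subgroup.centralizer (P : Set G)))}
  {B : Set (IrrCharacter G)}

/-- The defect of a block below a maximal pair. -/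
theorem defect_of_subpairLE (hM : IsPModular p M) (hmax : IsMaximalBrauerPair p M B P e)
    (hab : ∀ x ∈ P, ∀ y ∈ P, x * y = y * x) {u : G} {f : Set (IrrCharacter 𝐂[Subgroup.zpowers u])}
    (hf : IsPBlock M f) (hle : SubpairLE p M (Subgroup.zpowers u) f P e) :
    (p : ℂ) ^ blockDefect p f = (Nat.card P : ℂ) := by
  have hPp : IsPGroup p P := hmax.1.1.1
  have hQP : Subgroup.zpowers u ≤ P := le_of_subpairLE hle
  have huP : u ∈ P := Subgroup.zpowers_le.1 hQP
  have hPC : P ≤ 𝐂[Subgroup.zpowers u] := by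
    intro x hx
    rw [Subgroup.mem_centralizer_iff]
    intro q hq
    exact hab q (hQP hq) x hx
  obtain ⟨f', hf'⟩ := exists_isInducedBlockIn hM hPp hQP hPC hmax.1.1.2
  have hbp := isBrauerPairOf_in hM hPp hQP hPC hf'
  have hn := isNormalSubpair_of_in hPp hQP hPC hbp hmax.1.1.2 hf'.2.1
  have hle' := subpairLE_of_normal hn
  obtain rfl : f = f' := eq_of_two_subpairLE hM hmax.1.1 hle' hle
  have hPD := isDefectGroup_of_maximal hM hmax
  have hmax' := isMaximal_in hM hPD hQP hPC hmax.1 hbp hf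
  have hD' := isDefectGroup_of_maximal hM hmax'
  have h1 := Cfsg.Agent.Lib.BlockDefect.card_isDefectGroup hM hf hD'
  have h2 : Nat.card (P.subgroupOf 𝐂[Subgroup.zpowers u]) = Nat.card P :=
    Nat.card_congr (Subgroup.subgroupOfEquivOfLe hPC).toEquiv
  rw [← h2, h1]
  push_cast
  rfl

/-- The terms below `(P, e)`: first when the element lies in `P`. -/
theorem term_local_one (hM : IsPModular p M) (hmax : IsMaximalBrauerPair p M B P e)
    (hab : ∀ x ∈ P, ∀ y ∈ P, x * y = y * x) (χ : IrrCharacter G) (i : Idx G M) (h1 : W2 p M P e i 1) {v : G}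
    (hv : pp p v = i.1) :
    MemLocalRing M ((Nat.card P : ℂ) * chiT (χ : G → ℂ) (ofG (localSubring M) v * eI i) /
      (Nat.card (Subgroup.centralizer ({v} : Set G)) : ℂ)) := by
  classical
  obtain ⟨u, b⟩ := i
  have hle : SubpairLE p M (Subgroup.zpowers u) b.1 P e := (W2_one_iff _).1 h1
  have hv' : pp p v = u := hv
  obtain ⟨y, hy, hc, hk, hyp⟩ := pp_spec (p := p) v
  rw [hv'] at hy hc hk
  have hH : 𝐂[Subgroup.zpowers u] = Subgroup.centralizer ({u} : Set G) :=
    Cfsg.Agent.Lib.BlockSecond.centralizer_zpowers_eq u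
  have hyC : y ∈ 𝐂[Subgroup.zpowers u] := by
    rw [hH, Subgroup.mem_centralizer_singleton_iff]
    exact hc.eq.symm
  set s : 𝐂[Subgroup.zpowers u] := ⟨y, hyC⟩ with hs
  have hvs : v = u * (s : G) := hy.symm
  have hsr : ¬ p ∣ orderOf s := by
    rw [hs, Subgroup.orderOf_mk]
    exact hyp
  have hχc : IsClassFunction G (χ : G → ℂ) :=
    isClassFunction_of_isCharacter (IsIrrCharacter.isCharacter χ.2)
  have hdef := defect_of_subpairLE hM hmax hab b.2 hle
  have hcard : Nat.card (Subgroup.centralizer ({v} : Set G)) =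
      Nat.card (Subgroup.centralizer ({s} : Set 𝐂[Subgroup.zpowers u])) := by
    rw [hvs]
    exact card_centralizer_mul hH hk hsr
  have h2 : chiT (χ : G → ℂ) (ofG (localSubring M) v * eI (⟨u, b⟩ : Idx G M)) =
      blockProj b.1 (shiftF u (χ : G → ℂ)) s := by
    rw [hvs]
    exact chiT_eB_eq u _ hχc b s
  rw [h2, hcard]
  unfold blockProj
  rw [Finset.mul_sum, Finset.sum_div]
  refine memLocalRing_sum _ _ fun ξ _ => ?_
  by_cases hξ : ξ ∈ b.1
  · rw [indB_of_mem hξ, one_mul, ← hdef]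
    have h3 := Cfsg.Agent.Lib.DcNil.local_of_mem hM b.2 hξ s
    have hint : IsIntegral ℤ (classInner (shiftF u (χ : G → ℂ)) (ξ : 𝐂[Subgroup.zpowers u] → ℂ)) := by
      have h4 := classInner_thetaZ hH χ ξ
      have h5 : shiftF u (χ : G → ℂ) = thetaZ (χ : G → ℂ) u 𝐂[Subgroup.zpowers u] := rfl
      rw [h5, h4]
      refine IsIntegral.mul (isIntegral_natCast _) (isIntegral_of_root (n := orderOf u) ?_
        (om_pow_eq_one hH ξ (pow_orderOf_eq_one u)))
      exact (orderOf_pos u).ne'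
    have h6 : (p : ℂ) ^ blockDefect p b.1 * (classInner (shiftF u (χ : G → ℂ)) (ξ : 𝐂[Subgroup.zpowers u] → ℂ) * (ξ : 𝐂[Subgroup.zpowers u] → ℂ) s) /
        (Nat.card (Subgroup.centralizer ({s} : Set 𝐂[Subgroup.zpowers u])) : ℂ) =
        classInner (shiftF u (χ : G → ℂ)) (ξ : 𝐂[Subgroup.zpowers u] → ℂ) * ((p : ℂ) ^ blockDefect p b.1 * (ξ : 𝐂[Subgroup.zpowers u] → ℂ) s /
        (Nat.card (Subgroup.centralizer ({s} : Set 𝐂[Subgroup.zpowers u])) : ℂ)) := by ring
    rw [h6]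
    exact memLocalRing_mul (memLocalRing_of_isIntegral hint) h3
  · rw [indB_of_not_mem hξ]
    simp [memLocalRing_zero]

/-- The terms below `(P, e)`. -/
theorem term_local (hM : IsPModular p M) (hmax : IsMaximalBrauerPair p M B P e)
    (hab : ∀ x ∈ P, ∀ y ∈ P, x * y = y * x) (χ : IrrCharacter G) (i : Idx G M) {g : G} (hg : W2 p M P e i g)
    {v : G} (hv : pp p v = i.1) :
    MemLocalRing M ((Nat.card P : ℂ) * chiT (χ : G → ℂ) (ofG (localSubring M) v * eI i) /
      (Nat.card (Subgroup.centralizer ({v} : Set G)) : ℂ)) := by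
  have h1 : W2 p M P e (act g i) 1 := by
    have := (W2_act (p := p) (P := P) (e := e) g i g).2 hg
    rwa [mul_inv_cancel] at this
  have hv' : pp p (g * v * g⁻¹) = (act g i).1 := by
    rw [pp_conj, hv]
    rfl
  have h2 := term_local_one hM hmax hab χ (act g i) h1 hv'
  have hχc : IsClassFunction G (χ : G → ℂ) :=
    isClassFunction_of_isCharacter (IsIrrCharacter.isCharacter χ.2)
  have h3 : chiT (χ : G → ℂ) (ofG (localSubring M) (g * v * g⁻¹) * eI (act g i)) =
      chiT (χ : G → ℂ) (ofG (localSubring M) v * eI i) := by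
    rw [eI_act, ← cj_ofG, ← cj_mul', chiT_cj hχc]
  have h4 : Nat.card (Subgroup.centralizer ({g * v * g⁻¹} : Set G)) =
      Nat.card (Subgroup.centralizer ({v} : Set G)) := by
    have h5 : Subgroup.centralizer ({g * v * g⁻¹} : Set G) =
        (Subgroup.centralizer ({v} : Set G)).map (MulAut.conj g).toMonoidHom := by
      ext t
      rw [Subgroup.mem_centralizer_singleton_iff, Subgroup.mem_map]
      constructor
      · intro h
        refine ⟨g⁻¹ * t * g, ?_, by simp [MulAut.conj_apply]; group⟩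
        rw [Subgroup.mem_centralizer_singleton_iff]
        calc g⁻¹ * t * g * v = g⁻¹ * (t * (g * v * g⁻¹)) * g := by group
          _ = g⁻¹ * ((g * v * g⁻¹) * t) * g := by rw [h]
          _ = _ := by group
      · rintro ⟨k, hk, rfl⟩
        rw [Subgroup.mem_centralizer_singleton_iff] at hk
        simp only [MulEquiv.coe_toMonoidHom, MulAut.conj_apply]
        calc g * k * g⁻¹ * (g * v * g⁻¹) = g * (k * v) * g⁻¹ := by group
          _ = g * (v * k) * g⁻¹ := by rw [hk]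
          _ = _ := by group
    rw [h5]
    exact Nat.card_congr (Subgroup.equivMapOfInjective _ _ (MulEquiv.injective _)).symm.toEquiv
  rw [h3, h4] at h2
  exact h2

end Term

section Sum

variable {P : Subgroup G} {e : Set (IrrCharacter (Subgroup.centralizer (P : Set G)))}
  {B : Set (IrrCharacter G)}

/-- **The sums of the twists.** -/
theorem sum_tw_local (hM : IsPModular p M) (hmax : IsMaximalBrauerPair p M B P e) (hnil : IsNilpotentBlock p M B)
    (hab : ∀ x ∈ P, ∀ y ∈ P, x * y = y * x) (χ : IrrCharacter G) (w : P) (v : G) :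
    MemLocalRing M ((∑ α : IrrCharacter P, conj ((α : P → ℂ) w) * tw p M P e (α : P → ℂ) (χ : G → ℂ) v) /
        (Nat.card P : ℂ)) ∧
    MemLocalRing M ((∑ α : IrrCharacter P, conj ((α : P → ℂ) w) * tw p M P e (α : P → ℂ) (χ : G → ℂ) v) /
        (Nat.card (Subgroup.centralizer ({v} : Set G)) : ℂ)) := by
  classical
  have hPc : (Nat.card P : ℂ) ≠ 0 := by exact_mod_cast Nat.card_pos.ne'
  have hcomm : ∀ a b : P, a * b = b * a := fun a b => Subtype.ext (hab a a.2 b b.2)
  unfold tw TT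
  simp_rw [Finset.mul_sum]
  rw [Finset.sum_comm]
  have key : ∀ b : BlockT M 𝐂[Subgroup.zpowers (pp p v)], ∃ a : ℂ,
      (∑ α : IrrCharacter P, conj ((α : P → ℂ) w) * (LamH p M P e (extendByZero P (α : P → ℂ)) (pp p v) (eB _ b) *
        chiT (χ : G → ℂ) (ofG (localSubring M) v * eB _ b))) = (Nat.card P : ℂ) * a * chiT (χ : G → ℂ) (ofG (localSubring M) v * eB _ b) ∧
        (a = 0 ∨ (a = 1 ∧ ∃ g, W2 p M P e (⟨pp p v, b⟩ : Idx G M) g)) := by
    intro b
    by_cases hex : ∃ g, W2 p M P e (⟨pp p v, b⟩ : Idx G M) g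
    · obtain ⟨g, hg⟩ := hex
      have hW := (wit_iff (⟨pp p v, b⟩ : Idx G M) g).2 hg
      have hmemP : g * pp p v * g⁻¹ ∈ P := by
        have h1 := le_of_subpairLE (show SubpairLE p M _ _ P e from hg)
        apply h1
        exact ⟨pp p v, Subgroup.mem_zpowers _, rfl⟩
      have hL : ∀ α : IrrCharacter P, LamH p M P e (extendByZero P (α : P → ℂ)) (pp p v) (eB _ b) =
          (α : P → ℂ) ⟨g * pp p v * g⁻¹, hmemP⟩ := by
        intro α
        have hαc : IsClassFunction P (α : P → ℂ) :=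
          isClassFunction_of_isCharacter (IsIrrCharacter.isCharacter α.2)
        rw [show eB _ b = eI (⟨pp p v, b⟩ : Idx G M) from rfl]
        rw [lamH_eq (hst_of_nil hM hmax hnil hαc) hW, extendByZero_of_mem P _ hmemP]
      simp_rw [hL]
      have hsum := Cfsg.Agent.Lib.BSWAb.column hcomm (⟨g * pp p v * g⁻¹, hmemP⟩ : P) w
      have hinv : ∀ α : IrrCharacter P, (α : P → ℂ) w⁻¹ = conj ((α : P → ℂ) w) := fun α =>
        (char_conj_eq_inv (IsIrrCharacter.isCharacter α.2) w).symm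
      simp_rw [hinv] at hsum
      have h2 : ∑ α : IrrCharacter P, conj ((α : P → ℂ) w) * ((α : P → ℂ) ⟨g * pp p v * g⁻¹, hmemP⟩ *
            chiT (χ : G → ℂ) (ofG (localSubring M) v * eB _ b)) =
          (∑ α : IrrCharacter P, (α : P → ℂ) ⟨g * pp p v * g⁻¹, hmemP⟩ * conj ((α : P → ℂ) w)) *
            chiT (χ : G → ℂ) (ofG (localSubring M) v * eB _ b) := by
        rw [Finset.sum_mul]
        refine Finset.sum_congr rfl fun α _ => ?_
        ring
      rw [h2, hsum]
      by_cases hw : (⟨g * pp p v * g⁻¹, hmemP⟩ : P) = w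
      · refine ⟨1, ?_, Or.inr ⟨rfl, g, hg⟩⟩
        rw [if_pos hw, mul_one]
      · refine ⟨0, ?_, Or.inl rfl⟩
        rw [if_neg hw]
        simp
    · refine ⟨0, ?_, Or.inl rfl⟩
      have hz : ∀ α : IrrCharacter P, LamH p M P e (extendByZero P (α : P → ℂ)) (pp p v) (eB _ b) = 0 := by
        intro α
        apply lamH_of_not
        rintro ⟨g, hg⟩
        exact hex ⟨g, (wit_iff (⟨pp p v, b⟩ : Idx G M) g).1 hg⟩
      simp_rw [hz]
      simp
  choose a ha1 ha2 using key
  rw [Finset.sum_congr rfl fun b _ => ha1 b]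
  constructor
  · rw [Finset.sum_div]
    refine memLocalRing_sum _ _ fun b _ => ?_
    have h3 : (Nat.card P : ℂ) * a b * chiT (χ : G → ℂ) (ofG (localSubring M) v * eB _ b) / (Nat.card P : ℂ) =
        a b * chiT (χ : G → ℂ) (ofG (localSubring M) v * eB _ b) := by
      field_simp
    rw [h3]
    have h4 : MemLocalRing M (a b) := by
      rcases ha2 b with h | ⟨h, -⟩ <;> rw [h]
      · exact memLocalRing_zero
      · exact memLocalRing_one
    exact memLocalRing_mul h4 (chiT_local (IsIrrCharacter.isCharacter χ.2) _)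
  · rw [Finset.sum_div]
    refine memLocalRing_sum _ _ fun b _ => ?_
    rcases ha2 b with h | ⟨h, g, hg⟩
    · rw [h]
      simp [memLocalRing_zero]
    · rw [h, mul_one]
      exact term_local hM hmax hab χ (⟨pp p v, b⟩ : Idx G M) hg rfl

end Sum

section Aut

variable {P : Subgroup G} {e : Set (IrrCharacter (Subgroup.centralizer (P : Set G)))}
  {B : Set (IrrCharacter G)}

/-- The value of a twist on a pair below `(P, e)`. -/
theorem chiT_tw (hM : IsPModular p M) (hmax : IsMaximalBrauerPair p M B P e) (hnil : IsNilpotentBlock p M B)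
    {α : P → ℂ} (hα : IsClassFunction P α) {χ : G → ℂ} (hχ : IsClassFunction G χ) (w : P)
    (s : 𝐂[Subgroup.zpowers (w : G)]) (hs : ¬ p ∣ orderOf s) :
    chiT (tw p M P e α χ) (ofG (localSubring M) ((w : G) * s) * eI (idxP hM hmax.1.1 w)) =
      α w * chiT χ (ofG (localSubring M) ((w : G) * s) * eI (idxP hM hmax.1.1 w)) := by
  have hPp : IsPGroup p P := hmax.1.1.1
  obtain ⟨k, hk⟩ := (IsPGroup.iff_orderOf.1 hPp) w
  have hu : ∃ k : ℕ, orderOf (w : G) = p ^ k := ⟨k, by rwa [Subgroup.orderOf_coe]⟩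
  have hst := hst_of_nil hM hmax hnil hα
  have h1 := chiT_TT_eB hM (lamH_conj hst) hχ hu (bw hM hmax.1.1 w) s hs
  have hW : Wit p M P e (w : G) (eI (idxP hM hmax.1.1 w)) 1 :=
    (wit_iff (idxP hM hmax.1.1 w) 1).2 (W2_idxP hM hmax.1.1 w)
  have h2 := lamH_eq hst hW
  have h3 : (1 : G) * (w : G) * (1 : G)⁻¹ = w := by group
  rw [h3, extendByZero_coe] at h2
  unfold tw
  show chiT _ (ofG (localSubring M) ((w : G) * s) * eB _ (bw hM hmax.1.1 w)) =
    α w * chiT χ (ofG (localSubring M) ((w : G) * s) * eB _ (bw hM hmax.1.1 w))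
  rw [h1]
  show LamH p M P e (extendByZero P α) (w : G) (eI (idxP hM hmax.1.1 w)) * _ = _
  rw [h2]

/-- At a character of height zero some value on the section is nonzero. -/
theorem exists_chiT_ne (hM : IsPModular p M) (hmax : IsMaximalBrauerPair p M B P e)
    (hnil : IsNilpotentBlock p M B) {χ₀ : IrrCharacter G} (hχ₀ : χ₀ ∈ B)
    (h0 : (charDegree (χ₀ : G → ℂ)).factorization p = minExp p B) (w : P) :
    ∃ s : 𝐂[Subgroup.zpowers (w : G)], ¬ p ∣ orderOf s ∧
      chiT (χ₀ : G → ℂ) (ofG (localSubring M) ((w : G) * s) * eI (idxP hM hmax.1.1 w)) ≠ 0 := by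
  classical
  have h1 := cc_eq_inv_card hM hmax hnil hχ₀ h0 w
  have hPc : (Nat.card P : ℂ) ≠ 0 := by exact_mod_cast Nat.card_pos.ne'
  have h2 : Wsum p (χ₀ : G → ℂ) (χ₀ : G → ℂ) (idxP hM hmax.1.1 w) ≠ 0 := by
    intro h3
    unfold cc at h1
    rw [h3, zero_div] at h1
    exact inv_ne_zero hPc h1.symm
  unfold Wsum at h2
  obtain ⟨v, hv, hne⟩ := Finset.exists_ne_zero_of_sum_ne_zero h2
  have hv' : pp p v = (w : G) := (Finset.mem_filter.1 hv).2
  obtain ⟨y, hy, hc, hk, hyp⟩ := pp_spec (p := p) v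
  rw [hv'] at hy hc hk
  have hH : 𝐂[Subgroup.zpowers (w : G)] = Subgroup.centralizer ({(w : G)} : Set G) :=
    Cfsg.Agent.Lib.BlockSecond.centralizer_zpowers_eq _
  have hyC : y ∈ 𝐂[Subgroup.zpowers (w : G)] := by
    rw [hH, Subgroup.mem_centralizer_singleton_iff]
    exact hc.eq.symm
  refine ⟨⟨y, hyC⟩, by rwa [Subgroup.orderOf_mk], ?_⟩
  have e1 : (w : G) * ((⟨y, hyC⟩ : 𝐂[Subgroup.zpowers (w : G)]) : G) = v := hy
  rw [e1]
  exact left_ne_zero_of_mul hne

/-- The idempotent of the pair at a generator. -/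
theorem eI_idxP_of_gen (hM : IsPModular p M) (he : IsBrauerPair p M P e) (w : P)
    (hw : Subgroup.zpowers (w : G) = P) : eI (idxP hM he w) = eB 𝐂[P] ⟨e, he.2⟩ := by
  obtain ⟨w, hw'⟩ := w
  simp only at hw
  subst hw
  have h1 : SubpairLE p M (Subgroup.zpowers w) (bw hM he ⟨w, hw'⟩).1 (Subgroup.zpowers w) e := bw_spec hM he ⟨w, hw'⟩
  have h2 : SubpairLE p M (Subgroup.zpowers w) e (Subgroup.zpowers w) e := Relation.ReflTransGen.refl
  have h3 := eq_of_two_subpairLE hM he h2 h1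
  show eB _ (bw hM he ⟨w, hw'⟩) = _
  congr 1
  exact Subtype.ext h3

/-- Values under an automorphism. -/
theorem chiT_aut (τ : G ≃* G) {E : MonoidAlgebra (localSubring M) G} (hE : ∀ k, coeF E (τ k) = coeF E k) (φ : G → ℂ) (v : G) :
    chiT (fun g => φ (τ.symm g)) (ofG (localSubring M) (τ v) * E) = chiT φ (ofG (localSubring M) v * E) := by
  rw [chiT_ofG_mul, chiT_ofG_mul]
  symm
  refine Fintype.sum_equiv τ.toEquiv _ _ fun k => ?_
  simp only [MulEquiv.toEquiv_eq_coe, MulEquiv.coe_toEquiv, map_mul, MulEquiv.symm_apply_apply]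
  rw [hE]

/-- **An automorphism of `G` fixing a character of height zero and the pair permutes the twists.** -/
theorem tw_aut (hM : IsPModular p M) (hmax : IsMaximalBrauerPair p M B P e) (hnil : IsNilpotentBlock p M B)
    (τ : G ≃* G) (hτP : ∀ y ∈ P, τ y ∈ P) (w₀ : P) (hw₀ : Subgroup.zpowers (w₀ : G) = P)
    {ν₁ : IrrCharacter G} (hν₁ : ν₁ ∈ B) (h0 : (charDegree (ν₁ : G → ℂ)).factorization p = minExp p B)
    (hfix : ∀ g, (ν₁ : G → ℂ) (τ g) = (ν₁ : G → ℂ) g)
    (hE : ∀ k, subgroupBlockCoeff 𝐂[P] e (τ k) = subgroupBlockCoeff 𝐂[P] e k)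
    {α α' : IrrCharacter P}
    (h : ∀ g, tw p M P e (α' : P → ℂ) (ν₁ : G → ℂ) (τ g) = tw p M P e (α : P → ℂ) (ν₁ : G → ℂ) g) :
    (α' : P → ℂ) ⟨τ w₀, hτP _ w₀.2⟩ = (α : P → ℂ) w₀ := by
  classical
  have he := hmax.1.1
  have hν₁c : IsClassFunction G (ν₁ : G → ℂ) :=
    isClassFunction_of_isCharacter (IsIrrCharacter.isCharacter ν₁.2)
  have hαc : IsClassFunction P (α : P → ℂ) :=
    isClassFunction_of_isCharacter (IsIrrCharacter.isCharacter α.2)
  have hαc' : IsClassFunction P (α' : P → ℂ) :=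
    isClassFunction_of_isCharacter (IsIrrCharacter.isCharacter α'.2)
  set w₁ : P := ⟨τ w₀, hτP _ w₀.2⟩ with hw₁
  have hgen1 : Subgroup.zpowers (w₁ : G) = P := by
    have h1 : Subgroup.zpowers (w₁ : G) ≤ P := Subgroup.zpowers_le.2 w₁.2
    refine Subgroup.eq_of_le_of_card_ge h1 ?_
    rw [Nat.card_zpowers]
    have h2 : orderOf (w₁ : G) = orderOf (w₀ : G) := MulEquiv.orderOf_eq τ _
    rw [h2, ← Nat.card_zpowers, hw₀]
  set E : MonoidAlgebra (localSubring M) G := eB 𝐂[P] ⟨e, he.2⟩ with hEdef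
  have hE0 : eI (idxP hM he w₀) = E := eI_idxP_of_gen hM he w₀ hw₀
  have hE1 : eI (idxP hM he w₁) = E := eI_idxP_of_gen hM he w₁ hgen1
  have hcE : ∀ k, coeF E (τ k) = coeF E k := by
    intro k
    rw [hEdef, coeF_eB]
    exact hE k
  obtain ⟨s, hs, hne⟩ := exists_chiT_ne hM hmax hnil hν₁ h0 w₀
  rw [hE0] at hne
  have hτs : τ (s : G) ∈ 𝐂[Subgroup.zpowers (w₁ : G)] := by
    rw [Cfsg.Agent.Lib.BlockSecond.centralizer_zpowers_eq, Subgroup.mem_centralizer_singleton_iff]
    have h1 : (s : G) ∈ Subgroup.centralizer ({(w₀ : G)} : Set G) := by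
      rw [← Cfsg.Agent.Lib.BlockSecond.centralizer_zpowers_eq]
      exact s.2
    rw [Subgroup.mem_centralizer_singleton_iff] at h1
    show τ s * τ (w₀ : G) = τ (w₀ : G) * τ s
    rw [← map_mul, ← map_mul, h1]
  set s₁ : 𝐂[Subgroup.zpowers (w₁ : G)] := ⟨τ (s : G), hτs⟩ with hs₁
  have hs₁r : ¬ p ∣ orderOf s₁ := by
    rw [hs₁, Subgroup.orderOf_mk, MulEquiv.orderOf_eq τ]
    rwa [Subgroup.orderOf_coe]
  have hv : (w₁ : G) * (s₁ : G) = τ ((w₀ : G) * s) := by
    rw [map_mul]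
  have h1 := chiT_tw hM hmax hnil hαc hν₁c w₀ s hs
  have h2 := chiT_tw hM hmax hnil hαc' hν₁c w₁ s₁ hs₁r
  rw [hE0] at h1
  rw [hE1, hv] at h2
  have h3 := chiT_aut τ hcE (tw p M P e (α : P → ℂ) (ν₁ : G → ℂ)) ((w₀ : G) * s)
  have h4 := chiT_aut τ hcE (ν₁ : G → ℂ) ((w₀ : G) * s)
  have h5 : (fun g => tw p M P e (α : P → ℂ) (ν₁ : G → ℂ) (τ.symm g)) = tw p M P e (α' : P → ℂ) (ν₁ : G → ℂ) := by
    funext g
    rw [← h (τ.symm g), MulEquiv.apply_symm_apply]
  have h6 : (fun g => (ν₁ : G → ℂ) (τ.symm g)) = (ν₁ : G → ℂ) := by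
    funext g
    rw [← hfix (τ.symm g), MulEquiv.apply_symm_apply]
  rw [h5] at h3
  rw [h6] at h4
  rw [h2, h4, h1] at h3
  exact mul_right_cancel₀ hne h3

end Aut

section Label

variable {P : Subgroup G} {e : Set (IrrCharacter (Subgroup.centralizer (P : Set G)))}
  {B : Set (IrrCharacter G)}

/-- The labelling of the block by the characters of the defect group. -/
theorem tw_injective (hM : IsPModular p M) (hmax : IsMaximalBrauerPair p M B P e)
    (hnil : IsNilpotentBlock p M B) {χ₀ : IrrCharacter G} (hχ₀ : χ₀ ∈ B)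
    (h0 : (charDegree (χ₀ : G → ℂ)).factorization p = minExp p B)
    {α α' : IrrCharacter P} (h : tw p M P e (α : P → ℂ) (χ₀ : G → ℂ) = tw p M P e (α' : P → ℂ) (χ₀ : G → ℂ)) : α = α' := by
  by_contra hne
  have hαc : IsClassFunction P (α : P → ℂ) :=
    isClassFunction_of_isCharacter (IsIrrCharacter.isCharacter α.2)
  have hαc' : IsClassFunction P (α' : P → ℂ) :=
    isClassFunction_of_isCharacter (IsIrrCharacter.isCharacter α'.2)
  have h2 := inner_tw_eq hM hmax hnil hχ₀ h0 hαc hαc'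
  rw [classInner_irr_ne α.2 α'.2 (fun h3 => hne (Subtype.ext h3)), ← h,
    classInner_irr_self (isIrr_tw hM hmax hnil hχ₀ h0 α)] at h2
  exact one_ne_zero h2

end Label

end Cfsg.Agent.Lib.DcNil
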