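import Mathlib
import Cfsg.Agent.Lib.DcData
import Cfsg.Agent.Lib.DcNil
import Cfsg.Agent.Lib.DcInd
import Cfsg.Agent.Lib.DcFrob

/-!
# The labelling of the local block by the characters of the defect group
-/

set_option autoImplicit false
set_option linter.unusedSectionVars false
set_option linter.unusedVariables false
set_option linter.unusedSimpArgs false
set_option linter.style.haveILetI false

namespace Cfsg.Agent.Lib.DcLabel

open Cfsg Subgroup
open Cfsg.Agent.Lib.CharBasic Cfsg.Agent.Lib.CharInd Cfsg.Agent.Lib.BrauerPair Cfsg.Agent.Lib.DcL Cfsg.Agent.Lib.DcGram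
open Cfsg.Agent.Lib.BlockLocal Cfsg.Agent.Lib.BrauerConj Cfsg.Agent.Lib.BrauerIn Cfsg.Agent.Lib.BrauerStab
open Cfsg.Agent.Lib.DcData Cfsg.Agent.Lib.StarNil Cfsg.Agent.Lib.DcNil Cfsg.Agent.Lib.BlockQ
open Cfsg.Agent.Lib.BrauerMax Cfsg.Agent.Lib.BrauerIdx
open scoped ComplexConjugate

universe u

attribute [local instance] Cfsg.Agent.Lib.DcGrp.fintypeSubDc Cfsg.Agent.Lib.DcGrp.fintypeQuotDc

variable {G : Type u} [Group G] [Fintype G] [DecidableEq G]

local notation "𝐂[" R "]" => Subgroup.centralizer ((R : Subgroup G) : Set G)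
local notation "𝐍[" R "]" => Subgroup.normalizer ((R : Subgroup G) : Set G)

variable {p : ℕ} [hpF : Fact p.Prime] {M : Ideal AlgInt}

/-- Abelian groups: two irreducible characters agreeing on a generator agree. -/
theorem irr_eq_of_gen {A : Type u} [Group A] [Fintype A] (hc : ∀ a b : A, a * b = b * a) {w : A}
    (hw : ∀ y : A, y ∈ Subgroup.zpowers w) {l l' : IrrCharacter A} (h : (l : A → ℂ) w = (l' : A → ℂ) w) : l = l' := by
  obtain ⟨f, hf⟩ := Cfsg.Agent.Lib.BSWAb.exists_hom hc l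
  obtain ⟨f', hf'⟩ := Cfsg.Agent.Lib.BSWAb.exists_hom hc l'
  have h1 : f w = f' w := by
    rw [hf, hf'] at h
    exact Units.ext h
  apply Subtype.ext
  funext y
  obtain ⟨k, rfl⟩ := Subgroup.mem_zpowers_iff.1 (hw y)
  rw [hf, hf', map_zpow, map_zpow, h1]

/-- **The labelling.** -/
theorem exists_label (hM : IsPModular p M) {D : Subgroup G} {b : Set (IrrCharacter 𝐂[D])} {T : Subgroup G}
    {B : Set (IrrCharacter G)} {a e : ℕ} (d : DadeD p M D b T B a e) (hD : IsCyclic D) (hDa : Nat.card D = p ^ a)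
    (hT : ∀ g : G, g ∈ T ↔ (g ∈ 𝐍[D] ∧ StabilizesBlock 𝐂[D] b g)) (hb : IsPBlock M b) :
    ∃ L : IrrCharacter D → IrrCharacter 𝐂[Subgroup.zpowers d.u], (∀ α, L α ∈ d.f) ∧ Function.Injective L ∧
      (∀ ν ∈ d.f, ∃ α, L α = ν) ∧ L Cfsg.Agent.Lib.BSWAb.triv = d.ν₁ ∧
      (∀ t ∈ T, ∀ α, L (actN D t α) = actN 𝐂[Subgroup.zpowers d.u] t (L α)) ∧
      ∀ (y : D) (v : 𝐂[Subgroup.zpowers d.u]),
        MemLocalRing M ((∑ α : IrrCharacter D, (α : D → ℂ) y * (L α : 𝐂[Subgroup.zpowers d.u] → ℂ) v) / (p : ℂ) ^ a) ∧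
        MemLocalRing M ((∑ α : IrrCharacter D, (α : D → ℂ) y * (L α : 𝐂[Subgroup.zpowers d.u] → ℂ) v) /
          (Nat.card (Subgroup.centralizer ({v} : Set 𝐂[Subgroup.zpowers d.u])) : ℂ)) := by
  classical
  haveI hMp := isPrime_of_isPModular hM
  set H := 𝐂[Subgroup.zpowers d.u] with hH
  set Ph : Subgroup H := D.subgroupOf H with hPh
  have hQP : Subgroup.zpowers d.u ≤ D := Subgroup.zpowers_le.2 d.huD
  set m := cenMatch_in hQP d.hPC with hm
  set eh : Set (IrrCharacter (Subgroup.centralizer (Ph : Set H))) := twistSetE m.iso.symm b with heh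
  have hmax : IsMaximalBrauerPair p M d.f Ph eh := d.hmax
  let j : Ph ≃* D := Subgroup.subgroupOfEquivOfLe d.hPC
  have hj : ∀ y : Ph, ((j y : D) : G) = ((y : H) : G) := fun y => rfl
  have hab : ∀ x ∈ Ph, ∀ y ∈ Ph, x * y = y * x := by
    intro x hx y hy
    haveI := hD
    have h1 := (IsCyclic.commGroup (α := D)).mul_comm ⟨x, hx⟩ ⟨y, hy⟩
    exact Subtype.ext (congrArg (fun z : D => (z : G)) h1)
  have hcP : ∀ x y : Ph, x * y = y * x := fun x y => Subtype.ext (hab x x.2 y y.2)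
  have hcD : ∀ x y : D, x * y = y * x := fun x y => by
    have h1 := hcP (j.symm x) (j.symm y)
    have h2 := congrArg j h1
    simpa using h2
  let hat : IrrCharacter D → IrrCharacter Ph := twistE j.symm
  have hhat : ∀ (α : IrrCharacter D) (y : Ph), (hat α : Ph → ℂ) y = (α : D → ℂ) (j y) := fun α y => rfl
  let L : IrrCharacter D → IrrCharacter H := fun α =>
    ⟨tw p M Ph eh (hat α : Ph → ℂ) (d.ν₁ : H → ℂ), isIrr_tw hM hmax d.hnil d.hν₁ d.h0 (hat α)⟩
  have hLv : ∀ α v, (L α : H → ℂ) v = tw p M Ph eh (hat α : Ph → ℂ) (d.ν₁ : H → ℂ) v := fun α v => rfl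
  have hLmem : ∀ α, L α ∈ d.f := fun α => tw_mem hM hmax d.hnil d.hν₁ d.h0 (hat α)
  have hLinj : Function.Injective L := by
    intro α α' h
    have h1 : tw p M Ph eh (hat α : Ph → ℂ) (d.ν₁ : H → ℂ) = tw p M Ph eh (hat α' : Ph → ℂ) (d.ν₁ : H → ℂ) :=
      congrArg Subtype.val h
    have h2 := tw_injective hM hmax d.hnil d.hν₁ d.h0 h1
    exact twistE_injective _ h2
  have hLsurj : ∀ ν ∈ d.f, ∃ α, L α = ν := by
    intro ν hν
    obtain ⟨α, hα⟩ := exists_tw_eq hM hmax d.hnil d.hν₁ d.h0 hν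
    refine ⟨twistE j α, Subtype.ext ?_⟩
    show tw p M Ph eh (hat (twistE j α) : Ph → ℂ) (d.ν₁ : H → ℂ) = _
    have h1 : hat (twistE j α) = α := twistE_twistE_symm j α
    rw [h1, hα]
  have hLtriv : L Cfsg.Agent.Lib.BSWAb.triv = d.ν₁ := by
    apply Subtype.ext
    exact tw_one hM hmax d.hnil d.hν₁
  refine ⟨L, hLmem, hLinj, hLsurj, hLtriv, ?_, ?_⟩
  · -- equivariance
    intro t ht α
    have htD : t ∈ 𝐍[D] := ((hT t).1 ht).1
    have htS := ((hT t).1 ht).2
    have htH : t ∈ normalizer (H : Set G) := d.hTN ht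
    obtain ⟨α', hα'⟩ := hLsurj _ (d.hfT t ht _ (hLmem α))
    rw [← hα']
    congr 1
    symm
    set τ : H ≃* H := conjAut H t htH with hτ
    have hτv : ∀ k : H, ((τ k : H) : G) = t * k * t⁻¹ := fun k => rfl
    have hτP : ∀ y ∈ Ph, τ y ∈ Ph := by
      intro y hy
      rw [Subgroup.mem_subgroupOf] at hy ⊢
      rw [hτv]
      exact (Subgroup.mem_normalizer_iff.1 htD _).1 hy
    -- a generator
    haveI hcyc : IsCyclic Ph := isCyclic_of_injective j.toMonoidHom j.injective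
    obtain ⟨w₀, hw₀⟩ := IsCyclic.exists_generator (α := Ph)
    have hgen : Subgroup.zpowers (w₀ : H) = Ph := by
      apply le_antisymm
      · exact Subgroup.zpowers_le.2 w₀.2
      · intro y hy
        obtain ⟨k, hk⟩ := Subgroup.mem_zpowers_iff.1 (hw₀ ⟨y, hy⟩)
        refine Subgroup.mem_zpowers_iff.2 ⟨k, ?_⟩
        have := congrArg Subtype.val hk
        simpa using this
    have hfix : ∀ g : H, (d.ν₁ : H → ℂ) (τ g) = (d.ν₁ : H → ℂ) g := by
      intro g
      have h1 := congrFun (congrArg Subtype.val (d.hfix t ht)) (τ g)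
      rw [actN_of_mem htH] at h1
      have h2 : (twist (conjAut H t htH) d.ν₁ : H → ℂ) (τ g) = (d.ν₁ : H → ℂ) ((conjAut H t htH).symm (τ g)) := rfl
      rw [h2, hτ, MulEquiv.symm_apply_apply] at h1
      exact h1.symm
    have hE : ∀ k : H, subgroupBlockCoeff (Subgroup.centralizer (Ph : Set H)) eh (τ k) =
        subgroupBlockCoeff (Subgroup.centralizer (Ph : Set H)) eh k := by
      intro k
      rw [heh, m.sbc_eq, m.sbc_eq, m.twistSetE_symm, hτv]
      have h1 := Cfsg.Agent.Lib.BrauerMax.sbc_twistSet 𝐂[D] b htS.1 (k : G)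
      rw [twistSet_eq_of_stabilizes hb htS] at h1
      exact h1
    have h := tw_aut hM hmax d.hnil τ hτP w₀ hgen d.hν₁ d.h0 hfix hE (α := hat α) (α' := hat α') (by
      intro g
      have h2 := congrFun (congrArg Subtype.val hα') (τ g)
      rw [actN_of_mem htH] at h2
      have h3 : (twist (conjAut H t htH) (L α) : H → ℂ) (τ g) = (L α : H → ℂ) ((conjAut H t htH).symm (τ g)) := rfl
      rw [h3, hτ, MulEquiv.symm_apply_apply] at h2
      exact h2)
    -- passing to `D`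
    rw [hhat, hhat] at h
    set σ : D ≃* D := conjAut D t htD with hσ
    have hσv : ∀ y : D, ((σ y : D) : G) = t * y * t⁻¹ := fun y => rfl
    have h4 : j ⟨τ (w₀ : H), hτP _ w₀.2⟩ = σ (j w₀) := by
      apply Subtype.ext
      rfl
    rw [h4] at h
    have hgenD : ∀ y : D, y ∈ Subgroup.zpowers (σ (j w₀)) := by
      intro y
      obtain ⟨k, hk⟩ := Subgroup.mem_zpowers_iff.1 (hw₀ (j.symm (σ.symm y)))
      refine Subgroup.mem_zpowers_iff.2 ⟨k, ?_⟩
      have h5 := congrArg (fun z => σ (j z)) hk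
      simpa using h5
    apply irr_eq_of_gen hcD hgenD
    rw [h, actN_of_mem htD]
    have h6 : (twist (conjAut D t htD) α : D → ℂ) (σ (j w₀)) = (α : D → ℂ) ((conjAut D t htD).symm (σ (j w₀))) := rfl
    rw [h6, hσ, MulEquiv.symm_apply_apply]
  · -- locality
    intro y v
    set w : Ph := (j.symm y)⁻¹ with hw
    have hlocal := sum_tw_local hM hmax d.hnil hab d.ν₁ w v
    have hsum : ∑ α : IrrCharacter D, (α : D → ℂ) y * (L α : H → ℂ) v =
        ∑ α : IrrCharacter Ph, conj ((α : Ph → ℂ) w) * tw p M Ph eh (α : Ph → ℂ) (d.ν₁ : H → ℂ) v := by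
      refine Fintype.sum_bijective hat ?_ _ _ fun α => ?_
      · refine ⟨twistE_injective _, fun α => ⟨twistE j α, twistE_twistE_symm j α⟩⟩
      · rw [hLv]
        congr 1
        rw [char_conj_eq_inv (IsIrrCharacter.isCharacter (hat α).2), hw, inv_inv, hhat]
        simp
    have hPcard : (Nat.card Ph : ℂ) = (p : ℂ) ^ a := by
      have h1 : Nat.card Ph = Nat.card D := Nat.card_congr j.toEquiv
      rw [h1, hDa]
      push_cast
      rfl
    rw [hsum, ← hPcard]
    exact hlocal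

end Cfsg.Agent.Lib.DcLabel
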