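import Mathlib
import Cfsg.Agent.Lib.DcLabel
import Cfsg.Agent.Lib.KlPerf

/-!
# Dade's perfect isometry with a group having a self-centralizing cyclic `p`-subgroup
-/

set_option autoImplicit false
set_option linter.unusedSectionVars false
set_option linter.unusedVariables false
set_option linter.unusedSimpArgs false
set_option linter.style.haveILetI false

namespace Cfsg.Agent.Lib.DcPerf

open Cfsg Subgroup
open Cfsg.Agent.Lib.CharBasic Cfsg.Agent.Lib.CharInd Cfsg.Agent.Lib.BrauerPair Cfsg.Agent.Lib.DcL Cfsg.Agent.Lib.DcGram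
open Cfsg.Agent.Lib.BlockLocal Cfsg.Agent.Lib.BrauerConj Cfsg.Agent.Lib.BrauerIn Cfsg.Agent.Lib.BrauerStab
open Cfsg.Agent.Lib.DcData Cfsg.Agent.Lib.DcFrob Cfsg.Agent.Lib.BlockQ Cfsg.Agent.Lib.KlPerf
open Cfsg.Agent.Lib.DcFrob.FD (triv)
open scoped ComplexConjugate

universe u v

attribute [local instance] Cfsg.Agent.Lib.DcGrp.fintypeSubDc Cfsg.Agent.Lib.DcGrp.fintypeQuotDc

variable {G : Type u} [Group G] [Fintype G] [DecidableEq G] {F : Type v} [Group F] [Fintype F] [DecidableEq F]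

local notation "𝐂[" R "]" => Subgroup.centralizer ((R : Subgroup G) : Set G)
local notation "𝐍[" R "]" => Subgroup.normalizer ((R : Subgroup G) : Set G)

variable {p a e : ℕ} [hpF : Fact p.Prime] {M : Ideal AlgInt} {Q : Subgroup F}

variable {D : Subgroup G}

variable {b : Set (IrrCharacter (Subgroup.centralizer (D : Set G)))}

variable {T : Subgroup G} {B : Set (IrrCharacter G)}

/-- The generalized characters of Dade's theorem. -/
noncomputable def Ej (d : DadeD p M D b T B a e) (j : d.Rf) : G → ℂ :=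
  indFun 𝐂[zpowers d.u] (((j : IrrCharacter 𝐂[zpowers d.u]) : 𝐂[zpowers d.u] → ℂ) - (d.ν₁ : 𝐂[zpowers d.u] → ℂ))

set_option maxHeartbeats 2000000 in
/-- **The perfect isometry**, given the locality of the singular part. -/
theorem perf_core (hM : IsPModular p M) (d : DadeD p M D b T B a e) (hd : FD p a e Q)
    (κ : d.Rf → IrrCharacter Q) (hκ1 : ∀ j, κ j ≠ triv Q)
    (hκ2 : ∀ j k (g : F), κ j = actN Q g (κ k) → j = k)
    (hκ3 : ∀ l : IrrCharacter Q, l ≠ triv Q → ∃ j, ∃ g : F, l = actN Q g (κ j))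
    (hloc : ∀ (x : G) (y : F), y ∈ Q → y ≠ 1 →
      MemLocalRing M ((∑ j, Ej d j x * (hd.xiI (hκ1 j) : F → ℂ) y) / (p : ℂ) ^ a) ∧
      MemLocalRing M ((∑ j, Ej d j x * (hd.xiI (hκ1 j) : F → ℂ) y) /
        (Nat.card (Subgroup.centralizer ({x} : Set G)) : ℂ))) :
    ∃ (I : IrrCharacter F → IrrCharacter G) (ε : IrrCharacter F → ℤ),
      IsPerfectIsometry p M Set.univ B I ε ∧
      ∀ η η' : IrrCharacter F, (∃ x ∈ Q, (η : F → ℂ) x ≠ (η : F → ℂ) 1) →
        (∃ x ∈ Q, (η' : F → ℂ) x ≠ (η' : F → ℂ) 1) → ε η = ε η' := by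
  classical
  haveI hMp := isPrime_of_isPModular hM
  have hp := hpF.out
  have hq' : Fintype.card d.Rf * e + 1 = p ^ a := by
    rw [Fintype.card_coe]
    exact d.hq
  have hqc : ((Fintype.card d.Rf : ℂ)) * (e : ℂ) + 1 = (p : ℂ) ^ a := by exact_mod_cast hq'
  have hq0 : (p : ℂ) ^ a ≠ 0 := pow_ne_zero _ (by exact_mod_cast hp.ne_zero)
  obtain ⟨XF, hXc, hXv, hXnot, hinj, hsplit, hzero, hminus, hcov⟩ := hd.frob_main κ hκ1 hκ2 hκ3 hq'
  set ξ : d.Rf → IrrCharacter F := fun j => hd.xiI (hκ1 j) with hξ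
  have hXc' : XF.card = d.X₀.card := by rw [hXc, d.hX₀]
  let eX : XF ≃ d.X₀ := Finset.equivOfCardEq hXc'
  let js : ∀ η, η ∉ XF → d.Rf := fun η h => (hcov η h).choose
  have hjs : ∀ η (h : η ∉ XF), ξ (js η h) = η := fun η h => (hcov η h).choose_spec
  let I : IrrCharacter F → IrrCharacter G := fun η => if h : η ∈ XF then (eX ⟨η, h⟩ : IrrCharacter G) else d.c (js η h)
  let ε : IrrCharacter F → ℤ := fun η => if η ∈ XF then d.δ (I η) else -d.δ₀
  have hIX : ∀ η (h : η ∈ XF), I η = eX ⟨η, h⟩ := fun η h => dif_pos h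
  have hIn : ∀ η (h : η ∉ XF), I η = d.c (js η h) := fun η h => dif_neg h
  have hIξ : ∀ j, I (ξ j) = d.c j := by
    intro j
    have h0 : ξ j ∉ XF := hXnot j
    rw [hIn _ h0]
    congr 1
    exact hinj (hjs _ h0)
  have hεX : ∀ η ∈ XF, ε η = d.δ (I η) := fun η h => if_pos h
  have hεn : ∀ η, η ∉ XF → ε η = -d.δ₀ := fun η h => if_neg h
  have hI : Set.BijOn I Set.univ B := by
    refine ⟨?_, ?_, ?_⟩
    · intro η _
      show I η ∈ B
      rw [d.hBeq]
      by_cases h : η ∈ XF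
      · left
        rw [hIX η h]
        exact (eX ⟨η, h⟩).2
      · right
        rw [hIn η h]
        exact ⟨_, rfl⟩
    · intro η _ η' _ hh
      by_cases h : η ∈ XF <;> by_cases h' : η' ∈ XF
      · rw [hIX η h, hIX η' h'] at hh
        have h1 := eX.injective (Subtype.ext hh)
        exact congrArg Subtype.val h1
      · rw [hIX η h, hIn η' h'] at hh
        exact absurd ((hh ▸ (eX ⟨η, h⟩).2 : d.c (js η' h') ∈ d.X₀)) (d.hcX _)
      · rw [hIn η h, hIX η' h'] at hh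
        exact absurd ((hh.symm ▸ (eX ⟨η', h'⟩).2 : d.c (js η h) ∈ d.X₀)) (d.hcX _)
      · rw [hIn η h, hIn η' h'] at hh
        have h1 := d.hcinj hh
        rw [← hjs η h, ← hjs η' h', h1]
    · intro χ hχ
      rw [d.hBeq] at hχ
      rcases hχ with hχ | ⟨j, rfl⟩
      · refine ⟨(eX.symm ⟨χ, hχ⟩ : IrrCharacter F), trivial, ?_⟩
        rw [hIX _ (eX.symm ⟨χ, hχ⟩).2]
        simp
      · exact ⟨ξ j, trivial, hIξ j⟩
  have hIXmem : ∀ η ∈ XF, I η ∈ d.X₀ := by
    intro η h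
    rw [hIX η h]
    exact (eX ⟨η, h⟩).2
  have hsumX : ∀ f : IrrCharacter G → ℂ, ∑ η ∈ XF, f (I η) = ∑ χ ∈ d.X₀, f χ := by
    intro f
    rw [← Finset.sum_coe_sort XF, ← Finset.sum_coe_sort d.X₀, ← Equiv.sum_comp eX]
    refine Finset.sum_congr rfl fun η _ => ?_
    rw [hIX η.1 η.2]
  have hbF : bF (Set.univ : Set (IrrCharacter F)) = Finset.univ := by
    ext η
    simp
  set A : G → ℂ := fun x => ∑ χ ∈ d.X₀, (d.δ χ : ℂ) * (χ : G → ℂ) x with hA
  set A₀ : G → ℂ := fun x => ((p : ℂ) ^ a)⁻¹ * ∑ j, Ej d j x with hA₀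
  have hE : ∀ (j : d.Rf) x, (d.δ₀ : ℂ) * (d.c j : G → ℂ) x = Ej d j x - A x := by
    intro j x
    have h1 := d.hE j x
    show _ = indFun 𝐂[zpowers d.u] _ x - _
    rw [h1]
    ring
  have hsq : ∀ χ ∈ d.X₀, (d.δ χ : ℂ) * (d.δ χ : ℂ) = 1 := by
    intro χ hχ
    rcases d.hδ χ hχ with h | h <;> simp [h]
  have hsing : ∀ χ ∈ d.X₀, ∀ x : G, p ∣ orderOf x → (d.δ χ : ℂ) * (χ : G → ℂ) x = A₀ x := by
    intro χ hχ x hx
    rw [d.hsing χ hχ x hx]
    have h1 := hsq χ hχ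
    show _ = ((p : ℂ) ^ a)⁻¹ * ∑ j, indFun 𝐂[zpowers d.u] _ x
    field_simp
    linear_combination (∑ j : d.Rf, indFun 𝐂[zpowers d.u] (((j : IrrCharacter 𝐂[zpowers d.u]) : 𝐂[zpowers d.u] → ℂ) - (d.ν₁ : 𝐂[zpowers d.u] → ℂ)) x) * h1
  have hAs : ∀ x : G, p ∣ orderOf x → A x = (e : ℂ) * A₀ x := by
    intro x hx
    show ∑ χ ∈ d.X₀, (d.δ χ : ℂ) * (χ : G → ℂ) x = _
    rw [Finset.sum_congr rfl (fun χ hχ => hsing χ hχ x hx), Finset.sum_const, d.hX₀, nsmul_eq_mul]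
  -- the kernel
  have hμ : ∀ (x : G) (y : F), ∑ η ∈ bF (Set.univ : Set (IrrCharacter F)), (ε η : ℂ) * (I η : G → ℂ) x * (η : F → ℂ) y =
      ∑ η ∈ XF, (d.δ (I η) : ℂ) * (I η : G → ℂ) x * (η : F → ℂ) y - ∑ j, (d.δ₀ : ℂ) * (d.c j : G → ℂ) x * (ξ j : F → ℂ) y := by
    intro x y
    rw [hbF, hsplit, sub_eq_add_neg, ← Finset.sum_neg_distrib]
    congr 1
    · refine Finset.sum_congr rfl fun η hη => ?_
      rw [hεX η hη]
    · refine Finset.sum_congr rfl fun j _ => ?_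
      have h1 := hεn (hd.xiI (hκ1 j)) (hXnot j)
      have h2 := hIξ j
      have h3 : hd.xiI (hκ1 j) = ξ j := rfl
      rw [h1, h3, h2]
      push_cast
      ring
  have hμQ : ∀ (x : G) (y : F), y ∈ Q → ∑ η ∈ bF (Set.univ : Set (IrrCharacter F)), (ε η : ℂ) * (I η : G → ℂ) x * (η : F → ℂ) y =
      A x * (1 + ∑ j, (ξ j : F → ℂ) y) - ∑ j, Ej d j x * (ξ j : F → ℂ) y := by
    intro x y hy
    rw [hμ]
    have h1 : ∑ η ∈ XF, (d.δ (I η) : ℂ) * (I η : G → ℂ) x * (η : F → ℂ) y = A x := by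
      have h0 : ∀ η ∈ XF, (d.δ (I η) : ℂ) * (I η : G → ℂ) x * (η : F → ℂ) y = (d.δ (I η) : ℂ) * (I η : G → ℂ) x := by
        intro η hη
        rw [hXv η hη y hy, mul_one]
      rw [Finset.sum_congr rfl h0]
      exact hsumX (fun χ => (d.δ χ : ℂ) * (χ : G → ℂ) x)
    have h2 : ∑ j, (d.δ₀ : ℂ) * (d.c j : G → ℂ) x * (ξ j : F → ℂ) y =
        ∑ j, Ej d j x * (ξ j : F → ℂ) y - A x * ∑ j, (ξ j : F → ℂ) y := by
      rw [Finset.mul_sum, ← Finset.sum_sub_distrib]
      refine Finset.sum_congr rfl fun j _ => ?_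
      rw [hE]
      ring
    rw [h1, h2]
    ring
  refine ⟨I, ε, ?_, ?_⟩
  · refine isPerfectIsometry_of_index hM hI ?_ ?_ ?_ ?_ ?_
    · intro η _
      by_cases h : η ∈ XF
      · rw [hεX η h]
        exact d.hδ _ (hIXmem η h)
      · rw [hεn η h]
        rcases d.hδ₀ with h' | h' <;> simp [h']
    · intro x y hx hy
      by_cases hyQ : y ∈ Q
      · have hy1 : y = 1 := by
          by_contra hne
          exact hy ((hd.sing_iff y).2 ⟨hyQ, hne⟩)
        subst hy1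
        rw [hμQ x 1 Q.one_mem]
        have h1 : ∀ j, (ξ j : F → ℂ) 1 = (e : ℂ) := fun j => hd.xi_one (κ j)
        simp only [h1, Finset.sum_const, Finset.card_univ, nsmul_eq_mul]
        rw [hAs x hx]
        have h2 : (1 + (Fintype.card d.Rf : ℂ) * (e : ℂ)) = (p : ℂ) ^ a := by rw [← hqc]; ring
        rw [h2, ← Finset.sum_mul]
        show (e : ℂ) * (((p : ℂ) ^ a)⁻¹ * ∑ j, Ej d j x) * (p : ℂ) ^ a - _ = 0
        field_simp
        ring
      · rw [hμ]
        have h1 : ∀ j, (ξ j : F → ℂ) y = 0 := fun j => hd.xi_of_not_mem (κ j) hyQ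
        simp only [h1, mul_zero, Finset.sum_const_zero, sub_zero]
        have h2 : ∀ η ∈ XF, (d.δ (I η) : ℂ) * (I η : G → ℂ) x * (η : F → ℂ) y = A₀ x * (η : F → ℂ) y := by
          intro η hη
          rw [hsing _ (hIXmem η hη) x hx]
        rw [Finset.sum_congr rfl h2, ← Finset.mul_sum, hzero y hyQ, mul_zero]
    · intro x y hx hy
      obtain ⟨hyQ, hy1⟩ := (hd.sing_iff y).1 hy
      rw [hμQ x y hyQ]
      have h1 := hminus y hyQ hy1
      have h2 : ∀ j, Ej d j x = 0 := fun j => d.hreg j x hx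
      simp only [h2, zero_mul, Finset.sum_const_zero, sub_zero]
      have h3 : ∑ j, (ξ j : F → ℂ) y = -1 := h1
      rw [h3]
      ring
    · intro x y hx hy
      obtain ⟨hyQ, hy1⟩ := (hd.sing_iff y).1 hy
      rw [hμQ x y hyQ]
      have h3 : ∑ j, (ξ j : F → ℂ) y = -1 := hminus y hyQ hy1
      rw [h3]
      have h4 := (hloc x y hyQ hy1).2
      have h5 : (A x * (1 + -1) - ∑ j, Ej d j x * (ξ j : F → ℂ) y) / (Nat.card (Subgroup.centralizer ({x} : Set G)) : ℂ) =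
          -((∑ j, Ej d j x * (ξ j : F → ℂ) y) / (Nat.card (Subgroup.centralizer ({x} : Set G)) : ℂ)) := by
        ring
      rw [h5]
      exact memLocalRing_neg h4
    · intro x y hx hy
      obtain ⟨hyQ, hy1⟩ := (hd.sing_iff y).1 hy
      rw [hμQ x y hyQ]
      have h3 : ∑ j, (ξ j : F → ℂ) y = -1 := hminus y hyQ hy1
      rw [h3]
      have h4 := (hloc x y hyQ hy1).1
      have h6 : (Nat.card (Subgroup.centralizer ({y} : Set F)) : ℂ) = (p : ℂ) ^ a := by
        rw [hd.card_cent hyQ hy1]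
        push_cast
        rfl
      rw [h6]
      have h5 : (A x * (1 + -1) - ∑ j, Ej d j x * (ξ j : F → ℂ) y) / (p : ℂ) ^ a =
          -((∑ j, Ej d j x * (ξ j : F → ℂ) y) / (p : ℂ) ^ a) := by
        ring
      rw [h5]
      exact memLocalRing_neg h4
  · intro η η' ⟨x, hx, hxn⟩ ⟨x', hx', hxn'⟩
    have hne : ∀ (η : IrrCharacter F) (x : F), x ∈ Q → (η : F → ℂ) x ≠ (η : F → ℂ) 1 → η ∉ XF := by
      intro η x hx hn hη
      exact hn (by rw [hXv η hη x hx, hXv η hη 1 Q.one_mem])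
    rw [hεn η (hne η x hx hxn), hεn η' (hne η' x' hx' hxn')]

section TwU

universe u₁ u₂

variable {H₁ : Type u₁} {H₂ : Type u₂} [Group H₁] [Group H₂]

/-- Transport of an irreducible character along an isomorphism (of groups possibly in different universes). -/
noncomputable def twU (σ : H₁ ≃* H₂) (χ : IrrCharacter H₁) : IrrCharacter H₂ :=
  ⟨(χ : H₁ → ℂ) ∘ σ.symm.toMonoidHom,
    isIrrCharacter_comp_of_surjective _ σ.symm.surjective χ.2⟩

@[simp] theorem twU_apply (σ : H₁ ≃* H₂) (χ : IrrCharacter H₁) (x : H₂) :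
    (twU σ χ : H₂ → ℂ) x = (χ : H₁ → ℂ) (σ.symm x) := rfl

theorem twU_injective (σ : H₁ ≃* H₂) : Function.Injective (twU σ) := by
  intro χ ψ h
  apply Subtype.ext
  funext x
  have := congrFun (congrArg Subtype.val h) (σ x)
  simpa using this

theorem twU_symm_twU (σ : H₁ ≃* H₂) (χ : IrrCharacter H₂) : twU σ (twU σ.symm χ) = χ := by
  apply Subtype.ext
  funext x
  simp

theorem twU_twU_symm (σ : H₁ ≃* H₂) (χ : IrrCharacter H₁) : twU σ.symm (twU σ χ) = χ := by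
  apply Subtype.ext
  funext x
  simp

end TwU

/-- Transport of characters along matched automorphisms. -/
theorem twU_actN (β : D ≃* Q) {t : G} {g : F} (ht : t ∈ 𝐍[D]) (hg : g ∈ normalizer (Q : Set F))
    (hm : ∀ y : D, β (conjAut D t ht y) = conjAut Q g hg (β y)) (α : IrrCharacter D) :
    twU β (actN D t α) = actN Q g (twU β α) := by
  rw [actN_of_mem ht, actN_of_mem hg]
  apply Subtype.ext
  funext z
  rw [twU_apply, twist_apply, twist_apply, twU_apply]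
  have h1 : (conjAut D t ht).symm (β.symm z) = β.symm ((conjAut Q g hg).symm z) := by
    apply (conjAut D t ht).injective
    rw [MulEquiv.apply_symm_apply]
    apply β.injective
    rw [hm, MulEquiv.apply_symm_apply, MulEquiv.apply_symm_apply, MulEquiv.apply_symm_apply]
  exact congrArg _ h1

set_option maxHeartbeats 2000000 in
/-- **The perfect isometry**, given the matching of the two inertial actions. -/
theorem main_core (hM : IsPModular p M) (d : DadeD p M D b T B a e) (hd : FD p a e Q) (hDc : IsCyclic D)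
    (hDa : Nat.card D = p ^ a) (hT : ∀ g : G, g ∈ T ↔ (g ∈ 𝐍[D] ∧ StabilizesBlock 𝐂[D] b g))
    (hb : IsPBlock M b) (β : D ≃* Q)
    (hm1 : ∀ t (ht : t ∈ T), ∃ g : F, ∀ y : D,
      β (conjAut D t ((hT t).1 ht).1 y) = conjAut Q g (hd.mem_norm g) (β y))
    (hm2 : ∀ g : F, ∃ t, ∃ ht : t ∈ T, ∀ y : D,
      β (conjAut D t ((hT t).1 ht).1 y) = conjAut Q g (hd.mem_norm g) (β y)) :
    ∃ (I : IrrCharacter F → IrrCharacter G) (ε : IrrCharacter F → ℤ),
      IsPerfectIsometry p M Set.univ B I ε ∧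
      ∀ η η' : IrrCharacter F, (∃ x ∈ Q, (η : F → ℂ) x ≠ (η : F → ℂ) 1) →
        (∃ x ∈ Q, (η' : F → ℂ) x ≠ (η' : F → ℂ) 1) → ε η = ε η' := by
  classical
  haveI hMp := isPrime_of_isPModular hM
  have hp := hpF.out
  obtain ⟨L, hLf, hLinj, hLsurj, hLtriv, hLeq, hLloc⟩ := Cfsg.Agent.Lib.DcLabel.exists_label hM d hDc hDa hT hb
  have hcD : ∀ x y : D, x * y = y * x := by
    intro x y
    letI := IsCyclic.commGroup (α := D)
    exact mul_comm x y
  let αj : d.Rf → IrrCharacter D := fun j => (hLsurj j.1 (d.hR1 j.1 j.2).1).choose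
  have hαj : ∀ j : d.Rf, L (αj j) = j.1 := fun j => (hLsurj j.1 (d.hR1 j.1 j.2).1).choose_spec
  let κ : d.Rf → IrrCharacter Q := fun j => twU β (αj j)
  have htriv : twU β Cfsg.Agent.Lib.BSWAb.triv = triv Q := rfl
  have htriv' : twU β.symm (triv Q) = Cfsg.Agent.Lib.BSWAb.triv := rfl
  have hκ1 : ∀ j, κ j ≠ triv Q := by
    intro j h
    have h1 : αj j = Cfsg.Agent.Lib.BSWAb.triv := twU_injective β (h.trans htriv.symm)
    have h2 : j.1 = d.ν₁ := by rw [← hαj, h1, hLtriv]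
    exact (d.hR1 j.1 j.2).2 h2
  have hact : ∀ (t : G) (ht : t ∈ T) (g : F),
      (∀ y : D, β (conjAut D t ((hT t).1 ht).1 y) = conjAut Q g (hd.mem_norm g) (β y)) → ∀ α : IrrCharacter D,
      twU β (actN D t α) = actN Q g (twU β α) := fun t ht g hm α => twU_actN β _ _ hm α
  have hκ2 : ∀ j k (g : F), κ j = actN Q g (κ k) → j = k := by
    intro j k g h
    obtain ⟨t, ht, hm⟩ := hm2 g
    have h1 : twU β (αj j) = twU β (actN D t (αj k)) := by
      rw [hact t ht g hm]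
      exact h
    have h2 := twU_injective β h1
    have h3 : j.1 = actN 𝐂[zpowers d.u] t k.1 := by rw [← hαj j, h2, hLeq t ht, hαj k]
    exact Subtype.ext (d.hR2 j.1 j.2 k.1 k.2 t ht h3.symm)
  have hκ3 : ∀ l : IrrCharacter Q, l ≠ triv Q → ∃ j, ∃ g : F, l = actN Q g (κ j) := by
    intro l hl
    set α := twU β.symm l with hα
    have hαl : twU β α = l := twU_symm_twU β l
    have hαt : α ≠ Cfsg.Agent.Lib.BSWAb.triv := by
      intro h
      apply hl
      rw [← hαl, h]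
      rfl
    have hν : L α ≠ d.ν₁ := by
      intro h
      exact hαt (hLinj (h.trans hLtriv.symm))
    obtain ⟨r, hr, t, ht, htr⟩ := d.hR3 (L α) (hLf α) hν
    obtain ⟨g, hg⟩ := hm1 t ht
    refine ⟨⟨r, hr⟩, g, ?_⟩
    have h1 : L (actN D t (αj ⟨r, hr⟩)) = L α := by
      rw [hLeq t ht, hαj]
      exact htr
    have h2 := hLinj h1
    show l = actN Q g (twU β (αj ⟨r, hr⟩))
    rw [← hact t ht g hg, h2, hαl]
  refine perf_core hM d hd κ hκ1 hκ2 hκ3 ?_
  intro x y hy hy1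
  set y₀ : Q := ⟨y, hy⟩ with hy₀
  set y' : D := β.symm y₀ with hy'
  have hy'1 : y' ≠ 1 := by
    intro h
    apply hy1
    have h1 : y₀ = 1 := by
      have h2 := congrArg β h
      rwa [hy', MulEquiv.apply_symm_apply, map_one] at h2
    exact congrArg Subtype.val h1
  set Φ : 𝐂[zpowers d.u] → ℂ := fun v => ∑ α : IrrCharacter D, (α : D → ℂ) y' * (L α : 𝐂[zpowers d.u] → ℂ) v with hΦ
  have hΦc : IsClassFunction 𝐂[zpowers d.u] Φ := by
    intro g v
    show ∑ α : IrrCharacter D, (α : D → ℂ) y' * (L α : 𝐂[zpowers d.u] → ℂ) _ = ∑ α : IrrCharacter D, (α : D → ℂ) y' * (L α : 𝐂[zpowers d.u] → ℂ) _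
    refine Finset.sum_congr rfl fun α _ => ?_
    rw [isClassFunction_of_isCharacter (IsIrrCharacter.isCharacter (L α).2) g v]
  have hΦs : Φ = ∑ α : IrrCharacter D, ((α : D → ℂ) y') • (L α : 𝐂[zpowers d.u] → ℂ) := by
    funext v
    simp [hΦ, Finset.sum_apply]
  have hq0 : (p : ℂ) ^ a ≠ 0 := pow_ne_zero _ (by exact_mod_cast hp.ne_zero)
  have hEj : ∀ (j : d.Rf), Ej d j x = indFun 𝐂[zpowers d.u] (j.1 : 𝐂[zpowers d.u] → ℂ) x - indFun 𝐂[zpowers d.u] (d.ν₁ : 𝐂[zpowers d.u] → ℂ) x := by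
    intro j
    show indFun 𝐂[zpowers d.u] _ x = _
    rw [indFun_sub]
    rfl
  set W : IrrCharacter Q → ℂ := fun l => indFun 𝐂[zpowers d.u] (L (twU β.symm l) : 𝐂[zpowers d.u] → ℂ) x - indFun 𝐂[zpowers d.u] (d.ν₁ : 𝐂[zpowers d.u] → ℂ) x with hW
  have hWact : ∀ (j : d.Rf) (g : F), W (actN Q g (κ j)) = Ej d j x := by
    intro j g
    obtain ⟨t, ht, hm⟩ := hm2 g
    have h1 : actN Q g (κ j) = twU β (actN D t (αj j)) := (hact t ht g hm (αj j)).symm
    show indFun 𝐂[zpowers d.u] (L (twU β.symm (actN Q g (κ j))) : 𝐂[zpowers d.u] → ℂ) x - _ = _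
    rw [h1, twU_twU_symm, hLeq t ht, hαj, hEj, Cfsg.Agent.Lib.DcInd.indFun_actN (d.hTN ht)]
  have key : ∑ j, Ej d j x * (hd.xiI (hκ1 j) : F → ℂ) y = indFun 𝐂[zpowers d.u] Φ x := by
    have hQ0 : (Nat.card Q : ℂ) ≠ 0 := natCard_subgroup_ne_zero Q
    have h1 : ∀ j, Ej d j x * (hd.xiI (hκ1 j) : F → ℂ) y =
        (Nat.card Q : ℂ)⁻¹ * ∑ g : F, (fun l : IrrCharacter Q => W l * (l : Q → ℂ) y₀) (actN Q g (κ j)) := by
      intro j
      have h2 : (hd.xiI (hκ1 j) : F → ℂ) y = (Nat.card Q : ℂ)⁻¹ * ∑ g : F, (actN Q g (κ j) : Q → ℂ) y₀ :=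
        hd.xi_of_mem (κ j) y₀
      rw [h2, mul_left_comm, Finset.mul_sum]
      congr 1
      refine Finset.sum_congr rfl fun g _ => ?_
      show _ = W (actN Q g (κ j)) * _
      rw [hWact]
    rw [Finset.sum_congr rfl (fun j _ => h1 j), ← Finset.mul_sum,
      hd.sum_orbit κ hκ1 hκ2 hκ3 (fun l : IrrCharacter Q => W l * (l : Q → ℂ) y₀), ← mul_assoc,
      inv_mul_cancel₀ hQ0, one_mul]
    have h3 : W (triv Q) = 0 := by
      show indFun 𝐂[zpowers d.u] (L (twU β.symm (triv Q)) : 𝐂[zpowers d.u] → ℂ) x - _ = 0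
      rw [htriv', hLtriv, sub_self]
    have h4 : ∑ l ∈ Finset.univ.erase (triv Q), W l * (l : Q → ℂ) y₀ = ∑ l : IrrCharacter Q, W l * (l : Q → ℂ) y₀ := by
      apply Finset.sum_subset (Finset.erase_subset _ _)
      intro l _ hl
      have h5 : l = triv Q := by
        by_contra hne
        exact hl (Finset.mem_erase.2 ⟨hne, Finset.mem_univ _⟩)
      rw [h5, h3, zero_mul]
    rw [h4]
    let τ : IrrCharacter D ≃ IrrCharacter Q :=
      ⟨twU β, twU β.symm, twU_twU_symm β, twU_symm_twU β⟩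
    rw [← Equiv.sum_comp τ]
    have h6 : ∀ α : IrrCharacter D, W (τ α) * (τ α : Q → ℂ) y₀ =
        (α : D → ℂ) y' * indFun 𝐂[zpowers d.u] (L α : 𝐂[zpowers d.u] → ℂ) x - indFun 𝐂[zpowers d.u] (d.ν₁ : 𝐂[zpowers d.u] → ℂ) x * (α : D → ℂ) y' := by
      intro α
      show (indFun 𝐂[zpowers d.u] (L (twU β.symm (twU β α)) : 𝐂[zpowers d.u] → ℂ) x - _) * _ = _
      rw [twU_twU_symm]
      have h7 : ((twU β α : IrrCharacter Q) : Q → ℂ) y₀ = (α : D → ℂ) y' := rfl
      show _ * ((twU β α : IrrCharacter Q) : Q → ℂ) y₀ = _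
      rw [h7]
      ring
    rw [Finset.sum_congr rfl (fun α _ => h6 α), Finset.sum_sub_distrib, ← Finset.mul_sum,
      Cfsg.Agent.Lib.BSWAb.column_one hcD y', if_neg hy'1, mul_zero, sub_zero, hΦs, indFun_sum]
    rw [Finset.sum_apply]
    refine Finset.sum_congr rfl fun α _ => ?_
    rw [indFun_smul]
    rfl
  rw [key]
  exact Cfsg.Agent.Lib.DcInd.ind_local 𝐂[zpowers d.u] hΦc hq0 (fun z => (hLloc y' z).1) (fun z => (hLloc y' z).2) x

/-- The two inertial actions match. -/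
theorem match_core (hd : FD p a e Q) (hDc : IsCyclic D) (hDa : Nat.card D = p ^ a) (hT' : T ≤ 𝐍[D])
    (he : (𝐂[D]).relIndex T = e) (β : D ≃* Q) :
    (∀ t (ht : t ∈ T), ∃ g : F, ∀ y : D, β (conjAut D t (hT' ht) y) = conjAut Q g (hd.mem_norm g) (β y)) ∧
    (∀ g : F, ∃ t, ∃ ht : t ∈ T, ∀ y : D, β (conjAut D t (hT' ht) y) = conjAut Q g (hd.mem_norm g) (β y)) := by
  classical
  have hp := hpF.out
  haveI := hDc
  haveI := hd.cyc
  let ρT : T →* MulAut D := MonoidHom.mk' (fun t => conjAut D (t : G) (hT' t.2)) (fun s t => conjAut_mul _ _ _ _ _ _)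
  have hρT : ∀ t : T, ρT t = conjAut D (t : G) (hT' t.2) := fun t => rfl
  have hkerT : ρT.ker = (𝐂[D]).subgroupOf T := by
    ext t
    rw [MonoidHom.mem_ker, Subgroup.mem_subgroupOf, Subgroup.mem_centralizer_iff, hρT]
    constructor
    · intro h y hy
      have h1 : ((conjAut D (t : G) (hT' t.2) ⟨y, hy⟩ : D) : G) = y := by
        rw [h]
        rfl
      rw [coe_conjAut] at h1
      have h2 : (t : G) * y * (t : G)⁻¹ = y := h1
      show y * (t : G) = (t : G) * y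
      calc y * (t : G) = ((t : G) * y * (t : G)⁻¹) * (t : G) := by rw [h2]
        _ = (t : G) * y := by group
    · intro h
      ext y
      show (t : G) * y * (t : G)⁻¹ = y
      rw [← h y y.2]
      group
  have hUT : Nat.card ρT.range = e := by
    rw [← Subgroup.index_ker, hkerT]
    exact he
  have hkerF : hd.rho.ker = Q := by
    ext g
    rw [MonoidHom.mem_ker, hd.rho_eq_one_iff]
  have hUF : Nat.card hd.rho.range = e := by
    rw [← Subgroup.index_ker, hkerF, hd.index_eq]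
  have hdvd := hd.dvd
  constructor
  · intro t ht
    obtain ⟨σ', ⟨g, rfl⟩, hg⟩ := Cfsg.Agent.Lib.DcInd.exists_match hp hDa hdvd β ρT.range hd.rho.range hUT hUF
      (ρT ⟨t, ht⟩) ⟨_, rfl⟩
    exact ⟨g, hg⟩
  · intro g
    obtain ⟨σ', ⟨t, rfl⟩, ht⟩ := Cfsg.Agent.Lib.DcInd.exists_match hp hd.card hdvd β.symm hd.rho.range ρT.range hUF hUT
      (hd.rho g) ⟨_, rfl⟩
    refine ⟨t, t.2, fun y => ?_⟩
    have h1 := ht (β y)
    rw [MulEquiv.symm_apply_apply] at h1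
    have h2 := congrArg β h1
    rw [MulEquiv.apply_symm_apply] at h2
    exact h2.symm

end Cfsg.Agent.Lib.DcPerf
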