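import Mathlib
import Cfsg.Prelude.Def_GeometricClasses
import Cfsg.Agent.Lib.SympT

/-!
# The block weight of a decomposition

For a decomposition `D` of `F^ι` into subspaces of equal dimension, the block weight of a vector
is the number of its non-zero components. It is preserved by the stabiliser of the decomposition.
The function `x ↦ (wt x : F)` is used for producing subgroups between the stabiliser and the
whole group (isometry groups of forms that are "invisible" for small fields).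
-/

set_option autoImplicit false
set_option linter.unusedSectionVars false
set_option linter.unusedVariables false

namespace Cfsg.Agent.Lib.DecompWt

open Matrix Cfsg Cfsg.Geo Module Cfsg.Agent.Lib.SympT

local notation:70 g:71 " ⋆ " x:70 => Matrix.mulVec (Units.val g) x

variable {ι : Type} [Fintype ι] [DecidableEq ι] {F : Type*} [Field F]

/-- The covector of a linear functional. -/
def covOf (c : (ι → F) →ₗ[F] F) : ι → F := fun i => c (Pi.single i 1)

theorem covOf_dot (c : (ι → F) →ₗ[F] F) (x : ι → F) : covOf c ⬝ᵥ x = c x := by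
  have h : x = ∑ i, x i • (Pi.single i 1 : ι → F) := by
    ext j
    simp [Finset.sum_apply, Pi.single_apply]
  conv_rhs => rw [h]
  rw [map_sum]
  simp only [map_smul, smul_eq_mul, dotProduct, covOf]
  exact Finset.sum_congr rfl (fun i _ => mul_comm _ _)

/-- The element `x ↦ x + c(x) w` of the general linear group. -/
noncomputable def dtv (c : (ι → F) →ₗ[F] F) (w : ι → F) (h : 1 + c w ≠ 0) : GL ι F :=
  Matrix.GeneralLinearGroup.mkOfDetNeZero (1 + Matrix.vecMulVec w (covOf c)) (by
    rw [Matrix.vecMulVec_eq Unit, Matrix.det_one_add_replicateCol_mul_replicateRow, covOf_dot]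
    exact h)

theorem dtv_apply (c : (ι → F) →ₗ[F] F) (w : ι → F) (h : 1 + c w ≠ 0) (x : ι → F) :
    dtv c w h ⋆ x = x + c x • w := by
  show (1 + Matrix.vecMulVec w (covOf c)) *ᵥ x = _
  rw [Matrix.add_mulVec, Matrix.one_mulVec, Matrix.vecMulVec_mulVec, covOf_dot]
  ext i
  simp [mul_comm]

theorem dtv_det (c : (ι → F) →ₗ[F] F) (w : ι → F) (h : 1 + c w ≠ 0) :
    ((dtv c w h : GL ι F) : Matrix ι ι F).det = 1 + c w := by
  show (1 + Matrix.vecMulVec w (covOf c)).det = _
  rw [Matrix.vecMulVec_eq Unit, Matrix.det_one_add_replicateCol_mul_replicateRow, covOf_dot]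

/-- The group of invertible matrices preserving a function. -/
def isoN (N : (ι → F) → F) : Subgroup (GL ι F) where
  carrier := {g | ∀ x, N (g ⋆ x) = N x}
  mul_mem' := by
    intro a b ha hb x
    rw [mulVec_mul_GL, ha, hb]
  one_mem' := by
    intro x
    simp
  inv_mem' := by
    intro a ha x
    have := ha (a⁻¹ ⋆ x)
    rw [mulVec_inv_GL] at this
    exact this.symm

theorem mem_isoN {N : (ι → F) → F} {g : GL ι F} : g ∈ isoN N ↔ ∀ x, N (g ⋆ x) = N x := Iff.rfl

variable {t m : ℕ} {D : Fin t → Submodule F (ι → F)}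

/-- A basis adapted to a decomposition. -/
theorem exists_basis (hD : IsMDecomposition m D) :
    ∃ B : Basis (Σ _ : Fin t, Fin m) F (ι → F),
      (∀ i j, B ⟨i, j⟩ ∈ D i) ∧ ∀ i y, y ∈ D i ↔ ∀ i' j, i' ≠ i → B.coord ⟨i', j⟩ y = 0 := by
  classical
  have h := DirectSum.isInternal_submodule_of_iSupIndep_of_iSup_eq_top hD.indep hD.iSup_eq_top
  let b : ∀ i, Basis (Fin m) F (D i) := fun i => Module.finBasisOfFinrankEq F (D i) (hD.finrank_eq i)
  refine ⟨h.collectedBasis b, fun i j => h.collectedBasis_mem b ⟨i, j⟩, fun i y => ⟨?_, ?_⟩⟩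
  · intro hy i' j hi'
    rw [Basis.coord_apply]
    exact h.collectedBasis_repr_of_mem_ne b hi'.symm hy
  · intro hy
    have h1 := (h.collectedBasis b).sum_repr y
    rw [Fintype.sum_sigma] at h1
    rw [← h1]
    refine Submodule.sum_mem _ (fun i' _ => Submodule.sum_mem _ (fun j _ => ?_))
    by_cases hi' : i' = i
    · subst hi'
      exact Submodule.smul_mem _ _ (h.collectedBasis_mem b ⟨i', j⟩)
    · have h2 := hy i' j hi'
      rw [Basis.coord_apply] at h2
      rw [h2, zero_smul]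
      exact Submodule.zero_mem _

theorem card_eq (B : Basis (Σ _ : Fin t, Fin m) F (ι → F)) : t * m = Fintype.card ι := by
  have h := Module.finrank_eq_card_basis B
  rw [Module.finrank_fintype_fun_eq_card] at h
  rw [h]
  simp

/-- The block weight. -/
noncomputable def wt [Fintype F] (B : Basis (Σ _ : Fin t, Fin m) F (ι → F)) (x : ι → F) : ℕ := by
  classical
  exact (Finset.univ.filter fun i : Fin t => ∃ j, B.coord ⟨i, j⟩ x ≠ 0).card

theorem coord_self (B : Basis (Σ _ : Fin t, Fin m) F (ι → F)) (i k : Fin t) (j l : Fin m) :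
    B.coord ⟨i, j⟩ (B ⟨k, l⟩) = if i = k ∧ j = l then 1 else 0 := by
  rw [Basis.coord_apply, Basis.repr_self, Finsupp.single_apply]
  by_cases h : i = k ∧ j = l
  · obtain ⟨rfl, rfl⟩ := h
    simp
  · rw [if_neg h, if_neg]
    intro h2
    apply h
    have h3 := Sigma.mk.inj_iff.1 h2
    exact ⟨h3.1.symm, (eq_of_heq h3.2).symm⟩

/-- The components of the image of `x` under an element of the stabiliser. -/
theorem block_stab (B : Basis (Σ _ : Fin t, Fin m) F (ι → F))
    (hB1 : ∀ i j, B ⟨i, j⟩ ∈ D i)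
    (hB : ∀ i y, y ∈ D i ↔ ∀ i' j, i' ≠ i → B.coord ⟨i', j⟩ y = 0) {g : GL ι F}
    (π : Equiv.Perm (Fin t)) (hπ : ∀ i, (D i).map (Matrix.toLin' (g : Matrix ι ι F)) = D (π i))
    (x : ι → F) (i : Fin t) :
    (∃ j, B.coord ⟨π i, j⟩ (g ⋆ x) ≠ 0) ↔ ∃ j, B.coord ⟨i, j⟩ x ≠ 0 := by
  classical
  -- the components
  set comp : Fin t → ι → F := fun k => ∑ j, B.coord ⟨k, j⟩ x • B ⟨k, j⟩ with hcomp
  have hcm : ∀ k, comp k ∈ D k := fun k => Submodule.sum_mem _ (fun j _ => Submodule.smul_mem _ _ (hB1 k j))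
  have hsum : ∑ k, comp k = x := by
    have h1 := B.sum_repr x
    rw [Fintype.sum_sigma] at h1
    exact h1
  have hgm : ∀ k, g ⋆ comp k ∈ D (π k) := by
    intro k
    rw [← hπ k]
    exact ⟨comp k, hcm k, rfl⟩
  have hgx : g ⋆ x = ∑ k, g ⋆ comp k := by
    conv_lhs => rw [← hsum]
    rw [Matrix.mulVec_sum]
  have hcoord : ∀ j, B.coord ⟨π i, j⟩ (g ⋆ x) = B.coord ⟨π i, j⟩ (g ⋆ comp i) := by
    intro j
    rw [hgx, map_sum]
    apply Finset.sum_eq_single i
    · intro k _ hk
      exact (hB (π k) _).1 (hgm k) (π i) j (fun h => hk (π.injective h).symm)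
    · simp
  have hcompi : ∀ j, B.coord ⟨i, j⟩ (comp i) = B.coord ⟨i, j⟩ x := by
    intro j
    rw [hcomp]
    simp only
    rw [map_sum]
    simp only [map_smul, coord_self, smul_eq_mul]
    simp
  constructor
  · rintro ⟨j, hj⟩
    by_contra hcon
    push Not at hcon
    apply hj
    rw [hcoord]
    have h0 : comp i = 0 := by
      rw [hcomp]
      simp only
      exact Finset.sum_eq_zero (fun j _ => by rw [hcon j, zero_smul])
    rw [h0, Matrix.mulVec_zero, map_zero]
  · rintro ⟨j, hj⟩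
    by_contra hcon
    push Not at hcon
    have h0 : g ⋆ comp i = 0 := by
      apply B.repr.injective
      rw [map_zero]
      ext ⟨k, l⟩
      by_cases hk : k = π i
      · subst hk
        have := hcon l
        rw [hcoord, Basis.coord_apply] at this
        simpa using this
      · have := (hB (π i) _).1 (hgm i) k l hk
        rw [Basis.coord_apply] at this
        simpa using this
    have h1 : comp i = 0 := by
      have := congrArg (fun v => g⁻¹ ⋆ v) h0
      simpa only [inv_mulVec_GL, Matrix.mulVec_zero] using this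
    apply hj
    rw [← hcompi, h1, map_zero]

theorem wt_stab [Fintype F] (B : Basis (Σ _ : Fin t, Fin m) F (ι → F))
    (hB1 : ∀ i j, B ⟨i, j⟩ ∈ D i)
    (hB : ∀ i y, y ∈ D i ↔ ∀ i' j, i' ≠ i → B.coord ⟨i', j⟩ y = 0) {g : GL ι F}
    (hg : g ∈ decompositionStabilizer D) (x : ι → F) : wt B (g ⋆ x) = wt B x := by
  classical
  obtain ⟨π, hπ⟩ := hg
  unfold wt
  symm
  convert Finset.card_equiv π (s := Finset.univ.filter fun i : Fin t => ∃ j, B.coord ⟨i, j⟩ x ≠ 0)
    (t := Finset.univ.filter fun i : Fin t => ∃ j, B.coord ⟨i, j⟩ (g ⋆ x) ≠ 0) ?_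
  intro i
  simp only [Finset.mem_filter, Finset.mem_univ, true_and]
  exact (block_stab B hB1 hB π hπ x i).symm


theorem wt_single [Fintype F] (B : Basis (Σ _ : Fin t, Fin m) F (ι → F)) (i : Fin t) (j : Fin m) :
    wt B (B ⟨i, j⟩) = 1 := by
  classical
  unfold wt
  rw [Finset.card_eq_one]
  refine ⟨i, ?_⟩
  ext k
  simp only [Finset.mem_filter, Finset.mem_univ, true_and, Finset.mem_singleton, coord_self]
  constructor
  · rintro ⟨l, hl⟩
    by_contra hk
    apply hl
    rw [if_neg]
    exact fun h => hk h.1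
  · rintro rfl
    refine ⟨j, ?_⟩
    simp

theorem wt_pair [Fintype F] (B : Basis (Σ _ : Fin t, Fin m) F (ι → F)) {i k : Fin t} (hik : i ≠ k)
    (j l : Fin m) : wt B (B ⟨i, j⟩ + B ⟨k, l⟩) = 2 := by
  classical
  unfold wt
  rw [Finset.card_eq_two]
  refine ⟨i, k, hik, ?_⟩
  ext r
  simp only [Finset.mem_filter, Finset.mem_univ, true_and, Finset.mem_insert, Finset.mem_singleton,
    map_add, coord_self]
  constructor
  · rintro ⟨s, hs⟩
    by_contra hr
    push Not at hr
    apply hs
    rw [if_neg (fun h => hr.1 h.1), if_neg (fun h => hr.2 h.1), add_zero]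
  · rintro (rfl | rfl)
    · refine ⟨j, ?_⟩
      simp [hik]
    · refine ⟨l, ?_⟩
      simp [hik.symm]

/-- The weight through a "norm" on the coordinates, blocks of dimension one. -/
theorem wt_cast_one [Fintype F] (B : Basis (Σ _ : Fin t, Fin 1) F (ι → F)) (σ : F ≃+* F)
    (hσ : ∀ a : F, a ≠ 0 → a * σ a = 1) (x : ι → F) :
    (wt B x : F) = ∑ i : Fin t, B.coord ⟨i, 0⟩ x * σ (B.coord ⟨i, 0⟩ x) := by
  classical
  unfold wt
  rw [Finset.natCast_card_filter]
  refine Finset.sum_congr rfl (fun i _ => ?_)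
  by_cases h : B.coord ⟨i, 0⟩ x = 0
  · rw [h, if_neg]
    · simp
    · rintro ⟨j, hj⟩
      rw [Fin.eq_zero j] at hj
      exact hj h
  · rw [hσ _ h, if_pos ⟨0, h⟩]

/-- The weight through a quadratic form on the coordinates, blocks of dimension two over `F₂`. -/
theorem wt_cast_two [Fintype F] (hq : Fintype.card F = 2) (B : Basis (Σ _ : Fin t, Fin 2) F (ι → F))
    (x : ι → F) :
    (wt B x : F) = ∑ i : Fin t, (B.coord ⟨i, 0⟩ x ^ 2 + B.coord ⟨i, 0⟩ x * B.coord ⟨i, 1⟩ x +
      B.coord ⟨i, 1⟩ x ^ 2) := by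
  classical
  unfold wt
  rw [Finset.natCast_card_filter]
  have hone : ∀ a : F, a ≠ 0 → a = 1 := by
    intro a ha
    have := FiniteField.pow_card_sub_one_eq_one a ha
    rw [hq] at this
    simpa using this
  have h2 : (1 : F) + 1 = 0 := by
    have := FiniteField.cast_card_eq_zero F
    rw [hq] at this
    rw [one_add_one_eq_two]
    exact_mod_cast this
  refine Finset.sum_congr rfl (fun i _ => ?_)
  by_cases h : B.coord ⟨i, 0⟩ x = 0
  · by_cases h' : B.coord ⟨i, 1⟩ x = 0
    · rw [h, h', if_neg]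
      · simp
      · rintro ⟨j, hj⟩
        fin_cases j
        · exact hj h
        · exact hj h'
    · rw [h, hone _ h', if_pos ⟨1, h'⟩]
      simp
  · by_cases h' : B.coord ⟨i, 1⟩ x = 0
    · rw [hone _ h, h', if_pos ⟨0, h⟩]
      simp
    · rw [hone _ h, hone _ h', if_pos ⟨0, h⟩]
      linear_combination -h2

/-- The effect of `x ↦ x + c(x) w` on the norm, blocks of dimension one. -/
theorem norm_one_add (a : Fin t → F) (S : Finset (Fin t)) (σ : F ≃+* F) :
    ∑ i : Fin t, (a i + (∑ k ∈ S, a k) * (if i ∈ S then 1 else 0)) *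
        σ (a i + (∑ k ∈ S, a k) * (if i ∈ S then 1 else 0)) =
      ∑ i : Fin t, a i * σ (a i) + ((S.card : F) + 2) * ((∑ k ∈ S, a k) * σ (∑ k ∈ S, a k)) := by
  classical
  set c := ∑ k ∈ S, a k with hc
  have h1 : ∀ i, (a i + c * (if i ∈ S then 1 else 0)) * σ (a i + c * (if i ∈ S then 1 else 0)) =
      a i * σ (a i) + (if i ∈ S then a i * σ c + c * σ (a i) + c * σ c else 0) := by
    intro i
    by_cases hi : i ∈ S
    · simp only [hi, if_true, map_add, map_mul, map_one]
      ring
    · simp [hi]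
  rw [Finset.sum_congr rfl (fun i _ => h1 i), Finset.sum_add_distrib, Finset.sum_ite_mem,
    Finset.univ_inter, Finset.sum_add_distrib, Finset.sum_add_distrib, ← Finset.sum_mul, ← Finset.mul_sum,
    ← map_sum, ← hc, Finset.sum_const, nsmul_eq_mul]
  ring

/-- The effect of `x ↦ x + c(x) w` on the quadratic form, blocks of dimension two in characteristic 2. -/
theorem norm_two_add (h2 : (2 : F) = 0) (a b : Fin t → F) (S : Finset (Fin t)) :
    ∑ i : Fin t, ((a i + (∑ k ∈ S, b k) * (if i ∈ S then 1 else 0)) ^ 2 +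
        (a i + (∑ k ∈ S, b k) * (if i ∈ S then 1 else 0)) * b i + b i ^ 2) =
      ∑ i : Fin t, (a i ^ 2 + a i * b i + b i ^ 2) + ((S.card : F) + 1) * (∑ k ∈ S, b k) ^ 2 := by
  classical
  set c := ∑ k ∈ S, b k with hc
  have h1 : ∀ i, ((a i + c * (if i ∈ S then 1 else 0)) ^ 2 +
        (a i + c * (if i ∈ S then 1 else 0)) * b i + b i ^ 2) =
      (a i ^ 2 + a i * b i + b i ^ 2) + (if i ∈ S then c * b i + c ^ 2 else 0) := by
    intro i
    by_cases hi : i ∈ S
    · simp only [hi, if_true]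
      linear_combination (a i * c) * h2
    · simp [hi]
  have h3 : ∑ i ∈ S, (c * b i + c ^ 2) = ((S.card : F) + 1) * c ^ 2 := by
    rw [Finset.sum_add_distrib, ← Finset.mul_sum, ← hc, Finset.sum_const, nsmul_eq_mul]
    ring
  rw [Finset.sum_congr rfl (fun i _ => h1 i), Finset.sum_add_distrib, Finset.sum_ite_mem,
    Finset.univ_inter, h3]

/-- The functional `∑_{i ∈ S} coord(i, j)`. -/
noncomputable def cS (B : Basis (Σ _ : Fin t, Fin m) F (ι → F)) (S : Finset (Fin t)) (j : Fin m) :
    (ι → F) →ₗ[F] F := ∑ i ∈ S, B.coord ⟨i, j⟩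

/-- The vector `∑_{i ∈ S} B(i, j)`. -/
noncomputable def wS (B : Basis (Σ _ : Fin t, Fin m) F (ι → F)) (S : Finset (Fin t)) (j : Fin m) :
    ι → F := ∑ i ∈ S, B ⟨i, j⟩

theorem cS_apply (B : Basis (Σ _ : Fin t, Fin m) F (ι → F)) (S : Finset (Fin t)) (j : Fin m)
    (x : ι → F) : cS B S j x = ∑ i ∈ S, B.coord ⟨i, j⟩ x := by
  unfold cS
  rw [LinearMap.sum_apply]

theorem coord_wS (B : Basis (Σ _ : Fin t, Fin m) F (ι → F)) (S : Finset (Fin t)) (j l : Fin m)
    (k : Fin t) : B.coord ⟨k, l⟩ (wS B S j) = if k ∈ S ∧ l = j then 1 else 0 := by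
  classical
  unfold wS
  rw [map_sum]
  simp only [coord_self]
  by_cases hl : l = j
  · subst hl
    simp
  · simp [hl]

theorem cS_wS (B : Basis (Σ _ : Fin t, Fin m) F (ι → F)) (S S' : Finset (Fin t)) (j l : Fin m) :
    cS B S l (wS B S' j) = if l = j then ((S ∩ S').card : F) else 0 := by
  classical
  rw [cS_apply]
  simp only [coord_wS]
  by_cases hl : l = j
  · subst hl
    simp only [and_true, if_true]
    rw [Finset.sum_boole]
    congr 2
  · simp [hl]

/-- Outside the stabiliser: the image of a vector of a block has two non-zero block coordinates. -/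
theorem not_mem_stab (B : Basis (Σ _ : Fin t, Fin m) F (ι → F))
    (hB : ∀ i y, y ∈ D i ↔ ∀ i' j, i' ≠ i → B.coord ⟨i', j⟩ y = 0) {g : GL ι F}
    {x : ι → F} {i : Fin t} (hx : x ∈ D i) {k l : Fin t} (hkl : k ≠ l) {j j' : Fin m}
    (hk : B.coord ⟨k, j⟩ (g ⋆ x) ≠ 0) (hl : B.coord ⟨l, j'⟩ (g ⋆ x) ≠ 0) :
    g ∉ decompositionStabilizer D := by
  rintro ⟨π, hπ⟩
  have h1 : g ⋆ x ∈ D (π i) := by
    rw [← hπ i]
    exact ⟨x, hx, rfl⟩
  have h2 := (hB (π i) _).1 h1
  by_cases h3 : k = π i
  · exact hl (h2 l j' (fun h => hkl (h3.trans h.symm)))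
  · exact hk (h2 k j h3)

end Cfsg.Agent.Lib.DecompWt
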