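import Mathlib
import Cfsg.Agent.Lib.CentricInd
import Cfsg.Agent.Lib.BrauerCorr
import Cfsg.Agent.Lib.BlockDefectInd

/-!
# Blocks of a subgroup containing the centralizer of a defect group
-/

set_option autoImplicit false
set_option linter.unusedSectionVars false
set_option linter.unusedVariables false
set_option linter.style.haveILetI false

namespace Cfsg.Agent.Lib.DefectCenInd

open Cfsg Cfsg.Agent.Lib.CharBasic Cfsg.Agent.Lib.CharInd Cfsg.Agent.Lib.CharIntegrality
open Cfsg.Agent.Lib.BlockLocal Cfsg.Agent.Lib.BlockIdem Cfsg.Agent.Lib.BlockNormal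
open Cfsg.Agent.Lib.BrauerMap Cfsg.Agent.Lib.BrauerPair Cfsg.Agent.Lib.BrauerSub
open Cfsg.Agent.Lib.BrauerConj Cfsg.Agent.Lib.BrauerThird Cfsg.Agent.Lib.BrauerMax
open Cfsg.Agent.Lib.BrauerStab Cfsg.Agent.Lib.BlockDefect Cfsg.Agent.Lib.BrauerCen
open Cfsg.Agent.Lib.BrauerFull Cfsg.Agent.Lib.BrauerLift
open Cfsg.Agent.Lib.BrauerSat Cfsg.Agent.Lib.BrauerCorr
open scoped ComplexConjugate

universe u

variable {G : Type u} [Group G] [Fintype G] {p : ℕ} [hp : Fact p.Prime] {M : Ideal AlgInt}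

local notation "𝐂[" R "]" => Subgroup.centralizer ((R : Subgroup G) : Set G)
local notation "𝐍[" R "]" => Subgroup.normalizer ((R : Subgroup G) : Set G)
local notation Q "^^" x => Subgroup.map (MulEquiv.toMonoidHom (MulAut.conj (x : G))) (Q : Subgroup G)

noncomputable local instance fintypeSubD (K : Subgroup G) : Fintype K := Fintype.ofFinite K

/-- A matched pair gives an induced block. -/
theorem isInducedBlock_of_hat (hM : IsPModular p M) {H : Subgroup G} {b : Set (IrrCharacter H)}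
    {Dh : Subgroup H} {gh : Set (IrrCharacter (Subgroup.centralizer (Dh : Set H)))}
    {P : Subgroup G} (hpair : IsBrauerPairOf p M b Dh gh) (m : CenMatch Dh P)
    {B : Set (IrrCharacter G)} (hB : IsBrauerPairOf p M B P (twistSetE m.iso gh)) :
    IsInducedBlock M H b B := by
  classical
  haveI := isPrime_of_isPModular hM
  refine ⟨hpair.2.1, hB.2.1, fun θ hθ χ hχ g => ?_⟩
  obtain ⟨ξ, hξ0⟩ := hpair.1.2
  have hξ : ξ ∈ gh := hξ0 ▸ mem_blockOf_self ξ
  set a : H → ℂ := fun h : H => (classIndicator g (h : G) : ℂ) with ha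
  have hacl : IsClassFunction H a := by
    intro x y
    have h1 : classIndicator g ((y : G) * (x : G) * (y : G)⁻¹) = classIndicator g (x : G) :=
      classIndicator_mem g (x : G) (y : G)
    change ((classIndicator g ((y : G) * (x : G) * (y : G)⁻¹) : ℤ) : ℂ) = ((classIndicator g (x : G) : ℤ) : ℂ)
    rw [h1]
  have haR : ∀ x, MemLocalRing M (a x) := fun x => memLocalRing_intCast _
  have hcl : IsClassFunction G (castFun (classIndicator g)) :=
    castFun_isClassFunction (classIndicator_mem g)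
  have hR : ∀ x, MemLocalRing M (castFun (classIndicator g) x) := fun x => memLocalRing_intCast _
  have h1 := brO_sub_omega_of_pair hM hpair hξ hθ hacl haR
  have h2 := brO_sub_omega_of_pair hM hB (ξ := twistE m.iso ξ) ⟨ξ, hξ, rfl⟩ hχ hcl hR
  have h3 : brauerOmega Dh a ξ = brauerOmega P (castFun (classIndicator g)) (twistE m.iso ξ) := by
    rw [brauerOmega_eq, m.brO_eq (α := castFun (classIndicator g)) (fun t => by simp only [ha, castFun]),
      ← brauerOmega_eq]
  rw [← brauerOmega_eq, h3, brauerOmega_eq] at h1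
  rw [omega_classIndicator] at h2
  rw [BlkBasic.inducedCentralChar_eq_omega]
  have h4 := memLocalIdeal_sub h2 h1
  convert h4 using 1
  ring

theorem main_defect (hM : IsPModular p M) (H : Subgroup G) (b : Set (IrrCharacter H)) (hb : IsPBlock M b)
    (D₀ : Subgroup H) (hD₀ : IsDefectGroup p M b D₀) (hC : 𝐂[D₀.map H.subtype] ≤ H) :
    InducedBlockDefined M H b ∧ ∀ B : Set (IrrCharacter G), IsInducedBlock M H b B →
      (∃ D : Subgroup G, IsDefectGroup p M B D ∧
        (Subgroup.center D).map D.subtype ≤ ((Subgroup.center D₀).map D₀.subtype).map H.subtype ∧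
        ((Subgroup.center D₀).map D₀.subtype).map H.subtype ≤ D₀.map H.subtype ∧ D₀.map H.subtype ≤ D) ∧
      (∀ D : Subgroup G, IsDefectGroup p M B D → IsMulCommutative D →
        IsDefectGroup p M B (D₀.map H.subtype)) := by
  classical
  haveI := isPrime_of_isPModular hM
  set P₀ := D₀.map H.subtype with hP₀
  have hcard := card_isDefectGroup hM hb hD₀
  have hD₀p : IsPGroup p D₀ := isPGroup_of_card hcard
  have hP₀p : IsPGroup p P₀ := hD₀p.map _
  have m : CenMatch D₀ P₀ := cenMatch_nor hC D₀ le_rfl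
  have hP₀H : P₀ ≤ H := by
    rintro _ ⟨x, -, rfl⟩
    exact x.2
  obtain ⟨gh, hgh⟩ := exists_maximal_of_isDefectGroup hM hb hD₀
  set e := twistSetE m.iso gh with he
  have hepair : IsBrauerPair p M P₀ e := ⟨hP₀p, isPBlock_twistSetE _ hgh.1.1.2⟩
  obtain ⟨B', hB', -⟩ := existsUnique_isBrauerPairOf hM hepair
  have hind' := isInducedBlock_of_hat hM hgh.1 m hB'
  refine ⟨⟨B', hind'⟩, fun B hind => ?_⟩
  have hBB : B = B' := BlockDefectInd.isInducedBlock_unique hind hind'
  subst hBB
  obtain ⟨D, e', hmax, hle⟩ := exists_maximal_above hM hB'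
  have hDdef := isDefectGroup_of_maximal hM hmax
  have hP₀D : P₀ ≤ D := le_of_subpairLE hle
  -- the key inclusion
  have key : (Subgroup.center D).map D.subtype ≤ P₀ := by
    set Z := (Subgroup.center D).map D.subtype with hZ
    have hZD : Z ≤ D := by
      rintro _ ⟨z, -, rfl⟩
      exact z.2
    have hZC : Z ≤ 𝐂[P₀] := by
      rintro _ ⟨z, hz, rfl⟩
      rw [Subgroup.mem_centralizer_iff]
      intro u hu
      have h1 := (Subgroup.mem_center_iff.1 hz) ⟨u, hP₀D hu⟩
      exact congrArg Subtype.val h1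
    set Y := P₀ ⊔ Z with hY
    have hYD : Y ≤ D := sup_le hP₀D hZD
    have hYH : Y ≤ H := sup_le hP₀H (hZC.trans hC)
    have hYN : Y ≤ 𝐍[P₀] := sup_le (le_normalizer_self P₀)
      (hZC.trans (Subgroup.centralizer_le_normalizer _))
    obtain ⟨gY, hgY, hleY⟩ := exists_subpairLE hM hmax.1.1 hYD
    have hn := normalSubpair_of_le hM hmax.1.1 hle hleY le_sup_left hYN
    set Yh := Y.subgroupOf H with hYh
    have hYmap : Yh.map H.subtype = Y := Subgroup.map_subgroupOf_eq_of_le hYH
    have hQ : P₀ ≤ Yh.map H.subtype := hYmap ▸ le_sup_left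
    have mY : CenMatch Yh Y := hYmap ▸ cenMatch_nor hC Yh hQ
    have hYp : IsPGroup p Y := hmax.1.1.1.to_le hYD
    have hYhp : IsPGroup p Yh := IsPGroup.comap_of_injective hYp _ Subtype.val_injective
    have hmemD : ∀ a : H, a ∈ D₀ ↔ (a : G) ∈ P₀ := by
      intro a
      constructor
      · intro h
        exact ⟨a, h, rfl⟩
      · rintro ⟨a', h, ha'⟩
        rwa [← Subtype.ext ha']
    have hD₀Y : D₀ ≤ Yh := by
      intro x hx
      rw [hYh, Subgroup.mem_subgroupOf]
      exact Subgroup.mem_sup_left ((hmemD x).1 hx)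
    have hYhN : Yh ≤ Subgroup.normalizer (D₀ : Set H) := by
      intro y hy
      rw [Subgroup.mem_normalizer_iff]
      intro a
      rw [hYh, Subgroup.mem_subgroupOf] at hy
      have h1 := (Subgroup.mem_normalizer_iff.1 (hYN hy)) a
      rw [hmemD a, hmemD]
      exact h1
    have hn' := normalSubpair_hat m mY hn hD₀p hYhp hD₀Y hYhN
      (fun x hx => Subgroup.mem_subgroupOf.1 hx)
    rw [he, twistSetE_symm_twistSetE] at hn'
    have hpY := (isBrauerPairOf_iff_of_normal hM hb hn').1 hgh.1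
    have hYD₀ := hgh.2 Yh _ hpY (Relation.ReflTransGen.single hn')
    intro z hz
    have hzY : z ∈ Y := Subgroup.mem_sup_right hz
    have h2 : (⟨z, hYH hzY⟩ : H) ∈ Yh := Subgroup.mem_subgroupOf.2 hzY
    rw [hYD₀] at h2
    exact (hmemD _).1 h2
  refine ⟨⟨D, hDdef, ?_, ?_, hP₀D⟩, fun D' hD' hcomm => ?_⟩
  · intro z hz
    have hzP := key hz
    obtain ⟨w, hw, rfl⟩ := hzP
    refine ⟨w, ⟨(⟨w, hw⟩ : D₀), Subgroup.mem_center_iff.2 ?_, rfl⟩, rfl⟩
    rintro ⟨u, hu⟩
    obtain ⟨z', hz', hz'w⟩ := hz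
    apply Subtype.ext
    apply Subtype.ext
    have h1 := (Subgroup.mem_center_iff.1 hz') ⟨(u : G), hP₀D ⟨u, hu, rfl⟩⟩
    have h2 := congrArg Subtype.val h1
    simp only [Subgroup.coe_mul] at h2
    have h3 : (z' : G) = (w : G) := hz'w
    rw [h3] at h2
    exact h2
  · rintro _ ⟨_, ⟨c, -, rfl⟩, rfl⟩
    exact ⟨c, c.2, rfl⟩
  · obtain ⟨x, hx⟩ := exists_conj_of_isDefectGroup hM hB'.2.1 hD' hDdef
    have hDab : ∀ u v : D, u * v = v * u := by
      rintro ⟨u, hu⟩ ⟨v, hv⟩
      rw [← hx] at hu hv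
      obtain ⟨u', hu', rfl⟩ := hu
      obtain ⟨v', hv', rfl⟩ := hv
      apply Subtype.ext
      have h1 : (⟨u', hu'⟩ : D') * ⟨v', hv'⟩ = ⟨v', hv'⟩ * ⟨u', hu'⟩ := hcomm.is_comm.comm _ _
      have h2 : u' * v' = v' * u' := congrArg Subtype.val h1
      change (MulAut.conj x) u' * (MulAut.conj x) v' = (MulAut.conj x) v' * (MulAut.conj x) u'
      rw [← map_mul, ← map_mul, h2]
    have hDP : D ≤ P₀ := by
      intro d hd
      apply key
      refine ⟨⟨d, hd⟩, Subgroup.mem_center_iff.2 (fun w => hDab w _), rfl⟩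
    have h5 : P₀ = D := le_antisymm hP₀D hDP
    rw [h5]
    exact hDdef

end Cfsg.Agent.Lib.DefectCenInd
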