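import Mathlib
import Cfsg.Agent.Lib.Deg11Data
import Cfsg.Agent.Lib.PrimeDegAff
import Cfsg.Agent.Lib.JordanPrimeCycle

/-!
# Translations, affine maps and Sylow conjugacy in degree eleven
-/

set_option autoImplicit false
set_option maxRecDepth 100000

namespace Cfsg.Agent.Lib.Deg11Group

open Equiv Equiv.Perm Cfsg.Agent.Lib.Deg11Eval Cfsg.Agent.Lib.Deg11Data

instance fact11 : Fact (Nat.Prime 11) := ⟨by norm_num⟩

/-- The translation by one. -/
abbrev c : Perm X := Equiv.addRight (1 : X)

theorem c_pow (n : ℕ) (x : X) : (c ^ n) x = x + n := by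
  induction n with
  | zero => simp
  | succ n ih =>
    rw [pow_succ', Perm.mul_apply, ih, Equiv.coe_addRight]
    push_cast
    ring

theorem addRight_eq (a : X) : (Equiv.addRight a : Perm X) = c ^ a.val :=
  Equiv.ext fun x => by rw [c_pow, ZMod.natCast_zmod_val]; rfl

theorem addRight_mem {G : Subgroup (Perm X)} (hc : c ∈ G) (a : X) : (Equiv.addRight a : Perm X) ∈ G := by
  rw [addRight_eq]
  exact G.pow_mem hc _

theorem c_pow_inv (n : ℕ) (x : X) : (c ^ n)⁻¹ x = x - n := by
  rw [Perm.inv_eq_iff_eq, c_pow]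
  ring

theorem gen_cPows {G : Subgroup (Perm X)} (hc : c ∈ G) : ∀ a ∈ cPows, Gen G a := by
  have h : ∀ a ∈ cPows, ∃ k : Fin 11, ∀ x : X, (x + ((k : ℕ) : X)).val = dig a x.val := by
    decide +kernel
  intro a ha
  obtain ⟨k, hk⟩ := h a ha
  exact ⟨c ^ (k : ℕ), G.pow_mem hc _, fun x => by rw [c_pow]; exact hk x⟩

theorem rep_c : PRep c cN := by
  unfold PRep
  decide +kernel

/-- Negation. -/
abbrev negP : Perm X := Equiv.neg X

theorem rep_negP : PRep negP negN := by
  unfold PRep
  decide +kernel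

/-- Multiplication by three. -/
def mu3P : Perm X := Equiv.mulLeft₀ (3 : X) (by decide)

theorem mu3P_apply (x : X) : mu3P x = 3 * x := rfl

theorem rep_mu3P : PRep mu3P mu3N := by
  unfold PRep
  decide +kernel

theorem mu3P_pow (n : ℕ) (x : X) : (mu3P ^ n) x = 3 ^ n * x := by
  induction n with
  | zero => simp
  | succ n ih =>
    rw [pow_succ', Perm.mul_apply, ih, mu3P_apply]
    ring

/-- The first generator. -/
def g1 : Perm X := Function.Involutive.toPerm (fun x : X => ((dig g1N x.val : ℕ) : X))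
  (by intro x; revert x; decide +kernel)

theorem rep_g1 : PRep g1 g1N := by
  unfold PRep
  decide +kernel

/-- The second generator. -/
def g0 : Perm X := Function.Involutive.toPerm (fun x : X => ((dig g0N x.val : ℕ) : X))
  (by intro x; revert x; decide +kernel)

theorem rep_g0 : PRep g0 g0N := by
  unfold PRep
  decide +kernel

/-- No short prime cycles. -/
def NoPC (G : Subgroup (Perm X)) : Prop :=
  ∀ t ∈ G, t.IsCycle → t.support.card.Prime → 2 * t.support.card ≤ Nat.card X → False

theorem cert_false {G : Subgroup (Perm X)} (hno : NoPC G) {env : List Nat}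
    {ps : List (List Nat × List Bool)} (h : ∀ a ∈ env, Gen G a) (hc : cert env ps = true) : False := by
  unfold cert at hc
  rw [List.any_eq_true] at hc
  obtain ⟨p, -, hp⟩ := hc
  have hx : Gen G (evalW env p.1) := gen_evalW h _
  obtain ⟨σ, hσ, hr⟩ := gen_powB hx p.2 hx
  obtain ⟨a, b, d⟩ := isPC_spec hr hp
  exact hno σ hσ a b d

theorem code_mul (σ τ : Perm X) : code (σ * τ) = Deg11Eval.comp (code σ) (code τ) := by
  have h1 := rep_code σ
  have h2 := rep_code τ
  have e : ∀ i : X, (σ (τ i)).val = dig (code σ) (dig (code τ) i.val) := fun i => by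
    rw [h1, h2]
  have e0 := e 0
  have e1 := e 1
  have e2 := e 2
  have e3 := e 3
  have e4 := e 4
  have e5 := e 5
  have e6 := e 6
  have e7 := e 7
  have e8 := e 8
  have e9 := e 9
  have e10 := e 10
  show mk11 (σ (τ 0)).val (σ (τ 1)).val (σ (τ 2)).val (σ (τ 3)).val (σ (τ 4)).val (σ (τ 5)).val
    (σ (τ 6)).val (σ (τ 7)).val (σ (τ 8)).val (σ (τ 9)).val (σ (τ 10)).val = _
  rw [e0, e1, e2, e3, e4, e5, e6, e7, e8, e9, e10]
  rfl

/-- Being affine. -/
def Aff (h : Perm X) : Prop := ∃ α β : X, α ≠ 0 ∧ ∀ x, h x = α * x + β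

theorem Aff.mul {u v : Perm X} (hu : Aff u) (hv : Aff v) : Aff (u * v) := by
  obtain ⟨α, β, h0, h⟩ := hu
  obtain ⟨α', β', h0', h'⟩ := hv
  refine ⟨α * α', α * β' + β, mul_ne_zero h0 h0', fun x => ?_⟩
  rw [Perm.mul_apply, h, h']
  ring

theorem aff_addRight (a : X) : Aff (Equiv.addRight a) := ⟨1, a, one_ne_zero, fun x => by simp⟩

theorem aff_negP : Aff negP := ⟨-1, 0, by decide, fun x => by simp⟩

/-- An affine involution is a reflection. -/
theorem aff_inv {u : Perm X} (hu : Aff u) (h2 : u * u = 1) (hne : u ≠ 1) : ∃ β : X, ∀ x, u x = -x + β := by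
  obtain ⟨α, β, h0, h⟩ := hu
  have huu : ∀ x, u (u x) = x := fun x => by
    rw [← Perm.mul_apply, h2]; rfl
  have e0 := huu 0
  have e1 := huu 1
  rw [h, h] at e0 e1
  simp only [mul_zero, zero_add] at e0
  have hα2 : α * α = 1 := by
    have : α * (α * 1 + β) + β = α * α + (α * β + β) := by ring
    rw [this, e0, add_zero] at e1
    exact e1
  have hαc : ∀ α : X, α * α = 1 → α = 1 ∨ α = -1 := by decide
  rcases hαc α hα2 with rfl | rfl
  · exfalso
    have hβ : ∀ β : X, 1 * β + β = 0 → β = 0 := by decide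
    have hb := hβ β e0
    apply hne
    ext x
    rw [h, hb]
    simp
  · refine ⟨β, fun x => ?_⟩
    rw [h]
    ring

/-- A group containing the translations all of whose involutions are affine is solvable. -/
theorem exists_nonaffine (G : Subgroup (Perm X)) (hc : c ∈ G) (hS : ¬ Group.IsSolvable G) :
    ∃ h ∈ G, h * h = 1 ∧ h ≠ 1 ∧ ¬ Aff h := by
  by_contra hno
  push Not at hno
  apply hS
  apply Cfsg.Agent.Lib.PrimeDegAff.isSolvable_of_affine
  intro y hy
  rcases Nat.even_or_odd (Nat.card G) with he | ho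
  · obtain ⟨t, ht⟩ := exists_prime_orderOf_dvd_card' (G := G) 2 he.two_dvd
    have ht1 : (t : Perm X) ∈ G := t.2
    have ht2 : (t : Perm X) * t = 1 := by
      have h3 : t * t = 1 := by rw [← pow_two, ← ht, pow_orderOf_eq_one]
      exact congrArg Subtype.val h3
    have htne : (t : Perm X) ≠ 1 := by
      intro e
      have h4 : t = 1 := Subtype.ext e
      rw [h4, orderOf_one] at ht
      norm_num at ht
    obtain ⟨β, hβ⟩ := aff_inv (hno _ ht1 ht2 htne) ht2 htne
    -- the conjugates
    set t' : Perm X := c * t * c⁻¹ with ht'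
    have ht'1 : t' ∈ G := G.mul_mem (G.mul_mem hc ht1) (G.inv_mem hc)
    have ht'2 : t' * t' = 1 := by
      rw [ht']
      calc c * t * c⁻¹ * (c * t * c⁻¹) = c * (t * t) * c⁻¹ := by group
        _ = 1 := by rw [ht2]; group
    have ht'ne : t' ≠ 1 := by
      rw [ht']
      intro e
      apply htne
      have : (t : Perm X) = c⁻¹ * (c * t * c⁻¹) * c := by group
      rw [this, e]
      group
    have hconjI : ∀ u : Perm X, u ∈ G → u * u = 1 → u ≠ 1 → ∃ β : X, ∀ x, (y * u * y⁻¹) x = -x + β := by
      intro u hu hu2 hune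
      have hu1 : y * u * y⁻¹ ∈ G := G.mul_mem (G.mul_mem hy hu) (G.inv_mem hy)
      have hu2' : y * u * y⁻¹ * (y * u * y⁻¹) = 1 := by
        calc y * u * y⁻¹ * (y * u * y⁻¹) = y * (u * u) * y⁻¹ := by group
          _ = 1 := by rw [hu2]; group
      have hune' : y * u * y⁻¹ ≠ 1 := by
        intro e
        apply hune
        have : u = y⁻¹ * (y * u * y⁻¹) * y := by group
        rw [this, e]
        group
      exact aff_inv (hno _ hu1 hu2' hune') hu2' hune'
    obtain ⟨β₁, hβ₁⟩ := hconjI t ht1 ht2 htne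
    obtain ⟨β₂, hβ₂⟩ := hconjI t' ht'1 ht'2 ht'ne
    have ht'a : ∀ z, t' z = -z + β + 2 := by
      intro z
      rw [ht', Perm.mul_apply, Perm.mul_apply]
      have : c⁻¹ z = z - 1 := by
        rw [Perm.inv_eq_iff_eq]
        simp
      rw [this, hβ]
      simp only [Equiv.coe_addRight]
      ring
    have hprod : ∀ z, (t : Perm X) (t' z) = z - 2 := by
      intro z
      rw [ht'a, hβ]
      ring
    set d : X := β₁ - β₂ with hd
    have hyd : ∀ z, y (z - 2) = y z + d := by
      intro z
      have hi : ∀ a : X, y⁻¹ (y a) = a := fun a => y.symm_apply_apply a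
      have h5 := hβ₁ (y (t' z))
      have h6 := hβ₂ (y z)
      simp only [Perm.mul_apply, hi] at h5 h6
      rw [hprod] at h5
      rw [h5, h6, hd]
      ring
    have hyn : ∀ n : ℕ, y (-(2 * (n : X))) = y 0 + n * d := by
      intro n
      induction n with
      | zero => simp
      | succ n ih =>
        have h7 : -(2 * ((n + 1 : ℕ) : X)) = -(2 * (n : X)) - 2 := by
          push_cast
          ring
        rw [h7, hyd, ih]
        push_cast
        ring
    have hd0 : d ≠ 0 := by
      intro e
      have h8 := hyd 0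
      rw [e, add_zero] at h8
      have h9 := y.injective h8
      revert h9
      decide
    refine ⟨-(6 * d), y 0, ?_, fun x => ?_⟩
    · have h6 : (6 : X) ≠ 0 := by decide
      exact neg_ne_zero.mpr (mul_ne_zero h6 hd0)
    · have hn := hyn ((-x * 6 : X).val)
      have h10 : ∀ x : X, -(2 * (-x * 6)) = x := by decide
      rw [ZMod.natCast_zmod_val, h10] at hn
      rw [hn]
      ring
  · exact Cfsg.Agent.Lib.PrimeDegAff.affine_of_odd_order (fun a => addRight_mem hc a) ho hy

/-- Two elements of order eleven of a group of permutations are conjugate up to a power. -/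
theorem sylow_conj (K : Subgroup (Perm X)) {a b : Perm X} (ha : a ∈ K) (hb : b ∈ K)
    (oa : orderOf a = 11) (ob : orderOf b = 11) : ∃ z ∈ K, ∃ k : ℕ, z * a * z⁻¹ = b ^ k := by
  classical
  have h121 : ¬ 121 ∣ Nat.card K := by
    intro h
    have h1 : Nat.card K ∣ Nat.card (Perm X) := Subgroup.card_subgroup_dvd_card K
    have h2 : Nat.card (Perm X) = Nat.factorial 11 := by
      rw [Nat.card_eq_fintype_card, Fintype.card_perm, ZMod.card]
    rw [h2] at h1
    have h3 := h.trans h1
    revert h3
    decide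
  have key : ∀ P : Subgroup K, Nat.card P = 11 → ∃ S : Sylow 11 K, (S : Subgroup K) = P := by
    intro P hP
    have hp : IsPGroup 11 P := IsPGroup.of_card (n := 1) (by rw [hP, pow_one])
    obtain ⟨S, hS⟩ := hp.exists_le_sylow
    refine ⟨S, ?_⟩
    obtain ⟨n, hn⟩ := IsPGroup.iff_card.mp S.isPGroup'
    have hdvd : Nat.card S ∣ Nat.card K := Subgroup.card_subgroup_dvd_card _
    have hn1 : n ≤ 1 := by
      by_contra hgt
      have : 11 ^ 2 ∣ 11 ^ n := pow_dvd_pow 11 (by omega)
      rw [← hn] at this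
      exact h121 (by simpa using this.trans hdvd)
    have hle : Nat.card P ≤ Nat.card S := Subgroup.card_le_of_le hS
    have hS11 : Nat.card S = 11 := by
      rw [hn] at hle ⊢
      rw [hP] at hle
      interval_cases n
      · norm_num at hle
      · norm_num
    exact (Subgroup.eq_of_le_of_card_ge hS (by rw [hS11, hP])).symm
  have ha' : orderOf (⟨a, ha⟩ : K) = 11 := by rw [Subgroup.orderOf_mk]; exact oa
  have hb' : orderOf (⟨b, hb⟩ : K) = 11 := by rw [Subgroup.orderOf_mk]; exact ob
  obtain ⟨S, hS⟩ := key (Subgroup.zpowers ⟨a, ha⟩) (by rw [Nat.card_zpowers, ha'])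
  obtain ⟨T, hT⟩ := key (Subgroup.zpowers ⟨b, hb⟩) (by rw [Nat.card_zpowers, hb'])
  obtain ⟨z, hz⟩ := MulAction.exists_smul_eq K S T
  have h1 : (⟨a, ha⟩ : K) ∈ (S : Subgroup K) := by
    rw [hS]
    exact Subgroup.mem_zpowers _
  have h2 : z * (⟨a, ha⟩ : K) * z⁻¹ ∈ (T : Subgroup K) := by
    rw [← hz, Sylow.coe_subgroup_smul, Subgroup.mem_pointwise_smul_iff_inv_smul_mem]
    simpa [mul_assoc] using h1
  rw [hT, ← mem_powers_iff_mem_zpowers] at h2
  obtain ⟨k, hk⟩ := h2
  refine ⟨z, z.2, k, ?_⟩
  have := congrArg Subtype.val hk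
  simpa using this.symm

/-- Conjugation by a permutation which conjugates the translation to a power of itself gives
an affine map. -/
theorem affine_of_conj {w : Perm X} {k : ℕ} (h : w * c * w⁻¹ = c ^ k) : ∀ x, w x = (k : X) * x + w 0 := by
  have h1 : w * c = c ^ k * w := by
    rw [← h]
    group
  have h2 : ∀ x, w (x + 1) = w x + k := by
    intro x
    have := congrArg (fun f : Perm X => f x) h1
    simp only [Perm.mul_apply, c_pow, Equiv.coe_addRight] at this
    exact this
  have h3 : ∀ n : ℕ, w (n : X) = (k : X) * n + w 0 := by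
    intro n
    induction n with
    | zero => simp
    | succ n ih =>
      push_cast
      rw [h2, ih]
      ring
  intro x
  have := h3 x.val
  rwa [ZMod.natCast_zmod_val] at this

end Cfsg.Agent.Lib.Deg11Group
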