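import Mathlib
import Cfsg.Agent.Lib.Deg11Data

/-!
# The run over the involutions fixing `0`, part 11
-/

set_option autoImplicit false
set_option maxRecDepth 100000
set_option maxHeartbeats 0

namespace Cfsg.Agent.Lib.Deg11Scan
open Cfsg.Agent.Lib.Deg11Eval Cfsg.Agent.Lib.Deg11Data

theorem chunk_4_2 : dfs (fun L => testT (ofL L)) 8 3 [2,4,0] = true := by decide +kernel

theorem chunk_3_7 : dfs (fun L => testT (ofL L)) 8 3 [7,3,0] = true := by decide +kernel

theorem chunk_4_3 : dfs (fun L => testT (ofL L)) 8 3 [3,4,0] = true := by decide +kernel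

theorem chunk_4_8 : dfs (fun L => testT (ofL L)) 8 3 [8,4,0] = true := by decide +kernel

theorem chunk_5_4 : dfs (fun L => testT (ofL L)) 8 3 [4,5,0] = true := by decide +kernel

theorem chunk_6_8 : dfs (fun L => testT (ofL L)) 8 3 [8,6,0] = true := by decide +kernel

theorem chunk_8_3 : dfs (fun L => testT (ofL L)) 8 3 [3,8,0] = true := by decide +kernel

theorem chunk_9_6 : dfs (fun L => testT (ofL L)) 8 3 [6,9,0] = true := by decide +kernel

end Cfsg.Agent.Lib.Deg11Scan
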