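import Mathlib
import Cfsg.Agent.Lib.Deg11Data

/-!
# The run over the involutions fixing `0`, part 6
-/

set_option autoImplicit false
set_option maxRecDepth 100000
set_option maxHeartbeats 0

namespace Cfsg.Agent.Lib.Deg11Scan
open Cfsg.Agent.Lib.Deg11Eval Cfsg.Agent.Lib.Deg11Data

theorem chunk_1_7 : dfs (fun L => testT (ofL L)) 8 3 [7,1,0] = true := by decide +kernel

theorem chunk_9_2 : dfs (fun L => testT (ofL L)) 8 3 [2,9,0] = true := by decide +kernel

theorem chunk_5_10 : dfs (fun L => testT (ofL L)) 8 3 [10,5,0] = true := by decide +kernel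

theorem chunk_7_5 : dfs (fun L => testT (ofL L)) 8 3 [5,7,0] = true := by decide +kernel

theorem chunk_8_9 : dfs (fun L => testT (ofL L)) 8 3 [9,8,0] = true := by decide +kernel

theorem chunk_10_4 : dfs (fun L => testT (ofL L)) 8 3 [4,10,0] = true := by decide +kernel

end Cfsg.Agent.Lib.Deg11Scan
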