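import Mathlib
import Cfsg.Agent.Lib.Deg11Data

/-!
# The run over the involutions fixing `0`, part 7
-/

set_option autoImplicit false
set_option maxRecDepth 100000
set_option maxHeartbeats 0

namespace Cfsg.Agent.Lib.Deg11Scan
open Cfsg.Agent.Lib.Deg11Eval Cfsg.Agent.Lib.Deg11Data

theorem chunk_1_8 : dfs (fun L => testT (ofL L)) 8 3 [8,1,0] = true := by decide +kernel

theorem chunk_10_2 : dfs (fun L => testT (ofL L)) 8 3 [2,10,0] = true := by decide +kernel

theorem chunk_6_3 : dfs (fun L => testT (ofL L)) 8 3 [3,6,0] = true := by decide +kernel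

theorem chunk_7_6 : dfs (fun L => testT (ofL L)) 8 3 [6,7,0] = true := by decide +kernel

theorem chunk_8_10 : dfs (fun L => testT (ofL L)) 8 3 [10,8,0] = true := by decide +kernel

theorem chunk_10_5 : dfs (fun L => testT (ofL L)) 8 3 [5,10,0] = true := by decide +kernel

end Cfsg.Agent.Lib.Deg11Scan
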