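import Mathlib
import Cfsg.Agent.Lib.Deg11Data
import Cfsg.Agent.Lib.Deg11Scan0
import Cfsg.Agent.Lib.Deg11Scan1
import Cfsg.Agent.Lib.Deg11Scan2
import Cfsg.Agent.Lib.Deg11Scan3
import Cfsg.Agent.Lib.Deg11Scan4
import Cfsg.Agent.Lib.Deg11Scan5
import Cfsg.Agent.Lib.Deg11Scan6
import Cfsg.Agent.Lib.Deg11Scan7
import Cfsg.Agent.Lib.Deg11Scan8
import Cfsg.Agent.Lib.Deg11Scan9
import Cfsg.Agent.Lib.Deg11Scan10
import Cfsg.Agent.Lib.Deg11Scan11

/-!
# The run over the involutions fixing `0`
-/

set_option autoImplicit false
set_option maxRecDepth 100000

namespace Cfsg.Agent.Lib.Deg11Scan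
open Cfsg.Agent.Lib.Deg11Eval Cfsg.Agent.Lib.Deg11Data

theorem scan_all (a b : Nat) (ha : a < 11) (hb : b < 11) (h1 : guard [0] 1 a = true)
    (h2 : guard [a, 0] 2 b = true) : dfs (fun L => testT (ofL L)) 8 3 [b, a, 0] = true := by
  interval_cases a
  · exact absurd h1 (by decide)
  · interval_cases b
    · exact absurd h2 (by decide)
    · exact absurd h2 (by decide)
    · exact chunk_1_2
    · exact chunk_1_3
    · exact chunk_1_4
    · exact chunk_1_5
    · exact chunk_1_6
    · exact chunk_1_7
    · exact chunk_1_8
    · exact chunk_1_9
    · exact chunk_1_10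
  · interval_cases b
    · exact absurd h2 (by decide)
    · exact chunk_2_1
    · exact absurd h2 (by decide)
    · exact absurd h2 (by decide)
    · exact absurd h2 (by decide)
    · exact absurd h2 (by decide)
    · exact absurd h2 (by decide)
    · exact absurd h2 (by decide)
    · exact absurd h2 (by decide)
    · exact absurd h2 (by decide)
    · exact absurd h2 (by decide)
  · interval_cases b
    · exact absurd h2 (by decide)
    · exact absurd h2 (by decide)
    · exact chunk_3_2
    · exact absurd h2 (by decide)
    · exact chunk_3_4
    · exact chunk_3_5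
    · exact chunk_3_6
    · exact chunk_3_7
    · exact chunk_3_8
    · exact chunk_3_9
    · exact chunk_3_10
  · interval_cases b
    · exact absurd h2 (by decide)
    · exact absurd h2 (by decide)
    · exact chunk_4_2
    · exact chunk_4_3
    · exact absurd h2 (by decide)
    · exact chunk_4_5
    · exact chunk_4_6
    · exact chunk_4_7
    · exact chunk_4_8
    · exact chunk_4_9
    · exact chunk_4_10
  · interval_cases b
    · exact absurd h2 (by decide)
    · exact absurd h2 (by decide)
    · exact chunk_5_2
    · exact chunk_5_3
    · exact chunk_5_4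
    · exact absurd h2 (by decide)
    · exact chunk_5_6
    · exact chunk_5_7
    · exact chunk_5_8
    · exact chunk_5_9
    · exact chunk_5_10
  · interval_cases b
    · exact absurd h2 (by decide)
    · exact absurd h2 (by decide)
    · exact chunk_6_2
    · exact chunk_6_3
    · exact chunk_6_4
    · exact chunk_6_5
    · exact absurd h2 (by decide)
    · exact chunk_6_7
    · exact chunk_6_8
    · exact chunk_6_9
    · exact chunk_6_10
  · interval_cases b
    · exact absurd h2 (by decide)
    · exact absurd h2 (by decide)
    · exact chunk_7_2
    · exact chunk_7_3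
    · exact chunk_7_4
    · exact chunk_7_5
    · exact chunk_7_6
    · exact absurd h2 (by decide)
    · exact chunk_7_8
    · exact chunk_7_9
    · exact chunk_7_10
  · interval_cases b
    · exact absurd h2 (by decide)
    · exact absurd h2 (by decide)
    · exact chunk_8_2
    · exact chunk_8_3
    · exact chunk_8_4
    · exact chunk_8_5
    · exact chunk_8_6
    · exact chunk_8_7
    · exact absurd h2 (by decide)
    · exact chunk_8_9
    · exact chunk_8_10
  · interval_cases b
    · exact absurd h2 (by decide)
    · exact absurd h2 (by decide)
    · exact chunk_9_2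
    · exact chunk_9_3
    · exact chunk_9_4
    · exact chunk_9_5
    · exact chunk_9_6
    · exact chunk_9_7
    · exact chunk_9_8
    · exact absurd h2 (by decide)
    · exact chunk_9_10
  · interval_cases b
    · exact absurd h2 (by decide)
    · exact absurd h2 (by decide)
    · exact chunk_10_2
    · exact chunk_10_3
    · exact chunk_10_4
    · exact chunk_10_5
    · exact chunk_10_6
    · exact chunk_10_7
    · exact chunk_10_8
    · exact chunk_10_9
    · exact absurd h2 (by decide)

end Cfsg.Agent.Lib.Deg11Scan
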