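import Mathlib
import Cfsg.Agent.Lib.Deg11Group
import Cfsg.Agent.Lib.Deg11Scan

/-!
# Transitive groups of degree eleven containing a given eleven-cycle
-/

set_option autoImplicit false
set_option maxRecDepth 100000

namespace Cfsg.Agent.Lib.Deg11Core

open Equiv Equiv.Perm Cfsg.Agent.Lib.Deg11Eval Cfsg.Agent.Lib.Deg11Data
  Cfsg.Agent.Lib.Deg11Group Cfsg.Agent.Lib.Deg11Scan

theorem guard_spec (f : ℕ → ℕ) (k v : ℕ) : ∀ j, (∀ i < j, f i ≠ v ∧ (f i = k ↔ v = i)) →
    guard ((List.range j).map f).reverse k v = true := by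
  intro j
  induction j with
  | zero => intro _; rfl
  | succ j ih =>
    intro h
    rw [List.range_succ, List.map_append, List.reverse_append]
    simp only [List.map_cons, List.map_nil, List.reverse_cons, List.reverse_nil, List.nil_append,
      List.cons_append]
    rw [Deg11Data.guard]
    have hj := h j (by omega)
    have h1 : (Nat.beq (f j) v) = false := by
      rw [Bool.eq_false_iff]
      intro e
      exact hj.1 (Nat.eq_of_beq_eq_true e)
    have hlen : (((List.range j).map f).reverse).length = j := by simp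
    have h2 : ((Nat.beq (f j) k) == (Nat.beq v (((List.range j).map f).reverse).length)) = true := by
      rw [hlen]
      by_cases e : f j = k
      · have e' : v = j := hj.2.mp e
        rw [e, e', Nat.beq_refl, Nat.beq_refl]
        rfl
      · have e' : v ≠ j := fun e2 => e (hj.2.mpr e2)
        have a1 : Nat.beq (f j) k = false := by
          rw [Bool.eq_false_iff]
          intro e3
          exact e (Nat.eq_of_beq_eq_true e3)
        have a2 : Nat.beq v j = false := by
          rw [Bool.eq_false_iff]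
          intro e3
          exact e' (Nat.eq_of_beq_eq_true e3)
        rw [a1, a2]
        rfl
    rw [h1, h2, ih (fun i hi => h i (by omega))]
    rfl

theorem dfs_spec (T : List ℕ → Bool) (f : ℕ → ℕ) (hf : ∀ i < 11, f i < 11)
    (hinj : ∀ i < 11, ∀ j < 11, f i = f j → i = j) (hinv : ∀ i < 11, f (f i) = i) :
    ∀ n k, k + n = 11 → dfs T n k ((List.range k).map f).reverse = true →
      T ((List.range 11).map f) = true := by
  intro n
  induction n with
  | zero =>
    intro k hk h
    have hk' : k = 11 := by omega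
    subst hk'
    rw [dfs, List.reverse_reverse] at h
    exact h
  | succ n ih =>
    intro k hk h
    have hk' : k < 11 := by omega
    rw [dfs, List.all_eq_true] at h
    have h1 := h (f k) (List.mem_range.mpr (hf k hk'))
    have hg : guard ((List.range k).map f).reverse k (f k) = true := by
      apply guard_spec
      intro i hi
      constructor
      · intro e
        have := hinj i (by omega) k hk' e
        omega
      · constructor
        · intro e
          have h2 := hinv i (by omega)
          rw [e] at h2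
          exact h2
        · intro e
          have h2 := hinv k hk'
          rw [e] at h2
          exact h2
    rw [hg] at h1
    simp only [Bool.not_true, Bool.false_or] at h1
    apply ih (k + 1) (by omega)
    rw [List.range_succ, List.map_append, List.reverse_append]
    simpa using h1

theorem scan_spec (g : Perm X) (h2 : g * g = 1) (h0 : g 0 = 0) : testT (code g) = true := by
  have hgg : ∀ x, g (g x) = x := fun x => by
    rw [← Perm.mul_apply, h2]; rfl
  let f : ℕ → ℕ := fun i => (g (i : X)).val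
  have hcast : ∀ i : ℕ, i < 11 → ((i : X)).val = i := fun i hi => ZMod.val_cast_of_lt hi
  have hf : ∀ i < 11, f i < 11 := fun i _ => ZMod.val_lt _
  have hinj : ∀ i < 11, ∀ j < 11, f i = f j → i = j := by
    intro i hi j hj e
    have h3 : g (i : X) = g (j : X) := ZMod.val_injective 11 e
    have h4 := g.injective h3
    have h5 := congrArg ZMod.val h4
    rwa [hcast i hi, hcast j hj] at h5
  have hinv : ∀ i < 11, f (f i) = i := by
    intro i hi
    show (g (((g (i : X)).val : ℕ) : X)).val = i
    rw [ZMod.natCast_zmod_val, hgg, hcast i hi]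
  have hf0 : f 0 = 0 := by
    show (g ((0 : ℕ) : X)).val = 0
    rw [Nat.cast_zero, h0]
    rfl
  have hr : ∀ k : ℕ, (((List.range 11).map f) = [f 0, f 1, f 2, f 3, f 4, f 5, f 6, f 7, f 8, f 9, f 10]) :=
    fun _ => rfl
  have hcode : ofL ((List.range 11).map f) = code g := by
    rw [hr 0]
    rfl
  have hk2 : ((List.range 3).map f).reverse = [f 2, f 1, 0] := by
    show [f 2, f 1, f 0] = _
    rw [hf0]
  have hg1 : guard [0] 1 (f 1) = true := by
    have := guard_spec f 1 (f 1) 1 (by
      intro i hi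
      have hi0 : i = 0 := by omega
      subst hi0
      refine ⟨fun e => ?_, fun e => ?_, fun e => ?_⟩
      · have := hinj 0 (by omega) 1 (by omega) e
        omega
      · have h3 := hinv 0 (by omega)
        rw [e] at h3
        exact h3
      · have h3 := hinv 1 (by omega)
        rw [e] at h3
        exact h3)
    have e : ((List.range 1).map f).reverse = [0] := by
      show [f 0] = _
      rw [hf0]
    rwa [e] at this
  have hg2 : guard [f 1, 0] 2 (f 2) = true := by
    have := guard_spec f 2 (f 2) 2 (by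
      intro i hi
      refine ⟨fun e => ?_, fun e => ?_, fun e => ?_⟩
      · have := hinj i (by omega) 2 (by omega) e
        omega
      · have h3 := hinv i (by omega)
        rw [e] at h3
        exact h3
      · have h3 := hinv 2 (by omega)
        rw [e] at h3
        exact h3)
    have e : ((List.range 2).map f).reverse = [f 1, 0] := by
      show [f 1, f 0] = _
      rw [hf0]
    rwa [e] at this
  have h3 := scan_all (f 1) (f 2) (hf 1 (by omega)) (hf 2 (by omega)) hg1 hg2
  rw [← hk2] at h3
  have h4 : testT (ofL ((List.range 11).map f)) = true :=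
    dfs_spec (fun L => testT (ofL L)) f hf hinj hinv 8 3 (by omega) h3
  rwa [hcode] at h4

/-- The classification of involutions fixing `0`. -/
theorem scan_cases {G : Subgroup (Perm X)} (hno : NoPC G) (hc : c ∈ G) {h : Perm X} (hh : h ∈ G)
    (h2 : h * h = 1) (h0 : h 0 = 0) : h = 1 ∨ code h = negN ∨ code h ∈ E1 ∨ code h ∈ E2 := by
  have ht := scan_spec h h2 h0
  unfold testT at ht
  simp only [Bool.or_eq_true] at ht
  rcases ht with (((ht | ht) | ht) | ht) | ht
  · exfalso
    refine cert_false hno ?_ ht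
    intro a ha
    rcases List.mem_append.mp ha with ha | ha
    · exact gen_cPows hc a ha
    · rw [List.mem_singleton] at ha
      rw [ha]
      exact ⟨h, hh, rep_code h⟩
  · left
    have e : code h = idN := Nat.eq_of_beq_eq_true ht
    exact (rep_code h).ext (by rw [e]; exact rep_one)
  · right; left
    exact Nat.eq_of_beq_eq_true ht
  · right; right; left
    unfold memN at ht
    rw [List.any_eq_true] at ht
    obtain ⟨x, hx, e⟩ := ht
    rwa [Nat.eq_of_beq_eq_true e]
  · right; right; right
    unfold memN at ht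
    rw [List.any_eq_true] at ht
    obtain ⟨x, hx, e⟩ := ht
    rwa [Nat.eq_of_beq_eq_true e]

theorem no_L2 {G : Subgroup (Perm X)} (hno : NoPC G) (hc : c ∈ G) (hg : g1 ∈ G) {x : ℕ}
    (hx : x ∈ negN :: E2) (hG : Gen G x) : False := by
  have h := List.all_eq_true.mp check_L2 x hx
  refine cert_false hno ?_ h
  intro a ha
  rcases List.mem_append.mp ha with ha | ha
  · exact gen_cPows hc a ha
  · simp only [List.mem_cons, List.not_mem_nil, or_false] at ha
    rcases ha with rfl | rfl
    · exact ⟨g1, hg, rep_g1⟩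
    · exact hG

theorem inv_E1 {G : Subgroup (Perm X)} (hno : NoPC G) (hc : c ∈ G) (hg : g1 ∈ G) {h : Perm X}
    (hh : h ∈ G) (h2 : h * h = 1) (h0 : h 0 = 0) (hne : h ≠ 1) : code h ∈ E1 := by
  have hGen : Gen G (code h) := ⟨h, hh, rep_code h⟩
  rcases scan_cases hno hc hh h2 h0 with e | e | e | e
  · exact absurd e hne
  · exact (no_L2 hno hc hg (by rw [e]; simp) hGen).elim
  · exact e
  · exact (no_L2 hno hc hg (by simp [e]) hGen).elim

/-- The subgroup generated by the translation and the first generator. -/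
def U1 : Subgroup (Perm X) := Subgroup.closure {c, g1}

/-- The subgroup generated by the translation and the second generator. -/
def U0 : Subgroup (Perm X) := Subgroup.closure {c, g0}

theorem c_mem_U1 : c ∈ U1 := Subgroup.subset_closure (by simp)
theorem g1_mem_U1 : g1 ∈ U1 := Subgroup.subset_closure (by simp)
theorem c_mem_U0 : c ∈ U0 := Subgroup.subset_closure (by simp)
theorem g0_mem_U0 : g0 ∈ U0 := Subgroup.subset_closure (by simp)

theorem gen_env {H : Subgroup (Perm X)} (hc : c ∈ H) {σ : Perm X} {x : ℕ} (hσ : σ ∈ H) (hr : PRep σ x) :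
    ∀ a ∈ cPows ++ [x], Gen H a := by
  intro a ha
  rcases List.mem_append.mp ha with ha | ha
  · exact gen_cPows hc a ha
  · rw [List.mem_singleton] at ha
    rw [ha]
    exact ⟨σ, hσ, hr⟩

theorem tabA_spec {x : ℕ} (hx : x ∈ tabA.map Prod.fst) :
    ∃ w w', evalW (cPows ++ [x]) w = g1N ∧ evalW (cPows ++ [g1N]) w' = x := by
  obtain ⟨r, hr, rfl⟩ := List.mem_map.mp hx
  have h := List.all_eq_true.mp check_tabA r hr
  simp only [Bool.and_eq_true] at h
  exact ⟨r.2.1, r.2.2, Nat.eq_of_beq_eq_true h.1, Nat.eq_of_beq_eq_true h.2⟩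

theorem tabB_spec {x : ℕ} (hx : x ∈ tabB.map Prod.fst) :
    ∃ w w', evalW (cPows ++ [x]) w = g0N ∧ evalW (cPows ++ [g0N]) w' = x := by
  obtain ⟨r, hr, rfl⟩ := List.mem_map.mp hx
  have h := List.all_eq_true.mp check_tabB r hr
  simp only [Bool.and_eq_true] at h
  exact ⟨r.2.1, r.2.2, Nat.eq_of_beq_eq_true h.1, Nat.eq_of_beq_eq_true h.2⟩

theorem mem_E1_cases {x : ℕ} (hx : x ∈ E1) : x ∈ tabA.map Prod.fst ∨ x ∈ tabB.map Prod.fst := by
  rw [check_E1] at hx
  exact List.mem_append.mp hx

theorem g1_mem_U0 : g1 ∈ U0 := by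
  have h : Gen U0 g1N := by
    rw [← check_wG]
    exact gen_evalW (gen_env c_mem_U0 g0_mem_U0 rep_g0) _
  exact h.mem rep_g1

theorem U1_le_U0 : U1 ≤ U0 := by
  rw [U1, Subgroup.closure_le]
  intro y hy
  simp only [Set.mem_insert_iff, Set.mem_singleton_iff] at hy
  rcases hy with rfl | rfl
  · exact c_mem_U0
  · exact g1_mem_U0

theorem mem_U1_of {h : Perm X} {x : ℕ} (hr : PRep h x) (hx : x ∈ tabA.map Prod.fst) : h ∈ U1 := by
  obtain ⟨w, w', -, e⟩ := tabA_spec hx
  have : Gen U1 x := by
    rw [← e]
    exact gen_evalW (gen_env c_mem_U1 g1_mem_U1 rep_g1) _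
  exact this.mem hr

theorem mem_U0_of {h : Perm X} {x : ℕ} (hr : PRep h x) (hx : x ∈ E1) : h ∈ U0 := by
  rcases mem_E1_cases hx with hx | hx
  · exact U1_le_U0 (mem_U1_of hr hx)
  · obtain ⟨w, w', -, e⟩ := tabB_spec hx
    have : Gen U0 x := by
      rw [← e]
      exact gen_evalW (gen_env c_mem_U0 g0_mem_U0 rep_g0) _
    exact this.mem hr

theorem g0_mem_of {H : Subgroup (Perm X)} (hc : c ∈ H) {h : Perm X} {x : ℕ} (hh : h ∈ H) (hr : PRep h x)
    (hx : x ∈ tabB.map Prod.fst) : g0 ∈ H := by
  obtain ⟨w, w', e, -⟩ := tabB_spec hx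
  have : Gen H g0N := by
    rw [← e]
    exact gen_evalW (gen_env hc hh hr) _
  exact this.mem rep_g0

theorem g1_mem_of {H : Subgroup (Perm X)} (hc : c ∈ H) {h : Perm X} {x : ℕ} (hh : h ∈ H) (hr : PRep h x)
    (hx : x ∈ E1) : g1 ∈ H := by
  rcases mem_E1_cases hx with hx | hx
  · obtain ⟨w, w', e, -⟩ := tabA_spec hx
    have : Gen H g1N := by
      rw [← e]
      exact gen_evalW (gen_env hc hh hr) _
    exact this.mem rep_g1
  · have hg0 := g0_mem_of hc hh hr hx
    have : Gen H g1N := by
      rw [← check_wG]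
      exact gen_evalW (gen_env hc hg0 rep_g0) _
    exact this.mem rep_g1

theorem tabC_spec {x : ℕ} (hx : x ∈ E1) : ∃ w, evalW (conjL x) w = cN := by
  rw [check_E1C] at hx
  obtain ⟨r, hr, rfl⟩ := List.mem_map.mp hx
  have h := List.all_eq_true.mp check_tabC r hr
  exact ⟨r.2, Nat.eq_of_beq_eq_true h⟩

theorem check_inv : E1.all (fun x => Nat.beq (Deg11Eval.comp x x) idN && !(Nat.beq (cnt x 11) 0)) = true := by
  decide +kernel

theorem inv_of_E1 {h : Perm X} {x : ℕ} (hr : PRep h x) (hx : x ∈ E1) : h * h = 1 ∧ h ≠ 1 := by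
  have h1 := List.all_eq_true.mp check_inv x hx
  simp only [Bool.and_eq_true, Bool.not_eq_true'] at h1
  constructor
  · have e := Nat.eq_of_beq_eq_true h1.1
    exact (hr.mul hr).ext (by rw [e]; exact rep_one)
  · rintro rfl
    have h2 := card_support hr
    simp only [Perm.support_one, Finset.card_empty] at h2
    rw [← h2] at h1
    have := h1.2
    revert this
    decide

/-- A subgroup of `G`, invariant under conjugation, and containing the translation, an element
of order five of the normalizer: it contains `G`, if `G` does not contain negation. -/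
theorem le_of_normal {G K : Subgroup (Perm X)} (hKG : K ≤ G) (hcK : c ∈ K) (hmu : mu3P ∈ K)
    (hn : ∀ y ∈ G, ∀ z ∈ K, y * z * y⁻¹ ∈ K) (hneg : negP ∉ G) : G ≤ K := by
  intro y hy
  have hco : orderOf c = 11 := by
    have h1 : c ^ 11 = 1 := Equiv.ext fun x => by
      rw [c_pow]
      have : ((11 : ℕ) : X) = 0 := by decide
      rw [this, add_zero]
      rfl
    have h2 : c ≠ 1 := by
      intro e
      have := congrArg (fun f : Perm X => f 0) e
      revert this
      decide
    exact orderOf_eq_prime h1 h2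
  have ha : y * c * y⁻¹ ∈ K := hn y hy c hcK
  have hao : orderOf (y * c * y⁻¹) = 11 := by
    have h1 : (y * c * y⁻¹) ^ 11 = 1 := by
      have hc11 : c ^ 11 = 1 := by
        rw [← hco]
        exact pow_orderOf_eq_one c
      rw [conj_pow, hc11]
      group
    have h2 : y * c * y⁻¹ ≠ 1 := by
      intro e
      have h3 : c = y⁻¹ * (y * c * y⁻¹) * y := by group
      rw [e] at h3
      have h4 : c = 1 := by rw [h3]; group
      rw [h4, orderOf_one] at hco
      omega
    exact orderOf_eq_prime h1 h2
  obtain ⟨z, hz, k, hk⟩ := sylow_conj K ha hcK hao hco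
  set w : Perm X := z * y with hw
  have hwG : w ∈ G := G.mul_mem (hKG hz) hy
  have hwc : w * c * w⁻¹ = c ^ k := by
    rw [← hk, hw]
    group
  have haff := affine_of_conj hwc
  have hk0 : (k : X) ≠ 0 := by
    intro e
    have h1 : c ^ k = 1 := Equiv.ext fun x => by
      rw [c_pow, e, add_zero]
      rfl
    have h2 : w * c * w⁻¹ = 1 := by rw [hwc, h1]
    have h3 : c = w⁻¹ * (w * c * w⁻¹) * w := by group
    rw [h2] at h3
    have h4 : c = 1 := by rw [h3]; group
    rw [h4, orderOf_one] at hco
    omega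
  -- the linear part
  set w₀ : Perm X := (Equiv.addRight (-(w 0)) : Perm X) * w with hw₀
  have hw₀a : ∀ x, w₀ x = (k : X) * x := by
    intro x
    rw [hw₀, Perm.mul_apply, haff x]
    simp
  have hw₀G : w₀ ∈ G := G.mul_mem (hKG (addRight_mem hcK _)) hwG
  have hkc : ∀ k : X, k ≠ 0 → (∃ j : Fin 5, k = 3 ^ (j : ℕ)) ∨ (∃ j : Fin 5, k * 3 ^ (j : ℕ) = -1) := by
    decide
  rcases hkc _ hk0 with ⟨j, hj⟩ | ⟨j, hj⟩
  · have h1 : w₀ = mu3P ^ (j : ℕ) := Equiv.ext fun x => by
      rw [hw₀a, mu3P_pow, hj]
    have h2 : w₀ ∈ K := by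
      rw [h1]
      exact K.pow_mem hmu _
    have h3 : w = (Equiv.addRight (w 0) : Perm X) * w₀ := by
      rw [hw₀]
      ext x
      simp
    have h4 : w ∈ K := by
      rw [h3]
      exact K.mul_mem (addRight_mem hcK _) h2
    have h5 : y = z⁻¹ * w := by
      rw [hw]
      group
    rw [h5]
    exact K.mul_mem (K.inv_mem hz) h4
  · exfalso
    apply hneg
    have h1 : negP = w₀ * mu3P ^ (j : ℕ) := Equiv.ext fun x => by
      rw [Perm.mul_apply, mu3P_pow, hw₀a, ← mul_assoc, hj]
      simp
    rw [h1]
    exact G.mul_mem hw₀G (G.pow_mem (hKG hmu) _)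

theorem mu3_mem_U1 : mu3P ∈ U1 := by
  have h : Gen U1 mu3N := by
    rw [← check_wMu]
    exact gen_evalW (gen_env c_mem_U1 g1_mem_U1 rep_g1) _
  exact h.mem rep_mu3P

/-- The main dichotomy for groups containing the translation and an involution of the first kind. -/
theorem main_core (G : Subgroup (Perm X)) (hno : NoPC G) (hc : c ∈ G) {g2 : Perm X} {x : ℕ}
    (hg2 : g2 ∈ G) (hr : PRep g2 x) (hx : x ∈ E1) : G = U1 ∨ G = U0 := by
  have hg1 : g1 ∈ G := g1_mem_of hc hg2 hr hx
  have hE : ∀ h ∈ G, h * h = 1 → h 0 = 0 → h ≠ 1 → code h ∈ E1 :=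
    fun h hh h2 h0 hne => inv_E1 hno hc hg1 hh h2 h0 hne
  have hneg : negP ∉ G := fun h => no_L2 hno hc hg1 (by simp) ⟨negP, h, rep_negP⟩
  -- the subgroup generated by involutions
  set S : Set (Perm X) := {h | h ∈ G ∧ h * h = 1 ∧ h ≠ 1} with hS
  set K : Subgroup (Perm X) := Subgroup.closure S with hK
  have hKG : K ≤ G := by
    rw [hK, Subgroup.closure_le]
    intro h hh
    exact hh.1
  have hSn : ∀ y ∈ G, ∀ z ∈ S, y * z * y⁻¹ ∈ S := by
    intro y hy z hz
    refine ⟨G.mul_mem (G.mul_mem hy hz.1) (G.inv_mem hy), ?_, ?_⟩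
    · calc y * z * y⁻¹ * (y * z * y⁻¹) = y * (z * z) * y⁻¹ := by group
        _ = 1 := by rw [hz.2.1]; group
    · intro e
      apply hz.2.2
      have : z = y⁻¹ * (y * z * y⁻¹) * y := by group
      rw [this, e]
      group
  have hn : ∀ y ∈ G, ∀ z ∈ K, y * z * y⁻¹ ∈ K := by
    intro y hy z hz
    induction hz using Subgroup.closure_induction with
    | mem u hu => exact Subgroup.subset_closure (hSn y hy u hu)
    | one => simp
    | mul a b _ _ ha hb =>
      have : y * (a * b) * y⁻¹ = (y * a * y⁻¹) * (y * b * y⁻¹) := by group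
      rw [this]
      exact K.mul_mem ha hb
    | inv a _ ha =>
      have : y * a⁻¹ * y⁻¹ = (y * a * y⁻¹)⁻¹ := by group
      rw [this]
      exact K.inv_mem ha
  have hg2S : g2 ∈ S := ⟨hg2, inv_of_E1 hr hx⟩
  have hg2K : g2 ∈ K := Subgroup.subset_closure hg2S
  -- the translation lies in `K`
  have hcK : c ∈ K := by
    obtain ⟨w, hw⟩ := tabC_spec hx
    have hconj : ∀ a ∈ conjL x, Gen K a := by
      intro a ha
      obtain ⟨p, hp, rfl⟩ := List.mem_map.mp ha
      obtain ⟨k, hk1, hk2⟩ := check_cPairs p hp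
      refine ⟨c ^ (k : ℕ) * g2 * (c ^ (k : ℕ))⁻¹, hn _ (G.pow_mem hc _) _ hg2K, ?_⟩
      refine (PRep.mul ?_ hr).mul ?_
      · intro y
        rw [c_pow]
        exact hk1 y
      · intro y
        rw [c_pow_inv]
        exact hk2 y
    have : Gen K cN := by
      rw [← hw]
      exact gen_evalW hconj _
    exact this.mem rep_c
  have hg1K : g1 ∈ K := g1_mem_of hcK hg2K hr hx
  have hU1K : U1 ≤ K := by
    rw [U1, Subgroup.closure_le]
    intro y hy
    simp only [Set.mem_insert_iff, Set.mem_singleton_iff] at hy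
    rcases hy with rfl | rfl
    · exact hcK
    · exact hg1K
  have hmu : mu3P ∈ K := hU1K mu3_mem_U1
  have hGK : G ≤ K := le_of_normal hKG hcK hmu hn hneg
  have hGeq : G = K := le_antisymm hGK hKG
  -- conjugating an involution to fix `0`
  have hfix : ∀ h ∈ S, ∃ a : X, (Equiv.addRight a : Perm X) * h * (Equiv.addRight a : Perm X)⁻¹ ∈ S ∧
      ((Equiv.addRight a : Perm X) * h * (Equiv.addRight a : Perm X)⁻¹) 0 = 0 := by
    intro h hh
    have hpow : h ^ 2 ^ 1 = 1 := by
      rw [pow_one, pow_two]
      exact hh.2.1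
    obtain ⟨p, hp⟩ := Equiv.Perm.exists_fixed_point_of_prime (p := 2) (n := 1)
      (by rw [ZMod.card]; norm_num) hpow
    refine ⟨-p, hSn _ (addRight_mem hc _) _ hh, ?_⟩
    rw [Perm.mul_apply, Perm.mul_apply]
    have h1 : (Equiv.addRight (-p) : Perm X)⁻¹ 0 = p := by
      rw [Perm.inv_eq_iff_eq]
      simp
    rw [h1, hp]
    simp
  by_cases hd : ∃ h ∈ S, h 0 = 0 ∧ code h ∈ tabB.map Prod.fst
  · right
    obtain ⟨h, hh, -, hcode⟩ := hd
    have hg0 : g0 ∈ K := g0_mem_of hcK (Subgroup.subset_closure hh) (rep_code h) hcode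
    rw [hGeq]
    apply le_antisymm
    · rw [hK, Subgroup.closure_le]
      intro u hu
      obtain ⟨a, ha, ha0⟩ := hfix u hu
      have h1 := hE _ ha.1 ha.2.1 ha0 ha.2.2
      have h2 := mem_U0_of (rep_code _) h1
      have h3 : u = (Equiv.addRight a : Perm X)⁻¹ * ((Equiv.addRight a : Perm X) * u *
          (Equiv.addRight a : Perm X)⁻¹) * (Equiv.addRight a : Perm X) := by group
      rw [h3]
      exact U0.mul_mem (U0.mul_mem (U0.inv_mem (addRight_mem c_mem_U0 _)) h2) (addRight_mem c_mem_U0 _)
    · rw [U0, Subgroup.closure_le]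
      intro y hy
      simp only [Set.mem_insert_iff, Set.mem_singleton_iff] at hy
      rcases hy with rfl | rfl
      · exact hcK
      · exact hg0
  · left
    push Not at hd
    rw [hGeq]
    apply le_antisymm
    · rw [hK, Subgroup.closure_le]
      intro u hu
      obtain ⟨a, ha, ha0⟩ := hfix u hu
      have h1 := hE _ ha.1 ha.2.1 ha0 ha.2.2
      have h1' : code ((Equiv.addRight a : Perm X) * u * (Equiv.addRight a : Perm X)⁻¹) ∈
          tabA.map Prod.fst := by
        rcases mem_E1_cases h1 with h4 | h4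
        · exact h4
        · exact (hd _ ha ha0 h4).elim
      have h2 := mem_U1_of (rep_code _) h1'
      have h3 : u = (Equiv.addRight a : Perm X)⁻¹ * ((Equiv.addRight a : Perm X) * u *
          (Equiv.addRight a : Perm X)⁻¹) * (Equiv.addRight a : Perm X) := by group
      rw [h3]
      exact U1.mul_mem (U1.mul_mem (U1.inv_mem (addRight_mem c_mem_U1 _)) h2) (addRight_mem c_mem_U1 _)
    · exact hU1K

end Cfsg.Agent.Lib.Deg11Core
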