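import Mathlib
import Cfsg.Agent.Lib.Deg11Core
import Cfsg.Agent.S0426
import Cfsg.Agent.Lib.SteinerAut

/-!
# Non-solvable transitive groups of degree eleven
-/

set_option autoImplicit false
set_option maxRecDepth 100000

namespace Cfsg.Agent.Lib.Deg11Class

open Equiv Equiv.Perm Cfsg.Agent.Lib.Deg11Eval Cfsg.Agent.Lib.Deg11Data
  Cfsg.Agent.Lib.Deg11Group Cfsg.Agent.Lib.Deg11Core MulAction

/-! ### The Steiner system -/

/-- The subset encoded by a bit mask. -/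
def toF (m : ℕ) : Finset X := Finset.univ.filter (fun i => Nat.testBit m i.val = true)

/-- The system of blocks. -/
def B1 : Set (Finset X) := {b | ∃ m ∈ masks, b = toF m}

theorem check_card : ∀ m ∈ masks, (toF m).card = 5 := by decide +kernel

theorem check_steiner : ∀ s : Finset X, s.card = 4 →
    (masks.filter (fun m => decide (∀ x ∈ s, Nat.testBit m x.val = true))).length = 1 := by
  decide +kernel

theorem steiner : Cfsg.IsSteinerSystem 4 5 B1 := by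
  refine ⟨?_, ?_⟩
  · rintro b ⟨m, hm, rfl⟩
    exact check_card m hm
  · intro s hs
    have h1 := check_steiner s hs
    obtain ⟨m₀, hm₀⟩ := List.length_eq_one_iff.mp h1
    have hmem : ∀ m, m ∈ masks ∧ (∀ x ∈ s, Nat.testBit m x.val = true) ↔ m = m₀ := by
      intro m
      have h2 : m ∈ masks.filter (fun m => decide (∀ x ∈ s, Nat.testBit m x.val = true)) ↔ m = m₀ := by
        rw [hm₀]
        simp
      rw [← h2, List.mem_filter]
      simp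
    have hsub : ∀ m, s ⊆ toF m ↔ ∀ x ∈ s, Nat.testBit m x.val = true := by
      intro m
      simp [toF, Finset.subset_iff]
    obtain ⟨h3, h4⟩ := (hmem m₀).mpr rfl
    refine ⟨toF m₀, ⟨⟨m₀, h3, rfl⟩, (hsub m₀).mpr h4⟩, ?_⟩
    rintro b ⟨⟨m, hm, rfl⟩, hb⟩
    have h5 := (hmem m).mp ⟨hm, (hsub m).mp hb⟩
    rw [h5]

theorem check_img_c : ∀ m ∈ masks, ∃ m' ∈ masks, (toF m).image c = toF m' := by decide +kernel

theorem check_img_c' : ∀ m ∈ masks, ∃ m' ∈ masks, (toF m').image c = toF m := by decide +kernel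

theorem check_img_g : ∀ m ∈ masks, ∃ m' ∈ masks, (toF m).image g0 = toF m' := by decide +kernel

theorem check_img_g' : ∀ m ∈ masks, ∃ m' ∈ masks, (toF m').image g0 = toF m := by decide +kernel

theorem c_mem : c ∈ Cfsg.setSystemAut B1 := by
  rw [Cfsg.Agent.Lib.SteinerAut.mem_aut_iff]
  ext x
  constructor
  · rintro ⟨y, ⟨m, hm, rfl⟩, rfl⟩
    obtain ⟨m', hm', h⟩ := check_img_c m hm
    exact ⟨m', hm', h⟩
  · rintro ⟨m, hm, rfl⟩
    obtain ⟨m', hm', h⟩ := check_img_c' m hm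
    exact ⟨toF m', ⟨m', hm', rfl⟩, h⟩

theorem g0_mem : g0 ∈ Cfsg.setSystemAut B1 := by
  rw [Cfsg.Agent.Lib.SteinerAut.mem_aut_iff]
  ext x
  constructor
  · rintro ⟨y, ⟨m, hm, rfl⟩, rfl⟩
    obtain ⟨m', hm', h⟩ := check_img_g m hm
    exact ⟨m', hm', h⟩
  · rintro ⟨m, hm, rfl⟩
    obtain ⟨m', hm', h⟩ := check_img_g' m hm
    exact ⟨toF m', ⟨m', hm', rfl⟩, h⟩

theorem U0_le : U0 ≤ Cfsg.setSystemAut B1 := by
  rw [U0, Subgroup.closure_le]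
  intro y hy
  simp only [Set.mem_insert_iff, Set.mem_singleton_iff] at hy
  rcases hy with rfl | rfl
  · exact c_mem
  · exact g0_mem

/-- The environment of the second generator. -/
abbrev env0 : List ℕ := cPows ++ [g0N]

theorem check_T2 : ∀ b : X, b ≠ 0 → b = 1 ∨ ∃ w ∈ tT2, dig (evalW env0 w) 0 = 0 ∧ dig (evalW env0 w) 1 = b.val := by
  decide +kernel

theorem check_T3 : ∀ b : X, b ≠ 0 → b ≠ 1 → b = 2 ∨ ∃ w ∈ tT3, dig (evalW env0 w) 0 = 0 ∧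
    dig (evalW env0 w) 1 = 1 ∧ dig (evalW env0 w) 2 = b.val := by
  decide +kernel

theorem check_T4 : ∀ b : X, b ≠ 0 → b ≠ 1 → b ≠ 2 → b = 3 ∨ ∃ w ∈ tT4, dig (evalW env0 w) 0 = 0 ∧
    dig (evalW env0 w) 1 = 1 ∧ dig (evalW env0 w) 2 = 2 ∧ dig (evalW env0 w) 3 = b.val := by
  decide +kernel

theorem gen0 (w : List ℕ) : Gen U0 (evalW env0 w) := gen_evalW (gen_env c_mem_U0 g0_mem_U0 rep_g0) w

theorem ex_T2 (b : X) (hb : b ≠ 0) : ∃ τ ∈ U0, τ 0 = 0 ∧ τ 1 = b := by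
  rcases check_T2 b hb with rfl | ⟨w, -, h0, h1⟩
  · exact ⟨1, U0.one_mem, rfl, rfl⟩
  · obtain ⟨τ, hτ, hr⟩ := gen0 w
    exact ⟨τ, hτ, ZMod.val_injective 11 ((hr 0).trans h0), ZMod.val_injective 11 ((hr 1).trans h1)⟩

theorem ex_T3 (b : X) (hb : b ≠ 0) (hb' : b ≠ 1) : ∃ τ ∈ U0, τ 0 = 0 ∧ τ 1 = 1 ∧ τ 2 = b := by
  rcases check_T3 b hb hb' with rfl | ⟨w, -, h0, h1, h2⟩
  · exact ⟨1, U0.one_mem, rfl, rfl, rfl⟩
  · obtain ⟨τ, hτ, hr⟩ := gen0 w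
    exact ⟨τ, hτ, ZMod.val_injective 11 ((hr 0).trans h0), ZMod.val_injective 11 ((hr 1).trans h1),
      ZMod.val_injective 11 ((hr 2).trans h2)⟩

theorem ex_T4 (b : X) (hb : b ≠ 0) (hb' : b ≠ 1) (hb'' : b ≠ 2) :
    ∃ τ ∈ U0, τ 0 = 0 ∧ τ 1 = 1 ∧ τ 2 = 2 ∧ τ 3 = b := by
  rcases check_T4 b hb hb' hb'' with rfl | ⟨w, -, h0, h1, h2, h3⟩
  · exact ⟨1, U0.one_mem, rfl, rfl, rfl, rfl⟩
  · obtain ⟨τ, hτ, hr⟩ := gen0 w
    exact ⟨τ, hτ, ZMod.val_injective 11 ((hr 0).trans h0), ZMod.val_injective 11 ((hr 1).trans h1),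
      ZMod.val_injective 11 ((hr 2).trans h2), ZMod.val_injective 11 ((hr 3).trans h3)⟩

theorem ai (f : Perm X) (y : X) : f (f⁻¹ y) = y := f.apply_symm_apply y

/-- `U0` moves the first four points anywhere. -/
theorem ex_four {a b d e : X} (hab : a ≠ b) (had : a ≠ d) (hae : a ≠ e) (hbd : b ≠ d) (hbe : b ≠ e)
    (hde : d ≠ e) : ∃ τ ∈ U0, τ 0 = a ∧ τ 1 = b ∧ τ 2 = d ∧ τ 3 = e := by
  -- translate
  let t₁ : Perm X := Equiv.addRight a
  have ht₁ : t₁ ∈ U0 := addRight_mem c_mem_U0 a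
  have inj₁ : ∀ {u v : X}, u ≠ v → t₁⁻¹ u ≠ t₁⁻¹ v := fun h e => h (t₁⁻¹.injective e)
  have h₁0 : t₁ 0 = a := by simp [t₁]
  have hb₁ : t₁⁻¹ b ≠ 0 := by
    intro e'
    apply hab
    rw [← h₁0, ← e', ← Perm.mul_apply]
    simp
  have hd₁ : t₁⁻¹ d ≠ 0 := by
    intro e'
    apply had
    rw [← h₁0, ← e', ← Perm.mul_apply]
    simp
  have he₁ : t₁⁻¹ e ≠ 0 := by
    intro e'
    apply hae
    rw [← h₁0, ← e', ← Perm.mul_apply]
    simp
  obtain ⟨t₂, ht₂, h₂0, h₂1⟩ := ex_T2 _ hb₁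
  have key₂ : ∀ {u v : X}, t₂ u = v → t₂⁻¹ v = u := fun {u v} h => by
    rw [← h]
    exact t₂.symm_apply_apply u
  have hd₂0 : t₂⁻¹ (t₁⁻¹ d) ≠ 0 := by
    intro e'
    apply hd₁
    rw [← h₂0, ← e']
    exact (ai _ _).symm
  have hd₂1 : t₂⁻¹ (t₁⁻¹ d) ≠ 1 := by
    intro e'
    apply inj₁ hbd
    rw [← h₂1, ← e']
    exact ai _ _
  have he₂0 : t₂⁻¹ (t₁⁻¹ e) ≠ 0 := by
    intro e'
    apply he₁
    rw [← h₂0, ← e']
    exact (ai _ _).symm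
  have he₂1 : t₂⁻¹ (t₁⁻¹ e) ≠ 1 := by
    intro e'
    apply inj₁ hbe
    rw [← h₂1, ← e']
    exact ai _ _
  obtain ⟨t₃, ht₃, h₃0, h₃1, h₃2⟩ := ex_T3 _ hd₂0 hd₂1
  have he₃0 : t₃⁻¹ (t₂⁻¹ (t₁⁻¹ e)) ≠ 0 := by
    intro e'
    apply he₂0
    rw [← h₃0, ← e']
    exact (ai _ _).symm
  have he₃1 : t₃⁻¹ (t₂⁻¹ (t₁⁻¹ e)) ≠ 1 := by
    intro e'
    apply he₂1
    rw [← h₃1, ← e']
    exact (ai _ _).symm
  have he₃2 : t₃⁻¹ (t₂⁻¹ (t₁⁻¹ e)) ≠ 2 := by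
    intro e'
    have h5 : t₂⁻¹ (t₁⁻¹ d) = t₂⁻¹ (t₁⁻¹ e) := by
      rw [← h₃2, ← e']
      exact ai _ _
    exact hde (t₁⁻¹.injective (t₂⁻¹.injective h5))
  obtain ⟨t₄, ht₄, h₄0, h₄1, h₄2, h₄3⟩ := ex_T4 _ he₃0 he₃1 he₃2
  refine ⟨t₁ * t₂ * t₃ * t₄, U0.mul_mem (U0.mul_mem (U0.mul_mem ht₁ ht₂) ht₃) ht₄, ?_, ?_, ?_, ?_⟩
  · simp only [Perm.mul_apply]
    rw [h₄0, h₃0, h₂0, h₁0]
  · simp only [Perm.mul_apply]
    rw [h₄1, h₃1, h₂1]
    exact ai _ _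
  · simp only [Perm.mul_apply]
    rw [h₄2, h₃2, ai]
    exact ai _ _
  · simp only [Perm.mul_apply]
    rw [h₄3, ai, ai]
    exact ai _ _

theorem card_X : Fintype.card X = 11 := ZMod.card 11

theorem sharp : Cfsg.IsM11 (Cfsg.setSystemAut B1) ∧ IsMultiplyPretransitive (Cfsg.setSystemAut B1) X 4 ∧
    ∀ x : Fin 4 ↪ X, stabilizer (Cfsg.setSystemAut B1) x = ⊥ := Cfsg.Agent.S0426.result card_X steiner

/-- The base. -/
def x₀ : Fin 4 ↪ X := ⟨![0, 1, 2, 3], by decide⟩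

theorem U0_eq : U0 = Cfsg.setSystemAut B1 := by
  apply le_antisymm U0_le
  intro m hm
  have hinj := m.injective
  obtain ⟨τ, hτ, h0, h1, h2, h3⟩ := ex_four (a := m 0) (b := m 1) (d := m 2) (e := m 3)
    (fun e => absurd (hinj e) (by decide)) (fun e => absurd (hinj e) (by decide))
    (fun e => absurd (hinj e) (by decide)) (fun e => absurd (hinj e) (by decide))
    (fun e => absurd (hinj e) (by decide)) (fun e => absurd (hinj e) (by decide))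
  have hτm := U0_le hτ
  have hst := sharp.2.2 x₀
  have hs : (⟨τ⁻¹ * m, Subgroup.mul_mem _ (Subgroup.inv_mem _ hτm) hm⟩ : Cfsg.setSystemAut B1) ∈
      MulAction.stabilizer (Cfsg.setSystemAut B1) x₀ := by
    rw [MulAction.mem_stabilizer_iff]
    ext i
    have : ∀ y : X, ∀ u : X, τ u = y → (τ⁻¹ * m) u = u → True := fun _ _ _ _ => trivial
    have key : ∀ u : X, τ u = m u → (τ⁻¹ * m) u = u := by
      intro u hu
      rw [Perm.mul_apply, ← hu]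
      exact τ.symm_apply_apply u
    fin_cases i
    · exact key 0 h0
    · exact key 1 h1
    · exact key 2 h2
    · exact key 3 h3
  rw [hst, Subgroup.mem_bot] at hs
  have h5 : τ⁻¹ * m = 1 := congrArg Subtype.val hs
  have h6 : m = τ := by
    have : m = τ * (τ⁻¹ * m) := by group
    rw [this, h5, mul_one]
  rw [h6]
  exact hτ

end Cfsg.Agent.Lib.Deg11Class
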