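import Mathlib

/-!
# Permutations of `ZMod 11` as base-sixteen numerals, for kernel computation
-/

set_option autoImplicit false

namespace Cfsg.Agent.Lib.Deg11Eval

open Equiv Equiv.Perm

/-- The points. -/
abbrev X := ZMod 11

/-- The digit in position `i`. -/
def dig (n i : Nat) : Nat := Nat.mod (Nat.div n (Nat.pow 16 i)) 16

theorem dig_lt (n i : Nat) : dig n i < 16 := Nat.mod_lt _ (by norm_num)

/-- A numeral from its digits. -/
def mk11 (a0 a1 a2 a3 a4 a5 a6 a7 a8 a9 a10 : Nat) : Nat :=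
  Nat.add a0 (Nat.mul 16 (Nat.add a1 (Nat.mul 16 (Nat.add a2 (Nat.mul 16 (Nat.add a3 (Nat.mul 16
    (Nat.add a4 (Nat.mul 16 (Nat.add a5 (Nat.mul 16 (Nat.add a6 (Nat.mul 16 (Nat.add a7 (Nat.mul 16
    (Nat.add a8 (Nat.mul 16 (Nat.add a9 (Nat.mul 16 a10)))))))))))))))))))

/-- The product `p * q` of numerals. -/
def comp (p q : Nat) : Nat :=
  mk11 (dig p (dig q 0)) (dig p (dig q 1)) (dig p (dig q 2)) (dig p (dig q 3)) (dig p (dig q 4))
    (dig p (dig q 5)) (dig p (dig q 6)) (dig p (dig q 7)) (dig p (dig q 8)) (dig p (dig q 9))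
    (dig p (dig q 10))

theorem dig_mk11 {a0 a1 a2 a3 a4 a5 a6 a7 a8 a9 a10 : Nat}
    (h0 : a0 < 16) (h1 : a1 < 16) (h2 : a2 < 16) (h3 : a3 < 16) (h4 : a4 < 16) (h5 : a5 < 16)
    (h6 : a6 < 16) (h7 : a7 < 16) (h8 : a8 < 16) (h9 : a9 < 16) (h10 : a10 < 16) :
    dig (mk11 a0 a1 a2 a3 a4 a5 a6 a7 a8 a9 a10) 0 = a0 ∧
    dig (mk11 a0 a1 a2 a3 a4 a5 a6 a7 a8 a9 a10) 1 = a1 ∧
    dig (mk11 a0 a1 a2 a3 a4 a5 a6 a7 a8 a9 a10) 2 = a2 ∧
    dig (mk11 a0 a1 a2 a3 a4 a5 a6 a7 a8 a9 a10) 3 = a3 ∧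
    dig (mk11 a0 a1 a2 a3 a4 a5 a6 a7 a8 a9 a10) 4 = a4 ∧
    dig (mk11 a0 a1 a2 a3 a4 a5 a6 a7 a8 a9 a10) 5 = a5 ∧
    dig (mk11 a0 a1 a2 a3 a4 a5 a6 a7 a8 a9 a10) 6 = a6 ∧
    dig (mk11 a0 a1 a2 a3 a4 a5 a6 a7 a8 a9 a10) 7 = a7 ∧
    dig (mk11 a0 a1 a2 a3 a4 a5 a6 a7 a8 a9 a10) 8 = a8 ∧
    dig (mk11 a0 a1 a2 a3 a4 a5 a6 a7 a8 a9 a10) 9 = a9 ∧
    dig (mk11 a0 a1 a2 a3 a4 a5 a6 a7 a8 a9 a10) 10 = a10 := by
  have e : mk11 a0 a1 a2 a3 a4 a5 a6 a7 a8 a9 a10 =
      a0 + 16 * (a1 + 16 * (a2 + 16 * (a3 + 16 * (a4 + 16 * (a5 + 16 * (a6 + 16 * (a7 + 16 *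
        (a8 + 16 * (a9 + 16 * a10))))))))) := rfl
  rw [e]
  have d : ∀ n i, dig n i = n / 16 ^ i % 16 := fun _ _ => rfl
  simp only [d]
  norm_num
  refine ⟨?_, ?_, ?_, ?_, ?_, ?_, ?_, ?_, ?_, ?_, ?_⟩ <;> omega

theorem dig_comp (p q i : Nat) (hi : i < 11) : dig (comp p q) i = dig p (dig q i) := by
  obtain ⟨h0, h1, h2, h3, h4, h5, h6, h7, h8, h9, h10⟩ :=
    dig_mk11 (dig_lt p (dig q 0)) (dig_lt p (dig q 1)) (dig_lt p (dig q 2)) (dig_lt p (dig q 3))
      (dig_lt p (dig q 4)) (dig_lt p (dig q 5)) (dig_lt p (dig q 6)) (dig_lt p (dig q 7))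
      (dig_lt p (dig q 8)) (dig_lt p (dig q 9)) (dig_lt p (dig q 10))
  interval_cases i
  · exact h0
  · exact h1
  · exact h2
  · exact h3
  · exact h4
  · exact h5
  · exact h6
  · exact h7
  · exact h8
  · exact h9
  · exact h10

/-- `σ` is represented by the numeral `n`. -/
def PRep (σ : Perm X) (n : Nat) : Prop := ∀ x : X, (σ x).val = dig n x.val

theorem PRep.mul {σ τ : Perm X} {p q : Nat} (hσ : PRep σ p) (hτ : PRep τ q) : PRep (σ * τ) (comp p q) := by
  intro x
  rw [Perm.mul_apply, hσ, hτ, dig_comp p q x.val (ZMod.val_lt x)]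

theorem PRep.ext {σ τ : Perm X} {p : Nat} (hσ : PRep σ p) (hτ : PRep τ p) : σ = τ := by
  exact Equiv.ext fun x => ZMod.val_injective 11 (by rw [hσ, hτ])

/-- The numeral of the identity. -/
def idN : Nat := mk11 0 1 2 3 4 5 6 7 8 9 10

theorem rep_one : PRep 1 idN := by
  unfold PRep
  decide

/-- The numeral of a permutation. -/
def code (σ : Perm X) : Nat :=
  mk11 (σ 0).val (σ 1).val (σ 2).val (σ 3).val (σ 4).val (σ 5).val (σ 6).val (σ 7).val (σ 8).val
    (σ 9).val (σ 10).val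

theorem rep_code (σ : Perm X) : PRep σ (code σ) := by
  have hl : ∀ y : X, y.val < 16 := fun y => lt_trans (ZMod.val_lt y) (by norm_num)
  obtain ⟨h0, h1, h2, h3, h4, h5, h6, h7, h8, h9, h10⟩ :=
    dig_mk11 (hl (σ 0)) (hl (σ 1)) (hl (σ 2)) (hl (σ 3)) (hl (σ 4)) (hl (σ 5)) (hl (σ 6)) (hl (σ 7))
      (hl (σ 8)) (hl (σ 9)) (hl (σ 10))
  intro x
  have hx : ∀ x : X, x = 0 ∨ x = 1 ∨ x = 2 ∨ x = 3 ∨ x = 4 ∨ x = 5 ∨ x = 6 ∨ x = 7 ∨ x = 8 ∨ x = 9
      ∨ x = 10 := by decide
  rcases hx x with rfl | rfl | rfl | rfl | rfl | rfl | rfl | rfl | rfl | rfl | rfl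
  · exact h0.symm
  · exact h1.symm
  · exact h2.symm
  · exact h3.symm
  · exact h4.symm
  · exact h5.symm
  · exact h6.symm
  · exact h7.symm
  · exact h8.symm
  · exact h9.symm
  · exact h10.symm

/-- The numeral `n` belongs to an element of `G`. -/
def Gen (G : Subgroup (Perm X)) (n : Nat) : Prop := ∃ σ ∈ G, PRep σ n

theorem Gen.comp {G : Subgroup (Perm X)} {p q : Nat} (hp : Gen G p) (hq : Gen G q) :
    Gen G (comp p q) := by
  obtain ⟨σ, hσ, hσ'⟩ := hp
  obtain ⟨τ, hτ, hτ'⟩ := hq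
  exact ⟨σ * τ, G.mul_mem hσ hτ, hσ'.mul hτ'⟩

theorem gen_id (G : Subgroup (Perm X)) : Gen G idN := ⟨1, G.one_mem, rep_one⟩

theorem Gen.mem {G : Subgroup (Perm X)} {n : Nat} {σ : Perm X} (h : Gen G n) (hσ : PRep σ n) : σ ∈ G := by
  obtain ⟨τ, hτ, hτ'⟩ := h
  rwa [hσ.ext hτ']

/-- An entry of a list of numerals. -/
def getE : List Nat → Nat → Nat
  | [], _ => idN
  | a :: _, 0 => a
  | _ :: t, n + 1 => getE t n

theorem gen_getE {G : Subgroup (Perm X)} {env : List Nat} (h : ∀ a ∈ env, Gen G a) (n : Nat) :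
    Gen G (getE env n) := by
  induction env generalizing n with
  | nil => exact gen_id G
  | cons a t ih =>
    cases n with
    | zero => exact h a (by simp)
    | succ n => exact ih (fun b hb => h b (by simp [hb])) n

/-- The value of a word. -/
def evalW (env : List Nat) : List Nat → Nat
  | [] => idN
  | [a] => getE env a
  | a :: b :: t => Deg11Eval.comp (getE env a) (evalW env (b :: t))

theorem gen_evalW {G : Subgroup (Perm X)} {env : List Nat} (h : ∀ a ∈ env, Gen G a) (w : List Nat) :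
    Gen G (evalW env w) := by
  induction w with
  | nil => exact gen_id G
  | cons a t ih =>
    cases t with
    | nil => exact gen_getE h a
    | cons b t => exact (gen_getE h a).comp ih

/-- Squarings and multiplications, most significant bit first. -/
def powB (x : Nat) : List Bool → Nat → Nat
  | [], acc => acc
  | b :: t, acc =>
    powB x t (bif b then Deg11Eval.comp (Deg11Eval.comp acc acc) x else Deg11Eval.comp acc acc)

theorem gen_powB {G : Subgroup (Perm X)} {x : Nat} (hx : Gen G x) (bits : List Bool) {acc : Nat}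
    (ha : Gen G acc) : Gen G (powB x bits acc) := by
  induction bits generalizing acc with
  | nil => exact ha
  | cons b t ih =>
    rw [powB]
    refine ih ?_
    cases b
    · rw [cond_false]; exact ha.comp ha
    · rw [cond_true]; exact (ha.comp ha).comp hx

/-- Repeated products. -/
def powN (x : Nat) : Nat → Nat
  | 0 => idN
  | n + 1 => Deg11Eval.comp x (powN x n)

theorem rep_powN {σ : Perm X} {x : Nat} (h : PRep σ x) (n : Nat) : PRep (σ ^ n) (powN x n) := by
  induction n with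
  | zero => exact rep_one
  | succ n ih =>
    rw [pow_succ']
    exact h.mul ih

/-- The number of moved points among the first `n`. -/
def cnt (x : Nat) : Nat → Nat
  | 0 => 0
  | n + 1 => Nat.add (cnt x n) (bif Nat.beq (dig x n) n then 0 else 1)

theorem cnt_eq (x n : Nat) : cnt x n = ((Finset.range n).filter (fun i => dig x i ≠ i)).card := by
  induction n with
  | zero => rfl
  | succ n ih =>
    rw [Finset.range_add_one, Finset.filter_insert, cnt, ih]
    by_cases h : dig x n = n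
    · have : Nat.beq (dig x n) n = true := by rw [h]; exact Nat.beq_refl n
      rw [this]
      simp [h]
    · have : Nat.beq (dig x n) n = false := by
        rw [Bool.eq_false_iff]; intro h'; exact h (Nat.eq_of_beq_eq_true h')
      rw [this, if_pos h, Finset.card_insert_of_notMem (by simp)]
      rfl

theorem card_support {σ : Perm X} {x : Nat} (h : PRep σ x) : σ.support.card = cnt x 11 := by
  rw [cnt_eq]
  refine Finset.card_nbij' (fun y => y.val) (fun i => (i : X)) ?_ ?_ ?_ ?_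
  · intro y hy
    have hy' : σ y ≠ y := by simpa using hy
    have : dig x y.val ≠ y.val := by
      rw [← h]
      intro e
      exact hy' (ZMod.val_injective 11 e)
    simp [ZMod.val_lt y, this]
  · intro i hi
    have hi' : i < 11 ∧ dig x i ≠ i := by simpa using hi
    have hv : ((i : X)).val = i := ZMod.val_cast_of_lt hi'.1
    have : σ (i : X) ≠ (i : X) := by
      intro e
      have := h (i : X)
      rw [e, hv] at this
      exact hi'.2 this.symm
    simp [this]
  · intro y _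
    exact ZMod.natCast_zmod_val y
  · intro i hi
    have hi' : i < 11 ∧ dig x i ≠ i := by simpa using hi
    exact ZMod.val_cast_of_lt hi'.1

/-- `y` is a cycle of length `2`, `3` or `5`. -/
def isPC (y : Nat) : Bool :=
  let q := cnt y 11
  (Nat.beq q 2 || Nat.beq q 3 || Nat.beq q 5) && Nat.beq (powN y q) idN

theorem isPC_spec {σ : Perm X} {y : Nat} (h : PRep σ y) (hy : isPC y = true) :
    σ.IsCycle ∧ σ.support.card.Prime ∧ 2 * σ.support.card ≤ Nat.card X := by
  have hq := card_support h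
  simp only [isPC, Bool.and_eq_true, Bool.or_eq_true, Nat.beq_eq] at hy
  obtain ⟨hq', hp⟩ := hy
  rw [← hq] at hq' hp
  have hone : σ ^ σ.support.card = 1 := (rep_powN h _).ext (by rw [hp]; exact rep_one)
  have hcard : Nat.card X = 11 := by simp
  have hprime : σ.support.card.Prime := by
    rcases hq' with (e | e) | e <;> rw [e] <;> norm_num
  have hne : σ ≠ 1 := by
    rintro rfl
    simp at hq'
  have hord : orderOf σ = σ.support.card := by
    have : Fact σ.support.card.Prime := ⟨hprime⟩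
    exact orderOf_eq_prime hone hne
  refine ⟨?_, hprime, ?_⟩
  · apply isCycle_of_prime_order
    · rw [hord]; exact hprime
    · rw [hord]
      have := hprime.two_le
      omega
  · rw [hcard]
    rcases hq' with (e | e) | e <;> rw [e] <;> norm_num

end Cfsg.Agent.Lib.Deg11Eval
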