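import Mathlib
import Cfsg.Agent.Lib.CharKernel
import Cfsg.Agent.Lib.CharDecomp

/-!
# Primitive linear groups of degree two

A faithful irreducible primitive character of degree two forces `|G : Z(G)| ∈ {12, 24, 60}`:
the action on the lines fixed by some nonscalar element.
-/

set_option autoImplicit false
set_option linter.unusedVariables false
set_option linter.unusedSectionVars false
set_option linter.style.haveILetI false
set_option linter.unusedSimpArgs false

namespace Cfsg.Agent.Lib.Deg2Prim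

open Cfsg Cfsg.Agent.Lib.CharBasic Cfsg.Agent.Lib.CharInd Cfsg.Agent.Lib.CharKernel
open scoped ComplexConjugate

universe u

/-! ### Arithmetic -/

section Arith

theorem arith_sorted {N m₁ m₂ m₃ e₁ e₂ e₃ : ℕ} (h1 : m₁ * e₁ = N) (h2 : m₂ * e₂ = N) (h3 : m₃ * e₃ = N)
    (hs : m₁ + m₂ + m₃ = N + 2) (he1 : 2 ≤ e₁) (h12 : e₁ ≤ e₂) (h23 : e₂ ≤ e₃) (hm3 : 3 ≤ m₃) :
    N = 12 ∨ N = 24 ∨ N = 60 := by
  have he1' : e₁ = 2 := by
    by_contra hne
    have h4 : 3 ≤ e₁ := by omega
    have h5 : m₁ * 3 ≤ N := h1 ▸ Nat.mul_le_mul_left _ h4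
    have h6 : m₂ * 3 ≤ N := h2 ▸ Nat.mul_le_mul_left _ (h4.trans h12)
    have h7 : m₃ * 3 ≤ N := h3 ▸ Nat.mul_le_mul_left _ (h4.trans (h12.trans h23))
    omega
  subst he1'
  have he2 : e₂ ≤ 3 := by
    by_contra hne
    have h4 : 4 ≤ e₂ := by omega
    have h6 : m₂ * 4 ≤ N := h2 ▸ Nat.mul_le_mul_left _ h4
    have h7 : m₃ * 4 ≤ N := h3 ▸ Nat.mul_le_mul_left _ (h4.trans h23)
    omega
  have he2' : e₂ = 2 ∨ e₂ = 3 := by omega
  rcases he2' with rfl | rfl
  · omega
  · have h6 : m₃ * 6 = N + 12 := by omega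
    have h7 : (N + 12) * e₃ = 6 * N := by
      rw [← h6]
      calc m₃ * 6 * e₃ = 6 * (m₃ * e₃) := by ring
        _ = 6 * N := by rw [h3]
    have he3 : e₃ ≤ 5 := by
      by_contra hne
      have h8 : 6 ≤ e₃ := by omega
      have h9 : (N + 12) * 6 ≤ (N + 12) * e₃ := Nat.mul_le_mul_left _ h8
      omega
    have he3' : e₃ = 3 ∨ e₃ = 4 ∨ e₃ = 5 := by omega
    rcases he3' with rfl | rfl | rfl <;> omega

theorem arith3 {N m₁ m₂ m₃ e₁ e₂ e₃ : ℕ} (h1 : m₁ * e₁ = N) (h2 : m₂ * e₂ = N) (h3 : m₃ * e₃ = N)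
    (hs : m₁ + m₂ + m₃ = N + 2) (he1 : 2 ≤ e₁) (he2 : 2 ≤ e₂) (he3 : 2 ≤ e₃) (hm1 : 3 ≤ m₁) (hm2 : 3 ≤ m₂)
    (hm3 : 3 ≤ m₃) : N = 12 ∨ N = 24 ∨ N = 60 := by
  rcases le_total e₁ e₂ with a | a <;> rcases le_total e₂ e₃ with b | b <;> rcases le_total e₁ e₃ with c | c
  · exact arith_sorted h1 h2 h3 hs he1 a b hm3
  · exact arith_sorted h1 h2 h3 hs he1 a b hm3
  · exact arith_sorted h1 h3 h2 (by omega) he1 c b hm2
  · exact arith_sorted h3 h1 h2 (by omega) he3 c a hm2
  · exact arith_sorted h2 h1 h3 (by omega) he2 a c hm3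
  · exact arith_sorted h2 h3 h1 (by omega) he2 b c hm1
  · exact arith_sorted h3 h2 h1 (by omega) he3 b a hm1
  · exact arith_sorted h3 h2 h1 (by omega) he3 b a hm1

theorem arith_sum {Q : Type*} [Fintype Q] {N : ℕ} (hN : 2 ≤ N) (m e : Q → ℕ) (hme : ∀ q, m q * e q = N)
    (he : ∀ q, 2 ≤ e q) (hm : ∀ q, 3 ≤ m q)
    (hs : ∑ q, m q + 2 * N = Fintype.card Q * N + 2) : N = 12 ∨ N = 24 ∨ N = 60 := by
  classical
  have h1 : ∀ q, 2 * m q ≤ N := by
    intro q
    have h2 : m q * 2 ≤ m q * e q := Nat.mul_le_mul_left _ (he q)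
    rw [hme] at h2
    omega
  have h2 : 2 * ∑ q, m q ≤ Fintype.card Q * N := by
    rw [Finset.mul_sum]
    calc ∑ q, 2 * m q ≤ ∑ q : Q, N := Finset.sum_le_sum fun q _ => h1 q
      _ = Fintype.card Q * N := by simp
  have h3 : Fintype.card Q < 4 := by
    by_contra hcon
    have h4 : 4 ≤ Fintype.card Q := by omega
    have h5 : 4 * N ≤ Fintype.card Q * N := Nat.mul_le_mul_right _ h4
    omega
  obtain ⟨r, hr⟩ : ∃ r, Fintype.card Q = r := ⟨_, rfl⟩
  let ε := Fintype.equivFinOfCardEq hr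
  have hs' : ∑ i : Fin r, m (ε.symm i) + 2 * N = r * N + 2 := by
    rw [Equiv.sum_comp ε.symm m, hs, hr]
  rw [hr] at h3
  interval_cases r
  · simp at hs'
    omega
  · simp at hs'
    have := hm (ε.symm 0)
    nlinarith
  · rw [Fin.sum_univ_two] at hs'
    have h4 := hm (ε.symm 0)
    have h5 := hm (ε.symm 1)
    omega
  · rw [Fin.sum_univ_three] at hs'
    exact arith3 (hme (ε.symm 0)) (hme (ε.symm 1)) (hme (ε.symm 2)) (by omega) (he _) (he _) (he _) (hm _) (hm _) (hm _)

end Arith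

/-! ### Linear algebra of a nonscalar element of finite order -/

section Lin

variable {V : Type*} [AddCommGroup V] [Module ℂ V] [FiniteDimensional ℂ V]

/-- Finite order nonscalar endomorphisms have two eigenvalues. -/
theorem exists_two_eigen [Nontrivial V] (T : Module.End ℂ V) {n : ℕ} (hn : n ≠ 0) (hT : T ^ n = 1)
    (hns : ∀ c : ℂ, T ≠ c • 1) :
    ∃ (a b : ℂ) (v w : V), a ≠ b ∧ v ≠ 0 ∧ w ≠ 0 ∧ T v = a • v ∧ T w = b • w := by
  classical
  have hsq : Squarefree (Polynomial.X ^ n - Polynomial.C (1 : ℂ)) := by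
    apply Polynomial.Separable.squarefree
    apply Polynomial.separable_X_pow_sub_C
    · exact_mod_cast hn
    · exact one_ne_zero
  have hss : T.IsSemisimple := by
    apply Module.End.isSemisimple_of_squarefree_aeval_eq_zero hsq
    simp [hT]
  have htop := hss.iSup_eigenspace_eq_top
  obtain ⟨a, ha⟩ := Module.End.exists_eigenvalue T
  obtain ⟨v, hv⟩ := ha.exists_hasEigenvector
  have h1 : ∃ b, b ≠ a ∧ T.eigenspace b ≠ ⊥ := by
    by_contra hcon
    push Not at hcon
    apply hns a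
    have h2 : ⨆ μ : ℂ, T.eigenspace μ ≤ T.eigenspace a := by
      apply iSup_le
      intro μ
      by_cases h : μ = a
      · rw [h]
      · rw [hcon μ h]
        exact bot_le
    rw [htop, top_le_iff] at h2
    ext x
    have h3 : x ∈ T.eigenspace a := by
      rw [h2]
      trivial
    have h4 := Module.End.mem_eigenspace_iff.mp h3
    simp [h4]
  obtain ⟨b, hb, hbne⟩ := h1
  obtain ⟨w, hw⟩ := (Module.End.HasEigenvalue.exists_hasEigenvector (Module.End.hasEigenvalue_iff.mpr hbne))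
  exact ⟨a, b, v, w, hb.symm, hv.2, hw.2, hv.apply_eq_smul, hw.apply_eq_smul⟩

end Lin


/-! ### Lines and the action -/

section Lines

variable {G : Type*} [Group G] {V : Type*} [AddCommGroup V] [Module ℂ V]

/-- The lines of `V`, as a type carrying the action of `G` through `ρ`. -/
def Ln (ρ : Representation ℂ G V) : Type _ := {ℓ : Submodule ℂ V // ∃ v : V, v ≠ 0 ∧ ℓ = ℂ ∙ v}

theorem rho_inj (ρ : Representation ℂ G V) (g : G) : Function.Injective (ρ g) := by
  intro a b hab
  have h : ρ g⁻¹ (ρ g a) = ρ g⁻¹ (ρ g b) := by rw [hab]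
  have h1 : ∀ x, ρ g⁻¹ (ρ g x) = x := by
    intro x
    have : ρ g⁻¹ * ρ g = 1 := by rw [← map_mul]; simp
    exact LinearMap.congr_fun this x
  rwa [h1, h1] at h

theorem rho_ne_zero (ρ : Representation ℂ G V) (g : G) {v : V} (hv : v ≠ 0) : ρ g v ≠ 0 := by
  intro h
  apply hv
  apply rho_inj ρ g
  rw [h, map_zero]

noncomputable instance Ln.instMulAction (ρ : Representation ℂ G V) : MulAction G (Ln ρ) where
  smul g ℓ := ⟨ℓ.1.map (ρ g), by
    obtain ⟨v, hv, h⟩ := ℓ.2
    refine ⟨ρ g v, rho_ne_zero ρ g hv, ?_⟩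
    rw [h, Submodule.map_span, Set.image_singleton]⟩
  one_smul ℓ := by
    apply Subtype.ext
    change ℓ.1.map (ρ 1) = ℓ.1
    rw [map_one]
    exact Submodule.map_id _
  mul_smul g h ℓ := by
    apply Subtype.ext
    change ℓ.1.map (ρ (g * h)) = (ℓ.1.map (ρ h)).map (ρ g)
    rw [map_mul, ← Submodule.map_comp]
    rfl

theorem Ln.smul_val (ρ : Representation ℂ G V) (g : G) (ℓ : Ln ρ) : (g • ℓ).1 = ℓ.1.map (ρ g) := rfl

/-- The line through a nonzero vector. -/
def Ln.mk (ρ : Representation ℂ G V) (v : V) (hv : v ≠ 0) : Ln ρ := ⟨ℂ ∙ v, v, hv, rfl⟩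

theorem Ln.exists_mk (ρ : Representation ℂ G V) (ℓ : Ln ρ) : ∃ v, ∃ hv : v ≠ 0, ℓ = Ln.mk ρ v hv := by
  obtain ⟨v, hv, h⟩ := ℓ.2
  exact ⟨v, hv, Subtype.ext h⟩

theorem Ln.smul_mk_eq_iff (ρ : Representation ℂ G V) (g : G) {v : V} (hv : v ≠ 0) :
    g • Ln.mk ρ v hv = Ln.mk ρ v hv ↔ ∃ c : ℂ, ρ g v = c • v := by
  constructor
  · intro h
    have h1 : (g • Ln.mk ρ v hv).1 = (Ln.mk ρ v hv).1 := by rw [h]
    rw [Ln.smul_val] at h1
    have h2 : ρ g v ∈ (Ln.mk ρ v hv).1 := by
      rw [← h1]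
      exact Submodule.mem_map_of_mem (Submodule.mem_span_singleton_self v)
    obtain ⟨c, hc⟩ := Submodule.mem_span_singleton.mp h2
    exact ⟨c, hc.symm⟩
  · rintro ⟨c, hc⟩
    have hc0 : c ≠ 0 := by
      rintro rfl
      rw [zero_smul] at hc
      exact rho_ne_zero ρ g hv hc
    apply Subtype.ext
    rw [Ln.smul_val]
    change (ℂ ∙ v).map (ρ g) = ℂ ∙ v
    rw [Submodule.map_span, Set.image_singleton, hc]
    exact Submodule.span_singleton_smul_eq (IsUnit.mk0 c hc0) v

variable [FiniteDimensional ℂ V]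

/-- An eigenvector of a diagonalizable operator on a plane lies on one of the eigenlines. -/
theorem eigenline_cases (hdim : Module.finrank ℂ V = 2) (T : V →ₗ[ℂ] V) {a b c : ℂ} {v w u : V}
    (hab : a ≠ b) (hv : v ≠ 0) (hw : w ≠ 0) (hu : u ≠ 0) (hTv : T v = a • v) (hTw : T w = b • w)
    (hTu : T u = c • u) : (ℂ ∙ u) = (ℂ ∙ v) ∨ (ℂ ∙ u) = (ℂ ∙ w) := by
  have hli : ∀ s t : ℂ, s • v + t • w = 0 → s = 0 ∧ t = 0 := by
    intro s t h
    have h1 : T (s • v + t • w) = 0 := by rw [h, map_zero]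
    rw [map_add, map_smul, map_smul, hTv, hTw] at h1
    have h2 : (t * (b - a)) • w = 0 := by
      have : (t * (b - a)) • w = (s • a • v + t • b • w) - a • (s • v + t • w) := by
        simp only [smul_add, smul_smul, mul_sub, sub_smul]
        rw [mul_comm a s, mul_comm a t]
        abel
      rw [this, h1, h, smul_zero, sub_zero]
    have ht : t = 0 := by
      rcases smul_eq_zero.mp h2 with h3 | h3
      · rcases mul_eq_zero.mp h3 with h4 | h4
        · exact h4
        · exact absurd (sub_eq_zero.mp h4).symm hab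
      · exact absurd h3 hw
    subst ht
    rw [zero_smul, add_zero] at h
    refine ⟨?_, rfl⟩
    rcases smul_eq_zero.mp h with h3 | h3
    · exact h3
    · exact absurd h3 hv
  have hli' : LinearIndependent ℂ ![v, w] := LinearIndependent.pair_iff.mpr hli
  have hspan : Submodule.span ℂ (Set.range ![v, w]) = ⊤ :=
    hli'.span_eq_top_of_card_eq_finrank' (by simp [hdim])
  have hmem : u ∈ Submodule.span ℂ ({v, w} : Set V) := by
    have : (Set.range ![v, w]) = ({v, w} : Set V) := by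
      simp [Matrix.range_cons, Set.pair_comm]
    rw [← this, hspan]
    trivial
  obtain ⟨s, t, hst⟩ := Submodule.mem_span_pair.mp hmem
  have h1 : T u = s • a • v + t • b • w := by
    rw [← hst, map_add, map_smul, map_smul, hTv, hTw]
  have h2 : (s * (a - c)) • v + (t * (b - c)) • w = 0 := by
    have h3 : (s * (a - c)) • v + (t * (b - c)) • w = T u - c • u := by
      rw [h1, ← hst]
      simp only [smul_add, smul_smul, mul_sub, sub_smul]
      rw [mul_comm c s, mul_comm c t]
      abel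
    rw [h3, hTu, sub_self]
  obtain ⟨h3, h4⟩ := hli _ _ h2
  by_cases hs : s = 0
  · subst hs
    right
    have ht : t ≠ 0 := by
      rintro rfl
      apply hu
      rw [← hst]
      simp
    rw [← hst, zero_smul, zero_add]
    exact Submodule.span_singleton_smul_eq (IsUnit.mk0 t ht) w
  · left
    have hca : a = c := by
      rcases mul_eq_zero.mp h3 with h5 | h5
      · exact absurd h5 hs
      · exact sub_eq_zero.mp h5
    have ht : t = 0 := by
      rcases mul_eq_zero.mp h4 with h5 | h5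
      · exact h5
      · exact absurd (hca.trans (sub_eq_zero.mp h5).symm) hab
    subst ht
    rw [← hst, zero_smul, add_zero]
    exact Submodule.span_singleton_smul_eq (IsUnit.mk0 s hs) v

/-- Trace of a diagonal operator on a plane. -/
theorem trace_of_diag (hdim : Module.finrank ℂ V = 2) (T : V →ₗ[ℂ] V) {a b : ℂ} {v w : V}
    (hli : LinearIndependent ℂ ![v, w]) (hTv : T v = a • v) (hTw : T w = b • w) :
    LinearMap.trace ℂ V T = a + b := by
  classical
  let B : Module.Basis (Fin 2) ℂ V :=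
    basisOfLinearIndependentOfCardEqFinrank hli (by simp [hdim])
  have hB0 : B 0 = v := by simp [B]
  have hB1 : B 1 = w := by simp [B]
  rw [LinearMap.trace_eq_matrix_trace ℂ B T, Matrix.trace_fin_two]
  simp only [LinearMap.toMatrix_apply]
  rw [hB0, hB1, hTv, hTw, map_smul, map_smul]
  have h0 : B.repr v 0 = 1 := by rw [← hB0]; simp
  have h1 : B.repr w 1 = 1 := by rw [← hB1]; simp
  simp [h0, h1]

end Lines

section Main

variable {G : Type*} [Group G] [Fintype G] {V : Type*} [AddCommGroup V] [Module ℂ V]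
  [FiniteDimensional ℂ V]

/-- An elementary index two subgroup fixing a line makes the character induced. -/
theorem imprimitive (ρ : Representation ℂ G V) (hdim : Module.finrank ℂ V = 2)
    (hρ : ρ.IsIrreducible) (S : Subgroup G) (hS : S.index = 2) {v : V} (hv : v ≠ 0)
    (hstab : ∀ x, x ∈ S ↔ ∃ c : ℂ, ρ x v = c • v) :
    ∃ θ : S → ℂ, IsCharacter S θ ∧ ρ.character = indFun S θ := by
  classical
  have hnorm : S.Normal := Subgroup.normal_of_index_eq_two hS
  have hSne : S ≠ ⊤ := by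
    rintro rfl
    simp at hS
  obtain ⟨g, hg⟩ : ∃ g, g ∉ S := by
    by_contra hcon
    push Not at hcon
    exact hSne (by ext x; simp [hcon x])
  have hc : ∀ h : S, ∃ c : ℂ, ρ (h : G) v = c • v := fun h => (hstab h).mp h.2
  choose c hc using hc
  have hcuniq : ∀ (h : S) (a : ℂ), ρ (h : G) v = a • v → c h = a := by
    intro h a ha
    have h1 : (c h - a) • v = 0 := by rw [sub_smul, ← hc, ← ha, sub_self]
    rcases smul_eq_zero.mp h1 with h2 | h2
    · exact sub_eq_zero.mp h2
    · exact absurd h2 hv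
  let cH : S →* ℂ :=
    { toFun := c
      map_one' := hcuniq 1 1 (by simp)
      map_mul' := fun x y => by
        apply hcuniq
        rw [Subgroup.coe_mul, map_mul, Module.End.mul_apply, hc, map_smul, hc, smul_smul, mul_comm] }
  let lam : S →* ℂˣ := cH.toHomUnits
  have hlam : ∀ h : S, ((lam h : ℂˣ) : ℂ) = c h := fun h => by simp [lam, cH]
  let conjg : S →* S := (MulAut.conjNormal g⁻¹ : S ≃* S).toMonoidHom
  have hconjg : ∀ h : S, ((conjg h : S) : G) = g⁻¹ * h * g := by
    intro h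
    simp [conjg, MulAut.conjNormal_apply]
  let lam2 : S →* ℂˣ := lam.comp conjg
  let θ : S → ℂ := fun h => ((lam h : ℂˣ) : ℂ)
  let μ : S → ℂ := fun h => ((lam2 h : ℂˣ) : ℂ)
  have hθ : IsIrrCharacter S θ := isIrrCharacter_of_hom lam
  have hμ : IsIrrCharacter S μ := isIrrCharacter_of_hom lam2
  set w := ρ g v with hw
  have hli : LinearIndependent ℂ ![v, w] := by
    apply LinearIndependent.pair_iff.mpr
    intro s t hst
    have ht : t = 0 := by
      by_contra ht
      apply hg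
      rw [hstab]
      refine ⟨-(t⁻¹ * s), ?_⟩
      have h1 : w = -(t⁻¹ * s) • v := by
        have h2 : t • w = -(s • v) := eq_neg_of_add_eq_zero_right hst
        calc w = t⁻¹ • (t • w) := by rw [smul_smul, inv_mul_cancel₀ ht, one_smul]
          _ = _ := by rw [h2, smul_neg, smul_smul, neg_smul]
      exact h1
    subst ht
    rw [zero_smul, add_zero] at hst
    refine ⟨?_, rfl⟩
    rcases smul_eq_zero.mp hst with h | h
    · exact h
    · exact absurd h hv
  have hres : ∀ h : S, ρ.character (h : G) = θ h + μ h := by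
    intro h
    have h1 : ρ (h : G) w = μ h • w := by
      have h2 : (h : G) * g = g * (conjg h : G) := by
        rw [hconjg]
        group
      have h3 : μ h = c (conjg h) := hlam _
      rw [hw, ← Module.End.mul_apply, ← map_mul, h2, map_mul, Module.End.mul_apply, hc, map_smul, h3]
    have h2 : ρ (h : G) v = θ h • v := by
      rw [hc]
      congr 1
    exact trace_of_diag hdim (ρ (h : G)) hli h2 h1
  have hχ : IsIrrCharacter G ρ.character := isIrrCharacter_of_rep ρ hρ
  have hcl : IsClassFunction G ρ.character := isClassFunction_of_isCharacter (IsIrrCharacter.isCharacter hχ)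
  have hin : classInner (indFun S θ) ρ.character ≠ 0 := by
    rw [frobenius S θ hcl]
    have h1 : (fun h : S => ρ.character (h : G)) = θ + μ := funext hres
    rw [h1, classInner_add_right, classInner_irr_self hθ]
    obtain ⟨n, hn⟩ := classInner_char_irr (IsIrrCharacter.isCharacter hθ) hμ
    rw [hn]
    have := Nat.succ_ne_zero n
    intro h0
    apply this
    have h00 : ((n + 1 : ℕ) : ℂ) = 0 := by
      push_cast
      rw [add_comm]
      exact h0
    exact_mod_cast h00
  obtain ⟨ψ', hψ', hadd⟩ := Cfsg.Agent.Lib.CharDecomp.exists_char_add (indFun_isCharacter S (IsIrrCharacter.isCharacter hθ)) hχ hin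
  have h1 : ψ' 1 = 0 := by
    have h2 := congrFun hadd 1
    rw [indFun_one, Pi.add_apply, hS] at h2
    have h3 : θ 1 = 1 := by simp [θ]
    have h4 : ρ.character 1 = 2 := by
      rw [Representation.char_one, hdim]
      norm_num
    rw [h3, h4] at h2
    norm_num at h2
    simpa using h2
  have h5 : ψ' = 0 := Cfsg.Agent.Lib.CharDecomp.char_eq_zero_of_one hψ' h1
  refine ⟨θ, (IsIrrCharacter.isCharacter hθ), ?_⟩
  rw [hadd, h5, add_zero]

end Main


section Count

variable {G : Type*} [Group G] [Fintype G] {V : Type*} [AddCommGroup V] [Module ℂ V]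
  [FiniteDimensional ℂ V]

theorem mem_center_iff' (ρ : Representation ℂ G V) (hρ : ρ.IsIrreducible)
    (hfaith : ∀ g, ρ g = 1 → g = 1) (g : G) :
    g ∈ Subgroup.center G ↔ ∃ c : ℂ, ρ g = c • 1 := by
  constructor
  · intro hg
    obtain ⟨c, hc⟩ := schur_scalar hρ (ρ g) (fun h => by
      have h1 : h * g = g * h := Subgroup.mem_center_iff.mp hg h
      ext x
      simp only [LinearMap.comp_apply]
      rw [← Module.End.mul_apply, ← Module.End.mul_apply, ← map_mul, ← map_mul, h1])
    exact ⟨c, hc⟩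
  · rintro ⟨c, hc⟩
    rw [Subgroup.mem_center_iff]
    intro h
    have h1 : ρ (h * g * (g * h)⁻¹) = 1 := by
      have h2 : ρ (h * g) = ρ (g * h) := by
        rw [map_mul, map_mul, hc]
        ext x
        simp
      rw [map_mul, h2, ← map_mul, mul_inv_cancel, map_one]
    have h3 := hfaith _ h1
    exact mul_inv_eq_one.mp h3

theorem no_invariant_line (ρ : Representation ℂ G V) (hdim : Module.finrank ℂ V = 2)
    (hρ : ρ.IsIrreducible) {v : V} (hv : v ≠ 0) : ¬ ∀ g, ∃ c : ℂ, ρ g v = c • v := by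
  intro hall
  obtain ⟨-, h⟩ := (isIrreducible_iff ρ).mp hρ
  have h1 := h (ℂ ∙ v) (by
    intro g u hu
    obtain ⟨s, rfl⟩ := Submodule.mem_span_singleton.mp hu
    obtain ⟨c, hc⟩ := hall g
    rw [map_smul, hc, smul_smul]
    exact Submodule.mem_span_singleton.mpr ⟨_, rfl⟩)
  rcases h1 with h1 | h1
  · exact hv (Submodule.span_singleton_eq_bot.mp h1)
  · have h2 := finrank_span_singleton (K := ℂ) hv
    rw [h1, finrank_top, hdim] at h2
    omega

theorem center_ne_top (ρ : Representation ℂ G V) (hdim : Module.finrank ℂ V = 2)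
    (hρ : ρ.IsIrreducible) (hfaith : ∀ g, ρ g = 1 → g = 1) : Subgroup.center G ≠ ⊤ := by
  intro htop
  haveI : Nontrivial V := Module.nontrivial_of_finrank_pos (R := ℂ) (by omega)
  obtain ⟨v, hv⟩ := exists_ne (0 : V)
  apply no_invariant_line ρ hdim hρ hv
  intro g
  have hg : g ∈ Subgroup.center G := by rw [htop]; trivial
  obtain ⟨c, hc⟩ := (mem_center_iff' ρ hρ hfaith g).mp hg
  exact ⟨c, by rw [hc]; simp⟩

theorem fixed_lines (ρ : Representation ℂ G V) (hdim : Module.finrank ℂ V = 2)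
    (hρ : ρ.IsIrreducible) (hfaith : ∀ g, ρ g = 1 → g = 1) {x : G} (hx : x ∉ Subgroup.center G) :
    ∃ (v w : V) (hv : v ≠ 0) (hw : w ≠ 0), Ln.mk ρ v hv ≠ Ln.mk ρ w hw ∧
      ∀ ℓ : Ln ρ, x • ℓ = ℓ ↔ ℓ = Ln.mk ρ v hv ∨ ℓ = Ln.mk ρ w hw := by
  haveI : Nontrivial V := Module.nontrivial_of_finrank_pos (R := ℂ) (by omega)
  have hns : ∀ c : ℂ, ρ x ≠ c • 1 := by
    intro c hc
    exact hx ((mem_center_iff' ρ hρ hfaith x).mpr ⟨c, hc⟩)
  have hord : (ρ x) ^ (orderOf x) = 1 := by
    rw [← map_pow, pow_orderOf_eq_one, map_one]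
  obtain ⟨a, b, v, w, hab, hv, hw, hTv, hTw⟩ :=
    exists_two_eigen (ρ x) (orderOf_pos x).ne' hord hns
  refine ⟨v, w, hv, hw, ?_, ?_⟩
  · intro h
    have h1 : (ℂ ∙ v) = (ℂ ∙ w) := congrArg Subtype.val h
    have h2 : w ∈ (ℂ ∙ v) := by
      rw [h1]
      exact Submodule.mem_span_singleton_self w
    obtain ⟨s, hs⟩ := Submodule.mem_span_singleton.mp h2
    have h3 : (a - b) • w = 0 := by
      have h4 : ρ x w = a • w := by
        rw [← hs, map_smul, hTv, smul_smul, smul_smul, mul_comm]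
      rw [sub_smul, ← h4, hTw, sub_self]
    rcases smul_eq_zero.mp h3 with h4 | h4
    · exact hab (sub_eq_zero.mp h4)
    · exact hw h4
  · intro ℓ
    obtain ⟨u, hu, rfl⟩ := Ln.exists_mk ρ ℓ
    constructor
    · intro h
      obtain ⟨c, hc⟩ := (Ln.smul_mk_eq_iff ρ x hu).mp h
      rcases eigenline_cases hdim (ρ x) hab hv hw hu hTv hTw hc with h1 | h1
      · left
        exact Subtype.ext h1
      · right
        exact Subtype.ext h1
    · rintro (h | h)
      · rw [h, Ln.smul_mk_eq_iff]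
        exact ⟨a, hTv⟩
      · rw [h, Ln.smul_mk_eq_iff]
        exact ⟨b, hTw⟩

theorem central_fixes (ρ : Representation ℂ G V) (hρ : ρ.IsIrreducible)
    (hfaith : ∀ g, ρ g = 1 → g = 1) {x : G} (hx : x ∈ Subgroup.center G) (ℓ : Ln ρ) : x • ℓ = ℓ := by
  obtain ⟨u, hu, rfl⟩ := Ln.exists_mk ρ ℓ
  rw [Ln.smul_mk_eq_iff]
  obtain ⟨c, hc⟩ := (mem_center_iff' ρ hρ hfaith x).mp hx
  exact ⟨c, by rw [hc]; simp⟩

/-- The lines fixed by a noncentral element. -/
def Om (ρ : Representation ℂ G V) : SubMulAction G (Ln ρ) where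
  carrier := {ℓ | ∃ x, x ∉ Subgroup.center G ∧ x • ℓ = ℓ}
  smul_mem' g ℓ := by
    rintro ⟨x, hx, h⟩
    refine ⟨g * x * g⁻¹, ?_, ?_⟩
    · intro hc
      apply hx
      have h1 : g⁻¹ * (g * x * g⁻¹) * g = x := by group
      rw [← h1]
      have := (Subgroup.instNormalCenter (G := G)).conj_mem _ hc g⁻¹
      simpa using this
    · rw [mul_smul, mul_smul, inv_smul_smul, h]

theorem mem_Om (ρ : Representation ℂ G V) (ℓ : Ln ρ) :
    ℓ ∈ Om ρ ↔ ∃ x, x ∉ Subgroup.center G ∧ x • ℓ = ℓ := Iff.rfl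

theorem finite_Om (ρ : Representation ℂ G V) (hdim : Module.finrank ℂ V = 2)
    (hρ : ρ.IsIrreducible) (hfaith : ∀ g, ρ g = 1 → g = 1) : Finite (Om ρ) := by
  have h1 : ((Om ρ : SubMulAction G (Ln ρ)) : Set (Ln ρ)) ⊆
      ⋃ x : {x : G // x ∉ Subgroup.center G}, {ℓ : Ln ρ | x.1 • ℓ = ℓ} := by
    rintro ℓ ⟨x, hx, h⟩
    exact Set.mem_iUnion.mpr ⟨⟨x, hx⟩, h⟩
  have h2 : (⋃ x : {x : G // x ∉ Subgroup.center G}, {ℓ : Ln ρ | x.1 • ℓ = ℓ}).Finite := by
    apply Set.finite_iUnion
    rintro ⟨x, hx⟩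
    obtain ⟨v, w, hv, hw, -, h⟩ := fixed_lines ρ hdim hρ hfaith hx
    have h3 : {ℓ : Ln ρ | x • ℓ = ℓ} = {Ln.mk ρ v hv, Ln.mk ρ w hw} := by
      ext ℓ
      exact h ℓ
    change {ℓ : Ln ρ | x • ℓ = ℓ}.Finite
    rw [h3]
    exact Set.toFinite _
  exact (h2.subset h1).to_subtype

theorem card_fixedBy_noncentral (ρ : Representation ℂ G V) (hdim : Module.finrank ℂ V = 2)
    (hρ : ρ.IsIrreducible) (hfaith : ∀ g, ρ g = 1 → g = 1) {x : G} (hx : x ∉ Subgroup.center G) :
    Nat.card (MulAction.fixedBy (Om ρ) x) = 2 := by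
  obtain ⟨v, w, hv, hw, hne, h⟩ := fixed_lines ρ hdim hρ hfaith hx
  have hvO : Ln.mk ρ v hv ∈ Om ρ := ⟨x, hx, (h _).mpr (Or.inl rfl)⟩
  have hwO : Ln.mk ρ w hw ∈ Om ρ := ⟨x, hx, (h _).mpr (Or.inr rfl)⟩
  have h3 : MulAction.fixedBy (Om ρ) x = {⟨_, hvO⟩, ⟨_, hwO⟩} := by
    ext ℓ
    rw [MulAction.mem_fixedBy, Set.mem_insert_iff, Set.mem_singleton_iff]
    constructor
    · intro hℓ
      have h4 : x • ℓ.1 = ℓ.1 := congrArg Subtype.val hℓ
      rcases (h _).mp h4 with h5 | h5
      · left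
        exact Subtype.ext h5
      · right
        exact Subtype.ext h5
    · rintro (h5 | h5)
      · apply Subtype.ext
        rw [h5]
        exact (h _).mpr (Or.inl rfl)
      · apply Subtype.ext
        rw [h5]
        exact (h _).mpr (Or.inr rfl)
  rw [h3, Nat.card_coe_set_eq, Set.ncard_pair]
  intro h6
  exact hne (congrArg Subtype.val h6)

theorem card_fixedBy_central (ρ : Representation ℂ G V) (hρ : ρ.IsIrreducible)
    (hfaith : ∀ g, ρ g = 1 → g = 1) {x : G} (hx : x ∈ Subgroup.center G) :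
    Nat.card (MulAction.fixedBy (Om ρ) x) = Nat.card (Om ρ) := by
  have h3 : MulAction.fixedBy (Om ρ) x = Set.univ := by
    ext ℓ
    simp only [MulAction.mem_fixedBy, Set.mem_univ, iff_true]
    apply Subtype.ext
    exact central_fixes ρ hρ hfaith hx ℓ.1
  rw [h3]
  exact Nat.card_univ

/-- The numerical data of an orbit. -/
theorem orbit_data (ρ : Representation ℂ G V) (hdim : Module.finrank ℂ V = 2)
    (hρ : ρ.IsIrreducible) (hfaith : ∀ g, ρ g = 1 → g = 1)
    (hprim : ∀ H : Subgroup G, H ≠ ⊤ → ∀ θ : H → ℂ, IsCharacter H θ → ρ.character ≠ indFun H θ)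
    (ℓ : Om ρ) : ∃ e : ℕ, Nat.card (MulAction.orbit G ℓ) * e = (Subgroup.center G).index ∧ 2 ≤ e ∧
      3 ≤ Nat.card (MulAction.orbit G ℓ) := by
  classical
  set S := MulAction.stabilizer G ℓ with hS
  have hmem : ∀ x, x ∈ S ↔ x • ℓ.1 = ℓ.1 := by
    intro x
    rw [hS, MulAction.mem_stabilizer_iff]
    constructor
    · intro h
      exact congrArg Subtype.val h
    · intro h
      exact Subtype.ext h
  have hZS : Subgroup.center G ≤ S := by
    intro x hx
    rw [hmem]
    exact central_fixes ρ hρ hfaith hx ℓ.1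
  have hidx : S.index = Nat.card (MulAction.orbit G ℓ) := by
    rw [hS, MulAction.index_stabilizer, Nat.card_coe_set_eq]
  obtain ⟨e, he⟩ := Subgroup.card_dvd_of_le hZS
  have hZpos : 0 < Nat.card (Subgroup.center G) := Nat.card_pos
  have hSpos : 0 < Nat.card S := Nat.card_pos
  have h1 := Subgroup.card_mul_index S
  have h2 := Subgroup.card_mul_index (Subgroup.center G)
  have h3 : S.index * e = (Subgroup.center G).index := by
    apply Nat.eq_of_mul_eq_mul_left hZpos
    rw [h2, ← h1, he]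
    ring
  refine ⟨e, hidx ▸ h3, ?_, ?_⟩
  · have he0 : e ≠ 0 := by
      rintro rfl
      rw [mul_zero] at he
      omega
    have he1 : e ≠ 1 := by
      rintro rfl
      rw [mul_one] at he
      have h4 : Subgroup.center G = S := Subgroup.eq_of_le_of_card_ge hZS he.le
      obtain ⟨x, hx, hxl⟩ := ℓ.2
      exact hx (h4 ▸ (hmem x).mpr hxl)
    omega
  · rw [← hidx]
    have h0 : S.index ≠ 0 := Subgroup.index_ne_zero_of_finite
    obtain ⟨v, hv, hl⟩ := Ln.exists_mk ρ ℓ.1
    have hmem' : ∀ x, x ∈ S ↔ ∃ c : ℂ, ρ x v = c • v := by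
      intro x
      rw [hmem, hl, Ln.smul_mk_eq_iff]
    have h1' : S.index ≠ 1 := by
      intro h
      rw [Subgroup.index_eq_one] at h
      apply no_invariant_line ρ hdim hρ hv
      intro g
      rw [← hmem', h]
      trivial
    have h2' : S.index ≠ 2 := by
      intro h
      obtain ⟨θ, hθ, hind⟩ := imprimitive ρ hdim hρ S h hv hmem'
      refine hprim S ?_ θ hθ hind
      rintro h5
      rw [h5] at h
      simp at h
    omega

/-- The main counting argument. -/
theorem index_of_primitive (ρ : Representation ℂ G V) (hdim : Module.finrank ℂ V = 2)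
    (hρ : ρ.IsIrreducible) (hfaith : ∀ g, ρ g = 1 → g = 1)
    (hprim : ∀ H : Subgroup G, H ≠ ⊤ → ∀ θ : H → ℂ, IsCharacter H θ → ρ.character ≠ indFun H θ) :
    (Subgroup.center G).index = 12 ∨ (Subgroup.center G).index = 24 ∨
      (Subgroup.center G).index = 60 := by
  classical
  haveI hfin : Finite (Om ρ) := finite_Om ρ hdim hρ hfaith
  letI : Fintype (Om ρ) := Fintype.ofFinite _
  letI : Fintype (MulAction.orbitRel.Quotient G (Om ρ)) := Fintype.ofFinite _
  letI : ∀ g : G, Fintype (MulAction.fixedBy (Om ρ) g) := fun g => Fintype.ofFinite _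
  set N := (Subgroup.center G).index with hN
  have hNge : 2 ≤ N := by
    have h1 : N ≠ 0 := Subgroup.index_ne_zero_of_finite
    have h2 : N ≠ 1 := by
      intro h
      rw [hN, Subgroup.index_eq_one] at h
      exact center_ne_top ρ hdim hρ hfaith h
    omega
  have hb := MulAction.sum_card_fixedBy_eq_card_orbits_mul_card_group G (Om ρ)
  have hsum : ∀ g : G, Fintype.card (MulAction.fixedBy (Om ρ) g) =
      if g ∈ Subgroup.center G then Nat.card (Om ρ) else 2 := by
    intro g
    rw [← Nat.card_eq_fintype_card]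
    split_ifs with h
    · exact card_fixedBy_central ρ hρ hfaith h
    · exact card_fixedBy_noncentral ρ hdim hρ hfaith h
  simp only [hsum] at hb
  rw [Finset.sum_ite, Finset.sum_const, Finset.sum_const, smul_eq_mul, smul_eq_mul] at hb
  have hcZ : (Finset.univ.filter (fun g => g ∈ Subgroup.center G)).card = Nat.card (Subgroup.center G) := by
    rw [Nat.card_eq_fintype_card, Fintype.card_subtype]
  have hcc := Finset.card_filter_add_card_filter_not (s := (Finset.univ : Finset G))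
    (fun g => g ∈ Subgroup.center G)
  rw [hcZ] at hb hcc
  rw [Finset.card_univ] at hcc
  set Z := Nat.card (Subgroup.center G) with hZ
  have hZpos : 0 < Z := Nat.card_pos
  have hG : Z * N = Fintype.card G := by
    rw [hZ, hN, Subgroup.card_mul_index, Nat.card_eq_fintype_card]
  -- orbits
  let Q := MulAction.orbitRel.Quotient G (Om ρ)
  let m : Q → ℕ := fun q => Nat.card (MulAction.orbit G (Quotient.out q))
  have hdata := fun q : Q => orbit_data ρ hdim hρ hfaith hprim (Quotient.out q)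
  choose e he using hdata
  have hcard : Nat.card (Om ρ) = ∑ q, m q := by
    rw [Nat.card_congr (MulAction.selfEquivSigmaOrbits G (Om ρ)), Nat.card_sigma]
  refine arith_sum hNge m e (fun q => (he q).1) (fun q => (he q).2.1) (fun q => (he q).2.2) ?_
  rw [← hcard]
  apply Nat.eq_of_mul_eq_mul_left hZpos
  have h5 : (Finset.univ.filter (fun g => g ∉ Subgroup.center G)).card = Z * N - Z := by
    omega
  rw [h5, ← hG] at hb
  have hle : Z ≤ Z * N := Nat.le_mul_of_pos_right _ (by omega)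
  have h6 : Z * (Nat.card (Om ρ)) + (Z * N - Z) * 2 + 2 * Z = Z * (Fintype.card Q * N) + 2 * Z := by
    rw [hb]
    ring
  have h7 : (Z * N - Z) * 2 + 2 * Z = 2 * (Z * N) := by omega
  calc Z * (Nat.card (Om ρ) + 2 * N) = Z * Nat.card (Om ρ) + 2 * (Z * N) := by ring
    _ = Z * Nat.card (Om ρ) + ((Z * N - Z) * 2 + 2 * Z) := by rw [h7]
    _ = Z * (Fintype.card Q * N) + 2 * Z := by rw [← h6]; ring
    _ = Z * (Fintype.card Q * N + 2) := by ring

end Count

end Cfsg.Agent.Lib.Deg2Prim
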