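import Mathlib
import Cfsg.Agent.Lib.DefectTwo2

/-!
# Self-centralizing subgroups of prime order with `|N(P)| = 2 p`: the complete exceptional data

`Θ_{r j} = -1 + w₁ χ₁ + σ χ_{e j}`, where the `r j` represent the nontrivial characters of `P` up to inversion.
-/

set_option autoImplicit false
set_option linter.style.haveILetI false
set_option linter.unusedSectionVars false
set_option linter.unusedVariables false

namespace Cfsg.Agent.Lib.Deg2pData

open Cfsg Cfsg.Agent.Lib.CharBasic Cfsg.Agent.Lib.DefectOne Cfsg.Agent.Lib.DefectTwo Subgroup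
open scoped ComplexConjugate

universe v

open scoped Classical in
/-- The complete data. -/
structure ExData {G : Type v} [Group G] [Fintype G] (P : Subgroup G) (p : ℕ) where
  J : Type v
  instF : Fintype J
  instD : DecidableEq J
  r : J → (↥P →* ℂˣ)
  e : J → IrrCharacter G
  i₁ : IrrCharacter G
  w₁ : ℤ
  σ : ℤ
  d : IrrCharacter G → ℕ
  x₀ : ℕ
  hr : ∀ j, r j ≠ 1
  hw : w₁ = 1 ∨ w₁ = -1
  hσ : σ = 1 ∨ σ = -1
  he : Function.Injective e
  he1 : ∀ j, e j ≠ oneIrr G
  hi₁ : i₁ ≠ oneIrr G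
  hei : ∀ j, e j ≠ i₁
  hd : ∀ i : IrrCharacter G, 0 < d i ∧ (i : G → ℂ) 1 = d i
  hx₀ : ∀ j, d (e j) = x₀
  hJ : 2 * (Fintype.card J : ℤ) = p - 1
  hu : ∀ j (i : IrrCharacter G), classInner (theta P (r j)) (i : G → ℂ) =
    (((if i = oneIrr G then -1 else 0) + (if i = i₁ then w₁ else 0) + (if i = e j then σ else 0) : ℤ) : ℂ)
  hrest : ∀ i : IrrCharacter G, i ≠ oneIrr G → i ≠ i₁ → (∀ j, i ≠ e j) → (p : ℤ) ∣ d i
  hdeq : -1 + w₁ * d i₁ + σ * x₀ = 0
  hc₁ : (d i₁ : ℤ) ≡ - w₁ [ZMOD p]
  hc₀ : (x₀ : ℤ) ≡ 2 * σ [ZMOD p]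
  hsurj : ∀ f : ↥P →* ℂˣ, f ≠ 1 → ∃ j, f = r j ∨ f = (r j)⁻¹
  hinj : ∀ j k, r j = r k ∨ r j = (r k)⁻¹ → j = k

attribute [instance] ExData.instF ExData.instD

section

variable {G : Type v} [Group G] [Fintype G] {P : Subgroup G} {p : ℕ}

/-- An involution in the normalizer. -/
theorem exists_invol (hN : Nat.card (normalizer (P : Set G)) = p * 2) :
    ∃ t : G, t ∈ normalizer (P : Set G) ∧ t ^ 2 = 1 ∧ t ≠ 1 := by
  haveI : Fact (Nat.Prime 2) := ⟨Nat.prime_two⟩
  obtain ⟨x, hx⟩ := exists_prime_orderOf_dvd_card' (G := normalizer (P : Set G)) 2 (by rw [hN]; exact dvd_mul_left _ _)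
  have hx2 : x ^ 2 = 1 := by rw [← hx]; exact pow_orderOf_eq_one x
  have hx1 : x ≠ 1 := by
    rintro rfl
    rw [orderOf_one] at hx
    omega
  refine ⟨x, x.2, ?_, ?_⟩
  · have := congrArg Subtype.val hx2
    simpa using this
  · intro h
    exact hx1 (Subtype.ext h)

variable (H : Hyp P p)
include H

/-- Powers of nontrivial characters. -/
theorem pow_ne_one {f : ↥P →* ℂˣ} (hf : f ≠ 1) {k : ℕ} (hk : ¬ p ∣ k) : f ^ k ≠ 1 := by
  intro h
  have hnt : Nontrivial ↥P := by
    apply Finite.one_lt_card_iff_nontrivial.1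
    rw [H.card]
    exact H.prime.one_lt
  obtain ⟨w, hw⟩ := exists_ne (1 : ↥P)
  apply H.apply_ne_one hf hw
  have h1 : (f w) ^ k = 1 := by
    have := congrArg (fun g : ↥P →* ℂˣ => g w) h
    simpa using this
  have h2 : (f w) ^ p = 1 := by
    rw [← map_pow, ← H.card, pow_card_eq_one', map_one]
  have h3 : Nat.Coprime p k := (Nat.Prime.coprime_iff_not_dvd H.prime).2 hk
  have h4 : orderOf (f w) ∣ Nat.gcd p k :=
    Nat.dvd_gcd (orderOf_dvd_of_pow_eq_one h2) (orderOf_dvd_of_pow_eq_one h1)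
  rw [h3] at h4
  have h5 : orderOf (f w) = 1 := Nat.dvd_one.1 h4
  exact orderOf_eq_one_iff.1 h5

/-- `Θ_{f⁻¹} = Θ_f`. -/
theorem theta_inv (hN : Nat.card (normalizer (P : Set G)) = p * 2) (hp2 : p ≠ 2) {f : ↥P →* ℂˣ} (hf : f ≠ 1) :
    theta P f⁻¹ = theta P f := by
  obtain ⟨t, htN, ht2, ht1⟩ := exists_invol hN
  have h1 : (⟨t, htN⟩ : normalizer (P : Set G)) • f = f⁻¹ := by
    ext w
    rw [DefectOne.smul_apply]
    have h2 : cj P ⟨t, htN⟩ w = w⁻¹ := by
      apply Subtype.ext
      have hinv : t⁻¹ = t := by rw [inv_eq_iff_mul_eq_one, ← pow_two, ht2]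
      have h3 := hyp_inverts H hp2 htN ht2 ht1 w.2
      show t⁻¹ * (w : G) * t = ((w⁻¹ : ↥P) : G)
      rw [Subgroup.coe_inv, ← h3, hinv]
    rw [h2]
    simp
  rw [← h1]
  exact theta_smul H hN _ hf

/-- The main existence theorem. -/
theorem exists_exData (hN : Nat.card (normalizer (P : Set G)) = p * 2) (hp5 : 5 ≤ p) : Nonempty (ExData P p) := by
  classical
  have hp2 : p ≠ 2 := by omega
  obtain ⟨J, _, _, r, u, d, hr, hm, hd, hJ, hu, hone, hzero, hcong⟩ := lattice_data H (s := 2) (by norm_num) hN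
  have hd1 : d (oneIrr G) = 1 := by
    have h1 := (hd (oneIrr G)).2
    have h2 : ((d (oneIrr G) : ℕ) : ℂ) = 1 := by rw [← h1]; rfl
    exact_mod_cast h2
  have hcardJ : 2 ≤ Fintype.card J := by
    have hp5' : (5 : ℤ) ≤ p := by exact_mod_cast hp5
    have : (2 : ℤ) ≤ Fintype.card J := by
      push_cast at hJ
      omega
    exact_mod_cast this
  obtain ⟨w, e, σ, hσ, hinj, hwe, hform⟩ := sunflower_two u (fun i => (d i : ℤ))
    (fun i => by exact_mod_cast (hd i).1) (oneIrr G) (by rw [hd1]; rfl) hone (by exact_mod_cast hu) hzero hcardJ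
  have hfacts := star_facts 2 u (oneIrr G) hone (by exact_mod_cast hu) hcardJ w e σ 0 hσ hinj
    (fun j => by rw [hwe]; ring) hform
  obtain ⟨hne, hwi, hnorm, -⟩ := hfacts
  have hnorm2 : ∑ i, w i ^ 2 = 2 := by
    have : ∑ i, w i ^ 2 = ∑ i, w i * w i := Finset.sum_congr rfl fun i _ => pow_two _
    rw [this, hnorm]
    norm_num
  have hone2 : w (oneIrr G) ^ 2 = 1 := by rw [hwi]; norm_num
  obtain ⟨i₁, hi₁, hw1, hrest⟩ := exists_one_of_sum_sq_eq_two w (oneIrr G) hone2 hnorm2
  have hw1' : w i₁ = 1 ∨ w i₁ = -1 := sq_one_cases hw1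
  obtain ⟨j₁⟩ : Nonempty J := Fintype.card_pos_iff.1 (by omega)
  have hσ2 : σ * σ = 1 := by rcases hσ with rfl | rfl <;> norm_num
  have hei : ∀ j, e j ≠ i₁ := by
    intro j h
    have h1 := hwe j
    rw [h] at h1
    rw [h1] at hw1
    norm_num at hw1
  -- the degree relation for every `j`
  have hdeq : ∀ j, -1 + w i₁ * d i₁ + σ * d (e j) = 0 := by
    intro j
    have h1 := hzero j
    simp_rw [hform] at h1
    have h2 : ∀ i : IrrCharacter G, (d i : ℤ) * (w i + σ * (if i = e j then 1 else 0)) =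
        (d i : ℤ) * w i + σ * (if i = e j then (d i : ℤ) else 0) := by
      intro i
      split_ifs <;> ring
    simp_rw [h2] at h1
    rw [Finset.sum_add_distrib, ← Finset.mul_sum, Finset.sum_ite_eq'] at h1
    simp only [Finset.mem_univ, if_true] at h1
    have h3 : ∑ i : IrrCharacter G, (d i : ℤ) * w i = (d (oneIrr G) : ℤ) * w (oneIrr G) + (d i₁ : ℤ) * w i₁ := by
      apply Fintype.sum_eq_add _ _ (Ne.symm hi₁)
      intro k hk
      rw [hrest k hk.1 hk.2, mul_zero]
    rw [h3, hd1, hwi] at h1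
    push_cast at h1
    linarith
  have hx₀ : ∀ j, d (e j) = d (e j₁) := by
    intro j
    have h1 := hdeq j
    have h2 := hdeq j₁
    have h3 : σ * ((d (e j) : ℤ) - d (e j₁)) = 0 := by linarith
    have hσ0 : σ ≠ 0 := by rcases hσ with rfl | rfl <;> norm_num
    have h4 := (mul_eq_zero.1 h3).resolve_left hσ0
    have h5 : (d (e j) : ℤ) = d (e j₁) := by linarith
    exact_mod_cast h5
  -- the coefficient formula
  have huform : ∀ j (i : IrrCharacter G), u j i = (if i = oneIrr G then -1 else 0) + (if i = i₁ then w i₁ else 0) +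
      (if i = e j then σ else 0) := by
    intro j i
    rw [hform]
    by_cases h1 : i = oneIrr G
    · subst h1
      rw [if_neg (Ne.symm (hne j)), if_neg (Ne.symm (hne j)), if_pos rfl, if_neg (Ne.symm hi₁), hwi]
      ring
    · by_cases h2 : i = i₁
      · subst h2
        rw [if_neg (Ne.symm (hei j)), if_neg (Ne.symm (hei j)), if_neg h1, if_pos rfl]
        ring
      · rw [if_neg h1, if_neg h2, hrest i h1 h2]
        split_ifs <;> ring
  -- injectivity of `r` up to inversion
  have hrinj : ∀ j k, r j = r k ∨ r j = (r k)⁻¹ → j = k := by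
    intro j k h
    have hθ : theta P (r j) = theta P (r k) := by
      rcases h with h | h
      · rw [h]
      · rw [h]
        exact theta_inv H hN hp2 (hr k)
    have huu : ∀ i, u j i = u k i := by
      intro i
      have h1 := hm j i
      have h2 := hm k i
      rw [hθ, h2] at h1
      exact_mod_cast h1.symm
    by_contra hjk
    have h1 := hu j k
    have h2 := hu k k
    simp_rw [huu] at h1
    rw [if_neg (fun h3 => hjk h3)] at h1
    rw [if_pos rfl] at h2
    rw [h1] at h2
    norm_num at h2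
  -- surjectivity up to inversion
  have hrsurj : ∀ f : ↥P →* ℂˣ, f ≠ 1 → ∃ j, f = r j ∨ f = (r j)⁻¹ := by
    haveI : Finite (↥P →* ℂˣ) := H.finite_dual
    haveI : Fintype (↥P →* ℂˣ) := Fintype.ofFinite _
    let φ : J × Bool → NT P := fun x => if x.2 then ⟨r x.1, hr x.1⟩ else ⟨(r x.1)⁻¹, (inv_ne_one (α := ↥P →* ℂˣ)).2 (hr x.1)⟩
    have hφinj : Function.Injective φ := by
      rintro ⟨j, b⟩ ⟨k, b'⟩ h
      have hself : ∀ j, r j ≠ (r j)⁻¹ := by
        intro j h5
        have h6 : r j ^ 2 = 1 := by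
          rw [pow_two]
          nth_rewrite 2 [h5]
          exact mul_inv_cancel (r j)
        refine pow_ne_one H (hr j) (k := 2) ?_ h6
        intro h7
        exact hp2 ((Nat.prime_dvd_prime_iff_eq H.prime Nat.prime_two).1 h7)
      cases b <;> cases b' <;> simp only [φ, if_true, if_false, Bool.false_eq_true, Subtype.mk.injEq] at h
      · have h1 : r j = r k := inv_injective h
        rw [hrinj j k (Or.inl h1)]
      · have h1 : r j = (r k)⁻¹ := by rw [← h]; exact (inv_inv (r j)).symm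
        have h2 := hrinj j k (Or.inr h1)
        subst h2
        exact absurd h1 (hself j)
      · have h2 := hrinj j k (Or.inr h)
        subst h2
        exact absurd h (hself j)
      · rw [hrinj j k (Or.inl h)]
    have hcardNT : (Fintype.card (NT P) : ℤ) = p - 1 := by
      have h1 : Fintype.card (NT P) = Fintype.card (↥P →* ℂˣ) - 1 := by
        rw [Fintype.card_subtype_compl, Fintype.card_subtype_eq]
      rw [h1, ← Nat.card_eq_fintype_card, H.card_dual, Nat.cast_sub H.prime.one_lt.le]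
      simp
    have hcardeq : Fintype.card (J × Bool) = Fintype.card (NT P) := by
      rw [Fintype.card_prod, Fintype.card_bool]
      have : ((Fintype.card J * 2 : ℕ) : ℤ) = Fintype.card (NT P) := by
        rw [hcardNT, ← hJ]
        push_cast
        ring
      exact_mod_cast this
    have hbij := (Fintype.bijective_iff_injective_and_card φ).2 ⟨hφinj, hcardeq⟩
    intro f hf
    obtain ⟨⟨j, b⟩, hx⟩ := hbij.2 ⟨f, hf⟩
    refine ⟨j, ?_⟩
    cases b <;> simp only [φ, if_true, if_false, Bool.false_eq_true, Subtype.mk.injEq] at hx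
    · right; exact hx.symm
    · left; exact hx.symm
  refine ⟨⟨J, inferInstance, inferInstance, r, e, i₁, w i₁, σ, d, d (e j₁), hr, hw1', hσ, hinj, hne, hi₁, hei, hd, hx₀,
    ?_, ?_, ?_, hdeq j₁, ?_, ?_, hrsurj, hrinj⟩⟩
  · rw [← hJ]
    norm_num
  · intro j i
    rw [hm, huform]
  · intro i h1 h2 h3
    have h4 := hcong i
    have h5 : ∑ j, u j i = 0 := by
      apply Finset.sum_eq_zero
      intro j _
      rw [huform, if_neg h1, if_neg h2, if_neg (h3 j)]
      ring
    rw [h5, mul_zero] at h4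
    exact Int.modEq_zero_iff_dvd.1 h4
  · -- congruence for `i₁`
    have h1 : ∑ j, u j i₁ = Fintype.card J * w i₁ := by
      have h2 : ∀ j, u j i₁ = w i₁ := by
        intro j
        rw [hform j, if_neg (Ne.symm (hei j))]
        ring
      simp_rw [h2]
      rw [Finset.sum_const, Finset.card_univ, nsmul_eq_mul]
    have h3 := hcong i₁
    rw [h1] at h3
    have h4 : ((2 : ℕ) : ℤ) * (Fintype.card J * w i₁) = (p - 1) * w i₁ := by
      rw [← mul_assoc, hJ]
    rw [h4] at h3
    refine h3.trans ?_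
    have : ((p : ℤ) - 1) * w i₁ = - w i₁ + p * w i₁ := by ring
    rw [this]
    simp [Int.ModEq]
  · -- congruence for `B`
    have h1 : ∑ j, u j (e j₁) = σ := by
      have h2 : ∀ j, u j (e j₁) = if j = j₁ then σ else 0 := by
        intro j
        rw [hform j, hwe j₁]
        by_cases h3 : j = j₁
        · rw [if_pos h3, if_pos (by rw [h3])]; ring
        · rw [if_neg h3, if_neg (fun h4 => h3 (hinj h4).symm)]; ring
      simp_rw [h2]
      rw [Finset.sum_ite_eq']
      simp
    have h3 := hcong (e j₁)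
    rw [h1] at h3
    exact_mod_cast h3

end

end Cfsg.Agent.Lib.Deg2pData
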