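import Mathlib
import Cfsg.Agent.Lib.Deg2pData

/-!
# Degree `2 p`: the decomposition of the permutation character
-/

set_option autoImplicit false
set_option linter.style.haveILetI false
set_option linter.unusedSectionVars false
set_option linter.unusedVariables false

namespace Cfsg.Agent.Lib.Deg2pData

open Cfsg Cfsg.Agent.Lib.CharBasic Cfsg.Agent.Lib.DefectOne Cfsg.Agent.Lib.DefectTwo Cfsg.Agent.Lib.Deg2pData Subgroup
open scoped ComplexConjugate

universe v

variable {G : Type v} [Group G] [Fintype G] {P : Subgroup G} {p : ℕ}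

open scoped Classical in
/-- The exceptional irreducible characters. -/
noncomputable def ExData.S (D : ExData P p) : Finset (IrrCharacter G) :=
  insert (oneIrr G) (insert D.i₁ (Finset.univ.image D.e))

open scoped Classical in
theorem ExData.not_mem_S (D : ExData P p) {i : IrrCharacter G} (hi : i ∉ D.S) :
    i ≠ oneIrr G ∧ i ≠ D.i₁ ∧ ∀ j, i ≠ D.e j := by
  unfold ExData.S at hi
  simp only [Finset.mem_insert, Finset.mem_image, Finset.mem_univ, true_and, not_or, not_exists] at hi
  exact ⟨hi.1, hi.2.1, fun j h => hi.2.2 j h.symm⟩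

open scoped Classical in
/-- Splitting a sum over the irreducible characters. -/
theorem ExData.sum_split {M : Type*} [AddCommMonoid M] (D : ExData P p) (F : IrrCharacter G → M) :
    ∑ i, F i = F (oneIrr G) + F D.i₁ + ∑ j, F (D.e j) + ∑ i ∈ D.Sᶜ, F i := by
  rw [← Finset.sum_add_sum_compl D.S F]
  congr 1
  unfold ExData.S
  rw [Finset.sum_insert, Finset.sum_insert, Finset.sum_image (fun a _ b _ h => D.he h), add_assoc]
  · simp only [Finset.mem_image, Finset.mem_univ, true_and, not_exists]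
    exact fun j => D.hei j
  · simp only [Finset.mem_insert, Finset.mem_image, Finset.mem_univ, true_and, not_or, not_exists]
    exact ⟨D.hi₁.symm, fun j h => D.he1 j h⟩

open scoped Classical in
/-- The inner product of `Θ_{r j}` with a character given through multiplicities. -/
theorem ExData.inner_decomp (D : ExData P p) (m : IrrCharacter G → ℕ) (j : D.J) :
    classInner (theta P (D.r j)) (∑ i, m i • (i : G → ℂ)) =
      ((-(m (oneIrr G) : ℤ) + D.w₁ * m D.i₁ + D.σ * m (D.e j) : ℤ) : ℂ) := by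
  rw [classInner_sum_right]
  have h1 : ∀ i : IrrCharacter G, classInner (theta P (D.r j)) (m i • (i : G → ℂ)) =
      ((m i : ℂ) * (if i = oneIrr G then -1 else 0) + (m i : ℂ) * (if i = D.i₁ then (D.w₁ : ℂ) else 0) +
        (m i : ℂ) * (if i = D.e j then (D.σ : ℂ) else 0)) := by
    intro i
    rw [← Nat.cast_smul_eq_nsmul ℂ, classInner_smul_right, D.hu j i]
    simp only [map_natCast]
    push_cast
    ring
  simp_rw [h1]
  rw [Finset.sum_add_distrib, Finset.sum_add_distrib]
  simp only [mul_ite, mul_zero, Finset.sum_ite_eq', Finset.mem_univ, if_true]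
  push_cast
  ring

open scoped Classical in
/-- The degree formula. -/
theorem ExData.degree_decomp (D : ExData P p) (m : IrrCharacter G → ℕ) :
    (∑ i, m i • (i : G → ℂ)) 1 = ((∑ i, m i * D.d i : ℕ) : ℂ) := by
  rw [Finset.sum_apply]
  push_cast
  refine Finset.sum_congr rfl fun i _ => ?_
  rw [Pi.smul_apply, nsmul_eq_mul, (D.hd i).2]

theorem ExData.d_one (D : ExData P p) : D.d (oneIrr G) = 1 := by
  have h1 := (D.hd (oneIrr G)).2
  have h2 : ((D.d (oneIrr G) : ℕ) : ℂ) = 1 := by rw [← h1]; rfl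
  exact_mod_cast h2

section Pi

variable (H : Hyp P p)
include H

open scoped Classical in
/-- A function concentrated at `1`. -/
theorem inner_chi_concentrated [Fintype ↥P] (f : ↥P →* ℂˣ) (c : ℕ) {ψ : ↥P → ℂ} (h1 : ψ 1 = c)
    (h0 : ∀ w, w ≠ 1 → ψ w = 0) : classInner (chi f) ψ = (c : ℂ) / p := by
  have hp0 : (p : ℂ) ≠ 0 := by exact_mod_cast H.prime.ne_zero
  unfold classInner
  rw [Finset.sum_eq_single (1 : ↥P), H.card, h1]
  · simp [chi]
    field_simp
  · intro b _ hb
    rw [h0 b hb]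
    simp
  · intro h; exact absurd (Finset.mem_univ _) h

/-- The multiplicities in the permutation character. -/
theorem pi_decomp [IsSimpleGroup G] (hG : ¬ IsMulCommutative G) (hp5 : 5 ≤ p) (D : ExData P p)
    (m : IrrCharacter G → ℕ) {π : G → ℂ} (hπ : π = ∑ i, m i • (i : G → ℂ)) (hπ1 : π 1 = ((2 * p : ℕ) : ℂ))
    (hπ0 : ∀ w ∈ P, w ≠ 1 → π w = 0) (hm1 : m (oneIrr G) = 1)
    (hnot : ¬ IsIrrCharacter G (fun g => π g - 1)) :
    D.w₁ = 1 ∧ D.σ = -1 ∧ D.d D.i₁ + 1 = p ∧ D.x₀ + 2 = p ∧ m D.i₁ = 1 ∧ ∀ j, m (D.e j) = 0 := by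
  classical
  haveI : Fintype ↥P := Fintype.ofFinite _
  have hp0 : (p : ℂ) ≠ 0 := by exact_mod_cast H.prime.ne_zero
  have hpz : (5 : ℤ) ≤ p := by exact_mod_cast hp5
  have hclass : IsClassFunction G π := by
    rw [hπ]
    exact isClassFunction_of_isCharacter (isCharacter_of_nat_decomp m)
  -- the relation between the multiplicities
  have hrel : ∀ j, -1 + D.w₁ * m D.i₁ + D.σ * m (D.e j) = 0 := by
    intro j
    have h1 := D.inner_decomp m j
    rw [← hπ, classInner_theta _ hclass] at h1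
    have hval1 : (fun w : ↥P => π w) 1 = ((2 * p : ℕ) : ℂ) := hπ1
    have hval0 : ∀ w : ↥P, w ≠ 1 → (fun w : ↥P => π w) w = 0 := by
      intro w hw
      exact hπ0 w w.2 (fun h => hw (Subtype.ext h))
    rw [inner_chi_concentrated H _ _ hval1 hval0, inner_chi_concentrated H _ _ hval1 hval0, sub_self, hm1] at h1
    have h2 : ((-((1 : ℕ) : ℤ) + D.w₁ * m D.i₁ + D.σ * m (D.e j) : ℤ) : ℂ) = ((0 : ℤ) : ℂ) := by
      rw [← h1]
      simp
    have h3 : (-((1 : ℕ) : ℤ) + D.w₁ * m D.i₁ + D.σ * m (D.e j) : ℤ) = 0 := by exact_mod_cast h2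
    simpa using h3
  -- the degree equation
  have hdeg : ∑ i, m i * D.d i = 2 * p := by
    have h1 := D.degree_decomp m
    rw [← hπ, hπ1] at h1
    exact_mod_cast h1.symm
  rw [D.sum_split, hm1, D.d_one] at hdeg
  simp_rw [D.hx₀] at hdeg
  set R := ∑ i ∈ D.Sᶜ, m i * D.d i with hR
  set x₁ := D.d D.i₁ with hx₁
  set a := m D.i₁ with ha
  set x₀ := D.x₀ with hx₀
  have hdvdR : (p : ℤ) ∣ (R : ℤ) := by
    rw [hR]
    push_cast
    apply Finset.dvd_sum
    intro i hi
    obtain ⟨h1, h2, h3⟩ := D.not_mem_S (Finset.mem_compl.1 hi)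
    exact Dvd.dvd.mul_left (D.hrest i h1 h2 h3) _
  have hx₁pos : 0 < x₁ := (D.hd _).1
  have hx₁ne : x₁ ≠ 1 := degree_ne_one hG D.hi₁ (D.hd _).2
  obtain ⟨j₀⟩ : Nonempty D.J := by
    apply Fintype.card_pos_iff.1
    have := D.hJ
    have h3 : (0 : ℤ) < Fintype.card D.J := by omega
    exact_mod_cast h3
  have hx₀pos : 0 < x₀ := by
    rw [hx₀, ← D.hx₀ j₀]
    exact (D.hd _).1
  have hc2 : 2 ≤ Fintype.card D.J := by
    have := D.hJ
    have h3 : (2 : ℤ) ≤ Fintype.card D.J := by omega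
    exact_mod_cast h3
  have hc₁ := D.hc₁.symm.dvd
  have hc₀ := D.hc₀.symm.dvd
  have hdeq := D.hdeq
  rcases D.hw with hw | hw <;> rcases D.hσ with hσ | hσ <;> rw [hw] at hrel hc₁ hdeq <;> rw [hσ] at hrel hc₀ hdeq
  · -- `w₁ = 1, σ = 1`: impossible
    exfalso
    have : (x₁ : ℤ) + x₀ = 1 := by linarith
    omega
  · -- `w₁ = 1, σ = -1`: the main case
    have hx₁eq : x₁ = x₀ + 1 := by
      have : (x₁ : ℤ) = x₀ + 1 := by linarith
      exact_mod_cast this
    have hb : ∀ j, (m (D.e j) : ℤ) = a - 1 := by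
      intro j
      have := hrel j
      linarith
    have ha1 : 1 ≤ a := by
      have h1 := hb j₀
      have h2 : (0 : ℤ) ≤ m (D.e j₀) := by positivity
      have h3 : (1 : ℤ) ≤ a := by linarith
      exact_mod_cast h3
    have hp2 : (p : ℤ) ≤ (x₀ : ℤ) + 2 := by
      have h1 : (p : ℤ) ∣ (x₀ : ℤ) - 2 * -1 := hc₀
      have h2 : (p : ℤ) ∣ (x₀ : ℤ) + 2 := by simpa using h1
      exact Int.le_of_dvd (by positivity) h2
    have hbeq : ∀ j, m (D.e j) = a - 1 := by
      intro j
      have := hb j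
      omega
    have hsumT : ∑ j, m (D.e j) * x₀ = Fintype.card D.J * ((a - 1) * x₀) := by
      simp_rw [hbeq]
      rw [Finset.sum_const, Finset.card_univ, smul_eq_mul]
    rw [hsumT] at hdeg
    have ha2 : a = 1 := by
      by_contra hne
      have h2 : 2 ≤ a := by omega
      have h3 : 1 ≤ a - 1 := by omega
      have h4 : 2 * x₁ ≤ a * x₁ := Nat.mul_le_mul_right _ h2
      have h5 : 2 * (1 * x₀) ≤ Fintype.card D.J * ((a - 1) * x₀) :=
        Nat.mul_le_mul hc2 (Nat.mul_le_mul_right _ h3)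
      have hp2' : p ≤ x₀ + 2 := by exact_mod_cast hp2
      omega
    rw [ha2] at hdeg
    simp only [Nat.sub_self, zero_mul, mul_zero, add_zero] at hdeg
    have hb0 : ∀ j, m (D.e j) = 0 := by
      intro j
      rw [hbeq, ha2]
    -- the degree of `χ₁`
    have hc₁' : (p : ℤ) ∣ (x₁ : ℤ) + 1 := by
      have h1 : (p : ℤ) ∣ (x₁ : ℤ) - -1 := hc₁
      simpa using h1
    have hle : p ≤ x₁ + 1 := by
      have hp2' : p ≤ x₀ + 2 := by exact_mod_cast hp2
      omega
    obtain ⟨q, hq⟩ := hc₁'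
    obtain ⟨s, hs⟩ := hdvdR
    have hqs : (p : ℤ) * (q + s) = p * 2 := by
      have h1 : (1 : ℤ) + 1 * x₁ + R = 2 * p := by exact_mod_cast hdeg
      linear_combination h1 - hq - hs
    have hp0z : (p : ℤ) ≠ 0 := by omega
    have hqs2 : q + s = 2 := mul_left_cancel₀ hp0z hqs
    have hspos : 0 ≤ s := by
      by_contra hneg
      have h1 : s ≤ -1 := by omega
      have h2 : (p : ℤ) * s ≤ p * (-1) := mul_le_mul_of_nonneg_left h1 (by omega)
      have h3 : (0 : ℤ) ≤ R := by positivity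
      linarith
    have hqpos : 1 ≤ q := by
      by_contra hneg
      have h1 : q ≤ 0 := by omega
      have h2 : (p : ℤ) * q ≤ p * 0 := mul_le_mul_of_nonneg_left h1 (by omega)
      have h3 : (0 : ℤ) < x₁ := by exact_mod_cast hx₁pos
      linarith
    have hq1 : q = 1 := by
      by_contra hne
      -- `q = 2`, so `R = 0` and the character `π - 1` is irreducible
      have hq2 : q = 2 := by omega
      have hs0 : s = 0 := by omega
      have hR0 : R = 0 := by
        have : (R : ℤ) = 0 := by rw [hs, hs0, mul_zero]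
        exact_mod_cast this
      have hm0 : ∀ i ∈ D.Sᶜ, m i = 0 := by
        intro i hi
        have h1 := (Finset.sum_eq_zero_iff_of_nonneg (fun i _ => Nat.zero_le _)).1 (hR.symm.trans hR0) i hi
        rcases mul_eq_zero.1 h1 with h2 | h2
        · exact h2
        · exact absurd h2 (D.hd i).1.ne'
      apply hnot
      have hfun : (fun g => π g - 1) = (D.i₁ : G → ℂ) := by
        funext g
        have h1 : π g = ∑ i : IrrCharacter G, (m i : ℂ) * (i : G → ℂ) g := by
          rw [hπ, Finset.sum_apply]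
          simp only [Pi.smul_apply, nsmul_eq_mul]
        rw [h1, D.sum_split, hm1, ← ha, ha2]
        simp_rw [hb0]
        rw [Finset.sum_eq_zero (s := D.Sᶜ) (fun i hi => by rw [hm0 i hi]; simp)]
        simp [oneIrr]
      rw [hfun]
      exact D.i₁.2
    have hx₁p : x₁ + 1 = p := by
      have : (x₁ : ℤ) + 1 = p := by rw [hq, hq1, mul_one]
      exact_mod_cast this
    refine ⟨hw, hσ, hx₁p, ?_, ha2, hb0⟩
    omega
  · -- `w₁ = -1, σ = 1`
    exfalso
    have hx₀eq : (x₀ : ℤ) = x₁ + 1 := by linarith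
    have hb : ∀ j, (m (D.e j) : ℤ) = a + 1 := by
      intro j
      have := hrel j
      linarith
    have hbeq : ∀ j, m (D.e j) = a + 1 := by
      intro j
      have := hb j
      omega
    have hsumT : ∑ j, m (D.e j) * x₀ = Fintype.card D.J * ((a + 1) * x₀) := by
      simp_rw [hbeq]
      rw [Finset.sum_const, Finset.card_univ, smul_eq_mul]
    rw [hsumT] at hdeg
    have hx₁ge : (p : ℤ) + 1 ≤ x₁ := by
      have h1 : (p : ℤ) ∣ (x₁ : ℤ) - - -1 := hc₁
      have h2 : (p : ℤ) ∣ (x₁ : ℤ) - 1 := by simpa using h1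
      have h3 : (0 : ℤ) < (x₁ : ℤ) - 1 := by
        have : 2 ≤ x₁ := by omega
        have : (2 : ℤ) ≤ x₁ := by exact_mod_cast this
        omega
      have := Int.le_of_dvd h3 h2
      linarith
    have hx₀ge : p + 2 ≤ x₀ := by
      have : (p : ℤ) + 2 ≤ x₀ := by linarith
      exact_mod_cast this
    have h5 : Fintype.card D.J * (1 * x₀) ≤ Fintype.card D.J * ((a + 1) * x₀) :=
      Nat.mul_le_mul_left _ (Nat.mul_le_mul_right _ (by omega))
    have h6 : Fintype.card D.J * (p + 2) ≤ Fintype.card D.J * (1 * x₀) :=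
      Nat.mul_le_mul_left _ (by omega)
    have h7 : Fintype.card D.J * (p + 2) ≤ 2 * p := by omega
    have hJ := D.hJ
    have h8 : (Fintype.card D.J : ℤ) * (p + 2) ≤ 2 * p := by exact_mod_cast h7
    nlinarith
  · -- `w₁ = -1, σ = -1`: impossible
    exfalso
    have : (x₁ : ℤ) + x₀ = -1 := by linarith
    omega

end Pi

end Cfsg.Agent.Lib.Deg2pData
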