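import Mathlib
import Cfsg.Agent.Lib.Deg2pPerm
import Cfsg.Agent.Lib.CharKernel

/-!
# Degree `2 p`: values of the exceptional characters
-/

set_option autoImplicit false
set_option linter.style.haveILetI false
set_option linter.unusedSectionVars false
set_option linter.unusedVariables false

namespace Cfsg.Agent.Lib.Deg2pData

open Cfsg Cfsg.Agent.Lib.CharBasic Cfsg.Agent.Lib.DefectOne Cfsg.Agent.Lib.DefectTwo Subgroup
open scoped ComplexConjugate

universe v

variable {G : Type v} [Group G] [Fintype G] {P : Subgroup G} {p : ℕ}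

/-- The shape of the data for a non-doubly-transitive primitive group of degree `2 p`. -/
structure ExData.Good (D : ExData P p) : Prop where
  hw : D.w₁ = 1
  hσ : D.σ = -1
  hx₁ : D.d D.i₁ + 1 = p
  hx₀ : D.x₀ + 2 = p

open scoped Classical in
/-- The formula for `Θ`. -/
theorem ExData.theta_eq (D : ExData P p) (hg : D.Good) (j : D.J) (g : G) :
    theta P (D.r j) g = -1 + (D.i₁ : G → ℂ) g - (D.e j : G → ℂ) g := by
  rw [eval_eq_sum (theta_isClass _) g]
  simp_rw [D.hu j, hg.hw, hg.hσ]
  have h1 : ∀ i : IrrCharacter G, (((if i = oneIrr G then -1 else 0) + (if i = D.i₁ then 1 else 0) +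
      (if i = D.e j then -1 else 0) : ℤ) : ℂ) * (i : G → ℂ) g =
      (if i = oneIrr G then -(i : G → ℂ) g else 0) + (if i = D.i₁ then (i : G → ℂ) g else 0) +
        (if i = D.e j then -(i : G → ℂ) g else 0) := by
    intro i
    split_ifs <;> push_cast <;> ring
  simp_rw [h1]
  rw [Finset.sum_add_distrib, Finset.sum_add_distrib]
  simp only [Finset.sum_ite_eq', Finset.mem_univ, if_true]
  have h3 : (oneIrr G : G → ℂ) g = 1 := rfl
  rw [h3]
  ring

/-- `Θ` vanishes on elements of order prime to `p`. -/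
theorem theta_regular (H : Hyp P p) (f : ↥P →* ℂˣ) {g : G} (hg : ¬ p ∣ orderOf g) : theta P f g = 0 := by
  unfold theta Cfsg.indFun
  have h1 : ∑ x : G, Cfsg.extendByZero P (alpha f) (x⁻¹ * g * x) = 0 := by
    apply Finset.sum_eq_zero
    intro x _
    by_cases hmem : x⁻¹ * g * x ∈ P
    · have ho : orderOf (x⁻¹ * g * x) = orderOf g := by
        have := orderOf_injective (MulAut.conj x⁻¹).toMonoidHom (MulAut.conj x⁻¹).injective g
        simpa [MulAut.conj_apply] using this
      have h2 : orderOf (x⁻¹ * g * x) ∣ p := by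
        have := Subgroup.orderOf_dvd_natCard P hmem
        rwa [H.card] at this
      rw [ho] at h2
      have h3 : orderOf g = 1 := by
        rcases (Nat.dvd_prime H.prime).1 h2 with h4 | h4
        · exact h4
        · exact absurd (by rw [h4]) hg
      have h4 : g = 1 := orderOf_eq_one_iff.1 h3
      subst h4
      have h5 : x⁻¹ * 1 * x = ((1 : ↥P) : G) := by simp
      rw [h5, Cfsg.Agent.Lib.CharInd.extendByZero_coe, alpha_one]
    · exact Cfsg.Agent.Lib.CharInd.extendByZero_of_not_mem P _ hmem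
  rw [h1, mul_zero]

/-- Value of the exceptional characters on elements of order prime to `p`. -/
theorem ExData.chi_regular (D : ExData P p) (hg : D.Good) (H : Hyp P p) (j : D.J) {g : G} (hr : ¬ p ∣ orderOf g) :
    (D.e j : G → ℂ) g = (D.i₁ : G → ℂ) g - 1 := by
  have h1 := D.theta_eq hg j g
  rw [theta_regular H _ hr] at h1
  linear_combination h1

open scoped Classical in
/-- Structure of the normalizer: conjugation action. -/
theorem cj_eq_of_not_mem (H : Hyp P p) (hN : Nat.card (normalizer (P : Set G)) = p * 2) (hp2 : p ≠ 2)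
    (x : normalizer (P : Set G)) (w : ↥P) :
    cj P x w = if (x : G) ∈ P then w else w⁻¹ := by
  classical
  split_ifs with hx
  · apply Subtype.ext
    rw [cj_coe]
    have := H.commute hx w.2
    calc (x : G)⁻¹ * w * x = (x : G)⁻¹ * (w * x) := by group
      _ = (x : G)⁻¹ * (x * w) := by rw [this]
      _ = w := by group
  · obtain ⟨t, htN, ht2, ht1⟩ := exists_invol hN
    have hidx : (P.subgroupOf (normalizer (P : Set G))).index = 2 := by
      have h1 := Subgroup.card_mul_index (P.subgroupOf (normalizer (P : Set G)))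
      have h2 : Nat.card (P.subgroupOf (normalizer (P : Set G))) = p := by
        rw [← H.card]
        exact Nat.card_congr (Subgroup.subgroupOfEquivOfLe Subgroup.le_normalizer).toEquiv
      rw [h2, hN] at h1
      exact Nat.eq_of_mul_eq_mul_left H.prime.pos h1
    have htP : t ∉ P := by
      intro h
      have h1 := Cfsg.Agent.Lib.SmallGroups2.orderOf_eq_of_mem_of_ne_one H.prime H.card h ht1
      have h2 := orderOf_dvd_of_pow_eq_one ht2
      rw [h1] at h2
      exact hp2 ((Nat.prime_dvd_prime_iff_eq H.prime Nat.prime_two).1 h2)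
    have hmul := (Subgroup.mul_mem_iff_of_index_two hidx (a := x) (b := ⟨t, htN⟩)).2
      (by
        constructor
        · intro h; exact absurd h hx
        · intro h; exact absurd h htP)
    have hu : (x : G) * t ∈ P := hmul
    set u : G := (x : G) * t with hu'
    have htinv : t⁻¹ = t := by rw [inv_eq_iff_mul_eq_one, ← pow_two, ht2]
    have hx' : (x : G) = u * t := by
      rw [hu', mul_assoc, ← pow_two, ht2, mul_one]
    apply Subtype.ext
    rw [cj_coe, Subgroup.coe_inv, hx']
    have hcomm : u⁻¹ * (w : G) * u = w := by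
      have := H.commute hu w.2
      calc u⁻¹ * (w : G) * u = u⁻¹ * (w * u) := by group
        _ = u⁻¹ * (u * w) := by rw [this]
        _ = w := by group
    have h3 := hyp_inverts H hp2 htN ht2 ht1 w.2
    calc (u * t)⁻¹ * (w : G) * (u * t) = t⁻¹ * (u⁻¹ * (w : G) * u) * t := by group
      _ = t * (w : G) * t⁻¹ := by rw [hcomm, htinv]
      _ = (w : G)⁻¹ := h3

/-- The value of `Θ_f` on `P`. -/
theorem theta_on_P (H : Hyp P p) (hN : Nat.card (normalizer (P : Set G)) = p * 2) (hp2 : p ≠ 2) (f : ↥P →* ℂˣ)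
    (w : ↥P) (hw : w ≠ 1) : theta P f w = chi f w + (chi f w)⁻¹ - 2 := by
  classical
  haveI : Fintype (normalizer (P : Set G)) := Fintype.ofFinite _
  have hp0 : (p : ℂ) ≠ 0 := by exact_mod_cast H.prime.ne_zero
  have h1 := indFun_coe H (alpha f) (alpha_one f) w
  unfold theta
  rw [h1, H.card]
  simp_rw [cj_eq_of_not_mem H hN hp2]
  have h2 : ∀ x : normalizer (P : Set G), alpha f (if (x : G) ∈ P then w else w⁻¹) =
      if (x : G) ∈ P then alpha f w else alpha f w⁻¹ := by
    intro x
    split_ifs <;> rfl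
  simp_rw [h2]
  rw [Finset.sum_ite, Finset.sum_const, Finset.sum_const, nsmul_eq_mul, nsmul_eq_mul]
  set c₁ := (Finset.univ.filter fun x : normalizer (P : Set G) => (x : G) ∈ P).card with hc₁
  set c₂ := (Finset.univ.filter fun x : normalizer (P : Set G) => ¬ (x : G) ∈ P).card with hc₂
  have h3 : c₁ + c₂ = p * 2 := by
    rw [hc₁, hc₂, Finset.card_filter_add_card_filter_not, Finset.card_univ, ← Nat.card_eq_fintype_card, hN]
  have h4 : c₁ = p := by
    rw [hc₁, ← Fintype.card_subtype, ← Nat.card_eq_fintype_card, ← H.card]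
    exact Nat.card_congr (Subgroup.subgroupOfEquivOfLe Subgroup.le_normalizer).toEquiv
  have h5 : c₂ = p := by omega
  rw [h4, h5]
  have h6 : alpha f w = chi f w - 1 := by simp [alpha, chi]
  have h7 : alpha f w⁻¹ = (chi f w)⁻¹ - 1 := by simp [alpha, chi]
  rw [h6, h7, ← mul_add, ← mul_assoc, inv_mul_cancel₀ hp0, one_mul]
  ring

/-- Fourier inversion on `P`. -/
theorem fourier_inv (H : Hyp P p) [Fintype ↥P] [Fintype (↥P →* ℂˣ)] (ψ : ↥P → ℂ) (w : ↥P) :
    ∑ f : ↥P →* ℂˣ, (chi f w)⁻¹ * classInner (chi f) ψ = conj (ψ w) := by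
  classical
  have hp0 : (p : ℂ) ≠ 0 := by exact_mod_cast H.prime.ne_zero
  have h1 : ∀ f : ↥P →* ℂˣ, (chi f w)⁻¹ * classInner (chi f) ψ =
      (p : ℂ)⁻¹ * ∑ v : ↥P, chi f (v * w⁻¹) * conj (ψ v) := by
    intro f
    unfold classInner
    rw [H.card]
    rw [mul_left_comm, Finset.mul_sum (a := (chi f w)⁻¹)]
    congr 1
    refine Finset.sum_congr rfl fun v _ => ?_
    have h2 : chi f (v * w⁻¹) = (chi f w)⁻¹ * chi f v := by
      simp [chi, mul_comm]
    rw [h2, mul_assoc]
  simp_rw [h1]
  rw [← Finset.mul_sum, Finset.sum_comm]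
  simp_rw [← Finset.sum_mul]
  rw [Finset.sum_eq_single w]
  · have h2 : w * w⁻¹ = 1 := mul_inv_cancel w
    rw [h2, H.sum_dual_one]
    field_simp
  · intro b _ hb
    rw [H.sum_dual (fun h => hb (mul_inv_eq_one.1 h)), zero_mul]
  · intro h; exact absurd (Finset.mem_univ _) h

/-- A class function with constant inner product with all `Θ_f`. -/
theorem value_of_const_inner (H : Hyp P p) {ψ : G → ℂ} (hψ : IsClassFunction G ψ) {c : ℂ}
    (hc : ∀ f : ↥P →* ℂˣ, f ≠ 1 → classInner (theta P f) ψ = c) (w : ↥P) (hw : w ≠ 1) : conj (ψ w) = -c := by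
  classical
  haveI : Fintype ↥P := Fintype.ofFinite _
  haveI : Finite (↥P →* ℂˣ) := H.finite_dual
  haveI : Fintype (↥P →* ℂˣ) := Fintype.ofFinite _
  have h1 := fourier_inv H (fun v : ↥P => ψ v) w
  rw [← h1]
  have hwinv : w⁻¹ ≠ 1 := inv_ne_one.2 hw
  have hsum : ∑ f : ↥P →* ℂˣ, (chi f w)⁻¹ = 0 := by
    have h2 := H.sum_dual hwinv
    rw [← h2]
    refine Finset.sum_congr rfl fun f _ => ?_
    simp [chi]
  set c₁ := classInner (chi (1 : ↥P →* ℂˣ)) (fun v : ↥P => ψ v) with hc₁
  have h3 : ∀ f : ↥P →* ℂˣ, (chi f w)⁻¹ * classInner (chi f) (fun v : ↥P => ψ v) =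
      (chi f w)⁻¹ * (c₁ + c) - (if f = 1 then c else 0) := by
    intro f
    by_cases hf : f = 1
    · subst hf
      rw [if_pos rfl, ← hc₁]
      simp [chi]
    · rw [if_neg hf, sub_zero]
      congr 1
      have h4 := hc f hf
      rw [classInner_theta f hψ, ← hc₁] at h4
      rw [← h4]
      ring
  simp_rw [h3]
  rw [Finset.sum_sub_distrib, ← Finset.sum_mul, hsum, Finset.sum_ite_eq']
  simp

/-- `χ₁` on `P`. -/
theorem ExData.chi1_on_P (D : ExData P p) (hg : D.Good) (H : Hyp P p) (hN : Nat.card (normalizer (P : Set G)) = p * 2)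
    (hp2 : p ≠ 2) (w : ↥P) (hw : w ≠ 1) : (D.i₁ : G → ℂ) w = -1 := by
  classical
  have h1 := value_of_const_inner H (c := 1) (isClassFunction_of_isCharacter (IsIrrCharacter.isCharacter D.i₁.2)) ?_ w hw
  · have h2 := congrArg (starRingEnd ℂ) h1
    simpa using h2
  · intro f hf
    obtain ⟨j, hj⟩ := D.hsurj f hf
    have hθ : theta P f = theta P (D.r j) := by
      rcases hj with hj | hj
      · rw [hj]
      · rw [hj]
        exact theta_inv H hN hp2 (D.hr j)
    rw [hθ, D.hu j D.i₁, if_neg D.hi₁, if_pos rfl, if_neg (Ne.symm (D.hei j)), hg.hw]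
    simp

/-- The exceptional characters on `P`. -/
theorem ExData.chi0_on_P (D : ExData P p) (hg : D.Good) (H : Hyp P p) (hN : Nat.card (normalizer (P : Set G)) = p * 2)
    (hp2 : p ≠ 2) (j : D.J) (w : ↥P) (hw : w ≠ 1) :
    (D.e j : G → ℂ) w = -(chi (D.r j) w + (chi (D.r j) w)⁻¹) := by
  have h1 := D.theta_eq hg j w
  rw [theta_on_P H hN hp2 _ w hw, D.chi1_on_P hg H hN hp2 w hw] at h1
  linear_combination h1

/-- An irreducible nontrivial character of a simple group is faithful. -/
theorem eq_one_of_char_eq_degree [IsSimpleGroup G] (hG : ¬ IsMulCommutative G) {i : IrrCharacter G} (hi : i ≠ oneIrr G)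
    {g : G} (hg : (i : G → ℂ) g = (i : G → ℂ) 1) : g = 1 := by
  classical
  have hc := IsIrrCharacter.isCharacter i.2
  obtain ⟨d, hd⟩ := isCharacter_one_eq hc
  rcases (Cfsg.Agent.Lib.CharKernel.charKer_normal hc).eq_bot_or_eq_top with h | h
  · have h1 : g ∈ Cfsg.Agent.Lib.CharKernel.charKer hc := (Cfsg.Agent.Lib.CharKernel.mem_charKer hc).2 hg
    rw [h] at h1
    exact Subgroup.mem_bot.1 h1
  · exfalso
    have hall : ∀ x : G, (i : G → ℂ) x = d := by
      intro x
      have h1 : x ∈ Cfsg.Agent.Lib.CharKernel.charKer hc := by rw [h]; trivial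
      rw [(Cfsg.Agent.Lib.CharKernel.mem_charKer hc).1 h1, hd]
    have h2 := classInner_irr_self i.2
    unfold classInner at h2
    simp_rw [hall] at h2
    simp only [Finset.sum_const, Finset.card_univ, nsmul_eq_mul, map_natCast] at h2
    rw [← Nat.card_eq_fintype_card] at h2
    have hne : (Nat.card G : ℂ) ≠ 0 := by exact_mod_cast Nat.card_pos.ne'
    rw [inv_mul_cancel_left₀ hne] at h2
    have h3 : d * d = 1 := by exact_mod_cast h2
    have h4 : d = 1 := Nat.eq_one_of_mul_eq_one_right h3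
    exact degree_ne_one hG hi hd h4

end Cfsg.Agent.Lib.Deg2pData
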