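import Mathlib
import Cfsg.Agent.Lib.Deg2pVal
import Cfsg.Agent.Lib.AltSqChar

/-!
# Degree `2 p`: the alternating square of an exceptional character, and the functional equation
-/

set_option autoImplicit false
set_option linter.style.haveILetI false
set_option linter.unusedSectionVars false
set_option linter.unusedVariables false

namespace Cfsg.Agent.Lib.Deg2pData

open Cfsg Cfsg.Agent.Lib.CharBasic Cfsg.Agent.Lib.DefectOne Cfsg.Agent.Lib.DefectTwo Subgroup
open scoped ComplexConjugate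

universe v

variable {G : Type v} [Group G] [Fintype G] {P : Subgroup G} {p : ℕ}

/-- The alternating square of a function. -/
noncomputable def altSq (χ : G → ℂ) : G → ℂ := fun g => (χ g ^ 2 - χ (g * g)) / 2

/-- The restriction of the alternating square to `P`. -/
noncomputable def resFun (P : Subgroup G) (p : ℕ) (ζ : ↥P →* ℂˣ) : ↥P → ℂ :=
  ((((p : ℂ) - 5) / 2) • (fun w : ↥P => by classical exact if w = 1 then (p : ℂ) else 0)) + chi 1 + chi (ζ ^ 2) + chi (ζ ^ 2)⁻¹

open scoped Classical in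
theorem resFun_apply (ζ : ↥P →* ℂˣ) (w : ↥P) :
    resFun P p ζ w = ((p : ℂ) - 5) / 2 * (if w = 1 then (p : ℂ) else 0) + 1 + chi ζ w ^ 2 + (chi ζ w ^ 2)⁻¹ := by
  unfold resFun
  simp only [Pi.add_apply, Pi.smul_apply, smul_eq_mul]
  have h1 : chi (1 : ↥P →* ℂˣ) w = 1 := by simp [chi]
  have h2 : chi (ζ ^ 2) w = chi ζ w ^ 2 := by simp [chi]
  have h3 : chi (ζ ^ 2)⁻¹ w = (chi ζ w ^ 2)⁻¹ := by simp [chi]
  rw [h1, h2, h3]

/-- The alternating square on `P`. -/
theorem ExData.altSq_res (D : ExData P p) (hg : D.Good) (H : Hyp P p) (hN : Nat.card (normalizer (P : Set G)) = p * 2)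
    (hp2 : p ≠ 2) (j₀ : D.J) : (fun w : ↥P => altSq (D.e j₀ : G → ℂ) w) = resFun P p (D.r j₀) := by
  classical
  have hodd : p ≠ 2 := hp2
  funext w
  rw [resFun_apply]
  unfold altSq
  by_cases hw : w = 1
  · subst hw
    have h1 : (D.e j₀ : G → ℂ) ((1 : ↥P) : G) = (p : ℂ) - 2 := by
      rw [Subgroup.coe_one, (D.hd _).2, D.hx₀ j₀]
      have h2 := hg.hx₀
      have h3 : ((D.x₀ + 2 : ℕ) : ℂ) = p := by rw [h2]
      push_cast at h3
      rw [← h3]
      ring
    have h4 : ((1 : ↥P) : G) * ((1 : ↥P) : G) = ((1 : ↥P) : G) := by simp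
    rw [h4, h1, if_pos rfl]
    have h5 : chi (D.r j₀) 1 = 1 := by simp [chi]
    rw [h5]
    ring
  · have hww : w * w ≠ 1 := by
      intro h
      have h1 : w ^ 2 = 1 := by rw [pow_two, h]
      have h2 : (w : G) ^ 2 = 1 := by
        have := congrArg Subtype.val h1
        simpa using this
      have hw' : (w : G) ≠ 1 := fun h3 => hw (Subtype.ext h3)
      have h3 := Cfsg.Agent.Lib.SmallGroups2.orderOf_eq_of_mem_of_ne_one H.prime H.card w.2 hw'
      have h4 := orderOf_dvd_of_pow_eq_one h2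
      rw [h3] at h4
      exact hp2 ((Nat.prime_dvd_prime_iff_eq H.prime Nat.prime_two).1 h4)
    have h1 := D.chi0_on_P hg H hN hp2 j₀ w hw
    have h2 := D.chi0_on_P hg H hN hp2 j₀ (w * w) hww
    have h3 : ((w * w : ↥P) : G) = (w : G) * w := rfl
    rw [h3] at h2
    rw [h1, h2, if_neg hw]
    have h4 : chi (D.r j₀) (w * w) = chi (D.r j₀) w ^ 2 := by
      simp [chi, pow_two]
    rw [h4]
    have hz : chi (D.r j₀) w ≠ 0 := by simp [chi]
    set z := chi (D.r j₀) w with hzdef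
    field_simp
    ring

/-- Inner products of the restriction. -/
theorem inner_resFun (H : Hyp P p) [Fintype ↥P] (ζ f : ↥P →* ℂˣ) [DecidableEq (↥P →* ℂˣ)] :
    classInner (chi f) (resFun P p ζ) = ((p : ℂ) - 5) / 2 + (if f = 1 then 1 else 0) + (if f = ζ ^ 2 then 1 else 0) +
      (if f = (ζ ^ 2)⁻¹ then 1 else 0) := by
  classical
  have hp0 : (p : ℂ) ≠ 0 := by exact_mod_cast H.prime.ne_zero
  unfold resFun
  rw [classInner_add_right, classInner_add_right, classInner_add_right, classInner_smul_right, classInner_chi,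
    classInner_chi, classInner_chi]
  have h1 : classInner (chi f) (fun w : ↥P => if w = 1 then (p : ℂ) else 0) = 1 := by
    rw [inner_chi_concentrated H f p (ψ := fun w : ↥P => if w = 1 then (p : ℂ) else 0) (by simp)
      (fun w hw => by simp [hw])]
    field_simp
  have h2 : (starRingEnd ℂ) (((p : ℂ) - 5) / 2) = ((p : ℂ) - 5) / 2 := by
    simp only [map_div₀, map_sub, map_natCast, map_ofNat]
  rw [h1, h2, mul_one]

/-- **The decomposition of the alternating square.** -/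
theorem ExData.altSq_decomp (D : ExData P p) (hg : D.Good) (H : Hyp P p) (hN : Nat.card (normalizer (P : Set G)) = p * 2)
    (hp5 : 5 ≤ p) (j₀ : D.J) :
    ∃ j₂ : D.J, ∀ g, altSq (D.e j₀ : G → ℂ) g = ∑ j, (if j = j₂ then 0 else (D.e j : G → ℂ) g) := by
  classical
  haveI : Fintype ↥P := Fintype.ofFinite _
  have hp2 : p ≠ 2 := by omega
  have hpz : (5 : ℤ) ≤ p := by exact_mod_cast hp5
  have hA : IsCharacter G (altSq (D.e j₀ : G → ℂ)) :=
    Cfsg.Agent.Lib.AltSqChar.isCharacter_altSq (IsIrrCharacter.isCharacter (D.e j₀).2)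
  obtain ⟨n, hn⟩ := exists_nat_decomp hA
  have hclass := isClassFunction_of_isCharacter hA
  set ζ := D.r j₀ with hζ
  have hζ1 : ζ ^ 2 ≠ 1 := by
    refine pow_ne_one H (D.hr j₀) ?_
    intro h7
    exact hp2 ((Nat.prime_dvd_prime_iff_eq H.prime Nat.prime_two).1 h7)
  have hζ1' : (ζ ^ 2)⁻¹ ≠ 1 := (inv_ne_one (α := ↥P →* ℂˣ)).2 hζ1
  have hζne : ζ ^ 2 ≠ (ζ ^ 2)⁻¹ := by
    intro h
    have h4 : ζ ^ 4 = 1 := by
      have : ζ ^ 4 = ζ ^ 2 * ζ ^ 2 := by rw [← pow_add]
      rw [this]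
      nth_rewrite 2 [h]
      exact mul_inv_cancel (ζ ^ 2)
    refine pow_ne_one H (D.hr j₀) ?_ h4
    intro h7
    have h8 : 2 ∣ 4 := by norm_num
    have h9 := Nat.le_of_dvd (by norm_num) h7
    have h10 : p = 4 ∨ p = 3 ∨ p = 2 ∨ p = 1 ∨ p = 0 := by omega
    omega
  -- inner products
  obtain ⟨j₂, hj₂⟩ := D.hsurj (ζ ^ 2) hζ1
  have hinner : ∀ j, -(n (oneIrr G) : ℤ) + n D.i₁ - n (D.e j) = (if j = j₂ then 1 else 0) - 1 := by
    intro j
    have h1 := D.inner_decomp n j
    rw [← hn, classInner_theta _ hclass, D.altSq_res hg H hN hp2 j₀, inner_resFun H, inner_resFun H, hg.hw, hg.hσ] at h1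
    rw [if_neg (D.hr j), if_pos rfl, if_neg (Ne.symm hζ1), if_neg (Ne.symm hζ1')] at h1
    have hδ : (if D.r j = ζ ^ 2 then (1 : ℂ) else 0) + (if D.r j = (ζ ^ 2)⁻¹ then (1 : ℂ) else 0) =
        (if j = j₂ then 1 else 0) := by
      by_cases hjj : j = j₂
      · subst hjj
        rw [if_pos rfl]
        rcases hj₂ with h2 | h2
        · rw [if_pos h2.symm, if_neg]
          · simp
          · intro h3
            exact hζne (h2.trans h3)
        · have h3 : D.r j = (ζ ^ 2)⁻¹ := by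
            rw [h2]
            exact (inv_inv (D.r j)).symm
          rw [if_pos h3, if_neg]
          · simp
          · intro h4
            exact hζne (h4.symm.trans h3)
      · rw [if_neg hjj, if_neg, if_neg]
        · simp
        · intro h3
          apply hjj
          apply D.hinj
          rcases hj₂ with h2 | h2
          · right
            rw [h3, h2]
          · left
            rw [h3, h2]
            exact inv_inv (D.r j₂)
        · intro h3
          apply hjj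
          apply D.hinj
          rcases hj₂ with h2 | h2
          · left
            rw [h3, h2]
          · right
            rw [h3, h2]
    have h5 : ((-(n (oneIrr G) : ℤ) + 1 * n D.i₁ + -1 * n (D.e j) : ℤ) : ℂ) =
        (((if j = j₂ then 1 else 0) - 1 : ℤ) : ℂ) := by
      rw [← h1]
      push_cast
      rw [hζ] at hδ
      rw [← hδ]
      ring
    have h6 : (-(n (oneIrr G) : ℤ) + 1 * n D.i₁ + -1 * n (D.e j) : ℤ) = (if j = j₂ then 1 else 0) - 1 := by
      exact_mod_cast h5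
    linarith
  -- the degree
  have hdeg : (2 : ℤ) * ∑ i, n i * D.d i = (p - 2) * (p - 3) := by
    have h1 := D.degree_decomp n
    rw [← hn] at h1
    have h2 : altSq (D.e j₀ : G → ℂ) 1 = ((p : ℂ) - 2) * ((p : ℂ) - 3) / 2 := by
      unfold altSq
      rw [mul_one, (D.hd _).2, D.hx₀ j₀]
      have h3 := hg.hx₀
      have h4 : ((D.x₀ + 2 : ℕ) : ℂ) = p := by rw [h3]
      push_cast at h4
      rw [← h4]
      ring
    rw [h2] at h1
    have h3 : (((2 : ℤ) * ((∑ i, n i * D.d i : ℕ) : ℤ) : ℤ) : ℂ) = ((((p : ℤ) - 2) * ((p : ℤ) - 3) : ℤ) : ℂ) := by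
      push_cast
      push_cast at h1
      rw [← h1]
      ring
    exact_mod_cast h3
  rw [D.sum_split, D.d_one] at hdeg
  simp_rw [D.hx₀] at hdeg
  have hx₁ := hg.hx₁
  have hx₀ := hg.hx₀
  set R := ∑ i ∈ D.Sᶜ, n i * D.d i with hR
  set E : ℤ := (n D.i₁ : ℤ) - n (oneIrr G) with hE
  have hb : ∀ j, (n (D.e j) : ℤ) = E + 1 - (if j = j₂ then 1 else 0) := by
    intro j
    have := hinner j
    rw [hE]
    linarith
  have hE0 : 0 ≤ E := by
    have h1 := hb j₂
    rw [if_pos rfl] at h1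
    have h2 : (0 : ℤ) ≤ n (D.e j₂) := by positivity
    linarith
  have hsum : (∑ j, (n (D.e j) : ℤ)) = Fintype.card D.J * (E + 1) - 1 := by
    simp_rw [hb]
    rw [Finset.sum_sub_distrib, Finset.sum_const, Finset.sum_ite_eq']
    simp
  have hT : ((∑ j, n (D.e j) * D.x₀ : ℕ) : ℤ) = (Fintype.card D.J * (E + 1) - 1) * D.x₀ := by
    rw [← hsum]
    push_cast
    rw [Finset.sum_mul]
  have hJ := D.hJ
  have hx₁z : (D.d D.i₁ : ℤ) = p - 1 := by
    have : ((D.d D.i₁ + 1 : ℕ) : ℤ) = p := by rw [hx₁]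
    push_cast at this
    linarith
  have hx₀z : (D.x₀ : ℤ) = p - 2 := by
    have : ((D.x₀ + 2 : ℕ) : ℤ) = p := by rw [hx₀]
    push_cast at this
    linarith
  push_cast at hdeg
  push_cast at hT
  rw [hT, hx₁z, hx₀z] at hdeg
  -- all the terms vanish
  have hmain : 2 * (n (oneIrr G) : ℤ) + 2 * (n D.i₁ * ((p : ℤ) - 1)) + ((p : ℤ) - 2) * ((p : ℤ) - 1) * E + 2 * (R : ℤ) = 0 := by
    have h2c : (2 : ℤ) * Fintype.card D.J = p - 1 := hJ
    have h3 : (2 : ℤ) * (Fintype.card D.J * (E + 1) - 1) * ((p : ℤ) - 2) = (((p : ℤ) - 1) * (E + 1) - 2) * ((p : ℤ) - 2) := by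
      rw [← h2c]
      ring
    linear_combination hdeg - h3
  have hp1 : (0 : ℤ) < (p : ℤ) - 1 := by omega
  have hp2' : (0 : ℤ) < (p : ℤ) - 2 := by omega
  have ht1 : (0 : ℤ) ≤ 2 * (n (oneIrr G) : ℤ) := by positivity
  have ht2 : (0 : ℤ) ≤ 2 * (n D.i₁ * ((p : ℤ) - 1)) := by positivity
  have ht3 : (0 : ℤ) ≤ ((p : ℤ) - 2) * ((p : ℤ) - 1) * E := by positivity
  have ht4 : (0 : ℤ) ≤ 2 * (R : ℤ) := by positivity
  have hn1 : n (oneIrr G) = 0 := by
    have : (n (oneIrr G) : ℤ) = 0 := by linarith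
    exact_mod_cast this
  have hni : n D.i₁ = 0 := by
    have h1 : (n D.i₁ : ℤ) * ((p : ℤ) - 1) = 0 := by linarith
    have h2 := (mul_eq_zero.1 h1).resolve_right hp1.ne'
    exact_mod_cast h2
  have hE00 : E = 0 := by
    rw [hE, hni, hn1]
    simp
  have hR0 : R = 0 := by
    have : (R : ℤ) = 0 := by linarith
    exact_mod_cast this
  have hm0 : ∀ i ∈ D.Sᶜ, n i = 0 := by
    intro i hi
    have h1 := (Finset.sum_eq_zero_iff_of_nonneg (fun i _ => Nat.zero_le _)).1 (hR.symm.trans hR0) i hi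
    rcases mul_eq_zero.1 h1 with h2 | h2
    · exact h2
    · exact absurd h2 (D.hd i).1.ne'
  refine ⟨j₂, fun g => ?_⟩
  have h1 : altSq (D.e j₀ : G → ℂ) g = ∑ i : IrrCharacter G, (n i : ℂ) * (i : G → ℂ) g := by
    rw [hn, Finset.sum_apply]
    simp only [Pi.smul_apply, nsmul_eq_mul]
  rw [h1, D.sum_split, hn1, hni, Finset.sum_eq_zero (s := D.Sᶜ) (fun i hi => by rw [hm0 i hi]; simp)]
  simp only [Nat.cast_zero, zero_mul, add_zero, zero_add]
  refine Finset.sum_congr rfl fun j _ => ?_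
  have h2 := hb j
  rw [hE00] at h2
  by_cases hjj : j = j₂
  · rw [if_pos hjj] at h2 ⊢
    have h3 : n (D.e j) = 0 := by
      have : (n (D.e j) : ℤ) = 0 := by linarith
      exact_mod_cast this
    rw [h3]
    simp
  · rw [if_neg hjj] at h2 ⊢
    have h3 : n (D.e j) = 1 := by
      have : (n (D.e j) : ℤ) = 1 := by linarith
      exact_mod_cast this
    rw [h3]
    simp

/-- **The functional equation.** -/
theorem ExData.func_eq (D : ExData P p) (hg : D.Good) (H : Hyp P p) (hN : Nat.card (normalizer (P : Set G)) = p * 2)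
    (hp5 : 5 ≤ p) {g : G} (hr : ¬ p ∣ orderOf g) :
    (D.i₁ : G → ℂ) (g * g) - 1 = ((D.i₁ : G → ℂ) g - 1) ^ 2 - ((p : ℂ) - 3) * ((D.i₁ : G → ℂ) g - 1) := by
  classical
  obtain ⟨j₀⟩ : Nonempty D.J := by
    apply Fintype.card_pos_iff.1
    have := D.hJ
    have hpz : (5 : ℤ) ≤ p := by exact_mod_cast hp5
    have h3 : (0 : ℤ) < Fintype.card D.J := by omega
    exact_mod_cast h3
  obtain ⟨j₂, hj₂⟩ := D.altSq_decomp hg H hN hp5 j₀
  have h1 := hj₂ g
  have hr2 : ¬ p ∣ orderOf (g * g) := by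
    intro h
    apply hr
    refine h.trans ?_
    rw [← pow_two]
    exact orderOf_pow_dvd 2
  have h2 : ∀ j, (if j = j₂ then (0 : ℂ) else (D.e j : G → ℂ) g) =
      ((D.i₁ : G → ℂ) g - 1) - (if j = j₂ then (D.i₁ : G → ℂ) g - 1 else 0) := by
    intro j
    rw [D.chi_regular hg H j hr]
    split_ifs <;> ring
  simp_rw [h2] at h1
  rw [Finset.sum_sub_distrib, Finset.sum_const, Finset.sum_ite_eq'] at h1
  simp only [Finset.mem_univ, if_true, Finset.card_univ, nsmul_eq_mul] at h1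
  unfold altSq at h1
  rw [D.chi_regular hg H j₀ hr, D.chi_regular hg H j₀ hr2] at h1
  have hJ : (2 : ℂ) * (Fintype.card D.J : ℂ) = (p : ℂ) - 1 := by
    have := D.hJ
    exact_mod_cast this
  have hc : (Fintype.card D.J : ℂ) = ((p : ℂ) - 1) / 2 := by
    rw [← hJ]
    ring
  rw [hc] at h1
  linear_combination (-2 : ℂ) * h1

end Cfsg.Agent.Lib.Deg2pData
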