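import Mathlib
import Cfsg.Agent.Lib.Deg2pAlt
import Cfsg.Agent.Lib.BlockGal
import Cfsg.Agent.Lib.CharAvg

/-!
# Degree `2 p`: auxiliary lemmas for the final argument
-/

set_option autoImplicit false
set_option linter.style.haveILetI false
set_option linter.unusedSectionVars false
set_option linter.unusedVariables false

namespace Cfsg.Agent.Lib.Deg2pData

open Cfsg Cfsg.Agent.Lib.CharBasic Cfsg.Agent.Lib.DefectOne Cfsg.Agent.Lib.DefectTwo Subgroup MulAction
open scoped ComplexConjugate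

universe u v

section Fix

variable {Γ : Type u} [Group Γ] [Finite Γ] {Ω : Type v} [MulAction Γ Ω]

/-- An abelian group without global fixed points, all of whose nontrivial elements have one or two fixed points, has
order at most four. -/
theorem card_le_four_of_fix (T : Subgroup Γ) (hcomm : ∀ x ∈ T, ∀ y ∈ T, x * y = y * x)
    (h1 : ∀ z ∈ T, z ≠ 1 → ∃ b : Ω, z • b = b)
    (h2 : ∀ z ∈ T, z ≠ 1 → ∀ a b c : Ω, z • a = a → z • b = b → z • c = c → a = b ∨ a = c ∨ b = c)
    (h3 : ∀ b : Ω, ∃ τ ∈ T, τ • b ≠ b) : Nat.card T ≤ 4 := by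
  classical
  by_contra hcard
  push Not at hcard
  have hfix : ∀ z ∈ T, ∀ τ ∈ T, ∀ b : Ω, z • b = b → z • (τ • b) = τ • b := by
    intro z hz τ hτ b hb
    rw [← mul_smul, hcomm z hz τ hτ, mul_smul, hb]
  have hidx : ∀ z ∈ T, z ≠ 1 → ∀ b : Ω, z • b = b → (stabilizer T b).index ≤ 2 := by
    intro z hz hz1 b hb
    obtain ⟨τ₀, hτ₀, hτ₀b⟩ := h3 b
    rw [index_stabilizer]
    have hsub : orbit T b ⊆ {b, τ₀ • b} := by
      rintro _ ⟨⟨τ, hτ⟩, rfl⟩
      have h4 := h2 z hz hz1 b (τ₀ • b) (τ • b) hb (hfix z hz τ₀ hτ₀ b hb) (hfix z hz τ hτ b hb)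
      rcases h4 with h4 | h4 | h4
      · exact absurd h4.symm hτ₀b
      · left
        exact h4.symm
      · right
        exact h4.symm
    calc (orbit T b).ncard ≤ ({b, τ₀ • b} : Set Ω).ncard := Set.ncard_le_ncard hsub (Set.toFinite _)
      _ ≤ ({τ₀ • b} : Set Ω).ncard + 1 := Set.ncard_insert_le _ _
      _ = 2 := by rw [Set.ncard_singleton]
  have hnt : Nontrivial T := by
    apply Finite.one_lt_card_iff_nontrivial.1
    omega
  obtain ⟨z, hz1⟩ := exists_ne (1 : T)
  have hz1' : (z : Γ) ≠ 1 := fun h => hz1 (Subtype.ext h)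
  obtain ⟨b, hb⟩ := h1 z z.2 hz1'
  obtain ⟨τ₀, hτ₀, hτ₀b⟩ := h3 b
  have hτ₀1 : τ₀ ≠ 1 := by
    rintro rfl
    exact hτ₀b (one_smul _ _)
  obtain ⟨b₁, hb₁⟩ := h1 τ₀ hτ₀ hτ₀1
  have hi1 := hidx z z.2 hz1' b hb
  have hi2 := hidx τ₀ hτ₀ hτ₀1 b₁ hb₁
  have hi3 : (stabilizer T b ⊓ stabilizer T b₁).index ≤ 4 := by
    calc (stabilizer T b ⊓ stabilizer T b₁).index ≤ (stabilizer T b).index * (stabilizer T b₁).index := Subgroup.index_inf_le
      _ ≤ 2 * 2 := Nat.mul_le_mul hi1 hi2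
      _ = 4 := by norm_num
  have hc := Subgroup.card_mul_index (stabilizer T b ⊓ stabilizer T b₁)
  have hnt2 : 1 < Nat.card ↥(stabilizer T b ⊓ stabilizer T b₁) := by
    by_contra hle
    have h5 : Nat.card ↥(stabilizer T b ⊓ stabilizer T b₁) ≤ 1 := by omega
    have h6 : Nat.card ↥(stabilizer T b ⊓ stabilizer T b₁) * (stabilizer T b ⊓ stabilizer T b₁).index ≤ 1 * 4 :=
      Nat.mul_le_mul h5 hi3
    omega
  haveI : Nontrivial ↥(stabilizer T b ⊓ stabilizer T b₁) := Finite.one_lt_card_iff_nontrivial.1 hnt2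
  obtain ⟨w, hw1⟩ := exists_ne (1 : ↥(stabilizer T b ⊓ stabilizer T b₁))
  have hw1' : (w : T) ≠ 1 := fun h => hw1 (Subtype.ext h)
  have hw1'' : ((w : T) : Γ) ≠ 1 := fun h => hw1' (Subtype.ext h)
  have hwb : ((w : T) : Γ) • b = b := (Subgroup.mem_inf.1 w.2).1
  have hwb₁ : ((w : T) : Γ) • b₁ = b₁ := (Subgroup.mem_inf.1 w.2).2
  have hwb' := hfix _ (w : T).2 τ₀ hτ₀ b hwb
  have h4 := h2 _ (w : T).2 hw1'' b (τ₀ • b) b₁ hwb hwb' hwb₁
  rcases h4 with h4 | h4 | h4
  · exact hτ₀b h4.symm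
  · -- `b₁ = b`
    rw [← h4] at hb₁
    exact hτ₀b hb₁
  · -- `b₁ = τ₀ b`
    rw [← h4] at hb₁
    exact hτ₀b (smul_left_cancel τ₀ hb₁)

/-- A character vanishing on the nontrivial elements of a subgroup. -/
theorem dvd_of_vanish {χ : Γ → ℂ} (hχ : IsCharacter Γ χ) (S : Subgroup Γ) {d : ℕ} (hd : χ 1 = d)
    (h0 : ∀ s ∈ S, s ≠ 1 → χ s = 0) : Nat.card S ∣ d := by
  classical
  haveI : Fintype Γ := Fintype.ofFinite Γ
  haveI : Fintype S := Fintype.ofFinite S
  obtain ⟨n, hn⟩ := classInner_char_irr (isCharacter_restrict S hχ) (isIrrCharacter_one (G := S))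
  unfold classInner at hn
  rw [Finset.sum_eq_single (1 : S)] at hn
  · have h1 : χ ((1 : S) : Γ) = d := by rw [Subgroup.coe_one, hd]
    simp only [h1, map_one, mul_one] at hn
    have hne : (Nat.card S : ℂ) ≠ 0 := by exact_mod_cast Nat.card_pos.ne'
    have h2 : (d : ℂ) = (Nat.card S * n : ℕ) := by
      push_cast
      rw [← hn]
      field_simp
    have h3 : d = Nat.card S * n := by exact_mod_cast h2
    exact ⟨n, h3⟩
  · intro s _ hs
    show χ (s : Γ) * _ = 0
    rw [h0 s s.2 (fun h => hs (Subtype.ext h)), zero_mul]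
  · intro h; exact absurd (Finset.mem_univ _) h

/-- An element of odd order: its square is an admissible power. -/
theorem exists_pow_eq_sq {g : Γ} (hg : Odd (orderOf g)) : ∃ k : ℕ, (Nat.card Γ).Coprime k ∧ g ^ k = g * g := by
  obtain ⟨a, n', hn', hn⟩ := Nat.exists_eq_two_pow_mul_odd (n := Nat.card Γ) Nat.card_pos.ne'
  have hodd : Odd (2 + n') := by
    rw [add_comm]
    exact hn'.add_even (by norm_num)
  refine ⟨2 + n', ?_, ?_⟩
  · rw [hn]
    apply Nat.Coprime.mul_left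
    · apply Nat.Coprime.pow_left
      exact (Nat.coprime_two_left).2 hodd
    · have h1 : Nat.Coprime n' 2 := (Nat.coprime_two_right).2 hn'
      simpa [Nat.Coprime, Nat.gcd_comm] using h1
  · have h1 : orderOf g ∣ 2 ^ a * n' := by
      rw [← hn]
      exact orderOf_dvd_natCard g
    have h2 : Nat.Coprime (orderOf g) (2 ^ a) := by
      apply Nat.Coprime.pow_right
      exact (Nat.coprime_two_right).2 hg
    have h3 : orderOf g ∣ n' := h2.dvd_of_dvd_mul_left h1
    rw [pow_add, orderOf_dvd_iff_pow_eq_one.1 h3, mul_one, pow_two]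

/-- Fixed points of a generating power. -/
theorem card_fixedBy_pow {k : ℕ} (hk : (Nat.card Γ).Coprime k) (g : Γ) :
    Nat.card (fixedBy Ω (g ^ k)) = Nat.card (fixedBy Ω g) := by
  have hk' : k.Coprime (orderOf g) := (Nat.Coprime.coprime_dvd_left (orderOf_dvd_natCard g) hk).symm
  obtain ⟨m, hm⟩ := exists_pow_eq_self_of_coprime hk'
  have hiff : ∀ a : Ω, (g ^ k) • a = a ↔ g • a = a := by
    intro a
    constructor
    · intro h
      have h1 : ((g ^ k) ^ m) • a = a := by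
        have : ∀ j : ℕ, ((g ^ k) ^ j) • a = a := by
          intro j
          induction j with
          | zero => simp
          | succ j ih => rw [pow_succ, mul_smul, h, ih]
        exact this m
      rwa [hm] at h1
    · intro h
      have : ∀ j : ℕ, (g ^ j) • a = a := by
        intro j
        induction j with
        | zero => simp
        | succ j ih => rw [pow_succ, mul_smul, h, ih]
      exact this k
  apply Nat.card_congr
  exact Equiv.subtypeEquivRight (fun a => by rw [mem_fixedBy, mem_fixedBy]; exact hiff a)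

end Fix

section Galois

variable {G : Type v} [Group G] [Fintype G] {P : Subgroup G} {p : ℕ}

/-- `χ₁` is fixed by the Galois action. -/
theorem ExData.chi1_pow (D : ExData P p) (m : IrrCharacter G → ℕ) {π : G → ℂ} (hπ : π = ∑ i, m i • (i : G → ℂ))
    (hπpow : ∀ k, (Nat.card G).Coprime k → ∀ g, π (g ^ k) = π g) (hm₁ : m D.i₁ = 1) (hb : ∀ j, m (D.e j) = 0)
    (hx₁ : D.d D.i₁ + 1 = p) (hp5 : 5 ≤ p) {k : ℕ} (hk : (Nat.card G).Coprime k) (g : G) :
    (D.i₁ : G → ℂ) (g ^ k) = (D.i₁ : G → ℂ) g := by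
  classical
  set i := Cfsg.Agent.Lib.BlockGal.powIrr hk D.i₁ with hi
  have hval : ∀ x, (i : G → ℂ) x = (D.i₁ : G → ℂ) (x ^ k) := fun x => rfl
  suffices h : i = D.i₁ by
    rw [← hval, h]
  by_contra hne
  have hm : m i = 1 := by
    have h1 : classInner π (i : G → ℂ) = m i := by
      have := classInner_nat_decomp m (i : G → ℂ) i.2
      rw [hπ]
      exact this
    have h2 : classInner π (D.i₁ : G → ℂ) = m D.i₁ := by
      have := classInner_nat_decomp m (D.i₁ : G → ℂ) D.i₁.2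
      rw [hπ]
      exact this
    have h3 : classInner π (i : G → ℂ) = classInner π (D.i₁ : G → ℂ) := by
      unfold classInner
      congr 1
      rw [← Equiv.sum_comp (powCoprime hk) (fun x => π x * conj ((D.i₁ : G → ℂ) x))]
      refine Finset.sum_congr rfl fun x _ => ?_
      have h4 : (powCoprime hk) x = x ^ k := rfl
      rw [h4, hπpow k hk x, hval]
    rw [h1, h2, hm₁] at h3
    exact_mod_cast h3
  have hdi : D.d i = D.d D.i₁ := by
    have h1 := (D.hd i).2
    have h2 := (D.hd D.i₁).2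
    have h3 : (i : G → ℂ) 1 = (D.i₁ : G → ℂ) 1 := by
      rw [hval, one_pow]
    rw [h1, h2] at h3
    exact_mod_cast h3
  by_cases h1 : i = oneIrr G
  · have h2 : D.d i = 1 := by rw [h1]; exact D.d_one
    omega
  · by_cases h3 : ∃ j, i = D.e j
    · obtain ⟨j, hj⟩ := h3
      rw [hj, hb j] at hm
      omega
    · push Not at h3
      have h4 := D.hrest i h1 hne h3
      rw [hdi] at h4
      have h5 : p ∣ D.d D.i₁ := by exact_mod_cast h4
      have h6 := Nat.le_of_dvd (D.hd D.i₁).1 h5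
      omega

end Galois

section Master

variable {G : Type v} [Group G] [Fintype G] {P : Subgroup G} {p : ℕ}

open scoped Classical in
/-- The class sum formula for an involution. -/
theorem ExData.master (D : ExData P p) (hg : D.Good) (H : Hyp P p) (hp5 : 5 ≤ p) (j : D.J) {z : G} (hz2 : z ^ 2 = 1) (hz1 : z ≠ 1)
    (h₁ : (D.i₁ : G → ℂ) z = 0) (h₀ : (D.e j : G → ℂ) z = -1) :
    (((p : ℕ) - 2 : ℕ) : ℕ) * (Nat.card (centralizer ({z} : Set G)) *
        (Finset.univ.filter fun x : G => x * z * x⁻¹ ∈ normalizer (P : Set G)).card) = (p - 1) * Nat.card G := by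
  have hsum := sum_theta_conj H (by omega) (D.r j) (D.hr j) z hz2 hz1
  simp_rw [D.theta_eq hg j] at hsum
  rw [Finset.sum_sub_distrib, Finset.sum_add_distrib] at hsum
  have hav₁ := Cfsg.Agent.Lib.CharAvg.irr_avg D.i₁.2 z z
  have hav₀ := Cfsg.Agent.Lib.CharAvg.irr_avg (D.e j).2 z z
  rw [h₁, (D.hd _).2] at hav₁
  rw [h₀, (D.hd _).2, D.hx₀ j] at hav₀
  have hx₁ := hg.hx₁
  have hx₀ := hg.hx₀
  have hx₁pos : (D.d D.i₁ : ℂ) ≠ 0 := by exact_mod_cast (D.hd D.i₁).1.ne'
  have hS₁ : ∑ b : G, (D.i₁ : G → ℂ) (z * (b * z * b⁻¹)) = 0 := by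
    have h2 : (D.d D.i₁ : ℂ) * ∑ b : G, (D.i₁ : G → ℂ) (z * (b * z * b⁻¹)) = 0 := by
      rw [hav₁]
      ring
    exact (mul_eq_zero.1 h2).resolve_left hx₁pos
  rw [hS₁] at hsum
  simp only [Finset.sum_const, Finset.card_univ, nsmul_eq_mul, mul_neg, mul_one] at hsum
  rw [← Nat.card_eq_fintype_card] at hsum
  set A := (Finset.univ.filter fun x : G => x * z * x⁻¹ ∈ normalizer (P : Set G)).card with hA
  set c := Nat.card (centralizer ({z} : Set G)) with hc
  have hsub : (((p - 2 : ℕ) : ℕ) : ℂ) = D.x₀ := by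
    have : p - 2 = D.x₀ := by omega
    rw [this]
  have hsub1 : (((p - 1 : ℕ) : ℕ) : ℂ) = (D.x₀ : ℂ) + 1 := by
    have : p - 1 = D.x₀ + 1 := by omega
    rw [this]
    push_cast
    ring
  have hfinal : (((p - 2) * (c * A) : ℕ) : ℂ) = (((p - 1) * Nat.card G : ℕ) : ℂ) := by
    push_cast
    rw [hsub, hsub1]
    have h3 : (D.x₀ : ℂ) * ∑ b : G, (D.e j : G → ℂ) (z * (b * z * b⁻¹)) = (Nat.card G : ℂ) := by
      rw [hav₀]
      ring
    linear_combination (D.x₀ : ℂ) * hsum + h3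
  exact_mod_cast hfinal

end Master

end Cfsg.Agent.Lib.Deg2pData
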