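import Mathlib
import Cfsg.Agent.Lib.DefectTwo2
import Cfsg.Agent.Lib.MinNormalPrim
import Cfsg.Agent.Lib.TransferCore

/-!
# Primitive groups of degree `2 p` with `|N(P)| = 2 p`: the group theoretic reduction

Such a group is simple and nonabelian.
-/

set_option autoImplicit false
set_option linter.style.haveILetI false
set_option linter.unusedSectionVars false
set_option linter.unusedVariables false

namespace Cfsg.Agent.Lib.Deg2pSetup

open Subgroup MulAction

universe u v

variable {G : Type u} [Group G] [Finite G] {Ω : Type v} [Fintype Ω] [MulAction G Ω] {p : ℕ} [Fact p.Prime]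

/-- The Sylow subgroup has order `p`. -/
theorem card_sylow_eq (P : Sylow p G) (hN : Nat.card (normalizer ((P : Subgroup G) : Set G)) = 2 * p)
    (hdvd : p ∣ Nat.card G) (hp2 : p ≠ 2) : Nat.card (P : Subgroup G) = p := by
  have hpp : p.Prime := Fact.out
  obtain ⟨k, hk⟩ := IsPGroup.iff_card.mp P.isPGroup'
  have h1 : Nat.card (P : Subgroup G) ∣ 2 * p := by
    rw [← hN]
    exact Subgroup.card_dvd_of_le Subgroup.le_normalizer
  have hne : (P : Subgroup G) ≠ ⊥ := P.ne_bot_of_dvd_card hdvd
  have hk0 : k ≠ 0 := by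
    rintro rfl
    apply hne
    rw [pow_zero] at hk
    exact Subgroup.eq_bot_of_card_eq _ hk
  have hk1 : k ≤ 1 := by
    by_contra hk2
    have h2 : p ^ 2 ∣ 2 * p := by
      refine dvd_trans (pow_dvd_pow p (by omega : 2 ≤ k)) ?_
      rw [← hk]
      exact h1
    have h3 : p ∣ 2 := by
      rw [pow_two, mul_comm] at h2
      exact Nat.dvd_of_mul_dvd_mul_right hpp.pos h2
    exact hp2 ((Nat.prime_dvd_prime_iff_eq hpp Nat.prime_two).1 h3)
  have hk2 : k = 1 := by omega
  rw [hk, hk2, pow_one]

/-- Order of the group and the number of Sylow subgroups. -/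
theorem card_eq_mul_index (P : Sylow p G) (hP : Nat.card (P : Subgroup G) = p) :
    Nat.card G = p * (P : Subgroup G).index := by
  have h := Subgroup.card_mul_index (P : Subgroup G)
  rw [hP] at h
  exact h.symm

/-- A primitive group of degree `2 p` with a Sylow normalizer of order `2 p` is simple. -/
theorem isSimple_of [FaithfulSMul G Ω] (hp2 : p ≠ 2) (hΩ : Fintype.card Ω = 2 * p) (hprim : IsPreprimitive G Ω)
    (P : Sylow p G) (hN : Nat.card (normalizer ((P : Subgroup G) : Set G)) = 2 * p) : IsSimpleGroup G := by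
  classical
  haveI := hprim
  have hpp : p.Prime := Fact.out
  have hΩpos : 0 < Fintype.card Ω := by
    have := hpp.pos
    omega
  obtain ⟨a⟩ : Nonempty Ω := Fintype.card_pos_iff.1 hΩpos
  have h2p : 2 * p ∣ Nat.card G := by
    rw [← hΩ, ← Nat.card_eq_fintype_card, ← index_stabilizer_of_transitive G a]
    exact Subgroup.index_dvd_card _
  have hP := card_sylow_eq P hN (dvd_of_mul_left_dvd h2p) hp2
  have hndvd : ¬ p ∣ (P : Subgroup G).index := P.not_dvd_index
  have hGcard := card_eq_mul_index P hP
  have hnt : Nontrivial G := by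
    apply Finite.one_lt_card_iff_nontrivial.1
    have h0 : 0 < Nat.card G := Nat.card_pos
    have := Nat.le_of_dvd h0 h2p
    have := hpp.two_le
    omega
  refine { eq_bot_or_eq_top_of_normal := ?_ }
  intro K hK
  by_contra hcon
  push Not at hcon
  obtain ⟨hK0, hK1⟩ := hcon
  have htr : IsPretransitive K Ω := Cfsg.Agent.Lib.MinNormalPrim.isPretransitive_of_normal hprim K hK hK0
  have h2pK : 2 * p ∣ Nat.card K := by
    rw [← hΩ, ← Nat.card_eq_fintype_card, ← index_stabilizer_of_transitive K a]
    exact Subgroup.index_dvd_card _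
  have hpK : p ∣ Nat.card K := dvd_of_mul_left_dvd h2pK
  -- `p` does not divide the index of `K`
  have hidx : ¬ p ∣ K.index := by
    intro h1
    have h2 := Subgroup.card_mul_index K
    rw [hGcard] at h2
    have h3 : p * p ∣ p * (P : Subgroup G).index := by
      rw [← h2]
      exact mul_dvd_mul hpK h1
    exact hndvd (Nat.dvd_of_mul_dvd_mul_left hpp.pos h3)
  have hPK : (P : Subgroup G) ≤ K := by
    intro x hx
    have h1 : orderOf (x : G ⧸ K) ∣ orderOf x := orderOf_map_dvd (QuotientGroup.mk' K) x
    have h2 : orderOf (x : G ⧸ K) ∣ K.index := by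
      rw [Subgroup.index_eq_card]
      exact orderOf_dvd_natCard _
    have h3 : orderOf x ∣ p := by
      have := Subgroup.orderOf_dvd_natCard (P : Subgroup G) hx
      rwa [hP] at this
    have h4 : orderOf (x : G ⧸ K) = 1 := by
      rcases (Nat.dvd_prime hpp).1 (h1.trans h3) with h5 | h5
      · exact h5
      · rw [h5] at h2
        exact absurd h2 hidx
    rw [orderOf_eq_one_iff] at h4
    exact (QuotientGroup.eq_one_iff x).1 h4
  -- Frattini
  have hF : normalizer ((P : Subgroup G) : Set G) ⊔ K = ⊤ := P.normalizer_sup_eq_top' hPK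
  have hNK : ¬ normalizer ((P : Subgroup G) : Set G) ≤ K := by
    intro h
    rw [sup_of_le_right h] at hF
    exact hK1 hF
  have hcardNK : Nat.card ↥(normalizer ((P : Subgroup G) : Set G) ⊓ K) = p := by
    have h1 : Nat.card ↥(normalizer ((P : Subgroup G) : Set G) ⊓ K) ∣ 2 * p := by
      rw [← hN]
      exact Subgroup.card_dvd_of_le inf_le_left
    have h2 : p ∣ Nat.card ↥(normalizer ((P : Subgroup G) : Set G) ⊓ K) := by
      have h := Subgroup.card_dvd_of_le (le_inf (Subgroup.le_normalizer (H := (P : Subgroup G))) hPK)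
      rwa [hP] at h
    obtain ⟨c, hc⟩ := h2
    have hpos : 0 < Nat.card ↥(normalizer ((P : Subgroup G) : Set G) ⊓ K) := Nat.card_pos
    have h3 : c ∣ 2 := by
      rw [hc, mul_comm] at h1
      exact Nat.dvd_of_mul_dvd_mul_right hpp.pos h1
    rcases (Nat.dvd_prime Nat.prime_two).1 h3 with h4 | h4
    · rw [hc, h4, mul_one]
    · exfalso
      apply hNK
      have h5 : normalizer ((P : Subgroup G) : Set G) ⊓ K = normalizer ((P : Subgroup G) : Set G) := by
        apply Subgroup.eq_of_le_of_card_ge inf_le_left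
        rw [hN, hc, h4, mul_comm]
      exact inf_eq_left.1 h5
  have hNKP : normalizer ((P : Subgroup G) : Set G) ⊓ K = (P : Subgroup G) := by
    symm
    apply Subgroup.eq_of_le_of_card_ge (le_inf Subgroup.le_normalizer hPK)
    rw [hP, hcardNK]
  have hPcomm : ∀ x ∈ (P : Subgroup G), ∀ y ∈ (P : Subgroup G), x * y = y * x := by
    haveI : IsCyclic (P : Subgroup G) := isCyclic_of_prime_card hP
    intro x hx y hy
    have := mul_comm' (⟨x, hx⟩ : (P : Subgroup G)) ⟨y, hy⟩
    exact congrArg Subtype.val this
  -- Burnside's transfer theorem in `K`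
  let Q : Sylow p K := P.subtype hPK
  have hQmem : ∀ y : K, y ∈ (Q : Subgroup K) ↔ (y : G) ∈ (P : Subgroup G) := by
    intro y
    show y ∈ ((P : Subgroup G).subgroupOf K) ↔ _
    exact Subgroup.mem_subgroupOf
  have hQN : normalizer ((Q : Subgroup K) : Set K) ≤ centralizer ((Q : Subgroup K) : Set K) := by
    intro y hy
    have hyP : (y : G) ∈ (P : Subgroup G) := by
      rw [← hNKP]
      refine Subgroup.mem_inf.2 ⟨?_, y.2⟩
      rw [mem_normalizer_iff]
      intro h
      constructor
      · intro hh
        have h1 : ((⟨h, hPK hh⟩ : K)) ∈ (Q : Subgroup K) := (hQmem _).2 hh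
        have h2 := (mem_normalizer_iff.1 hy _).1 h1
        exact (hQmem _).1 h2
      · intro hh
        have hK' : h ∈ K := by
          have h3 := hPK hh
          have : h = (y : G)⁻¹ * ((y : G) * h * (y : G)⁻¹) * y := by group
          rw [this]
          exact K.mul_mem (K.mul_mem (K.inv_mem y.2) h3) y.2
        have h1 : y * (⟨h, hK'⟩ : K) * y⁻¹ ∈ (Q : Subgroup K) := (hQmem _).2 hh
        have h2 := (mem_normalizer_iff.1 hy _).2 h1
        exact (hQmem _).1 h2
    rw [Subgroup.mem_centralizer_iff]
    intro z hz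
    apply Subtype.ext
    have hz' : (z : G) ∈ (P : Subgroup G) := (hQmem z).1 hz
    exact hPcomm _ hz' _ hyP
  have hcomp := MonoidHom.ker_transferSylow_isComplement' Q hQN
  have hnd := MonoidHom.not_dvd_card_ker_transferSylow Q hQN
  set φ := MonoidHom.transferSylow Q hQN with hφ
  set L := φ.ker with hL
  haveI hLn : L.Normal := MonoidHom.normal_ker φ
  have hmem := Cfsg.Agent.Lib.TransferCore.mem_of_complement_iff (P := Q) (N := L) hcomp
  let L' : Subgroup G := L.map K.subtype
  have hcardL' : Nat.card L' = Nat.card L := Subgroup.card_map_of_injective K.subtype_injective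
  have hL'n : L'.Normal := by
    constructor
    intro x hx g
    obtain ⟨y, hy, rfl⟩ := Subgroup.mem_map.1 hx
    have hz : g * (y : G) * g⁻¹ ∈ K := hK.conj_mem _ y.2 g
    refine Subgroup.mem_map.2 ⟨⟨_, hz⟩, ?_, rfl⟩
    rw [hmem]
    have h1 := (hmem y).1 hy
    have h2 : orderOf (⟨_, hz⟩ : K) = orderOf y := by
      rw [← Subgroup.orderOf_coe, ← Subgroup.orderOf_coe y]
      exact orderOf_injective (MulAut.conj g).toMonoidHom (MulAut.conj g).injective (y : G)
    rw [h2]
    exact h1
  have hcardK : Nat.card L * p = Nat.card K := by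
    have h1 := hcomp.card_mul_card
    have h2 : Nat.card (Q : Subgroup K) = p := by
      show Nat.card ((P : Subgroup G).subgroupOf K) = p
      exact (Nat.card_congr (Subgroup.subgroupOfEquivOfLe hPK).toEquiv).trans hP
    rw [h2] at h1
    exact h1
  have h2L : 2 ∣ Nat.card L := by
    have h1 : 2 * p ∣ Nat.card L * p := by rw [hcardK]; exact h2pK
    exact Nat.dvd_of_mul_dvd_mul_right hpp.pos h1
  have hL'0 : L' ≠ ⊥ := by
    intro h0
    have h1 : Nat.card L' = 1 := by
      rw [h0]
      exact Subgroup.card_bot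
    rw [hcardL'] at h1
    rw [h1] at h2L
    omega
  have htrL : IsPretransitive L' Ω := Cfsg.Agent.Lib.MinNormalPrim.isPretransitive_of_normal hprim L' hL'n hL'0
  have h2pL : 2 * p ∣ Nat.card L' := by
    rw [← hΩ, ← Nat.card_eq_fintype_card, ← index_stabilizer_of_transitive L' a]
    exact Subgroup.index_dvd_card _
  rw [hcardL'] at h2pL
  exact hnd (dvd_of_mul_left_dvd h2pL)

/-- The group is nonabelian. -/
theorem not_comm_of [IsSimpleGroup G] (hp2 : p ≠ 2) (P : Sylow p G) (hP : Nat.card (P : Subgroup G) = p)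
    (h2p : 2 * p ∣ Nat.card G) : ¬ IsMulCommutative G := by
  intro hc
  have hpp : p.Prime := Fact.out
  have hn : (P : Subgroup G).Normal := by
    constructor
    intro x hx g
    have h1 : g * x * g⁻¹ = x := by
      rw [hc.is_comm.comm g x]
      simp
    rw [h1]
    exact hx
  rcases IsSimpleGroup.eq_bot_or_eq_top_of_normal _ hn with h | h
  · rw [h] at hP
    rw [Subgroup.card_bot] at hP
    exact hpp.one_lt.ne hP
  · rw [h, Subgroup.card_top] at hP
    rw [hP] at h2p
    have := Nat.le_of_dvd hpp.pos h2p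
    have := hpp.pos
    omega

end Cfsg.Agent.Lib.Deg2pSetup
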