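import Mathlib

set_option autoImplicit false

namespace Cfsg.Agent.Lib.TensorForms

open Module LinearMap TensorProduct

variable {F U W : Type*} [Field F] [AddCommGroup U] [Module F U] [FiniteDimensional F U]
  [AddCommGroup W] [Module F W] [FiniteDimensional F W]

lemma tmul_tmul (B₁ : LinearMap.BilinForm F U) (B₂ : LinearMap.BilinForm F W) (a c : U) (b d : W) :
    (B₁.tmul B₂) (a ⊗ₜ[F] b) (c ⊗ₜ[F] d) = B₁ a c * B₂ b d := by
  show B₂ b d • B₁ a c = _
  rw [smul_eq_mul, mul_comm]

lemma tmul_flip (B₁ : LinearMap.BilinForm F U) (B₂ : LinearMap.BilinForm F W) (x y : TensorProduct F U W) :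
    (B₁.flip.tmul B₂.flip) y x = (B₁.tmul B₂) x y := by
  induction x using TensorProduct.induction_on with
  | zero => simp
  | add a b ha hb => simp [ha, hb]
  | tmul a b =>
    induction y using TensorProduct.induction_on with
    | zero => simp
    | add c d hc hd => simp only [map_add, LinearMap.add_apply, hc, hd]
    | tmul c d =>
      rw [tmul_tmul, tmul_tmul]
      rfl

theorem tmul_sepLeft {B₁ : LinearMap.BilinForm F U} {B₂ : LinearMap.BilinForm F W}
    (h₁ : B₁.Nondegenerate) (h₂ : B₂.Nondegenerate) (x : TensorProduct F U W)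
    (hx : ∀ y, (B₁.tmul B₂) x y = 0) : x = 0 := by
  classical
  let b₁ := finBasis F U
  let b₂ := finBasis F W
  let d₁ := B₁.flip.dualBasis h₁.flip b₁
  let d₂ := B₂.flip.dualBasis h₂.flip b₂
  have hd₁ : ∀ i j, B₁ (b₁ j) (d₁ i) = if j = i then 1 else 0 :=
    fun i j => LinearMap.BilinForm.apply_dualBasis_left h₁.flip b₁ i j
  have hd₂ : ∀ i j, B₂ (b₂ j) (d₂ i) = if j = i then 1 else 0 :=
    fun i j => LinearMap.BilinForm.apply_dualBasis_left h₂.flip b₂ i j
  let b := b₁.tensorProduct b₂
  apply b.ext_elem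
  rintro ⟨k, l⟩
  have key : ∀ p, (B₁.tmul B₂) (b p) (d₁ k ⊗ₜ[F] d₂ l) = if p = (k, l) then 1 else 0 := by
    rintro ⟨i, j⟩
    rw [Basis.tensorProduct_apply, tmul_tmul, hd₁, hd₂]
    by_cases hi : i = k <;> by_cases hj : j = l <;> simp [hi, hj]
  have h0 := hx (d₁ k ⊗ₜ[F] d₂ l)
  rw [← b.sum_repr x, map_sum, LinearMap.sum_apply] at h0
  simp only [map_smul, LinearMap.smul_apply, key, smul_eq_mul] at h0
  rw [Finset.sum_eq_single (k, l)] at h0
  · simpa using h0
  · intro p _ hp
    simp [hp]
  · simp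

theorem tmul_nondegenerate {B₁ : LinearMap.BilinForm F U} {B₂ : LinearMap.BilinForm F W}
    (h₁ : B₁.Nondegenerate) (h₂ : B₂.Nondegenerate) : (B₁.tmul B₂).Nondegenerate := by
  refine ⟨fun x hx => tmul_sepLeft h₁ h₂ x hx, fun y hy => ?_⟩
  apply tmul_sepLeft h₁.flip h₂.flip y
  intro x
  rw [tmul_flip]
  exact hy x

/-- Totally isotropic subspaces of all dimensions up to half for an alternating form. -/
theorem exists_ti_alt {B : LinearMap.BilinForm F U} (hnd : B.Nondegenerate) (halt : B.IsAlt) {k : ℕ}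
    (hU : finrank F U = 2 * k) : ∀ r ≤ k, ∃ L : Submodule F U, finrank F L = r ∧ ∀ x ∈ L, ∀ y ∈ L, B x y = 0 := by
  intro r
  induction r with
  | zero =>
    intro _
    refine ⟨⊥, by simp, ?_⟩
    intro x hx y _
    rw [(Submodule.mem_bot F).mp hx]; simp
  | succ r ih =>
    intro hr
    obtain ⟨L, hLd, hL⟩ := ih (by omega)
    have hle : L ≤ B.orthogonal L := by
      intro v hv
      rw [LinearMap.BilinForm.mem_orthogonal_iff]
      intro u hu
      exact hL u hu v hv
    have hd : finrank F ↥(B.orthogonal L) = 2 * k - r := by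
      rw [LinearMap.BilinForm.finrank_orthogonal hnd, hU, hLd]
    have hlt : L < B.orthogonal L := lt_of_le_of_ne hle (by
      intro he
      rw [← he, hLd] at hd
      omega)
    obtain ⟨v, hvO, hvL⟩ := SetLike.exists_of_lt hlt
    have hvO' : ∀ u ∈ L, B u v = 0 := by
      rw [LinearMap.BilinForm.mem_orthogonal_iff] at hvO
      exact hvO
    have hanti : ∀ x y, B y x = - B x y := fun x y => (LinearMap.BilinForm.IsAlt.neg_eq halt x y).symm
    refine ⟨L ⊔ Submodule.span F {v}, ?_, ?_⟩
    · rw [Submodule.finrank_sup_span_singleton hvL, hLd]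
    · intro x hx y hy
      obtain ⟨a, ha, c, hc, rfl⟩ := Submodule.mem_sup.mp hx
      obtain ⟨c1, rfl⟩ := Submodule.mem_span_singleton.mp hc
      obtain ⟨a', ha', c', hc', rfl⟩ := Submodule.mem_sup.mp hy
      obtain ⟨c2, rfl⟩ := Submodule.mem_span_singleton.mp hc'
      simp only [map_add, LinearMap.add_apply, map_smul, LinearMap.smul_apply, smul_eq_mul,
        hL a ha a' ha', hvO' a ha, hanti a' v, hvO' a' ha', halt v]
      ring

/-- The tensor `L ⊗ W` for a totally isotropic `L`. -/
theorem exists_ti_tensor {B₁ : LinearMap.BilinForm F U} (B₂ : LinearMap.BilinForm F W) (L : Submodule F U)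
    (hL : ∀ x ∈ L, ∀ y ∈ L, B₁ x y = 0) :
    ∃ X : Submodule F (TensorProduct F U W), finrank F X = finrank F L * finrank F W ∧
      ∀ x ∈ X, ∀ y ∈ X, (B₁.tmul B₂) x y = 0 := by
  let f : TensorProduct F L W →ₗ[F] TensorProduct F U W := TensorProduct.map L.subtype LinearMap.id
  have hf : Function.Injective f :=
    TensorProduct.map_injective_of_flat_flat _ _ L.subtype_injective Function.injective_id
  refine ⟨LinearMap.range f, ?_, ?_⟩
  · rw [LinearMap.finrank_range_of_inj hf, Module.finrank_tensorProduct]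
  · rintro _ ⟨z, rfl⟩ _ ⟨z', rfl⟩
    induction z using TensorProduct.induction_on with
    | zero => simp
    | add a b ha hb => simp [ha, hb]
    | tmul a b =>
      induction z' using TensorProduct.induction_on with
      | zero => simp
      | add c d hc hd => simp only [map_add, hc, hd, add_zero]
      | tmul c d =>
        show (B₁.tmul B₂) ((a : U) ⊗ₜ[F] b) ((c : U) ⊗ₜ[F] d) = 0
        rw [tmul_tmul, hL _ a.2 _ c.2, zero_mul]

end Cfsg.Agent.Lib.TensorForms
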