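import Mathlib
import Cfsg.Agent.Lib.OrthNormal
import Cfsg.Agent.Lib.QuadGram
import Cfsg.Agent.Lib.TensorForms

set_option autoImplicit false
set_option linter.unusedSectionVars false
set_option linter.unusedSimpArgs false
set_option linter.unusedVariables false

/-!
# The type of an even-dimensional symmetric bilinear form over a finite field

A nondegenerate symmetric bilinear form on a space of dimension `2m` admits a totally isotropic
subspace of dimension `m` iff `(-1)^m det(Gram)` is a square.
-/

namespace Cfsg.Agent.Lib.DiscType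

open Module Matrix LinearMap
open Cfsg.Agent.Lib.OrthGroup Cfsg.Agent.Lib.OrthSiegel2 Cfsg.Agent.Lib.OrthNormal

variable {F V : Type*} [Field F] [AddCommGroup V] [Module F V] [FiniteDimensional F V]

/-- The Gram determinants of two bases differ by a nonzero square. -/
theorem det_gram_change {ι ι' : Type*} [Fintype ι] [DecidableEq ι] [Fintype ι'] [DecidableEq ι']
    (B : LinearMap.BilinForm F V) (b : Basis ι F V) (b' : Basis ι' F V) :
    ∃ u : F, u ≠ 0 ∧ (LinearMap.BilinForm.toMatrix b' B).det = u * u * (LinearMap.BilinForm.toMatrix b B).det := by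
  let e : ι' ≃ ι := b'.indexEquiv b
  let b'' := b'.reindex e
  have h1 : (LinearMap.BilinForm.toMatrix b'' B).det = (LinearMap.BilinForm.toMatrix b' B).det := by
    have : LinearMap.BilinForm.toMatrix b'' B = (LinearMap.BilinForm.toMatrix b' B).submatrix e.symm e.symm := by
      ext i j
      simp only [LinearMap.BilinForm.toMatrix_apply, b'', Basis.reindex_apply, Matrix.submatrix_apply]
    rw [this, Matrix.det_submatrix_equiv_self]
  have h2 := LinearMap.BilinForm.toMatrix_mul_basis_toMatrix (b := b) b'' B
  refine ⟨(b.toMatrix b'').det, ?_, ?_⟩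
  · have := b.isUnit_det b''
    rw [Basis.det_apply] at this
    exact this.ne_zero
  · rw [← h1, ← h2, det_mul, det_mul, det_transpose]
    ring

/-- Block determinant. -/
theorem det_hyp_block {m : ℕ} (A C : Matrix (Fin m) (Fin m) F) :
    (fromBlocks 0 A Aᵀ C).det = (-1) ^ m * (A.det * A.det) := by
  have h1 : (fromBlocks 0 A Aᵀ C : Matrix (Fin m ⊕ Fin m) (Fin m ⊕ Fin m) F) =
      Cfsg.Agent.Lib.QuadGram.gramHyp (Fin m) F * fromBlocks Aᵀ C 0 A := by
    simp [Cfsg.Agent.Lib.QuadGram.gramHyp, fromBlocks_multiply]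
  rw [h1, det_mul, Cfsg.Agent.Lib.QuadGram.det_gramHyp, det_fromBlocks_zero₂₁, det_transpose]

/-- A totally isotropic subspace of half the dimension forces the discriminant to be `(-1)^m` times a square. -/
theorem isSquare_of_ti {ι : Type*} [Fintype ι] [DecidableEq ι] {B : LinearMap.BilinForm F V} (hS : B.IsSymm)
    (b : Basis ι F V) {m : ℕ} (hV : finrank F V = 2 * m) {X : Submodule F V} (hX : finrank F X = m)
    (hti : ∀ x ∈ X, ∀ y ∈ X, B x y = 0) : IsSquare ((-1) ^ m * (LinearMap.BilinForm.toMatrix b B).det) := by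
  obtain ⟨Y, hY⟩ := Submodule.exists_isCompl X
  have hYd : finrank F Y = m := by
    have := Submodule.finrank_add_eq_of_isCompl hY
    omega
  let bX : Basis (Fin m) F X := finBasisOfFinrankEq F X hX
  let bY : Basis (Fin m) F Y := finBasisOfFinrankEq F Y hYd
  let b₀ : Basis (Fin m ⊕ Fin m) F V := (bX.prod bY).map (Submodule.prodEquivOfIsCompl X Y hY)
  have hb₀l : ∀ i, b₀ (Sum.inl i) = (bX i : V) := by
    intro i
    simp [b₀]
  have hb₀r : ∀ i, b₀ (Sum.inr i) = (bY i : V) := by
    intro i
    simp [b₀]
  let A : Matrix (Fin m) (Fin m) F := Matrix.of fun i j => B (bX i : V) (bY j : V)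
  let C : Matrix (Fin m) (Fin m) F := Matrix.of fun i j => B (bY i : V) (bY j : V)
  have hG : LinearMap.BilinForm.toMatrix b₀ B = fromBlocks 0 A Aᵀ C := by
    ext i j
    rcases i with i | i <;> rcases j with j | j
    · simp only [LinearMap.BilinForm.toMatrix_apply, hb₀l, fromBlocks_apply₁₁, Matrix.zero_apply]
      exact hti _ (bX i).2 _ (bX j).2
    · simp only [LinearMap.BilinForm.toMatrix_apply, hb₀l, hb₀r, fromBlocks_apply₁₂, A, Matrix.of_apply]
    · simp only [LinearMap.BilinForm.toMatrix_apply, hb₀l, hb₀r, fromBlocks_apply₂₁, A, Matrix.of_apply, Matrix.transpose_apply]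
      exact hS.eq _ _ 
    · simp only [LinearMap.BilinForm.toMatrix_apply, hb₀r, fromBlocks_apply₂₂, C, Matrix.of_apply]
  obtain ⟨u, hu, hdet⟩ := det_gram_change B b₀ b
  rw [hdet, hG, det_hyp_block]
  refine ⟨u * A.det, ?_⟩
  have h4 : ((-1 : F) ^ m) * (-1) ^ m = 1 := by
    rw [← mul_pow]
    simp
  linear_combination (u * u * (A.det * A.det)) * h4

/-- If `(-1)^m det` is a square there is a totally isotropic subspace of half the dimension. -/
theorem exists_ti_of_isSquare [Fintype F] (h2 : (2 : F) ≠ 0) {ι : Type*} [Fintype ι] [DecidableEq ι]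
    {B' : LinearMap.BilinForm F V} (hnd : B'.Nondegenerate) (hS : B'.IsSymm)
    (b : Basis ι F V) {m : ℕ} (hm : 1 ≤ m) (hV : finrank F V = 2 * m)
    (hsq : IsSquare ((-1) ^ m * (LinearMap.BilinForm.toMatrix b B').det)) :
    ∃ X : Submodule F V, finrank F X = m ∧ ∀ x ∈ X, ∀ y ∈ X, B' x y = 0 := by
  classical
  obtain ⟨k, rfl⟩ : ∃ k, m = k + 1 := ⟨m - 1, by omega⟩
  let Q : QuadraticForm F V := LinearMap.BilinMap.toQuadraticMap B'
  have hQapp : ∀ x, Q x = B' x x := fun x => rfl
  have hpol : ∀ x y, B Q x y = 2 * B' x y := by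
    intro x y
    rw [B_apply, hQapp, hQapp, hQapp]
    simp only [map_add, LinearMap.add_apply, hS.eq y x]
    ring
  have hQ : (B Q).Nondegenerate := by
    refine ⟨fun x hx => hnd.1 x (fun y => ?_), fun y hy => hnd.2 y (fun x => ?_)⟩
    · have := hx y
      rw [hpol] at this
      exact (mul_eq_zero.mp this).resolve_left h2
    · have := hy x
      rw [hpol] at this
      exact (mul_eq_zero.mp this).resolve_left h2
  let sg : Bool → F := fun x => if x then 1 else -1
  have hsg0 : ∀ x, sg x ≠ 0 := by
    intro x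
    cases x <;> simp [sg]
  let a : (Fin k × Bool) ⊕ Unit → F := Sum.elim (fun i => sg i.2) (fun _ => 1)
  have ha : ∀ i, a i ≠ 0 := by
    rintro (i | i)
    · exact hsg0 _
    · exact one_ne_zero
  have hcard : Fintype.card ((Fin k × Bool) ⊕ Unit) + 1 = finrank F V := by
    rw [hV]
    simp
    ring
  obtain ⟨c, d, hd, hca, hcd, hco⟩ := exists_normal hQ h2 hcard a ha
  have hB0 : ∀ i j, i ≠ j → B' (c i) (c j) = 0 := by
    intro i j hij
    have := hco i j hij
    rw [hpol] at this
    exact (mul_eq_zero.mp this).resolve_left h2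
  -- the Gram determinant
  have hG : LinearMap.BilinForm.toMatrix c B' = Matrix.diagonal (fun i => B' (c i) (c i)) := by
    ext i j
    rw [LinearMap.BilinForm.toMatrix_apply]
    by_cases hij : i = j
    · subst hij
      simp
    · rw [Matrix.diagonal_apply_ne _ hij]
      exact hB0 i j hij
  have hdet : (LinearMap.BilinForm.toMatrix c B').det = (-1) ^ k * d := by
    rw [hG, det_diagonal, Fintype.prod_sum_type, Fintype.prod_sum_type]
    have e1 : ∀ i, B' (c (Sum.inl (Sum.inl i))) (c (Sum.inl (Sum.inl i))) = sg i.2 := fun i => hca (Sum.inl i)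
    have e2 : ∀ i, B' (c (Sum.inl (Sum.inr i))) (c (Sum.inl (Sum.inr i))) = 1 := fun i => hca (Sum.inr i)
    have e3 : ∀ i, B' (c (Sum.inr i)) (c (Sum.inr i)) = d := fun i => hcd
    simp only [e1, e2, e3, Finset.prod_const_one, mul_one, Finset.univ_unique, Finset.prod_singleton, Fintype.prod_prod_type]
    congr 1
    have e4 : ∀ j : Fin k, ∏ x : Bool, sg (j, x).2 = -1 := by
      intro j
      simp [sg]
    simp [e4, sg]
  obtain ⟨u, hu, hdu⟩ := det_gram_change B' b c
  obtain ⟨r, hr⟩ := hsq
  have hsign : ((-1 : F) ^ (k + 1)) * (-1) ^ k = -1 := by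
    rw [pow_succ, mul_comm, ← mul_assoc, ← mul_pow]
    simp
  have he : (u * r) * (u * r) = - d := by
    have h3 : ((-1 : F) ^ (k + 1)) * (LinearMap.BilinForm.toMatrix c B').det = u * u * (r * r) := by
      rw [hdu, ← hr]
      ring
    rw [hdet, ← mul_assoc, hsign] at h3
    linear_combination -h3
  set e := u * r with he_def
  -- isotropic vectors
  let P : Fin k → Bool → V := fun j x => c (Sum.inl (Sum.inl (j, x)))
  let R : V := c (Sum.inl (Sum.inr ()))
  let S : V := c (Sum.inr ())
  have hPP : ∀ j x j' y, B' (P j x) (P j' y) = if j = j' ∧ x = y then sg x else 0 := by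
    intro j x j' y
    split_ifs with hh
    · obtain ⟨rfl, rfl⟩ := hh
      exact hca (Sum.inl (j, x))
    · apply hB0
      intro h0
      apply hh
      have := Sum.inl.inj (Sum.inl.inj h0)
      exact ⟨congrArg Prod.fst this, congrArg Prod.snd this⟩
  have hPR : ∀ j x, B' (P j x) R = 0 := fun j x => hB0 _ _ (by simp)
  have hRP : ∀ j x, B' R (P j x) = 0 := fun j x => hB0 _ _ (by simp)
  have hPS : ∀ j x, B' (P j x) S = 0 := fun j x => hB0 _ _ (by simp)
  have hSP : ∀ j x, B' S (P j x) = 0 := fun j x => hB0 _ _ (by simp)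
  have hRS : B' R S = 0 := hB0 _ _ (by simp)
  have hSR : B' S R = 0 := hB0 _ _ (by simp)
  have hRR : B' R R = 1 := hca (Sum.inr ())
  have hSS : B' S S = d := hcd
  let z : (Fin k ⊕ Unit) → V := Sum.elim (fun j => P j true + P j false) (fun _ => e • R + S)
  have hzz : ∀ i j, B' (z i) (z j) = 0 := by
    rintro (i | ⟨⟩) (j | ⟨⟩)
    · show B' (P i true + P i false) (P j true + P j false) = 0
      simp only [map_add, LinearMap.add_apply, hPP]
      by_cases hij : i = j
      · subst hij
        simp [sg]
      · simp [hij]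
    · show B' (P i true + P i false) (e • R + S) = 0
      simp only [map_add, LinearMap.add_apply, map_smul, hPR, hPS, smul_zero, add_zero]
    · show B' (e • R + S) (P j true + P j false) = 0
      simp only [map_add, LinearMap.add_apply, map_smul, LinearMap.smul_apply, hRP, hSP, smul_zero, add_zero]
    · show B' (e • R + S) (e • R + S) = 0
      simp only [map_add, LinearMap.add_apply, map_smul, LinearMap.smul_apply, hRR, hRS, hSR, hSS, smul_eq_mul, mul_zero, zero_add, add_zero, mul_one]
      linear_combination he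
  have hkey : ∀ i, ∃ w, B' w (z i) ≠ 0 ∧ ∀ j, j ≠ i → B' w (z j) = 0 := by
    rintro (i | ⟨⟩)
    · refine ⟨P i true, ?_, ?_⟩
      · show B' (P i true) (P i true + P i false) ≠ 0
        simp [map_add, hPP, sg]
      · rintro (j | ⟨⟩) hj
        · show B' (P i true) (P j true + P j false) = 0
          have hij : i ≠ j := fun h => hj (by rw [h])
          simp [map_add, hPP, hij]
        · show B' (P i true) (e • R + S) = 0
          simp only [map_add, map_smul, hPR, hPS, smul_zero, add_zero]
    · refine ⟨S, ?_, ?_⟩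
      · show B' S (e • R + S) ≠ 0
        simp only [map_add, map_smul, hSR, hSS, smul_zero, zero_add]
        exact hd
      · rintro (j | ⟨⟩) hj
        · show B' S (P j true + P j false) = 0
          simp only [map_add, hSP, add_zero]
        · exact absurd rfl hj
  have hli : LinearIndependent F z := by
    rw [Fintype.linearIndependent_iff]
    intro g hg i
    obtain ⟨w, hw, hw'⟩ := hkey i
    have h4 := congrArg (B' w) hg
    rw [map_sum, Finset.sum_eq_single i] at h4
    · rw [map_smul, smul_eq_mul, map_zero] at h4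
      exact (mul_eq_zero.mp h4).resolve_right hw
    · intro j _ hj
      rw [map_smul, hw' j hj, smul_zero]
    · simp
  refine ⟨Submodule.span F (Set.range z), ?_, ?_⟩
  · rw [finrank_span_eq_card hli]
    simp
  · have h5 : ∀ y ∈ Submodule.span F (Set.range z), ∀ i, B' (z i) y = 0 := by
      intro y hy i
      induction hy using Submodule.span_induction with
      | mem y hy =>
        obtain ⟨j, rfl⟩ := hy
        exact hzz i j
      | zero => simp
      | add a b _ _ ha hb => rw [map_add, ha, hb, add_zero]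
      | smul s a _ ha => rw [map_smul, ha, smul_zero]
    intro x hx y hy
    induction hx using Submodule.span_induction with
    | mem x hx =>
      obtain ⟨i, rfl⟩ := hx
      exact h5 y hy i
    | zero => simp
    | add a b _ _ ha hb => rw [map_add, LinearMap.add_apply, ha, hb, add_zero]
    | smul s a _ ha => rw [map_smul, LinearMap.smul_apply, ha, smul_zero]

section tensor

variable {U W : Type*} [AddCommGroup U] [Module F U] [FiniteDimensional F U]
  [AddCommGroup W] [Module F W] [FiniteDimensional F W]

open scoped Kronecker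

/-- The Gram matrix of a tensor product form is the Kronecker product. -/
theorem toMatrix_tmul {ι κ : Type*} [Fintype ι] [DecidableEq ι] [Fintype κ] [DecidableEq κ]
    (B₁ : LinearMap.BilinForm F U) (B₂ : LinearMap.BilinForm F W) (b₁ : Basis ι F U) (b₂ : Basis κ F W) :
    LinearMap.BilinForm.toMatrix (b₁.tensorProduct b₂) (B₁.tmul B₂) =
      (LinearMap.BilinForm.toMatrix b₁ B₁) ⊗ₖ (LinearMap.BilinForm.toMatrix b₂ B₂) := by
  ext ⟨i, j⟩ ⟨i', j'⟩
  rw [LinearMap.BilinForm.toMatrix_apply, Basis.tensorProduct_apply, Basis.tensorProduct_apply,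
    Cfsg.Agent.Lib.TensorForms.tmul_tmul]
  simp [LinearMap.BilinForm.toMatrix_apply]

theorem det_tmul {ι κ : Type*} [Fintype ι] [DecidableEq ι] [Fintype κ] [DecidableEq κ]
    (B₁ : LinearMap.BilinForm F U) (B₂ : LinearMap.BilinForm F W) (b₁ : Basis ι F U) (b₂ : Basis κ F W) :
    (LinearMap.BilinForm.toMatrix (b₁.tensorProduct b₂) (B₁.tmul B₂)).det =
      (LinearMap.BilinForm.toMatrix b₁ B₁).det ^ Fintype.card κ * (LinearMap.BilinForm.toMatrix b₂ B₂).det ^ Fintype.card ι := by
  rw [toMatrix_tmul, det_kronecker]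

end tensor

end Cfsg.Agent.Lib.DiscType
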