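import Mathlib

/-!
# Fast list checks for kernel reduction

`allL`, `anyL`, `memL`: the list recursor applied directly, which the kernel reduces much faster than
`List.all` and friends through typeclass-based equality.
-/

set_option autoImplicit false

namespace Cfsg.Agent.Lib.FastList

variable {α : Type}

/-- all, by the recursor -/
noncomputable def allL (P : α → Bool) (l : List α) : Bool :=
  List.rec true (fun a _ r => cond (P a) r false) l

/-- any, by the recursor -/
noncomputable def anyL (P : α → Bool) (l : List α) : Bool :=
  List.rec false (fun a _ r => cond (P a) true r) l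

/-- membership of a number, by the recursor -/
noncomputable def memL (x : ℕ) (l : List ℕ) : Bool := anyL (Nat.beq x) l

theorem allL_nil (P : α → Bool) : allL P [] = true := rfl

theorem allL_cons (P : α → Bool) (a : α) (l : List α) : allL P (a :: l) = cond (P a) (allL P l) false := rfl

theorem anyL_nil (P : α → Bool) : anyL P [] = false := rfl

theorem anyL_cons (P : α → Bool) (a : α) (l : List α) : anyL P (a :: l) = cond (P a) true (anyL P l) := rfl

theorem allL_iff {P : α → Bool} {l : List α} : allL P l = true ↔ ∀ x ∈ l, P x = true := by
  induction l with
  | nil => simp [allL_nil]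
  | cons a l ih =>
    rw [allL_cons]
    cases h : P a
    · simp [h]
    · simp [h, ih]

theorem anyL_iff {P : α → Bool} {l : List α} : anyL P l = true ↔ ∃ x ∈ l, P x = true := by
  induction l with
  | nil => simp [anyL_nil]
  | cons a l ih =>
    rw [anyL_cons]
    cases h : P a
    · simp [h, ih]
    · simp [h]

theorem memL_iff {x : ℕ} {l : List ℕ} : memL x l = true ↔ x ∈ l := by
  rw [memL, anyL_iff]
  constructor
  · rintro ⟨y, hy, e⟩
    rwa [Nat.eq_of_beq_eq_true e]
  · intro h
    exact ⟨x, h, by rw [Nat.beq_eq]⟩

/-- length of a filter, by the recursor -/
noncomputable def countL (P : α → Bool) (l : List α) : ℕ :=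
  List.rec 0 (fun a _ r => cond (P a) (Nat.succ r) r) l

theorem countL_eq (P : α → Bool) (l : List α) : countL P l = (l.filter P).length := by
  induction l with
  | nil => rfl
  | cons a l ih =>
    show cond (P a) (Nat.succ (countL P l)) (countL P l) = _
    rw [ih, List.filter_cons]
    cases h : P a <;> simp

end Cfsg.Agent.Lib.FastList
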