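import Mathlib
import Cfsg.Prelude.Def_SporadicCombinatorics
import Cfsg.Agent.Lib.GolayChain
import Cfsg.Agent.Lib.GolayFamilies
import Cfsg.Agent.Lib.GolayTransport
import Cfsg.Agent.Lib.M24Facts
import Cfsg.Agent.Lib.DodecadFacts

/-!
# Orbit certificates for joint stabilisers in `M24`

`SS P O`: the subgroup of `M24` fixing the points `pt i` (`i ∈ P`) and the sets `ofMask m` (`m ∈ O`).
`certOK`: every mask in a list is the image of its representative under an explicit code in `SS P O`.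
Also: transport of flags to the standard flags, and transport of counts along elements of `M24`.
-/

set_option autoImplicit false
set_option linter.unusedSectionVars false
set_option linter.unusedVariables false
set_option linter.deprecated false

namespace Cfsg.Agent.Lib.M24Orbits

open Cfsg Finset Cfsg.Agent.Lib.Golay

open scoped Pointwise

/-- the joint stabiliser in `M24` of some points and some sets -/
def SS (P O : List ℕ) : Subgroup (Equiv.Perm GolayPt) where
  carrier := {g | g ∈ M24 ∧ (∀ i ∈ P, g (pt i) = pt i) ∧ ∀ m ∈ O, g • ofMask m = ofMask m}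
  mul_mem' := by
    rintro a b ⟨ha, ha1, ha2⟩ ⟨hb, hb1, hb2⟩
    refine ⟨M24.mul_mem ha hb, fun i hi => ?_, fun m hm => ?_⟩
    · rw [Equiv.Perm.mul_apply, hb1 i hi, ha1 i hi]
    · rw [mul_smul, hb2 m hm, ha2 m hm]
  one_mem' := ⟨M24.one_mem, fun _ _ => rfl, fun _ _ => one_smul _ _⟩
  inv_mem' := by
    rintro a ⟨ha, ha1, ha2⟩
    refine ⟨M24.inv_mem ha, fun i hi => ?_, fun m hm => ?_⟩
    · rw [Equiv.Perm.inv_eq_iff_eq, ha1 i hi]
    · rw [inv_smul_eq_iff, ha2 m hm]

theorem mem_SS {P O : List ℕ} {g : Equiv.Perm GolayPt} :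
    g ∈ SS P O ↔ g ∈ M24 ∧ (∀ i ∈ P, g (pt i) = pt i) ∧ ∀ m ∈ O, g • ofMask m = ofMask m := Iff.rfl

/-- the kernel test of membership of a code in `SS P O` -/
def good (P O : List ℕ) (c : ℕ) : Bool :=
  isM24 c && (P.all fun x => Nat.blt x 24 && Nat.beq (ap c x) x) && (O.all fun m => Nat.beq (img c m) m)

theorem good_valid {P O : List ℕ} {c : ℕ} (h : good P O c = true) : valid c = true := by
  simp only [good, Bool.and_eq_true] at h
  exact isM24_valid h.1.1

theorem decode_mem_SS {P O : List ℕ} {c : ℕ} (h : good P O c = true) : decode c ∈ SS P O := by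
  have hv := good_valid h
  simp only [good, Bool.and_eq_true, List.all_eq_true] at h
  obtain ⟨⟨h1, h2⟩, h3⟩ := h
  refine ⟨decode_mem_M24 h1, fun i hi => ?_, fun m hm => ?_⟩
  · have := h2 i hi
    have hlt : i < 24 := by simpa [Nat.blt] using this.1
    rw [decode_pt hv hlt, Nat.eq_of_beq_eq_true this.2]
  · rw [decode_smul_ofMask hv, Nat.eq_of_beq_eq_true (h3 m hm)]

/-- the certificate: each `m` in the list is the image of `rep m` under the matching code -/
def certOK (P O : List ℕ) (rep : ℕ → ℕ) : List ℕ → List ℕ → Bool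
  | [], _ => true
  | _ :: _, [] => false
  | m :: ms, c :: cs => good P O c && Nat.beq (img c (rep m)) m && certOK P O rep ms cs

theorem certOK_spec {P O : List ℕ} {rep : ℕ → ℕ} {Objs T : List ℕ} (h : certOK P O rep Objs T = true) :
    ∀ m ∈ Objs, ∃ g ∈ SS P O, g • ofMask (rep m) = ofMask m := by
  induction Objs generalizing T with
  | nil => simp
  | cons a l ih =>
    cases T with
    | nil => simp [certOK] at h
    | cons c cs =>
      simp only [certOK, Bool.and_eq_true] at h
      obtain ⟨⟨h1, h2⟩, h3⟩ := h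
      intro m hm
      rcases List.mem_cons.1 hm with rfl | hm
      · refine ⟨decode c, decode_mem_SS h1, ?_⟩
        rw [decode_smul_ofMask (good_valid h1), Nat.eq_of_beq_eq_true h2]
      · exact ih h3 m hm

theorem orbit_of_cert {P O : List ℕ} {rep : ℕ → ℕ} {Objs T : List ℕ} (h : certOK P O rep Objs T = true)
    {m m' : ℕ} (hm : m ∈ Objs) (hm' : m' ∈ Objs) (hr : rep m = rep m') :
    ∃ g ∈ SS P O, g • ofMask m = ofMask m' := by
  obtain ⟨a, ha, hae⟩ := certOK_spec h m hm
  obtain ⟨b, hb, hbe⟩ := certOK_spec h m' hm'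
  refine ⟨b * a⁻¹, (SS P O).mul_mem hb ((SS P O).inv_mem ha), ?_⟩
  rw [mul_smul, ← hae, inv_smul_smul, hr, hbe]

/-! ### membership tests -/

theorem pt_mem_ofMask {i m : ℕ} (hi : i < 24) : pt i ∈ ofMask m ↔ bit m i = 1 := by
  rw [mem_ofMask, idx_pt hi, bit_eq]
  cases m.testBit i <;> simp

theorem card_inter_ofMask (a b : ℕ) : (ofMask a ∩ ofMask b).card = pop (Nat.land a b) := by
  rw [← ofMask_land, card_ofMask]

theorem Oct0_eq : Oct0 = ofMask 8536111 := rfl

/-! ### transport of counts -/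

theorem ncard_transport (k : Equiv.Perm GolayPt) (Fam : Set (Finset GolayPt))
    (hFam : ∀ S, k • S ∈ Fam ↔ S ∈ Fam) (A B : Finset GolayPt → Prop)
    (h : ∀ S, B (k • S) ↔ A S) :
    {S | S ∈ Fam ∧ B S}.ncard = {S | S ∈ Fam ∧ A S}.ncard := by
  have : {S | S ∈ Fam ∧ B S} = (fun S => k • S) '' {S | S ∈ Fam ∧ A S} := by
    ext S
    constructor
    · rintro ⟨h1, h2⟩
      refine ⟨k⁻¹ • S, ⟨?_, ?_⟩, smul_inv_smul k S⟩
      · rw [← hFam, smul_inv_smul]; exact h1
      · rw [← h, smul_inv_smul]; exact h2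
    · rintro ⟨T, ⟨h1, h2⟩, rfl⟩
      exact ⟨(hFam T).2 h1, (h T).2 h2⟩
  rw [this, Set.ncard_image_of_injective _ (MulAction.injective k)]

theorem smul_mem_octads_iff {k : Equiv.Perm GolayPt} (hk : k ∈ M24) (S : Finset GolayPt) :
    k • S ∈ octads ↔ S ∈ octads := by
  constructor
  · intro h
    have := smul_mem_octads (M24.inv_mem hk) h
    rwa [inv_smul_smul] at this
  · exact smul_mem_octads hk

theorem smul_mem_dodecads_iff {k : Equiv.Perm GolayPt} (hk : k ∈ M24) (S : Finset GolayPt) :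
    k • S ∈ dodecads ↔ S ∈ dodecads := by
  constructor
  · intro h
    have := smul_mem_dodecads (M24.inv_mem hk) h
    rwa [inv_smul_smul] at this
  · exact smul_mem_dodecads hk

theorem apply_mem_smul (k : Equiv.Perm GolayPt) (p : GolayPt) (S : Finset GolayPt) :
    k p ∈ k • S ↔ p ∈ S := by
  rw [← Equiv.Perm.smul_def]
  exact Finset.smul_mem_smul_finset_iff k

theorem card_smul_inter (k : Equiv.Perm GolayPt) (S T : Finset GolayPt) :
    (k • S ∩ k • T).card = (S ∩ T).card := by
  rw [← Finset.smul_finset_inter, Finset.card_smul_finset]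

theorem beq_bit_iff {i m : ℕ} (hi : i < 24) : Nat.beq (bit m i) 1 = true ↔ pt i ∈ ofMask m := by
  rw [pt_mem_ofMask hi, Nat.beq_eq]

theorem beq_bit_zero_iff {i m : ℕ} (hi : i < 24) : Nat.beq (bit m i) 0 = true ↔ pt i ∉ ofMask m := by
  rw [pt_mem_ofMask hi, Nat.beq_eq]
  rcases bit_zero_or_one m i with h | h <;> simp [h]

theorem beq_pop_iff {a m k : ℕ} :
    Nat.beq (pop (Nat.land a m)) k = true ↔ (ofMask a ∩ ofMask m).card = k := by
  rw [card_inter_ofMask, Nat.beq_eq]

theorem conj_mem_M24 {k g : Equiv.Perm GolayPt} (hk : k ∈ M24) (hg : g ∈ M24) : k * g * k⁻¹ ∈ M24 :=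
  M24.mul_mem (M24.mul_mem hk hg) (M24.inv_mem hk)

theorem conj_apply (k g : Equiv.Perm GolayPt) {p : GolayPt} (h : g p = p) :
    (k * g * k⁻¹) (k p) = k p := by
  simp [h]

theorem conj_smul (k g : Equiv.Perm GolayPt) {S T : Finset GolayPt} (h : g • S = T) :
    (k * g * k⁻¹) • (k • S) = k • T := by
  rw [mul_smul, mul_smul, inv_smul_smul, h]

theorem conj_smul' (k g : Equiv.Perm GolayPt) {S T : Finset GolayPt} (h : g • (k⁻¹ • S) = k⁻¹ • T) :
    (k * g * k⁻¹) • S = T := by
  rw [mul_smul, mul_smul, h, smul_inv_smul]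

/-- counts transported from the standard configuration, octads -/
theorem ncard_octads_transport {k : Equiv.Perm GolayPt} (hk : k ∈ M24) (A B : Finset GolayPt → Prop)
    (h : ∀ S, B (k • S) ↔ A S) (f : ℕ → Bool) (hf : ∀ m ∈ octL, f m = true ↔ A (ofMask m)) :
    {S | S ∈ octads ∧ B S}.ncard = (octL.filter f).length := by
  rw [ncard_transport k octads (smul_mem_octads_iff hk) A B h]
  exact ncard_octads_filter A f hf

/-- counts transported from the standard configuration, dodecads -/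
theorem ncard_dodecads_transport {k : Equiv.Perm GolayPt} (hk : k ∈ M24) (A B : Finset GolayPt → Prop)
    (h : ∀ S, B (k • S) ↔ A S) (f : ℕ → Bool) (hf : ∀ m ∈ dodL, f m = true ↔ A (ofMask m)) :
    {S | S ∈ dodecads ∧ B S}.ncard = (dodL.filter f).length := by
  rw [ncard_transport k dodecads (smul_mem_dodecads_iff hk) A B h]
  exact ncard_dodecads_filter A f hf

theorem disjoint_smul_iff (k : Equiv.Perm GolayPt) (S T : Finset GolayPt) :
    Disjoint (k • S) (k • T) ↔ Disjoint S T := by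
  rw [Finset.disjoint_iff_inter_eq_empty, Finset.disjoint_iff_inter_eq_empty, ← Finset.card_eq_zero,
    ← Finset.card_eq_zero, card_smul_inter]

/-! ### standard flags -/

theorem exists_flag_aux {o : Finset GolayPt} (ho : o ∈ octads) {k : ℕ} (hk : k ≤ 5)
    (x : Fin k ↪ GolayPt) (hx : ∀ i, x i ∈ o) :
    ∃ g ∈ M24, g • Oct0 = o ∧ ∃ y : Fin 5 ↪ GolayPt,
      (∀ i : Fin k, y (Fin.castLE hk i) = x i) ∧
      g (pt 23) = y 0 ∧ g (pt 0) = y 1 ∧ g (pt 1) = y 2 ∧ g (pt 2) = y 3 ∧ g (pt 3) = y 4 := by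
  have h5 : 5 ≤ o.card := by rw [ho.2]; norm_num
  obtain ⟨y, hy, hyx⟩ := DodecadFacts.exists_emb_extend hk h5 x hx
  obtain ⟨g, hg, h0, h1, h2, h3, h4⟩ := M24Facts.exists_M24_base y
  refine ⟨g, hg, ?_, y, hyx, h0, h1, h2, h3, h4⟩
  have hP : (g • P0).card = 5 := by rw [Finset.card_smul_finset, card_P0]
  apply octad_unique_of_subset hP (smul_mem_octads hg Oct0_mem_octads) ho
    (Finset.smul_finset_subset_smul_finset P0_subset_Oct0)
  intro p hp
  obtain ⟨a, ha, rfl⟩ := Finset.mem_smul_finset.1 hp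
  rw [mem_P0] at ha
  rcases ha with rfl | rfl | rfl | rfl | rfl
  · rw [Equiv.Perm.smul_def, h0]; exact hy 0
  · rw [Equiv.Perm.smul_def, h1]; exact hy 1
  · rw [Equiv.Perm.smul_def, h2]; exact hy 2
  · rw [Equiv.Perm.smul_def, h3]; exact hy 3
  · rw [Equiv.Perm.smul_def, h4]; exact hy 4

/-- a point on an octad -/
theorem exists_flag_one {x : GolayPt} {o : Finset GolayPt} (ho : o ∈ octads) (hx : x ∈ o) :
    ∃ k ∈ M24, k (pt 23) = x ∧ k • Oct0 = o := by
  let e : Fin 1 ↪ GolayPt := ⟨fun _ => x, fun i j _ => Subsingleton.elim i j⟩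
  obtain ⟨g, hg, hgo, y, hy, h0, -⟩ := exists_flag_aux ho (by norm_num) e (fun _ => hx)
  refine ⟨g, hg, ?_, hgo⟩
  rw [h0]
  exact hy 0

/-- two points on an octad -/
theorem exists_flag_two {p q : GolayPt} {o : Finset GolayPt} (ho : o ∈ octads) (hpq : p ≠ q)
    (hp : p ∈ o) (hq : q ∈ o) :
    ∃ k ∈ M24, k (pt 23) = p ∧ k (pt 0) = q ∧ k • Oct0 = o := by
  let e : Fin 2 ↪ GolayPt := ⟨![p, q], by
    intro i j h
    fin_cases i <;> fin_cases j <;> simp_all⟩
  obtain ⟨g, hg, hgo, y, hy, h0, h1, -⟩ := exists_flag_aux ho (by norm_num) e (by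
    intro i; fin_cases i
    · exact hp
    · exact hq)
  refine ⟨g, hg, ?_, ?_, hgo⟩
  · rw [h0]; exact hy 0
  · rw [h1]; exact hy 1

/-- a point on an octad and a point off it -/
theorem exists_flag_in_out {p q : GolayPt} {o : Finset GolayPt} (ho : o ∈ octads)
    (hp : p ∈ o) (hq : q ∉ o) :
    ∃ k ∈ M24, k (pt 23) = p ∧ k (pt 4) = q ∧ k • Oct0 = o := by
  obtain ⟨k, hk, hkp, hko⟩ := exists_flag_one ho hp
  have hq' : k⁻¹ q ∉ Oct0 := by
    intro h
    apply hq
    have := (apply_mem_smul k _ _).2 h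
    rwa [hko, ← Equiv.Perm.mul_apply, mul_inv_cancel, Equiv.Perm.one_apply] at this
  have h4 : idx (pt 4) ∈ L7 := by
    rw [idx_pt (by norm_num)]
    decide +kernel
  obtain ⟨f, hf, hfq⟩ := Fix_P0_trans_out h4 (idx_mem_L7_of_not_mem hq')
  refine ⟨k * f, M24.mul_mem hk hf.1, ?_, ?_, ?_⟩
  · rw [Equiv.Perm.mul_apply, hf.2 (pt 23) (by rw [mem_P0]; simp), hkp]
  · rw [Equiv.Perm.mul_apply, hfq, ← Equiv.Perm.mul_apply, mul_inv_cancel, Equiv.Perm.one_apply]
  · rw [mul_smul, Fix_P0_smul_Oct0 hf, hko]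

/-- a point off an octad -/
theorem exists_flag_out {q : GolayPt} {o : Finset GolayPt} (ho : o ∈ octads) (hq : q ∉ o) :
    ∃ k ∈ M24, k (pt 4) = q ∧ k • Oct0 = o := by
  obtain ⟨p, hp⟩ : o.Nonempty := by
    rw [← Finset.card_pos, ho.2]; norm_num
  obtain ⟨k, hk, -, h2, h3⟩ := exists_flag_in_out ho hp hq
  exact ⟨k, hk, h2, h3⟩

/-- a point on a dodecad -/
theorem exists_flag_dodecad {x : GolayPt} {d : Finset GolayPt} (hd : d ∈ dodecads) (hx : x ∈ d) :
    ∃ k ∈ M24, k • ofMask 8442831 = d ∧ k (pt 23) = x := by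
  let e : Fin 1 ↪ GolayPt := ⟨fun _ => x, fun i j _ => Subsingleton.elim i j⟩
  have h5 : 5 ≤ d.card := by rw [hd.2]; norm_num
  obtain ⟨y, hy, hyx⟩ := DodecadFacts.exists_emb_extend (show 1 ≤ 5 by norm_num) h5 e (fun _ => hx)
  obtain ⟨g, hg, hgd, h0, -⟩ := DodecadFacts.exists_M24_dodecad hd y hy
  refine ⟨g, hg, hgd, ?_⟩
  rw [h0]
  exact hyx 0

/-! ### subsets as masks -/

theorem subset_ofMask_iff {a b : ℕ} (ha : a < 2 ^ 24) : ofMask a ⊆ ofMask b ↔ Nat.land a b = a := by
  have hlt : Nat.land a b < 2 ^ 24 := lt_of_le_of_lt Nat.and_le_left ha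
  constructor
  · intro h
    apply ofMask_injOn hlt ha
    rw [ofMask_land]
    exact Finset.inter_eq_left.2 h
  · intro h
    rw [← h, ofMask_land]
    exact Finset.inter_subset_right

theorem ofMask_two_pow {i : ℕ} (hi : i < 24) : ofMask (2 ^ i) = {pt i} := by
  ext p
  rw [mem_ofMask, Nat.testBit_two_pow, Finset.mem_singleton]
  simp only [decide_eq_true_eq]
  constructor
  · intro h
    rw [h, pt_idx]
  · rintro rfl
    exact (idx_pt hi).symm

def pairsL : List ℕ := [3,5,6,9,10,12,17,18,20,24,33,34,36,40,48,65,66,68,72,80,96,129,130,132,136,144,160,192,257,258,260,264,272,288,320,384,513,514,516,520,528,544,576,640,768,1025,1026,1028,1032,1040,1056,1088,1152,1280,1536,2049,2050,2052,2056,2064,2080,2112,2176,2304,2560,3072,4097,4098,4100,4104,4112,4128,4160,4224,4352,4608,5120,6144,8193,8194,8196,8200,8208,8224,8256,8320,8448,8704,9216,10240,12288,16385,16386,16388,16392,16400,16416,16448,16512,16640,16896,17408,18432,20480,24576,32769,32770,32772,32776,32784,3280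0,32832,32896,33024,33280,33792,34816,36864,40960,49152,65537,65538,65540,65544,65552,65568,65600,65664,65792,66048,66560,67584,69632,73728,81920,98304,131073,131074,131076,131080,131088,131104,131136,131200,131328,131584,132096,133120,135168,139264,147456,163840,196608,262145,262146,262148,262152,262160,262176,262208,262272,262400,262656,263168,264192,266240,270336,278528,294912,327680,393216,524289,524290,524292,524296,524304,524320,524352,524416,524544,524800,525312,526336,528384,532480,540672,557056,589824,655360,786432,1048577,1048578,1048580,1048584,1048592,1048608,1048640,1048704,1048832,1049088,1049600,1050624,1052672,1056768,1064960,1081344,1114112,1179648,1310720,1572864,2097153,2097154,2097156,2097160,2097168,2097184,2097216,2097280,2097408,2097664,2098176,2099200,2101248,2105344,2113536,2129920,2162688,2228224,2359296,2621440,3145728,4194305,4194306,4194308,4194312,4194320,4194336,4194368,4194432,4194560,4194816,4195328,4196352,4198400,4202496,4210688,4227072,4259840,4325376,4456448,4718592,5242880,6291456,8388609,8388610,8388612,8388616,8388624,8388640,8388672,8388736,8388864,8389120,8389632,8390656,8392704,8396800,8404992,8421376,8454144,8519680,8650752,8912896,9437184,10485760,12582912]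

theorem pairsL_asc : strictAsc pairsL = true := by decide +kernel

theorem pairsL_lt : ∀ m ∈ pairsL, m < 2 ^ 24 := by decide +kernel

theorem pairsL_pop : ∀ m ∈ pairsL, pop m = 2 := by decide +kernel

theorem pair_mem_pairsL : ∀ i ∈ idxL, ∀ j ∈ idxL, i ≠ j → Nat.lor (2 ^ i) (2 ^ j) ∈ pairsL := by
  decide +kernel

theorem pairs_eq_image : {t : Finset GolayPt | t.card = 2} = ofMask '' {m | m ∈ pairsL} := by
  ext t
  constructor
  · intro ht
    obtain ⟨a, b, hab, rfl⟩ := Finset.card_eq_two.1 ht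
    refine ⟨Nat.lor (2 ^ idx a) (2 ^ idx b), pair_mem_pairsL _ (mem_idxL.2 (idx_lt a)) _
      (mem_idxL.2 (idx_lt b)) (fun h => hab (idx_injective h)), ?_⟩
    rw [ofMask_lor, ofMask_two_pow (idx_lt a), ofMask_two_pow (idx_lt b), pt_idx, pt_idx]
    rfl
  · rintro ⟨m, hm, rfl⟩
    show (ofMask m).card = 2
    rw [card_ofMask]
    exact pairsL_pop m hm

theorem ofMask_injOn_pairsL : Set.InjOn ofMask {m | m ∈ pairsL} := fun a ha b hb h =>
  ofMask_injOn (pairsL_lt a ha) (pairsL_lt b hb) h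

theorem ncard_pairs_filter (P : Finset GolayPt → Prop) (f : ℕ → Bool)
    (hf : ∀ m ∈ pairsL, f m = true ↔ P (ofMask m)) :
    {S | S.card = 2 ∧ P S}.ncard = (pairsL.filter f).length := by
  have h := ncard_filter_image pairsL ofMask (strictAsc_nodup pairsL_asc) ofMask_injOn_pairsL P f hf
  rw [← pairs_eq_image] at h
  exact h

theorem toMask_mem_pairsL {t : Finset GolayPt} (ht : t.card = 2) : toMask t ∈ pairsL := by
  have h : t ∈ {t : Finset GolayPt | t.card = 2} := ht
  rw [pairs_eq_image] at h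
  obtain ⟨m, hm, rfl⟩ := h
  rw [toMask_ofMask (pairsL_lt m hm)]
  exact hm

theorem smul_card_two_iff (k : Equiv.Perm GolayPt) (S : Finset GolayPt) :
    k • S ∈ {t : Finset GolayPt | t.card = 2} ↔ S ∈ {t : Finset GolayPt | t.card = 2} := by
  show (k • S).card = 2 ↔ S.card = 2
  rw [Finset.card_smul_finset]

/-- two points and a pair avoiding them -/
theorem exists_pair_flag {p q : GolayPt} {s : Finset GolayPt} (hpq : p ≠ q) (hs : s.card = 2)
    (hps : p ∉ s) (hqs : q ∉ s) :
    ∃ k ∈ M24, k (pt 23) = p ∧ k (pt 0) = q ∧ k • ofMask 6 = s := by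
  obtain ⟨a, b, hab, rfl⟩ := Finset.card_eq_two.1 hs
  simp only [Finset.mem_insert, Finset.mem_singleton, not_or] at hps hqs
  let e : Fin 4 ↪ GolayPt := ⟨![p, q, a, b], by
    intro i j h
    fin_cases i <;> fin_cases j <;> simp_all [eq_comm]⟩
  have h5 : 5 ≤ (Finset.univ : Finset GolayPt).card := by rw [Finset.card_univ, card_pt]; norm_num
  obtain ⟨y, -, hy⟩ := DodecadFacts.exists_emb_extend (show 4 ≤ 5 by norm_num) h5 e (fun _ => Finset.mem_univ _)
  obtain ⟨g, hg, h0, h1, h2, h3, -⟩ := M24Facts.exists_M24_base y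
  have h0' : g (pt 23) = p := by rw [h0]; exact hy 0
  have h1' : g (pt 0) = q := by rw [h1]; exact hy 1
  have h2' : g (pt 1) = a := by rw [h2]; exact hy 2
  have h3' : g (pt 2) = b := by rw [h3]; exact hy 3
  refine ⟨g, hg, h0', h1', ?_⟩
  have h6 : ofMask 6 = {pt 1, pt 2} := by
    have : (6 : ℕ) = Nat.lor (2 ^ 1) (2 ^ 2) := by decide
    rw [this, ofMask_lor, ofMask_two_pow (by norm_num), ofMask_two_pow (by norm_num)]
    rfl
  rw [h6, Finset.smul_finset_insert, Finset.smul_finset_singleton, Equiv.Perm.smul_def, Equiv.Perm.smul_def, h2', h3']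

/-- the certificate for points: each `y` in the list is the image of `x0` under the matching code -/
def certPtOK (P O : List ℕ) (x0 : ℕ) : List ℕ → List ℕ → Bool
  | [], _ => true
  | _ :: _, [] => false
  | y :: ys, c :: cs => good P O c && Nat.beq (ap c x0) y && certPtOK P O x0 ys cs

theorem certPtOK_spec {P O : List ℕ} {x0 : ℕ} (hx0 : x0 < 24) {pts T : List ℕ}
    (h : certPtOK P O x0 pts T = true) : ∀ y ∈ pts, ∃ g ∈ SS P O, g (pt x0) = pt y := by
  induction pts generalizing T with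
  | nil => simp
  | cons a l ih =>
    cases T with
    | nil => simp [certPtOK] at h
    | cons c cs =>
      simp only [certPtOK, Bool.and_eq_true] at h
      obtain ⟨⟨h1, h2⟩, h3⟩ := h
      intro m hm
      rcases List.mem_cons.1 hm with rfl | hm
      · refine ⟨decode c, decode_mem_SS h1, ?_⟩
        rw [decode_pt (good_valid h1) hx0, Nat.eq_of_beq_eq_true h2]
      · exact ih h3 m hm

/-- three points on a dodecad -/
theorem exists_flag_dodecad3 {p q r : GolayPt} {d : Finset GolayPt} (hd : d ∈ dodecads) (hp : p ∈ d)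
    (hq : q ∈ d) (hr : r ∈ d) (hpq : p ≠ q) (hpr : p ≠ r) (hqr : q ≠ r) :
    ∃ k ∈ M24, k • ofMask 8442831 = d ∧ k (pt 23) = p ∧ k (pt 0) = q ∧ k (pt 1) = r := by
  have h5 : 5 ≤ d.card := by rw [hd.2]; norm_num
  let e := M24Facts.emb3 hpq hpr hqr
  have he : ∀ i, e i ∈ d := by
    intro i
    fin_cases i
    · exact hp
    · exact hq
    · exact hr
  obtain ⟨y, hy, hyx⟩ := DodecadFacts.exists_emb_extend (show 3 ≤ 5 by norm_num) h5 e he
  obtain ⟨g, hg, hgd, h0, h1, h2, -⟩ := DodecadFacts.exists_M24_dodecad hd y hy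
  refine ⟨g, hg, hgd, ?_, ?_, ?_⟩
  · rw [h0]; exact hyx 0
  · rw [h1]; exact hyx 1
  · rw [h2]; exact hyx 2

end Cfsg.Agent.Lib.M24Orbits
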