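import Mathlib
import Cfsg.Agent.Lib.M24Orbits
import Cfsg.Agent.Lib.FastList

/-!
# Quartets of a dodecad

`hexL`: the 132 hexads of the standard dodecad `ofMask 8442831`; `tripL`: its 220 triples; `qL`: its 220 quartets.
Every triple pair uniting to a hexad lies in a unique quartet; `M24` is transitive on pairs
(dodecad, quartet); the list is complete.
-/

set_option autoImplicit false
set_option maxRecDepth 100000
set_option linter.unusedSectionVars false
set_option linter.unusedVariables false
set_option linter.deprecated false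

namespace Cfsg.Agent.Lib.DodecadQuartets

open Cfsg Finset Cfsg.Agent.Lib.Golay Cfsg.Agent.Lib.M24Orbits Cfsg.Agent.Lib.FastList

open scoped Pointwise

def hexL : List ℕ := [461,591,903,970,4239,4430,4547,4806,4809,4875,4933,5004,16590,16711,16779,17037,17091,17166,17225,17348,20555,20677,20749,20870,20936,20999,21068,21130,21314,21377,32971,33039,33222,33422,33477,33603,33612,33673,36935,37068,37193,37253,37258,37389,37450,37507,37638,37824,49229,49287,49482,49548,49601,49675,49734,49864,49925,50050,53262,53385,53442,53507,53572,53825,53892,54024,8388807,8388939,8389006,8389259,8389324,8389389,8389446,8389569,8392781,8392906,8392967,8393097,8393156,8393230,8393283,8393349,8393544,8393602,8405007,8405193,8405324,8405381,8405442,8405573,8405578,8405638,8405763,8405896,8409158,8409219,8409228,8409354,8409409,8409609,8409792,8409860,8421454,8421517,8421701,8421763,8421832,8421895,8421961,8422082,8422154,8422276,8425483,8425606,8425665,8425740,8425794,8426052,8426120,8426241,8437827,8437898,8437956,8438022,8438025,8438284,8438401,8438592,8441861,8441928,8442240,8442370]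

def tripL : List ℕ := [7,11,13,14,67,69,70,73,74,76,131,133,134,137,138,140,193,194,196,200,259,261,262,265,266,268,321,322,324,328,385,386,388,392,448,515,517,518,521,522,524,577,578,580,584,641,642,644,648,704,769,770,772,776,832,896,4099,4101,4102,4105,4106,4108,4161,4162,4164,4168,4225,4226,4228,4232,4288,4353,4354,4356,4360,4416,4480,4609,4610,4612,4616,4672,4736,4864,16387,16389,16390,16393,16394,16396,16449,16450,16452,16456,16513,16514,16516,16520,16576,16641,16642,16644,16648,16704,16768,16897,16898,16900,16904,16960,17024,17152,20481,20482,20484,20488,20544,20608,20736,20992,32771,32773,32774,32777,32778,32780,32833,32834,32836,32840,32897,32898,32900,32904,32960,33025,33026,33028,33032,33088,33152,33281,33282,33284,33288,33344,33408,33536,36865,36866,36868,36872,36928,36992,37120,37376,49153,49154,49156,49160,49216,49280,49408,49664,53248,8388611,8388613,8388614,8388617,8388618,8388620,8388673,8388674,8388676,8388680,8388737,8388738,8388740,8388744,8388800,8388865,8388866,8388868,8388872,8388928,8388992,8389121,8389122,8389124,8389128,8389184,8389248,8389376,8392705,8392706,8392708,8392712,8392768,8392832,8392960,8393216,8404993,8404994,8404996,8405000,8405056,8405120,8405248,8405504,8409088,8421377,8421378,8421380,8421384,8421440,8421504,8421632,8421888,8425472,8437760]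

def qL : List (List ℕ) := [[7,584,49280,8392960],[7,896,36928,8405000],[7,4232,16704,8421888],[7,20992,33032,8388800],[11,580,16768,8425472],[11,4228,49664,8388928],[11,4864,32960,8404996],[11,20544,33028,8389248],[13,448,37376,8404994],[13,578,20736,8421504],[13,4226,49216,8389376],[13,17024,33026,8392768],[14,577,53248,8388992],[14,4225,17152,8421440],[14,4416,33408,8404993],[14,16576,33025,8393216],[67,524,4480,8437760],[67,16644,32904,8393216],[67,17024,36868,8388872],[67,20488,33536,8388740],[69,392,36866,8405504],[69,522,20608,8421632],[69,4864,49160,8388738],[69,16642,33408,8392712],[70,521,33152,8409088],[70,4360,49664,8388737],[70,4736,16641,8421384],[70,16520,36865,8389376],[73,388,20482,8421888],[73,518,37120,8405120],[73,4736,49156,8388866],[73,17152,32898,8392708],[74,517,49408,8392832],[74,896,20481,8421380],[74,4356,32897,8405504],[74,16516,37376,8388865],[76,385,20992,8421378],[76,515,36992,8405248],[76,4354,49153,8389248],[76,16514,33536,8392705],[131,772,32840,8409088],[131,4108,16960,8421632],[131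,4416,49156,8389128],[131,16648,37376,8388676],[133,328,49154,8393216],[133,770,20544,8421384],[133,4106,33344,8405248],[133,16904,37120,8388674],[134,769,16456,8425472],[134,4105,33088,8405504],[134,4672,49153,8388872],[134,20736,33288,8388673],[137,324,53248,8389122],[137,4102,33536,8405056],[137,4672,16642,8421380],[137,16900,32834,8392960],[138,832,4101,8437760],[138,16452,37120,8389121],[138,16641,33284,8392768],[138,20992,32833,8388868],[140,321,33282,8409088],[140,4099,49408,8389184],[140,4864,16450,8421377],[140,16897,36928,8388866],[193,268,16898,8425472],[193,4354,33284,8405000],[193,4616,49408,8388614],[193,20484,32778,8389376],[194,776,53248,8388613],[194,4353,16396,8421888],[194,4612,32777,8405248],[194,16897,33028,8392712],[196,265,4610,8437760],[196,16394,33281,8392960],[196,17152,36872,8388611],[196,20481,33026,8389128],[200,261,49664,8392706],[200,770,36868,8404993],[200,4609,16390,8421632],[200,20736,32771,8389124],[259,644,53248,8388680],[259,4288,32780,8405504],[259,4616,16452,8421504],[259,16520,3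3344,8392708],[261,642,20488,8421440],[261,4672,32778,8405120],[261,16450,36992,8389128],[262,641,4168,8437760],[262,16449,37376,8388744],[262,16904,32960,8392705],[262,20608,32777,8389184],[265,16514,36928,8389124],[265,16960,32774,8392832],[265,20484,33408,8388674],[266,704,32773,8409088],[266,4164,16513,8421888],[266,4609,49216,8388740],[266,16900,36992,8388673],[268,4162,49280,8389121],[268,4736,32771,8405056],[268,20481,33344,8388738],[321,4226,16904,8421380],[321,4612,49280,8388618],[321,16390,36872,8389248],[322,648,16389,8425472],[322,4108,33281,8405120],[322,4225,49160,8389124],[322,20992,32900,8388617],[324,4106,17024,8421377],[324,4609,32898,8405000],[324,16387,33288,8392832],[328,642,36865,8404996],[328,4102,16897,8421504],[328,20608,33284,8388611],[385,518,49216,8392712],[385,4162,33288,8404996],[385,16394,36868,8389184],[386,517,36872,8405056],[386,584,20484,8421377],[386,4161,49664,8388620],[386,16393,32836,8393216],[388,515,49160,8392768],[388,4616,32834,8404993],[388,16960,36865,8388618],[392,578,4915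6,8392705],[392,4612,16387,8421440],[392,20544,33281,8388614],[448,522,49153,8392708],[448,4099,16900,8421384],[448,20488,32774,8389121],[515,4360,16576,8421380],[515,20484,33088,8388744],[517,4416,16520,8421378],[517,20482,32960,8388872],[518,4288,16648,8421377],[518,20481,32904,8388928],[521,4288,49154,8388868],[521,4354,16516,8421440],[521,16704,36868,8388738],[522,4353,32900,8405056],[522,16644,36928,8388737],[524,16513,33088,8392706],[524,16642,36865,8388800],[524,20544,32898,8388865],[577,4232,33026,8404996],[577,4356,16514,8421384],[577,16648,32900,8392706],[578,4228,33025,8405000],[578,16513,36872,8388868],[580,4226,33032,8404993],[580,4353,49154,8388744],[580,20488,32897,8388866],[584,4225,33028,8404994],[584,16641,36866,8388740],[641,16396,36866,8388928],[641,16450,33032,8392708],[641,20736,32836,8388618],[642,4164,49408,8388617],[642,16449,32780,8392960],[644,4162,16393,8421632],[644,4360,32833,8404994],[644,16704,32778,8392705],[648,4161,32774,8405248],[648,4356,49216,8388611],[648,20482,33025,8388676],[70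4,4102,49160,8388865],[704,4105,16644,8421378],[704,16387,37120,8388620],[769,4106,49156,8388800],[769,4164,32904,8404994],[769,20608,32834,8388620],[770,4105,49280,8388676],[770,16396,32833,8392832],[772,4161,16394,8421504],[772,4232,49153,8388674],[772,16576,36866,8388617],[776,4099,32836,8405120],[776,4228,16449,8421378],[776,16390,32897,8392768],[832,16393,36992,8388614],[832,16516,32771,8392712],[832,20482,32780,8388737],[896,4108,49154,8388673],[896,16452,32777,8392706],[4099,16456,33408,8388868],[4101,16576,33288,8388866],[4101,16648,32834,8389248],[4101,16898,33152,8388680],[4102,16768,32833,8389128],[4105,16450,33284,8388992],[4106,16449,33152,8389124],[4108,16641,32960,8389122],[4161,16516,33032,8389122],[4162,17152,32773,8388744],[4164,16904,32771,8388992],[4168,16387,32900,8389376],[4168,16768,33282,8388613],[4168,16900,33025,8388738],[4225,16452,33282,8388872],[4226,16644,33281,8388680],[4228,16642,32840,8389121],[4232,16898,32836,8388865],[4288,16389,33536,8388618],[4353,17024,32840,8388614],[4354,16960,32904,8388613],[4356,16393,33282,8388800],[4360,16389,32898,8389184],[4416,16898,32777,8388740],[4480,16390,33344,8388617],[4480,16456,32773,8389122],[4480,16897,32778,8388676],[4609,16768,32780,8388674],[4610,16389,32840,8388992],[4610,16520,33028,8388673],[4610,16704,32897,8388620],[4612,16456,33026,8388737],[4616,16514,32773,8388928],[4672,16396,33152,8388611],[4736,16394,33088,8388613],[4864,16513,32774,8388680]]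

/-- the standard dodecad -/
noncomputable def D : Finset GolayPt := ofMask 8442831

theorem D_mem : D ∈ dodecads := DodecadFacts.dod0_mem

theorem hexL_from_oct_aux : allL (fun m => cond (Nat.beq (pop (Nat.land m 8442831)) 6)
    (memL (Nat.land m 8442831) hexL) true) octL = true := by decide +kernel

theorem hexL_from_oct : ∀ m ∈ octL, Nat.beq (pop (Nat.land m 8442831)) 6 = true → Nat.land m 8442831 ∈ hexL := by
  intro m hm h
  have := allL_iff.1 hexL_from_oct_aux m hm
  rw [h] at this
  exact memL_iff.1 this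

theorem hexL_to_oct_aux : allL (fun h => cond (Nat.beq (pop h) 6)
    (anyL (fun m => Nat.beq (Nat.land m 8442831) h) octL) false) hexL = true := by decide +kernel

theorem hexL_to_oct : ∀ h ∈ hexL, Nat.beq (pop h) 6 = true ∧ ∃ m ∈ octL, Nat.land m 8442831 = h := by
  intro h hh
  have := allL_iff.1 hexL_to_oct_aux h hh
  cases h6 : Nat.beq (pop h) 6
  · rw [h6] at this; simp at this
  · rw [h6, cond_true] at this
    obtain ⟨m, hm, e⟩ := anyL_iff.1 this
    exact ⟨rfl, m, hm, Nat.eq_of_beq_eq_true e⟩

theorem hexL_lt : ∀ h ∈ hexL, h < 2 ^ 24 := by decide +kernel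

theorem mem_hexadsOn_iff (S : Finset GolayPt) : S ∈ hexadsOn D ↔ toMask S ∈ hexL := by
  constructor
  · rintro ⟨h6, o, ho, hoS⟩
    have h1 : S = ofMask (Nat.land (toMask o) 8442831) := by
      rw [ofMask_land, ofMask_toMask, ← hoS]
      rfl
    have h2 := hexL_from_oct _ ((mem_octads_iff_list o).1 ho) (by
      rw [Nat.beq_eq, ← card_ofMask, ← h1]; exact h6)
    have hlt : Nat.land (toMask o) 8442831 < 2 ^ 24 := lt_of_le_of_lt Nat.and_le_right (by norm_num)
    rw [h1, toMask_ofMask hlt]
    exact h2
  · intro h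
    obtain ⟨h1, m, hm, hme⟩ := hexL_to_oct _ h
    refine ⟨?_, ofMask m, ofMask_mem_octads hm, ?_⟩
    · rw [← ofMask_toMask S, card_ofMask]
      exact Nat.eq_of_beq_eq_true h1
    · show ofMask m ∩ ofMask 8442831 = S
      rw [← ofMask_land, ← ofMask_toMask S]
      exact congrArg ofMask hme

/-- indices of the standard dodecad -/
def dIdx : List ℕ := [0, 1, 2, 3, 6, 7, 8, 9, 12, 14, 15, 23]

theorem dIdx_spec : ∀ i ∈ idxL, Nat.beq (bit 8442831 i) 1 = true → i ∈ dIdx := by decide +kernel

noncomputable def tripChk : Bool :=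
  allL (fun i => allL (fun j => allL (fun k =>
    cond (Nat.beq i j) true (cond (Nat.beq i k) true (cond (Nat.beq j k) true
      (memL (Nat.lor (Nat.lor (Nat.pow 2 i) (Nat.pow 2 j)) (Nat.pow 2 k)) tripL)))) dIdx) dIdx) dIdx

theorem tripChk_ok : tripChk = true := by decide +kernel

theorem idx_mem_dIdx {x : GolayPt} (hx : x ∈ D) : idx x ∈ dIdx := by
  apply dIdx_spec _ (mem_idxL.2 (idx_lt x))
  rw [beq_bit_iff (idx_lt x), pt_idx]
  exact hx

theorem toMask_mem_tripL {t : Finset GolayPt} (ht : t.card = 3) (hs : t ⊆ D) : toMask t ∈ tripL := by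
  obtain ⟨x, y, z, hxy, hxz, hyz, rfl⟩ := Finset.card_eq_three.1 ht
  have hx := idx_mem_dIdx (hs (show x ∈ _ by simp))
  have hy := idx_mem_dIdx (hs (show y ∈ _ by simp))
  have hz := idx_mem_dIdx (hs (show z ∈ _ by simp))
  have hne : ∀ {a b : GolayPt}, a ≠ b → Nat.beq (idx a) (idx b) = false := by
    intro a b hab
    cases e : Nat.beq (idx a) (idx b)
    · rfl
    · exact absurd (idx_injective (Nat.eq_of_beq_eq_true e)) hab
  have h := allL_iff.1 (allL_iff.1 (allL_iff.1 tripChk_ok _ hx) _ hy) _ hz
  simp only [hne hxy, hne hxz, hne hyz, cond_false] at h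
  replace h1 := memL_iff.1 h
  · have hlt : Nat.lor (Nat.lor (2 ^ idx x) (2 ^ idx y)) (2 ^ idx z) < 2 ^ 24 :=
      lt_of_lor (lt_of_lor (Nat.pow_lt_pow_right (by norm_num) (idx_lt x))
        (Nat.pow_lt_pow_right (by norm_num) (idx_lt y))) (Nat.pow_lt_pow_right (by norm_num) (idx_lt z))
    have he : ({x, y, z} : Finset GolayPt) = ofMask (Nat.lor (Nat.lor (2 ^ idx x) (2 ^ idx y)) (2 ^ idx z)) := by
      rw [ofMask_lor, ofMask_lor, ofMask_two_pow (idx_lt x), ofMask_two_pow (idx_lt y),
        ofMask_two_pow (idx_lt z), pt_idx, pt_idx, pt_idx]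
      ext p
      simp only [Finset.mem_insert, Finset.mem_singleton, Finset.mem_union]
      tauto
    rw [he, toMask_ofMask hlt]
    exact h1

/-- the check of a quartet -/
noncomputable def qOK (l : List ℕ) : Bool :=
  Nat.beq l.length 4 && strictAsc l && allLt l &&
  (l.all fun t => Nat.beq (pop t) 3 && Nat.beq (Nat.land t 8442831) t) &&
  (l.all fun t => l.all fun u => Nat.beq t u || memL (Nat.lor t u) hexL)

theorem qL_ok' : allL qOK qL = true := by decide +kernel

theorem qL_ok : ∀ l ∈ qL, qOK l = true := allL_iff.1 qL_ok'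

theorem famOf_mem_quartets {l : List ℕ} (h : qOK l = true) : famOf l ∈ quartets D := by
  simp only [qOK, Bool.and_eq_true, List.all_eq_true, Bool.or_eq_true, memL_iff] at h
  obtain ⟨⟨⟨⟨h1, h2⟩, h3⟩, h4⟩, h5⟩ := h
  refine ⟨?_, ?_, ?_⟩
  · rw [card_famOf h2 h3]; exact Nat.eq_of_beq_eq_true h1
  · intro t ht
    obtain ⟨m, hm, rfl⟩ := mem_famOf.1 ht
    refine ⟨by rw [card_ofMask]; exact Nat.eq_of_beq_eq_true (h4 m hm).1, ?_⟩
    rw [D, subset_ofMask_iff (allLt_spec h3 m hm)]
    exact Nat.eq_of_beq_eq_true (h4 m hm).2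
  · intro t ht u hu htu
    obtain ⟨m, hm, rfl⟩ := mem_famOf.1 ht
    obtain ⟨n, hn, rfl⟩ := mem_famOf.1 hu
    rcases h5 m hm n hn with h | h
    · exact absurd (by rw [Nat.eq_of_beq_eq_true h]) htu
    · rw [mem_hexadsOn_iff, ← ofMask_lor,
        toMask_ofMask (lt_of_lor (allLt_spec h3 m hm) (allLt_spec h3 n hn))]
      exact h

/-! ### invariance under `M24` -/

theorem smul_mem_hexadsOn {k : Equiv.Perm GolayPt} (hk : k ∈ M24) {d h : Finset GolayPt}
    (hh : h ∈ hexadsOn d) : k • h ∈ hexadsOn (k • d) := by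
  obtain ⟨h6, o, ho, hoh⟩ := hh
  refine ⟨by rw [Finset.card_smul_finset]; exact h6, k • o, smul_mem_octads hk ho, ?_⟩
  rw [← Finset.smul_finset_inter, hoh]

theorem smul_mem_quartets {k : Equiv.Perm GolayPt} (hk : k ∈ M24) {d : Finset GolayPt}
    {Q : Finset (Finset GolayPt)} (hQ : Q ∈ quartets d) : k • Q ∈ quartets (k • d) := by
  obtain ⟨h1, h2, h3⟩ := hQ
  refine ⟨by rw [Finset.card_smul_finset]; exact h1, ?_, ?_⟩
  · intro t ht
    obtain ⟨t', ht', rfl⟩ := Finset.mem_smul_finset.1 ht
    refine ⟨?_, Finset.smul_finset_subset_smul_finset (h2 t' ht').2⟩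
    show (k • t').card = 3
    rw [Finset.card_smul_finset]
    exact (h2 t' ht').1
  · intro t ht u hu htu
    obtain ⟨t', ht', rfl⟩ := Finset.mem_smul_finset.1 ht
    obtain ⟨u', hu', rfl⟩ := Finset.mem_smul_finset.1 hu
    show k • t' ∪ k • u' ∈ _
    rw [← Finset.smul_finset_union]
    refine smul_mem_hexadsOn hk (h3 t' ht' u' hu' ?_)
    rintro rfl
    exact htu rfl

theorem smul_quartets_iff {k : Equiv.Perm GolayPt} (hk : k ∈ M24) {d : Finset GolayPt}
    {Q : Finset (Finset GolayPt)} : k • Q ∈ quartets (k • d) ↔ Q ∈ quartets d := by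
  constructor
  · intro h
    have := smul_mem_quartets (M24.inv_mem hk) h
    rwa [inv_smul_smul, inv_smul_smul] at this
  · exact smul_mem_quartets hk

/-! ### the standard edge -/

/-- the standard quartet -/
def q0 : List ℕ := [4672, 16396, 33152, 8388611]

theorem q0_mem : q0 ∈ qL := by decide +kernel

theorem q0_ok : qOK q0 = true := by decide +kernel

theorem ext_chk_aux : allL (fun a => cond (memL (Nat.lor a 8388611) hexL)
    (cond (memL (Nat.lor a 16396) hexL) (memL a q0) true) true) tripL = true := by decide +kernel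

theorem ext_chk : ∀ a ∈ tripL, Nat.lor a 8388611 ∈ hexL → Nat.lor a 16396 ∈ hexL → a ∈ q0 := by
  intro a ha h1 h2
  have := allL_iff.1 ext_chk_aux a ha
  rw [memL_iff.2 h1, memL_iff.2 h2] at this
  exact memL_iff.1 this

theorem triple_of_quartet {d : Finset GolayPt} {Q : Finset (Finset GolayPt)} (hQ : Q ∈ quartets d)
    {t : Finset GolayPt} (ht : t ∈ Q) : t.card = 3 ∧ t ⊆ d := hQ.2.1 t ht

theorem toMask_union_ofMask (a : Finset GolayPt) {m : ℕ} (hm : m < 2 ^ 24) :
    toMask (a ∪ ofMask m) = Nat.lor (toMask a) m := by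
  conv_lhs => rw [← ofMask_toMask a]
  rw [← ofMask_lor, toMask_ofMask (lt_of_lor (toMask_lt a) hm)]

/-- uniqueness at the standard edge -/
theorem std_unique {Q : Finset (Finset GolayPt)} (hQ : Q ∈ quartets D) (h1 : ofMask 8388611 ∈ Q)
    (h2 : ofMask 16396 ∈ Q) : Q = famOf q0 := by
  have hsub : Q ⊆ famOf q0 := by
    intro a ha
    by_cases ha1 : a = ofMask 8388611
    · rw [ha1]; exact ofMask_mem_famOf (by decide +kernel)
    by_cases ha2 : a = ofMask 16396
    · rw [ha2]; exact ofMask_mem_famOf (by decide +kernel)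
    obtain ⟨ha3, ha4⟩ := hQ.2.1 a ha
    have h3 := hQ.2.2 a ha _ h1 ha1
    have h4 := hQ.2.2 a ha _ h2 ha2
    rw [mem_hexadsOn_iff, toMask_union_ofMask a (by norm_num)] at h3 h4
    have := ext_chk _ (toMask_mem_tripL ha3 ha4) h3 h4
    rw [← ofMask_toMask a]
    exact ofMask_mem_famOf this
  apply Finset.eq_of_subset_of_card_le hsub
  rw [hQ.1, card_famOf (by decide +kernel) (by decide +kernel)]
  decide +kernel

theorem hex_std : ∀ h ∈ hexL, Nat.beq (bit h 23) 1 = true → Nat.beq (bit h 0) 1 = true →
    Nat.beq (bit h 1) 1 = true → Nat.beq (bit h 2) 1 = true → Nat.beq (bit h 3) 1 = true →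
    h = 8405007 := by decide +kernel

theorem ofMask_three : ofMask 8388611 = {pt 23, pt 0, pt 1} := by
  have : (8388611 : ℕ) = Nat.lor (Nat.lor (2 ^ 23) (2 ^ 0)) (2 ^ 1) := by decide
  rw [this, ofMask_lor, ofMask_lor, ofMask_two_pow (by norm_num), ofMask_two_pow (by norm_num),
    ofMask_two_pow (by norm_num)]
  ext p
  simp only [Finset.mem_insert, Finset.mem_singleton, Finset.mem_union]
  tauto

theorem D_eq : D = DodecadFacts.dod0 := rfl

/-- five distinct points as an embedding -/
def emb5 {a b c e f : GolayPt} (hab : a ≠ b) (hac : a ≠ c) (hae : a ≠ e) (haf : a ≠ f) (hbc : b ≠ c)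
    (hbe : b ≠ e) (hbf : b ≠ f) (hce : c ≠ e) (hcf : c ≠ f) (hef : e ≠ f) : Fin 5 ↪ GolayPt :=
  ⟨![a, b, c, e, f], by
    intro i j h
    fin_cases i <;> fin_cases j <;> simp_all [eq_comm]⟩

/-- every edge of every dodecad comes from the standard edge -/
theorem exists_edge {d t u : Finset GolayPt} (hd : d ∈ dodecads) (ht : t.card = 3) (hu : u.card = 3)
    (htu : Disjoint t u) (hh : t ∪ u ∈ hexadsOn d) :
    ∃ k ∈ M24, k • D = d ∧ k • ofMask 8388611 = t ∧ k • ofMask 16396 = u := by
  have hsub : t ∪ u ⊆ d := by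
    obtain ⟨_, o, _, hoe⟩ := hh
    rw [← hoe]
    exact Finset.inter_subset_right
  obtain ⟨a, b, c, hab, hac, hbc, rfl⟩ := Finset.card_eq_three.1 ht
  obtain ⟨e, f, g, hef, heg, hfg, rfl⟩ := Finset.card_eq_three.1 hu
  have hdis : ∀ x ∈ ({a, b, c} : Finset GolayPt), ∀ y ∈ ({e, f, g} : Finset GolayPt), x ≠ y :=
    fun x hx y hy => Finset.disjoint_left.1 htu hx |> fun h e' => h (e' ▸ hy)
  have hae := hdis a (by simp) e (by simp)
  have haf := hdis a (by simp) f (by simp)
  have hbe := hdis b (by simp) e (by simp)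
  have hbf := hdis b (by simp) f (by simp)
  have hce := hdis c (by simp) e (by simp)
  have hcf := hdis c (by simp) f (by simp)
  let y : Fin 5 ↪ GolayPt := emb5 hab hac hae haf hbc hbe hbf hce hcf hef
  have hy : ∀ i, y i ∈ d := by
    intro i
    fin_cases i
    · exact hsub (show a ∈ ({a, b, c} ∪ {e, f, g} : Finset GolayPt) by simp)
    · exact hsub (show b ∈ ({a, b, c} ∪ {e, f, g} : Finset GolayPt) by simp)
    · exact hsub (show c ∈ ({a, b, c} ∪ {e, f, g} : Finset GolayPt) by simp)
    · exact hsub (show e ∈ ({a, b, c} ∪ {e, f, g} : Finset GolayPt) by simp)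
    · exact hsub (show f ∈ ({a, b, c} ∪ {e, f, g} : Finset GolayPt) by simp)
  obtain ⟨k, hk, hkd, h0, h1, h2, h3, h4⟩ := DodecadFacts.exists_M24_dodecad hd y hy
  have h0' : k (pt 23) = a := h0
  have h1' : k (pt 0) = b := h1
  have h2' : k (pt 1) = c := h2
  have h3' : k (pt 2) = e := h3
  have h4' : k (pt 3) = f := h4
  rw [← D_eq] at hkd
  have hT : k • ofMask 8388611 = {a, b, c} := by
    rw [ofMask_three, Finset.smul_finset_insert, Finset.smul_finset_insert, Finset.smul_finset_singleton,
      Equiv.Perm.smul_def, Equiv.Perm.smul_def, Equiv.Perm.smul_def, h0', h1', h2']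
  refine ⟨k, hk, hkd, hT, ?_⟩
  -- the hexad
  have hH : k⁻¹ • ({a, b, c} ∪ {e, f, g}) ∈ hexadsOn D := by
    have := smul_mem_hexadsOn (M24.inv_mem hk) hh
    rwa [← hkd, inv_smul_smul] at this
  rw [mem_hexadsOn_iff] at hH
  have hin : ∀ (p : GolayPt) (i : ℕ), i < 24 → k (pt i) = p → p ∈ ({a, b, c} ∪ {e, f, g} : Finset GolayPt) →
      Nat.beq (bit (toMask (k⁻¹ • ({a, b, c} ∪ {e, f, g}))) i) 1 = true := by
    intro p i hi hkp hp
    rw [beq_bit_iff hi, ofMask_toMask, ← apply_mem_smul k, smul_inv_smul, hkp]
    exact hp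
  have he := hex_std _ hH (hin a 23 (by norm_num) h0' (by simp)) (hin b 0 (by norm_num) h1' (by simp))
    (hin c 1 (by norm_num) h2' (by simp)) (hin e 2 (by norm_num) h3' (by simp)) (hin f 3 (by norm_num) h4' (by simp))
  have hH0 : k • ofMask 8405007 = {a, b, c} ∪ {e, f, g} := by
    rw [← he, ofMask_toMask, smul_inv_smul]
  have hsplit : ofMask 8405007 = ofMask 8388611 ∪ ofMask 16396 := by
    have : (8405007 : ℕ) = Nat.lor 8388611 16396 := by decide +kernel
    rw [← ofMask_lor, ← this]
  rw [hsplit, Finset.smul_finset_union, hT] at hH0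
  apply Finset.eq_of_subset_of_card_le
  · intro x hx
    have h5 : x ∈ ({a, b, c} ∪ k • ofMask 16396 : Finset GolayPt) := Finset.mem_union_right _ hx
    rw [hH0, Finset.mem_union] at h5
    rcases h5 with h5 | h5
    · exfalso
      have h6 : x ∈ k • ofMask 8388611 := by rw [hT]; exact h5
      obtain ⟨x1, hx1, rfl⟩ := Finset.mem_smul_finset.1 hx
      obtain ⟨x2, hx2, e2⟩ := Finset.mem_smul_finset.1 h6
      have : x2 = x1 := MulAction.injective k e2
      subst this
      have h7 : (ofMask 8388611 ∩ ofMask 16396).card = 0 := by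
        rw [card_inter_ofMask]; decide +kernel
      rw [Finset.card_eq_zero] at h7
      have h8 := Finset.mem_inter.2 ⟨hx2, hx1⟩
      rw [h7] at h8
      simp at h8
    · exact h5
  · rw [Finset.card_smul_finset, card_ofMask, hu]
    decide +kernel

theorem disjoint_of_hexad {d t u : Finset GolayPt} (ht : t.card = 3) (hu : u.card = 3)
    (hh : t ∪ u ∈ hexadsOn d) : Disjoint t u := by
  have h1 := hh.1
  have h2 := Finset.card_union_add_card_inter t u
  rw [Finset.disjoint_iff_inter_eq_empty, ← Finset.card_eq_zero]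
  omega

/-- two quartets sharing an edge coincide -/
theorem edge_unique {d t u : Finset GolayPt} {Q Q' : Finset (Finset GolayPt)} (hd : d ∈ dodecads)
    (hQ : Q ∈ quartets d) (hQ' : Q' ∈ quartets d) (ht : t ∈ Q) (hu : u ∈ Q) (htu : t ≠ u)
    (ht' : t ∈ Q') (hu' : u ∈ Q') : Q = Q' := by
  have h3t := (hQ.2.1 t ht).1
  have h3u := (hQ.2.1 u hu).1
  have hh := hQ.2.2 t ht u hu htu
  obtain ⟨k, hk, hkd, hkt, hku⟩ := exists_edge hd h3t h3u (disjoint_of_hexad h3t h3u hh) hh
  subst hkd hkt hku
  have key : ∀ R : Finset (Finset GolayPt), R ∈ quartets (k • D) →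
      k • ofMask 8388611 ∈ R → k • ofMask 16396 ∈ R → R = k • famOf q0 := by
    intro R hR h1 h2
    have hR' : k⁻¹ • R ∈ quartets D := by
      have := smul_mem_quartets (M24.inv_mem hk) hR
      rwa [inv_smul_smul] at this
    have h := std_unique hR' (by
      rw [Finset.mem_inv_smul_finset_iff]; exact h1) (by
      rw [Finset.mem_inv_smul_finset_iff]; exact h2)
    rw [← h, smul_inv_smul]
  rw [key Q hQ ht hu, key Q' hQ' ht' hu']

/-- every quartet of every dodecad is the image of the standard one -/
theorem exists_quartet {d : Finset GolayPt} {Q : Finset (Finset GolayPt)} (hd : d ∈ dodecads)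
    (hQ : Q ∈ quartets d) : ∃ k ∈ M24, k • D = d ∧ k • famOf q0 = Q := by
  obtain ⟨t, ht, u, hu, htu⟩ := Finset.one_lt_card.1 (show 1 < Q.card by rw [hQ.1]; norm_num)
  have h3t := (hQ.2.1 t ht).1
  have h3u := (hQ.2.1 u hu).1
  have hh := hQ.2.2 t ht u hu htu
  obtain ⟨k, hk, hkd, hkt, hku⟩ := exists_edge hd h3t h3u (disjoint_of_hexad h3t h3u hh) hh
  refine ⟨k, hk, hkd, edge_unique hd ?_ hQ (t := t) (u := u) ?_ ?_ htu ht hu⟩
  · rw [← hkd]
    exact smul_mem_quartets hk (famOf_mem_quartets q0_ok)
  · rw [← hkt]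
    exact Finset.smul_mem_smul_finset (ofMask_mem_famOf (by decide +kernel))
  · rw [← hku]
    exact Finset.smul_mem_smul_finset (ofMask_mem_famOf (by decide +kernel))

/-- edges are covered by the explicit list -/
theorem cover_chk_aux : allL (fun h => allL (fun t => cond (Nat.beq (Nat.land t h) t)
    (anyL (fun l => cond (memL t l) (memL (Nat.xor h t) l) false) qL) true) tripL) hexL = true := by
  decide +kernel

theorem cover_chk : ∀ h ∈ hexL, ∀ t ∈ tripL, Nat.beq (Nat.land t h) t = true →
    ∃ l ∈ qL, t ∈ l ∧ Nat.xor h t ∈ l := by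
  intro h hh t ht e
  have := allL_iff.1 (allL_iff.1 cover_chk_aux h hh) t ht
  rw [e, cond_true] at this
  obtain ⟨l, hl, h2⟩ := anyL_iff.1 this
  refine ⟨l, hl, ?_⟩
  cases h3 : memL t l
  · rw [h3] at h2; simp at h2
  · rw [h3] at h2
    exact ⟨memL_iff.1 h3, memL_iff.1 h2⟩

theorem xor_lor_cancel {a b : ℕ} (h : Nat.land a b = 0) : Nat.xor (Nat.lor a b) a = b := by
  apply Nat.eq_of_testBit_eq
  intro i
  have h1 : (Nat.land a b).testBit i = false := by rw [h]; simp
  have h2 : (a.testBit i && b.testBit i) = false := (Nat.testBit_and a b i).symm.trans h1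
  show ((a ||| b) ^^^ a).testBit i = _
  rw [Nat.testBit_xor, Nat.testBit_or]
  cases ha : a.testBit i <;> cases hb : b.testBit i <;> simp_all

theorem mem_qL_of_quartet {Q : Finset (Finset GolayPt)} (hQ : Q ∈ quartets D) :
    ∃ l ∈ qL, Q = famOf l := by
  obtain ⟨t, ht, u, hu, htu⟩ := Finset.one_lt_card.1 (show 1 < Q.card by rw [hQ.1]; norm_num)
  obtain ⟨h3t, hst⟩ := hQ.2.1 t ht
  obtain ⟨h3u, hsu⟩ := hQ.2.1 u hu
  have hh := hQ.2.2 t ht u hu htu
  have hdis := disjoint_of_hexad h3t h3u hh
  have hm := (mem_hexadsOn_iff _).1 hh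
  have hl : toMask (t ∪ u) = Nat.lor (toMask t) (toMask u) := by
    conv_lhs => rw [← ofMask_toMask u]
    exact toMask_union_ofMask t (toMask_lt u)
  have hland : Nat.land (toMask t) (toMask u) = 0 := by
    apply ofMask_injOn (lt_of_le_of_lt Nat.and_le_left (toMask_lt t)) (by norm_num)
    show ofMask (Nat.land (toMask t) (toMask u)) = _
    rw [ofMask_land, ofMask_toMask, ofMask_toMask, Finset.disjoint_iff_inter_eq_empty.1 hdis]
    ext p
    simp [mem_ofMask]
  have hsubt : Nat.beq (Nat.land (toMask t) (toMask (t ∪ u))) (toMask t) = true := by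
    rw [Nat.beq_eq, ← subset_ofMask_iff (toMask_lt t), ofMask_toMask, ofMask_toMask]
    exact Finset.subset_union_left
  obtain ⟨l, hl1, hl2⟩ := cover_chk _ hm _ (toMask_mem_tripL h3t hst) hsubt
  rw [hl, xor_lor_cancel hland] at hl2
  refine ⟨l, hl1, edge_unique D_mem hQ (famOf_mem_quartets (qL_ok l hl1)) ht hu htu ?_ ?_⟩
  · rw [← ofMask_toMask t]; exact ofMask_mem_famOf hl2.1
  · rw [← ofMask_toMask u]; exact ofMask_mem_famOf hl2.2

theorem quartets_eq : quartets D = famOf '' {l | l ∈ qL} := by
  ext Q
  constructor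
  · intro hQ
    obtain ⟨l, hl, rfl⟩ := mem_qL_of_quartet hQ
    exact ⟨l, hl, rfl⟩
  · rintro ⟨l, hl, rfl⟩
    exact famOf_mem_quartets (qL_ok l hl)

/-- a key separating the quartets -/
def qKey (l : List ℕ) : ℕ := l.foldl (fun acc t => acc * 16777216 + t) 0

theorem qKeys_asc : strictAsc (qL.map qKey) = true := by decide +kernel

theorem qL_nodup : qL.Nodup := List.Nodup.of_map qKey (strictAsc_nodup qKeys_asc)

theorem qOK_asc {l : List ℕ} (h : qOK l = true) : strictAsc l = true ∧ allLt l = true := by
  simp only [qOK, Bool.and_eq_true] at h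
  exact ⟨h.1.1.1.2, h.1.1.2⟩

theorem famOf_injOn_qL : Set.InjOn famOf {l | l ∈ qL} := by
  intro a ha b hb h
  have h1 := qOK_asc (qL_ok a ha)
  have h2 := qOK_asc (qL_ok b hb)
  exact famOf_inj h1.1 h2.1 h1.2 h2.2 h

theorem ncard_quartets_D : (quartets D).ncard = 220 := by
  rw [quartets_eq, ncard_image_list qL famOf qL_nodup famOf_injOn_qL]
  decide +kernel

theorem quartets_smul {k : Equiv.Perm GolayPt} (hk : k ∈ M24) (d : Finset GolayPt) :
    quartets (k • d) = (fun Q => k • Q) '' quartets d := by
  ext Q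
  constructor
  · intro hQ
    refine ⟨k⁻¹ • Q, ?_, smul_inv_smul k Q⟩
    have := smul_mem_quartets (M24.inv_mem hk) hQ
    rwa [inv_smul_smul] at this
  · rintro ⟨R, hR, rfl⟩
    exact smul_mem_quartets hk hR

theorem ncard_quartets {d : Finset GolayPt} (hd : d ∈ dodecads) : (quartets d).ncard = 220 := by
  obtain ⟨k, hk, rfl⟩ := DodecadFacts.exists_smul_dod0 hd
  rw [← D_eq, quartets_smul hk, Set.ncard_image_of_injective _ (MulAction.injective k), ncard_quartets_D]

end Cfsg.Agent.Lib.DodecadQuartets
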