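import Mathlib
import Cfsg.Agent.Lib.E6Data
import Cfsg.Agent.Lib.ChevOmega

/-!
# The isometry group of the cubic form in the coordinates of the table, and the image of Steinberg's group
-/

set_option autoImplicit false
set_option linter.unusedSectionVars false

namespace Cfsg.Agent.Lib.E6Group

open Matrix Cfsg.Lie Cfsg.Agent.Lib.ChevRep Cfsg.Agent.Lib.Chev Cfsg.Agent.Lib.OrthoCount
  Cfsg.Agent.Lib.ChevOmega Cfsg.Agent.Lib.RepE6F Cfsg.Agent.Lib.E6Poly Cfsg.Agent.Lib.E6Data

variable {F : Type*} [Field F]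

theorem lin_ok : allBelow (fun r => allBelow (fun c =>
    (T.exOf r c).all fun e => Nat.beq e.2.2 1) 27) 72 = true := by decide +kernel

theorem exN_row {L : List (ℕ × ℤ × ℕ)} (hL : L.all (fun e => Nat.beq e.2.2 1) = true) (x t : F) {d : ℕ} (hd : d < 27) :
    x * (ChevRep.exN 27 L t ⟨d, hd⟩) =
      t * (((L.filter fun e => Nat.beq e.1 d).map fun e => ((e.2.1 : ℤ) : F)).sum * x) := by
  induction L with
  | nil => simp [ChevRep.exN]
  | cons e L ih =>
    rw [List.all_cons, Bool.and_eq_true] at hL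
    have h1 := ih hL.2
    have h2 : e.2.2 = 1 := Nat.eq_of_beq_eq_true hL.1
    have h3 : ChevRep.exN 27 (e :: L) t = ((e.2.1 : ℤ) : F) • (t ^ e.2.2 • (ChevRep.bvN 27 e.1 : Fin 27 → F)) +
        ChevRep.exN 27 L t := by
      simp [ChevRep.exN]
    rw [h3, h2]
    simp only [Pi.add_apply, Pi.smul_apply, smul_eq_mul, pow_one, ChevRep.bvN, mul_add, h1]
    by_cases he : e.1 = d
    · have : Nat.beq e.1 d = true := by rw [he]; exact Nat.beq_refl d
      simp only [List.filter_cons, this, if_true, List.map_cons, List.sum_cons]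
      simp only [he, if_true]
      ring
    · have : Nat.beq e.1 d = false := by
        cases h : Nat.beq e.1 d
        · rfl
        · exact absurd (Nat.eq_of_beq_eq_true h) he
      simp only [List.filter_cons, this]
      have hne : ¬ d = e.1 := fun h => he h.symm
      simp [hne]

theorem evL_rowN (v : Fin 27 → F) (t : F) {r d : ℕ} (hd : d < 27) (N : ℕ)
    (h : ∀ c, c < N → (T.exOf r c).all (fun e => Nat.beq e.2.2 1) = true) :
    ∑ c ∈ Finset.range N, xh v c * (ChevRep.exN 27 (T.exOf r c) t ⟨d, hd⟩) = t * evL v (rowN r d N) := by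
  induction N with
  | zero => simp [rowN, evL]
  | succ N ih =>
    rw [Finset.sum_range_succ, ih fun c hc => h c (by omega), rowN, evL_append, exN_row (h N (by omega))]
    have key : ∀ L : List (ℕ × ℤ × ℕ), evL v (L.map fun e => (e.2.1, N)) =
        (L.map fun e => ((e.2.1 : ℤ) : F)).sum * xh v N := by
      intro L
      induction L with
      | nil => simp [evL]
      | cons e L ih2 =>
        simp only [List.map_cons, evL_cons, List.sum_cons, ih2]
        ring
    rw [key]
    ring

/-- The action of a root element. -/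
noncomputable def ra (r : ℕ) (t : F) (v : Fin 27 → F) : Fin 27 → F := rX T r t *ᵥ v

theorem ra_eq (r : ℕ) (t : F) (v : Fin 27 → F) :
    ra r t v = v + ∑ c : Fin 27, v c • ChevRep.exN 27 (T.exOf r c) t := rX_mulVec T r t v

/-- The action of a root element in coordinates. -/
theorem xh_ra {r : ℕ} (hr : r < 72) (t : F) (v : Fin 27 → F) {d : ℕ} (hd : d < 27) :
    xh (ra r t v) d = xh v d + t * evL v (rowL r d) := by
  rw [show xh (ra r t v) d = (ra r t v) ⟨d, hd⟩ by unfold xh; rw [dif_pos hd]]
  rw [ra_eq]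
  have h1 : ∀ c, c < 27 → (T.exOf r c).all (fun e => Nat.beq e.2.2 1) = true := fun c hc =>
    allBelow_spec _ _ (allBelow_spec _ _ lin_ok r hr) c hc
  have h2 := evL_rowN v t hd 27 h1
  rw [Finset.sum_range] at h2
  unfold rowL
  rw [if_pos hd, ← h2]
  simp only [Pi.add_apply, Finset.sum_apply, Pi.smul_apply, smul_eq_mul]
  have h3 : ∑ c : Fin 27, v c * ChevRep.exN 27 (T.exOf r c) t ⟨d, hd⟩ =
      ∑ c : Fin 27, xh v c * ChevRep.exN 27 (T.exOf r c) t ⟨d, hd⟩ :=
    Finset.sum_congr rfl fun c _ => by rw [xh_val]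
  rw [h3]
  congr 1
  unfold xh
  rw [dif_pos hd]

/-- The nilpotent part of a root element. -/
noncomputable def nilV (r : ℕ) (v : Fin 27 → F) : Fin 27 → F := fun d => evL v (rowL r d)

theorem xh_nilV (r : ℕ) (v : Fin 27 → F) (d : ℕ) : xh (nilV r v) d = evL v (rowL r d) := by
  unfold xh
  split_ifs with h
  · rfl
  · simp [rowL, h, evL_nil]

theorem ra_eq_nil {r : ℕ} (hr : r < 72) (t : F) (v : Fin 27 → F) :
    ra r t v = v + t • nilV r v := by
  apply ext_xh
  intro n hn
  rw [xh_ra hr t v hn, xh_add, xh_smul, xh_nilV]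

theorem inv_ok : ∀ r, r < 72 → invCheck triL (rowL r) := by
  decide +kernel

theorem cub_ra {r : ℕ} (hr : r < 72) (t : F) (v : Fin 27 → F) : cub triL (ra r t v) = cub triL v := by
  rw [ra_eq_nil hr]
  exact cub_inv_of_check (inv_ok r hr) v _ (xh_nilV r v) t

variable (F)

/-- The isometry group of the cubic form. -/
def GT : Subgroup ((Fin 27 → F) ≃ₗ[F] (Fin 27 → F)) where
  carrier := {g | ∀ v, cub triL (g v) = cub triL v}
  mul_mem' {g h} hg hh v := by
    rw [LinearEquiv.mul_apply, hg, hh]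
  one_mem' v := rfl
  inv_mem' {g} hg v := by
    have := hg (g⁻¹ v)
    rw [← LinearEquiv.mul_apply, mul_inv_cancel] at this
    exact this.symm

variable {F}

variable (F)

/-- The representation of Steinberg's group on `Fin 27 → F`. -/
noncomputable def rep27 : chevE6.SteinbergGroup F →* GL (Fin 27) F := repHom F rep_ok

variable {F}

theorem rep_y (r : ℕ) (t : F) (x : Fin 27 → F) :
    glEquiv (rep27 F (chevE6.stGen F r t)) x = ra r t x := by
  rw [glEquiv_apply]
  exact congrArg (fun M => M *ᵥ x) (repHom_y_val F rep_ok r t)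

theorem mem_rep (g : chevE6.SteinbergGroup F) : glEquiv (rep27 F g) ∈ GT F := by
  induction g using st_induction with
  | hy r t hr =>
    intro x
    rw [rep_y]
    exact cub_ra hr t x
  | h1 => simp only [map_one]; exact one_mem _
  | hmul a b ha hb =>
    rw [map_mul, map_mul]
    exact mul_mem ha hb
  | hinv a ha =>
    rw [map_inv, map_inv]
    exact inv_mem ha

variable (F)

/-- The homomorphism from Steinberg's group to the isometry group. -/
noncomputable def rho : chevE6.SteinbergGroup F →* GT F :=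
  (glEquiv.toMonoidHom.comp (rep27 F)).codRestrict (GT F) mem_rep

variable {F}

theorem rho_apply (g : chevE6.SteinbergGroup F) (x : Fin 27 → F) :
    (rho F g).1 x = (rep27 F g).val *ᵥ x := rfl

theorem rho_y (r : ℕ) (t : F) (x : Fin 27 → F) :
    (rho F (chevE6.stGen F r t)).1 x = ra r t x := rep_y r t x

theorem xh_rho_y {r : ℕ} (hr : r < 72) (t : F) (v : Fin 27 → F) {d : ℕ} (hd : d < 27) :
    xh ((rho F (chevE6.stGen F r t)).1 v) d = xh v d + t * evL v (rowL r d) := by
  rw [rho_y, xh_ra hr t v hd]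

/-- `h̄_r(a)` acts diagonally. -/
theorem rho_hb {r : ℕ} (hr : r < 72) (a : F) (ha : a ≠ 0) {c : ℕ} (hc : c < 27) :
    (rho F (ChevPres.hb chevE6 F r a)).1 (en c) = (a ^ hExp T chevE6 r c) • en c := by
  have e1 : (en c : Fin 27 → F) = Pi.single (⟨c, hc⟩ : Fin 27) 1 := bvN_val (⟨c, hc⟩ : Fin 27)
  have e2 : ∀ y : Fin 27 → F, (rho F (ChevPres.hb chevE6 F r a)).1 y =
      (Matrix.diagonal (fun col : Fin 27 => a ^ hExp T chevE6 r col)) *ᵥ y := fun y =>
    congrArg (fun M => M *ᵥ y) (repHom_hb F rep_ok hr a ha)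
  rw [e2, e1, Matrix.mulVec_single_one]
  funext n
  simp only [Matrix.col_apply, Matrix.diagonal_apply, Pi.smul_apply, Pi.single_apply, smul_eq_mul]
  by_cases h : n = ⟨c, hc⟩
  · subst h; simp
  · simp [h]

end Cfsg.Agent.Lib.E6Group
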