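import Mathlib
import Cfsg.Agent.Lib.ChevRep

/-!
# Cubic forms given by lists of monomials

Vectors of `Fin 27 → F`, read through natural-number coordinates; a cubic form is a list of monomials
`(a, i, j, k)`.  We have its polarisations, and a small reflective check of polynomial identities.
-/

set_option autoImplicit false
set_option linter.unusedSectionVars false

namespace Cfsg.Agent.Lib.E6Poly

variable {F : Type*} [Field F]

/-- Coordinates by natural numbers. -/
def xh (v : Fin 27 → F) (n : ℕ) : F := if h : n < 27 then v ⟨n, h⟩ else 0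

theorem xh_add (v w : Fin 27 → F) (n : ℕ) : xh (v + w) n = xh v n + xh w n := by
  unfold xh; split_ifs <;> simp

theorem xh_sub (v w : Fin 27 → F) (n : ℕ) : xh (v - w) n = xh v n - xh w n := by
  unfold xh; split_ifs <;> simp

theorem xh_smul (c : F) (v : Fin 27 → F) (n : ℕ) : xh (c • v) n = c * xh v n := by
  unfold xh; split_ifs <;> simp

theorem xh_zero (n : ℕ) : xh (0 : Fin 27 → F) n = 0 := by
  unfold xh; split_ifs <;> simp

theorem xh_val (v : Fin 27 → F) (c : Fin 27) : xh v c = v c := by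
  unfold xh
  rw [dif_pos c.2]

theorem ext_xh {v w : Fin 27 → F} (h : ∀ n, n < 27 → xh v n = xh w n) : v = w := by
  funext c
  have := h c c.2
  rwa [xh_val, xh_val] at this

/-- The basis vectors, indexed by natural numbers. -/
def en (c : ℕ) : Fin 27 → F := ChevRep.bvN 27 c

theorem xh_en {c : ℕ} (hc : c < 27) (n : ℕ) : xh (en c : Fin 27 → F) n = if n = c then 1 else 0 := by
  by_cases hn : n < 27
  · simp [xh, en, ChevRep.bvN, hn]
  · have : n ≠ c := by omega
    simp [xh, hn, this]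

/-- Value of a linear form. -/
def evL (v : Fin 27 → F) (L : List (ℤ × ℕ)) : F :=
  (L.map fun p => ((p.1 : ℤ) : F) * xh v p.2).sum

theorem evL_nil (v : Fin 27 → F) : evL v [] = 0 := rfl

theorem evL_cons (v : Fin 27 → F) (p : ℤ × ℕ) (L : List (ℤ × ℕ)) :
    evL v (p :: L) = ((p.1 : ℤ) : F) * xh v p.2 + evL v L := by
  simp [evL]

theorem evL_append (v : Fin 27 → F) (L L' : List (ℤ × ℕ)) : evL v (L ++ L') = evL v L + evL v L' := by
  simp [evL]

theorem evL_one (v : Fin 27 → F) (d : ℕ) : evL v [((1 : ℤ), d)] = xh v d := by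
  simp [evL]

/-- Value of a quadratic form. -/
def evQ (v : Fin 27 → F) (L : List (ℤ × ℕ × ℕ)) : F :=
  (L.map fun p => ((p.1 : ℤ) : F) * (xh v p.2.1 * xh v p.2.2)).sum

theorem evQ_nil (v : Fin 27 → F) : evQ v [] = 0 := rfl

theorem evQ_cons (v : Fin 27 → F) (p : ℤ × ℕ × ℕ) (L : List (ℤ × ℕ × ℕ)) :
    evQ v (p :: L) = ((p.1 : ℤ) : F) * (xh v p.2.1 * xh v p.2.2) + evQ v L := by
  simp [evQ]

theorem evQ_append (v : Fin 27 → F) (L L' : List (ℤ × ℕ × ℕ)) : evQ v (L ++ L') = evQ v L + evQ v L' := by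
  simp [evQ]

/-- Monomials `a xᵢ xⱼ xₖ`. -/
abbrev CL := List (ℤ × ℕ × ℕ × ℕ)

/-- The cubic form of a list. -/
def cub (L : CL) (v : Fin 27 → F) : F :=
  (L.map fun m => ((m.1 : ℤ) : F) * (xh v m.2.1 * xh v m.2.2.1 * xh v m.2.2.2)).sum

/-- The partial polarisation: quadratic in `x`, linear in `y`. -/
def Bf (L : CL) (x y : Fin 27 → F) : F :=
  (L.map fun m => ((m.1 : ℤ) : F) * (xh x m.2.1 * xh x m.2.2.1 * xh y m.2.2.2 +
    xh x m.2.1 * xh y m.2.2.1 * xh x m.2.2.2 + xh y m.2.1 * xh x m.2.2.1 * xh x m.2.2.2)).sum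

/-- The full polarisation. -/
def Ff (L : CL) (x y z : Fin 27 → F) : F :=
  (L.map fun m => ((m.1 : ℤ) : F) * (xh x m.2.1 * xh y m.2.2.1 * xh z m.2.2.2 +
    xh x m.2.1 * xh z m.2.2.1 * xh y m.2.2.2 + xh y m.2.1 * xh x m.2.2.1 * xh z m.2.2.2 +
    xh y m.2.1 * xh z m.2.2.1 * xh x m.2.2.2 + xh z m.2.1 * xh x m.2.2.1 * xh y m.2.2.2 +
    xh z m.2.1 * xh y m.2.2.1 * xh x m.2.2.2)).sum

theorem cub_nil (v : Fin 27 → F) : cub [] v = 0 := rfl

theorem cub_cons (m : ℤ × ℕ × ℕ × ℕ) (L : CL) (v : Fin 27 → F) :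
    cub (m :: L) v = ((m.1 : ℤ) : F) * (xh v m.2.1 * xh v m.2.2.1 * xh v m.2.2.2) + cub L v := by
  simp [cub]

theorem cub_append (L L' : CL) (v : Fin 27 → F) : cub (L ++ L') v = cub L v + cub L' v := by
  simp [cub]

theorem cub_add_smul (L : CL) (x y : Fin 27 → F) (t : F) :
    cub L (x + t • y) = cub L x + t * Bf L x y + t ^ 2 * Bf L y x + t ^ 3 * cub L y := by
  induction L with
  | nil => simp [cub, Bf]
  | cons m L ih =>
    simp only [cub, Bf, List.map_cons, List.sum_cons] at ih ⊢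
    rw [ih]
    simp only [xh_add, xh_smul]
    ring

theorem Bf_add_left (L : CL) (x y z : Fin 27 → F) :
    Bf L (x + y) z = Bf L x z + Bf L y z + Ff L x y z := by
  induction L with
  | nil => simp [Ff, Bf]
  | cons m L ih =>
    simp only [Ff, Bf, List.map_cons, List.sum_cons] at ih ⊢
    rw [ih]
    simp only [xh_add]
    ring

theorem Bf_add_right (L : CL) (x y z : Fin 27 → F) :
    Bf L x (y + z) = Bf L x y + Bf L x z := by
  induction L with
  | nil => simp [Bf]
  | cons m L ih =>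
    simp only [Bf, List.map_cons, List.sum_cons] at ih ⊢
    rw [ih]
    simp only [xh_add]
    ring

theorem Bf_smul_right (L : CL) (x y : Fin 27 → F) (c : F) :
    Bf L x (c • y) = c * Bf L x y := by
  induction L with
  | nil => simp [Bf]
  | cons m L ih =>
    simp only [Bf, List.map_cons, List.sum_cons] at ih ⊢
    rw [ih]
    simp only [xh_smul]
    ring

theorem Ff_add_1 (L : CL) (x x' y z : Fin 27 → F) : Ff L (x + x') y z = Ff L x y z + Ff L x' y z := by
  induction L with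
  | nil => simp [Ff]
  | cons m L ih =>
    simp only [Ff, List.map_cons, List.sum_cons] at ih ⊢
    rw [ih]
    simp only [xh_add]
    ring

theorem Ff_smul_1 (L : CL) (c : F) (x y z : Fin 27 → F) : Ff L (c • x) y z = c * Ff L x y z := by
  induction L with
  | nil => simp [Ff]
  | cons m L ih =>
    simp only [Ff, List.map_cons, List.sum_cons] at ih ⊢
    rw [ih]
    simp only [xh_smul]
    ring

theorem Ff_comm12 (L : CL) (x y z : Fin 27 → F) : Ff L x y z = Ff L y x z := by
  induction L with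
  | nil => simp [Ff]
  | cons m L ih =>
    simp only [Ff, List.map_cons, List.sum_cons] at ih ⊢
    rw [ih]
    ring

theorem Ff_comm23 (L : CL) (x y z : Fin 27 → F) : Ff L x y z = Ff L x z y := by
  induction L with
  | nil => simp [Ff]
  | cons m L ih =>
    simp only [Ff, List.map_cons, List.sum_cons] at ih ⊢
    rw [ih]
    ring

theorem Ff_add_2 (L : CL) (x y y' z : Fin 27 → F) : Ff L x (y + y') z = Ff L x y z + Ff L x y' z := by
  rw [Ff_comm12, Ff_add_1, Ff_comm12 L y, Ff_comm12 L y']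

theorem Ff_smul_2 (L : CL) (c : F) (x y z : Fin 27 → F) : Ff L x (c • y) z = c * Ff L x y z := by
  rw [Ff_comm12, Ff_smul_1, Ff_comm12 L y]

theorem Ff_add_3 (L : CL) (x y z z' : Fin 27 → F) : Ff L x y (z + z') = Ff L x y z + Ff L x y z' := by
  rw [Ff_comm23, Ff_add_2, Ff_comm23 L x z, Ff_comm23 L x z']

theorem Ff_smul_3 (L : CL) (c : F) (x y z : Fin 27 → F) : Ff L x y (c • z) = c * Ff L x y z := by
  rw [Ff_comm23, Ff_smul_2, Ff_comm23 L x z]

theorem Ff_sub_3 (L : CL) (x y z z' : Fin 27 → F) : Ff L x y (z - z') = Ff L x y z - Ff L x y z' := by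
  have h := Ff_add_3 L x y (z - z') z'
  rw [sub_add_cancel] at h
  rw [h]
  ring

/-! ### Coefficients -/

/-- The quadratic form `∂ₖ`. -/
def quadL (L : CL) (k : ℕ) : List (ℤ × ℕ × ℕ) :=
  L.flatMap fun m =>
    (if m.2.2.2 = k then [(m.1, m.2.1, m.2.2.1)] else []) ++
    (if m.2.2.1 = k then [(m.1, m.2.1, m.2.2.2)] else []) ++
    (if m.2.1 = k then [(m.1, m.2.2.1, m.2.2.2)] else [])

theorem evQ_ite (x : Fin 27 → F) (c : Prop) [Decidable c] (a : ℤ) (i j : ℕ) :
    evQ x (if c then [(a, i, j)] else []) = if c then ((a : ℤ) : F) * (xh x i * xh x j) else 0 := by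
  split_ifs <;> simp [evQ]

theorem bf_key (P1 P2 P3 : Prop) [Decidable P1] [Decidable P2] [Decidable P3] (a xi xj xk : F) :
    a * (xi * xj * (if P3 then 1 else 0) + xi * (if P2 then 1 else 0) * xk + (if P1 then 1 else 0) * xj * xk) =
      (if P3 then a * (xi * xj) else 0) + (if P2 then a * (xi * xk) else 0) + (if P1 then a * (xj * xk) else 0) := by
  by_cases h1 : P1 <;> by_cases h2 : P2 <;> by_cases h3 : P3 <;> simp only [h1, h2, h3, if_true, if_false] <;> ring

theorem Bf_en (L : CL) (x : Fin 27 → F) {k : ℕ} (hk : k < 27) : Bf L x (en k) = evQ x (quadL L k) := by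
  induction L with
  | nil => simp [Bf, quadL, evQ]
  | cons m L ih =>
    simp only [quadL, List.flatMap_cons, evQ_append] at ih ⊢
    rw [← ih]
    simp only [Bf, List.map_cons, List.sum_cons, xh_en hk, evQ_ite]
    congr 1
    exact bf_key _ _ _ _ _ _ _

/-- The linear form `∂ⱼ∂ₖ`. -/
def linL (L : CL) (j k : ℕ) : List (ℤ × ℕ) :=
  L.flatMap fun m =>
    (if m.2.2.1 = j ∧ m.2.2.2 = k then [(m.1, m.2.1)] else []) ++
    (if m.2.2.2 = j ∧ m.2.2.1 = k then [(m.1, m.2.1)] else []) ++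
    (if m.2.1 = j ∧ m.2.2.2 = k then [(m.1, m.2.2.1)] else []) ++
    (if m.2.2.2 = j ∧ m.2.1 = k then [(m.1, m.2.2.1)] else []) ++
    (if m.2.1 = j ∧ m.2.2.1 = k then [(m.1, m.2.2.2)] else []) ++
    (if m.2.2.1 = j ∧ m.2.1 = k then [(m.1, m.2.2.2)] else [])

theorem evL_ite (x : Fin 27 → F) (c : Prop) [Decidable c] (a : ℤ) (i : ℕ) :
    evL x (if c then [(a, i)] else []) = if c then ((a : ℤ) : F) * xh x i else 0 := by
  split_ifs <;> simp [evL]

theorem ff_key (P1 P2 P3 P4 P5 P6 : Prop) [Decidable P1] [Decidable P2] [Decidable P3] [Decidable P4]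
    [Decidable P5] [Decidable P6] (a xi xj xk : F) :
    a * (xi * (if P2 then 1 else 0) * (if P6 then 1 else 0) + xi * (if P5 then 1 else 0) * (if P3 then 1 else 0) +
        (if P1 then 1 else 0) * xj * (if P6 then 1 else 0) + (if P1 then 1 else 0) * (if P5 then 1 else 0) * xk +
        (if P4 then 1 else 0) * xj * (if P3 then 1 else 0) + (if P4 then 1 else 0) * (if P2 then 1 else 0) * xk) =
      (if P2 ∧ P6 then a * xi else 0) + (if P3 ∧ P5 then a * xi else 0) + (if P1 ∧ P6 then a * xj else 0) +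
        (if P3 ∧ P4 then a * xj else 0) + (if P1 ∧ P5 then a * xk else 0) + (if P2 ∧ P4 then a * xk else 0) := by
  by_cases h1 : P1 <;> by_cases h2 : P2 <;> by_cases h3 : P3 <;> by_cases h4 : P4 <;> by_cases h5 : P5 <;>
    by_cases h6 : P6 <;> simp only [h1, h2, h3, h4, h5, h6, if_true, if_false, and_self, and_true, and_false] <;> ring

theorem Ff_en (L : CL) (x : Fin 27 → F) {j k : ℕ} (hj : j < 27) (hk : k < 27) :
    Ff L x (en j) (en k) = evL x (linL L j k) := by
  induction L with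
  | nil => simp [Ff, linL, evL]
  | cons m L ih =>
    simp only [linL, List.flatMap_cons, evL_append] at ih ⊢
    rw [← ih]
    simp only [Ff, List.map_cons, List.sum_cons, xh_en hj, xh_en hk, evL_ite]
    congr 1
    exact ff_key _ _ _ _ _ _ _ _ _ _

/-! ### Reflection for polynomial identities -/

/-- Sorting two numbers. -/
def s2 (a b : ℕ) : ℕ × ℕ := if Nat.ble a b = true then (a, b) else (b, a)

/-- Sorting three numbers. -/
def s3 (i j k : ℕ) : ℕ × ℕ × ℕ :=
  let p := s2 i j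
  let q := s2 p.2 k
  let u := s2 p.1 q.1
  (u.1, u.2, q.2)

theorem s2_val (v : ℕ → F) (a b : ℕ) : v (s2 a b).1 * v (s2 a b).2 = v a * v b := by
  unfold s2
  split_ifs
  · rfl
  · exact mul_comm _ _

theorem s3_val (v : ℕ → F) (i j k : ℕ) :
    v (s3 i j k).1 * v (s3 i j k).2.1 * v (s3 i j k).2.2 = v i * v j * v k := by
  show v (s2 (s2 i j).1 (s2 (s2 i j).2 k).1).1 * v (s2 (s2 i j).1 (s2 (s2 i j).2 k).1).2 * v (s2 (s2 i j).2 k).2 = _
  rw [s2_val, mul_assoc, s2_val, ← mul_assoc, s2_val]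

/-- Inserting a monomial in a normal form. -/
def insC (a : ℤ) (t : ℕ × ℕ × ℕ) : CL → CL
  | [] => if a = 0 then [] else [(a, t)]
  | m :: L =>
    if m.2.1 = t.1 ∧ m.2.2.1 = t.2.1 ∧ m.2.2.2 = t.2.2 then
      (if m.1 + a = 0 then L else (m.1 + a, t) :: L)
    else m :: insC a t L

theorem cub_insC (a : ℤ) (t : ℕ × ℕ × ℕ) (L : CL) (v : Fin 27 → F) :
    cub (insC a t L) v = ((a : ℤ) : F) * (xh v t.1 * xh v t.2.1 * xh v t.2.2) + cub L v := by
  induction L with
  | nil =>
    unfold insC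
    split_ifs with h
    · simp [h, cub]
    · simp [cub]
  | cons m L ih =>
    unfold insC
    split_ifs with h1 h2
    · obtain ⟨e1, e2, e3⟩ := h1
      rw [cub_cons, e1, e2, e3]
      have : ((a : ℤ) : F) + ((m.1 : ℤ) : F) = 0 := by
        have := congrArg (fun z : ℤ => (z : F)) h2
        simp only [Int.cast_add, Int.cast_zero] at this
        rw [add_comm]
        exact this
      linear_combination (-(xh v t.1 * xh v t.2.1 * xh v t.2.2)) * this
    · obtain ⟨e1, e2, e3⟩ := h1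
      rw [cub_cons, cub_cons, e1, e2, e3]
      push_cast
      ring
    · rw [cub_cons, cub_cons, ih]
      ring

/-- The normal form of a list. -/
def normC : CL → CL
  | [] => []
  | m :: L => insC m.1 (s3 m.2.1 m.2.2.1 m.2.2.2) (normC L)

theorem cub_normC (L : CL) (v : Fin 27 → F) : cub (normC L) v = cub L v := by
  induction L with
  | nil => rfl
  | cons m L ih =>
    rw [normC, cub_insC, ih, cub_cons, s3_val_xh]
where
  s3_val_xh : ∀ (i j k : ℕ), xh v (s3 i j k).1 * xh v (s3 i j k).2.1 * xh v (s3 i j k).2.2 =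
      xh v i * xh v j * xh v k := fun i j k => s3_val (xh v) i j k

theorem cub_eq_zero_of_norm {L : CL} (h : normC L = []) (v : Fin 27 → F) : cub L v = 0 := by
  rw [← cub_normC, h, cub_nil]

/-- Substitution of linear forms for the three slots. -/
def sub3 (L : CL) (R1 R2 R3 : ℕ → List (ℤ × ℕ)) : CL :=
  L.flatMap fun m => (R1 m.2.1).flatMap fun p1 => (R2 m.2.2.1).flatMap fun p2 =>
    (R3 m.2.2.2).map fun p3 => (m.1 * p1.1 * p2.1 * p3.1, p1.2, p2.2, p3.2)

theorem sub_aux3 (c : ℤ) (i j : ℕ) (L3 : List (ℤ × ℕ)) (v : Fin 27 → F) :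
    cub (L3.map fun p3 => (c * p3.1, i, j, p3.2)) v = ((c : ℤ) : F) * (xh v i * xh v j * evL v L3) := by
  induction L3 with
  | nil => simp [cub, evL]
  | cons p L3 ih =>
    simp only [List.map_cons, cub_cons, ih, evL_cons]
    push_cast
    ring

theorem sub_aux2 (c : ℤ) (i : ℕ) (L2 L3 : List (ℤ × ℕ)) (v : Fin 27 → F) :
    cub (L2.flatMap fun p2 => L3.map fun p3 => (c * p2.1 * p3.1, i, p2.2, p3.2)) v =
      ((c : ℤ) : F) * (xh v i * evL v L2 * evL v L3) := by
  induction L2 with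
  | nil => simp [cub, evL]
  | cons p L2 ih =>
    simp only [List.flatMap_cons, cub_append, ih, evL_cons, sub_aux3]
    push_cast
    ring

theorem sub_aux1 (a : ℤ) (L1 L2 L3 : List (ℤ × ℕ)) (v : Fin 27 → F) :
    cub (L1.flatMap fun p1 => L2.flatMap fun p2 => L3.map fun p3 => (a * p1.1 * p2.1 * p3.1, p1.2, p2.2, p3.2)) v =
      ((a : ℤ) : F) * (evL v L1 * evL v L2 * evL v L3) := by
  induction L1 with
  | nil => simp [cub, evL]
  | cons p L1 ih =>
    simp only [List.flatMap_cons, cub_append, ih, evL_cons, sub_aux2]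
    push_cast
    ring

theorem cub_sub3 (L : CL) (R1 R2 R3 : ℕ → List (ℤ × ℕ)) (v : Fin 27 → F) :
    cub (sub3 L R1 R2 R3) v =
      (L.map fun m => ((m.1 : ℤ) : F) * (evL v (R1 m.2.1) * evL v (R2 m.2.2.1) * evL v (R3 m.2.2.2))).sum := by
  induction L with
  | nil => rfl
  | cons m L ih =>
    simp only [sub3, List.flatMap_cons, cub_append, List.map_cons, List.sum_cons] at ih ⊢
    rw [ih, sub_aux1]

/-- The identity rows. -/
def idR (d : ℕ) : List (ℤ × ℕ) := [((1 : ℤ), d)]

theorem evL_idR (v : Fin 27 → F) (d : ℕ) : evL v (idR d) = xh v d := evL_one v d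

/-- The check that `v ↦ v + t N v` preserves the cubic form, where `N` has rows `R`. -/
def invCheck (L : CL) (R : ℕ → List (ℤ × ℕ)) : Prop :=
  normC (sub3 L idR idR R ++ sub3 L idR R idR ++ sub3 L R idR idR) = [] ∧
  normC (sub3 L R R idR ++ sub3 L R idR R ++ sub3 L idR R R) = [] ∧
  normC (sub3 L R R R) = []

instance (L : CL) (R : ℕ → List (ℤ × ℕ)) : Decidable (invCheck L R) := by
  unfold invCheck; infer_instance

theorem Bf_rows1 (L : CL) {R : ℕ → List (ℤ × ℕ)} {v y : Fin 27 → F} (hy : ∀ d, xh y d = evL v (R d)) :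
    Bf L v y = cub (sub3 L idR idR R ++ sub3 L idR R idR ++ sub3 L R idR idR) v := by
  rw [cub_append, cub_append, cub_sub3, cub_sub3, cub_sub3]
  induction L with
  | nil => simp [Bf]
  | cons m L ih =>
    simp only [Bf, List.map_cons, List.sum_cons, evL_idR, hy] at ih ⊢
    rw [ih]
    ring

theorem Bf_rows2 (L : CL) {R : ℕ → List (ℤ × ℕ)} {v y : Fin 27 → F} (hy : ∀ d, xh y d = evL v (R d)) :
    Bf L y v = cub (sub3 L R R idR ++ sub3 L R idR R ++ sub3 L idR R R) v := by
  rw [cub_append, cub_append, cub_sub3, cub_sub3, cub_sub3]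
  induction L with
  | nil => simp [Bf]
  | cons m L ih =>
    simp only [Bf, List.map_cons, List.sum_cons, evL_idR, hy] at ih ⊢
    rw [ih]
    ring

theorem cub_rows (L : CL) {R : ℕ → List (ℤ × ℕ)} {v y : Fin 27 → F} (hy : ∀ d, xh y d = evL v (R d)) :
    cub L y = cub (sub3 L R R R) v := by
  rw [cub_sub3]
  induction L with
  | nil => rfl
  | cons m L ih =>
    simp only [cub, List.map_cons, List.sum_cons, hy] at ih ⊢

theorem cub_inv_of_check {L : CL} {R : ℕ → List (ℤ × ℕ)} (h : invCheck L R) (v y : Fin 27 → F)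
    (hy : ∀ d, xh y d = evL v (R d)) (t : F) : cub L (v + t • y) = cub L v := by
  obtain ⟨h1, h2, h3⟩ := h
  rw [cub_add_smul, Bf_rows1 L hy, Bf_rows2 L hy, cub_rows L hy, cub_eq_zero_of_norm h1, cub_eq_zero_of_norm h2,
    cub_eq_zero_of_norm h3]
  ring

end Cfsg.Agent.Lib.E6Poly
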