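import Mathlib
import Cfsg.Agent.Lib.E6Group

/-!
# Transitivity on singular vectors

Polarisations of the cubic form are invariant (here `|F| ≥ 3` is used), and the image of Steinberg's
group moves the image of `e₀` back to `e₀`.
-/

set_option autoImplicit false
set_option linter.unusedSectionVars false

namespace Cfsg.Agent.Lib.E6Trans

open Cfsg.Lie Cfsg.Agent.Lib.ChevRep Cfsg.Agent.Lib.Chev Cfsg.Agent.Lib.RepE6F Cfsg.Agent.Lib.E6Poly
  Cfsg.Agent.Lib.E6Data Cfsg.Agent.Lib.E6Group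

variable {F : Type*} [Field F]

/-! ### Invariance of the polarisations -/

theorem Bf_inv (hs : ∃ s : F, s ≠ 0 ∧ s ≠ 1) (g : GT F) (x y : Fin 27 → F) :
    Bf triL (g.1 x) (g.1 y) = Bf triL x y := by
  obtain ⟨s, hs0, hs1⟩ := hs
  have key : ∀ t : F, t * Bf triL (g.1 x) (g.1 y) + t ^ 2 * Bf triL (g.1 y) (g.1 x) =
      t * Bf triL x y + t ^ 2 * Bf triL y x := by
    intro t
    have h1 : cub triL (g.1 x + t • g.1 y) = cub triL (x + t • y) := by
      rw [← map_smul, ← map_add]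
      exact g.2 _
    rw [cub_add_smul, cub_add_smul, g.2 x, g.2 y] at h1
    linear_combination h1
  have h1 := key 1
  have h2 := key s
  have h3 : s * (1 - s) * (Bf triL (g.1 x) (g.1 y) - Bf triL x y) = 0 := by
    linear_combination h2 - s ^ 2 * h1
  have h4 : s * (1 - s) ≠ 0 := mul_ne_zero hs0 (sub_ne_zero.2 (Ne.symm hs1))
  exact sub_eq_zero.1 ((mul_eq_zero.1 h3).resolve_left h4)

theorem Ff_inv (hs : ∃ s : F, s ≠ 0 ∧ s ≠ 1) (g : GT F) (x y z : Fin 27 → F) :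
    Ff triL (g.1 x) (g.1 y) (g.1 z) = Ff triL x y z := by
  have h1 := Bf_add_left triL (g.1 x) (g.1 y) (g.1 z)
  rw [← map_add, Bf_inv hs, Bf_inv hs, Bf_inv hs, Bf_add_left] at h1
  linear_combination -h1

/-! ### Singular vectors -/

/-- Vectors with all partial derivatives zero. -/
def Sing (v : Fin 27 → F) : Prop := ∀ y, Bf triL v y = 0

theorem Sing.map (hs : ∃ s : F, s ≠ 0 ∧ s ≠ 1) {v : Fin 27 → F} (hv : Sing v) (g : GT F) : Sing (g.1 v) := by
  intro y
  have h1 := Bf_inv hs g v (g⁻¹.1 y)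
  have h2 : g.1 (g⁻¹.1 y) = y := by
    have := congrArg (fun k : GT F => k.1 y) (mul_inv_cancel g)
    exact this
  rw [h2] at h1
  rw [h1]
  exact hv _

theorem tri_jk : ∀ m ∈ triL, m.2.2.1 ≠ 0 ∧ m.2.2.2 ≠ 0 := by decide +kernel

theorem sing_en0 : Sing (en 0 : Fin 27 → F) := by
  intro y
  unfold Bf
  apply List.sum_eq_zero
  intro a ha
  obtain ⟨m, hm, rfl⟩ := List.mem_map.1 ha
  obtain ⟨h1, h2⟩ := tri_jk m hm
  simp only [xh_en (by norm_num : 0 < 27), h1, h2, if_false]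
  simp

/-! ### The first coordinate -/

theorem um_ok1 : ∀ w, w < 17 → 1 ≤ w → umR w < 72 ∧ rowL (umR w) 0 = [] ∧ rowL (umR w) w = [(umA w, 0)] ∧
    umA w * umA w = 1 := by
  decide +kernel

theorem um_ok2 : ∀ w, w < 17 → 1 ≤ w → ∀ w', w' < 17 → 1 ≤ w' → w' ≠ w → rowL (umR w) w' = [] := by
  decide +kernel

theorem um_ok : ∀ w, w < 17 → 1 ≤ w → umR w < 72 ∧ rowL (umR w) 0 = [] ∧ rowL (umR w) w = [(umA w, 0)] ∧
    umA w * umA w = 1 ∧ ∀ w', w' < 17 → 1 ≤ w' → w' ≠ w → rowL (umR w) w' = [] := by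
  intro w h1 h2
  obtain ⟨a, b, c, d⟩ := um_ok1 w h1 h2
  exact ⟨a, b, c, d, um_ok2 w h1 h2⟩

theorem up_ok : ∀ w, w < 17 → 1 ≤ w → upR w < 72 ∧ rowL (upR w) 0 = [(upA w, w)] ∧ upA w * upA w = 1 := by
  decide +kernel

theorem zb_ok : ∀ c, c < 27 → 17 ≤ c → zbR c < 72 ∧ zbW c < 17 ∧ 1 ≤ zbW c ∧ rowL (zbR c) (zbW c) = [(zbA c, c)] ∧
    zbA c * zbA c = 1 := by
  decide +kernel

theorem int_sq_ne {a : ℤ} (h : a * a = 1) : ((a : ℤ) : F) * ((a : ℤ) : F) = 1 := by
  have := congrArg (fun z : ℤ => (z : F)) h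
  simpa using this

theorem int_ne {a : ℤ} (h : a * a = 1) : ((a : ℤ) : F) ≠ 0 := by
  intro h0
  have := int_sq_ne (F := F) h
  rw [h0, zero_mul] at this
  exact zero_ne_one this

/-- Elements of the image of Steinberg's group. -/
theorem y_mem (r : ℕ) (t : F) : rho F (chevE6.stGen F r t) ∈ (rho F).range := ⟨_, rfl⟩

theorem exists_w_of {v : Fin 27 → F} (h0 : xh v 0 = 0) {w : ℕ} (hw : w < 17) (hw1 : 1 ≤ w) (hvw : xh v w ≠ 0) :
    ∃ h ∈ (rho F).range, xh (h.1 v) 0 ≠ 0 := by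
  obtain ⟨h1, h2, h3⟩ := up_ok w hw hw1
  refine ⟨_, y_mem (upR w) 1, ?_⟩
  rw [xh_rho_y h1 1 v (by norm_num), h2, evL_cons, evL_nil, h0]
  simp only [zero_add, one_mul, add_zero]
  exact mul_ne_zero (int_ne h3) hvw

theorem exists_x0 {v : Fin 27 → F} (hv : v ≠ 0) : ∃ h ∈ (rho F).range, xh (h.1 v) 0 ≠ 0 := by
  by_cases h0 : xh v 0 = 0
  · by_cases hB : ∃ w, w < 17 ∧ 1 ≤ w ∧ xh v w ≠ 0
    · obtain ⟨w, hw, hw1, hvw⟩ := hB
      exact exists_w_of h0 hw hw1 hvw
    · push Not at hB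
      have hZ : ∃ c, c < 27 ∧ 17 ≤ c ∧ xh v c ≠ 0 := by
        by_contra hZ
        push Not at hZ
        apply hv
        apply ext_xh
        intro n hn
        rw [xh_zero]
        by_cases h1 : n = 0
        · rw [h1]; exact h0
        · by_cases h2 : n < 17
          · exact hB n h2 (by omega)
          · exact hZ n hn (by omega)
      obtain ⟨c, hc, hc1, hvc⟩ := hZ
      obtain ⟨h1, h2, h3, h4, h5⟩ := zb_ok c hc hc1
      set x := (rho F (chevE6.stGen F (zbR c) 1)).1 v with hx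
      have hx0 : xh x 0 ≠ 0 ∨ xh x (zbW c) ≠ 0 := by
        by_cases hx00 : xh x 0 = 0
        · right
          rw [hx, xh_rho_y h1 1 v (by omega), h4, evL_cons, evL_nil, hB _ h2 h3]
          simp only [zero_add, one_mul, add_zero]
          exact mul_ne_zero (int_ne h5) hvc
        · exact Or.inl hx00
      by_cases hx00 : xh x 0 = 0
      · obtain ⟨k, hk, hk0⟩ := exists_w_of hx00 h2 h3 (hx0.resolve_left (not_not.2 hx00))
        exact ⟨k * _, mul_mem hk (y_mem (zbR c) 1), hk0⟩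
      · exact ⟨_, y_mem (zbR c) 1, hx00⟩
  · exact ⟨1, one_mem _, h0⟩

theorem evL_nil' (v : Fin 27 → F) : evL v ([] : List (ℤ × ℕ)) = 0 := rfl

/-- Killing the middle coordinates. -/
theorem kill_B {v : Fin 27 → F} (h0 : xh v 0 ≠ 0) (n : ℕ) (hn : n ≤ 16) :
    ∃ h ∈ (rho F).range, xh (h.1 v) 0 = xh v 0 ∧ ∀ w, w < n + 1 → 1 ≤ w → xh (h.1 v) w = 0 := by
  induction n with
  | zero =>
    exact ⟨1, one_mem _, rfl, fun w h1 h2 => by omega⟩
  | succ n ih =>
    obtain ⟨h, hm, h1, h2⟩ := ih (by omega)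
    obtain ⟨u1, u2, u3, u4, u5⟩ := um_ok (n + 1) (by omega) (by omega)
    set x := h.1 v with hx
    have hx0 : xh x 0 ≠ 0 := by rw [h1]; exact h0
    set t : F := -(((umA (n + 1) : ℤ) : F) * xh x (n + 1) / xh x 0) with ht
    refine ⟨_ * h, mul_mem (y_mem (umR (n + 1)) t) hm, ?_, ?_⟩
    · show xh ((rho F (chevE6.stGen F (umR (n + 1)) t)).1 x) 0 = _
      rw [xh_rho_y u1 t x (by norm_num), u2, evL_nil, mul_zero, add_zero, h1]
    · intro w hw hw1
      show xh ((rho F (chevE6.stGen F (umR (n + 1)) t)).1 x) w = _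
      rw [xh_rho_y u1 t x (by omega)]
      by_cases hwn : w = n + 1
      · subst hwn
        rw [u3, evL_cons, evL_nil, ht]
        have := int_sq_ne (F := F) u4
        field_simp
        linear_combination (-xh x (n + 1) * xh x 0) * this
      · rw [u5 w (by omega) hw1 hwn, evL_nil, mul_zero, add_zero]
        exact h2 w (by omega) hw1

/-- The partial derivative at the coordinates `c + 17`. -/
theorem quad_ok1 : ∀ c, c < 27 → 17 ≤ c → ((quadL triL (bar10 (c - 17) + 17)).head? = some (1, 0, c) ∧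
    ((quadL triL (bar10 (c - 17) + 17)).tail).all (fun p => decide (p.2.1 < 17) && decide (1 ≤ p.2.1)) = true) ∧
    bar10 (c - 17) + 17 < 27 := by
  decide +kernel

theorem evQ_zero_of {v : Fin 27 → F} (hB : ∀ w, w < 17 → 1 ≤ w → xh v w = 0) (R : List (ℤ × ℕ × ℕ))
    (h : R.all (fun p => decide (p.2.1 < 17) && decide (1 ≤ p.2.1)) = true) : evQ v R = 0 := by
  induction R with
  | nil => rfl
  | cons p R ih =>
    rw [List.all_cons, Bool.and_eq_true, Bool.and_eq_true, decide_eq_true_eq, decide_eq_true_eq] at h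
    rw [evQ_cons, ih h.2, hB _ h.1.1 h.1.2]
    simp

theorem singular_z {v : Fin 27 → F} (hs : Sing v) (h0 : xh v 0 ≠ 0) (hB : ∀ w, w < 17 → 1 ≤ w → xh v w = 0) :
    ∀ c, c < 27 → 17 ≤ c → xh v c = 0 := by
  intro c h1 h2
  obtain ⟨⟨h3, h4⟩, h5⟩ := quad_ok1 c h1 h2
  have h6 := hs (en (bar10 (c - 17) + 17))
  rw [Bf_en _ _ h5] at h6
  cases hq : quadL triL (bar10 (c - 17) + 17) with
  | nil => rw [hq] at h3; simp at h3
  | cons p R =>
    rw [hq] at h3 h4 h6
    simp only [List.head?_cons, Option.some.injEq] at h3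
    simp only [List.tail_cons] at h4
    rw [evQ_cons, evQ_zero_of hB R h4, h3] at h6
    simp only [Int.cast_one, one_mul, add_zero] at h6
    exact (mul_eq_zero.1 h6).resolve_left h0

/-- The torus root with exponent one at `e₀`. -/
theorem hExp0 : hExp T chevE6 0 0 = 1 := by decide +kernel

theorem rho_hb_mem (r : ℕ) (a : F) : rho F (ChevPres.hb chevE6 F r a) ∈ (rho F).range := ⟨_, rfl⟩

/-- The first step: every isometry can be moved to fix `e₀`. -/
theorem step1 (hs : ∃ s : F, s ≠ 0 ∧ s ≠ 1) (g : GT F) :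
    ∃ h ∈ (rho F).range, (h * g).1 (en 0) = en 0 := by
  set v := g.1 (en 0) with hv
  have hv0 : v ≠ 0 := by
    intro h
    have h1 : (en 0 : Fin 27 → F) = 0 := g.1.map_eq_zero_iff.1 h
    have h2 := congrArg (fun u => xh u 0) h1
    simp only [xh_en (by norm_num : 0 < 27), if_true, xh_zero] at h2
    exact one_ne_zero h2
  have hsv : Sing v := sing_en0.map hs g
  obtain ⟨h₁, hm₁, h₁0⟩ := exists_x0 hv0
  obtain ⟨h₂, hm₂, h₂0, h₂B⟩ := kill_B h₁0 16 le_rfl
  set x := h₂.1 (h₁.1 v) with hx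
  have hsx : Sing x := (hsv.map hs h₁).map hs h₂
  have hx0 : xh x 0 ≠ 0 := by rw [h₂0]; exact h₁0
  have hxZ := singular_z hsx hx0 (fun w a b => h₂B w (by omega) b)
  have hxe : x = xh x 0 • en 0 := by
    apply ext_xh
    intro n hn
    rw [xh_smul, xh_en (by norm_num : 0 < 27)]
    by_cases h1 : n = 0
    · subst h1; simp
    · rw [if_neg h1, mul_zero]
      by_cases h2 : n < 17
      · exact h₂B n (by omega) (by omega)
      · exact hxZ n hn (by omega)
  generalize xh x 0 = c at hxe hx0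
  refine ⟨rho F (ChevPres.hb chevE6 F 0 c⁻¹) * (h₂ * h₁), mul_mem (rho_hb_mem _ _) (mul_mem hm₂ hm₁), ?_⟩
  show (rho F (ChevPres.hb chevE6 F 0 c⁻¹)).1 x = _
  rw [hxe, map_smul, rho_hb (by norm_num) _ (inv_ne_zero hx0) (by norm_num), hExp0, zpow_one, smul_smul,
    mul_inv_cancel₀ hx0, one_smul]

end Cfsg.Agent.Lib.E6Trans
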