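import Mathlib
import Cfsg.Agent.Lib.E6Trans

/-!
# The stabiliser of `e₀` acts on the ten-dimensional orthogonal space
-/

set_option autoImplicit false
set_option linter.unusedSectionVars false

namespace Cfsg.Agent.Lib.E6Stab

open QuadraticMap Cfsg.Lie Cfsg.Agent.Lib.OrthoBasic Cfsg.Agent.Lib.OrthoSiegel Cfsg.Agent.Lib.OrthElim
  Cfsg.Agent.Lib.ChevRep Cfsg.Agent.Lib.Chev Cfsg.Agent.Lib.ChevOmega Cfsg.Agent.Lib.RepE6F
  Cfsg.Agent.Lib.E6Poly Cfsg.Agent.Lib.E6Data Cfsg.Agent.Lib.E6Group Cfsg.Agent.Lib.E6Trans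

variable {F : Type*} [Field F]

/-! ### The ten coordinates -/

variable (F) in
/-- The projection to the last ten coordinates. -/
def zP : (Fin 27 → F) →ₗ[F] (Fin 10 → F) where
  toFun x c := xh x (17 + c)
  map_add' x y := by
    funext c
    simp [xh_add]
  map_smul' a x := by
    funext c
    simp [xh_smul]

theorem zP_apply (x : Fin 27 → F) (c : Fin 10) : zP F x c = xh x (17 + c) := rfl

variable (F) in
/-- The embedding of the last ten coordinates. -/
def iZ : (Fin 10 → F) →ₗ[F] (Fin 27 → F) where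
  toFun u d := if h : 17 ≤ (d : ℕ) then u ⟨d - 17, by have := d.2; omega⟩ else 0
  map_add' x y := by
    funext d
    by_cases h : 17 ≤ (d : ℕ) <;> simp [h]
  map_smul' a x := by
    funext d
    by_cases h : 17 ≤ (d : ℕ) <;> simp [h]

theorem xh_iZ (u : Fin 10 → F) (c : Fin 10) : xh (iZ F u) (17 + c) = u c := by
  have h1 : 17 + (c : ℕ) < 27 := by have := c.2; omega
  unfold xh
  rw [dif_pos h1]
  show (if h : 17 ≤ 17 + (c : ℕ) then u ⟨17 + (c : ℕ) - 17, _⟩ else 0) = u c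
  rw [dif_pos (by omega)]
  congr 1
  apply Fin.ext
  simp

theorem xh_iZ_low (u : Fin 10 → F) {n : ℕ} (hn : n < 17) : xh (iZ F u) n = 0 := by
  unfold xh
  rw [dif_pos (by omega)]
  show (if h : 17 ≤ n then _ else 0) = 0
  rw [dif_neg (by omega)]

theorem zP_iZ (u : Fin 10 → F) : zP F (iZ F u) = u := by
  funext c
  rw [zP_apply, xh_iZ]

theorem iZ_bb (c : Fin 10) : iZ F (bb c) = en (17 + c) := by
  have hc := c.2
  apply ext_xh
  intro n hn
  rw [xh_en (by omega)]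
  by_cases h : n < 17
  · rw [xh_iZ_low _ h, if_neg (by omega)]
  · obtain ⟨d, rfl⟩ : ∃ d : Fin 10, n = 17 + d := ⟨⟨n - 17, by omega⟩, by simp; omega⟩
    rw [xh_iZ]
    simp only [bb, Pi.single_apply, Nat.add_left_cancel_iff, Fin.val_inj]

theorem zP_en (c : Fin 10) : zP F (en (17 + c)) = (bb c : Fin 10 → F) := by
  rw [← iZ_bb, zP_iZ]

/-! ### The quadratic form -/

variable (F) in
/-- The form `Σ x_i x_{i+5}` on `F¹⁰`. -/
noncomputable def qE : QuadraticForm F (Fin 10 → F) :=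
  linMulLin (LinearMap.proj 0) (LinearMap.proj 5) + linMulLin (LinearMap.proj 1) (LinearMap.proj 6)
    + linMulLin (LinearMap.proj 2) (LinearMap.proj 7) + linMulLin (LinearMap.proj 3) (LinearMap.proj 8)
    + linMulLin (LinearMap.proj 4) (LinearMap.proj 9)

theorem qE_apply (x : Fin 10 → F) :
    qE F x = x 0 * x 5 + x 1 * x 6 + x 2 * x 7 + x 3 * x 8 + x 4 * x 9 := by
  simp [qE]

theorem polar_qE (x y : Fin 10 → F) :
    polar (qE F) x y = x 0 * y 5 + x 5 * y 0 + x 1 * y 6 + x 6 * y 1 + x 2 * y 7 + x 7 * y 2 + x 3 * y 8 + x 8 * y 3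
      + x 4 * y 9 + x 9 * y 4 := by
  simp only [polar, qE_apply, Pi.add_apply]
  ring

variable (F) in
/-- The coordinates of the form. -/
noncomputable def cE : CoordForm 10 F bar10 99 where
  Q := qE F
  bar_lt := by
    intro c hc
    unfold bar10
    split_ifs <;> omega
  bar_bar := by
    intro c hc
    unfold bar10
    split_ifs <;> omega
  bar_an := by decide
  pol := by
    intro c x
    rw [polar_qE]
    fin_cases c <;> simp [bb, bar10]
  Qb := by
    intro c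
    rw [qE_apply]
    fin_cases c <;> simp [bb]

theorem cE_Q : (cE F).Q = qE F := rfl

theorem quad0 : quadL triL 0 = [(1, 17, 22), (1, 18, 23), (1, 19, 24), (1, 20, 25), (1, 21, 26)] := by
  decide +kernel

theorem Bf_en0 (x : Fin 27 → F) : Bf triL x (en 0) = qE F (zP F x) := by
  rw [Bf_en _ _ (by norm_num), quad0, qE_apply]
  simp only [evQ, zP_apply, List.map_cons, List.map_nil, List.sum_cons, List.sum_nil]
  norm_num
  ring

/-! ### The stabiliser -/

variable (F) in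
/-- The stabiliser of `e₀`. -/
def Stab0 : Subgroup (GT F) where
  carrier := {g | g.1 (en 0) = en 0}
  mul_mem' {g h} hg hh := by
    show g.1 (h.1 (en 0)) = en 0
    rw [show h.1 (en 0) = en 0 from hh, show g.1 (en 0) = en 0 from hg]
  one_mem' := rfl
  inv_mem' {g} hg := by
    have h1 : g⁻¹.1 (g.1 (en 0)) = en 0 := congrArg (fun k : GT F => k.1 (en 0)) (inv_mul_cancel g)
    rw [show g.1 (en 0) = en 0 from hg] at h1
    exact h1

section Stab

variable (hs : ∃ s : F, s ≠ 0 ∧ s ≠ 1)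
include hs

theorem q_inv (g : Stab0 F) (x : Fin 27 → F) : qE F (zP F (g.1.1 x)) = qE F (zP F x) := by
  rw [← Bf_en0, ← Bf_en0]
  have h := Bf_inv hs g.1 x (en 0)
  rw [show g.1.1 (en 0) = en 0 from g.2] at h
  exact h

theorem polar_inv (g : Stab0 F) (x y : Fin 27 → F) :
    polar (qE F) (zP F (g.1.1 x)) (zP F (g.1.1 y)) = polar (qE F) (zP F x) (zP F y) := by
  simp only [polar, ← map_add, q_inv hs]

omit hs in
theorem GT_apply_inv (g : GT F) (x : Fin 27 → F) : g.1 (g⁻¹.1 x) = x :=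
  congrArg (fun k : GT F => k.1 x) (mul_inv_cancel g)

omit hs in
theorem GT_inv_apply (g : GT F) (x : Fin 27 → F) : g⁻¹.1 (g.1 x) = x :=
  congrArg (fun k : GT F => k.1 x) (inv_mul_cancel g)

omit hs in
theorem polar_bar_E (x : Fin 10 → F) (c : Fin 10) :
    polar (qE F) x (bb (barF (cE F) c)) = x c := polar_bar (cE F) (by have := c.2; omega) x

/-- The kernel of `zP` is preserved. -/
theorem zP_map_zero (g : Stab0 F) {x : Fin 27 → F} (hx : zP F x = 0) : zP F (g.1.1 x) = 0 := by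
  funext c
  have h1 := polar_inv hs g x ((g⁻¹ : Stab0 F).1.1 (iZ F (bb (barF (cE F) c))))
  have h2 : g.1.1 ((g⁻¹ : Stab0 F).1.1 (iZ F (bb (barF (cE F) c)))) = iZ F (bb (barF (cE F) c)) :=
    GT_apply_inv g.1 _
  rw [h2, zP_iZ, polar_bar_E, hx] at h1
  rw [h1]
  simp [polar]

/-- The induced map on the ten coordinates. -/
noncomputable def zbar (g : Stab0 F) : (Fin 10 → F) →ₗ[F] (Fin 10 → F) :=
  (zP F).comp ((g.1.1 : (Fin 27 → F) →ₗ[F] (Fin 27 → F)).comp (iZ F))

omit hs in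
theorem zbar_apply (g : Stab0 F) (u : Fin 10 → F) : zbar g u = zP F (g.1.1 (iZ F u)) := rfl

theorem zP_g (g : Stab0 F) (x : Fin 27 → F) : zP F (g.1.1 x) = zbar g (zP F x) := by
  have h1 : zP F (x - iZ F (zP F x)) = 0 := by
    rw [map_sub, zP_iZ, sub_self]
  have h2 := zP_map_zero hs g h1
  rw [map_sub, map_sub, sub_eq_zero] at h2
  exact h2

theorem zbar_mul (g h : Stab0 F) (u : Fin 10 → F) : zbar (g * h) u = zbar g (zbar h u) := by
  rw [zbar_apply, zbar_apply h, ← zP_g hs]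
  rfl

omit hs in
theorem zbar_one (u : Fin 10 → F) : zbar (1 : Stab0 F) u = u := by
  rw [zbar_apply]
  exact zP_iZ u

/-- The homomorphism to the orthogonal group. -/
noncomputable def piE : Stab0 F →* OG (cE F).Q :=
  MonoidHom.mk' (fun g => ⟨LinearEquiv.ofLinearMap (zbar g) (zbar g⁻¹)
      (by
        ext1 c
        apply LinearMap.ext
        intro a
        simp only [LinearMap.comp_apply, LinearMap.id_apply]
        rw [← zbar_mul hs, mul_inv_cancel, zbar_one])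
      (by
        ext1 c
        apply LinearMap.ext
        intro a
        simp only [LinearMap.comp_apply, LinearMap.id_apply]
        rw [← zbar_mul hs, inv_mul_cancel, zbar_one]),
      fun u => by
        show qE F (zP F (g.1.1 (iZ F u))) = qE F u
        rw [q_inv hs, zP_iZ]⟩)
    (fun g h => by
      apply Subtype.ext
      apply LinearEquiv.ext
      intro u
      exact zbar_mul hs g h u)

theorem piE_apply (g : Stab0 F) (u : Fin 10 → F) :
    ((piE hs g : OG (cE F).Q) : (Fin 10 → F) ≃ₗ[F] (Fin 10 → F)) u = zP F (g.1.1 (iZ F u)) := rfl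

theorem piE_en (g : Stab0 F) (c : Fin 10) :
    ((piE hs g : OG (cE F).Q) : (Fin 10 → F) ≃ₗ[F] (Fin 10 → F)) (bb c) = zP F (g.1.1 (en (17 + c))) := by
  rw [piE_apply, iZ_bb]

/-! ### The image of the root elements -/

/-- The image in the orthogonal group of the part of the image of Steinberg's group fixing `e₀`. -/
noncomputable def Epi : Subgroup (OG (cE F).Q) :=
  ((rho F).range.subgroupOf (Stab0 F)).map (piE hs)

omit hs in
theorem col0_ok : ∀ e ∈ d5L, ∀ d, d < 27 → (rowL e.1 d).all (fun p => !Nat.beq p.2 0) = true := by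
  decide +kernel

omit hs in
theorem d5_ok : ∀ e ∈ d5L, e.1 < 72 ∧ e.2.1 < 10 ∧ e.2.2.1 < 10 ∧ e.2.2.1 ≠ e.2.1 ∧ e.2.2.1 ≠ bar10 e.2.1 ∧
    e.2.2.2 * e.2.2.2 = 1 := by
  decide +kernel

omit hs in
theorem d5_rows : ∀ e ∈ d5L, ∀ c, c < 10 → rowL e.1 (17 + c) =
    if c = e.2.1 then [(-e.2.2.2, 17 + bar10 e.2.2.1)] else if c = e.2.2.1 then [(e.2.2.2, 17 + bar10 e.2.1)] else [] := by
  decide +kernel

omit hs in
theorem d5_cover : ∀ p q : Fin 10, (q : ℕ) ≠ p → (q : ℕ) ≠ bar10 p →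
    ∃ e ∈ d5L, (e.2.1 = p ∧ e.2.2.1 = q) ∨ (e.2.1 = q ∧ e.2.2.1 = p) := by
  decide +kernel

omit hs in
theorem evL_en0 {L : List (ℤ × ℕ)} (h : L.all (fun p => !Nat.beq p.2 0) = true) : evL (en 0 : Fin 27 → F) L = 0 := by
  induction L with
  | nil => rfl
  | cons p L ih =>
    rw [List.all_cons, Bool.and_eq_true] at h
    rw [evL_cons, ih h.2, xh_en (by norm_num)]
    have : p.2 ≠ 0 := by
      intro h0
      have h1 := h.1
      rw [h0] at h1
      exact absurd h1 (by decide)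
    simp [this]

omit hs in
/-- Root elements of `D₅` type fix `e₀`. -/
theorem y_fix {e : ℕ × ℕ × ℕ × ℤ} (he : e ∈ d5L) (t : F) :
    rho F (chevE6.stGen F e.1 t) ∈ Stab0 F := by
  show (rho F (chevE6.stGen F e.1 t)).1 (en 0) = en 0
  obtain ⟨h1, -⟩ := d5_ok e he
  apply ext_xh
  intro n hn
  rw [xh_rho_y h1 t _ hn, evL_en0 (col0_ok e he n hn), mul_zero, add_zero]

theorem piE_y_siegel {e : ℕ × ℕ × ℕ × ℤ} (he : e ∈ d5L) (t : F) (hm : rho F (chevE6.stGen F e.1 t) ∈ Stab0 F) :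
    IsSiegel (piE hs ⟨_, hm⟩) (bb (⟨e.2.1, (d5_ok e he).2.1⟩ : Fin 10))
      ((((e.2.2.2 : ℤ) : F) * t) • bb (⟨e.2.2.1, (d5_ok e he).2.2.1⟩ : Fin 10)) := by
  obtain ⟨h1, h2, h3, h4, h5, h6⟩ := d5_ok e he
  obtain ⟨r, p, q, σ⟩ := e
  simp only at h1 h2 h3 h4 h5 h6 ⊢
  set pF : Fin 10 := ⟨p, h2⟩ with hpF
  set qF : Fin 10 := ⟨q, h3⟩ with hqF
  refine ⟨?_, ?_, ?_⟩
  · exact Q_hyp (T := ⟨0, 0, 10, .nil, .nil⟩) (cE F) (p := pF) (by have := pF.2; show (pF : ℕ) ≠ 99; omega)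
  · exact polar_p_q (T := ⟨0, 0, 10, .nil, .nil⟩) (cE F) (p := pF) (q := qF) h5 _
  · intro u
    have hp99 : (pF : ℕ) ≠ 99 := by have := pF.2; omega
    have hq99 : (qF : ℕ) ≠ 99 := by have := qF.2; omega
    have hQ : (cE F).Q (bb qF) = 0 := Q_hyp (T := ⟨0, 0, 10, .nil, .nil⟩) (cE F) (p := qF) hq99
    have hpq : pF ≠ qF := fun e => h4 (congrArg Fin.val e).symm
    rw [piE_apply, siegelLin_apply, polar_smul_r, polar_hyp (cE F) hp99, polar_hyp (cE F) hq99, Q_smul, hQ]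
    funext c
    simp only [Pi.add_apply, Pi.sub_apply, Pi.smul_apply, smul_eq_mul]
    have hc17 : 17 + (c : ℕ) < 27 := by have := c.2; omega
    show xh ((rho F (chevE6.stGen F r t)).1 (iZ F u)) (17 + c) = _
    rw [xh_rho_y h1 t _ hc17, xh_iZ, d5_rows (r, p, q, σ) he c c.2]
    simp only
    have e1 : xh (iZ F u) (17 + bar10 q) = u (barF (cE F) qF) := xh_iZ u (barF (cE F) qF)
    have e2 : xh (iZ F u) (17 + bar10 p) = u (barF (cE F) pF) := xh_iZ u (barF (cE F) pF)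
    by_cases hcp : (c : ℕ) = p
    · have hc : c = pF := Fin.ext hcp
      have hcq : c ≠ qF := by rw [hc]; exact hpq
      rw [if_pos hcp, evL_cons, evL_nil, e1]
      simp only [bb, Pi.single_apply, hc, hpq, if_true, if_false]
      push_cast
      ring
    · by_cases hcq : (c : ℕ) = q
      · have hc : c = qF := Fin.ext hcq
        have hcp' : c ≠ pF := fun e => hcp (congrArg Fin.val e)
        rw [if_neg hcp, if_pos hcq, evL_cons, evL_nil, e2]
        simp only [bb, Pi.single_apply, hc, hpq.symm, if_true, if_false]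
        ring
      · have h1' : c ≠ pF := fun e => hcp (congrArg Fin.val e)
        have h2' : c ≠ qF := fun e => hcq (congrArg Fin.val e)
        rw [if_neg hcp, if_neg hcq, evL_nil]
        simp only [bb, Pi.single_apply, h1', h2', if_false]
        ring

omit hs in
/-- Swapping the two isotropic vectors of a Siegel map. -/
theorem siegel_swap' {n : ℕ} {Q : QuadraticForm F (Fin n → F)} {e y : Fin n → F} (he : Q e = 0) (hy : Q y = 0)
    (t : F) (x : Fin n → F) :
    siegelLin Q e (t • y) x = siegelLin Q y ((-t) • e) x := by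
  simp only [siegelLin_apply, polar_smul_r, Q_smul, he, hy]
  module

omit hs in
/-- From the elementary Siegel maps to all Siegel maps with the same centre. -/
theorem hs_of_pieces {n : ℕ} {bar : ℕ → ℕ} {an : ℕ} (C : CoordForm n F bar an) (E : Subgroup (OG C.Q))
    (p : Fin n) (hp : (p : ℕ) ≠ an)
    (hel : ∀ (q : Fin n), q ≠ p → (q : ℕ) ≠ bar p → ∀ t : F, ∃ h ∈ E, IsSiegel h (bb p) (t • bb q)) :
    HS E (bb p) := by
  have Qp : C.Q (bb p) = 0 := by rw [C.Qb, if_neg hp]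
  -- sums of pieces
  have hsum : ∀ (y : Fin n → F) (S : Finset (Fin n)), (∀ c ∈ S, c ≠ p ∧ (c : ℕ) ≠ bar p) →
      ∃ h ∈ E, IsSiegel h (bb p) (∑ c ∈ S, y c • bb c) := by
    intro y S
    induction S using Finset.induction_on with
    | empty =>
      intro _
      refine ⟨1, one_mem _, Qp, by simp, ?_⟩
      intro x
      simp [siegelLin_zero]
    | insert c S hc ih =>
      intro hS
      obtain ⟨h₁, hm₁, hs₁⟩ := ih fun d hd => hS d (Finset.mem_insert_of_mem hd)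
      obtain ⟨h₂, hm₂, hs₂⟩ := hel c (hS c (Finset.mem_insert_self _ _)).1 (hS c (Finset.mem_insert_self _ _)).2 (y c)
      rw [Finset.sum_insert hc]
      exact ⟨h₂ * h₁, mul_mem hm₂ hm₁, hs₂.mul hs₁⟩
  intro y hy
  classical
  set bp : Fin n := ⟨bar p, C.bar_lt _ p.2⟩ with hbp
  have hy0 : y bp = 0 := by
    have h1 : polar C.Q y (bb p) = 0 := by rw [polar_comm]; exact hy
    rw [C.pol, if_neg hp, one_mul] at h1
    exact h1
  have hdec : y = (∑ c ∈ (Finset.univ.erase p).erase bp, y c • bb c) + y p • bb p := by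
    funext i
    simp only [Pi.add_apply, Finset.sum_apply, Pi.smul_apply, smul_eq_mul, bb, Pi.single_apply]
    by_cases hi : i = p
    · subst hi
      rw [Finset.sum_eq_zero]
      · simp
      · intro c hc
        have : i ≠ c := by
          intro e
          subst e
          simp at hc
        simp [this]
    · by_cases hi2 : i = bp
      · rw [Finset.sum_eq_zero]
        · subst hi2
          simp [hi, hy0]
        · intro c hc
          have : i ≠ c := by
            intro e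
            subst e
            simp [hi2] at hc
          simp [this]
      · rw [Finset.sum_eq_single i]
        · simp [hi]
        · intro c _ hc
          simp [Ne.symm hc]
        · intro hn
          simp [hi, hi2] at hn
  obtain ⟨h, hm, hs⟩ := hsum y ((Finset.univ.erase p).erase bp) (by
    intro c hc
    simp only [Finset.mem_erase, Finset.mem_univ, and_true] at hc
    exact ⟨hc.2, fun e => hc.1 (Fin.ext e)⟩)
  refine ⟨h, hm, hs.1, hy, ?_⟩
  intro x
  have e : siegelLin C.Q (bb p) y x =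
      siegelLin C.Q (bb p) ((∑ c ∈ (Finset.univ.erase p).erase bp, y c • bb c) + y p • bb p) x := by
    rw [← hdec]
  rw [e, siegelLin_add_smul hs.1 hs.2.1, hs.2.2]

theorem hel_E (p q : Fin 10) (h1 : q ≠ p) (h2 : (q : ℕ) ≠ bar10 p) (t : F) :
    ∃ h ∈ Epi hs, IsSiegel h (bb p) (t • bb q) := by
  obtain ⟨e, he, hc⟩ := d5_cover p q (fun e => h1 (Fin.ext e)) h2
  obtain ⟨a1, a2, a3, a4, a5, a6⟩ := d5_ok e he
  have hσ : ((e.2.2.2 : ℤ) : F) * ((e.2.2.2 : ℤ) : F) = 1 := int_sq_ne a6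
  rcases hc with ⟨c1, c2⟩ | ⟨c1, c2⟩
  · have hm := y_fix (F := F) he (((e.2.2.2 : ℤ) : F) * t)
    refine ⟨piE hs ⟨_, hm⟩, ⟨⟨_, hm⟩, ⟨_, rfl⟩, rfl⟩, ?_⟩
    have h3 := piE_y_siegel hs he (((e.2.2.2 : ℤ) : F) * t) hm
    have e1 : (⟨e.2.1, (d5_ok e he).2.1⟩ : Fin 10) = p := Fin.ext c1
    have e2 : (⟨e.2.2.1, (d5_ok e he).2.2.1⟩ : Fin 10) = q := Fin.ext c2
    rw [e1, e2, ← mul_assoc, hσ, one_mul] at h3
    exact h3
  · have hm := y_fix (F := F) he (-((e.2.2.2 : ℤ) : F) * t)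
    refine ⟨piE hs ⟨_, hm⟩, ⟨⟨_, hm⟩, ⟨_, rfl⟩, rfl⟩, ?_⟩
    have h3 := piE_y_siegel hs he (-((e.2.2.2 : ℤ) : F) * t) hm
    have e1 : (⟨e.2.1, (d5_ok e he).2.1⟩ : Fin 10) = q := Fin.ext c1
    have e2 : (⟨e.2.2.1, (d5_ok e he).2.2.1⟩ : Fin 10) = p := Fin.ext c2
    rw [e1, e2] at h3
    have e3 : ((e.2.2.2 : ℤ) : F) * (-((e.2.2.2 : ℤ) : F) * t) = -t := by
      linear_combination (-t) * hσ
    rw [e3] at h3
    have Qp : (cE F).Q (bb p) = 0 := Q_hyp (T := ⟨0, 0, 10, .nil, .nil⟩) (cE F) (p := p) (by have := p.2; show (p : ℕ) ≠ 99; omega)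
    refine ⟨Qp, polar_p_q (T := ⟨0, 0, 10, .nil, .nil⟩) (cE F) (p := p) (q := q) h2 t, ?_⟩
    intro x
    rw [h3.2.2, siegel_swap' h3.1 Qp, neg_neg]

theorem hS_E (p : Fin 10) : HS (Epi hs) (bb p) :=
  hs_of_pieces (cE F) _ p (by have := p.2; show (p : ℕ) ≠ 99; omega) (fun q h1 h2 t => hel_E hs p q h1 h2 t)

omit hs in
/-- The torus elements fixing `e₀`. -/
theorem tor_fix {r : ℕ} (hr : r < 72) (h0 : hExp T chevE6 r 0 = 0) (a : F) (ha : a ≠ 0) :
    rho F (ChevPres.hb chevE6 F r a) ∈ Stab0 F := by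
  show (rho F (ChevPres.hb chevE6 F r a)).1 (en 0) = en 0
  rw [rho_hb hr a ha (by norm_num), h0, zpow_zero, one_smul]

theorem tor_E {r : ℕ} (hr : r < 72) (h0 : hExp T chevE6 r 0 = 0) (a : F) (ha : a ≠ 0) :
    ∃ h ∈ Epi hs, ∀ c : Fin 10, (h : (Fin 10 → F) ≃ₗ[F] (Fin 10 → F)) (bb c) =
      (a ^ hExp T chevE6 r (17 + c)) • bb c := by
  have hm := tor_fix hr h0 a ha
  refine ⟨piE hs ⟨_, hm⟩, ⟨⟨_, hm⟩, ⟨_, rfl⟩, rfl⟩, ?_⟩
  intro c
  have hc : 17 + (c : ℕ) < 27 := by have := c.2; omega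
  rw [piE_en]
  show zP F ((rho F (ChevPres.hb chevE6 F r a)).1 (en (17 + c))) = _
  rw [rho_hb hr a ha hc, map_smul, zP_en]

/-! ### The elimination -/

omit hs in
theorem hExp4 : hExp T chevE6 4 0 = 0 ∧
    ∀ c, c < 10 → hExp T chevE6 4 (17 + c) = ([1, 1, 0, 0, 0, -1, -1, 0, 0, 0] : List ℤ).getD c 0 := by
  decide +kernel
omit hs in
theorem hExp18 : hExp T chevE6 18 0 = 0 ∧
    ∀ c, c < 10 → hExp T chevE6 18 (17 + c) = ([0, 1, 1, 0, 0, 0, -1, -1, 0, 0] : List ℤ).getD c 0 := by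
  decide +kernel
omit hs in
theorem hExp23 : hExp T chevE6 23 0 = 0 ∧
    ∀ c, c < 10 → hExp T chevE6 23 (17 + c) = ([0, 0, 1, 1, 0, 0, 0, -1, -1, 0] : List ℤ).getD c 0 := by
  decide +kernel
omit hs in
theorem hExp25 : hExp T chevE6 25 0 = 0 ∧
    ∀ c, c < 10 → hExp T chevE6 25 (17 + c) = ([0, 0, 0, 1, 1, 0, 0, 0, -1, -1] : List ℤ).getD c 0 := by
  decide +kernel

/-- The partner as a map of `Fin 10`. -/
def barN (c : Fin 10) : Fin 10 := ⟨bar10 c, by
  have := c.2
  unfold bar10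
  split_ifs <;> omega⟩

omit hs in
theorem barF_eqE (d : Fin 10) : barF (cE F) d = barN d := rfl

omit hs in
theorem hsingE (w : Fin 10 → F) (_ : (cE F).Q w = 0) (hw : w ≠ 0) : ∃ c : Fin 10, (c : ℕ) ≠ 99 ∧ w c ≠ 0 := by
  obtain ⟨c, hc⟩ := Function.ne_iff.1 hw
  exact ⟨c, by have := c.2; omega, hc⟩

/-- The eight fixed coordinates. -/
def S8 : Set (Fin 10) := {0, 5, 1, 6, 2, 7, 3, 8}

/-- The elimination: four levels. -/
theorem elimE (g : OG (cE F).Q) : ∃ h ∈ Epi hs, ∀ d ∈ S8,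
    ((h * g : OG (cE F).Q) : (Fin 10 → F) ≃ₗ[F] (Fin 10 → F)) (bb d) = bb d := by
  have hS := fun (p : Fin 10) (_ : (p : ℕ) ≠ 99) => hS_E hs p
  obtain ⟨h₀, hE₀, -, h₀a, h₀b⟩ := level_full (cE F) hS hsingE (E₀ := Epi hs) ∅ (by simp) 0 (by decide) (by simp)
    (hu_pair (cE F) ∅ 0 1 (by decide) (by decide) (by simp) (by simp) (by decide) (by rw [barF_eqE]; decide))
    (fun a ha => by
      obtain ⟨h, hm, hh⟩ := tor_E hs (r := 4) (by norm_num) hExp4.1 a ha
      refine ⟨h, hm, by simp, ?_⟩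
      rw [hh, hExp4.2 _ (by decide)]
      simp) g (by simp)
  set g₁ := h₀ * g with hg₁
  obtain ⟨h₁, hE₁, h₁s, h₁a, h₁b⟩ := level_full (cE F) hS hsingE (E₀ := Epi hs) ({0, 5} : Set (Fin 10))
    (by
      intro d hd
      simp only [Set.mem_insert_iff, Set.mem_singleton_iff, barF_eqE] at hd ⊢
      rcases hd with rfl | rfl <;> decide) 1 (by decide) (by simp)
    (hu_pair (cE F) _ 1 2 (by decide) (by decide) (by simp)
      (by simp only [Set.mem_insert_iff, Set.mem_singleton_iff, barF_eqE]; decide) (by decide) (by rw [barF_eqE]; decide))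
    (fun a ha => by
      obtain ⟨h, hm, hh⟩ := tor_E hs (r := 18) (by norm_num) hExp18.1 a ha
      refine ⟨h, hm, ?_, ?_⟩
      · intro d hd
        simp only [Set.mem_insert_iff, Set.mem_singleton_iff] at hd
        rw [hh, hExp18.2 _ d.2]
        rcases hd with rfl | rfl <;> simp
      · rw [hh, hExp18.2 _ (by decide)]
        simp) g₁ (by
      intro d hd
      simp only [Set.mem_insert_iff, Set.mem_singleton_iff] at hd
      rcases hd with rfl | rfl
      · exact h₀a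
      · exact h₀b)
  set g₂ := h₁ * g₁ with hg₂
  obtain ⟨h₂, hE₂, h₂s, h₂a, h₂b⟩ := level_full (cE F) hS hsingE (E₀ := Epi hs) ({0, 5, 1, 6} : Set (Fin 10))
    (by
      intro d hd
      simp only [Set.mem_insert_iff, Set.mem_singleton_iff, barF_eqE] at hd ⊢
      rcases hd with rfl | rfl | rfl | rfl <;> decide) 2 (by decide) (by simp)
    (hu_pair (cE F) _ 2 3 (by decide) (by decide) (by simp)
      (by simp only [Set.mem_insert_iff, Set.mem_singleton_iff, barF_eqE]; decide) (by decide) (by rw [barF_eqE]; decide))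
    (fun a ha => by
      obtain ⟨h, hm, hh⟩ := tor_E hs (r := 23) (by norm_num) hExp23.1 a ha
      refine ⟨h, hm, ?_, ?_⟩
      · intro d hd
        simp only [Set.mem_insert_iff, Set.mem_singleton_iff] at hd
        rw [hh, hExp23.2 _ d.2]
        rcases hd with rfl | rfl | rfl | rfl <;> simp
      · rw [hh, hExp23.2 _ (by decide)]
        simp) g₂ (by
      intro d hd
      simp only [Set.mem_insert_iff, Set.mem_singleton_iff] at hd
      rcases hd with rfl | rfl | rfl | rfl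
      · exact h₁s _ (by simp)
      · exact h₁s _ (by simp)
      · exact h₁a
      · exact h₁b)
  set g₃ := h₂ * g₂ with hg₃
  obtain ⟨h₃, hE₃, h₃s, h₃a, h₃b⟩ := level_full (cE F) hS hsingE (E₀ := Epi hs) ({0, 5, 1, 6, 2, 7} : Set (Fin 10))
    (by
      intro d hd
      simp only [Set.mem_insert_iff, Set.mem_singleton_iff, barF_eqE] at hd ⊢
      rcases hd with rfl | rfl | rfl | rfl | rfl | rfl <;> decide) 3 (by decide) (by simp)
    (hu_pair (cE F) _ 3 4 (by decide) (by decide) (by simp)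
      (by simp only [Set.mem_insert_iff, Set.mem_singleton_iff, barF_eqE]; decide) (by decide) (by rw [barF_eqE]; decide))
    (fun a ha => by
      obtain ⟨h, hm, hh⟩ := tor_E hs (r := 25) (by norm_num) hExp25.1 a ha
      refine ⟨h, hm, ?_, ?_⟩
      · intro d hd
        simp only [Set.mem_insert_iff, Set.mem_singleton_iff] at hd
        rw [hh, hExp25.2 _ d.2]
        rcases hd with rfl | rfl | rfl | rfl | rfl | rfl <;> simp
      · rw [hh, hExp25.2 _ (by decide)]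
        simp) g₃ (by
      intro d hd
      simp only [Set.mem_insert_iff, Set.mem_singleton_iff] at hd
      rcases hd with rfl | rfl | rfl | rfl | rfl | rfl
      · exact h₂s _ (by simp)
      · exact h₂s _ (by simp)
      · exact h₂s _ (by simp)
      · exact h₂s _ (by simp)
      · exact h₂a
      · exact h₂b)
  refine ⟨h₃ * (h₂ * (h₁ * h₀)), mul_mem hE₃ (mul_mem hE₂ (mul_mem hE₁ hE₀)), ?_⟩
  have e : h₃ * (h₂ * (h₁ * h₀)) * g = h₃ * g₃ := by simp only [hg₃, hg₂, hg₁, mul_assoc]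
  intro d hd
  rw [e]
  simp only [S8, Set.mem_insert_iff, Set.mem_singleton_iff] at hd
  rcases hd with rfl | rfl | rfl | rfl | rfl | rfl | rfl | rfl
  · exact h₃s _ (by simp)
  · exact h₃s _ (by simp)
  · exact h₃s _ (by simp)
  · exact h₃s _ (by simp)
  · exact h₃s _ (by simp)
  · exact h₃s _ (by simp)
  · exact h₃a
  · exact h₃b

end Stab

/-! ### The last plane -/

/-- An isometry fixing four hyperbolic planes acts on the last one monomially. -/
theorem last_plane (g : OG (cE F).Q)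
    (hg : ∀ d ∈ S8, (g : (Fin 10 → F) ≃ₗ[F] (Fin 10 → F)) (bb d) = bb d) :
    ∃ (c : F), c ≠ 0 ∧
      (((g : (Fin 10 → F) ≃ₗ[F] (Fin 10 → F)) (bb 4) = c • bb 4 ∧ (g : (Fin 10 → F) ≃ₗ[F] (Fin 10 → F)) (bb 9) = c⁻¹ • bb 9) ∨
       ((g : (Fin 10 → F) ≃ₗ[F] (Fin 10 → F)) (bb 4) = c • bb 9 ∧ (g : (Fin 10 → F) ≃ₗ[F] (Fin 10 → F)) (bb 9) = c⁻¹ • bb 4)) := by
  set v := (g : (Fin 10 → F) ≃ₗ[F] (Fin 10 → F)) (bb 4) with hv
  set w := (g : (Fin 10 → F) ≃ₗ[F] (Fin 10 → F)) (bb 9) with hw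
  have key : ∀ j : Fin 10, ∀ d ∈ S8, polar (qE F) (bb d) (bb j) = 0 →
      (g : (Fin 10 → F) ≃ₗ[F] (Fin 10 → F)) (bb j) (barF (cE F) d) = 0 := by
    intro j d hd h0
    have h1 := OG_polar (cE F).Q g (bb d) (bb j)
    rw [hg d hd] at h1
    have h2 := polar_hyp (cE F) (c := d) (by have := d.2; omega) ((g : (Fin 10 → F) ≃ₗ[F] (Fin 10 → F)) (bb j))
    rw [polar_comm (cE F).Q] at h2
    rw [h2] at h1
    rw [h1]
    exact h0
  have hS8 : ∀ d : Fin 10, (d = 0 ∨ d = 5 ∨ d = 1 ∨ d = 6 ∨ d = 2 ∨ d = 7 ∨ d = 3 ∨ d = 8) → d ∈ S8 := by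
    intro d hd
    simpa [S8] using hd
  have hv0 : v 5 = 0 := key 4 0 (hS8 _ (by simp)) (by simp [polar_qE, bb])
  have hv5 : v 0 = 0 := key 4 5 (hS8 _ (by simp)) (by simp [polar_qE, bb])
  have hv1 : v 6 = 0 := key 4 1 (hS8 _ (by simp)) (by simp [polar_qE, bb])
  have hv6 : v 1 = 0 := key 4 6 (hS8 _ (by simp)) (by simp [polar_qE, bb])
  have hv2 : v 7 = 0 := key 4 2 (hS8 _ (by simp)) (by simp [polar_qE, bb])
  have hv7 : v 2 = 0 := key 4 7 (hS8 _ (by simp)) (by simp [polar_qE, bb])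
  have hv3 : v 8 = 0 := key 4 3 (hS8 _ (by simp)) (by simp [polar_qE, bb])
  have hv8 : v 3 = 0 := key 4 8 (hS8 _ (by simp)) (by simp [polar_qE, bb])
  have hw0 : w 5 = 0 := key 9 0 (hS8 _ (by simp)) (by simp [polar_qE, bb])
  have hw5 : w 0 = 0 := key 9 5 (hS8 _ (by simp)) (by simp [polar_qE, bb])
  have hw1 : w 6 = 0 := key 9 1 (hS8 _ (by simp)) (by simp [polar_qE, bb])
  have hw6 : w 1 = 0 := key 9 6 (hS8 _ (by simp)) (by simp [polar_qE, bb])
  have hw2 : w 7 = 0 := key 9 2 (hS8 _ (by simp)) (by simp [polar_qE, bb])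
  have hw7 : w 2 = 0 := key 9 7 (hS8 _ (by simp)) (by simp [polar_qE, bb])
  have hw3 : w 8 = 0 := key 9 3 (hS8 _ (by simp)) (by simp [polar_qE, bb])
  have hw8 : w 3 = 0 := key 9 8 (hS8 _ (by simp)) (by simp [polar_qE, bb])
  have hQv : v 4 * v 9 = 0 := by
    have h1 := OG_apply (cE F).Q g (bb 4)
    change qE F v = qE F (bb 4) at h1
    rw [qE_apply, qE_apply] at h1
    simpa [hv0, hv5, hv1, hv6, hv2, hv7, hv3, hv8, bb] using h1
  have hQw : w 4 * w 9 = 0 := by
    have h1 := OG_apply (cE F).Q g (bb 9)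
    change qE F w = qE F (bb 9) at h1
    rw [qE_apply, qE_apply] at h1
    simpa [hw0, hw5, hw1, hw6, hw2, hw7, hw3, hw8, bb] using h1
  have hB : v 4 * w 9 + v 9 * w 4 = 1 := by
    have h1 := OG_polar (cE F).Q g (bb 4) (bb 9)
    change polar (qE F) v w = polar (qE F) (bb 4) (bb 9) at h1
    rw [polar_qE, polar_qE] at h1
    simpa [hv0, hv5, hv1, hv6, hv2, hv7, hv3, hv8, hw0, hw5, hw1, hw6, hw2, hw7, hw3, hw8, bb] using h1
  have cv : ∀ u : Fin 10 → F, u 0 = 0 → u 1 = 0 → u 2 = 0 → u 3 = 0 → u 5 = 0 → u 6 = 0 → u 7 = 0 → u 8 = 0 →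
      u = u 4 • bb 4 + u 9 • bb 9 := by
    intro u h0 h1 h2 h3 h5 h6 h7 h8
    funext i
    fin_cases i <;> simp [bb, *]
  have ev := cv v hv5 hv6 hv7 hv8 hv0 hv1 hv2 hv3
  have ew := cv w hw5 hw6 hw7 hw8 hw0 hw1 hw2 hw3
  by_cases h9 : v 9 = 0
  · have hc : v 4 ≠ 0 := by
      intro h0
      rw [h0, h9] at hB
      simp at hB
    have hw9 : w 9 = (v 4)⁻¹ := by
      rw [h9] at hB
      field_simp
      linear_combination hB
    have hw4 : w 4 = 0 := by
      rcases mul_eq_zero.1 hQw with h | h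
      · exact h
      · rw [hw9] at h
        exact absurd h (inv_ne_zero hc)
    refine ⟨v 4, hc, Or.inl ⟨?_, ?_⟩⟩
    · rw [ev, h9]; simp
    · rw [ew, hw4, hw9]; simp
  · have h4 : v 4 = 0 := (mul_eq_zero.1 hQv).resolve_right h9
    have hw4 : w 4 = (v 9)⁻¹ := by
      rw [h4] at hB
      field_simp
      linear_combination hB
    have hw9 : w 9 = 0 := by
      rcases mul_eq_zero.1 hQw with h | h
      · rw [hw4] at h
        exact absurd h (inv_ne_zero h9)
      · exact h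
    refine ⟨v 9, h9, Or.inr ⟨?_, ?_⟩⟩
    · rw [ev, h4]; simp
    · rw [ew, hw4, hw9]; simp

end Cfsg.Agent.Lib.E6Stab
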