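import Mathlib
import Cfsg.Agent.Lib.E6Stab

/-!
# Rigidity of the action on the sixteen middle coordinates
-/

set_option autoImplicit false
set_option linter.unusedSectionVars false

namespace Cfsg.Agent.Lib.E6Rigid

open QuadraticMap Cfsg.Lie Cfsg.Agent.Lib.OrthoBasic Cfsg.Agent.Lib.OrthoSiegel Cfsg.Agent.Lib.OrthElim
  Cfsg.Agent.Lib.ChevRep Cfsg.Agent.Lib.Chev Cfsg.Agent.Lib.ChevOmega Cfsg.Agent.Lib.RepE6F
  Cfsg.Agent.Lib.E6Poly Cfsg.Agent.Lib.E6Data Cfsg.Agent.Lib.E6Group Cfsg.Agent.Lib.E6Trans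
  Cfsg.Agent.Lib.E6Stab

variable {F : Type*} [Field F]

theorem zP_xh {x : Fin 27 → F} (hx : zP F x = 0) {c : ℕ} (hc : 17 ≤ c) : xh x c = 0 := by
  by_cases h : c < 27
  · have h1 := congrFun hx ⟨c - 17, by omega⟩
    rw [zP_apply] at h1
    have e : 17 + (c - 17) = c := by omega
    simp only [e] at h1
    exact h1
  · simp [xh, h]

theorem zP_en_low {w : ℕ} (hw : w < 17) : zP F (en w) = 0 := by
  funext c
  rw [zP_apply, xh_en (by omega), if_neg (by omega)]
  rfl

theorem tri_k : ∀ m ∈ triL, 17 ≤ m.2.2.2 := by decide +kernel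

theorem Ff_R3 {x y z : Fin 27 → F} (hx : zP F x = 0) (hy : zP F y = 0) (hz : zP F z = 0) :
    Ff triL x y z = 0 := by
  unfold Ff
  apply List.sum_eq_zero
  intro a ha
  obtain ⟨m, hm, rfl⟩ := List.mem_map.1 ha
  have h := tri_k m hm
  simp only [zP_xh hx h, zP_xh hy h, zP_xh hz h]
  ring

/-- The conditions on the witnesses of the off-diagonal vanishing. -/
def OffP (w w' : ℕ) : Prop :=
    (offW w w').1 < 10 ∧ (offW w w').2 < 17 ∧ 1 ≤ (offW w w').2 ∧
    s8b (offW w w').1 = true ∧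
    linL triL (offW w w').2 (17 + (offW w w').1) =
      [(coefL (linL triL (offW w w').2 (17 + (offW w w').1)), w')] ∧
    coefL (linL triL (offW w w').2 (17 + (offW w w').1)) *
      coefL (linL triL (offW w w').2 (17 + (offW w w').1)) = 1 ∧
    linL triL w (17 + (offW w w').1) = []

instance (w w' : ℕ) : Decidable (OffP w w') := by
  unfold OffP; infer_instance

theorem off_ok1 : ∀ w, w < 17 → 1 ≤ w → ∀ w', w' < 17 → 1 ≤ w' → w' ≠ w → OffP w w' := by
  decide +kernel

theorem s8b_mem {n : ℕ} (h : n < 10) (hb : s8b n = true) : (⟨n, h⟩ : Fin 10) ∈ S8 := by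
  interval_cases n <;> first | (simp [S8]; done) | exact absurd hb (by decide)

section Rigid

variable (hs : ∃ s : F, s ≠ 0 ∧ s ≠ 1)
include hs

/-- Off-diagonal vanishing on the middle coordinates. -/
theorem off_diag (g : Stab0 F) (h8 : ∀ c : Fin 10, c ∈ S8 → zP F (g.1.1 (en (17 + c))) = bb c)
    {w w' : ℕ} (hw : w < 17) (hw1 : 1 ≤ w) (hw' : w' < 17) (hw1' : 1 ≤ w') (hne : w' ≠ w) :
    xh (g.1.1 (en w)) w' = 0 := by
  obtain ⟨a1, a2, a3, a4, a5, a6, a7⟩ := off_ok1 w hw hw1 w' hw' hw1' hne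
  generalize (offW w w').1 = c0 at a1 a2 a3 a4 a5 a6 a7
  generalize (offW w w').2 = w2 at a1 a2 a3 a4 a5 a6 a7
  have hc27 : 17 + c0 < 27 := by omega
  have h8c := h8 ⟨c0, a1⟩ (s8b_mem a1 a4)
  simp only at h8c
  set x := g.1.1 (en w) with hx
  have hxz : zP F x = 0 := zP_map_zero hs g (zP_en_low hw)
  have e1 := Ff_inv hs g.1 (en w) ((g⁻¹ : Stab0 F).1.1 (en w2)) (en (17 + c0))
  have e2 : g.1.1 ((g⁻¹ : Stab0 F).1.1 (en w2)) = en w2 := GT_apply_inv g.1 _
  rw [e2, Ff_comm12 triL (en w), Ff_en _ _ (by omega) hc27, a7, evL_nil] at e1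
  have hr : zP F (g.1.1 (en (17 + c0)) - en (17 + c0)) = 0 := by
    rw [map_sub, h8c]
    have := zP_en (F := F) (⟨c0, a1⟩ : Fin 10)
    simp only at this
    rw [this, sub_self]
  have e3 : Ff triL x (en w2) (g.1.1 (en (17 + c0))) =
      Ff triL x (en w2) (en (17 + c0)) + Ff triL x (en w2) (g.1.1 (en (17 + c0)) - en (17 + c0)) := by
    rw [← Ff_add_3]
    congr 1
    abel
  rw [Ff_R3 hxz (zP_en_low a2) hr, add_zero, Ff_en _ _ (by omega) hc27, a5] at e3
  have e4 : Ff triL x (en w2) (g.1.1 (en (17 + c0))) = 0 := e1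
  rw [e4, evL_cons, evL_nil, add_zero] at e3
  have h := mul_eq_zero.1 e3.symm
  exact h.resolve_left (int_ne a6)

/-- The image of a middle basis vector. -/
theorem decomp (g : Stab0 F) (h8 : ∀ c : Fin 10, c ∈ S8 → zP F (g.1.1 (en (17 + c))) = bb c)
    {w : ℕ} (hw : w < 17) (hw1 : 1 ≤ w) :
    g.1.1 (en w) = xh (g.1.1 (en w)) w • en w + xh (g.1.1 (en w)) 0 • en 0 := by
  apply ext_xh
  intro n hn
  rw [xh_add, xh_smul, xh_smul, xh_en (by omega), xh_en (by norm_num)]
  by_cases h0 : n = 0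
  · subst h0
    have : (0 : ℕ) ≠ w := by omega
    simp [this]
  · by_cases h1 : n = w
    · subst h1
      simp [h0]
    · rw [if_neg h1, if_neg h0]
      simp only [mul_zero, add_zero]
      by_cases h2 : n < 17
      · exact off_diag hs g h8 hw hw1 h2 (by omega) h1
      · exact zP_xh (zP_map_zero hs g (zP_en_low hw)) (by omega)

omit hs in
theorem lin0_ok : ∀ c, c < 27 → 17 ≤ c → (linL triL 0 c).all (fun p => Nat.ble 17 p.2) = true := by
  decide +kernel

omit hs in
theorem evL_R {x : Fin 27 → F} (hx : zP F x = 0) {L : List (ℤ × ℕ)}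
    (h : L.all (fun p => Nat.ble 17 p.2) = true) : evL x L = 0 := by
  induction L with
  | nil => rfl
  | cons p L ih =>
    rw [List.all_cons, Bool.and_eq_true] at h
    rw [evL_cons, ih h.2, zP_xh hx (Nat.le_of_ble_eq_true h.1)]
    simp

/-- The basic relation. -/
theorem tri_rel (g : Stab0 F) {w w' c c' : ℕ} (hw : w < 17) (hw' : w' < 17) (hc : c < 27) (hc' : c' < 27)
    (hc1 : 17 ≤ c') {b n γ : F} (hx' : g.1.1 (en w') = b • en w' + n • en 0)
    (hgc : zP F (g.1.1 (en c)) = γ • zP F (en c')) :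
    Ff triL (en w) (en w') (en c) = γ * (b * evL (g.1.1 (en w)) (linL triL w' c')) := by
  set x := g.1.1 (en w) with hx
  have hxz : zP F x = 0 := zP_map_zero hs g (zP_en_low hw)
  have hxz' : zP F (g.1.1 (en w')) = 0 := zP_map_zero hs g (zP_en_low hw')
  have e1 := Ff_inv hs g.1 (en w) (en w') (en c)
  have hr : zP F (g.1.1 (en c) - γ • en c') = 0 := by
    rw [map_sub, hgc, map_smul, sub_self]
  have e3 : Ff triL x (g.1.1 (en w')) (g.1.1 (en c)) =
      γ * Ff triL x (g.1.1 (en w')) (en c') + Ff triL x (g.1.1 (en w')) (g.1.1 (en c) - γ • en c') := by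
    rw [← Ff_smul_3, ← Ff_add_3]
    congr 1
    abel
  rw [Ff_R3 hxz hxz' hr, add_zero] at e3
  have e4 : Ff triL x (g.1.1 (en w')) (en c') =
      b * evL x (linL triL w' c') + n * evL x (linL triL 0 c') := by
    rw [hx', Ff_add_2, Ff_smul_2, Ff_smul_2, Ff_en _ _ (by omega) hc', Ff_en _ _ (by norm_num) hc']
  rw [evL_R hxz (lin0_ok c' hc' hc1), mul_zero, add_zero] at e4
  rw [← e1]
  show Ff triL x (g.1.1 (en w')) (g.1.1 (en c)) = _
  rw [e3, e4]

/-! ### The diagonal entries -/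

omit hs in
/-- The conditions on an edge. -/
def EdgeP (e : ℕ × ℕ × ℕ) : Prop :=
  e.1 < 17 ∧ 1 ≤ e.1 ∧ e.2.1 < 17 ∧ 1 ≤ e.2.1 ∧ e.2.2 < 10 ∧ s8b e.2.2 = true ∧
    linL triL e.2.1 (17 + e.2.2) = [(coefL (linL triL e.2.1 (17 + e.2.2)), e.1)] ∧
    coefL (linL triL e.2.1 (17 + e.2.2)) * coefL (linL triL e.2.1 (17 + e.2.2)) = 1

omit hs in
instance (e : ℕ × ℕ × ℕ) : Decidable (EdgeP e) := by
  unfold EdgeP; infer_instance

/-- The list of edges of a spanning tree. -/
def edgesL : List (ℕ × ℕ × ℕ) :=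
  [(2, 7, 5), (2, 11, 6), (2, 13, 7), (2, 16, 3), (7, 9, 8), (7, 12, 2), (7, 14, 1), (11, 4, 8), (11, 8, 2),
    (13, 3, 8), (9, 5, 6), (9, 6, 7), (12, 1, 6), (4, 10, 7), (5, 15, 2)]

omit hs in
theorem edges_ok : ∀ e ∈ edgesL, EdgeP e := by decide +kernel

/-- The diagonal entries. -/
noncomputable def dg (g : Stab0 F) (w : ℕ) : F := xh (g.1.1 (en w)) w

theorem edge_rel (g : Stab0 F) (h8 : ∀ c : Fin 10, c ∈ S8 → zP F (g.1.1 (en (17 + c))) = bb c)
    {e : ℕ × ℕ × ℕ} (he : e ∈ edgesL) : dg g e.1 * dg g e.2.1 = 1 := by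
  obtain ⟨a1, a2, a3, a4, a5, a6, a7, a8⟩ := edges_ok e he
  obtain ⟨w, w', c0⟩ := e
  simp only at a1 a2 a3 a4 a5 a6 a7 a8 ⊢
  generalize hA : coefL (linL triL w' (17 + c0)) = A at a7 a8
  have hc : 17 + c0 < 27 := by omega
  have hgc : zP F (g.1.1 (en (17 + c0))) = (1 : F) • zP F (en (17 + c0)) := by
    rw [one_smul]
    have h1 := h8 ⟨c0, a5⟩ (s8b_mem a5 a6)
    have h2 := zP_en (F := F) (⟨c0, a5⟩ : Fin 10)
    simp only at h1 h2
    rw [h1, h2]
  have tr := tri_rel hs g a1 a3 hc hc (by omega) (decomp hs g h8 a3 a4) hgc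
  rw [Ff_en _ _ (by omega) hc, a7, evL_cons, evL_nil, evL_cons, evL_nil, xh_en (by omega), if_pos rfl] at tr
  have hA2 := int_sq_ne (F := F) a8
  have : ((A : ℤ) : F) * (((A : ℤ) : F) * (dg g w' * dg g w - 1)) = 0 := by
    unfold dg
    linear_combination (-((A : ℤ) : F)) * tr
  have h3 := (mul_eq_zero.1 this).resolve_left (int_ne a8)
  have h4 := (mul_eq_zero.1 h3).resolve_left (int_ne a8)
  rw [mul_comm]
  exact sub_eq_zero.1 h4

omit hs in
theorem plane_lin : linL triL 16 21 = [(-1, 1)] ∧ linL triL 16 26 = [] := by decide +kernel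

theorem plane_rel (g : Stab0 F) (h8 : ∀ c : Fin 10, c ∈ S8 → zP F (g.1.1 (en (17 + c))) = bb c) {γ : F}
    (hγ : zP F (g.1.1 (en 21)) = γ • bb 4) : γ * (dg g 16 * dg g 1) = 1 := by
  have h2 : zP F (en 21) = bb (4 : Fin 10) := zP_en (F := F) (4 : Fin 10)
  have tr := tri_rel hs g (w := 1) (w' := 16) (c := 21) (c' := 21) (by norm_num) (by norm_num) (by norm_num) (by norm_num)
    (by norm_num) (decomp hs g h8 (by norm_num) (by norm_num)) (γ := γ) (by rw [hγ, h2])
  rw [Ff_en _ _ (by norm_num) (by norm_num), plane_lin.1, evL_cons, evL_nil, evL_cons, evL_nil,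
    xh_en (by norm_num), if_pos rfl] at tr
  unfold dg
  push_cast at tr
  linear_combination tr

theorem plane_swap (g : Stab0 F) (h8 : ∀ c : Fin 10, c ∈ S8 → zP F (g.1.1 (en (17 + c))) = bb c) {γ : F}
    (hγ : zP F (g.1.1 (en 21)) = γ • bb 9) : False := by
  have h2 : zP F (en 26) = bb (9 : Fin 10) := zP_en (F := F) (9 : Fin 10)
  have tr := tri_rel hs g (w := 1) (w' := 16) (c := 21) (c' := 26) (by norm_num) (by norm_num) (by norm_num) (by norm_num)
    (by norm_num) (decomp hs g h8 (by norm_num) (by norm_num)) (γ := γ) (by rw [hγ, h2])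
  rw [Ff_en _ _ (by norm_num) (by norm_num), plane_lin.1, plane_lin.2, evL_cons, evL_nil, evL_nil,
    xh_en (by norm_num), if_pos rfl] at tr
  simp at tr

/-- The values of the diagonal entries. -/
theorem dg_values (g : Stab0 F) (h8 : ∀ c : Fin 10, c ∈ S8 → zP F (g.1.1 (en (17 + c))) = bb c) :
    dg g 2 ≠ 0 ∧ (dg g 3 = dg g 2 ∧ dg g 4 = dg g 2 ∧ dg g 8 = dg g 2 ∧ dg g 9 = dg g 2 ∧ dg g 12 = dg g 2 ∧
      dg g 14 = dg g 2 ∧ dg g 15 = dg g 2) ∧
    (dg g 1 = (dg g 2)⁻¹ ∧ dg g 5 = (dg g 2)⁻¹ ∧ dg g 6 = (dg g 2)⁻¹ ∧ dg g 7 = (dg g 2)⁻¹ ∧ dg g 10 = (dg g 2)⁻¹ ∧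
      dg g 11 = (dg g 2)⁻¹ ∧ dg g 13 = (dg g 2)⁻¹ ∧ dg g 16 = (dg g 2)⁻¹) := by
  have E : ∀ e ∈ edgesL, dg g e.1 * dg g e.2.1 = 1 := fun e he => edge_rel hs g h8 he
  have e27 := E (2, 7, 5) (by decide)
  have e2b := E (2, 11, 6) (by decide)
  have e2d := E (2, 13, 7) (by decide)
  have e2g := E (2, 16, 3) (by decide)
  have e79 := E (7, 9, 8) (by decide)
  have e7c := E (7, 12, 2) (by decide)
  have e7e := E (7, 14, 1) (by decide)
  have eb4 := E (11, 4, 8) (by decide)
  have eb8 := E (11, 8, 2) (by decide)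
  have ed3 := E (13, 3, 8) (by decide)
  have e95 := E (9, 5, 6) (by decide)
  have e96 := E (9, 6, 7) (by decide)
  have ec1 := E (12, 1, 6) (by decide)
  have e4a := E (4, 10, 7) (by decide)
  have e5f := E (5, 15, 2) (by decide)
  simp only at e27 e2b e2d e2g e79 e7c e7e eb4 eb8 ed3 e95 e96 ec1 e4a e5f
  generalize dg g 2 = a at *
  have ha : a ≠ 0 := left_ne_zero_of_mul_eq_one e27
  have inv1 : ∀ {x : F}, a * x = 1 → x = a⁻¹ := fun h => eq_inv_of_mul_eq_one_right h
  have inv2 : ∀ {x : F}, a⁻¹ * x = 1 → x = a := fun {x} h => by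
    have := eq_inv_of_mul_eq_one_right h
    rwa [inv_inv] at this
  have h7 := inv1 e27
  have h11 := inv1 e2b
  have h13 := inv1 e2d
  have h16 := inv1 e2g
  rw [h7] at e79 e7c e7e
  rw [h11] at eb4 eb8
  rw [h13] at ed3
  have h9 := inv2 e79
  have h12 := inv2 e7c
  have h14 := inv2 e7e
  have h4 := inv2 eb4
  have h8' := inv2 eb8
  have h3 := inv2 ed3
  rw [h9] at e95 e96
  rw [h12] at ec1
  rw [h4] at e4a
  have h5 := inv1 e95
  have h6 := inv1 e96
  have h1 := inv1 ec1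
  have h10 := inv1 e4a
  rw [h5] at e5f
  have h15 := inv2 e5f
  exact ⟨ha, ⟨h3, h4, h8', h9, h12, h14, h15⟩, ⟨h1, h5, h6, h7, h10, h11, h13, h16⟩⟩

/-! ### The torus element -/

omit hs in
theorem Ee_ok : ∀ c, c < 27 → hExp T chevE6 10 c - hExp T chevE6 12 c = EeL.getD c 0 := by
  decide +kernel

/-- The final torus element. -/
noncomputable def torT (α : F) : chevE6.SteinbergGroup F :=
  ChevPres.hb chevE6 F 10 α * ChevPres.hb chevE6 F 12 α⁻¹

omit hs in
theorem torT_en {α : F} (hα : α ≠ 0) {c : ℕ} (hc : c < 27) :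
    (rho F (torT α)).1 (en c) = α ^ (EeL.getD c 0) • en c := by
  show (rho F (ChevPres.hb chevE6 F 10 α * ChevPres.hb chevE6 F 12 α⁻¹)).1 (en c) = _
  rw [map_mul]
  show (rho F (ChevPres.hb chevE6 F 10 α)).1 ((rho F (ChevPres.hb chevE6 F 12 α⁻¹)).1 (en c)) = _
  rw [rho_hb (by norm_num) _ (inv_ne_zero hα) hc, map_smul, rho_hb (by norm_num) _ hα hc, smul_smul, ← Ee_ok c hc,
    zpow_sub₀ hα, inv_zpow, div_eq_mul_inv, mul_comm]

omit hs in
theorem Ee0 : EeL.getD 0 0 = 0 := by decide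

omit hs in
theorem torT_fix {α : F} (hα : α ≠ 0) : rho F (torT α) ∈ Stab0 F := by
  show (rho F (torT α)).1 (en 0) = en 0
  rw [torT_en hα (by norm_num), Ee0, zpow_zero, one_smul]

omit hs in
/-- The conclusion of the rigidity step. -/
structure Uni (g : GT F) : Prop where
  fix0 : g.1 (en 0) = en 0
  mid : ∀ w, w < 17 → 1 ≤ w → ∃ n : F, g.1 (en w) = en w + n • en 0
  top : ∀ c : Fin 10, zP F (g.1 (en (17 + c))) = bb c

omit hs in
theorem zP_tor {α : F} (hα : α ≠ 0) (u : Fin 10 → F) :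
    zP F ((rho F (torT α)).1 (iZ F u)) = fun c : Fin 10 => α ^ (EeL.getD (17 + (c : ℕ)) 0) * u c := by
  have h1 : iZ F u = ∑ c, u c • en (17 + (c : ℕ)) := by
    have : u = ∑ c, u c • (bb c : Fin 10 → F) := by
      funext i
      simp [bb, Pi.single_apply]
    conv_lhs => rw [this]
    rw [map_sum]
    apply Finset.sum_congr rfl
    intro c _
    rw [map_smul, iZ_bb]
  rw [h1, map_sum, map_sum]
  funext i
  simp only [map_smul]
  rw [Finset.sum_apply, Finset.sum_eq_single i]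
  · simp only [Pi.smul_apply, smul_eq_mul]
    rw [torT_en hα (by have := i.2; omega), map_smul, zP_en]
    simp [bb]
    ring
  · intro b _ hb
    simp only [Pi.smul_apply, smul_eq_mul]
    rw [torT_en hα (by have := b.2; omega), map_smul, zP_en]
    simp [bb, Pi.single_apply, Ne.symm hb]
  · simp

theorem zP_tor' {α : F} (hα : α ≠ 0) (x : Fin 27 → F) :
    zP F ((rho F (torT α)).1 x) = fun c : Fin 10 => α ^ (EeL.getD (17 + (c : ℕ)) 0) * zP F x c := by
  have h1 := zP_g hs (⟨rho F (torT α), torT_fix hα⟩ : Stab0 F) x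
  rw [zbar_apply] at h1
  exact h1.trans (zP_tor hα _)

omit hs in
theorem Ee_S8 : ∀ c : Fin 10, c ∈ S8 → EeL.getD (17 + (c : ℕ)) 0 = 0 := by
  intro c hc
  simp only [S8, Set.mem_insert_iff, Set.mem_singleton_iff] at hc
  rcases hc with rfl | rfl | rfl | rfl | rfl | rfl | rfl | rfl <;> decide

omit hs in
theorem fin10_cases (c : Fin 10) : c ∈ S8 ∨ c = 4 ∨ c = 9 := by
  revert c
  simp only [S8, Set.mem_insert_iff, Set.mem_singleton_iff]
  decide

omit hs in
theorem Ee_dg {a : F} (ha : a ≠ 0) {x : F} {w : ℕ} (h : (x = a ∧ EeL.getD w 0 = 1) ∨ (x = a⁻¹ ∧ EeL.getD w 0 = -1)) :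
    x * (a⁻¹) ^ (EeL.getD w 0) = 1 := by
  rcases h with ⟨h1, h2⟩ | ⟨h1, h2⟩
  · rw [h1, h2, zpow_one, mul_inv_cancel₀ ha]
  · rw [h1, h2, zpow_neg, zpow_one, inv_inv, inv_mul_cancel₀ ha]

/-- The rigidity step. -/
theorem rigid (g : Stab0 F) (h8 : ∀ c : Fin 10, c ∈ S8 → zP F (g.1.1 (en (17 + c))) = bb c) {γ : F}
    (h4 : (zP F (g.1.1 (en 21)) = γ • bb 4 ∧ zP F (g.1.1 (en 26)) = γ⁻¹ • bb 9) ∨
      (zP F (g.1.1 (en 21)) = γ • bb 9 ∧ zP F (g.1.1 (en 26)) = γ⁻¹ • bb 4)) :
    ∃ t ∈ (rho F).range, Uni (t * g.1) := by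
  rcases h4 with ⟨h21, h26⟩ | ⟨h21, -⟩
  swap
  · exact (plane_swap hs g h8 h21).elim
  obtain ⟨ha, ⟨p3, p4, p8, p9, p12, p14, p15⟩, ⟨m1, m5, m6, m7, m10, m11, m13, m16⟩⟩ := dg_values hs g h8
  have hγ := plane_rel hs g h8 h21
  generalize hdg2 : dg g 2 = a at *
  have p2 : dg g 2 = a := hdg2
  have hγ' : γ = a * a := by
    rw [m16, m1] at hγ
    field_simp at hγ
    rw [hγ]
    ring
  have hα : a⁻¹ ≠ 0 := inv_ne_zero ha
  refine ⟨rho F (torT a⁻¹), ⟨_, rfl⟩, ?_, ?_, ?_⟩
  · show (rho F (torT a⁻¹)).1 (g.1.1 (en 0)) = en 0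
    rw [show g.1.1 (en 0) = en 0 from g.2]
    exact torT_fix hα
  · intro w hw hw1
    show ∃ n : F, (rho F (torT a⁻¹)).1 (g.1.1 (en w)) = en w + n • en 0
    refine ⟨xh (g.1.1 (en w)) 0, ?_⟩
    have hd : dg g w * (a⁻¹) ^ (EeL.getD w 0) = 1 := by
      interval_cases w
      · exact Ee_dg ha (Or.inr ⟨m1, by decide⟩)
      · exact Ee_dg ha (Or.inl ⟨p2, by decide⟩)
      · exact Ee_dg ha (Or.inl ⟨p3, by decide⟩)
      · exact Ee_dg ha (Or.inl ⟨p4, by decide⟩)
      · exact Ee_dg ha (Or.inr ⟨m5, by decide⟩)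
      · exact Ee_dg ha (Or.inr ⟨m6, by decide⟩)
      · exact Ee_dg ha (Or.inr ⟨m7, by decide⟩)
      · exact Ee_dg ha (Or.inl ⟨p8, by decide⟩)
      · exact Ee_dg ha (Or.inl ⟨p9, by decide⟩)
      · exact Ee_dg ha (Or.inr ⟨m10, by decide⟩)
      · exact Ee_dg ha (Or.inr ⟨m11, by decide⟩)
      · exact Ee_dg ha (Or.inl ⟨p12, by decide⟩)
      · exact Ee_dg ha (Or.inr ⟨m13, by decide⟩)
      · exact Ee_dg ha (Or.inl ⟨p14, by decide⟩)
      · exact Ee_dg ha (Or.inl ⟨p15, by decide⟩)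
      · exact Ee_dg ha (Or.inr ⟨m16, by decide⟩)
    conv_lhs => rw [decomp hs g h8 hw hw1]
    rw [map_add, map_smul, map_smul, torT_en hα (by omega), show (rho F (torT a⁻¹)).1 (en 0) = en 0 from torT_fix hα,
      smul_smul]
    congr 1
    have : xh (g.1.1 (en w)) w * (a⁻¹) ^ (EeL.getD w 0) = 1 := hd
    rw [this, one_smul]
  · intro c
    show zP F ((rho F (torT a⁻¹)).1 (g.1.1 (en (17 + c)))) = _
    rw [zP_tor' hs hα]
    rcases fin10_cases c with hc | rfl | rfl
    · rw [h8 c hc]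
      funext i
      by_cases hi : i = c
      · subst hi
        rw [Ee_S8 i hc]
        simp
      · simp [bb, hi]
    · have e : zP F (g.1.1 (en (17 + ((4 : Fin 10) : ℕ)))) = γ • bb 4 := h21
      rw [e]
      funext i
      by_cases hi : i = 4
      · subst hi
        have e2 : EeL.getD (17 + ((4 : Fin 10) : ℕ)) 0 = 2 := by decide
        rw [e2, hγ']
        simp only [Pi.smul_apply, smul_eq_mul, bb, Pi.single_apply, if_true]
        field_simp
      · simp [bb, Pi.single_apply, hi]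
    · have e : zP F (g.1.1 (en (17 + ((9 : Fin 10) : ℕ)))) = γ⁻¹ • bb 9 := h26
      rw [e]
      funext i
      by_cases hi : i = 9
      · subst hi
        have e2 : EeL.getD (17 + ((9 : Fin 10) : ℕ)) 0 = -2 := by decide
        rw [e2, hγ']
        simp only [Pi.smul_apply, smul_eq_mul, bb, Pi.single_apply, if_true]
        field_simp
      · simp [bb, Pi.single_apply, hi]

/-! ### Killing the unipotent part -/

omit hs in
/-- Conditions on the rows of the roots `up`. -/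
def UpP (w d : ℕ) : Prop :=
  (d ≠ 0 → (rowL (upR w) d).all (fun p => Nat.ble 17 p.2) = true) ∧ (17 ≤ d → rowL (upR w) d = [])

omit hs in
noncomputable instance (w d : ℕ) : Decidable (UpP w d) := by
  unfold UpP; infer_instance

omit hs in
theorem up_rows : ∀ w, w < 17 → 1 ≤ w → ∀ d, d < 27 → UpP w d := by decide +kernel

omit hs in
theorem evL_low {x : Fin 27 → F} (hx : ∀ c, 17 ≤ c → xh x c = 0) {L : List (ℤ × ℕ)}
    (h : L.all (fun p => Nat.ble 17 p.2) = true) : evL x L = 0 := by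
  induction L with
  | nil => rfl
  | cons p L ih =>
    rw [List.all_cons, Bool.and_eq_true] at h
    rw [evL_cons, ih h.2, hx _ (Nat.le_of_ble_eq_true h.1)]
    simp

omit hs in
theorem en_low {w : ℕ} (hw : w < 17) (c : ℕ) (hc : 17 ≤ c) : xh (en w : Fin 27 → F) c = 0 := by
  rw [xh_en (by omega), if_neg (by omega)]

omit hs in
/-- The action of the root element `up` on the low basis vectors. -/
theorem up_en {w w' : ℕ} (hw : w < 17) (hw1 : 1 ≤ w) (hw' : w' < 17) (t : F) :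
    (rho F (chevE6.stGen F (upR w) t)).1 (en w') =
      en w' + (t * ((upA w : ℤ) : F) * (if w = w' then 1 else 0)) • en 0 := by
  obtain ⟨h1, h2, h3⟩ := up_ok w hw hw1
  apply ext_xh
  intro n hn
  rw [xh_rho_y h1 t _ hn, xh_add, xh_smul, xh_en (by omega), xh_en (by norm_num)]
  by_cases h0 : n = 0
  · subst h0
    rw [h2, evL_cons, evL_nil, xh_en (by omega)]
    have : (w = w') ∨ ¬ (w = w') := em _
    by_cases h : w = w' <;> simp [h]
  · rw [evL_low (en_low hw') ((up_rows w hw hw1 n hn).1 h0), if_neg h0]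
    ring

omit hs in
theorem zP_up {w : ℕ} (hw : w < 17) (hw1 : 1 ≤ w) (t : F) (x : Fin 27 → F) :
    zP F ((rho F (chevE6.stGen F (upR w) t)).1 x) = zP F x := by
  obtain ⟨h1, h2, h3⟩ := up_ok w hw hw1
  funext c
  have hc : 17 + (c : ℕ) < 27 := by have := c.2; omega
  rw [zP_apply, zP_apply, xh_rho_y h1 t _ hc, ((up_rows w hw hw1 _ hc).2 (by omega)), evL_nil, mul_zero, add_zero]

omit hs in
/-- One step of the killing. -/
theorem Uni.up {g : GT F} (hg : Uni g) {w : ℕ} (hw : w < 17) (hw1 : 1 ≤ w) (t : F) :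
    Uni (rho F (chevE6.stGen F (upR w) t) * g) := by
  have h0 : (rho F (chevE6.stGen F (upR w) t)).1 (en 0) = en 0 := by
    rw [up_en hw hw1 (by norm_num)]
    have : w ≠ 0 := by omega
    simp [this]
  refine ⟨?_, ?_, ?_⟩
  · show (rho F (chevE6.stGen F (upR w) t)).1 (g.1 (en 0)) = en 0
    rw [hg.fix0, h0]
  · intro w' hw' hw1'
    obtain ⟨n, hn⟩ := hg.mid w' hw' hw1'
    refine ⟨t * ((upA w : ℤ) : F) * (if w = w' then 1 else 0) + n, ?_⟩
    show (rho F (chevE6.stGen F (upR w) t)).1 (g.1 (en w')) = _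
    rw [hn, map_add, map_smul, h0, up_en hw hw1 hw', add_smul, add_assoc]
  · intro c
    show zP F ((rho F (chevE6.stGen F (upR w) t)).1 (g.1 (en (17 + c)))) = _
    rw [zP_up hw hw1, hg.top]

omit hs in
/-- Killing. -/
theorem kill_n {g : GT F} (hg : Uni g) (k : ℕ) (hk : k ≤ 16) :
    ∃ u ∈ (rho F).range, Uni (u * g) ∧ ∀ w, w < k + 1 → 1 ≤ w → (u * g).1 (en w) = en w := by
  induction k with
  | zero => exact ⟨1, one_mem _, by simpa using hg, fun w h1 h2 => by omega⟩
  | succ k ih =>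
    obtain ⟨u, hu, hU, hfix⟩ := ih (by omega)
    have hw : k + 1 < 17 := by omega
    obtain ⟨h1, h2, h3⟩ := up_ok (k + 1) hw (by omega)
    obtain ⟨n, hn⟩ := hU.mid (k + 1) hw (by omega)
    have hσ := int_sq_ne (F := F) h3
    set t : F := -n * ((upA (k + 1) : ℤ) : F) with ht
    have hU2 := hU.up hw (by omega) t
    have e : rho F (chevE6.stGen F (upR (k + 1)) t) * (u * g) = (rho F (chevE6.stGen F (upR (k + 1)) t) * u) * g := by
      rw [mul_assoc]
    refine ⟨rho F (chevE6.stGen F (upR (k + 1)) t) * u, mul_mem (y_mem _ _) hu, e ▸ hU2, ?_⟩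
    intro w hw1 hw2
    show (rho F (chevE6.stGen F (upR (k + 1)) t)).1 ((u * g).1 (en w)) = en w
    by_cases hwk : w = k + 1
    · subst hwk
      have h0 : (rho F (chevE6.stGen F (upR (k + 1)) t)).1 (en 0) = en 0 := by
        rw [up_en hw (by omega) (by norm_num)]
        simp
      rw [hn, map_add, map_smul, h0, up_en hw (by omega) hw, if_pos rfl, add_assoc, ← add_smul]
      have : t * ((upA (k + 1) : ℤ) : F) * 1 + n = 0 := by
        rw [ht]
        linear_combination (-n) * hσ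
      rw [this, zero_smul, add_zero]
    · rw [hfix w (by omega) hw2, up_en hw (by omega) (by omega), if_neg (Ne.symm hwk)]
      simp

/-! ### The end -/

omit hs in
theorem GT_ext_en {g : GT F} (h : ∀ n, n < 27 → g.1 (en n) = en n) : g = 1 := by
  apply Subtype.ext
  apply LinearEquiv.toLinearMap_injective
  apply LinearMap.pi_ext
  intro c x
  have e : (Pi.single c x : Fin 27 → F) = x • en c := by
    rw [show (en (c : ℕ) : Fin 27 → F) = Pi.single c 1 from bvN_val c]
    funext i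
    simp [Pi.single_apply]
  rw [e, map_smul, map_smul]
  simp only [LinearEquiv.coe_coe]
  rw [h c c.2]
  rfl

omit hs in
theorem en_low' {w : ℕ} {c : ℕ} (hw : w < 17) (hc : 17 ≤ c) (hc2 : c < 27) : xh (en c : Fin 27 → F) w = 0 := by
  rw [xh_en hc2, if_neg (by omega)]

omit hs in
/-- The structure of the quadratic lists at the low coordinates. -/
def QuadP (w : ℕ) : Prop :=
  (quadL triL w).all (fun p => Nat.blt p.2.1 17 && Nat.ble 17 p.2.2 && Nat.blt p.2.2 27) = true

omit hs in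
instance (w : ℕ) : Decidable (QuadP w) := by
  unfold QuadP; infer_instance

omit hs in
theorem quad_low : ∀ w, w < 17 → 1 ≤ w → QuadP w := by decide +kernel

omit hs in
/-- The conditions on the witness for the vanishing of the middle coordinates. -/
def UniP (c w : ℕ) : Prop :=
  (uniW c w).2 < 17 ∧ 1 ≤ (uniW c w).2 ∧
    ((((uniW c w).1 = 0) ∧ quadRow (quadL triL (uniW c w).2) c = [(coefL (quadRow (quadL triL (uniW c w).2) c), w)] ∧
        coefL (quadRow (quadL triL (uniW c w).2) c) * coefL (quadRow (quadL triL (uniW c w).2) c) = 1) ∨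
     (((uniW c w).1 = 1) ∧ linL triL (bar10 (c - 17) + 17) (uniW c w).2 =
          [(coefL (linL triL (bar10 (c - 17) + 17) (uniW c w).2), w)] ∧
        coefL (linL triL (bar10 (c - 17) + 17) (uniW c w).2) * coefL (linL triL (bar10 (c - 17) + 17) (uniW c w).2) = 1 ∧
        linL triL c (uniW c w).2 = []))

omit hs in
instance (c w : ℕ) : Decidable (UniP c w) := by
  unfold UniP; infer_instance

omit hs in
theorem uni_ok : ∀ c, c < 27 → 17 ≤ c → ∀ w, w < 17 → 1 ≤ w → UniP c w := by decide +kernel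

omit hs in
theorem lin_cc : ∀ c, c < 27 → 17 ≤ c → linL triL c (bar10 (c - 17) + 17) = [(1, 0)] := by decide +kernel

omit hs in
theorem evQ_quadRow {x : Fin 27 → F} {c : ℕ} (hx : ∀ d, 17 ≤ d → d < 27 → xh x d = if d = c then 1 else 0)
    (L : List (ℤ × ℕ × ℕ)) (hL : L.all (fun p => Nat.blt p.2.1 17 && Nat.ble 17 p.2.2 && Nat.blt p.2.2 27) = true) :
    evQ x L = evL x (quadRow L c) := by
  induction L with
  | nil => rfl
  | cons p L ih =>
    rw [List.all_cons, Bool.and_eq_true, Bool.and_eq_true, Bool.and_eq_true] at hL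
    obtain ⟨⟨⟨h1, h2⟩, h3⟩, h4⟩ := hL
    rw [evQ_cons, ih h4, hx _ (Nat.le_of_ble_eq_true h2) (Nat.le_of_ble_eq_true h3)]
    unfold quadRow
    rw [List.filterMap_cons]
    by_cases h : p.2.2 = c
    · simp only [h, if_true, mul_one, evL_cons]
    · simp only [h, if_false, mul_zero, zero_add]

omit hs in
theorem evQ_en_low {c : ℕ} (hc : 17 ≤ c) (hc2 : c < 27) (L : List (ℤ × ℕ × ℕ))
    (hL : L.all (fun p => Nat.blt p.2.1 17 && Nat.ble 17 p.2.2 && Nat.blt p.2.2 27) = true) :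
    evQ (en c : Fin 27 → F) L = 0 := by
  induction L with
  | nil => rfl
  | cons p L ih =>
    rw [List.all_cons, Bool.and_eq_true, Bool.and_eq_true, Bool.and_eq_true] at hL
    obtain ⟨⟨⟨h1, h2⟩, h3⟩, h4⟩ := hL
    have h5 : p.2.1 < 17 := Nat.le_of_ble_eq_true h1
    rw [evQ_cons, ih h4, xh_en hc2, if_neg (by omega)]
    simp

/-- The last step: an element fixing the low basis vectors and acting trivially on the ten coordinates
is the identity. -/
theorem uni_trivial {g : GT F} (hg : Uni g) (hfix : ∀ w, w < 17 → 1 ≤ w → g.1 (en w) = en w) : g = 1 := by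
  -- the coordinates in the top part
  have htop : ∀ c : Fin 10, ∀ d, 17 ≤ d → d < 27 → xh (g.1 (en (17 + c))) d = if d = 17 + (c : ℕ) then 1 else 0 := by
    intro c d h1 h2
    have h3 := congrFun (hg.top c) ⟨d - 17, by omega⟩
    rw [zP_apply] at h3
    have e : 17 + (d - 17) = d := by omega
    simp only [e] at h3
    rw [h3]
    simp only [bb, Pi.single_apply, Fin.ext_iff]
    by_cases h : d = 17 + (c : ℕ)
    · subst h
      simp
    · have : ¬ (d - 17 = (c : ℕ)) := by omega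
      simp [h, this]
  -- the middle coordinates vanish
  have hmid : ∀ c : Fin 10, ∀ w, w < 17 → 1 ≤ w → xh (g.1 (en (17 + c))) w = 0 := by
    intro c w hw hw1
    have hc := c.2
    have hc1 : 17 + (c : ℕ) < 27 := by omega
    obtain ⟨a1, a2, a3⟩ := uni_ok (17 + c) hc1 (by omega) w hw hw1
    generalize (uniW (17 + c) w).2 = w' at a1 a2 a3
    rcases a3 with ⟨-, a4, a5⟩ | ⟨-, a4, a5, a6⟩
    · have h1 := Bf_inv hs g (en (17 + c)) (en w')
      rw [hfix w' a1 a2, Bf_en _ _ (by omega), Bf_en _ _ (by omega), evQ_en_low (by omega) hc1 _ (quad_low w' a1 a2),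
        evQ_quadRow (htop c) _ (quad_low w' a1 a2), a4, evL_cons, evL_nil, add_zero] at h1
      exact (mul_eq_zero.1 h1).resolve_left (int_ne a5)
    · have hb := (cE F).bar_lt _ hc
      have hb27 : bar10 (c : ℕ) + 17 < 27 := by omega
      have ec : 17 + (c : ℕ) - 17 = c := by omega
      rw [ec] at a4 a5
      have h1 := Ff_inv hs g (en (17 + c)) (en (bar10 (c : ℕ) + 17)) (en w')
      have h2 := lin_cc (17 + c) hc1 (by omega)
      rw [ec] at h2
      have h3 : Ff triL (en (17 + (c : ℕ))) (en (bar10 (c : ℕ) + 17)) (en w') = (0 : F) := by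
        rw [Ff_comm12 triL (en (17 + (c : ℕ))), Ff_comm23 triL (en (bar10 (c : ℕ) + 17)),
          Ff_comm12 triL (en (bar10 (c : ℕ) + 17)), Ff_comm23 triL (en w') (en (bar10 (c : ℕ) + 17)),
          Ff_en _ _ hc1 hb27, h2, evL_cons, evL_nil, xh_en (by omega), if_neg (by omega)]
        simp
      rw [hfix w' a1 a2, h3] at h1
      have hbF : bar10 (c : ℕ) + 17 = 17 + ((barN c : Fin 10) : ℕ) := by
        show bar10 (c : ℕ) + 17 = 17 + bar10 (c : ℕ)
        omega
      set x := g.1 (en (17 + c)) with hx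
      set y := g.1 (en (bar10 (c : ℕ) + 17)) with hy
      set r := x - en (17 + c) with hr
      set r' := y - en (bar10 (c : ℕ) + 17) with hr'
      have hrz : zP F r = 0 := by
        rw [hr, map_sub, hg.top c, zP_en, sub_self]
      have hrz' : zP F r' = 0 := by
        rw [hr', map_sub, hy, hbF, hg.top (barN c), zP_en, sub_self]
      have ex : x = en (17 + c) + r := by rw [hr]; abel
      have ey : y = en (bar10 (c : ℕ) + 17) + r' := by rw [hr']; abel
      rw [ex, ey, Ff_add_1, Ff_add_2, Ff_add_2, h3, Ff_R3 hrz hrz' (zP_en_low a1), Ff_comm12 triL (en (17 + (c : ℕ))),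
        Ff_en _ _ hc1 (by omega), a6, evL_nil, Ff_en _ _ hb27 (by omega), a4, evL_cons, evL_nil] at h1
      simp only [zero_add, add_zero] at h1
      have h4 := (mul_eq_zero.1 h1).resolve_left (int_ne a5)
      rw [hr, xh_sub, xh_en hc1, if_neg (by omega), sub_zero] at h4
      exact h4
  -- the first coordinate
  have hform : ∀ c : Fin 10, g.1 (en (17 + c)) = en (17 + c) + xh (g.1 (en (17 + c))) 0 • en 0 := by
    intro c
    apply ext_xh
    intro n hn
    rw [xh_add, xh_smul, xh_en (by have := c.2; omega), xh_en (by norm_num)]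
    by_cases h0 : n = 0
    · subst h0
      have : ¬ (0 = 17 + (c : ℕ)) := by omega
      simp [this]
    · rw [if_neg h0, mul_zero, add_zero]
      by_cases h1 : n < 17
      · rw [hmid c n h1 (by omega), if_neg (by have := c.2; omega)]
      · exact htop c n (by omega) hn
  have h00 : ∀ c : Fin 10, xh (g.1 (en (17 + c))) 0 = 0 := by
    intro c
    have hc := c.2
    have hc1 : 17 + (c : ℕ) < 27 := by omega
    obtain ⟨⟨q1, q2⟩, q3⟩ := quad_ok1 (17 + c) hc1 (by omega)
    have ec : 17 + (c : ℕ) - 17 = c := by omega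
    rw [ec] at q1 q2 q3
    have hbF : bar10 (c : ℕ) + 17 = 17 + ((barN c : Fin 10) : ℕ) := by
      show bar10 (c : ℕ) + 17 = 17 + bar10 (c : ℕ)
      omega
    have h1 := Bf_inv hs g (en (17 + c)) (en (bar10 (c : ℕ) + 17))
    have h2 : g.1 (en (bar10 (c : ℕ) + 17)) = en (bar10 (c : ℕ) + 17) +
        xh (g.1 (en (bar10 (c : ℕ) + 17))) 0 • en 0 := by
      rw [hbF]
      exact hform (barN c)
    rw [h2, Bf_add_right, Bf_smul_right, Bf_en0, hg.top c, Bf_en _ _ q3, Bf_en _ _ q3] at h1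
    have h3 : qE F (bb c) = 0 := by
      have := (cE F).Qb c
      rw [if_neg (by omega)] at this
      exact this
    rw [h3, mul_zero, add_zero] at h1
    cases hq : quadL triL (bar10 (c : ℕ) + 17) with
    | nil => rw [hq] at q1; simp at q1
    | cons p R =>
      rw [hq] at q1 q2 h1
      simp only [List.head?_cons, Option.some.injEq] at q1
      simp only [List.tail_cons] at q2
      rw [evQ_cons, evQ_cons, evQ_zero_of (v := g.1 (en (17 + c))) (fun w hw hw1 => hmid c w hw hw1) R q2,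
        evQ_zero_of (v := en (17 + (c : ℕ))) (fun w hw hw1 => en_low' hw (by omega) hc1) R q2, q1] at h1
      simp only at h1
      have e0 : xh (en (17 + (c : ℕ)) : Fin 27 → F) 0 = 0 := by
        rw [xh_en hc1, if_neg (by omega)]
      have h5 := htop c (17 + c) (by omega) hc1
      rw [if_pos rfl] at h5
      rw [e0, h5] at h1
      simpa using h1
  apply GT_ext_en
  intro n hn
  by_cases h0 : n = 0
  · subst h0
    exact hg.fix0
  · by_cases h1 : n < 17
    · exact hfix n h1 (by omega)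
    · obtain ⟨c, rfl⟩ : ∃ c : Fin 10, n = 17 + c := ⟨⟨n - 17, by omega⟩, by simp; omega⟩
      rw [hform c, h00 c, zero_smul, add_zero]

end Rigid

end Cfsg.Agent.Lib.E6Rigid
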