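import Mathlib
import Cfsg.Agent.Lib.SectRank
import Cfsg.Agent.Lib.PGroupAct

/-!
# Sectional 2-rank of a 2-group with an `E₁₆` all of whose "marked" elements have centralizer `E₁₆`

Let `S` be a finite 2-group, `T ≤ S` elementary abelian of order 16 and `B ≤ T` a four-group such that
`C_S(b) = T` for all `1 ≠ b ∈ B`. Then `S` has sectional 2-rank at most 4 (and order at most 128).
-/

set_option autoImplicit false

namespace Cfsg.Agent.Lib.SectE16

open Cfsg Cfsg.Agent.Lib.SectRank Cfsg.Agent.Lib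

variable {S : Type*} [Group S]

/-- Commutators are products of squares. -/
theorem comm_eq_squares (a b : S) :
    a * b * a⁻¹ * b⁻¹ = (a * b) ^ 2 * (b⁻¹ * a⁻¹ * b) ^ 2 * (b⁻¹) ^ 2 := by
  simp only [pow_two]; group

theorem comm_mem_of_squares {H N : Subgroup S} (hsq : ∀ h ∈ H, h ^ 2 ∈ N) {a b : S} (ha : a ∈ H)
    (hb : b ∈ H) : a * b * a⁻¹ * b⁻¹ ∈ N := by
  rw [comm_eq_squares]
  refine N.mul_mem (N.mul_mem (hsq _ (H.mul_mem ha hb)) (hsq _ ?_)) (hsq _ (H.inv_mem hb))
  exact H.mul_mem (H.mul_mem (H.inv_mem hb) (H.inv_mem ha)) hb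

variable [Finite S]

/-- Orbit bound: if all commutators `[a, u]`, `a ∈ A`, lie in `K`, then `|A : C_A(u)| ≤ |K|`. -/
theorem relIndex_cent_le (A K : Subgroup S) (u : S)
    (h : ∀ a ∈ A, a * u * a⁻¹ * u⁻¹ ∈ K) :
    (Subgroup.centralizer ({u} : Set S)).relIndex A ≤ Nat.card K := by
  classical
  let C := (Subgroup.centralizer ({u} : Set S)).subgroupOf A
  let f : (A ⧸ C) → K := fun q => ⟨(q.out : S) * u * (q.out : S)⁻¹ * u⁻¹, h _ q.out.2⟩
  have hf : Function.Injective f := by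
    intro q₁ q₂ hq
    have h1 : (q₁.out : S) * u * (q₁.out : S)⁻¹ * u⁻¹ = (q₂.out : S) * u * (q₂.out : S)⁻¹ * u⁻¹ :=
      congrArg Subtype.val hq
    have h2 : (q₁.out : S) * u * (q₁.out : S)⁻¹ = (q₂.out : S) * u * (q₂.out : S)⁻¹ :=
      mul_right_cancel h1
    rw [← q₁.out_eq', ← q₂.out_eq']
    rw [QuotientGroup.eq]
    rw [Subgroup.mem_subgroupOf, Subgroup.mem_centralizer_iff]
    intro x hx
    rw [Set.mem_singleton_iff] at hx
    subst hx
    simp only [Subgroup.coe_mul, InvMemClass.coe_inv]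
    have h3 : (q₁.out : S)⁻¹ * (q₂.out : S) * x = x * ((q₁.out : S)⁻¹ * (q₂.out : S)) := by
      have : (q₂.out : S) * x = ((q₂.out : S) * x * (q₂.out : S)⁻¹) * (q₂.out : S) := by group
      rw [mul_assoc, this, ← h2]
      group
    exact h3.symm
  have := Nat.card_le_card_of_injective f hf
  simpa [Subgroup.relIndex, Subgroup.index] using this

/-- Strict form: if moreover `u ≠ 1` and `u⁻¹ ∈ K`, then `|A : C_A(u)| < |K|`. -/
theorem relIndex_cent_lt (A K : Subgroup S) (u : S)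
    (h : ∀ a ∈ A, a * u * a⁻¹ * u⁻¹ ∈ K) (hu : u ≠ 1) (huK : u⁻¹ ∈ K) :
    (Subgroup.centralizer ({u} : Set S)).relIndex A < Nat.card K := by
  classical
  let C := (Subgroup.centralizer ({u} : Set S)).subgroupOf A
  let f : (A ⧸ C) → K := fun q => ⟨(q.out : S) * u * (q.out : S)⁻¹ * u⁻¹, h _ q.out.2⟩
  have hf : Function.Injective f := by
    intro q₁ q₂ hq
    have h1 : (q₁.out : S) * u * (q₁.out : S)⁻¹ * u⁻¹ = (q₂.out : S) * u * (q₂.out : S)⁻¹ * u⁻¹ :=
      congrArg Subtype.val hq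
    have h2 : (q₁.out : S) * u * (q₁.out : S)⁻¹ = (q₂.out : S) * u * (q₂.out : S)⁻¹ :=
      mul_right_cancel h1
    rw [← q₁.out_eq', ← q₂.out_eq']
    rw [QuotientGroup.eq]
    rw [Subgroup.mem_subgroupOf, Subgroup.mem_centralizer_iff]
    intro x hx
    rw [Set.mem_singleton_iff] at hx
    subst hx
    simp only [Subgroup.coe_mul, InvMemClass.coe_inv]
    have h3 : (q₁.out : S)⁻¹ * (q₂.out : S) * x = x * ((q₁.out : S)⁻¹ * (q₂.out : S)) := by
      have : (q₂.out : S) * x = ((q₂.out : S) * x * (q₂.out : S)⁻¹) * (q₂.out : S) := by group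
      rw [mul_assoc, this, ← h2]
      group
    exact h3.symm
  have hns : ¬ Function.Surjective f := by
    intro hs
    obtain ⟨q, hq⟩ := hs ⟨u⁻¹, huK⟩
    have h1 : (q.out : S) * u * (q.out : S)⁻¹ * u⁻¹ = u⁻¹ := congrArg Subtype.val hq
    have h2 : (q.out : S) * u * (q.out : S)⁻¹ = 1 := by
      simpa using h1
    apply hu
    have h3 : (q.out : S) * u = (q.out : S) := by
      rw [mul_inv_eq_one] at h2
      exact h2
    simpa using h3
  haveI : Fintype (A ⧸ C) := Fintype.ofFinite _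
  haveI : Fintype K := Fintype.ofFinite _
  have := Fintype.card_lt_of_injective_not_surjective f hf hns
  simpa [Subgroup.relIndex, Subgroup.index, Nat.card_eq_fintype_card] using this

/-- `|H| = |H : K| * |K ⊓ H|`. -/
theorem card_eq_relIndex_mul_inf (K H : Subgroup S) :
    Nat.card H = K.relIndex H * Nat.card ↥(K ⊓ H) := by
  have h1 := card_eq_relIndex_mul (S := S) (H := H) (N := K ⊓ H) inf_le_right
  rwa [Subgroup.inf_relIndex_right] at h1

/-- Criterion: `|H : N| ≤ |C_H(u)|` for `u ∈ H` whenever `H/N` has exponent 2. -/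
theorem relIndex_le_cent {H N : Subgroup S} (hNH : N ≤ H) (hsq : ∀ h ∈ H, h ^ 2 ∈ N) {u : S}
    (hu : u ∈ H) : N.relIndex H ≤ Nat.card ↥(Subgroup.centralizer ({u} : Set S) ⊓ H) := by
  have h1 := card_eq_relIndex_mul (S := S) hNH
  have h2 := card_eq_relIndex_mul_inf (Subgroup.centralizer ({u} : Set S)) H
  have h3 := relIndex_cent_le H N u (fun a ha => comm_mem_of_squares hsq ha hu)
  have hpos : 0 < Nat.card N := Nat.card_pos
  have h4 : N.relIndex H * Nat.card N
      ≤ Nat.card ↥(Subgroup.centralizer ({u} : Set S) ⊓ H) * Nat.card N := by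
    rw [← h1, h2]
    calc _ ≤ Nat.card N * Nat.card ↥(Subgroup.centralizer ({u} : Set S) ⊓ H) :=
          Nat.mul_le_mul_right _ h3
      _ = _ := mul_comm _ _
  exact Nat.le_of_mul_le_mul_right h4 hpos

/-- Product bound for two subgroups with trivial intersection. -/
theorem card_mul_card_le (K L M : Subgroup S) (hK : K ≤ M) (hL : L ≤ M) (h : K ⊓ L = ⊥) :
    Nat.card K * Nat.card L ≤ Nat.card M := by
  let f : K × L → M := fun x => ⟨(x.1 : S) * (x.2 : S), M.mul_mem (hK x.1.2) (hL x.2.2)⟩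
  have hf : Function.Injective f := by
    rintro ⟨⟨a, ha⟩, ⟨b, hb⟩⟩ ⟨⟨c, hc⟩, ⟨d, hd⟩⟩ hx
    have h1 : a * b = c * d := congrArg Subtype.val hx
    have h2 : c⁻¹ * a = d * b⁻¹ := by
      calc c⁻¹ * a = c⁻¹ * (a * b) * b⁻¹ := by group
        _ = c⁻¹ * (c * d) * b⁻¹ := by rw [h1]
        _ = d * b⁻¹ := by group
    have h3 : c⁻¹ * a ∈ K ⊓ L := ⟨K.mul_mem (K.inv_mem hc) ha, by rw [h2]; exact L.mul_mem hd (L.inv_mem hb)⟩
    rw [h, Subgroup.mem_bot] at h3
    have h4 : a = c := by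
      rw [inv_mul_eq_one] at h3
      exact h3.symm
    have h5 : b = d := by
      subst h4
      exact mul_left_cancel h1
    subst h4 h5
    rfl
  have := Nat.card_le_card_of_injective f hf
  rwa [Nat.card_prod] at this

/-- `|H||T| ≤ |H ⊓ T||L|` for `H, T ≤ L`. -/
theorem card_mul_le_card_inf_mul (H T L : Subgroup S) (hH : H ≤ L) (hT : T ≤ L) :
    Nat.card H * Nat.card T ≤ Nat.card ↥(H ⊓ T) * Nat.card L := by
  have h1 := card_eq_relIndex_mul_inf T H
  have h2 := card_eq_relIndex_mul (S := S) hT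
  have hne : T.relIndex L ≠ 0 := by
    intro h0
    rw [h0] at h2
    have : 0 < Nat.card L := Nat.card_pos
    omega
  have h3 := Subgroup.relIndex_le_of_le_right (H := T) hH hne
  have h4 : T ⊓ H = H ⊓ T := inf_comm _ _
  rw [h4] at h1
  rw [h1, h2]
  calc T.relIndex H * Nat.card ↥(H ⊓ T) * Nat.card T
      ≤ T.relIndex L * Nat.card ↥(H ⊓ T) * Nat.card T := by
        apply Nat.mul_le_mul_right; apply Nat.mul_le_mul_right; exact h3
    _ = _ := by ring

/-- A divisor of a 2-power greater than 16 is at least 32. -/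
theorem ge_32_of_dvd {n m k : ℕ} (h : m ∣ n) (hn : n = 2 ^ k) (h16 : 16 < m) : 32 ≤ m := by
  rw [hn] at h
  obtain ⟨j, -, rfl⟩ := (Nat.dvd_prime_pow Nat.prime_two).1 h
  by_contra hc
  have hj : j < 5 := by
    by_contra hj
    have : 2 ^ 5 ≤ 2 ^ j := Nat.pow_le_pow_right (by norm_num) (by omega)
    omega
  interval_cases j <;> omega


/-! ### A maximal normal subgroup below a normal subgroup of a `p`-group -/

section NormalChain

variable {X : Type*} [Group X] [Finite X]

/-- In a finite `p`-group a nontrivial normal subgroup `T` contains a normal subgroup of index `p`. -/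
theorem exists_normal_index_prime {p : ℕ} [Fact p.Prime] (hX : IsPGroup p X) (T : Subgroup X)
    (hT : T.Normal) (hne : T ≠ ⊥) : ∃ W : Subgroup X, W ≤ T ∧ W.Normal ∧ W.relIndex T = p := by
  classical
  have hfin : ({W : Subgroup X | W.Normal ∧ W < T}).Finite := Set.toFinite _
  have hnonempty : ({W : Subgroup X | W.Normal ∧ W < T}).Nonempty :=
    ⟨⊥, inferInstance, bot_lt_iff_ne_bot.2 hne⟩
  obtain ⟨W, hW⟩ := hfin.exists_maximal hnonempty
  obtain ⟨hWn, hWT⟩ := hW.1
  have hmax : ∀ W' : Subgroup X, W'.Normal → W' < T → W ≤ W' → W' = W := by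
    intro W' h1 h2 h3
    exact le_antisymm (hW.2 ⟨h1, h2⟩ h3) h3
  haveI := hWn
  let π := QuotientGroup.mk' W
  have hY : IsPGroup p (X ⧸ W) := hX.of_surjective π (QuotientGroup.mk'_surjective W)
  let Tb : Subgroup (X ⧸ W) := T.map π
  have hTbne : Tb ≠ ⊥ := by
    intro h0
    apply hWT.not_ge
    intro t ht
    have : π t ∈ Tb := ⟨t, ht, rfl⟩
    rw [h0, Subgroup.mem_bot] at this
    exact (QuotientGroup.eq_one_iff t).1 this
  obtain ⟨w, hwT, hw1, hwc⟩ := PGroupAct.exists_central_elt (p := p) (⊤ : Subgroup (X ⧸ W)) Tb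
    (hY.to_subgroup ⊤) le_top
    (fun a _ w hw => (Subgroup.Normal.map hT π (QuotientGroup.mk'_surjective W)).conj_mem w hw a)
    hTbne
  -- an element of order `p` in `⟨w⟩`
  obtain ⟨k, hk⟩ := (IsPGroup.iff_orderOf.1 hY) w
  have hk0 : k ≠ 0 := by
    rintro rfl
    rw [pow_zero, orderOf_eq_one_iff] at hk
    exact hw1 hk
  have hdvd : p ∣ orderOf w := by
    rw [hk]
    exact dvd_pow_self p hk0
  have hord0 : orderOf w ≠ 0 := by
    rw [hk]
    exact pow_ne_zero _ (Fact.out : p.Prime).ne_zero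
  let z := w ^ (orderOf w / p)
  have hz : orderOf z = p := orderOf_pow_orderOf_div hord0 hdvd
  have hzT : z ∈ Tb := Tb.pow_mem hwT _
  have hzc : ∀ a, a * z = z * a := by
    intro a
    exact ((Commute.pow_right (show Commute a w from hwc a (Subgroup.mem_top a)) _) : _)
  let Z : Subgroup (X ⧸ W) := Subgroup.zpowers z
  have hZc : ∀ n ∈ Z, ∀ a, a * n = n * a := by
    rintro n ⟨i, rfl⟩ a
    exact (Commute.zpow_right (show Commute a z from hzc a) i)
  have hZn : Z.Normal := by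
    constructor
    intro n hn a
    rw [hZc n hn a]
    simpa using hn
  let W' : Subgroup X := Z.comap π
  have hW'n : W'.Normal := Subgroup.Normal.comap hZn π
  have hle : W ≤ W' := by
    intro x hx
    show π x ∈ Z
    have h1 : π x = 1 := (QuotientGroup.eq_one_iff x).2 hx
    rw [h1]
    exact Z.one_mem
  have hW'T : W' ≤ T := by
    intro x hx
    have hx' : π x ∈ Z := hx
    have : π x ∈ Tb := (Subgroup.zpowers_le.2 hzT) hx'
    obtain ⟨t, ht, hte⟩ := this
    have h1 : t⁻¹ * x ∈ W := by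
      rw [← QuotientGroup.eq]
      exact hte
    have h2 := T.mul_mem ht (hWT.le h1)
    simpa using h2
  have hneW : W' ≠ W := by
    intro h
    obtain ⟨x, hx⟩ := QuotientGroup.mk'_surjective W z
    have h1 : x ∈ W' := by
      show π x ∈ Z
      rw [show π x = z from hx]
      exact Subgroup.mem_zpowers z
    rw [h] at h1
    have h2 : z = 1 := by
      rw [← hx]
      exact (QuotientGroup.eq_one_iff x).2 h1
    rw [h2, orderOf_one] at hz
    exact (Fact.out : p.Prime).one_lt.ne hz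
  have hW'eq : W' = T := by
    by_contra hc
    exact hneW (hmax W' hW'n (lt_of_le_of_ne hW'T hc) hle)
  refine ⟨W, hWT.le, hWn, ?_⟩
  rw [← hW'eq]
  have h6 := Subgroup.relIndex_ker (K := W') π
  rw [QuotientGroup.ker_mk'] at h6
  rw [h6, show W'.map π = Z from
    Subgroup.map_comap_eq_self_of_surjective (QuotientGroup.mk'_surjective W) Z]
  rw [Nat.card_zpowers, hz]

end NormalChain

/-! ### Conjugates -/

/-- The conjugate of a subgroup. -/
def cj (g : S) (K : Subgroup S) : Subgroup S := K.map (MulAut.conj g).toMonoidHom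

omit [Finite S] in
theorem mem_cj {g x : S} {K : Subgroup S} : x ∈ cj g K ↔ g⁻¹ * x * g ∈ K := by
  constructor
  · rintro ⟨k, hk, rfl⟩
    have : g⁻¹ * ((MulAut.conj g).toMonoidHom k) * g = k := by
      simp [MulAut.conj_apply, mul_assoc]
    rwa [this]
  · intro h
    refine ⟨_, h, ?_⟩
    simp [MulAut.conj_apply, mul_assoc]

omit [Finite S] in
theorem conj_mem_cj {g k : S} {K : Subgroup S} (hk : k ∈ K) : g * k * g⁻¹ ∈ cj g K := by
  rw [mem_cj]
  simpa [mul_assoc] using hk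

omit [Finite S] in
theorem card_cj (g : S) (K : Subgroup S) : Nat.card (cj g K) = Nat.card K :=
  Subgroup.card_map_of_injective (MulAut.conj g).injective

/-! ### The data -/

/-- `T` is elementary abelian of order 16, `B ≤ T` is a four-group, and `C(b) ≤ T` for `1 ≠ b ∈ B`. -/
structure E16Data (T B : Subgroup S) : Prop where
  comm : ∀ a ∈ T, ∀ b ∈ T, a * b = b * a
  sq : ∀ t ∈ T, t ^ 2 = 1
  card : Nat.card T = 16
  le : B ≤ T
  cardB : Nat.card B = 4
  cent : ∀ b ∈ B, b ≠ 1 → ∀ x, x * b = b * x → x ∈ T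

variable {T B : Subgroup S}

theorem E16Data.conj (d : E16Data T B) (g : S) : E16Data (cj g T) (cj g B) where
  comm := by
    intro a ha b hb
    rw [mem_cj] at ha hb
    have := d.comm _ ha _ hb
    have h : g⁻¹ * (a * b) * g = g⁻¹ * (b * a) * g := by
      calc g⁻¹ * (a * b) * g = (g⁻¹ * a * g) * (g⁻¹ * b * g) := by group
        _ = (g⁻¹ * b * g) * (g⁻¹ * a * g) := this
        _ = _ := by group
    exact mul_left_cancel (mul_right_cancel h)
  sq := by
    intro t ht
    rw [mem_cj] at ht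
    have := d.sq _ ht
    have h : g⁻¹ * t ^ 2 * g = 1 := by
      rw [← this, pow_two, pow_two]
      group
    have h2 : t ^ 2 = g * 1 * g⁻¹ := by
      rw [← h]; group
    simpa using h2
  card := by rw [card_cj, d.card]
  le := Subgroup.map_mono d.le
  cardB := by rw [card_cj, d.cardB]
  cent := by
    intro b hb hb1 x hx
    rw [mem_cj] at hb ⊢
    refine d.cent _ hb ?_ _ ?_
    · intro h
      apply hb1
      have : b = g * (g⁻¹ * b * g) * g⁻¹ := by group
      rw [this, h]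
      group
    · calc g⁻¹ * x * g * (g⁻¹ * b * g) = g⁻¹ * (x * b) * g := by group
        _ = g⁻¹ * (b * x) * g := by rw [hx]
        _ = _ := by group

theorem E16Data.meet (d : E16Data T B) {K : Subgroup S} (hK : K ≤ T) (h8 : 8 ≤ Nat.card K) :
    ∃ b, b ∈ K ∧ b ∈ B ∧ b ≠ 1 := by
  by_contra hcon
  push_neg at hcon
  have hinf : K ⊓ B = ⊥ := by
    rw [eq_bot_iff]
    intro x hx
    exact hcon x hx.1 hx.2
  have := card_mul_card_le K B T hK d.le hinf
  rw [d.card, d.cardB] at this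
  omega

theorem E16Data.card_le_four_or (d : E16Data T B) {K : Subgroup S} (hK : K ≤ T) :
    Nat.card K ≤ 4 ∨ 8 ≤ Nat.card K := by
  have h := Subgroup.card_dvd_of_le hK
  rw [d.card] at h
  have hle : Nat.card K ≤ 16 := Nat.le_of_dvd (by norm_num) h
  generalize Nat.card K = n at *
  interval_cases n <;> omega

theorem E16Data.small (d : E16Data T B) {K : Subgroup S} {h : S} (hK : K ≤ T) (hh : h ∉ T)
    (hc : ∀ k ∈ K, h * k = k * h) : Nat.card K ≤ 4 := by
  rcases d.card_le_four_or hK with h4 | h8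
  · exact h4
  · obtain ⟨b, hbK, hbB, hb1⟩ := d.meet hK h8
    exact absurd (d.cent b hbB hb1 h (hc b hbK)) hh

/-- A relative index is at most the order of the larger subgroup. -/
theorem relIndex_le_card {H N : Subgroup S} (hNH : N ≤ H) : N.relIndex H ≤ Nat.card H := by
  have h1 := card_eq_relIndex_mul (S := S) hNH
  have h2 : 0 < Nat.card N := Nat.card_pos
  rw [h1]
  exact Nat.le_mul_of_pos_right _ h2

/-- Groups of order at most 64 with an `E16Data`. -/
theorem E16Data.sqBound_of_card_le (d : E16Data T B) (hS : IsPGroup 2 S) (h64 : Nat.card S ≤ 64) :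
    SqBound 4 S := by
  intro H N hNH hsq
  by_cases h16 : Nat.card H ≤ 16
  · exact (relIndex_le_card hNH).trans (by simpa using h16)
  · have hH : 32 ≤ Nat.card H := by
      obtain ⟨k, hk⟩ := IsPGroup.iff_card.1 hS
      exact ge_32_of_dvd (Subgroup.card_subgroup_dvd_card H) hk (by omega)
    have h1 := card_mul_le_card_inf_mul H T ⊤ le_top le_top
    rw [Subgroup.card_top, d.card] at h1
    have h2 : 8 ≤ Nat.card ↥(H ⊓ T) := by
      by_contra hc
      have : Nat.card H * 16 ≤ 7 * 64 :=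
        h1.trans (Nat.mul_le_mul (by omega) h64)
      omega
    obtain ⟨b, hbK, hbB, hb1⟩ := d.meet (inf_le_right : H ⊓ T ≤ T) h2
    have h3 := relIndex_le_cent hNH hsq hbK.1
    have h4 : Subgroup.centralizer ({b} : Set S) ⊓ H ≤ T := by
      rintro x ⟨hx, -⟩
      exact d.cent b hbB hb1 x (Subgroup.mem_centralizer_singleton_iff.1 hx)
    have h5 := Subgroup.card_le_of_le h4
    rw [d.card] at h5
    exact h3.trans (by simpa using h5)



/-! ### The normalizer of `T` -/

/-- A divisor of a power of two which is below 8 is at most 4. -/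
theorem le_four_of_dvd {n m k : ℕ} (h : m ∣ n) (hn : n = 2 ^ k) (h8 : m < 8) : m ≤ 4 := by
  rw [hn] at h
  obtain ⟨j, -, rfl⟩ := (Nat.dvd_prime_pow Nat.prime_two).1 h
  by_contra hc
  have hj : j < 3 := by
    by_contra hj
    have : 2 ^ 3 ≤ 2 ^ j := Nat.pow_le_pow_right (by norm_num) (by omega)
    omega
  interval_cases j <;> omega

/-- The set-normalizer of a subgroup, as used below. -/
abbrev nrz (T : Subgroup S) : Subgroup S := Subgroup.normalizer (T : Set S)

omit [Finite S] in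
theorem le_nrz (T : Subgroup S) : T ≤ nrz T := Subgroup.le_normalizer

omit [Finite S] in
theorem nrz_conj {T : Subgroup S} {p t : S} (hp : p ∈ nrz T) (ht : t ∈ T) : p * t * p⁻¹ ∈ T :=
  (Subgroup.mem_normalizer_iff.1 hp t).1 ht

omit [Finite S] in
theorem nrz_conj' {T : Subgroup S} {p t : S} (hp : p ∈ nrz T) (ht : t ∈ T) : p⁻¹ * t * p ∈ T :=
  (Subgroup.mem_normalizer_iff''.1 hp t).1 ht

/-- Invariant subgroup of order 8. -/
theorem E16Data.exists_hyperplane (d : E16Data T B) (hS : IsPGroup 2 S) :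
    ∃ W : Subgroup S, W ≤ T ∧ Nat.card W = 8 ∧ ∀ a ∈ nrz T, ∀ w ∈ W, a * w * a⁻¹ ∈ W := by
  haveI : Fact (Nat.Prime 2) := ⟨Nat.prime_two⟩
  let P := nrz T
  have hT0 : (T.subgroupOf P).Normal := Subgroup.normal_in_normalizer
  have hcard : Nat.card (T.subgroupOf P) = 16 := by
    rw [← d.card]
    exact Nat.card_congr (Subgroup.subgroupOfEquivOfLe (le_nrz T)).toEquiv
  have hne : T.subgroupOf P ≠ ⊥ := by
    intro h
    rw [h, Subgroup.card_bot] at hcard
    omega
  obtain ⟨W₀, hW₀T, hW₀n, hW₀i⟩ :=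
    exists_normal_index_prime (hS.to_subgroup P) (T.subgroupOf P) hT0 hne
  refine ⟨W₀.map P.subtype, ?_, ?_, ?_⟩
  · rintro _ ⟨x, hx, rfl⟩
    exact Subgroup.mem_subgroupOf.1 (hW₀T hx)
  · rw [Subgroup.card_map_of_injective P.subtype_injective]
    have := card_eq_relIndex_mul (S := P) hW₀T
    rw [hcard, hW₀i] at this
    omega
  · rintro a ha _ ⟨x, hx, rfl⟩
    have := hW₀n.conj_mem x hx ⟨a, ha⟩
    exact ⟨_, this, by simp⟩

theorem E16Data.relIndex_nrz_le (d : E16Data T B) (hS : IsPGroup 2 S) : T.relIndex (nrz T) ≤ 4 := by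
  obtain ⟨W, hWT, hW8, hWn⟩ := d.exists_hyperplane hS
  obtain ⟨b, hbW, hbB, hb1⟩ := d.meet hWT (by omega)
  have h1 := relIndex_cent_lt (nrz T) W b
    (fun a ha => W.mul_mem (hWn a ha b hbW) (W.inv_mem hbW)) hb1 (W.inv_mem hbW)
  have h2 : Subgroup.centralizer ({b} : Set S) ⊓ nrz T = T := by
    apply le_antisymm
    · rintro x ⟨hx, -⟩
      exact d.cent b hbB hb1 x (Subgroup.mem_centralizer_singleton_iff.1 hx)
    · intro x hx
      exact ⟨Subgroup.mem_centralizer_singleton_iff.2 (d.comm x hx b (d.le hbB)), le_nrz T hx⟩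
  have h3 : (Subgroup.centralizer ({b} : Set S)).relIndex (nrz T) = T.relIndex (nrz T) := by
    rw [← Subgroup.inf_relIndex_right, h2]
  rw [h3, hW8] at h1
  obtain ⟨k, hk⟩ := IsPGroup.iff_card.1 hS
  have h4 : T.relIndex (nrz T) ∣ Nat.card (nrz T) := by
    rw [card_eq_relIndex_mul (S := S) (le_nrz T)]
    exact dvd_mul_right _ _
  exact le_four_of_dvd (h4.trans (Subgroup.card_subgroup_dvd_card _)) hk h1

/-! ### Two `E₁₆`'s in a group of order 64 -/

/-- `P = T T'` of order 64, both normal in `P`, with `|T ⊓ T'| = 4`. -/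
structure PP (T B T' B' P : Subgroup S) : Prop where
  d : E16Data T B
  d' : E16Data T' B'
  le : T ≤ P
  le' : T' ≤ P
  cardF : Nat.card ↥(T ⊓ T') = 4
  cardP : Nat.card P = 64
  fac : ∀ x ∈ P, ∃ t ∈ T, ∃ s ∈ T', x = t * s
  nrm : ∀ p ∈ P, ∀ t ∈ T, p * t * p⁻¹ ∈ T
  nrm' : ∀ p ∈ P, ∀ t ∈ T', p * t * p⁻¹ ∈ T'

variable {T' B' P : Subgroup S}

theorem PP.symm (h : PP T B T' B' P) : PP T' B' T B P where
  d := h.d'
  d' := h.d
  le := h.le'
  le' := h.le
  cardF := by rw [inf_comm]; exact h.cardF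
  cardP := h.cardP
  fac := by
    intro x hx
    obtain ⟨t, ht, s, hs, rfl⟩ := h.fac x hx
    refine ⟨t * s * t⁻¹, h.nrm' t (h.le ht) s hs, t, ht, by group⟩
  nrm := h.nrm'
  nrm' := h.nrm

/-- If `s ∈ T' \ T` commutes with `t ∈ T`, then `t ∈ T'`. -/
theorem PP.mem_of_comm (h : PP T B T' B' P) {t s : S} (ht : t ∈ T) (hs : s ∈ T') (hsT : s ∉ T)
    (hc : s * t = t * s) : t ∈ T' := by
  let K : Subgroup S := Subgroup.centralizer ({s} : Set S) ⊓ T
  have hK : K ≤ T := inf_le_right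
  have h4 : Nat.card K ≤ 4 := h.d.small hK hsT (by
    rintro k ⟨hk, -⟩
    exact (Subgroup.mem_centralizer_singleton_iff.1 hk).symm)
  have hFK : T ⊓ T' ≤ K := by
    rintro x ⟨hx, hx'⟩
    exact ⟨Subgroup.mem_centralizer_singleton_iff.2 (h.d'.comm x hx' s hs), hx⟩
  have heq := Subgroup.eq_of_le_of_card_ge hFK (by rw [h.cardF]; exact h4)
  have htK : t ∈ K := ⟨Subgroup.mem_centralizer_singleton_iff.2 hc.symm, ht⟩
  rw [← heq] at htK
  exact htK.2

/-- Involutions of `P` lie in `T ∪ T'`. -/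
theorem PP.mem_or_of_sq (h : PP T B T' B' P) {x : S} (hx : x ∈ P) (hx2 : x ^ 2 = 1) :
    x ∈ T ∨ x ∈ T' := by
  obtain ⟨t, ht, s, hs, rfl⟩ := h.fac x hx
  by_cases hsT : s ∈ T
  · exact Or.inl (T.mul_mem ht hsT)
  · refine Or.inr (T'.mul_mem (h.mem_of_comm ht hs hsT ?_) hs)
    have ht2 := h.d.sq t ht
    have hs2 := h.d'.sq s hs
    rw [pow_two] at hx2 ht2 hs2
    -- (ts)(ts)=1 gives st = ts
    calc s * t = s * t * (t * s * (t * s)) := by rw [hx2, mul_one]
      _ = s * (t * t) * s * (t * s) := by group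
      _ = s * s * (t * s) := by rw [ht2]; group
      _ = t * s := by rw [hs2, one_mul]

/-- Elementary abelian subgroups of `P` lie in `T` or `T'`. -/
theorem PP.elem_le (h : PP T B T' B' P) {R : Subgroup S} (hR : R ≤ P) (hsq : ∀ r ∈ R, r ^ 2 = 1) :
    R ≤ T ∨ R ≤ T' := by
  by_contra hcon
  push_neg at hcon
  obtain ⟨h1, h2⟩ := hcon
  obtain ⟨r, hr, hrT⟩ := SetLike.not_le_iff_exists.1 h1
  obtain ⟨r', hr', hrT'⟩ := SetLike.not_le_iff_exists.1 h2
  have hr1 : r ∈ T' := (h.mem_or_of_sq (hR hr) (hsq r hr)).resolve_left hrT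
  have hr2 : r' ∈ T := (h.mem_or_of_sq (hR hr') (hsq r' hr')).resolve_right hrT'
  have hrr : r * r' ∈ R := R.mul_mem hr hr'
  rcases h.mem_or_of_sq (hR hrr) (hsq _ hrr) with h3 | h3
  · apply hrT
    have := T.mul_mem h3 (T.inv_mem hr2)
    simpa using this
  · apply hrT'
    have := T'.mul_mem (T'.inv_mem hr1) h3
    simpa using this

/-- Subgroups of `P` like `T` are `T` or `T'`. -/
theorem PP.eq_of_elem (h : PP T B T' B' P) {K : Subgroup S} (hK : K ≤ P) (hsq : ∀ r ∈ K, r ^ 2 = 1)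
    (hcard : Nat.card K = 16) : K = T ∨ K = T' := by
  rcases h.elem_le hK hsq with h1 | h1
  · exact Or.inl (Subgroup.eq_of_le_of_card_ge h1 (by rw [hcard, h.d.card]))
  · exact Or.inr (Subgroup.eq_of_le_of_card_ge h1 (by rw [hcard, h.d'.card]))

/-- Index bound: an element of `P` outside `T'` has at least 4 conjugates under `T'`. -/
theorem PP.four_le_relIndex (h : PP T B T' B' P) {u : S} (hu : u ∈ P) (huT : u ∉ T') :
    4 ≤ (Subgroup.centralizer ({u} : Set S)).relIndex T' := by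
  obtain ⟨t, ht, s, hs, rfl⟩ := h.fac u hu
  have htT' : t ∉ T' := fun h1 => huT (T'.mul_mem h1 hs)
  let C := Subgroup.centralizer ({t * s} : Set S)
  have h1 : C ⊓ T' ≤ T ⊓ T' := by
    rintro a ⟨ha, ha'⟩
    refine ⟨h.symm.mem_of_comm ha' ht htT' ?_, ha'⟩
    have h2 : a * (t * s) = t * s * a := Subgroup.mem_centralizer_singleton_iff.1 ha
    have h3 : a * s = s * a := h.d'.comm a ha' s hs
    have h4 : a * t * s = t * a * s := by
      calc a * t * s = a * (t * s) := by group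
        _ = t * s * a := h2
        _ = t * (s * a) := by group
        _ = t * (a * s) := by rw [h3]
        _ = t * a * s := by group
    exact (mul_right_cancel h4).symm
  have h2 := Subgroup.card_le_of_le h1
  rw [h.cardF] at h2
  have h3 := card_eq_relIndex_mul_inf C T'
  rw [h.d'.card] at h3
  by_contra hc
  have hc' : C.relIndex T' ≤ 3 := by
    have := not_le.1 hc
    exact Nat.lt_succ_iff.1 this
  have : C.relIndex T' * Nat.card ↥(C ⊓ T') ≤ 3 * 4 := Nat.mul_le_mul hc' h2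
  omega

/-- Centralizers in `P` of elements outside `T'` have order at most 16. -/
theorem PP.card_cent_le (h : PP T B T' B' P) {u : S} (hu : u ∈ P) (huT : u ∉ T') :
    Nat.card ↥(Subgroup.centralizer ({u} : Set S) ⊓ P) ≤ 16 := by
  let C := Subgroup.centralizer ({u} : Set S)
  have h4 : 4 ≤ C.relIndex T' := h.four_le_relIndex hu huT
  have h5 := card_eq_relIndex_mul_inf C P
  rw [h.cardP] at h5
  have hne : C.relIndex P ≠ 0 := by
    intro h0
    rw [h0] at h5
    omega
  have h6 := Subgroup.relIndex_le_of_le_right h.le' hne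
  by_contra hc
  have hc' : 17 ≤ Nat.card ↥(C ⊓ P) := by
    have := not_le.1 hc
    exact this
  have : 4 * 17 ≤ C.relIndex P * Nat.card ↥(C ⊓ P) := Nat.mul_le_mul (h4.trans h6) hc'
  omega

/-- The bound inside `P`. -/
theorem PP.bound_in (h : PP T B T' B' P) {H N : Subgroup S} (hHP : H ≤ P) (hNH : N ≤ H)
    (hsq : ∀ x ∈ H, x ^ 2 ∈ N) : N.relIndex H ≤ 16 := by
  by_cases hF : H ≤ T ⊓ T'
  · have h1 := Subgroup.card_le_of_le hF
    rw [h.cardF] at h1
    exact (relIndex_le_card hNH).trans (by omega)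
  · obtain ⟨u, hu, huF⟩ := SetLike.not_le_iff_exists.1 hF
    have h1 : N.relIndex H ≤ Nat.card ↥(Subgroup.centralizer ({u} : Set S) ⊓ H) :=
      relIndex_le_cent hNH hsq hu
    have h2 : Nat.card ↥(Subgroup.centralizer ({u} : Set S) ⊓ H)
        ≤ Nat.card ↥(Subgroup.centralizer ({u} : Set S) ⊓ P) :=
      Subgroup.card_le_of_le (inf_le_inf_left _ hHP)
    have h3 : Nat.card ↥(Subgroup.centralizer ({u} : Set S) ⊓ P) ≤ 16 := by
      by_cases huT : u ∈ T'
      · have huT2 : u ∉ T := fun h4 => huF ⟨h4, huT⟩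
        exact h.symm.card_cent_le (hHP hu) huT2
      · exact h.card_cent_le (hHP hu) huT
    omega



/-! ### Construction of `PP` and the final argument -/

omit [Finite S] in
theorem mem_nrz_of_cj_eq {g : S} {T : Subgroup S} (h : cj g T = T) : g ∈ nrz T := by
  rw [Subgroup.mem_normalizer_iff'']
  intro x
  rw [← mem_cj, h]

omit [Finite S] in
theorem inv_mul_mem_nrz_of_cj_eq {g x : S} {T : Subgroup S} (h : cj g T = cj x T) :
    g⁻¹ * x ∈ nrz T := by
  rw [Subgroup.mem_normalizer_iff]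
  intro y
  have h1 : g * y * g⁻¹ ∈ cj g T ↔ y ∈ T := by
    rw [mem_cj]
    have : g⁻¹ * (g * y * g⁻¹) * g = y := by group
    rw [this]
  have h2 : g⁻¹ * x * y * (g⁻¹ * x)⁻¹ ∈ T ↔ g * (g⁻¹ * x * y * (g⁻¹ * x)⁻¹) * g⁻¹ ∈ cj g T := by
    rw [mem_cj]
    have : g⁻¹ * (g * (g⁻¹ * x * y * (g⁻¹ * x)⁻¹) * g⁻¹) * g = g⁻¹ * x * y * (g⁻¹ * x)⁻¹ := by group
    rw [this]
  rw [h2, h]
  have h3 : g * (g⁻¹ * x * y * (g⁻¹ * x)⁻¹) * g⁻¹ = x * y * x⁻¹ := by group
  rw [h3, mem_cj]
  have : x⁻¹ * (x * y * x⁻¹) * x = y := by group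
  rw [this]

theorem E16Data.pp (d : E16Data T B) (hS : IsPGroup 2 S) {g : S} (hg : g ∈ nrz (nrz T))
    (hgP : g ∉ nrz T) : PP T B (cj g T) (cj g B) (nrz T) := by
  have d' := d.conj g
  have hle' : cj g T ≤ nrz T := by
    intro x hx
    rw [mem_cj] at hx
    exact (Subgroup.mem_normalizer_iff''.1 hg x).2 (le_nrz T hx)
  have hidx := d.relIndex_nrz_le hS
  have hnl : ¬ cj g T ≤ T := by
    intro hle
    apply hgP
    apply mem_nrz_of_cj_eq
    exact Subgroup.eq_of_le_of_card_ge hle (by rw [d.card, d'.card])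
  obtain ⟨s, hs, hsT⟩ := SetLike.not_le_iff_exists.1 hnl
  have hP0 : T.relIndex (nrz T) ≠ 0 := by
    intro h0
    have h1 := card_eq_relIndex_mul (S := S) (le_nrz T)
    rw [h0] at h1
    have : 0 < Nat.card (nrz T) := Nat.card_pos
    omega
  have hF4 : Nat.card ↥(T ⊓ cj g T) = 4 := by
    apply le_antisymm
    · exact d.small (inf_le_left : T ⊓ cj g T ≤ T) hsT (fun k hk => d'.comm s hs k hk.2)
    · have h1 := card_eq_relIndex_mul_inf T (cj g T)
      rw [d'.card] at h1
      have h2 : T.relIndex (cj g T) ≤ 4 := (Subgroup.relIndex_le_of_le_right hle' hP0).trans hidx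
      by_contra hc
      have : T.relIndex (cj g T) * Nat.card ↥(T ⊓ cj g T) ≤ 4 * 3 := Nat.mul_le_mul h2 (by omega)
      omega
  have hcT := card_eq_relIndex_mul (S := S) (le_nrz T)
  rw [d.card] at hcT
  have hP64 : Nat.card (nrz T) = 64 := by
    apply le_antisymm
    · rw [hcT]
      nlinarith
    · have := card_mul_le_card_inf_mul T (cj g T) (nrz T) (le_nrz T) hle'
      rw [d.card, d'.card, hF4] at this
      omega
  have hfac : ∀ x ∈ nrz T, ∃ t ∈ T, ∃ s ∈ cj g T, x = t * s := by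
    have hL : T ⊔ cj g T = nrz T := by
      apply Subgroup.eq_of_le_of_card_ge (sup_le (le_nrz T) hle')
      have := card_mul_le_card_inf_mul T (cj g T) (T ⊔ cj g T) le_sup_left le_sup_right
      rw [d.card, d'.card, hF4] at this
      rw [hP64]
      omega
    intro x hx
    rw [← hL] at hx
    have h1 : x ∈ ((T ⊔ cj g T : Subgroup S) : Set S) := hx
    rw [Subgroup.coe_mul_of_right_le_normalizer_left T (cj g T) hle', Set.mem_mul] at h1
    obtain ⟨t, ht, s, hs, rfl⟩ := h1
    exact ⟨t, ht, s, hs, rfl⟩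
  refine ⟨d, d', le_nrz T, hle', hF4, hP64, hfac, fun p hp t ht => nrz_conj hp ht, ?_⟩
  intro p hp x hx
  rw [mem_cj] at hx ⊢
  have h1 : g⁻¹ * p * g ∈ nrz T := (Subgroup.mem_normalizer_iff''.1 hg p).1 hp
  have h2 := nrz_conj h1 hx
  have h3 : g⁻¹ * p * g * (g⁻¹ * x * g) * (g⁻¹ * p * g)⁻¹ = g⁻¹ * (p * x * p⁻¹) * g := by group
  rwa [h3] at h2

/-- Index at most two. -/
theorem relIndex_le_two_of (A K : Subgroup S) (v : S) (h : ∀ x ∈ A, x ∈ K ∨ v⁻¹ * x ∈ K) :
    K.relIndex A ≤ 2 := by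
  classical
  let C := K.subgroupOf A
  let f : (A ⧸ C) → Bool := fun q => decide ((q.out : S) ∈ K)
  have hf : Function.Injective f := by
    intro q₁ q₂ hq
    rw [← q₁.out_eq', ← q₂.out_eq', QuotientGroup.eq, Subgroup.mem_subgroupOf]
    simp only [Subgroup.coe_mul, InvMemClass.coe_inv]
    have hq' : (q₁.out : S) ∈ K ↔ (q₂.out : S) ∈ K := by
      simpa [f] using hq
    by_cases h1 : (q₁.out : S) ∈ K
    · exact K.mul_mem (K.inv_mem h1) (hq'.1 h1)
    · have h2 : (q₂.out : S) ∉ K := fun h3 => h1 (hq'.2 h3)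
      have h3 := (h _ q₁.out.2).resolve_left h1
      have h4 := (h _ q₂.out.2).resolve_left h2
      have h5 := K.mul_mem (K.inv_mem h3) h4
      have h6 : (v⁻¹ * (q₁.out : S))⁻¹ * (v⁻¹ * (q₂.out : S)) = (q₁.out : S)⁻¹ * (q₂.out : S) := by
        group
      rwa [h6] at h5
  have := Nat.card_le_card_of_injective f hf
  simpa [Subgroup.relIndex, Subgroup.index] using this




section Main

variable {g : S}

omit [Finite S] in
theorem cj_le_nrz {P K : Subgroup S} {w : S} (hw : w ∈ nrz P) (hK : K ≤ P) : cj w K ≤ P := by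
  intro x hx
  rw [mem_cj] at hx
  exact (Subgroup.mem_normalizer_iff''.1 hw x).2 (hK hx)

theorem PP.swap (h : PP T B (cj g T) (cj g B) (nrz T)) {v : S} (hv : v ∈ nrz (nrz T))
    (hvP : v ∉ nrz T) : cj v T = cj g T := by
  rcases h.eq_of_elem (cj_le_nrz hv h.le) (h.d.conj v).sq (h.d.conj v).card with h1 | h1
  · exact absurd (mem_nrz_of_cj_eq h1) hvP
  · exact h1

theorem PP.swap' (h : PP T B (cj g T) (cj g B) (nrz T)) {v : S} (hv : v ∈ nrz (nrz T))
    (hvP : v ∉ nrz T) : cj v (cj g T) = T := by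
  rcases h.eq_of_elem (cj_le_nrz hv h.le') (h.d'.conj v).sq (h.d'.conj v).card with h1 | h1
  · exact h1
  · exfalso
    have h2 := h.swap hv hvP
    rw [← h2] at h1
    have h3 : cj v T = T := by
      exact Subgroup.map_injective (f := (MulAut.conj v).toMonoidHom) (MulAut.conj v).injective h1
    have h4 := h.cardF
    rw [← h2, h3, inf_idem, h.d.card] at h4
    omega

theorem PP.relIndex_nrz_le (h : PP T B (cj g T) (cj g B) (nrz T)) :
    (nrz T).relIndex (nrz (nrz T)) ≤ 2 := by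
  apply relIndex_le_two_of _ _ g
  intro x hx
  by_cases hxP : x ∈ nrz T
  · exact Or.inl hxP
  · exact Or.inr (inv_mul_mem_nrz_of_cj_eq (h.swap hx hxP).symm)

/-- `P` is normal in `S`. -/
theorem PP.nrz_eq_top (h : PP T B (cj g T) (cj g B) (nrz T)) (hS : IsPGroup 2 S)
    (hg : g ∈ nrz (nrz T)) : nrz (nrz T) = ⊤ := by
  haveI : Fact (Nat.Prime 2) := ⟨Nat.prime_two⟩
  by_contra hne
  haveI := hS.isNilpotent
  have hlt := normalizerCondition_of_isNilpotent (G := S) (nrz (nrz T)) (lt_top_iff_ne_top.2 hne)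
  obtain ⟨k, hk, hkP⟩ := SetLike.exists_of_lt hlt
  have hPP1 : nrz T ≤ nrz (nrz T) := le_nrz _
  have hd2 := h.d.conj k
  have hT2P1 : cj k T ≤ nrz (nrz T) := cj_le_nrz hk (h.le.trans hPP1)
  by_cases hT2 : cj k T ≤ nrz T
  · rcases h.eq_of_elem hT2 hd2.sq hd2.card with h1 | h1
    · exact hkP (hPP1 (mem_nrz_of_cj_eq h1))
    · have h2 := inv_mul_mem_nrz_of_cj_eq h1.symm
      apply hkP
      have := (nrz (nrz T)).mul_mem hg (hPP1 h2)
      simpa using this
  · obtain ⟨v, hv, hvP⟩ := SetLike.not_le_iff_exists.1 hT2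
    have hv1 := hT2P1 hv
    have hidx := h.relIndex_nrz_le
    have h0 : (nrz T).relIndex (nrz (nrz T)) ≠ 0 := by
      intro h0
      have h1 := card_eq_relIndex_mul (S := S) hPP1
      rw [h0] at h1
      have : 0 < Nat.card (nrz (nrz T)) := Nat.card_pos
      omega
    have h2 : (nrz T).relIndex (cj k T) ≤ 2 :=
      (Subgroup.relIndex_le_of_le_right hT2P1 h0).trans hidx
    have h3 := card_eq_relIndex_mul_inf (nrz T) (cj k T)
    rw [hd2.card] at h3
    have h4 : 8 ≤ Nat.card ↥(nrz T ⊓ cj k T) := by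
      by_contra hc
      have : (nrz T).relIndex (cj k T) * Nat.card ↥(nrz T ⊓ cj k T) ≤ 2 * 7 :=
        Nat.mul_le_mul h2 (by omega)
      omega
    have hvcomm : ∀ r ∈ nrz T ⊓ cj k T, v * r * v⁻¹ = r := by
      rintro r ⟨-, hr⟩
      rw [hd2.comm v hv r hr]
      group
    have hsw := h.swap hv1 hvP
    have hsw' := h.swap' hv1 hvP
    have hRF : nrz T ⊓ cj k T ≤ T ⊓ cj g T := by
      rcases h.elem_le (inf_le_left : nrz T ⊓ cj k T ≤ nrz T) (fun r hr => hd2.sq r hr.2) with h5 | h5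
      · intro r hr
        refine ⟨h5 hr, ?_⟩
        rw [← hsw, ← hvcomm r hr]
        exact conj_mem_cj (h5 hr)
      · intro r hr
        refine ⟨?_, h5 hr⟩
        rw [← hsw', ← hvcomm r hr]
        exact conj_mem_cj (h5 hr)
    have h6 := Subgroup.card_le_of_le hRF
    rw [h.cardF] at h6
    omega

/-- The key case: `H` not in `P`. -/
theorem PP.bound_out (h : PP T B (cj g T) (cj g B) (nrz T)) (hS : IsPGroup 2 S)
    (hg : g ∈ nrz (nrz T)) {H N : Subgroup S} (hNH : N ≤ H) (hsq : ∀ x ∈ H, x ^ 2 ∈ N) {v : S}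
    (hvH : v ∈ H) (hvP : v ∉ nrz T) : N.relIndex H ≤ 16 := by
  have htop := h.nrz_eq_top hS hg
  have hv : v ∈ nrz (nrz T) := by rw [htop]; exact Subgroup.mem_top v
  have hsw := h.swap hv hvP
  have hsw' := h.swap' hv hvP
  -- conjugation rules
  have conjTT' : ∀ t ∈ T, v * t * v⁻¹ ∈ cj g T := by
    intro t ht
    rw [← hsw]
    exact conj_mem_cj ht
  have conjT'T : ∀ s ∈ cj g T, v * s * v⁻¹ ∈ T := by
    intro s hs
    have := conj_mem_cj (g := v) hs
    rwa [hsw'] at this
  have iconjT'T : ∀ s ∈ cj g T, v⁻¹ * s * v ∈ T := by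
    intro s hs
    rw [← hsw, mem_cj] at hs
    exact hs
  have iconjTT' : ∀ s ∈ T, v⁻¹ * s * v ∈ cj g T := by
    intro s hs
    rw [← hsw', mem_cj] at hs
    exact hs
  have hidx : ∀ A : Subgroup S, (nrz T).relIndex A ≤ 2 := by
    intro A
    have h1 := h.relIndex_nrz_le
    rw [htop] at h1
    have h0 : (nrz T).relIndex ⊤ ≠ 0 := by
      intro h0
      have h2 := card_eq_relIndex_mul (S := S) (le_top : nrz T ≤ ⊤)
      rw [h0] at h2
      have : 0 < Nat.card (⊤ : Subgroup S) := Nat.card_pos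
      omega
    exact (Subgroup.relIndex_le_of_le_right le_top h0).trans h1
  have hbd : ∀ A : Subgroup S, Nat.card A ≤ 2 * Nat.card ↥(nrz T ⊓ A) := by
    intro A
    rw [card_eq_relIndex_mul_inf (nrz T) A]
    exact Nat.mul_le_mul_right _ (hidx A)
  by_contra hcon
  have hr : 32 ≤ N.relIndex H := by
    obtain ⟨k, hk⟩ := IsPGroup.iff_card.1 hS
    have h1 : N.relIndex H ∣ Nat.card H := by
      rw [card_eq_relIndex_mul (S := S) hNH]
      exact dvd_mul_right _ _
    exact ge_32_of_dvd (h1.trans (Subgroup.card_subgroup_dvd_card _)) hk (by omega)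
  have hHcard := card_eq_relIndex_mul (S := S) hNH
  have hNpos : 0 < Nat.card N := Nat.card_pos
  by_cases hA : ∃ t ∈ H, t ∈ T ∧ t ∉ cj g T
  · -- Case A
    obtain ⟨t, htH, htT, htT'⟩ := hA
    let C := Subgroup.centralizer ({t} : Set S)
    have h1 : N.relIndex H ≤ Nat.card ↥(C ⊓ H) := relIndex_le_cent hNH hsq htH
    have h2 := hbd (C ⊓ H)
    have hCP : C ⊓ nrz T = T := by
      symm
      apply Subgroup.eq_of_le_of_card_ge
      · intro x hx
        exact ⟨Subgroup.mem_centralizer_singleton_iff.2 (h.d.comm x hx t htT), h.le hx⟩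
      · rw [h.d.card]
        exact h.card_cent_le (h.le htT) htT'
    have h3 : nrz T ⊓ (C ⊓ H) ≤ H ⊓ T := by
      rintro x ⟨hxP, hxC, hxH⟩
      refine ⟨hxH, ?_⟩
      rw [← hCP]
      exact ⟨hxC, hxP⟩
    have h4 := Subgroup.card_le_of_le h3
    have h5 : Nat.card ↥(H ⊓ T) ≤ 16 := by
      have := Subgroup.card_le_of_le (inf_le_right : H ⊓ T ≤ T)
      rwa [h.d.card] at this
    have h6 : Nat.card ↥(H ⊓ T) = Nat.card T := by
      rw [h.d.card]
      omega
    have hTH : T ≤ H := by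
      have := Subgroup.eq_of_le_of_card_ge (inf_le_right : H ⊓ T ≤ T) h6.ge
      rw [← this]
      exact inf_le_left
    have hT'H : cj g T ≤ H := by
      intro x hx
      have h7 := hTH (iconjT'T x hx)
      have h8 := H.mul_mem (H.mul_mem hvH h7) (H.inv_mem hvH)
      have h9 : v * (v⁻¹ * x * v) * v⁻¹ = x := by group
      rwa [h9] at h8
    -- `|N| ≤ 4`
    have hN4 : Nat.card N ≤ 4 := by
      have h7 := hbd H
      have h8 : Nat.card ↥(nrz T ⊓ H) ≤ 64 := by
        have := Subgroup.card_le_of_le (inf_le_left : nrz T ⊓ H ≤ nrz T)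
        rwa [h.cardP] at this
      by_contra hc
      have : 32 * 5 ≤ N.relIndex H * Nat.card N := Nat.mul_le_mul hr (by omega)
      omega
    -- commutators with `t`
    have h7 := relIndex_cent_le (cj g T) (N ⊓ (T ⊓ cj g T)) t (by
      intro a ha
      refine ⟨comm_mem_of_squares hsq (hT'H ha) htH, ?_, ?_⟩
      · exact T.mul_mem (h.nrm a (h.le' ha) t htT) (T.inv_mem htT)
      · have h8 := h.nrm' t (h.le htT) a⁻¹ ((cj g T).inv_mem ha)
        have h9 := (cj g T).mul_mem ha h8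
        have h10 : a * (t * a⁻¹ * t⁻¹) = a * t * a⁻¹ * t⁻¹ := by group
        rwa [h10] at h9)
    have h8 := h.four_le_relIndex (h.le htT) htT'
    have h9 : Nat.card ↥(N ⊓ (T ⊓ cj g T)) ≤ 4 := by
      have := Subgroup.card_le_of_le (inf_le_right : N ⊓ (T ⊓ cj g T) ≤ T ⊓ cj g T)
      rwa [h.cardF] at this
    have h10 : N ⊓ (T ⊓ cj g T) = T ⊓ cj g T :=
      Subgroup.eq_of_le_of_card_ge inf_le_right (by rw [h.cardF]; omega)
    have hFN : T ⊓ cj g T ≤ N := by
      rw [← h10]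
      exact inf_le_left
    have hNF : T ⊓ cj g T = N :=
      Subgroup.eq_of_le_of_card_ge hFN (by rw [h.cardF]; exact hN4)
    have h11 : v * t * v⁻¹ * t⁻¹ ∈ N := comm_mem_of_squares hsq hvH htH
    rw [← hNF] at h11
    have h12 := T.mul_mem h11.1 htT
    have h13 : v * t * v⁻¹ * t⁻¹ * t = v * t * v⁻¹ := by group
    rw [h13] at h12
    have h14 := iconjTT' _ h12
    have h15 : v⁻¹ * (v * t * v⁻¹) * v = t := by group
    rw [h15] at h14
    exact htT' h14
  · -- Case B
    push_neg at hA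
    have hHT : H ⊓ T ≤ T ⊓ cj g T := fun x hx => ⟨hx.2, hA x hx.1 hx.2⟩
    have hHT4 := Subgroup.card_le_of_le hHT
    rw [h.cardF] at hHT4
    have h1 := card_mul_le_card_inf_mul (H ⊓ nrz T) T (nrz T) inf_le_right h.le
    have h2 : H ⊓ nrz T ⊓ T = H ⊓ T := by
      rw [inf_assoc, inf_eq_right.2 h.le]
    rw [h2, h.d.card, h.cardP] at h1
    have hR16 : Nat.card ↥(H ⊓ nrz T) ≤ 16 := by
      have : Nat.card ↥(H ⊓ T) * 64 ≤ 4 * 64 := Nat.mul_le_mul_right _ hHT4
      omega
    have h3 := hbd H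
    rw [inf_comm] at h3
    have hN1 : Nat.card N = 1 := by
      by_contra hc
      have : 32 * 2 ≤ N.relIndex H * Nat.card N := Nat.mul_le_mul hr (by omega)
      omega
    have hNbot : N = ⊥ := Subgroup.card_eq_one.1 hN1  
    have hsq1 : ∀ x ∈ H, x ^ 2 = 1 := by
      intro x hx
      have := hsq x hx
      rw [hNbot, Subgroup.mem_bot] at this
      exact this
    have hR : 16 ≤ Nat.card ↥(H ⊓ nrz T) := by
      have : 32 ≤ Nat.card H := by
        rw [hHcard]
        exact hr.trans (Nat.le_mul_of_pos_right _ hNpos)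
      omega
    rcases h.elem_le (inf_le_right : H ⊓ nrz T ≤ nrz T) (fun r hr => hsq1 r hr.1) with h4 | h4
    · have : H ⊓ nrz T ≤ H ⊓ T := le_inf inf_le_left h4
      have := Subgroup.card_le_of_le this
      omega
    · have h5 : cj v⁻¹ (H ⊓ nrz T) ≤ H ⊓ T := by
        intro x hx
        rw [mem_cj, inv_inv] at hx
        have h6 := iconjT'T _ (h4 hx)
        have h7 : v⁻¹ * (v * x * v⁻¹) * v = x := by group
        rw [h7] at h6
        refine ⟨?_, h6⟩
        have h8 := H.mul_mem (H.mul_mem (H.inv_mem hvH) hx.1) hvH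
        rw [h7] at h8
        exact h8
      have h6 := Subgroup.card_le_of_le h5
      rw [card_cj] at h6
      omega

end Main

/-- **Main theorem**: a 2-group with an `E16Data` has sectional 2-rank at most 4. -/
theorem E16Data.sqBound (d : E16Data T B) (hS : IsPGroup 2 S) : SqBound 4 S := by
  haveI : Fact (Nat.Prime 2) := ⟨Nat.prime_two⟩
  by_cases htop : nrz T = ⊤
  · apply d.sqBound_of_card_le hS
    have h1 := card_eq_relIndex_mul (S := S) (le_nrz T)
    rw [d.card, htop, Subgroup.card_top] at h1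
    have h2 := d.relIndex_nrz_le hS
    rw [htop] at h2
    rw [h1]
    nlinarith
  · haveI := hS.isNilpotent
    have hlt := normalizerCondition_of_isNilpotent (G := S) (nrz T) (lt_top_iff_ne_top.2 htop)
    obtain ⟨g, hg, hgP⟩ := SetLike.exists_of_lt hlt
    have h := d.pp hS hg hgP
    intro H N hNH hsq
    by_cases hH : H ≤ nrz T
    · exact (h.bound_in hH hNH hsq).trans (by norm_num)
    · obtain ⟨v, hvH, hvP⟩ := SetLike.not_le_iff_exists.1 hH
      exact (h.bound_out hS hg hNH hsq hvH hvP).trans (by norm_num)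

end Cfsg.Agent.Lib.SectE16
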