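import Mathlib
import Cfsg.Agent.Lib.SectRank
import Cfsg.Agent.Lib.SectE16

/-!
# An involution of a 2-group whose commutator subgroup has small fixed points

`S` a finite 2-group, `t` an involution, `N = [S, t]`.  If `|C_N(t)| ∈ {2, 4}` then every element of
`N` has the form `[x, t]`, so `t` inverts `N`, and `N` is abelian.
-/

set_option autoImplicit false

namespace Cfsg.Agent.Lib.WrInvA

open Cfsg.Agent.Lib.SectE16

variable {S : Type*} [Group S]

/-- `[S, t]`. -/
def tC (t : S) : Subgroup S := Subgroup.closure {y | ∃ x : S, y = x * t * x⁻¹ * t⁻¹}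

theorem gen_mem (t x : S) : x * t * x⁻¹ * t⁻¹ ∈ tC t := Subgroup.subset_closure ⟨x, rfl⟩

instance tC_normal (t : S) : (tC t).Normal := by
  constructor
  intro n hn g
  induction hn using Subgroup.closure_induction with
  | mem y hy =>
    obtain ⟨x, rfl⟩ := hy
    have e : g * (x * t * x⁻¹ * t⁻¹) * g⁻¹
        = ((g * x) * t * (g * x)⁻¹ * t⁻¹) * (g * t * g⁻¹ * t⁻¹)⁻¹ := by group
    rw [e]
    exact mul_mem (gen_mem _ _) (inv_mem (gen_mem _ _))
  | one => simp [one_mem]
  | mul a b _ _ ha hb =>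
    have e : g * (a * b) * g⁻¹ = (g * a * g⁻¹) * (g * b * g⁻¹) := by group
    rw [e]; exact mul_mem ha hb
  | inv a _ ha =>
    have e : g * a⁻¹ * g⁻¹ = (g * a * g⁻¹)⁻¹ := by group
    rw [e]; exact inv_mem ha

/-- Subgroup generated by squares of `N`. -/
def sqC (N : Subgroup S) : Subgroup S := Subgroup.closure {y | ∃ n ∈ N, y = n ^ 2}

theorem sq_mem_sqC {N : Subgroup S} {n : S} (hn : n ∈ N) : n ^ 2 ∈ sqC N :=
  Subgroup.subset_closure ⟨n, hn, rfl⟩

theorem sqC_le (N : Subgroup S) : sqC N ≤ N := by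
  rw [sqC, Subgroup.closure_le]
  rintro _ ⟨n, hn, rfl⟩
  exact N.pow_mem hn 2

instance sqC_normal (N : Subgroup S) [hN : N.Normal] : (sqC N).Normal := by
  constructor
  intro n hn g
  induction hn using Subgroup.closure_induction with
  | mem y hy =>
    obtain ⟨x, hx, rfl⟩ := hy
    have e : g * x ^ 2 * g⁻¹ = (g * x * g⁻¹) ^ 2 := by simp only [pow_two]; group
    rw [e]
    exact sq_mem_sqC (hN.conj_mem x hx g)
  | one => simp [one_mem]
  | mul a b _ _ ha hb =>
    have e : g * (a * b) * g⁻¹ = (g * a * g⁻¹) * (g * b * g⁻¹) := by group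
    rw [e]; exact mul_mem ha hb
  | inv a _ ha =>
    have e : g * a⁻¹ * g⁻¹ = (g * a * g⁻¹)⁻¹ := by group
    rw [e]; exact inv_mem ha

variable [Finite S]

/-- A proper subgroup of a finite 2-group lies in a normal subgroup of index 2. -/
theorem exists_index_two_above {G : Type*} [Group G] [Finite G] (hG : IsPGroup 2 G) (X : Subgroup G)
    (hX : X ≠ ⊤) : ∃ M : Subgroup G, X ≤ M ∧ M.Normal ∧ M.index = 2 := by
  have : Fact (Nat.Prime 2) := ⟨Nat.prime_two⟩
  have : Group.IsNilpotent G := hG.isNilpotent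
  have : IsCoatomic (Subgroup G) := inferInstance
  obtain ⟨M, hM, hXM⟩ := (eq_top_or_exists_le_coatom X).resolve_left hX
  have hn : M.Normal := Subgroup.NormalizerCondition.normal_of_coatom M
    Group.normalizerCondition_of_isNilpotent hM
  have := hn
  let π := QuotientGroup.mk' M
  have hY : IsPGroup 2 (G ⧸ M) := hG.of_surjective π (QuotientGroup.mk'_surjective M)
  have hne : (⊤ : Subgroup (G ⧸ M)) ≠ ⊥ := by
    intro h
    have h1 : Subsingleton (G ⧸ M) := Subgroup.subsingleton_iff.mp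
      (by
        constructor
        intro a b
        have : ∀ c : Subgroup (G ⧸ M), c = ⊥ := by
          intro c
          exact le_antisymm (h ▸ le_top) bot_le
        rw [this a, this b])
    have h2 : M = ⊤ := by
      rw [eq_top_iff]
      intro x _
      have : (x : G ⧸ M) = 1 := Subsingleton.elim _ _
      exact (QuotientGroup.eq_one_iff x).1 this
    exact hM.1 h2
  obtain ⟨W, -, hWn, hW⟩ := exists_normal_index_prime (p := 2) hY ⊤ inferInstance hne
  rw [Subgroup.relIndex_top_right] at hW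
  have hcomap : (W.comap π) = M := by
    have hle : M ≤ W.comap π := by
      intro x hx
      show π x ∈ W
      rw [show π x = 1 from (QuotientGroup.eq_one_iff x).2 hx]
      exact W.one_mem
    have hne' : W.comap π ≠ ⊤ := by
      intro h
      have h1 : W = ⊤ := by
        rw [eq_top_iff]
        intro y _
        obtain ⟨x, rfl⟩ := QuotientGroup.mk'_surjective M y
        have : x ∈ W.comap π := by rw [h]; trivial
        exact this
      rw [h1, Subgroup.index_top] at hW
      omega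
    rcases hM.le_iff.1 hle with h | h
    · exact (hne' h).elim
    · exact h.symm ▸ rfl
  refine ⟨M, hXM, hn, ?_⟩
  rw [← hcomap, Subgroup.index_comap_of_surjective _ (QuotientGroup.mk'_surjective M)]
  exact hW

/-- Frattini argument with squares. -/
theorem eq_of_le_sup_sqC (hS : IsPGroup 2 S) {X N : Subgroup S} (hXN : X ≤ N)
    (h : N ≤ X ⊔ sqC N) : X = N := by
  by_contra hne
  have hN : IsPGroup 2 N := hS.to_subgroup N
  have hX' : X.subgroupOf N ≠ ⊤ := by
    intro h1
    apply hne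
    apply le_antisymm hXN
    intro m hm
    have : (⟨m, hm⟩ : N) ∈ X.subgroupOf N := by rw [h1]; trivial
    exact this
  obtain ⟨M, hXM, -, hM⟩ := exists_index_two_above hN _ hX'
  let M' : Subgroup S := M.map N.subtype
  have h1 : X ≤ M' := by
    intro x hx
    exact ⟨⟨x, hXN hx⟩, hXM hx, rfl⟩
  have h2 : sqC N ≤ M' := by
    rw [sqC, Subgroup.closure_le]
    rintro _ ⟨n, hn, rfl⟩
    exact ⟨⟨n, hn⟩ ^ 2, Subgroup.sq_mem_of_index_two hM _, by simp⟩
  have h3 : N ≤ M' := h.trans (sup_le h1 h2)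
  have h4 : M = ⊤ := by
    rw [eq_top_iff]
    intro y _
    obtain ⟨z, hz, hzy⟩ := h3 y.2
    have : z = y := Subtype.ext hzy
    exact this ▸ hz
  rw [h4, Subgroup.index_top] at hM
  omega

section main

variable {t : S}

theorem inv_gen (ht : t * t = 1) (x : S) :
    t * (x * t * x⁻¹ * t⁻¹) * t = (x * t * x⁻¹ * t⁻¹)⁻¹ := by
  have hi : t⁻¹ = t := inv_eq_of_mul_eq_one_left ht
  have h1 : (x * t * x⁻¹) * (x * t * x⁻¹) = 1 := by
    calc (x * t * x⁻¹) * (x * t * x⁻¹) = x * (t * t) * x⁻¹ := by group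
      _ = 1 := by rw [ht]; group
  rw [hi]
  have h2 : (x * t * x⁻¹)⁻¹ = x * t * x⁻¹ := inv_eq_of_mul_eq_one_left h1
  calc t * (x * t * x⁻¹ * t) * t = t * (x * t * x⁻¹) * (t * t) := by group
    _ = t * (x * t * x⁻¹) := by rw [ht, mul_one]
    _ = t⁻¹ * (x * t * x⁻¹)⁻¹ := by rw [hi, h2]
    _ = (x * t * x⁻¹ * t)⁻¹ := by group

/-- `t` acts trivially on `N / N²`. -/
theorem conj_t_mem (ht : t * t = 1) {n : S} (hn : n ∈ tC t) : n⁻¹ * (t * n * t) ∈ sqC (tC t) := by
  have hi : t⁻¹ = t := inv_eq_of_mul_eq_one_left ht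
  induction hn using Subgroup.closure_induction with
  | mem y hy =>
    obtain ⟨x, rfl⟩ := hy
    rw [inv_gen ht x, ← pow_two]
    exact sq_mem_sqC (inv_mem (gen_mem _ _))
  | one =>
    simp [ht, one_mem]
  | mul a b _ _ ha hb =>
    have e : (a * b)⁻¹ * (t * (a * b) * t)
        = b⁻¹ * (a⁻¹ * (t * a * t)) * b⁻¹⁻¹ * (b⁻¹ * (t * b * t)) := by
      have : t * (a * b) * t = (t * a * t) * (t * b * t) := by
        calc t * (a * b) * t = t * a * 1 * b * t := by group
          _ = t * a * (t * t) * b * t := by rw [ht]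
          _ = _ := by group
      rw [this]; group
    rw [e]
    exact mul_mem ((sqC_normal (tC t)).conj_mem _ ha _) hb
  | inv a _ ha =>
    have e : (a⁻¹)⁻¹ * (t * a⁻¹ * t) = a * (a⁻¹ * (t * a * t))⁻¹ * a⁻¹ := by
      rw [show t * a⁻¹ * t = (t * a * t)⁻¹ by
        calc t * a⁻¹ * t = t⁻¹ * a⁻¹ * t⁻¹ := by rw [hi]
          _ = (t * a * t)⁻¹ := by group]
      group
    rw [e]
    exact (sqC_normal (tC t)).conj_mem _ (inv_mem ha) _

/-- `[n, t] ∈ N²` for `n ∈ N`. -/
theorem comm_n_t_mem (ht : t * t = 1) {n : S} (hn : n ∈ tC t) : n * t * n⁻¹ * t⁻¹ ∈ sqC (tC t) := by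
  have hi : t⁻¹ = t := inv_eq_of_mul_eq_one_left ht
  have h1 := conj_t_mem ht hn
  have e : n * t * n⁻¹ * t⁻¹ = n * (n⁻¹ * (t * n * t))⁻¹ * n⁻¹ := by
    rw [hi]
    calc n * t * n⁻¹ * t = n * (t⁻¹ * n⁻¹ * t⁻¹) := by rw [hi]; group
      _ = _ := by group
  rw [e]
  exact (sqC_normal (tC t)).conj_mem _ (inv_mem h1) _

end main

section index

/-- Centralizer of one element. -/
abbrev cS (t : S) : Subgroup S := Subgroup.centralizer ({t} : Set S)

variable {t : S}


theorem mem_cent {x : S} : x ∈ cS t ↔ x * t = t * x := by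
  rw [Subgroup.mem_centralizer_iff]
  constructor
  · intro h
    exact (h t rfl).symm
  · intro h y hy
    rw [Set.mem_singleton_iff] at hy
    subst hy
    exact h.symm

/-- Surjectivity onto `N` from equality of index and order. -/
theorem surj_of_card (h : (cS t).index = Nat.card (tC t)) :
    ∀ n ∈ tC t, ∃ x, x * t * x⁻¹ * t⁻¹ = n := by
  classical
  let f : (S ⧸ cS t) → tC t := fun q => ⟨(q.out : S) * t * (q.out : S)⁻¹ * t⁻¹, gen_mem t _⟩
  have hf : Function.Injective f := by
    intro q₁ q₂ hq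
    have h1 : (q₁.out : S) * t * (q₁.out : S)⁻¹ * t⁻¹ = (q₂.out : S) * t * (q₂.out : S)⁻¹ * t⁻¹ :=
      congrArg Subtype.val hq
    have h2 : (q₁.out : S) * t * (q₁.out : S)⁻¹ = (q₂.out : S) * t * (q₂.out : S)⁻¹ :=
      mul_right_cancel h1
    rw [← q₁.out_eq', ← q₂.out_eq', QuotientGroup.eq, mem_cent]
    have h3 : (q₂.out : S) * t = ((q₁.out : S) * t * (q₁.out : S)⁻¹) * (q₂.out : S) := by
      rw [h2]; group
    calc (q₁.out : S)⁻¹ * (q₂.out : S) * t = (q₁.out : S)⁻¹ * ((q₂.out : S) * t) := by group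
      _ = (q₁.out : S)⁻¹ * (((q₁.out : S) * t * (q₁.out : S)⁻¹) * (q₂.out : S)) := by rw [h3]
      _ = _ := by group
  have hb : Function.Bijective f :=
    hf.bijective_of_nat_card_le (by rw [← h]; exact le_of_eq rfl)
  intro n hn
  obtain ⟨q, hq⟩ := hb.2 ⟨n, hn⟩
  exact ⟨q.out, congrArg Subtype.val hq⟩

/-- The index of the centralizer of `t` is at most `|N|`. -/
theorem index_cent_le : (cS t).index ≤ Nat.card (tC t) := by
  have h := relIndex_cent_le (⊤ : Subgroup S) (tC t) t (fun a _ => gen_mem t a)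
  rwa [Subgroup.relIndex_top_right] at h

/-- Card formula for the image in the quotient by a normal subgroup. -/
theorem card_eq_inf_mul_map (N X : Subgroup S) [N.Normal] :
    Nat.card X = Nat.card ↥(N ⊓ X) * Nat.card ↥(X.map (QuotientGroup.mk' N)) := by
  have h1 := card_eq_relIndex_mul_inf N X
  have h6 := Subgroup.relIndex_ker (K := X) (QuotientGroup.mk' N)
  rw [QuotientGroup.ker_mk'] at h6
  rw [h1, h6, mul_comm]

theorem main_index (hS : IsPGroup 2 S) (ht : t * t = 1) (hc : Nat.card ↥(tC t ⊓ cS t) = 2 ∨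
    Nat.card ↥(tC t ⊓ cS t) = 4) :
    (tC t ⊔ cS t).index = Nat.card ↥(tC t ⊓ cS t) ∧ ∀ n ∈ tC t, ∃ x, x * t * x⁻¹ * t⁻¹ = n := by
  classical
  have : Fact (Nat.Prime 2) := ⟨Nat.prime_two⟩
  set N := tC t with hN
  set Q := cS t with hQ
  set c := Nat.card ↥(N ⊓ Q) with hcdef
  let π := QuotientGroup.mk' N
  have hπ : Function.Surjective π := QuotientGroup.mk'_surjective N
  let Qb : Subgroup (S ⧸ N) := Q.map π
  have hP : (N ⊔ Q) = Qb.comap π := by
    rw [Subgroup.comap_map_eq, QuotientGroup.ker_mk', sup_comm]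
  have hk : (N ⊔ Q).index = Qb.index := by
    rw [hP, Subgroup.index_comap_of_surjective _ hπ]
  set k := (N ⊔ Q).index with hkdef
  -- cardinalities
  have h1 : Nat.card S = Nat.card (S ⧸ N) * Nat.card N :=
    Subgroup.card_eq_card_quotient_mul_card_subgroup N
  have h2 : Nat.card Q = c * Nat.card Qb := card_eq_inf_mul_map N Q
  have h3 : k * Nat.card Qb = Nat.card (S ⧸ N) := by
    rw [hk]; exact Subgroup.index_mul_card Qb
  have h4 : Q.index * Nat.card Q = Nat.card S := Subgroup.index_mul_card Q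
  have hQb : 0 < Nat.card Qb := Nat.card_pos
  have h5 : Q.index * c = Nat.card N * k := by
    have : Q.index * c * Nat.card Qb = Nat.card N * k * Nat.card Qb := by
      calc Q.index * c * Nat.card Qb = Q.index * (c * Nat.card Qb) := by ring
        _ = Nat.card S := by rw [← h2, h4]
        _ = k * Nat.card Qb * Nat.card N := by rw [h1, h3]
        _ = _ := by ring
    exact Nat.eq_of_mul_eq_mul_right hQb this
  have h6 : Q.index ≤ Nat.card N := index_cent_le
  have hNpos : 0 < Nat.card N := Nat.card_pos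
  have hkc : k ≤ c := by
    have : Nat.card N * k ≤ Nat.card N * c := by
      rw [← h5, mul_comm _ c]
      rw [mul_comm c]
      exact Nat.mul_le_mul_right _ h6
    exact Nat.le_of_mul_le_mul_left this hNpos
  -- `k` is a power of 2
  have hkdvd : k ∣ Nat.card S := (Subgroup.index_dvd_card _)
  obtain ⟨a, ha⟩ := IsPGroup.iff_card.mp hS
  rw [ha] at hkdvd
  obtain ⟨j, -, hj⟩ := (Nat.dvd_prime_pow Nat.prime_two).1 hkdvd
  -- membership in `N ⊔ Q`
  have hmemP : ∀ x, x ∈ N ⊔ Q → ∃ n ∈ N, ∃ q ∈ Q, n * q = x := by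
    intro x hx
    exact Subgroup.mem_sup_of_normal_left.1 hx
  have hcomm_P : ∀ x ∈ N ⊔ Q, x * t * x⁻¹ * t⁻¹ ∈ sqC N := by
    intro x hx
    obtain ⟨n, hn, q, hq, rfl⟩ := hmemP x hx
    have hqt : q * t = t * q := mem_cent.1 hq
    have e : (n * q) * t * (n * q)⁻¹ * t⁻¹ = n * t * n⁻¹ * t⁻¹ := by
      calc (n * q) * t * (n * q)⁻¹ * t⁻¹ = n * (q * t) * q⁻¹ * n⁻¹ * t⁻¹ := by group
        _ = n * (t * q) * q⁻¹ * n⁻¹ * t⁻¹ := by rw [hqt]
        _ = _ := by group
    rw [e]
    exact comm_n_t_mem ht hn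
  -- (α) `k = 1` forces `N = 1`.
  have hα : k ≠ 1 := by
    intro hk1
    have hPtop : N ⊔ Q = ⊤ := Subgroup.index_eq_one.1 hk1
    have h7 : N ≤ sqC N := by
      rw [hN, tC, Subgroup.closure_le]
      rintro _ ⟨x, rfl⟩
      exact hcomm_P x (by rw [hPtop]; trivial)
    have h8 : (⊥ : Subgroup S) = N := eq_of_le_sup_sqC hS bot_le (by simpa using h7)
    have h9 : Nat.card ↥(N ⊓ Q) = 1 := by
      rw [← h8]
      simp
    rcases hc with hc | hc <;> omega
  -- (β) `k = 2` forces `c ≤ 2`.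
  have hβ : k = 2 → c ≤ 2 := by
    intro hk2
    have hne : N ⊔ Q ≠ ⊤ := by
      intro h
      rw [hkdef, h, Subgroup.index_top] at hk2
      omega
    obtain ⟨x₀, hx₀⟩ : ∃ x₀, x₀ ∉ N ⊔ Q := by
      by_contra hcon
      push Not at hcon
      exact hne (eq_top_iff.2 fun x _ => hcon x)
    let x₂ : S := x₀ * t * x₀⁻¹ * t⁻¹
    have hx₂ : x₂ ∈ N := gen_mem t x₀
    have h7 : N ≤ Subgroup.zpowers x₂ ⊔ sqC N := by
      rw [hN, tC, Subgroup.closure_le]
      rintro _ ⟨x, rfl⟩
      by_cases hx : x ∈ N ⊔ Q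
      · exact (le_sup_right : sqC N ≤ _) (hcomm_P x hx)
      · have hm : x₀⁻¹ * x ∈ N ⊔ Q := by
          rw [Subgroup.mul_mem_iff_of_index_two hk2]
          constructor
          · intro h
            exact absurd (by simpa using (N ⊔ Q).inv_mem h) hx₀
          · intro h
            exact absurd h hx
        have h8 := hcomm_P _ hm
        have e : x * t * x⁻¹ * t⁻¹
            = (x₀ * ((x₀⁻¹ * x) * t * (x₀⁻¹ * x)⁻¹ * t⁻¹) * x₀⁻¹) * x₂ := by
          simp only [x₂]; group
        show x * t * x⁻¹ * t⁻¹ ∈ Subgroup.zpowers x₂ ⊔ sqC N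
        rw [e]
        refine mul_mem ((le_sup_right : sqC N ≤ _) ?_)
          ((le_sup_left : Subgroup.zpowers x₂ ≤ _) (Subgroup.mem_zpowers x₂))
        exact (sqC_normal N).conj_mem _ h8 _
    have h9 : Subgroup.zpowers x₂ = N :=
      eq_of_le_sup_sqC hS (Subgroup.zpowers_le.2 hx₂) h7
    -- all elements of `N` are inverted
    have hinv : ∀ y ∈ N, t * y * t = y⁻¹ := by
      intro y hy
      rw [← h9] at hy
      obtain ⟨i, rfl⟩ := hy
      have hx2 : t * x₂ * t = x₂⁻¹ := inv_gen ht x₀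
      have hconj : t * x₂ ^ i * t = (t * x₂ * t) ^ i := by
        have : (t * x₂ * t) = (MulAut.conj t) x₂ := by
          simp [MulAut.conj_apply, inv_eq_of_mul_eq_one_left ht]
        rw [this, ← map_zpow]
        simp [MulAut.conj_apply, inv_eq_of_mul_eq_one_left ht]
      show t * x₂ ^ i * t = (x₂ ^ i)⁻¹
      rw [hconj, hx2]
      simp
    -- count
    have hle : N ⊓ Q ≤ Subgroup.zpowers x₂ := by rw [h9]; exact inf_le_left
    let K : Subgroup (Subgroup.zpowers x₂) := (N ⊓ Q).subgroupOf _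
    have hcardK : Nat.card K = c := by
      have := Nat.card_congr (Subgroup.subgroupOfEquivOfLe hle).toEquiv
      exact this
    have : IsCyclic K := inferInstance
    obtain ⟨g, hg⟩ := IsCyclic.exists_generator (α := K)
    have hord : orderOf g = Nat.card K := orderOf_eq_card_of_forall_mem_zpowers hg
    have hg2 : g ^ 2 = 1 := by
      apply Subtype.ext
      apply Subtype.ext
      have h10 : (((g : K) : Subgroup.zpowers x₂) : S) ∈ N ⊓ Q := g.2
      have h11 := hinv _ h10.1
      have h12 : (((g : K) : Subgroup.zpowers x₂) : S) * t = t * (((g : K) : Subgroup.zpowers x₂) : S) :=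
        mem_cent.1 h10.2
      simp only [Subgroup.coe_pow, Subgroup.coe_one]
      rw [← h12, mul_assoc, ht, mul_one] at h11
      rw [pow_two]
      nth_rewrite 1 [h11]
      simp
    have hdvd : orderOf g ∣ 2 := orderOf_dvd_of_pow_eq_one hg2
    have := Nat.le_of_dvd (by norm_num) hdvd
    omega
  -- conclude `k = c`
  have hkeq : k = c := by
    rcases hc with hc | hc
    · have hk2 : k ≠ 0 := by rw [hj]; positivity
      omega
    · have hj3 : j ≤ 2 := by
        by_contra hj3
        have : 2 ^ 3 ≤ 2 ^ j := Nat.pow_le_pow_right (by norm_num) (by omega)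
        omega
      interval_cases j
      · simp at hj; exact absurd hj hα
      · simp at hj
        have := hβ hj
        omega
      · simp at hj; omega
  refine ⟨hkeq, ?_⟩
  apply surj_of_card
  have hc0 : c ≠ 0 := by rcases hc with hc | hc <;> omega
  have h7 : Q.index * c = Nat.card N * c := by rw [h5, hkeq]
  exact Nat.eq_of_mul_eq_mul_right (Nat.pos_of_ne_zero hc0) h7

end index

end Cfsg.Agent.Lib.WrInvA
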