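import Mathlib
import Cfsg.Agent.Lib.SectRank
import Cfsg.Agent.Lib.SectE16

/-!
# Sectional rank from an involution whose commutator subgroup is inverted

`S` a finite 2-group, `t` an involution with `C_S(t) = Q` of order 32, `N = [S, t]` abelian, inverted
by `t`, all its elements of the form `[x, t]`, `|C_N(t)| = c ∈ {2, 4}`. With the small list of facts
on `Q` below, `S` has sectional 2-rank at most 4.
-/

set_option autoImplicit false

namespace Cfsg.Agent.Lib.WrInvB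

open Cfsg.Agent.Lib.SectRank Cfsg.Agent.Lib.SectE16

variable {S : Type*} [Group S]

/-- Squares of a commutative subgroup. -/
def sqS (X : Subgroup S) (hX : ∀ a ∈ X, ∀ b ∈ X, a * b = b * a) : Subgroup S where
  carrier := {y | ∃ x ∈ X, x ^ 2 = y}
  mul_mem' := by
    rintro _ _ ⟨a, ha, rfl⟩ ⟨b, hb, rfl⟩
    refine ⟨a * b, X.mul_mem ha hb, ?_⟩
    have := (show Commute a b from hX a ha b hb).mul_pow 2
    exact this
  one_mem' := ⟨1, X.one_mem, by simp⟩
  inv_mem' := by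
    rintro _ ⟨a, ha, rfl⟩
    exact ⟨a⁻¹, X.inv_mem ha, by simp⟩

/-- Elements of order at most two of a commutative subgroup. -/
def omS (X : Subgroup S) (hX : ∀ a ∈ X, ∀ b ∈ X, a * b = b * a) : Subgroup S where
  carrier := {y | y ∈ X ∧ y ^ 2 = 1}
  mul_mem' := by
    rintro a b ⟨ha, ha'⟩ ⟨hb, hb'⟩
    refine ⟨X.mul_mem ha hb, ?_⟩
    rw [(show Commute a b from hX a ha b hb).mul_pow 2, ha', hb', one_mul]
  one_mem' := ⟨X.one_mem, by simp⟩
  inv_mem' := by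
    rintro a ⟨ha, ha'⟩
    exact ⟨X.inv_mem ha, by simp [ha']⟩

theorem mem_sqS {X : Subgroup S} {hX : ∀ a ∈ X, ∀ b ∈ X, a * b = b * a} {y : S} :
    y ∈ sqS X hX ↔ ∃ x ∈ X, x ^ 2 = y := Iff.rfl

theorem mem_omS {X : Subgroup S} {hX : ∀ a ∈ X, ∀ b ∈ X, a * b = b * a} {y : S} :
    y ∈ omS X hX ↔ y ∈ X ∧ y ^ 2 = 1 := Iff.rfl

theorem sqS_le (X : Subgroup S) (hX : ∀ a ∈ X, ∀ b ∈ X, a * b = b * a) : sqS X hX ≤ X := by
  rintro _ ⟨a, ha, rfl⟩
  exact X.pow_mem ha 2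

variable [Finite S]

/-- `|X : X²| = |Ω₁(X)|`. -/
theorem relIndex_sqS (X : Subgroup S) (hX : ∀ a ∈ X, ∀ b ∈ X, a * b = b * a) :
    (sqS X hX).relIndex X = Nat.card (omS X hX) := by
  let f : X →* S :=
    { toFun := fun x => (x : S) ^ 2
      map_one' := by simp
      map_mul' := by
        intro a b
        exact (show Commute (a : S) b from hX a a.2 b b.2).mul_pow 2 }
  have h1 : f.range = sqS X hX := by
    ext y
    constructor
    · rintro ⟨x, rfl⟩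
      exact ⟨x, x.2, rfl⟩
    · rintro ⟨x, hx, rfl⟩
      exact ⟨⟨x, hx⟩, rfl⟩
  have h2 : Nat.card f.ker = Nat.card (omS X hX) := by
    refine Nat.card_congr
      { toFun := fun x => ⟨x.1.1, x.1.2, x.2⟩
        invFun := fun x => ⟨⟨x.1, x.2.1⟩, x.2.2⟩
        left_inv := fun x => rfl
        right_inv := fun x => rfl }
  have h3 : Nat.card f.ker * f.ker.index = Nat.card X := f.ker.card_mul_index
  rw [Subgroup.index_ker, h1, h2] at h3
  have h4 := card_eq_relIndex_mul (sqS_le X hX)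
  have hpos : 0 < Nat.card (sqS X hX) := Nat.card_pos
  have h5 : (sqS X hX).relIndex X * Nat.card (sqS X hX)
      = Nat.card (omS X hX) * Nat.card (sqS X hX) := by rw [← h4, h3]
  exact Nat.eq_of_mul_eq_mul_right hpos h5

/-- Bound of a relative index through a function separating cosets. -/
theorem relIndex_le_of_fun {H P : Subgroup S} {X : Type*} [Finite X] (f : H → X)
    (hf : ∀ a b : H, f a = f b → (a : S)⁻¹ * b ∈ P) : P.relIndex H ≤ Nat.card X := by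
  classical
  let g : (H ⧸ P.subgroupOf H) → X := fun q => f q.out
  have hg : Function.Injective g := by
    intro q₁ q₂ h
    have h1 := hf _ _ h
    rw [← q₁.out_eq', ← q₂.out_eq', QuotientGroup.eq, Subgroup.mem_subgroupOf]
    simpa using h1
  exact Nat.card_le_card_of_injective g hg

theorem relIndex_le_index (P H : Subgroup S) : P.relIndex H ≤ P.index := by
  have := relIndex_le_of_fun (H := H) (P := P) (X := S ⧸ P) (fun a => ((a : S) : S ⧸ P)) (by
    intro a b h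
    exact QuotientGroup.eq.1 h)
  exact this

/-- Chain of relative indices through `P`. -/
theorem chain_P {H R : Subgroup S} (P : Subgroup S) (hRH : R ≤ H) :
    R.relIndex H * P.relIndex R = (R ⊓ P).relIndex (H ⊓ P) * P.relIndex H := by
  have h1 : (R ⊓ P).relIndex R * R.relIndex H = (R ⊓ P).relIndex H :=
    Subgroup.relIndex_mul_relIndex _ _ _ inf_le_left hRH
  have h2 : (R ⊓ P).relIndex (H ⊓ P) * (H ⊓ P).relIndex H = (R ⊓ P).relIndex H :=
    Subgroup.relIndex_mul_relIndex _ _ _ (inf_le_inf_right _ hRH) inf_le_left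
  rw [Subgroup.inf_relIndex_left] at h1 h2
  rw [mul_comm, h1, ← h2]

/-- Chain of relative indices through a normal subgroup. -/
theorem chain_N (N : Subgroup S) [N.Normal] {H R : Subgroup S} (hRH : R ≤ H) :
    R.relIndex H = (N ⊓ R).relIndex (N ⊓ H) *
      (R.map (QuotientGroup.mk' N)).relIndex (H.map (QuotientGroup.mk' N)) := by
  have cf : ∀ X : Subgroup S, Nat.card X
      = Nat.card ↥(N ⊓ X) * Nat.card ↥(X.map (QuotientGroup.mk' N)) := by
    intro X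
    have h1 := card_eq_relIndex_mul_inf N X
    have h6 := Subgroup.relIndex_ker (K := X) (QuotientGroup.mk' N)
    rw [QuotientGroup.ker_mk'] at h6
    rw [h1, h6, mul_comm]
  have h1 := card_eq_relIndex_mul hRH
  have h2 := card_eq_relIndex_mul (inf_le_inf_left N hRH)
  have h3 := card_eq_relIndex_mul (Subgroup.map_mono (f := QuotientGroup.mk' N) hRH)
  have p1 : 0 < Nat.card ↥(N ⊓ R) := Nat.card_pos
  have p2 : 0 < Nat.card ↥(R.map (QuotientGroup.mk' N)) := Nat.card_pos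
  have h4 : R.relIndex H * (Nat.card ↥(N ⊓ R) * Nat.card ↥(R.map (QuotientGroup.mk' N)))
      = ((N ⊓ R).relIndex (N ⊓ H) *
      (R.map (QuotientGroup.mk' N)).relIndex (H.map (QuotientGroup.mk' N))) *
        (Nat.card ↥(N ⊓ R) * Nat.card ↥(R.map (QuotientGroup.mk' N))) := by
    calc R.relIndex H * (Nat.card ↥(N ⊓ R) * Nat.card ↥(R.map (QuotientGroup.mk' N)))
        = R.relIndex H * Nat.card R := by rw [← cf R]
      _ = Nat.card H := h1.symm
      _ = Nat.card ↥(N ⊓ H) * Nat.card ↥(H.map (QuotientGroup.mk' N)) := cf H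
      _ = _ := by rw [h2, h3]; ring
  exact Nat.eq_of_mul_eq_mul_right (Nat.mul_pos p1 p2) h4

/-- The data. -/
structure WS (t z₀ : S) (Q N : Subgroup S) (c : ℕ) : Prop where
  tt : t * t = 1
  Qc : ∀ x, x ∈ Q ↔ x * t = t * x
  Nn : N.Normal
  gen : ∀ x, x * t * x⁻¹ * t⁻¹ ∈ N
  surj : ∀ n ∈ N, ∃ x, x * t * x⁻¹ * t⁻¹ = n
  Ycard : Nat.card ↥(N ⊓ Q) = c
  c24 : c = 2 ∨ c = 4
  cardQ : Nat.card Q = 32
  idx : (N ⊔ Q).index = c
  sq : ∃ q ∈ Q, q ^ 2 = t
  tN : t ∉ N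
  z₀N : z₀ ∈ N
  q4 : c = 4 → ∀ q₀ ∈ Q, q₀ ∉ N → t⁻¹ * q₀ ∉ N →
    ∃ w ∈ Q, ∃ y ∈ N ⊓ Q, w * q₀ * w⁻¹ * q₀⁻¹ = t * y
  q5 : ∀ q₁ ∈ Q, ∀ q₀ ∈ Q, q₁ * q₀ * q₁⁻¹ * q₀⁻¹ ∈ N →
    q₁ * q₀ * q₁⁻¹ * q₀⁻¹ = 1 ∨ q₁ * q₀ * q₁⁻¹ * q₀⁻¹ = z₀

namespace WS

variable {t z₀ : S} {Q N : Subgroup S} {c : ℕ} (d : WS t z₀ Q N c)

include d

theorem ti : t⁻¹ = t := inv_eq_of_mul_eq_one_left d.tt

/-- `t` inverts `N`. -/
theorem inv {n : S} (hn : n ∈ N) : t * n * t = n⁻¹ := by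
  obtain ⟨x, rfl⟩ := d.surj n hn
  have hi := d.ti
  have h1 : (x * t * x⁻¹) * (x * t * x⁻¹) = 1 := by
    calc (x * t * x⁻¹) * (x * t * x⁻¹) = x * (t * t) * x⁻¹ := by group
      _ = 1 := by rw [d.tt]; group
  have h2 : (x * t * x⁻¹)⁻¹ = x * t * x⁻¹ := inv_eq_of_mul_eq_one_left h1
  rw [hi]
  calc t * (x * t * x⁻¹ * t) * t = t * (x * t * x⁻¹) * (t * t) := by group
    _ = t * (x * t * x⁻¹) := by rw [d.tt, mul_one]
    _ = t⁻¹ * (x * t * x⁻¹)⁻¹ := by rw [hi, h2]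
    _ = (x * t * x⁻¹ * t)⁻¹ := by group

theorem comm {a b : S} (ha : a ∈ N) (hb : b ∈ N) : a * b = b * a := by
  have h1 := d.inv (N.mul_mem ha hb)
  have h2 : t * (a * b) * t = (t * a * t) * (t * b * t) := by
    calc t * (a * b) * t = t * a * 1 * b * t := by group
      _ = t * a * (t * t) * b * t := by rw [d.tt]
      _ = _ := by group
  rw [h2, d.inv ha, d.inv hb] at h1
  have h3 : a⁻¹ * b⁻¹ = b⁻¹ * a⁻¹ := by rw [h1]; group
  have h4 : (a⁻¹ * b⁻¹)⁻¹ = (b⁻¹ * a⁻¹)⁻¹ := by rw [h3]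
  simpa using h4.symm

/-- `N²`. -/
def N2 : Subgroup S := sqS N (fun _ ha _ hb => d.comm ha hb)

theorem n2_le : d.N2 ≤ N := sqS_le _ _

theorem mem_N2 {y : S} : y ∈ d.N2 ↔ ∃ x ∈ N, x ^ 2 = y := Iff.rfl

theorem sq_mem {y : S} (hy : y ∈ N) : y ^ 2 ∈ d.N2 := ⟨y, hy, rfl⟩

theorem n2_conj {z : S} (hz : z ∈ d.N2) (g : S) : g * z * g⁻¹ ∈ d.N2 := by
  obtain ⟨x, hx, rfl⟩ := hz
  have hn := d.Nn
  refine ⟨g * x * g⁻¹, hn.conj_mem x hx g, ?_⟩
  simp only [pow_two]; group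

theorem n_conj {z : S} (hz : z ∈ N) (g : S) : g * z * g⁻¹ ∈ N := d.Nn.conj_mem z hz g

theorem n_conj' {z : S} (hz : z ∈ N) (g : S) : g⁻¹ * z * g ∈ N := by
  simpa using d.n_conj hz g⁻¹

/-- Membership in `N ⊓ Q`: involutions of `N`. -/
theorem mem_NQ {y : S} (hy : y ∈ N) : y ∈ Q ↔ y ^ 2 = 1 := by
  rw [d.Qc]
  have h1 := d.inv hy
  constructor
  · intro h
    have h2 : t * y * t = y := by rw [← h, mul_assoc, d.tt, mul_one]
    rw [h2] at h1
    rw [pow_two]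
    nth_rewrite 1 [h1]
    simp
  · intro h
    have h2 : y⁻¹ = y := by
      apply inv_eq_of_mul_eq_one_left
      rwa [pow_two] at h
    rw [h2] at h1
    calc y * t = (t * y * t) * t := by rw [h1]
      _ = t * y * (t * t) := by group
      _ = t * y := by rw [d.tt, mul_one]

theorem om_le {X : Subgroup S} (hXN : X ≤ N) (hX : ∀ a ∈ X, ∀ b ∈ X, a * b = b * a) :
    Nat.card (omS X hX) ≤ c := by
  rw [← d.Ycard]
  apply Subgroup.card_le_of_le
  rintro y ⟨h1, h2⟩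
  exact ⟨hXN h1, (d.mem_NQ (hXN h1)).2 h2⟩

theorem relIndex_N2 : d.N2.relIndex N = c := by
  have h1 := relIndex_sqS N (fun _ ha _ hb => d.comm ha hb)
  have h2 : omS N (fun _ ha _ hb => d.comm ha hb) = N ⊓ Q := by
    ext y
    constructor
    · rintro ⟨h3, h4⟩
      exact ⟨h3, (d.mem_NQ h3).2 h4⟩
    · rintro ⟨h3, h4⟩
      exact ⟨h3, (d.mem_NQ h3).1 h4⟩
  rw [h2, d.Ycard] at h1
  exact h1

end WS

/-- `[x, t]`. -/
def tau (t x : S) : S := x * t * x⁻¹ * t⁻¹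

theorem tau_mul (t x y : S) : tau t (x * y) = x * tau t y * x⁻¹ * tau t x := by
  simp only [tau]; group

theorem tau_inv (t x : S) : tau t x⁻¹ = x⁻¹ * (tau t x)⁻¹ * x := by
  simp only [tau]; group

namespace WS

variable {t z₀ : S} {Q N : Subgroup S} {c : ℕ} (d : WS t z₀ Q N c)

include d

theorem tau_N {n : S} (hn : n ∈ N) : tau t n = n ^ 2 := by
  have h := d.inv (N.inv_mem hn)
  simp only [inv_inv] at h
  have hi := d.ti
  simp only [tau]
  rw [hi]
  calc n * t * n⁻¹ * t = n * (t * n⁻¹ * t) := by group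
    _ = n * n := by rw [h]
    _ = n ^ 2 := (pow_two n).symm

theorem tau_Q {q : S} (hq : q ∈ Q) : tau t q = 1 := by
  have h := (d.Qc q).1 hq
  simp only [tau]
  calc q * t * q⁻¹ * t⁻¹ = (q * t) * q⁻¹ * t⁻¹ := by group
    _ = (t * q) * q⁻¹ * t⁻¹ := by rw [h]
    _ = 1 := by group

theorem tau_mem (x : S) : tau t x ∈ N := d.gen x

theorem mem_P_of_tau {x : S} (hx : tau t x ∈ d.N2) : x ∈ N ⊔ Q := by
  obtain ⟨n, hn, h⟩ := hx
  have h1 : tau t (n⁻¹ * x) = 1 := by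
    rw [tau_mul, tau_inv, ← h, d.tau_N hn]
    simp only [pow_two]; group
  have h2 : (n⁻¹ * x) ∈ Q := by
    rw [d.Qc]
    simp only [tau] at h1
    have h3 : (n⁻¹ * x) * t * (n⁻¹ * x)⁻¹ = t := by
      have := mul_eq_one_iff_eq_inv.1 h1
      simpa using this
    exact (mul_inv_eq_iff_eq_mul.1 h3)
  have h3 : x = n * (n⁻¹ * x) := by group
  rw [h3]
  exact Subgroup.mul_mem _ ((le_sup_left : N ≤ N ⊔ Q) hn) ((le_sup_right : Q ≤ N ⊔ Q) h2)

theorem exists_of_mem_P {x : S} (hx : x ∈ N ⊔ Q) : ∃ n ∈ N, ∃ q ∈ Q, n * q = x := by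
  have := d.Nn
  exact Subgroup.mem_sup_of_normal_left.1 hx

theorem tau_N2_of_mem_P {x : S} (hx : x ∈ N ⊔ Q) : tau t x ∈ d.N2 := by
  obtain ⟨n, hn, q, hq, rfl⟩ := d.exists_of_mem_P hx
  rw [tau_mul, d.tau_Q hq, d.tau_N hn]
  simpa using d.sq_mem hn

/-- Two elements with congruent `τ` differ by an element of `P`. -/
theorem mem_P_of_congr {a b : S} (h : (tau t a)⁻¹ * tau t b ∈ d.N2) : a⁻¹ * b ∈ N ⊔ Q := by
  apply d.mem_P_of_tau
  have ha := d.tau_mem a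
  have hb := d.tau_mem b
  rw [tau_mul, tau_inv]
  have e : a⁻¹ * tau t b * a⁻¹⁻¹ * (a⁻¹ * (tau t a)⁻¹ * a)
      = a⁻¹ * ((tau t a)⁻¹ * tau t b) * a⁻¹⁻¹ := by
    have := d.comm hb (N.inv_mem ha)
    simp only [inv_inv]
    calc a⁻¹ * tau t b * a * (a⁻¹ * (tau t a)⁻¹ * a) = a⁻¹ * (tau t b * (tau t a)⁻¹) * a := by group
      _ = a⁻¹ * ((tau t a)⁻¹ * tau t b) * a := by rw [this]
  rw [e]
  exact d.n2_conj h _

/-- Quotient data. -/
theorem card_Qb [N.Normal] : c * Nat.card ↥(Q.map (QuotientGroup.mk' N)) = 32 := by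
  have h1 := card_eq_relIndex_mul_inf N Q
  have h6 := Subgroup.relIndex_ker (K := Q) (QuotientGroup.mk' N)
  rw [QuotientGroup.ker_mk'] at h6
  rw [h6, d.cardQ, d.Ycard] at h1
  rw [mul_comm]
  exact h1.symm

theorem pit_ne [N.Normal] : QuotientGroup.mk' N t ≠ 1 := by
  intro h
  exact d.tN ((QuotientGroup.eq_one_iff t).1 h)

/-- If `U ≤ Q̄` and `W ≤ U` contains the squares, then `2 |U : W| ≤ |Q̄|`. -/
theorem bound_U [N.Normal] {U W : Subgroup (S ⧸ N)} (hU : U ≤ Q.map (QuotientGroup.mk' N))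
    (hWU : W ≤ U) (hsq : ∀ u ∈ U, u ^ 2 ∈ W) :
    W.relIndex U * 2 ≤ Nat.card ↥(Q.map (QuotientGroup.mk' N)) := by
  have hcard := card_eq_relIndex_mul hWU
  have hpos : 0 < Nat.card W := Nat.card_pos
  by_cases hUQ : U = Q.map (QuotientGroup.mk' N)
  · obtain ⟨q, hq, hqt⟩ := d.sq
    have h1 : QuotientGroup.mk' N q ∈ U := by rw [hUQ]; exact ⟨q, hq, rfl⟩
    have h2 := hsq _ h1
    rw [← map_pow, hqt] at h2
    have h3 : 2 ≤ Nat.card W := by
      by_contra hlt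
      have h4 : Nat.card W = 1 := by omega
      have h5 : W = ⊥ := Subgroup.card_eq_one.1 h4
      rw [h5, Subgroup.mem_bot] at h2
      exact d.pit_ne h2
    rw [← hUQ, hcard]
    exact Nat.mul_le_mul_left _ h3
  · have h1 := card_eq_relIndex_mul hU
    have hr : U.relIndex (Q.map (QuotientGroup.mk' N)) ≠ 1 := by
      intro h
      apply hUQ
      apply le_antisymm hU
      exact Subgroup.relIndex_eq_one.1 h
    have hr0 : U.relIndex (Q.map (QuotientGroup.mk' N)) ≠ 0 := by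
      intro h
      rw [h, zero_mul] at h1
      exact (Nat.card_pos (α := ↥(Q.map (QuotientGroup.mk' N)))).ne' h1
    have hr2 : 2 ≤ U.relIndex (Q.map (QuotientGroup.mk' N)) := by omega
    have h2 : W.relIndex U ≤ Nat.card U := by
      rw [hcard]
      exact Nat.le_mul_of_pos_right _ hpos
    rw [h1]
    calc W.relIndex U * 2 ≤ Nat.card U * U.relIndex (Q.map (QuotientGroup.mk' N)) :=
          Nat.mul_le_mul h2 hr2
      _ = _ := mul_comm _ _

/-- A subgroup of `Q̄` missing `t̄` has index at least 4. -/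
theorem bound_U' [N.Normal] (hS : IsPGroup 2 S) {U : Subgroup (S ⧸ N)}
    (hU : U ≤ Q.map (QuotientGroup.mk' N)) (hUt : QuotientGroup.mk' N t ∉ U) :
    Nat.card U * 4 ≤ Nat.card ↥(Q.map (QuotientGroup.mk' N)) := by
  have h1 := card_eq_relIndex_mul hU
  set r := U.relIndex (Q.map (QuotientGroup.mk' N)) with hr
  obtain ⟨q, hq, hqt⟩ := d.sq
  have hr1 : r ≠ 1 := by
    intro h
    have : Q.map (QuotientGroup.mk' N) ≤ U := Subgroup.relIndex_eq_one.1 h
    apply hUt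
    rw [← hqt, map_pow]
    exact U.pow_mem (this ⟨q, hq, rfl⟩) 2
  have hr2 : r ≠ 2 := by
    intro h
    have h2 : U.relIndex (Q.map (QuotientGroup.mk' N)) = 2 := h
    have h3 := Subgroup.sq_mem_of_index_two (H := U.subgroupOf (Q.map (QuotientGroup.mk' N)))
      h2 ⟨QuotientGroup.mk' N q, ⟨q, hq, rfl⟩⟩
    apply hUt
    rw [← hqt, map_pow]
    simpa [Subgroup.mem_subgroupOf] using h3
  have hr0 : r ≠ 0 := by
    intro h
    rw [h, zero_mul] at h1
    exact (Nat.card_pos (α := ↥(Q.map (QuotientGroup.mk' N)))).ne' h1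
  have hY : IsPGroup 2 (S ⧸ N) := hS.of_surjective _ (QuotientGroup.mk'_surjective N)
  have hQb : IsPGroup 2 (Q.map (QuotientGroup.mk' N)) := hY.to_subgroup _
  obtain ⟨a, ha⟩ := IsPGroup.iff_card.mp hQb
  have hrd : r ∣ 2 ^ a := by
    rw [← ha, h1]
    exact dvd_mul_right _ _
  have hr3 : r ≠ 3 := by
    intro h
    rw [h] at hrd
    have := (Nat.Prime.dvd_of_dvd_pow (by norm_num : Nat.Prime 3) hrd)
    omega
  have hr4 : 4 ≤ r := by omega
  rw [h1, mul_comm]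
  exact Nat.mul_le_mul_right _ hr4

end WS

end Cfsg.Agent.Lib.WrInvB
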