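import Mathlib
import Cfsg.Agent.Lib.WrInvB

/-!
# Sectional rank from an inverted `[S, t]`: the bound
-/

set_option autoImplicit false

namespace Cfsg.Agent.Lib.WrInvB

open Cfsg.Agent.Lib.SectRank Cfsg.Agent.Lib.SectE16

variable {S : Type*} [Group S] [Finite S]

theorem rne (K H : Subgroup S) : K.relIndex H ≠ 0 := by
  intro h
  have h1 := card_eq_relIndex_mul_inf K H
  rw [h, zero_mul] at h1
  exact (Nat.card_pos (α := H)).ne' h1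

namespace WS

variable {t z₀ : S} {Q N : Subgroup S} {c : ℕ} (d : WS t z₀ Q N c)

include d

section basics

variable {H R : Subgroup S}

/-- The bound `|A : J| * (anything between) ≤ c`. -/
theorem a_bound (hsq : ∀ h ∈ H, h ^ 2 ∈ R) (hRH : R ≤ H) :
    (N ⊓ R).relIndex (N ⊓ H) * (sqS (N ⊓ H) (fun _ ha _ hb => d.comm ha.1 hb.1)).relIndex (N ⊓ R) ≤ c := by
  have hA2 : sqS (N ⊓ H) (fun _ ha _ hb => d.comm ha.1 hb.1) ≤ N ⊓ R := by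
    rintro _ ⟨a, ha, rfl⟩
    exact ⟨N.pow_mem ha.1 2, hsq a ha.2⟩
  have h1 := Subgroup.relIndex_mul_relIndex _ _ _ hA2 (inf_le_inf_left N hRH)
  rw [mul_comm]
  rw [h1, relIndex_sqS]
  exact d.om_le inf_le_left _

theorem a_le (hsq : ∀ h ∈ H, h ^ 2 ∈ R) (hRH : R ≤ H) : (N ⊓ R).relIndex (N ⊓ H) ≤ c := by
  have h1 := d.a_bound hsq hRH
  have hA2 : sqS (N ⊓ H) (fun _ ha _ hb => d.comm ha.1 hb.1) ≤ N ⊓ R := by
    rintro _ ⟨a, ha, rfl⟩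
    exact ⟨N.pow_mem ha.1 2, hsq a ha.2⟩
  have hne : (sqS (N ⊓ H) (fun _ ha _ hb => d.comm ha.1 hb.1)).relIndex (N ⊓ R) ≠ 0 :=
    rne _ _
  calc (N ⊓ R).relIndex (N ⊓ H)
      ≤ (N ⊓ R).relIndex (N ⊓ H) * (sqS (N ⊓ H) (fun _ ha _ hb => d.comm ha.1 hb.1)).relIndex (N ⊓ R) :=
        Nat.le_mul_of_pos_right _ (Nat.pos_of_ne_zero hne)
    _ ≤ c := h1

/-- `P = N Q`. -/
theorem le_P : N ≤ N ⊔ Q := le_sup_left

/-- The key equation. -/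
theorem key_eq [hn : N.Normal] (hRH : R ≤ H) :
    R.relIndex H * (N ⊔ Q).relIndex R
      = ((N ⊓ R).relIndex (N ⊓ H) *
          ((R ⊓ (N ⊔ Q)).map (QuotientGroup.mk' N)).relIndex ((H ⊓ (N ⊔ Q)).map (QuotientGroup.mk' N)))
        * (N ⊔ Q).relIndex H := by
  rw [chain_P (N ⊔ Q) hRH, chain_N N (inf_le_inf_right _ hRH)]
  have h1 : ∀ X : Subgroup S, N ⊓ (X ⊓ (N ⊔ Q)) = N ⊓ X := by
    intro X
    ext y
    constructor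
    · rintro ⟨h2, h3, -⟩
      exact ⟨h2, h3⟩
    · rintro ⟨h2, h3⟩
      exact ⟨h2, h3, d.le_P h2⟩
  rw [h1, h1]

theorem Ub_le [hn : N.Normal] (H : Subgroup S) :
    (H ⊓ (N ⊔ Q)).map (QuotientGroup.mk' N) ≤ Q.map (QuotientGroup.mk' N) := by
  rintro _ ⟨x, ⟨-, hx⟩, rfl⟩
  obtain ⟨n, hn', q, hq, rfl⟩ := d.exists_of_mem_P hx
  refine ⟨q, hq, ?_⟩
  simp only [map_mul]
  rw [show QuotientGroup.mk' N n = 1 from (QuotientGroup.eq_one_iff n).2 hn', one_mul]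

theorem Wb_sq [hn : N.Normal] (hsq : ∀ h ∈ H, h ^ 2 ∈ R) :
    ∀ u ∈ (H ⊓ (N ⊔ Q)).map (QuotientGroup.mk' N),
      u ^ 2 ∈ (R ⊓ (N ⊔ Q)).map (QuotientGroup.mk' N) := by
  rintro _ ⟨x, ⟨hx1, hx2⟩, rfl⟩
  exact ⟨x ^ 2, ⟨hsq x hx1, (N ⊔ Q).pow_mem hx2 2⟩, by simp⟩

theorem b_bound [hn : N.Normal] (hsq : ∀ h ∈ H, h ^ 2 ∈ R) (hRH : R ≤ H) :
    c * ((R ⊓ (N ⊔ Q)).map (QuotientGroup.mk' N)).relIndex ((H ⊓ (N ⊔ Q)).map (QuotientGroup.mk' N))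
      ≤ 16 := by
  have h1 := d.bound_U (d.Ub_le H) (Subgroup.map_mono (inf_le_inf_right _ hRH)) (d.Wb_sq hsq)
  have h2 := d.card_Qb
  have hc : 0 < c := by rcases d.c24 with h | h <;> omega
  have h3 : c * ((R ⊓ (N ⊔ Q)).map (QuotientGroup.mk' N)).relIndex ((H ⊓ (N ⊔ Q)).map (QuotientGroup.mk' N)) * 2
      ≤ c * Nat.card ↥(Q.map (QuotientGroup.mk' N)) := by
    rw [mul_assoc]
    exact Nat.mul_le_mul_left _ h1
  omega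

theorem omega_le_index : (N ⊔ Q).relIndex H ≤ c := by
  rw [← d.idx]
  exact relIndex_le_index _ _

end basics

/-- Case I: `t ∈ H`. -/
theorem caseI {H R : Subgroup S} (ht : t ∈ H) (hRH : R ≤ H) (hsq : ∀ h ∈ H, h ^ 2 ∈ R) :
    R.relIndex H ≤ 16 := by
  have hn := d.Nn
  have hJ : ∀ h : H, tau t (h : S) ∈ N ⊓ R := by
    intro h
    exact ⟨d.tau_mem _, comm_mem_of_squares hsq h.2 ht⟩
  -- ω ≤ |J : N²|
  have h1 : (N ⊔ Q).relIndex H ≤ d.N2.relIndex (N ⊓ R) := by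
    refine relIndex_le_of_fun (X := ↥(N ⊓ R) ⧸ d.N2.subgroupOf (N ⊓ R))
      (fun h => ((⟨tau t (h : S), hJ h⟩ : ↥(N ⊓ R)) : ↥(N ⊓ R) ⧸ d.N2.subgroupOf (N ⊓ R))) ?_
    intro a b hab
    have h2 := QuotientGroup.eq.1 hab
    rw [Subgroup.mem_subgroupOf] at h2
    exact d.mem_P_of_congr h2
  have hA2 : sqS (N ⊓ H) (fun _ ha _ hb => d.comm ha.1 hb.1) ≤ d.N2 := by
    rintro _ ⟨a, ha, rfl⟩
    exact d.sq_mem ha.1
  have h2 : d.N2.relIndex (N ⊓ R)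
      ≤ (sqS (N ⊓ H) (fun _ ha _ hb => d.comm ha.1 hb.1)).relIndex (N ⊓ R) :=
    Subgroup.relIndex_le_of_le_left hA2 (rne _ _)
  have h3 := d.a_bound hsq hRH
  have h4 := d.b_bound hsq hRH
  have h5 := d.key_eq hRH
  have h6 : 0 < (N ⊔ Q).relIndex R := Nat.pos_of_ne_zero (rne _ _)
  set ρ := R.relIndex H
  set a := (N ⊓ R).relIndex (N ⊓ H)
  set b := ((R ⊓ (N ⊔ Q)).map (QuotientGroup.mk' N)).relIndex ((H ⊓ (N ⊔ Q)).map (QuotientGroup.mk' N))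
  set ω := (N ⊔ Q).relIndex H
  have h7 : a * ω ≤ c := by
    calc a * ω ≤ a * (sqS (N ⊓ H) (fun _ ha _ hb => d.comm ha.1 hb.1)).relIndex (N ⊓ R) :=
          Nat.mul_le_mul_left _ (h1.trans h2)
      _ ≤ c := h3
  calc ρ ≤ ρ * (N ⊔ Q).relIndex R := Nat.le_mul_of_pos_right _ h6
    _ = a * b * ω := h5
    _ = (a * ω) * b := by ring
    _ ≤ c * b := Nat.mul_le_mul_right _ h7
    _ ≤ 16 := h4

/-- Reduction of Case I to `t ∈ H`. -/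
theorem caseI' {H R : Subgroup S} {h : S} (hh : h ∈ H) (hht : h * t⁻¹ ∈ N) (hRH : R ≤ H)
    (hsq : ∀ h ∈ H, h ^ 2 ∈ R) : R.relIndex H ≤ 16 := by
  obtain ⟨x, hx⟩ := d.surj _ hht
  have hx' : x * t * x⁻¹ = h := mul_right_cancel hx
  have h1 : (cj x⁻¹ R).relIndex (cj x⁻¹ H) = R.relIndex H :=
    Subgroup.relIndex_map_map_of_injective _ _ (MulAut.conj x⁻¹).injective
  rw [← h1]
  refine d.caseI ?_ (Subgroup.map_mono hRH) ?_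
  · rw [mem_cj, inv_inv, hx']
    exact hh
  · intro y hy
    rw [mem_cj] at hy ⊢
    have e : x⁻¹⁻¹ * y ^ 2 * x⁻¹ = (x⁻¹⁻¹ * y * x⁻¹) ^ 2 := by simp only [pow_two]; group
    rw [e]
    exact hsq _ hy

/-! ### The linear part is trivial -/

section lin

theorem c_mem {y : S} (hy : y ∈ N) (g : S) : g * y * g⁻¹ * y⁻¹ ∈ N :=
  N.mul_mem (d.n_conj hy g) (N.inv_mem hy)

theorem c_mul (g : S) {a b : S} (ha : a ∈ N) (hb : b ∈ N) :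
    g * (a * b) * g⁻¹ * (a * b)⁻¹ = (g * a * g⁻¹ * a⁻¹) * (g * b * g⁻¹ * b⁻¹) := by
  have h1 := d.comm (N.inv_mem ha) (d.c_mem hb g)
  calc g * (a * b) * g⁻¹ * (a * b)⁻¹
      = (g * a * g⁻¹) * (g * b * g⁻¹ * b⁻¹ * a⁻¹) := by group
    _ = (g * a * g⁻¹) * (a⁻¹ * (g * b * g⁻¹ * b⁻¹)) := by rw [← h1]
    _ = _ := by group

theorem c_inv (g : S) {a : S} (ha : a ∈ N) :
    g * a⁻¹ * g⁻¹ * a⁻¹⁻¹ = (g * a * g⁻¹ * a⁻¹)⁻¹ := by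
  have h1 := d.comm (N.inv_mem (d.n_conj ha g)) ha
  calc g * a⁻¹ * g⁻¹ * a⁻¹⁻¹ = (g * a * g⁻¹)⁻¹ * a := by group
    _ = a * (g * a * g⁻¹)⁻¹ := h1
    _ = _ := by group

theorem c_N2 (g : S) {z : S} (hz : z ∈ d.N2) : g * z * g⁻¹ * z⁻¹ ∈ d.N2 :=
  d.N2.mul_mem (d.n2_conj hz g) (d.N2.inv_mem hz)

/-- `g² ∈ N` implies `[g, [g, y]] ∈ N²`. -/
theorem c_c {g y : S} (hg : g * g ∈ N) (hy : y ∈ N) :
    g * (g * y * g⁻¹ * y⁻¹) * g⁻¹ * (g * y * g⁻¹ * y⁻¹)⁻¹ ∈ d.N2 := by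
  have h1 : g * (g * y * g⁻¹) * g⁻¹ = y := by
    have h2 := d.comm hg hy
    calc g * (g * y * g⁻¹) * g⁻¹ = (g * g) * y * (g * g)⁻¹ := by group
      _ = y * (g * g) * (g * g)⁻¹ := by rw [h2]
      _ = y := by group
  have h3 : g * (g * y * g⁻¹ * y⁻¹) * g⁻¹ = y * (g * y * g⁻¹)⁻¹ := by
    calc g * (g * y * g⁻¹ * y⁻¹) * g⁻¹ = (g * (g * y * g⁻¹) * g⁻¹) * (g * y * g⁻¹)⁻¹ := by group
      _ = _ := by rw [h1]
  rw [h3]
  have h4 : y * (g * y * g⁻¹)⁻¹ = (g * y * g⁻¹ * y⁻¹)⁻¹ := by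
    group
  rw [h4, ← pow_two]
  exact d.sq_mem (N.inv_mem (d.c_mem hy g))

/-- The invariance lemma for `H` of exponent two modulo `N²`. -/
theorem lin {H : Subgroup S} (hc : c = 4) (hH : ∀ h ∈ H, h ^ 2 ∈ d.N2)
    (hcm : ∀ a ∈ H, ∀ b ∈ H, a * b * a⁻¹ * b⁻¹ ∈ d.N2)
    (hs : ∀ y ∈ N, ∃ g ∈ H, (tau t g)⁻¹ * y ∈ d.N2) :
    ∀ g ∈ H, ∀ y ∈ N, g * y * g⁻¹ * y⁻¹ ∈ d.N2 := by
  intro g hg y hy
  by_contra hf
  have hn2 := d.n2_le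
  -- kernel
  let K : Subgroup S :=
    { carrier := {y | y ∈ N ∧ g * y * g⁻¹ * y⁻¹ ∈ d.N2}
      mul_mem' := by
        rintro a b ⟨ha, ha'⟩ ⟨hb, hb'⟩
        refine ⟨N.mul_mem ha hb, ?_⟩
        rw [d.c_mul g ha hb]
        exact d.N2.mul_mem ha' hb'
      one_mem' := ⟨N.one_mem, by simp [d.N2.one_mem]⟩
      inv_mem' := by
        rintro a ⟨ha, ha'⟩
        refine ⟨N.inv_mem ha, ?_⟩
        rw [d.c_inv g ha]
        exact d.N2.inv_mem ha' }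
  have hKN : K ≤ N := fun _ h => h.1
  have hM : d.N2 ≤ K := fun z hz => ⟨hn2 hz, d.c_N2 g hz⟩
  set f := g * y * g⁻¹ * y⁻¹ with hfdef
  have hfN : f ∈ N := d.c_mem hy g
  have hgg : g * g ∈ N := by
    rw [← pow_two]; exact hn2 (hH g hg)
  have hfK : f ∈ K := ⟨hfN, d.c_c hgg hy⟩
  set v := tau t g with hv
  have hvN : v ∈ N := d.tau_mem g
  -- `v ∈ K`
  have hvK : v ∈ K := by
    refine ⟨hvN, ?_⟩
    have h1 : tau t (g * g) ∈ d.N2 := by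
      rw [d.tau_N hgg]
      exact d.sq_mem hgg
    rw [tau_mul] at h1
    have e : g * v * g⁻¹ * v⁻¹ = (g * v * g⁻¹ * v) * (v⁻¹) ^ 2 := by
      simp only [pow_two]; group
    rw [e]
    exact d.N2.mul_mem h1 (d.sq_mem (N.inv_mem hvN))
  have hyK : y ∉ K := fun h => hf h.2
  have hKne : K.relIndex N ≠ 1 := by
    intro h
    exact hyK (Subgroup.relIndex_eq_one.1 h hy)
  have hKne0 : K.relIndex N ≠ 0 := rne _ _
  have hmul := Subgroup.relIndex_mul_relIndex _ _ _ hM hKN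
  rw [d.relIndex_N2] at hmul
  have hmul' := hmul.trans hc
  have hMK : d.N2.relIndex K ≠ 1 := by
    intro h
    exact hf ((Subgroup.relIndex_eq_one.1 h) hfK)
  have hMK0 : d.N2.relIndex K ≠ 0 := rne _ _
  have hMK2 : d.N2.relIndex K = 2 := by
    have h1 : 2 ≤ K.relIndex N := by omega
    have h2 : 2 ≤ d.N2.relIndex K := by omega
    have h3 : d.N2.relIndex K * 2 ≤ 4 := by
      rw [← hmul']
      exact Nat.mul_le_mul_left _ h1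
    omega
  -- dichotomy
  have hdich : v ∈ d.N2 ∨ f⁻¹ * v ∈ d.N2 := by
    by_cases hvM : v ∈ d.N2
    · exact Or.inl hvM
    · right
      have h3 := (Subgroup.mul_mem_iff_of_index_two (H := d.N2.subgroupOf K) hMK2
        (a := ⟨f⁻¹, K.inv_mem hfK⟩) (b := ⟨v, hvK⟩)).2 (by
          simp only [Subgroup.mem_subgroupOf]
          constructor
          · intro h
            exact absurd (by simpa using d.N2.inv_mem h) hf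
          · intro h
            exact absurd h hvM)
      simpa [Subgroup.mem_subgroupOf] using h3
  -- choose `g₁`
  obtain ⟨g₁, hg₁, hz⟩ := hs y hy
  have hτ₁ : tau t g₁ ∈ N := d.tau_mem g₁
  -- relation between the commutators
  have hR1 : (g * tau t g₁ * g⁻¹ * (tau t g₁)⁻¹) * (g₁ * v * g₁⁻¹ * v⁻¹)⁻¹ ∈ d.N2 := by
    have hr := hcm g hg g₁ hg₁
    set r := g * g₁ * g⁻¹ * g₁⁻¹ with hrdef
    have hrN : r ∈ N := hn2 hr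
    have e1 : g * g₁ = r * (g₁ * g) := by rw [hrdef]; group
    have h2 : tau t (g * g₁) = tau t (g₁ * g) * r ^ 2 := by
      rw [e1, tau_mul, d.tau_N hrN]
      have h3 := d.comm hrN (d.tau_mem (g₁ * g))
      rw [h3]; group
    rw [tau_mul, tau_mul] at h2
    have hA := d.c_mem hτ₁ g
    have hB := d.c_mem hvN g₁
    have e2 : g * tau t g₁ * g⁻¹ * v
        = (g * tau t g₁ * g⁻¹ * (tau t g₁)⁻¹) * (tau t g₁ * v) := by group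
    have e3 : g₁ * v * g₁⁻¹ * tau t g₁ = (g₁ * v * g₁⁻¹ * v⁻¹) * (v * tau t g₁) := by group
    rw [e2, e3, d.comm hvN hτ₁] at h2
    have hX : tau t g₁ * v ∈ N := N.mul_mem hτ₁ hvN
    have h5 := d.comm hX (N.pow_mem hrN 2)
    have h2' : (g * tau t g₁ * g⁻¹ * (tau t g₁)⁻¹) * (tau t g₁ * v)
        = ((g₁ * v * g₁⁻¹ * v⁻¹) * r ^ 2) * (tau t g₁ * v) := by
      rw [h2]
      calc (g₁ * v * g₁⁻¹ * v⁻¹) * (tau t g₁ * v) * r ^ 2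
          = (g₁ * v * g₁⁻¹ * v⁻¹) * ((tau t g₁ * v) * r ^ 2) := by group
        _ = (g₁ * v * g₁⁻¹ * v⁻¹) * (r ^ 2 * (tau t g₁ * v)) := by rw [h5]
        _ = _ := by group
    have h6 := mul_right_cancel h2'
    have h4 : (g * tau t g₁ * g⁻¹ * (tau t g₁)⁻¹) * (g₁ * v * g₁⁻¹ * v⁻¹)⁻¹ = r ^ 2 := by
      rw [h6, d.comm hB (N.pow_mem hrN 2)]; group
    rw [h4]
    exact d.sq_mem hrN
  -- `f ≡ [g, τ g₁]`
  have hf1 : f * (g * tau t g₁ * g⁻¹ * (tau t g₁)⁻¹)⁻¹ ∈ d.N2 := by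
    have hy' : y = tau t g₁ * ((tau t g₁)⁻¹ * y) := by group
    have hzN : (tau t g₁)⁻¹ * y ∈ N := hn2 hz
    have h2 : f = (g * tau t g₁ * g⁻¹ * (tau t g₁)⁻¹) *
        (g * ((tau t g₁)⁻¹ * y) * g⁻¹ * ((tau t g₁)⁻¹ * y)⁻¹) := by
      rw [hfdef, ← d.c_mul g hτ₁ hzN, ← hy']
    have h3 := d.c_N2 g hz
    have h4 := d.comm (d.c_mem hτ₁ g) (d.c_mem hzN g)
    rw [h2, h4]
    simpa [mul_assoc] using h3
  have hAN := d.c_mem hτ₁ g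
  have hBN := d.c_mem hvN g₁
  -- `f ≡ [g₁, v]`
  have hf2 : f * (g₁ * v * g₁⁻¹ * v⁻¹)⁻¹ ∈ d.N2 := by
    have h3 := d.N2.mul_mem hf1 hR1
    have e : f * (g * tau t g₁ * g⁻¹ * (tau t g₁)⁻¹)⁻¹ *
        ((g * tau t g₁ * g⁻¹ * (tau t g₁)⁻¹) * (g₁ * v * g₁⁻¹ * v⁻¹)⁻¹)
        = f * (g₁ * v * g₁⁻¹ * v⁻¹)⁻¹ := by group
    rwa [e] at h3
  rcases hdich with hv0 | hv1
  · -- `v ∈ N²`
    have h3 := d.c_N2 g₁ hv0
    have h4 := d.N2.mul_mem hf2 h3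
    have e : f * (g₁ * v * g₁⁻¹ * v⁻¹)⁻¹ * (g₁ * v * g₁⁻¹ * v⁻¹) = f := by group
    rw [e] at h4
    exact hf h4
  · -- `f ≡ v`
    have hcomm1 := d.comm hvN hfN
    have h5 : v * (g₁ * v * g₁⁻¹ * v⁻¹)⁻¹ ∈ d.N2 := by
      have h6 := d.N2.mul_mem hv1 hf2
      have e1 : f⁻¹ * v * (f * (g₁ * v * g₁⁻¹ * v⁻¹)⁻¹)
          = f⁻¹ * (v * f) * (g₁ * v * g₁⁻¹ * v⁻¹)⁻¹ := by group
      rw [e1, hcomm1] at h6
      have e2 : f⁻¹ * (f * v) * (g₁ * v * g₁⁻¹ * v⁻¹)⁻¹ = v * (g₁ * v * g₁⁻¹ * v⁻¹)⁻¹ := by group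
      rwa [e2] at h6
    -- so `g₁ v g₁⁻¹ ∈ N²`
    have h7 : v * (g₁ * v * g₁⁻¹ * v⁻¹)⁻¹ = v ^ 2 * (g₁ * v * g₁⁻¹)⁻¹ := by
      simp only [pow_two]; group
    rw [h7] at h5
    have h8 : (g₁ * v * g₁⁻¹)⁻¹ ∈ d.N2 := by
      have h9 := d.N2.mul_mem (d.N2.inv_mem (d.sq_mem hvN)) h5
      simpa using h9
    have h10 : g₁ * v * g₁⁻¹ ∈ d.N2 := by simpa using d.N2.inv_mem h8
    have h11 : v ∈ d.N2 := by
      have h12 := d.n2_conj h10 g₁⁻¹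
      have e : g₁⁻¹ * (g₁ * v * g₁⁻¹) * g₁⁻¹⁻¹ = v := by group
      rwa [e] at h12
    -- contradiction with the previous case
    have h3 := d.c_N2 g₁ h11
    have h4 := d.N2.mul_mem hf2 h3
    have e : f * (g₁ * v * g₁⁻¹ * v⁻¹)⁻¹ * (g₁ * v * g₁⁻¹ * v⁻¹) = f := by group
    rw [e] at h4
    exact hf h4

end lin

end WS

end Cfsg.Agent.Lib.WrInvB
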