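import Mathlib
import Cfsg.Agent.Lib.WrInvC

/-!
# Sectional rank from an inverted `[S, t]`: the last case and the theorem
-/

set_option autoImplicit false

namespace Cfsg.Agent.Lib.WrInvB

open Cfsg.Agent.Lib.SectRank Cfsg.Agent.Lib.SectE16

variable {S : Type*} [Group S] [Finite S]

theorem arith_three {a b w r : ℕ} (ha : a ≤ 4) (hb : b ≤ 2) (hw : w ≤ 4) (h : r = a * b * w)
    (hr : 16 < r) : 3 ≤ a ∧ 2 ≤ b ∧ 3 ≤ w := by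
  subst h
  interval_cases a <;> interval_cases b <;> interval_cases w <;> simp_all

namespace WS

variable {t z₀ : S} {Q N : Subgroup S} {c : ℕ} (d : WS t z₀ Q N c)

include d

/-- The main congruence. -/
theorem claim {H R : Subgroup S} (hR : R ≤ d.N2)
    (hsq : ∀ h ∈ H, h ^ 2 ∈ R)
    (L : ∀ g ∈ H, ∀ y ∈ N, g * y * g⁻¹ * y⁻¹ ∈ d.N2)
    (hs : ∀ y ∈ N, ∃ g ∈ H, (tau t g)⁻¹ * y ∈ d.N2)
    {e' n₀ q₀ w y₁ : S} (he : e' ∈ H) (hn₀ : n₀ ∈ N) (hq₀ : q₀ ∈ Q) (hee : n₀ * q₀ = e')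
    (hw : w ∈ Q) (hy₁ : y₁ ∈ N) (hwq : w * q₀ * w⁻¹ * q₀⁻¹ = t * y₁)
    {g : S} (hg : g ∈ H) :
    tau t (w * g * w⁻¹) ∈ d.N2 ∨ z₀⁻¹ * tau t (w * g * w⁻¹) ∈ d.N2 := by
  have hn2 := d.n2_le
  have hi := d.ti
  have hwt : w * t = t * w := (d.Qc w).1 hw
  set g' := w * g * w⁻¹ with hg'
  -- `L` for `g'`
  have Lg' : ∀ y ∈ N, g' * y * g'⁻¹ * y⁻¹ ∈ d.N2 := by
    intro y hy
    have h1 := L g hg _ (d.n_conj' hy w)
    have h2 := d.n2_conj h1 w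
    have e : w * (g * (w⁻¹ * y * w) * g⁻¹ * (w⁻¹ * y * w)⁻¹) * w⁻¹ = g' * y * g'⁻¹ * y⁻¹ := by
      rw [hg']; group
    rwa [e] at h2
  set v := tau t g' with hv
  have hvN : v ∈ N := d.tau_mem g'
  -- the element `e''`
  have hn₄ : w * n₀ * w⁻¹ ∈ N := d.n_conj hn₀ w
  set n₄ := w * n₀ * w⁻¹ with hn₄def
  set n₃ := n₄⁻¹ * y₁ * n₀⁻¹ with hn₃def
  have hn₃ : n₃ ∈ N := N.mul_mem (N.mul_mem (N.inv_mem hn₄) hy₁) (N.inv_mem hn₀)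
  have he'' : w * e' * w⁻¹ = t * n₃ * e' := by
    have h4 : n₄ * t = t * n₄⁻¹ := by
      have h5 := d.inv hn₄
      calc n₄ * t = t * (t * n₄ * t) := by
            calc n₄ * t = (t * t) * n₄ * t := by rw [d.tt, one_mul]
              _ = _ := by group
        _ = t * n₄⁻¹ := by rw [h5]
    have h6 : w * q₀ * w⁻¹ = t * y₁ * q₀ := by
      rw [← hwq]; group
    have h7 : q₀ = n₀⁻¹ * e' := by rw [← hee]; group
    calc w * e' * w⁻¹ = n₄ * (w * q₀ * w⁻¹) := by rw [← hee, hn₄def]; group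
      _ = n₄ * (t * y₁ * q₀) := by rw [h6]
      _ = (n₄ * t) * y₁ * q₀ := by group
      _ = (t * n₄⁻¹) * y₁ * q₀ := by rw [h4]
      _ = t * n₄⁻¹ * y₁ * (n₀⁻¹ * e') := by rw [← h7]
      _ = t * n₃ * e' := by rw [hn₃def]; group
  -- `[g', e'']`
  have hLHS : g' * (t * n₃ * e') * g'⁻¹ * (t * n₃ * e')⁻¹ ∈ d.N2 := by
    have h1 : g * e' * g⁻¹ * e'⁻¹ ∈ d.N2 := hR (comm_mem_of_squares hsq hg he)
    have h2 := d.n2_conj h1 w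
    have e : w * (g * e' * g⁻¹ * e'⁻¹) * w⁻¹
        = g' * (w * e' * w⁻¹) * g'⁻¹ * (w * e' * w⁻¹)⁻¹ := by
      rw [hg']; group
    rw [e, he''] at h2
    exact h2
  set d₀ := g' * e' * g'⁻¹ * e'⁻¹ with hd₀
  set Z₁ := t * (g' * n₃ * g'⁻¹ * n₃⁻¹) * t⁻¹ with hZ₁
  have hZ₁m : Z₁ ∈ d.N2 := d.n2_conj (Lg' n₃ hn₃) t
  have hid : g' * (t * n₃ * e') * g'⁻¹ * (t * n₃ * e')⁻¹ = v * Z₁ * ((t * n₃) * d₀ * (t * n₃)⁻¹) := by
    rw [hv, hZ₁, hd₀]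
    simp only [tau]
    group
  rw [hid] at hLHS
  have hDN : (t * n₃) * d₀ * (t * n₃)⁻¹ ∈ N := by
    have h1 : (t * n₃) * d₀ * (t * n₃)⁻¹ = Z₁⁻¹ * v⁻¹ * (v * Z₁ * ((t * n₃) * d₀ * (t * n₃)⁻¹)) := by
      group
    rw [h1]
    exact N.mul_mem (N.mul_mem (N.inv_mem (hn2 hZ₁m)) (N.inv_mem hvN)) (hn2 hLHS)
  have hd₀N : d₀ ∈ N := by
    have h1 := d.n_conj' hDN (t * n₃)
    have e : (t * n₃)⁻¹ * ((t * n₃) * d₀ * (t * n₃)⁻¹) * (t * n₃) = d₀ := by group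
    rwa [e] at h1
  have hDeq : (t * n₃) * d₀ * (t * n₃)⁻¹ = d₀⁻¹ := by
    have h1 := d.comm hn₃ hd₀N
    have h2 := d.inv hd₀N
    calc (t * n₃) * d₀ * (t * n₃)⁻¹ = t * (n₃ * d₀) * n₃⁻¹ * t⁻¹ := by group
      _ = t * (d₀ * n₃) * n₃⁻¹ * t⁻¹ := by rw [h1]
      _ = t * d₀ * t⁻¹ := by group
      _ = t * d₀ * t := by rw [hi]
      _ = d₀⁻¹ := h2
  rw [hDeq] at hLHS
  have hvd : v * d₀⁻¹ ∈ d.N2 := by
    have h1 := d.comm (hn2 hZ₁m) (N.inv_mem hd₀N)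
    have e : v * d₀⁻¹ = (v * Z₁ * d₀⁻¹) * Z₁⁻¹ := by
      calc v * d₀⁻¹ = v * (Z₁ * Z₁⁻¹) * d₀⁻¹ := by group
        _ = v * Z₁ * (Z₁⁻¹ * d₀⁻¹) := by group
        _ = v * Z₁ * (d₀⁻¹ * Z₁⁻¹) := by
            rw [d.comm (N.inv_mem (hn2 hZ₁m)) (N.inv_mem hd₀N)]
        _ = _ := by group
    rw [e]
    exact d.N2.mul_mem hLHS (d.N2.inv_mem hZ₁m)
  -- `g₁`
  obtain ⟨g₁, hg₁, hz⟩ := hs v hvN
  have hxP : g₁⁻¹ * g' ∈ N ⊔ Q := d.mem_P_of_congr hz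
  obtain ⟨n₁, hn₁, q₁, hq₁, hx⟩ := d.exists_of_mem_P hxP
  set x := g₁⁻¹ * g' with hxdef
  set C := x * e' * x⁻¹ * e'⁻¹ with hC
  have hg₁i : g₁⁻¹ ∈ H := H.inv_mem hg₁
  -- first computation of `C`
  have hCd : C * d₀⁻¹ ∈ d.N2 := by
    set Z₂ := g₁⁻¹ * e' * g₁⁻¹⁻¹ * e'⁻¹ with hZ₂
    have hZ₂m : Z₂ ∈ d.N2 := hR (comm_mem_of_squares hsq hg₁i he)
    have hL := L g₁⁻¹ hg₁i d₀ hd₀N
    set D₂ := g₁⁻¹ * d₀ * g₁⁻¹⁻¹ with hD₂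
    have e1 : C = D₂ * Z₂ := by
      rw [hC, hD₂, hZ₂, hxdef, hd₀]; group
    have e2 : C * d₀⁻¹ = (D₂ * d₀⁻¹) * Z₂ := by
      rw [e1]
      have := d.comm (hn2 hZ₂m) (N.inv_mem hd₀N)
      calc D₂ * Z₂ * d₀⁻¹ = D₂ * (Z₂ * d₀⁻¹) := by group
        _ = D₂ * (d₀⁻¹ * Z₂) := by rw [this]
        _ = _ := by group
    rw [e2]
    exact d.N2.mul_mem hL hZ₂m
  have hCN : C ∈ N := by
    have h1 : C = (C * d₀⁻¹) * d₀ := by group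
    rw [h1]
    exact N.mul_mem (hn2 hCd) hd₀N
  -- second computation of `C`
  set p := q₁ * q₀ * q₁⁻¹ * q₀⁻¹ with hp
  have hZ₃ : q₁ * n₀ * q₁⁻¹ * n₀⁻¹ ∈ d.N2 := by
    have h1 := d.n2_conj (Lg' n₀ hn₀) g₁⁻¹
    have h2 := L g₁⁻¹ hg₁i n₀ hn₀
    have h3 := d.N2.mul_mem h1 h2
    have e1 : g₁⁻¹ * (g' * n₀ * g'⁻¹ * n₀⁻¹) * g₁⁻¹⁻¹ * (g₁⁻¹ * n₀ * g₁⁻¹⁻¹ * n₀⁻¹)
        = x * n₀ * x⁻¹ * n₀⁻¹ := by
      rw [hxdef]; group
    rw [e1] at h3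
    have h4 : x * n₀ * x⁻¹ = q₁ * n₀ * q₁⁻¹ := by
      rw [← hx]
      have h5 : q₁ * n₀ * q₁⁻¹ ∈ N := d.n_conj hn₀ q₁
      have h6 := d.comm hn₁ h5
      calc (n₁ * q₁) * n₀ * (n₁ * q₁)⁻¹ = n₁ * (q₁ * n₀ * q₁⁻¹) * n₁⁻¹ := by group
        _ = (q₁ * n₀ * q₁⁻¹) * n₁ * n₁⁻¹ := by rw [h6]
        _ = _ := by group
    rwa [h4] at h3
  set Z₃ := q₁ * n₀ * q₁⁻¹ * n₀⁻¹ with hZ₃def
  have hZ₄ : n₁ * e' * n₁⁻¹ * e'⁻¹ ∈ d.N2 := by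
    have h1 := L e' he n₁ hn₁
    have e : n₁ * e' * n₁⁻¹ * e'⁻¹ = (e' * n₁ * e'⁻¹ * n₁⁻¹)⁻¹ := by group
    rw [e]
    exact d.N2.inv_mem h1
  set Z₄ := n₁ * e' * n₁⁻¹ * e'⁻¹ with hZ₄def
  have hC2 : C = n₁ * (Z₃ * (n₀ * p * n₀⁻¹)) * n₁⁻¹ * Z₄ := by
    rw [hC, ← hx, hZ₃def, hZ₄def, hp, ← hee]; group
  have hY1 : n₁ * (Z₃ * (n₀ * p * n₀⁻¹)) * n₁⁻¹ ∈ N := by
    have h1 : n₁ * (Z₃ * (n₀ * p * n₀⁻¹)) * n₁⁻¹ = C * Z₄⁻¹ := by rw [hC2]; group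
    rw [h1]
    exact N.mul_mem hCN (N.inv_mem (hn2 hZ₄))
  have hY2 : Z₃ * (n₀ * p * n₀⁻¹) ∈ N := by
    have h1 := d.n_conj' hY1 n₁
    have e : n₁⁻¹ * (n₁ * (Z₃ * (n₀ * p * n₀⁻¹)) * n₁⁻¹) * n₁ = Z₃ * (n₀ * p * n₀⁻¹) := by group
    rwa [e] at h1
  have hY3 : n₀ * p * n₀⁻¹ ∈ N := by
    have h1 : n₀ * p * n₀⁻¹ = Z₃⁻¹ * (Z₃ * (n₀ * p * n₀⁻¹)) := by group
    rw [h1]
    exact N.mul_mem (N.inv_mem (hn2 hZ₃)) hY2
  have hpN : p ∈ N := by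
    have h1 := d.n_conj' hY3 n₀
    have e : n₀⁻¹ * (n₀ * p * n₀⁻¹) * n₀ = p := by group
    rwa [e] at h1
  have hp1 : n₀ * p * n₀⁻¹ = p := by
    rw [d.comm hn₀ hpN]; group
  have hC3 : C = Z₃ * p * Z₄ := by
    rw [hC2, hp1]
    have h1 := d.comm hn₁ (N.mul_mem (hn2 hZ₃) hpN)
    calc n₁ * (Z₃ * p) * n₁⁻¹ * Z₄ = (Z₃ * p) * n₁ * n₁⁻¹ * Z₄ := by rw [h1]
      _ = _ := by group
  have hCp : C * p⁻¹ ∈ d.N2 := by
    have h1 : C * p⁻¹ = Z₃ * Z₄ := by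
      rw [hC3]
      have h2 := d.comm (hn2 hZ₄) (N.inv_mem hpN)
      calc Z₃ * p * Z₄ * p⁻¹ = Z₃ * p * (Z₄ * p⁻¹) := by group
        _ = Z₃ * p * (p⁻¹ * Z₄) := by rw [h2]
        _ = _ := by group
    rw [h1]
    exact d.N2.mul_mem hZ₃ hZ₄
  have hvp : v * p⁻¹ ∈ d.N2 := by
    have h1 := d.N2.mul_mem (d.N2.mul_mem hvd (d.N2.inv_mem hCd)) hCp
    have e : v * d₀⁻¹ * (C * d₀⁻¹)⁻¹ * (C * p⁻¹) = v * p⁻¹ := by group
    rwa [e] at h1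
  rcases d.q5 q₁ hq₁ q₀ hq₀ hpN with h | h
  · left
    have h' : p = 1 := h
    rw [h'] at hvp
    simpa using hvp
  · right
    have h' : p = z₀ := h
    rw [h'] at hvp
    rw [d.comm (N.inv_mem d.z₀N) hvN]
    exact hvp

/-- Case II with `c = 4`. -/
theorem caseII_four (hS : IsPGroup 2 S) {H R : Subgroup S} (hc : c = 4)
    (hcase : ∀ h ∈ H, h * t⁻¹ ∉ N) (hRH : R ≤ H) (hsq : ∀ h ∈ H, h ^ 2 ∈ R)
    (h16 : 16 < R.relIndex H) : False := by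
  have hn := d.Nn
  have hn2 := d.n2_le
  have key := d.key_eq hRH
  have ha : (N ⊓ R).relIndex (N ⊓ H) ≤ 4 := hc ▸ d.a_le hsq hRH
  have hω : (N ⊔ Q).relIndex H ≤ 4 := hc ▸ d.omega_le_index
  have hUt : QuotientGroup.mk' N t ∉ (H ⊓ (N ⊔ Q)).map (QuotientGroup.mk' N) := by
    rintro ⟨x, ⟨hx, -⟩, hxt⟩
    apply hcase x hx
    have h1 : (x : S ⧸ N) = (t : S ⧸ N) := hxt
    have h2 : x⁻¹ * t ∈ N := QuotientGroup.eq.1 h1
    have h3 := N.inv_mem h2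
    have e : (x⁻¹ * t)⁻¹ = t⁻¹ * x := by group
    rw [e] at h3
    have h4 := d.n_conj h3 t
    have e2 : t * (t⁻¹ * x) * t⁻¹ = x * t⁻¹ := by group
    rwa [e2] at h4
  have hU4 := d.bound_U' hS (d.Ub_le H) hUt
  have hQb := d.card_Qb
  rw [hc] at hQb
  have hU2 : Nat.card ↥((H ⊓ (N ⊔ Q)).map (QuotientGroup.mk' N)) ≤ 2 := by omega
  have hWU : (R ⊓ (N ⊔ Q)).map (QuotientGroup.mk' N) ≤ (H ⊓ (N ⊔ Q)).map (QuotientGroup.mk' N) :=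
    Subgroup.map_mono (inf_le_inf_right _ hRH)
  have hcardU := card_eq_relIndex_mul hWU
  have hWpos : 0 < Nat.card ↥((R ⊓ (N ⊔ Q)).map (QuotientGroup.mk' N)) := Nat.card_pos
  have hb : ((R ⊓ (N ⊔ Q)).map (QuotientGroup.mk' N)).relIndex ((H ⊓ (N ⊔ Q)).map (QuotientGroup.mk' N)) ≤ 2 := by
    refine le_trans ?_ hU2
    rw [hcardU]
    exact Nat.le_mul_of_pos_right _ hWpos
  have hπ' : 0 < (N ⊔ Q).relIndex R := Nat.pos_of_ne_zero (rne _ _)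
  -- `R ≤ P`
  have hprod : (N ⊓ R).relIndex (N ⊓ H) *
      ((R ⊓ (N ⊔ Q)).map (QuotientGroup.mk' N)).relIndex ((H ⊓ (N ⊔ Q)).map (QuotientGroup.mk' N)) *
      (N ⊔ Q).relIndex H ≤ 32 := by
    calc _ ≤ 4 * 2 * 4 := Nat.mul_le_mul (Nat.mul_le_mul ha hb) hω
      _ = 32 := by norm_num
  have hπ1 : (N ⊔ Q).relIndex R = 1 := by
    by_contra hne
    have h2 : 2 ≤ (N ⊔ Q).relIndex R := by omega
    have h3 : 17 * 2 ≤ R.relIndex H * (N ⊔ Q).relIndex R := Nat.mul_le_mul h16 h2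
    omega
  have hRP : R ≤ N ⊔ Q := Subgroup.relIndex_eq_one.1 hπ1
  rw [hπ1, mul_one] at key
  obtain ⟨h3a, h2b, h3w⟩ := arith_three ha hb hω key h16
  -- `W̄ = 1`
  have hW1 : Nat.card ↥((R ⊓ (N ⊔ Q)).map (QuotientGroup.mk' N)) = 1 := by
    by_contra hne
    have h2 : 2 ≤ Nat.card ↥((R ⊓ (N ⊔ Q)).map (QuotientGroup.mk' N)) := by omega
    have h3 := Nat.mul_le_mul h2b h2
    rw [← hcardU] at h3
    omega
  have hUcard : Nat.card ↥((H ⊓ (N ⊔ Q)).map (QuotientGroup.mk' N)) = 2 := by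
    rw [hcardU, hW1, mul_one]; omega
  have hRN : R ≤ N := by
    intro r hr
    have h1 := Subgroup.card_eq_one.1 hW1
    have h2 : QuotientGroup.mk' N r ∈ (R ⊓ (N ⊔ Q)).map (QuotientGroup.mk' N) :=
      ⟨r, ⟨hr, hRP hr⟩, rfl⟩
    rw [h1, Subgroup.mem_bot] at h2
    exact (QuotientGroup.eq_one_iff r).1 h2
  -- `R ≤ N²`
  have hR : R ≤ d.N2 := by
    have hab := d.a_bound hsq hRH
    have hA2 : sqS (N ⊓ H) (fun _ ha _ hb => d.comm ha.1 hb.1) ≤ N ⊓ R := by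
      rintro _ ⟨a, ha, rfl⟩
      exact ⟨N.pow_mem ha.1 2, hsq a ha.2⟩
    have h1 : (sqS (N ⊓ H) (fun _ ha _ hb => d.comm ha.1 hb.1)).relIndex (N ⊓ R) = 1 := by
      have h0 := rne (sqS (N ⊓ H) (fun _ ha _ hb => d.comm ha.1 hb.1)) (N ⊓ R)
      by_contra hne
      have h2 : 2 ≤ (sqS (N ⊓ H) (fun _ ha _ hb => d.comm ha.1 hb.1)).relIndex (N ⊓ R) := by omega
      have h3 := Nat.mul_le_mul h3a h2
      have hab' := hab.trans_eq hc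
      omega
    have h2 : N ⊓ R ≤ sqS (N ⊓ H) (fun _ ha _ hb => d.comm ha.1 hb.1) :=
      Subgroup.relIndex_eq_one.1 h1
    intro r hr
    obtain ⟨a, ha, hae⟩ := h2 ⟨hRN hr, hr⟩
    exact ⟨a, ha.1, hae⟩
  -- `ω = 4`
  have hω4 : (N ⊔ Q).relIndex H = 4 := by
    have hne3 : (N ⊔ Q).relIndex H ≠ 3 := by
      intro h3
      have hH : IsPGroup 2 H := hS.to_subgroup H
      obtain ⟨a, ha'⟩ := IsPGroup.iff_card.mp hH
      have hdv : (N ⊔ Q).relIndex H ∣ 2 ^ a := by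
        rw [← ha']
        exact Subgroup.relIndex_dvd_card _ _
      rw [h3] at hdv
      have := Nat.Prime.dvd_of_dvd_pow (by norm_num : Nat.Prime 3) hdv
      omega
    omega
  -- surjectivity
  have hs : ∀ y ∈ N, ∃ g ∈ H, (tau t g)⁻¹ * y ∈ d.N2 := by
    classical
    let f : (H ⧸ (N ⊔ Q).subgroupOf H) → (N ⧸ d.N2.subgroupOf N) :=
      fun q => ((⟨tau t (q.out : S), d.tau_mem _⟩ : N) : N ⧸ d.N2.subgroupOf N)
    have hf : Function.Injective f := by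
      intro q₁ q₂ h
      have h1 := QuotientGroup.eq.1 h
      rw [Subgroup.mem_subgroupOf] at h1
      have h2 := d.mem_P_of_congr h1
      rw [← q₁.out_eq', ← q₂.out_eq', QuotientGroup.eq, Subgroup.mem_subgroupOf]
      simpa using h2
    have hcard : Nat.card (N ⧸ d.N2.subgroupOf N) ≤ Nat.card (H ⧸ (N ⊔ Q).subgroupOf H) := by
      have h1 : Nat.card (N ⧸ d.N2.subgroupOf N) = 4 := d.relIndex_N2.trans hc
      have h2 : Nat.card (H ⧸ (N ⊔ Q).subgroupOf H) = 4 := hω4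
      omega
    have hb := hf.bijective_of_nat_card_le hcard
    intro y hy
    obtain ⟨q, hq⟩ := hb.2 ((⟨y, hy⟩ : N) : N ⧸ d.N2.subgroupOf N)
    have h1 := QuotientGroup.eq.1 hq
    rw [Subgroup.mem_subgroupOf] at h1
    exact ⟨q.out, q.out.2, h1⟩
  have L := d.lin hc (fun h hh => hR (hsq h hh))
    (fun a ha b hb => hR (comm_mem_of_squares hsq ha hb)) hs
  -- `e'`
  obtain ⟨e', he', hen⟩ : ∃ e' ∈ H ⊓ (N ⊔ Q), QuotientGroup.mk' N e' ≠ 1 := by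
    by_contra hcon
    push Not at hcon
    have h1 : (H ⊓ (N ⊔ Q)).map (QuotientGroup.mk' N) = ⊥ := by
      rw [eq_bot_iff]
      rintro _ ⟨x, hx, rfl⟩
      exact hcon x hx
    rw [h1, Subgroup.card_bot] at hUcard
    omega
  obtain ⟨n₀, hn₀, q₀, hq₀, hee⟩ := d.exists_of_mem_P he'.2
  have hq₀N : q₀ ∉ N := by
    intro h
    apply hen
    apply (QuotientGroup.eq_one_iff e').2
    rw [← hee]
    exact N.mul_mem hn₀ h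
  have hq₀t : t⁻¹ * q₀ ∉ N := by
    intro h
    apply hcase e' he'.1
    have h1 := d.n_conj h t
    have e : e' * t⁻¹ = n₀ * (t * (t⁻¹ * q₀) * t⁻¹) := by rw [← hee]; group
    rw [e]
    exact N.mul_mem hn₀ h1
  obtain ⟨w, hw, y₁, hy₁, hwq⟩ := d.q4 hc q₀ hq₀ hq₀N hq₀t
  have hcl := fun (g : S) (hg : g ∈ H) =>
    d.claim hR hsq L hs he'.1 hn₀ hq₀ hee hw hy₁.1 hwq hg
  -- conclusion
  have hwt : w * t = t * w := (d.Qc w).1 hw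
  obtain ⟨y, hy, hy1, hy2⟩ : ∃ y ∈ N, y ∉ d.N2 ∧ z₀⁻¹ * y ∉ d.N2 := by
    by_contra hcon
    push Not at hcon
    have h1 := relIndex_le_two_of N d.N2 z₀ (fun x hx => by
      by_cases h2 : x ∈ d.N2
      · exact Or.inl h2
      · exact Or.inr (hcon x hx h2))
    rw [d.relIndex_N2] at h1
    omega
  obtain ⟨g, hg, hz⟩ := hs _ (d.n_conj' hy w)
  have hτ : tau t (w * g * w⁻¹) = w * tau t g * w⁻¹ := by
    have h1 : w⁻¹ * t * w = t := by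
      calc w⁻¹ * t * w = w⁻¹ * (t * w) := by group
        _ = w⁻¹ * (w * t) := by rw [hwt]
        _ = t := by group
    have h2 : t * w⁻¹ * t⁻¹ = w⁻¹ := by
      have h3 : t * w⁻¹ = w⁻¹ * t := by
        calc t * w⁻¹ = w⁻¹ * (w * t) * w⁻¹ := by group
          _ = w⁻¹ * (t * w) * w⁻¹ := by rw [hwt]
          _ = _ := by group
      rw [h3]; group
    simp only [tau]
    calc w * g * w⁻¹ * t * (w * g * w⁻¹)⁻¹ * t⁻¹
        = w * g * (w⁻¹ * t * w) * g⁻¹ * (w⁻¹ * t⁻¹) := by group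
      _ = w * g * t * g⁻¹ * (w⁻¹ * t⁻¹) := by rw [h1]
      _ = w * g * t * g⁻¹ * t⁻¹ * (t * w⁻¹ * t⁻¹) := by group
      _ = w * g * t * g⁻¹ * t⁻¹ * w⁻¹ := by rw [h2]
      _ = _ := by group
  have hvy : (tau t (w * g * w⁻¹))⁻¹ * y ∈ d.N2 := by
    have h1 := d.n2_conj hz w
    rw [hτ]
    have e : w * ((tau t g)⁻¹ * (w⁻¹ * y * w)) * w⁻¹ = (w * tau t g * w⁻¹)⁻¹ * y := by group
    rwa [e] at h1
  rcases hcl g hg with h | h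
  · apply hy1
    have h1 := d.N2.mul_mem h hvy
    simpa using h1
  · apply hy2
    have h1 := d.N2.mul_mem h hvy
    have e : z₀⁻¹ * tau t (w * g * w⁻¹) * ((tau t (w * g * w⁻¹))⁻¹ * y) = z₀⁻¹ * y := by group
    rwa [e] at h1

/-- The theorem. -/
theorem sqBound (hS : IsPGroup 2 S) : SqBound 4 S := by
  intro H R hRH hsq
  have hn := d.Nn
  by_cases hcase : ∃ h ∈ H, h * t⁻¹ ∈ N
  · obtain ⟨h, hh, hht⟩ := hcase
    have := d.caseI' hh hht hRH hsq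
    simpa using this
  · push Not at hcase
    rcases d.c24 with hc | hc
    · -- `c = 2`
      have key := d.key_eq hRH
      have ha : (N ⊓ R).relIndex (N ⊓ H) ≤ 2 := hc ▸ d.a_le hsq hRH
      have hω : (N ⊔ Q).relIndex H ≤ 2 := hc ▸ d.omega_le_index
      have hUt : QuotientGroup.mk' N t ∉ (H ⊓ (N ⊔ Q)).map (QuotientGroup.mk' N) := by
        rintro ⟨x, ⟨hx, -⟩, hxt⟩
        apply hcase x hx
        have h1 : (x : S ⧸ N) = (t : S ⧸ N) := hxt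
        have h2 : x⁻¹ * t ∈ N := QuotientGroup.eq.1 h1
        have h3 := N.inv_mem h2
        have e : (x⁻¹ * t)⁻¹ = t⁻¹ * x := by group
        rw [e] at h3
        have h4 := d.n_conj h3 t
        have e2 : t * (t⁻¹ * x) * t⁻¹ = x * t⁻¹ := by group
        rwa [e2] at h4
      have hU4 := d.bound_U' hS (d.Ub_le H) hUt
      have hQb := d.card_Qb
      rw [hc] at hQb
      have hU2 : Nat.card ↥((H ⊓ (N ⊔ Q)).map (QuotientGroup.mk' N)) ≤ 4 := by omega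
      have hWU : (R ⊓ (N ⊔ Q)).map (QuotientGroup.mk' N) ≤ (H ⊓ (N ⊔ Q)).map (QuotientGroup.mk' N) :=
        Subgroup.map_mono (inf_le_inf_right _ hRH)
      have hcardU := card_eq_relIndex_mul hWU
      have hWpos : 0 < Nat.card ↥((R ⊓ (N ⊔ Q)).map (QuotientGroup.mk' N)) := Nat.card_pos
      have hb : ((R ⊓ (N ⊔ Q)).map (QuotientGroup.mk' N)).relIndex ((H ⊓ (N ⊔ Q)).map (QuotientGroup.mk' N)) ≤ 4 := by
        refine le_trans ?_ hU2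
        rw [hcardU]
        exact Nat.le_mul_of_pos_right _ hWpos
      have hπ' : 0 < (N ⊔ Q).relIndex R := Nat.pos_of_ne_zero (rne _ _)
      calc R.relIndex H ≤ R.relIndex H * (N ⊔ Q).relIndex R := Nat.le_mul_of_pos_right _ hπ'
        _ = _ := key
        _ ≤ 2 * 4 * 2 := Nat.mul_le_mul (Nat.mul_le_mul ha hb) hω
        _ = 2 ^ 4 := by norm_num
    · by_contra hlt
      exact d.caseII_four hS hc hcase hRH hsq (by simpa using hlt)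

end WS

end Cfsg.Agent.Lib.WrInvB
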