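import Mathlib
import Cfsg.Prelude.Def_CaseTheorems
import Cfsg.Prelude.Def_Transfer
import Cfsg.Agent.Lib.WrInvA
import Cfsg.Agent.Lib.WrInvD

/-!
# The group `(Z₂ × Z₂) ≀ Z₂` with `C_S(Z(Q)) = Q`: sectional 2-rank at most 4
-/

set_option autoImplicit false

namespace Cfsg.Agent.Lib.WrInvE

open Cfsg.Agent.Lib.SectRank Cfsg.Agent.Lib.SectE16 Cfsg.Agent.Lib.WrInvB Cfsg.Agent.Lib.WrInvA

variable {S : Type*} [Group S] [Finite S]

/-- Four elements exhaust a subgroup of order 4. -/
theorem four_cases {Z : Subgroup S} (h4 : Nat.card Z = 4) {t b : S} (ht : t ∈ Z) (hb : b ∈ Z)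
    (t1 : t ≠ 1) (b1 : b ≠ 1) (tb : t ≠ b) (tb1 : t * b ≠ 1) (tbt : t * b ≠ t) (tbb : t * b ≠ b)
    {z : S} (hz : z ∈ Z) : z = 1 ∨ z = t ∨ z = b ∨ z = t * b := by
  classical
  by_contra hc
  push Not at hc
  obtain ⟨h1, h2, h3, h5⟩ := hc
  let F : Finset S := {1, t, b, t * b, z}
  have hF : F.card = 5 := by
    have : F = insert 1 (insert t (insert b (insert (t * b) {z}))) := rfl
    rw [this, Finset.card_insert_of_notMem, Finset.card_insert_of_notMem,
      Finset.card_insert_of_notMem, Finset.card_insert_of_notMem, Finset.card_singleton]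
    · rw [Finset.mem_singleton]; exact fun h => h5 h.symm
    · simp only [Finset.mem_insert, Finset.mem_singleton, not_or]
      exact ⟨fun h => tbb h.symm, fun h => h3 h.symm⟩
    · simp only [Finset.mem_insert, Finset.mem_singleton, not_or]
      exact ⟨tb, fun h => tbt h.symm, fun h => h2 h.symm⟩
    · simp only [Finset.mem_insert, Finset.mem_singleton, not_or]
      exact ⟨fun h => t1 h.symm, fun h => b1 h.symm, fun h => tb1 h.symm, fun h => h1 h.symm⟩
  have hsub : (F : Set S) ⊆ (Z : Set S) := by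
    intro x hx
    simp only [F, Finset.coe_insert, Finset.coe_singleton, Set.mem_insert_iff,
      Set.mem_singleton_iff] at hx
    rcases hx with rfl | rfl | rfl | rfl | rfl
    · exact Z.one_mem
    · exact ht
    · exact hb
    · exact Z.mul_mem ht hb
    · exact hz
  have h6 := Set.ncard_le_ncard hsub (Set.toFinite _)
  rw [Set.ncard_coe_finset, hF] at h6
  have h7 : Nat.card (Z : Set S) = (Z : Set S).ncard := Nat.card_coe_set_eq _
  have h8 : Nat.card (Z : Set S) = 4 := h4
  omega

/-- `x ∈ K` if `x³ ∈ K` and `x` has 2-power order. -/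
theorem mem_of_cube (hS : IsPGroup 2 S) {K : Subgroup S} {x : S} (h : x ^ 3 ∈ K) : x ∈ K := by
  obtain ⟨a, ha⟩ := hS x
  have hg : Nat.gcd 3 (2 ^ a) = 1 := Nat.Coprime.pow_right a (by norm_num)
  have h1 := Nat.gcd_eq_gcd_ab 3 (2 ^ a)
  rw [hg] at h1
  have h2 : x = (x ^ 3) ^ (Nat.gcdA 3 (2 ^ a)) * (x ^ (2 ^ a)) ^ (Nat.gcdB 3 (2 ^ a)) := by
    rw [← zpow_natCast x 3, ← zpow_natCast x (2 ^ a), ← zpow_mul, ← zpow_mul, ← zpow_add]
    have h3 : ((3 : ℕ) : ℤ) * Nat.gcdA 3 (2 ^ a) + ((2 ^ a : ℕ) : ℤ) * Nat.gcdB 3 (2 ^ a) = 1 := by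
      exact_mod_cast h1.symm
    rw [h3, zpow_one]
  rw [h2, ha, one_zpow, mul_one]
  exact K.zpow_mem h _

/-- The structure of `Q`. -/
structure QD (Q E : Subgroup S) (s : S) : Prop where
  hEQ : E ≤ Q
  ecomm : ∀ a ∈ E, ∀ b ∈ E, a * b = b * a
  esq : ∀ a ∈ E, a * a = 1
  cE : Nat.card E = 16
  cQ : Nat.card Q = 32
  sQ : s ∈ Q
  sE : s ∉ E
  ss : s * s = 1
  fix : Nat.card ↥(E ⊓ Subgroup.centralizer ({s} : Set S)) = 4

namespace QD

variable {Q E : Subgroup S} {s : S} (q : QD Q E s)

include q

theorem si : s⁻¹ = s := inv_eq_of_mul_eq_one_left q.ss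

theorem ei {a : S} (ha : a ∈ E) : a⁻¹ = a := inv_eq_of_mul_eq_one_left (q.esq a ha)

theorem rel2 : E.relIndex Q = 2 := by
  have h := card_eq_relIndex_mul q.hEQ
  rw [q.cE, q.cQ] at h
  omega

theorem dich {x : S} (hx : x ∈ Q) (hxE : x ∉ E) : x * s ∈ E := by
  have h := (Subgroup.mul_mem_iff_of_index_two (H := E.subgroupOf Q) q.rel2
    (a := ⟨x, hx⟩) (b := ⟨s, q.sQ⟩)).2 (by
      simp only [Subgroup.mem_subgroupOf]
      exact ⟨fun h => absurd h hxE, fun h => absurd h q.sE⟩)
  simpa [Subgroup.mem_subgroupOf] using h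

theorem norm {e : S} (he : e ∈ E) : s * e * s ∈ E := by
  have h1 : s * e ∉ E := by
    intro h
    apply q.sE
    have := E.mul_mem h (E.inv_mem he)
    simpa using this
  exact q.dich (Q.mul_mem q.sQ (q.hEQ he)) h1

/-- `[s, e] = (s e s) e` commutes with `s`. -/
theorem m_E {e : S} (he : e ∈ E) : s * e * s * e ∈ E := E.mul_mem (q.norm he) he

theorem m_comm {e : S} (he : e ∈ E) : s * e * s * e = e * s * e * s := by
  have h := q.ecomm _ (q.norm he) _ he
  calc s * e * s * e = e * (s * e * s) := h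
    _ = _ := by group

theorem m_cent {e : S} (he : e ∈ E) : s * e * s * e ∈ E ⊓ Subgroup.centralizer ({s} : Set S) := by
  refine ⟨q.m_E he, Subgroup.mem_centralizer_iff.2 ?_⟩
  intro x hx
  rw [Set.mem_singleton_iff] at hx
  subst hx
  have h1 := q.m_comm he
  calc x * (x * e * x * e) = (x * x) * e * x * e := by group
    _ = e * x * e := by rw [q.ss]; group
    _ = e * x * e * (x * x) := by rw [q.ss, mul_one]
    _ = (e * x * e * x) * x := by group
    _ = (x * e * x * e) * x := by rw [← h1]

theorem m_mul {a b : S} (ha : a ∈ E) (hb : b ∈ E) :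
    s * (a * b) * s * (a * b) = (s * a * s * a) * (s * b * s * b) := by
  have h1 := q.ecomm _ ha _ (q.norm hb)
  calc s * (a * b) * s * (a * b) = s * a * (s * s) * b * s * a * b := by rw [q.ss]; group
    _ = (s * a * s) * (s * b * s) * a * b := by group
    _ = (s * a * s) * ((s * b * s) * a) * b := by group
    _ = (s * a * s) * (a * (s * b * s)) * b := by rw [h1]
    _ = _ := by group

theorem m_eq_one {e : S} (he : e ∈ E) (h : s * e * s * e = 1) :
    e ∈ E ⊓ Subgroup.centralizer ({s} : Set S) := by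
  refine ⟨he, Subgroup.mem_centralizer_iff.2 ?_⟩
  intro x hx
  rw [Set.mem_singleton_iff] at hx
  subst hx
  have h2 : x * e * x = e := by
    have := q.esq e he
    calc x * e * x = (x * e * x * e) * e := by rw [mul_assoc _ e e, this, mul_one]
      _ = e := by rw [h, one_mul]
  calc x * e = (x * e * x) * x := by
        rw [mul_assoc _ x x, q.ss, mul_one]
    _ = e * x := by rw [h2]

theorem one_of_cent {e : S} (he : e ∈ E ⊓ Subgroup.centralizer ({s} : Set S)) :
    s * e * s * e = 1 := by
  have h1 : s * e = e * s := by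
    have := Subgroup.mem_centralizer_iff.1 he.2 s rfl
    exact this
  calc s * e * s * e = e * s * s * e := by rw [h1]
    _ = e * (s * s) * e := by group
    _ = e * e := by rw [q.ss, mul_one]
    _ = 1 := q.esq e he.1

/-- Every element of `Z` has the form `[s, e]`. -/
theorem m_surj {z : S} (hz : z ∈ E ⊓ Subgroup.centralizer ({s} : Set S)) :
    ∃ e ∈ E, s * e * s * e = z := by
  let f : E →* S :=
    { toFun := fun e => s * (e : S) * s * e
      map_one' := by
        simp only [Subgroup.coe_one, mul_one, q.ss]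
      map_mul' := fun a b => q.m_mul a.2 b.2 }
  have hr : f.range ≤ E ⊓ Subgroup.centralizer ({s} : Set S) := by
    rintro _ ⟨e, rfl⟩
    exact q.m_cent e.2
  have hk : Nat.card f.ker = 4 := by
    rw [← q.fix]
    refine Nat.card_congr
      { toFun := fun x => ⟨x.1.1, q.m_eq_one x.1.2 x.2⟩
        invFun := fun x => ⟨⟨x.1, x.2.1⟩, q.one_of_cent x.2⟩
        left_inv := fun x => rfl
        right_inv := fun x => rfl }
  have h3 : Nat.card f.ker * f.ker.index = Nat.card E := f.ker.card_mul_index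
  rw [Subgroup.index_ker, hk, q.cE] at h3
  have h4 : Nat.card f.range = 4 := by omega
  have h5 : f.range = E ⊓ Subgroup.centralizer ({s} : Set S) := by
    apply Subgroup.eq_of_le_of_card_ge hr
    rw [h4, q.fix]
  rw [← h5] at hz
  obtain ⟨e, he⟩ := hz
  exact ⟨e, e.2, he⟩

/-- Squares in `Q`. -/
theorem sq_eq {e : S} (he : e ∈ E) : (e * s) ^ 2 = s * e * s * e := by
  rw [pow_two, q.m_comm he]
  group

/-- `E` is not centralized by `s`. -/
theorem exists_noncomm : ∃ e ∈ E, s * e * s * e ≠ 1 := by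
  by_contra hc
  push Not at hc
  have h1 : E ≤ E ⊓ Subgroup.centralizer ({s} : Set S) := fun e he => q.m_eq_one he (hc e he)
  have h2 := Subgroup.card_le_of_le h1
  rw [q.cE, q.fix] at h2
  omega

theorem center_eq : (Subgroup.center Q).map Q.subtype = E ⊓ Subgroup.centralizer ({s} : Set S) := by
  ext z
  constructor
  · rintro ⟨⟨z, hzQ⟩, hz, rfl⟩
    have hz' : ∀ x ∈ Q, x * z = z * x := by
      intro x hx
      have := Subgroup.mem_center_iff.1 hz ⟨x, hx⟩
      exact congrArg Subtype.val this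
    have hzs : z * s = s * z := (hz' s q.sQ).symm
    have hzE : z ∈ E := by
      by_contra hzE
      have h1 := q.dich hzQ hzE
      obtain ⟨e, he, hne⟩ := q.exists_noncomm
      apply hne
      have h2 := hz' e (q.hEQ he)
      have h3 : e * (z * s) = (z * s) * e := q.ecomm _ he _ h1
      -- `z` commutes with `e`, so does `z s`, so `s` does
      have h4 : s * e = e * s := by
        have h5 : z * (e * s) = z * (s * e) := by
          calc z * (e * s) = (z * e) * s := by group
            _ = (e * z) * s := by rw [h2]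
            _ = e * (z * s) := by group
            _ = (z * s) * e := h3
            _ = _ := by group
        exact (mul_left_cancel h5).symm
      calc s * e * s * e = e * s * s * e := by rw [h4]
        _ = e * (s * s) * e := by group
        _ = e * e := by rw [q.ss, mul_one]
        _ = 1 := q.esq e he
    refine ⟨hzE, Subgroup.mem_centralizer_iff.2 ?_⟩
    intro x hx
    rw [Set.mem_singleton_iff] at hx
    subst hx
    exact hzs.symm
  · intro hz
    have hzE : z ∈ E := hz.1
    have hzs : s * z = z * s := Subgroup.mem_centralizer_iff.1 hz.2 s rfl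
    refine ⟨⟨z, q.hEQ hzE⟩, Subgroup.mem_center_iff.2 ?_, rfl⟩
    rintro ⟨x, hx⟩
    apply Subtype.ext
    show x * z = z * x
    by_cases hxE : x ∈ E
    · exact q.ecomm _ hxE _ hzE
    · have h1 := q.dich hx hxE
      have h2 := q.ecomm _ h1 _ hzE
      have h3 : x = x * s * s := by rw [mul_assoc, q.ss, mul_one]
      rw [h3]
      calc x * s * s * z = x * s * (s * z) := by group
        _ = x * s * (z * s) := by rw [hzs]
        _ = (x * s * z) * s := by group
        _ = (z * (x * s)) * s := by rw [h2]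
        _ = _ := by group

end QD

end Cfsg.Agent.Lib.WrInvE
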