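import Mathlib
import Cfsg.Agent.Lib.WrInvE

/-!
# Building the data for `(Z₂ × Z₂) ≀ Z₂`
-/

set_option autoImplicit false

namespace Cfsg.Agent.Lib.WrInvE

open Cfsg.Agent.Lib.SectRank Cfsg.Agent.Lib.SectE16 Cfsg.Agent.Lib.WrInvB Cfsg.Agent.Lib.WrInvA

variable {S : Type*} [Group S] [Finite S]

/-- An element of `S` lies outside `[S, t]` when `S` is a 2-group. -/
theorem t_not_mem_tC (hS : IsPGroup 2 S) {t : S} (t1 : t ≠ 1) : t ∉ tC t := by
  have : Fact (Nat.Prime 2) := ⟨Nat.prime_two⟩
  let L := Subgroup.normalClosure ({t} : Set S)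
  have htL : t ∈ L := Subgroup.subset_normalClosure (Set.mem_singleton t)
  have hLne : L ≠ ⊥ := by
    intro h
    rw [h, Subgroup.mem_bot] at htL
    exact t1 htL
  obtain ⟨W, hWL, hWn, hW⟩ := exists_normal_index_prime (p := 2) hS L
    Subgroup.normalClosure_normal hLne
  have htW : t ∉ W := by
    intro h
    have h1 : L ≤ W := Subgroup.normalClosure_le_normal (Set.singleton_subset_iff.2 h)
    have h2 : W.relIndex L = 1 := Subgroup.relIndex_eq_one.2 h1
    omega
  have hgen : tC t ≤ W := by
    rw [tC, Subgroup.closure_le]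
    rintro _ ⟨x, rfl⟩
    have hL : L.Normal := Subgroup.normalClosure_normal
    have h1 : x * t * x⁻¹ ∈ L := hL.conj_mem t htL x
    have h2 := (Subgroup.mul_mem_iff_of_index_two (H := W.subgroupOf L) hW
      (a := ⟨x * t * x⁻¹, h1⟩) (b := ⟨t⁻¹, L.inv_mem htL⟩)).2 (by
        simp only [Subgroup.mem_subgroupOf]
        constructor
        · intro h
          have h3 := hWn.conj_mem _ h x⁻¹
          have e : x⁻¹ * (x * t * x⁻¹) * x⁻¹⁻¹ = t := by group
          rw [e] at h3
          exact absurd h3 htW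
        · intro h
          exact absurd (by simpa using W.inv_mem h) htW)
    simpa [Subgroup.mem_subgroupOf] using h2
  exact fun h => htW (hgen h)

namespace QD

variable {Q E : Subgroup S} {s : S} (q : QD Q E s)

include q

theorem memZ_iff {z : S} : z ∈ E ⊓ Subgroup.centralizer ({s} : Set S) ↔ z ∈ Q ∧ ∀ y ∈ Q, y * z = z * y := by
  rw [← q.center_eq]
  constructor
  · rintro ⟨⟨z, hzQ⟩, hz, rfl⟩
    refine ⟨hzQ, fun y hy => ?_⟩
    exact congrArg Subtype.val (Subgroup.mem_center_iff.1 hz ⟨y, hy⟩)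
  · rintro ⟨h1, h2⟩
    refine ⟨⟨z, h1⟩, Subgroup.mem_center_iff.2 ?_, rfl⟩
    rintro ⟨y, hy⟩
    exact Subtype.ext (h2 y hy)

theorem zinv {u : S} (hu1 : ∀ y ∈ Q, u * y * u⁻¹ ∈ Q) (hu2 : ∀ y ∈ Q, u⁻¹ * y * u ∈ Q)
    {z : S} (hz : z ∈ E ⊓ Subgroup.centralizer ({s} : Set S)) :
    u * z * u⁻¹ ∈ E ⊓ Subgroup.centralizer ({s} : Set S) := by
  rw [q.memZ_iff] at hz ⊢
  refine ⟨hu1 z hz.1, fun y hy => ?_⟩
  have h1 := hz.2 _ (hu2 y hy)
  calc y * (u * z * u⁻¹) = u * ((u⁻¹ * y * u) * z) * u⁻¹ := by group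
    _ = u * (z * (u⁻¹ * y * u)) * u⁻¹ := by rw [h1]
    _ = _ := by group

/-- Commutators of `Q` lie in `Z`. -/
theorem comm_in_Z {x y : S} (hx : x ∈ Q) (hy : y ∈ Q) :
    x * y * x⁻¹ * y⁻¹ ∈ E ⊓ Subgroup.centralizer ({s} : Set S) := by
  have key1 : ∀ a ∈ E, ∀ e ∈ E, a * (e * s) * a⁻¹ * (e * s)⁻¹ = s * a * s * a := by
    intro a ha e he
    have hi := q.si
    have h1 : a⁻¹ = a := q.ei ha
    have h2 : e⁻¹ = e := q.ei he
    have h3 := q.ecomm _ ha _ he
    have h4 : a * (e * (s * a * s)) * e = s * a * s * a := by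
      have h5 := q.ecomm _ he _ (q.norm ha)
      have h6 := q.ecomm _ ha _ (q.norm ha)
      calc a * (e * (s * a * s)) * e = a * ((s * a * s) * e) * e := by rw [h5]
        _ = a * (s * a * s) * (e * e) := by group
        _ = a * (s * a * s) := by rw [q.esq e he, mul_one]
        _ = _ := h6
    calc a * (e * s) * a⁻¹ * (e * s)⁻¹ = a * e * s * a⁻¹ * (s⁻¹ * e⁻¹) := by group
      _ = a * e * s * a * (s * e) := by rw [h1, h2, hi]
      _ = a * (e * (s * a * s)) * e := by group
      _ = _ := h4
  by_cases hxE : x ∈ E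
  · by_cases hyE : y ∈ E
    · have h0 : x * y * x⁻¹ * y⁻¹ = 1 := by
        rw [q.ecomm _ hxE _ hyE]; group
      rw [h0]
      exact one_mem _
    · have h1 := q.dich hy hyE
      have h2 := key1 x hxE _ h1
      have h3 : y * s * s = y := by rw [mul_assoc, q.ss, mul_one]
      rw [h3] at h2
      rw [h2]
      exact q.m_cent hxE
  · have hxs := q.dich hx hxE
    by_cases hyE : y ∈ E
    · have h2 := key1 y hyE _ hxs
      have h3 : x * s * s = x := by rw [mul_assoc, q.ss, mul_one]
      rw [h3] at h2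
      have h4 := q.m_cent hyE
      rw [← h2] at h4
      have h5 := Subgroup.inv_mem _ h4
      have e : (y * x * y⁻¹ * x⁻¹)⁻¹ = x * y * x⁻¹ * y⁻¹ := by group
      rwa [e] at h5
    · have hys := q.dich hy hyE
      -- `x = a s`, `y = b s`
      have h1 := q.m_cent (E.mul_mem hxs hys)
      have h2 := q.m_mul hxs hys
      have hi := q.si
      set a := x * s with ha
      set b := y * s with hb
      have hx' : x = a * s := by rw [ha, mul_assoc, q.ss, mul_one]
      have hy' : y = b * s := by rw [hb, mul_assoc, q.ss, mul_one]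
      have hai := q.ei hxs
      have hbi := q.ei hys
      have e : x * y * x⁻¹ * y⁻¹ = s * (a * b) * s * (a * b) := by
        rw [hx', hy']
        have h4 : b * a = a * b := q.ecomm _ hys _ hxs
        have h6 := q.ecomm _ hxs _ (q.norm (E.mul_mem hys hxs))
        calc a * s * (b * s) * (a * s)⁻¹ * (b * s)⁻¹ = a * s * b * a⁻¹ * s⁻¹ * b⁻¹ := by group
          _ = a * s * b * a * s * b := by rw [hi, hai, hbi]
          _ = a * (s * (b * a) * s) * b := by group
          _ = (s * (b * a) * s) * a * b := by rw [h6]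
          _ = s * (a * b) * s * (a * b) := by rw [h4]; group
      rw [e]
      exact h1

theorem Z_E {z : S} (hz : z ∈ E ⊓ Subgroup.centralizer ({s} : Set S)) : z ∈ E := hz.1

/-- The construction of the data. -/
theorem build (hS : IsPGroup 2 S)
    (hC : ∀ x, x ∈ Q ↔ ∀ z ∈ E ⊓ Subgroup.centralizer ({s} : Set S), x * z = z * x)
    (hne : Q ≠ ⊤) : ∃ (t z₀ : S) (c : ℕ), WS t z₀ Q (tC t) c := by
  classical
  have : Fact (Nat.Prime 2) := ⟨Nat.prime_two⟩
  set Z := E ⊓ Subgroup.centralizer ({s} : Set S) with hZ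
  have hZ4 : Nat.card Z = 4 := q.fix
  have hZsq : ∀ z ∈ Z, z * z = 1 := fun z hz => q.esq z hz.1
  have hZc : ∀ a ∈ Z, ∀ b ∈ Z, a * b = b * a := fun a ha b hb => q.ecomm a ha.1 b hb.1
  have hZi : ∀ z ∈ Z, z⁻¹ = z := fun z hz => q.ei hz.1
  -- a normalizing element
  have hgrow : ∀ M : Subgroup S, Q ≤ M → Q ≠ M → ∃ m ∈ M, (∀ y ∈ Q, m * y * m⁻¹ ∈ Q) ∧
      (∀ y ∈ Q, m⁻¹ * y * m ∈ Q) ∧ m ∉ Q := by
    intro M hQM hne'
    have hM : IsPGroup 2 M := hS.to_subgroup M
    have : Group.IsNilpotent M := hM.isNilpotent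
    have hnc := Group.normalizerCondition_of_isNilpotent (G := M)
    have hlt : Q.subgroupOf M < ⊤ := by
      rw [lt_top_iff_ne_top]
      intro h
      apply hne'
      apply le_antisymm hQM
      intro m hm
      have : (⟨m, hm⟩ : M) ∈ Q.subgroupOf M := by rw [h]; trivial
      exact this
    have h3 := hnc _ hlt
    obtain ⟨⟨m, hm⟩, hm1, hm2⟩ := SetLike.exists_of_lt h3
    rw [Subgroup.mem_normalizer_iff] at hm1
    refine ⟨m, hm, ?_, ?_, fun h => hm2 h⟩
    · intro y hy
      exact (hm1 ⟨y, hQM hy⟩).1 hy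
    · intro y hy
      have h4 := (hm1 ⟨m⁻¹ * y * m, M.mul_mem (M.mul_mem (M.inv_mem hm) (hQM hy)) hm⟩).2 (by
        show m * (m⁻¹ * y * m) * m⁻¹ ∈ Q
        have e : m * (m⁻¹ * y * m) * m⁻¹ = y := by group
        rw [e]
        exact hy)
      exact h4
  obtain ⟨g, -, hg1, hg2, hgQ⟩ := hgrow ⊤ le_top hne
  -- `t`
  obtain ⟨t, htZ, htg⟩ : ∃ t ∈ Z, g * t * g⁻¹ ≠ t := by
    by_contra hcon
    push Not at hcon
    apply hgQ
    rw [hC]
    intro z hz
    have h1 := hcon z hz
    exact mul_inv_eq_iff_eq_mul.1 h1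
  set b := g * t * g⁻¹ with hb
  have hbZ : b ∈ Z := q.zinv hg1 hg2 htZ
  have t1 : t ≠ 1 := by
    intro h
    apply htg
    rw [hb, h]; group
  have b1 : b ≠ 1 := by
    intro h
    apply t1
    have h1 : g⁻¹ * b * g = t := by rw [hb]; group
    rw [← h1, h]; group
  have tb : t ≠ b := fun h => htg h.symm
  have tb1 : t * b ≠ 1 := by
    intro h
    apply tb
    have h1 := hZsq t htZ
    calc t = t * (t * b) := by rw [h, mul_one]
      _ = (t * t) * b := by group
      _ = b := by rw [h1, one_mul]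
  have tbt : t * b ≠ t := by
    intro h
    apply b1
    have : t * b = t * 1 := by rw [h, mul_one]
    exact mul_left_cancel this
  have tbb : t * b ≠ b := by
    intro h
    apply t1
    have : t * b = 1 * b := by rw [h, one_mul]
    exact mul_right_cancel this
  have hcases : ∀ z ∈ Z, z = 1 ∨ z = t ∨ z = b ∨ z = t * b := fun z hz =>
    four_cases hZ4 htZ hbZ t1 b1 tb tb1 tbt tbb hz
  have htb : t * b = b * t := hZc t htZ b hbZ
  have htt := hZsq t htZ
  have hbb := hZsq b hbZ
  -- no 3-cycles
  have no3 : ∀ x, x * t * x⁻¹ = b → x * b * x⁻¹ = t * b → False := by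
    intro x h1 h2
    have h3 : x * (t * b) * x⁻¹ = t := by
      calc x * (t * b) * x⁻¹ = (x * t * x⁻¹) * (x * b * x⁻¹) := by group
        _ = b * (t * b) := by rw [h1, h2]
        _ = b * (b * t) := by rw [htb]
        _ = (b * b) * t := by group
        _ = t := by rw [hbb, one_mul]
    have hcube : x ^ 3 ∈ Q := by
      rw [hC]
      have e3 : ∀ y, x ^ 3 * y * (x ^ 3)⁻¹ = x * (x * (x * y * x⁻¹) * x⁻¹) * x⁻¹ := by
        intro y
        simp only [pow_succ, pow_zero]
        group
      have ht3 : x ^ 3 * t * (x ^ 3)⁻¹ = t := by rw [e3, h1, h2, h3]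
      have hb3 : x ^ 3 * b * (x ^ 3)⁻¹ = b := by rw [e3, h2, h3, h1]
      have ht4 : x ^ 3 * t = t * x ^ 3 := mul_inv_eq_iff_eq_mul.1 ht3
      have hb4 : x ^ 3 * b = b * x ^ 3 := mul_inv_eq_iff_eq_mul.1 hb3
      intro z hz
      rcases hcases z hz with rfl | rfl | rfl | rfl
      · simp
      · exact ht4
      · exact hb4
      · calc x ^ 3 * (t * b) = (x ^ 3 * t) * b := by group
          _ = (t * x ^ 3) * b := by rw [ht4]
          _ = t * (x ^ 3 * b) := by group
          _ = t * (b * x ^ 3) := by rw [hb4]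
          _ = _ := by group
    have hxQ : x ∈ Q := mem_of_cube hS hcube
    have h4 : x * t = t * x := (hC x).1 hxQ t htZ
    apply tb
    rw [← h1, h4]
    group
  -- action of `g` on `b`
  have hgb : g * b * g⁻¹ = t := by
    have h1 : g * b * g⁻¹ ∈ Z := q.zinv hg1 hg2 hbZ
    rcases hcases _ h1 with h | h | h | h
    · exfalso
      apply b1
      have e : g⁻¹ * (g * b * g⁻¹) * g = b := by group
      rw [← e, h]; group
    · exact h
    · exfalso
      apply tb
      have e : g⁻¹ * (g * b * g⁻¹) * g = b := by group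
      have e2 : g⁻¹ * b * g = t := by rw [hb]; group
      rw [h, e2] at e
      exact e
    · exact (no3 g rfl h).elim
  -- the centralizer of `t`
  have hQc : ∀ x, x ∈ Q ↔ x * t = t * x := by
    intro x
    constructor
    · intro hx
      exact (hC x).1 hx t htZ
    · intro hxt
      by_contra hxQ
      have hQM : Q ≤ cS t := by
        intro y hy
        exact mem_cent.2 ((hC y).1 hy t htZ)
      have hne' : Q ≠ cS t := by
        intro h
        apply hxQ
        rw [h]
        exact mem_cent.2 hxt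
      obtain ⟨u, hu, hu1, hu2, huQ⟩ := hgrow _ hQM hne'
      have hut : u * t = t * u := mem_cent.1 hu
      have hut' : u * t * u⁻¹ = t := by rw [hut]; group
      have h1 : u * b * u⁻¹ ∈ Z := q.zinv hu1 hu2 hbZ
      rcases hcases _ h1 with h | h | h | h
      · apply b1
        have e : u⁻¹ * (u * b * u⁻¹) * u = b := by group
        rw [← e, h]; group
      · apply tb
        have h2 : u * b * u⁻¹ = u * t * u⁻¹ := by rw [h, hut']
        have h3 : u * b = u * t := mul_right_cancel h2
        exact (mul_left_cancel h3).symm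
      · apply huQ
        rw [hC]
        have hub : u * b = b * u := mul_inv_eq_iff_eq_mul.1 h
        intro z hz
        rcases hcases z hz with rfl | rfl | rfl | rfl
        · simp
        · exact hut
        · exact hub
        · calc u * (t * b) = (u * t) * b := by group
            _ = (t * u) * b := by rw [hut]
            _ = t * (u * b) := by group
            _ = t * (b * u) := by rw [hub]
            _ = _ := by group
      · apply no3 (g * u)
        · calc g * u * t * (g * u)⁻¹ = g * (u * t * u⁻¹) * g⁻¹ := by group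
            _ = b := by rw [hut']
        · calc g * u * b * (g * u)⁻¹ = g * (u * b * u⁻¹) * g⁻¹ := by group
            _ = g * (t * b) * g⁻¹ := by rw [h]
            _ = (g * t * g⁻¹) * (g * b * g⁻¹) := by group
            _ = b * t := by rw [hgb]
            _ = t * b := htb.symm
  have hQeq : Q = cS t := by
    ext x
    rw [hQc, mem_cent]
  -- `N`
  set N := tC t with hN
  have hNn : N.Normal := tC_normal t
  have htN : t ∉ N := t_not_mem_tC hS t1
  have hbN : b ∉ N := by
    intro h
    apply htN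
    have h1 := hNn.conj_mem b h g⁻¹
    have e : g⁻¹ * b * g⁻¹⁻¹ = t := by rw [hb]; group
    rwa [e] at h1
  have hzN : t * b ∈ N := by
    have h1 := gen_mem t g
    have e : g * t * g⁻¹ * t⁻¹ = t * b := by
      rw [← hb, hZi t htZ, htb]
    rw [e] at h1
    exact h1
  have hZN : ∀ z ∈ Z, z ∈ N → z = 1 ∨ z = t * b := by
    intro z hz hzN'
    rcases hcases z hz with h | h | h | h
    · exact Or.inl h
    · exact absurd (h ▸ hzN') htN
    · exact absurd (h ▸ hzN') hbN
    · exact Or.inr h
  -- `Y ≤ E`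
  have hYE : ∀ y ∈ N, y ∈ Q → y ∈ E := by
    intro y hyN hyQ
    by_contra hyE
    have h1 := q.dich hyQ hyE
    obtain ⟨e, he, het⟩ := q.m_surj htZ
    apply htN
    rw [← het]
    have h2 : y * e * y⁻¹ * e⁻¹ = s * e * s * e := by
      have hi := q.si
      have h3 : y = (y * s) * s := by rw [mul_assoc, q.ss, mul_one]
      have h4 := q.ei h1
      have h5 := q.ei he
      have h6 := q.ecomm _ h1 _ (q.norm he)
      have h7 : y⁻¹ = s * (y * s) := by
        have : (y * s)⁻¹ = s⁻¹ * y⁻¹ := by group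
        rw [h4, hi] at this
        rw [this, ← mul_assoc, q.ss, one_mul]
      calc y * e * y⁻¹ * e⁻¹ = ((y * s) * s) * e * (s * (y * s)) * e := by
            rw [h7, h5, ← h3]
        _ = (y * s) * (s * e * s) * (y * s) * e := by group
        _ = (s * e * s) * (y * s) * (y * s) * e := by rw [h6]
        _ = (s * e * s) * ((y * s) * (y * s)) * e := by group
        _ = s * e * s * e := by rw [q.esq _ h1, mul_one]
    rw [← h2]
    have h8 := hNn.conj_mem y⁻¹ (N.inv_mem hyN) e
    have e2 : y * e * y⁻¹ * e⁻¹ = y * (e * y⁻¹ * e⁻¹) := by group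
    rw [e2]
    exact N.mul_mem hyN h8
  have hmN : ∀ y ∈ N, y ∈ E → s * y * s * y = 1 ∨ s * y * s * y = t * b := by
    intro y hyN hyE
    apply hZN _ (q.m_cent hyE)
    have h1 := hNn.conj_mem y hyN s
    rw [q.si] at h1
    exact N.mul_mem h1 hyN
  -- the order of `Y`
  have hzz : (t * b) ^ 2 = 1 := by
    rw [pow_two]
    exact hZsq _ (Z.mul_mem htZ hbZ)
  have hord : orderOf (t * b) = 2 := orderOf_eq_prime hzz tb1
  have hKcard : Nat.card (Subgroup.zpowers (t * b)) = 2 := by
    rw [Nat.card_zpowers, hord]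
  have hK : ∀ x, (x = 1 ∨ x = t * b) → x ∈ Subgroup.zpowers (t * b) := by
    rintro x (rfl | rfl)
    · exact one_mem _
    · exact Subgroup.mem_zpowers _
  have hY4 : Nat.card ↥(N ⊓ Q) ≤ 4 := by
    have h1 := relIndex_cent_le (N ⊓ Q) (Subgroup.zpowers (t * b)) s (by
      intro a ha
      have haE := hYE a ha.1 ha.2
      have h2 := hK _ (hmN a ha.1 haE)
      rw [q.m_comm haE] at h2
      have e : a * s * a⁻¹ * s⁻¹ = a * s * a * s := by
        rw [q.ei haE, q.si]
      rw [e]
      exact h2)
    have h2 := card_eq_relIndex_mul_inf (Subgroup.centralizer ({s} : Set S)) (N ⊓ Q)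
    have h3 : Subgroup.centralizer ({s} : Set S) ⊓ (N ⊓ Q) ≤ Subgroup.zpowers (t * b) := by
      rintro y ⟨hy1, hy2, hy3⟩
      exact hK _ (hZN y ⟨hYE y hy2 hy3, hy1⟩ hy2)
    have h4 := Subgroup.card_le_of_le h3
    rw [hKcard] at h1 h4
    rw [h2]
    exact Nat.mul_le_mul h1 h4
  have hzY : t * b ∈ N ⊓ Q := ⟨hzN, (q.memZ_iff.1 (Z.mul_mem htZ hbZ)).1⟩
  have hY2 : 2 ≤ Nat.card ↥(N ⊓ Q) := by
    by_contra hlt
    have h1 : Nat.card ↥(N ⊓ Q) = 1 := by
      have : 0 < Nat.card ↥(N ⊓ Q) := Nat.card_pos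
      omega
    have h2 := Subgroup.card_eq_one.1 h1
    rw [h2, Subgroup.mem_bot] at hzY
    exact tb1 hzY
  have hYd : Nat.card ↥(N ⊓ Q) ∣ 32 := by
    rw [← q.cQ]
    exact Subgroup.card_dvd_of_le inf_le_right
  have hY3 : Nat.card ↥(N ⊓ Q) ≠ 3 := by
    intro h
    rw [h] at hYd
    omega
  have hc24 : Nat.card ↥(N ⊓ Q) = 2 ∨ Nat.card ↥(N ⊓ Q) = 4 := by omega
  have hmi := main_index hS htt (by
    rw [← hN, ← hQeq]
    exact hc24)
  rw [← hN, ← hQeq] at hmi
  obtain ⟨e_t, he_t, hm_t⟩ := q.m_surj htZ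
  refine ⟨t, t * b, Nat.card ↥(N ⊓ Q), ?_⟩
  exact
    { tt := htt
      Qc := hQc
      Nn := hNn
      gen := fun x => gen_mem t x
      surj := hmi.2
      Ycard := rfl
      c24 := hc24
      cardQ := q.cQ
      idx := hmi.1
      sq := ⟨e_t * s, Q.mul_mem (q.hEQ he_t) q.sQ, by rw [q.sq_eq he_t, hm_t]⟩
      tN := htN
      z₀N := hzN
      q4 := by
        intro hc q₀ hq₀ hq₀N hq₀t
        by_cases hq₀E : q₀ ∈ E
        · -- `w = s`
          refine ⟨s, q.sQ, ?_⟩
          have hm0 := q.m_cent hq₀E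
          have e0 : s * q₀ * s⁻¹ * q₀⁻¹ = s * q₀ * s * q₀ := by rw [q.si, q.ei hq₀E]
          rw [e0]
          have hti := hZi t htZ
          have hq0cases : ∀ z ∈ Z, z = 1 ∨ z = t ∨ z = b ∨ z = t * b := hcases
          rcases hcases _ hm0 with h | h | h | h
          · -- `q₀ ∈ Z`
            exfalso
            have hqZ : q₀ ∈ Z := q.m_eq_one hq₀E h
            rcases hcases _ hqZ with h' | h' | h' | h'
            · exact hq₀N (h' ▸ N.one_mem)
            · apply hq₀t
              rw [h']
              simp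
            · apply hq₀t
              rw [h', hti]
              exact hzN
            · exact hq₀N (h' ▸ hzN)
          · exact ⟨1, one_mem _, by rw [h, mul_one]⟩
          · refine ⟨t * b, hzY, ?_⟩
            rw [h]
            calc b = (t * t) * b := by rw [htt, one_mul]
              _ = t * (t * b) := by group
          · -- the difficult case
            exfalso
            -- some `y₀ ∈ Y` with `[s, y₀] = z₀`
            obtain ⟨y₀, hy₀, hy₀m⟩ : ∃ y₀ ∈ N ⊓ Q, s * y₀ * s * y₀ = t * b := by
              by_contra hcon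
              push Not at hcon
              have hle : N ⊓ Q ≤ Subgroup.zpowers (t * b) := by
                intro y hy
                have hyE := hYE y hy.1 hy.2
                rcases hmN y hy.1 hyE with h1 | h1
                · exact hK _ (hZN y (q.m_eq_one hyE h1) hy.1)
                · exact absurd h1 (hcon y hy)
              have h2 := Subgroup.card_le_of_le hle
              rw [hKcard] at h2
              have hc' : Nat.card ↥(N ⊓ Q) = 4 := hc
              omega
            have hy₀E := hYE y₀ hy₀.1 hy₀.2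
            have h3 : s * (q₀ * y₀) * s * (q₀ * y₀) = 1 := by
              rw [q.m_mul hq₀E hy₀E, h, hy₀m]
              exact hZsq _ (Z.mul_mem htZ hbZ)
            have hqZ : q₀ * y₀ ∈ Z := q.m_eq_one (E.mul_mem hq₀E hy₀E) h3
            have hq₀e : q₀ = (q₀ * y₀) * y₀ := by
              rw [mul_assoc, q.esq y₀ hy₀E, mul_one]
            rcases hcases _ hqZ with h' | h' | h' | h'
            · apply hq₀N
              rw [hq₀e, h', one_mul]
              exact hy₀.1
            · apply hq₀t
              rw [hq₀e, h', hti]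
              have : t * (t * y₀) = y₀ := by rw [← mul_assoc, htt, one_mul]
              rw [this]
              exact hy₀.1
            · apply hq₀t
              rw [hq₀e, h', hti]
              have : t * (b * y₀) = (t * b) * y₀ := by group
              rw [this]
              exact N.mul_mem hzN hy₀.1
            · apply hq₀N
              rw [hq₀e, h']
              exact N.mul_mem hzN hy₀.1
        · -- `q₀ = e₂ s`
          refine ⟨e_t, q.hEQ he_t, 1, one_mem _, ?_⟩
          have h1 := q.dich hq₀ hq₀E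
          have hi := q.si
          have h2 := q.ecomm _ he_t _ h1
          have h3 := q.ei he_t
          have h4 := q.ei h1
          have h5 : q₀⁻¹ = s * (q₀ * s) := by
            have : (q₀ * s)⁻¹ = s⁻¹ * q₀⁻¹ := by group
            rw [h4, hi] at this
            rw [this, ← mul_assoc, q.ss, one_mul]
          have h6 : q₀ = (q₀ * s) * s := by rw [mul_assoc, q.ss, mul_one]
          rw [mul_one, ← hm_t, q.m_comm he_t]
          have h7 := q.ecomm _ h1 _ (q.norm he_t)
          calc e_t * q₀ * e_t⁻¹ * q₀⁻¹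
              = e_t * ((q₀ * s) * s) * e_t * (s * (q₀ * s)) := by rw [h3, h5, ← h6]
            _ = e_t * ((q₀ * s) * (s * e_t * s)) * (q₀ * s) := by group
            _ = e_t * ((s * e_t * s) * (q₀ * s)) * (q₀ * s) := by rw [h7]
            _ = e_t * (s * e_t * s) * ((q₀ * s) * (q₀ * s)) := by group
            _ = e_t * (s * e_t * s) := by rw [q.esq _ h1, mul_one]
            _ = _ := by group
      q5 := by
        intro q₁ hq₁ q₀ hq₀ hp
        exact hZN _ (q.comm_in_Z hq₁ hq₀) hp }

/-- The case `S = Q`. -/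
theorem top_bound (hQ : Q = ⊤) : SqBound 4 S := by
  intro H R hRH hsq
  have hcard := card_eq_relIndex_mul hRH
  have hS32 : Nat.card S = 32 := by
    have h := q.cQ
    rw [hQ, Subgroup.card_top] at h
    exact h
  have hH32 : Nat.card H * H.index = 32 := by
    rw [H.card_mul_index, hS32]
  have hi0 : H.index ≠ 0 := Subgroup.index_ne_zero_of_finite
  by_cases hR : R = ⊥
  · have hHne : H ≠ ⊤ := by
      intro h
      obtain ⟨e, he, hne⟩ := q.exists_noncomm
      have h1 := hsq (e * s) (by rw [h]; trivial)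
      rw [hR, Subgroup.mem_bot, q.sq_eq he] at h1
      exact hne h1
    have hi1 : H.index ≠ 1 := fun h => hHne (Subgroup.index_eq_one.1 h)
    have hi2 : 2 ≤ H.index := by omega
    have h2 : Nat.card H * 2 ≤ 32 := by
      rw [← hH32]
      exact Nat.mul_le_mul_left _ hi2
    have h3 : Nat.card R = 1 := by rw [hR]; simp
    rw [h3, mul_one] at hcard
    rw [← hcard]
    norm_num
    omega
  · have h2 : 2 ≤ Nat.card R := by
      by_contra hlt
      have h3 : Nat.card R = 1 := by
        have : 0 < Nat.card R := Nat.card_pos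
        omega
      exact hR (Subgroup.card_eq_one.1 h3)
    have h3 : R.relIndex H * 2 ≤ 32 := by
      calc R.relIndex H * 2 ≤ R.relIndex H * Nat.card R := Nat.mul_le_mul_left _ h2
        _ = Nat.card H := hcard.symm
        _ ≤ Nat.card H * H.index := Nat.le_mul_of_pos_right _ (Nat.pos_of_ne_zero hi0)
        _ = 32 := hH32
    norm_num
    omega

/-- The conclusion. -/
theorem sqBound_all (hS : IsPGroup 2 S)
    (hC : ∀ x, x ∈ Q ↔ ∀ z ∈ E ⊓ Subgroup.centralizer ({s} : Set S), x * z = z * x) :
    SqBound 4 S := by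
  by_cases hQ : Q = ⊤
  · exact q.top_bound hQ
  · obtain ⟨t, z₀, c, d⟩ := q.build hS hC hQ
    exact d.sqBound hS

end QD

end Cfsg.Agent.Lib.WrInvE
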