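import Mathlib
import Cfsg.Agent.Lib.WrInvF
import Cfsg.Agent.Lib.BrolineGT

/-!
# Sectional rank from an involution with a small centralizer

`S` a finite 2-group, `t` an involution, `Q = C_S(t)`, `N = [S, t]`. If `|N ⊓ Q| ≤ 4` and either `|Q| ≤ 8`
or `|Q| = 16` with `t` a square, then `S` has sectional 2-rank at most 4.
-/

set_option autoImplicit false

namespace Cfsg.Agent.Lib.E8Sect

open Cfsg.Agent.Lib.SectRank Cfsg.Agent.Lib.SectE16 Cfsg.Agent.Lib.WrInvB Cfsg.Agent.Lib.WrInvA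

variable {S : Type*} [Group S] [Finite S]

/-- The data. -/
structure LD (t : S) (Q N : Subgroup S) (c : ℕ) : Prop where
  tt : t * t = 1
  Qc : ∀ x, x ∈ Q ↔ x * t = t * x
  Nn : N.Normal
  gen : ∀ x, x * t * x⁻¹ * t⁻¹ ∈ N
  surj : ∀ n ∈ N, ∃ x, x * t * x⁻¹ * t⁻¹ = n
  Ycard : Nat.card ↥(N ⊓ Q) = c
  idx : (N ⊔ Q).index = c
  tN : t ∉ N

namespace LD

variable {t : S} {Q N : Subgroup S} {c : ℕ} (d : LD t Q N c)

include d

theorem ti : t⁻¹ = t := inv_eq_of_mul_eq_one_left d.tt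

/-- `t` inverts `N`. -/
theorem inv {n : S} (hn : n ∈ N) : t * n * t = n⁻¹ := by
  obtain ⟨x, rfl⟩ := d.surj n hn
  have hi := d.ti
  have h1 : (x * t * x⁻¹) * (x * t * x⁻¹) = 1 := by
    calc (x * t * x⁻¹) * (x * t * x⁻¹) = x * (t * t) * x⁻¹ := by group
      _ = 1 := by rw [d.tt]; group
  have h2 : (x * t * x⁻¹)⁻¹ = x * t * x⁻¹ := inv_eq_of_mul_eq_one_left h1
  rw [hi]
  calc t * (x * t * x⁻¹ * t) * t = t * (x * t * x⁻¹) * (t * t) := by group
    _ = t * (x * t * x⁻¹) := by rw [d.tt, mul_one]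
    _ = t⁻¹ * (x * t * x⁻¹)⁻¹ := by rw [hi, h2]
    _ = (x * t * x⁻¹ * t)⁻¹ := by group

theorem comm {a b : S} (ha : a ∈ N) (hb : b ∈ N) : a * b = b * a := by
  have h1 := d.inv (N.mul_mem ha hb)
  have h2 : t * (a * b) * t = (t * a * t) * (t * b * t) := by
    calc t * (a * b) * t = t * a * 1 * b * t := by group
      _ = t * a * (t * t) * b * t := by rw [d.tt]
      _ = _ := by group
  rw [h2, d.inv ha, d.inv hb] at h1
  have h3 : a⁻¹ * b⁻¹ = b⁻¹ * a⁻¹ := by rw [h1]; group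
  have h4 : (a⁻¹ * b⁻¹)⁻¹ = (b⁻¹ * a⁻¹)⁻¹ := by rw [h3]
  simpa using h4.symm

/-- `N²`. -/
def N2 : Subgroup S := sqS N (fun _ ha _ hb => d.comm ha hb)

theorem n2_le : d.N2 ≤ N := sqS_le _ _

theorem sq_mem {y : S} (hy : y ∈ N) : y ^ 2 ∈ d.N2 := ⟨y, hy, rfl⟩

theorem n2_conj {z : S} (hz : z ∈ d.N2) (g : S) : g * z * g⁻¹ ∈ d.N2 := by
  obtain ⟨x, hx, rfl⟩ := hz
  have hn := d.Nn
  refine ⟨g * x * g⁻¹, hn.conj_mem x hx g, ?_⟩
  simp only [pow_two]; group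

/-- Membership in `N ⊓ Q`: involutions of `N`. -/
theorem mem_NQ {y : S} (hy : y ∈ N) : y ∈ Q ↔ y ^ 2 = 1 := by
  rw [d.Qc]
  have h1 := d.inv hy
  constructor
  · intro h
    have h2 : t * y * t = y := by rw [← h, mul_assoc, d.tt, mul_one]
    rw [h2] at h1
    rw [pow_two]
    nth_rewrite 1 [h1]
    simp
  · intro h
    have h2 : y⁻¹ = y := by
      apply inv_eq_of_mul_eq_one_left
      rwa [pow_two] at h
    rw [h2] at h1
    calc y * t = (t * y * t) * t := by rw [h1]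
      _ = t * y * (t * t) := by group
      _ = t * y := by rw [d.tt, mul_one]

theorem om_le {X : Subgroup S} (hXN : X ≤ N) (hX : ∀ a ∈ X, ∀ b ∈ X, a * b = b * a) :
    Nat.card (omS X hX) ≤ c := by
  rw [← d.Ycard]
  apply Subgroup.card_le_of_le
  rintro y ⟨h1, h2⟩
  exact ⟨hXN h1, (d.mem_NQ (hXN h1)).2 h2⟩

theorem tau_N {n : S} (hn : n ∈ N) : tau t n = n ^ 2 := by
  have h := d.inv (N.inv_mem hn)
  simp only [inv_inv] at h
  have hi := d.ti
  simp only [tau]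
  rw [hi]
  calc n * t * n⁻¹ * t = n * (t * n⁻¹ * t) := by group
    _ = n * n := by rw [h]
    _ = n ^ 2 := (pow_two n).symm

theorem tau_Q {q : S} (hq : q ∈ Q) : tau t q = 1 := by
  have h := (d.Qc q).1 hq
  simp only [tau]
  calc q * t * q⁻¹ * t⁻¹ = (q * t) * q⁻¹ * t⁻¹ := by group
    _ = (t * q) * q⁻¹ * t⁻¹ := by rw [h]
    _ = 1 := by group

theorem tau_mem (x : S) : tau t x ∈ N := d.gen x

theorem mem_P_of_tau {x : S} (hx : tau t x ∈ d.N2) : x ∈ N ⊔ Q := by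
  obtain ⟨n, hn, h⟩ := hx
  have h1 : tau t (n⁻¹ * x) = 1 := by
    rw [tau_mul, tau_inv, ← h, d.tau_N hn]
    simp only [pow_two]; group
  have h2 : (n⁻¹ * x) ∈ Q := by
    rw [d.Qc]
    simp only [tau] at h1
    have h3 : (n⁻¹ * x) * t * (n⁻¹ * x)⁻¹ = t := by
      have := mul_eq_one_iff_eq_inv.1 h1
      simpa using this
    exact (mul_inv_eq_iff_eq_mul.1 h3)
  have h3 : x = n * (n⁻¹ * x) := by group
  rw [h3]
  exact Subgroup.mul_mem _ ((le_sup_left : N ≤ N ⊔ Q) hn) ((le_sup_right : Q ≤ N ⊔ Q) h2)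

theorem exists_of_mem_P {x : S} (hx : x ∈ N ⊔ Q) : ∃ n ∈ N, ∃ q ∈ Q, n * q = x := by
  have := d.Nn
  exact Subgroup.mem_sup_of_normal_left.1 hx

/-- Two elements with congruent `τ` differ by an element of `P`. -/
theorem mem_P_of_congr {a b : S} (h : (tau t a)⁻¹ * tau t b ∈ d.N2) : a⁻¹ * b ∈ N ⊔ Q := by
  apply d.mem_P_of_tau
  have ha := d.tau_mem a
  have hb := d.tau_mem b
  rw [tau_mul, tau_inv]
  have e : a⁻¹ * tau t b * a⁻¹⁻¹ * (a⁻¹ * (tau t a)⁻¹ * a)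
      = a⁻¹ * ((tau t a)⁻¹ * tau t b) * a⁻¹⁻¹ := by
    have := d.comm hb (N.inv_mem ha)
    simp only [inv_inv]
    calc a⁻¹ * tau t b * a * (a⁻¹ * (tau t a)⁻¹ * a) = a⁻¹ * (tau t b * (tau t a)⁻¹) * a := by group
      _ = a⁻¹ * ((tau t a)⁻¹ * tau t b) * a := by rw [this]
  rw [e]
  exact d.n2_conj h _

/-- Quotient data. -/
theorem card_Qb [N.Normal] : c * Nat.card ↥(Q.map (QuotientGroup.mk' N)) = Nat.card Q := by
  have h1 := card_eq_relIndex_mul_inf N Q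
  have h6 := Subgroup.relIndex_ker (K := Q) (QuotientGroup.mk' N)
  rw [QuotientGroup.ker_mk'] at h6
  rw [h6, d.Ycard] at h1
  rw [mul_comm]
  exact h1.symm

/-- `|S / N| = |Q|`. -/
theorem card_quot [hn : N.Normal] : Nat.card (S ⧸ N) = Nat.card Q := by
  have hP : (N ⊔ Q) = (Q.map (QuotientGroup.mk' N)).comap (QuotientGroup.mk' N) := by
    rw [Subgroup.comap_map_eq, QuotientGroup.ker_mk', sup_comm]
  have hk : (N ⊔ Q).index = (Q.map (QuotientGroup.mk' N)).index := by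
    rw [hP, Subgroup.index_comap_of_surjective _ (QuotientGroup.mk'_surjective N)]
  have h3 : (N ⊔ Q).index * Nat.card ↥(Q.map (QuotientGroup.mk' N)) = Nat.card (S ⧸ N) := by
    rw [hk]; exact Subgroup.index_mul_card _
  rw [d.idx, d.card_Qb] at h3
  exact h3.symm

section basics

variable {H R : Subgroup S}

/-- The bound `|A : J| * (anything between) ≤ c`. -/
theorem a_bound (hsq : ∀ h ∈ H, h ^ 2 ∈ R) (hRH : R ≤ H) :
    (N ⊓ R).relIndex (N ⊓ H) * (sqS (N ⊓ H) (fun _ ha _ hb => d.comm ha.1 hb.1)).relIndex (N ⊓ R) ≤ c := by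
  have hA2 : sqS (N ⊓ H) (fun _ ha _ hb => d.comm ha.1 hb.1) ≤ N ⊓ R := by
    rintro _ ⟨a, ha, rfl⟩
    exact ⟨N.pow_mem ha.1 2, hsq a ha.2⟩
  have h1 := Subgroup.relIndex_mul_relIndex _ _ _ hA2 (inf_le_inf_left N hRH)
  rw [mul_comm]
  rw [h1, relIndex_sqS]
  exact d.om_le inf_le_left _

theorem a_le (hsq : ∀ h ∈ H, h ^ 2 ∈ R) (hRH : R ≤ H) : (N ⊓ R).relIndex (N ⊓ H) ≤ c := by
  have h1 := d.a_bound hsq hRH
  have hne : (sqS (N ⊓ H) (fun _ ha _ hb => d.comm ha.1 hb.1)).relIndex (N ⊓ R) ≠ 0 :=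
    rne _ _
  calc (N ⊓ R).relIndex (N ⊓ H)
      ≤ (N ⊓ R).relIndex (N ⊓ H) * (sqS (N ⊓ H) (fun _ ha _ hb => d.comm ha.1 hb.1)).relIndex (N ⊓ R) :=
        Nat.le_mul_of_pos_right _ (Nat.pos_of_ne_zero hne)
    _ ≤ c := h1

/-- The key equation. -/
theorem key_eq [hn : N.Normal] (hRH : R ≤ H) :
    R.relIndex H * (N ⊔ Q).relIndex R
      = ((N ⊓ R).relIndex (N ⊓ H) *
          ((R ⊓ (N ⊔ Q)).map (QuotientGroup.mk' N)).relIndex ((H ⊓ (N ⊔ Q)).map (QuotientGroup.mk' N)))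
        * (N ⊔ Q).relIndex H := by
  rw [chain_P (N ⊔ Q) hRH, chain_N N (inf_le_inf_right _ hRH)]
  have h1 : ∀ X : Subgroup S, N ⊓ (X ⊓ (N ⊔ Q)) = N ⊓ X := by
    intro X
    ext y
    constructor
    · rintro ⟨h2, h3, -⟩
      exact ⟨h2, h3⟩
    · rintro ⟨h2, h3⟩
      exact ⟨h2, h3, (le_sup_left : N ≤ N ⊔ Q) h2⟩
  rw [h1, h1]

theorem Ub_le [hn : N.Normal] (H : Subgroup S) :
    (H ⊓ (N ⊔ Q)).map (QuotientGroup.mk' N) ≤ Q.map (QuotientGroup.mk' N) := by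
  rintro _ ⟨x, ⟨-, hx⟩, rfl⟩
  obtain ⟨n, hn', q, hq, rfl⟩ := d.exists_of_mem_P hx
  refine ⟨q, hq, ?_⟩
  simp only [map_mul]
  rw [show QuotientGroup.mk' N n = 1 from (QuotientGroup.eq_one_iff n).2 hn', one_mul]

/-- The bound on `b`. -/
theorem b_bound [hn : N.Normal] (hRH : R ≤ H) :
    c * ((R ⊓ (N ⊔ Q)).map (QuotientGroup.mk' N)).relIndex ((H ⊓ (N ⊔ Q)).map (QuotientGroup.mk' N))
      ≤ Nat.card Q := by
  rw [← d.card_Qb]
  apply Nat.mul_le_mul_left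
  exact (relIndex_le_card (Subgroup.map_mono (inf_le_inf_right _ hRH))).trans
    (Subgroup.card_le_of_le (d.Ub_le H))

end basics

/-- Case I: `t ∈ H`. -/
theorem caseI {H R : Subgroup S} (ht : t ∈ H) (hRH : R ≤ H) (hsq : ∀ h ∈ H, h ^ 2 ∈ R) :
    R.relIndex H ≤ Nat.card Q := by
  have hn := d.Nn
  have hJ : ∀ h : H, tau t (h : S) ∈ N ⊓ R := by
    intro h
    exact ⟨d.tau_mem _, comm_mem_of_squares hsq h.2 ht⟩
  -- ω ≤ |J : N²|
  have h1 : (N ⊔ Q).relIndex H ≤ d.N2.relIndex (N ⊓ R) := by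
    refine relIndex_le_of_fun (X := ↥(N ⊓ R) ⧸ d.N2.subgroupOf (N ⊓ R))
      (fun h => ((⟨tau t (h : S), hJ h⟩ : ↥(N ⊓ R)) : ↥(N ⊓ R) ⧸ d.N2.subgroupOf (N ⊓ R))) ?_
    intro a b hab
    have h2 := QuotientGroup.eq.1 hab
    rw [Subgroup.mem_subgroupOf] at h2
    exact d.mem_P_of_congr h2
  have hA2 : sqS (N ⊓ H) (fun _ ha _ hb => d.comm ha.1 hb.1) ≤ d.N2 := by
    rintro _ ⟨a, ha, rfl⟩
    exact d.sq_mem ha.1
  have h2 : d.N2.relIndex (N ⊓ R)
      ≤ (sqS (N ⊓ H) (fun _ ha _ hb => d.comm ha.1 hb.1)).relIndex (N ⊓ R) :=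
    Subgroup.relIndex_le_of_le_left hA2 (rne _ _)
  have h3 := d.a_bound hsq hRH
  have h4 := d.b_bound (Q := Q) hRH
  have h5 := d.key_eq hRH
  have h6 : 0 < (N ⊔ Q).relIndex R := Nat.pos_of_ne_zero (rne _ _)
  set ρ := R.relIndex H
  set a := (N ⊓ R).relIndex (N ⊓ H)
  set b := ((R ⊓ (N ⊔ Q)).map (QuotientGroup.mk' N)).relIndex ((H ⊓ (N ⊔ Q)).map (QuotientGroup.mk' N))
  set ω := (N ⊔ Q).relIndex H
  have h7 : a * ω ≤ c := by
    calc a * ω ≤ a * (sqS (N ⊓ H) (fun _ ha _ hb => d.comm ha.1 hb.1)).relIndex (N ⊓ R) :=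
          Nat.mul_le_mul_left _ (h1.trans h2)
      _ ≤ c := h3
  calc ρ ≤ ρ * (N ⊔ Q).relIndex R := Nat.le_mul_of_pos_right _ h6
    _ = a * b * ω := h5
    _ = (a * ω) * b := by ring
    _ ≤ c * b := Nat.mul_le_mul_right _ h7
    _ ≤ Nat.card Q := h4

/-- Reduction of Case I to `t ∈ H`. -/
theorem caseI' {H R : Subgroup S} {h : S} (hh : h ∈ H) (hht : h * t⁻¹ ∈ N) (hRH : R ≤ H)
    (hsq : ∀ h ∈ H, h ^ 2 ∈ R) : R.relIndex H ≤ Nat.card Q := by
  obtain ⟨x, hx⟩ := d.surj _ hht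
  have hx' : x * t * x⁻¹ = h := mul_right_cancel hx
  have h1 : (cj x⁻¹ R).relIndex (cj x⁻¹ H) = R.relIndex H :=
    Subgroup.relIndex_map_map_of_injective _ _ (MulAut.conj x⁻¹).injective
  rw [← h1]
  refine d.caseI ?_ (Subgroup.map_mono hRH) ?_
  · rw [mem_cj, inv_inv, hx']
    exact hh
  · intro y hy
    rw [mem_cj] at hy ⊢
    have e : x⁻¹⁻¹ * y ^ 2 * x⁻¹ = (x⁻¹⁻¹ * y * x⁻¹) ^ 2 := by simp only [pow_two]; group
    rw [e]
    exact hsq _ hy

/-- Case II: `H` misses the coset `t N`. -/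
theorem caseII (hS : IsPGroup 2 S) (hc : c ≤ 4) (hQ : Nat.card Q ≤ 8 ∨ (Nat.card Q = 16 ∧ ∃ r, r ^ 2 = t))
    {H R : Subgroup S} (hRH : R ≤ H) (hsq : ∀ h ∈ H, h ^ 2 ∈ R) (hno : ∀ h ∈ H, h * t⁻¹ ∉ N) :
    R.relIndex H ≤ 16 := by
  have hn := d.Nn
  rw [chain_N N hRH]
  have h1 := d.a_le hsq hRH
  let π := QuotientGroup.mk' N
  let Hb : Subgroup (S ⧸ N) := H.map π
  have hquot := d.card_quot
  have hmiss : π t ∉ Hb := by
    rintro ⟨h, hh, he⟩
    apply hno h hh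
    have : π (h * t⁻¹) = 1 := by
      rw [map_mul, map_inv, he]; simp
    exact (QuotientGroup.eq_one_iff _).1 this
  have hidx := Subgroup.index_mul_card Hb
  have hcardpos : 0 < Nat.card Hb := Nat.card_pos
  have hi1 : Hb.index ≠ 1 := by
    intro h
    rw [Subgroup.index_eq_one] at h
    exact hmiss (h ▸ Subgroup.mem_top _)
  have hi0 : Hb.index ≠ 0 := by
    intro h
    rw [h, zero_mul] at hidx
    exact (Nat.card_pos (α := S ⧸ N)).ne hidx
  have hH4 : Nat.card Hb ≤ 4 := by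
    rcases hQ with hQ | ⟨hQ, r, hr⟩
    · rw [hquot] at hidx
      by_contra hlt
      have h2 : 2 ≤ Hb.index := by omega
      have h3 : 2 * 5 ≤ Hb.index * Nat.card Hb := Nat.mul_le_mul h2 (by omega)
      omega
    · rw [hquot, hQ] at hidx
      have hi2 : Hb.index ≠ 2 := by
        intro h
        apply hmiss
        have := Subgroup.sq_mem_of_index_two h (π r)
        rwa [← map_pow, hr] at this
      have hi3 : Hb.index ≠ 3 := by
        intro h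
        rw [h] at hidx
        omega
      by_contra hlt
      have h2 : 4 ≤ Hb.index := by omega
      have h3 : 4 * 5 ≤ Hb.index * Nat.card Hb := Nat.mul_le_mul h2 (by omega)
      omega
  have h2 : (R.map (QuotientGroup.mk' N)).relIndex (H.map (QuotientGroup.mk' N)) ≤ 4 :=
    (relIndex_le_card (Subgroup.map_mono hRH)).trans hH4
  calc _ ≤ 4 * 4 := Nat.mul_le_mul (h1.trans hc) h2
    _ = 16 := rfl

end LD

/-- The main lemma. -/
theorem sqBound_of_inv (hS : IsPGroup 2 S) {t : S} (ht : t * t = 1) (t1 : t ≠ 1)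
    (hQ : Nat.card (cS t) ≤ 8 ∨ (Nat.card (cS t) = 16 ∧ ∃ r, r ^ 2 = t))
    (hc : Nat.card ↥(tC t ⊓ cS t) ≤ 4) : SqBound 4 S := by
  have hQ16 : Nat.card (cS t) ≤ 16 := by
    rcases hQ with h | h
    · omega
    · omega
  -- the order of `N ⊓ Q` is a power of two
  obtain ⟨k, hk⟩ := IsPGroup.iff_card.1 (hS.to_subgroup (tC t ⊓ cS t))
  have hk2 : k ≤ 2 := by
    by_contra hlt
    have : 2 ^ 3 ≤ 2 ^ k := Nat.pow_le_pow_right (by norm_num) (by omega)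
    omega
  by_cases hk0 : k = 0
  · -- `N` is trivial
    have hbot : tC t ⊓ cS t = ⊥ := by
      apply Subgroup.eq_bot_of_card_eq
      rw [hk, hk0]; rfl
    have : Group.IsNilpotent S := hS.isNilpotent
    have hN : tC t = ⊥ := by
      by_contra hne
      apply Cfsg.Agent.Lib.BrolineGT.inf_center_ne_bot (tC t) hne
      rw [eq_bot_iff, ← hbot]
      refine inf_le_inf_left _ ?_
      intro x hx
      rw [mem_cent]
      exact (Subgroup.mem_center_iff.1 hx t).symm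
    have htop : cS t = ⊤ := by
      rw [eq_top_iff]
      intro x _
      rw [mem_cent]
      have := gen_mem t x
      rw [hN, Subgroup.mem_bot] at this
      have h2 : x * t * x⁻¹ = t := mul_inv_eq_one.1 this
      exact mul_inv_eq_iff_eq_mul.1 h2
    have hcard : Nat.card S ≤ 16 := by
      rw [htop] at hQ16
      simpa using hQ16
    intro H R hRH _
    exact (relIndex_le_card hRH).trans ((Subgroup.card_le_card_group H).trans hcard)
  · have hc24 : Nat.card ↥(tC t ⊓ cS t) = 2 ∨ Nat.card ↥(tC t ⊓ cS t) = 4 := by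
      rw [hk]
      interval_cases k
      · omega
      · left; rfl
      · right; rfl
    obtain ⟨h1, h2⟩ := main_index hS ht hc24
    have d : LD t (cS t) (tC t) (Nat.card ↥(tC t ⊓ cS t)) :=
      { tt := ht
        Qc := fun x => mem_cent
        Nn := inferInstance
        gen := fun x => gen_mem t x
        surj := h2
        Ycard := rfl
        idx := h1
        tN := Cfsg.Agent.Lib.WrInvE.t_not_mem_tC hS t1 }
    intro H R hRH hsq
    by_cases hex : ∃ h ∈ H, h * t⁻¹ ∈ tC t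
    · obtain ⟨h, hh, hht⟩ := hex
      exact (d.caseI' hh hht hRH hsq).trans hQ16
    · push Not at hex
      exact d.caseII hS hc hQ hRH hsq hex

end Cfsg.Agent.Lib.E8Sect
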