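import Mathlib
import Cfsg.Agent.Lib.E8SectA

/-!
# A self-centralizing elementary abelian subgroup of order eight: the flag and the first cases
-/

set_option autoImplicit false

namespace Cfsg.Agent.Lib.E8Sect

open Cfsg.Agent.Lib.SectRank Cfsg.Agent.Lib.SectE16 Cfsg.Agent.Lib.WrInvB Cfsg.Agent.Lib.WrInvA

variable {S : Type*} [Group S] [Finite S]

/-- Normalizer growth in a subgroup, with elements of `S`. -/
theorem exists_normalizing (hS : IsPGroup 2 S) {D Q : Subgroup S} (hDQ : D < Q) :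
    ∃ x ∈ Q, x ∉ D ∧ ∀ d, d ∈ D ↔ x * d * x⁻¹ ∈ D := by
  have hQ : IsPGroup 2 Q := hS.to_subgroup Q
  have : Group.IsNilpotent Q := hQ.isNilpotent
  have h1 : D.subgroupOf Q < ⊤ := by
    rw [lt_top_iff_ne_top]
    intro h
    obtain ⟨x, hx, hxD⟩ := SetLike.exists_of_lt hDQ
    have : (⟨x, hx⟩ : Q) ∈ D.subgroupOf Q := by rw [h]; trivial
    exact hxD this
  have h2 := Group.normalizerCondition_of_isNilpotent (G := Q) _ h1
  obtain ⟨⟨x, hxQ⟩, hx1, hx2⟩ := SetLike.exists_of_lt h2
  refine ⟨x, hxQ, fun h => hx2 h, ?_⟩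
  rw [Subgroup.mem_normalizer_iff] at hx1
  intro d
  constructor
  · intro hd
    have h3 : (⟨d, hDQ.le hd⟩ : Q) ∈ D.subgroupOf Q := hd
    exact (hx1 _).1 h3
  · intro hd
    have hdQ : d ∈ Q := by
      have h4 := Q.mul_mem (Q.mul_mem (Q.inv_mem hxQ) (hDQ.le hd)) hxQ
      have e : x⁻¹ * (x * d * x⁻¹) * x = d := by group
      rwa [e] at h4
    have h3 : (⟨x, hxQ⟩ : Q) * (⟨d, hdQ⟩ : Q) * (⟨x, hxQ⟩ : Q)⁻¹ ∈ D.subgroupOf Q := hd
    exact (hx1 _).2 h3

/-- An index-two invariant subgroup. -/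
theorem exists_inv_index2 (hS : IsPGroup 2 S) {A T : Subgroup S} (hAT : A ≤ T)
    (hn : ∀ t ∈ T, ∀ a ∈ A, t * a * t⁻¹ ∈ A) (hne : A ≠ ⊥) :
    ∃ W : Subgroup S, W ≤ A ∧ (∀ t ∈ T, ∀ w ∈ W, t * w * t⁻¹ ∈ W) ∧ W.relIndex A = 2 := by
  have : Fact (Nat.Prime 2) := ⟨Nat.prime_two⟩
  have hT : IsPGroup 2 T := hS.to_subgroup T
  let A' : Subgroup T := A.subgroupOf T
  have hA' : A'.Normal := by
    constructor
    intro x hx g
    exact hn g g.2 x hx
  have hne' : A' ≠ ⊥ := by
    intro h
    apply hne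
    rw [eq_bot_iff]
    intro x hx
    have h1 : (⟨x, hAT hx⟩ : T) ∈ A' := hx
    rw [h, Subgroup.mem_bot] at h1
    simpa using congrArg Subtype.val h1
  obtain ⟨W, hWA, hWn, hW⟩ := exists_normal_index_prime hT A' hA' hne'
  have hmap : A'.map T.subtype = A := Subgroup.map_subgroupOf_eq_of_le hAT
  refine ⟨W.map T.subtype, ?_, ?_, ?_⟩
  · rw [← hmap]; exact Subgroup.map_mono hWA
  · rintro t ht _ ⟨w, hw, rfl⟩
    exact ⟨⟨t, ht⟩ * w * ⟨t, ht⟩⁻¹, hWn.conj_mem w hw _, by simp⟩
  · rw [← hmap, Subgroup.relIndex_map_map_of_injective _ _ T.subtype_injective]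
    exact hW

/-- A subgroup of order two. -/
theorem two_elts (K : Subgroup S) (hK : Nat.card K = 2) :
    ∃ z ∈ K, z ≠ 1 ∧ ∀ x ∈ K, x = 1 ∨ x = z := by
  obtain ⟨y, hy, hu⟩ := (Nat.card_eq_two_iff' (1 : K)).1 hK
  refine ⟨y, y.2, fun h => hy (Subtype.ext h), ?_⟩
  intro x hx
  by_cases h : (⟨x, hx⟩ : K) = 1
  · left
    simpa using congrArg Subtype.val h
  · right
    exact congrArg Subtype.val (hu _ h)

omit [Finite S] in
/-- Index two: the product of two elements outside. -/
theorem rel2 {K L : Subgroup S} (h : K.relIndex L = 2) {x y : S} (hx : x ∈ L) (hy : y ∈ L)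
    (hxK : x ∉ K) (hyK : y ∉ K) : x * y ∈ K := by
  have h2 := (Subgroup.mul_mem_iff_of_index_two (H := K.subgroupOf L) h
      (a := ⟨x, hx⟩) (b := ⟨y, hy⟩)).2 (by
        simp only [Subgroup.mem_subgroupOf]
        constructor
        · intro h; exact absurd h hxK
        · intro h; exact absurd h hyK)
  simpa [Subgroup.mem_subgroupOf] using h2

/-- The flag. -/
structure Fl (A : Subgroup S) (z y a : S) : Prop where
  zA : z ∈ A
  yA : y ∈ A
  aA : a ∈ A
  cm : ∀ p ∈ A, ∀ q ∈ A, p * q = q * p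
  sq : ∀ p ∈ A, p * p = 1
  z1 : z ≠ 1
  y1 : y ≠ 1
  yz : y ≠ z
  a1 : a ≠ 1
  az : a ≠ z
  ay : a ≠ y
  ayz : a ≠ y * z
  gen : ∀ x ∈ A, x = 1 ∨ x = z ∨ x = y ∨ x = y * z ∨ x = a ∨ x = a * z ∨ x = a * y ∨ x = a * y * z
  cen : ∀ g, g * z = z * g → g * y = y * g → g * a = a * g → g ∈ A
  Tz : ∀ x ∈ Subgroup.normalizer (A : Set S), x * z * x⁻¹ = z
  Ty : ∀ x ∈ Subgroup.normalizer (A : Set S), x * y * x⁻¹ = y ∨ x * y * x⁻¹ = y * z

/-- Existence of the flag. -/
theorem exists_flag (hS : IsPGroup 2 S) (A : Subgroup S) (hcm : ∀ p ∈ A, ∀ q ∈ A, p * q = q * p)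
    (hsq : ∀ p ∈ A, p * p = 1) (h8 : Nat.card A = 8)
    (hC : ∀ g, (∀ p ∈ A, g * p = p * g) → g ∈ A) : ∃ z y a, Fl A z y a := by
  let T : Subgroup S := Subgroup.normalizer (A : Set S)
  have hAT : A ≤ T := Subgroup.le_normalizer
  have hnT : ∀ t ∈ T, ∀ a ∈ A, t * a * t⁻¹ ∈ A := by
    intro t ht a ha
    exact (Subgroup.mem_normalizer_iff.1 ht a).1 ha
  have hAne : A ≠ ⊥ := by
    intro h
    rw [h] at h8
    simp at h8
  obtain ⟨W₂, hW₂A, hW₂n, hW₂⟩ := exists_inv_index2 hS hAT hnT hAne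
  have c2 : Nat.card A = W₂.relIndex A * Nat.card W₂ := card_eq_relIndex_mul hW₂A
  rw [hW₂, h8] at c2
  have c2' : Nat.card W₂ = 4 := by omega
  have hW₂ne : W₂ ≠ ⊥ := by
    intro h
    rw [h] at c2'
    simp at c2'
  obtain ⟨W₁, hW₁A, hW₁n, hW₁⟩ := exists_inv_index2 hS (hW₂A.trans hAT) hW₂n hW₂ne
  have c1 : Nat.card W₂ = W₁.relIndex W₂ * Nat.card W₁ := card_eq_relIndex_mul hW₁A
  rw [hW₁, c2'] at c1
  have c1' : Nat.card W₁ = 2 := by omega
  obtain ⟨z, hzW, hz1, hzall⟩ := two_elts W₁ c1'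
  have hW₁ne : ¬ W₂ ≤ W₁ := by
    intro h
    have := Subgroup.relIndex_eq_one.2 h
    omega
  have hW₂ne' : ¬ A ≤ W₂ := by
    intro h
    have := Subgroup.relIndex_eq_one.2 h
    omega
  obtain ⟨y, hyW, hyn⟩ := Set.not_subset.1 hW₁ne
  obtain ⟨a, haA, han⟩ := Set.not_subset.1 hW₂ne'
  have hzA : z ∈ A := hW₂A (hW₁A hzW)
  have hyA : y ∈ A := hW₂A hyW
  have yi : ∀ p ∈ A, p⁻¹ = p := fun p hp => inv_eq_of_mul_eq_one_left (hsq p hp)
  -- the members of `W₂`
  have hW2 : ∀ x ∈ W₂, x = 1 ∨ x = z ∨ x = y ∨ x = y * z := by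
    intro x hx
    by_cases hx1 : x ∈ W₁
    · rcases hzall x hx1 with h | h
      · exact Or.inl h
      · exact Or.inr (Or.inl h)
    · have h1 := rel2 hW₁ hx hyW hx1 hyn
      have hxA := hW₂A hx
      rcases hzall _ h1 with h | h
      · right; right; left
        have := mul_eq_one_iff_eq_inv.1 h
        rw [this, yi y hyA]
      · right; right; right
        have h2 : x = z * y⁻¹ := eq_mul_inv_of_mul_eq h
        rw [h2, yi y hyA, hcm z hzA y hyA]
  refine ⟨z, y, a, ?_⟩
  have hgen : ∀ x ∈ A, x = 1 ∨ x = z ∨ x = y ∨ x = y * z ∨ x = a ∨ x = a * z ∨ x = a * y ∨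
      x = a * y * z := by
    intro x hx
    by_cases hx2 : x ∈ W₂
    · rcases hW2 x hx2 with h | h | h | h
      · exact Or.inl h
      · exact Or.inr (Or.inl h)
      · exact Or.inr (Or.inr (Or.inl h))
      · exact Or.inr (Or.inr (Or.inr (Or.inl h)))
    · have h1 := rel2 hW₂ hx haA hx2 han
      have h2 : x = (x * a) * a := by
        rw [mul_assoc, hsq a haA, mul_one]
      rcases hW2 _ h1 with h | h | h | h
      · rw [h, one_mul] at h2
        exact Or.inr (Or.inr (Or.inr (Or.inr (Or.inl h2))))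
      · rw [h, hcm z hzA a haA] at h2
        exact Or.inr (Or.inr (Or.inr (Or.inr (Or.inr (Or.inl h2)))))
      · rw [h, hcm y hyA a haA] at h2
        exact Or.inr (Or.inr (Or.inr (Or.inr (Or.inr (Or.inr (Or.inl h2))))))
      · rw [h, hcm (y * z) (A.mul_mem hyA hzA) a haA, ← mul_assoc] at h2
        exact Or.inr (Or.inr (Or.inr (Or.inr (Or.inr (Or.inr (Or.inr h2))))))
  exact
    { zA := hzA
      yA := hyA
      aA := haA
      cm := hcm
      sq := hsq
      z1 := hz1
      y1 := fun h => hyn (h ▸ W₁.one_mem)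
      yz := fun h => hyn (h ▸ hzW)
      a1 := fun h => han (h ▸ W₂.one_mem)
      az := fun h => han (h ▸ hW₁A hzW)
      ay := fun h => han (h ▸ hyW)
      ayz := fun h => han (h ▸ W₂.mul_mem hyW (hW₁A hzW))
      gen := hgen
      cen := by
        intro g h1 h2 h3
        apply hC
        intro p hp
        rcases hgen p hp with h | h | h | h | h | h | h | h <;> subst h
        · simp
        · exact h1
        · exact h2
        · exact (Commute.mul_right h2 h1)
        · exact h3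
        · exact (Commute.mul_right h3 h1)
        · exact (Commute.mul_right h3 h2)
        · exact (Commute.mul_right (Commute.mul_right h3 h2) h1)
      Tz := by
        intro x hx
        rcases hzall _ (hW₁n x hx z hzW) with h | h
        · exfalso
          apply hz1
          have e : z = x⁻¹ * (x * z * x⁻¹) * x := by group
          rw [e, h]; group
        · exact h
      Ty := by
        intro x hx
        have h1 := hW₂n x hx y hyW
        have h2 : x * y * x⁻¹ ∉ W₁ := by
          intro h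
          apply hyn
          have h3 := hW₁n x⁻¹ (T.inv_mem hx) _ h
          have e : x⁻¹ * (x * y * x⁻¹) * x⁻¹⁻¹ = y := by group
          rwa [e] at h3
        have h3 := rel2 hW₁ h1 hyW h2 hyn
        rcases hzall _ h3 with h | h
        · left
          have := mul_eq_one_iff_eq_inv.1 h
          rw [this, yi y hyA]
        · right
          have h4 : x * y * x⁻¹ = z * y⁻¹ := eq_mul_inv_of_mul_eq h
          rw [h4, yi y hyA, hcm z hzA y hyA] }

namespace Fl

variable {A : Subgroup S} {z y a : S} (d : Fl A z y a)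

include d

/-- Rewriting rules for the elementary abelian group. -/
theorem r_zy : z * y = y * z := d.cm z d.zA y d.yA
theorem r_zy' (w : S) : z * (y * w) = y * (z * w) := by rw [← mul_assoc, d.r_zy, mul_assoc]
theorem r_za : z * a = a * z := d.cm z d.zA a d.aA
theorem r_za' (w : S) : z * (a * w) = a * (z * w) := by rw [← mul_assoc, d.r_za, mul_assoc]
theorem r_ya : y * a = a * y := d.cm y d.yA a d.aA
theorem r_ya' (w : S) : y * (a * w) = a * (y * w) := by rw [← mul_assoc, d.r_ya, mul_assoc]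
theorem r_zz : z * z = 1 := d.sq z d.zA
theorem r_zz' (w : S) : z * (z * w) = w := by rw [← mul_assoc, d.r_zz, one_mul]
theorem r_yy : y * y = 1 := d.sq y d.yA
theorem r_yy' (w : S) : y * (y * w) = w := by rw [← mul_assoc, d.r_yy, one_mul]
theorem r_aa : a * a = 1 := d.sq a d.aA
theorem r_aa' (w : S) : a * (a * w) = w := by rw [← mul_assoc, d.r_aa, one_mul]

/-- Changing `a` to `a z`. -/
theorem changeZ : Fl A z y (a * z) where
  zA := d.zA
  yA := d.yA
  aA := A.mul_mem d.aA d.zA
  cm := d.cm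
  sq := d.sq
  z1 := d.z1
  y1 := d.y1
  yz := d.yz
  a1 := by
    intro h
    have h1 : a = z⁻¹ := eq_inv_of_mul_eq_one_left h
    rw [inv_eq_of_mul_eq_one_left (d.sq z d.zA)] at h1
    exact d.az h1
  az := by
    intro h
    exact d.a1 (mul_eq_right.1 h)
  ay := by
    intro h
    apply d.ayz
    calc a = a * z * z := by rw [mul_assoc, d.sq z d.zA, mul_one]
      _ = y * z := by rw [h]
  ayz := by
    intro h
    exact d.ay (mul_right_cancel h)
  gen := by
    intro x hx
    have hzz := d.sq z d.zA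
    have h1 : a = a * z * z := by rw [mul_assoc, hzz, mul_one]
    have h2 : a * y = a * z * y * z := by
      rw [mul_assoc a z y, d.cm z d.zA y d.yA, mul_assoc, mul_assoc, hzz, mul_one]
    have h3 : a * y * z = a * z * y := by
      rw [mul_assoc, d.cm y d.yA z d.zA, mul_assoc]
    rcases d.gen x hx with h | h | h | h | h | h | h | h
    · exact Or.inl h
    · exact Or.inr (Or.inl h)
    · exact Or.inr (Or.inr (Or.inl h))
    · exact Or.inr (Or.inr (Or.inr (Or.inl h)))
    · exact Or.inr (Or.inr (Or.inr (Or.inr (Or.inr (Or.inl (h.trans h1))))))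
    · exact Or.inr (Or.inr (Or.inr (Or.inr (Or.inl h))))
    · exact Or.inr (Or.inr (Or.inr (Or.inr (Or.inr (Or.inr (Or.inr (h.trans h2)))))))
    · exact Or.inr (Or.inr (Or.inr (Or.inr (Or.inr (Or.inr (Or.inl (h.trans h3)))))))
  cen := by
    intro g h1 h2 h3
    apply d.cen g h1 h2
    have h4 : g * a * z = a * g * z := by
      calc g * a * z = g * (a * z) := by group
        _ = a * z * g := h3
        _ = a * (z * g) := by group
        _ = a * (g * z) := by rw [h1]
        _ = a * g * z := by group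
    exact mul_right_cancel h4
  Tz := d.Tz
  Ty := d.Ty

/-- Changing `a` to `a y`. -/
theorem changeY : Fl A z y (a * y) where
  zA := d.zA
  yA := d.yA
  aA := A.mul_mem d.aA d.yA
  cm := d.cm
  sq := d.sq
  z1 := d.z1
  y1 := d.y1
  yz := d.yz
  a1 := by
    intro h
    have h1 : a = y⁻¹ := eq_inv_of_mul_eq_one_left h
    rw [inv_eq_of_mul_eq_one_left (d.sq y d.yA)] at h1
    exact d.ay h1
  az := by
    intro h
    apply d.ayz
    calc a = a * y * y := by rw [mul_assoc, d.sq y d.yA, mul_one]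
      _ = z * y := by rw [h]
      _ = y * z := d.cm z d.zA y d.yA
  ay := by
    intro h
    exact d.a1 (mul_eq_right.1 h)
  ayz := by
    intro h
    apply d.az
    rw [d.cm y d.yA z d.zA] at h
    exact mul_right_cancel h
  gen := by
    intro x hx
    have hyy := d.sq y d.yA
    have h1 : a = a * y * y := by rw [mul_assoc, hyy, mul_one]
    have h2 : a * z = a * y * y * z := by
      rw [mul_assoc a y y, hyy, mul_one]
    have h3 : a * y * z = a * y * z := rfl
    rcases d.gen x hx with h | h | h | h | h | h | h | h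
    · exact Or.inl h
    · exact Or.inr (Or.inl h)
    · exact Or.inr (Or.inr (Or.inl h))
    · exact Or.inr (Or.inr (Or.inr (Or.inl h)))
    · exact Or.inr (Or.inr (Or.inr (Or.inr (Or.inr (Or.inr (Or.inl (h.trans h1)))))))
    · exact Or.inr (Or.inr (Or.inr (Or.inr (Or.inr (Or.inr (Or.inr (h.trans h2)))))))
    · exact Or.inr (Or.inr (Or.inr (Or.inr (Or.inl h))))
    · exact Or.inr (Or.inr (Or.inr (Or.inr (Or.inr (Or.inl h)))))
  cen := by
    intro g h1 h2 h3
    apply d.cen g h1 h2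
    have h4 : g * a * y = a * g * y := by
      calc g * a * y = g * (a * y) := by group
        _ = a * y * g := h3
        _ = a * (y * g) := by group
        _ = a * (g * y) := by rw [h2]
        _ = a * g * y := by group
    exact mul_right_cancel h4
  Tz := d.Tz
  Ty := d.Ty

/-- If every element of the normalizer commuting with `a` lies in `A`, we are done. -/
theorem caseF (hS : IsPGroup 2 S) (hA8 : Nat.card A = 8)
    (h : ∀ r ∈ Subgroup.normalizer (A : Set S), r * a = a * r → r ∈ A) : SqBound 4 S := by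
  have hAQ : A ≤ cS a := by
    intro p hp
    rw [mem_cent]
    exact d.cm p hp a d.aA
  have hQ : cS a = A := by
    by_contra hne
    have hlt : A < cS a := lt_of_le_of_ne hAQ (Ne.symm hne)
    obtain ⟨x, hxQ, hxA, hxn⟩ := exists_normalizing hS hlt
    exact hxA (h x (Subgroup.mem_normalizer_iff.2 hxn) (mem_cent.1 hxQ))
  have ht : a * a = 1 := d.sq a d.aA
  refine sqBound_of_inv hS ht d.a1 (Or.inl (by rw [hQ, hA8])) ?_
  rw [hQ]
  have hnot : a ∉ tC a := Cfsg.Agent.Lib.WrInvE.t_not_mem_tC hS d.a1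
  have h1 := card_eq_relIndex_mul_inf (tC a) A
  rw [hA8] at h1
  have h2 : (tC a).relIndex A ≠ 1 := by
    intro h3
    have h4 : A ≤ tC a := Subgroup.relIndex_eq_one.1 h3
    exact hnot (h4 d.aA)
  have h3 : (tC a).relIndex A ≠ 0 := rne _ _
  by_contra hlt
  have h4 : 2 * 5 ≤ (tC a).relIndex A * Nat.card ↥(tC a ⊓ A) :=
    Nat.mul_le_mul (by omega) (by omega)
  omega

/-- Fixed points. -/
theorem fix_eq {r x : S} (hr : r ∈ Subgroup.normalizer (A : Set S)) (hy : r * y * r⁻¹ = y * z)
    (ha : r * a * r⁻¹ = a) (hx : x ∈ A) (hf : r * x * r⁻¹ = x) :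
    x = 1 ∨ x = z ∨ x = a ∨ x = a * z := by
  have hz := d.Tz r hr
  have hmul : ∀ p q : S, r * (p * q) * r⁻¹ = (r * p * r⁻¹) * (r * q * r⁻¹) := by
    intro p q; group
  have hzz := d.sq z d.zA
  have h1 : y * z * z = y := by rw [mul_assoc, hzz, mul_one]
  rcases d.gen x hx with h | h | h | h | h | h | h | h
  · exact Or.inl h
  · exact Or.inr (Or.inl h)
  · exfalso
    subst h
    rw [hy] at hf
    exact d.z1 (mul_eq_left.1 hf)
  · exfalso
    subst h
    rw [hmul, hy, hz, h1] at hf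
    exact d.z1 (mul_eq_left.1 hf.symm)
  · exact Or.inr (Or.inr (Or.inl h))
  · exact Or.inr (Or.inr (Or.inr h))
  · exfalso
    subst h
    rw [hmul, ha, hy, ← mul_assoc] at hf
    exact d.z1 (mul_eq_left.1 hf)
  · exfalso
    subst h
    rw [hmul, hmul, ha, hy, hz, mul_assoc, mul_assoc, mul_assoc, hzz, mul_one] at hf
    have h3 : a * y * 1 = a * y * z := by
      rw [mul_one]; rw [mul_assoc]; exact hf
    exact d.z1 (mul_left_cancel h3).symm

/-- The action of an element of the normalizer outside `A` commuting with `a`. -/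
theorem act_y {r : S} (hr : r ∈ Subgroup.normalizer (A : Set S)) (hrA : r ∉ A) (hra : r * a = a * r) :
    r * y * r⁻¹ = y * z := by
  rcases d.Ty r hr with h | h
  · exfalso
    apply hrA
    apply d.cen r _ _ hra
    · exact mul_inv_eq_iff_eq_mul.1 (d.Tz r hr)
    · exact mul_inv_eq_iff_eq_mul.1 h
  · exact h

/-- Squares. -/
theorem sq_form {r : S} (hr : r ∈ Subgroup.normalizer (A : Set S)) (hy : r * y * r⁻¹ = y * z)
    (ha : r * a = a * r) : r ^ 2 = 1 ∨ r ^ 2 = z ∨ r ^ 2 = a ∨ r ^ 2 = a * z := by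
  have hz := d.Tz r hr
  have hzz := d.sq z d.zA
  have hrz : r * z = z * r := mul_inv_eq_iff_eq_mul.1 hz
  have hr2 : r ^ 2 ∈ A := by
    have hry : r * y = y * z * r := mul_inv_eq_iff_eq_mul.1 hy
    apply d.cen
    · rw [pow_two]
      calc r * r * z = r * (r * z) := by group
        _ = r * (z * r) := by rw [hrz]
        _ = (r * z) * r := by group
        _ = (z * r) * r := by rw [hrz]
        _ = _ := by group
    · rw [pow_two]
      calc r * r * y = r * (r * y) := by group
        _ = r * (y * z * r) := by rw [hry]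
        _ = (r * y) * (z * r) := by group
        _ = (y * z * r) * (z * r) := by rw [hry]
        _ = y * z * (r * z) * r := by group
        _ = y * z * (z * r) * r := by rw [hrz]
        _ = y * (z * z) * (r * r) := by group
        _ = _ := by rw [hzz, mul_one]
    · rw [pow_two]
      calc r * r * a = r * (r * a) := by group
        _ = r * (a * r) := by rw [ha]
        _ = (r * a) * r := by group
        _ = (a * r) * r := by rw [ha]
        _ = _ := by group
  refine d.fix_eq hr hy (mul_inv_eq_iff_eq_mul.2 ha) hr2 ?_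
  rw [pow_two]; group

/-- Subcase with `a = r²`. -/
theorem caseN (hS : IsPGroup 2 S) (hA8 : Nat.card A = 8) {r : S}
    (hr : r ∈ Subgroup.normalizer (A : Set S)) (hy : r * y * r⁻¹ = y * z) (hr2 : r ^ 2 = a) :
    SqBound 4 S := by
  have hz := d.Tz r hr
  have hzz := d.sq z d.zA
  have hra : r * a = a * r := by
    rw [← hr2, pow_two]; group
  have hra' : r * a * r⁻¹ = a := mul_inv_eq_iff_eq_mul.2 hra
  have haa : a * a = 1 := d.sq a d.aA
  have hrA : r ∉ A := by
    intro h
    have h1 := d.cm r h y d.yA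
    rw [h1] at hy
    have h2 : y * r * r⁻¹ = y := by group
    rw [h2] at hy
    exact d.z1 (mul_eq_left.1 hy.symm)
  have hAQ : A ≤ cS a := by
    intro p hp
    rw [mem_cent]
    exact d.cm p hp a d.aA
  have hAT : A ≤ Subgroup.normalizer (A : Set S) := Subgroup.le_normalizer
  -- elements of the normalizer in `Q`
  have h1 : ∀ x ∈ Subgroup.normalizer (A : Set S) ⊓ cS a, x ∈ A ∨ r⁻¹ * x ∈ A := by
    rintro x ⟨hxT, hxQ⟩
    have hxa : x * a = a * x := mem_cent.1 hxQ
    have hxz : x * z = z * x := mul_inv_eq_iff_eq_mul.1 (d.Tz x hxT)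
    have hrz : r * z = z * r := mul_inv_eq_iff_eq_mul.1 hz
    have hrz' : r⁻¹ * z = z * r⁻¹ := (show Commute r z from hrz).inv_left
    have hra2 : r⁻¹ * a = a * r⁻¹ := (show Commute r a from hra).inv_left
    rcases d.Ty x hxT with h | h
    · left
      exact d.cen x hxz (mul_inv_eq_iff_eq_mul.1 h) hxa
    · right
      have hxy : x * y = y * z * x := mul_inv_eq_iff_eq_mul.1 h
      have hry : r⁻¹ * (y * z) = y * r⁻¹ := by
        rw [← hy]; group
      apply d.cen
      · calc r⁻¹ * x * z = r⁻¹ * (x * z) := by group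
          _ = r⁻¹ * (z * x) := by rw [hxz]
          _ = (r⁻¹ * z) * x := by group
          _ = (z * r⁻¹) * x := by rw [hrz']
          _ = _ := by group
      · calc r⁻¹ * x * y = r⁻¹ * (x * y) := by group
          _ = r⁻¹ * (y * z * x) := by rw [hxy]
          _ = (r⁻¹ * (y * z)) * x := by group
          _ = (y * r⁻¹) * x := by rw [hry]
          _ = _ := by group
      · calc r⁻¹ * x * a = r⁻¹ * (x * a) := by group
          _ = r⁻¹ * (a * x) := by rw [hxa]
          _ = (r⁻¹ * a) * x := by group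
          _ = (a * r⁻¹) * x := by rw [hra2]
          _ = _ := by group
  -- the commutator with `r` on `A`
  have hcomm : ∀ u ∈ A, (r * u * r⁻¹) * u = 1 ∨ (r * u * r⁻¹) * u = z := by
    intro u hu
    have hmul : ∀ p q : S, r * (p * q) * r⁻¹ = (r * p * r⁻¹) * (r * q * r⁻¹) := by
      intro p q; group
    rcases d.gen u hu with h | h | h | h | h | h | h | h <;> subst h
    · left; simp
    · left; rw [hz, hzz]
    · right; rw [hy]; simp only [mul_assoc, d.r_zy, d.r_zy', d.r_za, d.r_za', d.r_ya, d.r_ya', d.r_zz, d.r_zz', d.r_yy, d.r_yy', d.r_aa, d.r_aa', mul_one, one_mul]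
    · right; rw [hmul, hy, hz]; simp only [mul_assoc, d.r_zy, d.r_zy', d.r_za, d.r_za', d.r_ya, d.r_ya', d.r_zz, d.r_zz', d.r_yy, d.r_yy', d.r_aa, d.r_aa', mul_one, one_mul]
    · left; rw [hra', haa]
    · left; rw [hmul, hra', hz]; simp only [mul_assoc, d.r_zy, d.r_zy', d.r_za, d.r_za', d.r_ya, d.r_ya', d.r_zz, d.r_zz', d.r_yy, d.r_yy', d.r_aa, d.r_aa', mul_one, one_mul]
    · right; rw [hmul, hra', hy]; simp only [mul_assoc, d.r_zy, d.r_zy', d.r_za, d.r_za', d.r_ya, d.r_ya', d.r_zz, d.r_zz', d.r_yy, d.r_yy', d.r_aa, d.r_aa', mul_one, one_mul]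
    · right; rw [hmul, hmul, hra', hy, hz]; simp only [mul_assoc, d.r_zy, d.r_zy', d.r_za, d.r_za', d.r_ya, d.r_ya', d.r_zz, d.r_zz', d.r_yy, d.r_yy', d.r_aa, d.r_aa', mul_one, one_mul]
  -- involutions
  have h2 : ∀ x ∈ Subgroup.normalizer (A : Set S) ⊓ cS a, x * x = 1 → x ∈ A := by
    intro x hx hxx
    rcases h1 x hx with h | h
    · exact h
    · exfalso
      have hxr : x = r * (r⁻¹ * x) := by group
      obtain ⟨u, hu⟩ : ∃ u, u = r⁻¹ * x := ⟨_, rfl⟩
      rw [← hu] at h hxr
      rw [hxr] at hxx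
      have hv : r * u * r⁻¹ ∈ A := (Subgroup.mem_normalizer_iff.1 hr u).1 h
      have e : r * u * (r * u) = (r * u * r⁻¹) * (r ^ 2 * u) := by
        simp only [pow_two]; group
      rw [e, hr2, ← mul_assoc, d.cm _ hv a d.aA, mul_assoc] at hxx
      rcases hcomm u h with h3 | h3
      · rw [h3, mul_one] at hxx
        exact d.a1 hxx
      · rw [h3] at hxx
        apply d.az
        have h4 : a * z * z = z := by rw [hxx, one_mul]
        rwa [mul_assoc, hzz, mul_one] at h4
  -- the centralizer lies in the normalizer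
  have h3 : Subgroup.normalizer (A : Set S) ⊓ cS a = cS a := by
    by_contra hne
    have hlt : Subgroup.normalizer (A : Set S) ⊓ cS a < cS a := lt_of_le_of_ne inf_le_right hne
    obtain ⟨x, hxQ, hxD, hxn⟩ := exists_normalizing hS hlt
    apply hxD
    refine ⟨Subgroup.mem_normalizer_iff.2 ?_, hxQ⟩
    intro u
    constructor
    · intro hu
      apply h2 _ ((hxn u).1 ⟨hAT hu, hAQ hu⟩)
      have e : x * u * x⁻¹ * (x * u * x⁻¹) = x * (u * u) * x⁻¹ := by group
      rw [e, d.sq u hu]; group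
    · intro hu
      have h4 : u ∈ Subgroup.normalizer (A : Set S) ⊓ cS a := (hxn u).2 ⟨hAT hu, hAQ hu⟩
      apply h2 _ h4
      have h5 := d.sq _ hu
      have e : x * u * x⁻¹ * (x * u * x⁻¹) = x * (u * u) * x⁻¹ := by group
      rw [e] at h5
      have h6 : u * u = x⁻¹ * (x * (u * u) * x⁻¹) * x := by group
      rw [h6, h5]; group
  have hrQ : r ∈ cS a := mem_cent.2 hra
  -- the order of `Q`
  have h4 : A.relIndex (cS a) = 2 := by
    have h5 : A.relIndex (cS a) ≤ 2 := relIndex_le_two_of _ _ r (by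
      intro x hx
      exact h1 x (by rw [h3]; exact hx))
    have h6 : A.relIndex (cS a) ≠ 1 := by
      intro h
      exact hrA (Subgroup.relIndex_eq_one.1 h hrQ)
    have h7 : A.relIndex (cS a) ≠ 0 := rne _ _
    omega
  have hcard : Nat.card (cS a) = 16 := by
    have h5 := card_eq_relIndex_mul hAQ
    rw [h4, hA8] at h5
    exact h5
  have hnot : a ∉ tC a := Cfsg.Agent.Lib.WrInvE.t_not_mem_tC hS d.a1
  refine sqBound_of_inv hS haa d.a1 (Or.inr ⟨hcard, r, hr2⟩) ?_
  have h5 := card_eq_relIndex_mul (S := S) (N := tC a ⊓ cS a) (H := cS a) inf_le_right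
  rw [hcard] at h5
  have h6 : (tC a ⊓ cS a).relIndex (cS a) ≠ 1 := by
    intro h
    exact hnot ((Subgroup.relIndex_eq_one.1 h) (hAQ d.aA)).1
  have h7 : (tC a ⊓ cS a).relIndex (cS a) ≠ 0 := rne _ _
  have h8 : (tC a ⊓ cS a).relIndex (cS a) ≠ 2 := by
    intro h
    have h9 := Subgroup.sq_mem_of_index_two (H := (tC a ⊓ cS a).subgroupOf (cS a)) h ⟨r, hrQ⟩
    rw [Subgroup.mem_subgroupOf] at h9
    have h10 : r ^ 2 ∈ tC a ⊓ cS a := by simpa using h9
    rw [hr2] at h10
    exact hnot h10.1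
  have h9 : (tC a ⊓ cS a).relIndex (cS a) ≠ 3 := by
    intro h
    rw [h] at h5
    omega
  by_contra hlt
  have h10 : 4 * 5 ≤ (tC a ⊓ cS a).relIndex (cS a) * Nat.card ↥(tC a ⊓ cS a) :=
    Nat.mul_le_mul (by omega) (by omega)
  omega

end Fl

end Cfsg.Agent.Lib.E8Sect
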