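import Mathlib
import Cfsg.Agent.Lib.SectRank
import Cfsg.Agent.Lib.SectE16

/-!
# A 2-group with two commuting "inverting" involutive automorphisms is metacyclic

`Data G` is: a finite 2-group `G` with central elements `i₁, i₂` of order 4 and common square `z`,
and commuting involutive automorphisms `σ₁, σ₂`, `σₖ` inverting `iₖ` and fixing the other one, whose
common fixed points are exactly `1, z`. Then `G` has a cyclic normal subgroup with cyclic quotient, so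
sectional 2-rank at most 2.
-/

set_option autoImplicit false

namespace Cfsg.Agent.Lib.QQMeta

open Cfsg Cfsg.Agent.Lib.SectRank Cfsg.Agent.Lib.SectE16

/-- Two commuting involutive automorphisms with few common fixed points. -/
structure Data (G : Type*) [Group G] where
  σ₁ : G →* G
  σ₂ : G →* G
  i₁ : G
  i₂ : G
  z : G
  hz1 : z ≠ 1
  hi₁ : i₁ ^ 2 = z
  hi₂ : i₂ ^ 2 = z
  hz2 : z ^ 2 = 1
  c₁ : ∀ g, g * i₁ = i₁ * g
  c₂ : ∀ g, g * i₂ = i₂ * g
  hne : i₁ * i₂ ≠ 1 ∧ i₁ * i₂ ≠ z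
  s11 : ∀ g, σ₁ (σ₁ g) = g
  s22 : ∀ g, σ₂ (σ₂ g) = g
  s12 : ∀ g, σ₁ (σ₂ g) = σ₂ (σ₁ g)
  a11 : σ₁ i₁ = i₁⁻¹
  a12 : σ₁ i₂ = i₂
  a21 : σ₂ i₁ = i₁
  a22 : σ₂ i₂ = i₂⁻¹
  fix : ∀ g, σ₁ g = g → σ₂ g = g → g = 1 ∨ g = z

variable {G : Type*} [Group G]


/-- Cyclicity from the fibres of squaring: the inductive step. -/
theorem gen_aux (hp : IsPGroup 2 G) (I : G → Prop) (z : G) (hpow : ∀ f, I f → ∀ e : ℤ, I (f ^ e))
    (hfib : ∀ f g, I f → I g → f ^ 2 = g ^ 2 → g = f ∨ g = f * z)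
    (hinv : ∀ t, I t → t ^ 2 = 1 → t = 1 ∨ t = z) (m : ℕ) :
    ∀ g h, I g → I h → orderOf g = 2 ^ m → orderOf h = 2 ^ m → g ∈ Subgroup.zpowers h := by
  induction m with
  | zero =>
    intro g h _ _ hg _
    rw [pow_zero, orderOf_eq_one_iff] at hg
    rw [hg]; exact Subgroup.one_mem _
  | succ m ih =>
    intro g h hIg hIh hg hh
    have h2 : ∀ x : G, orderOf x = 2 ^ (m + 1) → orderOf (x ^ 2) = 2 ^ m := by
      intro x hx
      rw [orderOf_pow_of_dvd (by norm_num) (by rw [hx]; exact dvd_pow_self 2 (by omega)), hx,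
        pow_succ]
      simp
    have hg2 := ih (g ^ 2) (h ^ 2) (by simpa using hpow g hIg 2) (by simpa using hpow h hIh 2)
      (h2 g hg) (h2 h hh)
    obtain ⟨e, he⟩ := Subgroup.mem_zpowers_iff.1 hg2
    have h3 : (h ^ e) ^ 2 = g ^ 2 := by
      rw [← he, ← zpow_natCast, ← zpow_natCast, ← zpow_mul, ← zpow_mul, mul_comm]
    have hz : z ∈ Subgroup.zpowers h := by
      have h4 : (h ^ (2 ^ m)) ^ 2 = 1 := by
        rw [← pow_mul, ← pow_succ, ← hh]; exact pow_orderOf_eq_one h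
      have h5 : h ^ (2 ^ m) ≠ 1 := by
        intro h6
        have := orderOf_dvd_of_pow_eq_one h6
        rw [hh] at this
        have h7 := Nat.le_of_dvd (by positivity) this
        rw [pow_succ] at h7
        have : 0 < 2 ^ m := by positivity
        omega
      have h6 : I (h ^ (2 ^ m)) := by
        have := hpow h hIh ((2 ^ m : ℕ) : ℤ)
        rwa [zpow_natCast] at this
      rcases hinv _ h6 h4 with h7 | h7
      · exact absurd h7 h5
      · rw [← h7]; exact Subgroup.npow_mem_zpowers h _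
    rcases hfib (h ^ e) g (hpow h hIh e) hIg h3 with h4 | h4
    · rw [h4]; exact Subgroup.zpow_mem_zpowers h e
    · rw [h4]; exact Subgroup.mul_mem _ (Subgroup.zpow_mem_zpowers h e) hz

/-- Cyclicity from the fibres of squaring. -/
theorem exists_gen [Finite G] (hp : IsPGroup 2 G) (I : G → Prop) (z : G)
    (hpow : ∀ f, I f → ∀ e : ℤ, I (f ^ e))
    (hfib : ∀ f g, I f → I g → f ^ 2 = g ^ 2 → g = f ∨ g = f * z)
    (hinv : ∀ t, I t → t ^ 2 = 1 → t = 1 ∨ t = z) (h1 : I 1) :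
    ∃ y, I y ∧ ∀ g, I g → g ∈ Subgroup.zpowers y := by
  have : Fact (Nat.Prime 2) := ⟨Nat.prime_two⟩
  have : Nonempty {y // I y} := ⟨⟨1, h1⟩⟩
  obtain ⟨⟨y, hy⟩, hmax⟩ := Finite.exists_max (fun y : {y // I y} => orderOf y.1)
  refine ⟨y, hy, fun g hg => ?_⟩
  obtain ⟨m, hm⟩ := (IsPGroup.iff_orderOf.1 hp) g
  obtain ⟨n, hn⟩ := (IsPGroup.iff_orderOf.1 hp) y
  have hle : m ≤ n := by
    have := hmax ⟨g, hg⟩
    simp only at this
    rw [hm, hn] at this
    exact (Nat.pow_le_pow_iff_right (by norm_num)).1 this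
  have hI : I (y ^ (2 ^ (n - m))) := by
    have := hpow y hy ((2 ^ (n - m) : ℕ) : ℤ)
    rwa [zpow_natCast] at this
  have ho : orderOf (y ^ (2 ^ (n - m))) = 2 ^ m := by
    rw [orderOf_pow_of_dvd (by positivity) (by rw [hn]; exact pow_dvd_pow 2 (by omega)), hn]
    obtain ⟨l, rfl⟩ : ∃ l, n = m + l := ⟨n - m, by omega⟩
    rw [Nat.add_sub_cancel_left, pow_add]
    simp
  have := gen_aux hp I z hpow hfib hinv m g _ hg hI hm ho
  exact (Subgroup.zpowers_le.2 (Subgroup.npow_mem_zpowers y _)) this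


/-- Exponents in zpowers can be taken natural in a finite group. -/
theorem exists_nat_pow [Finite G] {x y : G} (h : x ∈ Subgroup.zpowers y) : ∃ n : ℕ, y ^ n = x := by
  have := (mem_powers_iff_mem_zpowers (x := y) (y := x)).2 h
  exact this

/-- An odd power of a 2-element generates. -/
theorem mem_zpowers_odd_pow {x : G} {k m : ℕ} (hx : orderOf x = 2 ^ k) (hm : Odd m) :
    x ∈ Subgroup.zpowers (x ^ m) := by
  have hc : m.Coprime (orderOf x) := by
    rw [hx]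
    exact Nat.Coprime.pow_right _ (Nat.coprime_two_right.2 hm)
  obtain ⟨u, hu⟩ := exists_pow_eq_self_of_coprime hc
  exact Subgroup.mem_zpowers_iff.2 ⟨u, by rw [zpow_natCast]; exact hu⟩

namespace Data

/-- Exchanging the two indices. -/
def swap (d : Data G) : Data G where
  σ₁ := d.σ₂
  σ₂ := d.σ₁
  i₁ := d.i₂
  i₂ := d.i₁
  z := d.z
  hz1 := d.hz1
  hi₁ := d.hi₂
  hi₂ := d.hi₁
  hz2 := d.hz2
  c₁ := d.c₂
  c₂ := d.c₁
  hne := by
    have h := d.c₁ d.i₂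
    refine ⟨?_, ?_⟩
    · rw [h]; exact d.hne.1
    · rw [h]; exact d.hne.2
  s11 := d.s22
  s22 := d.s11
  s12 := fun g => (d.s12 g).symm
  a11 := d.a22
  a12 := d.a21
  a21 := d.a12
  a22 := d.a11
  fix := fun g h1 h2 => d.fix g h2 h1

variable (d : Data G)

theorem cz (g : G) : g * d.z = d.z * g := by
  rw [← d.hi₁, pow_two, ← mul_assoc, d.c₁, mul_assoc, d.c₁]

theorem zz : d.z * d.z = 1 := by rw [← pow_two]; exact d.hz2

theorem zinv : d.z⁻¹ = d.z := inv_eq_of_mul_eq_one_left d.zz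

theorem s1z : d.σ₁ d.z = d.z := by rw [← d.hi₂, map_pow, d.a12]

theorem s2z : d.σ₂ d.z = d.z := by rw [← d.hi₁, map_pow, d.a21]

/-- `i₁⁻¹ z = i₁`. -/
theorem i1z : d.i₁⁻¹ * d.z = d.i₁ := by
  rw [← d.hi₁, pow_two]; group

theorem i1inv : d.i₁⁻¹ = d.i₁ * d.z := by
  have := d.i1z
  calc d.i₁⁻¹ = d.i₁⁻¹ * d.z * d.z := by rw [mul_assoc, d.zz, mul_one]
    _ = _ := by rw [this]

theorem cinv1 (g : G) : g * d.i₁⁻¹ = d.i₁⁻¹ * g := by
  rw [d.i1inv, ← mul_assoc, d.c₁, mul_assoc, d.cz, mul_assoc]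

theorem cinv2' (g : G) : g * d.i₂⁻¹ = d.i₂⁻¹ * g := d.swap.cinv1 g

theorem i2inv : d.i₂⁻¹ = d.i₂ * d.z := d.swap.i1inv

/-- Squares of an element in `{i₁, i₁⁻¹}`. -/
theorem sq_of_mem1 {g : G} (h : g = d.i₁ ∨ g = d.i₁⁻¹) : g ^ 2 = d.z := by
  rcases h with rfl | rfl
  · exact d.hi₁
  · rw [inv_pow, d.hi₁, d.zinv]

/-- Elements of `{i₁, i₁⁻¹}` are central. -/
theorem central_of_mem1 {g : G} (h : g = d.i₁ ∨ g = d.i₁⁻¹) (x : G) : x * g = g * x := by
  rcases h with rfl | rfl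
  · exact d.c₁ x
  · exact d.cinv1 x

/-- Mod-`Z` fixed points, first kind. -/
theorem fix_mod1 {g : G} (h1 : d.σ₁ g = g * d.z) (h2 : d.σ₂ g = g) : g = d.i₁ ∨ g = d.i₁⁻¹ := by
  have h3 : d.σ₁ (g * d.i₁) = g * d.i₁ := by
    rw [map_mul, h1, d.a11, mul_assoc, ← d.cz, d.i1z]
  have h4 : d.σ₂ (g * d.i₁) = g * d.i₁ := by rw [map_mul, h2, d.a21]
  rcases d.fix _ h3 h4 with h | h
  · right
    exact eq_inv_of_mul_eq_one_left h
  · left
    have : g = d.z * d.i₁⁻¹ := eq_mul_inv_of_mul_eq h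
    rw [this, ← d.cz, d.i1z]

/-- Mod-`Z` fixed points, second kind. -/
theorem fix_mod2 {g : G} (h1 : d.σ₁ g = g) (h2 : d.σ₂ g = g * d.z) : g = d.i₂ ∨ g = d.i₂⁻¹ :=
  d.swap.fix_mod1 h2 h1

/-- Mod-`Z` fixed points, third kind. -/
theorem fix_mod3 {g : G} (h1 : d.σ₁ g = g * d.z) (h2 : d.σ₂ g = g * d.z) : g ^ 2 = 1 := by
  have hi₂' : d.i₂⁻¹ * d.z = d.i₂ := d.swap.i1z
  have h3 : d.σ₁ (g * (d.i₁ * d.i₂)) = g * (d.i₁ * d.i₂) := by
    rw [map_mul, map_mul, h1, d.a11, d.a12, mul_assoc, ← mul_assoc d.z, ← d.cz, d.i1z]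
  have h4 : d.σ₂ (g * (d.i₁ * d.i₂)) = g * (d.i₁ * d.i₂) := by
    rw [map_mul, map_mul, h2, d.a21, d.a22, mul_assoc, ← mul_assoc d.z, ← d.cz, mul_assoc, ← d.cz, hi₂']
  have h5 : (g * (d.i₁ * d.i₂)) ^ 2 = 1 := by
    rcases d.fix _ h3 h4 with h | h
    · rw [h, one_pow]
    · rw [h]; exact d.hz2
  have hc : Commute g (d.i₁ * d.i₂) := by
    show g * (d.i₁ * d.i₂) = d.i₁ * d.i₂ * g
    rw [← mul_assoc, d.c₁, mul_assoc, d.c₂, mul_assoc]
  have hc' : Commute d.i₁ d.i₂ := (d.c₁ d.i₂).symm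
  rw [hc.mul_pow, hc'.mul_pow, d.hi₁, d.hi₂, ← pow_two, d.hz2, mul_one] at h5
  exact h5

theorem fix_of_inv_sq (hp : IsPGroup 2 G) {w f : G} (h1 : d.σ₁ w = w) (h2 : d.σ₂ w = w⁻¹)
    (hf : f * w * f⁻¹ = w⁻¹) : w = 1 ∨ w = d.z := by
  have : Fact (Nat.Prime 2) := ⟨Nat.prime_two⟩
  obtain ⟨k, hk⟩ := (IsPGroup.iff_orderOf.1 hp) w
  by_cases hk1 : k ≤ 1
  · have h3 : w ^ 2 = 1 := by
      have h4 : orderOf w ∣ 2 := by
        rw [hk]
        exact (pow_dvd_pow 2 hk1).trans (by norm_num)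
      exact orderOf_dvd_iff_pow_eq_one.1 h4
    have h4 : w⁻¹ = w := inv_eq_of_mul_eq_one_left (by rw [← pow_two]; exact h3)
    exact d.fix w h1 (by rw [h2, h4])
  · obtain ⟨l, rfl⟩ : ∃ l, k = l + 2 := ⟨k - 2, by omega⟩
    have ho : orderOf (w ^ (2 ^ l)) = 4 := by
      rw [orderOf_pow_of_dvd (by positivity) (by rw [hk]; exact pow_dvd_pow 2 (by omega)), hk,
        pow_add]
      norm_num
    set w' := w ^ (2 ^ l) with hw'
    have h4 : d.σ₁ w' = w' := by rw [hw', map_pow, h1]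
    have h5 : d.σ₂ w' = w'⁻¹ := by rw [hw', map_pow, h2, inv_pow]
    have h6 : f * w' * f⁻¹ = w'⁻¹ := by rw [hw', ← conj_pow, hf, inv_pow]
    have h44 : w' ^ 4 = 1 := by rw [← ho]; exact pow_orderOf_eq_one w'
    have h7 : (w' ^ 2)⁻¹ = w' ^ 2 := by
      apply inv_eq_of_mul_eq_one_left
      rw [← pow_add]; exact h44
    have h8 : w' ^ 2 = 1 ∨ w' ^ 2 = d.z :=
      d.fix _ (by rw [map_pow, h4]) (by rw [map_pow, h5, inv_pow, h7])
    have h9 : w' ^ 2 ≠ 1 := by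
      intro h
      have := orderOf_dvd_of_pow_eq_one h
      rw [ho] at this
      norm_num at this
    have hz : w' ^ 2 = d.z := h8.resolve_left h9
    have h10 : w'⁻¹ = w' * d.z := by
      rw [← hz]
      apply inv_eq_of_mul_eq_one_left
      rw [mul_assoc, ← pow_succ, ← pow_succ']
      exact h44
    have hm := d.fix_mod2 h4 (by rw [h5, h10])
    exfalso
    have hc := d.swap.central_of_mem1 hm f
    have h11 : f * w' * f⁻¹ = w' := by rw [hc]; group
    rw [h11] at h6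
    apply h9
    have h12 : w' * w' = 1 := by
      nth_rewrite 1 [h6]
      group
    rwa [pow_two]


/-- Elements with the property `ε = 1 ∨ ε = z` are central and of exponent two. -/
theorem eps_central {ε : G} (h : ε = 1 ∨ ε = d.z) (g : G) : g * ε = ε * g := by
  rcases h with rfl | rfl
  · simp
  · exact d.cz g

theorem eps_sq {ε : G} (h : ε = 1 ∨ ε = d.z) : ε * ε = 1 := by
  rcases h with rfl | rfl
  · simp
  · exact d.zz

theorem eps_inv {ε : G} (h : ε = 1 ∨ ε = d.z) : ε⁻¹ = ε :=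
  inv_eq_of_mul_eq_one_left (d.eps_sq h)

theorem eps_s1 {ε : G} (h : ε = 1 ∨ ε = d.z) : d.σ₁ ε = ε := by
  rcases h with rfl | rfl
  · simp
  · exact d.s1z

theorem eps_s2 {ε : G} (h : ε = 1 ∨ ε = d.z) : d.σ₂ ε = ε := by
  rcases h with rfl | rfl
  · simp
  · exact d.s2z

/-- If `m ^ 2 = z` then `m⁻¹ = m z`. -/
theorem inv_of_sq {m : G} (h : m ^ 2 = d.z) : m⁻¹ = m * d.z := by
  apply inv_eq_of_mul_eq_one_left
  rw [mul_assoc, ← d.cz m, ← mul_assoc, ← pow_two, h, d.zz]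

/-- Square-root part: an element `m` with the given behaviour is in `{1, z}`. -/
theorem m_aux (hp : IsPGroup 2 G) {f m ε : G} (hε : ε = 1 ∨ ε = d.z)
    (h1 : d.σ₁ m = ε * m) (h2 : d.σ₂ m = m⁻¹) (h3 : f * m * f⁻¹ = ε * m⁻¹)
    (h4 : (f * m) * (f * m) = f * f * ε) : m = 1 ∨ m = d.z := by
  have hs1 : d.σ₁ (m ^ 2) = m ^ 2 := by
    rw [map_pow, h1, pow_two, pow_two]
    calc ε * m * (ε * m) = (ε * m) * ε * m := by group
      _ = ε * (ε * m) * m := by rw [d.eps_central hε (ε * m)]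
      _ = (ε * ε) * (m * m) := by group
      _ = m * m := by rw [d.eps_sq hε, one_mul]
  have hs2 : d.σ₂ (m ^ 2) = (m ^ 2)⁻¹ := by rw [map_pow, h2, inv_pow]
  have hs3 : f * m ^ 2 * f⁻¹ = (m ^ 2)⁻¹ := by
    rw [← conj_pow, h3, pow_two, pow_two, mul_inv_rev]
    calc ε * m⁻¹ * (ε * m⁻¹) = (ε * m⁻¹) * ε * m⁻¹ := by group
      _ = ε * (ε * m⁻¹) * m⁻¹ := by rw [d.eps_central hε (ε * m⁻¹)]
      _ = (ε * ε) * (m⁻¹ * m⁻¹) := by group
      _ = m⁻¹ * m⁻¹ := by rw [d.eps_sq hε, one_mul]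
  have hsq := d.fix_of_inv_sq hp hs1 hs2 hs3
  rcases hε with rfl | rfl
  · rw [one_mul] at h1
    rcases hsq with hsq | hsq
    · have h5 : m⁻¹ = m := inv_eq_of_mul_eq_one_left (by rw [← pow_two]; exact hsq)
      exact d.fix m h1 (by rw [h2, h5])
    · have hm := d.fix_mod2 h1 (by rw [h2, d.inv_of_sq hsq])
      exfalso
      have hc := d.swap.central_of_mem1 hm f
      apply d.hz1
      have h6 : (f * m) * (f * m) = f * f * m ^ 2 := by
        rw [pow_two]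
        calc f * m * (f * m) = f * (m * f) * m := by group
          _ = f * (f * m) * m := by rw [← hc]
          _ = _ := by group
      rw [h6, hsq, mul_one] at h4
      exact mul_left_cancel (a := f * f) (by rw [mul_one]; exact h4)
  · rw [← d.cz] at h1
    rcases hsq with hsq | hsq
    · exfalso
      have h5 : m⁻¹ = m := inv_eq_of_mul_eq_one_left (by rw [← pow_two]; exact hsq)
      have hm := d.fix_mod1 h1 (by rw [h2, h5])
      have := d.sq_of_mem1 hm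
      rw [hsq] at this
      exact d.hz1 this.symm
    · exfalso
      have := d.fix_mod3 h1 (by rw [h2, d.inv_of_sq hsq])
      rw [hsq] at this
      exact d.hz1 this

/-- An element inverted by `σ₁` is fixed by `σ₂` modulo `z`. -/
theorem inv_mod2 (hp : IsPGroup 2 G) (k : ℕ) : ∀ f : G, f ^ (2 ^ k) = 1 → d.σ₁ f = f⁻¹ →
    d.σ₂ f = f ∨ d.σ₂ f = f * d.z := by
  induction k with
  | zero =>
    intro f hf _
    rw [pow_zero, pow_one] at hf
    left
    rw [hf, map_one]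
  | succ k ih =>
    intro f hf h1
    have h2 := ih (f ^ 2) (by rw [← pow_mul, ← pow_succ']; exact hf)
      (by rw [map_pow, h1, inv_pow])
    obtain ⟨ε, hε, h3⟩ : ∃ ε : G, (ε = 1 ∨ ε = d.z) ∧ d.σ₂ (f ^ 2) = f ^ 2 * ε := by
      rcases h2 with h | h
      · exact ⟨1, Or.inl rfl, by rw [h, mul_one]⟩
      · exact ⟨d.z, Or.inr rfl, h⟩
    rw [map_pow, pow_two, pow_two] at h3
    obtain ⟨f', hf'⟩ : ∃ f', f' = d.σ₂ f := ⟨_, rfl⟩
    rw [← hf'] at h3 ⊢
    have hs1f' : d.σ₁ f' = f'⁻¹ := by rw [hf', d.s12, h1, map_inv]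
    have hs2f' : d.σ₂ f' = f := by rw [hf']; exact d.s22 f
    have hm1 : d.σ₁ (f⁻¹ * f') = ε * (f⁻¹ * f') := by
      rw [map_mul, map_inv, h1, hs1f', inv_inv]
      have h5 : f'⁻¹ = (f * f * ε)⁻¹ * f' := by rw [← h3]; group
      rw [h5, mul_inv_rev, d.eps_inv hε]
      calc f * (ε * (f * f)⁻¹ * f') = (f * ε) * (f⁻¹ * f⁻¹ * f') := by group
        _ = ε * f * (f⁻¹ * f⁻¹ * f') := by rw [d.eps_central hε f]
        _ = _ := by group
    have hm2 : d.σ₂ (f⁻¹ * f') = (f⁻¹ * f')⁻¹ := by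
      rw [map_mul, map_inv, hs2f', ← hf']; group
    have hm3 : f * (f⁻¹ * f') * f⁻¹ = ε * (f⁻¹ * f')⁻¹ := by
      have h5 : (f * f'⁻¹)⁻¹ = (ε * (f⁻¹ * f'))⁻¹ := by
        rw [← hm1, map_mul, map_inv, h1, hs1f', inv_inv]
      calc f * (f⁻¹ * f') * f⁻¹ = (f * f'⁻¹)⁻¹ := by group
        _ = (ε * (f⁻¹ * f'))⁻¹ := h5
        _ = (f⁻¹ * f')⁻¹ * ε⁻¹ := by rw [mul_inv_rev]
        _ = (f⁻¹ * f')⁻¹ * ε := by rw [d.eps_inv hε]
        _ = _ := d.eps_central hε _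
    have hm4 : (f * (f⁻¹ * f')) * (f * (f⁻¹ * f')) = f * f * ε := by
      rw [mul_inv_cancel_left]; exact h3
    rcases d.m_aux hp hε hm1 hm2 hm3 hm4 with h | h
    · left
      rw [← mul_inv_cancel_left f f', h, mul_one]
    · right
      rw [← h]; group

/-- The last step of `mod2_inv`. -/
theorem mod2_aux {g h t : G} (hT : t = g * h) (h1 : d.σ₁ g = h) (h2 : d.σ₁ h = g)
    (hs : d.σ₁ t = t⁻¹) (hc : ∀ x, x * t = t * x) (hsq : t ^ 2 = d.z) : False := by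
  have h6 : h = g⁻¹ * t := by rw [hT]; group
  have h8 : g = h⁻¹ * t⁻¹ := by
    have h9 := congrArg d.σ₁ h6
    rwa [h2, map_mul, map_inv, h1, hs] at h9
  have h10 : t⁻¹ * g = g * t⁻¹ := by
    have := hc g
    calc t⁻¹ * g = t⁻¹ * (g * t) * t⁻¹ := by group
      _ = t⁻¹ * (t * g) * t⁻¹ := by rw [this]
      _ = _ := by group
  have h11 : g = g * d.z := by
    calc g = (g⁻¹ * t)⁻¹ * t⁻¹ := by rw [← h6]; exact h8
      _ = t⁻¹ * g * t⁻¹ := by group
      _ = g * t⁻¹ * t⁻¹ := by rw [h10]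
      _ = g * (t ^ 2)⁻¹ := by rw [pow_two]; group
      _ = g * d.z := by rw [hsq, d.zinv]
  apply d.hz1
  exact mul_left_cancel (a := g) (by rw [mul_one]; exact h11.symm)

/-- An element fixed by `σ₂` modulo `z` is inverted by `σ₁` modulo `z`. -/
theorem mod2_inv (hp : IsPGroup 2 G) (k : ℕ) : ∀ g : G, g ^ (2 ^ k) = 1 →
    (d.σ₂ g = g ∨ d.σ₂ g = g * d.z) → (d.σ₁ g = g⁻¹ ∨ d.σ₁ g = g⁻¹ * d.z) := by
  induction k with
  | zero =>
    intro g hg _
    rw [pow_zero, pow_one] at hg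
    left
    rw [hg, map_one, inv_one]
  | succ k ih =>
    intro g hg hmod
    obtain ⟨ε, hε, hs⟩ : ∃ ε : G, (ε = 1 ∨ ε = d.z) ∧ d.σ₂ g = g * ε := by
      rcases hmod with h | h
      · exact ⟨1, Or.inl rfl, by rw [h, mul_one]⟩
      · exact ⟨d.z, Or.inr rfl, h⟩
    have hs2 : d.σ₂ (g ^ 2) = g ^ 2 := by
      rw [map_pow, hs, pow_two, pow_two]
      calc g * ε * (g * ε) = g * (ε * g) * ε := by group
        _ = g * (g * ε) * ε := by rw [← d.eps_central hε g]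
        _ = g * g * (ε * ε) := by group
        _ = _ := by rw [d.eps_sq hε, mul_one]
    have h2 := ih (g ^ 2) (by rw [← pow_mul, ← pow_succ']; exact hg) (Or.inl hs2)
    obtain ⟨ζ, hζ, h3⟩ : ∃ ζ : G, (ζ = 1 ∨ ζ = d.z) ∧ d.σ₁ (g ^ 2) = (g ^ 2)⁻¹ * ζ := by
      rcases h2 with h | h
      · exact ⟨1, Or.inl rfl, by rw [h, mul_one]⟩
      · exact ⟨d.z, Or.inr rfl, h⟩
    rw [map_pow, pow_two, pow_two] at h3
    obtain ⟨h, hh⟩ : ∃ h, h = d.σ₁ g := ⟨_, rfl⟩
    rw [← hh] at h3 ⊢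
    have hsh : d.σ₁ h = g := by rw [hh]; exact d.s11 g
    have hsh2 : d.σ₂ h = h * ε := by
      rw [hh, ← d.s12, hs, map_mul, d.eps_s1 hε]
    -- t = g * h
    have ht1 : d.σ₁ (g * h) = (g * h)⁻¹ * ζ := by
      rw [map_mul, hsh, ← hh]
      calc h * g = h⁻¹ * (h * h) * g := by group
        _ = h⁻¹ * ((g * g)⁻¹ * ζ) * g := by rw [h3]
        _ = h⁻¹ * (g * g)⁻¹ * (ζ * g) := by group
        _ = h⁻¹ * (g * g)⁻¹ * (g * ζ) := by rw [d.eps_central hζ g]
        _ = _ := by group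
    have ht2 : d.σ₂ (g * h) = g * h := by
      rw [map_mul, hs, hsh2]
      calc g * ε * (h * ε) = g * (ε * h) * ε := by group
        _ = g * (h * ε) * ε := by rw [← d.eps_central hε h]
        _ = g * h * (ε * ε) := by group
        _ = _ := by rw [d.eps_sq hε, mul_one]
    have ht3 : g⁻¹ * (g * h) * g⁻¹⁻¹ = (g * h)⁻¹ * ζ := by
      rw [← ht1, map_mul, hsh, ← hh]; group
    -- w = t ^ 2
    have hsq1 : d.σ₁ ((g * h) ^ 2) = ((g * h) ^ 2)⁻¹ := by
      rw [map_pow, ht1, pow_two, pow_two]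
      calc (g * h)⁻¹ * ζ * ((g * h)⁻¹ * ζ) = ((g * h)⁻¹ * ζ) * (g * h)⁻¹ * ζ := by group
        _ = (ζ * (g * h)⁻¹) * (g * h)⁻¹ * ζ := by rw [d.eps_central hζ (g * h)⁻¹]
        _ = (ζ * ((g * h)⁻¹ * (g * h)⁻¹)) * ζ := by group
        _ = ζ * (ζ * ((g * h)⁻¹ * (g * h)⁻¹)) := by
            rw [d.eps_central hζ (ζ * ((g * h)⁻¹ * (g * h)⁻¹))]
        _ = (ζ * ζ) * ((g * h)⁻¹ * (g * h)⁻¹) := by group
        _ = _ := by rw [d.eps_sq hζ, one_mul]; group
    have hsq2 : d.σ₂ ((g * h) ^ 2) = (g * h) ^ 2 := by rw [map_pow, ht2]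
    have hsq3 : g⁻¹ * (g * h) ^ 2 * g⁻¹⁻¹ = ((g * h) ^ 2)⁻¹ := by
      rw [← conj_pow, ht3, ← hsq1, map_pow, ht1]
    have hsq := d.swap.fix_of_inv_sq hp (w := (g * h) ^ 2) (f := g⁻¹) hsq2 hsq1 hsq3
    change (g * h) ^ 2 = 1 ∨ (g * h) ^ 2 = d.z at hsq
    have hfin : g * h = 1 ∨ g * h = d.z := by
      rcases hζ with rfl | rfl
      · rw [mul_one] at ht1
        rcases hsq with hsq | hsq
        · have h5 : (g * h)⁻¹ = g * h :=
            inv_eq_of_mul_eq_one_left (by rw [← pow_two]; exact hsq)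
          exact d.fix _ (by rw [ht1, h5]) ht2
        · exfalso
          have h5 := d.inv_of_sq hsq
          have hm := d.fix_mod1 (by rw [ht1, h5]) ht2
          exact d.mod2_aux rfl hh.symm hsh ht1 (d.central_of_mem1 hm) hsq
      · rcases hsq with hsq | hsq
        · exfalso
          have h5 : (g * h)⁻¹ = g * h :=
            inv_eq_of_mul_eq_one_left (by rw [← pow_two]; exact hsq)
          have hm := d.fix_mod1 (by rw [ht1, h5]) ht2
          have := d.sq_of_mem1 hm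
          rw [hsq] at this
          exact d.hz1 this.symm
        · exfalso
          have h5 := d.inv_of_sq hsq
          have h6 : d.σ₁ (g * h) = g * h := by
            rw [ht1, h5, mul_assoc, d.zz, mul_one]
          rcases d.fix _ h6 ht2 with h7 | h7
          · rw [h7, one_pow] at hsq
            exact d.hz1 hsq.symm
          · rw [h7, d.hz2] at hsq
            exact d.hz1 hsq.symm
    rcases hfin with h5 | h5
    · left
      exact eq_inv_of_mul_eq_one_right h5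
    · right
      have : g⁻¹ * d.z = g⁻¹ * (g * h) := by rw [h5]
      rw [this]; group


/-- Every element has 2-power order. -/
theorem exists_exp (hp : IsPGroup 2 G) (f : G) : ∃ k, f ^ (2 ^ k) = 1 := by
  have : Fact (Nat.Prime 2) := ⟨Nat.prime_two⟩
  obtain ⟨k, hk⟩ := (IsPGroup.iff_orderOf.1 hp) f
  exact ⟨k, by rw [← hk]; exact pow_orderOf_eq_one f⟩

theorem inv1_mod2 (hp : IsPGroup 2 G) {f : G} (h : d.σ₁ f = f⁻¹) :
    d.σ₂ f = f ∨ d.σ₂ f = f * d.z := by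
  obtain ⟨k, hk⟩ := exists_exp hp f
  exact d.inv_mod2 hp k f hk h

theorem mod2_inv1 (hp : IsPGroup 2 G) {f : G} (h : d.σ₂ f = f ∨ d.σ₂ f = f * d.z) :
    d.σ₁ f = f⁻¹ ∨ d.σ₁ f = f⁻¹ * d.z := by
  obtain ⟨k, hk⟩ := exists_exp hp f
  exact d.mod2_inv hp k f hk h

variable [Finite G]

/-- The elements inverted by `σ₁` form a cyclic subgroup. -/
theorem exists_y1 (hp : IsPGroup 2 G) :
    ∃ y, d.σ₁ y = y⁻¹ ∧ ∀ g, d.σ₁ g = g⁻¹ → g ∈ Subgroup.zpowers y := by
  refine exists_gen hp (fun f => d.σ₁ f = f⁻¹) d.z ?_ ?_ ?_ (by simp)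
  · intro f hf e
    show d.σ₁ (f ^ e) = (f ^ e)⁻¹
    rw [map_zpow, hf, inv_zpow]
  · intro f g hf hg hfg
    have hf' : d.σ₁ f = f⁻¹ := hf
    have hg' : d.σ₁ g = g⁻¹ := hg
    rw [pow_two, pow_two] at hfg
    have hc1 : d.σ₁ (f⁻¹ * g) = f⁻¹ * g := by
      rw [map_mul, map_inv, hf', hg', inv_inv]
      calc f * g⁻¹ = f⁻¹ * (f * f) * g⁻¹ := by group
        _ = f⁻¹ * (g * g) * g⁻¹ := by rw [hfg]
        _ = _ := by group
    obtain ⟨εf, hεf, hsf⟩ : ∃ ε : G, (ε = 1 ∨ ε = d.z) ∧ d.σ₂ f = f * ε := by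
      rcases d.inv1_mod2 hp hf' with h | h
      · exact ⟨1, Or.inl rfl, by rw [h, mul_one]⟩
      · exact ⟨d.z, Or.inr rfl, h⟩
    obtain ⟨εg, hεg, hsg⟩ : ∃ ε : G, (ε = 1 ∨ ε = d.z) ∧ d.σ₂ g = g * ε := by
      rcases d.inv1_mod2 hp hg' with h | h
      · exact ⟨1, Or.inl rfl, by rw [h, mul_one]⟩
      · exact ⟨d.z, Or.inr rfl, h⟩
    have hc2 : d.σ₂ (f⁻¹ * g) = f⁻¹ * g * (εf * εg) := by
      rw [map_mul, map_inv, hsf, hsg, mul_inv_rev, d.eps_inv hεf]
      calc εf * f⁻¹ * (g * εg) = εf * (f⁻¹ * g) * εg := by group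
        _ = (f⁻¹ * g) * εf * εg := by rw [← d.eps_central hεf (f⁻¹ * g)]
        _ = _ := by group
    have hgf : g = f * (f⁻¹ * g) := by group
    by_cases he : εf * εg = 1
    · rw [he, mul_one] at hc2
      rcases d.fix _ hc1 hc2 with h | h
      · left
        rw [hgf, h, mul_one]
      · right
        rw [← h]; group
    · exfalso
      have he' : εf * εg = d.z := by
        rcases hεf with rfl | rfl <;> rcases hεg with rfl | rfl
        · simp at he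
        · simp
        · simp
        · exact absurd d.zz he
      rw [he'] at hc2
      have hm := d.fix_mod2 hc1 hc2
      have hsq := d.swap.sq_of_mem1 hm
      change (f⁻¹ * g) ^ 2 = d.z at hsq
      have hc := d.swap.central_of_mem1 hm f
      change f * (f⁻¹ * g) = (f⁻¹ * g) * f at hc
      apply d.hz1
      rw [pow_two] at hsq
      have h5 : g * g = f * f * d.z := by
        calc g * g = f * (f⁻¹ * g) * (f * (f⁻¹ * g)) := by group
          _ = f * ((f⁻¹ * g) * f) * (f⁻¹ * g) := by group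
          _ = f * (f * (f⁻¹ * g)) * (f⁻¹ * g) := by rw [← hc]
          _ = f * f * ((f⁻¹ * g) * (f⁻¹ * g)) := by group
          _ = _ := by rw [hsq]
      rw [← hfg] at h5
      exact mul_left_cancel (a := f * f) (by rw [mul_one]; exact h5.symm)
  · intro t ht hsq
    have ht' : d.σ₁ t = t⁻¹ := ht
    have h5 : t⁻¹ = t := inv_eq_of_mul_eq_one_left (by rw [← pow_two]; exact hsq)
    rcases d.inv1_mod2 hp ht' with h | h
    · exact d.fix t (by rw [ht', h5]) h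
    · exfalso
      have hm := d.fix_mod2 (by rw [ht', h5]) h
      have := d.swap.sq_of_mem1 hm
      change t ^ 2 = d.z at this
      rw [hsq] at this
      exact d.hz1 this.symm


omit [Finite G] in
/-- The subgroup of elements inverted by `σ₁`, normality. -/
theorem normal_y1 {y₁ : G} (hy₁ : d.σ₁ y₁ = y₁⁻¹) (hy₁' : ∀ g, d.σ₁ g = g⁻¹ → g ∈ Subgroup.zpowers y₁) :
    (Subgroup.zpowers y₁).Normal := by
  have hmem : ∀ f ∈ Subgroup.zpowers y₁, d.σ₁ f = f⁻¹ := by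
    intro f hf
    obtain ⟨e, rfl⟩ := Subgroup.mem_zpowers_iff.1 hf
    rw [map_zpow, hy₁, inv_zpow]
  constructor
  intro f hf g
  apply hy₁'
  have hv : g⁻¹ * d.σ₁ g ∈ Subgroup.zpowers y₁ := by
    apply hy₁'
    rw [map_mul, map_inv, d.s11]; group
  obtain ⟨a, ha⟩ := Subgroup.mem_zpowers_iff.1 hf
  obtain ⟨b, hb⟩ := Subgroup.mem_zpowers_iff.1 hv
  have hc : (g⁻¹ * d.σ₁ g) * f = f * (g⁻¹ * d.σ₁ g) := by
    rw [← ha, ← hb, ← zpow_add, ← zpow_add, add_comm]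
  have h1 : d.σ₁ g = g * (g⁻¹ * d.σ₁ g) := by group
  rw [map_mul, map_mul, map_inv, hmem f hf, h1]
  generalize g⁻¹ * d.σ₁ g = v at hc
  have hc' : v * f⁻¹ = f⁻¹ * v := by
    calc v * f⁻¹ = f⁻¹ * (f * v) * f⁻¹ := by group
      _ = f⁻¹ * (v * f) * f⁻¹ := by rw [hc]
      _ = _ := by group
  calc g * v * f⁻¹ * (g * v)⁻¹ = g * (v * f⁻¹) * v⁻¹ * g⁻¹ := by group
    _ = g * (f⁻¹ * v) * v⁻¹ * g⁻¹ := by rw [hc']
    _ = _ := by group

/-- The set `I₁ I₂`. -/
def Rr (x : G) : Prop := ∃ f₁ f₂ : G, d.σ₁ f₁ = f₁⁻¹ ∧ d.σ₂ f₂ = f₂⁻¹ ∧ x = f₁ * f₂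

omit [Finite G] in
theorem rr_of_sq (hp : IsPGroup 2 G) {g v : G} (hv : d.σ₂ v = v⁻¹) (h : g⁻¹ * d.σ₂ g = v * v) :
    d.Rr g := by
  have hsg : d.σ₂ g = g * (v * v) := by rw [← h]; group
  have hw : d.σ₂ (g * v) = g * v := by
    rw [map_mul, hsg, hv]; group
  rcases d.mod2_inv1 hp (Or.inl hw) with h1 | h1
  · exact ⟨g * v, v⁻¹, h1, by rw [map_inv, hv], by group⟩
  · refine ⟨g * v * d.i₂, d.i₂⁻¹ * v⁻¹, ?_, ?_, ?_⟩
    · rw [map_mul, h1, d.a12, mul_inv_rev (g * v) d.i₂, ← d.cinv2' (g * v)⁻¹, d.i2inv, mul_assoc,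
        d.cz d.i₂]
    · rw [map_mul, map_inv, map_inv, hv, d.a22, inv_inv, inv_inv, mul_inv_rev, inv_inv, inv_inv]
      exact (d.c₂ v).symm
    · group

omit [Finite G] in
theorem rr_inv {y₁ : G} (hy₁ : d.σ₁ y₁ = y₁⁻¹)
    (hy₁' : ∀ g, d.σ₁ g = g⁻¹ → g ∈ Subgroup.zpowers y₁) {x : G} (h : d.Rr x) : d.Rr x⁻¹ := by
  obtain ⟨f₁, f₂, h1, h2, rfl⟩ := h
  have hn := d.normal_y1 hy₁ hy₁'
  have hf : f₁⁻¹ ∈ Subgroup.zpowers y₁ := Subgroup.inv_mem _ (hy₁' _ h1)
  have h3 := hn.conj_mem _ hf f₂⁻¹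
  obtain ⟨e, he⟩ := Subgroup.mem_zpowers_iff.1 h3
  refine ⟨f₂⁻¹ * f₁⁻¹ * f₂⁻¹⁻¹, f₂⁻¹, ?_, by rw [map_inv, h2], by group⟩
  rw [← he, map_zpow, hy₁, inv_zpow]

omit [Finite G] in
theorem rr_two {y₂ : G} (hp : IsPGroup 2 G) (hy₂ : d.σ₂ y₂ = y₂⁻¹)
    (hy₂' : ∀ g, d.σ₂ g = g⁻¹ → g ∈ Subgroup.zpowers y₂) {g h : G} (hg : ¬ d.Rr g)
    (hh : ¬ d.Rr h) : d.Rr (g * h⁻¹) := by
  have hmem : ∀ f ∈ Subgroup.zpowers y₂, d.σ₂ f = f⁻¹ := by
    intro f hf
    obtain ⟨e, rfl⟩ := Subgroup.mem_zpowers_iff.1 hf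
    rw [map_zpow, hy₂, inv_zpow]
  have hθ : ∀ x : G, ∃ e : ℤ, x⁻¹ * d.σ₂ x = y₂ ^ e := by
    intro x
    have : x⁻¹ * d.σ₂ x ∈ Subgroup.zpowers y₂ := by
      apply hy₂'
      rw [map_mul, map_inv, d.s22]; group
    obtain ⟨e, he⟩ := Subgroup.mem_zpowers_iff.1 this
    exact ⟨e, he.symm⟩
  have hodd : ∀ x : G, ¬ d.Rr x → ∀ e : ℤ, x⁻¹ * d.σ₂ x = y₂ ^ e → Odd e := by
    intro x hx e he
    by_contra hne
    rw [Int.not_odd_iff_even] at hne
    obtain ⟨c, rfl⟩ := hne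
    apply hx
    refine d.rr_of_sq hp (v := y₂ ^ c) (hmem _ (Subgroup.zpow_mem_zpowers _ _)) ?_
    rw [he, zpow_add]
  obtain ⟨a, ha⟩ := hθ g
  obtain ⟨b, hb⟩ := hθ h
  have hoa := hodd g hg a ha
  have hob := hodd h hh b hb
  obtain ⟨c, hc⟩ : Even (a - b) := hoa.sub_odd hob
  have hn := d.swap.normal_y1 hy₂ hy₂'
  have hv := hn.conj_mem _ (Subgroup.zpow_mem_zpowers y₂ c) h
  refine d.rr_of_sq hp (v := h * y₂ ^ c * h⁻¹) (hmem _ hv) ?_
  have hsg : d.σ₂ g = g * y₂ ^ a := by rw [← ha]; group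
  have hsh : d.σ₂ h = h * y₂ ^ b := by rw [← hb]; group
  rw [map_mul, map_inv, hsg, hsh]
  have h1 : y₂ ^ a = y₂ ^ c * y₂ ^ c * y₂ ^ b := by
    rw [← zpow_add, ← zpow_add, ← hc]; congr 1; ring
  rw [h1]; group

/-- The main dichotomy. -/
theorem exists_meta (d : Data G) (hp : IsPGroup 2 G) :
    ∃ (y : G) (_ : (Subgroup.zpowers y).Normal), IsCyclic (G ⧸ Subgroup.zpowers y) := by
  have : Fact (Nat.Prime 2) := ⟨Nat.prime_two⟩
  obtain ⟨y₁, hy₁, hy₁'⟩ := d.exists_y1 hp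
  obtain ⟨y₂, hy₂, hy₂'⟩ := d.swap.exists_y1 hp
  change d.σ₂ y₂ = y₂⁻¹ at hy₂
  change ∀ g, d.σ₂ g = g⁻¹ → g ∈ Subgroup.zpowers y₂ at hy₂'
  have hmem₁ : ∀ f ∈ Subgroup.zpowers y₁, d.σ₁ f = f⁻¹ := by
    intro f hf
    obtain ⟨e, rfl⟩ := Subgroup.mem_zpowers_iff.1 hf
    rw [map_zpow, hy₁, inv_zpow]
  have hmem₂ : ∀ f ∈ Subgroup.zpowers y₂, d.σ₂ f = f⁻¹ := by
    intro f hf
    obtain ⟨e, rfl⟩ := Subgroup.mem_zpowers_iff.1 hf
    rw [map_zpow, hy₂, inv_zpow]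
  have hn₁ : (Subgroup.zpowers y₁).Normal := d.normal_y1 hy₁ hy₁'
  have hn₂ : (Subgroup.zpowers y₂).Normal := d.swap.normal_y1 hy₂ hy₂'
  by_cases hall : ∀ x, d.Rr x
  · -- `G = I₁ I₂`
    refine ⟨y₁, hn₁, ⟨⟨QuotientGroup.mk y₂, ?_⟩⟩⟩
    intro q
    obtain ⟨x, rfl⟩ := QuotientGroup.mk_surjective q
    obtain ⟨f₁, f₂, h1, h2, rfl⟩ := hall x
    obtain ⟨e, he⟩ := Subgroup.mem_zpowers_iff.1 (hy₂' _ h2)
    refine Subgroup.mem_zpowers_iff.2 ⟨e, ?_⟩
    rw [← QuotientGroup.mk_zpow, he, QuotientGroup.mk_mul,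
      (QuotientGroup.eq_one_iff f₁).2 (hy₁' _ h1), one_mul]
  · push Not at hall
    obtain ⟨g, hg⟩ := hall
    have hginv : ¬ d.Rr g⁻¹ := fun h => hg (by simpa using d.rr_inv hy₁ hy₁' h)
    have hgg : d.Rr (g * g) := by
      have := d.rr_two hp hy₂ hy₂' hg hginv
      rwa [inv_inv] at this
    have hcover : ∀ x, d.Rr x ∨ d.Rr (x * g⁻¹) := by
      intro x
      by_cases hx : d.Rr x
      · exact Or.inl hx
      · exact Or.inr (d.rr_two hp hy₂ hy₂' hx hg)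
    obtain ⟨f₁, f₂, hf₁, hf₂, hgf⟩ := hgg
    -- the element `s = [g, σ₂]`
    obtain ⟨s, hs⟩ : ∃ s, s = g⁻¹ * d.σ₂ g := ⟨_, rfl⟩
    have hsg : d.σ₂ g = g * s := by rw [hs]; group
    have hss : d.σ₂ s = s⁻¹ := by rw [hs, map_mul, map_inv, d.s22]; group
    have hsmem : s ∈ Subgroup.zpowers y₂ := hy₂' _ hss
    obtain ⟨b, hb⟩ := exists_nat_pow hsmem
    have hbodd : Odd b := by
      by_contra hne
      rw [Nat.not_odd_iff_even] at hne
      obtain ⟨c, rfl⟩ := hne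
      apply hg
      refine d.rr_of_sq hp (v := y₂ ^ c) (hmem₂ _ (Subgroup.npow_mem_zpowers _ _)) ?_
      rw [← hs, ← hb, pow_add]
    obtain ⟨k₂, hk₂⟩ := (IsPGroup.iff_orderOf.1 hp) y₂
    have hy₂s : y₂ ∈ Subgroup.zpowers s := by
      rw [← hb]; exact mem_zpowers_odd_pow hk₂ hbodd
    have hI₂ : ∀ f, d.σ₂ f = f⁻¹ → f ∈ Subgroup.zpowers s := fun f hf =>
      (Subgroup.zpowers_le.2 hy₂s) (hy₂' f hf)
    have hmems : ∀ f ∈ Subgroup.zpowers s, d.σ₂ f = f⁻¹ := fun f hf =>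
      hmem₂ f ((Subgroup.zpowers_le.2 hsmem) hf)
    obtain ⟨n, hn⟩ := (IsPGroup.iff_orderOf.1 hp) s
    -- `i₂` as a power of `s`
    obtain ⟨a, ha⟩ := exists_nat_pow (hI₂ _ d.a22)
    -- `g` acts on `⟨s⟩` as a power map
    obtain ⟨r, hr⟩ : ∃ r : ℕ, s ^ r = g⁻¹ * s * g := by
      have h1 : g⁻¹ * s * g ∈ Subgroup.zpowers s := by
        have h2 := hn₂.conj_mem _ hsmem g⁻¹
        rw [inv_inv] at h2
        exact (Subgroup.zpowers_le.2 hy₂s) h2
      exact exists_nat_pow h1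
    have hri : d.i₂ ^ r = d.i₂ := by
      calc d.i₂ ^ r = (s ^ r) ^ a := by rw [← ha, ← pow_mul, ← pow_mul, mul_comm]
        _ = g⁻¹ * s ^ a * g := by
            rw [hr]
            have := conj_pow (a := g⁻¹) (b := s) (i := a)
            rw [inv_inv] at this
            exact this
        _ = d.i₂ := by rw [ha, mul_assoc, ← d.c₂ g]; group
    have hord4 : orderOf d.i₂ = 4 := by
      have h1 := orderOf_eq_prime_pow (p := 2) (n := 1) (x := d.i₂) (by
        rw [pow_one, d.hi₂]; exact d.hz1) (by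
        rw [show 2 ^ (1 + 1) = 2 * 2 by norm_num, pow_mul, d.hi₂, d.hz2])
      simpa using h1
    have hr1 : r ≡ 1 [MOD 4] := by
      have := (pow_eq_pow_iff_modEq (x := d.i₂) (n := r) (m := 1)).1 (by rw [hri, pow_one])
      rwa [hord4] at this
    -- `f₂` as a power of `s`
    obtain ⟨e, he⟩ := exists_nat_pow (hI₂ _ hf₂)
    obtain ⟨ε, hε, hsf₁⟩ : ∃ ε : G, (ε = 1 ∨ ε = d.z) ∧ d.σ₂ f₁ = f₁ * ε := by
      rcases d.inv1_mod2 hp hf₁ with h | h
      · exact ⟨1, Or.inl rfl, by rw [h, mul_one]⟩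
      · exact ⟨d.z, Or.inr rfl, h⟩
    have hkey : s ^ (r + 1 + 2 * e) = ε := by
      have h1 : d.σ₂ (g * g) = d.σ₂ (f₁ * f₂) := by rw [hgf]
      rw [map_mul, map_mul, hsg, hsf₁, hf₂] at h1
      have h2 : g⁻¹ * s * g * s * f₂ * f₂ = ε := by
        have h3 : g * g * (g⁻¹ * s * g * s) = g * s * (g * s) := by group
        have h4 : g * s * (g * s) = f₁ * f₂ * (f₂⁻¹ * ε * f₂⁻¹) := by
          rw [h1]; group
        have h5 : g⁻¹ * s * g * s = f₂⁻¹ * ε * f₂⁻¹ := by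
          apply mul_left_cancel (a := g * g)
          rw [h3, h4, hgf]
        rw [h5]
        calc f₂⁻¹ * ε * f₂⁻¹ * f₂ * f₂ = f₂⁻¹ * ε * f₂ := by group
          _ = f₂⁻¹ * (f₂ * ε) := by rw [mul_assoc, d.eps_central hε f₂]
          _ = _ := by group
      rw [← h2, ← hr, ← he]
      rw [pow_add, pow_add, pow_one, two_mul, pow_add]
      group
    by_cases heo : Odd e
    · -- `G / I₁` is generated by the image of `g`
      refine ⟨y₁, hn₁, ⟨⟨QuotientGroup.mk g, ?_⟩⟩⟩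
      have hπ1 : ∀ f, d.σ₁ f = f⁻¹ → (QuotientGroup.mk f : G ⧸ Subgroup.zpowers y₁) = 1 :=
        fun f hf => (QuotientGroup.eq_one_iff f).2 (hy₁' f hf)
      have h1 : (QuotientGroup.mk (s ^ e) : G ⧸ Subgroup.zpowers y₁) = QuotientGroup.mk g ^ 2 := by
        rw [pow_two, ← QuotientGroup.mk_mul, hgf, QuotientGroup.mk_mul, hπ1 _ hf₁, one_mul, he]
      have h2 : (QuotientGroup.mk s : G ⧸ Subgroup.zpowers y₁) ∈
          Subgroup.zpowers (QuotientGroup.mk g : G ⧸ Subgroup.zpowers y₁) := by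
        obtain ⟨u, hu⟩ := Subgroup.mem_zpowers_iff.1 (mem_zpowers_odd_pow hn heo)
        rw [← hu, QuotientGroup.mk_zpow, h1]
        exact Subgroup.zpow_mem _ (Subgroup.npow_mem_zpowers _ _) _
      have h3 : ∀ x, d.Rr x → (QuotientGroup.mk x : G ⧸ Subgroup.zpowers y₁) ∈
          Subgroup.zpowers (QuotientGroup.mk g : G ⧸ Subgroup.zpowers y₁) := by
        rintro x ⟨f₁', f₂', h4, h5, rfl⟩
        obtain ⟨c, hc⟩ := Subgroup.mem_zpowers_iff.1 (hI₂ _ h5)
        rw [QuotientGroup.mk_mul, hπ1 _ h4, one_mul, ← hc, QuotientGroup.mk_zpow]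
        exact Subgroup.zpow_mem _ h2 _
      intro q
      obtain ⟨x, rfl⟩ := QuotientGroup.mk_surjective q
      rcases hcover x with h4 | h4
      · exact h3 x h4
      · have h5 := h3 _ h4
        have h6 : (QuotientGroup.mk x : G ⧸ Subgroup.zpowers y₁) =
            QuotientGroup.mk (x * g⁻¹) * QuotientGroup.mk g := by
          rw [← QuotientGroup.mk_mul]; congr 1; group
        rw [h6]
        exact Subgroup.mul_mem _ h5 (Subgroup.mem_zpowers _)
    · rw [Nat.not_odd_iff_even] at heo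
      obtain ⟨c, rfl⟩ := heo
      have hmod : (r + 1 + 2 * (c + c)) % 4 = 2 := by
        have := hr1
        unfold Nat.ModEq at this
        omega
      obtain ⟨m, hm, hmodd⟩ : ∃ m, r + 1 + 2 * (c + c) = 2 * m ∧ Odd m := by
        refine ⟨(r + 1 + 2 * (c + c)) / 2, by omega, ?_⟩
        rw [Nat.odd_iff]
        omega
      have hs4 : s ^ 4 = 1 := by
        have h1 : s ^ (4 * m) = 1 := by
          have h2 : (s ^ (r + 1 + 2 * (c + c))) ^ 2 = 1 := by
            rw [hkey, pow_two, d.eps_sq hε]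
          rw [← pow_mul, hm] at h2
          rwa [show 2 * m * 2 = 4 * m by ring] at h2
        have h3 : orderOf s ∣ 4 * m := orderOf_dvd_of_pow_eq_one h1
        rw [hn] at h3
        have h4 : (2 ^ n).Coprime m := Nat.Coprime.pow_left _ (Nat.coprime_two_left.2 hmodd)
        have h5 := h4.dvd_of_dvd_mul_right h3
        rw [← hn] at h5
        exact orderOf_dvd_iff_pow_eq_one.1 h5
      have hos : orderOf s = 4 := by
        apply Nat.dvd_antisymm (orderOf_dvd_of_pow_eq_one hs4)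
        rw [← hord4, ← ha]
        exact orderOf_pow_dvd a
      have haodd : Odd a := by
        by_contra hne
        rw [Nat.not_odd_iff_even] at hne
        obtain ⟨c', rfl⟩ := hne
        apply d.hz1
        rw [← d.hi₂, ← ha, ← pow_mul, show (c' + c') * 2 = 4 * c' by ring, pow_mul, hs4, one_pow]
      have hs2 : s ^ 2 = d.z := by
        rw [← d.hi₂, ← ha, ← pow_mul, pow_eq_pow_iff_modEq, hos]
        obtain ⟨a', rfl⟩ := haodd
        unfold Nat.ModEq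
        omega
      have hεz : ε = d.z := by
        rw [← hkey, ← hs2, pow_eq_pow_iff_modEq, hos]
        unfold Nat.ModEq
        omega
      have hf₂' : f₂ = 1 ∨ f₂ = d.z := by
        have h1 : f₂ = d.z ^ c := by
          rw [← he, ← hs2, ← pow_mul, two_mul]
        have h2 : ∀ c : ℕ, d.z ^ c = 1 ∨ d.z ^ c = d.z := by
          intro c
          induction c with
          | zero => left; simp
          | succ c ih =>
            rcases ih with h | h
            · right; rw [pow_succ, h, one_mul]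
            · left; rw [pow_succ, h, d.zz]
        rw [h1]; exact h2 c
      have hσ₁f₂ : d.σ₁ f₂ = f₂⁻¹ := by rw [d.eps_s1 hf₂', d.eps_inv hf₂']
      have hgg₁ : g * g ∈ Subgroup.zpowers y₁ := by
        rw [hgf]; exact Subgroup.mul_mem _ (hy₁' _ hf₁) (hy₁' _ hσ₁f₂)
      have hσ₂gg : d.σ₂ (g * g) = g * g * d.z := by
        rw [hgf, map_mul, hsf₁, hεz, d.eps_s2 hf₂', mul_assoc, ← d.cz f₂, mul_assoc]
      obtain ⟨t, ht⟩ := exists_nat_pow hgg₁
      obtain ⟨ε₁, hε₁, hsy₁⟩ : ∃ ε : G, (ε = 1 ∨ ε = d.z) ∧ d.σ₂ y₁ = y₁ * ε := by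
        rcases d.inv1_mod2 hp hy₁ with h | h
        · exact ⟨1, Or.inl rfl, by rw [h, mul_one]⟩
        · exact ⟨d.z, Or.inr rfl, h⟩
      have htodd : Odd t := by
        by_contra hne
        rw [Nat.not_odd_iff_even] at hne
        obtain ⟨t', rfl⟩ := hne
        apply d.hz1
        have hcm : Commute y₁ ε₁ := d.eps_central hε₁ y₁
        have h1 : d.σ₂ (y₁ ^ (t' + t')) = y₁ ^ (t' + t') := by
          rw [map_pow, hsy₁, hcm.mul_pow, ← two_mul, pow_mul ε₁, pow_two, d.eps_sq hε₁, one_pow,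
            mul_one]
        rw [ht, hσ₂gg] at h1
        exact mul_left_cancel (a := g * g) (by rw [mul_one]; exact h1)
      obtain ⟨k₁, hk₁⟩ := (IsPGroup.iff_orderOf.1 hp) y₁
      have hy₁g : y₁ ∈ Subgroup.zpowers g := by
        have h1 := mem_zpowers_odd_pow hk₁ htodd
        rw [ht] at h1
        have h2 : g * g ∈ Subgroup.zpowers g := Subgroup.mul_mem _ (Subgroup.mem_zpowers g)
          (Subgroup.mem_zpowers g)
        exact (Subgroup.zpowers_le.2 h2) h1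
      have hI₁g : ∀ f, d.σ₁ f = f⁻¹ → f ∈ Subgroup.zpowers g := fun f hf =>
        (Subgroup.zpowers_le.2 hy₁g) (hy₁' f hf)
      have hsi : s ∈ Subgroup.zpowers d.i₂ := by
        have h1 := mem_zpowers_odd_pow hn haodd
        rwa [ha] at h1
      have hI₂i : ∀ f, d.σ₂ f = f⁻¹ → f ∈ Subgroup.zpowers d.i₂ := fun f hf =>
        (Subgroup.zpowers_le.2 hsi) (hI₂ f hf)
      have hrr : ∀ x, d.Rr x → ∃ k l : ℤ, x = g ^ k * d.i₂ ^ l := by
        rintro x ⟨f₁', f₂', h1, h2, rfl⟩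
        obtain ⟨k, hk⟩ := Subgroup.mem_zpowers_iff.1 (hI₁g _ h1)
        obtain ⟨l, hl⟩ := Subgroup.mem_zpowers_iff.1 (hI₂i _ h2)
        exact ⟨k, l, by rw [hk, hl]⟩
      have hrep : ∀ x, ∃ k l : ℤ, x = g ^ k * d.i₂ ^ l := by
        intro x
        rcases hcover x with h1 | h1
        · exact hrr x h1
        · obtain ⟨k, l, h2⟩ := hrr _ h1
          refine ⟨k + 1, l, ?_⟩
          have hci : Commute (d.i₂ ^ l) g := Commute.zpow_left (show Commute d.i₂ g from (d.c₂ g).symm) l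
          rw [zpow_add_one]
          calc x = x * g⁻¹ * g := by group
            _ = g ^ k * d.i₂ ^ l * g := by rw [h2]
            _ = g ^ k * (d.i₂ ^ l * g) := by group
            _ = g ^ k * (g * d.i₂ ^ l) := by rw [hci.eq]
            _ = _ := by group
      have hcen : ∀ x, Commute x g := by
        intro x
        obtain ⟨k, l, rfl⟩ := hrep x
        have hci : Commute (d.i₂ ^ l) g := Commute.zpow_left (show Commute d.i₂ g from (d.c₂ g).symm) l
        exact ((Commute.refl g).zpow_left k).mul_left hci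
      have hN : (Subgroup.zpowers g).Normal := by
        constructor
        intro n hn' x
        obtain ⟨k, rfl⟩ := Subgroup.mem_zpowers_iff.1 hn'
        have h1 : Commute x (g ^ k) := (hcen x).zpow_right k
        rw [h1.eq]
        simp
      refine ⟨g, hN, ⟨⟨QuotientGroup.mk d.i₂, ?_⟩⟩⟩
      intro q
      obtain ⟨x, rfl⟩ := QuotientGroup.mk_surjective q
      obtain ⟨k, l, rfl⟩ := hrep x
      refine Subgroup.mem_zpowers_iff.2 ⟨l, ?_⟩
      rw [QuotientGroup.mk_mul, (QuotientGroup.eq_one_iff (g ^ k)).2 (Subgroup.zpow_mem_zpowers g k),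
        one_mul, QuotientGroup.mk_zpow]

end Data

/-- Cyclic groups have sectional 2-rank at most 1. -/
theorem sqBound_one_of_cyclic {T : Type*} [Group T] [Finite T] [IsCyclic T] : SqBound 1 T := by
  intro H N hNH hsq
  obtain ⟨⟨h, hh⟩, hgen⟩ := IsCyclic.exists_generator (α := H)
  rw [pow_one]
  refine relIndex_le_two_of H N h ?_
  intro x hx
  obtain ⟨e, he⟩ := Subgroup.mem_zpowers_iff.1 (hgen ⟨x, hx⟩)
  have he' : h ^ e = x := by simpa using congrArg Subtype.val he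
  have hsq' : ∀ c : ℤ, h ^ (2 * c) ∈ N := by
    intro c
    have h1 : h ^ (2 * c) = (h ^ c) ^ 2 := by
      rw [← zpow_natCast (h ^ c) 2, ← zpow_mul, mul_comm]; rfl
    rw [h1]
    exact hsq _ (H.zpow_mem hh c)
  rcases Int.even_or_odd' e with ⟨c, rfl | rfl⟩
  · left
    rw [← he']
    exact hsq' c
  · right
    rw [← he', zpow_add, zpow_one]
    have h1 : h⁻¹ * (h ^ (2 * c) * h) = h ^ (2 * c) := by
      rw [← zpow_add_one, ← zpow_neg_one, ← zpow_add]; congr 1; ring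
    rw [h1]
    exact hsq' c

/-- Extension: sectional ranks add along a normal subgroup. -/
theorem SqBound_ext {S : Type*} [Group S] [Finite S] (P : Subgroup S) [P.Normal] {a b : ℕ}
    (h1 : SqBound a P) (h2 : SqBound b (S ⧸ P)) : SqBound (a + b) S := by
  intro H N hNH hsq
  let π := QuotientGroup.mk' P
  have hb := h2 (H.map π) (N.map π) (Subgroup.map_mono hNH) (by
    rintro _ ⟨x, hx, rfl⟩
    exact ⟨x ^ 2, hsq x hx, by simp⟩)
  -- the intermediate subgroup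
  let M : Subgroup S := (N.map π).comap π ⊓ H
  have hM1 : M.relIndex H ≤ 2 ^ b := by
    have : M.relIndex H = (N.map π).relIndex (H.map π) := by
      rw [Subgroup.inf_relIndex_right, Subgroup.relIndex_comap]
    rw [this]; exact hb
  have hNM : N ≤ M := fun x hx => ⟨⟨x, hx, rfl⟩, hNH hx⟩
  -- the kernel part
  let K : Subgroup S := H ⊓ P
  have hKM : K ≤ M := by
    intro x hx
    refine ⟨?_, hx.1⟩
    show π x ∈ N.map π
    have : π x = 1 := (QuotientGroup.eq_one_iff _).2 hx.2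
    rw [this]; exact Subgroup.one_mem _
  have hcov : N.relIndex M ≤ N.relIndex K := by
    have hf : Function.Surjective (fun q : K ⧸ N.subgroupOf K =>
        (Quotient.map' (Subgroup.inclusion hKM) (by
          intro a c hac
          rw [QuotientGroup.leftRel_apply] at hac ⊢
          exact hac) q : M ⧸ N.subgroupOf M)) := by
      intro q
      obtain ⟨⟨m, hm⟩, rfl⟩ := QuotientGroup.mk_surjective q
      obtain ⟨⟨n, hn, hnm⟩, hmH⟩ := hm
      have hp : m * n⁻¹ ∈ P := by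
        have : π (m * n⁻¹) = 1 := by
          rw [map_mul, map_inv, hnm]; simp
        exact (QuotientGroup.eq_one_iff _).1 this
      have hk : m * n⁻¹ ∈ K := ⟨H.mul_mem hmH (H.inv_mem (hNH hn)), hp⟩
      refine ⟨QuotientGroup.mk ⟨m * n⁻¹, hk⟩, ?_⟩
      show (QuotientGroup.mk _ : M ⧸ N.subgroupOf M) = _
      rw [QuotientGroup.eq, Subgroup.mem_subgroupOf]
      show (m * n⁻¹)⁻¹ * m ∈ N
      have : (m * n⁻¹)⁻¹ * m = n := by group
      rw [this]; exact hn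
    exact Nat.card_le_card_of_surjective _ hf
  have hK : N.relIndex K ≤ 2 ^ a := by
    have h3 := h1 (K.subgroupOf P) ((N ⊓ P).subgroupOf P) (by
      intro x hx
      rw [Subgroup.mem_subgroupOf] at hx ⊢
      exact ⟨hNH hx.1, hx.2⟩) (by
      rintro ⟨x, hxP⟩ hx
      rw [Subgroup.mem_subgroupOf] at hx ⊢
      exact ⟨hsq x hx.1, P.pow_mem hxP 2⟩)
    have h4 : ((N ⊓ P).subgroupOf P).relIndex (K.subgroupOf P) = N.relIndex K := by
      rw [← Subgroup.relIndex_map_map_of_injective _ _ P.subtype_injective,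
        Subgroup.map_subgroupOf_eq_of_le inf_le_right, Subgroup.map_subgroupOf_eq_of_le inf_le_right,
        ← Subgroup.inf_relIndex_right (N ⊓ P) K, ← Subgroup.inf_relIndex_right N K]
      congr 1
      ext x
      constructor
      · rintro ⟨⟨h5, _⟩, h6⟩
        exact ⟨h5, h6⟩
      · rintro ⟨h5, h6⟩
        exact ⟨⟨h5, h6.2⟩, h6⟩
    rw [← h4]; exact h3
  rw [pow_add, mul_comm, ← Subgroup.relIndex_mul_relIndex N M H hNM inf_le_right]
  exact Nat.mul_le_mul (hcov.trans hK) hM1 |>.trans (by rw [mul_comm])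

/-- A metacyclic group has sectional 2-rank at most 2. -/
theorem sqBound_two_of_meta {G : Type*} [Group G] [Finite G] (y : G)
    [(Subgroup.zpowers y).Normal] [IsCyclic (G ⧸ Subgroup.zpowers y)] : SqBound 2 G :=
  SqBound_ext (Subgroup.zpowers y) (a := 1) (b := 1) sqBound_one_of_cyclic sqBound_one_of_cyclic

/-- The conclusion of the section: `SqBound 2` from the data. -/
theorem Data.sqBound {G : Type*} [Group G] [Finite G] (d : Data G) (hp : IsPGroup 2 G) :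
    SqBound 2 G := by
  obtain ⟨y, hn, hc⟩ := d.exists_meta hp
  exact sqBound_two_of_meta y

end Cfsg.Agent.Lib.QQMeta
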