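import Mathlib
import Cfsg.Agent.Lib.QQMeta

/-!
# Self-centralizing `Q₈ * Q₈`: a normal `Z₄ × Z₂`

For a finite 2-group `S` containing a central product `Q = Q₈ * Q₈` with `C_S(Q) ≤ Q`, a count of fixed
points gives a subgroup `⟨a₁, a₂⟩` with `a₁ ∈ Q₁`, `a₂ ∈ Q₂` of order 4 which is normal in `S`.
-/

set_option autoImplicit false

namespace Cfsg.Agent.Lib.QQFixed

open QuaternionGroup

/-- The quaternion group of order 8. -/
abbrev Q8 := QuaternionGroup 2

/-- Representatives of the three cyclic subgroups of order four of `Q₈`. -/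
def al : Fin 3 → Q8 := ![a 1, xa 0, xa 1]

/-- An element inverting `al i`. -/
def ga : Fin 3 → Q8 := ![xa 0, a 1, a 1]

theorem q8_sq : ∀ p : Q8, p ^ 2 = 1 ∨ p ^ 2 = a 2 := by decide
theorem q8_z : (a 2 : Q8) ^ 2 = 1 := by decide
theorem q8_zne : (a 2 : Q8) ≠ 1 := by decide
theorem q8_central : ∀ p : Q8, (∀ r : Q8, p * r = r * p) → p = 1 ∨ p = a 2 := by decide
theorem q8_form : ∀ p : Q8, p ^ 2 = a 2 → ∃ i, p = al i ∨ p = (al i)⁻¹ := by decide
theorem q8_comm : ∀ p q : Q8, p ^ 2 = a 2 → q ^ 2 = a 2 → p * q = q * p → q = p ∨ q = p * a 2 := by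
  decide
theorem q8_al_sq : ∀ i, al i ^ 2 = a 2 := by decide
theorem q8_al_comm : ∀ i j, al i * al j = al j * al i → i = j := by decide
theorem q8_conj : ∀ (p : Q8) (i : Fin 3), p * al i * p⁻¹ = al i ∨ p * al i * p⁻¹ = (al i)⁻¹ := by
  decide
theorem q8_gen : ∀ (i : Fin 3) (r : Q8), ∃ m : Fin 4, ∃ n : Fin 2,
    r = (al i) ^ (m : ℕ) * (ga i) ^ (n : ℕ) := by decide
theorem q8_ga : ∀ i, ga i * al i * (ga i)⁻¹ = (al i)⁻¹ := by decide
theorem q8_ga_sq : ∀ i, ga i ^ 2 = a 2 := by decide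
theorem q8_solve : ∀ c₁ c₂ : Bool, ∃ p : Q8,
    p * a 1 * p⁻¹ = a 1 * (if c₁ then a 2 else 1) ∧ p * xa 0 * p⁻¹ = xa 0 * (if c₂ then a 2 else 1) := by
  decide
theorem q8_alne : ∀ i, al i ≠ 1 ∧ al i ≠ a 2 := by decide
theorem q8_sqz : ∀ q : Q8, q ^ 2 = 1 → q = 1 ∨ q = a 2 := by decide

/-- A central product of two copies of `Q₈` with `C_S(Q) ≤ Q` and central `z`. -/
structure QQ (S : Type*) [Group S] where
  ι₁ : Q8 →* S
  ι₂ : Q8 →* S
  inj₁ : Function.Injective ι₁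
  inj₂ : Function.Injective ι₂
  comm : ∀ p q, ι₁ p * ι₂ q = ι₂ q * ι₁ p
  z : S
  hz₁ : ι₁ (a 2) = z
  hz₂ : ι₂ (a 2) = z
  Q : Subgroup S
  memQ : ∀ x, x ∈ Q ↔ ∃ p q, x = ι₁ p * ι₂ q
  cent : ∀ g, (∀ p, g * ι₁ p = ι₁ p * g) → (∀ q, g * ι₂ q = ι₂ q * g) → g ∈ Q
  zc : ∀ g, g * z = z * g

variable {S : Type*} [Group S]

namespace QQ

variable (t : QQ S)

theorem zne : t.z ≠ 1 := by
  rw [← t.hz₁]
  intro h
  exact q8_zne (t.inj₁ (by rw [h, map_one]))

theorem zsq : t.z ^ 2 = 1 := by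
  rw [← t.hz₁, ← map_pow, q8_z, map_one]

theorem zz : t.z * t.z = 1 := by rw [← pow_two]; exact t.zsq

theorem zinv : t.z⁻¹ = t.z := inv_eq_of_mul_eq_one_left t.zz

theorem inv_of_sq {g : S} (h : g ^ 2 = t.z) : g⁻¹ = g * t.z := by
  apply inv_eq_of_mul_eq_one_left
  rw [mul_assoc, ← t.zc g, ← mul_assoc, ← pow_two, h, t.zz]

theorem comm_all₁ {k : S} (i : Fin 3) (h1 : k * t.ι₁ (al i) = t.ι₁ (al i) * k)
    (h2 : k * t.ι₁ (ga i) = t.ι₁ (ga i) * k) (r : Q8) : k * t.ι₁ r = t.ι₁ r * k := by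
  obtain ⟨m, n, rfl⟩ := q8_gen i r
  have c1 : Commute k (t.ι₁ (al i)) := h1
  have c2 : Commute k (t.ι₁ (ga i)) := h2
  rw [map_mul, map_pow, map_pow]
  exact ((c1.pow_right _).mul_right (c2.pow_right _)).eq

theorem comm_all₂ {k : S} (i : Fin 3) (h1 : k * t.ι₂ (al i) = t.ι₂ (al i) * k)
    (h2 : k * t.ι₂ (ga i) = t.ι₂ (ga i) * k) (r : Q8) : k * t.ι₂ r = t.ι₂ r * k := by
  obtain ⟨m, n, rfl⟩ := q8_gen i r
  have c1 : Commute k (t.ι₂ (al i)) := h1
  have c2 : Commute k (t.ι₂ (ga i)) := h2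
  rw [map_mul, map_pow, map_pow]
  exact ((c1.pow_right _).mul_right (c2.pow_right _)).eq

/-- Elements of `Q` commuting with `Q` are in `{1, z}`. -/
theorem central_Q {g : S} (hg : g ∈ t.Q) (h1 : ∀ p, g * t.ι₁ p = t.ι₁ p * g)
    (h2 : ∀ q, g * t.ι₂ q = t.ι₂ q * g) : g = 1 ∨ g = t.z := by
  obtain ⟨p, q, rfl⟩ := (t.memQ g).1 hg
  have hp : ∀ r, p * r = r * p := by
    intro r
    apply t.inj₁
    have h3 := h1 r
    rw [mul_assoc, ← t.comm, ← mul_assoc, ← mul_assoc] at h3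
    rw [map_mul, map_mul]
    exact mul_right_cancel h3
  have hq : ∀ r, q * r = r * q := by
    intro r
    apply t.inj₂
    have h3 := h2 r
    rw [mul_assoc, ← mul_assoc (t.ι₂ r), ← t.comm, mul_assoc] at h3
    rw [map_mul, map_mul]
    exact mul_left_cancel h3
  rcases q8_central p hp with rfl | rfl <;> rcases q8_central q hq with rfl | rfl
  · left; simp
  · right; simp [t.hz₂]
  · right; simp [t.hz₁]
  · left; rw [t.hz₁, t.hz₂, t.zz]

/-- Squares in `Q`. -/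
theorem sq_Q {x : S} (hx : x ∈ t.Q) : x ^ 2 = 1 ∨ x ^ 2 = t.z := by
  obtain ⟨p, q, rfl⟩ := (t.memQ x).1 hx
  have hc : Commute (t.ι₁ p) (t.ι₂ q) := t.comm p q
  rw [hc.mul_pow, ← map_pow, ← map_pow]
  rcases q8_sq p with h | h <;> rcases q8_sq q with h' | h' <;> rw [h, h']
  · left; simp
  · right; simp [t.hz₂]
  · right; simp [t.hz₁]
  · left; rw [t.hz₁, t.hz₂, t.zz]

omit t in
theorem fact1_aux {x P g ε : S} (hε : ε * ε = 1) (hc : ∀ y, y * ε = ε * y) (h1 : g * x * g⁻¹ = x * ε)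
    (h2 : P * x * P⁻¹ = x * ε) : (g * P) * x = x * (g * P) := by
  have h3 : P * x = x * ε * P := by rw [← h2]; group
  have h4 : g * x = x * ε * g := by rw [← h1]; group
  calc g * P * x = g * (P * x) := by group
    _ = g * (x * ε * P) := by rw [h3]
    _ = (g * x) * ε * P := by group
    _ = (x * ε * g) * ε * P := by rw [h4]
    _ = x * ε * (g * ε) * P := by group
    _ = x * ε * (ε * g) * P := by rw [hc g]
    _ = x * (ε * ε) * g * P := by group
    _ = x * (g * P) := by rw [hε]; group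

/-- Conjugation action on `z`-cosets. -/
theorem fact1 {g : S} (h : ∀ x ∈ t.Q, x * g * x⁻¹ = g ∨ x * g * x⁻¹ = g * t.z) : g ∈ t.Q := by
  have hmem₁ : ∀ p, t.ι₁ p ∈ t.Q := fun p => (t.memQ _).2 ⟨p, 1, by simp⟩
  have hmem₂ : ∀ q, t.ι₂ q ∈ t.Q := fun q => (t.memQ _).2 ⟨1, q, by simp⟩
  -- signs
  have hsign : ∀ x ∈ t.Q, ∃ c : Bool, g * x * g⁻¹ = x * (if c then t.z else 1) := by
    intro x hx
    rcases h x⁻¹ (t.Q.inv_mem hx) with h1 | h1
    · refine ⟨false, ?_⟩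
      simp only [Bool.false_eq_true, if_false, mul_one]
      rw [inv_inv] at h1
      have : x⁻¹ * g = g * x⁻¹ := by
        calc x⁻¹ * g = (x⁻¹ * g * x) * x⁻¹ := by group
          _ = g * x⁻¹ := by rw [h1]
      calc g * x * g⁻¹ = x * (x⁻¹ * g) * x * g⁻¹ := by group
        _ = x * (g * x⁻¹) * x * g⁻¹ := by rw [this]
        _ = x := by group
    · refine ⟨true, ?_⟩
      simp only [if_true]
      rw [inv_inv] at h1
      have h2 : x⁻¹ * g = g * t.z * x⁻¹ := by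
        calc x⁻¹ * g = (x⁻¹ * g * x) * x⁻¹ := by group
          _ = g * t.z * x⁻¹ := by rw [h1]
      calc g * x * g⁻¹ = x * (x⁻¹ * g) * x * g⁻¹ := by group
        _ = x * (g * t.z * x⁻¹) * x * g⁻¹ := by rw [h2]
        _ = x * (g * t.z) * g⁻¹ := by group
        _ = x * (t.z * g) * g⁻¹ := by rw [t.zc g]
        _ = x * t.z := by group
  obtain ⟨c₁, hc₁⟩ := hsign (t.ι₁ (a 1)) (hmem₁ _)
  obtain ⟨c₂, hc₂⟩ := hsign (t.ι₁ (xa 0)) (hmem₁ _)
  obtain ⟨c₃, hc₃⟩ := hsign (t.ι₂ (a 1)) (hmem₂ _)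
  obtain ⟨c₄, hc₄⟩ := hsign (t.ι₂ (xa 0)) (hmem₂ _)
  obtain ⟨p₁, hp₁, hp₁'⟩ := q8_solve c₁ c₂
  obtain ⟨p₂, hp₂, hp₂'⟩ := q8_solve c₃ c₄
  have hsgn₁ : ∀ c : Bool, t.ι₁ (if c then a 2 else 1) = if c then t.z else 1 := by
    intro c; cases c <;> simp [t.hz₁]
  have hsgn₂ : ∀ c : Bool, t.ι₂ (if c then a 2 else 1) = if c then t.z else 1 := by
    intro c; cases c <;> simp [t.hz₂]
  have hε : ∀ c : Bool, ((if c then t.z else 1 : S)) * (if c then t.z else 1) = 1 := by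
    intro c; cases c <;> simp [t.zz]
  have hcε : ∀ (c : Bool) (y : S), y * (if c then t.z else 1) = (if c then t.z else 1) * y := by
    intro c y; cases c <;> simp [t.zc y]
  -- conjugation by `P = ι₁ p₁ * ι₂ p₂`
  have hP₁ : ∀ r r' : Q8, p₁ * r * p₁⁻¹ = r' →
      (t.ι₁ p₁ * t.ι₂ p₂) * t.ι₁ r * (t.ι₁ p₁ * t.ι₂ p₂)⁻¹ = t.ι₁ r' := by
    intro r r' h
    rw [← h, map_mul, map_mul, map_inv]
    have := t.comm r p₂
    calc t.ι₁ p₁ * t.ι₂ p₂ * t.ι₁ r * (t.ι₁ p₁ * t.ι₂ p₂)⁻¹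
        = t.ι₁ p₁ * (t.ι₂ p₂ * t.ι₁ r) * (t.ι₂ p₂)⁻¹ * (t.ι₁ p₁)⁻¹ := by group
      _ = t.ι₁ p₁ * (t.ι₁ r * t.ι₂ p₂) * (t.ι₂ p₂)⁻¹ * (t.ι₁ p₁)⁻¹ := by rw [this]
      _ = _ := by group
  have hP₂ : ∀ r r' : Q8, p₂ * r * p₂⁻¹ = r' →
      (t.ι₁ p₁ * t.ι₂ p₂) * t.ι₂ r * (t.ι₁ p₁ * t.ι₂ p₂)⁻¹ = t.ι₂ r' := by
    intro r r' h
    rw [← h, map_mul, map_mul, map_inv]
    have := t.comm p₁ (p₂ * r * p₂⁻¹)
    rw [map_mul, map_mul, map_inv] at this
    calc t.ι₁ p₁ * t.ι₂ p₂ * t.ι₂ r * (t.ι₁ p₁ * t.ι₂ p₂)⁻¹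
        = t.ι₁ p₁ * (t.ι₂ p₂ * t.ι₂ r * (t.ι₂ p₂)⁻¹) * (t.ι₁ p₁)⁻¹ := by group
      _ = t.ι₂ p₂ * t.ι₂ r * (t.ι₂ p₂)⁻¹ * t.ι₁ p₁ * (t.ι₁ p₁)⁻¹ := by rw [this]
      _ = _ := by group
  have h1 := fact1_aux (hε c₁) (hcε c₁) hc₁ (by rw [hP₁ _ _ hp₁, map_mul, hsgn₁])
  have h2 := fact1_aux (hε c₂) (hcε c₂) hc₂ (by rw [hP₁ _ _ hp₁', map_mul, hsgn₁])
  have h3 := fact1_aux (hε c₃) (hcε c₃) hc₃ (by rw [hP₂ _ _ hp₂, map_mul, hsgn₂])
  have h4 := fact1_aux (hε c₄) (hcε c₄) hc₄ (by rw [hP₂ _ _ hp₂', map_mul, hsgn₂])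
  have hk := t.cent (g * (t.ι₁ p₁ * t.ι₂ p₂)) (t.comm_all₁ 0 h1 h2) (t.comm_all₂ 0 h3 h4)
  have hPQ : t.ι₁ p₁ * t.ι₂ p₂ ∈ t.Q := (t.memQ _).2 ⟨p₁, p₂, rfl⟩
  have := t.Q.mul_mem hk (t.Q.inv_mem hPQ)
  rwa [mul_inv_cancel_right] at this


/-- The elements of the group generated by two commuting elements of the shape `a² = b² = z`. -/
theorem closure_form {a b : S} (ha : a ^ 2 = t.z) (hb : b ^ 2 = t.z) (hab : a * b = b * a) {y : S}
    (hy : y ∈ Subgroup.closure {a, b}) :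
    ∃ ζ : S, (ζ = 1 ∨ ζ = t.z) ∧ (y = ζ ∨ y = ζ * a ∨ y = ζ * b ∨ y = ζ * (a * b)) := by
  have hc : Commute a b := hab
  have h1 : ∃ m n : ℤ, y = a ^ m * b ^ n := by
    induction hy using Subgroup.closure_induction with
    | mem x hx =>
      rcases hx with rfl | hx
      · exact ⟨1, 0, by simp⟩
      · rw [Set.mem_singleton_iff] at hx
        subst hx
        exact ⟨0, 1, by simp⟩
    | one => exact ⟨0, 0, by simp⟩
    | mul x y _ _ hx hy =>
      obtain ⟨m, n, rfl⟩ := hx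
      obtain ⟨m', n', rfl⟩ := hy
      refine ⟨m + m', n + n', ?_⟩
      rw [zpow_add, zpow_add]
      have : Commute (b ^ n) (a ^ m') := (hc.symm.zpow_zpow n m')
      calc a ^ m * b ^ n * (a ^ m' * b ^ n') = a ^ m * (b ^ n * a ^ m') * b ^ n' := by group
        _ = a ^ m * (a ^ m' * b ^ n) * b ^ n' := by rw [this.eq]
        _ = _ := by group
    | inv x _ hx =>
      obtain ⟨m, n, rfl⟩ := hx
      refine ⟨-m, -n, ?_⟩
      have : Commute (b ^ n)⁻¹ (a ^ m)⁻¹ := (hc.symm.zpow_zpow n m).inv_inv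
      rw [mul_inv_rev, zpow_neg, zpow_neg, this.eq]
  obtain ⟨m, n, rfl⟩ := h1
  have hzp : ∀ k : ℤ, t.z ^ k = 1 ∨ t.z ^ k = t.z := by
    intro k
    rcases Int.even_or_odd' k with ⟨c, rfl | rfl⟩
    · left
      rw [zpow_mul, zpow_ofNat, t.zsq, one_zpow]
    · right
      rw [zpow_add, zpow_mul, zpow_ofNat, t.zsq, one_zpow, one_mul, zpow_one]
  have hcz : ∀ (k : ℤ) (g : S), g * t.z ^ k = t.z ^ k * g := by
    intro k g
    exact (Commute.zpow_right (show Commute g t.z from t.zc g) k).eq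
  have hdec : ∀ (x : S), x ^ 2 = t.z → ∀ m : ℤ, ∃ k : ℤ, (x ^ m = t.z ^ k ∨ x ^ m = t.z ^ k * x) := by
    intro x hx m
    rcases Int.even_or_odd' m with ⟨c, rfl | rfl⟩
    · exact ⟨c, Or.inl (by rw [zpow_mul, zpow_ofNat, hx])⟩
    · exact ⟨c, Or.inr (by rw [zpow_add, zpow_mul, zpow_ofNat, hx, zpow_one])⟩
  obtain ⟨k, hk⟩ := hdec a ha m
  obtain ⟨l, hl⟩ := hdec b hb n
  refine ⟨t.z ^ (k + l), hzp _, ?_⟩
  rcases hk with hk | hk <;> rcases hl with hl | hl <;> rw [hk, hl, zpow_add]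
  · left; rfl
  · right; right; left; group
  · right; left
    calc t.z ^ k * a * t.z ^ l = t.z ^ k * (a * t.z ^ l) := by group
      _ = t.z ^ k * (t.z ^ l * a) := by rw [hcz l a]
      _ = _ := by group
  · right; right; right
    calc t.z ^ k * a * (t.z ^ l * b) = t.z ^ k * (a * t.z ^ l) * b := by group
      _ = t.z ^ k * (t.z ^ l * a) * b := by rw [hcz l a]
      _ = _ := by group

theorem zeta_sq {ζ : S} (h : ζ = 1 ∨ ζ = t.z) : ζ * ζ = 1 := by
  rcases h with rfl | rfl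
  · simp
  · exact t.zz

theorem zeta_c {ζ : S} (h : ζ = 1 ∨ ζ = t.z) (g : S) : g * ζ = ζ * g := by
  rcases h with rfl | rfl
  · simp
  · exact t.zc g

/-- Elements of order dividing two in `⟨a, b⟩`. -/
theorem closure_sq1 {a b : S} (ha : a ^ 2 = t.z) (hb : b ^ 2 = t.z) (hab : a * b = b * a) {y : S}
    (hy : y ∈ Subgroup.closure {a, b}) (hy2 : y ^ 2 = 1) :
    y = 1 ∨ y = t.z ∨ y = a * b ∨ y = a * b * t.z := by
  obtain ⟨ζ, hζ, h⟩ := t.closure_form ha hb hab hy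
  have hsq : ∀ x : S, x ^ 2 = t.z → (ζ * x) ^ 2 = t.z := by
    intro x hx
    have hc : Commute ζ x := (t.zeta_c hζ x).symm
    rw [hc.mul_pow, pow_two ζ, t.zeta_sq hζ, one_mul, hx]
  rcases h with rfl | rfl | rfl | rfl
  · rcases hζ with rfl | rfl
    · left; rfl
    · right; left; rfl
  · rw [hsq _ ha] at hy2
    exact absurd hy2 t.zne
  · rw [hsq _ hb] at hy2
    exact absurd hy2 t.zne
  · right; right
    rcases hζ with rfl | rfl
    · left; simp
    · right; exact (t.zc _).symm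

/-- Elements with square `z` in `⟨a, b⟩`. -/
theorem closure_sqz {a b : S} (ha : a ^ 2 = t.z) (hb : b ^ 2 = t.z) (hab : a * b = b * a) {y : S}
    (hy : y ∈ Subgroup.closure {a, b}) (hy2 : y ^ 2 = t.z) :
    y = a ∨ y = a * t.z ∨ y = b ∨ y = b * t.z := by
  obtain ⟨ζ, hζ, h⟩ := t.closure_form ha hb hab hy
  rcases h with rfl | rfl | rfl | rfl
  · exfalso
    rcases hζ with rfl | rfl
    · rw [one_pow] at hy2; exact t.zne hy2.symm
    · rw [t.zsq] at hy2; exact t.zne hy2.symm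
  · rcases hζ with rfl | rfl
    · left; simp
    · right; left; exact (t.zc _).symm
  · rcases hζ with rfl | rfl
    · right; right; left; simp
    · right; right; right; exact (t.zc _).symm
  · exfalso
    have hc : Commute a b := hab
    have hc2 : Commute ζ (a * b) := (t.zeta_c hζ _).symm
    rw [hc2.mul_pow, hc.mul_pow, ha, hb, t.zz, mul_one, pow_two ζ, t.zeta_sq hζ] at hy2
    exact t.zne hy2.symm

/-- One of the two generators of a "shape" subgroup normalized by `Q` lies in `Q`. -/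
theorem a_mem {a b : S} (ha : a ^ 2 = t.z) (hb : b ^ 2 = t.z) (hab : a * b = b * a) (h1 : a ≠ b)
    (h2 : a ≠ b * t.z)
    (hfix : ∀ x ∈ t.Q, ∀ y ∈ Subgroup.closure {a, b}, x * y * x⁻¹ ∈ Subgroup.closure {a, b}) :
    a ∈ t.Q := by
  have hc : Commute a b := hab
  have hainv := t.inv_of_sq ha
  have hbinv := t.inv_of_sq hb
  have hA : a ∈ Subgroup.closure {a, b} := Subgroup.subset_closure (by simp)
  have hB : b ∈ Subgroup.closure {a, b} := Subgroup.subset_closure (by simp)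
  have hU : a * b ∈ Subgroup.closure {a, b} := Subgroup.mul_mem _ hA hB
  have hu2 : (a * b) ^ 2 = 1 := by rw [hc.mul_pow, ha, hb, t.zz]
  have hune1 : a * b ≠ 1 := by
    intro h
    apply h2
    rw [← hbinv]
    exact eq_inv_of_mul_eq_one_left h
  have hunez : a * b ≠ t.z := by
    intro h
    apply h1
    have h3 : a = t.z * b⁻¹ := eq_mul_inv_of_mul_eq h
    rw [h3, hbinv, ← t.zc, mul_assoc, ← t.zc, ← mul_assoc, mul_assoc, t.zz, mul_one]
  have hconjz : ∀ x : S, x * t.z * x⁻¹ = t.z := by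
    intro x; rw [t.zc]; group
  have hxu : ∀ x ∈ t.Q, x * (a * b) * x⁻¹ = a * b ∨ x * (a * b) * x⁻¹ = a * b * t.z := by
    intro x hx
    have h3 := hfix x hx _ hU
    have h4 : (x * (a * b) * x⁻¹) ^ 2 = 1 := by rw [conj_pow, hu2]; group
    rcases t.closure_sq1 ha hb hab h3 h4 with h5 | h5 | h5 | h5
    · exfalso
      apply hune1
      have : a * b = x⁻¹ * (x * (a * b) * x⁻¹) * x := by group
      rw [this, h5]; group
    · exfalso
      apply hunez
      have : a * b = x⁻¹ * (x * (a * b) * x⁻¹) * x := by group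
      rw [this, h5]
      have := hconjz x⁻¹
      rwa [inv_inv] at this
    · exact Or.inl h5
    · exact Or.inr h5
  have huQ : a * b ∈ t.Q := t.fact1 hxu
  have hmem₁ : ∀ p, t.ι₁ p ∈ t.Q := fun p => (t.memQ _).2 ⟨p, 1, by simp⟩
  have hmem₂ : ∀ q, t.ι₂ q ∈ t.Q := fun q => (t.memQ _).2 ⟨1, q, by simp⟩
  obtain ⟨v, hvQ, hv⟩ : ∃ v ∈ t.Q, v * (a * b) * v⁻¹ ≠ a * b := by
    by_contra hno
    push Not at hno
    have hcom : ∀ x ∈ t.Q, a * b * x = x * (a * b) := by
      intro x hx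
      have := hno x hx
      calc a * b * x = x * (a * b) * x⁻¹ * x := by rw [this]
        _ = _ := by group
    rcases t.central_Q huQ (fun p => hcom _ (hmem₁ p)) (fun q => hcom _ (hmem₂ q)) with h | h
    · exact hune1 h
    · exact hunez h
  have hvu : v * (a * b) * v⁻¹ = a * b * t.z := (hxu v hvQ).resolve_left hv
  have hstep : ∀ x ∈ t.Q, x * (a * b) * x⁻¹ ≠ a * b → (x * a * x⁻¹ = a ∨ x * a * x⁻¹ = a * t.z) := by
    intro x hx hne
    have h3 := hfix x hx _ hA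
    have h4 : (x * a * x⁻¹) ^ 2 = t.z := by rw [conj_pow, ha, hconjz]
    have hxsq : a⁻¹ * (x * x) * a = x * x := by
      have h5 : x * x = 1 ∨ x * x = t.z := by
        rw [← pow_two]; exact t.sq_Q hx
      rcases h5 with h5 | h5
      · rw [h5]; group
      · rw [h5, t.zc]; group
    have hcomm : ∀ c : S, c * c = 1 → x * a * x⁻¹ = a * c → x * c = c * x := by
      intro c hcc h5
      have h6 : a⁻¹ * x * a = c * x := by
        have : x * a = a * c * x := by rw [← h5]; group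
        calc a⁻¹ * x * a = a⁻¹ * (x * a) := by group
          _ = a⁻¹ * (a * c * x) := by rw [this]
          _ = _ := by group
      have h7 : c * x * (c * x) = x * x := by
        rw [← h6, ← hxsq]; group
      have h8 : c * x * c = x := by
        have : c * x * c * x = x * x := by rw [← h7]; group
        exact mul_right_cancel this
      calc x * c = c * (c * x * c) := by rw [← mul_assoc, ← mul_assoc, hcc, one_mul]
        _ = c * x := by rw [h8]
    have hzcomm : ∀ c : S, x * c = c * x → x * (a * b) * x⁻¹ = a * b → False := by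
      intro _ _ h; exact hne h
    have hcontra : ∀ c : S, c * c = 1 → (c = a * b ∨ c = a * b * t.z) → x * a * x⁻¹ = a * c → False := by
      intro c hcc hc5 h5
      have h6 := hcomm c hcc h5
      apply hne
      rcases hc5 with rfl | rfl
      · rw [h6]; group
      · have h7 : x * (a * b) = (a * b) * x := by
          have h8 : (x * (a * b)) * t.z = ((a * b) * x) * t.z := by
            calc (x * (a * b)) * t.z = x * (a * b * t.z) := by group
              _ = (a * b * t.z) * x := h6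
              _ = (a * b) * (t.z * x) := by group
              _ = (a * b) * (x * t.z) := by rw [t.zc]
              _ = _ := by group
          exact mul_right_cancel h8
        rw [h7]; group
    have hsq3 : (a * b) * (a * b) = 1 := by rw [← pow_two]; exact hu2
    have hsq4 : (a * b * t.z) * (a * b * t.z) = 1 := by
      calc (a * b * t.z) * (a * b * t.z) = (a * b) * (t.z * (a * b)) * t.z := by group
        _ = (a * b) * ((a * b) * t.z) * t.z := by rw [t.zc (a * b)]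
        _ = ((a * b) * (a * b)) * (t.z * t.z) := by group
        _ = 1 := by rw [hsq3, t.zz, one_mul]
    rcases t.closure_sqz ha hb hab h3 h4 with h5 | h5 | h5 | h5
    · exact Or.inl h5
    · exact Or.inr h5
    · -- `y = b`: then `c = a b z`
      exfalso
      refine hcontra (a * b * t.z) hsq4 (Or.inr rfl) ?_
      rw [h5]
      have h6 : a * a = t.z := by rw [← pow_two]; exact ha
      calc b = (a * a) * (a * a) * b := by rw [h6, t.zz, one_mul]
        _ = a * (a * a) * (a * b) := by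
            rw [show a * a * (a * a) * b = a * (a * a) * a * b by group]
            rw [mul_assoc (a * (a * a)) a b]
        _ = a * t.z * (a * b) := by rw [h6]
        _ = a * (t.z * (a * b)) := by group
        _ = a * ((a * b) * t.z) := by rw [t.zc (a * b)]
        _ = _ := by group
    · -- `y = b z`: then `c = a b`
      exfalso
      refine hcontra (a * b) hsq3 (Or.inl rfl) ?_
      rw [h5]
      have h6 : a * a = t.z := by rw [← pow_two]; exact ha
      calc b * t.z = t.z * b := t.zc b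
        _ = a * a * b := by rw [h6]
        _ = _ := by group
  apply t.fact1
  intro x hx
  by_cases hxc : x * (a * b) * x⁻¹ = a * b
  · have h3 : (x * v) * (a * b) * (x * v)⁻¹ ≠ a * b := by
      have : (x * v) * (a * b) * (x * v)⁻¹ = x * (v * (a * b) * v⁻¹) * x⁻¹ := by group
      rw [this, hvu]
      have : x * (a * b * t.z) * x⁻¹ = (x * (a * b) * x⁻¹) * (x * t.z * x⁻¹) := by group
      rw [this, hxc, hconjz]
      intro h
      exact t.zne (mul_left_cancel (a := a * b) (by rw [mul_one]; exact h))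
    have h4 : v⁻¹ * (a * b) * v⁻¹⁻¹ ≠ a * b := by
      intro h
      apply hv
      have h5 : (a * b) = v * (v⁻¹ * (a * b) * v⁻¹⁻¹) * v⁻¹ := by group
      rw [h] at h5
      exact h5.symm
    have h5 := hstep (x * v) (t.Q.mul_mem hx hvQ) h3
    have h6 := hstep v⁻¹ (t.Q.inv_mem hvQ) h4
    have h7 : x * a * x⁻¹ = (x * v) * (v⁻¹ * a * v⁻¹⁻¹) * (x * v)⁻¹ := by group
    rcases h6 with h6 | h6
    · rw [h7, h6]; exact h5
    · rw [h7, h6]
      have h8 : (x * v) * (a * t.z) * (x * v)⁻¹ = ((x * v) * a * (x * v)⁻¹) * ((x * v) * t.z * (x * v)⁻¹) := by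
        group
      rw [h8, hconjz]
      rcases h5 with h5 | h5
      · right; rw [h5]
      · left; rw [h5, mul_assoc, t.zz, mul_one]
  · exact hstep x hx hxc


theorem q8_zq_aux : ∀ q : Q8, q ^ 2 = a 2 → (a 2 * q) ^ 2 = a 2 := by decide

/-- Elements of `Q` with square `z`. -/
theorem form_of_mem {x : S} (hx : x ∈ t.Q) (h : x ^ 2 = t.z) :
    (∃ p, p ^ 2 = a 2 ∧ x = t.ι₁ p) ∨ (∃ q, q ^ 2 = a 2 ∧ x = t.ι₂ q) := by
  obtain ⟨p, q, rfl⟩ := (t.memQ x).1 hx
  have hc : Commute (t.ι₁ p) (t.ι₂ q) := t.comm p q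
  rw [hc.mul_pow, ← map_pow, ← map_pow] at h
  rcases q8_sq p with hp | hp <;> rcases q8_sq q with hq | hq
  · exfalso
    rw [hp, hq, map_one, map_one, one_mul] at h
    exact t.zne h.symm
  · right
    rcases q8_sqz p hp with rfl | rfl
    · exact ⟨q, hq, by simp⟩
    · exact ⟨a 2 * q, q8_zq_aux q hq, by rw [map_mul, t.hz₁, t.hz₂]⟩
  · left
    rcases q8_sqz q hq with rfl | rfl
    · exact ⟨p, hp, by simp⟩
    · refine ⟨a 2 * p, q8_zq_aux p hp, ?_⟩
      rw [map_mul, t.hz₁, t.hz₂, t.zc]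
  · exfalso
    rw [hp, hq, t.hz₁, t.hz₂, t.zz] at h
    exact t.zne h.symm

/-- An element in both factors. -/
theorem common_central {p q : Q8} (h : t.ι₁ p = t.ι₂ q) : p = 1 ∨ p = a 2 := by
  apply q8_central
  intro r
  apply t.inj₁
  rw [map_mul, map_mul, h]
  exact (t.comm r q).symm

omit t in
theorem closure_pair_congr {x y x' y' : S} (hx : x' = x ∨ x' = x⁻¹) (hy : y' = y ∨ y' = y⁻¹) :
    Subgroup.closure {x', y'} = Subgroup.closure {x, y} := by
  have h1 : ∀ u v : S, u ∈ Subgroup.closure {u, v} := fun u v =>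
    Subgroup.subset_closure (by simp)
  have h2 : ∀ u v : S, v ∈ Subgroup.closure {u, v} := fun u v =>
    Subgroup.subset_closure (by simp)
  apply le_antisymm
  · rw [Subgroup.closure_le]
    rintro w (rfl | rfl)
    · rcases hx with rfl | rfl
      · exact h1 _ _
      · exact Subgroup.inv_mem _ (h1 _ _)
    · rcases hy with rfl | rfl
      · exact h2 _ _
      · exact Subgroup.inv_mem _ (h2 _ _)
  · rw [Subgroup.closure_le]
    rintro w (rfl | rfl)
    · rcases hx with rfl | rfl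
      · exact h1 _ _
      · have := Subgroup.inv_mem _ (h1 w⁻¹ y')
        rwa [inv_inv] at this
    · rcases hy with rfl | rfl
      · exact h2 _ _
      · have := Subgroup.inv_mem _ (h2 x' w⁻¹)
        rwa [inv_inv] at this

/-- The subgroups `⟨a₁, a₂⟩`. -/
def AA (i j : Fin 3) : Subgroup S := Subgroup.closure {t.ι₁ (al i), t.ι₂ (al j)}

/-- The shape of a `Z₄ × Z₂` with `Ω₁`-part containing `z`. -/
def Shape (A : Subgroup S) : Prop :=
  ∃ a b : S, a ^ 2 = t.z ∧ b ^ 2 = t.z ∧ a * b = b * a ∧ a ≠ b ∧ a ≠ b * t.z ∧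
    A = Subgroup.closure {a, b}

theorem fixed_form {a b : S} (ha : a ^ 2 = t.z) (hb : b ^ 2 = t.z) (hab : a * b = b * a) (h1 : a ≠ b)
    (h2 : a ≠ b * t.z)
    (hfix : ∀ x ∈ t.Q, ∀ y ∈ Subgroup.closure {a, b}, x * y * x⁻¹ ∈ Subgroup.closure {a, b}) :
    ∃ i j, Subgroup.closure {a, b} = t.AA i j := by
  have haQ := t.a_mem ha hb hab h1 h2 hfix
  have hbQ : b ∈ t.Q := by
    refine t.a_mem hb ha hab.symm h1.symm ?_ ?_
    · intro h
      apply h2
      rw [h, mul_assoc, t.zz, mul_one]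
    · rwa [Set.pair_comm]
  have hsame : ∀ (ι : Q8 →* S), Function.Injective ι → ι (QuaternionGroup.a 2) = t.z → ∀ p q,
      p ^ 2 = QuaternionGroup.a 2 → q ^ 2 = QuaternionGroup.a 2 → a = ι p → b = ι q → False := by
    intro ι hι hz p q hp hq hap hbq
    have hpq : p * q = q * p := by
      apply hι
      rw [map_mul, map_mul, ← hap, ← hbq]
      exact hab
    rcases q8_comm p q hp hq hpq with rfl | rfl
    · exact h1 (by rw [hap, hbq])
    · apply h2
      rw [hbq, hap, map_mul, hz, mul_assoc, t.zz, mul_one]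
  rcases t.form_of_mem haQ ha with ⟨p, hp, hap⟩ | ⟨p, hp, hap⟩ <;>
    rcases t.form_of_mem hbQ hb with ⟨q, hq, hbq⟩ | ⟨q, hq, hbq⟩
  · exact (hsame t.ι₁ t.inj₁ t.hz₁ p q hp hq hap hbq).elim
  · obtain ⟨i, hi⟩ := q8_form p hp
    obtain ⟨j, hj⟩ := q8_form q hq
    refine ⟨i, j, ?_⟩
    apply closure_pair_congr
    · rw [hap]
      rcases hi with rfl | rfl
      · left; rfl
      · right; rw [map_inv]
    · rw [hbq]
      rcases hj with rfl | rfl
      · left; rfl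
      · right; rw [map_inv]
  · obtain ⟨i, hi⟩ := q8_form q hq
    obtain ⟨j, hj⟩ := q8_form p hp
    refine ⟨i, j, ?_⟩
    rw [Set.pair_comm]
    apply closure_pair_congr
    · rw [hbq]
      rcases hi with rfl | rfl
      · left; rfl
      · right; rw [map_inv]
    · rw [hap]
      rcases hj with rfl | rfl
      · left; rfl
      · right; rw [map_inv]
  · exact (hsame t.ι₂ t.inj₂ t.hz₂ p q hp hq hap hbq).elim

theorem AA_shape (i j : Fin 3) : t.Shape (t.AA i j) := by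
  refine ⟨t.ι₁ (al i), t.ι₂ (al j), ?_, ?_, t.comm _ _, ?_, ?_, rfl⟩
  · rw [← map_pow, q8_al_sq, t.hz₁]
  · rw [← map_pow, q8_al_sq, t.hz₂]
  · intro h
    rcases t.common_central h with h1 | h1
    · exact (q8_alne i).1 h1
    · exact (q8_alne i).2 h1
  · intro h
    rw [← t.hz₂, ← map_mul] at h
    rcases t.common_central h with h1 | h1
    · exact (q8_alne i).1 h1
    · exact (q8_alne i).2 h1

theorem AA_fix (i j : Fin 3) {x : S} (hx : x ∈ t.Q) {y : S} (hy : y ∈ t.AA i j) :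
    x * y * x⁻¹ ∈ t.AA i j := by
  obtain ⟨p, q, rfl⟩ := (t.memQ x).1 hx
  let φ : S →* S := (MulAut.conj (t.ι₁ p * t.ι₂ q)).toMonoidHom
  have hφ : ∀ w, φ w = (t.ι₁ p * t.ι₂ q) * w * (t.ι₁ p * t.ι₂ q)⁻¹ := fun w => rfl
  have h1 : ∀ r : Q8, φ (t.ι₁ r) = t.ι₁ (p * r * p⁻¹) := by
    intro r
    rw [hφ, map_mul, map_mul, map_inv]
    have := t.comm r q
    calc t.ι₁ p * t.ι₂ q * t.ι₁ r * (t.ι₁ p * t.ι₂ q)⁻¹
        = t.ι₁ p * (t.ι₂ q * t.ι₁ r) * (t.ι₂ q)⁻¹ * (t.ι₁ p)⁻¹ := by group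
      _ = t.ι₁ p * (t.ι₁ r * t.ι₂ q) * (t.ι₂ q)⁻¹ * (t.ι₁ p)⁻¹ := by rw [this]
      _ = _ := by group
  have h2 : ∀ r : Q8, φ (t.ι₂ r) = t.ι₂ (q * r * q⁻¹) := by
    intro r
    rw [hφ, map_mul, map_mul, map_inv]
    have := t.comm p (q * r * q⁻¹)
    rw [map_mul, map_mul, map_inv] at this
    calc t.ι₁ p * t.ι₂ q * t.ι₂ r * (t.ι₁ p * t.ι₂ q)⁻¹
        = t.ι₁ p * (t.ι₂ q * t.ι₂ r * (t.ι₂ q)⁻¹) * (t.ι₁ p)⁻¹ := by group
      _ = t.ι₂ q * t.ι₂ r * (t.ι₂ q)⁻¹ * t.ι₁ p * (t.ι₁ p)⁻¹ := by rw [this]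
      _ = _ := by group
  have h3 : t.AA i j ≤ (t.AA i j).comap φ := by
    unfold AA
    rw [Subgroup.closure_le]
    rintro w (rfl | rfl)
    · rw [SetLike.mem_coe, Subgroup.mem_comap, h1]
      rcases q8_conj p i with h | h <;> rw [h]
      · exact Subgroup.subset_closure (by simp)
      · rw [map_inv]
        exact Subgroup.inv_mem _ (Subgroup.subset_closure (by simp))
    · rw [SetLike.mem_coe, Subgroup.mem_comap, h2]
      rcases q8_conj q j with h | h <;> rw [h]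
      · exact Subgroup.subset_closure (by simp)
      · rw [map_inv]
        exact Subgroup.inv_mem _ (Subgroup.subset_closure (by simp))
  exact h3 hy

theorem AA_inj {i j i' j' : Fin 3} (h : t.AA i j = t.AA i' j') : i = i' ∧ j = j' := by
  constructor
  · have h1 : t.AA i j ≤ Subgroup.centralizer {t.ι₁ (al i)} := by
      unfold AA
      rw [Subgroup.closure_le]
      rintro w (rfl | rfl) <;> rw [SetLike.mem_coe, Subgroup.mem_centralizer_iff] <;>
        rintro _ rfl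
      · rfl
      · exact t.comm _ _
    have h2 : t.ι₁ (al i') ∈ t.AA i j := by
      rw [h]; exact Subgroup.subset_closure (by simp)
    have h3 := Subgroup.mem_centralizer_iff.1 (h1 h2) _ rfl
    rw [← map_mul, ← map_mul] at h3
    exact q8_al_comm _ _ (t.inj₁ h3)
  · have h1 : t.AA i j ≤ Subgroup.centralizer {t.ι₂ (al j)} := by
      unfold AA
      rw [Subgroup.closure_le]
      rintro w (rfl | rfl) <;> rw [SetLike.mem_coe, Subgroup.mem_centralizer_iff] <;>
        rintro _ rfl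
      · exact (t.comm _ _).symm
      · rfl
    have h2 : t.ι₂ (al j') ∈ t.AA i j := by
      rw [h]; exact Subgroup.subset_closure (by simp)
    have h3 := Subgroup.mem_centralizer_iff.1 (h1 h2) _ rfl
    rw [← map_mul, ← map_mul] at h3
    exact q8_al_comm _ _ (t.inj₂ h3)

theorem shape_conj {A : Subgroup S} (h : t.Shape A) (g : S) :
    t.Shape (A.map (MulAut.conj g).toMonoidHom) := by
  obtain ⟨x, y, hx, hy, hxy, h1, h2, rfl⟩ := h
  have hz : ∀ w : S, w ^ 2 = t.z → (g * w * g⁻¹) ^ 2 = t.z := by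
    intro w hw
    rw [conj_pow, hw, t.zc g]; group
  refine ⟨g * x * g⁻¹, g * y * g⁻¹, hz x hx, hz y hy, ?_, ?_, ?_, ?_⟩
  · calc g * x * g⁻¹ * (g * y * g⁻¹) = g * (x * y) * g⁻¹ := by group
      _ = g * (y * x) * g⁻¹ := by rw [hxy]
      _ = _ := by group
  · intro h
    apply h1
    have := mul_left_cancel (mul_right_cancel h)
    exact this
  · intro h
    apply h2
    have h3 : g * y * g⁻¹ * t.z = g * (y * t.z) * g⁻¹ := by
      calc g * y * g⁻¹ * t.z = g * y * (g⁻¹ * t.z) := by group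
        _ = g * y * (t.z * g⁻¹) := by rw [t.zc g⁻¹]
        _ = _ := by group
    rw [h3] at h
    exact mul_left_cancel (mul_right_cancel h)
  · rw [MonoidHom.map_closure, Set.image_pair]
    rfl


theorem map_eq_of_forward {A : Subgroup S} {x : S} (h1 : ∀ y ∈ A, x * y * x⁻¹ ∈ A)
    (h2 : ∀ y ∈ A, x⁻¹ * y * x⁻¹⁻¹ ∈ A) : A.map (MulAut.conj x).toMonoidHom = A := by
  apply le_antisymm
  · rintro _ ⟨y, hy, rfl⟩
    exact h1 y hy
  · intro y hy
    refine ⟨x⁻¹ * y * x⁻¹⁻¹, h2 y hy, ?_⟩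
    show x * (x⁻¹ * y * x⁻¹⁻¹) * x⁻¹ = y
    group

variable [Finite S]

/-- A subgroup normal in `S` from an odd number of `Q`-invariant ones in an `S`-invariant family. -/
theorem exists_fixed_of_odd (hS : IsPGroup 2 S) (Q : Subgroup S) (X : Set (Subgroup S))
    (hX : ∀ g : S, ∀ A ∈ X, A.map (MulAut.conj g).toMonoidHom ∈ X)
    (hodd : Odd (Nat.card {A // A ∈ X ∧ ∀ x ∈ Q, A.map (MulAut.conj x).toMonoidHom = A})) :
    ∃ A ∈ X, ∀ g : S, A.map (MulAut.conj g).toMonoidHom = A := by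
  have : Fact (Nat.Prime 2) := ⟨Nat.prime_two⟩
  letI act : MulAction S X :=
    { smul := fun g A => ⟨A.1.map (MulAut.conj g).toMonoidHom, hX g A.1 A.2⟩
      one_smul := by
        rintro ⟨A, hA⟩
        apply Subtype.ext
        show A.map (MulAut.conj (1 : S)).toMonoidHom = A
        ext y
        simp
      mul_smul := by
        rintro g h ⟨A, hA⟩
        apply Subtype.ext
        show A.map (MulAut.conj (g * h)).toMonoidHom =
          (A.map (MulAut.conj h).toMonoidHom).map (MulAut.conj g).toMonoidHom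
        rw [Subgroup.map_map]
        congr 1
        ext y
        simp [mul_assoc] }
  have hsmul : ∀ (g : S) (A : X), ((g • A : X) : Subgroup S) = A.1.map (MulAut.conj g).toMonoidHom :=
    fun _ _ => rfl
  have h1 := (hS.to_subgroup Q).card_modEq_card_fixedPoints (α := X)
  have h2 := hS.card_modEq_card_fixedPoints (α := X)
  have h3 : Nat.card (MulAction.fixedPoints Q X) =
      Nat.card {A // A ∈ X ∧ ∀ x ∈ Q, A.map (MulAut.conj x).toMonoidHom = A} := by
    apply Nat.card_congr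
    refine ⟨fun A => ⟨A.1.1, A.1.2, fun x hx => ?_⟩, fun A => ⟨⟨A.1, A.2.1⟩, fun x => ?_⟩, ?_, ?_⟩
    · have := A.2 ⟨x, hx⟩
      exact congrArg Subtype.val this
    · apply Subtype.ext
      exact A.2.2 x.1 x.2
    · intro A; rfl
    · intro A; rfl
  rw [h3] at h1
  have h4 : Odd (Nat.card (MulAction.fixedPoints S X)) := by
    rw [Nat.odd_iff] at hodd ⊢
    have h5 := h1.symm.trans h2
    unfold Nat.ModEq at h5
    omega
  have h5 : Nonempty (MulAction.fixedPoints S X) := by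
    by_contra hne
    rw [not_nonempty_iff] at hne
    rw [Nat.card_of_isEmpty] at h4
    exact absurd h4 (by decide)
  obtain ⟨⟨A, hA⟩⟩ := h5
  refine ⟨A.1, A.2, fun g => ?_⟩
  exact congrArg Subtype.val (hA g)

/-- Some `⟨a₁, a₂⟩` is normal in `S`. -/
theorem exists_normal (hS : IsPGroup 2 S) :
    ∃ i j, ∀ g : S, (t.AA i j).map (MulAut.conj g).toMonoidHom = t.AA i j := by
  have hcard : Nat.card {A // A ∈ {A | t.Shape A} ∧ ∀ x ∈ t.Q, A.map (MulAut.conj x).toMonoidHom = A} = 9 := by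
    have hb : Function.Bijective (fun ij : Fin 3 × Fin 3 =>
        (⟨t.AA ij.1 ij.2, t.AA_shape _ _, fun x hx => map_eq_of_forward
          (fun y hy => t.AA_fix _ _ hx hy) (fun y hy => t.AA_fix _ _ (t.Q.inv_mem hx) hy)⟩ :
        {A // A ∈ {A | t.Shape A} ∧ ∀ x ∈ t.Q, A.map (MulAut.conj x).toMonoidHom = A})) := by
      constructor
      · rintro ⟨i, j⟩ ⟨i', j'⟩ h
        have h1 := t.AA_inj (congrArg Subtype.val h)
        rw [Prod.mk.injEq]
        exact h1
      · rintro ⟨A, ⟨x, y, hx, hy, hxy, h1, h2, rfl⟩, hfix⟩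
        have hf : ∀ g ∈ t.Q, ∀ w ∈ Subgroup.closure {x, y},
            g * w * g⁻¹ ∈ Subgroup.closure {x, y} := by
          intro g hg w hw
          have := hfix g hg
          rw [← this]
          exact ⟨w, hw, rfl⟩
        obtain ⟨i, j, hij⟩ := t.fixed_form hx hy hxy h1 h2 hf
        refine ⟨(i, j), ?_⟩
        apply Subtype.ext
        exact hij.symm
    rw [← Nat.card_congr (Equiv.ofBijective _ hb)]
    simp
  obtain ⟨A, ⟨x, y, hx, hy, hxy, h1, h2, rfl⟩, hg⟩ := exists_fixed_of_odd hS t.Q {A | t.Shape A}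
    (fun g A hA => t.shape_conj hA g) (by rw [hcard]; decide)
  have hf : ∀ g ∈ t.Q, ∀ w ∈ Subgroup.closure {x, y},
      g * w * g⁻¹ ∈ Subgroup.closure {x, y} := by
    intro g _ w hw
    have := hg g
    rw [← this]
    exact ⟨w, hw, rfl⟩
  obtain ⟨i, j, hij⟩ := t.fixed_form hx hy hxy h1 h2 hf
  refine ⟨i, j, fun g => ?_⟩
  rw [← hij]
  exact hg g

end QQ

end Cfsg.Agent.Lib.QQFixed
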