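import Mathlib
import Cfsg.Agent.Lib.E8SectB
import Cfsg.Agent.Lib.CycMax2
import Cfsg.Agent.S1233

/-!
# A self-centralizing elementary abelian subgroup of order eight: the extraspecial case
-/

set_option autoImplicit false

namespace Cfsg.Agent.Lib.E8Sect

open Cfsg.Agent.Lib.SectRank Cfsg.Agent.Lib.SectE16 Cfsg.Agent.Lib.WrInvB Cfsg.Agent.Lib.WrInvA
open Cfsg.Agent.Lib.QQFixed Cfsg.Agent.Lib.CycMax2 Cfsg.Agent.Lib.DihedralIso

variable {S : Type*} [Group S]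

/-- The relations of the extraspecial group. -/
structure EX (z y a v w : S) : Prop where
  zz : z * z = 1
  yy : y * y = 1
  aa : a * a = 1
  vv : v * v = 1
  ww : w * w = 1
  yz : y * z = z * y
  az : a * z = z * a
  vz : v * z = z * v
  wz : w * z = z * w
  ay : a * y = y * a
  vy : v * y = z * (y * v)
  wy : w * y = y * w
  va : v * a = a * v
  wa : w * a = z * (a * w)
  wv : w * v = v * w

namespace EX

variable {z y a v w : S} (e : EX z y a v w)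

include e

theorem t_yz (t : S) : y * (z * t) = z * (y * t) := by rw [← mul_assoc, e.yz, mul_assoc]
theorem t_az (t : S) : a * (z * t) = z * (a * t) := by rw [← mul_assoc, e.az, mul_assoc]
theorem t_vz (t : S) : v * (z * t) = z * (v * t) := by rw [← mul_assoc, e.vz, mul_assoc]
theorem t_wz (t : S) : w * (z * t) = z * (w * t) := by rw [← mul_assoc, e.wz, mul_assoc]
theorem t_ay (t : S) : a * (y * t) = y * (a * t) := by rw [← mul_assoc, e.ay, mul_assoc]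
theorem t_vy (t : S) : v * (y * t) = z * (y * (v * t)) := by
  rw [← mul_assoc, e.vy, mul_assoc, mul_assoc]
theorem t_wy (t : S) : w * (y * t) = y * (w * t) := by rw [← mul_assoc, e.wy, mul_assoc]
theorem t_va (t : S) : v * (a * t) = a * (v * t) := by rw [← mul_assoc, e.va, mul_assoc]
theorem t_wa (t : S) : w * (a * t) = z * (a * (w * t)) := by
  rw [← mul_assoc, e.wa, mul_assoc, mul_assoc]
theorem t_wv (t : S) : w * (v * t) = v * (w * t) := by rw [← mul_assoc, e.wv, mul_assoc]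
theorem t_zz (t : S) : z * (z * t) = t := by rw [← mul_assoc, e.zz, one_mul]
theorem t_yy (t : S) : y * (y * t) = t := by rw [← mul_assoc, e.yy, one_mul]
theorem t_aa (t : S) : a * (a * t) = t := by rw [← mul_assoc, e.aa, one_mul]
theorem t_vv (t : S) : v * (v * t) = t := by rw [← mul_assoc, e.vv, one_mul]
theorem t_ww (t : S) : w * (w * t) = t := by rw [← mul_assoc, e.ww, one_mul]

/-- Elements with square `z`: the inverse. -/
theorem inv_of_sq {x : S} (hx : x * x = z) (hxz : x * z = z * x) : x⁻¹ = z * x := by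
  apply inv_eq_of_mul_eq_one_right
  rw [← mul_assoc, hxz, mul_assoc, hx, e.zz]

theorem s1 : (y * v) * (y * v) = z := by
  simp only [mul_assoc, e.yz, e.az, e.vz, e.wz, e.ay, e.vy, e.wy, e.va, e.wa, e.wv, e.zz, e.yy, e.aa, e.vv, e.ww, e.t_yz, e.t_az, e.t_vz, e.t_wz, e.t_ay, e.t_vy, e.t_wy, e.t_va, e.t_wa, e.t_wv, e.t_zz, e.t_yy, e.t_aa, e.t_vv, e.t_ww, mul_one, one_mul]

theorem s2 : (y * a * w) * (y * a * w) = z := by
  simp only [mul_assoc, e.yz, e.az, e.vz, e.wz, e.ay, e.vy, e.wy, e.va, e.wa, e.wv, e.zz, e.yy, e.aa, e.vv, e.ww, e.t_yz, e.t_az, e.t_vz, e.t_wz, e.t_ay, e.t_vy, e.t_wy, e.t_va, e.t_wa, e.t_wv, e.t_zz, e.t_yy, e.t_aa, e.t_vv, e.t_ww, mul_one, one_mul]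

theorem s3 : (a * w) * (a * w) = z := by
  simp only [mul_assoc, e.yz, e.az, e.vz, e.wz, e.ay, e.vy, e.wy, e.va, e.wa, e.wv, e.zz, e.yy, e.aa, e.vv, e.ww, e.t_yz, e.t_az, e.t_vz, e.t_wz, e.t_ay, e.t_vy, e.t_wy, e.t_va, e.t_wa, e.t_wv, e.t_zz, e.t_yy, e.t_aa, e.t_vv, e.t_ww, mul_one, one_mul]

theorem s4 : (y * v * a) * (y * v * a) = z := by
  simp only [mul_assoc, e.yz, e.az, e.vz, e.wz, e.ay, e.vy, e.wy, e.va, e.wa, e.wv, e.zz, e.yy, e.aa, e.vv, e.ww, e.t_yz, e.t_az, e.t_vz, e.t_wz, e.t_ay, e.t_vy, e.t_wy, e.t_va, e.t_wa, e.t_wv, e.t_zz, e.t_yy, e.t_aa, e.t_vv, e.t_ww, mul_one, one_mul]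

theorem c11 : (y * v) * (a * w) = (a * w) * (y * v) := by simp only [mul_assoc, e.yz, e.az, e.vz, e.wz, e.ay, e.vy, e.wy, e.va, e.wa, e.wv, e.zz, e.yy, e.aa, e.vv, e.ww, e.t_yz, e.t_az, e.t_vz, e.t_wz, e.t_ay, e.t_vy, e.t_wy, e.t_va, e.t_wa, e.t_wv, e.t_zz, e.t_yy, e.t_aa, e.t_vv, e.t_ww, mul_one, one_mul]
theorem c12 : (y * v) * (y * v * a) = (y * v * a) * (y * v) := by simp only [mul_assoc, e.yz, e.az, e.vz, e.wz, e.ay, e.vy, e.wy, e.va, e.wa, e.wv, e.zz, e.yy, e.aa, e.vv, e.ww, e.t_yz, e.t_az, e.t_vz, e.t_wz, e.t_ay, e.t_vy, e.t_wy, e.t_va, e.t_wa, e.t_wv, e.t_zz, e.t_yy, e.t_aa, e.t_vv, e.t_ww, mul_one, one_mul]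
theorem c21 : (y * a * w) * (a * w) = (a * w) * (y * a * w) := by simp only [mul_assoc, e.yz, e.az, e.vz, e.wz, e.ay, e.vy, e.wy, e.va, e.wa, e.wv, e.zz, e.yy, e.aa, e.vv, e.ww, e.t_yz, e.t_az, e.t_vz, e.t_wz, e.t_ay, e.t_vy, e.t_wy, e.t_va, e.t_wa, e.t_wv, e.t_zz, e.t_yy, e.t_aa, e.t_vv, e.t_ww, mul_one, one_mul]
theorem c22 : (y * a * w) * (y * v * a) = (y * v * a) * (y * a * w) := by simp only [mul_assoc, e.yz, e.az, e.vz, e.wz, e.ay, e.vy, e.wy, e.va, e.wa, e.wv, e.zz, e.yy, e.aa, e.vv, e.ww, e.t_yz, e.t_az, e.t_vz, e.t_wz, e.t_ay, e.t_vy, e.t_wy, e.t_va, e.t_wa, e.t_wv, e.t_zz, e.t_yy, e.t_aa, e.t_vv, e.t_ww, mul_one, one_mul]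

theorem r1 : (a * w) * (y * a * w) * z = y := by simp only [mul_assoc, e.yz, e.az, e.vz, e.wz, e.ay, e.vy, e.wy, e.va, e.wa, e.wv, e.zz, e.yy, e.aa, e.vv, e.ww, e.t_yz, e.t_az, e.t_vz, e.t_wz, e.t_ay, e.t_vy, e.t_wy, e.t_va, e.t_wa, e.t_wv, e.t_zz, e.t_yy, e.t_aa, e.t_vv, e.t_ww, mul_one, one_mul]
theorem r2 : (y * v) * (y * v * a) * z = a := by simp only [mul_assoc, e.yz, e.az, e.vz, e.wz, e.ay, e.vy, e.wy, e.va, e.wa, e.wv, e.zz, e.yy, e.aa, e.vv, e.ww, e.t_yz, e.t_az, e.t_vz, e.t_wz, e.t_ay, e.t_vy, e.t_wy, e.t_va, e.t_wa, e.t_wv, e.t_zz, e.t_yy, e.t_aa, e.t_vv, e.t_ww, mul_one, one_mul]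

theorem q1 : (y * a * w) * (y * v) = z * ((y * v) * (y * a * w)) := by simp only [mul_assoc, e.yz, e.az, e.vz, e.wz, e.ay, e.vy, e.wy, e.va, e.wa, e.wv, e.zz, e.yy, e.aa, e.vv, e.ww, e.t_yz, e.t_az, e.t_vz, e.t_wz, e.t_ay, e.t_vy, e.t_wy, e.t_va, e.t_wa, e.t_wv, e.t_zz, e.t_yy, e.t_aa, e.t_vv, e.t_ww, mul_one, one_mul]
theorem q2 : (y * v * a) * (a * w) = z * ((a * w) * (y * v * a)) := by simp only [mul_assoc, e.yz, e.az, e.vz, e.wz, e.ay, e.vy, e.wy, e.va, e.wa, e.wv, e.zz, e.yy, e.aa, e.vv, e.ww, e.t_yz, e.t_az, e.t_vz, e.t_wz, e.t_ay, e.t_vy, e.t_wy, e.t_va, e.t_wa, e.t_wv, e.t_zz, e.t_yy, e.t_aa, e.t_vv, e.t_ww, mul_one, one_mul]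

end EX

theorem q8_pow : ∀ p : Q8, p ≠ 1 → p = QuaternionGroup.a 2 ∨ p ^ 2 = QuaternionGroup.a 2 := by decide

/-- The quaternion group from a pair of elements. -/
theorem exists_q8 (ζ t z : S) (h1 : ζ * ζ = z) (h2 : t * t = z) (hzz : z * z = 1)
    (q : t * ζ = z * (ζ * t)) (hz1 : z ≠ 1) :
    ∃ f : Q8 →* S, Function.Injective f ∧ f (QuaternionGroup.a 1) = ζ ∧
      f (QuaternionGroup.xa 0) = t ∧ f (QuaternionGroup.a 2) = z ∧
      ∀ g, g * ζ = ζ * g → g * t = t * g → ∀ p, g * f p = f p * g := by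
  have hζ : ζ ^ (2 * 2) = 1 := by
    calc ζ ^ (2 * 2) = (ζ * ζ) * (ζ * ζ) := by simp only [pow_succ, pow_zero, one_mul]; group
      _ = 1 := by rw [h1, hzz]
  have ht : t * t = ζ ^ 2 := by rw [h2, pow_two, h1]
  have htz : t * z = z * t := by rw [← h2]; group
  have hζz : ζ * z = z * ζ := by rw [← h1]; group
  have iζ : ζ⁻¹ = z * ζ := by
    apply inv_eq_of_mul_eq_one_right
    rw [← mul_assoc, hζz, mul_assoc, h1, hzz]
  have it : t⁻¹ = z * t := by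
    apply inv_eq_of_mul_eq_one_right
    rw [← mul_assoc, htz, mul_assoc, h2, hzz]
  have hconj : t * ζ * t⁻¹ = ζ⁻¹ := by
    rw [iζ, it, q]
    calc z * (ζ * t) * (z * t) = z * ζ * (t * z) * t := by group
      _ = z * ζ * (z * t) * t := by rw [htz]
      _ = z * (ζ * z) * (t * t) := by group
      _ = z * (z * ζ) * z := by rw [hζz, h2]
      _ = (z * z) * (ζ * z) := by group
      _ = z * ζ := by rw [hzz, one_mul, hζz]
  let f : Q8 →* S := quaternionHom 2 ζ t hζ ht hconj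
  have f1 : f (QuaternionGroup.a 1) = ζ := by
    show ζ ^ ((1 : ZMod (2 * 2)).val) = ζ
    exact pow_one ζ
  have f2 : f (QuaternionGroup.xa 0) = t := by
    show t * ζ ^ ((0 : ZMod (2 * 2)).val) = t
    simp
  have f3 : f (QuaternionGroup.a 2) = z := by
    show ζ ^ ((2 : ZMod (2 * 2)).val) = z
    rw [show (2 : ZMod (2 * 2)).val = 2 from rfl, pow_two, h1]
  refine ⟨f, ?_, f1, f2, f3, ?_⟩
  · rw [injective_iff_map_eq_one]
    intro p hp
    by_contra hne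
    apply hz1
    rcases q8_pow p hne with hk | hk
    · rw [← f3, ← hk, hp]
    · rw [← f3, ← hk, map_pow, hp, one_pow]
  · intro g hg1 hg2 p
    have c1 : Commute g ζ := hg1
    have c2 : Commute g t := hg2
    rcases p with i | i
    · exact c1.pow_right _
    · exact c2.mul_right (c1.pow_right _)

variable [Finite S]

namespace EX

variable {z y a v w : S} (e : EX z y a v w)

include e

/-- The conclusion from the relations. -/
theorem sectional {A : Subgroup S} (d : Fl A z y a) (hS : IsPGroup 2 S) :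
    Cfsg.SectionalPRankLE 2 4 S := by
  obtain ⟨f₁, inj₁, h11, h12, h13, hc₁⟩ := exists_q8 (y * v) (y * a * w) z e.s1 e.s2 e.zz e.q1 d.z1
  obtain ⟨f₂, inj₂, h21, h22, h23, hc₂⟩ := exists_q8 (a * w) (y * v * a) z e.s3 e.s4 e.zz e.q2 d.z1
  have c3 : ∀ p, (a * w) * f₁ p = f₁ p * (a * w) :=
    hc₁ _ e.c11.symm e.c21.symm
  have c4 : ∀ p, (y * v * a) * f₁ p = f₁ p * (y * v * a) :=
    hc₁ _ e.c12.symm e.c22.symm
  have comm : ∀ p q, f₁ p * f₂ q = f₂ q * f₁ p := by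
    intro p q
    exact hc₂ _ (c3 p).symm (c4 p).symm q
  have comm' : ∀ p q, Commute (f₁ p) (f₂ q) := comm
  let F : Q8 × Q8 →* S := f₁.noncommCoprod f₂ comm'
  have hF : ∀ p q, F (p, q) = f₁ p * f₂ q := fun p q => rfl
  have hrange : F.range = f₁.range ⊔ f₂.range := MonoidHom.noncommCoprod_range f₁ f₂ comm'
  have hker : ∀ p q, f₁ p * f₂ q = 1 → (p = 1 ∧ q = 1) ∨
      (p = QuaternionGroup.a 2 ∧ q = QuaternionGroup.a 2) := by
    intro p q h
    have h1 : f₁ p = f₂ q⁻¹ := by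
      rw [map_inv]
      exact eq_inv_of_mul_eq_one_left h
    have hcen : ∀ r, p * r = r * p := by
      intro r
      apply inj₁
      rw [map_mul, map_mul, h1]
      exact (comm r q⁻¹).symm
    rcases q8_central p hcen with rfl | rfl
    · left
      refine ⟨rfl, ?_⟩
      rw [map_one, one_mul] at h
      exact inj₂ (by rw [h, map_one])
    · right
      refine ⟨rfl, ?_⟩
      rw [h13] at h
      apply inj₂
      rw [h23]
      have h2 : z * (z * f₂ q) = z * 1 := by rw [h]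
      rw [← mul_assoc, e.zz, one_mul, mul_one] at h2
      exact h2
  have hkerc : Nat.card F.ker = 2 := by
    rw [Nat.card_eq_two_iff' (1 : F.ker)]
    have hmem : ((QuaternionGroup.a 2, QuaternionGroup.a 2) : Q8 × Q8) ∈ F.ker := by
      rw [MonoidHom.mem_ker, hF, h13, h23, e.zz]
    refine ⟨⟨_, hmem⟩, ?_, ?_⟩
    · intro h
      have h1 := congrArg (fun x : F.ker => (x : Q8 × Q8).1) h
      exact q8_zne h1
    · rintro ⟨⟨p, q⟩, hpq⟩ hne
      rw [MonoidHom.mem_ker, hF] at hpq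
      rcases hker p q hpq with ⟨rfl, rfl⟩ | ⟨rfl, rfl⟩
      · exact absurd rfl hne
      · rfl
  have hQ32 : Nat.card ↥(f₁.range ⊔ f₂.range) = 32 := by
    have h1 := F.ker.card_mul_index
    rw [Subgroup.index_ker, hrange, hkerc, Nat.card_prod] at h1
    have h2 : Nat.card Q8 = 8 := by
      rw [Nat.card_eq_fintype_card]; rfl
    rw [h2] at h1
    omega
  have hmem₁ : ∀ p, f₁ p ∈ f₁.range ⊔ f₂.range := fun p =>
    (le_sup_left : f₁.range ≤ f₁.range ⊔ f₂.range) ⟨p, rfl⟩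
  have hmem₂ : ∀ p, f₂ p ∈ f₁.range ⊔ f₂.range := fun p =>
    (le_sup_right : f₂.range ≤ f₁.range ⊔ f₂.range) ⟨p, rfl⟩
  have hzQ : z ∈ f₁.range ⊔ f₂.range := h13 ▸ hmem₁ _
  have hζ₁Q : y * v ∈ f₁.range ⊔ f₂.range := h11 ▸ hmem₁ _
  have ht₁Q : y * a * w ∈ f₁.range ⊔ f₂.range := h12 ▸ hmem₁ _
  have hζ₂Q : a * w ∈ f₁.range ⊔ f₂.range := h21 ▸ hmem₂ _
  have ht₂Q : y * v * a ∈ f₁.range ⊔ f₂.range := h22 ▸ hmem₂ _
  have hyQ : y ∈ f₁.range ⊔ f₂.range := by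
    rw [← e.r1]
    exact mul_mem (mul_mem hζ₂Q ht₁Q) hzQ
  have haQ : a ∈ f₁.range ⊔ f₂.range := by
    rw [← e.r2]
    exact mul_mem (mul_mem hζ₁Q ht₂Q) hzQ
  have hC : Subgroup.centralizer ((f₁.range ⊔ f₂.range : Subgroup S) : Set S) ≤
      f₁.range ⊔ f₂.range := by
    intro g hg
    rw [Subgroup.mem_centralizer_iff] at hg
    have hgA : g ∈ A := d.cen g (hg z hzQ).symm (hg y hyQ).symm (hg a haQ).symm
    rcases d.gen g hgA with h | h | h | h | h | h | h | h <;> subst h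
    · exact one_mem _
    · exact hzQ
    · exact hyQ
    · exact mul_mem hyQ hzQ
    · exact haQ
    · exact mul_mem haQ hzQ
    · exact mul_mem haQ hyQ
    · exact mul_mem (mul_mem haQ hyQ) hzQ
  exact Cfsg.Agent.S1233.result hS _ f₁.range f₂.range (MonoidHom.ofInjective inj₁).symm
    (MonoidHom.ofInjective inj₂).symm
    (by
      rintro _ ⟨p, rfl⟩ _ ⟨q, rfl⟩
      exact comm p q) rfl hQ32 hC

end EX

end Cfsg.Agent.Lib.E8Sect
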