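import Mathlib
import Cfsg.Agent.Lib.E8SectC

/-!
# A self-centralizing elementary abelian subgroup of order eight: the end of the proof
-/

set_option autoImplicit false

namespace Cfsg.Agent.Lib.E8Sect

open Cfsg.Agent.Lib.SectRank Cfsg.Agent.Lib.SectE16 Cfsg.Agent.Lib.WrInvB Cfsg.Agent.Lib.WrInvA

variable {S : Type*} [Group S]

/-- The relations before normalization. -/
structure EY (z y a v w : S) : Prop where
  zz : z * z = 1
  yy : y * y = 1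
  aa : a * a = 1
  yz : y * z = z * y
  az : a * z = z * a
  vz : v * z = z * v
  wz : w * z = z * w
  ay : a * y = y * a
  vy : v * y = z * (y * v)
  wy : w * y = y * w
  va : v * a = a * v
  wa : w * a = z * (a * w)

namespace EY

variable {z y a v w : S} (e : EY z y a v w)

include e

theorem t_yz (t : S) : y * (z * t) = z * (y * t) := by rw [← mul_assoc, e.yz, mul_assoc]
theorem t_az (t : S) : a * (z * t) = z * (a * t) := by rw [← mul_assoc, e.az, mul_assoc]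
theorem t_vz (t : S) : v * (z * t) = z * (v * t) := by rw [← mul_assoc, e.vz, mul_assoc]
theorem t_wz (t : S) : w * (z * t) = z * (w * t) := by rw [← mul_assoc, e.wz, mul_assoc]
theorem t_ay (t : S) : a * (y * t) = y * (a * t) := by rw [← mul_assoc, e.ay, mul_assoc]
theorem t_vy (t : S) : v * (y * t) = z * (y * (v * t)) := by
  rw [← mul_assoc, e.vy, mul_assoc, mul_assoc]
theorem t_wy (t : S) : w * (y * t) = y * (w * t) := by rw [← mul_assoc, e.wy, mul_assoc]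
theorem t_va (t : S) : v * (a * t) = a * (v * t) := by rw [← mul_assoc, e.va, mul_assoc]
theorem t_wa (t : S) : w * (a * t) = z * (a * (w * t)) := by
  rw [← mul_assoc, e.wa, mul_assoc, mul_assoc]
theorem t_zz (t : S) : z * (z * t) = t := by rw [← mul_assoc, e.zz, one_mul]
theorem t_yy (t : S) : y * (y * t) = t := by rw [← mul_assoc, e.yy, one_mul]
theorem t_aa (t : S) : a * (a * t) = t := by rw [← mul_assoc, e.aa, one_mul]

theorem w_y : EY z y a v (w * y) :=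
  { zz := e.zz, yy := e.yy, aa := e.aa, yz := e.yz, az := e.az, vz := e.vz, ay := e.ay, vy := e.vy,
    va := e.va
    wz := by simp only [mul_assoc, e.yz, e.az, e.vz, e.wz, e.ay, e.vy, e.wy, e.va, e.wa, e.zz, e.yy, e.aa, e.t_yz, e.t_az, e.t_vz, e.t_wz, e.t_ay, e.t_vy, e.t_wy, e.t_va, e.t_wa, e.t_zz, e.t_yy, e.t_aa, mul_one, one_mul]
    wy := by simp only [mul_assoc, e.yz, e.az, e.vz, e.wz, e.ay, e.vy, e.wy, e.va, e.wa, e.zz, e.yy, e.aa, e.t_yz, e.t_az, e.t_vz, e.t_wz, e.t_ay, e.t_vy, e.t_wy, e.t_va, e.t_wa, e.t_zz, e.t_yy, e.t_aa, mul_one, one_mul]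
    wa := by simp only [mul_assoc, e.yz, e.az, e.vz, e.wz, e.ay, e.vy, e.wy, e.va, e.wa, e.zz, e.yy, e.aa, e.t_yz, e.t_az, e.t_vz, e.t_wz, e.t_ay, e.t_vy, e.t_wy, e.t_va, e.t_wa, e.t_zz, e.t_yy, e.t_aa, mul_one, one_mul] }

theorem v_y : EY z y a (v * y) w :=
  { zz := e.zz, yy := e.yy, aa := e.aa, yz := e.yz, az := e.az, wz := e.wz, ay := e.ay, wy := e.wy,
    wa := e.wa
    vz := by simp only [mul_assoc, e.yz, e.az, e.vz, e.wz, e.ay, e.vy, e.wy, e.va, e.wa, e.zz, e.yy, e.aa, e.t_yz, e.t_az, e.t_vz, e.t_wz, e.t_ay, e.t_vy, e.t_wy, e.t_va, e.t_wa, e.t_zz, e.t_yy, e.t_aa, mul_one, one_mul]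
    vy := by simp only [mul_assoc, e.yz, e.az, e.vz, e.wz, e.ay, e.vy, e.wy, e.va, e.wa, e.zz, e.yy, e.aa, e.t_yz, e.t_az, e.t_vz, e.t_wz, e.t_ay, e.t_vy, e.t_wy, e.t_va, e.t_wa, e.t_zz, e.t_yy, e.t_aa, mul_one, one_mul]
    va := by simp only [mul_assoc, e.yz, e.az, e.vz, e.wz, e.ay, e.vy, e.wy, e.va, e.wa, e.zz, e.yy, e.aa, e.t_yz, e.t_az, e.t_vz, e.t_wz, e.t_ay, e.t_vy, e.t_wy, e.t_va, e.t_wa, e.t_zz, e.t_yy, e.t_aa, mul_one, one_mul] }

theorem w_a : EY z y a v (w * a) :=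
  { zz := e.zz, yy := e.yy, aa := e.aa, yz := e.yz, az := e.az, vz := e.vz, ay := e.ay, vy := e.vy,
    va := e.va
    wz := by simp only [mul_assoc, e.yz, e.az, e.vz, e.wz, e.ay, e.vy, e.wy, e.va, e.wa, e.zz, e.yy, e.aa, e.t_yz, e.t_az, e.t_vz, e.t_wz, e.t_ay, e.t_vy, e.t_wy, e.t_va, e.t_wa, e.t_zz, e.t_yy, e.t_aa, mul_one, one_mul]
    wy := by simp only [mul_assoc, e.yz, e.az, e.vz, e.wz, e.ay, e.vy, e.wy, e.va, e.wa, e.zz, e.yy, e.aa, e.t_yz, e.t_az, e.t_vz, e.t_wz, e.t_ay, e.t_vy, e.t_wy, e.t_va, e.t_wa, e.t_zz, e.t_yy, e.t_aa, mul_one, one_mul]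
    wa := by simp only [mul_assoc, e.yz, e.az, e.vz, e.wz, e.ay, e.vy, e.wy, e.va, e.wa, e.zz, e.yy, e.aa, e.t_yz, e.t_az, e.t_vz, e.t_wz, e.t_ay, e.t_vy, e.t_wy, e.t_va, e.t_wa, e.t_zz, e.t_yy, e.t_aa, mul_one, one_mul] }

/-- Normalization. -/
theorem adjust (hvv : v * v = 1 ∨ v * v = z) (hww : w * w = 1 ∨ w * w = z)
    (hc : w * v = v * w ∨ w * v = z * (v * w)) : ∃ v' w', EX z y a v' w' := by
  obtain ⟨w₁, e₁, hw₁, hc₁⟩ : ∃ w₁, EY z y a v w₁ ∧ (w₁ * w₁ = 1 ∨ w₁ * w₁ = z) ∧ w₁ * v = v * w₁ := by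
    rcases hc with hc | hc
    · exact ⟨w, e, hww, hc⟩
    · refine ⟨w * y, e.w_y, ?_, ?_⟩
      · have h1 : w * y * (w * y) = w * w := by
          simp only [mul_assoc, e.yz, e.az, e.vz, e.wz, e.ay, e.vy, e.wy, e.va, e.wa, e.zz, e.yy, e.aa, e.t_yz, e.t_az, e.t_vz, e.t_wz, e.t_ay, e.t_vy, e.t_wy, e.t_va, e.t_wa, e.t_zz, e.t_yy, e.t_aa, mul_one, one_mul]
        rw [h1]; exact hww
      · have hyv : y * v = z * (v * y) := by rw [e.vy, e.t_zz]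
        calc w * y * v = w * (y * v) := by group
          _ = w * (z * (v * y)) := by rw [hyv]
          _ = z * ((w * v) * y) := by rw [e.t_wz]; group
          _ = z * ((z * (v * w)) * y) := by rw [hc]
          _ = (z * z) * (v * (w * y)) := by group
          _ = v * (w * y) := by rw [e.zz, one_mul]
  obtain ⟨v₁, e₂, hv₁, hc₂⟩ : ∃ v₁, EY z y a v₁ w₁ ∧ v₁ * v₁ = 1 ∧ w₁ * v₁ = v₁ * w₁ := by
    rcases hvv with hvv | hvv
    · exact ⟨v, e₁, hvv, hc₁⟩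
    · refine ⟨v * y, e₁.v_y, ?_, ?_⟩
      · simp only [mul_assoc, e₁.yz, e₁.az, e₁.vz, e₁.wz, e₁.ay, e₁.vy, e₁.wy, e₁.va, e₁.wa, e₁.zz, e₁.yy, e₁.aa, e₁.t_yz, e₁.t_az, e₁.t_vz, e₁.t_wz, e₁.t_ay, e₁.t_vy, e₁.t_wy, e₁.t_va, e₁.t_wa, e₁.t_zz, e₁.t_yy, e₁.t_aa, mul_one, one_mul, hvv]
      · rw [← mul_assoc, hc₁, mul_assoc, e₁.wy, mul_assoc]
  obtain ⟨w₂, e₃, hw₂, hc₃⟩ : ∃ w₂, EY z y a v₁ w₂ ∧ w₂ * w₂ = 1 ∧ w₂ * v₁ = v₁ * w₂ := by
    rcases hw₁ with hw₁ | hw₁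
    · exact ⟨w₁, e₂, hw₁, hc₂⟩
    · refine ⟨w₁ * a, e₂.w_a, ?_, ?_⟩
      · simp only [mul_assoc, e₂.yz, e₂.az, e₂.vz, e₂.wz, e₂.ay, e₂.vy, e₂.wy, e₂.va, e₂.wa, e₂.zz, e₂.yy, e₂.aa, e₂.t_yz, e₂.t_az, e₂.t_vz, e₂.t_wz, e₂.t_ay, e₂.t_vy, e₂.t_wy, e₂.t_va, e₂.t_wa, e₂.t_zz, e₂.t_yy, e₂.t_aa, mul_one, one_mul, hw₁]
      · rw [mul_assoc, ← e₂.va, ← mul_assoc, hc₂, mul_assoc]
  exact ⟨v₁, w₂, e₃.zz, e₃.yy, e₃.aa, hv₁, hw₂, e₃.yz, e₃.az, e₃.vz, e₃.wz, e₃.ay, e₃.vy, e₃.wy, e₃.va,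
    e₃.wa, hc₃⟩

end EY

variable [Finite S]

namespace Fl

variable {A : Subgroup S} {z y a : S} (d : Fl A z y a)

include d

omit [Finite S] d in
/-- Same action. -/
theorem comm_of_same {g g' x x' : S} (h1 : g * x = x' * g) (h2 : g' * x = x' * g') :
    (g' * g⁻¹) * x' = x' * (g' * g⁻¹) := by
  have h3 : g⁻¹ * x' = x * g⁻¹ := by
    rw [inv_mul_eq_iff_eq_mul, ← mul_assoc, h1]; group
  calc g' * g⁻¹ * x' = g' * (g⁻¹ * x') := by group
    _ = g' * (x * g⁻¹) := by rw [h3]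
    _ = (g' * x) * g⁻¹ := by group
    _ = x' * g' * g⁻¹ := by rw [h2]
    _ = _ := by group

/-- The remaining case: all squares are in `⟨z⟩`. -/
theorem caseE (hS : IsPGroup 2 S) {r₁ r₂ : S} (hr₁ : r₁ ∈ Subgroup.normalizer (A : Set S))
    (hr₂ : r₂ ∈ Subgroup.normalizer (A : Set S)) (hy₁ : r₁ * y * r₁⁻¹ = y * z) (ha₁ : r₁ * a = a * r₁)
    (hs₁ : r₁ ^ 2 = 1 ∨ r₁ ^ 2 = z) (hy₂ : r₂ * y * r₂⁻¹ = y * z)
    (ha₂ : r₂ * (a * y) = a * y * r₂) (hs₂ : r₂ ^ 2 = 1 ∨ r₂ ^ 2 = z) :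
    Cfsg.SectionalPRankLE 2 4 S := by
  rw [pow_two] at hs₁ hs₂
  have hzz := d.r_zz
  have hyy := d.r_yy
  have haa := d.r_aa
  have hzy : y * z = z * y := d.r_zy.symm
  have hza : a * z = z * a := d.r_za.symm
  have hya : a * y = y * a := d.r_ya.symm
  have r₁z : r₁ * z = z * r₁ := mul_inv_eq_iff_eq_mul.1 (d.Tz r₁ hr₁)
  have r₂z : r₂ * z = z * r₂ := mul_inv_eq_iff_eq_mul.1 (d.Tz r₂ hr₂)
  have r₁y : r₁ * y = z * (y * r₁) := by
    have := mul_inv_eq_iff_eq_mul.1 hy₁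
    rw [this, hzy, mul_assoc]
  have r₂y : r₂ * y = z * (y * r₂) := by
    have := mul_inv_eq_iff_eq_mul.1 hy₂
    rw [this, hzy, mul_assoc]
  have r₂a : r₂ * a = z * (a * r₂) := by
    apply mul_right_cancel (b := y)
    calc r₂ * a * y = r₂ * (a * y) := by group
      _ = a * y * r₂ := ha₂
      _ = a * (z * z) * (y * r₂) := by rw [hzz]; group
      _ = a * z * (z * (y * r₂)) := by group
      _ = z * a * (r₂ * y) := by rw [hza, r₂y]
      _ = _ := by group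
  -- The relations for `r₁`, `r₁ r₂`.
  have e0 : EY z y a r₁ (r₁ * r₂) :=
    { zz := hzz, yy := hyy, aa := haa, yz := hzy, az := hza, vz := r₁z, ay := hya, vy := r₁y, va := ha₁
      wz := by
        calc r₁ * r₂ * z = r₁ * (r₂ * z) := by group
          _ = r₁ * (z * r₂) := by rw [r₂z]
          _ = (r₁ * z) * r₂ := by group
          _ = (z * r₁) * r₂ := by rw [r₁z]
          _ = _ := by group
      wy := by
        calc r₁ * r₂ * y = r₁ * (r₂ * y) := by group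
          _ = r₁ * (z * (y * r₂)) := by rw [r₂y]
          _ = (r₁ * z) * y * r₂ := by group
          _ = (z * r₁) * y * r₂ := by rw [r₁z]
          _ = z * (r₁ * y) * r₂ := by group
          _ = z * (z * (y * r₁)) * r₂ := by rw [r₁y]
          _ = (z * z) * (y * (r₁ * r₂)) := by group
          _ = _ := by rw [hzz, one_mul]
      wa := by
        calc r₁ * r₂ * a = r₁ * (r₂ * a) := by group
          _ = r₁ * (z * (a * r₂)) := by rw [r₂a]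
          _ = (r₁ * z) * a * r₂ := by group
          _ = (z * r₁) * a * r₂ := by rw [r₁z]
          _ = z * (r₁ * a) * r₂ := by group
          _ = z * (a * r₁) * r₂ := by rw [ha₁]
          _ = _ := by group }
  -- the commutator
  obtain ⟨c, hc⟩ : ∃ c, c = (r₂ * r₁) * (r₁ * r₂)⁻¹ := ⟨_, rfl⟩
  have hrel : r₂ * r₁ = c * (r₁ * r₂) := by rw [hc]; group
  have g'z : r₂ * r₁ * z = z * (r₂ * r₁) := by
    calc r₂ * r₁ * z = r₂ * (r₁ * z) := by group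
      _ = r₂ * (z * r₁) := by rw [r₁z]
      _ = (r₂ * z) * r₁ := by group
      _ = (z * r₂) * r₁ := by rw [r₂z]
      _ = _ := by group
  have g'y : r₂ * r₁ * y = y * (r₂ * r₁) := by
    calc r₂ * r₁ * y = r₂ * (r₁ * y) := by group
      _ = r₂ * (z * (y * r₁)) := by rw [r₁y]
      _ = (r₂ * z) * y * r₁ := by group
      _ = (z * r₂) * y * r₁ := by rw [r₂z]
      _ = z * (r₂ * y) * r₁ := by group
      _ = z * (z * (y * r₂)) * r₁ := by rw [r₂y]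
      _ = (z * z) * (y * (r₂ * r₁)) := by group
      _ = _ := by rw [hzz, one_mul]
  have g'a : r₂ * r₁ * a = (z * a) * (r₂ * r₁) := by
    calc r₂ * r₁ * a = r₂ * (r₁ * a) := by group
      _ = r₂ * (a * r₁) := by rw [ha₁]
      _ = (r₂ * a) * r₁ := by group
      _ = (z * (a * r₂)) * r₁ := by rw [r₂a]
      _ = _ := by group
  have gz : r₁ * r₂ * z = z * (r₁ * r₂) := e0.wz
  have gy : r₁ * r₂ * y = y * (r₁ * r₂) := e0.wy
  have ga : r₁ * r₂ * a = (z * a) * (r₁ * r₂) := by rw [e0.wa, mul_assoc]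
  have cz : c * z = z * c := by
    rw [hc]; exact comm_of_same gz g'z
  have cy : c * y = y * c := by
    rw [hc]; exact comm_of_same gy g'y
  have cza : c * (z * a) = (z * a) * c := by
    rw [hc]; exact comm_of_same ga g'a
  have ca : c * a = a * c := by
    apply mul_left_cancel (a := z)
    calc z * (c * a) = (z * c) * a := by group
      _ = (c * z) * a := by rw [cz]
      _ = c * (z * a) := by group
      _ = (z * a) * c := cza
      _ = _ := by group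
  have hcA : c ∈ A := d.cen c cz cy ca
  have hcc : c * c = 1 := d.sq c hcA
  have hci : c⁻¹ = c := inv_eq_of_mul_eq_one_left hcc
  -- the squares commute with everything
  have hs₁c : r₁ * r₁ * r₂⁻¹ = r₂⁻¹ * (r₁ * r₁) := by
    have c1 : Commute r₂ (r₁ * r₁) := by
      rcases hs₁ with h | h
      · rw [h]; exact Commute.one_right _
      · rw [h]; exact r₂z
    exact (c1.inv_left).symm
  have hs₂c : r₂ * r₂ * r₁ = r₁ * (r₂ * r₂) := by
    rcases hs₂ with h | h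
    · rw [h]; group
    · rw [h]; exact r₁z.symm
  have hcr₁ : r₁ * c * r₁⁻¹ = c := by
    have h1 : r₁ * c * r₁⁻¹ = c⁻¹ := by
      rw [hc]
      calc r₁ * (r₂ * r₁ * (r₁ * r₂)⁻¹) * r₁⁻¹
          = r₁ * r₂ * r₁ * r₂⁻¹ * (r₁ * r₁)⁻¹ := by group
        _ = r₁ * r₂ * r₁⁻¹ * ((r₁ * r₁) * r₂⁻¹) * (r₁ * r₁)⁻¹ := by group
        _ = r₁ * r₂ * r₁⁻¹ * (r₂⁻¹ * (r₁ * r₁)) * (r₁ * r₁)⁻¹ := by rw [hs₁c]
        _ = _ := by group
    rw [h1, hci]
  have hcr₂ : r₂ * c * r₂⁻¹ = c := by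
    have h1 : r₂ * c * r₂⁻¹ = c⁻¹ := by
      rw [hc]
      calc r₂ * (r₂ * r₁ * (r₁ * r₂)⁻¹) * r₂⁻¹
          = (r₂ * r₂ * r₁) * r₂⁻¹ * r₁⁻¹ * r₂⁻¹ := by group
        _ = (r₁ * (r₂ * r₂)) * r₂⁻¹ * r₁⁻¹ * r₂⁻¹ := by rw [hs₂c]
        _ = _ := by group
    rw [h1, hci]
  -- `c` lies in `⟨z⟩`
  have hc2 : c = 1 ∨ c = z := by
    rcases d.fix_eq hr₁ hy₁ (mul_inv_eq_iff_eq_mul.2 ha₁) hcA hcr₁ with h | h | h | h
    · exact Or.inl h
    · exact Or.inr h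
    · exfalso
      subst h
      have h1 : r₂ * c = c * r₂ := mul_inv_eq_iff_eq_mul.1 hcr₂
      rw [r₂a] at h1
      exact d.z1 (mul_eq_right.1 h1)
    · exfalso
      subst h
      have h1 : r₂ * (a * z) = a * z * r₂ := mul_inv_eq_iff_eq_mul.1 hcr₂
      have h2 : r₂ * (a * z) = a * r₂ := by
        rw [← mul_assoc, r₂a]
        calc z * (a * r₂) * z = z * a * (r₂ * z) := by group
          _ = z * a * (z * r₂) := by rw [r₂z]
          _ = a * (z * z) * r₂ := by rw [← hza]; group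
          _ = a * r₂ := by rw [hzz, mul_one]
      rw [h2] at h1
      have h3 : a * z * r₂ = a * r₂ := h1.symm
      exact d.z1 (mul_eq_left.1 (mul_right_cancel h3))
  have hcr₁' : c * r₁ = r₁ * c := by
    rcases hc2 with h | h
    · rw [h]; group
    · rw [h]; exact r₁z.symm
  have hw : r₁ * r₂ * r₁ = c * (r₁ * (r₁ * r₂)) := by
    calc r₁ * r₂ * r₁ = r₁ * (r₂ * r₁) := by group
      _ = r₁ * (c * (r₁ * r₂)) := by rw [hrel]
      _ = (r₁ * c) * (r₁ * r₂) := by group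
      _ = (c * r₁) * (r₁ * r₂) := by rw [hcr₁']
      _ = _ := by group
  have hww : r₁ * r₂ * (r₁ * r₂) = c * ((r₁ * r₁) * (r₂ * r₂)) := by
    calc r₁ * r₂ * (r₁ * r₂) = (r₁ * r₂ * r₁) * r₂ := by group
      _ = (c * (r₁ * (r₁ * r₂))) * r₂ := by rw [hw]
      _ = _ := by group
  obtain ⟨v, w, e⟩ := e0.adjust hs₁
    (by
      rw [hww]
      rcases hc2 with h | h <;> rcases hs₁ with h1 | h1 <;> rcases hs₂ with h2 | h2 <;>
        rw [h, h1, h2] <;> simp [hzz])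
    (by
      rw [hw]
      rcases hc2 with h | h
      · left; rw [h, one_mul]
      · right; rw [h])
  exact e.sectional d hS

end Fl

/-- The theorem. -/
theorem sectional_main (hS : IsPGroup 2 S) (A : Subgroup S) (hA : Cfsg.IsElementaryAbelian 2 A)
    (hA8 : Nat.card A = 8) (hC : Subgroup.centralizer (A : Set S) = A) :
    Cfsg.SectionalPRankLE 2 4 S := by
  have hcm : ∀ p ∈ A, ∀ q ∈ A, p * q = q * p := by
    intro p hp q hq
    have := hA.1.is_comm.comm (⟨p, hp⟩ : A) ⟨q, hq⟩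
    exact congrArg Subtype.val this
  have hsq : ∀ p ∈ A, p * p = 1 := by
    intro p hp
    rw [← pow_two]
    exact hA.2 p hp
  have hC' : ∀ g, (∀ p ∈ A, g * p = p * g) → g ∈ A := by
    intro g hg
    have h1 : g ∈ Subgroup.centralizer (A : Set S) :=
      Subgroup.mem_centralizer_iff.2 (fun p hp => (hg p hp).symm)
    rwa [hC] at h1
  obtain ⟨z, y, a, d⟩ := exists_flag hS A hcm hsq hA8 hC'
  have d' := d.changeY
  by_cases h₁ : ∀ r ∈ Subgroup.normalizer (A : Set S), r * a = a * r → r ∈ A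
  · exact sectional_of_sqBound (d.caseF hS hA8 h₁)
  by_cases h₂ : ∀ r ∈ Subgroup.normalizer (A : Set S), r * (a * y) = a * y * r → r ∈ A
  · exact sectional_of_sqBound (d'.caseF hS hA8 h₂)
  push Not at h₁ h₂
  obtain ⟨r₁, hr₁, ha₁, hA₁⟩ := h₁
  obtain ⟨r₂, hr₂, ha₂, hA₂⟩ := h₂
  have hy₁ := d.act_y hr₁ hA₁ ha₁
  have hy₂ := d'.act_y hr₂ hA₂ ha₂
  rcases d.sq_form hr₁ hy₁ ha₁ with h1 | h1 | h1 | h1
  · rcases d'.sq_form hr₂ hy₂ ha₂ with h2 | h2 | h2 | h2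
    · exact d.caseE hS hr₁ hr₂ hy₁ ha₁ (Or.inl h1) hy₂ ha₂ (Or.inl h2)
    · exact d.caseE hS hr₁ hr₂ hy₁ ha₁ (Or.inl h1) hy₂ ha₂ (Or.inr h2)
    · exact sectional_of_sqBound (d'.caseN hS hA8 hr₂ hy₂ h2)
    · exact sectional_of_sqBound (d'.changeZ.caseN hS hA8 hr₂ hy₂ h2)
  · rcases d'.sq_form hr₂ hy₂ ha₂ with h2 | h2 | h2 | h2
    · exact d.caseE hS hr₁ hr₂ hy₁ ha₁ (Or.inr h1) hy₂ ha₂ (Or.inl h2)
    · exact d.caseE hS hr₁ hr₂ hy₁ ha₁ (Or.inr h1) hy₂ ha₂ (Or.inr h2)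
    · exact sectional_of_sqBound (d'.caseN hS hA8 hr₂ hy₂ h2)
    · exact sectional_of_sqBound (d'.changeZ.caseN hS hA8 hr₂ hy₂ h2)
  · exact sectional_of_sqBound (d.caseN hS hA8 hr₁ hy₁ h1)
  · exact sectional_of_sqBound (d.changeZ.caseN hS hA8 hr₁ hy₁ h1)

end Cfsg.Agent.Lib.E8Sect
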