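import Mathlib

/-!
# Diagonalisable matrices: conjugacy from eigenspace dimensions, and traces.
-/

set_option autoImplicit false

namespace Cfsg.Agent.Lib.EigenConj

open Module Matrix
open scoped MatrixGroups

variable {F : Type*} [Field F] {n k : ℕ}

/-- The eigenspace of a matrix. -/
noncomputable def ek (Y : Matrix (Fin n) (Fin n) F) (a : F) : Submodule F (Fin n → F) :=
  Module.End.eigenspace (Y.mulVecLin) a

theorem mem_ek {Y : Matrix (Fin n) (Fin n) F} {a : F} {v : Fin n → F} : v ∈ ek Y a ↔ Y *ᵥ v = a • v := by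
  rw [ek, Module.End.mem_eigenspace_iff, Matrix.mulVecLin_apply]

theorem isInternal_ek {α : Fin k → F} (hα : Function.Injective α) {Y : Matrix (Fin n) (Fin n) F}
    (hY : ⨆ i, ek Y (α i) = ⊤) : DirectSum.IsInternal (fun i => ek Y (α i)) :=
  DirectSum.isInternal_submodule_of_iSupIndep_of_iSup_eq_top
    ((Module.End.eigenspaces_iSupIndep (Y.mulVecLin)).comp hα) hY

/-- A linear equivalence gives an element of `GL` with the same action. -/
theorem exists_gl_of_equiv (φ : (Fin n → F) ≃ₗ[F] (Fin n → F)) :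
    ∃ G : GL (Fin n) F, ∀ v, (G : Matrix (Fin n) (Fin n) F) *ᵥ v = φ v := by
  refine ⟨⟨LinearMap.toMatrix' φ.toLinearMap, LinearMap.toMatrix' φ.symm.toLinearMap, ?_, ?_⟩, ?_⟩
  · rw [← LinearMap.toMatrix'_comp]
    simp
  · rw [← LinearMap.toMatrix'_comp]
    simp
  · intro v
    exact LinearMap.toMatrix'_mulVec _ _

theorem mul_eq_of_mulVec {A B : Matrix (Fin n) (Fin n) F} (h : ∀ v, A *ᵥ v = B *ᵥ v) : A = B := by
  apply Matrix.toLin'.injective
  apply LinearMap.ext
  intro v
  simpa only [Matrix.toLin'_apply] using h v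

/-- Two diagonalisable matrices with equal eigenspace dimensions are conjugate. -/
theorem conj_of_eigen {α : Fin k → F} (hα : Function.Injective α) {Y Y' : Matrix (Fin n) (Fin n) F}
    (hY : ⨆ i, ek Y (α i) = ⊤) (hY' : ⨆ i, ek Y' (α i) = ⊤)
    (hd : ∀ i, finrank F (ek Y (α i)) = finrank F (ek Y' (α i))) :
    ∃ G : GL (Fin n) F, (G : Matrix (Fin n) (Fin n) F) * Y = Y' * (G : Matrix (Fin n) (Fin n) F) := by
  classical
  have hI := isInternal_ek hα hY
  have hI' := isInternal_ek hα hY'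
  let b : ∀ i, Basis (Fin (finrank F (ek Y (α i)))) F (ek Y (α i)) := fun i => Module.finBasis F _
  let b' : ∀ i, Basis (Fin (finrank F (ek Y (α i)))) F (ek Y' (α i)) := fun i =>
    Module.finBasisOfFinrankEq F _ (hd i).symm
  let B := hI.collectedBasis b
  let B' := hI'.collectedBasis b'
  let φ := B.equiv B' (Equiv.refl _)
  have hB : ∀ a, Y *ᵥ (B a) = α a.1 • B a := fun a => mem_ek.1 (hI.collectedBasis_mem b a)
  have hB' : ∀ a, Y' *ᵥ (B' a) = α a.1 • B' a := fun a => mem_ek.1 (hI'.collectedBasis_mem b' a)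
  obtain ⟨G, hG⟩ := exists_gl_of_equiv φ
  refine ⟨G, mul_eq_of_mulVec ?_⟩
  have hlin : (φ.toLinearMap ∘ₗ Y.mulVecLin) = (Y'.mulVecLin ∘ₗ φ.toLinearMap) := by
    apply B.ext
    intro a
    simp only [LinearMap.comp_apply, Matrix.mulVecLin_apply, LinearEquiv.coe_coe]
    rw [hB, map_smul]
    have : φ (B a) = B' a := by simp [φ]
    rw [this, hB']
  intro v
  rw [← Matrix.mulVec_mulVec, ← Matrix.mulVec_mulVec, hG, hG]
  exact LinearMap.congr_fun hlin v

/-- The dimensions add up. -/
theorem sum_finrank {α : Fin k → F} (hα : Function.Injective α) {Y : Matrix (Fin n) (Fin n) F}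
    (hY : ⨆ i, ek Y (α i) = ⊤) : ∑ i, finrank F (ek Y (α i)) = n := by
  classical
  have hI := isInternal_ek hα hY
  let b : ∀ i, Basis (Fin (finrank F (ek Y (α i)))) F (ek Y (α i)) := fun i => Module.finBasis F _
  have h1 := Module.finrank_eq_card_basis (hI.collectedBasis b)
  rw [Module.finrank_fin_fun, Fintype.card_sigma] at h1
  simpa using h1.symm

/-- The trace of a matrix acting as a scalar on each eigenspace. -/
theorem trace_of_eigen {α : Fin k → F} (hα : Function.Injective α) {Y : Matrix (Fin n) (Fin n) F}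
    (hY : ⨆ i, ek Y (α i) = ⊤) (T : Matrix (Fin n) (Fin n) F) (β : Fin k → F)
    (hT : ∀ i v, Y *ᵥ v = α i • v → T *ᵥ v = β i • v) :
    T.trace = ∑ i, (finrank F (ek Y (α i)) : F) * β i := by
  classical
  have hI := isInternal_ek hα hY
  let b : ∀ i, Basis (Fin (finrank F (ek Y (α i)))) F (ek Y (α i)) := fun i => Module.finBasis F _
  let B := hI.collectedBasis b
  have hB : ∀ a, T *ᵥ (B a) = β a.1 • B a := fun a => hT _ _ (mem_ek.1 (hI.collectedBasis_mem b a))
  have h1 : T.trace = LinearMap.trace F (Fin n → F) T.mulVecLin := (T.trace_toLin'_eq).symm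
  rw [h1, LinearMap.trace_eq_matrix_trace F B]
  simp only [Matrix.trace, Matrix.diag, LinearMap.toMatrix_apply, Matrix.mulVecLin_apply, hB]
  rw [Fintype.sum_sigma]
  simp

end Cfsg.Agent.Lib.EigenConj
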