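import Mathlib

/-!
# Eigenspace decomposition of an endomorphism with `T² = w²`, `2w ≠ 0`
-/

set_option autoImplicit false

namespace Cfsg.Agent.Lib.EigenSq

open Module

variable {F : Type*} [Field F] {V : Type*} [AddCommGroup V] [Module F V]

/-- The `c`-eigenspace. -/
def eig (T : V →ₗ[F] V) (c : F) : Submodule F V := LinearMap.ker (T - c • LinearMap.id)

theorem mem_eig {T : V →ₗ[F] V} {c : F} {v : V} : v ∈ eig T c ↔ T v = c • v := by
  simp [eig, sub_eq_zero]

theorem eig_isCompl (T : V →ₗ[F] V) (w : F) (hw : 2 * w ≠ 0) (hT : ∀ v, T (T v) = (w * w) • v) :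
    IsCompl (eig T w) (eig T (-w)) := by
  constructor
  · rw [Submodule.disjoint_def]
    intro v h1 h2
    rw [mem_eig] at h1 h2
    rw [h1] at h2
    have : (2 * w) • v = 0 := by
      rw [two_mul, add_smul]
      rw [neg_smul] at h2
      rw [eq_neg_iff_add_eq_zero] at h2
      exact h2
    rcases smul_eq_zero.mp this with h | h
    · exact absurd h hw
    · exact h
  · rw [Submodule.codisjoint_iff_exists_add_eq]
    intro v
    refine ⟨(2 * w)⁻¹ • (T v + w • v), (2 * w)⁻¹ • (w • v - T v), ?_, ?_, ?_⟩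
    · rw [mem_eig, map_smul, map_add, map_smul, hT]
      module
    · rw [mem_eig, map_smul, map_sub, map_smul, hT]
      module
    · rw [← smul_add]
      have : T v + w • v + (w • v - T v) = (2 * w) • v := by
        rw [two_mul, add_smul]; abel
      rw [this, smul_smul, inv_mul_cancel₀ hw, one_smul]

/-- A basis of eigenvectors. -/
theorem exists_eigen_basis [FiniteDimensional F V] (T : V →ₗ[F] V) (w : F) (hw : 2 * w ≠ 0)
    (hT : ∀ v, T (T v) = (w * w) • v) :
    ∃ (a b : ℕ) (e : Basis (Fin a ⊕ Fin b) F V), (∀ i, T (e (Sum.inl i)) = w • e (Sum.inl i)) ∧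
      (∀ i, T (e (Sum.inr i)) = (-w) • e (Sum.inr i)) := by
  have hc := eig_isCompl T w hw hT
  let b1 := Module.finBasis F (eig T w)
  let b2 := Module.finBasis F (eig T (-w))
  let e : Basis _ F V := (b1.prod b2).map (Submodule.prodEquivOfIsCompl _ _ hc)
  refine ⟨_, _, e, ?_, ?_⟩
  · intro i
    have : e (Sum.inl i) = (b1 i : V) := by
      simp [e, Module.Basis.map_apply, Module.Basis.prod_apply]
    rw [this]
    exact mem_eig.mp (b1 i).2
  · intro i
    have : e (Sum.inr i) = (b2 i : V) := by
      simp [e, Module.Basis.map_apply, Module.Basis.prod_apply]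
    rw [this]
    exact mem_eig.mp (b2 i).2

end Cfsg.Agent.Lib.EigenSq
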