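import Mathlib

/-!
# Eigenbases for endomorphisms killed by a product of distinct linear factors
-/

set_option autoImplicit false

namespace Cfsg.Agent.Lib.EigenThree

open Polynomial Module

variable {F : Type*} [Field F] {V : Type*} [AddCommGroup V] [Module F V]

/-- `T` has a basis of eigenvectors indexed by `ι`, with eigenvalues `lam`. -/
def HasEigBasis (T : Module.End F V) {ι : Type*} (lam : ι → F) : Prop :=
  ∃ e : Basis ι F V, ∀ i, T (e i) = lam i • e i

theorem aeval_restrict_apply (T : Module.End F V) (W : Submodule F V) (h : ∀ v ∈ W, T v ∈ W) (p : F[X]) (v : W) :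
    ((aeval (T.restrict h : Module.End F W) p v : W) : V) = aeval T p (v : V) := by
  induction p using Polynomial.induction_on generalizing v with
  | C a => simp
  | add p q hp hq =>
    simp only [map_add, LinearMap.add_apply, Submodule.coe_add, hp, hq]
  | monomial n a ih =>
    have e : (C a * X ^ (n + 1) : F[X]) = (C a * X ^ n) * X := by ring
    rw [e, map_mul (aeval (T.restrict h : Module.End F W)) (C a * X ^ n) X, map_mul (aeval T) (C a * X ^ n) X, aeval_X, aeval_X,
      Module.End.mul_apply, Module.End.mul_apply, ih]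
    rfl

/-- One step: split off the eigenspace of `a`. -/
theorem step [FiniteDimensional F V] (T : Module.End F V) (a : F) (g : F[X]) (hg : ∀ b, g.eval b = 0 → b ≠ a ∨ True)
    (hcop : IsCoprime (X - C a) g) (h0 : aeval T ((X - C a) * g) = 0) {ι : Type*} (lam : ι → F)
    (hW : ∀ (W : Submodule F V) (_ : W = LinearMap.ker (aeval T g)) (h : ∀ v ∈ W, T v ∈ W),
      HasEigBasis (T.restrict h : Module.End F W) lam) :
    ∃ r : ℕ, HasEigBasis T (Sum.elim (fun _ : Fin r => a) lam) := by
  classical
  set A := LinearMap.ker (aeval T (X - C a : F[X])) with hA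
  set W := LinearMap.ker (aeval T g) with hWdef
  have hdisj : Disjoint A W := Polynomial.disjoint_ker_aeval_of_isCoprime T hcop
  have hsup : A ⊔ W = ⊤ := by
    rw [hA, hWdef, Polynomial.sup_ker_aeval_eq_ker_aeval_mul_of_coprime T hcop, h0, LinearMap.ker_zero]
  have hc : IsCompl A W := ⟨hdisj, codisjoint_iff.mpr hsup⟩
  have hmemA : ∀ v, v ∈ A ↔ T v = a • v := by
    intro v
    rw [hA, LinearMap.mem_ker]
    simp [sub_eq_zero]
  have hcomm : ∀ v, aeval T g (T v) = T (aeval T g v) := by
    intro v
    have : aeval T g * aeval T (X : F[X]) = aeval T (X : F[X]) * aeval T g := by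
      rw [← map_mul, ← map_mul, mul_comm]
    rw [aeval_X] at this
    have := LinearMap.congr_fun this v
    simpa using this
  have hTW : ∀ v ∈ W, T v ∈ W := by
    intro v hv
    rw [hWdef, LinearMap.mem_ker] at hv ⊢
    rw [hcomm, hv, map_zero]
  obtain ⟨eW, heW⟩ := hW W rfl hTW
  let bA := Module.finBasis F A
  let e : Basis (Fin (finrank F A) ⊕ ι) F V := (bA.prod eW).map (Submodule.prodEquivOfIsCompl A W hc)
  refine ⟨finrank F A, e, ?_⟩
  rintro (i | i)
  · have : e (Sum.inl i) = (bA i : V) := by simp [e, Basis.prod_apply]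
    rw [this]
    exact (hmemA _).mp (bA i).2
  · have : e (Sum.inr i) = (eW i : V) := by simp [e, Basis.prod_apply]
    rw [this]
    have := congrArg (Subtype.val) (heW i)
    simpa using this

theorem coprime_of_ne {a b : F} (h : a ≠ b) : IsCoprime (X - C a : F[X]) (X - C b) :=
  Polynomial.isCoprime_X_sub_C_of_isUnit_sub (IsUnit.mk0 _ (sub_ne_zero.mpr h))

/-- Two eigenvalues. -/
theorem exists_basis_two [FiniteDimensional F V] (T : Module.End F V) (a b : F) (hab : a ≠ b)
    (h0 : aeval T ((X - C a) * (X - C b)) = 0) :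
    ∃ (r s : ℕ) (e : Basis (Fin r ⊕ Fin s) F V),
      (∀ i, T (e (Sum.inl i)) = a • e (Sum.inl i)) ∧ (∀ i, T (e (Sum.inr i)) = b • e (Sum.inr i)) := by
  classical
  obtain ⟨r, e, he⟩ := step T a (X - C b) (fun _ _ => Or.inr trivial) (coprime_of_ne hab) h0
    (lam := fun _ : Fin (finrank F (LinearMap.ker (aeval T (X - C b : F[X])))) => b) (by
    intro W hW h
    subst hW
    refine ⟨Module.finBasis F _, ?_⟩
    intro i
    apply Subtype.ext
    have h2 := (Module.finBasis F (LinearMap.ker (aeval T (X - C b : F[X]))) i).2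
    rw [LinearMap.mem_ker] at h2
    simp only [map_sub, aeval_X, aeval_C, LinearMap.sub_apply, sub_eq_zero, Module.algebraMap_end_apply] at h2
    simpa using h2)
  exact ⟨r, _, e, fun i => he (Sum.inl i), fun i => he (Sum.inr i)⟩

/-- Three eigenvalues. -/
theorem exists_basis_three [FiniteDimensional F V] (T : Module.End F V) (a b c : F) (hab : a ≠ b) (hac : a ≠ c) (hbc : b ≠ c)
    (h0 : aeval T ((X - C a) * ((X - C b) * (X - C c))) = 0) :
    ∃ (r s t : ℕ) (e : Basis (Fin r ⊕ (Fin s ⊕ Fin t)) F V),
      (∀ i, T (e (Sum.inl i)) = a • e (Sum.inl i)) ∧ (∀ i, T (e (Sum.inr (Sum.inl i))) = b • e (Sum.inr (Sum.inl i))) ∧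
      (∀ i, T (e (Sum.inr (Sum.inr i))) = c • e (Sum.inr (Sum.inr i))) := by
  classical
  set W := LinearMap.ker (aeval T ((X - C b) * (X - C c) : F[X])) with hWdef
  have hcomm : ∀ v, aeval T ((X - C b) * (X - C c) : F[X]) (T v) = T (aeval T ((X - C b) * (X - C c) : F[X]) v) := by
    intro v
    have : aeval T ((X - C b) * (X - C c) : F[X]) * aeval T (X : F[X]) = aeval T (X : F[X]) * aeval T ((X - C b) * (X - C c) : F[X]) := by
      rw [← map_mul, ← map_mul, mul_comm]
    rw [aeval_X] at this
    have := LinearMap.congr_fun this v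
    simpa using this
  have hTW : ∀ v ∈ W, T v ∈ W := by
    intro v hv
    rw [hWdef, LinearMap.mem_ker] at hv ⊢
    rw [hcomm, hv, map_zero]
  let R : Module.End F W := T.restrict hTW
  have hR0 : aeval R ((X - C b) * (X - C c)) = 0 := by
    apply LinearMap.ext
    intro v
    apply Subtype.ext
    rw [aeval_restrict_apply]
    exact LinearMap.mem_ker.mp v.2
  obtain ⟨s, t, eW, he1, he2⟩ := exists_basis_two R b c hbc hR0
  obtain ⟨r, e, he⟩ := step T a ((X - C b) * (X - C c)) (fun _ _ => Or.inr trivial)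
    ((coprime_of_ne hab).mul_right (coprime_of_ne hac)) h0
    (lam := Sum.elim (fun _ : Fin s => b) (fun _ : Fin t => c)) (by
      intro W' hW' h
      subst hW'
      refine ⟨eW, ?_⟩
      rintro (i | i)
      · exact he1 i
      · exact he2 i)
  exact ⟨r, s, t, e, fun i => he (Sum.inl i), fun i => he (Sum.inr (Sum.inl i)), fun i => he (Sum.inr (Sum.inr i))⟩

end Cfsg.Agent.Lib.EigenThree
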