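import Mathlib

/-!
# Invariant subspaces of elements of prime order modulo scalars
-/

set_option autoImplicit false
set_option linter.unusedVariables false
set_option linter.unusedSectionVars false
set_option linter.style.haveILetI false

namespace Cfsg.Agent.Lib.ElusiveCore

open Polynomial Module

variable {F V : Type*} [Field F] [AddCommGroup V] [Module F V]

lemma pow_mem_inv (f : V →ₗ[F] V) {W : Submodule F V} (hW : W.map f ≤ W) (n : ℕ) {v : V} (hv : v ∈ W) : (f ^ n) v ∈ W := by
  induction n with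
  | zero => simpa using hv
  | succ n ih =>
    rw [pow_succ', Module.End.mul_apply]
    exact hW (Submodule.mem_map_of_mem ih)

/-- Polynomials in `f` preserve the invariant subspaces of `f`. -/
lemma aeval_mem (f : V →ₗ[F] V) {W : Submodule F V} (hW : W.map f ≤ W) (h : F[X]) {v : V} (hv : v ∈ W) :
    (aeval f h) v ∈ W := by
  induction h using Polynomial.induction_on' with
  | add p q hp hq =>
    rw [map_add, LinearMap.add_apply]
    exact W.add_mem hp hq
  | monomial n a =>
    rw [aeval_monomial, Module.End.mul_apply]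
    have h1 := pow_mem_inv f hW n hv
    have : (algebraMap F (Module.End F V)) a ((f ^ n) v) = a • (f ^ n) v := rfl
    rw [this]
    exact W.smul_mem a h1

/-- A minimal annihilator modulo an invariant subspace. -/
lemma exists_irred (f : V →ₗ[F] V) {W : Submodule F V} {v : V} (hv : v ∉ W) (g : F[X]) (hg0 : g ≠ 0)
    (hg : (aeval f g) v ∈ W) :
    ∃ π h : F[X], Irreducible π ∧ π ∣ g ∧ (aeval f h) v ∉ W ∧ (aeval f π) ((aeval f h) v) ∈ W := by
  induction hd : g.natDegree using Nat.strong_induction_on generalizing g with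
  | _ d ih =>
    by_cases h0 : g.natDegree = 0
    · exfalso
      rw [Polynomial.eq_C_of_natDegree_eq_zero h0] at hg hg0
      have ha : g.coeff 0 ≠ 0 := fun h => hg0 (by rw [h, C_0])
      rw [aeval_C] at hg
      have h1 : (g.coeff 0) • v ∈ W := hg
      exact hv ((W.smul_mem_iff ha).mp h1)
    · obtain ⟨π, hπ, hπg⟩ := Polynomial.exists_irreducible_of_natDegree_ne_zero h0
      obtain ⟨h, rfl⟩ := hπg
      have hh0 : h ≠ 0 := right_ne_zero_of_mul hg0
      by_cases hm : (aeval f h) v ∈ W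
      · have hdeg : h.natDegree < d := by
          rw [← hd, natDegree_mul hπ.ne_zero hh0]
          have := hπ.natDegree_pos
          omega
        obtain ⟨π', h', h1, h2, h3, h4⟩ := ih _ hdeg h hh0 hm rfl
        exact ⟨π', h', h1, Dvd.dvd.mul_left h2 π, h3, h4⟩
      · refine ⟨π, h, hπ, Dvd.intro _ rfl, hm, ?_⟩
        rw [map_mul, Module.End.mul_apply] at hg
        exact hg

section step

variable [FiniteDimensional F V]

/-- Adjoining a cyclic piece. -/
theorem exists_step (f : V →ₗ[F] V) {W : Submodule F V} (hW : W.map f ≤ W) {π : F[X]} (hπ : Irreducible π) {v : V}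
    (hv : v ∉ W) (hπv : (aeval f π) v ∈ W) :
    ∃ W' : Submodule F V, W ≤ W' ∧ W'.map f ≤ W' ∧ v ∈ W' ∧
      (∀ W₁ : Submodule F V, W₁.map f ≤ W₁ → W ≤ W₁ → v ∈ W₁ → W' ≤ W₁) ∧
      finrank F W' = finrank F W + π.natDegree := by
  classical
  set d := π.natDegree with hd
  have hπ0 : π ≠ 0 := hπ.ne_zero
  let Φ : degreeLT F d →ₗ[F] V :=
    (LinearMap.applyₗ v).comp ((aeval f).toLinearMap.comp (degreeLT F d).subtype)
  have hΦ : ∀ h : degreeLT F d, Φ h = (aeval f (h : F[X])) v := fun h => rfl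
  have hkey : ∀ h : F[X], h ∈ degreeLT F d → (aeval f h) v ∈ W → h = 0 := by
    intro h hh hm
    by_contra h0
    have hlt : h.degree < π.degree := by
      rw [mem_degreeLT] at hh
      rwa [degree_eq_natDegree hπ0]
    have hndvd : ¬ π ∣ h := fun hdvd => by
      have := degree_le_of_dvd hdvd h0
      exact absurd this (not_le.mpr hlt)
    obtain ⟨a, b, hab⟩ := (hπ.coprime_iff_not_dvd).mpr hndvd
    have h1 : (aeval f (a * π + b * h)) v = v := by rw [hab]; simp
    rw [map_add, map_mul, map_mul, LinearMap.add_apply, Module.End.mul_apply, Module.End.mul_apply] at h1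
    apply hv
    rw [← h1]
    exact W.add_mem (aeval_mem f hW a hπv) (aeval_mem f hW b hm)
  have hinj : Function.Injective Φ := by
    rw [injective_iff_map_eq_zero]
    intro h hh
    apply Subtype.ext
    exact hkey _ h.2 (by rw [← hΦ, hh]; exact W.zero_mem)
  have hdisj : W ⊓ LinearMap.range Φ = ⊥ := by
    rw [eq_bot_iff]
    rintro x ⟨hx, h, rfl⟩
    have : (h : F[X]) = 0 := hkey _ h.2 hx
    have h2 : h = 0 := Subtype.ext this
    rw [h2, map_zero]
    exact Submodule.zero_mem _
  have hone : (1 : F[X]) ∈ degreeLT F d := by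
    rw [mem_degreeLT, degree_one]
    have := hπ.natDegree_pos
    exact_mod_cast this
  refine ⟨W ⊔ LinearMap.range Φ, le_sup_left, ?_, ?_, ?_, ?_⟩
  · rw [Submodule.map_sup, sup_le_iff]
    refine ⟨hW.trans le_sup_left, ?_⟩
    rintro _ ⟨_, ⟨h, rfl⟩, rfl⟩
    -- reduce modulo `π`
    have h1 : f (Φ h) = (aeval f (X * (h : F[X]))) v := by
      rw [hΦ, map_mul, aeval_X, Module.End.mul_apply]
    have h2 := EuclideanDomain.div_add_mod (X * (h : F[X])) π
    have hmod : (X * (h : F[X])) % π ∈ degreeLT F d := by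
      rw [mem_degreeLT]
      have := Polynomial.degree_mod_lt (X * (h : F[X])) hπ0
      rwa [degree_eq_natDegree hπ0] at this
    change f (Φ h) ∈ _
    rw [h1, ← h2, map_add, LinearMap.add_apply, mul_comm π, map_mul, Module.End.mul_apply]
    apply Submodule.add_mem
    · exact Submodule.mem_sup_left (aeval_mem f hW _ hπv)
    · exact Submodule.mem_sup_right ⟨⟨_, hmod⟩, rfl⟩
  · apply Submodule.mem_sup_right
    refine ⟨⟨1, hone⟩, ?_⟩
    rw [hΦ]
    simp
  · intro W₁ hW₁ hle hv₁
    rw [sup_le_iff]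
    refine ⟨hle, ?_⟩
    rintro _ ⟨h, rfl⟩
    exact aeval_mem f hW₁ _ hv₁
  · have h1 := Submodule.finrank_sup_add_finrank_inf_eq W (LinearMap.range Φ)
    rw [hdisj, finrank_bot, add_zero] at h1
    rw [h1, LinearMap.finrank_range_of_inj hinj]
    congr 1
    rw [(degreeLTEquiv F d).finrank_eq]
    simp

variable {f : V →ₗ[F] V} {g : F[X]} {i : ℕ}

/-- Steps of a fixed length. -/
theorem exists_step_in (hg0 : g ≠ 0) (hdeg : ∀ π : F[X], Irreducible π → π ∣ g → π.natDegree = i)
    {W W₁ : Submodule F V} (hW : W.map f ≤ W) (hW₁ : W₁.map f ≤ W₁) (hle : W ≤ W₁) (hne : W ≠ W₁)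
    (hg : ∀ v ∈ W₁, (aeval f g) v = 0) :
    ∃ W' : Submodule F V, W ≤ W' ∧ W' ≤ W₁ ∧ W'.map f ≤ W' ∧ finrank F W' = finrank F W + i := by
  obtain ⟨v, hv₁, hv⟩ := SetLike.exists_of_lt (lt_of_le_of_ne hle hne)
  obtain ⟨π, h, h1, h2, h3, h4⟩ := exists_irred f hv g hg0 (by rw [hg v hv₁]; exact W.zero_mem)
  obtain ⟨W', a1, a2, a3, a4, a5⟩ := exists_step f hW h1 h3 h4
  refine ⟨W', a1, a4 W₁ hW₁ hle (aeval_mem f hW₁ h hv₁), a2, ?_⟩
  rw [a5, hdeg π h1 h2]

theorem chain_exists (hg0 : g ≠ 0) (hdeg : ∀ π : F[X], Irreducible π → π ∣ g → π.natDegree = i) (hi : 1 ≤ i)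
    {W₀ W₁ : Submodule F V} (hW₀ : W₀.map f ≤ W₀) (hW₁ : W₁.map f ≤ W₁) (hle : W₀ ≤ W₁)
    (hg : ∀ v ∈ W₁, (aeval f g) v = 0) (b : ℕ) (hb : finrank F W₀ + i * b ≤ finrank F W₁) :
    ∃ W : Submodule F V, W₀ ≤ W ∧ W ≤ W₁ ∧ W.map f ≤ W ∧ finrank F W = finrank F W₀ + i * b := by
  induction b with
  | zero => exact ⟨W₀, le_rfl, hle, hW₀, by simp⟩
  | succ b ih =>
    have hb' : finrank F W₀ + i * b ≤ finrank F W₁ := by
      rw [Nat.mul_succ] at hb
      omega
    obtain ⟨W, h1, h2, h3, h4⟩ := ih hb'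
    have hne : W ≠ W₁ := by
      rintro rfl
      rw [Nat.mul_succ] at hb
      omega
    obtain ⟨W', a1, a2, a3, a4⟩ := exists_step_in hg0 hdeg h3 hW₁ h2 hne hg
    exact ⟨W', h1.trans a1, a2, a3, by rw [a4, h4, Nat.mul_succ]; omega⟩

theorem chain_dvd (hg0 : g ≠ 0) (hdeg : ∀ π : F[X], Irreducible π → π ∣ g → π.natDegree = i)
    {W₀ W₁ : Submodule F V} (hW₀ : W₀.map f ≤ W₀) (hW₁ : W₁.map f ≤ W₁) (hle : W₀ ≤ W₁)
    (hg : ∀ v ∈ W₁, (aeval f g) v = 0) : i ∣ finrank F W₁ - finrank F W₀ := by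
  induction hd : finrank F W₁ - finrank F W₀ using Nat.strong_induction_on generalizing W₀ with
  | _ d ih =>
    by_cases hne : W₀ = W₁
    · subst hne
      simp at hd
      rw [← hd]
      exact dvd_zero _
    · obtain ⟨W', a1, a2, a3, a4⟩ := exists_step_in hg0 hdeg hW₀ hW₁ hle hne hg
      have hlt : finrank F W₀ < finrank F W₁ := Submodule.finrank_lt_finrank_of_lt (lt_of_le_of_ne hle hne)
      have hle2 : finrank F W' ≤ finrank F W₁ := Submodule.finrank_mono a2
      have hi : 1 ≤ i ∨ i = 0 := by omega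
      rcases hi with hi | hi
      · have := ih (finrank F W₁ - finrank F W') (by omega) a3 a2 rfl
        have e : d = (finrank F W₁ - finrank F W') + i := by omega
        rw [e]
        exact (Nat.dvd_add_right this).mpr (dvd_refl i)
      · exfalso
        -- degree zero never occurs
        obtain ⟨v, hv₁, hv⟩ := SetLike.exists_of_lt (lt_of_le_of_ne hle hne)
        obtain ⟨π, h, h1, h2, h3, h4⟩ := exists_irred f hv g hg0 (by rw [hg v hv₁]; exact W₀.zero_mem)
        have := hdeg π h1 h2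
        have h5 := h1.natDegree_pos
        omega

end step

section decomposition

variable [FiniteDimensional F V]

lemma aeval_comm (f : V →ₗ[F] V) (h k : F[X]) (v : V) : (aeval f h) ((aeval f k) v) = (aeval f k) ((aeval f h) v) := by
  rw [← Module.End.mul_apply, ← Module.End.mul_apply, ← map_mul, ← map_mul, mul_comm]

lemma ker_aeval_inv (f : V →ₗ[F] V) (h : F[X]) : (LinearMap.ker (aeval f h)).map f ≤ LinearMap.ker (aeval f h) := by
  rintro _ ⟨v, hv, rfl⟩
  have hv' : (aeval f h) v = 0 := hv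
  change (aeval f h) (f v) = 0
  have := aeval_comm f h X v
  rw [aeval_X] at this
  rw [this, hv', map_zero]

lemma inf_inv {f : V →ₗ[F] V} {W W' : Submodule F V} (h : W.map f ≤ W) (h' : W'.map f ≤ W') : (W ⊓ W').map f ≤ W ⊓ W' :=
  le_inf ((Submodule.map_mono inf_le_left).trans h) ((Submodule.map_mono inf_le_right).trans h')

lemma sup_inv {f : V →ₗ[F] V} {W W' : Submodule F V} (h : W.map f ≤ W) (h' : W'.map f ≤ W') : (W ⊔ W').map f ≤ W ⊔ W' := by
  rw [Submodule.map_sup]
  exact sup_le_sup h h'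

/-- Splitting an invariant subspace along coprime factors. -/
theorem finrank_inf_decomp (f : V →ₗ[F] V) {W : Submodule F V} (hW : W.map f ≤ W) {P Q : F[X]} (hPQ : IsCoprime P Q)
    (hk : ∀ v ∈ W, (aeval f (P * Q)) v = 0) :
    finrank F W = finrank F (W ⊓ LinearMap.ker (aeval f P) : Submodule F V) +
      finrank F (W ⊓ LinearMap.ker (aeval f Q) : Submodule F V) := by
  have hdisj := Polynomial.disjoint_ker_aeval_of_isCoprime f hPQ
  have h1 : (W ⊓ LinearMap.ker (aeval f P)) ⊓ (W ⊓ LinearMap.ker (aeval f Q)) = (⊥ : Submodule F V) := by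
    rw [eq_bot_iff]
    rintro x ⟨⟨_, hx1⟩, ⟨_, hx2⟩⟩
    exact (Submodule.disjoint_def.mp hdisj) x hx1 hx2
  have h2 : (W ⊓ LinearMap.ker (aeval f P)) ⊔ (W ⊓ LinearMap.ker (aeval f Q)) = W := by
    apply le_antisymm (sup_le inf_le_left inf_le_left)
    intro v hv
    obtain ⟨a, b, hab⟩ := hPQ
    have h3 : (aeval f (a * P)) v + (aeval f (b * Q)) v = v := by
      rw [← LinearMap.add_apply, ← map_add, hab]
      simp
    rw [← h3]
    apply Submodule.add_mem
    · apply Submodule.mem_sup_right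
      refine ⟨aeval_mem f hW _ hv, ?_⟩
      change (aeval f Q) _ = 0
      rw [← Module.End.mul_apply, ← map_mul]
      have : Q * (a * P) = a * (P * Q) := by ring
      rw [this, map_mul, Module.End.mul_apply, hk v hv, map_zero]
    · apply Submodule.mem_sup_left
      refine ⟨aeval_mem f hW _ hv, ?_⟩
      change (aeval f P) _ = 0
      rw [← Module.End.mul_apply, ← map_mul]
      have : P * (b * Q) = b * (P * Q) := by ring
      rw [this, map_mul, Module.End.mul_apply, hk v hv, map_zero]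
  have h4 := Submodule.finrank_sup_add_finrank_inf_eq (W ⊓ LinearMap.ker (aeval f P)) (W ⊓ LinearMap.ker (aeval f Q))
  rw [h1, h2, finrank_bot, add_zero] at h4
  exact h4

lemma natDegree_of_dvd_X_sub_one {π : F[X]} (hπ : Irreducible π) (hd : π ∣ (X - 1 : F[X])) : π.natDegree = 1 := by
  have hX : (X - 1 : F[X]) ≠ 0 := by
    have := X_sub_C_ne_zero (1 : F)
    simpa using this
  have h1 : π.natDegree ≤ (X - 1 : F[X]).natDegree := natDegree_le_of_dvd hd hX
  have h2 : (X - 1 : F[X]).natDegree = 1 := by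
    have := natDegree_X_sub_C (1 : F)
    simpa using this
  have h3 := hπ.natDegree_pos
  omega

end decomposition

section roots

variable [Fintype F] {p : ℕ} [hp : Fact p.Prime] [CharP F p] {r : ℕ} [hr : Fact r.Prime]

include p in
lemma natDegree_irred_cyclotomic (hrp : r ≠ p) {π : F[X]} (hπ : Irreducible π) (hd : π ∣ cyclotomic r F) :
    π.natDegree = orderOf ((Fintype.card F : ℕ) : ZMod r) := by
  obtain ⟨n, -, hn⟩ := FiniteField.card F p
  have hco : p.Coprime r := (Nat.coprime_primes hp.out hr.out).mpr (Ne.symm hrp)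
  rw [natDegree_of_dvd_cyclotomic_of_irreducible hn hco hd hπ]
  rw [← orderOf_units, ZMod.coe_unitOfCoprime, hn]

include p in
lemma natCast_r_ne (hrp : r ≠ p) : ((r : ℕ) : F) ≠ 0 := by
  intro h
  have h1 := (CharP.cast_eq_zero_iff F p r).mp h
  exact hrp ((Nat.prime_dvd_prime_iff_eq hp.out hr.out).mp h1).symm

include p in
lemma isCoprime_cyc (hrp : r ≠ p) : IsCoprime (X - 1 : F[X]) (cyclotomic r F) := by
  have h1 : Irreducible (X - 1 : F[X]) := by
    have := irreducible_X_sub_C (1 : F)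
    simpa using this
  rw [h1.coprime_iff_not_dvd]
  intro h
  have h2 : (cyclotomic r F).eval 1 = 0 := by
    obtain ⟨k, hk⟩ := h
    rw [hk]
    simp
  rw [eval_one_cyclotomic_prime] at h2
  exact natCast_r_ne (p := p) hrp h2

end roots

section element

variable [FiniteDimensional F V] [Fintype F] {p : ℕ} [hp : Fact p.Prime] [CharP F p] {r : ℕ} [hr : Fact r.Prime]

/-- The fixed space. -/
noncomputable abbrev EE (y : V →ₗ[F] V) : Submodule F V := LinearMap.ker (aeval y (X - 1 : F[X]))

/-- The complement of the fixed space. -/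
noncomputable abbrev VV (r : ℕ) (y : V →ₗ[F] V) : Submodule F V := LinearMap.ker (aeval y (cyclotomic r F))

lemma mem_EE {y : V →ₗ[F] V} {v : V} : v ∈ EE y ↔ y v = v := by
  rw [LinearMap.mem_ker]
  simp [sub_eq_zero]

lemma aeval_mul_eq_zero {y : V →ₗ[F] V} (hy : y ^ r = 1) : aeval y ((X - 1 : F[X]) * cyclotomic r F) = 0 := by
  rw [mul_comm, cyclotomic_prime_mul_X_sub_one]
  simp [hy]

include p in
/-- Dimensions of invariant subspaces of an element of order `r`. -/
theorem dims_of_inv (hrp : r ≠ p) {y : V →ₗ[F] V} (hy : y ^ r = 1) {W : Submodule F V} (hW : W.map y ≤ W) :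
    ∃ a b, finrank F W = a + orderOf ((Fintype.card F : ℕ) : ZMod r) * b ∧ a ≤ finrank F (EE y) ∧
      orderOf ((Fintype.card F : ℕ) : ZMod r) * b ≤ finrank F (VV r y) := by
  have h1 := finrank_inf_decomp y hW (isCoprime_cyc (F := F) (p := p) (r := r) hrp) (by
    intro v _
    rw [aeval_mul_eq_zero hy]
    rfl)
  have h2 : orderOf ((Fintype.card F : ℕ) : ZMod r) ∣ finrank F (W ⊓ VV r y : Submodule F V) - finrank F (⊥ : Submodule F V) :=
    chain_dvd (g := cyclotomic r F) (f := y) (cyclotomic_ne_zero r F)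
      (fun π hπ hd => natDegree_irred_cyclotomic (p := p) hrp hπ hd)
      (W₀ := ⊥) (W₁ := W ⊓ VV r y) (by simp) (inf_inv hW (ker_aeval_inv y _)) bot_le
      (fun v hv => hv.2)
  rw [finrank_bot, Nat.sub_zero] at h2
  obtain ⟨b, hb⟩ := h2
  refine ⟨_, b, ?_, Submodule.finrank_mono (inf_le_right : W ⊓ EE y ≤ EE y), ?_⟩
  · rw [h1, hb]
  · rw [← hb]
    exact Submodule.finrank_mono inf_le_right

include p in
/-- Nested invariant subspaces with prescribed dimensions. -/
theorem exists_nested (hrp : r ≠ p) {y : V →ₗ[F] V} (hy : y ^ r = 1) {a a' b b' : ℕ} (ha : a ≤ a') (ha' : a' ≤ finrank F (EE y))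
    (hb : b ≤ b') (hb' : orderOf ((Fintype.card F : ℕ) : ZMod r) * b' ≤ finrank F (VV r y)) :
    ∃ U W : Submodule F V, U ≤ W ∧ U.map y ≤ U ∧ W.map y ≤ W ∧
      finrank F U = a + orderOf ((Fintype.card F : ℕ) : ZMod r) * b ∧
      finrank F W = a' + orderOf ((Fintype.card F : ℕ) : ZMod r) * b' := by
  set i := orderOf ((Fintype.card F : ℕ) : ZMod r) with hi
  change a' ≤ finrank F (LinearMap.ker (aeval y (X - 1 : F[X]))) at ha'
  change i * b' ≤ finrank F (LinearMap.ker (aeval y (cyclotomic r F))) at hb'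
  have hg1 : ∀ π : F[X], Irreducible π → π ∣ (X - 1 : F[X]) → π.natDegree = 1 := fun π h1 h2 => natDegree_of_dvd_X_sub_one h1 h2
  have hg2 : ∀ π : F[X], Irreducible π → π ∣ cyclotomic r F → π.natDegree = i := fun π h1 h2 => natDegree_irred_cyclotomic (p := p) hrp h1 h2
  have hi1 : 1 ≤ i := by
    obtain ⟨π, h1, h2⟩ := WfDvdMonoid.exists_irreducible_factor (a := cyclotomic r F) (by
      intro h
      have := natDegree_eq_zero_of_isUnit h
      rw [natDegree_cyclotomic, Nat.totient_prime hr.out] at this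
      have := hr.out.one_lt
      omega) (cyclotomic_ne_zero r F)
    rw [← hg2 π h1 h2]
    exact h1.natDegree_pos
  have hX : (X - 1 : F[X]) ≠ 0 := by
    have := X_sub_C_ne_zero (1 : F)
    simpa using this
  have hbot : (⊥ : Submodule F V).map y ≤ ⊥ := by simp
  have hE := ker_aeval_inv y (X - 1 : F[X])
  have hV := ker_aeval_inv y (cyclotomic r F)
  obtain ⟨U₁, u1, u2, u3, u4⟩ := chain_exists (f := y) hX hg1 le_rfl hbot hE bot_le (fun v hv => hv) a (by
    rw [finrank_bot]
    omega)
  obtain ⟨W₁, w1, w2, w3, w4⟩ := chain_exists (f := y) hX hg1 le_rfl u3 hE u2 (fun v hv => hv) (a' - a) (by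
    rw [u4, finrank_bot]
    omega)
  have hib : i * b ≤ i * b' := Nat.mul_le_mul_left _ hb
  obtain ⟨U₂, u1', u2', u3', u4'⟩ := chain_exists (f := y) (cyclotomic_ne_zero r F) hg2 hi1 hbot hV bot_le (fun v hv => hv) b (by
    rw [finrank_bot]
    omega)
  obtain ⟨W₂, w1', w2', w3', w4'⟩ := chain_exists (f := y) (cyclotomic_ne_zero r F) hg2 hi1 u3' hV u2' (fun v hv => hv) (b' - b) (by
    rw [u4', finrank_bot, zero_add, ← Nat.mul_add]
    have : b + (b' - b) = b' := by omega
    rw [this]
    exact hb')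
  have hdisj : ∀ A B : Submodule F V, A ≤ EE y → B ≤ VV r y → A ⊓ B = ⊥ := by
    intro A B hA hB
    have hd := Polynomial.disjoint_ker_aeval_of_isCoprime y (isCoprime_cyc (F := F) (p := p) (r := r) hrp)
    rw [eq_bot_iff]
    rintro x ⟨hx1, hx2⟩
    exact (Submodule.disjoint_def.mp hd) x (hA hx1) (hB hx2)
  have hdim : ∀ A B : Submodule F V, A ≤ EE y → B ≤ VV r y → finrank F (A ⊔ B : Submodule F V) = finrank F A + finrank F B := by
    intro A B hA hB
    have h1 := Submodule.finrank_sup_add_finrank_inf_eq A B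
    rw [hdisj A B hA hB, finrank_bot, add_zero] at h1
    exact h1
  refine ⟨U₁ ⊔ U₂, W₁ ⊔ W₂, sup_le_sup w1 w1', sup_inv u3 u3', sup_inv w3 w3', ?_, ?_⟩
  · rw [hdim _ _ u2 u2', u4, u4', finrank_bot]
    ring
  · rw [hdim _ _ w2 w2', w4, w4', u4, u4', finrank_bot]
    have e1 : 0 + 1 * a + 1 * (a' - a) = a' := by omega
    rw [e1]
    have e2 : 0 + i * b + i * (b' - b) = i * b' := by
      rw [zero_add, ← Nat.mul_add]
      congr 1
      omega
    rw [e2]

end element

section nonpower

variable [FiniteDimensional F V] {r : ℕ}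

/-- If `x ^ r = c` with `c` not an `r`-th power, the dimension of an invariant subspace is divisible by `r`. -/
theorem dvd_finrank_of_inv (hr : r.Prime) {x : V →ₗ[F] V} {c : F} (hx : x ^ r = c • 1) (hc : ∀ b : F, b ^ r ≠ c)
    {W : Submodule F V} (hW : W.map x ≤ W) : r ∣ finrank F W := by
  by_contra hnd
  have hco : Nat.Coprime (finrank F W) r := ((Nat.Prime.coprime_iff_not_dvd hr).mpr hnd).symm
  have hc0 : c ≠ 0 := by
    intro h
    apply hc 0
    rw [h, zero_pow hr.ne_zero]
  have hinv : ∀ v ∈ W, x v ∈ W := fun v hv => hW (Submodule.mem_map_of_mem hv)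
  let xW : W →ₗ[F] W := x.restrict hinv
  have h1 : xW ^ r = c • 1 := by
    apply LinearMap.ext
    intro v
    apply Subtype.ext
    have h2 : ∀ n : ℕ, (((xW ^ n) v : W) : V) = (x ^ n) (v : V) := by
      intro n
      induction n with
      | zero => simp
      | succ n ih =>
        rw [pow_succ', pow_succ', Module.End.mul_apply, Module.End.mul_apply]
        change x (((xW ^ n) v : W) : V) = _
        rw [ih]
    rw [h2, hx]
    simp
  have h2 : (LinearMap.det xW) ^ r = c ^ finrank F W := by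
    rw [← map_pow, h1, LinearMap.det_smul, map_one, mul_one]
  set δ := LinearMap.det xW with hδ
  have hδ0 : δ ≠ 0 := by
    intro h
    rw [h, zero_pow hr.ne_zero] at h2
    exact pow_ne_zero _ hc0 h2.symm
  have hg := Nat.gcd_eq_gcd_ab (finrank F W) r
  rw [hco] at hg
  apply hc (δ ^ (Nat.gcdA (finrank F W) r) * c ^ (Nat.gcdB (finrank F W) r))
  rw [mul_pow, ← zpow_natCast, ← zpow_natCast, ← zpow_mul, ← zpow_mul, mul_comm _ (r : ℤ), zpow_mul δ, zpow_natCast, h2, ← zpow_natCast, ← zpow_mul, ← zpow_add₀ hc0]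
  have e : (finrank F W : ℤ) * Nat.gcdA (finrank F W) r + Nat.gcdB (finrank F W) r * r = 1 := by
    have : ((1 : ℕ) : ℤ) = _ := hg
    push_cast at this
    linarith
  rw [e, zpow_one]

/-- Invariant subspaces exist for multiples of `r`. -/
theorem exists_inv_nonpower (hr : r.Prime) {x : V →ₗ[F] V} {c : F} (hx : x ^ r = c • 1) (hc : ∀ b : F, b ^ r ≠ c)
    {W₀ : Submodule F V} (hW₀ : W₀.map x ≤ W₀) (b : ℕ) (hb : finrank F W₀ + r * b ≤ finrank F V) :
    ∃ W : Submodule F V, W₀ ≤ W ∧ W.map x ≤ W ∧ finrank F W = finrank F W₀ + r * b := by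
  have hirr := X_pow_sub_C_irreducible_of_prime hr hc
  have hdeg : ∀ π : F[X], Irreducible π → π ∣ (X ^ r - C c : F[X]) → π.natDegree = r := by
    intro π h1 h2
    have h3 := (h1.associated_of_dvd hirr h2)
    rw [natDegree_eq_of_degree_eq (degree_eq_degree_of_associated h3)]
    exact natDegree_X_pow_sub_C
  obtain ⟨W, h1, -, h3, h4⟩ := chain_exists (f := x) hirr.ne_zero hdeg hr.one_lt.le hW₀ (W₁ := ⊤) (by simp) le_top (by
    intro v _
    simp [hx]) b (by rwa [finrank_top])
  exact ⟨W, h1, h3, h4⟩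

/-- The determinant of an element with `x ^ r = c`, `c` not an `r`-th power. -/
theorem det_of_pow_eq (hr : r.Prime) {x : V →ₗ[F] V} {c : F} (hx : x ^ r = c • 1) (hc : ∀ b : F, b ^ r ≠ c) :
    ∃ k, finrank F V = r * k ∧ LinearMap.det x = ((-1) ^ (r + 1) * c) ^ k := by
  classical
  have hirr := X_pow_sub_C_irreducible_of_prime hr hc
  set P : F[X] := X ^ r - C c with hP
  have hP0 : P ≠ 0 := hirr.ne_zero
  have hdeg : P.natDegree = r := natDegree_X_pow_sub_C
  haveI : Fact (Irreducible P) := ⟨hirr⟩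
  let K := AdjoinRoot P
  let pb := AdjoinRoot.powerBasis hP0
  haveI : FiniteDimensional F K := pb.finite
  have hfK : finrank F K = r := by
    rw [pb.finrank]
    exact hdeg
  have hroot : aeval x P = 0 := by
    rw [hP]
    simp only [map_sub, map_pow, aeval_X, aeval_C, hx]
    rw [sub_eq_zero]
    rfl
  let ρ : K →ₐ[F] Module.End F V := Ideal.Quotient.liftₐ (Ideal.span {P}) (aeval x) (by
    intro a ha
    obtain ⟨b, rfl⟩ := Ideal.mem_span_singleton'.1 ha
    rw [map_mul, hroot, mul_zero])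
  have hρθ : ρ (AdjoinRoot.root P) = x := by
    change ρ (AdjoinRoot.mk P X) = x
    change (aeval x) X = x
    simp
  letI modKV : Module K V := Module.compHom V ρ.toRingHom
  have hsmul : ∀ (a : K) (v : V), a • v = ρ a v := fun a v => rfl
  haveI : IsScalarTower F K V := by
    constructor
    intro a b v
    rw [hsmul, hsmul, map_smul]
    rfl
  haveI : Module.Finite K V := Module.Finite.of_restrictScalars_finite F K V
  haveI : Module.Free K V := Module.Free.of_divisionRing K V
  have hfin : finrank F K * finrank K V = finrank F V := finrank_mul_finrank F K V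
  refine ⟨finrank K V, by rw [← hfin, hfK], ?_⟩
  let φ : V →ₗ[K] V := (AdjoinRoot.root P) • LinearMap.id
  have hdetK : LinearMap.det φ = (AdjoinRoot.root P) ^ finrank K V := by
    rw [LinearMap.det_smul, LinearMap.det_id, mul_one]
  have hres : φ.restrictScalars F = x := by
    apply LinearMap.ext
    intro v
    change ρ (AdjoinRoot.root P) v = x v
    rw [hρθ]
  have hnorm : Algebra.norm F (AdjoinRoot.root P) = (-1) ^ (r + 1) * c := by
    have h1 := Algebra.PowerBasis.norm_gen_eq_coeff_zero_minpoly pb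
    rw [AdjoinRoot.powerBasis_gen] at h1
    rw [h1]
    have hmono : P.Monic := monic_X_pow_sub_C c hr.ne_zero
    rw [AdjoinRoot.minpoly_root hP0, hmono.leadingCoeff, inv_one, C_1, mul_one]
    have hd : pb.dim = r := hdeg
    rw [hd, hP, coeff_sub, coeff_C_zero, coeff_X_pow, if_neg (Ne.symm hr.ne_zero), pow_succ]
    ring
  rw [← hres, LinearMap.det_restrictScalars, hdetK, map_pow, hnorm]

end nonpower

end Cfsg.Agent.Lib.ElusiveCore
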