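import Mathlib
import Cfsg.Agent.Lib.ElusiveCore

/-!
# Elements of prime order modulo scalars: explicit models
-/

set_option autoImplicit false
set_option linter.unusedVariables false
set_option linter.unusedSectionVars false
set_option linter.style.haveILetI false

namespace Cfsg.Agent.Lib.ElusiveBuild

open Polynomial Module
open Cfsg.Agent.Lib.ElusiveCore

variable {F : Type*} [Field F]

section transfer

variable {V' : Type*} [AddCommGroup V'] [Module F V'] [FiniteDimensional F V']

/-- Realizing a linear map of determinant one by a matrix. -/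
theorem exists_SL_of_linear {n : ℕ} (hn : finrank F V' = n) (g : V' →ₗ[F] V') (hdet : LinearMap.det g = 1) :
    ∃ (x : Matrix.SpecialLinearGroup (Fin n) F) (e : V' ≃ₗ[F] (Fin n → F)),
      ∀ v, Matrix.toLin' (x : Matrix (Fin n) (Fin n) F) (e v) = e (g v) := by
  classical
  let e : V' ≃ₗ[F] (Fin n → F) := LinearEquiv.ofFinrankEq V' (Fin n → F) (by simp [hn])
  let M : Matrix (Fin n) (Fin n) F := LinearMap.toMatrix' (e.conj g)
  have hM : M.det = 1 := by
    change (LinearMap.toMatrix' (e.conj g)).det = 1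
    rw [LinearMap.det_toMatrix', LinearEquiv.conj_apply, LinearMap.comp_assoc]
    have := LinearMap.det_conj g e
    rw [hdet] at this
    exact this
  refine ⟨⟨M, hM⟩, e, ?_⟩
  intro v
  change Matrix.toLin' (LinearMap.toMatrix' (e.conj g)) (e v) = e (g v)
  rw [Matrix.toLin'_toMatrix']
  simp [LinearEquiv.conj_apply]

lemma toLin'_pow' {n : ℕ} (M : Matrix (Fin n) (Fin n) F) (k : ℕ) :
    Matrix.toLin' (M ^ k) = (Matrix.toLin' M) ^ k := by
  induction k with
  | zero =>
    rw [pow_zero, pow_zero, Matrix.toLin'_one]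
    rfl
  | succ k ih =>
    rw [pow_succ, pow_succ, Matrix.toLin'_mul, ih]
    rfl

lemma pow_transfer {n : ℕ} {y : (Fin n → F) →ₗ[F] (Fin n → F)} {g : V' →ₗ[F] V'} {e : V' ≃ₗ[F] (Fin n → F)}
    (h : ∀ v, y (e v) = e (g v)) (k : ℕ) (v : V') : (y ^ k) (e v) = e ((g ^ k) v) := by
  induction k with
  | zero => simp
  | succ k ih =>
    rw [pow_succ', pow_succ', Module.End.mul_apply, Module.End.mul_apply, ih, h]

/-- Invariant subspaces transfer. -/
lemma inv_transfer {n : ℕ} {y : (Fin n → F) →ₗ[F] (Fin n → F)} {g : V' →ₗ[F] V'} {e : V' ≃ₗ[F] (Fin n → F)}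
    (h : ∀ v, y (e v) = e (g v)) {W : Submodule F (Fin n → F)} (hW : W.map y ≤ W) :
    (W.comap (e : V' →ₗ[F] (Fin n → F))).map g ≤ W.comap (e : V' →ₗ[F] (Fin n → F)) := by
  rintro _ ⟨v, hv, rfl⟩
  change e (g v) ∈ W
  rw [← h]
  exact hW (Submodule.mem_map_of_mem hv)

lemma finrank_comap_equiv {n : ℕ} (e : V' ≃ₗ[F] (Fin n → F)) (W : Submodule F (Fin n → F)) :
    finrank F (W.comap (e : V' →ₗ[F] (Fin n → F))) = finrank F W := by
  have : W.comap (e : V' →ₗ[F] (Fin n → F)) = W.map (e.symm : (Fin n → F) →ₗ[F] V') := by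
    ext v
    constructor
    · intro hv
      exact ⟨e v, hv, by simp⟩
    · rintro ⟨w, hw, rfl⟩
      change e (e.symm w) ∈ W
      simpa using hw
  rw [this]
  exact LinearEquiv.finrank_map_eq e.symm W

end transfer

section nonpower

variable {r : ℕ}

/-- The model of an element whose `r`-th power is a scalar which is not an `r`-th power. -/
theorem exists_nonpower_element (hr : r.Prime) {n k : ℕ} (hn : n = r * k) {c : F} (hc : ∀ b : F, b ^ r ≠ c)
    (hdet : ((-1) ^ (r + 1) * c) ^ k = 1) :
    ∃ x : Matrix.SpecialLinearGroup (Fin n) F,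
      ((x ^ r : Matrix.SpecialLinearGroup (Fin n) F) : Matrix (Fin n) (Fin n) F) = c • (1 : Matrix (Fin n) (Fin n) F) := by
  classical
  have hirr := X_pow_sub_C_irreducible_of_prime hr hc
  set P : F[X] := X ^ r - C c with hP
  have hP0 : P ≠ 0 := hirr.ne_zero
  have hdeg : P.natDegree = r := natDegree_X_pow_sub_C
  haveI : Fact (Irreducible P) := ⟨hirr⟩
  let K := AdjoinRoot P
  let pb := AdjoinRoot.powerBasis hP0
  haveI : FiniteDimensional F K := pb.finite
  have hfK : finrank F K = r := by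
    rw [pb.finrank]
    exact hdeg
  let V' := Fin k → K
  have hfin : finrank F V' = n := by
    rw [hn, ← finrank_mul_finrank F K V', hfK]
    simp [V']
  have hroot : (AdjoinRoot.root P) ^ r = algebraMap F K c := by
    have h1 : (AdjoinRoot.mk P) (X ^ r - C c) = 0 := AdjoinRoot.mk_self
    rw [map_sub, map_pow, AdjoinRoot.mk_X, AdjoinRoot.mk_C, sub_eq_zero] at h1
    exact h1
  let g : V' →ₗ[F] V' := ((AdjoinRoot.root P) • LinearMap.id : V' →ₗ[K] V').restrictScalars F
  have hg : ∀ (m : ℕ) (v : V'), (g ^ m) v = (AdjoinRoot.root P) ^ m • v := by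
    intro m v
    induction m with
    | zero => simp
    | succ m ih =>
      rw [pow_succ', Module.End.mul_apply, ih, pow_succ']
      change (AdjoinRoot.root P) • ((AdjoinRoot.root P) ^ m • v) = _
      rw [smul_smul]
  have hgr : g ^ r = c • 1 := by
    apply LinearMap.ext
    intro v
    rw [hg, hroot, algebraMap_smul]
    rfl
  obtain ⟨k', hk', hdet'⟩ := det_of_pow_eq hr hgr hc
  have hkk : k' = k := by
    have : r * k' = r * k := by rw [← hk', hfin, hn]
    exact Nat.eq_of_mul_eq_mul_left hr.pos this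
  rw [hkk, hdet] at hdet'
  obtain ⟨x, e, hx⟩ := exists_SL_of_linear hfin g hdet'
  refine ⟨x, ?_⟩
  rw [Matrix.SpecialLinearGroup.coe_pow]
  apply Matrix.toLin'.injective
  apply LinearMap.ext
  intro w
  obtain ⟨v, rfl⟩ := e.surjective w
  rw [toLin'_pow', pow_transfer hx, hgr]
  simp

end nonpower

section order

variable [Fintype F] {p : ℕ} [hp : Fact p.Prime] [CharP F p] {r : ℕ} [hr : Fact r.Prime]

/-- No nontrivial `r`-th roots of unity if `r` does not divide `q - 1`. -/
lemma eq_one_of_pow (hrq : ¬ r ∣ Fintype.card F - 1) {δ : F} (h : δ ^ r = 1) : δ = 1 := by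
  have h0 : δ ≠ 0 := by
    rintro rfl
    rw [zero_pow hr.out.ne_zero] at h
    exact zero_ne_one h
  have h1 : δ ^ (Fintype.card F - 1) = 1 := FiniteField.pow_card_sub_one_eq_one δ h0
  have h2 : Nat.Coprime r (Fintype.card F - 1) := (Nat.Prime.coprime_iff_not_dvd hr.out).mpr hrq
  have h3 : δ ^ Nat.gcd r (Fintype.card F - 1) = 1 := by
    have h4 := orderOf_dvd_of_pow_eq_one h
    have h5 := orderOf_dvd_of_pow_eq_one h1
    exact orderOf_dvd_iff_pow_eq_one.mp (Nat.dvd_gcd h4 h5)
  rw [h2, pow_one] at h3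
  exact h3

include p in
/-- The model of an element of order `r` with small fixed space. -/
theorem exists_order_element (hrp : r ≠ p) (hrq : ¬ r ∣ Fintype.card F - 1) {n : ℕ}
    (hn : orderOf ((Fintype.card F : ℕ) : ZMod r) ≤ n) :
    ∃ x : Matrix.SpecialLinearGroup (Fin n) F, x ^ r = 1 ∧ (∀ c : F, (x : Matrix (Fin n) (Fin n) F) ≠ c • 1) ∧
      ∃ E : Submodule F (Fin n → F), finrank F E ≤ n % orderOf ((Fintype.card F : ℕ) : ZMod r) ∧
        ∀ W : Submodule F (Fin n → F), W.map (Matrix.toLin' (x : Matrix (Fin n) (Fin n) F)) ≤ W →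
          ∃ b, finrank F W = finrank F (W ⊓ E : Submodule F (Fin n → F)) + orderOf ((Fintype.card F : ℕ) : ZMod r) * b := by
  classical
  set i := orderOf ((Fintype.card F : ℕ) : ZMod r) with hi
  obtain ⟨π, hπ, hπd⟩ := WfDvdMonoid.exists_irreducible_factor (a := cyclotomic r F) (by
    intro h
    have := natDegree_eq_zero_of_isUnit h
    rw [natDegree_cyclotomic, Nat.totient_prime hr.out] at this
    have := hr.out.one_lt
    omega) (cyclotomic_ne_zero r F)
  have hdegπ : π.natDegree = i := natDegree_irred_cyclotomic (p := p) hrp hπ hπd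
  have hi0 : 0 < i := by
    rw [← hdegπ]
    exact hπ.natDegree_pos
  haveI : Fact (Irreducible π) := ⟨hπ⟩
  let K := AdjoinRoot π
  let pb := AdjoinRoot.powerBasis hπ.ne_zero
  haveI : FiniteDimensional F K := pb.finite
  have hfK : finrank F K = i := by
    rw [pb.finrank]
    exact hdegπ
  set e₀ := n % i with he₀
  set s := n / i with hs
  have hs1 : 1 ≤ s := by
    rw [hs]
    exact (Nat.one_le_div_iff hi0).mpr hn
  have hdiv : e₀ + i * s = n := Nat.mod_add_div n i
  let A := Fin e₀ → F
  let B := Fin s → K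
  let V' := A × B
  have hfB : finrank F B = i * s := by
    rw [← finrank_mul_finrank F K B, hfK]
    simp [B]
  have hfin : finrank F V' = n := by
    rw [Module.finrank_prod, hfB, ← hdiv]
    simp [A]
  -- the root of unity
  let ζ : K := AdjoinRoot.root π
  have hζΦ : aeval ζ (cyclotomic r F) = 0 := by
    obtain ⟨w, hw⟩ := hπd
    rw [hw, map_mul, AdjoinRoot.aeval_eq, AdjoinRoot.mk_self, zero_mul]
  have hζr : ζ ^ r = 1 := by
    have h1 := cyclotomic_prime_mul_X_sub_one F r
    have h2 := congrArg (aeval ζ) h1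
    rw [map_mul, hζΦ, zero_mul] at h2
    simp only [map_sub, map_pow, aeval_X, map_one] at h2
    exact (sub_eq_zero.mp h2.symm)
  have hζ1 : ζ ≠ 1 := by
    intro h
    rw [h] at hζΦ
    rw [aeval_def, eval₂_eq_eval_map, map_cyclotomic, eval_one_cyclotomic_prime] at hζΦ
    have h3 : ((r : ℕ) : K) = algebraMap F K ((r : ℕ) : F) := by simp
    rw [h3] at hζΦ
    have h4 := natCast_r_ne (F := F) (p := p) (r := r) hrp
    exact h4 ((map_eq_zero _).mp hζΦ)
  let gB : B →ₗ[F] B := (ζ • LinearMap.id : B →ₗ[K] B).restrictScalars F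
  let g : V' →ₗ[F] V' := LinearMap.prodMap LinearMap.id gB
  have hgB : ∀ (m : ℕ) (v : B), (gB ^ m) v = ζ ^ m • v := by
    intro m v
    induction m with
    | zero => simp
    | succ m ih =>
      rw [pow_succ', Module.End.mul_apply, ih, pow_succ']
      change ζ • (ζ ^ m • v) = _
      rw [smul_smul]
  have hg : ∀ (m : ℕ) (v : V'), (g ^ m) v = (v.1, ζ ^ m • v.2) := by
    intro m v
    induction m with
    | zero => simp
    | succ m ih =>
      rw [pow_succ', Module.End.mul_apply, ih, pow_succ']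
      change (v.1, ζ • (ζ ^ m • v.2)) = _
      rw [smul_smul]
  have hgr : g ^ r = 1 := by
    apply LinearMap.ext
    intro v
    rw [hg, hζr, one_smul]
    rfl
  have hdet : LinearMap.det g = 1 := by
    apply eq_one_of_pow hrq
    rw [← map_pow, hgr, map_one]
  obtain ⟨x, e, hx⟩ := exists_SL_of_linear hfin g hdet
  have hxr : Matrix.toLin' (x : Matrix (Fin n) (Fin n) F) ^ r = 1 := by
    apply LinearMap.ext
    intro w
    obtain ⟨v, rfl⟩ := e.surjective w
    rw [pow_transfer hx, hgr]
    rfl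
  refine ⟨x, ?_, ?_, ?_⟩
  · apply Subtype.ext
    rw [Matrix.SpecialLinearGroup.coe_pow]
    apply Matrix.toLin'.injective
    rw [toLin'_pow', hxr]
    simp
    rfl
  · -- not a scalar
    intro c hc
    have hw : ∃ w : B, w ≠ 0 := by
      haveI : Nonempty (Fin s) := ⟨⟨0, hs1⟩⟩
      exact ⟨fun _ => 1, fun h => one_ne_zero (congrFun h ⟨0, hs1⟩)⟩
    obtain ⟨w, hw⟩ := hw
    have h0 : ∀ v, g v = c • v := by
      intro v
      apply e.injective
      rw [← hx, hc]
      simp
    have h1 := h0 ((0 : A), w)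
    have h2 : g ((0 : A), w) = ((0 : A), ζ • w) := rfl
    rw [h2] at h1
    have h3 : ζ • w = c • w := congrArg Prod.snd h1
    have hA : ∀ a : A, c • a = a := by
      intro a
      have h4 := h0 (a, 0)
      have h5 : g (a, (0 : B)) = (a, ζ • (0 : B)) := rfl
      rw [h5] at h4
      exact (congrArg Prod.fst h4).symm
    -- `c ^ r = 1` forces `c = 1`
    have hcr : c ^ r = 1 := by
      have h6 : ∀ m : ℕ, (g ^ m) ((0 : A), w) = c ^ m • ((0 : A), w) := by
        intro m
        induction m with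
        | zero => simp
        | succ m ih =>
          rw [pow_succ', Module.End.mul_apply, ih, map_smul, h0, smul_smul, pow_succ]
      have h7 := h6 r
      rw [hgr] at h7
      have h8 : ((0 : A), w) ≠ 0 := fun h => hw (congrArg Prod.snd h)
      have h9 : (1 - c ^ r) • ((0 : A), w) = 0 := by
        rw [sub_smul, one_smul, ← h7]
        simp
      rcases smul_eq_zero.mp h9 with h10 | h10
      · exact (sub_eq_zero.mp h10).symm
      · exact absurd h10 h8
    have hc1 := eq_one_of_pow hrq hcr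
    rw [hc1, one_smul] at h3
    have h11 : (ζ - 1) • w = 0 := by rw [sub_smul, one_smul, h3, sub_self]
    rcases smul_eq_zero.mp h11 with h12 | h12
    · exact hζ1 (sub_eq_zero.mp h12)
    · exact hw h12
  · -- the fixed space
    set y := Matrix.toLin' (x : Matrix (Fin n) (Fin n) F) with hy
    refine ⟨EE y, ?_, ?_⟩
    · -- dimension of the fixed space
      let φ : (EE y) →ₗ[F] A := (LinearMap.fst F A B).comp ((e.symm : (Fin n → F) →ₗ[F] V').comp (EE y).subtype)
      have hφ : Function.Injective φ := by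
        rw [injective_iff_map_eq_zero]
        rintro ⟨w, hw⟩ hw0
        have h1 : y w = w := mem_EE.mp hw
        obtain ⟨v, rfl⟩ := e.surjective w
        have h2 : g v = v := by
          apply e.injective
          rw [← hx]
          exact h1
        have h3 : v.1 = 0 := by
          have : (e.symm (e v)).1 = 0 := hw0
          simpa using this
        have h4 : ζ • v.2 = v.2 := congrArg Prod.snd h2
        have h11 : (ζ - 1) • v.2 = 0 := by rw [sub_smul, one_smul, h4, sub_self]
        have h5 : v.2 = 0 := by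
          rcases smul_eq_zero.mp h11 with h12 | h12
          · exact absurd (sub_eq_zero.mp h12) hζ1
          · exact h12
        have h6 : v = 0 := Prod.ext h3 h5
        apply Subtype.ext
        simp [h6]
      have := LinearMap.finrank_le_finrank_of_injective hφ
      simpa [A] using this
    · intro W hW
      have h1 := finrank_inf_decomp y hW (isCoprime_cyc (F := F) (p := p) (r := r) hrp) (by
        intro v _
        rw [aeval_mul_eq_zero hxr]
        rfl)
      have h2 : i ∣ finrank F (W ⊓ VV r y : Submodule F (Fin n → F)) - finrank F (⊥ : Submodule F (Fin n → F)) :=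
        chain_dvd (g := cyclotomic r F) (f := y) (cyclotomic_ne_zero r F)
          (fun π hπ hd => natDegree_irred_cyclotomic (p := p) hrp hπ hd)
          (W₀ := ⊥) (W₁ := W ⊓ VV r y) (by simp) (inf_inv hW (ker_aeval_inv y _)) bot_le
          (fun v hv => hv.2)
      rw [finrank_bot, Nat.sub_zero] at h2
      obtain ⟨b, hb⟩ := h2
      exact ⟨b, by rw [h1, hb]⟩

end order

section numbers

variable [Fintype F]

lemma dvd_pow_sub_one_iff {q r k : ℕ} [Fact r.Prime] (hq : 1 ≤ q) : r ∣ q ^ k - 1 ↔ orderOf ((q : ℕ) : ZMod r) ∣ k := by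
  rw [orderOf_dvd_iff_pow_eq_one, ← ZMod.natCast_eq_zero_iff, Nat.cast_sub (Nat.one_le_pow _ _ hq), sub_eq_zero]
  simp

/-- Every nonzero element is an `r`-th power if `r` does not divide `q - 1`. -/
lemma exists_root_of_not_dvd {r : ℕ} (hr : r.Prime) (hrq : ¬ r ∣ Fintype.card F - 1) {c : F} (hc : c ≠ 0) : ∃ d : F, d ^ r = c := by
  classical
  have h1 : (Nat.card Fˣ).Coprime r := by
    rw [Nat.card_eq_fintype_card, Fintype.card_units]
    exact ((Nat.Prime.coprime_iff_not_dvd hr).mpr hrq).symm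
  let e := powCoprime h1
  obtain ⟨u, hu⟩ := e.surjective (Units.mk0 c hc)
  refine ⟨u, ?_⟩
  have := congrArg Units.val hu
  simpa [e] using this

lemma exists_generator_F : ∃ ω : Fˣ, ∀ c : F, c ≠ 0 → ∃ t : ℕ, (ω : F) ^ t = c := by
  obtain ⟨ω, hω⟩ := IsCyclic.exists_generator (α := Fˣ)
  refine ⟨ω, ?_⟩
  intro c hc
  obtain ⟨t, ht⟩ := mem_powers_iff_mem_zpowers.mpr (hω (Units.mk0 c hc))
  refine ⟨t, ?_⟩
  have := congrArg Units.val ht
  simpa using this

lemma orderOf_generator {ω : Fˣ} (hω : ∀ c : F, c ≠ 0 → ∃ t : ℕ, (ω : F) ^ t = c) : orderOf ω = Fintype.card F - 1 := by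
  classical
  rw [← Fintype.card_units, ← Nat.card_eq_fintype_card]
  apply orderOf_eq_card_of_forall_mem_zpowers
  intro u
  obtain ⟨t, ht⟩ := hω u u.ne_zero
  refine ⟨t, ?_⟩
  apply Units.ext
  simpa using ht

variable {r : ℕ} [hr : Fact r.Prime]

/-- If `c` is not an `r`-th power and `c ^ k = 1`, then the `r`-part of `k` is at least that of `q - 1`. -/
lemma val_le_of_nonpower {c : F} (hc : ∀ b : F, b ^ r ≠ c) {k : ℕ} (hk : k ≠ 0) (h1 : c ^ k = 1) :
    padicValNat r (Fintype.card F - 1) ≤ padicValNat r k := by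
  by_contra hlt
  push Not at hlt
  have hq : 1 < Fintype.card F := Fintype.one_lt_card
  have hc0 : c ≠ 0 := by
    rintro rfl
    rw [zero_pow hk] at h1
    exact zero_ne_one h1
  obtain ⟨ω, hω⟩ := exists_generator_F (F := F)
  have hord := orderOf_generator hω
  obtain ⟨t, ht⟩ := hω c hc0
  have hc1 : c ^ (Fintype.card F - 1) = 1 := FiniteField.pow_card_sub_one_eq_one c hc0
  set g := Nat.gcd k (Fintype.card F - 1) with hg
  have hg0 : 0 < g := Nat.gcd_pos_of_pos_left _ (Nat.pos_of_ne_zero hk)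
  have hcg : c ^ g = 1 := by
    have h2 := orderOf_dvd_of_pow_eq_one h1
    have h3 := orderOf_dvd_of_pow_eq_one hc1
    exact orderOf_dvd_iff_pow_eq_one.mp (Nat.dvd_gcd h2 h3)
  obtain ⟨w, hw⟩ := Nat.gcd_dvd_right k (Fintype.card F - 1)
  rw [← hg] at hw
  have hw0 : w ≠ 0 := by
    rintro rfl
    omega
  have hrw : r ∣ w := by
    by_contra hnd
    have h4 : padicValNat r w = 0 := padicValNat.eq_zero_of_not_dvd hnd
    haveI : NeZero g := ⟨hg0.ne'⟩
    have h5 : padicValNat r (g * w) = padicValNat r g + padicValNat r w := padicValNat.mul hg0.ne' hw0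
    rw [← hw, h4, add_zero] at h5
    have h6 : r ^ padicValNat r g ∣ k := (pow_padicValNat_dvd).trans (Nat.gcd_dvd_left _ _)
    have h7 := (padicValNat_dvd_iff_le hk).mp h6
    omega
  have h8 : (Fintype.card F - 1) ∣ t * g := by
    rw [← hord, orderOf_dvd_iff_pow_eq_one]
    apply Units.ext
    rw [pow_mul]
    push_cast
    rw [ht, hcg]
  rw [hw, mul_comm t] at h8
  have h9 : w ∣ t := Nat.dvd_of_mul_dvd_mul_left hg0 h8
  obtain ⟨u, hu⟩ := hrw.trans h9
  apply hc ((ω : F) ^ u)
  rw [← pow_mul, mul_comm, ← hu, ht]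

/-- Non-powers of prescribed order. -/
lemma exists_nonpower (hrq : r ∣ Fintype.card F - 1) {k : ℕ} (hk : k ≠ 0)
    (hv : padicValNat r (Fintype.card F - 1) ≤ padicValNat r k) :
    ∃ c : F, (∀ b : F, b ^ r ≠ c) ∧ c ^ k = 1 := by
  have hq : 1 < Fintype.card F := Fintype.one_lt_card
  have hq0 : Fintype.card F - 1 ≠ 0 := by omega
  obtain ⟨ω, hω⟩ := exists_generator_F (F := F)
  have hord := orderOf_generator hω
  obtain ⟨a, m, hm, hqm⟩ := Nat.exists_eq_pow_mul_and_not_dvd hq0 r hr.out.ne_one
  have hm0 : m ≠ 0 := by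
    rintro rfl
    simp at hqm
    omega
  have hva : padicValNat r (Fintype.card F - 1) = a := by
    rw [hqm, padicValNat.mul (pow_ne_zero _ hr.out.ne_zero) hm0, padicValNat.prime_pow, padicValNat.eq_zero_of_not_dvd hm, add_zero]
  rw [hva] at hv
  have ha1 : 1 ≤ a := by
    by_contra h
    have : a = 0 := by omega
    subst this
    rw [pow_zero, one_mul] at hqm
    rw [hqm] at hrq
    exact hm hrq
  have hdvd : r ^ a ∣ k := (padicValNat_dvd_iff_le hk).mpr hv
  refine ⟨(ω : F) ^ m, ?_, ?_⟩
  · intro b hb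
    have hb0 : b ≠ 0 := by
      rintro rfl
      rw [zero_pow hr.out.ne_zero] at hb
      exact (pow_ne_zero m ω.ne_zero) hb.symm
    have h1 : b ^ (Fintype.card F - 1) = 1 := FiniteField.pow_card_sub_one_eq_one b hb0
    obtain ⟨a', rfl⟩ : ∃ a', a = a' + 1 := ⟨a - 1, by omega⟩
    have h2 : ((ω : F) ^ m) ^ (r ^ a' * m) = 1 := by
      rw [← hb, ← pow_mul]
      have : r * (r ^ a' * m) = Fintype.card F - 1 := by rw [hqm]; ring
      rw [this, h1]
    have h3 : ω ^ (m * (r ^ a' * m)) = 1 := by
      apply Units.ext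
      rw [← pow_mul] at h2
      simpa using h2
    have h4 := orderOf_dvd_of_pow_eq_one h3
    rw [hord, hqm] at h4
    have h5 : r ^ (a' + 1) * m = (r ^ a' * m) * r := by ring
    have h6 : m * (r ^ a' * m) = (r ^ a' * m) * m := by ring
    rw [h5, h6] at h4
    have h7 : r ∣ m := Nat.dvd_of_mul_dvd_mul_left (by
      exact Nat.pos_of_ne_zero (mul_ne_zero (pow_ne_zero _ hr.out.ne_zero) hm0)) h4
    exact hm h7
  · obtain ⟨k', rfl⟩ := hdvd
    rw [← pow_mul]
    have h1 : m * (r ^ a * k') = (Fintype.card F - 1) * k' := by rw [hqm]; ring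
    rw [h1, pow_mul]
    have h2 : (ω : F) ^ (Fintype.card F - 1) = 1 := FiniteField.pow_card_sub_one_eq_one _ ω.ne_zero
    rw [h2, one_pow]

end numbers

end Cfsg.Agent.Lib.ElusiveBuild
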