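import Mathlib
import Cfsg.Agent.Lib.ElusiveCore
import Cfsg.Agent.Lib.ElusiveCount
import Cfsg.Agent.Lib.ElusiveBuild

/-!
# Elusive actions on subspaces of `PSL_n(q)`: the common analysis
-/

set_option autoImplicit false
set_option linter.unusedVariables false
set_option linter.unusedSectionVars false
set_option linter.style.haveILetI false

namespace Cfsg.Agent.Lib.ElusiveMain

open Polynomial Module
open Cfsg.Agent.Lib.ElusiveCore Cfsg.Agent.Lib.ElusiveBuild Cfsg.Agent.Lib.ElusiveCount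

section numeric

/-- One subspace: the numeric choice. -/
lemma num_single {i e s n m : ℕ} (hi : 1 ≤ i) (hn : e + i * s = n) (hm : m ≤ n) (hmod : m % i ≤ n % i) :
    ∃ a b, a ≤ e ∧ b ≤ s ∧ a + i * b = m := by
  have h1 : m % i + i * (m / i) = m := Nat.mod_add_div m i
  have h2 : n % i + i * (n / i) = n := Nat.mod_add_div n i
  by_cases h : m / i ≤ s
  · refine ⟨m % i, m / i, ?_, h, h1⟩
    have h3 : n % i = e % i := by
      rw [← hn, Nat.add_mul_mod_self_left]
    have h4 : e % i ≤ e := Nat.mod_le _ _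
    omega
  · refine ⟨m - i * s, s, ?_, le_rfl, ?_⟩
    · omega
    · have h3 : i * s ≤ i * (m / i) := Nat.mul_le_mul_left _ (by omega)
      omega

/-- Nested subspaces: the numeric choice. -/
lemma num_nested {i e s n m : ℕ} (hi : 1 ≤ i) (hn : e + i * s = n) (hmn : 2 * m ≤ n) (hmod : 2 * (m % i) ≤ n % i) :
    ∃ a b a' b', a ≤ a' ∧ b ≤ b' ∧ a' ≤ e ∧ b' ≤ s ∧ a + i * b = m ∧ a' + i * b' = n - m := by
  have hm1 : m % i + i * (m / i) = m := Nat.mod_add_div m i
  have hn1 : n % i + i * (n / i) = n := Nat.mod_add_div n i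
  have hk1 : (n - m) % i + i * ((n - m) / i) = n - m := Nat.mod_add_div (n - m) i
  have hlt : m % i < i := Nat.mod_lt _ hi
  have hlt2 : n % i < i := Nat.mod_lt _ hi
  have hlt3 : (n - m) % i < i := Nat.mod_lt _ hi
  have hen : n % i = e % i := by rw [← hn, Nat.add_mul_mod_self_left]
  have he : e % i ≤ e := Nat.mod_le _ _
  -- the residue of `n - m`
  have hres : (n - m) % i = n % i - m % i := by
    have h1 : n - m = (n % i - m % i) + i * (n / i - m / i) := by
      have h3 : m / i ≤ n / i := Nat.div_le_div_right (by omega)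
      have h4 : i * (n / i - m / i) = i * (n / i) - i * (m / i) := Nat.mul_sub _ _ _
      have h5 : i * (m / i) ≤ i * (n / i) := Nat.mul_le_mul_left _ h3
      omega
    rw [h1, Nat.add_mul_mod_self_left, Nat.mod_eq_of_lt (by omega)]
  have hμκ : m / i ≤ (n - m) / i := Nat.div_le_div_right (by omega)
  by_cases h : (n - m) / i ≤ s
  · refine ⟨m % i, m / i, (n - m) % i, (n - m) / i, ?_, hμκ, ?_, h, hm1, hk1⟩
    · omega
    · omega
  · have hs : i * s ≤ i * ((n - m) / i) := Nat.mul_le_mul_left _ (by omega)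
    by_cases h' : m / i ≤ s
    · refine ⟨m % i, m / i, n - m - i * s, s, ?_, h', ?_, le_rfl, hm1, ?_⟩
      · omega
      · omega
      · omega
    · have hs2 : i * s ≤ i * (m / i) := Nat.mul_le_mul_left _ (by omega)
      refine ⟨m - i * s, s, n - m - i * s, s, ?_, le_rfl, ?_, le_rfl, ?_, ?_⟩
      · omega
      · omega
      · omega
      · omega

lemma i_eq_one_iff {q r : ℕ} [Fact r.Prime] (hq : 1 ≤ q) : orderOf ((q : ℕ) : ZMod r) = 1 ↔ r ∣ q - 1 := by
  have := dvd_pow_sub_one_iff (r := r) (k := 1) hq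
  rw [pow_one, Nat.dvd_one] at this
  exact this.symm

end numeric

variable {F : Type*} [Field F] [Fintype F]

section bad

/-- A non-power model if the numeric condition fails. -/
theorem exists_bad_i1 {r n : ℕ} [hr : Fact r.Prime] (hn : n ≠ 0) (hrq : r ∣ Fintype.card F - 1)
    (hcond : ¬ (padicValNat r n ≤ padicValNat r (Fintype.card F - 1) ∧ (r = 2 → Even n → Fintype.card F % 4 = 1))) :
    ∃ (x : Matrix.SpecialLinearGroup (Fin n) F) (c : F), (∀ b : F, b ^ r ≠ c) ∧
      ((x ^ r : Matrix.SpecialLinearGroup (Fin n) F) : Matrix (Fin n) (Fin n) F) = c • (1 : Matrix (Fin n) (Fin n) F) := by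
  classical
  have hq : 1 < Fintype.card F := Fintype.one_lt_card
  by_cases h2 : r = 2 ∧ Even n ∧ Fintype.card F % 4 ≠ 1
  · obtain ⟨rfl, ⟨k, hk⟩, hmod⟩ := h2
    have h3 : Fintype.card F % 4 = 3 := by omega
    have hc : ∀ b : F, b ^ 2 ≠ -1 := by
      intro b hb
      have : IsSquare (-1 : F) := ⟨b, by rw [← hb]; ring⟩
      exact (FiniteField.isSquare_neg_one_iff.mp this) h3
    obtain ⟨x, hx⟩ := exists_nonpower_element (F := F) hr.out (n := n) (k := k) (by omega) hc (by
      have : ((-1 : F) ^ (2 + 1) * (-1)) = 1 := by ring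
      rw [this, one_pow])
    exact ⟨x, -1, hc, hx⟩
  · have hv : padicValNat r (Fintype.card F - 1) < padicValNat r n := by
      by_contra hlt
      apply hcond
      refine ⟨by omega, ?_⟩
      intro h3 h4
      by_contra h5
      exact h2 ⟨h3, h4, h5⟩
    have hrn : r ∣ n := by
      apply dvd_of_one_le_padicValNat
      omega
    obtain ⟨k, rfl⟩ := hrn
    have hk : k ≠ 0 := by
      rintro rfl
      exact hn (by simp)
    rw [padicValNat.mul hr.out.ne_zero hk, padicValNat_self] at hv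
    obtain ⟨c', hc', hc'k⟩ := exists_nonpower (F := F) hrq hk (by omega)
    by_cases hr2 : r = 2
    · subst hr2
      have h5 : Fintype.card F % 4 = 1 := by
        by_contra h5
        exact h2 ⟨rfl, ⟨k, by ring⟩, h5⟩
      have h6 : IsSquare (-1 : F) := FiniteField.isSquare_neg_one_iff.mpr (by omega)
      obtain ⟨s, hs⟩ := h6
      have hc : ∀ b : F, b ^ 2 ≠ -c' := by
        intro b hb
        apply hc' (b * s)
        have : (b * s) ^ 2 = b ^ 2 * (s * s) := by ring
        rw [this, hb, ← hs]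
        ring
      obtain ⟨x, hx⟩ := exists_nonpower_element (F := F) hr.out (n := 2 * k) (k := k) rfl hc (by
        have : ((-1 : F) ^ (2 + 1) * (-c')) = c' := by ring
        rw [this, hc'k])
      exact ⟨x, -c', hc, hx⟩
    · have hodd : Even (r + 1) := by
        have := hr.out.eq_one_or_self_of_dvd 2
        have h7 : Odd r := hr.out.odd_of_ne_two hr2
        exact h7.add_one
      obtain ⟨x, hx⟩ := exists_nonpower_element (F := F) hr.out (n := r * k) (k := k) rfl hc' (by
        rw [hodd.neg_one_pow, one_mul, hc'k])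
      exact ⟨x, c', hc', hx⟩

/-- A non-power `r`-th power of an element of `SL` forces the numeric condition to fail. -/
theorem nonpower_contra {r n : ℕ} [hr : Fact r.Prime] (hn : n ≠ 0) {x : Matrix.SpecialLinearGroup (Fin n) F} {c : F}
    (hc : ∀ b : F, b ^ r ≠ c)
    (hx : ((x ^ r : Matrix.SpecialLinearGroup (Fin n) F) : Matrix (Fin n) (Fin n) F) = c • (1 : Matrix (Fin n) (Fin n) F))
    (hcond : padicValNat r n ≤ padicValNat r (Fintype.card F - 1) ∧ (r = 2 → Even n → Fintype.card F % 4 = 1)) : False := by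
  classical
  have hf : (Matrix.toLin' (x : Matrix (Fin n) (Fin n) F)) ^ r = c • (1 : (Fin n → F) →ₗ[F] (Fin n → F)) := by
    rw [← toLin'_pow']
    have h1 : (x : Matrix (Fin n) (Fin n) F) ^ r = c • (1 : Matrix (Fin n) (Fin n) F) := by
      rw [← hx]
      simp
    rw [h1, map_smul, Matrix.toLin'_one]
    rfl
  obtain ⟨k, hk1, hk2⟩ := det_of_pow_eq hr.out hf hc
  rw [LinearMap.det_toLin', x.2] at hk2
  have hfr : finrank F (Fin n → F) = n := by simp
  rw [hfr] at hk1
  subst hk1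
  have hk : k ≠ 0 := by
    rintro rfl
    exact hn (by simp)
  obtain ⟨h1, h2⟩ := hcond
  rw [padicValNat.mul hr.out.ne_zero hk, padicValNat_self] at h1
  by_cases hr2 : r = 2
  · subst hr2
    have h5 := h2 rfl ⟨k, by ring⟩
    have h6 : IsSquare (-1 : F) := FiniteField.isSquare_neg_one_iff.mpr (by omega)
    obtain ⟨s, hs⟩ := h6
    have hc2 : ∀ b : F, b ^ 2 ≠ -c := by
      intro b hb
      apply hc (b * s)
      have : (b * s) ^ 2 = b ^ 2 * (s * s) := by ring
      rw [this, hb, ← hs]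
      ring
    have h7 : (-c) ^ k = 1 := by
      rw [hk2]
      congr 1
      ring
    have := val_le_of_nonpower hc2 hk h7
    omega
  · have hodd : Even (r + 1) := (hr.out.odd_of_ne_two hr2).add_one
    rw [hodd.neg_one_pow, one_mul] at hk2
    have := val_le_of_nonpower hc hk hk2.symm
    omega

end bad

section scalar

variable {n r : ℕ}

lemma toLin'_pow_eq {x : Matrix.SpecialLinearGroup (Fin n) F} {c : F}
    (hx : ((x ^ r : Matrix.SpecialLinearGroup (Fin n) F) : Matrix (Fin n) (Fin n) F) = c • (1 : Matrix (Fin n) (Fin n) F)) :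
    (Matrix.toLin' (x : Matrix (Fin n) (Fin n) F)) ^ r = c • (1 : (Fin n → F) →ₗ[F] (Fin n → F)) := by
  rw [← toLin'_pow']
  have h1 : (x : Matrix (Fin n) (Fin n) F) ^ r = c • (1 : Matrix (Fin n) (Fin n) F) := by
    rw [← hx]
    simp
  rw [h1, map_smul, Matrix.toLin'_one]
  rfl

/-- The scalar is nonzero. -/
lemma scalar_ne_zero (hn : n ≠ 0) {x : Matrix.SpecialLinearGroup (Fin n) F} {c : F}
    (hx : ((x ^ r : Matrix.SpecialLinearGroup (Fin n) F) : Matrix (Fin n) (Fin n) F) = c • (1 : Matrix (Fin n) (Fin n) F)) : c ≠ 0 := by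
  rintro rfl
  have h1 := (x ^ r : Matrix.SpecialLinearGroup (Fin n) F).2
  rw [hx, zero_smul] at h1
  haveI : Nonempty (Fin n) := ⟨⟨0, Nat.pos_of_ne_zero hn⟩⟩
  rw [Matrix.det_zero] at h1
  exact zero_ne_one h1

/-- A scalar multiple of order dividing `r`. -/
lemma exists_y (hn : n ≠ 0) {x : Matrix.SpecialLinearGroup (Fin n) F} {c d : F}
    (hx : ((x ^ r : Matrix.SpecialLinearGroup (Fin n) F) : Matrix (Fin n) (Fin n) F) = c • (1 : Matrix (Fin n) (Fin n) F))
    (hd : d ^ r = c) (hr : r ≠ 0) :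
    ∃ y : (Fin n → F) →ₗ[F] (Fin n → F), y ^ r = 1 ∧
      ∀ W : Submodule F (Fin n → F), W.map y ≤ W → W.map (Matrix.toLin' (x : Matrix (Fin n) (Fin n) F)) ≤ W := by
  have hc := scalar_ne_zero hn hx
  have hd0 : d ≠ 0 := by
    rintro rfl
    rw [zero_pow hr] at hd
    exact hc hd.symm
  refine ⟨d⁻¹ • Matrix.toLin' (x : Matrix (Fin n) (Fin n) F), ?_, ?_⟩
  · rw [_root_.smul_pow, toLin'_pow_eq hx, smul_smul, inv_pow, hd, inv_mul_cancel₀ hc, one_smul]
  · intro W hW
    rintro _ ⟨v, hv, rfl⟩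
    have h1 : (d⁻¹ • Matrix.toLin' (x : Matrix (Fin n) (Fin n) F)) v ∈ W := hW (Submodule.mem_map_of_mem hv)
    have h2 := W.smul_mem d h1
    rw [LinearMap.smul_apply, smul_smul, mul_inv_cancel₀ hd0, one_smul] at h2
    exact h2

end scalar

section total

variable {V : Type*} [AddCommGroup V] [Module F V] [FiniteDimensional F V] {p r : ℕ} [Fact p.Prime] [CharP F p] [hr : Fact r.Prime]

include p in
/-- The eigenspace and the cyclotomic part fill the space. -/
theorem dims_total (hrp : r ≠ p) {y : V →ₗ[F] V} (hy : y ^ r = 1) :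
    ∃ s, finrank F (EE y) + orderOf ((Fintype.card F : ℕ) : ZMod r) * s = finrank F V ∧
      finrank F (VV r y) = orderOf ((Fintype.card F : ℕ) : ZMod r) * s := by
  have h1 := finrank_inf_decomp y (W := ⊤) (by simp) (isCoprime_cyc (F := F) (p := p) (r := r) hrp) (by
    intro v _
    rw [aeval_mul_eq_zero hy]
    rfl)
  rw [top_inf_eq, top_inf_eq, finrank_top] at h1
  have h2 : orderOf ((Fintype.card F : ℕ) : ZMod r) ∣ finrank F (VV r y : Submodule F V) - finrank F (⊥ : Submodule F V) :=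
    chain_dvd (g := cyclotomic r F) (f := y) (cyclotomic_ne_zero r F)
      (fun π hπ hd => natDegree_irred_cyclotomic (p := p) hrp hπ hd)
      (W₀ := ⊥) (W₁ := VV r y) (by simp) (ker_aeval_inv y _) bot_le
      (fun v hv => hv)
  rw [finrank_bot, Nat.sub_zero] at h2
  obtain ⟨s, hs⟩ := h2
  exact ⟨s, by rw [← hs]; exact h1.symm, hs⟩

end total

section main

variable {p : ℕ} [Fact p.Prime] [CharP F p] {n m r : ℕ} [hr : Fact r.Prime]

/-- Existence of one invariant subspace. -/
theorem single_backward (hn : n ≠ 0) (hmn : m ≤ n) (hrp : r ≠ p)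
    (hcond : (orderOf ((Fintype.card F : ℕ) : ZMod r) = 1 ∧
        (r ∣ m ∨ (padicValNat r n ≤ padicValNat r (Fintype.card F - 1) ∧ (r = 2 → Even n → Fintype.card F % 4 = 1)))) ∨
       (2 ≤ orderOf ((Fintype.card F : ℕ) : ZMod r) ∧ orderOf ((Fintype.card F : ℕ) : ZMod r) ≤ m ∧
        m % orderOf ((Fintype.card F : ℕ) : ZMod r) ≤ n % orderOf ((Fintype.card F : ℕ) : ZMod r)))
    (x : Matrix.SpecialLinearGroup (Fin n) F) {c : F}
    (hx : ((x ^ r : Matrix.SpecialLinearGroup (Fin n) F) : Matrix (Fin n) (Fin n) F) = c • (1 : Matrix (Fin n) (Fin n) F)) :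
    ∃ W : Submodule F (Fin n → F), finrank F W = m ∧ W.map (Matrix.toLin' (x : Matrix (Fin n) (Fin n) F)) ≤ W := by
  classical
  have hq1 : 1 ≤ Fintype.card F := Fintype.card_pos
  have hfr : finrank F (Fin n → F) = n := by simp
  set i := orderOf ((Fintype.card F : ℕ) : ZMod r) with hi
  have hc0 := scalar_ne_zero hn hx
  by_cases hpow : ∃ d : F, d ^ r = c
  · -- the case of an actual scalar multiple of order `r`
    obtain ⟨d, hd⟩ := hpow
    obtain ⟨y, hy, hyW⟩ := exists_y hn hx hd hr.out.ne_zero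
    obtain ⟨s, hs1, hs2⟩ := dims_total (p := p) hrp hy
    rw [hfr, ← hi] at hs1
    rw [← hi] at hs2
    have hi1 : 1 ≤ i := by
      rcases hcond with h | h
      · omega
      · omega
    have hmod : m % i ≤ n % i := by
      rcases hcond with h | h
      · rw [h.1, Nat.mod_one, Nat.mod_one]
        try omega
      · exact h.2.2
    obtain ⟨a, b, h1, h2, h3⟩ := num_single hi1 hs1 hmn hmod
    obtain ⟨U, W, -, hU, -, hUd, -⟩ := exists_nested (p := p) hrp hy (a := a) (a' := a) (b := b) (b' := b) le_rfl h1 le_rfl (by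
      rw [hs2, ← hi]
      exact Nat.mul_le_mul_left _ h2)
    rw [← hi, h3] at hUd
    exact ⟨U, hUd, hyW U hU⟩
  · push Not at hpow
    rcases hcond with ⟨h1, h2 | h2⟩ | h
    · obtain ⟨b, rfl⟩ := h2
      obtain ⟨W, -, h3, h4⟩ := exists_inv_nonpower hr.out (toLin'_pow_eq hx) hpow (W₀ := ⊥) (by simp) b (by
        rw [finrank_bot, zero_add, hfr]
        exact hmn)
      exact ⟨W, by rw [h4]; simp, h3⟩
    · exact (nonpower_contra hn hpow hx h2).elim
    · exfalso
      have hi1 : i ≠ 1 := by omega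
      have hrq : ¬ r ∣ Fintype.card F - 1 := by
        rwa [← i_eq_one_iff hq1]
      obtain ⟨d, hd⟩ := exists_root_of_not_dvd hr.out hrq hc0
      exact hpow d hd

/-- Existence of a pair of nested invariant subspaces. -/
theorem nested_backward (hn : n ≠ 0) (hmn : 2 * m ≤ n) (hrp : r ≠ p)
    (hcond : (orderOf ((Fintype.card F : ℕ) : ZMod r) = 1 ∧
        (r ∣ m ∨ (padicValNat r n ≤ padicValNat r (Fintype.card F - 1) ∧ (r = 2 → Even n → Fintype.card F % 4 = 1)))) ∨
       (2 ≤ orderOf ((Fintype.card F : ℕ) : ZMod r) ∧ orderOf ((Fintype.card F : ℕ) : ZMod r) ≤ m ∧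
        2 * (m % orderOf ((Fintype.card F : ℕ) : ZMod r)) ≤ n % orderOf ((Fintype.card F : ℕ) : ZMod r)))
    (x : Matrix.SpecialLinearGroup (Fin n) F) {c : F}
    (hx : ((x ^ r : Matrix.SpecialLinearGroup (Fin n) F) : Matrix (Fin n) (Fin n) F) = c • (1 : Matrix (Fin n) (Fin n) F)) :
    ∃ U W : Submodule F (Fin n → F), U ≤ W ∧ finrank F U = m ∧ finrank F W = n - m ∧
      U.map (Matrix.toLin' (x : Matrix (Fin n) (Fin n) F)) ≤ U ∧ W.map (Matrix.toLin' (x : Matrix (Fin n) (Fin n) F)) ≤ W := by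
  classical
  have hq1 : 1 ≤ Fintype.card F := Fintype.card_pos
  have hfr : finrank F (Fin n → F) = n := by simp
  set i := orderOf ((Fintype.card F : ℕ) : ZMod r) with hi
  have hc0 := scalar_ne_zero hn hx
  by_cases hpow : ∃ d : F, d ^ r = c
  · obtain ⟨d, hd⟩ := hpow
    obtain ⟨y, hy, hyW⟩ := exists_y hn hx hd hr.out.ne_zero
    obtain ⟨s, hs1, hs2⟩ := dims_total (p := p) hrp hy
    rw [hfr, ← hi] at hs1
    rw [← hi] at hs2
    have hi1 : 1 ≤ i := by
      rcases hcond with h | h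
      · omega
      · omega
    have hmod : 2 * (m % i) ≤ n % i := by
      rcases hcond with h | h
      · rw [h.1, Nat.mod_one, Nat.mod_one]
        try omega
      · exact h.2.2
    obtain ⟨a, b, a', b', h1, h2, h3, h4, h5, h6⟩ := num_nested hi1 hs1 hmn hmod
    obtain ⟨U, W, hUW, hU, hW, hUd, hWd⟩ := exists_nested (p := p) hrp hy h1 h3 h2 (by
      rw [hs2, ← hi]
      exact Nat.mul_le_mul_left _ h4)
    rw [← hi, h5] at hUd
    rw [← hi, h6] at hWd
    exact ⟨U, W, hUW, hUd, hWd, hyW U hU, hyW W hW⟩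
  · push Not at hpow
    rcases hcond with ⟨h1, h2 | h2⟩ | h
    · have hf := toLin'_pow_eq hx
      obtain ⟨k, hk1, -⟩ := det_of_pow_eq hr.out hf hpow
      rw [hfr] at hk1
      obtain ⟨b, hb⟩ := h2
      obtain ⟨U, -, h3, h4⟩ := exists_inv_nonpower hr.out hf hpow (W₀ := ⊥) (by simp) b (by
        rw [finrank_bot, zero_add, hfr]
        omega)
      rw [finrank_bot, zero_add, ← hb] at h4
      obtain ⟨W, h5, h6, h7⟩ := exists_inv_nonpower hr.out hf hpow (W₀ := U) h3 (k - 2 * b) (by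
        rw [h4, hfr, hb, hk1, Nat.mul_sub]
        have : r * (2 * b) = 2 * (r * b) := by ring
        have h8 : 2 * (r * b) ≤ r * k := by omega
        omega)
      refine ⟨U, W, h5, h4, ?_, h3, h6⟩
      rw [h7, h4, hb, hk1, Nat.mul_sub]
      have : r * (2 * b) = 2 * (r * b) := by ring
      have h8 : 2 * (r * b) ≤ r * k := by omega
      omega
    · exact (nonpower_contra hn hpow hx h2).elim
    · exfalso
      have hi1 : i ≠ 1 := by omega
      have hrq : ¬ r ∣ Fintype.card F - 1 := by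
        rwa [← i_eq_one_iff hq1]
      obtain ⟨d, hd⟩ := exists_root_of_not_dvd hr.out hrq hc0
      exact hpow d hd

/-- Scalars among matrices: comparison of coefficients. -/
lemma not_scalar_of_nonpower (hn : n ≠ 0) {x : Matrix.SpecialLinearGroup (Fin n) F} {c : F} (hc : ∀ b : F, b ^ r ≠ c)
    (hx : ((x ^ r : Matrix.SpecialLinearGroup (Fin n) F) : Matrix (Fin n) (Fin n) F) = c • (1 : Matrix (Fin n) (Fin n) F))
    (c' : F) : (x : Matrix (Fin n) (Fin n) F) ≠ c' • (1 : Matrix (Fin n) (Fin n) F) := by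
  intro h
  apply hc c'
  have h1 : (x : Matrix (Fin n) (Fin n) F) ^ r = c • (1 : Matrix (Fin n) (Fin n) F) := by
    rw [← hx]
    simp
  rw [h, _root_.smul_pow, one_pow] at h1
  have h2 := congrFun (congrFun h1 ⟨0, Nat.pos_of_ne_zero hn⟩) ⟨0, Nat.pos_of_ne_zero hn⟩
  simpa using h2

/-- The first necessary condition. -/
theorem forward_i1 (hn : n ≠ 0) (hrq : r ∣ Fintype.card F - 1)
    (hW : ∀ x : Matrix.SpecialLinearGroup (Fin n) F,
      (∃ c : F, ((x ^ r : Matrix.SpecialLinearGroup (Fin n) F) : Matrix (Fin n) (Fin n) F) = c • (1 : Matrix (Fin n) (Fin n) F)) →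
      (∀ c : F, (x : Matrix (Fin n) (Fin n) F) ≠ c • (1 : Matrix (Fin n) (Fin n) F)) →
      ∃ W : Submodule F (Fin n → F), finrank F W = m ∧ W.map (Matrix.toLin' (x : Matrix (Fin n) (Fin n) F)) ≤ W) :
    r ∣ m ∨ (padicValNat r n ≤ padicValNat r (Fintype.card F - 1) ∧ (r = 2 → Even n → Fintype.card F % 4 = 1)) := by
  by_contra hcon
  push Not at hcon
  obtain ⟨h1, h2⟩ := hcon
  obtain ⟨x, c, hc, hx⟩ := exists_bad_i1 (F := F) hn hrq (by
    rintro ⟨h3, h4⟩
    have h5 : padicValNat r (Fintype.card F - 1) < padicValNat r n ∨ (r = 2 ∧ Even n ∧ Fintype.card F % 4 ≠ 1) := by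
      by_cases h6 : padicValNat r n ≤ padicValNat r (Fintype.card F - 1)
      · right
        obtain ⟨h7, h8, h9⟩ := h2 h6
        exact ⟨h7, h8, h9⟩
      · left
        omega
    rcases h5 with h5 | ⟨h5, h6, h7⟩
    · omega
    · exact h7 (h4 h5 h6))
  obtain ⟨W, hW1, hW2⟩ := hW x ⟨c, hx⟩ (not_scalar_of_nonpower hn hc hx)
  exact h1 (hW1 ▸ dvd_finrank_of_inv hr.out (toLin'_pow_eq hx) hc hW2)

/-- The second necessary condition. -/
theorem forward_i2 (hrp : r ≠ p) (hi2 : 2 ≤ orderOf ((Fintype.card F : ℕ) : ZMod r))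
    (hin : orderOf ((Fintype.card F : ℕ) : ZMod r) ≤ n) (hmm : 1 ≤ m)
    (hj : ∃ j, j < m ∧ r ∣ Fintype.card F ^ (n - j) - 1) (hjn : m ≤ n)
    (hW : ∀ x : Matrix.SpecialLinearGroup (Fin n) F,
      (∃ c : F, ((x ^ r : Matrix.SpecialLinearGroup (Fin n) F) : Matrix (Fin n) (Fin n) F) = c • (1 : Matrix (Fin n) (Fin n) F)) →
      (∀ c : F, (x : Matrix (Fin n) (Fin n) F) ≠ c • (1 : Matrix (Fin n) (Fin n) F)) →
      ∃ W : Submodule F (Fin n → F), finrank F W = m ∧ W.map (Matrix.toLin' (x : Matrix (Fin n) (Fin n) F)) ≤ W) :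
    orderOf ((Fintype.card F : ℕ) : ZMod r) ≤ m ∧
      m % orderOf ((Fintype.card F : ℕ) : ZMod r) ≤ n % orderOf ((Fintype.card F : ℕ) : ZMod r) := by
  classical
  have hq1 : 1 ≤ Fintype.card F := Fintype.card_pos
  set i := orderOf ((Fintype.card F : ℕ) : ZMod r) with hi
  have hrq : ¬ r ∣ Fintype.card F - 1 := by
    rw [← i_eq_one_iff hq1]
    omega
  obtain ⟨x, hx1, hx2, E, hE1, hE2⟩ := exists_order_element (p := p) hrp hrq hin
  rw [← hi] at hE1
  obtain ⟨W, hW1, hW2⟩ := hW x ⟨1, by rw [hx1]; simp⟩ hx2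
  obtain ⟨b, hb⟩ := hE2 W hW2
  rw [← hi, hW1] at hb
  have h1 : finrank F (W ⊓ E : Submodule F (Fin n → F)) ≤ finrank F E := Submodule.finrank_mono inf_le_right
  have h2 : n % i < i := Nat.mod_lt _ (by omega)
  set a := finrank F (W ⊓ E : Submodule F (Fin n → F)) with ha
  have h3 : m % i = a := by
    rw [hb, Nat.add_mul_mod_self_left, Nat.mod_eq_of_lt (by omega)]
  refine ⟨?_, by omega⟩
  by_contra hlt
  push Not at hlt
  have hb0 : b = 0 := by
    by_contra hb0
    have : i * 1 ≤ i * b := Nat.mul_le_mul_left _ (by omega)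
    omega
  subst hb0
  rw [mul_zero, add_zero] at hb
  obtain ⟨j, hj1, hj2⟩ := hj
  rw [dvd_pow_sub_one_iff hq1, ← hi] at hj2
  obtain ⟨t, ht⟩ := hj2
  have h4 : n = j + i * t := by omega
  have h5 : n % i = j := by
    rw [h4, Nat.add_mul_mod_self_left, Nat.mod_eq_of_lt (by omega)]
  omega

/-- The necessary conditions for one invariant subspace. -/
theorem single_forward (hn : n ≠ 0) (hrp : r ≠ p) (hmm : 1 ≤ m) (hjn : m ≤ n)
    (hj : ∃ j, j < m ∧ r ∣ Fintype.card F ^ (n - j) - 1)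
    (hW : ∀ x : Matrix.SpecialLinearGroup (Fin n) F,
      (∃ c : F, ((x ^ r : Matrix.SpecialLinearGroup (Fin n) F) : Matrix (Fin n) (Fin n) F) = c • (1 : Matrix (Fin n) (Fin n) F)) →
      (∀ c : F, (x : Matrix (Fin n) (Fin n) F) ≠ c • (1 : Matrix (Fin n) (Fin n) F)) →
      ∃ W : Submodule F (Fin n → F), finrank F W = m ∧ W.map (Matrix.toLin' (x : Matrix (Fin n) (Fin n) F)) ≤ W) :
    (orderOf ((Fintype.card F : ℕ) : ZMod r) = 1 ∧
        (r ∣ m ∨ (padicValNat r n ≤ padicValNat r (Fintype.card F - 1) ∧ (r = 2 → Even n → Fintype.card F % 4 = 1)))) ∨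
       (2 ≤ orderOf ((Fintype.card F : ℕ) : ZMod r) ∧ orderOf ((Fintype.card F : ℕ) : ZMod r) ≤ m ∧
        m % orderOf ((Fintype.card F : ℕ) : ZMod r) ≤ n % orderOf ((Fintype.card F : ℕ) : ZMod r)) := by
  have hq1 : 1 ≤ Fintype.card F := Fintype.card_pos
  obtain ⟨j, hj1, hj2⟩ := id hj
  have h1 : orderOf ((Fintype.card F : ℕ) : ZMod r) ∣ n - j := (dvd_pow_sub_one_iff hq1).mp hj2
  have h2 : orderOf ((Fintype.card F : ℕ) : ZMod r) ≤ n - j := Nat.le_of_dvd (by omega) h1
  have h3 : 1 ≤ orderOf ((Fintype.card F : ℕ) : ZMod r) := Nat.pos_of_dvd_of_pos h1 (by omega)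
  by_cases h4 : orderOf ((Fintype.card F : ℕ) : ZMod r) = 1
  · left
    exact ⟨h4, forward_i1 hn ((i_eq_one_iff hq1).mp h4) hW⟩
  · right
    have h5 := forward_i2 (p := p) hrp (by omega) (by omega) hmm hj hjn hW
    exact ⟨by omega, h5.1, h5.2⟩

/-- The necessary conditions for nested invariant subspaces. -/
theorem nested_forward (hn : n ≠ 0) (hrp : r ≠ p) (hmm : 1 ≤ m) (hmn : 2 * m < n)
    (hj : ∃ j, j < m ∧ (r ∣ Fintype.card F ^ (n - j) - 1 ∨ r ∣ Fintype.card F ^ (n - m - j) - 1))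
    (hW : ∀ x : Matrix.SpecialLinearGroup (Fin n) F,
      (∃ c : F, ((x ^ r : Matrix.SpecialLinearGroup (Fin n) F) : Matrix (Fin n) (Fin n) F) = c • (1 : Matrix (Fin n) (Fin n) F)) →
      (∀ c : F, (x : Matrix (Fin n) (Fin n) F) ≠ c • (1 : Matrix (Fin n) (Fin n) F)) →
      ∃ U W : Submodule F (Fin n → F), U ≤ W ∧ finrank F U = m ∧ finrank F W = n - m ∧
        U.map (Matrix.toLin' (x : Matrix (Fin n) (Fin n) F)) ≤ U ∧ W.map (Matrix.toLin' (x : Matrix (Fin n) (Fin n) F)) ≤ W) :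
    (orderOf ((Fintype.card F : ℕ) : ZMod r) = 1 ∧
        (r ∣ m ∨ (padicValNat r n ≤ padicValNat r (Fintype.card F - 1) ∧ (r = 2 → Even n → Fintype.card F % 4 = 1)))) ∨
       (2 ≤ orderOf ((Fintype.card F : ℕ) : ZMod r) ∧ orderOf ((Fintype.card F : ℕ) : ZMod r) ≤ m ∧
        2 * (m % orderOf ((Fintype.card F : ℕ) : ZMod r)) ≤ n % orderOf ((Fintype.card F : ℕ) : ZMod r)) := by
  classical
  have hq1 : 1 ≤ Fintype.card F := Fintype.card_pos
  set i := orderOf ((Fintype.card F : ℕ) : ZMod r) with hi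
  obtain ⟨j, hj1, hj2⟩ := hj
  have hin : 1 ≤ i ∧ i ≤ n := by
    rcases hj2 with h | h
    · have h1 : i ∣ n - j := (dvd_pow_sub_one_iff hq1).mp h
      have h2 : i ≤ n - j := Nat.le_of_dvd (by omega) h1
      have h3 : 1 ≤ i := Nat.pos_of_dvd_of_pos h1 (by omega)
      omega
    · have h1 : i ∣ n - m - j := (dvd_pow_sub_one_iff hq1).mp h
      have h2 : i ≤ n - m - j := Nat.le_of_dvd (by omega) h1
      have h3 : 1 ≤ i := Nat.pos_of_dvd_of_pos h1 (by omega)
      omega
  by_cases h4 : i = 1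
  · left
    refine ⟨h4, forward_i1 hn ((i_eq_one_iff hq1).mp h4) ?_⟩
    intro x h1 h2
    obtain ⟨U, W, -, h3, -, h5, -⟩ := hW x h1 h2
    exact ⟨U, h3, h5⟩
  · right
    have hrq : ¬ r ∣ Fintype.card F - 1 := by
      rw [← i_eq_one_iff hq1]
      exact h4
    obtain ⟨x, hx1, hx2, E, hE1, hE2⟩ := exists_order_element (p := p) hrp hrq hin.2
    rw [← hi] at hE1
    obtain ⟨U, W, hUW, hU1, hW1, hU2, hW2⟩ := hW x ⟨1, by rw [hx1]; simp⟩ hx2
    obtain ⟨b, hb⟩ := hE2 U hU2
    obtain ⟨b', hb'⟩ := hE2 W hW2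
    rw [← hi, hU1] at hb
    rw [← hi, hW1] at hb'
    have h1 : finrank F (W ⊓ E : Submodule F (Fin n → F)) ≤ finrank F E := Submodule.finrank_mono inf_le_right
    have h1' : finrank F (U ⊓ E : Submodule F (Fin n → F)) ≤ finrank F (W ⊓ E : Submodule F (Fin n → F)) :=
      Submodule.finrank_mono (inf_le_inf_right _ hUW)
    have h2 : n % i < i := Nat.mod_lt _ (by omega)
    set a := finrank F (U ⊓ E : Submodule F (Fin n → F)) with ha
    set a' := finrank F (W ⊓ E : Submodule F (Fin n → F)) with ha'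
    have h3 : m % i = a := by
      rw [hb, Nat.add_mul_mod_self_left, Nat.mod_eq_of_lt (by omega)]
    have h5 : n = (a + a') + i * (b + b') := by
      rw [Nat.mul_add]
      omega
    have h6 : n % i = (a + a') % i := by
      rw [h5, Nat.add_mul_mod_self_left]
    have h7 : a + a' = n % i := by
      rw [h6]
      have h8 : a + a' < 2 * i := by omega
      by_cases h9 : a + a' < i
      · rw [Nat.mod_eq_of_lt h9]
      · exfalso
        have h10 : (a + a') % i = a + a' - i := by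
          rw [Nat.mod_eq_sub_mod (by omega), Nat.mod_eq_of_lt (by omega)]
        omega
    refine ⟨by omega, ?_, by omega⟩
    by_contra hlt
    push Not at hlt
    have hb0 : b = 0 := by
      by_contra hb0
      have : i * 1 ≤ i * b := Nat.mul_le_mul_left _ (by omega)
      omega
    subst hb0
    rw [mul_zero, add_zero] at hb
    rcases hj2 with h | h
    · have h8 : i ∣ n - j := (dvd_pow_sub_one_iff hq1).mp h
      obtain ⟨t, ht⟩ := h8
      have h9 : n = j + i * t := by omega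
      have h10 : n % i = j := by
        rw [h9, Nat.add_mul_mod_self_left, Nat.mod_eq_of_lt (by omega)]
      omega
    · have h8 : i ∣ n - m - j := (dvd_pow_sub_one_iff hq1).mp h
      obtain ⟨t, ht⟩ := h8
      have h9 : n = (m + j) + i * t := by omega
      have h10 : n % i = m + j := by
        rw [h9, Nat.add_mul_mod_self_left, Nat.mod_eq_of_lt (by omega)]
      omega

end main

end Cfsg.Agent.Lib.ElusiveMain
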