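import Mathlib

/-!
# Jordan bases for nilpotent endomorphisms
-/

set_option autoImplicit false

namespace Cfsg.Agent.Lib.JordanBasis

open Module

universe u

variable {F : Type*} [Field F]

theorem exists_jordan_aux (d : ℕ) : ∀ (V : Type u) [AddCommGroup V] [Module F V] [FiniteDimensional F V]
    (N : Module.End F V), finrank F V = d → (∃ k : ℕ, N ^ k = 0) →
    ∃ (κ : Type) (_ : Fintype κ) (_ : DecidableEq κ) (ℓ : κ → ℕ) (v : κ → V) (e : Basis (Σ j, Fin (ℓ j)) F V),
      (∀ (j : κ) (i : Fin (ℓ j)), e ⟨j, i⟩ = (N ^ (i : ℕ)) (v j)) ∧ (∀ j, (N ^ (ℓ j)) (v j) = 0) ∧ (∀ j, 0 < ℓ j) := by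
  induction d using Nat.strong_induction_on with
  | _ d ih =>
  intro V _ _ _ N hd hN
  classical
  by_cases hV : Subsingleton V
  · exact ⟨Empty, inferInstance, inferInstance, fun j => j.elim, fun j => j.elim, Basis.empty V, fun j => j.elim,
      fun j => j.elim, fun j => j.elim⟩
  have hV' : Nontrivial V := not_subsingleton_iff_nontrivial.mp hV
  set W := LinearMap.range N with hW
  have hWlt : W ≠ ⊤ := by
    intro h
    obtain ⟨k, hk⟩ := hN
    have hsurj : Function.Surjective N := LinearMap.range_eq_top.mp h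
    have hsk : Function.Surjective (N ^ k) := by
      rw [Module.End.coe_pow]
      exact hsurj.iterate k
    rw [hk] at hsk
    obtain ⟨x, hx⟩ := exists_ne (0 : V)
    obtain ⟨y, hy⟩ := hsk x
    exact hx (by rw [← hy]; simp)
  have hfin : finrank F W < d := by
    rw [← hd]
    exact Submodule.finrank_lt hWlt
  have hNW : ∀ x ∈ W, N x ∈ W := fun x _ => ⟨x, rfl⟩
  let R : Module.End F W := N.restrict hNW
  have hRpow : ∀ (i : ℕ) (x : W), (((R ^ i) x : W) : V) = (N ^ i) (x : V) := by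
    intro i
    induction i with
    | zero => intro x; simp
    | succ i ih =>
      intro x
      rw [pow_succ', Module.End.mul_apply, pow_succ', Module.End.mul_apply, ← ih]
      rfl
  obtain ⟨κ', i1, i2, ℓ', w, e', he', hw0, hℓ'⟩ := ih _ hfin W R rfl (by
    obtain ⟨k, hk⟩ := hN
    refine ⟨k, ?_⟩
    apply LinearMap.ext
    intro x
    apply Subtype.ext
    rw [hRpow, hk]
    rfl)
  have hv : ∀ j, ∃ v, N v = (w j : V) := fun j => (w j).2
  choose v hv using hv
  let K : Submodule F V := LinearMap.ker N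
  have hNv : ∀ (j : κ') (i : ℕ), (N ^ (i + 1)) (v j) = (N ^ i) (w j : V) := by
    intro j i
    rw [pow_succ, Module.End.mul_apply, hv]
  -- the top vectors
  have hfK : ∀ j, (N ^ (ℓ' j)) (v j) ∈ K := by
    intro j
    rw [LinearMap.mem_ker, ← Module.End.mul_apply, ← pow_succ', hNv, ← hRpow, hw0]
    rfl
  let f : κ' → K := fun j => ⟨(N ^ (ℓ' j)) (v j), hfK j⟩
  have hfe : ∀ j, ((f j : K) : V) = ((e' ⟨j, ⟨ℓ' j - 1, by have := hℓ' j; omega⟩⟩ : W) : V) := by
    intro j
    have h1 : ℓ' j = (ℓ' j - 1) + 1 := by have := hℓ' j; omega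
    show (N ^ (ℓ' j)) (v j) = _
    rw [he']
    simp only
    rw [hRpow]
    conv_lhs => rw [h1]
    rw [hNv]
  have hfli : LinearIndependent F f := by
    have h1 : LinearIndependent F (fun j => (e' ⟨j, ⟨ℓ' j - 1, by have := hℓ' j; omega⟩⟩ : W)) := by
      apply e'.linearIndependent.comp (fun j : κ' => (⟨j, ⟨ℓ' j - 1, by have := hℓ' j; omega⟩⟩ : Σ j, Fin (ℓ' j)))
      intro a b hab
      simp only [Sigma.mk.injEq] at hab
      exact hab.1
    have h2 : LinearIndependent F (fun j => ((e' ⟨j, ⟨ℓ' j - 1, by have := hℓ' j; omega⟩⟩ : W) : V)) :=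
      h1.map' W.subtype (Submodule.ker_subtype W)
    have h3 : (fun j => ((f j : K) : V)) = (fun j => ((e' ⟨j, ⟨ℓ' j - 1, by have := hℓ' j; omega⟩⟩ : W) : V)) := funext hfe
    rw [← h3] at h2
    exact LinearIndependent.of_comp K.subtype h2
  let S : Submodule F K := Submodule.span F (Set.range f)
  obtain ⟨D, hD⟩ := Submodule.exists_isCompl S
  let dB := Module.finBasis F D
  let bK : Basis (κ' ⊕ Fin (finrank F D)) F K :=
    ((Basis.span hfli).prod dB).map (Submodule.prodEquivOfIsCompl S D hD)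
  have hbK1 : ∀ j, ((bK (Sum.inl j) : K) : V) = (N ^ (ℓ' j)) (v j) := by
    intro j
    simp [bK, Basis.prod_apply, Basis.span_apply, f]
  have hbK2 : ∀ t, ((bK (Sum.inr t) : K) : V) = ((dB t : D) : K) := by
    intro t
    simp [bK, Basis.prod_apply]
  -- the section
  let σ : W →ₗ[F] V := e'.constr F (fun p => (N ^ (p.2 : ℕ)) (v p.1))
  have hσ : ∀ p, σ (e' p) = (N ^ (p.2 : ℕ)) (v p.1) := fun p => e'.constr_basis F _ p
  have hNσ : ∀ x, N (σ x) = (x : V) := by
    have : N.comp σ = W.subtype := by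
      apply e'.ext
      rintro ⟨j, i⟩
      simp only [LinearMap.comp_apply, Submodule.subtype_apply]
      rw [hσ, he', hRpow]
      simp only
      rw [← Module.End.mul_apply, ← pow_succ', hNv]
    intro x
    exact LinearMap.congr_fun this x
  have hNmem : ∀ x, N x ∈ W := fun x => ⟨x, rfl⟩
  have hker : ∀ x, x - σ ⟨N x, hNmem x⟩ ∈ K := by
    intro x
    rw [LinearMap.mem_ker, map_sub, hNσ, sub_self]
  let Ψ : (W × K) ≃ₗ[F] V :=
    { toFun := fun p => σ p.1 + (p.2 : V)
      map_add' := by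
        intro a b
        simp only [Prod.fst_add, Prod.snd_add, map_add, Submodule.coe_add]
        abel
      map_smul' := by
        intro c a
        simp
      invFun := fun x => (⟨N x, hNmem x⟩, ⟨x - σ ⟨N x, hNmem x⟩, hker x⟩)
      left_inv := by
        rintro ⟨a, b⟩
        have hb : N (b : V) = 0 := b.2
        have e1 : (⟨N (σ a + (b : V)), hNmem _⟩ : W) = a := by
          apply Subtype.ext
          simp only [map_add, hNσ, hb, add_zero]
        apply Prod.ext
        · exact e1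
        · apply Subtype.ext
          simp only [e1]
          abel
      right_inv := by
        intro x
        simp }
  let e₀ : Basis ((Σ j, Fin (ℓ' j)) ⊕ (κ' ⊕ Fin (finrank F D))) F V := (e'.prod bK).map Ψ
  have he₀1 : ∀ p, e₀ (Sum.inl p) = (N ^ (p.2 : ℕ)) (v p.1) := by
    intro p
    simp [e₀, Basis.prod_apply, Ψ, hσ]
  have he₀2 : ∀ p, e₀ (Sum.inr p) = ((bK p : K) : V) := by
    intro p
    simp [e₀, Basis.prod_apply, Ψ]
  let ℓ : κ' ⊕ Fin (finrank F D) → ℕ := Sum.elim (fun j => ℓ' j + 1) (fun _ => 1)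
  let τ : ((Σ j, Fin (ℓ' j)) ⊕ (κ' ⊕ Fin (finrank F D))) ≃ (Σ j, Fin (ℓ j)) :=
    { toFun := Sum.elim (fun p => ⟨Sum.inl p.1, Fin.castSucc p.2⟩)
        (Sum.elim (fun j => ⟨Sum.inl j, Fin.last _⟩) (fun t => ⟨Sum.inr t, (0 : Fin 1)⟩))
      invFun := fun x => match x with
        | ⟨Sum.inl j, i⟩ => Fin.lastCases (motive := fun _ => _) (Sum.inr (Sum.inl j)) (fun i' => Sum.inl ⟨j, i'⟩) i
        | ⟨Sum.inr t, _⟩ => Sum.inr (Sum.inr t)
      left_inv := by
        rintro (⟨j, i⟩ | j | t)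
        · simp
        · simp
        · rfl
      right_inv := by
        rintro ⟨j | t, i⟩
        · induction i using Fin.lastCases with
          | last => simp
          | cast i => simp
        · have : i = (0 : Fin 1) := Subsingleton.elim (α := Fin 1) i 0
          subst this
          rfl }
  refine ⟨κ' ⊕ Fin (finrank F D), inferInstance, inferInstance, ℓ, Sum.elim v (fun t => ((dB t : D) : K)), e₀.reindex τ, ?_, ?_, ?_⟩
  · rintro (j | t) i
    · have hi : (⟨Sum.inl j, i⟩ : Σ j, Fin (ℓ j)) = ⟨Sum.inl j, i⟩ := rfl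
      induction i using Fin.lastCases with
      | last =>
        have : τ.symm ⟨Sum.inl j, Fin.last _⟩ = Sum.inr (Sum.inl j) := by
          rw [Equiv.symm_apply_eq]
          rfl
        rw [Basis.reindex_apply, this, he₀2, hbK1]
        simp
      | cast i =>
        have : τ.symm ⟨Sum.inl j, Fin.castSucc i⟩ = Sum.inl ⟨j, i⟩ := by
          rw [Equiv.symm_apply_eq]
          rfl
        rw [Basis.reindex_apply, this, he₀1]
        simp
    · have hi0 : i = (0 : Fin 1) := Subsingleton.elim (α := Fin 1) i 0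
      subst hi0
      have : τ.symm ⟨Sum.inr t, (0 : Fin 1)⟩ = Sum.inr (Sum.inr t) := by
        rw [Equiv.symm_apply_eq]
        rfl
      rw [Basis.reindex_apply, this, he₀2, hbK2]
      simp
  · rintro (j | t)
    · show (N ^ (ℓ' j + 1)) (v j) = 0
      rw [hNv, ← hRpow, hw0]
      rfl
    · show (N ^ 1) (((dB t : D) : K) : V) = 0
      rw [pow_one]
      exact ((dB t : D) : K).2
  · rintro (j | t)
    · exact Nat.succ_pos _
    · exact Nat.one_pos

/-- Jordan basis: chains `v_j, N v_j, ..., N^(ℓ_j - 1) v_j`. -/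
theorem exists_jordan_basis {V : Type u} [AddCommGroup V] [Module F V] [FiniteDimensional F V]
    (N : Module.End F V) (hN : ∃ k : ℕ, N ^ k = 0) :
    ∃ (κ : Type) (_ : Fintype κ) (_ : DecidableEq κ) (ℓ : κ → ℕ) (v : κ → V) (e : Basis (Σ j, Fin (ℓ j)) F V),
      (∀ (j : κ) (i : Fin (ℓ j)), e ⟨j, i⟩ = (N ^ (i : ℕ)) (v j)) ∧ (∀ j, (N ^ (ℓ j)) (v j) = 0) ∧ (∀ j, 0 < ℓ j) :=
  exists_jordan_aux _ V N rfl hN

end Cfsg.Agent.Lib.JordanBasis
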