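import Mathlib

/-!
Rank sequences of nilpotent operators: explicit Jordan operators with prescribed block sizes, concavity
of rank sequences on invariant subspaces, and the sub-multiset of block sizes of an invariant direct
summand.
-/

set_option autoImplicit false

namespace Cfsg.Agent.Lib.JordanType

open Module

section rank

variable {F V : Type*} [Field F] [AddCommGroup V] [Module F V] [FiniteDimensional F V]

/-- Rank-nullity on a subspace. -/
theorem finrank_map_add_finrank_inf_ker (N : V →ₗ[F] V) (S : Submodule F V) :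
    finrank F (S.map N) + finrank F (S ⊓ LinearMap.ker N : Submodule F V) = finrank F S := by
  have h1 := LinearMap.finrank_range_add_finrank_ker (N.domRestrict S)
  rw [LinearMap.range_domRestrict, LinearMap.ker_domRestrict] at h1
  rw [← h1]
  congr 1
  have h2 : (LinearMap.ker N).comap S.subtype = (S ⊓ LinearMap.ker N).comap S.subtype := by
    ext x
    simp
  rw [h2]
  exact (Submodule.comapSubtypeEquivOfLe inf_le_left).finrank_eq.symm

/-- The rank sequence of `N` on a subspace `A`. -/
noncomputable def rk (N : V →ₗ[F] V) (A : Submodule F V) (k : ℕ) : ℕ :=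
  finrank F (A.map (N ^ k))

theorem map_pow_succ (N : V →ₗ[F] V) (A : Submodule F V) (k : ℕ) :
    A.map (N ^ (k + 1)) = (A.map (N ^ k)).map N := by
  rw [pow_succ', ← Submodule.map_comp]
  rfl

theorem map_pow_succ_le (N : V →ₗ[F] V) (A : Submodule F V) (hA : ∀ v ∈ A, N v ∈ A) (k : ℕ) :
    A.map (N ^ (k + 1)) ≤ A.map (N ^ k) := by
  rw [pow_succ, Module.End.mul_eq_comp, Submodule.map_comp]
  apply Submodule.map_mono
  rintro _ ⟨v, hv, rfl⟩
  exact hA v hv

/-- Concavity of the rank sequence. -/
theorem rk_concave (N : V →ₗ[F] V) (A : Submodule F V) (hA : ∀ v ∈ A, N v ∈ A) (k : ℕ) :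
    2 * rk N A (k + 1) ≤ rk N A k + rk N A (k + 2) := by
  have h1 := finrank_map_add_finrank_inf_ker N (A.map (N ^ k))
  have h2 := finrank_map_add_finrank_inf_ker N (A.map (N ^ (k + 1)))
  rw [← map_pow_succ] at h1 h2
  rw [show k + 1 + 1 = k + 2 from rfl] at h2
  have h3 : finrank F (A.map (N ^ (k + 1)) ⊓ LinearMap.ker N : Submodule F V) ≤
      finrank F (A.map (N ^ k) ⊓ LinearMap.ker N : Submodule F V) :=
    Submodule.finrank_mono (inf_le_inf_right _ (map_pow_succ_le N A hA k))
  simp only [rk]
  omega

theorem map_pow_le (N : V →ₗ[F] V) (A : Submodule F V) (hA : ∀ v ∈ A, N v ∈ A) (k : ℕ) :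
    A.map (N ^ k) ≤ A := by
  rintro _ ⟨v, hv, rfl⟩
  induction k with
  | zero => simpa using hv
  | succ k ih =>
    rw [pow_succ', Module.End.mul_apply]
    exact hA _ ih

/-- Additivity of the rank sequence on a direct sum. -/
theorem rk_add (N : V →ₗ[F] V) {A B : Submodule F V} (hAB : IsCompl A B)
    (hA : ∀ v ∈ A, N v ∈ A) (hB : ∀ v ∈ B, N v ∈ B) (k : ℕ) :
    rk N A k + rk N B k = finrank F (LinearMap.range (N ^ k)) := by
  have hAle : A.map (N ^ k) ≤ A := map_pow_le N A hA k
  have hBle : B.map (N ^ k) ≤ B := map_pow_le N B hB k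
  have hdisj : Disjoint (A.map (N ^ k)) (B.map (N ^ k)) :=
    hAB.disjoint.mono hAle hBle
  have hsup : A.map (N ^ k) ⊔ B.map (N ^ k) = LinearMap.range (N ^ k) := by
    rw [← Submodule.map_sup, hAB.sup_eq_top, Submodule.map_top]
  have h := Submodule.finrank_sup_add_finrank_inf_eq (A.map (N ^ k)) (B.map (N ^ k))
  rw [disjoint_iff.1 hdisj, finrank_bot, add_zero, hsup] at h
  exact h.symm

end rank

/-- The numerical identity for truncated differences. -/
theorem sum_trunc_identity (μ : Multiset ℕ) (j : ℕ) :
    (μ.map (· - j)).sum + (μ.map (· - (j + 2))).sum =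
      2 * (μ.map (· - (j + 1))).sum + μ.count (j + 1) := by
  induction μ using Multiset.induction_on with
  | empty => simp
  | cons b μ ih =>
    simp only [Multiset.map_cons, Multiset.sum_cons, Multiset.count_cons]
    have h : (b - j) + (b - (j + 2)) = 2 * (b - (j + 1)) + (if j + 1 = b then 1 else 0) := by
      split_ifs <;> omega
    omega

/-- The telescoping sum. -/
theorem telescope (r : ℕ → ℕ) (K : ℕ) :
    (∑ j ∈ Finset.range K, ((j : ℤ) + 1) * ((r j : ℤ) + r (j + 2) - 2 * r (j + 1))) =
      r 0 - r K - K * (r K - r (K + 1)) := by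
  induction K with
  | zero => simp
  | succ K ih =>
    rw [Finset.sum_range_succ, ih]
    push_cast
    ring

section submultiset

variable {F V : Type*} [Field F] [AddCommGroup V] [Module F V] [FiniteDimensional F V]

/-- The block sizes of an invariant direct summand form a sub-multiset of those of the whole space. -/
theorem exists_sub_multiset (N : V →ₗ[F] V) (μ : Multiset ℕ)
    (hμ : ∀ k, finrank F (LinearMap.range (N ^ k)) = (μ.map (· - k)).sum)
    {A B : Submodule F V} (hAB : IsCompl A B) (hA : ∀ v ∈ A, N v ∈ A) (hB : ∀ v ∈ B, N v ∈ B) :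
    ∃ ν : Multiset ℕ, ν ≤ μ ∧ ν.sum = finrank F A := by
  classical
  -- the relevant bound
  set K := μ.sum + 1 with hK
  have hbig : ∀ m, K ≤ m → (μ.map (· - m)).sum = 0 := by
    intro m hm
    have h1 : μ.map (· - m) = μ.map (fun _ => 0) := by
      apply Multiset.map_congr rfl
      intro b hb
      have := Multiset.single_le_sum (fun x _ => Nat.zero_le x) b hb
      omega
    rw [h1]
    simp
  have hAzero : ∀ m, K ≤ m → rk N A m = 0 := by
    intro m hm
    have h1 := rk_add N hAB hA hB m
    rw [hμ, hbig m hm] at h1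
    omega
  -- the multiplicities
  let e : ℕ → ℕ := fun j => rk N A j + rk N A (j + 2) - 2 * rk N A (j + 1)
  have heA : ∀ j, (e j : ℤ) = (rk N A j : ℤ) + rk N A (j + 2) - 2 * rk N A (j + 1) := by
    intro j
    have := rk_concave N A hA j
    simp only [e]
    omega
  have hcount : ∀ j, e j ≤ μ.count (j + 1) := by
    intro j
    have h1 := sum_trunc_identity μ j
    rw [← hμ j, ← hμ (j + 2), ← hμ (j + 1), ← rk_add N hAB hA hB j, ← rk_add N hAB hA hB (j + 2),
      ← rk_add N hAB hA hB (j + 1)] at h1
    have h2 := rk_concave N B hB j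
    simp only [e]
    omega
  let ν : Multiset ℕ := ∑ j ∈ Finset.range K, Multiset.replicate (e j) (j + 1)
  have hνcount : ∀ m, ν.count m = ∑ j ∈ Finset.range K, if j + 1 = m then e j else 0 := by
    intro m
    simp only [ν, Multiset.count_sum', Multiset.count_replicate]
  refine ⟨ν, ?_, ?_⟩
  · rw [Multiset.le_iff_count]
    intro m
    rw [hνcount]
    rcases m with _ | m
    · simp
    · by_cases hm : m < K
      · rw [Finset.sum_eq_single m]
        · simpa using hcount m
        · intro b _ hb
          rw [if_neg (by omega)]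
        · intro h
          exact absurd (Finset.mem_range.2 hm) h
      · rw [Finset.sum_eq_zero]
        · exact Nat.zero_le _
        · intro b hb
          have := Finset.mem_range.1 hb
          rw [if_neg (by omega)]
  · have h1 : ν.sum = ∑ j ∈ Finset.range K, e j * (j + 1) := by
      simp only [ν, Multiset.sum_sum, Multiset.sum_replicate, smul_eq_mul]
    have h2 := telescope (rk N A) K
    rw [hAzero K le_rfl, hAzero (K + 1) (Nat.le_succ K)] at h2
    have h3 : ((ν.sum : ℕ) : ℤ) = (rk N A 0 : ℤ) := by
      rw [h1]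
      push_cast
      have h6 : ∀ j ∈ Finset.range K, ((e j : ℤ) * ((j : ℤ) + 1)) =
          ((j : ℤ) + 1) * ((rk N A j : ℤ) + rk N A (j + 2) - 2 * rk N A (j + 1)) := by
        intro j _
        rw [heA j, mul_comm]
      rw [Finset.sum_congr rfl h6, h2]
      simp
    have h4 : rk N A 0 = finrank F A := by
      have h7 : (N ^ 0 : V →ₗ[F] V) = LinearMap.id := rfl
      simp only [rk]
      rw [h7, Submodule.map_id]
    have h5 : ν.sum = rk N A 0 := by exact_mod_cast h3
    rw [h5, h4]

end submultiset

section operator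

variable {F : Type*} [Field F] {m : ℕ} (b : Fin m → ℕ)

/-- The index set of Jordan blocks. -/
abbrev Idx := Σ i : Fin m, Fin (b i)

/-- The shift operator: the sum of Jordan blocks. -/
noncomputable def shift : (Idx b → F) →ₗ[F] (Idx b → F) where
  toFun v y := if h : 0 < y.2.val then v ⟨y.1, ⟨y.2.val - 1, by have := y.2.2; omega⟩⟩ else 0
  map_add' := by
    intro v w
    ext y
    by_cases h : 0 < y.2.val <;> simp [h]
  map_smul' := by
    intro c v
    ext y
    by_cases h : 0 < y.2.val <;> simp [h]

theorem shift_pow (k : ℕ) (v : Idx b → F) (y : Idx b) :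
    ((shift (F := F) b) ^ k) v y =
      if h : k ≤ y.2.val then v ⟨y.1, ⟨y.2.val - k, by have := y.2.2; omega⟩⟩ else 0 := by
  induction k generalizing y with
  | zero =>
    simp
  | succ k ih =>
    rw [pow_succ', Module.End.mul_apply]
    change (if h : 0 < y.2.val then _ else 0) = _
    by_cases h0 : 0 < y.2.val
    · rw [dif_pos h0, ih]
      by_cases h1 : k ≤ y.2.val - 1
      · have h2 : k + 1 ≤ y.2.val := by omega
        rw [dif_pos, dif_pos h2]
        · congr 3
          simp only [Fin.mk.injEq]
          omega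
        · exact h1
      · have h2 : ¬ k + 1 ≤ y.2.val := by omega
        rw [dif_neg, dif_neg h2]
        exact h1
    · have h2 : ¬ k + 1 ≤ y.2.val := by omega
      rw [dif_neg h0, dif_neg h2]

/-- The extension by zero. -/
noncomputable def extZero (k : ℕ) : ({y : Idx b // k ≤ y.2.val} → F) →ₗ[F] (Idx b → F) where
  toFun g y := if h : k ≤ y.2.val then g ⟨y, h⟩ else 0
  map_add' := by
    intro v w
    ext y
    by_cases h : k ≤ y.2.val <;> simp [h]
  map_smul' := by
    intro c v
    ext y
    by_cases h : k ≤ y.2.val <;> simp [h]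

theorem extZero_injective (k : ℕ) : Function.Injective (extZero (F := F) b k) := by
  intro g g' h
  ext ⟨y, hy⟩
  have := congrFun h y
  simpa [extZero, hy] using this

theorem range_shift_pow (k : ℕ) :
    LinearMap.range ((shift (F := F) b) ^ k) = LinearMap.range (extZero (F := F) b k) := by
  apply le_antisymm
  · rintro _ ⟨v, rfl⟩
    refine ⟨fun y => v ⟨y.1.1, ⟨y.1.2.val - k, by have := y.1.2.2; omega⟩⟩, ?_⟩
    ext y
    rw [shift_pow]
    by_cases h : k ≤ y.2.val
    · simp [extZero, h]
    · simp [extZero, h]
  · rintro _ ⟨g, rfl⟩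
    refine ⟨fun x => if h : x.2.val + k < b x.1 then g ⟨⟨x.1, ⟨x.2.val + k, h⟩⟩, by simp⟩ else 0, ?_⟩
    ext y
    rw [shift_pow]
    by_cases h : k ≤ y.2.val
    · have h1 : y.2.val - k + k < b y.1 := by
        have := y.2.2
        omega
      simp only [h, dif_pos, extZero, LinearMap.coe_mk, AddHom.coe_mk]
      rw [dif_pos h1]
      congr 2
      apply Sigma.ext
      · rfl
      · simp only [heq_eq_eq]
        apply Fin.ext
        simp only
        omega
    · simp [extZero, h]

theorem card_idx_ge (k : ℕ) :
    Fintype.card {y : Idx b // k ≤ y.2.val} = ∑ i, (b i - k) := by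
  classical
  let φ : {y : Idx b // k ≤ y.2.val} ≃ Σ i : Fin m, Fin (b i - k) :=
    { toFun := fun y => ⟨y.1.1, ⟨y.1.2.val - k, by have := y.1.2.2; have := y.2; omega⟩⟩
      invFun := fun z => ⟨⟨z.1, ⟨z.2.val + k, by have := z.2.2; omega⟩⟩, by simp⟩
      left_inv := by
        rintro ⟨⟨i, s⟩, hs⟩
        apply Subtype.ext
        apply Sigma.ext
        · rfl
        · simp only [heq_eq_eq]
          apply Fin.ext
          simp only at hs ⊢
          omega
      right_inv := by
        rintro ⟨i, s⟩
        apply Sigma.ext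
        · rfl
        · simp only [heq_eq_eq]
          apply Fin.ext
          simp }
  rw [Fintype.card_congr φ, Fintype.card_sigma]
  simp

theorem finrank_range_shift_pow (k : ℕ) :
    finrank F (LinearMap.range ((shift (F := F) b) ^ k)) = ∑ i, (b i - k) := by
  rw [range_shift_pow, LinearMap.finrank_range_of_inj (extZero_injective b k),
    Module.finrank_fintype_fun_eq_card, card_idx_ge]

end operator

section final

variable {F : Type*} [Field F]

/-- A nilpotent operator on `F^n` with prescribed block sizes. -/
theorem exists_jordan (μ : Multiset ℕ) (n : ℕ) (hn : μ.sum = n) :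
    ∃ N : (Fin n → F) →ₗ[F] (Fin n → F),
      ∀ k, finrank F (LinearMap.range (N ^ k)) = (μ.map (· - k)).sum := by
  classical
  let L := μ.toList
  let b : Fin L.length → ℕ := L.get
  have hsum : ∀ g : ℕ → ℕ, ∑ i, g (b i) = (μ.map g).sum := by
    intro g
    have h1 : (μ.map g).sum = (L.map g).sum := by
      conv_lhs => rw [← Multiset.coe_toList μ]
      simp [L]
    have h2 : L.map g = List.ofFn (g ∘ L.get) := by
      rw [← List.map_ofFn, List.ofFn_get]
    rw [h1, h2, List.sum_ofFn]
    rfl
  have hcard : Fintype.card (Idx b) = n := by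
    rw [Fintype.card_sigma]
    simp only [Fintype.card_fin]
    have := hsum id
    simp only [id, Multiset.map_id'] at this
    rw [this, hn]
  let e : Idx b ≃ Fin n := Fintype.equivFinOfCardEq hcard
  let φ : (Idx b → F) ≃ₗ[F] (Fin n → F) := LinearEquiv.funCongrLeft F F e.symm
  let N : (Fin n → F) →ₗ[F] (Fin n → F) := φ.toLinearMap ∘ₗ shift b ∘ₗ φ.symm.toLinearMap
  refine ⟨N, fun k => ?_⟩
  have hpow : N ^ k = φ.toLinearMap ∘ₗ ((shift (F := F) b) ^ k) ∘ₗ φ.symm.toLinearMap := by
    induction k with
    | zero =>
      apply LinearMap.ext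
      intro v
      simp
    | succ k ih =>
      rw [pow_succ, ih, pow_succ]
      apply LinearMap.ext
      intro v
      simp [N]
  have hrange : LinearMap.range (N ^ k) = (LinearMap.range ((shift (F := F) b) ^ k)).map φ.toLinearMap := by
    rw [hpow, LinearMap.range_comp, LinearMap.range_comp_of_range_eq_top]
    exact LinearEquiv.range _
  rw [hrange, LinearEquiv.finrank_map_eq, finrank_range_shift_pow]
  exact hsum (fun x => x - k)

end final

end Cfsg.Agent.Lib.JordanType
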