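import Mathlib
import Cfsg.Agent.Lib.ElusiveCore
import Cfsg.Agent.Lib.ElusiveCount
import Cfsg.Agent.Lib.ElusiveBuild
import Cfsg.Agent.Lib.ElusiveMain
import Cfsg.Agent.Lib.JordanType
import Cfsg.Agent.Lib.JordanBasis

/-!
# Elusive actions on pairs of complementary subspaces
-/

set_option autoImplicit false
set_option linter.unusedVariables false
set_option linter.unusedSectionVars false
set_option linter.style.haveILetI false

namespace Cfsg.Agent.Lib.ElusiveCompl

open Polynomial Module
open Cfsg.Agent.Lib.ElusiveCore Cfsg.Agent.Lib.ElusiveBuild Cfsg.Agent.Lib.ElusiveCount Cfsg.Agent.Lib.ElusiveMain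

variable {F : Type*} [Field F] [Fintype F]

section count

variable {V : Type*} [AddCommGroup V] [Module F V] [FiniteDimensional F V]

/-- The number of complements of a subspace. -/
theorem card_complements {U W₀ : Submodule F V} (h : IsCompl U W₀) :
    Nat.card {W : Submodule F V // IsCompl U W} = Fintype.card F ^ (finrank F W₀ * finrank F U) := by
  classical
  rw [Nat.card_congr U.isComplEquivProj]
  have e : {f : V →ₗ[F] U // ∀ x : U, f x = x} ≃ (W₀ →ₗ[F] U) :=
    { toFun := fun f => f.1.comp W₀.subtype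
      invFun := fun g => ⟨U.projectionOnto W₀ h + g.comp (W₀.projectionOnto U h.symm), by
        intro x
        have h1 : (W₀.projectionOnto U h.symm) (x : V) = 0 :=
          Submodule.projectionOnto_apply_of_mem_right h.symm x.2
        simp [h1, Submodule.projectionOnto_apply_left]⟩
      left_inv := by
        rintro ⟨f, hf⟩
        apply Subtype.ext
        apply LinearMap.ext
        intro v
        have h1 := Submodule.projection_add_projection_eq_self h v
        have h2 : f v = f (U.projection W₀ h v) + f (W₀.projection U h.symm v) := by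
          rw [← map_add, h1]
        simp only [LinearMap.add_apply, LinearMap.comp_apply, Submodule.subtype_apply]
        rw [h2]
        congr 1
        have h3 := hf (U.projectionOnto W₀ h v)
        rw [← h3]
        rfl
      right_inv := by
        intro g
        apply LinearMap.ext
        intro x
        have h1 : (U.projectionOnto W₀ h) (x : V) = 0 :=
          Submodule.projectionOnto_apply_of_mem_right h x.2
        simp [h1, Submodule.projectionOnto_apply_left] }
  rw [Nat.card_congr e, Module.natCard_eq_pow_finrank (K := F), Nat.card_eq_fintype_card, Module.finrank_linearMap]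

variable {p : ℕ} [hp : Fact p.Prime] [CharP F p]

include p in
/-- A prime different from the characteristic dividing the number of pairs of complements. -/
theorem prime_dvd_card_compl {n m r : ℕ} (hn : finrank F V = n) (hm : m ≤ n) (hm1 : 1 ≤ m) (hr : r.Prime) (hrp : r ≠ p)
    (h : r ∣ Nat.card {P : Submodule F V × Submodule F V // IsCompl P.1 P.2 ∧ finrank F P.1 = m}) :
    ∃ j, j < m ∧ r ∣ Fintype.card F ^ (n - j) - 1 := by
  classical
  haveI : Finite V := Module.finite_of_finite F
  have h1 : ∀ U : Submodule F V, finrank F U = m →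
      Nat.card {a : {P : Submodule F V × Submodule F V // IsCompl P.1 P.2} // a.1.1 = U} =
        Fintype.card F ^ ((n - m) * m) := by
    intro U hU
    obtain ⟨W₀, hW₀⟩ := Submodule.exists_isCompl U
    have h2 := Submodule.finrank_add_eq_of_isCompl hW₀
    have h3 : finrank F W₀ = n - m := by omega
    rw [← h3, ← hU, ← card_complements hW₀]
    refine Nat.card_congr ?_
    refine
      { toFun := fun a => ⟨a.1.1.2, ?_⟩
        invFun := fun W => ⟨⟨(U, W.1), W.2⟩, rfl⟩
        left_inv := ?_
        right_inv := fun _ => rfl }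
    · have := a.1.2
      rw [a.2] at this
      exact this
    · rintro ⟨⟨⟨U', W'⟩, h4⟩, h5⟩
      dsimp only at h4 h5
      subst h5
      rfl
  have h2 := card_fiberwise
    (fun a : {P : Submodule F V × Submodule F V // IsCompl P.1 P.2} => a.1.1)
    (fun U => finrank F U = m) _ h1
  have h3 : Nat.card {P : Submodule F V × Submodule F V // IsCompl P.1 P.2 ∧ finrank F P.1 = m}
      = Nat.card {a : {P : Submodule F V × Submodule F V // IsCompl P.1 P.2} // finrank F a.1.1 = m} := by
    refine Nat.card_congr ?_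
    exact
      { toFun := fun P => ⟨⟨P.1, P.2.1⟩, P.2.2⟩
        invFun := fun a => ⟨a.1.1, a.1.2, a.2⟩
        left_inv := fun _ => rfl
        right_inv := fun _ => rfl }
  rw [h3, h2] at h
  rcases (Nat.Prime.dvd_mul hr).mp h with h4 | h4
  · exact (prime_dvd_card (p := p) hn hm hm1 hr h4).2
  · exfalso
    obtain ⟨k, -, hk⟩ := FiniteField.card F p
    have h5 := hr.dvd_of_dvd_pow h4
    rw [hk] at h5
    have h6 := hr.dvd_of_dvd_pow h5
    exact hrp ((Nat.prime_dvd_prime_iff_eq hr hp.out).mp h6)

end count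

section semisimple

variable {p : ℕ} [Fact p.Prime] [CharP F p] {n r : ℕ}

include p in
/-- Invariant complements for `r ≠ p`. -/
theorem exists_inv_compl (hn : n ≠ 0) (hrp : r ≠ p) {x : Matrix.SpecialLinearGroup (Fin n) F} {c : F}
    (hr : r.Prime)
    (hx : ((x ^ r : Matrix.SpecialLinearGroup (Fin n) F) : Matrix (Fin n) (Fin n) F) = c • (1 : Matrix (Fin n) (Fin n) F))
    {U : Submodule F (Fin n → F)} (hU : U.map (Matrix.toLin' (x : Matrix (Fin n) (Fin n) F)) ≤ U) :
    ∃ W : Submodule F (Fin n → F), IsCompl U W ∧ W.map (Matrix.toLin' (x : Matrix (Fin n) (Fin n) F)) ≤ W := by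
  haveI : Fact r.Prime := ⟨hr⟩
  have hc0 := scalar_ne_zero hn hx
  have hf := toLin'_pow_eq hx
  have hsep : (X ^ r - C c : F[X]).Separable := separable_X_pow_sub_C c (natCast_r_ne (p := p) hrp) hc0
  have hss : Module.End.IsSemisimple (Matrix.toLin' (x : Matrix (Fin n) (Fin n) F)) :=
    Module.End.isSemisimple_of_squarefree_aeval_eq_zero hsep.squarefree (by
      simp only [map_sub, map_pow, aeval_X, aeval_C, hf]
      rw [sub_eq_zero]
      rfl)
  obtain ⟨W, hW, hc⟩ := Module.End.isSemisimple_iff.mp hss U ((Submodule.map_le_iff_le_comap.mp hU))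
  exact ⟨W, hc, Submodule.map_le_iff_le_comap.mpr hW⟩

end semisimple

section multisets

/-- Sub-multisets of an image. -/
lemma exists_finset_of_le_map {κ : Type*} [DecidableEq κ] (ℓ : κ → ℕ) (s : Finset κ) :
    ∀ ν : Multiset ℕ, ν ≤ s.val.map ℓ → ∃ S : Finset κ, S ⊆ s ∧ S.val.map ℓ = ν := by
  induction s using Finset.induction_on with
  | empty =>
    intro ν hν
    refine ⟨∅, by simp, ?_⟩
    simp only [Finset.empty_val, Multiset.map_zero, nonpos_iff_eq_zero] at hν ⊢
    exact hν.symm
  | insert a s ha ih =>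
    intro ν hν
    rw [Finset.insert_val_of_notMem ha, Multiset.map_cons] at hν
    by_cases h : ℓ a ∈ ν
    · obtain ⟨ν', rfl⟩ := Multiset.exists_cons_of_mem h
      rw [Multiset.cons_le_cons_iff] at hν
      obtain ⟨S, hS, hS2⟩ := ih ν' hν
      refine ⟨insert a S, Finset.insert_subset_insert _ hS, ?_⟩
      rw [Finset.insert_val_of_notMem (fun h' => ha (hS h')), Multiset.map_cons, hS2]
    · rw [Multiset.le_cons_of_notMem h] at hν
      obtain ⟨S, hS, hS2⟩ := ih ν hν
      exact ⟨S, hS.trans (Finset.subset_insert _ _), hS2⟩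

/-- The numeric equivalence for `p = 2`. -/
theorem two_iff {n m : ℕ} (hmn : m ≤ n) :
    (∀ μ : Multiset ℕ, (∀ a ∈ μ, 0 < a ∧ a ≤ 2) → μ.sum = n → ∃ ν : Multiset ℕ, ν ≤ μ ∧ ν.sum = m) ↔ (Odd n ∨ Even m) := by
  classical
  constructor
  · intro h
    by_contra hcon
    push Not at hcon
    rw [Nat.not_odd_iff_even, Nat.not_even_iff_odd] at hcon
    obtain ⟨⟨k, hk⟩, hm⟩ := hcon
    obtain ⟨ν, hν, hν2⟩ := h (Multiset.replicate k 2) (by
      intro a ha
      rw [Multiset.mem_replicate] at ha
      omega) (by simp; omega)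
    rw [Multiset.le_replicate_iff] at hν
    obtain ⟨c, -, rfl⟩ := hν
    simp only [Multiset.sum_replicate, smul_eq_mul] at hν2
    obtain ⟨t, ht⟩ := hm
    omega
  · intro h μ hμ hsum
    set a := Multiset.count 2 μ with ha
    set b := Multiset.count 1 μ with hb
    have h1 : μ = Multiset.replicate a 2 + Multiset.replicate b 1 := by
      have h2 := Multiset.filter_add_not (fun x => x = 2) μ
      rw [Multiset.filter_eq'] at h2
      have h3 : Multiset.filter (fun x => ¬ x = 2) μ = Multiset.filter (fun x => x = 1) μ := by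
        apply Multiset.filter_congr
        intro x hx
        have := hμ x hx
        omega
      rw [h3, Multiset.filter_eq'] at h2
      exact h2.symm
    have h2 : 2 * a + b = n := by
      rw [← hsum, h1]
      simp only [Multiset.sum_add, Multiset.sum_replicate, smul_eq_mul]
      ring
    have h3 : ∃ c d, c ≤ a ∧ d ≤ b ∧ 2 * c + d = m := by
      by_cases h4 : m / 2 ≤ a
      · have h5 : m % 2 ≤ b := by
          rcases h with h | h
          · obtain ⟨t, ht⟩ := h
            have := Nat.mod_two_eq_zero_or_one m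
            omega
          · obtain ⟨t, ht⟩ := h
            omega
        exact ⟨m / 2, m % 2, h4, h5, Nat.div_add_mod m 2⟩
      · exact ⟨a, m - 2 * a, le_rfl, by omega, by omega⟩
    obtain ⟨c, d, hc, hd, hcd⟩ := h3
    refine ⟨Multiset.replicate c 2 + Multiset.replicate d 1, ?_, ?_⟩
    · rw [h1]
      exact add_le_add ((Multiset.replicate_le_replicate _).mpr hc) ((Multiset.replicate_le_replicate _).mpr hd)
    · simp only [Multiset.sum_add, Multiset.sum_replicate, smul_eq_mul]
      omega

end multisets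

section charp

variable {p : ℕ} [hp : Fact p.Prime] [CharP F p] {n m : ℕ}

/-- Unipotent models: the necessary direction for `r = p`. -/
theorem forward_p (hn : n ≠ 0) (hmn : m ≤ n)
    (hW : ∀ x : Matrix.SpecialLinearGroup (Fin n) F,
      (∃ c : F, ((x ^ p : Matrix.SpecialLinearGroup (Fin n) F) : Matrix (Fin n) (Fin n) F) = c • (1 : Matrix (Fin n) (Fin n) F)) →
      (∀ c : F, (x : Matrix (Fin n) (Fin n) F) ≠ c • (1 : Matrix (Fin n) (Fin n) F)) →
      ∃ U W : Submodule F (Fin n → F), IsCompl U W ∧ finrank F U = m ∧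
        U.map (Matrix.toLin' (x : Matrix (Fin n) (Fin n) F)) ≤ U ∧ W.map (Matrix.toLin' (x : Matrix (Fin n) (Fin n) F)) ≤ W)
    (μ : Multiset ℕ) (hμ : ∀ a ∈ μ, 0 < a ∧ a ≤ p) (hsum : μ.sum = n) : ∃ ν : Multiset ℕ, ν ≤ μ ∧ ν.sum = m := by
  classical
  by_cases h1 : ∀ a ∈ μ, a = 1
  · have h2 : μ = Multiset.replicate (Multiset.card μ) 1 := Multiset.eq_replicate.mpr ⟨rfl, h1⟩
    have h3 : Multiset.card μ = n := by
      rw [h2] at hsum
      simpa using hsum
    refine ⟨Multiset.replicate m 1, ?_, by simp⟩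
    rw [h2]
    apply (Multiset.replicate_le_replicate _).mpr
    omega
  · obtain ⟨N, hN⟩ := Cfsg.Agent.Lib.JordanType.exists_jordan (F := F) μ n hsum
    have hNp : N ^ p = 0 := by
      have h2 := hN p
      have h3 : (μ.map (· - p)).sum = 0 := by
        have h4 : μ.map (· - p) = μ.map (fun _ => 0) := by
          apply Multiset.map_congr rfl
          intro b hb
          have := (hμ b hb).2
          omega
        rw [h4]
        simp
      rw [h3, Submodule.finrank_eq_zero, LinearMap.range_eq_bot] at h2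
      exact h2
    have hN0 : N ≠ 0 := by
      rintro rfl
      push Not at h1
      obtain ⟨a, ha, ha1⟩ := h1
      have h2 := hN 1
      rw [pow_one, LinearMap.range_zero, finrank_bot] at h2
      have h3 : a - 1 ∈ μ.map (· - 1) := Multiset.mem_map.mpr ⟨a, ha, rfl⟩
      have h4 := Multiset.single_le_sum (fun x _ => Nat.zero_le x) _ h3
      have := (hμ a ha).1
      omega
    haveI : NeZero n := ⟨hn⟩
    haveI : Nonempty (Fin n) := inferInstance
    haveI : CharP (Module.End F (Fin n → F)) p :=
      charP_of_injective_algebraMap (algebraMap F (Module.End F (Fin n → F))).injective p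
    set u : Module.End F (Fin n → F) := 1 + N with hu
    have hup : u ^ p = 1 := by
      rw [hu, add_pow_char_of_commute _ (Commute.one_left N), one_pow, hNp, add_zero]
    have hdet : LinearMap.det u = 1 := by
      have h2 : (LinearMap.det u) ^ p = 1 := by
        rw [← map_pow, hup, map_one]
      have h3 : (LinearMap.det u - 1) ^ p = 0 := by
        rw [sub_pow_char, h2, one_pow, sub_self]
      have h4 := pow_eq_zero_iff (hp.out.ne_zero) |>.mp h3
      exact sub_eq_zero.mp h4
    let x : Matrix.SpecialLinearGroup (Fin n) F := ⟨LinearMap.toMatrix' u, by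
      rw [LinearMap.det_toMatrix']
      exact hdet⟩
    have hxu : Matrix.toLin' (x : Matrix (Fin n) (Fin n) F) = u := by
      change Matrix.toLin' (LinearMap.toMatrix' u) = u
      rw [Matrix.toLin'_toMatrix']
    have hx1 : ((x ^ p : Matrix.SpecialLinearGroup (Fin n) F) : Matrix (Fin n) (Fin n) F) = (1 : F) • (1 : Matrix (Fin n) (Fin n) F) := by
      rw [one_smul, Matrix.SpecialLinearGroup.coe_pow]
      apply Matrix.toLin'.injective
      rw [toLin'_pow', hxu, hup, Matrix.toLin'_one]
      rfl
    have hx2 : ∀ c : F, (x : Matrix (Fin n) (Fin n) F) ≠ c • (1 : Matrix (Fin n) (Fin n) F) := by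
      intro c hc
      have h2 : u = c • (1 : Module.End F (Fin n → F)) := by
        rw [← hxu, hc, map_smul, Matrix.toLin'_one]
        rfl
      have h3 : N = (c - 1) • (1 : Module.End F (Fin n → F)) := by
        have h5 : (c - 1) • (1 : Module.End F (Fin n → F)) = c • (1 : Module.End F (Fin n → F)) - 1 := by
          apply LinearMap.ext
          intro v
          simp [sub_smul]
        rw [h5, ← h2, hu]
        abel
      have h4 : (c - 1) ^ p = 0 := by
        by_contra h5
        have h6 : ((c - 1) ^ p) • (1 : Module.End F (Fin n → F)) = 0 := by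
          have h7 : N ^ p = ((c - 1) ^ p) • (1 : Module.End F (Fin n → F)) := by
            rw [h3, _root_.smul_pow, one_pow]
          rw [← h7, hNp]
        have h7 := (smul_eq_zero.mp h6).resolve_left h5
        exact one_ne_zero h7
      have h5 := pow_eq_zero_iff (hp.out.ne_zero) |>.mp h4
      apply hN0
      rw [h3, h5, zero_smul]
    obtain ⟨U, W, hUW, hU, hU2, hW2⟩ := hW x ⟨1, hx1⟩ hx2
    rw [hxu] at hU2 hW2
    have hNu : ∀ v, N v = u v - v := by
      intro v
      rw [hu]
      simp
    obtain ⟨ν, h2, h3⟩ := Cfsg.Agent.Lib.JordanType.exists_sub_multiset N μ hN hUW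
      (fun v hv => by
        rw [hNu]
        exact U.sub_mem (hU2 (Submodule.mem_map_of_mem hv)) hv)
      (fun v hv => by
        rw [hNu]
        exact W.sub_mem (hW2 (Submodule.mem_map_of_mem hv)) hv)
    exact ⟨ν, h2, by rw [h3, hU]⟩

/-- The block decomposition. -/
theorem exists_blocks {V : Type*} [AddCommGroup V] [Module F V] {κ : Type} [Fintype κ] [DecidableEq κ] {ℓ : κ → ℕ} (e : Basis (Σ j, Fin (ℓ j)) F V)
    (N : V →ₗ[F] V) (hN : ∀ (j : κ) (i : Fin (ℓ j)), N (e ⟨j, i⟩) = 0 ∨ ∃ i' : Fin (ℓ j), N (e ⟨j, i⟩) = e ⟨j, i'⟩) (S : Finset κ) :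
    ∃ U W : Submodule F V, IsCompl U W ∧ finrank F U = ∑ j ∈ S, ℓ j ∧ U.map N ≤ U ∧ W.map N ≤ W := by
  classical
  have hinv : ∀ P : κ → Prop, (Submodule.span F (e '' {idx | P idx.1})).map N ≤ Submodule.span F (e '' {idx | P idx.1}) := by
    intro P
    rw [Submodule.map_span_le]
    rintro _ ⟨⟨j, i⟩, hidx, rfl⟩
    rcases hN j i with h | ⟨i', h⟩
    · rw [h]
      exact Submodule.zero_mem _
    · rw [h]
      exact Submodule.subset_span ⟨⟨j, i'⟩, hidx, rfl⟩
  let A : Set (Σ j, Fin (ℓ j)) := {idx | idx.1 ∈ S}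
  let B : Set (Σ j, Fin (ℓ j)) := {idx | ¬ idx.1 ∈ S}
  have h1 : IsCompl A B := by
    constructor
    · rw [Set.disjoint_left]
      intro a ha hb
      exact hb ha
    · rw [codisjoint_iff]
      ext a
      change (a.1 ∈ S ∨ ¬ a.1 ∈ S) ↔ True
      simp [em]
  have h2 : IsCompl (Submodule.span F (e '' A)) (Submodule.span F (e '' B)) :=
    e.linearIndependent.isCompl_span_image e.span_eq h1
  have h3 : finrank F (Submodule.span F (e '' A)) = ∑ j ∈ S, ℓ j := by
    have h4 : e '' A = Set.range (fun i : {idx : Σ j, Fin (ℓ j) // idx.1 ∈ S} => e i.1) := by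
      ext z
      constructor
      · rintro ⟨a, ha, rfl⟩
        exact ⟨⟨a, ha⟩, rfl⟩
      · rintro ⟨⟨a, ha⟩, rfl⟩
        exact ⟨a, ha, rfl⟩
    have hli : LinearIndependent F (fun i : {idx : Σ j, Fin (ℓ j) // idx.1 ∈ S} => e i.1) :=
      e.linearIndependent.comp _ Subtype.val_injective
    rw [h4, finrank_span_eq_card hli, Fintype.card_subtype]
    have h5 : (Finset.univ.filter (fun idx : Σ j, Fin (ℓ j) => idx.1 ∈ S)) = S.sigma (fun _ => Finset.univ) := by
      ext a
      simp
    rw [h5, Finset.card_sigma]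
    simp
  exact ⟨_, _, h2, h3, hinv (fun j => j ∈ S), hinv (fun j => ¬ j ∈ S)⟩

/-- The sufficient direction for `r = p`. -/
theorem backward_p (hn : n ≠ 0)
    (hμ : ∀ μ : Multiset ℕ, (∀ a ∈ μ, 0 < a ∧ a ≤ p) → μ.sum = n → ∃ ν : Multiset ℕ, ν ≤ μ ∧ ν.sum = m)
    (x : Matrix.SpecialLinearGroup (Fin n) F) {c : F}
    (hx : ((x ^ p : Matrix.SpecialLinearGroup (Fin n) F) : Matrix (Fin n) (Fin n) F) = c • (1 : Matrix (Fin n) (Fin n) F)) :
    ∃ U W : Submodule F (Fin n → F), IsCompl U W ∧ finrank F U = m ∧
      U.map (Matrix.toLin' (x : Matrix (Fin n) (Fin n) F)) ≤ U ∧ W.map (Matrix.toLin' (x : Matrix (Fin n) (Fin n) F)) ≤ W := by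
  classical
  haveI : NeZero n := ⟨hn⟩
  haveI : Nonempty (Fin n) := inferInstance
  haveI : CharP (Module.End F (Fin n → F)) p :=
    charP_of_injective_algebraMap (algebraMap F (Module.End F (Fin n → F))).injective p
  have hsurj : Function.Surjective (frobenius F p) := Finite.surjective_of_injective (frobenius_inj F p)
  obtain ⟨d, hd⟩ := hsurj c
  rw [frobenius_def] at hd
  obtain ⟨y, hy, hyW⟩ := exists_y hn hx hd hp.out.ne_zero
  set N : Module.End F (Fin n → F) := y - 1 with hN
  have hNp : N ^ p = 0 := by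
    rw [hN, sub_pow_char_of_commute _ (Commute.one_right y), hy, one_pow, sub_self]
  obtain ⟨κ, _, _, ℓ, v, e, he, hv, hℓ⟩ := Cfsg.Agent.Lib.JordanBasis.exists_jordan_basis N ⟨p, hNp⟩
  have hle : ∀ j, ℓ j ≤ p := by
    intro j
    by_contra hlt
    push Not at hlt
    have h1 := he j ⟨p, hlt⟩
    rw [hNp] at h1
    exact e.ne_zero _ h1
  have hsum : (Finset.univ.val.map ℓ).sum = n := by
    have h1 := Module.finrank_eq_card_basis e
    rw [Fintype.card_sigma] at h1
    simp only [Fintype.card_fin] at h1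
    have h2 : finrank F (Fin n → F) = n := by simp
    rw [h2] at h1
    exact h1.symm
  obtain ⟨ν, hν1, hν2⟩ := hμ (Finset.univ.val.map ℓ) (by
    intro a ha
    obtain ⟨j, -, rfl⟩ := Multiset.mem_map.mp ha
    exact ⟨hℓ j, hle j⟩) hsum
  obtain ⟨S, -, hS⟩ := exists_finset_of_le_map ℓ Finset.univ ν hν1
  obtain ⟨U, W, hUW, hU, hU2, hW2⟩ := exists_blocks e N (by
    intro j i
    rw [he]
    by_cases h1 : (i : ℕ) + 1 < ℓ j
    · right
      refine ⟨⟨i + 1, h1⟩, ?_⟩
      rw [he, pow_succ', Module.End.mul_apply]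
    · left
      have h2 : (i : ℕ) + 1 = ℓ j := by
        have := i.2
        omega
      rw [← Module.End.mul_apply, ← pow_succ', h2, hv]) S
  have hfin : finrank F U = m := by
    rw [hU, ← hν2, ← hS]
    rfl
  have hyinv : ∀ Z : Submodule F (Fin n → F), Z.map N ≤ Z → Z.map y ≤ Z := by
    intro Z hZ
    rintro _ ⟨z, hz, rfl⟩
    have h1 : N z ∈ Z := hZ (Submodule.mem_map_of_mem hz)
    have h2 : y z = N z + z := by
      rw [hN]
      simp
    rw [h2]
    exact Z.add_mem h1 hz
  exact ⟨U, W, hUW, hfin, hyW U (hyinv U hU2), hyW W (hyinv W hW2)⟩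

end charp

end Cfsg.Agent.Lib.ElusiveCompl
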