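import Mathlib
import Cfsg.Agent.Lib.ElusiveCore
import Cfsg.Agent.Lib.ElusiveCount
import Cfsg.Agent.Lib.ElusiveBuild
import Cfsg.Agent.Lib.ElusiveMain
import Cfsg.Prelude.Def_GeometricClasses

/-!
# Direct sum decompositions preserved by elements of prime order modulo scalars
-/

set_option autoImplicit false
set_option linter.unusedVariables false
set_option linter.unusedSectionVars false
set_option linter.style.haveILetI false
set_option warn.classDefReducibility false

namespace Cfsg.Agent.Lib.ElusiveDecomp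

open Polynomial Module
open Cfsg.Agent.Lib.ElusiveCore Cfsg.Agent.Lib.ElusiveBuild Cfsg.Agent.Lib.ElusiveCount Cfsg.Agent.Lib.ElusiveMain

section generic

variable {F V : Type*} [Field F] [AddCommGroup V] [Module F V] [FiniteDimensional F V]

/-- A spanning family of the right total dimension is independent. -/
lemma iSupIndep_of_finrank {κ : Type*} [Fintype κ] (D : κ → Submodule F V)
    (htop : iSup D = ⊤) (hsum : ∑ j, finrank F (D j) = finrank F V) : iSupIndep D := by
  classical
  let φ : (Π j, D j) →ₗ[F] V := ∑ j, (D j).subtype ∘ₗ LinearMap.proj j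
  have hφ : ∀ w, φ w = ∑ j, (w j : V) := by
    intro w
    simp [φ, LinearMap.sum_apply]
  have hsurj : Function.Surjective φ := by
    rw [← LinearMap.range_eq_top, eq_top_iff, ← htop]
    apply iSup_le
    intro j v hv
    refine ⟨Pi.single j ⟨v, hv⟩, ?_⟩
    rw [hφ, Finset.sum_eq_single j]
    · simp
    · intro b _ hb
      simp [hb]
    · simp
  have hfin : finrank F (Π j, D j) = finrank F V := by
    rw [Module.finrank_pi_fintype, hsum]
  have hinj : Function.Injective φ := (LinearMap.injective_iff_surjective_of_finrank_eq_finrank hfin).mpr hsurj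
  rw [iSupIndep_iff_finsetSum_eq_zero_imp_eq_zero]
  intro s v hv hsum0 i hi
  let w : Π j, D j := fun j => if h : j ∈ s then ⟨v j, hv j h⟩ else 0
  have h1 : φ w = 0 := by
    rw [hφ, ← hsum0, ← Finset.sum_subset (Finset.subset_univ s)]
    · apply Finset.sum_congr rfl
      intro j hj
      simp [w, hj]
    · intro j _ hj
      simp [w, hj]
  have h2 := hinj (h1.trans (map_zero φ).symm)
  have h3 := congrFun h2 i
  simp only [w, hi, dif_pos] at h3
  exact congrArg Subtype.val h3

/-- The projections attached to a decomposition. -/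
lemma exists_proj {κ : Type*} {D : κ → Submodule F V} (hind : iSupIndep D) (htop : iSup D = ⊤) (j : κ) :
    ∃ P : V →ₗ[F] V, (∀ v ∈ D j, P v = v) ∧ (∀ i, i ≠ j → ∀ v ∈ D i, P v = 0) ∧ ∀ v, P v ∈ D j := by
  classical
  have hc : IsCompl (D j) (⨆ i, ⨆ (_ : i ≠ j), D i) := by
    refine ⟨hind j, ?_⟩
    rw [codisjoint_iff, eq_top_iff, ← htop]
    apply iSup_le
    intro i
    by_cases h : i = j
    · subst h
      exact le_sup_left
    · exact le_trans (le_iSup₂_of_le i h le_rfl) le_sup_right
  refine ⟨(D j).subtype ∘ₗ (D j).projectionOnto _ hc, ?_, ?_, ?_⟩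
  · intro v hv
    simp [Submodule.projectionOnto_apply_of_mem_left hc hv]
  · intro i hi v hv
    have h1 : v ∈ ⨆ i, ⨆ (_ : i ≠ j), D i := (le_iSup₂_of_le i hi le_rfl : D i ≤ _) hv
    simp [Submodule.projectionOnto_apply_of_mem_right hc h1]
  · intro v
    simp

omit [FiniteDimensional F V] in
lemma finrank_map_of_inj {f : V →ₗ[F] V} (hf : Function.Injective f) (W : Submodule F V) :
    finrank F (W.map f) = finrank F W :=
  (Submodule.equivMapOfInjective f hf W).finrank_eq.symm

/-- A decomposition from a monomial basis. -/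
theorem decomp_of_monomial {ι κ : Type*} [Fintype ι] [Fintype κ] (e : Basis ι F V) (f : V →ₗ[F] V)
    (hinj : Function.Injective f) (π : ι → ι) (τ : κ → κ) (part : ι → κ) (hpart : ∀ i, part (π i) = τ (part i))
    (hf : ∀ i, ∃ c : F, f (e i) = c • e (π i)) {a : ℕ} (hfib : ∀ k, Nat.card {i // part i = k} = a) :
    ∃ D : κ → Submodule F V, iSupIndep D ∧ iSup D = ⊤ ∧ (∀ k, finrank F (D k) = a) ∧ ∀ k, (D k).map f = D (τ k) := by
  classical
  let D : κ → Submodule F V := fun k => Submodule.span F (e '' {i | part i = k})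
  have hfin : ∀ k, finrank F (D k) = a := by
    intro k
    have h4 : e '' {i | part i = k} = Set.range (fun i : {i // part i = k} => e i.1) := by
      ext z
      constructor
      · rintro ⟨b, hb, rfl⟩
        exact ⟨⟨b, hb⟩, rfl⟩
      · rintro ⟨⟨b, hb⟩, rfl⟩
        exact ⟨b, hb, rfl⟩
    have hli : LinearIndependent F (fun i : {i // part i = k} => e i.1) :=
      e.linearIndependent.comp _ Subtype.val_injective
    change finrank F (Submodule.span F (e '' {i | part i = k})) = a
    rw [h4, finrank_span_eq_card hli, ← Nat.card_eq_fintype_card, hfib]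
  have htop : iSup D = ⊤ := by
    rw [eq_top_iff, ← e.span_eq, Submodule.span_le]
    rintro _ ⟨i, rfl⟩
    exact (le_iSup D (part i)) (Submodule.subset_span ⟨i, rfl, rfl⟩)
  refine ⟨D, iSupIndep_of_finrank D htop ?_, htop, hfin, ?_⟩
  · have h1 : ∑ j, finrank F (D j) = ∑ j, Fintype.card {i // part i = j} := by
      apply Finset.sum_congr rfl
      intro j _
      rw [hfin, ← Nat.card_eq_fintype_card, hfib]
    rw [h1, ← Fintype.card_sigma, Module.finrank_eq_card_basis e]
    exact Fintype.card_congr (Equiv.sigmaFiberEquiv part)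
  · intro k
    apply Submodule.eq_of_le_of_finrank_eq
    · change Submodule.map f (Submodule.span F (e '' {i | part i = k})) ≤ _
      rw [Submodule.map_span_le]
      rintro _ ⟨i, hi, rfl⟩
      obtain ⟨c, hc⟩ := hf i
      rw [hc]
      apply Submodule.smul_mem
      apply Submodule.subset_span
      refine ⟨π i, ?_, rfl⟩
      change part (π i) = τ k
      rw [hpart]
      change part i = k at hi
      rw [hi]
    · rw [finrank_map_of_inj hinj, hfin, hfin]

/-- A decomposition from a flag of invariant subspaces, for a semisimple operator. -/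
theorem decomp_of_flag {f : V →ₗ[F] V} (hinj : Function.Injective f)
    (hss : ∀ W : Submodule F V, W.map f ≤ W → ∃ C : Submodule F V, C.map f ≤ C ∧ IsCompl W C) {t a : ℕ}
    (W : ℕ → Submodule F V) (hWt : W t = ⊤) (hmono : ∀ j, j < t → W j ≤ W (j + 1))
    (hinv : ∀ j, j ≤ t → (W j).map f ≤ W j) (hdim : ∀ j, j ≤ t → finrank F (W j) = j * a) :
    ∃ D : Fin t → Submodule F V, iSupIndep D ∧ iSup D = ⊤ ∧ (∀ j, finrank F (D j) = a) ∧ ∀ j, (D j).map f = D j := by
  classical
  have h0 : W 0 = ⊥ := by
    have := hdim 0 (Nat.zero_le _)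
    rw [zero_mul] at this
    exact Submodule.finrank_eq_zero.mp this
  have hC : ∀ j : Fin t, ∃ C : Submodule F V, C.map f ≤ C ∧ IsCompl (W j) C := fun j => hss _ (hinv j j.2.le)
  choose C hC1 hC2 using hC
  let D : Fin t → Submodule F V := fun j => C j ⊓ W (j + 1)
  have hsup : ∀ j : Fin t, W j ⊔ D j = W (j + 1) := by
    intro j
    have h1 := sup_inf_assoc_of_le (C j) (hmono j j.2)
    change W j ⊔ (C j ⊓ W (j + 1)) = _
    rw [← h1, (hC2 j).sup_eq_top, top_inf_eq]
  have hdimD : ∀ j, finrank F (D j) = a := by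
    intro j
    have h1 := Submodule.finrank_sup_add_finrank_inf_eq (W j) (D j)
    have h2 : W j ⊓ D j = ⊥ := by
      rw [eq_bot_iff]
      rintro v ⟨hv1, hv2, -⟩
      have := (Submodule.disjoint_def.mp (hC2 j).disjoint) v hv1 hv2
      rw [this]
      exact Submodule.zero_mem _
    rw [hsup, h2, finrank_bot, add_zero, hdim _ j.2, hdim _ j.2.le, Nat.succ_mul] at h1
    omega
  have hle : ∀ j, j ≤ t → W j ≤ iSup D := by
    intro j
    induction j with
    | zero =>
      intro _
      rw [h0]
      exact bot_le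
    | succ j ih =>
      intro hj
      have h1 := hsup ⟨j, hj⟩
      dsimp only at h1
      rw [← h1]
      exact sup_le (ih (by omega)) (le_iSup D ⟨j, hj⟩)
  have htop : iSup D = ⊤ := by
    rw [eq_top_iff, ← hWt]
    exact hle t le_rfl
  refine ⟨D, iSupIndep_of_finrank D htop ?_, htop, hdimD, ?_⟩
  · simp only [hdimD, Finset.sum_const, Finset.card_univ, Fintype.card_fin, smul_eq_mul]
    rw [← finrank_top F V, ← hWt, hdim t le_rfl]
  · intro j
    apply Submodule.eq_of_le_of_finrank_eq
    · change (C j ⊓ W (j + 1)).map f ≤ _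
      exact inf_inv (hC1 j) (hinv _ j.2)
    · rw [finrank_map_of_inj hinj]

/-- Flags of invariant subspaces inside an annihilated subspace. -/
theorem exists_flag {y : V →ₗ[F] V} {g : F[X]} {i : ℕ} (hg0 : g ≠ 0)
    (hdeg : ∀ π : F[X], Irreducible π → π ∣ g → π.natDegree = i) (hi : 1 ≤ i)
    {W₁ : Submodule F V} (hW₁ : W₁.map y ≤ W₁) (hg : ∀ v ∈ W₁, (aeval y g) v = 0) (m : ℕ)
    (hm : i * m ≤ finrank F W₁) :
    ∃ A : ℕ → Submodule F V, (∀ b, b ≤ m → A b ≤ W₁ ∧ (A b).map y ≤ A b ∧ finrank F (A b) = i * b) ∧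
      ∀ b, b < m → A b ≤ A (b + 1) := by
  induction m with
  | zero =>
    exact ⟨fun _ => ⊥, fun b hb => ⟨bot_le, by simp, by
      have : b = 0 := by omega
      subst this
      simp⟩, fun b hb => absurd hb (by omega)⟩
  | succ m ih =>
    have hm' : i * m ≤ finrank F W₁ := by
      rw [Nat.mul_succ] at hm
      omega
    obtain ⟨A, hA1, hA2⟩ := ih hm'
    obtain ⟨h1, h2, h3⟩ := hA1 m le_rfl
    obtain ⟨W, a1, a2, a3, a4⟩ := chain_exists (f := y) hg0 hdeg hi h2 hW₁ h1 hg 1 (by
      rw [h3, mul_one]
      rw [Nat.mul_succ] at hm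
      exact hm)
    have hA' : ∀ b, b ≤ m → (fun b => if b ≤ m then A b else W) b = A b := fun b hb => if_pos hb
    have hA'' : (fun b => if b ≤ m then A b else W) (m + 1) = W := if_neg (by omega)
    refine ⟨fun b => if b ≤ m then A b else W, ?_, ?_⟩
    · intro b hb
      by_cases hbm : b ≤ m
      · rw [hA' b hbm]
        exact hA1 b hbm
      · have : b = m + 1 := by omega
        subst this
        rw [hA'']
        refine ⟨a2, a3, ?_⟩
        rw [a4, h3, mul_one, Nat.mul_succ]
    · intro b hb
      by_cases hbm : b < m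
      · rw [hA' b (by omega), hA' (b + 1) (by omega)]
        exact hA2 b hbm
      · have : b = m := by omega
        subst this
        rw [hA' b le_rfl, hA'']
        exact a1

/-- Monotonicity along a finite chain. -/
lemma chain_mono {α : Type*} [Preorder α] {A : ℕ → α} {m : ℕ} (h : ∀ b, b < m → A b ≤ A (b + 1)) {b b' : ℕ}
    (hb : b ≤ b') (hb' : b' ≤ m) : A b ≤ A b' := by
  induction b' with
  | zero =>
    have : b = 0 := by omega
    subst this
    exact le_rfl
  | succ b' ih =>
    by_cases h1 : b ≤ b'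
    · exact (ih h1 (by omega)).trans (h b' (by omega))
    · have : b = b' + 1 := by omega
      subst this
      exact le_rfl

/-- The invariant span of a vector annihilated by a polynomial of degree `i`. -/
lemma cyc_span_inv {y : V →ₗ[F] V} {g : F[X]} {i : ℕ} (hg0 : g ≠ 0) (hdeg : g.natDegree = i) {w : V}
    (hw : (aeval y g) w = 0) :
    (Submodule.span F (Set.range fun l : Fin i => (y ^ (l : ℕ)) w)).map y ≤
      Submodule.span F (Set.range fun l : Fin i => (y ^ (l : ℕ)) w) := by
  rw [Submodule.map_span_le]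
  rintro _ ⟨l, rfl⟩
  dsimp only
  rw [← Module.End.mul_apply, ← pow_succ']
  by_cases hl : (l : ℕ) + 1 < i
  · exact Submodule.subset_span ⟨⟨l + 1, hl⟩, rfl⟩
  · have h1 : (l : ℕ) + 1 = i := by
      have := l.2
      omega
    rw [h1]
    have h2 := EuclideanDomain.div_add_mod (X ^ i : F[X]) g
    have h3 : (y ^ i) w = (aeval y ((X ^ i : F[X]) % g)) w := by
      have h4 := congrArg (fun P => (aeval y P) w) h2
      simp only [map_add, map_mul, LinearMap.add_apply, Module.End.mul_apply, map_pow, aeval_X] at h4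
      rw [← h4, aeval_comm y g, hw, map_zero, zero_add]
    rw [h3]
    have h5 : ((X ^ i : F[X]) % g).natDegree < i := by
      have hi0 : 0 < i := by
        have := l.2
        omega
      rw [← hdeg]
      apply Polynomial.natDegree_mod_lt
      rw [hdeg]
      omega
    rw [aeval_eq_sum_range' h5]
    rw [LinearMap.sum_apply]
    apply Submodule.sum_mem
    intro b hb
    rw [Finset.mem_range] at hb
    rw [LinearMap.smul_apply]
    apply Submodule.smul_mem
    exact Submodule.subset_span ⟨⟨b, hb⟩, rfl⟩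

/-- A spanning family for a space annihilated by an irreducible polynomial. -/
theorem exists_cyclic_family {y : V →ₗ[F] V} {g : F[X]} {i : ℕ} (hg : Irreducible g) (hdeg : g.natDegree = i)
    {W₁ : Submodule F V} (hW₁ : W₁.map y ≤ W₁) (hgW : ∀ v ∈ W₁, (aeval y g) v = 0) (m : ℕ) (hm : i * m = finrank F W₁) :
    ∃ v : Fin m → V, (∀ j, v j ∈ W₁) ∧ W₁ ≤ Submodule.span F (Set.range fun p : Fin i × Fin m => (y ^ (p.1 : ℕ)) (v p.2)) := by
  classical
  have hi : 1 ≤ i := by
    rw [← hdeg]
    exact hg.natDegree_pos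
  have hdeg2 : ∀ π : F[X], Irreducible π → π ∣ g → π.natDegree = i := by
    intro π h1 h2
    have h3 := h1.associated_of_dvd hg h2
    rw [natDegree_eq_of_degree_eq (degree_eq_degree_of_associated h3), hdeg]
  have key : ∀ m', m' ≤ m → ∃ v : Fin m' → V, (∀ j, v j ∈ W₁) ∧
      (Submodule.span F (Set.range fun p : Fin i × Fin m' => (y ^ (p.1 : ℕ)) (v p.2))).map y ≤
        Submodule.span F (Set.range fun p : Fin i × Fin m' => (y ^ (p.1 : ℕ)) (v p.2)) ∧
      finrank F (Submodule.span F (Set.range fun p : Fin i × Fin m' => (y ^ (p.1 : ℕ)) (v p.2))) = i * m' := by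
    intro m'
    induction m' with
    | zero =>
      intro _
      have h0 : (Set.range fun p : Fin i × Fin 0 => (y ^ (p.1 : ℕ)) ((Fin.elim0 : Fin 0 → V) p.2)) = ∅ :=
        Set.range_eq_empty _
      refine ⟨Fin.elim0, fun j => j.elim0, ?_, ?_⟩
      · rw [h0]
        simp
      · rw [h0]
        simp
    | succ m' ih =>
      intro hm'
      obtain ⟨v, hv1, hv2, hv3⟩ := ih (by omega)
      set S := Submodule.span F (Set.range fun p : Fin i × Fin m' => (y ^ (p.1 : ℕ)) (v p.2)) with hS
      have hSW : S ≤ W₁ := by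
        rw [hS, Submodule.span_le]
        rintro _ ⟨p, rfl⟩
        exact pow_mem_inv y hW₁ _ (hv1 _)
      have hlt : finrank F S < finrank F W₁ := by
        rw [hv3, ← hm]
        exact Nat.mul_lt_mul_of_pos_left (by omega) (by omega)
      have hne : S ≠ W₁ := by
        rintro h
        rw [h] at hlt
        exact lt_irrefl _ hlt
      obtain ⟨w, hw1, hw2⟩ := SetLike.exists_of_lt (lt_of_le_of_ne hSW hne)
      set T := Submodule.span F (Set.range fun l : Fin i => (y ^ (l : ℕ)) w) with hT
      have hTinv : T.map y ≤ T := cyc_span_inv hg.ne_zero hdeg (hgW w hw1)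
      have hTW : T ≤ W₁ := by
        rw [hT, Submodule.span_le]
        rintro _ ⟨p, rfl⟩
        exact pow_mem_inv y hW₁ _ hw1
      have hSTinv : (S ⊔ T).map y ≤ S ⊔ T := sup_inv hv2 hTinv
      have hSTW : S ⊔ T ≤ W₁ := sup_le hSW hTW
      have hwT : w ∈ T := by
        apply Submodule.subset_span
        exact ⟨⟨0, hi⟩, by simp⟩
      have hd := chain_dvd (f := y) (g := g) hg.ne_zero hdeg2 hv2 hSTinv (le_sup_left : S ≤ S ⊔ T) (fun v hv => hgW v (hSTW hv))
      have hlt2 : finrank F S < finrank F (S ⊔ T : Submodule F V) := by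
        apply Submodule.finrank_lt_finrank_of_lt
        apply lt_of_le_of_ne le_sup_left
        intro h
        apply hw2
        rw [h]
        exact Submodule.mem_sup_right hwT
      have hle2 : finrank F (S ⊔ T : Submodule F V) ≤ finrank F S + i := by
        have h1 := Submodule.finrank_add_le_finrank_add_finrank S T
        have h2 : finrank F T ≤ i := by
          have := finrank_range_le_card (R := F) (fun l : Fin i => (y ^ (l : ℕ)) w)
          rw [Fintype.card_fin] at this
          exact this
        omega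
      have hfin : finrank F (S ⊔ T : Submodule F V) = finrank F S + i := by
        obtain ⟨k, hk⟩ := hd
        have h1 : k = 1 := by
          have h2 : 0 < i * k := by omega
          have h3 : i * k ≤ i * 1 := by omega
          have h4 : k ≤ 1 := Nat.le_of_mul_le_mul_left h3 (by omega)
          have h5 : 0 < k := Nat.pos_of_mul_pos_left h2 |> fun _ => by
            by_contra h6
            have : k = 0 := by omega
            subst this
            omega
          omega
        subst h1
        omega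
      let v' : Fin (m' + 1) → V := Fin.snoc v w
      have hspan : Submodule.span F (Set.range fun p : Fin i × Fin (m' + 1) => (y ^ (p.1 : ℕ)) (v' p.2)) = S ⊔ T := by
        apply le_antisymm
        · rw [Submodule.span_le]
          rintro _ ⟨⟨l, j⟩, rfl⟩
          dsimp only
          induction j using Fin.lastCases with
          | last =>
            simp only [v', Fin.snoc_last]
            apply Submodule.mem_sup_right
            exact Submodule.subset_span ⟨l, rfl⟩
          | cast j =>
            simp only [v', Fin.snoc_castSucc]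
            apply Submodule.mem_sup_left
            exact Submodule.subset_span ⟨(l, j), rfl⟩
        · apply sup_le
          · rw [hS, Submodule.span_le]
            rintro _ ⟨⟨l, j⟩, rfl⟩
            apply Submodule.subset_span
            refine ⟨(l, Fin.castSucc j), ?_⟩
            simp [v']
          · rw [hT, Submodule.span_le]
            rintro _ ⟨l, rfl⟩
            apply Submodule.subset_span
            refine ⟨(l, Fin.last m'), ?_⟩
            simp [v']
      refine ⟨v', ?_, ?_, ?_⟩
      · intro j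
        induction j using Fin.lastCases with
        | last =>
          simp only [v', Fin.snoc_last]
          exact hw1
        | cast j =>
          simp only [v', Fin.snoc_castSucc]
          exact hv1 j
      · rw [hspan]
        exact hSTinv
      · rw [hspan, hfin, hv3, Nat.mul_succ]
  obtain ⟨v, hv1, hv2, hv3⟩ := key m le_rfl
  refine ⟨v, hv1, ?_⟩
  have hle : Submodule.span F (Set.range fun p : Fin i × Fin m => (y ^ (p.1 : ℕ)) (v p.2)) ≤ W₁ := by
    rw [Submodule.span_le]
    rintro _ ⟨p, rfl⟩
    exact pow_mem_inv y hW₁ _ (hv1 _)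
  exact (Submodule.eq_of_le_of_finrank_eq hle (by rw [hv3, hm])).ge

end generic

section analysis

variable {F V : Type*} [Field F] [Fintype F] [AddCommGroup V] [Module F V] [FiniteDimensional F V]
  {y : V →ₗ[F] V} {r t a : ℕ} {D : Fin t → Submodule F V} {σ : Equiv.Perm (Fin t)}

omit [Fintype F] [FiniteDimensional F V] in
lemma map_pow_eq (hσ : ∀ j, (D j).map y = D (σ j)) (k : ℕ) (j : Fin t) : (D j).map (y ^ k) = D ((σ ^ k) j) := by
  induction k generalizing j with
  | zero =>
    have h1 : (y ^ 0 : V →ₗ[F] V) = LinearMap.id := rfl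
    rw [h1, Submodule.map_id]
    rfl
  | succ k ih =>
    rw [pow_succ, Module.End.mul_eq_comp, Submodule.map_comp, hσ, ih, pow_succ]
    rfl

omit [Fintype F] [FiniteDimensional F V] in
lemma pow_mem_D (hσ : ∀ j, (D j).map y = D (σ j)) (k : ℕ) {j : Fin t} {v : V} (hv : v ∈ D j) :
    (y ^ k) v ∈ D ((σ ^ k) j) := by
  rw [← map_pow_eq hσ]
  exact Submodule.mem_map_of_mem hv

omit [Fintype F] [FiniteDimensional F V] in
lemma sigma_pow_r (hy : y ^ r = 1) (hσ : ∀ j, (D j).map y = D (σ j)) (hne : ∀ j, D j ≠ ⊥) (hind : iSupIndep D) (j : Fin t) :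
    (σ ^ r) j = j := by
  apply hind.injective hne
  rw [← map_pow_eq hσ r j, hy]
  exact Submodule.map_id _

lemma orbit_inj (hr : r.Prime) (hσr : ∀ j, (σ ^ r) j = j) {j : Fin t} (hj : σ j ≠ j) {i i' : ℕ} (hi : i < r) (hi' : i' < r)
    (h : (σ ^ i) j = (σ ^ i') j) : i = i' := by
  wlog hle : i' ≤ i generalizing i i'
  · exact (this hi' hi h.symm (by omega)).symm
  by_contra hne
  obtain ⟨d, rfl⟩ := Nat.exists_eq_add_of_le hle
  have hd : (σ ^ d) j = j := by
    rw [pow_add, Equiv.Perm.mul_apply] at h
    exact (σ ^ i').injective h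
  have h1 : Function.IsPeriodicPt (⇑σ) d j := by
    unfold Function.IsPeriodicPt Function.IsFixedPt
    rw [Equiv.Perm.iterate_eq_pow]
    exact hd
  have h2 : Function.IsPeriodicPt (⇑σ) r j := by
    unfold Function.IsPeriodicPt Function.IsFixedPt
    rw [Equiv.Perm.iterate_eq_pow]
    exact hσr j
  have h3 := h1.gcd h2
  have h4 : d.gcd r = 1 := by
    have : Nat.Coprime r d := (Nat.Prime.coprime_iff_not_dvd hr).mpr (fun hdvd => by
      have := Nat.le_of_dvd (by omega) hdvd
      omega)
    exact this.symm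
  rw [h4] at h3
  exact hj h3

/-- The trace of `y`. -/
noncomputable def trc (y : V →ₗ[F] V) (r : ℕ) : V →ₗ[F] V := ∑ l ∈ Finset.range r, y ^ l

lemma trc_mem_E (hy : y ^ r = 1) (v : V) : trc y r v ∈ EE y := by
  rw [mem_EE]
  unfold trc
  simp only [LinearMap.sum_apply]
  rw [map_sum]
  have h1 : ∀ l, y ((y ^ l) v) = (y ^ (l + 1)) v := by
    intro l
    rw [pow_succ', Module.End.mul_apply]
  simp only [h1]
  have h2 := Finset.sum_range_succ' (fun l => (y ^ l) v) r
  have h3 := Finset.sum_range_succ (fun l => (y ^ l) v) r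
  rw [h3] at h2
  rw [hy] at h2
  simp only [pow_zero, Module.End.one_apply] at h2
  exact (add_right_cancel h2).symm

lemma proj_trc (hr : r.Prime) (hσr : ∀ j, (σ ^ r) j = j) (hσ : ∀ j, (D j).map y = D (σ j))
    {j : Fin t} (hj : σ j ≠ j) {P : V →ₗ[F] V} (hP1 : ∀ v ∈ D j, P v = v) (hP2 : ∀ i, i ≠ j → ∀ v ∈ D i, P v = 0)
    {v : V} (hv : v ∈ D j) : P (trc y r v) = v := by
  unfold trc
  rw [LinearMap.sum_apply, map_sum, Finset.sum_eq_single 0]
  · simp [hP1 v hv]
  · intro l hl hl0
    rw [Finset.mem_range] at hl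
    apply hP2 _ _ _ (pow_mem_D hσ l hv)
    intro h
    have := orbit_inj hr hσr hj hl hr.pos (i' := 0) (by simpa using h)
    exact hl0 this
  · intro h
    simp at h
    exact absurd h hr.ne_zero

/-- A non-fixed summand embeds into the fixed space. -/
theorem le_finrank_E (hr : r.Prime) (hy : y ^ r = 1) (hind : iSupIndep D) (htop : iSup D = ⊤)
    (hσr : ∀ j, (σ ^ r) j = j) (hσ : ∀ j, (D j).map y = D (σ j))
    {j : Fin t} (hj : σ j ≠ j) : finrank F (D j) ≤ finrank F (EE y) := by
  obtain ⟨P, hP1, hP2, -⟩ := exists_proj hind htop j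
  let φ : D j →ₗ[F] EE y := ((trc y r).comp (D j).subtype).codRestrict (EE y) (fun v => trc_mem_E hy _)
  apply LinearMap.finrank_le_finrank_of_injective (f := φ)
  rw [injective_iff_map_eq_zero]
  rintro ⟨v, hv⟩ h
  have h1 : trc y r v = 0 := congrArg Subtype.val h
  have h2 := proj_trc hr hσr hσ hj hP1 hP2 hv
  rw [h1, map_zero] at h2
  exact Subtype.ext h2.symm

omit [Fintype F] [FiniteDimensional F V] in
lemma y_inj (hr : r ≠ 0) (hy : y ^ r = 1) : Function.Injective y := by
  rw [injective_iff_map_eq_zero]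
  intro v hv
  obtain ⟨k, rfl⟩ := Nat.exists_eq_succ_of_ne_zero hr
  have h1 : (y ^ (k + 1)) v = v := by
    rw [hy]
    rfl
  rw [pow_succ, Module.End.mul_apply, hv, map_zero] at h1
  exact h1.symm

omit [Fintype F] [FiniteDimensional F V] in
lemma y_pow_inj (hr : r ≠ 0) (hy : y ^ r = 1) (k : ℕ) : Function.Injective (y ^ k) := by
  induction k with
  | zero =>
    intro a b h
    simpa using h
  | succ k ih =>
    intro a b h
    rw [pow_succ, Module.End.mul_apply, Module.End.mul_apply] at h
    exact y_inj hr hy (ih h)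

/-- No short annihilator on a non-fixed summand. -/
theorem degree_ge (hr : r.Prime) (hy : y ^ r = 1) (hind : iSupIndep D) (htop : iSup D = ⊤)
    (hσr : ∀ j, (σ ^ r) j = j) (hσ : ∀ j, (D j).map y = D (σ j))
    {j : Fin t} (hj : σ j ≠ j) {v : V} (hv : v ∈ D j) (hv0 : v ≠ 0) {G : F[X]} (hG0 : G ≠ 0) (hG : aeval y G v = 0) :
    r ≤ G.natDegree := by
  by_contra hlt
  push Not at hlt
  set d := G.natDegree with hd
  obtain ⟨P, hP1, hP2, -⟩ := exists_proj hind htop ((σ ^ d) j)
  have h1 : P (aeval y G v) = G.coeff d • (y ^ d) v := by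
    rw [aeval_eq_sum_range, LinearMap.sum_apply, map_sum, Finset.sum_eq_single d]
    · rw [LinearMap.smul_apply, map_smul, hP1 _ (pow_mem_D hσ d hv)]
    · intro l hl hl0
      rw [Finset.mem_range] at hl
      rw [LinearMap.smul_apply, map_smul, hP2 _ _ _ (pow_mem_D hσ l hv), smul_zero]
      intro h
      exact hl0 (orbit_inj hr hσr hj (by omega) hlt h)
    · intro h
      exact absurd (Finset.mem_range.mpr (by omega)) h
  rw [hG, map_zero] at h1
  have h2 : G.coeff d ≠ 0 := by
    rw [hd, coeff_natDegree]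
    exact leadingCoeff_ne_zero.mpr hG0
  rcases smul_eq_zero.mp h1.symm with h3 | h3
  · exact h2 h3
  · exact hv0 (y_pow_inj hr.ne_zero hy d (by rw [h3, map_zero]))

/-- Independent subspaces have total dimension at most that of an ambient subspace. -/
lemma sum_finrank_inf_le (hind : iSupIndep D) (E : Submodule F V) :
    ∑ j, finrank F (D j ⊓ E : Submodule F V) ≤ finrank F E := by
  classical
  let φ : (Π j, (D j ⊓ E : Submodule F V)) →ₗ[F] E :=
    (∑ j, (D j ⊓ E).subtype ∘ₗ LinearMap.proj j).codRestrict E (by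
      intro w
      simp only [LinearMap.sum_apply, LinearMap.comp_apply]
      apply Submodule.sum_mem
      intro j _
      exact (w j).2.2)
  have hφ : ∀ w, (φ w : V) = ∑ j, (w j : V) := by
    intro w
    simp [φ, LinearMap.sum_apply]
  have hinj : Function.Injective φ := by
    rw [injective_iff_map_eq_zero]
    intro w hw
    have h1 : ∑ j, (w j : V) = 0 := by
      rw [← hφ, hw]
      rfl
    have h2 := (iSupIndep_iff_finsetSum_eq_zero_imp_eq_zero D).mp hind Finset.univ (fun j => (w j : V))
      (fun j _ => (w j).2.1) h1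
    ext j : 1
    exact Subtype.ext (h2 j (Finset.mem_univ _))
  have := LinearMap.finrank_le_finrank_of_injective hinj
  rwa [Module.finrank_pi_fintype] at this

/-- All summands fixed: the residue condition. -/
theorem all_fixed_dims {E : Submodule F V} {c : ℕ} (hc : 1 ≤ c) (hind : iSupIndep D) (hfin : ∀ j, finrank F (D j) = a)
    (hdim : ∀ j, ∃ b, finrank F (D j) = finrank F (D j ⊓ E : Submodule F V) + c * b) (hE : finrank F E < c)
    {s : ℕ} (hs : t * a = finrank F E + c * s) : finrank F E = t * (a % c) := by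
  have h1 : ∀ j, finrank F (D j ⊓ E : Submodule F V) = a % c := by
    intro j
    obtain ⟨b, hb⟩ := hdim j
    rw [hfin] at hb
    have h2 : finrank F (D j ⊓ E : Submodule F V) ≤ finrank F E := Submodule.finrank_mono inf_le_right
    rw [hb, Nat.add_mul_mod_self_left, Nat.mod_eq_of_lt (by omega)]
  have h2 := sum_finrank_inf_le hind E
  simp only [h1, Finset.sum_const, Finset.card_univ, Fintype.card_fin, smul_eq_mul] at h2
  have h3 : a % c + c * (a / c) = a := Nat.mod_add_div a c
  have h4 : t * a = t * (a % c) + c * (t * (a / c)) := by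
    conv_lhs => rw [← h3]
    ring
  set A := t * (a % c) with hA
  set B := t * (a / c) with hB
  rcases lt_trichotomy s B with h5 | h5 | h5
  · exfalso
    have : c * (s + 1) ≤ c * B := Nat.mul_le_mul_left _ h5
    rw [Nat.mul_succ] at this
    omega
  · subst h5
    omega
  · exfalso
    have : c * (B + 1) ≤ c * s := Nat.mul_le_mul_left _ h5
    rw [Nat.mul_succ] at this
    omega

/-- All summands fixed and small: everything is fixed. -/
theorem all_fixed_small {E : Submodule F V} {c : ℕ} (htop : iSup D = ⊤) (hfin : ∀ j, finrank F (D j) = a)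
    (hdim : ∀ j, ∃ b, finrank F (D j) = finrank F (D j ⊓ E : Submodule F V) + c * b) (hac : a < c) : E = ⊤ := by
  rw [eq_top_iff, ← htop]
  apply iSup_le
  intro j
  obtain ⟨b, hb⟩ := hdim j
  have hb0 : b = 0 := by
    by_contra h
    have : c * 1 ≤ c * b := Nat.mul_le_mul_left _ (by omega)
    have h2 := hfin j
    omega
  subst hb0
  have h1 : D j ⊓ E = D j := Submodule.eq_of_le_of_finrank_eq inf_le_left (by omega)
  exact inf_eq_left.mp h1

/-- Dimensions of an invariant subspace relative to the fixed space. -/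
theorem dims_inv_E {p : ℕ} [Fact p.Prime] [CharP F p] [Fact r.Prime] (hrp : r ≠ p) (hy : y ^ r = 1) {W : Submodule F V} (hW : W.map y ≤ W) :
    ∃ b, finrank F W = finrank F (W ⊓ EE y : Submodule F V) + orderOf ((Fintype.card F : ℕ) : ZMod r) * b := by
  have h1 := finrank_inf_decomp y hW (isCoprime_cyc (F := F) (p := p) (r := r) hrp) (by
    intro v _
    rw [aeval_mul_eq_zero hy]
    rfl)
  have h2 : orderOf ((Fintype.card F : ℕ) : ZMod r) ∣ finrank F (W ⊓ VV r y : Submodule F V) - finrank F (⊥ : Submodule F V) :=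
    chain_dvd (g := cyclotomic r F) (f := y) (cyclotomic_ne_zero r F)
      (fun π hπ hd => natDegree_irred_cyclotomic (p := p) hrp hπ hd)
      (W₀ := ⊥) (W₁ := W ⊓ VV r y) (by simp) (inf_inv hW (ker_aeval_inv y _)) bot_le
      (fun v hv => hv.2)
  rw [finrank_bot, Nat.sub_zero] at h2
  obtain ⟨b, hb⟩ := h2
  exact ⟨b, by rw [h1, hb]⟩

/-- A non-fixed summand of dimension at least two is impossible if the cyclotomic part has the minimal dimension. -/
theorem no_two_dim {p : ℕ} [Fact p.Prime] [CharP F p] [hr : Fact r.Prime] (hrp : r ≠ p)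
    (hc : orderOf ((Fintype.card F : ℕ) : ZMod r) = r - 1) (hy : y ^ r = 1)
    (hV : finrank F (VV r y) = r - 1) (hind : iSupIndep D) (htop : iSup D = ⊤)
    (hσr : ∀ j, (σ ^ r) j = j) (hσ : ∀ j, (D j).map y = D (σ j))
    {j : Fin t} (hj : σ j ≠ j) (ha : 2 ≤ finrank F (D j)) : False := by
  classical
  have hr1 : 1 ≤ r - 1 := by
    have := hr.out.two_le
    omega
  obtain ⟨P, hP1, hP2, -⟩ := exists_proj hind htop j
  -- a nonzero vector and a second independent vector
  have hne : D j ≠ ⊥ := by
    intro h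
    rw [h, finrank_bot] at ha
    omega
  obtain ⟨v, hv, hv0⟩ := Submodule.exists_mem_ne_zero_of_ne_bot hne
  have hlt : Submodule.span F {v} < D j := by
    apply lt_of_le_of_ne
    · rw [Submodule.span_le]
      simpa using hv
    · intro h
      have h1 := finrank_span_singleton (K := F) hv0
      rw [h, ] at h1
      omega
  obtain ⟨v', hv', hv'2⟩ := SetLike.exists_of_lt hlt
  have hdeg : (cyclotomic r F).natDegree = r - 1 := by
    rw [natDegree_cyclotomic, Nat.totient_prime hr.out]
  have hdeg2 : ∀ π : F[X], Irreducible π → π ∣ cyclotomic r F → π.natDegree = r - 1 := by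
    intro π h1 h2
    rw [natDegree_irred_cyclotomic (p := p) hrp h1 h2, hc]
  -- the image of `y - 1` lies in the cyclotomic part
  have hVV : ∀ u : V, (y - 1) u ∈ VV r y := by
    intro u
    change (aeval y (cyclotomic r F)) ((y - 1) u) = 0
    have h1 : (y - 1 : V →ₗ[F] V) = aeval y (X - 1 : F[X]) := by simp
    rw [h1, ← Module.End.mul_apply, ← map_mul, mul_comm, aeval_mul_eq_zero hy]
    rfl
  set w := (y - 1) v with hw
  have hwV : aeval y (cyclotomic r F) w = 0 := hVV v
  set T := Submodule.span F (Set.range fun l : Fin (r - 1) => (y ^ (l : ℕ)) w) with hT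
  have hTinv : T.map y ≤ T := cyc_span_inv (cyclotomic_ne_zero r F) hdeg hwV
  have hTV : T ≤ VV r y := by
    rw [hT, Submodule.span_le]
    rintro _ ⟨l, rfl⟩
    exact pow_mem_inv y (ker_aeval_inv y _) _ (hVV v)
  have hw0 : w ≠ 0 := by
    intro h
    have h1 : y v = v := by
      have : y v - v = 0 := h
      exact sub_eq_zero.mp this
    have h2 := hP2 (σ j) hj (y v) (by rw [← hσ]; exact Submodule.mem_map_of_mem hv)
    rw [h1, hP1 v hv] at h2
    exact hv0 h2
  have hwT : w ∈ T := Submodule.subset_span ⟨⟨0, hr1⟩, by simp⟩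
  have hTne : T ≠ ⊥ := by
    intro h
    rw [h] at hwT
    exact hw0 ((Submodule.mem_bot F).mp hwT)
  have hd := chain_dvd (f := y) (g := cyclotomic r F) (cyclotomic_ne_zero r F) hdeg2 (W₀ := ⊥) (W₁ := T) (by simp) hTinv bot_le
    (fun u hu => hTV hu)
  rw [finrank_bot, Nat.sub_zero] at hd
  have hTpos : 0 < finrank F T := by
    rw [Nat.pos_iff_ne_zero]
    intro h
    exact hTne (Submodule.finrank_eq_zero.mp h)
  have hTge : r - 1 ≤ finrank F T := Nat.le_of_dvd hTpos hd
  have hTeq : T = VV r y := Submodule.eq_of_le_of_finrank_eq hTV (by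
    have := Submodule.finrank_mono hTV
    omega)
  have hw' : (y - 1) v' ∈ T := by
    rw [hTeq]
    exact hVV v'
  obtain ⟨c, hc'⟩ := (Submodule.mem_span_range_iff_exists_fun F).mp hw'
  -- the fixed vector
  set z := v' - ∑ l : Fin (r - 1), c l • (y ^ (l : ℕ)) v with hz
  have hzfix : y z = z := by
    have h1 : y z - z = (y - 1) v' - ∑ l : Fin (r - 1), c l • (y ^ (l : ℕ)) w := by
      have h2 : ∀ l : Fin (r - 1), (y ^ (l : ℕ)) w = y ((y ^ (l : ℕ)) v) - (y ^ (l : ℕ)) v := by
        intro l
        rw [hw]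
        change (y ^ (l : ℕ)) (y v - v) = _
        rw [map_sub, ← Module.End.mul_apply, ← Module.End.mul_apply, ← pow_succ, ← pow_succ']
      simp only [h2, smul_sub, Finset.sum_sub_distrib]
      rw [hz, map_sub, map_sum]
      simp only [map_smul]
      simp only [LinearMap.sub_apply, Module.End.one_apply]
      abel
    rw [hc', sub_self] at h1
    exact sub_eq_zero.mp h1
  -- projecting
  have hPz : P z = v' - c ⟨0, hr1⟩ • v := by
    rw [hz, map_sub, hP1 v' hv', map_sum]
    congr 1
    rw [Finset.sum_eq_single ⟨0, hr1⟩]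
    · simp [hP1 v hv]
    · intro l _ hl
      rw [map_smul, hP2 _ _ _ (pow_mem_D hσ l hv), smul_zero]
      intro h
      apply hl
      have := orbit_inj hr.out hσr hj (i := l) (i' := 0) (by have := l.2; omega) hr.out.pos (by simpa using h)
      exact Fin.ext this
    · intro h
      exact absurd (Finset.mem_univ _) h
  have hPyz : P (y z) = 0 := by
    rw [hz, map_sub, map_sub, map_sum, map_sum]
    have h1 : P (y v') = 0 := hP2 (σ j) hj (y v') (by rw [← hσ]; exact Submodule.mem_map_of_mem hv')
    rw [h1, zero_sub, neg_eq_zero]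
    apply Finset.sum_eq_zero
    intro l _
    have h2 : y ((y ^ (l : ℕ)) v) = (y ^ ((l : ℕ) + 1)) v := by
      rw [pow_succ', Module.End.mul_apply]
    rw [map_smul, map_smul, h2, hP2 _ _ _ (pow_mem_D hσ _ hv), smul_zero]
    intro h
    have := orbit_inj hr.out hσr hj (i := (l : ℕ) + 1) (i' := 0) (by have := l.2; omega) hr.out.pos (by simpa using h)
    omega
  rw [hzfix, hPz] at hPyz
  apply hv'2
  rw [sub_eq_zero.mp hPyz]
  exact Submodule.smul_mem _ _ (Submodule.mem_span_singleton_self v)

/-- Counting orbits of a permutation of a frame of lines. -/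
theorem lines_count [hr : Fact r.Prime] (hy : y ^ r = 1) (hind : iSupIndep D) (htop : iSup D = ⊤)
    (hfin : ∀ j, finrank F (D j) = 1) (hσr : ∀ j, (σ ^ r) j = j) (hσ : ∀ j, (D j).map y = D (σ j))
    (hroot : ∀ l : F, l ^ r = 1 → l = 1) (hr0 : ((r : ℕ) : F) ≠ 0) :
    ∃ w u, t ≤ w + r * u ∧ w + u ≤ finrank F (EE y) := by
  classical
  have hrpos := hr.out.pos
  have hσone : σ ^ r = 1 := Equiv.ext hσr
  have hpowmod : ∀ (k : ℕ) (j : Fin t), (σ ^ k) j = (σ ^ (k % r)) j := by
    intro k j
    rw [← pow_eq_pow_mod k hσone]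
  let R : Finset (Fin t) := Finset.univ.filter (fun j => ∀ i : ℕ, j ≤ (σ ^ i) j)
  let Fx : Finset (Fin t) := R.filter (fun j => σ j = j)
  let N : Finset (Fin t) := R.filter (fun j => ¬ σ j = j)
  have hcard : Fx.card + N.card = R.card := Finset.card_filter_add_card_filter_not _
  have hcover : ∀ j' : Fin t, ∃ j ∈ R, ∃ l, l < r ∧ j' = (σ ^ l) j := by
    intro j'
    have hne : ((Finset.range r).image (fun i => (σ ^ i) j')).Nonempty :=
      ⟨(σ ^ 0) j', Finset.mem_image.mpr ⟨0, Finset.mem_range.mpr hrpos, rfl⟩⟩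
    set j := ((Finset.range r).image (fun i => (σ ^ i) j')).min' hne with hj
    have hjmem := Finset.min'_mem _ hne
    rw [← hj] at hjmem
    obtain ⟨i0, hi0, hi0j⟩ := Finset.mem_image.mp hjmem
    rw [Finset.mem_range] at hi0
    refine ⟨j, ?_, (r - i0) % r, Nat.mod_lt _ hrpos, ?_⟩
    · refine Finset.mem_filter.mpr ⟨Finset.mem_univ _, ?_⟩
      intro i
      have h1 : (σ ^ i) j = (σ ^ ((i + i0) % r)) j' := by
        rw [← hpowmod, pow_add, Equiv.Perm.mul_apply, hi0j]
      rw [h1]
      apply Finset.min'_le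
      exact Finset.mem_image.mpr ⟨_, Finset.mem_range.mpr (Nat.mod_lt _ hrpos), rfl⟩
    · rw [← hpowmod, ← hi0j, ← Equiv.Perm.mul_apply, ← pow_add, Nat.sub_add_cancel hi0.le]
      exact (hσr j').symm
  refine ⟨Fx.card, N.card, ?_, ?_⟩
  · have h1 : (Finset.univ : Finset (Fin t)) ⊆ Fx ∪ (Finset.range r ×ˢ N).image (fun z => (σ ^ z.1) z.2) := by
      intro j' _
      obtain ⟨j, hjR, l, hl, rfl⟩ := hcover j'
      by_cases hfix : σ j = j
      · apply Finset.mem_union_left
        have h2 : (σ ^ l) j = j := by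
          exact Function.IsFixedPt.perm_pow hfix l
        rw [h2]
        exact Finset.mem_filter.mpr ⟨hjR, hfix⟩
      · apply Finset.mem_union_right
        exact Finset.mem_image.mpr ⟨(l, j), Finset.mem_product.mpr ⟨Finset.mem_range.mpr hl, Finset.mem_filter.mpr ⟨hjR, hfix⟩⟩, rfl⟩
    have h2 := Finset.card_le_card h1
    have h3 := Finset.card_union_le Fx ((Finset.range r ×ˢ N).image (fun z => (σ ^ z.1) z.2))
    have h4 := Finset.card_image_le (s := Finset.range r ×ˢ N) (f := fun z => (σ ^ z.1) z.2)
    rw [Finset.card_product, Finset.card_range] at h4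
    rw [Finset.card_univ, Fintype.card_fin] at h2
    omega
  · rw [hcard]
    have hne : ∀ j, D j ≠ ⊥ := by
      intro j h
      have := hfin j
      rw [h, finrank_bot] at this
      omega
    have hex : ∀ j, ∃ v ∈ D j, v ≠ 0 := fun j => Submodule.exists_mem_ne_zero_of_ne_bot (hne j)
    choose e he he0 using hex
    let τ : R → V := fun j => trc y r (e j.1)
    have hli : LinearIndependent F τ := by
      rw [Fintype.linearIndependent_iff]
      intro g hg j0
      obtain ⟨P, hP1, hP2, -⟩ := exists_proj hind htop j0.1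
      have h1 : P (∑ j, g j • τ j) = g j0 • P (τ j0) := by
        rw [map_sum, Finset.sum_eq_single j0]
        · rw [map_smul]
        · intro j _ hj
          rw [map_smul]
          have h2 : P (τ j) = 0 := by
            change P (trc y r (e j.1)) = 0
            unfold trc
            rw [LinearMap.sum_apply, map_sum]
            apply Finset.sum_eq_zero
            intro l _
            apply hP2 _ _ _ (pow_mem_D hσ l (he j.1))
            intro h3
            apply hj
            apply Subtype.ext
            apply le_antisymm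
            · have := (Finset.mem_filter.mp j.2).2 l
              rw [h3] at this
              exact this
            · have h4 := (Finset.mem_filter.mp j0.2).2 (r * (l + 1) - l)
              rw [← h3, ← Equiv.Perm.mul_apply, ← pow_add] at h4
              have h5 : r * (l + 1) - l + l = r * (l + 1) := by
                apply Nat.sub_add_cancel
                nlinarith
              rw [h5, pow_mul, hσone, one_pow] at h4
              rw [← h3]
              exact h4
          rw [h2, smul_zero]
        · intro h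
          exact absurd (Finset.mem_univ _) h
      rw [hg, map_zero] at h1
      have h2 : P (τ j0) ≠ 0 := by
        by_cases hfix : σ j0.1 = j0.1
        · -- an eigenvector
          have h3 : y (e j0.1) ∈ D j0.1 := by
            have := Submodule.mem_map_of_mem (f := y) (he j0.1)
            rwa [hσ, hfix] at this
          have h4 : D j0.1 = Submodule.span F {e j0.1} := by
            symm
            apply Submodule.eq_of_le_of_finrank_eq
            · rw [Submodule.span_le]
              simpa using he j0.1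
            · rw [finrank_span_singleton (he0 _), hfin]
          rw [h4, Submodule.mem_span_singleton] at h3
          obtain ⟨l, hl⟩ := h3
          have h5 : ∀ k : ℕ, (y ^ k) (e j0.1) = l ^ k • e j0.1 := by
            intro k
            induction k with
            | zero => simp
            | succ k ih =>
              rw [pow_succ, Module.End.mul_apply, ← hl, map_smul, ih, smul_smul]
              rw [pow_succ]
              congr 1
              rw [mul_comm]
          have h6 : l ^ r = 1 := by
            have h7 := h5 r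
            rw [hy] at h7
            have h8 : (l ^ r - 1) • e j0.1 = 0 := by
              rw [sub_smul, one_smul, ← h7]
              simp
            rcases smul_eq_zero.mp h8 with h9 | h9
            · exact sub_eq_zero.mp h9
            · exact absurd h9 (he0 _)
          have h7 := hroot l h6
          have h8 : τ j0 = ((r : ℕ) : F) • e j0.1 := by
            change trc y r (e j0.1) = _
            unfold trc
            rw [LinearMap.sum_apply]
            have : ∀ k ∈ Finset.range r, (y ^ k) (e j0.1) = e j0.1 := by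
              intro k _
              rw [h5, h7, one_pow, one_smul]
            rw [Finset.sum_congr rfl this]
            simp only [Finset.sum_const, Finset.card_range]
            exact (Nat.cast_smul_eq_nsmul F r _).symm
          rw [h8, map_smul, hP1 _ (he j0.1)]
          intro h9
          rcases smul_eq_zero.mp h9 with h10 | h10
          · exact hr0 h10
          · exact he0 _ h10
        · have : P (τ j0) = e j0.1 := proj_trc hr.out hσr hσ hfix hP1 hP2 (he j0.1)
          rw [this]
          exact he0 _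
      rcases smul_eq_zero.mp h1.symm with h3 | h3
      · exact h3
      · exact absurd h3 h2
    have h1 := finrank_span_eq_card hli
    have h2 : Submodule.span F (Set.range τ) ≤ EE y := by
      rw [Submodule.span_le]
      rintro _ ⟨j, rfl⟩
      exact trc_mem_E hy _
    have h3 := Submodule.finrank_mono h2
    rw [h1] at h3
    simpa using h3

end analysis

section model

variable {F : Type*} [Field F] [Fintype F] {p r : ℕ} [Fact p.Prime] [CharP F p] [hr : Fact r.Prime]

/-- Transfer of polynomial expressions. -/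
lemma aeval_transfer {V' : Type*} [AddCommGroup V'] [Module F V'] [FiniteDimensional F V'] {n : ℕ} {y : (Fin n → F) →ₗ[F] (Fin n → F)} {g : V' →ₗ[F] V'}
    {e : V' ≃ₗ[F] (Fin n → F)} (h : ∀ v, y (e v) = e (g v)) (P : F[X]) (v : V') : (aeval y P) (e v) = e ((aeval g P) v) := by
  induction P using Polynomial.induction_on' with
  | add P Q hP hQ =>
    simp only [map_add, LinearMap.add_apply, hP, hQ]
  | monomial k a =>
    rw [aeval_monomial, aeval_monomial]
    simp only [Module.algebraMap_end_eq_smul_id, Module.End.mul_apply, LinearMap.smul_apply, LinearMap.id_apply, map_smul]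
    rw [pow_transfer h]

include p in
/-- Models with a prescribed cyclotomic part. -/
theorem exists_model (hrp : r ≠ p) (hrq : ¬ r ∣ Fintype.card F - 1) {n s : ℕ}
    (hs : orderOf ((Fintype.card F : ℕ) : ZMod r) * s ≤ n) (hs1 : 1 ≤ s) :
    ∃ (π : F[X]) (x : Matrix.SpecialLinearGroup (Fin n) F), Irreducible π ∧ π ∣ cyclotomic r F ∧ x ^ r = 1 ∧
      (∀ c : F, (x : Matrix (Fin n) (Fin n) F) ≠ c • 1) ∧
      aeval (Matrix.toLin' (x : Matrix (Fin n) (Fin n) F)) ((X - 1) * π) = 0 ∧
      finrank F (EE (Matrix.toLin' (x : Matrix (Fin n) (Fin n) F))) = n - orderOf ((Fintype.card F : ℕ) : ZMod r) * s ∧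
      finrank F (VV r (Matrix.toLin' (x : Matrix (Fin n) (Fin n) F))) = orderOf ((Fintype.card F : ℕ) : ZMod r) * s := by
  classical
  set i := orderOf ((Fintype.card F : ℕ) : ZMod r) with hi
  obtain ⟨π, hπ, hπd⟩ := WfDvdMonoid.exists_irreducible_factor (a := cyclotomic r F) (by
    intro h
    have := natDegree_eq_zero_of_isUnit h
    rw [natDegree_cyclotomic, Nat.totient_prime hr.out] at this
    have := hr.out.one_lt
    omega) (cyclotomic_ne_zero r F)
  have hdegπ : π.natDegree = i := natDegree_irred_cyclotomic (p := p) hrp hπ hπd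
  have hi0 : 0 < i := by
    rw [← hdegπ]
    exact hπ.natDegree_pos
  haveI : Fact (Irreducible π) := ⟨hπ⟩
  let K := AdjoinRoot π
  let pb := AdjoinRoot.powerBasis hπ.ne_zero
  haveI : FiniteDimensional F K := pb.finite
  have hfK : finrank F K = i := by
    rw [pb.finrank]
    exact hdegπ
  set e₀ := n - i * s with he₀
  have hdiv : e₀ + i * s = n := by omega
  let A := Fin e₀ → F
  let B := Fin s → K
  let V' := A × B
  have hfB : finrank F B = i * s := by
    rw [← finrank_mul_finrank F K B, hfK]
    simp [B]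
  have hfin : finrank F V' = n := by
    rw [Module.finrank_prod, hfB, ← hdiv]
    simp [A]
  -- the root of unity
  let ζ : K := AdjoinRoot.root π
  have hζπ : aeval ζ π = 0 := by
    rw [AdjoinRoot.aeval_eq, AdjoinRoot.mk_self]
  have hζΦ : aeval ζ (cyclotomic r F) = 0 := by
    obtain ⟨w, hw⟩ := hπd
    rw [hw, map_mul, hζπ, zero_mul]
  have hζr : ζ ^ r = 1 := by
    have h1 := cyclotomic_prime_mul_X_sub_one F r
    have h2 := congrArg (aeval ζ) h1
    rw [map_mul, hζΦ, zero_mul] at h2
    simp only [map_sub, map_pow, aeval_X, map_one] at h2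
    exact (sub_eq_zero.mp h2.symm)
  have hζ1 : ζ ≠ 1 := by
    intro h
    rw [h] at hζΦ
    rw [aeval_def, eval₂_eq_eval_map, map_cyclotomic, eval_one_cyclotomic_prime] at hζΦ
    have h3 : ((r : ℕ) : K) = algebraMap F K ((r : ℕ) : F) := by simp
    rw [h3] at hζΦ
    have h4 := natCast_r_ne (F := F) (p := p) (r := r) hrp
    exact h4 ((map_eq_zero _).mp hζΦ)
  let gB : B →ₗ[F] B := (ζ • LinearMap.id : B →ₗ[K] B).restrictScalars F
  let g : V' →ₗ[F] V' := LinearMap.prodMap LinearMap.id gB
  have hg : ∀ (m : ℕ) (v : V'), (g ^ m) v = (v.1, ζ ^ m • v.2) := by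
    intro m v
    induction m with
    | zero => simp
    | succ m ih =>
      rw [pow_succ', Module.End.mul_apply, ih, pow_succ']
      change (v.1, ζ • (ζ ^ m • v.2)) = _
      rw [smul_smul]
  have hgr : g ^ r = 1 := by
    apply LinearMap.ext
    intro v
    rw [hg, hζr, one_smul]
    rfl
  have hdet : LinearMap.det g = 1 := by
    apply eq_one_of_pow hrq
    rw [← map_pow, hgr, map_one]
  obtain ⟨x, e, hx⟩ := exists_SL_of_linear hfin g hdet
  have hxr : Matrix.toLin' (x : Matrix (Fin n) (Fin n) F) ^ r = 1 := by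
    apply LinearMap.ext
    intro w
    obtain ⟨v, rfl⟩ := e.surjective w
    rw [pow_transfer hx, hgr]
    rfl
  set y := Matrix.toLin' (x : Matrix (Fin n) (Fin n) F) with hy
  have hgP : ∀ (P : F[X]) (v : V'), (aeval g P) v = (eval 1 P • v.1, aeval ζ P • v.2) := by
    intro P v
    induction P using Polynomial.induction_on' with
    | add P Q hP hQ =>
      simp only [map_add, LinearMap.add_apply, hP, hQ, eval_add, add_smul]
      rfl
    | monomial k a =>
      rw [aeval_monomial, aeval_monomial]
      simp only [Module.algebraMap_end_eq_smul_id, Module.End.mul_apply, LinearMap.smul_apply, LinearMap.id_apply]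
      rw [hg]
      simp only [eval_monomial, one_pow, mul_one]
      rw [Prod.smul_mk]
      congr 1
      rw [Algebra.algebraMap_eq_smul_one, smul_mul_assoc, one_mul, smul_assoc]
  have hEE : finrank F (EE y) = e₀ := by
    apply le_antisymm
    · let φ : (EE y) →ₗ[F] A := (LinearMap.fst F A B).comp ((e.symm : (Fin n → F) →ₗ[F] V').comp (EE y).subtype)
      have hφ : Function.Injective φ := by
        rw [injective_iff_map_eq_zero]
        rintro ⟨w, hw⟩ hw0
        have h1 : y w = w := mem_EE.mp hw
        obtain ⟨v, rfl⟩ := e.surjective w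
        have h2 : g v = v := by
          apply e.injective
          rw [← hx]
          exact h1
        have h3 : v.1 = 0 := by
          have : (e.symm (e v)).1 = 0 := hw0
          simpa using this
        have h4 : ζ • v.2 = v.2 := congrArg Prod.snd h2
        have h11 : (ζ - 1) • v.2 = 0 := by rw [sub_smul, one_smul, h4, sub_self]
        have h5 : v.2 = 0 := by
          rcases smul_eq_zero.mp h11 with h12 | h12
          · exact absurd (sub_eq_zero.mp h12) hζ1
          · exact h12
        have h6 : v = 0 := Prod.ext h3 h5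
        apply Subtype.ext
        simp [h6]
      have := LinearMap.finrank_le_finrank_of_injective hφ
      simpa [A] using this
    · let ψ : A →ₗ[F] EE y := ((e : V' →ₗ[F] (Fin n → F)).comp (LinearMap.inl F A B)).codRestrict (EE y) (by
        intro a
        rw [mem_EE]
        change y (e (a, 0)) = e (a, 0)
        rw [hx]
        congr 1
        change (a, ζ • (0 : B)) = (a, 0)
        rw [smul_zero])
      have hψ : Function.Injective ψ := by
        rw [injective_iff_map_eq_zero]
        intro a ha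
        have h1 : e (a, (0 : B)) = 0 := congrArg Subtype.val ha
        have h2 := e.injective (h1.trans (map_zero e).symm)
        exact congrArg Prod.fst h2
      have := LinearMap.finrank_le_finrank_of_injective hψ
      simpa [A] using this
  obtain ⟨s', hs'1, hs'2⟩ := dims_total (p := p) hrp hxr
  have hVV : finrank F (VV r y) = i * s := by
    rw [hs'2]
    have hfin' : finrank F (Fin n → F) = n := by simp
    rw [hfin', hEE, ← hi] at hs'1
    rw [← hi]
    have h1 : i * s' = i * s := by omega
    exact h1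
  refine ⟨π, x, hπ, hπd, ?_, ?_, ?_, by rw [hEE], hVV⟩
  · apply Subtype.ext
    rw [Matrix.SpecialLinearGroup.coe_pow]
    apply Matrix.toLin'.injective
    rw [toLin'_pow', ← hy, hxr]
    simp
    rfl
  · -- not a scalar
    intro c hc
    have hw : ∃ w : B, w ≠ 0 := by
      haveI : Nonempty (Fin s) := ⟨⟨0, hs1⟩⟩
      exact ⟨fun _ => 1, fun h => one_ne_zero (congrFun h ⟨0, hs1⟩)⟩
    obtain ⟨w, hw⟩ := hw
    have h0 : ∀ v, g v = c • v := by
      intro v
      apply e.injective
      rw [← hx, hy, hc]
      simp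
    have h1 := h0 ((0 : A), w)
    have h2 : g ((0 : A), w) = ((0 : A), ζ • w) := rfl
    rw [h2] at h1
    have h3 : ζ • w = c • w := congrArg Prod.snd h1
    -- `c ^ r = 1` forces `c = 1`
    have hcr : c ^ r = 1 := by
      have h6 : ∀ m : ℕ, (g ^ m) ((0 : A), w) = c ^ m • ((0 : A), w) := by
        intro m
        induction m with
        | zero => simp
        | succ m ih =>
          rw [pow_succ', Module.End.mul_apply, ih, map_smul, h0, smul_smul, pow_succ]
      have h7 := h6 r
      rw [hgr] at h7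
      have h8 : ((0 : A), w) ≠ 0 := fun h => hw (congrArg Prod.snd h)
      have h9 : (1 - c ^ r) • ((0 : A), w) = 0 := by
        rw [sub_smul, one_smul, ← h7]
        simp
      rcases smul_eq_zero.mp h9 with h10 | h10
      · exact (sub_eq_zero.mp h10).symm
      · exact absurd h10 h8
    have hc1 := eq_one_of_pow hrq hcr
    rw [hc1, one_smul] at h3
    have h11 : (ζ - 1) • w = 0 := by rw [sub_smul, one_smul, h3, sub_self]
    rcases smul_eq_zero.mp h11 with h12 | h12
    · exact hζ1 (sub_eq_zero.mp h12)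
    · exact hw h12
  · apply LinearMap.ext
    intro w
    obtain ⟨v, rfl⟩ := e.surjective w
    rw [aeval_transfer hx, hgP]
    have h1 : eval 1 ((X - 1) * π : F[X]) = 0 := by simp
    have h2 : aeval ζ ((X - 1) * π : F[X]) = 0 := by
      rw [map_mul, hζπ, mul_zero]
    rw [h1, h2, zero_smul, zero_smul]
    exact map_zero e

end model

section forward

variable {F : Type*} [Field F] [Fintype F] {p r : ℕ} [Fact p.Prime] [CharP F p] [hr : Fact r.Prime]

/-- The necessary condition for a decomposition. -/
theorem forward_decomp {n a t : ℕ} (hrp : r ≠ p) (hc2 : 2 ≤ orderOf ((Fintype.card F : ℕ) : ZMod r))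
    (hcn : orderOf ((Fintype.card F : ℕ) : ZMod r) ≤ n) (hat : n = a * t) (ha : 1 ≤ a) (ht : 2 ≤ t)
    (hW : ∀ x : Matrix.SpecialLinearGroup (Fin n) F,
      (∃ z : F, ((x ^ r : Matrix.SpecialLinearGroup (Fin n) F) : Matrix (Fin n) (Fin n) F) = z • (1 : Matrix (Fin n) (Fin n) F)) →
      (∀ z : F, (x : Matrix (Fin n) (Fin n) F) ≠ z • (1 : Matrix (Fin n) (Fin n) F)) →
      ∃ D : Fin t → Submodule F (Fin n → F), Cfsg.Geo.IsMDecomposition a D ∧
        ∃ σ : Equiv.Perm (Fin t), ∀ j, (D j).map (Matrix.toLin' (x : Matrix (Fin n) (Fin n) F)) = D (σ j)) :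
    (a = 1 ∧ 1 < orderOf ((Fintype.card F : ℕ) : ZMod r) ∧ orderOf ((Fintype.card F : ℕ) : ZMod r) = r - 1 ∧
        n ≤ (n % orderOf ((Fintype.card F : ℕ) : ZMod r)) * r) ∨
      (orderOf ((Fintype.card F : ℕ) : ZMod r) ≤ a ∧
        n % orderOf ((Fintype.card F : ℕ) : ZMod r) = t * (a % orderOf ((Fintype.card F : ℕ) : ZMod r))) := by
  classical
  have hq1 : 1 ≤ Fintype.card F := Fintype.card_pos
  set c := orderOf ((Fintype.card F : ℕ) : ZMod r) with hc
  have hrq : ¬ r ∣ Fintype.card F - 1 := by
    rw [← i_eq_one_iff hq1, ← hc]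
    omega
  have hroot : ∀ l : F, l ^ r = 1 → l = 1 := fun l hl => eq_one_of_pow hrq hl
  have hr0 : ((r : ℕ) : F) ≠ 0 := natCast_r_ne (p := p) hrp
  have hcpos : 0 < c := by omega
  have hs1 : 1 ≤ n / c := (Nat.one_le_div_iff hcpos).mpr hcn
  have hdiv : n % c + c * (n / c) = n := Nat.mod_add_div n c
  have hklt : n % c < c := Nat.mod_lt _ hcpos
  have hfr : finrank F (Fin n → F) = n := by simp
  -- the main model
  obtain ⟨π, x, hπ, hπd, hxr, hxs, hxa, hxE, hxV⟩ := exists_model (F := F) (p := p) (r := r) hrp hrq (n := n) (s := n / c) (by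
    change c * (n / c) ≤ n
    omega) hs1
  rw [← hc] at hxE hxV
  have hcπ : π.natDegree = c := natDegree_irred_cyclotomic (p := p) hrp hπ hπd
  have hcr : c ≤ r - 1 := by
    rw [← hcπ]
    have h1 := natDegree_le_of_dvd hπd (cyclotomic_ne_zero r F)
    rwa [natDegree_cyclotomic, Nat.totient_prime hr.out] at h1
  set y := Matrix.toLin' (x : Matrix (Fin n) (Fin n) F) with hy
  have hyr : y ^ r = 1 := by
    rw [hy, ← toLin'_pow']
    have h1 : (x : Matrix (Fin n) (Fin n) F) ^ r = 1 := by
      have := congrArg (fun g : Matrix.SpecialLinearGroup (Fin n) F => (g : Matrix (Fin n) (Fin n) F)) hxr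
      simpa using this
    rw [h1, Matrix.toLin'_one]
    rfl
  have hE : finrank F (EE y) = n % c := by
    rw [hxE]
    omega
  obtain ⟨D, hD, σ, hσ⟩ := hW x ⟨1, by rw [hxr]; simp⟩ hxs
  have hind := hD.indep
  have htop := hD.iSup_eq_top
  have hfin := hD.finrank_eq
  have hne : ∀ j, D j ≠ ⊥ := by
    intro j h
    have := hfin j
    rw [h, finrank_bot] at this
    omega
  have hσr := sigma_pow_r hyr hσ hne hind
  by_cases hall : ∀ j, σ j = j
  · right
    have hdim : ∀ j, ∃ b, finrank F (D j) = finrank F (D j ⊓ EE y : Submodule F (Fin n → F)) + c * b := by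
      intro j
      apply dims_inv_E (p := p) hrp hyr
      rw [hσ, hall]
    constructor
    · by_contra hac
      push Not at hac
      have h1 := all_fixed_small htop hfin hdim hac
      rw [h1, finrank_top, hfr] at hE
      have := Nat.mod_lt n hcpos
      omega
    · have h1 := all_fixed_dims hcpos hind hfin hdim (by rw [hE]; exact hklt) (s := n / c) (by
        rw [hE, hdiv, hat, mul_comm])
      rw [hE] at h1
      exact h1
  · push Not at hall
    obtain ⟨j, hj⟩ := hall
    have hcr2 : c = r - 1 := by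
      obtain ⟨v, hv, hv0⟩ := Submodule.exists_mem_ne_zero_of_ne_bot (hne j)
      have hX1 : (X - 1 : F[X]) ≠ 0 := by
        have := X_sub_C_ne_zero (1 : F)
        rwa [C_1] at this
      have hXdeg : (X - 1 : F[X]).natDegree = 1 := by
        have := natDegree_X_sub_C (1 : F)
        rwa [C_1] at this
      have h1 := degree_ge hr.out hyr hind htop hσr hσ hj hv hv0 (G := (X - 1) * π) (mul_ne_zero hX1 hπ.ne_zero) (by
        rw [hxa]
        rfl)
      have h2 : ((X - 1 : F[X]) * π).natDegree = 1 + c := by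
        rw [natDegree_mul hX1 hπ.ne_zero, hcπ, hXdeg]
      omega
    have hale : a ≤ n % c := by
      have := le_finrank_E hr.out hyr hind htop hσr hσ hj
      rwa [hfin, hE] at this
    by_cases ha1 : a = 1
    · left
      subst ha1
      refine ⟨rfl, by omega, hcr2, ?_⟩
      obtain ⟨w, u, h1, h2⟩ := lines_count hyr hind htop hfin hσr hσ hroot hr0
      rw [hE] at h2
      rw [one_mul] at hat
      have hrc : r = c + 1 := by
        have := hr.out.two_le
        omega
      rw [hrc] at h1 ⊢
      have h3 : c * (n / c) ≤ c * u := by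
        have : (c + 1) * u = c * u + u := by ring
        omega
      have h4 : n / c ≤ u := Nat.le_of_mul_le_mul_left h3 hcpos
      have h5 : c * (n / c) ≤ c * (n % c) := Nat.mul_le_mul_left _ (by omega)
      have h6 : n % c * (c + 1) = c * (n % c) + n % c := by ring
      omega
    · exfalso
      have ha2 : 2 ≤ a := by omega
      obtain ⟨π', x', hπ', hπd', hxr', hxs', hxa', hxE', hxV'⟩ := exists_model (F := F) (p := p) (r := r) hrp hrq (n := n) (s := 1) (by
        change c * 1 ≤ n
        omega) le_rfl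
      rw [← hc, mul_one] at hxE' hxV'
      set y' := Matrix.toLin' (x' : Matrix (Fin n) (Fin n) F) with hy'
      have hyr' : y' ^ r = 1 := by
        rw [hy', ← toLin'_pow']
        have h1 : (x' : Matrix (Fin n) (Fin n) F) ^ r = 1 := by
          have := congrArg (fun g : Matrix.SpecialLinearGroup (Fin n) F => (g : Matrix (Fin n) (Fin n) F)) hxr'
          simpa using this
        rw [h1, Matrix.toLin'_one]
        rfl
      obtain ⟨D', hD', σ', hσ'⟩ := hW x' ⟨1, by rw [hxr']; simp⟩ hxs'
      have hind' := hD'.indep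
      have htop' := hD'.iSup_eq_top
      have hfin' := hD'.finrank_eq
      have hne' : ∀ j, D' j ≠ ⊥ := by
        intro j h
        have := hfin' j
        rw [h, finrank_bot] at this
        omega
      have hσr' := sigma_pow_r hyr' hσ' hne' hind'
      by_cases hall' : ∀ j, σ' j = j
      · have hdim : ∀ j, ∃ b, finrank F (D' j) = finrank F (D' j ⊓ EE y' : Submodule F (Fin n → F)) + c * b := by
          intro j
          apply dims_inv_E (p := p) hrp hyr'
          rw [hσ', hall']
        have h1 := all_fixed_small htop' hfin' hdim (by omega)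
        rw [h1, finrank_top, hfr] at hxE'
        omega
      · push Not at hall'
        obtain ⟨j', hj'⟩ := hall'
        exact no_two_dim (p := p) hrp hcr2 hyr' (by rw [hxV', hcr2]) hind' htop' hσr' hσ' hj' (by rw [hfin']; exact ha2)

end forward

section numeric

/-- The sequence of dimensions for a flag. -/
lemma num_seq {c a t n e s : ℕ} (hc : 1 ≤ c) (hn : n = t * a) (hes : e + c * s = n) (hmod : n % c = t * (a % c)) :
    ∃ A B : ℕ → ℕ, (∀ j, j ≤ t → A j + c * B j = j * a) ∧ (∀ j, j < t → A j ≤ A (j + 1) ∧ B j ≤ B (j + 1)) ∧ A t = e ∧ B t = s := by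
  have ha : a % c + c * (a / c) = a := Nat.mod_add_div a c
  generalize a % c = l at ha hmod
  generalize a / c = a' at ha
  have hja : ∀ j, j * a = j * l + c * (j * a') := by
    intro j
    conv_lhs => rw [← ha]
    ring
  have hB1 : ∀ j, c * min (j * a') s ≤ j * a := by
    intro j
    have h1 : c * min (j * a') s ≤ c * (j * a') := Nat.mul_le_mul_left _ (min_le_left _ _)
    have h2 := hja j
    omega
  have hst : s ≤ t * a' := by
    have h1 : e % c = n % c := by
      rw [← hes, Nat.add_mul_mod_self_left]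
    have h2 : e % c + c * (e / c) = e := Nat.mod_add_div e c
    have h3 := hja t
    have h4 : c * (t * a') = c * (e / c + s) := by
      rw [Nat.mul_add]
      omega
    have h5 := Nat.eq_of_mul_eq_mul_left hc h4
    rw [h5]
    exact Nat.le_add_left _ _
  refine ⟨fun j => j * a - c * min (j * a') s, fun j => min (j * a') s, ?_, ?_, ?_, ?_⟩
  · intro j _
    exact Nat.sub_add_cancel (hB1 j)
  · intro j _
    have h1 : min (j * a') s ≤ min ((j + 1) * a') s := by
      apply min_le_min_right
      exact Nat.mul_le_mul_right _ (by omega)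
    refine ⟨?_, h1⟩
    have h2 : min ((j + 1) * a') s ≤ min (j * a') s + a' := by
      have h3 : (j + 1) * a' = j * a' + a' := by ring
      rcases le_total (j * a') s with h4 | h4
      · rw [min_eq_left h4]
        exact (min_le_left _ _).trans (by omega)
      · rw [min_eq_right h4]
        exact (min_le_right _ _).trans (by omega)
    have h3 : c * min ((j + 1) * a') s ≤ c * min (j * a') s + c * a' := by
      rw [← Nat.mul_add]
      exact Nat.mul_le_mul_left _ h2
    have h4 : (j + 1) * a = j * a + a := by ring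
    have h5 := hB1 j
    have h6 := hB1 (j + 1)
    dsimp only
    omega
  · dsimp only
    rw [min_eq_right hst, mul_comm t a, mul_comm a t, ← hn]
    omega
  · exact min_eq_right hst

end numeric

section backward

variable {F : Type*} [Field F] [Fintype F] {p r : ℕ} [Fact p.Prime] [CharP F p] [hr : Fact r.Prime]
variable {V : Type*} [AddCommGroup V] [Module F V] [FiniteDimensional F V]

include p in
/-- Invariant complements for operators with a scalar power, `r ≠ p`. -/
lemma hss_of_pow (hrp : r ≠ p) {f : V →ₗ[F] V} {c : F} (hc : c ≠ 0) (hf : f ^ r = c • 1) :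
    ∀ W : Submodule F V, W.map f ≤ W → ∃ C : Submodule F V, C.map f ≤ C ∧ IsCompl W C := by
  intro W hW
  have hsep : (X ^ r - C c : F[X]).Separable := separable_X_pow_sub_C c (natCast_r_ne (p := p) hrp) hc
  have hss : Module.End.IsSemisimple f :=
    Module.End.isSemisimple_of_squarefree_aeval_eq_zero hsep.squarefree (by
      simp only [map_sub, map_pow, aeval_X, aeval_C, hf]
      rw [sub_eq_zero]
      rfl)
  obtain ⟨C, hC, hc⟩ := Module.End.isSemisimple_iff.mp hss W (Submodule.map_le_iff_le_comap.mp hW)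
  exact ⟨C, Submodule.map_le_iff_le_comap.mpr hC, hc⟩

omit [Fintype F] [FiniteDimensional F V] hr in
lemma f_inj (hr0 : r ≠ 0) {f : V →ₗ[F] V} {c : F} (hc : c ≠ 0) (hf : f ^ r = c • 1) : Function.Injective f := by
  rw [injective_iff_map_eq_zero]
  intro v hv
  obtain ⟨k, rfl⟩ := Nat.exists_eq_succ_of_ne_zero hr0
  have h1 : (f ^ (k + 1)) v = c • v := by
    rw [hf]
    rfl
  rw [pow_succ, Module.End.mul_apply, hv, map_zero] at h1
  rcases smul_eq_zero.mp h1.symm with h2 | h2
  · exact absurd h2 hc
  · exact h2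

/-- Elements of order `r`: a decomposition into invariant subspaces, if the residue condition holds. -/
theorem decomp_of_order (hrp : r ≠ p) {y : V →ₗ[F] V} (hy : y ^ r = 1) {a t : ℕ} (hn : finrank F V = t * a)
    (hmod : finrank F V % orderOf ((Fintype.card F : ℕ) : ZMod r) = t * (a % orderOf ((Fintype.card F : ℕ) : ZMod r))) :
    ∃ D : Fin t → Submodule F V, iSupIndep D ∧ iSup D = ⊤ ∧ (∀ j, finrank F (D j) = a) ∧ ∀ j, (D j).map y = D j := by
  classical
  set c := orderOf ((Fintype.card F : ℕ) : ZMod r) with hc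
  obtain ⟨s, hs1, hs2⟩ := dims_total (p := p) hrp hy
  rw [← hc] at hs1 hs2
  have hdeg1 : ∀ π : F[X], Irreducible π → π ∣ (X - 1 : F[X]) → π.natDegree = 1 := fun π h1 h2 => natDegree_of_dvd_X_sub_one h1 h2
  have hdeg2 : ∀ π : F[X], Irreducible π → π ∣ cyclotomic r F → π.natDegree = c := fun π h1 h2 => natDegree_irred_cyclotomic (p := p) hrp h1 h2
  have hc1 : 1 ≤ c := by
    obtain ⟨π, h1, h2⟩ := WfDvdMonoid.exists_irreducible_factor (a := cyclotomic r F) (by
      intro h
      have := natDegree_eq_zero_of_isUnit h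
      rw [natDegree_cyclotomic, Nat.totient_prime hr.out] at this
      have := hr.out.one_lt
      omega) (cyclotomic_ne_zero r F)
    rw [← hdeg2 π h1 h2]
    exact h1.natDegree_pos
  have hX1 : (X - 1 : F[X]) ≠ 0 := by
    have := X_sub_C_ne_zero (1 : F)
    rwa [C_1] at this
  obtain ⟨A, B, hAB, hmono, hAt, hBt⟩ := num_seq hc1 hn hs1 hmod
  obtain ⟨Bf, hBf1, hBf2⟩ := exists_flag (y := y) (g := X - 1) (i := 1) hX1 hdeg1 le_rfl (ker_aeval_inv y _)
    (fun v hv => hv) (finrank F (EE y)) (by rw [one_mul])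
  obtain ⟨Af, hAf1, hAf2⟩ := exists_flag (y := y) (g := cyclotomic r F) (i := c) (cyclotomic_ne_zero r F) hdeg2 hc1 (ker_aeval_inv y _)
    (fun v hv => hv) s (by rw [← hs2])
  have hAle : ∀ j, j ≤ t → A j ≤ finrank F (EE y) ∧ B j ≤ s := by
    intro j hj
    have h1 : ∀ k, j + k ≤ t → A j ≤ A (j + k) ∧ B j ≤ B (j + k) := by
      intro k
      induction k with
      | zero => simp
      | succ k ih =>
        intro h
        obtain ⟨h2, h3⟩ := ih (by omega)
        obtain ⟨h4, h5⟩ := hmono (j + k) (by omega)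
        exact ⟨h2.trans h4, h3.trans h5⟩
    obtain ⟨h2, h3⟩ := h1 (t - j) (by omega)
    rw [show j + (t - j) = t by omega] at h2 h3
    rw [hAt] at h2
    rw [hBt] at h3
    exact ⟨h2, h3⟩
  have hdisj : Disjoint (EE y) (VV r y) := Polynomial.disjoint_ker_aeval_of_isCoprime y (isCoprime_cyc (F := F) (p := p) (r := r) hrp)
  let W : ℕ → Submodule F V := fun j => Bf (A j) ⊔ Af (B j)
  have hWdim : ∀ j, j ≤ t → finrank F (W j) = j * a := by
    intro j hj
    obtain ⟨h1, h2⟩ := hAle j hj
    obtain ⟨a1, -, a3⟩ := hBf1 _ h1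
    obtain ⟨b1, -, b3⟩ := hAf1 _ h2
    have h3 := Submodule.finrank_sup_add_finrank_inf_eq (Bf (A j)) (Af (B j))
    have h4 : Bf (A j) ⊓ Af (B j) = ⊥ := by
      rw [eq_bot_iff]
      exact le_trans (inf_le_inf a1 b1) (le_of_eq hdisj.eq_bot)
    rw [h4, finrank_bot, add_zero, a3, b3, one_mul, hAB j hj] at h3
    exact h3
  have hWinv : ∀ j, j ≤ t → (W j).map y ≤ W j := by
    intro j hj
    obtain ⟨h1, h2⟩ := hAle j hj
    exact sup_inv (hBf1 _ h1).2.1 (hAf1 _ h2).2.1
  have hWmono : ∀ j, j < t → W j ≤ W (j + 1) := by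
    intro j hj
    obtain ⟨h1, h2⟩ := hAle (j + 1) hj
    obtain ⟨h3, h4⟩ := hmono j hj
    exact sup_le_sup (chain_mono hBf2 h3 h1) (chain_mono hAf2 h4 h2)
  have hWt : W t = ⊤ := by
    apply Submodule.eq_top_of_finrank_eq
    rw [hWdim t le_rfl, hn]
  have hfy : y ^ r = (1 : F) • 1 := by
    rw [hy, one_smul]
  exact decomp_of_flag (y_inj hr.out.ne_zero hy) (hss_of_pow (p := p) hrp one_ne_zero hfy) W hWt hWmono hWinv hWdim

/-- Non-powers, with `r ∣ a`. -/
theorem decomp_of_nonpower_a (hrp : r ≠ p) {f : V →ₗ[F] V} {z : F} (hf : f ^ r = z • 1) (hz : ∀ b : F, b ^ r ≠ z) {a t : ℕ}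
    (hn : finrank F V = t * a) (hra : r ∣ a) :
    ∃ D : Fin t → Submodule F V, iSupIndep D ∧ iSup D = ⊤ ∧ (∀ j, finrank F (D j) = a) ∧ ∀ j, (D j).map f = D j := by
  classical
  have hz0 : z ≠ 0 := by
    rintro rfl
    exact hz 0 (zero_pow hr.out.ne_zero)
  have hirr := X_pow_sub_C_irreducible_of_prime hr.out hz
  have hdeg : ∀ π : F[X], Irreducible π → π ∣ (X ^ r - C z : F[X]) → π.natDegree = r := by
    intro π h1 h2
    have h3 := (h1.associated_of_dvd hirr h2)
    rw [natDegree_eq_of_degree_eq (degree_eq_degree_of_associated h3)]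
    exact natDegree_X_pow_sub_C
  obtain ⟨b, rfl⟩ := hra
  obtain ⟨Af, hAf1, hAf2⟩ := exists_flag (y := f) (g := X ^ r - C z) (i := r) hirr.ne_zero hdeg hr.out.one_lt.le (W₁ := ⊤) (by simp)
    (by
      intro v _
      simp [hf]) (t * b) (by
      rw [finrank_top, hn]
      apply le_of_eq
      ring)
  let W : ℕ → Submodule F V := fun j => Af (j * b)
  have hle : ∀ j, j ≤ t → j * b ≤ t * b := fun j hj => Nat.mul_le_mul_right _ hj
  have hWdim : ∀ j, j ≤ t → finrank F (W j) = j * (r * b) := by
    intro j hj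
    rw [(hAf1 _ (hle j hj)).2.2]
    ring
  have hWt : W t = ⊤ := by
    apply Submodule.eq_top_of_finrank_eq
    rw [hWdim t le_rfl, hn]
  exact decomp_of_flag (f_inj hr.out.ne_zero hz0 hf) (hss_of_pow (p := p) hrp hz0 hf) W hWt
    (fun j hj => chain_mono hAf2 (Nat.mul_le_mul_right _ (by omega)) (hle _ (by omega)))
    (fun j hj => (hAf1 _ (hle j hj)).2.1) hWdim

/-- The rotation of `Fin r`. -/
def rot (hr0 : 0 < r) (l : Fin r) : Fin r := if h : (l : ℕ) + 1 < r then ⟨l + 1, h⟩ else ⟨0, hr0⟩

omit [Fact r.Prime] in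
lemma rot_inj (hr0 : 0 < r) : Function.Injective (rot hr0) := by
  intro l l' h
  unfold rot at h
  split_ifs at h with h1 h2 h2
  · have := congrArg Fin.val h
    simp at this
    exact Fin.ext this
  · have := congrArg Fin.val h
    simp at this
  · have := congrArg Fin.val h
    simp at this
  · have := l.2
    have := l'.2
    exact Fin.ext (by omega)

omit [FiniteDimensional F V] [Fintype F] in
/-- Transport to the index set `Fin t`. -/
lemma transport {κ : Type*} [Fintype κ] {f : V →ₗ[F] V} {t a : ℕ} (hκ : Fintype.card κ = t) (τ : κ → κ) (hτ : Function.Injective τ)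
    {D : κ → Submodule F V} (hind : iSupIndep D) (htop : iSup D = ⊤) (hfin : ∀ k, finrank F (D k) = a)
    (hmap : ∀ k, (D k).map f = D (τ k)) :
    ∃ D' : Fin t → Submodule F V, iSupIndep D' ∧ iSup D' = ⊤ ∧ (∀ j, finrank F (D' j) = a) ∧
      ∃ σ : Equiv.Perm (Fin t), ∀ j, (D' j).map f = D' (σ j) := by
  classical
  let ε : κ ≃ Fin t := Fintype.equivFinOfCardEq hκ
  let τ' : Equiv.Perm κ := Equiv.ofBijective τ (Finite.injective_iff_bijective.mp hτ)
  refine ⟨fun j => D (ε.symm j), hind.comp ε.symm.injective, ?_, fun j => hfin _, (ε.symm.trans τ').trans ε, ?_⟩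
  · rw [← htop]
    exact ε.symm.iSup_comp
  · intro j
    rw [hmap]
    simp [τ']

/-- Non-powers, with `r ∣ t`. -/
theorem decomp_of_nonpower_t (hrp : r ≠ p) {f : V →ₗ[F] V} {z : F} (hf : f ^ r = z • 1) (hz : ∀ b : F, b ^ r ≠ z) {a t' : ℕ}
    (hn : finrank F V = r * (a * t')) :
    ∃ D : Fin (r * t') → Submodule F V, iSupIndep D ∧ iSup D = ⊤ ∧ (∀ j, finrank F (D j) = a) ∧
      ∃ σ : Equiv.Perm (Fin (r * t')), ∀ j, (D j).map f = D (σ j) := by
  classical
  have hrpos := hr.out.pos
  have hz0 : z ≠ 0 := by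
    rintro rfl
    exact hz 0 (zero_pow hr.out.ne_zero)
  have hirr := X_pow_sub_C_irreducible_of_prime hr.out hz
  obtain ⟨v, -, hv⟩ := exists_cyclic_family (y := f) (g := X ^ r - C z) (i := r) hirr natDegree_X_pow_sub_C (W₁ := ⊤) (by simp)
    (by
      intro w _
      simp [hf]) (a * t') (by rw [finrank_top, hn])
  let e₀ : Fin r × Fin (a * t') → V := fun i => (f ^ (i.1 : ℕ)) (v i.2)
  let β : Basis (Fin r × Fin (a * t')) F V := basisOfTopLeSpanOfCardEqFinrank e₀ hv (by
    rw [hn]
    simp)
  have hβ : ∀ i, β i = e₀ i := fun i => by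
    simp [β]
  obtain ⟨D, hD1, hD2, hD3, hD4⟩ := decomp_of_monomial (κ := Fin r × Fin t') β f (f_inj hr.out.ne_zero hz0 hf)
    (fun i => (rot hrpos i.1, i.2)) (fun k => (rot hrpos k.1, k.2)) (fun i => (i.1, (finProdFinEquiv.symm i.2).2)) (fun i => rfl)
    (by
      rintro ⟨l, j⟩
      have hstep : f (β (l, j)) = (f ^ ((l : ℕ) + 1)) (v j) := by
        rw [hβ]
        change f ((f ^ (l : ℕ)) (v j)) = _
        rw [← Module.End.mul_apply, ← pow_succ']
      by_cases h1 : (l : ℕ) + 1 < r
      · refine ⟨1, ?_⟩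
        rw [one_smul, hstep, hβ]
        change _ = (f ^ ((rot hrpos l : Fin r) : ℕ)) (v j)
        have h3 : rot hrpos l = ⟨l + 1, h1⟩ := by
          simp [rot, h1]
        rw [h3]
      · refine ⟨z, ?_⟩
        have h2 : (l : ℕ) + 1 = r := by
          have := l.2
          omega
        rw [hstep, h2, hf, hβ]
        change _ = z • (f ^ ((rot hrpos l : Fin r) : ℕ)) (v j)
        have h3 : rot hrpos l = ⟨0, hrpos⟩ := by
          simp [rot, h1]
        rw [h3]
        simp)
    (a := a) (by
      rintro ⟨l0, g0⟩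
      rw [Nat.card_congr (?_ : {i : Fin r × Fin (a * t') // (i.1, (finProdFinEquiv.symm i.2).2) = (l0, g0)} ≃ Fin a)]
      · simp
      · refine
          { toFun := fun i => (finProdFinEquiv.symm i.1.2).1
            invFun := fun x => ⟨(l0, finProdFinEquiv (x, g0)), by simp⟩
            left_inv := ?_
            right_inv := ?_ }
        · rintro ⟨⟨l, j⟩, h⟩
          have h1 := congrArg Prod.fst h
          have h2 := congrArg Prod.snd h
          dsimp only at h1 h2
          subst h1
          subst h2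
          apply Subtype.ext
          change (l, finProdFinEquiv ((finProdFinEquiv.symm j).1, (finProdFinEquiv.symm j).2)) = (l, j)
          congr 1
          exact finProdFinEquiv.apply_symm_apply j
        · intro x
          simp)
  apply transport (κ := Fin r × Fin t') (by simp) (fun k => (rot hrpos k.1, k.2)) ?_ hD1 hD2 hD3 hD4
  rintro ⟨l, g⟩ ⟨l', g'⟩ h
  have h1 := rot_inj hrpos (congrArg Prod.fst h)
  have h2 := congrArg Prod.snd h
  dsimp only at h1 h2
  rw [h1, h2]

/-- The frame of lines for `c = r - 1`. -/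
theorem decomp_of_lines (hrp : r ≠ p) (hc : orderOf ((Fintype.card F : ℕ) : ZMod r) = r - 1) {y : V →ₗ[F] V} (hy : y ^ r = 1)
    {s : ℕ} (hs1 : finrank F (EE y) + (r - 1) * s = finrank F V) (hs2 : finrank F (VV r y) = (r - 1) * s)
    (hse : s ≤ finrank F (EE y)) {N : ℕ} (hN : finrank F V = N) :
    ∃ D : Fin N → Submodule F V, iSupIndep D ∧ iSup D = ⊤ ∧ (∀ j, finrank F (D j) = 1) ∧
      ∃ σ : Equiv.Perm (Fin N), ∀ j, (D j).map y = D (σ j) := by
  classical
  have hrpos := hr.out.pos
  have hr2 := hr.out.two_le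
  have hr0 : ((r : ℕ) : F) ≠ 0 := natCast_r_ne (p := p) hrp
  have hdeg : (cyclotomic r F).natDegree = r - 1 := by
    rw [natDegree_cyclotomic, Nat.totient_prime hr.out]
  have hirr : Irreducible (cyclotomic r F) := by
    obtain ⟨π, h1, h2⟩ := WfDvdMonoid.exists_irreducible_factor (a := cyclotomic r F) (by
      intro h
      have := natDegree_eq_zero_of_isUnit h
      omega) (cyclotomic_ne_zero r F)
    obtain ⟨h, hh⟩ := h2
    have h3 : π.natDegree = r - 1 := by
      rw [natDegree_irred_cyclotomic (p := p) hrp h1 ⟨h, hh⟩, hc]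
    have h0 : h ≠ 0 := by
      rintro rfl
      rw [mul_zero] at hh
      exact cyclotomic_ne_zero r F hh
    have h4 := natDegree_mul h1.ne_zero h0
    rw [← hh, hdeg, h3] at h4
    have h5 : h.natDegree = 0 := by omega
    have h6 : IsUnit h := by
      rw [Polynomial.isUnit_iff_degree_eq_zero, degree_eq_natDegree h0, h5]
      rfl
    rw [hh]
    exact (irreducible_mul_isUnit h6).mpr h1
  set e := finrank F (EE y) with he
  let bE : Basis (Fin e) F (EE y) := Module.finBasisOfFinrankEq F (EE y) rfl
  let fv : Fin s → V := fun j => (bE (Fin.castLE hse j) : V)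
  let fv' : Fin (e - s) → V := fun l => (bE ⟨s + l, by have := l.2; omega⟩ : V)
  have hfv : ∀ j, y (fv j) = fv j := fun j => mem_EE.mp (bE _).2
  have hfv' : ∀ l, y (fv' l) = fv' l := fun l => mem_EE.mp (bE _).2
  have hfvpow : ∀ (k : ℕ) (j : Fin s), (y ^ k) (fv j) = fv j := by
    intro k j
    induction k with
    | zero => simp
    | succ k ih => rw [pow_succ, Module.End.mul_apply, hfv, ih]
  obtain ⟨w, hw1, hw2⟩ := exists_cyclic_family (y := y) (g := cyclotomic r F) (i := r - 1) hirr hdeg (W₁ := VV r y)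
    (ker_aeval_inv y _) (fun v hv => hv) s hs2.symm
  let e₀ : (Fin r × Fin s) ⊕ Fin (e - s) → V := Sum.elim (fun i => (y ^ (i.1 : ℕ)) (fv i.2 + w i.2)) fv'
  set S := Submodule.span F (Set.range e₀) with hS
  have hS1 : ∀ l, fv' l ∈ S := fun l => Submodule.subset_span ⟨Sum.inr l, rfl⟩
  have hS2 : ∀ (l : Fin r) (j : Fin s), (y ^ (l : ℕ)) (fv j + w j) ∈ S := fun l j => Submodule.subset_span ⟨Sum.inl (l, j), rfl⟩
  have hcyc : ∀ u : V, (∑ l ∈ Finset.range r, (y ^ l) u) = (aeval y (cyclotomic r F)) u := by
    intro u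
    rw [cyclotomic_prime, map_sum, LinearMap.sum_apply]
    simp
  have hS3 : ∀ j, fv j ∈ S := by
    intro j
    have h1 : (∑ l ∈ Finset.range r, (y ^ l) (fv j + w j)) ∈ S := by
      apply Submodule.sum_mem
      intro l hl
      exact hS2 ⟨l, Finset.mem_range.mp hl⟩ j
    have h2 : (∑ l ∈ Finset.range r, (y ^ l) (fv j + w j)) = ((r : ℕ) : F) • fv j := by
      rw [hcyc, map_add]
      have h3 : (aeval y (cyclotomic r F)) (w j) = 0 := hw1 j
      rw [h3, add_zero, ← hcyc]
      simp only [hfvpow, Finset.sum_const, Finset.card_range]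
      exact (Nat.cast_smul_eq_nsmul F r _).symm
    rw [h2] at h1
    exact (Submodule.smul_mem_iff _ hr0).mp h1
  have hS4 : ∀ (l : Fin (r - 1)) (j : Fin s), (y ^ (l : ℕ)) (w j) ∈ S := by
    intro l j
    have h1 := hS2 ⟨l, by have := l.2; omega⟩ j
    rw [map_add, hfvpow] at h1
    exact (Submodule.add_mem_iff_right _ (hS3 j)).mp h1
  have hEle : EE y ≤ S := by
    intro z hz
    have h1 := bE.sum_repr ⟨z, hz⟩
    have h2 : z = ∑ i, (bE.repr ⟨z, hz⟩ i) • (bE i : V) := by
      have h3 := congrArg Subtype.val h1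
      simp only [AddSubmonoidClass.coe_finsetSum, SetLike.val_smul] at h3
      exact h3.symm
    rw [h2]
    apply Submodule.sum_mem
    intro i _
    apply Submodule.smul_mem
    by_cases h3 : (i : ℕ) < s
    · exact hS3 ⟨i, h3⟩
    · have h4 := hS1 ⟨(i : ℕ) - s, by have := i.2; omega⟩
      have h5 : (⟨s + ((i : ℕ) - s), by have := i.2; omega⟩ : Fin e) = i := Fin.ext (by simp; omega)
      simp only [fv', h5] at h4
      exact h4
  have hVle : VV r y ≤ S := by
    refine hw2.trans ?_
    rw [Submodule.span_le]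
    rintro _ ⟨⟨l, j⟩, rfl⟩
    exact hS4 l j
  have hdisj : Disjoint (EE y) (VV r y) := Polynomial.disjoint_ker_aeval_of_isCoprime y (isCoprime_cyc (F := F) (p := p) (r := r) hrp)
  have htopS : (⊤ : Submodule F V) ≤ S := by
    have h1 : EE y ⊔ VV r y = ⊤ := by
      apply Submodule.eq_top_of_finrank_eq
      have h2 := Submodule.finrank_sup_add_finrank_inf_eq (EE y) (VV r y)
      rw [hdisj.eq_bot, finrank_bot, add_zero, hs2] at h2
      rw [h2, ← he, hs1]
    rw [← h1]
    exact sup_le hEle hVle
  have hcard : Fintype.card ((Fin r × Fin s) ⊕ Fin (e - s)) = finrank F V := by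
    simp only [Fintype.card_sum, Fintype.card_prod, Fintype.card_fin]
    have h1 : r = (r - 1) + 1 := by omega
    have h2 : r * s = (r - 1) * s + s := by
      conv_lhs => rw [h1]
      ring
    omega
  let β : Basis ((Fin r × Fin s) ⊕ Fin (e - s)) F V := basisOfTopLeSpanOfCardEqFinrank e₀ htopS hcard
  have hβ : ∀ i, β i = e₀ i := fun i => by
    simp [β]
  let π : (Fin r × Fin s) ⊕ Fin (e - s) → (Fin r × Fin s) ⊕ Fin (e - s) :=
    Sum.elim (fun i => Sum.inl (rot hrpos i.1, i.2)) Sum.inr
  have hπinj : Function.Injective π := by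
    rintro (⟨l, j⟩ | l) (⟨l', j'⟩ | l') h
    · simp only [π, Sum.elim_inl, Sum.inl.injEq, Prod.mk.injEq] at h
      rw [rot_inj hrpos h.1, h.2]
    · simp [π] at h
    · simp [π] at h
    · simp only [π, Sum.elim_inr, Sum.inr.injEq] at h
      rw [h]
  obtain ⟨D, hD1, hD2, hD3, hD4⟩ := decomp_of_monomial (κ := (Fin r × Fin s) ⊕ Fin (e - s)) β y (y_inj hr.out.ne_zero hy)
    π π id (fun i => rfl)
    (by
      rintro (⟨l, j⟩ | l)
      · refine ⟨1, ?_⟩
        rw [one_smul, hβ, hβ]
        change y ((y ^ (l : ℕ)) (fv j + w j)) = (y ^ ((rot hrpos l : Fin r) : ℕ)) (fv j + w j)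
        rw [← Module.End.mul_apply, ← pow_succ']
        by_cases h1 : (l : ℕ) + 1 < r
        · have h3 : rot hrpos l = ⟨l + 1, h1⟩ := by
            simp [rot, h1]
          rw [h3]
        · have h3 : rot hrpos l = ⟨0, hrpos⟩ := by
            simp [rot, h1]
          have h2 : (l : ℕ) + 1 = r := by
            have := l.2
            omega
          rw [h3, h2, hy]
          simp
      · refine ⟨1, ?_⟩
        rw [one_smul, hβ, hβ]
        exact hfv' l)
    (a := 1) (by
      intro k
      have : Unique {i // id i = k} := ⟨⟨⟨k, rfl⟩⟩, fun i => Subtype.ext i.2⟩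
      exact Nat.card_unique)
  apply transport (κ := (Fin r × Fin s) ⊕ Fin (e - s)) (hcard.trans hN) π hπinj hD1 hD2 hD3 hD4

include p in
/-- Scalar multiples of elements of order `r`. -/
lemma exists_d_y {n : ℕ} (hn : n ≠ 0) {x : Matrix.SpecialLinearGroup (Fin n) F} {c d : F}
    (hx : ((x ^ r : Matrix.SpecialLinearGroup (Fin n) F) : Matrix (Fin n) (Fin n) F) = c • (1 : Matrix (Fin n) (Fin n) F))
    (hd : d ^ r = c) :
    d ≠ 0 ∧ ∃ y : (Fin n → F) →ₗ[F] (Fin n → F), y ^ r = 1 ∧ Matrix.toLin' (x : Matrix (Fin n) (Fin n) F) = d • y := by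
  have hc := scalar_ne_zero hn hx
  have hd0 : d ≠ 0 := by
    rintro rfl
    rw [zero_pow hr.out.ne_zero] at hd
    exact hc hd.symm
  refine ⟨hd0, d⁻¹ • Matrix.toLin' (x : Matrix (Fin n) (Fin n) F), ?_, ?_⟩
  · rw [_root_.smul_pow, toLin'_pow_eq hx, smul_smul, inv_pow, hd, inv_mul_cancel₀ hc, one_smul]
  · rw [smul_smul, mul_inv_cancel₀ hd0, one_smul]

/-- The sufficient condition for a decomposition. -/
theorem backward_decomp {n a t : ℕ} (hrp : r ≠ p) (hat : n = a * t) (ha : 1 ≤ a) (ht : 2 ≤ t)
    (hcond : (a = 1 ∧ 1 < orderOf ((Fintype.card F : ℕ) : ZMod r) ∧ orderOf ((Fintype.card F : ℕ) : ZMod r) = r - 1 ∧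
        n ≤ (n % orderOf ((Fintype.card F : ℕ) : ZMod r)) * r) ∨
      (orderOf ((Fintype.card F : ℕ) : ZMod r) ≤ a ∧
        n % orderOf ((Fintype.card F : ℕ) : ZMod r) = t * (a % orderOf ((Fintype.card F : ℕ) : ZMod r))))
    (x : Matrix.SpecialLinearGroup (Fin n) F) {z : F}
    (hx : ((x ^ r : Matrix.SpecialLinearGroup (Fin n) F) : Matrix (Fin n) (Fin n) F) = z • (1 : Matrix (Fin n) (Fin n) F)) :
    ∃ D : Fin t → Submodule F (Fin n → F), Cfsg.Geo.IsMDecomposition a D ∧
      ∃ σ : Equiv.Perm (Fin t), ∀ j, (D j).map (Matrix.toLin' (x : Matrix (Fin n) (Fin n) F)) = D (σ j) := by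
  classical
  have hq1 : 1 ≤ Fintype.card F := Fintype.card_pos
  have hfr : finrank F (Fin n → F) = n := by simp
  have hn0 : n ≠ 0 := by
    rw [hat]
    exact mul_ne_zero (by omega) (by omega)
  have hz0 := scalar_ne_zero hn0 hx
  have hf := toLin'_pow_eq hx
  set f := Matrix.toLin' (x : Matrix (Fin n) (Fin n) F) with hfdef
  -- the shape of the final conclusion
  have mk : ∀ D : Fin t → Submodule F (Fin n → F), iSupIndep D → iSup D = ⊤ → (∀ j, finrank F (D j) = a) →
      Cfsg.Geo.IsMDecomposition a D := fun D h1 h2 h3 => ⟨ht, ha, h3, h1, h2⟩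
  rcases hcond with ⟨rfl, h1, h2, h3⟩ | ⟨h1, h2⟩
  · -- the frame case
    have hrq : ¬ r ∣ Fintype.card F - 1 := by
      rw [← i_eq_one_iff hq1]
      omega
    obtain ⟨d, hd⟩ := exists_root_of_not_dvd hr.out hrq hz0
    obtain ⟨hd0, y, hy, hfy⟩ := exists_d_y (p := p) hn0 hx hd
    obtain ⟨s, hs1, hs2⟩ := dims_total (p := p) hrp hy
    rw [h2] at hs1 hs2
    have hr2 := hr.out.two_le
    have hse : s ≤ finrank F (EE y) := by
      rw [hfr] at hs1
      rw [h2] at h3
      set e := finrank F (EE y) with he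
      by_contra hlt
      push Not at hlt
      have h4 : n % (r - 1) = e % (r - 1) := by
        rw [← hs1, Nat.add_mul_mod_self_left]
      have h5 : e % (r - 1) ≤ e := Nat.mod_le _ _
      have h6 : n ≤ e * r := by
        rw [h4] at h3
        exact h3.trans (Nat.mul_le_mul_right _ h5)
      have h7 : e * r = e * (r - 1) + e := by
        conv_lhs => rw [show r = (r - 1) + 1 by omega]
        ring
      have h8 : (r - 1) * (e + 1) ≤ (r - 1) * s := Nat.mul_le_mul_left _ hlt
      have h9 : (r - 1) * (e + 1) = e * (r - 1) + (r - 1) := by ring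
      omega
    obtain ⟨D, hD1, hD2, hD3, σ, hσ⟩ := decomp_of_lines (p := p) hrp h2 hy hs1 hs2 hse (N := t) (by
      rw [hfr, hat, one_mul])
    refine ⟨D, mk D hD1 hD2 hD3, σ, fun j => ?_⟩
    rw [hfdef, hfy, Submodule.map_smul _ _ _ hd0, hσ]
  · by_cases hpow : ∃ d : F, d ^ r = z
    · obtain ⟨d, hd⟩ := hpow
      obtain ⟨hd0, y, hy, hfy⟩ := exists_d_y (p := p) hn0 hx hd
      obtain ⟨D, hD1, hD2, hD3, hD4⟩ := decomp_of_order (p := p) hrp hy (V := Fin n → F) (a := a) (t := t) (by
        rw [hfr, hat, mul_comm]) (by rw [hfr]; exact h2)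
      refine ⟨D, mk D hD1 hD2 hD3, 1, fun j => ?_⟩
      rw [hfdef, hfy, Submodule.map_smul _ _ _ hd0, hD4]
      rfl
    · push Not at hpow
      obtain ⟨k, hk1, -⟩ := det_of_pow_eq hr.out hf hpow
      rw [hfr, hat] at hk1
      rcases (Nat.Prime.dvd_mul hr.out).mp (Dvd.intro _ hk1.symm) with h3 | h3
      · obtain ⟨D, hD1, hD2, hD3, hD4⟩ := decomp_of_nonpower_a (p := p) hrp hf hpow (V := Fin n → F) (a := a) (t := t) (by
          rw [hfr, hat, mul_comm]) h3
        refine ⟨D, mk D hD1 hD2 hD3, 1, fun j => ?_⟩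
        rw [hD4]
        rfl
      · obtain ⟨t', rfl⟩ := h3
        obtain ⟨D, hD1, hD2, hD3, σ, hσ⟩ := decomp_of_nonpower_t (p := p) hrp hf hpow (V := Fin n → F) (a := a) (t' := t') (by
          rw [hfr, hat]
          ring)
        exact ⟨D, mk D hD1 hD2 hD3, σ, hσ⟩

end backward

section count

variable {F : Type*} [Field F] [Fintype F] {n a t : ℕ}

/-- Permutations of the summands. -/
noncomputable def permAct : MulAction (Equiv.Perm (Fin t)) {D : Fin t → Submodule F (Fin n → F) // Cfsg.Geo.IsMDecomposition a D} where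
  smul σ D := ⟨fun j => D.1 (σ⁻¹ j), ⟨D.2.two_le, D.2.pos, fun j => D.2.finrank_eq _, D.2.indep.comp (σ⁻¹).injective, by
    rw [← D.2.iSup_eq_top]
    exact (σ⁻¹).iSup_comp⟩⟩
  one_smul D := by
    apply Subtype.ext
    funext j
    rfl
  mul_smul σ τ D := by
    apply Subtype.ext
    funext j
    rfl

lemma fact_dvd_card (ha : 0 < a) :
    t.factorial ∣ Nat.card {D : Fin t → Submodule F (Fin n → F) // Cfsg.Geo.IsMDecomposition a D} := by
  classical
  letI := permAct (F := F) (n := n) (a := a) (t := t)
  have hfree : ∀ D : {D : Fin t → Submodule F (Fin n → F) // Cfsg.Geo.IsMDecomposition a D},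
      MulAction.stabilizer (Equiv.Perm (Fin t)) D = ⊥ := by
    intro D
    rw [eq_bot_iff]
    intro σ hσ
    rw [Subgroup.mem_bot]
    have h1 : σ • D = D := hσ
    have hne : ∀ j, D.1 j ≠ ⊥ := by
      intro j h
      have := D.2.finrank_eq j
      rw [h, finrank_bot] at this
      omega
    have hinj := D.2.indep.injective hne
    ext j
    have h2 : D.1 (σ⁻¹ j) = D.1 j := congrFun (congrArg Subtype.val h1) j
    have h3 := hinj h2
    have h4 : σ (σ⁻¹ j) = σ j := congrArg σ h3
    have h5 : σ (σ⁻¹ j) = j := by simp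
    rw [h5] at h4
    rw [← h4]
    rfl
  rw [Nat.card_congr (MulAction.selfEquivOrbitsQuotientProd hfree), Nat.card_prod, Nat.card_perm, Nat.card_fin]
  exact dvd_mul_left _ _

/-- The linear equivalence of an invertible matrix. -/
noncomputable def glEquiv (g : Matrix.GeneralLinearGroup (Fin n) F) : (Fin n → F) ≃ₗ[F] (Fin n → F) :=
  LinearEquiv.ofLinearMap (Matrix.toLin' (g : Matrix (Fin n) (Fin n) F)) (Matrix.toLin' ((g⁻¹ : Matrix.GeneralLinearGroup (Fin n) F) : Matrix (Fin n) (Fin n) F))
    (by
      rw [← Matrix.toLin'_mul, ← Units.val_mul, mul_inv_cancel, Units.val_one, Matrix.toLin'_one])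
    (by
      rw [← Matrix.toLin'_mul, ← Units.val_mul, inv_mul_cancel, Units.val_one, Matrix.toLin'_one])

/-- The general linear group on decompositions. -/
noncomputable def glAct : MulAction (Matrix.GeneralLinearGroup (Fin n) F) {D : Fin t → Submodule F (Fin n → F) // Cfsg.Geo.IsMDecomposition a D} where
  smul g D := ⟨fun j => (D.1 j).map (glEquiv g : (Fin n → F) →ₗ[F] (Fin n → F)), ⟨D.2.two_le, D.2.pos,
    fun j => by
      rw [LinearEquiv.finrank_map_eq]
      exact D.2.finrank_eq j,
    D.2.indep.map_orderIso (Submodule.orderIsoMapComap (glEquiv g)),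
    by
      have h1 := (Submodule.orderIsoMapComap (glEquiv g)).map_iSup D.1
      rw [D.2.iSup_eq_top] at h1
      change (⨆ j, Submodule.orderIsoMapComap (glEquiv g) (D.1 j)) = ⊤
      rw [← h1]
      exact (Submodule.orderIsoMapComap (glEquiv g)).map_top⟩⟩
  one_smul D := by
    apply Subtype.ext
    funext j
    change (D.1 j).map (glEquiv (1 : Matrix.GeneralLinearGroup (Fin n) F) : (Fin n → F) →ₗ[F] (Fin n → F)) = D.1 j
    have h1 : (glEquiv (1 : Matrix.GeneralLinearGroup (Fin n) F) : (Fin n → F) →ₗ[F] (Fin n → F)) = LinearMap.id := by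
      apply LinearMap.ext
      intro v
      change Matrix.toLin' ((1 : Matrix.GeneralLinearGroup (Fin n) F) : Matrix (Fin n) (Fin n) F) v = v
      simp
    rw [h1, Submodule.map_id]
  mul_smul g h D := by
    apply Subtype.ext
    funext j
    change (D.1 j).map (glEquiv (g * h) : (Fin n → F) →ₗ[F] (Fin n → F)) =
      ((D.1 j).map (glEquiv h : (Fin n → F) →ₗ[F] (Fin n → F))).map (glEquiv g : (Fin n → F) →ₗ[F] (Fin n → F))
    rw [← Submodule.map_comp]
    congr 1
    apply LinearMap.ext
    intro v
    change Matrix.toLin' (((g * h : Matrix.GeneralLinearGroup (Fin n) F)) : Matrix (Fin n) (Fin n) F) v =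
      Matrix.toLin' (g : Matrix (Fin n) (Fin n) F) (Matrix.toLin' (h : Matrix (Fin n) (Fin n) F) v)
    rw [Units.val_mul, Matrix.toLin'_mul]
    rfl

/-- Any two decompositions are conjugate. -/
lemma gl_transitive (D D' : {D : Fin t → Submodule F (Fin n → F) // Cfsg.Geo.IsMDecomposition a D}) :
    ∃ g : Matrix.GeneralLinearGroup (Fin n) F, ∀ j, (D.1 j).map (glEquiv g : (Fin n → F) →ₗ[F] (Fin n → F)) = D'.1 j := by
  classical
  have h1 := DirectSum.isInternal_submodule_of_iSupIndep_of_iSup_eq_top D.2.indep D.2.iSup_eq_top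
  have h2 := DirectSum.isInternal_submodule_of_iSupIndep_of_iSup_eq_top D'.2.indep D'.2.iSup_eq_top
  let b : ∀ j, Basis (Fin a) F (D.1 j) := fun j => Module.finBasisOfFinrankEq F _ (D.2.finrank_eq j)
  let b' : ∀ j, Basis (Fin a) F (D'.1 j) := fun j => Module.finBasisOfFinrankEq F _ (D'.2.finrank_eq j)
  let B := h1.collectedBasis b
  let B' := h2.collectedBasis b'
  let e : (Fin n → F) ≃ₗ[F] (Fin n → F) := B.equiv B' (Equiv.refl _)
  have he : ∀ j l, e (b j l : Fin n → F) = (b' j l : Fin n → F) := by
    intro j l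
    have h3 : e (B ⟨j, l⟩) = B' ⟨j, l⟩ := by
      simp [e]
    simpa [B, B'] using h3
  let g : Matrix.GeneralLinearGroup (Fin n) F := ⟨LinearMap.toMatrix' (e : (Fin n → F) →ₗ[F] (Fin n → F)), LinearMap.toMatrix' (e.symm : (Fin n → F) →ₗ[F] (Fin n → F)), by
      rw [← LinearMap.toMatrix'_comp]
      simp, by
      rw [← LinearMap.toMatrix'_comp]
      simp⟩
  refine ⟨g, fun j => ?_⟩
  have hg : (glEquiv g : (Fin n → F) →ₗ[F] (Fin n → F)) = e := by
    change Matrix.toLin' (LinearMap.toMatrix' (e : (Fin n → F) →ₗ[F] (Fin n → F))) = _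
    rw [Matrix.toLin'_toMatrix']
  rw [hg]
  apply Submodule.eq_of_le_of_finrank_eq
  · rintro _ ⟨v, hv, rfl⟩
    have h3 := (b j).sum_repr ⟨v, hv⟩
    have h4 : v = ∑ l, ((b j).repr ⟨v, hv⟩ l) • (b j l : Fin n → F) := by
      have h5 := congrArg Subtype.val h3
      simp only [AddSubmonoidClass.coe_finsetSum, SetLike.val_smul] at h5
      exact h5.symm
    change e v ∈ _
    rw [h4, map_sum]
    apply Submodule.sum_mem
    intro l _
    rw [map_smul, he]
    exact Submodule.smul_mem _ _ (b' j l).2
  · have h3 : finrank F ((D.1 j).map (e : (Fin n → F) →ₗ[F] (Fin n → F))) = finrank F (D.1 j) := LinearEquiv.finrank_map_eq e _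
    rw [h3, D.2.finrank_eq, D'.2.finrank_eq]

/-- The number of decompositions divides the order of the general linear group. -/
lemma card_dvd_GL (hat : n = a * t) (ha : 0 < a) (ht : 2 ≤ t) :
    Nat.card {D : Fin t → Submodule F (Fin n → F) // Cfsg.Geo.IsMDecomposition a D} ∣
      Nat.card (Matrix.GeneralLinearGroup (Fin n) F) := by
  classical
  subst hat
  -- a decomposition exists
  let part : Fin (a * t) → Fin t := fun i => (finProdFinEquiv.symm i).2
  obtain ⟨D, hD1, hD2, hD3, -⟩ := decomp_of_monomial (Pi.basisFun F (Fin (a * t))) (LinearMap.id) Function.injective_id id id part (fun i => rfl)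
    (fun i => ⟨1, by simp⟩) (a := a) (by
      intro g0
      rw [Nat.card_congr (?_ : {i // part i = g0} ≃ Fin a)]
      · simp
      · refine
          { toFun := fun i => (finProdFinEquiv.symm i.1).1
            invFun := fun x => ⟨finProdFinEquiv (x, g0), by
              change (finProdFinEquiv.symm (finProdFinEquiv (x, g0))).2 = g0
              rw [Equiv.symm_apply_apply]⟩
            left_inv := ?_
            right_inv := ?_ }
        · rintro ⟨j, h⟩
          subst h
          apply Subtype.ext
          change finProdFinEquiv ((finProdFinEquiv.symm j).1, (finProdFinEquiv.symm j).2) = j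
          exact finProdFinEquiv.apply_symm_apply j
        · intro x
          simp)
  let D₀ : {D : Fin t → Submodule F (Fin (a * t) → F) // Cfsg.Geo.IsMDecomposition a D} := ⟨D, ⟨ht, ha, hD3, hD1, hD2⟩⟩
  letI := glAct (F := F) (n := a * t) (a := a) (t := t)
  haveI : MulAction.IsPretransitive (Matrix.GeneralLinearGroup (Fin (a * t)) F)
      {D : Fin t → Submodule F (Fin (a * t) → F) // Cfsg.Geo.IsMDecomposition a D} := by
    constructor
    intro D D'
    obtain ⟨g, hg⟩ := gl_transitive D D'
    refine ⟨g, ?_⟩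
    apply Subtype.ext
    funext j
    exact hg j
  rw [← MulAction.index_stabilizer_of_transitive (Matrix.GeneralLinearGroup (Fin (a * t)) F) D₀]
  exact Subgroup.index_dvd_card _

variable {p r : ℕ} [Fact p.Prime] [CharP F p] [hr : Fact r.Prime]

/-- The order of `q` modulo a prime dividing the number of unordered decompositions. -/
theorem order_le_of_dvd (hrp : r ≠ p) (hat : n = a * t) (ha : 0 < a) (ht : 2 ≤ t)
    (hdvd : r ∣ Nat.card {D : Fin t → Submodule F (Fin n → F) // Cfsg.Geo.IsMDecomposition a D} / t.factorial) :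
    1 ≤ orderOf ((Fintype.card F : ℕ) : ZMod r) ∧ orderOf ((Fintype.card F : ℕ) : ZMod r) ≤ n := by
  classical
  have hq1 : 1 ≤ Fintype.card F := Fintype.card_pos
  have h1 : r ∣ Nat.card (Matrix.GeneralLinearGroup (Fin n) F) :=
    (hdvd.trans (Nat.div_dvd_of_dvd (fact_dvd_card ha))).trans (card_dvd_GL hat ha ht)
  rw [Matrix.card_GL_field] at h1
  obtain ⟨i, -, hi⟩ := (Prime.dvd_finsetProd_iff hr.out.prime _).mp h1
  have hin : (i : ℕ) < n := i.2
  have hqp : ¬ r ∣ Fintype.card F := by
    intro h2
    obtain ⟨k, -, hk⟩ := FiniteField.card F p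
    rw [hk] at h2
    have h6 := hr.out.dvd_of_dvd_pow h2
    exact hrp ((Nat.prime_dvd_prime_iff_eq hr.out (Fact.out)).mp h6)
  have h2 : Fintype.card F ^ n - Fintype.card F ^ (i : ℕ) = Fintype.card F ^ (i : ℕ) * (Fintype.card F ^ (n - i) - 1) := by
    rw [Nat.mul_sub, mul_one, ← pow_add]
    congr 2
    omega
  rw [h2] at hi
  rcases (Nat.Prime.dvd_mul hr.out).mp hi with h3 | h3
  · exact absurd (hr.out.dvd_of_dvd_pow h3) hqp
  · have h4 := (dvd_pow_sub_one_iff hq1).mp h3
    exact ⟨Nat.pos_of_dvd_of_pos h4 (by omega), (Nat.le_of_dvd (by omega) h4).trans (by omega)⟩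

end count

end Cfsg.Agent.Lib.ElusiveDecomp
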