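import Mathlib
import Cfsg.Agent.Lib.CycBlock

/-!
# Cyclotomic polynomials over finite fields, when `q` is a primitive root
-/

set_option autoImplicit false

namespace Cfsg.Agent.Lib.PrimOrder

open Matrix Polynomial Module

variable {F : Type*} [Field F]

/-- `(n : F) ≠ 0` for a prime `n` different from the characteristic. -/
theorem natCast_ne_zero_of_ne {p n : ℕ} [CharP F p] (hn : n.Prime) (hp : p.Prime) (hnp : n ≠ p) : (n : F) ≠ 0 := by
  intro h
  rw [CharP.cast_eq_zero_iff F p] at h
  exact hnp ((Nat.prime_dvd_prime_iff_eq hp hn).mp h).symm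

theorem not_dvd_card [Fintype F] {p n : ℕ} [Fact p.Prime] [CharP F p] (hn : n.Prime) (hnp : n ≠ p) : ¬ n ∣ Fintype.card F := by
  intro h
  obtain ⟨f, -, hf⟩ := FiniteField.card F p
  rw [hf] at h
  exact hnp ((Nat.prime_dvd_prime_iff_eq hn (Fact.out : p.Prime)).mp (hn.dvd_of_dvd_pow h))

theorem natDegree_cyc (n : ℕ) [Fact n.Prime] : (cyclotomic n F).natDegree = n - 1 := by
  rw [natDegree_cyclotomic, Nat.totient_prime Fact.out]

theorem coprime_cyc (n : ℕ) [Fact n.Prime] (hn : (n : F) ≠ 0) : IsCoprime (X - C 1 : F[X]) (cyclotomic n F) := by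
  rw [(irreducible_X_sub_C (1 : F)).coprime_iff_not_dvd, dvd_iff_isRoot]
  intro h
  rw [IsRoot, eval_one_cyclotomic_prime] at h
  exact hn h

theorem mul_cyc (n : ℕ) [Fact n.Prime] : (X - C 1 : F[X]) * cyclotomic n F = X ^ n - 1 := by
  rw [mul_comm, ← cyclotomic_prime_mul_X_sub_one F n]
  simp

/-- If `q` is a primitive root modulo the prime `n`, then the `n`-th cyclotomic polynomial is irreducible. -/
theorem irreducible_cyc [Fintype F] {p : ℕ} [Fact p.Prime] [CharP F p] (n : ℕ) [Fact n.Prime]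
    (hnp : n ≠ p) (hord : orderOf ((Fintype.card F : ℕ) : ZMod n) = n - 1) : Irreducible (cyclotomic n F) := by
  classical
  have hn : n.Prime := Fact.out
  have hn2 : 2 ≤ n := hn.two_le
  have hcast : (n : F) ≠ 0 := natCast_ne_zero_of_ne hn Fact.out hnp
  have hdeg := natDegree_cyc (F := F) n
  have hne0 : cyclotomic n F ≠ 0 := cyclotomic_ne_zero n F
  obtain ⟨g, hg, hdvd⟩ := Polynomial.exists_irreducible_of_natDegree_ne_zero (f := cyclotomic n F) (by omega)
  haveI : Fact (Irreducible g) := ⟨hg⟩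
  let L := AdjoinRoot g
  have hg0 : g ≠ 0 := hg.ne_zero
  haveI : Module.Finite F L := (AdjoinRoot.powerBasis hg0).finite
  haveI : Finite L := Module.finite_of_finite F
  haveI : Fintype L := Fintype.ofFinite L
  have hfin : finrank F L = g.natDegree := by
    rw [(AdjoinRoot.powerBasis hg0).finrank, AdjoinRoot.powerBasis_dim]
  have hcard : Fintype.card L = Fintype.card F ^ g.natDegree := by
    rw [← hfin]
    exact Module.card_eq_pow_finrank
  set ζ : L := AdjoinRoot.root g with hζ
  have hgζ : aeval ζ g = 0 := by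
    rw [hζ]
    exact AdjoinRoot.aeval_eq g ▸ (by simp)
  have hΦζ : aeval ζ (cyclotomic n F) = 0 := by
    obtain ⟨h, hh⟩ := hdvd
    rw [hh, map_mul, hgζ, zero_mul]
  have hζn : ζ ^ n = 1 := by
    have := congrArg (aeval ζ) (mul_cyc (F := F) n)
    rw [map_mul, hΦζ, mul_zero] at this
    simp only [map_sub, map_pow, aeval_X, map_one] at this
    exact (sub_eq_zero.mp this.symm)
  have hζ1 : ζ ≠ 1 := by
    intro h
    rw [h] at hΦζ
    have h2 : eval 1 (cyclotomic n F) = 0 := by
      have h3 := hΦζ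
      rw [← map_one (algebraMap F L), aeval_algebraMap_apply] at h3
      exact (map_eq_zero_iff (algebraMap F L) (algebraMap F L).injective).mp h3
    rw [eval_one_cyclotomic_prime] at h2
    exact hcast h2
  have hζ0 : ζ ≠ 0 := by
    intro h
    rw [h, zero_pow hn.ne_zero] at hζn
    exact zero_ne_one hζn
  have hordζ : orderOf ζ = n := orderOf_eq_prime hζn hζ1
  have hpow : ζ ^ (Fintype.card L - 1) = 1 := FiniteField.pow_card_sub_one_eq_one ζ hζ0
  have hdv : n ∣ Fintype.card L - 1 := by
    rw [← hordζ]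
    exact orderOf_dvd_of_pow_eq_one hpow
  have hq1 : 1 ≤ Fintype.card L := Fintype.card_pos
  have hz : ((Fintype.card F : ℕ) : ZMod n) ^ g.natDegree = 1 := by
    have h1 : ((Fintype.card L - 1 : ℕ) : ZMod n) = 0 := (ZMod.natCast_eq_zero_iff _ _).mpr hdv
    rw [Nat.cast_sub hq1, sub_eq_zero, hcard] at h1
    simpa using h1
  have hdv2 := orderOf_dvd_of_pow_eq_one hz
  rw [hord] at hdv2
  have hle := Polynomial.natDegree_le_of_dvd hdvd hne0
  rw [hdeg] at hle
  have hgdeg : g.natDegree ≠ 0 := by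
    intro h
    exact hg.natDegree_pos.ne' h
  have hd : g.natDegree = n - 1 := le_antisymm hle (Nat.le_of_dvd (Nat.pos_of_ne_zero hgdeg) hdv2)
  exact (Polynomial.associated_of_dvd_of_natDegree_le hdvd hne0 (by omega)).irreducible hg

theorem aeval_conj {ι : Type*} [Fintype ι] [DecidableEq ι] (u : GL ι F) (A : Matrix ι ι F) (p : F[X]) :
    aeval (((u⁻¹ : GL ι F) : Matrix ι ι F) * A * (u : Matrix ι ι F)) p =
      ((u⁻¹ : GL ι F) : Matrix ι ι F) * aeval A p * (u : Matrix ι ι F) := by
  induction p using Polynomial.induction_on with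
  | C a =>
    simp only [aeval_C, Algebra.algebraMap_eq_smul_one, Matrix.mul_smul, Matrix.smul_mul, Matrix.mul_one, Units.inv_mul]
  | add p q hp hq =>
    simp only [map_add, hp, hq, Matrix.mul_add, Matrix.add_mul]
  | monomial n a ih =>
    have e : (C a * X ^ (n + 1) : F[X]) = (C a * X ^ n) * X := by ring
    rw [e, map_mul (aeval _), map_mul (aeval A), ih, aeval_X, aeval_X]
    calc _ = ((u⁻¹ : GL ι F) : Matrix ι ι F) * aeval A (C a * X ^ n) * ((u : Matrix ι ι F) * ((u⁻¹ : GL ι F) : Matrix ι ι F)) * A * (u : Matrix ι ι F) := by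
          simp only [Matrix.mul_assoc]
      _ = _ := by rw [Units.mul_inv, Matrix.mul_one]; simp only [Matrix.mul_assoc]

theorem aeval_fromBlocks {m k : Type*} [Fintype m] [Fintype k] [DecidableEq m] [DecidableEq k]
    (A : Matrix m m F) (B : Matrix k k F) (p : F[X]) :
    aeval (Matrix.fromBlocks A 0 0 B) p = Matrix.fromBlocks (aeval A p) 0 0 (aeval B p) := by
  induction p using Polynomial.induction_on with
  | C a =>
    simp only [aeval_C, Algebra.algebraMap_eq_smul_one]
    rw [← Matrix.fromBlocks_one, Matrix.fromBlocks_smul]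
    simp
  | add p q hp hq =>
    simp only [map_add, hp, hq, Matrix.fromBlocks_add, add_zero]
  | monomial n a ih =>
    have e : (C a * X ^ (n + 1) : F[X]) = (C a * X ^ n) * X := by ring
    rw [e, map_mul (aeval _), map_mul (aeval A), map_mul (aeval B), ih, aeval_X, aeval_X, aeval_X, Matrix.fromBlocks_multiply]
    simp

end Cfsg.Agent.Lib.PrimOrder
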