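import Mathlib

/-!
# Matrices whose square is scalar: centralizers with prescribed determinant, and the equation
`w ^ n = -1` in a finite field
-/

set_option autoImplicit false

namespace Cfsg.Agent.Lib.SqScalar

open Matrix

variable {ι : Type*} [Fintype ι] [DecidableEq ι] {F : Type*} [Field F]

theorem exists_not_eigen (x : Matrix ι ι F) (hx : ∀ z : F, x ≠ z • (1 : Matrix ι ι F)) :
    ∃ v : ι → F, ∀ c : F, x *ᵥ v ≠ c • v := by
  by_contra h
  push_neg at h
  obtain ⟨a, ha⟩ := LinearMap.exists_eq_smul_id_of_forall_notLinearIndependent (f := Matrix.toLin' x)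
    (fun v hv => by
      obtain ⟨c, hc⟩ := h v
      rw [LinearIndependent.pair_iff] at hv
      have := hv c (-1) (by
        show c • v + (-1 : F) • (x *ᵥ v) = 0
        rw [hc]; simp)
      simp at this)
  apply hx a
  apply Matrix.toLin'.injective
  rw [ha]
  ext v i
  simp [Matrix.toLin'_apply]

theorem exists_row (x : Matrix ι ι F) (v : ι → F) (hv : ∀ c : F, x *ᵥ v ≠ c • v) :
    ∃ l : ι → F, l ⬝ᵥ v = 0 ∧ l ⬝ᵥ (x *ᵥ v) = 1 := by
  have hnot : x *ᵥ v ∉ Submodule.span F {v} := by
    intro h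
    obtain ⟨c, hc⟩ := Submodule.mem_span_singleton.mp h
    exact hv c hc.symm
  obtain ⟨f, hf, hfk⟩ := Submodule.exists_le_ker_of_notMem hnot
  have hfv : f v = 0 := hfk (Submodule.mem_span_singleton_self v)
  have key : ∀ u : ι → F, (fun i => f (Pi.single i 1)) ⬝ᵥ u = f u := by
    intro u
    have : u = ∑ i, u i • (Pi.single i 1 : ι → F) := by
      ext j
      simp [Finset.sum_apply, Pi.single_apply]
    conv_rhs => rw [this, map_sum]
    simp [dotProduct, mul_comm]
  refine ⟨(f (x *ᵥ v))⁻¹ • (fun i => f (Pi.single i 1)), ?_, ?_⟩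
  · rw [smul_dotProduct, key, hfv, smul_zero]
  · rw [smul_dotProduct, key, smul_eq_mul, inv_mul_cancel₀ hf]

/-- A non-scalar matrix with scalar square has commuting matrices of any prescribed "norm" determinant. -/
theorem exists_comm_det (x : Matrix ι ι F) (z : F) (hx2 : x * x = z • (1 : Matrix ι ι F))
    (hns : ∀ c : F, x ≠ c • (1 : Matrix ι ι F)) (α β : F) :
    ∃ D : Matrix ι ι F, D * x = x * D ∧ D.det = α ^ 2 - z * β ^ 2 := by
  obtain ⟨v, hv⟩ := exists_not_eigen x hns
  obtain ⟨l, hl0, hl1⟩ := exists_row x v hv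
  set lx : ι → F := l ᵥ* x with hlx
  have hxxv : x *ᵥ (x *ᵥ v) = z • v := by
    rw [Matrix.mulVec_mulVec, hx2, Matrix.smul_mulVec, Matrix.one_mulVec]
  have hlxx : lx ᵥ* x = z • l := by
    rw [hlx, Matrix.vecMul_vecMul, hx2, Matrix.vecMul_smul, Matrix.vecMul_one]
  have hlxv : lx ⬝ᵥ v = 1 := by
    rw [hlx, ← Matrix.dotProduct_mulVec, hl1]
  have hlxxv : lx ⬝ᵥ (x *ᵥ v) = 0 := by
    rw [hlx, ← Matrix.dotProduct_mulVec, hxxv, dotProduct_smul, hl0, smul_zero]
  set l1 : ι → F := (α - 1) • lx + (β * z) • l with hl1def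
  set l2 : ι → F := (α - 1) • l + β • lx with hl2def
  set xv : ι → F := x *ᵥ v with hxv
  refine ⟨1 + vecMulVec v l1 + vecMulVec xv l2, ?_, ?_⟩
  · have h1 : l1 ᵥ* x = z • l2 := by
      rw [hl1def, Matrix.add_vecMul, Matrix.smul_vecMul, Matrix.smul_vecMul, hlxx, hl2def]
      ext i
      simp only [Pi.add_apply, Pi.smul_apply, smul_eq_mul, ← hlx]
      ring
    have h2 : l2 ᵥ* x = l1 := by
      rw [hl2def, Matrix.add_vecMul, Matrix.smul_vecMul, Matrix.smul_vecMul, hlxx, hl1def, ← hlx]
      ext i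
      simp only [Pi.add_apply, Pi.smul_apply, smul_eq_mul]
      ring
    have h3 : vecMulVec (z • v) l2 = vecMulVec v (z • l2) := by
      ext i j
      simp [vecMulVec_apply]
      ring
    rw [Matrix.add_mul, Matrix.add_mul, Matrix.mul_add, Matrix.mul_add, Matrix.one_mul, Matrix.mul_one,
      Matrix.vecMulVec_mul, Matrix.vecMulVec_mul, Matrix.mul_vecMulVec, Matrix.mul_vecMulVec, h1, h2, hxxv, h3, ← hxv]
    abel
  · let U : Matrix ι (Fin 2) F := Matrix.of (fun i k => ![v i, xv i] k)
    let W : Matrix (Fin 2) ι F := Matrix.of ![l1, l2]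
    have hUW : U * W = vecMulVec v l1 + vecMulVec xv l2 := by
      ext i j
      simp [U, W, Matrix.mul_apply, Fin.sum_univ_two, vecMulVec_apply]
    rw [add_assoc, ← hUW, Matrix.det_one_add_mul_comm]
    have hd1 : l1 ⬝ᵥ v = α - 1 := by
      rw [hl1def, add_dotProduct, smul_dotProduct, smul_dotProduct, hlxv, hl0]
      simp
    have hd2 : l1 ⬝ᵥ xv = β * z := by
      rw [hl1def, add_dotProduct, smul_dotProduct, smul_dotProduct, hlxxv, hl1]
      simp
    have hd3 : l2 ⬝ᵥ v = β := by
      rw [hl2def, add_dotProduct, smul_dotProduct, smul_dotProduct, hl0, hlxv]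
      simp
    have hd4 : l2 ⬝ᵥ xv = α - 1 := by
      rw [hl2def, add_dotProduct, smul_dotProduct, smul_dotProduct, hl1, hlxxv]
      simp
    have hWU : W * U = !![α - 1, β * z; β, α - 1] := by
      ext i k
      fin_cases i <;> fin_cases k
      · show (W * U) 0 0 = α - 1
        rw [← hd1]
        simp [Matrix.mul_apply, W, U, dotProduct]
      · show (W * U) 0 1 = β * z
        rw [← hd2]
        simp [Matrix.mul_apply, W, U, dotProduct]
      · show (W * U) 1 0 = β
        rw [← hd3]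
        simp [Matrix.mul_apply, W, U, dotProduct]
      · show (W * U) 1 1 = α - 1
        rw [← hd4]
        simp [Matrix.mul_apply, W, U, dotProduct]
    rw [hWU, Matrix.det_fin_two]
    simp [Matrix.add_apply, Matrix.one_apply]
    ring

section finite

variable [Fintype F]

theorem exists_norm_eq (z d : F) (hz : z ≠ 0) : ∃ α β : F, α ^ 2 - z * β ^ 2 = d := by
  classical
  by_cases hc : ringChar F = 2
  · obtain ⟨s, hs⟩ := FiniteField.isSquare_of_char_two hc d
    exact ⟨s, 0, by rw [hs]; ring⟩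
  · have hodd : Fintype.card F % 2 = 1 := FiniteField.odd_card_of_char_ne_two hc
    have hf : (Polynomial.X ^ 2 : Polynomial F).degree = 2 := by simp
    have hg : (Polynomial.C (-z) * Polynomial.X ^ 2 - Polynomial.C d : Polynomial F).degree = 2 := by
      have : -z ≠ 0 := neg_ne_zero.mpr hz
      compute_degree!
    obtain ⟨u, v, huv⟩ := FiniteField.exists_root_sum_quadratic hf hg hodd
    simp at huv
    exact ⟨u, v, by linear_combination huv⟩

/-- A commuting matrix with any prescribed non-zero determinant. -/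
theorem exists_comm_det_eq (x : Matrix ι ι F) (z : F) (hz : z ≠ 0) (hx2 : x * x = z • (1 : Matrix ι ι F))
    (hns : ∀ c : F, x ≠ c • (1 : Matrix ι ι F)) (d : F) :
    ∃ D : Matrix ι ι F, D * x = x * D ∧ D.det = d := by
  obtain ⟨α, β, h⟩ := exists_norm_eq z d hz
  obtain ⟨D, hD, hd⟩ := exists_comm_det x z hx2 hns α β
  exact ⟨D, hD, hd.trans h⟩

/-- Passing from a conjugating element of `GL` to one of determinant `1`. -/
theorem exists_conj_fix (x P : GL ι F) (z : F) (hx2 : (x : Matrix ι ι F) * x = z • (1 : Matrix ι ι F))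
    (hns : ∀ c : F, (x : Matrix ι ι F) ≠ c • (1 : Matrix ι ι F)) :
    ∃ P' : GL ι F, (P' : Matrix ι ι F).det = 1 ∧ P'⁻¹ * x * P' = P⁻¹ * x * P := by
  have hz : z ≠ 0 := by
    rintro rfl
    have hd := congrArg Matrix.det hx2
    rw [zero_smul, Matrix.det_mul] at hd
    have hdet : (x : Matrix ι ι F).det ≠ 0 := (Matrix.isUnits_det_units x).ne_zero
    have hne : Nonempty ι := by
      by_contra hne
      rw [not_nonempty_iff] at hne
      apply hns 0
      ext i
      exact hne.elim i
    haveI := hne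
    rw [Matrix.det_zero] at hd
    exact mul_ne_zero hdet hdet hd
  have hPd : (P : Matrix ι ι F).det ≠ 0 := (Matrix.isUnits_det_units P).ne_zero
  obtain ⟨D, hD, hd⟩ := exists_comm_det_eq (x : Matrix ι ι F) z hz hx2 hns ((P : Matrix ι ι F).det)⁻¹
  have hDne : D.det ≠ 0 := by rw [hd]; exact inv_ne_zero hPd
  let D' : GL ι F := Matrix.GeneralLinearGroup.mkOfDetNeZero D hDne
  have hD' : (D' : Matrix ι ι F) = D := rfl
  have hcomm : D' * x = x * D' := by
    apply Units.ext
    simpa [hD'] using hD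
  refine ⟨D' * P, ?_, ?_⟩
  · rw [Units.val_mul, Matrix.det_mul, hD', hd, inv_mul_cancel₀ hPd]
  · have : D'⁻¹ * x * D' = x := by
      rw [mul_assoc, ← hcomm, inv_mul_cancel_left]
    rw [_root_.mul_inv_rev]
    calc P⁻¹ * D'⁻¹ * x * (D' * P) = P⁻¹ * (D'⁻¹ * x * D') * P := by group
      _ = _ := by rw [this]

variable {q : ℕ}

theorem neg_one_eq_gen_pow (hq : Fintype.card F = q) (hodd : Odd q) (g : Fˣ) (hg : ∀ x, x ∈ Subgroup.zpowers g) :
    (g : F) ^ ((q - 1) / 2) = -1 := by
  classical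
  have hcard : Nat.card Fˣ = q - 1 := by
    rw [Nat.card_eq_fintype_card, Fintype.card_units, hq]
  have horder : orderOf g = q - 1 := by
    rw [← hcard, orderOf_eq_card_of_forall_mem_zpowers hg]
  obtain ⟨k, rfl⟩ := hodd
  have hk : (2 * k + 1 - 1) / 2 = k := by omega
  have h1 : 2 * k + 1 - 1 = 2 * k := by omega
  rw [hk]
  rw [h1] at horder
  have h2 : (g ^ k) ^ 2 = 1 := by
    rw [← pow_mul, mul_comm, ← horder, pow_orderOf_eq_one]
  have hk0 : k ≠ 0 := by
    rintro rfl
    have := Fintype.one_lt_card (α := F)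
    omega
  have h3 : g ^ k ≠ 1 := by
    intro h
    have := orderOf_dvd_of_pow_eq_one h
    rw [horder] at this
    have := Nat.le_of_dvd (Nat.pos_of_ne_zero hk0) this
    omega
  have h4 : (((g ^ k : Fˣ) : F) - 1) * (((g ^ k : Fˣ) : F) + 1) = 0 := by
    have : (((g ^ k) ^ 2 : Fˣ) : F) = 1 := by rw [h2]; rfl
    rw [Units.val_pow_eq_pow_val] at this
    linear_combination this
  rcases mul_eq_zero.mp h4 with h | h
  · exfalso
    apply h3
    apply Units.ext
    simpa [sub_eq_zero] using h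
  · have : ((g ^ k : Fˣ) : F) = -1 := by linear_combination h
    simpa using this

theorem padicValNat_two_pow_mul_odd (e m : ℕ) (hm : Odd m) : padicValNat 2 (2 ^ e * m) = e := by
  have hm0 : m ≠ 0 := hm.pos.ne'
  rw [padicValNat.mul (by positivity) hm0, padicValNat.prime_pow,
    padicValNat.eq_zero_of_not_dvd (by rwa [← even_iff_two_dvd, Nat.not_even_iff_odd]), add_zero]

theorem pow_eq_neg_one_iff (hq : Fintype.card F = q) (hodd : Odd q) (n : ℕ) (hn : n ≠ 0) :
    (∃ w : F, w ^ n = -1) ↔ padicValNat 2 n < padicValNat 2 (q - 1) := by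
  classical
  have hq2 : 2 ≤ q := by
    have := Fintype.one_lt_card (α := F)
    omega
  have hq3 : q - 1 ≠ 0 := by omega
  obtain ⟨f, n', hn', hnn⟩ := Nat.exists_eq_two_pow_mul_odd hn
  obtain ⟨e, m, hm, hqq⟩ := Nat.exists_eq_two_pow_mul_odd hq3
  rw [hnn, hqq, padicValNat_two_pow_mul_odd _ _ hn', padicValNat_two_pow_mul_odd _ _ hm]
  have h2 : (2 : F) ≠ 0 := by
    apply Ring.two_ne_zero
    intro h
    have := FiniteField.even_card_iff_char_two.mp h
    rw [hq] at this
    rcases hodd with ⟨k, rfl⟩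
    omega
  constructor
  · rintro ⟨w, hw⟩
    by_contra hfe
    push_neg at hfe
    have hw0 : w ≠ 0 := by
      rintro rfl
      rw [zero_pow (by rw [← hnn]; exact hn)] at hw
      have : (1 : F) = 0 := by linear_combination hw
      exact one_ne_zero this
    have h1 : (w ^ 2 ^ e) ^ m = 1 := by
      rw [← pow_mul, ← hqq, ← hq]
      exact FiniteField.pow_card_sub_one_eq_one w hw0
    have h3 : (w ^ 2 ^ e) ^ (2 ^ (f - e) * n') = -1 := by
      rw [← pow_mul, ← hw]
      congr 1
      have : f = e + (f - e) := by omega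
      conv_rhs => rw [this, pow_add]
      ring
    have h4 : (-1 : F) ^ m = 1 := by
      rw [← h3, ← pow_mul, mul_comm, pow_mul, h1, one_pow]
    rw [hm.neg_one_pow] at h4
    apply h2
    linear_combination -h4
  · intro hfe
    obtain ⟨g, hg⟩ := IsCyclic.exists_generator (α := Fˣ)
    have hneg := neg_one_eq_gen_pow hq hodd g hg
    have he : (q - 1) / 2 = 2 ^ (e - 1) * m := by
      rw [hqq]
      have : e = (e - 1) + 1 := by omega
      conv_lhs => rw [this, pow_succ]
      rw [show 2 ^ (e - 1) * 2 * m = 2 * (2 ^ (e - 1) * m) by ring]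
      simp
    rw [he] at hneg
    have hg1 : (g : F) ^ (2 ^ e * m) = 1 := by
      rw [← hqq, ← hq]
      exact FiniteField.pow_card_sub_one_eq_one _ g.ne_zero
    obtain ⟨u, hu⟩ := hn'
    refine ⟨(g : F) ^ (2 ^ (e - 1 - f) * m), ?_⟩
    rw [← pow_mul]
    have h3 : 2 ^ (e - 1 - f) * m * (2 ^ f * n') = 2 ^ (e - 1) * m + 2 ^ e * m * u := by
      have h4 : 2 ^ (e - 1 - f) * 2 ^ f = 2 ^ (e - 1) := by
        rw [← pow_add]
        congr 1
        omega
      have h5 : 2 ^ e = 2 ^ (e - 1) * 2 := by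
        rw [← pow_succ]
        congr 1
        omega
      calc 2 ^ (e - 1 - f) * m * (2 ^ f * n') = (2 ^ (e - 1 - f) * 2 ^ f) * m * n' := by ring
        _ = 2 ^ (e - 1) * m * (2 * u + 1) := by rw [h4, hu]
        _ = _ := by rw [h5]; ring
    rw [h3, pow_add, hneg, pow_mul, hg1, one_pow, mul_one]

end finite

end Cfsg.Agent.Lib.SqScalar
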