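import Mathlib
import Cfsg.Prelude.Def_GeometricClasses
import Cfsg.Agent.Lib.SympEquiv
import Cfsg.Agent.Lib.SympBasis
import Cfsg.Agent.Lib.SympForm
import Cfsg.Agent.Lib.SqScalar
import Cfsg.Agent.Lib.MatConj
import Cfsg.Agent.Lib.SympWitt

/-!
# Symplectic elements squaring to `±1`: conjugacy in `Sp`
-/

set_option autoImplicit false
set_option linter.unusedSimpArgs false
set_option linter.unusedVariables false
set_option linter.unusedSectionVars false

namespace Cfsg.Agent.Lib.SpInvol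

open Matrix Module Cfsg Cfsg.Geo
open Cfsg.Agent.Lib.SympForm

universe u

variable {F : Type*} [Field F]

section abstractForms

variable {V : Type u} [AddCommGroup V] [Module F V] [FiniteDimensional F V]

/-- A space with a nondegenerate alternating form has even dimension. -/
theorem even_finrank (B : V →ₗ[F] V →ₗ[F] F) (halt : ∀ v, B v v = 0) (hnd : ∀ v, (∀ w, B v w = 0) → v = 0) :
    ∃ m, finrank F V = 2 * m := by
  obtain ⟨m, s, -⟩ := Cfsg.Agent.Lib.SympBasis.exists_symp_basis B halt hnd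
  refine ⟨m, ?_⟩
  rw [Module.finrank_eq_card_basis s]
  simp

theorem exists_add_of_compl {U₁ U₂ : Submodule F V} (hc : IsCompl U₁ U₂) (v : V) : ∃ a ∈ U₁, ∃ b ∈ U₂, a + b = v :=
  Submodule.mem_sup.mp (by rw [hc.sup_eq_top]; trivial)

/-- Gluing isometries along orthogonal decompositions. -/
theorem exists_glue (B : V →ₗ[F] V →ₗ[F] F) {U₁ U₂ U₁' U₂' : Submodule F V} (hc : IsCompl U₁ U₂) (hc' : IsCompl U₁' U₂')
    (h12 : ∀ a ∈ U₁, ∀ b ∈ U₂, B a b = 0 ∧ B b a = 0) (h12' : ∀ a ∈ U₁', ∀ b ∈ U₂', B a b = 0 ∧ B b a = 0)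
    (e₁ : U₁ ≃ₗ[F] U₁') (e₂ : U₂ ≃ₗ[F] U₂')
    (he₁ : ∀ a a', B (e₁ a) (e₁ a') = B a a') (he₂ : ∀ a a', B (e₂ a) (e₂ a') = B a a') :
    ∃ g : V ≃ₗ[F] V, (∀ (a : U₁) (b : U₂), g (a + b) = (e₁ a : V) + (e₂ b : V)) ∧ ∀ u v, B (g u) (g v) = B u v := by
  classical
  let g : V ≃ₗ[F] V := (Submodule.prodEquivOfIsCompl U₁ U₂ hc).symm.trans
      ((e₁.prodCongr e₂).trans (Submodule.prodEquivOfIsCompl U₁' U₂' hc'))
  have hg : ∀ (a : U₁) (b : U₂), g (a + b) = (e₁ a : V) + (e₂ b : V) := by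
    intro a b
    have h1 : (Submodule.prodEquivOfIsCompl U₁ U₂ hc).symm ((a : V) + (b : V)) = (a, b) := by
      rw [LinearEquiv.symm_apply_eq]
      simp [Submodule.coe_prodEquivOfIsCompl']
    show Submodule.prodEquivOfIsCompl U₁' U₂' hc' ((e₁.prodCongr e₂) ((Submodule.prodEquivOfIsCompl U₁ U₂ hc).symm ((a : V) + (b : V)))) = _
    rw [h1]
    simp [Submodule.coe_prodEquivOfIsCompl']
  refine ⟨g, hg, ?_⟩
  intro u v
  obtain ⟨a, b, hab⟩ : ∃ (a : U₁) (b : U₂), (a : V) + (b : V) = u := by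
    obtain ⟨a, ha, b, hb, h⟩ := exists_add_of_compl hc u
    exact ⟨⟨a, ha⟩, ⟨b, hb⟩, h⟩
  obtain ⟨a', b', hab'⟩ : ∃ (a : U₁) (b : U₂), (a : V) + (b : V) = v := by
    obtain ⟨a, ha, b, hb, h⟩ := exists_add_of_compl hc v
    exact ⟨⟨a, ha⟩, ⟨b, hb⟩, h⟩
  rw [← hab, ← hab', hg, hg]
  simp only [map_add, LinearMap.add_apply]
  rw [(h12' _ (e₁ a).2 _ (e₂ b').2).1, (h12' _ (e₁ a').2 _ (e₂ b).2).2, (h12 _ a.2 _ b'.2).1, (h12 _ a'.2 _ b.2).2, he₁, he₂]

/-- Restricting a nondegenerate form to a piece of an orthogonal decomposition. -/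
theorem nd_of_orth (B : V →ₗ[F] V →ₗ[F] F) (hnd : ∀ v, (∀ w, B v w = 0) → v = 0) {U₁ U₂ : Submodule F V} (hc : IsCompl U₁ U₂)
    (h12 : ∀ a ∈ U₁, ∀ b ∈ U₂, B a b = 0) (v : U₁) (hv : ∀ w : U₁, B v w = 0) : v = 0 := by
  apply Subtype.ext
  apply hnd
  intro w
  obtain ⟨a, ha, b, hb, rfl⟩ := exists_add_of_compl hc w
  rw [map_add, hv ⟨a, ha⟩, h12 _ v.2 _ hb, add_zero]

theorem exists_isometry_of_finrank (B : V →ₗ[F] V →ₗ[F] F) {U U' : Submodule F V} (halt : ∀ v, B v v = 0)
    (hU : ∀ v : U, (∀ w : U, B v w = 0) → v = 0) (hU' : ∀ v : U', (∀ w : U', B v w = 0) → v = 0)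
    (hd : finrank F U = finrank F U') :
    ∃ e : U ≃ₗ[F] U', ∀ a a', B (e a) (e a') = B a a' := by
  let BU : U →ₗ[F] U →ₗ[F] F := B.domRestrict₁₂ U U
  let BU' : U' →ₗ[F] U' →ₗ[F] F := B.domRestrict₁₂ U' U'
  have hBU : ∀ a b, BU a b = B a b := fun a b => rfl
  have hBU' : ∀ a b, BU' a b = B a b := fun a b => rfl
  obtain ⟨m, hm⟩ := even_finrank BU (fun v => by rw [hBU]; exact halt _) (fun v hv => hU v hv)
  obtain ⟨E, hE⟩ := Cfsg.Agent.Lib.SympEquiv.exists_symp_equiv BU (fun v => by rw [hBU]; exact halt _) (fun v hv => hU v hv) hm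
  obtain ⟨E', hE'⟩ := Cfsg.Agent.Lib.SympEquiv.exists_symp_equiv BU' (fun v => by rw [hBU']; exact halt _) (fun v hv => hU' v hv)
    (m := m) (by rw [← hd, hm])
  refine ⟨E.symm.trans E', ?_⟩
  intro a a'
  have h1 := hE' (E.symm a) (E.symm a')
  have h2 := hE (E.symm a) (E.symm a')
  rw [hBU'] at h1
  rw [hBU] at h2
  simp only [LinearEquiv.apply_symm_apply] at h2
  simp only [LinearEquiv.trans_apply]
  rw [h1, ← h2]

/-- The `±1`-eigenspaces of an involution. -/
theorem isCompl_eigen (h2 : (2 : F) ≠ 0) (T : V →ₗ[F] V) (hT : ∀ v, T (T v) = v) :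
    IsCompl (LinearMap.ker (T - 1)) (LinearMap.ker (T + 1)) := by
  constructor
  · rw [Submodule.disjoint_def]
    intro v h h'
    have h3 : T v = v := by simpa [sub_eq_zero] using h
    have h4 : T v + v = 0 := by simpa using h'
    rw [h3] at h4
    have h5 : (2 : F) • v = 0 := by rw [two_smul]; exact h4
    exact (smul_eq_zero.mp h5).resolve_left h2
  · rw [codisjoint_iff, eq_top_iff]
    intro v _
    have hv : v = (2 : F)⁻¹ • (v + T v) + (2 : F)⁻¹ • (v - T v) := by
      rw [← smul_add]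
      have : v + T v + (v - T v) = (2 : F) • v := by rw [two_smul]; abel
      rw [this, smul_smul, inv_mul_cancel₀ h2, one_smul]
    rw [hv]
    apply Submodule.add_mem_sup
    · rw [LinearMap.mem_ker]
      simp only [LinearMap.sub_apply, map_smul, map_add, hT, Module.End.one_apply]
      rw [show T v - v + (v - T v) = 0 by abel, smul_zero]
    · rw [LinearMap.mem_ker]
      simp only [LinearMap.add_apply, map_smul, map_sub, hT, Module.End.one_apply]
      rw [show T v + v - (v + T v) = 0 by abel, smul_zero]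

theorem orth_eigen (h2 : (2 : F) ≠ 0) (B : V →ₗ[F] V →ₗ[F] F) (hskew : ∀ a b, B a b = - B b a) (T : V →ₗ[F] V)
    (hB : ∀ u v, B (T u) (T v) = B u v) :
    ∀ a ∈ LinearMap.ker (T - 1), ∀ b ∈ LinearMap.ker (T + 1), B a b = 0 ∧ B b a = 0 := by
  intro a ha b hb
  have h3 : T a = a := by simpa [sub_eq_zero] using ha
  have h4 : T b = - b := by
    have : T b + b = 0 := by simpa using hb
    exact eq_neg_of_add_eq_zero_left this
  have h5 : B a b = 0 := by
    have h6 := hB a b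
    rw [h3, h4, map_neg] at h6
    have h7 : (2 : F) * B a b = 0 := by linear_combination -h6
    exact (mul_eq_zero.mp h7).resolve_left h2
  exact ⟨h5, by rw [hskew, h5, neg_zero]⟩

/-- Involutions with the same eigenspace dimensions are conjugate by an isometry. -/
theorem exists_invol_conj (h2 : (2 : F) ≠ 0) (B : V →ₗ[F] V →ₗ[F] F) (halt : ∀ v, B v v = 0) (hnd : ∀ v, (∀ w, B v w = 0) → v = 0)
    (T T' : V →ₗ[F] V) (hT : ∀ v, T (T v) = v) (hT' : ∀ v, T' (T' v) = v) (hB : ∀ u v, B (T u) (T v) = B u v)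
    (hB' : ∀ u v, B (T' u) (T' v) = B u v) (hd : finrank F (LinearMap.ker (T + 1)) = finrank F (LinearMap.ker (T' + 1))) :
    ∃ g : V ≃ₗ[F] V, (∀ u v, B (g u) (g v) = B u v) ∧ ∀ v, g (T' v) = T (g v) := by
  have hskew : ∀ a b, B a b = - B b a := by
    intro a b
    have := halt (a + b)
    simp only [map_add, LinearMap.add_apply, halt, zero_add, add_zero] at this
    exact eq_neg_of_add_eq_zero_right this
  have hc := isCompl_eigen h2 T hT
  have hc' := isCompl_eigen h2 T' hT'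
  have ho := orth_eigen h2 B hskew T hB
  have ho' := orth_eigen h2 B hskew T' hB'
  have hdp : finrank F (LinearMap.ker (T' - 1)) = finrank F (LinearMap.ker (T - 1)) := by
    have h3 := Submodule.finrank_add_eq_of_isCompl hc
    have h4 := Submodule.finrank_add_eq_of_isCompl hc'
    omega
  obtain ⟨e₁, he₁⟩ := exists_isometry_of_finrank B halt
    (nd_of_orth B hnd hc'.symm.symm (fun a ha b hb => (ho' a ha b hb).1))
    (nd_of_orth B hnd hc (fun a ha b hb => (ho a ha b hb).1)) hdp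
  obtain ⟨e₂, he₂⟩ := exists_isometry_of_finrank B halt
    (nd_of_orth B hnd hc'.symm (fun a ha b hb => (ho' b hb a ha).2))
    (nd_of_orth B hnd hc.symm (fun a ha b hb => (ho b hb a ha).2)) hd.symm
  obtain ⟨g, hg, hgB⟩ := exists_glue B hc' hc ho' ho e₁ e₂ he₁ he₂
  refine ⟨g, hgB, ?_⟩
  intro v
  obtain ⟨a, ha, b, hb, rfl⟩ := exists_add_of_compl hc' v
  have h3 : T' a = a := by simpa [sub_eq_zero] using ha
  have h4 : T' b = - b := by
    have : T' b + b = 0 := by simpa using hb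
    exact eq_neg_of_add_eq_zero_left this
  have h5 := hg ⟨a, ha⟩ ⟨b, hb⟩
  have h6 := hg ⟨a, ha⟩ (-⟨b, hb⟩)
  simp only [Submodule.coe_neg, map_neg] at h6
  have h7 : T (e₁ ⟨a, ha⟩ : V) = e₁ ⟨a, ha⟩ := by
    have h := LinearMap.mem_ker.mp (e₁ ⟨a, ha⟩).2
    rw [LinearMap.sub_apply, sub_eq_zero] at h
    exact h
  have h8 : T (e₂ ⟨b, hb⟩ : V) = - (e₂ ⟨b, hb⟩ : V) := by
    have h9 := LinearMap.mem_ker.mp (e₂ ⟨b, hb⟩).2
    rw [LinearMap.add_apply] at h9
    have : T (e₂ ⟨b, hb⟩ : V) + (e₂ ⟨b, hb⟩ : V) = 0 := h9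
    exact eq_neg_of_add_eq_zero_left this
  simp only at h5
  rw [map_add, h3, h4, h6, h5, map_add, h7, h8]


/-- Normal form for `T` with `T² = -1`. -/
theorem exists_J_basis [Fintype F] (h2 : (2 : F) ≠ 0) (m : ℕ) : ∀ (V : Type u) [AddCommGroup V] [Module F V] [FiniteDimensional F V]
    (B : V →ₗ[F] V →ₗ[F] F) (halt : ∀ v, B v v = 0) (hnd : ∀ v, (∀ w, B v w = 0) → v = 0)
    (T : V →ₗ[F] V) (hT : ∀ v, T (T v) = - v) (hB : ∀ u v, B (T u) (T v) = B u v) (hd : finrank F V = 2 * m),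
    ∃ e : Fin m → V, (∀ i j, B (e i) (T (e j)) = if i = j then 1 else 0) ∧ ∀ i j, B (e i) (e j) = 0 := by
  induction m with
  | zero =>
    intro V _ _ _ B halt hnd T hT hB hd
    exact ⟨Fin.elim0, fun i => i.elim0, fun i => i.elim0⟩
  | succ m ih =>
    intro V _ _ _ B halt hnd T hT hB hd
    classical
    have hskew : ∀ a b, B a b = - B b a := by
      intro a b
      have := halt (a + b)
      simp only [map_add, LinearMap.add_apply, halt, zero_add, add_zero] at this
      exact eq_neg_of_add_eq_zero_right this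
    have hsymm : ∀ u v, B u (T v) = B v (T u) := by
      intro u v
      have h1 := hB u (T v)
      rw [hT, map_neg] at h1
      rw [← h1, hskew, neg_neg]
    -- a vector with `f(v, T v) ≠ 0`
    have hex : ∃ v, B v (T v) ≠ 0 := by
      by_contra hcon
      have hcon' : ∀ v, B v (T v) = 0 := fun v => by
        by_contra h
        exact hcon ⟨v, h⟩
      have hall : ∀ u v, B u (T v) = 0 := by
        intro u v
        have h1 := hcon' (u + v)
        simp only [map_add, LinearMap.add_apply, hcon', zero_add, add_zero] at h1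
        rw [hsymm v u] at h1
        have h3 : (2 : F) * B u (T v) = 0 := by linear_combination h1
        exact (mul_eq_zero.mp h3).resolve_left h2
      have hV : ∀ v : V, v = 0 := by
        intro v
        apply hnd
        intro w
        have h1 := hall v (- T w)
        rw [map_neg, hT, neg_neg] at h1
        exact h1
      have h4 : finrank F V = 0 := by
        have : Subsingleton V := ⟨fun a b => by rw [hV a, hV b]⟩
        exact Module.finrank_zero_of_subsingleton
      omega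
    obtain ⟨v, hv⟩ := hex
    obtain ⟨α, β, hαβ⟩ := Cfsg.Agent.Lib.SqScalar.exists_norm_eq (-1 : F) (B v (T v))⁻¹ (by simp)
    let e₀ : V := α • v + β • T v
    have hTv : B (T v) v = - B v (T v) := hskew _ _
    have hTT : B (T v) (T v) = 0 := halt _
    have hvv : B v v = 0 := halt _
    have he₀ : B e₀ (T e₀) = 1 := by
      simp only [e₀, map_add, map_smul, LinearMap.add_apply, LinearMap.smul_apply, hT, map_neg, smul_eq_mul, hTv, hTT, hvv, LinearMap.neg_apply]
      have h5 : (α ^ 2 + β ^ 2) * B v (T v) = 1 := by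
        have : α ^ 2 - -1 * β ^ 2 = α ^ 2 + β ^ 2 := by ring
        rw [← this, hαβ, inv_mul_cancel₀ hv]
      linear_combination h5
    have hTe₀ : B (T e₀) e₀ = -1 := by rw [hskew, he₀]
    have he₀e₀ : B e₀ e₀ = 0 := halt _
    have hTT₀ : B (T e₀) (T e₀) = 0 := halt _
    -- the perp
    let W : Submodule F V := LinearMap.ker (B e₀) ⊓ LinearMap.ker (B (T e₀))
    have hWm : ∀ w, w ∈ W ↔ B e₀ w = 0 ∧ B (T e₀) w = 0 := by
      intro w
      simp [W]
    have hdW : finrank F W = 2 * m := by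
      let P : Submodule F V := Submodule.span F {e₀, T e₀}
      have hliP : LinearIndependent F ![e₀, T e₀] := by
        rw [LinearIndependent.pair_iff]
        intro s t hst
        have h6 := congrArg (B e₀) hst
        simp only [map_add, map_smul, smul_eq_mul, he₀e₀, he₀, map_zero] at h6
        have h7 := congrArg (B (T e₀)) hst
        simp only [map_add, map_smul, smul_eq_mul, hTe₀, hTT₀, map_zero] at h7
        constructor
        · linear_combination -h7
        · linear_combination h6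
      have hfP : finrank F P = 2 := by
        have := finrank_span_eq_card hliP
        simp only [Fintype.card_fin] at this
        have hset : Set.range ![e₀, T e₀] = {e₀, T e₀} := by
          simp [Matrix.range_cons, Set.pair_comm]
        rwa [hset] at this
      have hcP : IsCompl P W := by
        constructor
        · rw [Submodule.disjoint_def]
          intro u hu hu'
          obtain ⟨s, t, rfl⟩ := Submodule.mem_span_pair.mp hu
          rw [hWm] at hu'
          obtain ⟨h8, h9⟩ := hu'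
          simp only [map_add, map_smul, smul_eq_mul, he₀e₀, he₀, hTe₀, hTT₀] at h8 h9
          have hs : s = 0 := by linear_combination -h9
          have ht : t = 0 := by linear_combination h8
          rw [hs, ht]
          simp
        · rw [codisjoint_iff, eq_top_iff]
          intro u _
          have hu : u = (B u (T e₀) • e₀ + (- B u e₀) • T e₀) + (u - (B u (T e₀) • e₀ + (- B u e₀) • T e₀)) := by abel
          rw [hu]
          apply Submodule.add_mem_sup
          · exact Submodule.mem_span_pair.mpr ⟨_, _, rfl⟩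
          · rw [hWm]
            constructor
            · simp only [map_add, map_sub, map_smul, smul_eq_mul, he₀e₀, he₀, map_neg]
              rw [hskew e₀ u]
              ring
            · simp only [map_add, map_sub, map_smul, smul_eq_mul, hTe₀, hTT₀, map_neg]
              rw [hskew (T e₀) u]
              ring
      have := Submodule.finrank_add_eq_of_isCompl hcP
      rw [hfP, hd] at this
      omega
    have hWT : ∀ w ∈ W, T w ∈ W := by
      intro w hw
      rw [hWm] at hw ⊢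
      constructor
      · have := hB e₀ (T w)
        rw [hT, map_neg] at this
        rw [← this, hw.2, neg_zero]
      · rw [hB, hw.1]
    let BW : W →ₗ[F] W →ₗ[F] F := B.domRestrict₁₂ W W
    have hBW : ∀ a b, BW a b = B a b := fun a b => rfl
    let TW : W →ₗ[F] W := T.restrict hWT
    have hTW : ∀ a, ((TW a : W) : V) = T a := fun a => rfl
    obtain ⟨e', he'1, he'2⟩ := ih W BW (fun v => by rw [hBW]; exact halt _) (fun w hw => by
      apply Subtype.ext
      apply hnd
      intro u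
      -- decompose
      have hu : u = (B u (T e₀) • e₀ + (- B u e₀) • T e₀) + (u - (B u (T e₀) • e₀ + (- B u e₀) • T e₀)) := by abel
      have hrest : (u - (B u (T e₀) • e₀ + (- B u e₀) • T e₀)) ∈ W := by
        rw [hWm]
        constructor
        · simp only [map_add, map_sub, map_smul, smul_eq_mul, he₀e₀, he₀, map_neg]
          rw [hskew e₀ u]
          ring
        · simp only [map_add, map_sub, map_smul, smul_eq_mul, hTe₀, hTT₀, map_neg]
          rw [hskew (T e₀) u]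
          ring
      have h10 : B (w : V) (u - (B u (T e₀) • e₀ + (- B u e₀) • T e₀)) = 0 := hw ⟨_, hrest⟩
      have h11 := (hWm _).mp w.2
      have hwe : B (w : V) e₀ = 0 := by rw [hskew, h11.1, neg_zero]
      have hwT : B (w : V) (T e₀) = 0 := by rw [hskew, h11.2, neg_zero]
      have h12 := congrArg (B (w : V)) hu
      rw [h12, map_add, h10]
      simp [map_add, map_smul, hwe, hwT]) TW (fun a => Subtype.ext (by
        rw [hTW, hTW, hT]
        rfl)) (fun a b => by rw [hBW, hTW, hTW, hB]; rfl) hdW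
    have hmemW : ∀ i, B e₀ (e' i : V) = 0 ∧ B (T e₀) (e' i : V) = 0 := fun i => (hWm _).mp (e' i).2
    have hmemWT : ∀ i, B e₀ (T (e' i : V)) = 0 ∧ B (T e₀) (T (e' i : V)) = 0 := fun i => (hWm _).mp (hWT _ (e' i).2)
    refine ⟨Fin.cons e₀ (fun i => (e' i : V)), ?_, ?_⟩
    · intro i j
      refine Fin.cases ?_ (fun i => ?_) i <;> refine Fin.cases ?_ (fun j => ?_) j
      · simpa using he₀
      · simpa [Fin.cons_succ, (Fin.succ_ne_zero j).symm] using (hmemWT j).1
      · have h1 : B (e' i : V) (T e₀) = 0 := by rw [hskew, (hmemW i).2, neg_zero]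
        simpa [Fin.cons_succ, Fin.succ_ne_zero i] using h1
      · have h1 : B (e' i : V) (T (e' j : V)) = if i = j then 1 else 0 := he'1 i j
        simpa [Fin.cons_succ, Fin.succ_inj] using h1
    · intro i j
      refine Fin.cases ?_ (fun i => ?_) i <;> refine Fin.cases ?_ (fun j => ?_) j
      · simpa using he₀e₀
      · simpa [Fin.cons_succ] using (hmemW j).1
      · have h1 : B (e' i : V) e₀ = 0 := by rw [hskew, (hmemW i).1, neg_zero]
        simpa [Fin.cons_succ] using h1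
      · have h1 : B (e' i : V) (e' j : V) = 0 := he'2 i j
        simpa [Fin.cons_succ] using h1


/-- The standard complex structure. -/
def Jst {m : ℕ} (u : Fin m ⊕ Fin m → F) : Fin m ⊕ Fin m → F := Sum.elim (fun i => u (Sum.inr i)) (fun i => - u (Sum.inl i))

theorem exists_J_std [Fintype F] (h2 : (2 : F) ≠ 0) {m : ℕ} (B : V →ₗ[F] V →ₗ[F] F) (halt : ∀ v, B v v = 0)
    (hnd : ∀ v, (∀ w, B v w = 0) → v = 0) (T : V →ₗ[F] V) (hT : ∀ v, T (T v) = - v) (hB : ∀ u v, B (T u) (T v) = B u v)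
    (hd : finrank F V = 2 * m) :
    ∃ E : (Fin m ⊕ Fin m → F) ≃ₗ[F] V, (∀ u v, B (E u) (E v) = sympForm m F u v) ∧ ∀ u, T (E u) = E (Jst u) := by
  classical
  obtain ⟨e, he1, he2⟩ := exists_J_basis h2 m V B halt hnd T hT hB hd
  have hskew : ∀ a b, B a b = - B b a := by
    intro a b
    have := halt (a + b)
    simp only [map_add, LinearMap.add_apply, halt, zero_add, add_zero] at this
    exact eq_neg_of_add_eq_zero_right this
  let b : Fin m ⊕ Fin m → V := Sum.elim (fun i => T (e i)) e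
  let L : (Fin m ⊕ Fin m → F) →ₗ[F] V := Fintype.linearCombination F b
  have hLs : ∀ a, L (Pi.single a 1) = b a := fun a => Fintype.linearCombination_apply_single F b a 1 |>.trans (one_smul _ _)
  have hbil : B.compl₁₂ L L = Cfsg.Agent.Lib.SympWitt.sympB m F := by
    apply (Pi.basisFun F (Fin m ⊕ Fin m)).ext
    intro a
    apply (Pi.basisFun F (Fin m ⊕ Fin m)).ext
    intro a'
    simp only [Pi.basisFun_apply, LinearMap.compl₁₂_apply, hLs, Cfsg.Agent.Lib.SympWitt.sympB_apply, sympForm_apply]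
    rcases a with i | i <;> rcases a' with j | j
    · simp only [b, Sum.elim_inl, hB, he2]
      simp [Pi.single_apply]
    · simp only [b, Sum.elim_inl, Sum.elim_inr]
      rw [hskew, he1 j i]
      simp [Pi.single_apply, eq_comm]
    · simp only [b, Sum.elim_inl, Sum.elim_inr]
      rw [he1 i j]
      simp [Pi.single_apply]
      by_cases h : i = j <;> simp [h, eq_comm]
    · simp only [b, Sum.elim_inr, he2]
      simp [Pi.single_apply]
  have hLB : ∀ u v, B (L u) (L v) = sympForm m F u v := fun u v => by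
    have := LinearMap.congr_fun (LinearMap.congr_fun hbil u) v
    exact this
  have hinj : Function.Injective L := by
    rw [← LinearMap.ker_eq_bot, LinearMap.ker_eq_bot']
    intro u hu
    apply Cfsg.Agent.Lib.SympWitt.eq_zero_of_forall_sympForm
    intro w
    rw [← hLB, hu, map_zero, LinearMap.zero_apply]
  let E : (Fin m ⊕ Fin m → F) ≃ₗ[F] V := LinearEquiv.ofInjectiveOfFinrankEq L hinj (by
    rw [hd]
    simp [two_mul])
  have hE : ∀ u, E u = L u := fun u => by
    simp [E, LinearEquiv.ofInjectiveOfFinrankEq]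
  refine ⟨E, fun u v => by rw [hE, hE, hLB], ?_⟩
  intro u
  rw [hE, hE]
  show T (Fintype.linearCombination F b u) = Fintype.linearCombination F b (Jst u)
  rw [Fintype.linearCombination_apply, Fintype.linearCombination_apply, map_sum, Fintype.sum_sum_type, Fintype.sum_sum_type,
    add_comm]
  simp only [map_smul, b, Sum.elim_inl, Sum.elim_inr, hT, Jst, smul_neg, neg_smul]

theorem exists_J_conj [Fintype F] (h2 : (2 : F) ≠ 0) (B : V →ₗ[F] V →ₗ[F] F) (halt : ∀ v, B v v = 0)
    (hnd : ∀ v, (∀ w, B v w = 0) → v = 0) (T T' : V →ₗ[F] V) (hT : ∀ v, T (T v) = - v) (hT' : ∀ v, T' (T' v) = - v)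
    (hB : ∀ u v, B (T u) (T v) = B u v) (hB' : ∀ u v, B (T' u) (T' v) = B u v) :
    ∃ g : V ≃ₗ[F] V, (∀ u v, B (g u) (g v) = B u v) ∧ ∀ v, g (T' v) = T (g v) := by
  obtain ⟨m, hm⟩ := even_finrank B halt hnd
  obtain ⟨E, hE1, hE2⟩ := exists_J_std h2 B halt hnd T hT hB hm
  obtain ⟨E', hE'1, hE'2⟩ := exists_J_std h2 B halt hnd T' hT' hB' hm
  refine ⟨E'.symm.trans E, ?_, ?_⟩
  · intro u v
    simp only [LinearEquiv.trans_apply]
    rw [hE1, ← hE'1]
    simp
  · intro v
    simp only [LinearEquiv.trans_apply]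
    obtain ⟨w, rfl⟩ := E'.surjective v
    rw [hE'2]
    simp only [LinearEquiv.symm_apply_apply]
    rw [hE2]

end abstractForms


section matrix

variable {d : ℕ}

theorem spGL_iff (x : GL (Fin d ⊕ Fin d) F) :
    x ∈ Cfsg.spGL d F ↔ ∀ u v, sympForm d F ((x : Matrix (Fin d ⊕ Fin d) (Fin d ⊕ Fin d) F) *ᵥ u) ((x : Matrix (Fin d ⊕ Fin d) (Fin d ⊕ Fin d) F) *ᵥ v) = sympForm d F u v :=
  Iff.rfl

/-- An invertible matrix from a linear isometry. -/
theorem glOfEquiv_mem (g : (Fin d ⊕ Fin d → F) ≃ₗ[F] (Fin d ⊕ Fin d → F)) (h : ∀ u v, sympForm d F (g u) (g v) = sympForm d F u v) :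
    Cfsg.Agent.Lib.MatConj.glOfEquiv g ∈ Cfsg.spGL d F := by
  rw [spGL_iff]
  intro u v
  rw [Cfsg.Agent.Lib.MatConj.glOfEquiv_mulVec, Cfsg.Agent.Lib.MatConj.glOfEquiv_mulVec, h]

theorem conj_of_intertwiner (g : (Fin d ⊕ Fin d → F) ≃ₗ[F] (Fin d ⊕ Fin d → F)) (x y : GL (Fin d ⊕ Fin d) F)
    (h : ∀ v, g ((y : Matrix (Fin d ⊕ Fin d) (Fin d ⊕ Fin d) F) *ᵥ v) = (x : Matrix (Fin d ⊕ Fin d) (Fin d ⊕ Fin d) F) *ᵥ g v) :
    (Cfsg.Agent.Lib.MatConj.glOfEquiv g)⁻¹ * x * Cfsg.Agent.Lib.MatConj.glOfEquiv g = y := by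
  have h1 := Cfsg.Agent.Lib.MatConj.conj_of_equiv g (y : Matrix (Fin d ⊕ Fin d) (Fin d ⊕ Fin d) F) (x : Matrix (Fin d ⊕ Fin d) (Fin d ⊕ Fin d) F) h
  have h2 : Cfsg.Agent.Lib.MatConj.glOfEquiv g * y = x * Cfsg.Agent.Lib.MatConj.glOfEquiv g := Units.ext h1
  rw [mul_assoc, ← h2, inv_mul_cancel_left]

theorem mulVec_mul_self {x : Matrix (Fin d ⊕ Fin d) (Fin d ⊕ Fin d) F} {z : F} (hx : x * x = z • (1 : Matrix (Fin d ⊕ Fin d) (Fin d ⊕ Fin d) F)) (v : Fin d ⊕ Fin d → F) :
    x *ᵥ (x *ᵥ v) = z • v := by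
  rw [Matrix.mulVec_mulVec, hx, Matrix.smul_mulVec, Matrix.one_mulVec]

/-- The dimension of the `-1`-eigenspace is the rank of `x - 1`. -/
theorem finrank_ker_add_one (h2 : (2 : F) ≠ 0) (x : Matrix (Fin d ⊕ Fin d) (Fin d ⊕ Fin d) F) (hx : x * x = 1) :
    finrank F (LinearMap.ker (x.mulVecLin + 1)) = (x - 1).rank := by
  have hT : ∀ v, x.mulVecLin (x.mulVecLin v) = v := by
    intro v
    simp only [Matrix.mulVecLin_apply]
    rw [Matrix.mulVec_mulVec, hx, Matrix.one_mulVec]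
  have hc := isCompl_eigen h2 x.mulVecLin hT
  have h3 := Submodule.finrank_add_eq_of_isCompl hc
  have h4 : (x - 1).mulVecLin = x.mulVecLin - 1 := by
    apply LinearMap.ext
    intro v
    simp [Matrix.sub_mulVec]
  have h5 := LinearMap.finrank_range_add_finrank_ker (x.mulVecLin - 1)
  have h6 : (x - 1).rank = finrank F (LinearMap.range (x.mulVecLin - 1)) := by
    rw [← h4]
    rfl
  omega

theorem rank_even (h2 : (2 : F) ≠ 0) (x : GL (Fin d ⊕ Fin d) F) (hx : x ∈ Cfsg.spGL d F)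
    (hx2 : (x : Matrix (Fin d ⊕ Fin d) (Fin d ⊕ Fin d) F) * x = 1) :
    ∃ t, ((x : Matrix (Fin d ⊕ Fin d) (Fin d ⊕ Fin d) F) - 1).rank = 2 * t := by
  classical
  set X : Matrix (Fin d ⊕ Fin d) (Fin d ⊕ Fin d) F := (x : Matrix (Fin d ⊕ Fin d) (Fin d ⊕ Fin d) F) with hX
  let B := Cfsg.Agent.Lib.SympWitt.sympB d F
  have hBv : ∀ u v, B u v = sympForm d F u v := fun u v => rfl
  have hT : ∀ v, X.mulVecLin (X.mulVecLin v) = v := by
    intro v
    simp only [Matrix.mulVecLin_apply]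
    rw [Matrix.mulVec_mulVec, hx2, Matrix.one_mulVec]
  have hc := isCompl_eigen h2 X.mulVecLin hT
  have hB : ∀ u v, B (X.mulVecLin u) (X.mulVecLin v) = B u v := fun u v => hx u v
  have ho := orth_eigen h2 B (fun a b => sympForm_antisymm a b) X.mulVecLin hB
  rw [← finrank_ker_add_one h2 X hx2]
  let BU : LinearMap.ker (X.mulVecLin + 1) →ₗ[F] LinearMap.ker (X.mulVecLin + 1) →ₗ[F] F := B.domRestrict₁₂ _ _
  exact even_finrank BU (fun v => sympForm_self _) (fun v hv =>
    nd_of_orth B (fun v hv => Cfsg.Agent.Lib.SympWitt.eq_zero_of_forall_sympForm hv) hc.symm (fun a ha b hb => (ho b hb a ha).2) v hv)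

/-- Involutions in `Sp` with the same rank are conjugate in `Sp`. -/
theorem sp_invol_conj (h2 : (2 : F) ≠ 0) (x y : GL (Fin d ⊕ Fin d) F) (hx : x ∈ Cfsg.spGL d F) (hy : y ∈ Cfsg.spGL d F)
    (hx2 : (x : Matrix (Fin d ⊕ Fin d) (Fin d ⊕ Fin d) F) * x = 1) (hy2 : (y : Matrix (Fin d ⊕ Fin d) (Fin d ⊕ Fin d) F) * y = 1)
    (hr : ((x : Matrix (Fin d ⊕ Fin d) (Fin d ⊕ Fin d) F) - 1).rank = ((y : Matrix (Fin d ⊕ Fin d) (Fin d ⊕ Fin d) F) - 1).rank) :
    ∃ g ∈ Cfsg.spGL d F, g⁻¹ * x * g = y := by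
  obtain ⟨g, hg1, hg2⟩ := exists_invol_conj h2 (Cfsg.Agent.Lib.SympWitt.sympB d F) (fun v => sympForm_self v)
    (fun v hv => Cfsg.Agent.Lib.SympWitt.eq_zero_of_forall_sympForm hv) (x : Matrix (Fin d ⊕ Fin d) (Fin d ⊕ Fin d) F).mulVecLin
    (y : Matrix (Fin d ⊕ Fin d) (Fin d ⊕ Fin d) F).mulVecLin
    (fun v => by
      simp only [Matrix.mulVecLin_apply]
      rw [Matrix.mulVec_mulVec, hx2, Matrix.one_mulVec])
    (fun v => by
      simp only [Matrix.mulVecLin_apply]
      rw [Matrix.mulVec_mulVec, hy2, Matrix.one_mulVec])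
    (fun u v => hx u v) (fun u v => hy u v)
    (by rw [finrank_ker_add_one h2 _ hx2, finrank_ker_add_one h2 _ hy2, hr])
  exact ⟨_, glOfEquiv_mem g hg1, conj_of_intertwiner g x y hg2⟩

/-- Elements of `Sp` with square `-1` are conjugate in `Sp`. -/
theorem sp_J_conj [Fintype F] (h2 : (2 : F) ≠ 0) (x y : GL (Fin d ⊕ Fin d) F) (hx : x ∈ Cfsg.spGL d F) (hy : y ∈ Cfsg.spGL d F)
    (hx2 : (x : Matrix (Fin d ⊕ Fin d) (Fin d ⊕ Fin d) F) * x = (-1 : F) • 1) (hy2 : (y : Matrix (Fin d ⊕ Fin d) (Fin d ⊕ Fin d) F) * y = (-1 : F) • 1) :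
    ∃ g ∈ Cfsg.spGL d F, g⁻¹ * x * g = y := by
  have hs : ∀ (X : Matrix (Fin d ⊕ Fin d) (Fin d ⊕ Fin d) F), X * X = (-1 : F) • 1 → ∀ v, X.mulVecLin (X.mulVecLin v) = - v := by
    intro X hX v
    simp only [Matrix.mulVecLin_apply]
    rw [mulVec_mul_self hX, neg_smul, one_smul]
  obtain ⟨g, hg1, hg2⟩ := exists_J_conj h2 (Cfsg.Agent.Lib.SympWitt.sympB d F) (fun v => sympForm_self v)
    (fun v hv => Cfsg.Agent.Lib.SympWitt.eq_zero_of_forall_sympForm hv) (x : Matrix (Fin d ⊕ Fin d) (Fin d ⊕ Fin d) F).mulVecLin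
    (y : Matrix (Fin d ⊕ Fin d) (Fin d ⊕ Fin d) F).mulVecLin (hs _ hx2) (hs _ hy2) (fun u v => hx u v) (fun u v => hy u v)
  exact ⟨_, glOfEquiv_mem g hg1, conj_of_intertwiner g x y hg2⟩

/-- A scalar square of an element of `Sp` is `±1`. -/
theorem sq_eq_one_or (hd : 1 ≤ d) (x : GL (Fin d ⊕ Fin d) F) (hx : x ∈ Cfsg.spGL d F) (z : F)
    (hx2 : (x : Matrix (Fin d ⊕ Fin d) (Fin d ⊕ Fin d) F) * x = z • 1) : z = 1 ∨ z = -1 := by
  have hz : z * z = 1 := by
    let i : Fin d := ⟨0, hd⟩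
    have h1 : sympForm d F (Pi.single (Sum.inr i) 1) (Pi.single (Sum.inl i) 1) = 1 := by
      rw [sympForm_apply]
      simp [Pi.single_apply]
    have hx' := (spGL_iff x).mp hx
    have h3 := hx' ((x : Matrix (Fin d ⊕ Fin d) (Fin d ⊕ Fin d) F) *ᵥ (Pi.single (Sum.inr i) 1)) ((x : Matrix (Fin d ⊕ Fin d) (Fin d ⊕ Fin d) F) *ᵥ (Pi.single (Sum.inl i) 1))
    have h4 := hx' (Pi.single (Sum.inr i) 1) (Pi.single (Sum.inl i) 1)
    rw [mulVec_mul_self hx2, mulVec_mul_self hx2, sympForm_smul_left, sympForm_smul_right, h4, h1] at h3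
    simpa using h3
  have h5 : (z - 1) * (z + 1) = 0 := by linear_combination hz
  rcases mul_eq_zero.mp h5 with h | h
  · exact Or.inl (sub_eq_zero.mp h)
  · exact Or.inr (eq_neg_of_add_eq_zero_left h)

end matrix

end Cfsg.Agent.Lib.SpInvol
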