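import Mathlib
import Cfsg.Agent.Lib.SpInvol
import Cfsg.Agent.Lib.PrimOrder

/-!
# Isometries of odd prime order: nondegenerate invariant blocks
-/

set_option autoImplicit false

namespace Cfsg.Agent.Lib.IsomBlock

open Polynomial Module

set_option linter.unusedSimpArgs false
set_option linter.unusedVariables false
set_option linter.unusedSectionVars false

universe u

variable {F : Type*} [Field F] {V : Type u} [AddCommGroup V] [Module F V]

/-- Alternating forms, and symmetric forms away from characteristic two. -/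
def GoodForm (B : V →ₗ[F] V →ₗ[F] F) : Prop :=
  (∀ v, B v v = 0) ∨ ((2 : F) ≠ 0 ∧ ∀ u v, B u v = B v u)

theorem GoodForm.sign {B : V →ₗ[F] V →ₗ[F] F} (hB : GoodForm B) : ∃ ε : F, (ε = 1 ∨ ε = -1) ∧ ∀ u v, B v u = ε * B u v := by
  rcases hB with h | ⟨-, h⟩
  · refine ⟨-1, Or.inr rfl, fun u v => ?_⟩
    have h1 := h (u + v)
    simp only [map_add, LinearMap.add_apply, h, zero_add, add_zero] at h1
    linear_combination h1
  · exact ⟨1, Or.inl rfl, fun u v => by rw [one_mul, h]⟩

theorem GoodForm.refl {B : V →ₗ[F] V →ₗ[F] F} (hB : GoodForm B) {u v : V} (h : B u v = 0) : B v u = 0 := by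
  obtain ⟨ε, -, hε⟩ := hB.sign
  rw [hε, h, mul_zero]

/-- The orthogonal complement. -/
def perp (B : V →ₗ[F] V →ₗ[F] F) (W : Submodule F V) : Submodule F V where
  carrier := {v | ∀ w ∈ W, B w v = 0}
  add_mem' := fun {a b} ha hb w hw => by rw [map_add, ha w hw, hb w hw, add_zero]
  zero_mem' := fun w _ => map_zero _
  smul_mem' := fun c a ha w hw => by rw [map_smul, ha w hw, smul_zero]

theorem mem_perp {B : V →ₗ[F] V →ₗ[F] F} {W : Submodule F V} {v : V} : v ∈ perp B W ↔ ∀ w ∈ W, B w v = 0 := Iff.rfl

/-- Nondegeneracy on a subspace. -/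
def NDOn (B : V →ₗ[F] V →ₗ[F] F) (U : Submodule F V) : Prop :=
  ∀ u ∈ U, (∀ w ∈ U, B u w = 0) → u = 0

/-- Invariant subspaces. -/
def InvOn (T : V →ₗ[F] V) (U : Submodule F V) : Prop := ∀ u ∈ U, T u ∈ U

/-- No nonzero fixed vectors. -/
def FixFree (T : V →ₗ[F] V) (U : Submodule F V) : Prop := ∀ u ∈ U, T u = u → u = 0

section compl

variable {B : V →ₗ[F] V →ₗ[F] F}

theorem isCompl_perp [FiniteDimensional F V] (hB : GoodForm B) {W : Submodule F V} (hW : NDOn B W) : IsCompl W (perp B W) := by
  classical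
  have hdisj : Disjoint W (perp B W) := by
    rw [Submodule.disjoint_def]
    intro u hu hu2
    exact hW u hu fun w hw => hB.refl (hu2 w hw)
  refine ⟨hdisj, ?_⟩
  rw [codisjoint_iff, eq_top_iff]
  intro v _
  -- the map `W → dual W`
  let φ : W →ₗ[F] (W →ₗ[F] F) :=
    { toFun := fun a => (B (a : V)) ∘ₗ W.subtype
      map_add' := fun a b => by
        ext c
        simp
      map_smul' := fun c a => by
        ext b
        simp }
  have hφ : Function.Injective φ := by
    rw [← LinearMap.ker_eq_bot, LinearMap.ker_eq_bot']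
    intro a ha
    apply Subtype.ext
    apply hW a.1 a.2
    intro w hw
    have := LinearMap.congr_fun ha ⟨w, hw⟩
    simpa [φ] using this
  have hφs : Function.Surjective φ := by
    apply (LinearMap.injective_iff_surjective_of_finrank_eq_finrank ?_).mp hφ
    rw [← Subspace.dual_finrank_eq]
  -- functional `b ↦ B b v` via reflexivity
  obtain ⟨ε, hε1, hε⟩ := hB.sign
  have hε0 : ε ≠ 0 := by
    rcases hε1 with rfl | rfl
    · exact one_ne_zero
    · exact neg_ne_zero.mpr one_ne_zero
  obtain ⟨a, ha⟩ := hφs ((B.flip v) ∘ₗ W.subtype)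
  have hmem : v - ε • (a : V) ∈ perp B W := by
    intro w hw
    have h1 := LinearMap.congr_fun ha ⟨w, hw⟩
    simp only [φ, LinearMap.coe_mk, AddHom.coe_mk, LinearMap.comp_apply, Submodule.subtype_apply, LinearMap.flip_apply] at h1
    rw [map_sub, map_smul, ← h1, hε w a.1, smul_eq_mul]
    rcases hε1 with rfl | rfl <;> ring_nf
  have : v = (ε • (a : V)) + (v - ε • (a : V)) := by abel
  rw [this]
  exact Submodule.add_mem_sup (W.smul_mem _ a.2) hmem

/-- The relative complement. -/
theorem sup_rel [FiniteDimensional F V] (hB : GoodForm B) {U W : Submodule F V} (hWU : W ≤ U) (hW : NDOn B W) :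
    W ⊔ (U ⊓ perp B W) = U := by
  have h1 := isCompl_perp hB hW
  rw [inf_comm U, ← sup_inf_assoc_of_le _ hWU, h1.sup_eq_top, top_inf_eq]

theorem finrank_rel [FiniteDimensional F V] (hB : GoodForm B) {U W : Submodule F V} (hWU : W ≤ U) (hW : NDOn B W) :
    finrank F W + finrank F (U ⊓ perp B W : Submodule F V) = finrank F U := by
  have h1 := isCompl_perp hB hW
  have h2 := Submodule.finrank_sup_add_finrank_inf_eq W (U ⊓ perp B W)
  rw [sup_rel hB hWU hW] at h2
  have h3 : W ⊓ (U ⊓ perp B W) = ⊥ := by
    rw [← inf_assoc, inf_eq_left.mpr hWU]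
    exact h1.inf_eq_bot
  rw [h3, finrank_bot, add_zero] at h2
  exact h2.symm

theorem nd_rel [FiniteDimensional F V] (hB : GoodForm B) {U W : Submodule F V} (hWU : W ≤ U) (hW : NDOn B W) (hU : NDOn B U) :
    NDOn B (U ⊓ perp B W) := by
  intro u hu h
  apply hU u hu.1
  intro y hy
  rw [← sup_rel hB hWU hW] at hy
  obtain ⟨a, ha, b, hb, rfl⟩ := Submodule.mem_sup.mp hy
  rw [map_add, h b hb, add_zero]
  exact hB.refl (hu.2 a ha)

theorem nd_sup (hB : GoodForm B) {W W' : Submodule F V} (hW : NDOn B W) (hW' : NDOn B W') (horth : ∀ u ∈ W, ∀ v ∈ W', B u v = 0) :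
    NDOn B (W ⊔ W') := by
  intro u hu h
  obtain ⟨a, ha, b, hb, rfl⟩ := Submodule.mem_sup.mp hu
  have h1 : a = 0 := by
    apply hW a ha
    intro w hw
    have h2 := h w (Submodule.mem_sup_left hw)
    rw [map_add, LinearMap.add_apply, hB.refl (horth w hw b hb), add_zero] at h2
    exact h2
  have h2 : b = 0 := by
    apply hW' b hb
    intro w hw
    have h3 := h w (Submodule.mem_sup_right hw)
    rw [map_add, LinearMap.add_apply, horth a ha w hw, zero_add] at h3
    exact h3
  rw [h1, h2, add_zero]

theorem disjoint_of_orth (hB : GoodForm B) {W : Submodule F V} (hW : NDOn B W) {W' : Submodule F V} (horth : ∀ u ∈ W, ∀ v ∈ W', B u v = 0) : Disjoint W W' := by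
  rw [Submodule.disjoint_def]
  intro u hu hu2
  exact hW u hu fun w hw => hB.refl (horth w hw u hu2)

theorem finrank_sup_orth [FiniteDimensional F V] (hB : GoodForm B) {W W' : Submodule F V} (hW : NDOn B W) (horth : ∀ u ∈ W, ∀ v ∈ W', B u v = 0) :
    finrank F (W ⊔ W' : Submodule F V) = finrank F W + finrank F W' := by
  have h2 := Submodule.finrank_sup_add_finrank_inf_eq W W'
  rw [(disjoint_of_orth hB hW horth).eq_bot, finrank_bot, add_zero] at h2
  exact h2

end compl

section poly

variable [FiniteDimensional F V] (T : V →ₗ[F] V)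

theorem aeval_comm (g h : F[X]) (v : V) : aeval T g (aeval T h v) = aeval T h (aeval T g v) := by
  have : aeval T g * aeval T h = aeval T h * aeval T g := by
    rw [← map_mul, ← map_mul, mul_comm]
  exact LinearMap.congr_fun this v

theorem aeval_mul_apply (g h : F[X]) (v : V) : aeval T (g * h) v = aeval T g (aeval T h v) := by
  rw [map_mul]
  rfl

theorem aeval_X_comm (g : F[X]) (v : V) : aeval T g (T v) = T (aeval T g v) := by
  have := aeval_comm T g X v
  simpa using this

/-- An invariant subspace is stable under polynomials. -/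
theorem inv_aeval {W : Submodule F V} (hW : InvOn T W) (g : F[X]) {v : V} (hv : v ∈ W) : aeval T g v ∈ W := by
  induction g using Polynomial.induction_on' with
  | add p q hp hq =>
    rw [map_add]
    exact W.add_mem hp hq
  | monomial n a =>
    rw [aeval_monomial, Module.End.mul_apply]
    apply W.smul_mem' a
    induction n with
    | zero => simpa using hv
    | succ n ih =>
      rw [pow_succ', Module.End.mul_apply]
      exact hW _ ih

/-- The cyclic subspace generated by a vector killed by an irreducible polynomial. -/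
theorem exists_irr_span (h : F[X]) (hh : Irreducible h) (v : V) (hv : v ≠ 0) (h0 : aeval T h v = 0) :
    ∃ U : Submodule F V, v ∈ U ∧ InvOn T U ∧ finrank F U = h.natDegree ∧ (∀ u ∈ U, aeval T h u = 0) ∧
      (∀ u ∈ U, ∃ g : F[X], u = aeval T g v) ∧
      (∀ W : Submodule F V, InvOn T W → W ≤ U → W = ⊥ ∨ W = U) := by
  classical
  let φ : F[X] →ₗ[F] V := (LinearMap.applyₗ v) ∘ₗ (aeval T).toLinearMap
  have hφ : ∀ g, φ g = aeval T g v := fun g => rfl
  let U := LinearMap.range φ
  have hU : ∀ u, u ∈ U ↔ ∃ g : F[X], aeval T g v = u := fun u => Iff.rfl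
  have hkill : ∀ g : F[X], aeval T h (aeval T g v) = 0 := by
    intro g
    rw [aeval_comm, h0, map_zero]
  have hgen : ∀ g : F[X], ¬ h ∣ g → ∃ a : F[X], aeval T a (aeval T g v) = v := by
    intro g hg
    obtain ⟨a, b, hab⟩ := (hh.coprime_iff_not_dvd.mpr hg)
    refine ⟨b, ?_⟩
    have h1 : aeval T (a * h + b * g) v = v := by
      rw [hab, map_one]
      rfl
    rw [map_add, LinearMap.add_apply, aeval_mul_apply, aeval_mul_apply, h0, map_zero, zero_add] at h1
    exact h1
  have hzero : ∀ g : F[X], aeval T g v = 0 → h ∣ g := by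
    intro g hg
    by_contra hnd
    obtain ⟨a, ha⟩ := hgen g hnd
    rw [hg, map_zero] at ha
    exact hv ha.symm
  have hinv : InvOn T U := by
    rintro u ⟨g, rfl⟩
    refine ⟨X * g, ?_⟩
    rw [hφ, aeval_mul_apply, aeval_X, hφ]
  have hd : h.natDegree ≠ 0 := hh.natDegree_pos.ne'
  have hfin : finrank F U = h.natDegree := by
    let ψ : degreeLT F h.natDegree →ₗ[F] V := φ ∘ₗ (degreeLT F h.natDegree).subtype
    have hψi : Function.Injective ψ := by
      rw [← LinearMap.ker_eq_bot, LinearMap.ker_eq_bot']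
      rintro ⟨g, hg⟩ hg0
      apply Subtype.ext
      have h1 : h ∣ g := hzero g hg0
      apply Polynomial.eq_zero_of_dvd_of_degree_lt h1
      rw [Polynomial.mem_degreeLT] at hg
      rwa [Polynomial.degree_eq_natDegree hh.ne_zero]
    have hψr : LinearMap.range ψ = U := by
      apply le_antisymm
      · rintro _ ⟨g, rfl⟩
        exact ⟨g.1, rfl⟩
      · rintro _ ⟨g, rfl⟩
        refine ⟨⟨g % h, ?_⟩, ?_⟩
        · rw [Polynomial.mem_degreeLT, ← Polynomial.degree_eq_natDegree hh.ne_zero]
          exact Polynomial.degree_mod_lt g hh.ne_zero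
        · show φ (g % h) = φ g
          conv_rhs => rw [← EuclideanDomain.mod_add_div g h]
          rw [map_add, hφ (h * _), mul_comm, aeval_mul_apply, h0, map_zero, add_zero]
    rw [← hψr, LinearMap.finrank_range_of_inj hψi, (degreeLTEquiv F h.natDegree).finrank_eq, finrank_fin_fun]
  refine ⟨U, ⟨1, by rw [hφ, map_one]; rfl⟩, hinv, hfin, ?_, ?_, ?_⟩
  · rintro u ⟨g, rfl⟩
    exact hkill g
  · rintro u ⟨g, rfl⟩
    exact ⟨g, rfl⟩
  · intro W hW hWU
    by_cases hb : W = ⊥
    · exact Or.inl hb
    right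
    obtain ⟨w, hw, hw0⟩ := (Submodule.ne_bot_iff W).mp hb
    obtain ⟨g, rfl⟩ := hWU hw
    have hnd : ¬ h ∣ g := by
      rintro ⟨k, rfl⟩
      apply hw0
      show aeval T (h * k) v = 0
      rw [mul_comm, aeval_mul_apply, h0, map_zero]
    obtain ⟨a, ha⟩ := hgen g hnd
    have hvW : v ∈ W := by
      rw [← ha]
      exact inv_aeval T hW a hw
    apply le_antisymm hWU
    rintro u ⟨k, rfl⟩
    exact inv_aeval T hW k hvW

end poly

section isom

variable [FiniteDimensional F V] {B : V →ₗ[F] V →ₗ[F] F} {T : V →ₗ[F] V} {r : ℕ}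

theorem form_pow (hiso : ∀ u v, B (T u) (T v) = B u v) (n : ℕ) (u v : V) : B ((T ^ n) u) ((T ^ n) v) = B u v := by
  induction n generalizing u v with
  | zero => simp
  | succ n ih =>
    rw [pow_succ, Module.End.mul_apply, Module.End.mul_apply, ih, hiso]

theorem inv_mul_T (hr : r ≠ 0) (hTr : T ^ r = 1) : T ^ (r - 1) * T = 1 := by
  rw [← pow_succ, Nat.sub_add_cancel (Nat.pos_of_ne_zero hr), hTr]

theorem T_mul_inv (hr : r ≠ 0) (hTr : T ^ r = 1) : T * T ^ (r - 1) = 1 := by
  rw [← pow_succ', Nat.sub_add_cancel (Nat.pos_of_ne_zero hr), hTr]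

theorem adj1 (hiso : ∀ u v, B (T u) (T v) = B u v) (hr : r ≠ 0) (hTr : T ^ r = 1) (u v : V) : B (T u) v = B u ((T ^ (r - 1)) v) := by
  rw [← hiso u]
  congr 1
  have := LinearMap.congr_fun (T_mul_inv hr hTr) v
  simpa using this.symm

theorem adj2 (hiso : ∀ u v, B (T u) (T v) = B u v) (hr : r ≠ 0) (hTr : T ^ r = 1) (u v : V) : B ((T ^ (r - 1)) u) v = B u (T v) := by
  rw [← hiso ((T ^ (r - 1)) u)]
  congr 2
  have := LinearMap.congr_fun (T_mul_inv hr hTr) u
  simpa using this

/-- The adjoint of `T` is the inverse. -/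
theorem form_aeval (hiso : ∀ u v, B (T u) (T v) = B u v) (hr : r ≠ 0) (hTr : T ^ r = 1) (g : F[X]) (u v : V) :
    B (aeval T g u) v = B u (aeval (T ^ (r - 1)) g v) := by
  have h1 : ∀ (n : ℕ) (u v : V), B ((T ^ n) u) v = B u (((T ^ (r - 1)) ^ n) v) := by
    intro n
    induction n with
    | zero => simp
    | succ n ih =>
      intro u v
      rw [pow_succ, Module.End.mul_apply, ih, adj1 hiso hr hTr, pow_succ']
      rfl
  induction g using Polynomial.induction_on' with
  | add p q hp hq => simp only [map_add, LinearMap.add_apply, hp, hq]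
  | monomial n a =>
    simp only [aeval_monomial, Module.End.mul_apply, Module.algebraMap_end_apply, map_smul, LinearMap.smul_apply, h1]

theorem form_aeval' (hiso : ∀ u v, B (T u) (T v) = B u v) (hr : r ≠ 0) (hTr : T ^ r = 1) (g : F[X]) (u v : V) :
    B (aeval (T ^ (r - 1)) g u) v = B u (aeval T g v) := by
  have h1 : ∀ (n : ℕ) (u v : V), B (((T ^ (r - 1)) ^ n) u) v = B u ((T ^ n) v) := by
    intro n
    induction n with
    | zero => simp
    | succ n ih =>
      intro u v
      rw [pow_succ, Module.End.mul_apply, ih, adj2 hiso hr hTr, pow_succ']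
      rfl
  induction g using Polynomial.induction_on' with
  | add p q hp hq => simp only [map_add, LinearMap.add_apply, hp, hq]
  | monomial n a =>
    simp only [aeval_monomial, Module.End.mul_apply, Module.algebraMap_end_apply, map_smul, LinearMap.smul_apply, h1]

/-- Dimension parity for fixed-point-free isometries of odd order. -/
theorem even_of_fixfree (hB : GoodForm B) (hiso : ∀ u v, B (T u) (T v) = B u v) (hr : Odd r) (hTr : T ^ r = 1) {U : Submodule F V}
    (hU : NDOn B U) (hinv : InvOn T U) (hfree : FixFree T U) : Even (finrank F U) := by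
  classical
  rcases hB with halt | ⟨h2, hsym⟩
  · obtain ⟨m, hm⟩ := Cfsg.Agent.Lib.SpInvol.even_finrank (V := U) (B.domRestrict₁₂ U U) (fun v => halt v.1) (fun v hv => by
      apply Subtype.ext
      apply hU v.1 v.2
      intro w hw
      exact hv ⟨w, hw⟩)
    rw [hm]
    exact even_two_mul m
  · by_contra hodd
    rw [Nat.not_even_iff_odd] at hodd
    let S : Module.End F U := T.restrict hinv
    have hS : ∀ u : U, ((S u : U) : V) = T u := fun u => rfl
    let b := Module.finBasis F U
    let A : Matrix (Fin (finrank F U)) (Fin (finrank F U)) F := LinearMap.toMatrix b b S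
    let G : Matrix (Fin (finrank F U)) (Fin (finrank F U)) F := Matrix.of fun i j => B (b i) (b j)
    have hSb : ∀ j, S (b j) = ∑ k, A k j • b k := by
      intro j
      have h1 := b.sum_repr (S (b j))
      rw [← h1]
      refine Finset.sum_congr rfl fun k _ => ?_
      simp only [A, LinearMap.toMatrix_apply]
    have hform : ∀ i j, B ((S (b i) : U) : V) ((S (b j) : U) : V) = G i j := by
      intro i j
      rw [hS, hS, hiso]
      rfl
    have hmat : A.transpose * G * A = G := by
      ext i j
      rw [← hform i j, hSb i, hSb j]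
      simp only [Matrix.mul_apply, Matrix.transpose_apply, AddSubmonoidClass.coe_finset_sum, SetLike.val_smul, map_sum, map_smul, LinearMap.sum_apply, LinearMap.smul_apply, smul_eq_mul, G, Matrix.of_apply]
      refine Finset.sum_congr rfl fun k _ => ?_
      ring
    have hGdet : G.det ≠ 0 := by
      intro h0
      obtain ⟨w, hw0, hw⟩ := Matrix.exists_mulVec_eq_zero_iff.mpr h0
      apply hw0
      have h1 : (∑ k, w k • b k) = 0 := by
        apply Subtype.ext
        apply hU _ (Subtype.coe_prop _)
        intro y hy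
        let y' : U := ⟨y, hy⟩
        have h3 : y = ((∑ l, b.repr y' l • b l : U) : V) := by
          rw [b.sum_repr]
        rw [h3]
        simp only [AddSubmonoidClass.coe_finset_sum, SetLike.val_smul, map_sum, map_smul, LinearMap.sum_apply, LinearMap.smul_apply, smul_eq_mul]
        refine Finset.sum_eq_zero fun l _ => ?_
        have h4 := congrFun hw l
        simp only [Matrix.mulVec, dotProduct, G, Matrix.of_apply, Pi.zero_apply] at h4
        have h5 : ∑ x, w x * B (b x : V) (b l : V) = 0 := by
          rw [← h4]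
          refine Finset.sum_congr rfl fun x _ => ?_
          rw [hsym]
          ring
        rw [h5, mul_zero]
      funext k
      exact Fintype.linearIndependent_iff.mp b.linearIndependent w h1 k
    have hSr : S ^ r = 1 := by
      have h1 : ∀ (k : ℕ) (u : U), (((S ^ k) u : U) : V) = (T ^ k) u := by
        intro k
        induction k with
        | zero => simp
        | succ k ih =>
          intro u
          rw [pow_succ, pow_succ, Module.End.mul_apply, Module.End.mul_apply, ih, hS]
      ext u
      rw [h1, hTr]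
      rfl
    have hAdet : A.det = LinearMap.det S := LinearMap.det_toMatrix b S
    have hd1 : A.det ^ r = 1 := by
      rw [hAdet, ← map_pow, hSr, map_one]
    have hd2 : A.det * A.det = 1 := by
      have h1 := congrArg Matrix.det hmat
      rw [Matrix.det_mul, Matrix.det_mul, Matrix.det_transpose] at h1
      have h3 : (A.det * A.det - 1) * G.det = 0 := by linear_combination h1
      rcases mul_eq_zero.mp h3 with h4 | h4
      · exact sub_eq_zero.mp h4
      · exact absurd h4 hGdet
    have hdet1 : A.det = 1 := by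
      obtain ⟨k, hk⟩ := hr
      rw [hk, pow_succ, pow_mul, pow_two, hd2, one_pow, one_mul] at hd1
      exact hd1
    have hA1 : (A - 1).det = 0 := by
      have h1 : A.transpose * G * (A - 1) = (1 - A.transpose) * G := by
        rw [mul_sub, hmat, sub_mul, mul_one, one_mul]
      have h3 := congrArg Matrix.det h1
      rw [Matrix.det_mul, Matrix.det_mul, Matrix.det_mul, Matrix.det_transpose, hdet1, one_mul] at h3
      have h4 : (1 - A.transpose) = (-(A - 1)).transpose := by
        ext i j
        simp [Matrix.one_apply, eq_comm]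
      rw [h4, Matrix.det_transpose, Matrix.det_neg, Fintype.card_fin, hodd.neg_one_pow, neg_one_mul] at h3
      have h5 : (2 * (A - 1).det) * G.det = 0 := by linear_combination h3
      rcases mul_eq_zero.mp h5 with h6 | h6
      · exact (mul_eq_zero.mp h6).resolve_left h2
      · exact absurd h6 hGdet
    have h5 : LinearMap.det (S - 1) = 0 := by
      rw [← LinearMap.det_toMatrix b, map_sub, LinearMap.toMatrix_one]
      exact hA1
    obtain ⟨u, hu, hu0⟩ := SetLike.exists_of_lt (LinearMap.bot_lt_ker_of_det_eq_zero h5)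
    have hu1 : S u = u := by
      have := LinearMap.mem_ker.mp hu
      rw [LinearMap.sub_apply, sub_eq_zero] at this
      exact this
    apply hu0
    rw [Submodule.mem_bot]
    apply Subtype.ext
    apply hfree _ u.2
    rw [← hS, hu1]

end isom

section factor

variable [FiniteDimensional F V]

theorem natDegree_factor [Fintype F] {r q : ℕ} (hq : Fintype.card F = q) [hrf : Fact r.Prime] (hrF : (r : F) ≠ 0) (h : F[X]) (hh : Irreducible h)
    (hd : h ∣ cyclotomic r F) : h.natDegree = orderOf (q : ZMod r) := by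
  classical
  obtain ⟨p, hpc⟩ := CharP.exists F
  obtain ⟨n, hp, hn⟩ := FiniteField.card F p
  haveI : Fact p.Prime := ⟨hp⟩
  have hco : p.Coprime r := by
    rw [Nat.coprime_primes hp hrf.out]
    rintro rfl
    exact hrF (CharP.cast_eq_zero F p)
  rw [natDegree_of_dvd_cyclotomic_of_irreducible hn hco hd hh, ← orderOf_units, ZMod.coe_unitOfCoprime, ← hq, hn]

/-- A polynomial killing a nonzero vector has an irreducible factor killing a nonzero vector. -/
theorem exists_factor_vec (T : V →ₗ[F] V) : ∀ (n : ℕ) (P : F[X]), P.natDegree = n → P ≠ 0 → ∀ w : V, w ≠ 0 → aeval T P w = 0 →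
    ∃ h : F[X], Irreducible h ∧ h ∣ P ∧ ∃ w' : V, w' ≠ 0 ∧ aeval T h w' = 0 := by
  intro n
  induction n using Nat.strong_induction_on with
  | _ n ih =>
    intro P hn hP w hw h0
    have hnu : ¬ IsUnit P := by
      intro hu
      obtain ⟨Q, hQ⟩ := hu.exists_right_inv
      apply hw
      have h1 : aeval T (Q * P) w = w := by
        rw [mul_comm, hQ, map_one]
        rfl
      rw [aeval_mul_apply, h0, map_zero] at h1
      exact h1.symm
    obtain ⟨h, hh, g, rfl⟩ := WfDvdMonoid.exists_irreducible_factor hnu hP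
    have hg0 : g ≠ 0 := right_ne_zero_of_mul hP
    by_cases hy : aeval T g w = 0
    · have hlt : g.natDegree < n := by
        rw [← hn, natDegree_mul hh.ne_zero hg0]
        have := hh.natDegree_pos
        omega
      obtain ⟨h', hh', hd, w', hw', hk⟩ := ih _ hlt g rfl hg0 w hw hy
      exact ⟨h', hh', hd.trans (Dvd.intro_left _ rfl), w', hw', hk⟩
    · refine ⟨h, hh, Dvd.intro _ rfl, _, hy, ?_⟩
      rw [← aeval_mul_apply]
      exact h0

/-- The same with a pairing. -/
theorem exists_factor_pair (B : V →ₗ[F] V →ₗ[F] F) (T : V →ₗ[F] V) (v : V) : ∀ (n : ℕ) (P : F[X]), P.natDegree = n → P.Separable → ∀ w : V, aeval T P w = 0 →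
    B v w ≠ 0 → ∃ h : F[X], Irreducible h ∧ h ∣ P ∧ ∃ w' : V, aeval T h w' = 0 ∧ B v w' ≠ 0 := by
  intro n
  induction n using Nat.strong_induction_on with
  | _ n ih =>
    intro P hn hP w h0 hvw
    have hP0 : P ≠ 0 := hP.ne_zero
    have hnu : ¬ IsUnit P := by
      intro hu
      obtain ⟨Q, hQ⟩ := hu.exists_right_inv
      apply hvw
      have h1 : aeval T (Q * P) w = w := by
        rw [mul_comm, hQ, map_one]
        rfl
      rw [aeval_mul_apply, h0, map_zero] at h1
      rw [← h1, map_zero]
    obtain ⟨h, hh, g, rfl⟩ := WfDvdMonoid.exists_irreducible_factor hnu hP0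
    have hg0 : g ≠ 0 := right_ne_zero_of_mul hP0
    have hcop : IsCoprime h g := Separable.isCoprime hP
    have hw : w ∈ LinearMap.ker (aeval T h) ⊔ LinearMap.ker (aeval T g) := by
      rw [Polynomial.sup_ker_aeval_eq_ker_aeval_mul_of_coprime T hcop]
      exact h0
    obtain ⟨a, ha, b, hb, rfl⟩ := Submodule.mem_sup.mp hw
    rw [map_add] at hvw
    by_cases hva : B v a = 0
    · have hvb : B v b ≠ 0 := by
        intro h3
        rw [hva, h3, add_zero] at hvw
        exact hvw rfl
      have hlt : g.natDegree < n := by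
        rw [← hn, natDegree_mul hh.ne_zero hg0]
        have := hh.natDegree_pos
        omega
      obtain ⟨h', hh', hd, w', hw', hk⟩ := ih _ hlt g rfl hP.of_mul_right b (LinearMap.mem_ker.mp hb) hvb
      exact ⟨h', hh', hd.trans (Dvd.intro_left _ rfl), w', hw', hk⟩
    · exact ⟨h, hh, Dvd.intro _ rfl, a, LinearMap.mem_ker.mp ha, hva⟩

theorem eq_zero_of_fix (T : V →ₗ[F] V) (h : F[X]) (hc : IsCoprime (X - C 1 : F[X]) h) (u : V) (hu : aeval T h u = 0) (hfix : T u = u) : u = 0 := by
  obtain ⟨a, b, hab⟩ := hc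
  have h1 : aeval T (a * (X - C 1) + b * h) u = u := by
    rw [hab, map_one]
    rfl
  rw [map_add, LinearMap.add_apply, aeval_mul_apply, aeval_mul_apply, hu, map_zero, add_zero] at h1
  have h2 : aeval T (X - C 1 : F[X]) u = 0 := by
    simp [sub_eq_zero, hfix]
  rw [h2, map_zero] at h1
  exact h1.symm

end factor

section simple

variable [FiniteDimensional F V] {B : V →ₗ[F] V →ₗ[F] F} {T : V →ₗ[F] V} {r : ℕ}

theorem inv_pow {U : Submodule F V} (hU : InvOn T U) (k : ℕ) {u : V} (hu : u ∈ U) : (T ^ k) u ∈ U := by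
  induction k with
  | zero => simpa using hu
  | succ k ih =>
    rw [pow_succ', Module.End.mul_apply]
    exact hU _ ih

theorem inv_perp (hiso : ∀ u v, B (T u) (T v) = B u v) (hr : r ≠ 0) (hTr : T ^ r = 1) {U : Submodule F V} (hU : InvOn T U) :
    InvOn T (perp B U) := by
  intro v hv w hw
  rw [← adj2 hiso hr hTr]
  exact hv _ (inv_pow hU _ hw)

theorem inv_inf {U W : Submodule F V} (hU : InvOn T U) (hW : InvOn T W) : InvOn T (U ⊓ W) := fun u hu => ⟨hU u hu.1, hW u hu.2⟩

/-- Simple invariant subspaces. -/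
def SimpleOn (T : V →ₗ[F] V) (U : Submodule F V) : Prop := ∀ W : Submodule F V, InvOn T W → W ≤ U → W = ⊥ ∨ W = U

/-- A simple invariant subspace is nondegenerate or totally isotropic. -/
theorem rad_dichotomy (hB : GoodForm B) (hiso : ∀ u v, B (T u) (T v) = B u v) (hr : r ≠ 0) (hTr : T ^ r = 1) {U : Submodule F V}
    (hU : InvOn T U) (hs : SimpleOn T U) : NDOn B U ∨ ∀ a ∈ U, ∀ b ∈ U, B a b = 0 := by
  rcases hs (U ⊓ perp B U) (inv_inf hU (inv_perp hiso hr hTr hU)) inf_le_left with h | h
  · left
    intro u hu h0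
    have : u ∈ U ⊓ perp B U := ⟨hu, fun w hw => hB.refl (h0 w hw)⟩
    rw [h] at this
    exact this
  · right
    intro a ha b hb
    have : b ∈ U ⊓ perp B U := by rw [h]; exact hb
    exact this.2 a ha

/-- A pairing between two simple invariant subspaces. -/
theorem pair_dichotomy (hB : GoodForm B) (hiso : ∀ u v, B (T u) (T v) = B u v) (hr : r ≠ 0) (hTr : T ^ r = 1) {U U' : Submodule F V}
    (hU : InvOn T U) (hU' : InvOn T U') (hs : SimpleOn T U) {v w : V} (hv : v ∈ U) (hw : w ∈ U') (hvw : B v w ≠ 0) :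
    ∀ a ∈ U, (∀ z ∈ U', B a z = 0) → a = 0 := by
  intro a ha h0
  rcases hs (U ⊓ perp B U') (inv_inf hU (inv_perp hiso hr hTr hU')) inf_le_left with h | h
  · have : a ∈ U ⊓ perp B U' := ⟨ha, fun z hz => hB.refl (h0 z hz)⟩
    rw [h] at this
    exact this
  · exfalso
    have : v ∈ U ⊓ perp B U' := by rw [h]; exact hv
    exact hvw (hB.refl (this.2 w hw))

/-- The fixed vectors. -/
def fixS (T : V →ₗ[F] V) (U : Submodule F V) : Submodule F V := U ⊓ LinearMap.ker (T - LinearMap.id)

theorem mem_fixS {U : Submodule F V} {u : V} : u ∈ fixS T U ↔ u ∈ U ∧ T u = u := by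
  simp [fixS, sub_eq_zero]

theorem fixS_le (U : Submodule F V) : fixS T U ≤ U := inf_le_left

theorem inv_fixS (U : Submodule F V) : InvOn T (fixS T U) := by
  intro u hu
  rw [mem_fixS] at hu
  rw [hu.2]
  exact mem_fixS.mpr hu

/-- The fixed space of a nondegenerate invariant subspace is nondegenerate. -/
theorem nd_fixS (hB : GoodForm B) (hiso : ∀ u v, B (T u) (T v) = B u v) (hr : r ≠ 0) (hrF : (r : F) ≠ 0) (hTr : T ^ r = 1) {U : Submodule F V}
    (hU : NDOn B U) (hinv : InvOn T U) : NDOn B (fixS T U) := by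
  classical
  intro v hv h0
  have hv' := mem_fixS.mp hv
  apply hU v hv'.1
  intro w hw
  let w₀ : V := (r : F)⁻¹ • ∑ j ∈ Finset.range r, (T ^ j) w
  have hw₀ : w₀ ∈ fixS T U := by
    rw [mem_fixS]
    constructor
    · apply U.smul_mem
      apply U.sum_mem
      intro j _
      exact inv_pow hinv j hw
    · simp only [w₀, map_smul, map_sum]
      congr 1
      have h1 : ∀ j, T ((T ^ j) w) = (T ^ (j + 1)) w := fun j => by
        rw [pow_succ', Module.End.mul_apply]
      simp only [h1]
      have h2 := Finset.sum_range_succ (fun j => (T ^ j) w) r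
      have h3 := Finset.sum_range_succ' (fun j => (T ^ j) w) r
      rw [h2, hTr] at h3
      simp only [pow_zero] at h3
      exact (add_right_cancel h3).symm
  have hfv : ∀ j : ℕ, (T ^ j) v = v := by
    intro j
    induction j with
    | zero => simp
    | succ j ih => rw [pow_succ, Module.End.mul_apply, hv'.2, ih]
  have h1 : B v w₀ = B v w := by
    simp only [w₀, map_smul, map_sum, smul_eq_mul]
    have h2 : ∀ j, B v ((T ^ j) w) = B v w := by
      intro j
      conv_lhs => rw [← hfv j]
      exact form_pow hiso j v w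
    simp only [h2, Finset.sum_const, Finset.card_range, nsmul_eq_mul]
    field_simp
  rw [← h1]
  exact h0 _ hw₀

/-- Fixed vectors are orthogonal to fixed-point-free invariant subspaces. -/
theorem fix_orth_free (hiso : ∀ u v, B (T u) (T v) = B u v) {W : Submodule F V} (hWinv : InvOn T W) (hW : FixFree T W) {v : V} (hv : T v = v) (w : V) (hw : w ∈ W) :
    B w v = 0 := by
  classical
  -- `T - 1` is bijective on `W`
  let S : W →ₗ[F] W := (T - LinearMap.id).restrict (fun u hu => W.sub_mem (hWinv u hu) hu)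
  have hSi : Function.Injective S := by
    rw [← LinearMap.ker_eq_bot, LinearMap.ker_eq_bot']
    intro u hu
    apply Subtype.ext
    apply hW u.1 u.2
    have := congrArg Subtype.val hu
    exact sub_eq_zero.mp this
  have hSs : Function.Surjective S := LinearMap.injective_iff_surjective.mp hSi
  obtain ⟨w', hw'⟩ := hSs ⟨w, hw⟩
  have h1 : w = T w' - w' := (congrArg Subtype.val hw').symm
  rw [h1, map_sub, LinearMap.sub_apply]
  nth_rewrite 1 [← hv]
  rw [hiso, sub_self]

end simple

section main

variable [Fintype F] [FiniteDimensional F V] {B : V →ₗ[F] V →ₗ[F] F} {T : V →ₗ[F] V} {r q : ℕ}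

/-- Frobenius powers of polynomial evaluations. -/
theorem expand_card_pow (hq : Fintype.card F = q) (h : F[X]) (e : ℕ) : expand F (q ^ e) h = h ^ (q ^ e) := by
  induction e with
  | zero => simp
  | succ e ih =>
    subst hq
    rw [pow_succ', Polynomial.expand_mul, FiniteField.expand_card, ih, ← pow_mul, mul_comm]

theorem aeval_frob (hq : Fintype.card F = q) (h : F[X]) (e : ℕ) (hq0 : q ≠ 0) (u : V) (hu : aeval T h u = 0) : aeval (T ^ (q ^ e)) h u = 0 := by
  rw [← Polynomial.expand_aeval, expand_card_pow hq, map_pow]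
  have hpos : q ^ e ≠ 0 := pow_ne_zero _ hq0
  obtain ⟨k, hk⟩ := Nat.exists_eq_succ_of_ne_zero hpos
  rw [hk, pow_succ, Module.End.mul_apply, hu, map_zero]

theorem not_dvd_card [hrf : Fact r.Prime] (hq : Fintype.card F = q) (hrF : (r : F) ≠ 0) : ¬ r ∣ q := by
  obtain ⟨p, hpc⟩ := CharP.exists F
  obtain ⟨n, hp, hn⟩ := FiniteField.card F p
  intro h
  rw [← hq, hn] at h
  have h1 : r ∣ p := hrf.out.dvd_of_dvd_pow h
  rw [Nat.prime_dvd_prime_iff_eq hrf.out hp] at h1
  subst h1
  exact hrF (CharP.cast_eq_zero F r)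

theorem orderOf_dvd_sub_one [hrf : Fact r.Prime] (hq : Fintype.card F = q) (hrF : (r : F) ≠ 0) : orderOf (q : ZMod r) ∣ r - 1 := by
  apply orderOf_dvd_of_pow_eq_one
  apply ZMod.pow_card_sub_one_eq_one
  intro h
  exact not_dvd_card hq hrF ((ZMod.natCast_eq_zero_iff _ _).mp h)

theorem orderOf_pos' [hrf : Fact r.Prime] (hq : Fintype.card F = q) (hrF : (r : F) ≠ 0) : 0 < orderOf (q : ZMod r) := by
  apply Nat.pos_of_dvd_of_pos (orderOf_dvd_sub_one hq hrF)
  have := hrf.out.two_le
  omega

/-- The size of a block. -/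
noncomputable def blockDim (r q : ℕ) : ℕ := if Even (orderOf (q : ZMod r)) then orderOf (q : ZMod r) else 2 * orderOf (q : ZMod r)

theorem blockDim_pos [hrf : Fact r.Prime] (hq : Fintype.card F = q) (hrF : (r : F) ≠ 0) : 0 < blockDim r q := by
  have := orderOf_pos' hq hrF
  unfold blockDim
  split_ifs <;> omega

theorem blockDim_even (r q : ℕ) : Even (blockDim r q) := by
  unfold blockDim
  split_ifs with h
  · exact h
  · exact even_two_mul _

theorem blockDim_le [hrf : Fact r.Prime] (hq : Fintype.card F = q) (hr2 : r ≠ 2) (hrF : (r : F) ≠ 0) : blockDim r q ≤ r - 1 := by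
  have hr := hrf.out
  have h1 := orderOf_dvd_sub_one hq hrF
  have hpos : 0 < r - 1 := by
    have := hr.two_le
    omega
  unfold blockDim
  split_ifs with h
  · exact Nat.le_of_dvd hpos h1
  · apply Nat.le_of_dvd hpos
    have h2 : 2 ∣ r - 1 := by
      have := hr.odd_of_ne_two hr2
      obtain ⟨k, hk⟩ := this
      exact ⟨k, by omega⟩
    exact Nat.Coprime.mul_dvd_of_dvd_of_dvd (by
      rw [Nat.coprime_two_left]
      exact Nat.not_even_iff_odd.mp h) h2 h1

/-- The block theorem in an abstract space. -/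
theorem exists_block [hrf : Fact r.Prime] (hq : Fintype.card F = q) (hr2 : r ≠ 2) (hrF : (r : F) ≠ 0) (hB : GoodForm B)
    (hnd : ∀ v, (∀ w, B v w = 0) → v = 0) (hiso : ∀ u v, B (T u) (T v) = B u v) (hTr : T ^ r = 1) (hne : T ≠ 1) :
    ∃ W : Submodule F V, InvOn T W ∧ NDOn B W ∧ FixFree T W ∧
      finrank F W = if Even (orderOf (q : ZMod r)) then orderOf (q : ZMod r) else 2 * orderOf (q : ZMod r) := by
  classical
  have hr : r.Prime := hrf.out
  have hr0 : r ≠ 0 := hr.ne_zero
  have hrodd : Odd r := hr.odd_of_ne_two hr2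
  have hq0 : q ≠ 0 := by
    rw [← hq]
    exact Fintype.card_ne_zero
  set i := orderOf (q : ZMod r) with hi
  obtain ⟨v, hv⟩ : ∃ v, T v ≠ v := by
    by_contra hall
    apply hne
    ext v
    by_contra hv
    exact hall ⟨v, hv⟩
  have hmul : (X - C 1 : F[X]) * cyclotomic r F = X ^ r - 1 := Cfsg.Agent.Lib.PrimOrder.mul_cyc r
  have hcop1 : IsCoprime (X - C 1 : F[X]) (cyclotomic r F) := Cfsg.Agent.Lib.PrimOrder.coprime_cyc r hrF
  have hkill : ∀ y, aeval T (X ^ r - 1 : F[X]) y = 0 := by
    intro y
    rw [map_sub, map_pow, aeval_X, hTr, map_one, sub_self]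
    rfl
  have hsep : (X ^ r - 1 : F[X]).Separable := by
    have := separable_X_pow_sub_C (1 : F) hrF one_ne_zero
    simpa using this
  have hw0 : T v - v ≠ 0 := sub_ne_zero.mpr hv
  have hwk : aeval T (cyclotomic r F) (T v - v) = 0 := by
    have h1 : T v - v = aeval T (X - C 1 : F[X]) v := by simp
    rw [h1, ← aeval_mul_apply, mul_comm, hmul]
    exact hkill v
  obtain ⟨h, hh, hhd, w', hw'0, hw'⟩ := exists_factor_vec T _ _ rfl (cyclotomic_ne_zero r F) _ hw0 hwk
  have hdeg : h.natDegree = i := natDegree_factor hq hrF h hh hhd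
  have hcop : IsCoprime (X - C 1 : F[X]) h := hcop1.of_isCoprime_of_dvd_right hhd
  have hfree : ∀ u, aeval T h u = 0 → T u = u → u = 0 := eq_zero_of_fix T h hcop
  by_cases hev : Even i
  · rw [if_pos hev]
    obtain ⟨e, he⟩ := hev
    -- `q ^ e ≡ -1`
    have hi0 : i ≠ 0 := by
      rw [← hdeg]
      exact hh.natDegree_pos.ne'
    have hQ : r ∣ q ^ e + 1 := by
      haveI : Fact r.Prime := hrf
      have h1 : ((q : ZMod r) ^ e) * ((q : ZMod r) ^ e) = 1 := by
        rw [← pow_add, ← he, hi, pow_orderOf_eq_one]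
      have h2 : (q : ZMod r) ^ e ≠ 1 := pow_ne_one_of_lt_orderOf (by omega) (by omega)
      have h3 : ((q : ZMod r) ^ e - 1) * ((q : ZMod r) ^ e + 1) = 0 := by linear_combination h1
      have h4 : (q : ZMod r) ^ e + 1 = 0 := (mul_eq_zero.mp h3).resolve_left (sub_ne_zero.mpr h2)
      apply (ZMod.natCast_eq_zero_iff _ _).mp
      push_cast
      exact h4
    have hTQ : T ^ (q ^ e) = T ^ (r - 1) := by
      obtain ⟨k, hk⟩ := hQ
      have h1 : T ^ (q ^ e) * T = 1 := by
        rw [← pow_succ, hk, pow_mul, hTr, one_pow]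
      calc T ^ (q ^ e) = T ^ (q ^ e) * (T * T ^ (r - 1)) := by rw [T_mul_inv hr0 hTr, mul_one]
        _ = T ^ (r - 1) := by rw [← mul_assoc, h1, one_mul]
    have hSh : ∀ u, aeval T h u = 0 → aeval (T ^ (r - 1)) h u = 0 := by
      intro u hu
      rw [← hTQ]
      exact aeval_frob hq h e hq0 u hu
    set Vh : Submodule F V := LinearMap.ker (aeval T h) with hVh
    have hVhinv : InvOn T Vh := by
      intro u hu
      rw [hVh, LinearMap.mem_ker] at hu ⊢
      rw [aeval_X_comm, hu, map_zero]
    -- the factor of `X ^ r - 1`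
    obtain ⟨g, hg⟩ : h ∣ X ^ r - 1 := hhd.trans (Dvd.intro_left _ hmul)
    have hcopg : IsCoprime h g := Separable.isCoprime (hg ▸ hsep)
    have hVhnd : NDOn B Vh := by
      intro u hu h0
      apply hnd
      intro y
      have hy : y ∈ LinearMap.ker (aeval T h) ⊔ LinearMap.ker (aeval T g) := by
        rw [Polynomial.sup_ker_aeval_eq_ker_aeval_mul_of_coprime T hcopg, ← hg]
        exact hkill y
      obtain ⟨y₁, hy₁, y₂, hy₂, rfl⟩ := Submodule.mem_sup.mp hy
      rw [map_add, h0 y₁ hy₁, zero_add]
      obtain ⟨a, b, hab⟩ := hcopg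
      have h1 : aeval (T ^ (r - 1)) (a * h + b * g) u = u := by
        rw [hab, map_one]
        rfl
      rw [map_add, LinearMap.add_apply, aeval_mul_apply, hSh u hu, map_zero, zero_add, mul_comm, aeval_mul_apply] at h1
      rw [← h1, form_aeval' hiso hr0 hTr, LinearMap.mem_ker.mp hy₂, map_zero]
    -- polarisation
    have hex : ∃ u ∈ Vh, ∃ j : ℕ, B u ((T ^ j) u) ≠ 0 := by
      by_contra hall
      have hall' : ∀ u ∈ Vh, ∀ j : ℕ, B u ((T ^ j) u) = 0 := by
        intro u hu j
        by_contra hne'
        exact hall ⟨u, hu, j, hne'⟩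
      have hpol : ∀ u ∈ Vh, ∀ y ∈ Vh, ∀ j : ℕ, B u ((T ^ j) y) + B y ((T ^ j) u) = 0 := by
        intro u hu y hy j
        have h1 := hall' (u + y) (Vh.add_mem hu hy) j
        simp only [map_add, LinearMap.add_apply, hall' u hu j, hall' y hy j, zero_add, add_zero] at h1
        rwa [add_comm] at h1
      have hw'V : w' ∈ Vh := hw'
      rcases hB with halt | ⟨h2, hsym⟩
      · -- alternating : `T y = T⁻¹ y`
        have hanti : ∀ a b, B a b = - B b a := by
          intro a b
          have h1 := halt (a + b)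
          simp only [map_add, LinearMap.add_apply, halt, zero_add, add_zero] at h1
          linear_combination h1
        have hT2 : ∀ y ∈ Vh, T y = (T ^ (r - 1)) y := by
          intro y hy
          have h1 : T y - (T ^ (r - 1)) y = 0 := by
            apply hVhnd _ (Vh.sub_mem (hVhinv y hy) (inv_pow hVhinv _ hy))
            intro u hu
            have h3 := hpol u hu y hy 1
            rw [pow_one, hanti y (T u), adj1 hiso hr0 hTr] at h3
            rw [map_sub, LinearMap.sub_apply, hanti (T y), hanti ((T ^ (r - 1)) y)]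
            linear_combination -h3
          exact sub_eq_zero.mp h1
        have hT3 : T w' = w' := by
          have h1 : (T * T) w' = w' := by
            rw [Module.End.mul_apply, hT2 w' hw'V, ← Module.End.mul_apply, T_mul_inv hr0 hTr]
            rfl
          obtain ⟨k, hk⟩ := hrodd
          have h3 : (T ^ r) w' = w' := by rw [hTr]; rfl
          have h4 : ∀ l : ℕ, ((T * T) ^ l) w' = w' := by
            intro l
            induction l with
            | zero => simp
            | succ l ih => rw [pow_succ, Module.End.mul_apply, h1, ih]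
          rw [hk, pow_succ', pow_mul, pow_two, Module.End.mul_apply, h4] at h3
          exact h3
        exact hw'0 (hfree w' hw'V hT3)
      · apply hw'0
        apply hVhnd _ hw'V
        intro y hy
        have h3 := hpol w' hw'V y hy 0
        simp only [pow_zero, Module.End.one_apply] at h3
        rw [hsym y w'] at h3
        have h4 : (2 : F) * B w' y = 0 := by linear_combination h3
        exact (mul_eq_zero.mp h4).resolve_left h2
    obtain ⟨u, hu, j, huj⟩ := hex
    have hu0 : u ≠ 0 := by
      rintro rfl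
      simp at huj
    obtain ⟨U, huU, hUinv, hUfin, hUk, hUgen, hUs⟩ := exists_irr_span T h hh u hu0 hu
    rcases rad_dichotomy hB hiso hr0 hTr hUinv hUs with hnd' | hti
    · refine ⟨U, hUinv, hnd', ?_, ?_⟩
      · intro a ha hfix
        exact hfree a (hUk a ha) hfix
      · rw [hUfin, hdeg]
    · exact absurd (hti u huU _ (inv_pow hUinv j huU)) huj
  · rw [if_neg hev]
    obtain ⟨U, huU, hUinv, hUfin, hUk, hUgen, hUs⟩ := exists_irr_span T h hh w' hw'0 hw'
    have hoddU : ¬ Even (finrank F U) := by
      rw [hUfin, hdeg]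
      exact hev
    have hUti : ∀ a ∈ U, ∀ b ∈ U, B a b = 0 := by
      rcases rad_dichotomy hB hiso hr0 hTr hUinv hUs with hnd' | hti
      · exact absurd (even_of_fixfree hB hiso hrodd hTr hnd' hUinv (fun a ha hfix => hfree a (hUk a ha) hfix)) hoddU
      · exact hti
    obtain ⟨y, hy⟩ : ∃ y, B w' y ≠ 0 := by
      by_contra hall
      apply hw'0
      apply hnd
      intro y
      by_contra hne'
      exact hall ⟨y, hne'⟩
    obtain ⟨h', hh', hd', y', hk', hBy'⟩ := exists_factor_pair B T w' _ _ rfl hsep y (hkill y) hy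
    have hy'0 : y' ≠ 0 := by
      rintro rfl
      simp at hBy'
    have hd'' : h' ∣ cyclotomic r F := by
      rw [← hmul] at hd'
      rcases hh'.prime.dvd_or_dvd hd' with hcase | hcase
      · exfalso
        obtain ⟨a, b, hab⟩ := hcop
        have h1 : aeval T (a * (X - C 1) + b * h) w' = w' := by
          rw [hab, map_one]
          rfl
        rw [map_add, LinearMap.add_apply, aeval_mul_apply T b, hw', map_zero, add_zero, mul_comm, aeval_mul_apply] at h1
        have hTy : T y' = y' := by
          obtain ⟨k, hk⟩ := hcase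
          have h3 : aeval T (X - C 1 : F[X]) y' = 0 := by
            rw [hk, mul_comm, aeval_mul_apply, hk', map_zero]
          simpa [sub_eq_zero] using h3
        apply hBy'
        rw [← h1]
        have h4 : aeval T (X - C 1 : F[X]) (aeval T a w') = T (aeval T a w') - aeval T a w' := by simp
        rw [h4, map_sub, LinearMap.sub_apply]
        nth_rewrite 1 [← hTy]
        rw [hiso, sub_self]
      · exact hcase
    have hdeg' : h'.natDegree = i := natDegree_factor hq hrF h' hh' hd''
    have hcop' : IsCoprime (X - C 1 : F[X]) h' := hcop1.of_isCoprime_of_dvd_right hd''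
    have hfree' : ∀ u, aeval T h' u = 0 → T u = u → u = 0 := eq_zero_of_fix T h' hcop'
    obtain ⟨U', huU', hU'inv, hU'fin, hU'k, hU'gen, hU's⟩ := exists_irr_span T h' hh' y' hy'0 hk'
    have hoddU' : ¬ Even (finrank F U') := by
      rw [hU'fin, hdeg']
      exact hev
    have hU'ti : ∀ a ∈ U', ∀ b ∈ U', B a b = 0 := by
      rcases rad_dichotomy hB hiso hr0 hTr hU'inv hU's with hnd' | hti
      · exact absurd (even_of_fixfree hB hiso hrodd hTr hnd' hU'inv (fun a ha hfix => hfree' a (hU'k a ha) hfix)) hoddU'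
      · exact hti
    have hdisj : U ⊓ U' = ⊥ := by
      rcases hUs (U ⊓ U') (inv_inf hUinv hU'inv) inf_le_left with h0 | h0
      · exact h0
      · exfalso
        have : w' ∈ U ⊓ U' := by rw [h0]; exact huU
        exact hBy' (hU'ti _ this.2 _ huU')
    have hpair1 := pair_dichotomy hB hiso hr0 hTr hUinv hU'inv hUs huU huU' hBy'
    have hpair2 := pair_dichotomy hB hiso hr0 hTr hU'inv hUinv hU's huU' huU (fun h0 => hBy' (hB.refl h0))
    refine ⟨U ⊔ U', ?_, ?_, ?_, ?_⟩
    · intro z hz
      obtain ⟨a, ha, b, hb, rfl⟩ := Submodule.mem_sup.mp hz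
      rw [map_add]
      exact Submodule.add_mem_sup (hUinv a ha) (hU'inv b hb)
    · intro z hz h0
      obtain ⟨a, ha, b, hb, rfl⟩ := Submodule.mem_sup.mp hz
      have h1 : a = 0 := by
        apply hpair1 a ha
        intro t ht
        have h3 := h0 t (Submodule.mem_sup_right ht)
        rw [map_add, LinearMap.add_apply, hU'ti b hb t ht, add_zero] at h3
        exact h3
      have h2 : b = 0 := by
        apply hpair2 b hb
        intro t ht
        have h3 := h0 t (Submodule.mem_sup_left ht)
        rw [map_add, LinearMap.add_apply, hUti a ha t ht, zero_add] at h3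
        exact h3
      rw [h1, h2, add_zero]
    · intro z hz hfix
      obtain ⟨a, ha, b, hb, rfl⟩ := Submodule.mem_sup.mp hz
      have h1 : T a - a = b - T b := by
        rw [map_add] at hfix
        linear_combination (norm := abel_nf) hfix
      have h3 : T a - a ∈ U ⊓ U' := ⟨U.sub_mem (hUinv a ha) ha, by
        rw [h1]
        exact U'.sub_mem hb (hU'inv b hb)⟩
      rw [hdisj, Submodule.mem_bot] at h3
      have h4 : T a = a := sub_eq_zero.mp h3
      have h5 : T b = b := by
        have h6 : b - T b = 0 := by rw [← h1]; exact h3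
        exact (sub_eq_zero.mp h6).symm
      rw [hfree a (hUk a ha) h4, hfree' b (hU'k b hb) h5, add_zero]
    · have h2 := Submodule.finrank_sup_add_finrank_inf_eq U U'
      rw [hdisj, finrank_bot, add_zero, hUfin, hU'fin, hdeg, hdeg'] at h2
      omega

/-- The block theorem inside an invariant nondegenerate subspace. -/
theorem exists_block_rel [hrf : Fact r.Prime] (hq : Fintype.card F = q) (hr2 : r ≠ 2) (hrF : (r : F) ≠ 0) (hB : GoodForm B)
    (hiso : ∀ u v, B (T u) (T v) = B u v) (hTr : T ^ r = 1) {U : Submodule F V} (hU : NDOn B U) (hinv : InvOn T U) (hne : ∃ u ∈ U, T u ≠ u) :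
    ∃ W : Submodule F V, W ≤ U ∧ InvOn T W ∧ NDOn B W ∧ FixFree T W ∧
      finrank F W = if Even (orderOf (q : ZMod r)) then orderOf (q : ZMod r) else 2 * orderOf (q : ZMod r) := by
  classical
  let B' : U →ₗ[F] U →ₗ[F] F := B.domRestrict₁₂ U U
  let T' : U →ₗ[F] U := T.restrict hinv
  have hB'a : ∀ a b : U, B' a b = B a b := fun a b => rfl
  have hT'a : ∀ a : U, ((T' a : U) : V) = T a := fun a => rfl
  have hT'p : ∀ (k : ℕ) (u : U), (((T' ^ k) u : U) : V) = (T ^ k) u := by
    intro k
    induction k with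
    | zero => simp
    | succ k ih =>
      intro u
      rw [pow_succ, pow_succ, Module.End.mul_apply, Module.End.mul_apply, ih, hT'a]
  have hgood : GoodForm B' := by
    rcases hB with h | ⟨h2, h⟩
    · exact Or.inl fun v => h v
    · exact Or.inr ⟨h2, fun a b => h a b⟩
  obtain ⟨W', h1, h2, h3, h4⟩ := exists_block (B := B') (T := T') hq hr2 hrF hgood
    (fun v hv => Subtype.ext (hU v.1 v.2 fun w hw => hv ⟨w, hw⟩))
    (fun a b => hiso a b)
    (by
      ext u
      rw [hT'p, hTr]
      rfl)
    (by
      intro h0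
      obtain ⟨u, hu, hu2⟩ := hne
      apply hu2
      have := congrArg Subtype.val (LinearMap.congr_fun h0 ⟨u, hu⟩)
      exact this)
  refine ⟨W'.map U.subtype, ?_, ?_, ?_, ?_, ?_⟩
  · exact Submodule.map_subtype_le U W'
  · rintro _ ⟨a, ha, rfl⟩
    exact ⟨T' a, h1 a ha, rfl⟩
  · rintro _ ⟨a, ha, rfl⟩ h0
    have : a = 0 := h2 a ha fun w hw => h0 _ ⟨w, hw, rfl⟩
    rw [this]
    simp
  · rintro _ ⟨a, ha, rfl⟩ h0
    have : a = 0 := h3 a ha (Subtype.ext h0)
    rw [this]
    simp
  · rw [← h4]
    exact Submodule.finrank_map_subtype_eq U W'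

/-- Dimensions of fixed-point-free invariant subspaces are multiples of the block size. -/
theorem dvd_finrank_of_fixfree [hrf : Fact r.Prime] (hq : Fintype.card F = q) (hr2 : r ≠ 2) (hrF : (r : F) ≠ 0) (hB : GoodForm B)
    (hiso : ∀ u v, B (T u) (T v) = B u v) (hTr : T ^ r = 1) : ∀ (n : ℕ) (U : Submodule F V), finrank F U = n → NDOn B U → InvOn T U → FixFree T U →
      (if Even (orderOf (q : ZMod r)) then orderOf (q : ZMod r) else 2 * orderOf (q : ZMod r)) ∣ n := by
  intro n
  induction n using Nat.strong_induction_on with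
  | _ n ih =>
    intro U hn hU hinv hfree
    by_cases hbot : U = ⊥
    · subst hbot
      rw [finrank_bot] at hn
      rw [← hn]
      exact dvd_zero _
    obtain ⟨u, hu, hu0⟩ := (Submodule.ne_bot_iff U).mp hbot
    obtain ⟨W, hWU, hWinv, hWnd, hWfree, hWfin⟩ := exists_block_rel hq hr2 hrF hB hiso hTr hU hinv ⟨u, hu, fun h => hu0 (hfree u hu h)⟩
    have h1 := finrank_rel hB hWU hWnd
    rw [hWfin] at h1
    have hpos := blockDim_pos hq hrF
    unfold blockDim at hpos
    have hlt : finrank F (U ⊓ perp B W : Submodule F V) < n := by omega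
    have h2 := ih _ hlt (U ⊓ perp B W) rfl (nd_rel hB hWU hWnd hU)
      (inv_inf hinv (inv_perp hiso hrf.out.ne_zero hTr hWinv)) (fun u hu hfix => hfree u hu.1 hfix)
    rw [← hn, ← h1]
    exact Dvd.dvd.add (dvd_refl _) h2

/-- The fixed space has the expected dimension modulo the block size. -/
theorem finrank_fix_add [hrf : Fact r.Prime] (hq : Fintype.card F = q) (hr2 : r ≠ 2) (hrF : (r : F) ≠ 0) (hB : GoodForm B)
    (hiso : ∀ u v, B (T u) (T v) = B u v) (hTr : T ^ r = 1) {U : Submodule F V} (hU : NDOn B U) (hinv : InvOn T U) :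
    ∃ k, finrank F U = finrank F (fixS T U) + blockDim r q * k := by
  have h0 := nd_fixS hB hiso hrf.out.ne_zero hrF hTr hU hinv
  have h1 := finrank_rel hB (fixS_le U) h0
  have h2 := dvd_finrank_of_fixfree hq hr2 hrF hB hiso hTr _ (U ⊓ perp B (fixS T U)) rfl (nd_rel hB (fixS_le U) h0 hU)
    (inv_inf hinv (inv_perp hiso hrf.out.ne_zero hTr (inv_fixS U))) (by
      intro u hu hfix
      apply h0 u (mem_fixS.mpr ⟨hu.1, hfix⟩)
      intro w hw
      exact hB.refl (hu.2 w hw))
  obtain ⟨k, hk⟩ := h2
  exact ⟨k, by rw [← h1, hk]; rfl⟩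

end main

end Cfsg.Agent.Lib.IsomBlock
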