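import Mathlib
import Cfsg.Agent.Lib.QuadClass2
import Cfsg.Agent.Lib.IsomBlock

/-!
# Hyperbolic and elliptic even-dimensional subspaces of an odd-characteristic quadratic space
-/

set_option autoImplicit false
set_option linter.unusedSectionVars false
set_option linter.unusedSimpArgs false
set_option linter.unusedVariables false

universe u v

namespace Cfsg.Agent.Lib.HypEll

open Module QuadraticMap Cfsg.Agent.Lib.QuadFF Cfsg.Agent.Lib.IsomBlock Cfsg.Agent.Lib.QuadClass2

variable {F : Type u} [Field F] {V : Type v} [AddCommGroup V] [Module F V]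

/-- The polar form, as a bilinear map. -/
abbrev Bf (Q : QuadraticForm F V) : V →ₗ[F] V →ₗ[F] F := polarBilin Q

theorem Bf_apply (Q : QuadraticForm F V) (u v : V) : Bf Q u v = polar Q u v := rfl

theorem good (h2 : (2 : F) ≠ 0) (Q : QuadraticForm F V) : GoodForm (Bf Q) :=
  Or.inr ⟨h2, fun u v => polar_comm Q u v⟩

/-- Orthogonality of subspaces. -/
def Orth (Q : QuadraticForm F V) (W W' : Submodule F V) : Prop := ∀ u ∈ W, ∀ v ∈ W', polar Q u v = 0

theorem Orth.symm {Q : QuadraticForm F V} {W W' : Submodule F V} (h : Orth Q W W') : Orth Q W' W :=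
  fun u hu v hv => by rw [polar_comm]; exact h v hv u hu

theorem Orth.mono {Q : QuadraticForm F V} {W W' X X' : Submodule F V} (h : Orth Q W W') (h1 : X ≤ W) (h2 : X' ≤ W') :
    Orth Q X X' := fun u hu v hv => h u (h1 hu) v (h2 hv)

theorem Orth.sup_right {Q : QuadraticForm F V} {W W' W'' : Submodule F V} (h : Orth Q W W') (h' : Orth Q W W'') :
    Orth Q W (W' ⊔ W'') := by
  intro u hu v hv
  obtain ⟨a, ha, b, hb, rfl⟩ := Submodule.mem_sup.1 hv
  rw [polar_add_right, h u hu a ha, h' u hu b hb, add_zero]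

theorem Orth.sup_left {Q : QuadraticForm F V} {W W' W'' : Submodule F V} (h : Orth Q W W'') (h' : Orth Q W' W'') :
    Orth Q (W ⊔ W') W'' := (Orth.sup_right h.symm h'.symm).symm

/-- Hyperbolic subspaces. -/
def Hyp (Q : QuadraticForm F V) (W : Submodule F V) : Prop :=
  NDOn (Bf Q) W ∧ ∃ U : Submodule F V, U ≤ W ∧ (∀ v ∈ U, Q v = 0) ∧ 2 * finrank F U = finrank F W

/-- Anisotropic planes. -/
def Ani (Q : QuadraticForm F V) (A : Submodule F V) : Prop :=
  (∀ v ∈ A, Q v = 0 → v = 0) ∧ finrank F A = 2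

/-- Elliptic subspaces. -/
def Ell (Q : QuadraticForm F V) (W : Submodule F V) : Prop :=
  ∃ A H : Submodule F V, Ani Q A ∧ Hyp Q H ∧ Orth Q A H ∧ A ⊔ H = W

theorem polar_of_ts {Q : QuadraticForm F V} {U : Submodule F V} (hU : ∀ v ∈ U, Q v = 0) {u v : V} (hu : u ∈ U) (hv : v ∈ U) :
    polar Q u v = 0 := by
  rw [polar, hU _ (U.add_mem hu hv), hU u hu, hU v hv]
  simp

theorem ts_sup {Q : QuadraticForm F V} {U U' : Submodule F V} (hU : ∀ v ∈ U, Q v = 0) (hU' : ∀ v ∈ U', Q v = 0)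
    (h : Orth Q U U') : ∀ v ∈ U ⊔ U', Q v = 0 := by
  intro v hv
  obtain ⟨a, ha, b, hb, rfl⟩ := Submodule.mem_sup.1 hv
  rw [Q_ad, hU a ha, hU' b hb, h a ha b hb]
  simp

theorem hyp_bot (Q : QuadraticForm F V) : Hyp Q ⊥ := by
  refine ⟨fun u hu _ => by simpa using hu, ⊥, le_rfl, fun v hv => ?_, by simp⟩
  rw [Submodule.mem_bot] at hv
  rw [hv, QuadraticMap.map_zero]

section fd

variable [FiniteDimensional F V]

theorem finrank_sup_of_orth (h2 : (2 : F) ≠ 0) {Q : QuadraticForm F V} {W W' : Submodule F V} (hW : NDOn (Bf Q) W)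
    (h : Orth Q W W') : finrank F (W ⊔ W' : Submodule F V) = finrank F W + finrank F W' :=
  finrank_sup_orth (good h2 Q) hW h

theorem hyp_sup (h2 : (2 : F) ≠ 0) {Q : QuadraticForm F V} {W W' : Submodule F V} (hW : Hyp Q W) (hW' : Hyp Q W')
    (h : Orth Q W W') : Hyp Q (W ⊔ W') := by
  obtain ⟨h1, U, hUW, hU, hUd⟩ := hW
  obtain ⟨h1', U', hUW', hU', hUd'⟩ := hW'
  refine ⟨nd_sup (good h2 Q) h1 h1' h, U ⊔ U', sup_le_sup hUW hUW', ts_sup hU hU' (h.mono hUW hUW'), ?_⟩
  rw [finrank_sup_of_orth h2 h1 h]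
  have h3 := Submodule.finrank_sup_add_finrank_inf_eq U U'
  have h4 : U ⊓ U' = ⊥ :=
    ((disjoint_of_orth (good h2 Q) h1 h).mono hUW hUW').eq_bot
  rw [h4, finrank_bot, add_zero] at h3
  omega

theorem nd_of_ani (h2 : (2 : F) ≠ 0) {Q : QuadraticForm F V} {A : Submodule F V} (hA : Ani Q A) : NDOn (Bf Q) A := by
  intro u hu h0
  apply hA.1 u hu
  have := h0 u hu
  rw [Bf_apply, polar_self_eq] at this
  exact (mul_eq_zero.1 this).resolve_left h2

theorem Ell.nd (h2 : (2 : F) ≠ 0) {Q : QuadraticForm F V} {W : Submodule F V} (hW : Ell Q W) : NDOn (Bf Q) W := by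
  obtain ⟨A, H, hA, hH, h, rfl⟩ := hW
  exact nd_sup (good h2 Q) (nd_of_ani h2 hA) hH.1 h

theorem Ell.finrank (h2 : (2 : F) ≠ 0) {Q : QuadraticForm F V} {W : Submodule F V} (hW : Ell Q W) :
    ∃ n, finrank F W = 2 * (n + 1) := by
  obtain ⟨A, H, hA, hH, h, rfl⟩ := hW
  rw [finrank_sup_of_orth h2 (nd_of_ani h2 hA) h, hA.2]
  obtain ⟨_, U, _, _, hd⟩ := hH
  exact ⟨Module.finrank F U, by omega⟩

theorem ell_sup_hyp (h2 : (2 : F) ≠ 0) {Q : QuadraticForm F V} {W W' : Submodule F V} (hW : Ell Q W) (hW' : Hyp Q W')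
    (h : Orth Q W W') : Ell Q (W ⊔ W') := by
  obtain ⟨A, H, hA, hH, hAH, rfl⟩ := hW
  refine ⟨A, H ⊔ W', hA, hyp_sup h2 hH hW' (h.mono le_sup_right le_rfl),
    hAH.sup_right (h.mono le_sup_left le_rfl), ?_⟩
  rw [sup_assoc]

/-- Restricted forms. -/
theorem nd_restr {Q : QuadraticForm F V} {U : Submodule F V} (hU : NDOn (Bf Q) U) : ND (restr Q U) := by
  rintro ⟨x, hx⟩ h
  apply Subtype.ext
  apply hU x hx
  intro w hw
  have := h ⟨w, hw⟩
  rwa [polar_restr] at this

theorem finrank_comap_of_le {S W : Submodule F V} (h : S ≤ W) : finrank F (S.comap W.subtype) = finrank F S :=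
  (Submodule.comapSubtypeEquivOfLe h).finrank_eq

theorem not_hyp_of_ell {Q : QuadraticForm F V} (h2 : (2 : F) ≠ 0) {W : Submodule F V} (hE : Ell Q W) : ¬ Hyp Q W := by
  rintro ⟨hnd, K, hKW, hK, hKd⟩
  obtain ⟨A, H, hA, ⟨hH, U, hUH, hU, hUd⟩, hAH, rfl⟩ := hE
  set W := A ⊔ H with hW
  have hAW : A ≤ W := le_sup_left
  have hHW : H ≤ W := le_sup_right
  have hWd : finrank F W = 2 * finrank F U + 2 := by
    rw [hW, finrank_sup_of_orth h2 (nd_of_ani h2 hA) hAH, hA.2]
    omega
  have h3 := finrank_le_of_witness (Q := restr Q W) (m := finrank F U) (nd_restr hnd) (by rw [hWd])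
    (A.comap W.subtype) (U.comap W.subtype)
    (by
      intro v hv h0
      apply Subtype.ext
      exact hA.1 _ hv h0)
    (by rw [finrank_comap_of_le hAW]; exact hA.2)
    (fun v hv => hU _ hv)
    (finrank_comap_of_le (hUH.trans hHW))
    (by
      intro u hu a ha
      rw [polar_restr]
      have := hAH a ha u (hUH hu)
      rwa [polar_comm] at this)
    (K.comap W.subtype)
    (fun v hv => hK _ hv)
  rw [finrank_comap_of_le hKW] at h3
  omega

theorem exists_partner_rel {Q : QuadraticForm F V} {U : Submodule F V} (hU : NDOn (Bf Q) U) {e : V} (he : e ∈ U)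
    (he0 : e ≠ 0) (hQ : Q e = 0) : ∃ f ∈ U, IsHyp Q e f := by
  obtain ⟨f, hf⟩ := exists_hyp_partner (Q := restr Q U) (v := ⟨e, he⟩) (nd_restr hU)
    (fun h => he0 (congrArg Subtype.val h)) hQ
  refine ⟨f, f.2, hf.Qv, hf.Qw, ?_⟩
  have := hf.vw
  rwa [polar_restr] at this

/-- Dimension of the span of an independent pair. -/
theorem finrank_pair {x y : V} (h : ∀ s t : F, s • x + t • y = 0 → s = 0 ∧ t = 0) :
    finrank F (Submodule.span F {x, y}) = 2 := by
  have hli : LinearIndependent F ![x, y] := LinearIndependent.pair_iff.2 h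
  have := finrank_span_eq_card hli
  have e : Set.range ![x, y] = {x, y} := by
    ext z
    simp only [Set.mem_range, Set.mem_insert_iff, Set.mem_singleton_iff]
    constructor
    · rintro ⟨i, rfl⟩
      fin_cases i <;> simp
    · rintro (rfl | rfl)
      · exact ⟨0, rfl⟩
      · exact ⟨1, rfl⟩
  rw [e] at this
  simpa using this

theorem hyp_ne_zero {Q : QuadraticForm F V} {e f : V} (h : IsHyp Q e f) : e ≠ 0 := by
  rintro rfl
  have := h.vw
  simp at this

theorem hyp_plane {Q : QuadraticForm F V} {e f : V} (h2 : (2 : F) ≠ 0) (h : IsHyp Q e f) :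
    Hyp Q (Submodule.span F {e, f}) ∧ finrank F (Submodule.span F {e, f}) = 2 := by
  have hee : polar Q e e = 0 := by rw [polar_self_eq, h.Qv]; simp
  have hff : polar Q f f = 0 := by rw [polar_self_eq, h.Qw]; simp
  have hfe : polar Q f e = 1 := by rw [polar_comm]; exact h.vw
  have hd : finrank F (Submodule.span F {e, f}) = 2 := by
    apply finrank_pair
    intro s t hst
    have h1 := congrArg (polar Q e) hst
    have h3 := congrArg (polar Q f) hst
    rw [polar_add_right, polar_sm_r, polar_sm_r, hee, h.vw] at h1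
    rw [polar_add_right, polar_sm_r, polar_sm_r, hfe, hff] at h3
    simp only [polar_zero_right] at h1 h3
    constructor
    · simpa using h3
    · simpa using h1
  refine ⟨⟨?_, Submodule.span F {e}, ?_, ?_, ?_⟩, hd⟩
  · intro u hu h0
    obtain ⟨a, b, rfl⟩ := Submodule.mem_span_pair.1 hu
    have h1 := h0 e (Submodule.subset_span (by simp))
    have h3 := h0 f (Submodule.subset_span (by simp))
    rw [Bf_apply, polar_add_left, polar_sm_l, polar_sm_l, hee, hfe] at h1
    rw [Bf_apply, polar_add_left, polar_sm_l, polar_sm_l, h.vw, hff] at h3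
    have ha : a = 0 := by simpa using h3
    have hb : b = 0 := by simpa using h1
    rw [ha, hb]
    simp
  · exact Submodule.span_mono (by simp)
  · intro v hv
    obtain ⟨a, rfl⟩ := Submodule.mem_span_singleton.1 hv
    rw [Q_sm, h.Qv, mul_zero]
  · rw [hd, finrank_span_singleton]
    intro h0
    rw [h0] at hee
    have := h.vw
    rw [h0] at this
    simp at this

section finite

variable [Finite F]

theorem hyp_or_ell (h2 : (2 : F) ≠ 0) (Q : QuadraticForm F V) :
    ∀ (n : ℕ) (W : Submodule F V), finrank F W = 2 * n → NDOn (Bf Q) W → Hyp Q W ∨ Ell Q W := by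
  intro n
  induction n using Nat.strong_induction_on with
  | _ n ih =>
    intro W hW hnd
    by_cases hs : ∃ e ∈ W, e ≠ 0 ∧ Q e = 0
    · obtain ⟨e, he, he0, hQe⟩ := hs
      obtain ⟨f, hf, hef⟩ := exists_partner_rel hnd he he0 hQe
      obtain ⟨hP, hPd⟩ := hyp_plane h2 hef
      set P := Submodule.span F {e, f} with hPdef
      have hPW : P ≤ W := Submodule.span_le.2 (by
        rintro x (rfl | rfl)
        · exact he
        · exact hf)
      have h3 := finrank_rel (good h2 Q) hPW hP.1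
      have h4 := nd_rel (good h2 Q) hPW hP.1 hnd
      have h5 := sup_rel (good h2 Q) hPW hP.1
      have horth : Orth Q P (W ⊓ perp (Bf Q) P) := fun u hu v hv => hv.2 u hu
      obtain ⟨n', rfl⟩ : ∃ n', n = n' + 1 := ⟨n - 1, by omega⟩
      rcases ih n' (by omega) _ (by omega) h4 with h6 | h6
      · left
        rw [← h5]
        exact hyp_sup h2 hP h6 horth
      · right
        rw [← h5, sup_comm]
        exact ell_sup_hyp h2 h6 hP horth.symm
    · push Not at hs
      have hani : ∀ v ∈ W, Q v = 0 → v = 0 := by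
        intro v hv h0
        by_contra hv0
        exact hs v hv hv0 h0
      have h3 := finrank_le_two_of_ani hani
      have h4 : n = 0 ∨ n = 1 := by omega
      rcases h4 with rfl | rfl
      · left
        have : W = ⊥ := by
          apply Submodule.finrank_eq_zero.1
          omega
        rw [this]
        exact hyp_bot Q
      · right
        exact ⟨W, ⊥, ⟨hani, by omega⟩, hyp_bot Q, fun u _ v hv => by
          rw [Submodule.mem_bot] at hv
          rw [hv]
          simp, by simp⟩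

theorem exists_hyp_sub (h2 : (2 : F) ≠ 0) (Q : QuadraticForm F V) :
    ∀ (t : ℕ) (U : Submodule F V), NDOn (Bf Q) U → 2 * t + 1 ≤ finrank F U → ∃ W ≤ U, Hyp Q W ∧ finrank F W = 2 * t := by
  intro t
  induction t with
  | zero =>
    intro U _ _
    exact ⟨⊥, bot_le, hyp_bot Q, by simp⟩
  | succ t ih =>
    intro U hU hd
    obtain ⟨e, he0, hQe⟩ := exists_singular (restr Q U) (by omega)
    obtain ⟨f, hf, hef⟩ := exists_partner_rel (e := (e : V)) hU e.2 (fun h => he0 (Subtype.ext h)) hQe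
    obtain ⟨hP, hPd⟩ := hyp_plane h2 hef
    set P := Submodule.span F {(e : V), f} with hPdef
    have hPU : P ≤ U := Submodule.span_le.2 (by
      rintro x (rfl | rfl)
      · exact e.2
      · exact hf)
    have h3 := finrank_rel (good h2 Q) hPU hP.1
    have h4 := nd_rel (good h2 Q) hPU hP.1 hU
    obtain ⟨W', hW'U, hW', hW'd⟩ := ih _ h4 (by omega)
    have horth : Orth Q P W' := fun u hu v hv => (hW'U hv).2 u hu
    refine ⟨P ⊔ W', sup_le hPU (hW'U.trans inf_le_left), hyp_sup h2 hP hW' horth, ?_⟩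
    rw [finrank_sup_of_orth h2 hP.1 horth, hPd, hW'd]
    ring

end finite

section exists_ani

variable [Fintype F]

theorem nonsq_mul {a b : F} (ha : ¬ IsSquare a) (hb : ¬ IsSquare b) : IsSquare (a * b) := by
  classical
  have h1 := quadraticChar_neg_one_iff_not_isSquare.2 ha
  have h3 := quadraticChar_neg_one_iff_not_isSquare.2 hb
  have ha0 : a ≠ 0 := by
    rintro rfl
    exact ha (IsSquare.zero)
  have hb0 : b ≠ 0 := by
    rintro rfl
    exact hb (IsSquare.zero)
  rw [← quadraticChar_one_iff_isSquare (mul_ne_zero ha0 hb0), map_mul, h1, h3]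
  norm_num

theorem ani_sup_ani (h2 : (2 : F) ≠ 0) {Q : QuadraticForm F V} {A A' : Submodule F V} (hA : Ani Q A) (hA' : Ani Q A')
    (h : Orth Q A A') : Hyp Q (A ⊔ A') := by
  classical
  have hNA := nd_of_ani h2 hA
  have hNA' := nd_of_ani h2 hA'
  -- orthogonal pairs in a plane
  have key : ∀ (B : Submodule F V), Ani Q B → ∀ c : F, ∃ u ∈ B, ∃ v ∈ B, Q u = c ∧ polar Q u v = 0 ∧ v ≠ 0 := by
    intro B hB c
    obtain ⟨⟨u, hu⟩, huc⟩ := exists_value (Q := restr Q B) (nd_restr (nd_of_ani h2 hB)) (by rw [hB.2]) c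
    have hk : LinearMap.ker ((polarBilin Q u).comp B.subtype) ≠ ⊥ := by
      apply LinearMap.ker_ne_bot_of_finrank_lt
      rw [hB.2]
      simp
    obtain ⟨⟨v, hv⟩, hv1, hv0⟩ := Submodule.exists_mem_ne_zero_of_ne_bot hk
    refine ⟨u, hu, v, hv, huc, hv1, fun h0 => hv0 (Subtype.ext h0)⟩
  obtain ⟨u₁, hu₁, v₁, hv₁, hQu₁, hpol₁, hv₁0⟩ := key A hA 1
  obtain ⟨u₂, hu₂, v₂, hv₂, hQu₂, hpol₂, hv₂0⟩ := key A' hA' (-1)
  have hα : ¬ IsSquare (-(Q v₁)) := by
    rintro ⟨s, hs⟩
    have h0 : Q (s • u₁ + v₁) = 0 := by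
      rw [Q_ad, Q_sm, polar_sm_l, hQu₁, hpol₁]
      linear_combination -hs
    have h3 := hA.1 _ (A.add_mem (A.smul_mem _ hu₁) hv₁) h0
    have h4 := congrArg (polar Q u₁) h3
    rw [polar_add_right, polar_sm_r, hpol₁, polar_self_eq, hQu₁, polar_zero_right] at h4
    have hs0 : s = 0 := by
      have : s * 2 = 0 := by linear_combination h4
      exact (mul_eq_zero.1 this).resolve_right h2
    rw [hs0, zero_smul, zero_add] at h3
    exact hv₁0 h3
  have hβ : ¬ IsSquare (Q v₂) := by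
    rintro ⟨s, hs⟩
    have h0 : Q (s • u₂ + v₂) = 0 := by
      rw [Q_ad, Q_sm, polar_sm_l, hQu₂, hpol₂]
      linear_combination hs
    have h3 := hA'.1 _ (A'.add_mem (A'.smul_mem _ hu₂) hv₂) h0
    have h4 := congrArg (polar Q u₂) h3
    rw [polar_add_right, polar_sm_r, hpol₂, polar_self_eq, hQu₂, polar_zero_right] at h4
    have hs0 : s = 0 := by
      have : s * 2 = 0 := by linear_combination -h4
      exact (mul_eq_zero.1 this).resolve_right h2
    rw [hs0, zero_smul, zero_add] at h3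
    exact hv₂0 h3
  have hβ0 : Q v₂ ≠ 0 := by
    intro h0
    rw [h0] at hβ
    exact hβ IsSquare.zero
  obtain ⟨s, hs⟩ := nonsq_mul hα hβ
  set t := s / Q v₂ with ht
  have ht2 : Q v₁ + t ^ 2 * Q v₂ = 0 := by
    rw [ht]
    field_simp
    linear_combination -hs
  set z₁ := u₁ + u₂ with hz₁
  set z₂ := v₁ + t • v₂ with hz₂
  have e1 := h u₁ hu₁ u₂ hu₂
  have e2 := h u₁ hu₁ v₂ hv₂
  have e3 := h v₁ hv₁ u₂ hu₂
  have e4 := h v₁ hv₁ v₂ hv₂
  have hQz₁ : Q z₁ = 0 := by
    rw [hz₁, Q_ad, hQu₁, hQu₂, e1]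
    ring
  have hQz₂ : Q z₂ = 0 := by
    rw [hz₂, Q_ad, Q_sm, polar_sm_r, e4, mul_zero, add_zero, ht2]
  have hpz : polar Q z₁ z₂ = 0 := by
    rw [hz₁, hz₂, polar_add_left, polar_add_right, polar_add_right, polar_sm_r, polar_sm_r, hpol₁, hpol₂, e2,
      polar_comm Q u₂ v₁, e3]
    ring
  refine ⟨nd_sup (good h2 Q) hNA hNA' h, Submodule.span F {z₁, z₂}, ?_, ?_, ?_⟩
  · apply Submodule.span_le.2
    rintro x (rfl | rfl)
    · exact Submodule.add_mem _ (Submodule.mem_sup_left hu₁) (Submodule.mem_sup_right hu₂)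
    · exact Submodule.add_mem _ (Submodule.mem_sup_left hv₁) (Submodule.mem_sup_right (A'.smul_mem _ hv₂))
  · intro v hv
    obtain ⟨a, b, rfl⟩ := Submodule.mem_span_pair.1 hv
    rw [Q_ad, Q_sm, Q_sm, polar_sm_l, polar_sm_r, hQz₁, hQz₂, hpz]
    ring
  · rw [finrank_pair, finrank_sup_of_orth h2 hNA h, hA.2, hA'.2]
    intro a b hab
    have h3 : a • u₁ + b • v₁ = 0 := by
      have h4 : a • u₁ + b • v₁ = -(a • u₂ + (b * t) • v₂) := by
        rw [eq_neg_iff_add_eq_zero, ← hab, hz₁, hz₂, smul_add, smul_add, smul_smul]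
        abel
      have hd := disjoint_of_orth (good h2 Q) hNA h
      have hm : a • u₁ + b • v₁ ∈ A ⊓ A' :=
        ⟨A.add_mem (A.smul_mem _ hu₁) (A.smul_mem _ hv₁), by
          rw [h4]
          exact A'.neg_mem (A'.add_mem (A'.smul_mem _ hu₂) (A'.smul_mem _ hv₂))⟩
      rw [hd.eq_bot] at hm
      simpa using hm
    have h4 := congrArg (polar Q u₁) h3
    rw [polar_add_right, polar_sm_r, polar_sm_r, hpol₁, polar_self_eq, hQu₁, polar_zero_right] at h4
    have ha : a = 0 := by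
      have : a * 2 = 0 := by linear_combination h4
      exact (mul_eq_zero.1 this).resolve_right h2
    refine ⟨ha, ?_⟩
    rw [ha, zero_smul, zero_add] at h3
    exact (smul_eq_zero.1 h3).resolve_right hv₁0

theorem ell_sup_ell (h2 : (2 : F) ≠ 0) {Q : QuadraticForm F V} {W W' : Submodule F V} (hW : Ell Q W) (hW' : Ell Q W')
    (h : Orth Q W W') : Hyp Q (W ⊔ W') := by
  obtain ⟨A, H, hA, hH, hAH, rfl⟩ := hW
  obtain ⟨A', H', hA', hH', hAH', rfl⟩ := hW'
  have e : A ⊔ H ⊔ (A' ⊔ H') = (A ⊔ A') ⊔ (H ⊔ H') := by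
    rw [sup_assoc, sup_assoc, sup_left_comm H]
  rw [e]
  refine hyp_sup h2 (ani_sup_ani h2 hA hA' (h.mono le_sup_left le_sup_left))
    (hyp_sup h2 hH hH' (h.mono le_sup_right le_sup_right)) ?_
  exact Orth.sup_left (Orth.sup_right hAH (h.mono le_sup_left le_sup_right))
    (Orth.sup_right (h.symm.mono le_sup_left le_sup_right) hAH')

/-- Anisotropic planes in nondegenerate spaces of dimension at least three. -/
theorem exists_ani_sub (h2 : (2 : F) ≠ 0) (Q : QuadraticForm F V) {U : Submodule F V} (hU : NDOn (Bf Q) U)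
    (hd : 3 ≤ finrank F U) : ∃ A ≤ U, Ani Q A := by
  classical
  obtain ⟨⟨v₁, hv₁⟩, hQ₁⟩ := exists_value (Q := restr Q U) (nd_restr hU) (by omega) 1
  have hQ₁' : Q v₁ = 1 := hQ₁
  have hv₁0 : v₁ ≠ 0 := by
    rintro rfl
    simp at hQ₁'
  -- the line spanned by `v₁`
  have hL : NDOn (Bf Q) (Submodule.span F {v₁}) := by
    intro u hu h0
    obtain ⟨a, rfl⟩ := Submodule.mem_span_singleton.1 hu
    have h3 := h0 v₁ (Submodule.mem_span_singleton_self _)
    rw [Bf_apply, polar_sm_l, polar_self_eq, hQ₁'] at h3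
    have ha : a = 0 := by
      have : a * 2 = 0 := by linear_combination h3
      exact (mul_eq_zero.1 this).resolve_right h2
    rw [ha, zero_smul]
  have hLU : Submodule.span F {v₁} ≤ U := by
    rw [Submodule.span_singleton_le_iff_mem]
    exact hv₁
  have h3 := finrank_rel (good h2 Q) hLU hL
  rw [finrank_span_singleton hv₁0] at h3
  have h4 := nd_rel (good h2 Q) hLU hL hU
  obtain ⟨δ, hδ⟩ := FiniteField.exists_nonsquare (F := F) (by
    intro h
    apply h2
    have := ringChar.Nat.cast_ringChar (R := F)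
    rw [h] at this
    exact_mod_cast this)
  obtain ⟨⟨v₂, hv₂⟩, hQ₂⟩ := exists_value (Q := restr Q _) (nd_restr h4) (by omega) (-δ)
  have hQ₂' : Q v₂ = -δ := hQ₂
  have hp : polar Q v₁ v₂ = 0 := hv₂.2 v₁ (Submodule.mem_span_singleton_self _)
  have hval : ∀ a b : F, Q (a • v₁ + b • v₂) = a ^ 2 - δ * b ^ 2 := by
    intro a b
    rw [Q_ad, Q_sm, Q_sm, polar_sm_l, polar_sm_r, hp, hQ₁', hQ₂']
    ring
  have hzero : ∀ a b : F, a ^ 2 - δ * b ^ 2 = 0 → a = 0 ∧ b = 0 := by
    intro a b hab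
    by_cases hb : b = 0
    · subst hb
      refine ⟨?_, rfl⟩
      have : a ^ 2 = 0 := by linear_combination hab
      exact pow_eq_zero_iff (by norm_num) |>.1 this
    · exfalso
      apply hδ
      refine ⟨a / b, ?_⟩
      field_simp
      linear_combination -hab
  refine ⟨Submodule.span F {v₁, v₂}, Submodule.span_le.2 ?_, ?_, ?_⟩
  · rintro x (rfl | rfl)
    · exact hv₁
    · exact hv₂.1
  · intro v hv h0
    obtain ⟨a, b, rfl⟩ := Submodule.mem_span_pair.1 hv
    rw [hval] at h0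
    obtain ⟨rfl, rfl⟩ := hzero a b h0
    simp
  · apply finrank_pair
    intro s t hst
    apply hzero
    rw [← hval, hst, QuadraticMap.map_zero]

theorem exists_ell_sub (h2 : (2 : F) ≠ 0) (Q : QuadraticForm F V) (t : ℕ) {U : Submodule F V} (hU : NDOn (Bf Q) U)
    (hd : 2 * (t + 1) + 1 ≤ finrank F U) : ∃ W ≤ U, Ell Q W ∧ finrank F W = 2 * (t + 1) := by
  obtain ⟨A, hAU, hA⟩ := exists_ani_sub h2 Q hU (by omega)
  have hNA := nd_of_ani h2 hA
  have h3 := finrank_rel (good h2 Q) hAU hNA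
  have h4 := nd_rel (good h2 Q) hAU hNA hU
  obtain ⟨H, hHU, hH, hHd⟩ := exists_hyp_sub h2 Q t _ h4 (by have := hA.2; omega)
  have horth : Orth Q A H := fun u hu v hv => (hHU hv).2 u hu
  refine ⟨A ⊔ H, sup_le hAU (hHU.trans inf_le_left), ⟨A, H, hA, hH, horth, rfl⟩, ?_⟩
  rw [finrank_sup_of_orth h2 hNA horth, hA.2, hHd]
  ring

end exists_ani

end fd

end Cfsg.Agent.Lib.HypEll
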