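import Mathlib
import Cfsg.Agent.Lib.QuadFF

/-!
# The quadratic form `v ↦ Tr(θ v v^Q)` on a field of degree `2d`

This is the elliptic form with a fixed-point-free cyclic group of isometries.
-/

set_option autoImplicit false
set_option linter.unusedSectionVars false
set_option linter.unusedSimpArgs false
set_option linter.unusedVariables false

namespace Cfsg.Agent.Lib.MinusModel

open Module Cfsg.Agent.Lib.QuadFF

variable (F : Type*) [Field F] [Fintype F] (K : Type*) [Field K] [Fintype K] [Algebra F K]

/-- The power of Frobenius as an automorphism. -/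
noncomputable def sig (d : ℕ) : K ≃ₐ[F] K := (FiniteField.frobeniusAlgEquivOfAlgebraic F K) ^ d

variable {F K}

theorem sig_apply (d : ℕ) (a : K) : sig F K d a = a ^ (Fintype.card F ^ d) := by
  rw [sig, AlgEquiv.coe_pow, FiniteField.coe_frobeniusAlgEquivOfAlgebraic_iterate]

theorem card_K {d : ℕ} (hK : finrank F K = 2 * d) : Fintype.card K = (Fintype.card F ^ d) ^ 2 := by
  rw [Module.card_eq_pow_finrank (K := F) (V := K), hK, ← pow_mul, mul_comm]

theorem sig_sig {d : ℕ} (hK : finrank F K = 2 * d) (a : K) : sig F K d (sig F K d a) = a := by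
  rw [sig_apply, sig_apply, ← pow_mul, ← pow_two, ← card_K hK, FiniteField.pow_card]

/-- Elements of relative trace one. -/
theorem exists_theta {d : ℕ} (hd : d ≠ 0) (hK : finrank F K = 2 * d) : ∃ θ : K, θ + sig F K d θ = 1 := by
  classical
  set σ := sig F K d with hσ
  by_cases h2 : (2 : K) = 0
  · let f : K →ₗ[F] K := LinearMap.id + σ.toLinearMap
    have hf : ∀ a, f a = a + σ a := fun a => rfl
    have hff : ∀ a, f (f a) = 0 := by
      intro a
      rw [hf, hf, map_add, hσ, sig_sig hK]
      have : a + sig F K d a + (sig F K d a + a) = 2 * (a + sig F K d a) := by ring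
      rw [this, h2, zero_mul]
    have hr : LinearMap.range f ≤ LinearMap.ker f := by
      rintro _ ⟨a, rfl⟩
      exact hff a
    have hker : finrank F (LinearMap.ker f) ≤ d := by
      have hq : 1 < Fintype.card F := Fintype.one_lt_card
      rw [← Nat.pow_le_pow_iff_right hq, ← Module.card_eq_pow_finrank (K := F) (V := LinearMap.ker f)]
      have hN := FiniteField.X_pow_card_pow_sub_X_natDegree_eq K hd hq
      have hN0 := FiniteField.X_pow_card_pow_sub_X_ne_zero K hd hq
      set P : Polynomial K := Polynomial.X ^ Fintype.card F ^ d - Polynomial.X with hP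
      have h3 : Fintype.card (LinearMap.ker f) ≤ P.roots.toFinset.card := by
        have hinj : Function.Injective (fun a : LinearMap.ker f => (a : K)) := Subtype.val_injective
        rw [← Fintype.card_coe]
        apply Fintype.card_le_of_injective (fun a : LinearMap.ker f => (⟨a.1, by
          rw [Multiset.mem_toFinset, Polynomial.mem_roots hN0, Polynomial.IsRoot.def]
          have h4 : f a.1 = 0 := a.2
          rw [hf] at h4
          have h5 : σ a.1 = a.1 := by
            have h6 : a.1 + a.1 = 0 := by rw [← two_mul, h2, zero_mul]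
            have h7 : σ a.1 = -a.1 := eq_neg_of_add_eq_zero_right h4
            rw [h7]
            exact (eq_neg_of_add_eq_zero_left h6).symm
          rw [hσ, sig_apply] at h5
          simp [hP, h5]⟩ : {x // x ∈ P.roots.toFinset}))
        intro a b hab
        have := congrArg Subtype.val hab
        exact Subtype.ext this
      calc Fintype.card (LinearMap.ker f) ≤ P.roots.toFinset.card := h3
        _ ≤ Multiset.card P.roots := Multiset.toFinset_card_le _
        _ ≤ P.natDegree := Polynomial.card_roots' _
        _ = _ := hN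
    have hrn := LinearMap.finrank_range_add_finrank_ker f
    have hle := Submodule.finrank_mono hr
    have heq : LinearMap.range f = LinearMap.ker f :=
      Submodule.eq_of_le_of_finrank_eq hr (by omega)
    have h1 : (1 : K) ∈ LinearMap.ker f := by
      change f 1 = 0
      rw [hf, map_one, one_add_one_eq_two, h2]
    rw [← heq] at h1
    obtain ⟨θ, hθ⟩ := h1
    exact ⟨θ, hθ⟩
  · refine ⟨2⁻¹, ?_⟩
    have : σ (2⁻¹ : K) = 2⁻¹ := by
      rw [map_inv₀, map_ofNat]
    rw [this]
    field_simp
    norm_num

/-- The quadratic form `v ↦ Tr(θ v σ(v))`. -/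
noncomputable def unitQ (d : ℕ) (hK : finrank F K = 2 * d) (θ : K) (hθ : θ + sig F K d θ = 1) : QuadraticForm F K where
  toFun v := Algebra.trace F K (θ * v * sig F K d v)
  toFun_smul c v := by
    rw [map_smul, mul_smul_comm, mul_smul_comm, smul_mul_assoc, smul_smul, map_smul]
  exists_companion' := by
    refine ⟨LinearMap.mk₂ F (fun u v => Algebra.trace F K (u * sig F K d v)) ?_ ?_ ?_ ?_, ?_⟩
    · intro a b c
      rw [add_mul, map_add]
    · intro c a b
      rw [smul_mul_assoc, map_smul]
    · intro a b c
      rw [map_add, mul_add, map_add]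
    · intro c a b
      rw [map_smul, mul_smul_comm, map_smul]
    · intro u v
      simp only [LinearMap.mk₂_apply]
      rw [map_add]
      have h1 : Algebra.trace F K (θ * v * sig F K d u) = Algebra.trace F K (sig F K d θ * (u * sig F K d v)) := by
        rw [← Algebra.trace_eq_of_algEquiv (sig F K d) (θ * v * sig F K d u)]
        congr 1
        rw [map_mul (sig F K d), map_mul (sig F K d), sig_sig hK]
        ring
      have h2 : θ * (u + v) * (sig F K d u + sig F K d v) =
          θ * u * sig F K d u + θ * v * sig F K d v + (θ * (u * sig F K d v) + θ * v * sig F K d u) := by ring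
      have h3 : Algebra.trace F K (θ * (u * sig F K d v)) + Algebra.trace F K (θ * v * sig F K d u) = Algebra.trace F K (u * sig F K d v) := by
        rw [h1, ← map_add, ← add_mul, hθ, one_mul]
      rw [h2, map_add, map_add, map_add (Algebra.trace F K) (θ * (u * sig F K d v)), h3]

theorem unitQ_apply (d : ℕ) (hK : finrank F K = 2 * d) (θ : K) (hθ : θ + sig F K d θ = 1) (v : K) :
    unitQ d hK θ hθ v = Algebra.trace F K (θ * v * sig F K d v) := rfl

theorem unitQ_polar (d : ℕ) (hK : finrank F K = 2 * d) (θ : K) (hθ : θ + sig F K d θ = 1) (u v : K) :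
    QuadraticMap.polar (unitQ d hK θ hθ) u v = Algebra.trace F K (u * sig F K d v) := by
  simp only [QuadraticMap.polar, unitQ_apply]
  rw [map_add]
  have h1 : Algebra.trace F K (θ * v * sig F K d u) = Algebra.trace F K (sig F K d θ * (u * sig F K d v)) := by
    rw [← Algebra.trace_eq_of_algEquiv (sig F K d) (θ * v * sig F K d u)]
    congr 1
    rw [map_mul (sig F K d), map_mul (sig F K d), sig_sig hK]
    ring
  have h2 : θ * (u + v) * (sig F K d u + sig F K d v) =
      θ * u * sig F K d u + θ * v * sig F K d v + (θ * (u * sig F K d v) + θ * v * sig F K d u) := by ring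
  have h3 : Algebra.trace F K (θ * (u * sig F K d v)) + Algebra.trace F K (θ * v * sig F K d u) = Algebra.trace F K (u * sig F K d v) := by
    rw [h1, ← map_add, ← add_mul, hθ, one_mul]
  rw [h2, map_add, map_add, map_add (Algebra.trace F K) (θ * (u * sig F K d v)), h3]
  ring

theorem unitQ_ND (d : ℕ) (hK : finrank F K = 2 * d) (θ : K) (hθ : θ + sig F K d θ = 1) :
    ND (unitQ d hK θ hθ) := by
  intro x hx
  apply (traceForm_nondegenerate F K).1
  intro z
  have := hx (sig F K d z)
  rw [unitQ_polar, sig_sig hK] at this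
  simpa [Algebra.traceForm_apply] using this

/-- The model: a nondegenerate form on a field of degree `2 d`, with an isometry of prime order `r ∣ q ^ d + 1`
given by multiplication. -/
theorem exists_model (p : ℕ) [Fact p.Prime] [CharP F p] {d r : ℕ} [Fact r.Prime] (hd : d ≠ 0)
    (hrd : r ∣ Fintype.card F ^ d + 1) :
    ∃ (K : Type) (_ : Field K) (_ : Fintype K) (_ : Algebra F K) (Q₁ : QuadraticForm F K) (ζ : K),
      finrank F K = 2 * d ∧ ND Q₁ ∧ ζ ^ r = 1 ∧ ζ ≠ 1 ∧ ∀ v, Q₁ (ζ * v) = Q₁ v := by
  classical
  have h2d : 2 * d ≠ 0 := by omega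
  haveI : NeZero (2 * d) := ⟨h2d⟩
  let K := FiniteField.Extension F p (2 * d)
  haveI : Fintype K := Fintype.ofFinite K
  have hK : finrank F K = 2 * d := FiniteField.finrank_extension F p (2 * d)
  obtain ⟨θ, hθ⟩ := exists_theta (F := F) (K := K) hd hK
  have hq : 1 ≤ Fintype.card F ^ d := Nat.one_le_pow _ _ Fintype.card_pos
  have h1 : r ∣ Nat.card Kˣ := by
    rw [Nat.card_eq_fintype_card, Fintype.card_units, card_K hK]
    have : (Fintype.card F ^ d) ^ 2 - 1 = (Fintype.card F ^ d + 1) * (Fintype.card F ^ d - 1) := by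
      zify [hq, Nat.one_le_pow 2 _ hq]
      ring
    rw [this]
    exact Dvd.dvd.mul_right hrd _
  obtain ⟨ζ, hζ⟩ := exists_prime_orderOf_dvd_card' r h1
  have hζr : ((ζ : K)) ^ r = 1 := by
    rw [← Units.val_pow_eq_pow_val, ← hζ, pow_orderOf_eq_one, Units.val_one]
  have hζ1 : (ζ : K) ≠ 1 := by
    intro h
    have : ζ = 1 := Units.ext h
    rw [this, orderOf_one] at hζ
    exact (Fact.out : r.Prime).one_lt.ne hζ
  have hnorm : (ζ : K) * sig F K d ζ = 1 := by
    rw [sig_apply, ← pow_succ']
    obtain ⟨c, hc⟩ := hrd
    rw [hc, pow_mul, hζr, one_pow]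
  refine ⟨K, inferInstance, inferInstance, inferInstance, unitQ d hK θ hθ, ζ, hK, unitQ_ND d hK θ hθ, hζr, hζ1, ?_⟩
  intro v
  rw [unitQ_apply, unitQ_apply, map_mul (sig F K d)]
  have : θ * (ζ * v) * (sig F K d ζ * sig F K d v) = ((ζ : K) * sig F K d ζ) * (θ * v * sig F K d v) := by ring
  rw [this, hnorm, one_mul]

end Cfsg.Agent.Lib.MinusModel
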