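import Mathlib
import Cfsg.Prelude.Def_Classical

/-! Block sums of isometries of function-valued forms. -/

set_option autoImplicit false

namespace Cfsg.Agent.Lib.OrthBlock

open Matrix
open scoped MatrixGroups

set_option linter.unusedSectionVars false

variable {F : Type*} [Field F] {ι₁ ι₂ : Type} [Fintype ι₁] [Fintype ι₂] [DecidableEq ι₁] [DecidableEq ι₂]

/-- The orthogonal sum of two function-valued forms. -/
def sumForm (q₁ : (ι₁ → F) → F) (q₂ : (ι₂ → F) → F) : (ι₁ ⊕ ι₂ → F) → F :=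
  fun v => q₁ (v ∘ Sum.inl) + q₂ (v ∘ Sum.inr)

/-- Block sum of invertible matrices, as a homomorphism. -/
def blockGL : GL ι₁ F × GL ι₂ F →* GL (ι₁ ⊕ ι₂) F where
  toFun p :=
    { val := fromBlocks (p.1 : Matrix ι₁ ι₁ F) 0 0 (p.2 : Matrix ι₂ ι₂ F)
      inv := fromBlocks ((p.1⁻¹ : GL ι₁ F) : Matrix ι₁ ι₁ F) 0 0 ((p.2⁻¹ : GL ι₂ F) : Matrix ι₂ ι₂ F)
      val_inv := by simp [fromBlocks_multiply, Matrix.fromBlocks_one]
      inv_val := by simp [fromBlocks_multiply, Matrix.fromBlocks_one] }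
  map_one' := by
    ext i j
    simp [Matrix.fromBlocks_one]
  map_mul' p q := by
    apply Units.ext
    simp [fromBlocks_multiply]

@[simp] theorem blockGL_val (p : GL ι₁ F × GL ι₂ F) :
    ((blockGL p : GL (ι₁ ⊕ ι₂) F) : Matrix (ι₁ ⊕ ι₂) (ι₁ ⊕ ι₂) F) =
      fromBlocks (p.1 : Matrix ι₁ ι₁ F) 0 0 (p.2 : Matrix ι₂ ι₂ F) := rfl

theorem mulVec_inl (A : Matrix ι₁ ι₁ F) (D : Matrix ι₂ ι₂ F) (v : ι₁ ⊕ ι₂ → F) :
    (fromBlocks A 0 0 D *ᵥ v) ∘ Sum.inl = A *ᵥ (v ∘ Sum.inl) := by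
  rw [fromBlocks_mulVec]; funext i; simp

theorem mulVec_inr (A : Matrix ι₁ ι₁ F) (D : Matrix ι₂ ι₂ F) (v : ι₁ ⊕ ι₂ → F) :
    (fromBlocks A 0 0 D *ᵥ v) ∘ Sum.inr = D *ᵥ (v ∘ Sum.inr) := by
  rw [fromBlocks_mulVec]; funext i; simp

/-- Block sum of isometries is an isometry. -/
def blockHom (q₁ : (ι₁ → F) → F) (q₂ : (ι₂ → F) → F) :
    ↥(Cfsg.isometryGroup F q₁) × ↥(Cfsg.isometryGroup F q₂) →*
      ↥(Cfsg.isometryGroup F (sumForm q₁ q₂)) where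
  toFun p := ⟨blockGL ((p.1 : GL ι₁ F), (p.2 : GL ι₂ F)), by
    intro u v
    have h1 := p.1.2 (u ∘ Sum.inl) (u ∘ Sum.inl)
    have h2 := p.2.2 (u ∘ Sum.inr) (u ∘ Sum.inr)
    simp only [Units.coeHom_apply] at h1 h2 ⊢
    show q₁ (_ ∘ Sum.inl) + q₂ (_ ∘ Sum.inr) = q₁ (u ∘ Sum.inl) + q₂ (u ∘ Sum.inr)
    rw [blockGL_val, mulVec_inl, mulVec_inr, h1, h2]⟩
  map_one' := by
    apply Subtype.ext
    exact map_one blockGL
  map_mul' p r := by
    apply Subtype.ext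
    simp [← map_mul]

@[simp] theorem blockHom_val (q₁ : (ι₁ → F) → F) (q₂ : (ι₂ → F) → F)
    (p : ↥(Cfsg.isometryGroup F q₁) × ↥(Cfsg.isometryGroup F q₂)) :
    (((blockHom q₁ q₂ p : ↥(Cfsg.isometryGroup F (sumForm q₁ q₂))) : GL (ι₁ ⊕ ι₂) F) :
      Matrix (ι₁ ⊕ ι₂) (ι₁ ⊕ ι₂) F) =
      fromBlocks ((p.1 : GL ι₁ F) : Matrix ι₁ ι₁ F) 0 0 ((p.2 : GL ι₂ F) : Matrix ι₂ ι₂ F) := rfl

/-- A homomorphism maps the commutator subgroup into the commutator subgroup. -/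
theorem map_mem_commutator {G H : Type*} [Group G] [Group H] (f : G →* H) {x : G}
    (hx : x ∈ commutator G) : f x ∈ commutator H := by
  have : (commutator G).map f ≤ commutator H := by
    rw [commutator_def, commutator_def, Subgroup.map_commutator]
    exact Subgroup.commutator_mono le_top le_top
  exact this ⟨x, hx, rfl⟩

/-- Omega of a block sum contains the product of Omegas. -/
theorem block_mem_omega (q₁ : (ι₁ → F) → F) (q₂ : (ι₂ → F) → F)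
    (g₁ : ↥(Cfsg.isometryGroup F q₁)) (g₂ : ↥(Cfsg.isometryGroup F q₂))
    (h₁ : g₁ ∈ Cfsg.Omega F q₁) (h₂ : g₂ ∈ Cfsg.Omega F q₂) :
    blockHom q₁ q₂ (g₁, g₂) ∈ Cfsg.Omega F (sumForm q₁ q₂) := by
  have e : blockHom q₁ q₂ (g₁, g₂) =
      (blockHom q₁ q₂).comp (MonoidHom.inl _ _) g₁ * (blockHom q₁ q₂).comp (MonoidHom.inr _ _) g₂ := by
    simp [← map_mul]
  rw [e]
  exact Subgroup.mul_mem _ (map_mem_commutator _ h₁) (map_mem_commutator _ h₂)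

end Cfsg.Agent.Lib.OrthBlock
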