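import Mathlib
import Cfsg.Prelude.Def_Classical
import Cfsg.Prelude.Def_ClassicalGeometry
import Cfsg.Agent.Lib.HypNeg
import Cfsg.Agent.Lib.ClassicalSL
import Cfsg.Agent.Lib.OrthBlock
import Cfsg.Agent.Lib.OrthLagr

/-!
# The Levi subgroup `GL_m` of `O⁺_{2m}` and the swap.
-/

set_option autoImplicit false
set_option linter.unusedSectionVars false
set_option linter.unusedSimpArgs false
set_option linter.unusedTactic false

namespace Cfsg.Agent.Lib.HypLevi

open Module Matrix
open scoped MatrixGroups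
open Cfsg.Agent.Lib.OrthGroup Cfsg.Agent.Lib.OrthOmega Cfsg.Agent.Lib.OrthMatrix
open Cfsg.Agent.Lib.SpinorCrit Cfsg.Agent.Lib.HypNeg Cfsg.Agent.Lib.OrthoCount

variable {F : Type*} [Field F] {ι : Type} [Fintype ι] [DecidableEq ι]

section refl

variable {Q : QuadraticForm F (ι → F)}

theorem hyp_Q_sub_smul {a b : ι} (h : IsHypCoord Q a b) (c : F) :
    Q (Pi.single a 1 - c • Pi.single b 1) = -c := by
  rw [Cfsg.Agent.Lib.OrthGroup.Q_sub, h.Qa, Q_smul, h.Qb, map_smul, h.Bb]
  simp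

/-- formula for the reflection in `e - c f`. -/
theorem hyp_refl_sub_smul_apply {a b : ι} (h : IsHypCoord Q a b) {c : F} (hc : c ≠ 0)
    (x : ι → F) (k : ι) :
    refl Q (Pi.single a 1 - c • Pi.single b 1) x k =
      if k = a then c⁻¹ * x b else if k = b then c * x a else x k := by
  have hab := h.ne
  have hba := h.ne.symm
  rw [refl_apply, hyp_Q_sub_smul h]
  simp only [map_sub, map_smul, h.Ba, h.Bb, Pi.sub_apply, Pi.smul_apply, smul_eq_mul]
  by_cases hka : k = a
  · subst hka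
    simp [hab, hba]
    field_simp
    ring
  · by_cases hkb : k = b
    · subst hkb
      simp [hab, hba]
      field_simp
      ring
    · simp [hka, hkb, Pi.single_apply]

theorem hyp_refl_sub_apply {a b : ι} (h : IsHypCoord Q a b) (x : ι → F) (k : ι) :
    refl Q (Pi.single a 1 - Pi.single b 1) x k =
      if k = a then x b else if k = b then x a else x k := by
  have := hyp_refl_sub_smul_apply h (c := 1) one_ne_zero x k
  simpa using this

end refl

/-- The Levi subgroup, in matrices. -/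
noncomputable def leviHom (m : ℕ) (F : Type*) [Field F] :
    GL (Fin m) F →* ↥(Cfsg.isometryGroup F ⇑(qPlus m F)) where
  toFun A := ⟨{ val := fromBlocks (A : Matrix (Fin m) (Fin m) F) 0 0 ((A⁻¹ : GL (Fin m) F) : Matrix (Fin m) (Fin m) F)ᵀ
                inv := fromBlocks ((A⁻¹ : GL (Fin m) F) : Matrix (Fin m) (Fin m) F) 0 0 (A : Matrix (Fin m) (Fin m) F)ᵀ
                val_inv := by
                  rw [fromBlocks_multiply]
                  simp only [mul_zero, zero_mul, add_zero, zero_add, ← Matrix.transpose_mul,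
                    Units.mul_inv, Units.inv_mul, Matrix.transpose_one, fromBlocks_one]
                inv_val := by
                  rw [fromBlocks_multiply]
                  simp only [mul_zero, zero_mul, add_zero, zero_add, ← Matrix.transpose_mul,
                    Units.mul_inv, Units.inv_mul, Matrix.transpose_one, fromBlocks_one] }, by
      intro u v
      simp only [Units.coeHom_apply]
      change (qPlus m F) _ = (qPlus m F) u
      have h0 : ∀ w : Fin m ⊕ Fin m → F, (qPlus m F) w = (w ∘ Sum.inl) ⬝ᵥ (w ∘ Sum.inr) := fun w => by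
        rw [qPlus_apply]; rfl
      rw [h0, h0, OrthBlock.mulVec_inl, OrthBlock.mulVec_inr, ← Matrix.vecMul_transpose,
        ← Matrix.dotProduct_mulVec, Matrix.mulVec_mulVec, ← Matrix.transpose_mul, Units.inv_mul]
      simp⟩
  map_one' := by
    apply Subtype.ext
    apply Units.ext
    simp [fromBlocks_one]
  map_mul' A C := by
    apply Subtype.ext
    apply Units.ext
    simp [fromBlocks_multiply, Matrix.transpose_mul]

@[simp] theorem leviHom_val (m : ℕ) (A : GL (Fin m) F) :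
    (((leviHom m F A : ↥(Cfsg.isometryGroup F ⇑(qPlus m F))) : GL (Fin m ⊕ Fin m) F) :
      Matrix (Fin m ⊕ Fin m) (Fin m ⊕ Fin m) F) =
      fromBlocks (A : Matrix (Fin m) (Fin m) F) 0 0 ((A⁻¹ : GL (Fin m) F) : Matrix (Fin m) (Fin m) F)ᵀ := rfl

theorem isometry_ext {m : ℕ} {g g' : ↥(Cfsg.isometryGroup F ⇑(qPlus m F))}
    (h : ((g : GL (Fin m ⊕ Fin m) F) : Matrix (Fin m ⊕ Fin m) (Fin m ⊕ Fin m) F) = ((g' : GL (Fin m ⊕ Fin m) F) : Matrix (Fin m ⊕ Fin m) (Fin m ⊕ Fin m) F)) : g = g' := by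
  apply Subtype.ext
  apply Units.ext
  exact h

theorem hQ_qPlus [Fintype F] (m : ℕ) : (B (qPlus m F)).Nondegenerate :=
  nondegenerate_of_nondeg (Cfsg.Agent.Lib.OrthoOrder.nondeg_qPlus m)

theorem finrank_plus (m : ℕ) : finrank F (Fin m ⊕ Fin m → F) = 2 * m := by
  simp; omega

theorem hF_plus [Fintype F] {m : ℕ} (h : Fintype.card F ≠ 2 ∨ m ≠ 2) :
    (∃ a : F, a ≠ 0 ∧ a ≠ 1) ∨ finrank F (Fin m ⊕ Fin m → F) ≠ 4 := by
  refine hF_of (n := 2 * m) ?_ (finrank_plus m)
  rcases h with h | h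
  · exact Or.inl h
  · right; omega

/-- The diagonal Levi element. -/
theorem levi_diag_mem_iff [Fintype F] {m : ℕ} (h : Fintype.card F ≠ 2 ∨ m ≠ 2) (i0 : Fin m)
    {d : F} (hd : d ≠ 0) :
    leviHom m F (Cfsg.Agent.Lib.ClassicalSL.diagGL i0 d hd) ∈ Cfsg.Omega F ⇑(qPlus m F) ↔ IsSquare d := by
  classical
  let Q := qPlus m F
  have hH := hyp_qPlus (F := F) m i0
  let e : Fin m ⊕ Fin m → F := Pi.single (Sum.inl i0) 1
  let f : Fin m ⊕ Fin m → F := Pi.single (Sum.inr i0) 1
  let L : List (Fin m ⊕ Fin m → F) := [e - (1:F) • f, e - d • f]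
  have hL : ∀ v ∈ L, Q v ≠ 0 := by
    intro v hv
    simp only [L, List.mem_cons, List.not_mem_nil, or_false] at hv
    rcases hv with rfl | rfl
    · show Q (Pi.single (Sum.inl i0) 1 - (1:F) • Pi.single (Sum.inr i0) 1) ≠ 0
      rw [hyp_Q_sub_smul hH]; simp
    · show Q (Pi.single (Sum.inl i0) 1 - d • Pi.single (Sum.inr i0) 1) ≠ 0
      rw [hyp_Q_sub_smul hH]; simpa using hd
  have hprod : (L.map Q).prod = d := by
    simp only [L, List.map_cons, List.map_nil, List.prod_cons, List.prod_nil, mul_one]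
    show Q (Pi.single (Sum.inl i0) 1 - (1:F) • Pi.single (Sum.inr i0) 1) * Q (Pi.single (Sum.inl i0) 1 - d • Pi.single (Sum.inr i0) 1) = d
    rw [hyp_Q_sub_smul hH, hyp_Q_sub_smul hH]; ring
  have hto : toO Q (leviHom m F (Cfsg.Agent.Lib.ClassicalSL.diagGL i0 d hd)) = prodO Q L := by
    apply Subtype.ext
    ext1 x
    rw [toO_apply]
    change _ = prodR Q L x
    have h1 : prodR Q L x = refl Q (e - (1:F) • f) (refl Q (e - d • f) x) := by
      simp [L, prodR]
    rw [h1]
    funext k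
    show _ = refl Q (Pi.single (Sum.inl i0) 1 - (1:F) • Pi.single (Sum.inr i0) 1) (refl Q (Pi.single (Sum.inl i0) 1 - d • Pi.single (Sum.inr i0) 1) x) k
    have hr : ∀ k, refl Q (Pi.single (Sum.inl i0) 1 - d • Pi.single (Sum.inr i0) 1) x k = _ := hyp_refl_sub_smul_apply hH hd x
    rw [hyp_refl_sub_smul_apply hH one_ne_zero]
    simp only [hr]
    rw [leviHom_val]
    have hinv : (((Cfsg.Agent.Lib.ClassicalSL.diagGL i0 d hd)⁻¹ : GL (Fin m) F) : Matrix (Fin m) (Fin m) F) =
        diagonal fun k => if k = i0 then d⁻¹ else 1 := rfl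
    rw [hinv]
    rcases k with k | k
    · simp only [fromBlocks_mulVec, Sum.elim_inl, Matrix.zero_mulVec, add_zero, Sum.inl.injEq, reduceCtorEq, if_false]
      by_cases hk : k = i0
      · subst hk
        simp [Cfsg.Agent.Lib.ClassicalSL.diagGL, Matrix.mulVec, dotProduct, Matrix.diagonal_apply]
      · simp [Cfsg.Agent.Lib.ClassicalSL.diagGL, Matrix.mulVec, dotProduct, Matrix.diagonal_apply, hk]
    · simp only [fromBlocks_mulVec, Sum.elim_inr, Matrix.zero_mulVec, zero_add, Sum.inr.injEq, reduceCtorEq, if_false]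
      by_cases hk : k = i0
      · subst hk
        simp [Matrix.mulVec, dotProduct, Matrix.diagonal_apply, Matrix.transpose_apply]
      · simp [Matrix.mulVec, dotProduct, Matrix.diagonal_apply, Matrix.transpose_apply, hk]
  rw [mem_Omega_iff, hto, mem_Omega_prodO_iff Q (hQ_qPlus m) (hF_plus h) L hL, hprod]
  simp [L]

theorem levi_mem_iff [Fintype F] {m : ℕ} (hm : 1 ≤ m) (h : Fintype.card F ≠ 2 ∨ m ≠ 2)
    (A : GL (Fin m) F) :
    leviHom m F A ∈ Cfsg.Omega F ⇑(qPlus m F) ↔ IsSquare (A : Matrix (Fin m) (Fin m) F).det := by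
  classical
  have hd : (A : Matrix (Fin m) (Fin m) F).det ≠ 0 := by
    have := (Matrix.isUnit_iff_isUnit_det _).1 A.isUnit
    exact this.ne_zero
  set d := (A : Matrix (Fin m) (Fin m) F).det with hddef
  let i0 : Fin m := ⟨0, hm⟩
  let D := Cfsg.Agent.Lib.ClassicalSL.diagGL i0 d hd
  have hdetD : GeneralLinearGroup.det D = GeneralLinearGroup.det A := by
    apply Units.ext
    change Matrix.det (diagonal fun k => if k = i0 then d else 1) = d
    rw [Matrix.det_diagonal, Finset.prod_ite_eq' Finset.univ i0 (fun _ => d)]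
    simp
  have hcomm : A * D⁻¹ ∈ commutator (GL (Fin m) F) := by
    rw [Cfsg.Agent.Lib.ClassicalSL.commutator_GL_eq_ker_det]
    · rw [MonoidHom.mem_ker, map_mul, map_inv, hdetD]
      simp
    · intro _ h2
      have hm2 : m = 2 := by simpa using h2
      rcases h with h | h
      · exact exists_ne_zero_one_of_card_ne_two h
      · exact absurd hm2 h
  have h1 : leviHom m F (A * D⁻¹) ∈ Cfsg.Omega F ⇑(qPlus m F) :=
    OrthBlock.map_mem_commutator _ hcomm
  have h2 : leviHom m F A = leviHom m F (A * D⁻¹) * leviHom m F D := by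
    rw [← map_mul, inv_mul_cancel_right]
  rw [h2, Subgroup.mul_mem_cancel_left _ h1]
  exact levi_diag_mem_iff h i0 hd

/-- The swap is in `Ω` for `m` even. -/
theorem prodR_swap_apply (m : ℕ) (l : List (Fin m)) (hl : l.Nodup) (x : Fin m ⊕ Fin m → F) :
    (∀ j, prodR (qPlus m F) (l.map fun j => Pi.single (Sum.inl j) 1 - Pi.single (Sum.inr j) 1) x (Sum.inl j) =
      if j ∈ l then x (Sum.inr j) else x (Sum.inl j)) ∧
    (∀ j, prodR (qPlus m F) (l.map fun j => Pi.single (Sum.inl j) 1 - Pi.single (Sum.inr j) 1) x (Sum.inr j) =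
      if j ∈ l then x (Sum.inl j) else x (Sum.inr j)) := by
  induction l with
  | nil => simp
  | cons i l ih =>
    obtain ⟨hi, hl'⟩ := List.nodup_cons.mp hl
    obtain ⟨ih1, ih2⟩ := ih hl'
    rw [List.map_cons, prodR_cons]
    constructor
    · intro j
      change refl (qPlus m F) _ (prodR (qPlus m F) _ x) (Sum.inl j) = _
      rw [hyp_refl_sub_apply (hyp_qPlus m i)]
      by_cases hji : j = i
      · subst hji
        simp only [if_true, List.mem_cons, true_or]
        rw [ih2, if_neg hi]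
      · have : ¬ (Sum.inl j : Fin m ⊕ Fin m) = Sum.inl i := fun h => hji (Sum.inl_injective h)
        simp [this, hji, ih1]
    · intro j
      change refl (qPlus m F) _ (prodR (qPlus m F) _ x) (Sum.inr j) = _
      rw [hyp_refl_sub_apply (hyp_qPlus m i)]
      by_cases hji : j = i
      · subst hji
        simp only [if_true, List.mem_cons, true_or, reduceCtorEq, if_false]
        rw [ih1, if_neg hi]
      · have : ¬ (Sum.inr j : Fin m ⊕ Fin m) = Sum.inr i := fun h => hji (Sum.inr_injective h)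
        simp [this, hji, ih2]

theorem swap_exists [Fintype F] {m : ℕ} (h : Fintype.card F ≠ 2 ∨ m ≠ 2) (he : Even m) :
    ∃ g : ↥(Cfsg.isometryGroup F ⇑(qPlus m F)), g ∈ Cfsg.Omega F ⇑(qPlus m F) ∧
      ∀ (x : Fin m ⊕ Fin m → F) (j : Fin m), (((g : GL (Fin m ⊕ Fin m) F) : Matrix (Fin m ⊕ Fin m) (Fin m ⊕ Fin m) F) *ᵥ x) (Sum.inl j) = x (Sum.inr j) ∧
        (((g : GL (Fin m ⊕ Fin m) F) : Matrix (Fin m ⊕ Fin m) (Fin m ⊕ Fin m) F) *ᵥ x) (Sum.inr j) = x (Sum.inl j) := by
  classical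
  let Q := qPlus m F
  let L : List (Fin m ⊕ Fin m → F) := (List.finRange m).map fun j => Pi.single (Sum.inl j) 1 - Pi.single (Sum.inr j) 1
  have hL : ∀ v ∈ L, Q v ≠ 0 := by
    intro v hv
    obtain ⟨j, -, rfl⟩ := List.mem_map.mp hv
    rw [(hyp_qPlus m j).Q_sub]; simp
  have hprod : (L.map Q).prod = (-1) ^ m := by
    have : L.map Q = List.replicate m (-1) := by
      rw [List.eq_replicate_iff]
      refine ⟨by simp [L], ?_⟩
      intro b hb
      obtain ⟨v, hv, rfl⟩ := List.mem_map.mp hb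
      obtain ⟨j, -, rfl⟩ := List.mem_map.mp hv
      exact (hyp_qPlus m j).Q_sub
    rw [this, List.prod_replicate]
  let g : ↥(Cfsg.isometryGroup F ⇑Q) := (toO Q).symm (prodO Q L)
  have hg : ∀ x, ((g : GL (Fin m ⊕ Fin m) F) : Matrix (Fin m ⊕ Fin m) (Fin m ⊕ Fin m) F) *ᵥ x = prodR Q L x := by
    intro x
    have h1 := toO_apply Q g x
    rw [← h1, MulEquiv.apply_symm_apply]
    rfl
  refine ⟨g, ?_, ?_⟩
  · rw [mem_Omega_iff, MulEquiv.apply_symm_apply,
      mem_Omega_prodO_iff Q (hQ_qPlus m) (hF_plus h) L hL, hprod]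
    refine ⟨by simpa [L] using he, ?_⟩
    rw [he.neg_one_pow]
    exact IsSquare.one
  · intro x j
    obtain ⟨h1, h2⟩ := prodR_swap_apply (F := F) m (List.finRange m) (List.nodup_finRange m) x
    rw [hg]
    constructor
    · have := h1 j
      simpa using this
    · have := h2 j
      simpa using this

/-- The `y = 0` subspace. -/
def U₁ (m : ℕ) (F : Type*) [Field F] : Submodule F (Fin m ⊕ Fin m → F) where
  carrier := {v | ∀ i, v (Sum.inr i) = 0}
  add_mem' := by
    intro a b ha hb i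
    simp [ha i, hb i]
  zero_mem' := by intro i; rfl
  smul_mem' := by
    intro c a ha i
    simp [ha i]

theorem mem_U₁ {m : ℕ} {v : Fin m ⊕ Fin m → F} : v ∈ U₁ m F ↔ ∀ i, v (Sum.inr i) = 0 := Iff.rfl

theorem finrank_U₁ (m : ℕ) : finrank F (U₁ m F) = m := by
  let e : U₁ m F ≃ₗ[F] (Fin m → F) :=
    { toFun := fun v i => v.1 (Sum.inl i)
      invFun := fun w => ⟨Sum.elim w 0, by intro i; rfl⟩
      map_add' := fun _ _ => rfl
      map_smul' := fun _ _ => rfl
      left_inv := by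
        rintro ⟨v, hv⟩
        apply Subtype.ext
        funext k
        rcases k with k | k
        · rfl
        · exact (hv k).symm
      right_inv := fun w => rfl }
  rw [e.finrank_eq]
  simp

theorem isLag_U₁ (m : ℕ) : Cfsg.Agent.Lib.OrthLagr.IsLag (qPlus m F) m (U₁ m F) := by
  refine ⟨?_, finrank_U₁ m⟩
  intro u hu
  rw [qPlus_apply]
  simp [Cfsg.quadFormPlus, (mem_U₁.1 hu)]

theorem even_of_swap [Fintype F] {m : ℕ} (h : Fintype.card F ≠ 2 ∨ m ≠ 2)
    (g : ↥(Cfsg.isometryGroup F ⇑(qPlus m F))) (hg : g ∈ Cfsg.Omega F ⇑(qPlus m F))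
    (h1 : ∀ v : Fin m ⊕ Fin m → F, (∀ i, v (Sum.inr i) = 0) → ∀ i,
      (((g : GL (Fin m ⊕ Fin m) F) : Matrix (Fin m ⊕ Fin m) (Fin m ⊕ Fin m) F) *ᵥ v) (Sum.inl i) = 0) : Even m := by
  classical
  have hQ := hQ_qPlus (F := F) m
  have hOG : O (qPlus m F) ≤ G (qPlus m F) := O_le_G hQ (hF_plus h)
  rw [mem_Omega_iff, mem_commutator_iff hQ hOG] at hg
  obtain ⟨L, hL, hgL, hev, -⟩ := hg
  have hpar := Cfsg.Agent.Lib.OrthLagr.parity_lag hQ (finrank_plus m) (isLag_U₁ m) (isLag_U₁ m) L hL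
  have h0 : U₁ m F ⊓ (U₁ m F).map ((prodR (qPlus m F) L : _ ≃ₗ[F] _) : _ →ₗ[F] _) = ⊥ := by
    rw [eq_bot_iff]
    rintro x ⟨hx1, y, hy, rfl⟩
    rw [Submodule.mem_bot]
    funext k
    have hgy : ((g : GL (Fin m ⊕ Fin m) F) : Matrix (Fin m ⊕ Fin m) (Fin m ⊕ Fin m) F) *ᵥ y = prodR (qPlus m F) L y := by
      rw [← toO_apply, hgL]
      rfl
    rcases k with k | k
    · have := h1 y hy k
      rw [hgy] at this
      exact this
    · exact hx1 k
  rw [h0, inf_idem, finrank_U₁] at hpar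
  simp only [finrank_bot, tsub_zero, tsub_self, add_zero] at hpar
  rw [Nat.even_add] at hpar
  exact hpar.mpr hev

end Cfsg.Agent.Lib.HypLevi
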