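import Mathlib

/-!
# Counting 1-spaces with a property of their nonzero vectors
-/

set_option autoImplicit false

namespace Cfsg.Agent.Lib.PointCount

open Module

variable {F V : Type*} [Field F] [Fintype F] [AddCommGroup V] [Module F V] [Finite V]

/-- The span of a vector with the property is one of the counted 1-spaces. -/
theorem finrank_span_of_ne {v : V} (hv : v ≠ 0) : finrank F (Submodule.span F {v}) = 1 :=
  finrank_span_singleton hv

/-- Vectors with a scalar-closed property are counted by the 1-spaces containing them. -/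
theorem card_points (P : V → Prop) (h0 : ∀ v, P v → v ≠ 0)
    (hs : ∀ (c : F) (v : V), c ≠ 0 → P v → P (c • v)) :
    Nat.card {v // P v} =
      (Fintype.card F - 1) * Nat.card {W : Submodule F V // finrank F W = 1 ∧ ∃ v ∈ W, P v} := by
  classical
  haveI : Fintype V := Fintype.ofFinite V
  let S := {W : Submodule F V // finrank F W = 1 ∧ ∃ v ∈ W, P v}
  let f : {v // P v} → S := fun v =>
    ⟨Submodule.span F {v.1}, finrank_span_of_ne (h0 _ v.2), v.1, Submodule.mem_span_singleton_self _, v.2⟩
  have hf : ∀ W : S, Nat.card {v // f v = W} = Fintype.card F - 1 := by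
    rintro ⟨W, hW, v0, hv0, hP⟩
    have hne := h0 _ hP
    have hW1 : ∀ w ∈ W, ∃ c : F, c • v0 = w := by
      intro w hw
      have hne' : (⟨v0, hv0⟩ : W) ≠ 0 := fun h => hne (congrArg Subtype.val h)
      obtain ⟨c, hc⟩ := (finrank_eq_one_iff_of_nonzero' (⟨v0, hv0⟩ : W) hne').1 hW ⟨w, hw⟩
      exact ⟨c, congrArg Subtype.val hc⟩
    have hspan : ∀ x, x ≠ 0 → x ∈ W → Submodule.span F {x} = W := by
      intro x hx hxW
      apply Submodule.eq_of_le_of_finrank_eq
      · rwa [Submodule.span_singleton_le_iff_mem]
      · rw [finrank_span_of_ne hx, hW]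
    have key : ∀ c : Fˣ, f ⟨(c : F) • v0, hs _ _ c.ne_zero hP⟩ = ⟨W, hW, v0, hv0, hP⟩ := by
      intro c
      apply Subtype.ext
      exact hspan _ (smul_ne_zero c.ne_zero hne) (W.smul_mem _ hv0)
    let g : Fˣ → {v // f v = ⟨W, hW, v0, hv0, hP⟩} := fun c => ⟨⟨(c : F) • v0, hs _ _ c.ne_zero hP⟩, key c⟩
    have hg : Function.Bijective g := by
      constructor
      · intro c c' h
        have h1 : (c : F) • v0 = (c' : F) • v0 := congrArg (fun z => z.1.1) h
        exact Units.ext (smul_left_injective F hne h1)
      · rintro ⟨⟨x, hx⟩, hfx⟩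
        have hxW : x ∈ W := by
          have h2 : Submodule.span F {x} = W := congrArg Subtype.val hfx
          rw [← h2]
          exact Submodule.mem_span_singleton_self _
        obtain ⟨c, hc⟩ := hW1 x hxW
        have hc0 : c ≠ 0 := by
          rintro rfl
          rw [zero_smul] at hc
          exact h0 x hx hc.symm
        refine ⟨Units.mk0 c hc0, ?_⟩
        apply Subtype.ext
        apply Subtype.ext
        exact hc
    rw [← Nat.card_congr (Equiv.ofBijective g hg), Nat.card_eq_fintype_card, Fintype.card_units]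
  have h1 := Nat.card_congr (Equiv.sigmaFiberEquiv f)
  rw [← h1]
  haveI : Fintype S := Fintype.ofFinite S
  rw [Nat.card_sigma]
  simp only [hf]
  rw [Finset.sum_const, Finset.card_univ, smul_eq_mul, mul_comm, Nat.card_eq_fintype_card]

end Cfsg.Agent.Lib.PointCount
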