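import Mathlib
import Cfsg.Agent.Lib.HypEll
import Cfsg.Agent.Lib.SpTI.Basic

/-!
# Types of fixed-point-free invariant subspaces of isometries of odd prime order
-/

set_option autoImplicit false
set_option linter.unusedSectionVars false
set_option linter.unusedSimpArgs false
set_option linter.unusedVariables false

universe u v

namespace Cfsg.Agent.Lib.HypBlock

open Module QuadraticMap Polynomial Cfsg.Agent.Lib.QuadFF Cfsg.Agent.Lib.IsomBlock Cfsg.Agent.Lib.QuadClass2
open Cfsg.Agent.Lib.QuadClass Cfsg.Agent.Lib.HypEll Cfsg.Agent.Lib.SpTI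

variable {F : Type*} [Field F] [Fintype F] {V : Type u} [AddCommGroup V] [Module F V] [FiniteDimensional F V]
variable {Q : QuadraticForm F V} {T : V →ₗ[F] V} {r q : ℕ}

theorem polar_iso (hT : ∀ v, Q (T v) = Q v) (u v : V) : Bf Q (T u) (T v) = Bf Q u v := by
  show polar Q (T u) (T v) = polar Q u v
  rw [polar, polar, ← map_add, hT, hT, hT]

/-- A counting congruence for permutations of prime order with a unique fixed point. -/
theorem card_sub_one_dvd {X : Type*} [Finite X] [hr : Fact r.Prime] (f : Function.End X) (hf : f ^ r = 1) (x₀ : X)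
    (h0 : f x₀ = x₀) (huniq : ∀ x, f x = x → x = x₀) : (r : ℤ) ∣ (Nat.card X : ℤ) - 1 := by
  classical
  cases nonempty_fintype X
  have hfr : f ^ r ^ 1 = 1 := by rwa [pow_one]
  have hcong := Equiv.Perm.card_fixedPoints_modEq (f := f) hfr
  have hfix : Nat.card (Function.fixedPoints f) = 1 := by
    rw [Nat.card_eq_one_iff_unique]
    refine ⟨⟨?_⟩, ⟨⟨x₀, h0⟩⟩⟩
    rintro ⟨x, hx⟩ ⟨y, hy⟩
    apply Subtype.ext
    exact (huniq x hx).trans (huniq y hy).symm
  rw [Fintype.card_eq_nat_card, Fintype.card_eq_nat_card, hfix] at hcong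
  have := Nat.modEq_iff_dvd.1 hcong.symm
  simpa using this

/-- The block arithmetic for `i` even. -/
theorem arith_even [hr : Fact r.Prime] (hr2 : r ≠ 2) (Q0 : ℤ) (e : ℕ) (hd0 : (r : ℤ) ∣ Q0 ^ (e + 1) + 1)
    (hd : (r : ℤ) ∣ Q0 ^ (2 * e + 1) + Q0 ^ (e + 1) - Q0 ^ e - 1) : (r : ℤ) ∣ Q0 - 1 := by
  have hpr : Prime (r : ℤ) := Nat.prime_iff_prime_int.1 hr.out
  have h2 : (r : ℤ) ∣ 2 * (Q0 ^ e + 1) := by
    have : 2 * (Q0 ^ e + 1) = (Q0 ^ e + 1) * (Q0 ^ (e + 1) + 1) - (Q0 ^ (2 * e + 1) + Q0 ^ (e + 1) - Q0 ^ e - 1) := by ring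
    rw [this]
    exact dvd_sub (Dvd.dvd.mul_left hd0 _) hd
  have h3 : ¬ (r : ℤ) ∣ 2 := by
    intro h
    have : r ∣ 2 := by exact_mod_cast h
    exact hr2 ((Nat.prime_dvd_prime_iff_eq hr.out Nat.prime_two).1 this)
  have h4 : (r : ℤ) ∣ Q0 ^ e + 1 := (hpr.dvd_or_dvd h2).resolve_left h3
  have : Q0 - 1 = Q0 * (Q0 ^ e + 1) - (Q0 ^ (e + 1) + 1) := by ring
  rw [this]
  exact dvd_sub (Dvd.dvd.mul_left h4 _) hd0

/-- `q ^ e ≡ -1` for order `2 e`. -/
theorem dvd_of_order_even [hr : Fact r.Prime] {e : ℕ} (he : orderOf (q : ZMod r) = 2 * e) (he0 : e ≠ 0) : r ∣ q ^ e + 1 := by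
  have h1 : ((q : ZMod r) ^ e) * ((q : ZMod r) ^ e) = 1 := by
    rw [← pow_add, ← two_mul, ← he, pow_orderOf_eq_one]
  have h2 : (q : ZMod r) ^ e ≠ 1 := pow_ne_one_of_lt_orderOf he0 (by omega)
  have h3 : ((q : ZMod r) ^ e - 1) * ((q : ZMod r) ^ e + 1) = 0 := by linear_combination h1
  have h4 : (q : ZMod r) ^ e + 1 = 0 := (mul_eq_zero.mp h3).resolve_left (sub_ne_zero.mpr h2)
  apply (ZMod.natCast_eq_zero_iff _ _).mp
  push_cast
  exact h4

/-- Action on the zeros of an invariant subspace. -/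
theorem zeros_cong [hr : Fact r.Prime] (hT : ∀ v, Q (T v) = Q v) (hTr : T ^ r = 1) {W : Submodule F V}
    (hinv : InvOn T W) (hfree : FixFree T W) : (r : ℤ) ∣ (Nat.card {v : W // restr Q W v = 0} : ℤ) - 1 := by
  classical
  have hfin : Finite W := Module.finite_of_finite F
  let f : Function.End {v : W // restr Q W v = 0} :=
    fun v => ⟨⟨T v.1.1, hinv _ v.1.2⟩, by
      show Q (T v.1.1) = 0
      rw [hT]
      exact v.2⟩
  have hfk : ∀ k (v : {v : W // restr Q W v = 0}), ((f ^ k) v).1.1 = (T ^ k) v.1.1 := by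
    intro k v
    induction k with
    | zero => rfl
    | succ k ih =>
      rw [pow_succ', pow_succ']
      change T ((f ^ k) v).1.1 = _
      rw [ih]
      rfl
  refine card_sub_one_dvd f ?_ ⟨0, QuadraticMap.map_zero _⟩ ?_ ?_
  · funext v
    apply Subtype.ext
    apply Subtype.ext
    rw [hfk, hTr]
    rfl
  · apply Subtype.ext
    apply Subtype.ext
    show T 0 = 0
    simp
  · rintro ⟨⟨v, hv⟩, hv0⟩ hfix
    apply Subtype.ext
    apply Subtype.ext
    have h1 : T v = v := congrArg (fun z : {v : W // restr Q W v = 0} => z.1.1) hfix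
    exact hfree v hv h1

/-- Blocks for `i` even are not hyperbolic. -/
theorem not_hyp_block_even [hr : Fact r.Prime] (hq : Fintype.card F = q) (hr2 : r ≠ 2) (hT : ∀ v, Q (T v) = Q v)
    (hTr : T ^ r = 1) {W : Submodule F V} (hinv : InvOn T W) (hfree : FixFree T W) {e : ℕ}
    (he : orderOf (q : ZMod r) = 2 * (e + 1)) (hW : finrank F W = 2 * (e + 1)) : ¬ Hyp Q W := by
  rintro ⟨hnd, U, hUW, hU, hUd⟩
  have hUe : finrank F U = e + 1 := by omega
  obtain ⟨b, hb⟩ := hyp_of_ts (Q := restr Q W) hW (nd_restr hnd) (U.comap W.subtype) (fun v hv => hU _ hv)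
    (by rw [finrank_comap_of_le hUW, hUe])
  have hc := card_zeros_of_hyp hb
  have hd := zeros_cong hT hTr hinv hfree
  rw [hc, hq] at hd
  have hd0 : r ∣ q ^ (e + 1) + 1 := dvd_of_order_even he (by omega)
  have hd0' : (r : ℤ) ∣ (q : ℤ) ^ (e + 1) + 1 := by exact_mod_cast hd0
  have h1 := arith_even hr2 (q : ℤ) e hd0' (by
    have h3 : (q : ℤ) ^ (2 * e + 1) + (q : ℤ) ^ (e + 1) - (q : ℤ) ^ e - 1 =
      (q : ℤ) ^ (2 * e + 1) + (q : ℤ) ^ (e + 1) - (q : ℤ) ^ e - 1 := rfl
    exact hd)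
  have h4 : (q : ZMod r) = 1 := by
    have h5 : (((q : ℤ) - 1 : ℤ) : ZMod r) = 0 := (ZMod.intCast_zmod_eq_zero_iff_dvd _ _).2 h1
    push_cast at h5
    exact sub_eq_zero.1 h5
  rw [h4, orderOf_one] at he
  omega

section main

variable [hr : Fact r.Prime]

/-- Blocks for `i` odd are hyperbolic. -/
theorem hyp_block_odd (h2 : (2 : F) ≠ 0) (hq : Fintype.card F = q) (hr2 : r ≠ 2) (hrF : (r : F) ≠ 0)
    (hT : ∀ v, Q (T v) = Q v) (hTr : T ^ r = 1) {W : Submodule F V} (hnd : NDOn (Bf Q) W) (hinv : InvOn T W)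
    (hfree : FixFree T W) (hodd : ¬ Even (orderOf (q : ZMod r)))
    (hW : finrank F W = 2 * orderOf (q : ZMod r)) : Hyp Q W := by
  have hiso := polar_iso hT
  have hpos : 0 < orderOf (q : ZMod r) := orderOf_pos' hq hrF
  have hW0 : W ≠ ⊥ := by
    rintro rfl
    rw [finrank_bot] at hW
    omega
  obtain ⟨h, hh, hhd, U, hUW, hUinv, hUfin, hUk, hUs⟩ := exists_simple_in hq hrF hTr hinv hfree hW0
  rcases rad_dichotomy (good h2 Q) hiso hr.out.ne_zero hTr hUinv hUs with hnd' | hti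
  · exfalso
    apply hodd
    rw [← hUfin]
    exact even_of_fixfree (good h2 Q) hiso (hr.out.odd_of_ne_two hr2) hTr hnd' hUinv (fun u hu hfix => hfree u (hUW hu) hfix)
  · refine ⟨hnd, U, hUW, ?_, by omega⟩
    intro v hv
    have := hti v hv v hv
    rw [Bf_apply, polar_self_eq] at this
    exact (mul_eq_zero.1 this).resolve_left h2

/-- Types of fixed-point-free subspaces, `i` odd. -/
theorem type_fpf_odd (h2 : (2 : F) ≠ 0) (hq : Fintype.card F = q) (hr2 : r ≠ 2) (hrF : (r : F) ≠ 0)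
    (hT : ∀ v, Q (T v) = Q v) (hTr : T ^ r = 1) (hodd : ¬ Even (orderOf (q : ZMod r))) :
    ∀ (n : ℕ) (W : Submodule F V), finrank F W = n → NDOn (Bf Q) W → InvOn T W → FixFree T W → Hyp Q W := by
  have hiso := polar_iso hT
  intro n
  induction n using Nat.strong_induction_on with
  | _ n ih =>
    intro W hn hnd hinv hfree
    by_cases hW0 : W = ⊥
    · rw [hW0]
      exact hyp_bot Q
    obtain ⟨u, hu, hu0⟩ := (Submodule.ne_bot_iff W).mp hW0
    obtain ⟨B, hBW, hBinv, hBnd, hBfree, hBfin⟩ := exists_block_rel hq hr2 hrF (good h2 Q) hiso hTr hnd hinv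
      ⟨u, hu, fun h => hu0 (hfree u hu h)⟩
    rw [if_neg hodd] at hBfin
    have hB := hyp_block_odd h2 hq hr2 hrF hT hTr hBnd hBinv hBfree hodd hBfin
    have hpos : 0 < orderOf (q : ZMod r) := orderOf_pos' hq hrF
    have h1 := finrank_rel (good h2 Q) hBW hBnd
    have h3 := ih _ (by omega) (W ⊓ perp (Bf Q) B) rfl (nd_rel (good h2 Q) hBW hBnd hnd)
      (inv_inf hinv (inv_perp hiso hr.out.ne_zero hTr hBinv)) (fun u hu hfix => hfree u hu.1 hfix)
    rw [← sup_rel (good h2 Q) hBW hBnd]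
    exact hyp_sup h2 hB h3 (fun u hu v hv => hv.2 u hu)

/-- Types of fixed-point-free subspaces, `i` even. -/
theorem type_fpf_even (h2 : (2 : F) ≠ 0) (hq : Fintype.card F = q) (hr2 : r ≠ 2) (hrF : (r : F) ≠ 0)
    (hT : ∀ v, Q (T v) = Q v) (hTr : T ^ r = 1) (hev : Even (orderOf (q : ZMod r))) :
    ∀ (a : ℕ) (W : Submodule F V), finrank F W = orderOf (q : ZMod r) * a → NDOn (Bf Q) W → InvOn T W → FixFree T W →
      (Even a → Hyp Q W) ∧ (Odd a → Ell Q W) := by
  have hiso := polar_iso hT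
  have hpos : 0 < orderOf (q : ZMod r) := orderOf_pos' hq hrF
  intro a
  induction a using Nat.strong_induction_on with
  | _ a ih =>
    intro W hn hnd hinv hfree
    by_cases hW0 : W = ⊥
    · have ha : a = 0 := by
        rw [hW0, finrank_bot] at hn
        rcases Nat.mul_eq_zero.1 hn.symm with h | h
        · omega
        · exact h
      subst ha
      rw [hW0]
      exact ⟨fun _ => hyp_bot Q, fun h => absurd h (by decide)⟩
    obtain ⟨u, hu, hu0⟩ := (Submodule.ne_bot_iff W).mp hW0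
    obtain ⟨B, hBW, hBinv, hBnd, hBfree, hBfin⟩ := exists_block_rel hq hr2 hrF (good h2 Q) hiso hTr hnd hinv
      ⟨u, hu, fun h => hu0 (hfree u hu h)⟩
    rw [if_pos hev] at hBfin
    -- the block type
    obtain ⟨e', he'⟩ := hev
    obtain ⟨e, rfl⟩ : ∃ e, e' = e + 1 := ⟨e' - 1, by omega⟩
    have he : orderOf (q : ZMod r) = 2 * (e + 1) := by omega
    have hB : Ell Q B := by
      have hnh := not_hyp_block_even hq hr2 hT hTr hBinv hBfree he (by omega)
      rcases hyp_or_ell h2 Q (e + 1) B (by omega) hBnd with h | h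
      · exact absurd h hnh
      · exact h
    have h1 := finrank_rel (good h2 Q) hBW hBnd
    obtain ⟨a', rfl⟩ : ∃ a', a = a' + 1 := by
      refine ⟨a - 1, ?_⟩
      rcases a with _ | a
      · exact absurd (Submodule.finrank_eq_zero.1 (by rw [hn]; simp)) hW0
      · simp
    have h3 := ih a' (by omega) (W ⊓ perp (Bf Q) B) (by rw [mul_add] at hn; nlinarith) (nd_rel (good h2 Q) hBW hBnd hnd)
      (inv_inf hinv (inv_perp hiso hr.out.ne_zero hTr hBinv)) (fun u hu hfix => hfree u hu.1 hfix)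
    have hsup := sup_rel (good h2 Q) hBW hBnd
    have horth : Orth Q B (W ⊓ perp (Bf Q) B) := fun u hu v hv => hv.2 u hu
    constructor
    · intro hE
      have : Odd a' := by
        rcases Nat.even_or_odd a' with h | h
        · exact absurd hE (by simpa [Nat.even_add_one] using h)
        · exact h
      rw [← hsup]
      exact ell_sup_ell h2 hB (h3.2 this) horth
    · intro hO
      have : Even a' := by
        rcases Nat.even_or_odd a' with h | h
        · exact h
        · exact absurd hO (by simpa [Nat.odd_add_one] using h)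
      rw [← hsup]
      exact ell_sup_hyp h2 hB (h3.1 this) horth

/-- Fixed-point-free invariant subspaces of prescribed dimension. -/
theorem exists_fpf_sub (h2 : (2 : F) ≠ 0) (hq : Fintype.card F = q) (hr2 : r ≠ 2) (hrF : (r : F) ≠ 0)
    (hT : ∀ v, Q (T v) = Q v) (hTr : T ^ r = 1) :
    ∀ (a s : ℕ) (U : Submodule F V), a ≤ s → finrank F U = blockDim r q * s → NDOn (Bf Q) U → InvOn T U → FixFree T U →
      ∃ W ≤ U, NDOn (Bf Q) W ∧ InvOn T W ∧ finrank F W = blockDim r q * a := by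
  have hiso := polar_iso hT
  have hpos : 0 < blockDim r q := blockDim_pos hq hrF
  intro a
  induction a with
  | zero =>
    intro s U _ _ _ _ _
    exact ⟨⊥, bot_le, fun u hu _ => by simpa using hu, fun u hu => by
      rw [Submodule.mem_bot] at hu
      rw [hu, map_zero]
      exact Submodule.zero_mem _, by simp⟩
  | succ a ih =>
    intro s U has hn hnd hinv hfree
    have hU0 : U ≠ ⊥ := by
      rintro rfl
      rw [finrank_bot] at hn
      rcases Nat.mul_eq_zero.1 hn.symm with h | h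
      · omega
      · omega
    obtain ⟨u, hu, hu0⟩ := (Submodule.ne_bot_iff U).mp hU0
    obtain ⟨B, hBU, hBinv, hBnd, hBfree, hBfin⟩ := exists_block_rel hq hr2 hrF (good h2 Q) hiso hTr hnd hinv
      ⟨u, hu, fun h => hu0 (hfree u hu h)⟩
    have hBfin' : finrank F B = blockDim r q := hBfin
    have h1 := finrank_rel (good h2 Q) hBU hBnd
    obtain ⟨s', rfl⟩ : ∃ s', s = s' + 1 := ⟨s - 1, by omega⟩
    obtain ⟨W', hW'U, hW'nd, hW'inv, hW'd⟩ := ih s' (U ⊓ perp (Bf Q) B) (by omega) (by rw [mul_add] at hn; omega)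
      (nd_rel (good h2 Q) hBU hBnd hnd) (inv_inf hinv (inv_perp hiso hr.out.ne_zero hTr hBinv))
      (fun u hu hfix => hfree u hu.1 hfix)
    have horth : Orth Q B W' := fun u hu v hv => (hW'U hv).2 u hu
    refine ⟨B ⊔ W', sup_le hBU (hW'U.trans inf_le_left), nd_sup (good h2 Q) hBnd hW'nd horth, inv_sup hBinv hW'inv, ?_⟩
    rw [finrank_sup_of_orth h2 hBnd horth, hBfin', hW'd]
    ring

end main

end Cfsg.Agent.Lib.HypBlock
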