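import Mathlib
import Cfsg.Agent.Lib.HypBlock
import Cfsg.Agent.Lib.OTS.Core

/-!
# Hyperbolic and elliptic even-dimensional subspaces in all characteristics
-/

set_option autoImplicit false
set_option linter.unusedSectionVars false
set_option linter.unusedSimpArgs false
set_option linter.unusedVariables false

universe u v

namespace Cfsg.Agent.Lib.EvT99

open Module QuadraticMap Cfsg.Agent.Lib.QuadFF Cfsg.Agent.Lib.IsomBlock Cfsg.Agent.Lib.QuadClass2
open Cfsg.Agent.Lib.QuadClass Cfsg.Agent.Lib.HypEll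

variable {F : Type u} [Field F] {V : Type v} [AddCommGroup V] [Module F V]

theorem good' (Q : QuadraticForm F V) : GoodForm (Bf Q) := Cfsg.Agent.Lib.OTS.goodForm_polar Q

section fd

variable [FiniteDimensional F V]

theorem finrank_sup_of_orth' {Q : QuadraticForm F V} {W W' : Submodule F V} (hW : NDOn (Bf Q) W)
    (h : Orth Q W W') : finrank F (W ⊔ W' : Submodule F V) = finrank F W + finrank F W' :=
  finrank_sup_orth (good' Q) hW h

theorem hyp_sup' {Q : QuadraticForm F V} {W W' : Submodule F V} (hW : Hyp Q W) (hW' : Hyp Q W')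
    (h : Orth Q W W') : Hyp Q (W ⊔ W') := by
  obtain ⟨h1, U, hUW, hU, hUd⟩ := hW
  obtain ⟨h1', U', hUW', hU', hUd'⟩ := hW'
  refine ⟨nd_sup (good' Q) h1 h1' h, U ⊔ U', sup_le_sup hUW hUW', ts_sup hU hU' (h.mono hUW hUW'), ?_⟩
  rw [finrank_sup_of_orth' h1 h]
  have h3 := Submodule.finrank_sup_add_finrank_inf_eq U U'
  have h4 : U ⊓ U' = ⊥ :=
    ((disjoint_of_orth (good' Q) h1 h).mono hUW hUW').eq_bot
  rw [h4, finrank_bot, add_zero] at h3
  omega



section fin

variable [Fintype F]

theorem nd_of_ani' {Q : QuadraticForm F V} {A : Submodule F V} (hA : Ani Q A) : NDOn (Bf Q) A := by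
  classical
  by_cases h2 : (2 : F) = 0
  swap
  · exact nd_of_ani h2 hA
  intro u hu h0
  by_contra hu0
  obtain ⟨v, hv, hvs⟩ : ∃ v ∈ A, v ∉ Submodule.span F {u} := by
    by_contra hno
    push Not at hno
    have h1 : A ≤ Submodule.span F {u} := fun v hv => hno v hv
    have h3 := Submodule.finrank_mono h1
    rw [hA.2, finrank_span_singleton hu0] at h3
    omega
  have hQu : Q u ≠ 0 := fun h => hu0 (hA.1 u hu h)
  have hch : ringChar F = 2 := CharP.ringChar_of_prime_eq_zero Nat.prime_two (by exact_mod_cast h2)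
  obtain ⟨t, ht⟩ := FiniteField.isSquare_of_char_two hch (Q v / Q u)
  have hz : Q (t • u + v) = 0 := by
    have hp : polar Q u v = 0 := h0 v hv
    rw [Q_ad, Q_sm, polar_sm_l, hp, pow_two, ← ht]
    field_simp
    have : Q v + Q v = 2 * Q v := by ring
    rw [mul_zero, add_zero]
    linear_combination Q v * h2
  have h5 := hA.1 _ (A.add_mem (A.smul_mem _ hu) hv) hz
  apply hvs
  have h6 : v = (-t) • u := by
    rw [neg_smul]
    exact eq_neg_of_add_eq_zero_right h5
  rw [h6]
  exact Submodule.smul_mem _ _ (Submodule.mem_span_singleton_self u)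

end fin

section fin2

variable [Fintype F]

theorem Ell.nd' {Q : QuadraticForm F V} {W : Submodule F V} (hW : Ell Q W) : NDOn (Bf Q) W := by
  obtain ⟨A, H, hA, hH, h, rfl⟩ := hW
  exact nd_sup (good' Q) (nd_of_ani' hA) hH.1 h


theorem Ell.finrank' {Q : QuadraticForm F V} {W : Submodule F V} (hW : Ell Q W) :
    ∃ n, finrank F W = 2 * (n + 1) := by
  obtain ⟨A, H, hA, hH, h, rfl⟩ := hW
  rw [finrank_sup_of_orth' (nd_of_ani' hA) h, hA.2]
  obtain ⟨_, U, _, _, hd⟩ := hH
  exact ⟨Module.finrank F U, by omega⟩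


theorem ell_sup_hyp' {Q : QuadraticForm F V} {W W' : Submodule F V} (hW : Ell Q W) (hW' : Hyp Q W')
    (h : Orth Q W W') : Ell Q (W ⊔ W') := by
  obtain ⟨A, H, hA, hH, hAH, rfl⟩ := hW
  refine ⟨A, H ⊔ W', hA, hyp_sup' hH hW' (h.mono le_sup_right le_rfl),
    hAH.sup_right (h.mono le_sup_left le_rfl), ?_⟩
  rw [sup_assoc]


theorem not_hyp_of_ell' {Q : QuadraticForm F V} {W : Submodule F V} (hE : Ell Q W) : ¬ Hyp Q W := by
  rintro ⟨hnd, K, hKW, hK, hKd⟩
  obtain ⟨A, H, hA, ⟨hH, U, hUH, hU, hUd⟩, hAH, rfl⟩ := hE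
  set W := A ⊔ H with hW
  have hAW : A ≤ W := le_sup_left
  have hHW : H ≤ W := le_sup_right
  have hWd : finrank F W = 2 * finrank F U + 2 := by
    rw [hW, finrank_sup_of_orth' (nd_of_ani' hA) hAH, hA.2]
    omega
  have h3 := finrank_le_of_witness (Q := restr Q W) (m := finrank F U) (nd_restr hnd) (by rw [hWd])
    (A.comap W.subtype) (U.comap W.subtype)
    (by
      intro v hv h0
      apply Subtype.ext
      exact hA.1 _ hv h0)
    (by rw [finrank_comap_of_le hAW]; exact hA.2)
    (fun v hv => hU _ hv)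
    (finrank_comap_of_le (hUH.trans hHW))
    (by
      intro u hu a ha
      rw [polar_restr]
      have := hAH a ha u (hUH hu)
      rwa [polar_comm] at this)
    (K.comap W.subtype)
    (fun v hv => hK _ hv)
  rw [finrank_comap_of_le hKW] at h3
  omega


end fin2

theorem hyp_plane' {Q : QuadraticForm F V} {e f : V} (h : IsHyp Q e f) :
    Hyp Q (Submodule.span F {e, f}) ∧ finrank F (Submodule.span F {e, f}) = 2 := by
  have hee : polar Q e e = 0 := by rw [polar_self_eq, h.Qv]; simp
  have hff : polar Q f f = 0 := by rw [polar_self_eq, h.Qw]; simp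
  have hfe : polar Q f e = 1 := by rw [polar_comm]; exact h.vw
  have hd : finrank F (Submodule.span F {e, f}) = 2 := by
    apply finrank_pair
    intro s t hst
    have h1 := congrArg (polar Q e) hst
    have h3 := congrArg (polar Q f) hst
    rw [polar_add_right, polar_sm_r, polar_sm_r, hee, h.vw] at h1
    rw [polar_add_right, polar_sm_r, polar_sm_r, hfe, hff] at h3
    simp only [polar_zero_right] at h1 h3
    constructor
    · simpa using h3
    · simpa using h1
  refine ⟨⟨?_, Submodule.span F {e}, ?_, ?_, ?_⟩, hd⟩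
  · intro u hu h0
    obtain ⟨a, b, rfl⟩ := Submodule.mem_span_pair.1 hu
    have h1 := h0 e (Submodule.subset_span (by simp))
    have h3 := h0 f (Submodule.subset_span (by simp))
    rw [Bf_apply, polar_add_left, polar_sm_l, polar_sm_l, hee, hfe] at h1
    rw [Bf_apply, polar_add_left, polar_sm_l, polar_sm_l, h.vw, hff] at h3
    have ha : a = 0 := by simpa using h3
    have hb : b = 0 := by simpa using h1
    rw [ha, hb]
    simp
  · exact Submodule.span_mono (by simp)
  · intro v hv
    obtain ⟨a, rfl⟩ := Submodule.mem_span_singleton.1 hv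
    rw [Q_sm, h.Qv, mul_zero]
  · rw [hd, finrank_span_singleton]
    intro h0
    rw [h0] at hee
    have := h.vw
    rw [h0] at this
    simp at this


section finite

variable [Fintype F]

theorem hyp_or_ell' (Q : QuadraticForm F V) :
    ∀ (n : ℕ) (W : Submodule F V), finrank F W = 2 * n → NDOn (Bf Q) W → Hyp Q W ∨ Ell Q W := by
  intro n
  induction n using Nat.strong_induction_on with
  | _ n ih =>
    intro W hW hnd
    by_cases hs : ∃ e ∈ W, e ≠ 0 ∧ Q e = 0
    · obtain ⟨e, he, he0, hQe⟩ := hs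
      obtain ⟨f, hf, hef⟩ := exists_partner_rel hnd he he0 hQe
      obtain ⟨hP, hPd⟩ := hyp_plane' hef
      set P := Submodule.span F {e, f} with hPdef
      have hPW : P ≤ W := Submodule.span_le.2 (by
        rintro x (rfl | rfl)
        · exact he
        · exact hf)
      have h3 := finrank_rel (good' Q) hPW hP.1
      have h4 := nd_rel (good' Q) hPW hP.1 hnd
      have h5 := sup_rel (good' Q) hPW hP.1
      have horth : Orth Q P (W ⊓ perp (Bf Q) P) := fun u hu v hv => hv.2 u hu
      obtain ⟨n', rfl⟩ : ∃ n', n = n' + 1 := ⟨n - 1, by omega⟩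
      rcases ih n' (by omega) _ (by omega) h4 with h6 | h6
      · left
        rw [← h5]
        exact hyp_sup' hP h6 horth
      · right
        rw [← h5, sup_comm]
        exact ell_sup_hyp' h6 hP horth.symm
    · push Not at hs
      have hani : ∀ v ∈ W, Q v = 0 → v = 0 := by
        intro v hv h0
        by_contra hv0
        exact hs v hv hv0 h0
      have h3 := finrank_le_two_of_ani hani
      have h4 : n = 0 ∨ n = 1 := by omega
      rcases h4 with rfl | rfl
      · left
        have : W = ⊥ := by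
          apply Submodule.finrank_eq_zero.1
          omega
        rw [this]
        exact hyp_bot Q
      · right
        exact ⟨W, ⊥, ⟨hani, by omega⟩, hyp_bot Q, fun u _ v hv => by
          rw [Submodule.mem_bot] at hv
          rw [hv]
          simp, by simp⟩


theorem exists_hyp_sub' (Q : QuadraticForm F V) :
    ∀ (t : ℕ) (U : Submodule F V), NDOn (Bf Q) U → 2 * t + 1 ≤ finrank F U → ∃ W ≤ U, Hyp Q W ∧ finrank F W = 2 * t := by
  intro t
  induction t with
  | zero =>
    intro U _ _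
    exact ⟨⊥, bot_le, hyp_bot Q, by simp⟩
  | succ t ih =>
    intro U hU hd
    obtain ⟨e, he0, hQe⟩ := exists_singular (restr Q U) (by omega)
    obtain ⟨f, hf, hef⟩ := exists_partner_rel (e := (e : V)) hU e.2 (fun h => he0 (Subtype.ext h)) hQe
    obtain ⟨hP, hPd⟩ := hyp_plane' hef
    set P := Submodule.span F {(e : V), f} with hPdef
    have hPU : P ≤ U := Submodule.span_le.2 (by
      rintro x (rfl | rfl)
      · exact e.2
      · exact hf)
    have h3 := finrank_rel (good' Q) hPU hP.1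
    have h4 := nd_rel (good' Q) hPU hP.1 hU
    obtain ⟨W', hW'U, hW', hW'd⟩ := ih _ h4 (by omega)
    have horth : Orth Q P W' := fun u hu v hv => (hW'U hv).2 u hu
    refine ⟨P ⊔ W', sup_le hPU (hW'U.trans inf_le_left), hyp_sup' hP hW' horth, ?_⟩
    rw [finrank_sup_of_orth' hP.1 horth, hPd, hW'd]
    ring


theorem ani_sup_ani' {Q : QuadraticForm F V} {A A' : Submodule F V} (hA : Ani Q A) (hA' : Ani Q A')
    (h : Orth Q A A') : Hyp Q (A ⊔ A') := by
  classical
  by_cases h2 : (2 : F) = 0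
  swap
  · exact ani_sup_ani h2 hA hA' h
  have hNA := nd_of_ani' hA
  have hNA' := nd_of_ani' hA'
  have key : ∀ (B : Submodule F V), Ani Q B → ∃ (b : Basis ((Fin 0 ⊕ Fin 0) ⊕ Fin 2) F B) (ζ : F), IsMinusBasis (restr Q B) b ζ := by
    intro B hB
    refine minus_of_no_ts (k := 0) (by rw [hB.2]) (nd_restr (nd_of_ani' hB)) ?_
    intro K hK hKd
    have h0 : K = ⊥ := by
      rw [eq_bot_iff]
      intro v hv
      have h3 := hB.1 (v : V) v.2 (hK v hv)
      rw [Submodule.mem_bot]
      exact Subtype.ext h3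
    rw [h0, finrank_bot] at hKd
    omega
  obtain ⟨b, ζ, hb⟩ := key A hA
  obtain ⟨b', ζ', hb'⟩ := key A' hA'
  obtain ⟨e, he⟩ := isometry_of_minus (nd_restr hNA) hb hb'
  have he' : ∀ v : A, Q (e v : V) = Q (v : V) := he
  let g : A →ₗ[F] V := A.subtype + A'.subtype ∘ₗ e.toLinearMap
  have hg : ∀ v : A, g v = (v : V) + (e v : V) := fun v => rfl
  have hdisj := disjoint_of_orth (good' Q) hNA h
  have hginj : Function.Injective g := by
    rw [injective_iff_map_eq_zero]
    intro v hv
    rw [hg] at hv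
    have h3 : (v : V) = -(e v : V) := eq_neg_of_add_eq_zero_left hv
    have h4 : (v : V) ∈ A ⊓ A' := ⟨v.2, by
      rw [h3]
      exact A'.neg_mem (e v).2⟩
    rw [hdisj.eq_bot] at h4
    exact Subtype.ext h4
  refine ⟨nd_sup (good' Q) hNA hNA' h, LinearMap.range g, ?_, ?_, ?_⟩
  · rintro _ ⟨v, rfl⟩
    rw [hg]
    exact Submodule.add_mem _ (Submodule.mem_sup_left v.2) (Submodule.mem_sup_right (e v).2)
  · rintro _ ⟨v, rfl⟩
    rw [hg, Q_ad, he', h v v.2 _ (e v).2]
    linear_combination Q (v : V) * h2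
  · rw [LinearMap.finrank_range_of_inj hginj, finrank_sup_of_orth' hNA h, hA.2, hA'.2]

/-- Anisotropic planes in nondegenerate spaces of dimension at least four. -/
theorem exists_ani_sub' (Q : QuadraticForm F V) {U : Submodule F V} (hU : NDOn (Bf Q) U)
    (hd : 4 ≤ finrank F U) : ∃ A ≤ U, Ani Q A := by
  classical
  obtain ⟨e, he0, hQe⟩ := exists_singular (restr Q U) (by omega)
  obtain ⟨f, hf, hef⟩ := exists_partner_rel (e := (e : V)) hU e.2 (fun h => he0 (Subtype.ext h)) hQe
  obtain ⟨hP, hPd⟩ := hyp_plane' hef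
  set P := Submodule.span F {(e : V), f} with hPdef
  have hPU : P ≤ U := Submodule.span_le.2 (by
    rintro x (rfl | rfl)
    · exact e.2
    · exact hf)
  have h3 := finrank_rel (good' Q) hPU hP.1
  have h4 := nd_rel (good' Q) hPU hP.1 hU
  set U₁ := U ⊓ perp (Bf Q) P with hU₁
  by_cases hs : ∃ e₂ ∈ U₁, e₂ ≠ 0 ∧ Q e₂ = 0
  · obtain ⟨e₂, he₂, he₂0, hQe₂⟩ := hs
    obtain ⟨f₂, hf₂, hef₂⟩ := exists_partner_rel h4 he₂ he₂0 hQe₂
    obtain ⟨ζ, hζ⟩ : ∃ ζ : F, ∀ t : F, t ^ 2 + t + ζ ≠ 0 := by
      have hni : ¬ Function.Injective (fun t : F => t ^ 2 + t) := by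
        intro hi
        have h0 : (-1 : F) = 0 := hi (by simp)
        exact one_ne_zero (neg_eq_zero.1 h0)
      rw [Finite.injective_iff_surjective] at hni
      simp only [Function.Surjective, not_forall, not_exists] at hni
      obtain ⟨y, hy⟩ := hni
      refine ⟨-y, fun t h => hy t ?_⟩
      linear_combination h
    have heP : (e : V) ∈ P := Submodule.subset_span (by simp)
    have hfP : f ∈ P := Submodule.subset_span (by simp)
    have p1 : polar Q (e : V) e₂ = 0 := he₂.2 _ heP
    have p2 : polar Q (e : V) f₂ = 0 := hf₂.2 _ heP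
    have p3 : polar Q f e₂ = 0 := he₂.2 _ hfP
    have p4 : polar Q f f₂ = 0 := hf₂.2 _ hfP
    have pee : polar Q (e : V) e = 0 := by
      rw [polar_self_eq]
      have : Q (e : V) = 0 := hQe
      rw [this, mul_zero]
    set u := (e : V) + f with hu
    set v := (e : V) + (e₂ + ζ • f₂) with hv
    have hQu : Q u = 1 := by
      rw [hu, Q_ad, hef.Qv, hef.Qw, hef.vw]
      ring
    have hQv : Q v = ζ := by
      rw [hv, Q_ad, Q_ad, Q_sm, hef.Qv, hQe₂, hef₂.Qw, polar_sm_r, hef₂.vw, polar_add_right, polar_sm_r, p1, p2]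
      ring
    have hpuv : polar Q u v = 1 := by
      rw [hu, hv, polar_add_left, polar_add_right, polar_add_right, polar_add_right, polar_add_right, polar_sm_r, polar_sm_r, pee, p1, p2, p3, p4,
        polar_comm Q f, hef.vw]
      ring
    have hval : ∀ a b : F, Q (a • u + b • v) = a ^ 2 + 1 * a * b + ζ * b ^ 2 := by
      intro a b
      rw [Q_ad, Q_sm, Q_sm, polar_sm_l, polar_sm_r, hQu, hQv, hpuv]
      ring
    have hzero := ani_of_zeta hζ
    refine ⟨Submodule.span F {u, v}, Submodule.span_le.2 ?_, ?_, ?_⟩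
    · have he₂U : e₂ ∈ U := he₂.1
      have hf₂U : f₂ ∈ U := hf₂.1
      rintro x (rfl | rfl)
      · exact U.add_mem e.2 hf
      · exact U.add_mem e.2 (U.add_mem he₂U (U.smul_mem _ hf₂U))
    · intro w hw h0
      obtain ⟨a, b, rfl⟩ := Submodule.mem_span_pair.1 hw
      rw [hval] at h0
      obtain ⟨rfl, rfl⟩ := hzero a b h0
      simp
    · apply finrank_pair
      intro s t hst
      apply hzero
      rw [← hval, hst, QuadraticMap.map_zero]
  · push Not at hs
    have hani : ∀ v ∈ U₁, Q v = 0 → v = 0 := by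
      intro v hv h0
      by_contra hv0
      exact hs v hv hv0 h0
    have h5 := finrank_le_two_of_ani hani
    exact ⟨U₁, inf_le_left, hani, by omega⟩

theorem ell_sup_ell' {Q : QuadraticForm F V} {W W' : Submodule F V} (hW : Ell Q W) (hW' : Ell Q W')
    (h : Orth Q W W') : Hyp Q (W ⊔ W') := by
  obtain ⟨A, H, hA, hH, hAH, rfl⟩ := hW
  obtain ⟨A', H', hA', hH', hAH', rfl⟩ := hW'
  have e : A ⊔ H ⊔ (A' ⊔ H') = (A ⊔ A') ⊔ (H ⊔ H') := by
    rw [sup_assoc, sup_assoc, sup_left_comm H]
  rw [e]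
  refine hyp_sup' (ani_sup_ani' hA hA' (h.mono le_sup_left le_sup_left))
    (hyp_sup' hH hH' (h.mono le_sup_right le_sup_right)) ?_
  exact Orth.sup_left (Orth.sup_right hAH (h.mono le_sup_left le_sup_right))
    (Orth.sup_right (h.symm.mono le_sup_left le_sup_right) hAH')


theorem exists_ell_sub' (Q : QuadraticForm F V) (t : ℕ) {U : Submodule F V} (hU : NDOn (Bf Q) U)
    (hd : 2 * (t + 1) + 2 ≤ finrank F U) : ∃ W ≤ U, Ell Q W ∧ finrank F W = 2 * (t + 1) := by
  obtain ⟨A, hAU, hA⟩ := exists_ani_sub' Q hU (by omega)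
  have hNA := nd_of_ani' hA
  have h3 := finrank_rel (good' Q) hAU hNA
  have h4 := nd_rel (good' Q) hAU hNA hU
  obtain ⟨H, hHU, hH, hHd⟩ := exists_hyp_sub' Q t _ h4 (by have := hA.2; omega)
  have horth : Orth Q A H := fun u hu v hv => (hHU hv).2 u hu
  refine ⟨A ⊔ H, sup_le hAU (hHU.trans inf_le_left), ⟨A, H, hA, hH, horth, rfl⟩, ?_⟩
  rw [finrank_sup_of_orth' hNA horth, hA.2, hHd]
  ring

end finite

end fd

end Cfsg.Agent.Lib.EvT99
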