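import Mathlib
import Cfsg.Agent.Lib.EvT99

/-!
# Invariant subspaces of isometries of odd prime order, all characteristics: types
-/

set_option autoImplicit false
set_option linter.unusedSectionVars false
set_option linter.unusedSimpArgs false
set_option linter.unusedVariables false

universe u v

namespace Cfsg.Agent.Lib.EvBlock99

open Module QuadraticMap Polynomial Cfsg.Agent.Lib.QuadFF Cfsg.Agent.Lib.IsomBlock Cfsg.Agent.Lib.QuadClass2
open Cfsg.Agent.Lib.QuadClass Cfsg.Agent.Lib.HypEll Cfsg.Agent.Lib.SpTI Cfsg.Agent.Lib.HypBlock Cfsg.Agent.Lib.EvT99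

variable {F : Type*} [Field F] [Fintype F] {V : Type u} [AddCommGroup V] [Module F V] [FiniteDimensional F V]
variable {Q : QuadraticForm F V} {T : V →ₗ[F] V} {r q : ℕ}

/-- The type of a subspace: `false` for hyperbolic, `true` for elliptic. -/
def IsT (Q : QuadraticForm F V) (W : Submodule F V) : Bool → Prop
  | false => Hyp Q W
  | true => Ell Q W

@[simp] theorem isT_false {W : Submodule F V} : IsT Q W false ↔ Hyp Q W := Iff.rfl

@[simp] theorem isT_true {W : Submodule F V} : IsT Q W true ↔ Ell Q W := Iff.rfl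

theorem IsT.nd {W : Submodule F V} {e : Bool} (h : IsT Q W e) : NDOn (Bf Q) W := by
  cases e
  · exact h.1
  · exact Ell.nd' h

theorem IsT.even {W : Submodule F V} {e : Bool} (h : IsT Q W e) : Even (finrank F W) := by
  cases e
  · obtain ⟨_, U, _, _, hd⟩ := h
    exact ⟨finrank F U, by omega⟩
  · obtain ⟨n, hn⟩ := Ell.finrank' h
    exact ⟨n + 1, by omega⟩

theorem IsT.sup {W W' : Submodule F V} {a b : Bool} (h : IsT Q W a) (h' : IsT Q W' b) (ho : Orth Q W W') :
    IsT Q (W ⊔ W') (xor a b) := by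
  cases a <;> cases b
  · exact hyp_sup' h h' ho
  · show Ell Q (W ⊔ W')
    rw [sup_comm]
    exact ell_sup_hyp' h' h ho.symm
  · exact ell_sup_hyp' h h' ho
  · exact ell_sup_ell' h h' ho

theorem IsT.uniq {W : Submodule F V} {a b : Bool} (h : IsT Q W a) (h' : IsT Q W b) : a = b := by
  cases a <;> cases b
  · rfl
  · exact absurd h (not_hyp_of_ell' h')
  · exact absurd h' (not_hyp_of_ell' h)
  · rfl

theorem isT_bot : IsT Q (⊥ : Submodule F V) false := hyp_bot Q

theorem exists_isT {W : Submodule F V} (hnd : NDOn (Bf Q) W) (he : Even (finrank F W)) : ∃ e, IsT Q W e := by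
  obtain ⟨n, hn⟩ := he
  rcases hyp_or_ell' Q n W (by omega) hnd with h | h
  · exact ⟨false, h⟩
  · exact ⟨true, h⟩

/-- Subspaces of prescribed type. -/
theorem exists_sub_type {U : Submodule F V} (hU : NDOn (Bf Q) U) {g : ℕ} (hg : Even g) (h0 : 0 < g) (hg2 : g + 2 ≤ finrank F U)
    (e : Bool) : ∃ W ≤ U, IsT Q W e ∧ finrank F W = g := by
  obtain ⟨n, rfl⟩ := hg
  cases e
  · obtain ⟨W, h1, h3, h4⟩ := exists_hyp_sub' Q n U hU (by omega)
    exact ⟨W, h1, h3, by omega⟩
  · obtain ⟨n', rfl⟩ : ∃ n', n = n' + 1 := ⟨n - 1, by omega⟩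
    obtain ⟨W, h1, h3, h4⟩ := exists_ell_sub' Q n' hU (by omega)
    exact ⟨W, h1, h3, by omega⟩

section main

variable [hr : Fact r.Prime]

/-- Blocks for `i` odd are hyperbolic. -/
theorem hyp_block_odd' (hq : Fintype.card F = q) (hr2 : r ≠ 2) (hrF : (r : F) ≠ 0)
    (hT : ∀ v, Q (T v) = Q v) (hTr : T ^ r = 1) {W : Submodule F V} (hnd : NDOn (Bf Q) W) (hinv : InvOn T W)
    (hfree : FixFree T W) (hodd : ¬ Even (orderOf (q : ZMod r)))
    (hW : finrank F W = 2 * orderOf (q : ZMod r)) : Hyp Q W := by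
  have hiso := polar_iso hT
  have hpos : 0 < orderOf (q : ZMod r) := orderOf_pos' hq hrF
  have hW0 : W ≠ ⊥ := by
    rintro rfl
    rw [finrank_bot] at hW
    omega
  obtain ⟨h, hh, hhd, U, hUW, hUinv, hUfin, hUk, hUs⟩ := exists_simple_in hq hrF hTr hinv hfree hW0
  rcases rad_dichotomy (good' Q) hiso hr.out.ne_zero hTr hUinv hUs with hnd' | hti
  · exfalso
    apply hodd
    rw [← hUfin]
    exact even_of_fixfree (good' Q) hiso (hr.out.odd_of_ne_two hr2) hTr hnd' hUinv (fun u hu hfix => hfree u (hUW hu) hfix)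
  · refine ⟨hnd, U, hUW, ?_, by omega⟩
    exact Cfsg.Agent.Lib.OTS.ts_of_ti_free hT hti hUinv (fun u hu hfix => hfree u (hUW hu) hfix)


/-- Types of fixed-point-free subspaces, `i` odd. -/
theorem type_fpf_odd' (hq : Fintype.card F = q) (hr2 : r ≠ 2) (hrF : (r : F) ≠ 0)
    (hT : ∀ v, Q (T v) = Q v) (hTr : T ^ r = 1) (hodd : ¬ Even (orderOf (q : ZMod r))) :
    ∀ (n : ℕ) (W : Submodule F V), finrank F W = n → NDOn (Bf Q) W → InvOn T W → FixFree T W → Hyp Q W := by
  have hiso := polar_iso hT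
  intro n
  induction n using Nat.strong_induction_on with
  | _ n ih =>
    intro W hn hnd hinv hfree
    by_cases hW0 : W = ⊥
    · rw [hW0]
      exact hyp_bot Q
    obtain ⟨u, hu, hu0⟩ := (Submodule.ne_bot_iff W).mp hW0
    obtain ⟨B, hBW, hBinv, hBnd, hBfree, hBfin⟩ := exists_block_rel hq hr2 hrF (good' Q) hiso hTr hnd hinv
      ⟨u, hu, fun h => hu0 (hfree u hu h)⟩
    rw [if_neg hodd] at hBfin
    have hB := hyp_block_odd' hq hr2 hrF hT hTr hBnd hBinv hBfree hodd hBfin
    have hpos : 0 < orderOf (q : ZMod r) := orderOf_pos' hq hrF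
    have h1 := finrank_rel (good' Q) hBW hBnd
    have h3 := ih _ (by omega) (W ⊓ perp (Bf Q) B) rfl (nd_rel (good' Q) hBW hBnd hnd)
      (inv_inf hinv (inv_perp hiso hr.out.ne_zero hTr hBinv)) (fun u hu hfix => hfree u hu.1 hfix)
    rw [← sup_rel (good' Q) hBW hBnd]
    exact hyp_sup' hB h3 (fun u hu v hv => hv.2 u hu)


/-- Types of fixed-point-free subspaces, `i` even. -/
theorem type_fpf_even' (hq : Fintype.card F = q) (hr2 : r ≠ 2) (hrF : (r : F) ≠ 0)
    (hT : ∀ v, Q (T v) = Q v) (hTr : T ^ r = 1) (hev : Even (orderOf (q : ZMod r))) :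
    ∀ (a : ℕ) (W : Submodule F V), finrank F W = orderOf (q : ZMod r) * a → NDOn (Bf Q) W → InvOn T W → FixFree T W →
      (Even a → Hyp Q W) ∧ (Odd a → Ell Q W) := by
  have hiso := polar_iso hT
  have hpos : 0 < orderOf (q : ZMod r) := orderOf_pos' hq hrF
  intro a
  induction a using Nat.strong_induction_on with
  | _ a ih =>
    intro W hn hnd hinv hfree
    by_cases hW0 : W = ⊥
    · have ha : a = 0 := by
        rw [hW0, finrank_bot] at hn
        rcases Nat.mul_eq_zero.1 hn.symm with h | h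
        · omega
        · exact h
      subst ha
      rw [hW0]
      exact ⟨fun _ => hyp_bot Q, fun h => absurd h (by decide)⟩
    obtain ⟨u, hu, hu0⟩ := (Submodule.ne_bot_iff W).mp hW0
    obtain ⟨B, hBW, hBinv, hBnd, hBfree, hBfin⟩ := exists_block_rel hq hr2 hrF (good' Q) hiso hTr hnd hinv
      ⟨u, hu, fun h => hu0 (hfree u hu h)⟩
    rw [if_pos hev] at hBfin
    -- the block type
    obtain ⟨e', he'⟩ := hev
    obtain ⟨e, rfl⟩ : ∃ e, e' = e + 1 := ⟨e' - 1, by omega⟩
    have he : orderOf (q : ZMod r) = 2 * (e + 1) := by omega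
    have hB : Ell Q B := by
      have hnh := not_hyp_block_even hq hr2 hT hTr hBinv hBfree he (by omega)
      rcases hyp_or_ell' Q (e + 1) B (by omega) hBnd with h | h
      · exact absurd h hnh
      · exact h
    have h1 := finrank_rel (good' Q) hBW hBnd
    obtain ⟨a', rfl⟩ : ∃ a', a = a' + 1 := by
      refine ⟨a - 1, ?_⟩
      rcases a with _ | a
      · exact absurd (Submodule.finrank_eq_zero.1 (by rw [hn]; simp)) hW0
      · simp
    have h3 := ih a' (by omega) (W ⊓ perp (Bf Q) B) (by rw [mul_add] at hn; nlinarith) (nd_rel (good' Q) hBW hBnd hnd)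
      (inv_inf hinv (inv_perp hiso hr.out.ne_zero hTr hBinv)) (fun u hu hfix => hfree u hu.1 hfix)
    have hsup := sup_rel (good' Q) hBW hBnd
    have horth : Orth Q B (W ⊓ perp (Bf Q) B) := fun u hu v hv => hv.2 u hu
    constructor
    · intro hE
      have : Odd a' := by
        rcases Nat.even_or_odd a' with h | h
        · exact absurd hE (by simpa [Nat.even_add_one] using h)
        · exact h
      rw [← hsup]
      exact ell_sup_ell' hB (h3.2 this) horth
    · intro hO
      have : Even a' := by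
        rcases Nat.even_or_odd a' with h | h
        · exact h
        · exact absurd hO (by simpa [Nat.odd_add_one] using h)
      rw [← hsup]
      exact ell_sup_hyp' hB (h3.1 this) horth


/-- Fixed-point-free invariant subspaces of prescribed dimension. -/
theorem exists_fpf_sub' (hq : Fintype.card F = q) (hr2 : r ≠ 2) (hrF : (r : F) ≠ 0)
    (hT : ∀ v, Q (T v) = Q v) (hTr : T ^ r = 1) :
    ∀ (a s : ℕ) (U : Submodule F V), a ≤ s → finrank F U = blockDim r q * s → NDOn (Bf Q) U → InvOn T U → FixFree T U →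
      ∃ W ≤ U, NDOn (Bf Q) W ∧ InvOn T W ∧ finrank F W = blockDim r q * a := by
  have hiso := polar_iso hT
  have hpos : 0 < blockDim r q := blockDim_pos hq hrF
  intro a
  induction a with
  | zero =>
    intro s U _ _ _ _ _
    exact ⟨⊥, bot_le, fun u hu _ => by simpa using hu, fun u hu => by
      rw [Submodule.mem_bot] at hu
      rw [hu, map_zero]
      exact Submodule.zero_mem _, by simp⟩
  | succ a ih =>
    intro s U has hn hnd hinv hfree
    have hU0 : U ≠ ⊥ := by
      rintro rfl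
      rw [finrank_bot] at hn
      rcases Nat.mul_eq_zero.1 hn.symm with h | h
      · omega
      · omega
    obtain ⟨u, hu, hu0⟩ := (Submodule.ne_bot_iff U).mp hU0
    obtain ⟨B, hBU, hBinv, hBnd, hBfree, hBfin⟩ := exists_block_rel hq hr2 hrF (good' Q) hiso hTr hnd hinv
      ⟨u, hu, fun h => hu0 (hfree u hu h)⟩
    have hBfin' : finrank F B = blockDim r q := hBfin
    have h1 := finrank_rel (good' Q) hBU hBnd
    obtain ⟨s', rfl⟩ : ∃ s', s = s' + 1 := ⟨s - 1, by omega⟩
    obtain ⟨W', hW'U, hW'nd, hW'inv, hW'd⟩ := ih s' (U ⊓ perp (Bf Q) B) (by omega) (by rw [mul_add] at hn; omega)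
      (nd_rel (good' Q) hBU hBnd hnd) (inv_inf hinv (inv_perp hiso hr.out.ne_zero hTr hBinv))
      (fun u hu hfix => hfree u hu.1 hfix)
    have horth : Orth Q B W' := fun u hu v hv => (hW'U hv).2 u hu
    refine ⟨B ⊔ W', sup_le hBU (hW'U.trans inf_le_left), nd_sup (good' Q) hBnd hW'nd horth, inv_sup hBinv hW'inv, ?_⟩
    rw [finrank_sup_of_orth' hBnd horth, hBfin', hW'd]
    ring


/-- The type of `s` blocks. -/
noncomputable def tau (r q a : ℕ) : Bool := if Even (orderOf (q : ZMod r)) then a.bodd else false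

theorem tau_add (a b : ℕ) : tau r q (a + b) = xor (tau r q a) (tau r q b) := by
  unfold tau
  split_ifs
  · exact Nat.bodd_add a b
  · rfl

theorem tau_zero : tau r q 0 = false := by
  unfold tau
  split_ifs <;> rfl

theorem type_fpf (hq : Fintype.card F = q) (hr2 : r ≠ 2) (hrF : (r : F) ≠ 0)
    (hT : ∀ v, Q (T v) = Q v) (hTr : T ^ r = 1) {a : ℕ} {W : Submodule F V} (hW : finrank F W = blockDim r q * a)
    (hnd : NDOn (Bf Q) W) (hinv : InvOn T W) (hfree : FixFree T W) : IsT Q W (tau r q a) := by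
  unfold tau
  by_cases hev : Even (orderOf (q : ZMod r))
  · have hci : blockDim r q = orderOf (q : ZMod r) := by
      unfold blockDim
      rw [if_pos hev]
    rw [if_pos hev]
    have h1 := type_fpf_even' hq hr2 hrF hT hTr hev a W (by rw [hW, hci]) hnd hinv hfree
    cases h : a.bodd
    · exact h1.1 (by
        rw [Nat.even_iff, Nat.mod_two_of_bodd]
        simp [h])
    · exact h1.2 (by
        rw [Nat.odd_iff, Nat.mod_two_of_bodd]
        simp [h])
  · rw [if_neg hev]
    exact type_fpf_odd' hq hr2 hrF hT hTr hev _ W rfl hnd hinv hfree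

/-- The splitting with respect to an isometry. -/
theorem fix_decomp (hq : Fintype.card F = q) (hr2 : r ≠ 2) (hrF : (r : F) ≠ 0)
    (hT : ∀ v, Q (T v) = Q v) (hTr : T ^ r = 1) {U : Submodule F V} (hU : NDOn (Bf Q) U) (hinv : InvOn T U) :
    NDOn (Bf Q) (fixS T U) ∧ NDOn (Bf Q) (U ⊓ perp (Bf Q) (fixS T U)) ∧ InvOn T (U ⊓ perp (Bf Q) (fixS T U)) ∧
      FixFree T (U ⊓ perp (Bf Q) (fixS T U)) ∧ Orth Q (fixS T U) (U ⊓ perp (Bf Q) (fixS T U)) ∧
      fixS T U ⊔ (U ⊓ perp (Bf Q) (fixS T U)) = U ∧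
      ∃ s, finrank F (U ⊓ perp (Bf Q) (fixS T U) : Submodule F V) = blockDim r q * s ∧
        finrank F U = finrank F (fixS T U) + blockDim r q * s := by
  have hiso := polar_iso hT
  have hB := good' Q
  have hr0 := hr.out.ne_zero
  have hCnd : NDOn (Bf Q) (fixS T U) := nd_fixS hB hiso hr0 hrF hTr hU hinv
  have hle := fixS_le (T := T) U
  have hDfree : FixFree T (U ⊓ perp (Bf Q) (fixS T U)) := by
    intro u hu hfix
    apply hCnd u (mem_fixS.2 ⟨hu.1, hfix⟩)
    intro w hw
    exact hB.refl (hu.2 w hw)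
  have hDnd := nd_rel hB hle hCnd hU
  have hDinv : InvOn T (U ⊓ perp (Bf Q) (fixS T U)) := inv_inf hinv (inv_perp hiso hr0 hTr (inv_fixS U))
  have hdv := dvd_finrank_of_fixfree hq hr2 hrF hB hiso hTr _ _ rfl hDnd hDinv hDfree
  obtain ⟨s, hs⟩ : ∃ s, finrank F (U ⊓ perp (Bf Q) (fixS T U) : Submodule F V) = blockDim r q * s := hdv
  refine ⟨hCnd, hDnd, hDinv, hDfree, fun u hu v hv => hv.2 u hu, sup_rel hB hle hCnd, s, hs, ?_⟩
  rw [← hs]
  exact (finrank_rel hB hle hCnd).symm

/-- The shape of an invariant subspace of given type. -/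
theorem type_split (hq : Fintype.card F = q) (hr2 : r ≠ 2) (hrF : (r : F) ≠ 0)
    (hT : ∀ v, Q (T v) = Q v) (hTr : T ^ r = 1) {W : Submodule F V} {η : Bool} (hW : IsT Q W η) (hinv : InvOn T W) :
    ∃ t e, finrank F W = finrank F (fixS T W) + blockDim r q * t ∧ IsT Q (fixS T W) e ∧ η = xor e (tau r q t) := by
  obtain ⟨hCnd, hDnd, hDinv, hDfree, hO, hsup, t, ht, hW2⟩ := fix_decomp hq hr2 hrF hT hTr hW.nd hinv
  have hD := type_fpf hq hr2 hrF hT hTr ht hDnd hDinv hDfree
  have hev : Even (finrank F (fixS T W)) := by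
    have h1 := hW.even
    rw [hW2] at h1
    have h3 : Even (blockDim r q * t) := (blockDim_even r q).mul_right t
    exact (Nat.even_add.1 h1).2 h3
  obtain ⟨e, he⟩ := exists_isT hCnd hev
  refine ⟨t, e, hW2, he, ?_⟩
  have h3 := he.sup hD hO
  rw [hsup] at h3
  exact hW.uniq h3

/-- The conclusion of the forward direction, with the given fixed space. -/
theorem forward_data (hq : Fintype.card F = q) (hr2 : r ≠ 2) (hrF : (r : F) ≠ 0)
    (hT : ∀ v, Q (T v) = Q v) (hTr : T ^ r = 1) {γ : Bool} (hγ : IsT Q (fixS T ⊤) γ)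
    {W : Submodule F V} {η : Bool} (hW : IsT Q W η) (hinv : InvOn T W) :
    ∃ t g, finrank F W = g + blockDim r q * t ∧ g ≤ finrank F (fixS T ⊤ : Submodule F V) ∧
      (g = 0 → η = tau r q t) ∧ (g = finrank F (fixS T ⊤ : Submodule F V) → η = xor γ (tau r q t)) := by
  obtain ⟨t, e, h1, h3, h4⟩ := type_split hq hr2 hrF hT hTr hW hinv
  have hle : fixS T W ≤ fixS T ⊤ := by
    intro v hv
    rw [mem_fixS] at hv ⊢
    exact ⟨trivial, hv.2⟩
  refine ⟨t, finrank F (fixS T W), h1, Submodule.finrank_mono hle, ?_, ?_⟩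
  · intro h0
    have h5 : fixS T W = ⊥ := Submodule.finrank_eq_zero.1 h0
    rw [h5] at h3
    have h6 := h3.uniq isT_bot
    rw [h4, h6]
    simp
  · intro h0
    have h5 := Submodule.eq_of_le_of_finrank_eq hle h0
    rw [h5] at h3
    rw [h4, h3.uniq hγ]

/-- The construction of the backward direction. -/
theorem exists_inv_core (hq : Fintype.card F = q) (hr2 : r ≠ 2) (hrF : (r : F) ≠ 0)
    (hT : ∀ v, Q (T v) = Q v) (hTr : T ^ r = 1) (hnd : NDOn (Bf Q) ⊤) {γ : Bool} (hγ : IsT Q (fixS T ⊤) γ)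
    {s t g m : ℕ} {η : Bool} (hs : finrank F V = finrank F (fixS T ⊤ : Submodule F V) + blockDim r q * s) (hts : t ≤ s)
    (hm : m = g + blockDim r q * t) (hg : Even g)
    (hcond : (0 < g ∧ g < finrank F (fixS T ⊤ : Submodule F V)) ∨ (g = 0 ∧ tau r q t = η) ∨
      (g = finrank F (fixS T ⊤ : Submodule F V) ∧ xor γ (tau r q t) = η)) :
    ∃ W : Submodule F V, IsT Q W η ∧ finrank F W = m ∧ InvOn T W := by
  have hinvtop : InvOn T ⊤ := fun u _ => trivial
  obtain ⟨hCnd, hDnd, hDinv, hDfree, hO, hsup, s', hs', hW2⟩ := fix_decomp hq hr2 hrF hT hTr hnd hinvtop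
  have hpos := blockDim_pos (r := r) hq hrF
  rw [finrank_top] at hW2
  have hss : s' = s := by
    have h1 : blockDim r q * s' = blockDim r q * s := by omega
    exact Nat.eq_of_mul_eq_mul_left hpos h1
  subst hss
  set C := fixS T (⊤ : Submodule F V) with hC
  set D := (⊤ : Submodule F V) ⊓ perp (Bf Q) C with hD
  obtain ⟨W₁, hW₁D, hW₁nd, hW₁inv, hW₁d⟩ := exists_fpf_sub' hq hr2 hrF hT hTr t s' D hts hs' hDnd hDinv hDfree
  have hW₁free : FixFree T W₁ := fun u hu h => hDfree u (hW₁D hu) h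
  have hW₁t := type_fpf hq hr2 hrF hT hTr hW₁d hW₁nd hW₁inv hW₁free
  have hinvC : ∀ W₀ : Submodule F V, W₀ ≤ C → InvOn T W₀ := by
    intro W₀ h u hu
    rw [(mem_fixS.1 (h hu)).2]
    exact hu
  have hfinish : ∀ (W₀ : Submodule F V) (e : Bool), W₀ ≤ C → finrank F W₀ = g → IsT Q W₀ e → xor e (tau r q t) = η →
      ∃ W : Submodule F V, IsT Q W η ∧ finrank F W = m ∧ InvOn T W := by
    intro W₀ e h1 h3 h4 h5
    have horth : Orth Q W₀ W₁ := fun u hu v hv => (hW₁D hv).2 u (h1 hu)
    refine ⟨W₀ ⊔ W₁, ?_, ?_, inv_sup (hinvC W₀ h1) hW₁inv⟩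
    · rw [← h5]
      exact h4.sup hW₁t horth
    · rw [finrank_sup_of_orth' h4.nd horth, h3, hW₁d, hm]
  rcases hcond with ⟨h0, hlt⟩ | ⟨h0, hτ⟩ | ⟨h0, hτ⟩
  · have hev : Even (finrank F C) := by
      have h1 := hγ.even
      exact h1
    obtain ⟨x, hx⟩ := hev
    obtain ⟨y, hy⟩ := hg
    obtain ⟨W₀, h1, h3, h4⟩ := exists_sub_type hCnd (g := g) ⟨y, hy⟩ h0 (by omega) (xor η (tau r q t))
    refine hfinish W₀ _ h1 h4 h3 ?_
    cases η <;> cases (tau r q t) <;> rfl
  · refine hfinish ⊥ false bot_le (by rw [finrank_bot, h0]) isT_bot ?_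
    rw [← hτ]
    simp
  · exact hfinish C γ le_rfl h0.symm hγ hτ

end main

end Cfsg.Agent.Lib.EvBlock99
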