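import Mathlib
import Cfsg.Agent.Lib.EvBlock99
import Cfsg.Agent.Lib.OrthoDihedral
import Cfsg.Agent.Lib.OrthGroup

/-!
# The number of nondegenerate subspaces of given type in an even-dimensional quadratic space
-/

set_option autoImplicit false
set_option linter.unusedSectionVars false
set_option linter.unusedSimpArgs false
set_option linter.unusedVariables false

universe u v

namespace Cfsg.Agent.Lib.EvCount99

open Module QuadraticMap Cfsg.Agent.Lib.QuadFF Cfsg.Agent.Lib.IsomBlock Cfsg.Agent.Lib.QuadClass2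
open Cfsg.Agent.Lib.QuadClass Cfsg.Agent.Lib.HypEll Cfsg.Agent.Lib.EvT99 Cfsg.Agent.Lib.EvBlock99
open Cfsg.Agent.Lib.OrthoBasic Cfsg.Agent.Lib.OrthoCount Cfsg.Agent.Lib.OrthoOrder Cfsg.Agent.Lib.OrthoDihedral

variable {F : Type*} [Field F] [Fintype F] {V : Type u} [AddCommGroup V] [Module F V] [FiniteDimensional F V]
variable {Q : QuadraticForm F V}

/-- Hyperbolic forms have hyperbolic bases. -/
theorem hypBasis_of_isT {W : Submodule F V} {a : ℕ} (hW : IsT Q W false) (hd : finrank F W = 2 * a) :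
    ∃ b : Basis (Fin a ⊕ Fin a) F W, IsHypBasis (restr Q W) b := by
  obtain ⟨hnd, U, hUW, hU, hUd⟩ := hW
  exact hyp_of_ts hd (nd_restr hnd) (U.comap W.subtype) (fun v hv => hU _ hv)
    (by rw [finrank_comap_of_le hUW]; omega)

theorem minusBasis_of_isT {W : Submodule F V} {a : ℕ} (hW : IsT Q W true) (hd : finrank F W = 2 * (a + 1)) :
    ∃ (b : Basis ((Fin a ⊕ Fin a) ⊕ Fin 2) F W) (ζ : F), IsMinusBasis (restr Q W) b ζ := by
  have hE : Ell Q W := hW
  refine minus_of_no_ts hd (nd_restr (Ell.nd' hE)) ?_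
  intro K hK hKd
  apply not_hyp_of_ell' hE
  refine ⟨Ell.nd' hE, K.map W.subtype, ?_, ?_, ?_⟩
  · rintro _ ⟨v, -, rfl⟩
    exact v.2
  · rintro _ ⟨v, hv, rfl⟩
    exact hK v hv
  · rw [← LinearEquiv.finrank_eq (Submodule.equivMapOfInjective W.subtype W.injective_subtype K), hKd, hd]

/-- Subspaces of the same type and dimension are isometric. -/
theorem exists_isom {W W' : Submodule F V} {η : Bool} (hW : IsT Q W η) (hW' : IsT Q W' η) (hd : finrank F W = finrank F W') :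
    ∃ e : W ≃ₗ[F] W', ∀ v, Q (e v : V) = Q (v : V) := by
  cases η
  · obtain ⟨n, hn⟩ := hW.even
    obtain ⟨b, hb⟩ := hypBasis_of_isT (a := n) hW (by omega)
    obtain ⟨b', hb'⟩ := hypBasis_of_isT (a := n) hW' (by omega)
    exact isometry_of_hyp hb hb'
  · obtain ⟨n, hn⟩ := Ell.finrank' (show Ell Q W from hW)
    obtain ⟨b, ζ, hb⟩ := minusBasis_of_isT (a := n) hW hn
    obtain ⟨b', ζ', hb'⟩ := minusBasis_of_isT (a := n) hW' (by omega)
    exact isometry_of_minus (nd_restr hW.nd) hb hb'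

/-- Factors of the order formula. -/
def fac (q k : ℕ) : Bool → ℕ
  | false => q ^ k - 1
  | true => q ^ k + 1

/-- The order formula. -/
def ordT (q a : ℕ) (η : Bool) : ℕ :=
  2 * q ^ ((a + 1) * a) * fac q (a + 1) η * ∏ i ∈ Finset.range a, (q ^ (2 * (i + 1)) - 1)

/-- The order of the orthogonal group of a form of given type. -/
theorem card_OG_form {X : Type*} [AddCommGroup X] [Module F X] [FiniteDimensional F X] {Q' : QuadraticForm F X} {a : ℕ} {η : Bool}
    (hX : finrank F X = 2 * (a + 1)) (hQ' : ND Q')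
    (hη : (η = false ∧ ∃ b : Basis (Fin (a + 1) ⊕ Fin (a + 1)) F X, IsHypBasis Q' b) ∨
      (η = true ∧ ∃ (b : Basis ((Fin a ⊕ Fin a) ⊕ Fin 2) F X) (ζ : F), IsMinusBasis Q' b ζ)) :
    Nat.card (OG Q') = ordT (Fintype.card F) a η := by
  rcases hη with ⟨rfl, b, hb⟩ | ⟨rfl, b, ζ, hb⟩
  · obtain ⟨e, he⟩ := iso_qPlus_of_hyp hb
    rw [Nat.card_congr (OG.congr e he).toEquiv, card_OG_plus]
    rfl
  · obtain ⟨e, he⟩ := iso_of_minus_basis hQ' hb
    rw [Nat.card_congr (OG.congr e he).toEquiv, card_OG_minus 1 ζ (ani_of_zeta hb.1)]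
    rfl

theorem card_OG_isT {W : Submodule F V} {a : ℕ} {η : Bool} (hW : IsT Q W η) (hd : finrank F W = 2 * (a + 1)) :
    Nat.card (OG (restr Q W)) = ordT (Fintype.card F) a η := by
  refine card_OG_form hd (nd_restr hW.nd) ?_
  cases η
  · exact Or.inl ⟨rfl, hypBasis_of_isT hW hd⟩
  · exact Or.inr ⟨rfl, minusBasis_of_isT hW hd⟩

/-- The whole space. -/
theorem card_OG_top {a : ℕ} {η : Bool} (hW : IsT Q ⊤ η) (hd : finrank F V = 2 * (a + 1)) :
    Nat.card (OG Q) = ordT (Fintype.card F) a η := by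
  have h1 := card_OG_isT hW (a := a) (by rw [finrank_top, hd])
  rw [← h1]
  refine Nat.card_congr (OG.congr (Submodule.topEquiv (R := F) (M := V)).symm ?_).toEquiv
  intro v
  rfl

section maps

variable {g : V ≃ₗ[F] V}

theorem polar_map (hg : ∀ v, Q (g v) = Q v) (u v : V) : polar Q (g u) (g v) = polar Q u v := by
  simp only [polar, ← map_add, hg]

theorem nd_map (hg : ∀ v, Q (g v) = Q v) {W : Submodule F V} (h : NDOn (Bf Q) W) :
    NDOn (Bf Q) (W.map (g : V →ₗ[F] V)) := by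
  rintro _ ⟨u, hu, rfl⟩ h0
  have : u = 0 := by
    apply h u hu
    intro w hw
    have := h0 (g w) ⟨w, hw, rfl⟩
    rw [Bf_apply] at this ⊢
    rwa [show ((g : V →ₗ[F] V) u) = g u from rfl, polar_map hg] at this
  rw [this, map_zero]

theorem hyp_map (hg : ∀ v, Q (g v) = Q v) {W : Submodule F V} (h : Hyp Q W) : Hyp Q (W.map (g : V →ₗ[F] V)) := by
  obtain ⟨h1, U, h3, h4, h5⟩ := h
  refine ⟨nd_map hg h1, U.map (g : V →ₗ[F] V), Submodule.map_mono h3, ?_, ?_⟩
  · rintro _ ⟨u, hu, rfl⟩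
    rw [show ((g : V →ₗ[F] V) u) = g u from rfl, hg]
    exact h4 u hu
  · rw [LinearEquiv.finrank_map_eq, LinearEquiv.finrank_map_eq]
    exact h5

theorem ell_map (hg : ∀ v, Q (g v) = Q v) {W : Submodule F V} (h : Ell Q W) : Ell Q (W.map (g : V →ₗ[F] V)) := by
  obtain ⟨A, H, hA, hH, hO, rfl⟩ := h
  refine ⟨A.map (g : V →ₗ[F] V), H.map (g : V →ₗ[F] V), ⟨?_, ?_⟩, hyp_map hg hH, ?_, ?_⟩
  · rintro _ ⟨u, hu, rfl⟩ h0
    rw [show ((g : V →ₗ[F] V) u) = g u from rfl, hg] at h0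
    rw [hA.1 u hu h0]
    simp
  · rw [LinearEquiv.finrank_map_eq]
    exact hA.2
  · rintro _ ⟨u, hu, rfl⟩ _ ⟨v, hv, rfl⟩
    rw [show ((g : V →ₗ[F] V) u) = g u from rfl, show ((g : V →ₗ[F] V) v) = g v from rfl, polar_map hg]
    exact hO u hu v hv
  · rw [Submodule.map_sup]

theorem isT_map (hg : ∀ v, Q (g v) = Q v) {W : Submodule F V} {η : Bool} (h : IsT Q W η) : IsT Q (W.map (g : V →ₗ[F] V)) η := by
  cases η
  · exact hyp_map hg h
  · exact ell_map hg h

end maps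

/-- The set of subspaces of given type. -/
abbrev TSet (Q : QuadraticForm F V) (m : ℕ) (η : Bool) := {W : Submodule F V // finrank F W = m ∧ IsT Q W η}

noncomputable instance tAction (m : ℕ) (η : Bool) : MulAction (OG Q) (TSet Q m η) where
  smul g W := ⟨W.1.map (((g : OG Q) : V ≃ₗ[F] V) : V →ₗ[F] V), by
    rw [LinearEquiv.finrank_map_eq]
    exact W.2.1, isT_map g.2 W.2.2⟩
  one_smul W := by
    apply Subtype.ext
    show Submodule.map _ _ = _
    ext v
    simp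
  mul_smul g h W := by
    apply Subtype.ext
    show Submodule.map _ _ = Submodule.map _ (Submodule.map _ _)
    rw [← Submodule.map_comp]
    rfl

theorem smul_val {m : ℕ} {η : Bool} (g : OG Q) (W : TSet Q m η) :
    (g • W).1 = W.1.map (((g : OG Q) : V ≃ₗ[F] V) : V →ₗ[F] V) := rfl

theorem t_transitive (hQ : ND Q) {m : ℕ} {η : Bool} (W W' : TSet Q m η) : ∃ g : OG Q, g • W = W' := by
  obtain ⟨e, he⟩ := exists_isom W.2.2 W'.2.2 (by rw [W.2.1, W'.2.1])
  let e' : W.1 →ₗ[F] V := W'.1.subtype ∘ₗ e.toLinearMap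
  have he' : ∀ u, e' u = (e u : V) := fun u => rfl
  obtain ⟨g, hg, hgu⟩ := Cfsg.Agent.Lib.OrthGroup.witt (Q := Q) (nondegenerate_of_ND hQ) W.1 e'
    (by
      intro a b hab
      apply e.injective
      exact Subtype.ext hab) (by
      intro u
      rw [he', he])
  refine ⟨⟨g, hg⟩, ?_⟩
  apply Subtype.ext
  rw [smul_val]
  ext v
  constructor
  · rintro ⟨u, hu, rfl⟩
    have h1 := hgu ⟨u, hu⟩
    show (g : V → V) u ∈ W'.1
    rw [show g u = e' ⟨u, hu⟩ from h1, he']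
    exact (e ⟨u, hu⟩).2
  · intro hv
    refine ⟨(e.symm ⟨v, hv⟩ : W.1), (e.symm ⟨v, hv⟩).2, ?_⟩
    have h1 := hgu (e.symm ⟨v, hv⟩)
    show g _ = v
    rw [h1, he', LinearEquiv.apply_symm_apply]

section stab

variable {W P : Submodule F V}

/-- Gluing isometries of a subspace and its complement. -/
noncomputable def glue (h : IsCompl W P) (g₁ : W ≃ₗ[F] W) (g₂ : P ≃ₗ[F] P) : V ≃ₗ[F] V :=
  (Submodule.prodEquivOfIsCompl W P h).symm.trans
    ((LinearEquiv.prodCongr g₁ g₂).trans (Submodule.prodEquivOfIsCompl W P h))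

theorem glue_left (h : IsCompl W P) (g₁ : W ≃ₗ[F] W) (g₂ : P ≃ₗ[F] P) (u : W) : glue h g₁ g₂ u = g₁ u := by
  unfold glue
  simp [Submodule.prodEquivOfIsCompl_symm_apply_left]

theorem glue_right (h : IsCompl W P) (g₁ : W ≃ₗ[F] W) (g₂ : P ≃ₗ[F] P) (u : P) : glue h g₁ g₂ u = g₂ u := by
  unfold glue
  simp [Submodule.prodEquivOfIsCompl_symm_apply_right]

theorem glue_add (h : IsCompl W P) (g₁ : W ≃ₗ[F] W) (g₂ : P ≃ₗ[F] P) (u : W) (v : P) :
    glue h g₁ g₂ ((u : V) + v) = g₁ u + g₂ v := by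
  rw [map_add, glue_left, glue_right]

end stab

/-- Restricting an automorphism preserving a subspace. -/
noncomputable def res (g : V ≃ₗ[F] V) {W : Submodule F V} (h : W.map (g : V →ₗ[F] V) = W) : W ≃ₗ[F] W :=
  (g.submoduleMap W).trans (LinearEquiv.ofEq _ _ h)

theorem res_apply (g : V ≃ₗ[F] V) {W : Submodule F V} (h : W.map (g : V →ₗ[F] V) = W) (u : W) : (res g h u : V) = g u := rfl

/-- The stabilizer of a nondegenerate subspace. -/
theorem card_stab {m : ℕ} {η : Bool} (W₀ : TSet Q m η) :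
    Nat.card (MulAction.stabilizer (OG Q) W₀) =
      Nat.card (OG (restr Q W₀.1)) * Nat.card (OG (restr Q (perp (Bf Q) W₀.1))) := by
  classical
  set W := W₀.1 with hW
  set P := perp (Bf Q) W with hP
  have hnd : NDOn (Bf Q) W := W₀.2.2.nd
  have hc : IsCompl W P := isCompl_perp (good' Q) hnd
  have horth : ∀ u ∈ W, ∀ v ∈ P, polar Q u v = 0 := fun u hu v hv => hv u hu
  rw [← Nat.card_prod]
  symm
  -- the gluing map
  have hQg : ∀ (g₁ : OG (restr Q W)) (g₂ : OG (restr Q P)) (x : V),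
      Q (glue hc (g₁ : W ≃ₗ[F] W) (g₂ : P ≃ₗ[F] P) x) = Q x := by
    intro g₁ g₂ x
    obtain ⟨u, hu, v, hv, rfl⟩ : ∃ u ∈ W, ∃ v ∈ P, u + v = x := by
      have : x ∈ W ⊔ P := by
        rw [hc.sup_eq_top]
        trivial
      exact Submodule.mem_sup.1 this
    have h1 := glue_add hc (g₁ : W ≃ₗ[F] W) (g₂ : P ≃ₗ[F] P) ⟨u, hu⟩ ⟨v, hv⟩
    have h2 : glue hc (g₁ : W ≃ₗ[F] W) (g₂ : P ≃ₗ[F] P) (u + v) =
        (((g₁ : W ≃ₗ[F] W) ⟨u, hu⟩ : W) : V) + (((g₂ : P ≃ₗ[F] P) ⟨v, hv⟩ : P) : V) := h1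
    rw [h2, Q_ad, Q_ad, horth _ (Subtype.property _) _ (Subtype.property _), horth u hu v hv]
    have h3 := OG_apply (restr Q W) g₁ ⟨u, hu⟩
    have h4 := OG_apply (restr Q P) g₂ ⟨v, hv⟩
    rw [restr_apply, restr_apply] at h3 h4
    rw [h3, h4]
  have hmapW : ∀ (g₁ : OG (restr Q W)) (g₂ : OG (restr Q P)),
      W.map ((glue hc (g₁ : W ≃ₗ[F] W) (g₂ : P ≃ₗ[F] P) : V ≃ₗ[F] V) : V →ₗ[F] V) = W := by
    intro g₁ g₂
    apply Submodule.eq_of_le_of_finrank_eq
    · rintro _ ⟨u, hu, rfl⟩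
      have h1 := glue_left hc (g₁ : W ≃ₗ[F] W) (g₂ : P ≃ₗ[F] P) ⟨u, hu⟩
      show glue hc (g₁ : W ≃ₗ[F] W) (g₂ : P ≃ₗ[F] P) u ∈ W
      rw [show glue hc (g₁ : W ≃ₗ[F] W) (g₂ : P ≃ₗ[F] P) u = _ from h1]
      exact Subtype.property _
    · rw [LinearEquiv.finrank_map_eq]
  let φ : OG (restr Q W) × OG (restr Q P) → MulAction.stabilizer (OG Q) W₀ := fun p =>
    ⟨⟨glue hc (p.1 : W ≃ₗ[F] W) (p.2 : P ≃ₗ[F] P), hQg p.1 p.2⟩, by
      rw [MulAction.mem_stabilizer_iff]
      apply Subtype.ext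
      rw [smul_val]
      exact hmapW p.1 p.2⟩
  have hφ : ∀ p (x : V), ((φ p : OG Q) : V ≃ₗ[F] V) x = glue hc (p.1 : W ≃ₗ[F] W) (p.2 : P ≃ₗ[F] P) x := fun p x => rfl
  apply Nat.card_congr
  refine Equiv.ofBijective φ ⟨?_, ?_⟩
  · rintro ⟨a₁, a₂⟩ ⟨b₁, b₂⟩ hab
    have h1 : ∀ x : V, glue hc (a₁ : W ≃ₗ[F] W) (a₂ : P ≃ₗ[F] P) x = glue hc (b₁ : W ≃ₗ[F] W) (b₂ : P ≃ₗ[F] P) x := by
      intro x
      have := congrArg (fun z : MulAction.stabilizer (OG Q) W₀ => ((z : OG Q) : V ≃ₗ[F] V) x) hab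
      exact this
    ext1
    · apply Subtype.ext
      apply LinearEquiv.ext
      intro u
      apply Subtype.ext
      have h3 := h1 u
      rw [glue_left, glue_left] at h3
      exact h3
    · apply Subtype.ext
      apply LinearEquiv.ext
      intro u
      apply Subtype.ext
      have h3 := h1 u
      rw [glue_right, glue_right] at h3
      exact h3
  · rintro ⟨⟨g, hg⟩, hs⟩
    rw [MulAction.mem_stabilizer_iff] at hs
    have hs1 : W.map (g : V →ₗ[F] V) = W := by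
      have := congrArg Subtype.val hs
      rw [smul_val] at this
      exact this
    have hgpol := polar_map hg
    have hs2 : P.map (g : V →ₗ[F] V) = P := by
      apply Submodule.eq_of_le_of_finrank_eq
      · rintro _ ⟨v, hv, rfl⟩ w hw
        rw [← hs1] at hw
        obtain ⟨u, hu, rfl⟩ := hw
        show polar Q (g u) (g v) = 0
        rw [hgpol]
        exact hv u hu
      · rw [LinearEquiv.finrank_map_eq]
    let g₁ : OG (restr Q W) := ⟨res g hs1, fun x => by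
      show Q (res g hs1 x : V) = Q (x : V)
      rw [res_apply]
      exact hg x⟩
    let g₂ : OG (restr Q P) := ⟨res g hs2, fun x => by
      show Q (res g hs2 x : V) = Q (x : V)
      rw [res_apply]
      exact hg x⟩
    refine ⟨(g₁, g₂), ?_⟩
    apply Subtype.ext
    apply Subtype.ext
    apply LinearEquiv.ext
    intro x
    rw [hφ]
    obtain ⟨u, hu, v, hv, rfl⟩ : ∃ u ∈ W, ∃ v ∈ P, u + v = x := by
      have : x ∈ W ⊔ P := by
        rw [hc.sup_eq_top]
        trivial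
      exact Submodule.mem_sup.1 this
    have h1 := glue_add hc (g₁ : W ≃ₗ[F] W) (g₂ : P ≃ₗ[F] P) ⟨u, hu⟩ ⟨v, hv⟩
    refine h1.trans ?_
    show g u + g v = g (u + v)
    rw [map_add]

/-- The type of the complement. -/
theorem isT_perp {W : Submodule F V} {η ε : Bool} (hW : IsT Q W η) (hV : IsT Q ⊤ ε) :
    IsT Q (perp (Bf Q) W) (xor ε η) := by
  have hnd := hW.nd
  have hc := isCompl_perp (good' Q) hnd
  have hPnd : NDOn (Bf Q) (perp (Bf Q) W) := by
    have h1 := nd_rel (good' Q) (le_top : W ≤ ⊤) hnd hV.nd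
    rwa [top_inf_eq] at h1
  have hev : Even (finrank F (perp (Bf Q) W : Submodule F V)) := by
    have h1 := finrank_rel (good' Q) (le_top : W ≤ ⊤) hnd
    rw [top_inf_eq] at h1
    have h2 := hV.even
    have h3 := hW.even
    rw [← h1] at h2
    exact (Nat.even_add.1 h2).1 h3
  obtain ⟨e, he⟩ := exists_isT hPnd hev
  have h1 := hW.sup he (fun u hu v hv => hv u hu)
  rw [hc.sup_eq_top] at h1
  have h2 := hV.uniq h1
  subst h2
  have : xor (xor η e) η = e := by
    cases η <;> cases e <;> rfl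
  rw [this]
  exact he

/-- The counting identity. -/
theorem count_eq (hQ : ND Q) {d a b : ℕ} {η ε : Bool} (hV : IsT Q ⊤ ε) (hVd : finrank F V = 2 * (d + 1))
    (hab : a + b + 1 = d) (W₀ : TSet Q (2 * (a + 1)) η) :
    ordT (Fintype.card F) d ε = Nat.card (TSet Q (2 * (a + 1)) η) * (ordT (Fintype.card F) a η * ordT (Fintype.card F) b (xor ε η)) := by
  classical
  have h1 : MulAction.orbit (OG Q) W₀ = Set.univ := by
    rw [Set.eq_univ_iff_forall]
    intro D
    exact t_transitive hQ W₀ D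
  have h2 : (MulAction.stabilizer (OG Q) W₀).index = Nat.card (TSet Q (2 * (a + 1)) η) := by
    rw [MulAction.index_stabilizer, h1, Set.ncard_univ]
  have h3 := Subgroup.card_mul_index (MulAction.stabilizer (OG Q) W₀)
  rw [h2, card_stab, card_OG_top hV hVd, card_OG_isT W₀.2.2 W₀.2.1] at h3
  have hP := isT_perp W₀.2.2 hV
  have hPd : finrank F (perp (Bf Q) W₀.1 : Submodule F V) = 2 * (b + 1) := by
    have h4 := finrank_rel (good' Q) (le_top : W₀.1 ≤ ⊤) W₀.2.2.nd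
    rw [top_inf_eq, finrank_top, hVd, W₀.2.1] at h4
    omega
  rw [card_OG_isT hP hPd] at h3
  rw [← h3]
  ring

theorem fac_pos {q k : ℕ} (hq : 2 ≤ q) (hk : 1 ≤ k) (e : Bool) : 0 < fac q k e := by
  have h1 : q ^ 1 ≤ q ^ k := Nat.pow_le_pow_right (by omega) hk
  cases e
  · show 0 < q ^ k - 1
    rw [pow_one] at h1
    omega
  · show 0 < q ^ k + 1
    omega

theorem fac_mul (q k : ℕ) (hq : 2 ≤ q) (e : Bool) : fac q k e * fac q k (!e) = q ^ (2 * k) - 1 := by
  have h1 : 1 ≤ q ^ k := Nat.one_le_pow _ _ (by omega)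
  have h2 : q ^ (2 * k) = q ^ k * q ^ k := by rw [two_mul, pow_add]
  obtain ⟨y, hy⟩ : ∃ y, q ^ k = y + 1 := ⟨q ^ k - 1, by omega⟩
  rw [h2, hy]
  cases e
  · show (q ^ k - 1) * (q ^ k + 1) = _
    rw [hy]
    simp only [Nat.add_sub_cancel]
    have : (y + 1) * (y + 1) = y * (y + 1 + 1) + 1 := by ring
    omega
  · show (q ^ k + 1) * (q ^ k - 1) = _
    rw [hy]
    simp only [Nat.add_sub_cancel]
    have : (y + 1) * (y + 1) = (y + 1 + 1) * y + 1 := by ring
    omega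

/-- A prime dividing the number of subspaces. -/
theorem count_dvd (hQ : ND Q) {d a b r : ℕ} {η ε : Bool} (hV : IsT Q ⊤ ε) (hVd : finrank F V = 2 * (d + 1))
    (hab : a + b + 1 = d) (W₀ : TSet Q (2 * (a + 1)) η) (hr : r.Prime) (hrq : ¬ r ∣ Fintype.card F)
    (hdvd : r ∣ Nat.card (TSet Q (2 * (a + 1)) η)) :
    r ∣ fac (Fintype.card F) (d + 1) ε ∨ r ∣ fac (Fintype.card F) (b + 1) (!(xor ε η)) ∨
      ∃ j, b + 1 < j ∧ j ≤ d ∧ r ∣ Fintype.card F ^ (2 * j) - 1 := by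
  classical
  have heq := count_eq hQ hV hVd hab W₀
  set q := Fintype.card F with hqdef
  have hq : 2 ≤ q := Fintype.one_lt_card
  set X := Nat.card (TSet Q (2 * (a + 1)) η) with hX
  set e := xor ε η with he
  -- the products
  set R := ∏ i ∈ Finset.Ico (b + 1) d, (q ^ (2 * (i + 1)) - 1) with hR
  set Pb := ∏ i ∈ Finset.range b, (q ^ (2 * (i + 1)) - 1) with hPb
  have hPd : ∏ i ∈ Finset.range d, (q ^ (2 * (i + 1)) - 1) = Pb * (q ^ (2 * (b + 1)) - 1) * R := by
    have h1 := Finset.prod_range_mul_prod_Ico (fun i => q ^ (2 * (i + 1)) - 1) (show b + 1 ≤ d by omega)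
    rw [← h1, Finset.prod_range_succ]
  have hPbpos : 0 < Pb := by
    apply Finset.prod_pos
    intro i _
    have h1 : q ^ 1 ≤ q ^ (2 * (i + 1)) := Nat.pow_le_pow_right (by omega) (by omega)
    rw [pow_one] at h1
    omega
  have hfpos := fac_pos hq (show 1 ≤ b + 1 by omega) e
  have hkey : q ^ ((d + 1) * d) * fac q (d + 1) ε * fac q (b + 1) (!e) * R =
      X * (2 * (q ^ ((a + 1) * a) * fac q (a + 1) η * ∏ i ∈ Finset.range a, (q ^ (2 * (i + 1)) - 1)) * q ^ ((b + 1) * b)) := by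
    unfold ordT at heq
    rw [hPd, ← fac_mul q (b + 1) hq e] at heq
    have h4 : 0 < 2 * fac q (b + 1) e * Pb := by positivity
    apply Nat.eq_of_mul_eq_mul_left h4
    calc _ = 2 * q ^ ((d + 1) * d) * fac q (d + 1) ε * (Pb * (fac q (b + 1) e * fac q (b + 1) (!e)) * R) := by ring
      _ = _ := by
        rw [heq]
        ring
  have hd : r ∣ q ^ ((d + 1) * d) * fac q (d + 1) ε * fac q (b + 1) (!e) * R := by
    rw [hkey]
    exact Dvd.dvd.mul_right hdvd _
  have hrq' : ¬ r ∣ q ^ ((d + 1) * d) := fun h => hrq (hr.dvd_of_dvd_pow h)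
  rcases (Nat.Prime.dvd_mul hr).1 hd with h1 | h1
  · rcases (Nat.Prime.dvd_mul hr).1 h1 with h3 | h3
    · rcases (Nat.Prime.dvd_mul hr).1 h3 with h4 | h4
      · exact absurd h4 hrq'
      · exact Or.inl h4
    · exact Or.inr (Or.inl h3)
  · right
    right
    obtain ⟨i, hi, hid⟩ := (Prime.dvd_finset_prod_iff (Nat.Prime.prime hr) _).1 h1
    rw [Finset.mem_Ico] at hi
    exact ⟨i + 1, by omega, by omega, hid⟩

end Cfsg.Agent.Lib.EvCount99
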