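import Mathlib
import Cfsg.Agent.Lib.EvCount99
import Cfsg.Agent.S2674
import Cfsg.Agent.S2675
import Cfsg.Agent.S5985
import Cfsg.Agent.Lib.OTS.Ker
import Cfsg.Agent.Lib.OTS.OddElt

/-!
# Elements of `Ω` with prescribed block structure, even dimension, all characteristics
-/

set_option autoImplicit false
set_option linter.unusedSectionVars false
set_option linter.unusedSimpArgs false
set_option linter.unusedVariables false

universe u

namespace Cfsg.Agent.Lib.EvElt99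

open Module Polynomial Matrix QuadraticMap
open scoped MatrixGroups
open Cfsg.Agent.Lib.QuadFF Cfsg.Agent.Lib.IsomBlock Cfsg.Agent.Lib.QuadClass2 Cfsg.Agent.Lib.QuadClass
open Cfsg.Agent.Lib.HypEll Cfsg.Agent.Lib.EvT99 Cfsg.Agent.Lib.EvBlock99 Cfsg.Agent.Lib.OrthoCount
open Cfsg.Agent.Lib.PrimeFactors Cfsg.Agent.Lib.DualFactors
open Cfsg.Agent.Lib.OrthGroup Cfsg.Agent.Lib.OrthOmega Cfsg.Agent.Lib.OrthMatrix

variable {F : Type u} [Field F] [Fintype F]

section generic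

variable {ι : Type} [Fintype ι] [DecidableEq ι] {Q : QuadraticForm F (ι → F)}

theorem nd_iff (W : Submodule F (ι → F)) :
    Cfsg.Geo.IsNondegenerateOn (polar ⇑Q) W ↔ NDOn (Bf Q) W := by
  constructor
  · intro h u hu h0
    by_contra hne
    obtain ⟨x, hx, hxu⟩ := (h u hu hne).2
    exact hxu (h0 x hx)
  · intro h w hw hw0
    have key : ∃ x ∈ W, polar Q w x ≠ 0 := by
      by_contra hno
      push Not at hno
      exact hw0 (h w hw hno)
    obtain ⟨x, hx, hxw⟩ := key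
    refine ⟨⟨x, hx, ?_⟩, ⟨x, hx, hxw⟩⟩
    rwa [polar_comm]

/-- Elliptic subspaces in the language of the statements. -/
theorem ell_set_iff {m : ℕ} (hm : Even m) (W : Submodule F (ι → F)) :
    (finrank F W = m ∧ Cfsg.Geo.IsNondegenerateOn (polar ⇑Q) W ∧ ¬ Cfsg.Geo.IsPlusTypeOn ⇑Q W) ↔
      (finrank F W = m ∧ IsT Q W true) := by
  rw [nd_iff]
  obtain ⟨n, hn⟩ := hm
  constructor
  · rintro ⟨h1, h3, h4⟩
    refine ⟨h1, ?_⟩
    rcases hyp_or_ell' Q n W (by omega) h3 with h5 | h5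
    · exact absurd (by
        obtain ⟨_, U, h6, h7, h8⟩ := h5
        exact ⟨U, h6, h7, h8⟩) h4
    · exact h5
  · rintro ⟨h1, h3⟩
    refine ⟨h1, h3.nd, ?_⟩
    rintro ⟨U, h4, h5, h6⟩
    exact not_hyp_of_ell' h3 ⟨h3.nd, U, h4, h5, h6⟩

/-- Hyperbolic subspaces in the language of the statements. -/
theorem hyp_set_iff {m : ℕ} (W : Submodule F (ι → F)) :
    (finrank F W = m ∧ (∀ u ∈ W, u ≠ 0 → ∃ v ∈ W, polar ⇑Q u v ≠ 0) ∧
        ∃ U : Submodule F (ι → F), U ≤ W ∧ 2 * finrank F U = m ∧ ∀ u ∈ U, Q u = 0) ↔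
      (finrank F W = m ∧ IsT Q W false) := by
  constructor
  · rintro ⟨h1, h3, U, h4, h5, h6⟩
    refine ⟨h1, ?_, U, h4, h6, by omega⟩
    intro u hu h0
    by_contra hne
    obtain ⟨v, hv, huv⟩ := h3 u hu hne
    exact huv (h0 v hv)
  · rintro ⟨h1, h3, U, h4, h5, h6⟩
    refine ⟨h1, ?_, U, h4, by omega, h5⟩
    intro u hu hu0
    by_contra hno
    push Not at hno
    exact hu0 (h3 u hu hno)

theorem map_le_iff (x : Matrix ι ι F) (W : Submodule F (ι → F)) :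
    W.map (Matrix.toLin' x) ≤ W ↔ InvOn (Matrix.toLin' x) W := by
  constructor
  · intro h u hu
    exact h ⟨u, hu, rfl⟩
  · rintro h _ ⟨u, hu, rfl⟩
    exact h u hu

theorem toLin_pow (A : Matrix ι ι F) (n : ℕ) :
    (Matrix.toLin' A) ^ n = Matrix.toLin' (A ^ n) := by
  induction n with
  | zero =>
    simp
    rfl
  | succ n ih =>
    rw [pow_succ, pow_succ, ih, Matrix.toLin'_mul]
    rfl

/-- The scalar case. -/
theorem scalar_sq {x : GL ι F} (hx : x ∈ Cfsg.isometryGroup F ⇑Q) {z : F}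
    (hz : (x : Matrix ι ι F) = z • (1 : Matrix ι ι F)) {v : ι → F} (hv : Q v ≠ 0) : z * z = 1 := by
  have h1 := (mem_isometryGroup _ _).1 hx v
  rw [hz, Matrix.smul_mulVec, Matrix.one_mulVec, Cfsg.Agent.Lib.QuadFF.Q_sm] at h1
  have h2 : (z ^ 2 - 1) * Q v = 0 := by linear_combination h1
  have h3 := (mul_eq_zero.1 h2).resolve_right hv
  linear_combination h3

/-- Elements of odd order are not scalar. -/
theorem not_scalar_of_odd {x : GL ι F} (hx : x ∈ Cfsg.isometryGroup F ⇑Q) {r : ℕ} (hr : Odd r) (h1 : x ^ r = 1)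
    (hne : x ≠ 1) {v : ι → F} (hv : Q v ≠ 0) : ∀ z : F, (x : Matrix ι ι F) ≠ z • (1 : Matrix ι ι F) := by
  intro z hz
  apply hne
  have hzz := scalar_sq hx hz hv
  have h3 : ((x ^ r : GL ι F) : Matrix ι ι F) = 1 := by
    rw [h1]
    rfl
  rw [Units.val_pow_eq_pow_val, hz, _root_.smul_pow, one_pow] at h3
  obtain ⟨k, rfl⟩ := hr
  have h4 : z ^ (2 * k + 1) = z := by
    rw [pow_succ, pow_mul, pow_two, hzz, one_pow, one_mul]
  rw [h4] at h3
  apply Units.ext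
  rw [hz, h3]
  rfl

/-- Reduction for odd primes: an isometry `T` with `T ^ r = 1` with the same invariant subspaces. -/
theorem odd_reduce {x : GL ι F} (hx : x ∈ Cfsg.isometryGroup F ⇑Q) {r : ℕ} (hr : Odd r) {z : F}
    (hz : ((x ^ r : GL ι F) : Matrix ι ι F) = z • (1 : Matrix ι ι F))
    (hne : ∀ z : F, (x : Matrix ι ι F) ≠ z • (1 : Matrix ι ι F)) {v₀ : ι → F} (hv : Q v₀ ≠ 0) :
    ∃ T : (ι → F) →ₗ[F] (ι → F), (∀ v, Q (T v) = Q v) ∧ T ^ r = 1 ∧ T ≠ 1 ∧
      ∀ W : Submodule F (ι → F), InvOn T W → InvOn (Matrix.toLin' (x : Matrix ι ι F)) W := by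
  have hxr : x ^ r ∈ Cfsg.isometryGroup F ⇑Q := Subgroup.pow_mem _ hx r
  have hzz := scalar_sq hxr hz hv
  have hz0 : z ≠ 0 := by
    rintro rfl
    simp at hzz
  let T₁ : (ι → F) →ₗ[F] (ι → F) := Matrix.toLin' (x : Matrix ι ι F)
  have hT₁ : ∀ v, T₁ v = (x : Matrix ι ι F) *ᵥ v := fun v => Matrix.toLin'_apply _ v
  have hT₁r : T₁ ^ r = z • 1 := by
    show (Matrix.toLin' (x : Matrix ι ι F)) ^ r = _
    rw [toLin_pow, ← Units.val_pow_eq_pow_val, hz, map_smul, Matrix.toLin'_one]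
    rfl
  refine ⟨z • T₁, ?_, ?_, ?_, ?_⟩
  · intro v
    show Q (z • T₁ v) = Q v
    rw [Cfsg.Agent.Lib.QuadFF.Q_sm, hT₁, (mem_isometryGroup _ _).1 hx v, pow_two, hzz, one_mul]
  · rw [_root_.smul_pow, hT₁r, smul_smul]
    obtain ⟨k, rfl⟩ := hr
    have : z ^ (2 * k + 1) * z = 1 := by
      rw [pow_succ, pow_mul, pow_two, hzz, one_pow, one_mul, hzz]
    rw [this, one_smul]
  · intro h
    apply hne z
    have h1 : T₁ = z • 1 := by
      have h3 : z • (z • T₁) = z • 1 := by rw [h]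
      rw [smul_smul, hzz, one_smul] at h3
      exact h3
    have h3 : Matrix.toLin' (x : Matrix ι ι F) = Matrix.toLin' (z • (1 : Matrix ι ι F)) := by
      rw [map_smul, Matrix.toLin'_one]
      exact h1
    exact Matrix.toLin'.injective h3
  · intro W hW u hu
    have h1 : T₁ u = z • ((z • T₁) u) := by
      show T₁ u = z • (z • T₁ u)
      rw [smul_smul, hzz, one_smul]
    show T₁ u ∈ W
    rw [h1]
    exact W.smul_mem _ (hW u hu)

theorem hT_of_omega {x : GL ι F} (hx : x ∈ Cfsg.Geo.omegaGL ⇑Q) (v : ι → F) :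
    Q (Matrix.toLin' (x : Matrix ι ι F) v) = Q v := by
  rw [Matrix.toLin'_apply]
  exact Cfsg.Agent.S5985.isometry_of_mem_omega _ hx v

theorem mem_iso_of_omega {x : GL ι F} (hx : x ∈ Cfsg.Geo.omegaGL ⇑Q) : x ∈ Cfsg.isometryGroup F ⇑Q := by
  rw [mem_isometryGroup]
  exact Cfsg.Agent.S5985.isometry_of_mem_omega _ hx

theorem hTr_of_pow {x : GL ι F} {r : ℕ} (h : x ^ r = 1) :
    (Matrix.toLin' (x : Matrix ι ι F)) ^ r = 1 := by
  rw [toLin_pow, ← Units.val_pow_eq_pow_val, h]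
  simp
  rfl

/-- The fixed space from the characteristic polynomial. -/
theorem fix_bound {V : Type*} [AddCommGroup V] [Module F V] [FiniteDimensional F V] {r n : ℕ} [hrf : Fact r.Prime] (hr : (r : F) ≠ 0)
    {a : ↥(Idx F r) → ℕ} (T : V →ₗ[F] V) (hT : T ^ r = 1) (hch : T.charpoly = Pa F r n a) :
    finrank F (fixS T ⊤) ≤ n - orderOf ((Fintype.card F : ℕ) : ZMod r) * ∑ l, a l := by
  have h1 := Cfsg.Agent.Lib.OTS.finrank_fix_of_Pa hr T hT hch
  have h2 : LinearMap.ker (aeval T (X - C 1 : F[X])) = fixS T ⊤ := by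
    ext v
    rw [mem_fixS, LinearMap.mem_ker]
    simp [sub_eq_zero]
  rwa [h2] at h1

/-- Multiplicities for `s` blocks. -/
theorem exists_mult {r : ℕ} [hrf : Fact r.Prime] (hr2 : r ≠ 2) (hrF : (r : F) ≠ 0) {s : ℕ} (hs : 0 < s) :
    ∃ a : ↥(Idx F r) → ℕ, a ≠ 0 ∧ a ∘ dl (σ := RingHom.id F) (fun x => rfl) rfl hrF hrf.out.ne_zero = a ∧
      orderOf ((Fintype.card F : ℕ) : ZMod r) * ∑ j, a j = blockDim r (Fintype.card F) * s := by
  classical
  have hr0 : r ≠ 0 := hrf.out.ne_zero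
  have hr := hrf.out
  have hcard := card_Idx (F := F) (r := r) hrF
  have hne : Nonempty ↥(Idx F r) := by
    by_contra hemp
    rw [not_nonempty_iff] at hemp
    rw [Fintype.card_eq_zero, zero_mul] at hcard
    have := hr.two_le
    omega
  obtain ⟨j₀⟩ := hne
  by_cases hev : Even (orderOf ((Fintype.card F : ℕ) : ZMod r))
  · let a : ↥(Idx F r) → ℕ := fun j => if j = j₀ then s else 0
    have hsum : ∑ j, a j = s := by
      simp only [a]
      rw [Finset.sum_ite_eq', if_pos (Finset.mem_univ _)]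
    refine ⟨a, ?_, ?_, ?_⟩
    · intro h0
      have h1 : a j₀ = 0 := by rw [h0]; rfl
      simp only [a, if_true] at h1
      omega
    · funext j
      show a _ = a j
      rw [(Cfsg.Agent.Lib.OTS.dl_fixed_iff hr2 hrF hr0 j).mpr hev]
    · rw [hsum]
      unfold blockDim
      rw [if_pos hev]
  · let D := dl (F := F) (r := r) (σ := RingHom.id F) (fun x => rfl) rfl hrF hr0
    have hD : ∀ j, D (D j) = j := fun j => dl_dl (σ := RingHom.id F) (fun x => rfl) rfl hrF hr0 j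
    let a : ↥(Idx F r) → ℕ := fun j => (if j = j₀ then s else 0) + (if j = D j₀ then s else 0)
    have hsum : ∑ j, a j = s + s := by
      simp only [a]
      rw [Finset.sum_add_distrib, Finset.sum_ite_eq', Finset.sum_ite_eq', if_pos (Finset.mem_univ _), if_pos (Finset.mem_univ _)]
    refine ⟨a, ?_, ?_, ?_⟩
    · intro h0
      have h1 : a j₀ = 0 := by rw [h0]; rfl
      simp only [a, if_true] at h1
      omega
    · funext j
      show a (D j) = a j
      simp only [a]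
      have e1 : (D j = j₀) ↔ (j = D j₀) := by
        constructor
        · intro h
          rw [← h, hD]
        · intro h
          rw [h, hD]
      have e2 : (D j = D j₀) ↔ (j = j₀) := by
        constructor
        · intro h
          have := congrArg D h
          rwa [hD, hD] at this
        · intro h
          rw [h]
      simp only [e1, e2]
      ring
    · rw [hsum]
      unfold blockDim
      rw [if_neg hev]
      ring

theorem card_ne_zero {p r : ℕ} [hp : Fact p.Prime] [CharP F p] [hrf : Fact r.Prime] (hrF : (r : F) ≠ 0) :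
    ((Fintype.card F : ℕ) : ZMod r) ≠ 0 := by
  intro h
  rw [ZMod.natCast_eq_zero_iff] at h
  obtain ⟨n, hn, hc⟩ := FiniteField.card F p
  rw [hc] at h
  have h1 := hrf.out.dvd_of_dvd_pow h
  have h2 := (Nat.prime_dvd_prime_iff_eq hrf.out hp.out).1 h1
  apply hrF
  rw [h2]
  exact CharP.cast_eq_zero F p

/-- From an isometry of odd prime order to `Ω`. -/
theorem elt_of_iso (Q : QuadraticForm F (ι → F)) (hOG : O Q ≤ G Q) {r : ℕ} [hrf : Fact r.Prime] (hr2 : r ≠ 2)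
    (g : ↥(Cfsg.isometryGroup F ⇑Q)) (hg : orderOf g = r) :
    (g : GL ι F) ∈ Cfsg.Geo.omegaGL ⇑Q ∧ (g : GL ι F) ^ r = 1 ∧ (g : GL ι F) ≠ 1 := by
  have h1 : (g : GL ι F) ^ r = 1 := by
    have h2 := pow_orderOf_eq_one g
    rw [hg] at h2
    exact congrArg Subtype.val h2
  refine ⟨Cfsg.Agent.S5985.mem_omega_of_odd_pow _ hOG _ g.2 (hrf.out.odd_of_ne_two hr2) h1, h1, ?_⟩
  intro h
  have h2 : g = 1 := Subtype.ext h
  rw [h2, orderOf_one] at hg
  exact hrf.out.one_lt.ne hg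

end generic

section plus

variable {d : ℕ}

/-- Elements of `Ω⁺` with `s` blocks. -/
theorem exists_x_plus (p : ℕ) [Fact p.Prime] [CharP F p] {r s : ℕ} [hrf : Fact r.Prime] (hd : 4 ≤ d) (hr2 : r ≠ 2) (hrF : (r : F) ≠ 0) (hs : 0 < s)
    (hle : blockDim r (Fintype.card F) * s ≤ 2 * d)
    (hP : blockDim r (Fintype.card F) * s = 2 * d → ((Fintype.card F : ℕ) : ZMod r) ^ d = 1) :
    ∃ x : GL (Fin d ⊕ Fin d) F, x ∈ Cfsg.Geo.omegaGL ⇑(qPlus d F) ∧ x ^ r = 1 ∧ x ≠ 1 ∧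
      finrank F (fixS (Matrix.toLin' (x : Matrix (Fin d ⊕ Fin d) (Fin d ⊕ Fin d) F)) ⊤) ≤ 2 * d - blockDim r (Fintype.card F) * s := by
  obtain ⟨a, ha, hinv, hsum⟩ := exists_mult hr2 hrF hs
  have hcard : Fintype.card (Fin d ⊕ Fin d) = 2 * d := by
    simp [two_mul]
  obtain ⟨g, hg1, hg2⟩ : ∃ g : ↥(Cfsg.isometryGroup F ⇑(qPlus d F)),
      ((g : Matrix.GeneralLinearGroup (Fin d ⊕ Fin d) F) : Matrix (Fin d ⊕ Fin d) (Fin d ⊕ Fin d) F).charpoly = Pa F r (Fintype.card (Fin d ⊕ Fin d)) a ∧ orderOf g = r := by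
    rw [Cfsg.Agent.S5985.hf_plus]
    exact Cfsg.Agent.S2674.plus_hex (p := p) hr2 hrF hrf.out.ne_zero (card_ne_zero (p := p) hrF) a ha hinv
      (by rw [hsum, hcard]; exact hle) (by rw [hsum]; exact hP)
  obtain ⟨h1, h3, h4⟩ := elt_of_iso (qPlus d F) (Cfsg.Agent.S5985.hOG_plus hd) hr2 g hg2
  refine ⟨g, h1, h3, h4, ?_⟩
  have h5 := fix_bound hrF _ (hTr_of_pow h3) (by rw [Matrix.charpoly_toLin']; exact hg1)
  rwa [hsum, hcard] at h5

end plus

section minus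

variable {k : ℕ}

theorem hf_minus (a b : F) : ⇑(qMinus k a b) = Cfsg.quadFormMinus k F a b := funext (qMinus_apply k a b)

theorem finrank_minus : finrank F ((Fin k ⊕ Fin k) ⊕ Fin 2 → F) = 2 * (k + 1) := by
  rw [Module.finrank_fintype_fun_eq_card]
  simp
  ring

theorem hOG_minus (hk : 2 ≤ k) {a b : F} (hab : ∀ x y : F, x ^ 2 + a * x * y + b * y ^ 2 = 0 → x = 0 ∧ y = 0) :
    O (qMinus k a b) ≤ G (qMinus k a b) :=
  O_le_G (nondegenerate_of_ND (ND_qMinus a b hab k)) (Or.inr (by rw [finrank_minus]; omega))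

/-- Elements of `Ω⁻` with `s` blocks. -/
theorem exists_x_minus (p : ℕ) [Fact p.Prime] [CharP F p] {r s : ℕ} [hrf : Fact r.Prime] (hk : 2 ≤ k) {a' b' : F}
    (hab : ∀ x y : F, x ^ 2 + a' * x * y + b' * y ^ 2 = 0 → x = 0 ∧ y = 0) (hr2 : r ≠ 2) (hrF : (r : F) ≠ 0) (hs : 0 < s)
    (hle : blockDim r (Fintype.card F) * s ≤ 2 * (k + 1))
    (hP : blockDim r (Fintype.card F) * s = 2 * (k + 1) → ((Fintype.card F : ℕ) : ZMod r) ^ (k + 1) = -1) :
    ∃ x : GL ((Fin k ⊕ Fin k) ⊕ Fin 2) F, x ∈ Cfsg.Geo.omegaGL ⇑(qMinus k a' b') ∧ x ^ r = 1 ∧ x ≠ 1 ∧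
      finrank F (fixS (Matrix.toLin' (x : Matrix ((Fin k ⊕ Fin k) ⊕ Fin 2) ((Fin k ⊕ Fin k) ⊕ Fin 2) F)) ⊤) ≤ 2 * (k + 1) - blockDim r (Fintype.card F) * s := by
  obtain ⟨a, ha, hinv, hsum⟩ := exists_mult hr2 hrF hs
  have hcard : Fintype.card ((Fin k ⊕ Fin k) ⊕ Fin 2) = 2 * (k + 1) := by
    simp
    ring
  obtain ⟨g, hg1, hg2⟩ : ∃ g : ↥(Cfsg.isometryGroup F ⇑(qMinus k a' b')),
      ((g : Matrix.GeneralLinearGroup ((Fin k ⊕ Fin k) ⊕ Fin 2) F) : Matrix ((Fin k ⊕ Fin k) ⊕ Fin 2) ((Fin k ⊕ Fin k) ⊕ Fin 2) F).charpoly = Pa F r (Fintype.card ((Fin k ⊕ Fin k) ⊕ Fin 2)) a ∧ orderOf g = r := by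
    rw [hf_minus]
    exact Cfsg.Agent.S2675.minus_hex (p := p) hab hr2 hrF hrf.out.ne_zero (card_ne_zero (p := p) hrF) a ha hinv
      (by rw [hsum, hcard]; exact hle) (by rw [hsum]; exact hP)
  obtain ⟨h1, h3, h4⟩ := elt_of_iso (qMinus k a' b') (hOG_minus hk hab) hr2 g hg2
  refine ⟨g, h1, h3, h4, ?_⟩
  have h5 := fix_bound hrF _ (hTr_of_pow h3) (by rw [Matrix.charpoly_toLin']; exact hg1)
  rwa [hsum, hcard] at h5

end minus

end Cfsg.Agent.Lib.EvElt99
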