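import Mathlib
import Cfsg.Agent.Lib.EvElt99

/-!
# The general forward and backward statements for odd primes
-/

set_option autoImplicit false
set_option linter.unusedSectionVars false
set_option linter.unusedSimpArgs false
set_option linter.unusedVariables false

universe u

namespace Cfsg.Agent.Lib.EvMain99

open Module QuadraticMap
open Cfsg.Agent.Lib.QuadFF Cfsg.Agent.Lib.IsomBlock Cfsg.Agent.Lib.HypEll Cfsg.Agent.Lib.EvT99 Cfsg.Agent.Lib.EvBlock99

variable {F : Type*} [Field F] [Fintype F] {V : Type u} [AddCommGroup V] [Module F V] [FiniteDimensional F V]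
variable {Q : QuadraticForm F V} {T : V →ₗ[F] V} {r q : ℕ}

theorem bodd_true_iff {a : ℕ} : a.bodd = true ↔ Odd a := by
  rw [Nat.odd_iff, Nat.mod_two_of_bodd]
  cases a.bodd <;> simp

theorem bodd_false_iff {a : ℕ} : a.bodd = false ↔ Even a := by
  rw [Nat.even_iff, Nat.mod_two_of_bodd]
  cases a.bodd <;> simp

theorem tau_even (hev : Even (orderOf (q : ZMod r))) (a : ℕ) : tau r q a = a.bodd := by
  unfold tau
  rw [if_pos hev]

theorem tau_odd (hev : ¬ Even (orderOf (q : ZMod r))) (a : ℕ) : tau r q a = false := by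
  unfold tau
  rw [if_neg hev]

theorem blockDim_even_eq (hev : Even (orderOf (q : ZMod r))) : blockDim r q = orderOf (q : ZMod r) := by
  unfold blockDim
  rw [if_pos hev]

theorem blockDim_odd_eq (hev : ¬ Even (orderOf (q : ZMod r))) : blockDim r q = 2 * orderOf (q : ZMod r) := by
  unfold blockDim
  rw [if_neg hev]

section main

variable [hr : Fact r.Prime]

/-- Data of an arbitrary isometry with respect to the whole space. -/
theorem top_data (hq : Fintype.card F = q) (hr2 : r ≠ 2) (hrF : (r : F) ≠ 0)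
    (hT : ∀ v, Q (T v) = Q v) (hTr : T ^ r = 1) {ε : Bool} (hV : IsT Q ⊤ ε) :
    ∃ s γ, finrank F V = finrank F (fixS T ⊤ : Submodule F V) + blockDim r q * s ∧ IsT Q (fixS T ⊤) γ ∧ xor γ (tau r q s) = ε := by
  obtain ⟨s, γ, h1, h3, h4⟩ := type_split hq hr2 hrF hT hTr hV (fun u _ => trivial)
  rw [finrank_top] at h1
  exact ⟨s, γ, h1, h3, h4.symm⟩

/-- The forward statement. -/
theorem forward_main (hq : Fintype.card F = q) (hr2 : r ≠ 2) (hrF : (r : F) ≠ 0)
    (hT : ∀ v, Q (T v) = Q v) (hTr : T ^ r = 1) {ε η : Bool} (hV : IsT Q ⊤ ε) {n : ℕ} (hn : finrank F V = n)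
    (hfix : finrank F (fixS T ⊤ : Submodule F V) ≤ n % blockDim r q) {W : Submodule F V} (hW : IsT Q W η) (hinv : InvOn T W) :
    finrank F W % blockDim r q ≤ n % blockDim r q ∧
      (finrank F W % blockDim r q = 0 → η = tau r q (finrank F W / blockDim r q)) ∧
      (finrank F W % blockDim r q = n % blockDim r q → η = xor (xor ε (tau r q (n / blockDim r q))) (tau r q (finrank F W / blockDim r q))) := by
  have hpos := blockDim_pos (r := r) hq hrF
  obtain ⟨s, γ, h1, h3, h4⟩ := top_data hq hr2 hrF hT hTr hV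
  rw [hn] at h1
  have hlt := Nat.mod_lt n hpos
  have hf : finrank F (fixS T ⊤ : Submodule F V) = n % blockDim r q := by
    rw [h1, Nat.add_mul_mod_self_left, Nat.mod_eq_of_lt (by omega)]
  have hs : n / blockDim r q = s := by
    rw [h1, Nat.add_mul_div_left _ _ hpos, Nat.div_eq_of_lt (by omega), zero_add]
  obtain ⟨t, g, hm, hg, h0, hfg⟩ := forward_data hq hr2 hrF hT hTr h3 hW hinv
  rw [hf] at hg hfg
  have e1 : finrank F W % blockDim r q = g := by
    rw [hm, Nat.add_mul_mod_self_left, Nat.mod_eq_of_lt (by omega)]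
  have e2 : finrank F W / blockDim r q = t := by
    rw [hm, Nat.add_mul_div_left _ _ hpos, Nat.div_eq_of_lt (by omega), zero_add]
  rw [e1, e2, hs]
  refine ⟨hg, h0, ?_⟩
  intro h5
  rw [hfg h5, ← h4]
  cases γ <;> cases tau r q s <;> rfl

/-- The backward statement. -/
theorem backward_main (hq : Fintype.card F = q) (hr2 : r ≠ 2) (hrF : (r : F) ≠ 0)
    (hT : ∀ v, Q (T v) = Q v) (hTr : T ^ r = 1) {ε η : Bool} (hV : IsT Q ⊤ ε) {n m : ℕ} (hn : finrank F V = n)
    (hm0 : 0 < m) (hmn : m < n) (hme : Even m)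
    (hcond : ∀ s f γ, n = f + blockDim r q * s → xor γ (tau r q s) = ε → (f = 0 → γ = false) →
      (0 < m % blockDim r q → m / blockDim r q ≤ s → (m % blockDim r q < f ∨ (m % blockDim r q = f ∧ xor γ (tau r q (m / blockDim r q)) = η))) ∧
      (m % blockDim r q = 0 → m / blockDim r q ≤ s → (tau r q (m / blockDim r q) = η ∨ blockDim r q < f ∨
        (blockDim r q = f ∧ xor γ (tau r q (m / blockDim r q - 1)) = η)))) :
    ∃ W : Submodule F V, IsT Q W η ∧ finrank F W = m ∧ InvOn T W := by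
  have hpos := blockDim_pos (r := r) hq hrF
  have hce := blockDim_even r q
  obtain ⟨s, γ, h1, h3, h4⟩ := top_data hq hr2 hrF hT hTr hV
  rw [hn] at h1
  set f := finrank F (fixS T ⊤ : Submodule F V) with hf
  have hf0 : f = 0 → γ = false := by
    intro h0
    have h5 : fixS T (⊤ : Submodule F V) = ⊥ := Submodule.finrank_eq_zero.1 h0
    rw [h5] at h3
    exact h3.uniq isT_bot
  obtain ⟨h5, h6⟩ := hcond s f γ h1 h4 hf0
  have hnd : NDOn (Bf Q) ⊤ := hV.nd
  set c := blockDim r q with hc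
  have hdm := Nat.div_add_mod m c
  set t₀ := m / c with ht₀
  set l := m % c with hl
  have hlt : l < c := Nat.mod_lt m hpos
  have hlev : Even l := by
    have h7 : Even (c * t₀) := hce.mul_right t₀
    rw [← hdm] at hme
    exact (Nat.even_add.1 hme).1 h7
  have hcall : ∀ (t g : ℕ), t ≤ s → m = g + c * t → Even g →
      ((0 < g ∧ g < f) ∨ (g = 0 ∧ tau r q t = η) ∨ (g = f ∧ xor γ (tau r q t) = η)) →
      ∃ W : Submodule F V, IsT Q W η ∧ finrank F W = m ∧ InvOn T W := by
    intro t g h7 h8 h9 h10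
    exact exists_inv_core hq hr2 hrF hT hTr hnd h3 (s := s) (by rw [hn]; exact h1) h7 h8 h9 h10
  by_cases hts : t₀ ≤ s
  · by_cases hl0 : 0 < l
    · rcases h5 hl0 hts with h7 | ⟨h7, h8⟩
      · exact hcall t₀ l hts (by omega) hlev (Or.inl ⟨hl0, h7⟩)
      · exact hcall t₀ l hts (by omega) hlev (Or.inr (Or.inr ⟨h7, h8⟩))
    · have hl00 : l = 0 := by omega
      have ht0 : 0 < t₀ := by
        apply Nat.pos_of_ne_zero
        intro h7
        rw [h7, hl00] at hdm
        omega
      obtain ⟨t₁, ht₁⟩ : ∃ t₁, t₀ = t₁ + 1 := ⟨t₀ - 1, by omega⟩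
      have hm1 : m = c + c * t₁ := by
        rw [← hdm, ht₁, hl00, Nat.mul_add]
        ring
      rcases h6 hl00 hts with h7 | h7 | ⟨h7, h8⟩
      · exact hcall t₀ 0 hts (by omega) (by decide) (Or.inr (Or.inl ⟨rfl, h7⟩))
      · exact hcall t₁ c (by omega) hm1 hce (Or.inl ⟨hpos, h7⟩)
      · have e : t₀ - 1 = t₁ := by omega
        rw [e] at h8
        exact hcall t₁ c (by omega) hm1 hce (Or.inr (Or.inr ⟨h7, h8⟩))
  · push Not at hts
    obtain ⟨v, hv⟩ : ∃ v, t₀ = s + 1 + v := ⟨t₀ - (s + 1), by omega⟩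
    have h7 : c * t₀ = c * s + c + c * v := by
      rw [hv, Nat.mul_add, Nat.mul_add, Nat.mul_one]
    have h8 : Even (m - c * s) := by
      obtain ⟨x, hx⟩ := hme
      obtain ⟨y, hy⟩ := hce.mul_right s
      exact ⟨x - y, by omega⟩
    exact hcall s (m - c * s) le_rfl (by omega) h8 (Or.inl ⟨by omega, by omega⟩)

end main

end Cfsg.Agent.Lib.EvMain99
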