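import Mathlib
import Cfsg.Agent.Lib.EvMain99
import Cfsg.Agent.Lib.OTS.Fix

/-!
# A unipotent element of `Ω⁺` of order `p` all of whose invariant subspaces of even dimension contain
a large totally singular subspace
-/

set_option autoImplicit false
set_option linter.unusedSectionVars false
set_option linter.unusedSimpArgs false
set_option linter.unusedVariables false

universe u

namespace Cfsg.Agent.Lib.EvUni99

open Module QuadraticMap Matrix
open scoped MatrixGroups
open Cfsg.Agent.Lib.QuadFF Cfsg.Agent.Lib.IsomBlock Cfsg.Agent.Lib.HypEll Cfsg.Agent.Lib.EvT99 Cfsg.Agent.Lib.EvBlock99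
open Cfsg.Agent.Lib.OrthoCount Cfsg.Agent.Lib.OrthMatrix Cfsg.Agent.Lib.HypLevi

section abs

variable {F : Type*} [Field F] {V : Type u} [AddCommGroup V] [Module F V] [FiniteDimensional F V]

theorem finrank_restrict {X : Type*} [AddCommGroup X] [Module F X] [FiniteDimensional F X] (f : V →ₗ[F] X) (W : Submodule F V) :
    finrank F (W.map f) + finrank F (W ⊓ LinearMap.ker f : Submodule F V) = finrank F W := by
  have h1 := LinearMap.finrank_range_add_finrank_ker (f.domRestrict W)
  rw [LinearMap.range_domRestrict, LinearMap.ker_domRestrict] at h1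
  have h2 : (LinearMap.ker f).comap W.subtype = (W ⊓ LinearMap.ker f).comap W.subtype := by
    ext v
    simp
  rw [h2, finrank_comap_of_le inf_le_left] at h1
  exact h1

/-- The abstract statement. -/
theorem exists_in_L {N : V →ₗ[F] V} (hN : ∀ v, N (N v) = 0) {L : Submodule F V} (hIm : ∀ v, N v ∈ L) (φ : V →ₗ[F] F)
    (hker : ∀ v, N v = 0 → φ v = 0 → v ∈ L) {W : Submodule F V} (hinv : ∀ v ∈ W, N v ∈ W) {a : ℕ} (hd : finrank F W = 2 * a) :
    ∃ U ≤ W, U ≤ L ∧ finrank F U = a := by
  set K := W ⊓ LinearMap.ker N with hK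
  have h1 := finrank_restrict N W
  rw [← hK] at h1
  have hIK : W.map N ≤ K := by
    rintro _ ⟨v, hv, rfl⟩
    exact ⟨hinv v hv, hN v⟩
  have h2 := Submodule.finrank_mono hIK
  by_cases h3 : finrank F K = a
  · have h4 : W.map N = K := Submodule.eq_of_le_of_finrank_eq hIK (by omega)
    refine ⟨K, inf_le_left, ?_, h3⟩
    rw [← h4]
    rintro _ ⟨v, hv, rfl⟩
    exact hIm v
  · set K' := K ⊓ LinearMap.ker φ with hK'
    have h4 := finrank_restrict φ K
    rw [← hK'] at h4
    have h5 : finrank F (K.map φ) ≤ 1 := by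
      have := Submodule.finrank_le (K.map φ)
      rwa [finrank_self] at this
    obtain ⟨U, hU, hUd⟩ := Cfsg.Agent.Lib.OTS.exists_sub_finrank K' (b := a) (by omega)
    refine ⟨U, hU.trans (inf_le_left.trans inf_le_left), ?_, hUd⟩
    intro v hv
    have h6 := hU hv
    exact hker v h6.1.2 h6.2

end abs

section levi

variable {F : Type*} [Field F] [Fintype F] {d : ℕ}

/-- The nilpotent part. -/
def mM (d : ℕ) (F : Type*) [Field F] : Matrix (Fin d) (Fin d) F :=
  Matrix.of fun i j => if i.val % 2 = 0 ∧ j.val = i.val + 1 then 1 else 0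

theorem mM_apply (i j : Fin d) : mM d F i j = if i.val % 2 = 0 ∧ j.val = i.val + 1 then 1 else 0 := rfl

theorem mM_sq : mM d F * mM d F = 0 := by
  ext i j
  rw [Matrix.mul_apply, Matrix.zero_apply]
  apply Finset.sum_eq_zero
  intro k _
  rw [mM_apply, mM_apply]
  split_ifs with h1 h2
  · omega
  · simp
  · simp
  · simp

/-- The Levi factor. -/
def aA (d : ℕ) (F : Type*) [Field F] [Fintype F] : GL (Fin d) F where
  val := 1 + mM d F
  inv := 1 - mM d F
  val_inv := by
    rw [add_mul, one_mul, mul_sub, mul_one, mM_sq]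
    simp
  inv_val := by
    rw [sub_mul, one_mul, mul_add, mul_one, mM_sq]
    simp

theorem aA_val : ((aA d F : GL (Fin d) F) : Matrix (Fin d) (Fin d) F) = 1 + mM d F := rfl

theorem aA_inv : (((aA d F)⁻¹ : GL (Fin d) F) : Matrix (Fin d) (Fin d) F) = 1 - mM d F := rfl

theorem aA_det : ((aA d F : GL (Fin d) F) : Matrix (Fin d) (Fin d) F).det = 1 := by
  rw [aA_val, Matrix.det_of_upperTriangular]
  · apply Finset.prod_eq_one
    intro i _
    rw [Matrix.add_apply, mM_apply, Matrix.one_apply_eq, if_neg (by omega), add_zero]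
  · intro i j hij
    have hij' : j.val < i.val := hij
    rw [Matrix.add_apply, Matrix.one_apply_ne (by
      intro h
      rw [h] at hij'
      omega), mM_apply, if_neg (by omega), add_zero]

theorem aA_pow (k : ℕ) : ((aA d F ^ k : GL (Fin d) F) : Matrix (Fin d) (Fin d) F) = 1 + (k : F) • mM d F := by
  induction k with
  | zero => simp
  | succ k ih =>
    rw [pow_succ, Units.val_mul, ih, aA_val, add_mul, one_mul, mul_add, mul_one, Matrix.smul_mul, mM_sq, smul_zero, add_zero]
    push_cast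
    rw [add_smul, one_smul]
    abel

/-- The element. -/
noncomputable def xU (d : ℕ) (F : Type*) [Field F] [Fintype F] : GL (Fin d ⊕ Fin d) F :=
  ((leviHom d F (aA d F) : ↥(Cfsg.isometryGroup F ⇑(qPlus d F))) : GL (Fin d ⊕ Fin d) F)

theorem xU_val : ((xU d F : GL (Fin d ⊕ Fin d) F) : Matrix (Fin d ⊕ Fin d) (Fin d ⊕ Fin d) F) =
    fromBlocks (1 + mM d F) 0 0 (1 - mM d F)ᵀ := rfl

/-- `x - 1` as a matrix. -/
def nN (d : ℕ) (F : Type*) [Field F] : Matrix (Fin d ⊕ Fin d) (Fin d ⊕ Fin d) F :=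
  fromBlocks (mM d F) 0 0 (-(mM d F)ᵀ)

theorem xU_eq : ((xU d F : GL (Fin d ⊕ Fin d) F) : Matrix (Fin d ⊕ Fin d) (Fin d ⊕ Fin d) F) = 1 + nN d F := by
  rw [xU_val, nN, ← Matrix.fromBlocks_one, Matrix.fromBlocks_add]
  simp [sub_eq_add_neg]

theorem nN_sq : nN d F * nN d F = 0 := by
  rw [nN, Matrix.fromBlocks_multiply]
  have h1 : (mM d F)ᵀ * (mM d F)ᵀ = 0 := by
    rw [← Matrix.transpose_mul, mM_sq, Matrix.transpose_zero]
  simp [mM_sq, h1]

theorem nN_inl (v : Fin d ⊕ Fin d → F) (i : Fin d) : (nN d F *ᵥ v) (Sum.inl i) = ∑ k, mM d F i k * v (Sum.inl k) := by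
  have h1 := congrFun (Cfsg.Agent.Lib.OrthBlock.mulVec_inl (mM d F) (-(mM d F)ᵀ) v) i
  exact h1

theorem nN_inr (v : Fin d ⊕ Fin d → F) (j : Fin d) : (nN d F *ᵥ v) (Sum.inr j) = - ∑ k, mM d F k j * v (Sum.inr k) := by
  have h1 := congrFun (Cfsg.Agent.Lib.OrthBlock.mulVec_inr (mM d F) (-(mM d F)ᵀ) v) j
  refine h1.trans ?_
  show ((-(mM d F)ᵀ) *ᵥ (v ∘ Sum.inr)) j = _
  rw [Matrix.neg_mulVec, Pi.neg_apply]
  rfl

/-- The Lagrangian. -/
def lL (d : ℕ) (F : Type*) [Field F] : Submodule F (Fin d ⊕ Fin d → F) where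
  carrier := {v | (∀ j : Fin d, j.val % 2 = 1 → v (Sum.inl j) = 0) ∧ (∀ i : Fin d, i.val % 2 = 0 → v (Sum.inr i) = 0)}
  add_mem' := by
    rintro a b ⟨h1, h2⟩ ⟨h3, h4⟩
    refine ⟨fun j hj => ?_, fun j hj => ?_⟩
    · simp [h1 j hj, h3 j hj]
    · simp [h2 j hj, h4 j hj]
  zero_mem' := ⟨fun j _ => rfl, fun j _ => rfl⟩
  smul_mem' := by
    rintro c a ⟨h1, h2⟩
    refine ⟨fun j hj => ?_, fun j hj => ?_⟩
    · simp [h1 j hj]
    · simp [h2 j hj]

theorem q_lL {v : Fin d ⊕ Fin d → F} (hv : v ∈ lL d F) : qPlus d F v = 0 := by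
  rw [qPlus_apply, Cfsg.Agent.S5985.q_plus_eq]
  apply Finset.sum_eq_zero
  intro i _
  show v (Sum.inl i) * v (Sum.inr i) = 0
  by_cases h : i.val % 2 = 0
  · rw [hv.2 i h, mul_zero]
  · rw [hv.1 i (by omega), zero_mul]

/-- A unipotent element of order `p` in `Ω⁺`. -/
theorem exists_uni (p : ℕ) [Fact p.Prime] [CharP F p] (hd : 4 ≤ d) :
    ∃ x : GL (Fin d ⊕ Fin d) F, x ∈ Cfsg.Geo.omegaGL ⇑(qPlus d F) ∧ x ^ p = 1 ∧ x ≠ 1 ∧
      ∀ (W : Submodule F (Fin d ⊕ Fin d → F)) (a : ℕ), InvOn (Matrix.toLin' (x : Matrix (Fin d ⊕ Fin d) (Fin d ⊕ Fin d) F)) W →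
        finrank F W = 2 * a → ∃ U ≤ W, (∀ u ∈ U, qPlus d F u = 0) ∧ finrank F U = a := by
  refine ⟨xU d F, ?_, ?_, ?_, ?_⟩
  · refine ⟨leviHom d F (aA d F), ?_, rfl⟩
    rw [SetLike.mem_coe, levi_mem_iff (by omega) (Or.inr (by omega))]
    rw [aA_det]
    exact ⟨1, by simp⟩
  · have h1 : aA d F ^ p = 1 := by
      apply Units.ext
      rw [aA_pow, CharP.cast_eq_zero F p]
      simp
    show ((leviHom d F (aA d F) : ↥(Cfsg.isometryGroup F ⇑(qPlus d F))) : GL (Fin d ⊕ Fin d) F) ^ p = 1
    rw [← Subgroup.coe_pow, ← map_pow, h1, map_one]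
    rfl
  · intro h
    have h1 := congrArg (fun y : GL (Fin d ⊕ Fin d) F => (y : Matrix (Fin d ⊕ Fin d) (Fin d ⊕ Fin d) F)) h
    simp only [xU_eq, Units.val_one] at h1
    have h2 : nN d F = 0 := by simpa using h1
    have h3 := congrFun (congrFun h2 (Sum.inl ⟨0, by omega⟩)) (Sum.inl ⟨1, by omega⟩)
    rw [nN, Matrix.fromBlocks_apply₁₁, mM_apply] at h3
    simp at h3
  · intro W a hinv hW
    set T := Matrix.toLin' ((xU d F : GL (Fin d ⊕ Fin d) F) : Matrix (Fin d ⊕ Fin d) (Fin d ⊕ Fin d) F) with hT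
    let N : (Fin d ⊕ Fin d → F) →ₗ[F] (Fin d ⊕ Fin d → F) := Matrix.toLin' (nN d F)
    have hNv : ∀ v, N v = nN d F *ᵥ v := fun v => Matrix.toLin'_apply _ v
    have hTN : ∀ v, T v = v + N v := by
      intro v
      rw [hT, Matrix.toLin'_apply, xU_eq, Matrix.add_mulVec, Matrix.one_mulVec, hNv]
    have hNN : ∀ v, N (N v) = 0 := by
      intro v
      rw [hNv, hNv, Matrix.mulVec_mulVec, nN_sq, Matrix.zero_mulVec]
    have hIm : ∀ v, N v ∈ lL d F := by
      intro v
      refine ⟨fun j hj => ?_, fun i hi => ?_⟩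
      · rw [hNv, nN_inl]
        apply Finset.sum_eq_zero
        intro k _
        rw [mM_apply, if_neg (by omega), zero_mul]
      · rw [hNv, nN_inr, neg_eq_zero]
        apply Finset.sum_eq_zero
        intro k _
        rw [mM_apply, if_neg (by omega), zero_mul]
    let φ : (Fin d ⊕ Fin d → F) →ₗ[F] F := LinearMap.proj (Sum.inr ⟨d - 1, by omega⟩)
    have hker : ∀ v, N v = 0 → φ v = 0 → v ∈ lL d F := by
      intro v h0 h1
      refine ⟨fun j hj => ?_, fun i hi => ?_⟩
      · have hj0 : 0 < j.val := by omega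
        have hj1 : j.val - 1 < d := by omega
        have h3 := congrFun h0 (Sum.inl ⟨j.val - 1, hj1⟩)
        rw [hNv, nN_inl, Finset.sum_eq_single j] at h3
        · rw [mM_apply, if_pos (by
            constructor
            · show (j.val - 1) % 2 = 0
              omega
            · show j.val = j.val - 1 + 1
              omega), one_mul] at h3
          exact h3
        · intro b _ hb
          rw [mM_apply, if_neg, zero_mul]
          rintro ⟨_, h5⟩
          apply hb
          apply Fin.ext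
          have h6 : (⟨j.val - 1, hj1⟩ : Fin d).val = j.val - 1 := rfl
          omega
        · intro h5
          exact absurd (Finset.mem_univ _) h5
      · by_cases hid : i.val + 1 < d
        · have h3 := congrFun h0 (Sum.inr ⟨i.val + 1, hid⟩)
          rw [hNv, nN_inr, Finset.sum_eq_single i] at h3
          · rw [mM_apply, if_pos ⟨hi, rfl⟩, one_mul] at h3
            exact neg_eq_zero.1 h3
          · intro b _ hb
            rw [mM_apply, if_neg, zero_mul]
            rintro ⟨_, h5⟩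
            apply hb
            apply Fin.ext
            have h6 : (⟨i.val + 1, hid⟩ : Fin d).val = i.val + 1 := rfl
            omega
          · intro h5
            exact absurd (Finset.mem_univ _) h5
        · have h3 : i = ⟨d - 1, by omega⟩ := by
            apply Fin.ext
            have := i.2
            show i.val = d - 1
            omega
          rw [h3]
          exact h1
    have hinvN : ∀ v ∈ W, N v ∈ W := by
      intro v hv
      have h1 := hinv v hv
      rw [hTN] at h1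
      have h3 := W.sub_mem h1 hv
      rwa [add_sub_cancel_left] at h3
    obtain ⟨U, hU, hUL, hUd⟩ := exists_in_L hNN hIm φ hker hinvN hW
    exact ⟨U, hU, fun u hu => q_lL (hUL hu), hUd⟩

end levi

end Cfsg.Agent.Lib.EvUni99
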