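import Mathlib
import Cfsg.Agent.Lib.EvUni99
import Cfsg.Agent.Lib.OTS.Two

/-!
# Involutions of projective orthogonal groups, odd characteristic: invariant subspaces of given type
-/

set_option autoImplicit false
set_option linter.unusedSectionVars false
set_option linter.unusedSimpArgs false
set_option linter.unusedVariables false

universe u

namespace Cfsg.Agent.Lib.EvTwo99

open Module QuadraticMap
open Cfsg.Agent.Lib.QuadFF Cfsg.Agent.Lib.IsomBlock Cfsg.Agent.Lib.HypEll Cfsg.Agent.Lib.EvT99 Cfsg.Agent.Lib.EvBlock99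

section abs

variable {F : Type*} [Field F] [Fintype F] {V : Type u} [AddCommGroup V] [Module F V] [FiniteDimensional F V]
variable {Q : QuadraticForm F V} {T : V →ₗ[F] V}

theorem exists_nonsingular (h2 : (2 : F) ≠ 0) {W : Submodule F V} (hW : NDOn (Bf Q) W) (hne : W ≠ ⊥) : ∃ v ∈ W, Q v ≠ 0 := by
  by_contra hno
  push Not at hno
  obtain ⟨u, hu, hu0⟩ := (Submodule.ne_bot_iff W).1 hne
  apply hu0
  apply hW u hu
  intro w hw
  rw [Bf_apply, polar, hno _ (W.add_mem hu hw), hno u hu, hno w hw]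
  ring

theorem T4 (hJ : ∀ v, T (T v) = -v) : T ^ 4 = 1 := by
  apply LinearMap.ext
  intro v
  show T (T (T (T v))) = v
  rw [hJ, hJ, neg_neg]

/-- A `T`-invariant anisotropic plane. -/
theorem J_plane (h2 : (2 : F) ≠ 0) (hsq : ∀ c : F, c * c ≠ -1) (hT : ∀ v, Q (T v) = Q v) (hJ : ∀ v, T (T v) = -v)
    {W : Submodule F V} (hW : NDOn (Bf Q) W) (hinv : InvOn T W) (hne : W ≠ ⊥) :
    ∃ P ≤ W, Ani Q P ∧ InvOn T P := by
  obtain ⟨v, hv, hQv⟩ := exists_nonsingular h2 hW hne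
  have hpol : polar Q v (T v) = 0 := by
    have h1 := Cfsg.Agent.Lib.HypBlock.polar_iso hT v (T v)
    rw [Bf_apply, Bf_apply, hJ, QuadraticMap.polar_neg_right, polar_comm] at h1
    have h3 : 2 * polar Q v (T v) = 0 := by linear_combination -h1
    exact (mul_eq_zero.1 h3).resolve_left h2
  have hval : ∀ a b : F, Q (a • v + b • T v) = (a ^ 2 + b ^ 2) * Q v := by
    intro a b
    rw [Q_ad, Q_sm, Q_sm, polar_sm_l, polar_sm_r, hpol, hT]
    ring
  have hzero : ∀ a b : F, Q (a • v + b • T v) = 0 → a = 0 ∧ b = 0 := by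
    intro a b h
    rw [hval] at h
    have h3 := (mul_eq_zero.1 h).resolve_right hQv
    by_cases hb : b = 0
    · subst hb
      refine ⟨?_, rfl⟩
      have : a ^ 2 = 0 := by linear_combination h3
      exact pow_eq_zero_iff (by norm_num) |>.1 this
    · exfalso
      apply hsq (a / b)
      field_simp
      linear_combination h3
  refine ⟨Submodule.span F {v, T v}, Submodule.span_le.2 ?_, ⟨?_, ?_⟩, ?_⟩
  · rintro x (rfl | rfl)
    · exact hv
    · exact hinv _ hv
  · intro w hw h0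
    obtain ⟨a, b, rfl⟩ := Submodule.mem_span_pair.1 hw
    obtain ⟨rfl, rfl⟩ := hzero a b h0
    simp
  · apply finrank_pair
    intro s t hst
    apply hzero
    rw [hst, QuadraticMap.map_zero]
  · intro w hw
    obtain ⟨a, b, rfl⟩ := Submodule.mem_span_pair.1 hw
    rw [map_add, map_smul, map_smul, hJ]
    refine Submodule.mem_span_pair.2 ⟨-b, a, ?_⟩
    rw [neg_smul, smul_neg]
    abel

/-- Types of invariant subspaces. -/
theorem type_J (h2 : (2 : F) ≠ 0) (hsq : ∀ c : F, c * c ≠ -1) (hT : ∀ v, Q (T v) = Q v) (hJ : ∀ v, T (T v) = -v) :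
    ∀ (n : ℕ) (W : Submodule F V), finrank F W = n → NDOn (Bf Q) W → InvOn T W → ∃ a, n = 2 * a ∧ IsT Q W a.bodd := by
  intro n
  induction n using Nat.strong_induction_on with
  | _ n ih =>
    intro W hn hW hinv
    by_cases hne : W = ⊥
    · refine ⟨0, ?_, ?_⟩
      · rw [← hn, hne, finrank_bot]
      · rw [hne]
        exact isT_bot
    obtain ⟨P, hPW, hP, hPinv⟩ := J_plane h2 hsq hT hJ hW hinv hne
    have hB := good' Q
    have hPnd := nd_of_ani' hP
    have h1 := finrank_rel hB hPW hPnd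
    rw [hP.2] at h1
    have hiso := Cfsg.Agent.Lib.HypBlock.polar_iso hT
    obtain ⟨a, ha, hta⟩ := ih _ (by omega) (W ⊓ perp (Bf Q) P) rfl (nd_rel hB hPW hPnd hW)
      (inv_inf hinv (inv_perp hiso (by norm_num) (T4 hJ) hPinv))
    refine ⟨a + 1, by omega, ?_⟩
    have h3 : IsT Q P true := ⟨P, ⊥, hP, hyp_bot Q, fun u _ v hv => by
      rw [Submodule.mem_bot] at hv
      rw [hv]
      simp, by simp⟩
    have h4 := h3.sup hta (fun u hu v hv => hv.2 u hu)
    rw [sup_rel hB hPW hPnd] at h4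
    have e : a.succ.bodd = xor true a.bodd := by
      rw [Nat.bodd_succ]
      cases a.bodd <;> rfl
    show IsT Q W (a.succ).bodd
    rw [e]
    exact h4

/-- Invariant subspaces of prescribed dimension. -/
theorem exists_J_sub (h2 : (2 : F) ≠ 0) (hsq : ∀ c : F, c * c ≠ -1) (hT : ∀ v, Q (T v) = Q v) (hJ : ∀ v, T (T v) = -v) :
    ∀ (a : ℕ) (U : Submodule F V), NDOn (Bf Q) U → InvOn T U → 2 * a ≤ finrank F U →
      ∃ W ≤ U, NDOn (Bf Q) W ∧ InvOn T W ∧ finrank F W = 2 * a := by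
  intro a
  induction a with
  | zero =>
    intro U _ _ _
    exact ⟨⊥, bot_le, fun u hu _ => hu, fun u hu => by
      rw [Submodule.mem_bot] at hu
      rw [hu, map_zero]
      exact Submodule.zero_mem _, by simp⟩
  | succ a ih =>
    intro U hU hinv hd
    have hne : U ≠ ⊥ := by
      rintro rfl
      rw [finrank_bot] at hd
      omega
    obtain ⟨P, hPU, hP, hPinv⟩ := J_plane h2 hsq hT hJ hU hinv hne
    have hB := good' Q
    have hPnd := nd_of_ani' hP
    have h1 := finrank_rel hB hPU hPnd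
    rw [hP.2] at h1
    have hiso := Cfsg.Agent.Lib.HypBlock.polar_iso hT
    obtain ⟨W, hWU, hWnd, hWinv, hWd⟩ := ih _ (nd_rel hB hPU hPnd hU)
      (inv_inf hinv (inv_perp hiso (by norm_num) (T4 hJ) hPinv)) (by omega)
    have horth : ∀ u ∈ P, ∀ v ∈ W, Bf Q u v = 0 := fun u hu v hv => (hWU hv).2 u hu
    refine ⟨P ⊔ W, sup_le hPU (hWU.trans inf_le_left), nd_sup hB hPnd hWnd horth, Cfsg.Agent.Lib.SpTI.inv_sup hPinv hWinv, ?_⟩
    rw [finrank_sup_of_orth' hPnd horth, hP.2, hWd]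
    ring

/-- Eigenspaces of `T` when `-1` is a square. -/
theorem sup_eigen (h2 : (2 : F) ≠ 0) {i : F} (hi : i * i = -1) (hJ : ∀ v, T (T v) = -v) {W : Submodule F V} (hinv : InvOn T W)
    {v : V} (hv : v ∈ W) : ∃ a ∈ W, ∃ b ∈ W, v = a + b ∧ T a = i • a ∧ T b = (-i) • b := by
  have h2' : (2 : F)⁻¹ * 2 = 1 := inv_mul_cancel₀ h2
  refine ⟨(2 : F)⁻¹ • (v - i • T v), W.smul_mem _ (W.sub_mem hv (W.smul_mem _ (hinv v hv))),
    (2 : F)⁻¹ • (v + i • T v), W.smul_mem _ (W.add_mem hv (W.smul_mem _ (hinv v hv))), ?_, ?_, ?_⟩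
  · rw [← smul_add, sub_add_add_cancel, ← two_smul F v, smul_smul, h2', one_smul]
  · have e1 : T (v - i • T v) = T v + i • v := by
      rw [map_sub, map_smul, hJ, smul_neg, sub_neg_eq_add]
    have e2 : i • (v - i • T v) = T v + i • v := by
      rw [smul_sub, smul_smul, hi, neg_smul, one_smul]
      abel
    rw [map_smul, e1, smul_comm, e2]
  · have e1 : T (v + i • T v) = T v - i • v := by
      rw [map_add, map_smul, hJ, smul_neg, sub_eq_add_neg]
    have e2 : (-i) • (v + i • T v) = T v - i • v := by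
      rw [smul_add, smul_smul, neg_mul, hi, neg_neg, one_smul, neg_smul]
      abel
    rw [map_smul, e1, smul_comm, e2]

/-- Totally singular subspaces in invariant subspaces, `-1` a square. -/
theorem ts_half_of_i (h2 : (2 : F) ≠ 0) {i : F} (hi : i * i = -1) (hT : ∀ v, Q (T v) = Q v) (hJ : ∀ v, T (T v) = -v)
    {W : Submodule F V} (hinv : InvOn T W) {a : ℕ} (hd : finrank F W = 2 * a) :
    ∃ U ≤ W, (∀ u ∈ U, Q u = 0) ∧ finrank F U = a := by
  let W₁ : Submodule F V := W ⊓ LinearMap.ker (T - i • LinearMap.id)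
  let W₂ : Submodule F V := W ⊓ LinearMap.ker (T - (-i) • LinearMap.id)
  have hm₁ : ∀ {v}, v ∈ W₁ ↔ v ∈ W ∧ T v = i • v := by
    intro v
    simp [W₁, sub_eq_zero]
  have hm₂ : ∀ {v}, v ∈ W₂ ↔ v ∈ W ∧ T v = (-i) • v := by
    intro v
    simp only [W₂, Submodule.mem_inf, LinearMap.mem_ker, LinearMap.sub_apply, LinearMap.smul_apply, LinearMap.id_apply, sub_eq_zero]
  have hsup : W ≤ W₁ ⊔ W₂ := by
    intro v hv
    obtain ⟨x, hx, y, hy, rfl, h1, h3⟩ := sup_eigen h2 hi hJ hinv hv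
    exact Submodule.add_mem_sup (hm₁.2 ⟨hx, h1⟩) (hm₂.2 ⟨hy, h3⟩)
  have hzero : ∀ {c : F}, c * c = -1 → ∀ {v}, T v = c • v → Q v = 0 := by
    intro c hc v hv
    have h1 := hT v
    rw [hv, Q_sm, pow_two, hc] at h1
    have h3 : 2 * Q v = 0 := by linear_combination -h1
    exact (mul_eq_zero.1 h3).resolve_left h2
  have hd1 := Submodule.finrank_mono hsup
  have hd2 := Submodule.finrank_add_le_finrank_add_finrank W₁ W₂
  rw [hd] at hd1
  have hi' : (-i) * (-i) = -1 := by rw [neg_mul_neg, hi]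
  by_cases hbig : a ≤ finrank F W₁
  · obtain ⟨U, hU, hUd⟩ := Cfsg.Agent.Lib.OTS.exists_sub_finrank W₁ hbig
    exact ⟨U, hU.trans inf_le_left, fun u hu => hzero hi (hm₁.1 (hU hu)).2, hUd⟩
  · obtain ⟨U, hU, hUd⟩ := Cfsg.Agent.Lib.OTS.exists_sub_finrank W₂ (b := a) (by omega)
    exact ⟨U, hU.trans inf_le_left, fun u hu => hzero hi' (hm₂.1 (hU hu)).2, hUd⟩

/-- Isometries of order two: invariant subspaces in the eigenspaces. -/
theorem back_invol (h2 : (2 : F) ≠ 0) (hnd : NDOn (Bf Q) ⊤) (hT : ∀ v, Q (T v) = Q v) (hT2 : T ^ 2 = 1) {m : ℕ} (hme : Even m)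
    (hm0 : 0 < m) (hm : 2 * m < finrank F V) (η : Bool) : ∃ W : Submodule F V, IsT Q W η ∧ finrank F W = m ∧ InvOn T W := by
  obtain ⟨h1, h3, h4, h5, h6, h7⟩ := Cfsg.Agent.Lib.OTS.invol_decomp h2 hnd hT hT2
  obtain ⟨k, hk⟩ := hme
  have hfinal : ∀ U : Submodule F V, NDOn (Bf Q) U → InvOn T U → (∀ u ∈ U, T u = u ∨ T u = -u) → m + 1 ≤ finrank F U →
      ∃ W : Submodule F V, IsT Q W η ∧ finrank F W = m ∧ InvOn T W := by
    intro U hU hinv hpm hd
    have hsub : ∃ W ≤ U, IsT Q W η ∧ finrank F W = m := by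
      cases η
      · obtain ⟨W, h8, h9, h10⟩ := exists_hyp_sub' Q k U hU (by omega)
        exact ⟨W, h8, h9, by omega⟩
      · obtain ⟨k', rfl⟩ : ∃ k', k = k' + 1 := ⟨k - 1, by omega⟩
        obtain ⟨W, h8, h9, h10⟩ := exists_ell_sub h2 Q k' hU (by omega)
        exact ⟨W, h8, h9, by omega⟩
    obtain ⟨W, h8, h9, h10⟩ := hsub
    refine ⟨W, h9, h10, ?_⟩
    intro u hu
    rcases hpm u (h8 hu) with h11 | h11
    · rw [h11]
      exact hu
    · rw [h11]
      exact W.neg_mem hu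
  by_cases hbig : m + 1 ≤ finrank F (fixS T (⊤ : Submodule F V))
  · refine hfinal _ h1 (inv_fixS ⊤) (fun u hu => Or.inl (mem_fixS.1 hu).2) hbig
  · refine hfinal _ h3 ?_ (fun u hu => Or.inr (h4 u hu)) (by omega)
    intro u hu
    rw [h4 u hu]
    rw [mem_fixS] at hu ⊢
    refine ⟨trivial, ?_⟩
    have := hu.2
    simp only [LinearMap.neg_apply] at this ⊢
    rw [map_neg, neg_neg]
    exact neg_eq_iff_eq_neg.1 this

end abs

end Cfsg.Agent.Lib.EvTwo99
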