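import Mathlib
import Cfsg.Agent.Lib.EvTwo99

/-!
# Elements of `Ω⁺` whose square is `-1`
-/

set_option autoImplicit false
set_option linter.unusedSectionVars false
set_option linter.unusedSimpArgs false
set_option linter.unusedVariables false

universe u

namespace Cfsg.Agent.Lib.EvTwoP99

open Module QuadraticMap Matrix
open scoped MatrixGroups Kronecker
open Cfsg.Agent.Lib.QuadFF Cfsg.Agent.Lib.IsomBlock Cfsg.Agent.Lib.HypEll Cfsg.Agent.Lib.EvT99 Cfsg.Agent.Lib.EvBlock99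
open Cfsg.Agent.Lib.OrthoCount Cfsg.Agent.Lib.OrthMatrix Cfsg.Agent.Lib.HypLevi Cfsg.Agent.Lib.EvElt99 Cfsg.Agent.Lib.EvTwo99
open Cfsg.Agent.Lib.QuadClass

variable {F : Type*} [Field F] [Fintype F] {d : ℕ}

/-- A matrix with square `-1` and determinant one in even degree. -/
theorem exists_J_matrix (hd : Even d) : ∃ A : Matrix (Fin d) (Fin d) F, A * A = -1 ∧ A.det = 1 := by
  obtain ⟨e, rfl⟩ : ∃ e, d = e * 2 := by
    obtain ⟨e, he⟩ := hd
    exact ⟨e, by omega⟩
  let J₂ : Matrix (Fin 2) (Fin 2) F := !![0, -1; 1, 0]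
  have hJ2 : J₂ * J₂ = -1 := by
    ext i j
    fin_cases i <;> fin_cases j <;> simp [J₂, Matrix.mul_apply, Fin.sum_univ_two]
  have hJd : J₂.det = 1 := by
    simp [J₂, Matrix.det_fin_two]
  let K : Matrix (Fin e × Fin 2) (Fin e × Fin 2) F := (1 : Matrix (Fin e) (Fin e) F) ⊗ₖ J₂
  have hK : K * K = -1 := by
    show ((1 : Matrix (Fin e) (Fin e) F) ⊗ₖ J₂) * ((1 : Matrix (Fin e) (Fin e) F) ⊗ₖ J₂) = _
    rw [← Matrix.mul_kronecker_mul, one_mul, hJ2]
    ext ⟨a, b⟩ ⟨c, e'⟩
    simp only [kroneckerMap_apply, neg_apply, one_apply, Prod.mk.injEq]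
    by_cases h1 : a = c <;> by_cases h3 : b = e' <;> simp [h1, h3]
  have hKd : K.det = 1 := by
    show ((1 : Matrix (Fin e) (Fin e) F) ⊗ₖ J₂).det = 1
    rw [Matrix.det_kronecker, hJd]
    simp
  refine ⟨Matrix.reindex finProdFinEquiv finProdFinEquiv K, ?_, ?_⟩
  · rw [Matrix.reindex_apply, Matrix.submatrix_mul_equiv, hK]
    ext i j
    rw [Matrix.submatrix_apply, Matrix.neg_apply, Matrix.neg_apply]
    congr 1
    exact congrFun (congrFun (Matrix.submatrix_one_equiv (finProdFinEquiv.symm : Fin (e * 2) ≃ Fin e × Fin 2)) i) j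
  · rw [Matrix.det_reindex_self, hKd]

/-- The Levi element with square `-1`. -/
theorem exists_lev (hd : 4 ≤ d) (h2 : (2 : F) ≠ 0) (B : GL (Fin d) F) (hB : (B : Matrix (Fin d) (Fin d) F) * B = -1)
    (hs : IsSquare (B : Matrix (Fin d) (Fin d) F).det) :
    ∃ x : GL (Fin d ⊕ Fin d) F, x ∈ Cfsg.Geo.omegaGL ⇑(qPlus d F) ∧
      ((x ^ 2 : GL (Fin d ⊕ Fin d) F) : Matrix (Fin d ⊕ Fin d) (Fin d ⊕ Fin d) F) = (-1 : F) • (1 : Matrix (Fin d ⊕ Fin d) (Fin d ⊕ Fin d) F) ∧
      (∀ z : F, (x : Matrix (Fin d ⊕ Fin d) (Fin d ⊕ Fin d) F) ≠ z • (1 : Matrix (Fin d ⊕ Fin d) (Fin d ⊕ Fin d) F)) ∧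
      ∀ v, Matrix.toLin' (x : Matrix (Fin d ⊕ Fin d) (Fin d ⊕ Fin d) F) (Matrix.toLin' (x : Matrix (Fin d ⊕ Fin d) (Fin d ⊕ Fin d) F) v) = -v := by
  have hinv : ((B⁻¹ : GL (Fin d) F) : Matrix (Fin d) (Fin d) F) = -(B : Matrix (Fin d) (Fin d) F) := by
    have h1 : ((B⁻¹ : GL (Fin d) F) : Matrix (Fin d) (Fin d) F) * B = 1 := by
      rw [← Units.val_mul, inv_mul_cancel]
      rfl
    calc ((B⁻¹ : GL (Fin d) F) : Matrix (Fin d) (Fin d) F) = ((B⁻¹ : GL (Fin d) F) : Matrix (Fin d) (Fin d) F) * (B * (-B : Matrix (Fin d) (Fin d) F)) := by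
          rw [mul_neg, hB, neg_neg, mul_one]
      _ = _ := by
          rw [← mul_assoc, h1, one_mul]
  set x : GL (Fin d ⊕ Fin d) F := ((leviHom d F B : ↥(Cfsg.isometryGroup F ⇑(qPlus d F))) : GL (Fin d ⊕ Fin d) F) with hx
  have hval : (x : Matrix (Fin d ⊕ Fin d) (Fin d ⊕ Fin d) F) = fromBlocks (B : Matrix (Fin d) (Fin d) F) 0 0 (-(B : Matrix (Fin d) (Fin d) F))ᵀ := by
    rw [hx, leviHom_val, hinv]
  have hsq : (x : Matrix (Fin d ⊕ Fin d) (Fin d ⊕ Fin d) F) * x = -1 := by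
    rw [hval, Matrix.fromBlocks_multiply]
    have h1 : (-(B : Matrix (Fin d) (Fin d) F))ᵀ * (-(B : Matrix (Fin d) (Fin d) F))ᵀ = -1 := by
      rw [← Matrix.transpose_mul, neg_mul_neg, hB, Matrix.transpose_neg, Matrix.transpose_one]
    rw [h1, hB]
    simp only [mul_zero, zero_mul, add_zero, zero_add]
    rw [← Matrix.fromBlocks_one, Matrix.fromBlocks_neg]
    simp
  refine ⟨x, ?_, ?_, ?_, ?_⟩
  · refine ⟨leviHom d F B, ?_, rfl⟩
    rw [SetLike.mem_coe, levi_mem_iff (by omega) (Or.inr (by omega))]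
    exact hs
  · rw [pow_two, Units.val_mul, hsq]
    simp
  · intro z hz
    rw [hval] at hz
    let i0 : Fin d := ⟨0, by omega⟩
    have h3 : ∀ a b, (B : Matrix (Fin d) (Fin d) F) a b = z * (1 : Matrix (Fin d) (Fin d) F) a b := by
      intro a b
      have h5 := congrFun (congrFun hz (Sum.inl a)) (Sum.inl b)
      rw [Matrix.fromBlocks_apply₁₁] at h5
      rw [h5]
      simp [Matrix.one_apply]
    have h4 : -(B : Matrix (Fin d) (Fin d) F) i0 i0 = z := by
      have h5 := congrFun (congrFun hz (Sum.inr i0)) (Sum.inr i0)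
      rw [Matrix.fromBlocks_apply₂₂] at h5
      simpa using h5
    have h5 := h3 i0 i0
    rw [Matrix.one_apply_eq, mul_one] at h5
    have h6 : 2 * z = 0 := by linear_combination -h5 - h4
    have hz0 : z = 0 := (mul_eq_zero.1 h6).resolve_left h2
    have h7 := congrFun (congrFun hB i0) i0
    rw [Matrix.mul_apply] at h7
    have h8 : ∀ k, (B : Matrix (Fin d) (Fin d) F) i0 k * (B : Matrix (Fin d) (Fin d) F) k i0 = 0 := by
      intro k
      rw [h3, hz0, zero_mul, zero_mul]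
    simp only [h8, Finset.sum_const_zero] at h7
    simp at h7
  · intro v
    rw [Matrix.toLin'_apply, Matrix.toLin'_apply, Matrix.mulVec_mulVec, hsq, Matrix.neg_mulVec, Matrix.one_mulVec]

/-- The scalar Levi element. -/
def scalarGL (d : ℕ) {i : F} (hi : i * i = -1) : GL (Fin d) F where
  val := i • 1
  inv := (-i) • 1
  val_inv := by
    rw [smul_mul_smul_comm, mul_neg, hi, neg_neg, one_mul, one_smul]
  inv_val := by
    rw [smul_mul_smul_comm, neg_mul, hi, neg_neg, one_mul, one_smul]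

theorem scalarGL_val {i : F} (hi : i * i = -1) : ((scalarGL d hi : GL (Fin d) F) : Matrix (Fin d) (Fin d) F) = i • 1 := rfl

theorem scalarGL_inv {i : F} (hi : i * i = -1) : (((scalarGL d hi)⁻¹ : GL (Fin d) F) : Matrix (Fin d) (Fin d) F) = (-i) • 1 := rfl

theorem scalarGL_sq {i : F} (hi : i * i = -1) :
    ((scalarGL d hi : GL (Fin d) F) : Matrix (Fin d) (Fin d) F) * (scalarGL d hi : GL (Fin d) F) = -1 := by
  rw [scalarGL_val, smul_mul_smul_comm, hi]
  simp

theorem scalarGL_det {i : F} (hi : i * i = -1) : ((scalarGL d hi : GL (Fin d) F) : Matrix (Fin d) (Fin d) F).det = i ^ d := by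
  rw [scalarGL_val, Matrix.det_smul]
  simp

/-- Two complementary totally singular subspaces give a hyperbolic basis. -/
theorem hyp_basis_of_pair {V : Type*} [AddCommGroup V] [Module F V] [FiniteDimensional F V] {Q : QuadraticForm F V} (hQ : ND Q)
    {U₁ U₂ : Submodule F V} (h1 : ∀ u ∈ U₁, Q u = 0) (h2 : ∀ u ∈ U₂, Q u = 0) (hsup : U₁ ⊔ U₂ = ⊤) (hd : finrank F V = 2 * d) :
    ∃ b : Basis (Fin d ⊕ Fin d) F V, IsHypBasis Q b ∧ (∀ j, b (Sum.inl j) ∈ U₁) ∧ (∀ j, b (Sum.inr j) ∈ U₂) := by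
  classical
  have hB := good' Q
  have hnd : ∀ v, (∀ w, Bf Q v w = 0) → v = 0 := fun v hv => hQ v hv
  have hts : ∀ {U : Submodule F V}, (∀ u ∈ U, Q u = 0) → ∀ a ∈ U, ∀ b ∈ U, polar Q a b = 0 := by
    intro U hU a ha b hb
    rw [polar, hU _ (U.add_mem ha hb), hU a ha, hU b hb]
    ring
  have hb1 := Cfsg.Agent.Lib.OTS.ti_bound' hB hnd (W := U₁) (fun a ha b hb => hts h1 a ha b hb)
  have hb2 := Cfsg.Agent.Lib.OTS.ti_bound' hB hnd (W := U₂) (fun a ha b hb => hts h2 a ha b hb)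
  have hs := Submodule.finrank_add_le_finrank_add_finrank U₁ U₂
  rw [hsup, finrank_top, hd] at hs
  have hd1 : finrank F U₁ = d := by omega
  have hd2 : finrank F U₂ = d := by omega
  let u : Basis (Fin d) F U₁ := Module.finBasisOfFinrankEq F U₁ hd1
  let ψ : U₂ →ₗ[F] Module.Dual F U₁ :=
    { toFun := fun w => (Bf Q).flip (w : V) ∘ₗ U₁.subtype
      map_add' := by
        intro a b
        ext x
        simp
      map_smul' := by
        intro c a
        ext x
        simp }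
  have hψ : ∀ (w : U₂) (x : U₁), ψ w x = polar Q (x : V) (w : V) := fun w x => rfl
  have hinj : Function.Injective ψ := by
    rw [injective_iff_map_eq_zero]
    intro w hw
    apply Subtype.ext
    apply hQ
    intro y
    rw [polar_comm]
    have hy : y ∈ U₁ ⊔ U₂ := by
      rw [hsup]
      trivial
    obtain ⟨a, ha, b, hb, rfl⟩ := Submodule.mem_sup.1 hy
    rw [polar_add_left, hts h2 b hb _ w.2, add_zero]
    have := congrArg (fun l : Module.Dual F U₁ => l ⟨a, ha⟩) hw
    simpa [hψ] using this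
  have hfin : finrank F U₂ = finrank F (Module.Dual F U₁) := by
    rw [Subspace.dual_finrank_eq, hd1, hd2]
  let ψe : U₂ ≃ₗ[F] Module.Dual F U₁ := LinearEquiv.ofInjectiveOfFinrankEq ψ hinj hfin
  have hψe : ∀ w, ψe w = ψ w := fun w => rfl
  let w : Fin d → U₂ := fun j => ψe.symm (u.coord j)
  have hw : ∀ j k, polar Q (u k : V) (w j : V) = if k = j then 1 else 0 := by
    intro j k
    rw [← hψ, ← hψe, LinearEquiv.apply_symm_apply, Basis.coord_apply, Basis.repr_self, Finsupp.single_apply]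
  let v : Fin d ⊕ Fin d → V := Sum.elim (fun j => (u j : V)) (fun j => (w j : V))
  have hli : LinearIndependent F v := by
    rw [Fintype.linearIndependent_iff]
    intro g hg
    rw [Fintype.sum_sum_type] at hg
    simp only [v, Sum.elim_inl, Sum.elim_inr] at hg
    have ha : ∀ k, g (Sum.inl k) = 0 := by
      intro k
      have h3 := congrArg (fun y => polar Q y (w k : V)) hg
      simp only [polar_zero_left] at h3
      have h4 : polar Q (∑ x, g (Sum.inl x) • (u x : V) + ∑ x, g (Sum.inr x) • (w x : V)) (w k : V) =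
          Bf Q (∑ x, g (Sum.inl x) • (u x : V) + ∑ x, g (Sum.inr x) • (w x : V)) (w k : V) := rfl
      rw [h4, map_add, LinearMap.add_apply, map_sum, map_sum, LinearMap.sum_apply, LinearMap.sum_apply] at h3
      simp only [map_smul, LinearMap.smul_apply, smul_eq_mul, Bf_apply] at h3
      rw [Finset.sum_eq_single k] at h3
      · rw [hw, if_pos rfl, mul_one, Finset.sum_eq_zero, add_zero] at h3
        · exact h3
        · intro x _
          rw [hts h2 _ (w x).2 _ (w k).2, mul_zero]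
      · intro b _ hb
        rw [hw, if_neg hb, mul_zero]
      · intro h
        exact absurd (Finset.mem_univ _) h
    have hc : ∀ k, g (Sum.inr k) = 0 := by
      intro k
      have h3 := congrArg (fun y => polar Q (u k : V) y) hg
      simp only [polar_zero_right] at h3
      have h4 : polar Q (u k : V) (∑ x, g (Sum.inl x) • (u x : V) + ∑ x, g (Sum.inr x) • (w x : V)) =
          Bf Q (u k : V) (∑ x, g (Sum.inl x) • (u x : V) + ∑ x, g (Sum.inr x) • (w x : V)) := rfl
      rw [h4, map_add, map_sum, map_sum] at h3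
      simp only [map_smul, smul_eq_mul, Bf_apply] at h3
      rw [Finset.sum_eq_zero, zero_add, Finset.sum_eq_single k] at h3
      · rw [hw, if_pos rfl, mul_one] at h3
        exact h3
      · intro b _ hb
        rw [hw, if_neg (Ne.symm hb), mul_zero]
      · intro h
        exact absurd (Finset.mem_univ _) h
      · intro x _
        rw [hts h1 _ (u k).2 _ (u x).2, mul_zero]
    rintro (k | k)
    · exact ha k
    · exact hc k
  obtain ⟨b, hb⟩ := exists_basis_of_li v hli (by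
    rw [hd]
    simp [two_mul])
  refine ⟨b, ⟨?_, ?_, ?_⟩, ?_, ?_⟩
  · intro i
    rw [hb, hb]
    exact ⟨h1 _ (u i).2, h2 _ (w i).2⟩
  · intro i j
    rw [hb, hb]
    exact hw j i
  · intro i j
    rw [hb, hb, hb, hb]
    exact ⟨hts h1 _ (u i).2 _ (u j).2, hts h2 _ (w i).2 _ (w j).2⟩
  · intro j
    rw [hb]
    exact (u j).2
  · intro j
    rw [hb]
    exact (w j).2

/-- Conjugating to the scalar Levi element. -/
theorem conj_scalar {i : F} (hi : i * i = -1) (hd : 4 ≤ d) {x : GL (Fin d ⊕ Fin d) F} (hx : x ∈ Cfsg.Geo.omegaGL ⇑(qPlus d F))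
    {b : Basis (Fin d ⊕ Fin d) F (Fin d ⊕ Fin d → F)} (hb : IsHypBasis (qPlus d F) b)
    (h1 : ∀ j, (x : Matrix (Fin d ⊕ Fin d) (Fin d ⊕ Fin d) F) *ᵥ b (Sum.inl j) = i • b (Sum.inl j))
    (h2 : ∀ j, (x : Matrix (Fin d ⊕ Fin d) (Fin d ⊕ Fin d) F) *ᵥ b (Sum.inr j) = (-i) • b (Sum.inr j)) :
    IsSquare (i ^ d) := by
  classical
  have hQ := hypBasis_qPlus (F := F) d
  let b₀ : Basis (Fin d ⊕ Fin d) F (Fin d ⊕ Fin d → F) := Pi.basisFun F (Fin d ⊕ Fin d)
  let e : (Fin d ⊕ Fin d → F) ≃ₗ[F] (Fin d ⊕ Fin d → F) := b₀.equiv b (Equiv.refl _)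
  have he : ∀ k, e (b₀ k) = b k := fun k => by
    simp [e]
  have hiso : ∀ v, qPlus d F (e v) = qPlus d F v := by
    intro v
    obtain ⟨h01, h02, h03⟩ := hQ
    obtain ⟨h11, h12, h13⟩ := hb
    refine eq_of_polar_comp b₀ (qPlus d F) (qPlus d F) e.toLinearMap ?_ ?_ v
    · rintro (k | k)
      · show qPlus d F (e (b₀ (Sum.inl k))) = _
        rw [he, (h11 k).1]
        exact (h01 k).1.symm
      · show qPlus d F (e (b₀ (Sum.inr k))) = _
        rw [he, (h11 k).2]
        exact (h01 k).2.symm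
    · rintro (k | k) (l | l)
      · show polar (qPlus d F) (e (b₀ (Sum.inl k))) (e (b₀ (Sum.inl l))) = _
        rw [he, he, (h13 k l).1]
        exact (h03 k l).1.symm
      · show polar (qPlus d F) (e (b₀ (Sum.inl k))) (e (b₀ (Sum.inr l))) = _
        rw [he, he, h12]
        exact (h02 k l).symm
      · show polar (qPlus d F) (e (b₀ (Sum.inr k))) (e (b₀ (Sum.inl l))) = _
        rw [he, he, polar_comm, h12]
        have := h02 l k
        rw [polar_comm] at this
        exact this.symm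
      · show polar (qPlus d F) (e (b₀ (Sum.inr k))) (e (b₀ (Sum.inr l))) = _
        rw [he, he, (h13 k l).2]
        exact (h03 k l).2.symm
  let g : GL (Fin d ⊕ Fin d) F := Cfsg.Agent.Lib.OrthMatrix.glEquiv.symm e
  have hg : ∀ v, (g : Matrix (Fin d ⊕ Fin d) (Fin d ⊕ Fin d) F) *ᵥ v = e v := mulVec_glEquiv_symm e
  have hgi : g ∈ Cfsg.isometryGroup F ⇑(qPlus d F) := by
    rw [mem_isometryGroup]
    intro u
    rw [hg]
    exact hiso u
  have hxi := mem_iso_of_omega hx
  obtain ⟨x', hx', hx'v⟩ := hx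
  have hxx : x' = ⟨x, hxi⟩ := Subtype.ext hx'v
  subst hxx
  -- the equation in the group
  have key : (⟨x, hxi⟩ : ↥(Cfsg.isometryGroup F ⇑(qPlus d F))) * ⟨g, hgi⟩ = ⟨g, hgi⟩ * leviHom d F (scalarGL d hi) := by
    apply Subtype.ext
    apply Units.ext
    show (x : Matrix (Fin d ⊕ Fin d) (Fin d ⊕ Fin d) F) * (g : Matrix (Fin d ⊕ Fin d) (Fin d ⊕ Fin d) F) = (g : Matrix (Fin d ⊕ Fin d) (Fin d ⊕ Fin d) F) * fromBlocks _ 0 0 _
    rw [scalarGL_val, scalarGL_inv]
    apply Matrix.toLin'.injective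
    apply b₀.ext
    rintro (k | k)
    · rw [Matrix.toLin'_apply, Matrix.toLin'_apply, ← Matrix.mulVec_mulVec, ← Matrix.mulVec_mulVec, hg, he, h1, hg]
      have h3 : fromBlocks (i • (1 : Matrix (Fin d) (Fin d) F)) 0 0 ((-i) • (1 : Matrix (Fin d) (Fin d) F))ᵀ *ᵥ b₀ (Sum.inl k) = i • b₀ (Sum.inl k) := by
        rw [Matrix.fromBlocks_mulVec]
        ext (a | a)
        · simp [b₀, Matrix.smul_mulVec, Pi.single_apply, Function.comp_def]
        · simp [b₀, Matrix.smul_mulVec, Pi.single_apply, Function.comp_def, Matrix.transpose_smul, Matrix.neg_mulVec]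
      rw [h3, map_smul, he]
    · rw [Matrix.toLin'_apply, Matrix.toLin'_apply, ← Matrix.mulVec_mulVec, ← Matrix.mulVec_mulVec, hg, he, h2, hg]
      have h3 : fromBlocks (i • (1 : Matrix (Fin d) (Fin d) F)) 0 0 ((-i) • (1 : Matrix (Fin d) (Fin d) F))ᵀ *ᵥ b₀ (Sum.inr k) = (-i) • b₀ (Sum.inr k) := by
        rw [Matrix.fromBlocks_mulVec]
        ext (a | a)
        · simp [b₀, Matrix.smul_mulVec, Pi.single_apply, Function.comp_def]
        · simp [b₀, Matrix.smul_mulVec, Pi.single_apply, Function.comp_def, Matrix.transpose_smul, Matrix.neg_mulVec]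
          split_ifs <;> simp
      rw [h3, map_smul, he]
  have hmem : leviHom d F (scalarGL d hi) ∈ Cfsg.Omega F ⇑(qPlus d F) := by
    have h3 : leviHom d F (scalarGL d hi) = (⟨g, hgi⟩ : ↥(Cfsg.isometryGroup F ⇑(qPlus d F)))⁻¹ * ⟨x, hxi⟩ * ⟨g, hgi⟩ := by
      rw [mul_assoc, key, inv_mul_cancel_left]
    rw [h3]
    have hn : (Cfsg.Omega F ⇑(qPlus d F)).Normal := inferInstance
    have := hn.conj_mem _ hx' (⟨g, hgi⟩ : ↥(Cfsg.isometryGroup F ⇑(qPlus d F)))⁻¹
    simpa using this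
  rw [levi_mem_iff (by omega) (Or.inr (by omega)), scalarGL_det] at hmem
  exact hmem

/-- The top space. -/
theorem isT_plus_top (d : ℕ) : IsT (qPlus d F) ⊤ false := by
  refine ⟨?_, Cfsg.Agent.Lib.QuadClass2.L0 d F, le_top, fun v hv => Cfsg.Agent.Lib.QuadClass2.qPlus_L0 hv, ?_⟩
  · intro u _ h
    by_contra hne
    obtain ⟨y, hy⟩ := Cfsg.Agent.Lib.OrthoOrder.nondeg_qPlus d u hne
    exact hy (h y trivial)
  · rw [Cfsg.Agent.Lib.QuadClass2.finrank_L0, finrank_top, finrank_plus]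

theorem isSquare_i_iff (hq2 : (2 : F) ≠ 0) {i : F} (hi : i * i = -1) : IsSquare i ↔ Fintype.card F % 8 = 1 := by
  have hch : ringChar F ≠ 2 := by
    intro h
    apply hq2
    have := ringChar.Nat.cast_ringChar (R := F)
    rw [h] at this
    exact_mod_cast this
  have hi0 : i ≠ 0 := by
    rintro rfl
    have h3 : (0 : F) = -1 := by simpa using hi
    exact one_ne_zero (by linear_combination h3 : (1 : F) = 0)
  rw [FiniteField.isSquare_iff hch hi0]
  have hneg : IsSquare (-1 : F) := ⟨i, hi.symm⟩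
  have hq4 := FiniteField.isSquare_neg_one_iff.1 hneg
  have hodd : Fintype.card F % 2 = 1 := FiniteField.odd_card_of_char_ne_two hch
  have hi4 : i ^ 4 = 1 := by
    have : i ^ 4 = (i * i) * (i * i) := by ring
    rw [this, hi]
    ring
  obtain ⟨k, hk⟩ : ∃ k, Fintype.card F / 2 = 4 * k + (Fintype.card F % 8) / 2 := ⟨Fintype.card F / 8, by omega⟩
  rw [hk, pow_add, pow_mul, hi4, one_pow, one_mul]
  have hc : Fintype.card F % 8 = 1 ∨ Fintype.card F % 8 = 5 := by omega
  rcases hc with hc | hc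
  · rw [hc]
    simp
  · rw [hc]
    have h5 : ¬ (i ^ (5 / 2) = 1) := by
      show ¬ (i ^ 2 = 1)
      rw [pow_two, hi]
      intro h
      exact hq2 (by linear_combination -h)
    exact ⟨fun h => absurd h h5, fun h => by omega⟩

/-- No element of `Ω⁺` of odd Witt index squares to `-1` unless `q ≡ 1 (mod 8)`. -/
theorem no_J (hd : 4 ≤ d) (hodd : Odd d) (h2 : (2 : F) ≠ 0) (hq8 : Fintype.card F % 8 ≠ 1) {x : GL (Fin d ⊕ Fin d) F}
    (hx : x ∈ Cfsg.Geo.omegaGL ⇑(qPlus d F))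
    (hJ : ∀ v, Matrix.toLin' (x : Matrix (Fin d ⊕ Fin d) (Fin d ⊕ Fin d) F) (Matrix.toLin' (x : Matrix (Fin d ⊕ Fin d) (Fin d ⊕ Fin d) F) v) = -v) :
    False := by
  classical
  set T := Matrix.toLin' (x : Matrix (Fin d ⊕ Fin d) (Fin d ⊕ Fin d) F) with hTdef
  have hT : ∀ v, qPlus d F (T v) = qPlus d F v := hT_of_omega hx
  have hV := isT_plus_top (F := F) d
  by_cases hsq : ∀ c : F, c * c ≠ -1
  · obtain ⟨a, ha, hta⟩ := type_J h2 hsq hT hJ (2 * d) ⊤ (by rw [finrank_top, finrank_plus]) hV.nd (fun u _ => trivial)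
    have hae : a = d := by omega
    subst hae
    have h1 : a.bodd = true := by
      rw [Cfsg.Agent.Lib.EvMain99.bodd_true_iff]
      exact hodd
    rw [h1] at hta
    exact absurd (hta.uniq hV) (by decide)
  · push Not at hsq
    obtain ⟨i, hi⟩ := hsq
    have hi' : (-i) * (-i) = -1 := by rw [neg_mul_neg, hi]
    let U₁ : Submodule F (Fin d ⊕ Fin d → F) := LinearMap.ker (T - i • LinearMap.id)
    let U₂ : Submodule F (Fin d ⊕ Fin d → F) := LinearMap.ker (T - (-i) • LinearMap.id)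
    have hm₁ : ∀ {v}, v ∈ U₁ ↔ T v = i • v := by
      intro v
      simp [U₁, sub_eq_zero]
    have hm₂ : ∀ {v}, v ∈ U₂ ↔ T v = (-i) • v := by
      intro v
      simp only [U₂, LinearMap.mem_ker, LinearMap.sub_apply, LinearMap.smul_apply, LinearMap.id_apply, sub_eq_zero]
    have hsup : U₁ ⊔ U₂ = ⊤ := by
      rw [eq_top_iff]
      intro v _
      obtain ⟨a, _, b, _, rfl, h1, h3⟩ := sup_eigen h2 hi hJ (W := ⊤) (fun u _ => trivial) (v := v) trivial
      exact Submodule.add_mem_sup (hm₁.2 h1) (hm₂.2 h3)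
    have hzero : ∀ {c : F}, c * c = -1 → ∀ {v}, T v = c • v → qPlus d F v = 0 := by
      intro c hc v hv
      have h1 := hT v
      rw [hv, Q_sm, pow_two, hc] at h1
      have h3 : 2 * qPlus d F v = 0 := by linear_combination -h1
      exact (mul_eq_zero.1 h3).resolve_left h2
    have hND : ND (qPlus d F) := fun u h => by
      by_contra hne
      obtain ⟨y, hy⟩ := Cfsg.Agent.Lib.OrthoOrder.nondeg_qPlus d u hne
      exact hy (h y)
    obtain ⟨b, hb, hb1, hb2⟩ := hyp_basis_of_pair (d := d) hND (U₁ := U₁) (U₂ := U₂) (fun u hu => hzero hi (hm₁.1 hu)) (fun u hu => hzero hi' (hm₂.1 hu)) hsup (finrank_plus d)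
    have h5 := conj_scalar hi hd hx hb (fun j => by
      have := hm₁.1 (hb1 j)
      rwa [hTdef, Matrix.toLin'_apply] at this) (fun j => by
      have := hm₂.1 (hb2 j)
      rwa [hTdef, Matrix.toLin'_apply] at this)
    obtain ⟨k, rfl⟩ := hodd
    have h6 : IsSquare i := by
      obtain ⟨c, hc⟩ := h5
      have hi0 : i ≠ 0 := by
        rintro rfl
        have h3 : (0 : F) = -1 := by simpa using hi
        exact one_ne_zero (by linear_combination h3 : (1 : F) = 0)
      have h8 : i * (i ^ k) ^ 2 = c * c := by rw [← hc]; ring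
      refine ⟨c / i ^ k, ?_⟩
      have h7 : i ^ k ≠ 0 := pow_ne_zero _ hi0
      field_simp
      linear_combination h8
    exact hq8 ((isSquare_i_iff h2 hi).1 h6)

end Cfsg.Agent.Lib.EvTwoP99
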