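import Mathlib
import Cfsg.Prelude.Def_JordanBlocks
import Cfsg.Agent.Lib.AltRank

/-!
# Jordan types in groups of isometries: the necessary condition

For the standard unipotent matrix of Jordan type `d`, an invariant non-degenerate form gives
on the generators of the blocks of size `j` a non-degenerate form, alternating when the sign works out.
-/

set_option autoImplicit false
set_option linter.unusedSectionVars false
set_option linter.unusedSimpArgs false
set_option linter.unusedVariables false

namespace Cfsg.Agent.Lib.JType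

open Module Matrix

section abs

variable {F V : Type*} [Field F] [AddCommGroup V] [Module F V]
variable {f : LinearMap.BilinForm F V} {u : V ≃ₗ[F] V}

/-- `u - 1`. -/
def NN (u : V ≃ₗ[F] V) : Module.End F V := (u : Module.End F V) - 1

/-- `u⁻¹ - 1`. -/
def TT (u : V ≃ₗ[F] V) : Module.End F V := ((u.symm : V ≃ₗ[F] V) : Module.End F V) - 1

/-- `- u⁻¹`. -/
def WW (u : V ≃ₗ[F] V) : Module.End F V := - ((u.symm : V ≃ₗ[F] V) : Module.End F V)

theorem NN_apply (x : V) : NN u x = u x - x := rfl

theorem TT_apply (x : V) : TT u x = u.symm x - x := rfl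

theorem WW_apply (x : V) : WW u x = - u.symm x := rfl

theorem TT_eq : TT u = WW u * NN u := by
  apply LinearMap.ext
  intro x
  simp [TT_apply, WW_apply, NN_apply, Module.End.mul_apply]

theorem comm_WN : Commute (WW u) (NN u) := by
  show WW u * NN u = NN u * WW u
  apply LinearMap.ext
  intro x
  simp [WW_apply, NN_apply, Module.End.mul_apply, sub_eq_add_neg]
  abel

theorem f_right (hu : ∀ x y, f (u x) (u y) = f x y) (x y : V) : f x (NN u y) = f (TT u x) y := by
  have h : f x (u y) = f (u.symm x) y := by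
    rw [← hu (u.symm x) y, u.apply_symm_apply]
  simp only [NN_apply, TT_apply, map_sub, LinearMap.sub_apply, h]

theorem f_left (hu : ∀ x y, f (u x) (u y) = f x y) (x y : V) : f (NN u x) y = f x (TT u y) := by
  have h : f (u x) y = f x (u.symm y) := by
    rw [← hu x (u.symm y), u.apply_symm_apply]
  simp only [NN_apply, TT_apply, map_sub, LinearMap.sub_apply, h]

theorem f_pow_right (hu : ∀ x y, f (u x) (u y) = f x y) (a : ℕ) (x y : V) :
    f x ((NN u ^ a) y) = f ((TT u ^ a) x) y := by
  induction a generalizing x y with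
  | zero => simp
  | succ a ih =>
    rw [pow_succ', Module.End.mul_apply, f_right hu, ih, pow_succ, Module.End.mul_apply]

theorem TT_pow (a : ℕ) : TT u ^ a = WW u ^ a * NN u ^ a := by
  rw [TT_eq]
  exact comm_WN.mul_pow a

theorem TT_pow_zero {a : ℕ} {x : V} (h : (NN u ^ a) x = 0) : (TT u ^ a) x = 0 := by
  rw [TT_pow, Module.End.mul_apply, h, map_zero]

/-- On the kernel of `N` the map `W` is `-1`. -/
theorem WW_fix {z : V} (h : NN u z = 0) : WW u z = - z := by
  have h1 : u z = z := sub_eq_zero.mp h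
  rw [WW_apply]
  congr 1
  exact u.symm_apply_eq.mpr h1.symm

theorem WW_pow_fix {z : V} (h : NN u z = 0) (a : ℕ) : (WW u ^ a) z = (-1 : F) ^ a • z := by
  induction a with
  | zero => simp
  | succ a ih =>
    rw [pow_succ, Module.End.mul_apply, WW_fix h, map_neg, ih, pow_succ]
    simp

/-- The orthogonal of the kernel of a power. -/
theorem orth_ker [FiniteDimensional F V] (hnd : f.Nondegenerate) (hu : ∀ x y, f (u x) (u y) = f x y) (j : ℕ) :
    LinearMap.BilinForm.orthogonal f (LinearMap.ker (NN u ^ j)) = LinearMap.range (NN u ^ j) := by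
  symm
  apply Submodule.eq_of_le_of_finrank_eq
  · rintro _ ⟨y, rfl⟩ w hw
    show f w ((NN u ^ j) y) = 0
    rw [f_pow_right hu, TT_pow_zero hw]
    simp
  · rw [LinearMap.BilinForm.finrank_orthogonal hnd]
    have := LinearMap.finrank_range_add_finrank_ker (NN u ^ j)
    omega

/-- The self-adjoint element. -/
def SS (u : V ≃ₗ[F] V) : Module.End F V := NN u + TT u

theorem SS_adj (hu : ∀ x y, f (u x) (u y) = f x y) (x y : V) : f (SS u x) y = f x (SS u y) := by
  simp only [SS, LinearMap.add_apply, map_add]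
  rw [f_left hu, f_right hu]
  ring

theorem SS_pow_adj (hu : ∀ x y, f (u x) (u y) = f x y) (a : ℕ) (x y : V) :
    f ((SS u ^ a) x) y = f x ((SS u ^ a) y) := by
  induction a generalizing x y with
  | zero => simp
  | succ a ih =>
    have e1 : (SS u ^ (a + 1)) x = (SS u ^ a) (SS u x) := by rw [pow_succ]; rfl
    have e2 : (SS u ^ (a + 1)) y = SS u ((SS u ^ a) y) := by rw [pow_succ']; rfl
    rw [e1, e2, ih, SS_adj hu]

theorem SS_self (halt : f.IsAlt) (hu : ∀ x y, f (u x) (u y) = f x y) (z : V) : f z (SS u z) = 0 := by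
  simp only [SS, LinearMap.add_apply, map_add]
  rw [← f_left hu]
  have := halt.neg_eq z (NN u z)
  rw [← this]
  ring

theorem SS_pow_self (halt : f.IsAlt) (hu : ∀ x y, f (u x) (u y) = f x y) (r : ℕ) (x : V) :
    f x ((SS u ^ r) x) = 0 := by
  rcases Nat.even_or_odd' r with ⟨q, rfl | rfl⟩
  · rw [two_mul, pow_add, Module.End.mul_apply, ← SS_pow_adj hu]
    exact halt _
  · have e : SS u ^ (2 * q + 1) = SS u ^ q * (SS u * SS u ^ q) := by
      rw [← pow_succ', ← pow_add, two_mul, add_assoc]
    rw [e, Module.End.mul_apply, ← SS_pow_adj hu, Module.End.mul_apply]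
    exact SS_self halt hu _

theorem SS_eq : SS u = (-WW u) * (NN u * NN u) := by
  apply LinearMap.ext
  intro x
  simp only [SS, LinearMap.add_apply, NN_apply, TT_apply, Module.End.mul_apply, WW_apply, map_sub, LinearMap.neg_apply,
    neg_neg, u.symm_apply_apply]
  abel

theorem SS_pow (r : ℕ) : SS u ^ r = (-WW u) ^ r * NN u ^ (2 * r) := by
  have hc0 : Commute (-WW u) (NN u) := Commute.neg_left comm_WN
  have hc : Commute (-WW u) (NN u * NN u) := hc0.mul_right hc0
  rw [SS_eq, hc.mul_pow, two_mul, pow_add]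
  congr 1
  have hN : Commute (NN u) (NN u) := Commute.refl _
  rw [hN.mul_pow]

/-- On the kernel of an odd power, the even power is a power of the self-adjoint element. -/
theorem NN_even_eq {r : ℕ} {X : V} (h : (NN u ^ (2 * r + 1)) X = 0) : (NN u ^ (2 * r)) X = (SS u ^ r) X := by
  have hz : NN u ((NN u ^ (2 * r)) X) = 0 := by
    rw [← Module.End.mul_apply, ← pow_succ']
    exact h
  have hfix : ∀ a : ℕ, ((-WW u) ^ a) ((NN u ^ (2 * r)) X) = (NN u ^ (2 * r)) X := by
    intro a
    induction a with
    | zero => simp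
    | succ a ih =>
      rw [pow_succ, Module.End.mul_apply]
      have : (-WW u) ((NN u ^ (2 * r)) X) = (NN u ^ (2 * r)) X := by
        rw [LinearMap.neg_apply, WW_fix hz, neg_neg]
      rw [this, ih]
  rw [SS_pow, Module.End.mul_apply, hfix]

/-- The alternating property in the symplectic case. -/
theorem alt_sp (halt : f.IsAlt) (hu : ∀ x y, f (u x) (u y) = f x y) {r : ℕ} {X : V}
    (h : (NN u ^ (2 * r + 1)) X = 0) : f X ((NN u ^ (2 * r)) X) = 0 := by
  rw [NN_even_eq h]
  exact SS_pow_self halt hu r X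

/-- The alternating property in the orthogonal case. -/
theorem alt_orth (hS : ∀ x y, f x y = f y x) (h2 : (2 : F) ≠ 0) (hu : ∀ x y, f (u x) (u y) = f x y) {r : ℕ} {X : V}
    (h : (NN u ^ (2 * r + 2)) X = 0) : f X ((NN u ^ (2 * r + 1)) X) = 0 := by
  have hz : NN u ((NN u ^ (2 * r + 1)) X) = 0 := by
    rw [← Module.End.mul_apply, ← pow_succ']
    exact h
  have h1 : f X ((NN u ^ (2 * r + 1)) X) = - f ((NN u ^ (2 * r + 1)) X) X := by
    rw [f_pow_right hu, TT_pow, Module.End.mul_apply, WW_pow_fix hz]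
    rw [pow_succ, pow_mul]
    simp
  rw [hS ((NN u ^ (2 * r + 1)) X) X] at h1
  have h3 : (2 : F) * f X ((NN u ^ (2 * r + 1)) X) = 0 := by
    linear_combination h1
  exact (mul_eq_zero.mp h3).resolve_left h2

end abs

section conc

variable {F : Type*} [Field F] {t : ℕ} (d : Fin t → ℕ)

/-- The index type. -/
abbrev Kap := (k : Fin t) × Fin (d k)

theorem mulVec_J (x : Kap d → F) (k : Fin t) (i : Fin (d k)) :
    (Cfsg.jordanTypeMatrix d F *ᵥ x) ⟨k, i⟩ = x ⟨k, i⟩ + if h : 1 ≤ (i : ℕ) then x ⟨k, ⟨i - 1, by omega⟩⟩ else 0 := by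
  classical
  simp only [Matrix.mulVec, dotProduct, Fintype.sum_sigma]
  rw [Finset.sum_eq_single k]
  · simp only [Cfsg.jordanTypeMatrix, Matrix.blockDiagonal'_apply_eq, Cfsg.jordanBlock, Matrix.of_apply]
    by_cases h : 1 ≤ (i : ℕ)
    · rw [dif_pos h, Finset.sum_eq_add i ⟨i - 1, by omega⟩]
      · simp only [if_true]
        have h1 : (i : ℕ) ≠ i - 1 := by omega
        have h2 : (i : ℕ) = i - 1 + 1 := by omega
        simp [h1, h2.symm]
      · intro e
        have := congrArg Fin.val e
        simp at this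
        omega
      · intro j _ hj
        have h1 : (i : ℕ) ≠ j := fun e => hj.1 (Fin.ext e).symm
        have h2 : (i : ℕ) ≠ j + 1 := fun e => hj.2 (Fin.ext (by simp; omega))
        simp [h1, h2]
      · simp
      · simp
    · rw [dif_neg h, Finset.sum_eq_single i]
      · simp
      · intro j _ hj
        have h1 : (i : ℕ) ≠ j := fun e => hj (Fin.ext e).symm
        have h2 : (i : ℕ) ≠ j + 1 := by omega
        simp [h1, h2]
      · simp
  · intro l _ hl
    refine Finset.sum_eq_zero fun j _ => ?_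
    simp only [Cfsg.jordanTypeMatrix]
    rw [Matrix.blockDiagonal'_apply_ne _ _ _ (fun e => hl e.symm), zero_mul]
  · simp

/-- The nilpotent part. -/
noncomputable def NJ (F : Type*) [Field F] : Module.End F (Kap d → F) := Matrix.mulVecLin (Cfsg.jordanTypeMatrix d F) - 1

theorem NJ_apply (x : Kap d → F) (k : Fin t) (i : Fin (d k)) :
    NJ d F x ⟨k, i⟩ = if h : 1 ≤ (i : ℕ) then x ⟨k, ⟨i - 1, by omega⟩⟩ else 0 := by
  show (Cfsg.jordanTypeMatrix d F *ᵥ x) ⟨k, i⟩ - x ⟨k, i⟩ = _
  rw [mulVec_J, add_sub_cancel_left]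

theorem NJ_pow_apply (a : ℕ) (x : Kap d → F) (k : Fin t) (i : Fin (d k)) :
    (NJ d F ^ a) x ⟨k, i⟩ = if h : a ≤ (i : ℕ) then x ⟨k, ⟨i - a, by omega⟩⟩ else 0 := by
  induction a generalizing x with
  | zero => simp
  | succ a ih =>
    rw [pow_succ, Module.End.mul_apply, ih, ]
    by_cases h1 : a ≤ (i : ℕ)
    · rw [dif_pos h1, NJ_apply]
      by_cases h2 : a + 1 ≤ (i : ℕ)
      · rw [dif_pos h2, dif_pos (by simp; omega)]
        congr 3
      · rw [dif_neg h2, dif_neg (by simp; omega)]
    · rw [dif_neg h1, dif_neg (by omega)]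

theorem NJ_nilpotent : IsNilpotent (NJ d F) := by
  classical
  refine ⟨∑ k, d k, ?_⟩
  apply LinearMap.ext
  intro x
  funext ⟨k, i⟩
  rw [NJ_pow_apply, dif_neg]
  · rfl
  · have := i.2
    have h2 : d k ≤ ∑ k, d k := Finset.single_le_sum (fun _ _ => Nat.zero_le _) (Finset.mem_univ k)
    omega

/-- The matrix as a linear automorphism. -/
noncomputable def Ju (F : Type*) [Field F] : (Kap d → F) ≃ₗ[F] (Kap d → F) :=
  LinearEquiv.ofBijective (Matrix.mulVecLin (Cfsg.jordanTypeMatrix d F)) (by
    have h : IsUnit (1 + NJ d F) := (NJ_nilpotent d).isUnit_one_add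
    have h2 : (Matrix.mulVecLin (Cfsg.jordanTypeMatrix d F) : Module.End F (Kap d → F)) = 1 + NJ d F := by
      rw [NJ]
      abel
    rw [← h2] at h
    exact (Module.End.isUnit_iff _).mp h)

theorem Ju_apply (x : Kap d → F) : Ju d F x = Cfsg.jordanTypeMatrix d F *ᵥ x := rfl

theorem NN_Ju : NN (Ju d F) = NJ d F := rfl

theorem J_isUnit : IsUnit (Cfsg.jordanTypeMatrix d F) := by
  classical
  have h : IsUnit (Matrix.toLin' (Cfsg.jordanTypeMatrix d F)) := by
    have h1 : IsUnit (1 + NJ d F) := (NJ_nilpotent d).isUnit_one_add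
    have h2 : (Matrix.toLin' (Cfsg.jordanTypeMatrix d F) : Module.End F (Kap d → F)) = 1 + NJ d F := by
      rw [NJ]
      have : (Matrix.toLin' (Cfsg.jordanTypeMatrix d F)) = Matrix.mulVecLin (Cfsg.jordanTypeMatrix d F) := rfl
      rw [this]
      abel
    rw [h2]
    exact h1
  have h3 := h.map (Matrix.toLinAlgEquiv'.symm.toRingEquiv.toMonoidHom)
  simpa using h3

end conc

section psi

variable {F : Type*} [Field F] {t : ℕ} {d : Fin t → ℕ}

/-- The generator of a block. -/
noncomputable def gen (hd : ∀ k, 1 ≤ d k) (k : Fin t) : Kap d → F :=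
  by classical exact Pi.single ⟨k, ⟨0, by have := hd k; omega⟩⟩ 1

theorem psi_nondeg (hd : ∀ k, 1 ≤ d k) {f : LinearMap.BilinForm F (Kap d → F)} (hnd : f.Nondegenerate)
    (hu : ∀ x y, f (Ju d F x) (Ju d F y) = f x y) {j : ℕ} (hj : 1 ≤ j)
    (c : {k // d k = j} → F)
    (hc : ∀ k : {k // d k = j}, f (gen hd k.1) ((NJ d F ^ (j - 1)) (∑ l, c l • gen hd l.1)) = 0) : c = 0 := by
  classical
  obtain ⟨X, hX⟩ : ∃ X : Kap d → F, X = ∑ l, c l • gen (F := F) hd l.1 := ⟨_, rfl⟩
  rw [← hX] at hc
  have hXc : ∀ (l : {k // d k = j}), X ⟨l.1, ⟨0, by have := hd l.1; omega⟩⟩ = c l := by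
    intro l
    rw [hX, Finset.sum_apply, Finset.sum_eq_single l]
    · simp [gen]
    · intro l' _ hl'
      have : l'.1 ≠ l.1 := fun e => hl' (Subtype.ext e)
      simp [gen, this]
    · simp
  have hX0 : ∀ (k : Fin t) (i : Fin (d k)), (i : ℕ) ≠ 0 ∨ d k ≠ j → X ⟨k, i⟩ = 0 := by
    intro k i h
    rw [hX, Finset.sum_apply]
    refine Finset.sum_eq_zero fun l _ => ?_
    have : (⟨l.1, ⟨0, by have := hd l.1; omega⟩⟩ : Kap d) ≠ ⟨k, i⟩ := by
      intro e
      have e1 : l.1 = k := congrArg Sigma.fst e
      rcases h with h | h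
      · subst e1
        simp only [Sigma.mk.injEq, heq_eq_eq, true_and] at e
        apply h
        rw [← e]
      · exact h (by rw [← e1]; exact l.2)
    simp [gen, this]
  have hNX : (NJ d F ^ j) X = 0 := by
    funext ⟨k, i⟩
    rw [NJ_pow_apply]
    by_cases h : j ≤ (i : ℕ)
    · rw [dif_pos h]
      apply hX0
      by_cases h1 : d k = j
      · have := i.2
        omega
      · exact Or.inr h1
    · rw [dif_neg h]
      rfl
  obtain ⟨z, hz⟩ : ∃ z, z = (NJ d F ^ (j - 1)) X := ⟨_, rfl⟩
  rw [← hz] at hc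
  have hNz : NJ d F z = 0 := by
    rw [hz, ← Module.End.mul_apply, ← pow_succ']
    have : j - 1 + 1 = j := by omega
    rw [this, hNX]
  -- `z` is orthogonal to the kernel
  have hbasis : ∀ (k : Fin t) (i : Fin (d k)) (w : Kap d → F), (NJ d F ^ j) w = 0 →
      w ⟨k, i⟩ * f (Pi.single ⟨k, i⟩ 1) z = 0 := by
    intro k i w hw
    by_cases hik : (i : ℕ) + j < d k
    · have h1 := congrFun hw ⟨k, ⟨i + j, hik⟩⟩
      rw [NJ_pow_apply, dif_pos (by simp)] at h1
      have h2 : w ⟨k, i⟩ = 0 := by
        have : (⟨k, ⟨(i : ℕ) + j - j, by simp⟩⟩ : Kap d) = ⟨k, i⟩ := by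
          congr 2
          simp
        rw [this] at h1
        exact h1
      rw [h2, zero_mul]
    · by_cases hi : (i : ℕ) = 0
      · -- generators
        have hdk : d k ≤ j := by omega
        have hg : (Pi.single ⟨k, i⟩ 1 : Kap d → F) = gen hd k := by
          rw [gen]
          congr 2
          apply Fin.ext
          simp [hi]
        rw [hg]
        by_cases hdk2 : d k = j
        · rw [hc ⟨k, hdk2⟩, mul_zero]
        · have h1 : (NJ d F ^ (j - 1)) (gen (F := F) hd k) = 0 := by
            funext ⟨k', i'⟩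
            rw [NJ_pow_apply]
            by_cases h2 : j - 1 ≤ (i' : ℕ)
            · rw [dif_pos h2, gen, Pi.single_apply, if_neg]
              · rfl
              · intro e
                have e1 : k' = k := congrArg Sigma.fst e
                subst e1
                have := i'.2
                omega
            · rw [dif_neg h2]
              rfl
          have h3 : f (gen hd k) z = 0 := by
            rw [hz]
            have h4 := f_pow_right (f := f) (u := Ju d F) hu (j - 1) (gen hd k) X
            rw [NN_Ju] at h4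
            rw [h4, TT_pow_zero (u := Ju d F) (by rw [NN_Ju]; exact h1)]
            simp
          rw [h3, mul_zero]
      · -- others are in the range of `N`
        have hpos : 1 ≤ (i : ℕ) := by omega
        have hm : (Pi.single ⟨k, i⟩ 1 : Kap d → F) = NJ d F (Pi.single ⟨k, ⟨i - 1, by have := i.2; omega⟩⟩ 1) := by
          funext ⟨k', i'⟩
          rw [NJ_apply]
          by_cases hk : k' = k
          · subst hk
            by_cases h2 : i' = i
            · subst h2
              rw [dif_pos hpos]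
              simp
            · have h3 : (i' : ℕ) ≠ i := fun e => h2 (Fin.ext e)
              by_cases h4 : 1 ≤ (i' : ℕ)
              · rw [dif_pos h4]
                have h5 : (⟨k', ⟨i' - 1, by omega⟩⟩ : Kap d) ≠ ⟨k', ⟨i - 1, by have := i.2; omega⟩⟩ := by
                  intro e
                  simp only [Sigma.mk.injEq, heq_eq_eq, true_and, Fin.mk.injEq] at e
                  omega
                simp [Pi.single_apply, h2, h5]
              · rw [dif_neg h4]
                simp [Pi.single_apply, h2]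
          · have h1 : (⟨k', i'⟩ : Kap d) ≠ ⟨k, i⟩ := fun e => hk (congrArg Sigma.fst e)
            by_cases h4 : 1 ≤ (i' : ℕ)
            · rw [dif_pos h4]
              have h5 : (⟨k', ⟨i' - 1, by omega⟩⟩ : Kap d) ≠ ⟨k, ⟨i - 1, by have := i.2; omega⟩⟩ :=
                fun e => hk (congrArg Sigma.fst e)
              simp [Pi.single_apply, h1, h5]
            · rw [dif_neg h4]
              simp [Pi.single_apply, h1]
        have h3 : f (Pi.single ⟨k, i⟩ 1) z = 0 := by
          rw [hm]
          have h4 := f_left (f := f) (u := Ju d F) hu (Pi.single ⟨k, ⟨i - 1, by have := i.2; omega⟩⟩ 1) z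
          rw [NN_Ju] at h4
          rw [h4, TT_eq, Module.End.mul_apply, NN_Ju, hNz, map_zero, map_zero]
        rw [h3, mul_zero]
  have hzorth : z ∈ LinearMap.BilinForm.orthogonal f (LinearMap.ker (NN (Ju d F) ^ j)) := by
    intro w hw
    show f w z = 0
    have hw' : (NJ d F ^ j) w = 0 := hw
    have hexp : w = ∑ p : Kap d, w p • (Pi.single p 1 : Kap d → F) := by
      funext q
      simp [Finset.sum_apply, Pi.single_apply]
    rw [hexp]
    simp only [map_sum, map_smul, LinearMap.sum_apply, LinearMap.smul_apply, smul_eq_mul]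
    refine Finset.sum_eq_zero ?_
    rintro ⟨k, i⟩ _
    exact hbasis k i w hw'
  rw [orth_ker hnd hu] at hzorth
  obtain ⟨y, hy⟩ := hzorth
  funext l
  have h1 := congrFun hy ⟨l.1, ⟨j - 1, by have := l.2; have := hd l.1; omega⟩⟩
  rw [NN_Ju, NJ_pow_apply, dif_neg (by simp; omega), hz, NJ_pow_apply, dif_pos (by simp)] at h1
  have h2 : (⟨l.1, ⟨j - 1 - (j - 1), by have := hd l.1; omega⟩⟩ : Kap d) = ⟨l.1, ⟨0, by have := hd l.1; omega⟩⟩ := by
    congr 2
    simp
  rw [h2, hXc] at h1
  exact h1.symm

/-- Evenness of the multiplicities. -/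
theorem even_of_form (hd : ∀ k, 1 ≤ d k) {f : LinearMap.BilinForm F (Kap d → F)} (hnd : f.Nondegenerate)
    (hu : ∀ x y, f (Ju d F x) (Ju d F y) = f x y) {j : ℕ} (hj : 1 ≤ j)
    (halt : ∀ X, (NJ d F ^ j) X = 0 → f X ((NJ d F ^ (j - 1)) X) = 0) :
    Even (Finset.univ.filter (fun k : Fin t => d k = j)).card := by
  classical
  let Ψ : Matrix {k // d k = j} {k // d k = j} F := Matrix.of fun k l => f (gen hd k.1) ((NJ d F ^ (j - 1)) (gen hd l.1))
  have hX : ∀ v : {k // d k = j} → F, (NJ d F ^ j) (∑ l, v l • gen (F := F) hd l.1) = 0 := by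
    intro v
    rw [map_sum]
    refine Finset.sum_eq_zero fun l _ => ?_
    rw [map_smul]
    have : (NJ d F ^ j) (gen (F := F) hd l.1) = 0 := by
      funext ⟨k', i'⟩
      rw [NJ_pow_apply]
      by_cases h2 : j ≤ (i' : ℕ)
      · rw [dif_pos h2, gen, Pi.single_apply, if_neg]
        · rfl
        · intro e
          have e1 : k' = l.1 := congrArg Sigma.fst e
          subst e1
          have := i'.2
          have := l.2
          omega
      · rw [dif_neg h2]
        rfl
    rw [this, smul_zero]
  have hexp : ∀ v w : {k // d k = j} → F, v ⬝ᵥ (Ψ *ᵥ w) =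
      f (∑ l, v l • gen hd l.1) ((NJ d F ^ (j - 1)) (∑ l, w l • gen hd l.1)) := by
    intro v w
    simp only [dotProduct, Matrix.mulVec, map_sum, map_smul, LinearMap.sum_apply, LinearMap.smul_apply, smul_eq_mul, Ψ,
      Matrix.of_apply]
    simp only [Finset.mul_sum]
    rw [Finset.sum_comm]
    refine Finset.sum_congr rfl fun k _ => Finset.sum_congr rfl fun l _ => ?_
    ring
  have hH : ∀ v : {k // d k = j} → F, v ⬝ᵥ (Ψ.mulVec v) = 0 := by
    intro v
    rw [hexp v v]
    exact halt _ (hX v)
  have hev := Cfsg.Agent.Lib.AltRank.even_rank_of_alt Ψ hH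
  have hinj : Function.Injective Ψ.mulVec := by
    show Function.Injective Ψ.mulVecLin
    rw [injective_iff_map_eq_zero]
    intro c hc
    apply psi_nondeg hd hnd hu hj c
    intro k
    have h1 := congrFun hc k
    have h2 : (Ψ *ᵥ c) k = f (gen hd k.1) ((NJ d F ^ (j - 1)) (∑ l, c l • gen hd l.1)) := by
      simp only [Matrix.mulVec, dotProduct, map_sum, map_smul, smul_eq_mul, Ψ, Matrix.of_apply]
      refine Finset.sum_congr rfl fun l _ => ?_
      ring
    rw [← h2]
    exact h1
  have hunit : IsUnit Ψ := by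
    have := (Matrix.mulVec_injective_iff_isUnit (A := Ψ)).mp hinj
    exact this
  have hrank : Ψ.rank = Fintype.card {k // d k = j} := by
    rw [Matrix.rank_of_isUnit _ hunit]
  rw [hrank, Fintype.card_subtype] at hev
  exact hev

end psi

end Cfsg.Agent.Lib.JType
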