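import Mathlib
import Cfsg.Prelude.Def_JordanBlocks
import Cfsg.Agent.Lib.RegNil

/-!
# Invariant forms on a single unipotent Jordan block
-/

set_option autoImplicit false
set_option linter.unusedSectionVars false
set_option linter.unusedSimpArgs false
set_option linter.unusedVariables false

namespace Cfsg.Agent.Lib.JTypeBlock

open Module Matrix
open Cfsg.Agent.Lib.RegNil

variable {F : Type*} [Field F]

theorem unit_of {ι : Type*} [Fintype ι] [DecidableEq ι] {A B : Matrix ι ι F} (h : A * B = 1) : IsUnit A :=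
  ⟨⟨A, B, h, mul_eq_one_comm.mp h⟩, rfl⟩

theorem jordanBlock_sub_one (n : ℕ) : Cfsg.jordanBlock n F - 1 = shift n F := by
  ext i j
  simp only [Cfsg.jordanBlock, shift, Matrix.sub_apply, Matrix.of_apply, Matrix.one_apply]
  by_cases h : (i : ℕ) = j
  · have h1 : i = j := Fin.ext h
    simp [h, h1]
  · have h1 : i ≠ j := fun e => h (congrArg _ e)
    simp [h, h1]

theorem isReg_jordan {n : ℕ} (hn : 1 ≤ n) : IsReg (Cfsg.jordanBlock n F - 1) n := by
  rw [jordanBlock_sub_one]
  exact isReg_shift hn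

section reindex

variable {ι κ : Type*} [Fintype ι] [DecidableEq ι] [Fintype κ] [DecidableEq κ]

theorem isReg_reindex {N : Matrix ι ι F} {n : ℕ} (h : IsReg N n) (e : ι ≃ κ) : IsReg (reindex e e N) n := by
  refine ⟨by rw [← Fintype.card_congr e]; exact h.hcard, h.hpos, ?_, ?_⟩
  · have : reindex e e (N ^ n) = (reindex e e N) ^ n := map_pow (Matrix.reindexAlgEquiv F F e) N n
    rw [← this, h.hnil]
    simp
  · rw [Matrix.rank_reindex, h.hrank]

theorem reindex_mul' (e : ι ≃ κ) (A B : Matrix ι ι F) : reindex e e (A * B) = reindex e e A * reindex e e B :=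
  map_mul (Matrix.reindexAlgEquiv F F e) A B

theorem reindex_one' (e : ι ≃ κ) : reindex e e (1 : Matrix ι ι F) = 1 := by
  simp

theorem reindex_dot (e : ι ≃ κ) (G : Matrix ι ι F) (v : κ → F) :
    v ⬝ᵥ (reindex e e G *ᵥ v) = (v ∘ e) ⬝ᵥ (G *ᵥ (v ∘ e)) := by
  have h1 : reindex e e G *ᵥ v = (G *ᵥ (v ∘ e)) ∘ e.symm := by
    funext i
    simp only [Matrix.mulVec, dotProduct, Function.comp_apply, Matrix.reindex_apply, Matrix.submatrix_apply]
    rw [← Equiv.sum_comp e]
    simp
  rw [h1]
  simp only [dotProduct, Function.comp_apply]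
  rw [← Equiv.sum_comp e]
  simp

end reindex

/-- Transport of an invariant form along a regular element. -/
theorem block_form {ι : Type*} [Fintype ι] [DecidableEq ι] {A G : Matrix ι ι F} {n : ℕ} (hA : IsReg (A - 1) n)
    (hG : Aᵀ * G * A = G) (hU : IsUnit G) :
    ∃ G' : Matrix (Fin n) (Fin n) F, (Cfsg.jordanBlock n F)ᵀ * G' * Cfsg.jordanBlock n F = G' ∧ IsUnit G' ∧
      (Gᵀ = G → G'ᵀ = G') ∧ ((∀ v, v ⬝ᵥ (G *ᵥ v) = 0) → ∀ v, v ⬝ᵥ (G' *ᵥ v) = 0) := by
  classical
  have e : ι ≃ Fin n := Fintype.equivFinOfCardEq hA.hcard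
  obtain ⟨A₂, hA₂⟩ : ∃ A₂, A₂ = reindex e e A := ⟨_, rfl⟩
  obtain ⟨G₂, hG₂⟩ : ∃ G₂, G₂ = reindex e e G := ⟨_, rfl⟩
  have h1 : A₂ᵀ * G₂ * A₂ = G₂ := by
    rw [hA₂, hG₂, Matrix.transpose_reindex, ← reindex_mul', ← reindex_mul', hG]
  have h2 : IsReg (A₂ - 1) n := by
    have := isReg_reindex hA e
    have e3 : reindex e e (A - 1) = A₂ - 1 := by
      rw [hA₂]
      ext i j
      simp [Matrix.reindex_apply, Matrix.sub_apply, Matrix.one_apply]
    rwa [e3] at this
  have hU₂ : IsUnit G₂ := by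
    rw [hG₂]
    exact hU.map (Matrix.reindexAlgEquiv F F e)
  obtain ⟨g, g', hg1, hg2, hg3⟩ := conj_of_isReg (isReg_jordan (F := F) hA.hpos) h2
  have hg4 : g * Cfsg.jordanBlock n F = A₂ * g := by
    have : g * (Cfsg.jordanBlock n F - 1) = (A₂ - 1) * g := hg3
    rw [Matrix.mul_sub, Matrix.sub_mul, Matrix.mul_one, Matrix.one_mul] at this
    exact sub_left_injective this
  have hgU : IsUnit g := unit_of hg1
  refine ⟨gᵀ * G₂ * g, ?_, ?_, ?_, ?_⟩
  · calc (Cfsg.jordanBlock n F)ᵀ * (gᵀ * G₂ * g) * Cfsg.jordanBlock n F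
        = (g * Cfsg.jordanBlock n F)ᵀ * G₂ * (g * Cfsg.jordanBlock n F) := by
          rw [Matrix.transpose_mul]
          simp only [Matrix.mul_assoc]
      _ = gᵀ * (A₂ᵀ * G₂ * A₂) * g := by
          rw [hg4, Matrix.transpose_mul]
          simp only [Matrix.mul_assoc]
      _ = gᵀ * G₂ * g := by rw [h1]
  · have hgt : IsUnit gᵀ := by
      have h7 : gᵀ * g'ᵀ = 1 := by
        rw [← Matrix.transpose_mul, hg2, Matrix.transpose_one]
      exact unit_of h7
    exact (hgt.mul hU₂).mul hgU
  · intro hs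
    have : G₂ᵀ = G₂ := by
      rw [hG₂, Matrix.transpose_reindex, hs]
    rw [Matrix.transpose_mul, Matrix.transpose_mul, Matrix.transpose_transpose, this, Matrix.mul_assoc]
  · intro ha v
    have h3 : ∀ w, w ⬝ᵥ (G₂ *ᵥ w) = 0 := by
      intro w
      rw [hG₂, reindex_dot]
      exact ha _
    have h4 : v ⬝ᵥ ((gᵀ * G₂ * g) *ᵥ v) = (g *ᵥ v) ⬝ᵥ (G₂ *ᵥ (g *ᵥ v)) := by
      rw [Matrix.mul_assoc, ← Matrix.mulVec_mulVec, Matrix.dotProduct_mulVec, Matrix.vecMul_transpose, ← Matrix.mulVec_mulVec]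
    rw [h4]
    exact h3 _

section pair

/-- The form for pairs of blocks. -/
theorem pair_form {n : ℕ} (hn : 1 ≤ n) :
    ∃ B : Matrix (Fin n) (Fin n) F, (Cfsg.jordanBlock n F)ᵀ * B * Cfsg.jordanBlock n F = B ∧ IsUnit B := by
  classical
  obtain ⟨S, hS⟩ : ∃ S, S = shift n F := ⟨_, rfl⟩
  have hJ : Cfsg.jordanBlock n F = 1 + S := by
    rw [hS, ← jordanBlock_sub_one]
    abel
  have hreg : IsReg S n := hS ▸ isReg_shift hn
  obtain ⟨C, hC⟩ : ∃ C : Matrix (Fin n) (Fin n) F, C = ∑ i ∈ Finset.range n, (-S) ^ i := ⟨_, rfl⟩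
  have hSn : (-S) ^ n = 0 := by
    rw [neg_pow, hreg.hnil, mul_zero]
  have h1 : (1 + S) * C = 1 := by
    have := mul_neg_geom_sum (-S) n
    rw [sub_neg_eq_add, hSn, sub_zero, ← hC] at this
    exact this
  have h2 : C * (1 + S) = 1 := by
    have := geom_sum_mul_neg (-S) n
    rw [sub_neg_eq_add, hSn, sub_zero, ← hC] at this
    exact this
  have hC1 : C - 1 = (-C) * S := by
    have : C * (1 + S) = C + C * S := by rw [Matrix.mul_add, Matrix.mul_one]
    rw [this] at h2
    rw [Matrix.neg_mul, eq_neg_iff_add_eq_zero]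
    calc C - 1 + C * S = C + C * S - 1 := by abel
      _ = 0 := by rw [h2, sub_self]
  have hcomm : Commute C S := by
    have h3 : C * S = S * C := by
      rw [hC, Finset.sum_mul, Finset.mul_sum]
      refine Finset.sum_congr rfl fun i _ => ?_
      exact (((Commute.refl S).neg_left).pow_left i).eq
    exact h3
  have hCdet : IsUnit C := unit_of h2
  have hCdetU : IsUnit (-C).det := (Matrix.isUnit_iff_isUnit_det (-C)).mp hCdet.neg
  -- the regular matrix
  have hreg2 : IsReg ((C - 1)ᵀ) n := by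
    refine ⟨Fintype.card_fin n, hn, ?_, ?_⟩
    · have hcomm' : Commute (-C) S := Commute.neg_left hcomm
      rw [← Matrix.transpose_pow, hC1, hcomm'.mul_pow, hreg.hnil]
      simp
    · rw [Matrix.rank_transpose, hC1, Matrix.rank_mul_eq_right_of_isUnit_det _ _ hCdetU, hreg.hrank]
  obtain ⟨g, g', hg1, hg2, hg3⟩ := conj_of_isReg hreg hreg2
  refine ⟨g, ?_, unit_of hg1⟩
  have h5 : g * S = Cᵀ * g - g := by
    rw [hg3, Matrix.transpose_sub, Matrix.transpose_one, Matrix.sub_mul, Matrix.one_mul]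
  have h6 : (1 + S)ᵀ * Cᵀ = 1 := by
    rw [← Matrix.transpose_mul, h2, Matrix.transpose_one]
  rw [hJ]
  calc (1 + S)ᵀ * g * (1 + S) = (1 + S)ᵀ * (g + g * S) := by
        rw [Matrix.mul_assoc, Matrix.mul_add, Matrix.mul_one]
    _ = (1 + S)ᵀ * (Cᵀ * g) := by
        rw [h5]
        congr 1
        abel
    _ = g := by
        rw [← Matrix.mul_assoc, h6, Matrix.one_mul]

end pair

section spblock

variable {k : ℕ}

/-- The antidiagonal matrix. -/
def WM (k : ℕ) (F : Type*) [Field F] : Matrix (Fin k) (Fin k) F :=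
  Matrix.of fun i j => if (i : ℕ) + j + 1 = k then 1 else 0

theorem WM_symm : (WM k F)ᵀ = WM k F := by
  ext i j
  simp only [WM, Matrix.transpose_apply, Matrix.of_apply]
  congr 1
  apply propext
  omega

theorem WM_sq : WM k F * WM k F = 1 := by
  ext i j
  rw [Matrix.mul_apply, Matrix.one_apply]
  simp only [WM, Matrix.of_apply]
  rw [Finset.sum_eq_single (⟨k - 1 - i, by have := i.2; omega⟩ : Fin k)]
  · have h1 : (i : ℕ) + (k - 1 - i) + 1 = k := by have := i.2; omega
    simp only [h1, if_true, one_mul]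
    by_cases h : i = j
    · subst h
      simp
      omega
    · have : (k - 1 - i) + (j : ℕ) + 1 ≠ k := by
        intro e
        apply h
        apply Fin.ext
        have := i.2
        omega
      simp [h, this]
  · intro l _ hl
    have : (i : ℕ) + l + 1 ≠ k := by
      intro e
      apply hl
      apply Fin.ext
      simp
      omega
    simp [this]
  · simp

theorem shift_W : (shift k F)ᵀ * WM k F = WM k F * shift k F := by
  ext i j
  rw [Matrix.mul_apply, Matrix.mul_apply]
  simp only [WM, shift, Matrix.transpose_apply, Matrix.of_apply]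
  by_cases h : (i : ℕ) + j + 2 = k
  · rw [Finset.sum_eq_single (⟨i + 1, by omega⟩ : Fin k), Finset.sum_eq_single (⟨j + 1, by omega⟩ : Fin k)]
    · have h1 : (i : ℕ) + 1 + j + 1 = k := by omega
      have h2 : (i : ℕ) + (j + 1) + 1 = k := by omega
      simp [h1, h2]
    · intro l _ hl
      have : (l : ℕ) ≠ j + 1 := fun e => hl (Fin.ext e)
      simp [this]
    · simp
    · intro l _ hl
      have : (l : ℕ) ≠ i + 1 := fun e => hl (Fin.ext e)
      simp [this]
    · simp
  · rw [Finset.sum_eq_zero, Finset.sum_eq_zero]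
    · intro l _
      by_cases h1 : (l : ℕ) = j + 1
      · have : (i : ℕ) + l + 1 ≠ k := by omega
        simp [this]
      · simp [h1]
    · intro l _
      by_cases h1 : (l : ℕ) = i + 1
      · have : (l : ℕ) + j + 1 ≠ k := by omega
        simp [this]
      · simp [h1]

/-- The alternating form on the double. -/
def GS (k : ℕ) (F : Type*) [Field F] : Matrix (Fin k ⊕ Fin k) (Fin k ⊕ Fin k) F :=
  Matrix.fromBlocks 0 (WM k F) (-WM k F) 0

/-- The element of `SL₂` over the truncated polynomial ring. -/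
def AS (k : ℕ) (F : Type*) [Field F] : Matrix (Fin k ⊕ Fin k) (Fin k ⊕ Fin k) F :=
  Matrix.fromBlocks 1 1 (shift k F) (1 + shift k F)

theorem AS_inv : (AS k F)ᵀ * GS k F * AS k F = GS k F := by
  have h := shift_W (k := k) (F := F)
  rw [AS, GS, Matrix.fromBlocks_transpose, Matrix.fromBlocks_multiply, Matrix.fromBlocks_multiply]
  simp only [Matrix.transpose_one, Matrix.transpose_add, Matrix.one_mul, Matrix.mul_one, Matrix.zero_mul, Matrix.mul_zero,
    add_zero, zero_add, Matrix.mul_add, Matrix.add_mul, Matrix.mul_neg, Matrix.neg_mul, h]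
  congr 1 <;> abel

theorem GS_unit : IsUnit (GS k F) := by
  apply unit_of (B := Matrix.fromBlocks 0 (-WM k F) (WM k F) 0)
  rw [GS, Matrix.fromBlocks_multiply]
  simp [WM_sq, Matrix.fromBlocks_one]

theorem GS_alt (v : Fin k ⊕ Fin k → F) : v ⬝ᵥ (GS k F *ᵥ v) = 0 := by
  have h1 : (fun i => v (Sum.inr i)) ⬝ᵥ (WM k F *ᵥ fun i => v (Sum.inl i)) =
      (fun i => v (Sum.inl i)) ⬝ᵥ (WM k F *ᵥ fun i => v (Sum.inr i)) := by
    rw [Matrix.dotProduct_mulVec, ← Matrix.mulVec_transpose, WM_symm, dotProduct_comm]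
  have hv : v = Sum.elim (fun i => v (Sum.inl i)) (fun i => v (Sum.inr i)) := by
    ext i
    cases i <;> rfl
  rw [GS, hv, Matrix.fromBlocks_mulVec]
  simp only [Sum.elim_comp_inl, Sum.elim_comp_inr, Matrix.zero_mulVec, zero_add, add_zero, Matrix.neg_mulVec]
  rw [dotProduct, Fintype.sum_sum_type]
  simp only [Sum.elim_inl, Sum.elim_inr, Pi.neg_apply]
  have h2 := h1
  simp only [dotProduct] at h2
  simp only [mul_neg, Finset.sum_neg_distrib]
  rw [h2, add_neg_cancel]

/-- `A - 1` is regular. -/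
theorem AS_reg (hk : 1 ≤ k) : IsReg (AS k F - 1) (2 * k) := by
  classical
  obtain ⟨S, hS⟩ : ∃ S, S = shift k F := ⟨_, rfl⟩
  have hreg : IsReg S k := hS ▸ isReg_shift hk
  obtain ⟨M, hM⟩ : ∃ M : Matrix (Fin k ⊕ Fin k) (Fin k ⊕ Fin k) F, M = Matrix.fromBlocks 0 1 S S := ⟨_, rfl⟩
  have h1 : AS k F - 1 = M := by
    have h0 : AS k F = M + 1 := by
      rw [hM, AS, ← hS, ← Matrix.fromBlocks_one, Matrix.fromBlocks_add]
      congr 1 <;> simp [add_comm]
    rw [h0, add_sub_cancel_right]
  rw [h1]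
  obtain ⟨D, hD⟩ : ∃ D : Matrix (Fin k ⊕ Fin k) (Fin k ⊕ Fin k) F, D = Matrix.fromBlocks S 0 0 S := ⟨_, rfl⟩
  obtain ⟨A, hA⟩ : ∃ A : Matrix (Fin k ⊕ Fin k) (Fin k ⊕ Fin k) F, A = Matrix.fromBlocks 1 1 S (1 + S) := ⟨_, rfl⟩
  have h2 : M * M = D * A := by
    rw [hM, hD, hA, Matrix.fromBlocks_multiply, Matrix.fromBlocks_multiply]
    simp [Matrix.mul_add]
  have h3 : Commute D A := by
    show D * A = A * D
    rw [hD, hA, Matrix.fromBlocks_multiply, Matrix.fromBlocks_multiply]
    simp [Matrix.mul_add, Matrix.add_mul]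
  have hDpow : ∀ a : ℕ, D ^ a = Matrix.fromBlocks (S ^ a) 0 0 (S ^ a) := by
    intro a
    induction a with
    | zero => simp [Matrix.fromBlocks_one]
    | succ a ih =>
      rw [pow_succ, ih, hD, Matrix.fromBlocks_multiply, pow_succ]
      simp
  refine ⟨by simp [two_mul], by omega, ?_, ?_⟩
  · rw [pow_mul, sq, h2, h3.mul_pow, hDpow, hreg.hnil]
    simp
  · -- the kernel
    obtain ⟨l, hl⟩ : ∃ l : Fin k, (l : ℕ) = k - 1 := ⟨⟨k - 1, by omega⟩, rfl⟩
    let v₀ : Fin k ⊕ Fin k → F := Sum.elim (Pi.single l 1) 0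
    have hv₀ : v₀ ≠ 0 := by
      intro h
      have := congrFun h (Sum.inl l)
      simp [v₀] at this
    have hker : LinearMap.ker M.mulVecLin = Submodule.span F {v₀} := by
      apply le_antisymm
      · intro v hv
        have hv' : M *ᵥ v = 0 := hv
        have hvE : v = Sum.elim (fun i => v (Sum.inl i)) (fun i => v (Sum.inr i)) := by
          ext i
          cases i <;> rfl
        rw [hM, hvE, Matrix.fromBlocks_mulVec] at hv'
        simp only [Sum.elim_comp_inl, Sum.elim_comp_inr, Matrix.zero_mulVec, zero_add, Matrix.one_mulVec] at hv'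
        have hb : ∀ i, v (Sum.inr i) = 0 := fun i => by
          have := congrFun hv' (Sum.inl i)
          simpa using this
        have hSa : S *ᵥ (fun i => v (Sum.inl i)) = 0 := by
          funext i
          have := congrFun hv' (Sum.inr i)
          simp only [Sum.elim_inr, Pi.add_apply, Pi.zero_apply] at this
          have h0 : (fun i => v (Sum.inr i)) = 0 := funext hb
          rw [h0] at this
          simpa using this
        have ha : ∀ i : Fin k, i ≠ l → v (Sum.inl i) = 0 := by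
          intro i hi
          have hi2 : (i : ℕ) + 1 < k := by
            have := i.2
            have : (i : ℕ) ≠ l := fun e => hi (Fin.ext e)
            omega
          have h4 := congrFun hSa ⟨i + 1, hi2⟩
          rw [hS, shift_mulVec_succ _ _ i rfl] at h4
          exact h4
        rw [Submodule.mem_span_singleton]
        refine ⟨v (Sum.inl l), ?_⟩
        funext i
        rcases i with i | i
        · by_cases hi : i = l
          · subst hi
            simp [v₀]
          · simp [v₀, hi, ha i hi]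
        · simp [v₀, hb i]
      · rw [Submodule.span_singleton_le_iff_mem]
        show M *ᵥ v₀ = 0
        rw [hM, Matrix.fromBlocks_mulVec]
        have e1 : v₀ ∘ Sum.inl = Pi.single l 1 := rfl
        have e2 : v₀ ∘ Sum.inr = 0 := rfl
        simp only [e1, e2, Matrix.zero_mulVec, zero_add, Matrix.mulVec_zero, add_zero]
        funext i
        rcases i with i | i
        · simp
        · simp only [Sum.elim_inr, Pi.zero_apply]
          rw [hS]
          simp only [Matrix.mulVec, dotProduct, shift, Matrix.of_apply]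
          refine Finset.sum_eq_zero fun j _ => ?_
          by_cases hj : j = l
          · subst hj
            have : (i : ℕ) ≠ j + 1 := by
              have := i.2
              omega
            simp [this]
          · simp [hj]
    have h4 : finrank F (LinearMap.ker M.mulVecLin) = 1 := by
      rw [hker]
      exact finrank_span_singleton hv₀
    have h5 := LinearMap.finrank_range_add_finrank_ker M.mulVecLin
    rw [h4] at h5
    have h6 : finrank F (Fin k ⊕ Fin k → F) = 2 * k := by
      simp [two_mul]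
    rw [h6] at h5
    rw [Matrix.rank]
    omega

/-- Even blocks carry an invariant alternating form. -/
theorem even_block (hk : 1 ≤ k) :
    ∃ G' : Matrix (Fin (2 * k)) (Fin (2 * k)) F, (Cfsg.jordanBlock (2 * k) F)ᵀ * G' * Cfsg.jordanBlock (2 * k) F = G' ∧
      IsUnit G' ∧ ∀ v, v ⬝ᵥ (G' *ᵥ v) = 0 := by
  obtain ⟨G', h1, h2, -, h4⟩ := block_form (AS_reg (F := F) hk) AS_inv GS_unit
  exact ⟨G', h1, h2, h4 GS_alt⟩

end spblock

section oblock

variable {n : ℕ}

/-- The symmetric form on an odd block. -/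
def GO (n : ℕ) (F : Type*) [Field F] : Matrix (Fin n) (Fin n) F :=
  Matrix.of fun i j => if (i : ℕ) + j + 1 = n then (-1) ^ (i : ℕ) else 0

theorem GO_symm (hn : Odd n) : (GO n F)ᵀ = GO n F := by
  ext i j
  simp only [GO, Matrix.transpose_apply, Matrix.of_apply]
  by_cases h : (i : ℕ) + j + 1 = n
  · have h1 : (j : ℕ) + i + 1 = n := by omega
    rw [if_pos h, if_pos h1]
    obtain ⟨r, hr⟩ := hn
    have h3 : (i : ℕ) + j = 2 * r := by omega
    have h4 : Even ((i : ℕ) + j) := ⟨r, by omega⟩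
    have h4' := Nat.even_add.mp h4
    rcases Nat.even_or_odd (i : ℕ) with h5 | h5
    · have h6 : Even (j : ℕ) := h4'.mp h5
      rw [h5.neg_one_pow, h6.neg_one_pow]
    · have h6 : Odd (j : ℕ) := Nat.not_even_iff_odd.mp fun h7 => Nat.not_even_iff_odd.mpr h5 (h4'.mpr h7)
      rw [h5.neg_one_pow, h6.neg_one_pow]
  · have h1 : ¬ (j : ℕ) + i + 1 = n := by omega
    rw [if_neg h, if_neg h1]

theorem GO_sq (hn : Odd n) : GO n F * GO n F = 1 := by
  ext i j
  rw [Matrix.mul_apply, Matrix.one_apply]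
  simp only [GO, Matrix.of_apply]
  rw [Finset.sum_eq_single (⟨n - 1 - i, by have := i.2; omega⟩ : Fin n)]
  · have h1 : (i : ℕ) + (n - 1 - i) + 1 = n := by have := i.2; omega
    simp only [h1, if_true]
    by_cases h : i = j
    · subst h
      have h2 : (n - 1 - (i : ℕ)) + i + 1 = n := by have := i.2; omega
      simp only [h2, if_true]
      rw [← pow_add]
      have h3 : Even ((i : ℕ) + (n - 1 - i)) := by
        obtain ⟨r, hr⟩ := hn
        exact ⟨r, by have := i.2; omega⟩
      rw [h3.neg_one_pow]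
    · have : (n - 1 - (i : ℕ)) + (j : ℕ) + 1 ≠ n := by
        intro e
        apply h
        apply Fin.ext
        have := i.2
        omega
      simp [h, this]
  · intro l _ hl
    have : (i : ℕ) + l + 1 ≠ n := by
      intro e
      apply hl
      apply Fin.ext
      simp
      omega
    simp [this]
  · simp

theorem shift_GO : (shift n F)ᵀ * GO n F = - (GO n F * shift n F) := by
  ext i j
  rw [Matrix.neg_apply, Matrix.mul_apply, Matrix.mul_apply]
  simp only [GO, shift, Matrix.transpose_apply, Matrix.of_apply]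
  by_cases h : (i : ℕ) + j + 2 = n
  · rw [Finset.sum_eq_single (⟨i + 1, by omega⟩ : Fin n), Finset.sum_eq_single (⟨j + 1, by omega⟩ : Fin n)]
    · have h1 : (i : ℕ) + 1 + j + 1 = n := by omega
      have h2 : (i : ℕ) + (j + 1) + 1 = n := by omega
      simp [h1, h2, pow_succ]
    · intro l _ hl
      have : (l : ℕ) ≠ j + 1 := fun e => hl (Fin.ext e)
      simp [this]
    · simp
    · intro l _ hl
      have : (l : ℕ) ≠ i + 1 := fun e => hl (Fin.ext e)
      simp [this]
    · simp
  · rw [Finset.sum_eq_zero, Finset.sum_eq_zero, neg_zero]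
    · intro l _
      by_cases h1 : (l : ℕ) = j + 1
      · have : (i : ℕ) + l + 1 ≠ n := by omega
        simp [this]
      · simp [h1]
    · intro l _
      by_cases h1 : (l : ℕ) = i + 1
      · have : (l : ℕ) + j + 1 ≠ n := by omega
        simp [this]
      · simp [h1]

/-- Odd blocks carry an invariant symmetric form. -/
theorem odd_block (hn : Odd n) (h2 : (2 : F) ≠ 0) :
    ∃ G' : Matrix (Fin n) (Fin n) F, (Cfsg.jordanBlock n F)ᵀ * G' * Cfsg.jordanBlock n F = G' ∧
      IsUnit G' ∧ G'ᵀ = G' := by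
  classical
  have hn1 : 1 ≤ n := hn.pos
  obtain ⟨M, hM⟩ : ∃ M, M = shift n F := ⟨_, rfl⟩
  have hreg : IsReg M n := hM ▸ isReg_shift hn1
  obtain ⟨C, hC⟩ : ∃ C : Matrix (Fin n) (Fin n) F, C = ∑ i ∈ Finset.range n, M ^ i := ⟨_, rfl⟩
  have hc1 : (1 - M) * C = 1 := by
    have := mul_neg_geom_sum M n
    rw [hreg.hnil, sub_zero, ← hC] at this
    exact this
  have hc2 : C * (1 - M) = 1 := by
    have := geom_sum_mul_neg M n
    rw [hreg.hnil, sub_zero, ← hC] at this
    exact this
  have hcomm : Commute C M := by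
    have h3 : C * M = M * C := by
      rw [hC, Finset.sum_mul, Finset.mul_sum]
      refine Finset.sum_congr rfl fun i _ => ?_
      exact ((Commute.refl M).pow_left i).eq
    exact h3
  have hCU : IsUnit C := unit_of hc2
  have hCdetU : IsUnit C.det := (Matrix.isUnit_iff_isUnit_det C).mp hCU
  obtain ⟨A, hA⟩ : ∃ A, A = (1 + M) * C := ⟨_, rfl⟩
  obtain ⟨G, hG⟩ : ∃ G, G = GO n F := ⟨_, rfl⟩
  have hskew : Mᵀ * G = -(G * M) := by rw [hM, hG]; exact shift_GO
  have hinv : Aᵀ * G * A = G := by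
    have e1 : (1 + M)ᵀ * G = G * (1 - M) := by
      rw [Matrix.transpose_add, Matrix.transpose_one, Matrix.add_mul, Matrix.one_mul, hskew, Matrix.mul_sub, Matrix.mul_one]
      abel
    have e2 : (1 - M)ᵀ * G = G * (1 + M) := by
      rw [Matrix.transpose_sub, Matrix.transpose_one, Matrix.sub_mul, Matrix.one_mul, hskew, Matrix.mul_add, Matrix.mul_one]
      abel
    have e3 : (1 - M) * (1 + M) * C = 1 + M := by
      have : (1 - M) * (1 + M) = (1 + M) * (1 - M) := by noncomm_ring
      rw [this, Matrix.mul_assoc, hc1, Matrix.mul_one]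
    have e4 : Cᵀ * (1 - M)ᵀ = 1 := by
      rw [← Matrix.transpose_mul, hc1, Matrix.transpose_one]
    calc Aᵀ * G * A = Cᵀ * (((1 + M)ᵀ * G) * (1 + M) * C) := by
          rw [hA, Matrix.transpose_mul]
          simp only [Matrix.mul_assoc]
      _ = Cᵀ * (G * ((1 - M) * (1 + M) * C)) := by
          rw [e1]
          simp only [Matrix.mul_assoc]
      _ = Cᵀ * (G * (1 + M)) := by rw [e3]
      _ = Cᵀ * ((1 - M)ᵀ * G) := by rw [e2]
      _ = G := by rw [← Matrix.mul_assoc, e4, Matrix.one_mul]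
  have hA1 : A - 1 = M * ((2 : F) • C) := by
    have h3 : A = C + M * C := by
      rw [hA, Matrix.add_mul, Matrix.one_mul]
    have h4 : C - M * C = 1 := by
      rw [← hc1, Matrix.sub_mul, Matrix.one_mul]
    rw [h3, Matrix.mul_smul, two_smul, ← h4]
    abel
  have hreg2 : IsReg (A - 1) n := by
    refine ⟨Fintype.card_fin n, hn1, ?_, ?_⟩
    · rw [hA1]
      have hc : Commute M ((2 : F) • C) := (hcomm.symm).smul_right (2 : F)
      rw [hc.mul_pow, hreg.hnil, Matrix.zero_mul]
    · rw [hA1]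
      have hu : IsUnit ((2 : F) • C).det := by
        rw [Matrix.det_smul]
        exact (IsUnit.pow _ (isUnit_iff_ne_zero.mpr h2)).mul hCdetU
      rw [Matrix.rank_mul_eq_left_of_isUnit_det _ _ hu, hreg.hrank]
  have hGU : IsUnit G := by
    rw [hG]
    exact unit_of (GO_sq hn)
  have hGs : Gᵀ = G := by
    rw [hG]
    exact GO_symm hn
  obtain ⟨G', h3, h4, h5, -⟩ := block_form hreg2 hinv hGU
  exact ⟨G', h3, h4, h5 hGs⟩

end oblock

end Cfsg.Agent.Lib.JTypeBlock
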