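import Mathlib
import Cfsg.Agent.Lib.JType
import Cfsg.Agent.Lib.JTypeBlock

/-!
# Assembling invariant forms on the whole unipotent matrix of a Jordan type
-/

set_option autoImplicit false
set_option linter.unusedSectionVars false
set_option linter.unusedSimpArgs false
set_option linter.unusedVariables false

namespace Cfsg.Agent.Lib.JTypeSum

open Module Matrix
open Cfsg.Agent.Lib.JType Cfsg.Agent.Lib.JTypeBlock

section rho

/-- Fixed-point-free involutions on types of even cardinality. -/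
theorem exists_fpf {α : Type*} [Fintype α] (h : Even (Fintype.card α)) :
    ∃ σ : α → α, (∀ a, σ (σ a) = a) ∧ ∀ a, σ a ≠ a := by
  obtain ⟨r, hr⟩ := h
  let e : α ≃ Fin r ⊕ Fin r := (Fintype.equivFinOfCardEq hr).trans finSumFinEquiv.symm
  refine ⟨fun a => e.symm (Sum.swap (e a)), fun a => by simp, fun a ha => ?_⟩
  have h1 : Sum.swap (e a) = e a := by
    have := congrArg e ha
    simpa using this
  cases h2 : e a with
  | inl x => rw [h2] at h1; simp at h1
  | inr x => rw [h2] at h1; simp at h1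

/-- The involution on the blocks. -/
theorem exists_rho {t : ℕ} (d : Fin t → ℕ) (Pr : ℕ → Prop)
    (h : ∀ j, Pr j → Even (Finset.univ.filter (fun k : Fin t => d k = j)).card) :
    ∃ ρ : Fin t → Fin t, (∀ k, ρ (ρ k) = k) ∧ (∀ k, d (ρ k) = d k) ∧ (∀ k, Pr (d k) → ρ k ≠ k) ∧
      ∀ k, ¬ Pr (d k) → ρ k = k := by
  classical
  have hj : ∀ j, ∃ τ : Fin t → Fin t, ∀ k, d k = j → d (τ k) = j ∧ τ (τ k) = k ∧ (Pr j → τ k ≠ k) ∧ (¬ Pr j → τ k = k) := by
    intro j
    by_cases hP : Pr j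
    · have hc : Even (Fintype.card {k // d k = j}) := by
        rw [Fintype.card_subtype]
        exact h j hP
      obtain ⟨σ, h1, h2⟩ := exists_fpf hc
      refine ⟨fun k => if hk : d k = j then (σ ⟨k, hk⟩).1 else k, fun k hk => ?_⟩
      have e1 : (if hk : d k = j then (σ ⟨k, hk⟩).1 else k) = (σ ⟨k, hk⟩).1 := dif_pos hk
      simp only [e1]
      refine ⟨(σ ⟨k, hk⟩).2, ?_, fun _ e => h2 ⟨k, hk⟩ (Subtype.ext e), fun hn => (hn hP).elim⟩
      rw [dif_pos (σ ⟨k, hk⟩).2]
      have : (⟨(σ ⟨k, hk⟩).1, (σ ⟨k, hk⟩).2⟩ : {k // d k = j}) = σ ⟨k, hk⟩ := rfl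
      rw [this, h1]
    · exact ⟨id, fun k hk => ⟨hk, rfl, fun hp => (hP hp).elim, fun _ => rfl⟩⟩
  choose τ hτ using hj
  refine ⟨fun k => τ (d k) k, fun k => ?_, fun k => (hτ _ k rfl).1, fun k hk => (hτ _ k rfl).2.2.1 hk,
    fun k hk => (hτ _ k rfl).2.2.2 hk⟩
  show τ (d (τ (d k) k)) (τ (d k) k) = k
  rw [(hτ _ k rfl).1]
  exact (hτ _ k rfl).2.1

end rho

section assemble

variable {F : Type*} [Field F]

/-- The extension by zero of the entries of a square matrix. -/
def ext' {n : ℕ} (M : Matrix (Fin n) (Fin n) F) (i j : ℕ) : F :=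
  if h : i < n ∧ j < n then M ⟨i, h.1⟩ ⟨j, h.2⟩ else 0

@[simp] theorem ext'_coe {n : ℕ} (M : Matrix (Fin n) (Fin n) F) (i j : Fin n) : ext' M i j = M i j := by
  rw [ext', dif_pos ⟨i.2, j.2⟩]

theorem ext'_transpose {n : ℕ} (M : Matrix (Fin n) (Fin n) F) (i j : ℕ) : ext' Mᵀ i j = ext' M j i := by
  simp only [ext']
  by_cases h : i < n ∧ j < n
  · rw [dif_pos h, dif_pos ⟨h.2, h.1⟩]
    rfl
  · rw [dif_neg h, dif_neg (fun h2 => h ⟨h2.2, h2.1⟩)]

theorem ext'_smul {n : ℕ} (c : F) (M : Matrix (Fin n) (Fin n) F) (i j : ℕ) : ext' (c • M) i j = c * ext' M i j := by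
  simp only [ext']
  by_cases h : i < n ∧ j < n
  · rw [dif_pos h, dif_pos h]
    rfl
  · rw [dif_neg h, dif_neg h, mul_zero]

/-- The bilinear expression. -/
def tm (g : ℕ → ℕ → F) {n₁ n₂ : ℕ} (a : Fin n₁ → F) (b : Fin n₂ → F) : F :=
  ∑ i, ∑ j, a i * b j * g i j

theorem tm_eq_dot {n : ℕ} (M : Matrix (Fin n) (Fin n) F) (a b : Fin n → F) : tm (ext' M) a b = a ⬝ᵥ (M *ᵥ b) := by
  simp only [tm, ext'_coe, dotProduct, Matrix.mulVec, Finset.mul_sum]
  refine Finset.sum_congr rfl fun i _ => Finset.sum_congr rfl fun j _ => ?_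
  ring

theorem tm_J {n₁ n₂ n : ℕ} (h₁ : n₁ = n) (h₂ : n₂ = n) (M : Matrix (Fin n) (Fin n) F)
    (hM : (Cfsg.jordanBlock n F)ᵀ * M * Cfsg.jordanBlock n F = M) (a : Fin n₁ → F) (b : Fin n₂ → F) :
    tm (ext' M) (Cfsg.jordanBlock n₁ F *ᵥ a) (Cfsg.jordanBlock n₂ F *ᵥ b) = tm (ext' M) a b := by
  subst h₁
  subst h₂
  rw [tm_eq_dot, tm_eq_dot]
  conv_rhs => rw [← hM]
  have h1 : ∀ w, (Cfsg.jordanBlock _ F *ᵥ a) ⬝ᵥ w = a ⬝ᵥ ((Cfsg.jordanBlock _ F)ᵀ *ᵥ w) := by
    intro w
    rw [Matrix.dotProduct_mulVec, Matrix.vecMul_transpose]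
  rw [h1, Matrix.mul_assoc, ← Matrix.mulVec_mulVec, ← Matrix.mulVec_mulVec]

theorem tm_nondeg {n₁ n₂ n : ℕ} (h₁ : n₁ = n) (h₂ : n₂ = n) (M : Matrix (Fin n) (Fin n) F) (hU : IsUnit M)
    (a : Fin n₁ → F) (ha : a ≠ 0) : ∃ b : Fin n₂ → F, tm (ext' M) a b ≠ 0 := by
  classical
  subst h₁
  subst h₂
  obtain ⟨i, hi⟩ : ∃ i, a i ≠ 0 := by
    by_contra h
    push Not at h
    exact ha (funext h)
  obtain ⟨u, rfl⟩ := hU
  refine ⟨(u⁻¹).1 *ᵥ Pi.single i 1, ?_⟩
  rw [tm_eq_dot, Matrix.mulVec_mulVec]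
  have := u.mul_inv
  rw [this, Matrix.one_mulVec, dotProduct_single, mul_one]
  exact hi

theorem tm_swap (g : ℕ → ℕ → F) {n₁ n₂ : ℕ} (a : Fin n₁ → F) (b : Fin n₂ → F) :
    tm g a b = tm (fun i j => g j i) b a := by
  simp only [tm]
  rw [Finset.sum_comm]
  refine Finset.sum_congr rfl fun i _ => Finset.sum_congr rfl fun j _ => ?_
  ring

theorem tm_smul (c : F) (g : ℕ → ℕ → F) {n₁ n₂ : ℕ} (a : Fin n₁ → F) (b : Fin n₂ → F) :
    tm (fun i j => c * g i j) a b = c * tm g a b := by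
  simp only [tm, Finset.mul_sum]
  refine Finset.sum_congr rfl fun i _ => Finset.sum_congr rfl fun j _ => ?_
  ring

theorem tm_zero_right (g : ℕ → ℕ → F) {n₁ n₂ : ℕ} (a : Fin n₁ → F) : tm g a (0 : Fin n₂ → F) = 0 := by
  simp [tm]

variable {t : ℕ} {d : Fin t → ℕ}

/-- Restriction to a block. -/
def res (x : Kap d → F) (k : Fin t) : Fin (d k) → F := fun i => x ⟨k, i⟩

theorem res_J (x : Kap d → F) (k : Fin t) :
    res (Cfsg.jordanTypeMatrix d F *ᵥ x) k = Cfsg.jordanBlock (d k) F *ᵥ res x k := by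
  classical
  funext i
  simp only [res, Matrix.mulVec, dotProduct, Fintype.sum_sigma]
  rw [Finset.sum_eq_single k]
  · simp only [Cfsg.jordanTypeMatrix, Matrix.blockDiagonal'_apply_eq]
  · intro l _ hl
    refine Finset.sum_eq_zero fun j _ => ?_
    simp only [Cfsg.jordanTypeMatrix]
    rw [Matrix.blockDiagonal'_apply_ne _ _ _ (fun e => hl e.symm), zero_mul]
  · simp

/-- The Gram matrix. -/
def gram (ρ : Fin t → Fin t) (gg : Fin t → Fin t → ℕ → ℕ → F) : Matrix (Kap d) (Kap d) F :=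
  by classical exact Matrix.of fun p q => if q.1 = ρ p.1 then gg p.1 q.1 p.2 q.2 else 0

/-- The form attached to the Gram matrix, expanded. -/
theorem gram_apply (ρ : Fin t → Fin t) (gg : Fin t → Fin t → ℕ → ℕ → F) (x y : Kap d → F) :
    Matrix.toBilin' (gram ρ gg) x y = ∑ k, tm (gg k (ρ k)) (res x k) (res y (ρ k)) := by
  classical
  rw [Matrix.toBilin'_apply, Fintype.sum_sigma]
  refine Finset.sum_congr rfl fun k _ => ?_
  simp only [tm, res]
  refine Finset.sum_congr rfl fun i _ => ?_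
  rw [Fintype.sum_sigma, Finset.sum_eq_single (ρ k)]
  · refine Finset.sum_congr rfl fun j _ => ?_
    simp only [gram, Matrix.of_apply, if_true]
    ring
  · intro l _ hl
    refine Finset.sum_eq_zero fun j _ => ?_
    simp only [gram, Matrix.of_apply, hl, if_false]
    simp
  · simp

/-- The assembled form. -/
theorem assemble (ρ : Fin t → Fin t) (hρ : ∀ k, ρ (ρ k) = k) (hρd : ∀ k, d (ρ k) = d k)
    (G B : (n : ℕ) → Matrix (Fin n) (Fin n) F) (ε : F) (hε : ε * ε = 1)
    (hB1 : ∀ k, (Cfsg.jordanBlock (d k) F)ᵀ * B (d k) * Cfsg.jordanBlock (d k) F = B (d k))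
    (hB2 : ∀ k, IsUnit (B (d k)))
    (hG1 : ∀ k, ρ k = k → (Cfsg.jordanBlock (d k) F)ᵀ * G (d k) * Cfsg.jordanBlock (d k) F = G (d k))
    (hG2 : ∀ k, ρ k = k → IsUnit (G (d k)))
    (hG3 : ∀ k, ρ k = k → ∀ i j, G (d k) i j = ε * G (d k) j i) :
    ∃ f : LinearMap.BilinForm F (Kap d → F), f.Nondegenerate ∧ (∀ x y, f (Ju d F x) (Ju d F y) = f x y) ∧
      (∀ x y, f x y = ε * f y x) ∧
      (ε = -1 → (∀ k, ρ k = k → ∀ v, v ⬝ᵥ (G (d k) *ᵥ v) = 0) → ∀ x, f x x = 0) := by
  classical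
  let gg : Fin t → Fin t → ℕ → ℕ → F := fun k l i j =>
    if k = l then ext' (G (d k)) i j else if k < l then ext' (B (d k)) i j else ε * ext' (B (d k)) j i
  have hε0 : ε ≠ 0 := by
    rintro rfl
    simp at hε
  -- the matrix of each term
  have hMat : ∀ k, ∃ M : Matrix (Fin (d k)) (Fin (d k)) F,
      gg k (ρ k) = ext' M ∧ (Cfsg.jordanBlock (d k) F)ᵀ * M * Cfsg.jordanBlock (d k) F = M ∧ IsUnit M := by
    intro k
    by_cases h1 : k = ρ k
    · refine ⟨G (d k), ?_, hG1 k h1.symm, hG2 k h1.symm⟩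
      funext i j
      simp only [gg, ← h1, if_true]
    · by_cases h2 : k < ρ k
      · refine ⟨B (d k), ?_, hB1 k, hB2 k⟩
        funext i j
        simp only [gg, h1, h2, if_false, if_true]
      · refine ⟨ε • (B (d k))ᵀ, ?_, ?_, ?_⟩
        · funext i j
          simp only [gg, h1, h2, if_false]
          rw [ext'_smul, ext'_transpose]
        · have e := congrArg Matrix.transpose (hB1 k)
          rw [Matrix.transpose_mul, Matrix.transpose_mul, Matrix.transpose_transpose, ← Matrix.mul_assoc] at e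
          rw [Matrix.mul_smul, Matrix.smul_mul, e]
        · have hdet : IsUnit (B (d k)) := hB2 k
          have h3 : IsUnit ((B (d k))ᵀ).det := by
            rw [Matrix.det_transpose]
            exact (Matrix.isUnit_iff_isUnit_det _).mp hdet
          rw [Matrix.isUnit_iff_isUnit_det, Matrix.det_smul]
          exact (IsUnit.pow _ (isUnit_iff_ne_zero.mpr hε0)).mul h3
  have hsymm : ∀ k i j, gg k (ρ k) i j = ε * gg (ρ k) k j i := by
    intro k i j
    by_cases h1 : k = ρ k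
    · simp only [gg, ← h1, if_true]
      by_cases h : i < d k ∧ j < d k
      · have := hG3 k h1.symm ⟨i, h.1⟩ ⟨j, h.2⟩
        simp only [ext', dif_pos h, dif_pos (show j < d k ∧ i < d k from ⟨h.2, h.1⟩)]
        exact this
      · simp only [ext', dif_neg h, dif_neg (fun h2 : j < d k ∧ i < d k => h ⟨h2.2, h2.1⟩), mul_zero]
    · have h1' : ρ k ≠ k := fun e => h1 e.symm
      by_cases h2 : k < ρ k
      · have h3 : ¬ ρ k < k := not_lt.mpr h2.le
        simp only [gg, h1, h1', h2, h3, if_false, if_true]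
        rw [← mul_assoc, hε, one_mul, hρd k]
      · have h3 : ρ k < k := by
          rcases lt_or_gt_of_ne h1 with h4 | h4
          · exact (h2 h4).elim
          · exact h4
        simp only [gg, h1, h1', h2, h3, if_false, if_true]
        rw [hρd k]
  have happ := gram_apply (d := d) ρ gg
  let ρe : Equiv.Perm (Fin t) := Function.Involutive.toPerm ρ hρ
  have hS : ∀ x y, Matrix.toBilin' (gram (d := d) ρ gg) x y = ε * Matrix.toBilin' (gram (d := d) ρ gg) y x := by
    intro x y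
    rw [happ, happ, ← Equiv.sum_comp ρe (fun k => tm (gg k (ρ k)) (res y k) (res x (ρ k))), Finset.mul_sum]
    refine Finset.sum_congr rfl fun k _ => ?_
    show tm (gg k (ρ k)) (res x k) (res y (ρ k)) = ε * tm (gg (ρ k) (ρ (ρ k))) (res y (ρ k)) (res x (ρ (ρ k)))
    rw [hρ k, tm_swap (gg (ρ k) k), ← tm_smul]
    congr 1
    funext i j
    exact hsymm k i j
  refine ⟨Matrix.toBilin' (gram (d := d) ρ gg), ?_, ?_, hS, ?_⟩
  · have hL : ∀ x : Kap d → F, (∀ y, Matrix.toBilin' (gram (d := d) ρ gg) x y = 0) → x = 0 := by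
      intro x hx
      by_contra hne
      obtain ⟨⟨k, i⟩, hp⟩ : ∃ p, x p ≠ 0 := by
        by_contra h
        push Not at h
        exact hne (funext h)
      have ha : res x k ≠ 0 := fun h => hp (congrFun h i)
      obtain ⟨M, hM1, hM2, hM3⟩ := hMat k
      obtain ⟨b, hb⟩ := tm_nondeg (n₂ := d (ρ k)) rfl (hρd k) M hM3 _ ha
      apply hb
      obtain ⟨y, hy⟩ : ∃ y : Kap d → F, y = fun p => (Pi.single (ρ k) b : (l : Fin t) → Fin (d l) → F) p.1 p.2 := ⟨_, rfl⟩
      have h3 := hx y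
      rw [happ, Finset.sum_eq_single k] at h3
      · have h4 : res y (ρ k) = b := by
          funext j
          simp [res, hy]
        rw [h4, hM1] at h3
        exact h3
      · intro l _ hl
        have h5 : ρ l ≠ ρ k := fun e => hl (by
          have := congrArg ρ e
          rwa [hρ, hρ] at this)
        have h4 : res y (ρ l) = 0 := by
          funext j
          simp [res, hy, h5]
        rw [h4, tm_zero_right]
      · simp
    refine ⟨hL, fun y hy => hL y fun x => ?_⟩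
    rw [hS, hy x, mul_zero]
  · intro x y
    rw [happ, happ]
    refine Finset.sum_congr rfl fun k _ => ?_
    obtain ⟨M, hM1, hM2, hM3⟩ := hMat k
    rw [Ju_apply, Ju_apply, res_J, res_J, hM1]
    exact tm_J rfl (hρd k) M hM2 _ _
  · intro hε1 halt x
    rw [happ]
    refine Finset.sum_involution (fun k _ => ρ k) ?_ ?_ (fun _ _ => Finset.mem_univ _) (fun k _ => hρ k)
    · intro k _
      show tm (gg k (ρ k)) (res x k) (res x (ρ k)) + tm (gg (ρ k) (ρ (ρ k))) (res x (ρ k)) (res x (ρ (ρ k))) = 0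
      rw [hρ k, tm_swap (gg (ρ k) k)]
      have : gg k (ρ k) = fun i j => ε * gg (ρ k) k j i := by
        funext i j
        exact hsymm k i j
      rw [this, tm_smul, hε1]
      ring
    · intro k _ hne e
      apply hne
      rw [e]
      obtain ⟨M, hM1, hM2, hM3⟩ := hMat k
      have h6 : gg k k = ext' (G (d k)) := by
        funext i j
        simp [gg]
      rw [h6, tm_eq_dot]
      exact halt k e _

end assemble

end Cfsg.Agent.Lib.JTypeSum
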