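import Mathlib
import Cfsg.Agent.Lib.JTypeSum
import Cfsg.Agent.Lib.SpBasic
import Cfsg.Agent.Lib.Inv2
import Cfsg.Agent.Lib.OrthMatrix

/-!
# Which Jordan types occur in symplectic and orthogonal groups
-/

set_option autoImplicit false
set_option linter.unusedSectionVars false
set_option linter.unusedSimpArgs false
set_option linter.unusedVariables false

namespace Cfsg.Agent.Lib.JTypeFinal

open Module Matrix QuadraticMap
open Cfsg.Agent.Lib.JType Cfsg.Agent.Lib.JTypeBlock Cfsg.Agent.Lib.JTypeSum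

variable {F : Type*} [Field F] {t : ℕ} {d : Fin t → ℕ}

theorem antisym_of_alt {n : ℕ} {G : Matrix (Fin n) (Fin n) F} (h : ∀ v, v ⬝ᵥ (G *ᵥ v) = 0) (i j : Fin n) :
    G i j = (-1) * G j i := by
  classical
  have h0 : ∀ a b : Fin n, (Pi.single a 1 : Fin n → F) ⬝ᵥ (G *ᵥ (Pi.single b 1)) = G a b := by
    intro a b
    simp [Matrix.mulVec_single_one]
  have hii : ∀ a, G a a = 0 := fun a => by rw [← h0]; exact h _
  have h1 := h (Pi.single i 1 + Pi.single j 1)
  rw [Matrix.mulVec_add, add_dotProduct, dotProduct_add, dotProduct_add, h0, h0, h0, h0, hii, hii] at h1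
  linear_combination h1

/-- The alternating form on the matrix of a Jordan type. -/
theorem exists_alt_form (hd : ∀ k, 1 ≤ d k) (h : ∀ j, Odd j → Even (Finset.univ.filter (fun k : Fin t => d k = j)).card) :
    ∃ f : LinearMap.BilinForm F (Kap d → F), f.Nondegenerate ∧ (∀ x y, f (Ju d F x) (Ju d F y) = f x y) ∧ f.IsAlt := by
  classical
  obtain ⟨ρ, h1, h2, h3, h4⟩ := exists_rho d (fun j => Odd j) h
  have hB : ∀ n, ∃ B : Matrix (Fin n) (Fin n) F, 1 ≤ n →
      (Cfsg.jordanBlock n F)ᵀ * B * Cfsg.jordanBlock n F = B ∧ IsUnit B := by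
    intro n
    by_cases hn : 1 ≤ n
    · obtain ⟨B, hB⟩ := pair_form (F := F) hn
      exact ⟨B, fun _ => hB⟩
    · exact ⟨0, fun hn' => (hn hn').elim⟩
  choose B hB using hB
  have hG : ∀ n, ∃ G : Matrix (Fin n) (Fin n) F, Even n → 1 ≤ n →
      (Cfsg.jordanBlock n F)ᵀ * G * Cfsg.jordanBlock n F = G ∧ IsUnit G ∧ ∀ v, v ⬝ᵥ (G *ᵥ v) = 0 := by
    intro n
    by_cases hn : Even n ∧ 1 ≤ n
    · obtain ⟨⟨r, rfl⟩, hn1⟩ := hn
      have hr : 1 ≤ r := by omega
      have := even_block (F := F) hr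
      rw [← two_mul]
      obtain ⟨G, hG⟩ := this
      exact ⟨G, fun _ _ => hG⟩
    · exact ⟨0, fun h1 h2 => (hn ⟨h1, h2⟩).elim⟩
  choose G hG using hG
  have hev : ∀ k, ρ k = k → Even (d k) := by
    intro k hk
    by_contra hno
    exact h3 k (Nat.not_even_iff_odd.mp hno) hk
  obtain ⟨f, hf1, hf2, hf3, hf4⟩ := assemble ρ h1 h2 G B (-1) (by ring) (fun k => (hB _ (hd k)).1) (fun k => (hB _ (hd k)).2)
    (fun k hk => (hG _ (hev k hk) (hd k)).1) (fun k hk => (hG _ (hev k hk) (hd k)).2.1)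
    (fun k hk i j => antisym_of_alt (hG _ (hev k hk) (hd k)).2.2 i j)
  exact ⟨f, hf1, hf2, hf4 rfl fun k hk => (hG _ (hev k hk) (hd k)).2.2⟩

/-- The symmetric form on the matrix of a Jordan type. -/
theorem exists_sym_form (h2F : (2 : F) ≠ 0) (hd : ∀ k, 1 ≤ d k)
    (h : ∀ j, Even j → 0 < j → Even (Finset.univ.filter (fun k : Fin t => d k = j)).card) :
    ∃ f : LinearMap.BilinForm F (Kap d → F), f.Nondegenerate ∧ (∀ x y, f (Ju d F x) (Ju d F y) = f x y) ∧
      ∀ x y, f x y = f y x := by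
  classical
  have h' : ∀ j, Even j → Even (Finset.univ.filter (fun k : Fin t => d k = j)).card := by
    intro j hj
    by_cases hj0 : 0 < j
    · exact h j hj hj0
    · have hj1 : j = 0 := by omega
      subst hj1
      have : Finset.univ.filter (fun k : Fin t => d k = 0) = ∅ := by
        ext k
        simp only [Finset.mem_filter, Finset.mem_univ, true_and, Finset.notMem_empty, iff_false]
        have := hd k
        omega
      rw [this]
      simp
  obtain ⟨ρ, h1, h2, h3, h4⟩ := exists_rho d (fun j => Even j) h'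
  have hB : ∀ n, ∃ B : Matrix (Fin n) (Fin n) F, 1 ≤ n →
      (Cfsg.jordanBlock n F)ᵀ * B * Cfsg.jordanBlock n F = B ∧ IsUnit B := by
    intro n
    by_cases hn : 1 ≤ n
    · obtain ⟨B, hB⟩ := pair_form (F := F) hn
      exact ⟨B, fun _ => hB⟩
    · exact ⟨0, fun hn' => (hn hn').elim⟩
  choose B hB using hB
  have hG : ∀ n, ∃ G : Matrix (Fin n) (Fin n) F, Odd n →
      (Cfsg.jordanBlock n F)ᵀ * G * Cfsg.jordanBlock n F = G ∧ IsUnit G ∧ Gᵀ = G := by
    intro n
    by_cases hn : Odd n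
    · obtain ⟨G, hG⟩ := odd_block (F := F) hn h2F
      exact ⟨G, fun _ => hG⟩
    · exact ⟨0, fun h1 => (hn h1).elim⟩
  choose G hG using hG
  have hev : ∀ k, ρ k = k → Odd (d k) := by
    intro k hk
    by_contra hno
    exact h3 k (Nat.not_odd_iff_even.mp hno) hk
  obtain ⟨f, hf1, hf2, hf3, -⟩ := assemble ρ h1 h2 G B 1 (by ring) (fun k => (hB _ (hd k)).1) (fun k => (hB _ (hd k)).2)
    (fun k hk => (hG _ (hev k hk)).1) (fun k hk => (hG _ (hev k hk)).2.1)
    (fun k hk i j => by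
      have := congrFun (congrFun (hG _ (hev k hk)).2.2 i) j
      rw [Matrix.transpose_apply] at this
      rw [one_mul, this])
  exact ⟨f, hf1, hf2, fun x y => by rw [hf3, one_mul]⟩

section pull

variable {ι : Type*} [Fintype ι] [DecidableEq ι]

/-- A unit of the matrix ring as a linear automorphism. -/
noncomputable def unitEquiv (c : (Matrix ι ι F)ˣ) : (ι → F) ≃ₗ[F] (ι → F) :=
  LinearEquiv.ofLinearMap (Matrix.mulVecLin c.1) (Matrix.mulVecLin (c⁻¹).1)
    (by
      refine LinearMap.ext fun v => ?_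
      simp only [LinearMap.comp_apply, Matrix.mulVecLin_apply, Matrix.mulVec_mulVec, LinearMap.id_apply]
      rw [c.mul_inv, Matrix.one_mulVec])
    (by
      refine LinearMap.ext fun v => ?_
      simp only [LinearMap.comp_apply, Matrix.mulVecLin_apply, Matrix.mulVec_mulVec, LinearMap.id_apply]
      rw [c.inv_mul, Matrix.one_mulVec])

theorem unitEquiv_apply (c : (Matrix ι ι F)ˣ) (v : ι → F) : unitEquiv c v = c.1 *ᵥ v := rfl

theorem reindex_mulVec (e : Kap d ≃ ι) (x : Kap d → F) :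
    (Cfsg.jordanTypeMatrix d F *ᵥ x) ∘ e.symm = reindex e e (Cfsg.jordanTypeMatrix d F) *ᵥ (x ∘ e.symm) := by
  rw [Matrix.reindex_apply, Matrix.submatrix_mulVec_equiv]
  congr 2
  funext i
  simp

theorem exists_pullback (e : Kap d ≃ ι) {A : Matrix ι ι F} (h : IsConj (reindex e e (Cfsg.jordanTypeMatrix d F)) A) :
    ∃ φ : (Kap d → F) ≃ₗ[F] (ι → F), ∀ x, φ (Ju d F x) = A *ᵥ φ x := by
  obtain ⟨c, hc⟩ := h
  refine ⟨(LinearEquiv.funCongrLeft F F e.symm).trans (unitEquiv c), fun x => ?_⟩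
  have e1 : ∀ y : Kap d → F, ((LinearEquiv.funCongrLeft F F e.symm).trans (unitEquiv c)) y = c.1 *ᵥ (y ∘ e.symm) := fun y => rfl
  rw [e1, e1, Ju_apply, reindex_mulVec, Matrix.mulVec_mulVec, Matrix.mulVec_mulVec, hc.eq]

/-- The pulled-back form. -/
theorem pull_form (φ : (Kap d → F) ≃ₗ[F] (ι → F)) {A : Matrix ι ι F} (hφ : ∀ x, φ (Ju d F x) = A *ᵥ φ x)
    {f₀ : LinearMap.BilinForm F (ι → F)} (hnd : f₀.Nondegenerate) (hinv : ∀ x y, f₀ (A *ᵥ x) (A *ᵥ y) = f₀ x y) :
    ∃ f : LinearMap.BilinForm F (Kap d → F), f.Nondegenerate ∧ (∀ x y, f (Ju d F x) (Ju d F y) = f x y) ∧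
      ∀ x y, f x y = f₀ (φ x) (φ y) := by
  refine ⟨f₀.comp (φ : (Kap d → F) →ₗ[F] (ι → F)) (φ : (Kap d → F) →ₗ[F] (ι → F)), ⟨?_, ?_⟩, ?_, fun x y => rfl⟩
  · intro x hx
    have : φ x = 0 := hnd.1 _ fun y => by
      have := hx (φ.symm y)
      simpa [LinearMap.BilinForm.comp_apply] using this
    simpa using this
  · intro y hy
    have : φ y = 0 := hnd.2 _ fun x => by
      have := hy (φ.symm x)
      simpa [LinearMap.BilinForm.comp_apply] using this
    simpa using this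
  · intro x y
    simp only [LinearMap.BilinForm.comp_apply, LinearEquiv.coe_coe, hφ, hinv]

/-- Necessity, symplectic type. -/
theorem nec_sp (hd : ∀ k, 1 ≤ d k) (e : Kap d ≃ ι) {A : Matrix ι ι F}
    (h : IsConj (reindex e e (Cfsg.jordanTypeMatrix d F)) A) {f₀ : LinearMap.BilinForm F (ι → F)}
    (hnd : f₀.Nondegenerate) (halt : f₀.IsAlt) (hinv : ∀ x y, f₀ (A *ᵥ x) (A *ᵥ y) = f₀ x y) (j : ℕ) (hj : Odd j) :
    Even (Finset.univ.filter (fun k : Fin t => d k = j)).card := by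
  obtain ⟨φ, hφ⟩ := exists_pullback e h
  obtain ⟨f, hf1, hf2, hf3⟩ := pull_form φ hφ hnd hinv
  have hA : f.IsAlt := fun x => by rw [hf3]; exact halt _
  obtain ⟨r, rfl⟩ := hj
  refine even_of_form hd hf1 hf2 (by omega) fun X hX => ?_
  exact alt_sp (u := Ju d F) hA hf2 hX

/-- Necessity, orthogonal type. -/
theorem nec_orth (h2F : (2 : F) ≠ 0) (hd : ∀ k, 1 ≤ d k) (e : Kap d ≃ ι) {A : Matrix ι ι F}
    (h : IsConj (reindex e e (Cfsg.jordanTypeMatrix d F)) A) {f₀ : LinearMap.BilinForm F (ι → F)}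
    (hnd : f₀.Nondegenerate) (hS : ∀ x y, f₀ x y = f₀ y x) (hinv : ∀ x y, f₀ (A *ᵥ x) (A *ᵥ y) = f₀ x y) (j : ℕ)
    (hj : Even j) (hj0 : 0 < j) : Even (Finset.univ.filter (fun k : Fin t => d k = j)).card := by
  obtain ⟨φ, hφ⟩ := exists_pullback e h
  obtain ⟨f, hf1, hf2, hf3⟩ := pull_form φ hφ hnd hinv
  have hA : ∀ x y, f x y = f y x := fun x y => by rw [hf3, hf3, hS]
  obtain ⟨r, rfl⟩ := hj
  obtain ⟨q, rfl⟩ : ∃ q, r = q + 1 := ⟨r - 1, by omega⟩
  refine even_of_form hd hf1 hf2 (by omega) fun X hX => ?_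
  have e1 : q + 1 + (q + 1) = 2 * q + 2 := by ring
  have e2 : q + 1 + (q + 1) - 1 = 2 * q + 1 := by omega
  rw [e2]
  rw [e1] at hX
  exact alt_orth (u := Ju d F) hA h2F hf2 hX

theorem mat_eq {ι : Type*} [Fintype ι] [DecidableEq ι] {A C : Matrix ι ι F} (h : ∀ v, A *ᵥ v = C *ᵥ v) : A = C :=
  Matrix.mulVec_injective (funext h)

end pull

section std

open Cfsg.Agent.Lib.SpBasic

/-- The symplectic form as a bilinear form. -/
noncomputable def ωB (m : ℕ) (F : Type*) [Field F] : LinearMap.BilinForm F (Fin m ⊕ Fin m → F) :=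
  Matrix.toBilin' (Matrix.J (Fin m) F)

theorem ωB_apply {m : ℕ} (x y : Fin m ⊕ Fin m → F) : ωB m F x y = ω x y := by
  rw [ωB, Matrix.toBilin'_apply']
  rfl

theorem ωB_nd {m : ℕ} : (ωB m F).Nondegenerate := by
  have hL : ∀ x : Fin m ⊕ Fin m → F, (∀ y, ωB m F x y = 0) → x = 0 := fun x hx =>
    eq_zero_of_ω_eq_zero fun y => by rw [← ωB_apply]; exact hx y
  refine ⟨hL, fun y hy => hL y fun x => ?_⟩
  rw [ωB_apply, ω_comm, ← ωB_apply, hy, neg_zero]

theorem ωB_alt {m : ℕ} : (ωB m F).IsAlt := fun x => by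
  rw [ωB_apply]
  exact ω_self x

/-- From an invariant alternating form to the standard symplectic group. -/
theorem sp_std {m : ℕ} (hsum : ∑ k, d k = 2 * m) {f : LinearMap.BilinForm F (Kap d → F)} (hnd : f.Nondegenerate)
    (hinv : ∀ x y, f (Ju d F x) (Ju d F y) = f x y) (halt : f.IsAlt) :
    ∃ e : Kap d ≃ (Fin m ⊕ Fin m), ∃ A : Matrix.symplecticGroup (Fin m) F,
      IsConj (reindex e e (Cfsg.jordanTypeMatrix d F)) (A : Matrix (Fin m ⊕ Fin m) (Fin m ⊕ Fin m) F) := by
  classical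
  obtain ⟨r, k, b, h1, h2, h3, h4⟩ := Cfsg.Agent.S0752.result f halt
  have hk : k = 0 := by
    by_contra hk
    have hj : 0 < k := Nat.pos_of_ne_zero hk
    exact b.ne_zero (Sum.inr ⟨0, hj⟩) (hnd.1 _ (h4 ⟨0, hj⟩))
  subst hk
  have hcard : Fintype.card (Kap d) = 2 * m := by
    rw [Fintype.card_sigma]
    simpa using hsum
  have hr : r = m := by
    have := Module.finrank_eq_card_basis b
    rw [Module.finrank_fintype_fun_eq_card, hcard] at this
    simp at this
    omega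
  subst hr
  let ι₀ : (Fin r ⊕ Fin r) ⊕ Fin 0 ≃ Fin r ⊕ Fin r := (Equiv.sumEmpty _ _).trans (Equiv.sumComm _ _)
  let φ : (Kap d → F) ≃ₗ[F] (Fin r ⊕ Fin r → F) := b.equiv (Pi.basisFun F (Fin r ⊕ Fin r)) ι₀
  have hφ1 : ∀ i, φ (b (Sum.inl (Sum.inl i))) = eR i := by
    intro i
    simp [φ, ι₀, Module.Basis.equiv_apply]
  have hφ2 : ∀ i, φ (b (Sum.inl (Sum.inr i))) = eL i := by
    intro i
    simp [φ, ι₀, Module.Basis.equiv_apply]
  have hform : f = (ωB r F).comp (φ : (Kap d → F) →ₗ[F] (Fin r ⊕ Fin r → F)) (φ : (Kap d → F) →ₗ[F] (Fin r ⊕ Fin r → F)) := by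
    rw [LinearMap.BilinForm.ext_iff_basis b]
    rintro ((i | i) | i) ((j | j) | j)
    · rw [h2, LinearMap.BilinForm.comp_apply, LinearEquiv.coe_coe, hφ1, hφ1, ωB_apply, ω_eR_right]
      simp
    · rw [h1, LinearMap.BilinForm.comp_apply, LinearEquiv.coe_coe, hφ1, hφ2, ωB_apply, ω_eL_right]
      simp [Pi.single_apply, eq_comm]
    · exact j.elim0
    · have := h1 j i
      rw [← halt.neg_eq, this, LinearMap.BilinForm.comp_apply, LinearEquiv.coe_coe, hφ1, hφ2, ωB_apply, ω_eR_right]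
      simp [Pi.single_apply, eq_comm]
    · rw [h3, LinearMap.BilinForm.comp_apply, LinearEquiv.coe_coe, hφ2, hφ2, ωB_apply, ω_eL_right]
      simp
    · exact j.elim0
    · exact i.elim0
    · exact i.elim0
    · exact i.elim0
  have hω : ∀ x y, ω (φ x) (φ y) = f x y := by
    intro x y
    rw [hform, LinearMap.BilinForm.comp_apply, ωB_apply]
    rfl
  let e : Kap d ≃ (Fin r ⊕ Fin r) := Fintype.equivOfCardEq (by simp [hcard, two_mul])
  let T : (Fin r ⊕ Fin r → F) ≃ₗ[F] (Fin r ⊕ Fin r → F) := φ.symm.trans ((Ju d F).trans φ)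
  have hT : ∀ v, T v = φ (Ju d F (φ.symm v)) := fun v => rfl
  let τ : (Fin r ⊕ Fin r → F) ≃ₗ[F] (Fin r ⊕ Fin r → F) := (LinearEquiv.funCongrLeft F F e).trans φ
  have hτ : ∀ v, τ v = φ (v ∘ e) := fun v => rfl
  have hmem : LinearMap.toMatrix' (T : (Fin r ⊕ Fin r → F) →ₗ[F] (Fin r ⊕ Fin r → F)) ∈ Matrix.symplecticGroup (Fin r) F := by
    rw [mem_symplecticGroup_iff]
    intro x y
    rw [LinearMap.toMatrix'_mulVec, LinearMap.toMatrix'_mulVec]
    show ω (T x) (T y) = ω x y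
    rw [hT, hT, hω, hinv, ← hω, φ.apply_symm_apply, φ.apply_symm_apply]
  refine ⟨e, ⟨_, hmem⟩, ?_⟩
  let c : (Matrix (Fin r ⊕ Fin r) (Fin r ⊕ Fin r) F)ˣ :=
    { val := LinearMap.toMatrix' (τ : (Fin r ⊕ Fin r → F) →ₗ[F] (Fin r ⊕ Fin r → F))
      inv := LinearMap.toMatrix' (τ.symm : (Fin r ⊕ Fin r → F) →ₗ[F] (Fin r ⊕ Fin r → F))
      val_inv := by
        rw [← LinearMap.toMatrix'_comp, ← LinearMap.toMatrix'_id]
        congr 1
        ext1 v
        simp
      inv_val := by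
        rw [← LinearMap.toMatrix'_comp, ← LinearMap.toMatrix'_id]
        congr 1
        ext1 v
        simp }
  refine ⟨c, ?_⟩
  show c.1 * reindex e e (Cfsg.jordanTypeMatrix d F) = _ * c.1
  apply mat_eq
  intro v
  rw [← Matrix.mulVec_mulVec, ← Matrix.mulVec_mulVec]
  show LinearMap.toMatrix' _ *ᵥ _ = LinearMap.toMatrix' _ *ᵥ (LinearMap.toMatrix' _ *ᵥ v)
  rw [LinearMap.toMatrix'_mulVec, LinearMap.toMatrix'_mulVec, LinearMap.toMatrix'_mulVec]
  show τ _ = T (τ v)
  rw [hT, hτ, hτ, φ.symm_apply_apply, Ju_apply]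
  congr 1
  have h5 := reindex_mulVec (F := F) e (v ∘ e)
  have h6 : (v ∘ e) ∘ e.symm = v := by
    funext i
    simp
  rw [h6] at h5
  rw [← h5]
  funext i
  simp

end std

section quad

open Cfsg.Agent.Lib.OrthMatrix

/-- From an invariant quadratic form on the index type of the Jordan matrix to any index type. -/
theorem q_std {ι : Type} [Fintype ι] [DecidableEq ι] (e : Kap d ≃ ι) {Q : QuadraticForm F (Kap d → F)}
    (hnd : (polarBilin Q).Nondegenerate) (hQ : ∀ x, Q (Ju d F x) = Q x) :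
    ∃ Q' : QuadraticForm F (ι → F), (polarBilin Q').Nondegenerate ∧ ∃ A : ↥(Cfsg.isometryGroup F ⇑Q'),
      IsConj (reindex e e (Cfsg.jordanTypeMatrix d F)) ((A : Matrix.GeneralLinearGroup ι F) : Matrix ι ι F) := by
  classical
  let Ψ : (ι → F) ≃ₗ[F] (Kap d → F) := LinearEquiv.funCongrLeft F F e
  have hΨ : ∀ v, Ψ v = v ∘ e := fun v => rfl
  have hU : IsUnit (reindex e e (Cfsg.jordanTypeMatrix d F)) :=
    (J_isUnit d).map (Matrix.reindexAlgEquiv F F e)
  obtain ⟨u, hu⟩ := hU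
  have hact : ∀ v, Ψ ((u : Matrix ι ι F) *ᵥ v) = Ju d F (Ψ v) := by
    intro v
    rw [hu, hΨ, hΨ, Ju_apply]
    have h5 := reindex_mulVec (F := F) e (v ∘ e)
    have h6 : (v ∘ e) ∘ e.symm = v := by
      funext i
      simp
    rw [h6] at h5
    rw [← h5]
    funext i
    simp
  have hpol : ∀ x y, polarBilin (Q.comp (Ψ : (ι → F) →ₗ[F] (Kap d → F))) x y = polarBilin Q (Ψ x) (Ψ y) := by
    intro x y
    simp [polarBilin_apply_apply, polar]
  refine ⟨Q.comp (Ψ : (ι → F) →ₗ[F] (Kap d → F)), ⟨?_, ?_⟩, ⟨u, ?_⟩, ?_⟩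
  · intro x hx
    have : Ψ x = 0 := hnd.1 _ fun y => by
      have := hx (Ψ.symm y)
      rw [hpol] at this
      simpa using this
    simpa using this
  · intro y hy
    have : Ψ y = 0 := hnd.2 _ fun x => by
      have := hy (Ψ.symm x)
      rw [hpol] at this
      simpa using this
    simpa using this
  · rw [mem_isometryGroup]
    intro v
    show Q (Ψ _) = Q (Ψ v)
    rw [hact, hQ]
  · show IsConj _ (u : Matrix ι ι F)
    rw [hu]

/-- A symmetric form gives a quadratic form when two is invertible. -/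
theorem q_of_sym {V : Type*} [AddCommGroup V] [Module F V] (h2F : (2 : F) ≠ 0) {f : LinearMap.BilinForm F V} (hS : ∀ x y, f x y = f y x) :
    ∃ Q : QuadraticForm F V, polarBilin Q = f ∧ ∀ x, Q x = 2⁻¹ * f x x := by
  refine ⟨(2⁻¹ : F) • LinearMap.BilinMap.toQuadraticMap f, ?_, fun x => ?_⟩
  · refine LinearMap.ext fun x => LinearMap.ext fun y => ?_
    simp only [polarBilin_apply_apply, polar, _root_.smul_apply, LinearMap.BilinMap.toQuadraticMap_apply, map_add,
      LinearMap.add_apply, smul_eq_mul]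
    rw [hS y x]
    field_simp
    ring
  · simp [_root_.smul_apply]

/-- Dye's theorem: an isometry of an alternating form in characteristic two preserves a quadratic form. -/
theorem dye {ι : Type*} [Fintype ι] [DecidableEq ι] [Fintype F] [CharP F 2] {f : LinearMap.BilinForm F (ι → F)}
    (hS : ∀ x y, f x y = f y x) (hA : f.IsAlt) (u : (ι → F) ≃ₗ[F] (ι → F)) (hu : ∀ x y, f (u x) (u y) = f x y) :
    ∃ Q : QuadraticForm F (ι → F), polarBilin Q = f ∧ ∀ x, Q (u x) = Q x := by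
  classical
  have h2 : (2 : F) = 0 := CharTwo.two_eq_zero
  -- a quadratic form with polar form `f`
  obtain ⟨D, hD1, -⟩ := Cfsg.Agent.Lib.Inv2.exists_tri (F := F)
    (Matrix.of fun i j => f (Pi.single i 1) (Pi.single j 1)) (fun i j => hS _ _) (fun i => hA _) (fun _ => 0)
  let Q₀ : QuadraticForm F (ι → F) := LinearMap.BilinMap.toQuadraticMap (Matrix.toBilin' D)
  have hQ₀ : polarBilin Q₀ = f := by
    rw [LinearMap.BilinForm.ext_iff_basis (Pi.basisFun F ι)]
    intro i j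
    have h3 := hD1 i j
    simp only [Pi.basisFun_apply, polarBilin_apply_apply, polar, Q₀, LinearMap.BilinMap.toQuadraticMap_apply, map_add,
      LinearMap.add_apply]
    have e1 : ∀ a b, Matrix.toBilin' D (Pi.single a 1) (Pi.single b 1) = D a b := by
      intro a b
      rw [Matrix.toBilin'_apply']
      simp [Matrix.mulVec_single_one]
    simp only [e1]
    simp only [Matrix.of_apply] at h3
    rw [← h3]
    ring
  -- the semilinear defect
  let D₁ : QuadraticForm F (ι → F) := Q₀.comp (u : (ι → F) →ₗ[F] (ι → F)) - Q₀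
  have hD₁add : ∀ x y, D₁ (x + y) = D₁ x + D₁ y := by
    intro x y
    have h3 : ∀ a b, Q₀ (a + b) = Q₀ a + Q₀ b + f a b := by
      intro a b
      rw [← hQ₀, polarBilin_apply_apply, polar]
      ring
    simp only [D₁, _root_.sub_apply, QuadraticMap.comp_apply, LinearEquiv.coe_coe, map_add]
    rw [h3, h3, hu]
    ring
  have hchar : ringChar F = 2 := ringChar.eq F 2
  have hsq : ∀ i, ∃ s : F, D₁ (Pi.single i 1) = s ^ 2 := by
    intro i
    obtain ⟨c, hc⟩ := FiniteField.isSquare_of_char_two hchar (D₁ (Pi.single i 1))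
    exact ⟨c, by rw [hc, _root_.sq]⟩
  choose s hs using hsq
  let L : (ι → F) →ₗ[F] F := ∑ i, s i • LinearMap.proj i
  have hL : ∀ x, L x = ∑ i, s i * x i := by
    intro x
    simp [L]
  have hD₁sum : ∀ (S : Finset ι) (a : ι → F), D₁ (∑ i ∈ S, a i • Pi.single i 1) = ∑ i ∈ S, a i ^ 2 * s i ^ 2 := by
    intro S a
    induction S using Finset.induction_on with
    | empty => simp
    | insert b S hb ih =>
      rw [Finset.sum_insert hb, Finset.sum_insert hb, hD₁add, ih, QuadraticMap.map_smul, hs, smul_eq_mul]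
      ring
  have hLsq : ∀ x, D₁ x = L x ^ 2 := by
    intro x
    have hx : x = ∑ i, x i • Pi.single i (1 : F) := by
      funext j
      simp [Finset.sum_apply, Pi.single_apply]
    conv_lhs => rw [hx]
    rw [hD₁sum, hL]
    haveI : Fact (Nat.Prime 2) := ⟨Nat.prime_two⟩
    rw [sum_pow_char]
    refine Finset.sum_congr rfl fun i _ => ?_
    ring
  -- vanishing on the kernel
  let N : (ι → F) →ₗ[F] (ι → F) := (u : (ι → F) →ₗ[F] (ι → F)) - LinearMap.id
  have hker : L ∈ (LinearMap.ker N).dualAnnihilator := by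
    rw [Submodule.mem_dualAnnihilator]
    intro x hx
    have h3 : u x = x := sub_eq_zero.mp hx
    have h4 : D₁ x = 0 := by
      simp [D₁, _root_.sub_apply, h3]
    rw [hLsq] at h4
    exact pow_eq_zero_iff (two_ne_zero) |>.mp h4
  rw [← LinearMap.range_dualMap_eq_dualAnnihilator_ker] at hker
  obtain ⟨P, hP⟩ := hker
  have hPN : ∀ x, P (u x) = P x + L x := by
    intro x
    have h3 := LinearMap.congr_fun hP x
    have h4 : L x = P (u x) - P x := by
      rw [← h3]
      simp [N]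
    rw [h4]
    ring
  refine ⟨Q₀ + QuadraticMap.linMulLin P P, ?_, fun x => ?_⟩
  · rw [← hQ₀]
    refine LinearMap.ext fun x => LinearMap.ext fun y => ?_
    simp only [polarBilin_apply_apply, polar, _root_.add_apply, QuadraticMap.linMulLin_apply, map_add]
    have : (P x + P y) * (P x + P y) - P x * P x - P y * P y = 2 * (P x * P y) := by ring
    linear_combination (P x * P y) * h2
  · simp only [_root_.add_apply, QuadraticMap.linMulLin_apply]
    rw [hPN]
    have h3 : D₁ x = Q₀ (u x) - Q₀ x := by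
      simp [D₁, _root_.sub_apply]
    have h4 := hLsq x
    rw [h3] at h4
    have h5 : (P x + L x) * (P x + L x) = P x * P x + L x ^ 2 + 2 * (P x * L x) := by ring
    rw [h5, ← h4]
    linear_combination (Q₀ (u x) - Q₀ x + P x * L x) * h2

end quad

end Cfsg.Agent.Lib.JTypeFinal
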