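import Mathlib
import Cfsg.Agent.Lib.JType
import Cfsg.Agent.Lib.JTypeSum
import Cfsg.Agent.Lib.JTypeBlock
import Cfsg.Agent.Lib.JTypeFinal
import Cfsg.Agent.Lib.JordanType
import Cfsg.Agent.Lib.AltRank
import Cfsg.Agent.Lib.QuadFF2
import Cfsg.Agent.Lib.OrthMatrix
import Cfsg.Agent.S5985

/-!
Unipotent isometries of quadratic forms in odd characteristic: Jordan types.
* `even_jcount`: for an isometry `u` of a non-degenerate symmetric form the number of Jordan blocks of
  each even size is even (via the alternating form `f x (N^(2r+1) y)` on `ker N^(2r+2)`).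
* `exists_sub_count`: block sizes of an invariant direct summand, with multiplicities.
* `exists_orth_jtype`: every admissible partition with an odd part is realised in Ω of any nondegenerate form.
-/

set_option autoImplicit false
set_option linter.unusedSectionVars false
set_option linter.unusedSimpArgs false
set_option linter.unusedVariables false

namespace Cfsg.Agent.Lib.JWall99

open Module Matrix
open Cfsg.Agent.Lib.JType

section parity

variable {F V : Type*} [Field F] [AddCommGroup V] [Module F V] [FiniteDimensional F V]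
variable {f : LinearMap.BilinForm F V} {u : V ≃ₗ[F] V}

/-- The parity of the number of Jordan blocks of even size `2 r + 2`. -/
theorem even_jcount (hnd : f.Nondegenerate) (hS : ∀ x y, f x y = f y x) (h2 : (2 : F) ≠ 0)
    (hu : ∀ x y, f (u x) (u y) = f x y) (r : ℕ) :
    ∃ k, finrank F (LinearMap.range (NN u ^ (2 * r + 1))) + finrank F (LinearMap.range (NN u ^ (2 * r + 3)))
      = 2 * finrank F (LinearMap.range (NN u ^ (2 * r + 2))) + 2 * k := by
  classical
  set N := NN u with hN
  set U : Submodule F V := LinearMap.ker (N ^ (2 * r + 2)) with hU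
  let ω : LinearMap.BilinForm F U := f.compl₁₂ U.subtype ((N ^ (2 * r + 1)).comp U.subtype)
  have hω : ∀ x y : U, ω x y = f x ((N ^ (2 * r + 1)) y) := fun x y => rfl
  have halt : ω.IsAlt := by
    intro x
    rw [hω]
    exact alt_orth hS h2 hu (LinearMap.mem_ker.1 x.2)
  obtain ⟨k, hk⟩ := Cfsg.Agent.Lib.AltRank.even_finrank_radical ω halt
  refine ⟨k, ?_⟩
  set rad : Submodule F V := U ⊓ (LinearMap.range (N ^ (2 * r + 2))).comap (N ^ (2 * r + 1)) with hrad
  have hmap : (ω.orthogonal ⊤).map U.subtype = rad := by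
    ext x
    simp only [Submodule.mem_map, Submodule.subtype_apply]
    constructor
    · rintro ⟨y, hy, rfl⟩
      refine ⟨y.2, ?_⟩
      show (N ^ (2 * r + 1)) (y : V) ∈ LinearMap.range (N ^ (2 * r + 2))
      rw [← orth_ker hnd hu (2 * r + 2)]
      intro z hz
      have := (LinearMap.BilinForm.mem_orthogonal_iff.1 hy) ⟨z, hz⟩ trivial
      exact this
    · rintro ⟨hx, hx2⟩
      refine ⟨⟨x, hx⟩, ?_, rfl⟩
      rw [LinearMap.BilinForm.mem_orthogonal_iff]
      intro z _
      have h3 : (N ^ (2 * r + 1)) x ∈ LinearMap.BilinForm.orthogonal f (LinearMap.ker (N ^ (2 * r + 2))) := by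
        rw [orth_ker hnd hu (2 * r + 2)]
        exact hx2
      exact h3 z z.2
  have hrk : finrank F (ω.orthogonal ⊤) = finrank F rad := by
    rw [← hmap, Submodule.finrank_map_subtype_eq]
  have h1 := Cfsg.Agent.Lib.JordanType.finrank_map_add_finrank_inf_ker (N ^ (2 * r + 1)) rad
  have hker : rad ⊓ LinearMap.ker (N ^ (2 * r + 1)) = LinearMap.ker (N ^ (2 * r + 1)) := by
    apply inf_eq_right.2
    intro x hx
    have hx' : (N ^ (2 * r + 1)) x = 0 := hx
    refine ⟨?_, ?_⟩
    · show (N ^ (2 * r + 2)) x = 0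
      rw [show 2 * r + 2 = 1 + (2 * r + 1) by ring, pow_add, Module.End.mul_apply, hx']
      simp
    · show (N ^ (2 * r + 1)) x ∈ LinearMap.range (N ^ (2 * r + 2))
      rw [hx']
      exact Submodule.zero_mem _
  have himg : rad.map (N ^ (2 * r + 1)) = LinearMap.range (N ^ (2 * r + 2)) ⊓ LinearMap.ker N := by
    ext y
    constructor
    · rintro ⟨x, ⟨hx1, hx2⟩, rfl⟩
      refine ⟨hx2, ?_⟩
      show N ((N ^ (2 * r + 1)) x) = 0
      rw [← Module.End.mul_apply, ← pow_succ']
      exact hx1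
    · rintro ⟨⟨z, rfl⟩, hz⟩
      have hz' : N ((N ^ (2 * r + 2)) z) = 0 := hz
      refine ⟨N z, ⟨?_, ?_⟩, ?_⟩
      · show (N ^ (2 * r + 2)) (N z) = 0
        rw [← Module.End.mul_apply, ← pow_succ, pow_succ', Module.End.mul_apply]
        exact hz'
      · show (N ^ (2 * r + 1)) (N z) ∈ LinearMap.range (N ^ (2 * r + 2))
        rw [← Module.End.mul_apply, ← pow_succ]
        exact ⟨z, rfl⟩
      · show (N ^ (2 * r + 1)) (N z) = _
        rw [← Module.End.mul_apply, ← pow_succ]
  have h3 := Cfsg.Agent.Lib.JordanType.finrank_map_add_finrank_inf_ker N (LinearMap.range (N ^ (2 * r + 2)))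
  have hmap2 : (LinearMap.range (N ^ (2 * r + 2))).map N = LinearMap.range (N ^ (2 * r + 3)) := by
    rw [← LinearMap.range_comp]
    congr 1
    rw [← Module.End.mul_eq_comp, ← pow_succ']
  rw [hker, himg] at h1
  rw [hmap2] at h3
  have r1 := LinearMap.finrank_range_add_finrank_ker (N ^ (2 * r + 1))
  have r2 := LinearMap.finrank_range_add_finrank_ker (N ^ (2 * r + 2))
  rw [← hU] at r2
  omega

end parity


section submultiset

open Cfsg.Agent.Lib.JordanType

variable {F V : Type*} [Field F] [AddCommGroup V] [Module F V] [FiniteDimensional F V]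

/-- The block sizes of an invariant direct summand, with multiplicities. -/
theorem exists_sub_count (N : V →ₗ[F] V) (μ : Multiset ℕ)
    (hμ : ∀ k, finrank F (LinearMap.range (N ^ k)) = (μ.map (· - k)).sum)
    {A B : Submodule F V} (hAB : IsCompl A B) (hA : ∀ v ∈ A, N v ∈ A) (hB : ∀ v ∈ B, N v ∈ B) :
    ∃ ν : Multiset ℕ, ν ≤ μ ∧ ν.sum = finrank F A ∧ ν.count 0 = 0 ∧
      ∀ j, (ν.count (j + 1) : ℤ) = (rk N A j : ℤ) + rk N A (j + 2) - 2 * rk N A (j + 1) := by
  classical
  set K := μ.sum + 1 with hK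
  have hbig : ∀ m, K ≤ m → (μ.map (· - m)).sum = 0 := by
    intro m hm
    have h1 : μ.map (· - m) = μ.map (fun _ => 0) := by
      apply Multiset.map_congr rfl
      intro b hb
      have := Multiset.single_le_sum (fun x _ => Nat.zero_le x) b hb
      omega
    rw [h1]
    simp
  have hAzero : ∀ m, K ≤ m → rk N A m = 0 := by
    intro m hm
    have h1 := rk_add N hAB hA hB m
    rw [hμ, hbig m hm] at h1
    omega
  let e : ℕ → ℕ := fun j => rk N A j + rk N A (j + 2) - 2 * rk N A (j + 1)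
  have heA : ∀ j, (e j : ℤ) = (rk N A j : ℤ) + rk N A (j + 2) - 2 * rk N A (j + 1) := by
    intro j
    have := rk_concave N A hA j
    simp only [e]
    omega
  have hcount : ∀ j, e j ≤ μ.count (j + 1) := by
    intro j
    have h1 := sum_trunc_identity μ j
    rw [← hμ j, ← hμ (j + 2), ← hμ (j + 1), ← rk_add N hAB hA hB j, ← rk_add N hAB hA hB (j + 2),
      ← rk_add N hAB hA hB (j + 1)] at h1
    have h2 := rk_concave N B hB j
    simp only [e]
    omega
  let ν : Multiset ℕ := ∑ j ∈ Finset.range K, Multiset.replicate (e j) (j + 1)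
  have hνcount : ∀ m, ν.count m = ∑ j ∈ Finset.range K, if j + 1 = m then e j else 0 := by
    intro m
    simp only [ν, Multiset.count_sum', Multiset.count_replicate]
  refine ⟨ν, ?_, ?_, ?_, ?_⟩
  · rw [Multiset.le_iff_count]
    intro m
    rw [hνcount]
    rcases m with _ | m
    · simp
    · by_cases hm : m < K
      · rw [Finset.sum_eq_single m]
        · simpa using hcount m
        · intro b _ hb
          rw [if_neg (by omega)]
        · intro h
          exact absurd (Finset.mem_range.2 hm) h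
      · rw [Finset.sum_eq_zero]
        · exact Nat.zero_le _
        · intro b hb
          have := Finset.mem_range.1 hb
          rw [if_neg (by omega)]
  · have h1 : ν.sum = ∑ j ∈ Finset.range K, e j * (j + 1) := by
      simp only [ν, Multiset.sum_sum, Multiset.sum_replicate, smul_eq_mul]
    have h2 := telescope (rk N A) K
    rw [hAzero K le_rfl, hAzero (K + 1) (Nat.le_succ K)] at h2
    have h3 : ((ν.sum : ℕ) : ℤ) = (rk N A 0 : ℤ) := by
      rw [h1]
      push_cast
      have h6 : ∀ j ∈ Finset.range K, ((e j : ℤ) * ((j : ℤ) + 1)) =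
          ((j : ℤ) + 1) * ((rk N A j : ℤ) + rk N A (j + 2) - 2 * rk N A (j + 1)) := by
        intro j _
        rw [heA j, mul_comm]
      rw [Finset.sum_congr rfl h6, h2]
      simp
    have h4 : rk N A 0 = finrank F A := by
      have h7 : (N ^ 0 : V →ₗ[F] V) = LinearMap.id := rfl
      simp only [rk]
      rw [h7, Submodule.map_id]
    have h5 : ν.sum = rk N A 0 := by exact_mod_cast h3
    rw [h5, h4]
  · rw [hνcount]
    simp
  · intro j
    rw [hνcount, ← heA]
    by_cases hm : j < K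
    · rw [Finset.sum_eq_single j]
      · simp
      · intro b _ hb
        rw [if_neg (by omega)]
      · intro h
        exact absurd (Finset.mem_range.2 hm) h
    · rw [Finset.sum_eq_zero]
      · have h0 := heA j
        rw [hAzero j (by omega), hAzero (j + 1) (by omega), hAzero (j + 2) (by omega)] at h0
        simpa using h0.symm
      · intro b hb
        have := Finset.mem_range.1 hb
        rw [if_neg (by omega)]

end submultiset

section forward

open Cfsg.Agent.Lib.JordanType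

variable {F V : Type*} [Field F] [AddCommGroup V] [Module F V] [FiniteDimensional F V]

/-- The Jordan blocks of a unipotent isometry on an invariant non-degenerate subspace. -/
theorem forward_jcount {f : LinearMap.BilinForm F V} (hnd : f.Nondegenerate) (hS : ∀ x y, f x y = f y x)
    (h2 : (2 : F) ≠ 0) {u : V ≃ₗ[F] V} (hu : ∀ x y, f (u x) (u y) = f x y) (μ : Multiset ℕ)
    (hμ : ∀ k, finrank F (LinearMap.range (NN u ^ k)) = (μ.map (· - k)).sum)
    (W : Submodule F V) (hW : (f.restrict W).Nondegenerate) (huW : ∀ v ∈ W, u v ∈ W) :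
    ∃ ν : Multiset ℕ, ν ≤ μ ∧ ν.sum = finrank F W ∧ ν.count 0 = 0 ∧
      ∀ j, (ν.count (j + 1) : ℤ) = (rk (NN u) W j : ℤ) + rk (NN u) W (j + 2) - 2 * rk (NN u) W (j + 1) := by
  classical
  have hrefl : f.IsRefl := fun x y h => by rw [hS, h]
  have hcompl := LinearMap.BilinForm.isCompl_orthogonal_of_restrict_nondegenerate hrefl hW
  let r : W →ₗ[F] W := (u : V →ₗ[F] V).restrict huW
  have rinj : Function.Injective r := fun a b h => Subtype.ext (u.injective (congrArg Subtype.val h))
  let v : W ≃ₗ[F] W := LinearEquiv.ofInjectiveEndo r rinj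
  have hv : ∀ x : W, ((v x : W) : V) = u x := fun x => rfl
  have hA : ∀ y ∈ W, NN u y ∈ W := fun y hy => W.sub_mem (huW y hy) hy
  have hB : ∀ y ∈ f.orthogonal W, NN u y ∈ f.orthogonal W := by
    intro y hy
    have hy2 : u y ∈ f.orthogonal W := by
      rw [LinearMap.BilinForm.mem_orthogonal_iff]
      intro n hn
      obtain ⟨n', hn'⟩ := v.surjective ⟨n, hn⟩
      have e : n = u n' := by
        rw [← hv, hn']
      rw [e, hu]
      exact hy n' n'.2
    exact Submodule.sub_mem _ hy2 hy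
  exact exists_sub_count (NN u) μ hμ hcompl hA hB

/-- The even-multiplicity statement on an invariant non-degenerate subspace. -/
theorem forward_full {f : LinearMap.BilinForm F V} (hnd : f.Nondegenerate) (hS : ∀ x y, f x y = f y x)
    (h2 : (2 : F) ≠ 0) {u : V ≃ₗ[F] V} (hu : ∀ x y, f (u x) (u y) = f x y) (μ : Multiset ℕ)
    (hμ : ∀ k, finrank F (LinearMap.range (NN u ^ k)) = (μ.map (· - k)).sum)
    (W : Submodule F V) (hW : (f.restrict W).Nondegenerate) (huW : ∀ v ∈ W, u v ∈ W) :
    ∃ ν : Multiset ℕ, ν ≤ μ ∧ ν.sum = finrank F W ∧ (∀ e, Even e → Even (ν.count e)) ∧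
      ∀ j, (ν.count (j + 1) : ℤ) = (rk (NN u) W j : ℤ) + rk (NN u) W (j + 2) - 2 * rk (NN u) W (j + 1) := by
  classical
  obtain ⟨ν, h1, h3, h4, h5⟩ := forward_jcount hnd hS h2 hu μ hμ W hW huW
  refine ⟨ν, h1, h3, ?_, h5⟩
  let r : W →ₗ[F] W := (u : V →ₗ[F] V).restrict huW
  have rinj : Function.Injective r := fun a b h => Subtype.ext (u.injective (congrArg Subtype.val h))
  let v : W ≃ₗ[F] W := LinearEquiv.ofInjectiveEndo r rinj
  have hv : ∀ x : W, ((v x : W) : V) = u x := fun x => rfl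
  have hN : ∀ x : W, ((NN v x : W) : V) = NN u x := fun x => rfl
  have hpow : ∀ k (x : W), (((NN v ^ k) x : W) : V) = (NN u ^ k) x := by
    intro k
    induction k with
    | zero => intro x; simp
    | succ k ih =>
      intro x
      rw [pow_succ', Module.End.mul_apply, hN, ih, pow_succ', Module.End.mul_apply]
  have hrk : ∀ k, rk (NN u) W k = finrank F (LinearMap.range (NN v ^ k)) := by
    intro k
    have h6 : W.map (NN u ^ k) = (LinearMap.range (NN v ^ k)).map W.subtype := by
      ext y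
      constructor
      · rintro ⟨x, hx, rfl⟩
        exact ⟨(NN v ^ k) ⟨x, hx⟩, ⟨⟨x, hx⟩, rfl⟩, hpow k ⟨x, hx⟩⟩
      · rintro ⟨_, ⟨x, rfl⟩, rfl⟩
        exact ⟨x, x.2, (hpow k x).symm⟩
    rw [rk, h6, Submodule.finrank_map_subtype_eq]
  rintro e ⟨s, hs⟩
  rcases s with _ | s
  · have : e = 0 := by omega
    rw [this, h4]
    exact Even.zero
  · obtain ⟨k, hk⟩ := even_jcount (f := f.restrict W) (u := v) hW (fun x y => hS _ _) h2 (fun x y => hu _ _) s
    have h6 := h5 (2 * s + 1)
    rw [hrk, hrk, hrk] at h6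
    have e1 : e = 2 * s + 1 + 1 := by omega
    rw [e1]
    refine ⟨k, ?_⟩
    have e2 : 2 * s + 1 + 2 = 2 * s + 3 := by ring
    have e3 : 2 * s + 1 + 1 = 2 * s + 2 := by ring
    rw [e2, e3] at h6
    rw [e3]
    omega

end forward


section assembleK

open Cfsg.Agent.Lib.JTypeSum QuadraticMap

variable {F : Type*} [Field F] {t : ℕ} {d : Fin t → ℕ}

/-- The entries of the Gram matrix, with a matrix attached to each block. -/
def ggK (d : Fin t → ℕ) (G : (k : Fin t) → Matrix (Fin (d k)) (Fin (d k)) F)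
    (B : (n : ℕ) → Matrix (Fin n) (Fin n) F) : Fin t → Fin t → ℕ → ℕ → F := fun k l i j =>
  if k = l then ext' (G k) i j else if k < l then ext' (B (d k)) i j else ext' (B (d k)) j i

theorem assembleK (ρ : Fin t → Fin t) (hρ : ∀ k, ρ (ρ k) = k) (hρd : ∀ k, d (ρ k) = d k)
    (G : (k : Fin t) → Matrix (Fin (d k)) (Fin (d k)) F) (B : (n : ℕ) → Matrix (Fin n) (Fin n) F)
    (hB1 : ∀ k, (Cfsg.jordanBlock (d k) F)ᵀ * B (d k) * Cfsg.jordanBlock (d k) F = B (d k))
    (hB2 : ∀ k, IsUnit (B (d k)))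
    (hG1 : ∀ k, ρ k = k → (Cfsg.jordanBlock (d k) F)ᵀ * G k * Cfsg.jordanBlock (d k) F = G k)
    (hG2 : ∀ k, ρ k = k → IsUnit (G k))
    (hG3 : ∀ k, ρ k = k → ∀ i j, G k i j = G k j i) :
    (Matrix.toBilin' (gram (d := d) ρ (ggK d G B))).Nondegenerate ∧
      (∀ x y, Matrix.toBilin' (gram (d := d) ρ (ggK d G B)) (Ju d F x) (Ju d F y) =
        Matrix.toBilin' (gram (d := d) ρ (ggK d G B)) x y) ∧
      ∀ x y, Matrix.toBilin' (gram (d := d) ρ (ggK d G B)) x y =
        Matrix.toBilin' (gram (d := d) ρ (ggK d G B)) y x := by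
  classical
  set gg := ggK d G B with hgg
  have hMat : ∀ k, ∃ M : Matrix (Fin (d k)) (Fin (d k)) F,
      gg k (ρ k) = ext' M ∧ (Cfsg.jordanBlock (d k) F)ᵀ * M * Cfsg.jordanBlock (d k) F = M ∧ IsUnit M := by
    intro k
    by_cases h1 : k = ρ k
    · refine ⟨G k, ?_, hG1 k h1.symm, hG2 k h1.symm⟩
      funext i j
      simp only [hgg, ggK]
      rw [if_pos h1]
    · by_cases h2 : k < ρ k
      · refine ⟨B (d k), ?_, hB1 k, hB2 k⟩
        funext i j
        simp only [hgg, ggK, h1, h2, if_false, if_true]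
      · refine ⟨(B (d k))ᵀ, ?_, ?_, ?_⟩
        · funext i j
          simp only [hgg, ggK, h1, h2, if_false]
          rw [ext'_transpose]
        · have e := congrArg Matrix.transpose (hB1 k)
          rw [Matrix.transpose_mul, Matrix.transpose_mul, Matrix.transpose_transpose, ← Matrix.mul_assoc] at e
          exact e
        · have hdet : IsUnit (B (d k)) := hB2 k
          rw [Matrix.isUnit_iff_isUnit_det, Matrix.det_transpose]
          exact (Matrix.isUnit_iff_isUnit_det _).mp hdet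
  have hsymm : ∀ k i j, gg k (ρ k) i j = gg (ρ k) k j i := by
    intro k i j
    by_cases h1 : k = ρ k
    · rw [← h1]
      simp only [hgg, ggK, if_true]
      by_cases h : i < d k ∧ j < d k
      · have := hG3 k h1.symm ⟨i, h.1⟩ ⟨j, h.2⟩
        simp only [Cfsg.Agent.Lib.JTypeSum.ext', dif_pos h, dif_pos (show j < d k ∧ i < d k from ⟨h.2, h.1⟩)]
        exact this
      · simp only [Cfsg.Agent.Lib.JTypeSum.ext', dif_neg h, dif_neg (fun h2 : j < d k ∧ i < d k => h ⟨h2.2, h2.1⟩)]
    · have h1' : ρ k ≠ k := fun e => h1 e.symm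
      by_cases h2 : k < ρ k
      · have h3 : ¬ ρ k < k := not_lt.mpr h2.le
        simp only [hgg, ggK, h1, h1', h2, h3, if_false, if_true]
        rw [hρd k]
      · have h3 : ρ k < k := by
          rcases lt_or_gt_of_ne h1 with h4 | h4
          · exact (h2 h4).elim
          · exact h4
        simp only [hgg, ggK, h1, h1', h2, h3, if_false, if_true]
        rw [hρd k]
  have happ := gram_apply (d := d) ρ gg
  let ρe : Equiv.Perm (Fin t) := Function.Involutive.toPerm ρ hρ
  have hS : ∀ x y, Matrix.toBilin' (gram (d := d) ρ gg) x y = Matrix.toBilin' (gram (d := d) ρ gg) y x := by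
    intro x y
    rw [happ, happ, ← Equiv.sum_comp ρe (fun k => tm (gg k (ρ k)) (res y k) (res x (ρ k)))]
    refine Finset.sum_congr rfl fun k _ => ?_
    show tm (gg k (ρ k)) (res x k) (res y (ρ k)) = tm (gg (ρ k) (ρ (ρ k))) (res y (ρ k)) (res x (ρ (ρ k)))
    rw [hρ k, tm_swap (gg (ρ k) k)]
    congr 1
    funext i j
    exact hsymm k i j
  refine ⟨?_, ?_, hS⟩
  · have hL : ∀ x : Kap d → F, (∀ y, Matrix.toBilin' (gram (d := d) ρ gg) x y = 0) → x = 0 := by
      intro x hx
      by_contra hne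
      obtain ⟨⟨k, i⟩, hp⟩ : ∃ p, x p ≠ 0 := by
        by_contra h
        push Not at h
        exact hne (funext h)
      have ha : res x k ≠ 0 := fun h => hp (congrFun h i)
      obtain ⟨M, hM1, hM2, hM3⟩ := hMat k
      obtain ⟨b, hb⟩ := tm_nondeg (n₂ := d (ρ k)) rfl (hρd k) M hM3 _ ha
      apply hb
      obtain ⟨y, hy⟩ : ∃ y : Kap d → F, y = fun p => (Pi.single (ρ k) b : (l : Fin t) → Fin (d l) → F) p.1 p.2 := ⟨_, rfl⟩
      have h3 := hx y
      rw [happ, Finset.sum_eq_single k] at h3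
      · have h4 : res y (ρ k) = b := by
          funext j
          simp [res, hy]
        rw [h4, hM1] at h3
        exact h3
      · intro l _ hl
        have h5 : ρ l ≠ ρ k := fun e => hl (by
          have := congrArg ρ e
          rwa [hρ, hρ] at this)
        have h4 : res y (ρ l) = 0 := by
          funext j
          simp [res, hy, h5]
        rw [h4, tm_zero_right]
      · simp
    refine ⟨hL, fun y hy => hL y fun x => ?_⟩
    rw [hS, hy x]
  · intro x y
    rw [happ, happ]
    refine Finset.sum_congr rfl fun k _ => ?_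
    obtain ⟨M, hM1, hM2, hM3⟩ := hMat k
    rw [Ju_apply, Ju_apply, res_J, res_J, hM1]
    exact tm_J rfl (hρd k) M hM2 _ _

/-- Scaling fixed blocks multiplies the Gram matrix by a diagonal matrix. -/
theorem gram_scale (ρ : Fin t → Fin t) (G₀ B : (n : ℕ) → Matrix (Fin n) (Fin n) F) (c : Fin t → F)
    (hc : ∀ k, ρ k ≠ k → c k = 1) :
    gram (d := d) ρ (ggK d (fun k => c k • G₀ (d k)) B) =
      Matrix.diagonal (fun p : Kap d => c p.1) * gram (d := d) ρ (ggK d (fun k => G₀ (d k)) B) := by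
  classical
  ext p q
  rw [Matrix.diagonal_mul]
  simp only [Cfsg.Agent.Lib.JTypeSum.gram, Matrix.of_apply]
  by_cases h : q.1 = ρ p.1
  · rw [if_pos h, if_pos h]
    simp only [ggK]
    by_cases h1 : p.1 = q.1
    · rw [if_pos h1, if_pos h1, ext'_smul]
    · rw [if_neg h1, if_neg h1]
      have : ρ p.1 ≠ p.1 := by
        rw [← h]
        exact fun e => h1 e.symm
      rw [hc _ this, one_mul]
  · rw [if_neg h, if_neg h, mul_zero]

theorem prod_kap (c : Fin t → F) : ∏ p : Kap d, c p.1 = ∏ k, c k ^ d k := by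
  classical
  rw [Fintype.prod_sigma]
  refine Finset.prod_congr rfl fun k _ => ?_
  simp

/-- Forms invariant under the Jordan matrix with a prescribed discriminant class. -/
theorem exists_form_scaled (h2F : (2 : F) ≠ 0) (hd : ∀ k, 1 ≤ d k)
    (h : ∀ j, Even j → Even (Finset.univ.filter (fun k : Fin t => d k = j)).card)
    (k₀ : Fin t) (hk₀ : Odd (d k₀)) (D : F) (hD : D ≠ 0) :
    ∃ Q : QuadraticForm F (Kap d → F), Cfsg.Agent.Lib.QuadFF.ND Q ∧ (∀ x, Q (Ju d F x) = Q x) ∧
      IsSquare (D * (Matrix.of (fun p q : Kap d => polar ⇑Q (Pi.single p 1) (Pi.single q 1))).det) := by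
  classical
  obtain ⟨ρ, h1, h2, h3, h4⟩ := exists_rho d (fun j => Even j) h
  have hB : ∀ n, ∃ B : Matrix (Fin n) (Fin n) F, 1 ≤ n →
      (Cfsg.jordanBlock n F)ᵀ * B * Cfsg.jordanBlock n F = B ∧ IsUnit B := by
    intro n
    by_cases hn : 1 ≤ n
    · obtain ⟨B, hB⟩ := Cfsg.Agent.Lib.JTypeBlock.pair_form (F := F) hn
      exact ⟨B, fun _ => hB⟩
    · exact ⟨0, fun hn' => (hn hn').elim⟩
  choose B hB using hB
  have hG : ∀ n, ∃ G : Matrix (Fin n) (Fin n) F, Odd n →
      (Cfsg.jordanBlock n F)ᵀ * G * Cfsg.jordanBlock n F = G ∧ IsUnit G ∧ Gᵀ = G := by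
    intro n
    by_cases hn : Odd n
    · obtain ⟨G, hG⟩ := Cfsg.Agent.Lib.JTypeBlock.odd_block (F := F) hn h2F
      exact ⟨G, fun _ => hG⟩
    · exact ⟨0, fun h1 => (hn h1).elim⟩
  choose G hG using hG
  have hev : ∀ k, ρ k = k → Odd (d k) := by
    intro k hk
    by_contra hno
    exact h3 k (Nat.not_odd_iff_even.mp hno) hk
  have hfix : ρ k₀ = k₀ := h4 k₀ (Nat.not_even_iff_odd.mpr hk₀)
  -- general scaling
  have hmain : ∀ c : Fin t → F, (∀ k, c k ≠ 0) →
      let f := Matrix.toBilin' (gram (d := d) ρ (ggK d (fun k => c k • G (d k)) B))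
      f.Nondegenerate ∧ (∀ x y, f (Ju d F x) (Ju d F y) = f x y) ∧ ∀ x y, f x y = f y x := by
    intro c hc
    refine assembleK ρ h1 h2 _ B (fun k => (hB _ (hd k)).1) (fun k => (hB _ (hd k)).2) ?_ ?_ ?_
    · intro k hk
      rw [Matrix.mul_smul, Matrix.smul_mul, (hG _ (hev k hk)).1]
    · intro k hk
      have h5 := (hG _ (hev k hk)).2.1
      rw [Matrix.isUnit_iff_isUnit_det, Matrix.det_smul]
      exact (IsUnit.pow _ (isUnit_iff_ne_zero.mpr (hc k))).mul ((Matrix.isUnit_iff_isUnit_det _).mp h5)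
    · intro k hk i j
      have := congrFun (congrFun (hG _ (hev k hk)).2.2 i) j
      rw [Matrix.transpose_apply] at this
      simp only [Matrix.smul_apply, this]
  -- the unscaled determinant
  set D₂ : F := (gram (d := d) ρ (ggK d (fun k => G (d k)) B)).det with hD₂
  have hD₂0 : D₂ ≠ 0 := by
    have h5 := (hmain (fun _ => 1) (fun _ => one_ne_zero)).1
    simp only [one_smul] at h5
    exact (LinearMap.BilinForm.nondegenerate_toBilin'_iff_det_ne_zero).1 h5
  set c₀ : F := D * D₂ with hc₀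
  have hc₀0 : c₀ ≠ 0 := mul_ne_zero hD hD₂0
  let c : Fin t → F := Function.update (fun _ => 1) k₀ c₀
  have hc : ∀ k, c k ≠ 0 := by
    intro k
    by_cases hk : k = k₀
    · subst hk
      simpa [c] using hc₀0
    · simp [c, Function.update_of_ne hk]
  obtain ⟨f1, f2, f3⟩ := hmain c hc
  obtain ⟨Q, hQ1, hQ2⟩ := Cfsg.Agent.Lib.JTypeFinal.q_of_sym h2F f3
  have hpolar : ∀ x y, polar ⇑Q x y = Matrix.toBilin' (gram (d := d) ρ (ggK d (fun k => c k • G (d k)) B)) x y := by
    intro x y
    rw [← hQ1]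
    rfl
  refine ⟨Q, ?_, ?_, ?_⟩
  · apply Cfsg.Agent.Lib.QuadFF.ND_of_nondegenerate
    rw [hQ1]
    exact f1
  · intro x
    rw [hQ2, hQ2, f2]
  · have e1 : Matrix.of (fun p q : Kap d => polar ⇑Q (Pi.single p 1) (Pi.single q 1)) =
        gram (d := d) ρ (ggK d (fun k => c k • G (d k)) B) := by
      ext p q
      rw [Matrix.of_apply, hpolar, Matrix.toBilin'_single]
    rw [e1, gram_scale ρ G B c, Matrix.det_mul, Matrix.det_diagonal, prod_kap, ← hD₂]
    · have e2 : ∏ k, c k ^ d k = c₀ ^ d k₀ := by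
        rw [Finset.prod_eq_single k₀]
        · simp [c]
        · intro k _ hk
          simp [c, Function.update_of_ne hk]
        · simp
      rw [e2]
      obtain ⟨s, hs⟩ := hk₀
      rw [hs]
      refine ⟨c₀ ^ (s + 1), ?_⟩
      rw [hc₀]
      ring
    · intro k hk
      have : k ≠ k₀ := fun e => hk (e ▸ hfix)
      simp [c, Function.update_of_ne this]

/-- The discriminant criterion for index types of the same cardinality. -/
theorem isometry_of_disc [Fintype F] (h2 : (2 : F) ≠ 0) {ι κ : Type*} [Fintype ι] [DecidableEq ι]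
    [Fintype κ] [DecidableEq κ] (hc : Fintype.card ι = Fintype.card κ)
    (Q₁ : QuadraticForm F (ι → F)) (Q₂ : QuadraticForm F (κ → F))
    (h₁ : Cfsg.Agent.Lib.QuadFF.ND Q₁) (h₂ : Cfsg.Agent.Lib.QuadFF.ND Q₂)
    (h : IsSquare ((Matrix.of (fun i j : ι => polar ⇑Q₁ (Pi.single i 1) (Pi.single j 1))).det *
      (Matrix.of (fun i j : κ => polar ⇑Q₂ (Pi.single i 1) (Pi.single j 1))).det)) :
    ∃ g : (ι → F) ≃ₗ[F] (κ → F), ∀ v, Q₂ (g v) = Q₁ v := by
  classical
  let e₁ : ι ≃ Fin (Fintype.card ι) := Fintype.equivFin ι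
  let e₂ : κ ≃ Fin (Fintype.card ι) := (Fintype.equivFin κ).trans (finCongr hc.symm)
  let φ₁ : (Fin (Fintype.card ι) → F) ≃ₗ[F] (ι → F) := LinearEquiv.funCongrLeft F F e₁
  let φ₂ : (Fin (Fintype.card ι) → F) ≃ₗ[F] (κ → F) := LinearEquiv.funCongrLeft F F e₂
  let R₁ : QuadraticForm F (Fin (Fintype.card ι) → F) := Q₁.comp φ₁.toLinearMap
  let R₂ : QuadraticForm F (Fin (Fintype.card ι) → F) := Q₂.comp φ₂.toLinearMap
  have hR₁ : ∀ v, R₁ v = Q₁ (φ₁ v) := fun v => rfl
  have hR₂ : ∀ v, R₂ v = Q₂ (φ₂ v) := fun v => rfl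
  have hp₁ : ∀ x y, polar ⇑R₁ x y = polar ⇑Q₁ (φ₁ x) (φ₁ y) := by
    intro x y
    simp only [polar, hR₁, map_add]
  have hp₂ : ∀ x y, polar ⇑R₂ x y = polar ⇑Q₂ (φ₂ x) (φ₂ y) := by
    intro x y
    simp only [polar, hR₂, map_add]
  have hN₁ : Cfsg.Agent.Lib.QuadFF.ND R₁ := by
    intro x hx
    have : φ₁ x = 0 := h₁ _ fun y => by
      have := hx (φ₁.symm y)
      rwa [hp₁, LinearEquiv.apply_symm_apply] at this
    simpa using this
  have hN₂ : Cfsg.Agent.Lib.QuadFF.ND R₂ := by
    intro x hx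
    have : φ₂ x = 0 := h₂ _ fun y => by
      have := hx (φ₂.symm y)
      rwa [hp₂, LinearEquiv.apply_symm_apply] at this
    simpa using this
  have hs₁ : ∀ i, φ₁ (Pi.single i 1) = Pi.single (e₁.symm i) 1 := by
    intro i
    funext a
    simp only [φ₁, LinearEquiv.funCongrLeft_apply, LinearMap.funLeft_apply, Pi.single_apply]
    simp only [Equiv.eq_symm_apply]
  have hs₂ : ∀ i, φ₂ (Pi.single i 1) = Pi.single (e₂.symm i) 1 := by
    intro i
    funext a
    simp only [φ₂, LinearEquiv.funCongrLeft_apply, LinearMap.funLeft_apply, Pi.single_apply]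
    simp only [Equiv.eq_symm_apply]
  have hd₁ : (Matrix.of (fun i j : Fin (Fintype.card ι) => polar ⇑R₁ (Pi.single i 1) (Pi.single j 1))).det =
      (Matrix.of (fun i j : ι => polar ⇑Q₁ (Pi.single i 1) (Pi.single j 1))).det := by
    rw [← Matrix.det_submatrix_equiv_self e₁.symm]
    congr 1
    ext i j
    simp only [Matrix.of_apply, Matrix.submatrix_apply, hp₁, hs₁]
  have hd₂ : (Matrix.of (fun i j : Fin (Fintype.card ι) => polar ⇑R₂ (Pi.single i 1) (Pi.single j 1))).det =
      (Matrix.of (fun i j : κ => polar ⇑Q₂ (Pi.single i 1) (Pi.single j 1))).det := by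
    rw [← Matrix.det_submatrix_equiv_self e₂.symm]
    congr 1
    ext i j
    simp only [Matrix.of_apply, Matrix.submatrix_apply, hp₂, hs₂]
  obtain ⟨g, hg⟩ := (Cfsg.Agent.Lib.QuadFF2.isometry_iff_disc h2 R₁ R₂ hN₁ hN₂).2 (by rw [hd₁, hd₂]; exact h)
  refine ⟨φ₁.symm.trans (g.trans φ₂), fun v => ?_⟩
  have := hg (φ₁.symm v)
  rw [hR₁, hR₂, LinearEquiv.apply_symm_apply] at this
  exact this

theorem det_gram_ne_zero {ι : Type*} [Fintype ι] [DecidableEq ι] (Q : QuadraticForm F (ι → F))
    (hQ : Cfsg.Agent.Lib.QuadFF.ND Q) :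
    (Matrix.of (fun i j : ι => polar ⇑Q (Pi.single i 1) (Pi.single j 1))).det ≠ 0 := by
  classical
  have h1 : Matrix.toBilin' (Matrix.of (fun i j : ι => polar ⇑Q (Pi.single i 1) (Pi.single j 1))) = polarBilin Q := by
    apply (LinearMap.BilinForm.toMatrix' (R₁ := F) (n := ι)).injective
    rw [LinearMap.BilinForm.toMatrix'_toBilin']
    ext i j
    rw [LinearMap.BilinForm.toMatrix'_apply]
    rfl
  rw [← LinearMap.BilinForm.nondegenerate_toBilin'_iff_det_ne_zero, h1]
  exact Cfsg.Agent.Lib.QuadFF.nondegenerate_of_ND hQ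

end assembleK


section realize

open Cfsg.Agent.Lib.JTypeSum QuadraticMap Cfsg.Agent.Lib.JordanType Cfsg.Agent.Lib.QuadFF

variable {F : Type*} [Field F]

theorem NJ_eq_shift {t : ℕ} (d : Fin t → ℕ) : NJ d F = shift (F := F) d := by
  apply LinearMap.ext
  intro x
  funext ⟨k, i⟩
  rw [NJ_apply]
  show _ = if h : 0 < (i : ℕ) then x ⟨k, ⟨(i : ℕ) - 1, by have := i.2; omega⟩⟩ else 0
  by_cases h : 0 < (i : ℕ)
  · rw [dif_pos h, dif_pos (show 1 ≤ (i : ℕ) from h)]
  · rw [dif_neg h, dif_neg (show ¬ 1 ≤ (i : ℕ) from h)]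

theorem sum_map_ite_eq_count (μ : Multiset ℕ) (j : ℕ) :
    (μ.map (fun x => if x = j then 1 else 0)).sum = μ.count j := by
  classical
  induction μ using Multiset.induction_on with
  | empty => simp
  | cons b μ ih =>
    simp only [Multiset.map_cons, Multiset.sum_cons, ih, Multiset.count_cons]
    by_cases h : b = j
    · subst h
      simp
      omega
    · rw [if_neg h, if_neg (fun e : j = b => h e.symm)]
      omega

/-- Every partition with an odd part and even parts of even multiplicity is the Jordan type of a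
unipotent isometry of any non-degenerate quadratic form. -/
theorem exists_orth_jtype {ι : Type*} [Fintype ι] [DecidableEq ι] [Fintype F] (h2 : (2 : F) ≠ 0)
    (Q : QuadraticForm F (ι → F)) (hQ : ND Q) (μ : Multiset ℕ) (hμ0 : ∀ e ∈ μ, 0 < e)
    (hμev : ∀ e, Even e → Even (μ.count e)) (hsum : μ.sum = Fintype.card ι) (hodd : ∃ e ∈ μ, Odd e) :
    ∃ u : (ι → F) ≃ₗ[F] (ι → F), (∀ v, Q (u v) = Q v) ∧
      ∀ k, finrank F (LinearMap.range (NN u ^ k)) = (μ.map (· - k)).sum := by
  classical
  let L := μ.toList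
  let d : Fin L.length → ℕ := L.get
  have hsumg : ∀ g : ℕ → ℕ, ∑ i, g (d i) = (μ.map g).sum := by
    intro g
    have h1 : (μ.map g).sum = (L.map g).sum := by
      conv_lhs => rw [← Multiset.coe_toList μ]
      simp [L]
    have h2 : L.map g = List.ofFn (g ∘ L.get) := by
      rw [← List.map_ofFn, List.ofFn_get]
    rw [h1, h2, List.sum_ofFn]
    rfl
  have hd : ∀ k, 1 ≤ d k := by
    intro k
    have h1 : d k ∈ L := List.get_mem L k
    exact hμ0 _ (Multiset.mem_toList.1 h1)
  have hfilter : ∀ j, (Finset.univ.filter (fun k : Fin L.length => d k = j)).card = μ.count j := by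
    intro j
    have := hsumg (fun x => if x = j then 1 else 0)
    rw [sum_map_ite_eq_count] at this
    rw [Finset.card_filter, this]
  have hcard : Fintype.card ι = Fintype.card (Kap d) := by
    rw [Fintype.card_sigma, ← hsum]
    simp only [Fintype.card_fin]
    have := hsumg id
    simp only [id, Multiset.map_id'] at this
    exact this.symm
  obtain ⟨e, he, heo⟩ := hodd
  obtain ⟨k₀, hk₀⟩ : ∃ k₀, d k₀ = e := by
    obtain ⟨n, hn⟩ := List.mem_iff_get.1 (Multiset.mem_toList.2 he)
    exact ⟨n, hn⟩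
  obtain ⟨Q', h1, h3, h4⟩ := exists_form_scaled (d := d) h2 hd
    (fun j hj => by rw [hfilter]; exact hμev j hj) k₀ (hk₀ ▸ heo) _ (det_gram_ne_zero Q hQ)
  obtain ⟨g, hg⟩ := isometry_of_disc h2 hcard Q Q' hQ h1 h4
  have huapp : ∀ v, (g.trans ((Ju d F).trans g.symm)) v = g.symm (Ju d F (g v)) := fun v => rfl
  refine ⟨g.trans ((Ju d F).trans g.symm), ?_, ?_⟩
  · intro v
    rw [huapp, ← hg (g.symm _), LinearEquiv.apply_symm_apply, h3, hg]
  · intro k
    set u := g.trans ((Ju d F).trans g.symm) with hu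
    have hN : ∀ v, NN u v = g.symm (NJ d F (g v)) := by
      intro v
      rw [NN_apply, huapp, ← NN_Ju, NN_apply, map_sub, LinearEquiv.symm_apply_apply]
    have hpow : ∀ (k : ℕ) (v : ι → F), (NN u ^ k) v = g.symm ((NJ d F ^ k) (g v)) := by
      intro k
      induction k with
      | zero => intro v; simp
      | succ k ih =>
        intro v
        rw [pow_succ', Module.End.mul_apply, ih, hN, pow_succ', Module.End.mul_apply,
          LinearEquiv.apply_symm_apply]
    have hrange : LinearMap.range (NN u ^ k) = (LinearMap.range (NJ d F ^ k)).map g.symm.toLinearMap := by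
      ext y
      constructor
      · rintro ⟨v, rfl⟩
        exact ⟨(NJ d F ^ k) (g v), ⟨g v, rfl⟩, (hpow k v).symm⟩
      · rintro ⟨_, ⟨w, rfl⟩, rfl⟩
        refine ⟨g.symm w, ?_⟩
        rw [hpow, LinearEquiv.apply_symm_apply]
        rfl
    rw [hrange, LinearEquiv.finrank_map_eq, NJ_eq_shift, finrank_range_shift_pow]
    exact hsumg (fun x => x - k)

end realize

section omega

open QuadraticMap Cfsg.Agent.Lib.QuadFF Cfsg.Agent.Lib.OrthMatrix Cfsg.Agent.Lib.OrthGroup
open Cfsg.Agent.Lib.JordanType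
open scoped MatrixGroups

variable {F : Type*} [Field F]

theorem two_ne_zero_of_odd {p : ℕ} [Fact p.Prime] [CharP F p] (hp : Odd p) : (2 : F) ≠ 0 := by
  intro h
  have h1 : ((2 : ℕ) : F) = 0 := by exact_mod_cast h
  have h3 := (CharP.cast_eq_zero_iff F p 2).1 h1
  have h4 : p = 2 := (Nat.prime_dvd_prime_iff_eq (Fact.out) Nat.prime_two).1 h3
  subst h4
  exact absurd hp (by decide)

theorem odd_char_of_card [Fintype F] {p q : ℕ} [Fact p.Prime] [CharP F p] (hq : Fintype.card F = q)
    (hqodd : Odd q) : Odd p := by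
  have h1 : ((Fintype.card F : ℕ) : F) = 0 := FiniteField.cast_card_eq_zero F
  have h3 := (CharP.cast_eq_zero_iff F p _).1 h1
  rw [hq] at h3
  exact Odd.of_dvd_nat hqodd h3

variable {ι : Type} [Fintype ι] [DecidableEq ι]

/-- A unipotent element of prime order of a prescribed Jordan type in Ω. -/
theorem exists_omega_jtype [Fintype F] {p : ℕ} [Fact p.Prime] [CharP F p] (hp : Odd p)
    (Q : QuadraticForm F (ι → F)) (hQ : ND Q) (μ : Multiset ℕ) (hμ : ∀ e ∈ μ, 0 < e ∧ e ≤ p)
    (hμev : ∀ e, Even e → Even (μ.count e)) (hsum : μ.sum = Fintype.card ι) (hodd : ∃ e ∈ μ, Odd e) :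
    ∃ x : GL ι F, x ∈ Cfsg.Geo.omegaGL (⇑Q) ∧ x ^ p = 1 ∧ x ∈ Cfsg.isometryGroup F ⇑Q ∧
      ∀ k, finrank F (LinearMap.range (NN (glEquiv x) ^ k)) = (μ.map (· - k)).sum := by
  classical
  have h2 := two_ne_zero_of_odd (F := F) hp
  obtain ⟨u, hu1, hu2⟩ := exists_orth_jtype h2 Q hQ μ (fun e he => (hμ e he).1) hμev hsum hodd
  have hNp : NN u ^ p = 0 := by
    have h3 := hu2 p
    have h4 : (μ.map (· - p)).sum = 0 := by
      have h5 : μ.map (· - p) = μ.map (fun _ => 0) := by
        apply Multiset.map_congr rfl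
        intro b hb
        have := (hμ b hb).2
        omega
      rw [h5]
      simp
    rw [h4, Submodule.finrank_eq_zero, LinearMap.range_eq_bot] at h3
    exact h3
  haveI : Nonempty ι := by
    obtain ⟨e, he, heo⟩ := hodd
    have h3 := Multiset.single_le_sum (fun x _ => Nat.zero_le x) e he
    have h4 := (hμ e he).1
    rw [hsum] at h3
    exact Fintype.card_pos_iff.1 (by omega)
  haveI : CharP (Module.End F (ι → F)) p :=
    charP_of_injective_algebraMap (algebraMap F (Module.End F (ι → F))).injective p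
  have hup : ∀ k (v : ι → F), (u ^ k) v = (((u : Module.End F (ι → F))) ^ k) v := by
    intro k
    induction k with
    | zero => intro v; rfl
    | succ k ih =>
      intro v
      rw [pow_succ', LinearEquiv.mul_apply, ih, pow_succ', Module.End.mul_apply]
      rfl
  have hu1' : (u : Module.End F (ι → F)) = 1 + NN u := by
    rw [NN]
    abel
  have hu3 : u ^ p = 1 := by
    ext1 v
    rw [hup, hu1', add_pow_char_of_commute p (Commute.one_left _), hNp, one_pow, add_zero]
    rfl
  refine ⟨glEquiv.symm u, ?_, ?_, ?_, ?_⟩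
  · refine Cfsg.Agent.S5985.mem_omega_of_odd_pow Q ?_ _ ?_ hp ?_
    · apply O_le_G (nondegenerate_of_ND hQ)
      left
      refine ⟨-1, neg_ne_zero.2 one_ne_zero, ?_⟩
      intro h
      apply h2
      linear_combination -h
    · exact (mem_isometryGroup _ _).2 fun v => by
        rw [mulVec_glEquiv_symm]
        exact hu1 v
    · apply glEquiv.injective
      rw [map_pow, MulEquiv.apply_symm_apply, hu3, map_one]
  · apply glEquiv.injective
    rw [map_pow, MulEquiv.apply_symm_apply, hu3, map_one]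
  · exact (mem_isometryGroup _ _).2 fun v => by
      rw [mulVec_glEquiv_symm]
      exact hu1 v
  · intro k
    rw [MulEquiv.apply_symm_apply]
    exact hu2 k

/-- Elements of `p`-power order in characteristic `p` are scalar only when trivial. -/
theorem not_scalar_of_pow {p : ℕ} [Fact p.Prime] [CharP F p] {x : GL ι F} (h1 : x ^ p = 1) (hne : x ≠ 1) :
    ∀ z : F, (x : Matrix ι ι F) ≠ z • (1 : Matrix ι ι F) := by
  classical
  intro z hz
  apply hne
  by_cases hι : Nonempty ι
  · obtain ⟨i⟩ := hι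
    have h3 : ((x ^ p : GL ι F) : Matrix ι ι F) = 1 := by
      rw [h1]
      rfl
    rw [Units.val_pow_eq_pow_val, hz, smul_pow, one_pow] at h3
    have h4 : z ^ p = 1 := by
      have := congrFun (congrFun h3 i) i
      simpa using this
    have h5 : (z - 1) ^ p = 0 := by
      rw [sub_pow_char, h4, one_pow, sub_self]
    have h6 : z = 1 := sub_eq_zero.1 (pow_eq_zero_iff (Fact.out : p.Prime).ne_zero |>.1 h5)
    apply Units.ext
    rw [hz, h6, one_smul]
    rfl
  · rw [not_nonempty_iff] at hι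
    apply Units.ext
    ext i
    exact (hι.false i).elim

/-- A nondegenerate subspace for the polar form gives a nondegenerate restriction. -/
theorem restrict_nd_of_on (Q : QuadraticForm F (ι → F)) (W : Submodule F (ι → F))
    (hW : Cfsg.Geo.IsNondegenerateOn (polar ⇑Q) W) :
    (LinearMap.BilinForm.restrict (polarBilin Q) W).Nondegenerate := by
  refine ⟨fun x hx => ?_, fun y hy => ?_⟩
  · by_contra hne
    obtain ⟨z, hz, hz2⟩ := (hW x x.2 (fun e => hne (Subtype.ext e))).2
    exact hz2 (hx ⟨z, hz⟩)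
  · by_contra hne
    obtain ⟨z, hz, hz2⟩ := (hW y y.2 (fun e => hne (Subtype.ext e))).1
    exact hz2 (hy ⟨z, hz⟩)

/-- The forward direction for an element of the group. -/
theorem forward_GL [Fintype F] (h2 : (2 : F) ≠ 0)
    (Q : QuadraticForm F (ι → F)) (hQ : ND Q) (x : GL ι F) (hx : x ∈ Cfsg.isometryGroup F ⇑Q)
    (μ : Multiset ℕ) (hμ : ∀ k, finrank F (LinearMap.range (NN (glEquiv x) ^ k)) = (μ.map (· - k)).sum)
    (W : Submodule F (ι → F)) (hW : Cfsg.Geo.IsNondegenerateOn (polar ⇑Q) W)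
    (hinv : W.map (Matrix.toLin' (x : Matrix ι ι F)) ≤ W) :
    ∃ ν : Multiset ℕ, ν ≤ μ ∧ ν.sum = finrank F W ∧ (∀ e, Even e → Even (ν.count e)) ∧
      ∀ j, (ν.count (j + 1) : ℤ) = (rk (NN (glEquiv x)) W j : ℤ) + rk (NN (glEquiv x)) W (j + 2)
        - 2 * rk (NN (glEquiv x)) W (j + 1) := by
  have hu : ∀ a b, polarBilin Q (glEquiv x a) (glEquiv x b) = polarBilin Q a b := by
    intro a b
    have h3 : ∀ v, Q (glEquiv x v) = Q v := fun v => (mem_isometryGroup _ _).1 hx v
    simp only [polarBilin_apply_apply, polar, ← map_add, h3]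
  have hS : ∀ a b, polarBilin Q a b = polarBilin Q b a := fun a b => polar_comm _ _ _
  have hinv' : ∀ v ∈ W, glEquiv x v ∈ W := fun v hv => hinv ⟨v, hv, rfl⟩
  exact forward_full (nondegenerate_of_ND hQ) hS h2 hu μ hμ W (restrict_nd_of_on Q W hW) hinv'

end omega


section comb

open QuadraticMap Cfsg.Agent.Lib.QuadFF Cfsg.Agent.Lib.OrthMatrix Cfsg.Agent.Lib.JordanType
open scoped MatrixGroups

variable {F : Type*} [Field F] {ι : Type} [Fintype ι] [DecidableEq ι]

theorem even_sum_of_even (s : Multiset ℕ) (h : ∀ e ∈ s, Even e) : Even s.sum := by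
  induction s using Multiset.induction_on with
  | empty => simp
  | cons a s ih =>
    rw [Multiset.sum_cons]
    exact (h a (Multiset.mem_cons_self a s)).add (ih fun e he => h e (Multiset.mem_cons_of_mem he))

/-- The case of a partition with an odd part. -/
theorem nec_sub_odd [Fintype F] {p : ℕ} [Fact p.Prime] [CharP F p] (hp : Odd p)
    (Q : QuadraticForm F (ι → F)) (hQ : ND Q) (m : ℕ) (hm : m ≤ Fintype.card ι)
    (H : ∀ x : GL ι F, x ∈ Cfsg.Geo.omegaGL (⇑Q) → x ^ p = 1 → (∀ z : F, (x : Matrix ι ι F) ≠ z • (1 : Matrix ι ι F)) →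
      ∃ W : Submodule F (ι → F), finrank F W = m ∧ Cfsg.Geo.IsNondegenerateOn (polar ⇑Q) W ∧
        W.map (Matrix.toLin' (x : Matrix ι ι F)) ≤ W)
    (μ : Multiset ℕ) (hμ : ∀ e ∈ μ, 0 < e ∧ e ≤ p) (hev : ∀ e, Even e → Even (μ.count e))
    (hsum : μ.sum = Fintype.card ι) (hodd : ∃ e ∈ μ, Odd e) :
    ∃ ν : Multiset ℕ, ν ≤ μ ∧ ν.sum = m ∧ ∀ e, Even e → Even (ν.count e) := by
  classical
  have h2 := two_ne_zero_of_odd (F := F) hp
  by_cases h1 : ∀ a ∈ μ, a = 1
  · have h3 : μ = Multiset.replicate (Multiset.card μ) 1 := Multiset.eq_replicate.mpr ⟨rfl, h1⟩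
    have h4 : Multiset.card μ = Fintype.card ι := by
      rw [h3] at hsum
      simpa using hsum
    refine ⟨Multiset.replicate m 1, ?_, by simp, ?_⟩
    · rw [h3]
      apply (Multiset.replicate_le_replicate _).mpr
      omega
    · intro e he
      rw [Multiset.count_replicate]
      split_ifs with h5
      · subst h5
        exact absurd he (by decide)
      · exact Even.zero
  · push Not at h1
    obtain ⟨a, ha, ha1⟩ := h1
    obtain ⟨x, hxΩ, hxp, hxiso, hxrk⟩ := exists_omega_jtype hp Q hQ μ hμ hev hsum hodd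
    have hne : x ≠ 1 := by
      rintro rfl
      have h3 := hxrk 1
      have h4 : NN (glEquiv (1 : GL ι F)) = 0 := by
        apply LinearMap.ext
        intro v
        simp [NN_apply]
      rw [h4, pow_one, LinearMap.range_zero, finrank_bot] at h3
      have h5 : a - 1 ∈ μ.map (· - 1) := Multiset.mem_map.mpr ⟨a, ha, rfl⟩
      have h6 := Multiset.single_le_sum (fun x _ => Nat.zero_le x) _ h5
      have := (hμ a ha).1
      omega
    obtain ⟨W, hW1, hW2, hW3⟩ := H x hxΩ hxp (not_scalar_of_pow hxp hne)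
    obtain ⟨ν, h4, h5, h6, _⟩ := forward_GL h2 Q hQ x hxiso μ hxrk W hW2 hW3
    exact ⟨ν, h4, h5.trans hW1, h6⟩

/-- Every admissible partition contains a sub-partition of `m`. -/
theorem nec_sub [Fintype F] {p : ℕ} [Fact p.Prime] [CharP F p] (hp : Odd p)
    (Q : QuadraticForm F (ι → F)) (hQ : ND Q) (m : ℕ) (hm : m ≤ Fintype.card ι) (hme : Even m)
    (H : ∀ x : GL ι F, x ∈ Cfsg.Geo.omegaGL (⇑Q) → x ^ p = 1 → (∀ z : F, (x : Matrix ι ι F) ≠ z • (1 : Matrix ι ι F)) →
      ∃ W : Submodule F (ι → F), finrank F W = m ∧ Cfsg.Geo.IsNondegenerateOn (polar ⇑Q) W ∧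
        W.map (Matrix.toLin' (x : Matrix ι ι F)) ≤ W)
    (μ : Multiset ℕ) (hμ : ∀ e ∈ μ, 0 < e ∧ e ≤ p) (hev : ∀ e, Even e → Even (μ.count e))
    (hsum : μ.sum = Fintype.card ι) :
    ∃ ν : Multiset ℕ, ν ≤ μ ∧ ν.sum = m ∧ ∀ e, Even e → Even (ν.count e) := by
  classical
  by_cases hodd : ∃ e ∈ μ, Odd e
  · exact nec_sub_odd hp Q hQ m hm H μ hμ hev hsum hodd
  push Not at hodd
  have hall : ∀ e ∈ μ, Even e := fun e he => Nat.not_odd_iff_even.1 (hodd e he)
  by_cases hμ0 : μ = 0
  · subst hμ0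
    simp only [Multiset.sum_zero] at hsum
    refine ⟨0, le_refl _, ?_, by simp⟩
    simp only [Multiset.sum_zero]
    omega
  obtain ⟨e, he⟩ := Multiset.exists_mem_of_ne_zero hμ0
  have hee := hall e he
  have hep0 := hμ e he
  obtain ⟨μ₁, rfl⟩ := Multiset.exists_cons_of_mem he
  have he1 : e ∈ μ₁ := by
    by_contra hn
    have h3 := hev e hee
    rw [Multiset.count_cons_self, Multiset.count_eq_zero_of_notMem hn] at h3
    exact absurd h3 (by decide)
  obtain ⟨μ₀, rfl⟩ := Multiset.exists_cons_of_mem he1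
  have he2 : 2 ≤ e := by
    obtain ⟨s, hs⟩ := hee
    have := hep0.1
    omega
  have hep : e + 1 ≤ p := by
    have h3 : e ≠ p := by
      rintro rfl
      exact (Nat.not_even_iff_odd.2 hp) hee
    have := hep0.2
    omega
  have hμ₀ : ∀ x ∈ μ₀, 0 < x ∧ x ≤ p := fun x hx =>
    hμ x (Multiset.mem_cons_of_mem (Multiset.mem_cons_of_mem hx))
  have hμ₀ev : ∀ x ∈ μ₀, Even x := fun x hx =>
    hall x (Multiset.mem_cons_of_mem (Multiset.mem_cons_of_mem hx))
  have hoddp : Odd (e + 1) := hee.add_one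
  have hoddm : Odd (e - 1) := by
    obtain ⟨s, hs⟩ := hee
    exact ⟨s - 1, by omega⟩
  have hne1 : ∀ x, Even x → x ≠ e + 1 := fun x hx h => (Nat.not_even_iff_odd.2 hoddp) (h ▸ hx)
  have hne2 : ∀ x, Even x → x ≠ e - 1 := fun x hx h => (Nat.not_even_iff_odd.2 hoddm) (h ▸ hx)
  have hcnt0 : ∀ x, Even x → Even (μ₀.count x) := by
    intro x hx
    have h3 := hev x hx
    by_cases h4 : x = e
    · subst h4
      rw [Multiset.count_cons_self, Multiset.count_cons_self] at h3
      obtain ⟨s, hs⟩ := h3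
      exact ⟨s - 1, by omega⟩
    · rwa [Multiset.count_cons_of_ne h4, Multiset.count_cons_of_ne h4] at h3
  have hμ' : ∀ x ∈ (e + 1) ::ₘ (e - 1) ::ₘ μ₀, 0 < x ∧ x ≤ p := by
    intro x hx
    rw [Multiset.mem_cons, Multiset.mem_cons] at hx
    rcases hx with rfl | rfl | hx
    · omega
    · omega
    · exact hμ₀ x hx
  have hev' : ∀ x, Even x → Even (((e + 1) ::ₘ (e - 1) ::ₘ μ₀).count x) := by
    intro x hx
    rw [Multiset.count_cons_of_ne (hne1 x hx), Multiset.count_cons_of_ne (hne2 x hx)]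
    exact hcnt0 x hx
  have hsum' : ((e + 1) ::ₘ (e - 1) ::ₘ μ₀).sum = Fintype.card ι := by
    rw [← hsum]
    simp only [Multiset.sum_cons]
    omega
  obtain ⟨ν', hν1, hν2, hν3⟩ := nec_sub_odd hp Q hQ m hm H _ hμ' hev' hsum'
    ⟨e + 1, Multiset.mem_cons_self _ _, hoddp⟩
  by_cases ha : e + 1 ∈ ν'
  · obtain ⟨ν₁, rfl⟩ := Multiset.exists_cons_of_mem ha
    have hν₁ : ν₁ ≤ (e - 1) ::ₘ μ₀ := (Multiset.cons_le_cons_iff _).1 hν1
    by_cases hb : e - 1 ∈ ν₁
    · obtain ⟨ν₀, rfl⟩ := Multiset.exists_cons_of_mem hb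
      have hν₀ : ν₀ ≤ μ₀ := (Multiset.cons_le_cons_iff _).1 hν₁
      refine ⟨e ::ₘ e ::ₘ ν₀, Multiset.cons_le_cons _ (Multiset.cons_le_cons _ hν₀), ?_, ?_⟩
      · rw [← hν2]
        simp only [Multiset.sum_cons]
        omega
      · intro x hx
        have h3 := hν3 x hx
        rw [Multiset.count_cons_of_ne (hne1 x hx), Multiset.count_cons_of_ne (hne2 x hx)] at h3
        by_cases h4 : x = e
        · subst h4
          rw [Multiset.count_cons_self, Multiset.count_cons_self]
          obtain ⟨s, hs⟩ := h3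
          exact ⟨s + 1, by omega⟩
        · rwa [Multiset.count_cons_of_ne h4, Multiset.count_cons_of_ne h4]
    · have h3 : ν₁ ≤ μ₀ := (Multiset.le_cons_of_notMem hb).1 hν₁
      have h4 : Even ν₁.sum := even_sum_of_even _ fun x hx => hμ₀ev x (Multiset.mem_of_le h3 hx)
      rw [Multiset.sum_cons] at hν2
      rw [← hν2] at hme
      exact absurd (hoddp.add_even h4) (Nat.not_odd_iff_even.2 hme)
  · have hν₁ : ν' ≤ (e - 1) ::ₘ μ₀ := (Multiset.le_cons_of_notMem ha).1 hν1
    by_cases hb : e - 1 ∈ ν'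
    · obtain ⟨ν₀, rfl⟩ := Multiset.exists_cons_of_mem hb
      have hν₀ : ν₀ ≤ μ₀ := (Multiset.cons_le_cons_iff _).1 hν₁
      have h4 : Even ν₀.sum := even_sum_of_even _ fun x hx => hμ₀ev x (Multiset.mem_of_le hν₀ hx)
      rw [Multiset.sum_cons] at hν2
      rw [← hν2] at hme
      exact absurd (hoddm.add_even h4) (Nat.not_odd_iff_even.2 hme)
    · have h3 : ν' ≤ μ₀ := (Multiset.le_cons_of_notMem hb).1 hν₁
      exact ⟨ν', h3.trans ((Multiset.le_cons_self _ _).trans (Multiset.le_cons_self _ _)), hν2, hν3⟩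

theorem mod_four_of_le_replicate (a : ℕ) (ν : Multiset ℕ) (hν : ν ≤ Multiset.replicate a 2)
    (hev : Even (ν.count 2)) : ν.sum % 4 = 0 := by
  obtain ⟨k, _, rfl⟩ := Multiset.le_replicate_iff.1 hν
  rw [Multiset.count_replicate_self] at hev
  rw [Multiset.sum_replicate, smul_eq_mul]
  obtain ⟨s, hs⟩ := hev
  omega

theorem mod_four_of_le_cons (c a : ℕ) (hc : Odd c) (ν : Multiset ℕ) (hν : ν ≤ c ::ₘ Multiset.replicate a 2)
    (hme : Even ν.sum) (hev : Even (ν.count 2)) : ν.sum % 4 = 0 := by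
  classical
  by_cases h : c ∈ ν
  · obtain ⟨ν₁, rfl⟩ := Multiset.exists_cons_of_mem h
    have h1 : ν₁ ≤ Multiset.replicate a 2 := (Multiset.cons_le_cons_iff _).1 hν
    obtain ⟨k, _, rfl⟩ := Multiset.le_replicate_iff.1 h1
    rw [Multiset.sum_cons, Multiset.sum_replicate, smul_eq_mul] at hme
    exfalso
    have h3 : Even (k * 2) := even_two.mul_left k
    exact absurd (hc.add_even h3) (Nat.not_odd_iff_even.2 hme)
  · exact mod_four_of_le_replicate a ν ((Multiset.le_cons_of_notMem h).1 hν) hev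

theorem sum_eq_of_parts (ν : Multiset ℕ) (h : ∀ e ∈ ν, e = 1 ∨ e = 2) :
    ν.sum = ν.count 1 + 2 * ν.count 2 := by
  classical
  induction ν using Multiset.induction_on with
  | empty => simp
  | cons a s ih =>
    have h1 := ih fun e he => h e (Multiset.mem_cons_of_mem he)
    rcases h a (Multiset.mem_cons_self a s) with rfl | rfl
    · simp only [Multiset.sum_cons, Multiset.count_cons_self, Multiset.count_cons_of_ne (show (2 : ℕ) ≠ 1 by decide)]
      omega
    · simp only [Multiset.sum_cons, Multiset.count_cons_self, Multiset.count_cons_of_ne (show (1 : ℕ) ≠ 2 by decide)]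
      omega

/-- A subspace of dimension divisible by `4` invariant under the element of type `(1, 1, 2, ..., 2)` is of plus type. -/
theorem isPlus_of_two_ones [Fintype F] (h2 : (2 : F) ≠ 0)
    (Q : QuadraticForm F (ι → F)) (hQ : ND Q) (x : GL ι F) (hx : x ∈ Cfsg.isometryGroup F ⇑Q) (a : ℕ)
    (hμ : ∀ k, finrank F (LinearMap.range (NN (glEquiv x) ^ k)) =
      ((1 ::ₘ 1 ::ₘ Multiset.replicate a 2).map (· - k)).sum)
    (W : Submodule F (ι → F)) (hW : Cfsg.Geo.IsNondegenerateOn (polar ⇑Q) W)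
    (hinv : W.map (Matrix.toLin' (x : Matrix ι ι F)) ≤ W) (hm : finrank F W % 4 = 0) :
    Cfsg.Geo.IsPlusTypeOn (⇑Q) W := by
  classical
  set N := NN (glEquiv x) with hN
  have hN2 : N ^ 2 = 0 := by
    have h3 := hμ 2
    have h4 : ((1 ::ₘ 1 ::ₘ Multiset.replicate a 2).map (· - 2)).sum = 0 := by
      simp [Multiset.map_replicate]
    rw [h4, Submodule.finrank_eq_zero, LinearMap.range_eq_bot] at h3
    exact h3
  obtain ⟨ν, h1, h3, h4, h5⟩ := forward_GL h2 Q hQ x hx _ hμ W hW hinv
  rw [← hN] at h5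
  have hparts : ∀ e ∈ ν, e = 1 ∨ e = 2 := by
    intro e he
    have h6 := Multiset.mem_of_le h1 he
    rw [Multiset.mem_cons, Multiset.mem_cons] at h6
    rcases h6 with rfl | rfl | h6
    · left; rfl
    · left; rfl
    · right
      exact Multiset.eq_of_mem_replicate h6
  have hsum' := sum_eq_of_parts ν hparts
  have hc1 : ν.count 1 ≤ 2 := by
    have h6 := Multiset.count_le_of_le 1 h1
    rw [Multiset.count_cons_self, Multiset.count_cons_self, Multiset.count_replicate, if_neg (by decide)] at h6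
    omega
  have hr2 : rk N W 2 = 0 := by
    rw [rk, hN2, Submodule.finrank_eq_zero]
    ext y
    simp
  have hr3 : rk N W 3 = 0 := by
    rw [rk, show (3 : ℕ) = 1 + 2 by norm_num, pow_add, hN2, mul_zero, Submodule.finrank_eq_zero]
    ext y
    simp
  have hr0 : rk N W 0 = finrank F W := by
    simp only [rk]
    have h7 : (N ^ 0 : (ι → F) →ₗ[F] (ι → F)) = LinearMap.id := rfl
    rw [h7, Submodule.map_id]
  have c1 := h5 0
  have c2 := h5 1
  simp only [show (0 + 1 : ℕ) = 1 from rfl, show (0 + 2 : ℕ) = 2 from rfl, show (1 + 2 : ℕ) = 3 from rfl,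
    show (1 + 1 : ℕ) = 2 from rfl, hr0, hr2, hr3] at c1 c2
  have hev2 := h4 2 ⟨1, rfl⟩
  obtain ⟨s, hs⟩ := hev2
  have hmain : 2 * rk N W 1 = finrank F W := by
    omega
  refine ⟨W.map N, ?_, ?_, ?_⟩
  · rintro _ ⟨w, hw, rfl⟩
    exact W.sub_mem (hinv ⟨w, hw, rfl⟩) hw
  · rintro _ ⟨w, hw, rfl⟩
    have hfix : glEquiv x (N w) = N w := by
      have h7 : N (N w) = 0 := by
        rw [← Module.End.mul_apply, ← pow_two, hN2]
        rfl
      exact sub_eq_zero.1 h7
    have hu : ∀ a b, polar ⇑Q (glEquiv x a) (glEquiv x b) = polar ⇑Q a b := by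
      intro a b
      have h3 : ∀ v, Q (glEquiv x v) = Q v := fun v => (mem_isometryGroup _ _).1 hx v
      simp only [polar, ← map_add, h3]
    have h8 : polar ⇑Q (N w) (N w) = 0 := by
      have h9 : N w = glEquiv x w - w := rfl
      have h10 : polar ⇑Q (glEquiv x w) (N w) = polar ⇑Q w (N w) := by
        conv_lhs => rw [← hfix]
        exact hu _ _
      have h11 : polar ⇑Q (glEquiv x w - w) (N w) = polar ⇑Q (glEquiv x w) (N w) - polar ⇑Q w (N w) :=
        LinearMap.map_sub₂ (polarBilin Q) _ _ _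
      rw [← h9] at h11
      rw [h11, h10, sub_self]
    rw [Cfsg.Agent.Lib.QuadFF.polar_self_eq] at h8
    exact (mul_eq_zero.1 h8).resolve_left h2
  · have h7 : rk N W 1 = finrank F (W.map N) := by
      rw [rk, pow_one]
    rw [← h7]
    exact hmain

end comb

end Cfsg.Agent.Lib.JWall99
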