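import Mathlib
import Cfsg.Agent.Lib.EvTwoP99
import Cfsg.Agent.Lib.EvMain99
import Cfsg.Agent.Lib.EvUni99
import Cfsg.Agent.Lib.JWall99

/-!
# Elusive statement for subspaces of `Ω⁺`: the parts for `r = p`, `r = 2`, and the numerics
-/

set_option autoImplicit false
set_option linter.unusedSectionVars false
set_option linter.unusedSimpArgs false
set_option linter.unusedVariables false

namespace Cfsg.Agent.Lib.EvP99

open Module QuadraticMap Matrix
open scoped MatrixGroups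
open Cfsg.Agent.Lib.QuadFF Cfsg.Agent.Lib.IsomBlock Cfsg.Agent.Lib.HypEll Cfsg.Agent.Lib.EvT99 Cfsg.Agent.Lib.EvBlock99
open Cfsg.Agent.Lib.OrthoCount Cfsg.Agent.Lib.OrthMatrix Cfsg.Agent.Lib.EvElt99 Cfsg.Agent.Lib.EvTwo99 Cfsg.Agent.Lib.EvTwoP99
open Cfsg.Agent.Lib.EvMain99 Cfsg.Agent.Lib.EvCount99 Cfsg.Agent.Lib.EvUni99 Cfsg.Agent.Lib.HypLevi

variable (F : Type*) [Field F] [Fintype F]

/-- The left-hand side of the statements in the language of types. -/
def ElusiveP (d m r : ℕ) (η : Bool) : Prop :=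
  ∀ x : GL (Fin d ⊕ Fin d) F, x ∈ Cfsg.Geo.omegaGL ⇑(qPlus d F) →
    (∃ z : F, ((x ^ r : GL (Fin d ⊕ Fin d) F) : Matrix (Fin d ⊕ Fin d) (Fin d ⊕ Fin d) F) = z • (1 : Matrix (Fin d ⊕ Fin d) (Fin d ⊕ Fin d) F)) →
    (∀ z : F, (x : Matrix (Fin d ⊕ Fin d) (Fin d ⊕ Fin d) F) ≠ z • (1 : Matrix (Fin d ⊕ Fin d) (Fin d ⊕ Fin d) F)) →
    ∃ W : Submodule F (Fin d ⊕ Fin d → F), (finrank F W = m ∧ IsT (qPlus d F) W η) ∧
      InvOn (Matrix.toLin' (x : Matrix (Fin d ⊕ Fin d) (Fin d ⊕ Fin d) F)) W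

variable {F} {d m r : ℕ}

/-- Characteristic `p`: there are unipotent elements fixing no elliptic subspace. -/
theorem not_elusive_p (p : ℕ) [Fact p.Prime] [CharP F p] (hd : 4 ≤ d) (hme : Even m) : ¬ ElusiveP F d m p true := by
  intro H
  obtain ⟨x, hx, h1, h3, h4⟩ := exists_uni (F := F) p hd
  obtain ⟨W, ⟨h5, h6⟩, h7⟩ := H x hx ⟨1, by rw [h1]; simp⟩ (Cfsg.Agent.Lib.JWall99.not_scalar_of_pow h1 h3)
  obtain ⟨a, ha⟩ := hme
  obtain ⟨U, hUW, hU, hUd⟩ := h4 W a h7 (by omega)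
  exact not_hyp_of_ell' h6 ⟨h6.nd, U, hUW, hU, by omega⟩

theorem exists_v (h2 : (2 : F) ≠ 0) (hd : 4 ≤ d) : ∃ v, qPlus d F v ≠ 0 := by
  have hV := isT_plus_top (F := F) d
  have hne : (⊤ : Submodule F (Fin d ⊕ Fin d → F)) ≠ ⊥ := by
    intro h
    have h5 := finrank_top F (Fin d ⊕ Fin d → F)
    rw [h, finrank_bot, finrank_plus] at h5
    omega
  obtain ⟨v, _, hv⟩ := exists_nonsingular h2 hV.nd hne
  exact ⟨v, hv⟩

/-- There is a vector of nonzero value in all characteristics. -/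
theorem exists_v' (hd : 4 ≤ d) : ∃ v, qPlus d F v ≠ 0 := by
  let j : Fin d := ⟨0, by omega⟩
  refine ⟨Pi.single (Sum.inl j) 1 + Pi.single (Sum.inr j) 1, ?_⟩
  rw [Cfsg.Agent.S5985.hf_plus, Cfsg.Agent.S5985.q_plus_eq]
  have : ((Pi.single (Sum.inl j) 1 + Pi.single (Sum.inr j) 1 : Fin d ⊕ Fin d → F) ∘ Sum.inl) ⬝ᵥ
      ((Pi.single (Sum.inl j) 1 + Pi.single (Sum.inr j) 1 : Fin d ⊕ Fin d → F) ∘ Sum.inr) = 1 := by
    simp [dotProduct, Pi.single_apply, Function.comp_def]
  rw [this]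
  exact one_ne_zero

theorem neg_one_sq_iff {q : ℕ} (hq : Fintype.card F = q) : (∃ i : F, i * i = -1) ↔ q % 4 ≠ 3 := by
  rw [← hq, ← FiniteField.isSquare_neg_one_iff]
  constructor
  · rintro ⟨i, hi⟩
    exact ⟨i, hi.symm⟩
  · rintro ⟨i, hi⟩
    exact ⟨i, hi.symm⟩

/-- When a square root of `-1` with square determinant exists, no elusiveness. -/
theorem not_elusive_i (h2 : (2 : F) ≠ 0) (hd : 4 ≤ d) (hme : Even m) {i : F} (hi : i * i = -1) (hs : IsSquare (i ^ d)) :
    ¬ ElusiveP F d m 2 true := by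
  intro H
  obtain ⟨x, hx, hx2, hnon, hJ⟩ := exists_lev hd h2 (scalarGL d hi) (scalarGL_sq hi) (by rw [scalarGL_det]; exact hs)
  obtain ⟨W, ⟨h5, h6⟩, h7⟩ := H x hx ⟨-1, hx2⟩ hnon
  obtain ⟨a, ha⟩ := hme
  obtain ⟨U, hUW, hU, hUd⟩ := ts_half_of_i h2 hi (hT_of_omega hx) hJ h7 (a := a) (by omega)
  exact not_hyp_of_ell' h6 ⟨h6.nd, U, hUW, hU, by omega⟩

theorem not_elusive_J (h2 : (2 : F) ≠ 0) (hd : 4 ≤ d) (hde : Even d) (hsq : ∀ c : F, c * c ≠ -1) (hm4 : m % 4 = 0) :
    ¬ ElusiveP F d m 2 true := by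
  intro H
  obtain ⟨A, hA, hdet⟩ := exists_J_matrix (F := F) hde
  let B : GL (Fin d) F := ⟨A, -A, by rw [mul_neg, hA, neg_neg], by rw [neg_mul, hA, neg_neg]⟩
  obtain ⟨x, hx, hx2, hnon, hJ⟩ := exists_lev hd h2 B hA (by
    show IsSquare A.det
    rw [hdet]
    exact ⟨1, by simp⟩)
  obtain ⟨W, ⟨h5, h6⟩, h7⟩ := H x hx ⟨-1, hx2⟩ hnon
  obtain ⟨a, ha, hta⟩ := type_J h2 hsq (hT_of_omega hx) hJ m W h5 h6.nd h7
  have h8 : a.bodd = false := by
    rw [bodd_false_iff]
    exact ⟨a / 2, by omega⟩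
  rw [h8] at hta
  exact absurd (hta.uniq h6) (by decide)

/-- The forward statement for involutions. -/
theorem two_forward {q : ℕ} (hq : Fintype.card F = q) (h2 : (2 : F) ≠ 0) (hd : 4 ≤ d) (hme : Even m)
    (H : ElusiveP F d m 2 true) : (Even d ∧ q % 4 = 3 ∧ m % 4 = 2) ∨ (Odd d ∧ q % 8 ≠ 1) := by
  by_contra hno
  push Not at hno
  obtain ⟨h1, h3⟩ := hno
  rcases Nat.even_or_odd d with hde | hdo
  · by_cases hq4 : q % 4 = 3
    · refine not_elusive_J h2 hd hde ?_ ?_ H
      · intro c hc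
        exact ((neg_one_sq_iff hq).1 ⟨c, hc⟩) hq4
      · have := h1 hde hq4
        obtain ⟨a, ha⟩ := hme
        omega
    · obtain ⟨i, hi⟩ := (neg_one_sq_iff hq).2 hq4
      exact not_elusive_i h2 hd hme hi (hde.isSquare_pow i) H
  · have h8 := h3 hdo
    have hq4 : q % 4 ≠ 3 := by omega
    obtain ⟨i, hi⟩ := (neg_one_sq_iff hq).2 hq4
    have hs : IsSquare i := (isSquare_i_iff h2 hi).2 (by rw [hq]; exact h8)
    exact not_elusive_i h2 hd hme hi (hs.pow d) H

/-- The backward statement for involutions. -/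
theorem two_backward {q : ℕ} (hq : Fintype.card F = q) (h2 : (2 : F) ≠ 0) (hd : 4 ≤ d) (hme : Even m) (hm0 : 0 < m) (hmd : m < d)
    (hrhs : (Even d ∧ q % 4 = 3 ∧ m % 4 = 2) ∨ (Odd d ∧ q % 8 ≠ 1)) : ElusiveP F d m 2 true := by
  intro x hx ⟨z, hz⟩ hne
  obtain ⟨v₀, hv₀⟩ := exists_v (F := F) h2 hd
  have hxi := mem_iso_of_omega hx
  have hzz := scalar_sq (Subgroup.pow_mem _ hxi 2) hz hv₀
  set T := Matrix.toLin' (x : Matrix (Fin d ⊕ Fin d) (Fin d ⊕ Fin d) F) with hTdef
  have hT : ∀ v, qPlus d F (T v) = qPlus d F v := hT_of_omega hx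
  have hV := isT_plus_top (F := F) d
  have hT2 : T ^ 2 = z • 1 := by
    rw [hTdef, EvElt99.toLin_pow, ← Units.val_pow_eq_pow_val, hz, map_smul, Matrix.toLin'_one]
    rfl
  have hfr := finrank_plus (F := F) d
  rcases mul_self_eq_one_iff.1 hzz with rfl | rfl
  · rw [one_smul] at hT2
    obtain ⟨W, h1, h3, h4⟩ := back_invol h2 hV.nd hT hT2 hme hm0 (by rw [hfr]; omega) true
    exact ⟨W, ⟨h3, h1⟩, h4⟩
  · have hJ : ∀ v, T (T v) = -v := by
      intro v
      have h1 : (T ^ 2) v = T (T v) := by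
        rw [pow_two]
        rfl
      rw [← h1, hT2]
      simp
    rcases hrhs with ⟨hde, hq4, hm4⟩ | ⟨hdo, hq8⟩
    · have hsq : ∀ c : F, c * c ≠ -1 := fun c hc => ((neg_one_sq_iff hq).1 ⟨c, hc⟩) hq4
      obtain ⟨a, ha⟩ := hme
      obtain ⟨W, _, h1, h3, h4⟩ := exists_J_sub h2 hsq hT hJ a ⊤ hV.nd (fun u _ => trivial) (by rw [finrank_top, hfr]; omega)
      obtain ⟨a', ha', hta⟩ := type_J h2 hsq hT hJ _ W h4 h1 h3
      have h8 : a'.bodd = true := by
        rw [bodd_true_iff]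
        exact ⟨a' / 2, by omega⟩
      rw [h8] at hta
      exact ⟨W, ⟨by omega, hta⟩, h3⟩
    · exact (no_J hd hdo h2 (by rw [hq]; exact hq8) hx hJ).elim

/-! ### Numerics -/

/-- Backward conditions, `i` odd. -/
theorem back_cond_odd {c n m : ℕ} (hl : 0 < m % c) (hk : m % c < n % c) :
    ∀ (s f : ℕ) (γ : Bool), n = f + c * s → xor γ false = false → (f = 0 → γ = false) →
      (0 < m % c → m / c ≤ s → (m % c < f ∨ (m % c = f ∧ xor γ false = true))) ∧
      (m % c = 0 → m / c ≤ s → (false = true ∨ c < f ∨ (c = f ∧ xor γ false = true))) := by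
  intro s f γ h1 _ _
  have hk' : n % c ≤ f := by
    rw [h1, Nat.add_mul_mod_self_left]
    exact Nat.mod_le _ _
  constructor
  · intro _ _
    left
    omega
  · intro h
    omega

theorem xor_false_eq {γ b : Bool} (h : xor γ b = false) : γ = b := by
  cases γ <;> cases b <;> simp_all

theorem odd_add_iff_xor {a b : ℕ} (h : Odd (a + b)) : xor a.bodd b.bodd = true := by
  rw [← Nat.bodd_add, bodd_true_iff]
  exact h

/-- Backward conditions, `i` even. -/
theorem back_cond_even {c n m : ℕ} (hc0 : 0 < c) (hm0 : 0 < m)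
    (h : (n % c = 0 ∧ (Odd (n / c) ∨ (m % c = 0 ∧ Odd (m / c)))) ∨
      ((0 < m % c ∧ m % c < n % c) ∨ (0 < m % c ∧ m % c = n % c ∧ Odd ((n + m - 2 * (n % c)) / c)) ∨
        (m % c = 0 ∧ 0 < n % c ∧ Odd (m / c)))) :
    ∀ (s f : ℕ) (γ : Bool), n = f + c * s → xor γ s.bodd = false → (f = 0 → γ = false) →
      (0 < m % c → m / c ≤ s → (m % c < f ∨ (m % c = f ∧ xor γ (m / c).bodd = true))) ∧
      (m % c = 0 → m / c ≤ s → ((m / c).bodd = true ∨ c < f ∨ (c = f ∧ xor γ (m / c - 1).bodd = true))) := by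
  intro s f γ h1 h3 h4
  have hγ := xor_false_eq h3
  subst hγ
  have hn := Nat.div_add_mod n c
  have hf := Nat.div_add_mod f c
  have hm' := Nat.div_add_mod m c
  have h5 : n % c = f % c := by rw [h1, Nat.add_mul_mod_self_left]
  set k₀ := n % c with hk₀
  set s₀ := n / c with hs₀
  set l := m % c with hl
  set t₀ := m / c with ht₀
  set u := f / c with hu
  have hlc : l < c := Nat.mod_lt _ hc0
  have hkc : k₀ < c := Nat.mod_lt _ hc0
  have hfu : f = k₀ + c * u := by omega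
  have hs₀u : s₀ = s + u := by
    apply Nat.eq_of_mul_eq_mul_left hc0
    rw [Nat.mul_add]
    have : c * (s + u) = c * s + c * u := Nat.mul_add _ _ _
    omega
  have hle : c * 1 ≤ c * u ∨ u = 0 := by
    rcases Nat.eq_zero_or_pos u with h0 | h0
    · exact Or.inr h0
    · exact Or.inl (Nat.mul_le_mul_left _ h0)
  rw [Nat.mul_one] at hle
  have hcu : 0 < u → c ≤ c * u := fun h0 => by
    calc c = c * 1 := (Nat.mul_one c).symm
      _ ≤ c * u := Nat.mul_le_mul_left _ h0
  have hs₀even : k₀ = 0 → Odd s₀ → 0 < u := by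
    intro h0 h6
    apply Nat.pos_of_ne_zero
    intro h7
    have h8 : f = 0 := by rw [hfu, h0, h7]; simp
    have h9 : s.bodd = false := h4 h8
    rw [h7, add_zero] at hs₀u
    rw [hs₀u] at h6
    rw [← bodd_true_iff] at h6
    rw [h9] at h6
    exact absurd h6 (by decide)
  have htdiv : ∀ (_ : l = k₀), (n + m - 2 * k₀) / c = s₀ + t₀ := by
    intro h6
    have h7 : n + m - 2 * k₀ = c * (s₀ + t₀) := by
      rw [Nat.mul_add]
      omega
    rw [h7, Nat.mul_div_cancel_left _ hc0]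
  constructor
  · intro hl0 hts
    rcases h with ⟨h0, h6 | ⟨h6, _⟩⟩ | h | ⟨h6, h7, h8⟩ | ⟨h6, _⟩
    · have := hcu (hs₀even h0 h6)
      left
      omega
    · omega
    · left
      omega
    · rw [htdiv h7] at h8
      rcases Nat.eq_zero_or_pos u with h0 | h0
      · right
        refine ⟨by rw [hfu, h0]; simpa using h7, ?_⟩
        rw [h0, add_zero] at hs₀u
        rw [← hs₀u]
        exact odd_add_iff_xor h8
      · have := hcu h0
        left
        omega
    · omega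
  · intro hl0 hts
    have ht0 : 0 < t₀ := by
      apply Nat.pos_of_ne_zero
      intro h6
      rw [h6, hl0] at hm'
      simp at hm'
      omega
    rcases h with ⟨h0, h6 | ⟨_, h6⟩⟩ | ⟨h6, _⟩ | ⟨h6, _⟩ | ⟨_, _, h6⟩
    · have hu0 := hs₀even h0 h6
      rcases Nat.lt_or_ge 1 u with h7 | h7
      · right
        left
        have h8 : c * 2 ≤ c * u := Nat.mul_le_mul_left _ h7
        rw [hfu]
        omega
      · have hu1 : u = 1 := by omega
        by_cases h8 : t₀.bodd = true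
        · exact Or.inl h8
        · right
          right
          refine ⟨by rw [hfu, hu1, h0]; simp, ?_⟩
          have h9 : s.bodd = false := by
            rw [hu1] at hs₀u
            rw [hs₀u, ← bodd_true_iff, Nat.bodd_add] at h6
            revert h6
            cases s.bodd <;> simp
          rw [h9]
          have h10 : t₀ = (t₀ - 1) + 1 := by omega
          rw [Bool.not_eq_true] at h8
          rw [h10, Nat.bodd_add] at h8
          revert h8
          cases (t₀ - 1).bodd <;> simp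
    · exact Or.inl (bodd_true_iff.2 h6)
    · omega
    · omega
    · exact Or.inl (bodd_true_iff.2 h6)

/-- A multiple of `c` from the count. -/
theorem mult_exists {c i d m : ℕ} (hc : (Even i ∧ c = i) ∨ (¬ Even i ∧ c = 2 * i)) (hme : Even m) (hmd : m < d)
    (hcount : i ∣ d ∨ i ∣ (d - m / 2) ∨ ∃ j, d - m / 2 < j ∧ j ≤ d - 1 ∧ i ∣ 2 * j) :
    ∃ e, c ∣ e ∧ 2 * d - m ≤ e ∧ e ≤ 2 * d ∧ 0 < e := by
  obtain ⟨a, ha⟩ := hme
  have h2 : ∀ e, i ∣ e → c ∣ 2 * e := by
    intro e he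
    rcases hc with ⟨_, rfl⟩ | ⟨_, rfl⟩
    · exact he.mul_left 2
    · exact mul_dvd_mul_left 2 he
  rcases hcount with h | h | ⟨j, h1, h3, h⟩
  · exact ⟨2 * d, h2 d h, by omega, le_rfl, by omega⟩
  · exact ⟨2 * (d - m / 2), h2 _ h, by omega, by omega, by omega⟩
  · refine ⟨2 * j, ?_, by omega, by omega, by omega⟩
    rcases hc with ⟨_, rfl⟩ | ⟨ho, rfl⟩
    · exact h
    · apply mul_dvd_mul_left 2
      have : Nat.Coprime i 2 := by
        rw [Nat.coprime_comm, Nat.coprime_two_left]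
        exact Nat.not_even_iff_odd.1 ho
      exact this.dvd_of_dvd_mul_left h

theorem s0_k0 {c n m e : ℕ} (hc0 : 0 < c) (he : c ∣ e) (h1 : n - m ≤ e) (h3 : e ≤ n) (h0 : 0 < e) (hmn : m ≤ n) :
    0 < n / c ∧ n % c ≤ m := by
  obtain ⟨w, rfl⟩ := he
  have hw : 0 < w := Nat.pos_of_ne_zero (by rintro rfl; simp at h0)
  have hws : w ≤ n / c := by
    rw [Nat.le_div_iff_mul_le hc0, mul_comm]
    exact h3
  have h5 : c * w ≤ c * (n / c) := Nat.mul_le_mul_left _ hws
  have := Nat.div_add_mod n c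
  exact ⟨by omega, by omega⟩

/-- The forward conclusion for `i` odd. -/
theorem fwd_odd {c n m : ℕ} (hc0 : 0 < c) (hk : n % c ≤ m) (h1 : m % c ≤ n % c) (h0 : m % c = 0 → (true : Bool) = false)
    (h3 : m % c = n % c → (true : Bool) = false) : c ≤ m ∧ 0 < m % c ∧ m % c < n % c := by
  have h5 : m % c ≠ 0 := fun h => absurd (h0 h) (by decide)
  have h6 : m % c ≠ n % c := fun h => absurd (h3 h) (by decide)
  refine ⟨?_, by omega, by omega⟩
  by_contra h7
  push Not at h7
  rw [Nat.mod_eq_of_lt h7] at h1 h5 h6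
  omega

/-- The forward conclusion for `i` even. -/
theorem fwd_even {c n m d : ℕ} (hc0 : 0 < c) (hn : n = 2 * d) (hm0 : 0 < m) (hme : Even m) (hmd : m < d) (hk : n % c ≤ m)
    (hcount : c ∣ d ∨ c ∣ (d - m / 2) ∨ ∃ j, d - m / 2 < j ∧ j ≤ d - 1 ∧ c ∣ 2 * j)
    (h1 : m % c ≤ n % c) (h0 : m % c = 0 → true = (m / c).bodd)
    (h3 : m % c = n % c → true = xor (xor false (n / c).bodd) (m / c).bodd) :
    (n % c = 0 ∧ (m % c = 0 ∧ Odd (m / c))) ∨
      (c ≤ m ∧ ((0 < m % c ∧ m % c < n % c) ∨ (0 < m % c ∧ m % c = n % c ∧ Odd ((n + m - 2 * (n % c)) / c)) ∨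
        (m % c = 0 ∧ 0 < n % c ∧ Odd (m / c)))) := by
  have hn' := Nat.div_add_mod n c
  have hm' := Nat.div_add_mod m c
  set k₀ := n % c with hk₀
  set s₀ := n / c with hs₀
  set l := m % c with hl
  set t₀ := m / c with ht₀
  have hlc : l < c := Nat.mod_lt _ hc0
  have hkc : k₀ < c := Nat.mod_lt _ hc0
  rcases Nat.eq_zero_or_pos k₀ with hk0 | hk0
  · left
    have hl0 : l = 0 := by omega
    exact ⟨hk0, hl0, bodd_true_iff.1 (h0 hl0).symm⟩
  · right
    rcases Nat.eq_zero_or_pos l with hl0 | hl0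
    · have ht : 0 < t₀ := by
        apply Nat.pos_of_ne_zero
        intro h6
        rw [h6, hl0] at hm'
        simp at hm'
        omega
      have hcm : c ≤ m := by
        have : c * 1 ≤ c * t₀ := Nat.mul_le_mul_left _ ht
        omega
      exact ⟨hcm, Or.inr (Or.inr ⟨hl0, hk0, bodd_true_iff.1 (h0 hl0).symm⟩)⟩
    · rcases Nat.lt_or_ge l k₀ with hlt | hge
      · refine ⟨?_, Or.inl ⟨hl0, hlt⟩⟩
        by_contra h7
        push Not at h7
        have : l = m := Nat.mod_eq_of_lt h7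
        omega
      · have hlk : l = k₀ := by omega
        have h5 := h3 hlk
        have h8 : xor s₀.bodd t₀.bodd = true := by
          revert h5
          cases s₀.bodd <;> cases t₀.bodd <;> simp
        have h9 : Odd (s₀ + t₀) := by
          rw [← bodd_true_iff, Nat.bodd_add]
          exact h8
        have h7' : n + m - 2 * k₀ = c * (s₀ + t₀) := by
          rw [Nat.mul_add]
          omega
        have h10 : (n + m - 2 * k₀) / c = s₀ + t₀ := by
          rw [h7', Nat.mul_div_cancel_left _ hc0]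
        refine ⟨?_, Or.inr (Or.inl ⟨hl0, hlk, by rw [h10]; exact h9⟩)⟩
        by_contra h7
        push Not at h7
        have hml : l = m := Nat.mod_eq_of_lt h7
        have ht0 : t₀ = 0 := Nat.div_eq_of_lt h7
        rw [ht0] at h9
        rw [add_zero] at h9
        have hnm : n - m = c * s₀ := by omega
        rcases hcount with h | h | ⟨j, h11, h12, h⟩
        · have : c ∣ n := by
            rw [hn]
            exact h.mul_left 2
          have : k₀ = 0 := Nat.mod_eq_zero_of_dvd this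
          omega
        · obtain ⟨w, hw⟩ := h
          have h13 : c * s₀ = c * (2 * w) := by
            obtain ⟨a, ha⟩ := hme
            have : m / 2 = a := by omega
            rw [this] at hw
            have h14 : c * (2 * w) = 2 * (c * w) := by ring
            rw [h14, ← hw]
            omega
          have := Nat.eq_of_mul_eq_mul_left hc0 h13
          rw [this] at h9
          exact (Nat.not_even_iff_odd.2 h9) (even_two_mul w)
        · obtain ⟨w, hw⟩ := h
          have hj1 : 2 * j < n := by omega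
          have hj2 : n - m < 2 * j := by
            obtain ⟨a, ha⟩ := hme
            have : m / 2 = a := by omega
            omega
          rw [hnm, hw] at hj2
          have h13 : s₀ < w := Nat.lt_of_mul_lt_mul_left hj2
          have h14 : c * (s₀ + 1) ≤ c * w := Nat.mul_le_mul_left _ h13
          rw [Nat.mul_add, Nat.mul_one] at h14
          omega

end Cfsg.Agent.Lib.EvP99
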