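import Mathlib
import Cfsg.Agent.Lib.EvP99

/-!
# Invariant subspaces for involutions in characteristic two, and planes
-/

set_option autoImplicit false
set_option linter.unusedSectionVars false
set_option linter.unusedSimpArgs false
set_option linter.unusedVariables false

universe u

namespace Cfsg.Agent.Lib.EvInv99

open Module QuadraticMap
open Cfsg.Agent.Lib.QuadFF Cfsg.Agent.Lib.IsomBlock Cfsg.Agent.Lib.HypEll Cfsg.Agent.Lib.EvT99 Cfsg.Agent.Lib.EvBlock99

variable {F : Type*} [Field F] [Fintype F] {V : Type u} [AddCommGroup V] [Module F V] [FiniteDimensional F V]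
variable {Q : QuadraticForm F V} {T : V →ₗ[F] V}

theorem plane_nd {a b : V} (haa : polar Q a a = 0) (hab : polar Q a b ≠ 0) :
    NDOn (Bf Q) (Submodule.span F {a, b}) ∧ finrank F (Submodule.span F {a, b}) = 2 := by
  have hba : polar Q b a = polar Q a b := polar_comm _ _ _
  constructor
  · intro u hu h0
    obtain ⟨s, t, rfl⟩ := Submodule.mem_span_pair.1 hu
    have h1 := h0 a (Submodule.subset_span (by simp))
    have h3 := h0 b (Submodule.subset_span (by simp))
    rw [Bf_apply, polar_add_left, polar_sm_l, polar_sm_l, haa, hba] at h1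
    rw [Bf_apply, polar_add_left, polar_sm_l, polar_sm_l] at h3
    have ht : t = 0 := by
      have : t * polar Q a b = 0 := by simpa using h1
      exact (mul_eq_zero.1 this).resolve_right hab
    have hs : s = 0 := by
      have : s * polar Q a b = 0 := by simpa [ht] using h3
      exact (mul_eq_zero.1 this).resolve_right hab
    rw [hs, ht]
    simp
  · apply finrank_pair
    intro s t hst
    have h1 := congrArg (polar Q a) hst
    have h3 := congrArg (polar Q b) hst
    rw [polar_add_right, polar_sm_r, polar_sm_r, haa] at h1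
    rw [polar_add_right, polar_sm_r, polar_sm_r, hba] at h3
    simp only [polar_zero_right] at h1 h3
    have ht : t = 0 := by
      have : t * polar Q a b = 0 := by simpa using h1
      exact (mul_eq_zero.1 this).resolve_right hab
    have hs : s = 0 := by
      have : s * polar Q a b = 0 := by simpa [ht] using h3
      exact (mul_eq_zero.1 this).resolve_right hab
    exact ⟨hs, ht⟩

theorem hyp_of_singular {a b : V} (ha : Q a = 0) (hab : polar Q a b ≠ 0) :
    Hyp Q (Submodule.span F {a, b}) ∧ finrank F (Submodule.span F {a, b}) = 2 := by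
  have haa : polar Q a a = 0 := by rw [polar_self_eq, ha]; simp
  obtain ⟨h1, h3⟩ := plane_nd (Q := Q) haa hab
  have ha0 : a ≠ 0 := by
    rintro rfl
    simp at hab
  refine ⟨⟨h1, Submodule.span F {a}, Submodule.span_mono (by simp), ?_, ?_⟩, h3⟩
  · intro v hv
    obtain ⟨c, rfl⟩ := Submodule.mem_span_singleton.1 hv
    rw [Q_sm, ha, mul_zero]
  · rw [h3, finrank_span_singleton ha0]

/-- Generators to invariance of a pair. -/
theorem inv_pair {a b : V} {W : Submodule F V} (h1 : T a ∈ W) (h3 : T b ∈ W) : ∀ u ∈ Submodule.span F {a, b}, T u ∈ W := by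
  intro u hu
  obtain ⟨s, t, rfl⟩ := Submodule.mem_span_pair.1 hu
  rw [map_add, map_smul, map_smul]
  exact W.add_mem (W.smul_mem _ h1) (W.smul_mem _ h3)

theorem orth_pair {a b c d : V} (h1 : polar Q a c = 0) (h3 : polar Q a d = 0) (h4 : polar Q b c = 0) (h5 : polar Q b d = 0) :
    Orth Q (Submodule.span F {a, b}) (Submodule.span F {c, d}) := by
  intro u hu v hv
  obtain ⟨s, t, rfl⟩ := Submodule.mem_span_pair.1 hu
  obtain ⟨s', t', rfl⟩ := Submodule.mem_span_pair.1 hv
  show polar Q _ _ = 0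
  simp only [polar_add_left, polar_add_right, polar_sm_l, polar_sm_r, h1, h3, h4, h5]
  simp

/-- Existence of a block for an isometric involution in characteristic two. -/
theorem exists_block (h2 : (2 : F) = 0) (hT : ∀ v, Q (T v) = Q v) (hT2 : ∀ v, T (T v) = v) {U : Submodule F V}
    (hU : NDOn (Bf Q) U) (hinv : InvOn T U) (hne : U ≠ ⊥) :
    ∃ B ≤ U, InvOn T B ∧ ((∃ η, IsT Q B η ∧ finrank F B = 2) ∨ (IsT Q B false ∧ finrank F B = 4)) := by
  classical
  have hself : ∀ v, polar Q v v = 0 := by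
    intro v
    rw [polar_self_eq, h2, zero_mul]
  have htype : ∀ P : Submodule F V, NDOn (Bf Q) P → finrank F P = 2 → ∃ η, IsT Q P η := by
    intro P h1 h3
    exact exists_isT h1 ⟨1, by omega⟩
  have hiso : ∀ u v, polar Q (T u) (T v) = polar Q u v := Cfsg.Agent.Lib.HypBlock.polar_iso hT
  have hadj : ∀ u v, polar Q (T u) v = polar Q u (T v) := by
    intro u v
    have := hiso u (T v)
    rwa [hT2] at this
  by_cases hc1 : ∃ v ∈ U, polar Q v (T v) ≠ 0
  · obtain ⟨v, hv, h1⟩ := hc1
    obtain ⟨h3, h4⟩ := plane_nd (Q := Q) (hself v) h1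
    obtain ⟨η, hη⟩ := htype _ h3 h4
    refine ⟨Submodule.span F {v, T v}, ?_, ?_, Or.inl ⟨η, hη, h4⟩⟩
    · rw [Submodule.span_le]
      rintro x (rfl | rfl)
      · exact hv
      · exact hinv _ hv
    · apply inv_pair
      · exact Submodule.subset_span (by simp)
      · rw [hT2]
        exact Submodule.subset_span (by simp)
  push Not at hc1
  by_cases hc2 : ∀ u ∈ U, T u = u
  · obtain ⟨u, hu, hu0⟩ := Submodule.exists_mem_ne_zero_of_ne_bot hne
    have hy : ∃ y ∈ U, polar Q u y ≠ 0 := by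
      by_contra hno
      push Not at hno
      exact hu0 (hU u hu hno)
    obtain ⟨y, hy, huy⟩ := hy
    obtain ⟨h3, h4⟩ := plane_nd (Q := Q) (hself u) huy
    obtain ⟨η, hη⟩ := htype _ h3 h4
    refine ⟨Submodule.span F {u, y}, ?_, ?_, Or.inl ⟨η, hη, h4⟩⟩
    · rw [Submodule.span_le]
      rintro x (rfl | rfl)
      · exact hu
      · exact hy
    · apply inv_pair
      · rw [hc2 u hu]
        exact Submodule.subset_span (by simp)
      · rw [hc2 y hy]
        exact Submodule.subset_span (by simp)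
  push Not at hc2
  obtain ⟨v, hv, hvne⟩ := hc2
  set b := T v - v with hb
  have hbU : b ∈ U := U.sub_mem (hinv _ hv) hv
  have hb0 : b ≠ 0 := sub_ne_zero.2 hvne
  have hc' : ∃ c ∈ U, polar Q b c ≠ 0 := by
    by_contra hno
    push Not at hno
    exact hb0 (hU b hbU hno)
  obtain ⟨c, hc, hbc⟩ := hc'
  set d := T c - c with hd
  have hdU : d ∈ U := U.sub_mem (hinv _ hc) hc
  have hneg : ∀ z : F, -z = z := by
    intro z
    have : z + z = 0 := by rw [← two_mul, h2, zero_mul]
    linear_combination -this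
  have hsing : ∀ y ∈ U, Q (T y - y) = 0 := by
    intro y hy
    have h5 : polar Q (T y) y = 0 := by
      rw [polar_comm]
      exact hc1 y hy
    rw [sub_eq_add_neg, Q_ad, QuadraticMap.map_neg, hT, polar_neg_right, h5]
    have : Q y + Q y = 0 := by rw [← two_mul, h2, zero_mul]
    simpa using this
  have hQb : Q b = 0 := hsing v hv
  have hQd : Q d = 0 := hsing c hc
  have hbd : polar Q b d = 0 := by
    rw [hb, hd, polar_sub_left, polar_sub_right, polar_sub_right, hiso, hadj v c]
    linear_combination (polar Q v c - polar Q v (T c)) * h2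
  have hvd : polar Q v d = polar Q b c := by
    rw [hb, hd]
    simp only [polar_sub_left, polar_sub_right, hadj]
  have hdc : polar Q d c = 0 := by
    rw [hd, polar_sub_left, hself, sub_zero, polar_comm]
    exact hc1 c hc
  have hvb : polar Q v b = 0 := by
    rw [hb, polar_sub_right, hself, sub_zero]
    exact hc1 v hv
  set l := polar Q b c with hl
  set μ := polar Q v c with hμ
  set a := v - (μ / l) • b with ha
  have hac : polar Q c a = 0 := by
    rw [polar_comm, ha, polar_sub_left, polar_sm_l, ← hμ, ← hl]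
    field_simp
    simp
  have hbb : polar Q b b = 0 := hself b
  have hba : polar Q b a = 0 := by
    rw [polar_comm, ha, polar_sub_left, polar_sm_l, hvb, hbb]
    simp
  have hda : polar Q d a ≠ 0 := by
    rw [polar_comm, ha, polar_sub_left, polar_sm_l, hvd, hbd, mul_zero, sub_zero]
    exact hbc
  have hdd : polar Q d d = 0 := hself d
  obtain ⟨hH1, hd1⟩ := hyp_of_singular (Q := Q) hQb hbc
  obtain ⟨hH2, hd2⟩ := hyp_of_singular (Q := Q) hQd hda
  have hOrth : Orth Q (Submodule.span F {b, c}) (Submodule.span F {d, a}) := by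
    apply orth_pair hbd hba _ hac
    rw [polar_comm]
    exact hdc
  have hnd1 : NDOn (Bf Q) (Submodule.span F {b, c}) := hH1.1
  have hmem : ∀ {y}, y ∈ Submodule.span F {b, c} → y ∈ (Submodule.span F {b, c} ⊔ Submodule.span F {d, a} : Submodule F V) :=
    fun h => Submodule.mem_sup_left h
  have hmem' : ∀ {y}, y ∈ Submodule.span F {d, a} → y ∈ (Submodule.span F {b, c} ⊔ Submodule.span F {d, a} : Submodule F V) :=
    fun h => Submodule.mem_sup_right h
  have hbB : b ∈ Submodule.span F {b, c} := Submodule.subset_span (by simp)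
  have hcB : c ∈ Submodule.span F {b, c} := Submodule.subset_span (by simp)
  have hdB : d ∈ Submodule.span F {d, a} := Submodule.subset_span (by simp)
  have haB : a ∈ Submodule.span F {d, a} := Submodule.subset_span (by simp)
  have hTb : T b = -b := by
    rw [hb, map_sub, hT2]
    abel
  have hTd : T d = -d := by
    rw [hd, map_sub, hT2]
    abel
  have hTc : T c = c + d := by
    rw [hd]
    abel
  have hTa : T a = a + ((μ / l) + 1 + (μ / l)) • b := by
    rw [ha, map_sub, map_smul, hTb]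
    have h5 : T v = v + b := by
      rw [hb]
      abel
    rw [h5, add_smul, add_smul, one_smul, smul_neg]
    abel
  refine ⟨Submodule.span F {b, c} ⊔ Submodule.span F {d, a}, ?_, ?_, Or.inr ⟨?_, ?_⟩⟩
  · apply sup_le
    · rw [Submodule.span_le]
      rintro x (rfl | rfl)
      · exact hbU
      · exact hc
    · rw [Submodule.span_le]
      rintro x (rfl | rfl)
      · exact hdU
      · exact U.sub_mem hv (U.smul_mem _ hbU)
  · intro u hu
    obtain ⟨x, hx, y, hy, rfl⟩ := Submodule.mem_sup.1 hu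
    rw [map_add]
    refine Submodule.add_mem _ (inv_pair ?_ ?_ x hx) (inv_pair ?_ ?_ y hy)
    · rw [hTb]
      exact Submodule.neg_mem _ (hmem hbB)
    · rw [hTc]
      exact Submodule.add_mem _ (hmem hcB) (hmem' hdB)
    · rw [hTd]
      exact Submodule.neg_mem _ (hmem' hdB)
    · rw [hTa]
      exact Submodule.add_mem _ (hmem' haB) (Submodule.smul_mem _ _ (hmem hbB))
  · exact IsT.sup (a := false) (b := false) hH1 hH2 hOrth
  · rw [finrank_sup_of_orth' hnd1 hOrth, hd1, hd2]

/-- The realizable invariant subspaces. -/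
def Realizes (Q : QuadraticForm F V) (T : V →ₗ[F] V) (U : Submodule F V) (h e u : ℕ) : Prop :=
  ∀ h' ≤ h, ∀ e' ≤ e, ∀ u' ≤ u, ∃ W ≤ U, InvOn T W ∧ IsT Q W e'.bodd ∧ finrank F W = 2 * h' + 2 * e' + 4 * u'

theorem exists_realizes (h2 : (2 : F) = 0) (hT : ∀ v, Q (T v) = Q v) (hT2 : ∀ v, T (T v) = v) :
    ∀ (n : ℕ) (U : Submodule F V), finrank F U = n → NDOn (Bf Q) U → InvOn T U →
      ∃ h e u, 2 * h + 2 * e + 4 * u = n ∧ Realizes Q T U h e u := by
  intro n
  induction n using Nat.strong_induction_on with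
  | _ n ih =>
    intro U hUd hU hinv
    by_cases hne : U = ⊥
    · subst hne
      refine ⟨0, 0, 0, ?_, ?_⟩
      · rw [finrank_bot] at hUd
        omega
      · intro h' hh e' he u' hu
        have h0 : h' = 0 := by omega
        have h1 : e' = 0 := by omega
        have h3 : u' = 0 := by omega
        subst h0 h1 h3
        exact ⟨⊥, le_rfl, fun u hu => by
          rw [Submodule.mem_bot] at hu
          rw [hu, map_zero]
          exact Submodule.zero_mem _, isT_bot, by simp⟩
    obtain ⟨B, hBU, hBinv, hB⟩ := exists_block h2 hT hT2 hU hinv hne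
    have hgood := good' Q
    have hiso := Cfsg.Agent.Lib.HypBlock.polar_iso hT
    have hT2' : T ^ 2 = 1 := by
      apply LinearMap.ext
      intro v
      rw [pow_two]
      exact hT2 v
    have hBnd : NDOn (Bf Q) B := by
      rcases hB with ⟨η, hη, _⟩ | ⟨hη, _⟩
      · exact hη.nd
      · exact hη.nd
    have hrank := finrank_rel hgood hBU hBnd
    have hnd' := nd_rel hgood hBU hBnd hU
    have hinv' : InvOn T (U ⊓ perp (Bf Q) B) := inv_inf hinv (inv_perp hiso (by norm_num) hT2' hBinv)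
    have hfrB : 0 < finrank F B := by
      rcases hB with ⟨η, _, h3⟩ | ⟨_, h3⟩ <;> omega
    obtain ⟨h₁, e₁, u₁, hsum, hreal⟩ := ih _ (by omega) _ rfl hnd' hinv'
    have hsupW : ∀ {η η' : Bool} {W : Submodule F V}, IsT Q B η → W ≤ U ⊓ perp (Bf Q) B → IsT Q W η' → InvOn T W →
        (B ⊔ W ≤ U) ∧ InvOn T (B ⊔ W) ∧ IsT Q (B ⊔ W) (xor η η') ∧ finrank F (B ⊔ W : Submodule F V) = finrank F B + finrank F W := by
      intro η η' W hη hW hη' hWinv
      have horth : Orth Q B W := fun u hu v hv => (hW hv).2 u hu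
      refine ⟨sup_le hBU (hW.trans inf_le_left), ?_, hη.sup hη' horth, finrank_sup_of_orth' hBnd horth⟩
      intro u hu
      obtain ⟨x, hx, y, hy, rfl⟩ := Submodule.mem_sup.1 hu
      rw [map_add]
      exact Submodule.add_mem_sup (hBinv x hx) (hWinv y hy)
    rcases hB with ⟨η, hη, hd2⟩ | ⟨hη, hd4⟩
    · cases η
      · refine ⟨h₁ + 1, e₁, u₁, by omega, ?_⟩
        intro h' hh e' he u' hu
        rcases h' with _ | h''
        · obtain ⟨W, hW, h3, h4, h5⟩ := hreal 0 (by omega) e' he u' hu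
          exact ⟨W, hW.trans inf_le_left, h3, h4, h5⟩
        · obtain ⟨W, hW, h3, h4, h5⟩ := hreal h'' (by omega) e' he u' hu
          obtain ⟨h6, h7, h8, h9⟩ := hsupW hη hW h4 h3
          refine ⟨_, h6, h7, by simpa using h8, ?_⟩
          rw [h9, hd2, h5]
          ring
      · refine ⟨h₁, e₁ + 1, u₁, by omega, ?_⟩
        intro h' hh e' he u' hu
        rcases e' with _ | e''
        · obtain ⟨W, hW, h3, h4, h5⟩ := hreal h' hh 0 (by omega) u' hu
          exact ⟨W, hW.trans inf_le_left, h3, h4, h5⟩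
        · obtain ⟨W, hW, h3, h4, h5⟩ := hreal h' hh e'' (by omega) u' hu
          obtain ⟨h6, h7, h8, h9⟩ := hsupW hη hW h4 h3
          refine ⟨_, h6, h7, ?_, ?_⟩
          · rw [Nat.bodd_succ]
            simpa using h8
          · rw [h9, hd2, h5]
            ring
    · refine ⟨h₁, e₁, u₁ + 1, by omega, ?_⟩
      intro h' hh e' he u' hu
      rcases u' with _ | u''
      · obtain ⟨W, hW, h3, h4, h5⟩ := hreal h' hh e' he 0 (by omega)
        exact ⟨W, hW.trans inf_le_left, h3, h4, h5⟩
      · obtain ⟨W, hW, h3, h4, h5⟩ := hreal h' hh e' he u'' (by omega)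
        obtain ⟨h6, h7, h8, h9⟩ := hsupW hη hW h4 h3
        refine ⟨_, h6, h7, by simpa using h8, ?_⟩
        rw [h9, hd4, h5]
        ring

theorem select {h U M : ℕ} (hM : Even M) (hle : M ≤ 2 * h + 4 * U) (hc : 1 ≤ h ∨ M % 4 = 0) :
    ∃ h' ≤ h, ∃ v ≤ U, 2 * h' + 4 * v = M := by
  obtain ⟨a, ha⟩ := hM
  by_cases h1 : M / 4 ≤ U
  · exact ⟨(M % 4) / 2, by omega, M / 4, h1, by omega⟩
  · exact ⟨(M - 4 * U) / 2, by omega, U, le_rfl, by omega⟩

/-- Top type of the realization. -/
theorem top_type {h e u : ℕ} {ε : Bool} (hV : IsT Q ⊤ ε) (hsum : 2 * h + 2 * e + 4 * u = finrank F V) (hreal : Realizes Q T ⊤ h e u) :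
    e.bodd = ε := by
  obtain ⟨W, _, _, h4, h5⟩ := hreal h le_rfl e le_rfl u le_rfl
  have : W = ⊤ := Submodule.eq_top_of_finrank_eq (by omega)
  rw [this] at h4
  exact h4.uniq hV

/-- Hyperbolic invariant subspaces of involutions, characteristic two. -/
theorem invol_hyp (h2 : (2 : F) = 0) (hT : ∀ v, Q (T v) = Q v) (hT2 : ∀ v, T (T v) = v) (hV : IsT Q ⊤ false) {m : ℕ} (hm : Even m)
    (hmle : m ≤ finrank F V) (hc : finrank F V % 4 = 2 ∨ m % 4 = 0) :
    ∃ W : Submodule F V, IsT Q W false ∧ finrank F W = m ∧ InvOn T W := by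
  obtain ⟨h, e, u, hsum, hreal⟩ := exists_realizes h2 hT hT2 _ ⊤ (finrank_top _ _) hV.nd (fun u _ => trivial)
  have he := top_type hV hsum hreal
  rw [Cfsg.Agent.Lib.EvMain99.bodd_false_iff] at he
  obtain ⟨e₁, rfl⟩ := he
  obtain ⟨h', hh, v, hv, hs⟩ := select (h := h) (U := e₁ + u) hm (by omega) (by omega)
  obtain ⟨W, _, h3, h4, h5⟩ := hreal h' hh (2 * min v e₁) (by omega) (v - min v e₁) (by omega)
  refine ⟨W, ?_, ?_, h3⟩
  · have : (2 * min v e₁).bodd = false := by
      rw [Cfsg.Agent.Lib.EvMain99.bodd_false_iff]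
      exact even_two_mul _
    rwa [this] at h4
  · rw [h5]
    omega

/-- Elliptic invariant subspaces of involutions, characteristic two. -/
theorem invol_ell (h2 : (2 : F) = 0) (hT : ∀ v, Q (T v) = Q v) (hT2 : ∀ v, T (T v) = v) (hV : IsT Q ⊤ true) {m : ℕ} (hm : Even m)
    (hm2 : 2 ≤ m) (hmle : m ≤ finrank F V) (hc : finrank F V % 4 = 0 ∨ m % 4 = 2) :
    ∃ W : Submodule F V, IsT Q W true ∧ finrank F W = m ∧ InvOn T W := by
  obtain ⟨h, e, u, hsum, hreal⟩ := exists_realizes h2 hT hT2 _ ⊤ (finrank_top _ _) hV.nd (fun u _ => trivial)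
  have he := top_type hV hsum hreal
  rw [Cfsg.Agent.Lib.EvMain99.bodd_true_iff] at he
  obtain ⟨e₁, rfl⟩ := he
  obtain ⟨a, ha⟩ := hm
  obtain ⟨h', hh, v, hv, hs⟩ := select (h := h) (U := e₁ + u) (M := m - 2) ⟨a - 1, by omega⟩ (by omega) (by omega)
  obtain ⟨W, _, h3, h4, h5⟩ := hreal h' hh (2 * min v e₁ + 1) (by omega) (v - min v e₁) (by omega)
  refine ⟨W, ?_, ?_, h3⟩
  · have : (2 * min v e₁ + 1).bodd = true := by
      rw [Cfsg.Agent.Lib.EvMain99.bodd_true_iff]
      exact odd_two_mul_add_one _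
    rwa [this] at h4
  · rw [h5]
    omega

/-- Invariant hyperbolic subspaces for square roots of `-1` in the scalars. -/
theorem exists_J_hyp (h2 : (2 : F) ≠ 0) {i : F} (hi : i * i = -1) (hT : ∀ v, Q (T v) = Q v) (hJ : ∀ v, T (T v) = -v) :
    ∀ (a : ℕ) (U : Submodule F V), NDOn (Bf Q) U → InvOn T U → 2 * a ≤ finrank F U →
      ∃ W ≤ U, IsT Q W false ∧ InvOn T W ∧ finrank F W = 2 * a := by
  have hzero : ∀ {c : F}, c * c = -1 → ∀ {v}, T v = c • v → Q v = 0 := by
    intro c hc v hv
    have h1 := hT v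
    rw [hv, Q_sm, pow_two, hc] at h1
    have h3 : 2 * Q v = 0 := by linear_combination -h1
    exact (mul_eq_zero.1 h3).resolve_left h2
  have hi' : (-i) * (-i) = -1 := by rw [neg_mul_neg, hi]
  have hpol : ∀ {c : F}, c * c = -1 → ∀ {u v}, T u = c • u → T v = c • v → polar Q u v = 0 := by
    intro c hc u v hu hv
    have h1 : Q (u + v) = 0 := hzero hc (by rw [map_add, hu, hv, smul_add])
    rw [polar, h1, hzero hc hu, hzero hc hv]
    simp
  intro a
  induction a with
  | zero =>
    intro U _ _ _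
    exact ⟨⊥, bot_le, isT_bot, fun u hu => by
      rw [Submodule.mem_bot] at hu
      rw [hu, map_zero]
      exact Submodule.zero_mem _, by simp⟩
  | succ a ih =>
    intro U hU hinv hd
    have hne : U ≠ ⊥ := by
      rintro rfl
      rw [finrank_bot] at hd
      omega
    obtain ⟨u, hu, hu0⟩ := Submodule.exists_mem_ne_zero_of_ne_bot hne
    have hy : ∃ y ∈ U, polar Q u y ≠ 0 := by
      by_contra hno
      push Not at hno
      exact hu0 (hU u hu hno)
    obtain ⟨y, hy, huy⟩ := hy
    obtain ⟨e, he, f, hf, rfl, he1, hf1⟩ := Cfsg.Agent.Lib.EvTwo99.sup_eigen h2 hi hJ hinv hu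
    obtain ⟨e', he', f', hf', rfl, he1', hf1'⟩ := Cfsg.Agent.Lib.EvTwo99.sup_eigen h2 hi hJ hinv hy
    have h1 : polar Q e f' ≠ 0 ∨ polar Q e' f ≠ 0 := by
      by_contra hno
      push Not at hno
      apply huy
      rw [polar_add_left, polar_add_right, polar_add_right, hpol hi he1 he1', hpol hi' hf1 hf1', hno.1, polar_comm, hno.2]
      simp
    obtain ⟨a₀, b₀, ha₀, hb₀, ha₁, hb₁, hab⟩ : ∃ a₀ b₀, a₀ ∈ U ∧ b₀ ∈ U ∧ T a₀ = i • a₀ ∧ T b₀ = (-i) • b₀ ∧ polar Q a₀ b₀ ≠ 0 := by
      rcases h1 with h1 | h1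
      · exact ⟨e, f', he, hf', he1, hf1', h1⟩
      · exact ⟨e', f, he', hf, he1', hf1, h1⟩
    obtain ⟨hP, hPd⟩ := hyp_of_singular (Q := Q) (hzero hi ha₁) hab
    have hPU : Submodule.span F {a₀, b₀} ≤ U := by
      rw [Submodule.span_le]
      rintro x (rfl | rfl)
      · exact ha₀
      · exact hb₀
    have hPinv : InvOn T (Submodule.span F {a₀, b₀}) := by
      apply inv_pair
      · rw [ha₁]
        exact Submodule.smul_mem _ _ (Submodule.subset_span (by simp))
      · rw [hb₁]
        exact Submodule.smul_mem _ _ (Submodule.subset_span (by simp))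
    have hB := good' Q
    have hPnd : NDOn (Bf Q) _ := hP.1
    have h3 := finrank_rel hB hPU hPnd
    rw [hPd] at h3
    have hiso := Cfsg.Agent.Lib.HypBlock.polar_iso hT
    obtain ⟨W, hWU, hWt, hWinv, hWd⟩ := ih _ (nd_rel hB hPU hPnd hU)
      (inv_inf hinv (inv_perp hiso (by norm_num) (Cfsg.Agent.Lib.EvTwo99.T4 hJ) hPinv)) (by omega)
    have horth : Orth Q (Submodule.span F {a₀, b₀}) W := fun u hu v hv => (hWU hv).2 u hu
    refine ⟨Submodule.span F {a₀, b₀} ⊔ W, sup_le hPU (hWU.trans inf_le_left), ?_, Cfsg.Agent.Lib.SpTI.inv_sup hPinv hWinv, ?_⟩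
    · exact IsT.sup (a := false) (b := false) hP hWt horth
    · rw [finrank_sup_of_orth' hPnd horth, hPd, hWd]
      ring

end Cfsg.Agent.Lib.EvInv99
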