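import Mathlib
import Cfsg.Agent.Lib.EvInv99

/-!
# Generalized forward and backward steps on the plus form and numerics for hyperbolic subspaces
-/

set_option autoImplicit false
set_option linter.unusedSectionVars false
set_option linter.unusedSimpArgs false
set_option linter.unusedVariables false

namespace Cfsg.Agent.Lib.EvQ99

open Module QuadraticMap Matrix
open scoped MatrixGroups
open Cfsg.Agent.Lib.QuadFF Cfsg.Agent.Lib.IsomBlock Cfsg.Agent.Lib.HypEll Cfsg.Agent.Lib.EvT99 Cfsg.Agent.Lib.EvBlock99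
open Cfsg.Agent.Lib.OrthoCount Cfsg.Agent.Lib.OrthMatrix Cfsg.Agent.Lib.EvElt99 Cfsg.Agent.Lib.EvTwo99 Cfsg.Agent.Lib.EvTwoP99
open Cfsg.Agent.Lib.EvMain99 Cfsg.Agent.Lib.EvCount99 Cfsg.Agent.Lib.EvUni99 Cfsg.Agent.Lib.HypLevi Cfsg.Agent.Lib.EvP99 Cfsg.Agent.Lib.EvInv99
open Cfsg.Agent.Lib.QuadClass2 Cfsg.Agent.Lib.QuadClass

section aux

variable {F : Type*} [Field F] [Fintype F] {d m r : ℕ}

theorem dvd_of_pow {q r e : ℕ} (h : r ∣ q ^ e - 1) (hq : 0 < q) : orderOf (q : ZMod r) ∣ e := by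
  apply orderOf_dvd_of_pow_eq_one
  have h1 : ((q ^ e - 1 : ℕ) : ZMod r) = 0 := (ZMod.natCast_eq_zero_iff _ _).2 h
  rw [Nat.cast_sub (Nat.one_le_pow _ _ hq)] at h1
  push_cast at h1
  exact sub_eq_zero.1 h1

theorem pow_of_dvd {q r d i w : ℕ} (hi : orderOf (q : ZMod r) = i) (h : d = i * w) : (q : ZMod r) ^ d = 1 := by
  rw [h, pow_mul, ← hi, pow_orderOf_eq_one, one_pow]

/-- Divisors of `q ^ e + 1`. -/
theorem not_dvd_of_plus {q r e : ℕ} [hrf : Fact r.Prime] (hr3 : 2 < r) (h : r ∣ q ^ e + 1) :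
    ¬ orderOf (q : ZMod r) ∣ e ∧ orderOf (q : ZMod r) ∣ 2 * e := by
  haveI : Fact (2 < r) := ⟨hr3⟩
  have h1 : ((q ^ e + 1 : ℕ) : ZMod r) = 0 := (ZMod.natCast_eq_zero_iff _ _).2 h
  push_cast at h1
  have h2 : (q : ZMod r) ^ e = -1 := eq_neg_of_add_eq_zero_left h1
  constructor
  · intro h3
    have h4 := orderOf_dvd_iff_pow_eq_one.1 h3
    rw [h2] at h4
    exact ZMod.neg_one_ne_one h4
  · apply orderOf_dvd_of_pow_eq_one
    rw [mul_comm, pow_mul, h2]
    simp

theorem plus_odd {q r e : ℕ} [hrf : Fact r.Prime] (hr3 : 2 < r) (h : r ∣ q ^ e + 1) (hi : Odd (orderOf (q : ZMod r))) : False := by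
  obtain ⟨h1, h2⟩ := not_dvd_of_plus hr3 h
  apply h1
  have : Nat.Coprime (orderOf (q : ZMod r)) 2 := by
    rw [Nat.coprime_comm, Nat.coprime_two_left]
    exact hi
  exact this.dvd_of_dvd_mul_left h2

theorem plus_even {q r e : ℕ} [hrf : Fact r.Prime] (hr3 : 2 < r) (h : r ∣ q ^ e + 1) :
    ∃ w, Odd w ∧ 2 * e = orderOf (q : ZMod r) * w := by
  obtain ⟨h1, ⟨w, hw⟩⟩ := not_dvd_of_plus hr3 h
  refine ⟨w, ?_, hw⟩
  rw [← Nat.not_even_iff_odd]
  rintro ⟨a, rfl⟩
  apply h1
  refine ⟨a, ?_⟩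
  have : orderOf (q : ZMod r) * (a + a) = 2 * (orderOf (q : ZMod r) * a) := by ring
  omega

theorem key_forward (p : ℕ) [Fact p.Prime] [CharP F p] [hrf : Fact r.Prime] {η : Bool} (hr2 : r ≠ 2) (hrF : (r : F) ≠ 0) (hd : 4 ≤ d)
    (hs : 0 < (2 * d) / blockDim r (Fintype.card F))
    (hP : blockDim r (Fintype.card F) * ((2 * d) / blockDim r (Fintype.card F)) = 2 * d → ((Fintype.card F : ℕ) : ZMod r) ^ d = 1)
    (H : ElusiveP F d m r η) :
    m % blockDim r (Fintype.card F) ≤ (2 * d) % blockDim r (Fintype.card F) ∧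
      (m % blockDim r (Fintype.card F) = 0 → η = tau r (Fintype.card F) (m / blockDim r (Fintype.card F))) ∧
      (m % blockDim r (Fintype.card F) = (2 * d) % blockDim r (Fintype.card F) →
        η = xor (xor false (tau r (Fintype.card F) ((2 * d) / blockDim r (Fintype.card F)))) (tau r (Fintype.card F) (m / blockDim r (Fintype.card F)))) := by
  obtain ⟨x, hx, h1, h3, hfix⟩ := exists_x_plus p hd hr2 hrF hs (Nat.mul_div_le _ _) hP
  obtain ⟨v₀, hv₀⟩ := exists_v' (F := F) hd
  obtain ⟨W, ⟨h5, h6⟩, h7⟩ := H x hx ⟨1, by rw [h1]; simp⟩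
    (not_scalar_of_odd (mem_iso_of_omega hx) (hrf.out.odd_of_ne_two hr2) h1 h3 hv₀)
  have := forward_main rfl hr2 hrF (hT_of_omega hx) (hTr_of_pow h1) (isT_plus_top d) (finrank_plus d) (by
    have := Nat.div_add_mod (2 * d) (blockDim r (Fintype.card F))
    omega) h6 h7
  rwa [h5] at this

theorem odd_backward [hrf : Fact r.Prime] {η : Bool} (hr2 : r ≠ 2) (hrF : (r : F) ≠ 0) (hd : 4 ≤ d) (hme : Even m) (hm0 : 0 < m) (hmd : m < d)
    (hcond : ∀ s f γ, 2 * d = f + blockDim r (Fintype.card F) * s → xor γ (tau r (Fintype.card F) s) = false → (f = 0 → γ = false) →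
      (0 < m % blockDim r (Fintype.card F) → m / blockDim r (Fintype.card F) ≤ s → (m % blockDim r (Fintype.card F) < f ∨ (m % blockDim r (Fintype.card F) = f ∧ xor γ (tau r (Fintype.card F) (m / blockDim r (Fintype.card F))) = η))) ∧
      (m % blockDim r (Fintype.card F) = 0 → m / blockDim r (Fintype.card F) ≤ s → (tau r (Fintype.card F) (m / blockDim r (Fintype.card F)) = η ∨ blockDim r (Fintype.card F) < f ∨
        (blockDim r (Fintype.card F) = f ∧ xor γ (tau r (Fintype.card F) (m / blockDim r (Fintype.card F) - 1)) = η)))) :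
    ElusiveP F d m r η := by
  intro x hx ⟨z, hz⟩ hne
  obtain ⟨v₀, hv₀⟩ := exists_v' (F := F) hd
  obtain ⟨T, hT, hTr, _, hI⟩ := odd_reduce (mem_iso_of_omega hx) (hrf.out.odd_of_ne_two hr2) hz hne hv₀
  obtain ⟨W, h1, h3, h4⟩ := backward_main rfl hr2 hrF hT hTr (isT_plus_top d) (finrank_plus d) hm0 (by omega) hme hcond
  exact ⟨W, ⟨h3, h1⟩, hI W h4⟩

/-- The involution with no nonsingular fixed vector: invariant nondegenerate subspaces have dimension divisible by four. -/
theorem four_dvd_of_bad {V : Type*} [AddCommGroup V] [Module F V] [FiniteDimensional F V] [CharP F 2] {Q : QuadraticForm F V}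
    {T : V →ₗ[F] V} (hT : ∀ v, Q (T v) = Q v) (hT2 : ∀ v, T (T v) = v)
    (hno : ∀ v, T v = v → Q v = 0) {W : Submodule F V} (hW : NDOn (Bf Q) W) (hinv : InvOn T W) : 4 ∣ finrank F W := by
  let T_W : W →ₗ[F] W := T.restrict hinv
  obtain ⟨k, hk, _⟩ := Cfsg.Agent.S5985.invol_no_fixed (restr Q W)
    (Cfsg.Agent.Lib.QuadFF.nondegenerate_of_ND (Cfsg.Agent.Lib.HypEll.nd_restr hW)) T_W
    (fun v => hT v.1) (fun v => Subtype.ext (hT2 v.1)) (fun v hv => hno v.1 (congrArg Subtype.val hv))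
  exact ⟨k, hk⟩

end aux

/-! ### Numerics for hyperbolic subspaces -/

theorem back_cond_odd_hyp {c n m : ℕ} (hk : m % c ≤ n % c) :
    ∀ (s f : ℕ) (γ : Bool), n = f + c * s → xor γ false = false → (f = 0 → γ = false) →
      (0 < m % c → m / c ≤ s → (m % c < f ∨ (m % c = f ∧ xor γ false = false))) ∧
      (m % c = 0 → m / c ≤ s → (false = false ∨ c < f ∨ (c = f ∧ xor γ false = false))) := by
  intro s f γ h1 h3 _
  have hk' : n % c ≤ f := by
    rw [h1, Nat.add_mul_mod_self_left]
    exact Nat.mod_le _ _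
  have hγ := xor_false_eq h3
  subst hγ
  constructor
  · intro _ _
    rcases Nat.lt_or_ge (m % c) f with h | h
    · exact Or.inl h
    · exact Or.inr ⟨by omega, rfl⟩
  · intro _ _
    exact Or.inl rfl

theorem even_add_iff_xor {a b : ℕ} (h : Even (a + b)) : xor a.bodd b.bodd = false := by
  rw [← Nat.bodd_add, bodd_false_iff]
  exact h

theorem back_cond_even_hyp {c n m : ℕ} (hc0 : 0 < c) (hm0 : 0 < m)
    (h : (n % c = 0 ∧ (Odd (n / c) ∨ (m % c = 0 ∧ Even (m / c)))) ∨
      ((m % c < n % c ∧ 0 < m % c) ∨ (n % c = m % c ∧ 0 < m % c ∧ Even ((n + m - 2 * (n % c)) / c)) ∨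
        (0 < n % c ∧ m % c = 0 ∧ Even (m / c)))) :
    ∀ (s f : ℕ) (γ : Bool), n = f + c * s → xor γ s.bodd = false → (f = 0 → γ = false) →
      (0 < m % c → m / c ≤ s → (m % c < f ∨ (m % c = f ∧ xor γ (m / c).bodd = false))) ∧
      (m % c = 0 → m / c ≤ s → ((m / c).bodd = false ∨ c < f ∨ (c = f ∧ xor γ (m / c - 1).bodd = false))) := by
  intro s f γ h1 h3 h4
  have hγ := xor_false_eq h3
  subst hγ
  have hn := Nat.div_add_mod n c
  have hf := Nat.div_add_mod f c
  have hm' := Nat.div_add_mod m c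
  have h5 : n % c = f % c := by rw [h1, Nat.add_mul_mod_self_left]
  set k₀ := n % c with hk₀
  set s₀ := n / c with hs₀
  set l := m % c with hl
  set t₀ := m / c with ht₀
  set u := f / c with hu
  have hlc : l < c := Nat.mod_lt _ hc0
  have hkc : k₀ < c := Nat.mod_lt _ hc0
  have hfu : f = k₀ + c * u := by omega
  have hs₀u : s₀ = s + u := by
    apply Nat.eq_of_mul_eq_mul_left hc0
    rw [Nat.mul_add]
    have : c * (s + u) = c * s + c * u := Nat.mul_add _ _ _
    omega
  have hcu : 0 < u → c ≤ c * u := fun h0 => by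
    calc c = c * 1 := (Nat.mul_one c).symm
      _ ≤ c * u := Nat.mul_le_mul_left _ h0
  have hs₀even : k₀ = 0 → Odd s₀ → 0 < u := by
    intro h0 h6
    apply Nat.pos_of_ne_zero
    intro h7
    have h8 : f = 0 := by rw [hfu, h0, h7]; simp
    have h9 : s.bodd = false := h4 h8
    rw [h7, add_zero] at hs₀u
    rw [hs₀u] at h6
    rw [← bodd_true_iff] at h6
    rw [h9] at h6
    exact absurd h6 (by decide)
  have htdiv : ∀ (_ : k₀ = l), (n + m - 2 * k₀) / c = s₀ + t₀ := by
    intro h6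
    have h7 : n + m - 2 * k₀ = c * (s₀ + t₀) := by
      rw [Nat.mul_add]
      omega
    rw [h7, Nat.mul_div_cancel_left _ hc0]
  constructor
  · intro hl0 hts
    rcases h with ⟨h0, h6 | ⟨h6, _⟩⟩ | ⟨h, _⟩ | ⟨h7, _, h8⟩ | ⟨_, h6, _⟩
    · have := hcu (hs₀even h0 h6)
      left
      omega
    · omega
    · left
      omega
    · rw [htdiv h7] at h8
      rcases Nat.eq_zero_or_pos u with h0 | h0
      · right
        refine ⟨by rw [hfu, h0]; simpa using h7.symm, ?_⟩
        rw [h0, add_zero] at hs₀u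
        rw [← hs₀u]
        exact even_add_iff_xor h8
      · have := hcu h0
        left
        omega
    · omega
  · intro hl0 hts
    have ht0 : 0 < t₀ := by
      apply Nat.pos_of_ne_zero
      intro h6
      rw [h6, hl0] at hm'
      simp at hm'
      omega
    rcases h with ⟨h0, h6 | ⟨_, h6⟩⟩ | ⟨_, h6⟩ | ⟨_, h6, _⟩ | ⟨_, _, h6⟩
    · have hu0 := hs₀even h0 h6
      rcases Nat.lt_or_ge 1 u with h7 | h7
      · right
        left
        have h8 : c * 2 ≤ c * u := Nat.mul_le_mul_left _ h7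
        rw [hfu]
        omega
      · have hu1 : u = 1 := by omega
        by_cases h8 : t₀.bodd = false
        · exact Or.inl h8
        · right
          right
          refine ⟨by rw [hfu, hu1, h0]; simp, ?_⟩
          have h9 : s.bodd = false := by
            rw [hu1] at hs₀u
            rw [hs₀u, ← bodd_true_iff, Nat.bodd_add] at h6
            revert h6
            cases s.bodd <;> simp
          rw [h9]
          have h10 : t₀ = (t₀ - 1) + 1 := by omega
          rw [Bool.not_eq_false] at h8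
          rw [h10, Nat.bodd_add] at h8
          revert h8
          cases (t₀ - 1).bodd <;> simp
    · exact Or.inl (bodd_false_iff.2 h6)
    · omega
    · omega
    · exact Or.inl (bodd_false_iff.2 h6)

theorem fwd_odd_hyp {c n m : ℕ} (hc0 : 0 < c) (hm0 : 0 < m) (hcount : c ∣ n ∨ ∃ e, c ∣ e ∧ n - m < e ∧ e < n)
    (h1 : m % c ≤ n % c) : c ≤ m := by
  by_contra h7
  push Not at h7
  rw [Nat.mod_eq_of_lt h7] at h1
  rcases hcount with h | ⟨e, ⟨w, rfl⟩, h3, h4⟩
  · rw [Nat.mod_eq_zero_of_dvd h] at h1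
    omega
  · have hws : w ≤ n / c := by
      rw [Nat.le_div_iff_mul_le hc0, mul_comm]
      exact h4.le
    have h5 : c * w ≤ c * (n / c) := Nat.mul_le_mul_left _ hws
    have := Nat.div_add_mod n c
    omega

theorem fwd_even_hyp {c n m d : ℕ} (hc0 : 0 < c) (hn : n = 2 * d) (hm0 : 0 < m) (hme : Even m) (hmd : m < d) (hk : n % c ≤ m)
    (hcount : c ∣ d ∨ (∃ w, Odd w ∧ 2 * (d - m / 2) = c * w) ∨ ∃ j, d - m / 2 < j ∧ j ≤ d - 1 ∧ c ∣ 2 * j)
    (h1 : m % c ≤ n % c) (h0 : m % c = 0 → false = (m / c).bodd)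
    (h3 : m % c = n % c → false = xor (xor false (n / c).bodd) (m / c).bodd) :
    (n % c = 0 ∧ (m % c = 0 ∧ Even (m / c))) ∨
      (c ≤ m ∧ ((m % c < n % c ∧ 0 < m % c) ∨ (n % c = m % c ∧ 0 < m % c ∧ Even ((n + m - 2 * (n % c)) / c)) ∨
        (0 < n % c ∧ m % c = 0 ∧ Even (m / c)))) := by
  have hn' := Nat.div_add_mod n c
  have hm' := Nat.div_add_mod m c
  set k₀ := n % c with hk₀
  set s₀ := n / c with hs₀
  set l := m % c with hl
  set t₀ := m / c with ht₀
  have hlc : l < c := Nat.mod_lt _ hc0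
  have hkc : k₀ < c := Nat.mod_lt _ hc0
  rcases Nat.eq_zero_or_pos k₀ with hk0 | hk0
  · left
    have hl0 : l = 0 := by omega
    exact ⟨hk0, hl0, bodd_false_iff.1 (h0 hl0).symm⟩
  · right
    rcases Nat.eq_zero_or_pos l with hl0 | hl0
    · have ht : 0 < t₀ := by
        apply Nat.pos_of_ne_zero
        intro h6
        rw [h6, hl0] at hm'
        simp at hm'
        omega
      have hcm : c ≤ m := by
        have : c * 1 ≤ c * t₀ := Nat.mul_le_mul_left _ ht
        omega
      exact ⟨hcm, Or.inr (Or.inr ⟨hk0, hl0, bodd_false_iff.1 (h0 hl0).symm⟩)⟩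
    · rcases Nat.lt_or_ge l k₀ with hlt | hge
      · refine ⟨?_, Or.inl ⟨hlt, hl0⟩⟩
        by_contra h7
        push Not at h7
        have : l = m := Nat.mod_eq_of_lt h7
        omega
      · have hlk : l = k₀ := by omega
        have h5 := h3 hlk
        have h8 : xor s₀.bodd t₀.bodd = false := by
          revert h5
          cases s₀.bodd <;> cases t₀.bodd <;> simp
        have h9 : Even (s₀ + t₀) := by
          rw [← bodd_false_iff, Nat.bodd_add]
          exact h8
        have h7' : n + m - 2 * k₀ = c * (s₀ + t₀) := by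
          rw [Nat.mul_add]
          omega
        have h10 : (n + m - 2 * k₀) / c = s₀ + t₀ := by
          rw [h7', Nat.mul_div_cancel_left _ hc0]
        refine ⟨?_, Or.inr (Or.inl ⟨hlk.symm, hl0, by rw [h10]; exact h9⟩)⟩
        by_contra h7
        push Not at h7
        have hml : l = m := Nat.mod_eq_of_lt h7
        have ht0 : t₀ = 0 := Nat.div_eq_of_lt h7
        rw [ht0] at h9
        rw [add_zero] at h9
        have hnm : n - m = c * s₀ := by omega
        rcases hcount with h | ⟨w, hw1, hw⟩ | ⟨j, h11, h12, h⟩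
        · have : c ∣ n := by
            rw [hn]
            exact h.mul_left 2
          have : k₀ = 0 := Nat.mod_eq_zero_of_dvd this
          omega
        · have h13 : c * s₀ = c * w := by
            obtain ⟨a, ha⟩ := hme
            have : m / 2 = a := by omega
            rw [this] at hw
            omega
          have := Nat.eq_of_mul_eq_mul_left hc0 h13
          rw [this] at h9
          exact (Nat.not_even_iff_odd.2 hw1) h9
        · obtain ⟨w, hw⟩ := h
          have hj1 : 2 * j < n := by omega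
          have hj2 : n - m < 2 * j := by
            obtain ⟨a, ha⟩ := hme
            have : m / 2 = a := by omega
            omega
          rw [hnm, hw] at hj2
          have h13 : s₀ < w := Nat.lt_of_mul_lt_mul_left hj2
          have h14 : c * (s₀ + 1) ≤ c * w := Nat.mul_le_mul_left _ h13
          rw [Nat.mul_add, Nat.mul_one] at h14
          omega

end Cfsg.Agent.Lib.EvQ99
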