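import Mathlib
import Cfsg.Agent.Lib.EvQ99

/-!
# The form `qMinus`: top type, square roots of `-1` and their spinor norm, involutions
-/

set_option autoImplicit false
set_option linter.unusedSectionVars false
set_option linter.unusedSimpArgs false
set_option linter.unusedVariables false

universe u

namespace Cfsg.Agent.Lib.EvMinus99

open Module QuadraticMap Matrix
open scoped MatrixGroups
open Cfsg.Agent.Lib.QuadFF Cfsg.Agent.Lib.IsomBlock Cfsg.Agent.Lib.HypEll Cfsg.Agent.Lib.EvT99 Cfsg.Agent.Lib.EvBlock99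
open Cfsg.Agent.Lib.OrthoCount Cfsg.Agent.Lib.OrthMatrix Cfsg.Agent.Lib.EvElt99 Cfsg.Agent.Lib.EvTwo99 Cfsg.Agent.Lib.EvTwoP99
open Cfsg.Agent.Lib.EvMain99 Cfsg.Agent.Lib.EvCount99 Cfsg.Agent.Lib.HypLevi Cfsg.Agent.Lib.EvP99 Cfsg.Agent.Lib.EvInv99
open Cfsg.Agent.Lib.OrthGroup Cfsg.Agent.Lib.OrthOmega

section abs

variable {F : Type*} [Field F] [Fintype F] {V : Type u} [AddCommGroup V] [Module F V] [FiniteDimensional F V]
variable {Q : QuadraticForm F V} {T : V →ₗ[F] V}

/-- A square root of `-1` is a product of reflections with controlled spinor norm. -/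
theorem J_list (h2 : (2 : F) ≠ 0) (hT : ∀ v, Q (T v) = Q v) (hJ : ∀ v, T (T v) = -v) :
    ∀ (a : ℕ) (U : Submodule F V), finrank F U = 2 * a → NDOn (Bf Q) U → InvOn T U →
      ∃ L : List V, (∀ v ∈ L, Q v ≠ 0) ∧ L.length = 2 * a ∧ (∃ c : F, c ≠ 0 ∧ (L.map Q).prod = 2 ^ a * (c * c)) ∧
        (∀ u ∈ U, prodR Q L u = T u) ∧ (∀ w, (∀ u ∈ U, polar Q w u = 0) → prodR Q L w = w) := by
  intro a
  induction a with
  | zero =>
    intro U hUd _ _
    have h0 : U = ⊥ := Submodule.finrank_eq_zero.1 (by omega)
    subst h0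
    refine ⟨[], by simp, rfl, ⟨1, one_ne_zero, by simp⟩, ?_, fun w _ => rfl⟩
    intro u hu
    rw [Submodule.mem_bot] at hu
    rw [hu]
    simp
  | succ a ih =>
    intro U hUd hU hinv
    have hne : U ≠ ⊥ := by
      rintro rfl
      rw [finrank_bot] at hUd
      omega
    obtain ⟨v, hv, hQv⟩ := exists_nonsingular h2 hU hne
    have hpol : polar Q v (T v) = 0 := by
      have h1 := Cfsg.Agent.Lib.HypBlock.polar_iso hT v (T v)
      rw [Bf_apply, Bf_apply, hJ, QuadraticMap.polar_neg_right, polar_comm] at h1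
      have h3 : 2 * polar Q v (T v) = 0 := by linear_combination -h1
      exact (mul_eq_zero.1 h3).resolve_left h2
    have hpol' : polar Q (T v) v = 0 := by rw [polar_comm]; exact hpol
    have hvv : polar Q v v = 2 * Q v := polar_self_eq _ _
    have hww : polar Q (T v) (T v) = 2 * Q v := by rw [polar_self_eq, hT]
    have hTv : T v ∈ U := hinv v hv
    have hc2 : 2 * Q v ≠ 0 := mul_ne_zero h2 hQv
    set P : Submodule F V := Submodule.span F {v, T v} with hP
    have hPU : P ≤ U := by
      rw [hP, Submodule.span_le]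
      rintro x (rfl | rfl)
      · exact hv
      · exact hTv
    have hvP : v ∈ P := Submodule.subset_span (by simp)
    have hwP : T v ∈ P := Submodule.subset_span (by simp)
    have hPnd : NDOn (Bf Q) P := by
      intro u hu h0
      obtain ⟨s, t, rfl⟩ := Submodule.mem_span_pair.1 hu
      have h1 := h0 v hvP
      have h3 := h0 (T v) hwP
      rw [Bf_apply, polar_add_left, polar_sm_l, polar_sm_l, hvv, hpol', mul_zero, add_zero] at h1
      rw [Bf_apply, polar_add_left, polar_sm_l, polar_sm_l, hpol, hww, mul_zero, zero_add] at h3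
      rw [(mul_eq_zero.1 h1).resolve_right hc2, (mul_eq_zero.1 h3).resolve_right hc2]
      simp
    have hPd : finrank F P = 2 := by
      apply finrank_pair
      intro s t hst
      have h1 := congrArg (polar Q v) hst
      have h3 := congrArg (polar Q (T v)) hst
      rw [polar_add_right, polar_sm_r, polar_sm_r, hvv, hpol, mul_zero, add_zero, polar_zero_right] at h1
      rw [polar_add_right, polar_sm_r, polar_sm_r, hpol', hww, mul_zero, zero_add, polar_zero_right] at h3
      exact ⟨(mul_eq_zero.1 h1).resolve_right hc2, (mul_eq_zero.1 h3).resolve_right hc2⟩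
    have hPinv : InvOn T P := by
      apply inv_pair
      · exact hwP
      · rw [hJ]
        exact P.neg_mem hvP
    have hB := good' Q
    have hrank := finrank_rel hB hPU hPnd
    have hnd' := nd_rel hB hPU hPnd hU
    have hiso := Cfsg.Agent.Lib.HypBlock.polar_iso hT
    have hinv' : InvOn T (U ⊓ perp (Bf Q) P) := inv_inf hinv (inv_perp hiso (by norm_num) (T4 hJ) hPinv)
    obtain ⟨L', hL'1, hL'2, ⟨c', hc'0, hc'⟩, hL'3, hL'4⟩ := ih _ (by omega) hnd' hinv'
    have hQ1 : Q (v - T v) = 2 * Q v := by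
      rw [sub_eq_add_neg, Q_ad, QuadraticMap.map_neg, hT, polar_neg_right, hpol]
      ring
    have hfix2 : ∀ x, polar Q x (T v) = 0 → polar Q x v = 0 → refl Q (v - T v) (refl Q (T v) x) = x := by
      intro x h1 h3
      rw [refl_of_perp Q (v := T v) h1, refl_of_perp Q (v := v - T v)]
      show polar Q x (v - T v) = 0
      rw [polar_sub_right, h1, h3, sub_zero]
    have he1 : refl Q (v - T v) (refl Q (T v) v) = T v := by
      rw [refl_of_perp Q (v := T v) (x := v) hpol, refl_apply, hQ1]
      have h5 : B Q v (v - T v) = 2 * Q v := by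
        show polar Q v (v - T v) = _
        rw [polar_sub_right, hvv, hpol, sub_zero]
      rw [h5, inv_mul_cancel₀ hc2, one_smul]
      abel
    have he2 : refl Q (v - T v) (refl Q (T v) (T v)) = -v := by
      rw [refl_self Q (v := T v) (by rw [hT]; exact hQv), map_neg, refl_apply, hQ1]
      have h5 : B Q (T v) (v - T v) = -(2 * Q v) := by
        show polar Q (T v) (v - T v) = _
        rw [polar_sub_right, hww, hpol']
        ring
      rw [h5, mul_neg, inv_mul_cancel₀ hc2, neg_smul, one_smul]
      abel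
    refine ⟨(v - T v) :: (T v) :: L', ?_, by simp [hL'2]; ring, ⟨Q v * c', mul_ne_zero hQv hc'0, ?_⟩, ?_, ?_⟩
    · intro y hy
      simp only [List.mem_cons] at hy
      rcases hy with rfl | rfl | hy
      · rw [hQ1]
        exact hc2
      · rw [hT]
        exact hQv
      · exact hL'1 y hy
    · simp only [List.map_cons, List.prod_cons]
      rw [hc', hQ1, hT]
      ring
    · intro u hu
      have hsup := sup_rel hB hPU hPnd
      rw [← hsup] at hu
      obtain ⟨p, hp, y, hy, rfl⟩ := Submodule.mem_sup.1 hu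
      simp only [prodR_cons]
      show refl Q (v - T v) (refl Q (T v) (prodR Q L' (p + y))) = T (p + y)
      rw [map_add, map_add, map_add, map_add]
      congr 1
      · rw [hL'4 p (fun u' hu' => hu'.2 p hp)]
        obtain ⟨s, t, rfl⟩ := Submodule.mem_span_pair.1 hp
        rw [map_add, map_add, map_smul, map_smul, map_smul, map_smul, he1, he2, map_add, map_smul, map_smul, hJ]
      · rw [hL'3 y hy]
        have hTy : T y ∈ U ⊓ perp (Bf Q) P := hinv' y hy
        have h1 : polar Q (T y) (T v) = 0 := by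
          rw [polar_comm]
          exact hTy.2 _ hwP
        have h3 : polar Q (T y) v = 0 := by
          rw [polar_comm]
          exact hTy.2 _ hvP
        exact hfix2 _ h1 h3
    · intro w hw
      simp only [prodR_cons]
      show refl Q (v - T v) (refl Q (T v) (prodR Q L' w)) = w
      rw [hL'4 w (fun u hu => hw u hu.1)]
      exact hfix2 _ (hw (T v) hTv) (hw v hv)

/-- All subspaces are invariant: elliptic subspaces from an elliptic and a hyperbolic part. -/
theorem ell_of_parts {E H : Submodule F V} (hE : IsT Q E true) (hH : IsT Q H false) (horth : Orth Q E H)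
    (hdim : finrank F E + finrank F H = finrank F V) (hEinv : ∀ W ≤ E, InvOn T W) (hHinv : ∀ W ≤ H, InvOn T W)
    {m : ℕ} (hm : Even m) (hm2 : 2 ≤ m) (hmle : m + 2 ≤ finrank F V) :
    ∃ W : Submodule F V, IsT Q W true ∧ finrank F W = m ∧ InvOn T W := by
  obtain ⟨a, ha⟩ := hm
  obtain ⟨e, he⟩ := hE.even
  obtain ⟨h, hh⟩ := hH.even
  by_cases h1 : m ≤ finrank F E
  · by_cases h3 : m = finrank F E
    · exact ⟨E, hE, h3.symm, hEinv E le_rfl⟩
    · obtain ⟨a', rfl⟩ : ∃ a', a = a' + 1 := ⟨a - 1, by omega⟩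
      obtain ⟨W, h4, h5, h6⟩ := exists_ell_sub' Q a' hE.nd (by omega)
      exact ⟨W, h5, by omega, hEinv W h4⟩
  · obtain ⟨W, h4, h5, h6⟩ := exists_hyp_sub' Q (a - e) H hH.nd (by omega)
    have h7 : Orth Q E W := horth.mono le_rfl h4
    have hnd : NDOn (Bf Q) E := hE.nd
    refine ⟨E ⊔ W, ?_, ?_, Cfsg.Agent.Lib.SpTI.inv_sup (hEinv E le_rfl) (hHinv W h4)⟩
    · exact IsT.sup (a := true) (b := false) hE h5 h7
    · rw [finrank_sup_of_orth' hnd h7, h6]
      omega

/-- Elliptic invariant subspaces of involutions in odd characteristic. -/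
theorem invol_ell_odd (h2 : (2 : F) ≠ 0) (hT : ∀ v, Q (T v) = Q v) (hT2 : T ^ 2 = 1) (hV : IsT Q ⊤ true)
    (hfixe : Even (finrank F (fixS T (⊤ : Submodule F V)))) {m : ℕ} (hm : Even m) (hm2 : 2 ≤ m) (hmle : m + 2 ≤ finrank F V) :
    ∃ W : Submodule F V, IsT Q W true ∧ finrank F W = m ∧ InvOn T W := by
  obtain ⟨h1, h3, h4, h5, h6, h7⟩ := Cfsg.Agent.Lib.OTS.invol_decomp h2 hV.nd hT hT2
  have hVe : Even (finrank F V) := by
    have h8 := hV.even
    rwa [finrank_top] at h8
  have hme : Even (finrank F (fixS (-T) (⊤ : Submodule F V))) := by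
    have : finrank F V = finrank F (fixS T (⊤ : Submodule F V)) + finrank F (fixS (-T) (⊤ : Submodule F V)) := h7.symm
    rw [this] at hVe
    exact (Nat.even_add.1 hVe).1 hfixe
  obtain ⟨ε₁, h8⟩ := exists_isT (Q := Q) h1 hfixe
  obtain ⟨ε₂, h9⟩ := exists_isT (Q := Q) h3 hme
  have horth : Orth Q (fixS T (⊤ : Submodule F V)) (fixS (-T) (⊤ : Submodule F V)) := h5
  have h10 := h8.sup h9 horth
  rw [h6] at h10
  have hx := h10.uniq hV
  have hEinv : ∀ W ≤ fixS T (⊤ : Submodule F V), InvOn T W := by
    intro W hW u hu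
    rw [(mem_fixS.1 (hW hu)).2]
    exact hu
  have hHinv : ∀ W ≤ fixS (-T) (⊤ : Submodule F V), InvOn T W := by
    intro W hW u hu
    rw [h4 u (hW hu)]
    exact W.neg_mem hu
  cases ε₁ <;> cases ε₂
  · exact absurd hx (by decide)
  · exact ell_of_parts h9 h8 (fun u hu v hv => by
      have h11 := horth v hv u hu
      show polar Q u v = 0
      rw [polar_comm]
      exact h11) (by omega) hHinv hEinv hm hm2 hmle
  · exact ell_of_parts h8 h9 horth h7 hEinv hHinv hm hm2 hmle
  · exact absurd hx (by decide)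

/-- Types of invariant subspaces for an involution of type `a` in characteristic two. -/
theorem type_a (h2 : (2 : F) = 0) (hT : ∀ v, Q (T v) = Q v) (hT2 : ∀ v, T (T v) = v)
    (ha : ∀ v, polar Q v (T v) = 0) (hfix : ∀ v w, T v = v → T w = w → Q v = 0 → polar Q v w = 0) :
    ∀ (n : ℕ) (W : Submodule F V), finrank F W = n → NDOn (Bf Q) W → InvOn T W → ∃ a, n = 2 * a ∧ IsT Q W a.bodd := by
  intro n
  induction n using Nat.strong_induction_on with
  | _ n ih =>
    intro W hWd hW hinv
    by_cases hne : W = ⊥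
    · subst hne
      rw [finrank_bot] at hWd
      exact ⟨0, by omega, isT_bot⟩
    obtain ⟨B, hBW, hBinv, hB⟩ := exists_block h2 hT hT2 hW hinv hne
    have hgood := good' Q
    have hiso := Cfsg.Agent.Lib.HypBlock.polar_iso hT
    have hT2' : T ^ 2 = 1 := by
      apply LinearMap.ext
      intro v
      rw [pow_two]
      exact hT2 v
    have hself : ∀ v, polar Q v v = 0 := by
      intro v
      rw [polar_self_eq, h2, zero_mul]
    have hBnd : NDOn (Bf Q) B := by
      rcases hB with ⟨η, hη, _⟩ | ⟨hη, _⟩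
      · exact hη.nd
      · exact hη.nd
    have hrank := finrank_rel hgood hBW hBnd
    have hnd' := nd_rel hgood hBW hBnd hW
    have hinv' : InvOn T (W ⊓ perp (Bf Q) B) := inv_inf hinv (inv_perp hiso (by norm_num) hT2' hBinv)
    have hsup := sup_rel hgood hBW hBnd
    rcases hB with ⟨_, _, hd2⟩ | ⟨hη, hd4⟩
    · -- `T` is trivial on the plane
      have htriv : ∀ v ∈ B, T v = v := by
        intro v hv
        by_contra hne'
        have hv0 : v + T v ≠ 0 := by
          intro h0
          apply hne'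
          have h5 : T v = -v := eq_neg_of_add_eq_zero_right h0
          rw [h5]
          have h6 : v + v = 0 := by rw [← two_smul F v, h2, zero_smul]
          exact (eq_neg_of_add_eq_zero_left h6).symm
        have hP : finrank F (Submodule.span F {v, T v}) = 2 := by
          apply finrank_pair
          intro s t hst
          have h5 := congrArg T hst
          rw [map_add, map_smul, map_smul, hT2, map_zero] at h5
          have h6 : (s + t) • (v + T v) = 0 := by
            have : (s + t) • (v + T v) = (s • v + t • T v) + (s • T v + t • v) := by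
              simp only [add_smul, smul_add]
              abel
            rw [this, hst, h5, add_zero]
          have h7 : s + t = 0 := (smul_eq_zero.1 h6).resolve_right hv0
          have h8 : t = s := by
            have : s + s = 0 := by rw [← two_mul, h2, zero_mul]
            linear_combination h7 - this
          subst h8
          rw [← smul_add] at hst
          have h9 : t = 0 := (smul_eq_zero.1 hst).resolve_right hv0
          exact ⟨h9, h9⟩
        have hPB : Submodule.span F {v, T v} ≤ B := by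
          rw [Submodule.span_le]
          rintro x (rfl | rfl)
          · exact hv
          · exact hBinv _ hv
        have hPeq := Submodule.eq_of_le_of_finrank_eq hPB (by rw [hP, hd2])
        have hv00 : v = 0 := by
          apply hBnd v hv
          intro y hy
          rw [← hPeq] at hy
          obtain ⟨s, t, rfl⟩ := Submodule.mem_span_pair.1 hy
          rw [Bf_apply, polar_add_right, polar_sm_r, polar_sm_r, hself, ha]
          simp
        apply hne'
        rw [hv00, map_zero]
      have hAni : Ani Q B := by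
        refine ⟨?_, hd2⟩
        intro v hv hQv
        apply hBnd v hv
        intro y hy
        exact hfix v y (htriv v hv) (htriv y hy) hQv
      have hBt : IsT Q B true := by
        refine ⟨B, ⊥, hAni, hyp_bot Q, ?_, by simp⟩
        intro u _ v hv
        rw [Submodule.mem_bot] at hv
        rw [hv]
        simp
      obtain ⟨a, ha', hta⟩ := ih _ (by omega) (W ⊓ perp (Bf Q) B) rfl hnd' hinv'
      have horth : Orth Q B (W ⊓ perp (Bf Q) B) := fun u hu v hv => hv.2 u hu
      have h5 := hBt.sup hta horth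
      rw [hsup] at h5
      refine ⟨a + 1, by omega, ?_⟩
      rw [Nat.bodd_succ]
      simpa using h5
    · obtain ⟨a, ha', hta⟩ := ih _ (by omega) (W ⊓ perp (Bf Q) B) rfl hnd' hinv'
      have horth : Orth Q B (W ⊓ perp (Bf Q) B) := fun u hu v hv => hv.2 u hu
      have h5 := hη.sup hta horth
      rw [hsup] at h5
      refine ⟨a + 2, by omega, ?_⟩
      rw [Nat.bodd_add]
      simpa using h5

end abs

section forms

variable {F : Type*} [Field F] [Fintype F]

/-- Membership of square roots of `-1` in `Ω`. -/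
theorem J_mem_iff {ι : Type} [Fintype ι] [DecidableEq ι] {Q : QuadraticForm F (ι → F)} (hnd : NDOn (Bf Q) ⊤)
    (hF : (∃ a : F, a ≠ 0 ∧ a ≠ 1) ∨ finrank F (ι → F) ≠ 4) (h2 : (2 : F) ≠ 0) {x : GL ι F} (hx : x ∈ Cfsg.isometryGroup F ⇑Q)
    (hJ : ∀ v, Matrix.toLin' (x : Matrix ι ι F) (Matrix.toLin' (x : Matrix ι ι F) v) = -v) {d : ℕ} (hd : finrank F (ι → F) = 2 * d) :
    x ∈ Cfsg.Geo.omegaGL ⇑Q ↔ IsSquare ((2 : F) ^ d) := by
  have hQ : (B Q).Nondegenerate := by
    apply nondegenerate_of_ND
    intro u hu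
    exact hnd u trivial (fun y _ => hu y)
  have hT : ∀ v, Q (Matrix.toLin' (x : Matrix ι ι F) v) = Q v := by
    intro v
    rw [Matrix.toLin'_apply]
    exact (mem_isometryGroup _ _).1 hx v
  obtain ⟨L, hL1, hL2, ⟨c, hc0, hc⟩, hL3, _⟩ := J_list h2 hT hJ d ⊤ (by rw [finrank_top, hd]) hnd (fun u _ => trivial)
  have hto : toO Q ⟨x, hx⟩ = prodO Q L := by
    apply Subtype.ext
    apply LinearEquiv.ext
    intro v
    rw [toO_apply]
    show (x : Matrix ι ι F) *ᵥ v = prodR Q L v
    rw [hL3 v trivial, Matrix.toLin'_apply]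
  rw [Cfsg.Agent.S5985.mem_omegaGL_iff]
  have hiff : toO Q ⟨x, hx⟩ ∈ commutator ↥(O Q) ↔ IsSquare ((2 : F) ^ d) := by
    rw [hto, Cfsg.Agent.Lib.SpinorCrit.mem_Omega_prodO_iff Q hQ hF L hL1, hc, hL2]
    constructor
    · rintro ⟨_, e, he⟩
      refine ⟨e / c, ?_⟩
      field_simp
      linear_combination he
    · rintro ⟨e, he⟩
      refine ⟨even_two_mul d, e * c, ?_⟩
      rw [he]
      ring
  constructor
  · rintro ⟨_, h⟩
    exact hiff.1 h
  · intro h
    exact ⟨hx, hiff.2 h⟩

/-- The fixed space in the two languages. -/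
theorem fix_eq {V : Type*} [AddCommGroup V] [Module F V] [FiniteDimensional F V] (g : V ≃ₗ[F] V) :
    fix g = fixS (g : V →ₗ[F] V) (⊤ : Submodule F V) := by
  ext v
  rw [mem_fixS, mem_fix]
  simp

/-- Parity of the fixed space of elements of `Ω`. -/
theorem even_fix_of_omega {ι : Type} [Fintype ι] [DecidableEq ι] {Q : QuadraticForm F (ι → F)} (hnd : NDOn (Bf Q) ⊤)
    (hF : (∃ a : F, a ≠ 0 ∧ a ≠ 1) ∨ finrank F (ι → F) ≠ 4) (hev : Even (finrank F (ι → F))) {x : GL ι F} (hx : x ∈ Cfsg.Geo.omegaGL ⇑Q) :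
    Even (finrank F (fixS (Matrix.toLin' (x : Matrix ι ι F)) (⊤ : Submodule F (ι → F)))) := by
  have hQ : (B Q).Nondegenerate := by
    apply nondegenerate_of_ND
    intro u hu
    exact hnd u trivial (fun y _ => hu y)
  obtain ⟨h, hc⟩ := (Cfsg.Agent.S5985.mem_omegaGL_iff Q x).1 hx
  obtain ⟨L, hL1, hL2, hL3, _⟩ := (mem_commutator_iff hQ (O_le_G hQ hF) _).1 hc
  have h1 := parity_prodR hQ L hL1
  have h3 : prodR Q L = Cfsg.Agent.Lib.OrthMatrix.glEquiv x := (congrArg Subtype.val hL2).symm
  rw [h3, fix_eq] at h1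
  have h4 : ((Cfsg.Agent.Lib.OrthMatrix.glEquiv x : (ι → F) ≃ₗ[F] (ι → F)) : (ι → F) →ₗ[F] (ι → F)) = Matrix.toLin' (x : Matrix ι ι F) := by
    apply LinearMap.ext
    intro v
    rw [Matrix.toLin'_apply]
    rfl
  rw [h4] at h1
  rw [Nat.even_add, Nat.even_add] at h1
  tauto

variable {k : ℕ} {a b : F}

/-- The top space of the minus form. -/
theorem isT_minus_top (hab : ∀ x y : F, x ^ 2 + a * x * y + b * y ^ 2 = 0 → x = 0 ∧ y = 0) :
    IsT (qMinus k a b) ⊤ true := by
  classical
  set Q := qMinus k a b with hQdef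
  have hval : ∀ v, Q v = Cfsg.quadFormMinus k F a b v := qMinus_apply k a b
  let f : (Fin 2 → F) →ₗ[F] ((Fin k ⊕ Fin k) ⊕ Fin 2 → F) :=
    { toFun := fun z => Sum.elim 0 z
      map_add' := by
        intro x y
        funext s
        rcases s with s | s <;> simp
      map_smul' := by
        intro c x
        funext s
        rcases s with s | s <;> simp }
  have hf : Function.Injective f := by
    intro x y h
    funext s
    exact congrFun h (Sum.inr s)
  let A : Submodule F ((Fin k ⊕ Fin k) ⊕ Fin 2 → F) := LinearMap.range f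
  have hAd : finrank F A = 2 := by
    have h1 := LinearMap.finrank_range_of_inj hf
    rw [h1, Module.finrank_fintype_fun_eq_card]
    simp
  have hAni : Ani Q A := by
    refine ⟨?_, hAd⟩
    rintro _ ⟨z, rfl⟩ h0
    rw [hval] at h0
    have h1 : z 0 ^ 2 + a * z 0 * z 1 + b * z 1 ^ 2 = 0 := by
      simpa [Cfsg.quadFormMinus, f] using h0
    obtain ⟨h3, h4⟩ := hab _ _ h1
    have : z = 0 := by
      funext s
      fin_cases s
      · exact h3
      · exact h4
    rw [this, map_zero]
  have hAnd := nd_of_ani' hAni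
  have hB := good' Q
  have hNDtop : NDOn (Bf Q) ⊤ := by
    intro u _ h0
    exact Cfsg.Agent.Lib.QuadClass.ND_qMinus a b hab k u (fun y => h0 y trivial)
  have hrank := finrank_rel hB (le_top : A ≤ ⊤) hAnd
  have hnd' := nd_rel hB (le_top : A ≤ ⊤) hAnd hNDtop
  have hsup := sup_rel hB (le_top : A ≤ ⊤) hAnd
  rw [finrank_top, hAd, finrank_minus] at hrank
  let g : (Fin k → F) →ₗ[F] ((Fin k ⊕ Fin k) ⊕ Fin 2 → F) :=
    { toFun := fun z => Sum.elim (Sum.elim z 0) 0
      map_add' := by
        intro x y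
        funext s
        rcases s with (s | s) | s <;> simp
      map_smul' := by
        intro c x
        funext s
        rcases s with (s | s) | s <;> simp }
  have hg : Function.Injective g := by
    intro x y h
    funext s
    exact congrFun h (Sum.inl (Sum.inl s))
  have hUd : finrank F (LinearMap.range g) = k := by
    rw [LinearMap.finrank_range_of_inj hg, Module.finrank_fintype_fun_eq_card]
    simp
  have hU0 : ∀ v ∈ LinearMap.range g, Q v = 0 := by
    rintro _ ⟨z, rfl⟩
    rw [hval]
    simp [Cfsg.quadFormMinus, g]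
  have hUle : LinearMap.range g ≤ ⊤ ⊓ perp (Bf Q) A := by
    rintro _ ⟨z, rfl⟩
    refine ⟨trivial, ?_⟩
    rintro _ ⟨y, rfl⟩
    show B (qMinus k a b) (f y) (g z) = 0
    rw [Cfsg.Agent.Lib.HypNeg.B_qMinus]
    simp [f, g]
  have hHyp : Hyp Q (⊤ ⊓ perp (Bf Q) A) := ⟨hnd', _, hUle, hU0, by omega⟩
  refine ⟨A, ⊤ ⊓ perp (Bf Q) A, hAni, hHyp, ?_, hsup⟩
  intro u hu v hv
  exact hv.2 u hu

end forms

end Cfsg.Agent.Lib.EvMinus99
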