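import Mathlib
import Cfsg.Agent.Lib.EvMinus99

/-!
# Elements of `Ω⁻` and numerics
-/

set_option autoImplicit false
set_option linter.unusedSectionVars false
set_option linter.unusedSimpArgs false
set_option linter.unusedVariables false

universe u

namespace Cfsg.Agent.Lib.EvN99

open Module QuadraticMap Matrix
open scoped MatrixGroups
open Cfsg.Agent.Lib.QuadFF Cfsg.Agent.Lib.IsomBlock Cfsg.Agent.Lib.HypEll Cfsg.Agent.Lib.EvT99 Cfsg.Agent.Lib.EvBlock99
open Cfsg.Agent.Lib.OrthoCount Cfsg.Agent.Lib.OrthMatrix Cfsg.Agent.Lib.EvElt99 Cfsg.Agent.Lib.EvTwo99 Cfsg.Agent.Lib.EvTwoP99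
open Cfsg.Agent.Lib.EvMain99 Cfsg.Agent.Lib.EvCount99 Cfsg.Agent.Lib.HypLevi Cfsg.Agent.Lib.EvP99 Cfsg.Agent.Lib.EvInv99
open Cfsg.Agent.Lib.EvMinus99 Cfsg.Agent.Lib.OrthBlock

section forms

variable {F : Type*} [Field F] [Fintype F] {k : ℕ} {a b : F}

/-- The anisotropic binary form. -/
def q₀ (a b : F) : (Fin 2 → F) → F := fun z => z 0 ^ 2 + a * z 0 * z 1 + b * z 1 ^ 2

theorem hform (k : ℕ) (a b : F) : ⇑(qMinus k a b) = sumForm ⇑(qPlus k F) (q₀ a b) := by
  funext v
  rw [qMinus_apply, sumForm, Cfsg.Agent.S5985.hf_plus, Cfsg.Agent.S5985.q_plus_eq]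
  rfl

/-- Nonsquares multiply to squares. -/
theorem isSquare_mul_of_not {u v : F} (hu : ¬ IsSquare u) (hv : ¬ IsSquare v) : IsSquare (u * v) := by
  classical
  have hu0 : u ≠ 0 := by
    rintro rfl
    exact hu IsSquare.zero
  have hv0 : v ≠ 0 := by
    rintro rfl
    exact hv IsSquare.zero
  rw [← quadraticChar_one_iff_isSquare (mul_ne_zero hu0 hv0), map_mul,
    quadraticChar_neg_one_iff_not_isSquare.2 hu, quadraticChar_neg_one_iff_not_isSquare.2 hv]
  simp

/-- A rotation with square `-1` on an anisotropic plane when `-1` is not a square. -/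
theorem exists_M (h2 : (2 : F) ≠ 0) (hsq : ∀ c : F, c * c ≠ -1)
    (hab : ∀ x y : F, x ^ 2 + a * x * y + b * y ^ 2 = 0 → x = 0 ∧ y = 0) :
    ∃ M : Matrix (Fin 2) (Fin 2) F, M * M = -1 ∧ ∀ z, q₀ a b (M *ᵥ z) = q₀ a b z := by
  obtain ⟨t, rfl⟩ : ∃ t, a = 2 * t := ⟨a / 2, by field_simp⟩
  have hns : ¬ IsSquare (-(b - t * t)) := by
    rintro ⟨s, hs⟩
    obtain ⟨_, h3⟩ := hab (s - t) 1 (by linear_combination -hs)
    exact one_ne_zero h3
  have hn1 : ¬ IsSquare (-1 : F) := by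
    rintro ⟨c, hc⟩
    exact hsq c hc.symm
  obtain ⟨e, he⟩ := isSquare_mul_of_not hn1 hns
  have he' : b = e * e + t * t := by linear_combination he
  subst he'
  have he0 : e ≠ 0 := by
    rintro rfl
    apply hns
    exact ⟨0, by ring⟩
  refine ⟨!![-t / e, -e - t * t / e; 1 / e, t / e], ?_, ?_⟩
  · ext i j
    fin_cases i <;> fin_cases j <;> simp [Matrix.mul_apply, Fin.sum_univ_two] <;> field_simp <;> ring
  · intro z
    simp only [q₀, Matrix.mulVec, dotProduct, Fin.sum_univ_two]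
    simp
    field_simp
    ring

theorem neg_one_blocks {ι κ : Type} [Fintype ι] [Fintype κ] [DecidableEq ι] [DecidableEq κ] :
    fromBlocks (-1 : Matrix ι ι F) 0 0 (-1 : Matrix κ κ F) = -1 := by
  rw [← Matrix.fromBlocks_one, Matrix.fromBlocks_neg]
  simp

/-- Square roots of `-1` in the isometry group of the minus form. -/
theorem exists_J_minus (h2 : (2 : F) ≠ 0) (hsq : ∀ c : F, c * c ≠ -1) (hke : Even k) (hk : 1 ≤ k)
    (hab : ∀ x y : F, x ^ 2 + a * x * y + b * y ^ 2 = 0 → x = 0 ∧ y = 0) :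
    ∃ x : GL ((Fin k ⊕ Fin k) ⊕ Fin 2) F, x ∈ Cfsg.isometryGroup F ⇑(qMinus k a b) ∧
      (x : Matrix ((Fin k ⊕ Fin k) ⊕ Fin 2) ((Fin k ⊕ Fin k) ⊕ Fin 2) F) * x = -1 := by
  obtain ⟨M, hM, hMi⟩ := exists_M h2 hsq hab
  obtain ⟨A, hA, hdet⟩ := exists_J_matrix (F := F) hke
  let B : GL (Fin k) F := ⟨A, -A, by rw [mul_neg, hA, neg_neg], by rw [neg_mul, hA, neg_neg]⟩
  let gM : GL (Fin 2) F := ⟨M, -M, by rw [mul_neg, hM, neg_neg], by rw [neg_mul, hM, neg_neg]⟩
  have hgM : gM ∈ Cfsg.isometryGroup F (q₀ a b) := (mem_isometryGroup _ _).2 hMi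
  let g₁ : ↥(Cfsg.isometryGroup F ⇑(qPlus k F)) := leviHom k F B
  let y₁ : GL (Fin k ⊕ Fin k) F := (g₁ : GL (Fin k ⊕ Fin k) F)
  refine ⟨blockGL (y₁, gM), ?_, ?_⟩
  · rw [hform]
    exact (blockHom ⇑(qPlus k F) (q₀ a b) (g₁, ⟨gM, hgM⟩)).2
  · have h1 : (y₁ : Matrix (Fin k ⊕ Fin k) (Fin k ⊕ Fin k) F) * y₁ = -1 := by
      have hl : (y₁ : Matrix (Fin k ⊕ Fin k) (Fin k ⊕ Fin k) F) = fromBlocks A 0 0 (-A)ᵀ := rfl
      rw [hl, fromBlocks_multiply]
      have h3 : (-A)ᵀ * (-A)ᵀ = -1 := by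
        rw [← Matrix.transpose_mul, neg_mul_neg, hA, Matrix.transpose_neg, Matrix.transpose_one]
      rw [h3, hA]
      simp only [mul_zero, zero_mul, add_zero, zero_add]
      exact neg_one_blocks
    have hv : ((blockGL (y₁, gM) : GL ((Fin k ⊕ Fin k) ⊕ Fin 2) F) : Matrix ((Fin k ⊕ Fin k) ⊕ Fin 2) ((Fin k ⊕ Fin k) ⊕ Fin 2) F) =
        fromBlocks (y₁ : Matrix (Fin k ⊕ Fin k) (Fin k ⊕ Fin k) F) 0 0 M := rfl
    rw [hv, fromBlocks_multiply, h1, hM]
    simp only [Matrix.mul_zero, Matrix.zero_mul, add_zero, zero_add]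
    exact neg_one_blocks

/-- The element of type `a` on the hyperbolic part of the minus form, characteristic two. -/
theorem exists_bad_minus [CharP F 2] (hk : 4 ≤ k) (hke : Even k)
    (hab : ∀ x y : F, x ^ 2 + a * x * y + b * y ^ 2 = 0 → x = 0 ∧ y = 0) :
    ∃ x : GL ((Fin k ⊕ Fin k) ⊕ Fin 2) F, x ∈ Cfsg.Geo.omegaGL ⇑(qMinus k a b) ∧ x ^ 2 = 1 ∧ x ≠ 1 ∧
      ∀ (W : Submodule F ((Fin k ⊕ Fin k) ⊕ Fin 2 → F)), NDOn (Bf (qMinus k a b)) W →
        InvOn (Matrix.toLin' (x : Matrix ((Fin k ⊕ Fin k) ⊕ Fin 2) ((Fin k ⊕ Fin k) ⊕ Fin 2) F)) W →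
        ∃ t, finrank F W = 2 * t ∧ IsT (qMinus k a b) W t.bodd := by
  classical
  have h2 : (2 : F) = 0 := CharTwo.two_eq_zero
  obtain ⟨x₀, hx₀, hx₀2, hnon, hfix₀⟩ := Cfsg.Agent.S5985.exists_bad_invol (F := F) hk hke
  rw [← Cfsg.Agent.S5985.hf_plus] at hx₀ hfix₀
  obtain ⟨g₁, hg₁, hgx⟩ := hx₀
  have hx₀' : x₀ ^ 2 = 1 := hx₀2
  set y₀ : GL (Fin k ⊕ Fin k) F := x₀ with hy₀
  let x : GL ((Fin k ⊕ Fin k) ⊕ Fin 2) F := blockGL (y₀, 1)
  have hxval : (x : Matrix ((Fin k ⊕ Fin k) ⊕ Fin 2) ((Fin k ⊕ Fin k) ⊕ Fin 2) F) = fromBlocks (y₀ : Matrix _ _ F) 0 0 1 := rfl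
  have hmem : x ∈ Cfsg.Geo.omegaGL ⇑(qMinus k a b) := by
    rw [hform]
    refine ⟨blockHom ⇑(qPlus k F) (q₀ a b) (g₁, 1), block_mem_omega _ _ _ _ hg₁ (Subgroup.one_mem _), ?_⟩
    show blockGL ((isometryGroup F ⇑(qPlus k F)).subtype g₁, 1) = x
    rw [hgx]
  have hx2 : x ^ 2 = 1 := by
    show (blockGL (y₀, 1)) ^ 2 = 1
    rw [← map_pow]
    have : ((y₀, 1) : GL (Fin k ⊕ Fin k) F × GL (Fin 2) F) ^ 2 = 1 := by
      ext1
      · exact hx₀'
      · simp
    rw [this, map_one]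
  have hxne : x ≠ 1 := by
    intro h
    apply hnon 1
    have h3 : (x : Matrix ((Fin k ⊕ Fin k) ⊕ Fin 2) ((Fin k ⊕ Fin k) ⊕ Fin 2) F) = 1 := by
      rw [h]
      rfl
    rw [hxval] at h3
    ext i j
    have := congrFun (congrFun h3 (Sum.inl i)) (Sum.inl j)
    rw [Matrix.fromBlocks_apply₁₁] at this
    rw [this]
    simp [Matrix.one_apply]
  refine ⟨x, hmem, hx2, hxne, ?_⟩
  set T := Matrix.toLin' (x : Matrix ((Fin k ⊕ Fin k) ⊕ Fin 2) ((Fin k ⊕ Fin k) ⊕ Fin 2) F) with hTdef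
  set Q := qMinus k a b with hQ
  have hT : ∀ v, Q (T v) = Q v := hT_of_omega hmem
  have hT2 : ∀ v, T (T v) = v := by
    intro v
    have h8 := hTr_of_pow hx2
    have h9 := LinearMap.congr_fun h8 v
    rw [pow_two] at h9
    exact h9
  have hval : ∀ v, Q v = qPlus k F (v ∘ Sum.inl) + q₀ a b (v ∘ Sum.inr) := by
    intro v
    have := congrFun (hform k a b) v
    exact this
  have hTl : ∀ v, (T v) ∘ Sum.inl = (y₀ : Matrix _ _ F) *ᵥ (v ∘ Sum.inl) := by
    intro v
    rw [hTdef, Matrix.toLin'_apply, hxval, mulVec_inl]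
  have hTr : ∀ v, (T v) ∘ Sum.inr = v ∘ Sum.inr := by
    intro v
    rw [hTdef, Matrix.toLin'_apply, hxval, mulVec_inr, Matrix.one_mulVec]
  have hfv : ∀ v, T v = v → Q v = q₀ a b (v ∘ Sum.inr) := by
    intro v hv
    rw [hval, hfix₀ (v ∘ Sum.inl) (by rw [← hTl, hv]), zero_add]
  have ha : ∀ v, polar Q v (T v) = 0 := by
    intro v
    have h1 : T (v + T v) = v + T v := by
      rw [map_add, hT2, add_comm]
    have h3 := hfv _ h1
    have h4 : (v + T v) ∘ Sum.inr = 0 := by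
      funext s
      have h5 := congrFun (hTr v) s
      simp only [Function.comp_apply, Pi.add_apply, Pi.zero_apply] at h5 ⊢
      rw [h5, ← two_mul, h2, zero_mul]
    rw [polar, h3, h4, hT]
    have h5 : q₀ a b (0 : Fin 2 → F) = 0 := by simp [q₀]
    rw [h5]
    have h6 : Q v + Q v = 0 := by rw [← two_mul, h2, zero_mul]
    linear_combination -h6
  have hfix : ∀ v w, T v = v → T w = w → Q v = 0 → polar Q v w = 0 := by
    intro v w hv hw h0
    have h1 : T (v + w) = v + w := by rw [map_add, hv, hw]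
    have h3 := hfv _ h1
    have h4 := hfv _ hw
    rw [hfv v hv] at h0
    obtain ⟨h5, h6⟩ := hab _ _ h0
    have h7 : (v + w) ∘ Sum.inr = w ∘ Sum.inr := by
      funext s
      fin_cases s
      · simp only [Function.comp_apply, Pi.add_apply] at h5 ⊢
        show v (Sum.inr 0) + w (Sum.inr 0) = w (Sum.inr 0)
        rw [h5, zero_add]
      · simp only [Function.comp_apply, Pi.add_apply] at h6 ⊢
        show v (Sum.inr 1) + w (Sum.inr 1) = w (Sum.inr 1)
        rw [h6, zero_add]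
    rw [polar, h3, h4, h7, hfv v hv]
    have : q₀ a b (v ∘ Sum.inr) = 0 := h0
    rw [this]
    ring
  intro W hW hinv
  exact type_a h2 hT hT2 ha hfix _ W rfl hW hinv

/-- There is a vector of nonzero value. -/
theorem exists_v_minus : ∃ v, qMinus k a b v ≠ 0 := by
  refine ⟨Pi.single (Sum.inr 0) 1, ?_⟩
  rw [qMinus_apply]
  simp [Cfsg.quadFormMinus]

end forms

/-! ### Numerics -/

theorem back_cond_odd_minus {c n m : ℕ} (hc0 : 0 < c) (h : n % c = 0 ∨ (0 < m % c ∧ m % c ≤ n % c)) :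
    ∀ (s f : ℕ) (γ : Bool), n = f + c * s → xor γ false = true → (f = 0 → γ = false) →
      (0 < m % c → m / c ≤ s → (m % c < f ∨ (m % c = f ∧ xor γ false = true))) ∧
      (m % c = 0 → m / c ≤ s → (false = true ∨ c < f ∨ (c = f ∧ xor γ false = true))) := by
  intro s f γ h1 h3 h4
  have hγ : γ = true := by simpa using h3
  subst hγ
  have hf0 : f ≠ 0 := fun h5 => absurd (h4 h5) (by decide)
  have hk' : n % c = f % c := by
    rw [h1, Nat.add_mul_mod_self_left]
  have hle : n % c ≤ f := by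
    rw [hk']
    exact Nat.mod_le _ _
  have hlc := Nat.mod_lt m hc0
  rcases h with h | ⟨h5, h6⟩
  · have hcf : c ≤ f := by
      rw [h] at hk'
      exact Nat.le_of_dvd (Nat.pos_of_ne_zero hf0) (Nat.dvd_of_mod_eq_zero hk'.symm)
    constructor
    · intro _ _
      left
      omega
    · intro _ _
      rcases Nat.lt_or_ge c f with h7 | h7
      · exact Or.inr (Or.inl h7)
      · exact Or.inr (Or.inr ⟨by omega, rfl⟩)
  · constructor
    · intro _ _
      rcases Nat.lt_or_ge (m % c) f with h7 | h7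
      · exact Or.inl h7
      · exact Or.inr ⟨by omega, rfl⟩
    · intro h7
      omega

theorem xor_true_eq {γ b : Bool} (h : xor γ b = true) : γ = !b := by
  cases γ <;> cases b <;> simp_all

theorem back_cond_even_minus {c n m : ℕ} (hc0 : 0 < c) (hm0 : 0 < m)
    (h : (n % c = 0 ∧ (Even (n / c) ∨ (m % c = 0 ∧ Odd (m / c)))) ∨
      (0 < n % c ∧ ((0 < m % c ∧ m % c < n % c) ∨ (m % c = 0 ∧ Odd (m / c)) ∨
        (m % c = n % c ∧ Even ((n + m - 2 * (n % c)) / c))))) :
    ∀ (s f : ℕ) (γ : Bool), n = f + c * s → xor γ s.bodd = true → (f = 0 → γ = false) →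
      (0 < m % c → m / c ≤ s → (m % c < f ∨ (m % c = f ∧ xor γ (m / c).bodd = true))) ∧
      (m % c = 0 → m / c ≤ s → ((m / c).bodd = true ∨ c < f ∨ (c = f ∧ xor γ (m / c - 1).bodd = true))) := by
  intro s f γ h1 h3 h4
  have hγ := xor_true_eq h3
  subst hγ
  have hn := Nat.div_add_mod n c
  have hf := Nat.div_add_mod f c
  have hm' := Nat.div_add_mod m c
  have h5 : n % c = f % c := by rw [h1, Nat.add_mul_mod_self_left]
  set k₀ := n % c with hk₀
  set s₀ := n / c with hs₀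
  set l := m % c with hl
  set t₀ := m / c with ht₀
  set u := f / c with hu
  have hlc : l < c := Nat.mod_lt _ hc0
  have hkc : k₀ < c := Nat.mod_lt _ hc0
  have hfu : f = k₀ + c * u := by omega
  have hs₀u : s₀ = s + u := by
    apply Nat.eq_of_mul_eq_mul_left hc0
    rw [Nat.mul_add]
    have : c * (s + u) = c * s + c * u := Nat.mul_add _ _ _
    omega
  have hcu : 0 < u → c ≤ c * u := fun h0 => by
    calc c = c * 1 := (Nat.mul_one c).symm
      _ ≤ c * u := Nat.mul_le_mul_left _ h0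
  have hs₀even : k₀ = 0 → Even s₀ → 0 < u := by
    intro h0 h6
    apply Nat.pos_of_ne_zero
    intro h7
    have h8 : f = 0 := by rw [hfu, h0, h7]; simp
    have h9 : (!s.bodd) = false := h4 h8
    rw [h7, add_zero] at hs₀u
    rw [hs₀u, ← bodd_false_iff] at h6
    rw [h6] at h9
    exact absurd h9 (by decide)
  have htdiv : ∀ (_ : l = k₀), (n + m - 2 * k₀) / c = s₀ + t₀ := by
    intro h6
    have h7 : n + m - 2 * k₀ = c * (s₀ + t₀) := by
      rw [Nat.mul_add]
      omega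
    rw [h7, Nat.mul_div_cancel_left _ hc0]
  constructor
  · intro hl0 hts
    rcases h with ⟨h0, h6 | ⟨h6, _⟩⟩ | ⟨h0, ⟨_, h⟩ | ⟨h6, _⟩ | ⟨h7, h8⟩⟩
    · have := hcu (hs₀even h0 h6)
      left
      omega
    · omega
    · left
      omega
    · omega
    · rw [htdiv h7] at h8
      rcases Nat.eq_zero_or_pos u with h0' | h0'
      · right
        refine ⟨by rw [hfu, h0']; simpa using h7, ?_⟩
        rw [h0', add_zero] at hs₀u
        rw [← hs₀u]
        have h9 := Cfsg.Agent.Lib.EvQ99.even_add_iff_xor h8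
        revert h9
        cases s₀.bodd <;> cases t₀.bodd <;> simp
      · have := hcu h0'
        left
        omega
  · intro hl0 hts
    have ht0 : 0 < t₀ := by
      apply Nat.pos_of_ne_zero
      intro h6
      rw [h6, hl0] at hm'
      simp at hm'
      omega
    rcases h with ⟨h0, h6 | ⟨_, h6⟩⟩ | ⟨h0, ⟨h6, _⟩ | ⟨_, h6⟩ | ⟨h6, _⟩⟩
    · have hu0 := hs₀even h0 h6
      rcases Nat.lt_or_ge 1 u with h7 | h7
      · right
        left
        have h8 : c * 2 ≤ c * u := Nat.mul_le_mul_left _ h7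
        rw [hfu]
        omega
      · have hu1 : u = 1 := by omega
        by_cases h8 : t₀.bodd = true
        · exact Or.inl h8
        · right
          right
          refine ⟨by rw [hfu, hu1, h0]; simp, ?_⟩
          have h9 : s.bodd = true := by
            rw [hu1] at hs₀u
            rw [hs₀u, ← bodd_false_iff, Nat.bodd_add] at h6
            revert h6
            cases s.bodd <;> simp
          rw [h9]
          have h10 : t₀ = (t₀ - 1) + 1 := by omega
          rw [Bool.not_eq_true] at h8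
          rw [h10, Nat.bodd_add] at h8
          revert h8
          cases (t₀ - 1).bodd <;> simp
    · exact Or.inl (bodd_true_iff.2 h6)
    · omega
    · exact Or.inl (bodd_true_iff.2 h6)
    · omega

theorem fwd_odd_minus {c n m : ℕ} (hc0 : 0 < c) (hm0 : 0 < m) (hk : n % c < m) (h1 : m % c ≤ n % c)
    (h0 : m % c = 0 → (true : Bool) = false) : c ≤ m ∧ 0 < m % c ∧ m % c ≤ n % c := by
  have h5 : m % c ≠ 0 := fun h => absurd (h0 h) (by decide)
  refine ⟨?_, by omega, h1⟩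
  by_contra h7
  push Not at h7
  rw [Nat.mod_eq_of_lt h7] at h1
  omega

theorem fwd_even_minus {c n m d : ℕ} (hc0 : 0 < c) (hn : n = 2 * d) (hm0 : 0 < m) (hme : Even m) (hmd : m + 2 ≤ 2 * d) (hk : n % c ≤ m)
    (hcount : (∃ w, Odd w ∧ 2 * d = c * w) ∨ (∃ w, Odd w ∧ 2 * (d - m / 2) = c * w) ∨ ∃ j, d - m / 2 < j ∧ j ≤ d - 1 ∧ c ∣ 2 * j)
    (h1 : m % c ≤ n % c) (h0 : m % c = 0 → true = (m / c).bodd)
    (h3 : m % c = n % c → true = xor (xor true (n / c).bodd) (m / c).bodd) :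
    (n % c = 0 ∧ (m % c = 0 ∧ Odd (m / c))) ∨
      (0 < n % c ∧ c ≤ m ∧ ((0 < m % c ∧ m % c < n % c) ∨ (m % c = 0 ∧ Odd (m / c)) ∨
        (m % c = n % c ∧ Even ((n + m - 2 * (n % c)) / c)))) := by
  have hn' := Nat.div_add_mod n c
  have hm' := Nat.div_add_mod m c
  set k₀ := n % c with hk₀
  set s₀ := n / c with hs₀
  set l := m % c with hl
  set t₀ := m / c with ht₀
  have hlc : l < c := Nat.mod_lt _ hc0
  have hkc : k₀ < c := Nat.mod_lt _ hc0
  rcases Nat.eq_zero_or_pos k₀ with hk0 | hk0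
  · left
    have hl0 : l = 0 := by omega
    exact ⟨hk0, hl0, bodd_true_iff.1 (h0 hl0).symm⟩
  · right
    refine ⟨hk0, ?_⟩
    rcases Nat.eq_zero_or_pos l with hl0 | hl0
    · have ht : 0 < t₀ := by
        apply Nat.pos_of_ne_zero
        intro h6
        rw [h6, hl0] at hm'
        simp at hm'
        omega
      have hcm : c ≤ m := by
        have : c * 1 ≤ c * t₀ := Nat.mul_le_mul_left _ ht
        omega
      exact ⟨hcm, Or.inr (Or.inl ⟨hl0, bodd_true_iff.1 (h0 hl0).symm⟩)⟩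
    · rcases Nat.lt_or_ge l k₀ with hlt | hge
      · refine ⟨?_, Or.inl ⟨hl0, hlt⟩⟩
        by_contra h7
        push Not at h7
        have : l = m := Nat.mod_eq_of_lt h7
        omega
      · have hlk : l = k₀ := by omega
        have h5 := h3 hlk
        have h8 : xor s₀.bodd t₀.bodd = false := by
          revert h5
          cases s₀.bodd <;> cases t₀.bodd <;> simp
        have h9 : Even (s₀ + t₀) := by
          rw [← bodd_false_iff, Nat.bodd_add]
          exact h8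
        have h7' : n + m - 2 * k₀ = c * (s₀ + t₀) := by
          rw [Nat.mul_add]
          omega
        have h10 : (n + m - 2 * k₀) / c = s₀ + t₀ := by
          rw [h7', Nat.mul_div_cancel_left _ hc0]
        refine ⟨?_, Or.inr (Or.inr ⟨hlk, by rw [h10]; exact h9⟩)⟩
        by_contra h7
        push Not at h7
        have hml : l = m := Nat.mod_eq_of_lt h7
        have ht0 : t₀ = 0 := Nat.div_eq_of_lt h7
        rw [ht0] at h9
        rw [add_zero] at h9
        have hnm : n - m = c * s₀ := by omega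
        rcases hcount with ⟨w, hw1, hw⟩ | ⟨w, hw1, hw⟩ | ⟨j, h11, h12, h⟩
        · have : c ∣ n := by
            rw [hn, hw]
            exact Dvd.intro _ rfl
          have : k₀ = 0 := Nat.mod_eq_zero_of_dvd this
          omega
        · have h13 : c * s₀ = c * w := by
            obtain ⟨a, ha⟩ := hme
            have : m / 2 = a := by omega
            rw [this] at hw
            omega
          have := Nat.eq_of_mul_eq_mul_left hc0 h13
          rw [this] at h9
          exact (Nat.not_even_iff_odd.2 hw1) h9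
        · obtain ⟨w, hw⟩ := h
          have hj1 : 2 * j < n := by omega
          have hj2 : n - m < 2 * j := by
            obtain ⟨a, ha⟩ := hme
            have : m / 2 = a := by omega
            omega
          rw [hnm, hw] at hj2
          have h13 : s₀ < w := Nat.lt_of_mul_lt_mul_left hj2
          have h14 : c * (s₀ + 1) ≤ c * w := Nat.mul_le_mul_left _ h13
          rw [Nat.mul_add, Nat.mul_one] at h14
          omega

/-- The half order. -/
theorem half_pow {q r : ℕ} [hrf : Fact r.Prime] (hev : Even (orderOf (q : ZMod r))) (h0 : 0 < orderOf (q : ZMod r)) :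
    (q : ZMod r) ^ (orderOf (q : ZMod r) / 2) = -1 := by
  obtain ⟨e, he⟩ := hev
  have he' : orderOf (q : ZMod r) / 2 = e := by omega
  rw [he']
  have h1 : ((q : ZMod r) ^ e) * ((q : ZMod r) ^ e) = 1 := by
    rw [← pow_add, ← he, pow_orderOf_eq_one]
  rcases mul_self_eq_one_iff.1 h1 with h | h
  · exfalso
    exact pow_ne_one_of_lt_orderOf (by omega) (by omega) h
  · exact h

end Cfsg.Agent.Lib.EvN99
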