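import Mathlib
import Cfsg.Agent.Lib.SLTransfer
import Cfsg.Prelude.Def_FischerSpaces

/-!
# Transport of the types M(22), M(23) along isomorphisms; primitivity from the orbits of the centralizer
-/

set_option autoImplicit false
set_option linter.all false

namespace Cfsg.Agent.Lib.Ex27

open Cfsg

section transport

variable {A B : Type*} [Group A] [Group B]

/-- The isomorphism of the subgroups generated by corresponding sets. -/
noncomputable def cl (e : A ≃* B) {S : Set A} {T : Set B} (h : T = e '' S) :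
    ↥(Subgroup.closure S) ≃* ↥(Subgroup.closure T) :=
  (e.subgroupMap (Subgroup.closure S)).trans (MulEquiv.subgroupCongr (by
    rw [h]
    have := MonoidHom.map_closure (e.toMonoidHom) S
    simpa using this))

@[simp] theorem cl_coe (e : A ≃* B) {S : Set A} {T : Set B} (h : T = e '' S) (x : ↥(Subgroup.closure S)) :
    ((cl e h x : ↥(Subgroup.closure T)) : B) = e x := rfl

theorem center_map (e : A ≃* B) (h : Subgroup.center A = ⊥) : Subgroup.center B = ⊥ := by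
  rw [eq_bot_iff]
  intro x hx
  have h1 : e.symm x ∈ Subgroup.center A := by
    rw [Subgroup.mem_center_iff] at hx ⊢
    intro g
    apply e.injective
    simp only [map_mul, MulEquiv.apply_symm_apply]
    exact hx _
  rw [h, Subgroup.mem_bot] at h1
  rw [Subgroup.mem_bot]
  have := congrArg e h1
  simpa using this

theorem da_image (e : A ≃* B) (D : Set A) (d : A) :
    {y : B | y ∈ e '' D ∧ y ≠ e d ∧ Commute (e d) y} = e '' {y : A | y ∈ D ∧ y ≠ d ∧ Commute d y} := by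
  ext y
  constructor
  · rintro ⟨⟨x, hx, rfl⟩, h2, h3⟩
    refine ⟨x, ⟨hx, fun h => h2 (by rw [h]), ?_⟩, rfl⟩
    apply e.injective
    rw [map_mul, map_mul]
    exact h3
  · rintro ⟨x, ⟨hx, h2, h3⟩, rfl⟩
    refine ⟨⟨x, hx, rfl⟩, fun h => h2 (e.injective h), ?_⟩
    show e d * e x = e x * e d
    rw [← map_mul, h3.eq, map_mul]

theorem proj_map {X Y : Type*} [Group X] [Group Y] (e : X ≃* Y) {n : ℕ} {μ c : ZMod 3}
    (h : IsProjReflectionGroupModThree X n μ c) : IsProjReflectionGroupModThree Y n μ c := by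
  obtain ⟨Q, h1, h2, ⟨E⟩⟩ := h
  exact ⟨Q, h1, h2, ⟨e.symm.trans E⟩⟩

/-- Type M(22) along an isomorphism. -/
theorem typeM22_map (e : A ≃* B) {D : Set A} (h : IsOfTypeM22 A D) : IsOfTypeM22 B (e '' D) := by
  obtain ⟨hZ, d, hd, c, hc, hnc, ⟨F, i1, i2, hF, ⟨eF⟩⟩, c₃, hc₃, hproj⟩ := h
  have hda := da_image e D d
  have hdc := da_image e D c
  refine ⟨center_map e hZ, e d, ⟨d, hd, rfl⟩, e c, ⟨c, hc, rfl⟩, ?_, ⟨F, i1, i2, hF,
    ⟨(Cfsg.Agent.Lib.SLTransfer.quotCenterEquiv (cl e hda)).symm.trans eF⟩⟩, c₃, hc₃, ?_⟩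
  · intro h
    apply hnc
    apply e.injective
    rw [map_mul, map_mul]
    exact h
  · have hI : ({y : B | y ∈ e '' D ∧ y ≠ e d ∧ Commute (e d) y} ∩ {y : B | y ∈ e '' D ∧ y ≠ e c ∧ Commute (e c) y})
        = e '' ({y : A | y ∈ D ∧ y ≠ d ∧ Commute d y} ∩ {y : A | y ∈ D ∧ y ≠ c ∧ Commute c y}) := by
      rw [hda, hdc, Set.image_inter e.injective]
    exact proj_map (Cfsg.Agent.Lib.SLTransfer.quotCenterEquiv (cl e hI)) hproj

/-- Type M(23) along an isomorphism. -/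
theorem typeM23_map (e : A ≃* B) {D : Set A} (h : IsOfTypeM23 A D) : IsOfTypeM23 B (e '' D) := by
  obtain ⟨hZ, d, hd, c, hc, hnc, h22, c₃, hc₃, hproj⟩ := h
  have hda := da_image e D d
  have hdc := da_image e D c
  refine ⟨center_map e hZ, e d, ⟨d, hd, rfl⟩, e c, ⟨c, hc, rfl⟩, ?_, ?_, c₃, hc₃, ?_⟩
  · intro h
    apply hnc
    apply e.injective
    rw [map_mul, map_mul]
    exact h
  · have h1 := typeM22_map (Cfsg.Agent.Lib.SLTransfer.quotCenterEquiv (cl e hda)) h22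
    convert h1 using 1
    ext y
    constructor
    · rintro ⟨x, hx, rfl⟩
      refine ⟨_, ⟨(cl e hda).symm x, ?_, rfl⟩, ?_⟩
      · obtain ⟨u, hu, hux⟩ : (x : B) ∈ e '' {y : A | y ∈ D ∧ y ≠ d ∧ Commute d y} := by
          rw [← hda]
          exact hx
        have : (((cl e hda).symm x : ↥(Subgroup.closure _)) : A) = u := by
          apply e.injective
          rw [hux, ← cl_coe e hda, MulEquiv.apply_symm_apply]
        rw [Set.mem_setOf_eq, this]
        exact hu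
      · show Cfsg.Agent.Lib.SLTransfer.quotCenterEquiv (cl e hda) (((cl e hda).symm x : ↥(Subgroup.closure _)) : _ ⧸ _) = _
        unfold Cfsg.Agent.Lib.SLTransfer.quotCenterEquiv
        rw [QuotientGroup.congr_mk, MulEquiv.apply_symm_apply]
    · rintro ⟨_, ⟨x, hx, rfl⟩, rfl⟩
      refine ⟨cl e hda x, ?_, ?_⟩
      · rw [Set.mem_setOf_eq, cl_coe, hda]
        exact ⟨_, hx, rfl⟩
      · show ((cl e hda x : ↥(Subgroup.closure _)) : _ ⧸ _) = Cfsg.Agent.Lib.SLTransfer.quotCenterEquiv (cl e hda) ((x : ↥(Subgroup.closure _)) : _ ⧸ _)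
        unfold Cfsg.Agent.Lib.SLTransfer.quotCenterEquiv
        rw [QuotientGroup.congr_mk]
  · have hI : ({y : B | y ∈ e '' D ∧ y ≠ e d ∧ Commute (e d) y} ∩ {y : B | y ∈ e '' D ∧ y ≠ e c ∧ Commute (e c) y})
        = e '' ({y : A | y ∈ D ∧ y ≠ d ∧ Commute d y} ∩ {y : A | y ∈ D ∧ y ≠ c ∧ Commute c y}) := by
      rw [hda, hdc, Set.image_inter e.injective]
    exact proj_map (Cfsg.Agent.Lib.SLTransfer.quotCenterEquiv (cl e hI)) hproj

end transport

section prim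

variable {G : Type*} [Group G]

/-- The core of the primitivity argument. -/
theorem prim_core {z a b v₁ v₂ : G} {D Q : Set G}
    (hD : ∀ x ∈ D, ∀ g : G, g * x * g⁻¹ ∈ D)
    (hzD : z ∈ D) (haD : a ∈ D) (hbD : b ∈ D)
    (htr : ∀ x ∈ D, ∃ g : G, g * z * g⁻¹ = x)
    (hcases : ∀ x ∈ D, x = z ∨ (∃ h : G, Commute h z ∧ x = h * a * h⁻¹) ∨ (∃ h : G, Commute h z ∧ x = h * b * h⁻¹))
    (hza : Commute z a) (haz : a ≠ z) (hzb : ¬ Commute z b)
    (hv₁D : v₁ ∈ D) (hv₁a : Commute a v₁) (hv₁ne : v₁ ≠ a) (hv₁z : ¬ Commute z v₁)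
    (hv₂D : v₂ ∈ D) (hv₂b : ¬ Commute b v₂) (hv₂z : Commute z v₂) (hv₂ne : v₂ ≠ z)
    (hQD : Q ⊆ D) (hzQ : z ∈ Q) (hy : ∃ y ∈ Q, y ≠ z)
    (hb : ∀ (g u : G), u ∈ Q → g * u * g⁻¹ ∈ Q → ∀ w ∈ Q, g * w * g⁻¹ ∈ Q) : D ⊆ Q := by
  have hfix : ∀ h : G, Commute h z → ∀ w ∈ Q, h * w * h⁻¹ ∈ Q := by
    intro h hh w hw
    refine hb h z hzQ ?_ w hw
    rw [hh.eq]
    simpa using hzQ
  -- all conjugates of a, from a
  have hA : a ∈ Q → ∀ x ∈ D, Commute z x → x ≠ z → x ∈ Q := by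
    intro haQ x hx hxz hne
    rcases hcases x hx with h | ⟨h, hh, rfl⟩ | ⟨h, hh, rfl⟩
    · exact absurd h hne
    · exact hfix h hh _ haQ
    · exfalso
      apply hzb
      have h1 : Commute z (h * b * h⁻¹) := hxz
      have h2 : z = h * z * h⁻¹ := by rw [hh.eq]; group
      have h3 : h * (z * b) * h⁻¹ = h * (b * z) * h⁻¹ := by
        calc h * (z * b) * h⁻¹ = (h * z * h⁻¹) * (h * b * h⁻¹) := by group
          _ = z * (h * b * h⁻¹) := by rw [← h2]
          _ = (h * b * h⁻¹) * z := h1.eq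
          _ = (h * b * h⁻¹) * (h * z * h⁻¹) := by rw [← h2]
          _ = h * (b * z) * h⁻¹ := by group
      have h4 : z * b = b * z := by
        have := mul_left_cancel (mul_right_cancel h3)
        exact this
      exact h4
  have hB : b ∈ Q → ∀ x ∈ D, ¬ Commute z x → x ∈ Q := by
    intro hbQ x hx hxz
    rcases hcases x hx with h | ⟨h, hh, rfl⟩ | ⟨h, hh, rfl⟩
    · exfalso
      apply hxz
      rw [h]
    · exfalso
      apply hxz
      have h2 : z = h * z * h⁻¹ := by rw [hh.eq]; group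
      show z * (h * a * h⁻¹) = (h * a * h⁻¹) * z
      calc z * (h * a * h⁻¹) = (h * z * h⁻¹) * (h * a * h⁻¹) := by rw [← h2]
        _ = h * (z * a) * h⁻¹ := by group
        _ = h * (a * z) * h⁻¹ := by rw [hza.eq]
        _ = (h * a * h⁻¹) * (h * z * h⁻¹) := by group
        _ = (h * a * h⁻¹) * z := by rw [← h2]
    · exact hfix h hh _ hbQ
  have hAB : a ∈ Q → b ∈ Q := by
    intro haQ
    obtain ⟨g, hg⟩ := htr a haD
    have hg' : ∀ w ∈ Q, g * w * g⁻¹ ∈ Q := hb g z hzQ (by rw [hg]; exact haQ)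
    -- v₁ conjugated back commutes with z
    have h1 : g⁻¹ * v₁ * g ∈ D := by
      have := hD v₁ hv₁D g⁻¹
      simpa using this
    have h2 : Commute z (g⁻¹ * v₁ * g) := by
      have e1 : z = g⁻¹ * a * g := by rw [← hg]; group
      show z * (g⁻¹ * v₁ * g) = (g⁻¹ * v₁ * g) * z
      rw [e1]
      calc g⁻¹ * a * g * (g⁻¹ * v₁ * g) = g⁻¹ * (a * v₁) * g := by group
        _ = g⁻¹ * (v₁ * a) * g := by rw [hv₁a.eq]
        _ = g⁻¹ * v₁ * g * (g⁻¹ * a * g) := by group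
    have h3 : g⁻¹ * v₁ * g ≠ z := by
      intro h
      apply hv₁ne
      have : v₁ = g * (g⁻¹ * v₁ * g) * g⁻¹ := by group
      rw [this, h, hg]
    have h4 : g⁻¹ * v₁ * g ∈ Q := hA haQ _ h1 h2 h3
    have h5 : v₁ ∈ Q := by
      have := hg' _ h4
      simpa [mul_assoc] using this
    -- now v₁ is conjugate to b under the centralizer of z
    rcases hcases v₁ hv₁D with h | ⟨h, hh, e⟩ | ⟨h, hh, e⟩
    · exfalso
      apply hv₁z
      rw [h]
    · exfalso
      apply hv₁z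
      have h2' : z = h * z * h⁻¹ := by rw [hh.eq]; group
      rw [e]
      show z * (h * a * h⁻¹) = (h * a * h⁻¹) * z
      calc z * (h * a * h⁻¹) = (h * z * h⁻¹) * (h * a * h⁻¹) := by rw [← h2']
        _ = h * (z * a) * h⁻¹ := by group
        _ = h * (a * z) * h⁻¹ := by rw [hza.eq]
        _ = (h * a * h⁻¹) * (h * z * h⁻¹) := by group
        _ = (h * a * h⁻¹) * z := by rw [← h2']
    · have h6 : h⁻¹ * v₁ * h⁻¹⁻¹ ∈ Q := hfix h⁻¹ (hh.inv_left) _ h5
      rw [e] at h6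
      simpa [mul_assoc] using h6
  have hBA : b ∈ Q → a ∈ Q := by
    intro hbQ
    obtain ⟨g, hg⟩ := htr b hbD
    have hg' : ∀ w ∈ Q, g * w * g⁻¹ ∈ Q := hb g z hzQ (by rw [hg]; exact hbQ)
    have h1 : g⁻¹ * v₂ * g ∈ D := by
      have := hD v₂ hv₂D g⁻¹
      simpa using this
    have e1 : z = g⁻¹ * b * g := by rw [← hg]; group
    have h2 : ¬ Commute z (g⁻¹ * v₂ * g) := by
      intro hc
      apply hv₂b
      have hc' : z * (g⁻¹ * v₂ * g) = (g⁻¹ * v₂ * g) * z := hc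
      rw [e1] at hc'
      have h3 : g⁻¹ * (b * v₂) * g = g⁻¹ * (v₂ * b) * g := by
        calc g⁻¹ * (b * v₂) * g = g⁻¹ * b * g * (g⁻¹ * v₂ * g) := by group
          _ = g⁻¹ * v₂ * g * (g⁻¹ * b * g) := hc'
          _ = g⁻¹ * (v₂ * b) * g := by group
      exact mul_left_cancel (mul_right_cancel h3)
    have h4 : g⁻¹ * v₂ * g ∈ Q := hB hbQ _ h1 h2
    have h5 : v₂ ∈ Q := by
      have := hg' _ h4
      simpa [mul_assoc] using this
    rcases hcases v₂ hv₂D with h | ⟨h, hh, e⟩ | ⟨h, hh, e⟩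
    · exact absurd h hv₂ne
    · have h6 : h⁻¹ * v₂ * h⁻¹⁻¹ ∈ Q := hfix h⁻¹ (hh.inv_left) _ h5
      rw [e] at h6
      simpa [mul_assoc] using h6
    · exfalso
      apply hzb
      have h1' : z * (h * b * h⁻¹) = (h * b * h⁻¹) * z := by
        rw [← e]; exact hv₂z.eq
      have h2' : z = h * z * h⁻¹ := by rw [hh.eq]; group
      have h3 : h * (z * b) * h⁻¹ = h * (b * z) * h⁻¹ := by
        calc h * (z * b) * h⁻¹ = (h * z * h⁻¹) * (h * b * h⁻¹) := by group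
          _ = z * (h * b * h⁻¹) := by rw [← h2']
          _ = (h * b * h⁻¹) * z := h1'
          _ = (h * b * h⁻¹) * (h * z * h⁻¹) := by rw [← h2']
          _ = h * (b * z) * h⁻¹ := by group
      exact mul_left_cancel (mul_right_cancel h3)
  obtain ⟨y, hyQ, hyne⟩ := hy
  have hy' : a ∈ Q ∧ b ∈ Q := by
    rcases hcases y (hQD hyQ) with h | ⟨h, hh, e⟩ | ⟨h, hh, e⟩
    · exact absurd h hyne
    · have h6 : h⁻¹ * y * h⁻¹⁻¹ ∈ Q := hfix h⁻¹ (hh.inv_left) _ hyQ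
      rw [e] at h6
      have : a ∈ Q := by simpa [mul_assoc] using h6
      exact ⟨this, hAB this⟩
    · have h6 : h⁻¹ * y * h⁻¹⁻¹ ∈ Q := hfix h⁻¹ (hh.inv_left) _ hyQ
      rw [e] at h6
      have : b ∈ Q := by simpa [mul_assoc] using h6
      exact ⟨hBA this, this⟩
  intro x hx
  rcases hcases x hx with h | ⟨h, hh, rfl⟩ | ⟨h, hh, rfl⟩
  · rw [h]; exact hzQ
  · exact hfix h hh _ hy'.1
  · exact hfix h hh _ hy'.2

/-- Primitivity. -/
theorem prim_of_rank3 {z a b v₁ v₂ : G} {D : Set G}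
    (hD : ∀ x ∈ D, ∀ g : G, g * x * g⁻¹ ∈ D)
    (hzD : z ∈ D) (haD : a ∈ D) (hbD : b ∈ D)
    (htr : ∀ x ∈ D, ∃ g : G, g * z * g⁻¹ = x)
    (hcases : ∀ x ∈ D, x = z ∨ (∃ h : G, Commute h z ∧ x = h * a * h⁻¹) ∨ (∃ h : G, Commute h z ∧ x = h * b * h⁻¹))
    (hza : Commute z a) (haz : a ≠ z) (hzb : ¬ Commute z b)
    (hv₁D : v₁ ∈ D) (hv₁a : Commute a v₁) (hv₁ne : v₁ ≠ a) (hv₁z : ¬ Commute z v₁)
    (hv₂D : v₂ ∈ D) (hv₂b : ¬ Commute b v₂) (hv₂z : Commute z v₂) (hv₂ne : v₂ ≠ z) :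
    IsPrimitiveUnderConj D := by
  refine ⟨?_, ⟨z, hzD, a, haD, haz.symm⟩, ?_⟩
  · intro x hx y hy
    obtain ⟨g, rfl⟩ := htr x hx
    obtain ⟨g', rfl⟩ := htr y hy
    exact ⟨g' * g⁻¹, by group⟩
  · intro B hBD hblk
    by_cases hs : B.Subsingleton
    · exact Or.inl hs
    right
    rw [Set.not_subsingleton_iff] at hs
    obtain ⟨x, hx, y, hy, hxy⟩ := hs
    apply Set.Subset.antisymm hBD
    obtain ⟨t, ht⟩ := htr x (hBD hx)
    have hpres : ∀ (g u : G), u ∈ B → g * u * g⁻¹ ∈ B → ∀ w ∈ B, g * w * g⁻¹ ∈ B := by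
      intro g u hu hgu w hw
      rcases hblk g with h | h
      · rw [← h]
        exact ⟨w, hw, rfl⟩
      · exact absurd hgu (fun hgu' => (Set.disjoint_left.mp h) ⟨u, hu, rfl⟩ hgu')
    let Q : Set G := {w | t * w * t⁻¹ ∈ B}
    have hmem : D ⊆ Q := by
      refine prim_core hD hzD haD hbD htr hcases hza haz hzb hv₁D hv₁a hv₁ne hv₁z hv₂D hv₂b hv₂z hv₂ne ?_ ?_ ?_ ?_
      · intro w hw
        have h1 := hD _ (hBD hw) t⁻¹
        simpa [mul_assoc] using h1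
      · show t * z * t⁻¹ ∈ B
        rw [ht]; exact hx
      · refine ⟨t⁻¹ * y * t, ?_, ?_⟩
        · show t * (t⁻¹ * y * t) * t⁻¹ ∈ B
          have : t * (t⁻¹ * y * t) * t⁻¹ = y := by group
          rw [this]; exact hy
        · intro h
          apply hxy
          rw [← ht]
          have : y = t * (t⁻¹ * y * t) * t⁻¹ := by group
          rw [this, h]
      · intro g u hu hgu w hw
        show t * (g * w * g⁻¹) * t⁻¹ ∈ B
        have h1 : (t * g * t⁻¹) * (t * u * t⁻¹) * (t * g * t⁻¹)⁻¹ ∈ B := by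
          have : (t * g * t⁻¹) * (t * u * t⁻¹) * (t * g * t⁻¹)⁻¹ = t * (g * u * g⁻¹) * t⁻¹ := by group
          rw [this]; exact hgu
        have h2 := hpres (t * g * t⁻¹) (t * u * t⁻¹) hu h1 (t * w * t⁻¹) hw
        have : (t * g * t⁻¹) * (t * w * t⁻¹) * (t * g * t⁻¹)⁻¹ = t * (g * w * g⁻¹) * t⁻¹ := by group
        rwa [this] at h2
    intro w hw
    have h1 : t⁻¹ * w * t ∈ D := by
      have := hD w hw t⁻¹
      simpa using this
    have h2 := hmem h1
    have h3 : t * (t⁻¹ * w * t) * t⁻¹ ∈ B := h2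
    have : t * (t⁻¹ * w * t) * t⁻¹ = w := by group
    rwa [this] at h3

end prim

end Cfsg.Agent.Lib.Ex27
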