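import Mathlib
import Cfsg.Agent.Lib.Ex27A
import Cfsg.Agent.Lib.OutTreeB36
import Cfsg.Agent.Lib.TcBits

/-!
# Primitivity from the orbit data; the image of the class in the central quotient
-/

set_option autoImplicit false
set_option linter.all false

namespace Cfsg.Agent.Lib.Ex27

open Cfsg Cfsg.Agent.Lib.OutTree36 Cfsg.Agent.Lib.TcBits

section kit

variable {Γ : Type*} [Group Γ]

/-- Primitivity from the masks of two orbits. -/
theorem prim_kit (Φ : Γ →* Equiv.Perm ℕ) (z : Γ)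
    (hs' : ∀ g, Φ g 0 = 0 ↔ g * z = z * g)
    (K : Subgroup Γ) (hK : ∀ h ∈ K, h * z = z * h)
    {O₁ O₂ p₁ p₂ : ℕ} (s₁ : Sound Φ K p₁ O₁) (s₂ : Sound Φ K p₂ O₂)
    (hcov : ∀ g : Γ, Φ g 0 = 0 ∨ O₁.testBit (Φ g 0) = true ∨ O₂.testBit (Φ g 0) = true)
    {a b v₁ v₂ : Γ} {qa qb qv₁ qv₂ : ℕ} (ha : Pt Φ z a qa) (hb : Pt Φ z b qb)
    (hv₁ : Pt Φ z v₁ qv₁) (hv₂ : Pt Φ z v₂ qv₂)
    (hqa : O₂.testBit qa = true) (hqb : O₁.testBit qb = true)
    (hza : Commute z a) (haz : qa ≠ 0) (hzb : ¬ Commute z b)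
    (hv₁a : Commute a v₁) (hv₁ne : qv₁ ≠ qa) (hv₁z : ¬ Commute z v₁)
    (hv₂b : ¬ Commute b v₂) (hv₂z : Commute z v₂) (hv₂ne : qv₂ ≠ 0) :
    IsPrimitiveUnderConj (conjugatesOf z) := by
  have hz0 : Pt Φ z z 0 := ⟨1, by simp, by simp⟩
  have hmem : ∀ {x : Γ} {p : ℕ}, Pt Φ z x p → x ∈ conjugatesOf z := by
    rintro x p ⟨g, rfl, _⟩
    exact isConj_iff.mpr ⟨g, rfl⟩
  have hcj : ∀ x ∈ conjugatesOf z, ∃ g : Γ, g * z * g⁻¹ = x := fun x hx => isConj_iff.mp hx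
  have key : ∀ {M p q₀ : ℕ} {c : Γ}, Sound Φ K p M → M.testBit q₀ = true → Pt Φ z c q₀ → ∀ g : Γ,
      M.testBit (Φ g 0) = true → ∃ h : Γ, Commute h z ∧ g * z * g⁻¹ = h * c * h⁻¹ := by
    intro M p q₀ c s h0 hc g hg
    obtain ⟨h, hh, he⟩ := s _ hg
    obtain ⟨h₁, hh₁, he₁⟩ := s _ h0
    refine ⟨h * h₁⁻¹, ?_, ?_⟩
    · have h2 : (h * h₁⁻¹) ∈ K := K.mul_mem hh (K.inv_mem hh₁)
      exact hK _ h2
    · have h3 : Pt Φ z (g * z * g⁻¹) (Φ g 0) := ⟨g, rfl, rfl⟩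
      have h4 : Pt Φ z ((h * h₁⁻¹) * c * (h * h₁⁻¹)⁻¹) (Φ (h * h₁⁻¹) q₀) := Pt.conj hc _
      have h5 : Φ (h * h₁⁻¹) q₀ = Φ g 0 := by
        rw [map_mul, Equiv.Perm.mul_apply, map_inv, ← he₁, ← he]
        simp
      rw [h5] at h4
      exact Pt.inj hs' h3 h4
  refine prim_of_rank3 (z := z) (a := a) (b := b) (v₁ := v₁) (v₂ := v₂)
    (fun x hx g => ?_) (mem_conjugatesOf_self) (hmem ha) (hmem hb) hcj ?_ hza ?_ hzb (hmem hv₁) hv₁a ?_ hv₁z (hmem hv₂) hv₂b hv₂z ?_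
  · obtain ⟨u, rfl⟩ := hcj x hx
    exact isConj_iff.mpr ⟨g * u, by group⟩
  · intro x hx
    obtain ⟨g, rfl⟩ := hcj x hx
    rcases hcov g with h0 | h1 | h2
    · left
      have := (hs' g).1 h0
      rw [this]
      group
    · right; right
      exact key s₁ hqb hb g h1
    · right; left
      exact key s₂ hqa ha g h2
  · rintro rfl
    exact haz (Pt.uniq hs' ha hz0)
  · rintro rfl
    exact hv₁ne (Pt.uniq hs' hv₁ ha)
  · rintro rfl
    exact hv₂ne (Pt.uniq hs' hv₂ hz0)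

end kit

section dbar

variable {G : Type*} [Group G]

/-- The members commuting with `d`. -/
abbrev Dd (D : Set G) (d : G) : Set G := {y : G | y ∈ D ∧ y ≠ d ∧ Commute d y}

theorem comm_closure {D : Set G} {d h : G} (hh : h ∈ Subgroup.closure (Dd D d)) : Commute d h := by
  have h1 : Subgroup.closure (Dd D d) ≤ Subgroup.centralizer {d} := by
    rw [Subgroup.closure_le]
    rintro y ⟨-, -, hy⟩
    exact Subgroup.mem_centralizer_singleton_iff.mpr hy.eq.symm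
  exact (Subgroup.mem_centralizer_singleton_iff.mp (h1 hh)).symm

/-- The image of the class of `a`. -/
theorem dbar_eq {D : Set G} (hD : ∀ x ∈ D, ∀ g : G, g * x * g⁻¹ ∈ D) {d : G} {A : Type*} [Group A] (a : A)
    (e : A ≃* (↥(Subgroup.closure (Dd D d)) ⧸ Subgroup.center ↥(Subgroup.closure (Dd D d))))
    (x0 : ↥(Subgroup.closure (Dd D d))) (hx0 : (x0 : G) ∈ Dd D d)
    (hea : e a = ((x0 : ↥(Subgroup.closure (Dd D d))) : ↥(Subgroup.closure (Dd D d)) ⧸ Subgroup.center ↥(Subgroup.closure (Dd D d))))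
    (htr : ∀ y ∈ Dd D d, ∃ h : ↥(Subgroup.closure (Dd D d)), y = (h : G) * x0 * (h : G)⁻¹) :
    e '' conjugatesOf a = (QuotientGroup.mk : ↥(Subgroup.closure (Dd D d)) → _) ''
      {x : ↥(Subgroup.closure (Dd D d)) | (x : G) ∈ Dd D d} := by
  ext y
  constructor
  · rintro ⟨u, hu, rfl⟩
    obtain ⟨g, rfl⟩ := isConj_iff.mp hu
    obtain ⟨h, hh⟩ := QuotientGroup.mk_surjective (e g)
    refine ⟨h * x0 * h⁻¹, ?_, ?_⟩
    · have hc : Commute d (h : G) := comm_closure h.2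
      refine ⟨hD _ hx0.1 _, ?_, ?_⟩
      · intro h1
        apply hx0.2.1
        have h2 : ((h * x0 * h⁻¹ : ↥(Subgroup.closure (Dd D d))) : G) = (h : G) * x0 * (h : G)⁻¹ := rfl
        rw [h2] at h1
        calc (x0 : G) = (h : G)⁻¹ * ((h : G) * x0 * (h : G)⁻¹) * h := by group
          _ = (h : G)⁻¹ * d * h := by rw [h1]
          _ = (h : G)⁻¹ * (h * d) := by rw [mul_assoc, hc.eq]
          _ = d := by group
      · have h2 : ((h * x0 * h⁻¹ : ↥(Subgroup.closure (Dd D d))) : G) = (h : G) * x0 * (h : G)⁻¹ := rfl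
        rw [h2]
        exact ((hc.mul_right hx0.2.2).mul_right hc.inv_right)
    · rw [map_mul, map_mul, map_inv, hea, ← hh]
      rfl
  · rintro ⟨x, hx, rfl⟩
    obtain ⟨h, hh⟩ := htr x hx
    obtain ⟨g, hg⟩ := e.surjective ((h : ↥(Subgroup.closure (Dd D d))) : ↥(Subgroup.closure (Dd D d)) ⧸ Subgroup.center ↥(Subgroup.closure (Dd D d)))
    refine ⟨g * a * g⁻¹, isConj_iff.mpr ⟨g, rfl⟩, ?_⟩
    rw [map_mul, map_mul, map_inv, hea, hg]
    have h3 : x = h * x0 * h⁻¹ := Subtype.ext hh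
    rw [h3]
    rfl

/-- The central quotient of a centreless image: the transport of the closure along an equality. -/
theorem bot_of_equiv {A B : Type*} [Group A] [Group B] (e : A ≃* B) (h : Subgroup.center B = ⊥) : Subgroup.center A = ⊥ :=
  center_map e.symm h

end dbar

end Cfsg.Agent.Lib.Ex27
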