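import Mathlib
import Cfsg.Agent.Lib.Ex27A
import Cfsg.Agent.Lib.Ex27B
import Cfsg.Agent.Lib.Fi22Nx11
import Cfsg.Agent.TcChain36.LM22.XD
import Cfsg.Agent.TcChain36.U62.Class
import Cfsg.Agent.TcChain36.Fi23.Cover
import Cfsg.Agent.Lib.OrthF3Model

/-!
# The group `Fi₂₂` is of type M(22)
-/

set_option autoImplicit false
set_option maxRecDepth 1000000
set_option linter.all false

namespace Cfsg.Agent.Lib.Ex27

open Cfsg

section forms

variable (n : ℕ)

/-- The sum of squares. -/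
noncomputable def sqF : QuadraticForm (ZMod 3) (Fin n → ZMod 3) :=
  QuadraticMap.weightedSumSquares (ZMod 3) (fun _ : Fin n => (1 : ZMod 3))

theorem sqF_apply (x : Fin n → ZMod 3) : sqF n x = ∑ i, x i * x i := by
  simp [sqF, QuadraticMap.weightedSumSquares_apply]

theorem sqF_polar (x y : Fin n → ZMod 3) : QuadraticMap.polar (⇑(sqF n)) x y = 2 * ∑ i, x i * y i := by
  simp only [QuadraticMap.polar, sqF_apply, Pi.add_apply]
  rw [Finset.mul_sum, ← Finset.sum_sub_distrib, ← Finset.sum_sub_distrib]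
  apply Finset.sum_congr rfl
  intro i _
  ring

theorem sqF_det : polarGramDet (⇑(sqF n)) = (2 : ZMod 3) ^ n := by
  unfold polarGramDet
  have h : (Matrix.of fun i j : Fin n => QuadraticMap.polar (⇑(sqF n)) (Pi.single i 1) (Pi.single j 1))
      = (2 : ZMod 3) • (1 : Matrix (Fin n) (Fin n) (ZMod 3)) := by
    ext i j
    rw [Matrix.of_apply, sqF_polar, Matrix.smul_apply, Matrix.one_apply, smul_eq_mul]
    congr 1
    by_cases hij : i = j
    · subst hij
      simp [Pi.single_apply]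
    · rw [if_neg hij]
      apply Finset.sum_eq_zero
      intro k _
      by_cases hk : k = i
      · subst hk
        simp [Pi.single_apply, hij, Ne.symm hij]
      · simp [Pi.single_apply, hk]
  rw [h, Matrix.det_smul, Matrix.det_one, mul_one, Fintype.card_fin]

theorem sqF_nondeg : (QuadraticMap.polarBilin (sqF n)).Nondegenerate := by
  have key : ∀ x : Fin n → ZMod 3, (∀ y, QuadraticMap.polar (⇑(sqF n)) x y = 0) → x = 0 := by
    intro x hx
    funext i
    have h1 := hx (Pi.single i 1)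
    rw [sqF_polar] at h1
    have h2 : ∑ k, x k * (Pi.single i 1 : Fin n → ZMod 3) k = x i := by
      rw [Finset.sum_eq_single i]
      · simp
      · intro b _ hb
        simp [Pi.single_apply, hb]
      · simp
    rw [h2] at h1
    have h3 : ∀ a : ZMod 3, 2 * a = 0 → a = 0 := by decide
    exact h3 _ h1
  constructor
  · intro x hx
    exact key x (fun y => hx y)
  · intro y hy
    apply key y
    intro x
    have := hy x
    rw [QuadraticMap.polar_comm]
    exact this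

/-- The central quotient of a centreless group. -/
noncomputable def quotBot {X : Type*} [Group X] (h : Subgroup.center X = ⊥) : (X ⧸ Subgroup.center X) ≃* X :=
  (QuotientGroup.quotientMulEquivOfEq h).trans QuotientGroup.quotientBot

end forms

namespace F22

open Cfsg.Agent.Lib.OutTree36 Cfsg.Agent.Lib.TcBits Cfsg.Agent.Lib.TcPres Cfsg.Agent.Lib.PresChain36
open Cfsg.Agent.TcData.Fi22.I3510 Cfsg.Agent.TcData.Fi22 Cfsg.Agent.TcChain36.Fi22 Cfsg.Agent.TcChain36.Out.Fi22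
open Cfsg.Agent.Lib.PcClass36 Cfsg.Agent.Lib.Fi22K Cfsg.Agent.Lib.Fi22Nx11

/-! ### The letters of the reflection group -/

/-- The letters in the group. -/
noncomputable def Lq (j : ℕ) : Gq := evL Lt (tw j)

theorem evL_Lq (t : List ℕ) : evL Lq t = evL Lt (ex t) := by
  induction t with
  | nil => rfl
  | cons i t ih =>
    rw [evL_cons, ih]
    show evL Lt (tw i) * evL Lt (ex t) = evL Lt (tw i ++ ex t)
    rw [evL_append]

/-- The letters of the generators. -/
abbrev encL : Cfsg.Agent.TcChain36.LPres.Gen × Bool → ℕ := Cfsg.Agent.TcChain36.Out.LM22.enc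

theorem inv_of_D0 {x : Gq} (h : x ∈ D0) : x⁻¹ = x := by
  obtain ⟨g, rfl⟩ := isConj_iff.mp h
  have h2 : zz * zz = 1 := Cfsg.Agent.TcChain36.U62.aa_sq
  have h3 : zz⁻¹ = zz := inv_eq_of_mul_eq_one_left h2
  simp only [mul_inv_rev, inv_inv, h3, mul_assoc]

theorem Lq_inv {j : ℕ} (hj : j < 7) : (Lq j)⁻¹ = Lq j := inv_of_D0 (tw_YY hj).1

theorem enc_lt (q : Cfsg.Agent.TcChain36.LPres.Gen × Bool) : encL q < 7 := by
  obtain ⟨x, b⟩ := q
  cases x <;> cases b <;> decide

theorem lift_Lq (r : FreeGroup Cfsg.Agent.TcChain36.LPres.Gen) :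
    FreeGroup.lift (fun x => Lq (encL (x, true))) r = evL Lt (ex (r.toWord.map encL)) := by
  rw [← evL_Lq]
  refine lift_eq_evL (fun x => Lq (encL (x, true))) Lq encL (fun x => rfl) (fun x => ?_) r
  have e : encL (x, false) = encL (x, true) := rfl
  rw [e, Lq_inv (enc_lt _)]

set_option Elab.async false in
theorem rel1 : ∀ x ∈ Cfsg.Spor.coxNodes Cfsg.Agent.TcChain36.LPres.edges, ∀ y ∈ Cfsg.Spor.coxNodes Cfsg.Agent.TcChain36.LPres.edges,
    isOne ap bsL (ex (((FreeGroup.of x * FreeGroup.of y) ^ Cfsg.Spor.coxLabel Cfsg.Agent.TcChain36.LPres.edges x y : FreeGroup _).toWord.map encL)) = true := by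
  decide +kernel

set_option Elab.async false in
theorem rel2 : ∀ r ∈ Cfsg.Agent.TcChain36.LPres.extra, isOne ap bsL (ex (r.toWord.map encL)) = true := by
  decide +kernel

/-- The map from the presented reflection group. -/
noncomputable def phi : Cfsg.Agent.TcChain36.LM22.Gp →* Gq :=
  PresentedGroup.toGroup (f := fun x => Lq (encL (x, true))) (by
    intro r hr
    rw [lift_Lq]
    apply evL_eq_one
    rcases hr with ⟨x, hx, y, hy, rfl⟩ | hr
    · exact rel1 x hx y hy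
    · exact rel2 r hr)

theorem phi_of (x : Cfsg.Agent.TcChain36.LPres.Gen) : phi (PresentedGroup.of x) = Lq (encL (x, true)) :=
  PresentedGroup.toGroup.of _

theorem tw_range (i : ℕ) : evL Lt (tw i) ∈ phi.range := by
  by_cases hi : i < 7
  · interval_cases i
    · exact ⟨_, phi_of .d⟩
    · exact ⟨_, phi_of .e⟩
    · exact ⟨_, phi_of .f⟩
    · exact ⟨_, phi_of .g⟩
    · exact ⟨_, phi_of .h⟩
    · exact ⟨_, phi_of .i⟩
    · exact ⟨_, phi_of .w⟩
  · have : tw i = [] := by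
      unfold tw
      apply List.getD_eq_default
      simpa using hi
    rw [this]
    exact Subgroup.one_mem _

theorem ex_range (t : List ℕ) : evL Lt (ex t) ∈ phi.range := by
  induction t with
  | nil => exact Subgroup.one_mem _
  | cons i t ih =>
    have e : ex (i :: t) = tw i ++ ex t := rfl
    rw [e, evL_append]
    exact Subgroup.mul_mem _ (tw_range i) ih

/-- The stabilizer chain in the range. -/
noncomputable def KR (bs : List ℕ) : Subgroup Gq := phi.range ⊓ ptStab Phi bs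

theorem step' {pre : List ℕ} {b : ℕ} {ws : List (List ℕ)} (h : chkLv pre b ws = true) :
    ws.length * Nat.card (KR (b :: pre)) ≤ Nat.card (KR pre) := by
  unfold chkLv at h
  simp only [Bool.and_eq_true, decide_eq_true_eq, List.all_eq_true] at h
  obtain ⟨⟨⟨hb, hp⟩, hw⟩, hnd⟩ := h
  have hb' : b < 3510 := blt_true hb
  have hm : ∀ t ∈ ws, evL Lt (ex t) ∈ KR pre := by
    intro t ht
    refine ⟨ex_range t, ?_⟩
    intro p hpp
    have := beq_true (hw t ht p hpp)
    rw [H.ev_eq _ (blt_true (hp p hpp))]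
    exact this
  have key := card_orbit_le (K := KR pre) (K' := KR (b :: pre)) (b := b) Phi
    (fun g hg => ⟨hg.1, ptStab_cons_le Phi b pre hg.2⟩) (fun g hg => hg.2 b List.mem_cons_self)
    (fun i : Fin ws.length => evL Lt (ex (ws.get i))) (fun i => hm _ (List.get_mem _ _)) (by
      intro i j hij
      simp only at hij
      rw [H.ev_eq _ hb', H.ev_eq _ hb'] at hij
      have hnd' := (List.nodup_iff_injective_get.mp hnd)
      have : (ws.map (fun t => ev ap (ex t) b)).get (i.cast (by simp)) = (ws.map (fun t => ev ap (ex t) b)).get (j.cast (by simp)) := by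
        simpa using hij
      have := hnd' this
      exact Fin.ext (by simpa using congrArg Fin.val this))
  simpa using key

theorem KR_nil : KR [] = phi.range := by
  unfold KR
  rw [ptStab_nil]
  simp

theorem range_card : 6531840 ≤ Nat.card phi.range := by
  have h0 := step' chk0
  have h1 := step' chk1
  have h2 := step' chk2
  have h3 := step' chk3
  have h4 := step' chk4
  rw [len0, KR_nil] at h0
  rw [len1] at h1
  rw [len2] at h2
  rw [len3] at h3
  rw [len4] at h4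
  have h5 : 0 < Nat.card (KR [33, 31, 10, 9, 8]) := Nat.card_pos
  nlinarith

theorem range_le : phi.range ≤ Cfsg.Agent.Lib.Fi22Nx11.K0 := by
  rw [MonoidHom.range_eq_map, ← PresentedGroup.closure_range_of, MonoidHom.map_closure, Subgroup.closure_le]
  rintro _ ⟨_, ⟨x, rfl⟩, rfl⟩
  show phi (PresentedGroup.of x) ∈ Cfsg.Agent.Lib.Fi22Nx11.K0
  rw [phi_of]
  exact tw_mem _

theorem range_eq : phi.range = Cfsg.Agent.Lib.Fi22Nx11.K0 := by
  apply Subgroup.eq_of_le_of_card_ge range_le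
  rw [card_K0]
  exact range_card

/-- The bijection onto the subgroup. -/
noncomputable def phiK : Cfsg.Agent.TcChain36.LM22.Gp →* Cfsg.Agent.Lib.Fi22Nx11.K0 :=
  phi.codRestrict Cfsg.Agent.Lib.Fi22Nx11.K0 (fun x => range_le ⟨x, rfl⟩)

theorem phiK_bij : Function.Bijective phiK := by
  rw [Nat.bijective_iff_surjective_and_card]
  constructor
  · rintro ⟨y, hy⟩
    rw [← range_eq] at hy
    obtain ⟨x, rfl⟩ := hy
    exact ⟨x, rfl⟩
  · rw [Cfsg.Agent.TcChain36.LM22.cardG, card_K0]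

/-- The isomorphism. -/
noncomputable def eK : Cfsg.Agent.TcChain36.LM22.Gp ≃* Cfsg.Agent.Lib.Fi22Nx11.K0 := MulEquiv.ofBijective phiK phiK_bij

theorem center_K0 : Subgroup.center Cfsg.Agent.Lib.Fi22Nx11.K0 = ⊥ := by
  rw [eq_bot_iff]
  rintro ⟨k, hk⟩ hc
  rw [Subgroup.mem_bot]
  apply Subtype.ext
  show k = 1
  apply KS_trivial
  refine ⟨hk, ?_⟩
  have key : ∀ p, p < 3510 → ap 0 p = p → ap 1 p = p → Phi k p = p := by
    intro p hp h0 h1
    obtain ⟨y, hy⟩ := exists_of_lt hp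
    have hyY := mem_YY_of_pq hy h0 h1
    have h2 : (⟨k, hk⟩ : Cfsg.Agent.Lib.Fi22Nx11.K0) * ⟨y, Subgroup.subset_closure hyY⟩ = ⟨y, Subgroup.subset_closure hyY⟩ * ⟨k, hk⟩ :=
      (Subgroup.mem_center_iff.mp hc _).symm
    have h3 : k * y = y * k := congrArg Subtype.val h2
    exact fix_of_comm hy h3
  intro b hb
  simp only [List.mem_cons, List.not_mem_nil, or_false] at hb
  rcases hb with rfl | rfl | rfl | rfl | rfl
  all_goals exact key _ (by norm_num) (by decide +kernel) (by decide +kernel)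

/-! ### The reflection group clause -/

theorem vec_eq : ∀ x, (1 : ZMod 3) * (sqF 6) (LinearEquiv.refl (ZMod 3) (Fin 6 → ZMod 3) x) = ∑ i, x i * x i := by
  intro x
  rw [one_mul, sqF_apply]
  rfl

/-- The reflection group. -/
noncomputable def eRefl : Cfsg.Agent.TcChain36.LM22.Gp ≃*
    (↥(Cfsg.reflectionSubgroup (⇑(sqF 6)) 1) ⧸ Subgroup.center ↥(Cfsg.reflectionSubgroup (⇑(sqF 6)) 1)) :=
  Cfsg.Agent.TcChain36.LM22.isoG (Cfsg.Agent.Lib.OrthF3Model.model (sqF 6) 1) (by decide)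
    (LinearEquiv.refl (ZMod 3) (Fin 6 → ZMod 3)) vec_eq

theorem YY_eq : ({y : Gq | y ∈ D0 ∧ y ≠ Lt 0 ∧ Commute (Lt 0) y} ∩ {y : Gq | y ∈ D0 ∧ y ≠ Lt 1 ∧ Commute (Lt 1) y}) = YY := by
  ext y
  constructor
  · rintro ⟨⟨h1, h2, h3⟩, ⟨-, h5, h6⟩⟩
    exact ⟨h1, h3, h6, h2, h5⟩
  · rintro ⟨h1, h2, h3, h4, h5⟩
    exact ⟨⟨h1, h4, h2⟩, ⟨h1, h5, h3⟩⟩

theorem proj_clause : IsProjReflectionGroupModThree
    (↥(Subgroup.closure ({y : Gq | y ∈ D0 ∧ y ≠ Lt 0 ∧ Commute (Lt 0) y} ∩ {y : Gq | y ∈ D0 ∧ y ≠ Lt 1 ∧ Commute (Lt 1) y})) ⧸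
      Subgroup.center ↥(Subgroup.closure ({y : Gq | y ∈ D0 ∧ y ≠ Lt 0 ∧ Commute (Lt 0) y} ∩ {y : Gq | y ∈ D0 ∧ y ≠ Lt 1 ∧ Commute (Lt 1) y}))) 6 1 1 := by
  have hS : Subgroup.closure ({y : Gq | y ∈ D0 ∧ y ≠ Lt 0 ∧ Commute (Lt 0) y} ∩ {y : Gq | y ∈ D0 ∧ y ≠ Lt 1 ∧ Commute (Lt 1) y}) = Cfsg.Agent.Lib.Fi22Nx11.K0 := by
    rw [YY_eq]; rfl
  refine ⟨sqF 6, sqF_nondeg 6, ?_, ⟨?_⟩⟩
  · rw [sqF_det]; decide
  · exact (Cfsg.Agent.Lib.SLTransfer.quotCenterEquiv (MulEquiv.subgroupCongr hS)).trans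
      ((quotBot center_K0).trans (eK.symm.trans eRefl))

/-! ### The unitary clause -/

theorem mem_Da_of_pq {y : Gq} {p : ℕ} (hy : Pq y p) (h0 : ap 0 p = p) (hp : p ≠ 0) :
    y ∈ {y : Gq | y ∈ D0 ∧ y ≠ Lt 0 ∧ Commute (Lt 0) y} := by
  refine ⟨mem_D0_of_pq hy, ?_, ?_⟩
  · intro h
    rw [h] at hy
    exact hp (pq_uniq hy Lt0_pq')
  · have hlt := lt_of_pq hy
    have : Phi (Lt 0) p = p := by rw [ap_eq hlt]; exact h0
    exact (comm_iff_fix Lt0_pq' hy).2 this

theorem wW_eq : PresentedGroup.mk Cfsg.Agent.TcChain36.U62.R22 Cfsg.Agent.TcChain36.U62.wW = evL Lt Wq := by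
  have hL : ∀ j, j < 9 → Lt j = PresentedGroup.of (dec j) := hLet
  have e0 := hL 0 (by norm_num)
  have e1 := hL 1 (by norm_num)
  have e2 := hL 2 (by norm_num)
  have e3 := hL 3 (by norm_num)
  have e4 := hL 4 (by norm_num)
  have e7 := hL 7 (by norm_num)
  simp only [Wq, evL_cons, evL_nil, mul_one, e0, e1, e2, e3, e4, e7]
  simp only [Cfsg.Agent.TcChain36.U62.wW, map_pow, map_mul, pow_succ, pow_zero, one_mul, mul_assoc]
  rfl

theorem closure_Da : Subgroup.closure {y : Gq | y ∈ D0 ∧ y ≠ Lt 0 ∧ Commute (Lt 0) y} = Cfsg.Agent.TcChain36.U62.HH22 := by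
  apply le_antisymm
  · rw [Subgroup.closure_le]
    rintro y ⟨-, -, h⟩
    apply Cfsg.Agent.TcChain36.U62.hcomm
    rw [hiz] at h
    exact h.eq.symm
  · rw [← Cfsg.Agent.TcChain36.U62.range_eq, MonoidHom.range_eq_map, ← PresentedGroup.closure_range_of,
      MonoidHom.map_closure, Subgroup.closure_le]
    rintro _ ⟨_, ⟨x, rfl⟩, rfl⟩
    show Cfsg.Agent.TcChain36.U62.π0 (PresentedGroup.of x) ∈ _
    rw [Cfsg.Agent.TcChain36.U62.π0_of]
    apply Subgroup.subset_closure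
    have hL : ∀ j (hj : j < 9), ap 0 (Cfsg.Agent.TcChain36.Out.Fi22.baseL.getD j 0) = Cfsg.Agent.TcChain36.Out.Fi22.baseL.getD j 0 →
        Cfsg.Agent.TcChain36.Out.Fi22.baseL.getD j 0 ≠ 0 → Lt j ∈ {y : Gq | y ∈ D0 ∧ y ≠ Lt 0 ∧ Commute (Lt 0) y} := by
      intro j hj h1 h2
      exact mem_Da_of_pq (Lt_pq j hj) h1 h2
    cases x
    · exact (hL 2 (by norm_num) (by decide +kernel) (by decide +kernel))
    · exact (hL 3 (by norm_num) (by decide +kernel) (by decide +kernel))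
    · exact (hL 4 (by norm_num) (by decide +kernel) (by decide +kernel))
    · exact (hL 5 (by norm_num) (by decide +kernel) (by decide +kernel))
    · exact (hL 6 (by norm_num) (by decide +kernel) (by decide +kernel))
    · exact (hL 7 (by norm_num) (by decide +kernel) (by decide +kernel))
    · exact (hL 8 (by norm_num) (by decide +kernel) (by decide +kernel))
    · show PresentedGroup.mk Cfsg.Agent.TcChain36.U62.R22 Cfsg.Agent.TcChain36.U62.wW ∈ _
      rw [wW_eq]
      have h1 := Wq_YY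
      obtain ⟨a1, a2, a3, a4, a5⟩ := h1
      exact ⟨a1, a4, a2⟩

theorem psu_clause : ∃ (F : Type) (_ : Field F) (_ : Fintype F), Fintype.card F = 4 ∧
    Nonempty (↥(Subgroup.closure {y : Gq | y ∈ D0 ∧ y ≠ Lt 0 ∧ Commute (Lt 0) y}) ⧸
      Subgroup.center ↥(Subgroup.closure {y : Gq | y ∈ D0 ∧ y ≠ Lt 0 ∧ Commute (Lt 0) y}) ≃* PSU 6 F 2) := by
  obtain ⟨-, ⟨E⟩, -⟩ := Cfsg.Agent.TcChain36.U62.cover
  exact ⟨Cfsg.Agent.Lib.F4K.K4, inferInstance, inferInstance, Cfsg.Agent.Lib.F4K.K4.card_K4,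
    ⟨(Cfsg.Agent.Lib.SLTransfer.quotCenterEquiv (MulEquiv.subgroupCongr closure_Da)).trans E⟩⟩

theorem Lt_nc' : ¬ Commute (Lt 0) (Lt 1) := by
  intro h
  exact Lt_nc h.eq

theorem center_Gq : Subgroup.center Gq = ⊥ := Cfsg.Agent.TcChain36.Fi23.center22

/-- The group is of type M(22). -/
theorem type22 : IsOfTypeM22 Gq D0 :=
  ⟨center_Gq, Lt 0, mem_D0_of_pq Lt0_pq', Lt 1, mem_D0_of_pq Lt1_pq, Lt_nc', psu_clause, 1, by decide, proj_clause⟩

/-! ### Primitivity -/

theorem cm (i j : ℕ) (hi : i < 9) (hj : j < 9)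
    (h : ap i (Cfsg.Agent.TcChain36.Out.Fi22.baseL.getD j 0) = Cfsg.Agent.TcChain36.Out.Fi22.baseL.getD j 0) :
    Commute (Lt i) (Lt j) :=
  (comm_iff_fix (Lt_pq i hi) (Lt_pq j hj)).2 (by rw [ap_eq (lt_of_pq (Lt_pq j hj))]; exact h)

theorem ncm (i j : ℕ) (hi : i < 9) (hj : j < 9)
    (h : ap i (Cfsg.Agent.TcChain36.Out.Fi22.baseL.getD j 0) ≠ Cfsg.Agent.TcChain36.Out.Fi22.baseL.getD j 0) :
    ¬ Commute (Lt i) (Lt j) := by
  intro h1
  apply h
  have h2 := (comm_iff_fix (Lt_pq i hi) (Lt_pq j hj)).1 h1.eq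
  rwa [ap_eq (lt_of_pq (Lt_pq j hj))] at h2

theorem prim22 : IsPrimitiveUnderConj D0 := by
  have hz : Lt 0 = zz := hiz
  refine prim_kit Phi zz Cfsg.Agent.TcChain36.Out.Fi22.hs' Cfsg.Agent.TcChain36.U62.HH22
    (fun h hh => Cfsg.Agent.TcChain36.U62.hZa h hh) (Cfsg.Agent.TcChain36.U62.hsound 0) (Cfsg.Agent.TcChain36.U62.hsound 1) ?_
    (Lt_pq 3 (by norm_num)) (Lt_pq 1 (by norm_num)) (Lt_pq 1 (by norm_num)) (Lt_pq 2 (by norm_num))
    (by decide +kernel) (by decide +kernel) ?_ (by decide +kernel) ?_ ?_ (by decide +kernel) ?_ ?_ ?_ (by decide +kernel)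
  · intro g
    rcases Cfsg.Agent.TcChain36.U62.hcover' g with h | ⟨i, hi⟩
    · exact Or.inl h
    · fin_cases i
      · exact Or.inr (Or.inl hi)
      · exact Or.inr (Or.inr hi)
  · rw [← hz]; exact cm 0 3 (by norm_num) (by norm_num) (by decide +kernel)
  · rw [← hz]; exact ncm 0 1 (by norm_num) (by norm_num) (by decide +kernel)
  · exact (cm 1 3 (by norm_num) (by norm_num) (by decide +kernel)).symm
  · rw [← hz]; exact ncm 0 1 (by norm_num) (by norm_num) (by decide +kernel)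
  · exact ncm 1 2 (by norm_num) (by norm_num) (by decide +kernel)
  · rw [← hz]; exact cm 0 2 (by norm_num) (by norm_num) (by decide +kernel)

/-- The existence statement for `M(22)`. -/
theorem main22 : ∃ (X : Type) (_ : Group X) (_ : Finite X) (E : Set X),
    IsThreeTranspositionClass E ∧ IsPrimitiveUnderConj E ∧ IsOfTypeM22 X E :=
  ⟨Gq, inferInstance, Cfsg.Agent.TcChain36.U62.finG22, D0, Cfsg.Agent.TcChain36.U62.classD, prim22, type22⟩

end F22

end Cfsg.Agent.Lib.Ex27
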