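import Mathlib

/-!
# Groups of order 32 of symplectic type, exponent 4, with no elementary abelian subgroup of order 8

Part A: the group has class 2.
-/

set_option autoImplicit false
set_option linter.unusedSimpArgs false
set_option linter.unusedVariables false
set_option linter.unusedSectionVars false

namespace Cfsg.Agent.Lib.Ext32

open Subgroup

variable {G : Type*} [Group G]

theorem quot_comm_iff {N : Subgroup G} [N.Normal] {x y : G} :
    ((x : G ⧸ N) * (y : G ⧸ N) = (y : G ⧸ N) * (x : G ⧸ N)) ↔ x * y * x⁻¹ * y⁻¹ ∈ N := by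
  rw [← QuotientGroup.eq_one_iff (N := N) (x * y * x⁻¹ * y⁻¹)]
  simp only [QuotientGroup.mk_mul, QuotientGroup.mk_inv]
  constructor
  · intro h
    rw [h]
    group
  · intro h
    have h1 : (x : G ⧸ N) * (y : G ⧸ N) = ((x : G ⧸ N) * (y : G ⧸ N) * (x : G ⧸ N)⁻¹ * (y : G ⧸ N)⁻¹) * ((y : G ⧸ N) * (x : G ⧸ N)) := by
      group
    rw [h1, h, one_mul]

theorem mem_z2 {x : G} : x ∈ Subgroup.upperCentralSeries G 2 ↔ ∀ y, x * y * x⁻¹ * y⁻¹ ∈ center G := by
  have := Subgroup.mem_upperCentralSeries_succ_iff (G := G) (n := 1) (x := x)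
  simpa [Subgroup.upperCentralSeries_one, commutatorElement_def] using this

theorem mem_z2' {x : G} : x ∈ Subgroup.upperCentralSeries G 2 ↔ (x : G ⧸ center G) ∈ center (G ⧸ center G) := by
  rw [mem_z2, Subgroup.mem_center_iff]
  constructor
  · intro h g
    obtain ⟨y, rfl⟩ := QuotientGroup.mk_surjective g
    exact (quot_comm_iff.mpr (h y)).symm
  · intro h y
    exact quot_comm_iff.mp (h (y : G ⧸ center G)).symm

/-- The commutator hom -/
def kappa (y : G) (hy : ∀ g, y * g * y⁻¹ * g⁻¹ ∈ center G) : G →* center G where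
  toFun g := ⟨y * g * y⁻¹ * g⁻¹, hy g⟩
  map_one' := by
    ext
    simp
  map_mul' g h := by
    ext
    have he := (hy h)
    rw [Subgroup.mem_center_iff] at he
    have h1 := he g
    simp only [Subgroup.coe_mul]
    calc y * (g * h) * y⁻¹ * (g * h)⁻¹ = (y * g * y⁻¹) * (y * h * y⁻¹ * h⁻¹) * g⁻¹ := by group
      _ = (y * g * y⁻¹) * ((y * h * y⁻¹ * h⁻¹) * g⁻¹) := by group
      _ = (y * g * y⁻¹) * (g⁻¹ * (y * h * y⁻¹ * h⁻¹)) := by
          congr 1
          have h2 := he g⁻¹
          exact h2.symm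
      _ = y * g * y⁻¹ * g⁻¹ * (y * h * y⁻¹ * h⁻¹) := by group

@[simp] theorem kappa_apply (y : G) (hy : ∀ g, y * g * y⁻¹ * g⁻¹ ∈ center G) (g : G) :
    ((kappa y hy g : center G) : G) = y * g * y⁻¹ * g⁻¹ := rfl

theorem kappa_eq_one {y : G} (hy : ∀ g, y * g * y⁻¹ * g⁻¹ ∈ center G) {g : G} :
    kappa y hy g = 1 ↔ y * g = g * y := by
  rw [Subtype.ext_iff, kappa_apply, Subgroup.coe_one]
  constructor
  · intro h
    have h1 : y * g = (y * g * y⁻¹ * g⁻¹) * (g * y) := by group
    rw [h1, h, one_mul]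
  · intro h
    rw [h]
    group

section two

variable [Finite G]

/-- An element commuting modulo a normal subgroup from a section of order four. -/
theorem comm_mem_of_card {S N : Subgroup G} [N.Normal] (hN : N ≤ S) (h : Nat.card S = 4 * Nat.card N) (hN0 : 0 < Nat.card N)
    {x y : G} (hx : x ∈ S) (hy : y ∈ S) : x * y * x⁻¹ * y⁻¹ ∈ N := by
  haveI : Fact (Nat.Prime 2) := ⟨Nat.prime_two⟩
  have h1 : Nat.card (S ⧸ N.subgroupOf S) * Nat.card (N.subgroupOf S) = Nat.card S :=
    (Subgroup.card_eq_card_quotient_mul_card_subgroup _).symm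
  have h2 : Nat.card (N.subgroupOf S) = Nat.card N :=
    Nat.card_congr (Subgroup.subgroupOfEquivOfLe hN).toEquiv
  rw [h2, h] at h1
  have h3 : Nat.card (S ⧸ N.subgroupOf S) = 2 ^ 2 := by
    have := Nat.eq_of_mul_eq_mul_right hN0 h1
    rw [this]
    norm_num
  have hc := IsPGroup.commutative_of_card_eq_prime_sq h3
  have h4 := hc ((⟨x, hx⟩ : S) : S ⧸ N.subgroupOf S) ((⟨y, hy⟩ : S) : S ⧸ N.subgroupOf S)
  have h5 := (quot_comm_iff (N := N.subgroupOf S)).mp h4
  rw [Subgroup.mem_subgroupOf] at h5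
  simpa using h5

/-- The quotient lemma for case B. -/
theorem false_of_index_two {H : Type*} [Group H] [Finite H] (hcard : Nat.card H = 16) (K : Subgroup H) (hK : K.index = 2)
    (hsq : ∀ k ∈ K, k * k = 1) (hZ : Nat.card (center H) ≤ 2) : False := by
  classical
  have hcardK : Nat.card K = 8 := by
    have := K.index_mul_card
    rw [hK, hcard] at this
    omega
  haveI hnormal : K.Normal := Subgroup.normal_of_index_eq_two hK
  have hcomm : ∀ k ∈ K, ∀ l ∈ K, k * l = l * k := by
    intro k hk l hl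
    have h1 := hsq _ (K.mul_mem hk hl)
    have h2 := hsq _ hk
    have h3 := hsq _ hl
    calc k * l = k * l * 1 := by simp
      _ = k * l * (l * k * (l * k)) := by rw [hsq _ (K.mul_mem hl hk)]
      _ = k * (l * l) * k * (l * k) := by group
      _ = l * k := by rw [h3, mul_one, h2, one_mul]
  obtain ⟨x, hx⟩ := Subgroup.index_eq_two_iff.mp hK
  have hxK : x ∉ K := by
    have := hx 1
    rcases this with ⟨h1, h2⟩ | ⟨h1, h2⟩
    · exact absurd K.one_mem h2
    · simpa using h2
  have hconj : ∀ k ∈ K, x * k * x⁻¹ ∈ K := fun k hk => hnormal.conj_mem k hk x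
  have hxx : x * x ∈ K := by
    have := Subgroup.mul_self_mem_of_index_two hK x
    exact this
  have hcen : ∀ k ∈ K, x * k * x⁻¹ = k → k ∈ center H := by
    intro k hk hkx
    rw [Subgroup.mem_center_iff]
    have hkx' : x * k = k * x := by
      have h0 : x * k = (x * k * x⁻¹) * x := by group
      rw [h0, hkx]
    intro h
    by_cases hh : h ∈ K
    · exact hcomm h hh k hk
    · have h1 : h * x ∈ K := by
        have := hx h
        rcases this with ⟨h2, h3⟩ | ⟨h2, h3⟩
        · exact h2
        · exact absurd h2 hh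
      have h2 := hcomm _ h1 k hk
      have h3 : h * k * x = k * h * x := by
        calc h * k * x = h * (k * x) := by group
          _ = h * (x * k) := by rw [hkx']
          _ = (h * x) * k := by group
          _ = k * (h * x) := h2
          _ = k * h * x := by group
      exact mul_right_cancel h3
  let w : K →* K :=
    { toFun := fun k => ⟨(k : H) * (x * k * x⁻¹), K.mul_mem k.2 (hconj _ k.2)⟩
      map_one' := by
        ext
        simp
      map_mul' := by
        intro k l
        ext
        simp only [Subgroup.coe_mul]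
        have h1 := hcomm _ (hconj _ k.2) _ l.2
        calc (k : H) * l * (x * (k * l) * x⁻¹) = k * l * ((x * k * x⁻¹) * (x * l * x⁻¹)) := by group
          _ = k * (l * (x * k * x⁻¹)) * (x * l * x⁻¹) := by group
          _ = k * ((x * k * x⁻¹) * l) * (x * l * x⁻¹) := by rw [h1]
          _ = k * (x * k * x⁻¹) * (l * (x * l * x⁻¹)) := by group }
  have hw : ∀ k : K, ((w k : K) : H) = (k : H) * (x * k * x⁻¹) := fun k => rfl
  have hker : Nat.card w.ker ≤ 2 := by
    have hinj : Function.Injective (fun k : w.ker => (⟨((k : K) : H), hcen _ (k : K).2 (by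
        have h1 : w (k : K) = 1 := k.2
        have h2 : ((w (k : K) : K) : H) = 1 := by rw [h1]; rfl
        rw [hw] at h2
        have h3 := hsq _ (k : K).2
        have h4 : x * ((k : K) : H) * x⁻¹ = ((k : K) : H)⁻¹ := (eq_inv_of_mul_eq_one_right h2)
        rw [h4]
        exact (inv_eq_of_mul_eq_one_left h3))⟩ : center H)) := by
      intro k l hkl
      simp only [Subtype.mk.injEq] at hkl
      exact Subtype.ext (Subtype.ext hkl)
    exact (Nat.card_le_card_of_injective _ hinj).trans hZ
  have hrange : Nat.card w.range ≤ 2 := by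
    have hmem : ∀ m : w.range, ((m : K) : H) ∈ center H := by
      rintro ⟨m, k, rfl⟩
      apply hcen _ (w k).2
      show x * ((w k : K) : H) * x⁻¹ = ((w k : K) : H)
      rw [hw]
      have h1 : x * ((k : H) * (x * k * x⁻¹)) * x⁻¹ = (x * k * x⁻¹) * ((x * x) * k * (x * x)⁻¹) := by group
      rw [h1]
      have h2 := hcomm _ hxx _ k.2
      have h3 : (x * x) * (k : H) * (x * x)⁻¹ = k := by
        rw [h2]
        group
      rw [h3]
      exact hcomm _ (hconj _ k.2) _ k.2
    have hinj : Function.Injective (fun m : w.range => (⟨((m : K) : H), hmem m⟩ : center H)) := by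
      intro k l hkl
      simp only [Subtype.mk.injEq] at hkl
      exact Subtype.ext (Subtype.ext hkl)
    exact (Nat.card_le_card_of_injective _ hinj).trans hZ
  have h1 : Nat.card w.range * Nat.card w.ker = Nat.card K := by
    rw [← Subgroup.index_ker]
    exact w.ker.index_mul_card
  rw [hcardK] at h1
  have : Nat.card w.range * Nat.card w.ker ≤ 2 * 2 := Nat.mul_le_mul hrange hker
  omega

end two

section main

variable [Finite G]

theorem exists_z (hZ : Nat.card (center G) = 2) :
    ∃ z ∈ center G, z ≠ 1 ∧ z * z = 1 ∧ ∀ e ∈ center G, e = 1 ∨ e = z := by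
  obtain ⟨y, hy, huniq⟩ := (Nat.card_eq_two_iff' (1 : center G)).mp hZ
  have hy1 : (y : G) ≠ 1 := fun h => hy (Subtype.ext h)
  have hall : ∀ e ∈ center G, e = 1 ∨ e = (y : G) := by
    intro e he
    by_cases h1 : e = 1
    · exact Or.inl h1
    · refine Or.inr ?_
      have := huniq ⟨e, he⟩ (fun h => h1 (congrArg Subtype.val h))
      exact congrArg Subtype.val this
  refine ⟨y, y.2, hy1, ?_, hall⟩
  rcases hall _ ((center G).mul_mem y.2 y.2) with h | h
  · exact h
  · exact absurd (mul_left_cancel (a := (y : G)) (by rw [h, mul_one])) hy1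

section split

variable {z : G} (hzc : z ∈ center G) (hcen : ∀ e ∈ center G, e = 1 ∨ e = z) (hzz : z * z = 1) (hz1 : z ≠ 1)
include hzc hcen hzz hz1

theorem kappa_eq_z {y : G} (hy : ∀ g, y * g * y⁻¹ * g⁻¹ ∈ center G) {g : G} :
    kappa y hy g = ⟨z, hzc⟩ ↔ y * g = z * (g * y) := by
  rw [Subtype.ext_iff, kappa_apply]
  constructor
  · intro h
    have h1 : y * g = (y * g * y⁻¹ * g⁻¹) * (g * y) := by group
    rw [h1, h]
  · intro h
    rw [h]
    group

theorem kappa_cases {y : G} (hy : ∀ g, y * g * y⁻¹ * g⁻¹ ∈ center G) (g : G) :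
    kappa y hy g = 1 ∨ kappa y hy g = ⟨z, hzc⟩ := by
  rcases hcen _ (hy g) with h | h
  · exact Or.inl (Subtype.ext h)
  · exact Or.inr (Subtype.ext h)

theorem comm_cases {y : G} (hy : ∀ g, y * g * y⁻¹ * g⁻¹ ∈ center G) (g : G) :
    y * g = g * y ∨ y * g = z * (g * y) := by
  rcases kappa_cases hzc hcen hzz hz1 hy g with h | h
  · exact Or.inl ((kappa_eq_one hy).mp h)
  · exact Or.inr ((kappa_eq_z hzc hcen hzz hz1 hy).mp h)

theorem sq_central {y : G} (hy : ∀ g, y * g * y⁻¹ * g⁻¹ ∈ center G) : y * y ∈ center G := by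
  rw [Subgroup.mem_center_iff]
  intro g
  have hc := Subgroup.mem_center_iff.mp hzc
  rcases comm_cases hzc hcen hzz hz1 hy g with h | h
  · calc g * (y * y) = (g * y) * y := by group
      _ = (y * g) * y := by rw [h]
      _ = y * (g * y) := by group
      _ = y * (y * g) := by rw [h]
      _ = y * y * g := by group
  · have h3 : z * g = g * z := (hc g).symm
    calc g * (y * y) = (g * y) * y := by group
      _ = (z * z) * (g * y) * y := by rw [hzz, one_mul]
      _ = z * (z * (g * y)) * y := by group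
      _ = z * (y * g) * y := by rw [h]
      _ = y * (z * g) * y := by
          have := hc y
          rw [← mul_assoc z y g, ← this]
          group
      _ = y * (z * (g * y)) := by group
      _ = y * (y * g) := by rw [h]
      _ = y * y * g := by group

/-- splitting off two anticommuting elements -/
theorem split {y₁ y₂ p q : G} (hy₁ : ∀ g, y₁ * g * y₁⁻¹ * g⁻¹ ∈ center G) (hy₂ : ∀ g, y₂ * g * y₂⁻¹ * g⁻¹ ∈ center G)
    (h1p : y₁ * p = z * (p * y₁)) (h2p : y₂ * p = p * y₂) (h1q : y₁ * q = q * y₁) (h2q : y₂ * q = z * (q * y₂)) (x : G) :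
    ∃ i j : ℕ, i < 2 ∧ j < 2 ∧ ∃ c, x = p ^ i * q ^ j * c ∧ y₁ * c = c * y₁ ∧ y₂ * c = c * y₂ := by
  have k1p := (kappa_eq_z hzc hcen hzz hz1 hy₁).mpr h1p
  have k2p := (kappa_eq_one hy₂).mpr h2p
  have k1q := (kappa_eq_one hy₁).mpr h1q
  have k2q := (kappa_eq_z hzc hcen hzz hz1 hy₂).mpr h2q
  have hZZ : ((⟨z, hzc⟩ : center G))⁻¹ * ⟨z, hzc⟩ = 1 := by simp
  rcases kappa_cases hzc hcen hzz hz1 hy₁ x with a1 | a1 <;> rcases kappa_cases hzc hcen hzz hz1 hy₂ x with a2 | a2
  · refine ⟨0, 0, by norm_num, by norm_num, x, by simp, (kappa_eq_one hy₁).mp a1, (kappa_eq_one hy₂).mp a2⟩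
  · refine ⟨0, 1, by norm_num, by norm_num, q⁻¹ * x, by simp, (kappa_eq_one hy₁).mp ?_, (kappa_eq_one hy₂).mp ?_⟩
    · rw [map_mul, map_inv, k1q, a1]; simp
    · rw [map_mul, map_inv, k2q, a2]; simp
  · refine ⟨1, 0, by norm_num, by norm_num, p⁻¹ * x, by simp, (kappa_eq_one hy₁).mp ?_, (kappa_eq_one hy₂).mp ?_⟩
    · rw [map_mul, map_inv, k1p, a1]; simp
    · rw [map_mul, map_inv, k2p, a2]; simp
  · refine ⟨1, 1, by norm_num, by norm_num, q⁻¹ * (p⁻¹ * x), by simp [mul_assoc], (kappa_eq_one hy₁).mp ?_, (kappa_eq_one hy₂).mp ?_⟩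
    · rw [map_mul, map_mul, map_inv, map_inv, k1q, k1p, a1]; simp
    · rw [map_mul, map_mul, map_inv, map_inv, k2q, k2p, a2]; simp

/-- cardinality version of the split -/
theorem card_split {y₁ y₂ p q : G} (hy₁ : ∀ g, y₁ * g * y₁⁻¹ * g⁻¹ ∈ center G) (hy₂ : ∀ g, y₂ * g * y₂⁻¹ * g⁻¹ ∈ center G)
    (hZ : Nat.card (center G) = 2) (A : Subgroup G) (hp : p ∈ A) (hq : q ∈ A)
    (h1p : y₁ * p = z * (p * y₁)) (h2p : y₂ * p = p * y₂) (h1q : y₁ * q = q * y₁) (h2q : y₂ * q = z * (q * y₂)) :
    Nat.card A = 4 * Nat.card (A ⊓ (centralizer {y₁} ⊓ centralizer {y₂}) : Subgroup G) := by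
  classical
  have k1p := (kappa_eq_z hzc hcen hzz hz1 hy₁).mpr h1p
  have k2p := (kappa_eq_one hy₂).mpr h2p
  have k1q := (kappa_eq_one hy₁).mpr h1q
  have k2q := (kappa_eq_z hzc hcen hzz hz1 hy₂).mpr h2q
  let f : A →* center G × center G := ((kappa y₁ hy₁).prod (kappa y₂ hy₂)).comp A.subtype
  have hf : Function.Surjective f := by
    rintro ⟨e₁, e₂⟩
    have he : ∀ e : center G, e = 1 ∨ e = ⟨z, hzc⟩ := by
      intro e
      rcases hcen e e.2 with h | h
      · exact Or.inl (Subtype.ext h)
      · exact Or.inr (Subtype.ext h)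
    rcases he e₁ with rfl | rfl <;> rcases he e₂ with rfl | rfl
    · exact ⟨1, map_one f⟩
    · refine ⟨⟨q, hq⟩, ?_⟩
      show (kappa y₁ hy₁ q, kappa y₂ hy₂ q) = _
      rw [k1q, k2q]
    · refine ⟨⟨p, hp⟩, ?_⟩
      show (kappa y₁ hy₁ p, kappa y₂ hy₂ p) = _
      rw [k1p, k2p]
    · refine ⟨⟨p, hp⟩ * ⟨q, hq⟩, ?_⟩
      rw [map_mul]
      show (kappa y₁ hy₁ p, kappa y₂ hy₂ p) * (kappa y₁ hy₁ q, kappa y₂ hy₂ q) = _
      rw [k1q, k2q, k1p, k2p]
      simp
  have h1 : Nat.card f.range = 4 := by
    rw [MonoidHom.range_eq_top.mpr hf, Subgroup.card_top, Nat.card_prod, hZ]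
  have h2 := f.ker.index_mul_card
  rw [Subgroup.index_ker, h1] at h2
  have h3 : Nat.card f.ker = Nat.card (A ⊓ (centralizer {y₁} ⊓ centralizer {y₂}) : Subgroup G) := by
    refine Nat.card_congr ⟨fun k => ⟨((k : A) : G), Subgroup.mem_inf.mpr ⟨(k : A).2, Subgroup.mem_inf.mpr ⟨Subgroup.mem_centralizer_singleton_iff.mpr ?_, Subgroup.mem_centralizer_singleton_iff.mpr ?_⟩⟩⟩, fun k => ⟨⟨k, k.2.1⟩, ?_⟩, fun k => rfl, fun k => rfl⟩
    · have hk : f (k : A) = 1 := k.2
      have h4 : kappa y₁ hy₁ ((k : A) : G) = 1 := congrArg Prod.fst hk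
      exact ((kappa_eq_one hy₁).mp h4).symm
    · have hk : f (k : A) = 1 := k.2
      have h4 : kappa y₂ hy₂ ((k : A) : G) = 1 := congrArg Prod.snd hk
      exact ((kappa_eq_one hy₂).mp h4).symm
    · have h5 : (k : G) ∈ (centralizer {y₁} : Subgroup G) := k.2.2.1
      have h6 : (k : G) ∈ (centralizer {y₂} : Subgroup G) := k.2.2.2
      rw [Subgroup.mem_centralizer_singleton_iff] at h5 h6
      show f _ = 1
      refine Prod.ext ?_ ?_
      · exact (kappa_eq_one hy₁).mpr h5.symm
      · exact (kappa_eq_one hy₂).mpr h6.symm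
  rw [← h3]
  exact h2.symm

/-- Cardinality with one anticommuting element. -/
theorem card_split_one {y p : G} (hy : ∀ g, y * g * y⁻¹ * g⁻¹ ∈ center G) (hZ : Nat.card (center G) = 2)
    (h1p : y * p = z * (p * y)) : Nat.card G = 2 * Nat.card (centralizer {y} : Subgroup G) := by
  classical
  have k1p := (kappa_eq_z hzc hcen hzz hz1 hy).mpr h1p
  let f : G →* center G := kappa y hy
  have hf : Function.Surjective f := by
    intro e
    rcases hcen e e.2 with h | h
    · exact ⟨1, by rw [map_one]; exact (Subtype.ext h).symm⟩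
    · exact ⟨p, by rw [show f p = _ from k1p]; exact (Subtype.ext h).symm⟩
  have h1 : Nat.card f.range = 2 := by
    rw [MonoidHom.range_eq_top.mpr hf, Subgroup.card_top, hZ]
  have h2 := f.ker.index_mul_card
  rw [Subgroup.index_ker, h1] at h2
  have h3 : f.ker = centralizer {y} := by
    ext g
    rw [MonoidHom.mem_ker, Subgroup.mem_centralizer_singleton_iff]
    constructor
    · intro h
      exact ((kappa_eq_one hy).mp h).symm
    · intro h
      exact (kappa_eq_one hy).mpr h.symm
  rw [← h3]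
  exact h2.symm

end split

variable (hc : Nat.card G = 32) (hZ : Nat.card (center G) = 2) (h4 : ∀ g : G, g ^ 4 = 1)
  (hchar : ∀ A : Subgroup G, A.Characteristic → IsMulCommutative A → IsCyclic A)

include hc hZ h4 hchar

theorem caseA (hQ : Nat.card (Subgroup.upperCentralSeries G 2) = 8) (x y : G) :
    (x : G ⧸ center G) * (y : G ⧸ center G) = (y : G ⧸ center G) * (x : G ⧸ center G) := by
  classical
  set Q := Subgroup.upperCentralSeries G 2 with hQdef
  have hnc : ¬ (∀ a ∈ Q, ∀ b ∈ Q, a * b = b * a) := by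
    intro hcomm
    haveI hcm : IsMulCommutative Q := ⟨⟨fun a b => Subtype.ext (hcomm a a.2 b b.2)⟩⟩
    haveI hchQ : Q.Characteristic := by rw [hQdef]; infer_instance
    haveI := hchar Q hchQ hcm
    obtain ⟨g, hg⟩ := IsCyclic.exists_generator (α := Q)
    have h1 := orderOf_eq_card_of_forall_mem_zpowers hg
    rw [hQ] at h1
    have h2 : g ^ 4 = 1 := Subtype.ext (h4 g)
    have h3 := orderOf_dvd_of_pow_eq_one h2
    rw [h1] at h3
    norm_num at h3
  simp only [not_forall] at hnc
  obtain ⟨a, ha, b, hb, hab⟩ := hnc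
  have hya := mem_z2.mp ha
  have hyb := mem_z2.mp hb
  obtain ⟨z, hzc, hz1, hzz, hcen⟩ := exists_z hZ
  have hcomma := comm_cases hzc hcen hzz hz1 hya b
  have hab' : a * b = z * (b * a) := by
    rcases hcomma with h | h
    · exact absurd h hab
    · exact h
  have hzcomm := Subgroup.mem_center_iff.mp hzc
  have hba' : b * a = z * (a * b) := by
    rw [hab', ← mul_assoc, hzz, one_mul]
  have hcard := card_split hzc hcen hzz hz1 hyb hya hZ ⊤ (p := a) (q := b) (Subgroup.mem_top _) (Subgroup.mem_top _)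
    hba' rfl rfl hab'
  rw [Subgroup.card_top, hc, top_inf_eq] at hcard
  have hcard8 : Nat.card (centralizer {b} ⊓ centralizer {a} : Subgroup G) = 8 := by omega
  have hle : center G ≤ (centralizer {b} ⊓ centralizer {a} : Subgroup G) := by
    intro e he
    have hh := Subgroup.mem_center_iff.mp he
    exact Subgroup.mem_inf.mpr ⟨Subgroup.mem_centralizer_singleton_iff.mpr (hh b).symm, Subgroup.mem_centralizer_singleton_iff.mpr (hh a).symm⟩
  have hcc : ∀ c ∈ (centralizer {b} ⊓ centralizer {a} : Subgroup G), ∀ d ∈ (centralizer {b} ⊓ centralizer {a} : Subgroup G),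
      c * d * c⁻¹ * d⁻¹ ∈ center G := by
    intro c hc' d hd
    exact comm_mem_of_card hle (by rw [hcard8, hZ]) (by rw [hZ]; norm_num) hc' hd
  have hdecomp : ∀ x : G, ∃ q ∈ Q, ∃ c ∈ (centralizer {b} ⊓ centralizer {a} : Subgroup G), x = q * c := by
    intro x
    obtain ⟨i, j, hi, hj, c, hx, h1, h2⟩ := split hzc hcen hzz hz1 hyb hya hba' rfl rfl hab' x
    exact ⟨a ^ i * b ^ j, Q.mul_mem (Q.pow_mem ha i) (Q.pow_mem hb j), c, Subgroup.mem_inf.mpr ⟨Subgroup.mem_centralizer_singleton_iff.mpr h1.symm, Subgroup.mem_centralizer_singleton_iff.mpr h2.symm⟩, hx⟩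
  obtain ⟨q, hq, c, hc', rfl⟩ := hdecomp x
  obtain ⟨q', hq', c', hc'', rfl⟩ := hdecomp y
  have hq1 := Subgroup.mem_center_iff.mp (mem_z2'.mp hq)
  have hq2 := Subgroup.mem_center_iff.mp (mem_z2'.mp hq')
  have h5 := quot_comm_iff.mpr (hcc c hc' c' hc'')
  simp only [QuotientGroup.mk_mul]
  have e1 := hq1 (c' : G ⧸ center G)
  have e2 := hq2 (c : G ⧸ center G)
  have e3 := hq1 (q' : G ⧸ center G)
  calc (q : G ⧸ center G) * c * (q' * c') = q * (c * q') * c' := by group
    _ = q * (q' * c) * c' := by rw [e2]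
    _ = (q * q') * (c * c') := by group
    _ = (q' * q) * (c' * c) := by rw [h5, e3]
    _ = q' * (q * c') * c := by group
    _ = q' * (c' * q) * c := by rw [e1]
    _ = q' * c' * (q * c) := by group

omit hc hZ h4 hchar in
theorem card_z2 (hc : Nat.card G = 32) (hZ : Nat.card (center G) = 2) :
    Nat.card (Subgroup.upperCentralSeries G 2) = 2 * Nat.card (center (G ⧸ center G)) := by
  have h1 : Subgroup.upperCentralSeries G 2 = (center (G ⧸ center G)).comap (QuotientGroup.mk' (center G)) := by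
    ext x
    rw [mem_z2', Subgroup.mem_comap]
    rfl
  have h2 := (center (G ⧸ center G)).index_mul_card
  have h3 := (Subgroup.upperCentralSeries G 2).index_mul_card
  have h4 : (Subgroup.upperCentralSeries G 2).index = (center (G ⧸ center G)).index := by
    rw [h1]
    exact Subgroup.index_comap_of_surjective _ (QuotientGroup.mk'_surjective _)
  have h5 : Nat.card (G ⧸ center G) * Nat.card (center G) = Nat.card G :=
    (Subgroup.card_eq_card_quotient_mul_card_subgroup _).symm
  rw [h4] at h3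
  have h6 : 0 < (center (G ⧸ center G)).index := Nat.pos_of_ne_zero (Subgroup.index_ne_zero_of_finite)
  have h7 : (center (G ⧸ center G)).index * (Nat.card (center (G ⧸ center G)) * 2) = (center (G ⧸ center G)).index * Nat.card (Subgroup.upperCentralSeries G 2) := by
    calc (center (G ⧸ center G)).index * (Nat.card (center (G ⧸ center G)) * 2)
        = ((center (G ⧸ center G)).index * Nat.card (center (G ⧸ center G))) * 2 := by ring
      _ = Nat.card (G ⧸ center G) * Nat.card (center G) := by rw [h2, hZ]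
      _ = Nat.card G := h5
      _ = _ := h3.symm
  have := Nat.eq_of_mul_eq_mul_left h6 h7
  omega

theorem caseB (hQ : Nat.card (Subgroup.upperCentralSeries G 2) = 4) : False := by
  classical
  set Q := Subgroup.upperCentralSeries G 2 with hQdef
  haveI hchQ : Q.Characteristic := by rw [hQdef]; infer_instance
  haveI hfact : Fact (Nat.Prime 2) := ⟨Nat.prime_two⟩
  have hQcomm := IsPGroup.commutative_of_card_eq_prime_sq (p := 2) (G := Q) (by rw [hQ]; norm_num)
  haveI hcm : IsMulCommutative Q := ⟨⟨hQcomm⟩⟩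
  haveI := hchar Q hchQ hcm
  obtain ⟨g₀, hg₀⟩ := IsCyclic.exists_generator (α := Q)
  have hord := orderOf_eq_card_of_forall_mem_zpowers hg₀
  rw [hQ] at hord
  set a : G := (g₀ : G) with ha
  have haord : orderOf a = 4 := by rw [ha, Subgroup.orderOf_coe, hord]
  have haQ : a ∈ Q := g₀.2
  have hQpow : ∀ y ∈ Q, ∃ k : ℕ, k < 4 ∧ y = a ^ k := by
    intro y hy
    obtain ⟨n, hn⟩ := Subgroup.mem_zpowers_iff.mp (hg₀ ⟨y, hy⟩)
    have h1 : a ^ n = y := congrArg Subtype.val hn
    have h2 := zpow_mod_orderOf a n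
    rw [haord] at h2
    have h3 : (0 : ℤ) ≤ n % ((4 : ℕ) : ℤ) := Int.emod_nonneg _ (by norm_num)
    have h4' : n % ((4 : ℕ) : ℤ) < ((4 : ℕ) : ℤ) := Int.emod_lt_of_pos _ (by norm_num)
    refine ⟨(n % ((4 : ℕ) : ℤ)).toNat, by omega, ?_⟩
    rw [← h1, ← h2, ← zpow_natCast, Int.toNat_of_nonneg h3]
  have hya := mem_z2.mp haQ
  obtain ⟨z, hzc, hz1, hzz, hcen⟩ := exists_z hZ
  have ha2 : a * a ≠ 1 := by
    intro h
    have h1 : a ^ 2 = 1 := by rw [pow_two, h]
    have h2 := orderOf_dvd_of_pow_eq_one h1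
    rw [haord] at h2
    norm_num at h2
  have hacen : a ∉ center G := by
    intro h
    rcases hcen a h with h | h
    · rw [h] at ha2
      simp at ha2
    · rw [h] at ha2
      exact ha2 hzz
  have haa : a * a = z := by
    rcases hcen _ (sq_central hzc hcen hzz hz1 hya) with h | h
    · exact absurd h ha2
    · exact h
  obtain ⟨p, hp⟩ : ∃ p, a * p ≠ p * a := by
    by_contra hh
    push Not at hh
    exact hacen (Subgroup.mem_center_iff.mpr (fun g => (hh g).symm))
  have hp' : a * p = z * (p * a) := by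
    rcases comm_cases hzc hcen hzz hz1 hya p with h | h
    · exact absurd h hp
    · exact h
  have hC16' := card_split_one hzc hcen hzz hz1 hya hZ hp'
  rw [hc] at hC16'
  set C : Subgroup G := centralizer (Q : Set G) with hCdef
  have hCeq : C = centralizer {a} := by
    ext g
    rw [Subgroup.mem_centralizer_singleton_iff, hCdef, Subgroup.mem_centralizer_iff]
    constructor
    · intro h
      exact (h a haQ).symm
    · intro h y hy
      obtain ⟨k, -, rfl⟩ := hQpow y hy
      exact ((Commute.pow_right (show Commute g a from h) k)).symm.eq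
  have hC16 : Nat.card C = 16 := by
    rw [hCeq]
    omega
  set T : Subgroup G := centralizer (C : Set G) with hTdef
  have hQC : Q ≤ C := by
    intro y hy
    rw [hCdef, Subgroup.mem_centralizer_iff]
    intro h hh
    exact congrArg Subtype.val (hQcomm ⟨h, hh⟩ ⟨y, hy⟩)
  have hTC : T ≤ C := by
    intro t ht
    rw [hCdef, Subgroup.mem_centralizer_iff]
    intro y hy
    exact (Subgroup.mem_centralizer_iff.mp ht) y (hQC hy)
  have hTcomm : ∀ s t : T, s * t = t * s := by
    intro s t
    apply Subtype.ext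
    exact (Subgroup.mem_centralizer_iff.mp t.2) s (hTC s.2) 
  haveI hchC : C.Characteristic := by rw [hCdef]; infer_instance
  haveI hchT : T.Characteristic := by rw [hTdef]; infer_instance
  haveI hcmT : IsMulCommutative T := ⟨⟨hTcomm⟩⟩
  haveI := hchar T hchT hcmT
  obtain ⟨t₀, ht₀⟩ := IsCyclic.exists_generator (α := T)
  have hordT := orderOf_eq_card_of_forall_mem_zpowers ht₀
  have hT4 : Nat.card T ≤ 4 := by
    rw [← hordT]
    apply Nat.le_of_dvd (by norm_num)
    apply orderOf_dvd_of_pow_eq_one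
    exact Subtype.ext (h4 _)
  have hQT : Q ≤ T := by
    intro y hy
    rw [hTdef, Subgroup.mem_centralizer_iff]
    intro c hc'
    exact ((Subgroup.mem_centralizer_iff.mp hc') y hy).symm
  have hTQ : Q = T := Subgroup.eq_of_le_of_card_ge hQT (by rw [hQ]; exact hT4)
  have hT4' : Nat.card T = 4 := by rw [← hTQ, hQ]
  have hZK : ∀ k : C, k ∈ center C ↔ (k : G) ∈ T := by
    intro k
    rw [Subgroup.mem_center_iff, hTdef, Subgroup.mem_centralizer_iff]
    constructor
    · intro h c hc'
      exact congrArg Subtype.val (h ⟨c, hc'⟩)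
    · intro h c
      exact Subtype.ext (h c c.2)
  have hcardZK : Nat.card (center C) = 4 := by
    rw [← hT4']
    exact Nat.card_congr ⟨fun k => ⟨k.1.1, (hZK _).mp k.2⟩, fun t => ⟨⟨t.1, hTC t.2⟩, (hZK _).mpr t.2⟩, fun k => rfl, fun t => rfl⟩
  have hcardKbar : Nat.card (C ⧸ center C) = 4 := by
    have h1 : Nat.card (C ⧸ center C) * Nat.card (center C) = Nat.card C :=
      (Subgroup.card_eq_card_quotient_mul_card_subgroup _).symm
    rw [hC16, hcardZK] at h1
    omega
  have hsqK : ∀ k : C, k * k ∈ center C := by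
    intro k
    by_contra hk
    have hx : ((k : C ⧸ center C)) * (k : C ⧸ center C) ≠ 1 := by
      intro h
      apply hk
      rw [← QuotientGroup.eq_one_iff, QuotientGroup.mk_mul]
      exact h
    have hx4 : ((k : C ⧸ center C)) ^ 4 = 1 := by
      have := pow_card_eq_one' (x := (k : C ⧸ center C))
      rwa [hcardKbar] at this
    have hd := orderOf_dvd_of_pow_eq_one hx4
    have hd' : orderOf (k : C ⧸ center C) ∣ 2 ^ 2 := by simpa using hd
    obtain ⟨e, he, hd2⟩ := (Nat.dvd_prime_pow Nat.prime_two).mp hd'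
    interval_cases e
    · apply hx
      rw [pow_zero, orderOf_eq_one_iff] at hd2
      rw [hd2, one_mul]
    · apply hx
      have := pow_orderOf_eq_one (k : C ⧸ center C)
      rw [hd2, pow_one, pow_two] at this
      exact this
    · have hcyc : IsCyclic (C ⧸ center C) := isCyclic_of_orderOf_eq_card (k : C ⧸ center C) (by rw [hd2, hcardKbar]; norm_num)
      have hcomm := commutative_of_cyclic_center_quotient (QuotientGroup.mk' (center C)) (by
        rw [QuotientGroup.ker_mk'])
      have htop : center C = ⊤ := by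
        rw [eq_top_iff]
        intro c _
        rw [Subgroup.mem_center_iff]
        intro d
        exact hcomm d c
      rw [htop, Subgroup.card_top, hC16] at hcardZK
      norm_num at hcardZK
  have hsqC : ∀ c ∈ C, c * c ∈ center G := by
    intro c hc'
    have h1 : (c * c) ∈ T := (hZK ((⟨c, hc'⟩ : C) * ⟨c, hc'⟩)).mp (hsqK _)
    rw [← hTQ] at h1
    obtain ⟨k, hk, hck⟩ := hQpow _ h1
    have h2 : (c * c) * (c * c) = 1 := by
      have := h4 c
      have e : (c * c) * (c * c) = c ^ 4 := by simp only [pow_succ, pow_zero, one_mul, mul_assoc]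
      rw [e]
      exact this
    rw [hck] at h2
    interval_cases k
    · rw [hck, pow_zero]
      exact (center G).one_mem
    · simp only [pow_one] at h2
      exact absurd h2 ha2
    · rw [hck, pow_two, haa]
      exact hzc
    · have h3 : a ^ 4 = 1 := by
        rw [← haord]
        exact pow_orderOf_eq_one a
      have h5 : a ^ 3 * a ^ 3 = a * a := by
        calc a ^ 3 * a ^ 3 = a ^ 4 * (a * a) := by group
          _ = a * a := by rw [h3, one_mul]
      rw [h5] at h2
      exact absurd h2 ha2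
  have hcoreC : center G ≤ C := by
    intro e he
    rw [hCdef, Subgroup.mem_centralizer_iff]
    intro y _
    exact (Subgroup.mem_center_iff.mp he y)
  have hidxC : C.index = 2 := by
    have := C.index_mul_card
    rw [hC16, hc] at this
    omega
  let K : Subgroup (G ⧸ center G) := C.map (QuotientGroup.mk' (center G))
  have hKidx : K.index = 2 := by
    rw [Subgroup.index_map]
    have h1 : (QuotientGroup.mk' (center G)).ker = center G := QuotientGroup.ker_mk' _
    rw [h1, sup_eq_left.mpr hcoreC, hidxC, MonoidHom.range_eq_top.mpr (QuotientGroup.mk'_surjective _), Subgroup.index_top]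
  have hKsq : ∀ k ∈ K, k * k = 1 := by
    rintro _ ⟨c, hc', rfl⟩
    have h1 := hsqC c hc'
    rw [← QuotientGroup.eq_one_iff, QuotientGroup.mk_mul] at h1
    exact h1
  have hH16 : Nat.card (G ⧸ center G) = 16 := by
    have h1 : Nat.card (G ⧸ center G) * Nat.card (center G) = Nat.card G :=
      (Subgroup.card_eq_card_quotient_mul_card_subgroup _).symm
    rw [hc, hZ] at h1
    omega
  have hZH : Nat.card (center (G ⧸ center G)) ≤ 2 := by
    have := card_z2 hc hZ
    rw [← hQdef, hQ] at this
    omega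
  exact false_of_index_two hH16 K hKidx hKsq hZH

/-- The group has nilpotence class two. -/
theorem class_two (x y : G) : x * y * x⁻¹ * y⁻¹ ∈ center G := by
  classical
  haveI hfact : Fact (Nat.Prime 2) := ⟨Nat.prime_two⟩
  have hH16 : Nat.card (G ⧸ center G) = 16 := by
    have h1 : Nat.card (G ⧸ center G) * Nat.card (center G) = Nat.card G :=
      (Subgroup.card_eq_card_quotient_mul_card_subgroup _).symm
    rw [hc, hZ] at h1
    omega
  refine quot_comm_iff.mp ?_
  by_contra hab
  have hpg : IsPGroup 2 (G ⧸ center G) := IsPGroup.of_card (n := 4) (by rw [hH16]; norm_num)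
  haveI : Nontrivial (G ⧸ center G) := by
    rw [← Finite.one_lt_card_iff_nontrivial, hH16]
    norm_num
  haveI hnt := hpg.center_nontrivial
  have hdvd : Nat.card (center (G ⧸ center G)) ∣ 2 ^ 4 := by
    have := Subgroup.card_subgroup_dvd_card (center (G ⧸ center G))
    rw [hH16] at this
    simpa using this
  obtain ⟨k, hk, hcard⟩ := (Nat.dvd_prime_pow Nat.prime_two).mp hdvd
  have hQcard := card_z2 hc hZ
  interval_cases k
  · have := Finite.one_lt_card_iff_nontrivial.mpr hnt
    rw [hcard] at this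
    norm_num at this
  · rw [hcard] at hQcard
    exact caseB hc hZ h4 hchar (by rw [hQcard]; norm_num)
  · rw [hcard] at hQcard
    exact hab (caseA hc hZ h4 hchar (by rw [hQcard]; norm_num) x y)
  · have h1 : Nat.card ((G ⧸ center G) ⧸ center (G ⧸ center G)) * Nat.card (center (G ⧸ center G)) = Nat.card (G ⧸ center G) :=
      (Subgroup.card_eq_card_quotient_mul_card_subgroup _).symm
    rw [hcard, hH16] at h1
    have h2 : Nat.card ((G ⧸ center G) ⧸ center (G ⧸ center G)) = 2 := by omega
    haveI : Fact (Nat.card ((G ⧸ center G) ⧸ center (G ⧸ center G))).Prime := ⟨by rw [h2]; exact Nat.prime_two⟩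
    haveI : IsCyclic ((G ⧸ center G) ⧸ center (G ⧸ center G)) := isCyclic_of_prime_card rfl
    exact hab (commutative_of_cyclic_center_quotient (QuotientGroup.mk' (center (G ⧸ center G))) (by rw [QuotientGroup.ker_mk']) _ _)
  · have htop : center (G ⧸ center G) = ⊤ := by
      apply Subgroup.eq_top_of_card_eq
      rw [hcard, hH16]
      norm_num
    apply hab
    have h1 : (x : G ⧸ center G) ∈ center (G ⧸ center G) := by
      rw [htop]
      trivial
    exact (Subgroup.mem_center_iff.mp h1 _).symm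

end main

end Cfsg.Agent.Lib.Ext32
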