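import Mathlib
import Cfsg.Agent.Lib.Ext32A

/-!
# Groups of order 32 of symplectic type with no elementary abelian subgroup of order 8, part B

Normal form of the group.
-/

set_option autoImplicit false
set_option linter.unusedSimpArgs false
set_option linter.unusedVariables false
set_option linter.unusedSectionVars false

namespace Cfsg.Agent.Lib.Ext32

open Subgroup

variable {G : Type*} [Group G]

/-- Extension of a subgroup by a commuting involution. -/
def extInv (A : Subgroup G) (p : G) (hp : p * p = 1) (hc : ∀ a ∈ A, a * p = p * a) : Subgroup G where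
  carrier := {x | x ∈ A ∨ p * x ∈ A}
  one_mem' := Or.inl A.one_mem
  mul_mem' := by
    rintro x y (hx | hx) (hy | hy)
    · exact Or.inl (A.mul_mem hx hy)
    · right
      have : p * (x * y) = x * (p * y) := by
        rw [← mul_assoc, ← mul_assoc, hc x hx]
      rw [this]
      exact A.mul_mem hx hy
    · right
      rw [← mul_assoc]
      exact A.mul_mem hx hy
    · left
      have h1 : x * y = (p * x) * (p * y) := by
        calc x * y = (p * p) * x * y := by rw [hp, one_mul]
          _ = p * (p * x) * y := by group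
          _ = (p * x) * p * y := by rw [hc _ hx]
          _ = (p * x) * (p * y) := by group
      rw [h1]
      exact A.mul_mem hx hy
  inv_mem' := by
    rintro x (hx | hx)
    · exact Or.inl (A.inv_mem hx)
    · right
      have h1 : p⁻¹ = p := inv_eq_of_mul_eq_one_left hp
      obtain ⟨y, hy, rfl⟩ : ∃ y ∈ A, x = p * y := ⟨p * x, hx, by rw [← mul_assoc, hp, one_mul]⟩
      have h2 : (p * y)⁻¹ = p * y⁻¹ := by
        rw [mul_inv_rev, h1]
        exact hc _ (A.inv_mem hy)
      rw [h2, ← mul_assoc, hp, one_mul]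
      exact A.inv_mem hy

theorem mem_extInv {A : Subgroup G} {p : G} {hp : p * p = 1} {hc : ∀ a ∈ A, a * p = p * a} {x : G} :
    x ∈ extInv A p hp hc ↔ x ∈ A ∨ p * x ∈ A := Iff.rfl

theorem extInv_comm {A : Subgroup G} {p : G} {hp : p * p = 1} {hc : ∀ a ∈ A, a * p = p * a} {q : G}
    (hqA : ∀ a ∈ A, a * q = q * a) (hqp : p * q = q * p) : ∀ a ∈ extInv A p hp hc, a * q = q * a := by
  rintro a (ha | ha)
  · exact hqA a ha
  · have h1 := hqA _ ha
    have h2 : a = p * (p * a) := by rw [← mul_assoc, hp, one_mul]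
    rw [h2]
    calc p * (p * a) * q = p * ((p * a) * q) := by group
      _ = p * (q * (p * a)) := by rw [h1]
      _ = (p * q) * (p * a) := by group
      _ = (q * p) * (p * a) := by rw [hqp]
      _ = q * (p * (p * a)) := by group

theorem extInv_sq {A : Subgroup G} {p : G} {hp : p * p = 1} {hc : ∀ a ∈ A, a * p = p * a}
    (hA : ∀ a ∈ A, a * a = 1) : ∀ a ∈ extInv A p hp hc, a * a = 1 := by
  rintro a (ha | ha)
  · exact hA a ha
  · have h1 := hA _ ha
    have h2 := hc _ ha
    have h3 : a = p * (p * a) := by rw [← mul_assoc, hp, one_mul]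
    rw [h3]
    calc p * (p * a) * (p * (p * a)) = p * ((p * a) * p) * (p * a) := by group
      _ = p * (p * (p * a)) * (p * a) := by rw [h2]
      _ = (p * p) * ((p * a) * (p * a)) := by group
      _ = 1 := by rw [h1, hp, one_mul]

theorem extInv_card [Finite G] {A : Subgroup G} {p : G} {hp : p * p = 1} {hc : ∀ a ∈ A, a * p = p * a} (hn : p ∉ A) :
    2 * Nat.card A ≤ Nat.card (extInv A p hp hc) := by
  have hle : A ≤ extInv A p hp hc := fun x hx => Or.inl hx
  have hd := Subgroup.card_dvd_of_le hle
  obtain ⟨k, hk⟩ := hd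
  have hne : Nat.card (extInv A p hp hc) ≠ Nat.card A := by
    intro h
    have : A = extInv A p hp hc := Subgroup.eq_of_le_of_card_ge hle (le_of_eq h)
    apply hn
    rw [this]
    exact Or.inr (by rw [hp]; exact A.one_mem)
  have hpos : 0 < Nat.card A := Nat.card_pos
  have hk0 : k ≠ 0 := by
    rintro rfl
    have : 0 < Nat.card (extInv A p hp hc) := Nat.card_pos
    omega
  have hk1 : k ≠ 1 := by
    rintro rfl
    omega
  have hk2 : 2 ≤ k := by omega
  rw [hk, mul_comm 2]
  exact Nat.mul_le_mul_left _ hk2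

/-- Three independent commuting involutions generate an elementary abelian group of order 8. -/
theorem no_E8 [Finite G] (hE : ∀ A : Subgroup G, IsMulCommutative A → (∀ x ∈ A, x * x = 1) → Nat.card A < 8)
    {z p q : G} (hzz : z * z = 1) (hpp : p * p = 1) (hqq : q * q = 1) (hzp : p * z = z * p) (hzq : q * z = z * q) (hpq : q * p = p * q)
    (hz1 : z ≠ 1) (hp1 : p ≠ 1) (hpz : p ≠ z) (hq1 : q ≠ 1) (hqz : q ≠ z) (hqp : q ≠ p) (hqzp : q ≠ z * p) : False := by
  have hzi : z⁻¹ = z := inv_eq_of_mul_eq_one_left hzz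
  have hpi : p⁻¹ = p := inv_eq_of_mul_eq_one_left hpp
  let A₁ : Subgroup G := extInv ⊥ z hzz (by
    intro a ha
    rw [Subgroup.mem_bot.mp ha]
    simp)
  have hA₁p : ∀ a ∈ A₁, a * p = p * a := by
    apply extInv_comm
    · intro a ha
      rw [Subgroup.mem_bot.mp ha]
      simp
    · exact hzp.symm
  have hA₁q : ∀ a ∈ A₁, a * q = q * a := by
    apply extInv_comm
    · intro a ha
      rw [Subgroup.mem_bot.mp ha]
      simp
    · exact hzq.symm
  let A₂ : Subgroup G := extInv A₁ p hpp hA₁p
  have hA₂q : ∀ a ∈ A₂, a * q = q * a := extInv_comm hA₁q hpq.symm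
  let A₃ : Subgroup G := extInv A₂ q hqq hA₂q
  have hmemA₁ : ∀ x, x ∈ A₁ → x = 1 ∨ x = z := by
    rintro x (hx | hx)
    · exact Or.inl (Subgroup.mem_bot.mp hx)
    · right
      have h1 : z * x = 1 := Subgroup.mem_bot.mp hx
      calc x = z⁻¹ := (eq_inv_of_mul_eq_one_right h1)
        _ = z := hzi
  have hc1 : 2 * Nat.card (⊥ : Subgroup G) ≤ Nat.card A₁ := extInv_card (by
    intro h
    exact hz1 (Subgroup.mem_bot.mp h))
  have hc2 : 2 * Nat.card A₁ ≤ Nat.card A₂ := extInv_card (by
    intro h
    rcases hmemA₁ _ h with h | h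
    · exact hp1 h
    · exact hpz h)
  have hc3 : 2 * Nat.card A₂ ≤ Nat.card A₃ := extInv_card (by
    rintro (h | h)
    · rcases hmemA₁ _ h with h | h
      · exact hq1 h
      · exact hqz h
    · rcases hmemA₁ _ h with h | h
      · apply hqp
        calc q = p⁻¹ := eq_inv_of_mul_eq_one_right h
          _ = p := hpi
      · apply hqzp
        calc q = p⁻¹ * z := by rw [← h]; group
          _ = p * z := by rw [hpi]
          _ = z * p := hzp)
  have hbot : Nat.card (⊥ : Subgroup G) = 1 := Subgroup.card_bot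
  have hsq : ∀ a ∈ A₃, a * a = 1 := by
    apply extInv_sq
    apply extInv_sq
    apply extInv_sq
    intro a ha
    rw [Subgroup.mem_bot.mp ha]
    simp
  have hcomm₃ : ∀ a ∈ A₃, ∀ b ∈ A₃, a * b = b * a := by
    intro a ha b hb
    have h1 := hsq _ ha
    have h2 := hsq _ hb
    have h3 := hsq _ (A₃.mul_mem ha hb)
    calc a * b = (a * b) * (b * a) * (b * a) := by
            rw [mul_assoc (a * b), hsq _ (A₃.mul_mem hb ha), mul_one]
      _ = a * (b * b) * a * (b * a) := by group
      _ = b * a := by rw [h2, mul_one, h1, one_mul]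
  have hlt := hE A₃ ⟨⟨fun a b => Subtype.ext (hcomm₃ a a.2 b b.2)⟩⟩ hsq
  omega

/-- The normal form data. -/
structure ES32 (z a b c d : G) : Prop where
  hzc : z ∈ center G
  hcen : ∀ e ∈ center G, e = 1 ∨ e = z
  hz1 : z ≠ 1
  hzz : z * z = 1
  aa : a * a = 1
  bb : b * b = 1
  cc : c * c = z
  dd : d * d = z
  ab : a * b = z * (b * a)
  cd : c * d = z * (d * c)
  ac : a * c = c * a
  ad : a * d = d * a
  bc : b * c = c * b
  bd : b * d = d * b
  gen : ∀ g : G, ∃ i j k l m : ℕ, i < 2 ∧ j < 2 ∧ k < 2 ∧ l < 2 ∧ m < 2 ∧ g = a ^ i * b ^ j * c ^ k * d ^ l * z ^ m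
  comm : ∀ x y : G, x * y = y * x ∨ x * y = z * (y * x)
  sq : ∀ x : G, x * x = 1 ∨ x * x = z

section main

variable [Finite G]

theorem exists_mem_not_mem_finset (C : Subgroup G) (S : Finset G) (h : S.card < Nat.card C) : ∃ x ∈ C, x ∉ S := by
  classical
  by_contra hh
  push Not at hh
  have h1 : Nat.card C ≤ S.card := by
    have hinj : Function.Injective (fun x : C => (⟨x, hh x x.2⟩ : S)) := by
      intro x y hxy
      exact Subtype.ext (congrArg (fun s : S => (s : G)) hxy)
    have := Nat.card_le_card_of_injective _ hinj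
    simpa using this
  omega

variable (hc : Nat.card G = 32) (hZ : Nat.card (center G) = 2) (h4 : ∀ g : G, g ^ 4 = 1)
  (hchar : ∀ A : Subgroup G, A.Characteristic → IsMulCommutative A → IsCyclic A)
  (hE : ∀ A : Subgroup G, IsMulCommutative A → (∀ x ∈ A, x * x = 1) → Nat.card A < 8)

include hc hZ h4 hchar hE

theorem exists_ES32 : ∃ z a b c d : G, ES32 z a b c d := by
  classical
  have hcl := class_two hc hZ h4 hchar
  obtain ⟨z, hzc, hz1, hzz, hcen⟩ := exists_z hZ
  have hzcomm := Subgroup.mem_center_iff.mp hzc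
  have hcomm : ∀ x y : G, x * y = y * x ∨ x * y = z * (y * x) := fun x y => comm_cases hzc hcen hzz hz1 (hcl x) y
  have hsq : ∀ x : G, x * x = 1 ∨ x * x = z := fun x => hcen _ (sq_central hzc hcen hzz hz1 (hcl x))
  have hinvz : z⁻¹ = z := inv_eq_of_mul_eq_one_left hzz
  -- a noncentral involution
  have hex : ∃ a, a ∉ center G ∧ a * a = 1 := by
    by_contra hno
    push Not at hno
    have hns : ∀ g, g ∉ center G → g * g = z := by
      intro g hg
      rcases hsq g with h | h
      · exact absurd h (hno g hg)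
      · exact h
    obtain ⟨g, hg⟩ : ∃ g, g ∉ center G := by
      by_contra hh
      push Not at hh
      have htop : center G = ⊤ := by
        rw [eq_top_iff]
        exact fun x _ => hh x
      rw [htop, Subgroup.card_top, hc] at hZ
      norm_num at hZ
    obtain ⟨p, hp⟩ : ∃ p, g * p ≠ p * g := by
      by_contra hh
      push Not at hh
      exact hg (Subgroup.mem_center_iff.mpr (fun x => (hh x).symm))
    have hp' : g * p = z * (p * g) := by
      rcases hcomm g p with h | h
      · exact absurd h hp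
      · exact h
    have hcard := card_split_one hzc hcen hzz hz1 (hcl g) hZ hp'
    rw [hc] at hcard
    have hcard' : Nat.card (centralizer {g} : Subgroup G) = 16 := by omega
    obtain ⟨h, hh, hns'⟩ := exists_mem_not_mem_finset (centralizer {g} : Subgroup G) {1, z, g, z * g}
      (lt_of_le_of_lt Finset.card_le_four (by rw [hcard']; norm_num))
    simp only [Finset.mem_insert, Finset.mem_singleton, not_or] at hns'
    obtain ⟨h1, h2, h3, h4'⟩ := hns'
    have hh' : h * g = g * h := Subgroup.mem_centralizer_singleton_iff.mp hh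
    have hhcen : h ∉ center G := by
      intro hc'
      rcases hcen h hc' with h5 | h5
      · exact h1 h5
      · exact h2 h5
    have hhh := hns h hhcen
    have hgg := hns g hg
    have hgh : (g * h) * (g * h) = 1 := by
      calc (g * h) * (g * h) = g * (h * g) * h := by group
        _ = g * (g * h) * h := by rw [hh']
        _ = (g * g) * (h * h) := by group
        _ = 1 := by rw [hhh, hgg, hzz]
    have hcen2 : g * h ∈ center G := by
      by_contra hn
      exact hno _ hn hgh
    have hg1 : g⁻¹ = z * g := by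
      rw [inv_eq_iff_mul_eq_one]
      calc g * (z * g) = (g * z) * g := by group
        _ = (z * g) * g := by rw [hzcomm g]
        _ = z * (g * g) := by group
        _ = 1 := by rw [hgg, hzz]
    rcases hcen _ hcen2 with h5 | h5
    · apply h4'
      calc h = g⁻¹ := eq_inv_of_mul_eq_one_right h5
        _ = z * g := hg1
    · apply h3
      calc h = g⁻¹ * (g * h) := by group
        _ = z * g * z := by rw [h5, hg1]
        _ = z * (z * g) := by rw [mul_assoc, hzcomm g]
        _ = g := by rw [← mul_assoc, hzz, one_mul]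
  obtain ⟨a, han, haa⟩ := hex
  have ha1 : a ≠ 1 := fun h => han (h ▸ (center G).one_mem)
  have haz : a ≠ z := fun h => han (h ▸ hzc)
  -- its anticommuting partner
  obtain ⟨b, hbb, hab⟩ : ∃ b, b * b = 1 ∧ a * b = z * (b * a) := by
    obtain ⟨b₀, hb₀⟩ : ∃ p, a * p ≠ p * a := by
      by_contra hh
      push Not at hh
      exact han (Subgroup.mem_center_iff.mpr (fun x => (hh x).symm))
    have hb₀' : a * b₀ = z * (b₀ * a) := by
      rcases hcomm a b₀ with h | h
      · exact absurd h hb₀
      · exact h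
    have hb₀'' : b₀ * a = z * (a * b₀) := by rw [hb₀', ← mul_assoc, hzz, one_mul]
    rcases hsq b₀ with h | h
    · exact ⟨b₀, h, hb₀'⟩
    · refine ⟨a * b₀, ?_, ?_⟩
      · calc (a * b₀) * (a * b₀) = a * (b₀ * a) * b₀ := by group
          _ = a * (z * (a * b₀)) * b₀ := by rw [hb₀'']
          _ = (a * z) * a * (b₀ * b₀) := by group
          _ = (z * a) * a * (b₀ * b₀) := by rw [hzcomm a]
          _ = z * (a * a) * (b₀ * b₀) := by group
          _ = 1 := by rw [h, haa, mul_one, hzz]
      · calc a * (a * b₀) = b₀ := by rw [← mul_assoc, haa, one_mul]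
          _ = z * (z * b₀) := by rw [← mul_assoc, hzz, one_mul]
          _ = z * (a * a * z * b₀) := by rw [haa, one_mul]
          _ = z * (a * (a * z) * b₀) := by group
          _ = z * (a * (z * a) * b₀) := by rw [hzcomm a]
          _ = z * (a * (z * (a * b₀))) := by group
          _ = z * (a * (b₀ * a)) := by rw [← hb₀'']
          _ = z * (a * b₀ * a) := by group
  have hba : b * a = z * (a * b) := by rw [hab, ← mul_assoc, hzz, one_mul]
  have hanti : a * b ≠ b * a := by
    intro h
    have h3 : z * (b * a) = 1 * (b * a) := by rw [← hab, h, one_mul]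
    exact hz1 (mul_right_cancel h3)
  -- the centraliser of a and b
  set C : Subgroup G := centralizer {b} ⊓ centralizer {a} with hCdef
  have hmemC : ∀ x, x ∈ C ↔ x * b = b * x ∧ x * a = a * x := by
    intro x
    rw [hCdef, Subgroup.mem_inf, Subgroup.mem_centralizer_singleton_iff, Subgroup.mem_centralizer_singleton_iff]
  have hcard := card_split hzc hcen hzz hz1 (hcl b) (hcl a) hZ ⊤ (p := a) (q := b) (Subgroup.mem_top _) (Subgroup.mem_top _)
    hba rfl rfl hab
  rw [Subgroup.card_top, hc, top_inf_eq] at hcard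
  have hC8 : Nat.card C = 8 := by
    rw [hCdef]
    omega
  have hsplit1 := split hzc hcen hzz hz1 (hcl b) (hcl a) hba rfl rfl hab
  -- C is not commutative
  obtain ⟨c, hcC, d, hdC, hcd⟩ : ∃ c ∈ C, ∃ d ∈ C, c * d ≠ d * c := by
    by_contra hh
    push Not at hh
    have hle : C ≤ center G := by
      intro x hx
      rw [Subgroup.mem_center_iff]
      intro g
      obtain ⟨i, j, hi, hj, c', hg, h1, h2⟩ := hsplit1 g
      have hc' : c' ∈ C := (hmemC _).mpr ⟨h1.symm, h2.symm⟩
      obtain ⟨hxb, hxa⟩ := (hmemC _).mp hx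
      have h3 : Commute x (a ^ i * b ^ j) :=
        (Commute.pow_right (show Commute x a from hxa) i).mul_right (Commute.pow_right (show Commute x b from hxb) j)
      have h4' : Commute x c' := hh x hx c' hc'
      rw [hg]
      exact ((h3.mul_right h4').symm).eq
    have := Subgroup.card_le_of_le hle
    rw [hC8, hZ] at this
    norm_num at this
  obtain ⟨hcb, hca⟩ := (hmemC _).mp hcC
  obtain ⟨hdb, hda⟩ := (hmemC _).mp hdC
  have hcd' : c * d = z * (d * c) := by
    rcases hcomm c d with h | h
    · exact absurd h hcd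
    · exact h
  have hdc' : d * c = z * (c * d) := by rw [hcd', ← mul_assoc, hzz, one_mul]
  have hcn : c ∉ center G := fun h => hcd (Subgroup.mem_center_iff.mp h d).symm
  have hdn : d ∉ center G := fun h => hcd (Subgroup.mem_center_iff.mp h c)
  -- minus type
  have hnoinv : ∀ x ∈ C, x ∉ center G → x * x = z := by
    intro x hx hxn
    rcases hsq x with h | h
    · exfalso
      obtain ⟨hxb, hxa⟩ := (hmemC _).mp hx
      refine no_E8 hE hzz haa h (hzcomm a) (hzcomm x) hxa hz1 ha1 haz ?_ ?_ ?_ ?_
      · exact fun h' => hxn (h' ▸ (center G).one_mem)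
      · exact fun h' => hxn (h' ▸ hzc)
      · rintro rfl
        exact hanti hxb
      · rintro rfl
        apply hanti
        have h5 : z * (a * b) = z * (b * a) := by
          calc z * (a * b) = (z * a) * b := by group
            _ = b * (z * a) := hxb
            _ = (b * z) * a := by group
            _ = (z * b) * a := by rw [hzcomm b]
            _ = z * (b * a) := by group
        exact mul_left_cancel h5
    · exact h
  have hcc := hnoinv c hcC hcn
  have hdd := hnoinv d hdC hdn
  have hcard2 := card_split hzc hcen hzz hz1 (hcl d) (hcl c) hZ C (p := c) (q := d) hcC hdC hdc' rfl rfl hcd'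
  rw [hC8] at hcard2
  set C2 : Subgroup G := C ⊓ (centralizer {d} ⊓ centralizer {c}) with hC2def
  have hC2card : Nat.card C2 = 2 := by omega
  have hleC2 : center G ≤ C2 := by
    intro e he
    have hh := Subgroup.mem_center_iff.mp he
    refine Subgroup.mem_inf.mpr ⟨(hmemC _).mpr ⟨(hh b).symm, (hh a).symm⟩, Subgroup.mem_inf.mpr ⟨?_, ?_⟩⟩
    · exact Subgroup.mem_centralizer_singleton_iff.mpr (hh d).symm
    · exact Subgroup.mem_centralizer_singleton_iff.mpr (hh c).symm
  have hC2eq : center G = C2 := Subgroup.eq_of_le_of_card_ge hleC2 (by rw [hC2card, hZ])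
  have hsplit2 := split hzc hcen hzz hz1 (hcl d) (hcl c) hdc' rfl rfl hcd'
  refine ⟨z, a, b, c, d, ⟨hzc, hcen, hz1, hzz, haa, hbb, hcc, hdd, hab, hcd', hca.symm, hda.symm, hcb.symm, hdb.symm, ?_, hcomm, hsq⟩⟩
  intro g
  obtain ⟨i, j, hi, hj, c₁, hg, h1, h2⟩ := hsplit1 g
  have hc₁ : c₁ ∈ C := (hmemC _).mpr ⟨h1.symm, h2.symm⟩
  obtain ⟨k, l, hk, hl, c₂, hc₁', h3, h5⟩ := hsplit2 c₁
  have hc₂ : c₂ ∈ C := by
    have h6 : c₂ = (c ^ k * d ^ l)⁻¹ * c₁ := by rw [hc₁']; group
    rw [h6]
    exact C.mul_mem (C.inv_mem (C.mul_mem (C.pow_mem hcC k) (C.pow_mem hdC l))) hc₁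
  have hc₂' : c₂ ∈ C2 := Subgroup.mem_inf.mpr ⟨hc₂, Subgroup.mem_inf.mpr ⟨Subgroup.mem_centralizer_singleton_iff.mpr h3.symm, Subgroup.mem_centralizer_singleton_iff.mpr h5.symm⟩⟩
  rw [← hC2eq] at hc₂'
  rcases hcen _ hc₂' with h6 | h6
  · refine ⟨i, j, k, l, 0, hi, hj, hk, hl, by norm_num, ?_⟩
    rw [hg, hc₁', h6]
    simp only [pow_zero, mul_one, mul_assoc]
  · refine ⟨i, j, k, l, 1, hi, hj, hk, hl, by norm_num, ?_⟩
    rw [hg, hc₁', h6]
    simp only [pow_one, mul_assoc]

end main

section data

variable {z a b c d : G} (D : ES32 z a b c d)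
include D

theorem ES32.zcomm (g : G) : g * z = z * g := Subgroup.mem_center_iff.mp D.hzc g

theorem ES32.zpow_comm (g : G) (m : ℕ) : g * z ^ m = z ^ m * g :=
  (Commute.pow_right (show Commute g z from D.zcomm g) m).eq

theorem ES32.sq_A {i j : ℕ} (hi : i < 2) (hj : j < 2) : (a ^ i * b ^ j) * (a ^ i * b ^ j) = z ^ (i * j) := by
  have hba : b * a = z * (a * b) := by rw [D.ab, ← mul_assoc, D.hzz, one_mul]
  interval_cases i <;> interval_cases j
  · simp
  · simp [D.bb]
  · simp [D.aa]
  · simp only [pow_one, one_mul, mul_one]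
    calc a * b * (a * b) = a * (b * a) * b := by group
      _ = a * (z * (a * b)) * b := by rw [hba]
      _ = (a * z) * a * (b * b) := by group
      _ = (z * a) * a * (b * b) := by rw [D.zcomm a]
      _ = z * (a * a) * (b * b) := by group
      _ = z := by rw [D.aa, D.bb]; simp

theorem ES32.sq_B {k l : ℕ} (hk : k < 2) (hl : l < 2) : (c ^ k * d ^ l) * (c ^ k * d ^ l) = z ^ (k + l + k * l) := by
  have hdc : d * c = z * (c * d) := by rw [D.cd, ← mul_assoc, D.hzz, one_mul]
  interval_cases k <;> interval_cases l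
  · simp
  · simp [D.dd]
  · simp [D.cc]
  · simp only [pow_one, one_mul, mul_one]
    calc c * d * (c * d) = c * (d * c) * d := by group
      _ = c * (z * (c * d)) * d := by rw [hdc]
      _ = (c * z) * c * (d * d) := by group
      _ = (z * c) * c * (d * d) := by rw [D.zcomm c]
      _ = z * (c * c) * (d * d) := by group
      _ = z ^ (1 + 1 + 1 * 1) := by rw [D.cc, D.dd]; simp only [pow_succ, pow_zero, one_mul, mul_one, Nat.reduceAdd, Nat.reduceMul]

theorem ES32.comm_AB (i j k l : ℕ) : Commute (a ^ i * b ^ j) (c ^ k * d ^ l) := by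
  have h1 : Commute a c := D.ac
  have h2 : Commute a d := D.ad
  have h3 : Commute b c := D.bc
  have h4 : Commute b d := D.bd
  apply Commute.mul_left
  · exact Commute.mul_right (h1.pow_pow i k) (h2.pow_pow i l)
  · exact Commute.mul_right (h3.pow_pow j k) (h4.pow_pow j l)

theorem ES32.zsq (m : ℕ) : z ^ m * z ^ m = 1 := by
  rw [← pow_add, ← two_mul, pow_mul, pow_two, D.hzz, one_pow]

/-- The square of the element with exponents (i,j,k,l,m). -/
theorem ES32.sq_phi {i j k l m : ℕ} (hi : i < 2) (hj : j < 2) (hk : k < 2) (hl : l < 2) :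
    (a ^ i * b ^ j * c ^ k * d ^ l * z ^ m) * (a ^ i * b ^ j * c ^ k * d ^ l * z ^ m) = z ^ (i * j + (k + l + k * l)) := by
  have h1 : a ^ i * b ^ j * c ^ k * d ^ l = (a ^ i * b ^ j) * (c ^ k * d ^ l) := by group
  rw [h1, pow_add, ← D.sq_A hi hj, ← D.sq_B hk hl]
  set A := a ^ i * b ^ j
  set B := c ^ k * d ^ l
  have hAB : Commute A B := D.comm_AB i j k l
  have h2 : Commute B (z ^ m) := D.zpow_comm B m
  calc A * B * z ^ m * (A * B * z ^ m) = A * (B * z ^ m) * (A * B) * z ^ m := by group
    _ = A * (z ^ m * B) * (A * B) * z ^ m := by rw [h2.eq]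
    _ = (A * z ^ m) * (B * A) * B * z ^ m := by group
    _ = (z ^ m * A) * (A * B) * B * z ^ m := by rw [D.zpow_comm A m, hAB.symm.eq]
    _ = z ^ m * (A * A) * (B * B) * z ^ m := by group
    _ = z ^ m * ((A * A) * (B * B) * z ^ m) := by group
    _ = z ^ m * (z ^ m * ((A * A) * (B * B))) := by rw [D.zpow_comm]
    _ = (z ^ m * z ^ m) * ((A * A) * (B * B)) := by group
    _ = (A * A) * (B * B) := by rw [D.zsq, one_mul]

end data

end Cfsg.Agent.Lib.Ext32
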