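import Mathlib
import Cfsg.Agent.Lib.Ext32B

/-!
# Groups of order 32 of symplectic type with no elementary abelian subgroup of order 8, part C

Counting involutions, five anticommuting involutions.
-/

set_option autoImplicit false
set_option linter.unusedSimpArgs false
set_option linter.unusedVariables false
set_option linter.unusedSectionVars false

namespace Cfsg.Agent.Lib.Ext32

open Subgroup

variable {G : Type*} [Group G] {z a b c d : G}

/-- Enumerating the group. -/
def phi32 (z a b c d : G) (t : Fin 2 × Fin 2 × Fin 2 × Fin 2 × Fin 2) : G :=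
  a ^ (t.1 : ℕ) * b ^ (t.2.1 : ℕ) * c ^ (t.2.2.1 : ℕ) * d ^ (t.2.2.2.1 : ℕ) * z ^ (t.2.2.2.2 : ℕ)

theorem ES32.phi_surj (D : ES32 z a b c d) : Function.Surjective (phi32 z a b c d) := by
  intro g
  obtain ⟨i, j, k, l, m, hi, hj, hk, hl, hm, rfl⟩ := D.gen g
  exact ⟨(⟨i, hi⟩, ⟨j, hj⟩, ⟨k, hk⟩, ⟨l, hl⟩, ⟨m, hm⟩), rfl⟩

theorem ES32.phi_bij [Finite G] (hc : Nat.card G = 32) (D : ES32 z a b c d) : Function.Bijective (phi32 z a b c d) := by
  apply D.phi_surj.bijective_of_nat_card_le
  rw [hc]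
  simp

theorem ES32.zpow_eq_one (D : ES32 z a b c d) (n : ℕ) : z ^ n = 1 ↔ n % 2 = 0 := by
  rw [← Nat.mod_add_div n 2, pow_add, pow_mul, pow_two, D.hzz, one_pow, mul_one]
  have h : (n % 2 + 2 * (n / 2)) % 2 = n % 2 := by omega
  rw [h]
  have : n % 2 = 0 ∨ n % 2 = 1 := by omega
  rcases this with h | h
  · simp [h]
  · simp [h, D.hz1]

/-- the quadratic form on the exponent vectors -/
def qq32 (t : Fin 2 × Fin 2 × Fin 2 × Fin 2 × Fin 2) : ℕ :=
  ((t.1 : ℕ) * (t.2.1 : ℕ) + ((t.2.2.1 : ℕ) + (t.2.2.2.1 : ℕ) + (t.2.2.1 : ℕ) * (t.2.2.2.1 : ℕ))) % 2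

theorem ES32.phi_sq (D : ES32 z a b c d) (t) : phi32 z a b c d t * phi32 z a b c d t = 1 ↔ qq32 t = 0 := by
  unfold phi32
  rw [D.sq_phi t.1.2 t.2.1.2 t.2.2.1.2 t.2.2.2.1.2, D.zpow_eq_one]
  rfl

/-- Exactly ten noncentral involutions. -/
theorem ES32.card_inv [Finite G] (hc : Nat.card G = 32) (D : ES32 z a b c d) :
    Nat.card {g : G // g * g = 1 ∧ g ≠ 1 ∧ g ≠ z} = 10 := by
  classical
  have hb := D.phi_bij hc
  have h0 : phi32 z a b c d (0, 0, 0, 0, 0) = 1 := by
    simp [phi32]
  have h1 : phi32 z a b c d (0, 0, 0, 0, 1) = z := by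
    simp [phi32]
  let e := Equiv.ofBijective _ hb
  have hequiv : {t : Fin 2 × Fin 2 × Fin 2 × Fin 2 × Fin 2 // qq32 t = 0 ∧ t ≠ (0, 0, 0, 0, 0) ∧ t ≠ (0, 0, 0, 0, 1)} ≃
      {g : G // g * g = 1 ∧ g ≠ 1 ∧ g ≠ z} := by
    refine Equiv.subtypeEquiv e ?_
    intro t
    show _ ↔ phi32 z a b c d t * phi32 z a b c d t = 1 ∧ phi32 z a b c d t ≠ 1 ∧ phi32 z a b c d t ≠ z
    rw [D.phi_sq]
    refine and_congr_right fun _ => and_congr ?_ ?_
    · constructor
      · intro h h'
        exact h (hb.1 (h'.trans h0.symm))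
      · intro h h'
        exact h (by rw [h', h0])
    · constructor
      · intro h h'
        exact h (hb.1 (h'.trans h1.symm))
      · intro h h'
        exact h (by rw [h', h1])
  rw [← Nat.card_congr hequiv, Nat.card_eq_fintype_card]
  decide

section rel

variable (z) in
/-- Commutation up to a power of the central element. -/
def Rel32 (e : ℕ) (x y : G) : Prop := x * y = z ^ e * (y * x)

variable (D : ES32 z a b c d)
include D

theorem ES32.rel_mul_right {e f : ℕ} {x y y' : G} (h1 : Rel32 z e x y) (h2 : Rel32 z f x y') : Rel32 z (e + f) x (y * y') := by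
  unfold Rel32 at *
  calc x * (y * y') = (x * y) * y' := by group
    _ = z ^ e * (y * (x * y')) := by rw [h1]; group
    _ = z ^ e * (y * (z ^ f * (y' * x))) := by rw [h2]
    _ = z ^ e * ((y * z ^ f) * (y' * x)) := by group
    _ = z ^ e * ((z ^ f * y) * (y' * x)) := by rw [D.zpow_comm]
    _ = z ^ (e + f) * (y * y' * x) := by rw [pow_add]; group

theorem ES32.rel_mul_left {e f : ℕ} {x x' y : G} (h1 : Rel32 z e x y) (h2 : Rel32 z f x' y) : Rel32 z (e + f) (x * x') y := by
  unfold Rel32 at *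
  calc x * x' * y = x * (x' * y) := by group
    _ = x * (z ^ f * (y * x')) := by rw [h2]
    _ = (x * z ^ f) * (y * x') := by group
    _ = (z ^ f * x) * (y * x') := by rw [D.zpow_comm]
    _ = z ^ f * ((x * y) * x') := by group
    _ = z ^ f * ((z ^ e * (y * x)) * x') := by rw [h1]
    _ = z ^ (e + f) * (y * (x * x')) := by
        rw [pow_add, pow_mul_comm z e f]
        simp only [mul_assoc]

theorem ES32.rel_symm {e : ℕ} {x y : G} (h : Rel32 z e x y) : Rel32 z e y x := by
  unfold Rel32 at *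
  have h2 : z ^ e * z ^ e = 1 := D.zsq e
  calc y * x = (z ^ e * z ^ e) * (y * x) := by rw [h2, one_mul]
    _ = z ^ e * (z ^ e * (y * x)) := by group
    _ = z ^ e * (x * y) := by rw [h]

theorem ES32.rel_one {x y : G} (h : Rel32 z 0 x y) : x * y = y * x := by
  unfold Rel32 at h
  simpa using h

theorem ES32.rel_even {e : ℕ} {x y : G} (h : Rel32 z e x y) (he : e % 2 = 0) : x * y = y * x := by
  unfold Rel32 at h
  rw [(D.zpow_eq_one e).mpr he, one_mul] at h
  exact h

theorem ES32.rel_odd {e : ℕ} {x y : G} (h : Rel32 z e x y) (he : e % 2 = 1) : x * y = z * (y * x) := by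
  unfold Rel32 at h
  have h1 : z ^ e = z := by
    conv_lhs => rw [← Nat.mod_add_div e 2, pow_add, pow_mul, pow_two, D.hzz, one_pow, mul_one, he, pow_one]
  rw [h1] at h
  exact h

theorem ES32.rel_self (x : G) : Rel32 z 0 x x := by
  unfold Rel32
  simp

/-- The five elements. -/
theorem ES32.w_sq : (a * b) * (a * b) = z := by
  have := D.sq_A (i := 1) (j := 1) (by norm_num) (by norm_num)
  simpa using this

theorem ES32.cd_sq : (c * d) * (c * d) = z := by
  have := D.sq_B (k := 1) (l := 1) (by norm_num) (by norm_num)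
  have h2 := D.zsq 1
  simp only [pow_one, one_mul, mul_one] at this h2
  rw [this]
  simp only [pow_succ, pow_zero, one_mul, mul_one, Nat.reduceAdd, Nat.reduceMul]
  rw [h2, one_mul]

theorem ES32.rab : Rel32 z 1 a b := by
  unfold Rel32
  rw [pow_one]
  exact D.ab

theorem ES32.rcd : Rel32 z 1 c d := by
  unfold Rel32
  rw [pow_one]
  exact D.cd

theorem ES32.rel0 {x y : G} (h : x * y = y * x) : Rel32 z 0 x y := by
  unfold Rel32
  simpa using h

theorem ES32.u_squares :
    (a * b * c) * (a * b * c) = 1 ∧ (a * b * d) * (a * b * d) = 1 ∧ (a * b * (c * d)) * (a * b * (c * d)) = 1 := by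
  have hw := D.w_sq
  have hcd := D.cd_sq
  have hzz := D.hzz
  have hwc : (a * b) * c = c * (a * b) := (D.comm_AB 1 1 1 0).eq |> fun h => by simpa using h
  have hwd : (a * b) * d = d * (a * b) := (D.comm_AB 1 1 0 1).eq |> fun h => by simpa using h
  have hwcd : (a * b) * (c * d) = (c * d) * (a * b) := by
    simpa using (D.comm_AB 1 1 1 1).eq
  refine ⟨?_, ?_, ?_⟩
  · calc (a * b * c) * (a * b * c) = (a * b) * (c * (a * b)) * c := by group
      _ = (a * b) * ((a * b) * c) * c := by rw [hwc]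
      _ = ((a * b) * (a * b)) * (c * c) := by group
      _ = 1 := by rw [hw, D.cc, hzz]
  · calc (a * b * d) * (a * b * d) = (a * b) * (d * (a * b)) * d := by group
      _ = (a * b) * ((a * b) * d) * d := by rw [hwd]
      _ = ((a * b) * (a * b)) * (d * d) := by group
      _ = 1 := by rw [hw, D.dd, hzz]
  · calc (a * b * (c * d)) * (a * b * (c * d)) = (a * b) * ((c * d) * (a * b)) * (c * d) := by group
      _ = (a * b) * ((a * b) * (c * d)) * (c * d) := by rw [hwcd]
      _ = ((a * b) * (a * b)) * ((c * d) * (c * d)) := by group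
      _ = 1 := by rw [hw, hcd, hzz]

/-- All ten anticommutation relations. -/
theorem ES32.u_anti :
    a * b = z * (b * a) ∧
    a * (a * b * c) = z * ((a * b * c) * a) ∧
    a * (a * b * d) = z * ((a * b * d) * a) ∧
    a * (a * b * (c * d)) = z * ((a * b * (c * d)) * a) ∧
    b * (a * b * c) = z * ((a * b * c) * b) ∧
    b * (a * b * d) = z * ((a * b * d) * b) ∧
    b * (a * b * (c * d)) = z * ((a * b * (c * d)) * b) ∧
    (a * b * c) * (a * b * d) = z * ((a * b * d) * (a * b * c)) ∧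
    (a * b * c) * (a * b * (c * d)) = z * ((a * b * (c * d)) * (a * b * c)) ∧
    (a * b * d) * (a * b * (c * d)) = z * ((a * b * (c * d)) * (a * b * d)) := by
  have raa := D.rel_self a
  have rbb := D.rel_self b
  have rcc := D.rel_self c
  have rdd := D.rel_self d
  have rab := D.rab
  have rba := D.rel_symm rab
  have rcd := D.rcd
  have rdc := D.rel_symm rcd
  have rac := D.rel0 D.ac
  have rad := D.rel0 D.ad
  have rbc := D.rel0 D.bc
  have rbd := D.rel0 D.bd
  have rca := D.rel_symm rac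
  have rda := D.rel_symm rad
  have rcb := D.rel_symm rbc
  have rdb := D.rel_symm rbd
  -- a with w, b with w
  have raw : Rel32 z 1 a (a * b) := D.rel_mul_right raa rab
  have rbw : Rel32 z 1 b (a * b) := D.rel_mul_right rba rbb
  have rwa := D.rel_symm raw
  have rwb := D.rel_symm rbw
  have rwc : Rel32 z 0 (a * b) c := D.rel_mul_left rac rbc
  have rwd : Rel32 z 0 (a * b) d := D.rel_mul_left rad rbd
  have rwcd : Rel32 z 0 (a * b) (c * d) := D.rel_mul_right rwc rwd
  have rww : Rel32 z 0 (a * b) (a * b) := D.rel_self _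
  have rccd : Rel32 z 1 c (c * d) := D.rel_mul_right rcc rcd
  have rdcd : Rel32 z 1 d (c * d) := D.rel_mul_right rdc rdd
  have rcw := D.rel_symm rwc
  have rdw := D.rel_symm rwd
  have rcdw := D.rel_symm rwcd
  have rcdc := D.rel_symm rccd
  have rcdd := D.rel_symm rdcd
  have rcdcd : Rel32 z 0 (c * d) (c * d) := D.rel_self _
  refine ⟨D.ab, ?_, ?_, ?_, ?_, ?_, ?_, ?_, ?_, ?_⟩
  · exact D.rel_odd (D.rel_mul_right raw rac) (by norm_num)
  · exact D.rel_odd (D.rel_mul_right raw rad) (by norm_num)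
  · exact D.rel_odd (D.rel_mul_right raw (D.rel_mul_right rac rad)) (by norm_num)
  · exact D.rel_odd (D.rel_mul_right rbw rbc) (by norm_num)
  · exact D.rel_odd (D.rel_mul_right rbw rbd) (by norm_num)
  · exact D.rel_odd (D.rel_mul_right rbw (D.rel_mul_right rbc rbd)) (by norm_num)
  · exact D.rel_odd (D.rel_mul_left (D.rel_mul_right rww rwd) (D.rel_mul_right rcw rcd)) (by norm_num)
  · exact D.rel_odd (D.rel_mul_left (D.rel_mul_right rww rwcd) (D.rel_mul_right rcw rccd)) (by norm_num)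
  · exact D.rel_odd (D.rel_mul_left (D.rel_mul_right rww rwcd) (D.rel_mul_right rdw rdcd)) (by norm_num)

/-- Generation. -/
theorem ES32.u_gen (H : Subgroup G) (h1 : a ∈ H) (h2 : b ∈ H) (h3 : a * b * c ∈ H) (h4 : a * b * d ∈ H) : H = ⊤ := by
  have hw : a * b ∈ H := H.mul_mem h1 h2
  have hz : z ∈ H := by
    rw [← D.w_sq]
    exact H.mul_mem hw hw
  have hc : c ∈ H := by
    have : c = (a * b)⁻¹ * (a * b * c) := by group
    rw [this]
    exact H.mul_mem (H.inv_mem hw) h3
  have hd : d ∈ H := by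
    have : d = (a * b)⁻¹ * (a * b * d) := by group
    rw [this]
    exact H.mul_mem (H.inv_mem hw) h4
  rw [eq_top_iff]
  intro g _
  obtain ⟨i, j, k, l, m, -, -, -, -, -, rfl⟩ := D.gen g
  exact H.mul_mem (H.mul_mem (H.mul_mem (H.mul_mem (H.pow_mem h1 i) (H.pow_mem h2 j)) (H.pow_mem hc k)) (H.pow_mem hd l)) (H.pow_mem hz m)

end rel

end Cfsg.Agent.Lib.Ext32
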