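import Mathlib
import Cfsg.Agent.Lib.Ext32C

/-!
# Groups of order 32 of symplectic type with no elementary abelian subgroup of order 8, part D

Automorphisms of odd prime order.
-/

set_option autoImplicit false
set_option linter.unusedSimpArgs false
set_option linter.unusedVariables false
set_option linter.unusedSectionVars false

namespace Cfsg.Agent.Lib.Ext32

open Subgroup

variable {G : Type*} [Group G] {z a b c d : G}

theorem card_fixed_modEq {α : Type*} [Finite α] {r : ℕ} [Fact r.Prime] (s : Equiv.Perm α) (hs : s ^ r = 1) :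
    Nat.card α ≡ Nat.card {x // s x = x} [MOD r] := by
  classical
  haveI := Fintype.ofFinite α
  have h1 := Equiv.Perm.card_compl_support_modEq (p := r) (n := 1) (σ := s) (by simpa using hs)
  have h2 : Nat.card {x // s x = x} = (s.support)ᶜ.card := by
    rw [Nat.card_eq_fintype_card, Fintype.card_subtype]
    congr 1
    ext x
    simp
  rw [h2, Nat.card_eq_fintype_card]
  exact h1.symm

theorem comm_of_invol {x y : G} (hx : x * x = 1) (hy : y * y = 1) (hxy : (x * y) * (x * y) = 1) : x * y = y * x := by
  have h1 : x * y = (x * y)⁻¹ := eq_inv_of_mul_eq_one_left hxy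
  rw [mul_inv_rev, inv_eq_of_mul_eq_one_left hx, inv_eq_of_mul_eq_one_left hy] at h1
  exact h1

/-- The main lemma on automorphisms with `[v, σ]` never of square `-1`. -/
theorem ES32.aut_trivial [Finite G] (D : ES32 z a b c d)
    (hE : ∀ A : Subgroup G, IsMulCommutative A → (∀ x ∈ A, x * x = 1) → Nat.card A < 8)
    (σ : MulAut G) {n : ℕ} (hn : Odd n) (hσ : σ ^ n = 1)
    (hw : ∀ v, (σ v * v⁻¹) * (σ v * v⁻¹) = 1 ∧ σ v * v⁻¹ ≠ z) (v : G) : σ v = v := by
  classical
  have hzc := D.zcomm
  have hzi : z⁻¹ = z := inv_eq_of_mul_eq_one_left D.hzz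
  have hσz : σ z = z := by
    have h1 : σ z ∈ center G := by
      rw [Subgroup.mem_center_iff]
      intro g
      obtain ⟨g', rfl⟩ := σ.surjective g
      rw [← map_mul, ← map_mul, hzc g']
    rcases D.hcen _ h1 with h | h
    · exfalso
      apply D.hz1
      have : σ z = σ 1 := by rw [h, map_one]
      exact σ.injective this
    · exact h
  set w : G → G := fun v => σ v * v⁻¹ with hwdef
  have hwmul : ∀ u v, w (u * v) = w u * (u * w v * u⁻¹) := by
    intro u v
    simp only [hwdef, map_mul]
    group
  have hzX : ∀ X, (z * X) * (z * X) = X * X := by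
    intro X
    calc (z * X) * (z * X) = z * (X * z) * X := by group
      _ = z * (z * X) * X := by rw [hzc X]
      _ = (z * z) * (X * X) := by group
      _ = X * X := by rw [D.hzz, one_mul]
  have hinv : ∀ u v, w u * w v = w v * w u := by
    intro u v
    have h1' : w (u * v) * w (u * v) = 1 := (hw (u * v)).1
    have hu : w u * w u = 1 := (hw u).1
    have hv : w v * w v = 1 := (hw v).1
    apply comm_of_invol hu hv
    rw [hwmul] at h1'
    have h3 : u * w v * u⁻¹ = w v ∨ u * w v * u⁻¹ = z * w v := by
      rcases D.comm u (w v) with h | h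
      · left
        rw [h]
        group
      · right
        rw [h]
        group
    rcases h3 with h3 | h3
    · rw [h3] at h1'
      exact h1'
    · rw [h3] at h1'
      have h4 : w u * (z * w v) = z * (w u * w v) := by
        rw [← mul_assoc, hzc (w u), mul_assoc]
      rw [h4, hzX] at h1'
      exact h1'
  have hall : ∀ u, w u = 1 := by
    by_contra hcon
    push Not at hcon
    obtain ⟨u₀, hu₀⟩ := hcon
    set w₀ := w u₀ with hw₀
    have hw0z : w₀ ≠ z := (hw u₀).2
    have hw0sq : w₀ * w₀ = 1 := (hw u₀).1
    have hcases : ∀ v, w v = 1 ∨ w v = w₀ ∨ w v = z * w₀ := by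
      intro v
      by_contra hh
      push Not at hh
      obtain ⟨h11, h12, h13⟩ := hh
      exact no_E8 hE D.hzz hw0sq (hw v).1 (hzc w₀) (hzc (w v)) (hinv v u₀) D.hz1 hu₀ hw0z h11 (hw v).2 h12 h13
    have hfix0 : σ w₀ = w₀ := by
      have h1 : σ w₀ = w w₀ * w₀ := by
        simp only [hwdef]
        group
      rcases hcases w₀ with h | h | h
      · rw [h1, h, one_mul]
      · exfalso
        rw [h, hw0sq] at h1
        apply hu₀
        have : σ w₀ = σ 1 := by rw [h1, map_one]
        exact σ.injective this
      · exfalso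
        rw [h, mul_assoc, hw0sq, mul_one] at h1
        apply hw0z
        have : σ w₀ = σ z := by rw [h1, hσz]
        exact σ.injective this
    have hfixw : ∀ v, σ (w v) = w v := by
      intro v
      rcases hcases v with h | h | h
      · rw [h, map_one]
      · rw [h, hfix0]
      · rw [h, map_mul, hσz, hfix0]
    have hsq : ∀ v, σ (σ v) = v := by
      intro v
      have h1 : σ v = w v * v := by
        simp only [hwdef]
        group
      have h2 : w v * w v = 1 := (hw v).1
      calc σ (σ v) = σ (w v * v) := by rw [← h1]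
        _ = σ (w v) * σ v := map_mul _ _ _
        _ = w v * (w v * v) := by rw [hfixw, ← h1]
        _ = (w v * w v) * v := by group
        _ = v := by rw [h2, one_mul]
    have hσ2 : σ ^ 2 = 1 := by
      ext v
      rw [pow_two]
      exact hsq v
    have hσ1 : σ = 1 := by
      obtain ⟨k, rfl⟩ := hn
      rw [pow_succ, pow_mul, hσ2, one_pow, one_mul] at hσ
      exact hσ
    apply hu₀
    rw [hw₀]
    simp only [hwdef, hσ1]
    simp
  have := hall v
  exact mul_inv_eq_one.mp this

/-- The fixed subgroup of an automorphism. -/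
def fixSub (σ : MulAut G) : Subgroup G := (σ.toMonoidHom).eqLocus (MonoidHom.id G)

theorem mem_fixSub {σ : MulAut G} {g : G} : g ∈ fixSub σ ↔ σ g = g := Iff.rfl

theorem prime_dvd_aux {r : ℕ} (hr : r.Prime) (hr2 : r ≠ 2) {a q : ℕ} (hq : q.Prime) (h : r ∣ 2 ^ a * q) : r = q := by
  rcases (Nat.Prime.dvd_mul hr).mp h with h | h
  · exact absurd ((Nat.prime_dvd_prime_iff_eq hr Nat.prime_two).mp (hr.dvd_of_dvd_pow h)) hr2
  · exact (Nat.prime_dvd_prime_iff_eq hr hq).mp h

/-- The fixed-point numerology. -/
theorem ES32.fix_data [Finite G] (hc : Nat.card G = 32) (D : ES32 z a b c d) (σ : MulAut G) {r : ℕ} [hr : Fact r.Prime] (hr2 : r ≠ 2)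
    (hσ : σ ^ r = 1) :
    Nat.card (fixSub σ) = 32 ∨ (r = 3 ∧ Nat.card (fixSub σ) = 8) ∨ (r = 5 ∧ Nat.card (fixSub σ) = 2) := by
  classical
  have hσz : σ z = z := by
    have h1 : σ z ∈ center G := by
      rw [Subgroup.mem_center_iff]
      intro g
      obtain ⟨g', rfl⟩ := σ.surjective g
      rw [← map_mul, ← map_mul, D.zcomm g']
    rcases D.hcen _ h1 with h | h
    · exfalso
      apply D.hz1
      have : σ z = σ 1 := by rw [h, map_one]
      exact σ.injective this
    · exact h
  have hs1 : (MulAut.toPerm G σ) ^ r = 1 := by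
    rw [← map_pow, hσ, map_one]
  have hm1 := card_fixed_modEq (MulAut.toPerm G σ) hs1
  have hC : Nat.card {x // (MulAut.toPerm G σ) x = x} = Nat.card (fixSub σ) := rfl
  rw [hC, hc] at hm1
  let p : G → Prop := fun g => g * g = 1 ∧ g ≠ 1 ∧ g ≠ z
  have hp : ∀ x, p ((MulAut.toPerm G σ) x) ↔ p x := by
    intro x
    show (σ x * σ x = 1 ∧ σ x ≠ 1 ∧ σ x ≠ z) ↔ (x * x = 1 ∧ x ≠ 1 ∧ x ≠ z)
    have e1 : σ x * σ x = 1 ↔ x * x = 1 := by rw [← map_mul, map_eq_one_iff σ σ.injective]
    have e2 : σ x = 1 ↔ x = 1 := map_eq_one_iff σ σ.injective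
    have e3 : σ x = z ↔ x = z := by
      constructor
      · intro h
        apply σ.injective
        rw [h, hσz]
      · rintro rfl
        exact hσz
    rw [ne_eq, ne_eq, ne_eq, ne_eq, e1, e2, e3]
  let s₂ : Equiv.Perm {g // p g} := (MulAut.toPerm G σ).subtypePerm hp
  have hs₂ : s₂ ^ r = 1 := by
    ext x
    have : ((s₂ ^ r) x : G) = ((MulAut.toPerm G σ) ^ r) (x : G) := by
      rw [show s₂ = (MulAut.toPerm G σ).subtypePerm hp from rfl, Equiv.Perm.subtypePerm_pow]
      rfl
    rw [this, hs1]
    rfl
  have hm2 := card_fixed_modEq s₂ hs₂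
  have hY : Nat.card {g // p g} = 10 := D.card_inv hc
  rw [hY] at hm2
  set F := Nat.card {x // s₂ x = x} with hF
  have hle : F + 2 ≤ Nat.card (fixSub σ) := by
    let f : {x // s₂ x = x} ⊕ Fin 2 → fixSub σ := fun t =>
      match t with
      | Sum.inl y => ⟨((y : {g // p g}) : G), by
          have h := congrArg Subtype.val y.2
          exact h⟩
      | Sum.inr i => if i = 0 then 1 else ⟨z, hσz⟩
    have hf : Function.Injective f := by
      rintro (x | i) (y | j) h
      · have h2 : ((x : {g // p g}) : G) = ((y : {g // p g}) : G) := congrArg (fun t : fixSub σ => (t : G)) h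
        exact congrArg Sum.inl (Subtype.ext (Subtype.ext h2))
      · exfalso
        have hx := (x : {g // p g}).2
        by_cases hj : j = 0
        · have h2 : ((x : {g // p g}) : G) = 1 := by
            simpa [f, hj] using congrArg (fun t : fixSub σ => (t : G)) h
          exact hx.2.1 h2
        · have h2 : ((x : {g // p g}) : G) = z := by
            simpa [f, hj] using congrArg (fun t : fixSub σ => (t : G)) h
          exact hx.2.2 h2
      · exfalso
        have hx := (y : {g // p g}).2
        by_cases hj : i = 0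
        · have h2 : ((y : {g // p g}) : G) = 1 := by
            simpa [f, hj] using (congrArg (fun t : fixSub σ => (t : G)) h).symm
          exact hx.2.1 h2
        · have h2 : ((y : {g // p g}) : G) = z := by
            simpa [f, hj] using (congrArg (fun t : fixSub σ => (t : G)) h).symm
          exact hx.2.2 h2
      · have hD1 := D.hz1
        congr 1
        by_cases hi : i = 0 <;> by_cases hj : j = 0
        · rw [hi, hj]
        · exfalso
          have h2 : (1 : G) = z := by simpa [f, hi, hj] using congrArg (fun t : fixSub σ => (t : G)) h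
          exact hD1 h2.symm
        · exfalso
          have h2 : z = (1 : G) := by simpa [f, hi, hj] using congrArg (fun t : fixSub σ => (t : G)) h
          exact hD1 h2
        · omega
    have h3 := Nat.card_le_card_of_injective f hf
    rw [Nat.card_sum] at h3
    simpa using h3
  have hdvd : Nat.card (fixSub σ) ∣ 2 ^ 5 := by
    have := Subgroup.card_subgroup_dvd_card (fixSub σ)
    rw [hc] at this
    simpa using this
  obtain ⟨e, he, hcard⟩ := (Nat.dvd_prime_pow Nat.prime_two).mp hdvd
  have hrp := hr.out
  have hmod : ∀ n, n < 32 → 32 ≡ n [MOD r] → r ∣ 32 - n := by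
    intro n hn h
    exact (Nat.modEq_iff_dvd' hn.le).mp h.symm
  rw [hcard] at hm1 hle ⊢
  interval_cases e
  · omega
  · right; right
    refine ⟨?_, by norm_num⟩
    have hF0 : F = 0 := by omega
    rw [hF0] at hm2
    have h2 : r ∣ 10 := (Nat.modEq_zero_iff_dvd).mp hm2
    exact prime_dvd_aux hrp hr2 (a := 1) (q := 5) (by norm_num) (by simpa using h2)
  · exfalso
    have h2 : r ∣ 28 := hmod 4 (by norm_num) hm1
    have h3 : r = 7 := prime_dvd_aux hrp hr2 (a := 2) (q := 7) (by norm_num) (by simpa using h2)
    rw [h3] at hm2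
    have h4 : F % 7 = 3 := by
      have := hm2.symm
      unfold Nat.ModEq at this
      omega
    omega
  · right; left
    refine ⟨?_, by norm_num⟩
    have h2 : r ∣ 24 := hmod 8 (by norm_num) hm1
    exact prime_dvd_aux hrp hr2 (a := 3) (q := 3) (by norm_num) (by simpa using h2)
  · exfalso
    have h2 : r ∣ 2 ^ 4 := by simpa using hmod 16 (by norm_num) hm1
    exact hr2 ((Nat.prime_dvd_prime_iff_eq hrp Nat.prime_two).mp (hrp.dvd_of_dvd_pow h2))
  · left
    norm_num

end Cfsg.Agent.Lib.Ext32
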