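import Mathlib
import Cfsg.Prelude.Def_GeometricClasses
import Cfsg.Prelude.Def_ClassicalGeometry
import Cfsg.Agent.Lib.Ext32D
import Cfsg.Agent.Lib.SympForm
import Cfsg.Agent.Lib.SpInvol

/-!
# Extraspecial group `2^{1+4}_-` in `Sp₄(p)`: trace formula
-/

set_option autoImplicit false
set_option linter.unusedSimpArgs false
set_option linter.unusedVariables false
set_option linter.unusedSectionVars false

open scoped MatrixGroups

namespace Cfsg.Agent.Lib.Ext32

open Subgroup Matrix Cfsg Cfsg.Geo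
open Cfsg.Agent.Lib.SympForm

variable {F : Type*} [Field F]

local notation "ι" => (Fin 2 ⊕ Fin 2)
local notation "Mt" => Matrix (Fin 2 ⊕ Fin 2) (Fin 2 ⊕ Fin 2) F

/-- Scalars in `Sp` square to one. -/
theorem sp_scalar {x : GL ι F} (hx : x ∈ spGL 2 F) {w : F} (hw : (x : Mt) = w • (1 : Mt)) : w * w = 1 := by
  have h1 := (Cfsg.Agent.Lib.SpInvol.spGL_iff x).mp hx (Pi.single (Sum.inr 0) 1) (Pi.single (Sum.inl 0) 1)
  rw [hw, smul_mulVec, smul_mulVec, one_mulVec, one_mulVec, sympForm_smul_left, sympForm_smul_right] at h1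
  have h2 : sympForm 2 F (Pi.single (Sum.inr 0) 1) (Pi.single (Sum.inl 0) 1) = 1 := by
    rw [sympForm_apply]
    simp [Fin.sum_univ_two]
  rw [h2] at h1
  simpa using h1

/-- Elements of `Sp` have the same trace as their inverse. -/
theorem sp_trace_inv {x : GL ι F} (hx : x ∈ spGL 2 F) : ((x⁻¹ : GL ι F) : Mt).trace = (x : Mt).trace := by
  have h1 : (x : Mt) ∈ symplecticGroup (Fin 2) F := (mem_symplecticGroup_iff_preserves _).mpr ((Cfsg.Agent.Lib.SpInvol.spGL_iff x).mp hx)
  have h2 : (x : Mt)ᵀ * J (Fin 2) F * (x : Mt) = J (Fin 2) F := SymplecticGroup.mem_iff'.mp h1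
  have h3 : J (Fin 2) F * J (Fin 2) F = -1 := J_squared (Fin 2) F
  have h4 : (-(J (Fin 2) F) * (x : Mt)ᵀ * J (Fin 2) F) * (x : Mt) = 1 := by
    have h0 : (-(J (Fin 2) F) * (x : Mt)ᵀ * J (Fin 2) F) * (x : Mt) = -(J (Fin 2) F) * ((x : Mt)ᵀ * J (Fin 2) F * (x : Mt)) := by
      simp only [Matrix.mul_assoc]
    rw [h0, h2, neg_mul, h3, neg_neg]
  have h5 : ((x⁻¹ : GL ι F) : Mt) = -(J (Fin 2) F) * (x : Mt)ᵀ * J (Fin 2) F := by
    have h6 : (x : Mt) * ((x⁻¹ : GL ι F) : Mt) = 1 := by
      rw [← Units.val_mul, mul_inv_cancel, Units.val_one]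
    calc ((x⁻¹ : GL ι F) : Mt) = ((-(J (Fin 2) F) * (x : Mt)ᵀ * J (Fin 2) F) * (x : Mt)) * ((x⁻¹ : GL ι F) : Mt) := by rw [h4, one_mul]
      _ = -(J (Fin 2) F) * (x : Mt)ᵀ * J (Fin 2) F := by rw [mul_assoc _ (x : Mt), h6, mul_one]
  rw [h5, Matrix.trace_mul_comm, ← mul_assoc, mul_neg, h3, neg_neg, one_mul, Matrix.trace_transpose]

section setup

variable (R : Subgroup (GL ι F))

/-- Schur's lemma form. -/
theorem scalar_of_comm (hRi : ActsAbsolutelyIrreducibly (matrixSet R)) {A : Mt}
    (hA : ∀ g : R, A * ((g : GL ι F) : Mt) = ((g : GL ι F) : Mt) * A) : ∃ c : F, A = c • (1 : Mt) := by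
  apply hRi.2
  rintro s ⟨g, hg, rfl⟩
  exact hA ⟨g, hg⟩

variable {R}

variable [Fintype F]

/-- Averaging over the group. -/
theorem average (hRi : ActsAbsolutelyIrreducibly (matrixSet R)) (hR5 : Nat.card R = 32) (h2 : (2 : F) ≠ 0) [Fintype R] (A : Mt) :
    ∑ u : R, ((u : GL ι F) : Mt) * A * (((u : GL ι F)⁻¹ : GL ι F) : Mt) = (8 * A.trace) • (1 : Mt) := by
  classical
  set S : Mt := ∑ u : R, ((u : GL ι F) : Mt) * A * (((u : GL ι F)⁻¹ : GL ι F) : Mt) with hS
  obtain ⟨c, hc⟩ := scalar_of_comm R hRi (A := S) (by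
    intro g
    rw [hS, Finset.sum_mul, Finset.mul_sum, ← Equiv.sum_comp (Equiv.mulLeft g)]
    refine Finset.sum_congr rfl ?_
    intro u _
    simp only [Equiv.coe_mulLeft, Subgroup.coe_mul]
    have h3 : (((g : GL ι F) * (u : GL ι F))⁻¹ : GL ι F) = (u : GL ι F)⁻¹ * (g : GL ι F)⁻¹ := mul_inv_rev _ _
    rw [h3, Units.val_mul, Units.val_mul]
    have h4 : ((g : GL ι F)⁻¹ : GL ι F).val * ((g : GL ι F) : Mt) = 1 := by
      rw [← Units.val_mul, inv_mul_cancel, Units.val_one]
    simp only [Matrix.mul_assoc]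
    rw [h4, Matrix.mul_one])
  have htr : S.trace = 32 * A.trace := by
    rw [hS, Matrix.trace_sum]
    have h1 : ∀ u : R, (((u : GL ι F) : Mt) * A * (((u : GL ι F)⁻¹ : GL ι F) : Mt)).trace = A.trace := by
      intro u
      rw [Matrix.trace_mul_comm, ← Matrix.mul_assoc]
      have h4 : ((u : GL ι F)⁻¹ : GL ι F).val * ((u : GL ι F) : Mt) = 1 := by
        rw [← Units.val_mul, inv_mul_cancel, Units.val_one]
      rw [h4, Matrix.one_mul]
    simp only [h1, Finset.sum_const, Finset.card_univ, nsmul_eq_mul]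
    rw [← Nat.card_eq_fintype_card, hR5]
    norm_num
  have htr2 : S.trace = 4 * c := by
    rw [hc, Matrix.trace_smul, Matrix.trace_one]
    simp
    ring
  have h4 : (4 : F) ≠ 0 := by
    have : (4 : F) = 2 * 2 := by norm_num
    rw [this]
    exact mul_ne_zero h2 h2
  have hc8 : c = 8 * A.trace := by
    apply mul_left_cancel₀ h4
    rw [← htr2, htr]
    ring
  rw [hc, hc8]

/-- The data from the hypotheses of the theorem. -/
theorem exists_data (h2 : (2 : F) ≠ 0) (hRs : IsSymplecticTypeGroup 2 R) (hRi : ActsAbsolutelyIrreducibly (matrixSet R))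
    (hRf : R ≤ spGL 2 F) (hR5 : Nat.card R = 32) (hRZ : Nat.card (Subgroup.center R) = 2) (hRm : IsOfMinusType 2 R) :
    ∃ z a b c d : R, ES32 z a b c d ∧ ((z : GL ι F) : Mt) = -1 := by
  classical
  haveI : Finite R := Nat.finite_of_card_ne_zero (by rw [hR5]; norm_num)
  have hexp : Monoid.exponent R = 4 := by
    rw [hRs.exponent_eq]
    norm_num
  have h4 : ∀ g : R, g ^ 4 = 1 := by
    intro g
    rw [← hexp]
    exact Monoid.pow_exponent_eq_one g
  have hE : ∀ A : Subgroup R, IsMulCommutative A → (∀ x ∈ A, x * x = 1) → Nat.card A < 8 := by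
    intro A h1 h2
    have h3 : Nat.card A < 2 ^ (2 + 1) := hRm A h1 h2
    have h5 : (2 : ℕ) ^ (2 + 1) = 8 := by norm_num
    rw [h5] at h3
    exact h3
  obtain ⟨z, a, b, c, d, D⟩ := exists_ES32 hR5 hRZ h4 hRs.cyclic_of_characteristic hE
  refine ⟨z, a, b, c, d, D, ?_⟩
  obtain ⟨w, hw⟩ := scalar_of_comm R hRi (A := ((z : GL ι F) : Mt)) (by
    intro g
    have := D.zcomm g
    have h3 : (g * z : R) = z * g := this
    have h5 := congrArg (fun t : R => ((t : GL ι F) : Mt)) h3
    exact h5.symm)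
  have hww := sp_scalar (hRf z.2) hw
  have hw1 : w ≠ 1 := by
    rintro rfl
    apply D.hz1
    apply Subtype.ext
    apply Units.ext
    simpa using hw
  have hw2 : w = -1 := by
    have h5 : (w - 1) * (w + 1) = 0 := by linear_combination hww
    rcases mul_eq_zero.mp h5 with h6 | h6
    · exact absurd (sub_eq_zero.mp h6) hw1
    · linear_combination h6
  rw [hw, hw2]
  simp

section withdata

variable {z a b c d : R} (D : ES32 z a b c d) (hz : ((z : GL ι F) : Matrix (Fin 2 ⊕ Fin 2) (Fin 2 ⊕ Fin 2) F) = -1)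
include D hz

/-- Noncentral elements have trace 0. -/
theorem trace_zero (h2 : (2 : F) ≠ 0) {g : R} (hg1 : g ≠ 1) (hgz : g ≠ z) : ((g : GL ι F) : Mt).trace = 0 := by
  obtain ⟨h, hh⟩ : ∃ h : R, g * h ≠ h * g := by
    by_contra hcon
    push Not at hcon
    rcases D.hcen g (Subgroup.mem_center_iff.mpr (fun x => (hcon x).symm)) with h | h
    · exact hg1 h
    · exact hgz h
  have h3 : g * h = z * (h * g) := by
    rcases D.comm g h with h4 | h4
    · exact absurd h4 hh
    · exact h4
  have h4 : ((g : GL ι F) : Mt) * ((h : GL ι F) : Mt) = -(((h : GL ι F) : Mt) * ((g : GL ι F) : Mt)) := by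
    have h5 := congrArg (fun t : R => ((t : GL ι F) : Mt)) h3
    simp only [Subgroup.coe_mul, Units.val_mul] at h5
    rw [h5, hz, neg_mul, one_mul]
  have h5 : ((((h : GL ι F)⁻¹ : GL ι F)) : Mt) * ((h : GL ι F) : Mt) = 1 := by
    rw [← Units.val_mul, inv_mul_cancel, Units.val_one]
  have h6 : ((h : GL ι F) : Mt) * ((((h : GL ι F)⁻¹ : GL ι F)) : Mt) = 1 := by
    rw [← Units.val_mul, mul_inv_cancel, Units.val_one]
  have h7 : ((g : GL ι F) : Mt) = -(((h : GL ι F) : Mt) * ((g : GL ι F) : Mt) * (((h : GL ι F)⁻¹ : GL ι F) : Mt)) := by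
    calc ((g : GL ι F) : Mt) = ((g : GL ι F) : Mt) * (((h : GL ι F) : Mt) * (((h : GL ι F)⁻¹ : GL ι F) : Mt)) := by rw [h6, Matrix.mul_one]
      _ = (((g : GL ι F) : Mt) * ((h : GL ι F) : Mt)) * (((h : GL ι F)⁻¹ : GL ι F) : Mt) := by rw [Matrix.mul_assoc]
      _ = _ := by rw [h4, neg_mul]
  have h8 : ((g : GL ι F) : Mt).trace = - ((g : GL ι F) : Mt).trace := by
    conv_lhs => rw [h7]
    rw [Matrix.trace_neg, Matrix.trace_mul_comm, ← Matrix.mul_assoc, h5, Matrix.one_mul]
  have h9 : (2 : F) * ((g : GL ι F) : Mt).trace = 0 := by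
    linear_combination h8
  exact (mul_eq_zero.mp h9).resolve_left h2

end withdata

/-- The conjugation automorphism. -/
def sigX (x : GL ι F) (hx : x ∈ subgroupNormalizer R) : MulAut R := R.normalizerMonoidHom ⟨x, hx⟩

theorem sigX_coe (x : GL ι F) (hx : x ∈ subgroupNormalizer R) (g : R) :
    ((sigX x hx g : R) : GL ι F) = x * g * x⁻¹ := rfl

theorem sigX_pow (x : GL ι F) (hx : x ∈ subgroupNormalizer R) {n : ℕ} (hn : x ^ n = 1) : (sigX x hx) ^ n = 1 := by
  unfold sigX
  rw [← map_pow]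
  have : (⟨x, hx⟩ : Subgroup.normalizer (R : Set (GL ι F))) ^ n = 1 := Subtype.ext hn
  rw [this, map_one]

section withdata2

variable {z a b c d : R} (D : ES32 z a b c d) (hz : ((z : GL ι F) : Matrix (Fin 2 ⊕ Fin 2) (Fin 2 ⊕ Fin 2) F) = -1)
include D hz

/-- The trace formula. -/
theorem trace_formula (hRi : ActsAbsolutelyIrreducibly (matrixSet R)) (hR5 : Nat.card R = 32) (h2 : (2 : F) ≠ 0)
    (x : GL ι F) (hx : x ∈ subgroupNormalizer R) {n : ℕ} (hn : Odd n) (hxn : x ^ n = 1) :
    2 * (x : Mt).trace * ((x⁻¹ : GL ι F) : Mt).trace = (Nat.card (fixSub (sigX x hx)) : F) := by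
  classical
  haveI : Finite R := Nat.finite_of_card_ne_zero (by rw [hR5]; norm_num)
  haveI := Fintype.ofFinite R
  set σ := sigX x hx with hσ
  have hσn : σ ^ n = 1 := sigX_pow x hx hxn
  have havg := average hRi hR5 h2 (x : Mt)
  have h1 := congrArg (fun A : Mt => (A * ((x⁻¹ : GL ι F) : Mt)).trace) havg
  simp only [Finset.sum_mul, Matrix.trace_sum, Matrix.smul_mul, Matrix.one_mul, Matrix.trace_smul, smul_eq_mul] at h1
  have hterm : ∀ u : R, (((u : GL ι F) : Mt) * (x : Mt) * (((u : GL ι F)⁻¹ : GL ι F) : Mt) * ((x⁻¹ : GL ι F) : Mt)).trace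
      = if σ u = u then 4 else 0 := by
    intro u
    have h3 : ((u : GL ι F) : Mt) * (x : Mt) * (((u : GL ι F)⁻¹ : GL ι F) : Mt) * ((x⁻¹ : GL ι F) : Mt)
        = ((u * (σ u)⁻¹ : R) : GL ι F).val := by
      have h4 : (((u * (σ u)⁻¹ : R) : GL ι F)) = (u : GL ι F) * (x * (u : GL ι F)⁻¹ * x⁻¹) := by
        rw [Subgroup.coe_mul, Subgroup.coe_inv, sigX_coe]
        group
      rw [h4]
      simp only [Units.val_mul, Matrix.mul_assoc]
    rw [h3]
    by_cases hfix : σ u = u
    · rw [if_pos hfix, hfix, mul_inv_cancel]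
      simp
    · rw [if_neg hfix]
      apply trace_zero D hz h2
      · intro h
        exact hfix (mul_inv_eq_one.mp h).symm
      · intro h
        -- `σ u = z u`
        have h5 : σ u = z * u := by
          have h7 : σ u = z⁻¹ * u := by
            rw [← h]
            group
          rw [h7, inv_eq_of_mul_eq_one_left D.hzz]
        have hσz : σ z = z := by
          have h8 : σ z ∈ center R := by
            rw [Subgroup.mem_center_iff]
            intro g
            obtain ⟨g', rfl⟩ := σ.surjective g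
            rw [← map_mul, ← map_mul, D.zcomm g']
          rcases D.hcen _ h8 with h9 | h9
          · exfalso
            apply D.hz1
            have : σ z = σ 1 := by rw [h9, map_one]
            exact σ.injective this
          · exact h9
        have hiter : ∀ k : ℕ, (σ ^ k) u = z ^ k * u := by
          intro k
          induction k with
          | zero => simp
          | succ k ih =>
            rw [pow_succ, MulAut.mul_apply, h5]
            rw [map_mul, ih]
            have h10 : (σ ^ k) z = z := by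
              clear ih
              induction k with
              | zero => simp
              | succ k ih2 =>
                rw [pow_succ, MulAut.mul_apply, hσz, ih2]
            rw [h10]
            rw [pow_succ]
            have h11 := D.zpow_comm z k
            rw [← mul_assoc, h11]
        have h12 := hiter n
        rw [hσn] at h12
        obtain ⟨k, rfl⟩ := hn
        have h13 : z ^ (2 * k + 1) = z := by
          rw [pow_succ, pow_mul, pow_two, D.hzz, one_pow, one_mul]
        rw [h13] at h12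
        have h14 : (1 : R) * u = z * u := by
          rw [one_mul]
          exact h12
        exact D.hz1 (mul_right_cancel h14).symm
  have hsum : ∑ u : R, (if σ u = u then (4 : F) else 0) = 4 * (Nat.card (fixSub σ) : F) := by
    rw [Finset.sum_ite, Finset.sum_const_zero, add_zero, Finset.sum_const, nsmul_eq_mul, mul_comm]
    congr 2
    rw [Nat.card_eq_fintype_card, ← Fintype.card_subtype]
    exact Fintype.card_congr (Equiv.subtypeEquivRight (fun x => Iff.rfl))
  rw [Finset.sum_congr rfl (fun u _ => hterm u), hsum] at h1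
  have h4 : (4 : F) ≠ 0 := by
    have : (4 : F) = 2 * 2 := by norm_num
    rw [this]
    exact mul_ne_zero h2 h2
  apply mul_left_cancel₀ h4
  rw [h1]
  ring

/-- Elements of odd prime order normalizing `R`. -/
theorem norm_cases (hRi : ActsAbsolutelyIrreducibly (matrixSet R)) (hR5 : Nat.card R = 32) (h2 : (2 : F) ≠ 0)
    (x : GL ι F) (hx : x ∈ subgroupNormalizer R) {r : ℕ} [hr : Fact r.Prime] (hr2 : r ≠ 2) (hxr : x ^ r = 1)
    (hns : ∀ w : F, (x : Mt) ≠ w • (1 : Mt)) :
    (r = 3 ∧ 2 * (x : Mt).trace * ((x⁻¹ : GL ι F) : Mt).trace = 8) ∨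
      (r = 5 ∧ 2 * (x : Mt).trace * ((x⁻¹ : GL ι F) : Mt).trace = 2) := by
  classical
  haveI : Finite R := Nat.finite_of_card_ne_zero (by rw [hR5]; norm_num)
  have hodd : Odd r := hr.out.odd_of_ne_two hr2
  have htf := trace_formula D hz hRi hR5 h2 x hx hodd hxr
  rcases D.fix_data hR5 (sigX x hx) hr2 (sigX_pow x hx hxr) with h | ⟨h1, h3⟩ | ⟨h1, h3⟩
  · exfalso
    have htop : fixSub (sigX x hx) = ⊤ := by
      apply Subgroup.eq_top_of_card_eq
      rw [h, hR5]
    obtain ⟨w, hw⟩ := scalar_of_comm R hRi (A := (x : Mt)) (by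
      intro g
      have h5 : g ∈ fixSub (sigX x hx) := by rw [htop]; trivial
      have h6 : (x : GL ι F) * g * x⁻¹ = g := congrArg Subtype.val h5
      have h7 : (x : GL ι F) * g = g * x := by
        calc (x : GL ι F) * g = (x * g * x⁻¹) * x := by group
          _ = g * x := by rw [h6]
      exact congrArg Units.val h7)
    exact hns w hw
  · left
    refine ⟨h1, ?_⟩
    rw [htf, h3]
    norm_num
  · right
    refine ⟨h1, ?_⟩
    rw [htf, h3]
    norm_num

end withdata2

end setup

end Cfsg.Agent.Lib.Ext32
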