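import Mathlib
import Cfsg.Agent.Lib.Ext32E

/-!
# Extraspecial group `2^{1+4}_-` in `Sp₄(p)`: an element of order 5 in the normalizer
-/

set_option autoImplicit false
set_option linter.unusedSimpArgs false
set_option linter.unusedVariables false
set_option linter.unusedSectionVars false

open scoped MatrixGroups

namespace Cfsg.Agent.Lib.Ext32

open Subgroup Matrix Cfsg Cfsg.Geo
open Cfsg.Agent.Lib.SympForm

section ring

variable {A : Type*} [Ring A]

theorem s_left {a b : A} (ha : a * a = 1) (hb : b * b = 1) : (a - b) * a = -(b * (a - b)) := by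
  rw [sub_mul, mul_sub, ha, hb]
  abel

theorem s_right {a b : A} (ha : a * a = 1) (hb : b * b = 1) : (a - b) * b = -(a * (a - b)) := by
  rw [sub_mul, mul_sub, ha, hb]
  abel

theorem s_other {a b c : A} (hac : a * c = -(c * a)) (hbc : b * c = -(c * b)) : (a - b) * c = -(c * (a - b)) := by
  rw [sub_mul, mul_sub, hac, hbc]
  abel

theorem s_sq {a b : A} (ha : a * a = 1) (hb : b * b = 1) (hab : a * b = -(b * a)) : (a - b) * (a - b) = ((2 : ℕ) : A) := by
  rw [sub_mul, mul_sub, mul_sub, ha, hb, hab]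
  have h2 : ((2 : ℕ) : A) = 1 + 1 := by
    push_cast
    exact one_add_one_eq_two.symm
  rw [h2]
  noncomm_ring

theorem four_flip {s1 s2 s3 s4 x0 x1 x2 x3 x4 : A} (h4 : s4 * x0 = -(x1 * s4)) (h3 : s3 * x1 = -(x2 * s3))
    (h2 : s2 * x2 = -(x3 * s2)) (h1 : s1 * x3 = -(x4 * s1)) :
    (s1 * s2 * s3 * s4) * x0 = x4 * (s1 * s2 * s3 * s4) := by
  calc (s1 * s2 * s3 * s4) * x0 = s1 * s2 * s3 * (s4 * x0) := by noncomm_ring
    _ = -(s1 * s2 * (s3 * x1) * s4) := by rw [h4]; noncomm_ring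
    _ = s1 * (s2 * x2) * s3 * s4 := by rw [h3]; noncomm_ring
    _ = -((s1 * x3) * s2 * s3 * s4) := by rw [h2]; noncomm_ring
    _ = x4 * (s1 * s2 * s3 * s4) := by rw [h1]; noncomm_ring

theorem four_sq {s1 s2 s3 s4 : A} (h1 : s1 * s1 = ((2 : ℕ) : A)) (h2 : s2 * s2 = ((2 : ℕ) : A))
    (h3 : s3 * s3 = ((2 : ℕ) : A)) (h4 : s4 * s4 = ((2 : ℕ) : A)) :
    (s1 * s2 * s3 * s4) * (s4 * s3 * s2 * s1) = ((16 : ℕ) : A) := by
  have hc : ∀ (n : ℕ) (x : A), x * (n : A) = (n : A) * x := fun n x => (Nat.cast_commute n x).symm.eq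
  calc (s1 * s2 * s3 * s4) * (s4 * s3 * s2 * s1) = s1 * (s2 * (s3 * (s4 * s4) * s3) * s2) * s1 := by noncomm_ring
    _ = s1 * (s2 * ((s3 * ((2 : ℕ) : A)) * s3) * s2) * s1 := by rw [h4]
    _ = s1 * (s2 * (((2 : ℕ) : A) * (s3 * s3)) * s2) * s1 := by rw [hc]; noncomm_ring
    _ = s1 * (s2 * ((4 : ℕ) : A) * s2) * s1 := by
        rw [h3, ← Nat.cast_mul]
    _ = s1 * (((4 : ℕ) : A) * (s2 * s2)) * s1 := by rw [hc]; noncomm_ring
    _ = s1 * ((8 : ℕ) : A) * s1 := by rw [h2, ← Nat.cast_mul]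
    _ = ((8 : ℕ) : A) * (s1 * s1) := by rw [hc]; noncomm_ring
    _ = ((16 : ℕ) : A) := by rw [h1, ← Nat.cast_mul]

/-- All relations for the element `P = s12 s23 s34 s45`. -/
theorem cyc_rels {u1 u2 u3 u4 u5 : A} (h1 : u1 * u1 = 1) (h2 : u2 * u2 = 1) (h3 : u3 * u3 = 1) (h4 : u4 * u4 = 1) (h5 : u5 * u5 = 1)
    (h12 : u1 * u2 = -(u2 * u1)) (h13 : u1 * u3 = -(u3 * u1)) (h14 : u1 * u4 = -(u4 * u1)) (h15 : u1 * u5 = -(u5 * u1))
    (h23 : u2 * u3 = -(u3 * u2)) (h24 : u2 * u4 = -(u4 * u2)) (h25 : u2 * u5 = -(u5 * u2))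
    (h34 : u3 * u4 = -(u4 * u3)) (h35 : u3 * u5 = -(u5 * u3)) (h45 : u4 * u5 = -(u5 * u4)) :
    ∀ {P Q : A}, P = (u1 - u2) * (u2 - u3) * (u3 - u4) * (u4 - u5) → Q = (u4 - u5) * (u3 - u4) * (u2 - u3) * (u1 - u2) →
    P * u1 = u2 * P ∧ P * u2 = u3 * P ∧ P * u3 = u4 * P ∧ P * u4 = u5 * P ∧ P * u5 = u1 * P ∧
      P * Q = ((16 : ℕ) : A) ∧ Q * P = ((16 : ℕ) : A) := by
  rintro P Q rfl rfl
  have a21 : u2 * u1 = -(u1 * u2) := by rw [h12, neg_neg]
  have a31 : u3 * u1 = -(u1 * u3) := by rw [h13, neg_neg]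
  have a41 : u4 * u1 = -(u1 * u4) := by rw [h14, neg_neg]
  have a51 : u5 * u1 = -(u1 * u5) := by rw [h15, neg_neg]
  have a32 : u3 * u2 = -(u2 * u3) := by rw [h23, neg_neg]
  have a42 : u4 * u2 = -(u2 * u4) := by rw [h24, neg_neg]
  have a52 : u5 * u2 = -(u2 * u5) := by rw [h25, neg_neg]
  have a43 : u4 * u3 = -(u3 * u4) := by rw [h34, neg_neg]
  have a53 : u5 * u3 = -(u3 * u5) := by rw [h35, neg_neg]
  have a54 : u5 * u4 = -(u4 * u5) := by rw [h45, neg_neg]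
  refine ⟨?_, ?_, ?_, ?_, ?_, ?_, ?_⟩
  · exact four_flip (x1 := u1) (x2 := u1) (x3 := u1) (s_other a41 a51) (s_other a31 a41) (s_other a21 a31) (s_left h1 h2)
  · exact four_flip (x1 := u2) (x2 := u2) (x3 := u3) (s_other a42 a52) (s_other a32 a42) (s_left h2 h3) (s_other h13 h23)
  · exact four_flip (x1 := u3) (x2 := u4) (x3 := u4) (s_other a43 a53) (s_left h3 h4) (s_other h24 h34) (s_other h14 h24)
  · exact four_flip (x1 := u5) (x2 := u5) (x3 := u5) (s_left h4 h5) (s_other h35 h45) (s_other h25 h35) (s_other h15 h25)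
  · exact four_flip (x1 := u4) (x2 := u3) (x3 := u2) (s_right h4 h5) (s_right h3 h4) (s_right h2 h3) (s_right h1 h2)
  · exact four_sq (s_sq h1 h2 h12) (s_sq h2 h3 h23) (s_sq h3 h4 h34) (s_sq h4 h5 h45)
  · exact four_sq (s_sq h4 h5 h45) (s_sq h3 h4 h34) (s_sq h2 h3 h23) (s_sq h1 h2 h12)

end ring

variable {F : Type*} [Field F]

local notation "ι" => (Fin 2 ⊕ Fin 2)
local notation "Mt" => Matrix (Fin 2 ⊕ Fin 2) (Fin 2 ⊕ Fin 2) F

/-- Adjoint pairs for the symplectic form. -/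
def IsAdj (X Y : Mt) : Prop := ∀ v w, sympForm 2 F (X *ᵥ v) w = sympForm 2 F v (Y *ᵥ w)

theorem IsAdj.sub {X Y X' Y' : Mt} (h : IsAdj X Y) (h' : IsAdj X' Y') : IsAdj (X - X') (Y - Y') := by
  intro v w
  rw [sub_mulVec, sub_mulVec, sympForm_sub_left, sympForm_sub_right, h v w, h' v w]

theorem IsAdj.mul {X Y X' Y' : Mt} (h : IsAdj X Y) (h' : IsAdj X' Y') : IsAdj (X * X') (Y' * Y) := by
  intro v w
  rw [← mulVec_mulVec, ← mulVec_mulVec, h, h']

theorem isAdj_of_invol {x : GL ι F} (hx : x ∈ spGL 2 F) (hxx : (x : Mt) * (x : Mt) = 1) : IsAdj (x : Mt) (x : Mt) := by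
  intro v w
  have h1 := (Cfsg.Agent.Lib.SpInvol.spGL_iff x).mp hx ((x : Mt) *ᵥ v) w
  rw [mulVec_mulVec, hxx, one_mulVec] at h1
  exact h1.symm


theorem order5_core [Fintype F] (h2 : (2 : F) ≠ 0) {U1 U2 U3 U4 U5 : Mt} (e1 : U1 * U1 = 1) (e2 : U2 * U2 = 1) (e3 : U3 * U3 = 1) (e4 : U4 * U4 = 1) (e5 : U5 * U5 = 1)
    (h12 : U1 * U2 = -(U2 * U1)) (h13 : U1 * U3 = -(U3 * U1)) (h14 : U1 * U4 = -(U4 * U1)) (h15 : U1 * U5 = -(U5 * U1))
    (h23 : U2 * U3 = -(U3 * U2)) (h24 : U2 * U4 = -(U4 * U2)) (h25 : U2 * U5 = -(U5 * U2))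
    (h34 : U3 * U4 = -(U4 * U3)) (h35 : U3 * U5 = -(U5 * U3)) (h45 : U4 * U5 = -(U5 * U4))
    (a1 : IsAdj U1 U1) (a2 : IsAdj U2 U2) (a3 : IsAdj U3 U3) (a4 : IsAdj U4 U4) (a5 : IsAdj U5 U5) :
    ∃ hG : GL ι F, hG ∈ spGL 2 F ∧ (hG : Mt) * U1 = U2 * (hG : Mt) ∧ (hG : Mt) * U2 = U3 * (hG : Mt) ∧
      (hG : Mt) * U3 = U4 * (hG : Mt) ∧ (hG : Mt) * U4 = U5 * (hG : Mt) ∧ (hG : Mt) * U5 = U1 * (hG : Mt) := by
  obtain ⟨P, hP⟩ : ∃ P : Mt, P = (U1 - U2) * (U2 - U3) * (U3 - U4) * (U4 - U5) := ⟨_, rfl⟩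
  obtain ⟨Q, hQ⟩ : ∃ Q : Mt, Q = (U4 - U5) * (U3 - U4) * (U2 - U3) * (U1 - U2) := ⟨_, rfl⟩
  obtain ⟨p1, p2, p3, p4, p5, pq, qp⟩ := cyc_rels e1 e2 e3 e4 e5 h12 h13 h14 h15 h23 h24 h25 h34 h35 h45 hP hQ
  have h4 : (4 : F) ≠ 0 := by
    have : (4 : F) = 2 * 2 := by norm_num
    rw [this]
    exact mul_ne_zero h2 h2
  have hcast : ((16 : ℕ) : Mt) = (16 : F) • (1 : Mt) := by
    rw [← nsmul_one, ← Nat.cast_smul_eq_nsmul F]
    norm_num
  have hquarter : ((1 / 4 : F) * (1 / 4 : F)) * 16 = 1 := by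
    field_simp
    norm_num
  obtain ⟨hG, hGv⟩ : ∃ hG : GL ι F, (hG : Mt) = (1 / 4 : F) • P := ⟨⟨(1 / 4 : F) • P, (1 / 4 : F) • Q, by
      rw [smul_mul_smul_comm, pq, hcast, smul_smul, hquarter, one_smul], by
      rw [smul_mul_smul_comm, qp, hcast, smul_smul, hquarter, one_smul]⟩, rfl⟩
  have hPQ : IsAdj P Q := by
    have hQ' : Q = (U4 - U5) * ((U3 - U4) * ((U2 - U3) * (U1 - U2))) := by
      rw [hQ]
      simp only [Matrix.mul_assoc]
    rw [hP, hQ']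
    exact ((((a1.sub a2).mul (a2.sub a3)).mul (a3.sub a4)).mul (a4.sub a5))
  have hGsp : hG ∈ spGL 2 F := by
    rw [Cfsg.Agent.Lib.SpInvol.spGL_iff]
    intro v w
    rw [hGv, smul_mulVec, smul_mulVec, sympForm_smul_left, sympForm_smul_right, hPQ, mulVec_mulVec, qp, hcast, smul_mulVec, one_mulVec, sympForm_smul_right]
    rw [← mul_assoc, ← mul_assoc, hquarter, one_mul]
  refine ⟨hG, hGsp, ?_, ?_, ?_, ?_, ?_⟩ <;> rw [hGv, smul_mul_assoc, mul_smul_comm]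
  · rw [p1]
  · rw [p2]
  · rw [p3]
  · rw [p4]
  · rw [p5]

section main

variable {R : Subgroup (GL ι F)} [Fintype F]

theorem mem_normalizer_of_conj [Finite R] {x : GL ι F} (h : ∀ g : R, x * g * x⁻¹ ∈ R) : x ∈ subgroupNormalizer R := by
  show x ∈ Subgroup.normalizer (R : Set (GL ι F))
  rw [Subgroup.mem_normalizer_iff]
  intro g
  refine ⟨fun hg => h ⟨g, hg⟩, fun hg => ?_⟩
  let f : R → R := fun g => ⟨x * g * x⁻¹, h g⟩
  have hf : Function.Injective f := by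
    intro a b hab
    have h1 : x * (a : GL ι F) * x⁻¹ = x * b * x⁻¹ := congrArg Subtype.val hab
    apply Subtype.ext
    simpa using h1
  obtain ⟨y, hy⟩ := (Finite.injective_iff_surjective.mp hf) ⟨x * g * x⁻¹, hg⟩
  have h1 : x * (y : GL ι F) * x⁻¹ = x * g * x⁻¹ := congrArg Subtype.val hy
  have h2 : (y : GL ι F) = g := by simpa using h1
  rw [← h2]
  exact y.2

omit [Fintype F] in
theorem sq_coe {x : R} (h : x * x = 1) : ((x : GL ι F) : Mt) * ((x : GL ι F) : Mt) = 1 := by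
  have h5 := congrArg (fun t : R => ((t : GL ι F) : Mt)) h
  simpa using h5

variable {z a b c d : R} (D : ES32 z a b c d) (hz : ((z : GL ι F) : Matrix (Fin 2 ⊕ Fin 2) (Fin 2 ⊕ Fin 2) F) = -1)
include D hz

omit [Fintype F] in
theorem anti_coe {x y : R} (h : x * y = z * (y * x)) :
    ((x : GL ι F) : Mt) * ((y : GL ι F) : Mt) = -(((y : GL ι F) : Mt) * ((x : GL ι F) : Mt)) := by
  have h5 := congrArg (fun t : R => ((t : GL ι F) : Mt)) h
  simp only [Subgroup.coe_mul, Units.val_mul] at h5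
  rw [h5, hz, neg_mul, one_mul]

/-- Existence of an element of order five. -/
theorem exists_order5 (hRi : ActsAbsolutelyIrreducibly (matrixSet R)) (hRf : R ≤ spGL 2 F) (hR5 : Nat.card R = 32) (h2 : (2 : F) ≠ 0) :
    ∃ h : GL ι F, h ∈ spGL 2 F ∧ h ∈ subgroupNormalizer R ∧ h ^ 5 = 1 ∧ h ≠ 1 := by
  classical
  haveI : Finite R := Nat.finite_of_card_ne_zero (by rw [hR5]; norm_num)
  obtain ⟨sq3, sq4, sq5⟩ := D.u_squares
  obtain ⟨a12, a13, a14, a15, a23, a24, a25, a34, a35, a45⟩ := D.u_anti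
  have adj : ∀ g : R, g * g = 1 → IsAdj ((g : GL ι F) : Mt) ((g : GL ι F) : Mt) :=
    fun g hg => isAdj_of_invol (hRf g.2) (sq_coe hg)
  obtain ⟨hG, hGsp, p1, p2, p3, p4, p5⟩ := order5_core h2 (sq_coe D.aa) (sq_coe D.bb) (sq_coe sq3) (sq_coe sq4) (sq_coe sq5)
    (anti_coe D hz a12) (anti_coe D hz a13) (anti_coe D hz a14) (anti_coe D hz a15)
    (anti_coe D hz a23) (anti_coe D hz a24) (anti_coe D hz a25) (anti_coe D hz a34) (anti_coe D hz a35) (anti_coe D hz a45)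
    (adj _ D.aa) (adj _ D.bb) (adj _ sq3) (adj _ sq4) (adj _ sq5)
  -- the relations in GL
  have P1 : SemiconjBy hG (a : GL ι F) (b : GL ι F) := Units.ext p1
  have P2 : SemiconjBy hG (b : GL ι F) ((a * b * c : R) : GL ι F) := Units.ext p2
  have P3 : SemiconjBy hG ((a * b * c : R) : GL ι F) ((a * b * d : R) : GL ι F) := Units.ext p3
  have P4 : SemiconjBy hG ((a * b * d : R) : GL ι F) ((a * b * (c * d) : R) : GL ι F) := Units.ext p4
  have P5 : SemiconjBy hG ((a * b * (c * d) : R) : GL ι F) (a : GL ι F) := Units.ext p5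
  have hpow5 : hG ^ 5 = hG * (hG * (hG * (hG * hG))) := by simp only [pow_succ, pow_zero, one_mul, mul_assoc]
  have C1 : SemiconjBy (hG ^ 5) (a : GL ι F) (a : GL ι F) := by
    rw [hpow5]
    exact P5.mul_left (P4.mul_left (P3.mul_left (P2.mul_left P1)))
  have C2 : SemiconjBy (hG ^ 5) (b : GL ι F) (b : GL ι F) := by
    rw [hpow5]
    exact P1.mul_left (P5.mul_left (P4.mul_left (P3.mul_left P2)))
  have C3 : SemiconjBy (hG ^ 5) ((a * b * c : R) : GL ι F) ((a * b * c : R) : GL ι F) := by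
    rw [hpow5]
    exact P2.mul_left (P1.mul_left (P5.mul_left (P4.mul_left P3)))
  have C4 : SemiconjBy (hG ^ 5) ((a * b * d : R) : GL ι F) ((a * b * d : R) : GL ι F) := by
    rw [hpow5]
    exact P3.mul_left (P2.mul_left (P1.mul_left (P5.mul_left P4)))
  -- `hG ^ 5` centralizes `R`
  have hcent : ∀ g : R, (hG ^ 5) * (g : GL ι F) = g * (hG ^ 5) := by
    let H : Subgroup R := (Subgroup.centralizer {hG ^ 5}).subgroupOf R
    have hH : H = ⊤ := by
      apply D.u_gen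
      · exact Subgroup.mem_subgroupOf.mpr (Subgroup.mem_centralizer_singleton_iff.mpr C1.eq.symm)
      · exact Subgroup.mem_subgroupOf.mpr (Subgroup.mem_centralizer_singleton_iff.mpr C2.eq.symm)
      · exact Subgroup.mem_subgroupOf.mpr (Subgroup.mem_centralizer_singleton_iff.mpr C3.eq.symm)
      · exact Subgroup.mem_subgroupOf.mpr (Subgroup.mem_centralizer_singleton_iff.mpr C4.eq.symm)
    intro g
    have h1 : g ∈ H := by rw [hH]; trivial
    exact (Subgroup.mem_centralizer_singleton_iff.mp (Subgroup.mem_subgroupOf.mp h1)).symm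
  obtain ⟨w, hw⟩ := scalar_of_comm R hRi (A := ((hG ^ 5 : GL ι F) : Mt)) (by
    intro g
    exact congrArg Units.val (hcent g))
  have hG5sp : hG ^ 5 ∈ spGL 2 F := (spGL 2 F).pow_mem hGsp 5
  have hww := sp_scalar hG5sp hw
  have hw2 : w = 1 ∨ w = -1 := by
    have h5 : (w - 1) * (w + 1) = 0 := by linear_combination hww
    rcases mul_eq_zero.mp h5 with h6 | h6
    · exact Or.inl (sub_eq_zero.mp h6)
    · exact Or.inr (by linear_combination h6)
  -- a general criterion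
  have key : ∀ y : GL ι F, y ∈ spGL 2 F → SemiconjBy y (a : GL ι F) (b : GL ι F) → SemiconjBy y (b : GL ι F) ((a * b * c : R) : GL ι F) →
      SemiconjBy y ((a * b * c : R) : GL ι F) ((a * b * d : R) : GL ι F) → SemiconjBy y ((a * b * d : R) : GL ι F) ((a * b * (c * d) : R) : GL ι F) →
      y ^ 5 = 1 → y ∈ spGL 2 F ∧ y ∈ subgroupNormalizer R ∧ y ^ 5 = 1 ∧ y ≠ 1 := by
    intro y hy Q1 Q2 Q3 Q4 hy5
    refine ⟨hy, ?_, hy5, ?_⟩
    · apply mem_normalizer_of_conj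
      let H : Subgroup R := (R.comap (MulAut.conj y).toMonoidHom).subgroupOf R
      have hH : H = ⊤ := by
        apply D.u_gen
        · refine Subgroup.mem_subgroupOf.mpr (Subgroup.mem_comap.mpr ?_)
          show y * (a : GL ι F) * y⁻¹ ∈ R
          rw [Q1.eq, mul_inv_cancel_right]
          exact Subtype.mem _
        · refine Subgroup.mem_subgroupOf.mpr (Subgroup.mem_comap.mpr ?_)
          show y * (b : GL ι F) * y⁻¹ ∈ R
          rw [Q2.eq, mul_inv_cancel_right]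
          exact Subtype.mem _
        · refine Subgroup.mem_subgroupOf.mpr (Subgroup.mem_comap.mpr ?_)
          show y * ((a * b * c : R) : GL ι F) * y⁻¹ ∈ R
          rw [Q3.eq, mul_inv_cancel_right]
          exact Subtype.mem _
        · refine Subgroup.mem_subgroupOf.mpr (Subgroup.mem_comap.mpr ?_)
          show y * ((a * b * d : R) : GL ι F) * y⁻¹ ∈ R
          rw [Q4.eq, mul_inv_cancel_right]
          exact Subtype.mem _
      intro g
      have h1 : g ∈ H := by rw [hH]; trivial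
      exact Subgroup.mem_comap.mp (Subgroup.mem_subgroupOf.mp h1)
    · rintro rfl
      have h1 : (a : GL ι F) = b := by simpa using Q1.eq
      have h3 : a = b := Subtype.ext h1
      have h4 := D.ab
      rw [← h3] at h4
      have h5 : (1 : R) * (a * a) = z * (a * a) := by rw [one_mul]; exact h4
      exact D.hz1 (mul_right_cancel h5).symm
  rcases hw2 with rfl | rfl
  · have h5 : hG ^ 5 = 1 := Units.ext (by rw [hw]; simp)
    exact ⟨hG, key hG hGsp P1 P2 P3 P4 h5⟩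
  · refine ⟨-hG, key (-hG) ?_ P1.neg_left P2.neg_left P3.neg_left P4.neg_left ?_⟩
    · rw [Cfsg.Agent.Lib.SpInvol.spGL_iff]
      intro v w
      have := (Cfsg.Agent.Lib.SpInvol.spGL_iff hG).mp hGsp v w
      rw [Units.val_neg, neg_mulVec, neg_mulVec, sympForm_neg_left, sympForm_neg_right, neg_neg, this]
    · rw [Odd.neg_pow (by decide)]
      apply Units.ext
      rw [Units.val_neg, hw]
      simp

end main

end Cfsg.Agent.Lib.Ext32
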