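import Mathlib
import Cfsg.Agent.Lib.Ext32F
import Cfsg.Agent.Lib.ElusiveCore

/-!
# `Sp₄(p)` with `p` of order 4 modulo 5: elements of order 5 are conjugate up to powers
-/

set_option autoImplicit false
set_option linter.unusedSimpArgs false
set_option linter.unusedVariables false
set_option linter.unusedSectionVars false

open scoped MatrixGroups Pointwise

namespace Cfsg.Agent.Lib.Ext32

open Subgroup Matrix Cfsg Cfsg.Geo Polynomial Module

variable {F : Type*} [Field F]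

local notation "ι" => (Fin 2 ⊕ Fin 2)
local notation "Mt" => Matrix (Fin 2 ⊕ Fin 2) (Fin 2 ⊕ Fin 2) F
/-- The symplectic group as a type. -/
abbrev SpG4 (F : Type*) [Field F] : Type _ := ↥(spGL 2 F)

local notation "Γ" => SpG4 F

instance fact_five : Fact (Nat.Prime 5) := ⟨by norm_num⟩

theorem natDeg_cyc5 : (cyclotomic 5 F).natDegree = 4 := by
  rw [natDegree_cyclotomic, Nat.totient_prime (by norm_num)]

theorem irr_cyc5 [Fintype F] {p : ℕ} [hp : Fact p.Prime] [CharP F p] (hF : Fintype.card F = p) (hord : orderOf (p : ZMod 5) = 4) :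
    Irreducible (cyclotomic 5 F) := by
  have hrp : (5 : ℕ) ≠ p := by
    intro h5
    have h0 : (p : ZMod 5) = 0 := by
      rw [← h5]
      rfl
    have h1 := pow_orderOf_eq_one (p : ZMod 5)
    rw [hord, h0] at h1
    exact absurd h1 (by decide)
  have hdeg := natDeg_cyc5 (F := F)
  obtain ⟨π, h1, h2⟩ := WfDvdMonoid.exists_irreducible_factor (a := cyclotomic 5 F) (by
    intro h
    have := natDegree_eq_zero_of_isUnit h
    omega) (cyclotomic_ne_zero 5 F)
  obtain ⟨h, hh⟩ := h2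
  have h3 : π.natDegree = 4 := by
    rw [Cfsg.Agent.Lib.ElusiveCore.natDegree_irred_cyclotomic (p := p) hrp h1 ⟨h, hh⟩, hF, hord]
  have h0 : h ≠ 0 := by
    rintro rfl
    rw [mul_zero] at hh
    exact cyclotomic_ne_zero 5 F hh
  have h4 := natDegree_mul h1.ne_zero h0
  rw [← hh, hdeg, h3] at h4
  have h5 : h.natDegree = 0 := by omega
  have h6 : IsUnit h := by
    rw [Polynomial.isUnit_iff_degree_eq_zero, degree_eq_natDegree h0, h5]
    rfl
  rw [hh]
  exact (irreducible_mul_isUnit h6).mpr h1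

section

variable {x : Matrix (Fin 2 ⊕ Fin 2) (Fin 2 ⊕ Fin 2) F} (hirr : Irreducible (cyclotomic 5 F))
include hirr

theorem aeval_cyc_zero (hx5 : x ^ 5 = 1) (hx1 : x ≠ 1) : aeval x (cyclotomic 5 F) = 0 := by
  have hint : IsIntegral F x := Algebra.IsIntegral.isIntegral x
  set m := minpoly F x with hm
  have h1 : m ∣ X ^ 5 - 1 := minpoly.dvd F x (by simp [hx5])
  rw [← cyclotomic_prime_mul_X_sub_one F 5] at h1
  by_cases hd : cyclotomic 5 F ∣ m
  · have hdeg : m.natDegree ≤ (cyclotomic 5 F).natDegree := by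
      rw [natDeg_cyc5]
      have h2 := natDegree_le_of_dvd (Matrix.minpoly_dvd_charpoly x) (charpoly_monic x).ne_zero
      rw [charpoly_natDegree_eq_dim] at h2
      simpa using h2
    have h3 : m = cyclotomic 5 F := eq_of_monic_of_dvd_of_natDegree_le (cyclotomic.monic 5 F) (minpoly.monic hint) hd hdeg
    rw [← h3]
    exact minpoly.aeval F x
  · exfalso
    have h2 : IsCoprime (cyclotomic 5 F) m := (hirr.coprime_iff_not_dvd).mpr hd
    have h3 : m ∣ X - 1 := h2.symm.dvd_of_dvd_mul_left h1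
    have h4 : aeval x (X - 1 : F[X]) = 0 := aeval_eq_zero_of_dvd_aeval_eq_zero h3 (minpoly.aeval F x)
    apply hx1
    simpa [sub_eq_zero] using h4

theorem exists_inv_of_not_dvd (hz : aeval x (cyclotomic 5 F) = 0) {P : F[X]} (hP : ¬ cyclotomic 5 F ∣ P) :
    ∃ B : Mt, B * aeval x P = 1 := by
  obtain ⟨a, b, hab⟩ := (hirr.coprime_iff_not_dvd).mpr hP
  refine ⟨aeval x b, ?_⟩
  have := congrArg (aeval x) hab
  rw [map_add, map_mul, map_mul, hz, mul_zero, zero_add, map_one] at this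
  exact this

theorem dvd_of_aeval_zero (hz : aeval x (cyclotomic 5 F) = 0) {P : F[X]} (h : aeval x P = 0) : cyclotomic 5 F ∣ P := by
  by_contra hP
  obtain ⟨B, hB⟩ := exists_inv_of_not_dvd hirr hz hP
  rw [h, mul_zero] at hB
  exact zero_ne_one hB

theorem dvd_of_aeval_vec (hz : aeval x (cyclotomic 5 F) = 0) {P : F[X]} {v : ι → F} (hv : v ≠ 0) (h : aeval x P *ᵥ v = 0) :
    cyclotomic 5 F ∣ P := by
  by_contra hP
  obtain ⟨B, hB⟩ := exists_inv_of_not_dvd hirr hz hP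
  apply hv
  have h1 : (B * aeval x P) *ᵥ v = 0 := by
    rw [← mulVec_mulVec, h, mulVec_zero]
  rwa [hB, one_mulVec] at h1

/-- Matrices commuting with `x` are polynomials in `x`. -/
theorem exists_poly_of_comm (hz : aeval x (cyclotomic 5 F) = 0) {c : Mt} (hxc : x * c = c * x) : ∃ g₀ : F[X], c = aeval x g₀ := by
  classical
  let v : ι → F := Pi.single (Sum.inl 0) 1
  have hv : v ≠ 0 := by
    intro h
    have := congrFun h (Sum.inl 0)
    simp [v] at this
  let b : Fin 4 → (ι → F) := fun i => (x ^ (i : ℕ)) *ᵥ v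
  let pol : (Fin 4 → F) → F[X] := fun g => ∑ i, C (g i) * X ^ (i : ℕ)
  have hpol : ∀ g : Fin 4 → F, aeval x (pol g) *ᵥ v = ∑ i, g i • b i := by
    intro g
    simp only [pol, map_sum, Matrix.sum_mulVec, map_mul, aeval_C, aeval_X_pow]
    refine Finset.sum_congr rfl fun i _ => ?_
    rw [Algebra.algebraMap_eq_smul_one, smul_mul_assoc, one_mul, smul_mulVec]
  have hcoef : ∀ (g : Fin 4 → F) (j : Fin 4), (pol g).coeff j = g j := by
    intro g j
    simp only [pol, finset_sum_coeff, coeff_C_mul, coeff_X_pow]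
    rw [Finset.sum_eq_single j]
    · simp
    · intro i _ hij
      rw [if_neg (fun h => hij (Fin.ext h.symm)), mul_zero]
    · simp
  have hdeg : ∀ g : Fin 4 → F, (pol g).natDegree < 4 := by
    intro g
    have : (pol g).natDegree ≤ 3 := by
      apply natDegree_sum_le_of_forall_le
      intro i _
      refine (natDegree_C_mul_le _ _).trans ?_
      rw [natDegree_X_pow]
      omega
    omega
  have hli : LinearIndependent F b := by
    rw [Fintype.linearIndependent_iff]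
    intro g hg i
    have h1 := dvd_of_aeval_vec hirr hz hv (P := pol g) (by rw [hpol, hg])
    have h2 : pol g = 0 := eq_zero_of_dvd_of_natDegree_lt h1 (by rw [natDeg_cyc5]; exact hdeg g)
    rw [← hcoef g i, h2, coeff_zero]
  have hspan : Submodule.span F (Set.range b) = ⊤ := hli.span_eq_top_of_card_eq_finrank (by simp)
  obtain ⟨α, hα⟩ := (Submodule.mem_span_range_iff_exists_fun F).mp (show c *ᵥ v ∈ Submodule.span F (Set.range b) by rw [hspan]; trivial)
  refine ⟨pol α, ?_⟩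
  have hcv : c *ᵥ v = aeval x (pol α) *ᵥ v := by
    rw [hpol, hα]
  have hcomm : ∀ i : ℕ, c * x ^ i = x ^ i * c := fun i => ((Commute.pow_left (show Commute x c from hxc) i).symm).eq
  have hcomm2 : ∀ i : ℕ, aeval x (pol α) * x ^ i = x ^ i * aeval x (pol α) := by
    intro i
    rw [← aeval_X_pow (R := F) x, ← map_mul, ← map_mul, mul_comm]
  have hb : ∀ i, c.mulVecLin (b i) = (aeval x (pol α)).mulVecLin (b i) := by
    intro i
    simp only [mulVecLin_apply, b]
    rw [mulVec_mulVec, mulVec_mulVec, hcomm, hcomm2, ← mulVec_mulVec, ← mulVec_mulVec, hcv]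
  have hlin : c.mulVecLin = (aeval x (pol α)).mulVecLin := by
    apply LinearMap.ext_on_range hspan hb
  apply Matrix.mulVec_injective
  funext w
  exact LinearMap.congr_fun hlin w

/-- Fifth roots of unity in the centraliser of `x`. -/
theorem cent_five (hx5 : x ^ 5 = 1) (hx1 : x ≠ 1) {c : Mt} (hc5 : c ^ 5 = 1) (hxc : x * c = c * x) : ∃ k : ℕ, c = x ^ k := by
  classical
  have hz := aeval_cyc_zero hirr hx5 hx1
  obtain ⟨g₀, rfl⟩ := exists_poly_of_comm hirr hz hxc
  haveI : Fact (Irreducible (cyclotomic 5 F)) := ⟨hirr⟩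
  let Φ := cyclotomic 5 F
  let γ : AdjoinRoot Φ := AdjoinRoot.mk Φ g₀
  let ζ : AdjoinRoot Φ := AdjoinRoot.root Φ
  have hγ : γ ^ 5 = 1 := by
    have h1 : Φ ∣ g₀ ^ 5 - 1 := by
      apply dvd_of_aeval_zero hirr hz
      rw [map_sub, map_pow, hc5, map_one, sub_self]
    have h2 := AdjoinRoot.mk_eq_mk.mpr h1
    rw [map_pow, map_one] at h2
    exact h2
  have hζ5 : ζ ^ 5 = 1 := by
    have h1 : Φ ∣ X ^ 5 - 1 := ⟨X - 1, (cyclotomic_prime_mul_X_sub_one F 5).symm⟩
    have h2 := AdjoinRoot.mk_eq_mk.mpr h1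
    rw [map_pow, map_one, AdjoinRoot.mk_X] at h2
    exact h2
  have hζ1 : ζ ≠ 1 := by
    intro h
    have h1 : AdjoinRoot.mk Φ X = AdjoinRoot.mk Φ 1 := by
      rw [AdjoinRoot.mk_X, map_one]
      exact h
    have h2 := AdjoinRoot.mk_eq_mk.mp h1
    have h3 := eq_zero_of_dvd_of_natDegree_lt h2 (by
      have h4 : (X - 1 : F[X]).natDegree = 1 := natDegree_X_sub_C (1 : F)
      rw [h4]
      show 1 < (cyclotomic 5 F).natDegree
      rw [natDeg_cyc5]
      norm_num)
    have h4 : (X - 1 : F[X]).natDegree = 1 := natDegree_X_sub_C (1 : F)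
    rw [h3] at h4
    simp at h4
  have hprim : IsPrimitiveRoot ζ 5 := by
    have h1 := IsPrimitiveRoot.orderOf ζ
    rwa [orderOf_eq_prime hζ5 hζ1] at h1
  obtain ⟨i, -, hi⟩ := hprim.eq_pow_of_pow_eq_one hγ
  refine ⟨i, ?_⟩
  have h2 : AdjoinRoot.mk Φ (X ^ i) = AdjoinRoot.mk Φ g₀ := by
    rw [map_pow, AdjoinRoot.mk_X]
    exact hi
  have h3 := AdjoinRoot.mk_eq_mk.mp h2
  have h4 : aeval x (X ^ i - g₀ : F[X]) = 0 := aeval_eq_zero_of_dvd_aeval_eq_zero h3 hz
  rw [map_sub, aeval_X_pow, sub_eq_zero] at h4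
  exact h4.symm

end

/-- All elements of order 5 in `Sp₄` are conjugate up to powers. -/
theorem sp_five_conj [Fintype F] {p : ℕ} [hp : Fact p.Prime] [CharP F p] (hF : Fintype.card F = p) (hord : orderOf (p : ZMod 5) = 4)
    (x h : GL ι F) (hx : x ∈ spGL 2 F) (hh : h ∈ spGL 2 F) (hx5 : x ^ 5 = 1) (hh5 : h ^ 5 = 1) (hx1 : x ≠ 1) (hh1 : h ≠ 1) :
    ∃ g ∈ spGL 2 F, ∃ n : ℕ, g⁻¹ * x * g = h ^ n := by
  classical
  have hirr := irr_cyc5 hF hord
  haveI : Finite Γ := inferInstance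
  have hpg : ∀ y : Γ, y ^ 5 = 1 → y ≠ 1 → IsPGroup 5 (Subgroup.zpowers y) := by
    intro y hy hy1
    apply IsPGroup.of_card (n := 1)
    rw [Nat.card_zpowers, orderOf_eq_prime hy hy1]
    norm_num
  let x' : Γ := ⟨x, hx⟩
  let h' : Γ := ⟨h, hh⟩
  have hx'5 : x' ^ 5 = 1 := Subtype.ext hx5
  have hh'5 : h' ^ 5 = 1 := Subtype.ext hh5
  have hx'1 : x' ≠ 1 := fun e => hx1 (congrArg Subtype.val e)
  have hh'1 : h' ≠ 1 := fun e => hh1 (congrArg Subtype.val e)
  obtain ⟨P₁, hP₁⟩ := (hpg x' hx'5 hx'1).exists_le_sylow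
  obtain ⟨P₂, hP₂⟩ := (hpg h' hh'5 hh'1).exists_le_sylow
  obtain ⟨g, hg⟩ := MulAction.exists_smul_eq Γ P₂ P₁
  have hx'P : x' ∈ (P₁ : Subgroup Γ) := hP₁ (Subgroup.mem_zpowers x')
  have hh'P : h' ∈ (P₂ : Subgroup Γ) := hP₂ (Subgroup.mem_zpowers h')
  have hyP : (MulAut.conj g) • h' ∈ (P₁ : Subgroup Γ) := by
    have h1 : (MulAut.conj g) • h' ∈ (MulAut.conj g) • (P₂ : Subgroup Γ) := Subgroup.smul_mem_pointwise_smul _ _ _ hh'P
    rw [← hg, Sylow.coe_subgroup_smul]
    exact h1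
  set y : Γ := (MulAut.conj g) • h' with hy
  have hyv : y = g * h' * g⁻¹ := rfl
  have hy5 : y ^ 5 = 1 := by
    rw [hyv, conj_pow, hh'5]
    simp
  have hy1 : y ≠ 1 := by
    intro e
    rw [hyv] at e
    apply hh'1
    exact conj_eq_one_iff.mp e
  -- the centre of the Sylow subgroup
  haveI hnt : Nontrivial (P₁ : Subgroup Γ) := ⟨⟨⟨x', hx'P⟩, 1, fun e => hx'1 (congrArg Subtype.val e)⟩⟩
  have hpP : IsPGroup 5 (P₁ : Subgroup Γ) := P₁.isPGroup'
  haveI hntc := hpP.center_nontrivial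
  obtain ⟨k, hk⟩ := IsPGroup.iff_card.mp (hpP.to_subgroup (center (P₁ : Subgroup Γ)))
  have hdvd : 5 ∣ Nat.card (center (P₁ : Subgroup Γ)) := by
    rw [hk]
    have hk0 : k ≠ 0 := by
      rintro rfl
      have := Finite.one_lt_card_iff_nontrivial.mpr hntc
      rw [hk] at this
      norm_num at this
    exact dvd_pow_self 5 hk0
  obtain ⟨c₀, hc₀⟩ := exists_prime_orderOf_dvd_card' 5 hdvd
  let c : Γ := ((c₀ : (P₁ : Subgroup Γ)) : Γ)
  have hc5 : c ^ 5 = 1 := by
    have h1 : c₀ ^ 5 = 1 := orderOf_dvd_iff_pow_eq_one.mp (by rw [hc₀])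
    exact congrArg (fun t : center (P₁ : Subgroup Γ) => (((t : (P₁ : Subgroup Γ)) : Γ))) h1
  have hc1 : c ≠ 1 := by
    intro e
    have h1 : c₀ = 1 := Subtype.ext (Subtype.ext e)
    rw [h1, orderOf_one] at hc₀
    norm_num at hc₀
  have hcomm : ∀ w ∈ (P₁ : Subgroup Γ), w * c = c * w := by
    intro w hw
    have := Subgroup.mem_center_iff.mp c₀.2 ⟨w, hw⟩
    exact congrArg Subtype.val this
  let toM : Γ → Mt := fun t => ((t : GL ι F) : Mt)
  have toM_pow : ∀ (t : Γ) (n : ℕ), toM (t ^ n) = toM t ^ n := by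
    intro t n
    rfl
  have toM_inj : Function.Injective toM := fun a b e => Subtype.ext (Units.ext e)
  have toM_mul : ∀ a b : Γ, toM (a * b) = toM a * toM b := fun a b => rfl
  have toM_one : toM 1 = 1 := rfl
  have pw : ∀ t : Γ, t ^ 5 = 1 → toM t ^ 5 = 1 := by
    intro t ht
    rw [← toM_pow, ht, toM_one]
  have ne1 : ∀ t : Γ, t ≠ 1 → toM t ≠ 1 := by
    intro t ht e
    apply ht
    apply toM_inj
    rw [e, toM_one]
  obtain ⟨k₁, hk₁⟩ := cent_five hirr (x := toM c) (c := toM x') (pw c hc5) (ne1 c hc1) (pw x' hx'5) (by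
    rw [← toM_mul, ← toM_mul, hcomm x' hx'P])
  obtain ⟨k₂, hk₂⟩ := cent_five hirr (x := toM y) (c := toM c) (pw y hy5) (ne1 y hy1) (pw c hc5) (by
    rw [← toM_mul, ← toM_mul, hcomm y hyP])
  have hfin : x' = y ^ (k₂ * k₁) := by
    apply toM_inj
    rw [hk₁, hk₂, toM_pow, pow_mul]
  refine ⟨(g : Γ), (g : Γ).2, k₂ * k₁, ?_⟩
  have h1 : x' = g * h' ^ (k₂ * k₁) * g⁻¹ := by
    rw [hfin, hyv, conj_pow]
  have h2 := congrArg (fun t : Γ => ((t : GL ι F))) h1
  simp only [Subgroup.coe_mul, Subgroup.coe_inv, Subgroup.coe_pow] at h2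
  have h3 : x = (g : GL ι F) * h ^ (k₂ * k₁) * (g : GL ι F)⁻¹ := h2
  rw [h3]
  group

end Cfsg.Agent.Lib.Ext32
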