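import Mathlib
import Cfsg.Agent.Lib.Ext32G

/-!
# `Sp₄(p)`: explicit elements
-/

set_option autoImplicit false
set_option linter.unusedSimpArgs false
set_option linter.unusedVariables false
set_option linter.unusedSectionVars false

open scoped MatrixGroups

namespace Cfsg.Agent.Lib.Ext32

open Subgroup Matrix Cfsg Cfsg.Geo Module
open Cfsg.Agent.Lib.SympForm

variable {F : Type*} [Field F]

local notation "ι" => (Fin 2 ⊕ Fin 2)
local notation "Mt" => Matrix (Fin 2 ⊕ Fin 2) (Fin 2 ⊕ Fin 2) F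

/-- Embedding of `2×2` matrices in the first hyperbolic pair. -/
def rho32 (m : Matrix (Fin 2) (Fin 2) F) : Mt :=
  fromBlocks !![m 0 0, 0; 0, 1] !![m 0 1, 0; 0, 0] !![m 1 0, 0; 0, 0] !![m 1 1, 0; 0, 1]

theorem rho32_mul (m n : Matrix (Fin 2) (Fin 2) F) : rho32 (m * n) = rho32 m * rho32 n := by
  unfold rho32
  rw [fromBlocks_multiply]
  congr 1 <;> (ext i j; fin_cases i <;> fin_cases j <;> simp [Matrix.mul_apply, Fin.sum_univ_two])

theorem rho32_one : rho32 (1 : Matrix (Fin 2) (Fin 2) F) = 1 := by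
  unfold rho32
  rw [← fromBlocks_one]
  congr 1 <;> (ext i j; fin_cases i <;> fin_cases j <;> simp)

theorem rho32_pow (m : Matrix (Fin 2) (Fin 2) F) (n : ℕ) : rho32 m ^ n = rho32 (m ^ n) := by
  induction n with
  | zero => simp [rho32_one]
  | succ n ih => rw [pow_succ, pow_succ, rho32_mul, ih]

theorem rho32_trace (m : Matrix (Fin 2) (Fin 2) F) : (rho32 m).trace = m 0 0 + m 1 1 + 2 := by
  unfold rho32
  simp [Matrix.trace, Fintype.sum_sum_type, Fin.sum_univ_two]
  ring

theorem rho32_sp (m : Matrix (Fin 2) (Fin 2) F) (hm : m 0 0 * m 1 1 - m 0 1 * m 1 0 = 1) (u v : ι → F) :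
    sympForm 2 F (rho32 m *ᵥ u) (rho32 m *ᵥ v) = sympForm 2 F u v := by
  rw [sympForm_apply, sympForm_apply]
  simp only [Fin.sum_univ_two, rho32, mulVec, dotProduct, Fintype.sum_sum_type, fromBlocks_apply₁₁, fromBlocks_apply₁₂, fromBlocks_apply₂₁, fromBlocks_apply₂₂]
  simp
  linear_combination ((u (Sum.inr 0) * v (Sum.inl 0)) - u (Sum.inl 0) * v (Sum.inr 0)) * hm

/-- The companion matrix. -/
def yy32 (t : F) : Matrix (Fin 2) (Fin 2) F := !![0, -1; 1, t]
/-- Its inverse. -/
def yy32' (t : F) : Matrix (Fin 2) (Fin 2) F := !![t, 1; -1, 0]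

theorem yy_mul (t : F) : yy32 t * yy32' t = 1 := by
  ext i j
  fin_cases i <;> fin_cases j <;> simp [yy32, yy32', Matrix.mul_apply, Fin.sum_univ_two]

theorem yy_mul' (t : F) : yy32' t * yy32 t = 1 := by
  ext i j
  fin_cases i <;> fin_cases j <;> simp [yy32, yy32', Matrix.mul_apply, Fin.sum_univ_two]

/-- The element of `GL`. -/
def xx32 (t : F) : GL ι F :=
  ⟨rho32 (yy32 t), rho32 (yy32' t), by rw [← rho32_mul, yy_mul, rho32_one], by rw [← rho32_mul, yy_mul', rho32_one]⟩

theorem xx32_sp (t : F) : xx32 t ∈ spGL 2 F := by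
  rw [Cfsg.Agent.Lib.SpInvol.spGL_iff]
  intro u v
  exact rho32_sp _ (by simp [yy32]) u v

theorem xx32_trace (t : F) : ((xx32 t : GL ι F) : Mt).trace = t + 2 := by
  show (rho32 (yy32 t)).trace = _
  rw [rho32_trace]
  simp [yy32]

theorem xx32_ns (t w : F) : ((xx32 t : GL ι F) : Mt) ≠ w • (1 : Mt) := by
  intro h
  have h1 := congrFun (congrFun h (Sum.inr 0)) (Sum.inl 0)
  have h2 : ((xx32 t : GL ι F) : Mt) (Sum.inr 0) (Sum.inl 0) = 1 := by
    show rho32 (yy32 t) (Sum.inr 0) (Sum.inl 0) = 1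
    simp [rho32, yy32]
  rw [h2] at h1
  simp at h1

theorem xx32_pow (t : F) {n : ℕ} (h : yy32 t ^ n = 1) : xx32 t ^ n = 1 := by
  apply Units.ext
  rw [Units.val_pow_eq_pow_val]
  show rho32 (yy32 t) ^ n = 1
  rw [rho32_pow, h, rho32_one]

theorem yy_cube : yy32 (-1 : F) ^ 3 = 1 := by
  ext i j
  fin_cases i <;> fin_cases j <;> simp [yy32, pow_succ, Matrix.mul_apply, Fin.sum_univ_two]

theorem yy_five {t : F} (ht : t * t + t - 1 = 0) : yy32 t ^ 5 = 1 := by
  have h2 : yy32 t * yy32 t = t • yy32 t - 1 := by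
    ext i j
    fin_cases i <;> fin_cases j <;> simp [yy32, Matrix.mul_apply, Fin.sum_univ_two] <;> ring
  have ht2 : t * t = 1 - t := by linear_combination ht
  have h3 : yy32 t ^ 5 = (t * t * t * t - 3 * (t * t) + 1) • yy32 t + (-(t * t * t) + 2 * t) • 1 := by
    have e : yy32 t ^ 5 = yy32 t * (yy32 t * yy32 t) * (yy32 t * yy32 t) := by
      simp only [pow_succ, pow_zero, one_mul, mul_assoc]
    rw [e, h2]
    simp only [mul_sub, sub_mul, mul_one, one_mul, smul_mul_assoc, mul_smul_comm, h2, smul_sub, sub_smul, add_smul, smul_smul]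
    ext i j
    fin_cases i <;> fin_cases j <;> simp [yy32] <;> ring
  have c1 : t * t * t * t - 3 * (t * t) + 1 = 0 := by
    have h4 : t * t * t * t = (t * t) * (t * t) := by ring
    rw [h4, ht2]
    linear_combination (1 : F) * ht
  have c2 : -(t * t * t) + 2 * t = 1 := by
    have h4 : t * t * t = (t * t) * t := by ring
    rw [h4, ht2]
    linear_combination (1 : F) * ht
  rw [h3, c1, c2, zero_smul, zero_add, one_smul]

/-! ### Transvections -/

/-- The transvection. -/
def tt32 (F : Type*) [Field F] : GL ι F :=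
  ⟨sympTransvection 2 (Pi.single (Sum.inl 0) 1) 1, sympTransvection 2 (Pi.single (Sum.inl 0) 1) (-1),
    by
      rw [sympTransvection_add, add_neg_cancel]
      simp [sympTransvection],
    by
      rw [sympTransvection_add, neg_add_cancel]
      simp [sympTransvection]⟩

theorem tt32_sp : tt32 F ∈ spGL 2 F := by
  rw [Cfsg.Agent.Lib.SpInvol.spGL_iff]
  intro u v
  exact (mem_symplecticGroup_iff_preserves _).mp (sympTransvection_mem _ _) u v

theorem tt32_val : ((tt32 F : GL ι F) : Mt) = sympTransvection 2 (Pi.single (Sum.inl 0) 1) 1 := rfl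

theorem tt32_pow {p : ℕ} [CharP F p] : tt32 F ^ p = 1 := by
  apply Units.ext
  rw [Units.val_pow_eq_pow_val, tt32_val]
  have h : ∀ n : ℕ, (sympTransvection 2 (Pi.single (Sum.inl 0) 1 : ι → F) 1) ^ n = sympTransvection 2 (Pi.single (Sum.inl 0) 1) (n : F) := by
    intro n
    induction n with
    | zero => simp [sympTransvection]
    | succ n ih =>
      rw [pow_succ, ih, sympTransvection_add]
      push_cast
      rfl
  rw [h, CharP.cast_eq_zero]
  simp [sympTransvection]

theorem tt32_apply (ξ : ι → F) : ((tt32 F : GL ι F) : Mt) *ᵥ ξ = ξ + (sympForm 2 F ξ (Pi.single (Sum.inl 0) 1)) • (Pi.single (Sum.inl 0) 1) := by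
  rw [tt32_val, mulVec_sympTransvection, one_mul]

theorem tt32_ns (w : F) : ((tt32 F : GL ι F) : Mt) ≠ w • (1 : Mt) := by
  intro h
  have h1 := tt32_apply (F := F) (Pi.single (Sum.inr 0) 1)
  rw [h, smul_mulVec, one_mulVec] at h1
  have h2 : sympForm 2 F (Pi.single (Sum.inr 0) 1) (Pi.single (Sum.inl 0) 1) = 1 := by
    rw [sympForm_apply]
    simp [Fin.sum_univ_two]
  rw [h2, one_smul] at h1
  have h3 := congrFun h1 (Sum.inl 0)
  simp at h3

end Cfsg.Agent.Lib.Ext32
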