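import Mathlib
import Cfsg.Agent.Lib.Ext32H

/-!
# `Sp₄(p)` and `2^{1+4}_-`: the non-existence and existence statements
-/

set_option autoImplicit false
set_option linter.unusedSimpArgs false
set_option linter.unusedVariables false
set_option linter.unusedSectionVars false

open scoped MatrixGroups

namespace Cfsg.Agent.Lib.Ext32

open Subgroup Matrix Cfsg Cfsg.Geo Module
open Cfsg.Agent.Lib.SympForm

variable {F : Type*} [Field F]

local notation "ι" => (Fin 2 ⊕ Fin 2)
local notation "Mt" => Matrix (Fin 2 ⊕ Fin 2) (Fin 2 ⊕ Fin 2) F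

/-- The rank of a nonscalar involution in `Sp₄`. -/
theorem rank_two (h2 : (2 : F) ≠ 0) {x : GL ι F} (hx : x ∈ spGL 2 F) (hxx : (x : Mt) * (x : Mt) = 1)
    (hns : ∀ w : F, (x : Mt) ≠ w • (1 : Mt)) : ((x : Mt) - 1).rank = 2 := by
  obtain ⟨t, ht⟩ := Cfsg.Agent.Lib.SpInvol.rank_even h2 x hx hxx
  have hle : ((x : Mt) - 1).rank ≤ 4 := by
    have := Matrix.rank_le_card_width ((x : Mt) - 1)
    simpa using this
  have ht2 : t = 0 ∨ t = 1 ∨ t = 2 := by omega
  rcases ht2 with rfl | rfl | rfl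
  · exfalso
    have h0 : ((x : Mt) - 1).mulVecLin = 0 := by
      have h1 : Module.finrank F (LinearMap.range ((x : Mt) - 1).mulVecLin) = 0 := by
        have : ((x : Mt) - 1).rank = Module.finrank F (LinearMap.range ((x : Mt) - 1).mulVecLin) := rfl
        omega
      have h2 := Submodule.finrank_eq_zero.mp h1
      exact LinearMap.range_eq_bot.mp h2
    apply hns 1
    rw [one_smul]
    apply Matrix.mulVec_injective
    funext v
    have h3 := LinearMap.congr_fun h0 v
    simp only [mulVecLin_apply, LinearMap.zero_apply, sub_mulVec, one_mulVec, sub_eq_zero] at h3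
    rw [h3, one_mulVec]
  · simpa using ht
  · exfalso
    have hsurj : Function.Surjective ((x : Mt) - 1).mulVecLin := by
      have h1 : Module.finrank F (LinearMap.range ((x : Mt) - 1).mulVecLin) = 4 := by
        have : ((x : Mt) - 1).rank = Module.finrank F (LinearMap.range ((x : Mt) - 1).mulVecLin) := rfl
        omega
      rw [← LinearMap.range_eq_top]
      apply Submodule.eq_top_of_finrank_eq
      rw [h1]
      simp
    have hinj := LinearMap.injective_iff_surjective.mpr hsurj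
    apply hns (-1)
    apply Matrix.mulVec_injective
    funext v
    have h1 : ((x : Mt) - 1).mulVecLin (((x : Mt) + 1) *ᵥ v) = 0 := by
      rw [mulVecLin_apply, mulVec_mulVec]
      have : ((x : Mt) - 1) * ((x : Mt) + 1) = 0 := by
        rw [sub_mul, mul_add, hxx]
        noncomm_ring
      rw [this, zero_mulVec]
    have h3 : ((x : Mt) + 1) *ᵥ v = 0 := hinj (by rw [h1, map_zero])
    rw [add_mulVec, one_mulVec] at h3
    rw [eq_neg_of_add_eq_zero_left h3, smul_mulVec, one_mulVec, neg_one_smul]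

section

variable {R : Subgroup (GL ι F)} [Fintype F]

variable {z a b c d : R} (D : ES32 z a b c d) (hz : ((z : GL ι F) : Matrix (Fin 2 ⊕ Fin 2) (Fin 2 ⊕ Fin 2) F) = -1)
include D hz

/-- Elements fixing a hyperplane pointwise cannot normalize `R`. -/
theorem no_transv (hE : ∀ A : Subgroup R, IsMulCommutative A → (∀ x ∈ A, x * x = 1) → Nat.card A < 8)
    (hRi : ActsAbsolutelyIrreducibly (matrixSet R)) (hR5 : Nat.card R = 32) (h2 : (2 : F) ≠ 0)
    (y : GL ι F) (hy : y ∈ subgroupNormalizer R) {n : ℕ} (hn : Odd n) (hyn : y ^ n = 1)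
    (φ : (ι → F) →ₗ[F] F) (hφ : ∀ ξ, φ ξ = 0 → (y : Mt) *ᵥ ξ = ξ) (hns : ∀ w : F, (y : Mt) ≠ w • (1 : Mt)) : False := by
  classical
  haveI : Finite R := Nat.finite_of_card_ne_zero (by rw [hR5]; norm_num)
  set σ := sigX y hy with hσ
  have hσn : σ ^ n = 1 := sigX_pow y hy hyn
  have key : ∀ v : R, (σ v * v⁻¹) * (σ v * v⁻¹) = 1 ∧ σ v * v⁻¹ ≠ z := by
    intro v
    let vinv : Mt := (((v : GL ι F)⁻¹ : GL ι F) : Mt)
    let L : (ι → F) →ₗ[F] F × F := φ.prod (φ.comp vinv.mulVecLin)
    have hker : LinearMap.ker L ≠ ⊥ := by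
      apply LinearMap.ker_ne_bot_of_finrank_lt
      simp
    obtain ⟨ξ, hξ, hξ0⟩ := Submodule.exists_mem_ne_zero_of_ne_bot hker
    have hL : L ξ = 0 := hξ
    have h1 : φ ξ = 0 := congrArg Prod.fst hL
    have h3 : φ (vinv *ᵥ ξ) = 0 := congrArg Prod.snd hL
    have hyξ := hφ ξ h1
    have hyη := hφ _ h3
    have hyinv : (((y⁻¹ : GL ι F)) : Mt) *ᵥ (vinv *ᵥ ξ) = vinv *ᵥ ξ := by
      conv_lhs => rw [← hyη]
      rw [mulVec_mulVec, ← Units.val_mul, inv_mul_cancel, Units.val_one, one_mulVec]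
    have hw : (((σ v * v⁻¹ : R) : GL ι F) : Mt) *ᵥ ξ = ξ := by
      have e1 : (((σ v * v⁻¹ : R) : GL ι F)) = y * (v : GL ι F) * y⁻¹ * (v : GL ι F)⁻¹ := by
        rw [Subgroup.coe_mul, Subgroup.coe_inv, sigX_coe]
      rw [e1]
      simp only [Units.val_mul]
      rw [← mulVec_mulVec, ← mulVec_mulVec, ← mulVec_mulVec]
      show (y : Mt) *ᵥ (((v : GL ι F) : Mt) *ᵥ (((y⁻¹ : GL ι F) : Mt) *ᵥ (vinv *ᵥ ξ))) = ξ
      have e2 : ((v : GL ι F) : Mt) * vinv = 1 := by
        show ((v : GL ι F) : Mt) * (((v : GL ι F)⁻¹ : GL ι F) : Mt) = 1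
        rw [← Units.val_mul, mul_inv_cancel, Units.val_one]
      have e3 : ((v : GL ι F) : Mt) *ᵥ (vinv *ᵥ ξ) = ξ := by
        rw [mulVec_mulVec, e2, one_mulVec]
      rw [hyinv, e3, hyξ]
    have hzξ : ∀ η : ι → F, η = -η → η = 0 := by
      intro η h
      have h4 : (2 : F) • η = 0 := by
        rw [two_smul]
        nth_rw 1 [h]
        simp
      exact (smul_eq_zero.mp h4).resolve_left h2
    constructor
    · rcases D.sq (σ v * v⁻¹) with h | h
      · exact h
      · exfalso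
        apply hξ0
        apply hzξ
        have h4 : (((σ v * v⁻¹ : R) : GL ι F) : Mt) * (((σ v * v⁻¹ : R) : GL ι F) : Mt) = -1 := by
          rw [← hz, ← h]
          rfl
        have h5 : ((((σ v * v⁻¹ : R) : GL ι F) : Mt) * (((σ v * v⁻¹ : R) : GL ι F) : Mt)) *ᵥ ξ = (-1 : Mt) *ᵥ ξ := by rw [h4]
        rw [← mulVec_mulVec, hw, hw, neg_mulVec, one_mulVec] at h5
        exact h5
    · intro h
      apply hξ0
      apply hzξ
      rw [h, hz, neg_mulVec, one_mulVec] at hw
      exact hw.symm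
  have hfix := D.aut_trivial hE σ hn hσn key
  obtain ⟨w, hw⟩ := scalar_of_comm R hRi (A := (y : Mt)) (by
    intro g
    have h6 : (y : GL ι F) * g * y⁻¹ = g := congrArg Subtype.val (hfix g)
    have h7 : (y : GL ι F) * g = g * y := by
      calc (y : GL ι F) * g = (y * g * y⁻¹) * y := by group
        _ = g * y := by rw [h6]
    exact congrArg Units.val h7)
  exact hns w hw

end

end Cfsg.Agent.Lib.Ext32
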