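import Mathlib

/-!
# Automorphisms of nonabelian groups of order `p ^ 3` and exponent `p`
acting trivially on the centre and with few fixed points: their order divides `p - 1` or `p + 1`.
-/

set_option autoImplicit false
set_option linter.unusedSectionVars false
set_option linter.unusedVariables false
set_option linter.style.haveILetI false
set_option linter.unusedSimpArgs false

namespace Cfsg.Agent.Lib.ExtraAut

open Subgroup

open scoped commutatorElement

/-- The key identity for matrices of determinant one. -/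
theorem matrix_identity {p : ℕ} [hp : Fact p.Prime] (A : Matrix (Fin 2) (Fin 2) (ZMod p)) (hdet : A.det = 1) :
    (A ^ (p - 1) - 1) * (A ^ (p + 1) - 1) = 0 := by
  set B : Matrix (Fin 2) (Fin 2) (ZMod p) := A.trace • 1 - A with hB
  have hAB : A * B = 1 := by
    rw [Matrix.det_fin_two] at hdet
    ext i j
    fin_cases i <;> fin_cases j <;>
      simp [hB, Matrix.mul_apply, Fin.sum_univ_two, Matrix.trace_fin_two, Matrix.sub_apply, Matrix.smul_apply] <;>
      first | linear_combination hdet | ring
  have hc : Commute A B := by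
    rw [hB]
    exact (Commute.sub_right ((Commute.one_right A).smul_right _) (Commute.refl A))
  have hsum : A + B = A.trace • 1 := by rw [hB]; abel
  obtain ⟨n, hn⟩ : ∃ n, p = n + 1 := ⟨p - 1, (Nat.succ_pred_eq_of_pos hp.out.pos).symm⟩
  have hfrob : A ^ p + B ^ p = A + B := by
    rw [← add_pow_char_of_commute p hc, hsum]
    rw [smul_pow, one_pow, ZMod.pow_card]
  have e1 : p - 1 = n := by omega
  have e2 : p + 1 = n + 2 := by omega
  rw [e1, e2]
  have hAp : A ^ p = A ^ (n + 1) := by rw [← hn]
  have hBp : B ^ p = B ^ (n + 1) := by rw [← hn]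
  rw [hAp, hBp] at hfrob
  have h1 := congrArg (fun X => A ^ (n + 1) * X) hfrob
  simp only [mul_add] at h1
  have h2 : A ^ (n + 1) * B ^ (n + 1) = 1 := by
    rw [← hc.mul_pow, hAB, one_pow]
  have h3 : A ^ (n + 1) * B = A ^ n := by
    rw [pow_succ, mul_assoc, hAB, mul_one]
  have h4 : A ^ (n + 1) * A = A ^ (n + 2) := (pow_succ A (n + 1)).symm
  have h5 : A ^ (n + 1) * A ^ (n + 1) = A ^ n * A ^ (n + 2) := by
    rw [← pow_add, ← pow_add]; congr 1; omega
  rw [h2, h3, h4, h5] at h1
  have h6 : (A ^ n - 1) * (A ^ (n + 2) - 1) = (A ^ n * A ^ (n + 2) + 1) - (A ^ (n + 2) + A ^ n) := by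
    noncomm_ring
  rw [h6, h1, sub_self]

section

variable {P : Type*} [Group P] [Finite P] {p : ℕ} [hp : Fact p.Prime]

theorem comm_of_card {X : Type*} [Group X] [Finite X] {k : ℕ} (h : Nat.card X = p ^ k) (hk : k ≤ 2) :
    ∀ a b : X, a * b = b * a := by
  interval_cases k
  · intro a b
    have : Subsingleton X := (Nat.card_eq_one_iff_unique.mp (by simpa using h)).1
    exact Subsingleton.elim _ _
  · have h1 : Nat.card X = p := by simpa using h
    haveI : IsCyclic X := isCyclic_of_prime_card h1
    intro a b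
    letI := IsCyclic.commGroup (α := X)
    exact mul_comm a b
  · intro a b
    exact (IsPGroup.isMulCommutative_of_card_eq_prime_sq h).is_comm.comm a b

/-- Commutators are central in a nonabelian group of order `p ^ 3`. -/
theorem commutator_central (hcard : Nat.card P = p ^ 3) (x y : P) : ⁅x, y⁆ ∈ center P := by
  have hP : IsPGroup p P := IsPGroup.of_card hcard
  haveI : Nontrivial P := by
    rw [← Finite.one_lt_card_iff_nontrivial, hcard]
    exact Nat.one_lt_pow (by norm_num) hp.out.one_lt
  have hZ := hP.center_nontrivial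
  have hV : IsPGroup p (P ⧸ center P) := hP.to_quotient _
  obtain ⟨k, hk⟩ := IsPGroup.iff_card.mp hV
  have h1 : Nat.card (center P) * Nat.card (P ⧸ center P) = p ^ 3 := by
    rw [← hcard]; exact (Subgroup.card_mul_index _)
  have h2 : 1 < Nat.card (center P) := Finite.one_lt_card_iff_nontrivial.mpr hZ
  have hk2 : k ≤ 2 := by
    by_contra hkk
    have h3 : 3 ≤ k := by omega
    have h4 : p ^ 3 ≤ p ^ k := Nat.pow_le_pow_right hp.out.pos h3
    rw [hk] at h1
    have h5 : 2 * p ^ k ≤ Nat.card (center P) * p ^ k := Nat.mul_le_mul_right _ h2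
    have h6 : 0 < p ^ k := pow_pos hp.out.pos k
    omega
  have hc := comm_of_card hk hk2
  rw [← QuotientGroup.eq_one_iff]
  show ((x * y * x⁻¹ * y⁻¹ : P) : P ⧸ center P) = 1
  have h7 : ((x * y : P) : P ⧸ center P) = ((y * x : P) : P ⧸ center P) := by
    rw [QuotientGroup.mk_mul, QuotientGroup.mk_mul]; exact hc _ _
  rw [QuotientGroup.eq] at h7
  rw [QuotientGroup.eq_one_iff]
  have h8 := Subgroup.Normal.conj_mem (inferInstance : (center P).Normal) _ h7 (y * x)
  have e : (y * x * ((x * y)⁻¹ * (y * x)) * (y * x)⁻¹)⁻¹ = x * y * x⁻¹ * y⁻¹ := by group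
  have h9 := inv_mem h8
  rwa [e] at h9

theorem comm_mul_left (hc : ∀ x y : P, ⁅x, y⁆ ∈ center P) (x y w : P) : ⁅x * y, w⁆ = ⁅x, w⁆ * ⁅y, w⁆ := by
  have h1 : ⁅x * y, w⁆ = x * ⁅y, w⁆ * x⁻¹ * ⁅x, w⁆ := by
    simp only [commutatorElement_def]; group
  have h2 : x * ⁅y, w⁆ * x⁻¹ = ⁅y, w⁆ := by
    have := (Subgroup.mem_center_iff.mp (hc y w)) x
    rw [this]; group
  rw [h1, h2]
  exact (Subgroup.mem_center_iff.mp (hc x w)) _

theorem comm_mul_right (hc : ∀ x y : P, ⁅x, y⁆ ∈ center P) (x y w : P) : ⁅w, x * y⁆ = ⁅w, x⁆ * ⁅w, y⁆ := by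
  have h1 : ⁅w, x * y⁆ = ⁅w, x⁆ * (x * ⁅w, y⁆ * x⁻¹) := by
    simp only [commutatorElement_def]; group
  have h2 : x * ⁅w, y⁆ * x⁻¹ = ⁅w, y⁆ := by
    have := (Subgroup.mem_center_iff.mp (hc w y)) x
    rw [this]; group
  rw [h1, h2]

/-- The centre of a nonabelian group of order `p ^ 3` has order `p`. -/
theorem card_center (hcard : Nat.card P = p ^ 3) {u v : P} (huv : u * v ≠ v * u) :
    Nat.card (center P) = p := by
  have hP : IsPGroup p P := IsPGroup.of_card hcard
  haveI : Nontrivial P := ⟨⟨u, v, fun h => huv (by rw [h])⟩⟩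
  have hV : IsPGroup p (P ⧸ center P) := hP.to_quotient _
  obtain ⟨k, hk⟩ := IsPGroup.iff_card.mp hV
  obtain ⟨l, hl⟩ := IsPGroup.iff_card.mp (hP.to_subgroup (center P))
  have h1 : Nat.card (center P) * Nat.card (P ⧸ center P) = p ^ 3 := by
    rw [← hcard]; exact (Subgroup.card_mul_index _)
  rw [hk, hl, ← pow_add] at h1
  have h2 : l + k = 3 := Nat.pow_right_injective hp.out.two_le h1
  have hl0 : l ≠ 0 := by
    rintro rfl
    have h3 := (hP.center_nontrivial)
    rw [pow_zero] at hl
    rw [← Finite.one_lt_card_iff_nontrivial, hl] at h3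
    exact lt_irrefl _ h3
  have hk2 : 2 ≤ k := by
    by_contra hk2
    have hV' : IsCyclic (P ⧸ center P) := by
      have hk3 : k = 0 ∨ k = 1 := by omega
      rcases hk3 with rfl | rfl
      · rw [pow_zero] at hk
        have : Subsingleton (P ⧸ center P) := (Nat.card_eq_one_iff_unique.mp hk).1
        infer_instance
      · rw [pow_one] at hk
        exact isCyclic_of_prime_card hk
    apply huv
    have h9 := (QuotientGroup.mk' (center P)).isMulCommutative_of_isCyclic_of_ker_le_center
      (by rw [QuotientGroup.ker_mk'])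
    exact h9.is_comm.comm u v
  have hl1 : l = 1 := by omega
  rw [hl, hl1, pow_one]

/-- Automorphisms of a nonabelian group of order `p ^ 3` and exponent `p`, centralizing its centre. -/
theorem aut_extra (hp2 : p ≠ 2) (hcard : Nat.card P = p ^ 3) (hexp : ∀ x : P, x ^ p = 1)
    (hna : ¬ ∀ a b : P, a * b = b * a) (φ : MulAut P) (hφZ : ∀ z ∈ center P, φ z = z)
    (hord : ¬ p ∣ orderOf φ) (hfree : ∀ n : ℕ, φ ^ n ≠ 1 → ∀ x, (φ ^ n) x = x → x ∈ center P) :
    φ ^ (p - 1) = 1 ∨ φ ^ (p + 1) = 1 := by
  classical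
  have hP : IsPGroup p P := IsPGroup.of_card hcard
  have hcen := commutator_central hcard
  push Not at hna
  obtain ⟨u, v, huv⟩ := hna
  set z₀ : P := ⁅u, v⁆ with hz₀
  have hz₁ : z₀ ≠ 1 := by
    intro h
    exact huv (commutatorElement_eq_one_iff_mul_comm.mp h)
  have hord₀ : orderOf z₀ = p := orderOf_eq_prime (hexp z₀) hz₁
  haveI : Fact (1 < p) := ⟨hp.out.one_lt⟩
  have hz₀Z : z₀ ∈ center P := hcen u v
  -- the order of the centre
  have hZp : Nat.card (center P) = p := by
    haveI : Nontrivial P := ⟨⟨u, v, fun h => huv (by rw [h])⟩⟩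
    have hV : IsPGroup p (P ⧸ center P) := hP.to_quotient _
    obtain ⟨k, hk⟩ := IsPGroup.iff_card.mp hV
    obtain ⟨l, hl⟩ := IsPGroup.iff_card.mp (hP.to_subgroup (center P))
    have h1 : Nat.card (center P) * Nat.card (P ⧸ center P) = p ^ 3 := by
      rw [← hcard]; exact (Subgroup.card_mul_index _)
    rw [hk, hl, ← pow_add] at h1
    have h2 : l + k = 3 := Nat.pow_right_injective hp.out.two_le h1
    have hl0 : l ≠ 0 := by
      rintro rfl
      have h3 := (hP.center_nontrivial)
      rw [pow_zero] at hl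
      rw [← Finite.one_lt_card_iff_nontrivial, hl] at h3
      exact lt_irrefl _ h3
    have hk2 : 2 ≤ k := by
      by_contra hk2
      have hV' : IsCyclic (P ⧸ center P) := by
        have hk3 : k = 0 ∨ k = 1 := by omega
        rcases hk3 with rfl | rfl
        · rw [pow_zero] at hk
          have : Subsingleton (P ⧸ center P) := (Nat.card_eq_one_iff_unique.mp hk).1
          infer_instance
        · rw [pow_one] at hk
          exact isCyclic_of_prime_card hk
      apply huv
      have h9 := (QuotientGroup.mk' (center P)).isMulCommutative_of_isCyclic_of_ker_le_center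
        (by rw [QuotientGroup.ker_mk'])
      exact h9.is_comm.comm u v
    have hl1 : l = 1 := by omega
    rw [hl, hl1, pow_one]
  have hZz : center P = zpowers z₀ := by
    symm
    apply Subgroup.eq_of_le_of_card_ge
    · rw [zpowers_le]; exact hz₀Z
    · rw [Nat.card_zpowers, hord₀, hZp]
  set pw : ZMod p → P := fun i => z₀ ^ i.val with hpw
  have hpw_add : ∀ i j, pw (i + j) = pw i * pw j := by
    intro i j
    show z₀ ^ (i + j).val = z₀ ^ i.val * z₀ ^ j.val
    rw [ZMod.val_add, ← pow_add]
    have := pow_mod_orderOf z₀ (i.val + j.val)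
    rwa [hord₀] at this
  have hpw_zero : pw 0 = 1 := by
    show z₀ ^ (0 : ZMod p).val = 1
    rw [ZMod.val_zero, pow_zero]
  have hpw_one : pw 1 = z₀ := by
    show z₀ ^ (1 : ZMod p).val = z₀
    rw [ZMod.val_one, pow_one]
  have hpw_inj : Function.Injective pw := by
    intro i j hij
    have h1 : z₀ ^ i.val = z₀ ^ j.val := hij
    rw [pow_inj_mod, hord₀, Nat.mod_eq_of_lt (ZMod.val_lt i), Nat.mod_eq_of_lt (ZMod.val_lt j)] at h1
    exact ZMod.val_injective p h1
  have hpw_range : ∀ w ∈ center P, ∃ i, pw i = w := by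
    intro w hw
    rw [hZz] at hw
    obtain ⟨n, rfl⟩ := (mem_powers_iff_mem_zpowers).mpr hw
    refine ⟨(n : ZMod p), ?_⟩
    show z₀ ^ (n : ZMod p).val = z₀ ^ n
    rw [ZMod.val_natCast]
    have := pow_mod_orderOf z₀ n
    rwa [hord₀] at this
  set ℓ : P → ZMod p := Function.invFun pw with hℓ
  have hℓ1 : ∀ i, ℓ (pw i) = i := Function.leftInverse_invFun hpw_inj
  have hℓ2 : ∀ w ∈ center P, pw (ℓ w) = w := by
    intro w hw
    obtain ⟨i, rfl⟩ := hpw_range w hw
    rw [hℓ1]
  set B : P → P → ZMod p := fun x y => ℓ ⁅x, y⁆ with hB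
  have hBpw : ∀ x y, pw (B x y) = ⁅x, y⁆ := fun x y => hℓ2 _ (hcen x y)
  have hB_left : ∀ x y w, B (x * y) w = B x w + B y w := by
    intro x y w
    apply hpw_inj
    rw [hpw_add, hBpw, hBpw, hBpw]
    exact comm_mul_left hcen x y w
  have hB_right : ∀ x y w, B w (x * y) = B w x + B w y := by
    intro x y w
    apply hpw_inj
    rw [hpw_add, hBpw, hBpw, hBpw]
    exact comm_mul_right hcen x y w
  have hB_self : ∀ x, B x x = 0 := by
    intro x
    apply hpw_inj
    rw [hBpw, hpw_zero, commutatorElement_self]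
  have hB_anti : ∀ x y, B y x = - B x y := by
    intro x y
    have h1 := hB_self (x * y)
    rw [hB_left, hB_right, hB_right, hB_self, hB_self] at h1
    linear_combination h1
  have hB_one_left : ∀ w, B 1 w = 0 := by
    intro w
    have h1 := hB_left 1 1 w
    rw [one_mul] at h1
    linear_combination -h1
  have hB_one_right : ∀ w, B w 1 = 0 := by
    intro w
    have h1 := hB_right 1 1 w
    rw [one_mul] at h1
    linear_combination -h1
  have hB_pow_left : ∀ (n : ℕ) x w, B (x ^ n) w = (n : ZMod p) * B x w := by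
    intro n x w
    induction n with
    | zero => simp [hB_one_left]
    | succ n ih => rw [pow_succ, hB_left, ih]; push_cast; ring
  have hB_pow_right : ∀ (n : ℕ) x w, B w (x ^ n) = (n : ZMod p) * B w x := by
    intro n x w
    induction n with
    | zero => simp [hB_one_right]
    | succ n ih => rw [pow_succ, hB_right, ih]; push_cast; ring
  have hB_zero : ∀ x y, B x y = 0 → x * y = y * x := by
    intro x y h
    have h1 := hBpw x y
    rw [h, hpw_zero] at h1
    exact commutatorElement_eq_one_iff_mul_comm.mp h1.symm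
  have hB_cen : ∀ c ∈ center P, ∀ y, B c y = 0 := by
    intro c hc y
    apply hpw_inj
    rw [hBpw, hpw_zero]
    exact commutatorElement_eq_one_iff_mul_comm.mpr ((mem_center_iff.mp hc y).symm)
  have hB_uv : B u v = 1 := by
    show ℓ z₀ = 1
    rw [← hpw_one, hℓ1]
  -- `u` and `v` generate
  have hgen : ∀ c, c * u = u * c → c * v = v * c → c ∈ center P := by
    intro c hcu hcv
    have hS : closure ({u, v} : Set P) = ⊤ := by
      set S := closure ({u, v} : Set P) with hSd
      have huS : u ∈ S := subset_closure (by simp)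
      have hvS : v ∈ S := subset_closure (by simp)
      obtain ⟨k, hk⟩ := IsPGroup.iff_card.mp (hP.to_subgroup S)
      have hd : p ^ k ∣ p ^ 3 := by
        rw [← hk, ← hcard]; exact Subgroup.card_subgroup_dvd_card S
      have hk3 : k ≤ 3 := (Nat.pow_dvd_pow_iff_le_right hp.out.one_lt).mp hd
      by_cases hk4 : k = 3
      · apply Subgroup.eq_top_of_card_eq
        rw [hk, hk4, hcard]
      · exfalso
        have h1 := comm_of_card hk (by omega) (⟨u, huS⟩ : S) ⟨v, hvS⟩
        exact huv (congrArg Subtype.val h1)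
    have hle : closure ({u, v} : Set P) ≤ centralizer ({c} : Set P) := by
      rw [closure_le]
      intro g hg
      simp only [Set.mem_insert_iff, Set.mem_singleton_iff] at hg
      rw [SetLike.mem_coe, mem_centralizer_singleton_iff]
      rcases hg with rfl | rfl
      · exact hcu.symm
      · exact hcv.symm
    rw [hS] at hle
    rw [mem_center_iff]
    intro g
    have h1 := hle (mem_top g)
    rw [mem_centralizer_singleton_iff] at h1
    exact h1
  set I : P → ZMod p := fun w => B w v with hI
  set J : P → ZMod p := fun w => B u w with hJ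
  have hIu : I u = 1 := hB_uv
  have hIv : I v = 0 := hB_self v
  have hJu : J u = 0 := hB_self u
  have hJv : J v = 1 := hB_uv
  have hdecomp : ∀ w, ∃ c ∈ center P, w = u ^ (I w).val * v ^ (J w).val * c := by
    intro w
    set y := u ^ (I w).val * v ^ (J w).val with hy
    have hIy : I y = I w := by
      show B (u ^ (I w).val * v ^ (J w).val) v = I w
      rw [hB_left, hB_pow_left, hB_pow_left]
      show ((I w).val : ZMod p) * I u + ((J w).val : ZMod p) * I v = I w
      rw [hIu, hIv, mul_one, mul_zero, add_zero, ZMod.natCast_zmod_val]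
    have hJy : J y = J w := by
      show B u (u ^ (I w).val * v ^ (J w).val) = J w
      rw [hB_right, hB_pow_right, hB_pow_right]
      show ((I w).val : ZMod p) * J u + ((J w).val : ZMod p) * J v = J w
      rw [hJu, hJv, mul_one, mul_zero, zero_add, ZMod.natCast_zmod_val]
    refine ⟨y⁻¹ * w, ?_, by group⟩
    have e : w = y * (y⁻¹ * w) := by group
    have h1 : I (y⁻¹ * w) = 0 := by
      have h2 : I w = I y + I (y⁻¹ * w) := by
        conv_lhs => rw [e]
        exact hB_left _ _ _
      rw [hIy] at h2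
      linear_combination -h2
    have h2 : J (y⁻¹ * w) = 0 := by
      have h3 : J w = J y + J (y⁻¹ * w) := by
        conv_lhs => rw [e]
        exact hB_right _ _ _
      rw [hJy] at h3
      linear_combination -h3
    exact hgen _ (hB_zero _ _ h2).symm (hB_zero _ _ h1)
  -- the matrix of `φ`
  have hI_left : ∀ x y, I (x * y) = I x + I y := fun x y => hB_left x y v
  have hJ_right : ∀ x y, J (x * y) = J x + J y := fun x y => hB_right x y u
  have hI_pow : ∀ (n : ℕ) x, I (x ^ n) = (n : ZMod p) * I x := fun n x => hB_pow_left n x v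
  have hJ_pow : ∀ (n : ℕ) x, J (x ^ n) = (n : ZMod p) * J x := fun n x => hB_pow_right n x u
  have hI_cen : ∀ c ∈ center P, I c = 0 := fun c hc => hB_cen c hc v
  have hJ_cen : ∀ c ∈ center P, J c = 0 := by
    intro c hc
    show B u c = 0
    rw [hB_anti c u, hB_cen c hc, neg_zero]
  have hφ_eq : ∀ w, I (φ w) = I (φ u) * I w + I (φ v) * J w ∧ J (φ w) = J (φ u) * I w + J (φ v) * J w := by
    intro w
    obtain ⟨c, hc, hw⟩ := hdecomp w
    have hφw : φ w = (φ u) ^ (I w).val * (φ v) ^ (J w).val * c := by
      conv_lhs => rw [hw]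
      rw [map_mul, map_mul, map_pow, map_pow, hφZ c hc]
    constructor
    · rw [hφw, hI_left, hI_left, hI_cen c hc, hI_pow, hI_pow, ZMod.natCast_zmod_val, ZMod.natCast_zmod_val]
      ring
    · rw [hφw, hJ_right, hJ_right, hJ_cen c hc, hJ_pow, hJ_pow, ZMod.natCast_zmod_val, ZMod.natCast_zmod_val]
      ring
  set A : Matrix (Fin 2) (Fin 2) (ZMod p) := !![I (φ u), I (φ v); J (φ u), J (φ v)] with hA
  set Co : P → (Fin 2 → ZMod p) := fun w => ![I w, J w] with hCo
  have hCoφ : ∀ w, Co (φ w) = A.mulVec (Co w) := by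
    intro w
    ext i
    fin_cases i
    · simp [hCo, hA, Matrix.mulVec, dotProduct, Fin.sum_univ_two, (hφ_eq w).1]
    · simp [hCo, hA, Matrix.mulVec, dotProduct, Fin.sum_univ_two, (hφ_eq w).2]
  have hCopow : ∀ (n : ℕ) w, Co ((φ ^ n) w) = (A ^ n).mulVec (Co w) := by
    intro n w
    induction n with
    | zero => simp
    | succ n ih =>
      rw [pow_succ', MulAut.mul_apply, hCoφ, ih, Matrix.mulVec_mulVec, pow_succ']
  -- the form in coordinates
  have hform : ∀ x y, B x y = I x * J y - J x * I y := by
    intro x y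
    obtain ⟨c, hc, hx⟩ := hdecomp x
    conv_lhs => rw [hx]
    rw [hB_left, hB_left, hB_cen c hc, hB_pow_left, hB_pow_left, ZMod.natCast_zmod_val, ZMod.natCast_zmod_val,
      hB_anti y v]
    ring
  have hdet : A.det = 1 := by
    rw [Matrix.det_fin_two]
    have h1 : B (φ u) (φ v) = 1 := by
      show ℓ ⁅φ u, φ v⁆ = 1
      rw [← map_commutatorElement, ← hz₀, hφZ z₀ hz₀Z, ← hpw_one, hℓ1]
    rw [hform] at h1
    simp only [hA, Matrix.of_apply, Matrix.cons_val', Matrix.cons_val_zero, Matrix.cons_val_one, Matrix.empty_val',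
      Matrix.cons_val_fin_one, Matrix.head_cons, Matrix.head_fin_const]
    linear_combination h1
  have hid := matrix_identity A hdet
  -- central translation
  have hfix_cen : ∀ (n : ℕ), ∀ z ∈ center P, (φ ^ n) z = z := by
    intro n z hz
    induction n with
    | zero => simp
    | succ n ih => rw [pow_succ', MulAut.mul_apply, ih, hφZ z hz]
  have hker : ∀ c, Co c = 0 → c ∈ center P := by
    intro c hc
    have h0 : I c = 0 := congrFun hc 0
    have h1 : J c = 0 := congrFun hc 1
    exact hgen c (by
      have := hB_zero _ _ h1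
      exact this.symm) (hB_zero _ _ h0)
  have hCo_mul : ∀ x y, Co (x * y) = Co x + Co y := by
    intro x y
    ext i
    fin_cases i
    · exact hI_left x y
    · exact hJ_right x y
  have htrans : ∀ (n : ℕ) (x : P), Co ((φ ^ n) x) = Co x → (φ ^ n) x = x := by
    intro n x h
    set ψ := φ ^ n with hψ
    set c := x⁻¹ * ψ x with hc
    have hψx : ψ x = x * c := by rw [hc]; group
    have hcZ : c ∈ center P := by
      apply hker
      have h1 := hCo_mul x c
      rw [← hψx, h] at h1
      simpa using h1
    have hψc : ψ c = c := hfix_cen n c hcZ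
    have hit : ∀ m : ℕ, (ψ ^ m) x = x * c ^ m := by
      intro m
      induction m with
      | zero => simp
      | succ m ih =>
        rw [pow_succ', MulAut.mul_apply, ih, map_mul, map_pow, hψc, hψx, pow_succ', mul_assoc]
    have h3 := hit (orderOf φ)
    have h4 : ψ ^ orderOf φ = 1 := by
      rw [hψ, ← pow_mul, mul_comm, pow_mul, pow_orderOf_eq_one, one_pow]
    rw [h4] at h3
    have h5 : c ^ orderOf φ = 1 := by
      have : x = x * c ^ orderOf φ := h3
      simpa using this.symm
    have hcop : (orderOf φ).Coprime p := ((Nat.Prime.coprime_iff_not_dvd hp.out).mpr hord).symm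
    have h6 : c = 1 := by
      have h7 := orderOf_dvd_of_pow_eq_one h5
      have h8 := orderOf_dvd_of_pow_eq_one (hexp c)
      have h9 := Nat.dvd_gcd h7 h8
      rw [hcop] at h9
      exact orderOf_eq_one_iff.mp (Nat.dvd_one.mp h9)
    rw [hψx, h6, mul_one]
  have huZ : u ∉ center P := by
    intro h
    exact huv (mem_center_iff.mp h v).symm
  by_cases hA1 : A ^ (p + 1) = 1
  · right
    by_contra hne
    apply huZ
    apply hfree _ hne
    apply htrans
    rw [hCopow, hA1, Matrix.one_mulVec]
  · left
    by_contra hne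
    obtain ⟨c, hc⟩ : ∃ c, (A ^ (p + 1) - 1).mulVec c ≠ 0 := by
      by_contra hall
      push Not at hall
      apply hA1
      rw [← sub_eq_zero, Matrix.ext_iff_mulVec]
      intro v
      rw [hall, Matrix.zero_mulVec]
    set t := (A ^ (p + 1) - 1).mulVec c with ht
    have hfixt : (A ^ (p - 1)).mulVec t = t := by
      have h1 : (A ^ (p - 1) - 1).mulVec t = 0 := by
        rw [ht, Matrix.mulVec_mulVec, hid, Matrix.zero_mulVec]
      rw [Matrix.sub_mulVec, Matrix.one_mulVec, sub_eq_zero] at h1
      exact h1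
    set x := u ^ (t 0).val * v ^ (t 1).val with hx
    have hCox : Co x = t := by
      ext i
      fin_cases i
      · show I (u ^ (t 0).val * v ^ (t 1).val) = t 0
        rw [hI_left, hI_pow, hI_pow, hIu, hIv, mul_one, mul_zero, add_zero, ZMod.natCast_zmod_val]
      · show J (u ^ (t 0).val * v ^ (t 1).val) = t 1
        rw [hJ_right, hJ_pow, hJ_pow, hJu, hJv, mul_one, mul_zero, zero_add, ZMod.natCast_zmod_val]
    have hxZ : x ∈ center P := by
      apply hfree _ hne
      apply htrans
      rw [hCopow, hCox, hfixt]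
    apply hc
    rw [← hCox]
    ext i
    fin_cases i
    · exact hI_cen x hxZ
    · exact hJ_cen x hxZ

end

end Cfsg.Agent.Lib.ExtraAut
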