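import Mathlib

/-!
# Subgroups generated by elements with commutators and squares in `{1, j}`, and chains of centralizers
-/

set_option autoImplicit false
set_option linter.all false

namespace Cfsg.Agent.Lib.ExtraChain

variable {X : Type*} [Group X]

/-- The commutator is `1` or `j`. -/
def Rl (j a b : X) : Prop := a * b = b * a ∨ a * b = j * (b * a)

section basics

variable {j : X} (hj : j * j = 1)
include hj

theorem Rl.symm {a b : X} (h : Rl j a b) : Rl j b a := by
  rcases h with h | h
  · exact Or.inl h.symm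
  · right
    calc b * a = (j * j) * (b * a) := by rw [hj, one_mul]
      _ = j * (j * (b * a)) := by group
      _ = j * (a * b) := by rw [← h]

theorem Rl.mul_right {a b c : X} (hb : b * j = j * b) (h1 : Rl j a b) (h2 : Rl j a c) : Rl j a (b * c) := by
  rcases h1 with h1 | h1 <;> rcases h2 with h2 | h2
  · left
    calc a * (b * c) = (a * b) * c := by group
      _ = b * (a * c) := by rw [h1]; group
      _ = b * (c * a) := by rw [h2]
      _ = _ := by group
  · right
    calc a * (b * c) = (a * b) * c := by group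
      _ = b * (a * c) := by rw [h1]; group
      _ = b * (j * (c * a)) := by rw [h2]
      _ = (b * j) * (c * a) := by group
      _ = (j * b) * (c * a) := by rw [hb]
      _ = _ := by group
  · right
    calc a * (b * c) = (a * b) * c := by group
      _ = j * b * (a * c) := by rw [h1]; group
      _ = j * b * (c * a) := by rw [h2]
      _ = _ := by group
  · left
    calc a * (b * c) = (a * b) * c := by group
      _ = j * b * (a * c) := by rw [h1]; group
      _ = j * b * (j * (c * a)) := by rw [h2]
      _ = j * (b * j) * (c * a) := by group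
      _ = j * (j * b) * (c * a) := by rw [hb]
      _ = (j * j) * b * (c * a) := by group
      _ = _ := by rw [hj]; group

theorem Rl.inv_right {a b : X} (hb : b * j = j * b) (h : Rl j a b) : Rl j a b⁻¹ := by
  rcases h with h | h
  · left
    calc a * b⁻¹ = b⁻¹ * (b * a) * b⁻¹ := by group
      _ = b⁻¹ * (a * b) * b⁻¹ := by rw [h]
      _ = _ := by group
  · right
    have hb' : b⁻¹ * j = j * b⁻¹ := by
      calc b⁻¹ * j = b⁻¹ * (j * b) * b⁻¹ := by group
        _ = b⁻¹ * (b * j) * b⁻¹ := by rw [hb]
        _ = _ := by group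
    have hji : j⁻¹ = j := inv_eq_of_mul_eq_one_left hj
    calc a * b⁻¹ = b⁻¹ * j⁻¹ * (j * (b * a)) * b⁻¹ * 1 := by group
      _ = b⁻¹ * j⁻¹ * (a * b) * b⁻¹ := by rw [← h]; group
      _ = b⁻¹ * j * a := by rw [hji]; group
      _ = j * b⁻¹ * a := by rw [hb']
      _ = _ := by group

end basics

/-- The commutator in terms of the relation. -/
theorem Rl.comm {j a b : X} (h : Rl j a b) : a * b * a⁻¹ * b⁻¹ = 1 ∨ a * b * a⁻¹ * b⁻¹ = j := by
  rcases h with h | h
  · left
    rw [h]
    group
  · right
    rw [h]
    group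

/-- The properties of the generated subgroup. -/
theorem closure_props {j : X} (hj : j * j = 1) {S : Set X} (hjc : ∀ u ∈ S, u * j = j * u)
    (hc : ∀ u ∈ S, ∀ v ∈ S, Rl j u v) (hs : ∀ u ∈ S, u * u = 1 ∨ u * u = j) :
    (∀ a ∈ Subgroup.closure S, a * j = j * a) ∧
      (∀ a ∈ Subgroup.closure S, ∀ b ∈ Subgroup.closure S, Rl j a b) ∧
      (∀ a ∈ Subgroup.closure S, a * a = 1 ∨ a * a = j) := by
  have hji : j⁻¹ = j := inv_eq_of_mul_eq_one_left hj
  have h1 : ∀ a ∈ Subgroup.closure S, a * j = j * a := by
    intro a ha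
    induction ha using Subgroup.closure_induction with
    | mem x hx => exact hjc x hx
    | one => simp
    | mul a b _ _ ha hb =>
      calc a * b * j = a * (b * j) := by group
        _ = a * (j * b) := by rw [hb]
        _ = (a * j) * b := by group
        _ = (j * a) * b := by rw [ha]
        _ = _ := by group
    | inv a _ ha =>
      calc a⁻¹ * j = a⁻¹ * (j * a) * a⁻¹ := by group
        _ = a⁻¹ * (a * j) * a⁻¹ := by rw [ha]
        _ = _ := by group
  have h2 : ∀ u ∈ S, ∀ b ∈ Subgroup.closure S, Rl j u b := by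
    intro u hu b hb
    induction hb using Subgroup.closure_induction with
    | mem x hx => exact hc u hu x hx
    | one => left; group
    | mul a b ha' _ ha hb => exact Rl.mul_right hj (h1 a ha') ha hb
    | inv a ha' ha => exact Rl.inv_right hj (h1 a ha') ha
  have h3 : ∀ a ∈ Subgroup.closure S, ∀ b ∈ Subgroup.closure S, Rl j a b := by
    intro a ha b hb
    induction hb using Subgroup.closure_induction with
    | mem x hx => exact Rl.symm hj (h2 x hx a ha)
    | one => left; group
    | mul c d hc' _ ha hb => exact Rl.mul_right hj (h1 c hc') ha hb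
    | inv c hc' ha => exact Rl.inv_right hj (h1 c hc') ha
  refine ⟨h1, h3, ?_⟩
  intro a ha
  induction ha using Subgroup.closure_induction with
  | mem x hx => exact hs x hx
  | one => left; group
  | mul a b ha' hb' ha hb =>
    have h4 := h1 a ha'
    have hp : a * a * (b * b) = 1 ∨ a * a * (b * b) = j := by
      rcases ha with ha | ha <;> rcases hb with hb | hb <;> rw [ha, hb]
      · left; group
      · right; group
      · right; group
      · left; exact hj
    rcases h3 b hb' a ha' with h6 | h6
    · have e : a * b * (a * b) = a * a * (b * b) := by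
        calc a * b * (a * b) = a * (b * a) * b := by group
          _ = a * (a * b) * b := by rw [h6]
          _ = _ := by group
      rw [e]
      exact hp
    · have e : a * b * (a * b) = j * (a * a * (b * b)) := by
        calc a * b * (a * b) = a * (b * a) * b := by group
          _ = a * (j * (a * b)) * b := by rw [h6]
          _ = (a * j) * a * b * b := by group
          _ = (j * a) * a * b * b := by rw [h4]
          _ = _ := by group
      rw [e]
      rcases hp with hp | hp <;> rw [hp]
      · right; group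
      · left; exact hj
  | inv a _ ha =>
    rcases ha with h | h
    · left
      calc a⁻¹ * a⁻¹ = (a * a)⁻¹ := by group
        _ = 1 := by rw [h]; group
    · right
      calc a⁻¹ * a⁻¹ = (a * a)⁻¹ := by group
        _ = j := by rw [h, hji]

/-- Counting a group by fibres over a subgroup. -/
theorem card_eq_of_fiber' {Γ Y : Type*} [Group Γ] [Finite Γ] (C K : Subgroup Γ) (hKC : K ≤ C) (t : C → Y)
    (ht : ∀ g h : C, t g = t h ↔ (g : Γ)⁻¹ * h ∈ K) (hs : Function.Surjective t) :
    Nat.card C = Nat.card Y * Nat.card K := by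
  set K' := K.subgroupOf C with hK'
  have h1 : Nat.card K' * K'.index = Nat.card C := Subgroup.card_mul_index _
  have h2 : Nat.card K' = Nat.card K := Nat.card_congr (Subgroup.subgroupOfEquivOfLe hKC).toEquiv
  let Q : C ⧸ K' → Y := Quotient.lift t (by
    intro a b hab
    have : (a : C)⁻¹ * b ∈ K' := QuotientGroup.leftRel_apply.mp hab
    exact (ht a b).2 this)
  have hQ : Function.Bijective Q := by
    constructor
    · intro a b
      induction a using QuotientGroup.induction_on with
      | H a =>
        induction b using QuotientGroup.induction_on with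
        | H b =>
          intro hab
          exact QuotientGroup.eq.2 ((ht a b).1 hab)
    · intro x
      obtain ⟨g, rfl⟩ := hs x
      exact ⟨(g : C ⧸ K'), rfl⟩
  have h3 : K'.index = Nat.card Y := Nat.card_congr (Equiv.ofBijective Q hQ)
  rw [← h1, h2, h3, mul_comm]

/-- An index two step. -/
theorem card_step {j : X} [Finite X] {Y : Subgroup X} {h g : X}
    (hR : ∀ a ∈ Y, Rl j a h) (hg : g ∈ Y) (hgh : g * h ≠ h * g) :
    Nat.card Y = 2 * Nat.card (Y ⊓ Subgroup.centralizer ({h} : Set X) : Subgroup X) := by
  classical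
  let t : Y → Bool := fun a => decide ((a : X) * h * (a : X)⁻¹ = h)
  have hmem : ∀ a : X, a ∈ Subgroup.centralizer ({h} : Set X) ↔ a * h = h * a := fun a =>
    Subgroup.mem_centralizer_singleton_iff
  have hcase : ∀ a ∈ Y, a * h * a⁻¹ = h ∨ a * h * a⁻¹ = j * h := by
    intro a ha
    rcases hR a ha with e | e
    · left
      rw [e]
      group
    · right
      rw [e]
      group
  have key := card_eq_of_fiber' Y (Y ⊓ Subgroup.centralizer ({h} : Set X)) inf_le_left t ?_ ?_
  · rw [key]
    first
      | done
      | simp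
  · intro a b
    have hab : (a : X)⁻¹ * b ∈ Y := Y.mul_mem (Y.inv_mem a.2) b.2
    have e0 : (a : X)⁻¹ * b ∈ Y ⊓ Subgroup.centralizer ({h} : Set X) ↔ (a : X) * h * (a : X)⁻¹ = b * h * (b : X)⁻¹ := by
      rw [Subgroup.mem_inf, hmem]
      constructor
      · rintro ⟨-, e⟩
        calc (a : X) * h * (a : X)⁻¹ = a * (h * ((a : X)⁻¹ * b)) * (b : X)⁻¹ := by group
          _ = a * ((a : X)⁻¹ * b * h) * (b : X)⁻¹ := by rw [e]
          _ = _ := by group
      · intro e
        refine ⟨hab, ?_⟩
        calc (a : X)⁻¹ * b * h = (a : X)⁻¹ * (b * h * (b : X)⁻¹) * b := by group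
          _ = (a : X)⁻¹ * (a * h * (a : X)⁻¹) * b := by rw [e]
          _ = _ := by group
    rw [e0]
    simp only [t, decide_eq_decide]
    constructor
    · intro e
      rcases hcase a a.2 with h1 | h1
      · rw [h1, e.mp h1]
      · rcases hcase b b.2 with h2 | h2
        · rw [h2, e.mpr h2]
        · rw [h1, h2]
    · intro e
      rw [e]
  · intro x
    cases x
    · refine ⟨⟨g, hg⟩, ?_⟩
      simp only [t, decide_eq_false_iff_not]
      intro e
      apply hgh
      calc g * h = (g * h * g⁻¹) * g := by group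
        _ = h * g := by rw [e]
    · refine ⟨1, ?_⟩
      simp [t]

/-- The successive centralizers. -/
def XL (W : Subgroup X) : List (X × X) → Subgroup X
  | [] => W
  | p :: L => XL W L ⊓ Subgroup.centralizer ({p.2} : Set X)

theorem XL_le (W : Subgroup X) (L : List (X × X)) : XL W L ≤ W := by
  induction L with
  | nil => exact le_rfl
  | cons p L ih => exact inf_le_left.trans ih

theorem mem_XL {W : Subgroup X} {L : List (X × X)} {a : X} : a ∈ XL W L ↔ a ∈ W ∧ ∀ p ∈ L, a * p.2 = p.2 * a := by
  induction L with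
  | nil => simp [XL]
  | cons p L ih =>
    show a ∈ XL W L ⊓ _ ↔ _
    rw [Subgroup.mem_inf, ih, Subgroup.mem_centralizer_singleton_iff]
    simp only [List.mem_cons, forall_eq_or_imp]
    constructor
    · rintro ⟨⟨h1, h2⟩, h3⟩
      exact ⟨h1, h3, h2⟩
    · rintro ⟨h1, h3, h2⟩
      exact ⟨⟨h1, h2⟩, h3⟩

/-- The triangularity condition of a chain. -/
def Chain : List (X × X) → Prop
  | [] => True
  | p :: L => (∀ q ∈ L, p.1 * q.2 = q.2 * p.1) ∧ p.1 * p.2 ≠ p.2 * p.1 ∧ Chain L

theorem card_XL {j : X} [Finite X] {W : Subgroup X} (hW : ∀ a ∈ W, ∀ b ∈ W, Rl j a b) :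
    ∀ L : List (X × X), (∀ p ∈ L, p.1 ∈ W ∧ p.2 ∈ W) → Chain L → Nat.card W = 2 ^ L.length * Nat.card (XL W L) := by
  intro L
  induction L with
  | nil =>
    intro _ _
    simp [XL]
  | cons p L ih =>
    intro h1 h2
    obtain ⟨h3, h4, h5⟩ := h2
    have h6 := ih (fun q hq => h1 q (List.mem_cons_of_mem _ hq)) h5
    have hp := h1 p List.mem_cons_self
    have h7 : p.1 ∈ XL W L := mem_XL.mpr ⟨hp.1, h3⟩
    have h8 := card_step (j := j) (Y := XL W L) (h := p.2) (g := p.1)
      (fun a ha => hW a (XL_le W L ha) _ hp.2) h7 h4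
    rw [h6, h8, List.length_cons, pow_succ]
    show _ = 2 ^ L.length * 2 * Nat.card ↥(XL W L ⊓ Subgroup.centralizer ({p.2} : Set X))
    ring

/-- The conclusion of a chain. -/
theorem chain_main {j : X} [Finite X] {W : Subgroup X} (hW : ∀ a ∈ W, ∀ b ∈ W, Rl j a b) (hjW : j ∈ W)
    (hj1 : j ≠ 1) (hjc : ∀ a ∈ W, a * j = j * a) {L : List (X × X)} (hL : ∀ p ∈ L, p.1 ∈ W ∧ p.2 ∈ W) (hC : Chain L)
    (hle : Nat.card W ≤ 2 ^ (L.length + 1)) :
    Nat.card W = 2 ^ (L.length + 1) ∧ ∀ a ∈ W, (∀ p ∈ L, a * p.2 = p.2 * a) → a = 1 ∨ a = j := by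
  classical
  have h1 := card_XL hW L hL hC
  have hjX : j ∈ XL W L := mem_XL.mpr ⟨hjW, fun p hp => hjc _ (hL p hp).2 |>.symm⟩
  have h1X : (1 : X) ∈ XL W L := (XL W L).one_mem
  have h2 : 2 ≤ Nat.card (XL W L) := by
    have hinj : Function.Injective (fun b : Bool => if b then (⟨j, hjX⟩ : XL W L) else 1) := by
      intro a b h
      cases a <;> cases b <;> simp_all [Subtype.ext_iff]
    have := Nat.card_le_card_of_injective _ hinj
    simpa using this
  have h3 : Nat.card (XL W L) ≤ 2 := by
    rw [h1, pow_succ] at hle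
    have h4 : 0 < 2 ^ L.length := by positivity
    exact Nat.le_of_mul_le_mul_left hle h4
  have h5 : Nat.card (XL W L) = 2 := le_antisymm h3 h2
  constructor
  · rw [h1, h5, pow_succ]
  · intro a ha hc
    have haX : a ∈ XL W L := mem_XL.mpr ⟨ha, hc⟩
    by_contra hcon
    rw [not_or] at hcon
    have hinj : Function.Injective (fun i : Fin 3 =>
        if i = 0 then (⟨a, haX⟩ : XL W L) else if i = 1 then ⟨j, hjX⟩ else 1) := by
      intro x y h
      fin_cases x <;> fin_cases y <;> simp_all [Subtype.ext_iff]
    have := Nat.card_le_card_of_injective _ hinj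
    simp at this
    omega

end Cfsg.Agent.Lib.ExtraChain
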