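/-
ExtraOut79: the extraspecial 2-group `XS C` attached to a matrix `C` over `ZMod 2`; its outer
automorphism group is the isometry group of `v ↦ v ⬝ C v`.
-/
import Mathlib
import Cfsg.Prelude.Def_KGroupFacts
import Cfsg.Prelude.Def_Classical
import Cfsg.Agent.Lib.ExtraES2

set_option autoImplicit false

namespace Cfsg.Agent.Lib.ExtraOut79

open Matrix
open Cfsg.Agent.Lib.ExtraES Cfsg.Agent.Lib.ExtraES2

variable {ι : Type} [Fintype ι] [DecidableEq ι]

/-- The bilinear function with matrix `C`. -/
def bet (C : Matrix ι ι (ZMod 2)) (v w : ι → ZMod 2) : ZMod 2 := v ⬝ᵥ (C *ᵥ w)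

theorem bet_add_left (C : Matrix ι ι (ZMod 2)) (u v w : ι → ZMod 2) :
    bet C (u + v) w = bet C u w + bet C v w := by
  simp [bet, add_dotProduct]

theorem bet_add_right (C : Matrix ι ι (ZMod 2)) (u v w : ι → ZMod 2) :
    bet C u (v + w) = bet C u v + bet C u w := by
  simp [bet, mulVec_add, dotProduct_add]

@[simp] theorem bet_zero_left (C : Matrix ι ι (ZMod 2)) (w : ι → ZMod 2) : bet C 0 w = 0 := by
  simp [bet]

@[simp] theorem bet_zero_right (C : Matrix ι ι (ZMod 2)) (v : ι → ZMod 2) : bet C v 0 = 0 := by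
  simp [bet]

theorem two_z (x : ZMod 2) : x + x = 0 := CharTwo.add_self_eq_zero x

theorem two_v (x : ι → ZMod 2) : x + x = 0 := by
  funext i
  exact two_z _

/-- The group: `(v, c) (w, d) = (v + w, c + d + β(v, w))`. -/
@[ext] structure XS (C : Matrix ι ι (ZMod 2)) where
  v : ι → ZMod 2
  c : ZMod 2

variable {C : Matrix ι ι (ZMod 2)}

instance : Mul (XS C) := ⟨fun a b => ⟨a.v + b.v, a.c + b.c + bet C a.v b.v⟩⟩
instance : One (XS C) := ⟨⟨0, 0⟩⟩
instance : Inv (XS C) := ⟨fun a => ⟨a.v, a.c + bet C a.v a.v⟩⟩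

@[simp] theorem mul_v (a b : XS C) : (a * b).v = a.v + b.v := rfl
@[simp] theorem mul_c (a b : XS C) : (a * b).c = a.c + b.c + bet C a.v b.v := rfl
@[simp] theorem one_v : (1 : XS C).v = 0 := rfl
@[simp] theorem one_c : (1 : XS C).c = 0 := rfl
@[simp] theorem inv_v (a : XS C) : (a⁻¹).v = a.v := rfl
@[simp] theorem inv_c (a : XS C) : (a⁻¹).c = a.c + bet C a.v a.v := rfl

instance : Group (XS C) :=
  Group.ofLeftAxioms
    (by
      intro a b c
      ext1
      · simp [add_assoc]
      · simp only [mul_c, mul_v, bet_add_left, bet_add_right]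
        ring)
    (by
      intro a
      ext1
      · simp
      · simp)
    (by
      intro a
      ext1
      · simp [two_v]
      · simp only [mul_c, inv_c, inv_v, one_c]
        linear_combination two_z (a.c + bet C a.v a.v))

/-- Central elements. -/
def cen (C : Matrix ι ι (ZMod 2)) (e : ZMod 2) : XS C := ⟨0, e⟩

@[simp] theorem cen_v (e : ZMod 2) : (cen C e).v = 0 := rfl
@[simp] theorem cen_c (e : ZMod 2) : (cen C e).c = e := rfl

theorem cen_mul (e : ZMod 2) (a : XS C) : cen C e * a = ⟨a.v, a.c + e⟩ := by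
  ext1
  · simp
  · simp [add_comm]

theorem mul_cen (e : ZMod 2) (a : XS C) : a * cen C e = ⟨a.v, a.c + e⟩ := by
  ext1
  · simp
  · simp

theorem cen_comm (e : ZMod 2) (a : XS C) : a * cen C e = cen C e * a := by
  rw [cen_mul, mul_cen]

theorem cen_add (e f : ZMod 2) : cen C (e + f) = cen C e * cen C f := by
  rw [cen_mul]
  ext1
  · simp
  · simp [add_comm]

@[simp] theorem cen_zero : cen C 0 = 1 := rfl

/-- Commutation formula. -/
theorem comm_formula (a b : XS C) : a * b = cen C (bet C a.v b.v + bet C b.v a.v) * (b * a) := by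
  rw [cen_mul]
  ext1
  · simp [add_comm]
  · simp only [mul_c]
    linear_combination (-1 : ZMod 2) * (two_z (bet C b.v a.v))

theorem sq_formula (a : XS C) : a * a = cen C (bet C a.v a.v) := by
  ext1
  · simp [two_v]
  · simp [two_z]

/-- The element `(v, 0)`. -/
def sec (C : Matrix ι ι (ZMod 2)) (v : ι → ZMod 2) : XS C := ⟨v, 0⟩

@[simp] theorem sec_v (v : ι → ZMod 2) : (sec C v).v = v := rfl
@[simp] theorem sec_c (v : ι → ZMod 2) : (sec C v).c = 0 := rfl

theorem eq_sec_mul (a : XS C) : a = sec C a.v * cen C a.c := by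
  rw [mul_cen]
  ext1
  · simp
  · simp

theorem sec_add (v w : ι → ZMod 2) : sec C (v + w) = sec C v * sec C w * cen C (bet C v w) := by
  rw [mul_cen]
  ext1
  · simp
  · simp [two_z]

/-- The central involution. -/
def zs (C : Matrix ι ι (ZMod 2)) : XS C := cen C 1

theorem cen_eq_pow (e : ZMod 2) : ∃ k : ℕ, cen C e = zs C ^ k := by
  have : e = 0 ∨ e = 1 := by
    revert e
    decide
  rcases this with rfl | rfl
  · exact ⟨0, by simp⟩
  · exact ⟨1, by simp [zs]⟩

instance : Finite (XS C) :=
  Finite.of_injective (fun a : XS C => (a.v, a.c)) (fun a b h => by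
    ext1
    · exact congrArg Prod.fst h
    · exact congrArg Prod.snd h)

theorem card_XS : Nat.card (XS C) = 2 ^ (Fintype.card ι + 1) := by
  have e : XS C ≃ (ι → ZMod 2) × ZMod 2 :=
    { toFun := fun a => (a.v, a.c)
      invFun := fun p => ⟨p.1, p.2⟩
      left_inv := fun _ => rfl
      right_inv := fun _ => rfl }
  rw [Nat.card_congr e, Nat.card_prod, Nat.card_eq_fintype_card, Nat.card_eq_fintype_card]
  simp [ZMod.card, pow_succ]

/-- The nondegeneracy condition. -/
def ND (C : Matrix ι ι (ZMod 2)) : Prop :=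
  ∀ v : ι → ZMod 2, (∀ w : ι → ZMod 2, bet C v w + bet C w v = 0) → v = 0

theorem es_XS (hnd : ND C) : ES 2 (XS C) (zs C) := by
  haveI : Fact (Nat.Prime 2) := ⟨Nat.prime_two⟩
  have hz2 : zs C * zs C = 1 := by
    rw [sq_formula]
    simp [zs]
  have hz1 : zs C ≠ 1 := by
    intro h
    have := congrArg XS.c h
    simp [zs] at this
  refine ⟨fun g => cen_comm 1 g, orderOf_eq_prime (by rw [pow_two, hz2]) hz1, ?_, ?_, ?_⟩
  · intro g hg
    have hv : g.v = 0 := by
      apply hnd
      intro w
      have h1 := hg (sec C w)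
      have h2 := congrArg XS.c h1
      simp only [mul_c, sec_c, sec_v] at h2
      have h3 : bet C w g.v = bet C g.v w := by
        linear_combination h2
      rw [h3, two_z]
    have h4 : g = cen C g.c := by
      ext1
      · simpa using hv
      · simp
    obtain ⟨k, hk⟩ := cen_eq_pow (C := C) g.c
    exact ⟨k, by rw [h4]; exact hk⟩
  · intro a b
    obtain ⟨k, hk⟩ := cen_eq_pow (C := C) (bet C a.v b.v + bet C b.v a.v)
    refine ⟨k, ?_⟩
    rw [← hk, commutatorElement_def, comm_formula a b]
    group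
  · intro a
    obtain ⟨k, hk⟩ := cen_eq_pow (C := C) (bet C a.v a.v)
    exact ⟨k, by rw [← hk, pow_two, sq_formula]⟩

section aut

variable (hnd : ND C)

include hnd

theorem aut_cen (A : MulAut (XS C)) (e : ZMod 2) : A (cen C e) = cen C e := by
  have hz : A (zs C) = zs C := iso_maps_z (es_XS hnd) (es_XS hnd) A
  have : e = 0 ∨ e = 1 := by
    revert e
    decide
  rcases this with rfl | rfl
  · simp
  · exact hz

/-- The induced map on `V`. -/
def ellAdd (A : MulAut (XS C)) : (ι → ZMod 2) →+ (ι → ZMod 2) where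
  toFun v := (A (sec C v)).v
  map_zero' := by
    have : sec C (0 : ι → ZMod 2) = 1 := rfl
    rw [this, map_one]
    rfl
  map_add' v w := by
    rw [sec_add, map_mul, map_mul, aut_cen hnd]
    simp

def ell (A : MulAut (XS C)) : Module.End (ZMod 2) (ι → ZMod 2) :=
  (ellAdd hnd A).toZModLinearMap 2

theorem ell_apply (A : MulAut (XS C)) (v : ι → ZMod 2) : ell hnd A v = (A (sec C v)).v := rfl

theorem aut_v (A : MulAut (XS C)) (a : XS C) : (A a).v = ell hnd A a.v := by
  conv_lhs => rw [eq_sec_mul a, map_mul, aut_cen hnd]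
  simp [ell_apply]

def ellHom : MulAut (XS C) →* Module.End (ZMod 2) (ι → ZMod 2) where
  toFun := ell hnd
  map_one' := by
    apply LinearMap.ext
    intro v
    rfl
  map_mul' A B := by
    apply LinearMap.ext
    intro v
    show (A (B (sec C v))).v = ell hnd A (ell hnd B v)
    rw [aut_v hnd A]
    rfl

def matHom : MulAut (XS C) →* Matrix ι ι (ZMod 2) :=
  MonoidHom.comp
    ((LinearMap.toMatrixAlgEquiv' : Module.End (ZMod 2) (ι → ZMod 2) ≃ₐ[ZMod 2] Matrix ι ι (ZMod 2)) :
      Module.End (ZMod 2) (ι → ZMod 2) →* Matrix ι ι (ZMod 2))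
    (ellHom hnd)

theorem matHom_mulVec (A : MulAut (XS C)) (v : ι → ZMod 2) :
    matHom hnd A *ᵥ v = (A (sec C v)).v :=
  LinearMap.toMatrix'_mulVec (ell hnd A) v

def thetaU : MulAut (XS C) →* GL ι (ZMod 2) := (matHom hnd).toHomUnits

theorem thetaU_mulVec (A : MulAut (XS C)) (v : ι → ZMod 2) :
    ((thetaU hnd A : GL ι (ZMod 2)) : Matrix ι ι (ZMod 2)) *ᵥ v = (A (sec C v)).v :=
  matHom_mulVec hnd A v

theorem aut_isom (A : MulAut (XS C)) (v : ι → ZMod 2) : bet C (A (sec C v)).v (A (sec C v)).v = bet C v v := by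
  have h1 : A (sec C v) * A (sec C v) = cen C (bet C v v) := by
    rw [← map_mul, sq_formula, sec_v, aut_cen hnd]
  rw [sq_formula] at h1
  exact congrArg XS.c h1

variable {Q : (ι → ZMod 2) → ZMod 2} (hQ : ∀ v, Q v = bet C v v)

include hQ

def theta : MulAut (XS C) →* Cfsg.isometryGroup (ZMod 2) Q :=
  (thetaU hnd).codRestrict _ (fun A => by
    intro u _
    show Q (((thetaU hnd A : GL ι (ZMod 2)) : Matrix ι ι (ZMod 2)) *ᵥ u) = Q u
    rw [thetaU_mulVec, hQ, hQ, aut_isom hnd])

theorem theta_mulVec (A : MulAut (XS C)) (v : ι → ZMod 2) :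
    (((theta hnd hQ A : Cfsg.isometryGroup (ZMod 2) Q) : GL ι (ZMod 2)) : Matrix ι ι (ZMod 2)) *ᵥ v =
      (A (sec C v)).v :=
  thetaU_mulVec hnd A v

omit hnd hQ in
theorem bet_mat (M C : Matrix ι ι (ZMod 2)) (v w : ι → ZMod 2) :
    bet (Mᵀ * C * M) v w = bet C (M *ᵥ v) (M *ᵥ w) := by
  unfold bet
  rw [← mulVec_mulVec, ← mulVec_mulVec, dotProduct_mulVec, vecMul_transpose]

omit hnd hQ in
theorem bet_add_mat (A B : Matrix ι ι (ZMod 2)) (v w : ι → ZMod 2) :
    bet (A + B) v w = bet A v w + bet B v w := by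
  simp [bet, add_mulVec, dotProduct_add]

omit hnd hQ in
theorem bet_transpose (A : Matrix ι ι (ZMod 2)) (v w : ι → ZMod 2) :
    bet Aᵀ v w = bet A w v := by
  unfold bet
  rw [mulVec_transpose, dotProduct_comm, dotProduct_mulVec]

omit hnd hQ in
theorem bet_single (A : Matrix ι ι (ZMod 2)) (i j : ι) :
    bet A (Pi.single i 1) (Pi.single j 1) = A i j := by
  simp [bet]

omit hnd hQ in
/-- An alternating form is the polarisation of a quadratic function. -/
theorem exists_mu (G : Matrix ι ι (ZMod 2)) (hG : ∀ v, bet G v v = 0) :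
    ∃ μ : (ι → ZMod 2) → ZMod 2, ∀ v w, μ (v + w) = μ v + μ w + bet G v w := by
  have hd : ∀ i, G i i = 0 := fun i => by
    have := hG (Pi.single i 1)
    rwa [bet_single] at this
  have hs : ∀ i j, G i j = G j i := fun i j => by
    have h := hG (Pi.single i 1 + Pi.single j 1)
    rw [bet_add_left, bet_add_right, bet_add_right, hG, hG, bet_single, bet_single] at h
    have h2 : G i j + G j i = 0 := by simpa using h
    linear_combination h2 - two_z (G j i)
  let e := Fintype.equivFin ι
  let U : Matrix ι ι (ZMod 2) := Matrix.of fun i j => if e i < e j then G i j else 0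
  have hGU : G = U + Uᵀ := by
    ext i j
    simp only [Matrix.add_apply, Matrix.transpose_apply, U, Matrix.of_apply]
    rcases lt_trichotomy (e i) (e j) with h | h | h
    · rw [if_pos h, if_neg (not_lt.2 h.le), add_zero]
    · have hij : i = j := e.injective h
      subst hij
      simp [hd]
    · rw [if_neg (not_lt.2 h.le), if_pos h, zero_add, hs]
  refine ⟨fun v => bet U v v, fun v w => ?_⟩
  rw [hGU, bet_add_mat, bet_transpose]
  simp only [bet_add_left, bet_add_right]
  ring

theorem theta_surj : Function.Surjective (theta hnd hQ) := by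
  rintro ⟨g, hg⟩
  let M : Matrix ι ι (ZMod 2) := (g : GL ι (ZMod 2))
  have hM : ∀ u, Q (M *ᵥ u) = Q u := fun u => hg u u
  let G : Matrix ι ι (ZMod 2) := Mᵀ * C * M + C
  have hG : ∀ v, bet G v v = 0 := by
    intro v
    rw [bet_add_mat, bet_mat, ← hQ, ← hQ, hM, two_z]
  obtain ⟨μ, hμ⟩ := exists_mu G hG
  have hinj : Function.Injective (fun v : ι → ZMod 2 => M *ᵥ v) := by
    intro v w h
    obtain ⟨N, h1⟩ : ∃ N : Matrix ι ι (ZMod 2), N * M = 1 :=
      ⟨((g⁻¹ : GL ι (ZMod 2)) : Matrix ι ι (ZMod 2)), by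
        show ((g⁻¹ * g : GL ι (ZMod 2)) : Matrix ι ι (ZMod 2)) = 1
        simp⟩
    have h2 := congrArg (fun x => N *ᵥ x) h
    simp only [mulVec_mulVec] at h2
    rw [h1] at h2
    simpa using h2
  let F : XS C →* XS C := MonoidHom.mk' (fun a => ⟨M *ᵥ a.v, a.c + μ a.v⟩) (by
    intro a b
    ext1
    · simp [mulVec_add]
    · simp only [mul_c, mul_v]
      rw [hμ, bet_add_mat, bet_mat]
      linear_combination two_z (bet C a.v b.v))
  have hFi : Function.Injective F := by
    intro a b h
    have h1 : M *ᵥ a.v = M *ᵥ b.v := congrArg XS.v h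
    have h2 : a.c + μ a.v = b.c + μ b.v := congrArg XS.c h
    have h3 : a.v = b.v := hinj h1
    ext1
    · exact h3
    · rw [h3] at h2
      exact add_right_cancel h2
  let A : MulAut (XS C) := MulEquiv.ofBijective F ⟨hFi, Finite.injective_iff_surjective.1 hFi⟩
  refine ⟨A, ?_⟩
  apply Subtype.ext
  apply Units.ext
  apply Matrix.toLin'.injective
  apply LinearMap.ext
  intro v
  rw [Matrix.toLin'_apply, Matrix.toLin'_apply]
  exact theta_mulVec hnd hQ A v

theorem ker_theta : (theta hnd hQ).ker = (MulAut.conj : XS C →* MulAut (XS C)).range := by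
  apply le_antisymm
  · intro A hA
    have hv : ∀ v, (A (sec C v)).v = v := by
      intro v
      have h1 := theta_mulVec hnd hQ A v
      rw [MonoidHom.mem_ker.1 hA] at h1
      rw [← h1]
      simp
    let lam : (ι → ZMod 2) →+ ZMod 2 :=
      { toFun := fun v => (A (sec C v)).c
        map_zero' := by
          have : sec C (0 : ι → ZMod 2) = 1 := rfl
          rw [this, map_one]
          rfl
        map_add' := fun v w => by
          rw [sec_add, map_mul, map_mul, aut_cen hnd]
          simp only [mul_c, cen_c, cen_v, bet_zero_right, mul_v, hv]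
          linear_combination two_z (bet C v w) }
    let D : Matrix ι ι (ZMod 2) := C + Cᵀ
    let Φ : (ι → ZMod 2) →ₗ[ZMod 2] (ι → ZMod 2) →ₗ[ZMod 2] ZMod 2 := Matrix.toLinearMap₂' (ZMod 2) D
    have hΦ : ∀ u v, Φ u v = bet C u v + bet C v u := by
      intro u v
      rw [Matrix.toLinearMap₂'_apply']
      show bet (C + Cᵀ) u v = _
      rw [bet_add_mat, bet_transpose]
    have hinj : Function.Injective Φ := by
      rw [injective_iff_map_eq_zero]
      intro u hu
      apply hnd
      intro w
      rw [← hΦ, hu]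
      rfl
    have hsurj : Function.Surjective Φ :=
      (LinearMap.injective_iff_surjective_of_finrank_eq_finrank
        (Subspace.dual_finrank_eq (K := ZMod 2) (V := ι → ZMod 2)).symm).1 hinj
    obtain ⟨u, hu⟩ := hsurj (lam.toZModLinearMap 2)
    refine ⟨sec C u, ?_⟩
    apply MulEquiv.ext
    intro a
    show sec C u * a * (sec C u)⁻¹ = A a
    have h1 : sec C u * a * (sec C u)⁻¹ = cen C (bet C u a.v + bet C a.v u) * a := by
      rw [comm_formula (sec C u) a]
      simp only [sec_v]
      group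
    have h2 : bet C u a.v + bet C a.v u = (A (sec C a.v)).c := by
      rw [← hΦ, hu]
      rfl
    rw [h1, h2, cen_mul]
    conv_rhs => rw [eq_sec_mul a, map_mul, aut_cen hnd, mul_cen, hv]
    ext1
    · rfl
    · simp [add_comm]
  · rintro A ⟨g, rfl⟩
    rw [MonoidHom.mem_ker]
    apply Subtype.ext
    apply Units.ext
    apply Matrix.toLin'.injective
    apply LinearMap.ext
    intro v
    rw [Matrix.toLin'_apply, Matrix.toLin'_apply]
    refine (theta_mulVec hnd hQ _ v).trans ?_
    show (g * sec C v * g⁻¹).v = _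
    simp only [mul_v, inv_v, sec_v]
    have : g.v + v + g.v = v := by
      rw [add_comm g.v v, add_assoc, two_v, add_zero]
    rw [this]
    simp

omit hnd hQ in
/-- Inner automorphisms under transport. -/
theorem mem_range_congr {E X : Type*} [Group E] [Group X] (e : E ≃* X) (α : MulAut E) :
    α ∈ (MulAut.conj : E →* MulAut E).range ↔
      MulAut.congr e α ∈ (MulAut.conj : X →* MulAut X).range := by
  constructor
  · rintro ⟨p, rfl⟩
    refine ⟨e p, ?_⟩
    ext m
    show e p * m * (e p)⁻¹ = e (p * e.symm m * p⁻¹)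
    simp
  · rintro ⟨g, hg⟩
    refine ⟨e.symm g, ?_⟩
    ext p
    have := DFunLike.congr_fun hg (e p)
    have h2 : g * e p * g⁻¹ = e (α p) := by
      have h3 : (MulAut.congr e α) (e p) = e (α p) := by
        show e (α (e.symm (e p))) = e (α p)
        simp
      rw [← h3, ← this]
      rfl
    show e.symm g * p * (e.symm g)⁻¹ = α p
    apply e.injective
    rw [← h2]
    simp

/-- **The outer automorphism group is the isometry group.** -/
theorem out_iso {E : Type*} [Group E] (e : E ≃* XS C) :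
    Nonempty (Cfsg.Out E ≃* Cfsg.isometryGroup (ZMod 2) Q) := by
  let Θ : MulAut E →* Cfsg.isometryGroup (ZMod 2) Q :=
    (theta hnd hQ).comp (MulAut.congr e).toMonoidHom
  have hsurj : Function.Surjective Θ := (theta_surj hnd hQ).comp (MulAut.congr e).surjective
  have hker : Cfsg.Inn E = Θ.ker := by
    ext α
    rw [MonoidHom.mem_ker]
    show α ∈ (MulAut.conj : E →* MulAut E).range ↔ theta hnd hQ (MulAut.congr e α) = 1
    rw [← MonoidHom.mem_ker, ker_theta hnd hQ]
    exact mem_range_congr e α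
  exact ⟨(QuotientGroup.quotientMulEquivOfEq hker).trans
    (QuotientGroup.quotientKerEquivOfSurjective Θ hsurj)⟩

end aut

end Cfsg.Agent.Lib.ExtraOut79
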