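-- Shared library: the lists of relators used to close the tables of the triple cover of Fi₂₄, and their validity in Fi₂₄.
import Mathlib
import Cfsg.Agent.Lib.F24Cl
import Cfsg.Agent.Lib.F24Y

set_option autoImplicit false
set_option maxRecDepth 100000

namespace Cfsg.Agent.Lib.F24zW

open Cfsg.Agent.Lib.TcBits Cfsg.Agent.Lib.CoxCert Cfsg.Agent.Lib.BitClose Cfsg.Agent.Lib.F24Base Cfsg.Agent.Lib.F24Rep
open Cfsg.Agent.Lib.F24Y Cfsg.Agent.Lib.F24Cl Cfsg.Agent.Lib.F24Psi
open Cfsg.Spor

/-- All letters. -/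
def S12 : List ℕ := [0,1,2,3,4,5,6,7,8,9,10,11]

/-- The letters of the big subgroup. -/
def Sb : List ℕ := [0,1,2,3,5,6,7,8,9,10,11]

/-- An auxiliary relator in the letters `b c d e f h i`. -/
def rVW : List ℕ := [1, 0, 10, 11, 6, 0, 10, 1, 2, 6, 0, 1, 6, 0, 7, 6, 0, 10, 0, 2, 1, 2, 11, 0, 6, 7, 1, 0, 6, 2, 1, 0, 10, 0, 1, 2, 6, 0, 1, 7, 6, 0, 0, 10, 0, 6, 7, 11, 0, 10, 0, 2, 1, 2, 6, 0, 10, 0, 11, 0, 6, 7, 1, 0, 6, 2, 1, 0, 10, 0, 1, 2, 6, 0, 1, 7, 6, 0]

/-- The relators of the table of Fi₂₄. -/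
def R6 : List (List ℕ) := coxRels S12 ++ [lW, spW, rVW]

/-- The letter `u` is the product of `l` and the spider word. -/
def uW : List ℕ := zW ++ [5, 12]

/-- The spider word is inverted by the letters. -/
def invW (x : ℕ) : List ℕ := [12, 5, x, 12, 5, x]

/-- The relators of the table of the triple cover. -/
def Rz : List (List ℕ) :=
  coxRels S12 ++ [lW, uW] ++ ([0,1,2,3,4,6,7,8,9,10,11].map invW) ++ [spW, rVW]

/-- A relator checked on the table of Fi₂₄ holds. -/
theorem ev_of_chk (w : List ℕ) (h : wordChk prF (2 ^ 19) 19 w.reverse = true) : ev genF w = 1 := by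
  apply Phi_inj
  rw [Phi_ev, map_one]
  exact ev_one_of_chk (n := 2 ^ 19) (k := 19) le_rfl w validF h

theorem rV_one : ev genF rVW = 1 := ev_of_chk _ (by decide +kernel)

theorem hS12 : ∀ a ∈ S12, a < 12 := by decide

theorem R6_rel : ∀ w ∈ R6, ev genF w = 1 := by
  intro w hw
  rcases List.mem_append.mp hw with h | h
  · exact coxRels_rel hS12 w h
  · simp only [List.mem_cons, List.not_mem_nil, or_false] at h
    rcases h with rfl | rfl | rfl
    · exact genF_lW
    · exact spW_one
    · exact rV_one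

/-- A walk along known edges: all the edges of the word from `p` are known and it ends at `q`. -/
noncomputable def knChk (pr : ℕ → List (ℕ × ℕ)) (K : List ℕ) (w : List ℕ) : ℕ → ℕ → Bool :=
  List.rec (motive := fun _ => ℕ → ℕ → Bool) (fun p q => Nat.beq p q)
    (fun x _ ih p q =>
      Bool.rec false (wl (ptP (pr x) p) fun p' => ih p' q)
        (Nat.beq (Nat.land (Nat.shiftRight (lget K x) p) 1) 1)) w

theorem knChk_spec {G : Type*} [Group G] {H : Subgroup G} {gen : ℕ → G} {pr : ℕ → List (ℕ × ℕ)} {N : ℕ}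
    (hv : ∀ x, validProg N (pr x) = true) {c : ℕ → G ⧸ H} {K : List ℕ} (hK : Good gen pr c K) (w : List ℕ) :
    ∀ p q, knChk pr K w p q = true → ev gen w • c p = c q := by
  induction w with
  | nil =>
    intro p q h
    have : p = q := Nat.eq_of_beq_eq_true h
    subst this
    simp
  | cons x r ih =>
    intro p q h
    have e : knChk pr K (x :: r) p q = Bool.rec false (wl (ptP (pr x) p) fun p' => knChk pr K r p' q)
        (Nat.beq (Nat.land (Nat.shiftRight (lget K x) p) 1) 1) := rfl
    rw [e, land_one_testBit] at h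
    cases hb : (lget K x).testBit p
    · rw [hb] at h
      exact absurd h (by simp)
    · rw [hb] at h
      have h2 : knChk pr K r (ptP (pr x) p) q = true := by
        have h3 : wl (ptP (pr x) p) (fun p' => knChk pr K r p' q) = true := h
        rwa [wl_eq] at h3
      have h3 := ih _ _ h2
      rw [← ptP_eq (N := N) (pr x) (hv x)] at h3
      have h4 := hK x p hb
      rw [ev_cons, mul_smul, ← h4]
      exact h3

end Cfsg.Agent.Lib.F24zW
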