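import Mathlib
import Cfsg.Prelude.Def_SporadicB

/-!
# Lifts of `3`-transpositions to central extensions

If `σ : E → G` is onto with central kernel and `z` is an involution of `G` whose centraliser is perfect,
then a lift of `z` has exactly one conjugate over each conjugate of `z`: the lifts are canonical and obey the
same commuting and braid relations as in `G` (`exists_cox_lift`). Also:

* `run_spec`: a rewriting certificate for words in the generators of a Coxeter group;
* `ker_eq_bot_of_section`: a stem extension with a section is trivial;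
* `commutator_eq_top_of_nonsplit`: a non-split double cover of a non-abelian simple group is perfect;
* `stab_of_table`: a coset table and an orbit together describe a point stabiliser.
-/

set_option autoImplicit false

namespace Cfsg.Agent.Lib.SchurCox

open Subgroup
open scoped commutatorElement

section lifts

variable {E G : Type*} [Group E] [Group G] (σ : E →* G)

variable {σ}

theorem central_of_ker (hK : σ.ker ≤ center E) {k : E} (hk : σ k = 1) (x : E) : k * x = x * k := by
  have h : k ∈ center E := hK (MonoidHom.mem_ker.mpr hk)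
  exact (mem_center_iff.mp h x).symm

/-- A lift of an element of the centraliser of `z` commutes with a lift of `z`, when this centraliser is perfect. -/
theorem conj_lift_fix (hs : Function.Surjective σ) (hK : σ.ker ≤ center E) {z : G}
    (hp : commutator (centralizer ({z} : Set G)) = ⊤) {zh : E} (hz : σ zh = z)
    {e : E} (he : σ e * z = z * σ e) : e * zh * e⁻¹ = zh := by
  let P : Subgroup (centralizer ({z} : Set G)) :=
    { carrier := {h | ∀ e : E, σ e = h.1 → e * zh * e⁻¹ = zh}
      one_mem' := by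
        intro e he
        have : σ e = 1 := by simpa using he
        rw [central_of_ker hK this zh]
        group
      mul_mem' := by
        intro a b ha hb e he
        obtain ⟨e1, h1⟩ := hs a.1
        have h2 : σ (e1⁻¹ * e) = b.1 := by
          rw [map_mul, map_inv, h1, he]
          simp
        have h3 := hb _ h2
        have h4 := ha e1 h1
        calc e * zh * e⁻¹ = e1 * ((e1⁻¹ * e) * zh * (e1⁻¹ * e)⁻¹) * e1⁻¹ := by group
          _ = zh := by rw [h3, h4]
      inv_mem' := by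
        intro a ha e he
        have h1 : σ e⁻¹ = a.1 := by
          rw [map_inv, he]
          simp
        have h2 := ha _ h1
        have h3 : e⁻¹ * zh * e = zh := by simpa using h2
        calc e * zh * e⁻¹ = e * (e⁻¹ * zh * e) * e⁻¹ := by rw [h3]
          _ = zh := by group }
  have hP : P = ⊤ := by
    rw [eq_top_iff, ← hp, _root_.commutator_def, commutator_le]
    intro g1 _ g2 _ e he
    obtain ⟨e1, h1⟩ := hs g1.1
    obtain ⟨e2, h2⟩ := hs g2.1
    have hg1 : (g1 : G) * z = z * g1 := (mem_centralizer_singleton_iff.mp g1.2)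
    have hg2 : (g2 : G) * z = z * g2 := (mem_centralizer_singleton_iff.mp g2.2)
    set a := e1 * zh * e1⁻¹ * zh⁻¹ with ha
    set b := e2 * zh * e2⁻¹ * zh⁻¹ with hb
    have hab : ∀ (g : G) (x : E), σ x = g → g * z = z * g → σ (x * zh * x⁻¹ * zh⁻¹) = 1 := by
      intro g x hx hg
      simp only [map_mul, map_inv, hx, hz]
      rw [hg]
      group
    have ha1 : σ a = 1 := hab _ _ h1 hg1
    have hb1 : σ b = 1 := hab _ _ h2 hg2
    have hai : σ a⁻¹ = 1 := by rw [map_inv, ha1, inv_one]
    have hbi : σ b⁻¹ = 1 := by rw [map_inv, hb1, inv_one]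
    have e1z : e1 * zh * e1⁻¹ = a * zh := by rw [ha]; group
    have e2z : e2 * zh * e2⁻¹ = b * zh := by rw [hb]; group
    have cc : ∀ (k x y : E), σ k = 1 → x * (k * y) * x⁻¹ = k * (x * y * x⁻¹) := by
      intro k x y hk
      have := central_of_ker hK hk x
      calc x * (k * y) * x⁻¹ = (x * k) * y * x⁻¹ := by group
        _ = k * (x * y * x⁻¹) := by rw [← this]; group
    have c1 : e2⁻¹ * zh * e2 = b⁻¹ * zh := by
      have h3 : e2⁻¹ * (b * zh) * e2 = zh := by rw [← e2z]; group
      have h4 := cc b e2⁻¹ zh hb1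
      rw [inv_inv] at h4
      rw [h4] at h3
      calc e2⁻¹ * zh * e2 = b⁻¹ * (b * (e2⁻¹ * zh * e2)) := by group
        _ = b⁻¹ * zh := by rw [h3]
    have c2 : e1⁻¹ * zh * e1 = a⁻¹ * zh := by
      have h3 : e1⁻¹ * (a * zh) * e1 = zh := by rw [← e1z]; group
      have h4 := cc a e1⁻¹ zh ha1
      rw [inv_inv] at h4
      rw [h4] at h3
      calc e1⁻¹ * zh * e1 = a⁻¹ * (a * (e1⁻¹ * zh * e1)) := by group
        _ = a⁻¹ * zh := by rw [h3]
    have hcom : (e1 * e2 * e1⁻¹ * e2⁻¹) * zh * (e1 * e2 * e1⁻¹ * e2⁻¹)⁻¹ = zh := by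
      have s1 : (e1 * e2 * e1⁻¹ * e2⁻¹) * zh * (e1 * e2 * e1⁻¹ * e2⁻¹)⁻¹ =
          e1 * (e2 * (e1⁻¹ * (e2⁻¹ * zh * e2) * e1⁻¹⁻¹) * e2⁻¹) * e1⁻¹ := by group
      rw [s1, c1, cc _ _ _ hbi]
      have s2 : e1⁻¹ * zh * e1⁻¹⁻¹ = a⁻¹ * zh := by rw [inv_inv]; exact c2
      rw [s2, cc _ _ _ hbi, cc _ _ _ hai, e2z]
      have s3 : b⁻¹ * (a⁻¹ * (b * zh)) = (b⁻¹ * a⁻¹ * b) * zh := by group
      rw [s3, cc _ _ _ (by simp [map_mul, hbi, hai, hb1]), e1z]
      have hcomm : a⁻¹ * b = b * a⁻¹ := central_of_ker hK hai b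
      calc b⁻¹ * a⁻¹ * b * (a * zh) = b⁻¹ * (a⁻¹ * b) * a * zh := by group
        _ = b⁻¹ * (b * a⁻¹) * a * zh := by rw [hcomm]
        _ = zh := by group
    have h5 : σ ((e1 * e2 * e1⁻¹ * e2⁻¹)⁻¹ * e) = 1 := by
      have h6 : (⁅g1, g2⁆ : centralizer ({z} : Set G)).1 = g1.1 * g2.1 * g1.1⁻¹ * g2.1⁻¹ := rfl
      rw [map_mul, map_inv, he, h6]
      simp only [map_mul, map_inv, h1, h2]
      group
    have h7 := central_of_ker hK h5 zh
    have h8 : e = (e1 * e2 * e1⁻¹ * e2⁻¹) * ((e1 * e2 * e1⁻¹ * e2⁻¹)⁻¹ * e) := by group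
    rw [h8]
    set com := e1 * e2 * e1⁻¹ * e2⁻¹ with hcom'
    set κ := com⁻¹ * e with hκ
    calc com * κ * zh * (com * κ)⁻¹ = com * (κ * zh) * κ⁻¹ * com⁻¹ := by group
      _ = com * (zh * κ) * κ⁻¹ * com⁻¹ := by rw [h7]
      _ = com * zh * com⁻¹ := by group
      _ = zh := hcom
  have hmem : (⟨σ e, mem_centralizer_singleton_iff.mpr he⟩ : centralizer ({z} : Set G)) ∈ P := by
    rw [hP]; trivial
  exact hmem e rfl

/-- The canonical lifts of the conjugates of `z`. -/
theorem exists_canon (hs : Function.Surjective σ) (hK : σ.ker ≤ center E) {z : G}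
    (hp : commutator (centralizer ({z} : Set G)) = ⊤) {zh : E} (hz : σ zh = z) :
    ∃ L : G → E, (∀ e : E, L (σ e * z * (σ e)⁻¹) = e * zh * e⁻¹) := by
  classical
  have key : ∀ e e' : E, σ e * z * (σ e)⁻¹ = σ e' * z * (σ e')⁻¹ → e * zh * e⁻¹ = e' * zh * e'⁻¹ := by
    intro e e' h
    have h1 : σ (e'⁻¹ * e) * z = z * σ (e'⁻¹ * e) := by
      rw [map_mul, map_inv]
      calc (σ e')⁻¹ * σ e * z = (σ e')⁻¹ * (σ e * z * (σ e)⁻¹) * σ e := by group
        _ = (σ e')⁻¹ * (σ e' * z * (σ e')⁻¹) * σ e := by rw [h]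
        _ = z * ((σ e')⁻¹ * σ e) := by group
    have h2 := conj_lift_fix hs hK hp hz h1
    calc e * zh * e⁻¹ = e' * ((e'⁻¹ * e) * zh * (e'⁻¹ * e)⁻¹) * e'⁻¹ := by group
      _ = e' * zh * e'⁻¹ := by rw [h2]
  refine ⟨fun y => if h : ∃ e : E, σ e * z * (σ e)⁻¹ = y then
    h.choose * zh * h.choose⁻¹ else 1, ?_⟩
  intro e
  have h : ∃ e' : E, σ e' * z * (σ e')⁻¹ = σ e * z * (σ e)⁻¹ := ⟨e, rfl⟩
  simp only [dif_pos h]
  exact key _ _ h.choose_spec

/-- Lifts of a family of letters with Coxeter relations. -/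
theorem exists_cox_lift {α : Type*} (hs : Function.Surjective σ) (hK : σ.ker ≤ center E) {z : G}
    (hp : commutator (centralizer ({z} : Set G)) = ⊤) (hz2 : z * z = 1)
    (g : α → G) (h1 : ∀ x, g x * g x = 1) (hc : ∀ x, IsConj z (g x)) :
    ∃ (ℓ : α → E) (c : E), (∀ x, σ (ℓ x) = g x) ∧ σ c = 1 ∧ (∀ x, ℓ x * ℓ x = c) ∧
      (∀ x y, g x * g y = g y * g x → ℓ x * ℓ y = ℓ y * ℓ x) ∧
      (∀ x y, (g x * g y) ^ 3 = 1 → ℓ x * ℓ y * ℓ x = ℓ y * ℓ x * ℓ y) := by
  obtain ⟨zh, hzh⟩ := hs z
  obtain ⟨L, hL⟩ := exists_canon hs hK hp hzh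
  have hr : ∀ x, ∃ e : E, σ e * z * (σ e)⁻¹ = g x := by
    intro x
    obtain ⟨c, hc'⟩ := isConj_iff.mp (hc x)
    obtain ⟨e, rfl⟩ := hs c
    exact ⟨e, hc'⟩
  choose ee hee using hr
  have hcc : σ (zh * zh) = 1 := by rw [map_mul, hzh, hz2]
  let ℓ : α → E := fun x => ee x * zh * (ee x)⁻¹
  have hℓσ : ∀ x, σ (ℓ x) = g x := by
    intro x
    simp only [ℓ, map_mul, map_inv, hzh]
    exact hee x
  have hsq : ∀ x, ℓ x * ℓ x = zh * zh := by
    intro x
    have h2 := central_of_ker hK hcc (ee x)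
    calc ℓ x * ℓ x = ee x * (zh * zh) * (ee x)⁻¹ := by simp only [ℓ]; group
      _ = (zh * zh) * ee x * (ee x)⁻¹ := by rw [h2]
      _ = zh * zh := by group
  have heq : ∀ x y, ℓ x * ℓ y * (ℓ x)⁻¹ = L (g x * g y * (g x)⁻¹) := by
    intro x y
    have h2 := hL (ℓ x * ee y)
    have h3 : σ (ℓ x * ee y) * z * (σ (ℓ x * ee y))⁻¹ = g x * g y * (g x)⁻¹ := by
      rw [map_mul, hℓσ, ← hee y]
      group
    rw [h3] at h2
    rw [h2]
    simp only [ℓ]
    group
  have hLg : ∀ y, L (g y) = ℓ y := by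
    intro y
    have h2 := hL (ee y)
    rwa [hee y] at h2
  refine ⟨ℓ, zh * zh, hℓσ, hcc, hsq, ?_, ?_⟩
  · intro x y hxy
    have h2 := heq x y
    have h3 : g x * g y * (g x)⁻¹ = g y := by rw [hxy]; group
    rw [h3, hLg] at h2
    exact mul_inv_eq_iff_eq_mul.mp h2
  · intro x y hxy
    have hxi : (g x)⁻¹ = g x := inv_eq_of_mul_eq_one_left (h1 x)
    have hyi : (g y)⁻¹ = g y := inv_eq_of_mul_eq_one_left (h1 y)
    have h3 : g x * g y * (g x)⁻¹ = g y * g x * (g y)⁻¹ := by
      rw [hxi, hyi]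
      have h4 : g x * g y * g x * (g y * g x * g y) = 1 := by
        have : (g x * g y) ^ 3 = g x * g y * g x * (g y * g x * g y) := by
          simp only [pow_succ, pow_zero, one_mul, mul_assoc]
        rw [← this]; exact hxy
      have h5 : (g y * g x * g y)⁻¹ = g y * g x * g y := by
        rw [mul_inv_rev, mul_inv_rev, hxi, hyi]; group
      have h6 := eq_inv_of_mul_eq_one_left h4
      rwa [h5] at h6
    have h4 := heq x y
    have h5 := heq y x
    rw [h3] at h4
    have h6 : ℓ x * ℓ y * (ℓ x)⁻¹ = ℓ y * ℓ x * (ℓ y)⁻¹ := by rw [h4, h5]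
    -- multiply by `zh * zh`
    have hxi2 : (ℓ x)⁻¹ * (zh * zh) = ℓ x := by
      rw [← hsq x]; group
    have hyi2 : (ℓ y)⁻¹ * (zh * zh) = ℓ y := by
      rw [← hsq y]; group
    calc ℓ x * ℓ y * ℓ x = ℓ x * ℓ y * ((ℓ x)⁻¹ * (zh * zh)) := by rw [hxi2]
      _ = (ℓ x * ℓ y * (ℓ x)⁻¹) * (zh * zh) := by group
      _ = (ℓ y * ℓ x * (ℓ y)⁻¹) * (zh * zh) := by rw [h6]
      _ = ℓ y * ℓ x * ((ℓ y)⁻¹ * (zh * zh)) := by group
      _ = ℓ y * ℓ x * ℓ y := by rw [hyi2]

/-- A stem extension with a section is an isomorphism. -/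
theorem ker_eq_bot_of_section (hK : σ.ker ≤ center E) (hC : σ.ker ≤ commutator E)
    (τ : G →* E) (hτ : ∀ g, σ (τ g) = g) : σ.ker = ⊥ := by
  have hle : commutator E ≤ τ.range := by
    rw [_root_.commutator_def, commutator_le]
    intro e1 _ e2 _
    have h1 : σ ((τ (σ e1))⁻¹ * e1) = 1 := by simp [hτ]
    have h2 : σ ((τ (σ e2))⁻¹ * e2) = 1 := by simp [hτ]
    set k1 := (τ (σ e1))⁻¹ * e1 with hk1
    set k2 := (τ (σ e2))⁻¹ * e2 with hk2
    have e1' : e1 = τ (σ e1) * k1 := by rw [hk1]; group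
    have e2' : e2 = τ (σ e2) * k2 := by rw [hk2]; group
    refine ⟨⁅σ e1, σ e2⁆, ?_⟩
    have c1 := fun x => central_of_ker hK h1 x
    have c2 := fun x => central_of_ker hK h2 x
    have : e1 * e2 * e1⁻¹ * e2⁻¹ = τ (σ e1) * τ (σ e2) * (τ (σ e1))⁻¹ * (τ (σ e2))⁻¹ := by
      generalize τ (σ e1) = a at *
      generalize τ (σ e2) = b at *
      rw [e1', e2']
      calc (a * k1) * (b * k2) * (a * k1)⁻¹ * (b * k2)⁻¹
          = a * (k1 * b) * k2 * k1⁻¹ * a⁻¹ * k2⁻¹ * b⁻¹ := by group
        _ = a * (b * k1) * k2 * k1⁻¹ * a⁻¹ * k2⁻¹ * b⁻¹ := by rw [c1 b]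
        _ = a * b * (k1 * k2) * k1⁻¹ * a⁻¹ * k2⁻¹ * b⁻¹ := by group
        _ = a * b * (k2 * k1) * k1⁻¹ * a⁻¹ * k2⁻¹ * b⁻¹ := by rw [c1 k2]
        _ = a * b * (k2 * a⁻¹) * k2⁻¹ * b⁻¹ := by group
        _ = a * b * (a⁻¹ * k2) * k2⁻¹ * b⁻¹ := by rw [c2 a⁻¹]
        _ = a * b * a⁻¹ * b⁻¹ := by group
    show τ (⁅σ e1, σ e2⁆) = ⁅e1, e2⁆
    rw [commutatorElement_def, commutatorElement_def, this]
    simp
  rw [eq_bot_iff]
  intro k hk
  obtain ⟨g, hg⟩ := hle (hC hk)
  have h1 : g = 1 := by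
    have := hτ g
    rw [hg] at this
    rw [← this]
    exact hk
  rw [Subgroup.mem_bot, ← hg, h1, map_one]

/-- A non-split double cover of a non-abelian simple group is perfect. -/
theorem commutator_eq_top_of_nonsplit {H K : Type*} [Group H] [Group K] [IsSimpleGroup K]
    (hne : ∃ a b : K, a * b ≠ b * a) (h : Cfsg.IsNonsplitDoubleCover H K) :
    commutator H = ⊤ := by
  obtain ⟨hc, ⟨e⟩, hno⟩ := h
  set Z := center H with hZ
  set C := commutator H with hC
  -- the image of `C` in `K`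
  let π : H →* K := e.toMonoidHom.comp (QuotientGroup.mk' Z)
  have hπs : Function.Surjective π := e.surjective.comp (QuotientGroup.mk'_surjective Z)
  have hπk : π.ker = Z := by
    ext x
    simp only [π, MonoidHom.mem_ker, MonoidHom.comp_apply]
    constructor
    · intro hx
      have : (QuotientGroup.mk' Z) x = 1 := by
        apply e.injective
        simpa using hx
      exact (QuotientGroup.eq_one_iff x).mp this
    · intro hx
      have : (QuotientGroup.mk' Z) x = 1 := (QuotientGroup.eq_one_iff x).mpr hx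
      show e ((QuotientGroup.mk' Z) x) = 1
      rw [this, map_one]
  have hCn : C.Normal := inferInstance
  have hmapN : (C.map π).Normal := hCn.map π hπs
  rcases hmapN.eq_bot_or_eq_top with h1 | h1
  · exfalso
    obtain ⟨a, b, hab⟩ := hne
    obtain ⟨a', rfl⟩ := hπs a
    obtain ⟨b', rfl⟩ := hπs b
    apply hab
    have h2 : ⁅a', b'⁆ ∈ C := by
      rw [hC, _root_.commutator_def]
      exact commutator_mem_commutator trivial trivial
    have h3 : π ⁅a', b'⁆ = 1 := by
      have : π ⁅a', b'⁆ ∈ C.map π := ⟨_, h2, rfl⟩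
      rwa [h1, Subgroup.mem_bot] at this
    rw [map_commutatorElement] at h3
    exact commutatorElement_eq_one_iff_mul_comm.mp h3
  · -- `C ⊔ Z = ⊤`
    have hsup : ∀ x : H, ∃ c ∈ C, ∃ z ∈ Z, x = z * c := by
      intro x
      have : π x ∈ C.map π := by rw [h1]; trivial
      obtain ⟨c, hc1, hc2⟩ := this
      refine ⟨c, hc1, x * c⁻¹, ?_, by group⟩
      rw [← hπk, MonoidHom.mem_ker, map_mul, map_inv, hc2]
      group
    by_cases hd : Disjoint Z C
    · exfalso
      apply hno C
      apply Subgroup.isComplement'_of_disjoint_and_mul_eq_univ hd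
      ext x
      simp only [Set.mem_univ, iff_true]
      obtain ⟨c, hc1, z, hz, hx⟩ := hsup x
      exact Set.mem_mul.mpr ⟨z, hz, c, hc1, hx.symm⟩
    · -- `Z ≤ C`
      have hle : Z ≤ C := by
        rw [Subgroup.disjoint_def] at hd
        push Not at hd
        obtain ⟨w, hw1, hw2, hw3⟩ := hd
        obtain ⟨v, hv, huniq⟩ := (Nat.card_eq_two_iff' (1 : Z)).mp hc
        intro y hy
        by_cases hy1 : y = 1
        · rw [hy1]; exact C.one_mem
        · have e1 := huniq ⟨y, hy⟩ (fun h => hy1 (congrArg Subtype.val h))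
          have e2 := huniq ⟨w, hw1⟩ (fun h => hw3 (congrArg Subtype.val h))
          have e3 : y = w := congrArg Subtype.val (e1.trans e2.symm)
          rw [e3]; exact hw2
      rw [eq_top_iff]
      intro x _
      obtain ⟨c, hc1, z, hz, hx⟩ := hsup x
      rw [hx]
      exact C.mul_mem (hle hz) hc1

end lifts

/-! ## Rewriting in a Coxeter group -/

section rewriting

variable {α : Type*} [DecidableEq α] (mm : α → α → ℕ)

/-- A move at a position: `0` a swap of commuting letters, `1` a braid move, `2` a cancellation. -/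
def mv (k : ℕ) : ℕ → List α → Option (List α)
  | 0, w =>
    match k, w with
    | 0, a :: b :: r => if mm a b = 2 then some (b :: a :: r) else none
    | 1, a :: b :: a' :: r => if a = a' ∧ mm a b = 3 then some (b :: a :: b :: r) else none
    | 2, a :: a' :: r => if a = a' then some r else none
    | _, _ => none
  | p + 1, x :: r => (mv k p r).map (x :: ·)
  | _ + 1, [] => none

/-- A run of moves. -/
def run : List ℕ → List α → Option (List α)
  | [], w => some w
  | m :: ms, w =>
    match mv mm (m % 3) (m / 3) w with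
    | some w' => run ms w'
    | none => none

/-- The number of cancellations. -/
def countC : List ℕ → ℕ
  | [] => 0
  | m :: ms => (if m % 3 = 2 then 1 else 0) + countC ms

variable {E : Type*} [Group E] (ℓ : α → E) (c : E)

/-- The value of a word. -/
def evw (w : List α) : E := (w.map ℓ).prod

variable {mm ℓ c}

theorem mv_spec (h2 : ∀ a b, mm a b = 2 → ℓ a * ℓ b = ℓ b * ℓ a)
    (h3 : ∀ a b, mm a b = 3 → ℓ a * ℓ b * ℓ a = ℓ b * ℓ a * ℓ b)
    (hc : ∀ a, ℓ a * ℓ a = c) (hcc : ∀ x, c * x = x * c) (k p : ℕ) (w w' : List α)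
    (h : mv mm k p w = some w') :
    evw ℓ w = evw ℓ w' * c ^ (if k = 2 then 1 else 0) := by
  induction p generalizing w w' with
  | zero =>
    match k, w, h with
    | 0, a :: b :: r, h =>
      simp only [mv] at h
      split_ifs at h with h0
      · obtain rfl := Option.some.inj h
        simp only [evw, List.map_cons, List.prod_cons, if_neg (show (0 : ℕ) ≠ 2 by norm_num), pow_zero, mul_one]
        rw [← mul_assoc, ← mul_assoc, h2 a b h0]
    | 1, a :: b :: a' :: r, h =>
      simp only [mv] at h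
      split_ifs at h with h0
      · obtain rfl := Option.some.inj h
        obtain ⟨rfl, h1⟩ := h0
        simp only [evw, List.map_cons, List.prod_cons, if_neg (show (1 : ℕ) ≠ 2 by norm_num), pow_zero, mul_one]
        have := h3 a b h1
        calc ℓ a * (ℓ b * (ℓ a * (r.map ℓ).prod)) = ℓ a * ℓ b * ℓ a * (r.map ℓ).prod := by group
          _ = ℓ b * ℓ a * ℓ b * (r.map ℓ).prod := by rw [this]
          _ = ℓ b * (ℓ a * (ℓ b * (r.map ℓ).prod)) := by group
    | 2, a :: a' :: r, h =>
      simp only [mv] at h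
      split_ifs at h with h0
      · obtain rfl := Option.some.inj h
        subst h0
        simp only [evw, List.map_cons, List.prod_cons, if_true, pow_one]
        rw [← mul_assoc, hc, hcc]
  | succ p ih =>
    match w, h with
    | x :: r, h =>
      simp only [mv, Option.map_eq_some_iff] at h
      obtain ⟨r', h1, rfl⟩ := h
      have := ih r r' h1
      simp only [evw, List.map_cons, List.prod_cons] at this ⊢
      rw [this]
      group

theorem run_spec (h2 : ∀ a b, mm a b = 2 → ℓ a * ℓ b = ℓ b * ℓ a)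
    (h3 : ∀ a b, mm a b = 3 → ℓ a * ℓ b * ℓ a = ℓ b * ℓ a * ℓ b)
    (hc : ∀ a, ℓ a * ℓ a = c) (hcc : ∀ x, c * x = x * c) (ms : List ℕ) (w w' : List α)
    (h : run mm ms w = some w') : evw ℓ w = evw ℓ w' * c ^ countC ms := by
  induction ms generalizing w with
  | nil =>
    simp only [run, Option.some.injEq] at h
    subst h
    simp [countC]
  | cons m ms ih =>
    simp only [run] at h
    split at h
    · rename_i w1 h1
      have h4 := mv_spec h2 h3 hc hcc _ _ _ _ h1
      have h5 := ih _ h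
      rw [h4, h5]
      simp only [countC, pow_add]
      have h6 : ∀ n : ℕ, c ^ n * c ^ countC ms = c ^ countC ms * c ^ n := fun n => by
        rw [← pow_add, ← pow_add, add_comm]
      rw [mul_assoc, h6]
    · exact absurd h (by simp)

omit [DecidableEq α] in
theorem evw_append (u v : List α) : evw ℓ (u ++ v) = evw ℓ u * evw ℓ v := by
  simp [evw]

/-- The powers of a word. -/
def rep (u : List α) : ℕ → List α
  | 0 => []
  | n + 1 => u ++ rep u n

omit [DecidableEq α] in
theorem evw_rep (u : List α) (n : ℕ) : evw ℓ (rep u n) = evw ℓ u ^ n := by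
  induction n with
  | zero => simp [rep, evw]
  | succ n ih => rw [rep, evw_append, ih, pow_succ']

end rewriting

/-! ## Stabilisers from a coset table and an orbit -/

section stab

variable {P Q : Type*} [Group P] [Group Q]

/-- The stabiliser of a point. -/
def stabN (Ψ : P →* Equiv.Perm ℕ) (p : ℕ) : Subgroup P where
  carrier := {g | Ψ g p = p}
  mul_mem' := by
    intro x y hx hy
    show Ψ (x * y) p = p
    rw [map_mul, Equiv.Perm.mul_apply]
    rw [show Ψ y p = p from hy, show Ψ x p = p from hx]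
  one_mem' := by
    show Ψ 1 p = p
    simp
  inv_mem' := by
    intro x hx
    show Ψ x⁻¹ p = p
    rw [map_inv, Equiv.Perm.inv_eq_iff_eq]
    exact (show Ψ x p = p from hx).symm

theorem mem_stabN {Ψ : P →* Equiv.Perm ℕ} {p : ℕ} {g : P} : g ∈ stabN Ψ p ↔ Ψ g p = p := Iff.rfl

/-- The number of points of a set in the orbit bounds the index of the stabiliser. -/
theorem le_index_stabN {Ψ : P →* Equiv.Perm ℕ} {p : ℕ} (S : Set ℕ) (hS : ∀ i ∈ S, ∃ g, Ψ g p = i)
    (h0 : (stabN Ψ p).index ≠ 0) : S.ncard ≤ (stabN Ψ p).index := by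
  have hch : ∀ i : S, ∃ g, Ψ g p = i := fun i => hS i i.2
  choose f hf using hch
  let F : S → P ⧸ stabN Ψ p := fun i => (f i : P ⧸ stabN Ψ p)
  have hF : Function.Injective F := by
    intro i j hij
    have h1 : (f i)⁻¹ * f j ∈ stabN Ψ p := QuotientGroup.eq.mp hij
    have h2 : Ψ ((f i)⁻¹ * f j) p = p := h1
    rw [map_mul, Equiv.Perm.mul_apply, map_inv, hf j, Equiv.Perm.inv_eq_iff_eq, hf i] at h2
    exact Subtype.ext h2.symm
  have : Finite (P ⧸ stabN Ψ p) := Nat.finite_of_card_ne_zero h0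
  have := Nat.card_le_card_of_injective F hF
  rw [Nat.card_coe_set_eq] at this
  exact this

/-- The main counting: let `H` be of index at most `m * d` in `P`, and let `φ` be a homomorphism from `P`. If the
stabiliser of `p` contains `H` and has index at least `m`, then for `g` in this stabiliser, the image of `H` has index at most `d`
in the image of the stabiliser.  -/
theorem relIndex_le {A B : Subgroup P} (hAB : A ≤ B) {m d : ℕ} (hm : 0 < m) (hA0 : A.index ≠ 0)
    (hA : A.index ≤ m * d) (hB : m ≤ B.index) : A.relIndex B ≤ d ∧ A.relIndex B ≠ 0 := by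
  have h1 := Subgroup.relIndex_mul_index hAB
  constructor
  · by_contra hcon
    push Not at hcon
    have h2 : d + 1 ≤ A.relIndex B := hcon
    have h3 : (d + 1) * m ≤ A.relIndex B * B.index := Nat.mul_le_mul h2 hB
    rw [h1] at h3
    nlinarith
  · intro h2
    rw [h2, zero_mul] at h1
    exact hA0 h1.symm

/-- A subgroup of relative index one. -/
theorem mem_of_relIndex_one {A B : Subgroup P} (h : A.relIndex B ≤ 1) (h0 : A.relIndex B ≠ 0) {g : P} (hg : g ∈ B) :
    g ∈ A := by
  have h1 : A.relIndex B = 1 := by omega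
  have := Subgroup.relIndex_eq_one.mp h1
  exact this hg

/-- A subgroup of relative index at most two contains the squares. -/
theorem sq_mem_of_relIndex_two {A B : Subgroup P} (h : A.relIndex B ≤ 2) (h0 : A.relIndex B ≠ 0) {g : P}
    (hg : g ∈ B) : g * g ∈ A := by
  have h1 : A.relIndex B = 1 ∨ A.relIndex B = 2 := by omega
  rcases h1 with h1 | h1
  · have := Subgroup.relIndex_eq_one.mp h1
    exact A.mul_mem (this hg) (this hg)
  · have h2 : (A.subgroupOf B).index = 2 := h1
    have h3 := Subgroup.sq_mem_of_index_two h2 (⟨g, hg⟩ : B)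
    rw [Subgroup.mem_subgroupOf] at h3
    simpa [pow_two] using h3

/-- The index of the kernel-enlarged subgroup. -/
theorem index_comap_map_le (φ : P →* Q) (H : Subgroup P) :
    (H.map φ).comap φ ≥ H := Subgroup.le_comap_map φ H

theorem index_comap_map_dvd (φ : P →* Q) (H : Subgroup P) :
    ((H.map φ).comap φ).index ∣ H.index :=
  Subgroup.index_dvd_of_le (Subgroup.le_comap_map φ H)

/-- **The level lemma.** `P` acts on points through `Ψ = Ψ' ∘ φ`. The subgroup `H` is of index at most `m * d` and fixes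
`p`, whose orbit has `m` points at least. Then for `g` fixing `p`, the `d = 1` and `d = 2` conclusions hold. -/
theorem level {Ψ' : Q →* Equiv.Perm ℕ} (φ : P →* Q) (H : Subgroup P) {p m d : ℕ} (hm : 0 < m)
    (h0 : H.index ≠ 0) (hI : H.index ≤ m * d) (hfix : ∀ h ∈ H, Ψ' (φ h) p = p)
    (S : Set ℕ) (hS : ∀ i ∈ S, ∃ g, Ψ' (φ g) p = i) (hc : m ≤ S.ncard) :
    ((H.map φ).comap φ).relIndex (stabN (Ψ'.comp φ) p) ≤ d ∧
      ((H.map φ).comap φ).relIndex (stabN (Ψ'.comp φ) p) ≠ 0 := by
  have hle : (H.map φ).comap φ ≤ stabN (Ψ'.comp φ) p := by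
    rintro g ⟨h, hh, he⟩
    show Ψ' (φ g) p = p
    rw [← he]
    exact hfix h hh
  have hA0 : ((H.map φ).comap φ).index ≠ 0 := by
    intro h1
    have := index_comap_map_dvd φ H
    rw [h1] at this
    exact h0 (Nat.eq_zero_of_zero_dvd this)
  have hB0 : (stabN (Ψ'.comp φ) p).index ≠ 0 := by
    intro h1
    have := Subgroup.index_dvd_of_le hle
    rw [h1] at this
    exact hA0 (Nat.eq_zero_of_zero_dvd this)
  have hA : ((H.map φ).comap φ).index ≤ m * d :=
    (Nat.le_of_dvd (Nat.pos_of_ne_zero h0) (index_comap_map_dvd φ H)).trans hI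
  have hB : m ≤ (stabN (Ψ'.comp φ) p).index :=
    hc.trans (le_index_stabN (Ψ := Ψ'.comp φ) S hS hB0)
  exact relIndex_le hle hm hA0 hA hB

end stab

end Cfsg.Agent.Lib.SchurCox
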