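import Mathlib
import Cfsg.Agent.Lib.SchurCox
import Cfsg.Agent.Lib.TcPres

/-!
# Descending through a chain of parabolic subgroups in a central extension

`level_step`: let a family `f` of elements of `E` satisfy a presentation `R`, let `H` be the subgroup of the presented group
generated by the words in `SS`, of index at most `m * d`. If the words in `SS` fix the point `p` (for an action of `E`), and the orbit of `p`
under the family has at least `m` points, then the stabiliser of `p` in the subgroup generated by the family is controlled by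
the subgroup generated by the values of the words in `SS`.

`exists_xt`: a rewriting certificate gives involutive lifts of the generators of a group presented by a Coxeter diagram and a relator `t ^ 9 = 1`
in a central extension.
-/

set_option autoImplicit false

namespace Cfsg.Agent.Lib.SchurFisLev

open Subgroup Cfsg.Spor Cfsg.Agent.Lib.SchurCox

variable {α β : Type*} {E P : Type*} [Group E] [Group P]

theorem toGroup_mk {R : Set (FreeGroup α)} {f : α → E} (hf : ∀ r ∈ R, FreeGroup.lift f r = 1)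
    (w : FreeGroup α) : PresentedGroup.toGroup hf (PresentedGroup.mk R w) = FreeGroup.lift f w := by
  unfold PresentedGroup.toGroup
  rfl

theorem mem_closure_lift {R : Set (FreeGroup α)} {f : α → E} (hf : ∀ r ∈ R, FreeGroup.lift f r = 1)
    {SS : Set (FreeGroup α)} {g : PresentedGroup R} (hg : g ∈ (closure SS).map (PresentedGroup.mk R)) :
    PresentedGroup.toGroup hf g ∈ closure (FreeGroup.lift f '' SS) := by
  obtain ⟨w, hw, rfl⟩ := hg
  rw [toGroup_mk]
  have : (closure SS).map (FreeGroup.lift f) = closure (FreeGroup.lift f '' SS) :=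
    MonoidHom.map_closure _ _
  rw [← this]
  exact Subgroup.mem_map_of_mem _ hw

theorem range_toGroup {R : Set (FreeGroup α)} {f : α → E} (hf : ∀ r ∈ R, FreeGroup.lift f r = 1) :
    (PresentedGroup.toGroup hf).range = closure (Set.range f) := by
  rw [MonoidHom.range_eq_map, ← PresentedGroup.closure_range_of, MonoidHom.map_closure]
  congr 1
  ext x
  constructor
  · rintro ⟨_, ⟨y, rfl⟩, rfl⟩
    exact ⟨y, by simp⟩
  · rintro ⟨y, rfl⟩
    exact ⟨_, ⟨y, rfl⟩, by simp⟩

/-- A level of the chain. -/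
theorem level_step {R : Set (FreeGroup α)} (f : α → E) (hf : ∀ r ∈ R, FreeGroup.lift f r = 1)
    (SS : Set (FreeGroup α)) {m d : ℕ} (hm : 0 < m)
    (h0 : ((closure SS).map (PresentedGroup.mk R)).index ≠ 0)
    (hI : ((closure SS).map (PresentedGroup.mk R)).index ≤ m * d)
    (Ψ : E →* Equiv.Perm ℕ) (p : ℕ) (hfix : ∀ s ∈ SS, Ψ (FreeGroup.lift f s) p = p)
    (S : Set ℕ) (hS : ∀ i ∈ S, ∃ g ∈ closure (Set.range f), Ψ g p = i) (hc : m ≤ S.ncard)
    {κ : E} (hκ : κ ∈ closure (Set.range f)) (hκp : Ψ κ p = p) :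
    (d = 1 → κ ∈ closure (FreeGroup.lift f '' SS)) ∧
      (d = 2 → κ * κ ∈ closure (FreeGroup.lift f '' SS)) := by
  set φ := PresentedGroup.toGroup hf with hφ
  set H := (closure SS).map (PresentedGroup.mk R) with hH
  have hfix' : ∀ h ∈ H, Ψ (φ h) p = p := by
    have hle : H ≤ stabN (Ψ.comp φ) p := by
      rw [hH, Subgroup.map_le_iff_le_comap, closure_le]
      intro s hs
      show Ψ (φ (PresentedGroup.mk R s)) p = p
      rw [hφ, toGroup_mk]
      exact hfix s hs
    exact fun h hh => hle hh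
  have hS' : ∀ i ∈ S, ∃ g, Ψ (φ g) p = i := by
    intro i hi
    obtain ⟨g, hg, hgi⟩ := hS i hi
    rw [← range_toGroup hf] at hg
    obtain ⟨w, rfl⟩ := hg
    exact ⟨w, hgi⟩
  obtain ⟨h1, h2⟩ := level φ H hm h0 hI hfix' S hS' hc
  rw [← range_toGroup hf] at hκ
  obtain ⟨g, rfl⟩ := hκ
  have hg : g ∈ stabN (Ψ.comp φ) p := hκp
  have key : ∀ x : PresentedGroup R, x ∈ (H.map φ).comap φ → φ x ∈ closure (FreeGroup.lift f '' SS) := by
    rintro x ⟨y, hy, hyx⟩
    rw [← hyx]
    exact mem_closure_lift hf hy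
  constructor
  · rintro rfl
    exact key _ (mem_of_relIndex_one h1 h2 hg)
  · rintro rfl
    have := key _ (sq_mem_of_relIndex_two h1 h2 hg)
    rwa [map_mul] at this

/-- The relators of a Coxeter diagram hold if the labels do. -/
theorem lift_cox {γ : Type*} [DecidableEq γ] (edges : List (γ × ℕ × γ)) (f : γ → E)
    (hf : ∀ x y, (f x * f y) ^ coxLabel edges x y = 1) :
    ∀ r ∈ coxRelators edges, FreeGroup.lift f r = 1 := by
  rintro r ⟨x, _, y, _, rfl⟩
  simpa using hf x y

/-- The relators of `relAll` with no further relators hold if the labels do. -/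
theorem lift_relAll {γ : Type} [DecidableEq γ] (edges : List (γ × ℕ × γ)) (nodes : List γ) (f : γ → E)
    (hf : ∀ x y, (f x * f y) ^ coxLabel edges x y = 1) :
    ∀ r ∈ {r | r ∈ Cfsg.Agent.Lib.TcPres.relAll edges nodes []}, FreeGroup.lift f r = 1 := by
  intro r hr
  have hr' : r ∈ Cfsg.Agent.Lib.TcPres.relAll edges nodes [] := hr
  unfold Cfsg.Agent.Lib.TcPres.relAll at hr'
  simp only [List.map_nil, List.append_nil, List.mem_flatMap, List.mem_map] at hr'
  obtain ⟨x, _, y, _, rfl⟩ := hr'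
  simpa using hf x y

/-- The orbit of a point in `E`, given a mask in a quotient. -/
theorem hS_of_sound (σ : E →* P) (Phi : P →* Equiv.Perm ℕ) (f : β → E) (g : β → P)
    (hg : ∀ y, σ (f y) = g y) {p M : ℕ}
    (h : Cfsg.Agent.Lib.TcBits.Sound Phi (closure (Set.range g)) p M) :
    ∀ i ∈ {i | M.testBit i = true}, ∃ e ∈ closure (Set.range f), (Phi.comp σ) e p = i := by
  intro i hi
  obtain ⟨x, hx, hxi⟩ := h i hi
  have he : (closure (Set.range f)).map σ = closure (Set.range g) := by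
    rw [MonoidHom.map_closure]
    congr 1
    ext x
    constructor
    · rintro ⟨_, ⟨y, rfl⟩, rfl⟩
      exact ⟨y, (hg y).symm⟩
    · rintro ⟨y, rfl⟩
      exact ⟨_, ⟨y, rfl⟩, hg y⟩
  rw [← he] at hx
  obtain ⟨e, he1, rfl⟩ := hx
  exact ⟨e, he1, hxi⟩

section xt

variable {G : Type*} [Group G] {σ : E →* G}

/-- Adjusting the lifts to involutions by a central element. -/
theorem exists_u [DecidableEq α] (hK : σ.ker ≤ center E) {ℓ : α → E} {c : E} {mm : α → α → ℕ} (hc0 : σ c = 1)
    (hc : ∀ x, ℓ x * ℓ x = c) (h2 : ∀ a b, mm a b = 2 → ℓ a * ℓ b = ℓ b * ℓ a)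
    (h3 : ∀ a b, mm a b = 3 → ℓ a * ℓ b * ℓ a = ℓ b * ℓ a * ℓ b) (wd : List α) (ms : List ℕ)
    (hrun : run mm ms (rep wd 18) = some []) (hcount : countC ms = 63)
    (ht : σ (evw ℓ wd ^ 9) = 1) :
    ∃ u : E, σ u = 1 ∧ u * u = c ∧ evw ℓ wd ^ 9 = u ^ 63 := by
  have hcc : ∀ x, c * x = x * c := fun x => central_of_ker hK hc0 x
  have h18 : evw ℓ wd ^ 18 = c ^ 63 := by
    have h1 := run_spec h2 h3 hc hcc ms (rep wd 18) [] hrun
    rw [evw_rep, hcount] at h1
    simpa [evw] using h1
  set T := evw ℓ wd ^ 9 with hT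
  have hTT : T * T = c ^ 63 := by
    rw [hT, ← pow_add]
    exact h18
  have hTcomm : T * c = c * T := (hcc T).symm
  refine ⟨T * (c ^ 31)⁻¹, ?_, ?_, ?_⟩
  · rw [map_mul, ht, map_inv, map_pow, hc0]
    simp
  · have hcomm : Commute T (c ^ 31)⁻¹ := by
      apply Commute.inv_right
      apply Commute.pow_right
      exact hTcomm
    calc T * (c ^ 31)⁻¹ * (T * (c ^ 31)⁻¹) = T * T * ((c ^ 31)⁻¹ * (c ^ 31)⁻¹) := by
          rw [mul_assoc, ← mul_assoc (c ^ 31)⁻¹, (hcomm.eq).symm]
          group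
      _ = c ^ 63 * ((c ^ 31)⁻¹ * (c ^ 31)⁻¹) := by rw [hTT]
      _ = c := by group
  · have hcomm : Commute T (c ^ 31)⁻¹ := by
      apply Commute.inv_right
      apply Commute.pow_right
      exact hTcomm
    rw [hcomm.mul_pow]
    have e : ∀ X : E, X ^ 63 = X * (X * X) ^ 31 := fun X => by
      rw [← pow_two, ← pow_mul, ← pow_succ']
    rw [e T, hTT, mul_assoc]
    have : (c ^ 63) ^ 31 * ((c ^ 31)⁻¹) ^ 63 = 1 := by
      group
    rw [this, mul_one]

/-- The values of words after multiplying by a central element. -/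
theorem evw_mul_central {ℓ : α → E} {v : E} (hv : ∀ x, v * x = x * v) (w : List α) :
    evw (fun x => ℓ x * v) w = evw ℓ w * v ^ w.length := by
  induction w with
  | nil => simp [evw]
  | cons x r ih =>
    have e1 : ∀ (f : α → E) , evw f (x :: r) = f x * evw f r := fun f => by simp [evw]
    rw [e1, e1, ih, List.length_cons, pow_succ']
    have := hv (evw ℓ r)
    calc ℓ x * v * (evw ℓ r * v ^ r.length) = ℓ x * (v * evw ℓ r) * v ^ r.length := by group
      _ = ℓ x * (evw ℓ r * v) * v ^ r.length := by rw [this]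
      _ = ℓ x * evw ℓ r * (v * v ^ r.length) := by group

/-- Involutive lifts of the letters. -/
theorem exists_xt [DecidableEq α] (hs : Function.Surjective σ) (hK : σ.ker ≤ center E) {z : G}
    (hp : commutator (centralizer ({z} : Set G)) = ⊤) (hz2 : z * z = 1)
    (mm : α → α → ℕ) (hm1 : ∀ x, mm x x = 1) (hm : ∀ x y, x = y ∨ mm x y = 2 ∨ mm x y = 3)
    (g : α → G) (hg : ∀ x y, (g x * g y) ^ mm x y = 1) (hzg : ∀ x, IsConj z (g x))
    (wd : List α) (hwd : wd.length = 7) (ms : List ℕ)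
    (hrun : run mm ms (rep wd 18) = some []) (hcount : countC ms = 63)
    (ht : evw g wd ^ 9 = 1) :
    ∃ (xt : α → E), (∀ x, σ (xt x) = g x) ∧ (∀ x y, (xt x * xt y) ^ mm x y = 1) ∧
      evw xt wd ^ 9 = 1 := by
  have hg1 : ∀ x, g x * g x = 1 := fun x => by
    have := hg x x
    rwa [hm1, pow_one] at this
  obtain ⟨ℓ, c, hℓ, hc0, hc, h2', h3'⟩ := exists_cox_lift hs hK hp hz2 g hg1 hzg
  have h2 : ∀ a b, mm a b = 2 → ℓ a * ℓ b = ℓ b * ℓ a := by
    intro a b hab
    apply h2'
    have := hg a b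
    rw [hab, pow_two] at this
    have h4 : g a * g b * (g a * g b) = 1 := this
    calc g a * g b = g a * g b * (g a * g b) * ((g b)⁻¹ * (g a)⁻¹) := by group
      _ = (g b)⁻¹ * (g a)⁻¹ := by rw [h4, one_mul]
      _ = g b * g a := by
        rw [inv_eq_of_mul_eq_one_left (hg1 a), inv_eq_of_mul_eq_one_left (hg1 b)]
  have h3 : ∀ a b, mm a b = 3 → ℓ a * ℓ b * ℓ a = ℓ b * ℓ a * ℓ b := by
    intro a b hab
    apply h3'
    rw [← hab]
    exact hg a b
  have hevw : ∀ w, σ (evw ℓ w) = evw g w := by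
    intro w
    induction w with
    | nil => simp [evw]
    | cons x r ih =>
      have e1 : evw ℓ (x :: r) = ℓ x * evw ℓ r := by simp [evw]
      have e2 : evw g (x :: r) = g x * evw g r := by simp [evw]
      rw [e1, e2, map_mul, hℓ, ih]
  have ht' : σ (evw ℓ wd ^ 9) = 1 := by rw [map_pow, hevw, ht]
  obtain ⟨u, hu1, hu2, hu3⟩ := exists_u hK hc0 hc h2 h3 wd ms hrun hcount ht'
  have huc : ∀ x, u⁻¹ * x = x * u⁻¹ := fun x =>
    central_of_ker hK (by rw [map_inv, hu1, inv_one]) x
  have hsq : ∀ x, ℓ x * u⁻¹ * (ℓ x * u⁻¹) = 1 := by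
    intro x
    calc ℓ x * u⁻¹ * (ℓ x * u⁻¹) = ℓ x * (u⁻¹ * ℓ x) * u⁻¹ := by group
      _ = ℓ x * (ℓ x * u⁻¹) * u⁻¹ := by rw [huc]
      _ = (ℓ x * ℓ x) * (u⁻¹ * u⁻¹) := by group
      _ = c * (u⁻¹ * u⁻¹) := by rw [hc]
      _ = 1 := by rw [← hu2]; group
  refine ⟨fun x => ℓ x * u⁻¹, ?_, ?_, ?_⟩
  · intro x
    simp [hℓ, hu1]
  · intro x y
    by_cases hxy : x = y
    · subst hxy
      rw [hm1, pow_one]
      exact hsq x
    · set a := ℓ x * u⁻¹ with ha
      set b := ℓ y * u⁻¹ with hb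
      have hai : a * a = 1 := hsq x
      have hbi : b * b = 1 := hsq y
      rcases hm x y with h | h | h
      · exact absurd h hxy
      · rw [h, pow_two]
        have hab : a * b = b * a := by
          rw [ha, hb]
          calc ℓ x * u⁻¹ * (ℓ y * u⁻¹) = ℓ x * (u⁻¹ * ℓ y) * u⁻¹ := by group
            _ = ℓ x * (ℓ y * u⁻¹) * u⁻¹ := by rw [huc]
            _ = (ℓ x * ℓ y) * (u⁻¹ * u⁻¹) := by group
            _ = (ℓ y * ℓ x) * (u⁻¹ * u⁻¹) := by rw [h2 _ _ h]
            _ = ℓ y * (ℓ x * u⁻¹) * u⁻¹ := by group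
            _ = ℓ y * (u⁻¹ * ℓ x) * u⁻¹ := by rw [huc]
            _ = ℓ y * u⁻¹ * (ℓ x * u⁻¹) := by group
        calc a * b * (a * b) = a * (b * a) * b := by group
          _ = a * (a * b) * b := by rw [hab]
          _ = (a * a) * (b * b) := by group
          _ = 1 := by rw [hai, hbi, one_mul]
      · rw [h]
        have hab : a * b * a = b * a * b := by
          rw [ha, hb]
          have e : ∀ (p q : E), p * u⁻¹ * (q * u⁻¹) * (p * u⁻¹) = p * q * p * (u⁻¹ * u⁻¹ * u⁻¹) := by
            intro p q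
            calc p * u⁻¹ * (q * u⁻¹) * (p * u⁻¹) = p * (u⁻¹ * q) * (u⁻¹ * p) * u⁻¹ := by group
              _ = p * (q * u⁻¹) * (p * u⁻¹) * u⁻¹ := by rw [huc q, huc p]
              _ = p * q * (u⁻¹ * p) * u⁻¹ * u⁻¹ := by group
              _ = p * q * (p * u⁻¹) * u⁻¹ * u⁻¹ := by rw [huc p]
              _ = p * q * p * (u⁻¹ * u⁻¹ * u⁻¹) := by group
          rw [e, e, h3 _ _ h]
        have e3 : (a * b) ^ 3 = a * b * a * (b * a * b) := by
          simp only [pow_succ, pow_zero, one_mul, mul_assoc]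
        rw [e3, ← hab]
        calc a * b * a * (a * b * a) = a * b * (a * a) * b * a := by group
          _ = a * (b * b) * a := by rw [hai]; group
          _ = a * a := by rw [hbi]; group
          _ = 1 := hai
  · have e1 := evw_mul_central (ℓ := ℓ) huc wd
    rw [e1, hwd]
    have hcomm : Commute (evw ℓ wd) ((u⁻¹) ^ 7) := by
      apply Commute.pow_right
      exact ((huc _).symm : Commute (evw ℓ wd) u⁻¹)
    rw [hcomm.mul_pow, hu3]
    group

end xt

end Cfsg.Agent.Lib.SchurFisLev
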