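import Mathlib
import Cfsg.Agent.TcChain36.Fi23.Class
import Cfsg.Agent.TcChain36.Fi23.E6.Step
import Cfsg.Agent.TcChain36.Fi23.D5.Step
import Cfsg.Agent.TcData.SE8c.I240.Up
import Cfsg.Agent.TcData.SE7c.I56.Up
import Cfsg.Agent.TcData.SY222c.I729.Rep
import Cfsg.Agent.TcData.SY224c.I28431.Rep
import Cfsg.Agent.Lib.SchurFisLev

/-!
# The Schur multiplier of `Fi₂₃` is trivial

In a stem extension, the letters have involutive lifts satisfying the Coxeter relations and the relator `t`. The value of the spider word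
on these lifts lies in the subgroup generated by the lifts of the letters of `E₈`, and its cube in that generated by `E₆`. Going down the parabolic
chain `E₈ > E₇ > E₆ > D₅ > 1`, the kernel meets these subgroups trivially, up to squares for `E₈`.
-/

set_option autoImplicit false
set_option maxRecDepth 100000
set_option linter.all false

namespace Cfsg.Agent.Lib.SchurFi23

open Subgroup Cfsg.Spor Cfsg.Spor.Fi23 Cfsg.Agent.Lib.SchurCox Cfsg.Agent.Lib.SchurFisLev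
open Cfsg.Agent.Lib.TcBits Cfsg.Agent.Lib.TcFacts Cfsg.Agent.Lib.TcPres Cfsg.Agent.Lib.ClassD36 Cfsg.Agent.Lib.PresChain36
open Cfsg.Agent.TcData.Fi23 (RR)
open Cfsg.Agent.TcData.Fi23.I31671 (pr hR hv Phi)

abbrev GG := PresentedGroup RR

/-- A word. -/
def wdT : List Gen := [.a, .b, .c, .d, .e, .f, .h]

/-- A rewriting certificate. -/
def msT : List ℕ := [78, 81, 84, 87, 90, 94, 99, 102, 105, 108, 112, 117, 99, 102, 105, 75, 78, 81, 84, 88, 93, 96, 99, 60, 63, 66, 70, 75, 78, 82, 87, 90, 93, 15, 18, 21, 24, 27, 31, 36, 39, 42, 45, 49, 54, 57, 60, 64, 69, 72, 76, 81, 84, 87, 12, 15, 18, 21, 25, 30, 12, 15, 18, 9, 12, 6, 1, 7, 13, 19, 24, 27, 31, 36, 39, 43, 48, 51, 54, 58, 63, 66, 70, 75, 78, 81, 84, 88, 94, 100, 106, 111, 114, 118, 123, 126, 130, 135, 138, 141, 144, 148, 153, 156, 159, 162, 166, 171, 174, 177, 180, 183, 188, 84, 87, 90, 93, 96, 99, 102, 105, 109, 81, 84, 87, 90, 78, 81, 73, 78, 82, 87, 91, 96,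 99, 103, 108, 112, 117, 120, 123, 126, 130, 135, 117, 120, 123, 114, 117, 96, 66, 69, 72, 75, 63, 60, 64, 69, 72, 76, 81, 84, 87, 91, 97, 102, 105, 108, 111, 84, 87, 90, 81, 27, 30, 33, 36, 39, 42, 46, 51, 54, 57, 22, 27, 30, 33, 36, 40, 45, 48, 51, 54, 58, 63, 66, 69, 72, 76, 82, 87, 91, 96, 99, 102, 105, 69, 72, 75, 78, 81, 84, 66, 69, 72, 63, 27, 30, 33, 24, 27, 15, 18, 21, 9, 12, 15, 3, 6, 9, 12, 16, 22, 28, 34, 39, 42, 45, 48, 51, 54, 58, 64, 69, 73, 78, 81, 85, 90, 93, 96, 99, 102, 106, 112, 118, 124, 129, 132, 136, 141, 144, 148, 153, 156, 159, 162, 166, 171, 174, 177, 180, 185, 97, 102, 105, 108, 111, 114, 117, 120, 123, 127, 99, 102, 105, 108, 93, 96, 99, 90, 87, 91, 96, 100, 105, 109, 114, 117, 121, 126, 130, 135, 138, 141, 144, 148, 153, 135, 138, 141, 132, 135, 114, 81, 84, 87, 90, 93, 78, 81, 75, 78, 82, 87, 90, 94, 99, 102, 105, 109, 115, 120, 123, 126, 129, 102, 105, 108, 99, 69, 72, 42, 45, 48,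 39, 42, 45, 49, 54, 57, 60, 63, 66, 69, 73, 63, 66, 36, 39, 42, 45, 49, 54, 57, 60, 63, 67, 72, 76, 81, 84, 87, 90, 94, 100, 105, 109, 114, 117, 120, 123, 87, 90, 93, 96, 99, 102, 84, 87, 90, 81, 54, 57, 60, 30, 33, 24, 27, 18, 21, 24, 28, 34, 39, 42, 45, 49, 54, 57, 61, 66, 69, 72, 76, 82, 87, 91, 96, 99, 103, 108, 111, 114, 117, 120, 124, 130, 136, 142, 147, 150, 154, 159, 162, 166, 171, 174, 177, 182, 115, 120, 123, 126, 129, 132, 135, 138, 141, 145, 117, 120, 123, 126, 111, 114, 117, 108, 105, 109, 114, 118, 123, 127, 132, 135, 139, 144, 148, 153, 156, 159, 162, 166, 171, 153, 156, 159, 150, 153, 132, 99, 102, 105, 108, 111, 96, 99, 93, 96, 100, 105, 108, 112, 117, 120, 123, 127, 133, 138, 141, 144, 147, 120, 123, 126, 117, 87, 90, 67, 72, 75, 78, 81, 84, 87, 91, 81, 84, 63, 67, 72, 75, 78, 81, 85, 90, 94, 99, 102, 105, 108, 112, 118, 123, 127, 132, 135, 138, 141, 105, 108, 111, 114, 117, 120, 102, 105, 108,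 99, 72, 75, 78, 30, 34, 39, 42, 45, 49, 54, 57, 60, 63, 67, 72, 75, 79, 84, 87, 90, 94, 100, 105, 109, 114, 117, 121, 126, 129, 132, 135, 138, 142, 148, 154, 160, 165, 168, 172, 179, 133, 138, 141, 144, 147, 150, 153, 156, 159, 163, 135, 138, 141, 144, 129, 132, 135, 126, 123, 127, 132, 136, 141, 145, 150, 153, 157, 162, 166, 171, 176, 160, 165, 168, 173, 170, 132, 135, 129, 96, 36, 39, 42, 45, 49, 54, 57, 60, 63, 67, 72, 75, 33, 36, 39, 43, 48, 51, 54, 57, 61, 66, 69, 51, 54, 30, 33, 37, 42, 45, 48, 9, 12, 15, 19, 24, 27, 31, 36, 39, 42, 9, 12, 6, 1, 7, 13, 18, 21, 25, 30, 33, 36, 39, 43, 49, 55, 60, 63, 66, 70, 76, 81, 84, 87, 91, 97, 102, 105, 108, 112, 117, 120, 124, 130, 136, 141, 144, 147, 150, 153, 156, 159, 162, 167, 138, 141, 132, 135, 126, 129, 102, 105, 99, 93, 39, 42, 45, 48, 51, 54, 57, 61, 66, 69, 36, 39, 42, 45, 48, 51, 55, 60, 33, 36, 28, 33, 37, 42, 45, 49, 54, 57, 61, 66, 70, 75, 78, 81, 84,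 87, 90, 94, 100, 106, 111, 114, 79, 84, 87, 90, 93, 96, 99, 75, 79, 84, 87, 90, 66, 69, 72, 75, 79, 69, 72, 63, 66, 42, 18, 21, 15, 18, 22, 27, 30, 33, 37, 43, 48, 51, 54, 57, 60, 30, 33, 36, 27, 9, 3, 6, 10, 15, 18, 22, 28, 33, 37, 42, 45, 48, 51, 54, 57, 61, 67, 73, 78, 82, 87, 91, 96, 100, 105, 108, 111, 115, 120, 123, 126, 130, 136, 142, 147, 150, 153, 156, 159, 164, 144, 138, 108, 111, 114, 117, 120, 123, 105, 102, 106, 111, 96, 99, 93, 96, 100, 105, 108, 112, 117, 120, 124, 129, 132, 135, 139, 145, 150, 153, 147, 129, 132, 87, 90, 51, 46, 52, 57, 60, 63, 66, 69, 72, 75, 78, 81, 84, 87, 91, 81, 84, 54, 57, 60, 63, 48, 51, 54, 42, 45, 39, 42, 46, 51, 55, 60, 64, 69, 72, 75, 78, 81, 85, 90, 94, 99, 102, 105, 108, 112, 117, 120, 124, 129, 133, 138, 141, 105, 108, 111, 114, 117, 120, 123, 126, 100, 105, 108, 111, 114, 96, 100, 105, 108, 70, 75, 78, 81, 84, 87, 90, 93, 60, 63, 66, 70, 75, 63, 57, 33, 36, 39, 30,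 33, 36, 40, 45, 48, 51, 54, 58, 64, 69, 72, 76, 81, 84, 87, 48, 51, 54, 57, 60, 63, 67, 45, 48, 24, 27, 12, 15, 18, 21, 24, 28, 33, 36, 40, 45, 49, 54, 57, 61, 66, 70, 75, 78, 81, 84, 88, 94, 99, 102, 105, 109, 115, 120, 123, 127, 132, 135, 138, 142, 148, 154, 161, 158, 150, 155, 144, 147, 152, 135, 138, 79, 84, 87, 90, 93, 96, 100, 105, 108, 111, 114, 118, 123, 126, 130, 81, 84, 87, 90, 94, 99, 75, 72, 76, 81, 84, 88, 93, 96, 100, 105, 108, 112, 117, 120, 124, 129, 133, 139, 144, 149, 96, 99, 102, 105, 108, 111, 91, 96, 99, 102, 105, 87, 91, 96, 99, 84, 87, 91, 81, 84, 78, 45, 48, 51, 42, 12, 15, 19, 24, 27, 30, 33, 37, 43, 48, 52, 57, 60, 63, 66, 30, 33, 36, 39, 42, 45, 27, 30, 33, 24, 6, 9, 13, 18, 1, 7, 12, 15, 19, 25, 30, 34, 39, 42, 46, 51, 54, 57, 60, 63, 67, 73, 79, 85, 90, 94, 100, 106, 112, 117, 120, 123, 126, 129, 132, 135, 138, 141, 146, 114, 117, 120, 108, 111, 114, 102, 105, 108, 96, 99, 102, 58,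 63, 66, 69, 72, 75, 78, 60, 63, 66, 69, 54, 57, 60, 51, 48, 52, 57, 61, 66, 70, 75, 79, 84, 87, 90, 93, 96, 99, 103, 109, 115, 121, 126, 129, 132, 135, 117, 121, 126, 129, 111, 114, 117, 121, 85, 90, 93, 96, 99, 102, 75, 78, 81, 85, 90, 93, 78, 72, 42, 45, 48, 51, 54, 39, 42, 36, 39, 43, 48, 51, 55, 60, 63, 66, 69, 73, 79, 84, 87, 90, 94, 99, 103, 108, 111, 114, 63, 66, 69, 72, 75, 78, 82, 87, 60, 63, 30, 33, 15, 18, 21, 24, 27, 30, 34, 24, 27, 10, 15, 18, 21, 24, 28, 33, 37, 42, 45, 48, 51, 55, 60, 64, 69, 72, 76, 81, 84, 88, 93, 96, 99, 103, 108, 48, 51, 54, 57, 60, 63, 66, 69, 72, 75, 79, 45, 48, 51, 54, 42, 15, 18, 21, 3, 6, 10, 15, 18, 22, 27, 30, 33, 37, 43, 48, 51, 55, 60, 63, 66, 69, 73, 78, 82, 87, 90, 93, 96, 99, 103, 109, 115, 120, 124, 130, 136, 143, 140, 132, 137, 118, 123, 126, 129, 134, 93, 96, 99, 102, 105, 108, 111, 90, 63, 28, 33, 36, 39, 42, 46, 51, 54, 58, 64, 69, 72, 75, 78, 81, 85, 91, 96,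 99, 24, 28, 33, 36, 40, 45, 48, 52, 57, 60, 64, 69, 72, 75, 79, 84, 87, 91, 96, 100, 105, 108, 112, 117, 120, 123, 126, 131, 120, 123, 128, 70, 75, 78, 81, 84, 87, 90, 66, 70, 75, 78, 81, 84, 63, 66, 70, 75, 78, 60, 63, 66, 70, 57, 60, 63, 54, 57, 51, 18, 21, 24, 27, 30, 33, 36, 39, 42, 46, 52, 58, 64, 69, 73, 79, 85, 91, 96, 99, 102, 105, 108, 111, 114, 117, 93, 96, 87, 90, 81, 84, 75, 78, 81, 85, 91, 97, 102, 105, 108, 111, 99, 102, 105, 93, 67, 72, 75, 78, 60, 63, 67, 72, 75, 79, 84, 87, 90, 94, 99, 84, 87, 54, 57, 60, 63, 67, 72, 75, 79, 84, 88, 93, 42, 45, 48, 51, 39, 42, 45, 36, 39, 15, 18, 21, 24, 27, 31, 36, 40, 46, 52, 57, 60, 63, 66, 69, 72, 75, 78, 81, 54, 48, 27, 30, 33, 12, 15, 18, 22, 27, 30, 34, 39, 42, 45, 49, 55, 60, 63, 66, 69, 39, 42, 3, 7, 12, 16, 21, 24, 27, 30, 34, 39, 43, 48, 51, 55, 60, 63, 48, 1, 6, 10, 15, 18, 21, 24, 27, 30, 34, 39, 43, 49, 54, 57, 60, 64, 70, 75, 78, 82, 87, 90, 94,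 100, 106, 112, 118, 125, 122, 114, 119, 108, 111, 116, 102, 105, 108, 113, 96, 99, 102, 105, 110, 90, 85, 91, 96, 99, 102, 107, 104, 101, 98, 95, 87, 92, 81, 84, 89, 86, 60, 63, 66, 69, 72, 57, 60, 63, 66, 52, 57, 60, 48, 52, 45, 40, 46, 51, 55, 61, 67, 73, 78, 83, 75, 80, 69, 63, 66, 70, 77, 74, 57, 60, 63, 66, 71, 36, 39, 31, 36, 40, 45, 48, 51, 54, 57, 60, 63, 68, 46, 51, 54, 57, 60, 65, 57, 62, 52, 59, 56, 48, 53, 42, 45, 50, 39, 42, 47, 39, 44, 24, 27, 30, 33, 21, 24, 27, 18, 21, 6, 9, 13, 3, 7, 12, 16, 22, 28, 34, 41, 38, 30, 35, 24, 27, 32, 18, 21, 24, 29, 1, 6, 9, 12, 15, 18, 21, 26, 7, 12, 15, 18, 23, 20, 17, 14, 11, 3, 8, 0, 5, 2]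

theorem h_run : run (coxLabel edges) msT (rep wdT 18) = some [] := by decide +kernel

theorem h_count : countC msT = 63 := by decide +kernel

theorem hn : ∀ x : Gen, x ∈ coxNodes edges := by intro x; cases x <;> decide

theorem hm1 : ∀ x : Gen, coxLabel edges x x = 1 := by intro x; cases x <;> decide

theorem hm : ∀ x y : Gen, x = y ∨ coxLabel edges x y = 2 ∨ coxLabel edges x y = 3 := by
  intro x y; cases x <;> cases y <;> decide

theorem hg : ∀ x y : Gen, (PresentedGroup.of x * PresentedGroup.of y : GG) ^ coxLabel edges x y = 1 := by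
  intro x y
  have h : PresentedGroup.mk RR ((FreeGroup.of x * FreeGroup.of y) ^ coxLabel edges x y) = 1 :=
    PresentedGroup.one_of_mem (Or.inl ⟨x, hn x, y, hn y, rfl⟩)
  rw [map_pow, map_mul] at h
  exact h

/-- The spider word. -/
noncomputable def spiderG : FreeGroup Gen := (d * c * b * d * e * f * d * h * i) ^ 10

theorem spider_one : PresentedGroup.mk RR spiderG = 1 :=
  PresentedGroup.one_of_mem (Or.inr (by simp [extra, spiderG]))

theorem t_one : evw (PresentedGroup.of : Gen → GG) wdT ^ 9 = 1 := by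
  have h : PresentedGroup.mk RR ((a * b * c * d * e * f * h) ^ 9) = 1 :=
    PresentedGroup.one_of_mem (Or.inr (by simp [extra]))
  simpa [evw, wdT, PresentedGroup.of, mul_assoc] using h

theorem nonab : ∃ a b : PresentedGroup Cfsg.Agent.TcData.Fi22.RR, a * b ≠ b * a := by
  by_contra hcon
  push Not at hcon
  haveI : IsSimpleGroup (PresentedGroup Cfsg.Agent.TcData.Fi22.RR) := Cfsg.Agent.TcChain36.Fi22.main.1
  have h1 : Subgroup.center (PresentedGroup Cfsg.Agent.TcData.Fi22.RR) = ⊤ := by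
    rw [eq_top_iff]
    intro x _
    rw [Subgroup.mem_center_iff]
    exact fun y => hcon y x
  have hp : ∃ y : PresentedGroup Cfsg.Agent.TcData.Fi22.RR, y ≠ 1 := exists_ne 1
  obtain ⟨y, hy⟩ := hp
  have h2 : Subgroup.zpowers y = ⊤ := by
    have hnorm : (Subgroup.zpowers y).Normal := by
      refine ⟨fun n hn g => ?_⟩
      rw [hcon g n, mul_assoc, mul_inv_cancel, mul_one]
      exact hn
    rcases hnorm.eq_bot_or_eq_top with h3 | h3
    · exact absurd (Subgroup.zpowers_eq_bot.mp h3) hy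
    · exact h3
  have h4 : Subgroup.zpowers (y ^ 2) = ⊤ ∨ Subgroup.zpowers (y ^ 2) = ⊥ := by
    have hnorm : (Subgroup.zpowers (y ^ 2)).Normal := by
      refine ⟨fun n hn g => ?_⟩
      rw [hcon g n, mul_assoc, mul_inv_cancel, mul_one]
      exact hn
    rcases hnorm.eq_bot_or_eq_top with h3 | h3
    · exact Or.inr h3
    · exact Or.inl h3
  have hc := Cfsg.Agent.TcChain36.Fi22.main.2
  have hc2 : Nat.card (PresentedGroup Cfsg.Agent.TcData.Fi22.RR) = orderOf y := by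
    rw [← Nat.card_zpowers, h2, Subgroup.card_top]
  rcases h4 with h4 | h4
  · have hc3 : Nat.card (PresentedGroup Cfsg.Agent.TcData.Fi22.RR) = orderOf (y ^ 2) := by
      rw [← Nat.card_zpowers, h4, Subgroup.card_top]
    have hc4 : orderOf (y ^ 2) = orderOf y / Nat.gcd (orderOf y) 2 :=
      orderOf_pow' _ (by norm_num)
    rw [← hc2] at hc4
    rw [← hc3, hc] at hc4
    norm_num at hc4
  · have h5 : y ^ 2 = 1 := Subgroup.zpowers_eq_bot.mp h4
    have h6 : orderOf y ∣ 2 := orderOf_dvd_of_pow_eq_one h5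
    rw [← hc2, hc] at h6
    norm_num at h6

theorem hp : commutator (centralizer ({Cfsg.Agent.TcChain36.Fi23.zz} : Set GG)) = ⊤ := by
  haveI : IsSimpleGroup (PresentedGroup Cfsg.Agent.TcData.Fi22.RR) := Cfsg.Agent.TcChain36.Fi22.main.1
  exact commutator_eq_top_of_nonsplit nonab
    (nonsplit_of_conj Cfsg.Agent.TcChain36.Fi23.hZc Cfsg.Agent.TcChain36.Fi23.hcomm
      Cfsg.Agent.TcChain36.Fi23.cover _ (IsConj.refl _))

theorem hzg (x : Gen) : IsConj Cfsg.Agent.TcChain36.Fi23.zz (PresentedGroup.of x : GG) :=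
  Cfsg.Agent.TcChain36.Fi23.hconj _ ⟨x, rfl⟩

/-! ## Sub-alphabets -/

/-- `E₈`. -/
def ι8 : Cfsg.Agent.Lib.SchurDefs.E8c.Gen → Gen
  | .c => .c | .d => .d | .e => .e | .f => .f | .g => .g | .j => .j | .h => .h | .i => .i

/-- `E₇`. -/
def ι7 : Cfsg.Agent.Lib.SchurDefs.E7c.Gen → Gen
  | .c => .c | .d => .d | .e => .e | .f => .f | .g => .g | .h => .h | .i => .i

/-- `E₆`. -/
def ι6 : Cfsg.Agent.TcChain36.Fi22.E6.Gen → Gen
  | .c => .c | .d => .d | .e => .e | .f => .f | .h => .h | .i => .i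

/-- `D₅`. -/
def ι5 : Cfsg.Agent.TcChain36.Fi22.D5.Gen → Gen
  | .c => .c | .d => .d | .e => .e | .f => .f | .h => .h

/-- `Y₂₂₄`. -/
def ι224 : Cfsg.Agent.Lib.SchurDefs.Y224c.Gen → Gen
  | .b => .b | .c => .c | .d => .d | .e => .e | .f => .f | .g => .g | .j => .j | .h => .h | .i => .i

/-- `Y₂₂₂`. -/
def ι222 : Cfsg.Agent.Lib.SchurDefs.Y222c.Gen → Gen
  | .b => .b | .c => .c | .d => .d | .e => .e | .f => .f | .h => .h | .i => .i

theorem c8 (x y) : coxLabel Cfsg.Agent.Lib.SchurDefs.E8c.edges x y = coxLabel edges (ι8 x) (ι8 y) := by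
  cases x <;> cases y <;> decide
theorem c7 (x y) : coxLabel Cfsg.Agent.Lib.SchurDefs.E7c.edges x y = coxLabel edges (ι7 x) (ι7 y) := by
  cases x <;> cases y <;> decide
theorem c6 (x y) : coxLabel Cfsg.Agent.TcChain36.Fi22.E6.edges x y = coxLabel edges (ι6 x) (ι6 y) := by
  cases x <;> cases y <;> decide
theorem c5 (x y) : coxLabel Cfsg.Agent.TcChain36.Fi22.D5.edges x y = coxLabel edges (ι5 x) (ι5 y) := by
  cases x <;> cases y <;> decide
theorem c224 (x y) : coxLabel Cfsg.Agent.Lib.SchurDefs.Y224c.edges x y = coxLabel edges (ι224 x) (ι224 y) := by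
  cases x <;> cases y <;> decide
theorem c222 (x y) : coxLabel Cfsg.Agent.Lib.SchurDefs.Y222c.edges x y = coxLabel edges (ι222 x) (ι222 y) := by
  cases x <;> cases y <;> decide

/-! ## The masks -/

noncomputable def rs8 : List (FreeGroup Gen) := [c, d, e, f, g, j, h, i]
noncomputable def rs7 : List (FreeGroup Gen) := [c, d, e, f, g, h, i]
noncomputable def rs6 : List (FreeGroup Gen) := [c, d, e, f, h, i]
noncomputable def rs5 : List (FreeGroup Gen) := [c, d, e, f, h]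

noncomputable def M8 : ℕ := grow pr (rs8.map FreeGroup.toWord) 11 (2 ^ 0)
noncomputable def M7 : ℕ := grow pr (rs7.map FreeGroup.toWord) 10 (2 ^ 1)
noncomputable def M6 : ℕ := grow pr (rs6.map FreeGroup.toWord) 7 (2 ^ 36)
noncomputable def M5 : ℕ := grow pr (rs5.map FreeGroup.toWord) 6 (2 ^ 21638)

theorem M8_lt : M8 < 2 ^ 2 ^ 15 := by decide +kernel
theorem M7_lt : M7 < 2 ^ 2 ^ 15 := by decide +kernel
theorem M6_lt : M6 < 2 ^ 2 ^ 15 := by decide +kernel
theorem M5_lt : M5 < 2 ^ 2 ^ 15 := by decide +kernel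

theorem M8_c : sumRange M8.testBit 15 0 = 120 := by decide +kernel
theorem M7_c : sumRange M7.testBit 15 0 = 56 := by decide +kernel
theorem M6_c : sumRange M6.testBit 15 0 = 27 := by decide +kernel
theorem M5_c : sumRange M5.testBit 15 0 = 1920 := by decide +kernel

theorem S8 : Sound Phi (closure (Set.range ((PresentedGroup.of : Gen → GG) ∘ ι8))) 0 M8 := by
  refine sound_grow hR hv rs8 ?_ 11 (2 ^ 0) (sound_single _ _)
  intro r hr
  simp only [rs8, List.mem_cons, List.not_mem_nil, or_false] at hr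
  rcases hr with rfl | rfl | rfl | rfl | rfl | rfl | rfl | rfl
  exacts [subset_closure ⟨.c, rfl⟩, subset_closure ⟨.d, rfl⟩, subset_closure ⟨.e, rfl⟩, subset_closure ⟨.f, rfl⟩,
    subset_closure ⟨.g, rfl⟩, subset_closure ⟨.j, rfl⟩, subset_closure ⟨.h, rfl⟩, subset_closure ⟨.i, rfl⟩]

theorem S7 : Sound Phi (closure (Set.range ((PresentedGroup.of : Gen → GG) ∘ ι7))) 1 M7 := by
  refine sound_grow hR hv rs7 ?_ 10 (2 ^ 1) (sound_single _ _)
  intro r hr
  simp only [rs7, List.mem_cons, List.not_mem_nil, or_false] at hr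
  rcases hr with rfl | rfl | rfl | rfl | rfl | rfl | rfl
  exacts [subset_closure ⟨.c, rfl⟩, subset_closure ⟨.d, rfl⟩, subset_closure ⟨.e, rfl⟩, subset_closure ⟨.f, rfl⟩,
    subset_closure ⟨.g, rfl⟩, subset_closure ⟨.h, rfl⟩, subset_closure ⟨.i, rfl⟩]

theorem S6 : Sound Phi (closure (Set.range ((PresentedGroup.of : Gen → GG) ∘ ι6))) 36 M6 := by
  refine sound_grow hR hv rs6 ?_ 7 (2 ^ 36) (sound_single _ _)
  intro r hr
  simp only [rs6, List.mem_cons, List.not_mem_nil, or_false] at hr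
  rcases hr with rfl | rfl | rfl | rfl | rfl | rfl
  exacts [subset_closure ⟨.c, rfl⟩, subset_closure ⟨.d, rfl⟩, subset_closure ⟨.e, rfl⟩, subset_closure ⟨.f, rfl⟩,
    subset_closure ⟨.h, rfl⟩, subset_closure ⟨.i, rfl⟩]

theorem S5 : Sound Phi (closure (Set.range ((PresentedGroup.of : Gen → GG) ∘ ι5))) 21638 M5 := by
  refine sound_grow hR hv rs5 ?_ 6 (2 ^ 21638) (sound_single _ _)
  intro r hr
  simp only [rs5, List.mem_cons, List.not_mem_nil, or_false] at hr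
  rcases hr with rfl | rfl | rfl | rfl | rfl
  exacts [subset_closure ⟨.c, rfl⟩, subset_closure ⟨.d, rfl⟩, subset_closure ⟨.e, rfl⟩, subset_closure ⟨.f, rfl⟩,
    subset_closure ⟨.h, rfl⟩]

/-! ## The chain -/

section chain

variable {E : Type*} [Group E] {σ : E →* GG} {xt : Gen → E}

theorem sigma_lift (hσ : ∀ x, σ (xt x) = PresentedGroup.of x) {β : Type*} (ι : β → Gen) (w : FreeGroup β) :
    σ (FreeGroup.lift (xt ∘ ι) w) = PresentedGroup.mk RR (FreeGroup.map ι w) := by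
  have : σ.comp (FreeGroup.lift (xt ∘ ι)) = (PresentedGroup.mk RR).comp (FreeGroup.map ι) := by
    ext x
    simp [hσ, PresentedGroup.of]
  exact DFunLike.congr_fun this w

theorem fixS (hσ : ∀ x, σ (xt x) = PresentedGroup.of x) {β : Type*} (ι : β → Gen) {SS : Set (FreeGroup β)} {p : ℕ}
    (hw : ∀ s ∈ SS, wordApply (sgnProg pr) (FreeGroup.map ι s).toWord (2 ^ p) = 2 ^ p) :
    ∀ s ∈ SS, (Phi.comp σ) (FreeGroup.lift (xt ∘ ι) s) p = p := by
  intro s hs
  rw [MonoidHom.comp_apply, sigma_lift hσ]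
  exact phi_of_check hR hv (hw s hs)

variable (hσ : ∀ x, σ (xt x) = PresentedGroup.of x) (hcox : ∀ x y, (xt x * xt y) ^ coxLabel edges x y = 1)

include hσ hcox

theorem L5 {κ : E} (hκ : κ ∈ closure (Set.range (xt ∘ ι5))) (h1 : σ κ = 1) : κ = 1 := by
  have hf := lift_relAll Cfsg.Agent.TcChain36.Fi22.D5.edges Cfsg.Agent.TcChain36.Fi22.D5.nodesL (xt ∘ ι5)
    (fun x y => by rw [c5]; exact hcox _ _)
  have h2 := (level_step (R := Cfsg.Agent.TcChain36.Fi22.D5.RR) (xt ∘ ι5) hf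
    (FreeGroup.of '' Cfsg.Agent.TcChain36.Fi22.D5.BB) (m := 1920) (d := 1) (by norm_num)
    Cfsg.Agent.TcChain36.Fi22.D5.index_le'.1 (by simpa using Cfsg.Agent.TcChain36.Fi22.D5.index_le'.2)
    (Phi.comp σ) 21638 (fixS hσ ι5 (by
      rintro _ ⟨x, hx, rfl⟩
      simp [Cfsg.Agent.TcChain36.Fi22.D5.BB] at hx))
    {i | M5.testBit i = true} (hS_of_sound σ Phi _ (PresentedGroup.of ∘ ι5) (fun y => hσ _) S5)
    (by rw [ncard_mask M5_lt, M5_c]) hκ (by simp [h1])).1 rfl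
  have h3 : FreeGroup.of '' Cfsg.Agent.TcChain36.Fi22.D5.BB = ∅ := by
    simp [Cfsg.Agent.TcChain36.Fi22.D5.BB]
  rw [h3] at h2
  simpa using h2

theorem L6 {κ : E} (hκ : κ ∈ closure (Set.range (xt ∘ ι6))) (h1 : σ κ = 1) : κ = 1 := by
  have hf := lift_relAll Cfsg.Agent.TcChain36.Fi22.E6.edges Cfsg.Agent.TcChain36.Fi22.E6.nodesL (xt ∘ ι6)
    (fun x y => by rw [c6]; exact hcox _ _)
  have h2 := (level_step (R := Cfsg.Agent.TcChain36.Fi22.E6.RR) (xt ∘ ι6) hf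
    (FreeGroup.of '' Cfsg.Agent.TcChain36.Fi22.E6.BB) (m := 27) (d := 1) (by norm_num)
    Cfsg.Agent.TcChain36.Fi22.E6.index_le'.1 (by simpa using Cfsg.Agent.TcChain36.Fi22.E6.index_le'.2)
    (Phi.comp σ) 36 (fixS hσ ι6 (by
      rintro _ ⟨x, hx, rfl⟩
      simp only [Cfsg.Agent.TcChain36.Fi22.E6.BB, Set.mem_setOf_eq, List.mem_cons, List.not_mem_nil, or_false] at hx
      rcases hx with rfl | rfl | rfl | rfl | rfl <;> decide +kernel))
    {i | M6.testBit i = true} (hS_of_sound σ Phi _ (PresentedGroup.of ∘ ι6) (fun y => hσ _) S6)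
    (by rw [ncard_mask M6_lt, M6_c]) hκ (by simp [h1])).1 rfl
  apply L5 hσ hcox _ h1
  refine (closure_le _).mpr ?_ h2
  rintro _ ⟨_, ⟨x, hx, rfl⟩, rfl⟩
  simp only [Cfsg.Agent.TcChain36.Fi22.E6.BB, Set.mem_setOf_eq, List.mem_cons, List.not_mem_nil, or_false] at hx
  rcases hx with rfl | rfl | rfl | rfl | rfl
  exacts [subset_closure ⟨.c, by simp [ι5, ι6]⟩, subset_closure ⟨.d, by simp [ι5, ι6]⟩,
    subset_closure ⟨.e, by simp [ι5, ι6]⟩, subset_closure ⟨.f, by simp [ι5, ι6]⟩,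
    subset_closure ⟨.h, by simp [ι5, ι6]⟩]

theorem L7 {κ : E} (hκ : κ ∈ closure (Set.range (xt ∘ ι7))) (h1 : σ κ = 1) : κ = 1 := by
  have hf : ∀ r ∈ Cfsg.Agent.TcData.SE7c.RR, FreeGroup.lift (xt ∘ ι7) r = 1 := by
    rintro r (hr | hr)
    · exact lift_cox _ _ (fun x y => by rw [c7]; exact hcox _ _) r hr
    · exact absurd hr (by simp [Cfsg.Agent.Lib.SchurDefs.E7c.extra])
  have h2 := (level_step (R := Cfsg.Agent.TcData.SE7c.RR) (xt ∘ ι7) hf
    Cfsg.Agent.TcData.SE7c.I56.SS (m := 56) (d := 1) (by norm_num)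
    Cfsg.Agent.TcData.SE7c.I56.index_le'.1 (by simpa using Cfsg.Agent.TcData.SE7c.I56.index_le'.2)
    (Phi.comp σ) 1 (fixS hσ ι7 (by
      intro s hs
      simp only [Cfsg.Agent.TcData.SE7c.I56.SS, Set.mem_insert_iff, Set.mem_singleton_iff] at hs
      rcases hs with rfl | rfl | rfl | rfl | rfl | rfl <;> decide +kernel))
    {i | M7.testBit i = true} (hS_of_sound σ Phi _ (PresentedGroup.of ∘ ι7) (fun y => hσ _) S7)
    (by rw [ncard_mask M7_lt, M7_c]) hκ (by simp [h1])).1 rfl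
  apply L6 hσ hcox _ h1
  refine (closure_le _).mpr ?_ h2
  rintro _ ⟨x, hx, rfl⟩
  simp only [Cfsg.Agent.TcData.SE7c.I56.SS, Set.mem_insert_iff, Set.mem_singleton_iff] at hx
  rcases hx with rfl | rfl | rfl | rfl | rfl | rfl
  exacts [subset_closure ⟨.c, by simp [ι7, ι6]⟩, subset_closure ⟨.d, by simp [ι7, ι6]⟩,
    subset_closure ⟨.e, by simp [ι7, ι6]⟩, subset_closure ⟨.f, by simp [ι7, ι6]⟩,
    subset_closure ⟨.h, by simp [ι7, ι6]⟩, subset_closure ⟨.i, by simp [ι7, ι6]⟩]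

theorem L8 {κ : E} (hκ : κ ∈ closure (Set.range (xt ∘ ι8))) (h1 : σ κ = 1) : κ * κ = 1 := by
  have hf : ∀ r ∈ Cfsg.Agent.TcData.SE8c.RR, FreeGroup.lift (xt ∘ ι8) r = 1 := by
    rintro r (hr | hr)
    · exact lift_cox _ _ (fun x y => by rw [c8]; exact hcox _ _) r hr
    · exact absurd hr (by simp [Cfsg.Agent.Lib.SchurDefs.E8c.extra])
  have h2 := (level_step (R := Cfsg.Agent.TcData.SE8c.RR) (xt ∘ ι8) hf
    Cfsg.Agent.TcData.SE8c.I240.SS (m := 120) (d := 2) (by norm_num)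
    Cfsg.Agent.TcData.SE8c.I240.index_le'.1 (by simpa using Cfsg.Agent.TcData.SE8c.I240.index_le'.2)
    (Phi.comp σ) 0 (fixS hσ ι8 (by
      intro s hs
      simp only [Cfsg.Agent.TcData.SE8c.I240.SS, Set.mem_insert_iff, Set.mem_singleton_iff] at hs
      rcases hs with rfl | rfl | rfl | rfl | rfl | rfl | rfl <;> decide +kernel))
    {i | M8.testBit i = true} (hS_of_sound σ Phi _ (PresentedGroup.of ∘ ι8) (fun y => hσ _) S8)
    (by rw [ncard_mask M8_lt, M8_c]) hκ (by simp [h1])).2 rfl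
  apply L7 hσ hcox _ (by simp [h1])
  refine (closure_le _).mpr ?_ h2
  rintro _ ⟨x, hx, rfl⟩
  simp only [Cfsg.Agent.TcData.SE8c.I240.SS, Set.mem_insert_iff, Set.mem_singleton_iff] at hx
  rcases hx with rfl | rfl | rfl | rfl | rfl | rfl | rfl
  exacts [subset_closure ⟨.c, by simp [ι8, ι7]⟩, subset_closure ⟨.d, by simp [ι8, ι7]⟩,
    subset_closure ⟨.e, by simp [ι8, ι7]⟩, subset_closure ⟨.f, by simp [ι8, ι7]⟩,
    subset_closure ⟨.g, by simp [ι8, ι7]⟩, subset_closure ⟨.h, by simp [ι8, ι7]⟩,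
    subset_closure ⟨.i, by simp [ι8, ι7]⟩]

theorem S_cube (hc : ∀ x : E, FreeGroup.lift xt spiderG * x = x * FreeGroup.lift xt spiderG) :
    FreeGroup.lift xt spiderG ^ 3 ∈ closure (Set.range (xt ∘ ι6)) := by
  have hsq : ∀ x, xt x * xt x = 1 := fun x => by
    have := hcox x x
    rwa [hm1, pow_one] at this
  have hS : FreeGroup.lift (xt ∘ ι222) Cfsg.Agent.Lib.SchurDefs.Y222c.spider = FreeGroup.lift xt spiderG := by
    simp [Cfsg.Agent.Lib.SchurDefs.Y222c.spider, spiderG, ι222]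
  have hf : ∀ r ∈ Cfsg.Agent.TcData.SY222c.RR, FreeGroup.lift (xt ∘ ι222) r = 1 := by
    rintro r (hr | hr)
    · exact lift_cox _ _ (fun x y => by rw [c222]; exact hcox _ _) r hr
    · have hr' : r ∈ Cfsg.Agent.Lib.SchurDefs.Y222c.extra := hr
      have key : ∀ x, FreeGroup.lift (xt ∘ ι222) Cfsg.Agent.Lib.SchurDefs.Y222c.spider * (xt (ι222 x)) *
          (FreeGroup.lift (xt ∘ ι222) Cfsg.Agent.Lib.SchurDefs.Y222c.spider)⁻¹ * xt (ι222 x) = 1 := by
        intro x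
        rw [hS, hc, mul_inv_cancel_right, hsq]
      simp only [Cfsg.Agent.Lib.SchurDefs.Y222c.extra, List.mem_cons, List.not_mem_nil, or_false] at hr'
      rcases hr' with rfl | rfl | rfl | rfl | rfl | rfl | rfl <;>
        simpa using key _
  have hmem : PresentedGroup.mk Cfsg.Agent.TcData.SY222c.RR (Cfsg.Agent.Lib.SchurDefs.Y222c.spider ^ 3) ∈
      Cfsg.Agent.TcData.SY222c.I729.HH :=
    mem_of_fix Cfsg.Agent.TcData.SY222c.I729.bij.2.1
      (phi_of_check Cfsg.Agent.TcData.SY222c.I729.hR Cfsg.Agent.TcData.SY222c.I729.hv (by decide +kernel))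
  have h2 := mem_closure_lift hf hmem
  rw [toGroup_mk, map_pow, hS] at h2
  refine (closure_le _).mpr ?_ h2
  rintro _ ⟨x, hx, rfl⟩
  simp only [Cfsg.Agent.TcData.SY222c.I729.SS, Set.mem_insert_iff, Set.mem_singleton_iff] at hx
  rcases hx with rfl | rfl | rfl | rfl | rfl | rfl
  exacts [subset_closure ⟨.c, by simp [ι222, ι6]⟩, subset_closure ⟨.d, by simp [ι222, ι6]⟩,
    subset_closure ⟨.e, by simp [ι222, ι6]⟩, subset_closure ⟨.f, by simp [ι222, ι6]⟩,
    subset_closure ⟨.h, by simp [ι222, ι6]⟩, subset_closure ⟨.i, by simp [ι222, ι6]⟩]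

theorem S_mem8 (hc : ∀ x : E, FreeGroup.lift xt spiderG * x = x * FreeGroup.lift xt spiderG) :
    FreeGroup.lift xt spiderG ∈ closure (Set.range (xt ∘ ι8)) := by
  have hsq : ∀ x, xt x * xt x = 1 := fun x => by
    have := hcox x x
    rwa [hm1, pow_one] at this
  have hS : FreeGroup.lift (xt ∘ ι224) Cfsg.Agent.Lib.SchurDefs.Y224c.spider = FreeGroup.lift xt spiderG := by
    simp [Cfsg.Agent.Lib.SchurDefs.Y224c.spider, spiderG, ι224]
  have hf : ∀ r ∈ Cfsg.Agent.TcData.SY224c.RR, FreeGroup.lift (xt ∘ ι224) r = 1 := by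
    rintro r (hr | hr)
    · exact lift_cox _ _ (fun x y => by rw [c224]; exact hcox _ _) r hr
    · have hr' : r ∈ Cfsg.Agent.Lib.SchurDefs.Y224c.extra := hr
      have key : ∀ x, FreeGroup.lift (xt ∘ ι224) Cfsg.Agent.Lib.SchurDefs.Y224c.spider * (xt (ι224 x)) *
          (FreeGroup.lift (xt ∘ ι224) Cfsg.Agent.Lib.SchurDefs.Y224c.spider)⁻¹ * xt (ι224 x) = 1 := by
        intro x
        rw [hS, hc, mul_inv_cancel_right, hsq]
      simp only [Cfsg.Agent.Lib.SchurDefs.Y224c.extra, List.mem_cons, List.not_mem_nil, or_false] at hr'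
      rcases hr' with rfl | rfl | rfl | rfl | rfl | rfl | rfl | rfl | rfl <;>
        simpa using key _
  have hmem : PresentedGroup.mk Cfsg.Agent.TcData.SY224c.RR Cfsg.Agent.Lib.SchurDefs.Y224c.spider ∈
      Cfsg.Agent.TcData.SY224c.I28431.HH :=
    mem_of_fix Cfsg.Agent.TcData.SY224c.I28431.bij.2.1
      (phi_of_check Cfsg.Agent.TcData.SY224c.I28431.hR Cfsg.Agent.TcData.SY224c.I28431.hv (by decide +kernel))
  have h2 := mem_closure_lift hf hmem
  rw [toGroup_mk, hS] at h2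
  refine (closure_le _).mpr ?_ h2
  rintro _ ⟨x, hx, rfl⟩
  simp only [Cfsg.Agent.TcData.SY224c.I28431.SS, Set.mem_insert_iff, Set.mem_singleton_iff] at hx
  rcases hx with rfl | rfl | rfl | rfl | rfl | rfl | rfl | rfl
  exacts [subset_closure ⟨.c, by simp [ι224, ι8]⟩, subset_closure ⟨.d, by simp [ι224, ι8]⟩,
    subset_closure ⟨.e, by simp [ι224, ι8]⟩, subset_closure ⟨.f, by simp [ι224, ι8]⟩,
    subset_closure ⟨.g, by simp [ι224, ι8]⟩, subset_closure ⟨.j, by simp [ι224, ι8]⟩,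
    subset_closure ⟨.h, by simp [ι224, ι8]⟩, subset_closure ⟨.i, by simp [ι224, ι8]⟩]

end chain

/-- The main theorem. -/
theorem ker_trivial {E : Type*} [Group E] (σ : E →* GG) (hs : Function.Surjective σ)
    (hK : σ.ker ≤ center E) (hC : σ.ker ≤ commutator E) : σ.ker = ⊥ := by
  obtain ⟨xt, hσ, hcox, ht⟩ := exists_xt (σ := σ) hs hK hp Cfsg.Agent.TcChain36.Fi23.zz_sq (coxLabel edges) hm1 hm
    PresentedGroup.of hg hzg wdT rfl msT h_run h_count t_one
  set S := FreeGroup.lift xt spiderG with hS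
  have hS1 : σ S = 1 := by
    have e : σ.comp (FreeGroup.lift xt) = PresentedGroup.mk RR := by
      ext x
      simp [hσ, PresentedGroup.of]
    have := DFunLike.congr_fun e spiderG
    rw [spider_one] at this
    exact this
  have hc : ∀ x : E, S * x = x * S := fun x => central_of_ker hK hS1 x
  have h2 : S * S = 1 := L8 hσ hcox (S_mem8 hσ hcox hc) hS1
  have h3 : S ^ 3 = 1 := L6 hσ hcox (S_cube hσ hcox hc) (by rw [map_pow, hS1, one_pow])
  have h1 : S = 1 := by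
    have e : S ^ 3 = S * (S * S) := by
      simp only [pow_succ, pow_zero, one_mul, mul_assoc]
    rw [e, h2, mul_one] at h3
    exact h3
  have hrel : ∀ r ∈ RR, FreeGroup.lift xt r = 1 := by
    rintro r (hr | hr)
    · exact lift_cox _ _ hcox r hr
    · have hr' : r ∈ extra := hr
      simp only [extra, List.mem_cons, List.not_mem_nil, or_false] at hr'
      rcases hr' with rfl | rfl
      · exact h1
      · simpa [evw, wdT, mul_assoc] using ht
  apply ker_eq_bot_of_section hK hC (PresentedGroup.toGroup hrel)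
  intro g
  have e : σ.comp (PresentedGroup.toGroup hrel) = MonoidHom.id GG := by
    apply PresentedGroup.ext
    intro x
    simp [hσ]
  exact DFunLike.congr_fun e g

end Cfsg.Agent.Lib.SchurFi23
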