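-- Shared library: central extensions of Fi₂₄ split over the stabiliser `Fi₂₃ × 2` when the kernel is central in the preimage of the derived subgroup.
import Mathlib
import Cfsg.Agent.Lib.F24zW
import Cfsg.Agent.Lib.SchurFi23
import Cfsg.Agent.Lib.SchurAsm

set_option autoImplicit false
set_option maxRecDepth 100000
set_option linter.all false

namespace Cfsg.Agent.Lib.F24zSec

open Subgroup Cfsg.Spor
open scoped commutatorElement
open Cfsg.Agent.Lib.F24Base Cfsg.Agent.Lib.F24Psi Cfsg.Agent.Lib.F24Cl Cfsg.Agent.Lib.F24Main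
open Cfsg.Agent.TcData.Fi24.I306936 (HH)

/-- The core of a central extension of a perfect group. -/
theorem perf_core {B Q : Type*} [Group B] [Group Q] (ρ : B →* Q) (hρ : Function.Surjective ρ)
    (hK : ρ.ker ≤ center B) (hQ : commutator Q = ⊤) :
    Function.Surjective (ρ.comp (commutator B).subtype) ∧
      (ρ.comp (commutator B).subtype).ker ≤ center ↥(commutator B) ∧
      (ρ.comp (commutator B).subtype).ker ≤ commutator ↥(commutator B) := by
  have hsurj : Function.Surjective (ρ.comp (commutator B).subtype) := by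
    intro y
    have h1 : y ∈ commutator Q := by rw [hQ]; trivial
    have h2 : commutator Q ≤ (commutator B).map ρ := by
      rw [_root_.commutator_def, commutator_le]
      intro a _ b _
      obtain ⟨a', rfl⟩ := hρ a
      obtain ⟨b', rfl⟩ := hρ b
      rw [← map_commutatorElement]
      exact mem_map_of_mem _ (commutator_mem_commutator (mem_top _) (mem_top _))
    obtain ⟨x, hx, rfl⟩ := h2 h1
    exact ⟨⟨x, hx⟩, rfl⟩
  refine ⟨hsurj, ?_, ?_⟩
  · intro x hx
    rw [mem_center_iff]
    intro g
    apply Subtype.ext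
    have hx' : ρ (x : B) = 1 := hx
    have h3 : (x : B) ∈ center B := hK hx'
    exact mem_center_iff.mp h3 g
  · have hdec : ∀ a : B, ∃ a₁ : ↥(commutator B), ∃ k : B, ρ k = 1 ∧ a = a₁ * k := by
      intro a
      obtain ⟨a₁, h1⟩ := hsurj (ρ a)
      refine ⟨a₁, (a₁ : B)⁻¹ * a, ?_, by group⟩
      rw [map_mul, map_inv]
      have : ρ (a₁ : B) = ρ a := h1
      rw [this]
      group
    have hle : commutator B ≤ (commutator ↥(commutator B)).map (commutator B).subtype := by
      rw [_root_.commutator_def B, commutator_le]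
      intro a _ b _
      obtain ⟨a₁, k, hk, rfl⟩ := hdec a
      obtain ⟨b₁, l, hl, rfl⟩ := hdec b
      have hck : ∀ x, k * x = x * k := fun x => (mem_center_iff.mp (hK hk) x).symm
      have hcl : ∀ x, l * x = x * l := fun x => (mem_center_iff.mp (hK hl) x).symm
      have e : ⁅(a₁ : B) * k, (b₁ : B) * l⁆ = ⁅(a₁ : B), (b₁ : B)⁆ := by
        rw [commutatorElement_def, commutatorElement_def]
        calc (a₁ : B) * k * ((b₁ : B) * l) * ((a₁ : B) * k)⁻¹ * ((b₁ : B) * l)⁻¹
            = (a₁ : B) * (k * (b₁ : B)) * l * k⁻¹ * (a₁ : B)⁻¹ * l⁻¹ * (b₁ : B)⁻¹ := by group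
          _ = (a₁ : B) * (b₁ : B) * (k * l * k⁻¹) * (a₁ : B)⁻¹ * l⁻¹ * (b₁ : B)⁻¹ := by rw [hck]; group
          _ = (a₁ : B) * (b₁ : B) * l * (a₁ : B)⁻¹ * l⁻¹ * (b₁ : B)⁻¹ := by
              rw [hck l]; group
          _ = (a₁ : B) * (b₁ : B) * ((a₁ : B)⁻¹ * l) * l⁻¹ * (b₁ : B)⁻¹ := by
              rw [mul_assoc ((a₁ : B) * (b₁ : B)) l, hcl]
          _ = _ := by group
      rw [e]
      have : ⁅(a₁ : B), (b₁ : B)⁆ = ((⁅a₁, b₁⁆ : ↥(commutator B)) : B) := by
        simp [commutatorElement_def]
      rw [this]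
      exact mem_map_of_mem _ (commutator_mem_commutator (mem_top _) (mem_top _))
    intro x _
    obtain ⟨y, hy, he⟩ := hle x.2
    have : y = x := Subtype.ext he
    rwa [← this]

/-- Fi₂₃ is perfect. -/
theorem perfect23 : commutator Fi23 = ⊤ := by
  haveI : IsSimpleGroup Fi23 := Cfsg.Agent.TcChain36.Fi23.main.1
  have hN : (commutator Fi23).Normal := inferInstance
  rcases hN.eq_bot_or_eq_top with h | h
  · exfalso
    -- Fi₂₃ would be abelian, and a simple abelian group has prime order
    have hc : ∀ a b : Fi23, a * b = b * a := by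
      intro a b
      have : ⁅a, b⁆ ∈ commutator Fi23 := commutator_mem_commutator (mem_top _) (mem_top _)
      rw [h, mem_bot] at this
      exact commutatorElement_eq_one_iff_mul_comm.mp this
    obtain ⟨y, hy⟩ : ∃ y : Fi23, y ≠ 1 := exists_ne 1
    have hnorm : ∀ w : Fi23, (zpowers w).Normal := by
      intro w
      refine ⟨fun n hn g => ?_⟩
      rw [hc g n, mul_assoc, mul_inv_cancel, mul_one]
      exact hn
    have hcard := Cfsg.Agent.TcChain36.Fi23.main.2
    have h2 : zpowers y = ⊤ := by
      rcases (hnorm y).eq_bot_or_eq_top with h3 | h3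
      · exact absurd (zpowers_eq_bot.mp h3) hy
      · exact h3
    have hc2 : Nat.card Fi23 = orderOf y := by
      rw [← Nat.card_zpowers, h2, card_top]
    rcases (hnorm (y ^ 2)).eq_bot_or_eq_top with h4 | h4
    · have h5 : y ^ 2 = 1 := zpowers_eq_bot.mp h4
      have h6 : orderOf y ∣ 2 := orderOf_dvd_of_pow_eq_one h5
      rw [← hc2, hcard] at h6
      norm_num at h6
    · have hc3 : Nat.card Fi23 = orderOf (y ^ 2) := by
        rw [← Nat.card_zpowers, h4, card_top]
      have hc4 : orderOf (y ^ 2) = orderOf y / Nat.gcd (orderOf y) 2 :=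
        orderOf_pow' _ (by norm_num)
      rw [← hc2, ← hc3, hcard] at hc4
      norm_num at hc4
  · exact h

theorem memHH {g : Fi24} (h : g * ll = ll * g) : g ∈ HH := by
  rw [← centralizer_ll]
  exact mem_centralizer_singleton_iff.mpr h

/-- A section over the stabiliser. -/
theorem exists_section {E : Type*} [Group E] (π : E →* Fi24) (hπ : Function.Surjective π)
    (hA2 : ∀ k, π k = 1 → ∀ e, π e ∈ HC → k * e = e * k) {z : E} (hz : z * z = 1) (hzl : π z = ll) :
    ∃ s : ↥HH →* E, ∀ h, π (s h) = h := by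
  classical
  -- the preimage of `Q`
  let B : Subgroup E := QQ.comap π
  have hbq : ∀ b : B, π (b : E) ∈ QQ := fun b => b.2
  let ρ : B →* Fi23 := (QQ_equiv.symm.toMonoidHom).comp (π.subgroupComap QQ)
  have hρ1 : ∀ b : B, (QQ_equiv (ρ b) : Fi24) = π (b : E) := by
    intro b
    show ((QQ_equiv (QQ_equiv.symm (π.subgroupComap QQ b))) : Fi24) = _
    rw [MulEquiv.apply_symm_apply]
    rfl
  have hqe : ∀ g : Fi23, (QQ_equiv g : Fi24) = psi g := fun g => rfl
  have hρ : Function.Surjective ρ := by
    intro g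
    obtain ⟨e, he⟩ := hπ (QQ_equiv g : Fi24)
    refine ⟨⟨e, ?_⟩, ?_⟩
    · show π e ∈ QQ
      rw [he]
      exact (QQ_equiv g).2
    · apply QQ_equiv.injective
      apply Subtype.ext
      rw [hρ1]
      exact he
  have hρk : ∀ b : B, ρ b = 1 → π (b : E) = 1 := by
    intro b hb
    have := hρ1 b
    rw [hb, map_one] at this
    exact this.symm
  have hKc : ρ.ker ≤ center B := by
    intro x hx
    rw [mem_center_iff]
    intro g
    apply Subtype.ext
    exact (hA2 _ (hρk x hx) _ (QQ_le_ker (hbq g))).symm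
  obtain ⟨h1, h2, h3⟩ := perf_core ρ hρ hKc perfect23
  have hker := Cfsg.Agent.Lib.SchurFi23.ker_trivial (ρ.comp (commutator B).subtype) h1 h2 h3
  have hinj : Function.Injective (ρ.comp (commutator B).subtype) := by
    rw [injective_iff_map_eq_one]
    intro x hx
    have : x ∈ (ρ.comp (commutator B).subtype).ker := hx
    rw [hker] at this
    exact this
  -- the section over Fi₂₃
  let e : ↥(commutator B) ≃* Fi23 := MulEquiv.ofBijective _ ⟨hinj, h1⟩
  let s₀ : Fi23 →* E := B.subtype.comp ((commutator B).subtype.comp e.symm.toMonoidHom)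
  have hs₀ : ∀ g, π (s₀ g) = psi g := by
    intro g
    have h4 := hρ1 ((e.symm g : ↥(commutator B)) : B)
    have h5 : ρ ((e.symm g : ↥(commutator B)) : B) = g := e.apply_symm_apply g
    rw [h5] at h4
    rw [← hqe]
    exact h4.symm
  -- `z` commutes with the section
  have hzB : ∀ b : B, π (z * (b : E) * z⁻¹) = π (b : E) := by
    intro b
    have hc := Subgroup.mem_centralizer_singleton_iff.mp (QQ_comm (hbq b))
    rw [map_mul, map_mul, map_inv, hzl, ← hc]
    group
  let cz : B →* B :=
    { toFun := fun b => ⟨z * (b : E) * z⁻¹, by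
        show π _ ∈ QQ
        rw [hzB b]
        exact hbq b⟩
      map_one' := by
        apply Subtype.ext
        simp
      map_mul' := by
        intro a b
        apply Subtype.ext
        show z * ((a : E) * (b : E)) * z⁻¹ = z * (a : E) * z⁻¹ * (z * (b : E) * z⁻¹)
        group }
  have hcz : ∀ x : ↥(commutator B), cz x ∈ commutator B := by
    intro x
    have h4 : (commutator B).map cz ≤ commutator B := by
      rw [_root_.commutator_def B, map_commutator]
      exact commutator_mono le_top le_top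
    exact h4 (mem_map_of_mem _ x.2)
  have hρcz : ∀ b : B, ρ (cz b) = ρ b := by
    intro b
    apply QQ_equiv.injective
    apply Subtype.ext
    rw [hρ1, hρ1]
    exact hzB b
  have hcomm : ∀ g, s₀ g * z = z * s₀ g := by
    intro g
    set x : ↥(commutator B) := e.symm g with hx
    have h5 : (⟨cz x, hcz x⟩ : ↥(commutator B)) = x := by
      apply hinj
      show ρ (cz x) = ρ x
      exact hρcz _
    have h6 : z * s₀ g * z⁻¹ = s₀ g := congrArg (fun y : ↥(commutator B) => ((y : B) : E)) h5
    calc s₀ g * z = (z * s₀ g * z⁻¹) * z := by rw [h6]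
      _ = z * s₀ g := by group
  -- the map from Fi₂₃ × 2
  have hz2 : z ^ 2 = 1 := by rw [pow_two, hz]
  have hl2 : ll ^ 2 = 1 := by rw [pow_two, ll_sq]
  let c2 : Multiplicative (ZMod 2) →* E := Cfsg.Agent.Lib.SchurAsm.hom1 hz2
  have hc2 : ∀ c : Multiplicative (ZMod 2), c2 c = z ^ (Multiplicative.toAdd c).val := fun c => rfl
  have hcases : ∀ c : Multiplicative (ZMod 2), c = 1 ∨ c = Multiplicative.ofAdd 1 := by decide
  have hcom : ∀ (g : Fi23) (c : Multiplicative (ZMod 2)), Commute (s₀ g) (c2 c) := by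
    intro g c
    rw [hc2]
    exact Commute.pow_right (hcomm g) _
  let f : Fi23 × Multiplicative (ZMod 2) →* E := MonoidHom.noncommCoprod s₀ c2 hcom
  have hf : ∀ g c, f (g, c) = s₀ g * c2 c := fun g c => rfl
  have hc20 : c2 1 = 1 := map_one _
  have hc21 : c2 (Multiplicative.ofAdd 1) = z := by
    rw [hc2]
    simp [ZMod.val_one]
  have hsignpsi : ∀ g, Cfsg.Agent.S1691.sign (psi g) = 1 := by
    intro g
    have h4 : psi g ∈ QQ := by
      rw [QQ_eq_range]
      exact ⟨g, rfl⟩
    have h5 := QQ_le_ker h4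
    rw [← Cfsg.Agent.S1691.ker_eq, MonoidHom.mem_ker] at h5
    exact h5
  have hf' : Function.Injective (π.comp f) := by
    rw [injective_iff_map_eq_one]
    rintro ⟨g, c⟩ hgc
    have hgc' : π (f (g, c)) = 1 := hgc
    rw [hf, map_mul, hs₀] at hgc'
    rcases hcases c with rfl | rfl
    · rw [hc20, map_one, mul_one] at hgc'
      have : g = 1 := psi_inj' (by rw [hgc', map_one])
      rw [this]
      rfl
    · exfalso
      rw [hc21, hzl] at hgc'
      have h4 := congrArg Cfsg.Agent.S1691.sign hgc'
      rw [map_mul, hsignpsi, one_mul, map_one] at h4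
      exact sign_ll h4
  have hle : HH ≤ (π.comp f).range := by
    intro h hh
    rcases HH_cases h hh with h1 | h1
    · rw [QQ_eq_range] at h1
      obtain ⟨g, rfl⟩ := h1
      refine ⟨(g, 1), ?_⟩
      show π (f (g, 1)) = _
      rw [hf, hc20, mul_one, hs₀]
    · rw [QQ_eq_range] at h1
      obtain ⟨g, hg⟩ := h1
      refine ⟨(g, Multiplicative.ofAdd 1), ?_⟩
      show π (f (g, _)) = _
      rw [hf, hc21, map_mul, hs₀, hzl, hg, mul_assoc, ll_sq, mul_one]
  let eq : (Fi23 × Multiplicative (ZMod 2)) ≃* (π.comp f).range := MonoidHom.ofInjective hf'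
  refine ⟨f.comp (eq.symm.toMonoidHom.comp (Subgroup.inclusion hle)), ?_⟩
  intro h
  show π (f (eq.symm (Subgroup.inclusion hle h))) = h
  have h4 : ((eq (eq.symm (Subgroup.inclusion hle h))) : Fi24) = (Subgroup.inclusion hle h : (π.comp f).range) := by
    rw [MulEquiv.apply_symm_apply]
  exact h4

end Cfsg.Agent.Lib.F24zSec
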