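-- Shared library: a central extension of Fi₂₄ with a section over the stabiliser of a transposition is trivial, if the kernel lies in the commutator subgroup.
import Mathlib
import Cfsg.Agent.TcData.F24z.Y6
import Cfsg.Agent.Lib.F24zSec

set_option autoImplicit false
set_option maxRecDepth 100000
set_option linter.all false

namespace Cfsg.Agent.Lib.F24zV

open Subgroup Cfsg.Spor
open Cfsg.Agent.Lib.CoxCert Cfsg.Agent.Lib.BitClose
open Cfsg.Agent.Lib.F24Base Cfsg.Agent.Lib.F24Rep Cfsg.Agent.Lib.F24Psi Cfsg.Agent.Lib.F24Cl Cfsg.Agent.Lib.F24Main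
open Cfsg.Agent.Lib.F24zW Cfsg.Agent.Lib.F24Y Cfsg.Agent.Lib.SchurCox
open Cfsg.Agent.TcData.Fi24.I306936 (HH)
open Cfsg.Agent.Lib.F24zSec (memHH)
open Cfsg.Agent.TcData.F24z

/-! ### Distinctness of the letters -/

/-- The images of a point under the letters. -/
def vals : List ℕ := [426, 207, 422, 299, 394, 230, 205, 427, 213, 413, 428, 204]

theorem walk_vals : ∀ x, x < 12 → walkPt prF [x] 299 = Cfsg.Agent.Lib.BitClose.lget vals x := by
  decide +kernel

theorem vals_inj : ∀ a, a < 12 → ∀ b, b < 12 → Cfsg.Agent.Lib.BitClose.lget vals a = Cfsg.Agent.Lib.BitClose.lget vals b → a = b := by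
  decide

theorem letter_inj {a b : ℕ} (ha : a < 12) (hb : b < 12) (h : genF a = genF b) : a = b := by
  apply vals_inj a ha b hb
  rw [← walk_vals a ha, ← walk_vals b hb, ← Phi_walk, ← Phi_walk]
  have e : ∀ x, ev genF [x] = genF x := fun x => by simp [ev_cons]
  rw [e, e, h]

theorem comm_gen {a b : ℕ} (ha : a < 12) (hb : b < 12) (h : lab a b = 2) : genF a * genF b = genF b * genF a := by
  have h1 := genF_cox ha hb
  rw [ev_coxL, h, pow_two] at h1
  have h3 := inv_gen a
  have h4 := inv_gen b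
  calc genF a * genF b = (genF a)⁻¹ * (genF b)⁻¹ := by rw [h3, h4]
    _ = (genF b * genF a)⁻¹ := by rw [mul_inv_rev]
    _ = genF b * genF a := inv_eq_of_mul_eq_one_left h1

/-- All the lists of relators follow from the Coxeter relators. -/
theorem coxRels_ev {X : Type*} [Group X] {f : ℕ → X} (hc : ∀ a b, a < 12 → b < 12 → ev f (coxL a b) = 1) {S : List ℕ}
    (hS : ∀ a ∈ S, a < 12) : ∀ w ∈ coxRels S, ev f w = 1 := by
  intro w hw
  simp only [coxRels, List.mem_flatMap] at hw
  obtain ⟨a, ha, b, hb, h⟩ := hw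
  by_cases hab : a < b
  · rw [if_pos hab, List.mem_singleton] at h
    rw [h]
    exact hc _ _ (hS a ha) (hS b hb)
  · rw [if_neg hab] at h
    simp at h

/-! ### The class of lifts -/

section lifts

variable {V : Type*} [Group V] {π : V →* Fi24} {s : ↥HH →* V}

/-- The lift of `l`. -/
noncomputable def zz (s : ↥HH →* V) : V := s ⟨ll, ll_mem_HH⟩

theorem zz_sq (s : ↥HH →* V) : zz s * zz s = 1 := by
  rw [zz, ← map_mul]
  have : ((⟨ll, ll_mem_HH⟩ : ↥HH) * ⟨ll, ll_mem_HH⟩) = 1 := Subtype.ext ll_sq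
  rw [this, map_one]

theorem zz_inv (s : ↥HH →* V) : (zz s)⁻¹ = zz s := inv_eq_of_mul_eq_one_left (zz_sq s)

/-- The lifts of the class of `l`. -/
def Dst (s : ↥HH →* V) : Set V := {t | ∃ g, t = g * zz s * g⁻¹}

theorem Dst_zz (s : ↥HH →* V) : zz s ∈ Dst s := ⟨1, by simp⟩

theorem Dst_sq {t : V} (ht : t ∈ Dst s) : t * t = 1 := by
  obtain ⟨g, rfl⟩ := ht
  calc g * zz s * g⁻¹ * (g * zz s * g⁻¹) = g * (zz s * zz s) * g⁻¹ := by group
    _ = 1 := by rw [zz_sq]; group

theorem Dst_inv {t : V} (ht : t ∈ Dst s) : t⁻¹ = t := inv_eq_of_mul_eq_one_left (Dst_sq ht)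

theorem Dst_conj {t : V} (ht : t ∈ Dst s) (g : V) : g * t * g⁻¹ ∈ Dst s := by
  obtain ⟨y, rfl⟩ := ht
  exact ⟨g * y, by group⟩

variable (hs : ∀ h, π (s h) = h) (hK : π.ker ≤ center V)

include hs in
theorem pi_zz : π (zz s) = ll := hs _

include hs in
theorem Dst_pi {t : V} (ht : t ∈ Dst s) : π t ∈ DD := by
  obtain ⟨g, rfl⟩ := ht
  refine mem_DD.mpr ⟨π g, ?_⟩
  rw [map_mul, map_mul, map_inv, pi_zz hs]

include hs hK in
/-- An element over the stabiliser commutes with `z`. -/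
theorem comm_zz {u : V} (hu : π u ∈ HH) : zz s * u = u * zz s := by
  set h : ↥HH := ⟨π u, hu⟩ with hh
  have ha : π ((s h)⁻¹ * u) = 1 := by
    rw [map_mul, map_inv, hs]
    simp [hh]
  have hca := central_of_ker hK ha (zz s)
  have h1 : zz s * s h = s h * zz s := by
    rw [zz, ← map_mul, ← map_mul]
    congr 1
    exact Subtype.ext (HH_comm hu).symm
  have e : u = s h * ((s h)⁻¹ * u) := by group
  calc zz s * u = zz s * (s h * ((s h)⁻¹ * u)) := by rw [← e]
    _ = s h * zz s * ((s h)⁻¹ * u) := by rw [← mul_assoc, h1]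
    _ = s h * (zz s * ((s h)⁻¹ * u)) := by rw [mul_assoc]
    _ = s h * (((s h)⁻¹ * u) * zz s) := by rw [hca]
    _ = s h * ((s h)⁻¹ * u) * zz s := by group
    _ = u * zz s := by rw [← e]

include hs hK in
/-- A lift in the class is determined by its image. -/
theorem Dst_uniq {u v : V} (hu : u ∈ Dst s) (hv : v ∈ Dst s) (h : π u = π v) : u = v := by
  obtain ⟨g, rfl⟩ := hu
  obtain ⟨y, rfl⟩ := hv
  rw [map_mul, map_mul, map_inv, map_mul, map_mul, map_inv, pi_zz hs] at h
  have h1 : π (g⁻¹ * y) ∈ HH := by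
    apply memHH
    rw [map_mul, map_inv]
    calc (π g)⁻¹ * π y * ll = (π g)⁻¹ * (π y * ll * (π y)⁻¹) * π y := by group
      _ = (π g)⁻¹ * (π g * ll * (π g)⁻¹) * π y := by rw [h]
      _ = _ := by group
  have h2 := comm_zz hs hK h1
  have h3 : y = g * (g⁻¹ * y) := by group
  set x := g⁻¹ * y with hx
  rw [h3]
  calc g * zz s * g⁻¹ = g * (zz s * x) * x⁻¹ * g⁻¹ := by group
    _ = g * (x * zz s) * x⁻¹ * g⁻¹ := by rw [h2]
    _ = _ := by group

include hs in
theorem exists_Dst (hπ : Function.Surjective π) {d : Fi24} (hd : d ∈ DD) : ∃ t ∈ Dst s, π t = d := by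
  obtain ⟨x, rfl⟩ := mem_DD.mp hd
  obtain ⟨g, rfl⟩ := hπ x
  exact ⟨g * zz s * g⁻¹, ⟨g, rfl⟩, by rw [map_mul, map_mul, map_inv, pi_zz hs]⟩

include hs hK in
theorem rel2 {u v : V} (hu : u ∈ Dst s) (hv : v ∈ Dst s) (h : (π u * π v) ^ 2 = 1) : (u * v) ^ 2 = 1 := by
  have hu2 : π u * π u = 1 := by rw [← map_mul, Dst_sq hu, map_one]
  have hv2 : π v * π v = 1 := by rw [← map_mul, Dst_sq hv, map_one]
  have hui := inv_eq_of_mul_eq_one_left hu2
  have e : π (u * v * u⁻¹) = π v := by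
    rw [map_mul, map_mul, map_inv, hui]
    rw [pow_two] at h
    calc π u * π v * π u = (π u * π v * (π u * π v)) * (π v)⁻¹ * (π u)⁻¹ * π u := by group
      _ = (π v)⁻¹ := by rw [h]; group
      _ = π v := inv_eq_of_mul_eq_one_left hv2
  have h1 := Dst_uniq hs hK (Dst_conj hv u) hv e
  rw [Dst_inv hu] at h1
  rw [pow_two]
  calc u * v * (u * v) = (u * v * u) * v := by group
    _ = 1 := by rw [h1, Dst_sq hv]

include hs hK in
theorem rel3 {u v : V} (hu : u ∈ Dst s) (hv : v ∈ Dst s) (h : (π u * π v) ^ 3 = 1) : (u * v) ^ 3 = 1 := by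
  have hu2 : π u * π u = 1 := by rw [← map_mul, Dst_sq hu, map_one]
  have hv2 : π v * π v = 1 := by rw [← map_mul, Dst_sq hv, map_one]
  have hui := inv_eq_of_mul_eq_one_left hu2
  have hvi := inv_eq_of_mul_eq_one_left hv2
  have e : π (u * v * u⁻¹) = π (v * u * v⁻¹) := by
    rw [map_mul, map_mul, map_inv, hui, map_mul, map_mul, map_inv, hvi]
    have h3 : π u * π v * π u * (π v * π u * π v) = 1 := by
      rw [← h]
      simp only [pow_succ, pow_zero, one_mul, mul_assoc]
    have h4 := eq_inv_of_mul_eq_one_left h3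
    rw [h4, mul_inv_rev, mul_inv_rev, hvi, hui]
    group
  have h1 := Dst_uniq hs hK (Dst_conj hv u) (Dst_conj hu v) e
  rw [Dst_inv hu, Dst_inv hv] at h1
  calc (u * v) ^ 3 = (u * v * u) * (v * u * v) := by
        simp only [pow_succ, pow_zero, one_mul, mul_assoc]
    _ = (v * u * v) * (v * u * v) := by rw [h1]
    _ = v * u * (v * v) * u * v := by group
    _ = 1 := by
        rw [Dst_sq hv, mul_one, mul_assoc v u u, Dst_sq hu, mul_one, Dst_sq hv]

/-- The letter `a` in the stabiliser. -/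
noncomputable def a3 : ↥HH := ⟨genF 3, memHH (comm_l (x := 3) (by norm_num)).eq⟩

include hs hK in
/-- The class of a lift over the stabiliser. -/
theorem dich {f3 c : V} (hf3 : f3 ∈ Dst s) (hc1 : π c = 1) (hc : f3 = s a3 * c) {t : V} (ht : t ∈ Dst s)
    (hH : π t ∈ HH) (hne : π t ≠ ll) : t = s ⟨π t, hH⟩ * c := by
  have hpi3 : π f3 = genF 3 := by
    rw [hc, map_mul, hs, hc1, mul_one]
    rfl
  obtain ⟨y, hy⟩ := mem_DD.mp (Dst_pi hs ht)
  rcases conj_cases y with h | ⟨h, hh, he⟩ | ⟨h, hh, he⟩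
  · exfalso
    apply hne
    rw [← hy, HH_comm h]
    group
  · have hhH := QQ_le_HH hh
    set hH' : ↥HH := ⟨h, hhH⟩ with hhd
    have e1 : π (s hH' * f3 * (s hH')⁻¹) = π t := by
      rw [map_mul, map_mul, map_inv, hs, hpi3, ← hy, he]
    have e2 := Dst_uniq hs hK (Dst_conj hf3 (s hH')) ht e1
    have e3 : (⟨π t, hH⟩ : ↥HH) = hH' * a3 * hH'⁻¹ := Subtype.ext (by
      show π t = h * genF 3 * h⁻¹
      rw [← hy, he])
    have e4 : s ⟨π t, hH⟩ = s hH' * s a3 * (s hH')⁻¹ := by
      rw [e3, map_mul, map_mul, map_inv]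
    rw [e4]
    have h5 := central_of_ker hK hc1 (s hH')⁻¹
    calc t = s hH' * f3 * (s hH')⁻¹ := e2.symm
      _ = s hH' * (s a3 * c) * (s hH')⁻¹ := by rw [hc]
      _ = s hH' * s a3 * (c * (s hH')⁻¹) := by group
      _ = _ := by rw [h5]; group
  · exfalso
    have h1 := HH_comm hH
    have h2 := QQ_comm' hh
    have h3 : genF 4 * ll = ll * genF 4 := by
      have e4 : genF 4 = h⁻¹ * π t * h := by
        rw [← hy, he]
        group
      have h2' : h⁻¹ * ll = ll * h⁻¹ := by
        calc h⁻¹ * ll = h⁻¹ * (ll * h) * h⁻¹ := by group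
          _ = h⁻¹ * (h * ll) * h⁻¹ := by rw [h2]
          _ = _ := by group
      rw [e4]
      calc h⁻¹ * π t * h * ll = h⁻¹ * π t * (ll * h) := by rw [mul_assoc _ h ll, h2]
        _ = h⁻¹ * (π t * ll) * h := by group
        _ = h⁻¹ * (ll * π t) * h := by rw [h1]
        _ = (h⁻¹ * ll) * π t * h := by group
        _ = _ := by rw [h2']; group
    have h4 := lk3
    have hc' : Commute ll (genF 4) := h3.symm
    rw [hc'.mul_pow] at h4
    have e5 : ll ^ 3 = ll := by
      rw [pow_succ, pow_two, ll_sq, one_mul]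
    have e6 : genF 4 ^ 3 = genF 4 := by
      rw [pow_succ, pow_two, genF_inv, one_mul]
    rw [e5, e6] at h4
    have h5 : ll = genF 4 := by
      have := eq_inv_of_mul_eq_one_left h4
      rw [this, inv_gen]
    exact ne_k h5

include hs hK in
/-- A word in the conjugated letters. -/
theorem word_lemma {f : ℕ → V} {c : V} (hc1 : π c = 1) (gt : V) {d : Fi24}
    (hg : π gt * ll * (π gt)⁻¹ = d)
    (hdich : ∀ t ∈ Dst s, ∀ hH : π t ∈ HH, π t ≠ ll → t = s ⟨π t, hH⟩ * c)
    (hfm : ∀ x, x < 12 → f x ∈ Dst s) (hfp : ∀ x, π (f x) = genF x) (w : List ℕ)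
    (hw : ∀ x ∈ w, x < 12 ∧ genF x * d = d * genF x ∧ genF x ≠ d) :
    ∃ h : ↥HH, (h : Fi24) = (π gt)⁻¹ * ev genF w * π gt ∧ gt⁻¹ * ev f w * gt = s h * c ^ w.length := by
  induction w with
  | nil =>
    exact ⟨1, by simp, by simp⟩
  | cons x r ih =>
    obtain ⟨h, hh1, hh2⟩ := ih (fun y hy => hw y (List.mem_cons_of_mem _ hy))
    obtain ⟨hx, hxc, hxn⟩ := hw x List.mem_cons_self
    have hl : ll = (π gt)⁻¹ * d * π gt := by rw [← hg]; group
    have ht : gt⁻¹ * f x * gt ∈ Dst s := by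
      have := Dst_conj (hfm x hx) gt⁻¹
      rwa [inv_inv] at this
    have hpi : π (gt⁻¹ * f x * gt) = (π gt)⁻¹ * genF x * π gt := by
      rw [map_mul, map_mul, map_inv, hfp]
    have hH : π (gt⁻¹ * f x * gt) ∈ HH := by
      apply memHH
      rw [hpi, hl]
      calc (π gt)⁻¹ * genF x * π gt * ((π gt)⁻¹ * d * π gt) = (π gt)⁻¹ * (genF x * d) * π gt := by group
        _ = (π gt)⁻¹ * (d * genF x) * π gt := by rw [hxc]
        _ = _ := by group
    have hne : π (gt⁻¹ * f x * gt) ≠ ll := by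
      intro h3
      apply hxn
      rw [hpi, hl] at h3
      have h4 : π gt * ((π gt)⁻¹ * genF x * π gt) * (π gt)⁻¹ = π gt * ((π gt)⁻¹ * d * π gt) * (π gt)⁻¹ := by rw [h3]
      simpa [mul_assoc] using h4
    have h5 := hdich _ ht hH hne
    refine ⟨h * ⟨_, hH⟩, ?_, ?_⟩
    · rw [Subgroup.coe_mul, hh1]
      show _ * π (gt⁻¹ * f x * gt) = _
      rw [hpi, ev_cons]
      group
    · have hcc := central_of_ker hK hc1
      have hcp : ∀ n : ℕ, ∀ y, c ^ n * y = y * c ^ n := by
        intro n y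
        exact ((show Commute c y from hcc y).pow_left n).eq
      rw [ev_cons, map_mul, List.length_cons, pow_succ]
      calc gt⁻¹ * (ev f r * f x) * gt = (gt⁻¹ * ev f r * gt) * (gt⁻¹ * f x * gt) := by group
        _ = s h * c ^ r.length * (s ⟨_, hH⟩ * c) := by rw [hh2, ← h5]
        _ = s h * (c ^ r.length * s ⟨_, hH⟩) * c := by group
        _ = s h * (s ⟨_, hH⟩ * c ^ r.length) * c := by rw [hcp]
        _ = _ := by group

include hs hK in
/-- A relator of even length holds. -/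
theorem word_one {f : ℕ → V} {c : V} (hc1 : π c = 1) (hcc : c * c = 1) (gt : V) {d : Fi24}
    (hg : π gt * ll * (π gt)⁻¹ = d)
    (hdich : ∀ t ∈ Dst s, ∀ hH : π t ∈ HH, π t ≠ ll → t = s ⟨π t, hH⟩ * c)
    (hfm : ∀ x, x < 12 → f x ∈ Dst s) (hfp : ∀ x, π (f x) = genF x) (w : List ℕ)
    (hw : ∀ x ∈ w, x < 12 ∧ genF x * d = d * genF x ∧ genF x ≠ d) (h1 : ev genF w = 1) (h2 : Even w.length) :
    ev f w = 1 := by
  obtain ⟨h, hh1, hh2⟩ := word_lemma hs hK hc1 gt hg hdich hfm hfp w hw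
  have h3 : h = 1 := Subtype.ext (by rw [hh1, h1]; simp)
  obtain ⟨m, hm⟩ := h2
  have h4 : c ^ w.length = 1 := by
    rw [hm, ← two_mul, pow_mul, pow_two, hcc, one_pow]
  rw [h3, map_one, one_mul, h4] at hh2
  have h5 : ev f w = gt * (gt⁻¹ * ev f w * gt) * gt⁻¹ := by group
  rw [h5, hh2]
  group

theorem goodj : ∀ x, x < 12 → x ≠ 8 → x ≠ 9 → lab x 9 = 2 := by decide

/-- The letters commuting with `j` and different from it. -/
theorem good9 (w : List ℕ) (hw : ∀ x ∈ w, x < 12 ∧ x ≠ 8 ∧ x ≠ 9) :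
    ∀ x ∈ w, x < 12 ∧ genF x * genF 9 = genF 9 * genF x ∧ genF x ≠ genF 9 := by
  intro x hx
  obtain ⟨h1, h2, h3⟩ := hw x hx
  exact ⟨h1, comm_gen h1 (by norm_num) (goodj x h1 h2 h3), fun h => h3 (letter_inj h1 (by norm_num) h)⟩

include hs hK in
/-- The main theorem of this part. -/
theorem V_ker_bot (hπ : Function.Surjective π) (hC : π.ker ≤ commutator V) : π.ker = ⊥ := by
  -- the letters
  have hex : ∀ x, ∃ t, (x < 12 → t ∈ Dst s) ∧ π t = genF x ∧ t * t = 1 := by
    intro x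
    by_cases hx : x < 12
    · obtain ⟨t, ht, h2⟩ := exists_Dst hs hπ (letters_DD hx)
      exact ⟨t, fun _ => ht, h2, Dst_sq ht⟩
    · exact ⟨1, fun h => absurd h hx, by rw [map_one, genF_big (by omega)], by simp⟩
  choose f hfm hfp hfi using hex
  -- the Coxeter relations
  have hcox : ∀ a b, a < 12 → b < 12 → ev f (coxL a b) = 1 := by
    intro a b ha hb
    rw [ev_coxL]
    have hg := genF_cox ha hb
    rw [ev_coxL] at hg
    rw [← hfp b, ← hfp a] at hg
    by_cases hab : a = b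
    · subst hab
      have : lab a a = 1 := by simp [lab]
      rw [this, pow_one, hfi]
    · by_cases hadj : adj a b = true
      · have : lab a b = 3 := by simp [lab, hab, hadj]
        rw [this] at hg ⊢
        exact rel3 hs hK (hfm b hb) (hfm a ha) hg
      · have : lab a b = 2 := by simp [lab, hab, hadj]
        rw [this] at hg ⊢
        exact rel2 hs hK (hfm b hb) (hfm a ha) hg
  -- the letter `l`
  have hf5 : f 5 = zz s := Dst_uniq hs hK (hfm 5 (by norm_num)) (Dst_zz s) (by rw [hfp, pi_zz hs])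
  -- the defect
  set c := (s a3)⁻¹ * f 3 with hcdef
  have hf3 : f 3 = s a3 * c := by rw [hcdef]; group
  have hc1 : π c = 1 := by
    rw [hcdef, map_mul, map_inv, hs, hfp]
    show (genF 3)⁻¹ * genF 3 = 1
    group
  have hcen := central_of_ker hK hc1
  have hcc : c * c = 1 := by
    have h1 : f 3 * f 3 = 1 := hfi 3
    rw [hf3] at h1
    have h2 : s a3 * s a3 = 1 := by
      rw [← map_mul]
      have : a3 * a3 = 1 := Subtype.ext (genF_inv 3)
      rw [this, map_one]
    calc c * c = (s a3 * s a3) * (c * c) := by rw [h2, one_mul]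
      _ = s a3 * (s a3 * c) * c := by group
      _ = s a3 * (c * s a3) * c := by rw [hcen]
      _ = s a3 * c * (s a3 * c) := by group
      _ = 1 := h1
  have hdich : ∀ t ∈ Dst s, ∀ hH : π t ∈ HH, π t ≠ ll → t = s ⟨π t, hH⟩ * c := by
    intro t ht hH hne
    exact dich hs hK (hfm 3 (by norm_num)) hc1 hf3 ht hH hne
  -- a conjugator of `j`
  obtain ⟨gj, hgj⟩ := mem_DD.mp (letters_DD (n := 9) (by norm_num))
  obtain ⟨gt, rfl⟩ := hπ gj
  have hw := fun (w : List ℕ) (hw : ∀ x ∈ w, x < 12 ∧ x ≠ 8 ∧ x ≠ 9) (h1 : ev genF w = 1) (h2 : Even w.length) =>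
    word_one hs hK hc1 hcc gt hgj hdich (fun x hx => hfm x hx) hfp w (good9 w hw) h1 h2
  have hlW : ev f lW = 1 := hw lW (by decide) genF_lW (by decide)
  have hspW : ev f spW = 1 := hw spW (by decide) spW_one (by decide)
  have hrVW : ev f rVW = 1 := hw rVW (by decide) rV_one (by decide)
  -- the defect is trivial
  have hc_one : c = 1 := by
    have hd : (π (1 : V)) * ll * (π (1 : V))⁻¹ = ll := by simp
    have hgood : ∀ x ∈ fW, x < 12 ∧ genF x * ll = ll * genF x ∧ genF x ≠ ll := by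
      intro x hx
      have hx' : x < 12 ∧ x ≠ 4 ∧ x ≠ 5 := by
        revert x
        decide
      exact ⟨hx'.1, (comm_l hx'.2.1).eq, fun h => hx'.2.2 (letter_inj hx'.1 (by norm_num) h)⟩
    obtain ⟨h, hh1, hh2⟩ := word_lemma hs hK hc1 (1 : V) hd hdich (fun x hx => hfm x hx) hfp fW hgood
    have e1 : h = ⟨ll, ll_mem_HH⟩ := Subtype.ext (by
      rw [hh1, ev_fW]
      simp)
    have e2 : ev f fW = zz s := by
      have h1 := hlW
      rw [lW, ev_cons, hf5] at h1
      have h2 : ev f (List.replicate 9 e7W).flatten = (zz s)⁻¹ := eq_inv_of_mul_eq_one_left h1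
      show ev f (List.replicate 9 e7W).flatten = _
      rw [h2, zz_inv]
    have e3 : c ^ fW.length = c := by
      have : fW.length = 2 * 31 + 1 := by decide
      rw [this, pow_succ, pow_mul, pow_two, hcc, one_pow, one_mul]
    rw [inv_one, one_mul, mul_one, e2, e1, e3] at hh2
    exact (mul_eq_left.mp hh2.symm)
  have hdich1 : ∀ t ∈ Dst s, ∀ hH : π t ∈ HH, t = s ⟨π t, hH⟩ := by
    intro t ht hH
    by_cases hne : π t = ll
    · have h1 : t = zz s := Dst_uniq hs hK ht (Dst_zz s) (by rw [hne, pi_zz hs])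
      have h2 : (⟨π t, hH⟩ : ↥HH) = ⟨ll, ll_mem_HH⟩ := Subtype.ext hne
      rw [h2, h1]
      rfl
    · have := hdich t ht hH hne
      rwa [hc_one, mul_one] at this
  -- the relators of the table of Fi₂₄
  have hR : ∀ w ∈ R6, ev f w = 1 := by
    intro w hw'
    rcases List.mem_append.mp hw' with h | h
    · exact coxRels_ev hcox hS12 w h
    · simp only [List.mem_cons, List.not_mem_nil, or_false] at h
      rcases h with rfl | rfl | rfl
      · exact hlW
      · exact hspW
      · exact hrVW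
  have hy := y_mem f hfi hR
  have hHle : closure (f '' {x | x ∈ Sb}) ≤ s.range := by
    rw [closure_le]
    rintro _ ⟨x, hx, rfl⟩
    have key : ∀ x ∈ Sb, x < 12 ∧ x ≠ 4 := by decide
    have hx' : x < 12 ∧ x ≠ 4 := key x hx
    have hm : π (f x) ∈ HH := by
      rw [hfp]
      exact memHH (comm_l hx'.2).eq
    exact ⟨_, (hdich1 _ (hfm x hx'.1) hm).symm⟩
  obtain ⟨hu, hhu⟩ := hHle hy
  -- the spider word
  have hz : ev f zW = 1 := by
    have hpre : (ev f pre6)⁻¹ * f 10 * ev f pre6 ∈ Dst s := by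
      have := Dst_conj (hfm 10 (by norm_num)) (ev f pre6)⁻¹
      rwa [inv_inv] at this
    have hS : ev f zW = ev f suf6 * ev f pre6 * ((ev f pre6)⁻¹ * f 10 * ev f pre6) := by
      rw [zW_split, ev_append, ev_append]
      simp only [ev_cons, ev_nil, one_mul]
      group
    have hpz : π (ev f zW) = 1 := by
      rw [map_ev]
      have : (fun x => π (f x)) = genF := funext hfp
      rw [this]
      exact genF_zW
    have hum : π (s hu) = hu := hs hu
    rw [hS, map_mul, ← hhu, hum] at hpz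
    have hH : π ((ev f pre6)⁻¹ * f 10 * ev f pre6) ∈ HH := by
      have := eq_inv_of_mul_eq_one_right hpz
      rw [this]
      exact inv_mem hu.2
    have h2 := hdich1 _ hpre hH
    rw [hS, ← hhu, h2, ← map_mul]
    have : hu * ⟨_, hH⟩ = 1 := Subtype.ext hpz
    rw [this, map_one]
  -- the section
  have hrep : IsRep f := ⟨hcox, hlW, hz⟩
  refine ker_eq_bot_of_section hK hC (liftF hrep) ?_
  have h1 : π.comp (liftF hrep) = MonoidHom.id _ := by
    apply PresentedGroup.ext
    intro x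
    rw [MonoidHom.comp_apply, liftF_of, hfp, genF_num]
    rfl
  intro g
  exact DFunLike.congr_fun h1 g

end lifts

end Cfsg.Agent.Lib.F24zV
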