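-- Shared library: central extensions of Fi₂₄ whose kernel is central in the preimage of the derived subgroup, and lies in its commutator subgroup, have a cyclic kernel of order dividing three.
import Mathlib
import Cfsg.Agent.Lib.F24zV
import Cfsg.Agent.TcData.F24z.Zs

set_option autoImplicit false
set_option maxRecDepth 100000
set_option linter.all false

namespace Cfsg.Agent.Lib.F24zE

open Subgroup Cfsg.Spor
open scoped commutatorElement
open Cfsg.Agent.Lib.CoxCert Cfsg.Agent.Lib.BitClose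
open Cfsg.Agent.Lib.F24Base Cfsg.Agent.Lib.F24Rep Cfsg.Agent.Lib.F24Psi Cfsg.Agent.Lib.F24Cl Cfsg.Agent.Lib.F24Main
open Cfsg.Agent.Lib.F24zW Cfsg.Agent.Lib.F24Y Cfsg.Agent.Lib.SchurCox Cfsg.Agent.Lib.F24zV
open Cfsg.Agent.TcData.Fi24.I306936 (HH)
open Cfsg.Agent.Lib.F24zSec (memHH)
open Cfsg.Agent.TcData.F24z

/-- The letters are odd. -/
theorem letter_odd {x : ℕ} (hx : x < 12) : genF x ∉ HC := by
  intro h
  rw [show HC = Cfsg.Agent.S1691.sign.ker from Cfsg.Agent.S1691.ker_eq.symm, MonoidHom.mem_ker, sign_gen hx] at h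
  exact absurd h (by decide)

/-- The letters in the stabiliser. -/
noncomputable def lH (x : ℕ) : ↥HH :=
  if h : x ≠ 4 then ⟨genF x, memHH (comm_l h).eq⟩ else 1

theorem lH_coe {x : ℕ} (h : x ≠ 4) : (lH x : Fi24) = genF x := by
  simp [lH, h]

theorem lH_ev {w : List ℕ} (h : ∀ x ∈ w, x ≠ 4) : ((ev lH w : ↥HH) : Fi24) = ev genF w := by
  induction w with
  | nil => simp
  | cons x r ih =>
    rw [ev_cons, ev_cons, Subgroup.coe_mul, ih (fun y hy => h y (List.mem_cons_of_mem _ hy)), lH_coe (h x List.mem_cons_self)]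

section ext

variable {E : Type*} [Group E] {π : E →* Fi24} {s : ↥HH →* E}
  (hs : ∀ h, π (s h) = h)
  (hA2 : ∀ k, π k = 1 → ∀ e, π e ∈ HC → k * e = e * k)

include hs in
theorem pi_z : π (zz s) = ll := pi_zz hs

include hs hA2 in
/-- The kernel is abelian. -/
theorem K_comm {a b : E} (ha : π a = 1) (hb : π b = 1) : a * b = b * a :=
  hA2 a ha b (by rw [hb]; exact one_mem _)

include hs in
theorem pi_conj {k : E} (hk : π k = 1) (e : E) : π (e * k * e⁻¹) = 1 := by
  rw [map_mul, map_mul, map_inv, hk]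
  group

include hs in
/-- An odd element is the product of an even one and `z`. -/
theorem odd_dec {e : E} (he : π e ∉ HC) : ∃ t, π t ∈ HC ∧ e = t * zz s := by
  refine ⟨e * zz s, ?_, ?_⟩
  · rw [map_mul, pi_z hs]
    exact sign_mul_ll _ he
  · rw [mul_assoc, zz_sq, mul_one]

/-- The commutators with `z`. -/
def NN (hs : ∀ h, π (s h) = h) (hA2 : ∀ k, π k = 1 → ∀ e, π e ∈ HC → k * e = e * k) : Subgroup E where
  carrier := {n | ∃ k, π k = 1 ∧ n = k⁻¹ * (zz s * k * (zz s)⁻¹)}
  one_mem' := ⟨1, map_one _, by simp⟩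
  mul_mem' := by
    rintro _ _ ⟨k₁, h₁, rfl⟩ ⟨k₂, h₂, rfl⟩
    refine ⟨k₁ * k₂, by rw [map_mul, h₁, h₂, one_mul], ?_⟩
    have h3 : π (zz s * k₁ * (zz s)⁻¹) = 1 := pi_conj hs h₁ _
    have h4 := K_comm hs hA2 h3 (inv_mem_iff_one k₂ h₂)
    have e1 : k₁ * k₂ = k₂ * k₁ := K_comm hs hA2 h₁ h₂
    calc k₁⁻¹ * (zz s * k₁ * (zz s)⁻¹) * (k₂⁻¹ * (zz s * k₂ * (zz s)⁻¹))
        = k₁⁻¹ * ((zz s * k₁ * (zz s)⁻¹) * k₂⁻¹) * (zz s * k₂ * (zz s)⁻¹) := by group
      _ = k₁⁻¹ * (k₂⁻¹ * (zz s * k₁ * (zz s)⁻¹)) * (zz s * k₂ * (zz s)⁻¹) := by rw [h4]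
      _ = (k₂ * k₁)⁻¹ * (zz s * (k₁ * k₂) * (zz s)⁻¹) := by group
      _ = _ := by rw [← e1]
  inv_mem' := by
    rintro _ ⟨k, hk, rfl⟩
    refine ⟨k⁻¹, by rw [map_inv, hk, inv_one], ?_⟩
    have h3 : π (zz s * k * (zz s)⁻¹) = 1 := pi_conj hs hk _
    have h4 := K_comm hs hA2 h3 hk
    rw [mul_inv_rev, inv_inv]
    have e : (zz s * k * (zz s)⁻¹)⁻¹ * k = k * (zz s * k * (zz s)⁻¹)⁻¹ := by
      have h5 := K_comm hs hA2 (a := (zz s * k * (zz s)⁻¹)⁻¹) (b := k) (by rw [map_inv, h3, inv_one]) hk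
      exact h5
    rw [e]
    group
where
  inv_mem_iff_one (k : E) (hk : π k = 1) : π k⁻¹ = 1 := by rw [map_inv, hk, inv_one]

include hs hA2 in
theorem NN_pi {n : E} (hn : n ∈ NN hs hA2) : π n = 1 := by
  obtain ⟨k, hk, rfl⟩ := hn
  rw [map_mul, map_inv, hk, pi_conj hs hk]
  simp

theorem NN_normal : (NN hs hA2).Normal := by
  refine ⟨fun n hn e => ?_⟩
  have hn1 := NN_pi hs hA2 hn
  by_cases he : π e ∈ HC
  · have : e * n * e⁻¹ = n := by
      rw [(hA2 n hn1 e he).symm]
      group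
    rw [this]
    exact hn
  · obtain ⟨t, ht, rfl⟩ := odd_dec hs he
    obtain ⟨k, hk, rfl⟩ := hn
    set a := zz s * k * (zz s)⁻¹ with ha
    have ha1 : π a = 1 := pi_conj hs hk _
    have hz : zz s * a * (zz s)⁻¹ = k := by
      rw [ha]
      calc zz s * (zz s * k * (zz s)⁻¹) * (zz s)⁻¹ = (zz s * zz s) * k * (zz s * zz s)⁻¹ := by group
        _ = k := by rw [zz_sq]; group
    have hm : zz s * (k⁻¹ * a) * (zz s)⁻¹ = a⁻¹ * (zz s * a * (zz s)⁻¹) := by
      rw [hz]
      rw [ha]
      calc zz s * (k⁻¹ * (zz s * k * (zz s)⁻¹)) * (zz s)⁻¹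
          = (zz s * k⁻¹ * (zz s)⁻¹) * ((zz s * zz s) * k * (zz s * zz s)⁻¹) := by group
        _ = (zz s * k⁻¹ * (zz s)⁻¹) * k := by rw [zz_sq]; group
        _ = _ := by group
    have hm1 : π (zz s * (k⁻¹ * a) * (zz s)⁻¹) = 1 := by
      apply pi_conj hs
      rw [map_mul, map_inv, hk, ha1]
      simp
    have e1 : t * zz s * (k⁻¹ * a) * (t * zz s)⁻¹ = zz s * (k⁻¹ * a) * (zz s)⁻¹ := by
      have h2 := hA2 _ hm1 t ht
      calc t * zz s * (k⁻¹ * a) * (t * zz s)⁻¹ = t * (zz s * (k⁻¹ * a) * (zz s)⁻¹) * t⁻¹ := by group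
        _ = (zz s * (k⁻¹ * a) * (zz s)⁻¹) * t * t⁻¹ := by rw [h2]
        _ = _ := by group
    rw [e1, hm]
    exact ⟨a, ha1, rfl⟩

/-- The quotient by the commutators with `z`. -/
theorem K_le_NN (hπ : Function.Surjective π) (hC : π.ker ≤ commutator E) :
    ∀ k, π k = 1 → k ∈ NN hs hA2 := by
  haveI := NN_normal hs hA2
  have hle : NN hs hA2 ≤ π.ker := fun n hn => NN_pi hs hA2 hn
  let V := E ⧸ NN hs hA2
  let πb : V →* Fi24 := QuotientGroup.lift _ π hle
  let mk : E →* V := QuotientGroup.mk' _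
  have hπb : ∀ e, πb (mk e) = π e := fun e => rfl
  have hsurj : Function.Surjective πb := by
    intro y
    obtain ⟨e, rfl⟩ := hπ y
    exact ⟨mk e, rfl⟩
  have hmk : Function.Surjective mk := QuotientGroup.mk'_surjective _
  have hkv : ∀ x, πb x = 1 → ∃ k, π k = 1 ∧ mk k = x := by
    intro x hx
    obtain ⟨k, rfl⟩ := hmk x
    exact ⟨k, hx, rfl⟩
  have hzc : ∀ k, π k = 1 → mk (zz s) * mk k = mk k * mk (zz s) := by
    intro k hk
    have h1 : k⁻¹ * (zz s * k * (zz s)⁻¹) ∈ NN hs hA2 := ⟨k, hk, rfl⟩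
    have h2 : mk (k⁻¹ * (zz s * k * (zz s)⁻¹)) = 1 := (QuotientGroup.eq_one_iff _).mpr h1
    have h3 : mk k⁻¹ * (mk (zz s) * mk k * (mk (zz s))⁻¹) = 1 := by
      simpa only [map_mul, map_inv] using h2
    rw [map_inv] at h3
    have h4 : mk (zz s) * mk k * (mk (zz s))⁻¹ = mk k := by
      calc mk (zz s) * mk k * (mk (zz s))⁻¹ = mk k * ((mk k)⁻¹ * (mk (zz s) * mk k * (mk (zz s))⁻¹)) := by group
        _ = mk k := by rw [h3, mul_one]
    calc mk (zz s) * mk k = mk (zz s) * mk k * (mk (zz s))⁻¹ * mk (zz s) := by group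
      _ = _ := by rw [h4]
  have hK : πb.ker ≤ center V := by
    intro x hx
    obtain ⟨k, hk, rfl⟩ := hkv x hx
    rw [mem_center_iff]
    intro q
    obtain ⟨e, rfl⟩ := hmk q
    by_cases he : π e ∈ HC
    · rw [← map_mul, ← map_mul, hA2 k hk e he]
    · obtain ⟨t, ht, rfl⟩ := odd_dec hs he
      have h1 : mk t * mk k = mk k * mk t := by
        rw [← map_mul, ← map_mul, hA2 k hk t ht]
      rw [map_mul]
      calc mk t * mk (zz s) * mk k = mk t * (mk (zz s) * mk k) := by group
        _ = mk t * (mk k * mk (zz s)) := by rw [hzc k hk]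
        _ = (mk t * mk k) * mk (zz s) := by group
        _ = (mk k * mk t) * mk (zz s) := by rw [h1]
        _ = _ := by group
  have hC' : πb.ker ≤ commutator V := by
    intro x hx
    obtain ⟨k, hk, rfl⟩ := hkv x hx
    have h1 : (commutator E).map mk ≤ commutator V := by
      rw [_root_.commutator_def E, map_commutator]
      exact commutator_mono le_top le_top
    exact h1 (mem_map_of_mem _ (hC hk))
  have hbot := V_ker_bot (π := πb) (s := mk.comp s) (fun h => hs h) hK hsurj hC'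
  intro k hk
  have h1 : mk k ∈ πb.ker := hk
  rw [hbot, mem_bot] at h1
  exact (QuotientGroup.eq_one_iff _).mp h1

include hs hA2 in
/-- The properties of the kernel. -/
theorem K_props [Finite E] (hπ : Function.Surjective π) (hC : π.ker ≤ commutator E) :
    (∀ y r, π y ∉ HC → π r = 1 → y * r * y⁻¹ = r⁻¹) ∧ (∀ r, π r = 1 → r * r = 1 → r = 1) ∧
      (∀ k, π k = 1 → ∃ t, π t = 1 ∧ t * t = k) := by
  have hNN := K_le_NN hs hA2 hπ hC
  -- `z` inverts the kernel
  have hz : ∀ k, π k = 1 → zz s * k * (zz s)⁻¹ = k⁻¹ := by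
    intro k hk
    obtain ⟨m, hm, e⟩ := hNN k hk
    set a := zz s * m * (zz s)⁻¹ with ha
    have ha1 : π a = 1 := pi_conj hs hm _
    have h1 : zz s * a * (zz s)⁻¹ = m := by
      rw [ha]
      calc zz s * (zz s * m * (zz s)⁻¹) * (zz s)⁻¹ = (zz s * zz s) * m * (zz s * zz s)⁻¹ := by group
        _ = m := by rw [zz_sq]; group
    rw [e]
    calc zz s * (m⁻¹ * a) * (zz s)⁻¹ = (zz s * m * (zz s)⁻¹)⁻¹ * (zz s * a * (zz s)⁻¹) := by group
      _ = a⁻¹ * m := by rw [h1]
      _ = (m⁻¹ * a)⁻¹ := by group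
  have hodd : ∀ y r, π y ∉ HC → π r = 1 → y * r * y⁻¹ = r⁻¹ := by
    intro y r hy hr
    obtain ⟨t, ht, rfl⟩ := odd_dec hs hy
    have h1 : π r⁻¹ = 1 := by rw [map_inv, hr, inv_one]
    calc t * zz s * r * (t * zz s)⁻¹ = t * (zz s * r * (zz s)⁻¹) * t⁻¹ := by group
      _ = t * r⁻¹ * t⁻¹ := by rw [hz r hr]
      _ = r⁻¹ * t * t⁻¹ := by rw [hA2 _ h1 t ht]
      _ = r⁻¹ := by group
  -- squaring on the kernel
  have hsq : ∀ k : π.ker, ∃ t : π.ker, t * t = k := by
    rintro ⟨k, hk⟩
    obtain ⟨m, hm, e⟩ := hNN k hk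
    have h1 := hz m hm
    refine ⟨⟨m⁻¹, by rw [MonoidHom.mem_ker, map_inv, hm, inv_one]⟩, ?_⟩
    apply Subtype.ext
    show m⁻¹ * m⁻¹ = k
    rw [e, h1]
  let sqK : π.ker → π.ker := fun t => t * t
  have hsurj : Function.Surjective sqK := hsq
  have hinj : Function.Injective sqK := Finite.injective_iff_surjective.mpr hsurj
  refine ⟨hodd, ?_, ?_⟩
  · intro r hr h2
    have h3 : sqK ⟨r, hr⟩ = sqK 1 := by
      apply Subtype.ext
      show r * r = 1 * 1
      rw [h2, one_mul]
    exact congrArg Subtype.val (hinj h3)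
  · intro k hk
    obtain ⟨⟨t, ht⟩, h3⟩ := hsq ⟨k, hk⟩
    exact ⟨t, ht, congrArg Subtype.val h3⟩

end ext

theorem lab_symm : ∀ a, a < 12 → ∀ b, b < 12 → lab a b = lab b a := by decide

section letters

variable {E : Type*} [Group E] {π : E →* Fi24} {s : ↥HH →* E}

/-- A lift of the letter `k` in place. -/
theorem exists_letters (hs : ∀ h, π (s h) = h) (hπ : Function.Surjective π)
    (hodd : ∀ y r, π y ∉ HC → π r = 1 → y * r * y⁻¹ = r⁻¹) (hinj : ∀ r, π r = 1 → r * r = 1 → r = 1)
    (hsqrt : ∀ k, π k = 1 → ∃ t, π t = 1 ∧ t * t = k) :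
    ∃ f : ℕ → E, (∀ x, π (f x) = genF x) ∧ (∀ x, f x * f x = 1) ∧
      (∀ a b, a < 12 → b < 12 → ev f (coxL a b) = 1) ∧ (∀ x, x ≠ 4 → f x = s (lH x)) := by
  classical
  have hsl : ∀ x, x ≠ 4 → π (s (lH x)) = genF x := fun x hx => by rw [hs, lH_coe hx]
  have hsq3 : ∀ x, x ≠ 4 → s (lH x) * s (lH x) = 1 := by
    intro x hx
    rw [← map_mul]
    have : lH x * lH x = 1 := Subtype.ext (by rw [Subgroup.coe_mul, lH_coe hx, genF_inv]; rfl)
    rw [this, map_one]
  have hcomm : ∀ a b, a < 12 → b < 12 → a ≠ 4 → b ≠ 4 → lab a b = 2 →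
      s (lH a) * s (lH b) = s (lH b) * s (lH a) := by
    intro a b ha hb ha4 hb4 h2
    rw [← map_mul, ← map_mul]
    congr 1
    apply Subtype.ext
    rw [Subgroup.coe_mul, Subgroup.coe_mul, lH_coe ha4, lH_coe hb4]
    exact comm_gen ha hb h2
  -- a lift of `k`
  obtain ⟨k₀, hk₀⟩ := hπ (genF 4)
  set bh := s (lH 2) with hbh
  have hbp : π bh = genF 2 := hsl 2 (by norm_num)
  have hr0 : π (k₀ * bh * k₀⁻¹ * bh⁻¹) = 1 := by
    rw [map_mul, map_mul, map_mul, map_inv, map_inv, hk₀, hbp,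
      comm_gen (a := 4) (b := 2) (by norm_num) (by norm_num) (by decide)]
    group
  obtain ⟨t, ht, htt⟩ := hsqrt _ hr0
  set kh := k₀ * t with hkh
  have hkp : π kh = genF 4 := by rw [hkh, map_mul, hk₀, ht, mul_one]
  have hko : π k₀ ∉ HC := by rw [hk₀]; exact letter_odd (by norm_num)
  have hkho : π kh ∉ HC := by rw [hkp]; exact letter_odd (by norm_num)
  have hbo : π bh ∉ HC := by rw [hbp]; exact letter_odd (by norm_num)
  -- `k` commutes with `b`
  have hkb : kh * bh = bh * kh := by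
    have h1 : π t⁻¹ = 1 := by rw [map_inv, ht, inv_one]
    have h2 : bh * t⁻¹ * bh⁻¹ = t := by
      rw [hodd _ _ hbo h1, inv_inv]
    have h3 : t * bh * t⁻¹ = t * t * bh := by
      calc t * bh * t⁻¹ = t * (bh * t⁻¹ * bh⁻¹) * bh := by group
        _ = t * t * bh := by rw [h2]
    have hr0' : π (t * t) = 1 := by rw [htt]; exact hr0
    have h4 : k₀ * (t * t) * k₀⁻¹ = (t * t)⁻¹ := hodd _ _ hko hr0'
    have h5 : kh * bh * kh⁻¹ * bh⁻¹ = 1 := by
      calc kh * bh * kh⁻¹ * bh⁻¹ = k₀ * (t * bh * t⁻¹) * k₀⁻¹ * bh⁻¹ := by rw [hkh]; group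
        _ = k₀ * (t * t * bh) * k₀⁻¹ * bh⁻¹ := by rw [h3]
        _ = (k₀ * (t * t) * k₀⁻¹) * (k₀ * bh * k₀⁻¹ * bh⁻¹) := by group
        _ = (t * t)⁻¹ * (t * t) := by rw [h4, htt]
        _ = 1 := by group
    calc kh * bh = kh * bh * kh⁻¹ * bh⁻¹ * (bh * kh) := by group
      _ = bh * kh := by rw [h5, one_mul]
  -- the square of `k`
  have hk2 : kh * kh = 1 := by
    apply hinj
    · rw [map_mul, hkp, genF_inv]
    · have h1 : π (kh * kh) = 1 := by rw [map_mul, hkp, genF_inv]
      have h2 := hodd kh (kh * kh) hkho h1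
      have h3 : kh * (kh * kh) * kh⁻¹ = kh * kh := by group
      rw [h3] at h2
      calc kh * kh * (kh * kh) = kh * kh * (kh * kh)⁻¹ := by
            conv_lhs => rw [h2]
            rw [← h2]
        _ = 1 := by group
  -- a relator with an odd letter commuting with it
  have hthird : ∀ y r, π y ∉ HC → π r = 1 → y * r = r * y → r = 1 := by
    intro y r hy hr hc
    apply hinj r hr
    have h2 := hodd y r hy hr
    have h3 : y * r * y⁻¹ = r := by rw [hc]; group
    rw [h3] at h2
    calc r * r = r * r⁻¹ := by rw [← h2]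
      _ = 1 := by group
  have hlo : ∀ x, x < 12 → x ≠ 4 → π (s (lH x)) ∉ HC := by
    intro x hx h4
    rw [hsl x h4]
    exact letter_odd hx
  -- the letters commuting with `k` through another letter
  have hcomK : ∀ w y, w < 12 → y < 12 → w ≠ 4 → y ≠ 4 → lab w y = 2 → kh * s (lH w) = s (lH w) * kh → lab 4 y = 2 →
      kh * s (lH y) = s (lH y) * kh := by
    intro w y hw hy hw4 hy4 hwy hkw hky
    set r := kh * s (lH y) * kh⁻¹ * (s (lH y))⁻¹ with hr
    have hr1 : π r = 1 := by
      rw [hr, map_mul, map_mul, map_mul, map_inv, map_inv, hkp, hsl y hy4, comm_gen (a := 4) (b := y) (by norm_num) hy hky]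
      group
    have hc2 : s (lH w) * r = r * s (lH w) := by
      have hwy' := hcomm w y hw hy hw4 hy4 hwy
      have hkw' : s (lH w) * kh = kh * s (lH w) := hkw.symm
      have hkwi : s (lH w) * kh⁻¹ = kh⁻¹ * s (lH w) := by
        calc s (lH w) * kh⁻¹ = kh⁻¹ * (kh * s (lH w)) * kh⁻¹ := by group
          _ = kh⁻¹ * (s (lH w) * kh) * kh⁻¹ := by rw [hkw]
          _ = _ := by group
      have hwyi : s (lH w) * (s (lH y))⁻¹ = (s (lH y))⁻¹ * s (lH w) := by
        calc s (lH w) * (s (lH y))⁻¹ = (s (lH y))⁻¹ * (s (lH y) * s (lH w)) * (s (lH y))⁻¹ := by group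
          _ = (s (lH y))⁻¹ * (s (lH w) * s (lH y)) * (s (lH y))⁻¹ := by rw [hwy']
          _ = _ := by group
      rw [hr]
      calc s (lH w) * (kh * s (lH y) * kh⁻¹ * (s (lH y))⁻¹)
          = (s (lH w) * kh) * s (lH y) * kh⁻¹ * (s (lH y))⁻¹ := by group
        _ = kh * (s (lH w) * s (lH y)) * kh⁻¹ * (s (lH y))⁻¹ := by rw [hkw']; group
        _ = kh * s (lH y) * (s (lH w) * kh⁻¹) * (s (lH y))⁻¹ := by rw [hwy']; group
        _ = kh * s (lH y) * kh⁻¹ * (s (lH w) * (s (lH y))⁻¹) := by rw [hkwi]; group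
        _ = _ := by rw [hwyi]; group
    have h5 := hthird _ r (hlo w hw hw4) hr1 hc2
    calc kh * s (lH y) = r * (s (lH y) * kh) := by rw [hr]; group
      _ = _ := by rw [h5, one_mul]
  have hk2' : kh * s (lH 2) = s (lH 2) * kh := hkb
  have hk0 := hcomK 2 0 (by norm_num) (by norm_num) (by norm_num) (by norm_num) (by decide) hk2' (by decide)
  have hk6 := hcomK 2 6 (by norm_num) (by norm_num) (by norm_num) (by norm_num) (by decide) hk2' (by decide)
  have hk7 := hcomK 2 7 (by norm_num) (by norm_num) (by norm_num) (by norm_num) (by decide) hk2' (by decide)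
  have hk8 := hcomK 2 8 (by norm_num) (by norm_num) (by norm_num) (by norm_num) (by decide) hk2' (by decide)
  have hk9 := hcomK 2 9 (by norm_num) (by norm_num) (by norm_num) (by norm_num) (by decide) hk2' (by decide)
  have hk10 := hcomK 2 10 (by norm_num) (by norm_num) (by norm_num) (by norm_num) (by decide) hk2' (by decide)
  have hk11 := hcomK 2 11 (by norm_num) (by norm_num) (by norm_num) (by norm_num) (by decide) hk2' (by decide)
  have hk1 := hcomK 6 1 (by norm_num) (by norm_num) (by norm_num) (by norm_num) (by decide) hk6 (by decide)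
  -- the edges of the letter `k`
  have hedge : ∀ w y, w < 12 → y < 12 → w ≠ 4 → y ≠ 4 → lab w y = 2 → kh * s (lH w) = s (lH w) * kh → lab 4 y = 3 →
      (kh * s (lH y)) ^ 3 = 1 := by
    intro w y hw hy hw4 hy4 hwy hkw hky
    have hr1 : π ((kh * s (lH y)) ^ 3) = 1 := by
      rw [map_pow, map_mul, hkp, hsl y hy4]
      have h1 := genF_cox (a := y) (b := 4) hy (by norm_num)
      rw [ev_coxL] at h1
      have e : lab y 4 = 3 := by
        rw [← hky]
        unfold lab adj
        interval_cases y <;> first | omega | rfl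
      rwa [e] at h1
    have hc2 : s (lH w) * (kh * s (lH y)) ^ 3 = (kh * s (lH y)) ^ 3 * s (lH w) := by
      have h4 : Commute (s (lH w)) (kh * s (lH y)) := by
        show s (lH w) * (kh * s (lH y)) = kh * s (lH y) * s (lH w)
        calc s (lH w) * (kh * s (lH y)) = (s (lH w) * kh) * s (lH y) := by group
          _ = (kh * s (lH w)) * s (lH y) := by rw [hkw]
          _ = kh * (s (lH w) * s (lH y)) := by group
          _ = kh * (s (lH y) * s (lH w)) := by rw [hcomm w y hw hy hw4 hy4 hwy]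
          _ = _ := by group
      exact (h4.pow_right 3).eq
    exact hthird _ _ (hlo w hw hw4) hr1 hc2
  have hk3 := hedge 7 3 (by norm_num) (by norm_num) (by norm_num) (by norm_num) (by decide) hk7 (by decide)
  have hk5 := hedge 2 5 (by norm_num) (by norm_num) (by norm_num) (by norm_num) (by decide) hk2' (by decide)
  -- the letters
  let f : ℕ → E := fun x => if x = 4 then kh else s (lH x)
  have hf4 : f 4 = kh := if_pos rfl
  have hfo : ∀ x, x ≠ 4 → f x = s (lH x) := fun x hx => if_neg hx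
  have hfs : ∀ x, f x * f x = 1 := by
    intro x
    by_cases hx : x = 4
    · subst hx
      rw [hf4, hk2]
    · rw [hfo x hx, hsq3 x hx]
  have hkcox : ∀ y, y < 12 → y ≠ 4 → (kh * f y) ^ lab 4 y = 1 := by
    intro y hy hy4
    rw [hfo y hy4]
    have hcm : ∀ (e : kh * s (lH y) = s (lH y) * kh), lab 4 y = 2 → (kh * s (lH y)) ^ lab 4 y = 1 := by
      intro e h2
      rw [h2, pow_two]
      calc kh * s (lH y) * (kh * s (lH y)) = kh * (s (lH y) * kh) * s (lH y) := by group
        _ = kh * (kh * s (lH y)) * s (lH y) := by rw [e]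
        _ = (kh * kh) * (s (lH y) * s (lH y)) := by group
        _ = 1 := by rw [hk2, hsq3 y hy4, one_mul]
    match y, hy, hy4 with
    | 0, _, _ => exact hcm hk0 (by decide)
    | 1, _, _ => exact hcm hk1 (by decide)
    | 2, _, _ => exact hcm hk2' (by decide)
    | 3, _, _ =>
      have : lab 4 3 = 3 := by decide
      rw [this]
      exact hk3
    | 5, _, _ =>
      have : lab 4 5 = 3 := by decide
      rw [this]
      exact hk5
    | 6, _, _ => exact hcm hk6 (by decide)
    | 7, _, _ => exact hcm hk7 (by decide)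
    | 8, _, _ => exact hcm hk8 (by decide)
    | 9, _, _ => exact hcm hk9 (by decide)
    | 10, _, _ => exact hcm hk10 (by decide)
    | 11, _, _ => exact hcm hk11 (by decide)
    | 4, _, h => exact absurd rfl h
  refine ⟨f, ?_, hfs, ?_, hfo⟩
  · intro x
    by_cases hx : x = 4
    · subst hx
      rw [hf4, hkp]
    · rw [hfo x hx, hsl x hx]
  · intro a b ha hb
    rw [ev_coxL]
    by_cases ha4 : a = 4
    · subst ha4
      by_cases hb4 : b = 4
      · subst hb4
        have : lab 4 4 = 1 := by decide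
        rw [this, pow_one, hfs]
      · -- `(f b * k) ^ n` is a conjugate of `(k * f b) ^ n`
        rw [hf4]
        have h1 := hkcox b hb hb4
        have h2 : (f b * kh) ^ lab 4 b = f b * (kh * f b) ^ lab 4 b * (f b)⁻¹ := by
          have h3 : f b * (kh * f b) * (f b)⁻¹ = f b * kh := by group
          rw [← h3, conj_pow]
        rw [h2, h1]
        group
    · by_cases hb4 : b = 4
      · subst hb4
        rw [hf4, lab_symm a ha 4 hb]
        exact hkcox a ha ha4
      · rw [hfo a ha4, hfo b hb4, ← map_mul, ← map_pow]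
        have h1 := genF_cox ha hb
        rw [ev_coxL] at h1
        have : (lH b * lH a) ^ lab a b = 1 := by
          apply Subtype.ext
          rw [Subgroup.coe_pow, Subgroup.coe_mul, lH_coe ha4, lH_coe hb4]
          exact h1
        rw [this, map_one]

end letters

theorem ev_congr' {X : Type*} [Group X] {f g : ℕ → X} {w : List ℕ} (h : ∀ x ∈ w, f x = g x) : ev f w = ev g w := by
  induction w with
  | nil => rfl
  | cons x r ih =>
    rw [ev_cons, ev_cons, ih (fun y hy => h y (List.mem_cons_of_mem _ hy)), h x List.mem_cons_self]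

theorem comm_central {G : Type*} [Group G] {a b k l : G} (hkb : k * b = b * k) (hkl : k * l = l * k) (hla : l * a = a * l) :
    ⁅a * k, b * l⁆ = ⁅a, b⁆ := by
  rw [commutatorElement_def, commutatorElement_def]
  have hlai : l * a⁻¹ = a⁻¹ * l := by
    calc l * a⁻¹ = a⁻¹ * (a * l) * a⁻¹ := by group
      _ = a⁻¹ * (l * a) * a⁻¹ := by rw [hla]
      _ = _ := by group
  calc a * k * (b * l) * (a * k)⁻¹ * (b * l)⁻¹ = a * (k * b) * l * k⁻¹ * a⁻¹ * l⁻¹ * b⁻¹ := by group
    _ = a * b * (k * l) * k⁻¹ * a⁻¹ * l⁻¹ * b⁻¹ := by rw [hkb]; group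
    _ = a * b * l * a⁻¹ * l⁻¹ * b⁻¹ := by rw [hkl]; group
    _ = a * b * (l * a⁻¹) * l⁻¹ * b⁻¹ := by group
    _ = a * b * (a⁻¹ * l) * l⁻¹ * b⁻¹ := by rw [hlai]
    _ = _ := by group

/-- The main theorem on the extensions of Fi₂₄. -/
theorem E_main {E : Type*} [Group E] [Finite E] {π : E →* Fi24} (hπ : Function.Surjective π)
    (hA2 : ∀ k, π k = 1 → ∀ e, π e ∈ HC → k * e = e * k)
    (hA3 : π.ker ≤ (commutator ↥(HC.comap π)).map (HC.comap π).subtype)
    {z : E} (hz : z * z = 1) (hzl : π z = ll) :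
    ∃ S : E, π S = 1 ∧ S ^ 3 = 1 ∧ π.ker ≤ zpowers S := by
  classical
  obtain ⟨s, hs⟩ := Cfsg.Agent.Lib.F24zSec.exists_section π hπ hA2 hz hzl
  have hC : π.ker ≤ commutator E := by
    refine hA3.trans ?_
    rw [_root_.commutator_def ↥(HC.comap π), map_commutator, _root_.commutator_def E]
    exact commutator_mono le_top le_top
  obtain ⟨hodd, hinj, hsqrt⟩ := K_props hs hA2 hπ hC
  obtain ⟨f, hfp, hfs, hcox, hfo⟩ := exists_letters hs hπ hodd hinj hsqrt
  have hev : ∀ w : List ℕ, (∀ x ∈ w, x ≠ 4) → ev f w = s (ev lH w) := by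
    intro w hw
    rw [map_ev]
    exact ev_congr' (fun x hx => hfo x (hw x hx))
  have hrel : ∀ w : List ℕ, (∀ x ∈ w, x ≠ 4) → ev genF w = 1 → ev f w = 1 := by
    intro w hw h1
    rw [hev w hw]
    have : ev lH w = 1 := Subtype.ext (by rw [lH_ev hw, h1]; rfl)
    rw [this, map_one]
  have hlW := hrel lW (by decide) genF_lW
  have hsp := hrel spW (by decide) spW_one
  have hrV := hrel rVW (by decide) rV_one
  set S := ev f zW with hS
  have hS1 : π S = 1 := by
    rw [hS, map_ev, show (fun n => π (f n)) = genF from funext hfp]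
    exact genF_zW
  have hf5 : f 5 = zz s := by
    rw [hfo 5 (by norm_num), zz]
    congr 1
  have hzo : π (zz s) ∉ HC := by
    rw [pi_zz hs]
    exact letter_odd (x := 5) (by norm_num)
  have hzi : zz s * S * (zz s)⁻¹ = S⁻¹ := hodd _ _ hzo hS1
  have hzz : zz s * S * zz s = S⁻¹ := by rwa [zz_inv] at hzi
  -- the thirteen letters
  let gen : ℕ → E := fun x => if x = 12 then zz s * S else f x
  have hg12 : gen 12 = zz s * S := if_pos rfl
  have hgo : ∀ x, x ≠ 12 → gen x = f x := fun x hx => if_neg hx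
  have hg5 : gen 5 = zz s := by rw [hgo 5 (by norm_num), hf5]
  have hg512 : gen 5 * gen 12 = S := by
    rw [hg5, hg12, ← mul_assoc, zz_sq, one_mul]
  have hgi : ∀ x, gen x * gen x = 1 := by
    intro x
    by_cases hx : x = 12
    · subst hx
      rw [hg12]
      calc zz s * S * (zz s * S) = (zz s * S * zz s) * S := by group
        _ = 1 := by rw [hzz]; group
    · rw [hgo x hx, hfs]
  have hnot : ∀ w : List ℕ, (∀ x ∈ w, x ≠ 12) → ev gen w = ev f w := fun w hw =>
    ev_congr' (fun x hx => hgo x (hw x hx))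
  have hR : ∀ w ∈ Rz, ev gen w = 1 := by
    intro w hw
    rcases List.mem_append.mp hw with h | h
    · rcases List.mem_append.mp h with h | h
      · rcases List.mem_append.mp h with h | h
        · refine coxRels_ev (f := gen) ?_ hS12 w h
          intro a b ha hb
          rw [ev_coxL, hgo a (by omega), hgo b (by omega), ← ev_coxL]
          exact hcox a b ha hb
        · simp only [List.mem_cons, List.not_mem_nil, or_false] at h
          rcases h with rfl | rfl
          · rw [hnot _ (by decide)]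
            exact hlW
          · rw [uW, ev_append, hnot zW (by decide), ← hS]
            simp only [ev_cons, ev_nil, one_mul]
            rw [hg5, hg12]
            calc zz s * S * zz s * S = S⁻¹ * S := by rw [hzz]
              _ = 1 := by group
      · obtain ⟨x, hx, rfl⟩ := List.mem_map.mp h
        have key : ∀ x ∈ ([0, 1, 2, 3, 4, 6, 7, 8, 9, 10, 11] : List ℕ), x < 12 := by decide
        have hx12 := key x hx
        have h1 := hodd (f x) S (by rw [hfp]; exact letter_odd hx12) hS1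
        rw [inv_eq_of_mul_eq_one_left (hfs x)] at h1
        simp only [invW, ev_cons, ev_nil, one_mul]
        rw [hgo x (by omega)]
        calc f x * gen 5 * gen 12 * f x * gen 5 * gen 12 = f x * (gen 5 * gen 12) * f x * (gen 5 * gen 12) := by group
          _ = f x * S * f x * S := by rw [hg512]
          _ = S⁻¹ * S := by rw [h1]
          _ = 1 := by group
    · simp only [List.mem_cons, List.not_mem_nil, or_false] at h
      rcases h with rfl | rfl
      · rw [hnot _ (by decide)]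
        exact hsp
      · rw [hnot _ (by decide)]
        exact hrV
  have hm := z_mem gen hgi hR
  have hcube : ev gen [12, 5, 12, 5, 12, 5] = S ^ 3 := by
    simp only [ev_cons, ev_nil, one_mul]
    calc gen 5 * gen 12 * gen 5 * gen 12 * gen 5 * gen 12 = (gen 5 * gen 12) * (gen 5 * gen 12) * (gen 5 * gen 12) := by group
      _ = S ^ 3 := by
        rw [hg512]
        simp only [pow_succ, pow_zero, one_mul]
  rw [hcube] at hm
  have hle : closure (gen '' {x | x ∈ Sb}) ≤ s.range := by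
    rw [closure_le]
    rintro _ ⟨x, hx, rfl⟩
    have key : ∀ x ∈ Sb, x ≠ 12 ∧ x ≠ 4 := by decide
    have hx' := key x hx
    rw [hgo x hx'.1, hfo x hx'.2]
    exact ⟨_, rfl⟩
  have h3 : S ^ 3 = 1 := by
    obtain ⟨h, he⟩ := hle hm
    have h1 : (h : Fi24) = 1 := by
      rw [← hs h, he, map_pow, hS1, one_pow]
    have h2 : h = 1 := Subtype.ext h1
    rw [← he, h2, map_one]
  -- the kernel
  haveI hNn : (zpowers S).Normal := by
    refine ⟨fun n hn e => ?_⟩
    obtain ⟨k, rfl⟩ := mem_zpowers_iff.mp hn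
    rw [← conj_zpow]
    apply zpow_mem
    by_cases he : π e ∈ HC
    · rw [← hA2 S hS1 e he]
      have : S * e * e⁻¹ = S := by group
      rw [this]
      exact mem_zpowers _
    · rw [hodd e S he hS1]
      exact inv_mem (mem_zpowers _)
  let Q := E ⧸ zpowers S
  let mk : E →* Q := QuotientGroup.mk' _
  have hmk : Function.Surjective mk := QuotientGroup.mk'_surjective _
  have hle2 : zpowers S ≤ π.ker := by
    rw [zpowers_le]
    exact hS1
  let πb : Q →* Fi24 := QuotientGroup.lift _ π hle2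
  have hπb : ∀ e, πb (mk e) = π e := fun e => rfl
  have hmapev : ∀ w : List ℕ, ev (fun x => mk (f x)) w = mk (ev f w) := fun w => (map_ev mk f w).symm
  have hrep : IsRep (fun x => mk (f x)) := by
    refine ⟨?_, ?_, ?_⟩
    · intro a b ha hb
      rw [hmapev, hcox a b ha hb, map_one]
    · rw [hmapev, hlW, map_one]
    · rw [hmapev, ← hS]
      exact (QuotientGroup.eq_one_iff S).mpr (mem_zpowers S)
  let ψ : Fi24 →* Q := liftF hrep
  have hψ : ∀ g, πb (ψ g) = g := by
    have h1 : πb.comp ψ = MonoidHom.id _ := by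
      apply PresentedGroup.ext
      intro x
      rw [MonoidHom.comp_apply]
      show πb (liftF hrep (PresentedGroup.of x)) = PresentedGroup.of x
      rw [liftF_of, hπb, hfp, genF_num]
    intro g
    exact DFunLike.congr_fun h1 g
  have hYle : (commutator ↥(HC.comap π)).map (HC.comap π).subtype ≤ (ψ.range).comap mk := by
    rw [Subgroup.map_le_iff_le_comap, _root_.commutator_def, commutator_le]
    intro a _ b _
    show mk (((⁅a, b⁆ : ↥(HC.comap π))) : E) ∈ ψ.range
    obtain ⟨ea, hea⟩ := hmk (ψ (π a))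
    obtain ⟨eb, heb⟩ := hmk (ψ (π b))
    have hpa : π ea = π a := by
      have := congrArg πb hea
      rwa [hπb, hψ] at this
    have hpb : π eb = π b := by
      have := congrArg πb heb
      rwa [hπb, hψ] at this
    have hka : π (ea⁻¹ * (a : E)) = 1 := by
      rw [map_mul, map_inv, hpa]
      group
    have hkb : π (eb⁻¹ * (b : E)) = 1 := by
      rw [map_mul, map_inv, hpb]
      group
    have haH : π (a : E) ∈ HC := a.2
    have hbH : π (b : E) ∈ HC := b.2
    have e1 : ((⁅a, b⁆ : ↥(HC.comap π)) : E) = ⁅(a : E), (b : E)⁆ := by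
      simp [commutatorElement_def]
    have ea' : (a : E) = ea * (ea⁻¹ * (a : E)) := by group
    have eb' : (b : E) = eb * (eb⁻¹ * (b : E)) := by group
    have e2 : ⁅(a : E), (b : E)⁆ = ⁅ea, eb⁆ := by
      conv_lhs => rw [ea', eb']
      apply comm_central
      · exact hA2 _ hka _ (by rw [hpb]; exact hbH)
      · exact hA2 _ hka _ (by rw [hkb]; exact one_mem _)
      · exact hA2 _ hkb _ (by rw [hpa]; exact haH)
    rw [e1, e2, map_commutatorElement, hea, heb, ← map_commutatorElement]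
    exact ⟨_, rfl⟩
  refine ⟨S, hS1, h3, ?_⟩
  intro k hk
  obtain ⟨g, hg⟩ := hYle (hA3 hk)
  have h1 : g = 1 := by
    have h2 := hψ g
    rw [hg, hπb] at h2
    rw [← h2]
    exact hk
  rw [h1, map_one] at hg
  exact (QuotientGroup.eq_one_iff k).mp hg.symm

end Cfsg.Agent.Lib.F24zE
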