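-- Shared library: the kernel of a stem extension of the derived subgroup of Fi₂₄ is cyclic of order dividing three.
import Mathlib
import Cfsg.Agent.Lib.F24zE
import Cfsg.Prelude.Def_KGroupFacts

set_option autoImplicit false
set_option maxRecDepth 100000
set_option linter.all false

namespace Cfsg.Agent.Lib.F24zTw

open Subgroup Cfsg.Spor
open scoped commutatorElement
open Cfsg.Agent.Lib.F24Base Cfsg.Agent.Lib.F24Psi Cfsg.Agent.Lib.F24Cl Cfsg.Agent.Lib.F24Main
open Cfsg.Agent.Lib.F24zSec Cfsg.Agent.Lib.F24zE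

noncomputable section

/-- The derived subgroup of Fi₂₄ is perfect. -/
theorem perfectHC : commutator ↥HC = ⊤ := by
  haveI : IsSimpleGroup ↥HC := simple_HC
  have hN : (commutator ↥HC).Normal := inferInstance
  rcases hN.eq_bot_or_eq_top with h | h
  · exfalso
    have hc : ∀ a b : ↥HC, a * b = b * a := by
      intro a b
      have : ⁅a, b⁆ ∈ commutator ↥HC := commutator_mem_commutator (mem_top _) (mem_top _)
      rw [h, mem_bot] at this
      exact commutatorElement_eq_one_iff_mul_comm.mp this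
    obtain ⟨y, hy⟩ : ∃ y : ↥HC, y ≠ 1 := exists_ne 1
    have hnorm : ∀ w : ↥HC, (zpowers w).Normal := by
      intro w
      refine ⟨fun n hn g => ?_⟩
      rw [hc g n, mul_assoc, mul_inv_cancel, mul_one]
      exact hn
    have hcard := card_HC
    have h2 : zpowers y = ⊤ := by
      rcases (hnorm y).eq_bot_or_eq_top with h3 | h3
      · exact absurd (zpowers_eq_bot.mp h3) hy
      · exact h3
    have hc2 : Nat.card ↥HC = orderOf y := by
      rw [← Nat.card_zpowers, h2, card_top]
    rcases (hnorm (y ^ 2)).eq_bot_or_eq_top with h4 | h4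
    · have h5 : y ^ 2 = 1 := zpowers_eq_bot.mp h4
      have h6 : orderOf y ∣ 2 := orderOf_dvd_of_pow_eq_one h5
      rw [← hc2, hcard] at h6
      norm_num at h6
    · have hc3 : Nat.card ↥HC = orderOf (y ^ 2) := by
        rw [← Nat.card_zpowers, h4, card_top]
      have hc4 : orderOf (y ^ 2) = orderOf y / Nat.gcd (orderOf y) 2 :=
        orderOf_pow' _ (by norm_num)
      rw [← hc2, ← hc3, hcard] at hc4
      norm_num at hc4
  · exact h

/-- Conjugation by `l` on the derived subgroup. -/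
def β : ↥HC →* ↥HC where
  toFun h := ⟨ll * (h : Fi24) * ll⁻¹, (inferInstance : HC.Normal).conj_mem _ h.2 _⟩
  map_one' := by
    apply Subtype.ext
    simp
  map_mul' a b := by
    apply Subtype.ext
    show ll * ((a : Fi24) * (b : Fi24)) * ll⁻¹ = ll * (a : Fi24) * ll⁻¹ * (ll * (b : Fi24) * ll⁻¹)
    group

theorem β_coe (h : ↥HC) : ((β h : ↥HC) : Fi24) = ll * (h : Fi24) * ll⁻¹ := rfl

theorem β_β (h : ↥HC) : β (β h) = h := by
  apply Subtype.ext
  rw [β_coe, β_coe]
  calc ll * (ll * (h : Fi24) * ll⁻¹) * ll⁻¹ = (ll * ll) * (h : Fi24) * (ll * ll)⁻¹ := by group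
    _ = _ := by rw [ll_sq]; group

section twist

variable {Γ : Type*} [Group Γ] (σ : Γ →* ↥HC)

/-- The twisted diagonal subgroup. -/
def PP : Subgroup (Γ × Γ) := MonoidHom.eqLocus (σ.comp (MonoidHom.snd Γ Γ)) (β.comp (σ.comp (MonoidHom.fst Γ Γ)))

theorem mem_PP {p : Γ × Γ} : p ∈ PP σ ↔ σ p.2 = β (σ p.1) := Iff.rfl

/-- The map of the twisted diagonal to the group. -/
def σ0 : ↥(PP σ) →* ↥HC := σ.comp ((MonoidHom.fst Γ Γ).comp (PP σ).subtype)

theorem σ0_apply (p : ↥(PP σ)) : σ0 σ p = σ (p : Γ × Γ).1 := rfl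

/-- The swap on the twisted diagonal. -/
def swapP : ↥(PP σ) →* ↥(PP σ) where
  toFun p := ⟨((p : Γ × Γ).2, (p : Γ × Γ).1), by
    rw [mem_PP]
    show σ (p : Γ × Γ).1 = β (σ (p : Γ × Γ).2)
    rw [(mem_PP σ).mp p.2, β_β]⟩
  map_one' := rfl
  map_mul' _ _ := rfl

theorem swapP_swapP (p : ↥(PP σ)) : swapP σ (swapP σ p) = p := rfl

theorem σ0_swap (p : ↥(PP σ)) : σ0 σ (swapP σ p) = β (σ0 σ p) := (mem_PP σ).mp p.2

/-- The core of the twisted diagonal. -/
abbrev AA : Subgroup ↥(PP σ) := commutator ↥(PP σ)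

theorem swap_mem (a : ↥(AA σ)) : swapP σ (a : ↥(PP σ)) ∈ AA σ := by
  have h4 : (commutator ↥(PP σ)).map (swapP σ) ≤ commutator ↥(PP σ) := by
    rw [_root_.commutator_def ↥(PP σ), map_commutator]
    exact commutator_mono le_top le_top
  exact h4 (mem_map_of_mem _ a.2)

/-- The swap on the core, as an automorphism. -/
def tA : MulAut ↥(AA σ) where
  toFun a := ⟨swapP σ a, swap_mem σ a⟩
  invFun a := ⟨swapP σ a, swap_mem σ a⟩
  left_inv _ := rfl
  right_inv _ := rfl
  map_mul' a b := by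
    apply Subtype.ext
    exact map_mul _ _ _

theorem tA_sq : tA σ ^ 2 = 1 := by
  rw [pow_two]
  apply MulEquiv.ext
  intro a
  apply Subtype.ext
  rfl

/-- The map of the core to the group. -/
def σ1 : ↥(AA σ) →* Fi24 := HC.subtype.comp ((σ0 σ).comp (AA σ).subtype)

theorem σ1_coe (a : ↥(AA σ)) : σ1 σ a = (σ ((a : ↥(PP σ)) : Γ × Γ).1 : Fi24) := rfl

theorem σ1_mem (a : ↥(AA σ)) : σ1 σ a ∈ HC := (σ0 σ (a : ↥(PP σ))).2

theorem σ1_tA (a : ↥(AA σ)) : σ1 σ (tA σ a) = ll * σ1 σ a * ll⁻¹ := by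
  show ((σ0 σ (swapP σ (a : ↥(PP σ))) : ↥HC) : Fi24) = _
  rw [σ0_swap, β_coe]
  rfl

theorem ll_pow_two : ll ^ 2 = 1 := by rw [pow_two, ll_sq]

/-- The action of the cyclic group of order two. -/
def φ2 : Multiplicative (ZMod 2) →* MulAut ↥(AA σ) := Cfsg.Agent.Lib.SchurAsm.hom1 (tA_sq σ)

/-- The map of the cyclic group of order two. -/
def f2 : Multiplicative (ZMod 2) →* Fi24 := Cfsg.Agent.Lib.SchurAsm.hom1 ll_pow_two

theorem cases2 : ∀ c : Multiplicative (ZMod 2), c = 1 ∨ c = Multiplicative.ofAdd 1 := by decide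

theorem φ2_one : φ2 σ (Multiplicative.ofAdd 1) = tA σ := by
  show tA σ ^ (Multiplicative.toAdd (Multiplicative.ofAdd (1 : ZMod 2))).val = _
  simp [ZMod.val_one]

theorem f2_one : f2 (Multiplicative.ofAdd 1) = ll := by
  show ll ^ (Multiplicative.toAdd (Multiplicative.ofAdd (1 : ZMod 2))).val = _
  simp [ZMod.val_one]

/-- The extension of Fi₂₄. -/
abbrev EE := SemidirectProduct ↥(AA σ) (Multiplicative (ZMod 2)) (φ2 σ)

/-- The map onto Fi₂₄. -/
def πE : EE σ →* Fi24 :=
  SemidirectProduct.lift (σ1 σ) f2 (by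
    intro c
    ext a
    rcases cases2 c with rfl | rfl
    · simp [map_one]
    · simp only [MonoidHom.comp_apply, MulEquiv.coe_toMonoidHom, MulAut.conj_apply]
      rw [φ2_one, f2_one, σ1_tA])

theorem πE_mk (a : ↥(AA σ)) (c : Multiplicative (ZMod 2)) :
    πE σ (SemidirectProduct.inl a * SemidirectProduct.inr c) = σ1 σ a * f2 c := by
  simp [πE, SemidirectProduct.lift_inl, SemidirectProduct.lift_inr]

theorem exists_mk (e : EE σ) : ∃ (a : ↥(AA σ)) (c : Multiplicative (ZMod 2)), e = SemidirectProduct.inl a * SemidirectProduct.inr c :=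
  ⟨e.left, e.right, (SemidirectProduct.inl_left_mul_inr_right e).symm⟩

theorem ll_not : ll ∉ HC := by
  have := letter_odd (x := 5) (by norm_num)
  exact this

end twist

section stem

variable {Γ : Type*} [Group Γ] [Finite Γ] {σ : Γ →* ↥HC} (hσ : Cfsg.IsStemExtension σ)

include hσ in
/-- The kernel bound. -/
theorem ker_bound : ∃ a : Γ, a ∈ σ.ker ∧ a ^ 3 = 1 ∧ σ.ker ≤ closure ({a} : Set Γ) := by
  classical
  obtain ⟨hs, hcen, hcomm⟩ := hσ
  -- the map of the twisted diagonal is a central extension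
  have hs0 : Function.Surjective (σ0 σ) := by
    intro h
    obtain ⟨x, hx⟩ := hs h
    obtain ⟨y, hy⟩ := hs (β h)
    refine ⟨⟨(x, y), ?_⟩, hx⟩
    rw [mem_PP]
    show σ y = β (σ x)
    rw [hx, hy]
  have hk0 : (σ0 σ).ker ≤ center ↥(PP σ) := by
    intro p hp
    have h1 : σ (p : Γ × Γ).1 = 1 := hp
    have h2 : σ (p : Γ × Γ).2 = 1 := by
      rw [(mem_PP σ).mp p.2, h1, map_one]
    rw [mem_center_iff]
    intro g
    apply Subtype.ext
    apply Prod.ext
    · exact mem_center_iff.mp (hcen h1) _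
    · exact mem_center_iff.mp (hcen h2) _
  obtain ⟨h1, h2, h3⟩ := perf_core (σ0 σ) hs0 hk0 perfectHC
  -- the extension of Fi₂₄
  set π := πE σ with hπdef
  have hσ1s : ∀ h ∈ HC, ∃ a, σ1 σ a = h := by
    intro h hh
    obtain ⟨a, ha⟩ := h1 ⟨h, hh⟩
    exact ⟨a, congrArg Subtype.val ha⟩
  have hf20 : f2 (1 : Multiplicative (ZMod 2)) = 1 := map_one _
  have hπs : Function.Surjective π := by
    intro g
    by_cases hg : g ∈ HC
    · obtain ⟨a, ha⟩ := hσ1s g hg
      refine ⟨SemidirectProduct.inl a * SemidirectProduct.inr 1, ?_⟩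
      rw [hπdef, πE_mk, ha, hf20, mul_one]
    · obtain ⟨a, ha⟩ := hσ1s _ (sign_mul_ll g hg)
      refine ⟨SemidirectProduct.inl a * SemidirectProduct.inr (Multiplicative.ofAdd 1), ?_⟩
      rw [hπdef, πE_mk, ha, f2_one, mul_assoc, ll_sq, mul_one]
  -- the even part
  have hev : ∀ (a : ↥(AA σ)) (c : Multiplicative (ZMod 2)), π (SemidirectProduct.inl a * SemidirectProduct.inr c) ∈ HC → c = 1 := by
    intro a c hc
    rcases cases2 c with rfl | rfl
    · rfl
    · exfalso
      rw [hπdef, πE_mk, f2_one] at hc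
      apply ll_not
      have h4 := mul_mem (inv_mem (σ1_mem σ a)) hc
      rwa [inv_mul_cancel_left] at h4
  have hker : ∀ e, π e = 1 → ∃ a, σ1 σ a = 1 ∧ e = SemidirectProduct.inl a := by
    intro e he
    obtain ⟨a, c, rfl⟩ := exists_mk σ e
    have hc := hev a c (by rw [he]; exact one_mem _)
    subst hc
    rw [hπdef, πE_mk, hf20, mul_one] at he
    exact ⟨a, he, by simp⟩
  have hπinl : ∀ a, π (SemidirectProduct.inl a) = σ1 σ a := by
    intro a
    have := πE_mk σ a 1
    rw [hf20, mul_one] at this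
    simpa using this
  have hA2 : ∀ k, π k = 1 → ∀ e, π e ∈ HC → k * e = e * k := by
    intro k hk e he
    obtain ⟨a₀, ha₀, rfl⟩ := hker k hk
    obtain ⟨a, c, rfl⟩ := exists_mk σ e
    have hc := hev a c he
    subst hc
    have h4 : a₀ ∈ ((σ0 σ).comp (AA σ).subtype).ker := by
      show σ0 σ (a₀ : ↥(PP σ)) = 1
      apply Subtype.ext
      exact ha₀
    have h5 := mem_center_iff.mp (h2 h4) a
    simp only [map_one, mul_one]
    rw [← map_mul, ← map_mul, h5]
  have hA3 : π.ker ≤ (commutator ↥(HC.comap π)).map (HC.comap π).subtype := by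
    intro k hk
    obtain ⟨a₀, ha₀, rfl⟩ := hker k hk
    have h4 : a₀ ∈ ((σ0 σ).comp (AA σ).subtype).ker := by
      show σ0 σ (a₀ : ↥(PP σ)) = 1
      apply Subtype.ext
      exact ha₀
    have h5 := h3 h4
    -- the map of the core into the even part
    let ι : ↥(AA σ) →* ↥(HC.comap π) :=
      { toFun := fun a => ⟨SemidirectProduct.inl a, by
          show π _ ∈ HC
          rw [hπinl]
          exact σ1_mem σ a⟩
        map_one' := by
          apply Subtype.ext
          simp
        map_mul' := by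
          intro a b
          apply Subtype.ext
          simp }
    have h6 : (commutator ↥(AA σ)).map ι ≤ commutator ↥(HC.comap π) := by
      rw [_root_.commutator_def ↥(AA σ), map_commutator]
      exact commutator_mono le_top le_top
    exact ⟨ι a₀, h6 (mem_map_of_mem _ h5), rfl⟩
  haveI : Finite (EE σ) := by
    haveI : Finite ↥(AA σ) := inferInstance
    exact Finite.of_equiv _ (SemidirectProduct.equivProd (φ := φ2 σ)).symm
  have hzz : (SemidirectProduct.inr (Multiplicative.ofAdd 1) : EE σ) * SemidirectProduct.inr (Multiplicative.ofAdd 1) = 1 := by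
    rw [← map_mul]
    have : (Multiplicative.ofAdd (1 : ZMod 2)) * Multiplicative.ofAdd 1 = 1 := by decide
    rw [this, map_one]
  have hzl : π (SemidirectProduct.inr (Multiplicative.ofAdd 1)) = ll := by
    have := πE_mk σ 1 (Multiplicative.ofAdd 1)
    rw [f2_one] at this
    simpa using this
  obtain ⟨S, hS1, hS3, hSle⟩ := E_main hπs hA2 hA3 hzz hzl
  obtain ⟨a₀, ha₀, rfl⟩ := hker S hS1
  have hinj : Function.Injective (SemidirectProduct.inl : ↥(AA σ) →* EE σ) := SemidirectProduct.inl_injective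
  -- Γ is perfect
  have hperf : commutator Γ = ⊤ := by
    rw [eq_top_iff]
    intro g _
    have hle : commutator ↥HC ≤ (commutator Γ).map σ := by
      rw [_root_.commutator_def ↥HC, commutator_le]
      intro a _ b _
      obtain ⟨a', rfl⟩ := hs a
      obtain ⟨b', rfl⟩ := hs b
      rw [← map_commutatorElement]
      exact mem_map_of_mem _ (commutator_mem_commutator (mem_top _) (mem_top _))
    obtain ⟨c, hc, he⟩ := hle (show σ g ∈ commutator ↥HC by rw [perfectHC]; trivial)
    have h4 : c⁻¹ * g ∈ σ.ker := by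
      rw [MonoidHom.mem_ker, map_mul, map_inv, he]
      group
    have h5 := hcomm h4
    have h6 := mul_mem hc h5
    rwa [mul_inv_cancel_left] at h6
  -- the projection of the core
  let pr : ↥(AA σ) →* Γ := (MonoidHom.fst Γ Γ).comp ((PP σ).subtype.comp (AA σ).subtype)
  have hprs : Function.Surjective pr := by
    intro g
    have hg : g ∈ commutator Γ := by rw [hperf]; trivial
    have hle : commutator Γ ≤ ((AA σ).map (PP σ).subtype).map (MonoidHom.fst Γ Γ) := by
      rw [_root_.commutator_def Γ, commutator_le]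
      intro a _ b _
      obtain ⟨x, hx⟩ := hs (β (σ a))
      obtain ⟨y, hy⟩ := hs (β (σ b))
      have hpa : (a, x) ∈ PP σ := hx
      have hpb : (b, y) ∈ PP σ := hy
      have : ⁅a, b⁆ = (MonoidHom.fst Γ Γ) ((PP σ).subtype ((⁅(⟨(a, x), hpa⟩ : ↥(PP σ)), ⟨(b, y), hpb⟩⁆ : ↥(PP σ)))) := by
        simp [commutatorElement_def]
      rw [this]
      exact mem_map_of_mem _ (mem_map_of_mem _ (commutator_mem_commutator (mem_top _) (mem_top _)))
    obtain ⟨_, ⟨p, hp, rfl⟩, he⟩ := hle hg
    exact ⟨⟨p, hp⟩, he⟩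
  have hprσ : ∀ a, (σ (pr a) : Fi24) = σ1 σ a := fun a => rfl
  refine ⟨pr a₀, ?_, ?_, ?_⟩
  · rw [MonoidHom.mem_ker]
    apply Subtype.ext
    rw [hprσ]
    exact ha₀
  · have h4 : a₀ ^ 3 = 1 := by
      apply hinj
      rw [map_pow, hS3, map_one]
    rw [← map_pow, h4, map_one]
  · intro k hk
    obtain ⟨a, rfl⟩ := hprs k
    have h4 : σ1 σ a = 1 := by
      rw [← hprσ]
      have h5 : σ (pr a) = 1 := hk
      rw [h5]
      rfl
    have h5 : π (SemidirectProduct.inl a) = 1 := by rw [hπinl, h4]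
    obtain ⟨n, hn⟩ := mem_zpowers_iff.mp (hSle h5)
    have h6 : a = a₀ ^ n := by
      apply hinj
      rw [map_zpow, hn]
    rw [h6, map_zpow]
    exact zpow_mem (subset_closure (Set.mem_singleton _)) _

end stem

end

end Cfsg.Agent.Lib.F24zTw
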