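-- Shared library: a stem extension of the derived subgroup of Fi₂₄ with kernel of order three.
import Mathlib
import Cfsg.Agent.Lib.F24zTw
import Cfsg.Agent.TcData.F24z.Rep

set_option autoImplicit false
set_option maxRecDepth 100000
set_option linter.all false

namespace Cfsg.Agent.Lib.F24zLow

open Subgroup Cfsg.Spor Cfsg.Spor.Fi24
open scoped commutatorElement
open Cfsg.Agent.Lib.CoxCert Cfsg.Agent.Lib.BitClose
open Cfsg.Agent.Lib.F24Base Cfsg.Agent.Lib.F24Psi Cfsg.Agent.Lib.F24Cl Cfsg.Agent.Lib.F24Main Cfsg.Agent.Lib.F24zW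
open Cfsg.Agent.Lib.F24Y
open Cfsg.Agent.Lib.F24zV (coxRels_ev comm_gen)
open Cfsg.Agent.Lib.F24zE (letter_odd lab_symm)
open Cfsg.Agent.Lib.F24zTw (perfectHC)
open Cfsg.Agent.TcData.F24z

noncomputable section

/-- The word of the centre. -/
def spiderW : FreeGroup Gen := (d * c * b * a * k * l * d * e * f * g * j * d * h * i) ^ 17

/-- The relators of the triple cover. -/
def R3 : Set (FreeGroup Gen) :=
  coxRelators Fi24.edges ∪
    {r | r = l * ((a * b * c * d * e * f * h) ^ 9)⁻¹ ∨ (∃ x : Gen, r = (spiderW * FreeGroup.of x) ^ 2) ∨ r = spiderW ^ 3}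

/-- The triple cover. -/
abbrev Q3 := PresentedGroup R3

/-- What the letters must satisfy. -/
structure IsRep3 {X : Type*} [Group X] (f : ℕ → X) : Prop where
  cox : ∀ a b, a < 12 → b < 12 → ev f (coxL a b) = 1
  l : ev f lW = 1
  inv : ∀ x, x < 12 → (ev f zW * f x) ^ 2 = 1
  cube : (ev f zW) ^ 3 = 1

theorem num_lt (x : Gen) : num x < 12 := by cases x <;> decide

theorem lift_spider {X : Type*} [Group X] (f : ℕ → X) :
    FreeGroup.lift (fun x => f (num x)) spiderW = ev f zW := by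
  rw [ev_zW, ev_z1]
  simp only [spiderW, map_pow, map_mul, FreeGroup.lift_apply_of]
  rfl

theorem rels3 {X : Type*} [Group X] {f : ℕ → X} (hf : IsRep3 f) :
    ∀ r ∈ R3, FreeGroup.lift (fun x => f (num x)) r = 1 := by
  rintro r (⟨x, _, y, _, rfl⟩ | hr)
  · rw [map_pow, map_mul, FreeGroup.lift_apply_of, FreeGroup.lift_apply_of, ← lab_eq, ← ev_coxL]
    exact hf.cox _ _ (num_lt y) (num_lt x)
  · rcases hr with rfl | ⟨x, rfl⟩ | rfl
    · have hinv : f 5 * f 5 = 1 := by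
        have := hf.cox 5 5 (by norm_num) (by norm_num)
        rw [ev_coxL] at this
        simpa [lab] using this
      have hl := hf.l
      rw [ev_lW, ev_e7] at hl
      simp only [map_mul, map_inv, map_pow, FreeGroup.lift_apply_of]
      show f 5 * ((f 3 * f 2 * f 1 * f 0 * f 6 * f 7 * f 10) ^ 9)⁻¹ = 1
      have h1 : (f 3 * f 2 * f 1 * f 0 * f 6 * f 7 * f 10) ^ 9 = (f 5)⁻¹ := eq_inv_of_mul_eq_one_left hl
      rw [h1, inv_inv, hinv]
    · rw [map_pow, map_mul, lift_spider, FreeGroup.lift_apply_of]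
      exact hf.inv _ (num_lt x)
    · rw [map_pow, lift_spider]
      exact hf.cube

/-- The letters of the cover. -/
def gQ (n : ℕ) : Q3 :=
  match letterOf n with
  | some x => PresentedGroup.of x
  | none => 1

theorem gQ_num (x : Gen) : gQ (num x) = PresentedGroup.of x := by
  unfold gQ
  rw [letterOf_num]

theorem exists_num {a : ℕ} (ha : a < 12) : ∃ x, num x = a := by
  interval_cases a
  exacts [⟨.d, rfl⟩, ⟨.c, rfl⟩, ⟨.b, rfl⟩, ⟨.a, rfl⟩, ⟨.k, rfl⟩, ⟨.l, rfl⟩, ⟨.e, rfl⟩, ⟨.f, rfl⟩, ⟨.g, rfl⟩,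
    ⟨.j, rfl⟩, ⟨.h, rfl⟩, ⟨.i, rfl⟩]

theorem mk_of' (x : Gen) : PresentedGroup.mk R3 (FreeGroup.of x) = gQ (num x) := by
  rw [gQ_num]
  rfl

theorem mk_lift (r : FreeGroup Gen) : PresentedGroup.mk R3 r = FreeGroup.lift (fun x => gQ (num x)) r := by
  have : PresentedGroup.mk R3 = FreeGroup.lift (fun x => gQ (num x)) := by
    ext x
    rw [FreeGroup.lift_apply_of, ← mk_of']
  rw [this]

theorem gQ_cox {a b : ℕ} (ha : a < 12) (hb : b < 12) : ev gQ (coxL a b) = 1 := by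
  obtain ⟨x, rfl⟩ := exists_num ha
  obtain ⟨y, rfl⟩ := exists_num hb
  have h : PresentedGroup.mk R3 ((FreeGroup.of y * FreeGroup.of x) ^ coxLabel Fi24.edges y x) = 1 :=
    PresentedGroup.one_of_mem (Or.inl ⟨y, nodes_all y, x, nodes_all x, rfl⟩)
  rw [map_pow, map_mul, mk_of', mk_of', ← lab_eq y x] at h
  rw [ev_coxL]
  exact h

theorem gQ_sq (x : ℕ) : gQ x * gQ x = 1 := by
  by_cases hx : x < 12
  · have h := gQ_cox hx hx
    rw [ev_coxL] at h
    simpa [lab] using h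
  · have : letterOf x = none := by
      match x, hx with
      | k + 12, _ => rfl
    unfold gQ
    rw [this]
    simp

/-- The centre. -/
def ζ : Q3 := ev gQ zW

theorem mk_spider : PresentedGroup.mk R3 spiderW = ζ := by
  rw [mk_lift, lift_spider]
  rfl

theorem gQ_l : ev gQ lW = 1 := by
  have h : PresentedGroup.mk R3 (l * ((a * b * c * d * e * f * h) ^ 9)⁻¹) = 1 :=
    PresentedGroup.one_of_mem (Or.inr (Or.inl rfl))
  rw [mk_lift] at h
  simp only [map_mul, map_inv, map_pow, FreeGroup.lift_apply_of] at h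
  rw [ev_lW, ev_e7]
  have h1 : gQ 5 = (gQ 3 * gQ 2 * gQ 1 * gQ 0 * gQ 6 * gQ 7 * gQ 10) ^ 9 := mul_inv_eq_one.mp h
  rw [← h1, gQ_sq]

theorem ζ_inv {x : ℕ} (hx : x < 12) : (ζ * gQ x) ^ 2 = 1 := by
  obtain ⟨y, rfl⟩ := exists_num hx
  have h : PresentedGroup.mk R3 ((spiderW * FreeGroup.of y) ^ 2) = 1 :=
    PresentedGroup.one_of_mem (Or.inr (Or.inr (Or.inl ⟨y, rfl⟩)))
  rw [map_pow, map_mul, mk_spider, mk_of'] at h
  exact h

theorem ζ_cube : ζ ^ 3 = 1 := by
  have h : PresentedGroup.mk R3 (spiderW ^ 3) = 1 :=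
    PresentedGroup.one_of_mem (Or.inr (Or.inr (Or.inr rfl)))
  rw [map_pow, mk_spider] at h
  exact h

theorem gQ_inv (x : ℕ) : (gQ x)⁻¹ = gQ x := inv_eq_of_mul_eq_one_left (gQ_sq x)

theorem ζ_conj {x : ℕ} (hx : x < 12) : gQ x * ζ * (gQ x)⁻¹ = ζ⁻¹ := by
  have h := ζ_inv hx
  rw [pow_two] at h
  rw [gQ_inv]
  have h1 : gQ x * ζ * gQ x = ζ⁻¹ * (ζ * gQ x * (ζ * gQ x)) := by group
  rw [h1, h, mul_one]

/-- The generators of the group act on the centre. -/
theorem conj_ζ (g : Q3) : g * ζ * g⁻¹ = ζ ∨ g * ζ * g⁻¹ = ζ⁻¹ := by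
  let W : Subgroup Q3 :=
    { carrier := {g | g * ζ * g⁻¹ = ζ ∨ g * ζ * g⁻¹ = ζ⁻¹}
      one_mem' := Or.inl (by simp)
      mul_mem' := by
        rintro a b (ha | ha) (hb | hb)
        · left
          calc a * b * ζ * (a * b)⁻¹ = a * (b * ζ * b⁻¹) * a⁻¹ := by group
            _ = ζ := by rw [hb, ha]
        · right
          calc a * b * ζ * (a * b)⁻¹ = a * (b * ζ * b⁻¹) * a⁻¹ := by group
            _ = (a * ζ * a⁻¹)⁻¹ := by rw [hb]; group
            _ = ζ⁻¹ := by rw [ha]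
        · right
          calc a * b * ζ * (a * b)⁻¹ = a * (b * ζ * b⁻¹) * a⁻¹ := by group
            _ = ζ⁻¹ := by rw [hb, ha]
        · left
          calc a * b * ζ * (a * b)⁻¹ = a * (b * ζ * b⁻¹) * a⁻¹ := by group
            _ = (a * ζ * a⁻¹)⁻¹ := by rw [hb]; group
            _ = ζ := by rw [ha, inv_inv]
      inv_mem' := by
        rintro a (ha | ha)
        · left
          calc a⁻¹ * ζ * a⁻¹⁻¹ = a⁻¹ * (a * ζ * a⁻¹) * a := by rw [ha]; group
            _ = ζ := by group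
        · right
          have h1 : a * ζ⁻¹ * a⁻¹ = ζ := by
            have : a * ζ⁻¹ * a⁻¹ = (a * ζ * a⁻¹)⁻¹ := by group
            rw [this, ha, inv_inv]
          calc a⁻¹ * ζ * a⁻¹⁻¹ = a⁻¹ * (a * ζ⁻¹ * a⁻¹) * a := by rw [h1]; group
            _ = ζ⁻¹ := by group }
  have hW : W = ⊤ := by
    rw [eq_top_iff, ← PresentedGroup.closure_range_of, closure_le]
    rintro _ ⟨x, rfl⟩
    rw [← gQ_num]
    exact Or.inr (ζ_conj (num_lt x))
  have : g ∈ W := by rw [hW]; trivial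
  exact this

instance Nn : (zpowers ζ).Normal := by
  refine ⟨fun n hn g => ?_⟩
  obtain ⟨k, rfl⟩ := mem_zpowers_iff.mp hn
  rw [← conj_zpow]
  apply zpow_mem
  rcases conj_ζ g with h | h
  · rw [h]
    exact mem_zpowers _
  · rw [h]
    exact inv_mem (mem_zpowers _)

/-- The relators in Fi₂₄. -/
theorem repF : IsRep3 genF := by
  refine ⟨fun a b ha hb => genF_cox ha hb, genF_lW, ?_, ?_⟩
  · intro x _
    rw [genF_zW, one_mul, pow_two, genF_inv]
  · rw [genF_zW, one_pow]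

/-- The map onto Fi₂₄. -/
def π3 : Q3 →* Fi24 := PresentedGroup.toGroup (rels3 repF)

theorem π3_of (x : Gen) : π3 (PresentedGroup.of x) = genF (num x) := by
  simp [π3]

theorem π3_gQ {x : ℕ} (hx : x < 12) : π3 (gQ x) = genF x := by
  obtain ⟨y, rfl⟩ := exists_num hx
  rw [gQ_num, π3_of]

theorem π3_ev (w : List ℕ) (hw : ∀ x ∈ w, x < 12) : π3 (ev gQ w) = ev genF w := by
  rw [map_ev]
  apply Cfsg.Agent.Lib.F24zE.ev_congr'
  intro x hx
  exact π3_gQ (hw x hx)

theorem π3_ζ : π3 ζ = 1 := by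
  rw [ζ, π3_ev _ (by decide), genF_zW]

theorem π3_surj : Function.Surjective π3 := by
  have h : π3.range = ⊤ := by
    rw [eq_top_iff, ← PresentedGroup.closure_range_of, closure_le]
    rintro _ ⟨x, rfl⟩
    exact ⟨PresentedGroup.of x, by rw [π3_of, genF_num]⟩
  exact MonoidHom.range_eq_top.mp h

/-- The inverse modulo the centre. -/
theorem rep_mod : IsRep (fun x => ((gQ x : Q3) : Q3 ⧸ zpowers ζ)) := by
  have e : ∀ w : List ℕ, ev (fun x => ((gQ x : Q3) : Q3 ⧸ zpowers ζ)) w = ((ev gQ w : Q3) : Q3 ⧸ zpowers ζ) :=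
    fun w => (map_ev (QuotientGroup.mk' (zpowers ζ)) gQ w).symm
  refine ⟨?_, ?_, ?_⟩
  · intro a b ha hb
    rw [e, gQ_cox ha hb]
    rfl
  · rw [e, gQ_l]
    rfl
  · rw [e]
    exact (QuotientGroup.eq_one_iff _).mpr (mem_zpowers ζ)

def φ3 : Fi24 →* Q3 ⧸ zpowers ζ := liftF rep_mod

theorem φ3_π3 (x : Q3) : φ3 (π3 x) = (x : Q3 ⧸ zpowers ζ) := by
  have : φ3.comp π3 = QuotientGroup.mk' (zpowers ζ) := by
    apply PresentedGroup.ext
    intro x
    rw [MonoidHom.comp_apply, π3_of]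
    show φ3 (genF (num x)) = _
    rw [φ3, liftF_gen rep_mod (num_lt x), gQ_num]
    rfl
  exact DFunLike.congr_fun this x

theorem ker_π3 : π3.ker = zpowers ζ := by
  ext x
  constructor
  · intro hx
    have h1 := φ3_π3 x
    rw [MonoidHom.mem_ker.mp hx, map_one] at h1
    exact (QuotientGroup.eq_one_iff x).mp h1.symm
  · intro hx
    obtain ⟨k, rfl⟩ := mem_zpowers_iff.mp hx
    rw [MonoidHom.mem_ker, map_zpow, π3_ζ, one_zpow]

instance finQ3 : Finite Q3 := by
  have h1 : Function.Surjective φ3 := by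
    intro q
    obtain ⟨x, rfl⟩ := QuotientGroup.mk_surjective q
    exact ⟨π3 x, φ3_π3 x⟩
  haveI : Finite (Q3 ⧸ zpowers ζ) := Finite.of_surjective φ3 h1
  haveI : Finite (zpowers ζ) := by
    have : IsOfFinOrder ζ := by
      rw [isOfFinOrder_iff_pow_eq_one]
      exact ⟨3, by norm_num, ζ_cube⟩
    exact (finite_zpowers.mpr this).to_subtype
  exact Finite.of_equiv _ (groupEquivQuotientProdSubgroup (s := zpowers ζ)).symm

/-! ### The permutation representation -/

theorem piZ_cox (a b : ℕ) (ha : a < 12) (hb : b < 12) : ev piZ (coxL a b) = 1 := by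
  rcases lt_trichotomy a b with h | h | h
  · exact piZ_coxlt h hb
  · subst h
    rw [ev_coxL]
    have : lab a a = 1 := by simp [lab]
    rw [this, pow_one, piZ_sq (by omega)]
  · have h1 := piZ_coxlt h ha
    rw [ev_coxL] at h1 ⊢
    rw [lab_symm a ha b hb]
    have h2 : piZ b * piZ a = (piZ a * piZ b)⁻¹ := by
      rw [mul_inv_rev, piZ_inv (by omega), piZ_inv (by omega)]
    rw [h2, inv_pow, h1, inv_one]

/-- The value of the spider word in the representation. -/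
theorem piZ_z : ev piZ zW = piZ 5 * piZ 12 := piZ_uW

theorem repZ : IsRep3 piZ := by
  have s5 : piZ 5 * piZ 5 = 1 := piZ_sq (by norm_num)
  have s12 : piZ 12 * piZ 12 = 1 := piZ_sq (by norm_num)
  refine ⟨piZ_cox, piZ_lW, ?_, ?_⟩
  · intro x hx
    rw [piZ_z]
    by_cases h5 : x = 5
    · subst h5
      rw [pow_two]
      calc piZ 5 * piZ 12 * piZ 5 * (piZ 5 * piZ 12 * piZ 5) = piZ 5 * piZ 12 * (piZ 5 * piZ 5) * piZ 12 * piZ 5 := by group
        _ = piZ 5 * (piZ 12 * piZ 12) * piZ 5 := by rw [s5]; group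
        _ = 1 := by rw [s12, mul_one, s5]
    · have h1 : ev piZ [12, 5, x, 12, 5, x] = 1 := piZ_iv hx h5
      simp only [ev_cons, ev_nil, one_mul] at h1
      have h2 : (piZ x)⁻¹ = piZ x := piZ_inv (by omega)
      rw [pow_two]
      calc piZ 5 * piZ 12 * piZ x * (piZ 5 * piZ 12 * piZ x)
          = (piZ x)⁻¹ * (piZ x * piZ 5 * piZ 12 * piZ x * piZ 5 * piZ 12) * piZ x := by group
        _ = 1 := by rw [h1]; group
  · rw [piZ_z]
    have h := piZ_cube
    simp only [ev_cons, ev_nil, one_mul] at h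
    rw [← h]
    simp only [pow_succ, pow_zero, one_mul, mul_assoc]

/-- The representation of the cover. -/
def Ψ : Q3 →* Equiv.Perm ℕ := PresentedGroup.toGroup (rels3 repZ)

theorem Ψ_ζ : Ψ ζ = piZ 5 * piZ 12 := by
  rw [← mk_spider, ← piZ_z, ← lift_spider]
  rfl

theorem ζ_ne : ζ ≠ 1 := by
  intro h
  have h1 := Ψ_ζ
  rw [h, map_one] at h1
  apply walku_ne
  have e : ev piZ [12, 5] = piZ 5 * piZ 12 := by simp [ev_cons]
  rw [e, ← h1]
  rfl

theorem ζ_order : orderOf ζ = 3 := orderOf_eq_prime ζ_cube ζ_ne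

/-! ### The stem extension -/

/-- The derived subgroup of the cover. -/
abbrev GC : Subgroup Q3 := commutator Q3

theorem ζ_mem : ζ ∈ GC := by
  have h1 : ⁅gQ 0, ζ⁆ ∈ GC := commutator_mem_commutator (mem_top _) (mem_top _)
  rw [commutatorElement_def, ζ_conj (x := 0) (by norm_num)] at h1
  have h2 : ζ⁻¹ * ζ⁻¹ = ζ := by
    have : ζ⁻¹ * ζ⁻¹ * ζ⁻¹ = 1 := by
      rw [← mul_inv_rev, ← mul_inv_rev, ← inv_one, inv_inj]
      rw [← ζ_cube]
      simp only [pow_succ, pow_zero, one_mul, mul_assoc]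
    calc ζ⁻¹ * ζ⁻¹ = ζ⁻¹ * ζ⁻¹ * (ζ⁻¹ * ζ) := by group
      _ = (ζ⁻¹ * ζ⁻¹ * ζ⁻¹) * ζ := by group
      _ = ζ := by rw [this, one_mul]
  rwa [h2] at h1

theorem map_GC : GC.map π3 = HC := by
  apply le_antisymm
  · show (commutator Q3).map π3 ≤ commutator Fi24
    rw [_root_.commutator_def Q3, map_commutator, _root_.commutator_def Fi24]
    exact commutator_mono le_top le_top
  · show commutator Fi24 ≤ (commutator Q3).map π3
    rw [_root_.commutator_def Fi24, commutator_le]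
    intro a _ b _
    obtain ⟨a', rfl⟩ := π3_surj a
    obtain ⟨b', rfl⟩ := π3_surj b
    rw [← map_commutatorElement]
    exact mem_map_of_mem _ (commutator_mem_commutator (mem_top _) (mem_top _))

theorem ker_le_GC : π3.ker ≤ GC := by
  rw [ker_π3, zpowers_le]
  exact ζ_mem

/-- An element over the derived subgroup lies in the derived subgroup. -/
theorem mem_GC_of {g : Q3} (h : π3 g ∈ HC) : g ∈ GC := by
  rw [← map_GC] at h
  obtain ⟨c, hc, he⟩ := h
  have h1 : c⁻¹ * g ∈ π3.ker := by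
    rw [MonoidHom.mem_ker, map_mul, map_inv, he]
    group
  have h2 := mul_mem hc (ker_le_GC h1)
  rwa [mul_inv_cancel_left] at h2

/-- The centre commutes with the derived subgroup. -/
theorem GC_comm {g : Q3} (hg : g ∈ GC) : g * ζ = ζ * g := by
  have hi : ∀ x : Q3, x * ζ⁻¹ * x⁻¹ = (x * ζ * x⁻¹)⁻¹ := fun x => by group
  have key : ∀ a b : Q3, a * (b * ζ * b⁻¹) * a⁻¹ = b * (a * ζ * a⁻¹) * b⁻¹ := by
    intro a b
    rcases conj_ζ a with ha | ha <;> rcases conj_ζ b with hb | hb <;> simp only [ha, hb, hi, inv_inv]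
  have h1 : GC ≤ centralizer ({ζ} : Set Q3) := by
    show commutator Q3 ≤ _
    rw [_root_.commutator_def Q3, commutator_le]
    intro a _ b _
    rw [mem_centralizer_singleton_iff, commutatorElement_def]
    have h := key a⁻¹ b⁻¹
    calc a * b * a⁻¹ * b⁻¹ * ζ
        = (a * b) * (a⁻¹ * (b⁻¹ * ζ * b⁻¹⁻¹) * a⁻¹⁻¹) * (a⁻¹ * b⁻¹) := by group
      _ = (a * b) * (b⁻¹ * (a⁻¹ * ζ * a⁻¹⁻¹) * b⁻¹⁻¹) * (a⁻¹ * b⁻¹) := by rw [h]
      _ = _ := by group
  exact (mem_centralizer_singleton_iff.mp (h1 hg))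

/-- The commutator subgroup of the derived subgroup. -/
abbrev DC : Subgroup Q3 := ⁅GC, GC⁆

theorem map_DC : DC.map π3 = HC := by
  rw [map_commutator, map_GC]
  have h := Subgroup.map_subtype_commutator HC
  rw [perfectHC, ← MonoidHom.range_eq_map, HC.range_subtype] at h
  exact h.symm

theorem DC_le : DC ≤ GC := Subgroup.commutator_le_self GC

/-- The cube of an element of the derived subgroup lies in the second derived subgroup. -/
theorem cube_mem {c : Q3} (hc : c ∈ GC) : c ^ 3 ∈ DC := by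
  have h1 : π3 c ∈ DC.map π3 := by
    rw [map_DC, ← map_GC]
    exact mem_map_of_mem _ hc
  obtain ⟨d, hd, he⟩ := h1
  have h2 : d⁻¹ * c ∈ π3.ker := by
    rw [MonoidHom.mem_ker, map_mul, map_inv, he]
    group
  rw [ker_π3] at h2
  obtain ⟨n, hn⟩ := mem_zpowers_iff.mp h2
  have h3 : c = d * ζ ^ n := by
    rw [hn]
    group
  have hdc : Commute d (ζ ^ n) := by
    have : Commute d ζ := GC_comm (DC_le hd)
    exact this.zpow_right n
  rw [h3, hdc.mul_pow]
  have h4 : (ζ ^ n) ^ 3 = 1 := by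
    rw [← zpow_natCast, ← zpow_mul, mul_comm, zpow_mul, zpow_natCast, ζ_cube, one_zpow]
  rw [h4, mul_one]
  exact pow_mem hd 3

/-- The product of two commuting letters lies in the second derived subgroup. -/
theorem comm_letters {x y : ℕ} (hx : x < 12) (hy : y < 12) (h : lab x y = 2) : gQ x * gQ y ∈ DC := by
  have h1 : gQ x * gQ y ∈ GC := by
    apply mem_GC_of
    rw [map_mul, π3_gQ hx, π3_gQ hy]
    rw [show HC = Cfsg.Agent.S1691.sign.ker from Cfsg.Agent.S1691.ker_eq.symm, MonoidHom.mem_ker, map_mul, sign_gen hx, sign_gen hy]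
    decide
  have h2 := cube_mem h1
  have h3 : (gQ x * gQ y) ^ 2 = 1 := by
    have := gQ_cox hx hy
    rw [ev_coxL, h, pow_two] at this
    rw [pow_two]
    calc gQ x * gQ y * (gQ x * gQ y) = gQ x * (gQ y * gQ x * (gQ y * gQ x)) * (gQ x)⁻¹ := by
          rw [gQ_inv]
          simp only [mul_assoc, gQ_sq, mul_one]
      _ = 1 := by rw [this]; group
  have h4 : (gQ x * gQ y) ^ 3 = gQ x * gQ y := by
    rw [pow_succ, h3, one_mul]
  rwa [h4] at h2

theorem to_nine : ∀ x, x < 12 → gQ x * gQ 9 ∈ DC := by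
  have hlab : ∀ x, x < 12 → x ≠ 8 → x ≠ 9 → lab x 9 = 2 := Cfsg.Agent.Lib.F24zV.goodj
  intro x hx
  by_cases h9 : x = 9
  · subst h9
    rw [gQ_sq]
    exact one_mem _
  by_cases h8 : x = 8
  · subst h8
    have h1 := comm_letters (x := 8) (y := 5) (by norm_num) (by norm_num) (by decide)
    have h2 := comm_letters (x := 5) (y := 9) (by norm_num) (by norm_num) (by decide)
    have h3 := mul_mem h1 h2
    have e : gQ 8 * gQ 5 * (gQ 5 * gQ 9) = gQ 8 * gQ 9 := by
      calc gQ 8 * gQ 5 * (gQ 5 * gQ 9) = gQ 8 * (gQ 5 * gQ 5) * gQ 9 := by group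
        _ = _ := by rw [gQ_sq]; group
    rwa [e] at h3
  · exact comm_letters hx (by norm_num) (hlab x hx h8 h9)

theorem pair_mem {x y : ℕ} (hx : x < 12) (hy : y < 12) : gQ x * gQ y ∈ DC := by
  have h1 := to_nine x hx
  have h2 := inv_mem (to_nine y hy)
  have h3 := mul_mem h1 h2
  have e : gQ x * gQ 9 * (gQ y * gQ 9)⁻¹ = gQ x * gQ y := by
    rw [mul_inv_rev, gQ_inv, gQ_inv]
    calc gQ x * gQ 9 * (gQ 9 * gQ y) = gQ x * (gQ 9 * gQ 9) * gQ y := by group
      _ = _ := by rw [gQ_sq]; group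
  rwa [e] at h3

theorem ζ_DC : ζ ∈ DC := by
  unfold ζ
  rw [ev_zW, ev_z1]
  apply pow_mem
  have p : ∀ x y, x < 12 → y < 12 → gQ x * gQ y ∈ DC := fun x y hx hy => pair_mem hx hy
  have e : gQ 0 * gQ 1 * gQ 2 * gQ 3 * gQ 4 * gQ 5 * gQ 0 * gQ 6 * gQ 7 * gQ 8 * gQ 9 * gQ 0 * gQ 10 * gQ 11 =
      (gQ 0 * gQ 1) * (gQ 2 * gQ 3) * (gQ 4 * gQ 5) * (gQ 0 * gQ 6) * (gQ 7 * gQ 8) * (gQ 9 * gQ 0) * (gQ 10 * gQ 11) := by
    simp only [mul_assoc]
  rw [e]
  refine mul_mem (mul_mem (mul_mem (mul_mem (mul_mem (mul_mem ?_ ?_) ?_) ?_) ?_) ?_) ?_ <;>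
    exact p _ _ (by norm_num) (by norm_num)

/-- The stem extension. -/
def σ3 : ↥GC →* ↥HC :=
  (π3.comp GC.subtype).codRestrict HC (fun g => by
    rw [← map_GC]
    exact mem_map_of_mem _ g.2)

theorem σ3_coe (g : ↥GC) : ((σ3 g : ↥HC) : Fi24) = π3 g := rfl

theorem ker_σ3 {g : ↥GC} : g ∈ σ3.ker ↔ (g : Q3) ∈ zpowers ζ := by
  rw [MonoidHom.mem_ker, ← ker_π3, MonoidHom.mem_ker]
  constructor
  · intro h
    exact congrArg Subtype.val h
  · intro h
    exact Subtype.ext h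

theorem stem3 : Cfsg.IsStemExtension σ3 := by
  refine ⟨?_, ?_, ?_⟩
  · intro h
    have h1 : (h : Fi24) ∈ GC.map π3 := by
      rw [map_GC]
      exact h.2
    obtain ⟨c, hc, he⟩ := h1
    exact ⟨⟨c, hc⟩, Subtype.ext he⟩
  · intro g hg
    rw [mem_center_iff]
    intro x
    apply Subtype.ext
    obtain ⟨n, hn⟩ := mem_zpowers_iff.mp (ker_σ3.mp hg)
    show (x : Q3) * (g : Q3) = (g : Q3) * (x : Q3)
    rw [← hn]
    have : Commute (x : Q3) ζ := GC_comm x.2
    exact (this.zpow_right n).eq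
  · intro g hg
    have h1 : (g : Q3) ∈ DC := by
      obtain ⟨n, hn⟩ := mem_zpowers_iff.mp (ker_σ3.mp hg)
      rw [← hn]
      exact zpow_mem ζ_DC n
    have h1' : (g : Q3) ∈ (commutator ↥GC).map GC.subtype := by
      rw [Subgroup.map_subtype_commutator]
      exact h1
    obtain ⟨y, hy, he⟩ := h1'
    have : y = g := Subtype.ext he
    rwa [← this]

theorem card_ker : Nat.card σ3.ker = 3 := by
  have h1 : σ3.ker.map GC.subtype = zpowers ζ := by
    ext x
    constructor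
    · rintro ⟨g, hg, rfl⟩
      exact ker_σ3.mp hg
    · intro hx
      have hxG : x ∈ GC := by
        rw [← ker_π3] at hx
        exact ker_le_GC hx
      exact ⟨⟨x, hxG⟩, ker_σ3.mpr hx, rfl⟩
  have h2 : Nat.card (σ3.ker.map GC.subtype) = Nat.card σ3.ker := Subgroup.card_map_of_injective GC.subtype_injective
  rw [h1, Nat.card_zpowers, ζ_order] at h2
  exact h2.symm

/-- The existence part. -/
theorem exists_three : ∃ (Γ : Type) (_ : Group Γ) (_ : Finite Γ) (σ : Γ →* ↥HC),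
    Cfsg.IsStemExtension σ ∧ Nonempty (σ.ker ≃* Multiplicative (ZMod 3)) := by
  refine ⟨↥GC, inferInstance, inferInstance, σ3, stem3, ?_⟩
  haveI : Fact (Nat.Prime (Nat.card σ3.ker)) := ⟨by rw [card_ker]; norm_num⟩
  haveI : IsCyclic σ3.ker := isCyclic_of_prime_card rfl
  refine ⟨mulEquivOfCyclicCardEq ?_⟩
  rw [card_ker, Nat.card_eq_fintype_card]
  simp [ZMod.card]

end

end Cfsg.Agent.Lib.F24zLow
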