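import Mathlib
import Cfsg.Prelude.Def_Classical

/-!
# Quadratic forms over the field of two elements polarizing to the standard alternating form

On `V m = (Fin m ⊕ Fin m → ZMod 2)`, with `Q = Σ xᵢ yᵢ` and `f` its polarization.
-/

set_option autoImplicit false

namespace Cfsg.Agent.Lib.F2Quad

open Finset

/-- The space. -/
abbrev V (m : ℕ) := Fin m ⊕ Fin m → ZMod 2

/-- The plus-type form. -/
abbrev Q (m : ℕ) : V m → ZMod 2 := Cfsg.quadFormPlus m (ZMod 2)

/-- The polarization of `Q`. -/
def f (m : ℕ) : V m →ₗ[ZMod 2] V m →ₗ[ZMod 2] ZMod 2 :=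
  LinearMap.mk₂ (ZMod 2)
    (fun u v => ∑ i, (u (.inl i) * v (.inr i) + v (.inl i) * u (.inr i)))
    (fun a b c => by
      rw [← Finset.sum_add_distrib]
      refine Finset.sum_congr rfl fun i _ => ?_
      simp only [Pi.add_apply]
      ring)
    (fun c a b => by
      rw [smul_eq_mul, Finset.mul_sum]
      refine Finset.sum_congr rfl fun i _ => ?_
      simp only [Pi.smul_apply, smul_eq_mul]
      ring)
    (fun a b c => by
      rw [← Finset.sum_add_distrib]
      refine Finset.sum_congr rfl fun i _ => ?_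
      simp only [Pi.add_apply]
      ring)
    (fun c a b => by
      rw [smul_eq_mul, Finset.mul_sum]
      refine Finset.sum_congr rfl fun i _ => ?_
      simp only [Pi.smul_apply, smul_eq_mul]
      ring)

theorem f_apply {m : ℕ} (u v : V m) :
    f m u v = ∑ i, (u (.inl i) * v (.inr i) + v (.inl i) * u (.inr i)) := rfl

theorem Q_apply {m : ℕ} (v : V m) : Q m v = ∑ i, v (.inl i) * v (.inr i) := rfl

theorem Q_add {m : ℕ} (u v : V m) : Q m (u + v) = Q m u + Q m v + f m u v := by
  simp only [Q_apply, f_apply, Pi.add_apply, ← Finset.sum_add_distrib]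
  refine Finset.sum_congr rfl fun i _ => ?_
  ring

theorem pol_eq {m : ℕ} (u v : V m) : Q m (u + v) - Q m u - Q m v = f m u v := by
  rw [Q_add]; ring

theorem f_self {m : ℕ} (u : V m) : f m u u = 0 := by
  rw [f_apply]
  refine Finset.sum_eq_zero fun i _ => ?_
  rw [mul_comm (u (.inl i)), CharTwo.add_self_eq_zero]

theorem f_comm {m : ℕ} (u v : V m) : f m u v = f m v u := by
  simp only [f_apply]
  refine Finset.sum_congr rfl fun i _ => ?_
  ring

theorem f_single_inl {m : ℕ} (u : V m) (i : Fin m) :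
    f m u (Pi.single (.inl i) 1) = u (.inr i) := by
  classical
  rw [f_apply, Finset.sum_eq_single i]
  · simp
  · intro j _ hj
    simp [hj, Pi.single_apply]
  · simp

theorem f_single_inr {m : ℕ} (u : V m) (i : Fin m) :
    f m u (Pi.single (.inr i) 1) = u (.inl i) := by
  classical
  rw [f_apply, Finset.sum_eq_single i]
  · simp
  · intro j _ hj
    simp [hj, Pi.single_apply]
  · simp

/-- Functions polarizing to the polarization of `Q`, in the form the statements use. -/
def IsPol {m : ℕ} (q : V m → ZMod 2) : Prop :=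
  ∀ u v : V m, q (u + v) = q u + q v +
    (Cfsg.quadFormPlus m (ZMod 2) (u + v) - Cfsg.quadFormPlus m (ZMod 2) u
      - Cfsg.quadFormPlus m (ZMod 2) v)

theorem IsPol.add {m : ℕ} {q : V m → ZMod 2} (h : IsPol q) (u v : V m) :
    q (u + v) = q u + q v + f m u v := by
  rw [h u v, ← pol_eq]

theorem isPol_iff {m : ℕ} {q : V m → ZMod 2} :
    IsPol q ↔ ∀ u v : V m, q (u + v) = q u + q v + f m u v :=
  ⟨fun h u v => h.add u v, fun h u v => by rw [h u v, ← pol_eq]⟩

theorem IsPol.zero {m : ℕ} {q : V m → ZMod 2} (h : IsPol q) : q 0 = 0 := by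
  have := h.add 0 0
  simpa [f_self] using this

theorem isPol_Q (m : ℕ) : IsPol (Q m) := isPol_iff.2 Q_add

/-- The form `Q + f(·, w)`. -/
def qw {m : ℕ} (w : V m) : V m → ZMod 2 := fun v => Q m v + f m v w

theorem qw_apply {m : ℕ} (w v : V m) : qw w v = Q m v + f m v w := rfl

theorem isPol_add {m : ℕ} {q : V m → ZMod 2} (h : IsPol q) (w : V m) :
    IsPol (fun v => q v + f m v w) := by
  rw [isPol_iff]
  intro u v
  simp only [h.add u v, map_add, LinearMap.add_apply]
  ring

theorem isPol_qw {m : ℕ} (w : V m) : IsPol (qw w) := isPol_add (isPol_Q m) w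

/-- Every polarizing function is of the form `qw w`. -/
theorem exists_rep {m : ℕ} {q : V m → ZMod 2} (h : IsPol q) : ∃ w, q = qw w := by
  classical
  let ℓ : V m →+ ZMod 2 :=
    { toFun := fun v => q v - Q m v
      map_zero' := by
        simp [h.zero, (isPol_Q m).zero]
      map_add' := fun u v => by
        simp only [h.add u v, Q_add]
        ring }
  let L : V m →ₗ[ZMod 2] ZMod 2 := ℓ.toZModLinearMap 2
  let w : V m := Sum.elim (fun i => L (Pi.single (.inr i) 1)) (fun i => L (Pi.single (.inl i) 1))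
  refine ⟨w, funext fun v => ?_⟩
  have hL : ∀ v, L v = q v - Q m v := fun v => rfl
  have key : L v = f m v w := by
    rw [LinearMap.pi_apply_eq_sum_univ L v, Fintype.sum_sum_type, f_apply,
      ← Finset.sum_add_distrib]
    refine Finset.sum_congr rfl fun i _ => ?_
    have e1 : (fun j : Fin m ⊕ Fin m => if Sum.inl i = j then (1 : ZMod 2) else 0)
        = Pi.single (.inl i) 1 := by
      funext j
      simp [Pi.single_apply, eq_comm]
    have e2 : (fun j : Fin m ⊕ Fin m => if Sum.inr i = j then (1 : ZMod 2) else 0)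
        = Pi.single (.inr i) 1 := by
      funext j
      simp [Pi.single_apply, eq_comm]
    rw [e1, e2]
    simp only [w, Sum.elim_inl, Sum.elim_inr, smul_eq_mul]
    ring
  have := hL v
  rw [key] at this
  rw [qw_apply, this]
  ring

theorem qw_injective {m : ℕ} : Function.Injective (qw : V m → V m → ZMod 2) := by
  classical
  intro w w' h
  have key : ∀ v, f m v w = f m v w' := fun v => by
    have := congrFun h v
    simpa [qw_apply] using this
  funext j
  rcases j with i | i
  · have := key (Pi.single (.inr i) 1)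
    rw [f_comm, f_single_inr, f_comm _ w', f_single_inr] at this
    exact this
  · have := key (Pi.single (.inl i) 1)
    rw [f_comm, f_single_inl, f_comm _ w', f_single_inl] at this
    exact this

/-- The parametrization of polarizing functions by vectors. -/
noncomputable def repEquiv (m : ℕ) : V m ≃ {q : V m → ZMod 2 // IsPol q} :=
  Equiv.ofBijective (fun w => ⟨qw w, isPol_qw w⟩)
    ⟨fun _ _ h => qw_injective (congrArg Subtype.val h),
     fun q => by
      obtain ⟨w, hw⟩ := exists_rep q.2
      exact ⟨w, Subtype.ext hw.symm⟩⟩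

theorem card_V (m : ℕ) : Nat.card (V m) = 2 ^ (2 * m) := by
  rw [Nat.card_eq_fintype_card, Fintype.card_fun, ZMod.card, Fintype.card_sum, Fintype.card_fin,
    two_mul]

/-- The number of polarizing functions. -/
theorem card_isPol (m : ℕ) : Nat.card {q : V m → ZMod 2 // IsPol q} = 2 ^ (2 * m) := by
  rw [← Nat.card_congr (repEquiv m), card_V]

/-! ### The transvection -/

/-- The linear map `v ↦ v + f(v,u) u`. -/
def tvLin {m : ℕ} (u : V m) : V m →ₗ[ZMod 2] V m :=
  LinearMap.id + ((f m).flip u).smulRight u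

theorem tvLin_apply {m : ℕ} (u v : V m) : tvLin u v = v + f m v u • u := rfl

theorem tvLin_invol {m : ℕ} (u : V m) : Function.Involutive (tvLin u) := by
  intro v
  have h0 : f m u u = 0 := f_self u
  simp only [tvLin_apply, map_add, LinearMap.add_apply, map_smul, LinearMap.smul_apply, h0,
    smul_eq_mul, mul_zero, add_zero, zero_smul]
  rw [add_assoc, ← add_smul, CharTwo.add_self_eq_zero, zero_smul, add_zero]

/-- The transvection as a linear equivalence. -/
def tv {m : ℕ} (u : V m) : V m ≃ₗ[ZMod 2] V m :=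
  LinearEquiv.ofInvolutive (tvLin u) (tvLin_invol u)

theorem tv_apply {m : ℕ} (u v : V m) : tv u v = v + f m v u • u := rfl

/-- The transvection relates `q` and `q + f(·, u)` when `q u = 0`. -/
theorem IsPol.tv_apply {m : ℕ} {q : V m → ZMod 2} (h : IsPol q) {u : V m} (hu : q u = 0)
    (v : V m) : q (tv u v) = q v + f m v u := by
  rw [F2Quad.tv_apply]
  have hc : ∀ c : ZMod 2, c = 0 ∨ c = 1 := by decide
  rcases hc (f m v u) with h0 | h1
  · rw [h0]; simp
  · rw [h1, one_smul, h.add, hu, add_zero, h1]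

/-- `q(v + w) + q(w) = q(v) + f(v, w)`. -/
theorem IsPol.shift {m : ℕ} {q : V m → ZMod 2} (h : IsPol q) (v w : V m) :
    q v + f m v w = q (v + w) + q w := by
  rw [h.add]
  have : ∀ a b c : ZMod 2, a + c = a + b + c + b := by decide
  exact this _ _ _

theorem qw_add {m : ℕ} (w w' v : V m) : qw (w + w') v = qw w v + f m v w' := by
  simp only [qw_apply, map_add]
  ring

/-- A `q`-singular vector relates `q` and `q + f(·, u)`, as needed for the reduction. -/
theorem qw_of_Q_zero {m : ℕ} {w : V m} (hw : Q m w = 0) (v : V m) :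
    qw w v = Q m (tv w v) := by
  rw [(isPol_Q m).tv_apply hw, qw_apply]

/-! ### Character sums -/

/-- The sign character. -/
def chi (a : ZMod 2) : ℤ := if a = 0 then 1 else -1

@[simp] theorem chi_zero : chi 0 = 1 := rfl
@[simp] theorem chi_one : chi 1 = -1 := rfl

theorem chi_add : ∀ a b : ZMod 2, chi (a + b) = chi a * chi b := by decide

/-- The character sum of a function. -/
def S {α : Type*} [Fintype α] (q : α → ZMod 2) : ℤ := ∑ v, chi (q v)

/-- The character sum is invariant under equivalences. -/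
theorem S_congr {α β : Type*} [Fintype α] [Fintype β] (e : α ≃ β) (q : α → ZMod 2)
    (q' : β → ZMod 2) (h : ∀ v, q v = q' (e v)) : S q = S q' := by
  unfold S
  exact Fintype.sum_equiv e _ _ fun v => by rw [h]

theorem S_shift {m : ℕ} {q : V m → ZMod 2} (h : IsPol q) (w : V m) :
    S (fun v => q v + f m v w) = chi (q w) * S q := by
  unfold S
  rw [Finset.mul_sum]
  refine Fintype.sum_equiv (Equiv.addRight w) _ _ fun v => ?_
  simp only [Equiv.coe_addRight]
  rw [h.shift, chi_add, mul_comm]

theorem chi_sum {ι : Type*} (t : Finset ι) (a : ι → ZMod 2) :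
    chi (∑ i ∈ t, a i) = ∏ i ∈ t, chi (a i) := by
  classical
  induction t using Finset.induction_on with
  | empty => simp
  | insert x t hx ih => rw [Finset.sum_insert hx, Finset.prod_insert hx, chi_add, ih]

/-- `Q` has character sum `2^m`. -/
theorem S_Q (m : ℕ) : S (Q m) = 2 ^ m := by
  classical
  have h1 : S (Q m) = ∑ x : Fin m → ZMod 2, ∑ y : Fin m → ZMod 2, ∏ i, chi (x i * y i) := by
    unfold S
    rw [← Finset.sum_product', Finset.univ_product_univ]
    refine Fintype.sum_equiv (Equiv.sumArrowEquivProdArrow _ _ _) _ _ fun v => ?_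
    simp only [Equiv.sumArrowEquivProdArrow_apply_fst, Equiv.sumArrowEquivProdArrow_apply_snd,
      Q_apply]
    rw [chi_sum]
  have h2 : ∀ x : Fin m → ZMod 2, ∑ y : Fin m → ZMod 2, ∏ i, chi (x i * y i)
      = ∏ i, ∑ b : ZMod 2, chi (x i * b) := by
    intro x
    rw [Finset.prod_univ_sum, Fintype.piFinset_univ]
  have h3 : ∑ x : Fin m → ZMod 2, ∏ i, ∑ b : ZMod 2, chi (x i * b)
      = ∏ _i : Fin m, ∑ a : ZMod 2, ∑ b : ZMod 2, chi (a * b) := by
    rw [Finset.prod_univ_sum, Fintype.piFinset_univ]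
  have h4 : ∑ a : ZMod 2, ∑ b : ZMod 2, chi (a * b) = 2 := by decide
  rw [h1, Finset.sum_congr rfl fun x _ => h2 x, h3, h4]
  simp

theorem S_qw {m : ℕ} (w : V m) : S (qw w) = chi (Q m w) * 2 ^ m := by
  have := S_shift (isPol_Q m) w
  rw [S_Q] at this
  exact this

theorem chi_eq (a : ZMod 2) : chi a = if a = 0 then 1 else -1 := rfl

theorem S_ne_zero {m : ℕ} {q : V m → ZMod 2} (h : IsPol q) : S q ≠ 0 := by
  obtain ⟨w, rfl⟩ := exists_rep h
  rw [S_qw]
  have hc : ∀ c : ZMod 2, chi c ≠ 0 := by decide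
  exact mul_ne_zero (hc _) (by positivity)

/-- The number of zeros and the character sum. -/
theorem two_mul_card_zero {α : Type*} [Fintype α] (q : α → ZMod 2) :
    2 * (Nat.card {v // q v = 0} : ℤ) = Fintype.card α + S q := by
  classical
  have h1 : (Nat.card {v // q v = 0} : ℤ) = ∑ v, (if q v = 0 then 1 else 0 : ℤ) := by
    rw [Nat.card_eq_fintype_card, Fintype.card_subtype, Finset.sum_boole]
  have h2 : (Fintype.card α : ℤ) = ∑ _v : α, (1 : ℤ) := by simp
  rw [h1, h2, S, Finset.mul_sum, ← Finset.sum_add_distrib]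
  refine Finset.sum_congr rfl fun v _ => ?_
  unfold chi
  split_ifs <;> norm_num

/-- The number of zeros of `Q`. -/
theorem card_Q_zero {m : ℕ} (hm : 1 ≤ m) :
    Nat.card {v : V m // Q m v = 0} = 2 ^ (2 * m - 1) + 2 ^ (m - 1) := by
  obtain ⟨k, rfl⟩ : ∃ k, m = k + 1 := ⟨m - 1, by omega⟩
  have h := two_mul_card_zero (Q (k + 1))
  rw [S_Q] at h
  have hc : Fintype.card (V (k + 1)) = 2 ^ (2 * (k + 1)) := by
    rw [← Nat.card_eq_fintype_card, card_V]
  rw [hc] at h
  have e1 : 2 * (k + 1) - 1 = 2 * k + 1 := by omega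
  have e2 : k + 1 - 1 = k := by omega
  rw [e1, e2]
  have e3 : (2 : ℤ) ^ (2 * (k + 1)) = 2 * 2 ^ (2 * k + 1) := by ring
  have e4 : (2 : ℤ) ^ (k + 1) = 2 * 2 ^ k := by ring
  push_cast at h
  rw [e3, e4] at h
  have : (Nat.card {v : V (k + 1) // Q (k + 1) v = 0} : ℤ) = 2 ^ (2 * k + 1) + 2 ^ k := by
    linarith
  exact_mod_cast this

/-- The number of non-zeros of `Q`. -/
theorem card_Q_one {m : ℕ} (hm : 1 ≤ m) :
    Nat.card {v : V m // Q m v = 1} = 2 ^ (2 * m - 1) - 2 ^ (m - 1) := by
  classical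
  obtain ⟨k, rfl⟩ : ∃ k, m = k + 1 := ⟨m - 1, by omega⟩
  have h := card_Q_zero (m := k + 1) (by omega)
  have hsum : Nat.card {v : V (k + 1) // Q (k + 1) v = 0}
      + Nat.card {v : V (k + 1) // Q (k + 1) v = 1} = 2 ^ (2 * (k + 1)) := by
    rw [← card_V, Nat.card_eq_fintype_card, Nat.card_eq_fintype_card, Nat.card_eq_fintype_card,
      Fintype.card_subtype, Fintype.card_subtype, ← Finset.card_union_of_disjoint]
    · congr 1
      ext v
      have hc : ∀ c : ZMod 2, c = 0 ∨ c = 1 := by decide
      simpa using hc _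
    · rw [Finset.disjoint_filter]
      intro v _ h0 h1
      rw [h0] at h1
      exact absurd h1 (by decide)
  rw [h] at hsum
  have e1 : 2 * (k + 1) - 1 = 2 * k + 1 := by omega
  have e2 : k + 1 - 1 = k := by omega
  rw [e1, e2] at hsum ⊢
  have e3 : (2 : ℕ) ^ (2 * (k + 1)) = 2 ^ (2 * k + 1) + 2 ^ (2 * k + 1) := by ring
  rw [e3] at hsum
  omega

/-! ### The minus-type form -/

/-- The coordinates of the minus-type form. -/
def idx (k : ℕ) : (Fin k ⊕ Fin k) ⊕ Fin 2 ≃ Fin (k + 1) ⊕ Fin (k + 1) where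
  toFun := Sum.elim (Sum.elim (fun i => .inl i.castSucc) (fun i => .inr i.castSucc))
    (fun j => if j = 0 then .inl (Fin.last k) else .inr (Fin.last k))
  invFun := Sum.elim (Fin.lastCases (.inr 0) (fun i => .inl (.inl i)))
    (Fin.lastCases (.inr 1) (fun i => .inl (.inr i)))
  left_inv := by
    rintro ((i | i) | j)
    · simp
    · simp
    · fin_cases j <;> simp
  right_inv := by
    rintro (i | i)
    · induction i using Fin.lastCases <;> simp
    · induction i using Fin.lastCases <;> simp

/-- The linear equivalence from the standard space to the space of the minus-type form. -/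
def g0 (k : ℕ) : V (k + 1) ≃ₗ[ZMod 2] ((Fin k ⊕ Fin k) ⊕ Fin 2 → ZMod 2) :=
  LinearEquiv.funCongrLeft (ZMod 2) (ZMod 2) (idx k)

/-- The vector `e_last + f_last`. -/
def w0 (k : ℕ) : V (k + 1) := Sum.elim (Pi.single (Fin.last k) 1) (Pi.single (Fin.last k) 1)

theorem Q_w0 (k : ℕ) : Q (k + 1) (w0 k) = 1 := by
  classical
  rw [Q_apply, Finset.sum_eq_single (Fin.last k)]
  · simp [w0]
  · intro j _ hj
    simp [w0, hj]
  · simp

/-- The form `qw (w0 k)` is the minus-type form. -/
theorem qw_w0 (k : ℕ) (v : V (k + 1)) :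
    qw (w0 k) v = Cfsg.quadFormMinus k (ZMod 2) 1 1 (g0 k v) := by
  classical
  have hsq : ∀ a b : ZMod 2, a * b + (a + b) = a ^ 2 + 1 * a * b + 1 * b ^ 2 := by decide
  have hf : f (k + 1) v (w0 k) = v (.inl (Fin.last k)) + v (.inr (Fin.last k)) := by
    rw [f_apply, Finset.sum_eq_single (Fin.last k)]
    · simp [w0]
    · intro j _ hj
      simp [w0, hj]
    · simp
  rw [qw_apply, hf, Q_apply, Fin.sum_univ_castSucc]
  unfold Cfsg.quadFormMinus
  have hg : ∀ x, g0 k v x = v (idx k x) := fun x => rfl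
  simp only [hg]
  have e0 : idx k (.inr 0) = .inl (Fin.last k) := rfl
  have e1 : idx k (.inr 1) = .inr (Fin.last k) := rfl
  have e2 : ∀ i, idx k (.inl (.inl i)) = .inl i.castSucc := fun _ => rfl
  have e3 : ∀ i, idx k (.inl (.inr i)) = .inr i.castSucc := fun _ => rfl
  simp only [e0, e1, e2, e3]
  rw [add_assoc, hsq]

/-- Classification: `qw w` is plus type when `Q w = 0`. -/
theorem plus_of_Q_zero {m : ℕ} {w : V m} (hw : Q m w = 0) :
    ∃ g : V m ≃ₗ[ZMod 2] V m, ∀ v, qw w v = Q m (g v) :=
  ⟨tv w, qw_of_Q_zero hw⟩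

/-- Classification: `qw w` is minus type when `Q w = 1`. -/
theorem minus_of_Q_one {k : ℕ} {w : V (k + 1)} (hw : Q (k + 1) w = 1) :
    ∃ g : V (k + 1) ≃ₗ[ZMod 2] ((Fin k ⊕ Fin k) ⊕ Fin 2 → ZMod 2),
      ∀ v, qw w v = Cfsg.quadFormMinus k (ZMod 2) 1 1 (g v) := by
  -- `qw w = q₀ + f(·, w + w₀)` with `q₀ (w + w₀) = 0`
  let u := w + w0 k
  have hu : qw (w0 k) u = 0 := by
    rw [qw_apply, Q_add, hw, Q_w0, map_add]
    simp only [LinearMap.add_apply, f_self, add_zero]
    have : ∀ a : ZMod 2, 1 + 1 + a + a = 0 := by decide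
    exact this _
  refine ⟨(tv u).trans (g0 k), fun v => ?_⟩
  rw [LinearEquiv.trans_apply, ← qw_w0, (isPol_qw (w0 k)).tv_apply hu]
  have hww : w = w0 k + u := by
    simp only [u]
    rw [add_comm w, ← add_assoc, CharTwo.add_self_eq_zero, zero_add]
  conv_lhs => rw [hww]
  rw [qw_add]

/-! ### Types are exclusive -/

/-- The character sum of the minus-type form. -/
theorem S_minus (k : ℕ) : S (Cfsg.quadFormMinus k (ZMod 2) 1 1) = -2 ^ (k + 1) := by
  rw [← S_congr (g0 k).toEquiv (qw (w0 k)) _ (qw_w0 k), S_qw, Q_w0]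
  simp

theorem chi_inj : ∀ a b : ZMod 2, chi a = chi b → a = b := by decide

theorem plus_iff {m : ℕ} {w : V m} :
    (∃ g : V m ≃ₗ[ZMod 2] V m, ∀ v, qw w v = Q m (g v)) ↔ Q m w = 0 := by
  constructor
  · rintro ⟨g, hg⟩
    have h := S_congr g.toEquiv (qw w) (Q m) hg
    rw [S_qw, S_Q] at h
    have h2 : chi (Q m w) = chi 0 := by
      have hp : (2 : ℤ) ^ m ≠ 0 := by positivity
      have : chi (Q m w) * 2 ^ m = 1 * 2 ^ m := by rw [h, one_mul]
      simpa using mul_right_cancel₀ hp this
    exact chi_inj _ _ h2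
  · exact plus_of_Q_zero

theorem minus_iff {k : ℕ} {w : V (k + 1)} :
    (∃ g : V (k + 1) ≃ₗ[ZMod 2] ((Fin k ⊕ Fin k) ⊕ Fin 2 → ZMod 2),
      ∀ v, qw w v = Cfsg.quadFormMinus k (ZMod 2) 1 1 (g v)) ↔ Q (k + 1) w = 1 := by
  constructor
  · rintro ⟨g, hg⟩
    have h := S_congr g.toEquiv (qw w) _ hg
    rw [S_qw, S_minus] at h
    have h2 : chi (Q (k + 1) w) = chi 1 := by
      have hp : (2 : ℤ) ^ (k + 1) ≠ 0 := by positivity
      have : chi (Q (k + 1) w) * 2 ^ (k + 1) = (-1) * 2 ^ (k + 1) := by rw [h]; ring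
      simpa using mul_right_cancel₀ hp this
    exact chi_inj _ _ h2
  · exact minus_of_Q_one

/-- Counting the polarizing functions with a property through the parametrization. -/
theorem card_subtype_rep {m : ℕ} (R : (V m → ZMod 2) → Prop) (P : V m → Prop)
    (h : ∀ w, R (qw w) ↔ P w) :
    Nat.card {q : V m → ZMod 2 // IsPol q ∧ R q} = Nat.card {w : V m // P w} := by
  refine (Nat.card_congr (Equiv.ofBijective
    (fun w : {w : V m // P w} => (⟨qw w.1, isPol_qw _, (h _).2 w.2⟩ :
      {q : V m → ZMod 2 // IsPol q ∧ R q})) ⟨?_, ?_⟩)).symm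
  · intro a b hab
    exact Subtype.ext (qw_injective (congrArg Subtype.val hab))
  · rintro ⟨q, hq, hR⟩
    obtain ⟨w, rfl⟩ := exists_rep hq
    exact ⟨⟨w, (h _).1 hR⟩, rfl⟩

/-! ### Totally singular subspaces -/

/-- The bilinear form. -/
theorem f_nondeg (m : ℕ) : (f m).Nondegenerate := by
  classical
  constructor
  · intro v hv
    funext j
    rcases j with i | i
    · have := hv (Pi.single (.inr i) 1)
      rwa [f_single_inr] at this
    · have := hv (Pi.single (.inl i) 1)
      rwa [f_single_inl] at this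
  · intro v hv
    funext j
    rcases j with i | i
    · have := hv (Pi.single (.inr i) 1)
      rwa [f_comm, f_single_inr] at this
    · have := hv (Pi.single (.inl i) 1)
      rwa [f_comm, f_single_inl] at this

theorem f_isRefl (m : ℕ) : LinearMap.BilinForm.IsRefl (f m) := by
  intro u v h
  rw [f_comm]; exact h

/-- The perpendicular space of a subspace. -/
theorem finrank_perp {m : ℕ} (U : Submodule (ZMod 2) (V m)) :
    Module.finrank (ZMod 2) (LinearMap.BilinForm.orthogonal (f m) U)
      = 2 * m - Module.finrank (ZMod 2) U := by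
  rw [LinearMap.BilinForm.finrank_orthogonal (f_nondeg m)]
  simp [two_mul]

theorem le_perp {m : ℕ} {q : V m → ZMod 2} (hq : IsPol q) {U : Submodule (ZMod 2) (V m)}
    (hU : ∀ u ∈ U, q u = 0) : U ≤ LinearMap.BilinForm.orthogonal (f m) U := by
  intro u hu v hv
  have := hq.add v u
  rw [hU _ (U.add_mem hv hu), hU _ hv, hU _ hu] at this
  simpa using this.symm

/-- A totally singular subspace has dimension at most `m`. -/
theorem finrank_le_of_singular {m : ℕ} {q : V m → ZMod 2} (hq : IsPol q)
    {U : Submodule (ZMod 2) (V m)} (hU : ∀ u ∈ U, q u = 0) :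
    Module.finrank (ZMod 2) U ≤ m := by
  have h1 := Submodule.finrank_mono (le_perp hq hU)
  rw [finrank_perp] at h1
  have h2 : Module.finrank (ZMod 2) U ≤ Module.finrank (ZMod 2) (V m) :=
    Submodule.finrank_le U
  omega

/-- A totally singular subspace of dimension `m` makes the character sum positive. -/
theorem S_pos_of_singular {m : ℕ} {q : V m → ZMod 2} (hq : IsPol q)
    {U : Submodule (ZMod 2) (V m)} (hU : ∀ u ∈ U, q u = 0)
    (hd : Module.finrank (ZMod 2) U = m) : 0 < S q := by
  classical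
  have hperp : LinearMap.BilinForm.orthogonal (f m) U = U := by
    symm
    apply Submodule.eq_of_le_of_finrank_eq (le_perp hq hU)
    rw [finrank_perp, hd]
    omega
  -- the translation trick
  have hinner : ∀ v, v ∉ U → ∑ u : U, chi (f m v u) = 0 := by
    intro v hv
    have : ∃ u₀ ∈ U, f m v u₀ = 1 := by
      by_contra hcon
      push Not at hcon
      apply hv
      rw [← hperp]
      intro u hu
      have hc : ∀ c : ZMod 2, c ≠ 1 → c = 0 := by decide
      have h0 := hc _ (hcon u hu)
      change f m u v = 0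
      rw [f_comm]
      exact h0
    obtain ⟨u₀, hu₀, h1⟩ := this
    have hsum : ∑ u : U, chi (f m v u) = ∑ u : U, chi (f m v (u + ⟨u₀, hu₀⟩ : U)) :=
      (Equiv.sum_comp (Equiv.addRight (⟨u₀, hu₀⟩ : U)) (fun u : U => chi (f m v u))).symm
    have hsum2 : ∑ u : U, chi (f m v (u + ⟨u₀, hu₀⟩ : U)) = - ∑ u : U, chi (f m v u) := by
      rw [← Finset.sum_neg_distrib]
      refine Finset.sum_congr rfl fun u _ => ?_
      simp only [Submodule.coe_add, map_add, h1, chi_add, chi_one]
      ring
    rw [hsum2] at hsum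
    omega
  have hcount : (Nat.card U : ℤ) * S q = ∑ v, chi (q v) * ∑ u : U, chi (f m v u) := by
    have h1 : (Nat.card U : ℤ) * S q = ∑ _u : U, S q := by
      simp [Nat.card_eq_fintype_card]
    have h2 : ∀ u : U, S q = ∑ v, chi (q v) * chi (f m v u) := by
      intro u
      unfold S
      rw [← Equiv.sum_comp (Equiv.addRight (u : V m)) (fun v => chi (q v))]
      refine Finset.sum_congr rfl fun v _ => ?_
      simp only [Equiv.coe_addRight]
      rw [hq.add, hU _ u.2, add_zero, chi_add]
    rw [h1, Finset.sum_congr rfl fun u _ => h2 u, Finset.sum_comm]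
    refine Finset.sum_congr rfl fun v _ => ?_
    rw [Finset.mul_sum]
  have hcard : (0 : ℤ) < Nat.card U := by
    have : 0 < Nat.card U := Nat.card_pos
    exact_mod_cast this
  have hterm : ∀ v, v ∈ U → chi (q v) * ∑ u : U, chi (f m v u) = Nat.card U := by
    intro v hv
    rw [hU v hv, chi_zero, one_mul, Nat.card_eq_fintype_card]
    have : ∀ u : U, chi (f m v u) = 1 := by
      intro u
      have h0 : f m v u = 0 := by
        have h1 := le_perp hq hU hv
        have h2 := h1 u u.2
        rw [f_comm]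
        exact h2
      rw [h0, chi_zero]
    simp [this]
  have hpos : 0 < (Nat.card U : ℤ) * S q := by
    rw [hcount]
    refine Finset.sum_pos' (fun v _ => ?_) ⟨0, Finset.mem_univ _, ?_⟩
    · by_cases hv : v ∈ U
      · rw [hterm v hv]
        exact hcard.le
      · rw [hinner v hv, mul_zero]
    · rw [hterm 0 U.zero_mem]
      exact hcard
  exact (pos_iff_pos_of_mul_pos hpos).mp hcard

/-- The dimension of a totally singular subspace for `qw w` with `Q w = 1`. -/
theorem finrank_le_of_singular_of_Q_one {k : ℕ} {w : V (k + 1)} (hw : Q (k + 1) w = 1)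
    {U : Submodule (ZMod 2) (V (k + 1))} (hU : ∀ u ∈ U, qw w u = 0) :
    Module.finrank (ZMod 2) U ≤ k := by
  have h1 := finrank_le_of_singular (isPol_qw w) hU
  by_contra hcon
  have hd : Module.finrank (ZMod 2) U = k + 1 := by omega
  have h2 := S_pos_of_singular (isPol_qw w) hU hd
  rw [S_qw, hw, chi_one] at h2
  have : (0 : ℤ) < 2 ^ (k + 1) := by positivity
  linarith

end Cfsg.Agent.Lib.F2Quad
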