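import Mathlib
import Cfsg.Agent.Lib.F2Quad
import Cfsg.Agent.Lib.OrthoCount

/-!
# The even-weight module modulo the all-ones vector, over the field of two elements

On `m` pairs of points and two further points, with the form "half the weight", we give an explicit
symplectic basis and hence an action of the symmetric group on `V m`, preserving a form polarizing
to the standard form.
-/

set_option autoImplicit false

namespace Cfsg.Agent.Lib.F2Even

open Finset Matrix
open Cfsg.Agent.Lib.F2Quad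

variable {m : ℕ}

/-- The points. -/
abbrev P (m : ℕ) := (Fin m ⊕ Fin m) ⊕ Fin 2

/-- Vectors on the points. -/
abbrev A (m : ℕ) := P m → ZMod 2

/-- Symplectic basis, first half. -/
def e (i : Fin m) : A m := Sum.elim (Sum.elim (Pi.single i 1) (Pi.single i 1)) 0

/-- Symplectic basis, second half. -/
def g (i : Fin m) : A m :=
  Sum.elim (Sum.elim (fun l => if l < i then 1 else 0) (fun l => if l ≤ i then 1 else 0)) ![1, 0]

theorem dot_apply (u v : A m) :
    u ⬝ᵥ v = ∑ l, u (.inl (.inl l)) * v (.inl (.inl l)) + ∑ l, u (.inl (.inr l)) * v (.inl (.inr l))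
      + (u (.inr 0) * v (.inr 0) + u (.inr 1) * v (.inr 1)) := by
  simp only [dotProduct, Fintype.sum_sum_type, Fin.sum_univ_two]

theorem lt_add_le (l i : Fin m) :
    ((if l < i then 1 else 0 : ZMod 2) + (if l ≤ i then 1 else 0 : ZMod 2))
      = if l = i then 1 else 0 := by
  rcases lt_trichotomy l i with h | h | h
  · simp [h, h.le, h.ne, CharTwo.add_self_eq_zero]
  · subst h; simp
  · have h1 : ¬ l < i := not_lt.mpr h.le
    have h2 : ¬ l ≤ i := not_le.mpr h
    simp [h1, h2, h.ne']

theorem dot_e (v : A m) (i : Fin m) : v ⬝ᵥ e i = v (.inl (.inl i)) + v (.inl (.inr i)) := by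
  classical
  rw [dot_apply]
  simp [e, Pi.single_apply]

theorem dot_g (v : A m) (i : Fin m) :
    v ⬝ᵥ g i = ∑ l, (if l < i then v (.inl (.inl l)) else 0)
      + ∑ l, (if l ≤ i then v (.inl (.inr l)) else 0) + v (.inr 0) := by
  rw [dot_apply]
  simp [g]

theorem e_e (i j : Fin m) : e i ⬝ᵥ e j = 0 := by
  classical
  rw [dot_e]
  simp [e, CharTwo.add_self_eq_zero]

theorem e_g (i j : Fin m) : g j ⬝ᵥ e i = if i = j then 1 else 0 := by
  classical
  rw [dot_e]
  simp only [g, Sum.elim_inl, Sum.elim_inr]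
  exact lt_add_le i j

theorem g_e (i j : Fin m) : e i ⬝ᵥ g j = if i = j then 1 else 0 := by
  rw [dotProduct_comm, e_g]

theorem g_g (i j : Fin m) : g i ⬝ᵥ g j = 0 := by
  classical
  rw [dot_g]
  simp only [g, Sum.elim_inl, Sum.elim_inr, Matrix.cons_val_zero]
  have h : ∀ l : Fin m, (if l < j then (if l < i then (1 : ZMod 2) else 0) else 0)
      + (if l ≤ j then (if l ≤ i then (1 : ZMod 2) else 0) else 0)
      = if l = min i j then 1 else 0 := by
    intro l
    have h1 : (if l < j then (if l < i then (1 : ZMod 2) else 0) else 0)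
        = if l < min i j then 1 else 0 := by
      by_cases a : l < j <;> by_cases b : l < i <;> simp [a, b, lt_min_iff]
    have h2 : (if l ≤ j then (if l ≤ i then (1 : ZMod 2) else 0) else 0)
        = if l ≤ min i j then 1 else 0 := by
      by_cases a : l ≤ j <;> by_cases b : l ≤ i <;> simp [a, b, le_min_iff]
    rw [h1, h2]
    exact lt_add_le l (min i j)
  rw [← Finset.sum_add_distrib, Finset.sum_congr rfl fun l _ => h l]
  simp [CharTwo.add_self_eq_zero]

/-- `Ψ`: from coordinates to vectors. -/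
def Psi (m : ℕ) : V m →ₗ[ZMod 2] A m where
  toFun u := ∑ i, (u (.inl i) • e i + u (.inr i) • g i)
  map_add' u u' := by
    rw [← Finset.sum_add_distrib]
    refine Finset.sum_congr rfl fun i _ => ?_
    simp only [Pi.add_apply, add_smul]
    abel
  map_smul' c u := by
    rw [Finset.smul_sum]
    refine Finset.sum_congr rfl fun i _ => ?_
    simp only [Pi.smul_apply, smul_add, smul_smul, RingHom.id_apply, smul_eq_mul]

theorem Psi_apply (u : V m) : Psi m u = ∑ i, (u (.inl i) • e i + u (.inr i) • g i) := rfl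

/-- `Θ`: from vectors to coordinates. -/
def Theta (m : ℕ) : A m →ₗ[ZMod 2] V m where
  toFun v := Sum.elim (fun i => v ⬝ᵥ g i) (fun i => v ⬝ᵥ e i)
  map_add' v v' := by
    funext j
    rcases j with i | i <;> simp [add_dotProduct]
  map_smul' c v := by
    funext j
    rcases j with i | i <;> simp [smul_dotProduct]

theorem Theta_inl (v : A m) (i : Fin m) : Theta m v (.inl i) = v ⬝ᵥ g i := rfl
theorem Theta_inr (v : A m) (i : Fin m) : Theta m v (.inr i) = v ⬝ᵥ e i := rfl

theorem Psi_dot_g (u : V m) (j : Fin m) : Psi m u ⬝ᵥ g j = u (.inl j) := by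
  classical
  rw [Psi_apply, sum_dotProduct]
  simp only [add_dotProduct, smul_dotProduct, g_g, g_e, smul_eq_mul, mul_zero, add_zero,
    mul_ite, mul_one]
  simp

theorem Psi_dot_e (u : V m) (j : Fin m) : Psi m u ⬝ᵥ e j = u (.inr j) := by
  classical
  rw [Psi_apply, sum_dotProduct]
  simp only [add_dotProduct, smul_dotProduct, e_e, e_g, smul_eq_mul, mul_zero, zero_add,
    mul_ite, mul_one]
  simp

theorem Theta_Psi (u : V m) : Theta m (Psi m u) = u := by
  funext j
  rcases j with i | i
  · exact Psi_dot_g u i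
  · exact Psi_dot_e u i

theorem Psi_dot_Psi (u u' : V m) : Psi m u ⬝ᵥ Psi m u' = f m u u' := by
  classical
  rw [dotProduct_comm, Psi_apply u', sum_dotProduct, f_apply]
  refine Finset.sum_congr rfl fun i _ => ?_
  rw [add_dotProduct, smul_dotProduct, smul_dotProduct, dotProduct_comm, Psi_dot_e,
    dotProduct_comm, Psi_dot_g, smul_eq_mul, smul_eq_mul]
  ring

/-! ### Even vectors -/

/-- Even vectors. -/
def IsEv (v : A m) : Prop := ∑ p, v p = 0

theorem isEv_iff_dot (v : A m) : IsEv v ↔ v ⬝ᵥ 1 = 0 := by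
  simp [IsEv, dotProduct_one]

theorem IsEv.add {u v : A m} (hu : IsEv u) (hv : IsEv v) : IsEv (u + v) := by
  unfold IsEv at *
  simp only [Pi.add_apply, Finset.sum_add_distrib, hu, hv, add_zero]

theorem IsEv.smul {v : A m} (c : ZMod 2) (hv : IsEv v) : IsEv (c • v) := by
  unfold IsEv at *
  simp only [Pi.smul_apply, ← Finset.smul_sum, hv, smul_zero]

theorem isEv_sum {ι : Type*} (t : Finset ι) (v : ι → A m) (h : ∀ i ∈ t, IsEv (v i)) :
    IsEv (∑ i ∈ t, v i) := by
  unfold IsEv at *
  simp only [Finset.sum_apply]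
  rw [Finset.sum_comm]
  exact Finset.sum_eq_zero h

theorem isEv_e (i : Fin m) : IsEv (e i) := by
  classical
  unfold IsEv
  simp only [Fintype.sum_sum_type, Fin.sum_univ_two, e, Sum.elim_inl, Sum.elim_inr]
  simp [CharTwo.add_self_eq_zero]

theorem isEv_g (i : Fin m) : IsEv (g i) := by
  classical
  unfold IsEv
  simp only [Fintype.sum_sum_type, Fin.sum_univ_two, g, Sum.elim_inl, Sum.elim_inr]
  rw [← Finset.sum_add_distrib, Finset.sum_congr rfl fun l _ => lt_add_le l i]
  simp [CharTwo.add_self_eq_zero]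

theorem isEv_Psi (u : V m) : IsEv (Psi m u) := by
  rw [Psi_apply]
  exact isEv_sum _ _ fun i _ => ((isEv_e i).smul _).add ((isEv_g i).smul _)

theorem isEv_one : IsEv (1 : A m) := by
  unfold IsEv
  simp only [Fintype.sum_sum_type, Fin.sum_univ_two, Pi.one_apply, Finset.sum_const]
  simp [CharTwo.add_self_eq_zero]
  decide

theorem Theta_one : Theta m (1 : A m) = 0 := by
  funext j
  rcases j with i | i
  · rw [Theta_inl, dotProduct_comm]
    exact (isEv_iff_dot _).1 (isEv_g i)
  · rw [Theta_inr, dotProduct_comm]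
    exact (isEv_iff_dot _).1 (isEv_e i)

/-- The kernel of `Θ` on even vectors. -/
theorem Theta_ker {d : A m} (hd : IsEv d) (h : Theta m d = 0) : d = 0 ∨ d = 1 := by
  classical
  have h1 : ∀ i, d (.inl (.inl i)) = d (.inl (.inr i)) := by
    intro i
    have := congrFun h (.inr i)
    rw [Theta_inr, dot_e] at this
    exact CharTwo.add_eq_zero.mp this
  have h2 : ∀ i, d (.inl (.inr i)) = d (.inr 0) := by
    intro i
    have := congrFun h (.inl i)
    rw [Theta_inl, dot_g] at this
    have e1 : ∑ l, (if l < i then d (.inl (.inl l)) else 0)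
        + ∑ l, (if l ≤ i then d (.inl (.inr l)) else 0) = d (.inl (.inr i)) := by
      rw [← Finset.sum_add_distrib]
      have : ∀ l : Fin m, (if l < i then d (.inl (.inl l)) else 0)
          + (if l ≤ i then d (.inl (.inr l)) else 0)
          = (if l = i then 1 else 0) * d (.inl (.inr l)) := by
        intro l
        rw [← lt_add_le, add_mul, h1 l]
        simp
      rw [Finset.sum_congr rfl fun l _ => this l]
      simp
    rw [e1] at this
    exact CharTwo.add_eq_zero.mp this
  have h3 : d (.inr 1) = d (.inr 0) := by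
    unfold IsEv at hd
    simp only [Fintype.sum_sum_type, Fin.sum_univ_two] at hd
    rw [← Finset.sum_add_distrib, Finset.sum_eq_zero (fun i _ => by
      rw [h1 i]; exact CharTwo.add_self_eq_zero _), zero_add] at hd
    exact (CharTwo.add_eq_zero.mp hd).symm
  have h4 : ∀ p, d p = d (.inr 0) := by
    rintro ((i | i) | j)
    · rw [h1, h2]
    · rw [h2]
    · fin_cases j
      · rfl
      · exact h3
  have hc : ∀ c : ZMod 2, c = 0 ∨ c = 1 := by decide
  rcases hc (d (.inr 0)) with h5 | h5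
  · left; funext p; rw [h4, h5]; rfl
  · right; funext p; rw [h4, h5]; rfl

/-- On even vectors, `ΨΘ` is the identity up to the all-ones vector. -/
theorem Psi_Theta {v : A m} (hv : IsEv v) : Psi m (Theta m v) = v ∨ Psi m (Theta m v) = v + 1 := by
  have hd : IsEv (v + Psi m (Theta m v)) := hv.add (isEv_Psi _)
  have h0 : Theta m (v + Psi m (Theta m v)) = 0 := by
    rw [map_add, Theta_Psi]
    funext j
    exact CharTwo.add_self_eq_zero _
  rcases Theta_ker hd h0 with h | h
  · left
    funext p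
    have := congrFun h p
    exact (CharTwo.add_eq_zero.mp this).symm
  · right
    funext p
    have := congrFun h p
    simp only [Pi.add_apply, Pi.one_apply] at this ⊢
    rw [← this, ← add_assoc, CharTwo.add_self_eq_zero, zero_add]

/-! ### Half the weight -/

/-- The weight. -/
def wtN (v : A m) : ℕ := ∑ p, (v p).val

/-- Half the weight, modulo two. -/
def q0 (v : A m) : ZMod 2 := ((wtN v / 2 : ℕ) : ZMod 2)

/-- The size of the intersection. -/
def interN (u v : A m) : ℕ := ∑ p, (u p).val * (v p).val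

theorem wtN_add (u v : A m) : wtN (u + v) + 2 * interN u v = wtN u + wtN v := by
  have h : ∀ a b : ZMod 2, (a + b).val + 2 * (a.val * b.val) = a.val + b.val := by decide
  unfold wtN interN
  rw [Finset.mul_sum, ← Finset.sum_add_distrib, ← Finset.sum_add_distrib]
  exact Finset.sum_congr rfl fun p _ => h _ _

theorem cast_wtN (v : A m) : ((wtN v : ℕ) : ZMod 2) = ∑ p, v p := by
  unfold wtN
  push_cast
  exact Finset.sum_congr rfl fun p _ => ZMod.natCast_zmod_val _

theorem cast_interN (u v : A m) : ((interN u v : ℕ) : ZMod 2) = u ⬝ᵥ v := by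
  unfold interN
  push_cast
  refine Finset.sum_congr rfl fun p _ => ?_
  rw [ZMod.natCast_zmod_val, ZMod.natCast_zmod_val]

theorem two_dvd_wtN {v : A m} (hv : IsEv v) : 2 ∣ wtN v := by
  rw [← ZMod.natCast_eq_zero_iff, cast_wtN]
  exact hv

/-- The polarization of half the weight. -/
theorem q0_add {u v : A m} (hu : IsEv u) (hv : IsEv v) :
    q0 (u + v) = q0 u + q0 v + u ⬝ᵥ v := by
  obtain ⟨a, ha⟩ := two_dvd_wtN hu
  obtain ⟨b, hb⟩ := two_dvd_wtN hv
  obtain ⟨c, hc⟩ := two_dvd_wtN (hu.add hv)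
  have h := wtN_add u v
  have hI : c + interN u v = a + b := by omega
  unfold q0
  rw [ha, hb, hc, ← cast_interN]
  have e1 : 2 * a / 2 = a := by omega
  have e2 : 2 * b / 2 = b := by omega
  have e3 : 2 * c / 2 = c := by omega
  rw [e1, e2, e3]
  have := congrArg (Nat.cast : ℕ → ZMod 2) hI
  push_cast at this
  rw [← this, add_assoc, CharTwo.add_self_eq_zero, add_zero]

/-! ### The form on coordinates -/

/-- The form in the coordinates. -/
def qq (m : ℕ) (u : V m) : ZMod 2 := q0 (Psi m u)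

theorem isPol_qq (m : ℕ) : IsPol (qq m) := by
  rw [isPol_iff]
  intro u v
  unfold qq
  rw [map_add, q0_add (isEv_Psi u) (isEv_Psi v), Psi_dot_Psi]

theorem wtN_e (i : Fin m) : wtN (e i) = 2 := by
  classical
  unfold wtN
  simp only [Fintype.sum_sum_type, Fin.sum_univ_two, e, Sum.elim_inl, Sum.elim_inr]
  have h : ∀ l : Fin m, ((Pi.single i 1 : Fin m → ZMod 2) l).val = if l = i then 1 else 0 := by
    intro l
    by_cases hl : l = i
    · subst hl; simp [ZMod.val_one]
    · simp [hl, Pi.single_apply]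
  simp [h]

theorem wtN_g (i : Fin m) : wtN (g i) = 2 * (i : ℕ) + 2 := by
  classical
  unfold wtN
  simp only [Fintype.sum_sum_type, Fin.sum_univ_two, g, Sum.elim_inl, Sum.elim_inr]
  have h1 : ∑ l : Fin m, ((if l < i then 1 else 0 : ZMod 2)).val = (i : ℕ) := by
    have : ∀ l : Fin m, ((if l < i then 1 else 0 : ZMod 2)).val = if l < i then 1 else 0 := by
      intro l
      split_ifs <;> simp [ZMod.val_one]
    simp only [this, Finset.sum_boole, Nat.cast_id]
    rw [Finset.filter_gt_eq_Iio, Fin.card_Iio]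
  have h2 : ∑ l : Fin m, ((if l ≤ i then 1 else 0 : ZMod 2)).val = (i : ℕ) + 1 := by
    have : ∀ l : Fin m, ((if l ≤ i then 1 else 0 : ZMod 2)).val = if l ≤ i then 1 else 0 := by
      intro l
      split_ifs <;> simp [ZMod.val_one]
    simp only [this, Finset.sum_boole, Nat.cast_id]
    rw [Finset.filter_ge_eq_Iic, Fin.card_Iic]
  rw [h1, h2]
  simp [ZMod.val_one]
  ring

theorem q0_e (i : Fin m) : q0 (e i) = 1 := by
  unfold q0
  rw [wtN_e]
  simp

theorem q0_g (i : Fin m) : q0 (g i) = (i : ℕ) + 1 := by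
  unfold q0
  rw [wtN_g]
  have : (2 * (i : ℕ) + 2) / 2 = (i : ℕ) + 1 := by omega
  rw [this]
  push_cast
  rfl

theorem Psi_single_inl (i : Fin m) : Psi m (Pi.single (.inl i) 1) = e i := by
  classical
  rw [Psi_apply, Finset.sum_eq_single i]
  · simp
  · intro j _ hj
    simp [hj]
  · simp

theorem Psi_single_inr (i : Fin m) : Psi m (Pi.single (.inr i) 1) = g i := by
  classical
  rw [Psi_apply, Finset.sum_eq_single i]
  · simp
  · intro j _ hj
    simp [hj]
  · simp

/-- The vector representing `qq`. -/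
theorem qq_rep (m : ℕ) : ∃ w, qq m = qw w ∧ ∀ i : Fin m,
    w (.inl i) = (i : ℕ) + 1 ∧ w (.inr i) = 1 := by
  classical
  obtain ⟨w, hw⟩ := exists_rep (isPol_qq m)
  refine ⟨w, hw, fun i => ?_⟩
  have hQ1 : Q m (Pi.single (.inl i) 1) = 0 := by
    rw [Q_apply]
    refine Finset.sum_eq_zero fun l _ => ?_
    simp [Pi.single_apply]
  have hQ2 : Q m (Pi.single (.inr i) 1) = 0 := by
    rw [Q_apply]
    refine Finset.sum_eq_zero fun l _ => ?_
    simp [Pi.single_apply]
  constructor
  · have := congrFun hw (Pi.single (.inr i) 1)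
    rw [qw_apply, hQ2, zero_add, f_comm, f_single_inr] at this
    rw [← this]
    unfold qq
    rw [Psi_single_inr, q0_g]
  · have := congrFun hw (Pi.single (.inl i) 1)
    rw [qw_apply, hQ1, zero_add, f_comm, f_single_inl] at this
    rw [← this]
    unfold qq
    rw [Psi_single_inl, q0_e]

theorem sum_range_aux (k : ℕ) :
    ∑ i ∈ Finset.range (2 * k + 1), (((i : ℕ) : ZMod 2) + 1) = (k : ZMod 2) + 1 := by
  induction k with
  | zero => simp
  | succ k ih =>
    have e1 : 2 * (k + 1) + 1 = 2 * k + 1 + 1 + 1 := by ring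
    rw [e1, Finset.sum_range_succ, Finset.sum_range_succ, ih]
    push_cast
    have : ∀ a : ZMod 2, a + 1 + (2 * a + 1 + 1) + (2 * a + 2 + 1) = a + 1 + 1 := by decide
    exact this _

/-- The value of `Q` on the representing vector. -/
theorem Q_rep (k : ℕ) {w : V (2 * k + 1)}
    (hw : ∀ i : Fin (2 * k + 1), w (.inl i) = (i : ℕ) + 1 ∧ w (.inr i) = 1) :
    Q (2 * k + 1) w = (k : ZMod 2) + 1 := by
  rw [Q_apply, ← sum_range_aux, ← Fin.sum_univ_eq_sum_range (fun i => ((i : ℕ) : ZMod 2) + 1)]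
  refine Finset.sum_congr rfl fun i _ => ?_
  rw [(hw i).1, (hw i).2, mul_one]

/-! ### The action -/

open Equiv

/-- Permuting the coordinates. -/
def pm (σ : Perm (P m)) : A m →ₗ[ZMod 2] A m where
  toFun v := fun p => v (σ⁻¹ p)
  map_add' _ _ := rfl
  map_smul' _ _ := rfl

theorem pm_apply (σ : Perm (P m)) (v : A m) (p : P m) : pm σ v p = v (σ⁻¹ p) := rfl

theorem pm_one (v : A m) : pm (1 : Perm (P m)) v = v := rfl

theorem pm_mul (σ τ : Perm (P m)) (v : A m) : pm (σ * τ) v = pm σ (pm τ v) := by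
  funext p
  simp [pm_apply, _root_.mul_inv_rev]

theorem pm_all_one (σ : Perm (P m)) : pm σ (1 : A m) = 1 := rfl

theorem IsEv.pm {v : A m} (hv : IsEv v) (σ : Perm (P m)) : IsEv (pm σ v) := by
  unfold IsEv at *
  rw [← hv]
  exact Equiv.sum_comp σ⁻¹ v

theorem wtN_pm (σ : Perm (P m)) (v : A m) : wtN (pm σ v) = wtN v :=
  Equiv.sum_comp σ⁻¹ (fun p => (v p).val)

theorem q0_pm (σ : Perm (P m)) (v : A m) : q0 (pm σ v) = q0 v := by
  unfold q0
  rw [wtN_pm]

theorem q0_add_one {k : ℕ} {v : A (2 * k + 1)} (hv : IsEv v) : q0 (v + 1) = q0 v := by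
  have h1 : q0 (1 : A (2 * k + 1)) = 0 := by
    unfold q0 wtN
    simp only [Pi.one_apply, ZMod.val_one, Finset.sum_const, Finset.card_univ, smul_eq_mul,
      mul_one]
    have : Fintype.card (P (2 * k + 1)) = 2 * (2 * k + 2) := by
      simp only [Fintype.card_sum, Fintype.card_fin]
      ring
    rw [this]
    have : 2 * (2 * k + 2) / 2 = 2 * (k + 1) := by omega
    rw [this]
    push_cast
    have h2 : (2 : ZMod 2) = 0 := by decide
    rw [h2, zero_mul]
  rw [q0_add hv isEv_one, h1, (isEv_iff_dot v).1 hv, add_zero, add_zero]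

/-- The action on coordinates. -/
def rho (σ : Perm (P m)) : V m →ₗ[ZMod 2] V m := (Theta m) ∘ₗ (pm σ) ∘ₗ (Psi m)

theorem rho_apply (σ : Perm (P m)) (u : V m) : rho σ u = Theta m (pm σ (Psi m u)) := rfl

theorem rho_one (u : V m) : rho (1 : Perm (P m)) u = u := by
  rw [rho_apply, pm_one, Theta_Psi]

theorem Theta_pm_Psi_Theta (σ : Perm (P m)) {v : A m} (hv : IsEv v) :
    Theta m (pm σ (Psi m (Theta m v))) = Theta m (pm σ v) := by
  rcases Psi_Theta hv with h | h
  · rw [h]
  · rw [h, map_add, map_add, pm_all_one, Theta_one, add_zero]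

theorem rho_mul (σ τ : Perm (P m)) (u : V m) : rho (σ * τ) u = rho σ (rho τ u) := by
  rw [rho_apply, rho_apply, rho_apply, pm_mul, Theta_pm_Psi_Theta σ ((isEv_Psi u).pm τ)]

theorem qq_rho {k : ℕ} (σ : Perm (P (2 * k + 1))) (u : V (2 * k + 1)) :
    qq _ (rho σ u) = qq _ u := by
  unfold qq
  rw [rho_apply]
  have hv := (isEv_Psi u).pm σ
  rcases Psi_Theta hv with h | h
  · rw [h, q0_pm]
  · rw [h, q0_add_one hv, q0_pm]

/-- The action as a homomorphism to linear automorphisms. -/
def rhoL (σ : Perm (P m)) : V m ≃ₗ[ZMod 2] V m :=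
  { rho σ with
    invFun := rho σ⁻¹
    left_inv := fun u => by
      change rho σ⁻¹ (rho σ u) = u
      rw [← rho_mul, inv_mul_cancel, rho_one]
    right_inv := fun u => by
      change rho σ (rho σ⁻¹ u) = u
      rw [← rho_mul, mul_inv_cancel, rho_one] }

theorem rhoL_apply (σ : Perm (P m)) (u : V m) : rhoL σ u = rho σ u := rfl

/-- The action as a homomorphism to linear automorphisms. -/
def rhoE (m : ℕ) : Perm (P m) →* (V m ≃ₗ[ZMod 2] V m) where
  toFun σ := rhoL σ
  map_one' := by
    refine LinearEquiv.ext fun u => ?_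
    rw [rhoL_apply, rho_one]
    rfl
  map_mul' σ τ := by
    refine LinearEquiv.ext fun u => ?_
    rw [LinearEquiv.mul_apply, rhoL_apply, rhoL_apply, rhoL_apply, rho_mul]

theorem rhoE_apply (σ : Perm (P m)) (u : V m) : rhoE m σ u = rho σ u := rfl

theorem exists_not_mem {X : Type*} [Fintype X] [DecidableEq X] (s : Finset X)
    (h : s.card < Fintype.card X) : ∃ r, r ∉ s := by
  by_contra hcon
  push Not at hcon
  have : s = Finset.univ := Finset.eq_univ_iff_forall.mpr hcon
  rw [this, Finset.card_univ] at h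
  omega

/-- The action is faithful. -/
theorem rho_faithful (hm : 2 ≤ m) {σ : Perm (P m)} (h : ∀ u : V m, rho σ u = u) : σ = 1 := by
  classical
  have hcard : 5 ≤ Fintype.card (P m) := by
    simp only [Fintype.card_sum, Fintype.card_fin]
    omega
  by_contra hne
  obtain ⟨p, hp⟩ : ∃ p, σ p ≠ p := by
    by_contra hcon
    push Not at hcon
    exact hne (Equiv.ext hcon)
  obtain ⟨p', hp'⟩ := exists_not_mem ({p, σ p} : Finset (P m))
    (lt_of_le_of_lt (Finset.card_le_two) (by omega))
  simp only [Finset.mem_insert, Finset.mem_singleton, not_or] at hp'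
  obtain ⟨r, hr⟩ := exists_not_mem ({p, p', σ p, σ p'} : Finset (P m))
    (lt_of_le_of_lt (Finset.card_le_four) (by omega))
  simp only [Finset.mem_insert, Finset.mem_singleton, not_or] at hr
  -- the even vector
  let v : A m := Pi.single p 1 + Pi.single p' 1
  have hvp : ∀ x, v x = (if x = p then 1 else 0) + (if x = p' then 1 else 0) := by
    intro x
    simp [v, Pi.single_apply]
  have hv : IsEv v := by
    unfold IsEv
    simp only [hvp, Finset.sum_add_distrib, Finset.sum_ite_eq', Finset.mem_univ, if_true]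
    exact CharTwo.add_self_eq_zero _
  have h1 := h (Theta m v)
  rw [rho_apply, Theta_pm_Psi_Theta σ hv] at h1
  have hd : IsEv (pm σ v + v) := (hv.pm σ).add hv
  have h0 : Theta m (pm σ v + v) = 0 := by
    rw [map_add, h1]
    funext j
    exact CharTwo.add_self_eq_zero _
  have hval : ∀ x, (pm σ v + v) x = v (σ⁻¹ x) + v x := fun x => rfl
  have hat_q : (pm σ v + v) (σ p) = 1 := by
    have e0 : σ⁻¹ (σ p) = p := by simp
    rw [hval, e0, hvp, hvp]
    rw [if_pos rfl, if_neg (Ne.symm hp'.1), if_neg hp, if_neg (Ne.symm hp'.2)]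
    decide
  have hat_r : (pm σ v + v) r = 0 := by
    rw [hval, hvp, hvp]
    have e1 : σ⁻¹ r ≠ p := fun e => hr.2.2.1 (by rw [← e]; simp)
    have e2 : σ⁻¹ r ≠ p' := fun e => hr.2.2.2 (by rw [← e]; simp)
    rw [if_neg e1, if_neg e2, if_neg hr.1, if_neg hr.2.1]
    decide
  rcases Theta_ker hd h0 with h2 | h2
  · rw [h2] at hat_q
    have : (0 : ZMod 2) = 1 := hat_q
    exact absurd this (by decide)
  · rw [h2] at hat_r
    have : (1 : ZMod 2) = 0 := hat_r
    exact absurd this (by decide)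

theorem rhoE_injective (hm : 2 ≤ m) : Function.Injective (rhoE m) := by
  rw [injective_iff_map_eq_one]
  intro σ hσ
  exact rho_faithful hm fun u => by
    rw [← rhoE_apply, hσ]
    rfl

/-- The final assembly: from the action to the matrix isometry group. -/
theorem exists_hom {k : ℕ} {ι X : Type} [Fintype ι] [DecidableEq ι]
    [Fintype X] [DecidableEq X] (hX : Fintype.card X = 4 * k + 4) (h2 : 2 ≤ 2 * k + 1)
    (Q₁ : (ι → ZMod 2) → ZMod 2)
    (θ : V (2 * k + 1) ≃ₗ[ZMod 2] (ι → ZMod 2))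
    (hθ : ∀ u, qq (2 * k + 1) u = Q₁ (θ u)) :
    ∃ φ : Perm X →* ↥(Cfsg.isometryGroup (ZMod 2) Q₁), Function.Injective φ := by
  classical
  have hc : Fintype.card X = Fintype.card (P (2 * k + 1)) := by
    rw [hX]
    simp only [Fintype.card_sum, Fintype.card_fin]
    ring
  let e₀ : X ≃ P (2 * k + 1) := Fintype.equivOfCardEq hc
  let conj : (V (2 * k + 1) ≃ₗ[ZMod 2] V (2 * k + 1)) →* ((ι → ZMod 2) ≃ₗ[ZMod 2] (ι → ZMod 2)) :=
    { toFun := fun r => θ.symm.trans (r.trans θ)
      map_one' := LinearEquiv.ext fun u => by simp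
      map_mul' := fun r s => LinearEquiv.ext fun u => by simp }
  let φ₀ : Perm X →* Matrix.GeneralLinearGroup ι (ZMod 2) :=
    (Cfsg.Agent.Lib.OrthoCount.glEquiv.symm.toMonoidHom).comp
      (conj.comp ((rhoE (2 * k + 1)).comp e₀.permCongrHom.toMonoidHom))
  have hφ₀ : ∀ (σ : Perm X) (x : ι → ZMod 2),
      ((φ₀ σ : Matrix.GeneralLinearGroup ι (ZMod 2)) : Matrix ι ι (ZMod 2)) *ᵥ x
        = θ (rho (e₀.permCongrHom σ) (θ.symm x)) := by
    intro σ x
    have := Cfsg.Agent.Lib.OrthoCount.glEquiv_apply (φ₀ σ) x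
    rw [← this]
    simp only [φ₀, MonoidHom.comp_apply]
    simp
    rfl
  have hmem : ∀ σ : Perm X, φ₀ σ ∈ Cfsg.isometryGroup (ZMod 2) Q₁ := by
    intro σ x _
    change Q₁ (((φ₀ σ : Matrix.GeneralLinearGroup ι (ZMod 2)) : Matrix ι ι (ZMod 2)) *ᵥ x) = Q₁ x
    rw [hφ₀, ← hθ, qq_rho, hθ]
    simp
  refine ⟨φ₀.codRestrict _ hmem, ?_⟩
  rw [injective_iff_map_eq_one]
  intro σ hσ
  have h3 : φ₀ σ = 1 := congrArg Subtype.val hσ
  have h4 : ∀ u, rho (e₀.permCongrHom σ) u = u := by
    intro u
    have h5 := hφ₀ σ (θ u)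
    rw [h3] at h5
    simp only [Units.val_one, Matrix.one_mulVec, LinearEquiv.symm_apply_apply] at h5
    exact (θ.injective h5).symm
  have h6 := rho_faithful h2 h4
  exact e₀.permCongrHom.injective (by rw [h6, map_one])

/-- The embedding, plus type. -/
theorem exists_hom_plus {k : ℕ} (hk : Odd k) {X : Type} [Fintype X] [DecidableEq X]
    (hX : Fintype.card X = 4 * k + 4) :
    ∃ φ : Perm X →* ↥(Cfsg.isometryGroup (ZMod 2) (Cfsg.quadFormPlus (2 * k + 1) (ZMod 2))),
      Function.Injective φ := by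
  obtain ⟨w, hw, hw'⟩ := qq_rep (2 * k + 1)
  have hQ := Q_rep k hw'
  have h0 : Q (2 * k + 1) w = 0 := by
    rw [hQ]
    obtain ⟨j, rfl⟩ := hk
    push_cast
    have h2 : (2 : ZMod 2) = 0 := by decide
    rw [h2, zero_mul, zero_add]
    decide
  obtain ⟨g, hg⟩ := plus_of_Q_zero h0
  have hk1 : 1 ≤ k := hk.pos
  exact exists_hom hX (by omega) _ g (fun u => by rw [hw, hg])

/-- The embedding, minus type. -/
theorem exists_hom_minus {k : ℕ} (hk1 : 1 ≤ k) (hk : Even k) {X : Type} [Fintype X] [DecidableEq X]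
    (hX : Fintype.card X = 4 * k + 4) :
    ∃ φ : Perm X →* ↥(Cfsg.isometryGroup (ZMod 2) (Cfsg.quadFormMinus (2 * k) (ZMod 2) 1 1)),
      Function.Injective φ := by
  obtain ⟨w, hw, hw'⟩ := qq_rep (2 * k + 1)
  have hQ := Q_rep k hw'
  have h0 : Q (2 * k + 1) w = 1 := by
    rw [hQ]
    obtain ⟨j, rfl⟩ := hk
    push_cast
    have h2 : ((j : ZMod 2) + j) = 0 := CharTwo.add_self_eq_zero _
    rw [h2, zero_add]
  obtain ⟨g, hg⟩ := minus_of_Q_one h0
  exact exists_hom hX (by omega) _ g (fun u => by rw [hw, hg])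

end Cfsg.Agent.Lib.F2Even
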