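import Mathlib
import Cfsg.Agent.Lib.Fi24LT45
import Cfsg.Agent.Lib.Fi24Cent45
import Cfsg.Prelude.Def_FischerSpaces

/-!
# Widths of centralisers in the presented `Fi₂₄`, by a certified clique search

For a word `yw`, with `y` its value in `Fi₂₄`, the width of the transpositions commuting with `y` is found by a clique
search over the points fixed by `y`, either over all of them (plain mode) or, when the centraliser of `y` is transitive on
the fixed points, over the neighbours of one root (pinned mode).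
-/

set_option autoImplicit false
set_option maxRecDepth 1000000
set_option linter.all false

namespace Cfsg.Agent.Lib.F3W

open Cfsg.Agent.Lib.TcBits Cfsg.Agent.Lib.CoxCert Cfsg.Agent.Lib.BitClose Cfsg.Agent.Lib.F24Base Cfsg.Agent.Lib.F24Rep
open Cfsg.Agent.Lib.F24Psi Cfsg.Agent.Lib.F24Orb Cfsg.Agent.Lib.F24Main Cfsg.Agent.Lib.F24Cl Cfsg.Spor
open Cfsg.Agent.Lib.Fi24K45 Cfsg.Agent.Lib.Fi24Scan45 Cfsg.Agent.Lib.Fi24Cent45 Cfsg.Agent.Lib.Fi24LT45

/-! ### The search -/

/-- The mask of a list of points. -/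
def preM : List ℕ → ℕ
  | [] => 0
  | p :: l => Nat.lor (Nat.pow 2 p) (preM l)

theorem testBit_preM (l : List ℕ) (y : ℕ) : (preM l).testBit y = true → y ∈ l := by
  induction l with
  | nil => simp [preM]
  | cons p l ih =>
    intro h
    have e : preM (p :: l) = 2 ^ p ||| preM l := rfl
    rw [e, Nat.testBit_or, Bool.or_eq_true, Nat.testBit_two_pow] at h
    rcases h with h | h
    · have := of_decide_eq_true h
      simp [this]
    · exact List.mem_cons_of_mem _ (ih h)

/-- The search: every clique inside the mask `m` has at most `k` members. -/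
noncomputable def srch (NB : ℕ → ℕ) (f : ℕ) : ℕ → ℕ → Bool :=
  Nat.rec (motive := fun _ => ℕ → ℕ → Bool) (fun _ m => Nat.beq m 0)
    (fun _ ih k m => cond (Nat.beq m 0) true (cond (Nat.beq k 0) false
      (wl (Nat.log2 m) fun v => wl (Nat.xor m (Nat.pow 2 v)) fun m0 =>
        cond (wl (Nat.land m0 (NB v)) fun m1 => ih (Nat.pred k) m1) (ih k m0) false))) f

theorem srch_zero (NB : ℕ → ℕ) (k m : ℕ) : srch NB 0 k m = Nat.beq m 0 := rfl

theorem srch_succ (NB : ℕ → ℕ) (f k m : ℕ) : srch NB (f + 1) k m = cond (Nat.beq m 0) true (cond (Nat.beq k 0) false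
      (cond (srch NB f (Nat.pred k) (Nat.land (Nat.xor m (Nat.pow 2 (Nat.log2 m))) (NB (Nat.log2 m))))
        (srch NB f k (Nat.xor m (Nat.pow 2 (Nat.log2 m)))) false)) := by
  show cond (Nat.beq m 0) true (cond (Nat.beq k 0) false
      (wl (Nat.log2 m) fun v => wl (Nat.xor m (Nat.pow 2 v)) fun m0 =>
        cond (wl (Nat.land m0 (NB v)) fun m1 => srch NB f (Nat.pred k) m1) (srch NB f k m0) false)) = _
  simp only [wl_eq]

theorem testBit_log2' {m : ℕ} (hm : m ≠ 0) : m.testBit (Nat.log2 m) = true := by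
  have h1 : 2 ^ Nat.log2 m ≤ m := Nat.log2_self_le hm
  have h2 : m < 2 ^ (Nat.log2 m + 1) := Nat.lt_log2_self
  rw [Nat.testBit_eq_decide_div_mod_eq]
  apply decide_eq_true
  have h3 : m / 2 ^ Nat.log2 m < 2 := by
    rw [Nat.div_lt_iff_lt_mul (Nat.two_pow_pos _)]
    rw [pow_succ] at h2
    omega
  have h4 : 1 ≤ m / 2 ^ Nat.log2 m := (Nat.one_le_div_iff (Nat.two_pow_pos _)).2 h1
  omega

theorem srch_spec (NB : ℕ → ℕ) : ∀ (f k m : ℕ), srch NB f k m = true → ∀ S : Finset ℕ, (∀ i ∈ S, m.testBit i = true) →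
    (∀ i ∈ S, ∀ j ∈ S, i ≠ j → (NB i).testBit j = true) → S.card ≤ k := by
  have hzero : ∀ (k : ℕ) (S : Finset ℕ), (∀ i ∈ S, (0 : ℕ).testBit i = true) → S.card ≤ k := by
    intro k S h1
    have : S = ∅ := by
      apply Finset.eq_empty_of_forall_notMem
      intro i hi
      have := h1 i hi
      simp at this
    simp [this]
  intro f
  induction f with
  | zero =>
    intro k m h S h1 _
    rw [srch_zero] at h
    have hm : m = 0 := Nat.eq_of_beq_eq_true h
    subst hm
    exact hzero k S h1
  | succ f ih =>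
    intro k m h S h1 h2
    rw [srch_succ] at h
    by_cases hm : m = 0
    · subst hm
      exact hzero k S h1
    have hb : Nat.beq m 0 = false := by
      rw [Bool.eq_false_iff]
      exact fun h => hm (Nat.eq_of_beq_eq_true h)
    rw [hb, cond_false] at h
    by_cases hk : k = 0
    · subst hk
      simp at h
    have hb2 : Nat.beq k 0 = false := by
      rw [Bool.eq_false_iff]
      exact fun h => hk (Nat.eq_of_beq_eq_true h)
    rw [hb2, cond_false] at h
    set v := Nat.log2 m with hv
    set m0 := Nat.xor m (Nat.pow 2 v) with hm0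
    have hbit : ∀ i, i ≠ v → m.testBit i = true → m0.testBit i = true := by
      intro i hi h3
      show (m ^^^ 2 ^ v).testBit i = true
      rw [Nat.testBit_xor, h3, Nat.testBit_two_pow]
      have : decide (v = i) = false := decide_eq_false (Ne.symm hi)
      rw [this]
      rfl
    cases hc : srch NB f (Nat.pred k) (Nat.land m0 (NB v)) with
    | false =>
      rw [hc] at h
      simp at h
    | true =>
      rw [hc, cond_true] at h
      by_cases hf : v ∈ S
      · have h3 := ih _ _ hc (S.erase v) (by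
          intro i hi
          have hi1 := Finset.mem_of_mem_erase hi
          have hi2 := Finset.ne_of_mem_erase hi
          show (m0 &&& NB v).testBit i = true
          rw [Nat.testBit_and, hbit i hi2 (h1 i hi1), h2 v hf i hi1 (Ne.symm hi2)]
          rfl) (by
          intro i hi j hj hij
          exact h2 i (Finset.mem_of_mem_erase hi) j (Finset.mem_of_mem_erase hj) hij)
        rw [Finset.card_erase_of_mem hf] at h3
        have : Nat.pred k = k - 1 := rfl
        omega
      · exact ih _ _ h S (by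
          intro i hi
          exact hbit i (fun e => hf (e ▸ hi)) (h1 i hi)) h2

/-! ### Rows -/

/-- The bits of a mask at a list of points. -/
noncomputable def rowP (M : ℕ) (P : List ℕ) : ℕ :=
  List.rec (motive := fun _ => ℕ) 0 (fun p _ ih => Nat.add (Bool.rec 0 1 (bitN M p)) (Nat.mul 2 ih)) P

theorem rowP_nil (M : ℕ) : rowP M [] = 0 := rfl

theorem rowP_cons (M p : ℕ) (P : List ℕ) : rowP M (p :: P) = Nat.add (Bool.rec 0 1 (bitN M p)) (Nat.mul 2 (rowP M P)) := rfl

theorem rowP_bit (M : ℕ) (P : List ℕ) (b : ℕ) : (rowP M P).testBit b = (decide (b < P.length) && M.testBit (P.getD b 0)) := by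
  induction P generalizing b with
  | nil => simp [rowP_nil]
  | cons p P ih =>
    rw [rowP_cons, bitN_eq]
    show (((Bool.rec 0 1 (M.testBit p) : ℕ)) + 2 * rowP M P).testBit b = _
    cases b with
    | zero =>
      cases h : M.testBit p
      · simp [h]
      · simp [h]
    | succ b =>
      rw [Nat.testBit_succ]
      have e : ((Bool.rec 0 1 (M.testBit p) : ℕ) + 2 * rowP M P) / 2 = rowP M P := by
        cases M.testBit p
        · simp
        · show (1 + 2 * rowP M P) / 2 = _
          omega
      rw [e, ih]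
      simp

/-- The mask of the transposition of a word. -/
noncomputable def mkT (u : List ℕ) : ℕ := wordApply prF u A0L

/-- The matrix of the commuting relation. -/
noncomputable def matB (L : ℕ) (P : List ℕ) (U : List (List ℕ)) : ℕ :=
  List.rec (motive := fun _ => ℕ) 0 (fun u _ ih => wl (mkT u) fun M => wl (rowP M P) fun r => wl ih fun t =>
    Nat.lor r (Nat.shiftLeft t L)) U

theorem matB_cons (L : ℕ) (P : List ℕ) (u : List ℕ) (U : List (List ℕ)) :
    matB L P (u :: U) = Nat.lor (rowP (mkT u) P) (Nat.shiftLeft (matB L P U) L) := by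
  show wl (mkT u) (fun M => wl (rowP M P) fun r => wl (matB L P U) fun t => Nat.lor r (Nat.shiftLeft t L)) = _
  simp only [wl_eq]

/-- A row of the matrix. -/
noncomputable def nbF (B L v : ℕ) : ℕ := Nat.land (Nat.shiftRight B (Nat.mul L v)) (Nat.sub (Nat.pow 2 L) 1)

theorem matB_bit (P : List ℕ) (U : List (List ℕ)) (a b : ℕ) (ha : a < U.length) (hb : b < P.length) :
    (matB P.length P U).testBit (P.length * a + b) = (mkT (U.getD a [])).testBit (P.getD b 0) := by
  induction U generalizing a with
  | nil => simp at ha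
  | cons u U ih =>
    rw [matB_cons]
    show (rowP (mkT u) P ||| (matB P.length P U) <<< P.length).testBit _ = _
    rw [Nat.testBit_or, Nat.testBit_shiftLeft, rowP_bit]
    cases a with
    | zero =>
      have h1 : ¬ P.length ≤ P.length * 0 + b := by omega
      simp [hb]
    | succ a =>
      have ha' : a < U.length := by simpa using ha
      have h1 : ¬ P.length * (a + 1) + b < P.length := by
        have : P.length * (a + 1) = P.length * a + P.length := by ring
        omega
      have h2 : P.length ≤ P.length * (a + 1) + b := by omega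
      have h3 : P.length * (a + 1) + b - P.length = P.length * a + b := by
        have : P.length * (a + 1) = P.length * a + P.length := by ring
        omega
      simp only [h1, decide_false, Bool.false_and, Bool.false_or, h2, decide_true, Bool.true_and, h3]
      rw [ih a ha']
      simp

theorem nbF_bit (B L v j : ℕ) (hj : j < L) : (nbF B L v).testBit j = B.testBit (L * v + j) := by
  show ((B >>> (L * v)) &&& (2 ^ L - 1)).testBit j = _
  rw [Nat.testBit_and, Nat.testBit_shiftRight, Nat.testBit_two_pow_sub_one]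
  simp [hj]

/-- The clique search on a list of candidates. -/
noncomputable def srchT (P : List ℕ) (U : List (List ℕ)) (k : ℕ) : Bool :=
  wl P.length fun L => wl (matB L P U) fun B => srch (nbF B L) L k (Nat.sub (Nat.pow 2 L) 1)

/-- The candidates and their words. -/
noncomputable def walkOK : List ℕ → List (List ℕ) → Bool
  | [], [] => true
  | p :: P, u :: U => Nat.beq (walkPt prF u 0) p && walkOK P U
  | _, _ => false

theorem walkOK_spec : ∀ (P : List ℕ) (U : List (List ℕ)), walkOK P U = true → U.length = P.length ∧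
    ∀ i, i < P.length → walkPt prF (U.getD i []) 0 = P.getD i 0
  | [], [], _ => by simp
  | [], _ :: _, h => by simp [walkOK] at h
  | _ :: _, [], h => by simp [walkOK] at h
  | p :: P, u :: U, h => by
    rw [walkOK, Bool.and_eq_true] at h
    obtain ⟨h1, h2⟩ := walkOK_spec P U h.2
    refine ⟨by simp [h1], ?_⟩
    intro i hi
    cases i with
    | zero => simpa using Nat.eq_of_beq_eq_true h.1
    | succ i =>
      have := h2 i (by simpa using hi)
      simpa using this

/-! ### Transpositions and points -/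

/-- The transposition of a word. -/
noncomputable def tu (u : List ℕ) : Fi24 := ev genF u * ll * (ev genF u)⁻¹

theorem Pq_tu (u : List ℕ) : Pq (tu u) (walkPt prF u 0) := ⟨ev genF u, rfl, Phi_walk u 0⟩

theorem FixM_mk (u : List ℕ) : FixM (mkT u) (tu u) := FixM.word FixM_A0L u

theorem tu_mem (u : List ℕ) : tu u ∈ DD := mem_DD.mpr ⟨ev genF u, rfl⟩

theorem exists_pt {x : Fi24} (h : x ∈ DD) : ∃ q, Pq x q := by
  obtain ⟨g, rfl⟩ := mem_DD.mp h
  exact ⟨_, g, rfl, rfl⟩

theorem mem_cent_zp {H : Type*} [Group H] {r x : H} :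
    x ∈ Subgroup.centralizer ((Subgroup.zpowers r : Subgroup H) : Set H) ↔ r * x = x * r := by
  rw [Subgroup.mem_centralizer_iff]
  constructor
  · intro h
    exact h r (Subgroup.mem_zpowers r)
  · rintro h _ ⟨n, rfl⟩
    have h1 : Commute r x := h
    exact (h1.zpow_left n).eq

/-- The bound for a set of transpositions attached to candidates. -/
theorem card_le_of_cands {P : List ℕ} {U : List (List ℕ)} {k : ℕ} (hw : walkOK P U = true) (hs : srchT P U k = true)
    {E : Set Fi24} (hf : E.Finite) (hc : ∀ a ∈ E, ∀ b ∈ E, Commute a b) (hcand : ∀ x ∈ E, ∃ q, Pq x q ∧ q ∈ P) :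
    E.ncard ≤ k := by
  classical
  obtain ⟨hlen, hwalk⟩ := walkOK_spec P U hw
  have hs' : srch (nbF (matB P.length P U) P.length) P.length k (Nat.sub (Nat.pow 2 P.length) 1) = true := by
    simpa only [srchT, wl_eq] using hs
  have hex : ∀ x : E, ∃ i, i < P.length ∧ Pq (x : Fi24) (P.getD i 0) ∧ (x : Fi24) = tu (U.getD i []) := by
    rintro ⟨x, hx⟩
    obtain ⟨q, hq, hqP⟩ := hcand x hx
    obtain ⟨i, hi, rfl⟩ := List.mem_iff_getElem.mp hqP
    have e : P[i] = P.getD i 0 := by
      rw [List.getD_eq_getElem _ _ hi]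
    rw [e] at hq
    refine ⟨i, hi, hq, ?_⟩
    have h1 := Pq_tu (U.getD i [])
    rw [hwalk i hi] at h1
    exact Pq.inj hq h1
  choose f hf1 hf2 hf3 using hex
  haveI : Fintype E := hf.fintype
  have hinj : Function.Injective f := by
    intro a b hab
    apply Subtype.ext
    rw [hf3 a, hf3 b, hab]
  let S : Finset ℕ := Finset.univ.image f
  have hS : S.card = E.ncard := by
    rw [Finset.card_image_of_injective _ hinj, Finset.card_univ, ← Nat.card_eq_fintype_card, Nat.card_coe_set_eq]
  rw [← hS]
  apply srch_spec _ _ _ _ hs'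
  · intro i hi
    obtain ⟨x, _, rfl⟩ := Finset.mem_image.mp hi
    show (2 ^ P.length - 1).testBit (f x) = true
    rw [Nat.testBit_two_pow_sub_one]
    simpa using hf1 x
  · intro i hi j hj hij
    obtain ⟨x, _, rfl⟩ := Finset.mem_image.mp hi
    obtain ⟨y, _, rfl⟩ := Finset.mem_image.mp hj
    rw [nbF_bit _ _ _ _ (hf1 y), matB_bit P U _ _ (by rw [hlen]; exact hf1 x) (hf1 y)]
    have hcomm : (x : Fi24) * y = y * x := hc x x.2 y y.2
    have h1 := (comm_iff_fix (hf2 x) (hf2 y)).1 hcomm
    rw [FixM_mk _ _ (by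
      exact (hf2 y).lt)]
    rw [← hf3 x]
    exact h1

/-! ### Reaching the root -/

/-- The word of the transposition of a word. -/
def trF (u : List ℕ) : List ℕ := u.reverse ++ [5] ++ u

theorem ev_rev (u : List ℕ) : (ev genF u)⁻¹ = ev genF u.reverse := by
  induction u with
  | nil => simp
  | cons a r ih =>
    rw [ev_cons, mul_inv_rev, ih, List.reverse_cons, ev_append, ev_cons, ev_nil, one_mul, inv_gen]

theorem ev_trF (u : List ℕ) : ev genF (trF u) = ev genF u * ll * (ev genF u)⁻¹ := by
  rw [trF, ev_append, ev_append, ← ev_rev, ev_cons, ev_nil, one_mul, mul_assoc]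

/-- Visit points in order: a point is visited after its image under a transposition of the list. -/
noncomputable def treeM (gs : List (List ℕ)) (tr : List (ℕ × ℕ)) : ℕ → ℕ :=
  List.rec (motive := fun _ => ℕ → ℕ) (fun R => R)
    (fun z _ ih R => cond (Nat.blt z.2 gs.length && bitN R (walkPt prF (trF (gs.getD z.2 [])) z.1))
      (wl (Nat.lor R (Nat.pow 2 z.1)) ih) 0) tr

theorem treeM_spec (C : Subgroup Fi24) (r : ℕ) (gs : List (List ℕ)) (hgs : ∀ u ∈ gs, tu u ∈ C) (tr : List (ℕ × ℕ)) (R : ℕ)
    (hR : ∀ q, R.testBit q = true → ∃ g ∈ C, Phi g q = r) :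
    ∀ q, (treeM gs tr R).testBit q = true → ∃ g ∈ C, Phi g q = r := by
  induction tr generalizing R with
  | nil => exact hR
  | cons z tr ih =>
    have e : treeM gs (z :: tr) R = cond (Nat.blt z.2 gs.length && bitN R (walkPt prF (trF (gs.getD z.2 [])) z.1))
      (wl (Nat.lor R (Nat.pow 2 z.1)) (treeM gs tr)) 0 := rfl
    rw [e]
    cases hc : (Nat.blt z.2 gs.length && bitN R (walkPt prF (trF (gs.getD z.2 [])) z.1)) with
    | false => simp
    | true =>
      rw [cond_true, wl_eq]
      apply ih
      intro q hq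
      rw [lor_bit, Bool.or_eq_true] at hq
      rcases hq with hq | hq
      · exact hR q hq
      · rw [Bool.and_eq_true, bitN_eq] at hc
        have hq1 : z.1 = q := by
          have : (2 ^ z.1).testBit q = true := hq
          rw [Nat.testBit_two_pow] at this
          exact of_decide_eq_true this
        subst hq1
        obtain ⟨g, hg, hgr⟩ := hR _ hc.2
        have hlt : z.2 < gs.length := Nat.le_of_ble_eq_true hc.1
        have hmem : tu (gs.getD z.2 []) ∈ C := by
          apply hgs
          rw [List.getD_eq_getElem _ _ hlt]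
          exact List.getElem_mem hlt
        refine ⟨g * tu (gs.getD z.2 []), C.mul_mem hg hmem, ?_⟩
        rw [map_mul, Equiv.Perm.mul_apply]
        have e2 : Phi (tu (gs.getD z.2 [])) z.1 = walkPt prF (trF (gs.getD z.2 [])) z.1 := by
          rw [← Phi_walk, ev_trF]
          rfl
        rw [e2]
        exact hgr

/-! ### The data and its check -/

/-- The data for a width. -/
structure WD where
  /-- the word of `y` -/
  yw : List ℕ
  /-- pinned mode -/
  pin : Bool
  /-- the word of the root (pinned mode) -/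
  ru : List ℕ
  /-- transpositions commuting with `y` (pinned mode) -/
  gs : List (List ℕ)
  /-- the visit order, point and index of a transposition (pinned mode) -/
  tr : List (ℕ × ℕ)
  /-- the candidates -/
  Np : List ℕ
  /-- the words of the candidates -/
  Nu : List (List ℕ)
  /-- the width -/
  w : ℕ
  /-- the words of a clique -/
  cl : List (List ℕ)

/-- The upper bound part of the check. -/
noncomputable def WD.chkU (d : WD) (Fx : ℕ) : Bool :=
  walkOK d.Np d.Nu &&
    cond d.pin
      (wl (walkPt prF d.ru 0) fun r => wl (mkT d.ru) fun M0 =>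
        Nat.ble 1 d.w && bitN Fx r && d.gs.all (fun u => bitN Fx (walkPt prF u 0)) &&
          Nat.beq (treeM d.gs d.tr (Nat.pow 2 r)) Fx &&
          Nat.beq (preM d.Np) (Nat.xor (Nat.land M0 Fx) (Nat.pow 2 r)) &&
          srchT d.Np d.Nu (Nat.pred d.w))
      (Nat.beq (preM d.Np) Fx && srchT d.Np d.Nu d.w)

/-- The lower bound part of the check. -/
noncomputable def WD.chkL (d : WD) (Fx : ℕ) : Bool :=
  Nat.beq d.cl.length d.w && decide (d.cl.map (fun u => walkPt prF u 0)).Nodup &&
    d.cl.all (fun u => bitN Fx (walkPt prF u 0)) &&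
    d.cl.all (fun u => wl (mkT u) fun M => d.cl.all fun v => bitN M (walkPt prF v 0))

/-- The check of the data. -/
noncomputable def WD.chk (d : WD) : Bool :=
  wl (fixW d.yw) fun Fx => d.chkU Fx && d.chkL Fx

namespace WD

variable {d : WD}

/-- The element. -/
noncomputable abbrev yy (d : WD) : Fi24 := ev genF d.yw

/-- The set. -/
noncomputable abbrev FF (d : WD) : Set Fi24 :=
  DD ∩ (Subgroup.centralizer ((Subgroup.zpowers (ev genF d.yw) : Subgroup Fi24) : Set Fi24) : Set Fi24)

theorem chk_parts (h : d.chk = true) : d.chkU (fixW d.yw) = true ∧ d.chkL (fixW d.yw) = true := by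
  rw [chk, wl_eq, Bool.and_eq_true] at h
  exact h

theorem fixed_of_mem {x : Fi24} {q : ℕ} (hx : x ∈ d.FF) (hq : Pq x q) : (fixW d.yw).testBit q = true := by
  rw [fixW_spec d.yw q hq.lt]
  exact fix_of_comm hq (mem_cent_zp.mp hx.2)

theorem upper_plain (hU : d.chkU (fixW d.yw) = true) (hp : d.pin = false) {E : Set Fi24} (hE : E ⊆ d.FF) (hf : E.Finite)
    (hc : ∀ a ∈ E, ∀ b ∈ E, Commute a b) : E.ncard ≤ d.w := by
  rw [chkU, hp, Bool.and_eq_true, cond_false, Bool.and_eq_true] at hU
  obtain ⟨h1, h2, h3⟩ := hU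
  apply card_le_of_cands h1 h3 hf hc
  intro x hx
  obtain ⟨q, hq⟩ := exists_pt (hE hx).1
  refine ⟨q, hq, testBit_preM _ _ ?_⟩
  rw [Nat.eq_of_beq_eq_true h2]
  exact fixed_of_mem (hE hx) hq

theorem upper_pin (hU : d.chkU (fixW d.yw) = true) (hp : d.pin = true) {E : Set Fi24} (hE : E ⊆ d.FF) (hf : E.Finite)
    (hc : ∀ a ∈ E, ∀ b ∈ E, Commute a b) : E.ncard ≤ d.w := by
  classical
  rw [chkU, hp, Bool.and_eq_true, cond_true, wl_eq, wl_eq] at hU
  simp only [Bool.and_eq_true, List.all_eq_true] at hU
  obtain ⟨h1, ⟨⟨⟨⟨hw1, hroot⟩, hgs⟩, htree⟩, hmask⟩, hsrch⟩ := hU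
  have hw1' : 1 ≤ d.w := Nat.le_of_ble_eq_true hw1
  set r := walkPt prF d.ru 0 with hr
  set C : Subgroup Fi24 := Subgroup.centralizer ((Subgroup.zpowers (ev genF d.yw) : Subgroup Fi24) : Set Fi24) with hC
  have hrP : Pq (tu d.ru) r := Pq_tu d.ru
  -- the generators commute with `y`
  have hgsC : ∀ u ∈ d.gs, tu u ∈ C := by
    intro u hu
    have h2 := hgs u hu
    rw [bitN_eq, fixW_spec d.yw _ (Pq_tu u).lt] at h2
    exact mem_cent_zp.mpr (comm_of_fix (Pq_tu u) h2)
  -- the root is reached from all the fixed points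
  have hreach : ∀ q, (fixW d.yw).testBit q = true → ∃ g ∈ C, Phi g q = r := by
    have e := Nat.eq_of_beq_eq_true htree
    rw [← e]
    apply treeM_spec C r d.gs hgsC d.tr
    intro q hq
    have : r = q := by
      have h2 : (2 ^ r).testBit q = true := hq
      rw [Nat.testBit_two_pow] at h2
      exact of_decide_eq_true h2
    exact ⟨1, C.one_mem, by rw [this]; simp⟩
  -- the bound for sets through the root
  have hroot' : ∀ E' : Set Fi24, E' ⊆ d.FF → E'.Finite → (∀ a ∈ E', ∀ b ∈ E', Commute a b) → tu d.ru ∈ E' → E'.ncard ≤ d.w := by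
    intro E' hE' hf' hc' h0
    have hle : (E' \ {tu d.ru}).ncard ≤ Nat.pred d.w := by
      apply card_le_of_cands h1 hsrch (hf'.subset Set.diff_subset)
      · intro a ha b hb
        exact hc' a ha.1 b hb.1
      · rintro x ⟨hx, hx2⟩
        obtain ⟨q, hq⟩ := exists_pt (hE' hx).1
        refine ⟨q, hq, testBit_preM _ _ ?_⟩
        rw [Nat.eq_of_beq_eq_true hmask]
        show ((mkT d.ru &&& fixW d.yw) ^^^ 2 ^ r).testBit q = true
        rw [Nat.testBit_xor, Nat.testBit_and, fixed_of_mem (hE' hx) hq, Nat.testBit_two_pow]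
        have hne : r ≠ q := by
          rintro rfl
          exact hx2 (Pq.inj hq hrP)
        have h3 : (mkT d.ru).testBit q = true := by
          rw [FixM_mk _ _ hq.lt]
          exact (comm_iff_fix hrP hq).1 (hc' _ h0 x hx).eq
        rw [h3, decide_eq_false hne]
        rfl
    have h3 : E'.ncard = (E' \ {tu d.ru}).ncard + 1 := by
      rw [Set.ncard_diff_singleton_add_one h0 hf']
    have : Nat.pred d.w = d.w - 1 := rfl
    omega
  -- conjugating to the root
  rcases E.eq_empty_or_nonempty with rfl | ⟨x, hx⟩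
  · simp
  obtain ⟨q, hq⟩ := exists_pt (hE hx).1
  obtain ⟨g, hg, hgr⟩ := hreach q (fixed_of_mem (hE hx) hq)
  have hinj : Function.Injective (fun z : Fi24 => g * z * g⁻¹) := by
    intro a b hab
    simpa using hab
  rw [← Set.ncard_image_of_injective E hinj]
  apply hroot'
  · rintro _ ⟨z, hz, rfl⟩
    refine ⟨?_, ?_⟩
    · obtain ⟨k, hk⟩ := mem_DD.mp (hE hz).1
      exact mem_DD.mpr ⟨g * k, by rw [← hk]; group⟩
    · exact (C.mul_mem (C.mul_mem hg (hE hz).2) (C.inv_mem hg) : g * z * g⁻¹ ∈ C)
  · exact hf.image _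
  · rintro _ ⟨y, hy, rfl⟩ _ ⟨z, hz, rfl⟩
    have := (hc y hy z hz).eq
    show g * y * g⁻¹ * (g * z * g⁻¹) = g * z * g⁻¹ * (g * y * g⁻¹)
    calc g * y * g⁻¹ * (g * z * g⁻¹) = g * (y * z) * g⁻¹ := by group
      _ = g * (z * y) * g⁻¹ := by rw [this]
      _ = g * z * g⁻¹ * (g * y * g⁻¹) := by group
  · refine ⟨x, hx, ?_⟩
    have h2 := hq.conj g
    rw [hgr] at h2
    exact Pq.inj h2 hrP

theorem upper (hU : d.chkU (fixW d.yw) = true) {E : Set Fi24} (hE : E ⊆ d.FF) (hf : E.Finite)
    (hc : ∀ a ∈ E, ∀ b ∈ E, Commute a b) : E.ncard ≤ d.w := by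
  cases hp : d.pin
  · exact upper_plain hU hp hE hf hc
  · exact upper_pin hU hp hE hf hc

theorem lower (hL : d.chkL (fixW d.yw) = true) : ∃ E : Set Fi24, E ⊆ d.FF ∧ E.Finite ∧ (∀ a ∈ E, ∀ b ∈ E, Commute a b) ∧
    E.ncard = d.w := by
  classical
  rw [chkL] at hL
  simp only [Bool.and_eq_true, List.all_eq_true, decide_eq_true_eq] at hL
  obtain ⟨⟨⟨h1, h2⟩, h3⟩, h4⟩ := hL
  have hinj : Set.InjOn tu {u | u ∈ d.cl} := by
    intro a ha b hb hab
    have h5 := Pq.uniq (hab ▸ Pq_tu a) (Pq_tu b)
    have h6 := List.inj_on_of_nodup_map h2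
    exact h6 ha hb h5
  refine ⟨tu '' {u | u ∈ d.cl}, ?_, (List.finite_toSet d.cl).image _, ?_, ?_⟩
  · rintro _ ⟨u, hu, rfl⟩
    refine ⟨tu_mem u, ?_⟩
    have h5 := h3 u hu
    rw [bitN_eq, fixW_spec d.yw _ (Pq_tu u).lt] at h5
    exact mem_cent_zp.mpr (comm_of_fix (Pq_tu u) h5)
  · rintro _ ⟨u, hu, rfl⟩ _ ⟨v, hv, rfl⟩
    have h5 := h4 u hu
    rw [wl_eq, List.all_eq_true] at h5
    have h6 := h5 v hv
    rw [bitN_eq, FixM_mk _ _ (Pq_tu v).lt] at h6
    exact (comm_iff_fix (Pq_tu u) (Pq_tu v)).2 h6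
  · rw [Set.ncard_image_of_injOn hinj]
    have hnd : d.cl.Nodup := List.Nodup.of_map _ h2
    have : {u | u ∈ d.cl} = (d.cl.toFinset : Set (List ℕ)) := by
      ext i
      simp
    rw [this, Set.ncard_coe_finset, List.toFinset_card_of_nodup hnd]
    exact Nat.eq_of_beq_eq_true h1

/-- The width of the transpositions commuting with `y`. -/
theorem width_eq (d : WD) (h : d.chk = true) :
    Cfsg.commutingWidth (DD ∩ (Subgroup.centralizer ((Subgroup.zpowers (ev genF d.yw) : Subgroup Fi24) : Set Fi24) : Set Fi24)) = d.w := by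
  obtain ⟨hU, hL⟩ := chk_parts h
  unfold Cfsg.commutingWidth
  apply IsGreatest.csSup_eq
  constructor
  · exact lower hL
  · rintro n ⟨E, h1, h2, h3, rfl⟩
    exact upper hU h1 h2 h3

end WD

end Cfsg.Agent.Lib.F3W
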