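/-
Fast kernel arithmetic for `14 × 14` matrices over a ring containing a root `ω` of `x² + x + 1` in
characteristic two: two planes of 196 bits packed in a natural number, product by three `F₂` products.
(The same scheme as `Lib/F4Mat`, in another size.)
-/
import Mathlib

set_option autoImplicit false

namespace Cfsg.Agent.Lib.F4Mat14

/-- `F₂`-valued bit, as an element of a ring. -/
def cb (F : Type*) [Zero F] [One F] (c k : ℕ) : F := if c.testBit k then 1 else 0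

/-- the bit as a number -/
def bitOf (x k : ℕ) : ℕ := (x >>> k) &&& 1

/-- the row as a number -/
def rowOf (y k : ℕ) : ℕ := (y >>> (14 * k)) &&& 16383

/-- row `i` of the product -/
def prow (x y i : ℕ) : ℕ :=
  (bitOf x (14 * i + 0) * rowOf y 0) ^^^ (bitOf x (14 * i + 1) * rowOf y 1) ^^^ (bitOf x (14 * i + 2) * rowOf y 2) ^^^ (bitOf x (14 * i + 3) * rowOf y 3) ^^^ (bitOf x (14 * i + 4) * rowOf y 4) ^^^ (bitOf x (14 * i + 5) * rowOf y 5) ^^^ (bitOf x (14 * i + 6) * rowOf y 6) ^^^ (bitOf x (14 * i + 7) * rowOf y 7) ^^^ (bitOf x (14 * i + 8) * rowOf y 8) ^^^ (bitOf x (14 * i + 9) * rowOf y 9) ^^^ (bitOf x (14 * i + 10) * rowOf y 10) ^^^ (bitOf x (14 * i + 11) * rowOf y 11) ^^^ (bitOf x (14 * i + 12) * rowOf y 12) ^^^ (bitOf x (14 * i + 13) * rowOf y 13)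

/-- the product of `F₂`-matrices (structured) -/
def mul2S (x y : ℕ) : ℕ :=
  prow x y 0 ||| (prow x y 1 <<< 14) ||| (prow x y 2 <<< 28) ||| (prow x y 3 <<< 42) ||| (prow x y 4 <<< 56) ||| (prow x y 5 <<< 70) ||| (prow x y 6 <<< 84) ||| (prow x y 7 <<< 98) ||| (prow x y 8 <<< 112) ||| (prow x y 9 <<< 126) ||| (prow x y 10 <<< 140) ||| (prow x y 11 <<< 154) ||| (prow x y 12 <<< 168) ||| (prow x y 13 <<< 182)

/-- the product of `F₂`-matrices (raw) -/
def mul2 (x y : ℕ) : ℕ := Nat.lor (Nat.lor (Nat.lor (Nat.lor (Nat.lor (Nat.lor (Nat.lor (Nat.lor (Nat.lor (Nat.lor (Nat.lor (Nat.lor (Nat.lor (Nat.xor (Nat.xor (Nat.xor (Nat.xor (Nat.xor (Nat.xor (Nat.xor (Nat.xor (Nat.xor (Nat.xor (Nat.xor (Nat.xor (Nat.xor (Nat.mul (Nat.land (Nat.shiftRight x (nat_lit 0)) (nat_lit 1)) (Nat.land (Nat.shiftRight y (nat_lit 0)) (nat_lit 16383))) (Nat.mul (Nat.land (Nat.shiftRight x (nat_lit 1)) (nat_lit 1)) (Nat.land (Nat.shiftRight y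 (nat_lit 14)) (nat_lit 16383)))) (Nat.mul (Nat.land (Nat.shiftRight x (nat_lit 2)) (nat_lit 1)) (Nat.land (Nat.shiftRight y (nat_lit 28)) (nat_lit 16383)))) (Nat.mul (Nat.land (Nat.shiftRight x (nat_lit 3)) (nat_lit 1)) (Nat.land (Nat.shiftRight y (nat_lit 42)) (nat_lit 16383)))) (Nat.mul (Nat.land (Nat.shiftRight x (nat_lit 4)) (nat_lit 1)) (Nat.land (Nat.shiftRight y (nat_lit 56)) (nat_lit 16383)))) (Nat.mul (Nat.land (Nat.shiftRight x (nat_lit 5)) (nat_lit 1)) (Nat.land (Nat.shiftRight y (nat_lit 70)) (nat_lit 16383)))) (Nat.mul (Nat.land (Nat.shiftRight x (nat_lit 6)) (nat_lit 1)) (Nat.land (Nat.shiftRight y (nat_lit 84)) (nat_lit 16383)))) (Nat.mul (Nat.land (Nat.shiftRight x (nat_lit 7)) (nat_lit 1)) (Nat.land (Nat.shiftRight y (nat_lit 98)) (nat_lit 16383)))) (Nat.mul (Nat.land (Nat.shiftRight x (nat_lit 8)) (nat_lit 1)) (Nat.land (Nat.shiftRight y (nat_lit 112)) (nat_lit 16383)))) (Nat.mul (Nat.land (Nat.shiftRight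 x (nat_lit 9)) (nat_lit 1)) (Nat.land (Nat.shiftRight y (nat_lit 126)) (nat_lit 16383)))) (Nat.mul (Nat.land (Nat.shiftRight x (nat_lit 10)) (nat_lit 1)) (Nat.land (Nat.shiftRight y (nat_lit 140)) (nat_lit 16383)))) (Nat.mul (Nat.land (Nat.shiftRight x (nat_lit 11)) (nat_lit 1)) (Nat.land (Nat.shiftRight y (nat_lit 154)) (nat_lit 16383)))) (Nat.mul (Nat.land (Nat.shiftRight x (nat_lit 12)) (nat_lit 1)) (Nat.land (Nat.shiftRight y (nat_lit 168)) (nat_lit 16383)))) (Nat.mul (Nat.land (Nat.shiftRight x (nat_lit 13)) (nat_lit 1)) (Nat.land (Nat.shiftRight y (nat_lit 182)) (nat_lit 16383)))) (Nat.shiftLeft (Nat.xor (Nat.xor (Nat.xor (Nat.xor (Nat.xor (Nat.xor (Nat.xor (Nat.xor (Nat.xor (Nat.xor (Nat.xor (Nat.xor (Nat.xor (Nat.mul (Nat.land (Nat.shiftRight x (nat_lit 14)) (nat_lit 1)) (Nat.land (Nat.shiftRight y (nat_lit 0)) (nat_lit 16383))) (Nat.mul (Nat.land (Nat.shiftRight x (nat_lit 15)) (nat_lit 1)) (Nat.land (Nat.shiftRight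 y (nat_lit 14)) (nat_lit 16383)))) (Nat.mul (Nat.land (Nat.shiftRight x (nat_lit 16)) (nat_lit 1)) (Nat.land (Nat.shiftRight y (nat_lit 28)) (nat_lit 16383)))) (Nat.mul (Nat.land (Nat.shiftRight x (nat_lit 17)) (nat_lit 1)) (Nat.land (Nat.shiftRight y (nat_lit 42)) (nat_lit 16383)))) (Nat.mul (Nat.land (Nat.shiftRight x (nat_lit 18)) (nat_lit 1)) (Nat.land (Nat.shiftRight y (nat_lit 56)) (nat_lit 16383)))) (Nat.mul (Nat.land (Nat.shiftRight x (nat_lit 19)) (nat_lit 1)) (Nat.land (Nat.shiftRight y (nat_lit 70)) (nat_lit 16383)))) (Nat.mul (Nat.land (Nat.shiftRight x (nat_lit 20)) (nat_lit 1)) (Nat.land (Nat.shiftRight y (nat_lit 84)) (nat_lit 16383)))) (Nat.mul (Nat.land (Nat.shiftRight x (nat_lit 21)) (nat_lit 1)) (Nat.land (Nat.shiftRight y (nat_lit 98)) (nat_lit 16383)))) (Nat.mul (Nat.land (Nat.shiftRight x (nat_lit 22)) (nat_lit 1)) (Nat.land (Nat.shiftRight y (nat_lit 112)) (nat_lit 16383)))) (Nat.mul (Nat.land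 (Nat.shiftRight x (nat_lit 23)) (nat_lit 1)) (Nat.land (Nat.shiftRight y (nat_lit 126)) (nat_lit 16383)))) (Nat.mul (Nat.land (Nat.shiftRight x (nat_lit 24)) (nat_lit 1)) (Nat.land (Nat.shiftRight y (nat_lit 140)) (nat_lit 16383)))) (Nat.mul (Nat.land (Nat.shiftRight x (nat_lit 25)) (nat_lit 1)) (Nat.land (Nat.shiftRight y (nat_lit 154)) (nat_lit 16383)))) (Nat.mul (Nat.land (Nat.shiftRight x (nat_lit 26)) (nat_lit 1)) (Nat.land (Nat.shiftRight y (nat_lit 168)) (nat_lit 16383)))) (Nat.mul (Nat.land (Nat.shiftRight x (nat_lit 27)) (nat_lit 1)) (Nat.land (Nat.shiftRight y (nat_lit 182)) (nat_lit 16383)))) (nat_lit 14))) (Nat.shiftLeft (Nat.xor (Nat.xor (Nat.xor (Nat.xor (Nat.xor (Nat.xor (Nat.xor (Nat.xor (Nat.xor (Nat.xor (Nat.xor (Nat.xor (Nat.xor (Nat.mul (Nat.land (Nat.shiftRight x (nat_lit 28)) (nat_lit 1)) (Nat.land (Nat.shiftRight y (nat_lit 0)) (nat_lit 16383))) (Nat.mul (Nat.land (Nat.shiftRight x (nat_lit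 29)) (nat_lit 1)) (Nat.land (Nat.shiftRight y (nat_lit 14)) (nat_lit 16383)))) (Nat.mul (Nat.land (Nat.shiftRight x (nat_lit 30)) (nat_lit 1)) (Nat.land (Nat.shiftRight y (nat_lit 28)) (nat_lit 16383)))) (Nat.mul (Nat.land (Nat.shiftRight x (nat_lit 31)) (nat_lit 1)) (Nat.land (Nat.shiftRight y (nat_lit 42)) (nat_lit 16383)))) (Nat.mul (Nat.land (Nat.shiftRight x (nat_lit 32)) (nat_lit 1)) (Nat.land (Nat.shiftRight y (nat_lit 56)) (nat_lit 16383)))) (Nat.mul (Nat.land (Nat.shiftRight x (nat_lit 33)) (nat_lit 1)) (Nat.land (Nat.shiftRight y (nat_lit 70)) (nat_lit 16383)))) (Nat.mul (Nat.land (Nat.shiftRight x (nat_lit 34)) (nat_lit 1)) (Nat.land (Nat.shiftRight y (nat_lit 84)) (nat_lit 16383)))) (Nat.mul (Nat.land (Nat.shiftRight x (nat_lit 35)) (nat_lit 1)) (Nat.land (Nat.shiftRight y (nat_lit 98)) (nat_lit 16383)))) (Nat.mul (Nat.land (Nat.shiftRight x (nat_lit 36)) (nat_lit 1)) (Nat.land (Nat.shiftRight y (nat_lit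 112)) (nat_lit 16383)))) (Nat.mul (Nat.land (Nat.shiftRight x (nat_lit 37)) (nat_lit 1)) (Nat.land (Nat.shiftRight y (nat_lit 126)) (nat_lit 16383)))) (Nat.mul (Nat.land (Nat.shiftRight x (nat_lit 38)) (nat_lit 1)) (Nat.land (Nat.shiftRight y (nat_lit 140)) (nat_lit 16383)))) (Nat.mul (Nat.land (Nat.shiftRight x (nat_lit 39)) (nat_lit 1)) (Nat.land (Nat.shiftRight y (nat_lit 154)) (nat_lit 16383)))) (Nat.mul (Nat.land (Nat.shiftRight x (nat_lit 40)) (nat_lit 1)) (Nat.land (Nat.shiftRight y (nat_lit 168)) (nat_lit 16383)))) (Nat.mul (Nat.land (Nat.shiftRight x (nat_lit 41)) (nat_lit 1)) (Nat.land (Nat.shiftRight y (nat_lit 182)) (nat_lit 16383)))) (nat_lit 28))) (Nat.shiftLeft (Nat.xor (Nat.xor (Nat.xor (Nat.xor (Nat.xor (Nat.xor (Nat.xor (Nat.xor (Nat.xor (Nat.xor (Nat.xor (Nat.xor (Nat.xor (Nat.mul (Nat.land (Nat.shiftRight x (nat_lit 42)) (nat_lit 1)) (Nat.land (Nat.shiftRight y (nat_lit 0)) (nat_lit 16383))) (Nat.mul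 (Nat.land (Nat.shiftRight x (nat_lit 43)) (nat_lit 1)) (Nat.land (Nat.shiftRight y (nat_lit 14)) (nat_lit 16383)))) (Nat.mul (Nat.land (Nat.shiftRight x (nat_lit 44)) (nat_lit 1)) (Nat.land (Nat.shiftRight y (nat_lit 28)) (nat_lit 16383)))) (Nat.mul (Nat.land (Nat.shiftRight x (nat_lit 45)) (nat_lit 1)) (Nat.land (Nat.shiftRight y (nat_lit 42)) (nat_lit 16383)))) (Nat.mul (Nat.land (Nat.shiftRight x (nat_lit 46)) (nat_lit 1)) (Nat.land (Nat.shiftRight y (nat_lit 56)) (nat_lit 16383)))) (Nat.mul (Nat.land (Nat.shiftRight x (nat_lit 47)) (nat_lit 1)) (Nat.land (Nat.shiftRight y (nat_lit 70)) (nat_lit 16383)))) (Nat.mul (Nat.land (Nat.shiftRight x (nat_lit 48)) (nat_lit 1)) (Nat.land (Nat.shiftRight y (nat_lit 84)) (nat_lit 16383)))) (Nat.mul (Nat.land (Nat.shiftRight x (nat_lit 49)) (nat_lit 1)) (Nat.land (Nat.shiftRight y (nat_lit 98)) (nat_lit 16383)))) (Nat.mul (Nat.land (Nat.shiftRight x (nat_lit 50)) (nat_lit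 1)) (Nat.land (Nat.shiftRight y (nat_lit 112)) (nat_lit 16383)))) (Nat.mul (Nat.land (Nat.shiftRight x (nat_lit 51)) (nat_lit 1)) (Nat.land (Nat.shiftRight y (nat_lit 126)) (nat_lit 16383)))) (Nat.mul (Nat.land (Nat.shiftRight x (nat_lit 52)) (nat_lit 1)) (Nat.land (Nat.shiftRight y (nat_lit 140)) (nat_lit 16383)))) (Nat.mul (Nat.land (Nat.shiftRight x (nat_lit 53)) (nat_lit 1)) (Nat.land (Nat.shiftRight y (nat_lit 154)) (nat_lit 16383)))) (Nat.mul (Nat.land (Nat.shiftRight x (nat_lit 54)) (nat_lit 1)) (Nat.land (Nat.shiftRight y (nat_lit 168)) (nat_lit 16383)))) (Nat.mul (Nat.land (Nat.shiftRight x (nat_lit 55)) (nat_lit 1)) (Nat.land (Nat.shiftRight y (nat_lit 182)) (nat_lit 16383)))) (nat_lit 42))) (Nat.shiftLeft (Nat.xor (Nat.xor (Nat.xor (Nat.xor (Nat.xor (Nat.xor (Nat.xor (Nat.xor (Nat.xor (Nat.xor (Nat.xor (Nat.xor (Nat.xor (Nat.mul (Nat.land (Nat.shiftRight x (nat_lit 56)) (nat_lit 1)) (Nat.land (Nat.shiftRight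 y (nat_lit 0)) (nat_lit 16383))) (Nat.mul (Nat.land (Nat.shiftRight x (nat_lit 57)) (nat_lit 1)) (Nat.land (Nat.shiftRight y (nat_lit 14)) (nat_lit 16383)))) (Nat.mul (Nat.land (Nat.shiftRight x (nat_lit 58)) (nat_lit 1)) (Nat.land (Nat.shiftRight y (nat_lit 28)) (nat_lit 16383)))) (Nat.mul (Nat.land (Nat.shiftRight x (nat_lit 59)) (nat_lit 1)) (Nat.land (Nat.shiftRight y (nat_lit 42)) (nat_lit 16383)))) (Nat.mul (Nat.land (Nat.shiftRight x (nat_lit 60)) (nat_lit 1)) (Nat.land (Nat.shiftRight y (nat_lit 56)) (nat_lit 16383)))) (Nat.mul (Nat.land (Nat.shiftRight x (nat_lit 61)) (nat_lit 1)) (Nat.land (Nat.shiftRight y (nat_lit 70)) (nat_lit 16383)))) (Nat.mul (Nat.land (Nat.shiftRight x (nat_lit 62)) (nat_lit 1)) (Nat.land (Nat.shiftRight y (nat_lit 84)) (nat_lit 16383)))) (Nat.mul (Nat.land (Nat.shiftRight x (nat_lit 63)) (nat_lit 1)) (Nat.land (Nat.shiftRight y (nat_lit 98)) (nat_lit 16383)))) (Nat.mul (Nat.land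 (Nat.shiftRight x (nat_lit 64)) (nat_lit 1)) (Nat.land (Nat.shiftRight y (nat_lit 112)) (nat_lit 16383)))) (Nat.mul (Nat.land (Nat.shiftRight x (nat_lit 65)) (nat_lit 1)) (Nat.land (Nat.shiftRight y (nat_lit 126)) (nat_lit 16383)))) (Nat.mul (Nat.land (Nat.shiftRight x (nat_lit 66)) (nat_lit 1)) (Nat.land (Nat.shiftRight y (nat_lit 140)) (nat_lit 16383)))) (Nat.mul (Nat.land (Nat.shiftRight x (nat_lit 67)) (nat_lit 1)) (Nat.land (Nat.shiftRight y (nat_lit 154)) (nat_lit 16383)))) (Nat.mul (Nat.land (Nat.shiftRight x (nat_lit 68)) (nat_lit 1)) (Nat.land (Nat.shiftRight y (nat_lit 168)) (nat_lit 16383)))) (Nat.mul (Nat.land (Nat.shiftRight x (nat_lit 69)) (nat_lit 1)) (Nat.land (Nat.shiftRight y (nat_lit 182)) (nat_lit 16383)))) (nat_lit 56))) (Nat.shiftLeft (Nat.xor (Nat.xor (Nat.xor (Nat.xor (Nat.xor (Nat.xor (Nat.xor (Nat.xor (Nat.xor (Nat.xor (Nat.xor (Nat.xor (Nat.xor (Nat.mul (Nat.land (Nat.shiftRight x (nat_lit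 70)) (nat_lit 1)) (Nat.land (Nat.shiftRight y (nat_lit 0)) (nat_lit 16383))) (Nat.mul (Nat.land (Nat.shiftRight x (nat_lit 71)) (nat_lit 1)) (Nat.land (Nat.shiftRight y (nat_lit 14)) (nat_lit 16383)))) (Nat.mul (Nat.land (Nat.shiftRight x (nat_lit 72)) (nat_lit 1)) (Nat.land (Nat.shiftRight y (nat_lit 28)) (nat_lit 16383)))) (Nat.mul (Nat.land (Nat.shiftRight x (nat_lit 73)) (nat_lit 1)) (Nat.land (Nat.shiftRight y (nat_lit 42)) (nat_lit 16383)))) (Nat.mul (Nat.land (Nat.shiftRight x (nat_lit 74)) (nat_lit 1)) (Nat.land (Nat.shiftRight y (nat_lit 56)) (nat_lit 16383)))) (Nat.mul (Nat.land (Nat.shiftRight x (nat_lit 75)) (nat_lit 1)) (Nat.land (Nat.shiftRight y (nat_lit 70)) (nat_lit 16383)))) (Nat.mul (Nat.land (Nat.shiftRight x (nat_lit 76)) (nat_lit 1)) (Nat.land (Nat.shiftRight y (nat_lit 84)) (nat_lit 16383)))) (Nat.mul (Nat.land (Nat.shiftRight x (nat_lit 77)) (nat_lit 1)) (Nat.land (Nat.shiftRight y (nat_lit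 98)) (nat_lit 16383)))) (Nat.mul (Nat.land (Nat.shiftRight x (nat_lit 78)) (nat_lit 1)) (Nat.land (Nat.shiftRight y (nat_lit 112)) (nat_lit 16383)))) (Nat.mul (Nat.land (Nat.shiftRight x (nat_lit 79)) (nat_lit 1)) (Nat.land (Nat.shiftRight y (nat_lit 126)) (nat_lit 16383)))) (Nat.mul (Nat.land (Nat.shiftRight x (nat_lit 80)) (nat_lit 1)) (Nat.land (Nat.shiftRight y (nat_lit 140)) (nat_lit 16383)))) (Nat.mul (Nat.land (Nat.shiftRight x (nat_lit 81)) (nat_lit 1)) (Nat.land (Nat.shiftRight y (nat_lit 154)) (nat_lit 16383)))) (Nat.mul (Nat.land (Nat.shiftRight x (nat_lit 82)) (nat_lit 1)) (Nat.land (Nat.shiftRight y (nat_lit 168)) (nat_lit 16383)))) (Nat.mul (Nat.land (Nat.shiftRight x (nat_lit 83)) (nat_lit 1)) (Nat.land (Nat.shiftRight y (nat_lit 182)) (nat_lit 16383)))) (nat_lit 70))) (Nat.shiftLeft (Nat.xor (Nat.xor (Nat.xor (Nat.xor (Nat.xor (Nat.xor (Nat.xor (Nat.xor (Nat.xor (Nat.xor (Nat.xor (Nat.xor (Nat.xor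 (Nat.mul (Nat.land (Nat.shiftRight x (nat_lit 84)) (nat_lit 1)) (Nat.land (Nat.shiftRight y (nat_lit 0)) (nat_lit 16383))) (Nat.mul (Nat.land (Nat.shiftRight x (nat_lit 85)) (nat_lit 1)) (Nat.land (Nat.shiftRight y (nat_lit 14)) (nat_lit 16383)))) (Nat.mul (Nat.land (Nat.shiftRight x (nat_lit 86)) (nat_lit 1)) (Nat.land (Nat.shiftRight y (nat_lit 28)) (nat_lit 16383)))) (Nat.mul (Nat.land (Nat.shiftRight x (nat_lit 87)) (nat_lit 1)) (Nat.land (Nat.shiftRight y (nat_lit 42)) (nat_lit 16383)))) (Nat.mul (Nat.land (Nat.shiftRight x (nat_lit 88)) (nat_lit 1)) (Nat.land (Nat.shiftRight y (nat_lit 56)) (nat_lit 16383)))) (Nat.mul (Nat.land (Nat.shiftRight x (nat_lit 89)) (nat_lit 1)) (Nat.land (Nat.shiftRight y (nat_lit 70)) (nat_lit 16383)))) (Nat.mul (Nat.land (Nat.shiftRight x (nat_lit 90)) (nat_lit 1)) (Nat.land (Nat.shiftRight y (nat_lit 84)) (nat_lit 16383)))) (Nat.mul (Nat.land (Nat.shiftRight x (nat_lit 91)) (nat_lit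 1)) (Nat.land (Nat.shiftRight y (nat_lit 98)) (nat_lit 16383)))) (Nat.mul (Nat.land (Nat.shiftRight x (nat_lit 92)) (nat_lit 1)) (Nat.land (Nat.shiftRight y (nat_lit 112)) (nat_lit 16383)))) (Nat.mul (Nat.land (Nat.shiftRight x (nat_lit 93)) (nat_lit 1)) (Nat.land (Nat.shiftRight y (nat_lit 126)) (nat_lit 16383)))) (Nat.mul (Nat.land (Nat.shiftRight x (nat_lit 94)) (nat_lit 1)) (Nat.land (Nat.shiftRight y (nat_lit 140)) (nat_lit 16383)))) (Nat.mul (Nat.land (Nat.shiftRight x (nat_lit 95)) (nat_lit 1)) (Nat.land (Nat.shiftRight y (nat_lit 154)) (nat_lit 16383)))) (Nat.mul (Nat.land (Nat.shiftRight x (nat_lit 96)) (nat_lit 1)) (Nat.land (Nat.shiftRight y (nat_lit 168)) (nat_lit 16383)))) (Nat.mul (Nat.land (Nat.shiftRight x (nat_lit 97)) (nat_lit 1)) (Nat.land (Nat.shiftRight y (nat_lit 182)) (nat_lit 16383)))) (nat_lit 84))) (Nat.shiftLeft (Nat.xor (Nat.xor (Nat.xor (Nat.xor (Nat.xor (Nat.xor (Nat.xor (Nat.xor (Nat.xor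 (Nat.xor (Nat.xor (Nat.xor (Nat.xor (Nat.mul (Nat.land (Nat.shiftRight x (nat_lit 98)) (nat_lit 1)) (Nat.land (Nat.shiftRight y (nat_lit 0)) (nat_lit 16383))) (Nat.mul (Nat.land (Nat.shiftRight x (nat_lit 99)) (nat_lit 1)) (Nat.land (Nat.shiftRight y (nat_lit 14)) (nat_lit 16383)))) (Nat.mul (Nat.land (Nat.shiftRight x (nat_lit 100)) (nat_lit 1)) (Nat.land (Nat.shiftRight y (nat_lit 28)) (nat_lit 16383)))) (Nat.mul (Nat.land (Nat.shiftRight x (nat_lit 101)) (nat_lit 1)) (Nat.land (Nat.shiftRight y (nat_lit 42)) (nat_lit 16383)))) (Nat.mul (Nat.land (Nat.shiftRight x (nat_lit 102)) (nat_lit 1)) (Nat.land (Nat.shiftRight y (nat_lit 56)) (nat_lit 16383)))) (Nat.mul (Nat.land (Nat.shiftRight x (nat_lit 103)) (nat_lit 1)) (Nat.land (Nat.shiftRight y (nat_lit 70)) (nat_lit 16383)))) (Nat.mul (Nat.land (Nat.shiftRight x (nat_lit 104)) (nat_lit 1)) (Nat.land (Nat.shiftRight y (nat_lit 84)) (nat_lit 16383)))) (Nat.mul (Nat.land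 (Nat.shiftRight x (nat_lit 105)) (nat_lit 1)) (Nat.land (Nat.shiftRight y (nat_lit 98)) (nat_lit 16383)))) (Nat.mul (Nat.land (Nat.shiftRight x (nat_lit 106)) (nat_lit 1)) (Nat.land (Nat.shiftRight y (nat_lit 112)) (nat_lit 16383)))) (Nat.mul (Nat.land (Nat.shiftRight x (nat_lit 107)) (nat_lit 1)) (Nat.land (Nat.shiftRight y (nat_lit 126)) (nat_lit 16383)))) (Nat.mul (Nat.land (Nat.shiftRight x (nat_lit 108)) (nat_lit 1)) (Nat.land (Nat.shiftRight y (nat_lit 140)) (nat_lit 16383)))) (Nat.mul (Nat.land (Nat.shiftRight x (nat_lit 109)) (nat_lit 1)) (Nat.land (Nat.shiftRight y (nat_lit 154)) (nat_lit 16383)))) (Nat.mul (Nat.land (Nat.shiftRight x (nat_lit 110)) (nat_lit 1)) (Nat.land (Nat.shiftRight y (nat_lit 168)) (nat_lit 16383)))) (Nat.mul (Nat.land (Nat.shiftRight x (nat_lit 111)) (nat_lit 1)) (Nat.land (Nat.shiftRight y (nat_lit 182)) (nat_lit 16383)))) (nat_lit 98))) (Nat.shiftLeft (Nat.xor (Nat.xor (Nat.xor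 (Nat.xor (Nat.xor (Nat.xor (Nat.xor (Nat.xor (Nat.xor (Nat.xor (Nat.xor (Nat.xor (Nat.xor (Nat.mul (Nat.land (Nat.shiftRight x (nat_lit 112)) (nat_lit 1)) (Nat.land (Nat.shiftRight y (nat_lit 0)) (nat_lit 16383))) (Nat.mul (Nat.land (Nat.shiftRight x (nat_lit 113)) (nat_lit 1)) (Nat.land (Nat.shiftRight y (nat_lit 14)) (nat_lit 16383)))) (Nat.mul (Nat.land (Nat.shiftRight x (nat_lit 114)) (nat_lit 1)) (Nat.land (Nat.shiftRight y (nat_lit 28)) (nat_lit 16383)))) (Nat.mul (Nat.land (Nat.shiftRight x (nat_lit 115)) (nat_lit 1)) (Nat.land (Nat.shiftRight y (nat_lit 42)) (nat_lit 16383)))) (Nat.mul (Nat.land (Nat.shiftRight x (nat_lit 116)) (nat_lit 1)) (Nat.land (Nat.shiftRight y (nat_lit 56)) (nat_lit 16383)))) (Nat.mul (Nat.land (Nat.shiftRight x (nat_lit 117)) (nat_lit 1)) (Nat.land (Nat.shiftRight y (nat_lit 70)) (nat_lit 16383)))) (Nat.mul (Nat.land (Nat.shiftRight x (nat_lit 118)) (nat_lit 1)) (Nat.land (Nat.shiftRight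 y (nat_lit 84)) (nat_lit 16383)))) (Nat.mul (Nat.land (Nat.shiftRight x (nat_lit 119)) (nat_lit 1)) (Nat.land (Nat.shiftRight y (nat_lit 98)) (nat_lit 16383)))) (Nat.mul (Nat.land (Nat.shiftRight x (nat_lit 120)) (nat_lit 1)) (Nat.land (Nat.shiftRight y (nat_lit 112)) (nat_lit 16383)))) (Nat.mul (Nat.land (Nat.shiftRight x (nat_lit 121)) (nat_lit 1)) (Nat.land (Nat.shiftRight y (nat_lit 126)) (nat_lit 16383)))) (Nat.mul (Nat.land (Nat.shiftRight x (nat_lit 122)) (nat_lit 1)) (Nat.land (Nat.shiftRight y (nat_lit 140)) (nat_lit 16383)))) (Nat.mul (Nat.land (Nat.shiftRight x (nat_lit 123)) (nat_lit 1)) (Nat.land (Nat.shiftRight y (nat_lit 154)) (nat_lit 16383)))) (Nat.mul (Nat.land (Nat.shiftRight x (nat_lit 124)) (nat_lit 1)) (Nat.land (Nat.shiftRight y (nat_lit 168)) (nat_lit 16383)))) (Nat.mul (Nat.land (Nat.shiftRight x (nat_lit 125)) (nat_lit 1)) (Nat.land (Nat.shiftRight y (nat_lit 182)) (nat_lit 16383)))) (nat_lit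 112))) (Nat.shiftLeft (Nat.xor (Nat.xor (Nat.xor (Nat.xor (Nat.xor (Nat.xor (Nat.xor (Nat.xor (Nat.xor (Nat.xor (Nat.xor (Nat.xor (Nat.xor (Nat.mul (Nat.land (Nat.shiftRight x (nat_lit 126)) (nat_lit 1)) (Nat.land (Nat.shiftRight y (nat_lit 0)) (nat_lit 16383))) (Nat.mul (Nat.land (Nat.shiftRight x (nat_lit 127)) (nat_lit 1)) (Nat.land (Nat.shiftRight y (nat_lit 14)) (nat_lit 16383)))) (Nat.mul (Nat.land (Nat.shiftRight x (nat_lit 128)) (nat_lit 1)) (Nat.land (Nat.shiftRight y (nat_lit 28)) (nat_lit 16383)))) (Nat.mul (Nat.land (Nat.shiftRight x (nat_lit 129)) (nat_lit 1)) (Nat.land (Nat.shiftRight y (nat_lit 42)) (nat_lit 16383)))) (Nat.mul (Nat.land (Nat.shiftRight x (nat_lit 130)) (nat_lit 1)) (Nat.land (Nat.shiftRight y (nat_lit 56)) (nat_lit 16383)))) (Nat.mul (Nat.land (Nat.shiftRight x (nat_lit 131)) (nat_lit 1)) (Nat.land (Nat.shiftRight y (nat_lit 70)) (nat_lit 16383)))) (Nat.mul (Nat.land (Nat.shiftRight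 x (nat_lit 132)) (nat_lit 1)) (Nat.land (Nat.shiftRight y (nat_lit 84)) (nat_lit 16383)))) (Nat.mul (Nat.land (Nat.shiftRight x (nat_lit 133)) (nat_lit 1)) (Nat.land (Nat.shiftRight y (nat_lit 98)) (nat_lit 16383)))) (Nat.mul (Nat.land (Nat.shiftRight x (nat_lit 134)) (nat_lit 1)) (Nat.land (Nat.shiftRight y (nat_lit 112)) (nat_lit 16383)))) (Nat.mul (Nat.land (Nat.shiftRight x (nat_lit 135)) (nat_lit 1)) (Nat.land (Nat.shiftRight y (nat_lit 126)) (nat_lit 16383)))) (Nat.mul (Nat.land (Nat.shiftRight x (nat_lit 136)) (nat_lit 1)) (Nat.land (Nat.shiftRight y (nat_lit 140)) (nat_lit 16383)))) (Nat.mul (Nat.land (Nat.shiftRight x (nat_lit 137)) (nat_lit 1)) (Nat.land (Nat.shiftRight y (nat_lit 154)) (nat_lit 16383)))) (Nat.mul (Nat.land (Nat.shiftRight x (nat_lit 138)) (nat_lit 1)) (Nat.land (Nat.shiftRight y (nat_lit 168)) (nat_lit 16383)))) (Nat.mul (Nat.land (Nat.shiftRight x (nat_lit 139)) (nat_lit 1)) (Nat.land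 (Nat.shiftRight y (nat_lit 182)) (nat_lit 16383)))) (nat_lit 126))) (Nat.shiftLeft (Nat.xor (Nat.xor (Nat.xor (Nat.xor (Nat.xor (Nat.xor (Nat.xor (Nat.xor (Nat.xor (Nat.xor (Nat.xor (Nat.xor (Nat.xor (Nat.mul (Nat.land (Nat.shiftRight x (nat_lit 140)) (nat_lit 1)) (Nat.land (Nat.shiftRight y (nat_lit 0)) (nat_lit 16383))) (Nat.mul (Nat.land (Nat.shiftRight x (nat_lit 141)) (nat_lit 1)) (Nat.land (Nat.shiftRight y (nat_lit 14)) (nat_lit 16383)))) (Nat.mul (Nat.land (Nat.shiftRight x (nat_lit 142)) (nat_lit 1)) (Nat.land (Nat.shiftRight y (nat_lit 28)) (nat_lit 16383)))) (Nat.mul (Nat.land (Nat.shiftRight x (nat_lit 143)) (nat_lit 1)) (Nat.land (Nat.shiftRight y (nat_lit 42)) (nat_lit 16383)))) (Nat.mul (Nat.land (Nat.shiftRight x (nat_lit 144)) (nat_lit 1)) (Nat.land (Nat.shiftRight y (nat_lit 56)) (nat_lit 16383)))) (Nat.mul (Nat.land (Nat.shiftRight x (nat_lit 145)) (nat_lit 1)) (Nat.land (Nat.shiftRight y (nat_lit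 70)) (nat_lit 16383)))) (Nat.mul (Nat.land (Nat.shiftRight x (nat_lit 146)) (nat_lit 1)) (Nat.land (Nat.shiftRight y (nat_lit 84)) (nat_lit 16383)))) (Nat.mul (Nat.land (Nat.shiftRight x (nat_lit 147)) (nat_lit 1)) (Nat.land (Nat.shiftRight y (nat_lit 98)) (nat_lit 16383)))) (Nat.mul (Nat.land (Nat.shiftRight x (nat_lit 148)) (nat_lit 1)) (Nat.land (Nat.shiftRight y (nat_lit 112)) (nat_lit 16383)))) (Nat.mul (Nat.land (Nat.shiftRight x (nat_lit 149)) (nat_lit 1)) (Nat.land (Nat.shiftRight y (nat_lit 126)) (nat_lit 16383)))) (Nat.mul (Nat.land (Nat.shiftRight x (nat_lit 150)) (nat_lit 1)) (Nat.land (Nat.shiftRight y (nat_lit 140)) (nat_lit 16383)))) (Nat.mul (Nat.land (Nat.shiftRight x (nat_lit 151)) (nat_lit 1)) (Nat.land (Nat.shiftRight y (nat_lit 154)) (nat_lit 16383)))) (Nat.mul (Nat.land (Nat.shiftRight x (nat_lit 152)) (nat_lit 1)) (Nat.land (Nat.shiftRight y (nat_lit 168)) (nat_lit 16383)))) (Nat.mul (Nat.land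 (Nat.shiftRight x (nat_lit 153)) (nat_lit 1)) (Nat.land (Nat.shiftRight y (nat_lit 182)) (nat_lit 16383)))) (nat_lit 140))) (Nat.shiftLeft (Nat.xor (Nat.xor (Nat.xor (Nat.xor (Nat.xor (Nat.xor (Nat.xor (Nat.xor (Nat.xor (Nat.xor (Nat.xor (Nat.xor (Nat.xor (Nat.mul (Nat.land (Nat.shiftRight x (nat_lit 154)) (nat_lit 1)) (Nat.land (Nat.shiftRight y (nat_lit 0)) (nat_lit 16383))) (Nat.mul (Nat.land (Nat.shiftRight x (nat_lit 155)) (nat_lit 1)) (Nat.land (Nat.shiftRight y (nat_lit 14)) (nat_lit 16383)))) (Nat.mul (Nat.land (Nat.shiftRight x (nat_lit 156)) (nat_lit 1)) (Nat.land (Nat.shiftRight y (nat_lit 28)) (nat_lit 16383)))) (Nat.mul (Nat.land (Nat.shiftRight x (nat_lit 157)) (nat_lit 1)) (Nat.land (Nat.shiftRight y (nat_lit 42)) (nat_lit 16383)))) (Nat.mul (Nat.land (Nat.shiftRight x (nat_lit 158)) (nat_lit 1)) (Nat.land (Nat.shiftRight y (nat_lit 56)) (nat_lit 16383)))) (Nat.mul (Nat.land (Nat.shiftRight x (nat_lit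 159)) (nat_lit 1)) (Nat.land (Nat.shiftRight y (nat_lit 70)) (nat_lit 16383)))) (Nat.mul (Nat.land (Nat.shiftRight x (nat_lit 160)) (nat_lit 1)) (Nat.land (Nat.shiftRight y (nat_lit 84)) (nat_lit 16383)))) (Nat.mul (Nat.land (Nat.shiftRight x (nat_lit 161)) (nat_lit 1)) (Nat.land (Nat.shiftRight y (nat_lit 98)) (nat_lit 16383)))) (Nat.mul (Nat.land (Nat.shiftRight x (nat_lit 162)) (nat_lit 1)) (Nat.land (Nat.shiftRight y (nat_lit 112)) (nat_lit 16383)))) (Nat.mul (Nat.land (Nat.shiftRight x (nat_lit 163)) (nat_lit 1)) (Nat.land (Nat.shiftRight y (nat_lit 126)) (nat_lit 16383)))) (Nat.mul (Nat.land (Nat.shiftRight x (nat_lit 164)) (nat_lit 1)) (Nat.land (Nat.shiftRight y (nat_lit 140)) (nat_lit 16383)))) (Nat.mul (Nat.land (Nat.shiftRight x (nat_lit 165)) (nat_lit 1)) (Nat.land (Nat.shiftRight y (nat_lit 154)) (nat_lit 16383)))) (Nat.mul (Nat.land (Nat.shiftRight x (nat_lit 166)) (nat_lit 1)) (Nat.land (Nat.shiftRight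 y (nat_lit 168)) (nat_lit 16383)))) (Nat.mul (Nat.land (Nat.shiftRight x (nat_lit 167)) (nat_lit 1)) (Nat.land (Nat.shiftRight y (nat_lit 182)) (nat_lit 16383)))) (nat_lit 154))) (Nat.shiftLeft (Nat.xor (Nat.xor (Nat.xor (Nat.xor (Nat.xor (Nat.xor (Nat.xor (Nat.xor (Nat.xor (Nat.xor (Nat.xor (Nat.xor (Nat.xor (Nat.mul (Nat.land (Nat.shiftRight x (nat_lit 168)) (nat_lit 1)) (Nat.land (Nat.shiftRight y (nat_lit 0)) (nat_lit 16383))) (Nat.mul (Nat.land (Nat.shiftRight x (nat_lit 169)) (nat_lit 1)) (Nat.land (Nat.shiftRight y (nat_lit 14)) (nat_lit 16383)))) (Nat.mul (Nat.land (Nat.shiftRight x (nat_lit 170)) (nat_lit 1)) (Nat.land (Nat.shiftRight y (nat_lit 28)) (nat_lit 16383)))) (Nat.mul (Nat.land (Nat.shiftRight x (nat_lit 171)) (nat_lit 1)) (Nat.land (Nat.shiftRight y (nat_lit 42)) (nat_lit 16383)))) (Nat.mul (Nat.land (Nat.shiftRight x (nat_lit 172)) (nat_lit 1)) (Nat.land (Nat.shiftRight y (nat_lit 56)) (nat_lit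 16383)))) (Nat.mul (Nat.land (Nat.shiftRight x (nat_lit 173)) (nat_lit 1)) (Nat.land (Nat.shiftRight y (nat_lit 70)) (nat_lit 16383)))) (Nat.mul (Nat.land (Nat.shiftRight x (nat_lit 174)) (nat_lit 1)) (Nat.land (Nat.shiftRight y (nat_lit 84)) (nat_lit 16383)))) (Nat.mul (Nat.land (Nat.shiftRight x (nat_lit 175)) (nat_lit 1)) (Nat.land (Nat.shiftRight y (nat_lit 98)) (nat_lit 16383)))) (Nat.mul (Nat.land (Nat.shiftRight x (nat_lit 176)) (nat_lit 1)) (Nat.land (Nat.shiftRight y (nat_lit 112)) (nat_lit 16383)))) (Nat.mul (Nat.land (Nat.shiftRight x (nat_lit 177)) (nat_lit 1)) (Nat.land (Nat.shiftRight y (nat_lit 126)) (nat_lit 16383)))) (Nat.mul (Nat.land (Nat.shiftRight x (nat_lit 178)) (nat_lit 1)) (Nat.land (Nat.shiftRight y (nat_lit 140)) (nat_lit 16383)))) (Nat.mul (Nat.land (Nat.shiftRight x (nat_lit 179)) (nat_lit 1)) (Nat.land (Nat.shiftRight y (nat_lit 154)) (nat_lit 16383)))) (Nat.mul (Nat.land (Nat.shiftRight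 x (nat_lit 180)) (nat_lit 1)) (Nat.land (Nat.shiftRight y (nat_lit 168)) (nat_lit 16383)))) (Nat.mul (Nat.land (Nat.shiftRight x (nat_lit 181)) (nat_lit 1)) (Nat.land (Nat.shiftRight y (nat_lit 182)) (nat_lit 16383)))) (nat_lit 168))) (Nat.shiftLeft (Nat.xor (Nat.xor (Nat.xor (Nat.xor (Nat.xor (Nat.xor (Nat.xor (Nat.xor (Nat.xor (Nat.xor (Nat.xor (Nat.xor (Nat.xor (Nat.mul (Nat.land (Nat.shiftRight x (nat_lit 182)) (nat_lit 1)) (Nat.land (Nat.shiftRight y (nat_lit 0)) (nat_lit 16383))) (Nat.mul (Nat.land (Nat.shiftRight x (nat_lit 183)) (nat_lit 1)) (Nat.land (Nat.shiftRight y (nat_lit 14)) (nat_lit 16383)))) (Nat.mul (Nat.land (Nat.shiftRight x (nat_lit 184)) (nat_lit 1)) (Nat.land (Nat.shiftRight y (nat_lit 28)) (nat_lit 16383)))) (Nat.mul (Nat.land (Nat.shiftRight x (nat_lit 185)) (nat_lit 1)) (Nat.land (Nat.shiftRight y (nat_lit 42)) (nat_lit 16383)))) (Nat.mul (Nat.land (Nat.shiftRight x (nat_lit 186)) (nat_lit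 1)) (Nat.land (Nat.shiftRight y (nat_lit 56)) (nat_lit 16383)))) (Nat.mul (Nat.land (Nat.shiftRight x (nat_lit 187)) (nat_lit 1)) (Nat.land (Nat.shiftRight y (nat_lit 70)) (nat_lit 16383)))) (Nat.mul (Nat.land (Nat.shiftRight x (nat_lit 188)) (nat_lit 1)) (Nat.land (Nat.shiftRight y (nat_lit 84)) (nat_lit 16383)))) (Nat.mul (Nat.land (Nat.shiftRight x (nat_lit 189)) (nat_lit 1)) (Nat.land (Nat.shiftRight y (nat_lit 98)) (nat_lit 16383)))) (Nat.mul (Nat.land (Nat.shiftRight x (nat_lit 190)) (nat_lit 1)) (Nat.land (Nat.shiftRight y (nat_lit 112)) (nat_lit 16383)))) (Nat.mul (Nat.land (Nat.shiftRight x (nat_lit 191)) (nat_lit 1)) (Nat.land (Nat.shiftRight y (nat_lit 126)) (nat_lit 16383)))) (Nat.mul (Nat.land (Nat.shiftRight x (nat_lit 192)) (nat_lit 1)) (Nat.land (Nat.shiftRight y (nat_lit 140)) (nat_lit 16383)))) (Nat.mul (Nat.land (Nat.shiftRight x (nat_lit 193)) (nat_lit 1)) (Nat.land (Nat.shiftRight y (nat_lit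 154)) (nat_lit 16383)))) (Nat.mul (Nat.land (Nat.shiftRight x (nat_lit 194)) (nat_lit 1)) (Nat.land (Nat.shiftRight y (nat_lit 168)) (nat_lit 16383)))) (Nat.mul (Nat.land (Nat.shiftRight x (nat_lit 195)) (nat_lit 1)) (Nat.land (Nat.shiftRight y (nat_lit 182)) (nat_lit 16383)))) (nat_lit 182))

theorem mul2_eq (x y : ℕ) : mul2 x y = mul2S x y := rfl

/-- the mask of the low plane -/
def maskP : ℕ := (nat_lit 100433627766186892221372630771322662657637687111424552206335)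

/-- The product of packed matrices. -/
def mulC (a b : ℕ) : ℕ :=
  Nat.lor (Nat.xor (mul2 (Nat.land a maskP) (Nat.land b maskP)) (mul2 (Nat.shiftRight a (nat_lit 196)) (Nat.shiftRight b (nat_lit 196))))
    (Nat.shiftLeft (Nat.xor
      (mul2 (Nat.xor (Nat.land a maskP) (Nat.shiftRight a (nat_lit 196))) (Nat.xor (Nat.land b maskP) (Nat.shiftRight b (nat_lit 196))))
      (mul2 (Nat.land a maskP) (Nat.land b maskP))) (nat_lit 196))

/-! ### Soundness -/

section sound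

variable {F : Type*} [CommRing F]

theorem cb_xor (h2 : (2 : F) = 0) (u v k : ℕ) : cb F (u ^^^ v) k = cb F u k + cb F v k := by
  unfold cb
  rw [Nat.testBit_xor]
  have h11 : (1 : F) + 1 = 0 := by rw [← one_add_one_eq_two] at h2; exact h2
  cases u.testBit k <;> cases v.testBit k <;> simp [h11]

theorem bitOf_eq (x k : ℕ) : bitOf x k = if x.testBit k then 1 else 0 := by
  unfold bitOf
  rw [Nat.and_one_is_mod, Nat.shiftRight_eq_div_pow, Nat.testBit_eq_decide_div_mod_eq]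
  have : x / 2 ^ k % 2 = 0 ∨ x / 2 ^ k % 2 = 1 := Nat.mod_two_eq_zero_or_one _
  rcases this with h | h <;> simp [h]

theorem testBit_rowOf (y k j : ℕ) (hj : j < 14) : (rowOf y k).testBit j = y.testBit (14 * k + j) := by
  unfold rowOf
  rw [Nat.testBit_and, Nat.testBit_shiftRight]
  have : (16383 : ℕ).testBit j = true := by
    interval_cases j <;> decide
  rw [this, Bool.and_true]

theorem cb_term (x y k l j : ℕ) (hj : j < 14) :
    cb F (bitOf x k * rowOf y l) j = cb F x k * cb F y (14 * l + j) := by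
  rw [bitOf_eq]
  unfold cb
  by_cases h : x.testBit k
  · simp [h, testBit_rowOf y l j hj]
  · simp [h]

theorem cb_prow (h2 : (2 : F) = 0) (x y i j : ℕ) (hj : j < 14) :
    cb F (prow x y i) j = ∑ k : Fin 14, cb F x (14 * i + k) * cb F y (14 * k + j) := by
  unfold prow
  simp only [cb_xor h2, cb_term _ _ _ _ j hj, Fin.sum_univ_succ, Fin.sum_univ_zero]
  simp [Fin.succ]
  ring

theorem prow_lt (x y i : ℕ) : prow x y i < 2 ^ 14 := by
  have hr : ∀ l, rowOf y l < 2 ^ 14 := by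
    intro l
    unfold rowOf
    exact lt_of_le_of_lt Nat.and_le_right (by norm_num)
  have ht : ∀ k l, bitOf x k * rowOf y l < 2 ^ 14 := by
    intro k l
    rw [bitOf_eq]
    split_ifs
    · simpa using hr l
    · simp
  unfold prow
  repeat' apply Nat.xor_lt_two_pow
  all_goals exact ht _ _

theorem testBit_shift_row (r s i j : ℕ) (hr : r < 2 ^ 14) (hj : j < 14) :
    (r <<< (14 * s)).testBit (14 * i + j) = (decide (s = i) && r.testBit j) := by
  rw [Nat.testBit_shiftLeft]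
  by_cases hs : s = i
  · subst hs
    simp
  · simp only [hs, decide_false, Bool.false_and]
    by_cases hlt : s < i
    · have h1 : 14 * s ≤ 14 * i + j := by omega
      have h2 : 14 ≤ 14 * i + j - 14 * s := by omega
      have h3 : r.testBit (14 * i + j - 14 * s) = false := by
        apply Nat.testBit_lt_two_pow
        exact lt_of_lt_of_le hr (Nat.pow_le_pow_right (by norm_num) h2)
      simp [h3]
    · have h1 : ¬ 14 * s ≤ 14 * i + j := by omega
      simp [h1]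

theorem testBit_mul2 (x y i j : ℕ) (hi : i < 14) (hj : j < 14) :
    (mul2 x y).testBit (14 * i + j) = (prow x y i).testBit j := by
  rw [mul2_eq]
  unfold mul2S
  simp only [Nat.testBit_or]
  have h0 : (prow x y 0).testBit (14 * i + j) = (decide (0 = i) && (prow x y 0).testBit j) := by
    have := testBit_shift_row (prow x y 0) 0 i j (prow_lt _ _ _) hj
    simpa using this
  rw [h0]
  have h1 : (prow x y 1 <<< 14).testBit (14 * i + j) = (decide (1 = i) && (prow x y 1).testBit j) :=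
    testBit_shift_row _ 1 i j (prow_lt _ _ _) hj
  have h2 : (prow x y 2 <<< 28).testBit (14 * i + j) = (decide (2 = i) && (prow x y 2).testBit j) :=
    testBit_shift_row _ 2 i j (prow_lt _ _ _) hj
  have h3 : (prow x y 3 <<< 42).testBit (14 * i + j) = (decide (3 = i) && (prow x y 3).testBit j) :=
    testBit_shift_row _ 3 i j (prow_lt _ _ _) hj
  have h4 : (prow x y 4 <<< 56).testBit (14 * i + j) = (decide (4 = i) && (prow x y 4).testBit j) :=
    testBit_shift_row _ 4 i j (prow_lt _ _ _) hj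
  have h5 : (prow x y 5 <<< 70).testBit (14 * i + j) = (decide (5 = i) && (prow x y 5).testBit j) :=
    testBit_shift_row _ 5 i j (prow_lt _ _ _) hj
  have h6 : (prow x y 6 <<< 84).testBit (14 * i + j) = (decide (6 = i) && (prow x y 6).testBit j) :=
    testBit_shift_row _ 6 i j (prow_lt _ _ _) hj
  have h7 : (prow x y 7 <<< 98).testBit (14 * i + j) = (decide (7 = i) && (prow x y 7).testBit j) :=
    testBit_shift_row _ 7 i j (prow_lt _ _ _) hj
  have h8 : (prow x y 8 <<< 112).testBit (14 * i + j) = (decide (8 = i) && (prow x y 8).testBit j) :=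
    testBit_shift_row _ 8 i j (prow_lt _ _ _) hj
  have h9 : (prow x y 9 <<< 126).testBit (14 * i + j) = (decide (9 = i) && (prow x y 9).testBit j) :=
    testBit_shift_row _ 9 i j (prow_lt _ _ _) hj
  have h10 : (prow x y 10 <<< 140).testBit (14 * i + j) = (decide (10 = i) && (prow x y 10).testBit j) :=
    testBit_shift_row _ 10 i j (prow_lt _ _ _) hj
  have h11 : (prow x y 11 <<< 154).testBit (14 * i + j) = (decide (11 = i) && (prow x y 11).testBit j) :=
    testBit_shift_row _ 11 i j (prow_lt _ _ _) hj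
  have h12 : (prow x y 12 <<< 168).testBit (14 * i + j) = (decide (12 = i) && (prow x y 12).testBit j) :=
    testBit_shift_row _ 12 i j (prow_lt _ _ _) hj
  have h13 : (prow x y 13 <<< 182).testBit (14 * i + j) = (decide (13 = i) && (prow x y 13).testBit j) :=
    testBit_shift_row _ 13 i j (prow_lt _ _ _) hj
  rw [h1, h2, h3, h4, h5, h6, h7, h8, h9, h10, h11, h12, h13]
  interval_cases i <;> simp

theorem cb_mul2 (h2 : (2 : F) = 0) (x y i j : ℕ) (hi : i < 14) (hj : j < 14) :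
    cb F (mul2 x y) (14 * i + j) = ∑ k : Fin 14, cb F x (14 * i + k) * cb F y (14 * k + j) := by
  rw [← cb_prow h2 x y i j hj]
  unfold cb
  rw [testBit_mul2 x y i j hi hj]

theorem mul2_lt (x y : ℕ) : mul2 x y < 2 ^ 196 := by
  rw [mul2_eq]
  unfold mul2S
  have hs : ∀ s t, s ≤ 13 → t = 14 * s → prow x y s <<< t < 2 ^ 196 := by
    intro s t hs ht
    subst ht
    rw [Nat.shiftLeft_eq]
    calc prow x y s * 2 ^ (14 * s) < 2 ^ 14 * 2 ^ (14 * s) :=
          Nat.mul_lt_mul_of_pos_right (prow_lt _ _ _) (by positivity)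
      _ = 2 ^ (14 + 14 * s) := (pow_add _ _ _).symm
      _ ≤ 2 ^ 196 := Nat.pow_le_pow_right (by norm_num) (by omega)
  have h0 : prow x y 0 < 2 ^ 196 := lt_of_lt_of_le (prow_lt _ _ _) (by norm_num)
  have h1 := hs 1 14 (by norm_num) rfl
  have h2 := hs 2 28 (by norm_num) rfl
  have h3 := hs 3 42 (by norm_num) rfl
  have h4 := hs 4 56 (by norm_num) rfl
  have h5 := hs 5 70 (by norm_num) rfl
  have h6 := hs 6 84 (by norm_num) rfl
  have h7 := hs 7 98 (by norm_num) rfl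
  have h8 := hs 8 112 (by norm_num) rfl
  have h9 := hs 9 126 (by norm_num) rfl
  have h10 := hs 10 140 (by norm_num) rfl
  have h11 := hs 11 154 (by norm_num) rfl
  have h12 := hs 12 168 (by norm_num) rfl
  have h13 := hs 13 182 (by norm_num) rfl
  exact Nat.or_lt_two_pow (Nat.or_lt_two_pow (Nat.or_lt_two_pow (Nat.or_lt_two_pow (Nat.or_lt_two_pow (Nat.or_lt_two_pow (Nat.or_lt_two_pow (Nat.or_lt_two_pow (Nat.or_lt_two_pow (Nat.or_lt_two_pow (Nat.or_lt_two_pow (Nat.or_lt_two_pow (Nat.or_lt_two_pow h0 h1) h2) h3) h4) h5) h6) h7) h8) h9) h10) h11) h12) h13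

theorem maskP_eq : maskP = 2 ^ 196 - 1 := by decide +kernel

theorem testBit_lo (a k : ℕ) (hk : k < 196) : (a &&& maskP).testBit k = a.testBit k := by
  rw [Nat.testBit_and, maskP_eq, Nat.testBit_two_pow_sub_one]
  simp [hk]

theorem testBit_hi (a k : ℕ) : (a >>> 196).testBit k = a.testBit (196 + k) := by
  rw [Nat.testBit_shiftRight]

/-- The matrix coded by `c`. -/
def dec (ω : F) (c : ℕ) : Matrix (Fin 14) (Fin 14) F :=
  fun i j => cb F c (14 * i + j) + cb F c (196 + (14 * i + j)) * ω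

theorem idx_lt (i j : Fin 14) : 14 * i.val + j.val < 196 := by
  have := i.2
  have := j.2
  omega

/-- The raw form of the product -/
theorem mulC_eq (a b : ℕ) : mulC a b =
    ((mul2 (a &&& maskP) (b &&& maskP) ^^^ mul2 (a >>> 196) (b >>> 196)) |||
      ((mul2 ((a &&& maskP) ^^^ (a >>> 196)) ((b &&& maskP) ^^^ (b >>> 196)) ^^^ mul2 (a &&& maskP) (b &&& maskP)) <<< 196)) := rfl

theorem testBit_mulC_lo (a b k : ℕ) (hk : k < 196) :
    (mulC a b).testBit k =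
      (mul2 (a &&& maskP) (b &&& maskP) ^^^ mul2 (a >>> 196) (b >>> 196)).testBit k := by
  rw [mulC_eq, Nat.testBit_or, Nat.testBit_shiftLeft]
  simp [show ¬ 196 ≤ k by omega]

theorem testBit_mulC_hi (a b k : ℕ) :
    (mulC a b).testBit (196 + k) =
      (mul2 ((a &&& maskP) ^^^ (a >>> 196)) ((b &&& maskP) ^^^ (b >>> 196)) ^^^ mul2 (a &&& maskP) (b &&& maskP)).testBit k := by
  rw [mulC_eq, Nat.testBit_or, Nat.testBit_shiftLeft]
  have h : (mul2 (a &&& maskP) (b &&& maskP) ^^^ mul2 (a >>> 196) (b >>> 196)).testBit (196 + k) = false := by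
    apply Nat.testBit_lt_two_pow
    exact lt_of_lt_of_le (Nat.xor_lt_two_pow (mul2_lt _ _) (mul2_lt _ _)) (Nat.pow_le_pow_right (by norm_num) (by omega))
  rw [h]
  simp

/-- `dec` is multiplicative. -/
theorem dec_mulC (ω : F) (h2 : (2 : F) = 0) (hw : ω * ω = ω + 1) (a b : ℕ) :
    dec ω (mulC a b) = dec ω a * dec ω b := by
  ext i j
  rw [Matrix.mul_apply]
  have hij := idx_lt i j
  have hcbik : ∀ (c : ℕ) (k : Fin 14), cb F (c &&& maskP) (14 * i.val + k.val) = cb F c (14 * i.val + k.val) := by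
    intro c k
    unfold cb
    rw [testBit_lo _ _ (idx_lt i k)]
  have hcbkj : ∀ (c : ℕ) (k : Fin 14), cb F (c &&& maskP) (14 * k.val + j.val) = cb F c (14 * k.val + j.val) := by
    intro c k
    unfold cb
    rw [testBit_lo _ _ (idx_lt k j)]
  have hhi : ∀ (c m : ℕ), cb F (c >>> 196) m = cb F c (196 + m) := by
    intro c m
    unfold cb
    rw [testBit_hi]
  have e1 : cb F (mulC a b) (14 * i.val + j.val) =
      ∑ k : Fin 14, (cb F a (14 * i.val + k.val) * cb F b (14 * k.val + j.val) +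
        cb F a (196 + (14 * i.val + k.val)) * cb F b (196 + (14 * k.val + j.val))) := by
    have : cb F (mulC a b) (14 * i.val + j.val) =
        cb F (mul2 (a &&& maskP) (b &&& maskP) ^^^ mul2 (a >>> 196) (b >>> 196)) (14 * i.val + j.val) := by
      unfold cb
      rw [testBit_mulC_lo _ _ _ hij]
    rw [this, cb_xor h2, cb_mul2 h2 _ _ _ _ i.2 j.2, cb_mul2 h2 _ _ _ _ i.2 j.2, ← Finset.sum_add_distrib]
    apply Finset.sum_congr rfl
    intro k _
    rw [hcbik, hcbkj, hhi, hhi]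
  have e2 : cb F (mulC a b) (196 + (14 * i.val + j.val)) =
      ∑ k : Fin 14, (cb F a (14 * i.val + k.val) * cb F b (196 + (14 * k.val + j.val)) +
        cb F a (196 + (14 * i.val + k.val)) * cb F b (14 * k.val + j.val) +
        cb F a (196 + (14 * i.val + k.val)) * cb F b (196 + (14 * k.val + j.val))) := by
    have : cb F (mulC a b) (196 + (14 * i.val + j.val)) =
        cb F (mul2 ((a &&& maskP) ^^^ (a >>> 196)) ((b &&& maskP) ^^^ (b >>> 196)) ^^^ mul2 (a &&& maskP) (b &&& maskP))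
          (14 * i.val + j.val) := by
      unfold cb
      rw [testBit_mulC_hi]
    rw [this, cb_xor h2, cb_mul2 h2 _ _ _ _ i.2 j.2, cb_mul2 h2 _ _ _ _ i.2 j.2, ← Finset.sum_add_distrib]
    apply Finset.sum_congr rfl
    intro k _
    rw [cb_xor h2, cb_xor h2, hcbik, hcbkj, hhi, hhi]
    have h11 : (2 : F) = 0 := h2
    linear_combination (cb F a (14 * i.val + k.val) * cb F b (14 * k.val + j.val)) * h11
  show cb F (mulC a b) (14 * i.val + j.val) + cb F (mulC a b) (196 + (14 * i.val + j.val)) * ω = _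
  rw [e1, e2, Finset.sum_mul, ← Finset.sum_add_distrib]
  apply Finset.sum_congr rfl
  intro k _
  show _ = (cb F a (14 * i.val + k.val) + cb F a (196 + (14 * i.val + k.val)) * ω) *
    (cb F b (14 * k.val + j.val) + cb F b (196 + (14 * k.val + j.val)) * ω)
  linear_combination (-(cb F a (196 + (14 * i.val + k.val)) * cb F b (196 + (14 * k.val + j.val)))) * hw

end sound

end Cfsg.Agent.Lib.F4Mat14
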