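/-
Fast kernel arithmetic for `8 × 8` matrices over a ring containing a root `ω` of `x² + x + 1` in
characteristic two: two planes of 64 bits packed in a natural number, product by three `F₂` products.
(The same scheme as `Lib/F4Mat`, in another size.)
-/
import Mathlib

set_option autoImplicit false

namespace Cfsg.Agent.Lib.F4Mat8

/-- `F₂`-valued bit, as an element of a ring. -/
def cb (F : Type*) [Zero F] [One F] (c k : ℕ) : F := if c.testBit k then 1 else 0

/-- the bit as a number -/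
def bitOf (x k : ℕ) : ℕ := (x >>> k) &&& 1

/-- the row as a number -/
def rowOf (y k : ℕ) : ℕ := (y >>> (8 * k)) &&& 255

/-- row `i` of the product -/
def prow (x y i : ℕ) : ℕ :=
  (bitOf x (8 * i + 0) * rowOf y 0) ^^^ (bitOf x (8 * i + 1) * rowOf y 1) ^^^ (bitOf x (8 * i + 2) * rowOf y 2) ^^^ (bitOf x (8 * i + 3) * rowOf y 3) ^^^ (bitOf x (8 * i + 4) * rowOf y 4) ^^^ (bitOf x (8 * i + 5) * rowOf y 5) ^^^ (bitOf x (8 * i + 6) * rowOf y 6) ^^^ (bitOf x (8 * i + 7) * rowOf y 7)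

/-- the product of `F₂`-matrices (structured) -/
def mul2S (x y : ℕ) : ℕ :=
  prow x y 0 ||| (prow x y 1 <<< 8) ||| (prow x y 2 <<< 16) ||| (prow x y 3 <<< 24) ||| (prow x y 4 <<< 32) ||| (prow x y 5 <<< 40) ||| (prow x y 6 <<< 48) ||| (prow x y 7 <<< 56)

/-- the product of `F₂`-matrices (raw) -/
def mul2 (x y : ℕ) : ℕ := Nat.lor (Nat.lor (Nat.lor (Nat.lor (Nat.lor (Nat.lor (Nat.lor (Nat.xor (Nat.xor (Nat.xor (Nat.xor (Nat.xor (Nat.xor (Nat.xor (Nat.mul (Nat.land (Nat.shiftRight x (nat_lit 0)) (nat_lit 1)) (Nat.land (Nat.shiftRight y (nat_lit 0)) (nat_lit 255))) (Nat.mul (Nat.land (Nat.shiftRight x (nat_lit 1)) (nat_lit 1)) (Nat.land (Nat.shiftRight y (nat_lit 8)) (nat_lit 255)))) (Nat.mul (Nat.land (Nat.shiftRight x (nat_lit 2)) (nat_lit 1)) (Nat.land (Nat.shiftRight y (nat_lit 16)) (nat_lit 255)))) (Nat.mul (Nat.land (Nat.shiftRight x (nat_lit 3)) (nat_lit 1)) (Nat.land (Nat.shiftRight y (nat_lit 24)) (nat_lit 255))))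 (Nat.mul (Nat.land (Nat.shiftRight x (nat_lit 4)) (nat_lit 1)) (Nat.land (Nat.shiftRight y (nat_lit 32)) (nat_lit 255)))) (Nat.mul (Nat.land (Nat.shiftRight x (nat_lit 5)) (nat_lit 1)) (Nat.land (Nat.shiftRight y (nat_lit 40)) (nat_lit 255)))) (Nat.mul (Nat.land (Nat.shiftRight x (nat_lit 6)) (nat_lit 1)) (Nat.land (Nat.shiftRight y (nat_lit 48)) (nat_lit 255)))) (Nat.mul (Nat.land (Nat.shiftRight x (nat_lit 7)) (nat_lit 1)) (Nat.land (Nat.shiftRight y (nat_lit 56)) (nat_lit 255)))) (Nat.shiftLeft (Nat.xor (Nat.xor (Nat.xor (Nat.xor (Nat.xor (Nat.xor (Nat.xor (Nat.mul (Nat.land (Nat.shiftRight x (nat_lit 8)) (nat_lit 1)) (Nat.land (Nat.shiftRight y (nat_lit 0)) (nat_lit 255))) (Nat.mul (Nat.land (Nat.shiftRight x (nat_lit 9)) (nat_lit 1)) (Nat.land (Nat.shiftRight y (nat_lit 8)) (nat_lit 255)))) (Nat.mul (Nat.land (Nat.shiftRight x (nat_lit 10)) (nat_lit 1)) (Nat.land (Nat.shiftRight y (nat_lit 16)) (nat_lit 255)))) (Nat.mul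 (Nat.land (Nat.shiftRight x (nat_lit 11)) (nat_lit 1)) (Nat.land (Nat.shiftRight y (nat_lit 24)) (nat_lit 255)))) (Nat.mul (Nat.land (Nat.shiftRight x (nat_lit 12)) (nat_lit 1)) (Nat.land (Nat.shiftRight y (nat_lit 32)) (nat_lit 255)))) (Nat.mul (Nat.land (Nat.shiftRight x (nat_lit 13)) (nat_lit 1)) (Nat.land (Nat.shiftRight y (nat_lit 40)) (nat_lit 255)))) (Nat.mul (Nat.land (Nat.shiftRight x (nat_lit 14)) (nat_lit 1)) (Nat.land (Nat.shiftRight y (nat_lit 48)) (nat_lit 255)))) (Nat.mul (Nat.land (Nat.shiftRight x (nat_lit 15)) (nat_lit 1)) (Nat.land (Nat.shiftRight y (nat_lit 56)) (nat_lit 255)))) (nat_lit 8))) (Nat.shiftLeft (Nat.xor (Nat.xor (Nat.xor (Nat.xor (Nat.xor (Nat.xor (Nat.xor (Nat.mul (Nat.land (Nat.shiftRight x (nat_lit 16)) (nat_lit 1)) (Nat.land (Nat.shiftRight y (nat_lit 0)) (nat_lit 255))) (Nat.mul (Nat.land (Nat.shiftRight x (nat_lit 17)) (nat_lit 1)) (Nat.land (Nat.shiftRight y (nat_lit 8)) (nat_lit 255))))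 (Nat.mul (Nat.land (Nat.shiftRight x (nat_lit 18)) (nat_lit 1)) (Nat.land (Nat.shiftRight y (nat_lit 16)) (nat_lit 255)))) (Nat.mul (Nat.land (Nat.shiftRight x (nat_lit 19)) (nat_lit 1)) (Nat.land (Nat.shiftRight y (nat_lit 24)) (nat_lit 255)))) (Nat.mul (Nat.land (Nat.shiftRight x (nat_lit 20)) (nat_lit 1)) (Nat.land (Nat.shiftRight y (nat_lit 32)) (nat_lit 255)))) (Nat.mul (Nat.land (Nat.shiftRight x (nat_lit 21)) (nat_lit 1)) (Nat.land (Nat.shiftRight y (nat_lit 40)) (nat_lit 255)))) (Nat.mul (Nat.land (Nat.shiftRight x (nat_lit 22)) (nat_lit 1)) (Nat.land (Nat.shiftRight y (nat_lit 48)) (nat_lit 255)))) (Nat.mul (Nat.land (Nat.shiftRight x (nat_lit 23)) (nat_lit 1)) (Nat.land (Nat.shiftRight y (nat_lit 56)) (nat_lit 255)))) (nat_lit 16))) (Nat.shiftLeft (Nat.xor (Nat.xor (Nat.xor (Nat.xor (Nat.xor (Nat.xor (Nat.xor (Nat.mul (Nat.land (Nat.shiftRight x (nat_lit 24)) (nat_lit 1)) (Nat.land (Nat.shiftRight y (nat_lit 0))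 (nat_lit 255))) (Nat.mul (Nat.land (Nat.shiftRight x (nat_lit 25)) (nat_lit 1)) (Nat.land (Nat.shiftRight y (nat_lit 8)) (nat_lit 255)))) (Nat.mul (Nat.land (Nat.shiftRight x (nat_lit 26)) (nat_lit 1)) (Nat.land (Nat.shiftRight y (nat_lit 16)) (nat_lit 255)))) (Nat.mul (Nat.land (Nat.shiftRight x (nat_lit 27)) (nat_lit 1)) (Nat.land (Nat.shiftRight y (nat_lit 24)) (nat_lit 255)))) (Nat.mul (Nat.land (Nat.shiftRight x (nat_lit 28)) (nat_lit 1)) (Nat.land (Nat.shiftRight y (nat_lit 32)) (nat_lit 255)))) (Nat.mul (Nat.land (Nat.shiftRight x (nat_lit 29)) (nat_lit 1)) (Nat.land (Nat.shiftRight y (nat_lit 40)) (nat_lit 255)))) (Nat.mul (Nat.land (Nat.shiftRight x (nat_lit 30)) (nat_lit 1)) (Nat.land (Nat.shiftRight y (nat_lit 48)) (nat_lit 255)))) (Nat.mul (Nat.land (Nat.shiftRight x (nat_lit 31)) (nat_lit 1)) (Nat.land (Nat.shiftRight y (nat_lit 56)) (nat_lit 255)))) (nat_lit 24))) (Nat.shiftLeft (Nat.xor (Nat.xor (Nat.xor (Nat.xor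 (Nat.xor (Nat.xor (Nat.xor (Nat.mul (Nat.land (Nat.shiftRight x (nat_lit 32)) (nat_lit 1)) (Nat.land (Nat.shiftRight y (nat_lit 0)) (nat_lit 255))) (Nat.mul (Nat.land (Nat.shiftRight x (nat_lit 33)) (nat_lit 1)) (Nat.land (Nat.shiftRight y (nat_lit 8)) (nat_lit 255)))) (Nat.mul (Nat.land (Nat.shiftRight x (nat_lit 34)) (nat_lit 1)) (Nat.land (Nat.shiftRight y (nat_lit 16)) (nat_lit 255)))) (Nat.mul (Nat.land (Nat.shiftRight x (nat_lit 35)) (nat_lit 1)) (Nat.land (Nat.shiftRight y (nat_lit 24)) (nat_lit 255)))) (Nat.mul (Nat.land (Nat.shiftRight x (nat_lit 36)) (nat_lit 1)) (Nat.land (Nat.shiftRight y (nat_lit 32)) (nat_lit 255)))) (Nat.mul (Nat.land (Nat.shiftRight x (nat_lit 37)) (nat_lit 1)) (Nat.land (Nat.shiftRight y (nat_lit 40)) (nat_lit 255)))) (Nat.mul (Nat.land (Nat.shiftRight x (nat_lit 38)) (nat_lit 1)) (Nat.land (Nat.shiftRight y (nat_lit 48)) (nat_lit 255)))) (Nat.mul (Nat.land (Nat.shiftRight x (nat_lit 39))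 (nat_lit 1)) (Nat.land (Nat.shiftRight y (nat_lit 56)) (nat_lit 255)))) (nat_lit 32))) (Nat.shiftLeft (Nat.xor (Nat.xor (Nat.xor (Nat.xor (Nat.xor (Nat.xor (Nat.xor (Nat.mul (Nat.land (Nat.shiftRight x (nat_lit 40)) (nat_lit 1)) (Nat.land (Nat.shiftRight y (nat_lit 0)) (nat_lit 255))) (Nat.mul (Nat.land (Nat.shiftRight x (nat_lit 41)) (nat_lit 1)) (Nat.land (Nat.shiftRight y (nat_lit 8)) (nat_lit 255)))) (Nat.mul (Nat.land (Nat.shiftRight x (nat_lit 42)) (nat_lit 1)) (Nat.land (Nat.shiftRight y (nat_lit 16)) (nat_lit 255)))) (Nat.mul (Nat.land (Nat.shiftRight x (nat_lit 43)) (nat_lit 1)) (Nat.land (Nat.shiftRight y (nat_lit 24)) (nat_lit 255)))) (Nat.mul (Nat.land (Nat.shiftRight x (nat_lit 44)) (nat_lit 1)) (Nat.land (Nat.shiftRight y (nat_lit 32)) (nat_lit 255)))) (Nat.mul (Nat.land (Nat.shiftRight x (nat_lit 45)) (nat_lit 1)) (Nat.land (Nat.shiftRight y (nat_lit 40)) (nat_lit 255)))) (Nat.mul (Nat.land (Nat.shiftRight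 x (nat_lit 46)) (nat_lit 1)) (Nat.land (Nat.shiftRight y (nat_lit 48)) (nat_lit 255)))) (Nat.mul (Nat.land (Nat.shiftRight x (nat_lit 47)) (nat_lit 1)) (Nat.land (Nat.shiftRight y (nat_lit 56)) (nat_lit 255)))) (nat_lit 40))) (Nat.shiftLeft (Nat.xor (Nat.xor (Nat.xor (Nat.xor (Nat.xor (Nat.xor (Nat.xor (Nat.mul (Nat.land (Nat.shiftRight x (nat_lit 48)) (nat_lit 1)) (Nat.land (Nat.shiftRight y (nat_lit 0)) (nat_lit 255))) (Nat.mul (Nat.land (Nat.shiftRight x (nat_lit 49)) (nat_lit 1)) (Nat.land (Nat.shiftRight y (nat_lit 8)) (nat_lit 255)))) (Nat.mul (Nat.land (Nat.shiftRight x (nat_lit 50)) (nat_lit 1)) (Nat.land (Nat.shiftRight y (nat_lit 16)) (nat_lit 255)))) (Nat.mul (Nat.land (Nat.shiftRight x (nat_lit 51)) (nat_lit 1)) (Nat.land (Nat.shiftRight y (nat_lit 24)) (nat_lit 255)))) (Nat.mul (Nat.land (Nat.shiftRight x (nat_lit 52)) (nat_lit 1)) (Nat.land (Nat.shiftRight y (nat_lit 32)) (nat_lit 255)))) (Nat.mul (Nat.land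 (Nat.shiftRight x (nat_lit 53)) (nat_lit 1)) (Nat.land (Nat.shiftRight y (nat_lit 40)) (nat_lit 255)))) (Nat.mul (Nat.land (Nat.shiftRight x (nat_lit 54)) (nat_lit 1)) (Nat.land (Nat.shiftRight y (nat_lit 48)) (nat_lit 255)))) (Nat.mul (Nat.land (Nat.shiftRight x (nat_lit 55)) (nat_lit 1)) (Nat.land (Nat.shiftRight y (nat_lit 56)) (nat_lit 255)))) (nat_lit 48))) (Nat.shiftLeft (Nat.xor (Nat.xor (Nat.xor (Nat.xor (Nat.xor (Nat.xor (Nat.xor (Nat.mul (Nat.land (Nat.shiftRight x (nat_lit 56)) (nat_lit 1)) (Nat.land (Nat.shiftRight y (nat_lit 0)) (nat_lit 255))) (Nat.mul (Nat.land (Nat.shiftRight x (nat_lit 57)) (nat_lit 1)) (Nat.land (Nat.shiftRight y (nat_lit 8)) (nat_lit 255)))) (Nat.mul (Nat.land (Nat.shiftRight x (nat_lit 58)) (nat_lit 1)) (Nat.land (Nat.shiftRight y (nat_lit 16)) (nat_lit 255)))) (Nat.mul (Nat.land (Nat.shiftRight x (nat_lit 59)) (nat_lit 1)) (Nat.land (Nat.shiftRight y (nat_lit 24)) (nat_lit 255)))) (Nat.mul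 (Nat.land (Nat.shiftRight x (nat_lit 60)) (nat_lit 1)) (Nat.land (Nat.shiftRight y (nat_lit 32)) (nat_lit 255)))) (Nat.mul (Nat.land (Nat.shiftRight x (nat_lit 61)) (nat_lit 1)) (Nat.land (Nat.shiftRight y (nat_lit 40)) (nat_lit 255)))) (Nat.mul (Nat.land (Nat.shiftRight x (nat_lit 62)) (nat_lit 1)) (Nat.land (Nat.shiftRight y (nat_lit 48)) (nat_lit 255)))) (Nat.mul (Nat.land (Nat.shiftRight x (nat_lit 63)) (nat_lit 1)) (Nat.land (Nat.shiftRight y (nat_lit 56)) (nat_lit 255)))) (nat_lit 56))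

theorem mul2_eq (x y : ℕ) : mul2 x y = mul2S x y := rfl

/-- the mask of the low plane -/
def maskP : ℕ := (nat_lit 18446744073709551615)

/-- The product of packed matrices. -/
def mulC (a b : ℕ) : ℕ :=
  Nat.lor (Nat.xor (mul2 (Nat.land a maskP) (Nat.land b maskP)) (mul2 (Nat.shiftRight a (nat_lit 64)) (Nat.shiftRight b (nat_lit 64))))
    (Nat.shiftLeft (Nat.xor
      (mul2 (Nat.xor (Nat.land a maskP) (Nat.shiftRight a (nat_lit 64))) (Nat.xor (Nat.land b maskP) (Nat.shiftRight b (nat_lit 64))))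
      (mul2 (Nat.land a maskP) (Nat.land b maskP))) (nat_lit 64))

/-! ### Soundness -/

section sound

variable {F : Type*} [CommRing F]

theorem cb_xor (h2 : (2 : F) = 0) (u v k : ℕ) : cb F (u ^^^ v) k = cb F u k + cb F v k := by
  unfold cb
  rw [Nat.testBit_xor]
  have h11 : (1 : F) + 1 = 0 := by rw [← one_add_one_eq_two] at h2; exact h2
  cases u.testBit k <;> cases v.testBit k <;> simp [h11]

theorem bitOf_eq (x k : ℕ) : bitOf x k = if x.testBit k then 1 else 0 := by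
  unfold bitOf
  rw [Nat.and_one_is_mod, Nat.shiftRight_eq_div_pow, Nat.testBit_eq_decide_div_mod_eq]
  have : x / 2 ^ k % 2 = 0 ∨ x / 2 ^ k % 2 = 1 := Nat.mod_two_eq_zero_or_one _
  rcases this with h | h <;> simp [h]

theorem testBit_rowOf (y k j : ℕ) (hj : j < 8) : (rowOf y k).testBit j = y.testBit (8 * k + j) := by
  unfold rowOf
  rw [Nat.testBit_and, Nat.testBit_shiftRight]
  have : (255 : ℕ).testBit j = true := by
    interval_cases j <;> decide
  rw [this, Bool.and_true]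

theorem cb_term (x y k l j : ℕ) (hj : j < 8) :
    cb F (bitOf x k * rowOf y l) j = cb F x k * cb F y (8 * l + j) := by
  rw [bitOf_eq]
  unfold cb
  by_cases h : x.testBit k
  · simp [h, testBit_rowOf y l j hj]
  · simp [h]

theorem cb_prow (h2 : (2 : F) = 0) (x y i j : ℕ) (hj : j < 8) :
    cb F (prow x y i) j = ∑ k : Fin 8, cb F x (8 * i + k) * cb F y (8 * k + j) := by
  unfold prow
  simp only [cb_xor h2, cb_term _ _ _ _ j hj, Fin.sum_univ_succ, Fin.sum_univ_zero]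
  simp [Fin.succ]
  ring

theorem prow_lt (x y i : ℕ) : prow x y i < 2 ^ 8 := by
  have hr : ∀ l, rowOf y l < 2 ^ 8 := by
    intro l
    unfold rowOf
    exact lt_of_le_of_lt Nat.and_le_right (by norm_num)
  have ht : ∀ k l, bitOf x k * rowOf y l < 2 ^ 8 := by
    intro k l
    rw [bitOf_eq]
    split_ifs
    · simpa using hr l
    · simp
  unfold prow
  repeat' apply Nat.xor_lt_two_pow
  all_goals exact ht _ _

theorem testBit_shift_row (r s i j : ℕ) (hr : r < 2 ^ 8) (hj : j < 8) :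
    (r <<< (8 * s)).testBit (8 * i + j) = (decide (s = i) && r.testBit j) := by
  rw [Nat.testBit_shiftLeft]
  by_cases hs : s = i
  · subst hs
    simp
  · simp only [hs, decide_false, Bool.false_and]
    by_cases hlt : s < i
    · have h1 : 8 * s ≤ 8 * i + j := by omega
      have h2 : 8 ≤ 8 * i + j - 8 * s := by omega
      have h3 : r.testBit (8 * i + j - 8 * s) = false := by
        apply Nat.testBit_lt_two_pow
        exact lt_of_lt_of_le hr (Nat.pow_le_pow_right (by norm_num) h2)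
      simp [h3]
    · have h1 : ¬ 8 * s ≤ 8 * i + j := by omega
      simp [h1]

theorem testBit_mul2 (x y i j : ℕ) (hi : i < 8) (hj : j < 8) :
    (mul2 x y).testBit (8 * i + j) = (prow x y i).testBit j := by
  rw [mul2_eq]
  unfold mul2S
  simp only [Nat.testBit_or]
  have h0 : (prow x y 0).testBit (8 * i + j) = (decide (0 = i) && (prow x y 0).testBit j) := by
    have := testBit_shift_row (prow x y 0) 0 i j (prow_lt _ _ _) hj
    simpa using this
  rw [h0]
  have h1 : (prow x y 1 <<< 8).testBit (8 * i + j) = (decide (1 = i) && (prow x y 1).testBit j) :=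
    testBit_shift_row _ 1 i j (prow_lt _ _ _) hj
  have h2 : (prow x y 2 <<< 16).testBit (8 * i + j) = (decide (2 = i) && (prow x y 2).testBit j) :=
    testBit_shift_row _ 2 i j (prow_lt _ _ _) hj
  have h3 : (prow x y 3 <<< 24).testBit (8 * i + j) = (decide (3 = i) && (prow x y 3).testBit j) :=
    testBit_shift_row _ 3 i j (prow_lt _ _ _) hj
  have h4 : (prow x y 4 <<< 32).testBit (8 * i + j) = (decide (4 = i) && (prow x y 4).testBit j) :=
    testBit_shift_row _ 4 i j (prow_lt _ _ _) hj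
  have h5 : (prow x y 5 <<< 40).testBit (8 * i + j) = (decide (5 = i) && (prow x y 5).testBit j) :=
    testBit_shift_row _ 5 i j (prow_lt _ _ _) hj
  have h6 : (prow x y 6 <<< 48).testBit (8 * i + j) = (decide (6 = i) && (prow x y 6).testBit j) :=
    testBit_shift_row _ 6 i j (prow_lt _ _ _) hj
  have h7 : (prow x y 7 <<< 56).testBit (8 * i + j) = (decide (7 = i) && (prow x y 7).testBit j) :=
    testBit_shift_row _ 7 i j (prow_lt _ _ _) hj
  rw [h1, h2, h3, h4, h5, h6, h7]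
  interval_cases i <;> simp

theorem cb_mul2 (h2 : (2 : F) = 0) (x y i j : ℕ) (hi : i < 8) (hj : j < 8) :
    cb F (mul2 x y) (8 * i + j) = ∑ k : Fin 8, cb F x (8 * i + k) * cb F y (8 * k + j) := by
  rw [← cb_prow h2 x y i j hj]
  unfold cb
  rw [testBit_mul2 x y i j hi hj]

theorem mul2_lt (x y : ℕ) : mul2 x y < 2 ^ 64 := by
  rw [mul2_eq]
  unfold mul2S
  have hs : ∀ s t, s ≤ 7 → t = 8 * s → prow x y s <<< t < 2 ^ 64 := by
    intro s t hs ht
    subst ht
    rw [Nat.shiftLeft_eq]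
    calc prow x y s * 2 ^ (8 * s) < 2 ^ 8 * 2 ^ (8 * s) :=
          Nat.mul_lt_mul_of_pos_right (prow_lt _ _ _) (by positivity)
      _ = 2 ^ (8 + 8 * s) := (pow_add _ _ _).symm
      _ ≤ 2 ^ 64 := Nat.pow_le_pow_right (by norm_num) (by omega)
  have h0 : prow x y 0 < 2 ^ 64 := lt_of_lt_of_le (prow_lt _ _ _) (by norm_num)
  have h1 := hs 1 8 (by norm_num) rfl
  have h2 := hs 2 16 (by norm_num) rfl
  have h3 := hs 3 24 (by norm_num) rfl
  have h4 := hs 4 32 (by norm_num) rfl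
  have h5 := hs 5 40 (by norm_num) rfl
  have h6 := hs 6 48 (by norm_num) rfl
  have h7 := hs 7 56 (by norm_num) rfl
  exact Nat.or_lt_two_pow (Nat.or_lt_two_pow (Nat.or_lt_two_pow (Nat.or_lt_two_pow (Nat.or_lt_two_pow (Nat.or_lt_two_pow (Nat.or_lt_two_pow h0 h1) h2) h3) h4) h5) h6) h7

theorem maskP_eq : maskP = 2 ^ 64 - 1 := by decide +kernel

theorem testBit_lo (a k : ℕ) (hk : k < 64) : (a &&& maskP).testBit k = a.testBit k := by
  rw [Nat.testBit_and, maskP_eq, Nat.testBit_two_pow_sub_one]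
  simp [hk]

theorem testBit_hi (a k : ℕ) : (a >>> 64).testBit k = a.testBit (64 + k) := by
  rw [Nat.testBit_shiftRight]

/-- The matrix coded by `c`. -/
def dec (ω : F) (c : ℕ) : Matrix (Fin 8) (Fin 8) F :=
  fun i j => cb F c (8 * i + j) + cb F c (64 + (8 * i + j)) * ω

theorem idx_lt (i j : Fin 8) : 8 * i.val + j.val < 64 := by
  have := i.2
  have := j.2
  omega

/-- The raw form of the product -/
theorem mulC_eq (a b : ℕ) : mulC a b =
    ((mul2 (a &&& maskP) (b &&& maskP) ^^^ mul2 (a >>> 64) (b >>> 64)) |||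
      ((mul2 ((a &&& maskP) ^^^ (a >>> 64)) ((b &&& maskP) ^^^ (b >>> 64)) ^^^ mul2 (a &&& maskP) (b &&& maskP)) <<< 64)) := rfl

theorem testBit_mulC_lo (a b k : ℕ) (hk : k < 64) :
    (mulC a b).testBit k =
      (mul2 (a &&& maskP) (b &&& maskP) ^^^ mul2 (a >>> 64) (b >>> 64)).testBit k := by
  rw [mulC_eq, Nat.testBit_or, Nat.testBit_shiftLeft]
  simp [show ¬ 64 ≤ k by omega]

theorem testBit_mulC_hi (a b k : ℕ) :
    (mulC a b).testBit (64 + k) =
      (mul2 ((a &&& maskP) ^^^ (a >>> 64)) ((b &&& maskP) ^^^ (b >>> 64)) ^^^ mul2 (a &&& maskP) (b &&& maskP)).testBit k := by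
  rw [mulC_eq, Nat.testBit_or, Nat.testBit_shiftLeft]
  have h : (mul2 (a &&& maskP) (b &&& maskP) ^^^ mul2 (a >>> 64) (b >>> 64)).testBit (64 + k) = false := by
    apply Nat.testBit_lt_two_pow
    exact lt_of_lt_of_le (Nat.xor_lt_two_pow (mul2_lt _ _) (mul2_lt _ _)) (Nat.pow_le_pow_right (by norm_num) (by omega))
  rw [h]
  simp

/-- `dec` is multiplicative. -/
theorem dec_mulC (ω : F) (h2 : (2 : F) = 0) (hw : ω * ω = ω + 1) (a b : ℕ) :
    dec ω (mulC a b) = dec ω a * dec ω b := by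
  ext i j
  rw [Matrix.mul_apply]
  have hij := idx_lt i j
  have hcbik : ∀ (c : ℕ) (k : Fin 8), cb F (c &&& maskP) (8 * i.val + k.val) = cb F c (8 * i.val + k.val) := by
    intro c k
    unfold cb
    rw [testBit_lo _ _ (idx_lt i k)]
  have hcbkj : ∀ (c : ℕ) (k : Fin 8), cb F (c &&& maskP) (8 * k.val + j.val) = cb F c (8 * k.val + j.val) := by
    intro c k
    unfold cb
    rw [testBit_lo _ _ (idx_lt k j)]
  have hhi : ∀ (c m : ℕ), cb F (c >>> 64) m = cb F c (64 + m) := by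
    intro c m
    unfold cb
    rw [testBit_hi]
  have e1 : cb F (mulC a b) (8 * i.val + j.val) =
      ∑ k : Fin 8, (cb F a (8 * i.val + k.val) * cb F b (8 * k.val + j.val) +
        cb F a (64 + (8 * i.val + k.val)) * cb F b (64 + (8 * k.val + j.val))) := by
    have : cb F (mulC a b) (8 * i.val + j.val) =
        cb F (mul2 (a &&& maskP) (b &&& maskP) ^^^ mul2 (a >>> 64) (b >>> 64)) (8 * i.val + j.val) := by
      unfold cb
      rw [testBit_mulC_lo _ _ _ hij]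
    rw [this, cb_xor h2, cb_mul2 h2 _ _ _ _ i.2 j.2, cb_mul2 h2 _ _ _ _ i.2 j.2, ← Finset.sum_add_distrib]
    apply Finset.sum_congr rfl
    intro k _
    rw [hcbik, hcbkj, hhi, hhi]
  have e2 : cb F (mulC a b) (64 + (8 * i.val + j.val)) =
      ∑ k : Fin 8, (cb F a (8 * i.val + k.val) * cb F b (64 + (8 * k.val + j.val)) +
        cb F a (64 + (8 * i.val + k.val)) * cb F b (8 * k.val + j.val) +
        cb F a (64 + (8 * i.val + k.val)) * cb F b (64 + (8 * k.val + j.val))) := by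
    have : cb F (mulC a b) (64 + (8 * i.val + j.val)) =
        cb F (mul2 ((a &&& maskP) ^^^ (a >>> 64)) ((b &&& maskP) ^^^ (b >>> 64)) ^^^ mul2 (a &&& maskP) (b &&& maskP))
          (8 * i.val + j.val) := by
      unfold cb
      rw [testBit_mulC_hi]
    rw [this, cb_xor h2, cb_mul2 h2 _ _ _ _ i.2 j.2, cb_mul2 h2 _ _ _ _ i.2 j.2, ← Finset.sum_add_distrib]
    apply Finset.sum_congr rfl
    intro k _
    rw [cb_xor h2, cb_xor h2, hcbik, hcbkj, hhi, hhi]
    have h11 : (2 : F) = 0 := h2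
    linear_combination (cb F a (8 * i.val + k.val) * cb F b (8 * k.val + j.val)) * h11
  show cb F (mulC a b) (8 * i.val + j.val) + cb F (mulC a b) (64 + (8 * i.val + j.val)) * ω = _
  rw [e1, e2, Finset.sum_mul, ← Finset.sum_add_distrib]
  apply Finset.sum_congr rfl
  intro k _
  show _ = (cb F a (8 * i.val + k.val) + cb F a (64 + (8 * i.val + k.val)) * ω) *
    (cb F b (8 * k.val + j.val) + cb F b (64 + (8 * k.val + j.val)) * ω)
  linear_combination (-(cb F a (64 + (8 * i.val + k.val)) * cb F b (64 + (8 * k.val + j.val)))) * hw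

end sound

end Cfsg.Agent.Lib.F4Mat8
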