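import Mathlib
import Cfsg.Prelude.Def_ChevWords
import Cfsg.Agent.Lib.CoxOrder

/-!
# Matrices over `ZMod p` packed in one natural number

The kernel multiplies big natural numbers quickly.  A square matrix of size `n` with entries
below `2 ^ w` is kept as one literal, `w` bits per entry, row by row.  `mulP` multiplies two such
literals and `matP_mul` says that it computes the matrix product, so that words in matrices can be
evaluated by `decide +kernel` with literals as intermediate values.
-/

namespace Cfsg.Agent.Lib.PackMat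

open Cfsg.Agent.Lib.CoxOrder (pk)

/-- The entries `f 0, …, f (m - 1)`, `w` bits each. -/
def packF (w : ℕ) (f : ℕ → ℕ) : ℕ → ℕ
  | 0 => 0
  | m + 1 => packF w f m + f m * 2 ^ (w * m)

theorem packF_lt (w : ℕ) (f : ℕ → ℕ) (m : ℕ) (hf : ∀ i < m, f i < 2 ^ w) :
    packF w f m < 2 ^ (w * m) := by
  induction m with
  | zero => simp [packF]
  | succ m ih =>
    have h1 := ih (fun i hi => hf i (by omega))
    have h2 := hf m (by omega)
    have h3 : (2 : ℕ) ^ (w * (m + 1)) = 2 ^ w * 2 ^ (w * m) := by
      rw [Nat.mul_succ, pow_add, mul_comm]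
    rw [packF, h3]
    have h4 : f m + 1 ≤ 2 ^ w := h2
    calc packF w f m + f m * 2 ^ (w * m) < 2 ^ (w * m) + f m * 2 ^ (w * m) := by omega
      _ = (f m + 1) * 2 ^ (w * m) := by ring
      _ ≤ 2 ^ w * 2 ^ (w * m) := Nat.mul_le_mul_right _ h4

theorem pk_packF (w : ℕ) (f : ℕ → ℕ) (m : ℕ) (hf : ∀ i < m, f i < 2 ^ w) (i : ℕ) (hi : i < m) :
    pk (packF w f m) w i = f i := by
  induction m with
  | zero => omega
  | succ m ih =>
    have hlt := packF_lt w f m (fun i hi => hf i (by omega))
    unfold pk at ih ⊢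
    rw [Nat.shiftRight_eq_div_pow] at ih ⊢
    rw [packF]
    rcases Nat.lt_succ_iff_lt_or_eq.1 hi with h | rfl
    · -- an older entry
      have h1 : w * m = w * i + (w + w * (m - i - 1)) := by
        have : m = i + (1 + (m - i - 1)) := by omega
        conv_lhs => rw [this]
        ring
      have h2 : f m * 2 ^ (w * m) = 2 ^ (w * i) * (2 ^ w * (f m * 2 ^ (w * (m - i - 1)))) := by
        rw [h1, pow_add, pow_add]
        ring
      rw [h2, Nat.add_mul_div_left _ _ (by positivity), Nat.add_mul_mod_self_left]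
      exact ih (fun j hj => hf j (by omega)) h
    · rw [Nat.add_mul_div_right _ _ (by positivity), Nat.div_eq_of_lt hlt, zero_add]
      exact Nat.mod_eq_of_lt (hf i (by omega))

/-- A finite sum, by recursion. -/
def sumF (f : ℕ → ℕ) : ℕ → ℕ
  | 0 => 0
  | m + 1 => sumF f m + f m

theorem sumF_eq (f : ℕ → ℕ) (m : ℕ) : sumF f m = ∑ k ∈ Finset.range m, f k := by
  induction m with
  | zero => simp [sumF]
  | succ m ih => rw [sumF, ih, Finset.sum_range_succ]

/-- The product of two packed matrices of size `n`, modulo `p`. -/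
def mulP (p w n A B : ℕ) : ℕ :=
  packF w (fun ij => sumF (fun k => pk A w (ij / n * n + k) * pk B w (k * n + ij % n)) n % p) (n * n)

/-- The packed identity matrix of size `n`. -/
def oneP (w n : ℕ) : ℕ :=
  packF w (fun ij => if ij / n = ij % n then 1 else 0) (n * n)

section
variable {ι : Type*} [Fintype ι] [DecidableEq ι]

/-- The matrix of a packed literal. -/
def matP (code : ι → ℕ) (p w n s : ℕ) : Matrix ι ι (ZMod p) :=
  Matrix.of fun i j => ((pk s w (code i * n + code j) : ℕ) : ZMod p)

theorem idx_lt {n i j : ℕ} (hi : i < n) (hj : j < n) : i * n + j < n * n := by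
  calc i * n + j < i * n + n := by omega
    _ = (i + 1) * n := by ring
    _ ≤ n * n := Nat.mul_le_mul_right _ hi

theorem idx_div {n i j : ℕ} (hj : j < n) : (i * n + j) / n = i := by
  rw [mul_comm, Nat.mul_add_div (by omega), Nat.div_eq_of_lt hj, add_zero]

theorem idx_mod {n i j : ℕ} (hj : j < n) : (i * n + j) % n = j := by
  rw [mul_comm, Nat.mul_add_mod, Nat.mod_eq_of_lt hj]

theorem matP_mul (code : ι → ℕ) (p w n : ℕ) [NeZero p] (hp : p ≤ 2 ^ w) (hn : ∀ i, code i < n)
    (hsum : ∀ g : ℕ → ZMod p, ∑ i, g (code i) = ∑ k ∈ Finset.range n, g k) (A B : ℕ) :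
    matP code p w n A * matP code p w n B = matP code p w n (mulP p w n A B) := by
  ext i j
  rw [Matrix.mul_apply]
  simp only [matP, Matrix.of_apply]
  have hlt : ∀ ij < n * n, sumF (fun k => pk A w (ij / n * n + k) * pk B w (k * n + ij % n)) n % p < 2 ^ w :=
    fun ij _ => lt_of_lt_of_le (Nat.mod_lt _ (Nat.pos_of_ne_zero (NeZero.ne p))) hp
  rw [mulP, pk_packF w _ _ hlt _ (idx_lt (hn i) (hn j)), idx_div (hn j), idx_mod (hn j), sumF_eq,
    ZMod.natCast_mod, Nat.cast_sum, ← hsum (fun k => ((pk A w (code i * n + k) * pk B w (k * n + code j) : ℕ) : ZMod p))]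
  simp only [Nat.cast_mul]

theorem matP_one (code : ι → ℕ) (p w n : ℕ) (hw : 1 < 2 ^ w) (hn : ∀ i, code i < n)
    (hinj : Function.Injective code) :
    matP code p w n (oneP w n) = 1 := by
  ext i j
  simp only [matP, Matrix.of_apply, oneP]
  rw [pk_packF w _ _ (fun ij _ => by split_ifs <;> omega) _ (idx_lt (hn i) (hn j)), idx_div (hn j),
    idx_mod (hn j), Matrix.one_apply]
  by_cases h : i = j
  · subst h; simp
  · have : code i ≠ code j := fun h' => h (hinj h')
    simp [h, this]

/-- The product of a list of packed matrices. -/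
def prodP (p w n : ℕ) : List ℕ → ℕ
  | [] => oneP w n
  | [a] => a
  | a :: l => mulP p w n a (prodP p w n l)

theorem prod_matP (code : ι → ℕ) (p w n : ℕ) [NeZero p] (hp : p ≤ 2 ^ w) (hw : 1 < 2 ^ w) (hn : ∀ i, code i < n)
    (hinj : Function.Injective code)
    (hsum : ∀ g : ℕ → ZMod p, ∑ i, g (code i) = ∑ k ∈ Finset.range n, g k) (l : List ℕ) :
    (l.map (matP code p w n)).prod = matP code p w n (prodP p w n l) := by
  induction l with
  | nil => simp [prodP, matP_one code p w n hw hn hinj]
  | cons a l ih =>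
    cases l with
    | nil => simp [prodP]
    | cons b l =>
      rw [List.map_cons, List.prod_cons, ih, matP_mul code p w n hp hn hsum]
      rfl

end

/-- The coordinate number in a Chevalley datum. -/
def ccode (D : Cfsg.Lie.ChevalleyDatum) : D.Idx → ℕ
  | Sum.inl i => i.1
  | Sum.inr j => D.rank + j.1

theorem ccode_lt (D : Cfsg.Lie.ChevalleyDatum) (i : D.Idx) : ccode D i < D.rank + D.nroots := by
  cases i with
  | inl i => have := i.2; simp only [ccode]; omega
  | inr j => have := j.2; simp only [ccode]; omega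

theorem ccode_inj (D : Cfsg.Lie.ChevalleyDatum) : Function.Injective (ccode D) := by
  intro i j h
  cases i with
  | inl i =>
    cases j with
    | inl j => simp only [ccode] at h; exact congrArg _ (Fin.ext h)
    | inr j => have := i.2; simp only [ccode] at h; omega
  | inr i =>
    cases j with
    | inl j => have := j.2; simp only [ccode] at h; omega
    | inr j => simp only [ccode] at h; exact congrArg _ (Fin.ext (by omega))

theorem ccode_sum (D : Cfsg.Lie.ChevalleyDatum) {M : Type*} [AddCommMonoid M] (g : ℕ → M) :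
    ∑ i, g (ccode D i) = ∑ k ∈ Finset.range (D.rank + D.nroots), g k := by
  rw [Fintype.sum_sum_type, Finset.sum_range_add]
  simp only [ccode]
  rw [Fin.sum_univ_eq_sum_range (fun k => g k), Fin.sum_univ_eq_sum_range (fun k => g (D.rank + k))]

/-- The matrix of a packed literal, on the coordinates of a Chevalley datum. -/
abbrev cmat (D : Cfsg.Lie.ChevalleyDatum) (p w s : ℕ) : Matrix D.Idx D.Idx (ZMod p) :=
  matP (ccode D) p w (D.rank + D.nroots) s

theorem cmat_mul (D : Cfsg.Lie.ChevalleyDatum) (p w : ℕ) [NeZero p] (hp : p ≤ 2 ^ w) (A B : ℕ) :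
    cmat D p w A * cmat D p w B = cmat D p w (mulP p w (D.rank + D.nroots) A B) :=
  matP_mul _ p w _ hp (ccode_lt D) (ccode_sum D) A B

theorem cmat_one (D : Cfsg.Lie.ChevalleyDatum) (p w : ℕ) (hw : 1 < 2 ^ w) :
    cmat D p w (oneP w (D.rank + D.nroots)) = 1 :=
  matP_one _ p w _ hw (ccode_lt D) (ccode_inj D)

theorem cmat_prod (D : Cfsg.Lie.ChevalleyDatum) (p w : ℕ) [NeZero p] (hp : p ≤ 2 ^ w) (hw : 1 < 2 ^ w)
    (l : List ℕ) :
    (l.map (cmat D p w)).prod = cmat D p w (prodP p w (D.rank + D.nroots) l) :=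
  prod_matP _ p w _ hp hw (ccode_lt D) (ccode_inj D) (ccode_sum D) l

end Cfsg.Agent.Lib.PackMat
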