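import Mathlib
import Cfsg.Agent.Lib.TcBits
import Cfsg.Agent.Lib.BitClose

/-!
# Deduction closure for labels of a central extension, on bit masks

Let involutions act on points `ℕ` by bit programs, and let `ℓ x i` be labels in a commutative group with
`ℓ x (π x i) * ℓ x i = 1`.  For a relator `s r s r T` the labels along every walk have the same product `κ`.
A list `K` of masks records, for each letter, points at which the label lies in a fixed subgroup `C`.
`stepCore` is one deduction step with a relator, at all points at once, in a few big number operations.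
-/

set_option autoImplicit false
set_option linter.unusedVariables false
set_option linter.unusedSectionVars false

namespace Cfsg.Agent.Lib.MaskClosure12

open Cfsg.Agent.Lib.TcBits Cfsg.Agent.Lib.BitClose Cfsg.Agent.Lib.CoxCert

/-! ### The kernel functions -/

/-- The points at which all labels of a tail are known. -/
noncomputable def tailSuf (pr : ℕ → List (ℕ × ℕ)) (K : List ℕ) (full : ℕ) (T : List ℕ) : ℕ :=
  List.casesOn (motive := fun _ => ℕ) T full fun t T' =>
    List.casesOn (motive := fun _ => ℕ) T' (lget K t) fun t2 _ =>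
      Nat.land (lget K t) (progApply (pr t) (lget K t2))

/-- The mask of `s` or `T` known, in the coordinate of the third point of the walk. -/
noncomputable def tx2 (pr : ℕ → List (ℕ × ℕ)) (K : List ℕ) (full s r : ℕ) (T : List ℕ) : ℕ :=
  List.casesOn (motive := fun _ => ℕ) T full fun _ _ =>
    progApply (pr s) (progApply (pr r) (tailSuf pr K full T))

/-- Replace the mask of a letter by `v` closed under the letter. -/
noncomputable def closeTie (pr : ℕ → List (ℕ × ℕ)) (K : List ℕ) (x v : ℕ) : List ℕ :=
  wl v fun a => wl (progApply (pr x) a) fun b => lset K x (Nat.lor a b)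

/-- Update of the masks of the tail. `Z` : the part before the tail is known. -/
noncomputable def tailUpd (pr : ℕ → List (ℕ × ℕ)) (K : List ℕ) (Z : ℕ) (T : List ℕ) : List ℕ :=
  List.casesOn (motive := fun _ => List ℕ) T K fun t T' =>
    List.casesOn (motive := fun _ => List ℕ) T' (closeTie pr K t (Nat.lor (lget K t) Z)) fun t2 _ =>
      wl (Nat.land Z (progApply (pr t) (lget K t2))) fun N1 =>
      wl (progApply (pr t) (Nat.land Z (lget K t))) fun N2 =>
      wl (Nat.lor (lget K t) N1) fun V1 =>
      wl (Nat.lor (lget K t2) N2) fun V2 =>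
        closeTie pr (closeTie pr K t V1) t2 V2

/-- The deductions of a relator with a known value. -/
noncomputable def stepCont (pr : ℕ → List (ℕ × ℕ)) (K : List ℕ) (s r : ℕ) (T : List ℕ) (Ms Mr Qrs Pq Tx W3 : ℕ) :
    List ℕ :=
  wl (Nat.land Qrs Tx) fun Wr =>
  wl (Nat.land Pq Tx) fun Ws =>
  wl (Nat.lor (Nat.lor Ms (progApply (pr r) (Nat.land Ms Wr))) (Nat.land (progApply (pr r) Ms) Wr)) fun Vs =>
  wl (Nat.lor (Nat.lor Mr (Nat.land (progApply (pr s) Mr) Ws)) (progApply (pr s) (Nat.land Mr Ws))) fun Vr =>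
  wl (progApply (pr r) (progApply (pr s) W3)) fun Z =>
    tailUpd pr (closeTie pr (closeTie pr K s Vs) r Vr) Z T

/-- One step with the relator `s r s r T`. -/
noncomputable def stepCore (pr : ℕ → List (ℕ × ℕ)) (Fx : List ℕ) (full : ℕ) (sd : Bool) (s r : ℕ) (T : List ℕ)
    (K : List ℕ) : List ℕ :=
  wl (lget K s) fun Ms =>
  wl (lget K r) fun Mr =>
  wl (Nat.lor (Nat.land Ms (progApply (pr r) Ms)) (lget Fx r)) fun Qsr =>
  wl (Nat.lor (Nat.land Mr (progApply (pr s) Mr)) (lget Fx s)) fun Qrs =>
  wl (progApply (pr r) Qsr) fun Pq =>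
  wl (tx2 pr K full s r T) fun Tx =>
  wl (Nat.land Qrs Pq) fun W3 =>
    Bool.rec (Bool.rec K (stepCont pr K s r T Ms Mr Qrs Pq Tx W3) (not (Nat.beq (Nat.land (Nat.land W3 Tx) full) 0)))
      (stepCont pr K s r T Ms Mr Qrs Pq Tx W3) sd

/-! ### Soundness -/

section sound

variable {B : Type*} [CommGroup B] {C : Subgroup B} {pr : ℕ → List (ℕ × ℕ)} {N n : ℕ} {ℓ : ℕ → ℕ → B}

/-- The product of the labels along a walk. -/
noncomputable def walkP (pr : ℕ → List (ℕ × ℕ)) (ℓ : ℕ → ℕ → B) : List ℕ → ℕ → B
  | [], _ => 1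
  | j :: w, x => ℓ j x * walkP pr ℓ w (piP pr j x)

/-- The hypotheses on the labels. -/
structure LSys (pr : ℕ → List (ℕ × ℕ)) (N n : ℕ) (ℓ : ℕ → ℕ → B) : Prop where
  hv : ∀ x, validProg N (pr x) = true
  hinv : ∀ x i, piP pr x (piP pr x i) = i
  hlt : ∀ x i, i < n → piP pr x i < n
  hhi : ∀ x i, n ≤ i → ℓ x i = 1
  htie : ∀ x i, ℓ x (piP pr x i) * ℓ x i = 1

/-- The labels recorded in the masks lie in `C`. -/
def Inv (C : Subgroup B) (ℓ : ℕ → ℕ → B) (K : List ℕ) : Prop :=
  ∀ x i, (lget K x).testBit i = true → ℓ x i ∈ C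

/-- A valid mask of fixed points. -/
def FixOK (pr : ℕ → List (ℕ × ℕ)) (Fx : List ℕ) : Prop :=
  ∀ x i, (lget Fx x).testBit i = true → piP pr x i = i

variable (hS : LSys pr N n ℓ)
include hS

theorem tie_mem {x i : ℕ} (h : ℓ x (piP pr x i) ∈ C) : ℓ x i ∈ C := by
  have h1 := hS.htie x i
  have h2 : ℓ x i = (ℓ x (piP pr x i))⁻¹ := eq_inv_of_mul_eq_one_right h1
  rw [h2]
  exact C.inv_mem h

theorem tie_mem' {x i : ℕ} (h : ℓ x i ∈ C) : ℓ x (piP pr x i) ∈ C := by
  apply tie_mem (C := C) hS
  rwa [hS.hinv]

theorem ap_bit (x X i : ℕ) : (progApply (pr x) X).testBit i = X.testBit (piP pr x i) :=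
  testBit_progApply N (pr x) (hS.hv x) X i

theorem hi_pi {x i : ℕ} (h : n ≤ i) : n ≤ piP pr x i := by
  by_contra h1
  have := hS.hlt x _ (not_le.mp h1)
  rw [hS.hinv] at this
  omega

theorem closeTie_inv {K : List ℕ} (hK : Inv C ℓ K) {x v : ℕ} (hv : ∀ i, v.testBit i = true → ℓ x i ∈ C) :
    Inv C ℓ (closeTie pr K x v) := by
  intro y i hi
  rw [closeTie, wl_eq, wl_eq] at hi
  rcases lget_lset K x (Nat.lor v (progApply (pr x) v)) y with h | ⟨h1, h2⟩
  · rw [h] at hi
    exact hK y i hi
  · subst h1
    rw [h2, testBit_lor', Bool.or_eq_true, ap_bit hS] at hi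
    rcases hi with hi | hi
    · exact hv i hi
    · exact tie_mem hS (hv _ hi)

theorem bit_land {a b i : ℕ} : (Nat.land a b).testBit i = true ↔ a.testBit i = true ∧ b.testBit i = true := by
  rw [testBit_land', Bool.and_eq_true]

theorem bit_lor {a b i : ℕ} : (Nat.lor a b).testBit i = true ↔ a.testBit i = true ∨ b.testBit i = true := by
  rw [testBit_lor', Bool.or_eq_true]

/-- The tail. -/
theorem tailSuf_mem {K : List ℕ} (hK : Inv C ℓ K) {full : ℕ} {T : List ℕ} (hT : T.length ≤ 2) {y : ℕ}
    (h : (tailSuf pr K full T).testBit y = true) : walkP pr ℓ T y ∈ C := by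
  match T, hT with
  | [], _ => exact C.one_mem
  | [t], _ =>
    have h1 : (lget K t).testBit y = true := h
    simp only [walkP, mul_one]
    exact hK _ _ h1
  | [t, t2], _ =>
    have h1 : (Nat.land (lget K t) (progApply (pr t) (lget K t2))).testBit y = true := h
    rw [bit_land hS, ap_bit hS] at h1
    simp only [walkP, mul_one]
    exact C.mul_mem (hK _ _ h1.1) (hK _ _ h1.2)

theorem tx2_mem {K : List ℕ} (hK : Inv C ℓ K) {full s r : ℕ} {T : List ℕ} (hT : T.length ≤ 2) {y : ℕ}
    (h : (tx2 pr K full s r T).testBit y = true) : walkP pr ℓ T (piP pr r (piP pr s y)) ∈ C := by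
  match T, hT with
  | [], _ => exact C.one_mem
  | t :: T', hT' =>
    have h1 : (progApply (pr s) (progApply (pr r) (tailSuf pr K full (t :: T')))).testBit y = true := h
    rw [ap_bit hS, ap_bit hS] at h1
    exact tailSuf_mem hS hK hT' h1

theorem tailUpd_inv {K : List ℕ} (hK : Inv C ℓ K) {Z : ℕ} {T : List ℕ} (hT : T.length ≤ 2)
    (hZ : ∀ y, Z.testBit y = true → n ≤ y ∨ (walkP pr ℓ T y ∈ C)) :
    Inv C ℓ (tailUpd pr K Z T) := by
  match T, hT with
  | [], _ => exact hK
  | [t], _ =>
    refine closeTie_inv hS hK ?_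
    intro i hi
    rw [bit_lor hS] at hi
    rcases hi with hi | hi
    · exact hK _ _ hi
    · rcases hZ i hi with h | h
      · rw [hS.hhi _ _ h]; exact C.one_mem
      · simpa [walkP] using h
  | [t, t2], _ =>
    show Inv C ℓ (wl (Nat.land Z (progApply (pr t) (lget K t2))) fun N1 =>
      wl (progApply (pr t) (Nat.land Z (lget K t))) fun N2 =>
      wl (Nat.lor (lget K t) N1) fun V1 =>
      wl (Nat.lor (lget K t2) N2) fun V2 =>
        closeTie pr (closeTie pr K t V1) t2 V2)
    rw [wl_eq, wl_eq, wl_eq, wl_eq]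
    have h1 : ∀ i, (Nat.lor (lget K t) (Nat.land Z (progApply (pr t) (lget K t2)))).testBit i = true → ℓ t i ∈ C := by
      intro i hi
      rw [bit_lor hS, bit_land hS, ap_bit hS] at hi
      rcases hi with hi | ⟨hi, hj⟩
      · exact hK _ _ hi
      · rcases hZ i hi with h | h
        · rw [hS.hhi _ _ h]; exact C.one_mem
        · simp only [walkP, mul_one] at h
          exact (C.mul_mem_cancel_right (hK _ _ hj)).mp h
    have h2 : ∀ i, (Nat.lor (lget K t2) (progApply (pr t) (Nat.land Z (lget K t)))).testBit i = true → ℓ t2 i ∈ C := by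
      intro i hi
      rw [bit_lor hS, ap_bit hS, bit_land hS] at hi
      rcases hi with hi | ⟨hi, hj⟩
      · exact hK _ _ hi
      · rcases hZ _ hi with h | h
        · have := hi_pi hS (x := t) h
          rw [hS.hinv] at this
          rw [hS.hhi _ _ this]; exact C.one_mem
        · simp only [walkP, mul_one] at h
          rw [hS.hinv] at h
          exact (C.mul_mem_cancel_left (hK _ _ hj)).mp h
    exact closeTie_inv hS (closeTie_inv hS hK h1) h2

/-- One step. The value `κ` of the relator is known if `sd` or if all the labels of some walk are known. -/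
theorem stepCore_inv {Fx : List ℕ} (hFx : FixOK pr Fx) {full : ℕ} {sd : Bool} {s r : ℕ} {T : List ℕ}
    (hT : T.length ≤ 2) {κ : B} (hsd : sd = true → κ ∈ C) (hfull : ∀ y, full.testBit y = true → y < n)
    (hw : ∀ x, x < n → walkP pr ℓ (s :: r :: s :: r :: T) x = κ) {K : List ℕ} (hK : Inv C ℓ K) :
    Inv C ℓ (stepCore pr Fx full sd s r T K) := by
  rw [stepCore, wl_eq, wl_eq, wl_eq, wl_eq, wl_eq, wl_eq, wl_eq]
  set Ms := lget K s with hMs
  set Mr := lget K r with hMr
  set Qsr := Nat.lor (Nat.land Ms (progApply (pr r) Ms)) (lget Fx r) with hQsr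
  set Qrs := Nat.lor (Nat.land Mr (progApply (pr s) Mr)) (lget Fx s) with hQrs
  set Pq := progApply (pr r) Qsr with hPq
  set Tx := tx2 pr K full s r T with hTx
  set W3 := Nat.land Qrs Pq with hW3
  -- the walk in the coordinate y = third point
  have hwalk : ∀ y, y < n →
      (ℓ s (piP pr s (piP pr r y)) * ℓ s y) * (ℓ r (piP pr r y) * ℓ r (piP pr s y)) *
        walkP pr ℓ T (piP pr r (piP pr s y)) = κ := by
    intro y hy
    have h1 := hw (piP pr s (piP pr r y)) (hS.hlt _ _ (hS.hlt _ _ hy))
    simp only [walkP] at h1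
    rw [hS.hinv, hS.hinv] at h1
    rw [← h1]
    ac_rfl
  -- meaning of the masks
  have hQrsM : ∀ y, Qrs.testBit y = true → ℓ r (piP pr r y) * ℓ r (piP pr s y) ∈ C := by
    intro y hy
    rw [hQrs, bit_lor hS, bit_land hS, ap_bit hS] at hy
    rcases hy with ⟨h1, h2⟩ | h1
    · exact C.mul_mem (tie_mem' hS (hK _ _ h1)) (hK _ _ h2)
    · have h3 := hFx s y h1
      rw [h3, hS.htie]
      exact C.one_mem
  have hQsrM : ∀ y, Pq.testBit y = true → ℓ s (piP pr s (piP pr r y)) * ℓ s y ∈ C := by
    intro y hy
    rw [hPq, ap_bit hS, hQsr, bit_lor hS, bit_land hS, ap_bit hS, hS.hinv] at hy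
    rcases hy with ⟨h1, h2⟩ | h1
    · exact C.mul_mem (tie_mem hS (by rw [hS.hinv]; exact hK _ _ h1)) (hK _ _ h2)
    · have h3 := hFx r _ h1
      rw [hS.hinv] at h3
      -- π r y = y
      have h4 : piP pr r y = y := h3.symm
      rw [h4, hS.htie]
      exact C.one_mem
  have hTxM : ∀ y, Tx.testBit y = true → walkP pr ℓ T (piP pr r (piP pr s y)) ∈ C :=
    fun y hy => tx2_mem hS hK hT hy
  -- the continuation, assuming the value is known
  have hcont : κ ∈ C → Inv C ℓ (stepCont pr K s r T Ms Mr Qrs Pq Tx W3) := by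
    intro hκ
    rw [stepCont, wl_eq, wl_eq, wl_eq, wl_eq, wl_eq]
    have hVs : ∀ i, (Nat.lor (Nat.lor Ms (progApply (pr r) (Nat.land Ms (Nat.land Qrs Tx))))
        (Nat.land (progApply (pr r) Ms) (Nat.land Qrs Tx))).testBit i = true → ℓ s i ∈ C := by
      intro i hi
      simp only [bit_lor hS, bit_land hS, ap_bit hS] at hi
      rcases hi with (hi | ⟨h1, h2, h3⟩) | ⟨h1, h2, h3⟩
      · exact hK _ _ hi
      · -- target i = x₁, with y = π r i
        set y := piP pr r i with hy
        by_cases hyn : y < n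
        · have hrel := hwalk y hyn
          have hr := hQrsM y h2
          have ht := hTxM y h3
          have hsy : ℓ s y ∈ C := hK _ _ h1
          have hsx : ℓ s (piP pr s (piP pr r y)) ∈ C := by
            have h5 : (ℓ s (piP pr s (piP pr r y)) * ℓ s y) * (ℓ r (piP pr r y) * ℓ r (piP pr s y)) ∈ C := by
              have := hκ
              rw [← hrel] at this
              exact (C.mul_mem_cancel_right ht).mp this
            have h6 := (C.mul_mem_cancel_right hr).mp h5
            exact (C.mul_mem_cancel_right hsy).mp h6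
          rw [hy, hS.hinv] at hsx
          exact tie_mem hS hsx
        · have h7 : n ≤ y := not_lt.mp hyn
          have h8 := hi_pi hS (x := r) h7
          rw [hy, hS.hinv] at h8
          rw [hS.hhi _ _ h8]; exact C.one_mem
      · by_cases hyn : i < n
        · have hrel := hwalk i hyn
          have hr := hQrsM i h2
          have ht := hTxM i h3
          have hsx : ℓ s (piP pr s (piP pr r i)) ∈ C := tie_mem' hS (hK _ _ h1)
          have h5 : (ℓ s (piP pr s (piP pr r i)) * ℓ s i) * (ℓ r (piP pr r i) * ℓ r (piP pr s i)) ∈ C := by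
            have := hκ
            rw [← hrel] at this
            exact (C.mul_mem_cancel_right ht).mp this
          have h6 := (C.mul_mem_cancel_right hr).mp h5
          exact (C.mul_mem_cancel_left hsx).mp h6
        · rw [hS.hhi _ _ (not_lt.mp hyn)]; exact C.one_mem
    have hVr : ∀ i, (Nat.lor (Nat.lor Mr (Nat.land (progApply (pr s) Mr) (Nat.land Pq Tx)))
        (progApply (pr s) (Nat.land Mr (Nat.land Pq Tx)))).testBit i = true → ℓ r i ∈ C := by
      intro i hi
      simp only [bit_lor hS, bit_land hS, ap_bit hS] at hi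
      rcases hi with (hi | ⟨h1, h2, h3⟩) | ⟨h1, h2, h3⟩
      · exact hK _ _ hi
      · -- target i = x₂ , uses label at x₃
        by_cases hyn : i < n
        · have hrel := hwalk i hyn
          have hs := hQsrM i h2
          have ht := hTxM i h3
          have hx3 : ℓ r (piP pr s i) ∈ C := hK _ _ h1
          have h5 : (ℓ s (piP pr s (piP pr r i)) * ℓ s i) * (ℓ r (piP pr r i) * ℓ r (piP pr s i)) ∈ C := by
            have := hκ
            rw [← hrel] at this
            exact (C.mul_mem_cancel_right ht).mp this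
          have h6 := (C.mul_mem_cancel_left hs).mp h5
          have h7 := (C.mul_mem_cancel_right hx3).mp h6
          exact tie_mem hS h7
        · rw [hS.hhi _ _ (not_lt.mp hyn)]; exact C.one_mem
      · -- target i = x₃ with y = π s i
        set y := piP pr s i with hy
        by_cases hyn : y < n
        · have hrel := hwalk y hyn
          have hs := hQsrM y h2
          have ht := hTxM y h3
          have hx1 : ℓ r (piP pr r y) ∈ C := tie_mem' hS (hK _ _ h1)
          have h5 : (ℓ s (piP pr s (piP pr r y)) * ℓ s y) * (ℓ r (piP pr r y) * ℓ r (piP pr s y)) ∈ C := by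
            have := hκ
            rw [← hrel] at this
            exact (C.mul_mem_cancel_right ht).mp this
          have h6 := (C.mul_mem_cancel_left hs).mp h5
          have h7 := (C.mul_mem_cancel_left hx1).mp h6
          rwa [hy, hS.hinv] at h7
        · have h7 : n ≤ y := not_lt.mp hyn
          have h8 := hi_pi hS (x := s) h7
          rw [hy, hS.hinv] at h8
          rw [hS.hhi _ _ h8]; exact C.one_mem
    refine tailUpd_inv hS (closeTie_inv hS (closeTie_inv hS hK hVs) hVr) hT ?_
    intro i hi
    rw [ap_bit hS, ap_bit hS, hW3, bit_land hS] at hi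
    set y := piP pr s (piP pr r i) with hy
    by_cases hyn : y < n
    · right
      have hrel := hwalk y hyn
      have hyy : piP pr r (piP pr s y) = i := by rw [hy, hS.hinv, hS.hinv]
      rw [hyy] at hrel
      have h5 : (ℓ s (piP pr s (piP pr r y)) * ℓ s y) * (ℓ r (piP pr r y) * ℓ r (piP pr s y)) ∈ C :=
        C.mul_mem (hQsrM y hi.2) (hQrsM y hi.1)
      have := hκ
      rw [← hrel] at this
      exact (C.mul_mem_cancel_left h5).mp this
    · left
      have h7 : n ≤ y := not_lt.mp hyn
      have h8 := hi_pi hS (x := s) h7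
      rw [hy, hS.hinv] at h8
      have h9 := hi_pi hS (x := r) h8
      rwa [hS.hinv] at h9
  cases sd with
  | true => exact hcont (hsd rfl)
  | false =>
    show Inv C ℓ (Bool.rec K (stepCont pr K s r T Ms Mr Qrs Pq Tx W3) (not (Nat.beq (Nat.land (Nat.land W3 Tx) full) 0)))
    cases hb : Nat.beq (Nat.land (Nat.land W3 Tx) full) 0 with
    | true => exact hK
    | false =>
      -- a full walk is known
      have h0 : Nat.land (Nat.land W3 Tx) full ≠ 0 := by
        intro h
        rw [h] at hb
        simp at hb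
      obtain ⟨y, hy⟩ := Nat.exists_testBit_of_ne_zero h0
      rw [bit_land hS, bit_land hS, hW3, bit_land hS] at hy
      have hκ : κ ∈ C := by
        have hyn : y < n := hfull y hy.2
        have hrel := hwalk y hyn
        rw [← hrel]
        exact C.mul_mem (C.mul_mem (hQsrM y hy.1.1.2) (hQrsM y hy.1.1.1)) (hTxM y hy.1.2)
      exact hcont hκ

end sound

end Cfsg.Agent.Lib.MaskClosure12
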