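import Mathlib
import Cfsg.Agent.Lib.MaskClosure12
import Cfsg.Prelude.Def_KGroupFacts
import Cfsg.Agent.Lib.CoverTau12

/-!
# Labels of a stem extension over a permutation action with involutory generators

`Q` acts on points `pt i`, `i < n`, involutions `g j` generate `Q` and act by bit programs.  For a stem extension
`σ : Γ →* Q` and `P` the preimage of a perfect point stabiliser `Hb`, we choose lifts `x̂ j` and a transversal `ŝ i`
and obtain labels `ℓ j i` in the abelianisation of `P`, for which the deduction closure of `MaskClosure12` applies.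
If all the labels lie in the powers of an element of order at most 2, the kernel of `σ` has order dividing `2 d`,
where `d` bounds the stem extensions of `Hb`.
-/

set_option autoImplicit false
set_option linter.unusedVariables false
set_option linter.unusedSectionVars false
set_option linter.style.haveILetI false

namespace Cfsg.Agent.Lib.MaskStem12

open Cfsg Subgroup Cfsg.Agent.Lib.TcBits Cfsg.Agent.Lib.BitClose Cfsg.Agent.Lib.MaskClosure12
open scoped commutatorElement

universe u v w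

section Sub

variable {Q : Type v} [Group Q] {Γ : Type u} [Group Γ] {σ : Γ →* Q}

/-- The map from the preimage of a subgroup. -/
abbrev fOf (σ : Γ →* Q) (Hb : Subgroup Q) : ↥(Hb.comap σ) →* ↥Hb := σ.subgroupComap Hb

theorem fOf_surj (hσ : IsStemExtension σ) (Hb : Subgroup Q) : Function.Surjective (fOf σ Hb) :=
  σ.subgroupComap_surjective_of_surjective Hb hσ.1

theorem fOf_ker (Hb : Subgroup Q) (y : ↥(Hb.comap σ)) : y ∈ (fOf σ Hb).ker ↔ y.1 ∈ σ.ker := by
  rw [MonoidHom.mem_ker, MonoidHom.mem_ker]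
  constructor
  · intro h
    exact congrArg Subtype.val h
  · intro h
    exact Subtype.ext h

/-- The restriction to the commutator subgroup of the preimage. -/
abbrev gOf (σ : Γ →* Q) (Hb : Subgroup Q) : ↥(commutator ↥(Hb.comap σ)) →* ↥Hb :=
  (fOf σ Hb).comp (commutator ↥(Hb.comap σ)).subtype

theorem gOf_surj (hσ : IsStemExtension σ) {Hb : Subgroup Q} (hperf : commutator ↥Hb = ⊤) :
    Function.Surjective (gOf σ Hb) := by
  intro h
  have h1 : (commutator ↥(Hb.comap σ)).map (fOf σ Hb) = ⊤ := by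
    rw [_root_.commutator_def, Subgroup.map_commutator, Subgroup.map_top_of_surjective _ (fOf_surj hσ Hb)]
    exact hperf
  have h2 : h ∈ (commutator ↥(Hb.comap σ)).map (fOf σ Hb) := by rw [h1]; exact mem_top _
  obtain ⟨y, hy, hyh⟩ := h2
  exact ⟨⟨y, hy⟩, hyh⟩

theorem central_of_ker (hσ : IsStemExtension σ) {Hb : Subgroup Q} {y : ↥(Hb.comap σ)} (hy : y.1 ∈ σ.ker)
    (z : ↥(Hb.comap σ)) : Commute y z := by
  apply Subtype.ext
  exact ((Subgroup.mem_center_iff.mp (hσ.2.1 hy) z.1).symm)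

theorem comm_perfect (hσ : IsStemExtension σ) {Hb : Subgroup Q} (hperf : commutator ↥Hb = ⊤) :
    commutator ↥(commutator ↥(Hb.comap σ)) = ⊤ := by
  set P := Hb.comap σ with hP
  set CP := commutator ↥P with hCP
  have hdec : ∀ a : ↥P, ∃ c : ↥CP, ∃ z : ↥P, z.1 ∈ σ.ker ∧ a = (c : ↥P) * z := by
    intro a
    obtain ⟨c, hc⟩ := gOf_surj hσ hperf (fOf σ Hb a)
    refine ⟨c, (c : ↥P)⁻¹ * a, ?_, by group⟩
    rw [← fOf_ker, MonoidHom.mem_ker, map_mul, map_inv]
    have : fOf σ Hb (c : ↥P) = fOf σ Hb a := hc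
    rw [this, inv_mul_cancel]
  have hle : CP ≤ ⁅CP, CP⁆ := by
    rw [hCP]
    conv_lhs => rw [_root_.commutator_def]
    rw [Subgroup.commutator_le]
    intro a _ b _
    obtain ⟨c₁, z₁, h₁, e₁⟩ := hdec a
    obtain ⟨c₂, z₂, h₂, e₂⟩ := hdec b
    have e3 : ⁅a, b⁆ = ⁅(c₁ : ↥P), (c₂ : ↥P)⁆ := by
      rw [e₁, e₂]
      exact Cfsg.Agent.Lib.CoverTau12.comm_central (central_of_ker hσ h₁ _) (central_of_ker hσ h₂ _)
        (central_of_ker hσ h₁ _)
    rw [e3]
    exact Subgroup.commutator_mem_commutator c₁.2 c₂.2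
  rw [eq_top_iff]
  intro x _
  have h1 : x.1 ∈ ⁅CP, CP⁆ := hle x.2
  rw [← Subgroup.map_subtype_commutator] at h1
  obtain ⟨z, hz, hzx⟩ := h1
  have : z = x := Subtype.ext hzx
  rwa [← this]

theorem gOf_stem (hσ : IsStemExtension σ) {Hb : Subgroup Q} (hperf : commutator ↥Hb = ⊤) :
    IsStemExtension (gOf σ Hb) := by
  refine ⟨gOf_surj hσ hperf, ?_, ?_⟩
  · intro y hy
    rw [Subgroup.mem_center_iff]
    intro z
    apply Subtype.ext
    have h1 : (y : ↥(Hb.comap σ)).1 ∈ σ.ker := (fOf_ker Hb _).mp hy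
    exact ((central_of_ker hσ h1 (z : ↥(Hb.comap σ))).symm).eq
  · rw [comm_perfect hσ hperf]
    exact le_top

/-- The lifts of a generating set generate. -/
theorem closure_lifts_top (hσ : IsStemExtension σ) {S : Set Q} (hS : Subgroup.closure S = ⊤) {T : Set Γ}
    (hT : ∀ s ∈ S, ∃ t ∈ T, σ t = s) : Subgroup.closure T = ⊤ := by
  set M := Subgroup.closure T with hM
  have h1 : ∀ q : Q, ∃ t ∈ M, σ t = q := by
    intro q
    have hq : q ∈ Subgroup.closure S := by rw [hS]; exact mem_top _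
    induction hq using Subgroup.closure_induction with
    | mem s hs =>
      obtain ⟨t, ht, hts⟩ := hT s hs
      exact ⟨t, Subgroup.subset_closure ht, hts⟩
    | one => exact ⟨1, M.one_mem, map_one _⟩
    | mul a b _ _ ha hb =>
      obtain ⟨x, hx, hxa⟩ := ha
      obtain ⟨y, hy, hyb⟩ := hb
      exact ⟨x * y, M.mul_mem hx hy, by rw [map_mul, hxa, hyb]⟩
    | inv a _ ha =>
      obtain ⟨x, hx, hxa⟩ := ha
      exact ⟨x⁻¹, M.inv_mem hx, by rw [map_inv, hxa]⟩
  have h2 : ∀ y : Γ, ∃ t ∈ M, ∃ z ∈ σ.ker, y = t * z := by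
    intro y
    obtain ⟨t, ht, hty⟩ := h1 (σ y)
    refine ⟨t, ht, t⁻¹ * y, ?_, by group⟩
    rw [MonoidHom.mem_ker, map_mul, map_inv, hty, inv_mul_cancel]
  have h3 : commutator Γ ≤ M := by
    rw [_root_.commutator_def, Subgroup.commutator_le]
    intro a _ b _
    obtain ⟨t₁, ht₁, z₁, hz₁, e₁⟩ := h2 a
    obtain ⟨t₂, ht₂, z₂, hz₂, e₂⟩ := h2 b
    have c1 := Subgroup.mem_center_iff.mp (hσ.2.1 hz₁)
    have c2 := Subgroup.mem_center_iff.mp (hσ.2.1 hz₂)
    have e3 : ⁅a, b⁆ = ⁅t₁, t₂⁆ := by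
      rw [e₁, e₂]
      exact Cfsg.Agent.Lib.CoverTau12.comm_central (show Commute z₁ t₂ from (c1 t₂).symm)
        (show Commute z₂ t₁ from (c2 t₁).symm) (show Commute z₁ z₂ from (c1 z₂).symm)
    rw [e3, commutatorElement_def]
    exact M.mul_mem (M.mul_mem (M.mul_mem ht₁ ht₂) (M.inv_mem ht₁)) (M.inv_mem ht₂)
  rw [eq_top_iff]
  intro y _
  obtain ⟨t, ht, z, hz, e⟩ := h2 y
  rw [e]
  exact M.mul_mem ht (h3 (hσ.2.2 hz))

end Sub

section Level

variable {Q : Type v} {X : Type w} [Group Q] [MulAction Q X] {x0 : X}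
  {pr : ℕ → List (ℕ × ℕ)} {N n m : ℕ} {g : ℕ → Q} {pt : ℕ → X} {par dep f : ℕ → ℕ}

/-- An action on points with involutory generators, bit programs, a spanning tree and fixed points. -/
structure Lev (x0 : X) (pr : ℕ → List (ℕ × ℕ)) (N n m : ℕ) (g : ℕ → Q) (pt : ℕ → X) (par dep f : ℕ → ℕ) : Prop where
  hv : ∀ x, validProg N (pr x) = true
  hinv : ∀ x i, piP pr x (piP pr x i) = i
  hlt : ∀ x i, i < n → piP pr x i < n
  hn : 0 < n
  hg2 : ∀ j, j < m → g j * g j = 1
  hgen : Subgroup.closure (g '' Set.Iio m) = ⊤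
  hact : ∀ j i, j < m → i < n → g j • pt i = pt (piP pr j i)
  hinj : ∀ i i', i < n → i' < n → pt i = pt i' → i = i'
  hpt0 : pt 0 = x0
  hpar : ∀ i, 0 < i → i < n → par i < m
  hdep : ∀ i, 0 < i → i < n → dep (piP pr (par i) i) < dep i
  hf : ∀ j, j < m → f j < n
  hff : ∀ j, j < m → piP pr j (f j) = f j

variable {Γ : Type u} [Group Γ]

/-- The lifts of the transversal along the tree, by recursion on a fuel. -/
noncomputable def sHat (pr : ℕ → List (ℕ × ℕ)) (n : ℕ) (par : ℕ → ℕ) (x : ℕ → Γ) : ℕ → ℕ → Γ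
  | 0, _ => 1
  | k + 1, i => if i = 0 ∨ n ≤ i then 1 else x (par i) * sHat pr n par x k (piP pr (par i) i)

variable (L : Lev x0 pr N n m g pt par dep f)
include L

theorem sHat_stable (x : ℕ → Γ) : ∀ k k' i, dep i < k → dep i < k' → i < n →
    sHat pr n par x k i = sHat pr n par x k' i := by
  intro k
  induction k with
  | zero => intro _ _ h; omega
  | succ k ih =>
    intro k' i h1 h2 hi
    cases k' with
    | zero => omega
    | succ k' =>
      simp only [sHat]
      by_cases h0 : i = 0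
      · simp [h0]
      · have hpos : 0 < i := Nat.pos_of_ne_zero h0
        have hd := L.hdep i hpos hi
        have hlt := L.hlt (par i) i hi
        rw [if_neg (by omega), if_neg (by omega)]
        rw [ih k' _ (by omega) (by omega) hlt]

omit L in
/-- The transversal. -/
noncomputable def sH (pr : ℕ → List (ℕ × ℕ)) (n : ℕ) (par dep : ℕ → ℕ) (x : ℕ → Γ) (i : ℕ) : Γ :=
  sHat pr n par x (dep i + 1) i

omit L in
theorem sH_zero (x : ℕ → Γ) : sH pr n par dep x 0 = 1 := by
  simp [sH, sHat]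

theorem sH_succ (x : ℕ → Γ) {i : ℕ} (hpos : 0 < i) (hi : i < n) :
    sH pr n par dep x i = x (par i) * sH pr n par dep x (piP pr (par i) i) := by
  have hd := L.hdep i hpos hi
  have hlt := L.hlt (par i) i hi
  have e1 : sH pr n par dep x i = if i = 0 ∨ n ≤ i then 1 else x (par i) * sHat pr n par x (dep i) (piP pr (par i) i) := rfl
  rw [e1, if_neg (by omega)]
  rw [sHat_stable L x (dep i) (dep (piP pr (par i) i) + 1) _ (by omega) (by omega) hlt]
  rfl

theorem exists_q : ∀ k i, dep i < k → i < n → ∃ q : Q, q • x0 = pt i := by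
  intro k
  induction k with
  | zero => intro _ h; omega
  | succ k ih =>
    intro i h1 hi
    by_cases h0 : i = 0
    · exact ⟨1, by rw [one_smul, h0, L.hpt0]⟩
    · have hpos : 0 < i := Nat.pos_of_ne_zero h0
      have hd := L.hdep i hpos hi
      have hlt := L.hlt (par i) i hi
      obtain ⟨q, hq⟩ := ih _ (by omega) hlt
      refine ⟨g (par i) * q, ?_⟩
      rw [mul_smul, hq, L.hact _ _ (L.hpar i hpos hi) hlt, L.hinv]

variable {σ : Γ →* Q} (hσ : IsStemExtension σ)
  (hperf : commutator ↥(MulAction.stabilizer Q x0) = ⊤)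
include hσ hperf

theorem mem_P {z : Γ} : z ∈ (MulAction.stabilizer Q x0).comap σ ↔ σ z • x0 = x0 := by
  rw [Subgroup.mem_comap]
  exact MulAction.mem_stabilizer_iff

/-- The normalised lift of a generator. -/
theorem exists_lift {j : ℕ} (hj : j < m) : ∃ y : Γ, σ y = g j ∧
    (y * y ∈ σ.ker) ∧
    (∃ c : ↥(commutator ↥((MulAction.stabilizer Q x0).comap σ)), (c : ↥((MulAction.stabilizer Q x0).comap σ)).1 = y * y) ∧
    ∀ t : Γ, σ t • x0 = pt (f j) → ∃ (c : ↥(commutator ↥((MulAction.stabilizer Q x0).comap σ))),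
      (c : ↥((MulAction.stabilizer Q x0).comap σ)).1 = t⁻¹ * y * t := by
  classical
  set P := (MulAction.stabilizer Q x0).comap σ with hP
  have hPm : ∀ {z : Γ}, z ∈ P ↔ σ z • x0 = x0 := fun {z} => mem_P L hσ hperf
  obtain ⟨q, hq⟩ := exists_q L _ (f j) (Nat.lt_succ_self _) (L.hf j hj)
  obtain ⟨qh, hqh⟩ := hσ.1 q
  obtain ⟨y0, hy0⟩ := hσ.1 (g j)
  have hfix : g j • pt (f j) = pt (f j) := by
    rw [L.hact _ _ hj (L.hf j hj), L.hff j hj]
  have ha : qh⁻¹ * y0 * qh ∈ P := by
    rw [hPm, map_mul, map_mul, map_inv, hqh, hy0, mul_smul, mul_smul, hq, hfix, ← hq, inv_smul_smul]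
  obtain ⟨c, hc⟩ := gOf_surj hσ hperf (fOf σ _ ⟨_, ha⟩)
  have hc1 : σ (c : ↥P).1 = σ (qh⁻¹ * y0 * qh) := congrArg Subtype.val hc
  have hy : σ (qh * (c : ↥P).1 * qh⁻¹) = g j := by
    rw [map_mul, map_mul, hc1, map_inv, map_mul, map_mul, map_inv]
    group
    rw [hy0]
  have hy2 : σ ((qh * (c : ↥P).1 * qh⁻¹) * (qh * (c : ↥P).1 * qh⁻¹)) = 1 := by
    rw [map_mul, hy, L.hg2 j hj]
  have hyk : (qh * (c : ↥P).1 * qh⁻¹) * (qh * (c : ↥P).1 * qh⁻¹) ∈ σ.ker := hy2
  refine ⟨qh * (c : ↥P).1 * qh⁻¹, hy, hyk, ⟨c * c, ?_⟩, ?_⟩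
  · -- the square is `c ^ 2`, being central
    have e1 : (qh * (c : ↥P).1 * qh⁻¹) * (qh * (c : ↥P).1 * qh⁻¹) = qh * ((c : ↥P).1 * (c : ↥P).1) * qh⁻¹ := by group
    rw [e1] at hyk
    have hZ := Subgroup.mem_center_iff.mp (hσ.2.1 hyk)
    show (c : ↥P).1 * (c : ↥P).1 = _
    rw [e1]
    calc (c : ↥P).1 * (c : ↥P).1 = qh⁻¹ * (qh * ((c : ↥P).1 * (c : ↥P).1) * qh⁻¹) * qh := by group
      _ = (qh * ((c : ↥P).1 * (c : ↥P).1) * qh⁻¹) * qh⁻¹ * qh := by rw [hZ qh⁻¹]
      _ = qh * ((c : ↥P).1 * (c : ↥P).1) * qh⁻¹ := by group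
  · intro t ht
    have hp : qh⁻¹ * t ∈ P := by
      rw [hPm, map_mul, map_inv, hqh, mul_smul, ht, ← hq, inv_smul_smul]
    refine ⟨⟨(⟨_, hp⟩ : ↥P)⁻¹ * (c : ↥P) * ⟨_, hp⟩, ?_⟩, ?_⟩
    · have hnorm : (commutator ↥P).Normal := inferInstance
      have := hnorm.conj_mem (c : ↥P) c.2 (⟨_, hp⟩ : ↥P)⁻¹
      simpa using this
    · show (qh⁻¹ * t)⁻¹ * (c : ↥P).1 * (qh⁻¹ * t) = t⁻¹ * (qh * (c : ↥P).1 * qh⁻¹) * t
      group


omit L hσ hperf in
/-- The value of a word. -/
def gEv (g : ℕ → Q) : List ℕ → Q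
  | [] => 1
  | j :: w => gEv g w * g j

omit L hσ hperf in
/-- The hypothesis of the deduction closure, for labels in a fixed universe. -/
def ClosureOK (B : Type u) [CommGroup B] (pr : ℕ → List (ℕ × ℕ)) (N n m : ℕ) (par f : ℕ → ℕ)
    (Rel : Set (List ℕ)) (seed : List ℕ) : Prop :=
  ∀ (C : Subgroup B) (ℓ : ℕ → ℕ → B), LSys pr N n ℓ →
    (∀ i, 0 < i → i < n → ℓ (par i) i ∈ C) → (∀ j, j < m → ℓ j (f j) ∈ C) →
    (∀ w ∈ Rel, ∃ κ, ∀ x, x < n → walkP pr ℓ w x = κ) →
    (∃ κ ∈ C, ∀ x, x < n → walkP pr ℓ seed x = κ) →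
    ∀ j i, j < m → i < n → ℓ j i ∈ C

/-- The bound on the kernel. -/
theorem card_ker_dvd_two {Rel : Set (List ℕ)} {seed : List ℕ}
    (hCl : ClosureOK (Abelianization ↥((MulAction.stabilizer Q x0).comap σ)) pr N n m par f Rel seed)
    (hRel : ∀ w ∈ Rel, (∀ j ∈ w, j < m) ∧ gEv g w = 1) (hseed : seed ∈ Rel)
    {H' : Subgroup Q} (hH'p : commutator ↥H' = ⊤)
    (hH'k : ∀ (Γ' : Type u) [Group Γ'] [Finite Γ'] (σ' : Γ' →* ↥H'), IsStemExtension σ' → Nat.card σ'.ker ∣ 1)
    (hseedH : ∀ j ∈ seed, g j ∈ H')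
    {d : ℕ} (hKer : ∀ (Γ' : Type u) [Group Γ'] [Finite Γ'] (σ' : Γ' →* ↥(MulAction.stabilizer Q x0)),
      IsStemExtension σ' → Nat.card σ'.ker ∣ d) [Finite Γ] :
    Nat.card σ.ker ∣ d * 2 := by
  classical
  set Hb := MulAction.stabilizer Q x0 with hHb
  set P := Hb.comap σ with hP
  have hPm : ∀ {z : Γ}, z ∈ P ↔ σ z • x0 = x0 := fun {z} => mem_P L hσ hperf
  let ρ : ↥P →* Abelianization ↥P := Abelianization.of
  have hρk : ρ.ker = commutator ↥P := Abelianization.ker_of _
  have hkerP : ∀ {z : Γ}, z ∈ σ.ker → z ∈ P := by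
    intro z hz
    rw [hPm, MonoidHom.mem_ker.mp hz, one_smul]
  have hcenter : ∀ {z : Γ}, z ∈ σ.ker → ∀ y : Γ, z * y = y * z := by
    intro z hz y
    exact (Subgroup.mem_center_iff.mp (hσ.2.1 hz) y).symm
  -- the labels of elements
  let rr : Γ → Abelianization ↥P := fun z => if h : z ∈ P then ρ ⟨z, h⟩ else 1
  have rr_mem : ∀ {z : Γ} (h : z ∈ P), rr z = ρ ⟨z, h⟩ := fun {z} h => dif_pos h
  have rr_mul : ∀ {a b : Γ}, a ∈ P → b ∈ P → rr (a * b) = rr a * rr b := by
    intro a b ha hb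
    rw [rr_mem (P.mul_mem ha hb), rr_mem ha, rr_mem hb, ← map_mul]
    rfl
  have rr_comm : ∀ {z : Γ} (c : ↥(commutator ↥P)), (c : ↥P).1 = z → rr z = 1 := by
    intro z c hc
    subst hc
    rw [rr_mem (c : ↥P).2]
    have h1 : (c : ↥P) ∈ ρ.ker := by rw [hρk]; exact c.2
    exact h1
  -- the lifts
  have hlift := fun j (hj : j < m) => exists_lift L hσ hperf hj
  let xh : ℕ → Γ := fun j => if hj : j < m then Classical.choose (hlift j hj) else 1
  have xh_spec : ∀ j (hj : j < m), σ (xh j) = g j ∧ (xh j * xh j ∈ σ.ker) ∧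
      (∃ c : ↥(commutator ↥P), (c : ↥P).1 = xh j * xh j) ∧
      ∀ t : Γ, σ t • x0 = pt (f j) → ∃ c : ↥(commutator ↥P), (c : ↥P).1 = t⁻¹ * xh j * t := by
    intro j hj
    have : xh j = Classical.choose (hlift j hj) := dif_pos hj
    rw [this]
    exact Classical.choose_spec (hlift j hj)
  let sh : ℕ → Γ := sH pr n par dep xh
  have sh0 : sh 0 = 1 := sH_zero xh
  have shS : ∀ i, 0 < i → i < n → sh i = xh (par i) * sh (piP pr (par i) i) := fun i h1 h2 => sH_succ L xh h1 h2
  have sh_pt : ∀ k i, dep i < k → i < n → σ (sh i) • x0 = pt i := by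
    intro k
    induction k with
    | zero => intro _ h; omega
    | succ k ih =>
      intro i h1 hi
      by_cases h0 : i = 0
      · rw [h0, sh0, map_one, one_smul, L.hpt0]
      · have hpos : 0 < i := Nat.pos_of_ne_zero h0
        have hd := L.hdep i hpos hi
        have hlt := L.hlt (par i) i hi
        rw [shS i hpos hi, map_mul, mul_smul, ih _ (by omega) hlt, (xh_spec _ (L.hpar i hpos hi)).1,
          L.hact _ _ (L.hpar i hpos hi) hlt, L.hinv]
  have sh_pt' : ∀ i, i < n → σ (sh i) • x0 = pt i := fun i hi => sh_pt _ i (Nat.lt_succ_self _) hi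
  -- elements of `P` between two points
  have hbet : ∀ {y : Γ} {x e : ℕ}, x < n → e < n → σ y • pt x = pt e → (sh e)⁻¹ * y * sh x ∈ P := by
    intro y x e hx he h
    rw [hPm, map_mul, map_mul, map_inv, mul_smul, mul_smul, sh_pt' x hx, h, ← sh_pt' e he, inv_smul_smul]
  -- a central element
  have hconj : ∀ {z : Γ} (t : Γ), z ∈ σ.ker → t⁻¹ * z * t = z := by
    intro z t hz
    rw [mul_assoc, hcenter hz t, inv_mul_cancel_left]
  have rr_square : ∀ j (hj : j < m) (t : Γ), rr (t⁻¹ * (xh j * xh j) * t) = 1 := by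
    intro j hj t
    obtain ⟨-, h2, ⟨c, hc⟩, -⟩ := xh_spec j hj
    rw [hconj t h2]
    exact rr_comm c hc
  -- the labels
  let uu : ℕ → ℕ → Γ := fun j i => (sh (piP pr j i))⁻¹ * xh j * sh i
  have uu_mem : ∀ j i, j < m → i < n → uu j i ∈ P := by
    intro j i hj hi
    refine hbet hi (L.hlt _ _ hi) ?_
    rw [(xh_spec j hj).1, L.hact _ _ hj hi]
  let ℓ : ℕ → ℕ → Abelianization ↥P := fun j i => if j < m ∧ i < n then rr (uu j i) else 1
  have ℓ_def : ∀ {j i}, j < m → i < n → ℓ j i = rr (uu j i) := fun {j i} h1 h2 => if_pos ⟨h1, h2⟩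
  have hS : LSys pr N n ℓ := by
    refine ⟨L.hv, L.hinv, L.hlt, ?_, ?_⟩
    · intro x i hi
      exact if_neg (by omega)
    · intro j i
      by_cases hj : j < m
      · by_cases hi : i < n
        · have hi' := L.hlt j i hi
          rw [ℓ_def hj hi', ℓ_def hj hi, ← rr_mul (uu_mem j _ hj hi') (uu_mem j _ hj hi)]
          have e1 : uu j (piP pr j i) * uu j i = (sh i)⁻¹ * (xh j * xh j) * sh i := by
            simp only [uu]
            rw [L.hinv]
            group
          rw [e1]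
          exact rr_square j hj _
        · have h1 : ¬ piP pr j i < n := by
            intro h
            have := L.hlt j _ h
            rw [L.hinv] at this
            exact hi this
          have e1 : ℓ j (piP pr j i) = 1 := if_neg (by tauto)
          have e2 : ℓ j i = 1 := if_neg (by tauto)
          rw [e1, e2, one_mul]
      · have e1 : ℓ j (piP pr j i) = 1 := if_neg (by tauto)
        have e2 : ℓ j i = 1 := if_neg (by tauto)
        rw [e1, e2, one_mul]
  have htree : ∀ i, 0 < i → i < n → ℓ (par i) i = 1 := by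
    intro i h1 h2
    have hp := L.hpar i h1 h2
    rw [ℓ_def hp h2]
    have e1 : uu (par i) i = (sh (piP pr (par i) i))⁻¹ * (xh (par i) * xh (par i)) * sh (piP pr (par i) i) := by
      simp only [uu]
      rw [shS i h1 h2]
      group
    rw [e1]
    exact rr_square _ hp _
  have hnormal : ∀ j, j < m → ℓ j (f j) = 1 := by
    intro j hj
    rw [ℓ_def hj (L.hf j hj)]
    obtain ⟨-, -, -, h⟩ := xh_spec j hj
    obtain ⟨c, hc⟩ := h (sh (f j)) (sh_pt' _ (L.hf j hj))
    refine rr_comm c ?_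
    rw [hc]
    simp only [uu]
    rw [L.hff j hj]
  -- walks
  let evR : List ℕ → Γ := fun w => List.foldr (fun j acc => acc * xh j) 1 w
  have evR_cons : ∀ j w, evR (j :: w) = evR w * xh j := fun j w => rfl
  let endP : List ℕ → ℕ → ℕ := fun w x => List.foldl (fun acc j => piP pr j acc) x w
  have endP_cons : ∀ j w x, endP (j :: w) x = endP w (piP pr j x) := fun j w x => rfl
  have hwalk : ∀ (w : List ℕ), (∀ j ∈ w, j < m) → ∀ x, x < n →
      endP w x < n ∧ σ (evR w) • pt x = pt (endP w x) ∧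
        rr ((sh (endP w x))⁻¹ * evR w * sh x) = walkP pr ℓ w x ∧ (sh (endP w x))⁻¹ * evR w * sh x ∈ P := by
    intro w
    induction w with
    | nil =>
      intro _ x hx
      refine ⟨hx, ?_, ?_, ?_⟩
      · show σ 1 • pt x = pt x
        rw [map_one, one_smul]
      · show rr ((sh x)⁻¹ * 1 * sh x) = 1
        have e : (sh x)⁻¹ * 1 * sh x = 1 := by group
        rw [e, rr_mem P.one_mem]
        exact map_one ρ
      · show (sh x)⁻¹ * 1 * sh x ∈ P
        have e : (sh x)⁻¹ * 1 * sh x = 1 := by group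
        rw [e]
        exact P.one_mem
    | cons j w ih =>
      intro hw x hx
      have hj : j < m := hw j (by simp)
      have hx' := L.hlt j x hx
      obtain ⟨h1, h2, h3, h4⟩ := ih (fun k hk => hw k (by simp [hk])) _ hx'
      refine ⟨by rw [endP_cons]; exact h1, ?_, ?_, ?_⟩
      · rw [evR_cons, map_mul, mul_smul, (xh_spec j hj).1, L.hact _ _ hj hx, h2, endP_cons]
      · have e : (sh (endP (j :: w) x))⁻¹ * evR (j :: w) * sh x =
            ((sh (endP w (piP pr j x)))⁻¹ * evR w * sh (piP pr j x)) * uu j x := by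
          rw [endP_cons, evR_cons]
          simp only [uu]
          group
        rw [e, rr_mul h4 (uu_mem j x hj hx), h3, ← ℓ_def hj hx]
        show _ = ℓ j x * walkP pr ℓ w (piP pr j x)
        exact mul_comm _ _
      · have e : (sh (endP (j :: w) x))⁻¹ * evR (j :: w) * sh x =
            ((sh (endP w (piP pr j x)))⁻¹ * evR w * sh (piP pr j x)) * uu j x := by
          rw [endP_cons, evR_cons]
          simp only [uu]
          group
        rw [e]
        exact P.mul_mem h4 (uu_mem j x hj hx)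
  have hevR : ∀ w : List ℕ, (∀ j ∈ w, j < m) → σ (evR w) = gEv g w := by
    intro w hw
    induction w with
    | nil => exact map_one σ
    | cons j w ih =>
      rw [evR_cons, map_mul, ih (fun k hk => hw k (by simp [hk])), (xh_spec j (hw j (by simp))).1]
      rfl
  have hconst : ∀ w : List ℕ, (∀ j ∈ w, j < m) → gEv g w = 1 → ∀ x, x < n → walkP pr ℓ w x = rr (evR w) := by
    intro w hw h1 x hx
    obtain ⟨h2, h3, h4, -⟩ := hwalk w hw x hx
    have h5 : σ (evR w) = 1 := by rw [hevR w hw, h1]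
    rw [h5, one_smul] at h3
    have h6 : x = endP w x := L.hinj _ _ hx h2 h3
    rw [← h6] at h4
    rw [← h4, hconj _ h5]
  -- the closure
  set κ := rr (evR seed) with hκ
  have hseedw := hRel seed hseed
  have hκ2 : κ * κ = 1 := by
    -- the extension splits over `H'`
    haveI : Finite ↥(commutator ↥(H'.comap σ)) := inferInstance
    have hsp := hH'k _ (gOf σ H') (gOf_stem hσ hH'p)
    have hinj : Function.Injective (gOf σ H') := by
      rw [← MonoidHom.ker_eq_bot_iff, eq_bot_iff]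
      intro y hy
      have h1 : Nat.card (gOf σ H').ker = 1 := Nat.dvd_one.mp hsp
      haveI : Subsingleton ↥(gOf σ H').ker := (Nat.card_eq_one_iff_unique.mp h1).1
      have h2 : (⟨y, hy⟩ : (gOf σ H').ker) = 1 := Subsingleton.elim _ _
      exact Subgroup.mem_bot.mpr (congrArg Subtype.val h2)
    set C' := commutator ↥(H'.comap σ) with hC'
    have key : ∀ w : List ℕ, (∀ j ∈ w, j < m ∧ g j ∈ H') →
        ∃ (c : ↥C') (z : Γ), evR w = ((c : ↥(H'.comap σ)) : Γ) * z ∧ z ∈ σ.ker ∧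
          σ ((c : ↥(H'.comap σ)) : Γ) = gEv g w ∧ rr (z * z) = 1 := by
      intro w
      induction w with
      | nil =>
        intro _
        refine ⟨1, 1, ?_, σ.ker.one_mem, map_one σ, ?_⟩
        · show (1 : Γ) = 1 * 1
          simp
        · have e : (1 : Γ) * 1 = 1 := mul_one 1
          rw [e, rr_mem P.one_mem]
          exact map_one ρ
      | cons j w ih =>
        intro hw
        obtain ⟨hj, hjH⟩ := hw j (by simp)
        obtain ⟨cw, zw, h1, h2, h3, h4⟩ := ih (fun k hk => hw k (by simp [hk]))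
        obtain ⟨cj, hcj⟩ := gOf_surj hσ hH'p (⟨g j, hjH⟩ : ↥H')
        have hcj' : σ ((cj : ↥(H'.comap σ)) : Γ) = g j := congrArg Subtype.val hcj
        obtain ⟨hx1, hx2, ⟨cc, hcc⟩, -⟩ := xh_spec j hj
        set zj := (((cj : ↥(H'.comap σ)) : Γ))⁻¹ * xh j with hzj
        have hzk : zj ∈ σ.ker := by
          rw [MonoidHom.mem_ker, hzj, map_mul, map_inv, hcj', hx1, inv_mul_cancel]
        have hxj : xh j = ((cj : ↥(H'.comap σ)) : Γ) * zj := by
          rw [hzj, mul_inv_cancel_left]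
        have hc2 : cj * cj = 1 := by
          apply hinj
          rw [map_mul, map_one, hcj]
          apply Subtype.ext
          exact L.hg2 j hj
        have hc3 : ((cj : ↥(H'.comap σ)) : Γ) * ((cj : ↥(H'.comap σ)) : Γ) = 1 :=
          congrArg (fun y : ↥C' => ((y : ↥(H'.comap σ)) : Γ)) hc2
        have hz2 : zj * zj = xh j * xh j := by
          rw [hxj]
          calc zj * zj = (((cj : ↥(H'.comap σ)) : Γ) * ((cj : ↥(H'.comap σ)) : Γ)) * (zj * zj) := by rw [hc3, one_mul]
            _ = ((cj : ↥(H'.comap σ)) : Γ) * (((cj : ↥(H'.comap σ)) : Γ) * zj) * zj := by group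
            _ = ((cj : ↥(H'.comap σ)) : Γ) * (zj * ((cj : ↥(H'.comap σ)) : Γ)) * zj := by rw [hcenter hzk]
            _ = _ := by group
        have hkP1 := hkerP h2
        have hkP2 := hkerP hzk
        refine ⟨cw * cj, zw * zj, ?_, σ.ker.mul_mem h2 hzk, ?_, ?_⟩
        · rw [evR_cons, h1, hxj]
          show ((cw : ↥(H'.comap σ)) : Γ) * zw * (((cj : ↥(H'.comap σ)) : Γ) * zj) =
            ((cw : ↥(H'.comap σ)) : Γ) * ((cj : ↥(H'.comap σ)) : Γ) * (zw * zj)
          calc ((cw : ↥(H'.comap σ)) : Γ) * zw * (((cj : ↥(H'.comap σ)) : Γ) * zj)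
              = ((cw : ↥(H'.comap σ)) : Γ) * (zw * ((cj : ↥(H'.comap σ)) : Γ)) * zj := by group
            _ = ((cw : ↥(H'.comap σ)) : Γ) * (((cj : ↥(H'.comap σ)) : Γ) * zw) * zj := by rw [hcenter h2]
            _ = _ := by group
        · show σ (((cw : ↥(H'.comap σ)) : Γ) * ((cj : ↥(H'.comap σ)) : Γ)) = gEv g w * g j
          rw [map_mul, h3, hcj']
        · have e : zw * zj * (zw * zj) = (zw * zw) * (zj * zj) := by
            calc zw * zj * (zw * zj) = zw * (zj * zw) * zj := by group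
              _ = zw * (zw * zj) * zj := by rw [hcenter hzk]
              _ = _ := by group
          rw [e, rr_mul (P.mul_mem hkP1 hkP1) (P.mul_mem hkP2 hkP2), h4, hz2, one_mul]
          have := rr_square j hj 1
          simpa using this
    obtain ⟨c, z, h1, h2, h3, h4⟩ := key seed (fun j hj => ⟨hseedw.1 j hj, hseedH j hj⟩)
    rw [hseedw.2] at h3
    have hc1 : c = 1 := by
      apply hinj
      rw [map_one]
      apply Subtype.ext
      exact h3
    have h5 : evR seed = z := by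
      rw [h1, hc1]
      show (1 : Γ) * z = z
      rw [one_mul]
    have hkP3 := hkerP h2
    rw [hκ, h5, ← rr_mul hkP3 hkP3]
    exact h4
  let C : Subgroup (Abelianization ↥P) := zpowers κ
  have hall := hCl C ℓ hS
    (fun i h1 h2 => by rw [htree i h1 h2]; exact C.one_mem)
    (fun j hj => by rw [hnormal j hj]; exact C.one_mem)
    (fun w hw => ⟨_, hconst w (hRel w hw).1 (hRel w hw).2⟩)
    ⟨κ, mem_zpowers κ, hconst seed hseedw.1 hseedw.2⟩
  -- generation
  have hgenΓ : Subgroup.closure (xh '' Set.Iio m) = ⊤ := by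
    refine closure_lifts_top hσ L.hgen ?_
    rintro _ ⟨j, hj, rfl⟩
    exact ⟨xh j, ⟨j, hj, rfl⟩, (xh_spec j hj).1⟩
  have hΦ : ∀ y : Γ, ∀ x, x < n → ∃ e, e < n ∧ σ y • pt x = pt e ∧ rr ((sh e)⁻¹ * y * sh x) ∈ C := by
    have key : ∀ y : Γ, (∀ x, x < n → ∃ e, e < n ∧ σ y • pt x = pt e ∧ rr ((sh e)⁻¹ * y * sh x) ∈ C) ∧
        (∀ x, x < n → ∃ e, e < n ∧ σ y⁻¹ • pt x = pt e ∧ rr ((sh e)⁻¹ * y⁻¹ * sh x) ∈ C) := by
      intro y
      have hy : y ∈ Subgroup.closure (xh '' Set.Iio m) := by rw [hgenΓ]; exact mem_top _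
      induction hy using Subgroup.closure_induction with
      | mem z hz =>
        obtain ⟨j, hj, rfl⟩ := hz
        have hj' : j < m := hj
        obtain ⟨h1, h2, ⟨c, hc⟩, -⟩ := xh_spec j hj'
        constructor
        · intro x hx
          refine ⟨piP pr j x, L.hlt _ _ hx, by rw [h1, L.hact _ _ hj' hx], ?_⟩
          have := hall j x hj' hx
          rwa [ℓ_def hj' hx] at this
        · intro x hx
          have hx' := L.hlt j x hx
          refine ⟨piP pr j x, hx', by rw [map_inv, h1, inv_smul_eq_iff, L.hact _ _ hj' hx', L.hinv], ?_⟩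
          have e1 : (sh (piP pr j x))⁻¹ * (xh j)⁻¹ * sh x = uu j x * (sh x)⁻¹ * (xh j * xh j)⁻¹ * sh x := by
            have h3 : (xh j)⁻¹ = xh j * (xh j * xh j)⁻¹ := by group
            simp only [uu]
            rw [h3]
            group
          have e2 : uu j x * (sh x)⁻¹ * (xh j * xh j)⁻¹ * sh x = uu j x * (xh j * xh j)⁻¹ := by
            have h4 := hconj (sh x) (σ.ker.inv_mem h2)
            calc uu j x * (sh x)⁻¹ * (xh j * xh j)⁻¹ * sh x
                = uu j x * ((sh x)⁻¹ * (xh j * xh j)⁻¹ * sh x) := by group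
              _ = uu j x * (xh j * xh j)⁻¹ := by rw [h4]
          rw [e1, e2]
          have hc2 : (xh j * xh j)⁻¹ ∈ P := P.inv_mem (hkerP h2)
          rw [rr_mul (uu_mem j x hj' hx) hc2, ← ℓ_def hj' hx]
          have h5 : rr (xh j * xh j)⁻¹ = 1 := by
            refine rr_comm c⁻¹ ?_
            show ((c : ↥P)⁻¹ : ↥P).1 = _
            rw [← hc]
            rfl
          rw [h5, mul_one]
          exact hall j x hj' hx
      | one =>
        have h : ∀ x, x < n → ∃ e, e < n ∧ σ (1 : Γ) • pt x = pt e ∧ rr ((sh e)⁻¹ * (1 : Γ) * sh x) ∈ C := by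
          intro x hx
          refine ⟨x, hx, by rw [map_one, one_smul], ?_⟩
          have e : (sh x)⁻¹ * 1 * sh x = 1 := by group
          rw [e, rr_mem P.one_mem]
          have : ρ (⟨1, P.one_mem⟩ : ↥P) = 1 := map_one ρ
          rw [this]
          exact C.one_mem
        exact ⟨h, by rw [inv_one]; exact h⟩
      | mul a b _ _ ha hb =>
        have hmul : ∀ (a b : Γ), (∀ x, x < n → ∃ e, e < n ∧ σ a • pt x = pt e ∧ rr ((sh e)⁻¹ * a * sh x) ∈ C) →
            (∀ x, x < n → ∃ e, e < n ∧ σ b • pt x = pt e ∧ rr ((sh e)⁻¹ * b * sh x) ∈ C) →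
            (∀ x, x < n → ∃ e, e < n ∧ σ (a * b) • pt x = pt e ∧ rr ((sh e)⁻¹ * (a * b) * sh x) ∈ C) := by
          intro a b ha hb x hx
          obtain ⟨e1, he1, h1, h2⟩ := hb x hx
          obtain ⟨e2, he2, h3, h4⟩ := ha e1 he1
          refine ⟨e2, he2, by rw [map_mul, mul_smul, h1, h3], ?_⟩
          have e : (sh e2)⁻¹ * (a * b) * sh x = ((sh e2)⁻¹ * a * sh e1) * ((sh e1)⁻¹ * b * sh x) := by group
          rw [e, rr_mul (hbet he1 he2 h3) (hbet hx he1 h1)]
          exact C.mul_mem h4 h2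
        refine ⟨hmul a b ha.1 hb.1, ?_⟩
        rw [mul_inv_rev]
        exact hmul _ _ hb.2 ha.2
      | inv a _ ha =>
        refine ⟨ha.2, ?_⟩
        rw [inv_inv]
        exact ha.1
    exact fun y => (key y).1
  have hn0 : 0 < n := L.hn
  have hallP : ∀ z : ↥P, ρ z ∈ C := by
    intro z
    obtain ⟨e, he, h1, h2⟩ := hΦ z.1 0 hn0
    have hz := hPm.mp z.2
    rw [L.hpt0, hz, ← L.hpt0] at h1
    have e0 : e = 0 := (L.hinj _ _ hn0 he h1).symm
    subst e0
    rw [sh0] at h2
    have e2 : (1 : Γ)⁻¹ * z.1 * 1 = z.1 := by group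
    rw [e2, rr_mem z.2] at h2
    exact h2
  have htop : C = ⊤ := by
    rw [eq_top_iff]
    intro b _
    obtain ⟨y, rfl⟩ := QuotientGroup.mk'_surjective _ b
    exact hallP y
  -- the kernel
  have hKP : ∀ k, k ∈ σ.ker → k ∈ P := fun k hk => hkerP hk
  let gk : σ.ker →* Abelianization ↥P :=
    ρ.comp (MonoidHom.codRestrict (σ.ker.subtype) P (fun k => hKP k.1 k.2))
  haveI : Finite ↥Hb := by
    haveI : Finite Q := Finite.of_surjective σ hσ.1
    infer_instance
  have hd : Nat.card gk.ker ∣ d := by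
    refine dvd_trans ?_ (hKer _ (gOf σ Hb) (gOf_stem hσ hperf))
    let ι : gk.ker →* (gOf σ Hb).ker :=
      { toFun := fun k => ⟨⟨⟨k.1.1, hKP _ k.1.2⟩, by
            have h2 : (⟨k.1.1, hKP _ k.1.2⟩ : ↥P) ∈ ρ.ker := k.2
            rwa [hρk] at h2⟩, by
            apply (fOf_ker Hb _).mpr
            exact k.1.2⟩
        map_one' := rfl
        map_mul' := fun _ _ => rfl }
    have hι : Function.Injective ι := by
      intro a b hab
      have h2 := congrArg (fun z : (gOf σ Hb).ker => ((z : ↥(commutator ↥P)) : ↥P).1) hab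
      exact Subtype.ext (Subtype.ext h2)
    exact Subgroup.card_dvd_of_injective ι hι
  have hr : Nat.card gk.range ∣ 2 := by
    haveI : Finite (Abelianization ↥P) := inferInstance
    have h2 := Subgroup.card_subgroup_dvd_card gk.range
    have h3 : Nat.card (Abelianization ↥P) = orderOf κ := by
      rw [← Nat.card_zpowers]
      show _ = Nat.card ↥C
      rw [htop]
      exact (Nat.card_congr (Subgroup.topEquiv).toEquiv).symm
    rw [h3] at h2
    refine dvd_trans h2 (orderOf_dvd_of_pow_eq_one ?_)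
    rw [pow_two, hκ2]
  have hcard : Nat.card σ.ker = Nat.card gk.ker * Nat.card gk.range := by
    rw [← Subgroup.index_ker, mul_comm, Subgroup.index_mul_card]
  rw [hcard]
  exact mul_dvd_mul hd hr

end Level

end Cfsg.Agent.Lib.MaskStem12
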