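import Mathlib

/-!
# Failure of factorization on a faithful elementary abelian 2-module, part 1: commutators and norms

`M` is a commutative group of exponent 2, `x : MulAut M` an automorphism.
-/

set_option autoImplicit false

namespace Cfsg.Agent.Lib.FFAct

variable {M : Type*} [CommGroup M]

/-- `v ↦ [v, x]`. -/
def comHom (x : MulAut M) : M →* M where
  toFun v := x v * v⁻¹
  map_one' := by simp
  map_mul' a b := by
    rw [map_mul, mul_inv]
    exact mul_mul_mul_comm _ _ _ _

/-- `[M, x]`. -/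
def com (x : MulAut M) : Subgroup M := (comHom x).range

theorem mem_com {x : MulAut M} {w : M} : w ∈ com x ↔ ∃ v, x v * v⁻¹ = w := Iff.rfl

theorem com_mem (x : MulAut M) (v : M) : x v * v⁻¹ ∈ com x := ⟨v, rfl⟩

/-- Fixed points. -/
def fx (x : MulAut M) : Subgroup M := (comHom x).ker

theorem mem_fx {x : MulAut M} {v : M} : v ∈ fx x ↔ x v = v := by
  show comHom x v = 1 ↔ _
  show x v * v⁻¹ = 1 ↔ _
  rw [mul_inv_eq_one]

/-- Those automorphisms that act trivially on `M / U`. -/
def TrivMod (U : Subgroup M) : Subgroup (MulAut M) where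
  carrier := {g | ∀ v, g v * v⁻¹ ∈ U}
  mul_mem' := by
    intro a b ha hb v
    have e : (a * b) v * v⁻¹ = (a (b v) * (b v)⁻¹) * (b v * v⁻¹) := by
      rw [MulAut.mul_apply]; group
    rw [e]
    exact U.mul_mem (ha _) (hb _)
  one_mem' := by
    intro v
    simp
  inv_mem' := by
    intro g hg v
    have e : g⁻¹ v * v⁻¹ = (g (g⁻¹ v) * (g⁻¹ v)⁻¹)⁻¹ := by
      rw [MulAut.apply_inv_self]; group
    rw [e]
    exact U.inv_mem (hg _)

theorem mem_trivMod {U : Subgroup M} {g : MulAut M} : g ∈ TrivMod U ↔ ∀ v, g v * v⁻¹ ∈ U := Iff.rfl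

theorem com_le_iff {U : Subgroup M} {g : MulAut M} : com g ≤ U ↔ g ∈ TrivMod U := by
  constructor
  · intro h v
    exact h (com_mem g v)
  · rintro h _ ⟨v, rfl⟩
    exact h v

theorem trivMod_self (g : MulAut M) : g ∈ TrivMod (com g) := com_le_iff.mp le_rfl

/-- An element trivial modulo `U` preserves `U`. -/
theorem map_mem_of_trivMod {U : Subgroup M} {g : MulAut M} (hg : g ∈ TrivMod U) {u : M} (hu : u ∈ U) :
    g u ∈ U := by
  have := U.mul_mem (hg u) hu
  simpa using this

theorem map_com_mem (x : MulAut M) {u : M} (hu : u ∈ com x) : x u ∈ com x :=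
  map_mem_of_trivMod (trivMod_self x) hu

theorem inv_map_com_mem (x : MulAut M) {u : M} (hu : u ∈ com x) : x⁻¹ u ∈ com x :=
  map_mem_of_trivMod ((TrivMod (com x)).inv_mem (trivMod_self x)) hu

theorem com_inv (x : MulAut M) : com x⁻¹ = com x := by
  apply le_antisymm
  · exact com_le_iff.mpr ((TrivMod (com x)).inv_mem (trivMod_self x))
  · have := trivMod_self x⁻¹
    have h2 := (TrivMod (com x⁻¹)).inv_mem this
    rw [inv_inv] at h2
    exact com_le_iff.mpr h2

/-- Conjugates of commutators. -/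
theorem com_conj_mem (g x : MulAut M) {u : M} (hu : u ∈ com x) : g u ∈ com (g * x * g⁻¹) := by
  obtain ⟨v, rfl⟩ := hu
  refine ⟨g v, ?_⟩
  show (g * x * g⁻¹) (g v) * (g v)⁻¹ = g (x v * v⁻¹)
  rw [map_mul, map_inv]
  simp [MulAut.mul_apply]

theorem com_eq_bot_iff {x : MulAut M} : com x = ⊥ ↔ x = 1 := by
  constructor
  · intro h
    ext v
    have h1 : x v * v⁻¹ ∈ com x := com_mem x v
    rw [h, Subgroup.mem_bot, mul_inv_eq_one] at h1
    simpa using h1
  · rintro rfl
    rw [eq_bot_iff]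
    rintro _ ⟨v, rfl⟩
    show (1 : MulAut M) v * v⁻¹ ∈ _
    simp

theorem odd_pow_sq {X : Type*} [Group X] {x : X} (hx : Odd (orderOf x)) : ∃ k : ℕ, (x ^ 2) ^ k = x := by
  obtain ⟨m, hm⟩ := hx
  refine ⟨m + 1, ?_⟩
  rw [← pow_mul]
  have e : 2 * (m + 1) = orderOf x + 1 := by omega
  rw [e, pow_succ, pow_orderOf_eq_one, one_mul]

theorem fix_of_sq_fix {x : MulAut M} (hx : Odd (orderOf x)) {v : M} (h : (x * x) v = v) : x v = v := by
  obtain ⟨k, hk⟩ := odd_pow_sq hx
  have h1 : ∀ n : ℕ, ((x ^ 2) ^ n) v = v := by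
    intro n
    induction n with
    | zero => simp
    | succ n ih =>
      rw [pow_succ, MulAut.mul_apply, pow_two, h, ← pow_two, ih]
  rw [← hk]
  exact h1 k

section Exponent

variable (hM : ∀ v : M, v * v = 1)
include hM

theorem inv_eq (v : M) : v⁻¹ = v := inv_eq_of_mul_eq_one_left (hM v)

theorem isPGroup_two : IsPGroup 2 M := by
  intro g
  exact ⟨1, by rw [pow_one, pow_two]; exact hM g⟩

omit hM in
/-- The order of a sup of subgroups. -/
theorem card_sup_le [Finite M] (A B : Subgroup M) : Nat.card ↥(A ⊔ B) ≤ Nat.card A * Nat.card B := by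
  have h1 : B.relIndex (B ⊔ A) = B.relIndex A := Subgroup.relIndex_sup_left A B
  have h2 : B.relIndex (B ⊔ A) * Nat.card B = Nat.card ↥(B ⊔ A) := by
    have := Subgroup.index_mul_card (B.subgroupOf (B ⊔ A))
    rwa [show Nat.card (B.subgroupOf (B ⊔ A)) = Nat.card B from
      Nat.card_congr (Subgroup.subgroupOfEquivOfLe le_sup_left).toEquiv] at this
  have h3 : B.relIndex A ≤ Nat.card A := by
    have h4 := Subgroup.index_mul_card (B.subgroupOf A)
    have h5 : 0 < Nat.card (B.subgroupOf A) := Nat.card_pos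
    show (B.subgroupOf A).index ≤ _
    calc (B.subgroupOf A).index ≤ (B.subgroupOf A).index * Nat.card (B.subgroupOf A) :=
          Nat.le_mul_of_pos_right _ h5
      _ = _ := h4
  rw [sup_comm, ← h2, h1]
  exact Nat.mul_le_mul_right _ h3

omit hM in
theorem card_zpowers_le (hM : ∀ v : M, v * v = 1) [Finite M] (c : M) :
    Nat.card (Subgroup.zpowers c) ≤ 2 := by
  rw [Nat.card_zpowers]
  have : orderOf c ∣ 2 := orderOf_dvd_of_pow_eq_one (by rw [pow_two]; exact hM c)
  exact Nat.le_of_dvd (by norm_num) this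

/-- Orders of subgroups are powers of 2. -/
theorem card_subgroup_two_pow [Finite M] (U : Subgroup M) : ∃ k : ℕ, Nat.card U = 2 ^ k := by
  have h : IsPGroup 2 U := (isPGroup_two hM).to_subgroup U
  exact IsPGroup.iff_card.mp h

/-- The elements of a four-group. -/
theorem four_elems [Finite M] {U : Subgroup M} (hU : Nat.card U = 4) {a b : M} (ha : a ∈ U) (hb : b ∈ U)
    (ha1 : a ≠ 1) (hb1 : b ≠ 1) (hab : a ≠ b) {w : M} (hw : w ∈ U) :
    w = 1 ∨ w = a ∨ w = b ∨ w = a * b := by
  classical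
  by_contra hcon
  push Not at hcon
  obtain ⟨h1, h2, h3, h4⟩ := hcon
  let s : Finset U := {⟨1, U.one_mem⟩, ⟨a, ha⟩, ⟨b, hb⟩, ⟨a * b, U.mul_mem ha hb⟩, ⟨w, hw⟩}
  have hab1 : a * b ≠ 1 := by
    intro h
    apply hab
    have := hM b
    calc a = a * (b * b) := by rw [this, mul_one]
      _ = (a * b) * b := by rw [mul_assoc]
      _ = b := by rw [h, one_mul]
  have hab2 : a * b ≠ a := by
    intro h
    apply hb1
    exact mul_left_cancel (a := a) (by rw [h, mul_one])
  have hab3 : a * b ≠ b := by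
    intro h
    apply ha1
    exact mul_right_cancel (b := b) (by rw [h, one_mul])
  have hs : s.card = 5 := by
    simp only [s]
    rw [Finset.card_insert_of_notMem, Finset.card_insert_of_notMem, Finset.card_insert_of_notMem,
      Finset.card_insert_of_notMem, Finset.card_singleton]
    all_goals
      simp only [Finset.mem_insert, Finset.mem_singleton, Subtype.mk.injEq, not_or]
      try simp only [ne_eq] at *
      try tauto
    all_goals
      first
        | exact ⟨fun h => ha1 h.symm, fun h => hb1 h.symm, fun h => hab1 h.symm, fun h => h1 h.symm⟩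
        | skip
  haveI : Fintype U := Fintype.ofFinite U
  have h5 : s.card ≤ Fintype.card U := Finset.card_le_univ s
  rw [← Nat.card_eq_fintype_card, hU, hs] at h5
  omega

end Exponent

section Norm

variable [Finite M]

/-- The commutator `[M, Q]`. -/
def comQ (Q : Subgroup (MulAut M)) : Subgroup M :=
  Subgroup.closure {w | ∃ g ∈ Q, ∃ v, w = g v * v⁻¹}

/-- The fixed points `C_M(Q)`. -/
def fixQ (Q : Subgroup (MulAut M)) : Subgroup M where
  carrier := {v | ∀ g ∈ Q, g v = v}
  mul_mem' := by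
    intro a b ha hb g hg
    rw [map_mul, ha g hg, hb g hg]
  one_mem' := by
    intro g _
    exact map_one g
  inv_mem' := by
    intro a ha g hg
    rw [map_inv, ha g hg]

theorem mem_fixQ {Q : Subgroup (MulAut M)} {v : M} : v ∈ fixQ Q ↔ ∀ g ∈ Q, g v = v := Iff.rfl

theorem comQ_le_iff {Q : Subgroup (MulAut M)} {U : Subgroup M} : comQ Q ≤ U ↔ Q ≤ TrivMod U := by
  constructor
  · intro h g hg v
    exact h (Subgroup.subset_closure ⟨g, hg, v, rfl⟩)
  · intro h
    rw [comQ, Subgroup.closure_le]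
    rintro _ ⟨g, hg, v, rfl⟩
    exact h hg v

theorem com_le_comQ {Q : Subgroup (MulAut M)} {g : MulAut M} (hg : g ∈ Q) : com g ≤ comQ Q := by
  rw [com_le_iff]
  exact comQ_le_iff.mp le_rfl hg

/-- The norm map. -/
noncomputable def nrm (Q : Subgroup (MulAut M)) : M →* M :=
  letI := Fintype.ofFinite Q
  ∏ g : Q, ((g : MulAut M).toMonoidHom)

theorem nrm_apply (Q : Subgroup (MulAut M)) [Fintype Q] (v : M) : nrm Q v = ∏ g : Q, (g : MulAut M) v := by
  unfold nrm
  rw [MonoidHom.finset_prod_apply]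
  have : (Fintype.ofFinite Q) = ‹Fintype Q› := Subsingleton.elim _ _
  rw [this]
  rfl

theorem nrm_map (Q : Subgroup (MulAut M)) {g : MulAut M} (hg : g ∈ Q) (v : M) : nrm Q (g v) = nrm Q v := by
  letI := Fintype.ofFinite Q
  rw [nrm_apply, nrm_apply]
  exact Fintype.prod_equiv (Equiv.mulRight (⟨g, hg⟩ : Q)) _ _ (fun h => rfl)

theorem map_nrm (Q : Subgroup (MulAut M)) {g : MulAut M} (hg : g ∈ Q) (v : M) : g (nrm Q v) = nrm Q v := by
  letI := Fintype.ofFinite Q
  rw [nrm_apply, map_prod]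
  exact Fintype.prod_equiv (Equiv.mulLeft (⟨g, hg⟩ : Q)) _ _ (fun h => rfl)

theorem nrm_comQ (Q : Subgroup (MulAut M)) {w : M} (hw : w ∈ comQ Q) : nrm Q w = 1 := by
  have : comQ Q ≤ (nrm Q).ker := by
    rw [comQ, Subgroup.closure_le]
    rintro _ ⟨g, hg, v, rfl⟩
    show nrm Q _ = 1
    rw [map_mul, map_inv, nrm_map Q hg, mul_inv_cancel]
  exact this hw

variable (hM : ∀ v : M, v * v = 1)
include hM

theorem pow_odd_eq {n : ℕ} (hn : Odd n) (v : M) : v ^ n = v := by
  obtain ⟨k, rfl⟩ := hn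
  rw [pow_succ, pow_mul, pow_two, hM, one_pow, one_mul]

variable {Q : Subgroup (MulAut M)} (hQ : Odd (Nat.card Q))
include hQ

theorem nrm_fix {v : M} (hv : v ∈ fixQ Q) : nrm Q v = v := by
  letI := Fintype.ofFinite Q
  rw [nrm_apply]
  have : ∀ g : Q, (g : MulAut M) v = v := fun g => hv g g.2
  simp only [this, Finset.prod_const, Finset.card_univ]
  rw [← Nat.card_eq_fintype_card]
  exact pow_odd_eq hM hQ v

theorem nrm_mul_inv_mem (v : M) : nrm Q v * v⁻¹ ∈ comQ Q := by
  letI := Fintype.ofFinite Q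
  have h1 : nrm Q v = (∏ g : Q, ((g : MulAut M) v * v⁻¹)) * v ^ Nat.card Q := by
    rw [nrm_apply, Finset.prod_mul_distrib]
    simp only [Finset.prod_const, Finset.card_univ]
    rw [← Nat.card_eq_fintype_card, mul_assoc, ← mul_pow, inv_mul_cancel, one_pow, mul_one]
  rw [h1, pow_odd_eq hM hQ v, mul_inv_cancel_right]
  exact Subgroup.prod_mem _ (fun g _ => Subgroup.subset_closure ⟨g, g.2, v, rfl⟩)

theorem fixQ_inf_comQ {w : M} (h1 : w ∈ fixQ Q) (h2 : w ∈ comQ Q) : w = 1 := by
  rw [← nrm_fix hM hQ h1, nrm_comQ Q h2]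

theorem fixQ_mul_comQ (v : M) : ∃ f ∈ fixQ Q, ∃ u ∈ comQ Q, v = f * u := by
  refine ⟨nrm Q v, fun g hg => map_nrm Q hg v, (nrm Q v * v⁻¹)⁻¹, (comQ Q).inv_mem (nrm_mul_inv_mem hM hQ v), ?_⟩
  rw [mul_inv, inv_inv, mul_inv_cancel_left]

theorem card_fix_mul_com : Nat.card (fixQ Q) * Nat.card (comQ Q) = Nat.card M := by
  have h1 : (nrm Q).ker = comQ Q := by
    apply le_antisymm
    · intro v hv
      have h2 := nrm_mul_inv_mem hM hQ v
      rw [show nrm Q v = 1 from hv, one_mul] at h2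
      simpa using h2
    · intro v hv
      exact nrm_comQ Q hv
  have h3 : (nrm Q).range = fixQ Q := by
    apply le_antisymm
    · rintro _ ⟨v, rfl⟩ g hg
      exact map_nrm Q hg v
    · intro v hv
      exact ⟨v, nrm_fix hM hQ hv⟩
  have h4 := Subgroup.card_mul_index (nrm Q).ker
  rw [Subgroup.index_ker, h1, h3] at h4
  rw [mul_comm]; exact h4

end Norm

end Cfsg.Agent.Lib.FFAct
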