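import Mathlib
import Cfsg.Agent.Lib.FFAct1

/-!
# Failure of factorization, part 2: odd order elements and transvections
-/

set_option autoImplicit false

namespace Cfsg.Agent.Lib.FFAct

variable {M : Type*} [CommGroup M] [Finite M]

theorem comQ_zpowers (x : MulAut M) : comQ (Subgroup.zpowers x) = com x := by
  apply le_antisymm
  · rw [comQ_le_iff, Subgroup.zpowers_le]
    exact trivMod_self x
  · exact com_le_comQ (Subgroup.mem_zpowers x)

theorem fixQ_zpowers (x : MulAut M) : fixQ (Subgroup.zpowers x) = fx x := by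
  apply le_antisymm
  · intro v hv
    exact mem_fx.mpr (hv x (Subgroup.mem_zpowers x))
  · intro v hv
    have hv' : x v = v := mem_fx.mp hv
    rw [mem_fixQ]
    have : Subgroup.zpowers x ≤ (MulAction.stabilizer (MulAut M) v) := by
      rw [Subgroup.zpowers_le]
      exact hv'
    intro g hg
    exact this hg

theorem odd_card_zpowers {x : MulAut M} (hx : Odd (orderOf x)) : Odd (Nat.card (Subgroup.zpowers x)) := by
  rwa [Nat.card_zpowers]

section Exp

variable (hM : ∀ v : M, v * v = 1)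
include hM

theorem fx_inf_com {x : MulAut M} (hx : Odd (orderOf x)) {w : M} (h1 : x w = w) (h2 : w ∈ com x) : w = 1 := by
  apply fixQ_inf_comQ hM (odd_card_zpowers hx)
  · rw [fixQ_zpowers]; exact mem_fx.mpr h1
  · rw [comQ_zpowers]; exact h2

theorem fx_mul_com {x : MulAut M} (hx : Odd (orderOf x)) (v : M) : ∃ f, x f = f ∧ ∃ u ∈ com x, v = f * u := by
  obtain ⟨f, hf, u, hu, he⟩ := fixQ_mul_comQ hM (odd_card_zpowers hx) v
  rw [fixQ_zpowers] at hf
  rw [comQ_zpowers] at hu
  exact ⟨f, mem_fx.mp hf, u, hu, he⟩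

omit [Finite M] hM in
theorem two_elems {U : Subgroup M} (hU : Nat.card U = 2) {a b : M} (ha : a ∈ U) (hb : b ∈ U) (ha1 : a ≠ 1)
    (hb1 : b ≠ 1) : a = b := by
  obtain ⟨p, q, hpq, huniv⟩ := Nat.card_eq_two_iff.mp hU
  have hall : ∀ z : U, z = p ∨ z = q := by
    intro z
    have : z ∈ ({p, q} : Set U) := by rw [huniv]; trivial
    simpa using this
  have h1 := hall ⟨1, U.one_mem⟩
  have h2 := hall ⟨a, ha⟩
  have h3 := hall ⟨b, hb⟩
  have ea : (⟨a, ha⟩ : U) ≠ ⟨1, U.one_mem⟩ := fun h => ha1 (congrArg Subtype.val h)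
  have eb : (⟨b, hb⟩ : U) ≠ ⟨1, U.one_mem⟩ := fun h => hb1 (congrArg Subtype.val h)
  have : (⟨a, ha⟩ : U) = ⟨b, hb⟩ := by
    rcases h1 with h1 | h1 <;> rcases h2 with h2 | h2 <;> rcases h3 with h3 | h3
    · exact absurd (h2.trans h1.symm) ea
    · exact absurd (h2.trans h1.symm) ea
    · exact absurd (h3.trans h1.symm) eb
    · exact h2.trans h3.symm
    · exact h2.trans h3.symm
    · exact absurd (h3.trans h1.symm) eb
    · exact absurd (h2.trans h1.symm) ea
    · exact absurd (h2.trans h1.symm) ea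
  exact congrArg Subtype.val this

theorem card_com_ne_two {z : MulAut M} (hz : Odd (orderOf z)) : Nat.card (com z) ≠ 2 := by
  intro h
  have hnt : Nontrivial (com z) := by
    apply Finite.one_lt_card_iff_nontrivial.mp
    omega
  obtain ⟨⟨e, he⟩, hne⟩ := exists_ne (1 : com z)
  have he1 : e ≠ 1 := fun h1 => hne (Subtype.ext h1)
  have hze : z e ≠ 1 := by
    intro h1
    apply he1
    exact z.injective (h1.trans (map_one z).symm)
  have := two_elems h (map_com_mem z he) he hze he1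
  exact he1 (fx_inf_com hM hz this he)

theorem card_dvd_four_of_le {A U : Subgroup M} (hAU : A ≤ U) (hU : Nat.card U = 4) :
    Nat.card A = 1 ∨ Nat.card A = 2 ∨ Nat.card A = 4 := by
  have h1 : Nat.card A ∣ 4 := hU ▸ Subgroup.card_dvd_of_le hAU
  have h2 : Nat.card A ≤ 4 := Nat.le_of_dvd (by norm_num) h1
  interval_cases h3 : Nat.card A <;> first | omega | (exfalso; revert h1; norm_num)

theorem odd_eq_one_of_fix {z : MulAut M} (hz : Odd (orderOf z)) {U : Subgroup M} (hU : Nat.card U = 4)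
    (hcom : com z ≤ U) {a : M} (ha : a ∈ U) (ha1 : a ≠ 1) (hfix : z a = a) : z = 1 := by
  rcases card_dvd_four_of_le hM hcom hU with h | h | h
  · have : com z = ⊥ := Subgroup.eq_bot_of_card_eq _ h
    exact com_eq_bot_iff.mp this
  · exact absurd h (card_com_ne_two hM hz)
  · have : com z = U := Subgroup.eq_of_le_of_card_ge hcom (by rw [h, hU])
    exact absurd (fx_inf_com hM hz hfix (this ▸ ha)) ha1

theorem com_eq_of_card_four {z : MulAut M} (hz : Odd (orderOf z)) (hz1 : z ≠ 1) {U : Subgroup M} (hU : Nat.card U = 4)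
    (hcom : com z ≤ U) : com z = U := by
  rcases card_dvd_four_of_le hM hcom hU with h | h | h
  · have : com z = ⊥ := Subgroup.eq_bot_of_card_eq _ h
    exact absurd (com_eq_bot_iff.mp this) hz1
  · exact absurd h (card_com_ne_two hM hz)
  · exact Subgroup.eq_of_le_of_card_ge hcom (by rw [h, hU])

variable {x : MulAut M} (hx : Odd (orderOf x)) (hc : Nat.card (com x) = 4)
include hx hc

theorem four_act_ne {u : M} (hu : u ∈ com x) (hu1 : u ≠ 1) : x u ≠ u ∧ x u ≠ 1 := by
  refine ⟨fun h => hu1 (fx_inf_com hM hx h hu), fun h => hu1 ?_⟩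
  exact x.injective (h.trans (map_one x).symm)

theorem four_act {u : M} (hu : u ∈ com x) (hu1 : u ≠ 1) : x (x u) = u * x u := by
  obtain ⟨h1, h2⟩ := four_act_ne hM hx hc hu hu1
  have h3 : x (x u) ≠ 1 := (four_act_ne hM hx hc (map_com_mem x hu) h2).2
  have h4 : x (x u) ≠ x u := (four_act_ne hM hx hc (map_com_mem x hu) h2).1
  have h5 : x (x u) ≠ u := by
    intro h
    have : (x * x) u = u := h
    exact h1 (fix_of_sq_fix hx this)
  rcases four_elems hM hc hu (map_com_mem x hu) hu1 h2 (Ne.symm h1) (map_com_mem x (map_com_mem x hu)) with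
    h | h | h | h
  · exact absurd h h3
  · exact absurd h h5
  · exact absurd h h4
  · exact h

theorem four_inv {u : M} (hu : u ∈ com x) (hu1 : u ≠ 1) : x⁻¹ u = u * x u := by
  have h := four_act hM hx hc hu hu1
  have h2 : x (u * x u) = u := by
    rw [map_mul, h, mul_comm u, ← mul_assoc, hM, one_mul]
  apply x.injective
  rw [h2, MulAut.apply_inv_self]

theorem four_elems_act {u : M} (hu : u ∈ com x) (hu1 : u ≠ 1) {w : M} (hw : w ∈ com x) :
    w = 1 ∨ w = u ∨ w = x u ∨ w = x⁻¹ u := by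
  obtain ⟨h1, h2⟩ := four_act_ne hM hx hc hu hu1
  rw [four_inv hM hx hc hu hu1]
  exact four_elems hM hc hu (map_com_mem x hu) hu1 h2 (Ne.symm h1) hw

theorem cube_eq_one : x ^ 3 = 1 := by
  ext v
  obtain ⟨f, hf, u, hu, rfl⟩ := fx_mul_com hM hx v
  have h1 : (x ^ 3) f = f := by
    simp only [pow_succ, pow_zero, one_mul, MulAut.mul_apply, hf]
  have h2 : (x ^ 3) u = u := by
    by_cases hu1 : u = 1
    · rw [hu1, map_one]
    · simp only [pow_succ, pow_zero, one_mul, MulAut.mul_apply]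
      rw [four_act hM hx hc hu hu1, map_mul, four_act hM hx hc hu hu1, mul_comm u, ← mul_assoc, hM, one_mul]
  rw [map_mul, h1, h2]
  rfl

omit hx hc in
theorem exists_ne_one_of_card {U : Subgroup M} (hU : Nat.card U = 4) : ∃ a ∈ U, a ≠ 1 := by
  have hnt : Nontrivial U := by
    apply Finite.one_lt_card_iff_nontrivial.mp
    omega
  obtain ⟨⟨e, he⟩, hne⟩ := exists_ne (1 : U)
  exact ⟨e, he, fun h1 => hne (Subtype.ext h1)⟩

end Exp

/-- A transvection with center `c`. -/
def IsTrC (t : MulAut M) (c : M) : Prop := t ≠ 1 ∧ ∀ v, t v = v ∨ t v = v * c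

/-- A transvection. -/
def IsTr (t : MulAut M) : Prop := ∃ c, IsTrC t c

section Tr

variable {t : MulAut M} {c : M}

omit [Finite M] in
theorem IsTrC.c_ne_one (ht : IsTrC t c) : c ≠ 1 := by
  rintro rfl
  apply ht.1
  ext v
  rcases ht.2 v with h | h
  · simpa using h
  · simpa using h

omit [Finite M] in
theorem IsTrC.fix_c (hM : ∀ v : M, v * v = 1) (ht : IsTrC t c) : t c = c := by
  rcases ht.2 c with h | h
  · exact h
  · exfalso
    apply ht.c_ne_one
    apply t.injective
    rw [map_one, h, hM]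

omit [Finite M] in
theorem IsTrC.apply_apply (hM : ∀ v : M, v * v = 1) (ht : IsTrC t c) (v : M) : t (t v) = v := by
  rcases ht.2 v with h | h
  · rw [h, h]
  · rw [h, map_mul, h, ht.fix_c hM, mul_assoc, hM, mul_one]

omit [Finite M] in
theorem IsTrC.mul_self (hM : ∀ v : M, v * v = 1) (ht : IsTrC t c) : t * t = 1 := by
  ext v
  exact ht.apply_apply hM v

omit [Finite M] in
theorem IsTrC.inv (hM : ∀ v : M, v * v = 1) (ht : IsTrC t c) : t⁻¹ = t :=
  inv_eq_of_mul_eq_one_left (ht.mul_self hM)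

omit [Finite M] in
theorem IsTrC.conj (ht : IsTrC t c) (g : MulAut M) : IsTrC (g * t * g⁻¹) (g c) := by
  refine ⟨?_, ?_⟩
  · intro h
    apply ht.1
    have : t = g⁻¹ * (g * t * g⁻¹) * g := by group
    rw [this, h]
    group
  · intro v
    show g (t (g⁻¹ v)) = v ∨ g (t (g⁻¹ v)) = v * g c
    rcases ht.2 (g⁻¹ v) with h | h
    · left; rw [h]; simp
    · right; rw [h, map_mul]; simp

omit [Finite M] in
theorem IsTrC.center_unique (ht : IsTrC t c) {c' : M} (ht' : IsTrC t c') : c = c' := by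
  by_contra hne
  apply ht.1
  ext v
  show t v = v
  rcases ht.2 v with h | h
  · exact h
  · rcases ht'.2 v with h' | h'
    · exact h'
    · exfalso
      apply hne
      exact mul_left_cancel (h.symm.trans h')

omit [Finite M] in
theorem IsTrC.mem_trivMod (ht : IsTrC t c) {U : Subgroup M} (hc : c ∈ U) : t ∈ TrivMod U := by
  intro v
  rcases ht.2 v with h | h
  · rw [h, mul_inv_cancel]; exact U.one_mem
  · rw [h, mul_comm v, mul_inv_cancel_right]; exact hc

variable (hM : ∀ v : M, v * v = 1)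
include hM

theorem card_pair_le (c d : M) : Nat.card ↥(Subgroup.zpowers c ⊔ Subgroup.zpowers d) ≤ 4 :=
  (card_sup_le _ _).trans (Nat.mul_le_mul (card_zpowers_le hM c) (card_zpowers_le hM d))

theorem inv_struct (ht : IsTrC t c) {x : MulAut M} (hx : Odd (orderOf x)) (hx1 : x ≠ 1)
    (hinv : t * x * t⁻¹ = x⁻¹) : Nat.card (com x) = 4 ∧ c ∈ com x := by
  have hcard : Nat.card (com x) = 4 := by
    set U₀ := Subgroup.zpowers c ⊔ Subgroup.zpowers (x c) with hU₀
    have hc0 : c ∈ U₀ := Subgroup.mem_sup_left (Subgroup.mem_zpowers c)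
    have hxc0 : x c ∈ U₀ := Subgroup.mem_sup_right (Subgroup.mem_zpowers _)
    have h1 : t ∈ TrivMod U₀ := ht.mem_trivMod hc0
    have h2 : x * t * x⁻¹ ∈ TrivMod U₀ := (ht.conj x).mem_trivMod hxc0
    have hti := ht.inv hM
    have h3 : x⁻¹ * x⁻¹ = t * (x * t * x⁻¹) := by
      rw [hti] at hinv
      rw [← hinv]; group
    have h4 : x⁻¹ * x⁻¹ ∈ TrivMod U₀ := by
      rw [h3]; exact (TrivMod U₀).mul_mem h1 h2
    have h5 : x ^ 2 ∈ TrivMod U₀ := by
      have := (TrivMod U₀).inv_mem h4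
      rw [pow_two]
      simpa using this
    obtain ⟨k, hk⟩ := odd_pow_sq hx
    have h6 : x ∈ TrivMod U₀ := by
      rw [← hk]; exact (TrivMod U₀).pow_mem h5 k
    have h7 : com x ≤ U₀ := com_le_iff.mpr h6
    have h8 : Nat.card (com x) ≤ 4 :=
      (Subgroup.card_le_of_le h7).trans (card_pair_le hM _ _)
    obtain ⟨k', hk'⟩ := card_subgroup_two_pow hM (com x)
    have h9 : Nat.card (com x) ≠ 2 := card_com_ne_two hM hx
    have h10 : Nat.card (com x) ≠ 1 := by
      intro h
      exact hx1 (com_eq_bot_iff.mp (Subgroup.eq_bot_of_card_eq _ h))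
    have hk3 : k' ≤ 2 := by
      by_contra hk4
      have : 2 ^ 3 ≤ 2 ^ k' := Nat.pow_le_pow_right (by norm_num) (by omega)
      omega
    interval_cases k' <;> simp_all
  refine ⟨hcard, ?_⟩
  -- `t` normalizes `[M, x]`
  have hti := ht.inv hM
  have htU : ∀ u ∈ com x, t u ∈ com x := by
    intro u hu
    have := com_conj_mem t x hu
    rwa [hinv, com_inv] at this
  -- some element of `[M, x]` is moved
  by_contra hcx
  have hfix : ∀ u ∈ com x, t u = u := by
    intro u hu
    rcases ht.2 u with h | h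
    · exact h
    · exfalso
      apply hcx
      have h2 := htU u hu
      rw [h] at h2
      have h3 := (com x).mul_mem ((com x).inv_mem hu) h2
      simpa using h3
  obtain ⟨u, hu, hu1⟩ := exists_ne_one_of_card hM hcard
  have h1 : x⁻¹ u = x u := by
    have h2 : (t * x * t⁻¹) u = x⁻¹ u := by rw [hinv]
    rw [← h2, hti]
    show t (x (t u)) = x u
    rw [hfix u hu, hfix _ (map_com_mem x hu)]
  have h3 : (x * x) u = u := by
    show x (x u) = u
    rw [← h1]
    simp
  exact hu1 (fx_inf_com hM hx (fix_of_sq_fix hx h3) hu)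

theorem inv_cube (ht : IsTrC t c) {x : MulAut M} (hx : Odd (orderOf x)) (hx1 : x ≠ 1)
    (hinv : t * x * t⁻¹ = x⁻¹) : x ^ 3 = 1 :=
  cube_eq_one hM hx (inv_struct hM ht hx hx1 hinv).1

/-- Uniqueness of commuting inverted elements. -/
theorem inv_unique (ht : IsTrC t c) {x y : MulAut M} (hx : Odd (orderOf x)) (hy : Odd (orderOf y))
    (hx1 : x ≠ 1) (hy1 : y ≠ 1) (hxi : t * x * t⁻¹ = x⁻¹) (hyi : t * y * t⁻¹ = y⁻¹) (hxy : x * y = y * x) :
    y = x ∨ y = x⁻¹ := by
  obtain ⟨hc1, hc2⟩ := inv_struct hM ht hx hx1 hxi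
  obtain ⟨hd1, hd2⟩ := inv_struct hM ht hy hy1 hyi
  have hx3 := cube_eq_one hM hx hc1
  have hy3 := cube_eq_one hM hy hd1
  have hc0 := ht.c_ne_one
  -- `y` preserves `[M, x]`
  have hyU : y c ∈ com x := by
    have := com_conj_mem y x hc2
    have e : y * x * y⁻¹ = x := by rw [← hxy]; group
    rwa [e] at this
  obtain ⟨hy1', hy2'⟩ := four_act_ne hM hy hd1 hd2 hc0
  have hoddz : ∀ z : MulAut M, z ^ 3 = 1 → Odd (orderOf z) := by
    intro z hz
    have h1 : orderOf z ∣ 3 := orderOf_dvd_of_pow_eq_one hz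
    have h2 : orderOf z = 1 ∨ orderOf z = 3 := (Nat.dvd_prime (by norm_num)).mp h1
    rcases h2 with h2 | h2 <;> rw [h2] <;> decide
  have hkey : ∀ z : MulAut M, z ^ 3 = 1 → t * z * t⁻¹ = z⁻¹ → z c = c → z = 1 := by
    intro z hz hzi hzc
    by_contra hz1
    have h1 := (inv_struct hM ht (hoddz z hz) hz1 hzi).2
    exact hc0 (fx_inf_com hM (hoddz z hz) hzc h1)
  have hconj : ∀ a b : MulAut M, t * (a * b) * t⁻¹ = (t * a * t⁻¹) * (t * b * t⁻¹) := by
    intro a b; group
  rcases four_elems_act hM hx hc1 hc2 hc0 hyU with h | h | h | h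
  · exact absurd h hy2'
  · exact absurd h hy1'
  · left
    have hz : (x⁻¹ * y) ^ 3 = 1 := by
      have hc' : Commute x⁻¹ y := (Commute.inv_left (show Commute x y from hxy))
      rw [hc'.mul_pow, hy3, mul_one, inv_pow, hx3, inv_one]
    have hzi : t * (x⁻¹ * y) * t⁻¹ = (x⁻¹ * y)⁻¹ := by
      rw [hconj, hyi]
      have : t * x⁻¹ * t⁻¹ = (t * x * t⁻¹)⁻¹ := by group
      rw [this, hxi, inv_inv, mul_inv_rev, inv_inv]
      exact (Commute.inv_right (show Commute x y from hxy)).eq
    have hzc : (x⁻¹ * y) c = c := by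
      show x⁻¹ (y c) = c
      rw [h]; simp
    have := hkey _ hz hzi hzc
    have h2 : x⁻¹ * y = 1 := this
    exact (inv_mul_eq_one.mp h2).symm
  · right
    have hz : (x * y) ^ 3 = 1 := by
      have hc' : Commute x y := hxy
      rw [hc'.mul_pow, hy3, mul_one, hx3]
    have hzi : t * (x * y) * t⁻¹ = (x * y)⁻¹ := by
      rw [hconj, hyi, hxi, mul_inv_rev]
      exact (Commute.inv_inv (show Commute x y from hxy)).eq
    have hzc : (x * y) c = c := by
      show x (y c) = c
      rw [h]; simp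
    have := hkey _ hz hzi hzc
    exact eq_inv_of_mul_eq_one_right this

end Tr

end Cfsg.Agent.Lib.FFAct
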