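import Mathlib
import Cfsg.Agent.Lib.FFAct2

/-!
# Failure of factorization, part 3: 3-groups and the context
-/

set_option autoImplicit false

namespace Cfsg.Agent.Lib.FFAct

variable {M : Type*} [CommGroup M] [Finite M]

theorem odd_card_of_three {Q : Subgroup (MulAut M)} (hQ : IsPGroup 3 Q) : Odd (Nat.card Q) := by
  obtain ⟨k, hk⟩ := IsPGroup.iff_card.mp hQ
  rw [hk]
  exact Odd.pow (by decide)

theorem odd_order_of_three {Q : Subgroup (MulAut M)} (hQ : IsPGroup 3 Q) {x : MulAut M} (hx : x ∈ Q) :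
    Odd (orderOf x) := by
  have h1 : orderOf x ∣ Nat.card Q := by
    have := orderOf_dvd_natCard (⟨x, hx⟩ : Q)
    rwa [Subgroup.orderOf_mk] at this
  exact Odd.of_dvd_nat (odd_card_of_three hQ) h1

theorem card_comQ_modEq (hM : ∀ v : M, v * v = 1) {Q : Subgroup (MulAut M)} (hQ : IsPGroup 3 Q) :
    Nat.card (comQ Q) ≡ 1 [MOD 3] := by
  haveI : Fact (Nat.Prime 3) := ⟨by norm_num⟩
  have h1 := IsPGroup.card_modEq_card_fixedPoints hQ M
  have h2 : Nat.card (MulAction.fixedPoints Q M) = Nat.card (fixQ Q) := by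
    apply Nat.card_congr
    apply Equiv.setCongr
    ext v
    constructor
    · intro h g hg
      exact h ⟨g, hg⟩
    · intro h g
      exact h g g.2
  rw [h2] at h1
  have h3 := card_fix_mul_com hM (odd_card_of_three hQ)
  obtain ⟨k, hk⟩ := card_subgroup_two_pow hM (fixQ Q)
  rw [← h3] at h1
  have h4 : (Nat.card (fixQ Q)).Coprime 3 := by
    rw [hk]
    exact Nat.Coprime.pow_left k (by norm_num)
  have h5 : Nat.card (fixQ Q) * Nat.card (comQ Q) ≡ Nat.card (fixQ Q) * 1 [MOD 3] := by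
    rw [mul_one]; exact h1
  exact Nat.ModEq.cancel_left_of_coprime (Nat.Coprime.symm h4) h5

theorem three_norm (hM : ∀ v : M, v * v = 1) {P : Subgroup (MulAut M)} (hP : IsPGroup 3 P) {y t : MulAut M}
    {c : M} (hy : y ∈ P) (hc : Nat.card (com y) = 4) (ht : IsTrC t c) (hy' : t * y * t⁻¹ ∈ P) :
    t * y * t⁻¹ = y ∨ t * y * t⁻¹ = y⁻¹ := by
  set y' := t * y * t⁻¹ with hy'def
  set Q := Subgroup.closure ({y, y'} : Set (MulAut M)) with hQdef
  have hQP : Q ≤ P := by
    rw [hQdef, Subgroup.closure_le]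
    rintro z (rfl | rfl)
    · exact hy
    · exact hy'
  have hQ3 : IsPGroup 3 Q := hP.to_le hQP
  have hyQ : y ∈ Q := Subgroup.subset_closure (Set.mem_insert _ _)
  have hy'Q : y' ∈ Q := Subgroup.subset_closure (Set.mem_insert_of_mem _ rfl)
  have hoddy : Odd (orderOf y) := odd_order_of_three hP hy
  set U := com y ⊔ Subgroup.zpowers c with hU
  have hcU : c ∈ U := Subgroup.mem_sup_right (Subgroup.mem_zpowers c)
  have hle : com y ≤ U := le_sup_left
  have htU : t ∈ TrivMod U := ht.mem_trivMod hcU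
  have hyU : y ∈ TrivMod U := com_le_iff.mp hle
  have hy'U : y' ∈ TrivMod U :=
    (TrivMod U).mul_mem ((TrivMod U).mul_mem htU hyU) ((TrivMod U).inv_mem htU)
  have hQU : comQ Q ≤ U := by
    rw [comQ_le_iff, hQdef, Subgroup.closure_le]
    rintro z (rfl | rfl)
    · exact hyU
    · exact hy'U
  have h1 : Nat.card (comQ Q) ≤ 8 := by
    refine (Subgroup.card_le_of_le hQU).trans ((card_sup_le _ _).trans ?_)
    rw [hc]
    have := card_zpowers_le hM c
    omega
  have h2 : com y ≤ comQ Q := com_le_comQ hyQ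
  have h3 : 4 ≤ Nat.card (comQ Q) := by
    rw [← hc]; exact Subgroup.card_le_of_le h2
  have h4 := card_comQ_modEq hM hQ3
  obtain ⟨k, hk⟩ := card_subgroup_two_pow hM (comQ Q)
  have h5 : Nat.card (comQ Q) = 4 := by
    have hk3 : k ≤ 3 := by
      by_contra hk4
      have : 2 ^ 4 ≤ 2 ^ k := Nat.pow_le_pow_right (by norm_num) (by omega)
      omega
    rw [hk] at h1 h3 h4 ⊢
    interval_cases k <;> first | rfl | omega | (exfalso; revert h4; decide)
  have h6 : comQ Q = com y := (Subgroup.eq_of_le_of_card_ge h2 (by rw [h5, hc])).symm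
  have hoddQ : ∀ z ∈ Q, Odd (orderOf z) := fun z hz => odd_order_of_three hQ3 hz
  have hcomz : ∀ z ∈ Q, com z ≤ com y := fun z hz => h6 ▸ com_le_comQ hz
  obtain ⟨a, ha, ha1⟩ := exists_ne_one_of_card hM hc
  have hy1 : y ≠ 1 := by
    rintro rfl
    have : com (1 : MulAut M) = ⊥ := com_eq_bot_iff.mpr rfl
    rw [this] at hc
    simp at hc
  have hy'1 : y' ≠ 1 := by
    intro h
    apply hy1
    have e : y = t⁻¹ * y' * t := by rw [hy'def]; group
    rw [e, h]; group
  have h7 : y' a ∈ com y := by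
    have : y' ∈ TrivMod (com y) := com_le_iff.mp (hcomz y' hy'Q)
    exact map_mem_of_trivMod this ha
  have h8 : y' a ≠ a := by
    intro h
    exact hy'1 (odd_eq_one_of_fix hM (hoddQ y' hy'Q) hc (hcomz y' hy'Q) ha ha1 h)
  have h9 : y' a ≠ 1 := by
    intro h
    exact ha1 (y'.injective (h.trans (map_one y').symm))
  rcases four_elems_act hM hoddy hc ha ha1 h7 with h | h | h | h
  · exact absurd h h9
  · exact absurd h h8
  · left
    have hz : y⁻¹ * y' ∈ Q := Q.mul_mem (Q.inv_mem hyQ) hy'Q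
    have hfix : (y⁻¹ * y') a = a := by
      show y⁻¹ (y' a) = a
      rw [h]; simp
    have := odd_eq_one_of_fix hM (hoddQ _ hz) hc (hcomz _ hz) ha ha1 hfix
    exact (inv_mul_eq_one.mp this).symm
  · right
    have hz : y * y' ∈ Q := Q.mul_mem hyQ hy'Q
    have hfix : (y * y') a = a := by
      show y (y' a) = a
      rw [h]; simp
    have := odd_eq_one_of_fix hM (hoddQ _ hz) hc (hcomz _ hz) ha ha1 hfix
    exact eq_inv_of_mul_eq_one_right this

/-- Two subgroup-valued facts on commuting -/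
theorem commute_of_conj_or {x y : MulAut M} (hx : Odd (orderOf x)) (hy1 : y * y ≠ 1)
    (h : x * y * x⁻¹ = y ∨ x * y * x⁻¹ = y⁻¹) : x * y = y * x := by
  rcases h with h | h
  · rw [mul_inv_eq_iff_eq_mul] at h; exact h
  · exfalso
    -- `x²` centralizes `y`, hence `x` does; so `y = y⁻¹`
    have h2 : (x ^ 2) * y * (x ^ 2)⁻¹ = y := by
      have e : (x ^ 2) * y * (x ^ 2)⁻¹ = x * (x * y * x⁻¹) * x⁻¹ := by
        rw [pow_two]; group
      rw [e, h]
      have e2 : x * y⁻¹ * x⁻¹ = (x * y * x⁻¹)⁻¹ := by group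
      rw [e2, h, inv_inv]
    obtain ⟨k, hk⟩ := odd_pow_sq hx
    have h3 : ∀ n : ℕ, ((x ^ 2) ^ n) * y * ((x ^ 2) ^ n)⁻¹ = y := by
      intro n
      induction n with
      | zero => simp
      | succ n ih =>
        have e : (x ^ 2) ^ (n + 1) * y * ((x ^ 2) ^ (n + 1))⁻¹
            = (x ^ 2) ^ n * ((x ^ 2) * y * (x ^ 2)⁻¹) * ((x ^ 2) ^ n)⁻¹ := by
          rw [pow_succ]; group
        rw [e, h2, ih]
    have h4 := h3 k
    rw [hk, h] at h4
    apply hy1
    have : y⁻¹ * y = 1 := inv_mul_cancel y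
    rw [h4] at this
    exact this

/-- The context: `H` acts faithfully on `M`, with `F = F(H)` of odd order and `P = O₃(H)`. -/
structure FFC (H F P : Subgroup (MulAut M)) : Prop where
  F_le : F ≤ H
  F_norm : ∀ h ∈ H, ∀ x ∈ F, h * x * h⁻¹ ∈ F
  F_odd : Odd (Nat.card F)
  F_solv : Group.IsSolvable F
  F_cent : ∀ h ∈ H, (∀ x ∈ F, h * x = x * h) → h ∈ F
  P_le : P ≤ F
  P_norm : ∀ h ∈ H, ∀ x ∈ P, h * x * h⁻¹ ∈ P
  P_three : IsPGroup 3 P
  P_mem : ∀ x ∈ F, x ^ 3 = 1 → x ∈ P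

/-- `⟨y⟩` is the set of elements of `F` inverted by `t`. -/
def IsLine (F : Subgroup (MulAut M)) (t y : MulAut M) : Prop :=
  y ≠ 1 ∧ t * y * t⁻¹ = y⁻¹ ∧ y ∈ F ∧ ∀ x ∈ F, t * x * t⁻¹ = x⁻¹ → x = 1 ∨ x = y ∨ x = y⁻¹

section Ctx

variable {H F P : Subgroup (MulAut M)}

theorem FFC.odd_order (C : FFC H F P) {x : MulAut M} (hx : x ∈ F) : Odd (orderOf x) := by
  have h1 : orderOf x ∣ Nat.card F := by
    have := orderOf_dvd_natCard (⟨x, hx⟩ : F)
    rwa [Subgroup.orderOf_mk] at this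
  exact Odd.of_dvd_nat C.F_odd h1

theorem FFC.eq_one_of_two_pow (C : FFC H F P) {x : MulAut M} (hx : x ∈ F) {n : ℕ} (h : x ^ (2 ^ n) = 1) : x = 1 := by
  have h3 : orderOf x ∣ 2 ^ n := orderOf_dvd_of_pow_eq_one h
  have h4 : (orderOf x).Coprime (2 ^ n) :=
    Nat.Coprime.pow_right n (Nat.Coprime.symm (Nat.coprime_two_left.mpr (C.odd_order hx)))
  have h5 : orderOf x = 1 := Nat.Coprime.eq_one_of_dvd h4 h3
  exact orderOf_eq_one_iff.mp h5

theorem FFC.not_commute_of_two_pow (C : FFC H F P) {h : MulAut M} (hh : h ∈ H) (h1 : h ≠ 1) {n : ℕ}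
    (h2 : h ^ (2 ^ n) = 1) : ∃ x ∈ F, h * x ≠ x * h := by
  by_contra hcon
  push Not at hcon
  exact h1 (C.eq_one_of_two_pow (C.F_cent h hh hcon) h2)

variable (hM : ∀ v : M, v * v = 1)
include hM

/-- `y` of order 3 in `P` with `[M,y]` a four-group, is normalized by every transvection of `H`. -/
theorem FFC.tr_norm (C : FFC H F P) {y t : MulAut M} {c : M} (hy : y ∈ P) (hc : Nat.card (com y) = 4)
    (ht : IsTrC t c) (htH : t ∈ H) : t * y * t⁻¹ = y ∨ t * y * t⁻¹ = y⁻¹ :=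
  three_norm hM C.P_three hy hc ht (C.P_norm t htH y hy)

omit hM in
theorem sq_ne_one_of_odd {y : MulAut M} (hy : Odd (orderOf y)) (hy1 : y ≠ 1) : y * y ≠ 1 := by
  intro h
  apply hy1
  have h1 : orderOf y ∣ 2 := orderOf_dvd_of_pow_eq_one (by rw [pow_two]; exact h)
  have h2 : orderOf y = 1 := by
    have h3 := (Nat.dvd_prime Nat.prime_two).mp h1
    rcases h3 with h3 | h3
    · exact h3
    · rw [h3] at hy; exact absurd hy (by decide)
  exact orderOf_eq_one_iff.mp h2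

/-- An element of `P` inverted by a transvection of `H` commutes with every `y ∈ P` with `|[M,y]| = 4`. -/
theorem FFC.comm_of_inverted (C : FFC H F P) {x y t : MulAut M} {c : M} (hx : x ∈ P) (hy : y ∈ P)
    (hc : Nat.card (com y) = 4) (hy1 : y ≠ 1) (ht : IsTrC t c) (htH : t ∈ H) (hinv : t * x * t⁻¹ = x⁻¹) :
    x * y = y * x := by
  have hxF : x ∈ F := C.P_le hx
  have hxH : x ∈ H := C.F_le hxF
  have hoddx := C.odd_order hxF
  have hoddy := C.odd_order (C.P_le hy)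
  have ht2 : IsTrC (x * t * x⁻¹) (x c) := ht.conj x
  have ht2H : x * t * x⁻¹ ∈ H := H.mul_mem (H.mul_mem hxH htH) (H.inv_mem hxH)
  have h1 := C.tr_norm hM hy hc ht htH
  have h2 := C.tr_norm hM hy hc ht2 ht2H
  have hti := ht.inv hM
  -- `w = x⁻²`
  have hw : x⁻¹ * x⁻¹ = t * (x * t * x⁻¹) := by
    rw [hti] at hinv
    rw [← hinv]; group
  have hwP : x⁻¹ * x⁻¹ ∈ P := P.mul_mem (P.inv_mem hx) (P.inv_mem hx)
  have hoddw : Odd (orderOf (x⁻¹ * x⁻¹)) := odd_order_of_three C.P_three hwP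
  have h3 : (x⁻¹ * x⁻¹) * y * (x⁻¹ * x⁻¹)⁻¹ = y ∨ (x⁻¹ * x⁻¹) * y * (x⁻¹ * x⁻¹)⁻¹ = y⁻¹ := by
    have e : (x⁻¹ * x⁻¹) * y * (x⁻¹ * x⁻¹)⁻¹ = t * ((x * t * x⁻¹) * y * (x * t * x⁻¹)⁻¹) * t⁻¹ := by
      rw [hw]; group
    rw [e]
    have hinv2 : t * y⁻¹ * t⁻¹ = (t * y * t⁻¹)⁻¹ := by group
    rcases h2 with h2 | h2 <;> rcases h1 with h1 | h1
    · left; rw [h2, h1]
    · right; rw [h2, h1]
    · right; rw [h2, hinv2, h1]
    · left; rw [h2, hinv2, h1, inv_inv]
  have h4 := commute_of_conj_or hoddw (sq_ne_one_of_odd hoddy hy1) h3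
  have h5 : Commute (x ^ 2) y := by
    have h6 : Commute (x⁻¹ * x⁻¹) y := h4
    have h7 : x ^ 2 = (x⁻¹ * x⁻¹)⁻¹ := by rw [pow_two, mul_inv_rev, inv_inv]
    rw [h7]
    exact h6.inv_left
  obtain ⟨k, hk⟩ := odd_pow_sq hoddx
  rw [← hk]
  exact (h5.pow_left k).eq

/-- A transvection of `H` inverts a nontrivial element of `F`, and all of them are in `⟨y⟩`. -/
theorem FFC.exists_line (C : FFC H F P) {t : MulAut M} {c : M} (ht : IsTrC t c) (htH : t ∈ H) :
    ∃ y, IsLine F t y := by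
  have hti := ht.inv hM
  have htt := ht.mul_self hM
  -- the inverted elements
  have hinvall : ∀ g ∈ F, t * (g⁻¹ * (t * g * t⁻¹)) * t⁻¹ = (g⁻¹ * (t * g * t⁻¹))⁻¹ := by
    intro g _
    rw [hti]
    have e1 : (g⁻¹ * (t * g * t))⁻¹ = t⁻¹ * g⁻¹ * t⁻¹ * g := by group
    rw [e1, hti]
    calc t * (g⁻¹ * (t * g * t)) * t = t * g⁻¹ * t * g * (t * t) := by group
      _ = t * g⁻¹ * t * g := by rw [htt, mul_one]
  obtain ⟨g, hg, hne⟩ := C.not_commute_of_two_pow htH ht.1 (n := 1) (by rw [pow_one, pow_two]; exact htt)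
  set y := g⁻¹ * (t * g * t⁻¹) with hy
  have hyF : y ∈ F := F.mul_mem (F.inv_mem hg) (C.F_norm t htH g hg)
  have hy1 : y ≠ 1 := by
    intro h
    apply hne
    have h2 : t * g * t⁻¹ = g := (inv_mul_eq_one.mp h).symm
    rw [mul_inv_eq_iff_eq_mul] at h2
    exact h2
  have hyinv := hinvall g hg
  refine ⟨y, hy1, hyinv, hyF, ?_⟩
  intro x hxF hxinv
  by_cases hx1 : x = 1
  · left; exact hx1
  right
  have hoddx := C.odd_order hxF
  have hoddy := C.odd_order hyF
  obtain ⟨hcx, _⟩ := inv_struct hM ht hoddx hx1 hxinv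
  obtain ⟨hcy, _⟩ := inv_struct hM ht hoddy hy1 hyinv
  have hxP : x ∈ P := C.P_mem x hxF (cube_eq_one hM hoddx hcx)
  have hyP : y ∈ P := C.P_mem y hyF (cube_eq_one hM hoddy hcy)
  have hcomm := C.comm_of_inverted hM hyP hxP hcx hx1 ht htH hyinv
  exact inv_unique hM ht hoddy hoddx hy1 hx1 hyinv hxinv hcomm

variable (C : FFC H F P) {t : MulAut M} {c : M} {y : MulAut M}

omit hM in
theorem IsLine.odd (C : FFC H F P) (hl : IsLine F t y) : Odd (orderOf y) := C.odd_order hl.2.2.1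

theorem IsLine.card (C : FFC H F P) (ht : IsTrC t c) (hl : IsLine F t y) : Nat.card (com y) = 4 :=
  (inv_struct hM ht (hl.odd C) hl.1 hl.2.1).1

theorem IsLine.center_mem (C : FFC H F P) (ht : IsTrC t c) (hl : IsLine F t y) : c ∈ com y :=
  (inv_struct hM ht (hl.odd C) hl.1 hl.2.1).2

theorem IsLine.cube (C : FFC H F P) (ht : IsTrC t c) (hl : IsLine F t y) : y ^ 3 = 1 :=
  cube_eq_one hM (hl.odd C) (hl.card hM C ht)

theorem IsLine.mem_P (C : FFC H F P) (ht : IsTrC t c) (hl : IsLine F t y) : y ∈ P :=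
  C.P_mem y hl.2.2.1 (hl.cube hM C ht)

/-- A transvection normalizes each line. -/
theorem IsLine.tr_norm (C : FFC H F P) (ht : IsTrC t c) (hl : IsLine F t y) {t' : MulAut M} {c' : M}
    (ht' : IsTrC t' c') (ht'H : t' ∈ H) : t' * y * t'⁻¹ = y ∨ t' * y * t'⁻¹ = y⁻¹ :=
  C.tr_norm hM (hl.mem_P hM C ht) (hl.card hM C ht) ht' ht'H

/-- Lines commute. -/
theorem IsLine.comm (C : FFC H F P) (ht : IsTrC t c) (hl : IsLine F t y) {t' y' : MulAut M} {c' : M}
    (ht' : IsTrC t' c') (ht'H : t' ∈ H) (hl' : IsLine F t' y') : y' * y = y * y' :=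
  C.comm_of_inverted hM (hl'.mem_P hM C ht') (hl.mem_P hM C ht) (hl.card hM C ht) hl.1 ht' ht'H hl'.2.1

/-- If `t'` inverts the line of `t`, then they have the same line. -/
theorem IsLine.same (hl : IsLine F t y) {t' y' : MulAut M} (hl' : IsLine F t' y')
    (hinv : t' * y * t'⁻¹ = y⁻¹) : y = y' ∨ y = y'⁻¹ := by
  rcases hl'.2.2.2 y hl.2.2.1 hinv with h | h | h
  · exact absurd h hl.1
  · left; exact h
  · right; exact h

omit hM [Finite M] in
theorem conj_inv_eq (t y : MulAut M) : t * y⁻¹ * t⁻¹ = (t * y * t⁻¹)⁻¹ := by group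

/-- A transvection acts trivially on the fixed points of an element it inverts. -/
theorem tr_fix_of_inv (ht : IsTrC t c) (hodd : Odd (orderOf y)) (hy1 : y ≠ 1) (hinv : t * y * t⁻¹ = y⁻¹)
    {f : M} (hf : y f = f) : t f = f := by
  rcases ht.2 f with h | h
  · exact h
  · exfalso
    have hti := ht.inv hM
    -- `t f` is fixed by `y`
    have h1 : y (t f) = t f := by
      have e : y = t * y⁻¹ * t⁻¹ := by
        rw [conj_inv_eq, hinv, inv_inv]
      have hf' : y⁻¹ f = f := by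
        conv_lhs => rw [← hf]
        simp
      calc y (t f) = (t * y⁻¹ * t⁻¹) (t f) := by rw [← e]
        _ = t (y⁻¹ f) := by simp [MulAut.mul_apply]
        _ = t f := by rw [hf']
    rw [h, map_mul, hf] at h1
    have h2 : y c = c := mul_left_cancel h1
    exact ht.c_ne_one (fx_inf_com hM hodd h2 (inv_struct hM ht hodd hy1 hinv).2)

/-- A transvection moves the elements of `[M,y]` other than its center. -/
theorem tr_moves_of_inv (ht : IsTrC t c) (hodd : Odd (orderOf y)) (hy1 : y ≠ 1) (hinv : t * y * t⁻¹ = y⁻¹)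
    {u : M} (hu : u ∈ com y) (hu1 : u ≠ 1) (huc : u ≠ c) : t u = u * c := by
  rcases ht.2 u with h | h
  · exfalso
    obtain ⟨hcard, hcm⟩ := inv_struct hM ht hodd hy1 hinv
    have hc1 := ht.c_ne_one
    have hti := ht.inv hM
    have hfixall : ∀ w ∈ com y, t w = w := by
      intro w hw
      rcases four_elems hM hcard hu hcm hu1 hc1 huc hw with h1 | h1 | h1 | h1
      · rw [h1, map_one]
      · rw [h1, h]
      · rw [h1, ht.fix_c hM]
      · rw [h1, map_mul, h, ht.fix_c hM]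
    have h1 : y⁻¹ u = y u := by
      have h2 : (t * y * t⁻¹) u = y⁻¹ u := by rw [hinv]
      rw [← h2, hti]
      show t (y (t u)) = y u
      rw [h, hfixall _ (map_com_mem y hu)]
    have h3 : (y * y) u = u := by
      show y (y u) = u
      rw [← h1]
      simp
    exact hu1 (fx_inf_com hM hodd (fix_of_sq_fix hodd h3) hu)
  · exact h

/-- A transvection acts trivially on the fixed points of its line. -/
theorem IsLine.tr_fix (C : FFC H F P) (ht : IsTrC t c) (hl : IsLine F t y) {f : M} (hf : y f = f) : t f = f :=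
  tr_fix_of_inv hM ht (hl.odd C) hl.1 hl.2.1 hf

/-- A transvection moves the elements of `[M,y]` other than its center. -/
theorem IsLine.tr_moves (C : FFC H F P) (ht : IsTrC t c) (hl : IsLine F t y) {u : M} (hu : u ∈ com y) (hu1 : u ≠ 1)
    (huc : u ≠ c) : t u = u * c :=
  tr_moves_of_inv hM ht (hl.odd C) hl.1 hl.2.1 hu hu1 huc

/-- Two commuting transvections inverting the same element are equal. -/
theorem tr_eq_of_commute (ht : IsTrC t c) (hodd : Odd (orderOf y)) (hy1 : y ≠ 1) (hinv : t * y * t⁻¹ = y⁻¹)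
    {t' : MulAut M} {c' : M} (ht' : IsTrC t' c') (hinv' : t' * y * t'⁻¹ = y⁻¹) (hcomm : t * t' = t' * t) :
    t = t' := by
  obtain ⟨hcard, hcm⟩ := inv_struct hM ht hodd hy1 hinv
  have hc1 := ht.c_ne_one
  have hc'1 := ht'.c_ne_one
  -- `t'` fixes `c`
  have h1 : t' c = c := by
    have h2 : IsTrC (t' * t * t'⁻¹) (t' c) := ht.conj t'
    have e : t' * t * t'⁻¹ = t := by rw [← hcomm]; group
    rw [e] at h2
    exact h2.center_unique ht
  have hcc : c = c' := by
    by_contra hne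
    have h2 := tr_moves_of_inv hM ht' hodd hy1 hinv' hcm hc1 hne
    rw [h1] at h2
    apply hc'1
    exact mul_left_cancel (a := c) (by rw [← h2, mul_one])
  subst hcc
  ext v
  obtain ⟨f, hf, u, hu, rfl⟩ := fx_mul_com hM hodd v
  rw [map_mul, map_mul, tr_fix_of_inv hM ht hodd hy1 hinv hf, tr_fix_of_inv hM ht' hodd hy1 hinv' hf]
  congr 1
  by_cases hu1 : u = 1
  · rw [hu1, map_one, map_one]
  by_cases huc : u = c
  · rw [huc, ht.fix_c hM, ht'.fix_c hM]
  · rw [tr_moves_of_inv hM ht hodd hy1 hinv hu hu1 huc, tr_moves_of_inv hM ht' hodd hy1 hinv' hu hu1 huc]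

/-- The conjugate of a line. -/
theorem IsLine.conj (C : FFC H F P) (hl : IsLine F t y) {g : MulAut M} (hg : g ∈ H) :
    IsLine F (g * t * g⁻¹) (g * y * g⁻¹) := by
  refine ⟨?_, ?_, C.F_norm g hg y hl.2.2.1, ?_⟩
  · intro h
    apply hl.1
    have : y = g⁻¹ * (g * y * g⁻¹) * g := by group
    rw [this, h]; group
  · have e : g * t * g⁻¹ * (g * y * g⁻¹) * (g * t * g⁻¹)⁻¹ = g * (t * y * t⁻¹) * g⁻¹ := by group
    rw [e, hl.2.1]; group
  · intro x hx hinv
    have hx' : g⁻¹ * x * g ∈ F := by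
      have := C.F_norm g⁻¹ (H.inv_mem hg) x hx
      simpa using this
    have hinv' : t * (g⁻¹ * x * g) * t⁻¹ = (g⁻¹ * x * g)⁻¹ := by
      have h1 : g⁻¹ * (g * t * g⁻¹ * x * (g * t * g⁻¹)⁻¹) * g = t * (g⁻¹ * x * g) * t⁻¹ := by group
      rw [← h1, hinv]; group
    rcases hl.2.2.2 _ hx' hinv' with h | h | h
    · left
      have : x = g * (g⁻¹ * x * g) * g⁻¹ := by group
      rw [this, h]; group
    · right; left
      have : x = g * (g⁻¹ * x * g) * g⁻¹ := by group
      rw [this, h]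
    · right; right
      have : x = g * (g⁻¹ * x * g) * g⁻¹ := by group
      rw [this, h]; group

end Ctx

end Cfsg.Agent.Lib.FFAct
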