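import Mathlib
import Cfsg.Agent.Lib.FFAct3
import Cfsg.Agent.Lib.BGTH

/-!
# Failure of factorization, part 4: eigenvectors; the subgroup generated by transvections
-/

set_option autoImplicit false

namespace Cfsg.Agent.Lib.FFAct

section Eigen

variable {X : Type*} [Group X] [Finite X]

omit [Finite X] in
theorem comm_of_sq_one {A : Subgroup X} (hA : ∀ a ∈ A, a * a = 1) {a b : X} (ha : a ∈ A) (hb : b ∈ A) :
    a * b = b * a := by
  have h1 := hA _ (A.mul_mem ha hb)
  have h2 := hA a ha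
  have h3 := hA b hb
  calc a * b = a * b * (a * b * (b * a)) := by
        have : a * b * (b * a) = 1 := by
          calc a * b * (b * a) = a * (b * b) * a := by group
            _ = 1 := by rw [h3, mul_one, h2]
        rw [this, mul_one]
    _ = (a * b * (a * b)) * (b * a) := by group
    _ = b * a := by rw [h1, one_mul]

/-- An elementary abelian 2-group acting nontrivially on a group of odd order has an "eigenvector". -/
theorem eigen {A : Subgroup X} (hA : ∀ a ∈ A, a * a = 1) (F₀ : Subgroup X) (hF : (Nat.card F₀).Coprime 2)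
    (hs : Group.IsSolvable F₀) (hN : ∀ a ∈ A, ∀ x ∈ F₀, a * x * a⁻¹ ∈ F₀) (hnt : ∃ a ∈ A, ∃ x ∈ F₀, a * x ≠ x * a) :
    ∃ x ∈ F₀, x ≠ 1 ∧ (∀ e ∈ A, e * x * e⁻¹ = x ∨ e * x * e⁻¹ = x⁻¹) ∧ ∃ a ∈ A, a * x * a⁻¹ = x⁻¹ := by
  classical
  induction F₀ using WellFoundedLT.induction with
  | ind F₀ ih =>
    obtain ⟨a₀, ha₀, x₀, hx₀, hne⟩ := hnt
    have hinvol : ∀ a ∈ A, a⁻¹ = a := fun a ha => inv_eq_of_mul_eq_one_left (hA a ha)
    -- Case 1: some `a` acts nontrivially with nontrivial action on `C(a)`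
    by_cases hcase : ∃ a ∈ A, (∃ x ∈ F₀, a * x ≠ x * a) ∧
        ∃ b ∈ A, ∃ x ∈ F₀ ⊓ Subgroup.centralizer ({a} : Set X), b * x ≠ x * b
    · obtain ⟨a, ha, ⟨y, hy, hya⟩, b, hb, x, hx, hbx⟩ := hcase
      have hlt : F₀ ⊓ Subgroup.centralizer ({a} : Set X) < F₀ := by
        refine lt_of_le_of_ne inf_le_left ?_
        intro he
        apply hya
        have : y ∈ F₀ ⊓ Subgroup.centralizer ({a} : Set X) := by rw [he]; exact hy
        exact (Subgroup.mem_centralizer_singleton_iff.mp this.2).symm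
      have hsol : Group.IsSolvable ↥(F₀ ⊓ Subgroup.centralizer ({a} : Set X)) :=
        Group.isSolvable_of_isSolvable_injective (Subgroup.inclusion_injective hlt.le)
      have hcard : (Nat.card ↥(F₀ ⊓ Subgroup.centralizer ({a} : Set X))).Coprime 2 :=
        Nat.Coprime.coprime_dvd_left (Subgroup.card_dvd_of_le hlt.le) hF
      have hN' : ∀ a' ∈ A, ∀ x ∈ F₀ ⊓ Subgroup.centralizer ({a} : Set X),
          a' * x * a'⁻¹ ∈ F₀ ⊓ Subgroup.centralizer ({a} : Set X) := by
        intro a' ha' x hx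
        refine ⟨hN a' ha' x hx.1, ?_⟩
        apply Subgroup.mem_centralizer_singleton_iff.mpr
        have h1 : x * a = a * x := Subgroup.mem_centralizer_singleton_iff.mp hx.2
        have h2 : a' * a = a * a' := comm_of_sq_one hA ha' ha
        calc a' * x * a'⁻¹ * a = a' * x * (a'⁻¹ * a) := by group
          _ = a' * x * (a * a'⁻¹) := by
              have : a'⁻¹ * a = a * a'⁻¹ := by
                rw [hinvol a' ha']; exact h2
              rw [this]
          _ = a' * (x * a) * a'⁻¹ := by group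
          _ = a' * (a * x) * a'⁻¹ := by rw [h1]
          _ = a * (a' * x * a'⁻¹) := by rw [← mul_assoc a', h2]; group
      obtain ⟨z, hz, hz1, hz2, hz3⟩ := ih _ hlt hcard hsol hN' ⟨b, hb, x, hx, hbx⟩
      exact ⟨z, hz.1, hz1, hz2, hz3⟩
    · push Not at hcase
      have hcase' : ∀ a ∈ A, (∃ x ∈ F₀, a * x ≠ x * a) → ∀ b ∈ A, ∀ x ∈ F₀,
          a * x = x * a → b * x = x * b := by
        intro a ha hact b hb x hx hax
        exact hcase a ha hact b hb x ⟨hx, Subgroup.mem_centralizer_singleton_iff.mpr hax.symm⟩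
      -- every element acts like `1` or `a₀`
      by_cases hcase2 : ∃ b ∈ A, (∃ x ∈ F₀, b * x ≠ x * b) ∧ ∃ x ∈ F₀, (b * a₀) * x ≠ x * (b * a₀)
      · exfalso
        obtain ⟨b, hb, hb1, hb2⟩ := hcase2
        have hH : F₀ ≤ F₀ ⊓ Subgroup.centralizer (A : Set X) := by
          have hpA : IsPGroup 2 A := by
            intro g
            refine ⟨1, ?_⟩
            apply Subtype.ext
            simpa [pow_two] using hA g g.2
          have hcA : IsMulCommutative A := ⟨⟨fun x y => Subtype.ext (comm_of_sq_one hA x.2 y.2)⟩⟩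
          haveI : Fact (Nat.Prime 2) := ⟨Nat.prime_two⟩
          have hnorm : A ≤ Subgroup.normalizer (F₀ : Set X) := by
            intro a ha
            rw [Subgroup.mem_normalizer_iff]
            intro x
            constructor
            · exact hN a ha x
            · intro hx
              have := hN a ha _ hx
              rw [hinvol a ha] at this
              have e : a * (a * x * a) * a = x := by
                have h2 := hA a ha
                calc a * (a * x * a) * a = (a * a) * x * (a * a) := by group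
                  _ = x := by rw [h2]; group
              rwa [e] at this
          have hmem : ∀ c ∈ A, (∃ x ∈ F₀, c * x ≠ x * c) → F₀ ⊓ Subgroup.centralizer ({c} : Set X) ≤
              F₀ ⊓ Subgroup.centralizer (A : Set X) := by
            intro c hc hcact x hx
            refine ⟨hx.1, ?_⟩
            apply Subgroup.mem_centralizer_iff.mpr
            intro d hd
            exact hcase' c hc hcact d hd x hx.1 (Subgroup.mem_centralizer_singleton_iff.mp hx.2).symm
          refine Cfsg.Agent.Lib.BGTH.le_of_fixed_parts (r := 2) (B := A) (a := a₀) (b := b) hpA hcA ha₀ hb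
            (by rw [pow_two]; exact hA a₀ ha₀) (by rw [pow_two]; exact hA b hb) hs hF hnorm ?_ ?_
          · intro k hk0 hk2
            have hk : k = 1 := by omega
            subst hk
            rw [pow_one]
            exact hmem a₀ ha₀ ⟨x₀, hx₀, hne⟩
          · intro i
            rcases Nat.even_or_odd i with h | h
            · have : a₀ ^ i = 1 := by
                obtain ⟨m, rfl⟩ := h
                rw [← two_mul, pow_mul, pow_two, hA a₀ ha₀, one_pow]
              rw [this, one_mul]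
              exact hmem b hb hb1
            · have : a₀ ^ i = a₀ := by
                obtain ⟨m, rfl⟩ := h
                rw [pow_succ, pow_mul, pow_two, hA a₀ ha₀, one_pow, one_mul]
              rw [this]
              have hcab : a₀ * b = b * a₀ := comm_of_sq_one hA ha₀ hb
              rw [hcab]
              exact hmem (b * a₀) (A.mul_mem hb ha₀) hb2
        obtain ⟨_, hx⟩ := hH hx₀
        exact hne (Subgroup.mem_centralizer_iff.mp hx a₀ ha₀)
      · push Not at hcase2
        -- the inverted element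
        have hh := hinvol a₀ ha₀
        have haa := hA a₀ ha₀
        set x := x₀⁻¹ * (a₀ * x₀ * a₀⁻¹) with hxdef
        have hxF : x ∈ F₀ := F₀.mul_mem (F₀.inv_mem hx₀) (hN a₀ ha₀ x₀ hx₀)
        have hx1 : x ≠ 1 := by
          intro h
          apply hne
          have h2 : a₀ * x₀ * a₀⁻¹ = x₀ := (inv_mul_eq_one.mp h).symm
          rw [mul_inv_eq_iff_eq_mul] at h2
          exact h2
        have hinv : a₀ * x * a₀⁻¹ = x⁻¹ := by
          rw [hxdef, hh]
          have e1 : (x₀⁻¹ * (a₀ * x₀ * a₀))⁻¹ = a₀⁻¹ * x₀⁻¹ * a₀⁻¹ * x₀ := by group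
          rw [e1, hh]
          calc a₀ * (x₀⁻¹ * (a₀ * x₀ * a₀)) * a₀ = a₀ * x₀⁻¹ * a₀ * x₀ * (a₀ * a₀) := by group
            _ = a₀ * x₀⁻¹ * a₀ * x₀ := by rw [haa, mul_one]
        refine ⟨x, hxF, hx1, ?_, a₀, ha₀, hinv⟩
        intro e he
        by_cases he1 : ∃ y ∈ F₀, e * y ≠ y * e
        · right
          have h2 := hcase2 e he he1
          -- `e a₀` acts trivially
          have h3 : e * a₀ * x⁻¹ * (e * a₀)⁻¹ = x⁻¹ := by
            have := h2 _ (F₀.inv_mem hxF)
            rw [mul_inv_eq_iff_eq_mul]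
            exact this
          have h4 : e * x * e⁻¹ = (e * a₀) * (a₀ * x * a₀⁻¹) * (e * a₀)⁻¹ := by
            have : (e * a₀) * (a₀ * x * a₀⁻¹) * (e * a₀)⁻¹ = e * (a₀ * a₀) * x * (a₀⁻¹ * (a₀⁻¹ * e⁻¹)) := by
              group
            rw [this, haa, hh, ← mul_assoc a₀ a₀, haa]
            group
          rw [h4, hinv]
          exact h3
        · left
          push Not at he1
          rw [he1 x hxF]
          group

end Eigen

variable {M : Type*} [CommGroup M] [Finite M]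

/-- The normalizer of `⟨y⟩`, for `y` of order 3. -/
def normLine (y : MulAut M) : Subgroup (MulAut M) where
  carrier := {g | g * y * g⁻¹ = y ∨ g * y * g⁻¹ = y⁻¹}
  mul_mem' := by
    intro a b ha hb
    have e : a * b * y * (a * b)⁻¹ = a * (b * y * b⁻¹) * a⁻¹ := by group
    simp only [Set.mem_setOf_eq] at *
    rw [e]
    rcases hb with hb | hb
    · rw [hb]; exact ha
    · rw [hb, conj_inv_eq]
      rcases ha with ha | ha
      · right; rw [ha]
      · left; rw [ha, inv_inv]
  one_mem' := by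
    left; group
  inv_mem' := by
    intro g hg
    simp only [Set.mem_setOf_eq] at *
    rcases hg with hg | hg
    · left
      have : y = g⁻¹ * (g * y * g⁻¹) * g := by group
      rw [hg] at this
      rw [inv_inv]
      exact this.symm
    · right
      have h1 : y = g⁻¹ * y⁻¹ * g := by
        rw [← hg]; group
      have h2 : g⁻¹ * y * g = y⁻¹ := by
        have h3 : (g⁻¹ * y⁻¹ * g)⁻¹ = g⁻¹ * y * g := by group
        rw [← h3, ← h1]
      rw [inv_inv]; exact h2

theorem mem_normLine {y g : MulAut M} : g ∈ normLine y ↔ g * y * g⁻¹ = y ∨ g * y * g⁻¹ = y⁻¹ := Iff.rfl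

/-- The set of lines. -/
def lineSet (H F : Subgroup (MulAut M)) : Set (MulAut M) := {y | ∃ t ∈ H, IsTr t ∧ IsLine F t y}

/-- The subgroup generated by the lines. -/
def Q0 (H F : Subgroup (MulAut M)) : Subgroup (MulAut M) := Subgroup.closure (lineSet H F)

/-- The subgroup generated by the transvections of `H`. -/
def trSub (H : Subgroup (MulAut M)) : Subgroup (MulAut M) := Subgroup.closure {t | t ∈ H ∧ IsTr t}

theorem trSub_le (H : Subgroup (MulAut M)) : trSub H ≤ H := by
  rw [trSub, Subgroup.closure_le]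
  exact fun t ht => ht.1

theorem IsTr.conj {t : MulAut M} (ht : IsTr t) (g : MulAut M) : IsTr (g * t * g⁻¹) := by
  obtain ⟨c, hc⟩ := ht
  exact ⟨g c, hc.conj g⟩

theorem trSub_conj {H : Subgroup (MulAut M)} {h d : MulAut M} (hh : h ∈ H) (hd : d ∈ trSub H) :
    h * d * h⁻¹ ∈ trSub H := by
  have : trSub H ≤ (trSub H).comap (MulAut.conj h).toMonoidHom := by
    rw [trSub, Subgroup.closure_le]
    rintro t ⟨ht1, ht2⟩
    apply Subgroup.subset_closure
    show h * t * h⁻¹ ∈ _
    exact ⟨H.mul_mem (H.mul_mem hh ht1) (H.inv_mem hh), ht2.conj h⟩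
  exact this hd

section Ctx

variable {H F P : Subgroup (MulAut M)} (hM : ∀ v : M, v * v = 1) (C : FFC H F P)
include hM C

theorem Q0_le_P : Q0 H F ≤ P := by
  rw [Q0, Subgroup.closure_le]
  rintro y ⟨t, _, ⟨c, ht⟩, hl⟩
  exact hl.mem_P hM C ht

theorem Q0_conj {h q : MulAut M} (hh : h ∈ H) (hq : q ∈ Q0 H F) : h * q * h⁻¹ ∈ Q0 H F := by
  have : Q0 H F ≤ (Q0 H F).comap (MulAut.conj h).toMonoidHom := by
    rw [Q0, Subgroup.closure_le]
    rintro y ⟨t, ht1, ht2, hl⟩
    apply Subgroup.subset_closure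
    show h * y * h⁻¹ ∈ _
    exact ⟨h * t * h⁻¹, H.mul_mem (H.mul_mem hh ht1) (H.inv_mem hh), ht2.conj h, hl.conj hM C hh⟩
  exact this hq

/-- A transvection acts on `F / Q0` trivially. -/
theorem tr_sub_mem {t : MulAut M} (htH : t ∈ H) (ht : IsTr t) {x : MulAut M} (hx : x ∈ F) :
    x⁻¹ * (t * x * t⁻¹) ∈ Q0 H F := by
  obtain ⟨c, htc⟩ := id ht
  have hti := htc.inv hM
  have htt := htc.mul_self hM
  obtain ⟨y, hl⟩ := C.exists_line hM htc htH
  have hinv : t * (x⁻¹ * (t * x * t⁻¹)) * t⁻¹ = (x⁻¹ * (t * x * t⁻¹))⁻¹ := by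
    rw [hti]
    have e1 : (x⁻¹ * (t * x * t))⁻¹ = t⁻¹ * x⁻¹ * t⁻¹ * x := by group
    rw [e1, hti]
    calc t * (x⁻¹ * (t * x * t)) * t = t * x⁻¹ * t * x * (t * t) := by group
      _ = t * x⁻¹ * t * x := by rw [htt, mul_one]
  have hmem : x⁻¹ * (t * x * t⁻¹) ∈ F := F.mul_mem (F.inv_mem hx) (C.F_norm t htH x hx)
  have hyQ : y ∈ Q0 H F := Subgroup.subset_closure ⟨t, htH, ht, hl⟩
  rcases hl.2.2.2 _ hmem hinv with h | h | h
  · rw [h]; exact Subgroup.one_mem _
  · rw [h]; exact hyQ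
  · rw [h]; exact Subgroup.inv_mem _ hyQ

/-- The elements of `trSub H` act on `F / Q0` trivially. -/
theorem trSub_sub_mem {d : MulAut M} (hd : d ∈ trSub H) {x : MulAut M} (hx : x ∈ F) :
    x⁻¹ * (d * x * d⁻¹) ∈ Q0 H F := by
  -- the subgroup
  let S : Subgroup (MulAut M) :=
    { carrier := {g | g ∈ H ∧ ∀ x ∈ F, x⁻¹ * (g * x * g⁻¹) ∈ Q0 H F}
      mul_mem' := by
        rintro a b ⟨ha, ha2⟩ ⟨hb, hb2⟩
        refine ⟨H.mul_mem ha hb, ?_⟩
        intro x hx
        have hx' : b * x * b⁻¹ ∈ F := C.F_norm b hb x hx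
        have e : x⁻¹ * (a * b * x * (a * b)⁻¹) = (x⁻¹ * (b * x * b⁻¹)) * ((b * x * b⁻¹)⁻¹ * (a * (b * x * b⁻¹) * a⁻¹)) := by
          group
        rw [e]
        exact Subgroup.mul_mem _ (hb2 x hx) (ha2 _ hx')
      one_mem' := by
        refine ⟨H.one_mem, ?_⟩
        intro x _
        have : x⁻¹ * (1 * x * 1⁻¹) = 1 := by group
        rw [this]
        exact Subgroup.one_mem _
      inv_mem' := by
        rintro a ⟨ha, ha2⟩
        refine ⟨H.inv_mem ha, ?_⟩
        intro x hx
        have hx' : a⁻¹ * x * a⁻¹⁻¹ ∈ F := C.F_norm a⁻¹ (H.inv_mem ha) x hx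
        have h1 := ha2 _ hx'
        have e : x⁻¹ * (a⁻¹ * x * a⁻¹⁻¹) = ((a⁻¹ * x * a⁻¹⁻¹)⁻¹ * (a * (a⁻¹ * x * a⁻¹⁻¹) * a⁻¹))⁻¹ := by
          group
        rw [e]
        exact Subgroup.inv_mem _ h1 }
  have hle : trSub H ≤ S := by
    rw [trSub, Subgroup.closure_le]
    rintro t ⟨ht1, ht2⟩
    exact ⟨ht1, fun x hx => tr_sub_mem hM C ht1 ht2 hx⟩
  exact (hle hd).2 x hx

/-- The elements of `trSub H` normalize the lines. -/
theorem trSub_normLine {d y : MulAut M} (hd : d ∈ trSub H) (hy : y ∈ lineSet H F) : d ∈ normLine y := by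
  obtain ⟨t, _, ⟨c, ht⟩, hl⟩ := hy
  have : trSub H ≤ normLine y := by
    rw [trSub, Subgroup.closure_le]
    rintro t' ⟨ht1, ⟨c', ht2⟩⟩
    exact hl.tr_norm hM C ht ht2 ht1
  exact this hd

/-- A 2-element of `H` centralizing the lines and acting trivially on `F / Q0` is trivial. -/
theorem eq_one_of_two {d : MulAut M} (hdH : d ∈ H) {n : ℕ} (hd : d ^ (2 ^ n) = 1)
    (hcomm : ∀ y ∈ lineSet H F, d * y = y * d) (hF : ∀ x ∈ F, x⁻¹ * (d * x * d⁻¹) ∈ Q0 H F) : d = 1 := by
  apply C.eq_one_of_two_pow (C.F_cent d hdH ?_) hd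
  intro x hx
  set q := x⁻¹ * (d * x * d⁻¹) with hq
  have hqQ : q ∈ Q0 H F := hF x hx
  have hQc : Q0 H F ≤ Subgroup.centralizer ({d} : Set (MulAut M)) := by
    rw [Q0, Subgroup.closure_le]
    intro y hy
    exact Subgroup.mem_centralizer_singleton_iff.mpr (hcomm y hy).symm
  have hdq : q * d = d * q := Subgroup.mem_centralizer_singleton_iff.mp (hQc hqQ)
  have hdx : d * x * d⁻¹ = x * q := by rw [hq]; group
  have hpow : ∀ k : ℕ, d ^ k * x * (d ^ k)⁻¹ = x * q ^ k := by
    intro k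
    induction k with
    | zero => simp
    | succ k ih =>
      have hdqk : d * q ^ k * d⁻¹ = q ^ k := by
        have : Commute d (q ^ k) := (show Commute d q from hdq.symm).pow_right k
        rw [this.eq]; group
      calc d ^ (k + 1) * x * (d ^ (k + 1))⁻¹ = d * (d ^ k * x * (d ^ k)⁻¹) * d⁻¹ := by
            rw [pow_succ']; group
        _ = (d * x * d⁻¹) * (d * q ^ k * d⁻¹) := by rw [ih]; group
        _ = x * q * q ^ k := by rw [hdx, hdqk]
        _ = x * q ^ (k + 1) := by rw [pow_succ']; group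
  have h1 := hpow (2 ^ n)
  rw [hd] at h1
  have h2 : q ^ (2 ^ n) = 1 := by
    have : x = x * q ^ 2 ^ n := by simpa using h1
    exact mul_eq_left.mp this.symm
  have hqF : q ∈ F := C.P_le (Q0_le_P hM C hqQ)
  have h3 : q = 1 := C.eq_one_of_two_pow hqF h2
  have h4 : d * x * d⁻¹ = x := by rw [hdx, h3, mul_one]
  rw [mul_inv_eq_iff_eq_mul] at h4
  exact h4

/-- A 2-element of `trSub H` centralizing all lines is trivial. -/
theorem trSub_two_eq_one {d : MulAut M} (hd : d ∈ trSub H) {n : ℕ} (hd2 : d ^ (2 ^ n) = 1)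
    (hcomm : ∀ y ∈ lineSet H F, d * y = y * d) : d = 1 :=
  eq_one_of_two hM C (trSub_le H hd) hd2 hcomm (fun _ hx => trSub_sub_mem hM C hd hx)

/-- An element of odd order of `trSub H` commutes with all lines. -/
theorem trSub_odd_comm {d y : MulAut M} (hd : d ∈ trSub H) (hodd : Odd (orderOf d)) (hy : y ∈ lineSet H F) :
    d * y = y * d := by
  have h1 := trSub_normLine hM C hd hy
  obtain ⟨t, _, ⟨c, ht⟩, hl⟩ := hy
  exact commute_of_conj_or hodd (sq_ne_one_of_odd (hl.odd C) hl.1) h1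

/-- Transvections in a common 2-group commute. -/
theorem tr_comm_of_two {t t' : MulAut M} (ht1 : t ∈ H) (ht2 : IsTr t) (ht1' : t' ∈ H) (ht2' : IsTr t')
    {n : ℕ} (hpow : (t * t' * t⁻¹ * t'⁻¹) ^ (2 ^ n) = 1) : t * t' = t' * t := by
  have hmem : ∀ s, s ∈ H → IsTr s → s ∈ trSub H := fun s h1 h2 => Subgroup.subset_closure ⟨h1, h2⟩
  have htD := hmem t ht1 ht2
  have ht'D := hmem t' ht1' ht2'
  have hgD : t * t' * t⁻¹ * t'⁻¹ ∈ trSub H :=
    Subgroup.mul_mem _ (Subgroup.mul_mem _ (Subgroup.mul_mem _ htD ht'D) (Subgroup.inv_mem _ htD))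
      (Subgroup.inv_mem _ ht'D)
  have h1 := trSub_two_eq_one hM C hgD hpow ?_
  · have h2 : t * t' * t⁻¹ = t' := by
      rw [mul_inv_eq_one] at h1
      exact h1
    rw [mul_inv_eq_iff_eq_mul] at h2
    exact h2
  · intro y hy
    have h3 : t ∈ normLine y := trSub_normLine hM C htD hy
    have h4 : t' ∈ normLine y := trSub_normLine hM C ht'D hy
    have hconjinv : ∀ s : MulAut M, s * y⁻¹ * s⁻¹ = (s * y * s⁻¹)⁻¹ := fun s => conj_inv_eq s y
    have h5 : ∀ s : MulAut M, s * y * s⁻¹ = y⁻¹ → s⁻¹ * y * s = y⁻¹ := by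
      intro s hs
      have h1 : s⁻¹ * y⁻¹ * s = y := by rw [← hs]; group
      have h2 : (s⁻¹ * y⁻¹ * s)⁻¹ = s⁻¹ * y * s := by group
      rw [← h2, h1]
    have h6 : ∀ s : MulAut M, s * y * s⁻¹ = y → s⁻¹ * y * s = y := by
      intro s hs
      nth_rw 1 [← hs]
      group
    have hconjinv' : ∀ s : MulAut M, s⁻¹ * y⁻¹ * s = (s⁻¹ * y * s)⁻¹ := fun s => by group
    have e : (t * t' * t⁻¹ * t'⁻¹) * y * (t * t' * t⁻¹ * t'⁻¹)⁻¹ =
        t * (t' * (t⁻¹ * (t'⁻¹ * y * t') * t) * t'⁻¹) * t⁻¹ := by group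
    have key : (t * t' * t⁻¹ * t'⁻¹) * y * (t * t' * t⁻¹ * t'⁻¹)⁻¹ = y := by
      rw [e]
      rcases h3 with h3 | h3 <;> rcases h4 with h4 | h4
      · rw [h6 t' h4, h6 t h3, h4, h3]
      · rw [h5 t' h4, hconjinv', h6 t h3, hconjinv, h4, inv_inv, h3]
      · rw [h6 t' h4, h5 t h3, hconjinv, h4, hconjinv, h3, inv_inv]
      · rw [h5 t' h4, hconjinv', h5 t h3, inv_inv, h4, hconjinv, h3, inv_inv]
    rw [mul_inv_eq_iff_eq_mul] at key
    exact key

end Ctx

end Cfsg.Agent.Lib.FFAct
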