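import Mathlib
import Cfsg.Agent.Lib.FFAct4

/-!
# Failure of factorization, part 5: best offenders are generated by transvections
-/

set_option autoImplicit false

namespace Cfsg.Agent.Lib.FFAct

variable {M : Type*} [CommGroup M] [Finite M]

/-- A best offender. -/
def Best (A : Subgroup (MulAut M)) : Prop :=
  ∀ E ≤ A, Nat.card E * Nat.card (fixQ E) ≤ Nat.card A * Nat.card (fixQ A)

theorem fixQ_anti {E A : Subgroup (MulAut M)} (h : E ≤ A) : fixQ A ≤ fixQ E :=
  fun _ hv g hg => hv g (h hg)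

theorem exists_fixed_in (hM : ∀ v : M, v * v = 1) {E : Subgroup (MulAut M)} (hE : IsPGroup 2 E) {U : Subgroup M}
    (hU : ∀ e ∈ E, ∀ u ∈ U, e u ∈ U) (hne : U ≠ ⊥) : ∃ u ∈ U, u ≠ 1 ∧ ∀ e ∈ E, e u = u := by
  classical
  haveI : Fact (Nat.Prime 2) := ⟨Nat.prime_two⟩
  letI act : MulAction E U :=
    { smul := fun e u => ⟨(e : MulAut M) u, hU _ e.2 _ u.2⟩
      one_smul := fun u => Subtype.ext rfl
      mul_smul := fun a b u => Subtype.ext rfl }
  have h1 := IsPGroup.card_modEq_card_fixedPoints hE U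
  by_contra hcon
  push Not at hcon
  have hfp : MulAction.fixedPoints E U = {1} := by
    ext u
    constructor
    · intro hu
      by_contra hu1
      have hu1' : (u : M) ≠ 1 := fun h => hu1 (Subtype.ext h)
      obtain ⟨e, he, hne⟩ := hcon u u.2 hu1'
      apply hne
      have := hu ⟨e, he⟩
      exact congrArg Subtype.val this
    · rintro rfl e
      exact Subtype.ext (map_one _)
  rw [hfp] at h1
  have h2 : Nat.card (({1} : Set U) : Set U) = 1 := by simp
  rw [h2] at h1
  obtain ⟨k, hk⟩ := card_subgroup_two_pow hM U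
  have hk0 : k ≠ 0 := by
    rintro rfl
    apply hne
    exact Subgroup.eq_bot_of_card_eq _ (by simpa using hk)
  rw [hk] at h1
  have h3 : 2 ∣ 2 ^ k := dvd_pow_self 2 hk0
  have h4 : 2 ^ k % 2 = 0 := Nat.mod_eq_zero_of_dvd h3
  unfold Nat.ModEq at h1
  omega

theorem odd_of_ctx {H F P : Subgroup (MulAut M)} (C : FFC H F P) : (Nat.card F).Coprime 2 :=
  Nat.coprime_two_right.mpr C.F_odd

theorem best_main (hM : ∀ v : M, v * v = 1) {H F P : Subgroup (MulAut M)} (C : FFC H F P) (A : Subgroup (MulAut M)) :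
    A ≤ H → (∀ a ∈ A, a * a = 1) → Best A →
      A ≤ Subgroup.closure {t | t ∈ A ∧ IsTr t} ∧ Nat.card M = Nat.card A * Nat.card (fixQ A) := by
  classical
  induction A using WellFoundedLT.induction with
  | ind A ih =>
  intro hAH hAe hB
  rcases Subgroup.bot_or_exists_ne_one A with hbot | ⟨a₀, ha₀, ha₀1⟩
  · subst hbot
    refine ⟨bot_le, ?_⟩
    have : fixQ (⊥ : Subgroup (MulAut M)) = ⊤ := by
      ext v
      simp only [Subgroup.mem_top, iff_true]
      intro g hg
      rw [Subgroup.mem_bot] at hg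
      rw [hg]; rfl
    rw [this]
    simp
  obtain ⟨x₀, hx₀, hne⟩ := C.not_commute_of_two_pow (hAH ha₀) ha₀1 (n := 1)
    (by rw [pow_one, pow_two]; exact hAe a₀ ha₀)
  obtain ⟨x, hxF, hx1, hxA, a, haA, hax⟩ := eigen hAe F (odd_of_ctx C) C.F_solv
    (fun a ha x hx => C.F_norm a (hAH ha) x hx) ⟨a₀, ha₀, x₀, hx₀, hne⟩
  have hoddx : Odd (orderOf x) := C.odd_order hxF
  have hxne : x ≠ x⁻¹ := by
    intro h
    apply sq_ne_one_of_odd hoddx hx1
    nth_rw 1 [h]
    exact inv_mul_cancel x
  have hAinv : ∀ e ∈ A, e⁻¹ = e := fun e he => inv_eq_of_mul_eq_one_left (hAe e he)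
  set E₀ := A ⊓ Subgroup.centralizer ({x} : Set (MulAut M)) with hE₀
  have hmemE : ∀ e, e ∈ E₀ ↔ e ∈ A ∧ e * x * e⁻¹ = x := by
    intro e
    constructor
    · rintro ⟨h1, h2⟩
      refine ⟨h1, ?_⟩
      have := Subgroup.mem_centralizer_singleton_iff.mp h2
      rw [this]; group
    · rintro ⟨h1, h2⟩
      refine ⟨h1, Subgroup.mem_centralizer_singleton_iff.mpr ?_⟩
      rw [mul_inv_eq_iff_eq_mul] at h2
      exact h2
  have hnotE : ∀ e ∈ A, e ∉ E₀ → e * x * e⁻¹ = x⁻¹ := by
    intro e he hn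
    rcases hxA e he with h | h
    · exact absurd ((hmemE e).mpr ⟨he, h⟩) hn
    · exact h
  have haE : a ∉ E₀ := by
    intro h
    have := ((hmemE a).mp h).2
    rw [hax] at this
    exact hxne this.symm
  have hE₀le : E₀ ≤ A := inf_le_left
  have hlt : E₀ < A := lt_of_le_of_ne hE₀le (fun h => haE (h ▸ haA))
  have hE₀2 : IsPGroup 2 E₀ := by
    intro g
    refine ⟨1, ?_⟩
    apply Subtype.ext
    simpa [pow_two] using hAe g (hE₀le g.2)
  -- index 2
  have hmulE : ∀ e ∈ A, ∀ g ∈ A, e ∉ E₀ → g ∉ E₀ → e * g ∈ E₀ := by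
    intro e he g hg h1 h2
    rw [hmemE]
    refine ⟨A.mul_mem he hg, ?_⟩
    have e1 : e * g * x * (e * g)⁻¹ = e * (g * x * g⁻¹) * e⁻¹ := by group
    rw [e1, hnotE g hg h2, conj_inv_eq, hnotE e he h1, inv_inv]
  have hmulE2 : ∀ e ∈ A, ∀ g ∈ A, e ∈ E₀ → g ∉ E₀ → e * g ∉ E₀ := by
    intro e he g hg h1 h2 h3
    have h4 := ((hmemE _).mp h3).2
    have e1 : e * g * x * (e * g)⁻¹ = e * (g * x * g⁻¹) * e⁻¹ := by group
    rw [e1, hnotE g hg h2, conj_inv_eq, ((hmemE e).mp h1).2] at h4
    exact hxne h4.symm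
  have hcardA : Nat.card A = 2 * Nat.card E₀ := by
    have hidx : (E₀.subgroupOf A).index = 2 := by
      rw [Subgroup.index_eq_two_iff]
      refine ⟨⟨a, haA⟩, ?_⟩
      rintro ⟨b, hb⟩
      show Xor' (b * a ∈ E₀) (b ∈ E₀)
      by_cases hbE : b ∈ E₀
      · right
        exact ⟨hbE, hmulE2 b hb a haA hbE haE⟩
      · left
        exact ⟨hmulE b hb a haA hbE haE, hbE⟩
    have h1 := Subgroup.index_mul_card (E₀.subgroupOf A)
    rw [hidx, show Nat.card (E₀.subgroupOf A) = Nat.card E₀ from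
      Nat.card_congr (Subgroup.subgroupOfEquivOfLe hE₀le).toEquiv] at h1
    exact h1.symm
  -- fixed points
  have hE₀com : ∀ e ∈ E₀, ∀ u ∈ com x, e u ∈ com x := by
    intro e he u hu
    have := com_conj_mem e x hu
    rwa [((hmemE e).mp he).2] at this
  have hcomne : com x ≠ ⊥ := fun h => hx1 (com_eq_bot_iff.mp h)
  obtain ⟨u, hu, hu1, hufix⟩ := exists_fixed_in hM hE₀2 hE₀com hcomne
  have hxcomm : ∀ e ∈ E₀, e * x = x * e := by
    intro e he
    have := ((hmemE e).mp he).2
    rwa [mul_inv_eq_iff_eq_mul] at this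
  have hxu : ∀ e ∈ E₀, e (x u) = x u := by
    intro e he
    have h1 : (e * x) u = (x * e) u := by rw [hxcomm e he]
    have h2 : e (x u) = x (e u) := h1
    rw [h2, hufix e he]
  -- every element outside moves something
  have hmv : ∀ g ∈ A, g ∉ E₀ → ∃ v ∈ fixQ E₀, g v ≠ v := by
    intro g hg hgE
    by_contra hcon
    push Not at hcon
    have h1 : g u = u := hcon u hufix
    have h2 : g (x u) = x u := hcon _ hxu
    have h3 := hnotE g hg hgE
    have h4 : x⁻¹ u = x u := by
      have h5 : (g * x * g⁻¹) (g u) = x⁻¹ (g u) := by rw [h3]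
      rw [h1] at h5
      rw [← h5]
      show g (x (g⁻¹ u)) = x u
      have : g⁻¹ u = u := by
        conv_lhs => rw [← h1]
        simp
      rw [this, h2]
    have h6 : (x * x) u = u := by
      show x (x u) = u
      rw [← h4]; simp
    exact hu1 (fx_inf_com hM hoddx (fix_of_sq_fix hoddx h6) hu)
  have hfa : ∀ g ∈ A, g ∉ E₀ → ∀ v ∈ fixQ E₀, g v = v → v ∈ fixQ A := by
    intro g hg hgE v hv hgv e he
    by_cases heE : e ∈ E₀
    · exact hv e heE
    · have h1 := hv _ (hmulE e he g hg heE hgE)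
      have h2 : (e * g) v = e (g v) := rfl
      rw [h2, hgv] at h1
      exact h1
  -- counting
  have hfAle : fixQ A ≤ fixQ E₀ := fixQ_anti hE₀le
  have hcard2 : 2 * Nat.card (fixQ A) ≤ Nat.card (fixQ E₀) := by
    obtain ⟨v, hv, hgv⟩ := hmv a haA haE
    have hne2 : fixQ A ≠ fixQ E₀ := by
      intro h
      rw [← h] at hv
      exact hgv (hv a haA)
    have hdvd : Nat.card (fixQ A) ∣ Nat.card (fixQ E₀) := Subgroup.card_dvd_of_le hfAle
    obtain ⟨k, hk⟩ := hdvd
    have hpos : 0 < Nat.card (fixQ E₀) := Nat.card_pos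
    have hk1 : k ≠ 1 := by
      rintro rfl
      rw [mul_one] at hk
      exact hne2 (Subgroup.eq_of_le_of_card_ge hfAle (le_of_eq hk))
    have hk0 : k ≠ 0 := by
      rintro rfl
      omega
    have hk2 : 2 ≤ k := by omega
    rw [hk, mul_comm]
    exact Nat.mul_le_mul_left _ hk2
  have hb0 := hB E₀ hE₀le
  have hE₀pos : 0 < Nat.card E₀ := Nat.card_pos
  have hfix2 : Nat.card (fixQ E₀) = 2 * Nat.card (fixQ A) := by
    have h1 : Nat.card E₀ * Nat.card (fixQ E₀) ≤ Nat.card E₀ * (2 * Nat.card (fixQ A)) := by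
      calc _ ≤ Nat.card A * Nat.card (fixQ A) := hb0
        _ = _ := by rw [hcardA]; ring
    exact le_antisymm (Nat.le_of_mul_le_mul_left h1 hE₀pos) hcard2
  have heq : Nat.card E₀ * Nat.card (fixQ E₀) = Nat.card A * Nat.card (fixQ A) := by
    rw [hfix2, hcardA]; ring
  have hB₀ : Best E₀ := by
    intro E hE
    rw [heq]
    exact hB E (hE.trans hE₀le)
  obtain ⟨hgen, hcardM⟩ := ih E₀ hlt (hE₀le.trans hAH) (fun e he => hAe e (hE₀le he)) hB₀
  refine ⟨?_, by rw [hcardM, heq]⟩
  -- choice of `a'`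
  haveI hne' : Nonempty {g // g ∈ A ∧ g ∉ E₀} := ⟨⟨a, haA, haE⟩⟩
  obtain ⟨⟨a', ha'A, ha'E⟩, hmax⟩ := Finite.exists_max (fun g : {g // g ∈ A ∧ g ∉ E₀} => Nat.card (fx g.1))
  have hmax' : ∀ g ∈ A, g ∉ E₀ → Nat.card (fx g) ≤ Nat.card (fx a') := fun g h1 h2 => hmax ⟨g, h1, h2⟩
  have ha'i := hAinv a' ha'A
  -- `a'` acts trivially on `[M, y]`
  have hclaim : ∀ t ∈ E₀, IsTr t → ∀ y, IsLine F t y → ∀ b ∈ com y, a' b = b := by
    rintro t ht ⟨c, htc⟩ y hl b hb
    by_contra hab
    have hcommt : a' * t = t * a' := comm_of_sq_one hAe ha'A (hE₀le ht)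
    have hconjt : a' * t * a'⁻¹ = t := by rw [hcommt]; group
    have hfc : a' c = c := by
      have h2 : IsTrC (a' * t * a'⁻¹) (a' c) := htc.conj a'
      rw [hconjt] at h2
      exact h2.center_unique htc
    have hoddy := hl.odd C
    have hcy := hl.card hM C htc
    have hcm := hl.center_mem hM C htc
    have hc1 := htc.c_ne_one
    have hl2 := hl.conj hM C (hAH ha'A)
    rw [hconjt] at hl2
    have hz : a' * y * a'⁻¹ = y ∨ a' * y * a'⁻¹ = y⁻¹ := by
      rcases hl.2.2.2 _ hl2.2.2.1 hl2.2.1 with h | h | h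
      · exact absurd h hl2.1
      · left; exact h
      · right; exact h
    have hcomy : ∀ w ∈ com y, a' w ∈ com y := by
      intro w hw
      have := com_conj_mem a' y hw
      rcases hz with h | h
      · rwa [h] at this
      · rwa [h, com_inv] at this
    have hb1 : b ≠ 1 := by
      rintro rfl
      exact hab (map_one a')
    have hbc : b ≠ c := by
      rintro rfl
      exact hab hfc
    have h1 : a' b = b * c := by
      have h2 : a' b ≠ 1 := fun h => hb1 (a'.injective (h.trans (map_one a').symm))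
      have h3 : a' b ≠ c := fun h => hbc (a'.injective (h.trans hfc.symm))
      rcases four_elems hM hcy hb hcm hb1 hc1 hbc (hcomy b hb) with h | h | h | h
      · exact absurd h h2
      · exact absurd h hab
      · exact absurd h h3
      · exact h
    have htb : t b = b * c := hl.tr_moves hM C htc hb hb1 hbc
    have hbfix : (a' * t) b = b := by
      show a' (t b) = b
      rw [htb, map_mul, h1, hfc, mul_assoc, hM, mul_one]
    have hle : fx a' ≤ fx (a' * t) := by
      intro f hf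
      have hf' : a' f = f := mem_fx.mp hf
      obtain ⟨g, hg, w, hw, rfl⟩ := fx_mul_com hM hoddy f
      have hga : y (a' g) = a' g := by
        have e : y = a' * (a' * y * a'⁻¹) * a'⁻¹ := by
          rw [ha'i]
          calc y = (a' * a') * y * (a' * a') := by rw [hAe a' ha'A]; group
            _ = _ := by group
        have e2 : y⁻¹ g = g := by
          conv_lhs => rw [← hg]
          simp
        rcases hz with h | h
        · rw [h] at e
          have e3 : a' * y * a'⁻¹ = y := h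
          calc y (a' g) = (a' * y * a'⁻¹) (a' g) := by rw [e3]
            _ = a' (y g) := by simp [MulAut.mul_apply]
            _ = a' g := by rw [hg]
        · calc y (a' g) = (a' * y⁻¹ * a'⁻¹) (a' g) := by
                rw [conj_inv_eq, h, inv_inv]
            _ = a' (y⁻¹ g) := by simp [MulAut.mul_apply]
            _ = a' g := by rw [e2]
      have hwa := hcomy w hw
      have hdecomp : a' g * a' w = g * w := by rw [← map_mul]; exact hf'
      have h3 : g⁻¹ * a' g = w * (a' w)⁻¹ := by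
        have : a' g = g * w * (a' w)⁻¹ := by rw [← hdecomp]; group
        rw [this]; group
      have h4 : y (g⁻¹ * a' g) = g⁻¹ * a' g := by
        rw [map_mul, map_inv, hg, hga]
      have h5 : w * (a' w)⁻¹ ∈ com y := (com y).mul_mem hw ((com y).inv_mem hwa)
      rw [h3] at h4
      have h6 := fx_inf_com hM hoddy h4 h5
      have h7 : a' w = w := (mul_inv_eq_one.mp h6).symm
      have h8 : t w = w := by
        by_cases hw1 : w = 1
        · rw [hw1, map_one]
        by_cases hwc : w = c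
        · rw [hwc]; exact htc.fix_c hM
        · exfalso
          rcases four_elems hM hcy hb hcm hb1 hc1 hbc hw with h | h | h | h
          · exact hw1 h
          · rw [h] at h7; exact hab h7
          · exact hwc h
          · rw [h, map_mul, h1, hfc, mul_assoc, hM, mul_one] at h7
            exact hc1 (mul_eq_left.mp h7.symm)
      have h9 : t g = g := hl.tr_fix hM C htc hg
      rw [mem_fx]
      show a' (t (g * w)) = g * w
      rw [map_mul, h8, h9]
      exact hf'
    have hnE : a' * t ∉ E₀ := by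
      intro h
      apply ha'E
      have h2 : a' = (a' * t) * t⁻¹ := by group
      rw [h2]
      exact E₀.mul_mem h (E₀.inv_mem ht)
    have hc2 := hmax' (a' * t) (A.mul_mem ha'A (hE₀le ht)) hnE
    have heqf : fx a' = fx (a' * t) := Subgroup.eq_of_le_of_card_ge hle hc2
    have : b ∈ fx (a' * t) := mem_fx.mpr hbfix
    rw [← heqf] at this
    exact hab (mem_fx.mp this)
  -- the subgroup generated by the lines of transvections of `E₀`
  set Y₀ := Subgroup.closure {y | ∃ t ∈ E₀, IsTr t ∧ IsLine F t y} with hY₀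
  have hY₀P : Y₀ ≤ P := by
    rw [hY₀, Subgroup.closure_le]
    rintro y ⟨t, _, ⟨c, htc⟩, hl⟩
    exact hl.mem_P hM C htc
  have hY₀3 : IsPGroup 3 Y₀ := C.P_three.to_le hY₀P
  have hY₀odd := odd_card_of_three hY₀3
  have hcY : comQ Y₀ ≤ fx a' := by
    rw [comQ_le_iff, hY₀, Subgroup.closure_le]
    rintro y ⟨t, ht, htr, hl⟩
    apply com_le_iff.mp
    intro b hb
    exact mem_fx.mpr (hclaim t ht htr y hl b hb)
  have hfY : fixQ Y₀ ≤ fixQ E₀ := by
    intro v hv e he
    have hle : Subgroup.closure {t | t ∈ E₀ ∧ IsTr t} ≤ MulAction.stabilizer (MulAut M) v := by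
      rw [Subgroup.closure_le]
      rintro t ⟨ht, ⟨c, htc⟩⟩
      obtain ⟨y, hl⟩ := C.exists_line hM htc (hAH (hE₀le ht))
      have hyY : y ∈ Y₀ := Subgroup.subset_closure ⟨t, ht, ⟨c, htc⟩, hl⟩
      exact hl.tr_fix hM C htc (hv y hyY)
    exact hle (hgen he)
  -- `a'` is a transvection
  obtain ⟨f₀, hf₀, hmoved⟩ := hmv a' ha'A ha'E
  have htr : IsTr a' := by
    let ψ : ↥(fixQ E₀) →* M := (comHom a').comp (fixQ E₀).subtype
    have hker : Nat.card ψ.ker = Nat.card (fixQ A) := by
      apply Nat.card_congr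
      refine Equiv.ofBijective (fun z => (⟨z.1.1, hfa a' ha'A ha'E z.1.1 z.1.2 ?_⟩ : fixQ A)) ⟨?_, ?_⟩
      · have h1 : ψ z.1 = 1 := z.2
        have h2 : a' z.1.1 * (z.1.1)⁻¹ = 1 := h1
        exact mul_inv_eq_one.mp h2
      · intro z z' h
        have h' : z.1.1 = z'.1.1 := by
          have := congrArg (fun w : fixQ A => (w : M)) h
          simpa using this
        apply Subtype.ext
        apply Subtype.ext
        exact h'
      · rintro ⟨v, hv⟩
        refine ⟨⟨⟨v, hfAle hv⟩, ?_⟩, rfl⟩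
        show a' v * v⁻¹ = 1
        rw [hv a' ha'A, mul_inv_cancel]
    have hrange : Nat.card ψ.range = 2 := by
      have h1 := Subgroup.card_mul_index ψ.ker
      rw [Subgroup.index_ker, hker, hfix2] at h1
      have hpos : 0 < Nat.card (fixQ A) := Nat.card_pos
      have h2 : Nat.card (fixQ A) * Nat.card ψ.range = Nat.card (fixQ A) * 2 := by
        rw [h1]; ring
      exact Nat.eq_of_mul_eq_mul_left hpos h2
    have hval : ∀ f ∈ fixQ E₀, a' f = f ∨ a' f = f * (a' f₀ * f₀⁻¹) := by
      intro f hf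
      by_cases hf1 : a' f = f
      · left; exact hf1
      right
      have h1 : a' f * f⁻¹ ∈ ψ.range := ⟨⟨f, hf⟩, rfl⟩
      have h2 : a' f₀ * f₀⁻¹ ∈ ψ.range := ⟨⟨f₀, hf₀⟩, rfl⟩
      have h3 := two_elems hrange h1 h2
        (fun h => hf1 (mul_inv_eq_one.mp h)) (fun h => hmoved (mul_inv_eq_one.mp h))
      rw [← h3, mul_comm (a' f) f⁻¹, mul_inv_cancel_left]
    refine ⟨a' f₀ * f₀⁻¹, ?_, ?_⟩
    · rintro rfl
      exact hmoved rfl
    · intro v
      obtain ⟨f, hf, w, hw, rfl⟩ := fixQ_mul_comQ hM hY₀odd v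
      have hw' : a' w = w := mem_fx.mp (hcY hw)
      rcases hval f (hfY hf) with h | h
      · left; rw [map_mul, h, hw']
      · right
        rw [map_mul, h, hw']
        exact mul_right_comm _ _ _
  -- conclusion
  have hgenle : Subgroup.closure {t | t ∈ E₀ ∧ IsTr t} ≤ Subgroup.closure {t | t ∈ A ∧ IsTr t} :=
    Subgroup.closure_mono (fun t ht => ⟨hE₀le ht.1, ht.2⟩)
  intro e he
  by_cases heE : e ∈ E₀
  · exact hgenle (hgen heE)
  · have h1 : e * a' ∈ E₀ := hmulE e he a' ha'A heE ha'E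
    have h2 : e = (e * a') * a'⁻¹ := by group
    rw [h2]
    exact Subgroup.mul_mem _ (hgenle (hgen h1)) (Subgroup.inv_mem _ (Subgroup.subset_closure ⟨ha'A, htr⟩))

end Cfsg.Agent.Lib.FFAct
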