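import Mathlib
import Cfsg.Agent.Lib.FFLin

/-!
# The normal closure of `Ω₁(Z(S))` and the Frattini argument for the Thompson subgroup.
-/

set_option autoImplicit false
set_option linter.unusedSectionVars false
set_option linter.style.haveILetI false

open scoped commutatorElement
open Cfsg

namespace Cfsg.Agent.Lib.FFOmega

open Cfsg.Agent.Lib.FFMod Cfsg.Agent.Lib.FFBridge Cfsg.Agent.Lib.FFStruct Cfsg.Agent.Lib.PCore
  Cfsg.Agent.Lib.ThompsonJ Cfsg.Agent.Lib.FFLin

universe u

section Frattini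

variable {G : Type*} [Group G] [Finite G] {p : ℕ} [hp : Fact p.Prime]

/-- The Frattini argument for the Thompson subgroup of a Sylow subgroup. -/
theorem thompson_sylow_normalizer (S : Sylow p G) (M : Subgroup G) (hJ : thompsonSubgroup p G ≤ M) :
    Subgroup.normalizer (((S : Subgroup G) ⊓ M : Subgroup G) : Set G) ≤
      Subgroup.normalizer (thompsonSubgroupOf p (S : Subgroup G) : Set G) := by
  set R := (S : Subgroup G) ⊓ M with hR
  have hJ₁ : thompsonSubgroupOf p (S : Subgroup G) =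
      sSup {A : Subgroup G | A ≤ R ∧ A ∈ maxElementaryAbelianSubgroups p G} := by
    apply le_antisymm
    · unfold thompsonSubgroupOf
      rw [Subgroup.map_le_iff_le_comap]
      refine sSup_le fun A hA => ?_
      rw [← Subgroup.map_le_iff_le_comap]
      have h1 := mem_max_of_mem_max_sylow S hA
      refine le_sSup ⟨le_inf (Subgroup.map_subtype_le A) ((le_thompson h1).trans hJ), h1⟩
    · refine sSup_le ?_
      rintro A ⟨hAR, hA⟩
      have hAS : A ≤ (S : Subgroup G) := hAR.trans inf_le_left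
      have h := le_thompson (comap_subtype_mem_max hA hAS)
      have h2 := Subgroup.map_mono (f := (S : Subgroup G).subtype) h
      rwa [Subgroup.map_subgroupOf_eq_of_le hAS] at h2
  intro g hg
  rw [hJ₁]
  apply Cfsg.Agent.Lib.Replacement.mem_normalizer_of_forall
  intro x hx
  have hle : sSup {A : Subgroup G | A ≤ R ∧ A ∈ maxElementaryAbelianSubgroups p G} ≤
      (sSup {A : Subgroup G | A ≤ R ∧ A ∈ maxElementaryAbelianSubgroups p G}).comap (MulAut.conj g).toMonoidHom := by
    refine sSup_le ?_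
    rintro A ⟨hAR, hA⟩
    rw [← Subgroup.map_le_iff_le_comap]
    refine le_sSup ⟨?_, map_mem_max hA _⟩
    rintro _ ⟨a, ha, rfl⟩
    exact (Subgroup.mem_normalizer_iff.mp hg a).mp (hAR ha)
  exact hle hx

theorem thompson_frattini (S : Sylow p G) (M : Subgroup G) [hM : M.Normal] (hJ : thompsonSubgroup p G ≤ M) :
    Subgroup.normalizer (thompsonSubgroupOf p (S : Subgroup G) : Set G) ⊔ M = ⊤ := by
  obtain ⟨P⟩ : Nonempty (Sylow p M) := inferInstance
  obtain ⟨Q, hQ⟩ := P.exists_comap_subtype_eq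
  have h1 := Sylow.normalizer_sup_eq_top P
  have hPQ : P.map M.subtype = (Q : Subgroup G) ⊓ M := by
    have h2 : (P : Subgroup M) = (Q : Subgroup G).subgroupOf M := hQ.symm
    rw [h2, Subgroup.subgroupOf_map_subtype]
  rw [hPQ] at h1
  obtain ⟨h, rfl⟩ := MulAction.exists_smul_eq G S Q
  let c := (MulAut.conj h⁻¹).toMonoidHom
  have hcinj : Function.Injective c := (MulAut.conj h⁻¹).injective
  have hMc : M.map c = M := Cfsg.Agent.Lib.PResid.conj_map_eq_of_mem_normalizer (by
    rw [Subgroup.normalizer_eq_top_iff.mpr hM]; trivial)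
  have hSc : ((h • S : Sylow p G) : Subgroup G).map c = (S : Subgroup G) := by
    rw [Cfsg.Agent.Lib.PResid.coe_smul_eq_conj_map]
    exact Cfsg.Agent.Lib.PResid.conj_map_inv_conj _ _
  have h5 := congrArg (Subgroup.map c) h1
  rw [Subgroup.map_sup, hMc, ← MonoidHom.range_eq_map, MonoidHom.range_eq_top.mpr (MulAut.conj h⁻¹).surjective] at h5
  have h6 : Subgroup.map c (Subgroup.normalizer
      ((((h • S : Sylow p G) : Subgroup G) ⊓ M : Subgroup G) : Set G)) ≤
      Subgroup.normalizer (((S : Subgroup G) ⊓ M : Subgroup G) : Set G) := by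
    have h7 := Subgroup.le_normalizer_map (H := ((h • S : Sylow p G) : Subgroup G) ⊓ M) c
    rwa [Subgroup.map_inf _ _ _ hcinj, hSc, hMc] at h7
  rw [eq_top_iff, ← h5]
  exact sup_le_sup_right (h6.trans (thompson_sylow_normalizer S M hJ)) _

end Frattini

section Omega

variable {G : Type*} [Group G] [Finite G] {p : ℕ} [hp : Fact p.Prime]

/-- The subgroup generated by the `Ω₁(Z(S))`. -/
def omG (p : ℕ) (G : Type*) [Group G] : Subgroup G :=
  ⨆ S : Sylow p G, omegaOne p ((S : Subgroup G) ⊓ Subgroup.centralizer ((S : Subgroup G) : Set G))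

/-- The generators. -/
def omSet (p : ℕ) (G : Type*) [Group G] : Set G :=
  {x | ∃ S : Sylow p G, (x ∈ (S : Subgroup G) ∧ x ∈ Subgroup.centralizer ((S : Subgroup G) : Set G)) ∧ x ^ p = 1}

/-- Centralizing the union of the `Ω₁(Z(S))`, as a set, is the same as centralizing the subgroup generated. -/
theorem centralizer_omG : Subgroup.centralizer (⨆ S : Sylow p G,
      (omegaOne p ((S : Subgroup G) ⊓ Subgroup.centralizer ((S : Subgroup G) : Set G)) : Set G)) =
    Subgroup.centralizer ((omG p G : Subgroup G) : Set G) := by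
  apply le_antisymm
  · intro x hx
    rw [Subgroup.mem_centralizer_iff] at hx ⊢
    have hle : omG p G ≤ Subgroup.centralizer ({x} : Set G) := by
      refine iSup_le fun S => ?_
      intro v hv
      rw [Subgroup.mem_centralizer_iff]
      intro z hz
      rw [Set.mem_singleton_iff] at hz
      rw [hz]
      exact (hx v (Set.mem_iUnion.mpr ⟨S, hv⟩)).symm
    intro z hz
    exact (Subgroup.mem_centralizer_iff.mp (hle hz) x (Set.mem_singleton _)).symm
  · apply Subgroup.centralizer_le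
    intro v hv
    obtain ⟨S, hS⟩ := Set.mem_iUnion.mp hv
    exact (le_iSup (fun S : Sylow p G => omegaOne p ((S : Subgroup G) ⊓ Subgroup.centralizer ((S : Subgroup G) : Set G))) S) hS

theorem omG_eq : omG p G = Subgroup.closure (omSet p G) := by
  apply le_antisymm
  · refine iSup_le fun S => ?_
    apply Subgroup.closure_mono
    rintro x ⟨hx, hx2⟩
    exact ⟨S, hx, hx2⟩
  · rw [Subgroup.closure_le]
    rintro x ⟨S, hx, hx2⟩
    exact (le_iSup (fun S : Sylow p G => omegaOne p ((S : Subgroup G) ⊓ Subgroup.centralizer ((S : Subgroup G) : Set G))) S)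
      (Subgroup.subset_closure ⟨hx, hx2⟩)

theorem omG_normal : (omG p G).Normal := by
  rw [omG_eq]
  constructor
  intro x hx g
  induction hx using Subgroup.closure_induction with
  | mem x hx =>
    obtain ⟨S, ⟨h1, h2⟩, h3⟩ := hx
    apply Subgroup.subset_closure
    refine ⟨g • S, ⟨?_, ?_⟩, ?_⟩
    · rw [Cfsg.Agent.Lib.PResid.coe_smul_eq_conj_map]
      exact ⟨x, h1, rfl⟩
    · rw [Subgroup.mem_centralizer_iff]
      intro y hy
      rw [Cfsg.Agent.Lib.PResid.coe_smul_eq_conj_map] at hy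
      obtain ⟨z, hz, rfl⟩ := hy
      have h4 := Subgroup.mem_centralizer_iff.mp h2 z hz
      show g * z * g⁻¹ * (g * x * g⁻¹) = g * x * g⁻¹ * (g * z * g⁻¹)
      have h5 : g * z * g⁻¹ * (g * x * g⁻¹) = g * (z * x) * g⁻¹ := by group
      have h6 : g * x * g⁻¹ * (g * z * g⁻¹) = g * (x * z) * g⁻¹ := by group
      rw [h5, h6, h4]
    · rw [conj_pow, h3]
      simp
  | one => simp
  | mul a b _ _ ha hb =>
    have : g * (a * b) * g⁻¹ = (g * a * g⁻¹) * (g * b * g⁻¹) := by group
    rw [this]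
    exact Subgroup.mul_mem _ ha hb
  | inv a _ ha =>
    have : g * a⁻¹ * g⁻¹ = (g * a * g⁻¹)⁻¹ := by group
    rw [this]
    exact Subgroup.inv_mem _ ha

theorem omG_ea (hsep : IsPSolvable p G) (hO : pPrimeCore p G = ⊥) : IsElementaryAbelian p (omG p G) := by
  rw [omG_eq]
  have hcen := Cfsg.Agent.Lib.PSolv.centralizer_pCore_le_of_pSolvable hsep hO
  have key : ∀ x ∈ omSet p G, x ∈ pCore p G ∧ x ∈ Subgroup.centralizer (pCore p G : Set G) := by
    rintro x ⟨S, ⟨_, h2⟩, _⟩
    have h3 : x ∈ Subgroup.centralizer (pCore p G : Set G) :=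
      Subgroup.centralizer_le (pCore_le_sylow p S) h2
    exact ⟨hcen h3, h3⟩
  apply isElementaryAbelian_closure
  · intro a ha b hb
    exact Subgroup.mem_centralizer_iff.mp (key b hb).2 a (key a ha).1
  · rintro a ⟨_, _, h⟩
    exact h

variable {E : Type u} [AddCommGroup E] [Module (ZMod p) E] [Finite E] {G' : Type u} [Group G'] [Finite G']
  {ρ₀ : G' →* Module.End (ZMod p) E} {ι : Multiplicative E →* G'}

theorem pCore_range_eq_bot (hn : NM (omG p G') ρ₀ ι) : pCore p ↥(rh ρ₀).range = ⊥ := by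
  set f := (rh ρ₀).rangeRestrict with hf
  have hsurj : Function.Surjective f := (rh ρ₀).rangeRestrict_surjective
  rw [eq_bot_iff]
  intro y hy
  obtain ⟨x, rfl⟩ := hsurj y
  have hx : x ∈ Subgroup.centralizer ((omG p G' : Subgroup G') : Set G') := by
    rw [Subgroup.mem_centralizer_iff]
    have hle : omG p G' ≤ Subgroup.centralizer ({x} : Set G') := by
      refine iSup_le fun S => ?_
      intro v hv
      have h1 : f x ∈ ((S.mapSurjective hsurj : Sylow p _) : Subgroup _) := pCore_le_sylow p _ hy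
      rw [Sylow.coe_mapSurjective] at h1
      obtain ⟨s, hs, hsx⟩ := h1
      have h2 : s⁻¹ * x ∈ Subgroup.centralizer ((omG p G' : Subgroup G') : Set G') := by
        rw [← ker_rh hn, MonoidHom.mem_ker, map_mul, map_inv]
        have h3 : rh ρ₀ s = rh ρ₀ x := congrArg Subtype.val hsx
        rw [h3, inv_mul_cancel]
      have hvΩ : v ∈ omG p G' :=
        (le_iSup (fun S : Sylow p G' => omegaOne p ((S : Subgroup G') ⊓ Subgroup.centralizer ((S : Subgroup G') : Set G'))) S) hv
      have hv2 : v ∈ (S : Subgroup G') ⊓ Subgroup.centralizer ((S : Subgroup G') : Set G') :=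
        Cfsg.Agent.Lib.PLocalTools.omegaOne_le p _ hv
      have h4 := Subgroup.mem_centralizer_iff.mp h2 v hvΩ
      have h5 := Subgroup.mem_centralizer_iff.mp hv2.2 s hs
      rw [Subgroup.mem_centralizer_iff]
      intro z hz
      rw [Set.mem_singleton_iff] at hz
      rw [hz]
      have h6 : x = s * (s⁻¹ * x) := by group
      rw [h6]
      calc s * (s⁻¹ * x) * v = s * ((s⁻¹ * x) * v) := by group
        _ = s * (v * (s⁻¹ * x)) := by rw [h4]
        _ = (s * v) * (s⁻¹ * x) := by group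
        _ = (v * s) * (s⁻¹ * x) := by rw [h5]
        _ = v * (s * (s⁻¹ * x)) := by group
    intro z hz
    exact (Subgroup.mem_centralizer_iff.mp (hle hz) x (Set.mem_singleton _)).symm
  have h1 : f x = 1 := by
    apply Subtype.ext
    exact (rh_eq_one_iff hn x).mpr hx
  rw [h1]
  exact Subgroup.one_mem _

end Omega

section Setup

variable {G : Type u} [Group G] [Finite G] {p : ℕ} [hp : Fact p.Prime] {V : Subgroup G} [hVn : V.Normal]
  {E : Type u} [AddCommGroup E] [Module (ZMod p) E] [Finite E]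
  {ρ₀ : G →* Module.End (ZMod p) E} {ι : Multiplicative E →* G}

/-- The image of the Thompson subgroup in the linear group. -/
abbrev jG (ρ₀ : G →* Module.End (ZMod p) E) : Subgroup (GLE p E) := (thompsonSubgroup p G).map (rh ρ₀)

theorem pCore_jG_eq_bot (h : pCore p ↥(rh ρ₀).range = ⊥) : pCore p ↥(jG ρ₀) = ⊥ := by
  set Γ₀ := jG ρ₀ with hΓ₀
  haveI hJn : (thompsonSubgroup p G).Normal := thompson_normal p
  have hle : Γ₀ ≤ (rh ρ₀).range := Subgroup.map_le_range _ _
  have hnorm : (rh ρ₀).range ≤ Subgroup.normalizer (Γ₀ : Set (GLE p E)) := by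
    rintro _ ⟨g, rfl⟩
    apply Cfsg.Agent.Lib.Replacement.mem_normalizer_of_forall
    rintro _ ⟨j, hj, rfl⟩
    refine ⟨g * j * g⁻¹, hJn.conj_mem j hj g, ?_⟩
    simp
  set P := (pCore p ↥Γ₀).map Γ₀.subtype with hP
  have hPle : P ≤ Γ₀ := Subgroup.map_subtype_le _
  have h1 : P.subgroupOf (rh ρ₀).range ≤ pCore p ↥(rh ρ₀).range := by
    apply le_pCore
    · constructor
      intro n hn g
      rw [Subgroup.mem_subgroupOf] at hn ⊢
      exact Cfsg.Agent.Lib.PResid.conj_mem_map_of_characteristic inferInstance (hnorm g.2) hn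
    · have e : P.subgroupOf (rh ρ₀).range ≃* P := Subgroup.subgroupOfEquivOfLe (hPle.trans hle)
      have e2 : ↥(pCore p ↥Γ₀) ≃* P := Subgroup.equivMapOfInjective _ _ Γ₀.subtype_injective
      exact ((isPGroup_pCore p).of_equiv e2).of_equiv e.symm
  rw [h] at h1
  rw [eq_bot_iff]
  intro x hx
  have h2 : (x : GLE p E) ∈ P := ⟨x, hx, rfl⟩
  have h3 : (⟨x, hle x.2⟩ : (rh ρ₀).range) ∈ P.subgroupOf (rh ρ₀).range := h2
  have h4 := h1 h3
  rw [Subgroup.mem_bot] at h4 ⊢
  apply Subtype.ext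
  have h5 : ((⟨x, hle x.2⟩ : (rh ρ₀).range) : GLE p E) = 1 := congrArg Subtype.val h4
  exact h5

theorem ffh_jG (hsep : IsPSolvable p G) (h : pCore p ↥(rh ρ₀).range = ⊥) : FFH (p := p) (lin (jG ρ₀)) := by
  refine ⟨lin_inj _, Cfsg.Agent.Lib.QuadAbs.centralizer_pPrimeCore_le ?_ (pCore_jG_eq_bot h)⟩
  have h1 : IsPSolvable p (thompsonSubgroup p G) := Cfsg.Agent.Lib.PSolv.isPSolvable_subgroup hsep _
  exact Cfsg.Agent.Lib.PSolv.isPSolvable_of_surjective h1 ((rh ρ₀).subgroupMap _)
    ((rh ρ₀).subgroupMap_surjective _)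

theorem gen_jG (hn : NM V ρ₀ ι) (hV : IsElementaryAbelian p V) (hff : FFH (p := p) (lin (jG ρ₀))) :
    Subgroup.closure {s | IsTv (lin (jG ρ₀)) s} = ⊤ := by
  apply gen_tv hff
  set Γ₀ := jG ρ₀ with hΓ₀
  rw [eq_top_iff]
  rintro g -
  have h1 : (g : GLE p E) ∈ (⨆ D : {D : Subgroup Γ₀ // IsBO (p := p) (lin Γ₀) D}, (D : Subgroup Γ₀)).map Γ₀.subtype := by
    have h2 : Γ₀ ≤ (⨆ D : {D : Subgroup Γ₀ // IsBO (p := p) (lin Γ₀) D}, (D : Subgroup Γ₀)).map Γ₀.subtype := by
      rw [hΓ₀, jG, Subgroup.map_le_iff_le_comap]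
      refine sSup_le ?_
      intro A hA
      rw [← Subgroup.map_le_iff_le_comap]
      have hle : A.map (rh ρ₀) ≤ Γ₀ := Subgroup.map_mono (le_thompson hA)
      have hbo := bo_restrict (bo_image hn (Cfsg.Agent.S0606.result V hV A hA)) hle
      have h3 := Subgroup.map_mono (f := Γ₀.subtype)
        (le_iSup (fun D : {D : Subgroup Γ₀ // IsBO (p := p) (lin Γ₀) D} => (D : Subgroup Γ₀)) ⟨_, hbo⟩)
      rwa [Subgroup.map_subgroupOf_eq_of_le hle] at h3
    exact h2 g.2
  obtain ⟨d, hd, hdg⟩ := h1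
  have : d = g := Subtype.ext hdg
  rwa [← this]

end Setup

section S0618

variable {G : Type u} [Group G] [Finite G] {p : ℕ} [hp : Fact p.Prime]

theorem s0618 (hsep : IsPSolvable p G) (hO : pPrimeCore p G = ⊥) (hnf : ¬ IsThompsonFactorizable p G) :
    (p = 2 ∨ p = 3) ∧ ∃ E : Subgroup G, Subgroup.centralizer ((omG p G : Subgroup G) : Set G) ≤ E ∧
      E ≤ thompsonSubgroup p G ⊔ Subgroup.centralizer ((omG p G : Subgroup G) : Set G) ∧
      thompsonSubgroup p G ⊔ Subgroup.centralizer ((omG p G : Subgroup G) : Set G) ≤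
        Subgroup.normalizer (E : Set G) ∧
      ∃ hn : ((Subgroup.centralizer ((omG p G : Subgroup G) : Set G)).subgroupOf E).Normal,
        Nonempty ((↥E ⧸ (Subgroup.centralizer ((omG p G : Subgroup G) : Set G)).subgroupOf E) ≃*
          Matrix.SpecialLinearGroup (Fin 2) (ZMod p)) := by
  haveI hΩn : (omG p G).Normal := omG_normal
  have hV := omG_ea hsep hO
  set V := omG p G with hVdef
  set C := Subgroup.centralizer ((V : Subgroup G) : Set G) with hC
  haveI hCn : C.Normal := by
    rw [hC]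
    infer_instance
  obtain ⟨E₀, _, _, _, ρ₀, ι, hn⟩ := exists_nm (p := p) hV
  have hrange : pCore p ↥(rh ρ₀).range = ⊥ := pCore_range_eq_bot hn
  have hff := ffh_jG hsep hrange
  have hgen := gen_jG hn hV hff
  -- the Thompson subgroup does not centralize `V`
  have hJC : ¬ thompsonSubgroup p G ≤ C := by
    intro hle
    apply hnf
    intro S g
    have h1 := thompson_frattini S C hle
    rw [sup_comm] at h1
    have h2 : g ∈ (↑(C ⊔ Subgroup.normalizer (thompsonSubgroupOf p (S : Subgroup G) : Set G)) : Set G) := by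
      rw [h1]
      trivial
    rw [Subgroup.normal_mul] at h2
    obtain ⟨c, hc, n, hn', rfl⟩ := h2
    refine ⟨1, Subgroup.one_mem _, c, ?_, n, hn', by simp⟩
    have h3 : omegaOne p ((S : Subgroup G) ⊓ Subgroup.centralizer ((S : Subgroup G) : Set G)) ≤ V :=
      le_iSup (fun S : Sylow p G => omegaOne p ((S : Subgroup G) ⊓ Subgroup.centralizer ((S : Subgroup G) : Set G))) S
    exact Subgroup.centralizer_le h3 hc
  set Γ₀ := jG ρ₀ with hΓ₀
  have hΓne : ∃ s : Γ₀, IsTv (lin Γ₀) s := by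
    by_contra hcon
    push Not at hcon
    have hT : {s : Γ₀ | IsTv (lin Γ₀) s} = ∅ := by
      ext s
      constructor
      · intro hs
        exact absurd hs (hcon s)
      · intro hs
        exact absurd hs (Set.notMem_empty s)
    rw [hT, Subgroup.closure_empty] at hgen
    apply hJC
    intro j hj
    have h1 : (⟨rh ρ₀ j, ⟨j, hj, rfl⟩⟩ : Γ₀) ∈ (⊥ : Subgroup Γ₀) := by
      rw [hgen]
      trivial
    have h2 : rh ρ₀ j = 1 := congrArg Subtype.val (Subgroup.mem_bot.mp h1)
    exact (rh_eq_one_iff hn j).mp h2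
  obtain ⟨s, hs⟩ := hΓne
  have hK := card_pPrimeCore_coprime (G := Γ₀) p
  have hFac := fac_ee hff.inj hK hff.cen hs
  haveI hLn := normal_of_gen hff.inj hK hff.cen hgen hs
  set L := ee (pPrimeCore p Γ₀) s with hL
  set L' := L.map Γ₀.subtype with hL'
  have hL'le : L' ≤ Γ₀ := Subgroup.map_subtype_le _
  have hΓrange : Γ₀ ≤ (rh ρ₀).range := Subgroup.map_le_range _ _
  refine ⟨hFac.two_three, L'.comap (rh ρ₀), ?_, ?_, ?_, ?_⟩
  · intro c hc
    rw [Subgroup.mem_comap, (rh_eq_one_iff hn c).mpr hc]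
    exact L'.one_mem
  · intro g hg
    obtain ⟨j, hj, hjg⟩ := hL'le hg
    have h1 : j⁻¹ * g ∈ C := by
      rw [hC, ← rh_eq_one_iff hn, map_mul, map_inv, ← hjg, inv_mul_cancel]
    have h2 : g = j * (j⁻¹ * g) := by group
    rw [h2]
    exact Subgroup.mul_mem _ ((le_sup_left : thompsonSubgroup p G ≤ _) hj) ((le_sup_right : C ≤ _) h1)
  · have hle : thompsonSubgroup p G ⊔ C ≤ Subgroup.comap (rh ρ₀) Γ₀ := by
      refine sup_le ?_ ?_
      · intro j hj
        exact ⟨j, hj, rfl⟩
      · intro c hc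
        rw [Subgroup.mem_comap, (rh_eq_one_iff hn c).mpr hc]
        exact Γ₀.one_mem
    intro g hg
    have hg' : rh ρ₀ g ∈ Γ₀ := hle hg
    apply Cfsg.Agent.Lib.Replacement.mem_normalizer_of_forall
    intro x hx
    rw [Subgroup.mem_comap] at hx ⊢
    obtain ⟨l, hl, hlx⟩ := hx
    have h1 := hLn.conj_mem l hl ⟨rh ρ₀ g, hg'⟩
    refine ⟨_, h1, ?_⟩
    simp only [map_mul, map_inv]
    rw [show (Γ₀.subtype l) = rh ρ₀ x from hlx]
    rfl
  · haveI hN : (C.subgroupOf (L'.comap (rh ρ₀))).Normal := inferInstance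
    refine ⟨hN, ?_⟩
    let f : (L'.comap (rh ρ₀)) →* L' := ((rh ρ₀).comp (L'.comap (rh ρ₀)).subtype).codRestrict L'
      (fun x => x.2)
    have hf : Function.Surjective f := by
      rintro ⟨y, hy⟩
      obtain ⟨g, hg⟩ := hΓrange (hL'le hy)
      refine ⟨⟨g, ?_⟩, ?_⟩
      · rw [Subgroup.mem_comap, hg]
        exact hy
      · apply Subtype.ext
        exact hg
    have hker : C.subgroupOf (L'.comap (rh ρ₀)) = f.ker := by
      ext x
      rw [Subgroup.mem_subgroupOf, MonoidHom.mem_ker, hC, ← rh_eq_one_iff hn]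
      constructor
      · intro h
        apply Subtype.ext
        exact h
      · intro h
        exact congrArg Subtype.val h
    obtain ⟨e⟩ := hFac.iso
    exact ⟨(QuotientGroup.quotientMulEquivOfEq hker).trans ((QuotientGroup.quotientKerEquivOfSurjective f hf).trans
      ((Subgroup.equivMapOfInjective L Γ₀.subtype Γ₀.subtype_injective).symm.trans e))⟩

end S0618

end Cfsg.Agent.Lib.FFOmega
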