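import Mathlib
import Cfsg.Agent.Lib.FFStruct
import Cfsg.Agent.Lib.PResid

/-!
# Two subnormal subgroups acting irreducibly on their commutator modules.
-/

set_option autoImplicit false
set_option linter.unusedSectionVars false
set_option linter.style.haveILetI false

open scoped commutatorElement
open Cfsg

namespace Cfsg.Agent.Lib.FFSub

open Cfsg.Agent.Lib.FFMod Cfsg.Agent.Lib.FFTv Cfsg.Agent.Lib.FFStruct Cfsg.Agent.Lib.FFDich

section SN

variable {Γ : Type*} [Group Γ]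

/-- Conjugate subgroup. -/
def cj (g : Γ) (A : Subgroup Γ) : Subgroup Γ := A.map (MulAut.conj g).toMonoidHom

theorem mem_cj {g x : Γ} {A : Subgroup Γ} : x ∈ cj g A ↔ g⁻¹ * x * g ∈ A := by
  constructor
  · rintro ⟨a, ha, rfl⟩
    have : g⁻¹ * (MulAut.conj g).toMonoidHom a * g = a := by
      show g⁻¹ * (g * a * g⁻¹) * g = a
      group
    rwa [this]
  · intro h
    refine ⟨_, h, ?_⟩
    show g * (g⁻¹ * x * g) * g⁻¹ = x
    group

theorem conj_mem_cj {g a : Γ} {A : Subgroup Γ} (ha : a ∈ A) : g * a * g⁻¹ ∈ cj g A := ⟨a, ha, rfl⟩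

theorem cj_one (A : Subgroup Γ) : cj 1 A = A := by
  ext x
  rw [mem_cj]
  simp

theorem cj_mono {g : Γ} {A B : Subgroup Γ} (h : A ≤ B) : cj g A ≤ cj g B := Subgroup.map_mono h

theorem cj_eq_of_mem_normalizer {c : Γ} {N : Subgroup Γ} (hc : c ∈ Subgroup.normalizer (N : Set Γ)) :
    cj c N = N := by
  ext x
  rw [mem_cj]
  have h1 := (Subgroup.mem_normalizer_iff.mp hc) (c⁻¹ * x * c)
  have h2 : c * (c⁻¹ * x * c) * c⁻¹ = x := by group
  rw [h2] at h1
  exact h1

/-- Subnormal chains between subgroups of a fixed group. -/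
inductive SN : Subgroup Γ → Subgroup Γ → Prop
  | refl (X : Subgroup Γ) : SN X X
  | step {X Y A : Subgroup Γ} : SN X Y → A ≤ Y → Y ≤ Subgroup.normalizer (A : Set Γ) → SN X A

theorem SN.le {X A : Subgroup Γ} (h : SN X A) : A ≤ X := by
  induction h with
  | refl => exact le_rfl
  | step _ h1 _ ih => exact h1.trans ih

theorem SN.first {X A : Subgroup Γ} (h : SN X A) (hne : A ≠ X) :
    ∃ N, A ≤ N ∧ N < X ∧ X ≤ Subgroup.normalizer (N : Set Γ) ∧ SN N A := by
  induction h with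
  | refl => exact absurd rfl hne
  | @step Y A hXY hAY hN ih =>
    by_cases hY : Y = X
    · subst hY
      exact ⟨A, le_rfl, lt_of_le_of_ne hAY hne, hN, SN.refl _⟩
    · obtain ⟨N, h1, h2, h3, h4⟩ := ih hY
      exact ⟨N, hAY.trans h1, h2, h3, SN.step h4 hAY hN⟩

theorem SN.conj {X A : Subgroup Γ} (h : SN X A) (g : Γ) : SN (cj g X) (cj g A) := by
  induction h with
  | refl => exact SN.refl _
  | step _ h1 h2 ih =>
    refine SN.step ih (cj_mono h1) ?_
    exact (Subgroup.map_mono h2).trans (Subgroup.le_normalizer_map _)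

theorem SN.inf {X A : Subgroup Γ} (h : SN X A) (Z : Subgroup Γ) : SN (X ⊓ Z) (A ⊓ Z) := by
  induction h with
  | refl => exact SN.refl _
  | step _ h1 h2 ih =>
    refine SN.step ih (inf_le_inf_right _ h1) ?_
    rintro y ⟨hy1, hy2⟩
    rw [Subgroup.mem_normalizer_iff]
    intro x
    have h3 := (Subgroup.mem_normalizer_iff.mp (h2 hy1)) x
    rw [Subgroup.mem_inf, Subgroup.mem_inf, h3]
    apply and_congr_right
    intro _
    constructor
    · intro hx
      exact Z.mul_mem (Z.mul_mem hy2 hx) (Z.inv_mem hy2)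
    · intro hx
      have : x = y⁻¹ * (y * x * y⁻¹) * y := by group
      rw [this]
      exact Z.mul_mem (Z.mul_mem (Z.inv_mem hy2) hx) hy2

/-- Subnormal in an intermediate subgroup. -/
theorem SN.of_le {X A Y : Subgroup Γ} (h : SN X A) (hAY : A ≤ Y) (hYX : Y ≤ X) : SN Y A := by
  have := h.inf Y
  rwa [inf_eq_right.mpr hYX, inf_eq_left.mpr hAY] at this

theorem sn_of_isSubnormal {H : Subgroup Γ} (h : H.IsSubnormal) : SN ⊤ H := by
  induction h with
  | top => exact SN.refl _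
  | step H K hle _ hN ih =>
    refine SN.step ih hle ?_
    intro k hk
    rw [Subgroup.mem_normalizer_iff]
    intro x
    constructor
    · intro hx
      have := hN.conj_mem ⟨x, hle hx⟩ hx ⟨k, hk⟩
      exact this
    · intro hx
      have h1 : k * x * k⁻¹ ∈ K := hle hx
      have h2 : x ∈ K := by
        have : x = k⁻¹ * (k * x * k⁻¹) * k := by group
        rw [this]
        exact K.mul_mem (K.mul_mem (K.inv_mem hk) h1) hk
      have h3 := hN.conj_mem ⟨k * x * k⁻¹, h1⟩ hx ⟨k⁻¹, K.inv_mem hk⟩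
      have h4 : k⁻¹ * (k * x * k⁻¹) * k⁻¹⁻¹ = x := by group
      rw [Subgroup.mem_subgroupOf] at h3
      simp only [Subgroup.coe_mul, InvMemClass.coe_inv] at h3
      rwa [h4] at h3

end SN

section Main

variable {p : ℕ} [hp : Fact p.Prime] {Γ : Type*} [Group Γ] [Finite Γ] {E : Type*} [AddCommGroup E]
  [Module (ZMod p) E] [Finite E] {ρ : Γ →* Module.End (ZMod p) E}

/-- No nontrivial normal `p`-subgroup. -/
def NoP (p : ℕ) (A : Subgroup Γ) : Prop :=
  ∀ P : Subgroup Γ, P ≤ A → IsPGroup p P → A ≤ Subgroup.normalizer (P : Set Γ) → P = ⊥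

/-- Irreducibility on the commutator module. -/
def Irr (ρ : Γ →* Module.End (ZMod p) E) (A : Subgroup Γ) : Prop :=
  ∀ U : Submodule (ZMod p) E, U ≤ comS ρ A → (∀ a ∈ A, ∀ u ∈ U, ρ a u ∈ U) → U = ⊥ ∨ U = comS ρ A

omit [Finite Γ] [Finite E] in
theorem rho_inj (g : Γ) : Function.Injective (ρ g) := by
  intro x y h
  have h1 := rho_inv_rho (ρ := ρ) g x
  rw [h, rho_inv_rho] at h1
  exact h1.symm

omit [Finite Γ] [Finite E] in
theorem comS_cj (g : Γ) (A : Subgroup Γ) :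
    comS ρ (cj g A) = (comS ρ A).map (ρ g : E →ₗ[ZMod p] E) := by
  apply le_antisymm
  · rw [comS, Submodule.span_le]
    rintro w ⟨b, hb, v, rfl⟩
    obtain ⟨a, ha, rfl⟩ := hb
    refine ⟨ρ a (ρ g⁻¹ v) - ρ g⁻¹ v, sub_mem_comS ρ ha _, ?_⟩
    show ρ g (ρ a (ρ g⁻¹ v) - ρ g⁻¹ v) = ρ (g * a * g⁻¹) v - v
    rw [map_sub, rho_rho_inv, map_mul, map_mul, Module.End.mul_apply, Module.End.mul_apply]
  · rw [Submodule.map_le_iff_le_comap, comS, Submodule.span_le]
    rintro w ⟨a, ha, v, rfl⟩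
    show ρ g (ρ a v - v) ∈ comS ρ (cj g A)
    have h1 := sub_mem_comS ρ (conj_mem_cj (g := g) ha) (ρ g v)
    have h2 : ρ (g * a * g⁻¹) (ρ g v) - ρ g v = ρ g (ρ a v - v) := by
      rw [map_mul, map_mul, Module.End.mul_apply, Module.End.mul_apply, rho_inv_rho, map_sub]
    rwa [h2] at h1

omit [Finite Γ] [Finite E] in
theorem rho_mem_comS_cj {g : Γ} {A : Subgroup Γ} {w : E} (hw : w ∈ comS ρ A) : ρ g w ∈ comS ρ (cj g A) := by
  rw [comS_cj]
  exact Submodule.mem_map_of_mem hw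

omit [Finite Γ] [Finite E] in
theorem card_comS_cj (g : Γ) (A : Subgroup Γ) : Nat.card (comS ρ (cj g A)) = Nat.card (comS ρ A) := by
  rw [comS_cj]
  have hinj : Function.Injective (ρ g : E →ₗ[ZMod p] E) := rho_inj g
  exact Nat.card_congr (Submodule.equivMapOfInjective _ hinj _).symm.toEquiv

theorem cj_cj (a b : Γ) (A : Subgroup Γ) : cj a (cj b A) = cj (a * b) A :=
  (Cfsg.Agent.Lib.PResid.conj_map_mul A a b).symm

theorem cj_inv_cj (g : Γ) (A : Subgroup Γ) : cj g⁻¹ (cj g A) = A := by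
  rw [cj_cj, inv_mul_cancel, cj_one]

theorem cj_cj_inv (g : Γ) (A : Subgroup Γ) : cj g (cj g⁻¹ A) = A := by
  rw [cj_cj, mul_inv_cancel, cj_one]

theorem card_cj (g : Γ) (A : Subgroup Γ) : Nat.card (cj g A) = Nat.card A :=
  Subgroup.card_map_of_injective (MulAut.conj g).injective

omit [Finite E] in
theorem NoP.conj {A : Subgroup Γ} (h : NoP p A) (g : Γ) : NoP p (cj g A) := by
  intro P hP hPp hN
  have h1 : cj g⁻¹ P = ⊥ := by
    apply h
    · have := cj_mono (g := g⁻¹) hP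
      rwa [cj_inv_cj] at this
    · exact hPp.map _
    · have h2 := cj_mono (g := g⁻¹) hN
      rw [cj_inv_cj] at h2
      exact h2.trans (Subgroup.le_normalizer_map _)
  have h2 := congrArg (cj g) h1
  rw [cj_cj_inv] at h2
  rw [h2]
  exact Subgroup.map_bot _

omit [Finite Γ] [Finite E] in
theorem map_map_rho (g : Γ) (U : Submodule (ZMod p) E) :
    (U.map (ρ g⁻¹ : E →ₗ[ZMod p] E)).map (ρ g : E →ₗ[ZMod p] E) = U := by
  ext x
  constructor
  · rintro ⟨_, ⟨u, hu, rfl⟩, rfl⟩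
    show ρ g (ρ g⁻¹ u) ∈ U
    rwa [rho_rho_inv]
  · intro hx
    refine ⟨ρ g⁻¹ x, ⟨x, hx, rfl⟩, ?_⟩
    show ρ g (ρ g⁻¹ x) = x
    rw [rho_rho_inv]

omit [Finite Γ] [Finite E] in
theorem Irr.conj {A : Subgroup Γ} (h : Irr ρ A) (g : Γ) : Irr ρ (cj g A) := by
  intro U hU hinv
  have h1 : U.map (ρ g⁻¹ : E →ₗ[ZMod p] E) ≤ comS ρ A := by
    rintro _ ⟨u, hu, rfl⟩
    have h2 := hU hu
    rw [comS_cj] at h2
    obtain ⟨w, hw, rfl⟩ := h2
    show ρ g⁻¹ (ρ g w) ∈ _
    rwa [rho_inv_rho]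
  have h2 : ∀ a ∈ A, ∀ u ∈ U.map (ρ g⁻¹ : E →ₗ[ZMod p] E), ρ a u ∈ U.map (ρ g⁻¹ : E →ₗ[ZMod p] E) := by
    rintro a ha _ ⟨u, hu, rfl⟩
    have h3 := hinv _ (conj_mem_cj (g := g) ha) u hu
    refine ⟨_, h3, ?_⟩
    show ρ g⁻¹ (ρ (g * a * g⁻¹) u) = ρ a (ρ g⁻¹ u)
    rw [map_mul, map_mul, Module.End.mul_apply, Module.End.mul_apply, rho_inv_rho]
  rcases h _ h1 h2 with h3 | h3
  · left
    rw [← map_map_rho (ρ := ρ) g U, h3, Submodule.map_bot]
  · right
    rw [comS_cj, ← h3, map_map_rho]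

theorem quad_pgroup (hinj : Function.Injective ρ) {X : Subgroup Γ} (hq : comS ρ X ≤ fixS ρ X) :
    IsPGroup p X := by
  rintro ⟨a, ha⟩
  refine ⟨2, ?_⟩
  apply Subtype.ext
  show a ^ p ^ 2 = 1
  apply hinj
  rw [map_one, map_pow]
  apply unipotent_pow
  apply LinearMap.ext
  intro v
  rw [pow_succ, pow_succ, pow_one]
  have h1 : ∀ x, (ρ a - 1) x = ρ a x - x := fun x => rfl
  have h2 : ρ a (ρ a v - v) = ρ a v - v := hq (sub_mem_comS ρ ha v) a ha
  show (ρ a - 1) ((ρ a - 1) ((ρ a - 1) v)) = 0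
  rw [h1 v, h1 (ρ a v - v), h2]
  simp

theorem fix_zero (hinj : Function.Injective ρ) {A : Subgroup Γ} (hN : NoP p A) (hI : Irr ρ A) (hne : A ≠ ⊥) {w : E}
    (hw : w ∈ comS ρ A) (hf : ∀ a ∈ A, ρ a w = w) : w = 0 := by
  rcases hI (comS ρ A ⊓ fixS ρ A) inf_le_left (by
    intro a ha u hu
    rw [hu.2 a ha]
    exact hu) with h1 | h1
  · have h2 : w ∈ comS ρ A ⊓ fixS ρ A := ⟨hw, hf⟩
    rw [h1] at h2
    exact (Submodule.mem_bot _).mp h2
  · exfalso
    apply hne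
    apply hN A le_rfl _ Subgroup.le_normalizer
    apply quad_pgroup hinj
    exact inf_eq_left.mp h1

/-- Hypotheses on a pair. -/
structure Hyp (ρ : Γ →* Module.End (ZMod p) E) (A B : Subgroup Γ) : Prop where
  snA : SN (A ⊔ B) A
  snB : SN (A ⊔ B) B
  npA : NoP p A
  npB : NoP p B
  irA : Irr ρ A
  irB : Irr ρ B
  inc1 : ¬ comS ρ A ≤ comS ρ B
  inc2 : ¬ comS ρ B ≤ comS ρ A
  cA : 2 < Nat.card A
  cB : 2 < Nat.card B

theorem Hyp.symm {A B : Subgroup Γ} (h : Hyp ρ A B) : Hyp ρ B A := by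
  refine ⟨?_, ?_, h.npB, h.npA, h.irB, h.irA, h.inc2, h.inc1, h.cB, h.cA⟩
  · rw [sup_comm]; exact h.snB
  · rw [sup_comm]; exact h.snA

/-- Conclusions for a pair. -/
structure Con (ρ : Γ →* Module.End (ZMod p) E) (A B : Subgroup Γ) : Prop where
  comm : ∀ a ∈ A, ∀ b ∈ B, a * b = b * a
  inf : A ⊓ B = ⊥
  com : comS ρ A ⊓ comS ρ B = ⊥

theorem Con.symm {A B : Subgroup Γ} (h : Con ρ A B) : Con ρ B A := by
  refine ⟨fun b hb a ha => (h.comm a ha b hb).symm, ?_, ?_⟩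
  · rw [inf_comm]; exact h.inf
  · rw [inf_comm]; exact h.com

theorem Con.fix {A B : Subgroup Γ} (h : Con ρ A B) {a : Γ} (ha : a ∈ A) {w : E} (hw : w ∈ comS ρ B) : ρ a w = w := by
  have h1 : comS ρ B ≤ (comS ρ B).comap (ρ a : E →ₗ[ZMod p] E) := by
    rw [comS, Submodule.span_le]
    rintro _ ⟨b, hb, v, rfl⟩
    show ρ a (ρ b v - v) ∈ comS ρ B
    have h2 := sub_mem_comS ρ hb (ρ a v)
    have h3 : ρ b (ρ a v) - ρ a v = ρ a (ρ b v - v) := by
      rw [map_sub, ← Module.End.mul_apply, ← Module.End.mul_apply, ← map_mul, ← map_mul, h.comm a ha b hb]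
    rwa [h3] at h2
  have h2 : ρ a w ∈ comS ρ B := h1 hw
  have h3 : ρ a w - w ∈ comS ρ A ⊓ comS ρ B := ⟨sub_mem_comS ρ ha w, Submodule.sub_mem _ h2 hw⟩
  rw [h.com] at h3
  exact sub_eq_zero.mp ((Submodule.mem_bot _).mp h3)

theorem not_top_card_lt {N D : Subgroup Γ} (h : N < D) : Nat.card N < Nat.card D := by
  by_contra hcon
  push Not at hcon
  exact h.ne (Subgroup.eq_of_le_of_card_ge h.le hcon)

section Step

variable (hinj : Function.Injective ρ) {A B : Subgroup Γ}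
  (IH : ∀ A' B' : Subgroup Γ, Nat.card ↥(A' ⊔ B') < Nat.card ↥(A ⊔ B) → Hyp ρ A' B' → Con ρ A' B')
  (h : Hyp ρ A B)

include IH h

/-- Two conjugates of `B` under `A ⊔ B` with different commutators. -/
theorem pair_conj {c₁ c₂ : Γ} (hc₁ : c₁ ∈ A ⊔ B) (hc₂ : c₂ ∈ A ⊔ B)
    (hne : comS ρ (cj c₁ B) ≠ comS ρ (cj c₂ B)) : Con ρ (cj c₁ B) (cj c₂ B) := by
  have hBne : B ≠ A ⊔ B := by
    intro h0
    apply h.inc1
    apply comS_mono
    rw [h0]
    exact le_sup_left
  obtain ⟨N, hBN, hlt, hNn, hsn⟩ := h.snB.first hBne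
  have hcN : ∀ c ∈ A ⊔ B, cj c B ≤ N := by
    intro c hc
    have := cj_mono (g := c) hBN
    rwa [cj_eq_of_mem_normalizer (hNn hc)] at this
  have hsN : ∀ c ∈ A ⊔ B, SN N (cj c B) := by
    intro c hc
    have := hsn.conj c
    rwa [cj_eq_of_mem_normalizer (hNn hc)] at this
  have hle : cj c₁ B ⊔ cj c₂ B ≤ N := sup_le (hcN _ hc₁) (hcN _ hc₂)
  apply IH
  · exact lt_of_le_of_lt (Subgroup.card_le_of_le hle) (not_top_card_lt hlt)
  · refine ⟨(hsN _ hc₁).of_le le_sup_left hle, (hsN _ hc₂).of_le le_sup_right hle, h.npB.conj _, h.npB.conj _,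
      h.irB.conj _, h.irB.conj _, ?_, ?_, ?_, ?_⟩
    · intro h1
      exact hne (sub_eq_of_le_of_card h1 (by rw [card_comS_cj, card_comS_cj]))
    · intro h1
      exact hne (sub_eq_of_le_of_card h1 (by rw [card_comS_cj, card_comS_cj])).symm
    · rw [card_cj]; exact h.cB
    · rw [card_cj]; exact h.cB

include hinj

/-- The main step: `A` cannot move the commutator of `B`. -/
theorem main_step {e : Γ} (he : e ∈ A) (hne : comS ρ (cj e B) ≠ comS ρ B) : False := by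
  classical
  have hIH' : ∀ A' B' : Subgroup Γ, Nat.card ↥(A' ⊔ B') < Nat.card ↥(B ⊔ A) → Hyp ρ A' B' → Con ρ A' B' := by
    rw [sup_comm]
    exact IH
  have hA0 : A ≠ ⊥ := by
    rintro rfl
    have := h.cA
    simp at this
  have hB0 : B ≠ ⊥ := by
    rintro rfl
    have := h.cB
    simp at this
  have heD : e ∈ A ⊔ B := (le_sup_left : A ≤ A ⊔ B) he
  have h1D : (1 : Γ) ∈ A ⊔ B := Subgroup.one_mem _
  -- the pair of conjugates of `B`
  have hC : ∀ c ∈ A ⊔ B, comS ρ (cj c B) ≠ comS ρ B → Con ρ B (cj c B) := by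
    intro c hc hcne
    have := pair_conj IH h h1D hc (by rw [cj_one]; exact hcne.symm)
    rwa [cj_one] at this
  have hCe := hC e heD hne
  -- `B` moves the commutator of `A`
  obtain ⟨g, hg, hgne⟩ : ∃ g ∈ B, comS ρ (cj g A) ≠ comS ρ A := by
    by_contra hcon
    push Not at hcon
    have hpres : ∀ b ∈ B, ∀ w ∈ comS ρ A, ρ b w ∈ comS ρ A := by
      intro b hb w hw
      have := rho_mem_comS_cj (ρ := ρ) (g := b) hw
      rwa [hcon b hb] at this
    have hX : comS ρ A ⊓ comS ρ B = ⊥ := by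
      rcases h.irB (comS ρ A ⊓ comS ρ B) inf_le_right (by
        intro b hb u hu
        exact ⟨hpres b hb u hu.1, map_comS B hb hu.2⟩) with h1 | h1
      · exact h1
      · exact absurd (inf_eq_right.mp h1) h.inc2
    have hfixA : ∀ b ∈ B, ∀ w ∈ comS ρ A, ρ b w = w := by
      intro b hb w hw
      have h1 : ρ b w - w ∈ comS ρ A ⊓ comS ρ B :=
        ⟨Submodule.sub_mem _ (hpres b hb w hw) hw, sub_mem_comS ρ hb w⟩
      rw [hX] at h1
      exact sub_eq_zero.mp ((Submodule.mem_bot _).mp h1)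
    apply h.inc2
    intro w hw
    have h0 : w = 0 := by
      apply fix_zero hinj h.npB h.irB hB0 hw
      intro b hb
      have h1 : ρ b (ρ e w) = ρ e w := hCe.fix hb (rho_mem_comS_cj hw)
      have h2 : ρ b (ρ e w - w) = ρ e w - w := hfixA b hb _ (sub_mem_comS ρ he w)
      rw [map_sub, h1] at h2
      exact sub_right_injective h2
    rw [h0]
    exact Submodule.zero_mem _
  -- the conjugate of `A`
  have hgD : g ∈ B ⊔ A := (le_sup_left : B ≤ B ⊔ A) hg
  have hCg : Con ρ A (cj g A) := by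
    have := pair_conj hIH' h.symm (Subgroup.one_mem _) hgD (by rw [cj_one]; exact hgne.symm)
    rwa [cj_one] at this
  -- the commutators intersect trivially
  have hX : comS ρ A ⊓ comS ρ B = ⊥ := by
    rw [eq_bot_iff]
    rintro x ⟨hx1, hx2⟩
    have h1 : ρ g x ∈ comS ρ B := map_comS B hg hx2
    have h2 : ρ e (ρ g x) = ρ g x := hCg.fix he (rho_mem_comS_cj hx1)
    have h3 : ρ g x ∈ comS ρ (cj e B) := by
      rw [← h2]
      exact rho_mem_comS_cj h1
    have h4 : ρ g x ∈ comS ρ B ⊓ comS ρ (cj e B) := ⟨h1, h3⟩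
    rw [hCe.com] at h4
    have h5 : ρ g x = 0 := (Submodule.mem_bot _).mp h4
    have h6 := rho_inv_rho (ρ := ρ) g x
    rw [h5, map_zero] at h6
    exact (Submodule.mem_bot _).mpr h6.symm
  -- cards
  have hcard_le : Nat.card (comS ρ A) ≤ Nat.card (comS ρ B) := by
    let θ : comS ρ A → comS ρ B := fun w => ⟨ρ g w - w, sub_mem_comS ρ hg w⟩
    apply Nat.card_le_card_of_injective θ
    intro x y hxy
    have h1 : ρ g x.1 - x.1 = ρ g y.1 - y.1 := congrArg Subtype.val hxy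
    have h2 : ρ g (x.1 - y.1) = x.1 - y.1 := by
      rw [map_sub]
      have : ρ g x.1 - ρ g y.1 = (ρ g x.1 - x.1) - (ρ g y.1 - y.1) + (x.1 - y.1) := by abel
      rw [this, h1, sub_self, zero_add]
    have h3 : x.1 - y.1 ∈ comS ρ A ⊓ comS ρ (cj g A) := by
      refine ⟨Submodule.sub_mem _ x.2 y.2, ?_⟩
      rw [← h2]
      exact rho_mem_comS_cj (Submodule.sub_mem _ x.2 y.2)
    rw [hCg.com] at h3
    exact Subtype.ext (sub_eq_zero.mp ((Submodule.mem_bot _).mp h3))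
  have hsurj : ∀ e' ∈ A, comS ρ (cj e' B) ≠ comS ρ B → ∀ x ∈ comS ρ A, ∃ w ∈ comS ρ B, ρ e' w - w = x := by
    intro e' he' hne' x hx
    have hC' := hC e' ((le_sup_left : A ≤ A ⊔ B) he') hne'
    let η : comS ρ B → comS ρ A := fun w => ⟨ρ e' w - w, sub_mem_comS ρ he' w⟩
    have hη : Function.Injective η := by
      intro y z hyz
      have h1 : ρ e' y.1 - y.1 = ρ e' z.1 - z.1 := congrArg Subtype.val hyz
      have h2 : ρ e' (y.1 - z.1) = y.1 - z.1 := by
        rw [map_sub]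
        have : ρ e' y.1 - ρ e' z.1 = (ρ e' y.1 - y.1) - (ρ e' z.1 - z.1) + (y.1 - z.1) := by abel
        rw [this, h1, sub_self, zero_add]
      have h3 : y.1 - z.1 ∈ comS ρ B ⊓ comS ρ (cj e' B) := by
        refine ⟨Submodule.sub_mem _ y.2 z.2, ?_⟩
        rw [← h2]
        exact rho_mem_comS_cj (Submodule.sub_mem _ y.2 z.2)
      rw [hC'.com] at h3
      exact Subtype.ext (sub_eq_zero.mp ((Submodule.mem_bot _).mp h3))
    have hbij := hη.bijective_of_nat_card_le hcard_le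
    obtain ⟨w, hw⟩ := hbij.2 ⟨x, hx⟩
    exact ⟨w.1, w.2, congrArg Subtype.val hw⟩
  -- at most two images
  have hΩ : ∀ e₁ ∈ A, comS ρ (cj e₁ B) ≠ comS ρ B → comS ρ (cj e₁ B) = comS ρ (cj e B) := by
    intro e₁ he₁ hne₁
    by_contra hcon
    have he₁D : e₁ ∈ A ⊔ B := (le_sup_left : A ≤ A ⊔ B) he₁
    have hC2 : Con ρ (cj e B) (cj e₁ B) := pair_conj IH h heD he₁D (Ne.symm hcon)
    apply h.inc2
    intro w hw
    obtain ⟨w', hw', hww⟩ := hsurj e₁ he₁ hne₁ (ρ e w - w) (sub_mem_comS ρ he w)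
    have hx₁ : ρ e w = ρ e₁ w' - w' + w := by
      rw [hww]
      abel
    have h0 : ρ e w = 0 := by
      apply fix_zero hinj (h.npB.conj e) (h.irB.conj e) ?_ (rho_mem_comS_cj hw)
      · intro y hy
        rw [hx₁, map_add, map_sub, hC2.fix hy (rho_mem_comS_cj hw'), hCe.symm.fix hy hw', hCe.symm.fix hy hw]
      · intro h5
        have h6 := card_cj (e) B
        rw [h5] at h6
        have := h.cB
        simp at h6
        omega
    have h6 := rho_inv_rho (ρ := ρ) e w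
    rw [h0, map_zero] at h6
    rw [← h6]
    exact Submodule.zero_mem _
  -- the stabilizer
  let T : Γ → Submodule (ZMod p) E := fun a => (comS ρ B).map (ρ a : E →ₗ[ZMod p] E)
  have hT : ∀ a, comS ρ (cj a B) = T a := fun a => comS_cj a B
  have hTmul : ∀ a b, T (a * b) = (T b).map (ρ a : E →ₗ[ZMod p] E) := by
    intro a b
    show (comS ρ B).map (ρ (a * b) : E →ₗ[ZMod p] E) = ((comS ρ B).map (ρ b : E →ₗ[ZMod p] E)).map (ρ a : E →ₗ[ZMod p] E)
    rw [← Submodule.map_comp, map_mul]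
    rfl
  have hT1 : T 1 = comS ρ B := by
    show (comS ρ B).map (ρ 1 : E →ₗ[ZMod p] E) = comS ρ B
    rw [map_one]
    exact Submodule.map_id _
  have hTinv : ∀ a, T a = comS ρ B → T a⁻¹ = comS ρ B := by
    intro a ha
    have h1 := hTmul a⁻¹ a
    rw [inv_mul_cancel, hT1, ha] at h1
    exact h1.symm
  let S : Subgroup Γ :=
    { carrier := {a | a ∈ A ∧ T a = comS ρ B}
      mul_mem' := by
        rintro a b ⟨ha, ha'⟩ ⟨hb, hb'⟩
        refine ⟨A.mul_mem ha hb, ?_⟩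
        rw [hTmul, hb']
        exact ha'
      one_mem' := ⟨A.one_mem, hT1⟩
      inv_mem' := by
        rintro a ⟨ha, ha'⟩
        exact ⟨A.inv_mem ha, hTinv a ha'⟩ }
  have hSA : S ≤ A := fun a ha => ha.1
  have hmemS : ∀ a, a ∈ S ↔ a ∈ A ∧ T a = comS ρ B := fun a => Iff.rfl
  -- `S` fixes the commutator of `A`
  have hSfix : ∀ s ∈ S, ∀ w ∈ comS ρ A, ρ s w = w := by
    intro s hs w hw
    set w₂ := ρ g w - w with hw₂
    have hw₂B : w₂ ∈ comS ρ B := sub_mem_comS ρ hg w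
    have h1 : ρ s (ρ g w) = ρ g w := hCg.fix hs.1 (rho_mem_comS_cj hw)
    have h2 : ρ s w₂ ∈ comS ρ B := by
      have h3 : ρ s w₂ ∈ T s := Submodule.mem_map_of_mem hw₂B
      rwa [hs.2] at h3
    have h3 : ρ s w - w = -(ρ s w₂ - w₂) := by
      rw [hw₂, map_sub, h1]
      abel
    have h4 : ρ s w - w ∈ comS ρ A ⊓ comS ρ B := by
      refine ⟨sub_mem_comS ρ hs.1 w, ?_⟩
      rw [h3]
      exact Submodule.neg_mem _ (Submodule.sub_mem _ h2 hw₂B)
    rw [hX] at h4
    exact sub_eq_zero.mp ((Submodule.mem_bot _).mp h4)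
  have hSp : IsPGroup p S := by
    apply quad_pgroup hinj
    intro w hw s hs
    exact hSfix s hs w (comS_mono ρ hSA hw)
  -- `S` is normal in `A`
  have hTS : ∀ s ∈ S, ∀ a ∈ A, T (s * a) = T a := by
    intro s hs a ha
    by_cases h1 : T a = comS ρ B
    · rw [hTmul, h1]
      exact hs.2
    · have h2 : T a = T e := by
        rw [← hT, ← hT]
        exact hΩ a ha (by rw [hT]; exact h1)
      by_cases h3 : T (s * a) = comS ρ B
      · exfalso
        apply h1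
        have h4 := hTmul s⁻¹ (s * a)
        rw [inv_mul_cancel_left, h3] at h4
        rw [h4]
        exact (S.inv_mem hs).2
      · rw [h2, ← hT, ← hT]
        apply hΩ _ (A.mul_mem hs.1 ha)
        rw [hT]
        exact h3
  have hSn : A ≤ Subgroup.normalizer (S : Set Γ) := by
    intro a ha
    apply Cfsg.Agent.Lib.Replacement.mem_normalizer_of_forall
    intro s hs
    refine ⟨A.mul_mem (A.mul_mem ha hs.1) (A.inv_mem ha), ?_⟩
    have h1 : a * s * a⁻¹ = a * (s * a⁻¹) := by group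
    rw [h1, hTmul, hTS s hs a⁻¹ (A.inv_mem ha), ← hTmul, mul_inv_cancel, hT1]
  have hS0 : S = ⊥ := h.npA S hSA hSp hSn
  -- the final count
  have hsub : (A : Set Γ) ⊆ {1, e} := by
    intro a ha
    by_cases h1 : T a = comS ρ B
    · have : a ∈ S := ⟨ha, h1⟩
      rw [hS0] at this
      left
      exact Subgroup.mem_bot.mp this
    · have h2 : T a = T e := by
        rw [← hT, ← hT]
        exact hΩ a ha (by rw [hT]; exact h1)
      have h3 : e⁻¹ * a ∈ S := by
        refine ⟨A.mul_mem (A.inv_mem he) ha, ?_⟩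
        rw [hTmul, h2, ← hTmul, inv_mul_cancel, hT1]
      rw [hS0] at h3
      right
      have h4 := Subgroup.mem_bot.mp h3
      rw [inv_mul_eq_one] at h4
      exact h4.symm
  have hcardA : Nat.card A ≤ 2 := by
    have h1 : (A : Set Γ).ncard ≤ ({1, e} : Set Γ).ncard := Set.ncard_le_ncard hsub (Set.toFinite _)
    have h2 : ({1, e} : Set Γ).ncard ≤ 2 := by
      have := Set.ncard_insert_le (1 : Γ) ({e} : Set Γ)
      rwa [Set.ncard_singleton] at this
    have h3 : Nat.card A = (A : Set Γ).ncard := Nat.card_coe_set_eq _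
    omega
  have := h.cA
  omega

end Step

/-- The case where each normalizes the commutator of the other. -/
theorem con_of_pres (hinj : Function.Injective ρ) {A B : Subgroup Γ} (h : Hyp ρ A B)
    (hA : ∀ a ∈ A, comS ρ (cj a B) = comS ρ B) (hB : ∀ b ∈ B, comS ρ (cj b A) = comS ρ A) : Con ρ A B := by
  have hpA : ∀ a ∈ A, ∀ w ∈ comS ρ B, ρ a w ∈ comS ρ B := by
    intro a ha w hw
    have := rho_mem_comS_cj (ρ := ρ) (g := a) hw
    rwa [hA a ha] at this
  have hpB : ∀ b ∈ B, ∀ w ∈ comS ρ A, ρ b w ∈ comS ρ A := by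
    intro b hb w hw
    have := rho_mem_comS_cj (ρ := ρ) (g := b) hw
    rwa [hB b hb] at this
  have hX : comS ρ A ⊓ comS ρ B = ⊥ := by
    rcases h.irB (comS ρ A ⊓ comS ρ B) inf_le_right (by
      intro b hb u hu
      exact ⟨hpB b hb u hu.1, map_comS B hb hu.2⟩) with h1 | h1
    · exact h1
    · exact absurd (inf_eq_right.mp h1) h.inc2
  have hf1 : comS ρ A ≤ fixS ρ B := by
    intro w hw b hb
    have h1 : ρ b w - w ∈ comS ρ A ⊓ comS ρ B :=
      ⟨Submodule.sub_mem _ (hpB b hb w hw) hw, sub_mem_comS ρ hb w⟩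
    rw [hX] at h1
    exact sub_eq_zero.mp ((Submodule.mem_bot _).mp h1)
  have hf2 : comS ρ B ≤ fixS ρ A := by
    intro w hw a ha
    have h1 : ρ a w - w ∈ comS ρ A ⊓ comS ρ B :=
      ⟨sub_mem_comS ρ ha w, Submodule.sub_mem _ (hpA a ha w hw) hw⟩
    rw [hX] at h1
    exact sub_eq_zero.mp ((Submodule.mem_bot _).mp h1)
  refine ⟨fun a ha b hb => comm_of_cross hinj hf1 hf2 ha hb, ?_, hX⟩
  rw [eq_bot_iff]
  rintro x ⟨hx1, hx2⟩
  rw [Subgroup.mem_bot]
  apply hinj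
  rw [map_one]
  apply LinearMap.ext
  intro v
  have h1 : ρ x v - v ∈ comS ρ A ⊓ comS ρ B := ⟨sub_mem_comS ρ hx1 v, sub_mem_comS ρ hx2 v⟩
  rw [hX] at h1
  exact sub_eq_zero.mp ((Submodule.mem_bot _).mp h1)

/-- The main theorem. -/
theorem main (hinj : Function.Injective ρ) : ∀ (n : ℕ) (A B : Subgroup Γ), Nat.card ↥(A ⊔ B) = n → Hyp ρ A B → Con ρ A B := by
  intro n
  induction n using Nat.strong_induction_on with
  | _ n ih =>
    intro A B hn h
    have IH : ∀ A' B' : Subgroup Γ, Nat.card ↥(A' ⊔ B') < Nat.card ↥(A ⊔ B) → Hyp ρ A' B' → Con ρ A' B' := by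
      intro A' B' hlt h'
      rw [hn] at hlt
      exact ih _ hlt A' B' rfl h'
    by_cases hA : ∀ a ∈ A, comS ρ (cj a B) = comS ρ B
    · by_cases hB : ∀ b ∈ B, comS ρ (cj b A) = comS ρ A
      · exact con_of_pres hinj h hA hB
      · exfalso
        push Not at hB
        obtain ⟨g, hg, hgne⟩ := hB
        have hIH' : ∀ A' B' : Subgroup Γ, Nat.card ↥(A' ⊔ B') < Nat.card ↥(B ⊔ A) → Hyp ρ A' B' → Con ρ A' B' := by
          rw [sup_comm]
          exact IH
        exact main_step hinj hIH' h.symm hg hgne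
    · exfalso
      push Not at hA
      obtain ⟨e, he, hne⟩ := hA
      exact main_step hinj IH h he hne

omit [Finite Γ] [Finite E] in
theorem comS_sup (A B : Subgroup Γ) : comS ρ (A ⊔ B) = comS ρ A ⊔ comS ρ B := by
  apply le_antisymm
  · rw [comS, Submodule.span_le]
    rintro _ ⟨g, hg, v, rfl⟩
    let W := comS ρ A ⊔ comS ρ B
    let S : Subgroup Γ :=
      { carrier := {g | ∀ v, ρ g v - v ∈ W}
        mul_mem' := by
          intro a b ha hb v
          have : ρ (a * b) v - v = (ρ a (ρ b v) - ρ b v) + (ρ b v - v) := by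
            rw [map_mul, Module.End.mul_apply]
            abel
          rw [this]
          exact W.add_mem (ha _) (hb _)
        one_mem' := by
          intro v
          simp
        inv_mem' := by
          intro a ha v
          have h1 := ha (ρ a⁻¹ v)
          rw [rho_rho_inv] at h1
          have : ρ a⁻¹ v - v = -(v - ρ a⁻¹ v) := by abel
          rw [this]
          exact W.neg_mem h1 }
    have h1 : A ⊔ B ≤ S := by
      refine sup_le ?_ ?_
      · intro a ha v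
        exact (le_sup_left : comS ρ A ≤ W) (sub_mem_comS ρ ha v)
      · intro b hb v
        exact (le_sup_right : comS ρ B ≤ W) (sub_mem_comS ρ hb v)
    exact h1 hg v
  · exact sup_le (comS_mono ρ le_sup_left) (comS_mono ρ le_sup_right)

end Main

section Statement

open Cfsg.Agent.Lib.FFBridge Cfsg.Agent.Lib.PCore

universe u

variable {G : Type u} [Group G] [Finite G] {p : ℕ} [hp : Fact p.Prime]

theorem noP_of_pCore {Γ : Type*} [Group Γ] [Finite Γ] (hO : pCore p Γ = ⊥) {A : Subgroup Γ} (hA : A.IsSubnormal) :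
    NoP p A := by
  intro P hPA hPp hN
  have h1 : P.subgroupOf A ≤ pCore p A := by
    apply le_pCore
    · constructor
      intro n hn g
      rw [Subgroup.mem_subgroupOf] at hn ⊢
      exact (Subgroup.mem_normalizer_iff.mp (hN g.2) n).mp hn
    · have e : P.subgroupOf A ≃* P := Subgroup.subgroupOfEquivOfLe hPA
      exact hPp.of_equiv e.symm
  have h2 := Cfsg.Agent.Lib.PResid.map_pCore_le_of_isSubnormal (p := p) hA
  rw [hO] at h2
  rw [eq_bot_iff]
  intro x hx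
  have h3 : (⟨x, hPA hx⟩ : A) ∈ pCore p A := h1 (by simpa [Subgroup.mem_subgroupOf] using hx)
  exact h2 ⟨_, h3, rfl⟩

theorem s0615 (V E E₁ E₂ : Subgroup G) (hV : IsElementaryAbelian p V)
    (hEV : E ≤ Subgroup.normalizer (V : Set G)) (hf : E ⊓ Subgroup.centralizer (V : Set G) = ⊥)
    (hgen : E = E₁ ⊔ E₂) (hs₁ : (E₁.subgroupOf E).IsSubnormal) (hs₂ : (E₂.subgroupOf E).IsSubnormal)
    (hOp : pCore p ↥E = ⊥)
    (hirr₁ : (∀ U : Subgroup G, U ≤ ⁅V, E₁⁆ → E₁ ≤ Subgroup.normalizer (U : Set G) → U = ⊥ ∨ U = ⁅V, E₁⁆))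
    (hirr₂ : (∀ U : Subgroup G, U ≤ ⁅V, E₂⁆ → E₂ ≤ Subgroup.normalizer (U : Set G) → U = ⊥ ∨ U = ⁅V, E₂⁆))
    (h12 : ¬ ⁅V, E₁⁆ ≤ ⁅V, E₂⁆) (h21 : ¬ ⁅V, E₂⁆ ≤ ⁅V, E₁⁆) (hc₁ : 2 < Nat.card E₁) (hc₂ : 2 < Nat.card E₂) :
    ⁅E₁, E₂⁆ = ⊥ ∧ E₁ ⊓ E₂ = ⊥ ∧ ⁅V, E₁⁆ ⊓ ⁅V, E₂⁆ = ⊥ ∧ ⁅V, E⁆ = ⁅V, E₁⁆ ⊔ ⁅V, E₂⁆ := by
  obtain ⟨W, _, _, _, ρ, ι, hm⟩ := exists_model hV hEV
  have hinj := Model.inj_rho hm hf
  have h₁E : E₁ ≤ E := by rw [hgen]; exact le_sup_left
  have h₂E : E₂ ≤ E := by rw [hgen]; exact le_sup_right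
  set A := E₁.subgroupOf E with hA
  set B := E₂.subgroupOf E with hB
  have hAm : A.map E.subtype = E₁ := Subgroup.map_subgroupOf_eq_of_le h₁E
  have hBm : B.map E.subtype = E₂ := Subgroup.map_subgroupOf_eq_of_le h₂E
  have hsup : A ⊔ B = ⊤ := by
    apply Subgroup.map_injective E.subtype_injective
    rw [Subgroup.map_sup, hAm, hBm, ← MonoidHom.range_eq_map, Subgroup.range_subtype]
    exact hgen.symm
  have hcA : Nat.card A = Nat.card E₁ := card_subgroupOf_of_le h₁E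
  have hcB : Nat.card B = Nat.card E₂ := card_subgroupOf_of_le h₂E
  have hWA : toS ι (Cfsg.Agent.Lib.FFMod.comS ρ A) = ⁅V, E₁⁆ := by rw [hm.toS_comS, hAm]
  have hWB : toS ι (Cfsg.Agent.Lib.FFMod.comS ρ B) = ⁅V, E₂⁆ := by rw [hm.toS_comS, hBm]
  have hnorm : ∀ {X : Subgroup E} (U : Submodule (ZMod p) W), (∀ a ∈ X, ∀ u ∈ U, ρ a u ∈ U) →
      X.map E.subtype ≤ Subgroup.normalizer ((toS ι U : Subgroup G) : Set G) := by
    rintro X U hU _ ⟨x, hx, rfl⟩
    apply Cfsg.Agent.Lib.Replacement.mem_normalizer_of_forall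
    intro n hn
    obtain ⟨u, hu, rfl⟩ := mem_toS.mp hn
    have h1 := hm.act x u
    show (x : G) * _ * (x : G)⁻¹ ∈ _
    rw [← h1]
    exact toS_mem (hU x hx u hu)
  have hIrr : ∀ {X : Subgroup E} {Y : Subgroup G}, X.map E.subtype = Y →
      (∀ U : Subgroup G, U ≤ ⁅V, Y⁆ → Y ≤ Subgroup.normalizer (U : Set G) → U = ⊥ ∨ U = ⁅V, Y⁆) → Irr ρ X := by
    intro X Y hXY hirr U hU hinv
    have hWX : toS ι (Cfsg.Agent.Lib.FFMod.comS ρ X) = ⁅V, Y⁆ := by rw [hm.toS_comS, hXY]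
    have h1 : toS ι U ≤ ⁅V, Y⁆ := by
      rw [← hWX]
      exact toS_mono hU
    have h2 : Y ≤ Subgroup.normalizer ((toS ι U : Subgroup G) : Set G) := by
      rw [← hXY]
      exact hnorm U hinv
    rcases hirr _ h1 h2 with h3 | h3
    · left
      apply hm.toS_injective
      rw [h3, hm.toS_bot]
    · right
      apply hm.toS_injective
      rw [h3, hWX]
  have hH : Hyp ρ A B := by
    refine ⟨?_, ?_, noP_of_pCore hOp hs₁, noP_of_pCore hOp hs₂, hIrr hAm hirr₁, hIrr hBm hirr₂, ?_, ?_, ?_, ?_⟩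
    · rw [hsup]
      exact sn_of_isSubnormal hs₁
    · rw [hsup]
      exact sn_of_isSubnormal hs₂
    · intro h
      apply h12
      rw [← hWA, ← hWB]
      exact toS_mono h
    · intro h
      apply h21
      rw [← hWA, ← hWB]
      exact toS_mono h
    · rw [hcA]; exact hc₁
    · rw [hcB]; exact hc₂
  have hC := main hinj _ A B rfl hH
  refine ⟨?_, ?_, ?_, ?_⟩
  · rw [eq_bot_iff, Subgroup.commutator_le]
    rintro _ ha _ hb
    rw [← hAm] at ha
    rw [← hBm] at hb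
    obtain ⟨a, ha, rfl⟩ := ha
    obtain ⟨b, hb, rfl⟩ := hb
    have := hC.comm a ha b hb
    rw [Subgroup.mem_bot, commutatorElement_eq_one_iff_mul_comm]
    exact congrArg E.subtype this
  · rw [← hAm, ← hBm, ← Subgroup.map_inf _ _ _ E.subtype_injective, hC.inf, Subgroup.map_bot]
  · rw [← hWA, ← hWB, ← hm.toS_inf, hC.com, hm.toS_bot]
  · have h1 := comS_sup (ρ := ρ) A B
    rw [hsup] at h1
    have h2 := hm.toS_comS (⊤ : Subgroup E)
    rw [← MonoidHom.range_eq_map, Subgroup.range_subtype] at h2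
    rw [← h2, h1, hm.toS_sup, hWA, hWB]

end Statement

end Cfsg.Agent.Lib.FFSub
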