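import Mathlib
import Cfsg.Agent.Lib.FFOmega
import Cfsg.Agent.Lib.FFSub

/-!
# Automorphisms of the group generated by transvections, in the linear group.
-/

set_option autoImplicit false
set_option linter.unusedSectionVars false
set_option linter.style.haveILetI false

open scoped commutatorElement
open Cfsg

namespace Cfsg.Agent.Lib.FFCop1

open Cfsg.Agent.Lib.FFMod Cfsg.Agent.Lib.FFBridge Cfsg.Agent.Lib.FFStruct Cfsg.Agent.Lib.PCore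
  Cfsg.Agent.Lib.ThompsonJ Cfsg.Agent.Lib.FFLin Cfsg.Agent.Lib.FFOmega Cfsg.Agent.Lib.FFTv Cfsg.Agent.Lib.FFPair
  Cfsg.Agent.Lib.FFDich Cfsg.Agent.Lib.FFSub Cfsg.Agent.Lib.QuadPair

section Pure

theorem mat2 : ∀ M : Matrix (Fin 2) (Fin 2) (ZMod 2), M.det ≠ 0 → M ^ 6 = 1 := by decide +kernel

theorem mat3 : ∀ M : Matrix (Fin 2) (Fin 2) (ZMod 3), M.det ≠ 0 → M ^ 24 = 1 := by decide +kernel

variable {p : ℕ} [hp : Fact p.Prime]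

/-- A matrix of order a power of a prime `q ≥ 5`, over `ZMod 2` or `ZMod 3`, is trivial. -/
theorem mat_eq_one (h23 : p = 2 ∨ p = 3) {M : Matrix (Fin 2) (Fin 2) (ZMod p)} {q k : ℕ} (hq : q.Prime) (hq2 : q ≠ 2)
    (hq3 : q ≠ 3) (hM : M ^ q ^ k = 1) : M = 1 := by
  have hdet : M.det ≠ 0 := by
    intro h0
    have h1 := congrArg Matrix.det hM
    rw [Matrix.det_pow, h0, Matrix.det_one] at h1
    have hk : q ^ k ≠ 0 := pow_ne_zero _ hq.ne_zero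
    rw [zero_pow hk] at h1
    exact zero_ne_one h1
  have hcop2 : (q ^ k).Coprime 2 :=
    Nat.Coprime.pow_left k ((Nat.coprime_primes hq Nat.prime_two).mpr hq2)
  have hcop3 : (q ^ k).Coprime 3 :=
    Nat.Coprime.pow_left k ((Nat.coprime_primes hq Nat.prime_three).mpr hq3)
  have key : ∀ n : ℕ, n.Coprime (q ^ k) → M ^ n = 1 → M = 1 := by
    intro n hn h1
    have h2 : orderOf M = 1 :=
      Nat.eq_one_of_dvd_coprimes hn (orderOf_dvd_of_pow_eq_one h1) (orderOf_dvd_of_pow_eq_one hM)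
    exact orderOf_eq_one_iff.mp h2
  rcases h23 with rfl | rfl
  · apply key 6
    · exact Nat.Coprime.symm (Nat.Coprime.mul_right hcop2 hcop3)
    · exact mat2 M hdet
  · apply key 24
    · have : (24 : ℕ) = 2 * 2 * 2 * 3 := by norm_num
      rw [this]
      exact Nat.Coprime.symm (Nat.Coprime.mul_right (Nat.Coprime.mul_right (Nat.Coprime.mul_right hcop2 hcop2) hcop2) hcop3)
    · exact mat3 M hdet

end Pure

section PairAut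

variable {p : ℕ} [hp : Fact p.Prime] {Γ : Type*} [Group Γ] {E : Type*} [AddCommGroup E]
  [Module (ZMod p) E] {ρ : Γ →* Module.End (ZMod p) E} {t₁ t₂ : Γ} {u₁ u₂ : E}
  {f₁ f₂ : Module.Dual (ZMod p) E}

/-- The coordinate formula for elements preserving the complement. -/
theorem coord_apply' (h : Pair ρ t₁ t₂ u₁ u₂ f₁ f₂) {g : Γ} (hZ : ∀ z ∈ pZ f₁ f₂, ρ g z ∈ pZ f₁ f₂) (v : E) :
    f₂ (ρ g v) / f₂ u₁ = (f₂ (ρ g u₁) / f₂ u₁) * (f₂ v / f₂ u₁) + (f₂ (ρ g u₂) / f₂ u₁) * (f₁ v / f₁ u₂) ∧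
    f₁ (ρ g v) / f₁ u₂ = (f₁ (ρ g u₁) / f₁ u₂) * (f₂ v / f₂ u₁) + (f₁ (ρ g u₂) / f₁ u₂) * (f₁ v / f₁ u₂) := by
  have h1 := h.decomp v
  set a := f₂ v / f₂ u₁ with ha
  set b := f₁ v / f₁ u₂ with hb
  have h3 : v = a • u₁ + b • u₂ + (v - a • u₁ - b • u₂) := by abel
  have h4 : ρ g v = a • ρ g u₁ + b • ρ g u₂ + ρ g (v - a • u₁ - b • u₂) := by
    conv_lhs => rw [h3]
    rw [map_add, map_add, map_smul, map_smul]
  have h5 := mem_pZ.mp (hZ _ h1)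
  have hα := h.ha
  have hβ := h.hb
  constructor
  · rw [h4, map_add, map_add, map_smul, map_smul, h5.2]
    simp only [smul_eq_mul, add_zero]
    field_simp
  · rw [h4, map_add, map_add, map_smul, map_smul, h5.1]
    simp only [smul_eq_mul, add_zero]
    field_simp

theorem pMat_mul' (h : Pair ρ t₁ t₂ u₁ u₂ f₁ f₂) {g : Γ} (hZ : ∀ z ∈ pZ f₁ f₂, ρ g z ∈ pZ f₁ f₂) (k : Γ) :
    pMat ρ u₁ u₂ f₁ f₂ (g * k) = pMat ρ u₁ u₂ f₁ f₂ g * pMat ρ u₁ u₂ f₁ f₂ k := by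
  obtain ⟨h1, h2⟩ := coord_apply' h hZ (ρ k u₁)
  obtain ⟨h3, h4⟩ := coord_apply' h hZ (ρ k u₂)
  ext i j
  fin_cases i <;> fin_cases j <;> simp [pMat, Matrix.mul_apply, Fin.sum_univ_two]
  · exact h1
  · exact h3
  · exact h2
  · exact h4

theorem pMat_pow' (h : Pair ρ t₁ t₂ u₁ u₂ f₁ f₂) {g : Γ} (hZ : ∀ z ∈ pZ f₁ f₂, ρ g z ∈ pZ f₁ f₂) (n : ℕ) :
    pMat ρ u₁ u₂ f₁ f₂ (g ^ n) = (pMat ρ u₁ u₂ f₁ f₂ g) ^ n := by
  induction n with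
  | zero => simpa using h.pMat_one
  | succ n ih => rw [pow_succ', pMat_mul' h hZ, ih, pow_succ']

/-- An automorphism of the structure of order prime to `6` is trivial on the plane. -/
theorem trivial_on_plane (h : Pair ρ t₁ t₂ u₁ u₂ f₁ f₂) (h23 : p = 2 ∨ p = 3) {g : Γ}
    (hZ : ∀ z ∈ pZ f₁ f₂, ρ g z ∈ pZ f₁ f₂) (hP : ∀ w ∈ pP (p := p) u₁ u₂, ρ g w ∈ pP (p := p) u₁ u₂)
    {q k : ℕ} (hq : q.Prime) (hq2 : q ≠ 2) (hq3 : q ≠ 3) (hg : g ^ q ^ k = 1) {w : E}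
    (hw : w ∈ pP (p := p) u₁ u₂) : ρ g w = w := by
  have h1 : (pMat ρ u₁ u₂ f₁ f₂ g) ^ q ^ k = 1 := by
    rw [← pMat_pow' h hZ, hg, h.pMat_one]
  have h2 := mat_eq_one h23 hq hq2 hq3 h1
  have e00 : f₂ (ρ g u₁) / f₂ u₁ = 1 := congrFun (congrFun h2 0) 0
  have e01 : f₂ (ρ g u₂) / f₂ u₁ = 0 := congrFun (congrFun h2 0) 1
  have e10 : f₁ (ρ g u₁) / f₁ u₂ = 0 := congrFun (congrFun h2 1) 0
  have e11 : f₁ (ρ g u₂) / f₁ u₂ = 1 := congrFun (congrFun h2 1) 1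
  have hu₁ : ρ g u₁ = u₁ := by
    have h3 := h.eq_coord (hP _ (Submodule.subset_span (by simp) : u₁ ∈ pP (p := p) u₁ u₂))
    rw [h3, e00, e10, one_smul, zero_smul, add_zero]
  have hu₂ : ρ g u₂ = u₂ := by
    have h3 := h.eq_coord (hP _ (Submodule.subset_span (by simp) : u₂ ∈ pP (p := p) u₁ u₂))
    rw [h3, e01, e11, one_smul, zero_smul, zero_add]
  obtain ⟨a, b, rfl⟩ := mem_pP.mp hw
  rw [map_add, map_smul, map_smul, hu₁, hu₂]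

end PairAut

section Fam

variable {p : ℕ} [hp : Fact p.Prime] {E : Type*} [AddCommGroup E] [Module (ZMod p) E] [Finite E]
  (Γ₀ : Subgroup (GLE p E))

/-- The `p'`-core in the linear group. -/
noncomputable def kG : Subgroup (GLE p E) := (pPrimeCore p Γ₀).map Γ₀.subtype

/-- Transvections of a subgroup of the linear group. -/
def IsT (ŝ : GLE p E) : Prop := ŝ ∈ Γ₀ ∧ IsTv (coeE p E) ŝ

variable {Γ₀}

theorem isT_of_isTv {s : Γ₀} (hs : IsTv (lin Γ₀) s) : IsT Γ₀ (s : GLE p E) := by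
  obtain ⟨u, f, h⟩ := hs
  exact ⟨s.2, u, f, h.app, h.fu, h.u0, h.f0⟩

theorem isTv_of_isT {ŝ : GLE p E} (hs : IsT Γ₀ ŝ) : IsTv (lin Γ₀) (⟨ŝ, hs.1⟩ : Γ₀) := by
  obtain ⟨hm, u, f, h⟩ := hs
  exact ⟨u, f, h.app, h.fu, h.u0, h.f0⟩

theorem ee_map (s : Γ₀) : (ee (pPrimeCore p Γ₀) s).map Γ₀.subtype = ee (kG Γ₀) (s : GLE p E) := by
  unfold ee
  rw [MonoidHom.map_closure]
  congr 1
  ext x
  constructor
  · rintro ⟨_, ⟨y, hy, rfl⟩, rfl⟩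
    exact ⟨y, ⟨y, hy, rfl⟩, rfl⟩
  · rintro ⟨_, ⟨y, hy, rfl⟩, rfl⟩
    exact ⟨_, ⟨y, hy, rfl⟩, rfl⟩

theorem fac_map {L : Subgroup Γ₀} (h : Fac (lin Γ₀) L) : Fac (coeE p E) (L.map Γ₀.subtype) := by
  refine ⟨h.two_three, ?_, ?_, ?_, ?_, ?_⟩
  · obtain ⟨e⟩ := h.iso
    exact ⟨(Subgroup.equivMapOfInjective L Γ₀.subtype Γ₀.subtype_injective).symm.trans e⟩
  · rw [← comS_lin]
    exact h.card
  · rw [← comS_lin, ← fixS_lin]
    exact h.inf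
  · rw [← comS_lin, ← fixS_lin]
    exact h.sup
  · rintro _ ⟨g, hg, rfl⟩ hfix
    rw [← comS_lin] at hfix
    rw [h.faith g hg hfix]
    rfl

variable (hff : FFH (p := p) (lin Γ₀))
include hff

theorem fac_kG {ŝ : GLE p E} (hs : IsT Γ₀ ŝ) : Fac (coeE p E) (ee (kG Γ₀) ŝ) := by
  have h1 := fac_map (fac_ee hff.inj (card_pPrimeCore_coprime (G := Γ₀) p) hff.cen (isTv_of_isT hs))
  rw [ee_map] at h1
  exact h1

omit hff in
theorem ee_le_of_mem {ŝ : GLE p E} (hs : ŝ ∈ Γ₀) : ee (kG Γ₀) ŝ ≤ Γ₀ := by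
  have h1 : ee (kG Γ₀) ŝ = _ := (ee_map (⟨ŝ, hs⟩ : Γ₀)).symm
  rw [h1]
  exact Subgroup.map_subtype_le _

theorem dich_kG {ŝ ŝ' : GLE p E} (hs : IsT Γ₀ ŝ) (hs' : IsT Γ₀ ŝ') :
    ee (kG Γ₀) ŝ = ee (kG Γ₀) ŝ' ∨
      (comS (coeE p E) (ee (kG Γ₀) ŝ') ≤ fixS (coeE p E) (ee (kG Γ₀) ŝ) ∧
        comS (coeE p E) (ee (kG Γ₀) ŝ) ≤ fixS (coeE p E) (ee (kG Γ₀) ŝ')) := by
  have h1 := dich_ee hff.inj (card_pPrimeCore_coprime (G := Γ₀) p) hff.cen (isTv_of_isT hs) (isTv_of_isT hs')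
  rcases h1 with h1 | ⟨h1, h2⟩
  · left
    have h2 := congrArg (Subgroup.map Γ₀.subtype) h1
    rwa [ee_map, ee_map] at h2
  · right
    rw [← ee_map (⟨ŝ, hs.1⟩ : Γ₀), ← ee_map (⟨ŝ', hs'.1⟩ : Γ₀), ← comS_lin, ← comS_lin, ← fixS_lin, ← fixS_lin]
    exact ⟨h1, h2⟩

/-- Every transvection is the first member of a pair, which generates its factor. -/
theorem exists_pair {ŝ : GLE p E} (hs : IsT Γ₀ ŝ) :
    ∃ (t₂ : GLE p E) (u₁ u₂ : E) (f₁ f₂ : Module.Dual (ZMod p) E),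
      Pair (coeE p E) ŝ t₂ u₁ u₂ f₁ f₂ ∧ ee (kG Γ₀) ŝ = pL ŝ t₂ := by
  obtain ⟨y, hy, hne⟩ := exists_move hff.inj (card_pPrimeCore_coprime (G := Γ₀) p) hff.cen (isTv_of_isT hs)
  obtain ⟨u, f, hT⟩ := isTv_of_isT hs
  have hee := ee_eq hff.inj (card_pPrimeCore_coprime (G := Γ₀) p) hT hy hne
  have hP := pair_of_ne hff.inj (card_pPrimeCore_coprime (G := Γ₀) p) hT (hT.conj y)
    (conj_mod hff.inj (card_pPrimeCore_coprime (G := Γ₀) p) hy) (Ne.symm hne)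
  refine ⟨((y * ⟨ŝ, hs.1⟩ * y⁻¹ : Γ₀) : GLE p E), u, (lin Γ₀ y) u, f, f ∘ₗ (lin Γ₀ y⁻¹ : E →ₗ[ZMod p] E), ?_, ?_⟩
  · exact ⟨⟨hP.h₁.app, hP.h₁.fu, hP.h₁.u0, hP.h₁.f0⟩, ⟨hP.h₂.app, hP.h₂.fu, hP.h₂.u0, hP.h₂.f0⟩, hP.ha, hP.hb⟩
  · have h1 : ee (kG Γ₀) ŝ = _ := (ee_map (⟨ŝ, hs.1⟩ : Γ₀)).symm
    rw [h1, hee]
    unfold pL
    rw [MonoidHom.map_closure, Set.image_pair]
    rfl

end Fam

section Conj

variable {p : ℕ} [hp : Fact p.Prime] {E : Type*} [AddCommGroup E] [Module (ZMod p) E] [Finite E]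
  {Γ₀ : Subgroup (GLE p E)}

theorem rho_conj_app (x ŝ : GLE p E) (v : E) :
    coeE p E (x * ŝ * x⁻¹) v = coeE p E x (coeE p E ŝ (coeE p E x⁻¹ v)) := by
  rw [map_mul, map_mul]
  rfl

theorem kG_conj {x : GLE p E} (hx : x ∈ Subgroup.normalizer (Γ₀ : Set (GLE p E))) {y : GLE p E} (hy : y ∈ kG Γ₀) :
    x * y * x⁻¹ ∈ kG Γ₀ :=
  Cfsg.Agent.Lib.PResid.conj_mem_map_of_characteristic inferInstance hx hy

theorem isT_conj {x : GLE p E} (hx : x ∈ Subgroup.normalizer (Γ₀ : Set (GLE p E))) {ŝ : GLE p E} (hs : IsT Γ₀ ŝ) :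
    IsT Γ₀ (x * ŝ * x⁻¹) := by
  obtain ⟨hm, u, f, hT⟩ := hs
  refine ⟨(Subgroup.mem_normalizer_iff.mp hx ŝ).mp hm, ?_⟩
  exact ⟨_, _, hT.conj x⟩

theorem cj_ee {x : GLE p E} (hx : x ∈ Subgroup.normalizer (Γ₀ : Set (GLE p E))) (ŝ : GLE p E) :
    cj x (ee (kG Γ₀) ŝ) = ee (kG Γ₀) (x * ŝ * x⁻¹) := by
  unfold cj ee
  rw [MonoidHom.map_closure]
  congr 1
  ext g
  constructor
  · rintro ⟨_, ⟨y, hy, rfl⟩, rfl⟩
    refine ⟨x * y * x⁻¹, kG_conj hx hy, ?_⟩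
    show x * (y * ŝ * y⁻¹) * x⁻¹ = _
    group
  · rintro ⟨y, hy, rfl⟩
    have hxinv : x⁻¹ ∈ Subgroup.normalizer (Γ₀ : Set (GLE p E)) := Subgroup.inv_mem _ hx
    have h1 := kG_conj hxinv hy
    refine ⟨_, ⟨_, h1, rfl⟩, ?_⟩
    show x * (x⁻¹ * y * x⁻¹⁻¹ * ŝ * (x⁻¹ * y * x⁻¹⁻¹)⁻¹) * x⁻¹ = _
    group

variable (hff : FFH (p := p) (lin Γ₀))
include hff

/-- Stabilizers of factors act trivially on the plane and centralize the factor. -/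
theorem stab_trivial {ŝ : GLE p E} (hs : IsT Γ₀ ŝ) {x : GLE p E}
    (hstab : cj x (ee (kG Γ₀) ŝ) = ee (kG Γ₀) ŝ) {q k : ℕ} (hq : q.Prime) (hq2 : q ≠ 2) (hq3 : q ≠ 3)
    (hxq : x ^ q ^ k = 1) :
    (∀ w ∈ comS (coeE p E) (ee (kG Γ₀) ŝ), coeE p E x w = w) ∧
      ∀ g ∈ ee (kG Γ₀) ŝ, x * g * x⁻¹ = g := by
  have hFac := fac_kG hff hs
  set L := ee (kG Γ₀) ŝ with hL
  obtain ⟨t₂, u₁, u₂, f₁, f₂, hP, hLeq⟩ := exists_pair hff hs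
  have hcom : comS (coeE p E) L = pP (p := p) u₁ u₂ := by rw [hL, hLeq]; exact hP.comS_eq
  have hfix : fixS (coeE p E) L = pZ f₁ f₂ := by rw [hL, hLeq]; exact hP.fixS_eq
  have hxL : ∀ g ∈ L, x * g * x⁻¹ ∈ L := by
    intro g hg
    have h1 : x * g * x⁻¹ ∈ cj x L := conj_mem_cj hg
    rwa [hstab] at h1
  have hxL' : ∀ g ∈ L, x⁻¹ * g * x⁻¹⁻¹ ∈ L := by
    intro g hg
    have h1 : g ∈ cj x L := by rwa [hstab]
    have h2 := mem_cj.mp h1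
    simpa using h2
  have hZ : ∀ z ∈ pZ f₁ f₂, coeE p E x z ∈ pZ f₁ f₂ := by
    intro z hz
    rw [← hfix] at hz ⊢
    intro g hg
    have h1 := hz _ (hxL' g hg)
    rw [inv_inv] at h1
    have h2 : coeE p E g (coeE p E x z) = coeE p E x (coeE p E (x⁻¹ * g * x) z) := by
      rw [map_mul, map_mul, Module.End.mul_apply, Module.End.mul_apply, rho_rho_inv]
    rw [h2, h1]
  have hPP : ∀ w ∈ pP (p := p) u₁ u₂, coeE p E x w ∈ pP (p := p) u₁ u₂ := by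
    intro w hw
    rw [← hcom] at hw ⊢
    have h1 := rho_mem_comS_cj (ρ := coeE p E) (g := x) hw
    rwa [hstab] at h1
  have htriv : ∀ w ∈ comS (coeE p E) L, coeE p E x w = w := by
    intro w hw
    rw [hcom] at hw
    exact trivial_on_plane hP hFac.two_three hZ hPP hq hq2 hq3 hxq hw
  refine ⟨htriv, ?_⟩
  intro g hg
  have h1 : (x * g * x⁻¹) * g⁻¹ = 1 := by
    apply hFac.faith _ (L.mul_mem (hxL g hg) (L.inv_mem hg))
    intro w hw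
    have h2 : coeE p E g⁻¹ w ∈ comS (coeE p E) L := map_comS L (L.inv_mem hg) hw
    have h3 : coeE p E x⁻¹ (coeE p E g⁻¹ w) = coeE p E g⁻¹ w := by
      have := htriv _ h2
      have h4 := rho_inv_rho (ρ := coeE p E) x (coeE p E g⁻¹ w)
      rwa [this] at h4
    have h5 : coeE p E x (coeE p E g (coeE p E g⁻¹ w)) = coeE p E g (coeE p E g⁻¹ w) := by
      rw [rho_rho_inv]
      exact htriv w hw
    rw [map_mul, map_mul, map_mul, Module.End.mul_apply, Module.End.mul_apply, Module.End.mul_apply, h3, h5,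
      rho_rho_inv]
  rw [mul_inv_eq_one] at h1
  exact h1

end Conj

end Cfsg.Agent.Lib.FFCop1
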