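import Mathlib
import Cfsg.Agent.Lib.FFCop1

/-!
# Norm arguments for a group permuting commuting factors.
-/

set_option autoImplicit false
set_option linter.unusedSectionVars false
set_option linter.style.haveILetI false

open scoped commutatorElement
open Cfsg

namespace Cfsg.Agent.Lib.FFCop2

open Cfsg.Agent.Lib.FFMod Cfsg.Agent.Lib.FFBridge Cfsg.Agent.Lib.FFStruct Cfsg.Agent.Lib.PCore
  Cfsg.Agent.Lib.ThompsonJ Cfsg.Agent.Lib.FFLin Cfsg.Agent.Lib.FFOmega Cfsg.Agent.Lib.FFTv Cfsg.Agent.Lib.FFPair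
  Cfsg.Agent.Lib.FFDich Cfsg.Agent.Lib.FFSub Cfsg.Agent.Lib.QuadPair Cfsg.Agent.Lib.FFCop1

section General

/-- The product of a commuting finite set is invariant under automorphisms permuting it. -/
theorem noncommProd_invariant {G : Type*} [Group G] [DecidableEq G] (F : Finset G)
    (comm : (F : Set G).Pairwise (Function.onFun Commute (id : G → G))) (φ : G ≃* G) (hφ : ∀ f ∈ F, φ f ∈ F) :
    φ (F.noncommProd id comm) = F.noncommProd id comm := by
  rw [Finset.map_noncommProd]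
  have hval : F.val.map (fun i => φ (id i)) = F.val.map id := by
    have h1 : F.map φ.toEquiv.toEmbedding = F := by
      apply Finset.eq_of_subset_of_card_le
      · intro x hx
        obtain ⟨f, hf, rfl⟩ := Finset.mem_map.mp hx
        exact hφ f hf
      · rw [Finset.card_map]
    have h2 := congrArg Finset.val h1
    rw [Finset.map_val] at h2
    simpa using h2
  unfold Finset.noncommProd
  have key : ∀ (s t : Multiset G) (_ : s = t) (cs) (ct),
      Multiset.noncommProd s cs = Multiset.noncommProd t ct := by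
    intro s t h cs ct
    subst h
    rfl
  exact key _ _ hval _ _

/-- The restriction homomorphism onto a factor acting faithfully on a submodule. -/
theorem exists_restrict_hom {p : ℕ} [hp : Fact p.Prime] {E : Type*} [AddCommGroup E] [Module (ZMod p) E]
    {Γ : Type*} [Group Γ] {ρ : Γ →* Module.End (ZMod p) E} {L D : Subgroup Γ} {P : Submodule (ZMod p) E}
    (hLP : ∀ g ∈ L, ∀ w ∈ P, ρ g w ∈ P) (hfaith : ∀ g ∈ L, (∀ w ∈ P, ρ g w = w) → g = 1)
    (hD : ∀ g ∈ D, ∃ l ∈ L, ∀ w ∈ P, ρ g w = ρ l w) (hsurj : ∀ l ∈ L, ∃ g ∈ D, ∀ w ∈ P, ρ g w = ρ l w) :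
    ∃ f : D →* L, Function.Surjective f ∧ ∀ g : D, f g = 1 ↔ ∀ w ∈ P, ρ g w = w := by
  have huniq : ∀ l ∈ L, ∀ l' ∈ L, (∀ w ∈ P, ρ l w = ρ l' w) → l = l' := by
    intro l hl l' hl' heq
    have h1 : l'⁻¹ * l = 1 := by
      apply hfaith _ (L.mul_mem (L.inv_mem hl') hl)
      intro w hw
      rw [map_mul, Module.End.mul_apply, heq w hw, rho_inv_rho]
    rw [inv_mul_eq_one] at h1
    exact h1.symm
  choose l hl hl' using fun g : D => hD g g.2
  let f : D →* L := MonoidHom.mk' (fun g => ⟨l g, hl g⟩) (by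
    intro a b
    apply Subtype.ext
    apply huniq _ (hl _) _ (L.mul_mem (hl a) (hl b))
    intro w hw
    rw [← hl' (a * b) w hw]
    show ρ ((a : Γ) * b) w = ρ (l a * l b) w
    rw [map_mul, map_mul, Module.End.mul_apply, Module.End.mul_apply, hl' b w hw, hl' a _ (hLP _ (hl b) w hw)])
  refine ⟨f, ?_, ?_⟩
  · rintro ⟨y, hy⟩
    obtain ⟨g, hg, hgy⟩ := hsurj y hy
    refine ⟨⟨g, hg⟩, ?_⟩
    apply Subtype.ext
    apply huniq _ (hl _) _ hy
    intro w hw
    rw [← hgy w hw]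
    exact (hl' ⟨g, hg⟩ w hw).symm
  · intro g
    constructor
    · intro h1 w hw
      have h2 : l g = 1 := congrArg Subtype.val h1
      rw [hl' g w hw, h2, map_one]
      rfl
    · intro h1
      apply Subtype.ext
      apply hfaith _ (hl g)
      intro w hw
      rw [← hl' g w hw]
      exact h1 w hw

end General

variable {p : ℕ} [hp : Fact p.Prime] {E : Type*} [AddCommGroup E] [Module (ZMod p) E] [Finite E]

/-- The data of an orbit of factors under a group of linear maps. -/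
structure Orb (Y L : Subgroup (GLE p E)) : Prop where
  fix : ∀ x ∈ Y, cj x L = L → ∀ w ∈ comS (coeE p E) L, coeE p E x w = w
  comm : ∀ x ∈ Y, cj x L = L → ∀ g ∈ L, x * g * x⁻¹ = g
  cross : ∀ x ∈ Y, ∀ x' ∈ Y, cj x L = cj x' L ∨
    (comS (coeE p E) (cj x' L) ≤ fixS (coeE p E) (cj x L) ∧ comS (coeE p E) (cj x L) ≤ fixS (coeE p E) (cj x' L))
  inf : ∀ x ∈ Y, comS (coeE p E) (cj x L) ⊓ fixS (coeE p E) (cj x L) = ⊥
  sup : ∀ x ∈ Y, comS (coeE p E) (cj x L) ⊔ fixS (coeE p E) (cj x L) = ⊤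

variable {Y L : Subgroup (GLE p E)}

theorem coeE_inj : Function.Injective (coeE p E) := fun _ _ h => Units.ext h

theorem Orb.commute (h : Orb Y L) {x x' : GLE p E} (hx : x ∈ Y) (hx' : x' ∈ Y) (hne : cj x L ≠ cj x' L)
    {g g' : GLE p E} (hg : g ∈ cj x L) (hg' : g' ∈ cj x' L) : g * g' = g' * g := by
  rcases h.cross x hx x' hx' with h1 | ⟨h1, h2⟩
  · exact absurd h1 hne
  · exact comm_of_cross coeE_inj h2 h1 hg hg'

/-- Relation to the base point. -/
theorem Orb.base (h : Orb Y L) {x : GLE p E} (hx : x ∈ Y) (hne : cj x L ≠ L) :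
    comS (coeE p E) (cj x L) ≤ fixS (coeE p E) L ∧ comS (coeE p E) L ≤ fixS (coeE p E) (cj x L) := by
  rcases h.cross 1 Y.one_mem x hx with h1 | ⟨h1, h2⟩
  · rw [cj_one] at h1
    exact absurd h1.symm hne
  · rw [cj_one] at h1 h2
    exact ⟨h1, h2⟩

/-- The norm of an element. -/
theorem Orb.group_norm (h : Orb Y L) {e : GLE p E} (he : e ∈ L) :
    ∃ d y₀ : GLE p E, d = e * y₀ ∧ (∀ x ∈ Y, x * d * x⁻¹ = d) ∧ (∀ g ∈ L, g * y₀ = y₀ * g) ∧
      (∀ w ∈ comS (coeE p E) L, coeE p E y₀ w = w) ∧ d ∈ ⨆ x : Y, cj (x : GLE p E) L := by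
  classical
  haveI : Fintype Y := Fintype.ofFinite _
  set F : Finset (GLE p E) := Finset.univ.image (fun x : Y => (x : GLE p E) * e * (x : GLE p E)⁻¹) with hF
  have hmem : ∀ f, f ∈ F ↔ ∃ x ∈ Y, f = x * e * x⁻¹ := by
    intro f
    rw [hF, Finset.mem_image]
    constructor
    · rintro ⟨x, _, rfl⟩
      exact ⟨x, x.2, rfl⟩
    · rintro ⟨x, hx, rfl⟩
      exact ⟨⟨x, hx⟩, Finset.mem_univ _, rfl⟩
  have hstab : ∀ x ∈ Y, ∀ x' ∈ Y, cj x L = cj x' L → x * e * x⁻¹ = x' * e * x'⁻¹ := by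
    intro x hx x' hx' heq
    have h1 : cj (x'⁻¹ * x) L = L := by
      rw [← cj_cj, heq, cj_inv_cj]
    have h2 := h.comm _ (Y.mul_mem (Y.inv_mem hx') hx) h1 e he
    have h3 : x * e * x⁻¹ = x' * ((x'⁻¹ * x) * e * (x'⁻¹ * x)⁻¹) * x'⁻¹ := by group
    rw [h3, h2]
  have hcomm : (F : Set (GLE p E)).Pairwise (Function.onFun Commute (id : GLE p E → GLE p E)) := by
    intro f hf f' hf' hne
    obtain ⟨x, hx, rfl⟩ := (hmem _).mp hf
    obtain ⟨x', hx', rfl⟩ := (hmem _).mp hf'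
    have hne' : cj x L ≠ cj x' L := fun heq => hne (hstab x hx x' hx' heq)
    exact h.commute hx hx' hne' (conj_mem_cj he) (conj_mem_cj he)
  have heF : e ∈ F := (hmem e).mpr ⟨1, Y.one_mem, by simp⟩
  have hcomm' : ((F.erase e : Finset (GLE p E)) : Set (GLE p E)).Pairwise (Function.onFun Commute (id : GLE p E → GLE p E)) :=
    hcomm.mono (by simp only [Finset.coe_erase]; exact Set.sdiff_subset)
  have herase : ∀ f ∈ F.erase e, ∃ x ∈ Y, cj x L ≠ L ∧ f ∈ cj x L := by
    intro f hf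
    have hf1 := Finset.ne_of_mem_erase hf
    obtain ⟨x, hx, rfl⟩ := (hmem _).mp (Finset.mem_of_mem_erase hf)
    refine ⟨x, hx, ?_, conj_mem_cj he⟩
    intro heq
    exact hf1 (h.comm x hx heq e he)
  refine ⟨F.noncommProd id hcomm, (F.erase e).noncommProd id hcomm', ?_, ?_, ?_, ?_, ?_⟩
  · exact (Finset.mul_noncommProd_erase F heF id hcomm).symm
  · intro y hy
    refine noncommProd_invariant F hcomm (MulAut.conj y) ?_
    intro f hf
    obtain ⟨x, hx, rfl⟩ := (hmem _).mp hf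
    refine (hmem _).mpr ⟨y * x, Y.mul_mem hy hx, ?_⟩
    show y * (x * e * x⁻¹) * y⁻¹ = _
    group
  · intro g hg
    have hmemC : (F.erase e).noncommProd id hcomm' ∈ Subgroup.centralizer (L : Set (GLE p E)) := by
      apply Subgroup.noncommProd_mem
      intro f hf
      obtain ⟨x, hx, hne, hfx⟩ := herase f hf
      rw [Subgroup.mem_centralizer_iff]
      intro g hg
      have h1 : g ∈ cj 1 L := by rwa [cj_one]
      apply h.commute Y.one_mem hx (by rw [cj_one]; exact hne.symm) h1 hfx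
    exact Subgroup.mem_centralizer_iff.mp hmemC g hg
  · have hmemC : (F.erase e).noncommProd id hcomm' ∈ cenP (coeE p E) (comS (coeE p E) L) := by
      apply Subgroup.noncommProd_mem
      intro f hf
      obtain ⟨x, hx, hne, hfx⟩ := herase f hf
      intro w hw
      exact (h.base hx hne).2 hw f hfx
    exact hmemC
  · apply Subgroup.noncommProd_mem
    intro f hf
    obtain ⟨x, hx, rfl⟩ := (hmem _).mp hf
    exact (le_iSup (fun x : Y => cj (x : GLE p E) L) ⟨x, hx⟩) (conj_mem_cj he)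

/-- The norm of a vector. -/
theorem Orb.module_norm (h : Orb Y L) {w : E} (hw : w ∈ comS (coeE p E) L) :
    ∃ w₀ z : E, w₀ = w + z ∧ (∀ x ∈ Y, coeE p E x w₀ = w₀) ∧ z ∈ fixS (coeE p E) L ∧
      w₀ ∈ ⨆ x : Y, comS (coeE p E) (cj (x : GLE p E) L) := by
  classical
  haveI : Fintype Y := Fintype.ofFinite _
  set F : Finset E := Finset.univ.image (fun x : Y => coeE p E x w) with hF
  have hmem : ∀ f, f ∈ F ↔ ∃ x ∈ Y, f = coeE p E x w := by
    intro f
    rw [hF, Finset.mem_image]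
    constructor
    · rintro ⟨x, _, rfl⟩
      exact ⟨x, x.2, rfl⟩
    · rintro ⟨x, hx, rfl⟩
      exact ⟨⟨x, hx⟩, Finset.mem_univ _, rfl⟩
  have hwF : w ∈ F := (hmem w).mpr ⟨1, Y.one_mem, by simp⟩
  refine ⟨∑ v ∈ F, v, ∑ v ∈ F.erase w, v, ?_, ?_, ?_, ?_⟩
  · exact (Finset.add_sum_erase F (fun v => v) hwF).symm
  · intro y hy
    rw [map_sum]
    have hinj : Function.Injective (coeE p E y) := rho_inj y
    have h1 : F.map ⟨coeE p E y, hinj⟩ = F := by
      apply Finset.eq_of_subset_of_card_le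
      · intro v hv
        obtain ⟨f, hf, rfl⟩ := Finset.mem_map.mp hv
        obtain ⟨x, hx, rfl⟩ := (hmem _).mp hf
        refine (hmem _).mpr ⟨y * x, Y.mul_mem hy hx, ?_⟩
        simp
      · rw [Finset.card_map]
    conv_rhs => rw [← h1, Finset.sum_map]
    rfl
  · apply Submodule.sum_mem
    intro v hv
    have hv1 := Finset.ne_of_mem_erase hv
    obtain ⟨x, hx, rfl⟩ := (hmem _).mp (Finset.mem_of_mem_erase hv)
    have hne : cj x L ≠ L := fun heq => hv1 (h.fix x hx heq w hw)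
    exact (h.base hx hne).1 (rho_mem_comS_cj hw)
  · apply Submodule.sum_mem
    intro v hv
    obtain ⟨x, hx, rfl⟩ := (hmem _).mp hv
    exact (le_iSup (fun x : Y => comS (coeE p E) (cj (x : GLE p E) L)) ⟨x, hx⟩) (rho_mem_comS_cj hw)

/-- A vector fixed by all the factors and in their commutator vanishes. -/
theorem Orb.eq_zero (h : Orb Y L) {v : E} (h1 : v ∈ ⨆ x : Y, comS (coeE p E) (cj (x : GLE p E) L))
    (h2 : ∀ x ∈ Y, v ∈ fixS (coeE p E) (cj x L)) : v = 0 := by
  let I := {A : Subgroup (GLE p E) // ∃ x ∈ Y, A = cj x L}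
  let P : I → Submodule (ZMod p) E := fun i => comS (coeE p E) i.1
  let Z : I → Submodule (ZMod p) E := fun i => fixS (coeE p E) i.1
  have hinf : ∀ i, P i ⊓ Z i = ⊥ := by
    rintro ⟨_, x, hx, rfl⟩
    exact h.inf x hx
  have hsup : ∀ i, P i ⊔ Z i = ⊤ := by
    rintro ⟨_, x, hx, rfl⟩
    exact h.sup x hx
  have hPZ : ∀ i j, i ≠ j → P j ≤ Z i := by
    rintro ⟨_, x, hx, rfl⟩ ⟨_, x', hx', rfl⟩ hij
    rcases h.cross x hx x' hx' with h3 | ⟨h3, _⟩
    · exact absurd (Subtype.ext h3) hij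
    · exact h3
  have hd := (module_decomp P Z hinf hsup hPZ).1 none
  rw [Submodule.disjoint_def] at hd
  apply hd
  · show v ∈ ⨅ i, Z i
    rw [Submodule.mem_iInf]
    rintro ⟨_, x, hx, rfl⟩
    exact h2 x hx
  · refine (iSup_le ?_ : (⨆ x : Y, comS (coeE p E) (cj (x : GLE p E) L)) ≤ _) h1
    intro x
    have hle : P ⟨_, x, x.2, rfl⟩ ≤ ⨆ j, ⨆ (_ : j ≠ none), Option.elim j (⨅ i, Z i) P :=
      le_iSup₂_of_le (some ⟨_, x, x.2, rfl⟩) (by simp) le_rfl
    exact hle

theorem mem_fixS_cj {x : GLE p E} {v : E} (hx : coeE p E x v = v) (hv : v ∈ fixS (coeE p E) L) :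
    v ∈ fixS (coeE p E) (cj x L) := by
  intro g hg
  have h1 := mem_cj.mp hg
  have h2 := hv _ h1
  have h3 : coeE p E x⁻¹ v = v := by
    have h4 := rho_inv_rho (ρ := coeE p E) x v
    rwa [hx] at h4
  rw [map_mul, map_mul, Module.End.mul_apply, Module.End.mul_apply, hx] at h2
  have h5 := congrArg (coeE p E x) h2
  rwa [rho_rho_inv, hx] at h5

/-- The fixed points in the commutator module. -/
def wN (Y L : Subgroup (GLE p E)) : Submodule (ZMod p) E :=
  (⨆ x : Y, comS (coeE p E) (cj (x : GLE p E) L)) ⊓ fixS (coeE p E) Y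

theorem Orb.card_wN (h : Orb Y L) : Nat.card (wN Y L) = Nat.card (comS (coeE p E) L) := by
  have hsup1 : comS (coeE p E) L ⊔ fixS (coeE p E) L = ⊤ := by
    have := h.sup 1 Y.one_mem
    rwa [cj_one] at this
  have hinf1 : comS (coeE p E) L ⊓ fixS (coeE p E) L = ⊥ := by
    have := h.inf 1 Y.one_mem
    rwa [cj_one] at this
  have hdec : ∀ a : wN Y L, ∃ q : comS (coeE p E) L, ∃ z ∈ fixS (coeE p E) L, (q : E) + z = a := by
    intro a
    have h1 : (a : E) ∈ comS (coeE p E) L ⊔ fixS (coeE p E) L := by rw [hsup1]; trivial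
    obtain ⟨q, hq, z, hz, hqz⟩ := Submodule.mem_sup.mp h1
    exact ⟨⟨q, hq⟩, z, hz, hqz⟩
  choose f z hz hfz using hdec
  have huniq : ∀ (q q' z z' : E), q ∈ comS (coeE p E) L → q' ∈ comS (coeE p E) L → z ∈ fixS (coeE p E) L →
      z' ∈ fixS (coeE p E) L → q + z = q' + z' → q = q' := by
    intro q q' z z' hq hq' hz hz' heq
    have h1 : q - q' = z' - z := by
      rw [sub_eq_sub_iff_add_eq_add, heq, add_comm]
    have h2 : q - q' ∈ comS (coeE p E) L ⊓ fixS (coeE p E) L :=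
      ⟨Submodule.sub_mem _ hq hq', by rw [h1]; exact Submodule.sub_mem _ hz' hz⟩
    rw [hinf1] at h2
    exact sub_eq_zero.mp ((Submodule.mem_bot _).mp h2)
  apply Nat.card_eq_of_bijective f
  constructor
  · intro a b hab
    have h1 : ((a : E) - b) ∈ fixS (coeE p E) L := by
      rw [← hfz a, ← hfz b, hab]
      have h2 : ((f b : E) + z a - ((f b : E) + z b)) = z a - z b := by abel
      rw [h2]
      exact Submodule.sub_mem _ (hz a) (hz b)
    have h3 : (a : E) - b ∈ wN Y L := Submodule.sub_mem _ a.2 b.2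
    have h4 : (a : E) - b = 0 := by
      apply h.eq_zero h3.1
      intro x hx
      exact mem_fixS_cj (h3.2 x hx) h1
    exact Subtype.ext (sub_eq_zero.mp h4)
  · rintro ⟨q, hq⟩
    obtain ⟨w₀, z₀, hw₀, hfix, hz₀, hmem⟩ := h.module_norm hq
    refine ⟨⟨w₀, hmem, hfix⟩, ?_⟩
    apply Subtype.ext
    have hk := hfz ⟨w₀, hmem, hfix⟩
    apply huniq _ _ _ _ (f _).2 hq (hz _) hz₀
    rw [hk]
    exact hw₀

/-- Elements of the group generated by the orbit act on the base plane as its own elements. -/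
theorem Orb.act_form (h : Orb Y L) {g : GLE p E} (hg : g ∈ ⨆ x : Y, cj (x : GLE p E) L) :
    (∃ l ∈ L, ∀ w ∈ comS (coeE p E) L, coeE p E g w = coeE p E l w) ∧
      ∀ z ∈ fixS (coeE p E) L, coeE p E g z ∈ fixS (coeE p E) L := by
  refine Subgroup.iSup_induction (fun x : Y => cj (x : GLE p E) L) (C := fun g =>
    (∃ l ∈ L, ∀ w ∈ comS (coeE p E) L, coeE p E g w = coeE p E l w) ∧
      ∀ z ∈ fixS (coeE p E) L, coeE p E g z ∈ fixS (coeE p E) L) hg ?_ ?_ ?_
  · intro x g hg
    by_cases hx : cj (x : GLE p E) L = L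
    · rw [hx] at hg
      exact ⟨⟨g, hg, fun _ _ => rfl⟩, fun z hz => by rw [hz g hg]; exact hz⟩
    · obtain ⟨h1, h2⟩ := h.base x.2 hx
      refine ⟨⟨1, L.one_mem, ?_⟩, ?_⟩
      · intro w hw
        rw [map_one, h2 hw g hg]
        rfl
      · intro z hz
        have h3 := h1 (sub_mem_comS (coeE p E) hg z)
        have h4 := Submodule.add_mem _ h3 hz
        rwa [sub_add_cancel] at h4
  · exact ⟨⟨1, L.one_mem, fun _ _ => rfl⟩, fun z hz => by rw [map_one]; exact hz⟩
  · intro a b ha hb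
    obtain ⟨⟨l₁, hl₁, h1⟩, h2⟩ := ha
    obtain ⟨⟨l₂, hl₂, h3⟩, h4⟩ := hb
    refine ⟨⟨l₁ * l₂, L.mul_mem hl₁ hl₂, ?_⟩, ?_⟩
    · intro w hw
      rw [map_mul, map_mul, Module.End.mul_apply, Module.End.mul_apply, h3 w hw, h1 _ (map_comS L hl₂ hw)]
    · intro z hz
      rw [map_mul, Module.End.mul_apply]
      exact h2 _ (h4 z hz)

/-- Elements of the group generated by the orbit move vectors by elements of the commutator module. -/
theorem sub_mem_iSup_comS {g : GLE p E} (hg : g ∈ ⨆ x : Y, cj (x : GLE p E) L) (v : E) :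
    coeE p E g v - v ∈ ⨆ x : Y, comS (coeE p E) (cj (x : GLE p E) L) := by
  revert v
  refine Subgroup.iSup_induction (fun x : Y => cj (x : GLE p E) L) (C := fun g =>
    ∀ v, coeE p E g v - v ∈ ⨆ x : Y, comS (coeE p E) (cj (x : GLE p E) L)) hg ?_ ?_ ?_
  · intro x g hg v
    exact (le_iSup (fun x : Y => comS (coeE p E) (cj (x : GLE p E) L)) x) (sub_mem_comS (coeE p E) hg v)
  · intro v
    rw [map_one]
    simp
  · intro a b ha hb v
    have h1 : coeE p E (a * b) v - v = (coeE p E a (coeE p E b v) - coeE p E b v) + (coeE p E b v - v) := by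
      rw [map_mul, Module.End.mul_apply]
      abel
    rw [h1]
    exact Submodule.add_mem _ (ha _) (hb _)

/-- Elements commuting with `Y` and generated by the orbit preserve the fixed points. -/
theorem map_wN {g : GLE p E} (hg : g ∈ ⨆ x : Y, cj (x : GLE p E) L) (hc : ∀ x ∈ Y, x * g = g * x) {v : E}
    (hv : v ∈ wN Y L) : coeE p E g v ∈ wN Y L := by
  refine ⟨?_, ?_⟩
  · have h1 := Submodule.add_mem _ (sub_mem_iSup_comS hg v) hv.1
    rwa [sub_add_cancel] at h1
  · intro x hx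
    have h1 : coeE p E x (coeE p E g v) = coeE p E (x * g) v := by
      rw [map_mul, Module.End.mul_apply]
    rw [h1, hc x hx, map_mul, Module.End.mul_apply, hv.2 x hx]

/-- Triviality on the plane and on the fixed points. -/
theorem Orb.trivial_iff (h : Orb Y L) {g : GLE p E} (hg : g ∈ ⨆ x : Y, cj (x : GLE p E) L)
    (hc : ∀ x ∈ Y, x * g = g * x) :
    (∀ w ∈ comS (coeE p E) L, coeE p E g w = w) ↔ ∀ w ∈ wN Y L, coeE p E g w = w := by
  have hinf1 : comS (coeE p E) L ⊓ fixS (coeE p E) L = ⊥ := by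
    have := h.inf 1 Y.one_mem
    rwa [cj_one] at this
  constructor
  · intro h1
    have hle : (⨆ x : Y, comS (coeE p E) (cj (x : GLE p E) L)) ≤ LinearMap.ker (coeE p E g - 1 : Module.End (ZMod p) E) := by
      refine iSup_le ?_
      intro x
      rw [comS_cj]
      rintro _ ⟨w, hw, rfl⟩
      rw [LinearMap.mem_ker, LinearMap.sub_apply, sub_eq_zero]
      show coeE p E g (coeE p E x w) = coeE p E x w
      have h2 : coeE p E g (coeE p E x w) = coeE p E (g * x) w := by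
        rw [map_mul, Module.End.mul_apply]
      rw [h2, ← hc x x.2, map_mul, Module.End.mul_apply, h1 w hw]
    intro w hw
    have h2 := hle hw.1
    rw [LinearMap.mem_ker, LinearMap.sub_apply, sub_eq_zero] at h2
    exact h2
  · intro h1 w hw
    obtain ⟨w₀, z₀, hw₀, hfix, hz₀, hmem⟩ := h.module_norm hw
    have h2 := h1 w₀ ⟨hmem, hfix⟩
    obtain ⟨⟨l, hl, hlw⟩, hZ⟩ := h.act_form hg
    have h3 : coeE p E g w ∈ comS (coeE p E) L := by
      rw [hlw w hw]
      exact map_comS L hl hw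
    have h4 := hZ z₀ hz₀
    rw [hw₀, map_add] at h2
    have h5 : coeE p E g w - w = z₀ - coeE p E g z₀ := by
      rw [sub_eq_sub_iff_add_eq_add, h2]
      abel
    have h6 : coeE p E g w - w ∈ comS (coeE p E) L ⊓ fixS (coeE p E) L :=
      ⟨Submodule.sub_mem _ h3 hw, by rw [h5]; exact Submodule.sub_mem _ hz₀ h4⟩
    rw [hinf1] at h6
    exact sub_eq_zero.mp ((Submodule.mem_bot _).mp h6)

end Cfsg.Agent.Lib.FFCop2
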