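import Mathlib
import Cfsg.Agent.Lib.FFCop2

/-!
# The linear group of `Ω`, with an external coprime group.
-/

set_option autoImplicit false
set_option linter.unusedSectionVars false
set_option linter.style.haveILetI false

open scoped commutatorElement
open Cfsg

namespace Cfsg.Agent.Lib.FFCop3

open Cfsg.Agent.Lib.FFMod Cfsg.Agent.Lib.FFBridge Cfsg.Agent.Lib.FFStruct Cfsg.Agent.Lib.PCore
  Cfsg.Agent.Lib.ThompsonJ Cfsg.Agent.Lib.FFLin Cfsg.Agent.Lib.FFOmega Cfsg.Agent.Lib.FFTv Cfsg.Agent.Lib.FFPair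
  Cfsg.Agent.Lib.FFDich Cfsg.Agent.Lib.FFSub Cfsg.Agent.Lib.QuadPair Cfsg.Agent.Lib.FFCop1 Cfsg.Agent.Lib.FFCop2

universe u

section Pure

/-- A `p`-element of a normal subgroup has a conjugate, under the normal subgroup, in any Sylow subgroup. -/
theorem exists_conj_mem {R : Type*} [Group R] [Finite R] {p : ℕ} [hp : Fact p.Prime] (Q : Sylow p R) (N : Subgroup R)
    [hN : N.Normal] {x : R} (hxN : x ∈ N) {k : ℕ} (hx : x ^ p ^ k = 1) :
    ∃ y ∈ N, y * x * y⁻¹ ∈ (Q : Subgroup R) := by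
  have hP : IsPGroup p (Subgroup.zpowers (⟨x, hxN⟩ : N)) := by
    rintro ⟨g, n, rfl⟩
    refine ⟨k, ?_⟩
    apply Subtype.ext
    apply Subtype.ext
    simp only [Subgroup.coe_pow, Subgroup.coe_zpow, Subgroup.coe_one]
    show (x ^ n) ^ p ^ k = 1
    rw [← zpow_natCast, ← zpow_mul, mul_comm, zpow_mul, zpow_natCast, hx, one_zpow]
  obtain ⟨P, hP'⟩ := hP.exists_le_sylow
  obtain ⟨Q₁, hQ₁⟩ := P.exists_comap_subtype_eq
  have hxP : (⟨x, hxN⟩ : N) ∈ (P : Subgroup N) := hP' (Subgroup.mem_zpowers _)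
  have hPQ : ∀ z, z ∈ (P : Subgroup N).map N.subtype → z ∈ (Q₁ : Subgroup R) := by
    rintro _ ⟨z, hz, rfl⟩
    rw [← hQ₁] at hz
    exact hz
  obtain ⟨r, hr⟩ := MulAction.exists_smul_eq R Q₁ Q
  have hF := Sylow.normalizer_sup_eq_top P
  have hr' : r ∈ (↑(N ⊔ Subgroup.normalizer ((P : Subgroup N).map N.subtype : Set R)) : Set R) := by
    rw [sup_comm]
    have : (Subgroup.normalizer ((P : Subgroup N).map N.subtype : Set R)) ⊔ N = ⊤ := hF
    rw [this]
    trivial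
  rw [Subgroup.normal_mul] at hr'
  obtain ⟨y, hy, n, hn, rfl⟩ := hr'
  refine ⟨y, hy, ?_⟩
  have h1 : x ∈ (P : Subgroup N).map N.subtype := ⟨⟨x, hxN⟩, hxP, rfl⟩
  have h2 : n⁻¹ * x * n⁻¹⁻¹ ∈ (P : Subgroup N).map N.subtype :=
    (Subgroup.mem_normalizer_iff.mp (Subgroup.inv_mem _ hn) x).mp h1
  have h3 := hPQ _ h2
  rw [← hr, Cfsg.Agent.Lib.PResid.coe_smul_eq_conj_map]
  refine ⟨_, h3, ?_⟩
  show (y * n) * (n⁻¹ * x * n⁻¹⁻¹) * (y * n)⁻¹ = _
  group

/-- A fixed point in a fibre, for a coprime action. -/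
theorem lift_fix {A Q B : Type*} [Group A] [Finite A] [Group Q] [Group B] {q : ℕ} [hq' : Fact q.Prime]
    (hQ : IsPGroup q Q) (hq : ¬ q ∣ Nat.card A) (α : Q →* MulAut A) (f : A →* B) {d : B} (hd : d ∈ f.range)
    (hα : ∀ x k, f k = d → f (α x k) = d) : ∃ k, f k = d ∧ ∀ x, α x k = k := by
  let Φ := {k : A // f k = d}
  letI : MulAction Q Φ :=
    { smul := fun x k => ⟨α x k.1, hα x k.1 k.2⟩
      one_smul := fun k => Subtype.ext (by
        show α 1 k.1 = k.1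
        rw [map_one]
        rfl)
      mul_smul := fun a b k => Subtype.ext (by
        show α (a * b) k.1 = α a (α b k.1)
        rw [map_mul]
        rfl) }
  obtain ⟨k₀, hk₀⟩ := hd
  have hcard : ¬ q ∣ Nat.card Φ := by
    intro hdvd
    apply hq
    have h1 : Nat.card Φ = Nat.card f.ker := by
      apply Nat.card_congr
      refine ⟨fun k => ⟨k₀⁻¹ * k.1, ?_⟩, fun k => ⟨k₀ * k.1, ?_⟩, ?_, ?_⟩
      · rw [MonoidHom.mem_ker, map_mul, map_inv, k.2, hk₀, inv_mul_cancel]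
      · rw [map_mul, MonoidHom.mem_ker.mp k.2, hk₀, mul_one]
      · intro k
        apply Subtype.ext
        simp
      · intro k
        apply Subtype.ext
        simp
    rw [h1] at hdvd
    exact hdvd.trans (Subgroup.card_subgroup_dvd_card _)
  obtain ⟨k, hk⟩ := hQ.nonempty_fixed_point_of_prime_not_dvd_card Φ hcard
  exact ⟨k.1, k.2, fun x => congrArg Subtype.val (hk x)⟩

theorem omG_map_mem {G₀ : Type*} [Group G₀] [Finite G₀] {p : ℕ} [hp : Fact p.Prime] (φ : G₀ ≃* G₀) {x : G₀}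
    (hx : x ∈ omG p G₀) : φ x ∈ omG p G₀ := by
  rw [omG_eq] at hx ⊢
  have hle : Subgroup.closure (omSet p G₀) ≤ (Subgroup.closure (omSet p G₀)).comap φ.toMonoidHom := by
    rw [Subgroup.closure_le]
    rintro y ⟨S, ⟨h1, h2⟩, h3⟩
    apply Subgroup.subset_closure
    have hsurj : Function.Surjective φ.toMonoidHom := φ.surjective
    refine ⟨S.mapSurjective hsurj, ⟨?_, ?_⟩, ?_⟩
    · rw [Sylow.coe_mapSurjective]
      exact ⟨y, h1, rfl⟩
    · rw [Sylow.coe_mapSurjective, Subgroup.mem_centralizer_iff]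
      rintro _ ⟨z, hz, rfl⟩
      have h4 := Subgroup.mem_centralizer_iff.mp h2 z hz
      show φ z * φ y = φ y * φ z
      rw [← map_mul, ← map_mul, h4]
    · show φ y ^ p = 1
      rw [← map_pow, h3, map_one]
  exact hle hx

end Pure

section Orb

variable {p : ℕ} [hp : Fact p.Prime] {E : Type*} [AddCommGroup E] [Module (ZMod p) E] [Finite E]
  {Γ₀ Y : Subgroup (GLE p E)}

theorem orb_of (hY : Y ≤ Subgroup.normalizer (Γ₀ : Set (GLE p E))) (hff : FFH (p := p) (lin Γ₀)) {ŝ : GLE p E}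
    (hs : IsT Γ₀ ŝ) {q : ℕ} (hq : q.Prime) (hq2 : q ≠ 2) (hq3 : q ≠ 3) (hYq : ∀ x ∈ Y, x ^ q = 1) :
    Orb Y (ee (kG Γ₀) ŝ) := by
  have hpow : ∀ x ∈ Y, x ^ q ^ 1 = 1 := fun x hx => by rw [pow_one]; exact hYq x hx
  refine ⟨fun x hx hst => (stab_trivial hff hs hst hq hq2 hq3 (hpow x hx)).1,
    fun x hx hst => (stab_trivial hff hs hst hq hq2 hq3 (hpow x hx)).2, ?_, ?_, ?_⟩
  · intro x hx x' hx'
    rw [cj_ee (hY hx), cj_ee (hY hx')]
    exact dich_kG hff (isT_conj (hY hx) hs) (isT_conj (hY hx') hs)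
  · intro x hx
    rw [cj_ee (hY hx)]
    exact (fac_kG hff (isT_conj (hY hx) hs)).inf
  · intro x hx
    rw [cj_ee (hY hx)]
    exact (fac_kG hff (isT_conj (hY hx) hs)).sup

theorem iSup_cj_le (hY : Y ≤ Subgroup.normalizer (Γ₀ : Set (GLE p E))) {L : Subgroup (GLE p E)} (hL : L ≤ Γ₀) :
    ⨆ x : Y, cj (x : GLE p E) L ≤ Γ₀ := by
  refine iSup_le fun x => ?_
  rw [← cj_eq_of_mem_normalizer (hY x.2)]
  exact cj_mono hL

end Orb

section Bridge

variable {G : Type u} [Group G] [Finite G] {p : ℕ} [hp : Fact p.Prime] {K X : Subgroup G}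

/-- The action of `X` on `K`. -/
noncomputable def al (hXK : X ≤ Subgroup.normalizer (K : Set G)) : X →* MulAut K :=
  K.normalizerMonoidHom.comp (Subgroup.inclusion hXK)

theorem coe_al (hXK : X ≤ Subgroup.normalizer (K : Set G)) (x : X) (k : K) :
    ((al hXK x k : K) : G) = x * k * (x : G)⁻¹ := rfl

/-- The module, the representation and the action of `X`. -/
structure Pack (hXK : X ≤ Subgroup.normalizer (K : Set G)) {E : Type u} [AddCommGroup E] [Module (ZMod p) E]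
    (ρ₀ : K →* Module.End (ZMod p) E) (ι₀ : Multiplicative E →* K) (σ : X →* GLE p E) : Prop where
  nm : NM (omG p K) ρ₀ ι₀
  act : ∀ (x : X) (k : K), σ x * rh ρ₀ k * (σ x)⁻¹ = rh ρ₀ (al hXK x k)
  iota : ∀ (x : X) (v : E), ((ι₀ (Multiplicative.ofAdd (coeE p E (σ x) v)) : K) : G) =
    x * (ι₀ (Multiplicative.ofAdd v) : K) * (x : G)⁻¹

theorem exists_pack (hXK : X ≤ Subgroup.normalizer (K : Set G)) (hsep : IsPSolvable p K) (hO : pPrimeCore p K = ⊥) :
    ∃ (E : Type u) (_ : AddCommGroup E) (_ : Module (ZMod p) E) (_ : Finite E) (ρ₀ : K →* Module.End (ZMod p) E)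
      (ι₀ : Multiplicative E →* K) (σ : X →* GLE p E), Pack hXK ρ₀ ι₀ σ := by
  haveI hVn : (omG p K).Normal := omG_normal
  have hV := omG_ea hsep hO
  set V := omG p K with hVdef
  set V' := V.map K.subtype with hV'
  have hV'ea : IsElementaryAbelian p V' := ea_map hV K.subtype
  have hnorm : K ⊔ X ≤ Subgroup.normalizer (V' : Set G) := by
    refine sup_le ?_ ?_
    · intro k hk
      apply Cfsg.Agent.Lib.Replacement.mem_normalizer_of_forall
      rintro _ ⟨v, hv, rfl⟩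
      exact ⟨_, hVn.conj_mem v hv ⟨k, hk⟩, rfl⟩
    · intro x hx
      apply Cfsg.Agent.Lib.Replacement.mem_normalizer_of_forall
      rintro _ ⟨v, hv, rfl⟩
      exact ⟨al hXK ⟨x, hx⟩ v, omG_map_mem _ hv, rfl⟩
  obtain ⟨E, i1, i2, i3, ρ, ι, hm⟩ := exists_model hV'ea hnorm
  have hιK : ∀ v, ι v ∈ K := by
    intro v
    have h1 : ι v ∈ ι.range := ⟨v, rfl⟩
    rw [hm.range] at h1
    obtain ⟨k, _, hk⟩ := h1
    rw [← hk]
    exact k.2
  let inK : K →* ↥(K ⊔ X) := Subgroup.inclusion le_sup_left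
  let inX : X →* ↥(K ⊔ X) := Subgroup.inclusion le_sup_right
  let ι₀ : Multiplicative E →* K := ι.codRestrict K hιK
  refine ⟨E, i1, i2, i3, ρ.comp inK, ι₀, (rh ρ).comp inX, ⟨⟨?_, ?_, ?_⟩, ?_, ?_⟩⟩
  · intro a b hab
    exact hm.inj (congrArg Subtype.val hab)
  · apply Subgroup.map_injective K.subtype_injective
    rw [← hVdef, ← hV', ← hm.range]
    ext g
    constructor
    · rintro ⟨_, ⟨v, rfl⟩, rfl⟩
      exact ⟨v, rfl⟩
    · rintro ⟨v, rfl⟩
      exact ⟨_, ⟨v, rfl⟩, rfl⟩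
  · intro g v
    apply Subtype.ext
    exact hm.act (inK g) v
  · intro x k
    have h1 : inX x * inK k * (inX x)⁻¹ = inK (al hXK x k) := by
      apply Subtype.ext
      rfl
    have h2 : ((rh ρ).comp inX) x * rh (ρ.comp inK) k * (((rh ρ).comp inX) x)⁻¹ =
        rh ρ (inX x * inK k * (inX x)⁻¹) := by
      rw [map_mul, map_mul, map_inv]
      rfl
    rw [h2, h1]
    rfl
  · intro x v
    exact hm.act (inX x) v

variable {E : Type u} [AddCommGroup E] [Module (ZMod p) E] [Finite E] {hXK : X ≤ Subgroup.normalizer (K : Set G)}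
  {ρ₀ : K →* Module.End (ZMod p) E} {ι₀ : Multiplicative E →* K} {σ : X →* GLE p E}

theorem Pack.range_le (h : Pack hXK ρ₀ ι₀ σ) : σ.range ≤ Subgroup.normalizer (jG ρ₀ : Set (GLE p E)) := by
  rintro _ ⟨x, rfl⟩
  apply Cfsg.Agent.Lib.Replacement.mem_normalizer_of_forall
  rintro _ ⟨j, hj, rfl⟩
  refine ⟨al hXK x j, ?_, (h.act x j).symm⟩
  have h2 := (Subgroup.characteristic_iff_map_eq.mp (thompson_characteristic (G := K) p)) (al hXK x)
  rw [← h2]
  exact ⟨j, hj, rfl⟩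

theorem Pack.lift (h : Pack hXK ρ₀ ι₀ σ) {q : ℕ} [hq' : Fact q.Prime] (hX : IsPGroup q X) (hq : ¬ q ∣ Nat.card K)
    {d : GLE p E} (hd : d ∈ (rh ρ₀).range) (hc : ∀ x : X, σ x * d * (σ x)⁻¹ = d) :
    ∃ k : K, rh ρ₀ k = d ∧ (k : G) ∈ Subgroup.centralizer (X : Set G) := by
  obtain ⟨k, hk, hk2⟩ := lift_fix hX hq (al hXK) (rh ρ₀) hd (by
    intro x k hk
    rw [← h.act, hk, hc])
  refine ⟨k, hk, ?_⟩
  rw [Subgroup.mem_centralizer_iff]
  intro x hx
  have h3 := congrArg Subtype.val (hk2 ⟨x, hx⟩)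
  rw [coe_al] at h3
  rw [mul_inv_eq_iff_eq_mul] at h3
  exact h3

/-- The exponent of the image of `X`. -/
theorem range_pow {q : ℕ} (hX : ∀ x ∈ X, x ^ q = 1) {y : GLE p E} (hy : y ∈ σ.range) : y ^ q = 1 := by
  obtain ⟨x, rfl⟩ := hy
  rw [← map_pow]
  have : x ^ q = 1 := Subtype.ext (hX x x.2)
  rw [this, map_one]

/-- Factors have order dividing the order of `K`. -/
theorem card_factor_dvd {L : Subgroup (GLE p E)} (hL : L ≤ jG ρ₀) : Nat.card L ∣ Nat.card K := by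
  have h1 : L ≤ (rh ρ₀).range := hL.trans (Subgroup.map_le_range _ _)
  exact (Subgroup.card_dvd_of_le h1).trans (Subgroup.card_range_dvd _)

/-- Primes dividing the order of `K`. -/
theorem q_ne {L : Subgroup (GLE p E)} (hL : L ≤ jG ρ₀) (hFac : Fac (coeE p E) L) {q : ℕ} (hq : ¬ q ∣ Nat.card K) :
    q ≠ 2 ∧ q ≠ 3 := by
  have h1 := card_factor_dvd hL
  obtain ⟨e⟩ := hFac.iso
  rw [Nat.card_congr e.toEquiv, card_SL2 hFac.two_three] at h1
  have h2 : 2 ∣ p * (p ^ 2 - 1) := by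
    rcases hFac.two_three with rfl | rfl <;> norm_num
  have h3 : 3 ∣ p * (p ^ 2 - 1) := by
    rcases hFac.two_three with rfl | rfl <;> norm_num
  constructor
  · rintro rfl
    exact hq (h2.trans h1)
  · rintro rfl
    exact hq (h3.trans h1)

end Bridge

end Cfsg.Agent.Lib.FFCop3
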