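import Mathlib
import Cfsg.Agent.Lib.FFCop3
import Cfsg.Agent.Lib.QdPair

/-!
# Generation of the group by the normalizer, the centralizer and the fixed points.
-/

set_option autoImplicit false
set_option linter.unusedSectionVars false
set_option linter.style.haveILetI false

open scoped commutatorElement
open Cfsg

namespace Cfsg.Agent.Lib.FFCop4

open Cfsg.Agent.Lib.FFMod Cfsg.Agent.Lib.FFBridge Cfsg.Agent.Lib.FFStruct Cfsg.Agent.Lib.PCore
  Cfsg.Agent.Lib.ThompsonJ Cfsg.Agent.Lib.FFLin Cfsg.Agent.Lib.FFOmega Cfsg.Agent.Lib.FFTv Cfsg.Agent.Lib.FFPair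
  Cfsg.Agent.Lib.FFDich Cfsg.Agent.Lib.FFSub Cfsg.Agent.Lib.QuadPair Cfsg.Agent.Lib.FFCop1 Cfsg.Agent.Lib.FFCop2
  Cfsg.Agent.Lib.FFCop3

universe u

section Pure

theorem dec2 : ∀ τ : SL2 (ZMod 2), τ ^ 2 = 1 → τ ≠ 1 →
    (∃ g, ∃ n : Fin 3, g * τ ^ (n : ℕ) * g⁻¹ = Cfsg.Agent.Lib.QdPair.uu 2) ∧ (∃ g, ∃ n : Fin 3, g * τ ^ (n : ℕ) * g⁻¹ = Cfsg.Agent.Lib.QdPair.ll 2) := by
  decide +kernel

theorem dec3 : ∀ τ : SL2 (ZMod 3), τ ^ 3 = 1 → τ ≠ 1 →
    (∃ g, ∃ n : Fin 3, g * τ ^ (n : ℕ) * g⁻¹ = Cfsg.Agent.Lib.QdPair.uu 3) ∧ (∃ g, ∃ n : Fin 3, g * τ ^ (n : ℕ) * g⁻¹ = Cfsg.Agent.Lib.QdPair.ll 3) := by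
  decide +kernel

variable {p : ℕ} [hp : Fact p.Prime]

/-- Conjugates of a `p`-element under a factor generate the factor. -/
theorem le_of_conj_mem (h23 : p = 2 ∨ p = 3) {Γ : Type*} [Group Γ] {L H : Subgroup Γ} (e : L ≃* SL2 (ZMod p)) {t : Γ}
    (ht : t ∈ L) (ht1 : t ≠ 1) (htp : t ^ p = 1) (hconj : ∀ g ∈ L, g * t * g⁻¹ ∈ H) : L ≤ H := by
  set τ := e ⟨t, ht⟩ with hτ
  have hτ1 : τ ≠ 1 := by
    intro h0
    rw [hτ, map_eq_one_iff e e.injective] at h0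
    exact ht1 (congrArg Subtype.val h0)
  have hτp : τ ^ p = 1 := by
    rw [hτ, ← map_pow]
    have : (⟨t, ht⟩ : L) ^ p = 1 := Subtype.ext htp
    rw [this, map_one]
  set B : Subgroup (SL2 (ZMod p)) := (H.subgroupOf L).map e.toMonoidHom with hB
  have hB1 : ∀ g, g * τ * g⁻¹ ∈ B := by
    intro g
    refine ⟨e.symm g * ⟨t, ht⟩ * (e.symm g)⁻¹, ?_, ?_⟩
    · rw [SetLike.mem_coe, Subgroup.mem_subgroupOf]
      exact hconj _ (e.symm g).2
    · show e (e.symm g * ⟨t, ht⟩ * (e.symm g)⁻¹) = _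
      rw [map_mul, map_mul, map_inv, e.apply_symm_apply]
  have hpow : ∀ g (n : ℕ), g * τ ^ n * g⁻¹ ∈ B := by
    intro g n
    rw [← conj_pow]
    exact B.pow_mem (hB1 g) n
  have huu : Cfsg.Agent.Lib.QdPair.uu p ∈ B ∧ Cfsg.Agent.Lib.QdPair.ll p ∈ B := by
    rcases h23 with rfl | rfl
    · obtain ⟨⟨g, n, h1⟩, ⟨g', n', h2⟩⟩ := dec2 τ hτp hτ1
      exact ⟨h1 ▸ hpow g n, h2 ▸ hpow g' n'⟩
    · obtain ⟨⟨g, n, h1⟩, ⟨g', n', h2⟩⟩ := dec3 τ hτp hτ1
      exact ⟨h1 ▸ hpow g n, h2 ▸ hpow g' n'⟩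
  have htop : B = ⊤ := by
    rw [eq_top_iff, ← Cfsg.Agent.Lib.QdPair.closure_uu_ll (p := p), Subgroup.closure_le]
    rintro x (rfl | rfl)
    · exact huu.1
    · exact huu.2
  intro l hl
  have h1 : e ⟨l, hl⟩ ∈ B := by
    rw [htop]
    trivial
  obtain ⟨z, hz, hze⟩ := h1
  have h2 : z = ⟨l, hl⟩ := e.injective hze
  rw [h2] at hz
  exact hz

end Pure

section Ee

variable {p : ℕ} [hp : Fact p.Prime] {E : Type*} [AddCommGroup E] [Module (ZMod p) E] [Finite E]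
  {Γ₀ : Subgroup (GLE p E)}

theorem conj_mem_ee_kG (hff : FFH (p := p) (lin Γ₀)) (hgen : Subgroup.closure {s | IsTv (lin Γ₀) s} = ⊤) {ŝ : GLE p E}
    (hs : IsT Γ₀ ŝ) {y g : GLE p E} (hy : y ∈ Γ₀) (hg : g ∈ ee (kG Γ₀) ŝ) : y * g * y⁻¹ ∈ ee (kG Γ₀) ŝ := by
  have hN := normal_of_gen hff.inj (card_pPrimeCore_coprime (G := Γ₀) p) hff.cen hgen (isTv_of_isT hs)
  have h1 : ee (kG Γ₀) ŝ = _ := (ee_map (⟨ŝ, hs.1⟩ : Γ₀)).symm
  rw [h1] at hg ⊢
  obtain ⟨g', hg', rfl⟩ := hg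
  exact ⟨_, hN.conj_mem g' hg' ⟨y, hy⟩, rfl⟩

theorem pow_of_isT {ŝ : GLE p E} (hs : IsT Γ₀ ŝ) : ŝ ^ p = 1 := by
  obtain ⟨_, u, f, hT⟩ := hs
  apply coeE_inj
  rw [map_one]
  exact hT.pow_p

theorem ne_of_isT {ŝ : GLE p E} (hs : IsT Γ₀ ŝ) : ŝ ≠ 1 := by
  obtain ⟨_, u, f, hT⟩ := hs
  rintro rfl
  obtain ⟨v, hv⟩ : ∃ v, f v ≠ 0 := by
    by_contra hcon
    push Not at hcon
    exact hT.f0 (LinearMap.ext hcon)
  have h1 := hT.app v
  rw [map_one] at h1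
  have h2 : f v • u = 0 := by
    have h3 : v + f v • u = v + 0 := by
      rw [add_zero]
      exact h1.symm
    exact add_left_cancel h3
  rcases smul_eq_zero.mp h2 with h3 | h3
  · exact hv h3
  · exact hT.u0 h3

end Ee

section S0620

variable {G : Type u} [Group G] [Finite G] {p : ℕ} [hp : Fact p.Prime] {q : ℕ} [hq' : Fact q.Prime]

theorem s0620 (K X : Subgroup G) (hXK : X ≤ Subgroup.normalizer (K : Set G)) (hX : IsElementaryAbelian q X)
    (hq : ¬ q ∣ Nat.card K) (hsep : IsPSolvable p K) (hO : pPrimeCore p K = ⊥) (S : Sylow p K) :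
    (Subgroup.normalizer (thompsonSubgroupOf p (S : Subgroup K) : Set K) ⊔
      Subgroup.centralizer (omegaOne p ((S : Subgroup K) ⊓ Subgroup.centralizer ((S : Subgroup K) : Set K)) : Set K) ⊔
      (Subgroup.centralizer (X : Set G)).subgroupOf K) = ⊤ := by
  obtain ⟨E, _, _, _, ρ₀, ι₀, σ, hP⟩ := exists_pack hXK hsep hO
  have hn := hP.nm
  haveI hVn : (omG p K).Normal := omG_normal
  have hV := omG_ea hsep hO
  have hrange := pCore_range_eq_bot hn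
  have hff := ffh_jG hsep hrange
  have hgen := gen_jG hn hV hff
  set Γ₀ := jG ρ₀ with hΓ₀
  set N₁ := Subgroup.normalizer (thompsonSubgroupOf p (S : Subgroup K) : Set K) with hN₁
  set C₁ := Subgroup.centralizer (omegaOne p ((S : Subgroup K) ⊓ Subgroup.centralizer ((S : Subgroup K) : Set K)) : Set K)
    with hC₁
  set C₂ := (Subgroup.centralizer (X : Set G)).subgroupOf K with hC₂
  set H₀ := N₁ ⊔ C₁ ⊔ C₂ with hH₀
  set H' := H₀.map (rh ρ₀) with hH'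
  have hXp : IsPGroup q X := fun x => ⟨1, by
    rw [pow_one]
    exact Subtype.ext (hX.2 x x.2)⟩
  have hYq : ∀ y ∈ σ.range, y ^ q = 1 := fun y hy => range_pow hX.2 hy
  have hSN : (S : Subgroup K) ≤ N₁ := by
    intro s hs
    apply Cfsg.Agent.Lib.Replacement.mem_normalizer_of_forall
    intro x hx
    exact Cfsg.Agent.Lib.PResid.conj_mem_map_of_characteristic (thompson_characteristic _)
      (Subgroup.le_normalizer hs) hx
  have hΓR : Γ₀ ≤ (rh ρ₀).range := Subgroup.map_le_range _ _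
  haveI hJn : (thompsonSubgroup p K).Normal := thompson_normal p
  have hfac : ∀ ŝ, IsT Γ₀ ŝ → ee (kG Γ₀) ŝ ≤ H' := by
    intro ŝ hs
    have hFac := fac_kG hff hs
    have hLle := ee_le_of_mem hs.1
    obtain ⟨hq2, hq3⟩ := q_ne hLle hFac hq
    have hOrb := orb_of hP.range_le hff hs hq'.out hq2 hq3 hYq
    -- a conjugate of `ŝ` under `Γ₀` in the image of `S`
    obtain ⟨y, hy, s', hs', hyt⟩ : ∃ y ∈ Γ₀, ∃ s' ∈ (S : Subgroup K), y * ŝ * y⁻¹ = rh ρ₀ s' := by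
      have hsurj : Function.Surjective (rh ρ₀).rangeRestrict := (rh ρ₀).rangeRestrict_surjective
      haveI hNn : (Γ₀.subgroupOf (rh ρ₀).range).Normal := by
        constructor
        rintro n hn ⟨_, k, rfl⟩
        rw [Subgroup.mem_subgroupOf] at hn ⊢
        obtain ⟨j, hj, hjn⟩ := hn
        refine ⟨k * j * k⁻¹, hJn.conj_mem j hj k, ?_⟩
        rw [map_mul, map_mul, map_inv, hjn]
        rfl
      have hxp : (⟨ŝ, hΓR hs.1⟩ : (rh ρ₀).range) ^ p ^ 1 = 1 := by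
        rw [pow_one]
        exact Subtype.ext (pow_of_isT hs)
      obtain ⟨y, hy, hyx⟩ := exists_conj_mem (S.mapSurjective hsurj) (Γ₀.subgroupOf (rh ρ₀).range)
        (x := ⟨ŝ, hΓR hs.1⟩) hs.1 hxp
      rw [Sylow.coe_mapSurjective] at hyx
      obtain ⟨s', hs', hyt⟩ := hyx
      refine ⟨y, hy, s', hs', ?_⟩
      exact (congrArg Subtype.val hyt).symm
    set t := y * ŝ * y⁻¹ with ht
    have htL : t ∈ ee (kG Γ₀) ŝ := conj_mem_ee_kG hff hgen hs hy (mem_ee _ _)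
    have htH : t ∈ H' := by
      rw [hyt]
      exact ⟨s', (le_sup_left.trans le_sup_left : N₁ ≤ H₀) (hSN hs'), rfl⟩
    obtain ⟨e⟩ := hFac.iso
    apply le_of_conj_mem hFac.two_three e htL
    · rw [ht]
      intro h0
      apply ne_of_isT hs
      have h1 : ŝ = y⁻¹ * (y * ŝ * y⁻¹) * y := by group
      rw [h1, h0]
      group
    · rw [ht, conj_pow, pow_of_isT hs]
      group
    · intro g hg
      obtain ⟨d, y₀, hd, hdc, hy₀, _, hdΓ⟩ := hOrb.group_norm hg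
      have hdΓ₀ : d ∈ Γ₀ := iSup_cj_le hP.range_le hLle hdΓ
      obtain ⟨k, hk, hkc⟩ := hP.lift hXp hq (hΓR hdΓ₀) (fun x => hdc _ ⟨x, rfl⟩)
      have hdH : d ∈ H' := ⟨k, (le_sup_right : C₂ ≤ H₀) hkc, hk⟩
      have h1 : g * t * g⁻¹ = d * t * d⁻¹ := by
        have h2 := hy₀ t htL
        rw [hd]
        have h3 : g * y₀ * t * (g * y₀)⁻¹ = g * (y₀ * t) * y₀⁻¹ * g⁻¹ := by group
        rw [h3, ← h2]
        group
      rw [h1]
      exact H'.mul_mem (H'.mul_mem hdH htH) (H'.inv_mem hdH)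
  have hΓle : Γ₀ ≤ H' := by
    intro γ hγ
    have htop : (⟨γ, hγ⟩ : Γ₀) ∈ Subgroup.closure {s | IsTv (lin Γ₀) s} := by
      rw [hgen]
      trivial
    have hle : Subgroup.closure {s : Γ₀ | IsTv (lin Γ₀) s} ≤ H'.subgroupOf Γ₀ := by
      rw [Subgroup.closure_le]
      intro s hs
      exact hfac _ (isT_of_isTv hs) (mem_ee _ _)
    exact hle htop
  set C := Subgroup.centralizer ((omG p K : Subgroup K) : Set K) with hC
  haveI hCn : C.Normal := by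
    rw [hC]
    infer_instance
  have hCH : C ≤ H₀ := by
    have h3 : omegaOne p ((S : Subgroup K) ⊓ Subgroup.centralizer ((S : Subgroup K) : Set K)) ≤ omG p K :=
      le_iSup (fun S : Sylow p K => omegaOne p ((S : Subgroup K) ⊓ Subgroup.centralizer ((S : Subgroup K) : Set K))) S
    exact (Subgroup.centralizer_le h3).trans (le_sup_right.trans le_sup_left)
  have hJH : thompsonSubgroup p K ≤ H₀ := by
    intro j hj
    obtain ⟨h, hh, hhj⟩ := hΓle (⟨j, hj, rfl⟩ : rh ρ₀ j ∈ Γ₀)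
    have h1 : h⁻¹ * j ∈ C := by
      rw [hC, ← rh_eq_one_iff hn, map_mul, map_inv, hhj, inv_mul_cancel]
    have h2 : j = h * (h⁻¹ * j) := by group
    rw [h2]
    exact H₀.mul_mem hh (hCH h1)
  have h1 := thompson_frattini S (thompsonSubgroup p K ⊔ C) le_sup_left
  rw [eq_top_iff, ← h1]
  exact sup_le (le_sup_left.trans le_sup_left) (sup_le hJH hCH)

end S0620

end Cfsg.Agent.Lib.FFCop4
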