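import Mathlib
import Cfsg.Agent.Lib.FFCop4

/-!
# The subgroup inducing `SL(2, p)` in the fixed points of the coprime group.
-/

set_option autoImplicit false
set_option linter.unusedSectionVars false
set_option linter.style.haveILetI false

open scoped commutatorElement
open Cfsg

namespace Cfsg.Agent.Lib.FFCop5

open Cfsg.Agent.Lib.FFMod Cfsg.Agent.Lib.FFBridge Cfsg.Agent.Lib.FFStruct Cfsg.Agent.Lib.PCore
  Cfsg.Agent.Lib.ThompsonJ Cfsg.Agent.Lib.FFLin Cfsg.Agent.Lib.FFOmega Cfsg.Agent.Lib.FFTv Cfsg.Agent.Lib.FFPair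
  Cfsg.Agent.Lib.FFDich Cfsg.Agent.Lib.FFSub Cfsg.Agent.Lib.QuadPair Cfsg.Agent.Lib.FFCop1 Cfsg.Agent.Lib.FFCop2
  Cfsg.Agent.Lib.FFCop3 Cfsg.Agent.Lib.FFCop4

universe u

section S0621

variable {G : Type u} [Group G] [Finite G] {p : ℕ} [hp : Fact p.Prime] {q : ℕ} [hq' : Fact q.Prime]

theorem s0621 (K X : Subgroup G) (hXK : X ≤ Subgroup.normalizer (K : Set G)) (hX : IsElementaryAbelian q X)
    (hq : ¬ q ∣ Nat.card K) (hsep : IsPSolvable p K) (hO : pPrimeCore p K = ⊥) (hnf : ¬ IsThompsonFactorizable p K) :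
    (p = 2 ∨ p = 3) ∧ ∃ W D : Subgroup G, W ≤ K ⊓ Subgroup.centralizer (X : Set G) ∧
      D ≤ K ⊓ Subgroup.centralizer (X : Set G) ∧ IsElementaryAbelian p W ∧ Nat.card W = p ^ 2 ∧
      D ≤ Subgroup.normalizer (W : Set G) ∧ ∃ hn : ((Subgroup.centralizer (W : Set G)).subgroupOf D).Normal,
        Nonempty ((↥D ⧸ (Subgroup.centralizer (W : Set G)).subgroupOf D) ≃* Matrix.SpecialLinearGroup (Fin 2) (ZMod p)) := by
  obtain ⟨E, _, _, _, ρ₀, ι₀, σ, hP⟩ := exists_pack hXK hsep hO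
  have hn := hP.nm
  haveI hVn : (omG p K).Normal := omG_normal
  have hV := omG_ea hsep hO
  have hrange := pCore_range_eq_bot hn
  have hff := ffh_jG hsep hrange
  have hgen := gen_jG hn hV hff
  set Γ₀ := jG ρ₀ with hΓ₀
  set C := Subgroup.centralizer ((omG p K : Subgroup K) : Set K) with hC
  haveI hCn : C.Normal := by
    rw [hC]
    infer_instance
  have hXp : IsPGroup q X := fun x => ⟨1, by
    rw [pow_one]
    exact Subtype.ext (hX.2 x x.2)⟩
  have hYq : ∀ y ∈ σ.range, y ^ q = 1 := fun y hy => range_pow hX.2 hy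
  -- the Thompson subgroup does not centralize `V`
  have hJC : ¬ thompsonSubgroup p K ≤ C := by
    intro hle
    apply hnf
    intro S g
    have h1 := thompson_frattini S C hle
    rw [sup_comm] at h1
    have h2 : g ∈ (↑(C ⊔ Subgroup.normalizer (thompsonSubgroupOf p (S : Subgroup K) : Set K)) : Set K) := by
      rw [h1]
      trivial
    rw [Subgroup.normal_mul] at h2
    obtain ⟨c, hc, n, hn', rfl⟩ := h2
    refine ⟨1, Subgroup.one_mem _, c, ?_, n, hn', by simp⟩
    have h3 : omegaOne p ((S : Subgroup K) ⊓ Subgroup.centralizer ((S : Subgroup K) : Set K)) ≤ omG p K :=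
      le_iSup (fun S : Sylow p K => omegaOne p ((S : Subgroup K) ⊓ Subgroup.centralizer ((S : Subgroup K) : Set K))) S
    exact Subgroup.centralizer_le h3 hc
  have hΓne : ∃ s : Γ₀, IsTv (lin Γ₀) s := by
    by_contra hcon
    push Not at hcon
    have hT : {s : Γ₀ | IsTv (lin Γ₀) s} = ∅ := by
      ext s
      constructor
      · intro hs
        exact absurd hs (hcon s)
      · intro hs
        exact absurd hs (Set.notMem_empty s)
    rw [hT, Subgroup.closure_empty] at hgen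
    apply hJC
    intro j hj
    have h1 : (⟨rh ρ₀ j, ⟨j, hj, rfl⟩⟩ : Γ₀) ∈ (⊥ : Subgroup Γ₀) := by
      rw [hgen]
      trivial
    have h2 : rh ρ₀ j = 1 := congrArg Subtype.val (Subgroup.mem_bot.mp h1)
    exact (rh_eq_one_iff hn j).mp h2
  obtain ⟨s, hs₀⟩ := hΓne
  set ŝ : GLE p E := (s : GLE p E) with hŝ
  have hs : IsT Γ₀ ŝ := isT_of_isTv hs₀
  have hFac := fac_kG hff hs
  set L := ee (kG Γ₀) ŝ with hL
  have hLle : L ≤ Γ₀ := ee_le_of_mem hs.1
  obtain ⟨hq2, hq3⟩ := q_ne hLle hFac hq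
  set Y := σ.range with hY
  have hOrb : Orb Y L := orb_of hP.range_le hff hs hq'.out hq2 hq3 hYq
  have hΓR : Γ₀ ≤ (rh ρ₀).range := Subgroup.map_le_range _ _
  set Γ' := ⨆ x : Y, cj (x : GLE p E) L with hΓ'
  have hΓ'le : Γ' ≤ Γ₀ := iSup_cj_le hP.range_le hLle
  set W₀ := wN Y L with hW₀
  set W' := toS ι₀ W₀ with hW'
  set W := W'.map K.subtype with hW
  set D' := Γ'.comap (rh ρ₀) ⊓ (Subgroup.centralizer (X : Set G)).subgroupOf K with hD'
  set D := D'.map K.subtype with hD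
  have hDK : D ≤ K := Subgroup.map_subtype_le _
  have hWK : W ≤ K := Subgroup.map_subtype_le _
  -- the action of elements of `D` on `W`
  have hact : ∀ (k : K) (v : E), ((ι₀ (Multiplicative.ofAdd (ρ₀ k v)) : K) : G) =
      k * (ι₀ (Multiplicative.ofAdd v) : K) * (k : G)⁻¹ := by
    intro k v
    exact congrArg Subtype.val (hn.act k v)
  have hcomm : ∀ k ∈ D', ∀ x ∈ Y, x * rh ρ₀ k = rh ρ₀ k * x := by
    rintro k ⟨_, hk⟩ _ ⟨x, rfl⟩
    have h1 := hP.act x k
    have h2 : al hXK x k = k := by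
      apply Subtype.ext
      rw [coe_al]
      have h3 := Subgroup.mem_centralizer_iff.mp hk x x.2
      rw [mul_inv_eq_iff_eq_mul]
      exact h3
    rw [h2, mul_inv_eq_iff_eq_mul] at h1
    exact h1
  have hD'W : ∀ k ∈ D', ∀ v ∈ W₀, ρ₀ k v ∈ W₀ := by
    intro k hk v hv
    exact map_wN (Y := Y) (L := L) hk.1 (hcomm k hk) hv
  refine ⟨hFac.two_three, W, D, ?_, ?_, ?_, ?_, ?_, ?_⟩
  · rintro _ ⟨w, hw, rfl⟩
    refine ⟨w.2, ?_⟩
    obtain ⟨v, hv, rfl⟩ := mem_toS.mp hw
    apply Subgroup.mem_centralizer_iff.mpr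
    intro x hx
    have h1 := hP.iota ⟨x, hx⟩ v
    rw [hv.2 _ ⟨⟨x, hx⟩, rfl⟩, eq_mul_inv_iff_mul_eq] at h1
    exact h1.symm
  · rintro _ ⟨k, hk, rfl⟩
    exact ⟨k.2, hk.2⟩
  · exact ea_map (ea_mono hV (hn.model.toS_le W₀)) K.subtype
  · rw [hW, Subgroup.card_map_of_injective K.subtype_injective, hW', hn.card_toS, hW₀, hOrb.card_wN, hFac.card]
  · rintro _ ⟨k, hk, rfl⟩
    apply Cfsg.Agent.Lib.Replacement.mem_normalizer_of_forall
    rintro _ ⟨w, hw, rfl⟩
    obtain ⟨v, hv, rfl⟩ := mem_toS.mp hw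
    exact ⟨_, toS_mem (hD'W k hk v hv), hact k v⟩
  · have hφ' : ∀ g : D, Subgroup.inclusion hDK g ∈ D' := by
      rintro ⟨_, k, hk, rfl⟩
      exact hk
    let φ : D →* GLE p E := (rh ρ₀).comp (Subgroup.inclusion hDK)
    set D₁ := Γ' ⊓ Subgroup.centralizer (Y : Set (GLE p E)) with hD₁
    have hφ : ∀ g : D, φ g ∈ D₁ := by
      intro g
      refine ⟨(hφ' g).1, Subgroup.mem_centralizer_iff.mpr ?_⟩
      intro x hx
      exact hcomm _ (hφ' g) x hx
    obtain ⟨f₁, hf₁s, hf₁k⟩ := exists_restrict_hom (ρ := coeE p E) (L := L) (D := D₁) (P := comS (coeE p E) L)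
      (fun g hg w hw => map_comS L hg hw) hFac.faith (fun g hg => (hOrb.act_form hg.1).1) (by
        intro l hl
        obtain ⟨d, y₀, hd, hdc, _, hy₀, hdΓ⟩ := hOrb.group_norm hl
        refine ⟨d, ⟨hdΓ, Subgroup.mem_centralizer_iff.mpr ?_⟩, ?_⟩
        · intro x hx
          have h1 := hdc x hx
          rw [mul_inv_eq_iff_eq_mul] at h1
          exact h1
        · intro w hw
          rw [hd, map_mul, Module.End.mul_apply, hy₀ w hw])
    let φ₁ : D →* D₁ := φ.codRestrict D₁ hφ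
    have hφ₁s : Function.Surjective φ₁ := by
      rintro ⟨d, hd⟩
      have hdc : ∀ x : X, σ x * d * (σ x)⁻¹ = d := by
        intro x
        have h1 := Subgroup.mem_centralizer_iff.mp hd.2 (σ x) ⟨x, rfl⟩
        rw [h1]
        group
      obtain ⟨k, hk, hkc⟩ := hP.lift hXp hq (hΓR (hΓ'le hd.1)) hdc
      have hkD' : k ∈ D' := by
        refine ⟨?_, hkc⟩
        show rh ρ₀ k ∈ Γ'
        rw [hk]
        exact hd.1
      exact ⟨⟨k, k, hkD', rfl⟩, Subtype.ext hk⟩
    obtain ⟨e⟩ := hFac.iso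
    let f : D →* Matrix.SpecialLinearGroup (Fin 2) (ZMod p) := e.toMonoidHom.comp (f₁.comp φ₁)
    have hfs : Function.Surjective f := e.surjective.comp (hf₁s.comp hφ₁s)
    have hker : (Subgroup.centralizer (W : Set G)).subgroupOf D = f.ker := by
      ext g
      rw [Subgroup.mem_subgroupOf, MonoidHom.mem_ker]
      have h1 : f g = 1 ↔ f₁ (φ₁ g) = 1 := map_eq_one_iff e e.injective
      have hg1 : (φ g) ∈ Γ' := (hφ g).1
      have hg2 : ∀ x ∈ Y, x * φ g = φ g * x := hcomm _ (hφ' g)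
      rw [h1, hf₁k]
      have h2 := hOrb.trivial_iff hg1 hg2
      have h3 : (∀ w ∈ comS (coeE p E) L, coeE p E ((φ₁ g : D₁) : GLE p E) w = w) ↔
          (∀ w ∈ comS (coeE p E) L, coeE p E (φ g) w = w) := Iff.rfl
      rw [h3, h2]
      constructor
      · intro hc v hv
        have h4 : ((ι₀ (Multiplicative.ofAdd v) : K) : G) ∈ W := ⟨_, toS_mem hv, rfl⟩
        have h5 := Subgroup.mem_centralizer_iff.mp hc _ h4
        have h6 := hact (Subgroup.inclusion hDK g) v
        have h7 : ((Subgroup.inclusion hDK g : K) : G) = (g : G) := rfl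
        rw [h7, ← h5, mul_inv_cancel_right] at h6
        exact hn.inj (Subtype.ext h6)
      · intro hc
        apply Subgroup.mem_centralizer_iff.mpr
        rintro _ ⟨w, hw, rfl⟩
        obtain ⟨v, hv, rfl⟩ := mem_toS.mp hw
        have h6 := hact (Subgroup.inclusion hDK g) v
        have h7 : ((Subgroup.inclusion hDK g : K) : G) = (g : G) := rfl
        have h8 : ρ₀ (Subgroup.inclusion hDK g) v = v := hc v hv
        rw [h8, h7, eq_mul_inv_iff_mul_eq] at h6
        exact h6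
    haveI hN : ((Subgroup.centralizer (W : Set G)).subgroupOf D).Normal := by
      rw [hker]
      infer_instance
    exact ⟨hN, ⟨(QuotientGroup.quotientMulEquivOfEq hker).trans (QuotientGroup.quotientKerEquivOfSurjective f hfs)⟩⟩

end S0621

end Cfsg.Agent.Lib.FFCop5
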