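import Mathlib
import Cfsg.Prelude.Def_JComponents
import Cfsg.Agent.Lib.JCompBasic
import Cfsg.Agent.Lib.CharPLocal
import Cfsg.Agent.Lib.ThompsonJ
import Cfsg.Agent.Lib.PCore
import Cfsg.Agent.Lib.OddOrderCore
import Cfsg.Agent.Lib.Subnormal
import Cfsg.Agent.Lib.ExtraBasics

/-!
# Structure of `J(T)`-components

Elementwise tools: maximal elementary abelian subgroups of a subgroup, replacement, `W_K`.
-/

set_option autoImplicit false
set_option linter.unusedSectionVars false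

open Cfsg
open scoped commutatorElement

namespace Cfsg.Agent.Lib.JCompStruct

open Cfsg.Agent.Lib.JCompBasic Cfsg.Agent.Lib.CharPLocal Cfsg.Agent.Lib.ThompsonJ Cfsg.Agent.Lib.PCore

variable {G : Type*} [Group G]

/-! ### Maximal elementary abelian subgroups of a subgroup -/

/-- `A` is an elementary abelian 2-subgroup of `S` of largest order. -/
def MaxEA (S A : Subgroup G) : Prop :=
  A ≤ S ∧ IsElementaryAbelian 2 A ∧ ∀ B : Subgroup G, B ≤ S → IsElementaryAbelian 2 B → Nat.card B ≤ Nat.card A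

theorem card_map_subtype' {S : Subgroup G} (A : Subgroup S) :
    Nat.card ↥(A.map S.subtype) = Nat.card A :=
  Nat.card_congr (Subgroup.equivMapOfInjective A S.subtype S.subtype_injective).symm.toEquiv

theorem card_subgroupOf' {S A : Subgroup G} (h : A ≤ S) : Nat.card ↥(A.subgroupOf S) = Nat.card A :=
  Nat.card_congr (Subgroup.subgroupOfEquivOfLe h).toEquiv

theorem MaxEA.map_of_mem {S : Subgroup G} {A : Subgroup S}
    (hA : A ∈ maxElementaryAbelianSubgroups 2 S) : MaxEA S (A.map S.subtype) := by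
  refine ⟨Subgroup.map_subtype_le _, ea_map hA.1 _, ?_⟩
  intro B hBS hB
  rw [card_map_subtype']
  have h1 := hA.2 (B.subgroupOf S) (ea_comap hB _ S.subtype_injective)
  rwa [card_subgroupOf' hBS] at h1

theorem MaxEA.subgroupOf_mem {S A : Subgroup G} (hA : MaxEA S A) :
    A.subgroupOf S ∈ maxElementaryAbelianSubgroups 2 S := by
  refine ⟨ea_comap hA.2.1 _ S.subtype_injective, ?_⟩
  intro B hB
  rw [card_subgroupOf' hA.1, ← card_map_subtype']
  exact hA.2.2 _ (Subgroup.map_subtype_le _) (ea_map hB _)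

/-- `J(S)` is generated by the `MaxEA S A`. -/
theorem thompsonOf_eq_sSup (S : Subgroup G) :
    thompsonSubgroupOf 2 S = sSup {A | MaxEA S A} := by
  apply le_antisymm
  · unfold thompsonSubgroupOf thompsonSubgroup
    rw [Subgroup.map_le_iff_le_comap]
    refine sSup_le fun A hA => ?_
    rw [← Subgroup.map_le_iff_le_comap]
    exact le_sSup (MaxEA.map_of_mem hA)
  · refine sSup_le fun A (hA : MaxEA S A) => ?_
    intro x hx
    refine ⟨⟨x, hA.1 hx⟩, ?_, rfl⟩
    have h := le_thompson hA.subgroupOf_mem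
    exact h (by simpa [Subgroup.mem_subgroupOf] using hx)

theorem MaxEA.le_thompson {S A : Subgroup G} (hA : MaxEA S A) : A ≤ thompsonSubgroupOf 2 S := by
  rw [thompsonOf_eq_sSup]
  exact le_sSup hA

theorem exists_maxEA [Finite G] (S : Subgroup G) : ∃ A, MaxEA S A := by
  obtain ⟨A, hA⟩ := exists_mem_max 2 S
  exact ⟨_, MaxEA.map_of_mem hA⟩

theorem thompsonOf_isPGroup {T : Subgroup G} (hT : IsPGroup 2 T) : IsPGroup 2 (thompsonSubgroupOf 2 T) :=
  hT.to_le (thompsonSubgroupOf_le 2 T)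

/-- An involution (or 1) of `S` commuting with a maximal elementary abelian subgroup lies in it. -/
theorem MaxEA.mem_of_commute [Finite G] {S A : Subgroup G} (hA : MaxEA S A) {x : G} (hxS : x ∈ S) (hx : x ^ 2 = 1)
    (hc : ∀ a ∈ A, a * x = x * a) : x ∈ A := by
  have hz : IsElementaryAbelian 2 (Subgroup.zpowers x) := by
    rw [Subgroup.zpowers_eq_closure]
    apply isElementaryAbelian_closure
    · rintro a rfl b rfl; rfl
    · rintro a rfl; exact hx
  have hsup : IsElementaryAbelian 2 (A ⊔ Subgroup.zpowers x) := by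
    apply ea_sup hA.2.1 hz
    intro a ha b hb
    obtain ⟨k, rfl⟩ := Subgroup.mem_zpowers_iff.mp hb
    have h1 : Commute a x := hc a ha
    exact (h1.zpow_right k).eq
  have hsupS : A ⊔ Subgroup.zpowers x ≤ S := sup_le hA.1 (Subgroup.zpowers_le.mpr hxS)
  have hcard := hA.2.2 _ hsupS hsup
  have heq : A = A ⊔ Subgroup.zpowers x := Subgroup.eq_of_le_of_card_ge le_sup_left hcard
  rw [heq]
  exact Subgroup.mem_sup_right (Subgroup.mem_zpowers x)

/-- Thompson replacement with a single involution. -/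
theorem MaxEA.replacement [Finite G] {S A : Subgroup G} (hA : MaxEA S A) {w : G} (hwS : w ∈ S) (hw : w ^ 2 = 1)
    (hwA : w ∉ A) (hcard : Nat.card A ≤ 2 * Nat.card ↥(A ⊓ Subgroup.centralizer ({w} : Set G))) :
    MaxEA S ((A ⊓ Subgroup.centralizer ({w} : Set G)) ⊔ Subgroup.zpowers w) := by
  set B : Subgroup G := A ⊓ Subgroup.centralizer ({w} : Set G) with hB
  have hz : IsElementaryAbelian 2 (Subgroup.zpowers w) := by
    rw [Subgroup.zpowers_eq_closure]
    apply isElementaryAbelian_closure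
    · rintro a rfl b rfl; rfl
    · rintro a rfl; exact hw
  have hcomm : ∀ a ∈ B, ∀ b ∈ Subgroup.zpowers w, a * b = b * a := by
    intro a ha b hb
    obtain ⟨k, rfl⟩ := Subgroup.mem_zpowers_iff.mp hb
    have h1 : a * w = w * a := Subgroup.mem_centralizer_singleton_iff.mp ha.2
    have h2 : Commute a w := h1
    exact (h2.zpow_right k).eq
  have hBea : IsElementaryAbelian 2 B := ea_mono hA.2.1 inf_le_left
  have hsup : IsElementaryAbelian 2 (B ⊔ Subgroup.zpowers w) := ea_sup hBea hz hcomm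
  have hsupS : B ⊔ Subgroup.zpowers w ≤ S :=
    sup_le (inf_le_left.trans hA.1) (Subgroup.zpowers_le.mpr hwS)
  refine ⟨hsupS, hsup, ?_⟩
  intro C hCS hC
  have h1 := hA.2.2 C hCS hC
  refine h1.trans (hcard.trans ?_)
  -- `|B ⊔ ⟨w⟩| ≥ 2 |B|`
  have hle : B ≤ B ⊔ Subgroup.zpowers w := le_sup_left
  obtain ⟨m, hm⟩ := Subgroup.card_dvd_of_le hle
  have hne : B ≠ B ⊔ Subgroup.zpowers w := by
    intro h
    apply hwA
    have : w ∈ B := by rw [h]; exact Subgroup.mem_sup_right (Subgroup.mem_zpowers w)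
    exact this.1
  have hm1 : m ≠ 1 := by
    rintro rfl
    rw [mul_one] at hm
    exact hne (Subgroup.eq_of_le_of_card_ge hle hm.le)
  have hm0 : m ≠ 0 := by
    rintro rfl
    rw [mul_zero] at hm
    exact Nat.card_pos.ne' hm
  have hm2 : 2 ≤ m := by omega
  rw [hm, mul_comm]
  exact Nat.mul_le_mul_left _ hm2

/-- Orbits of size at most two. -/
theorem card_le_two_mul [Finite G] (A : Subgroup G) (w w' : G)
    (h : ∀ a ∈ A, a * w * a⁻¹ = w ∨ a * w * a⁻¹ = w') :
    Nat.card A ≤ 2 * Nat.card ↥(A ⊓ Subgroup.centralizer ({w} : Set G)) := by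
  classical
  have hmem : ∀ a : G, a * w * a⁻¹ = w → a ∈ Subgroup.centralizer ({w} : Set G) := by
    intro a ha
    rw [Subgroup.mem_centralizer_singleton_iff]
    exact mul_inv_eq_iff_eq_mul.mp ha
  by_cases hall : ∀ a ∈ A, a * w * a⁻¹ = w
  · have h1 : A ≤ A ⊓ Subgroup.centralizer ({w} : Set G) := le_inf le_rfl fun a ha => hmem a (hall a ha)
    have h2 := Subgroup.card_le_of_le h1
    omega
  · push Not at hall
    obtain ⟨a₀, ha₀, hne⟩ := hall
    have hw' : a₀ * w * a₀⁻¹ = w' := (h a₀ ha₀).resolve_left hne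
    set B : Subgroup G := A ⊓ Subgroup.centralizer ({w} : Set G) with hB
    have hmemB : ∀ a : A, a.1 * w * a.1⁻¹ ≠ w → a₀⁻¹ * a.1 ∈ B := by
      intro a ha
      refine ⟨A.mul_mem (A.inv_mem ha₀) a.2, hmem _ ?_⟩
      have h1 : a.1 * w * a.1⁻¹ = a₀ * w * a₀⁻¹ := by
        rw [hw']; exact (h a.1 a.2).resolve_left ha
      calc a₀⁻¹ * a.1 * w * (a₀⁻¹ * a.1)⁻¹ = a₀⁻¹ * (a.1 * w * a.1⁻¹) * a₀ := by group
        _ = a₀⁻¹ * (a₀ * w * a₀⁻¹) * a₀ := by rw [h1]
        _ = w := by group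
    let f : A → B × Bool := fun a =>
      if ha : a.1 * w * a.1⁻¹ = w then (⟨a.1, a.2, hmem _ ha⟩, false)
      else (⟨a₀⁻¹ * a.1, hmemB a ha⟩, true)
    have hf : Function.Injective f := by
      intro a b hab
      by_cases ha : a.1 * w * a.1⁻¹ = w <;> by_cases hb : b.1 * w * b.1⁻¹ = w
      · simp only [f, dif_pos ha, dif_pos hb, Prod.mk.injEq, and_true] at hab
        exact Subtype.ext (congrArg (fun t : B => (t : G)) hab)
      · simp [f, dif_pos ha, dif_neg hb] at hab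
      · simp [f, dif_neg ha, dif_pos hb] at hab
      · simp only [f, dif_neg ha, dif_neg hb, Prod.mk.injEq, and_true] at hab
        have h1 : a₀⁻¹ * a.1 = a₀⁻¹ * b.1 := congrArg (fun t : B => (t : G)) hab
        exact Subtype.ext (mul_left_cancel h1)
    have h1 := Nat.card_le_card_of_injective f hf
    rw [Nat.card_prod, Nat.card_eq_fintype_card (α := Bool)] at h1
    simp only [Fintype.card_bool] at h1
    rw [mul_comm]
    exact h1

/-! ### `Ω₁(Z(X))` -/

theorem omegaCenter_mem {X : Subgroup G} {z : G} (hz : z ∈ omegaCenterOf X) :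
    z ∈ X ∧ (∀ x ∈ X, x * z = z * x) ∧ z * z = 1 := by
  unfold omegaCenterOf omegaOne at hz
  induction hz using Subgroup.closure_induction with
  | mem x hx =>
    refine ⟨hx.1.1, ?_, ?_⟩
    · intro y hy
      exact Subgroup.mem_centralizer_iff.mp hx.1.2 y hy
    · rw [← pow_two]; exact hx.2
  | one => simp [X.one_mem]
  | mul a b _ _ ha hb =>
    refine ⟨X.mul_mem ha.1 hb.1, ?_, ?_⟩
    · intro x hx
      calc x * (a * b) = (x * a) * b := by group
        _ = a * (x * b) := by rw [ha.2.1 x hx]; group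
        _ = a * (b * x) := by rw [hb.2.1 x hx]
        _ = _ := by group
    · have hc : b * a = a * b := ha.2.1 b hb.1
      calc a * b * (a * b) = a * (b * a) * b := by group
        _ = a * (a * b) * b := by rw [hc]
        _ = (a * a) * (b * b) := by group
        _ = 1 := by rw [ha.2.2, hb.2.2, one_mul]
  | inv a _ ha =>
    refine ⟨X.inv_mem ha.1, ?_, ?_⟩
    · intro x hx
      have h1 := ha.2.1 x hx
      have : Commute x a := h1
      exact this.inv_right
    · have h1 : a⁻¹ = a := inv_eq_of_mul_eq_one_left ha.2.2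
      rw [h1]; exact ha.2.2

theorem mem_omegaCenter {X : Subgroup G} {z : G} (h1 : z ∈ X) (h2 : ∀ x ∈ X, x * z = z * x) (h3 : z * z = 1) :
    z ∈ omegaCenterOf X := by
  apply Subgroup.subset_closure
  refine ⟨⟨h1, Subgroup.mem_centralizer_iff.mpr h2⟩, ?_⟩
  rw [pow_two]; exact h3

theorem omegaCenter_conj {X : Subgroup G} {g z : G} (hg : ∀ x ∈ X, g * x * g⁻¹ ∈ X)
    (hg' : ∀ x ∈ X, g⁻¹ * x * g ∈ X) (hz : z ∈ omegaCenterOf X) :
    g * z * g⁻¹ ∈ omegaCenterOf X := by
  obtain ⟨h1, h2, h3⟩ := omegaCenter_mem hz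
  apply mem_omegaCenter (hg z h1)
  · intro x hx
    have h4 := h2 (g⁻¹ * x * g) (hg' x hx)
    calc x * (g * z * g⁻¹) = g * ((g⁻¹ * x * g) * z) * g⁻¹ := by group
      _ = g * (z * (g⁻¹ * x * g)) * g⁻¹ := by rw [h4]
      _ = _ := by group
  · calc g * z * g⁻¹ * (g * z * g⁻¹) = g * (z * z) * g⁻¹ := by group
      _ = 1 := by rw [h3]; group

/-! ### Sylow 2-subgroups of subgroups -/

theorem exists_isSylowTwoIn [Finite G] {X J : Subgroup G} (hJX : J ≤ X) (hJ : IsPGroup 2 J) :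
    ∃ S : Subgroup G, J ≤ S ∧ IsSylowTwoIn S X := by
  haveI : Fact (Nat.Prime 2) := ⟨Nat.prime_two⟩
  have h1 : IsPGroup 2 (J.subgroupOf X) := by
    apply IsPGroup.comap_of_injective hJ X.subtype X.subtype_injective
  obtain ⟨Q, hQ⟩ := h1.exists_le_sylow
  refine ⟨(Q : Subgroup X).map X.subtype, ?_, Subgroup.map_subtype_le _, ?_, ?_⟩
  · intro j hj
    exact ⟨⟨j, hJX hj⟩, hQ (by simpa [Subgroup.mem_subgroupOf] using hj), rfl⟩
  · exact Q.isPGroup'.map _
  · have h2 : ((Q : Subgroup X).map X.subtype).relIndex X = (Q : Subgroup X).index := by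
      rw [Subgroup.relIndex]
      congr 1
      exact Subgroup.comap_map_eq_self_of_injective X.subtype_injective _
    rw [h2, Nat.odd_iff]
    have := Q.not_dvd_index
    omega

theorem le_of_normal_of_isSylowTwoIn [Finite G] {S X D : Subgroup G} (hS : IsSylowTwoIn S X) (hDX : D ≤ X)
    (hDn : ∀ x ∈ X, ∀ d ∈ D, x * d * x⁻¹ ∈ D) (hD : IsPGroup 2 D) : D ≤ S := by
  haveI : Fact (Nat.Prime 2) := ⟨Nat.prime_two⟩
  obtain ⟨hSX, hSp, hodd⟩ := hS
  have hSN : S ≤ Subgroup.normalizer (D : Set G) := by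
    intro s hs
    apply Cfsg.Agent.Lib.Subnormal.mem_normalizer_of_conj_mem
    exact fun d hd => hDn s (hSX hs) d hd
  have hL : IsPGroup 2 (S ⊔ D : Subgroup G) := hSp.to_sup_of_normal_right' hD hSN
  have hLX : S ⊔ D ≤ X := sup_le hSX hDX
  have h1 := Subgroup.relIndex_mul_relIndex S (S ⊔ D) X le_sup_left hLX
  have h2 : Odd (S.relIndex (S ⊔ D)) := by
    rw [← h1] at hodd
    exact (Nat.odd_mul.mp hodd).1
  obtain ⟨n, hn⟩ := (IsPGroup.iff_card).mp hL
  have h3 : S.relIndex (S ⊔ D) * Nat.card S = Nat.card ↥(S ⊔ D) :=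
    Cfsg.Agent.Lib.ExtraBasics.relIndex_mul_card le_sup_left
  have h4 : S.relIndex (S ⊔ D) ∣ 2 ^ n := by
    rw [← hn, ← h3]; exact dvd_mul_right _ _
  obtain ⟨m, -, hm⟩ := (Nat.dvd_prime_pow Nat.prime_two).mp h4
  have h5 : m = 0 := by
    by_contra hm0
    rw [hm] at h2
    exact (Nat.not_even_iff_odd.mpr h2) ((Nat.even_pow.mpr ⟨even_two, hm0⟩))
  rw [h5, pow_zero] at hm
  have h6 : S ⊔ D ≤ S := Subgroup.relIndex_eq_one.mp hm
  exact le_sup_right.trans h6

/-! ### Four-groups -/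

theorem four_elems {W : Subgroup G} (hW : Nat.card W = 4) (hsq : ∀ w ∈ W, w * w = 1) {a b : G}
    (ha : a ∈ W) (hb : b ∈ W) (ha1 : a ≠ 1) (hb1 : b ≠ 1) (hab : a ≠ b) :
    ∀ x ∈ W, x = 1 ∨ x = a ∨ x = b ∨ x = a * b := by
  classical
  haveI : Finite W := Nat.finite_of_card_ne_zero (by omega)
  intro x hx
  by_contra hcon
  push Not at hcon
  obtain ⟨h1, h2, h3, h4⟩ := hcon
  have hab1 : a * b ≠ 1 := by
    intro h
    apply hab
    have : a = b⁻¹ := eq_inv_of_mul_eq_one_left h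
    rw [this]
    exact inv_eq_of_mul_eq_one_left (hsq b hb)
  have hab2 : a * b ≠ a := by
    intro h; exact hb1 (by simpa using h)
  have hab3 : a * b ≠ b := by
    intro h; exact ha1 (by simpa using h)
  have hF : (({1, a, b, a * b, x} : Finset G) : Set G) ⊆ (W : Set G) := by
    intro y hy
    simp only [Finset.coe_insert, Finset.coe_singleton, Set.mem_insert_iff, Set.mem_singleton_iff] at hy
    rcases hy with rfl | rfl | rfl | rfl | rfl
    · exact W.one_mem
    · exact ha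
    · exact hb
    · exact W.mul_mem ha hb
    · exact hx
  have hcard : ({1, a, b, a * b, x} : Finset G).card = 5 := by
    rw [Finset.card_insert_of_notMem, Finset.card_insert_of_notMem, Finset.card_insert_of_notMem,
      Finset.card_insert_of_notMem, Finset.card_singleton]
    · simp only [Finset.mem_singleton]; exact fun h => h4 h.symm
    · simp only [Finset.mem_insert, Finset.mem_singleton]; 
      rintro (h | h)
      · exact hab3 h.symm
      · exact h3 h.symm
    · simp only [Finset.mem_insert, Finset.mem_singleton]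
      rintro (h | h | h)
      · exact hab h
      · exact hab2 h.symm
      · exact h2 h.symm
    · simp only [Finset.mem_insert, Finset.mem_singleton]
      rintro (h | h | h | h)
      · exact ha1 h.symm
      · exact hb1 h.symm
      · exact hab1 h.symm
      · exact h1 h.symm
  have h5 : ({1, a, b, a * b, x} : Finset G).card ≤ Nat.card W := by
    rw [← Set.ncard_coe_finset, show Nat.card W = (W : Set G).ncard from Nat.card_coe_set_eq (W : Set G)]
    exact Set.ncard_le_ncard hF (Set.toFinite _)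
  omega

/-- A `2`-group acting on a subgroup `W` of even order fixes a non-identity element. -/
theorem exists_fixed_ne_one [Finite G] {Q W : Subgroup G} (hQ : IsPGroup 2 Q) (h2 : 2 ∣ Nat.card W)
    (hn : ∀ q ∈ Q, ∀ w ∈ W, q * w * q⁻¹ ∈ W) : ∃ w ∈ W, w ≠ 1 ∧ ∀ q ∈ Q, q * w * q⁻¹ = w := by
  haveI : Fact (Nat.Prime 2) := ⟨Nat.prime_two⟩
  letI : MulAction Q W :=
    { smul := fun q w => ⟨q.1 * w.1 * q.1⁻¹, hn q.1 q.2 w.1 w.2⟩
      one_smul := fun w => Subtype.ext (by show (1 : G) * w.1 * 1⁻¹ = w.1; simp)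
      mul_smul := fun a b w => Subtype.ext (by
        show (a.1 * b.1) * w.1 * (a.1 * b.1)⁻¹ = a.1 * (b.1 * w.1 * b.1⁻¹) * a.1⁻¹
        group) }
  have h1 : (1 : W) ∈ MulAction.fixedPoints Q W := by
    intro q
    apply Subtype.ext
    show q.1 * (1 : G) * q.1⁻¹ = 1
    simp
  obtain ⟨b, hb, hne⟩ := hQ.exists_fixed_point_of_prime_dvd_card_of_fixed_point W h2 h1
  refine ⟨b.1, b.2, ?_, ?_⟩
  · intro h
    exact hne (Subtype.ext h.symm)
  · intro q hq
    have := hb ⟨q, hq⟩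
    exact congrArg Subtype.val this

/-! ### `W_K` -/

/-- anything normalizing `K` normalizes `O₂(K)`. -/
theorem conj_mem_pCoreOf {K : Subgroup G} {g p : G} (hg : g ∈ Subgroup.normalizer (K : Set G))
    (hp : p ∈ pCoreOf 2 K) : g * p * g⁻¹ ∈ pCoreOf 2 K := by
  obtain ⟨u, hu, rfl⟩ := hp
  let φ : MulAut K := K.normalizerMonoidHom ⟨g, hg⟩
  have h := map_pCore_le_of_equiv (p := 2) φ ⟨u, hu, rfl⟩
  exact ⟨φ u, h, rfl⟩

theorem conj_mem_omega {K : Subgroup G} {g z : G} (hg : g ∈ Subgroup.normalizer (K : Set G))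
    (hz : z ∈ omegaCenterOf (pCoreOf 2 K)) : g * z * g⁻¹ ∈ omegaCenterOf (pCoreOf 2 K) := by
  apply omegaCenter_conj _ _ hz
  · exact fun x hx => conj_mem_pCoreOf hg hx
  · intro x hx
    have := conj_mem_pCoreOf (Subgroup.inv_mem _ hg) hx
    simpa using this

theorem wOf_le_omega (K : Subgroup G) : wOf K ≤ omegaCenterOf (pCoreOf 2 K) := by
  unfold wOf
  rw [Subgroup.commutator_le]
  intro ω hω x hx
  rw [commutatorElement_def]
  have h1 : x * ω⁻¹ * x⁻¹ ∈ omegaCenterOf (pCoreOf 2 K) :=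
    conj_mem_omega (Subgroup.le_normalizer hx) (Subgroup.inv_mem _ hω)
  have := Subgroup.mul_mem _ hω h1
  have e : ω * (x * ω⁻¹ * x⁻¹) = ω * x * ω⁻¹ * x⁻¹ := by group
  rwa [e] at this

theorem conj_mem_wOf {K : Subgroup G} {g w : G} (hg : g ∈ Subgroup.normalizer (K : Set G))
    (hw : w ∈ wOf K) : g * w * g⁻¹ ∈ wOf K := by
  unfold wOf at hw ⊢
  rw [Subgroup.commutator_def] at hw
  induction hw using Subgroup.closure_induction with
  | mem x hx =>
    obtain ⟨ω, hω, y, hy, rfl⟩ := hx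
    have h1 := conj_mem_omega hg hω
    have h2 : g * y * g⁻¹ ∈ K := (Subgroup.mem_normalizer_iff.mp hg y).mp hy
    have e : g * ⁅ω, y⁆ * g⁻¹ = ⁅g * ω * g⁻¹, g * y * g⁻¹⁆ := by
      simp only [commutatorElement_def]; group
    rw [e]
    exact Subgroup.commutator_mem_commutator h1 h2
  | one => simp [Subgroup.one_mem]
  | mul a b _ _ ha hb =>
    have e : g * (a * b) * g⁻¹ = (g * a * g⁻¹) * (g * b * g⁻¹) := by group
    rw [e]
    exact Subgroup.mul_mem _ ha hb
  | inv a _ ha =>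
    have e : g * a⁻¹ * g⁻¹ = (g * a * g⁻¹)⁻¹ := by group
    rw [e]
    exact Subgroup.inv_mem _ ha

theorem wOf_le_pCoreOf (K : Subgroup G) : wOf K ≤ pCoreOf 2 K :=
  fun _ hw => (omegaCenter_mem (wOf_le_omega K hw)).1

theorem wOf_commute_pCoreOf {K : Subgroup G} {p w : G} (hp : p ∈ pCoreOf 2 K) (hw : w ∈ wOf K) :
    p * w = w * p :=
  (omegaCenter_mem (wOf_le_omega K hw)).2.1 p hp

theorem wOf_comm {K : Subgroup G} {a b : G} (ha : a ∈ wOf K) (hb : b ∈ wOf K) : a * b = b * a :=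
  wOf_commute_pCoreOf (wOf_le_pCoreOf K ha) hb

/-- The structure extracted from a `J(T)`-component. -/
structure JCS (J K : Subgroup G) (k w₁ w₂ : G) : Prop where
  hJp : IsPGroup 2 J
  hJN : J ≤ Subgroup.normalizer (K : Set G)
  hKJ : ⁅K, J⁆ = K
  hP3 : (pCoreOf 2 K).relIndex K = 3
  hPK : pCoreOf 2 K ≤ K
  hPp : IsPGroup 2 (pCoreOf 2 K)
  hkK : k ∈ K
  hk3 : k ^ 3 = 1
  hk1 : k ≠ 1
  hKle : K ≤ pCoreOf 2 K ⊔ Subgroup.zpowers k
  hWsq : ∀ w ∈ wOf K, w * w = 1
  hw₁ : w₁ ∈ wOf K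
  hw₁1 : w₁ ≠ 1
  hw₂ : k * w₁ * k⁻¹ = w₂
  hk₂ : k * w₂ * k⁻¹ = w₁ * w₂
  hw₂mem : w₂ ∈ wOf K
  hw₂1 : w₂ ≠ 1
  hw₁₂ : w₁ ≠ w₂
  hset : ∀ x ∈ wOf K, x = 1 ∨ x = w₁ ∨ x = w₂ ∨ x = w₁ * w₂
  hfpf : ∀ x ∈ wOf K, k * x * k⁻¹ = x → x = 1
  hJw₁ : ∀ j ∈ J, j * w₁ * j⁻¹ = w₁
  hmove : ∃ j₀ ∈ J, j₀ * w₂ * j₀⁻¹ = w₁ * w₂
  hJS : ∀ S : Subgroup G, IsSylowTwoIn S (K ⊔ J) → J ≤ S → thompsonSubgroupOf 2 S = J

/-- The extraction. -/
theorem exists_JCS [Finite G] {T K : Subgroup G} (hT : IsPGroup 2 T) (hK : IsJComponent T K) :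
    ∃ k w₁ w₂ : G, JCS (thompsonSubgroupOf 2 T) K k w₁ w₂ := by
  classical
  haveI : Fact (Nat.Prime 2) := ⟨Nat.prime_two⟩
  haveI : Fact (Nat.Prime 3) := ⟨Nat.prime_three⟩
  set J : Subgroup G := thompsonSubgroupOf 2 T with hJdef
  obtain ⟨-, hKJ, hP3, hJS, hW4, hWsq⟩ := hK
  have hJp : IsPGroup 2 J := thompsonOf_isPGroup hT
  have hJN : J ≤ Subgroup.normalizer (K : Set G) := le_normalizer_of_commutator_eq hKJ
  have hPK : pCoreOf 2 K ≤ K := Subgroup.map_subtype_le _
  have hPp : IsPGroup 2 (pCoreOf 2 K) := (isPGroup_pCore 2).map _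
  -- an element of order 3
  have h3 : 3 ∣ Nat.card K := by
    have h1 := Cfsg.Agent.Lib.ExtraBasics.relIndex_mul_card hPK
    rw [← h1, hP3]
    exact dvd_mul_right _ _
  obtain ⟨k₀, hk₀⟩ := exists_prime_orderOf_dvd_card' (G := K) 3 h3
  set k : G := (k₀ : G) with hkdef
  have hkK : k ∈ K := k₀.2
  have hkord : orderOf k = 3 := by
    rw [hkdef, Subgroup.orderOf_coe]; exact hk₀
  have hk3 : k ^ 3 = 1 := by rw [← hkord]; exact pow_orderOf_eq_one k
  have hk1 : k ≠ 1 := by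
    intro h
    rw [h, orderOf_one] at hkord
    omega
  have hkP : k ∉ pCoreOf 2 K := by
    intro h
    apply hk1
    apply eq_one_of_coprime_of_mem hPp h
    rw [hkord]; norm_num
  have hKle : K ≤ pCoreOf 2 K ⊔ Subgroup.zpowers k := by
    set L : Subgroup G := pCoreOf 2 K ⊔ Subgroup.zpowers k with hL
    have hLK : L ≤ K := sup_le hPK (Subgroup.zpowers_le.mpr hkK)
    have h1 := Subgroup.relIndex_mul_relIndex (pCoreOf 2 K) L K le_sup_left hLK
    rw [hP3] at h1
    rcases (Nat.prime_three.eq_one_or_self_of_dvd _ (Dvd.intro _ h1)) with h2 | h2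
    · exfalso
      have h4 : L ≤ pCoreOf 2 K := Subgroup.relIndex_eq_one.mp h2
      exact hkP (h4 (Subgroup.mem_sup_right (Subgroup.mem_zpowers k)))
    · rw [h2] at h1
      have h5 : L.relIndex K = 1 := by omega
      exact Subgroup.relIndex_eq_one.mp h5
  have hWm : ∀ g ∈ Subgroup.normalizer (K : Set G), ∀ w ∈ wOf K, g * w * g⁻¹ ∈ wOf K :=
    fun g hg w hw => conj_mem_wOf hg hw
  have hkN : k ∈ Subgroup.normalizer (K : Set G) := Subgroup.le_normalizer hkK
  have hcomm_k : ∀ x : G, Commute (k ^ 2) x → Commute k x := by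
    intro x hx
    have h1 : (k ^ 2) ^ 2 = k := by
      calc (k ^ 2) ^ 2 = k ^ 3 * k := by group
        _ = k := by rw [hk3, one_mul]
    rw [← h1]
    exact hx.pow_left 2
  -- `k` moves something in `W`
  have hmoved : ∃ w₀ ∈ wOf K, k * w₀ * k⁻¹ ≠ w₀ := by
    by_contra hcon
    push Not at hcon
    have hk_om : ∀ ω ∈ omegaCenterOf (pCoreOf 2 K), Commute k ω := by
      intro ω hω
      have hωinv : ω⁻¹ = ω := inv_eq_of_mul_eq_one_left (omegaCenter_mem hω).2.2
      set w : G := ⁅ω, k⁆ with hw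
      have hwW : w ∈ wOf K := Subgroup.commutator_mem_commutator hω hkK
      have hww := hcon w hwW
      have h1 : k * ω * k⁻¹ = ω * w := by
        rw [hw, commutatorElement_def, hωinv]
        have hωω := (omegaCenter_mem hω).2.2
        calc k * ω * k⁻¹ = (ω * ω) * (k * ω * k⁻¹) := by rw [hωω, one_mul]
          _ = _ := by group
      apply hcomm_k
      show k ^ 2 * ω = ω * k ^ 2
      have h2 : k * (k * ω * k⁻¹) * k⁻¹ = ω := by
        rw [h1]
        have e : k * (ω * w) * k⁻¹ = (k * ω * k⁻¹) * (k * w * k⁻¹) := by group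
        rw [e, h1, hww, mul_assoc, hWsq w hwW, mul_one]
      calc k ^ 2 * ω = (k * (k * ω * k⁻¹) * k⁻¹) * k ^ 2 := by
            rw [pow_two]; group
        _ = ω * k ^ 2 := by rw [h2]
    have hcen : ∀ x ∈ K, ∀ ω ∈ omegaCenterOf (pCoreOf 2 K), x * ω = ω * x := by
      intro x hx ω hω
      have hle : pCoreOf 2 K ⊔ Subgroup.zpowers k ≤ Subgroup.centralizer ({ω} : Set G) := by
        apply sup_le
        · intro p hp
          rw [Subgroup.mem_centralizer_singleton_iff]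
          exact (omegaCenter_mem hω).2.1 p hp
        · rw [Subgroup.zpowers_le, Subgroup.mem_centralizer_singleton_iff]
          exact hk_om ω hω
      exact Subgroup.mem_centralizer_singleton_iff.mp (hle (hKle hx))
    have hbot : wOf K = ⊥ := by
      rw [eq_bot_iff]
      unfold wOf
      rw [Subgroup.commutator_le]
      intro ω hω x hx
      rw [commutatorElement_def, Subgroup.mem_bot, mul_inv_eq_one, mul_inv_eq_iff_eq_mul]
      exact (hcen x hx ω hω).symm
    rw [hbot] at hW4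
    simp at hW4
  obtain ⟨w₀, hw₀W, hw₀⟩ := hmoved
  have hw₀1 : w₀ ≠ 1 := by
    rintro rfl
    simp at hw₀
  have hk2fix : ∀ x : G, k * (k * x * k⁻¹) * k⁻¹ = x → k * x * k⁻¹ = x := by
    intro x hx
    have h1 : Commute (k ^ 2) x := by
      show k ^ 2 * x = x * k ^ 2
      calc k ^ 2 * x = (k * (k * x * k⁻¹) * k⁻¹) * k ^ 2 := by rw [pow_two]; group
        _ = x * k ^ 2 := by rw [hx]
    have h2 := hcomm_k x h1
    rw [h2.eq]; group
  have hfpf : ∀ x ∈ wOf K, k * x * k⁻¹ = x → x = 1 := by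
    intro w hw hfix
    by_contra hw1
    have hne : w ≠ w₀ := by
      rintro rfl
      exact hw₀ hfix
    have hs := four_elems hW4 hWsq hw hw₀W hw1 hw₀1 hne
    have hkw₀ := hWm k hkN w₀ hw₀W
    rcases hs _ hkw₀ with h | h | h | h
    · apply hw₀1
      have : k * w₀ * k⁻¹ * k = 1 * k := by rw [h]
      simpa using this
    · -- `k w₀ k⁻¹ = w`
      apply hne
      have h5 : k * w₀ * k⁻¹ = k * w * k⁻¹ := by rw [h, hfix]
      have h6 : w₀ = w := by
        have := congrArg (fun t => k⁻¹ * t * k) h5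
        simpa [mul_assoc] using this
      exact h6.symm
    · exact hw₀ h
    · apply hw₀
      apply hk2fix
      rw [h]
      have e : k * (w * w₀) * k⁻¹ = (k * w * k⁻¹) * (k * w₀ * k⁻¹) := by group
      rw [e, hfix, h, ← mul_assoc, hWsq w hw, one_mul]
  -- the fixed point
  have h2W : 2 ∣ Nat.card (wOf K) := by rw [hW4]; norm_num
  obtain ⟨w₁, hw₁, hw₁1, hJw₁⟩ := exists_fixed_ne_one hJp h2W (fun j hj w hw => hWm j (hJN hj) w hw)
  set w₂ : G := k * w₁ * k⁻¹ with hw₂def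
  have hw₂mem : w₂ ∈ wOf K := hWm k hkN w₁ hw₁
  have hw₂1 : w₂ ≠ 1 := by
    intro h
    apply hw₁1
    have : k * w₁ * k⁻¹ * k = 1 * k := by rw [← hw₂def, h]
    simpa using this
  have hw₁₂ : w₁ ≠ w₂ := fun h => hw₁1 (hfpf w₁ hw₁ h.symm)
  have hset := four_elems hW4 hWsq hw₁ hw₂mem hw₁1 hw₂1 hw₁₂
  have hk₂ : k * w₂ * k⁻¹ = w₁ * w₂ := by
    rcases hset _ (hWm k hkN w₂ hw₂mem) with h | h | h | h
    · exfalso
      apply hw₂1
      have : k * w₂ * k⁻¹ * k = 1 * k := by rw [h]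
      simpa using this
    · exfalso
      apply hw₁1
      apply hfpf w₁ hw₁
      apply hk2fix
      exact h
    · exfalso
      exact hw₂1 (hfpf w₂ hw₂mem h)
    · exact h
  have hcommJ : ∀ j ∈ J, ∀ w ∈ wOf K, j * w₂ * j⁻¹ = w₂ → j * w * j⁻¹ = w := by
    intro j hj w hw hfix
    rcases hset w hw with rfl | rfl | rfl | rfl
    · simp
    · exact hJw₁ j hj
    · exact hfix
    · have e : j * (w₁ * w₂) * j⁻¹ = (j * w₁ * j⁻¹) * (j * w₂ * j⁻¹) := by group
      rw [e, hJw₁ j hj, hfix]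
  have hmove : ∃ j₀ ∈ J, j₀ * w₂ * j₀⁻¹ = w₁ * w₂ := by
    by_contra hcon
    push Not at hcon
    have hfix : ∀ j ∈ J, j * w₂ * j⁻¹ = w₂ := by
      intro j hj
      rcases hset _ (hWm j (hJN hj) w₂ hw₂mem) with h | h | h | h
      · exfalso
        apply hw₂1
        have : j * w₂ * j⁻¹ * j = 1 * j := by rw [h]
        simpa using this
      · exfalso
        apply hw₁₂
        have h5 : j * w₂ * j⁻¹ = j * w₁ * j⁻¹ := by rw [h, hJw₁ j hj]
        have := congrArg (fun t => j⁻¹ * t * j) h5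
        simpa [mul_assoc] using this.symm
      · exact h
      · exact absurd h (hcon j hj)
    have hle : ⁅K, J⁆ ≤ Subgroup.centralizer (wOf K : Set G) := by
      rw [Subgroup.commutator_le]
      intro x hx j hj
      rw [Subgroup.mem_centralizer_iff]
      intro w hw
      rw [commutatorElement_def]
      have h1 : x⁻¹ * w * x ∈ wOf K := by
        have := hWm x⁻¹ (Subgroup.inv_mem _ (Subgroup.le_normalizer hx)) w hw
        simpa using this
      have h2 := hcommJ j hj _ h1 (hfix j hj)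
      have h3 : j⁻¹ * w * j = w := by
        have hj' := Subgroup.inv_mem _ hj
        have := hcommJ j⁻¹ hj' w hw (hfix j⁻¹ hj')
        simpa using this
      -- compute
      have h4 : (x * j * x⁻¹ * j⁻¹) * w = x * (j * (x⁻¹ * (j⁻¹ * w * j) * x) * j⁻¹) * x⁻¹ * (x * j * x⁻¹ * j⁻¹) := by
        group
      have h5 : x * (j * (x⁻¹ * (j⁻¹ * w * j) * x) * j⁻¹) * x⁻¹ = w := by
        rw [h3, h2]; group
      rw [h4, h5]
    rw [hKJ] at hle
    have h1 := Subgroup.mem_centralizer_iff.mp (hle hkK) w₁ hw₁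
    apply hw₁₂
    rw [hw₂def]
    calc w₁ = w₁ * k * k⁻¹ := by group
      _ = k * w₁ * k⁻¹ := by rw [h1]
  exact ⟨k, w₁, w₂, hJp, hJN, hKJ, hP3, hPK, hPp, hkK, hk3, hk1, hKle, hWsq, hw₁, hw₁1, rfl, hk₂, hw₂mem, hw₂1,
    hw₁₂, hset, hfpf, hJw₁, hmove, hJS⟩

end Cfsg.Agent.Lib.JCompStruct
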