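import Mathlib
import Cfsg.Prelude.Def_JComponents
import Cfsg.Agent.Lib.FFAct5
import Cfsg.Agent.Lib.JCompStruct
import Cfsg.Agent.Lib.PCore
import Cfsg.Agent.Lib.PResid
import Cfsg.Agent.Lib.CoprimeInv

/-!
# Failure of factorization at the level of the group, part 1
-/

set_option autoImplicit false
set_option linter.unusedSectionVars false

open Cfsg

namespace Cfsg.Agent.Lib.FFG

open Cfsg.Agent.Lib.FFAct Cfsg.Agent.Lib.PCore Cfsg.Agent.Lib.JCompStruct

section TypeLevel

variable {Y : Type*} [Group Y] [Finite Y]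

theorem mem_of_pow_coprime (H : Subgroup Y) (x : Y) {m n : ℕ} (hc : m.Coprime n) (h1 : x ^ m ∈ H) (h2 : x ^ n ∈ H) :
    x ∈ H := by
  have h3 : ((m.gcd n : ℕ) : ℤ) = m * Nat.gcdA m n + n * Nat.gcdB m n := Nat.gcd_eq_gcd_ab m n
  rw [hc] at h3
  have h4 : x = (x ^ m) ^ Nat.gcdA m n * (x ^ n) ^ Nat.gcdB m n := by
    rw [← zpow_natCast, ← zpow_natCast, ← zpow_mul, ← zpow_mul, ← zpow_add, ← h3]
    simp
  rw [h4]
  exact H.mul_mem (H.zpow_mem h1 _) (H.zpow_mem h2 _)

theorem exists_two_pow_of_mem {T : Subgroup Y} (hT : IsPGroup 2 T) {t : Y} (ht : t ∈ T) : ∃ n : ℕ, t ^ (2 ^ n) = 1 := by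
  obtain ⟨n, hn⟩ := hT ⟨t, ht⟩
  exact ⟨n, congrArg Subtype.val hn⟩

/-- The key computation behind `O₂(H) = 1`. -/
theorem core_range_eq_bot {Q : Type*} [Group Q] [Finite Q] (φ : Y →* Q) (T₀ : Sylow 2 Y)
    (hcomm : ∀ c ∈ φ.ker, ∀ t ∈ (T₀ : Subgroup Y), c * t * c⁻¹ * t⁻¹ ∈ pCore 2 Y)
    (hT : ∀ c ∈ φ.ker, c ∈ (T₀ : Subgroup Y) → c ∈ pCore 2 Y) (hR : pCore 2 Y ≤ φ.ker) :
    pCore 2 φ.range = ⊥ := by
  classical
  haveI : Fact (Nat.Prime 2) := ⟨Nat.prime_two⟩
  set R := pCore 2 Y with hRdef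
  set π := φ.rangeRestrict with hπ
  have hπs : Function.Surjective π := φ.rangeRestrict_surjective
  set B := pCore 2 φ.range with hBdef
  set B₁ := B.comap π with hB₁
  haveI hB₁n : B₁.Normal := Subgroup.Normal.comap inferInstance π
  have hRT : R ≤ T₀ := pCore_le_sylow 2 T₀
  have hπker : ∀ y, π y = 1 ↔ y ∈ φ.ker := by
    intro y
    rw [MonoidHom.mem_ker]
    constructor
    · intro h
      exact congrArg Subtype.val h
    · intro h
      exact Subtype.ext h
  -- each element of `B₁` is congruent to an element of `T₀ ⊓ B₁`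
  have hcong : ∀ b ∈ B₁, ∃ t ∈ (T₀ : Subgroup Y) ⊓ B₁, π t = π b := by
    intro b hb
    let S : Sylow 2 φ.range := T₀.mapSurjective hπs
    have h1 : B ≤ (S : Subgroup φ.range) := pCore_le_sylow 2 S
    have h2 : π b ∈ (S : Subgroup φ.range) := h1 hb
    rw [Sylow.coe_mapSurjective] at h2
    obtain ⟨t, ht, he⟩ := h2
    refine ⟨t, ⟨ht, ?_⟩, he⟩
    show π t ∈ B
    rw [he]; exact hb
  -- `C / R` has odd order
  haveI hCn : φ.ker.Normal := inferInstance
  have hcodd : ∀ c ∈ φ.ker, ∀ n : ℕ, c ^ (2 ^ n) ∈ R → c ∈ R := by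
    intro c hc n hn
    obtain ⟨S, hS⟩ := Cfsg.Agent.Lib.PResid.exists_sylow_inf_of_normal T₀ φ.ker
    have hSeq : (S : Subgroup φ.ker) = R.subgroupOf φ.ker := by
      apply Subgroup.map_injective φ.ker.subtype_injective
      rw [hS, Subgroup.map_subgroupOf_eq_of_le hR]
      apply le_antisymm
      · rintro x ⟨h1, h2⟩
        exact hT x h2 h1
      · intro x hx
        exact ⟨hRT hx, hR hx⟩
    have hSn : (R.subgroupOf φ.ker).Normal := inferInstance
    have hidx : ¬ 2 ∣ (R.subgroupOf φ.ker).index := by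
      rw [← hSeq]
      exact S.not_dvd_index
    have h3 := Subgroup.pow_index_mem (R.subgroupOf φ.ker) (⟨c, hc⟩ : φ.ker)
    have h4 : c ^ (R.subgroupOf φ.ker).index ∈ R := h3
    have hcop : ((R.subgroupOf φ.ker).index).Coprime (2 ^ n) :=
      Nat.Coprime.pow_right n (Nat.Coprime.symm ((Nat.Prime.coprime_iff_not_dvd Nat.prime_two).mpr hidx))
    exact mem_of_pow_coprime R c hcop h4 hn
  -- `T₀ ⊓ B₁` is normal
  have hnormal : ((T₀ : Subgroup Y) ⊓ B₁).Normal := by
    constructor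
    rintro t ⟨ht1, ht2⟩ g
    have ht' : g * t * g⁻¹ ∈ B₁ := hB₁n.conj_mem t ht2 g
    obtain ⟨t₁, ⟨ht₁1, ht₁2⟩, he⟩ := hcong _ ht'
    set c := g * t * g⁻¹ * t₁⁻¹ with hc
    have hcC : c ∈ φ.ker := by
      rw [← hπker, hc, map_mul, map_inv, he, mul_inv_cancel]
    have hte : g * t * g⁻¹ = c * t₁ := by rw [hc]; group
    obtain ⟨n₁, hn₁⟩ := exists_two_pow_of_mem T₀.isPGroup' ht1
    obtain ⟨n₂, hn₂⟩ := exists_two_pow_of_mem T₀.isPGroup' ht₁1
    set n := n₁ + n₂ with hn
    have h1 : (g * t * g⁻¹) ^ (2 ^ n) = 1 := by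
      rw [conj_pow, hn, pow_add, pow_mul, hn₁, one_pow, mul_one, mul_inv_cancel]
    have h2 : t₁ ^ (2 ^ n) = 1 := by
      rw [hn, add_comm, pow_add, pow_mul, hn₂, one_pow]
    let q := QuotientGroup.mk' R
    have hcq : Commute (q c) (q t₁) := by
      have h3 := hcomm c hcC t₁ ht₁1
      have h4 : q (c * t₁ * c⁻¹ * t₁⁻¹) = 1 := (QuotientGroup.eq_one_iff _).mpr h3
      simp only [map_mul, map_inv] at h4
      show q c * q t₁ = q t₁ * q c
      have h5 : q c * q t₁ * (q c)⁻¹ = q t₁ := mul_inv_eq_one.mp h4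
      exact mul_inv_eq_iff_eq_mul.mp h5
    have h3 : (q c) ^ (2 ^ n) = 1 := by
      have h4 : (q c * q t₁) ^ (2 ^ n) = 1 := by
        rw [← map_mul, ← hte, ← map_pow, h1, map_one]
      rw [hcq.mul_pow, ← map_pow (f := q) t₁, h2, map_one, mul_one] at h4
      exact h4
    have hcR : c ∈ R := by
      apply hcodd c hcC n
      rw [← QuotientGroup.eq_one_iff]
      show q (c ^ (2 ^ n)) = 1
      rw [map_pow]; exact h3
    exact ⟨by rw [hte]; exact Subgroup.mul_mem _ (hRT hcR) ht₁1, ht'⟩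
  have hT1p : IsPGroup 2 ((T₀ : Subgroup Y) ⊓ B₁ : Subgroup Y) := T₀.isPGroup'.to_le inf_le_left
  have hT1R : (T₀ : Subgroup Y) ⊓ B₁ ≤ R := le_pCore hnormal hT1p
  rw [eq_bot_iff]
  intro h hh
  obtain ⟨b, rfl⟩ := hπs h
  obtain ⟨t, ht, he⟩ := hcong b hh
  rw [Subgroup.mem_bot, ← he, hπker]
  exact hR (hT1R ht)

/-- In a finite solvable group with `O₂ = 1`: the Fitting subgroup has odd order. -/
theorem odd_fitting (h2 : pCore 2 Y = ⊥) : Odd (Nat.card (fittingSubgroup Y)) := by
  haveI : Fact (Nat.Prime 2) := ⟨Nat.prime_two⟩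
  have h1 := fittingSubgroup_le_sup (G := Y) 2
  rw [h2, bot_sup_eq] at h1
  have h3 : Nat.card (fittingSubgroup Y) ∣ Nat.card (pPrimeCore 2 Y) := Subgroup.card_dvd_of_le h1
  have h4 := card_pPrimeCore_coprime (G := Y) 2
  exact Nat.coprime_two_right.mp (Nat.Coprime.coprime_dvd_left h3 h4)

theorem mem_three_of_fitting {x : Y} (hx : x ∈ fittingSubgroup Y) (h3 : x ^ 3 = 1) : x ∈ pCore 3 Y := by
  haveI : Fact (Nat.Prime 3) := ⟨Nat.prime_three⟩
  have h1 := fittingSubgroup_le_sup (G := Y) 3 hx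
  obtain ⟨p, hp, q, hq, rfl⟩ := Subgroup.mem_sup_of_normal_right.mp h1
  have hdisj : Disjoint (pCore 3 Y) (pPrimeCore 3 Y) := by
    rw [Subgroup.disjoint_def]
    intro z hz1 hz2
    have h4 : orderOf z ∣ Nat.card (pCore 3 Y) := by
      have := orderOf_dvd_natCard (⟨z, hz1⟩ : pCore 3 Y)
      rwa [Subgroup.orderOf_mk] at this
    have h5 : orderOf z ∣ Nat.card (pPrimeCore 3 Y) := by
      have := orderOf_dvd_natCard (⟨z, hz2⟩ : pPrimeCore 3 Y)
      rwa [Subgroup.orderOf_mk] at this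
    obtain ⟨k, hk⟩ := IsPGroup.iff_card.mp (isPGroup_pCore (G := Y) 3)
    have h6 : (Nat.card (pCore 3 Y)).Coprime (Nat.card (pPrimeCore 3 Y)) := by
      rw [hk]
      exact Nat.Coprime.pow_left k (Nat.Coprime.symm (card_pPrimeCore_coprime (G := Y) 3))
    have h7 : orderOf z = 1 := Nat.Coprime.eq_one_of_dvd (Nat.Coprime.coprime_dvd_left h4
      (Nat.Coprime.coprime_dvd_right h5 h6)) dvd_rfl
    exact orderOf_eq_one_iff.mp h7
  have hcomm : Commute p q := Subgroup.commute_of_normal_of_disjoint _ _ inferInstance inferInstance hdisj p q hp hq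
  rw [hcomm.mul_pow] at h3
  have h4 : q ^ 3 = (p ^ 3)⁻¹ := eq_inv_of_mul_eq_one_right h3
  have h5 : q ^ 3 = 1 := by
    have h6 : q ^ 3 ∈ pCore 3 Y := by
      rw [h4]; exact Subgroup.inv_mem _ (Subgroup.pow_mem _ hp 3)
    have h7 : q ^ 3 ∈ pPrimeCore 3 Y := Subgroup.pow_mem _ hq 3
    exact Subgroup.disjoint_def.mp hdisj h6 h7
  have hq1 : q = 1 := by
    have h6 : orderOf q ∣ 3 := orderOf_dvd_of_pow_eq_one h5
    have h7 : orderOf q ∣ Nat.card (pPrimeCore 3 Y) := by
      have := orderOf_dvd_natCard (⟨q, hq⟩ : pPrimeCore 3 Y)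
      rwa [Subgroup.orderOf_mk] at this
    have h8 := card_pPrimeCore_coprime (G := Y) 3
    have h9 : orderOf q = 1 := Nat.Coprime.eq_one_of_dvd (Nat.Coprime.coprime_dvd_left h7 h8) h6
    exact orderOf_eq_one_iff.mp h9
  rw [hq1, mul_one]
  exact hp

end TypeLevel

section Ffc

variable {M : Type*} [CommGroup M] [Finite M]

/-- The context for a solvable `H` with `O₂(H) = 1`. -/
theorem ffc_of_solvable (H : Subgroup (MulAut M)) (hs : Group.IsSolvable H) (h2 : pCore 2 H = ⊥) :
    FFC H ((fittingSubgroup H).map H.subtype) ((pCore 3 H).map H.subtype) := by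
  haveI : Fact (Nat.Prime 3) := ⟨Nat.prime_three⟩
  haveI := hs
  refine ⟨Subgroup.map_subtype_le _, ?_, ?_, ?_, ?_, ?_, ?_, ?_, ?_⟩
  · rintro h hh _ ⟨x, hx, rfl⟩
    have := (fittingSubgroup_normal (G := H)).conj_mem x hx ⟨h, hh⟩
    exact ⟨_, this, rfl⟩
  · rw [Subgroup.card_map_of_injective (Subgroup.subtype_injective _)]
    exact odd_fitting h2
  · have hn : Group.IsNilpotent (fittingSubgroup H) := isNilpotent_fittingSubgroup
    have e : ↥((fittingSubgroup H).map H.subtype) ≃* ↥(fittingSubgroup H) :=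
      (Subgroup.equivMapOfInjective _ _ (Subgroup.subtype_injective _)).symm
    haveI : Group.IsSolvable (fittingSubgroup H) := inferInstance
    exact Group.isSolvable_of_isSolvable_injective (f := e.toMonoidHom) e.injective
  · intro h hh hc
    refine ⟨⟨h, hh⟩, ?_, rfl⟩
    apply centralizer_fittingSubgroup_le
    apply Subgroup.mem_centralizer_iff.mpr
    intro x hx
    apply Subtype.ext
    exact (hc x.1 ⟨x, hx, rfl⟩).symm
  · exact Subgroup.map_mono (pCore_le_fittingSubgroup 3)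
  · rintro h hh _ ⟨x, hx, rfl⟩
    have := (pCore_normal (G := H) 3).conj_mem x hx ⟨h, hh⟩
    exact ⟨_, this, rfl⟩
  · exact (isPGroup_pCore 3).map _
  · rintro _ ⟨x, hx, rfl⟩ h3
    refine ⟨x, mem_three_of_fitting hx ?_, rfl⟩
    apply Subtype.ext
    simpa using h3

end Ffc

section EA

variable {G : Type*} [Group G]

/-- An elementary abelian subgroup, as a type carrying only a commutative group structure. -/
def EA (X : Subgroup G) : Type _ := ↥X

variable (X : Subgroup G) [hX : Fact (∀ a ∈ X, a * a = 1)]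

theorem ea_comm {a b : G} (ha : a ∈ X) (hb : b ∈ X) : a * b = b * a := by
  have h1 := hX.out _ (X.mul_mem ha hb)
  have h2 := hX.out _ ha
  have h3 := hX.out _ hb
  calc a * b = a * b * (a * b * (b * a)) := by
        have : a * b * (b * a) = 1 := by
          calc a * b * (b * a) = a * (b * b) * a := by group
            _ = 1 := by rw [h3, mul_one, h2]
        rw [this, mul_one]
    _ = (a * b * (a * b)) * (b * a) := by group
    _ = b * a := by rw [h1, one_mul]

instance EA.commGroup : CommGroup (EA X) :=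
  { (inferInstance : Group ↥X) with
    mul_comm := fun a b => Subtype.ext (ea_comm X (a : ↥X).2 (b : ↥X).2) }

instance EA.finite [Finite G] : Finite (EA X) := inferInstanceAs (Finite ↥X)

/-- The inclusion. -/
def EA.val : EA X →* G where
  toFun v := (v : ↥X).1
  map_one' := rfl
  map_mul' _ _ := rfl

theorem EA.val_injective : Function.Injective (EA.val X) := fun _ _ h => Subtype.ext h

theorem EA.val_mem (v : EA X) : EA.val X v ∈ X := (v : ↥X).2

/-- Elements of `EA X`. -/
def EA.mk {v : G} (hv : v ∈ X) : EA X := (⟨v, hv⟩ : ↥X)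

@[simp] theorem EA.val_mk {v : G} (hv : v ∈ X) : EA.val X (EA.mk X hv) = v := rfl

theorem EA.mk_val (v : EA X) : EA.mk X (EA.val_mem X v) = v := rfl

theorem EA.hM (v : EA X) : v * v = 1 := by
  apply EA.val_injective X
  rw [map_mul, map_one]
  exact hX.out _ (EA.val_mem X v)

theorem EA.range_val : (EA.val X).range = X := by
  ext v
  constructor
  · rintro ⟨w, rfl⟩
    exact EA.val_mem X w
  · intro hv
    exact ⟨EA.mk X hv, rfl⟩

theorem EA.card : Nat.card (EA X) = Nat.card X := rfl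

/-- The image in `G` of a subgroup of `EA X`. -/
theorem EA.card_map (U : Subgroup (EA X)) : Nat.card (U.map (EA.val X)) = Nat.card U :=
  Subgroup.card_map_of_injective (EA.val_injective X)

/-- Conjugation. -/
def actE {g : G} (hg : g ∈ Subgroup.normalizer (X : Set G)) : MulAut (EA X) where
  toFun v := EA.mk X ((Subgroup.mem_normalizer_iff.mp hg _).mp (EA.val_mem X v))
  invFun v := EA.mk X (by
    have h := (Subgroup.mem_normalizer_iff.mp hg (g⁻¹ * EA.val X v * g))
    apply h.mpr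
    have e : g * (g⁻¹ * EA.val X v * g) * g⁻¹ = EA.val X v := by group
    rw [e]; exact EA.val_mem X v)
  left_inv v := by
    apply EA.val_injective X
    simp only [EA.val_mk]
    group
  right_inv v := by
    apply EA.val_injective X
    simp only [EA.val_mk]
    group
  map_mul' a b := by
    apply EA.val_injective X
    simp only [map_mul, EA.val_mk]
    group

theorem actE_val {g : G} (hg : g ∈ Subgroup.normalizer (X : Set G)) (v : EA X) :
    EA.val X (actE X hg v) = g * EA.val X v * g⁻¹ := rfl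

/-- The conjugation action of `Y`. -/
def act (Y : Subgroup G) (h : Y ≤ Subgroup.normalizer (X : Set G)) : ↥Y →* MulAut (EA X) where
  toFun y := actE X (h y.2)
  map_one' := by
    ext v
    apply EA.val_injective X
    show 1 * EA.val X v * 1⁻¹ = EA.val X v
    group
  map_mul' a b := by
    ext v
    apply EA.val_injective X
    show (a.1 * b.1) * EA.val X v * (a.1 * b.1)⁻¹ = a.1 * (b.1 * EA.val X v * b.1⁻¹) * a.1⁻¹
    group

variable {X}

theorem act_val {Y : Subgroup G} (h : Y ≤ Subgroup.normalizer (X : Set G)) (y : ↥Y) (v : EA X) :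
    EA.val X (act X Y h y v) = y.1 * EA.val X v * y.1⁻¹ := rfl

theorem act_eq_one_iff {Y : Subgroup G} (h : Y ≤ Subgroup.normalizer (X : Set G)) (y : ↥Y) :
    act X Y h y = 1 ↔ ∀ v ∈ X, y.1 * v = v * y.1 := by
  constructor
  · intro h1 v hv
    have h2 : act X Y h y (EA.mk X hv) = EA.mk X hv := by rw [h1]; rfl
    have h3 := congrArg (EA.val X) h2
    rw [act_val, EA.val_mk] at h3
    exact mul_inv_eq_iff_eq_mul.mp h3
  · intro h1
    ext w
    apply EA.val_injective X
    rw [act_val]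
    have := h1 _ (EA.val_mem X w)
    rw [this]
    show EA.val X w * y.1 * y.1⁻¹ = EA.val X w
    group

end EA

end Cfsg.Agent.Lib.FFG
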