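import Mathlib
import Cfsg.Agent.Lib.FFG1

/-!
# Failure of factorization at the level of the group, part 2: the ZN context
-/

set_option autoImplicit false
set_option linter.unusedSectionVars false

open Cfsg

namespace Cfsg.Agent.Lib.FFG

open Cfsg.Agent.Lib.FFAct Cfsg.Agent.Lib.PCore Cfsg.Agent.Lib.JCompStruct Cfsg.Agent.Lib.ThompsonJ

variable {G : Type*} [Group G] [Finite G]

theorem card_eq_map_mul_ker {A B : Type*} [Group A] [Finite A] [Group B] (f : A →* B) (U : Subgroup A) :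
    Nat.card U = Nat.card (U.map f) * Nat.card ↥(U ⊓ f.ker) := by
  let ψ : ↥U →* B := f.comp U.subtype
  have h1 := Subgroup.card_mul_index ψ.ker
  rw [Subgroup.index_ker] at h1
  have h2 : Nat.card ψ.range = Nat.card (U.map f) := by
    congr 1
    rw [MonoidHom.range_comp]
    simp
  have h3 : Nat.card ψ.ker = Nat.card ↥(U ⊓ f.ker) := by
    apply Nat.card_congr
    refine Equiv.ofBijective (fun z => (⟨z.1.1, z.1.2, ?_⟩ : ↥(U ⊓ f.ker))) ⟨?_, ?_⟩
    · exact z.2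
    · intro a b h
      have h' : a.1.1 = b.1.1 := by
        have := congrArg (fun w : ↥(U ⊓ f.ker) => (w : A)) h
        simpa using this
      apply Subtype.ext
      apply Subtype.ext
      exact h'
    · rintro ⟨v, hv1, hv2⟩
      exact ⟨⟨⟨v, hv1⟩, hv2⟩, rfl⟩
  rw [← h1, h2, h3, mul_comm]

/-- The context for the faithful action of `Y / C_Y(X)` on `X`. -/
structure ZNC (X Y T₀ : Subgroup G) : Prop where
  solv : Group.IsSolvable Y
  hXe : ∀ a ∈ X, a * a = 1
  hXT : X ≤ T₀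
  hN : Y ≤ Subgroup.normalizer (X : Set G)
  syl : IsSylowTwoIn T₀ Y
  hcomm : ∀ c ∈ Y, (∀ v ∈ X, c * v = v * c) → ∀ t ∈ T₀, c * t * c⁻¹ * t⁻¹ ∈ pCoreOf 2 Y
  hT : ∀ c ∈ T₀, (∀ v ∈ X, c * v = v * c) → c ∈ pCoreOf 2 Y
  hR : ∀ r ∈ pCoreOf 2 Y, ∀ v ∈ X, r * v = v * r

variable {X Y T₀ : Subgroup G} (z : ZNC X Y T₀)
include z

theorem ZNC.fact : Fact (∀ a ∈ X, a * a = 1) := ⟨z.hXe⟩

theorem ZNC.syl_p : IsPGroup 2 (T₀.subgroupOf Y) :=
  IsPGroup.comap_of_injective z.syl.2.1 _ Y.subtype_injective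

theorem ZNC.syl_idx : ¬ 2 ∣ (T₀.subgroupOf Y).index := by
  have h2 : Odd (T₀.subgroupOf Y).index := z.syl.2.2
  rw [Nat.odd_iff] at h2
  omega

/-- The Sylow subgroup of `Y`. -/
noncomputable def ZNC.syl' : Sylow 2 ↥Y := (ZNC.syl_p z).toSylow (ZNC.syl_idx z)

theorem ZNC.mem_syl' {y : ↥Y} : y ∈ (z.syl' : Subgroup ↥Y) ↔ y.1 ∈ T₀ := by
  rw [ZNC.syl', IsPGroup.toSylow_coe]
  exact Subgroup.mem_subgroupOf

variable [hf : Fact (∀ a ∈ X, a * a = 1)]

theorem ZNC.mem_core {y : ↥Y} : y ∈ pCore 2 ↥Y ↔ y.1 ∈ pCoreOf 2 Y := by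
  constructor
  · intro h
    exact ⟨y, h, rfl⟩
  · rintro ⟨y', h, he⟩
    have : y' = y := Subtype.ext he
    rwa [← this]

/-- `O₂(Y / C_Y(X)) = 1`. -/
theorem ZNC.core : pCore 2 (act X Y z.hN).range = ⊥ := by
  apply core_range_eq_bot (act X Y z.hN) z.syl'
  · intro c hc t ht
    rw [ZNC.mem_core z]
    exact z.hcomm c.1 c.2 ((act_eq_one_iff z.hN c).mp hc) t.1 ((ZNC.mem_syl' z).mp ht)
  · intro c hc hcT
    rw [ZNC.mem_core z]
    exact z.hT c.1 ((ZNC.mem_syl' z).mp hcT) ((act_eq_one_iff z.hN c).mp hc)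
  · intro r hr
    rw [MonoidHom.mem_ker, act_eq_one_iff]
    exact z.hR r.1 ((ZNC.mem_core z).mp hr)

theorem ZNC.range_solv : Group.IsSolvable (act X Y z.hN).range := by
  haveI := z.solv
  exact solvable_of_surjective (act X Y z.hN).rangeRestrict_surjective

/-- The context for the abstract theory. -/
abbrev ZNC.Fo (z : ZNC X Y T₀) : Subgroup (MulAut (EA X)) :=
  (fittingSubgroup (act X Y z.hN).range).map (act X Y z.hN).range.subtype

abbrev ZNC.Po (z : ZNC X Y T₀) : Subgroup (MulAut (EA X)) :=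
  (pCore 3 (act X Y z.hN).range).map (act X Y z.hN).range.subtype

theorem ZNC.ffc : FFC (act X Y z.hN).range z.Fo z.Po :=
  ffc_of_solvable _ z.range_solv z.core

/-- A maximal elementary abelian subgroup of `T₀` acts as a best offender. -/
theorem ZNC.best {A : Subgroup G} (hA : MaxEA T₀ A) : Best ((A.subgroupOf Y).map (act X Y z.hN)) := by
  classical
  set Φ := act X Y z.hN with hΦ
  have hAT := hA.1
  have hAY : A ≤ Y := hAT.trans z.syl.1
  set A' := A.subgroupOf Y with hA'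
  have hcardA' : Nat.card A' = Nat.card A := card_subgroupOf' hAY
  intro E hE
  set E₁' := A' ⊓ E.comap Φ with hE₁'
  have hmapE : E₁'.map Φ = E := by
    apply le_antisymm
    · rintro _ ⟨y, hy, rfl⟩
      exact hy.2
    · intro e he
      obtain ⟨a, ha, rfl⟩ := hE he
      exact ⟨a, ⟨ha, he⟩, rfl⟩
  have hkerE : E₁' ⊓ Φ.ker = A' ⊓ Φ.ker := by
    apply le_antisymm
    · rintro y ⟨⟨h1, _⟩, h3⟩
      exact ⟨h1, h3⟩
    · rintro y ⟨h1, h3⟩
      refine ⟨⟨h1, ?_⟩, h3⟩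
      show Φ y ∈ E
      rw [MonoidHom.mem_ker.mp h3]
      exact E.one_mem
  have hc1 := card_eq_map_mul_ker Φ E₁'
  rw [hmapE, hkerE] at hc1
  have hc2 := card_eq_map_mul_ker Φ A'
  set A₀ := A' ⊓ Φ.ker with hA₀
  have hA₀pos : 0 < Nat.card A₀ := Nat.card_pos
  -- the two subgroups of `G`
  set E₁ := E₁'.map Y.subtype with hE₁
  have hcE₁ : Nat.card E₁ = Nat.card E₁' := card_map_subtype' E₁'
  set F₁ := (fixQ E).map (EA.val X) with hF₁
  have hcF₁ : Nat.card F₁ = Nat.card (fixQ E) := EA.card_map X _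
  have hE₁A : E₁ ≤ A := by
    rintro _ ⟨y, hy, rfl⟩
    exact hy.1
  have hF₁X : F₁ ≤ X := by
    rintro _ ⟨v, _, rfl⟩
    exact EA.val_mem X v
  have hcomm : ∀ a ∈ E₁, ∀ b ∈ F₁, a * b = b * a := by
    rintro _ ⟨y, hy, rfl⟩ _ ⟨v, hv, rfl⟩
    have h1 : Φ y v = v := hv _ hy.2
    have h2 := congrArg (EA.val X) h1
    rw [hΦ, act_val] at h2
    exact mul_inv_eq_iff_eq_mul.mp h2
  have hXea : IsElementaryAbelian 2 X := by
    apply isElementaryAbelian_of_comm
    · intro a ha b hb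
      exact ea_comm X ha hb
    · intro a ha
      rw [pow_two]; exact z.hXe a ha
  have hsup : IsElementaryAbelian 2 (E₁ ⊔ F₁) := ea_sup (ea_mono hA.2.1 hE₁A) (ea_mono hXea hF₁X) hcomm
  have hsupT : E₁ ⊔ F₁ ≤ T₀ := sup_le (hE₁A.trans hAT) (hF₁X.trans z.hXT)
  have hbound := hA.2.2 _ hsupT hsup
  have hE₁N : E₁ ≤ Subgroup.normalizer (F₁ : Set G) := by
    intro a ha
    rw [Subgroup.mem_normalizer_iff]
    intro b
    constructor
    · intro hb
      have e : a * b * a⁻¹ = b := by rw [hcomm a ha b hb]; group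
      rwa [e]
    · intro hb
      have hb' : a⁻¹ * (a * b * a⁻¹) * a = b := by group
      have h2 := hcomm a⁻¹ (E₁.inv_mem ha) _ hb
      rw [← hb']
      have e : a⁻¹ * (a * b * a⁻¹) * a = a * b * a⁻¹ := by rw [h2]; group
      rwa [e]
  have hform := Cfsg.Agent.Lib.CoprimeInv.card_sup_mul_card_inf hE₁N
  -- the fixed points of `Â`
  have hfixA : (fixQ (A'.map Φ)).map (EA.val X) = A ⊓ X := by
    apply le_antisymm
    · rintro _ ⟨v, hv, rfl⟩
      refine ⟨?_, EA.val_mem X v⟩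
      apply hA.mem_of_commute (z.hXT (EA.val_mem X v))
      · rw [pow_two]; exact z.hXe _ (EA.val_mem X v)
      · intro a ha
        have h1 : Φ ⟨a, hAY ha⟩ v = v := hv _ ⟨⟨a, hAY ha⟩, ha, rfl⟩
        have h2 := congrArg (EA.val X) h1
        rw [hΦ, act_val] at h2
        exact mul_inv_eq_iff_eq_mul.mp h2
    · rintro v ⟨hv1, hv2⟩
      refine ⟨EA.mk X hv2, ?_, rfl⟩
      rintro _ ⟨y, hy, rfl⟩
      apply EA.val_injective X
      rw [hΦ, act_val, EA.val_mk]
      have h1 : y.1 ∈ A := hy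
      have h2 : y.1 * v = v * y.1 := Cfsg.Agent.Lib.ThompsonJ.ea_comm hA.2.1 h1 hv1
      rw [h2]; group
  have hcfixA : Nat.card (fixQ (A'.map Φ)) = Nat.card ↥(A ⊓ X) := by
    rw [← hfixA]
    exact (EA.card_map X _).symm
  have hinf : Nat.card ↥(E₁ ⊓ F₁) ≤ Nat.card ↥(A ⊓ X) :=
    Subgroup.card_le_of_le (inf_le_inf hE₁A hF₁X)
  -- conclude
  apply Nat.le_of_mul_le_mul_right _ hA₀pos
  calc Nat.card E * Nat.card (fixQ E) * Nat.card A₀ = Nat.card E₁ * Nat.card F₁ := by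
        rw [hcE₁, hcF₁, hc1]; ring
    _ = Nat.card ↥(E₁ ⊔ F₁) * Nat.card ↥(E₁ ⊓ F₁) := hform.symm
    _ ≤ Nat.card A * Nat.card ↥(A ⊓ X) := Nat.mul_le_mul hbound hinf
    _ = _ := by
        rw [← hcardA', hc2, hcfixA]; ring

/-- Best offender theorem for maximal elementary abelian subgroups. -/
theorem ZNC.tr_gen {A : Subgroup G} (hA : MaxEA T₀ A) :
    (A.subgroupOf Y).map (act X Y z.hN) ≤
        Subgroup.closure {t | t ∈ (A.subgroupOf Y).map (act X Y z.hN) ∧ IsTr t} ∧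
      Nat.card (EA X) = Nat.card ((A.subgroupOf Y).map (act X Y z.hN)) *
        Nat.card (fixQ ((A.subgroupOf Y).map (act X Y z.hN))) := by
  apply best_main (EA.hM X) z.ffc
  · exact Subgroup.map_le_iff_le_comap.mpr (fun y _ => ⟨y, rfl⟩)
  · rintro _ ⟨a, ha, rfl⟩
    rw [← map_mul]
    have h1 : a * a = 1 := by
      have h2 : a.1 ^ 2 = 1 := hA.2.1.2 a.1 ha
      apply Subtype.ext
      simpa [pow_two] using h2
    rw [h1, map_one]
  · exact z.best hA

/-- The counting consequence. -/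
theorem ZNC.card_form {A : Subgroup G} (hA : MaxEA T₀ A) :
    Nat.card X * Nat.card ↥(A ⊓ Subgroup.centralizer (X : Set G)) = Nat.card A * Nat.card ↥(A ⊓ X) := by
  classical
  set Φ := act X Y z.hN with hΦ
  have hAY : A ≤ Y := hA.1.trans z.syl.1
  set A' := A.subgroupOf Y with hA'
  have hcardA' : Nat.card A' = Nat.card A := card_subgroupOf' hAY
  have hc2 := card_eq_map_mul_ker Φ A'
  have hker : Nat.card ↥(A' ⊓ Φ.ker) = Nat.card ↥(A ⊓ Subgroup.centralizer (X : Set G)) := by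
    have hmap : (A' ⊓ Φ.ker).map Y.subtype = A ⊓ Subgroup.centralizer (X : Set G) := by
      apply le_antisymm
      · rintro _ ⟨y, ⟨h1, h2⟩, rfl⟩
        refine ⟨h1, Subgroup.mem_centralizer_iff.mpr ?_⟩
        intro v hv
        exact ((act_eq_one_iff z.hN y).mp h2 v hv).symm
      · rintro y ⟨h1, h2⟩
        refine ⟨⟨y, hAY h1⟩, ⟨h1, ?_⟩, rfl⟩
        apply MonoidHom.mem_ker.mpr
        rw [hΦ]
        apply (act_eq_one_iff z.hN _).mpr
        intro v hv
        exact (Subgroup.mem_centralizer_iff.mp h2 v hv).symm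
    rw [← hmap]
    exact (card_map_subtype' _).symm
  have hfixA : (fixQ (A'.map Φ)).map (EA.val X) = A ⊓ X := by
    apply le_antisymm
    · rintro _ ⟨v, hv, rfl⟩
      refine ⟨?_, EA.val_mem X v⟩
      apply hA.mem_of_commute (z.hXT (EA.val_mem X v))
      · rw [pow_two]; exact z.hXe _ (EA.val_mem X v)
      · intro a ha
        have h1 : Φ ⟨a, hAY ha⟩ v = v := hv _ ⟨⟨a, hAY ha⟩, ha, rfl⟩
        have h2 := congrArg (EA.val X) h1
        rw [hΦ, act_val] at h2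
        exact mul_inv_eq_iff_eq_mul.mp h2
    · rintro v ⟨hv1, hv2⟩
      refine ⟨EA.mk X hv2, ?_, rfl⟩
      rintro _ ⟨y, hy, rfl⟩
      apply EA.val_injective X
      rw [hΦ, act_val, EA.val_mk]
      have h1 : y.1 ∈ A := hy
      have h2 : y.1 * v = v * y.1 := Cfsg.Agent.Lib.ThompsonJ.ea_comm hA.2.1 h1 hv1
      rw [h2]; group
  have hcfixA : Nat.card (fixQ (A'.map Φ)) = Nat.card ↥(A ⊓ X) := by
    rw [← hfixA]
    exact (EA.card_map X _).symm
  have hcM : Nat.card X = Nat.card (A'.map Φ) * Nat.card (fixQ (A'.map Φ)) := (z.tr_gen hA).2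
  rw [hcM, hcfixA, ← hker, ← hcardA', hc2]
  ring

theorem ZNC.X_ea : IsElementaryAbelian 2 X := by
  apply isElementaryAbelian_of_comm
  · intro a ha b hb
    exact ea_comm X ha hb
  · intro a ha
    rw [pow_two]; exact z.hXe a ha

/-- Replacement: `C_A(X) X` is again a maximal elementary abelian subgroup. -/
theorem ZNC.replace {A : Subgroup G} (hA : MaxEA T₀ A) :
    MaxEA T₀ ((A ⊓ Subgroup.centralizer (X : Set G)) ⊔ X) := by
  classical
  set A₀ := A ⊓ Subgroup.centralizer (X : Set G) with hA₀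
  have hcomm : ∀ a ∈ A₀, ∀ b ∈ X, a * b = b * a := by
    intro a ha b hb
    exact (Subgroup.mem_centralizer_iff.mp ha.2 b hb).symm
  have hea : IsElementaryAbelian 2 (A₀ ⊔ X) := ea_sup (ea_mono hA.2.1 inf_le_left) z.X_ea hcomm
  have hle : A₀ ⊔ X ≤ T₀ := sup_le (inf_le_left.trans hA.1) z.hXT
  refine ⟨hle, hea, ?_⟩
  intro B hB hBe
  refine (hA.2.2 B hB hBe).trans ?_
  have hN : A₀ ≤ Subgroup.normalizer (X : Set G) := by
    intro a ha
    rw [Subgroup.mem_normalizer_iff]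
    intro b
    constructor
    · intro hb
      rw [hcomm a ha b hb]; simpa using hb
    · intro hb
      have h1 := hcomm a⁻¹ (A₀.inv_mem ha) _ hb
      have h2 : a⁻¹ * (a * b * a⁻¹) = b * a⁻¹ := by group
      rw [h2] at h1
      have h3 : b = a * b * a⁻¹ := mul_right_cancel h1
      rw [h3]; exact hb
  have hform := Cfsg.Agent.Lib.CoprimeInv.card_sup_mul_card_inf hN
  have hinf : A₀ ⊓ X = A ⊓ X := by
    apply le_antisymm
    · exact inf_le_inf inf_le_left le_rfl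
    · rintro v ⟨h1, h2⟩
      refine ⟨⟨h1, Subgroup.mem_centralizer_iff.mpr ?_⟩, h2⟩
      intro w hw
      exact ea_comm X hw h2
  rw [hinf] at hform
  have hc := z.card_form hA
  have hpos : 0 < Nat.card ↥(A ⊓ X) := Nat.card_pos
  apply Nat.le_of_mul_le_mul_right _ hpos
  rw [← hA₀] at hc
  rw [hform, mul_comm (Nat.card A₀)]
  exact hc.ge

/-- `X ≤ J(T₀)`. -/
theorem ZNC.le_thompson : X ≤ thompsonSubgroupOf 2 T₀ := by
  obtain ⟨A, hA⟩ := exists_maxEA T₀
  exact le_sup_right.trans (z.replace hA).le_thompson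

end Cfsg.Agent.Lib.FFG
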