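import Mathlib
import Cfsg.Agent.Lib.FFG2
import Cfsg.Agent.Lib.BGFit2

/-!
# Failure of factorization at the level of the group, part 3: the ZN context for ZN-groups; lines
-/

set_option autoImplicit false
set_option linter.unusedSectionVars false

open Cfsg

namespace Cfsg.Agent.Lib.FFAct

variable {M : Type*} [CommGroup M] [Finite M]

section Lines

variable {H F P : Subgroup (MulAut M)}
variable (hM : ∀ v : M, v * v = 1) (C : FFC H F P)
include hM C

omit hM C in
theorem IsLine.inv {t y : MulAut M} (hl : IsLine F t y) : IsLine F t y⁻¹ := by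
  refine ⟨inv_ne_one.mpr hl.1, ?_, F.inv_mem hl.2.2.1, ?_⟩
  · rw [conj_inv_eq, hl.2.1]
  · intro x hx hinv
    rcases hl.2.2.2 x hx hinv with h | h | h
    · left; exact h
    · right; right; rw [inv_inv]; exact h
    · right; left; exact h

omit hM C in
theorem IsLine.unique {t y y' : MulAut M} (hl : IsLine F t y) (hl' : IsLine F t y') : y' = y ∨ y' = y⁻¹ := by
  rcases hl.2.2.2 y' hl'.2.2.1 hl'.2.1 with h | h | h
  · exact absurd h hl'.1
  · left; exact h
  · right; exact h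

/-- Lines meeting nontrivially are equal. -/
theorem line_eq_of_meet {t y t' y' : MulAut M} {c c' : M} (ht : IsTrC t c) (hl : IsLine F t y)
    (ht' : IsTrC t' c') (ht'H : t' ∈ H) (hl' : IsLine F t' y') {u : M} (hu : u ∈ com y) (hu' : u ∈ com y') (hu1 : u ≠ 1) :
    y' = y ∨ y' = y⁻¹ := by
  have hcomm : y' * y = y * y' := hl.comm hM C ht ht' ht'H hl'
  rcases hl.tr_norm hM C ht ht' ht'H with h | h
  · exfalso
    have hcy : t' * y = y * t' := by
      rw [mul_inv_eq_iff_eq_mul] at h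
      exact h
    have hfc : y c' = c' := by
      have h2 : IsTrC (y * t' * y⁻¹) (y c') := ht'.conj y
      have e : y * t' * y⁻¹ = t' := by rw [← hcy]; group
      rw [e] at h2
      exact h2.center_unique ht'
    have hcard' := hl'.card hM C ht'
    have hcm' := hl'.center_mem hM C ht'
    have hoddy' := hl'.odd C
    have hfix : y u = u := by
      have hy'y : ∀ w, y (y' w) = y' (y w) := by
        intro w
        have : (y * y') w = (y' * y) w := by rw [hcomm]
        exact this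
      have hy'y2 : ∀ w, y (y'⁻¹ w) = y'⁻¹ (y w) := by
        intro w
        have hc2 : y * y'⁻¹ = y'⁻¹ * y := by
          have : Commute y' y := hcomm
          exact (this.inv_left.eq).symm
        have : (y * y'⁻¹) w = (y'⁻¹ * y) w := by rw [hc2]
        exact this
      rcases four_elems_act hM hoddy' hcard' hcm' ht'.c_ne_one hu' with h2 | h2 | h2 | h2
      · rw [h2, map_one]
      · rw [h2, hfc]
      · rw [h2, hy'y, hfc]
      · rw [h2, hy'y2, hfc]
    exact hu1 (fx_inf_com hM (hl.odd C) hfix hu)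
  · rcases IsLine.same hM hl hl' h with h2 | h2
    · left; exact h2.symm
    · right; rw [h2, inv_inv]

omit C in
/-- Two transvections with the same center inverting the same element are equal. -/
theorem tr_eq_of_center {t t' y : MulAut M} {c : M} (ht : IsTrC t c) (ht' : IsTrC t' c) (hodd : Odd (orderOf y))
    (hy1 : y ≠ 1) (hinv : t * y * t⁻¹ = y⁻¹) (hinv' : t' * y * t'⁻¹ = y⁻¹) : t = t' := by
  ext v
  obtain ⟨f, hf, u, hu, rfl⟩ := fx_mul_com hM hodd v
  rw [map_mul, map_mul, tr_fix_of_inv hM ht hodd hy1 hinv hf, tr_fix_of_inv hM ht' hodd hy1 hinv' hf]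
  congr 1
  by_cases hu1 : u = 1
  · rw [hu1, map_one, map_one]
  by_cases huc : u = c
  · rw [huc, ht.fix_c hM, ht'.fix_c hM]
  · rw [tr_moves_of_inv hM ht hodd hy1 hinv hu hu1 huc, tr_moves_of_inv hM ht' hodd hy1 hinv' hu hu1 huc]

omit C in
/-- The product of two transvections inverting `y` is in `⟨y⟩`. -/
theorem same_line_prod {t t' y : MulAut M} {c c' : M} (ht : IsTrC t c) (ht' : IsTrC t' c') (hodd : Odd (orderOf y))
    (hy1 : y ≠ 1) (hinv : t * y * t⁻¹ = y⁻¹) (hinv' : t' * y * t'⁻¹ = y⁻¹) :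
    t * t' = 1 ∨ t * t' = y ∨ t * t' = y⁻¹ := by
  by_cases hcc : c = c'
  · subst hcc
    left
    rw [← tr_eq_of_center hM ht ht' hodd hy1 hinv hinv']
    exact ht.mul_self hM
  right
  obtain ⟨hcard, hcm⟩ := inv_struct hM ht hodd hy1 hinv
  obtain ⟨_, hcm'⟩ := inv_struct hM ht' hodd hy1 hinv'
  have hc1 := ht.c_ne_one
  have hc'1 := ht'.c_ne_one
  have hmv : t' c = c * c' := tr_moves_of_inv hM ht' hodd hy1 hinv' hcm hc1 hcc
  have hmv' : t c' = c' * c := tr_moves_of_inv hM ht hodd hy1 hinv hcm' hc'1 (Ne.symm hcc)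
  have hfc := ht.fix_c hM
  have hfc' := ht'.fix_c hM
  -- the product on `[M,y]`
  have hp1 : (t * t') c = c' := by
    show t (t' c) = c'
    rw [hmv, map_mul, hfc, hmv', mul_comm c', ← mul_assoc, hM, one_mul]
  have hp2 : (t * t') c' = c * c' := by
    show t (t' c') = c * c'
    rw [hfc', hmv', mul_comm]
  have hp3 : (t * t') 1 = 1 := map_one _
  have hfixf : ∀ f, y f = f → (t * t') f = f := by
    intro f hf
    show t (t' f) = f
    rw [tr_fix_of_inv hM ht' hodd hy1 hinv' hf, tr_fix_of_inv hM ht hodd hy1 hinv hf]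
  have hext : ∀ z : MulAut M, (∀ f, y f = f → z f = f) → z c = c' → z c' = c * c' → t * t' = z := by
    intro z hz1 hz2 hz3
    ext v
    obtain ⟨f, hf, u, hu, rfl⟩ := fx_mul_com hM hodd v
    rw [map_mul, map_mul, hfixf f hf, hz1 f hf]
    congr 1
    rcases four_elems hM hcard hcm hcm' hc1 hc'1 hcc hu with h | h | h | h
    · rw [h, map_one, map_one]
    · rw [h, hp1, hz2]
    · rw [h, hp2, hz3]
    · rw [h, map_mul, map_mul, hp1, hp2, hz2, hz3]
  have hyc : y c ∈ com y := map_com_mem y hcm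
  have hyc1 := four_act_ne hM hodd hcard hcm hc1
  rcases four_elems hM hcard hcm hcm' hc1 hc'1 hcc hyc with h | h | h | h
  · exact absurd h hyc1.2
  · exact absurd h hyc1.1
  · -- `y c = c'`
    left
    apply hext y (fun f hf => hf) h
    rw [← h, four_act hM hodd hcard hcm hc1]
  · -- `y c = c c'`
    right
    have h1 : y⁻¹ c = c' := by
      rw [four_inv hM hodd hcard hcm hc1, h, ← mul_assoc, hM, one_mul]
    apply hext y⁻¹ ?_ h1
    · have hy3 := cube_eq_one hM hodd hcard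
      have h2 : y⁻¹ c' = y c := by
        rw [← h1]
        show (y⁻¹ * y⁻¹) c = y c
        have : y⁻¹ * y⁻¹ = y := by
          have e : y ^ 3 = y * y * y := by simp [pow_succ]
          rw [e] at hy3
          calc y⁻¹ * y⁻¹ = y⁻¹ * y⁻¹ * (y * y * y) := by rw [hy3, mul_one]
            _ = y := by group
        rw [this]
      rw [h2, h]
    · intro f hf
      conv_lhs => rw [← hf]
      simp

end Lines

end Cfsg.Agent.Lib.FFAct

namespace Cfsg.Agent.Lib.FFG

open Cfsg.Agent.Lib.FFAct Cfsg.Agent.Lib.PCore Cfsg.Agent.Lib.JCompStruct Cfsg.Agent.Lib.ThompsonJ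
open Cfsg.Agent.Lib.BGFit2

variable {G : Type*} [Group G] [Finite G]

theorem le_of_sylow_of_pGroup {T₀ Y U : Subgroup G} (h : IsSylowTwoIn T₀ Y) (hU : IsPGroup 2 U) (h1 : T₀ ≤ U) (h2 : U ≤ Y) :
    U ≤ T₀ := by
  obtain ⟨hTY, hTp, hodd⟩ := h
  have h3 := Subgroup.relIndex_mul_relIndex T₀ U Y h1 h2
  have h4 : Odd (T₀.relIndex U) := by
    rw [← h3] at hodd
    exact (Nat.odd_mul.mp hodd).1
  obtain ⟨n, hn⟩ := (IsPGroup.iff_card).mp hU
  have h5 : T₀.relIndex U * Nat.card T₀ = Nat.card U := Cfsg.Agent.Lib.ExtraBasics.relIndex_mul_card h1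
  have h6 : T₀.relIndex U ∣ 2 ^ n := by
    rw [← hn, ← h5]; exact dvd_mul_right _ _
  obtain ⟨m, -, hm⟩ := (Nat.dvd_prime_pow Nat.prime_two).mp h6
  have h7 : m = 0 := by
    by_contra hm0
    rw [hm] at h4
    exact (Nat.not_even_iff_odd.mpr h4) ((Nat.even_pow.mpr ⟨even_two, hm0⟩))
  rw [h7, pow_zero] at hm
  exact Subgroup.relIndex_eq_one.mp hm

theorem core_le_sylow {T₀ Y : Subgroup G} (h : IsSylowTwoIn T₀ Y) : pCoreOf 2 Y ≤ T₀ := by
  apply le_of_normal_of_isSylowTwoIn h (pCoreOf_le 2 Y)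
  · intro x hx d hd
    have := le_normalizer_pCoreOf 2 Y hx
    exact (Subgroup.mem_normalizer_iff.mp this d).mp hd
  · exact isPGroup_pCoreOf 2 Y

/-- `Ω₁(Z(O₂(Y)))` is normalized by `Y`. -/
theorem omega_normalized (Y : Subgroup G) :
    Y ≤ Subgroup.normalizer (omegaCenterOf (pCoreOf 2 Y) : Set G) := by
  intro y hy
  have hyR := le_normalizer_pCoreOf 2 Y hy
  rw [Subgroup.mem_normalizer_iff]
  intro z
  constructor
  · intro hz
    exact conj_mem_omega (Subgroup.le_normalizer hy) hz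
  · intro hz
    have := conj_mem_omega (Subgroup.inv_mem _ (Subgroup.le_normalizer hy)) hz
    have e : y⁻¹ * (y * z * y⁻¹) * y⁻¹⁻¹ = z := by group
    rwa [e] at this

/-- The ZN lemma. -/
theorem znc_of (hZ : ∀ S : Sylow 2 G, Subgroup.centralizer (omegaCenterOf (S : Subgroup G) : Set G) ≤
      Subgroup.normalizer ((S : Subgroup G) : Set G)) {Y T₀ : Subgroup G} (hs : Group.IsSolvable Y)
    (hT : IsSylowTwoIn T₀ Y) (S : Sylow 2 G) (hTS : T₀ ≤ S) (hZR : omegaCenterOf (S : Subgroup G) ≤ pCoreOf 2 Y) :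
    ZNC (omegaCenterOf (pCoreOf 2 Y)) Y T₀ := by
  set R := pCoreOf 2 Y with hR
  set X := omegaCenterOf R with hX
  have hRT : R ≤ T₀ := core_le_sylow hT
  have hXR : X ≤ R := fun v hv => (omegaCenter_mem hv).1
  have hZX : omegaCenterOf (S : Subgroup G) ≤ X := by
    intro z hz
    obtain ⟨h1, h2, h3⟩ := omegaCenter_mem hz
    exact mem_omegaCenter (hZR hz) (fun x hx => h2 x (hTS (hRT hx))) h3
  have hcen : ∀ c, (∀ v ∈ X, c * v = v * c) → c ∈ Subgroup.normalizer ((S : Subgroup G) : Set G) := by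
    intro c hc
    apply hZ S
    apply Subgroup.mem_centralizer_iff.mpr
    intro z hz
    exact (hc z (hZX hz)).symm
  have hSY : (S : Subgroup G) ⊓ Y ≤ T₀ :=
    le_of_sylow_of_pGroup hT (S.isPGroup'.to_le inf_le_left) (le_inf hTS hT.1) inf_le_right
  -- `C`
  set C := Y ⊓ Subgroup.centralizer (X : Set G) with hC
  have hmemC : ∀ c, c ∈ C ↔ c ∈ Y ∧ ∀ v ∈ X, c * v = v * c := by
    intro c
    constructor
    · rintro ⟨h1, h2⟩
      exact ⟨h1, fun v hv => (Subgroup.mem_centralizer_iff.mp h2 v hv).symm⟩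
    · rintro ⟨h1, h2⟩
      exact ⟨h1, Subgroup.mem_centralizer_iff.mpr fun v hv => (h2 v hv).symm⟩
  have hconjC : ∀ g ∈ Y, ∀ c ∈ C, g * c * g⁻¹ ∈ C := by
    intro g hg c hc
    obtain ⟨h1, h2⟩ := (hmemC c).mp hc
    refine (hmemC _).mpr ⟨Y.mul_mem (Y.mul_mem hg h1) (Y.inv_mem hg), ?_⟩
    intro v hv
    have h3 : g⁻¹ * v * g ∈ X := by
      have := (Subgroup.mem_normalizer_iff.mp (omega_normalized Y (Y.inv_mem hg)) v).mp hv
      simpa using this
    have h4 := h2 _ h3
    calc g * c * g⁻¹ * v = g * (c * (g⁻¹ * v * g)) * g⁻¹ := by group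
      _ = g * ((g⁻¹ * v * g) * c) * g⁻¹ := by rw [h4]
      _ = _ := by group
  have hYC : Y ≤ Subgroup.normalizer (C : Set G) := by
    intro g hg
    rw [Subgroup.mem_normalizer_iff]
    intro c
    constructor
    · exact hconjC g hg c
    · intro hc
      have := hconjC g⁻¹ (Y.inv_mem hg) _ hc
      have e : g⁻¹ * (g * c * g⁻¹) * g⁻¹⁻¹ = c := by group
      rwa [e] at this
  have hCY : C ≤ Y := inf_le_left
  -- `S ⊓ C ≤ R`
  have hSC : (S : Subgroup G) ⊓ C ≤ R := by
    have h1 : (S : Subgroup G) ⊓ C ≤ pCoreOf 2 C := by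
      apply le_pCoreOf inf_le_right
      · have h2 : C ≤ Subgroup.normalizer ((S : Subgroup G) : Set G) := fun c hc =>
          hcen c ((hmemC c).mp hc).2
        exact Cfsg.Agent.Lib.CoprimeInv.le_normalizer_inf h2 Subgroup.le_normalizer
      · exact S.isPGroup'.to_le inf_le_left
    exact h1.trans (pCoreOf_le_pCoreOf_of_normal hCY hYC 2)
  refine ⟨hs, fun a ha => (omegaCenter_mem ha).2.2, hXR.trans hRT, omega_normalized Y, hT, ?_, ?_, ?_⟩
  · intro c hc hcx t ht
    have hcN := hcen c hcx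
    have hcC : c ∈ C := (hmemC c).mpr ⟨hc, hcx⟩
    apply hSC
    constructor
    · have h1 : c * t * c⁻¹ ∈ (S : Subgroup G) :=
        (Subgroup.mem_normalizer_iff.mp hcN t).mp (hTS ht)
      exact Subgroup.mul_mem _ h1 (Subgroup.inv_mem _ (hTS ht))
    · have h2 : t * c⁻¹ * t⁻¹ ∈ C :=
        (Subgroup.mem_normalizer_iff.mp (hYC (hT.1 ht)) _).mp (C.inv_mem hcC)
      have e : c * t * c⁻¹ * t⁻¹ = c * (t * c⁻¹ * t⁻¹) := by group
      rw [e]
      exact C.mul_mem hcC h2
  · intro c hc hcx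
    exact hSC ⟨hTS hc, (hmemC c).mpr ⟨hT.1 hc, hcx⟩⟩
  · intro r hr v hv
    exact (omegaCenter_mem hv).2.1 r hr

end Cfsg.Agent.Lib.FFG
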