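import Mathlib
import Cfsg.Agent.Lib.FFG3

/-!
# Failure of factorization at the level of the group, part 4: `J(T)`-components act as lines
-/

set_option autoImplicit false
set_option linter.unusedSectionVars false

open Cfsg
open scoped commutatorElement

namespace Cfsg.Agent.Lib.FFG

open Cfsg.Agent.Lib.FFAct Cfsg.Agent.Lib.PCore Cfsg.Agent.Lib.JCompStruct Cfsg.Agent.Lib.ThompsonJ
open Cfsg.Agent.Lib.BGFit2

variable {G : Type*} [Group G] [Finite G]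

section TypeLevel

variable {Y : Type*} [Group Y] [Finite Y]

/-- `C / R` has odd order. -/
theorem ker_odd {Q : Type*} [Group Q] (φ : Y →* Q) (T₀ : Sylow 2 Y)
    (hT : ∀ c ∈ φ.ker, c ∈ (T₀ : Subgroup Y) → c ∈ pCore 2 Y) (hR : pCore 2 Y ≤ φ.ker) {c : Y} (hc : c ∈ φ.ker) {n : ℕ}
    (hn : c ^ (2 ^ n) ∈ pCore 2 Y) : c ∈ pCore 2 Y := by
  haveI : Fact (Nat.Prime 2) := ⟨Nat.prime_two⟩
  set R := pCore 2 Y with hRdef
  have hRT : R ≤ T₀ := pCore_le_sylow 2 T₀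
  haveI hCn : φ.ker.Normal := inferInstance
  obtain ⟨S, hS⟩ := Cfsg.Agent.Lib.PResid.exists_sylow_inf_of_normal T₀ φ.ker
  have hSeq : (S : Subgroup φ.ker) = R.subgroupOf φ.ker := by
    apply Subgroup.map_injective φ.ker.subtype_injective
    rw [hS, Subgroup.map_subgroupOf_eq_of_le hR]
    apply le_antisymm
    · rintro x ⟨h1, h2⟩
      exact hT x h2 h1
    · intro x hx
      exact ⟨hRT hx, hR hx⟩
  have hSn : (R.subgroupOf φ.ker).Normal := inferInstance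
  have hidx : ¬ 2 ∣ (R.subgroupOf φ.ker).index := by
    rw [← hSeq]
    exact S.not_dvd_index
  have h3 := Subgroup.pow_index_mem (R.subgroupOf φ.ker) (⟨c, hc⟩ : φ.ker)
  have h4 : c ^ (R.subgroupOf φ.ker).index ∈ R := h3
  have hcop : ((R.subgroupOf φ.ker).index).Coprime (2 ^ n) :=
    Nat.Coprime.pow_right n (Nat.Coprime.symm ((Nat.Prime.coprime_iff_not_dvd Nat.prime_two).mpr hidx))
  exact mem_of_pow_coprime R c hcop h4 hn

end TypeLevel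

section ZNCfacts

variable {X Y T₀ : Subgroup G} (z : ZNC X Y T₀) [hf : Fact (∀ a ∈ X, a * a = 1)]
include z

/-- `c` centralizes `X`, `c^(2^n) ∈ O₂(Y)` then `c ∈ O₂(Y)`. -/
theorem ZNC.codd {c : ↥Y} (hc : act X Y z.hN c = 1) {n : ℕ} (hn : c ^ (2 ^ n) ∈ pCore 2 ↥Y) : c ∈ pCore 2 ↥Y := by
  apply ker_odd (act X Y z.hN) z.syl' _ _ hc hn
  · intro c hc hcT
    rw [ZNC.mem_core z]
    exact z.hT c.1 ((ZNC.mem_syl' z).mp hcT) ((act_eq_one_iff z.hN c).mp hc)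
  · intro r hr
    rw [MonoidHom.mem_ker, act_eq_one_iff]
    exact z.hR r.1 ((ZNC.mem_core z).mp hr)

/-- The generating transvections of `J(T₀)`. -/
def ZNC.gens (z : ZNC X Y T₀) : Set (MulAut (EA X)) :=
  {t | ∃ A a, MaxEA T₀ A ∧ a ∈ A ∧ ∃ h : a ∈ Y, t = act X Y z.hN ⟨a, h⟩ ∧ IsTr t}

theorem ZNC.gens_le : Subgroup.closure z.gens ≤ trSub (act X Y z.hN).range := by
  rw [Subgroup.closure_le]
  rintro t ⟨A, a, _, _, h, rfl, ht⟩
  exact Subgroup.subset_closure ⟨⟨_, rfl⟩, ht⟩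

theorem ZNC.J_le : thompsonSubgroupOf 2 T₀ ≤ Y :=
  (Cfsg.Agent.Lib.JCompBasic.thompsonSubgroupOf_le 2 T₀).trans z.syl.1

/-- The image of `J(T₀)` is generated by transvections from maximal elementary abelian subgroups. -/
theorem ZNC.J_image {j : G} (hj : j ∈ thompsonSubgroupOf 2 T₀) (hY : j ∈ Y) :
    act X Y z.hN ⟨j, hY⟩ ∈ Subgroup.closure z.gens := by
  set Pp : Subgroup G := ((Subgroup.closure z.gens).comap (act X Y z.hN)).map Y.subtype with hPp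
  have hle : thompsonSubgroupOf 2 T₀ ≤ Pp := by
    rw [thompsonOf_eq_sSup]
    refine sSup_le fun A (hA : MaxEA T₀ A) => ?_
    intro a ha
    have hAY : A ≤ Y := hA.1.trans z.syl.1
    have haY : a ∈ Y := hAY ha
    refine ⟨⟨a, haY⟩, ?_, rfl⟩
    show act X Y z.hN ⟨a, haY⟩ ∈ Subgroup.closure z.gens
    have h1 := (z.tr_gen hA).1 (show act X Y z.hN ⟨a, haY⟩ ∈ (A.subgroupOf Y).map (act X Y z.hN) from
      ⟨⟨a, haY⟩, ha, rfl⟩)
    refine (Subgroup.closure_le _).mpr ?_ h1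
    rintro t ⟨⟨b, hb, rfl⟩, ht⟩
    exact Subgroup.subset_closure ⟨A, b.1, hA, hb, b.2, rfl, ht⟩
  obtain ⟨y, hy, he⟩ := hle hj
  have : y = ⟨j, hY⟩ := Subtype.ext he
  rw [← this]
  exact hy

end ZNCfacts

/-- The context for a `J(T₀)`-component in `Y`. -/
structure KC (X Y T₀ K : Subgroup G) (k w₁ w₂ : G) : Prop where
  z : ZNC X Y T₀
  hJ : JCS (thompsonSubgroupOf 2 T₀) K k w₁ w₂
  hgen : Subgroup.closure {g : G | g ∈ K ∧ Odd (orderOf g)} = K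
  hKY : K ≤ Y
  hRK : pCoreOf 2 Y ≤ Subgroup.normalizer (K : Set G)
  hWX : wOf K ≤ X
  hW4 : Nat.card (wOf K) = 4

section KC

variable {X Y T₀ K : Subgroup G} {k w₁ w₂ : G} (h : KC X Y T₀ K k w₁ w₂) [hf : Fact (∀ a ∈ X, a * a = 1)]
include h

theorem KC.kY : k ∈ Y := h.hKY h.hJ.hkK

/-- `Φ(K) ≤ ⟨transvections⟩`. -/
theorem KC.mem_trSub {x : G} (hx : x ∈ K) (hY : x ∈ Y) :
    act X Y h.z.hN ⟨x, hY⟩ ∈ trSub (act X Y h.z.hN).range := by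
  set D := trSub (act X Y h.z.hN).range with hD
  set Pp : Subgroup G := (D.comap (act X Y h.z.hN)).map Y.subtype with hPp
  have hle : ⁅K, thompsonSubgroupOf 2 T₀⁆ ≤ Pp := by
    rw [Subgroup.commutator_le]
    intro g₁ hg₁ g₂ hg₂
    have h1Y := h.hKY hg₁
    have h2Y := h.z.J_le hg₂
    refine ⟨⟨g₁, h1Y⟩ * ⟨g₂, h2Y⟩ * (⟨g₁, h1Y⟩ : ↥Y)⁻¹ * (⟨g₂, h2Y⟩ : ↥Y)⁻¹, ?_, ?_⟩
    · show act X Y h.z.hN _ ∈ D
      simp only [map_mul, map_inv]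
      have h2D : act X Y h.z.hN ⟨g₂, h2Y⟩ ∈ D := h.z.gens_le (h.z.J_image hg₂ h2Y)
      have h3 : act X Y h.z.hN ⟨g₁, h1Y⟩ ∈ (act X Y h.z.hN).range := ⟨_, rfl⟩
      exact D.mul_mem (trSub_conj h3 h2D) (D.inv_mem h2D)
    · rw [commutatorElement_def]
      rfl
  rw [h.hJ.hKJ] at hle
  obtain ⟨y, hy, he⟩ := hle hx
  have : y = ⟨x, hY⟩ := Subtype.ext he
  rw [← this]
  exact hy

/-- `Φ(K)` centralizes the lines. -/
theorem KC.comm_lines {x : G} (hx : x ∈ K) (hY : x ∈ Y) {y : MulAut (EA X)}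
    (hy : y ∈ lineSet (act X Y h.z.hN).range h.z.Fo) : act X Y h.z.hN ⟨x, hY⟩ * y = y * act X Y h.z.hN ⟨x, hY⟩ := by
  set Φ := act X Y h.z.hN with hΦ
  set Pp : Subgroup G := ((Subgroup.centralizer ({y} : Set (MulAut (EA X)))).comap Φ).map Y.subtype with hPp
  have hle : K ≤ Pp := by
    rw [← h.hgen, Subgroup.closure_le]
    rintro g ⟨hg1, hg2⟩
    have hgY := h.hKY hg1
    refine ⟨⟨g, hgY⟩, ?_, rfl⟩
    show Φ ⟨g, hgY⟩ ∈ Subgroup.centralizer ({y} : Set (MulAut (EA X)))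
    apply Subgroup.mem_centralizer_singleton_iff.mpr
    apply trSub_odd_comm (EA.hM X) h.z.ffc (h.mem_trSub hg1 hgY) _ hy
    have h1 : orderOf (Φ ⟨g, hgY⟩) ∣ orderOf (⟨g, hgY⟩ : ↥Y) := orderOf_map_dvd Φ _
    rw [Subgroup.orderOf_mk] at h1
    exact Odd.of_dvd_nat hg2 h1
  obtain ⟨w, hw, he⟩ := hle hx
  have : w = ⟨x, hY⟩ := Subtype.ext he
  rw [← this]
  exact Subgroup.mem_centralizer_singleton_iff.mp hw

/-- `O₂(K)` centralizes `X`. -/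
theorem KC.core_trivial {p : G} (hp : p ∈ pCoreOf 2 K) (hY : p ∈ Y) : act X Y h.z.hN ⟨p, hY⟩ = 1 := by
  have hpK : p ∈ K := h.hJ.hPK hp
  obtain ⟨n, hn⟩ := exists_two_pow_of_mem h.hJ.hPp hp
  apply trSub_two_eq_one (EA.hM X) h.z.ffc (h.mem_trSub hpK hY) (n := n)
  · rw [← map_pow]
    have : (⟨p, hY⟩ : ↥Y) ^ (2 ^ n) = 1 := Subtype.ext hn
    rw [this, map_one]
  · intro y hy
    exact h.comm_lines hpK hY hy

/-- The line `y = Φ(k)`. -/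
noncomputable def KC.y : MulAut (EA X) := act X Y h.z.hN ⟨k, h.kY⟩

theorem KC.y_def : h.y = act X Y h.z.hN ⟨k, h.kY⟩ := rfl

theorem KC.y_cube : h.y ^ 3 = 1 := by
  rw [KC.y, ← map_pow]
  have : (⟨k, h.kY⟩ : ↥Y) ^ 3 = 1 := Subtype.ext h.hJ.hk3
  rw [this, map_one]

theorem KC.y_ne_one : h.y ≠ 1 := by
  intro he
  have h1 := (act_eq_one_iff h.z.hN _).mp he
  have h2 := h1 _ (h.hWX h.hJ.hw₁)
  have h3 : k * w₁ * k⁻¹ = w₁ := by
    have : k * w₁ = w₁ * k := h2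
    rw [this]; group
  exact h.hJ.hw₁1 (h.hJ.hfpf w₁ h.hJ.hw₁ h3)

theorem KC.y_odd : Odd (orderOf h.y) := by
  have h1 : orderOf h.y ∣ 3 := orderOf_dvd_of_pow_eq_one h.y_cube
  exact Odd.of_dvd_nat (by decide) h1

omit h hf in
theorem mem_zpowers_of_cube {Γ : Type*} [Group Γ] {y : Γ} (hy : y ^ 3 = 1) {w : Γ} (hw : w ∈ Subgroup.zpowers y) :
    w = 1 ∨ w = y ∨ w = y⁻¹ := by
  obtain ⟨i, rfl⟩ := hw
  have h1 : y ^ (3 : ℤ) = 1 := by exact_mod_cast hy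
  show y ^ i = 1 ∨ y ^ i = y ∨ y ^ i = y⁻¹
  rw [zpow_eq_zpow_emod i h1]
  have h2 : i % 3 = 0 ∨ i % 3 = 1 ∨ i % 3 = 2 := by omega
  rcases h2 with h2 | h2 | h2
  · left; rw [h2]; simp
  · right; left; rw [h2]; simp
  · right; right
    rw [h2]
    have h3 : y ^ (2 : ℤ) * y = 1 := by
      rw [← zpow_add_one]; exact h1
    exact eq_inv_of_mul_eq_one_left h3

/-- `Φ(K) = ⟨y⟩`. -/
theorem KC.image_z {x : G} (hx : x ∈ K) (hY : x ∈ Y) : act X Y h.z.hN ⟨x, hY⟩ ∈ Subgroup.zpowers h.y := by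
  set Φ := act X Y h.z.hN with hΦ
  set Pp : Subgroup G := ((Subgroup.zpowers h.y).comap Φ).map Y.subtype with hPp
  have hle : pCoreOf 2 K ⊔ Subgroup.zpowers k ≤ Pp := by
    apply sup_le
    · intro p hp
      have hpY : p ∈ Y := h.hKY (h.hJ.hPK hp)
      refine ⟨⟨p, hpY⟩, ?_, rfl⟩
      show Φ ⟨p, hpY⟩ ∈ Subgroup.zpowers h.y
      rw [hΦ, h.core_trivial hp hpY]
      exact Subgroup.one_mem _
    · rw [Subgroup.zpowers_le]
      refine ⟨⟨k, h.kY⟩, ?_, rfl⟩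
      exact Subgroup.mem_zpowers h.y
  obtain ⟨w, hw, he⟩ := hle (h.hJ.hKle hx)
  have : w = ⟨x, hY⟩ := Subtype.ext he
  rw [← this]
  exact hw

theorem KC.image {x : G} (hx : x ∈ K) (hY : x ∈ Y) :
    act X Y h.z.hN ⟨x, hY⟩ = 1 ∨ act X Y h.z.hN ⟨x, hY⟩ = h.y ∨ act X Y h.z.hN ⟨x, hY⟩ = h.y⁻¹ :=
  mem_zpowers_of_cube h.y_cube (h.image_z hx hY)

/-- A transvection in the image of a maximal elementary abelian subgroup inverting `y`. -/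
theorem KC.exists_tr : ∃ A a, MaxEA T₀ A ∧ a ∈ A ∧ ∃ ha : a ∈ Y, ∃ c, IsTrC (act X Y h.z.hN ⟨a, ha⟩) c ∧
    act X Y h.z.hN ⟨a, ha⟩ * h.y * (act X Y h.z.hN ⟨a, ha⟩)⁻¹ = h.y⁻¹ := by
  set Φ := act X Y h.z.hN with hΦ
  by_contra hcon
  push Not at hcon
  have hall : ∀ t ∈ Subgroup.closure h.z.gens, t * h.y = h.y * t := by
    have hle : Subgroup.closure h.z.gens ≤ Subgroup.centralizer ({h.y} : Set (MulAut (EA X))) := by
      rw [Subgroup.closure_le]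
      rintro t ⟨A, a, hA, ha, haY, rfl, ⟨c, htc⟩⟩
      apply Subgroup.mem_centralizer_singleton_iff.mpr
      have h1 := hcon A a hA ha haY c htc
      -- `Φ a` normalizes `⟨y⟩`
      have hk' : a * k * a⁻¹ ∈ K :=
        (Subgroup.mem_normalizer_iff.mp (h.hJ.hJN ((hA.le_thompson) ha)) k).mp h.hJ.hkK
      have hY' : a * k * a⁻¹ ∈ Y := h.hKY hk'
      have e : act X Y h.z.hN ⟨a, haY⟩ * h.y * (act X Y h.z.hN ⟨a, haY⟩)⁻¹ = act X Y h.z.hN ⟨a * k * a⁻¹, hY'⟩ := by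
        rw [KC.y, ← map_mul, ← map_inv, ← map_mul]
        rfl
      rcases h.image hk' hY' with h2 | h2 | h2
      · exfalso
        rw [← e] at h2
        apply h.y_ne_one
        have e2 : h.y = (act X Y h.z.hN ⟨a, haY⟩)⁻¹ * (act X Y h.z.hN ⟨a, haY⟩ * h.y * (act X Y h.z.hN ⟨a, haY⟩)⁻¹) * act X Y h.z.hN ⟨a, haY⟩ := by
          group
        rw [e2, h2]
        group
      · rw [← e] at h2
        rw [mul_inv_eq_iff_eq_mul] at h2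
        exact h2
      · exact absurd (e.trans h2) h1
    intro t ht
    exact Subgroup.mem_centralizer_singleton_iff.mp (hle ht)
  -- then `Φ(K) = 1`
  apply h.y_ne_one
  have hJall : ∀ j (hj : j ∈ thompsonSubgroupOf 2 T₀) (hY : j ∈ Y), Φ ⟨j, hY⟩ * h.y = h.y * Φ ⟨j, hY⟩ :=
    fun j hj hY => hall _ (h.z.J_image hj hY)
  have hcyc : ∀ w ∈ Subgroup.zpowers h.y, ∀ j (hj : j ∈ thompsonSubgroupOf 2 T₀) (hY : j ∈ Y),
      Φ ⟨j, hY⟩ * w = w * Φ ⟨j, hY⟩ := by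
    rintro _ ⟨i, rfl⟩ j hj hY
    have h1 : Commute (Φ ⟨j, hY⟩) h.y := hJall j hj hY
    exact (h1.zpow_right i).eq
  set Pp : Subgroup G := (Φ.ker).map Y.subtype with hPp
  have hle : ⁅K, thompsonSubgroupOf 2 T₀⁆ ≤ Pp := by
    rw [Subgroup.commutator_le]
    intro g₁ hg₁ g₂ hg₂
    have h1Y := h.hKY hg₁
    have h2Y := h.z.J_le hg₂
    refine ⟨⟨g₁, h1Y⟩ * ⟨g₂, h2Y⟩ * (⟨g₁, h1Y⟩ : ↥Y)⁻¹ * (⟨g₂, h2Y⟩ : ↥Y)⁻¹, ?_, ?_⟩
    · show Φ _ = 1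
      simp only [map_mul, map_inv]
      have h3 := hcyc _ (h.image_z hg₁ h1Y) g₂ hg₂ h2Y
      rw [mul_inv_eq_one, mul_inv_eq_iff_eq_mul]
      exact h3.symm
    · rw [commutatorElement_def]
      rfl
  rw [h.hJ.hKJ] at hle
  obtain ⟨w, hw, he⟩ := hle h.hJ.hkK
  have : w = ⟨k, h.kY⟩ := Subtype.ext he
  rw [KC.y, ← this]
  exact hw

/-- `y` is the line of the transvection. -/
theorem KC.isLine {t : MulAut (EA X)} {c : EA X} (ht : IsTrC t c) (htH : t ∈ (act X Y h.z.hN).range)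
    (hinv : t * h.y * t⁻¹ = h.y⁻¹) : IsLine h.z.Fo t h.y := by
  have C := h.z.ffc
  obtain ⟨y₀, hl⟩ := C.exists_line (EA.hM X) ht htH
  have hy₀ : y₀ ∈ lineSet (act X Y h.z.hN).range h.z.Fo := ⟨t, htH, ⟨c, ht⟩, hl⟩
  have hcomm := h.comm_lines h.hJ.hkK h.kY hy₀
  have h1 := inv_unique (EA.hM X) ht (hl.odd C) h.y_odd hl.1 h.y_ne_one hl.2.1 hinv hcomm.symm
  rcases h1 with h1 | h1
  · rw [h1]; exact hl
  · rw [h1]; exact hl.inv

/-- `[X, y] = W_K`. -/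
theorem KC.com_map : (com h.y).map (EA.val X) = wOf K := by
  set Φ := act X Y h.z.hN with hΦ
  obtain ⟨A, a, hA, haA, haY, c, htc, hinv⟩ := h.exists_tr
  have hcard : Nat.card (com h.y) = 4 := (inv_struct (EA.hM X) htc h.y_odd h.y_ne_one hinv).1
  symm
  have hcomW : ∀ w ∈ wOf K, ∀ w' ∈ wOf K, w = k * w' * k⁻¹ * w'⁻¹ → w ∈ (com h.y).map (EA.val X) := by
    intro w hw w' hw' he
    refine ⟨h.y (EA.mk X (h.hWX hw')) * (EA.mk X (h.hWX hw'))⁻¹, com_mem _ _, ?_⟩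
    rw [map_mul, map_inv, EA.val_mk, KC.y, act_val, EA.val_mk, he]
  have hle : wOf K ≤ (com h.y).map (EA.val X) := by
    have hJ := h.hJ
    have hc12 : w₁ * w₂ = w₂ * w₁ := wOf_comm hJ.hw₁ hJ.hw₂mem
    have hi1 : w₁⁻¹ = w₁ := inv_eq_of_mul_eq_one_left (hJ.hWsq _ hJ.hw₁)
    have hi2 : w₂⁻¹ = w₂ := inv_eq_of_mul_eq_one_left (hJ.hWsq _ hJ.hw₂mem)
    have hs1 := hJ.hWsq _ hJ.hw₁
    have hs2 := hJ.hWsq _ hJ.hw₂mem
    have hw12 : w₁ * w₂ ∈ wOf K := (wOf K).mul_mem hJ.hw₁ hJ.hw₂mem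
    have hk₃ : k * (w₁ * w₂) * k⁻¹ = w₁ := by
      have e : k * (w₁ * w₂) * k⁻¹ = (k * w₁ * k⁻¹) * (k * w₂ * k⁻¹) := by group
      rw [e, hJ.hw₂, hJ.hk₂, hc12, ← mul_assoc, hs2, one_mul]
    intro w hw
    rcases hJ.hset w hw with rfl | rfl | rfl | rfl
    · exact Subgroup.one_mem _
    · apply hcomW _ hw w₂ hJ.hw₂mem
      rw [hJ.hk₂, hi2, mul_assoc, hs2, mul_one]
    · apply hcomW _ hw _ hw12
      rw [hk₃, mul_inv_rev, hi1, hi2, ← hc12, ← mul_assoc, hs1, one_mul]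
    · apply hcomW _ hw w₁ hJ.hw₁
      rw [hJ.hw₂, hi1]
      exact hc12
  apply Subgroup.eq_of_le_of_card_ge hle
  rw [h.hW4, EA.card_map, hcard]

end KC

end Cfsg.Agent.Lib.FFG
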