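import Mathlib
import Cfsg.Agent.Lib.FFG4

/-!
# Failure of factorization at the level of the group, part 5: normalizers of `J(T)`-components
-/

set_option autoImplicit false
set_option linter.unusedSectionVars false

open Cfsg
open scoped commutatorElement

namespace Cfsg.Agent.Lib.FFG

open Cfsg.Agent.Lib.FFAct Cfsg.Agent.Lib.PCore Cfsg.Agent.Lib.JCompStruct Cfsg.Agent.Lib.ThompsonJ
open Cfsg.Agent.Lib.BGFit2

variable {G : Type*} [Group G] [Finite G]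

section KC

variable {X Y T₀ K : Subgroup G} {k w₁ w₂ : G} (h : KC X Y T₀ K k w₁ w₂) [hf : Fact (∀ a ∈ X, a * a = 1)]
include h

/-- The quotient by `O₂(Y)`. -/
abbrev qY (Y : Subgroup G) : ↥Y →* ↥Y ⧸ pCore 2 ↥Y := QuotientGroup.mk' (pCore 2 ↥Y)

omit h hf in
theorem qY_eq_one_iff {y : ↥Y} : qY Y y = 1 ↔ y.1 ∈ pCoreOf 2 Y := by
  rw [QuotientGroup.mk'_apply, QuotientGroup.eq_one_iff]
  constructor
  · intro h
    exact ⟨y, h, rfl⟩
  · rintro ⟨y', h, he⟩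
    have : y' = y := Subtype.ext he
    rwa [← this]

theorem KC.q_comm_T {c t : ↥Y} (hc : act X Y h.z.hN c = 1) (ht : t.1 ∈ T₀) : qY Y c * qY Y t = qY Y t * qY Y c := by
  have h3 := h.z.hcomm c.1 c.2 ((act_eq_one_iff h.z.hN c).mp hc) t.1 ht
  have h4 : qY Y (c * t * c⁻¹ * t⁻¹) = 1 := qY_eq_one_iff.mpr h3
  simp only [map_mul, map_inv] at h4
  have h5 : qY Y c * qY Y t * (qY Y c)⁻¹ = qY Y t := mul_inv_eq_one.mp h4
  exact mul_inv_eq_iff_eq_mul.mp h5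

/-- `[K, C] ≤ R`, by the three subgroups lemma. -/
theorem KC.q_comm_K {c x : ↥Y} (hc : act X Y h.z.hN c = 1) (hx : x.1 ∈ K) : qY Y c * qY Y x = qY Y x * qY Y c := by
  set Φ := act X Y h.z.hN with hΦ
  set q := qY Y with hq
  have hqs : Function.Surjective q := QuotientGroup.mk'_surjective _
  set K₁ := (K.subgroupOf Y).map q with hK₁
  set J₁ := ((thompsonSubgroupOf 2 T₀).subgroupOf Y).map q with hJ₁
  set C₁ := Φ.ker.map q with hC₁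
  haveI hC₁n : C₁.Normal := Subgroup.Normal.map inferInstance q hqs
  have hJC : ⁅J₁, C₁⁆ = ⊥ := by
    rw [Subgroup.commutator_eq_bot_iff_le_centralizer]
    rintro _ ⟨j, hj, rfl⟩
    apply Subgroup.mem_centralizer_iff.mpr
    rintro _ ⟨c', hc', rfl⟩
    have hjT : j.1 ∈ T₀ := Cfsg.Agent.Lib.JCompBasic.thompsonSubgroupOf_le 2 T₀ hj
    exact h.q_comm_T hc' hjT
  have h1 : ⁅⁅J₁, C₁⁆, K₁⁆ = ⊥ := by
    rw [hJC]; exact Subgroup.commutator_bot_left _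
  have h2 : ⁅⁅C₁, K₁⁆, J₁⁆ = ⊥ := by
    have h3 : ⁅C₁, K₁⁆ ≤ C₁ := Subgroup.commutator_le_left C₁ K₁
    have h4 : ⁅⁅C₁, K₁⁆, J₁⁆ ≤ ⁅C₁, J₁⁆ := Subgroup.commutator_mono h3 le_rfl
    rw [Subgroup.commutator_comm C₁ J₁, hJC, le_bot_iff] at h4
    exact h4
  have h3 := Subgroup.commutator_commutator_eq_bot_of_rotate h1 h2
  have hKJ : ⁅K₁, J₁⁆ = K₁ := by
    rw [hK₁, hJ₁, ← Subgroup.map_commutator]
    congr 1
    have h5 : ⁅K.subgroupOf Y, (thompsonSubgroupOf 2 T₀).subgroupOf Y⁆ = (⁅K, thompsonSubgroupOf 2 T₀⁆).subgroupOf Y := by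
      apply Subgroup.map_injective Y.subtype_injective
      rw [Subgroup.map_commutator, Subgroup.map_subgroupOf_eq_of_le h.hKY, Subgroup.map_subgroupOf_eq_of_le h.z.J_le,
        Subgroup.map_subgroupOf_eq_of_le]
      rw [h.hJ.hKJ]; exact h.hKY
    rw [h5, h.hJ.hKJ]
  rw [hKJ] at h3
  have h6 : q x ∈ K₁ := ⟨x, hx, rfl⟩
  have h7 : q c ∈ C₁ := ⟨c, hc, rfl⟩
  have h8 := (Subgroup.commutator_eq_bot_iff_le_centralizer.mp h3) h6
  exact (Subgroup.mem_centralizer_iff.mp h8 _ h7)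

theorem KC.core_le_R {p : G} (hp : p ∈ pCoreOf 2 K) : p ∈ pCoreOf 2 Y := by
  have hpK : p ∈ K := h.hJ.hPK hp
  have hY := h.hKY hpK
  obtain ⟨n, hn⟩ := exists_two_pow_of_mem h.hJ.hPp hp
  have h1 := h.core_trivial hp hY
  have h2 : (⟨p, hY⟩ : ↥Y) ^ (2 ^ n) ∈ pCore 2 ↥Y := by
    have : (⟨p, hY⟩ : ↥Y) ^ (2 ^ n) = 1 := Subtype.ext hn
    rw [this]; exact Subgroup.one_mem _
  exact (ZNC.mem_core h.z).mp (h.z.codd h1 h2)

/-- The image of `K` in `Y / O₂(Y)` is `⟨k⟩`. -/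
theorem KC.q_K {x : ↥Y} (hx : x.1 ∈ K) : qY Y x ∈ Subgroup.zpowers (qY Y ⟨k, h.kY⟩) := by
  set Pp : Subgroup G := ((Subgroup.zpowers (qY Y ⟨k, h.kY⟩)).comap (qY Y)).map Y.subtype with hPp
  have hle : pCoreOf 2 K ⊔ Subgroup.zpowers k ≤ Pp := by
    apply sup_le
    · intro p hp
      have hpY : p ∈ Y := h.hKY (h.hJ.hPK hp)
      refine ⟨⟨p, hpY⟩, ?_, rfl⟩
      show qY Y ⟨p, hpY⟩ ∈ Subgroup.zpowers (qY Y ⟨k, h.kY⟩)
      have e : qY Y ⟨p, hpY⟩ = 1 := qY_eq_one_iff.mpr (h.core_le_R hp)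
      rw [e]
      exact Subgroup.one_mem _
    · rw [Subgroup.zpowers_le]
      refine ⟨⟨k, h.kY⟩, ?_, rfl⟩
      exact Subgroup.mem_zpowers _
  obtain ⟨w, hw, he⟩ := hle (h.hJ.hKle hx)
  have : w = x := Subtype.ext he
  rw [← this]
  exact hw

theorem KC.act_of_q {a b : ↥Y} (he : qY Y a = qY Y b) : act X Y h.z.hN a = act X Y h.z.hN b := by
  have h1 : a⁻¹ * b ∈ pCore 2 ↥Y := QuotientGroup.eq.mp he
  have h2 : act X Y h.z.hN (a⁻¹ * b) = 1 := by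
    rw [act_eq_one_iff]
    exact h.z.hR _ ((ZNC.mem_core h.z).mp h1)
  rw [map_mul, map_inv, inv_mul_eq_one] at h2
  exact h2

/-- `K ∩ C ≤ R`. -/
theorem KC.K_ker {x : ↥Y} (hx : x.1 ∈ K) (h1 : act X Y h.z.hN x = 1) : qY Y x = 1 := by
  have hq3 : (qY Y ⟨k, h.kY⟩) ^ 3 = 1 := by
    rw [← map_pow]
    have : (⟨k, h.kY⟩ : ↥Y) ^ 3 = 1 := Subtype.ext h.hJ.hk3
    rw [this, map_one]
  rcases mem_zpowers_of_cube hq3 (h.q_K hx) with h2 | h2 | h2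
  · exact h2
  · exfalso
    have h3 := h.act_of_q h2
    rw [h1] at h3
    exact h.y_ne_one h3.symm
  · exfalso
    have h3 : qY Y x = qY Y (⟨k, h.kY⟩ : ↥Y)⁻¹ := by rw [map_inv]; exact h2
    have h4 := h.act_of_q h3
    rw [h1, map_inv] at h4
    exact h.y_ne_one (inv_eq_one.mp h4.symm)

/-- The main normalization lemma: whatever normalizes the line normalizes `K`. -/
theorem KC.norm_K {n : ↥Y} (hn : act X Y h.z.hN n * h.y * (act X Y h.z.hN n)⁻¹ = h.y ∨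
    act X Y h.z.hN n * h.y * (act X Y h.z.hN n)⁻¹ = h.y⁻¹) : n.1 ∈ Subgroup.normalizer (K : Set G) := by
  classical
  set Φ := act X Y h.z.hN with hΦ
  set q := qY Y with hq
  obtain ⟨A, a, hA, haA, haY, c, htc, hinv⟩ := h.exists_tr
  set kΓ : ↥Y := ⟨k, h.kY⟩ with hkΓ
  set aΓ : ↥Y := ⟨a, haY⟩ with haΓ
  have hyk : h.y = Φ kΓ := rfl
  have hkK : kΓ.1 ∈ K := h.hJ.hkK
  have haa : aΓ * aΓ = 1 := by
    apply Subtype.ext
    have := hA.2.1.2 a haA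
    rw [pow_two] at this
    exact this
  have hai : aΓ⁻¹ = aΓ := inv_eq_of_mul_eq_one_left haa
  have haJ : a ∈ thompsonSubgroupOf 2 T₀ := hA.le_thompson haA
  -- (E) `a` inverts `k` modulo `R`
  have hE : q aΓ * q kΓ * (q aΓ)⁻¹ = (q kΓ)⁻¹ := by
    have hmem : (aΓ * kΓ * aΓ⁻¹ * kΓ).1 ∈ K := by
      have h1 : a * k * a⁻¹ ∈ K := (Subgroup.mem_normalizer_iff.mp (h.hJ.hJN haJ) k).mp hkK
      exact K.mul_mem h1 hkK
    have h2 : Φ (aΓ * kΓ * aΓ⁻¹ * kΓ) = 1 := by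
      simp only [map_mul, map_inv]
      rw [← hyk, hinv, inv_mul_cancel]
    have h3 := h.K_ker hmem h2
    simp only [map_mul, map_inv] at h3
    exact eq_inv_of_mul_eq_one_left h3
  have hqk3 : (q kΓ) ^ 3 = 1 := by
    rw [← map_pow]
    have : kΓ ^ 3 = 1 := Subtype.ext h.hJ.hk3
    rw [this, map_one]
  -- the conjugates
  set k' := n * kΓ * n⁻¹ with hk'
  set a' := n * aΓ * n⁻¹ with ha'
  set Nn := Φ n with hNn
  have hΦk' : Φ k' = Nn * h.y * Nn⁻¹ := by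
    rw [hk', map_mul, map_mul, map_inv, ← hyk]
  have hΦa' : Φ a' = Nn * Φ aΓ * Nn⁻¹ := by
    rw [ha', map_mul, map_mul, map_inv]
  have ht' : IsTrC (Φ a') (Nn c) := by
    rw [hΦa']; exact htc.conj Nn
  have hinv₁ : Φ a' * (Nn * h.y * Nn⁻¹) * (Φ a')⁻¹ = (Nn * h.y * Nn⁻¹)⁻¹ := by
    rw [hΦa']
    have e : Nn * Φ aΓ * Nn⁻¹ * (Nn * h.y * Nn⁻¹) * (Nn * Φ aΓ * Nn⁻¹)⁻¹ = Nn * (Φ aΓ * h.y * (Φ aΓ)⁻¹) * Nn⁻¹ := by group
    rw [e, hinv]
    group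
  have hinv' : Φ a' * h.y * (Φ a')⁻¹ = h.y⁻¹ := by
    rcases hn with hn | hn
    · rwa [hn] at hinv₁
    · rw [hn, inv_inv, conj_inv_eq] at hinv₁
      exact inv_injective (by rw [hinv₁, inv_inv])
  -- `Φ(a a')`
  have hprod := same_line_prod (EA.hM X) htc ht' h.y_odd h.y_ne_one hinv hinv'
  obtain ⟨β, hβK, hβq, hβΦ⟩ : ∃ β : ↥Y, β.1 ∈ K ∧ Commute (q β) (q kΓ) ∧ Φ β = Φ (aΓ * a') := by
    rcases hprod with h1 | h1 | h1
    · refine ⟨1, K.one_mem, ?_, ?_⟩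
      · rw [map_one]; exact Commute.one_left _
      · rw [map_one, map_mul]; exact h1.symm
    · refine ⟨kΓ, hkK, Commute.refl _, ?_⟩
      rw [map_mul]; exact h1.symm
    · refine ⟨kΓ⁻¹, K.inv_mem hkK, ?_, ?_⟩
      · rw [map_inv]; exact (Commute.refl _).inv_left
      · rw [map_inv, map_mul]; exact h1.symm
  set c₁ := β⁻¹ * (aΓ * a') with hc₁
  have hc₁Φ : Φ c₁ = 1 := by
    rw [hc₁, map_mul, map_inv, hβΦ, inv_mul_cancel]
  have hqaa' : q (aΓ * a') = q β * q c₁ := by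
    rw [hc₁, ← map_mul]; congr 1; group
  have hcomm1 : Commute (q (aΓ * a')) (q kΓ) := by
    rw [hqaa']
    exact hβq.mul_left (h.q_comm_K hc₁Φ hkK)
  -- `a'` inverts `k̄`
  have hqa' : q a' = (q aΓ)⁻¹ * q (aΓ * a') := by
    rw [map_mul q aΓ a', inv_mul_cancel_left]
  have hqaii : (q aΓ)⁻¹ = q aΓ := by
    rw [← map_inv, hai]
  have h1 : q a' * q kΓ * (q a')⁻¹ = (q kΓ)⁻¹ := by
    have e1 : q (aΓ * a') * q kΓ * (q (aΓ * a'))⁻¹ = q kΓ := by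
      rw [hcomm1.eq]; group
    have e2 : q a' * q kΓ * (q a')⁻¹ = (q aΓ)⁻¹ * (q (aΓ * a') * q kΓ * (q (aΓ * a'))⁻¹) * q aΓ := by
      rw [hqa']; group
    rw [e2, e1, hqaii]
    have := hE
    rw [hqaii] at this
    exact this
  -- `κ`
  obtain ⟨κ, hκK, hκΦ, hκq⟩ : ∃ κ : ↥Y, κ.1 ∈ K ∧ Φ κ = Φ k' ∧ q a' * q κ * (q a')⁻¹ = (q κ)⁻¹ := by
    rcases hn with hn | hn
    · refine ⟨kΓ, hkK, ?_, h1⟩
      rw [hΦk', hn]; rfl
    · refine ⟨kΓ⁻¹, K.inv_mem hkK, ?_, ?_⟩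
      · rw [hΦk', hn, map_inv]; rfl
      · rw [map_inv]
        have e : q a' * (q kΓ)⁻¹ * (q a')⁻¹ = (q a' * q kΓ * (q a')⁻¹)⁻¹ := by group
        rw [e, h1]
  set c₀ := κ⁻¹ * k' with hc₀
  have hc₀Φ : Φ c₀ = 1 := by
    rw [hc₀, map_mul, map_inv, hκΦ, inv_mul_cancel]
  have hqk' : q k' = q κ * q c₀ := by
    rw [hc₀, ← map_mul]; congr 1; group
  have hcomm2 : Commute (q c₀) (q κ) := h.q_comm_K hc₀Φ hκK
  -- `a'` centralizes `c̄₀`
  have hcomm3 : q a' * q c₀ * (q a')⁻¹ = q c₀ := by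
    have hc₂ : Φ (n⁻¹ * c₀ * n) = 1 := by
      rw [map_mul, map_mul, map_inv, hc₀Φ]; group
    have h2 := h.q_comm_T hc₂ (t := aΓ) (hA.1 haA)
    simp only [map_mul, map_inv] at h2
    have e : q a' = q n * q aΓ * (q n)⁻¹ := by
      rw [ha']; simp only [map_mul, map_inv]
    have e4 : q a' * q c₀ * (q a')⁻¹ = q n * (q aΓ * ((q n)⁻¹ * q c₀ * q n) * (q aΓ)⁻¹) * (q n)⁻¹ := by
      rw [e]; group
    rw [e4]
    have h2' : q aΓ * ((q n)⁻¹ * q c₀ * q n) = ((q n)⁻¹ * q c₀ * q n) * q aΓ := h2.symm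
    rw [h2']
    group
  -- two computations of the conjugate of `k̄'`
  have hlhs : q a' * q k' * (q a')⁻¹ = (q κ)⁻¹ * q c₀ := by
    rw [hqk']
    have e : q a' * (q κ * q c₀) * (q a')⁻¹ = (q a' * q κ * (q a')⁻¹) * (q a' * q c₀ * (q a')⁻¹) := by group
    rw [e, hκq, hcomm3]
  have hrhs : q a' * q k' * (q a')⁻¹ = (q k')⁻¹ := by
    have e : q a' * q k' * (q a')⁻¹ = q n * (q aΓ * q kΓ * (q aΓ)⁻¹) * (q n)⁻¹ := by
      rw [ha', hk']; simp only [map_mul, map_inv]; group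
    rw [e, hE, hk']
    simp only [map_mul, map_inv]
    group
  have hsq : q c₀ * q c₀ = 1 := by
    have h2 : (q κ)⁻¹ * q c₀ = (q κ * q c₀)⁻¹ := by
      rw [← hqk', ← hrhs, hlhs]
    have h3 : (q κ * q c₀)⁻¹ = (q κ)⁻¹ * (q c₀)⁻¹ := by
      rw [mul_inv_rev]
      exact (hcomm2.inv_inv).eq
    rw [h3] at h2
    have h4 : q c₀ = (q c₀)⁻¹ := mul_left_cancel h2
    calc q c₀ * q c₀ = (q c₀)⁻¹ * q c₀ := by nth_rw 1 [h4]
      _ = 1 := inv_mul_cancel _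
  have hc₀R : c₀ ∈ pCore 2 ↥Y := by
    apply h.z.codd hc₀Φ (n := 1)
    rw [pow_one, pow_two]
    have : q (c₀ * c₀) = 1 := by rw [map_mul]; exact hsq
    exact (QuotientGroup.eq_one_iff _).mp this
  -- conclusion
  have hRK := h.hRK
  have hk'sup : k'.1 ∈ K ⊔ pCoreOf 2 Y := by
    have e : k' = κ * c₀ := by rw [hc₀]; group
    rw [e]
    exact Subgroup.mul_mem _ (Subgroup.mem_sup_left hκK) (Subgroup.mem_sup_right ⟨c₀, hc₀R, rfl⟩)
  have hconjR : ∀ r ∈ pCoreOf 2 Y, n.1 * r * n.1⁻¹ ∈ pCoreOf 2 Y := fun r hr =>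
    (Subgroup.mem_normalizer_iff.mp (le_normalizer_pCoreOf 2 Y n.2) r).mp hr
  have hsup : ∀ x ∈ K, n.1 * x * n.1⁻¹ ∈ K ⊔ pCoreOf 2 Y := by
    set Pp : Subgroup G := (K ⊔ pCoreOf 2 Y).comap (MulAut.conj n.1).toMonoidHom with hPp
    have hle : pCoreOf 2 K ⊔ Subgroup.zpowers k ≤ Pp := by
      apply sup_le
      · intro p hp
        exact Subgroup.mem_sup_right (hconjR p (h.core_le_R hp))
      · rw [Subgroup.zpowers_le]
        exact hk'sup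
    intro x hx
    exact hle (h.hJ.hKle hx)
  have hodd : ∀ x ∈ K, Odd (orderOf x) → n.1 * x * n.1⁻¹ ∈ K := by
    intro x hx hxo
    apply Cfsg.Agent.Lib.JCompBasic.mem_of_coprime_of_mem_sup (p := 2) hRK (isPGroup_pCoreOf 2 Y) (hsup x hx)
    have : orderOf (n.1 * x * n.1⁻¹) = orderOf x := by
      have := orderOf_injective (MulAut.conj n.1).toMonoidHom (MulAut.conj n.1).injective x
      simpa [MulAut.conj_apply] using this
    rw [this]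
    exact Nat.coprime_two_right.mpr hxo
  have hall : ∀ x ∈ K, n.1 * x * n.1⁻¹ ∈ K := by
    set Pp : Subgroup G := K.comap (MulAut.conj n.1).toMonoidHom with hPp
    have hle : K ≤ Pp := by
      conv_lhs => rw [← h.hgen]
      rw [Subgroup.closure_le]
      rintro x ⟨hx, hxo⟩
      exact hodd x hx hxo
    intro x hx
    exact hle hx
  exact Cfsg.Agent.Lib.Subnormal.mem_normalizer_of_conj_mem K n.1 hall

end KC

end Cfsg.Agent.Lib.FFG
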