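import Mathlib
import Cfsg.Agent.Lib.FFG5
import Cfsg.Agent.S2941

/-!
# Failure of factorization at the level of the group, part 6: `J(T)`-components of members of `ℒ(T)`
-/

set_option autoImplicit false
set_option linter.unusedSectionVars false

open Cfsg
open scoped commutatorElement

namespace Cfsg.Agent.Lib.FFG

open Cfsg.Agent.Lib.FFAct Cfsg.Agent.Lib.PCore Cfsg.Agent.Lib.JCompStruct Cfsg.Agent.Lib.ThompsonJ
open Cfsg.Agent.Lib.BGFit2

variable {G : Type*} [Group G] [Finite G]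

/-- The standing hypotheses of the local analysis. -/
structure ZNH (G : Type*) [Group G] : Prop where
  hL : IsCharacteristicTwoType G
  hN : ∀ N : Subgroup G, IsTwoLocal N → Group.IsSolvable ↥N
  hZ : ∀ S : Sylow 2 G, Subgroup.centralizer (omegaCenterOf (S : Subgroup G) : Set G) ≤
    Subgroup.normalizer ((S : Subgroup G) : Set G)

/-- Conjugation of subgroups. -/
abbrev cj (g : G) (T : Subgroup G) : Subgroup G := T.map (MulAut.conj g).toMonoidHom

theorem mem_cj {g : G} {T : Subgroup G} {x : G} : x ∈ cj g T ↔ g⁻¹ * x * g ∈ T := by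
  constructor
  · rintro ⟨t, ht, rfl⟩
    have e : g⁻¹ * ((MulAut.conj g).toMonoidHom t) * g = t := by
      simp [MulAut.conj_apply]; group
    rwa [e]
  · intro h
    refine ⟨g⁻¹ * x * g, h, ?_⟩
    simp [MulAut.conj_apply]; group

theorem conj_mem_cj {g : G} {T : Subgroup G} {x : G} (hx : x ∈ T) : g * x * g⁻¹ ∈ cj g T :=
  ⟨x, hx, by simp [MulAut.conj_apply]⟩

theorem card_cj' (g : G) (T : Subgroup G) : Nat.card (cj g T) = Nat.card T :=
  Nat.card_congr (Subgroup.equivMapOfInjective T _ (MulAut.conj g).injective).symm.toEquiv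

theorem cj_cj (g h : G) (T : Subgroup G) : cj g (cj h T) = cj (g * h) T := by
  ext x
  rw [mem_cj, mem_cj, mem_cj]
  have e : h⁻¹ * (g⁻¹ * x * g) * h = (g * h)⁻¹ * x * (g * h) := by group
  rw [e]

theorem cj_inv_cj (g : G) (T : Subgroup G) : cj g⁻¹ (cj g T) = T := by
  rw [cj_cj, inv_mul_cancel]
  ext x
  rw [mem_cj]
  simp

theorem cj_mono {g : G} {A B : Subgroup G} (h : A ≤ B) : cj g A ≤ cj g B := Subgroup.map_mono h

theorem cj_eq_of_mem_normalizer {g : G} {A : Subgroup G} (hg : g ∈ Subgroup.normalizer (A : Set G)) : cj g A = A := by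
  ext x
  rw [mem_cj]
  have h1 := (Subgroup.mem_normalizer_iff.mp hg (g⁻¹ * x * g))
  have e : g * (g⁻¹ * x * g) * g⁻¹ = x := by group
  rw [e] at h1
  exact h1

theorem cj_isPGroup {g : G} {A : Subgroup G} (h : IsPGroup 2 A) : IsPGroup 2 (cj g A) := h.map _

theorem maxEA_cj {T A : Subgroup G} (hA : MaxEA T A) (g : G) : MaxEA (cj g T) (cj g A) := by
  refine ⟨cj_mono hA.1, ea_map hA.2.1 _, ?_⟩
  intro B hB hBe
  have h1 := hA.2.2 (cj g⁻¹ B) ?_ (ea_map hBe _)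
  · rw [card_cj'] at h1
    rw [card_cj']
    exact h1
  · have := cj_mono (g := g⁻¹) hB
    rwa [cj_inv_cj] at this

/-- `J(T^g) = J(T)^g`. -/
theorem thompson_cj (T : Subgroup G) (g : G) : thompsonSubgroupOf 2 (cj g T) = cj g (thompsonSubgroupOf 2 T) := by
  apply le_antisymm
  · rw [thompsonOf_eq_sSup]
    refine sSup_le fun A (hA : MaxEA (cj g T) A) => ?_
    have h1 := maxEA_cj hA g⁻¹
    rw [cj_inv_cj] at h1
    have h2 := cj_mono (g := g) h1.le_thompson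
    rw [cj_cj, mul_inv_cancel] at h2
    intro a ha
    apply h2
    rw [mem_cj]
    simpa using ha
  · rw [thompsonOf_eq_sSup T]
    rintro _ ⟨j, hj, rfl⟩
    have hle : sSup {A | MaxEA T A} ≤ (thompsonSubgroupOf 2 (cj g T)).comap (MulAut.conj g).toMonoidHom := by
      refine sSup_le fun A (hA : MaxEA T A) => ?_
      intro a ha
      exact (maxEA_cj hA g).le_thompson ⟨a, ha, rfl⟩
    exact hle hj

theorem MaxEA.card_eq {T A B : Subgroup G} (hA : MaxEA T A) (hB : MaxEA T B) : Nat.card A = Nat.card B :=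
  le_antisymm (hB.2.2 A hA.1 hA.2.1) (hA.2.2 B hB.1 hB.2.1)

/-- If `J(T) ≤ T^x` then `J(T^x) = J(T)`. -/
theorem thompson_cj_eq_of_le {T : Subgroup G} {x : G} (h : thompsonSubgroupOf 2 T ≤ cj x T) :
    thompsonSubgroupOf 2 (cj x T) = thompsonSubgroupOf 2 T := by
  symm
  apply Subgroup.eq_of_le_of_card_ge
  · rw [thompsonOf_eq_sSup T]
    refine sSup_le fun A (hA : MaxEA T A) => ?_
    have hA' : MaxEA (cj x T) A := by
      refine ⟨hA.le_thompson.trans h, hA.2.1, ?_⟩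
      intro B hB hBe
      have h1 := (maxEA_cj hA x).2.2 B hB hBe
      rwa [card_cj'] at h1
    exact hA'.le_thompson
  · rw [thompson_cj, card_cj']

/-- `T` normalizes `J(T)`. -/
theorem conj_thompson {T : Subgroup G} {g j : G} (hg : g ∈ T) (hj : j ∈ thompsonSubgroupOf 2 T) :
    g * j * g⁻¹ ∈ thompsonSubgroupOf 2 T := by
  have h1 : cj g T = T := cj_eq_of_mem_normalizer (Subgroup.le_normalizer hg)
  have h2 := thompson_cj T g
  rw [h1] at h2
  rw [h2]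
  exact conj_mem_cj hj

theorem le_normalizer_thompson (T : Subgroup G) : T ≤ Subgroup.normalizer (thompsonSubgroupOf 2 T : Set G) := by
  intro g hg
  exact Cfsg.Agent.Lib.Subnormal.mem_normalizer_of_conj_mem _ g (fun j hj => conj_thompson hg hj)

/-- Sylow-conjugates inside `L`. -/
theorem exists_conj_of_sylow {T T' L : Subgroup G} (hT : IsSylowTwoIn T L) (hT' : IsSylowTwoIn T' L) :
    ∃ l ∈ L, T' = cj l T := by
  haveI : Fact (Nat.Prime 2) := ⟨Nat.prime_two⟩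
  have hmk : ∀ {U : Subgroup G}, IsSylowTwoIn U L → ∃ S : Sylow 2 ↥L, (S : Subgroup ↥L) = U.subgroupOf L := by
    intro U hU
    have hp : IsPGroup 2 (U.subgroupOf L) := IsPGroup.comap_of_injective hU.2.1 _ L.subtype_injective
    have hidx : ¬ 2 ∣ (U.subgroupOf L).index := by
      have h2 : Odd (U.subgroupOf L).index := hU.2.2
      rw [Nat.odd_iff] at h2
      omega
    exact ⟨hp.toSylow hidx, IsPGroup.toSylow_coe hp hidx⟩
  obtain ⟨S, hS⟩ := hmk hT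
  obtain ⟨S', hS'⟩ := hmk hT'
  obtain ⟨l, hl⟩ := MulAction.exists_smul_eq (↥L) S S'
  refine ⟨l.1, l.2, ?_⟩
  have h1 : (S' : Subgroup ↥L) = (l • S : Sylow 2 ↥L) := by rw [hl]
  rw [Sylow.coe_subgroup_smul] at h1
  ext x
  rw [mem_cj]
  constructor
  · intro hx
    have hxL : x ∈ L := hT'.1 hx
    have h2 : (⟨x, hxL⟩ : ↥L) ∈ (S' : Subgroup ↥L) := by
      rw [hS']; exact hx
    rw [h1] at h2
    rw [Subgroup.mem_pointwise_smul_iff_inv_smul_mem, hS] at h2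
    have h3 := Subgroup.mem_subgroupOf.mp h2
    simpa [MulAut.smul_def, MulAut.conj_apply] using h3
  · intro hx
    have hgL : l.1⁻¹ * x * l.1 ∈ L := hT.1 hx
    have hxL : x ∈ L := by
      have e : x = l.1 * (l.1⁻¹ * x * l.1) * l.1⁻¹ := by group
      rw [e]
      exact L.mul_mem (L.mul_mem l.2 hgL) (L.inv_mem l.2)
    have h2 : (⟨x, hxL⟩ : ↥L) ∈ (S' : Subgroup ↥L) := by
      rw [h1, Subgroup.mem_pointwise_smul_iff_inv_smul_mem, hS]
      apply Subgroup.mem_subgroupOf.mpr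
      simpa [MulAut.smul_def, MulAut.conj_apply] using hx
    rw [hS'] at h2
    exact h2

namespace ZNH

variable (Z : ZNH G)
include Z

theorem solv_of_le {Q L : Subgroup G} (hQ : IsPGroup 2 Q) (hQ1 : Q ≠ ⊥) (hL : L ≤ Subgroup.normalizer (Q : Set G)) :
    Group.IsSolvable L := by
  haveI := Z.hN _ ⟨Q, hQ, hQ1, rfl⟩
  exact solvable_of_solvable_injective (f := Subgroup.inclusion hL) (Subgroup.inclusion_injective hL)

omit Z [Finite G] in
theorem jover_core_ne_bot {T L : Subgroup G} (hLT : L ∈ jOvergroups T) : pCoreOf 2 L ≠ ⊥ := by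
  intro h
  obtain ⟨-, h2, h3⟩ := hLT
  rw [h] at h2 h3
  apply h2
  have h4 : Subgroup.centralizer ((⊥ : Subgroup G) : Set G) = ⊤ := by
    rw [Subgroup.coe_bot, Subgroup.centralizer_eq_top_iff_subset]
    simp
  rw [h4] at h3
  exact le_top.trans h3

theorem jover_solv {T L : Subgroup G} (hLT : L ∈ jOvergroups T) : Group.IsSolvable L :=
  Z.solv_of_le (isPGroup_pCoreOf 2 L) (jover_core_ne_bot hLT) (le_normalizer_pCoreOf 2 L)

/-- The `ZN` context of `L ∈ ℒ(T)`. -/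
theorem znc_jover {T L : Subgroup G} (hLT : L ∈ jOvergroups T) : ZNC (omegaCenterOf (pCoreOf 2 L)) L T := by
  haveI : Fact (Nat.Prime 2) := ⟨Nat.prime_two⟩
  have hT : IsSylowTwoIn T L := hLT.1
  obtain ⟨S, hS⟩ := IsPGroup.exists_le_sylow hT.2.1
  apply znc_of Z.hZ (Z.jover_solv hLT) hT S hS
  intro z hz
  obtain ⟨h1, h2, _⟩ := omegaCenter_mem hz
  apply hLT.2.2
  apply Subgroup.mem_centralizer_iff.mpr
  intro r hr
  exact h2 r (hS (core_le_sylow hT hr))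

/-- `R` normalizes `K`. -/
theorem core_norm_K {T K L : Subgroup G} (hT : IsPGroup 2 T) (hT1 : T ≠ ⊥) (hLT : L ∈ jOvergroups T) (hK : IsJComponent T K)
    (hKL : K ≤ L) : pCoreOf 2 L ≤ Subgroup.normalizer (K : Set G) := by
  apply Cfsg.Agent.S2941.result Z.hL Z.hN Z.hZ T hT hT1 K hK (pCoreOf 2 L)
  · apply le_trans _ (le_normalizer_pCoreOf 2 L)
    exact sup_le hKL ((Cfsg.Agent.Lib.JCompBasic.thompsonSubgroupOf_le 2 T).trans hLT.1.1)
  · exact (core_le_sylow hLT.1).trans (le_normalizer_thompson T)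

end ZNH

/-- A `2`-group `R` normalized by `K`, normalizing `K` centralizes `W_K`. -/
theorem centralizes_wOf {J K R : Subgroup G} {k w₁ w₂ : G} (hJ : JCS J K k w₁ w₂) (h4 : Nat.card (wOf K) = 4) (hR : IsPGroup 2 R)
    (hRK : R ≤ Subgroup.normalizer (K : Set G)) (hKR : K ≤ Subgroup.normalizer (R : Set G)) {r w : G} (hr : r ∈ R)
    (hw : w ∈ wOf K) : r * w = w * r := by
  classical
  have hcard4 : ∃ w₀ ∈ wOf K, w₀ ≠ 1 ∧ ∀ q ∈ R, q * w₀ * q⁻¹ = w₀ := by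
    apply exists_fixed_ne_one hR
    · rw [h4]; norm_num
    · intro q hq w hw
      exact conj_mem_wOf (hRK hq) hw
  obtain ⟨w₀, hw₀, hw₀1, hfix⟩ := hcard4
  -- `[r, k] ∈ K ∩ R ≤ O₂(K)`
  have hcom : r * k * r⁻¹ * k⁻¹ ∈ pCoreOf 2 K := by
    apply le_pCoreOf (Y := K ⊓ R) inf_le_left
    · exact Cfsg.Agent.Lib.CoprimeInv.le_normalizer_inf Subgroup.le_normalizer hKR
    · exact hR.to_le inf_le_right
    · constructor
      · have h1 : r * k * r⁻¹ ∈ K := (Subgroup.mem_normalizer_iff.mp (hRK hr) k).mp hJ.hkK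
        exact K.mul_mem h1 (K.inv_mem hJ.hkK)
      · have h1 : k * r⁻¹ * k⁻¹ ∈ R := (Subgroup.mem_normalizer_iff.mp (hKR hJ.hkK) _).mp (R.inv_mem hr)
        have e : r * k * r⁻¹ * k⁻¹ = r * (k * r⁻¹ * k⁻¹) := by group
        rw [e]
        exact R.mul_mem hr h1
  have hw₀' : k * w₀ * k⁻¹ ∈ wOf K :=
    conj_mem_wOf (Subgroup.le_normalizer hJ.hkK) hw₀
  have hfix' : r * (k * w₀ * k⁻¹) * r⁻¹ = k * w₀ * k⁻¹ := by
    have h1 := wOf_commute_pCoreOf hcom hw₀'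
    have h2 : (r * k * r⁻¹ * k⁻¹) * (k * w₀ * k⁻¹) * (r * k * r⁻¹ * k⁻¹)⁻¹ = k * w₀ * k⁻¹ := by
      rw [h1]; group
    have h3 := hfix r hr
    calc r * (k * w₀ * k⁻¹) * r⁻¹ = (r * k * r⁻¹) * (r * w₀ * r⁻¹) * (r * k * r⁻¹)⁻¹ := by group
      _ = (r * k * r⁻¹) * w₀ * (r * k * r⁻¹)⁻¹ := by rw [h3]
      _ = (r * k * r⁻¹ * k⁻¹) * (k * w₀ * k⁻¹) * (r * k * r⁻¹ * k⁻¹)⁻¹ := by group
      _ = _ := h2
  have hne : w₀ ≠ k * w₀ * k⁻¹ := by
    intro h
    exact hw₀1 (hJ.hfpf w₀ hw₀ h.symm)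
  have hne1 : k * w₀ * k⁻¹ ≠ 1 := by
    intro h
    apply hw₀1
    have e : w₀ = k⁻¹ * (k * w₀ * k⁻¹) * k := by group
    rw [e, h]; group
  -- `W_K = {1, w₀, w₀', w₀ w₀'}`
  have hall : ∀ x ∈ wOf K, r * x * r⁻¹ = x := by
    intro x hx
    have hfixw : r * w₀ * r⁻¹ = w₀ := hfix r hr
    have hc12 : w₀ * (k * w₀ * k⁻¹) = (k * w₀ * k⁻¹) * w₀ := wOf_comm hw₀ hw₀'
    rcases JCompStruct.four_elems h4 hJ.hWsq hw₀ hw₀' hw₀1 hne1 hne x hx with h | h | h | h
    · rw [h]; group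
    · rw [h]; exact hfixw
    · rw [h]; exact hfix'
    · rw [h]
      have e : r * (w₀ * (k * w₀ * k⁻¹)) * r⁻¹ = (r * w₀ * r⁻¹) * (r * (k * w₀ * k⁻¹) * r⁻¹) := by group
      rw [e, hfixw, hfix']
  have h5 := hall w hw
  calc r * w = (r * w * r⁻¹) * r := by group
    _ = w * r := by rw [h5]

namespace ZNH

variable (Z : ZNH G)
include Z

/-- `W_K ≤ Ω₁(Z(O₂(L)))` for `K ≤ L ∈ ℒ(T)`. -/
theorem wOf_le_V {T K L : Subgroup G} {k w₁ w₂ : G} (hT : IsPGroup 2 T) (hT1 : T ≠ ⊥) (hLT : L ∈ jOvergroups T) (hK : IsJComponent T K)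
    (hKL : K ≤ L) (hJ : JCS (thompsonSubgroupOf 2 T) K k w₁ w₂) : wOf K ≤ omegaCenterOf (pCoreOf 2 L) := by
  intro w hw
  have h4 : Nat.card (wOf K) = 4 := hK.2.2.2.2.1
  have hcomm : ∀ r ∈ pCoreOf 2 L, r * w = w * r := fun r hr =>
    centralizes_wOf hJ h4 (isPGroup_pCoreOf 2 L) (Z.core_norm_K hT hT1 hLT hK hKL)
      (hKL.trans (le_normalizer_pCoreOf 2 L)) hr hw
  have hwR : w ∈ pCoreOf 2 L := by
    apply hLT.2.2
    apply Subgroup.mem_centralizer_iff.mpr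
    intro r hr
    exact hcomm r hr
  exact mem_omegaCenter hwR hcomm (hJ.hWsq w hw)

/-- The `KC` structure. -/
theorem kc_of {T K L : Subgroup G} (hT : IsPGroup 2 T) (hT1 : T ≠ ⊥) (hLT : L ∈ jOvergroups T) (hK : IsJComponent T K)
    (hKL : K ≤ L) : ∃ k w₁ w₂, KC (omegaCenterOf (pCoreOf 2 L)) L T K k w₁ w₂ := by
  obtain ⟨k, w₁, w₂, hJ⟩ := exists_JCS hT hK
  exact ⟨k, w₁, w₂, Z.znc_jover hLT, hJ, hK.1, hKL, Z.core_norm_K hT hT1 hLT hK hKL, Z.wOf_le_V hT hT1 hLT hK hKL hJ, hK.2.2.2.2.1⟩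

end ZNH

end Cfsg.Agent.Lib.FFG
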