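import Mathlib
import Cfsg.Agent.Lib.FFG6

/-!
# Failure of factorization at the level of the group, part 7: subnormality, normalizers of `W_K`
-/

set_option autoImplicit false
set_option linter.unusedSectionVars false

open Cfsg
open scoped commutatorElement

namespace Cfsg.Agent.Lib.FFG

open Cfsg.Agent.Lib.FFAct Cfsg.Agent.Lib.PCore Cfsg.Agent.Lib.JCompStruct Cfsg.Agent.Lib.ThompsonJ
open Cfsg.Agent.Lib.BGFit2

variable {G : Type*} [Group G] [Finite G]

section KC

variable {X Y T₀ K : Subgroup G} {k w₁ w₂ : G} (h : KC X Y T₀ K k w₁ w₂) [hf : Fact (∀ a ∈ X, a * a = 1)]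
include h

/-- `y` is a line. -/
theorem KC.y_line : h.y ∈ lineSet (act X Y h.z.hN).range h.z.Fo := by
  obtain ⟨A, a, hA, haA, haY, c, htc, hinv⟩ := h.exists_tr
  exact ⟨act X Y h.z.hN ⟨a, haY⟩, ⟨_, rfl⟩, ⟨c, htc⟩, h.isLine htc ⟨_, rfl⟩ hinv⟩

/-- `Q0` is abelian: it centralizes `y`. -/
theorem KC.comm_Q0 {q : MulAut (EA X)} (hq : q ∈ Q0 (act X Y h.z.hN).range h.z.Fo) : q * h.y = h.y * q := by
  have hle : Q0 (act X Y h.z.hN).range h.z.Fo ≤ Subgroup.centralizer ({h.y} : Set (MulAut (EA X))) := by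
    rw [Q0, Subgroup.closure_le]
    rintro y' ⟨t', ht'H, ⟨c', ht'⟩, hl'⟩
    apply Subgroup.mem_centralizer_singleton_iff.mpr
    obtain ⟨t, htH, ⟨c, ht⟩, hl⟩ := h.y_line
    exact hl.comm (EA.hM X) h.z.ffc ht ht' ht'H hl'
  exact Subgroup.mem_centralizer_singleton_iff.mp (hle hq)

/-- Anything moving a nonidentity element of `[X,y]` into `[X,y]` normalizes `K`. -/
theorem KC.norm_of_meet {n : ↥Y} {u : EA X} (hu : u ∈ com h.y) (hu1 : u ≠ 1) (hn : act X Y h.z.hN n u ∈ com h.y) :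
    n.1 ∈ Subgroup.normalizer (K : Set G) := by
  set Φ := act X Y h.z.hN with hΦ
  have C := h.z.ffc
  apply h.norm_K
  obtain ⟨A, a, hA, haA, haY, c, htc, hinv⟩ := h.exists_tr
  have hl := h.isLine htc ⟨_, rfl⟩ hinv
  have hl' := hl.conj (EA.hM X) C (g := Φ n) ⟨n, rfl⟩
  have ht' := htc.conj (Φ n)
  have ht'H : Φ n * Φ ⟨a, haY⟩ * (Φ n)⁻¹ ∈ Φ.range := by
    rw [← map_inv, ← map_mul, ← map_mul]
    exact ⟨_, rfl⟩
  apply line_eq_of_meet (EA.hM X) C htc hl ht' ht'H hl' hn (com_conj_mem (Φ n) h.y hu)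
  intro h1
  apply hu1
  have := (Φ n).injective (h1.trans (map_one (Φ n)).symm)
  exact this

/-- `K` is subnormal in `Y`. -/
theorem KC.subnormal : (K.subgroupOf Y).IsSubnormal := by
  set Φ := act X Y h.z.hN with hΦ
  set D : Subgroup ↥Y := (Q0 Φ.range h.z.Fo).comap Φ with hD
  have hDn : D.Normal := by
    constructor
    intro d hd g
    show Φ (g * d * g⁻¹) ∈ Q0 Φ.range h.z.Fo
    rw [map_mul, map_mul, map_inv]
    exact Q0_conj (EA.hM X) h.z.ffc ⟨g, rfl⟩ hd
  have hyQ : h.y ∈ Q0 Φ.range h.z.Fo := Subgroup.subset_closure h.y_line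
  have hle : K.subgroupOf Y ≤ D := by
    intro x hx
    have h1 := h.image_z hx x.2
    have h2 : Subgroup.zpowers h.y ≤ Q0 Φ.range h.z.Fo := by
      rw [Subgroup.zpowers_le]; exact hyQ
    exact h2 h1
  refine Subgroup.IsSubnormal.step _ D hle (Subgroup.Normal.isSubnormal hDn) ?_
  constructor
  intro x hx d
  show d.1 * x.1 * d.1⁻¹ ∈ K.subgroupOf Y
  apply Subgroup.mem_subgroupOf.mpr
  have hdN := h.norm_K (n := d.1) (Or.inl (by
    rw [mul_inv_eq_iff_eq_mul]
    exact h.comm_Q0 d.2))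
  exact (Subgroup.mem_normalizer_iff.mp hdN _).mp (Subgroup.mem_subgroupOf.mp hx)

end KC

namespace ZNH

variable (Z : ZNH G)
include Z

/-- The core of a `2`-local subgroup is self-centralizing. -/
theorem centralizer_core_le {Q : Subgroup G} (hQ : IsPGroup 2 Q) (hQ1 : Q ≠ ⊥) :
    Subgroup.centralizer (pCoreOf 2 (Subgroup.normalizer (Q : Set G)) : Set G) ≤
      pCoreOf 2 (Subgroup.normalizer (Q : Set G)) := by
  intro x hx
  set N := Subgroup.normalizer (Q : Set G) with hN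
  have hQR : Q ≤ pCoreOf 2 N := le_pCoreOf Subgroup.le_normalizer le_rfl hQ
  have hxN : x ∈ N := by
    apply Cfsg.Agent.Lib.BGFit2.mem_normalizer_of_centralizes
    intro a ha
    have := Subgroup.mem_centralizer_iff.mp hx a (hQR ha)
    rw [← this]; group
  have h1 := Z.hL.2 Q hQ hQ1
  have h2 : (⟨x, hxN⟩ : ↥N) ∈ Subgroup.centralizer (pCore 2 ↥N : Set ↥N) := by
    apply Subgroup.mem_centralizer_iff.mpr
    intro r hr
    apply Subtype.ext
    exact Subgroup.mem_centralizer_iff.mp hx r.1 ⟨r, hr, rfl⟩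
  exact ⟨⟨x, hxN⟩, h1 h2, rfl⟩

end ZNH

theorem isJComponent_congr {T T' K : Subgroup G} (h : thompsonSubgroupOf 2 T' = thompsonSubgroupOf 2 T)
    (hK : IsJComponent T K) : IsJComponent T' K := by
  unfold IsJComponent at *
  rw [h]
  exact hK

/-- `N_G(K) ≤ N_G(W_K)`. -/
theorem normalizer_le_normalizer_wOf (K : Subgroup G) :
    Subgroup.normalizer (K : Set G) ≤ Subgroup.normalizer (wOf K : Set G) := by
  intro g hg
  exact Cfsg.Agent.Lib.Subnormal.mem_normalizer_of_conj_mem _ g (fun w hw => conj_mem_wOf hg hw)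

theorem isSylowTwoIn_cj {S X : Subgroup G} (h : IsSylowTwoIn S X) (g : G) : IsSylowTwoIn (cj g S) (cj g X) := by
  refine ⟨cj_mono h.1, cj_isPGroup h.2.1, ?_⟩
  have h1 := Cfsg.Agent.Lib.ExtraBasics.relIndex_mul_card h.1
  have h2 := Cfsg.Agent.Lib.ExtraBasics.relIndex_mul_card (cj_mono (g := g) h.1)
  rw [card_cj', card_cj'] at h2
  have h3 : (cj g S).relIndex (cj g X) = S.relIndex X :=
    Nat.eq_of_mul_eq_mul_right Nat.card_pos (h2.trans h1.symm)
  rw [h3]
  exact h.2.2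

/-- Conjugating a `J(T)`-component by an element of its normalizer. -/
theorem isJComponent_of_conj {T T' K : Subgroup G} {x : G} (hx : x ∈ Subgroup.normalizer (K : Set G))
    (hJ : thompsonSubgroupOf 2 T' = cj x (thompsonSubgroupOf 2 T)) (hK : IsJComponent T K) : IsJComponent T' K := by
  obtain ⟨h1, h2, h3, h4, h5⟩ := hK
  have hcK : cj x K = K := cj_eq_of_mem_normalizer hx
  refine ⟨h1, ?_, h3, ?_, h5⟩
  · rw [hJ]
    conv_lhs => rw [← hcK]
    rw [cj, cj, ← Subgroup.map_commutator, h2]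
    exact hcK
  · intro S hS hJS
    rw [hJ] at hS hJS ⊢
    have h6 : cj x⁻¹ (K ⊔ cj x (thompsonSubgroupOf 2 T)) = K ⊔ thompsonSubgroupOf 2 T := by
      rw [cj, Subgroup.map_sup]
      congr 1
      · have := cj_inv_cj x K
        rw [hcK] at this
        exact this
      · exact cj_inv_cj x _
    have h7 := isSylowTwoIn_cj hS x⁻¹
    rw [h6] at h7
    have h8 := cj_mono (g := x⁻¹) hJS
    rw [cj_inv_cj] at h8
    have h9 := h4 _ h7 h8
    rw [thompson_cj] at h9
    have h10 := congrArg (cj x) h9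
    rw [cj_cj, mul_inv_cancel] at h10
    have h11 : ∀ A : Subgroup G, cj 1 A = A := fun A => by
      ext a; rw [mem_cj]; simp
    rw [h11] at h10
    exact h10

/-- If `J(S) = J(T)`, then maximal elementary abelian subgroups of `T` are those of `S`. -/
theorem maxEA_of_thompson_eq {S T A : Subgroup G} (h : thompsonSubgroupOf 2 S = thompsonSubgroupOf 2 T) (hA : MaxEA T A) :
    MaxEA S A := by
  refine ⟨(hA.le_thompson.trans h.ge).trans (Cfsg.Agent.Lib.JCompBasic.thompsonSubgroupOf_le 2 S), hA.2.1, ?_⟩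
  intro B hB hBe
  obtain ⟨A₀, hA₀⟩ := exists_maxEA S
  have h1 := hA₀.2.2 B hB hBe
  have h2 : A₀ ≤ T := (hA₀.le_thompson.trans h.le).trans (Cfsg.Agent.Lib.JCompBasic.thompsonSubgroupOf_le 2 T)
  exact h1.trans (hA.2.2 A₀ h2 hA₀.2.1)

theorem eq_one_of_cube_of_two_pow {k : G} (h3 : k ^ 3 = 1) {n : ℕ} (hn : k ^ (2 ^ n) = 1) : k = 1 := by
  have h1 : (3 : ℕ).Coprime (2 ^ n) := Nat.Coprime.pow_right n (by decide)
  have h2 := mem_of_pow_coprime (⊥ : Subgroup G) k h1 (by rw [h3]; exact Subgroup.one_mem _) (by rw [hn]; exact Subgroup.one_mem _)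
  exact Subgroup.mem_bot.mp h2

namespace ZNH

variable (Z : ZNH G)
include Z

/-- The main package: `N_G(W_K)` is a member of `ℒ(S')` for any Sylow `2`-subgroup `S' ≥ J(T)`. -/
theorem wOf_jover {T K S' : Subgroup G} {k w₁ w₂ : G} (hK : K ∈ jComponentsZero T) (hJS : JCS (thompsonSubgroupOf 2 T) K k w₁ w₂)
    (hS' : IsSylowTwoIn S' (Subgroup.normalizer (wOf K : Set G)))
    (hJS' : thompsonSubgroupOf 2 T ≤ S') : Subgroup.normalizer (wOf K : Set G) ∈ jOvergroups S' := by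
  set N := Subgroup.normalizer (wOf K : Set G) with hN
  have hWp : IsPGroup 2 (wOf K) := (isPGroup_pCoreOf 2 K).to_le (wOf_le_pCoreOf K)
  have hW1 : wOf K ≠ ⊥ := by
    intro h
    have h4 := hK.1.2.2.2.2.1
    rw [h] at h4
    simp at h4
  have hKN : K ≤ N := Subgroup.le_normalizer.trans (normalizer_le_normalizer_wOf K)
  refine ⟨hS', ?_, Z.centralizer_core_le hWp hW1⟩
  have hJJ := hK.2 S' hJS' hS'
  rw [hJJ]
  intro hle
  have hK2 : K ≤ pCoreOf 2 N := by
    conv_lhs => rw [← hJS.hKJ]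
    rw [Subgroup.commutator_le]
    intro a ha j hj
    have h1 : a * j * a⁻¹ ∈ pCoreOf 2 N :=
      (Subgroup.mem_normalizer_iff.mp (le_normalizer_pCoreOf 2 N (hKN ha)) j).mp (hle hj)
    rw [commutatorElement_def]
    exact Subgroup.mul_mem _ h1 (Subgroup.inv_mem _ (hle hj))
  obtain ⟨n, hn⟩ := exists_two_pow_of_mem (isPGroup_pCoreOf 2 N) (hK2 hJS.hkK)
  exact hJS.hk1 (eq_one_of_cube_of_two_pow hJS.hk3 hn)

/-- `N_G(W_K) = N_G(K)`. -/
theorem normalizer_wOf_eq {T K : Subgroup G} (hK : K ∈ jComponentsZero T) (hT : IsPGroup 2 T) :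
    Subgroup.normalizer (K : Set G) = Subgroup.normalizer (wOf K : Set G) := by
  apply le_antisymm (normalizer_le_normalizer_wOf K)
  obtain ⟨k, w₁, w₂, hJS⟩ := exists_JCS hT hK.1
  set N := Subgroup.normalizer (wOf K : Set G) with hN
  have hJN : thompsonSubgroupOf 2 T ≤ N := hJS.hJN.trans (normalizer_le_normalizer_wOf K)
  obtain ⟨S', hS'J, hS'⟩ := exists_isSylowTwoIn hJN hJS.hJp
  have hLT := Z.wOf_jover hK hJS hS' hS'J
  have hJJ := hK.2 S' hS'J hS'
  have hKS' : IsJComponent S' K := isJComponent_congr hJJ hK.1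
  have hS'1 : S' ≠ ⊥ := by
    intro h
    rw [h, le_bot_iff] at hS'J
    have h1 := hJS.hKJ
    rw [hS'J, Subgroup.commutator_bot_right] at h1
    have h2 := hJS.hkK
    rw [← h1] at h2
    exact hJS.hk1 (Subgroup.mem_bot.mp h2)
  obtain ⟨k', w₁', w₂', h⟩ := Z.kc_of hS'.2.1 hS'1 hLT hKS' (Subgroup.le_normalizer.trans (normalizer_le_normalizer_wOf K))
  haveI := h.z.fact
  intro n hn
  have hcom := h.com_map
  have hw := h.hJ.hw₁
  have hu : EA.mk _ (h.hWX hw) ∈ com h.y := by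
    have h1 : w₁' ∈ (com h.y).map (EA.val _) := by rw [hcom]; exact hw
    obtain ⟨v, hv, he⟩ := h1
    have : EA.mk _ (h.hWX hw) = v := by
      apply EA.val_injective
      rw [he, EA.val_mk]
    rw [this]; exact hv
  apply h.norm_of_meet (n := ⟨n, hn⟩) hu
  · intro h1
    have h2 := congrArg (EA.val _) h1
    rw [EA.val_mk, map_one] at h2
    exact h.hJ.hw₁1 h2
  · have h1 : n * w₁' * n⁻¹ ∈ (com h.y).map (EA.val _) := by
      rw [hcom]
      exact (Subgroup.mem_normalizer_iff.mp hn w₁').mp hw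
    obtain ⟨v, hv, he⟩ := h1
    have : act _ _ h.z.hN ⟨n, hn⟩ (EA.mk _ (h.hWX hw)) = v := by
      apply EA.val_injective
      rw [he, act_val, EA.val_mk]
    rw [this]; exact hv

end ZNH

/-- Second half of the normalizer statement: transport of a `J(T)`-component. -/
theorem isJComponent_of_le_normalizer {T K : Subgroup G} (hK : K ∈ jComponentsZero T) (hT : IsPGroup 2 T) {g : G}
    (hNK : Subgroup.normalizer (wOf K : Set G) ≤ Subgroup.normalizer (K : Set G))
    (hg : thompsonSubgroupOf 2 (cj g T) ≤ Subgroup.normalizer (wOf K : Set G)) : IsJComponent (cj g T) K := by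
  obtain ⟨k, w₁, w₂, hJS⟩ := exists_JCS hT hK.1
  set N := Subgroup.normalizer (wOf K : Set G) with hN
  have hJN : thompsonSubgroupOf 2 T ≤ N := hJS.hJN.trans (normalizer_le_normalizer_wOf K)
  obtain ⟨S', hS'J, hS'⟩ := exists_isSylowTwoIn hJN hJS.hJp
  have hJJ := hK.2 S' hS'J hS'
  have hJ'p : IsPGroup 2 (thompsonSubgroupOf 2 (cj g T)) := (cj_isPGroup hT).to_le (Cfsg.Agent.Lib.JCompBasic.thompsonSubgroupOf_le 2 _)
  obtain ⟨S'', hS''J, hS''⟩ := exists_isSylowTwoIn hg hJ'p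
  obtain ⟨x, hxN, hx⟩ := exists_conj_of_sylow hS' hS''
  have hJ'' : thompsonSubgroupOf 2 (cj g T) = cj x (thompsonSubgroupOf 2 T) := by
    have h1 : thompsonSubgroupOf 2 S'' = cj x (thompsonSubgroupOf 2 T) := by
      rw [hx, thompson_cj, hJJ]
    rw [← h1]
    apply Subgroup.eq_of_le_of_card_ge
    · rw [thompsonOf_eq_sSup (cj g T)]
      refine sSup_le fun A (hA : MaxEA (cj g T) A) => ?_
      have hA' : MaxEA S'' A := by
        refine ⟨hA.le_thompson.trans hS''J, hA.2.1, ?_⟩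
        intro B hB hBe
        -- `B^{x⁻¹} ≤ S'`
        have h2 := maxEA_cj hA g⁻¹
        rw [cj_inv_cj] at h2
        have h3 := maxEA_of_thompson_eq hJJ h2
        have h4 : cj x⁻¹ B ≤ S' := by
          have := cj_mono (g := x⁻¹) hB
          rwa [hx, cj_inv_cj] at this
        have h5 := h3.2.2 _ h4 (ea_map hBe _)
        rwa [card_cj', card_cj'] at h5
      exact hA'.le_thompson
    · rw [h1, thompson_cj, card_cj', card_cj']
  exact isJComponent_of_conj (hNK hxN) hJ'' hK.1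

end Cfsg.Agent.Lib.FFG
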