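import Mathlib
import Cfsg.Agent.Lib.FFG7
import Cfsg.Agent.Lib.SubnormalP
import Cfsg.Agent.Lib.CompFitting

/-!
# Failure of factorization at the level of the group, part 8: `J(T)` normalizes subnormal `J(T^g)`-components
-/

set_option autoImplicit false
set_option linter.unusedSectionVars false

open Cfsg
open scoped commutatorElement

namespace Cfsg.Agent.Lib.FFG

open Cfsg.Agent.Lib.FFAct Cfsg.Agent.Lib.PCore Cfsg.Agent.Lib.JCompStruct Cfsg.Agent.Lib.ThompsonJ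
open Cfsg.Agent.Lib.BGFit2

variable {G : Type*} [Group G] [Finite G]

/-- A subnormal `2`-subgroup lies in the `2`-core (form with a normal `2`-subgroup of a subnormal subgroup). -/
theorem le_pCore_of_subnormal {X : Type*} [Group X] [Finite X] {H : Subgroup X} (hH : H.IsSubnormal) :
    ∀ {Q : Subgroup X}, Q ≤ H → H ≤ Subgroup.normalizer (Q : Set X) → IsPGroup 2 Q → Q ≤ pCore 2 X := by
  induction hH with
  | top =>
    intro Q _ h2 h3
    apply le_pCore _ h3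
    constructor
    intro n hn g
    exact (Subgroup.mem_normalizer_iff.mp (h2 (Subgroup.mem_top g)) n).mp hn
  | step H K₀ h_le _ hN ih =>
    intro Q h1 h2 h3
    have hK₀ : K₀ ≤ Subgroup.normalizer (H : Set X) := fun x hx => by
      apply Cfsg.Agent.Lib.Subnormal.mem_normalizer_of_conj_mem H x
      intro a ha
      have h5 : (⟨a, h_le ha⟩ : ↥K₀) ∈ H.subgroupOf K₀ := ha
      exact hN.conj_mem _ h5 ⟨x, hx⟩
    have h4 : Q ≤ pCoreOf 2 H := le_pCoreOf h1 h2 h3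
    refine h4.trans (ih ((pCoreOf_le 2 H).trans h_le) ?_ (isPGroup_pCoreOf 2 H))
    exact hK₀.trans (normalizer_le_normalizer_pCoreOf 2 H)

/-- Every element of `W_K` is a commutator with `k`. -/
theorem jcs_exists_com {J K : Subgroup G} {k w₁ w₂ : G} (hJ : JCS J K k w₁ w₂) {w : G} (hw : w ∈ wOf K) :
    ∃ w' ∈ wOf K, w = k * w' * k⁻¹ * w'⁻¹ := by
  have hc12 : w₁ * w₂ = w₂ * w₁ := wOf_comm hJ.hw₁ hJ.hw₂mem
  have hi1 : w₁⁻¹ = w₁ := inv_eq_of_mul_eq_one_left (hJ.hWsq _ hJ.hw₁)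
  have hi2 : w₂⁻¹ = w₂ := inv_eq_of_mul_eq_one_left (hJ.hWsq _ hJ.hw₂mem)
  have hs1 := hJ.hWsq _ hJ.hw₁
  have hs2 := hJ.hWsq _ hJ.hw₂mem
  have hw12 : w₁ * w₂ ∈ wOf K := (wOf K).mul_mem hJ.hw₁ hJ.hw₂mem
  have hk₃ : k * (w₁ * w₂) * k⁻¹ = w₁ := by
    have e : k * (w₁ * w₂) * k⁻¹ = (k * w₁ * k⁻¹) * (k * w₂ * k⁻¹) := by group
    rw [e, hJ.hw₂, hJ.hk₂, hc12, ← mul_assoc, hs2, one_mul]
  rcases hJ.hset w hw with h | h | h | h
  · exact ⟨1, Subgroup.one_mem _, by rw [h]; group⟩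
  · refine ⟨w₂, hJ.hw₂mem, ?_⟩
    rw [h, hJ.hk₂, hi2, mul_assoc, hs2, mul_one]
  · refine ⟨w₁ * w₂, hw12, ?_⟩
    rw [h, hk₃, mul_inv_rev, hi1, hi2, ← hc12, ← mul_assoc, hs1, one_mul]
  · refine ⟨w₁, hJ.hw₁, ?_⟩
    rw [h, hJ.hw₂, hi1]
    exact hc12

theorem thompson_between {T₁ T₂ : Subgroup G} (h : thompsonSubgroupOf 2 T₁ ≤ T₂) (h2 : T₂ ≤ T₁) :
    thompsonSubgroupOf 2 T₂ = thompsonSubgroupOf 2 T₁ := by
  have h3 : ∀ A, MaxEA T₁ A → MaxEA T₂ A := by
    intro A hA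
    exact ⟨hA.le_thompson.trans h, hA.2.1, fun B hB hBe => hA.2.2 B (hB.trans h2) hBe⟩
  apply le_antisymm
  · rw [thompsonOf_eq_sSup T₂]
    refine sSup_le fun A (hA : MaxEA T₂ A) => ?_
    obtain ⟨A₀, hA₀⟩ := exists_maxEA T₁
    have hA' : MaxEA T₁ A := by
      refine ⟨hA.1.trans h2, hA.2.1, fun B hB hBe => ?_⟩
      have h4 := hA₀.2.2 B hB hBe
      have h5 := MaxEA.card_eq (h3 A₀ hA₀) hA
      omega
    exact hA'.le_thompson
  · rw [thompsonOf_eq_sSup T₁]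
    refine sSup_le fun A (hA : MaxEA T₁ A) => ?_
    exact (h3 A hA).le_thompson

namespace ZNH

variable (Z : ZNH G)
include Z

/-- The main step of the transfer of `J(T)`-components. -/
theorem J_le_normalizer_wOf {T K L J₀ : Subgroup G} {k w₁ w₂ : G} (hLT : L ∈ jOvergroups T) (hT : IsPGroup 2 T)
    (hKL : K ≤ L) (hKsn : (K.subgroupOf (K ⊔ thompsonSubgroupOf 2 T)).IsSubnormal) (hJ : JCS J₀ K k w₁ w₂)
    (hgen : Subgroup.closure {g : G | g ∈ K ∧ Odd (orderOf g)} = K) (h4 : Nat.card (wOf K) = 4) :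
    thompsonSubgroupOf 2 T ≤ Subgroup.normalizer (wOf K : Set G) := by
  classical
  set J := thompsonSubgroupOf 2 T with hJdef
  set Y := K ⊔ J with hYdef
  have hJT : J ≤ T := Cfsg.Agent.Lib.JCompBasic.thompsonSubgroupOf_le 2 T
  have hJp : IsPGroup 2 J := hT.to_le hJT
  have hJL : J ≤ L := hJT.trans hLT.1.1
  have hYL : Y ≤ L := sup_le hKL hJL
  have hKY : K ≤ Y := le_sup_left
  have hJY : J ≤ Y := le_sup_right
  have hYs : Group.IsSolvable Y := by
    haveI := Z.jover_solv hLT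
    exact solvable_of_solvable_injective (f := Subgroup.inclusion hYL) (Subgroup.inclusion_injective hYL)
  set P := pCoreOf 2 Y with hPdef
  have hPp : IsPGroup 2 P := isPGroup_pCoreOf 2 Y
  have hYP : Y ≤ Subgroup.normalizer (P : Set G) := le_normalizer_pCoreOf 2 Y
  -- `P` normalizes `K`
  have hPK : P ≤ Subgroup.normalizer (K : Set G) := by
    have hgen' : K.subgroupOf Y ≤ Subgroup.closure {x : ↥Y | x ∈ K.subgroupOf Y ∧ (orderOf x).Coprime 2} := by
      set D := Subgroup.closure {x : ↥Y | x ∈ K.subgroupOf Y ∧ (orderOf x).Coprime 2} with hD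
      have hle : K ≤ D.map Y.subtype := by
        conv_lhs => rw [← hgen]
        rw [Subgroup.closure_le]
        rintro g ⟨hg, hgo⟩
        refine ⟨⟨g, hKY hg⟩, Subgroup.subset_closure ⟨hg, ?_⟩, rfl⟩
        rw [Subgroup.orderOf_mk]
        exact Nat.coprime_two_right.mpr hgo
      intro x hx
      obtain ⟨x', hx', he⟩ := hle hx
      have : x' = x := Subtype.ext he
      rwa [← this]
    have h1 := Cfsg.Agent.Lib.SubnormalP.pCore_le_normalizer (p := 2) hKsn hgen'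
    rintro _ ⟨p, hp, rfl⟩
    apply Cfsg.Agent.Lib.Subnormal.mem_normalizer_of_conj_mem K
    intro a ha
    have h2 : (⟨a, hKY ha⟩ : ↥Y) ∈ K.subgroupOf Y := ha
    have h3 := (Subgroup.mem_normalizer_iff.mp (h1 hp) _).mp h2
    exact h3
  -- `O₂(K) ≤ P`
  have hO2K : pCoreOf 2 K ≤ P := by
    have h1 := le_pCore_of_subnormal hKsn (Q := (pCoreOf 2 K).subgroupOf Y) ?_ ?_ ?_
    · intro x hx
      have hxY : x ∈ Y := hKY (pCoreOf_le 2 K hx)
      have h2 : (⟨x, hxY⟩ : ↥Y) ∈ (pCoreOf 2 K).subgroupOf Y := hx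
      exact ⟨_, h1 h2, rfl⟩
    · intro x hx
      exact pCoreOf_le 2 K hx
    · intro x hx
      apply Cfsg.Agent.Lib.Subnormal.mem_normalizer_of_conj_mem _ x
      intro p hp
      exact conj_mem_pCoreOf (Subgroup.le_normalizer hx) hp
    · exact IsPGroup.comap_of_injective (isPGroup_pCoreOf 2 K) _ Y.subtype_injective
  have hcent : ∀ p ∈ P, ∀ w ∈ wOf K, p * w = w * p := fun p hp w hw =>
    centralizes_wOf hJ h4 hPp hPK (hKY.trans hYP) hp hw
  have hWV : wOf K ≤ omegaCenterOf P := fun w hw =>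
    mem_omegaCenter (hO2K (wOf_le_pCoreOf K hw)) (fun x hx => hcent x hx w hw) (hJ.hWsq w hw)
  -- Sylow subgroups
  obtain ⟨T₂, hJT₂, hT₂⟩ := exists_isSylowTwoIn hJY hJp
  obtain ⟨T₁, hT₂T₁, hT₁⟩ := exists_isSylowTwoIn (hT₂.1.trans hYL) hT₂.2.1
  obtain ⟨l, hl, hT₁eq⟩ := exists_conj_of_sylow hLT.1 hT₁
  have hJT₁ : thompsonSubgroupOf 2 T₁ = J := by
    rw [hT₁eq]
    apply thompson_cj_eq_of_le
    rw [← hT₁eq]
    exact hJT₂.trans hT₂T₁
  have hJT₂' : thompsonSubgroupOf 2 T₂ = J := by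
    rw [← hJT₁]
    apply thompson_between _ hT₂T₁
    rw [hJT₁]
    exact hJT₂
  haveI : Fact (Nat.Prime 2) := ⟨Nat.prime_two⟩
  obtain ⟨S, hS⟩ := IsPGroup.exists_le_sylow hT₁.2.1
  have hZP : omegaCenterOf (S : Subgroup G) ≤ P := by
    intro z hz
    obtain ⟨h1, h2, h3⟩ := omegaCenter_mem hz
    have hRT₁ : pCoreOf 2 L ≤ T₁ := core_le_sylow hT₁
    have hR : z ∈ pCoreOf 2 L := by
      apply hLT.2.2
      apply Subgroup.mem_centralizer_iff.mpr
      intro r hr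
      exact h2 r (hS (hRT₁ hr))
    obtain ⟨A, hA⟩ := exists_maxEA T₁
    have hzA : z ∈ A := hA.mem_of_commute (hRT₁ hR) (by rw [pow_two]; exact h3)
      (fun a ha => h2 a (hS (hA.1 ha)))
    have hzJ : z ∈ J := by
      rw [← hJT₁]
      exact hA.le_thompson hzA
    have hle : pCoreOf 2 L ⊓ Y ≤ P := by
      apply le_pCoreOf inf_le_right
      · exact Cfsg.Agent.Lib.CoprimeInv.le_normalizer_inf (hYL.trans (le_normalizer_pCoreOf 2 L)) Subgroup.le_normalizer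
      · exact (isPGroup_pCoreOf 2 L).to_le inf_le_left
    exact hle ⟨hR, hJY hzJ⟩
  have z : ZNC (omegaCenterOf P) Y T₂ := znc_of Z.hZ hYs hT₂ S (hT₂T₁.trans hS) hZP
  haveI := z.fact
  set Φ := act (omegaCenterOf P) Y z.hN with hΦ
  have C := z.ffc
  have hM := EA.hM (omegaCenterOf P)
  -- the element `y`
  set kΓ : ↥Y := ⟨k, hKY hJ.hkK⟩ with hkΓ
  set y := Φ kΓ with hy
  have hy3 : y ^ 3 = 1 := by
    rw [hy, ← map_pow]
    have : kΓ ^ 3 = 1 := Subtype.ext hJ.hk3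
    rw [this, map_one]
  have hyodd : Odd (orderOf y) := by
    have h1 : orderOf y ∣ 3 := orderOf_dvd_of_pow_eq_one hy3
    exact Odd.of_dvd_nat (by decide) h1
  have hy1 : y ≠ 1 := by
    intro he
    have h1 := (act_eq_one_iff z.hN _).mp he
    have h2 := h1 _ (hWV hJ.hw₁)
    have h3 : k * w₁ * k⁻¹ = w₁ := by
      have : k * w₁ = w₁ * k := h2
      rw [this]; group
    exact hJ.hw₁1 (hJ.hfpf w₁ hJ.hw₁ h3)
  -- the image of `K`
  have himage : ∀ x (hx : x ∈ K), Φ ⟨x, hKY hx⟩ ∈ Subgroup.zpowers y := by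
    set Pp : Subgroup G := ((Subgroup.zpowers y).comap Φ).map Y.subtype with hPp
    have hle : pCoreOf 2 K ⊔ Subgroup.zpowers k ≤ Pp := by
      apply sup_le
      · intro p hp
        have hpY : p ∈ Y := hKY (pCoreOf_le 2 K hp)
        refine ⟨⟨p, hpY⟩, ?_, rfl⟩
        show Φ ⟨p, hpY⟩ ∈ Subgroup.zpowers y
        have : Φ ⟨p, hpY⟩ = 1 := (act_eq_one_iff z.hN _).mpr (z.hR p (hO2K hp))
        rw [this]
        exact Subgroup.one_mem _
      · rw [Subgroup.zpowers_le]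
        exact ⟨kΓ, Subgroup.mem_zpowers y, rfl⟩
    intro x hx
    obtain ⟨w, hw, he⟩ := hle (hJ.hKle hx)
    have : w = ⟨x, hKY hx⟩ := Subtype.ext he
    rw [← this]
    exact hw
  -- `y` lies in the Fitting subgroup of the image
  have hyF : y ∈ z.Fo := by
    set π := Φ.rangeRestrict with hπ
    have hs : Function.Surjective π := Φ.rangeRestrict_surjective
    have h1 : ((K.subgroupOf Y).map π).IsSubnormal := Subgroup.IsSubnormal.map hs hKsn
    have hpow : ∀ x : ↥((K.subgroupOf Y).map π), x ^ 3 = 1 := by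
      rintro ⟨_, ⟨a, ha, rfl⟩⟩
      apply Subtype.ext
      show ((π a) ^ 3 : ↥Φ.range) = 1
      apply Subtype.ext
      show (Φ a) ^ 3 = 1
      have h2 : Φ a ∈ Subgroup.zpowers y := himage a.1 ha
      rcases mem_zpowers_of_cube hy3 h2 with h3 | h3 | h3
      · rw [h3, one_pow]
      · rw [h3, hy3]
      · rw [h3, inv_pow, hy3, inv_one]
    have hp3 : IsPGroup 3 ((K.subgroupOf Y).map π) := fun x => ⟨1, by rw [pow_one]; exact hpow x⟩
    haveI : Fact (Nat.Prime 3) := ⟨Nat.prime_three⟩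
    have h2 := Cfsg.Agent.Lib.CompFitting.le_fitting_of_isSubnormal h1 hp3.isNilpotent
    have h3 : π kΓ ∈ (K.subgroupOf Y).map π := ⟨kΓ, hJ.hkK, rfl⟩
    exact ⟨π kΓ, h2 h3, rfl⟩
  have hyP : y ∈ z.Po := C.P_mem y hyF hy3
  -- `[X, y] = W_K`
  have hinOmega : ∀ u ∈ com y, (EA.val _ u) ∈ omegaCenterOf (pCoreOf 2 K) := by
    rintro _ ⟨v, rfl⟩
    show EA.val _ (y v * v⁻¹) ∈ _
    set v' := EA.val _ v with hv'
    have hv'V : v' ∈ omegaCenterOf P := EA.val_mem _ v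
    have hv'P : v' ∈ P := (omegaCenter_mem hv'V).1
    have he : EA.val _ (y v * v⁻¹) = k * v' * k⁻¹ * v'⁻¹ := by
      rw [map_mul, map_inv, hy, hΦ, act_val]
    have hm : EA.val _ (y v * v⁻¹) ∈ omegaCenterOf P := EA.val_mem _ _
    have hmK : EA.val _ (y v * v⁻¹) ∈ K := by
      rw [he]
      have h1 : v' * k⁻¹ * v'⁻¹ ∈ K := (Subgroup.mem_normalizer_iff.mp (hPK hv'P) _).mp (K.inv_mem hJ.hkK)
      have e : k * v' * k⁻¹ * v'⁻¹ = k * (v' * k⁻¹ * v'⁻¹) := by group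
      rw [e]
      exact K.mul_mem hJ.hkK h1
    have hle : K ⊓ omegaCenterOf P ≤ pCoreOf 2 K := by
      apply le_pCoreOf inf_le_left
      · apply Cfsg.Agent.Lib.CoprimeInv.le_normalizer_inf Subgroup.le_normalizer
        exact hKY.trans (omega_normalized Y)
      · refine hPp.to_le ?_
        exact inf_le_right.trans (fun v hv => (omegaCenter_mem hv).1)
    obtain ⟨h1, h2, h3⟩ := omegaCenter_mem hm
    exact mem_omegaCenter (hle ⟨hmK, hm⟩) (fun x hx => h2 x (hO2K hx)) h3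
  have hcomMap : (com y).map (EA.val _) = wOf K := by
    apply le_antisymm
    · rintro _ ⟨u₀, ⟨v, rfl⟩, rfl⟩
      show EA.val _ (y v * v⁻¹) ∈ _
      obtain ⟨f, hf, u, hu, rfl⟩ := fx_mul_com hM hyodd v
      have e1 : y (f * u) * (f * u)⁻¹ = y u * u⁻¹ := by
        rw [map_mul, hf, mul_inv, mul_mul_mul_comm, mul_inv_cancel, one_mul]
      rw [e1]
      have h1 := hinOmega u hu
      set e := EA.val _ u with he
      have e2 : EA.val _ (y u * u⁻¹) = (⁅e, k⁆)⁻¹ := by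
        rw [map_mul, map_inv, hy, hΦ, act_val, commutatorElement_def]
        show k * e * k⁻¹ * e⁻¹ = _
        group
      rw [e2]
      apply Subgroup.inv_mem
      exact Subgroup.commutator_mem_commutator h1 hJ.hkK
    · intro w hw
      obtain ⟨w', hw', rfl⟩ := jcs_exists_com hJ hw
      refine ⟨y (EA.mk _ (hWV hw')) * (EA.mk _ (hWV hw'))⁻¹, com_mem _ _, ?_⟩
      rw [map_mul, map_inv, EA.val_mk, hy, hΦ, act_val, EA.val_mk]
  have hcard : Nat.card (com y) = 4 := by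
    rw [← h4, ← hcomMap, EA.card_map]
  -- `J` normalizes `⟨y⟩`
  have hJnorm : ∀ j (hj : j ∈ J), Φ ⟨j, hJY hj⟩ ∈ normLine y := by
    intro j hj
    have h1 : j ∈ thompsonSubgroupOf 2 T₂ := by rw [hJT₂']; exact hj
    have h2 := z.J_image h1 (hJY hj)
    have hle : Subgroup.closure z.gens ≤ normLine y := by
      rw [Subgroup.closure_le]
      rintro t ⟨A, a, _, _, hY', rfl, c, ht⟩
      exact C.tr_norm hM hyP hcard ht ⟨_, rfl⟩
    exact hle h2
  intro j hj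
  apply Cfsg.Agent.Lib.Subnormal.mem_normalizer_of_conj_mem _ j
  intro w hw
  have hu : EA.mk _ (hWV hw) ∈ com y := by
    have h1 : w ∈ (com y).map (EA.val _) := by rw [hcomMap]; exact hw
    obtain ⟨v, hv, he⟩ := h1
    have : EA.mk _ (hWV hw) = v := by
      apply EA.val_injective
      rw [he, EA.val_mk]
    rw [this]; exact hv
  have h1 := com_conj_mem (Φ ⟨j, hJY hj⟩) y hu
  have h2 : Φ ⟨j, hJY hj⟩ (EA.mk _ (hWV hw)) ∈ com y := by
    rcases hJnorm j hj with h3 | h3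
    · rw [h3] at h1; exact h1
    · rw [h3, com_inv] at h1; exact h1
  rw [← hcomMap]
  refine ⟨_, h2, ?_⟩
  rw [hΦ, act_val, EA.val_mk]

/-- `S2945`. -/
theorem isJComponent_of_subnormal {T K L : Subgroup G} (hLT : L ∈ jOvergroups T) (hT : IsPGroup 2 T) (hKL : K ≤ L)
    (hKsn : (K.subgroupOf (K ⊔ thompsonSubgroupOf 2 T)).IsSubnormal) {g : G} (hKg : K ∈ jComponentsZero (cj g T)) :
    IsJComponent T K := by
  have hT' : IsPGroup 2 (cj g T) := cj_isPGroup hT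
  have h1 := Z.normalizer_wOf_eq hKg hT'
  obtain ⟨k, w₁, w₂, hJ⟩ := exists_JCS hT' hKg.1
  have h2 := Z.J_le_normalizer_wOf hLT hT hKL hKsn hJ hKg.1.1 hKg.1.2.2.2.2.1
  have h3 := isJComponent_of_le_normalizer hKg hT' (g := g⁻¹) h1.ge (by rw [cj_inv_cj]; exact h2)
  rwa [cj_inv_cj] at h3

end ZNH

end Cfsg.Agent.Lib.FFG
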