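import Mathlib
import Cfsg.Agent.Lib.FFG8

/-!
# Failure of factorization at the level of the group, part 9: the key bound on `[Ω₁(Z(O₂(K))), k]`
-/

set_option autoImplicit false
set_option linter.unusedSectionVars false

open Cfsg
open scoped commutatorElement

namespace Cfsg.Agent.Lib.FFG

open Cfsg.Agent.Lib.FFAct Cfsg.Agent.Lib.PCore Cfsg.Agent.Lib.JCompStruct Cfsg.Agent.Lib.ThompsonJ
open Cfsg.Agent.Lib.BGFit2

variable {G : Type*} [Group G] [Finite G]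

/-- A `2`-group acting on the nontrivial quotient `U/W`, both normal, has a nontrivial fixed point. -/
theorem exists_central_mod {R W U : Subgroup G} (hR : IsPGroup 2 R) (hWR : W ≤ R) (hUR : U ≤ R)
    (hWn : R ≤ Subgroup.normalizer (W : Set G)) (hUn : R ≤ Subgroup.normalizer (U : Set G)) (hUW : ¬ U ≤ W) :
    ∃ u ∈ U, u ∉ W ∧ ∀ r ∈ R, r * u * r⁻¹ * u⁻¹ ∈ W := by
  classical
  haveI : Fact (Nat.Prime 2) := ⟨Nat.prime_two⟩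
  set W' : Subgroup ↥R := W.subgroupOf R with hW'
  haveI hW'n : W'.Normal := by
    constructor
    intro n hn g
    apply Subgroup.mem_subgroupOf.mpr
    exact (Subgroup.mem_normalizer_iff.mp (hWn g.2) n.1).mp (Subgroup.mem_subgroupOf.mp hn)
  set π : ↥R →* ↥R ⧸ W' := QuotientGroup.mk' W' with hπ
  set Ũ : Subgroup (↥R ⧸ W') := (U.subgroupOf R).map π with hŨ
  have hΓ : IsPGroup 2 (↥R ⧸ W') := IsPGroup.to_quotient hR W'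
  have hŨ1 : Ũ ≠ ⊥ := by
    intro h
    apply hUW
    intro u hu
    have h1 : π ⟨u, hUR hu⟩ ∈ Ũ := ⟨⟨u, hUR hu⟩, hu, rfl⟩
    rw [h, Subgroup.mem_bot] at h1
    have h2 := (QuotientGroup.eq_one_iff _).mp h1
    exact h2
  have hc : 2 ∣ Nat.card Ũ := by
    obtain ⟨m, hm⟩ := IsPGroup.iff_card.mp (IsPGroup.to_subgroup hΓ Ũ)
    rw [hm]
    rcases m with _ | m
    · exfalso
      rw [pow_zero] at hm
      exact hŨ1 (Subgroup.eq_bot_of_card_eq _ hm)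
    · exact dvd_pow_self 2 (Nat.succ_ne_zero m)
  have hn : ∀ q ∈ (⊤ : Subgroup (↥R ⧸ W')), ∀ w ∈ Ũ, q * w * q⁻¹ ∈ Ũ := by
    rintro q - _ ⟨u, hu, rfl⟩
    obtain ⟨q', rfl⟩ := QuotientGroup.mk'_surjective W' q
    refine ⟨q' * u * q'⁻¹, ?_, by simp [π]⟩
    apply Subgroup.mem_subgroupOf.mpr
    exact (Subgroup.mem_normalizer_iff.mp (hUn q'.2) u.1).mp (Subgroup.mem_subgroupOf.mp hu)
  obtain ⟨w, ⟨u, hu, rfl⟩, hw1, hfix⟩ := exists_fixed_ne_one (IsPGroup.to_subgroup hΓ ⊤) hc hn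
  refine ⟨u.1, Subgroup.mem_subgroupOf.mp hu, ?_, ?_⟩
  · intro h
    apply hw1
    exact (QuotientGroup.eq_one_iff _).mpr h
  · intro r hr
    have h1 := hfix (π ⟨r, hr⟩) (Subgroup.mem_top _)
    have h2 : π (⟨r, hr⟩ * u * (⟨r, hr⟩ : ↥R)⁻¹ * u⁻¹) = 1 := by
      rw [map_mul, map_mul, map_mul, map_inv, map_inv, h1, mul_inv_cancel]
    have h3 := (QuotientGroup.eq_one_iff ((⟨r, hr⟩ : ↥R) * u * (⟨r, hr⟩ : ↥R)⁻¹ * u⁻¹)).mp h2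
    exact h3

theorem three_el {x a b : G} (hxa : x * a = a * x) (hxb : x * b = b * x) (hab : a * b = b * a) (hx : x * x = 1) (ha : a * a = 1)
    (hb : b * b = 1) : (a * x) * (b * a) * (x * b) = 1 := by
  calc (a * x) * (b * a) * (x * b) = (a * x) * (b * (a * x)) * b := by group
    _ = (a * x) * ((a * x) * b) * b := by
        have : b * (a * x) = (a * x) * b := by
          rw [← mul_assoc, ← hab, mul_assoc, ← hxb, mul_assoc]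
        rw [this]
    _ = (a * (x * a)) * x * (b * b) := by group
    _ = (a * (a * x)) * x * (b * b) := by rw [hxa]
    _ = (a * a) * (x * x) * (b * b) := by group
    _ = 1 := by rw [ha, hx, hb]; group

section Key

variable {R Ω W : Subgroup G} {a k : G}

/-- The subgroup of `Ω` of elements with trivial norm for `k`, `[r, ·] ≤ W`. -/
def yThree (R Ω W : Subgroup G) (k : G) (hΩc : ∀ u ∈ Ω, ∀ v ∈ Ω, u * v = v * u) (hΩk : ∀ u ∈ Ω, k * u * k⁻¹ ∈ Ω)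
    (hΩk' : ∀ u ∈ Ω, k⁻¹ * u * k ∈ Ω) (hRΩ : ∀ r ∈ R, ∀ u ∈ Ω, r * u * r⁻¹ ∈ Ω) : Subgroup G where
  carrier := {x | x ∈ Ω ∧ x * (k * x * k⁻¹) * (k⁻¹ * x * k) = 1 ∧ ∀ r ∈ R, r * x * r⁻¹ * x⁻¹ ∈ W}
  mul_mem' := by
    rintro x x' ⟨h1, h2, h3⟩ ⟨h1', h2', h3'⟩
    refine ⟨Ω.mul_mem h1 h1', ?_, ?_⟩
    · have hA := hΩk x h1
      have hA' := hΩk x' h1'
      have hB := hΩk' x h1
      have hB' := hΩk' x' h1'
      set A := k * x * k⁻¹ with hAd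
      set A' := k * x' * k⁻¹ with hAd'
      set B := k⁻¹ * x * k with hBd
      set B' := k⁻¹ * x' * k with hBd'
      have e1 : k * (x * x') * k⁻¹ = A * A' := by rw [hAd, hAd']; group
      have e2 : k⁻¹ * (x * x') * k = B * B' := by rw [hBd, hBd']; group
      rw [e1, e2]
      calc x * x' * (A * A') * (B * B') = x * (x' * A) * A' * (B * B') := by group
        _ = x * (A * x') * A' * (B * B') := by rw [hΩc x' h1' A hA]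
        _ = x * A * ((x' * A') * B) * B' := by group
        _ = x * A * (B * (x' * A')) * B' := by rw [hΩc _ (Ω.mul_mem h1' hA') B hB]
        _ = (x * A * B) * (x' * A' * B') := by group
        _ = 1 := by rw [h2, h2', one_mul]
    · intro r hr
      have h4 := h3 r hr
      have h5 := h3' r hr
      have h6 : r * (x * x') * r⁻¹ * (x * x')⁻¹ = (r * x * r⁻¹) * ((r * x' * r⁻¹) * x'⁻¹) * x⁻¹ := by group
      have h7 : (r * x * r⁻¹) * ((r * x' * r⁻¹) * x'⁻¹) = ((r * x' * r⁻¹) * x'⁻¹) * (r * x * r⁻¹) :=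
        hΩc _ (hRΩ r hr x h1) _ (Ω.mul_mem (hRΩ r hr x' h1') (Ω.inv_mem h1'))
      rw [h6, h7]
      have h8 : r * x' * r⁻¹ * x'⁻¹ * (r * x * r⁻¹) * x⁻¹ = (r * x' * r⁻¹ * x'⁻¹) * (r * x * r⁻¹ * x⁻¹) := by group
      rw [h8]
      exact W.mul_mem h5 h4
  one_mem' := by
    refine ⟨Ω.one_mem, by simp, ?_⟩
    intro r _
    simp [W.one_mem]
  inv_mem' := by
    rintro x ⟨h1, h2, h3⟩
    refine ⟨Ω.inv_mem h1, ?_, ?_⟩
    · have hA := hΩk x h1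
      have hB := hΩk' x h1
      set A := k * x * k⁻¹ with hAd
      set B := k⁻¹ * x * k with hBd
      have e1 : k * x⁻¹ * k⁻¹ = A⁻¹ := by rw [hAd]; group
      have e2 : k⁻¹ * x⁻¹ * k = B⁻¹ := by rw [hBd]; group
      rw [e1, e2]
      have hB' : x * A = B⁻¹ := mul_eq_one_iff_eq_inv.mp h2
      rw [← hB']
      have hc : A⁻¹ * x = x * A⁻¹ := hΩc _ (Ω.inv_mem hA) _ h1
      calc x⁻¹ * A⁻¹ * (x * A) = x⁻¹ * (A⁻¹ * x) * A := by group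
        _ = x⁻¹ * (x * A⁻¹) * A := by rw [hc]
        _ = 1 := by group
    · intro r hr
      have h4 := h3 r hr
      have h5 : r * x⁻¹ * r⁻¹ * x⁻¹⁻¹ = (r * x * r⁻¹)⁻¹ * x := by group
      rw [h5]
      have h6 : (r * x * r⁻¹)⁻¹ * x = (r * x * r⁻¹ * x⁻¹)⁻¹ := by
        have := hΩc _ (Ω.inv_mem (hRΩ r hr x h1)) _ h1
        rw [this]
        group
      rw [h6]
      exact W.inv_mem h4

variable [Finite G]

theorem ea_sup_zpowers {H : Subgroup G} (hH : IsElementaryAbelian 2 H) {x : G} (hx : x ^ 2 = 1)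
    (hc : ∀ h ∈ H, h * x = x * h) : IsElementaryAbelian 2 (H ⊔ Subgroup.zpowers x) := by
  have hz : IsElementaryAbelian 2 (Subgroup.zpowers x) := by
    rw [Subgroup.zpowers_eq_closure]
    apply isElementaryAbelian_closure
    · rintro a rfl b rfl; rfl
    · rintro a rfl; exact hx
  apply ea_sup hH hz
  intro a ha b hb
  obtain ⟨k, rfl⟩ := Subgroup.mem_zpowers_iff.mp hb
  have h1 : Commute a x := hc a ha
  exact (h1.zpow_right k).eq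

theorem two_mul_card_le_sup {H : Subgroup G} {x : G} (hx : x ∉ H) :
    2 * Nat.card H ≤ Nat.card ↥(H ⊔ Subgroup.zpowers x) := by
  have hle : H ≤ H ⊔ Subgroup.zpowers x := le_sup_left
  obtain ⟨m, hm⟩ := Subgroup.card_dvd_of_le hle
  have hne : H ≠ H ⊔ Subgroup.zpowers x := by
    intro h
    apply hx
    rw [h]
    exact Subgroup.mem_sup_right (Subgroup.mem_zpowers x)
  have hm1 : m ≠ 1 := by
    rintro rfl
    rw [mul_one] at hm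
    exact hne (Subgroup.eq_of_le_of_card_ge hle hm.le)
  have hm0 : m ≠ 0 := by
    rintro rfl
    rw [mul_zero] at hm
    exact Nat.card_pos.ne' hm
  have hm2 : 2 ≤ m := by omega
  rw [hm, mul_comm]
  exact Nat.mul_le_mul_left _ hm2

/-- The subgroup of `R` on which `a` acts with commutators in `{1, c}`. -/
def hOne (R : Subgroup G) (a c : G) (haR : a ∈ Subgroup.normalizer (R : Set G)) (hcR : ∀ r ∈ R, r * c = c * r)
    (hac : a * c * a⁻¹ = c) (hc2 : c * c = 1) : Subgroup G where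
  carrier := {x | x ∈ R ∧ (a * x * a⁻¹ * x⁻¹ = 1 ∨ a * x * a⁻¹ * x⁻¹ = c)}
  mul_mem' := by
    rintro x x' ⟨h1, h2⟩ ⟨h1', h2'⟩
    refine ⟨R.mul_mem h1 h1', ?_⟩
    have e : a * (x * x') * a⁻¹ * (x * x')⁻¹ = (a * x * a⁻¹ * x⁻¹) * (x * (a * x' * a⁻¹ * x'⁻¹) * x⁻¹) := by group
    rw [e]
    rcases h2 with h2 | h2 <;> rcases h2' with h2' | h2'
    · left; rw [h2, h2']; group
    · right; rw [h2, h2', hcR x h1]; group
    · right; rw [h2, h2']; group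
    · left; rw [h2, h2', hcR x h1]
      have : c * (c * x * x⁻¹) = c * c := by group
      rw [this, hc2]
  one_mem' := ⟨R.one_mem, Or.inl (by group)⟩
  inv_mem' := by
    rintro x ⟨h1, h2⟩
    refine ⟨R.inv_mem h1, ?_⟩
    have haxR : a * x⁻¹ * a⁻¹ ∈ R := (Subgroup.mem_normalizer_iff.mp haR _).mp (R.inv_mem h1)
    have e : a * x⁻¹ * a⁻¹ * x⁻¹⁻¹ = (a * x⁻¹ * a⁻¹) * (a * x * a⁻¹ * x⁻¹)⁻¹ * (a * x⁻¹ * a⁻¹)⁻¹ := by group
    rw [e]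
    rcases h2 with h2 | h2
    · left; rw [h2]; group
    · right; rw [h2]
      have hci : c⁻¹ = c := inv_eq_of_mul_eq_one_left hc2
      rw [hci, hcR _ haxR]; group

theorem exists_y' (hR2 : IsPGroup 2 R) (hΩR : Ω ≤ R) (hΩc : ∀ u ∈ Ω, ∀ v ∈ Ω, u * v = v * u) (hΩ2 : ∀ u ∈ Ω, u * u = 1)
    (ha2 : a * a = 1) (hk3 : k ^ 3 = 1) (hak : a * k * a⁻¹ = k⁻¹)
    (haR : a ∈ Subgroup.normalizer (R : Set G)) (hΩa : ∀ u ∈ Ω, a * u * a⁻¹ ∈ Ω) (hΩk : ∀ u ∈ Ω, k * u * k⁻¹ ∈ Ω)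
    (hΩk' : ∀ u ∈ Ω, k⁻¹ * u * k ∈ Ω) (hRΩ : ∀ r ∈ R, ∀ u ∈ Ω, r * u * r⁻¹ ∈ Ω)
    (hF1 : ∀ r ∈ R, ∀ x ∈ Ω, r * (k * x * k⁻¹) * r⁻¹ = k * (r * x * r⁻¹) * k⁻¹)
    (hWΩ : W ≤ Ω) (hWk : ∀ w ∈ W, k * w * k⁻¹ ∈ W) (hWk' : ∀ w ∈ W, k⁻¹ * w * k ∈ W) (hWa : ∀ w ∈ W, a * w * a⁻¹ ∈ W)
    (hWR : ∀ r ∈ R, ∀ w ∈ W, r * w = w * r) (hnot : ¬ ∀ x ∈ Ω, k * x * k⁻¹ * x⁻¹ ∈ W) :
    ∃ y' ∈ Ω, y' ∉ W ∧ a * y' * a⁻¹ = y' ∧ y' * (k * y' * k⁻¹) * (k⁻¹ * y' * k) = 1 ∧ ∀ r ∈ R, r * y' * r⁻¹ * y'⁻¹ ∈ W := by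
  push Not at hnot
  obtain ⟨x₀, hx₀, hu₀⟩ := hnot
  have hai : a⁻¹ = a := inv_eq_of_mul_eq_one_left ha2
  have hkk : k * k = k⁻¹ := by
    have e : k ^ 3 = k * k * k := by simp [pow_succ]
    rw [e] at hk3
    exact eq_inv_of_mul_eq_one_left hk3
  have hkk' : k⁻¹ * k⁻¹ = k := by
    rw [← hkk]
    have e : k ^ 3 = k * k * k := by simp [pow_succ]
    rw [e] at hk3
    calc k * k * (k * k) = (k * k * k) * k := by group
      _ = k := by rw [hk3, one_mul]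
  have hΩinv : ∀ u ∈ Ω, u⁻¹ = u := fun u hu => inv_eq_of_mul_eq_one_left (hΩ2 u hu)
  set U₀ := yThree R Ω ⊤ k hΩc hΩk hΩk' hRΩ with hU₀
  set Y₃ := yThree R Ω W k hΩc hΩk hΩk' hRΩ with hY₃
  have hF1' : ∀ r ∈ R, ∀ x ∈ Ω, k⁻¹ * (r * x * r⁻¹) * k = r * (k⁻¹ * x * k) * r⁻¹ := by
    intro r hr x hx
    have h1 := hF1 r hr _ (hΩk' x hx)
    have e : k * (k⁻¹ * x * k) * k⁻¹ = x := by group
    rw [e] at h1
    rw [h1]; group
  have hNr : ∀ r ∈ R, ∀ u ∈ Ω, u * (k * u * k⁻¹) * (k⁻¹ * u * k) = 1 →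
      (r * u * r⁻¹) * (k * (r * u * r⁻¹) * k⁻¹) * (k⁻¹ * (r * u * r⁻¹) * k) = 1 := by
    intro r hr u hu hN
    rw [← hF1 r hr u hu, hF1' r hr u hu]
    have e : r * u * r⁻¹ * (r * (k * u * k⁻¹) * r⁻¹) * (r * (k⁻¹ * u * k) * r⁻¹) =
        r * (u * (k * u * k⁻¹) * (k⁻¹ * u * k)) * r⁻¹ := by group
    rw [e, hN]; group
  -- `u₀` has norm one
  have hu₀U : k * x₀ * k⁻¹ * x₀⁻¹ ∈ U₀ := by
    refine ⟨Ω.mul_mem (hΩk x₀ hx₀) (Ω.inv_mem hx₀), ?_, fun _ _ => Subgroup.mem_top _⟩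
    have hA := hΩk x₀ hx₀
    have hB := hΩk' x₀ hx₀
    have e1 : k * (k * x₀ * k⁻¹ * x₀⁻¹) * k⁻¹ = (k⁻¹ * x₀ * k) * (k * x₀ * k⁻¹)⁻¹ := by
      have e3 : k * (k * x₀ * k⁻¹ * x₀⁻¹) * k⁻¹ = (k * k) * x₀ * k⁻¹ * x₀⁻¹ * k⁻¹ := by group
      have e4 : (k⁻¹ * x₀ * k) * (k * x₀ * k⁻¹)⁻¹ = k⁻¹ * x₀ * (k * k) * x₀⁻¹ * k⁻¹ := by group
      rw [e3, e4, hkk]
    have e2 : k⁻¹ * (k * x₀ * k⁻¹ * x₀⁻¹) * k = x₀ * (k⁻¹ * x₀ * k)⁻¹ := by group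
    rw [e1, e2, hΩinv _ hA, hΩinv _ hB, hΩinv _ hx₀]
    exact three_el (hΩc _ hx₀ _ hA) (hΩc _ hx₀ _ hB) (hΩc _ hA _ hB) (hΩ2 _ hx₀) (hΩ2 _ hA) (hΩ2 _ hB)
  have hUR : U₀ ≤ R := fun u hu => hΩR hu.1
  have hWn : R ≤ Subgroup.normalizer (W : Set G) := by
    intro r hr
    apply Cfsg.Agent.Lib.Subnormal.mem_normalizer_of_conj_mem W r
    intro w hw
    rw [hWR r hr w hw]
    simpa using hw
  have hUn : R ≤ Subgroup.normalizer (U₀ : Set G) := by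
    intro r hr
    apply Cfsg.Agent.Lib.Subnormal.mem_normalizer_of_conj_mem U₀ r
    intro u hu
    exact ⟨hRΩ r hr u hu.1, hNr r hr u hu.1 hu.2.1, fun _ _ => Subgroup.mem_top _⟩
  have hUW : ¬ U₀ ≤ W := fun h => hu₀ (h hu₀U)
  obtain ⟨y₁, hy₁U, hy₁W, hy₁R⟩ := exists_central_mod hR2 (hWΩ.trans hΩR) hUR hWn hUn hUW
  have hy₁ : y₁ ∈ Y₃ := ⟨hy₁U.1, hy₁U.2.1, hy₁R⟩
  have hak' : a * k⁻¹ * a⁻¹ = k := by
    have : a * k⁻¹ * a⁻¹ = (a * k * a⁻¹)⁻¹ := by group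
    rw [this, hak, inv_inv]
  have hY3a : ∀ y ∈ Y₃, a * y * a⁻¹ ∈ Y₃ := by
    rintro y ⟨h1, h2, h3⟩
    refine ⟨hΩa y h1, ?_, ?_⟩
    · have e1 : k * (a * y * a⁻¹) * k⁻¹ = a * (k⁻¹ * y * k) * a⁻¹ := by
        have : a * (k⁻¹ * y * k) * a⁻¹ = (a * k⁻¹ * a⁻¹) * (a * y * a⁻¹) * (a * k * a⁻¹) := by group
        rw [this, hak, hak']
      have e2 : k⁻¹ * (a * y * a⁻¹) * k = a * (k * y * k⁻¹) * a⁻¹ := by
        have : a * (k * y * k⁻¹) * a⁻¹ = (a * k * a⁻¹) * (a * y * a⁻¹) * (a * k⁻¹ * a⁻¹) := by group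
        rw [this, hak, hak']
      rw [e1, e2]
      have e3 : a * y * a⁻¹ * (a * (k⁻¹ * y * k) * a⁻¹) * (a * (k * y * k⁻¹) * a⁻¹) =
          a * (y * ((k⁻¹ * y * k) * (k * y * k⁻¹))) * a⁻¹ := by group
      rw [e3, hΩc _ (hΩk' y h1) _ (hΩk y h1)]
      have e4 : y * ((k * y * k⁻¹) * (k⁻¹ * y * k)) = y * (k * y * k⁻¹) * (k⁻¹ * y * k) := by group
      rw [e4, h2]; group
    · intro r hr
      have hr' : a⁻¹ * r * a ∈ R := by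
        have := (Subgroup.mem_normalizer_iff.mp ((Subgroup.normalizer (R : Set G)).inv_mem haR) r).mp hr
        simpa using this
      have h4 := hWa _ (h3 _ hr')
      have e : r * (a * y * a⁻¹) * r⁻¹ * (a * y * a⁻¹)⁻¹ =
          a * ((a⁻¹ * r * a) * y * (a⁻¹ * r * a)⁻¹ * y⁻¹) * a⁻¹ := by group
      rw [e]
      exact h4
  have hY3k : ∀ y ∈ Y₃, k * y * k⁻¹ ∈ Y₃ := by
    rintro y ⟨h1, h2, h3⟩
    refine ⟨hΩk y h1, ?_, ?_⟩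
    · have e1 : k * (k * y * k⁻¹) * k⁻¹ = k⁻¹ * y * k := by
        have : k * (k * y * k⁻¹) * k⁻¹ = (k * k) * y * (k⁻¹ * k⁻¹) := by group
        rw [this, hkk, hkk']
      have e2 : k⁻¹ * (k * y * k⁻¹) * k = y := by group
      rw [e1, e2]
      have h4 : y * ((k * y * k⁻¹) * (k⁻¹ * y * k)) = 1 := by rw [← h2]; group
      rw [eq_inv_of_mul_eq_one_right h4, inv_mul_cancel]
    · intro r hr
      have h4 := hWk _ (h3 r hr)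
      have e : r * (k * y * k⁻¹) * r⁻¹ * (k * y * k⁻¹)⁻¹ = k * (r * y * r⁻¹ * y⁻¹) * k⁻¹ := by
        rw [hF1 r hr y h1]; group
      rw [e]
      exact h4
  have hfixed : ∀ v ∈ Ω, a * (v * (a * v * a⁻¹)) * a⁻¹ = v * (a * v * a⁻¹) := by
    intro v hv
    have e : a * (v * (a * v * a⁻¹)) * a⁻¹ = (a * v * a⁻¹) * ((a * a) * v * (a⁻¹ * a⁻¹)) := by group
    have e' : (a * a) * v * (a⁻¹ * a⁻¹) = v := by
      have h2 : a⁻¹ * a⁻¹ = 1 := by rw [← mul_inv_rev, ha2, inv_one]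
      rw [ha2, h2]; group
    rw [e, e']
    exact hΩc _ (hΩa v hv) _ hv
  have hu3 : y₁ * (a * y₁ * a⁻¹) ∈ Y₃ := Y₃.mul_mem hy₁ (hY3a y₁ hy₁)
  by_cases huW : y₁ * (a * y₁ * a⁻¹) ∈ W
  · set u := y₁ * (a * y₁ * a⁻¹) with hu
    have hv3 : k * y₁ * k⁻¹ ∈ Y₃ := hY3k y₁ hy₁
    have hu'3 : (k * y₁ * k⁻¹) * (a * (k * y₁ * k⁻¹) * a⁻¹) ∈ Y₃ := Y₃.mul_mem hv3 (hY3a _ hv3)
    have hnotW : (k * y₁ * k⁻¹) * (a * (k * y₁ * k⁻¹) * a⁻¹) ∉ W := by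
      intro h
      apply hy₁W
      have e1 : a * (k * y₁ * k⁻¹) * a⁻¹ = k⁻¹ * (a * y₁ * a⁻¹) * k := by
        have : a * (k * y₁ * k⁻¹) * a⁻¹ = (a * k * a⁻¹) * (a * y₁ * a⁻¹) * (a * k⁻¹ * a⁻¹) := by group
        rw [this, hak, hak']
      have e2 : a * y₁ * a⁻¹ = y₁⁻¹ * u := by rw [hu]; group
      have hN := hy₁.2.1
      have e3 : (k * y₁ * k⁻¹) * (k⁻¹ * y₁⁻¹ * k) = y₁⁻¹ := by
        rw [hΩinv y₁ hy₁.1]
        rw [mul_assoc y₁] at hN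
        exact eq_inv_of_mul_eq_one_right hN |>.trans (by rw [hΩinv y₁ hy₁.1]) 
      have e4 : (k * y₁ * k⁻¹) * (a * (k * y₁ * k⁻¹) * a⁻¹) = y₁⁻¹ * (k⁻¹ * u * k) := by
        rw [e1, e2]
        have e6 : k * y₁ * k⁻¹ * (k⁻¹ * (y₁⁻¹ * u) * k) = ((k * y₁ * k⁻¹) * (k⁻¹ * y₁⁻¹ * k)) * (k⁻¹ * u * k) := by group
        rw [e6, e3]
      rw [e4] at h
      have h5 := W.mul_mem h (W.inv_mem (hWk' u huW))
      have e5 : y₁⁻¹ * (k⁻¹ * u * k) * (k⁻¹ * u * k)⁻¹ = y₁⁻¹ := by group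
      rw [e5] at h5
      simpa using W.inv_mem h5
    exact ⟨_, hu'3.1, hnotW, hfixed _ hv3.1, hu'3.2.1, hu'3.2.2⟩
  · exact ⟨_, hu3.1, huW, hfixed _ hy₁.1, hu3.2.1, hu3.2.2⟩

/-- The key bound. -/
theorem ff_key {T As : Subgroup G} {c₁ c₂ : G} (hR2 : IsPGroup 2 R) (hΩR : Ω ≤ R) (hΩc : ∀ u ∈ Ω, ∀ v ∈ Ω, u * v = v * u) (hΩ2 : ∀ u ∈ Ω, u * u = 1)
    (ha2 : a * a = 1) (hk3 : k ^ 3 = 1) (hak : a * k * a⁻¹ = k⁻¹)
    (haR : a ∈ Subgroup.normalizer (R : Set G)) (hΩa : ∀ u ∈ Ω, a * u * a⁻¹ ∈ Ω) (hΩk : ∀ u ∈ Ω, k * u * k⁻¹ ∈ Ω)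
    (hΩk' : ∀ u ∈ Ω, k⁻¹ * u * k ∈ Ω) (hRΩ : ∀ r ∈ R, ∀ u ∈ Ω, r * u * r⁻¹ ∈ Ω)
    (hF1 : ∀ r ∈ R, ∀ x ∈ Ω, r * (k * x * k⁻¹) * r⁻¹ = k * (r * x * r⁻¹) * k⁻¹)
    (hWΩ : W ≤ Ω) (hWk : ∀ w ∈ W, k * w * k⁻¹ ∈ W) (hWk' : ∀ w ∈ W, k⁻¹ * w * k ∈ W) (hWa : ∀ w ∈ W, a * w * a⁻¹ ∈ W)
    (hWR : ∀ r ∈ R, ∀ w ∈ W, r * w = w * r)
    (hc₁ : c₁ ∈ W) (hc₁1 : c₁ ≠ 1) (hac₁ : a * c₁ * a⁻¹ = c₁) (hc₂ : c₂ ∈ W) (hac₂ : a * c₂ * a⁻¹ = c₂ * c₁)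
    (hfix : ∀ w ∈ W, a * w * a⁻¹ = w → w = 1 ∨ w = c₁)
    (hRT : R ≤ T) (hAs : MaxEA T As) (hAsR : As ≤ R)
    (hcard : Nat.card As ≤ 2 * Nat.card ↥(As ⊓ Subgroup.centralizer ({a} : Set G))) :
    ∀ x ∈ Ω, k * x * k⁻¹ * x⁻¹ ∈ W := by
  classical
  by_contra hnot
  obtain ⟨y', hy'Ω, hy'W, hay', hNy', hRy'⟩ := exists_y' hR2 hΩR hΩc hΩ2 ha2 hk3 hak haR hΩa hΩk hΩk' hRΩ hF1 hWΩ hWk hWk' hWa hWR hnot
  have hΩinv : ∀ u ∈ Ω, u⁻¹ = u := fun u hu => inv_eq_of_mul_eq_one_left (hΩ2 u hu)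
  have hai : a⁻¹ = a := inv_eq_of_mul_eq_one_left ha2
  have hak' : a * k⁻¹ * a⁻¹ = k := by
    have : a * k⁻¹ * a⁻¹ = (a * k * a⁻¹)⁻¹ := by group
    rw [this, hak, inv_inv]
  set A₂ := As ⊓ Subgroup.centralizer ({a} : Set G) with hA₂
  have hA₂ea : IsElementaryAbelian 2 A₂ := ea_mono hAs.2.1 inf_le_left
  have hA₂R : A₂ ≤ R := inf_le_left.trans hAsR
  have hcomma : ∀ r ∈ A₂, a * r = r * a := fun r hr => (Subgroup.mem_centralizer_singleton_iff.mp hr.2).symm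
  have h1 : ∀ r ∈ A₂, r * y' * r⁻¹ = y' ∨ r * y' * r⁻¹ = c₁ * y' := by
    intro r hr
    have h2 := hRy' r (hA₂R hr)
    have h3 : a * (r * y' * r⁻¹ * y'⁻¹) * a⁻¹ = r * y' * r⁻¹ * y'⁻¹ := by
      have e : a * (r * y' * r⁻¹ * y'⁻¹) * a⁻¹ = (a * r * a⁻¹) * (a * y' * a⁻¹) * (a * r * a⁻¹)⁻¹ * (a * y' * a⁻¹)⁻¹ := by group
      have h4 : a * r * a⁻¹ = r := by rw [hcomma r hr]; group
      rw [e, h4, hay']
    rcases hfix _ h2 h3 with h4 | h4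
    · left
      exact mul_inv_eq_one.mp h4
    · right
      exact mul_inv_eq_iff_eq_mul.mp h4
  have hcD := card_le_two_mul A₂ y' (c₁ * y') h1
  set D := A₂ ⊓ Subgroup.centralizer ({y'} : Set G) with hD
  set D' := D ⊔ Subgroup.zpowers y' with hD'
  have hy'2 : y' ^ 2 = 1 := by rw [pow_two]; exact hΩ2 _ hy'Ω
  have hD'ea : IsElementaryAbelian 2 D' :=
    ea_sup_zpowers (ea_mono hA₂ea inf_le_left) hy'2 (fun r hr => Subgroup.mem_centralizer_singleton_iff.mp hr.2)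
  have hcardD' : Nat.card A₂ ≤ Nat.card D' := by
    by_cases hy'A : y' ∈ A₂
    · apply Subgroup.card_le_of_le
      intro r hr
      apply Subgroup.mem_sup_left
      exact ⟨hr, Subgroup.mem_centralizer_singleton_iff.mpr (Cfsg.Agent.Lib.ThompsonJ.ea_comm hA₂ea hr hy'A)⟩
    · have h2 : y' ∉ D := fun h => hy'A h.1
      have h3 : 2 * Nat.card D ≤ Nat.card D' := two_mul_card_le_sup h2
      omega
  have hD'R : D' ≤ R := sup_le (inf_le_left.trans hA₂R) ((Subgroup.zpowers_le).mpr (hΩR hy'Ω))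
  have hD'a : D' ≤ Subgroup.centralizer ({a} : Set G) := by
    apply sup_le (inf_le_left.trans inf_le_right)
    rw [Subgroup.zpowers_le]
    apply Subgroup.mem_centralizer_singleton_iff.mpr
    exact (mul_inv_eq_iff_eq_mul.mp hay').symm
  have hc₁2 : c₁ * c₁ = 1 := hΩ2 _ (hWΩ hc₁)
  have hcR : ∀ r ∈ R, r * c₁ = c₁ * r := fun r hr => hWR r hr c₁ hc₁
  set H₁ := hOne R a c₁ haR hcR hac₁ hc₁2 with hH₁
  have hD'H : D' ≤ H₁ := by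
    intro d hd
    refine ⟨hD'R hd, Or.inl ?_⟩
    have h2 := Subgroup.mem_centralizer_singleton_iff.mp (hD'a hd)
    rw [← h2]; group
  have hc₂H : c₂ ∈ H₁ := by
    refine ⟨hΩR (hWΩ hc₂), Or.inr ?_⟩
    rw [hac₂, hΩc _ (hWΩ hc₂) _ (hWΩ hc₁)]
    group
  set E₁ := D' ⊔ Subgroup.zpowers c₂ with hE₁
  have hE₁H : E₁ ≤ H₁ := sup_le hD'H ((Subgroup.zpowers_le).mpr hc₂H)
  have hc₂D' : c₂ ∉ D' := by
    intro h
    have h2 := Subgroup.mem_centralizer_singleton_iff.mp (hD'a h)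
    have h3 : a * c₂ * a⁻¹ = c₂ := by
      rw [← h2]; group
    rw [hac₂] at h3
    exact hc₁1 (mul_eq_left.mp h3)
  have hE₁ea : IsElementaryAbelian 2 E₁ := by
    apply ea_sup_zpowers hD'ea (by rw [pow_two]; exact hΩ2 _ (hWΩ hc₂))
    intro d hd
    exact hWR d (hD'R hd) c₂ hc₂
  have hcE₁ : 2 * Nat.card D' ≤ Nat.card E₁ := two_mul_card_le_sup hc₂D'
  -- the element `u₂`
  set u₂ := k * y' * k⁻¹ with hu₂
  have hu₂Ω : u₂ ∈ Ω := hΩk y' hy'Ω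
  have hu₂H : u₂ ∉ H₁ := by
    rintro ⟨-, h⟩
    have e1 : a * u₂ * a⁻¹ = k⁻¹ * y' * k := by
      have : a * u₂ * a⁻¹ = (a * k * a⁻¹) * (a * y' * a⁻¹) * (a * k⁻¹ * a⁻¹) := by rw [hu₂]; group
      rw [this, hak, hak', hay']
    have hB := hΩk' y' hy'Ω
    have e2 : a * u₂ * a⁻¹ * u₂⁻¹ = y' := by
      rw [e1, hΩinv _ hu₂Ω, hΩc _ hB _ hu₂Ω]
      rw [mul_assoc y'] at hNy'
      have := eq_inv_of_mul_eq_one_right hNy'
      rw [this, hΩinv _ hy'Ω]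
    rw [e2] at h
    rcases h with h | h
    · apply hy'W; rw [h]; exact W.one_mem
    · apply hy'W; rw [h]; exact hc₁
  have hu₂E : u₂ ∉ E₁ := fun h => hu₂H (hE₁H h)
  have hcommu : ∀ e ∈ E₁, e * u₂ = u₂ * e := by
    have hle : E₁ ≤ Subgroup.centralizer ({u₂} : Set G) := by
      apply sup_le
      · apply sup_le
        · intro r hr
          apply Subgroup.mem_centralizer_singleton_iff.mpr
          have h2 := Subgroup.mem_centralizer_singleton_iff.mp hr.2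
          have h3 : r * y' * r⁻¹ = y' := by rw [h2]; group
          have h4 := hF1 r (hA₂R hr.1) y' hy'Ω
          rw [h3] at h4
          exact mul_inv_eq_iff_eq_mul.mp h4
        · rw [Subgroup.zpowers_le]
          exact Subgroup.mem_centralizer_singleton_iff.mpr (hΩc _ hy'Ω _ hu₂Ω)
      · rw [Subgroup.zpowers_le]
        exact Subgroup.mem_centralizer_singleton_iff.mpr (hΩc _ (hWΩ hc₂) _ hu₂Ω)
    intro e he
    exact Subgroup.mem_centralizer_singleton_iff.mp (hle he)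
  set E₂ := E₁ ⊔ Subgroup.zpowers u₂ with hE₂
  have hE₂ea : IsElementaryAbelian 2 E₂ :=
    ea_sup_zpowers hE₁ea (by rw [pow_two]; exact hΩ2 _ hu₂Ω) hcommu
  have hcE₂ : 2 * Nat.card E₁ ≤ Nat.card E₂ := two_mul_card_le_sup hu₂E
  have hE₂T : E₂ ≤ T := by
    apply sup_le
    · apply sup_le (hD'R.trans hRT)
      rw [Subgroup.zpowers_le]
      exact hRT (hΩR (hWΩ hc₂))
    · rw [Subgroup.zpowers_le]
      exact hRT (hΩR hu₂Ω)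
  have hb := hAs.2.2 E₂ hE₂T hE₂ea
  have hpos : 0 < Nat.card As := Nat.card_pos
  omega

end Key

end Cfsg.Agent.Lib.FFG
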