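import Mathlib
import Cfsg.Agent.Lib.FFG9

/-!
# Failure of factorization at the level of the group, part 10: the line context, existence
-/

set_option autoImplicit false
set_option linter.unusedSectionVars false

open Cfsg
open scoped commutatorElement

namespace Cfsg.Agent.Lib.FFG

open Cfsg.Agent.Lib.FFAct Cfsg.Agent.Lib.PCore Cfsg.Agent.Lib.JCompStruct Cfsg.Agent.Lib.ThompsonJ
open Cfsg.Agent.Lib.BGFit2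

variable {G : Type*} [Group G] [Finite G]

/-- The context of a transvection `a` and an element `k` of order `3` inverted by `a`, acting as a line. -/
structure LC (X Y T₀ : Subgroup G) (a k c : G) : Prop where
  z : ZNC X Y T₀
  hXR : X ≤ pCoreOf 2 Y
  hA : ∃ A, MaxEA T₀ A ∧ a ∈ A
  haY : a ∈ Y
  hkY : k ∈ Y
  ha2 : a * a = 1
  hk3 : k ^ 3 = 1
  hak : a * k * a⁻¹ = k⁻¹
  hcX : c ∈ X
  htr : ∀ [Fact (∀ a ∈ X, a * a = 1)], IsTrC (act X Y z.hN ⟨a, haY⟩) (EA.mk X hcX)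
  hl : ∀ [Fact (∀ a ∈ X, a * a = 1)], IsLine z.Fo (act X Y z.hN ⟨a, haY⟩) (act X Y z.hN ⟨k, hkY⟩)

theorem pow_eq_self_of_cube {Γ : Type*} [Group Γ] {x : Γ} (h : x ^ 3 = 1) {m : ℕ} (hm : m % 3 = 1) : x ^ m = x := by
  have h1 : m = 3 * (m / 3) + 1 := by omega
  rw [h1, pow_add, pow_mul, h, one_pow, one_mul, pow_one]

/-- Existence of the line context, for a given transvection. -/
theorem ZNC.exists_LC_of {X Y T₀ : Subgroup G} (z : ZNC X Y T₀) (hXR : X ≤ pCoreOf 2 Y) [hf : Fact (∀ a ∈ X, a * a = 1)]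
    {A : Subgroup G} {a : G} (hA : MaxEA T₀ A) (haA : a ∈ A) (haY : a ∈ Y) {cc : EA X}
    (htc : IsTrC (act X Y z.hN ⟨a, haY⟩) cc) : ∃ k, LC X Y T₀ a k (EA.val X cc) := by
  classical
  set Φ := act X Y z.hN with hΦ
  have C := z.ffc
  have hM := EA.hM X
  have haT : a ∈ T₀ := hA.1 haA
  have ha2 : a * a = 1 := by
    have := hA.2.1.2 a haA
    rwa [pow_two] at this
  have hai : a⁻¹ = a := inv_eq_of_mul_eq_one_left ha2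
  set aΓ : ↥Y := ⟨a, haY⟩ with haΓ
  obtain ⟨y₀, hl⟩ := C.exists_line hM htc ⟨aΓ, rfl⟩
  have hy₀3 : y₀ ^ 3 = 1 := hl.cube hM C htc
  -- `k₀`
  obtain ⟨k₀, hk₀⟩ : ∃ k₀, Φ k₀ = y₀ := by
    obtain ⟨w, hw⟩ := C.F_le hl.2.2.1
    exact ⟨w, hw⟩
  set k₁ : ↥Y := k₀ * (aΓ * k₀⁻¹ * aΓ⁻¹) with hk₁
  have hΦk₁ : Φ k₁ = y₀⁻¹ := by
    rw [hk₁, map_mul, map_mul, map_mul, map_inv, map_inv, hk₀]
    have h1 : Φ aΓ * y₀⁻¹ * (Φ aΓ)⁻¹ = (Φ aΓ * y₀ * (Φ aΓ)⁻¹)⁻¹ := by group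
    rw [h1, hl.2.1, inv_inv]
    have e : y₀ ^ 3 = y₀ * y₀ * y₀ := by simp [pow_succ]
    rw [e] at hy₀3
    exact eq_inv_of_mul_eq_one_left hy₀3
  have haaΓ : aΓ * aΓ = 1 := Subtype.ext ha2
  have haiΓ : aΓ⁻¹ = aΓ := inv_eq_of_mul_eq_one_left haaΓ
  have hak₁ : aΓ * k₁ * aΓ⁻¹ = k₁⁻¹ := by
    have h2 : aΓ⁻¹ * aΓ⁻¹ = 1 := by rw [← mul_inv_rev, haaΓ, inv_one]
    have e1 : aΓ * (k₀ * (aΓ * k₀⁻¹ * aΓ⁻¹)) * aΓ⁻¹ = (aΓ * k₀ * aΓ⁻¹) * ((aΓ * aΓ) * k₀⁻¹ * (aΓ⁻¹ * aΓ⁻¹)) := by group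
    have e2 : (k₀ * (aΓ * k₀⁻¹ * aΓ⁻¹))⁻¹ = (aΓ * k₀ * aΓ⁻¹) * k₀⁻¹ := by group
    rw [hk₁, e1, e2, haaΓ, h2, one_mul, mul_one]
  -- `k₁³ ∈ R`
  have hc₃Φ : Φ (k₁ ^ 3) = 1 := by
    rw [map_pow, hΦk₁, inv_pow, hy₀3, inv_one]
  have hc₃ : k₁ ^ 3 ∈ pCore 2 ↥Y := by
    apply z.codd hc₃Φ (n := 1)
    have h1 := z.hcomm (k₁ ^ 3).1 (k₁ ^ 3).2 ((act_eq_one_iff z.hN _).mp hc₃Φ) a haT
    have h2 : aΓ * (k₁ ^ 3)⁻¹ * aΓ⁻¹ = k₁ ^ 3 := by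
      have e : aΓ * (k₁ ^ 3)⁻¹ * aΓ⁻¹ = ((aΓ * k₁ * aΓ⁻¹)⁻¹) ^ 3 := by
        rw [inv_pow, conj_pow]
        group
      rw [e, hak₁, inv_inv]
    have h3 : (k₁ ^ 3) ^ (2 ^ 1) = (k₁ ^ 3) * aΓ * (k₁ ^ 3)⁻¹ * aΓ⁻¹ := by
      have e : (k₁ ^ 3) * aΓ * (k₁ ^ 3)⁻¹ * aΓ⁻¹ = (k₁ ^ 3) * (aΓ * (k₁ ^ 3)⁻¹ * aΓ⁻¹) := by group
      rw [e, h2]
      simp [pow_two]
    rw [h3]
    exact (ZNC.mem_core z).mpr h1
  obtain ⟨e, he⟩ := exists_two_pow_of_mem (isPGroup_pCore 2) hc₃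
  obtain ⟨d, hd⟩ : ∃ d, (2 ^ e * d) % 3 = 1 := by
    have h1 : ∀ e : ℕ, 2 ^ e % 3 = 1 ∨ 2 ^ e % 3 = 2 := by
      intro e
      induction e with
      | zero => left; norm_num
      | succ n ih =>
        rw [pow_succ]
        omega
    rcases h1 e with h2 | h2
    · exact ⟨1, by rw [mul_one]; exact h2⟩
    · exact ⟨2, by omega⟩
  set m := 2 ^ e * d with hm
  set kΓ : ↥Y := k₁ ^ m with hkΓ
  have hkΓ3 : kΓ ^ 3 = 1 := by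
    rw [hkΓ, ← pow_mul, mul_comm m 3, pow_mul, hm, pow_mul, he, one_pow]
  have hΦk : Φ kΓ = y₀⁻¹ := by
    rw [hkΓ, map_pow, hΦk₁]
    exact pow_eq_self_of_cube (by rw [inv_pow, hy₀3, inv_one]) hd
  have hakΓ : aΓ * kΓ * aΓ⁻¹ = kΓ⁻¹ := by
    rw [hkΓ, ← conj_pow, hak₁, inv_pow]
  refine ⟨kΓ.1, z, hXR, ⟨A, hA, haA⟩, haY, kΓ.2, ha2, congrArg Subtype.val hkΓ3, congrArg Subtype.val hakΓ, EA.val_mem X cc, ?_, ?_⟩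
  · intro _
    exact htc
  · intro _
    have : act X Y z.hN ⟨kΓ.1, kΓ.2⟩ = y₀⁻¹ := hΦk
    rw [this]
    exact hl.inv

/-- Existence of the line context. -/
theorem ZNC.exists_LC {X Y T₀ : Subgroup G} (z : ZNC X Y T₀) (hXR : X ≤ pCoreOf 2 Y)
    (hJ : ¬ thompsonSubgroupOf 2 T₀ ≤ pCoreOf 2 Y) : ∃ a k c, LC X Y T₀ a k c := by
  classical
  haveI := z.fact
  set Φ := act X Y z.hN with hΦ
  -- a transvection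
  obtain ⟨A, a, hA, haA, haY, cc, htc⟩ : ∃ A a, MaxEA T₀ A ∧ a ∈ A ∧ ∃ h : a ∈ Y, ∃ c, IsTrC (Φ ⟨a, h⟩) c := by
    by_contra hcon
    push Not at hcon
    apply hJ
    intro j hj
    have hjT : j ∈ T₀ := Cfsg.Agent.Lib.JCompBasic.thompsonSubgroupOf_le 2 T₀ hj
    have hjY : j ∈ Y := z.J_le hj
    have h1 := z.J_image hj hjY
    have h2 : Subgroup.closure z.gens ≤ ⊥ := by
      rw [Subgroup.closure_le]
      rintro t ⟨A', a', hA', ha', hY', rfl, c', ht⟩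
      exact absurd ht (hcon A' a' hA' ha' hY' c')
    have h3 : Φ ⟨j, hjY⟩ = 1 := Subgroup.mem_bot.mp (h2 h1)
    exact z.hT j hjT ((act_eq_one_iff z.hN _).mp h3)
  obtain ⟨k, hk⟩ := z.exists_LC_of hXR hA haA haY htc
  exact ⟨a, k, _, hk⟩

end Cfsg.Agent.Lib.FFG
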