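import Mathlib
import Cfsg.Agent.Lib.FFG10

/-!
# Failure of factorization at the level of the group, part 11: the `J(T)`-component attached to a line
-/

set_option autoImplicit false
set_option linter.unusedSectionVars false

open Cfsg
open scoped commutatorElement

namespace Cfsg.Agent.Lib.FFG

open Cfsg.Agent.Lib.FFAct Cfsg.Agent.Lib.PCore Cfsg.Agent.Lib.JCompStruct Cfsg.Agent.Lib.ThompsonJ
open Cfsg.Agent.Lib.BGFit2

variable {G : Type*} [Group G] [Finite G]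

theorem comm_of_inv_abs {Γ : Type*} [Group Γ] {x k c : Γ} (hk3 : k ^ 3 = 1) (hxk : x * k * x⁻¹ = k⁻¹) (h1 : x * c = c * x)
    (h2 : x * (k * c * k⁻¹) = (k * c * k⁻¹) * x) : c * k = k * c := by
  have hxc : x * c * x⁻¹ = c := by rw [h1]; group
  have h3 : x * (k * c * k⁻¹) * x⁻¹ = k⁻¹ * c * k := by
    have e : x * (k * c * k⁻¹) * x⁻¹ = (x * k * x⁻¹) * (x * c * x⁻¹) * (x * k * x⁻¹)⁻¹ := by group
    rw [e, hxk, hxc, inv_inv]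
  have h4 : x * (k * c * k⁻¹) * x⁻¹ = k * c * k⁻¹ := by rw [h2]; group
  have h5 : k⁻¹ * c * k = k * c * k⁻¹ := h3.symm.trans h4
  have hk2 : k * k = k⁻¹ := by
    have e : k ^ 3 = k * k * k := by simp [pow_succ]
    rw [e] at hk3
    exact eq_inv_of_mul_eq_one_left hk3
  have h6 : c * (k * k) = (k * k) * c := by
    calc c * (k * k) = k * (k⁻¹ * c * k) * k := by group
      _ = k * (k * c * k⁻¹) * k := by rw [h5]
      _ = (k * k) * c := by group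
  rw [hk2] at h6
  calc c * k = k * (k⁻¹ * c) * k := by group
    _ = k * (c * k⁻¹) * k := by rw [h6]
    _ = k * c := by group

section ZNCq

variable {X Y T₀ : Subgroup G} (z : ZNC X Y T₀) [hf : Fact (∀ a ∈ X, a * a = 1)]
include z

theorem ZNC.q_comm_T' {c t : ↥Y} (hc : act X Y z.hN c = 1) (ht : t.1 ∈ T₀) : qY Y c * qY Y t = qY Y t * qY Y c := by
  have h3 := z.hcomm c.1 c.2 ((act_eq_one_iff z.hN c).mp hc) t.1 ht
  have h4 : qY Y (c * t * c⁻¹ * t⁻¹) = 1 := qY_eq_one_iff.mpr h3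
  simp only [map_mul, map_inv] at h4
  have h5 : qY Y c * qY Y t * (qY Y c)⁻¹ = qY Y t := mul_inv_eq_one.mp h4
  exact mul_inv_eq_iff_eq_mul.mp h5

end ZNCq

section LCq

variable {X Y T₀ : Subgroup G} {a k c : G} (h : LC X Y T₀ a k c) [hf : Fact (∀ a ∈ X, a * a = 1)]
include h

theorem LC.haT : a ∈ T₀ := by
  obtain ⟨A, hA, ha⟩ := h.hA
  exact hA.1 ha

theorem LC.haJ : a ∈ thompsonSubgroupOf 2 T₀ := by
  obtain ⟨A, hA, ha⟩ := h.hA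
  exact hA.le_thompson ha

/-- `a` inverts `k` modulo `R`. -/
theorem LC.q_inv : qY Y ⟨a, h.haY⟩ * qY Y ⟨k, h.hkY⟩ * (qY Y ⟨a, h.haY⟩)⁻¹ = (qY Y ⟨k, h.hkY⟩)⁻¹ := by
  have e : (⟨a, h.haY⟩ : ↥Y) * ⟨k, h.hkY⟩ * (⟨a, h.haY⟩ : ↥Y)⁻¹ = (⟨k, h.hkY⟩ : ↥Y)⁻¹ := Subtype.ext h.hak
  rw [← map_inv, ← map_mul, ← map_mul, e, map_inv]

theorem LC.q_cube : (qY Y ⟨k, h.hkY⟩) ^ 3 = 1 := by
  rw [← map_pow]
  have : (⟨k, h.hkY⟩ : ↥Y) ^ 3 = 1 := Subtype.ext h.hk3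
  rw [this, map_one]

theorem LC.y_ne : act X Y h.z.hN ⟨k, h.hkY⟩ ≠ 1 := h.hl.1

theorem LC.act_of_q {x x' : ↥Y} (he : qY Y x = qY Y x') : act X Y h.z.hN x = act X Y h.z.hN x' := by
  have h1 : x⁻¹ * x' ∈ pCore 2 ↥Y := QuotientGroup.eq.mp he
  have h2 : act X Y h.z.hN (x⁻¹ * x') = 1 := by
    rw [act_eq_one_iff]
    exact h.z.hR _ ((ZNC.mem_core h.z).mp h1)
  rw [map_mul, map_inv, inv_mul_eq_one] at h2
  exact h2

theorem LC.q_ne : qY Y ⟨k, h.hkY⟩ ≠ 1 := by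
  intro he
  apply h.y_ne
  have := h.act_of_q (x' := 1) (by rw [he, map_one])
  rwa [map_one] at this

/-- `C` commutes with `k` modulo `R`. -/
theorem LC.q_comm {x : ↥Y} (hx : act X Y h.z.hN x = 1) : qY Y x * qY Y ⟨k, h.hkY⟩ = qY Y ⟨k, h.hkY⟩ * qY Y x := by
  apply comm_of_inv_abs h.q_cube h.q_inv
  · exact (h.z.q_comm_T' hx h.haT).symm
  · have e : act X Y h.z.hN (⟨k, h.hkY⟩ * x * (⟨k, h.hkY⟩ : ↥Y)⁻¹) = 1 := by
      rw [map_mul, map_mul, hx, map_inv]; group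
    have h1 := (h.z.q_comm_T' e (t := ⟨a, h.haY⟩) h.haT).symm
    simpa only [map_mul, map_inv] using h1

/-- The normalization lemma: anything normalizing the line normalizes `k` modulo `R`. -/
theorem LC.norm_core {n : ↥Y} (hn : act X Y h.z.hN n * act X Y h.z.hN ⟨k, h.hkY⟩ * (act X Y h.z.hN n)⁻¹ = act X Y h.z.hN ⟨k, h.hkY⟩ ∨
    act X Y h.z.hN n * act X Y h.z.hN ⟨k, h.hkY⟩ * (act X Y h.z.hN n)⁻¹ = (act X Y h.z.hN ⟨k, h.hkY⟩)⁻¹) :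
    qY Y (n * ⟨k, h.hkY⟩ * n⁻¹) = qY Y ⟨k, h.hkY⟩ ∨ qY Y (n * ⟨k, h.hkY⟩ * n⁻¹) = (qY Y ⟨k, h.hkY⟩)⁻¹ := by
  classical
  set Φ := act X Y h.z.hN with hΦ
  set q := qY Y with hq
  set kΓ : ↥Y := ⟨k, h.hkY⟩ with hkΓ
  set aΓ : ↥Y := ⟨a, h.haY⟩ with haΓ
  set y := Φ kΓ with hy
  have htc : IsTrC (Φ aΓ) (EA.mk X h.hcX) := h.htr
  have hl : IsLine h.z.Fo (Φ aΓ) y := h.hl
  have hinv : Φ aΓ * y * (Φ aΓ)⁻¹ = y⁻¹ := hl.2.1
  have hodd : Odd (orderOf y) := hl.odd h.z.ffc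
  have haa : aΓ * aΓ = 1 := Subtype.ext h.ha2
  have hai : aΓ⁻¹ = aΓ := inv_eq_of_mul_eq_one_left haa
  have hE : q aΓ * q kΓ * (q aΓ)⁻¹ = (q kΓ)⁻¹ := h.q_inv
  have hqk3 : (q kΓ) ^ 3 = 1 := h.q_cube
  -- the conjugates
  set k' := n * kΓ * n⁻¹ with hk'
  set a' := n * aΓ * n⁻¹ with ha'
  set Nn := Φ n with hNn
  have hΦk' : Φ k' = Nn * y * Nn⁻¹ := by
    rw [hk', map_mul, map_mul, map_inv]
  have hΦa' : Φ a' = Nn * Φ aΓ * Nn⁻¹ := by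
    rw [ha', map_mul, map_mul, map_inv]
  have ht' : IsTrC (Φ a') (Nn (EA.mk X h.hcX)) := by
    rw [hΦa']; exact htc.conj Nn
  have hinv₁ : Φ a' * (Nn * y * Nn⁻¹) * (Φ a')⁻¹ = (Nn * y * Nn⁻¹)⁻¹ := by
    rw [hΦa']
    have e : Nn * Φ aΓ * Nn⁻¹ * (Nn * y * Nn⁻¹) * (Nn * Φ aΓ * Nn⁻¹)⁻¹ = Nn * (Φ aΓ * y * (Φ aΓ)⁻¹) * Nn⁻¹ := by group
    rw [e, hinv]
    group
  have hinv' : Φ a' * y * (Φ a')⁻¹ = y⁻¹ := by
    rcases hn with hn | hn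
    · rwa [hn] at hinv₁
    · rw [hn, inv_inv, conj_inv_eq] at hinv₁
      exact inv_injective (by rw [hinv₁, inv_inv])
  -- `Φ(a a')`
  have hprod := same_line_prod (EA.hM X) htc ht' hodd hl.1 hinv hinv'
  obtain ⟨β, hβq, hβΦ⟩ : ∃ β : ↥Y, Commute (q β) (q kΓ) ∧ Φ β = Φ (aΓ * a') := by
    rcases hprod with h1 | h1 | h1
    · refine ⟨1, ?_, ?_⟩
      · rw [map_one]; exact Commute.one_left _
      · rw [map_one, map_mul]; exact h1.symm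
    · refine ⟨kΓ, Commute.refl _, ?_⟩
      rw [map_mul]; exact h1.symm
    · refine ⟨kΓ⁻¹, ?_, ?_⟩
      · rw [map_inv]; exact (Commute.refl _).inv_left
      · rw [map_inv, map_mul]; exact h1.symm
  set c₁ := β⁻¹ * (aΓ * a') with hc₁
  have hc₁Φ : Φ c₁ = 1 := by
    rw [hc₁, map_mul, map_inv, hβΦ, inv_mul_cancel]
  have hqaa' : q (aΓ * a') = q β * q c₁ := by
    rw [hc₁, ← map_mul]; congr 1; group
  have hcomm1 : Commute (q (aΓ * a')) (q kΓ) := by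
    rw [hqaa']
    exact hβq.mul_left (h.q_comm hc₁Φ)
  -- `a'` inverts `k̄`
  have hqa' : q a' = (q aΓ)⁻¹ * q (aΓ * a') := by
    rw [map_mul q aΓ a', inv_mul_cancel_left]
  have hqaii : (q aΓ)⁻¹ = q aΓ := by
    rw [← map_inv, hai]
  have h1 : q a' * q kΓ * (q a')⁻¹ = (q kΓ)⁻¹ := by
    have e1 : q (aΓ * a') * q kΓ * (q (aΓ * a'))⁻¹ = q kΓ := by
      rw [hcomm1.eq]; group
    have e2 : q a' * q kΓ * (q a')⁻¹ = (q aΓ)⁻¹ * (q (aΓ * a') * q kΓ * (q (aΓ * a'))⁻¹) * q aΓ := by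
      rw [hqa']; group
    rw [e2, e1, hqaii]
    have := hE
    rw [hqaii] at this
    exact this
  -- `κ`
  obtain ⟨κ, hκΦ, hκq, hκc⟩ : ∃ κ : ↥Y, Φ κ = Φ k' ∧ q a' * q κ * (q a')⁻¹ = (q κ)⁻¹ ∧ (q κ = q kΓ ∨ q κ = (q kΓ)⁻¹) := by
    rcases hn with hn | hn
    · refine ⟨kΓ, ?_, h1, Or.inl rfl⟩
      rw [hΦk', hn]
    · refine ⟨kΓ⁻¹, ?_, ?_, Or.inr (map_inv _ _)⟩
      · rw [hΦk', hn, map_inv]
      · rw [map_inv]
        have e : q a' * (q kΓ)⁻¹ * (q a')⁻¹ = (q a' * q kΓ * (q a')⁻¹)⁻¹ := by group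
        rw [e, h1]
  set c₀ := κ⁻¹ * k' with hc₀
  have hc₀Φ : Φ c₀ = 1 := by
    rw [hc₀, map_mul, map_inv, hκΦ, inv_mul_cancel]
  have hqk' : q k' = q κ * q c₀ := by
    rw [hc₀, ← map_mul]; congr 1; group
  have hcomm2 : Commute (q c₀) (q κ) := by
    have h2 : Commute (q c₀) (q kΓ) := h.q_comm hc₀Φ
    rcases hκc with h3 | h3
    · rw [h3]; exact h2
    · rw [h3]; exact h2.inv_right
  -- `a'` centralizes `c̄₀`
  have hcomm3 : q a' * q c₀ * (q a')⁻¹ = q c₀ := by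
    have hc₂ : Φ (n⁻¹ * c₀ * n) = 1 := by
      rw [map_mul, map_mul, map_inv, hc₀Φ]; group
    have h2 := h.z.q_comm_T' hc₂ (t := aΓ) h.haT
    simp only [map_mul, map_inv] at h2
    have e : q a' = q n * q aΓ * (q n)⁻¹ := by
      rw [ha']; simp only [map_mul, map_inv]
    have e4 : q a' * q c₀ * (q a')⁻¹ = q n * (q aΓ * ((q n)⁻¹ * q c₀ * q n) * (q aΓ)⁻¹) * (q n)⁻¹ := by
      rw [e]; group
    rw [e4]
    have h2' : q aΓ * ((q n)⁻¹ * q c₀ * q n) = ((q n)⁻¹ * q c₀ * q n) * q aΓ := h2.symm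
    rw [h2']
    group
  -- two computations of the conjugate of `k̄'`
  have hlhs : q a' * q k' * (q a')⁻¹ = (q κ)⁻¹ * q c₀ := by
    rw [hqk']
    have e : q a' * (q κ * q c₀) * (q a')⁻¹ = (q a' * q κ * (q a')⁻¹) * (q a' * q c₀ * (q a')⁻¹) := by group
    rw [e, hκq, hcomm3]
  have hrhs : q a' * q k' * (q a')⁻¹ = (q k')⁻¹ := by
    have e : q a' * q k' * (q a')⁻¹ = q n * (q aΓ * q kΓ * (q aΓ)⁻¹) * (q n)⁻¹ := by
      rw [ha', hk']; simp only [map_mul, map_inv]; group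
    rw [e, hE, hk']
    simp only [map_mul, map_inv]
    group
  have hsq : q c₀ * q c₀ = 1 := by
    have h2 : (q κ)⁻¹ * q c₀ = (q κ * q c₀)⁻¹ := by
      rw [← hqk', ← hrhs, hlhs]
    have h3 : (q κ * q c₀)⁻¹ = (q κ)⁻¹ * (q c₀)⁻¹ := by
      rw [mul_inv_rev]
      exact (hcomm2.inv_inv).eq
    rw [h3] at h2
    have h4 : q c₀ = (q c₀)⁻¹ := mul_left_cancel h2
    calc q c₀ * q c₀ = (q c₀)⁻¹ * q c₀ := by nth_rw 1 [h4]
      _ = 1 := inv_mul_cancel _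
  have hc₀R : c₀ ∈ pCore 2 ↥Y := by
    apply h.z.codd hc₀Φ (n := 1)
    rw [pow_one, pow_two]
    have : q (c₀ * c₀) = 1 := by rw [map_mul]; exact hsq
    exact (QuotientGroup.eq_one_iff _).mp this
  have hqc₀ : q c₀ = 1 := (QuotientGroup.eq_one_iff _).mpr hc₀R
  rw [hqk', hqc₀, mul_one]
  exact hκc

end LCq

/-! ### The subgroup `B = R⟨k⟩` and `K = O²(B)` -/

/-- The subgroup `R⟨k⟩`. -/
noncomputable def bOf (Y : Subgroup G) (k : G) (hk : k ∈ Y) : Subgroup G :=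
  ((Subgroup.zpowers (qY Y ⟨k, hk⟩)).comap (qY Y)).map Y.subtype

theorem mem_bOf {Y : Subgroup G} {k : G} {hk : k ∈ Y} {x : G} :
    x ∈ bOf Y k hk ↔ ∃ hx : x ∈ Y, qY Y ⟨x, hx⟩ ∈ Subgroup.zpowers (qY Y ⟨k, hk⟩) := by
  constructor
  · rintro ⟨w, hw, rfl⟩
    exact ⟨w.2, hw⟩
  · rintro ⟨hx, h⟩
    exact ⟨⟨x, hx⟩, h, rfl⟩

/-- The subgroup generated by the odd order elements of `R⟨k⟩`. -/
noncomputable def kOf (Y : Subgroup G) (k : G) (hk : k ∈ Y) : Subgroup G :=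
  Subgroup.closure {g | g ∈ bOf Y k hk ∧ Odd (orderOf g)}

theorem kOf_le_bOf {Y : Subgroup G} {k : G} {hk : k ∈ Y} : kOf Y k hk ≤ bOf Y k hk := by
  rw [kOf, Subgroup.closure_le]
  exact fun g hg => hg.1

theorem kOf_le {Y : Subgroup G} {k : G} {hk : k ∈ Y} : kOf Y k hk ≤ Y := by
  refine kOf_le_bOf.trans ?_
  rintro _ ⟨w, _, rfl⟩
  exact w.2

theorem kOf_gen {Y : Subgroup G} {k : G} {hk : k ∈ Y} :
    Subgroup.closure {g : G | g ∈ kOf Y k hk ∧ Odd (orderOf g)} = kOf Y k hk := by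
  apply le_antisymm
  · rw [Subgroup.closure_le]
    exact fun g hg => hg.1
  · rw [kOf, Subgroup.closure_le]
    intro g hg
    exact Subgroup.subset_closure ⟨Subgroup.subset_closure hg, hg.2⟩

/-- Normalizing `B` implies normalizing `K`. -/
theorem normalizer_kOf {Y : Subgroup G} {k : G} {hk : k ∈ Y} {n : G} (h : ∀ x ∈ bOf Y k hk, n * x * n⁻¹ ∈ bOf Y k hk) :
    n ∈ Subgroup.normalizer (kOf Y k hk : Set G) := by
  apply Cfsg.Agent.Lib.Subnormal.mem_normalizer_of_conj_mem _ n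
  have hle : kOf Y k hk ≤ (kOf Y k hk).comap (MulAut.conj n).toMonoidHom := by
    conv_lhs => rw [kOf]
    rw [Subgroup.closure_le]
    rintro g ⟨hg1, hg2⟩
    apply Subgroup.subset_closure
    refine ⟨h g hg1, ?_⟩
    have : orderOf (n * g * n⁻¹) = orderOf g := by
      have := orderOf_injective (MulAut.conj n).toMonoidHom (MulAut.conj n).injective g
      simpa [MulAut.conj_apply] using this
    show Odd (orderOf (n * g * n⁻¹))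
    rw [this]
    exact hg2
  intro x hx
  exact hle hx

theorem conj_mem_bOf {Y : Subgroup G} {k : G} {hk : k ∈ Y} {n : ↥Y}
    (h : qY Y (n * ⟨k, hk⟩ * n⁻¹) = qY Y ⟨k, hk⟩ ∨ qY Y (n * ⟨k, hk⟩ * n⁻¹) = (qY Y ⟨k, hk⟩)⁻¹) {x : G}
    (hx : x ∈ bOf Y k hk) : n.1 * x * n.1⁻¹ ∈ bOf Y k hk := by
  obtain ⟨hxY, hxq⟩ := mem_bOf.mp hx
  refine mem_bOf.mpr ⟨Y.mul_mem (Y.mul_mem n.2 hxY) (Y.inv_mem n.2), ?_⟩
  have e : qY Y ⟨n.1 * x * n.1⁻¹, Y.mul_mem (Y.mul_mem n.2 hxY) (Y.inv_mem n.2)⟩ = qY Y n * qY Y ⟨x, hxY⟩ * (qY Y n)⁻¹ := by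
    rw [← map_inv, ← map_mul, ← map_mul]
    rfl
  rw [e]
  obtain ⟨i, hi⟩ := hxq
  have hi' : qY Y ⟨x, hxY⟩ = (qY Y ⟨k, hk⟩) ^ i := hi.symm
  rw [hi', ← conj_zpow]
  have h2 : qY Y n * qY Y ⟨k, hk⟩ * (qY Y n)⁻¹ = qY Y (n * ⟨k, hk⟩ * n⁻¹) := by
    rw [map_mul, map_mul, map_inv]
  rw [h2]
  rcases h with h | h
  · rw [h]
    exact Subgroup.zpow_mem _ (Subgroup.mem_zpowers _) i
  · rw [h]
    exact Subgroup.zpow_mem _ (Subgroup.inv_mem _ (Subgroup.mem_zpowers _)) i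

end Cfsg.Agent.Lib.FFG
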