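import Mathlib
import Cfsg.Agent.Lib.FFG11

/-!
# Failure of factorization at the level of the group, part 12: existence of `J(T)`-components
-/

set_option autoImplicit false
set_option linter.unusedSectionVars false

open Cfsg
open scoped commutatorElement

namespace Cfsg.Agent.Lib.FFG

open Cfsg.Agent.Lib.FFAct Cfsg.Agent.Lib.PCore Cfsg.Agent.Lib.JCompStruct Cfsg.Agent.Lib.ThompsonJ
open Cfsg.Agent.Lib.BGFit2

variable {G : Type*} [Group G] [Finite G]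

section LCK

variable {X Y T₀ : Subgroup G} {a k c : G} (h : LC X Y T₀ a k c)
include h

/-- The `J(T)`-component of the line. -/
noncomputable abbrev LC.K (_h : LC X Y T₀ a k c) : Subgroup G := kOf Y k _h.hkY

theorem LC.kk : k ∈ h.K := by
  apply Subgroup.subset_closure
  refine ⟨mem_bOf.mpr ⟨h.hkY, Subgroup.mem_zpowers _⟩, ?_⟩
  have h1 : orderOf k ∣ 3 := orderOf_dvd_of_pow_eq_one h.hk3
  exact Odd.of_dvd_nat (by decide) h1

theorem LC.hKY : h.K ≤ Y := kOf_le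

theorem LC.R_norm : pCoreOf 2 Y ≤ Subgroup.normalizer (h.K : Set G) := by
  rintro _ ⟨r, hr, rfl⟩
  apply normalizer_kOf
  intro x hx
  apply conj_mem_bOf (n := r) _ hx
  left
  have hq : qY Y r = 1 := (QuotientGroup.eq_one_iff _).mpr hr
  rw [map_mul, map_mul, map_inv, hq]
  group

theorem LC.k_norm : k ∈ Subgroup.normalizer (h.K : Set G) := Subgroup.le_normalizer h.kk

variable [hf : Fact (∀ a ∈ X, a * a = 1)]

/-- `J` normalizes the line. -/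
theorem LC.J_norm_line {j : G} (hj : j ∈ thompsonSubgroupOf 2 T₀) (hjY : j ∈ Y) :
    act X Y h.z.hN ⟨j, hjY⟩ ∈ normLine (act X Y h.z.hN ⟨k, h.hkY⟩) := by
  have C := h.z.ffc
  have hle : Subgroup.closure h.z.gens ≤ normLine (act X Y h.z.hN ⟨k, h.hkY⟩) := by
    rw [Subgroup.closure_le]
    rintro t ⟨A, a', _, _, hY', rfl, c', ht⟩
    exact h.hl.tr_norm (EA.hM X) C h.htr ht ⟨_, rfl⟩
  exact hle (h.z.J_image hj hjY)

theorem LC.J_norm : thompsonSubgroupOf 2 T₀ ≤ Subgroup.normalizer (h.K : Set G) := by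
  intro j hj
  have hjY := h.z.J_le hj
  apply normalizer_kOf
  intro x hx
  exact conj_mem_bOf (n := ⟨j, hjY⟩) (h.norm_core (h.J_norm_line hj hjY)) hx

theorem LC.mem_q {x : G} (hx : x ∈ h.K) : ∃ hxY : x ∈ Y, qY Y ⟨x, hxY⟩ = 1 ∨ qY Y ⟨x, hxY⟩ = qY Y ⟨k, h.hkY⟩ ∨
    qY Y ⟨x, hxY⟩ = (qY Y ⟨k, h.hkY⟩)⁻¹ := by
  obtain ⟨hxY, hq⟩ := mem_bOf.mp (kOf_le_bOf hx)
  exact ⟨hxY, mem_zpowers_of_cube h.q_cube hq⟩

theorem LC.mem_core {x : G} : x ∈ pCoreOf 2 h.K ↔ x ∈ h.K ∧ x ∈ pCoreOf 2 Y := by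
  constructor
  · intro hx
    have hxK := pCoreOf_le 2 h.K hx
    refine ⟨hxK, ?_⟩
    obtain ⟨n, hn⟩ := exists_two_pow_of_mem (isPGroup_pCoreOf 2 h.K) hx
    obtain ⟨hxY, hq⟩ := h.mem_q hxK
    have hpow : (qY Y ⟨x, hxY⟩) ^ (2 ^ n) = 1 := by
      rw [← map_pow]
      have : (⟨x, hxY⟩ : ↥Y) ^ (2 ^ n) = 1 := Subtype.ext hn
      rw [this, map_one]
    rcases hq with hq | hq | hq
    · exact qY_eq_one_iff.mp hq
    · rw [hq] at hpow
      exact absurd (eq_one_of_cube_of_two_pow h.q_cube hpow) h.q_ne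
    · rw [hq, inv_pow, inv_eq_one] at hpow
      exact absurd (eq_one_of_cube_of_two_pow h.q_cube hpow) h.q_ne
  · rintro ⟨h1, h2⟩
    have hle : h.K ⊓ pCoreOf 2 Y ≤ pCoreOf 2 h.K := by
      apply le_pCoreOf inf_le_left
      · apply Cfsg.Agent.Lib.CoprimeInv.le_normalizer_inf Subgroup.le_normalizer
        exact h.hKY.trans (le_normalizer_pCoreOf 2 Y)
      · exact (isPGroup_pCoreOf 2 Y).to_le inf_le_right
    exact hle ⟨h1, h2⟩

theorem LC.relIndex : (pCoreOf 2 h.K).relIndex h.K = 3 := by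
  haveI : Fact (Nat.Prime 3) := ⟨Nat.prime_three⟩
  set ψ : ↥h.K →* ↥Y ⧸ pCore 2 ↥Y := (qY Y).comp (Subgroup.inclusion h.hKY) with hψ
  have hker : ψ.ker = (pCoreOf 2 h.K).subgroupOf h.K := by
    ext x
    rw [MonoidHom.mem_ker, Subgroup.mem_subgroupOf, h.mem_core]
    constructor
    · intro hx
      exact ⟨x.2, qY_eq_one_iff.mp hx⟩
    · rintro ⟨_, hx⟩
      exact qY_eq_one_iff.mpr hx
  have hrange : ψ.range = Subgroup.zpowers (qY Y ⟨k, h.hkY⟩) := by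
    apply le_antisymm
    · rintro _ ⟨x, rfl⟩
      obtain ⟨_, hq⟩ := mem_bOf.mp (kOf_le_bOf x.2)
      exact hq
    · rw [Subgroup.zpowers_le]
      exact ⟨⟨k, h.kk⟩, rfl⟩
  rw [Subgroup.relIndex, ← hker, Subgroup.index_ker, hrange, Nat.card_zpowers]
  exact orderOf_eq_prime h.q_cube h.q_ne

theorem LC.comm_eq : ⁅h.K, thompsonSubgroupOf 2 T₀⁆ = h.K := by
  classical
  set J := thompsonSubgroupOf 2 T₀ with hJ
  set K₁ := ⁅h.K, J⁆ with hK₁
  apply le_antisymm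
  · rw [Subgroup.commutator_le]
    intro g₁ hg₁ g₂ hg₂
    rw [commutatorElement_def]
    have h1 := (Subgroup.mem_normalizer_iff.mp (h.J_norm hg₂) _).mp (h.K.inv_mem hg₁)
    have e : g₁ * g₂ * g₁⁻¹ * g₂⁻¹ = g₁ * (g₂ * g₁⁻¹ * g₂⁻¹) := by group
    rw [e]
    exact h.K.mul_mem hg₁ h1
  -- `k ∈ K₁`
  have hkk : k * k = k⁻¹ := by
    have h3 := h.hk3
    have e : k ^ 3 = k * k * k := by simp [pow_succ]
    rw [e] at h3
    exact eq_inv_of_mul_eq_one_left h3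
  have hkK₁ : k ∈ K₁ := by
    have h1 : ⁅k, a⁆ ∈ K₁ := Subgroup.commutator_mem_commutator h.kk h.haJ
    have h2 : ⁅k, a⁆ = k⁻¹ := by
      rw [commutatorElement_def]
      have e : a * k⁻¹ * a⁻¹ = k := by
        have : a * k⁻¹ * a⁻¹ = (a * k * a⁻¹)⁻¹ := by group
        rw [this, h.hak, inv_inv]
      have e2 : k * a * k⁻¹ * a⁻¹ = k * (a * k⁻¹ * a⁻¹) := by group
      rw [e2, e, hkk]
    rw [h2] at h1
    simpa using K₁.inv_mem h1
  -- `K` normalizes `K₁`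
  have hKn : h.K ≤ Subgroup.normalizer (K₁ : Set G) := by
    intro x hx
    apply Cfsg.Agent.Lib.Subnormal.mem_normalizer_of_conj_mem K₁ x
    have hle : K₁ ≤ K₁.comap (MulAut.conj x).toMonoidHom := by
      rw [hK₁, Subgroup.commutator_le]
      intro g₁ hg₁ g₂ hg₂
      show x * ⁅g₁, g₂⁆ * x⁻¹ ∈ ⁅h.K, J⁆
      have e : x * ⁅g₁, g₂⁆ * x⁻¹ = ⁅x * g₁, g₂⁆ * ⁅x, g₂⁆⁻¹ := by
        simp only [commutatorElement_def]
        group
      rw [e]
      exact Subgroup.mul_mem _ (Subgroup.commutator_mem_commutator (h.K.mul_mem hx hg₁) hg₂)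
        (Subgroup.inv_mem _ (Subgroup.commutator_mem_commutator hx hg₂))
    intro g hg
    exact hle hg
  set Pp := h.K ⊓ pCoreOf 2 Y with hPp
  have hPn : Pp ≤ Subgroup.normalizer (K₁ : Set G) := inf_le_left.trans hKn
  have hPp2 : IsPGroup 2 Pp := (isPGroup_pCoreOf 2 Y).to_le inf_le_right
  conv_lhs => rw [LC.K, ← kOf_gen]
  rw [Subgroup.closure_le]
  rintro g ⟨hg, hgo⟩
  apply Cfsg.Agent.Lib.JCompBasic.mem_of_coprime_of_mem_sup (p := 2) hPn hPp2 _ (Nat.coprime_two_right.mpr hgo)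
  obtain ⟨hgY, hq⟩ := h.mem_q hg
  have hkΓ : k ∈ Y := h.hkY
  rcases hq with hq | hq | hq
  · exact Subgroup.mem_sup_right ⟨hg, qY_eq_one_iff.mp hq⟩
  · have hp : k⁻¹ * g ∈ Pp := by
      refine ⟨h.K.mul_mem (h.K.inv_mem h.kk) hg, ?_⟩
      have : qY Y ((⟨k, hkΓ⟩ : ↥Y)⁻¹ * ⟨g, hgY⟩) = 1 := by
        rw [map_mul, map_inv, hq, inv_mul_cancel]
      exact qY_eq_one_iff.mp this
    have e : g = k * (k⁻¹ * g) := by group
    rw [e]
    exact Subgroup.mul_mem _ (Subgroup.mem_sup_left hkK₁) (Subgroup.mem_sup_right hp)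
  · have hp : k * g ∈ Pp := by
      refine ⟨h.K.mul_mem h.kk hg, ?_⟩
      have : qY Y ((⟨k, hkΓ⟩ : ↥Y) * ⟨g, hgY⟩) = 1 := by
        rw [map_mul, hq, mul_inv_cancel]
      exact qY_eq_one_iff.mp this
    have e : g = k⁻¹ * (k * g) := by group
    rw [e]
    exact Subgroup.mul_mem _ (Subgroup.mem_sup_left (K₁.inv_mem hkK₁)) (Subgroup.mem_sup_right hp)

omit h hf in
/-- Sylow subgroups of `⟨K, J⟩` over `J`. -/
theorem thompson_of_sylow_le {Y T₀ K S : Subgroup G} (hT₀ : IsSylowTwoIn T₀ Y) (hKY : K ≤ Y) (hJY : thompsonSubgroupOf 2 T₀ ≤ Y)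
    (hS : IsSylowTwoIn S (K ⊔ thompsonSubgroupOf 2 T₀)) (hJS : thompsonSubgroupOf 2 T₀ ≤ S) :
    thompsonSubgroupOf 2 S = thompsonSubgroupOf 2 T₀ := by
  have hSY : S ≤ Y := hS.1.trans (sup_le hKY hJY)
  obtain ⟨T', hST', hT'⟩ := exists_isSylowTwoIn hSY hS.2.1
  obtain ⟨l, _, hl⟩ := exists_conj_of_sylow hT₀ hT'
  have h1 : thompsonSubgroupOf 2 T' = thompsonSubgroupOf 2 T₀ := by
    rw [hl]
    apply thompson_cj_eq_of_le
    rw [← hl]
    exact hJS.trans hST'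
  rw [← h1]
  apply thompson_between _ hST'
  rw [h1]
  exact hJS

end LCK

end Cfsg.Agent.Lib.FFG
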