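import Mathlib
import Cfsg.Agent.Lib.FFG12

/-!
# Failure of factorization at the level of the group, part 13: the four-group of the line component
-/

set_option autoImplicit false
set_option linter.unusedSectionVars false

open Cfsg
open scoped commutatorElement

namespace Cfsg.Agent.Lib.FFG

open Cfsg.Agent.Lib.FFAct Cfsg.Agent.Lib.PCore Cfsg.Agent.Lib.JCompStruct Cfsg.Agent.Lib.ThompsonJ
open Cfsg.Agent.Lib.BGFit2

variable {G : Type*} [Group G] [Finite G]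

section LCW

variable {X Y T₀ : Subgroup G} {a k c : G} (h : LC X Y T₀ a k c) [hf : Fact (∀ a ∈ X, a * a = 1)]
include h

/-- The four-group `[X, k]`. -/
noncomputable def LC.W : Subgroup G := (com (act X Y h.z.hN ⟨k, h.hkY⟩)).map (EA.val X)

theorem LC.W_le_X : h.W ≤ X := by
  rintro _ ⟨v, _, rfl⟩
  exact EA.val_mem X v

theorem LC.W_le_omega : h.W ≤ omegaCenterOf (pCoreOf 2 h.K) := by
  rintro _ ⟨_, ⟨v, rfl⟩, rfl⟩
  set w := EA.val X (act X Y h.z.hN ⟨k, h.hkY⟩ v * v⁻¹) with hw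
  set v' := EA.val X v with hv'
  have hv'X : v' ∈ X := EA.val_mem X v
  have hv'R : v' ∈ pCoreOf 2 Y := h.hXR hv'X
  have he : w = k * v' * k⁻¹ * v'⁻¹ := by
    rw [hw, map_mul, map_inv, act_val]
  have hwX : w ∈ X := EA.val_mem X _
  have hwK : w ∈ h.K := by
    rw [he]
    have h1 : v' * k⁻¹ * v'⁻¹ ∈ h.K := (Subgroup.mem_normalizer_iff.mp (h.R_norm hv'R) _).mp (h.K.inv_mem h.kk)
    have e : k * v' * k⁻¹ * v'⁻¹ = k * (v' * k⁻¹ * v'⁻¹) := by group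
    rw [e]
    exact h.K.mul_mem h.kk h1
  apply mem_omegaCenter
  · exact h.mem_core.mpr ⟨hwK, h.hXR hwX⟩
  · intro x hx
    exact h.z.hR x (h.mem_core.mp hx).2 w hwX
  · exact h.z.hXe w hwX

/-- The main computation: `[Ω₁(Z(O₂(K))), k] ≤ W`. -/
theorem LC.ff : ∀ x ∈ omegaCenterOf (pCoreOf 2 h.K), k * x * k⁻¹ * x⁻¹ ∈ h.W := by
  classical
  set Φ := act X Y h.z.hN with hΦ
  set y := Φ ⟨k, h.hkY⟩ with hy
  set t := Φ ⟨a, h.haY⟩ with ht
  set cc := EA.mk X h.hcX with hcc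
  have C := h.z.ffc
  have hM := EA.hM X
  have htc : IsTrC t cc := h.htr
  have hl : IsLine h.z.Fo t y := h.hl
  have hodd := hl.odd C
  have hcard : Nat.card (com y) = 4 := hl.card hM C htc
  have hccm : cc ∈ com y := hl.center_mem hM C htc
  have hcc1 : cc ≠ 1 := htc.c_ne_one
  set R := pCoreOf 2 Y with hR
  set Ω := omegaCenterOf (pCoreOf 2 h.K) with hΩ
  have hO2R : pCoreOf 2 h.K ≤ R := fun x hx => (h.mem_core.mp hx).2
  have hΩP : Ω ≤ pCoreOf 2 h.K := fun x hx => (omegaCenter_mem hx).1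
  have hΩR : Ω ≤ R := hΩP.trans hO2R
  have hΩc : ∀ u ∈ Ω, ∀ v ∈ Ω, u * v = v * u := fun u hu v hv => (omegaCenter_mem hv).2.1 u (hΩP hu)
  have hΩ2 : ∀ u ∈ Ω, u * u = 1 := fun u hu => (omegaCenter_mem hu).2.2
  have haK : a ∈ Subgroup.normalizer (h.K : Set G) := h.J_norm h.haJ
  have hkK : k ∈ Subgroup.normalizer (h.K : Set G) := h.k_norm
  have hΩa : ∀ u ∈ Ω, a * u * a⁻¹ ∈ Ω := fun u hu => conj_mem_omega haK hu
  have hΩk : ∀ u ∈ Ω, k * u * k⁻¹ ∈ Ω := fun u hu => conj_mem_omega hkK hu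
  have hΩk' : ∀ u ∈ Ω, k⁻¹ * u * k ∈ Ω := fun u hu => by
    have := conj_mem_omega (Subgroup.inv_mem _ hkK) hu
    simpa using this
  have hRΩ : ∀ r ∈ R, ∀ u ∈ Ω, r * u * r⁻¹ ∈ Ω := fun r hr u hu => conj_mem_omega (h.R_norm hr) hu
  have haR : a ∈ Subgroup.normalizer (R : Set G) := le_normalizer_pCoreOf 2 Y h.haY
  have hkR : k ∈ Subgroup.normalizer (R : Set G) := le_normalizer_pCoreOf 2 Y h.hkY
  have hF1 : ∀ r ∈ R, ∀ x ∈ Ω, r * (k * x * k⁻¹) * r⁻¹ = k * (r * x * r⁻¹) * k⁻¹ := by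
    intro r hr x hx
    set c₀ := r * k * r⁻¹ * k⁻¹ with hc₀
    have hc₀P : c₀ ∈ pCoreOf 2 h.K := by
      apply h.mem_core.mpr
      constructor
      · have h1 : r * k * r⁻¹ ∈ h.K := (Subgroup.mem_normalizer_iff.mp (h.R_norm hr) k).mp h.kk
        exact h.K.mul_mem h1 (h.K.inv_mem h.kk)
      · have h1 : k * r⁻¹ * k⁻¹ ∈ R := (Subgroup.mem_normalizer_iff.mp hkR _).mp (R.inv_mem hr)
        have e : c₀ = r * (k * r⁻¹ * k⁻¹) := by rw [hc₀]; group
        rw [e]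
        exact R.mul_mem hr h1
    have hz : k * (r * x * r⁻¹) * k⁻¹ ∈ Ω := hΩk _ (hRΩ r hr x hx)
    have h2 := (omegaCenter_mem hz).2.1 c₀ hc₀P
    have e : r * (k * x * k⁻¹) * r⁻¹ = c₀ * (k * (r * x * r⁻¹) * k⁻¹) * c₀⁻¹ := by
      rw [hc₀]; group
    rw [e, h2]
    group
  have hWΩ : h.W ≤ Ω := h.W_le_omega
  have hval_y : ∀ v, EA.val X (y v) = k * EA.val X v * k⁻¹ := fun v => act_val _ _ _
  have hval_yi : ∀ v, EA.val X (y⁻¹ v) = k⁻¹ * EA.val X v * k := by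
    intro v
    have e : y⁻¹ = Φ (⟨k, h.hkY⟩ : ↥Y)⁻¹ := by rw [map_inv]
    rw [e, hΦ, act_val]
    simp
  have hval_t : ∀ v, EA.val X (t v) = a * EA.val X v * a⁻¹ := fun v => act_val _ _ _
  have hWk : ∀ w ∈ h.W, k * w * k⁻¹ ∈ h.W := by
    rintro _ ⟨u, hu, rfl⟩
    exact ⟨y u, map_com_mem y hu, hval_y u⟩
  have hWk' : ∀ w ∈ h.W, k⁻¹ * w * k ∈ h.W := by
    rintro _ ⟨u, hu, rfl⟩
    exact ⟨y⁻¹ u, inv_map_com_mem y hu, hval_yi u⟩
  have htcom : ∀ u ∈ com y, t u ∈ com y := by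
    intro u hu
    have h1 := com_conj_mem t y hu
    rw [hl.2.1, com_inv] at h1
    exact h1
  have hWa : ∀ w ∈ h.W, a * w * a⁻¹ ∈ h.W := by
    rintro _ ⟨u, hu, rfl⟩
    exact ⟨t u, htcom u hu, hval_t u⟩
  have hWR : ∀ r ∈ R, ∀ w ∈ h.W, r * w = w * r := fun r hr w hw => h.z.hR r hr w (h.W_le_X hw)
  have hc₁ : c ∈ h.W := ⟨cc, hccm, rfl⟩
  have hc₁1 : c ≠ 1 := by
    intro he
    apply hcc1
    apply EA.val_injective X
    rw [map_one]
    exact he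
  have hac₁ : a * c * a⁻¹ = c := by
    have h1 := htc.fix_c hM
    have h2 := congrArg (EA.val X) h1
    rwa [hval_t] at h2
  obtain ⟨hyc1, hyc2⟩ := four_act_ne hM hodd hcard hccm hcc1
  have hycm : y cc ∈ com y := map_com_mem y hccm
  have hc₂ : EA.val X (y cc) ∈ h.W := ⟨y cc, hycm, rfl⟩
  have hac₂ : a * EA.val X (y cc) * a⁻¹ = EA.val X (y cc) * c := by
    have h1 := hl.tr_moves hM C htc hycm hyc2 hyc1
    have h2 := congrArg (EA.val X) h1
    rwa [hval_t, map_mul] at h2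
  have hfix : ∀ w ∈ h.W, a * w * a⁻¹ = w → w = 1 ∨ w = c := by
    rintro _ ⟨u, hu, rfl⟩ hfu
    have h1 : t u = u := by
      apply EA.val_injective X
      rw [hval_t]
      exact hfu
    by_cases hu1 : u = 1
    · left; rw [hu1, map_one]
    by_cases huc : u = cc
    · right; rw [huc]; rfl
    · exfalso
      have h2 := hl.tr_moves hM C htc hu hu1 huc
      rw [h1] at h2
      exact hcc1 (mul_eq_left.mp h2.symm)
  have hRT : R ≤ T₀ := core_le_sylow h.z.syl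
  obtain ⟨A, hA, haA⟩ := h.hA
  have hAs := h.z.replace hA
  set As := (A ⊓ Subgroup.centralizer (X : Set G)) ⊔ X with hAsdef
  have hAsR : As ≤ R := by
    apply sup_le _ h.hXR
    rintro x ⟨hx1, hx2⟩
    apply h.z.hT x (hA.1 hx1)
    intro v hv
    exact (Subgroup.mem_centralizer_iff.mp hx2 v hv).symm
  have hc2 : c * c = 1 := h.z.hXe c h.hcX
  have hcR : ∀ r ∈ R, r * c = c * r := fun r hr => h.z.hR r hr c h.hcX
  set H₁ := hOne R a c haR hcR hac₁ hc2 with hH₁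
  have hAsH : As ≤ H₁ := by
    apply sup_le
    · intro x hx
      refine ⟨hAsR (Subgroup.mem_sup_left hx), Or.inl ?_⟩
      have h1 : a * x = x * a := Cfsg.Agent.Lib.ThompsonJ.ea_comm hA.2.1 haA hx.1
      rw [h1]; group
    · intro x hx
      refine ⟨h.hXR hx, ?_⟩
      rcases htc.2 (EA.mk X hx) with h1 | h1
      · left
        have h2 := congrArg (EA.val X) h1
        rw [hval_t, EA.val_mk] at h2
        rw [h2]; group
      · right
        have h2 := congrArg (EA.val X) h1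
        rw [hval_t, map_mul, EA.val_mk] at h2
        rw [h2]
        have : EA.val X cc = c := rfl
        rw [this, h.z.hR x (h.hXR hx) c h.hcX]
        group
  have hcardAs : Nat.card As ≤ 2 * Nat.card ↥(As ⊓ Subgroup.centralizer ({a} : Set G)) := by
    apply card_le_two_mul As a (c * a)
    intro x hx
    obtain ⟨_, h2⟩ := hAsH hx
    rcases h2 with h2 | h2
    · left
      have e : x * a * x⁻¹ = (a * x * a⁻¹ * x⁻¹)⁻¹ * a := by group
      rw [e, h2]; group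
    · right
      have e : x * a * x⁻¹ = (a * x * a⁻¹ * x⁻¹)⁻¹ * a := by group
      have hci : c⁻¹ = c := inv_eq_of_mul_eq_one_left hc2
      rw [e, h2, hci]
  exact ff_key (isPGroup_pCoreOf 2 Y) hΩR hΩc hΩ2 h.ha2 h.hk3 h.hak haR hΩa hΩk hΩk' hRΩ hF1 hWΩ hWk hWk' hWa hWR hc₁ hc₁1 hac₁
    hc₂ hac₂ hfix hRT hAs hAsR hcardAs

theorem LC.wOf_eq : wOf h.K = h.W := by
  classical
  set Φ := act X Y h.z.hN with hΦ
  set y := Φ ⟨k, h.hkY⟩ with hy
  have C := h.z.ffc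
  have hM := EA.hM X
  have hl : IsLine h.z.Fo (Φ ⟨a, h.haY⟩) y := h.hl
  have hodd := hl.odd C
  set Ω := omegaCenterOf (pCoreOf 2 h.K) with hΩ
  have hΩP : Ω ≤ pCoreOf 2 h.K := fun x hx => (omegaCenter_mem hx).1
  have hΩc : ∀ u ∈ Ω, ∀ p ∈ pCoreOf 2 h.K, p * u = u * p := fun u hu p hp => (omegaCenter_mem hu).2.1 p hp
  have hff := h.ff
  have hkK : k ∈ Subgroup.normalizer (h.K : Set G) := h.k_norm
  have hΩk' : ∀ u ∈ Ω, k⁻¹ * u * k ∈ Ω := fun u hu => by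
    have := conj_mem_omega (Subgroup.inv_mem _ hkK) hu
    simpa using this
  apply le_antisymm
  · show ⁅Ω, h.K⁆ ≤ h.W
    rw [Subgroup.commutator_le]
    intro x hx g hg
    -- `g x g⁻¹ x⁻¹ ∈ W`
    suffices hs : g * x * g⁻¹ * x⁻¹ ∈ h.W by
      have e : ⁅x, g⁆ = (g * x * g⁻¹ * x⁻¹)⁻¹ := by
        rw [commutatorElement_def]; group
      rw [e]
      exact Subgroup.inv_mem _ hs
    obtain ⟨hgY, hq⟩ := h.mem_q hg
    rcases hq with hq | hq | hq
    · have hgP : g ∈ pCoreOf 2 h.K := h.mem_core.mpr ⟨hg, qY_eq_one_iff.mp hq⟩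
      have := hΩc x hx g hgP
      rw [this]
      have e : x * g * g⁻¹ * x⁻¹ = 1 := by group
      rw [e]
      exact Subgroup.one_mem _
    · -- `g = k p`
      have hp : k⁻¹ * g ∈ pCoreOf 2 h.K := by
        apply h.mem_core.mpr
        refine ⟨h.K.mul_mem (h.K.inv_mem h.kk) hg, ?_⟩
        have : qY Y ((⟨k, h.hkY⟩ : ↥Y)⁻¹ * ⟨g, hgY⟩) = 1 := by
          rw [map_mul, map_inv, hq, inv_mul_cancel]
        exact qY_eq_one_iff.mp this
      have h1 := hΩc x hx _ hp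
      have e : g * x * g⁻¹ * x⁻¹ = k * ((k⁻¹ * g) * x) * (k⁻¹ * g)⁻¹ * k⁻¹ * x⁻¹ := by group
      rw [e, h1]
      have e2 : k * (x * (k⁻¹ * g)) * (k⁻¹ * g)⁻¹ * k⁻¹ * x⁻¹ = k * x * k⁻¹ * x⁻¹ := by group
      rw [e2]
      exact hff x hx
    · -- `g = k⁻¹ p`
      have hp : k * g ∈ pCoreOf 2 h.K := by
        apply h.mem_core.mpr
        refine ⟨h.K.mul_mem h.kk hg, ?_⟩
        have : qY Y ((⟨k, h.hkY⟩ : ↥Y) * ⟨g, hgY⟩) = 1 := by
          rw [map_mul, hq, mul_inv_cancel]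
        exact qY_eq_one_iff.mp this
      have h1 := hΩc x hx _ hp
      have e : g * x * g⁻¹ * x⁻¹ = k⁻¹ * ((k * g) * x) * (k * g)⁻¹ * k * x⁻¹ := by group
      rw [e, h1]
      have e2 : k⁻¹ * (x * (k * g)) * (k * g)⁻¹ * k * x⁻¹ = (k * (k⁻¹ * x * k) * k⁻¹ * (k⁻¹ * x * k)⁻¹)⁻¹ := by group
      rw [e2]
      exact Subgroup.inv_mem _ (hff _ (hΩk' x hx))
  · rintro _ ⟨_, ⟨v, rfl⟩, rfl⟩
    obtain ⟨f, hf, u, hu, rfl⟩ := fx_mul_com hM hodd v
    have e1 : y (f * u) * (f * u)⁻¹ = y u * u⁻¹ := by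
      rw [map_mul, hf, mul_inv, mul_mul_mul_comm, mul_inv_cancel, one_mul]
    show EA.val X (y (f * u) * (f * u)⁻¹) ∈ _
    rw [e1]
    have hUW : EA.val X u ∈ h.W := ⟨u, hu, rfl⟩
    have hUΩ : EA.val X u ∈ Ω := h.W_le_omega hUW
    set e := EA.val X u with he
    have e2 : EA.val X (y u * u⁻¹) = (⁅e, k⁆)⁻¹ := by
      rw [map_mul, map_inv, hy, hΦ, act_val, commutatorElement_def]
      show k * e * k⁻¹ * e⁻¹ = _
      group
    rw [e2]
    apply Subgroup.inv_mem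
    exact Subgroup.commutator_mem_commutator hUΩ h.kk

/-- The line component is a `J(T)`-component. -/
theorem LC.isJ : IsJComponent T₀ h.K := by
  have C := h.z.ffc
  refine ⟨kOf_gen, h.comm_eq, h.relIndex, ?_, ?_, ?_⟩
  · intro S hS hJS
    exact thompson_of_sylow_le h.z.syl h.hKY h.z.J_le hS hJS
  · rw [h.wOf_eq, LC.W, EA.card_map]
    exact (h.hl).card (EA.hM X) C h.htr
  · rw [h.wOf_eq]
    intro w hw
    exact h.z.hXe w (h.W_le_X hw)

end LCW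

namespace ZNH

variable (Z : ZNH G)
include Z

/-- Every member of `ℒ(T)` contains a `J(T)`-component. -/
theorem exists_jComponent {T L : Subgroup G} (hLT : L ∈ jOvergroups T) : ∃ K, IsJComponent T K ∧ K ≤ L := by
  have z := Z.znc_jover hLT
  obtain ⟨a, k, c, h⟩ := z.exists_LC (fun v hv => (omegaCenter_mem hv).1) hLT.2.1
  haveI := z.fact
  exact ⟨h.K, h.isJ, h.hKY⟩

end ZNH

end Cfsg.Agent.Lib.FFG
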