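import Mathlib
import Cfsg.Agent.Lib.FFG13

/-!
# Failure of factorization at the level of the group, part 14: maximal straddling subgroups
-/

set_option autoImplicit false
set_option linter.unusedSectionVars false

open Cfsg
open scoped commutatorElement

namespace Cfsg.Agent.Lib.FFG

open Cfsg.Agent.Lib.FFAct Cfsg.Agent.Lib.PCore Cfsg.Agent.Lib.JCompStruct Cfsg.Agent.Lib.ThompsonJ
open Cfsg.Agent.Lib.BGFit2

variable {G : Type*} [Group G] [Finite G]

theorem maxElemAbelianOrder_eq {T A : Subgroup G} (hA : MaxEA T A) : maxElemAbelianOrder T = Nat.card A := by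
  unfold maxElemAbelianOrder
  have h1 : (fun A : Subgroup ↥T => Nat.card ↥A) '' maxElementaryAbelianSubgroups 2 ↥T = {Nat.card A} := by
    ext n
    constructor
    · rintro ⟨B, hB, rfl⟩
      have h2 := MaxEA.map_of_mem hB
      have h3 := MaxEA.card_eq h2 hA
      rw [card_map_subtype'] at h3
      exact h3
    · rintro rfl
      exact ⟨_, hA.subgroupOf_mem, card_subgroupOf' hA.1⟩
  rw [h1, csSup_singleton]

/-- Normalizers grow in `2`-groups. -/
theorem exists_mem_normalizer_of_lt {T P : Subgroup G} (hP : IsPGroup 2 P) (hTP : T < P) :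
    ∃ x ∈ P, x ∉ T ∧ x ∈ Subgroup.normalizer (T : Set G) := by
  haveI : Fact (Nat.Prime 2) := ⟨Nat.prime_two⟩
  haveI : Group.IsNilpotent P := hP.isNilpotent
  have hlt : T.subgroupOf P < ⊤ := by
    rw [lt_top_iff_ne_top]
    intro h
    apply (not_le_of_gt hTP)
    intro x hx
    have h1 : (⟨x, hx⟩ : ↥P) ∈ T.subgroupOf P := by rw [h]; exact Subgroup.mem_top _
    exact h1
  have h2 := Group.normalizerCondition_of_isNilpotent (G := P) (T.subgroupOf P) hlt
  obtain ⟨x, hx1, hx2⟩ := SetLike.exists_of_lt h2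
  refine ⟨x.1, x.2, fun h => hx2 h, ?_⟩
  apply Cfsg.Agent.Lib.Subnormal.mem_normalizer_of_conj_mem T x.1
  intro t ht
  have h3 : (⟨t, hTP.le ht⟩ : ↥P) ∈ T.subgroupOf P := ht
  have h4 := (Subgroup.mem_normalizer_iff.mp hx1 _).mp h3
  exact h4

theorem thompson_ne_bot {T : Subgroup G} (hT : IsPGroup 2 T) (hT1 : T ≠ ⊥) : thompsonSubgroupOf 2 T ≠ ⊥ := by
  haveI : Fact (Nat.Prime 2) := ⟨Nat.prime_two⟩
  obtain ⟨A, hA⟩ := exists_maxEA T
  intro hJ
  have hAb : A = ⊥ := le_bot_iff.mp (hA.le_thompson.trans hJ.le)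
  -- `T` has an involution
  have hnt : Nontrivial ↥T := (Subgroup.nontrivial_iff_ne_bot T).mpr hT1
  obtain ⟨n, hn, hc⟩ := (IsPGroup.nontrivial_iff_card hT).mp hnt
  have h2 : 2 ∣ Nat.card ↥T := by
    rw [hc]; exact dvd_pow_self 2 hn.ne'
  obtain ⟨x, hx⟩ := exists_prime_orderOf_dvd_card' 2 h2
  have hz : IsElementaryAbelian 2 (Subgroup.zpowers x.1) := by
    rw [Subgroup.zpowers_eq_closure]
    apply isElementaryAbelian_closure
    · rintro a rfl b rfl; rfl
    · rintro a rfl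
      have : x ^ 2 = 1 := by rw [← hx]; exact pow_orderOf_eq_one x
      exact congrArg Subtype.val this
  have h3 := hA.2.2 _ ((Subgroup.zpowers_le).mpr x.2) hz
  rw [hAb] at h3
  simp only [Subgroup.card_bot] at h3
  have h4 : Nat.card (Subgroup.zpowers x.1) = 2 := by
    rw [Nat.card_zpowers, Subgroup.orderOf_coe]
    exact hx
  omega

/-- The normalizer of `R` normalizes `J(R)`. -/
theorem normalizer_le_normalizer_thompson (R : Subgroup G) :
    Subgroup.normalizer (R : Set G) ≤ Subgroup.normalizer (thompsonSubgroupOf 2 R : Set G) := by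
  intro g hg
  have h1 : cj g R = R := cj_eq_of_mem_normalizer hg
  have h2 := thompson_cj R g
  rw [h1] at h2
  apply Cfsg.Agent.Lib.Subnormal.mem_normalizer_of_conj_mem _ g
  intro j hj
  rw [h2]
  exact conj_mem_cj hj

section Max

variable {M T : Subgroup G} (hT : T ∈ maxStraddlingTwoSubgroups M)
include hT

/-- Straddling subgroups containing `J(T)`. -/
theorem MS.grow {U : Subgroup G} (hU : U ∈ straddlingTwoSubgroups M) (hJU : thompsonSubgroupOf 2 T ≤ U) :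
    thompsonSubgroupOf 2 U = thompsonSubgroupOf 2 T ∧ Nat.card U ≤ Nat.card T := by
  obtain ⟨h1, h2⟩ := hT.2 U hU
  obtain ⟨A, hA⟩ := exists_maxEA T
  obtain ⟨A₁, hA₁⟩ := exists_maxEA U
  rw [maxElemAbelianOrder_eq hA, maxElemAbelianOrder_eq hA₁] at h1 h2
  have hAU : ∀ B, MaxEA T B → MaxEA U B := by
    intro B hB
    have hBU : B ≤ U := hB.le_thompson.trans hJU
    refine ⟨hBU, hB.2.1, fun C hC hCe => ?_⟩
    have h4 := hA₁.2.2 C hC hCe
    have h5 := hA₁.2.2 B hBU hB.2.1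
    have h6 := MaxEA.card_eq hB hA
    omega
  have hJle : thompsonSubgroupOf 2 T ≤ thompsonSubgroupOf 2 U := by
    rw [thompsonOf_eq_sSup T]
    exact sSup_le fun B hB => (hAU B hB).le_thompson
  have heq : Nat.card A₁ = Nat.card A := by
    have := hA₁.2.2 A (hA.le_thompson.trans hJU) hA.2.1
    omega
  obtain ⟨h4, h5⟩ := h2 heq
  have h6 : thompsonSubgroupOf 2 U = thompsonSubgroupOf 2 T :=
    (Subgroup.eq_of_le_of_card_ge hJle h4).symm
  exact ⟨h6, h5 (by rw [h6])⟩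

/-- `N_G(J(T)) ≤ M`. -/
theorem MS.normalizer_le {S : Sylow 2 G} (hMJ : Subgroup.normalizer (thompsonSubgroupOf 2 (S : Subgroup G) : Set G) ≤ M) :
    Subgroup.normalizer (thompsonSubgroupOf 2 T : Set G) ≤ M := by
  classical
  haveI : Fact (Nat.Prime 2) := ⟨Nat.prime_two⟩
  by_contra hcon
  obtain ⟨⟨hTp, hT1, hTM, -⟩, -⟩ := id hT
  set N := Subgroup.normalizer (thompsonSubgroupOf 2 T : Set G) with hN
  have hJp : IsPGroup 2 (thompsonSubgroupOf 2 T) := hTp.to_le (Cfsg.Agent.Lib.JCompBasic.thompsonSubgroupOf_le 2 T)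
  have hJ1 := thompson_ne_bot hTp hT1
  have hN2 : IsTwoLocal N := ⟨_, hJp, hJ1, rfl⟩
  have hTN : T ≤ N := le_normalizer_thompson T
  -- `T` is Sylow in `M ∩ N`
  obtain ⟨T₃, hTT₃, hT₃⟩ := exists_isSylowTwoIn (le_inf hTM hTN : T ≤ M ⊓ N) hTp
  have hT₃s : T₃ ∈ straddlingTwoSubgroups M := by
    refine ⟨hT₃.2.1, ?_, hT₃.1.trans inf_le_left, N, hN2, hT₃.1.trans inf_le_right, hcon⟩
    intro h
    rw [h, le_bot_iff] at hTT₃
    exact hT1 hTT₃
  have hT₃e : T₃ = T := by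
    obtain ⟨_, h5⟩ := MS.grow hT hT₃s ((Cfsg.Agent.Lib.JCompBasic.thompsonSubgroupOf_le 2 T).trans hTT₃)
    exact (Subgroup.eq_of_le_of_card_ge hTT₃ h5).symm
  rw [hT₃e] at hT₃
  -- `S ≤ M`
  have hSJ : (S : Subgroup G) ≤ Subgroup.normalizer (thompsonSubgroupOf 2 (S : Subgroup G) : Set G) :=
    le_normalizer_thompson _
  have hSM : (S : Subgroup G) ≤ M := hSJ.trans hMJ
  have hSsyl : IsSylowTwoIn (S : Subgroup G) M := by
    refine ⟨hSM, S.isPGroup', ?_⟩
    have h1 : Odd (S : Subgroup G).index := by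
      have h2 := S.not_dvd_index
      rw [Nat.odd_iff]
      omega
    have h2 := Subgroup.relIndex_mul_index hSM
    rw [← h2] at h1
    exact (Nat.odd_mul.mp h1).1
  obtain ⟨P, hTP, hP⟩ := exists_isSylowTwoIn hTM hTp
  obtain ⟨m, hm, hPe⟩ := exists_conj_of_sylow hSsyl hP
  have hPN : P ≤ T := by
    by_contra hne
    have hlt : T < P := lt_of_le_of_ne hTP (fun h => hne h.ge)
    obtain ⟨x, hxP, hxT, hxN⟩ := exists_mem_normalizer_of_lt hP.2.1 hlt
    have hxNJ : x ∈ N := normalizer_le_normalizer_thompson T hxN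
    have hU : T ⊔ Subgroup.zpowers x ≤ P := sup_le hTP ((Subgroup.zpowers_le).mpr hxP)
    have hU2 : T ⊔ Subgroup.zpowers x ≤ M ⊓ N := by
      apply sup_le (le_inf hTM hTN)
      rw [Subgroup.zpowers_le]
      exact ⟨hP.1 hxP, hxNJ⟩
    have := le_of_sylow_of_pGroup hT₃ (hP.2.1.to_le hU) le_sup_left hU2
    exact hxT (this (Subgroup.mem_sup_right (Subgroup.mem_zpowers x)))
  have hTeq : T = cj m S := (le_antisymm hTP hPN).trans hPe
  apply hcon
  intro g hg
  -- `g^{m⁻¹}` normalizes `J(S)`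
  have h1 : thompsonSubgroupOf 2 T = cj m (thompsonSubgroupOf 2 (S : Subgroup G)) := by
    rw [hTeq, thompson_cj]
  have h2 : m⁻¹ * g * m ∈ Subgroup.normalizer (thompsonSubgroupOf 2 (S : Subgroup G) : Set G) := by
    apply Cfsg.Agent.Lib.Subnormal.mem_normalizer_of_conj_mem _
    intro j hj
    have h3 : m * j * m⁻¹ ∈ thompsonSubgroupOf 2 T := by
      rw [h1]; exact conj_mem_cj hj
    have h4 := (Subgroup.mem_normalizer_iff.mp hg _).mp h3
    rw [h1, mem_cj] at h4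
    have e : m⁻¹ * (g * (m * j * m⁻¹) * g⁻¹) * m = m⁻¹ * g * m * j * (m⁻¹ * g * m)⁻¹ := by group
    rwa [e] at h4
  have h3 := hMJ h2
  have e : g = m * (m⁻¹ * g * m) * m⁻¹ := by group
  rw [e]
  exact M.mul_mem (M.mul_mem hm h3) (M.inv_mem hm)

/-- The main reduction. -/
theorem MS.sylow_facts {S : Sylow 2 G} (hMJ : Subgroup.normalizer (thompsonSubgroupOf 2 (S : Subgroup G) : Set G) ≤ M)
    {L T₀ : Subgroup G} (hL2 : IsTwoLocal L) (hLM : ¬ L ≤ M) (hT₀ : IsSylowTwoIn T₀ L) (hJT₀ : thompsonSubgroupOf 2 T ≤ T₀) :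
    T₀ ≤ Subgroup.normalizer (thompsonSubgroupOf 2 T : Set G) ∧ thompsonSubgroupOf 2 T₀ = thompsonSubgroupOf 2 T ∧
      T₀ ∈ straddlingTwoSubgroups M := by
  classical
  obtain ⟨⟨hTp, hT1, hTM, -⟩, -⟩ := id hT
  set J := thompsonSubgroupOf 2 T with hJ
  set N := Subgroup.normalizer (J : Set G) with hN
  have hNM : N ≤ M := MS.normalizer_le hT hMJ
  have hJ1 : J ≠ ⊥ := thompson_ne_bot hTp hT1
  set T₅ := T₀ ⊓ N with hT₅
  have hJT₅ : J ≤ T₅ := le_inf hJT₀ Subgroup.le_normalizer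
  have hT₅p : IsPGroup 2 T₅ := hT₀.2.1.to_le inf_le_left
  have hT₅s : T₅ ∈ straddlingTwoSubgroups M := by
    refine ⟨hT₅p, ?_, inf_le_right.trans hNM, L, hL2, inf_le_left.trans hT₀.1, hLM⟩
    intro h
    rw [h, le_bot_iff] at hJT₅
    exact hJ1 hJT₅
  obtain ⟨h5, _⟩ := MS.grow hT hT₅s hJT₅
  have hT₀N : T₀ ≤ N := by
    by_contra hne
    have hlt : T₅ < T₀ := lt_of_le_of_ne inf_le_left (fun h => hne (by rw [← h]; exact inf_le_right))
    obtain ⟨x, hxP, hxT, hxN⟩ := exists_mem_normalizer_of_lt hT₀.2.1 hlt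
    have h6 := normalizer_le_normalizer_thompson T₅ hxN
    rw [h5] at h6
    exact hxT ⟨hxP, h6⟩
  have hT₅e : T₅ = T₀ := le_antisymm inf_le_left (le_inf le_rfl hT₀N)
  rw [hT₅e] at h5 hT₅s
  exact ⟨hT₀N, h5, hT₅s⟩

end Max

/-- `L ∈ ℒ(T₀)`. -/
theorem ZNH.jover_of_two_local (Z : ZNH G) {T₀ L : Subgroup G} (hL2 : IsTwoLocal L) (hT₀ : IsSylowTwoIn T₀ L)
    (hN : ¬ L ≤ Subgroup.normalizer (thompsonSubgroupOf 2 T₀ : Set G)) : L ∈ jOvergroups T₀ := by
  refine ⟨hT₀, ?_, ?_⟩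
  · intro hle
    apply hN
    have h1 := thompson_between hle (core_le_sylow hT₀)
    rw [← h1]
    exact (le_normalizer_pCoreOf 2 L).trans (normalizer_le_normalizer_thompson _)
  · obtain ⟨Q, hQ, hQ1, rfl⟩ := hL2
    exact Z.centralizer_core_le hQ hQ1

end Cfsg.Agent.Lib.FFG
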