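import Mathlib
import Cfsg.Agent.Lib.FFG14

/-!
# Failure of factorization at the level of the group, part 15: generation by `N(J)` and the `J(T)`-components
-/

set_option autoImplicit false
set_option linter.unusedSectionVars false

open Cfsg
open scoped commutatorElement

namespace Cfsg.Agent.Lib.FFAct

variable {M : Type*} [CommGroup M] [Finite M]

/-- The elements of `trSub H` centralizing all lines. -/
def dZero (H F : Subgroup (MulAut M)) : Subgroup (MulAut M) := trSub H ⊓ Subgroup.centralizer (lineSet H F)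

section Ctx

variable {H F P : Subgroup (MulAut M)} (hM : ∀ v : M, v * v = 1) (C : FFC H F P)
include hM C

theorem dZero_comm {d y : MulAut M} (hd : d ∈ dZero H F) (hy : y ∈ lineSet H F) : d * y = y * d :=
  (Subgroup.mem_centralizer_iff.mp hd.2 y hy).symm

theorem dZero_two_eq_one {d : MulAut M} (hd : d ∈ dZero H F) {n : ℕ} (h : d ^ (2 ^ n) = 1) : d = 1 :=
  trSub_two_eq_one hM C hd.1 h (fun _ hy => dZero_comm hM C hd hy)

theorem dZero_odd {d : MulAut M} (hd : d ∈ dZero H F) : Odd (orderOf d) := by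
  have ho : orderOf d ≠ 0 := (orderOf_pos d).ne'
  obtain ⟨e, m, hm, he⟩ := Nat.exists_eq_two_pow_mul_odd ho
  have h1 : (d ^ m) ^ (2 ^ e) = 1 := by
    rw [← pow_mul, mul_comm, ← he, pow_orderOf_eq_one]
  have h2 := dZero_two_eq_one hM C (Subgroup.pow_mem _ hd m) h1
  exact Odd.of_dvd_nat hm (orderOf_dvd_of_pow_eq_one h2)

theorem dZero_conj {h d : MulAut M} (hh : h ∈ H) (hd : d ∈ dZero H F) : h * d * h⁻¹ ∈ dZero H F := by
  refine ⟨trSub_conj hh hd.1, ?_⟩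
  apply Subgroup.mem_centralizer_iff.mpr
  rintro y ⟨t, ht1, ht2, hl⟩
  have hy' : h⁻¹ * y * h⁻¹⁻¹ ∈ lineSet H F :=
    ⟨h⁻¹ * t * h⁻¹⁻¹, H.mul_mem (H.mul_mem (H.inv_mem hh) ht1) (H.inv_mem (H.inv_mem hh)), ht2.conj _, hl.conj hM C (H.inv_mem hh)⟩
  have h1 := dZero_comm hM C hd hy'
  rw [inv_inv] at h1
  calc y * (h * d * h⁻¹) = h * ((h⁻¹ * y * h) * d) * h⁻¹ := by group
    _ = h * (d * (h⁻¹ * y * h)) * h⁻¹ := by rw [h1]
    _ = h * d * h⁻¹ * y := by group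

theorem sq_mem_dZero {d : MulAut M} (hd : d ∈ trSub H) : d * d ∈ dZero H F := by
  refine ⟨Subgroup.mul_mem _ hd hd, ?_⟩
  apply Subgroup.mem_centralizer_iff.mpr
  intro y hy
  have h1 : d ∈ normLine y := trSub_normLine hM C hd hy
  have key : d * (d * y * d⁻¹) * d⁻¹ = y := by
    rcases h1 with h1 | h1
    · rw [h1, h1]
    · rw [h1, conj_inv_eq, h1, inv_inv]
  have e : d * d * y = d * (d * y * d⁻¹) * d⁻¹ * (d * d) := by group
  rw [e, key]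

/-- Lines lie in `dZero`. -/
theorem line_mem_dZero {t y : MulAut M} {c : M} (htH : t ∈ H) (ht : IsTrC t c) (hl : IsLine F t y) : y ∈ dZero H F := by
  have htD : t ∈ trSub H := Subgroup.subset_closure ⟨htH, ⟨c, ht⟩⟩
  have hyH : y ∈ H := C.F_le hl.2.2.1
  refine ⟨?_, ?_⟩
  · have h1 : y * t * y⁻¹ * t⁻¹ ∈ trSub H :=
      Subgroup.mul_mem _ (trSub_conj hyH htD) (Subgroup.inv_mem _ htD)
    have h2 : y * t * y⁻¹ * t⁻¹ = y * (t * y * t⁻¹)⁻¹ := by group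
    rw [h2, hl.2.1, inv_inv] at h1
    have h3 := hl.cube hM C ht
    have h4 : y * y = y⁻¹ := by
      have e : y ^ 3 = y * y * y := by simp [pow_succ]
      rw [e] at h3
      exact eq_inv_of_mul_eq_one_left h3
    rw [h4] at h1
    simpa using Subgroup.inv_mem _ h1
  · apply Subgroup.mem_centralizer_iff.mpr
    rintro y' ⟨t', ht1', ⟨c', ht2'⟩, hl'⟩
    exact hl.comm hM C ht ht2' ht1' hl'

end Ctx

end Cfsg.Agent.Lib.FFAct

namespace Cfsg.Agent.Lib.FFG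

open Cfsg.Agent.Lib.FFAct Cfsg.Agent.Lib.PCore Cfsg.Agent.Lib.JCompStruct Cfsg.Agent.Lib.ThompsonJ
open Cfsg.Agent.Lib.BGFit2

variable {G : Type*} [Group G] [Finite G]

/-- A `2`-group stabilizing an odd coset has a fixed point in it. -/
theorem exists_fixed_in_coset {Γ : Type*} [Group Γ] [Finite Γ] (Q U : Subgroup Γ) (hQ : IsPGroup 2 Q) (hU : Odd (Nat.card U)) (x : Γ)
    (hst : ∀ p ∈ Q, ∀ u ∈ U, x⁻¹ * (p * (x * u) * p⁻¹) ∈ U) : ∃ u ∈ U, ∀ p ∈ Q, p * (x * u) * p⁻¹ = x * u := by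
  letI : MulAction Q U :=
    { smul := fun p u => ⟨x⁻¹ * (p.1 * (x * u.1) * p.1⁻¹), hst p.1 p.2 u.1 u.2⟩
      one_smul := fun u => Subtype.ext (by
        show x⁻¹ * ((1 : Γ) * (x * u.1) * 1⁻¹) = u.1
        group)
      mul_smul := fun a b u => Subtype.ext (by
        show x⁻¹ * ((a.1 * b.1) * (x * u.1) * (a.1 * b.1)⁻¹) = x⁻¹ * (a.1 * (x * (x⁻¹ * (b.1 * (x * u.1) * b.1⁻¹))) * a.1⁻¹)
        group) }
  have h2 : ¬ 2 ∣ Nat.card U := by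
    rw [Nat.odd_iff] at hU
    omega
  obtain ⟨u, hu⟩ := hQ.nonempty_fixed_point_of_prime_not_dvd_card (U : Type _) h2
  refine ⟨u.1, u.2, fun p hp => ?_⟩
  have h3 : x⁻¹ * (p * (x * u.1) * p⁻¹) = u.1 := congrArg Subtype.val (hu ⟨p, hp⟩)
  have e : p * (x * u.1) * p⁻¹ = x * (x⁻¹ * (p * (x * u.1) * p⁻¹)) := by group
  rw [e, h3]

section LCw

variable {X Y T₀ : Subgroup G} {a k c : G} (h : LC X Y T₀ a k c) [hf : Fact (∀ a ∈ X, a * a = 1)]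
include h

/-- Elements inverted by `a`, acting inside the line's centralizer, lie in `⟨k⟩` modulo `R`. -/
theorem LC.w_mem {w : ↥Y} (ha : (⟨a, h.haY⟩ : ↥Y) * w * (⟨a, h.haY⟩ : ↥Y)⁻¹ = w⁻¹)
    (hodd : Odd (orderOf (act X Y h.z.hN w)))
    (hcomm : act X Y h.z.hN w * act X Y h.z.hN ⟨k, h.hkY⟩ = act X Y h.z.hN ⟨k, h.hkY⟩ * act X Y h.z.hN w) :
    qY Y w ∈ Subgroup.zpowers (qY Y ⟨k, h.hkY⟩) := by
  classical
  set Φ := act X Y h.z.hN with hΦ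
  set q := qY Y with hq
  set kΓ : ↥Y := ⟨k, h.hkY⟩ with hkΓ
  set aΓ : ↥Y := ⟨a, h.haY⟩ with haΓ
  have htc : IsTrC (Φ aΓ) (EA.mk X h.hcX) := h.htr
  have hl : IsLine h.z.Fo (Φ aΓ) (Φ kΓ) := h.hl
  have hinvw : Φ aΓ * Φ w * (Φ aΓ)⁻¹ = (Φ w)⁻¹ := by
    rw [← map_inv, ← map_mul, ← map_mul, ha, map_inv]
  obtain ⟨κ, hκΦ, hκq, hκm⟩ : ∃ κ : ↥Y, Φ κ = Φ w ∧ q aΓ * q κ * (q aΓ)⁻¹ = (q κ)⁻¹ ∧ q κ ∈ Subgroup.zpowers (q kΓ) := by
    by_cases hw1 : Φ w = 1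
    · refine ⟨1, by rw [map_one, hw1], by simp, by simp⟩
    · rcases inv_unique (EA.hM X) htc hodd (hl.odd h.z.ffc) hw1 hl.1 hinvw hl.2.1 hcomm with h1 | h1
      · exact ⟨kΓ, h1, h.q_inv, Subgroup.mem_zpowers _⟩
      · refine ⟨kΓ⁻¹, by rw [map_inv, h1, inv_inv], ?_, by simp⟩
        rw [map_inv]
        have e : q aΓ * (q kΓ)⁻¹ * (q aΓ)⁻¹ = (q aΓ * q kΓ * (q aΓ)⁻¹)⁻¹ := by group
        rw [e, h.q_inv]
  set c₉ := w * κ⁻¹ with hc₉
  have hc₉Φ : Φ c₉ = 1 := by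
    rw [hc₉, map_mul, map_inv, hκΦ, mul_inv_cancel]
  have hcomm₉ : q c₉ * q κ = q κ * q c₉ := by
    obtain ⟨i, hi⟩ := hκm
    rw [← hi]
    have h1 : Commute (q c₉) (q kΓ) := h.q_comm hc₉Φ
    exact (h1.zpow_right i).eq
  have hqw : q w = q c₉ * q κ := by
    rw [hc₉, map_mul, map_inv]; group
  have hqww : q aΓ * q w * (q aΓ)⁻¹ = (q w)⁻¹ := by
    rw [← map_inv, ← map_mul, ← map_mul, ha, map_inv]
  have hfix : q aΓ * q c₉ * (q aΓ)⁻¹ = q c₉ := by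
    have h1 : q c₉ * q aΓ = q aΓ * q c₉ := h.z.q_comm_T' hc₉Φ (t := aΓ) h.haT
    calc q aΓ * q c₉ * (q aΓ)⁻¹ = q c₉ * q aΓ * (q aΓ)⁻¹ := by rw [h1]
      _ = q c₉ := by group
  have hsq : q c₉ = (q c₉)⁻¹ := by
    have h1 : q aΓ * q w * (q aΓ)⁻¹ = (q aΓ * q c₉ * (q aΓ)⁻¹) * (q aΓ * q κ * (q aΓ)⁻¹) := by
      rw [hqw]; group
    rw [hqww, hfix, hκq, hqw] at h1
    have h2 : (q c₉ * q κ)⁻¹ = (q c₉)⁻¹ * (q κ)⁻¹ := by
      rw [mul_inv_rev]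
      have : Commute (q c₉) (q κ) := hcomm₉
      exact (this.inv_inv).eq.symm ▸ rfl
    rw [h2] at h1
    exact (mul_right_cancel h1).symm
  have hc₉R : c₉ ∈ pCore 2 ↥Y := by
    apply h.z.codd hc₉Φ (n := 1)
    rw [pow_one, pow_two]
    have : q (c₉ * c₉) = 1 := by
      rw [map_mul]
      nth_rw 1 [hsq]
      exact inv_mul_cancel _
    exact (QuotientGroup.eq_one_iff _).mp this
  have hqc : q c₉ = 1 := (QuotientGroup.eq_one_iff _).mpr hc₉R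
  rw [hqw, hqc, one_mul]
  exact hκm

end LCw

end Cfsg.Agent.Lib.FFG
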