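import Mathlib
import Cfsg.Agent.Lib.FFG15

/-!
# Failure of factorization at the level of the group, part 16: generation by `N(J)` and the `J(T)`-components, continued
-/

set_option autoImplicit false
set_option linter.unusedSectionVars false

open Cfsg
open scoped commutatorElement

namespace Cfsg.Agent.Lib.FFG

open Cfsg.Agent.Lib.FFAct Cfsg.Agent.Lib.PCore Cfsg.Agent.Lib.JCompStruct Cfsg.Agent.Lib.ThompsonJ
open Cfsg.Agent.Lib.BGFit2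

variable {G : Type*} [Group G] [Finite G]

/-- The elements `k` of line contexts, in `Y`. -/
def kGenSet (X Y T₀ : Subgroup G) : Set ↥Y := {k | ∃ a c, LC X Y T₀ a k.1 c}

/-- The subgroup generated by the `k`'s. -/
noncomputable def kGen (X Y T₀ : Subgroup G) : Subgroup ↥Y := Subgroup.closure (kGenSet X Y T₀)

theorem conj_inv_mem_of_pow {Γ : Type*} [Group Γ] [Finite Γ] {𝒳 : Set Γ} {g : Γ} (h : ∀ z ∈ 𝒳, g * z * g⁻¹ ∈ 𝒳) :
    ∀ z ∈ 𝒳, g⁻¹ * z * g ∈ 𝒳 := by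
  have hpow : ∀ n : ℕ, ∀ z ∈ 𝒳, g ^ n * z * (g ^ n)⁻¹ ∈ 𝒳 := by
    intro n
    induction n with
    | zero =>
      intro z hz
      simpa using hz
    | succ n ih =>
      intro z hz
      have e : g ^ (n + 1) * z * (g ^ (n + 1))⁻¹ = g * (g ^ n * z * (g ^ n)⁻¹) * g⁻¹ := by
        rw [pow_succ']; group
      rw [e]
      exact h _ (ih z hz)
  intro z hz
  have hord : 0 < orderOf g := orderOf_pos g
  have h1 : g⁻¹ = g ^ (orderOf g - 1) := by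
    apply inv_eq_of_mul_eq_one_right
    rw [← pow_succ', Nat.sub_add_cancel hord, pow_orderOf_eq_one]
  have h2 := hpow (orderOf g - 1) z hz
  rw [← h1, inv_inv] at h2
  exact h2

/-- The stabilizer of a set under conjugation. -/
def setStab {Γ : Type*} [Group Γ] [Finite Γ] (𝒳 : Set Γ) : Subgroup Γ where
  carrier := {g | ∀ z ∈ 𝒳, g * z * g⁻¹ ∈ 𝒳}
  mul_mem' := by
    intro a b ha hb z hz
    have e : a * b * z * (a * b)⁻¹ = a * (b * z * b⁻¹) * a⁻¹ := by group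
    rw [e]
    exact ha _ (hb z hz)
  one_mem' := by
    intro z hz
    simpa using hz
  inv_mem' := by
    intro a ha z hz
    have := conj_inv_mem_of_pow ha z hz
    simpa using this

section Main

variable {X Y T₀ : Subgroup G} (z : ZNC X Y T₀) (hXR : X ≤ pCoreOf 2 Y) [hf : Fact (∀ a ∈ X, a * a = 1)]
include z

theorem ZNC.kGen_dZero {κ : ↥Y} (hκ : κ ∈ kGen X Y T₀) : act X Y z.hN κ ∈ dZero (act X Y z.hN).range z.Fo := by
  have hle : kGen X Y T₀ ≤ (dZero (act X Y z.hN).range z.Fo).comap (act X Y z.hN) := by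
    rw [kGen, Subgroup.closure_le]
    rintro k ⟨a, c, h⟩
    show act X Y z.hN k ∈ dZero (act X Y z.hN).range z.Fo
    have h1 := line_mem_dZero (EA.hM X) z.ffc ⟨_, rfl⟩ h.htr h.hl
    exact h1
  exact hle hκ

theorem ZNC.kBar_odd : Odd (Nat.card ((kGen X Y T₀).map (qY Y))) := by
  classical
  by_contra hcon
  rw [Nat.not_odd_iff_even, even_iff_two_dvd] at hcon
  haveI : Fact (Nat.Prime 2) := ⟨Nat.prime_two⟩
  obtain ⟨w, hw⟩ := exists_prime_orderOf_dvd_card' 2 hcon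
  obtain ⟨κ, hκ, hκe⟩ := w.2
  have h1 : (qY Y κ) ^ 2 = 1 := by
    have := pow_orderOf_eq_one w
    rw [hw] at this
    rw [hκe]
    exact congrArg Subtype.val this
  have h2 : qY Y κ ≠ 1 := by
    intro h
    have h3 : w = 1 := Subtype.ext (hκe.symm.trans h)
    rw [h3, orderOf_one] at hw
    omega
  have h3 : κ ^ 2 ∈ pCore 2 ↥Y := by
    have : qY Y (κ ^ 2) = 1 := by rw [map_pow, h1]
    exact (QuotientGroup.eq_one_iff _).mp this
  have h4 : (act X Y z.hN κ) ^ (2 ^ 1) = 1 := by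
    rw [pow_one, ← map_pow, act_eq_one_iff]
    exact z.hR _ ((ZNC.mem_core z).mp h3)
  have h5 := dZero_two_eq_one (EA.hM X) z.ffc (z.kGen_dZero hκ) h4
  have h6 : κ ∈ pCore 2 ↥Y := z.codd h5 (n := 1) (by rw [pow_one]; exact h3)
  exact h2 ((QuotientGroup.eq_one_iff _).mpr h6)

include hXR

/-- `q(a)` normalizes the `k`'s, for a transvection `a`. -/
theorem ZNC.a_norm_kBar {aΓ : ↥Y} {cc : EA X} (htc : IsTrC (act X Y z.hN aΓ) cc) {κ : ↥Y} (hκ : κ ∈ kGen X Y T₀) :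
    qY Y aΓ * qY Y κ * (qY Y aΓ)⁻¹ ∈ (kGen X Y T₀).map (qY Y) := by
  have hle : kGen X Y T₀ ≤ ((kGen X Y T₀).map (qY Y)).comap ((MulAut.conj (qY Y aΓ)).toMonoidHom.comp (qY Y)) := by
    conv_lhs => rw [kGen]
    rw [Subgroup.closure_le]
    rintro k ⟨a, c, h⟩
    have hmem : k ∈ kGen X Y T₀ := Subgroup.subset_closure ⟨a, c, h⟩
    have h1 := h.hl.tr_norm (EA.hM X) z.ffc h.htr htc ⟨_, rfl⟩
    have h2 := h.norm_core (n := aΓ) h1
    show qY Y aΓ * qY Y k * (qY Y aΓ)⁻¹ ∈ (kGen X Y T₀).map (qY Y)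
    have e : qY Y aΓ * qY Y k * (qY Y aΓ)⁻¹ = qY Y (aΓ * k * aΓ⁻¹) := by
      rw [map_mul, map_mul, map_inv]
    rw [e]
    have e' : (⟨k.1, h.hkY⟩ : ↥Y) = k := rfl
    rw [e'] at h2
    rcases h2 with h2 | h2
    · rw [h2]; exact ⟨k, hmem, rfl⟩
    · rw [h2]; exact Subgroup.inv_mem _ ⟨k, hmem, rfl⟩
  exact hle hκ

/-- The commutators with a transvection generator. -/
theorem ZNC.comm_kBar {A : Subgroup G} (hA : MaxEA T₀ A) {a : G} (haA : a ∈ A) (haY : a ∈ Y) {cc : EA X}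
    (htc : IsTrC (act X Y z.hN ⟨a, haY⟩) cc) {x : ↥Y} (hx : act X Y z.hN x ∈ dZero (act X Y z.hN).range z.Fo) :
    (qY Y x)⁻¹ * (qY Y ⟨a, haY⟩ * qY Y x * (qY Y ⟨a, haY⟩)⁻¹) ∈ (kGen X Y T₀).map (qY Y) := by
  obtain ⟨k, h⟩ := z.exists_LC_of hXR hA haA haY htc
  set Φ := act X Y z.hN with hΦ
  set aΓ : ↥Y := ⟨a, haY⟩ with haΓ
  have C := z.ffc
  have hM := EA.hM X
  set w := x⁻¹ * (aΓ * x * aΓ⁻¹) with hw
  have haa : aΓ * aΓ = 1 := Subtype.ext h.ha2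
  have hai : aΓ⁻¹ = aΓ := inv_eq_of_mul_eq_one_left haa
  have hinv : aΓ * w * aΓ⁻¹ = w⁻¹ := by
    rw [hw, hai]
    have e : aΓ * (x⁻¹ * (aΓ * x * aΓ)) * aΓ = aΓ * x⁻¹ * aΓ * x * (aΓ * aΓ) := by group
    have e2 : (x⁻¹ * (aΓ * x * aΓ))⁻¹ = aΓ * x⁻¹ * aΓ * x := by
      rw [mul_inv_rev, mul_inv_rev, mul_inv_rev, inv_inv, hai]
      group
    rw [e, haa, mul_one, e2]
  have hwD : Φ w ∈ dZero Φ.range z.Fo := by
    have e : Φ w = (Φ x)⁻¹ * (Φ aΓ * Φ x * (Φ aΓ)⁻¹) := by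
      rw [hw, map_mul, map_mul, map_mul, map_inv, map_inv]
    rw [e]
    exact Subgroup.mul_mem _ (Subgroup.inv_mem _ hx) (dZero_conj hM C ⟨aΓ, rfl⟩ hx)
  have hyl : Φ ⟨k, h.hkY⟩ ∈ lineSet Φ.range z.Fo := ⟨Φ aΓ, ⟨aΓ, rfl⟩, ⟨_, h.htr⟩, h.hl⟩
  have h1 := h.w_mem hinv (dZero_odd hM C hwD) (dZero_comm hM C hwD hyl)
  have hk : (⟨k, h.hkY⟩ : ↥Y) ∈ kGen X Y T₀ := Subgroup.subset_closure ⟨a, _, h⟩
  have h2 : Subgroup.zpowers (qY Y ⟨k, h.hkY⟩) ≤ (kGen X Y T₀).map (qY Y) := by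
    rw [Subgroup.zpowers_le]
    exact ⟨_, hk, rfl⟩
  have h3 := h2 h1
  have e : qY Y w = (qY Y x)⁻¹ * (qY Y aΓ * qY Y x * (qY Y aΓ)⁻¹) := by
    rw [hw, map_mul, map_mul, map_mul, map_inv, map_inv]
  rw [← e]
  exact h3

/-- The main fixed point argument. -/
theorem ZNC.mem_of_dZero {x : ↥Y} (hx : act X Y z.hN x ∈ dZero (act X Y z.hN).range z.Fo) :
    ∃ κ ∈ kGen X Y T₀, (x * κ).1 ∈ Subgroup.normalizer (thompsonSubgroupOf 2 T₀ : Set G) := by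
  classical
  set Φ := act X Y z.hN with hΦ
  set q := qY Y with hq
  set Kb := (kGen X Y T₀).map q with hKb
  set J := thompsonSubgroupOf 2 T₀ with hJ
  set 𝒳 : Set (↥Y ⧸ pCore 2 ↥Y) := {w | (q x)⁻¹ * w ∈ Kb} with h𝒳
  set St := setStab 𝒳 with hSt
  have hgen : ∀ (A : Subgroup G), MaxEA T₀ A → ∀ a (haA : a ∈ A) (haY : a ∈ Y) (cc : EA X), IsTrC (Φ ⟨a, haY⟩) cc → q ⟨a, haY⟩ ∈ St := by
    intro A hA a haA haY cc htc w hw
    obtain ⟨κ, hκ, hκe⟩ : ∃ κ ∈ kGen X Y T₀, q κ = (q x)⁻¹ * w := hw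
    have he : w = q x * q κ := by rw [hκe]; group
    show (q x)⁻¹ * (q ⟨a, haY⟩ * w * (q ⟨a, haY⟩)⁻¹) ∈ Kb
    rw [he]
    have e : (q x)⁻¹ * (q ⟨a, haY⟩ * (q x * q κ) * (q ⟨a, haY⟩)⁻¹) =
        ((q x)⁻¹ * (q ⟨a, haY⟩ * q x * (q ⟨a, haY⟩)⁻¹)) * (q ⟨a, haY⟩ * q κ * (q ⟨a, haY⟩)⁻¹) := by group
    rw [e]
    exact Subgroup.mul_mem _ (z.comm_kBar hXR hA haA haY htc hx) (z.a_norm_kBar hXR htc hκ)
  have hall : ∀ (A : Subgroup G), MaxEA T₀ A → ∀ a (haA : a ∈ A) (haY : a ∈ Y), q ⟨a, haY⟩ ∈ St := by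
    intro A hA a haA haY
    set 𝔸 : Subgroup ↥Y := (A.subgroupOf Y) ⊓ St.comap q with h𝔸
    have hle : Subgroup.closure {t | t ∈ (A.subgroupOf Y).map Φ ∧ IsTr t} ≤ 𝔸.map Φ := by
      rw [Subgroup.closure_le]
      rintro t ⟨⟨a₁, ha₁, rfl⟩, cc, htc⟩
      exact ⟨a₁, ⟨ha₁, hgen A hA a₁.1 ha₁ a₁.2 cc htc⟩, rfl⟩
    have h1 : Φ ⟨a, haY⟩ ∈ (A.subgroupOf Y).map Φ := ⟨⟨a, haY⟩, haA, rfl⟩
    obtain ⟨a₁, ⟨ha₁, ha₁'⟩, ha₁e⟩ := hle ((z.tr_gen hA).1 h1)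
    have he : a₁⁻¹ * ⟨a, haY⟩ ∈ pCore 2 ↥Y := by
      apply (ZNC.mem_core z).mpr
      apply z.hT
      · exact hA.1 (A.mul_mem (A.inv_mem ha₁) haA)
      · apply (act_eq_one_iff z.hN _).mp
        rw [map_mul, map_inv, ← hΦ, ha₁e, inv_mul_cancel]
    have h2 : q a₁ = q ⟨a, haY⟩ := QuotientGroup.eq.mpr he
    rw [← h2]
    exact ha₁'
  set Jt := (J.subgroupOf Y).map q with hJt
  have hJtSt : Jt ≤ St := by
    have hle : J ≤ (St.comap q).map Y.subtype := by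
      rw [hJ, thompsonOf_eq_sSup]
      refine sSup_le fun A (hA : MaxEA T₀ A) => ?_
      intro a ha
      have haY : a ∈ Y := hA.1.trans z.syl.1 ha
      exact ⟨⟨a, haY⟩, hall A hA a ha haY, rfl⟩
    rintro _ ⟨j, hj, rfl⟩
    obtain ⟨w, hw, he⟩ := hle hj
    have : w = j := Subtype.ext he
    rw [← this]
    exact hw
  have hJtp : IsPGroup 2 Jt := by
    apply IsPGroup.map
    exact IsPGroup.comap_of_injective (z.syl.2.1.to_le (Cfsg.Agent.Lib.JCompBasic.thompsonSubgroupOf_le 2 T₀)) _ Y.subtype_injective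
  have hst : ∀ p ∈ Jt, ∀ u ∈ Kb, (q x)⁻¹ * (p * (q x * u) * p⁻¹) ∈ Kb := by
    intro p hp u hu
    apply hJtSt hp (q x * u)
    show (q x)⁻¹ * (q x * u) ∈ Kb
    simpa using hu
  obtain ⟨ub, ⟨κ, hκ, rfl⟩, hfix⟩ := exists_fixed_in_coset Jt Kb hJtp z.kBar_odd (q x) hst
  refine ⟨κ, hκ, ?_⟩
  set u := x * κ with hu
  have hqu : q u = q x * q κ := map_mul _ _ _
  have hcomm : ∀ j (hj : j ∈ J), u.1 * j * u.1⁻¹ * j⁻¹ ∈ pCoreOf 2 Y := by
    intro j hj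
    have hjY := z.J_le hj
    have h1 := hfix (q ⟨j, hjY⟩) ⟨⟨j, hjY⟩, hj, rfl⟩
    rw [← hqu] at h1
    have e0 : u.1 * j * u.1⁻¹ * j⁻¹ = (u * ⟨j, hjY⟩ * u⁻¹ * (⟨j, hjY⟩ : ↥Y)⁻¹).1 := rfl
    rw [e0]
    apply qY_eq_one_iff.mp
    show q _ = 1
    rw [map_mul, map_mul, map_mul, map_inv, map_inv]
    have e : q u * q ⟨j, hjY⟩ * (q u)⁻¹ * (q ⟨j, hjY⟩)⁻¹ = ((q ⟨j, hjY⟩ * q u * (q ⟨j, hjY⟩)⁻¹) * (q u)⁻¹)⁻¹ := by group
    rw [e, h1]
    group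
  set JR := J ⊔ pCoreOf 2 Y with hJR
  have hJRT : JR ≤ T₀ := sup_le (Cfsg.Agent.Lib.JCompBasic.thompsonSubgroupOf_le 2 T₀) (core_le_sylow z.syl)
  have huN : u.1 ∈ Subgroup.normalizer (JR : Set G) := by
    apply Cfsg.Agent.Lib.Subnormal.mem_normalizer_of_conj_mem JR u.1
    have hle : JR ≤ JR.comap (MulAut.conj u.1).toMonoidHom := by
      apply sup_le
      · intro j hj
        show u.1 * j * u.1⁻¹ ∈ JR
        have h1 := hcomm j hj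
        have e : u.1 * j * u.1⁻¹ = (u.1 * j * u.1⁻¹ * j⁻¹) * j := by group
        rw [e]
        exact Subgroup.mul_mem _ (Subgroup.mem_sup_right h1) (Subgroup.mem_sup_left hj)
      · intro r hr
        show u.1 * r * u.1⁻¹ ∈ JR
        exact Subgroup.mem_sup_right ((Subgroup.mem_normalizer_iff.mp (le_normalizer_pCoreOf 2 Y u.2) r).mp hr)
    intro g hg
    exact hle hg
  have h2 := normalizer_le_normalizer_thompson JR huN
  rw [thompson_between (le_sup_left : J ≤ JR) hJRT] at h2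
  exact h2

/-- Generation: `Y = ⟨N_Y(J), K's⟩`, relative version. -/
theorem ZNC.le_of_components' {M : Subgroup G} (hMJ : ∀ y ∈ Y, y ∈ Subgroup.normalizer (thompsonSubgroupOf 2 T₀ : Set G) → y ∈ M) (hTM : T₀ ≤ M)
    (hkM : ∀ k ∈ kGenSet X Y T₀, k.1 ∈ M) : Y ≤ M := by
  classical
  haveI : Fact (Nat.Prime 2) := ⟨Nat.prime_two⟩
  set Φ := act X Y z.hN with hΦ
  set H := Φ.range with hH
  have C := z.ffc
  have hM := EA.hM X
  set M₁ := M.subgroupOf Y with hM₁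
  have hκM : kGen X Y T₀ ≤ M₁ := by
    rw [kGen, Subgroup.closure_le]
    intro k hk
    exact hkM k hk
  have hD₀M : ∀ x : ↥Y, Φ x ∈ dZero H z.Fo → x ∈ M₁ := by
    intro x hx
    obtain ⟨κ, hκ, hN⟩ := z.mem_of_dZero hXR hx
    have h1 : x * κ ∈ M₁ := hMJ _ (x * κ).2 hN
    have e : x = (x * κ) * κ⁻¹ := by group
    rw [e]
    exact M₁.mul_mem h1 (M₁.inv_mem (hκM hκ))
  set Y_D : Subgroup ↥Y := (trSub H).comap Φ with hY_D
  haveI hY_Dn : Y_D.Normal := by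
    constructor
    intro d hd g
    show Φ (g * d * g⁻¹) ∈ trSub H
    rw [map_mul, map_mul, map_inv]
    exact trSub_conj ⟨g, rfl⟩ hd
  obtain ⟨S, hS⟩ := Cfsg.Agent.Lib.PResid.exists_sylow_inf_of_normal z.syl' Y_D
  have hF := Sylow.normalizer_sup_eq_top S
  have hN₁ : Subgroup.normalizer (((S : Subgroup ↥Y_D).map Y_D.subtype : Subgroup ↥Y) : Set ↥Y) ≤ M₁ := by
    rw [hS]
    intro n hn
    set T₁G : Subgroup G := (((z.syl' : Subgroup ↥Y) ⊓ Y_D)).map Y.subtype with hT₁G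
    have hT₁T : T₁G ≤ T₀ := by
      rintro _ ⟨w, ⟨hw, _⟩, rfl⟩
      exact (ZNC.mem_syl' z).mp hw
    have hJT₁ : thompsonSubgroupOf 2 T₀ ≤ T₁G := by
      intro j hj
      have hjY := z.J_le hj
      refine ⟨⟨j, hjY⟩, ⟨(ZNC.mem_syl' z).mpr (Cfsg.Agent.Lib.JCompBasic.thompsonSubgroupOf_le 2 T₀ hj), ?_⟩, rfl⟩
      exact z.gens_le (z.J_image hj hjY)
    have hnN : n.1 ∈ Subgroup.normalizer (T₁G : Set G) := by
      apply Cfsg.Agent.Lib.Subnormal.mem_normalizer_of_conj_mem T₁G n.1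
      rintro _ ⟨w, hw, rfl⟩
      exact ⟨n * w * n⁻¹, (Subgroup.mem_normalizer_iff.mp hn w).mp hw, rfl⟩
    have h2 := normalizer_le_normalizer_thompson T₁G hnN
    rw [thompson_between hJT₁ hT₁T] at h2
    exact hMJ _ n.2 h2
  -- `Y_D ≤ M₁`
  have hY_DM : Y_D ≤ M₁ := by
    set Y₀ : Subgroup ↥Y_D := (dZero H z.Fo).comap (Φ.comp Y_D.subtype) with hY₀
    haveI hY₀n : Y₀.Normal := by
      constructor
      intro d hd g
      show Φ (g * d * g⁻¹).1 ∈ dZero H z.Fo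
      have e : (g * d * g⁻¹).1 = g.1 * d.1 * g.1⁻¹ := rfl
      rw [e, map_mul, map_mul, map_inv]
      exact dZero_conj hM C ⟨_, rfl⟩ hd
    have hq : IsPGroup 2 (↥Y_D ⧸ Y₀) := by
      intro g
      obtain ⟨g', rfl⟩ := QuotientGroup.mk'_surjective Y₀ g
      refine ⟨1, ?_⟩
      rw [pow_one, pow_two, ← map_mul]
      apply (QuotientGroup.eq_one_iff _).mpr
      show Φ (g' * g').1 ∈ dZero H z.Fo
      have e : (g' * g').1 = g'.1 * g'.1 := rfl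
      rw [e, map_mul]
      exact sq_mem_dZero hM C g'.2
    have htop : (S : Subgroup ↥Y_D) ⊔ Y₀ = ⊤ := by
      rw [← Subgroup.index_eq_one]
      have h1 : ((S : Subgroup ↥Y_D) ⊔ Y₀).index ∣ (S : Subgroup ↥Y_D).index := Subgroup.index_dvd_of_le le_sup_left
      have h2 : ((S : Subgroup ↥Y_D) ⊔ Y₀).index ∣ Y₀.index := Subgroup.index_dvd_of_le le_sup_right
      obtain ⟨n, hn⟩ := IsPGroup.iff_card.mp hq
      rw [← Subgroup.index_eq_card] at hn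
      rw [hn] at h2
      have h3 : ¬ 2 ∣ (S : Subgroup ↥Y_D).index := S.not_dvd_index
      have h4 : Nat.Coprime ((S : Subgroup ↥Y_D) ⊔ Y₀).index (2 ^ n) := by
        apply Nat.Coprime.pow_right
        apply Nat.Coprime.symm
        exact (Nat.Prime.coprime_iff_not_dvd Nat.prime_two).mpr (fun h5 => h3 (h5.trans h1))
      exact Nat.Coprime.eq_one_of_dvd h4 h2
    have hle : (S : Subgroup ↥Y_D) ⊔ Y₀ ≤ M₁.comap Y_D.subtype := by
      apply sup_le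
      · intro s hs
        have h1 : s.1 ∈ (S : Subgroup ↥Y_D).map Y_D.subtype := ⟨s, hs, rfl⟩
        rw [hS] at h1
        exact hTM ((ZNC.mem_syl' z).mp h1.1)
      · intro d hd
        exact hD₀M d.1 hd
    intro x hx
    have h1 : (⟨x, hx⟩ : ↥Y_D) ∈ (S : Subgroup ↥Y_D) ⊔ Y₀ := by rw [htop]; exact Subgroup.mem_top _
    exact hle h1
  have htopM : (⊤ : Subgroup ↥Y) ≤ M₁ := by
    have hF' : Subgroup.normalizer (((S : Subgroup ↥Y_D).map Y_D.subtype : Subgroup ↥Y) : Set ↥Y) ⊔ Y_D = ⊤ := hF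
    rw [← hF']
    exact sup_le hN₁ hY_DM
  intro y hy
  exact htopM (Subgroup.mem_top (⟨y, hy⟩ : ↥Y))

/-- Generation: `Y = ⟨N_Y(J), K's⟩`. -/
theorem ZNC.le_of_components {M : Subgroup G} (hMJ : Subgroup.normalizer (thompsonSubgroupOf 2 T₀ : Set G) ≤ M) (hTM : T₀ ≤ M)
    (hkM : ∀ k ∈ kGenSet X Y T₀, k.1 ∈ M) : Y ≤ M :=
  z.le_of_components' hXR (fun _ _ hy => hMJ hy) hTM hkM

end Main

end Cfsg.Agent.Lib.FFG
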