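import Mathlib
import Cfsg.Agent.Lib.FFG16

/-!
# Failure of factorization at the level of the group, part 17: uniqueness of the maximal `2`-local overgroup
-/

set_option autoImplicit false
set_option linter.unusedSectionVars false

open Cfsg
open scoped commutatorElement

namespace Cfsg.Agent.Lib.FFG

open Cfsg.Agent.Lib.FFAct Cfsg.Agent.Lib.PCore Cfsg.Agent.Lib.JCompStruct Cfsg.Agent.Lib.ThompsonJ
open Cfsg.Agent.Lib.BGFit2

variable {G : Type*} [Group G] [Finite G]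

theorem cj_one (A : Subgroup G) : cj 1 A = A := by
  ext a; rw [mem_cj]; simp

theorem cj_cj_inv (g : G) (T : Subgroup G) : cj g (cj g⁻¹ T) = T := by
  have := cj_inv_cj g⁻¹ T
  rwa [inv_inv] at this

theorem cj_le_normalizer {X Y : Subgroup G} (h : X ≤ Subgroup.normalizer (Y : Set G)) (g : G) :
    cj g X ≤ Subgroup.normalizer (cj g Y : Set G) := by
  rintro _ ⟨x, hx, rfl⟩
  apply Cfsg.Agent.Lib.Subnormal.mem_normalizer_of_conj_mem
  intro a ha
  rw [mem_cj] at ha ⊢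
  have h1 := (Subgroup.mem_normalizer_iff.mp (h hx) _).mp ha
  have e : g⁻¹ * ((MulAut.conj g).toMonoidHom x * a * ((MulAut.conj g).toMonoidHom x)⁻¹) * g = x * (g⁻¹ * a * g) * x⁻¹ := by
    simp [MulAut.conj_apply]; group
  rw [e]
  exact h1

theorem normalizer_cj (g : G) (Y : Subgroup G) :
    Subgroup.normalizer (cj g Y : Set G) = cj g (Subgroup.normalizer (Y : Set G)) := by
  apply le_antisymm
  · have h := cj_le_normalizer (X := Subgroup.normalizer (cj g Y : Set G)) (Y := cj g Y) le_rfl g⁻¹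
    rw [cj_inv_cj] at h
    have h2 := cj_mono (g := g) h
    rwa [cj_cj_inv] at h2
  · exact cj_le_normalizer le_rfl g

theorem cj_pCoreOf_le (g : G) (K : Subgroup G) : cj g (pCoreOf 2 K) ≤ pCoreOf 2 (cj g K) := by
  haveI : Fact (Nat.Prime 2) := ⟨Nat.prime_two⟩
  exact le_pCoreOf (cj_mono (pCoreOf_le 2 K)) (cj_le_normalizer (le_normalizer_pCoreOf 2 K) g) (cj_isPGroup (isPGroup_pCoreOf 2 K))

theorem pCoreOf_cj (g : G) (K : Subgroup G) : pCoreOf 2 (cj g K) = cj g (pCoreOf 2 K) := by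
  apply le_antisymm _ (cj_pCoreOf_le g K)
  have h := cj_pCoreOf_le g⁻¹ (cj g K)
  rw [cj_inv_cj] at h
  have h2 := cj_mono (g := g) h
  rwa [cj_cj_inv] at h2

theorem cj_omegaCenterOf_le (g : G) (X : Subgroup G) : cj g (omegaCenterOf X) ≤ omegaCenterOf (cj g X) := by
  intro z hz
  rw [mem_cj] at hz
  obtain ⟨h1, h2, h3⟩ := omegaCenter_mem hz
  apply mem_omegaCenter
  · rw [mem_cj]; exact h1
  · intro x hx
    rw [mem_cj] at hx
    have h4 := h2 _ hx
    calc x * z = g * ((g⁻¹ * x * g) * (g⁻¹ * z * g)) * g⁻¹ := by group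
      _ = g * ((g⁻¹ * z * g) * (g⁻¹ * x * g)) * g⁻¹ := by rw [h4]
      _ = z * x := by group
  · calc z * z = g * ((g⁻¹ * z * g) * (g⁻¹ * z * g)) * g⁻¹ := by group
      _ = 1 := by rw [h3]; group

theorem omegaCenterOf_cj (g : G) (X : Subgroup G) : omegaCenterOf (cj g X) = cj g (omegaCenterOf X) := by
  apply le_antisymm _ (cj_omegaCenterOf_le g X)
  have h := cj_omegaCenterOf_le g⁻¹ (cj g X)
  rw [cj_inv_cj] at h
  have h2 := cj_mono (g := g) h
  rwa [cj_cj_inv] at h2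

theorem wOf_cj (g : G) (K : Subgroup G) : wOf (cj g K) = cj g (wOf K) := by
  unfold wOf
  rw [pCoreOf_cj, omegaCenterOf_cj]
  exact (Subgroup.map_commutator _ _ _).symm

theorem relIndex_cj (g : G) {A B : Subgroup G} (h : A ≤ B) : (cj g A).relIndex (cj g B) = A.relIndex B := by
  have h1 := Cfsg.Agent.Lib.ExtraBasics.relIndex_mul_card h
  have h2 := Cfsg.Agent.Lib.ExtraBasics.relIndex_mul_card (cj_mono (g := g) h)
  rw [card_cj', card_cj'] at h2
  exact Nat.eq_of_mul_eq_mul_right Nat.card_pos (h2.trans h1.symm)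

theorem orderOf_conj_eq (g x : G) : orderOf ((MulAut.conj g).toMonoidHom x) = orderOf x :=
  orderOf_injective _ (MulAut.conj g).injective x

/-- Conjugates of `J(T)`-components. -/
theorem isJComponent_cj {T K : Subgroup G} (hK : IsJComponent T K) (g : G) : IsJComponent (cj g T) (cj g K) := by
  obtain ⟨h1, h2, h3, h4, h5, h6⟩ := hK
  refine ⟨?_, ?_, ?_, ?_, ?_, ?_⟩
  · apply le_antisymm
    · rw [Subgroup.closure_le]
      rintro x ⟨hx, -⟩
      exact hx
    · conv_lhs => rw [← h1]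
      rw [cj, MonoidHom.map_closure, Subgroup.closure_le]
      rintro _ ⟨x, ⟨hx, hxo⟩, rfl⟩
      apply Subgroup.subset_closure
      refine ⟨⟨x, hx, rfl⟩, ?_⟩
      rw [orderOf_conj_eq]
      exact hxo
  · rw [thompson_cj, cj, cj, ← Subgroup.map_commutator, h2]
  · rw [pCoreOf_cj, relIndex_cj g (pCoreOf_le 2 K)]
    exact h3
  · intro S hS hJS
    rw [thompson_cj] at hS hJS ⊢
    have h7 : cj g⁻¹ (cj g K ⊔ cj g (thompsonSubgroupOf 2 T)) = K ⊔ thompsonSubgroupOf 2 T := by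
      rw [cj, Subgroup.map_sup]
      congr 1
      · exact cj_inv_cj g K
      · exact cj_inv_cj g _
    have h8 := isSylowTwoIn_cj hS g⁻¹
    rw [h7] at h8
    have h9 := cj_mono (g := g⁻¹) hJS
    rw [cj_inv_cj] at h9
    have h10 := h4 _ h8 h9
    rw [thompson_cj] at h10
    have h11 := congrArg (cj g) h10
    rwa [cj_cj_inv] at h11
  · rw [wOf_cj, card_cj']
    exact h5
  · intro w hw
    rw [wOf_cj, mem_cj] at hw
    have h7 := h6 _ hw
    calc w * w = g * ((g⁻¹ * w * g) * (g⁻¹ * w * g)) * g⁻¹ := by group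
      _ = 1 := by rw [h7]; group

theorem isJComponent_cj_of_normalizer {T K : Subgroup G} (hK : IsJComponent T K) {y : G}
    (hy : y ∈ Subgroup.normalizer (thompsonSubgroupOf 2 T : Set G)) : IsJComponent T (cj y K) := by
  have h1 := isJComponent_cj hK y
  apply isJComponent_congr _ h1
  rw [thompson_cj, cj_eq_of_mem_normalizer hy]

/-- Two `J`-components of a member of `ℒ`. -/
theorem ZNH.comp_norm (Z : ZNH G) {T₀ K K' L : Subgroup G} (hT₀ : IsPGroup 2 T₀) (hT₀1 : T₀ ≠ ⊥) (hLT : L ∈ jOvergroups T₀)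
    (hK : IsJComponent T₀ K) (hK' : IsJComponent T₀ K') (hKL : K ≤ L) (hK'L : K' ≤ L) :
    K' ≤ Subgroup.normalizer (K : Set G) := by
  obtain ⟨k, w₁, w₂, h⟩ := Z.kc_of hT₀ hT₀1 hLT hK hKL
  obtain ⟨k', w₁', w₂', h'⟩ := Z.kc_of hT₀ hT₀1 hLT hK' hK'L
  haveI := h.z.fact
  intro x hx
  have hxL : x ∈ L := hK'L hx
  have h1 := h'.image_z hx hxL
  have h2 : Subgroup.zpowers h'.y ≤ Q0 (act _ L h.z.hN).range h.z.Fo := by
    rw [Subgroup.zpowers_le]
    exact Subgroup.subset_closure h'.y_line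
  have h3 := h2 h1
  have h4 := h.norm_K (n := ⟨x, hxL⟩) (Or.inl (by
    rw [mul_inv_eq_iff_eq_mul]
    exact h.comm_Q0 h3))
  exact h4

/-- The `J(T)`-components in `N`. -/
def compsIn (T N : Subgroup G) : Set (Subgroup G) := {K' | IsJComponent T K' ∧ K' ≤ N}

/-- The group generated by the `J(T)`-components in `N`. -/
noncomputable def compGen (T N : Subgroup G) : Subgroup G := sSup (compsIn T N)

theorem le_compGen {T N K' : Subgroup G} (h : IsJComponent T K') (h2 : K' ≤ N) : K' ≤ compGen T N :=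
  le_sSup ⟨h, h2⟩

theorem compGen_le (T N : Subgroup G) : compGen T N ≤ N := sSup_le fun _ h => h.2

section Main

variable {M T K : Subgroup G} {S : Sylow 2 G}

/-- Every `2`-local containing `⟨K, J(T)⟩` normalizes the group generated by the `J(T)`-components of `N_G(K)`. -/
theorem MS.le_normalizer_compGen (Z : ZNH G) (hT : T ∈ maxStraddlingTwoSubgroups M)
    (hMJ : Subgroup.normalizer (thompsonSubgroupOf 2 (S : Subgroup G) : Set G) ≤ M) (hK : K ∈ jComponentsZero T) (hKM : ¬ K ≤ M)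
    {X : Subgroup G} (hX : IsTwoLocal X) (hKJ : K ⊔ thompsonSubgroupOf 2 T ≤ X) :
    X ≤ Subgroup.normalizer (compGen T (Subgroup.normalizer (K : Set G)) : Set G) := by
  classical
  haveI : Fact (Nat.Prime 2) := ⟨Nat.prime_two⟩
  obtain ⟨hTp, hT1, hTM, -⟩ := hT.1
  set J := thompsonSubgroupOf 2 T with hJ
  have hJp : IsPGroup 2 J := hTp.to_le (Cfsg.Agent.Lib.JCompBasic.thompsonSubgroupOf_le 2 T)
  have hJ1 : J ≠ ⊥ := thompson_ne_bot hTp hT1
  set N := Subgroup.normalizer (K : Set G) with hN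
  have hNW : N = Subgroup.normalizer (wOf K : Set G) := Z.normalizer_wOf_eq hK hTp
  obtain ⟨k, w₁, w₂, hJS⟩ := exists_JCS hTp hK.1
  have hKN : K ≤ N := Subgroup.le_normalizer
  have hJN : J ≤ N := hJS.hJN
  obtain ⟨T₁, hJT₁, hT₁⟩ := exists_isSylowTwoIn hJN hJp
  have hT₁' : IsSylowTwoIn T₁ (Subgroup.normalizer (wOf K : Set G)) := by rw [← hNW]; exact hT₁
  have hJJ₁ : thompsonSubgroupOf 2 T₁ = J := hK.2 T₁ hJT₁ hT₁'
  have hNT : N ∈ jOvergroups T₁ := by
    rw [hNW]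
    exact Z.wOf_jover hK hJS hT₁' hJT₁
  have hT₁1 : T₁ ≠ ⊥ := by
    intro h
    rw [h, le_bot_iff] at hJT₁
    exact hJ1 hJT₁
  have hXM : ¬ X ≤ M := fun h => hKM ((le_sup_left.trans hKJ).trans h)
  obtain ⟨T₂, hJT₂, hT₂⟩ := exists_isSylowTwoIn (le_sup_right.trans hKJ) hJp
  obtain ⟨h1, h2, h3⟩ := MS.sylow_facts hT hMJ hX hXM hT₂ hJT₂
  have hNMJ := MS.normalizer_le hT hMJ
  have hXT : X ∈ jOvergroups T₂ := Z.jover_of_two_local hX hT₂ (fun hle => by
    rw [h2] at hle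
    exact hXM (hle.trans hNMJ))
  have hT₂1 : T₂ ≠ ⊥ := by
    intro h
    rw [h, le_bot_iff] at hJT₂
    exact hJ1 hJT₂
  have hKT₁ : ∀ {K' : Subgroup G}, IsJComponent T K' → IsJComponent T₁ K' := fun h => isJComponent_congr hJJ₁ h
  have hKT₂ : ∀ {K' : Subgroup G}, IsJComponent T K' → IsJComponent T₂ K' := fun h => isJComponent_congr h2 h
  have hKX : K ≤ X := le_sup_left.trans hKJ
  -- conjugation by `y`
  have key : ∀ y ∈ X, y ∈ Subgroup.normalizer (J : Set G) → ∀ K₂, IsJComponent T K₂ → K₂ ≤ N → cj y K₂ ≤ N := by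
    intro y hyX hyJ K₂ hK₂ hK₂N
    have hy' : y⁻¹ ∈ Subgroup.normalizer (J : Set G) := Subgroup.inv_mem _ hyJ
    have hKy := isJComponent_cj_of_normalizer hK.1 hy'
    have hKyX : cj y⁻¹ K ≤ X := by
      have h4 : cj y⁻¹ X = X := cj_eq_of_mem_normalizer (Subgroup.le_normalizer (X.inv_mem hyX))
      have h5 := cj_mono (g := y⁻¹) hKX
      rwa [h4] at h5
    have hKyN : cj y⁻¹ K ≤ N := Z.comp_norm hT₂.2.1 hT₂1 hXT (hKT₂ hK.1) (hKT₂ hKy) hKX hKyX
    have h6 : K₂ ≤ Subgroup.normalizer (cj y⁻¹ K : Set G) :=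
      Z.comp_norm hT₁.2.1 hT₁1 hNT (hKT₁ hKy) (hKT₁ hK₂) hKyN hK₂N
    rw [normalizer_cj] at h6
    have h7 := cj_mono (g := y) h6
    rwa [cj_cj_inv] at h7
  set E := compGen T N with hE
  have hyE : ∀ y ∈ X, y ∈ Subgroup.normalizer (J : Set G) → y ∈ Subgroup.normalizer (E : Set G) := by
    intro y hyX hyJ
    apply Cfsg.Agent.Lib.Subnormal.mem_normalizer_of_conj_mem
    have hle : E ≤ E.comap (MulAut.conj y).toMonoidHom := by
      refine sSup_le fun K₂ hK₂ => ?_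
      intro x hx
      exact le_compGen (isJComponent_cj_of_normalizer hK₂.1 hyJ) (key y hyX hyJ K₂ hK₂.1 hK₂.2) (conj_mem_cj hx)
    intro e he
    exact hle he
  have z := Z.znc_jover hXT
  haveI := z.fact
  have hXR : omegaCenterOf (pCoreOf 2 X) ≤ pCoreOf 2 X := fun v hv => (omegaCenter_mem hv).1
  apply z.le_of_components' hXR
  · intro y hy hyJ
    rw [h2] at hyJ
    exact hyE y hy hyJ
  · intro t ht
    exact hyE t (hT₂.1 ht) (h1 ht)
  · rintro k' ⟨a, c, hl⟩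
    have hlK : IsJComponent T₂ hl.K := hl.isJ
    have hlK' : IsJComponent T hl.K := isJComponent_congr h2.symm hlK
    have hlN : hl.K ≤ N := Z.comp_norm hT₂.2.1 hT₂1 hXT (hKT₂ hK.1) hlK hKX hl.hKY
    exact Subgroup.le_normalizer (le_compGen hlK' hlN hl.kk)

/-- The top `2`-local subgroup. -/
theorem MS.exists_top (Z : ZNH G) (hT : T ∈ maxStraddlingTwoSubgroups M)
    (hMJ : Subgroup.normalizer (thompsonSubgroupOf 2 (S : Subgroup G) : Set G) ≤ M) (hK : K ∈ jComponentsZero T) (hKM : ¬ K ≤ M) :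
    ∃ L₀, IsTwoLocal L₀ ∧ ∀ X, IsTwoLocal X → K ⊔ thompsonSubgroupOf 2 T ≤ X → X ≤ L₀ := by
  classical
  haveI : Fact (Nat.Prime 2) := ⟨Nat.prime_two⟩
  set N := Subgroup.normalizer (K : Set G) with hN
  obtain ⟨hTp, -⟩ := hT.1
  have hNW : N = Subgroup.normalizer (wOf K : Set G) := Z.normalizer_wOf_eq hK hTp
  set E := compGen T N with hE
  have hWE : wOf K ≤ E := (wOf_le_pCoreOf K).trans ((pCoreOf_le 2 K).trans (le_compGen hK.1 Subgroup.le_normalizer))
  have hWp : IsPGroup 2 (wOf K) := (isPGroup_pCoreOf 2 K).to_le (wOf_le_pCoreOf K)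
  have hW1 : wOf K ≠ ⊥ := by
    intro hb
    have h4 := hK.1.2.2.2.2.1
    rw [hb] at h4
    simp at h4
  have hR : wOf K ≤ pCoreOf 2 E := by
    apply le_pCoreOf hWE _ hWp
    rw [← hNW]
    exact compGen_le _ _
  have hR1 : pCoreOf 2 E ≠ ⊥ := by
    intro hb
    rw [hb, le_bot_iff] at hR
    exact hW1 hR
  refine ⟨Subgroup.normalizer (pCoreOf 2 E : Set G), ⟨_, isPGroup_pCoreOf 2 E, hR1, rfl⟩, ?_⟩
  intro X hX hKJ
  exact (MS.le_normalizer_compGen Z hT hMJ hK hKM hX hKJ).trans (normalizer_le_normalizer_pCoreOf 2 E)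

end Main

/-- Every `2`-local subgroup lies in a maximal one. -/
theorem exists_maximalTwoLocal_ge {X : Subgroup G} (hX : IsTwoLocal X) : ∃ L, IsMaximalTwoLocal L ∧ X ≤ L := by
  classical
  have hfin : ({L : Subgroup G | IsTwoLocal L ∧ X ≤ L}).Finite := Set.toFinite _
  obtain ⟨L, hL⟩ := hfin.exists_maximal ⟨X, hX, le_rfl⟩
  refine ⟨L, ⟨hL.1.1, ?_⟩, hL.1.2⟩
  intro N hN hLN
  exact le_antisymm (hL.2 ⟨hN, hL.1.2.trans hLN⟩ hLN) hLN

end Cfsg.Agent.Lib.FFG
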