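import Mathlib
import Cfsg.Agent.Lib.FFG18

/-!
# Failure of factorization at the level of the group, part 19: squares, and walks on involutions
-/

set_option autoImplicit false
set_option linter.unusedSectionVars false

open Cfsg
open scoped commutatorElement

namespace Cfsg.Agent.Lib.FFG

open Cfsg.Agent.Lib.FFAct Cfsg.Agent.Lib.PCore Cfsg.Agent.Lib.JCompStruct Cfsg.Agent.Lib.ThompsonJ
open Cfsg.Agent.Lib.BGFit2

variable {G : Type*} [Group G] [Finite G]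

/-- The subgroup generated by the squares. -/
def sqCl (X : Subgroup G) : Subgroup G := Subgroup.closure {g | ∃ y ∈ X, g = y * y}

theorem sq_mem_sqCl {X : Subgroup G} {y : G} (hy : y ∈ X) : y * y ∈ sqCl X :=
  Subgroup.subset_closure ⟨y, hy, rfl⟩

theorem sqCl_le (X : Subgroup G) : sqCl X ≤ X := by
  rw [sqCl, Subgroup.closure_le]
  rintro _ ⟨y, hy, rfl⟩
  exact X.mul_mem hy hy

theorem cj_sqCl (g : G) (X : Subgroup G) : cj g (sqCl X) = sqCl (cj g X) := by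
  rw [sqCl, sqCl, cj, MonoidHom.map_closure]
  congr 1
  ext u
  constructor
  · rintro ⟨_, ⟨y, hy, rfl⟩, rfl⟩
    exact ⟨(MulAut.conj g).toMonoidHom y, ⟨y, hy, rfl⟩, map_mul _ _ _⟩
  · rintro ⟨_, ⟨y, hy, rfl⟩, rfl⟩
    exact ⟨y * y, ⟨y, hy, rfl⟩, map_mul _ _ _⟩

/-- Removing a central involution does not change the squares. -/
theorem sqCl_eq_of_central {X Y : Subgroup G} {e : G} (hXY : X ≤ Y) (he2 : e * e = 1)
    (hc : ∀ y ∈ Y, y * e = e * y) (hY : ∀ y ∈ Y, y ∈ X ∨ y * e ∈ X) : sqCl Y = sqCl X := by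
  apply le_antisymm
  · rw [sqCl, Subgroup.closure_le]
    rintro _ ⟨y, hy, rfl⟩
    rcases hY y hy with h | h
    · exact sq_mem_sqCl h
    · have e1 : (y * e) * (y * e) = y * y := by
        calc (y * e) * (y * e) = y * (e * y) * e := by group
          _ = y * (y * e) * e := by rw [hc y hy]
          _ = y * y * (e * e) := by group
          _ = y * y := by rw [he2, mul_one]
      rw [SetLike.mem_coe, ← e1]
      exact sq_mem_sqCl h
  · rw [sqCl, Subgroup.closure_le]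
    rintro _ ⟨y, hy, rfl⟩
    exact sq_mem_sqCl (hXY hy)

section Pauli

/-- The Pauli-type computation. -/
theorem pauli_square {h e e₁ e₂ : G} (hh2 : h * h = 1) (he2 : e * e = 1) (he₁2 : e₁ * e₁ = 1) (he₂2 : e₂ * e₂ = 1)
    (hhe : h * e = e * h) (hhe₁ : h * e₁ = e₁ * h)
    (h01 : e * e₁ = h * (e₁ * e)) (h02 : e * e₂ = h * (e₂ * e)) (h12 : e₁ * e₂ = h * (e₂ * e₁)) :
    (e * e₁ * e₂) * (e * e₁ * e₂) = h := by
  have s0 : e₁ * e = h * (e * e₁) := by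
    rw [h01, ← mul_assoc, hh2, one_mul]
  have s1 : e₂ * e = h * (e * e₂) := by
    rw [h02, ← mul_assoc, hh2, one_mul]
  have s2 : e₂ * e₁ = h * (e₁ * e₂) := by
    rw [h12, ← mul_assoc, hh2, one_mul]
  calc (e * e₁ * e₂) * (e * e₁ * e₂) = e * e₁ * (e₂ * e) * e₁ * e₂ := by group
    _ = e * e₁ * (h * (e * e₂)) * e₁ * e₂ := by rw [s1]
    _ = e * (e₁ * h) * (e * e₂) * e₁ * e₂ := by group
    _ = e * (h * e₁) * (e * e₂) * e₁ * e₂ := by rw [hhe₁]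
    _ = (e * h) * e₁ * (e * e₂) * e₁ * e₂ := by group
    _ = (h * e) * e₁ * (e * e₂) * e₁ * e₂ := by rw [hhe]
    _ = h * e * (e₁ * e) * (e₂ * e₁) * e₂ := by group
    _ = h * e * (h * (e * e₁)) * (h * (e₁ * e₂)) * e₂ := by rw [s0, s2]
    _ = h * (e * h) * (e * e₁) * (h * (e₁ * e₂)) * e₂ := by group
    _ = h * (h * e) * (e * e₁) * (h * (e₁ * e₂)) * e₂ := by rw [hhe]
    _ = (h * h) * (e * e) * (e₁ * h) * e₁ * (e₂ * e₂) := by group
    _ = (h * h) * (e * e) * (h * e₁) * e₁ * (e₂ * e₂) := by rw [hhe₁]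
    _ = h * (e₁ * e₁) := by rw [hh2, he2, he₂2]; group
    _ = h := by rw [he₁2, mul_one]

/-- The squares of `Y = C_Q(e)` when `e` and its conjugate under `k` do not commute. -/
theorem pauli_core {T Q : Subgroup G} {k e h : G}
    (hQT : Q ≤ T) (hk3 : k * k * k = 1) (hkQ : ∀ q ∈ Q, k * q * k⁻¹ ∈ Q) (hkh : k * h * k⁻¹ = h)
    (hh2 : h * h = 1) (heQ : e ∈ Q) (he2 : e * e = 1) (hTh : ∀ t ∈ T, t * h * t⁻¹ = h)
    (hTe : ∀ t ∈ T, t * e * t⁻¹ = e ∨ t * e * t⁻¹ = h * e)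
    (hne : (k * e * k⁻¹) * e ≠ e * (k * e * k⁻¹)) :
    cj k (sqCl (Q ⊓ Subgroup.centralizer ({e} : Set G))) = sqCl (Q ⊓ Subgroup.centralizer ({e} : Set G)) ∧
      h ∈ sqCl (Q ⊓ Subgroup.centralizer ({e} : Set G)) := by
  classical
  have hkQ' : ∀ q ∈ Q, k⁻¹ * q * k ∈ Q := by
    intro q hq
    have h1 := hkQ _ (hkQ q hq)
    rwa [cube_conj hk3] at h1
  set Y : Subgroup G := Q ⊓ Subgroup.centralizer ({e} : Set G) with hY
  set e₁ : G := k * e * k⁻¹ with he₁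
  set e₂ : G := k⁻¹ * e * k with he₂
  have he₁Q : e₁ ∈ Q := hkQ e heQ
  have he₂Q : e₂ ∈ Q := hkQ' e heQ
  have he₁2 : e₁ * e₁ = 1 := by
    rw [he₁]
    calc k * e * k⁻¹ * (k * e * k⁻¹) = k * (e * e) * k⁻¹ := by group
      _ = 1 := by rw [he2]; group
  have he₂2 : e₂ * e₂ = 1 := by
    rw [he₂]
    calc k⁻¹ * e * k * (k⁻¹ * e * k) = k⁻¹ * (e * e) * k := by group
      _ = 1 := by rw [he2]; group
  have hkh' : k⁻¹ * h * k = h := by
    rw [mul_inv_eq_iff_eq_mul] at hkh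
    calc k⁻¹ * h * k = k⁻¹ * (h * k) := by group
      _ = k⁻¹ * (k * h) := by rw [hkh]
      _ = h := by group
  have hcom : ∀ {a b : G}, a * b * a⁻¹ = b → a * b = b * a := by
    intro a b hab
    rwa [mul_inv_eq_iff_eq_mul] at hab
  have hconj : ∀ {a b : G}, a * b = b * a → a * b * a⁻¹ = b := by
    intro a b hab
    rw [hab]; group
  -- `t` acts on `e₁`
  have hQ₁ : ∀ t ∈ Q, t * e₁ * t⁻¹ = e₁ ∨ t * e₁ * t⁻¹ = h * e₁ := by
    intro t ht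
    have h1 := hTe _ (hQT (hkQ' t ht))
    have e1 : t * e₁ * t⁻¹ = k * ((k⁻¹ * t * k) * e * (k⁻¹ * t * k)⁻¹) * k⁻¹ := by rw [he₁]; group
    rw [e1]
    rcases h1 with h1 | h1
    · left; rw [h1]
    · right; rw [h1]
      calc k * (h * e) * k⁻¹ = (k * h * k⁻¹) * (k * e * k⁻¹) := by group
        _ = h * e₁ := by rw [hkh]
  have hee₁ : e * e₁ * e⁻¹ = h * e₁ := by
    rcases hQ₁ e heQ with h1 | h1
    · exfalso; apply hne; exact (hcom h1).symm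
    · exact h1
  have he₁e : e₁ * e * e₁⁻¹ = h * e := by
    rcases hTe e₁ (hQT he₁Q) with h1 | h1
    · exfalso; apply hne; exact hcom h1
    · exact h1
  have hhe : h * e = e * h := by
    have := hTh e (hQT heQ)
    exact (hcom this).symm
  have hhe₁ : h * e₁ = e₁ * h := by
    have := hTh e₁ (hQT he₁Q)
    exact (hcom this).symm
  have hhe₂ : h * e₂ = e₂ * h := by
    have := hTh e₂ (hQT he₂Q)
    exact (hcom this).symm
  have h01 : e * e₁ = h * (e₁ * e) := by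
    rw [mul_inv_eq_iff_eq_mul] at hee₁
    rw [hee₁]; group
  have h02 : e * e₂ = h * (e₂ * e) := by
    have h1 : k⁻¹ * (e₁ * e * e₁⁻¹) * k = k⁻¹ * (h * e) * k := by rw [he₁e]
    have e1 : k⁻¹ * (e₁ * e * e₁⁻¹) * k = e * e₂ * e⁻¹ := by rw [he₁, he₂]; group
    have e2 : k⁻¹ * (h * e) * k = h * e₂ := by
      calc k⁻¹ * (h * e) * k = (k⁻¹ * h * k) * (k⁻¹ * e * k) := by group
        _ = h * e₂ := by rw [hkh']
    rw [e1, e2, mul_inv_eq_iff_eq_mul] at h1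
    rw [h1]; group
  have h12 : e₁ * e₂ = h * (e₂ * e₁) := by
    have e3 : k * e₁ * k⁻¹ = e₂ := cube_conj hk3 e
    have h1 : k * (e * e₁) * k⁻¹ = k * (h * (e₁ * e)) * k⁻¹ := by rw [h01]
    have e1 : k * (e * e₁) * k⁻¹ = (k * e * k⁻¹) * (k * e₁ * k⁻¹) := by group
    have e2 : k * (h * (e₁ * e)) * k⁻¹ = (k * h * k⁻¹) * ((k * e₁ * k⁻¹) * (k * e * k⁻¹)) := by group
    rw [e1, e2, e3, hkh] at h1
    exact h1
  have hheq : ∀ y ∈ Q, y * h = h * y := by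
    intro y hy
    exact hcom (hTh y (hQT hy))
  have heY : e ∈ Y := ⟨heQ, Subgroup.mem_centralizer_singleton_iff.mpr rfl⟩
  have hecY : e₁ ∈ cj k Y := conj_mem_cj heY
  have hmemY : ∀ {y : G}, y ∈ Y ↔ y ∈ Q ∧ y * e = e * y := by
    intro y
    constructor
    · intro hy
      exact ⟨hy.1, Subgroup.mem_centralizer_singleton_iff.mp hy.2⟩
    · rintro ⟨h1, h2⟩
      exact ⟨h1, Subgroup.mem_centralizer_singleton_iff.mpr h2⟩
  have hmemcY : ∀ {y : G}, y ∈ cj k Y ↔ y ∈ Q ∧ y * e₁ = e₁ * y := by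
    intro y
    rw [mem_cj, hmemY]
    constructor
    · rintro ⟨h1, h2⟩
      have h3 := hkQ _ h1
      have e1 : k * (k⁻¹ * y * k) * k⁻¹ = y := by group
      rw [e1] at h3
      refine ⟨h3, ?_⟩
      have h4 : k * (k⁻¹ * y * k * e) * k⁻¹ = k * (e * (k⁻¹ * y * k)) * k⁻¹ := by rw [h2]
      have e2 : k * (k⁻¹ * y * k * e) * k⁻¹ = y * e₁ := by rw [he₁]; group
      have e3 : k * (e * (k⁻¹ * y * k)) * k⁻¹ = e₁ * y := by rw [he₁]; group
      rwa [e2, e3] at h4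
    · rintro ⟨h1, h2⟩
      refine ⟨hkQ' y h1, ?_⟩
      have h4 : k⁻¹ * (y * e₁) * k = k⁻¹ * (e₁ * y) * k := by rw [h2]
      have e2 : k⁻¹ * (y * e₁) * k = k⁻¹ * y * k * e := by rw [he₁]; group
      have e3 : k⁻¹ * (e₁ * y) * k = e * (k⁻¹ * y * k) := by rw [he₁]; group
      rwa [e2, e3] at h4
  have h1 : sqCl Y = sqCl (Y ⊓ cj k Y) := by
    apply sqCl_eq_of_central inf_le_left he2
    · intro y hy
      exact (hmemY.mp hy).2
    · intro y hy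
      have hyQ := (hmemY.mp hy).1
      have hye := (hmemY.mp hy).2
      rcases hQ₁ y hyQ with h2 | h2
      · left
        exact ⟨hy, hmemcY.mpr ⟨hyQ, hcom h2⟩⟩
      · right
        have hyeQ : y * e ∈ Q := Q.mul_mem hyQ heQ
        refine ⟨hmemY.mpr ⟨hyeQ, ?_⟩, hmemcY.mpr ⟨hyeQ, hcom ?_⟩⟩
        · calc y * e * e = (e * y) * e := by rw [hye]
            _ = e * (y * e) := by group
        · calc y * e * e₁ * (y * e)⁻¹ = y * (e * e₁ * e⁻¹) * y⁻¹ := by group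
            _ = y * (h * e₁) * y⁻¹ := by rw [hee₁]
            _ = (y * h * y⁻¹) * (y * e₁ * y⁻¹) := by group
            _ = h * (h * e₁) := by rw [h2, hTh y (hQT hyQ)]
            _ = e₁ := by rw [← mul_assoc, hh2, one_mul]
  have h2 : sqCl (cj k Y) = sqCl (Y ⊓ cj k Y) := by
    apply sqCl_eq_of_central inf_le_right he₁2
    · intro y hy
      exact (hmemcY.mp hy).2
    · intro y hy
      have hyQ := (hmemcY.mp hy).1
      have hye := (hmemcY.mp hy).2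
      rcases hTe y (hQT hyQ) with h2 | h2
      · left
        exact ⟨hmemY.mpr ⟨hyQ, hcom h2⟩, hy⟩
      · right
        have hyeQ : y * e₁ ∈ Q := Q.mul_mem hyQ he₁Q
        refine ⟨hmemY.mpr ⟨hyeQ, hcom ?_⟩, hmemcY.mpr ⟨hyeQ, ?_⟩⟩
        · calc y * e₁ * e * (y * e₁)⁻¹ = y * (e₁ * e * e₁⁻¹) * y⁻¹ := by group
            _ = y * (h * e) * y⁻¹ := by rw [he₁e]
            _ = (y * h * y⁻¹) * (y * e * y⁻¹) := by group
            _ = h * (h * e) := by rw [h2, hTh y (hQT hyQ)]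
            _ = e := by rw [← mul_assoc, hh2, one_mul]
        · calc y * e₁ * e₁ = (e₁ * y) * e₁ := by rw [hye]
            _ = e₁ * (y * e₁) := by group
  refine ⟨?_, ?_⟩
  · rw [cj_sqCl, h1, h2]
  · have hv := pauli_square hh2 he2 he₁2 he₂2 hhe hhe₁ h01 h02 h12
    rw [← hv]
    apply sq_mem_sqCl
    apply hmemY.mpr
    refine ⟨Q.mul_mem (Q.mul_mem heQ he₁Q) he₂Q, ?_⟩
    have s1 : e₂ * e = h * (e * e₂) := by
      rw [h02, ← mul_assoc, hh2, one_mul]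
    have s0 : e₁ * e = h * (e * e₁) := by
      rw [h01, ← mul_assoc, hh2, one_mul]
    calc e * e₁ * e₂ * e = e * e₁ * (e₂ * e) := by group
      _ = e * e₁ * (h * (e * e₂)) := by rw [s1]
      _ = e * (e₁ * h) * (e * e₂) := by group
      _ = e * (h * e₁) * (e * e₂) := by rw [hhe₁]
      _ = e * (h * (e₁ * e)) * e₂ := by group
      _ = e * (h * (h * (e * e₁))) * e₂ := by rw [s0]
      _ = e * ((h * h) * (e * e₁)) * e₂ := by group
      _ = e * (e * e₁ * e₂) := by rw [hh2]; group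

end Pauli

section Walks

/-- Adjacency of involutions: images of the edge `(h₁, h₂)`. -/
def WAdj (h₁ h₂ u v : G) : Prop := ∃ g : G, u = g * h₁ * g⁻¹ ∧ v = g * h₂ * g⁻¹

/-- The data for the induction on walks. -/
structure WalkCtx (h₁ h₂ x : G) (W₁ W₂ : Subgroup G) : Prop where
  hx₁ : x * h₁ * x⁻¹ = h₂
  hx₂ : x * h₂ * x⁻¹ = h₁
  hh : h₁ * h₂ = h₂ * h₁
  hh₁ : h₁ * h₁ = 1
  hW₂ : ∀ u ∈ W₂, ∀ v ∈ W₂, u * v = v * u
  s₁ : ∀ g, g * h₂ * g⁻¹ = h₂ → g * h₁ * g⁻¹ ∈ W₂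
  s₁' : ∀ g, g * h₁ * g⁻¹ = h₁ → g * h₂ * g⁻¹ ∈ W₁
  s₂ : ∀ u ∈ W₁, ∀ v ∈ W₂, u * v = v * u
  s₃ : ∀ g, g * h₂ * g⁻¹ = h₂ → ∀ u ∈ W₁, ∀ v ∈ W₁, u * (g * v * g⁻¹) = (g * v * g⁻¹) * u
  s₄ : ∀ s, s * h₁ = h₁ * s → s * h₂ = h₂ * s → s * s = 1 → ∀ u ∈ W₂, s * u * s⁻¹ = u ∨ s * u * s⁻¹ = h₁ * u

variable {h₁ h₂ x : G} {W₁ W₂ : Subgroup G} (C : WalkCtx h₁ h₂ x W₁ W₂)
include C

theorem conj_comm_of {a b g : G} (h : a * b = b * a) : (g * a * g⁻¹) * (g * b * g⁻¹) = (g * b * g⁻¹) * (g * a * g⁻¹) := by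
  calc (g * a * g⁻¹) * (g * b * g⁻¹) = g * (a * b) * g⁻¹ := by group
    _ = g * (b * a) * g⁻¹ := by rw [h]
    _ = (g * b * g⁻¹) * (g * a * g⁻¹) := by group

theorem WalkCtx.hh₂ : h₂ * h₂ = 1 := by
  rw [← C.hx₁]
  calc x * h₁ * x⁻¹ * (x * h₁ * x⁻¹) = x * (h₁ * h₁) * x⁻¹ := by group
    _ = 1 := by rw [C.hh₁]; group

theorem WalkCtx.adj_symm {u v : G} (h : WAdj h₁ h₂ u v) : WAdj h₁ h₂ v u := by
  obtain ⟨g, rfl, rfl⟩ := h
  refine ⟨g * x, ?_, ?_⟩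
  · calc g * h₂ * g⁻¹ = g * (x * h₁ * x⁻¹) * g⁻¹ := by rw [C.hx₁]
      _ = g * x * h₁ * (g * x)⁻¹ := by group
  · calc g * h₁ * g⁻¹ = g * (x * h₂ * x⁻¹) * g⁻¹ := by rw [C.hx₂]
      _ = g * x * h₂ * (g * x)⁻¹ := by group

omit C in
theorem WAdj.conj {u v : G} (h : WAdj h₁ h₂ u v) (g : G) : WAdj h₁ h₂ (g * u * g⁻¹) (g * v * g⁻¹) := by
  obtain ⟨g', rfl, rfl⟩ := h
  exact ⟨g * g', by group, by group⟩

theorem WalkCtx.adj_comm {u v : G} (h : WAdj h₁ h₂ u v) : u * v = v * u := by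
  obtain ⟨g, rfl, rfl⟩ := h
  exact conj_comm_of C C.hh

/-- Neighbours on the side of `h₂`. -/
theorem WalkCtx.nbr_right {g r : G} (h : WAdj h₁ h₂ (g * h₂ * g⁻¹) r) :
    ∃ g', g' * h₂ * g'⁻¹ = h₂ ∧ r = g * (g' * h₁ * g'⁻¹) * g⁻¹ := by
  obtain ⟨g₁, h1, rfl⟩ := h
  have hx₁' : x⁻¹ * h₂ * x = h₁ := by rw [← C.hx₁]; group
  have hx₂' : x⁻¹ * h₁ * x = h₂ := by rw [← C.hx₂]; group
  refine ⟨g⁻¹ * g₁ * x⁻¹, ?_, ?_⟩
  · calc g⁻¹ * g₁ * x⁻¹ * h₂ * (g⁻¹ * g₁ * x⁻¹)⁻¹ = g⁻¹ * g₁ * (x⁻¹ * h₂ * x) * g₁⁻¹ * g := by group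
      _ = g⁻¹ * (g₁ * h₁ * g₁⁻¹) * g := by rw [hx₁']; group
      _ = g⁻¹ * (g * h₂ * g⁻¹) * g := by rw [← h1]
      _ = h₂ := by group
  · calc g₁ * h₂ * g₁⁻¹ = g₁ * (x⁻¹ * h₁ * x) * g₁⁻¹ := by rw [hx₂']
      _ = g * (g⁻¹ * g₁ * x⁻¹ * h₁ * (g⁻¹ * g₁ * x⁻¹)⁻¹) * g⁻¹ := by group

/-- Neighbours on the side of `h₁`. -/
theorem WalkCtx.nbr_left {g r : G} (h : WAdj h₁ h₂ (g * h₁ * g⁻¹) r) :
    ∃ g', g' * h₁ * g'⁻¹ = h₁ ∧ r = g * (g' * h₂ * g'⁻¹) * g⁻¹ := by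
  obtain ⟨g₁, h1, rfl⟩ := h
  refine ⟨g⁻¹ * g₁, ?_, ?_⟩
  · calc g⁻¹ * g₁ * h₁ * (g⁻¹ * g₁)⁻¹ = g⁻¹ * (g₁ * h₁ * g₁⁻¹) * g := by group
      _ = g⁻¹ * (g * h₁ * g⁻¹) * g := by rw [← h1]
      _ = h₁ := by group
  · group

theorem WalkCtx.h₁_mem : h₁ ∈ W₂ := by
  have := C.s₁ 1 (by group)
  simpa using this

/-- Walks of length two. -/
theorem WalkCtx.walk2 {u₀ u₁ u₂ : G} (h1 : WAdj h₁ h₂ u₀ u₁) (h2 : WAdj h₁ h₂ u₁ u₂) : u₀ * u₂ = u₂ * u₀ := by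
  obtain ⟨g, rfl, rfl⟩ := h1
  obtain ⟨g', hg', rfl⟩ := C.nbr_right h2
  exact conj_comm_of C (C.hW₂ _ C.h₁_mem _ (C.s₁ g' hg'))

/-- Walks of length three. -/
theorem WalkCtx.walk3 {u₀ u₁ u₂ u₃ : G} (h1 : WAdj h₁ h₂ u₀ u₁) (h2 : WAdj h₁ h₂ u₁ u₂) (h3 : WAdj h₁ h₂ u₂ u₃) :
    u₀ * u₃ = u₃ * u₀ := by
  obtain ⟨g, rfl, rfl⟩ := h2
  obtain ⟨g₁, hg₁, rfl⟩ := C.nbr_left (C.adj_symm h1)
  obtain ⟨g₂, hg₂, rfl⟩ := C.nbr_right h3
  exact conj_comm_of C (C.s₂ _ (C.s₁' g₁ hg₁) _ (C.s₁ g₂ hg₂))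

/-- Walks of length four. -/
theorem WalkCtx.walk4 {u₀ u₁ u₂ u₃ u₄ : G} (h1 : WAdj h₁ h₂ u₀ u₁) (h2 : WAdj h₁ h₂ u₁ u₂) (h3 : WAdj h₁ h₂ u₂ u₃)
    (h4 : WAdj h₁ h₂ u₃ u₄) : u₀ * u₄ = u₄ * u₀ := by
  obtain ⟨g, rfl, rfl⟩ := h2
  obtain ⟨g₁, hg₁, rfl⟩ := C.nbr_left (C.adj_symm h1)
  obtain ⟨g₂, hg₂, rfl⟩ := C.nbr_right h3
  have e1 : g * (g₂ * h₁ * g₂⁻¹) * g⁻¹ = (g * g₂) * h₁ * (g * g₂)⁻¹ := by group
  rw [e1] at h4
  obtain ⟨g₃, hg₃, rfl⟩ := C.nbr_left h4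
  have e2 : g * g₂ * (g₃ * h₂ * g₃⁻¹) * (g * g₂)⁻¹ = g * (g₂ * (g₃ * h₂ * g₃⁻¹) * g₂⁻¹) * g⁻¹ := by group
  rw [e2]
  exact conj_comm_of C (C.s₃ g₂ hg₂ _ (C.s₁' g₁ hg₁) _ (C.s₁' g₃ hg₃))

/-- The step. -/
theorem WalkCtx.step {p q r s : G} (h1 : WAdj h₁ h₂ p q) (h2 : WAdj h₁ h₂ q r) (hp : s * p = p * s) (hq : s * q = q * s)
    (hs : s * s = 1) : s * r * s⁻¹ = r ∨ s * r * s⁻¹ = p * r := by
  obtain ⟨g, rfl, rfl⟩ := h1
  obtain ⟨g', hg', rfl⟩ := C.nbr_right h2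
  have hp' : (g⁻¹ * s * g) * h₁ = h₁ * (g⁻¹ * s * g) := by
    have : g⁻¹ * (s * (g * h₁ * g⁻¹)) * g = g⁻¹ * ((g * h₁ * g⁻¹) * s) * g := by rw [hp]
    calc (g⁻¹ * s * g) * h₁ = g⁻¹ * (s * (g * h₁ * g⁻¹)) * g := by group
      _ = g⁻¹ * ((g * h₁ * g⁻¹) * s) * g := this
      _ = h₁ * (g⁻¹ * s * g) := by group
  have hq' : (g⁻¹ * s * g) * h₂ = h₂ * (g⁻¹ * s * g) := by
    have : g⁻¹ * (s * (g * h₂ * g⁻¹)) * g = g⁻¹ * ((g * h₂ * g⁻¹) * s) * g := by rw [hq]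
    calc (g⁻¹ * s * g) * h₂ = g⁻¹ * (s * (g * h₂ * g⁻¹)) * g := by group
      _ = g⁻¹ * ((g * h₂ * g⁻¹) * s) * g := this
      _ = h₂ * (g⁻¹ * s * g) := by group
  have hs' : (g⁻¹ * s * g) * (g⁻¹ * s * g) = 1 := by
    calc (g⁻¹ * s * g) * (g⁻¹ * s * g) = g⁻¹ * (s * s) * g := by group
      _ = 1 := by rw [hs]; group
  have h3 := C.s₄ _ hp' hq' hs' _ (C.s₁ g' hg')
  set v := g' * h₁ * g'⁻¹ with hv
  have e1 : s * (g * v * g⁻¹) * s⁻¹ = g * ((g⁻¹ * s * g) * v * (g⁻¹ * s * g)⁻¹) * g⁻¹ := by group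
  rw [e1]
  rcases h3 with h3 | h3
  · left; rw [h3]
  · right; rw [h3]; group

/-- The induction on walks. -/
theorem WalkCtx.walk : ∀ (n : ℕ) (f : ℕ → G), (∀ i < n, WAdj h₁ h₂ (f i) (f (i + 1))) → f 0 * f n = f n * f 0 := by
  intro n
  induction n using Nat.strong_induction_on with
  | _ n ih =>
    intro f hf
    match n, ih, hf with
    | 0, _, _ => rfl
    | 1, _, hf => exact C.adj_comm (hf 0 (by omega))
    | 2, _, hf => exact C.walk2 (hf 0 (by omega)) (hf 1 (by omega))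
    | 3, _, hf => exact C.walk3 (hf 0 (by omega)) (hf 1 (by omega)) (hf 2 (by omega))
    | 4, _, hf => exact C.walk4 (hf 0 (by omega)) (hf 1 (by omega)) (hf 2 (by omega)) (hf 3 (by omega))
    | m + 5, ih, hf =>
      have a1 : f 0 * f (m + 4) = f (m + 4) * f 0 :=
        ih (m + 4) (by omega) f (fun i hi => hf i (by omega))
      have a2 : f 0 * f (m + 3) = f (m + 3) * f 0 :=
        ih (m + 3) (by omega) f (fun i hi => hf i (by omega))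
      have a3 : f 1 * f (m + 5) = f (m + 5) * f 1 := by
        have := ih (m + 4) (by omega) (fun i => f (i + 1)) (fun i hi => hf (i + 1) (by omega))
        exact this
      have a4 : f 2 * f (m + 5) = f (m + 5) * f 2 := by
        have := ih (m + 3) (by omega) (fun i => f (i + 2)) (fun i hi => hf (i + 2) (by omega))
        exact this
      by_contra hne
      have hs0 : f 0 * f 0 = 1 := by
        obtain ⟨g, h1, -⟩ := hf 0 (by omega)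
        rw [h1]
        calc g * h₁ * g⁻¹ * (g * h₁ * g⁻¹) = g * (h₁ * h₁) * g⁻¹ := by group
          _ = 1 := by rw [C.hh₁]; group
      have hsn : f (m + 5) * f (m + 5) = 1 := by
        obtain ⟨g, -, h1⟩ := hf (m + 4) (by omega)
        rw [h1]
        calc g * h₂ * g⁻¹ * (g * h₂ * g⁻¹) = g * (h₂ * h₂) * g⁻¹ := by group
          _ = 1 := by rw [C.hh₂]; group
      have b1 := C.step (hf (m + 3) (by omega)) (hf (m + 4) (by omega)) a2 a1 hs0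
      have b2 := C.step (C.adj_symm (hf 1 (by omega))) (C.adj_symm (hf 0 (by omega))) a4.symm a3.symm hsn
      have hne1 : f 0 * f (m + 5) * (f 0)⁻¹ ≠ f (m + 5) := by
        intro h
        apply hne
        rwa [mul_inv_eq_iff_eq_mul] at h
      have hne2 : f (m + 5) * f 0 * (f (m + 5))⁻¹ ≠ f 0 := by
        intro h
        apply hne
        rw [mul_inv_eq_iff_eq_mul] at h
        exact h.symm
      have b1' := b1.resolve_left hne1
      have b2' := b2.resolve_left hne2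
      have hp2 : f (m + 3) * f (m + 3) = 1 := by
        obtain ⟨g, h1, -⟩ := hf (m + 3) (by omega)
        rw [h1]
        calc g * h₁ * g⁻¹ * (g * h₁ * g⁻¹) = g * (h₁ * h₁) * g⁻¹ := by group
          _ = 1 := by rw [C.hh₁]; group
      have c1 : f (m + 3) = f 0 * f (m + 5) * (f 0)⁻¹ * (f (m + 5))⁻¹ := by rw [b1']; group
      have c2 : f 2 = f (m + 5) * f 0 * (f (m + 5))⁻¹ * (f 0)⁻¹ := by rw [b2']; group
      have c3 : f 2 = f (m + 3) := by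
        have h5 : (f (m + 3))⁻¹ = f (m + 3) := inv_eq_of_mul_eq_one_left hp2
        rw [← h5, c1, c2]
        group
      apply hne
      have h6 := hf (m + 3) (by omega)
      rw [← c3] at h6
      exact C.walk4 (hf 0 (by omega)) (hf 1 (by omega)) h6 (hf (m + 4) (by omega))

omit C in
theorem exists_walk_of_rtg {u v : G} (h : Relation.ReflTransGen (WAdj h₁ h₂) u v) :
    ∃ (n : ℕ) (f : ℕ → G), f 0 = u ∧ f n = v ∧ ∀ i < n, WAdj h₁ h₂ (f i) (f (i + 1)) := by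
  classical
  induction h with
  | refl => exact ⟨0, fun _ => u, rfl, rfl, fun i hi => absurd hi (Nat.not_lt_zero i)⟩
  | @tail b c _ hbc ih =>
    obtain ⟨n, f, h0, hn, hf⟩ := ih
    refine ⟨n + 1, fun i => if i ≤ n then f i else c, ?_, ?_, ?_⟩
    · simp [h0]
    · simp
    · intro i hi
      by_cases h1 : i + 1 ≤ n
      · have h2 : i ≤ n := by omega
        simp only [h1, h2, if_true]
        exact hf i (by omega)
      · have h2 : i = n := by omega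
        subst h2
        simp only [le_refl, if_true, Nat.lt_irrefl, h1, if_false]
        rw [hn]
        exact hbc

theorem WalkCtx.comm_of_rtg {u v : G} (h : Relation.ReflTransGen (WAdj h₁ h₂) u v) : u * v = v * u := by
  obtain ⟨n, f, rfl, rfl, hf⟩ := exists_walk_of_rtg h
  exact C.walk n f hf

/-- The conclusion: there is no such configuration with trivial `2`-core. -/
theorem WalkCtx.false_of_core {K₁ K₂ T : Subgroup G}
    (hK₁ : ∀ g ∈ K₁, g * h₁ * g⁻¹ = h₁) (hK₂ : ∀ g ∈ K₂, g * h₂ * g⁻¹ = h₂) (hT : ∀ g ∈ T, g * h₂ * g⁻¹ = h₂)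
    (hh₂T : h₂ ∈ T) (hh₂1 : h₂ ≠ 1) (hcore : pCoreOf 2 (K₁ ⊔ K₂ ⊔ T) = ⊥) : False := by
  classical
  haveI : Fact (Nat.Prime 2) := ⟨Nat.prime_two⟩
  set D := K₁ ⊔ K₂ ⊔ T with hD
  set 𝒱 : Set G := {u | Relation.ReflTransGen (WAdj h₁ h₂) h₂ u} with h𝒱
  have hlift : ∀ (g : G) {u v : G}, Relation.ReflTransGen (WAdj h₁ h₂) u v →
      Relation.ReflTransGen (WAdj h₁ h₂) (g * u * g⁻¹) (g * v * g⁻¹) := by
    intro g u v h
    induction h with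
    | refl => exact Relation.ReflTransGen.refl
    | tail _ hbc ih => exact ih.tail (hbc.conj g)
  have hedge : WAdj h₁ h₂ h₁ h₂ := ⟨1, by group, by group⟩
  have hfix2 : ∀ g, g * h₂ * g⁻¹ = h₂ → ∀ z ∈ 𝒱, g * z * g⁻¹ ∈ 𝒱 := by
    intro g hg z hz
    have := hlift g hz
    rw [hg] at this
    exact this
  have hfix1 : ∀ g, g * h₁ * g⁻¹ = h₁ → ∀ z ∈ 𝒱, g * z * g⁻¹ ∈ 𝒱 := by
    intro g hg z hz
    have h1 := hlift g hz
    have h2 : Relation.ReflTransGen (WAdj h₁ h₂) h₂ (g * h₂ * g⁻¹) := by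
      have h3 : WAdj h₁ h₂ (g * h₁ * g⁻¹) (g * h₂ * g⁻¹) := hedge.conj g
      rw [hg] at h3
      exact (Relation.ReflTransGen.single (C.adj_symm hedge)).tail h3
    exact h2.trans h1
  have hstab : D ≤ setStab 𝒱 := by
    apply sup_le (sup_le _ _) _
    · intro g hg
      exact hfix1 g (hK₁ g hg)
    · intro g hg
      exact hfix2 g (hK₂ g hg)
    · intro g hg
      exact hfix2 g (hT g hg)
  have hVV : ∀ g ∈ D, g * h₂ * g⁻¹ ∈ 𝒱 := fun g hg => hstab hg h₂ Relation.ReflTransGen.refl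
  set O : Set G := {u | ∃ g ∈ D, u = g * h₂ * g⁻¹} with hO
  set E := Subgroup.closure O with hE
  have hh₂D : h₂ ∈ D := le_sup_right (α := Subgroup G) hh₂T
  have hEcomm : ∀ a ∈ O, ∀ b ∈ O, a * b = b * a := by
    rintro _ ⟨g, hg, rfl⟩ _ ⟨g', hg', rfl⟩
    have hsym : ∀ {u v : G}, Relation.ReflTransGen (WAdj h₁ h₂) u v → Relation.ReflTransGen (WAdj h₁ h₂) v u := by
      intro u v h
      induction h with
      | refl => exact Relation.ReflTransGen.refl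
      | tail _ hbc ih => exact Relation.ReflTransGen.head (C.adj_symm hbc) ih
    have h1 : Relation.ReflTransGen (WAdj h₁ h₂) (g * h₂ * g⁻¹) h₂ := hsym (hVV g hg)
    exact C.comm_of_rtg (h1.trans (hVV g' hg'))
  have hEp : IsPGroup 2 E := by
    apply ea_isPGroup
    apply isElementaryAbelian_closure hEcomm
    rintro _ ⟨g, hg, rfl⟩
    rw [pow_two]
    calc g * h₂ * g⁻¹ * (g * h₂ * g⁻¹) = g * (h₂ * h₂) * g⁻¹ := by group
      _ = 1 := by rw [C.hh₂]; group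
  have hED : E ≤ D := by
    rw [hE, Subgroup.closure_le]
    rintro _ ⟨g, hg, rfl⟩
    exact D.mul_mem (D.mul_mem hg hh₂D) (D.inv_mem hg)
  have hDE : D ≤ Subgroup.normalizer (E : Set G) := by
    intro d hd
    apply Cfsg.Agent.Lib.Subnormal.mem_normalizer_of_conj_mem
    intro e he
    rw [hE] at he
    induction he using Subgroup.closure_induction with
    | mem u hu =>
      obtain ⟨g, hg, rfl⟩ := hu
      apply Subgroup.subset_closure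
      exact ⟨d * g, D.mul_mem hd hg, by group⟩
    | one => simp [E.one_mem]
    | mul a b _ _ ha hb =>
      have : d * (a * b) * d⁻¹ = (d * a * d⁻¹) * (d * b * d⁻¹) := by group
      rw [this]
      exact E.mul_mem ha hb
    | inv a _ ha =>
      have : d * a⁻¹ * d⁻¹ = (d * a * d⁻¹)⁻¹ := by group
      rw [this]
      exact E.inv_mem ha
  have hle : E ≤ pCoreOf 2 D := le_pCoreOf hED hDE hEp
  rw [hcore, le_bot_iff] at hle
  have hh₂E : h₂ ∈ E := Subgroup.subset_closure ⟨1, D.one_mem, by group⟩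
  rw [hle] at hh₂E
  exact hh₂1 (Subgroup.mem_bot.mp hh₂E)

end Walks

end Cfsg.Agent.Lib.FFG
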