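import Mathlib
import Cfsg.Prelude.Def_JComponents
import Cfsg.Agent.Lib.JCompStruct

/-!
# Structure of `J(T)`-components, continued

For a `J(T)`-component `K` put `X = K ⊔ J` and `D = C_X(W_K)`: a normal 2-subgroup of `X`
lying in every Sylow 2-subgroup of `X`.  The intersection `V` of the `A ∈ 𝒜(S)` lying in `D`
satisfies `[V, J] ≤ ⟨w₁⟩`, `[V, K] ≤ W_K`.
-/

set_option autoImplicit false
set_option linter.unusedSectionVars false

open Cfsg
open scoped commutatorElement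

namespace Cfsg.Agent.Lib.JCompStruct

open Cfsg.Agent.Lib.JCompBasic Cfsg.Agent.Lib.CharPLocal Cfsg.Agent.Lib.ThompsonJ Cfsg.Agent.Lib.PCore

variable {G : Type*} [Group G]

variable {J K : Subgroup G} {k w₁ w₂ : G}

namespace JCS

section basic
variable (h : JCS J K k w₁ w₂)
include h

theorem hXN : K ⊔ J ≤ Subgroup.normalizer (K : Set G) := sup_le Subgroup.le_normalizer h.hJN

theorem conjW {x w : G} (hx : x ∈ K ⊔ J) (hw : w ∈ wOf K) : x * w * x⁻¹ ∈ wOf K :=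
  conj_mem_wOf (h.hXN hx) hw

theorem conjW' {x w : G} (hx : x ∈ K ⊔ J) (hw : w ∈ wOf K) : x⁻¹ * w * x ∈ wOf K := by
  simpa using h.conjW (Subgroup.inv_mem _ hx) hw

theorem w_inv {w : G} (hw : w ∈ wOf K) : w⁻¹ = w := inv_eq_of_mul_eq_one_left (h.hWsq w hw)

theorem W_ea : IsElementaryAbelian 2 (wOf K) :=
  isElementaryAbelian_of_comm (fun _ ha _ hb => wOf_comm ha hb)
    (fun w hw => by rw [pow_two]; exact h.hWsq w hw)

theorem J_le : J ≤ K ⊔ J := le_sup_right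

theorem K_le : K ≤ K ⊔ J := le_sup_left

theorem w_le_K : wOf K ≤ K := (wOf_le_pCoreOf K).trans h.hPK

theorem fix_w₂_or {j : G} (hj : j ∈ J) : j * w₂ * j⁻¹ = w₂ ∨ j * w₂ * j⁻¹ = w₁ * w₂ := by
  rcases h.hset _ (h.conjW (h.J_le hj) h.hw₂mem) with e | e | e | e
  · exfalso
    apply h.hw₂1
    have : j * w₂ * j⁻¹ * j = 1 * j := by rw [e]
    simpa using this
  · exfalso
    apply h.hw₁₂
    have h5 : j * w₂ * j⁻¹ = j * w₁ * j⁻¹ := by rw [e, h.hJw₁ j hj]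
    have := congrArg (fun t => j⁻¹ * t * j) h5
    simpa [mul_assoc] using this.symm
  · exact Or.inl e
  · exact Or.inr e

theorem fix_or {j w : G} (hj : j ∈ J) (hw : w ∈ wOf K) : j * w * j⁻¹ = w ∨ j * w * j⁻¹ = w₁ * w := by
  rcases h.hset w hw with rfl | rfl | rfl | rfl
  · left; simp
  · left; exact h.hJw₁ j hj
  · exact h.fix_w₂_or hj
  · have e : j * (w₁ * w₂) * j⁻¹ = (j * w₁ * j⁻¹) * (j * w₂ * j⁻¹) := by group
    rw [e, h.hJw₁ j hj]
    rcases h.fix_w₂_or hj with e2 | e2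
    · left; rw [e2]
    · right; rw [e2]

theorem fix_of_fix_w₂ {j w : G} (hj : j ∈ J) (hfix : j * w₂ * j⁻¹ = w₂) (hw : w ∈ wOf K) :
    j * w * j⁻¹ = w := by
  rcases h.hset w hw with rfl | rfl | rfl | rfl
  · simp
  · exact h.hJw₁ j hj
  · exact hfix
  · have e : j * (w₁ * w₂) * j⁻¹ = (j * w₁ * j⁻¹) * (j * w₂ * j⁻¹) := by group
    rw [e, h.hJw₁ j hj, hfix]

theorem mem_of_fix {j w : G} (hj : j ∈ J) (hmv : j * w₂ * j⁻¹ = w₁ * w₂) (hw : w ∈ wOf K)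
    (hfix : j * w * j⁻¹ = w) : w = 1 ∨ w = w₁ := by
  have hne : w₂ ≠ w₁ * w₂ := by
    intro e
    apply h.hw₁1
    have : 1 * w₂ = w₁ * w₂ := by rw [one_mul]; exact e
    exact (mul_right_cancel this).symm
  rcases h.hset w hw with rfl | rfl | rfl | rfl
  · exact Or.inl rfl
  · exact Or.inr rfl
  · exfalso
    exact hne (hfix.symm.trans hmv)
  · exfalso
    have e : j * (w₁ * w₂) * j⁻¹ = (j * w₁ * j⁻¹) * (j * w₂ * j⁻¹) := by group
    rw [e, h.hJw₁ j hj, hmv, ← mul_assoc, h.hWsq w₁ h.hw₁, one_mul] at hfix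
    exact hne hfix

theorem hk₃ : k * (w₁ * w₂) * k⁻¹ = w₁ := by
  have e : k * (w₁ * w₂) * k⁻¹ = (k * w₁ * k⁻¹) * (k * w₂ * k⁻¹) := by group
  rw [e, h.hw₂, h.hk₂, ← mul_assoc, wOf_comm h.hw₂mem h.hw₁, mul_assoc, h.hWsq w₂ h.hw₂mem, mul_one]

/-- The norm identity for the action of `k` on `W_K`. -/
theorem norm_k {y : G} (hy : y ∈ wOf K) : k * (k * y * k⁻¹) * k⁻¹ * y = k * y * k⁻¹ := by
  have h12 := wOf_comm h.hw₁ h.hw₂mem
  have s1 := h.hWsq w₁ h.hw₁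
  have s2 := h.hWsq w₂ h.hw₂mem
  rcases h.hset y hy with rfl | rfl | rfl | rfl
  · simp
  · rw [h.hw₂, h.hk₂, mul_assoc, ← h12, ← mul_assoc, s1, one_mul]
  · rw [h.hk₂, h.hk₃]
  · rw [h.hk₃, h.hw₂, ← mul_assoc, ← h12, mul_assoc, s2, mul_one]

end basic

/-- `D = C_X(W_K)`. -/
def jD (J K : Subgroup G) : Subgroup G := (K ⊔ J) ⊓ Subgroup.centralizer (wOf K : Set G)

theorem mem_jD {d : G} : d ∈ jD J K ↔ d ∈ K ⊔ J ∧ ∀ w ∈ wOf K, w * d = d * w := by
  unfold jD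
  rw [Subgroup.mem_inf, Subgroup.mem_centralizer_iff]
  rfl

section basic2
variable (h : JCS J K k w₁ w₂)
include h

theorem conj_jD {x d : G} (hx : x ∈ K ⊔ J) (hd : d ∈ jD J K) : x * d * x⁻¹ ∈ jD J K := by
  rw [mem_jD] at hd ⊢
  refine ⟨Subgroup.mul_mem _ (Subgroup.mul_mem _ hx hd.1) (Subgroup.inv_mem _ hx), ?_⟩
  intro w hw
  have h1 := hd.2 _ (h.conjW' hx hw)
  calc w * (x * d * x⁻¹) = x * ((x⁻¹ * w * x) * d) * x⁻¹ := by group
    _ = x * (d * (x⁻¹ * w * x)) * x⁻¹ := by rw [h1]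
    _ = _ := by group

theorem P_le_jD : pCoreOf 2 K ≤ jD J K :=
  fun p hp => mem_jD.mpr ⟨h.K_le (h.hPK hp), fun w hw => (wOf_commute_pCoreOf hp hw).symm⟩

theorem W_le_jD : wOf K ≤ jD J K := (wOf_le_pCoreOf K).trans h.P_le_jD

theorem jD_isPGroup [Finite G] : IsPGroup 2 (jD J K) := by
  haveI : Fact (Nat.Prime 2) := ⟨Nat.prime_two⟩
  apply isPGroup_of_forall_coprime
  intro y hy hc
  have hyK : y ∈ K := mem_of_coprime_of_mem_sup h.hJN h.hJp (mem_jD.mp hy).1 hc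
  set C : Subgroup G := K ⊓ Subgroup.centralizer (wOf K : Set G) with hC
  have hPC : pCoreOf 2 K ≤ C := by
    refine le_inf h.hPK ?_
    intro p hp
    rw [Subgroup.mem_centralizer_iff]
    exact fun w hw => (wOf_commute_pCoreOf hp hw).symm
  have h1 := Subgroup.relIndex_mul_relIndex (pCoreOf 2 K) C K hPC inf_le_left
  rw [h.hP3] at h1
  rcases Nat.prime_three.eq_one_or_self_of_dvd _ (Dvd.intro _ h1) with h2 | h2
  · have hCP : C ≤ pCoreOf 2 K := Subgroup.relIndex_eq_one.mp h2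
    exact eq_one_of_coprime_of_mem h.hPp (hCP ⟨hyK, hy.2⟩) hc
  · exfalso
    rw [h2] at h1
    have h5 : C.relIndex K = 1 := by omega
    have h6 : K ≤ C := Subgroup.relIndex_eq_one.mp h5
    have hkC := h6 h.hkK
    have h7 := Subgroup.mem_centralizer_iff.mp hkC.2 w₁ h.hw₁
    apply h.hw₁₂
    rw [← h.hw₂]
    calc w₁ = w₁ * k * k⁻¹ := by group
      _ = k * w₁ * k⁻¹ := by rw [h7]

end basic2

end JCS

theorem MaxEA.conj {S A : Subgroup G} (hA : MaxEA S A) (g : G) (hg : ∀ a ∈ A, g * a * g⁻¹ ∈ S) :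
    MaxEA S (A.map (MulAut.conj g).toMonoidHom) := by
  refine ⟨?_, ea_map hA.2.1 _, ?_⟩
  · rintro _ ⟨a, ha, rfl⟩
    exact hg a ha
  · intro B hB hBe
    have h1 := hA.2.2 B hB hBe
    have h2 : Nat.card ↥(A.map (MulAut.conj g).toMonoidHom) = Nat.card A :=
      Nat.card_congr (Subgroup.equivMapOfInjective A _ (MulAut.conj g).injective).symm.toEquiv
    rw [h2]
    exact h1

namespace JCS

/-- `V` is the intersection of the `A ∈ 𝒜(S)` with `A ≤ D`. -/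
def jV (S J K : Subgroup G) : Subgroup G := sInf {A | MaxEA S A ∧ A ≤ jD J K}

variable {S : Subgroup G}

theorem mem_jV {v : G} : v ∈ jV S J K ↔ ∀ A, MaxEA S A → A ≤ jD J K → v ∈ A := by
  unfold jV
  rw [Subgroup.mem_sInf]
  constructor
  · intro hv A h1 h2
    exact hv A ⟨h1, h2⟩
  · rintro hv A ⟨h1, h2⟩
    exact hv A h1 h2

section sylow
variable (h : JCS J K k w₁ w₂) (hS : IsSylowTwoIn S (K ⊔ J)) (hJS : J ≤ S)
include h hS hJS

theorem thomp : thompsonSubgroupOf 2 S = J := h.hJS S hS hJS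

theorem maxEA_le {A : Subgroup G} (hA : MaxEA S A) : A ≤ J := by
  have := hA.le_thompson
  rwa [h.thomp hS hJS] at this

theorem J_le_of_maxEA {N : Subgroup G} (hN : ∀ A, MaxEA S A → A ≤ N) : J ≤ N := by
  have e := h.thomp hS hJS
  rw [thompsonOf_eq_sSup] at e
  rw [← e]
  exact sSup_le hN

theorem jD_le [Finite G] : jD J K ≤ S :=
  le_of_normal_of_isSylowTwoIn hS inf_le_left (fun _ hx _ hd => h.conj_jD hx hd) h.jD_isPGroup

theorem conj_J {s j : G} (hs : s ∈ S) (hj : j ∈ J) : s * j * s⁻¹ ∈ J := by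
  have hle : J ≤ J.comap (MulAut.conj s).toMonoidHom := by
    apply h.J_le_of_maxEA hS hJS
    intro A hA a ha
    have h1 : MaxEA S (A.map (MulAut.conj s).toMonoidHom) :=
      hA.conj s (fun a ha => S.mul_mem (S.mul_mem hs (hA.1 ha)) (S.inv_mem hs))
    exact h.maxEA_le hS hJS h1 ⟨a, ha, rfl⟩
  exact hle hj

theorem W_le_J [Finite G] : wOf K ≤ J := by
  obtain ⟨A, hA⟩ := exists_maxEA S
  intro w hw
  have hwS : w ∈ S := h.jD_le hS hJS (h.W_le_jD hw)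
  have hw2 : w ^ 2 = 1 := by rw [pow_two]; exact h.hWsq w hw
  by_cases hwA : w ∈ A
  · exact h.maxEA_le hS hJS hA hwA
  · have hrep := hA.replacement hwS hw2 hwA
      (card_le_two_mul A w (w₁ * w) (fun a ha => h.fix_or (h.maxEA_le hS hJS hA ha) hw))
    exact h.maxEA_le hS hJS hrep (Subgroup.mem_sup_right (Subgroup.mem_zpowers w))

theorem replW [Finite G] {A : Subgroup G} (hA : MaxEA S A) {a : G} (ha : a ∈ A) (hmv : a * w₂ * a⁻¹ ≠ w₂) :
    MaxEA S ((A ⊓ Subgroup.centralizer ({w₂} : Set G)) ⊔ wOf K) ∧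
      (A ⊓ Subgroup.centralizer ({w₂} : Set G)) ⊔ wOf K ≤ jD J K := by
  set B : Subgroup G := A ⊓ Subgroup.centralizer ({w₂} : Set G) with hB
  have hAJ := h.maxEA_le hS hJS hA
  have hw₂S : w₂ ∈ S := h.jD_le hS hJS (h.W_le_jD h.hw₂mem)
  have hnot : w₂ ∉ A := by
    intro hw
    apply hmv
    rw [ea_comm hA.2.1 ha hw]
    group
  have hrep := hA.replacement hw₂S (by rw [pow_two]; exact h.hWsq _ h.hw₂mem) hnot
    (card_le_two_mul A w₂ (w₁ * w₂) (fun a ha => h.fix_w₂_or (hAJ ha)))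
  have hBW : ∀ b ∈ B, ∀ w ∈ wOf K, b * w = w * b := by
    intro b hb w hw
    have hb2 : b * w₂ = w₂ * b := Subgroup.mem_centralizer_singleton_iff.mp hb.2
    have h1 := h.fix_of_fix_w₂ (hAJ hb.1) (by rw [hb2]; group) hw
    exact mul_inv_eq_iff_eq_mul.mp h1
  have hsup : IsElementaryAbelian 2 (B ⊔ wOf K) := ea_sup (ea_mono hA.2.1 inf_le_left) h.W_ea hBW
  have hle : B ⊔ wOf K ≤ S := sup_le (inf_le_left.trans hA.1) ((h.W_le_jD).trans (h.jD_le hS hJS))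
  refine ⟨⟨hle, hsup, fun C hC hCe => (hrep.2.2 C hC hCe).trans (Subgroup.card_le_of_le ?_)⟩,
    sup_le ?_ h.W_le_jD⟩
  · refine sup_le le_sup_left (le_trans ?_ le_sup_right)
    rw [Subgroup.zpowers_le]
    exact h.hw₂mem
  · intro b hb
    refine mem_jD.mpr ⟨h.J_le (hAJ hb.1), fun w hw => (hBW b hb w hw).symm⟩

theorem exists_family [Finite G] : ∃ A, MaxEA S A ∧ A ≤ jD J K := by
  obtain ⟨j₀, hj₀, hmv⟩ := h.hmove
  by_contra hcon
  push Not at hcon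
  have hall : ∀ A, MaxEA S A → ∀ a ∈ A, a * w₂ * a⁻¹ = w₂ := by
    intro A hA a ha
    by_contra hne
    obtain ⟨h1, h2⟩ := h.replW hS hJS hA ha hne
    exact hcon _ h1 h2
  have hle : J ≤ Subgroup.centralizer ({w₂} : Set G) := by
    apply h.J_le_of_maxEA hS hJS
    intro A hA a ha
    rw [Subgroup.mem_centralizer_singleton_iff]
    exact mul_inv_eq_iff_eq_mul.mp (hall A hA a ha)
  have h3 := Subgroup.mem_centralizer_singleton_iff.mp (hle hj₀)
  have h4 : j₀ * w₂ * j₀⁻¹ = w₂ := by rw [h3]; group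
  rw [h4] at hmv
  apply h.hw₁1
  have h5 : 1 * w₂ = w₁ * w₂ := by rw [one_mul]; exact hmv
  exact (mul_right_cancel h5).symm

theorem jV_sq [Finite G] {v : G} (hv : v ∈ jV S J K) : v * v = 1 := by
  obtain ⟨A, hA, hAD⟩ := h.exists_family hS hJS
  have := hA.2.1.2 v (mem_jV.mp hv A hA hAD)
  rwa [pow_two] at this

theorem jV_conj [Finite G] {x v : G} (hx : x ∈ K ⊔ J) (hv : v ∈ jV S J K) : x * v * x⁻¹ ∈ jV S J K := by
  rw [mem_jV] at hv ⊢
  intro A hA hAD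
  have hx' := Subgroup.inv_mem _ hx
  have h1 : MaxEA S (A.map (MulAut.conj x⁻¹).toMonoidHom) :=
    hA.conj x⁻¹ (fun a ha => h.jD_le hS hJS (h.conj_jD hx' (hAD ha)))
  have h2 : A.map (MulAut.conj x⁻¹).toMonoidHom ≤ jD J K := by
    rintro _ ⟨a, ha, rfl⟩
    exact h.conj_jD hx' (hAD ha)
  obtain ⟨a, ha, hav⟩ := hv _ h1 h2
  have h3 : x * v * x⁻¹ = a := by
    rw [← hav]
    simp only [MulEquiv.coe_toMonoidHom, MulAut.conj_apply]
    group
  rwa [h3]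

theorem Z₀_le_jV [Finite G] : omegaCenterOf J ≤ jV S J K := by
  intro z hz
  rw [mem_jV]
  intro A hA _
  obtain ⟨h1, h2, h3⟩ := omegaCenter_mem hz
  apply hA.mem_of_commute (hJS h1) (by rw [pow_two]; exact h3)
  intro a ha
  exact h2 a (h.maxEA_le hS hJS hA ha)

theorem W_le_jV [Finite G] : wOf K ≤ jV S J K := by
  intro w hw
  rw [mem_jV]
  intro A hA hAD
  apply hA.mem_of_commute (h.jD_le hS hJS (h.W_le_jD hw)) (by rw [pow_two]; exact h.hWsq w hw)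
  intro a ha
  exact ((mem_jD.mp (hAD ha)).2 w hw).symm

theorem act_maxEA [Finite G] {A : Subgroup G} (hA : MaxEA S A) {a v : G} (ha : a ∈ A) (hv : v ∈ jV S J K) :
    a * v * a⁻¹ = v ∨ a * v * a⁻¹ = w₁ * v := by
  have hAJ := h.maxEA_le hS hJS hA
  by_cases hmv : ∃ a' ∈ A, a' * w₂ * a'⁻¹ ≠ w₂
  · obtain ⟨a', ha', hne⟩ := hmv
    obtain ⟨h1, h2⟩ := h.replW hS hJS hA ha' hne
    have hvm := mem_jV.mp hv _ h1 h2
    have hcomm : ∀ b ∈ A ⊓ Subgroup.centralizer ({w₂} : Set G), ∀ w ∈ wOf K, b * w = w * b := by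
      intro b hb w hw
      have hb2 : b * w₂ = w₂ * b := Subgroup.mem_centralizer_singleton_iff.mp hb.2
      have h3 := h.fix_of_fix_w₂ (hAJ hb.1) (by rw [hb2]; group) hw
      exact mul_inv_eq_iff_eq_mul.mp h3
    obtain ⟨b, hb, w, hw, rfl⟩ := Cfsg.Agent.Lib.OddOrderCore.mem_sup_of_commute hcomm hvm
    have hab : a * b * a⁻¹ = b := by
      rw [ea_comm hA.2.1 ha hb.1]
      group
    have e : a * (b * w) * a⁻¹ = (a * b * a⁻¹) * (a * w * a⁻¹) := by group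
    rw [e, hab]
    rcases h.fix_or (hAJ ha) hw with e2 | e2
    · left; rw [e2]
    · right
      rw [e2]
      have h5 : b * w₁ = w₁ * b := mul_inv_eq_iff_eq_mul.mp (h.hJw₁ b (hAJ hb.1))
      rw [← mul_assoc, h5, mul_assoc]
  · push Not at hmv
    have hAD : A ≤ jD J K := fun a' ha' => mem_jD.mpr ⟨h.J_le (hAJ ha'),
      fun w hw => (mul_inv_eq_iff_eq_mul.mp (h.fix_of_fix_w₂ (hAJ ha') (hmv a' ha') hw)).symm⟩
    left
    rw [ea_comm hA.2.1 ha (mem_jV.mp hv A hA hAD)]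
    group

theorem act_J [Finite G] {j v : G} (hj : j ∈ J) (hv : v ∈ jV S J K) :
    j * v * j⁻¹ = v ∨ j * v * j⁻¹ = w₁ * v := by
  have s1 := h.hWsq w₁ h.hw₁
  let N : Subgroup G :=
    { carrier := {x | x ∈ K ⊔ J ∧ x * w₁ * x⁻¹ = w₁ ∧ ∀ v ∈ jV S J K, x * v * x⁻¹ = v ∨ x * v * x⁻¹ = w₁ * v}
      one_mem' := ⟨Subgroup.one_mem _, by simp, fun v _ => Or.inl (by simp)⟩
      mul_mem' := by
        rintro x y ⟨hx, hx1, hx2⟩ ⟨hy, hy1, hy2⟩
        refine ⟨Subgroup.mul_mem _ hx hy, ?_, ?_⟩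
        · have e : x * y * w₁ * (x * y)⁻¹ = x * (y * w₁ * y⁻¹) * x⁻¹ := by group
          rw [e, hy1, hx1]
        · intro v hv
          have e : x * y * v * (x * y)⁻¹ = x * (y * v * y⁻¹) * x⁻¹ := by group
          rw [e]
          rcases hy2 v hv with e2 | e2
          · rw [e2]; exact hx2 v hv
          · rw [e2]
            have e3 : x * (w₁ * v) * x⁻¹ = (x * w₁ * x⁻¹) * (x * v * x⁻¹) := by group
            rw [e3, hx1]
            rcases hx2 v hv with e4 | e4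
            · right; rw [e4]
            · left; rw [e4, ← mul_assoc, s1, one_mul]
      inv_mem' := by
        rintro x ⟨hx, hx1, hx2⟩
        refine ⟨Subgroup.inv_mem _ hx, ?_, ?_⟩
        · have e : x⁻¹ * (x * w₁ * x⁻¹) * x⁻¹⁻¹ = w₁ := by group
          rw [hx1] at e
          exact e
        · intro v hv
          have hx' := Subgroup.inv_mem _ hx
          have hv' : x⁻¹ * v * x⁻¹⁻¹ ∈ jV S J K := h.jV_conj hS hJS hx' hv
          have e : x * (x⁻¹ * v * x⁻¹⁻¹) * x⁻¹ = v := by group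
          rcases hx2 _ hv' with e2 | e2
          · left
            exact e2.symm.trans e
          · right
            have e3 : w₁ * (x⁻¹ * v * x⁻¹⁻¹) = v := e2.symm.trans e
            calc x⁻¹ * v * x⁻¹⁻¹ = (w₁ * w₁) * (x⁻¹ * v * x⁻¹⁻¹) := by rw [s1, one_mul]
              _ = w₁ * (w₁ * (x⁻¹ * v * x⁻¹⁻¹)) := by group
              _ = w₁ * v := by rw [e3] }
  have hle : J ≤ N := by
    apply h.J_le_of_maxEA hS hJS
    intro A hA a ha
    have haJ := h.maxEA_le hS hJS hA ha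
    exact ⟨h.J_le haJ, h.hJw₁ a haJ, fun v hv => h.act_maxEA hS hJS hA ha hv⟩
  exact (hle hj).2.2 v hv

theorem comm_V_K [Finite G] {x v : G} (hx : x ∈ K) (hv : v ∈ jV S J K) : x * v * x⁻¹ * v⁻¹ ∈ wOf K := by
  let N : Subgroup G :=
    { carrier := {x | x ∈ K ⊔ J ∧ ∀ v ∈ jV S J K, x * v * x⁻¹ * v⁻¹ ∈ wOf K}
      one_mem' := ⟨Subgroup.one_mem _, fun v _ => by simp⟩
      mul_mem' := by
        rintro a b ⟨ha, ha2⟩ ⟨hb, hb2⟩
        refine ⟨Subgroup.mul_mem _ ha hb, fun v hv => ?_⟩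
        have e : a * b * v * (a * b)⁻¹ * v⁻¹ =
            (a * (b * v * b⁻¹ * v⁻¹) * a⁻¹) * (a * v * a⁻¹ * v⁻¹) := by group
        rw [e]
        exact Subgroup.mul_mem _ (h.conjW ha (hb2 v hv)) (ha2 v hv)
      inv_mem' := by
        rintro a ⟨ha, ha2⟩
        have ha' := Subgroup.inv_mem _ ha
        refine ⟨ha', fun v hv => ?_⟩
        have hv' := h.jV_conj hS hJS ha' hv
        have h1 := ha2 _ hv'
        have e : a⁻¹ * v * a⁻¹⁻¹ * v⁻¹ =
            (a * (a⁻¹ * v * a⁻¹⁻¹) * a⁻¹ * (a⁻¹ * v * a⁻¹⁻¹)⁻¹)⁻¹ := by group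
        rw [e]
        exact Subgroup.inv_mem _ h1 }
  have hconj : ∀ g ∈ K ⊔ J, ∀ a ∈ N, g * a * g⁻¹ ∈ N := by
    rintro g hg a ⟨ha, ha2⟩
    refine ⟨Subgroup.mul_mem _ (Subgroup.mul_mem _ hg ha) (Subgroup.inv_mem _ hg), fun v hv => ?_⟩
    have hg' := Subgroup.inv_mem _ hg
    have hv' := h.jV_conj hS hJS hg' hv
    have h1 := ha2 _ hv'
    have h2 := h.conjW hg h1
    have e : g * a * g⁻¹ * v * (g * a * g⁻¹)⁻¹ * v⁻¹ =
        g * (a * (g⁻¹ * v * g⁻¹⁻¹) * a⁻¹ * (g⁻¹ * v * g⁻¹⁻¹)⁻¹) * g⁻¹ := by group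
    rw [e]
    exact h2
  have hJN : J ≤ N := by
    intro j hj
    refine ⟨h.J_le hj, fun v hv => ?_⟩
    rcases h.act_J hS hJS hj hv with e | e
    · rw [e]; simp
    · rw [e]; simpa using h.hw₁
  have hKN : ⁅K, J⁆ ≤ N := by
    rw [Subgroup.commutator_le]
    intro a ha j hj
    rw [commutatorElement_def]
    exact N.mul_mem (hconj a (h.K_le ha) j (hJN hj)) (N.inv_mem (hJN hj))
  rw [h.hKJ] at hKN
  exact (hKN hx).2 v hv

/-- `[z, p] ∈ ⟨w₁⟩`. -/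
theorem comm_one_or [Finite G] {z p : G} (hz : z ∈ omegaCenterOf J) (hp : p ∈ pCoreOf 2 K) :
    p * z * p⁻¹ * z⁻¹ = 1 ∨ p * z * p⁻¹ * z⁻¹ = w₁ := by
  obtain ⟨hzJ, hzc, hzz⟩ := omegaCenter_mem hz
  have hzV := h.Z₀_le_jV hS hJS hz
  have huW : p * z * p⁻¹ * z⁻¹ ∈ wOf K := h.comm_V_K hS hJS (h.hPK hp) hzV
  set u : G := p * z * p⁻¹ * z⁻¹ with hu
  obtain ⟨j₀, hj₀, hmv⟩ := h.hmove
  apply h.mem_of_fix hj₀ hmv huW
  have hpS : p ∈ S := h.jD_le hS hJS (h.P_le_jD hp)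
  have hcJ : p * j₀ * p⁻¹ * j₀⁻¹ ∈ J := J.mul_mem (h.conj_J hS hJS hpS hj₀) (J.inv_mem hj₀)
  have hcz := hzc _ hcJ
  have hpu : p * u = u * p := wOf_commute_pCoreOf hp huW
  have huu : u⁻¹ = u := h.w_inv huW
  have h1 : p * z * p⁻¹ = u * z := by rw [hu]; group
  have h2 : p⁻¹ * z * p = u⁻¹ * z := by
    have h3 : p⁻¹ * u = u * p⁻¹ := by
      have : Commute p u := hpu
      exact this.inv_left.eq
    calc p⁻¹ * z * p = p⁻¹ * (u⁻¹ * (u * z)) * p := by group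
      _ = p⁻¹ * (u⁻¹ * (p * z * p⁻¹)) * p := by rw [h1]
      _ = (p⁻¹ * u⁻¹ * p) * z := by group
      _ = u⁻¹ * z := by
        have h4 : p⁻¹ * u⁻¹ * p = u⁻¹ := by
          rw [huu, h3]; group
        rw [h4]
  have hj : j₀⁻¹ * z * j₀ = z := by
    have := hzc j₀ hj₀
    calc j₀⁻¹ * z * j₀ = j₀⁻¹ * (z * j₀) := by group
      _ = j₀⁻¹ * (j₀ * z) := by rw [this]
      _ = z := by group
  have hj2 : j₀ * z * j₀⁻¹ = z := by
    rw [hzc j₀ hj₀]; group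
  set t : G := j₀ * u⁻¹ * j₀⁻¹ with ht
  have htW : t ∈ wOf K := h.conjW (h.J_le hj₀) (Subgroup.inv_mem _ huW)
  have hpt : p * t * p⁻¹ = t := by
    rw [wOf_commute_pCoreOf hp htW]; group
  have hkey : (p * j₀ * p⁻¹ * j₀⁻¹) * z * (p * j₀ * p⁻¹ * j₀⁻¹)⁻¹ = t * (u * z) := by
    calc (p * j₀ * p⁻¹ * j₀⁻¹) * z * (p * j₀ * p⁻¹ * j₀⁻¹)⁻¹
        = p * j₀ * p⁻¹ * (j₀⁻¹ * z * j₀) * p * j₀⁻¹ * p⁻¹ := by group
      _ = p * j₀ * (p⁻¹ * z * p) * j₀⁻¹ * p⁻¹ := by rw [hj]; group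
      _ = p * (j₀ * u⁻¹ * j₀⁻¹) * (j₀ * z * j₀⁻¹) * p⁻¹ := by rw [h2]; group
      _ = p * t * p⁻¹ * (p * z * p⁻¹) := by rw [hj2, ht]; group
      _ = t * (u * z) := by rw [hpt, h1]
  have h5 : (p * j₀ * p⁻¹ * j₀⁻¹) * z * (p * j₀ * p⁻¹ * j₀⁻¹)⁻¹ = z := by
    rw [hcz]; group
  rw [h5] at hkey
  have h6 : t * u = 1 := by
    have : (t * u) * z = 1 * z := by rw [one_mul, mul_assoc]; exact hkey.symm
    exact mul_right_cancel this
  -- so `t = u`
  have h7 : t = u := by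
    calc t = t * (u * u) := by rw [h.hWsq u huW, mul_one]
      _ = (t * u) * u := by group
      _ = u := by rw [h6, one_mul]
  rw [ht, huu] at h7
  exact h7

theorem commute_P [Finite G] {z p : G} (hz : z ∈ omegaCenterOf J) (hp : p ∈ pCoreOf 2 K) :
    p * z = z * p := by
  have hzV := h.Z₀_le_jV hS hJS hz
  have hk' : k⁻¹ ∈ K := K.inv_mem h.hkK
  have hp' : k * p * k⁻¹ ∈ pCoreOf 2 K := conj_mem_pCoreOf (Subgroup.le_normalizer h.hkK) hp
  have hyW : k⁻¹ * z * k⁻¹⁻¹ * z⁻¹ ∈ wOf K := h.comm_V_K hS hJS hk' hzV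
  set y : G := k⁻¹ * z * k⁻¹⁻¹ * z⁻¹ with hy
  have huW : p * z * p⁻¹ * z⁻¹ ∈ wOf K := h.comm_V_K hS hJS (h.hPK hp) hzV
  set u : G := p * z * p⁻¹ * z⁻¹ with hu
  have hkN := Subgroup.le_normalizer (H := K) h.hkK
  have hy'W : k * y * k⁻¹ ∈ wOf K := conj_mem_wOf hkN hyW
  have hu'W : k * u * k⁻¹ ∈ wOf K := conj_mem_wOf hkN huW
  have h1 : k⁻¹ * z * k = y * z := by rw [hy]; group
  have h2 : k * z * k⁻¹ = (k * y * k⁻¹)⁻¹ * z := by
    have h3 : z = k * (y * z) * k⁻¹ := by rw [← h1]; group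
    calc k * z * k⁻¹ = (k * y * k⁻¹)⁻¹ * (k * (y * z) * k⁻¹) := by group
      _ = (k * y * k⁻¹)⁻¹ * z := by rw [← h3]
  have hpy : p * y * p⁻¹ = y := by
    rw [wOf_commute_pCoreOf hp hyW]; group
  have h4 : p * z * p⁻¹ = u * z := by rw [hu]; group
  have e : (k * p * k⁻¹) * z * (k * p * k⁻¹)⁻¹ * z⁻¹ = k * u * k⁻¹ := by
    calc (k * p * k⁻¹) * z * (k * p * k⁻¹)⁻¹ * z⁻¹
        = k * p * (k⁻¹ * z * k) * p⁻¹ * k⁻¹ * z⁻¹ := by group
      _ = k * ((p * y * p⁻¹) * (p * z * p⁻¹)) * k⁻¹ * z⁻¹ := by rw [h1]; group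
      _ = (k * y * k⁻¹) * (k * u * k⁻¹) * (k * z * k⁻¹) * z⁻¹ := by rw [hpy, h4]; group
      _ = (k * y * k⁻¹) * (k * u * k⁻¹) * (k * y * k⁻¹)⁻¹ := by rw [h2]; group
      _ = k * u * k⁻¹ := by
        rw [wOf_comm hy'W hu'W]; group
  have h5 := h.comm_one_or hS hJS hz hp'
  rw [e] at h5
  have h6 := h.comm_one_or hS hJS hz hp
  have hu1 : u = 1 := by
    rcases h6 with h6 | h6
    · exact h6
    · exfalso
      rw [← hu] at h6
      rw [h6, h.hw₂] at h5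
      rcases h5 with h5 | h5
      · exact h.hw₂1 h5
      · exact h.hw₁₂ h5.symm
  rw [hu] at hu1
  have h7 : p * z * p⁻¹ = z := by
    have := congrArg (fun t => t * z) hu1
    simpa using this
  calc p * z = (p * z * p⁻¹) * p := by group
    _ = z * p := by rw [h7]

/-- The key decomposition of `Ω₁(Z(J))`. -/
theorem Z₀_decomp [Finite G] {z : G} (hz : z ∈ omegaCenterOf J) :
    ∃ c w : G, c ∈ omegaCenterOf J ∧ c ∈ K ⊔ J ∧ (∀ x ∈ K ⊔ J, x * c = c * x) ∧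
      w ∈ omegaCenterOf J ∧ w ∈ wOf K ∧ z = c * w := by
  obtain ⟨hzJ, hzc, hzz⟩ := omegaCenter_mem hz
  have hzV := h.Z₀_le_jV hS hJS hz
  have hy : k * z * k⁻¹ * z⁻¹ ∈ wOf K := h.comm_V_K hS hJS h.hkK hzV
  set y : G := k * z * k⁻¹ * z⁻¹ with hydef
  have hkN := Subgroup.le_normalizer (H := K) h.hkK
  have hwW : k * y * k⁻¹ ∈ wOf K := conj_mem_wOf hkN hy
  set w : G := k * y * k⁻¹ with hwdef
  have hwJ : w ∈ J := h.W_le_J hS hJS hwW
  have hwz : w * z = z * w := (hzc w hwJ)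
  have hww := h.hWsq w hwW
  set c : G := w * z with hcdef
  have hkz : k * z * k⁻¹ = y * z := by rw [hydef]; group
  have hkw : k * w * k⁻¹ * y = w := h.norm_k hy
  have hkc : k * c * k⁻¹ = c := by
    have e : k * c * k⁻¹ = (k * w * k⁻¹) * (k * z * k⁻¹) := by rw [hcdef]; group
    rw [e, hkz, ← mul_assoc, hkw]
  have hpc : ∀ p ∈ pCoreOf 2 K, p * c = c * p := by
    intro p hp
    rw [hcdef]
    calc p * (w * z) = (p * w) * z := by group
      _ = (w * p) * z := by rw [wOf_commute_pCoreOf hp hwW]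
      _ = w * (p * z) := by group
      _ = w * (z * p) := by rw [h.commute_P hS hJS hz hp]
      _ = _ := by group
  have hKc : ∀ x ∈ K, x * c = c * x := by
    have hle : pCoreOf 2 K ⊔ Subgroup.zpowers k ≤ Subgroup.centralizer ({c} : Set G) := by
      apply sup_le
      · intro p hp
        rw [Subgroup.mem_centralizer_singleton_iff]
        exact hpc p hp
      · rw [Subgroup.zpowers_le, Subgroup.mem_centralizer_singleton_iff]
        exact mul_inv_eq_iff_eq_mul.mp hkc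
    intro x hx
    exact Subgroup.mem_centralizer_singleton_iff.mp (hle (h.hKle hx))
  -- `J` fixes `c`
  have hJc : ∀ j ∈ J, j * w * j⁻¹ * w⁻¹ = 1 := by
    intro j hj
    have he : j * w * j⁻¹ * w⁻¹ ∈ wOf K :=
      Subgroup.mul_mem _ (h.conjW (h.J_le hj) hwW) (Subgroup.inv_mem _ hwW)
    apply h.hfpf _ he
    -- `k` fixes `(j c j⁻¹) c⁻¹`
    have hjz : j * z * j⁻¹ = z := by rw [hzc j hj]; group
    have he2 : j * w * j⁻¹ * w⁻¹ = (j * c * j⁻¹) * c⁻¹ := by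
      have e2 : j * c * j⁻¹ = (j * w * j⁻¹) * (j * z * j⁻¹) := by rw [hcdef]; group
      rw [e2, hjz, hcdef]
      group
    rw [he2]
    have hk1 : k * (j * c * j⁻¹) * k⁻¹ = j * c * j⁻¹ := by
      have hm : j⁻¹ * k * j ∈ K := by
        have := (Subgroup.mem_normalizer_iff.mp (Subgroup.inv_mem _ (h.hJN hj)) k).mp h.hkK
        simpa using this
      have h3 := hKc _ hm
      calc k * (j * c * j⁻¹) * k⁻¹ = j * ((j⁻¹ * k * j) * c) * (j⁻¹ * k * j)⁻¹ * j⁻¹ := by group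
        _ = j * (c * (j⁻¹ * k * j)) * (j⁻¹ * k * j)⁻¹ * j⁻¹ := by rw [h3]
        _ = _ := by group
    have hk2 : k * c⁻¹ * k⁻¹ = c⁻¹ := by
      have e3 : k * c⁻¹ * k⁻¹ = (k * c * k⁻¹)⁻¹ := by group
      rw [e3, hkc]
    have e4 : k * ((j * c * j⁻¹) * c⁻¹) * k⁻¹ = (k * (j * c * j⁻¹) * k⁻¹) * (k * c⁻¹ * k⁻¹) := by group
    rw [e4, hk1, hk2]
  have hJw : ∀ j ∈ J, j * w = w * j := by
    intro j hj
    have h3 := hJc j hj
    have h4 : j * w * j⁻¹ = w := by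
      have := congrArg (fun t => t * w) h3
      simpa using this
    exact mul_inv_eq_iff_eq_mul.mp h4
  have hwZ : w ∈ omegaCenterOf J := mem_omegaCenter hwJ hJw hww
  have hcJ : c ∈ J := J.mul_mem hwJ hzJ
  have hJc' : ∀ j ∈ J, j * c = c * j := by
    intro j hj
    rw [hcdef]
    calc j * (w * z) = (j * w) * z := by group
      _ = w * (j * z) := by rw [hJw j hj]; group
      _ = w * (z * j) := by rw [hzc j hj]
      _ = _ := by group
  have hcc : c * c = 1 := by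
    rw [hcdef]
    calc w * z * (w * z) = w * (z * w) * z := by group
      _ = (w * w) * (z * z) := by rw [← hwz, hcdef]; group
      _ = 1 := by rw [hww, hzz, one_mul]
  have hcZ : c ∈ omegaCenterOf J := mem_omegaCenter hcJ hJc' hcc
  refine ⟨c, w, hcZ, h.J_le hcJ, ?_, hwZ, hwW, ?_⟩
  · intro x hx
    have hle : K ⊔ J ≤ Subgroup.centralizer ({c} : Set G) := by
      apply sup_le
      · intro a ha
        rw [Subgroup.mem_centralizer_singleton_iff]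
        exact hKc a ha
      · intro a ha
        rw [Subgroup.mem_centralizer_singleton_iff]
        exact hJc' a ha
    exact Subgroup.mem_centralizer_singleton_iff.mp (hle hx)
  · rw [hwz, mul_assoc, hww, mul_one]

end sylow

/-- `Z₀ ∩ W_K` has order 2 and `Z₀ = (Z₀ ∩ Z(X)) (Z₀ ∩ W_K)`. -/
theorem main [Finite G] (h : JCS J K k w₁ w₂) :
    Nat.card ↥(omegaCenterOf J ⊓ wOf K) = 2 ∧
      (omegaCenterOf J ⊓ ((K ⊔ J) ⊓ Subgroup.centralizer ((K : Set G) ⊔ (J : Set G)))) ⊔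
        (omegaCenterOf J ⊓ wOf K) = omegaCenterOf J := by
  obtain ⟨S, hJS, hS⟩ := exists_isSylowTwoIn h.J_le h.hJp
  constructor
  · have hw₁Z : w₁ ∈ omegaCenterOf J := by
      apply mem_omegaCenter (h.W_le_J hS hJS h.hw₁) _ (h.hWsq w₁ h.hw₁)
      intro x hx
      exact mul_inv_eq_iff_eq_mul.mp (h.hJw₁ x hx)
    have heq : omegaCenterOf J ⊓ wOf K = Subgroup.zpowers w₁ := by
      apply le_antisymm
      · rintro x ⟨hx1, hx2⟩
        obtain ⟨j₀, hj₀, hmv⟩ := h.hmove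
        have hfix : j₀ * x * j₀⁻¹ = x := by
          rw [(omegaCenter_mem hx1).2.1 j₀ hj₀]; group
        rcases h.mem_of_fix hj₀ hmv hx2 hfix with rfl | rfl
        · exact Subgroup.one_mem _
        · exact Subgroup.mem_zpowers _
      · rw [Subgroup.zpowers_le]
        exact ⟨hw₁Z, h.hw₁⟩
    rw [heq, Nat.card_zpowers]
    exact orderOf_eq_prime (by rw [pow_two]; exact h.hWsq w₁ h.hw₁) h.hw₁1
  · apply le_antisymm
    · exact sup_le inf_le_left inf_le_left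
    · intro z hz
      obtain ⟨c, w, hc1, hc2, hc3, hw1, hw2, rfl⟩ := h.Z₀_decomp hS hJS hz
      apply Subgroup.mul_mem
      · apply Subgroup.mem_sup_left
        refine ⟨hc1, hc2, Subgroup.mem_centralizer_iff.mpr ?_⟩
        rintro x (hx | hx)
        · exact hc3 x (h.K_le hx)
        · exact hc3 x (h.J_le hx)
      · apply Subgroup.mem_sup_right
        exact ⟨hw1, hw2⟩

end JCS

end Cfsg.Agent.Lib.JCompStruct
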