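import Mathlib
import Cfsg.Agent.Lib.FFG19
import Cfsg.Agent.Lib.JCompStruct2
import Cfsg.Agent.S2950
import Cfsg.Agent.S2943

/-!
# Failure of factorization at the level of the group, part 20: hyperplanes and top `2`-locals
-/

set_option autoImplicit false
set_option linter.unusedSectionVars false

open Cfsg
open scoped commutatorElement

namespace Cfsg.Agent.Lib.FFG

open Cfsg.Agent.Lib.FFAct Cfsg.Agent.Lib.PCore Cfsg.Agent.Lib.JCompStruct Cfsg.Agent.Lib.ThompsonJ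
open Cfsg.Agent.Lib.BGFit2

variable {G : Type*} [Group G] [Finite G]

section Basic

variable {J K : Subgroup G} {k w₁ w₂ : G}

theorem jcs_W_le_J (h : JCS J K k w₁ w₂) : wOf K ≤ J := by
  obtain ⟨S, hJS, hS⟩ := exists_isSylowTwoIn h.J_le h.hJp
  exact h.W_le_J hS hJS

theorem jcs_w₁_omega (h : JCS J K k w₁ w₂) : w₁ ∈ omegaCenterOf J := by
  apply mem_omegaCenter (jcs_W_le_J h h.hw₁) _ (h.hWsq w₁ h.hw₁)
  intro x hx
  exact mul_inv_eq_iff_eq_mul.mp (h.hJw₁ x hx)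

/-- The hyperplane `Z₀ ∩ C(K)` of `Z₀`. -/
def hpl (J K : Subgroup G) : Subgroup G := omegaCenterOf J ⊓ Subgroup.centralizer (K : Set G)

theorem mem_hpl {c : G} : c ∈ hpl J K ↔ c ∈ omegaCenterOf J ∧ ∀ x ∈ K, x * c = c * x := by
  rw [hpl, Subgroup.mem_inf, Subgroup.mem_centralizer_iff]
  simp only [SetLike.mem_coe]

theorem jcs_decomp (h : JCS J K k w₁ w₂) {z : G} (hz : z ∈ omegaCenterOf J) : z ∈ hpl J K ∨ z * w₁ ∈ hpl J K := by
  obtain ⟨S, hJS, hS⟩ := exists_isSylowTwoIn h.J_le h.hJp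
  obtain ⟨c, w, hc1, hc2, hc3, hw1, hw2, rfl⟩ := h.Z₀_decomp hS hJS hz
  have hcK : c ∈ hpl J K := mem_hpl.mpr ⟨hc1, fun x hx => hc3 x (h.K_le hx)⟩
  obtain ⟨j₀, hj₀, hmv⟩ := h.hmove
  have hfix : j₀ * w * j₀⁻¹ = w := by
    rw [(omegaCenter_mem hw1).2.1 j₀ hj₀]; group
  rcases h.mem_of_fix hj₀ hmv hw2 hfix with rfl | rfl
  · left; simpa using hcK
  · right
    have e : c * w * w = c * (w * w) := by group
    rw [e, h.hWsq _ h.hw₁, mul_one]
    exact hcK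

theorem jcs_w₁_not_hpl (h : JCS J K k w₁ w₂) : w₁ ∉ hpl J K := by
  intro hw
  have h1 := (mem_hpl.mp hw).2 k h.hkK
  apply h.hw₁₂
  rw [← h.hw₂, h1]; group

theorem omega_sq {z : G} (hz : z ∈ omegaCenterOf J) : z * z = 1 := (omegaCenter_mem hz).2.2

theorem omega_comm {a b : G} (ha : a ∈ omegaCenterOf J) (hb : b ∈ omegaCenterOf J) : a * b = b * a :=
  (omegaCenter_mem hb).2.1 a (omegaCenter_mem ha).1

theorem omega_inv {z : G} (hz : z ∈ omegaCenterOf J) : z⁻¹ = z := inv_eq_of_mul_eq_one_left (omega_sq hz)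

/-- `K = [K, J]` is not inside the normalizer of a `2`-group containing `J`. -/
theorem jcs_not_le_normalizer (h : JCS J K k w₁ w₂) {P : Subgroup G} (hJP : J ≤ P) (hP : IsPGroup 2 P) :
    ¬ K ≤ Subgroup.normalizer (P : Set G) := by
  intro hle
  have h1 : ⁅K, J⁆ ≤ P := by
    rw [Subgroup.commutator_le]
    intro κ hκ j hj
    have h2 := (Subgroup.mem_normalizer_iff.mp (hle hκ) j).mp (hJP hj)
    rw [commutatorElement_def]
    exact P.mul_mem h2 (P.inv_mem (hJP hj))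
  rw [h.hKJ] at h1
  obtain ⟨n, hn⟩ := hP ⟨k, h1 h.hkK⟩
  have h2 : k ^ (2 ^ n) = 1 := by
    have := congrArg Subtype.val hn
    simpa using this
  exact h.hk1 (eq_one_of_cube_of_two_pow h.hk3 h2)

theorem omega_le_Z₀ (T : Subgroup G) : omegaCenterOf T ≤ omegaCenterOf (thompsonSubgroupOf 2 T) := by
  intro z hz
  obtain ⟨hzT, hzc, hzz⟩ := omegaCenter_mem hz
  have hzz' : z ^ 2 = 1 := by rw [pow_two]; exact hzz
  have hzJ : z ∈ thompsonSubgroupOf 2 T := by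
    obtain ⟨A, hA⟩ := exists_maxEA T
    apply hA.le_thompson
    exact hA.mem_of_commute hzT hzz' (fun a ha => hzc a (hA.1 ha))
  exact mem_omegaCenter hzJ (fun j hj => hzc j (Cfsg.Agent.Lib.JCompBasic.thompsonSubgroupOf_le 2 T hj)) hzz

theorem omega_le_omega {T S : Subgroup G} (hTS : T ≤ S) (hC : Subgroup.centralizer (T : Set G) ≤ T) :
    omegaCenterOf S ≤ omegaCenterOf T := by
  intro z hz
  obtain ⟨hzS, hzc, hzz⟩ := omegaCenter_mem hz
  refine mem_omegaCenter (hC ?_) (fun t ht => hzc t (hTS ht)) hzz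
  rw [Subgroup.mem_centralizer_iff]
  intro t ht
  exact (hzc t (hTS ht))

theorem centralizer_le_of_jover {T L : Subgroup G} (hLT : L ∈ jOvergroups T) :
    Subgroup.centralizer (T : Set G) ≤ T := by
  have h1 : pCoreOf 2 L ≤ T := core_le_sylow hLT.1
  exact (Subgroup.centralizer_le (SetLike.coe_subset_coe.mpr h1)).trans (hLT.2.2.trans h1)

theorem not_le_centralizer_omega (Z : ZNH G) (h : JCS J K k w₁ w₂) (S : Sylow 2 G) (hJS : J ≤ (S : Subgroup G)) :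
    ¬ K ≤ Subgroup.centralizer (omegaCenterOf (S : Subgroup G) : Set G) := by
  intro hle
  exact jcs_not_le_normalizer h hJS S.isPGroup' (hle.trans (Z.hZ S))

/-- Centralizers of involutions are `2`-local. -/
theorem centralizer_eq_normalizer {c : G} (hc : c * c = 1) (hc1 : c ≠ 1) :
    Subgroup.centralizer ({c} : Set G) = Subgroup.normalizer (Subgroup.zpowers c : Set G) := by
  have hmem : ∀ x ∈ Subgroup.zpowers c, x = 1 ∨ x = c := by
    intro x hx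
    obtain ⟨n, rfl⟩ := Subgroup.mem_zpowers_iff.mp hx
    have h2 : orderOf c = 2 := orderOf_eq_prime (by rw [pow_two]; exact hc) hc1
    have h3 : c ^ n = c ^ (n % 2) := by
      conv_lhs => rw [← Int.mul_ediv_add_emod n 2]
      rw [zpow_add, zpow_mul]
      have : c ^ (2 : ℤ) = 1 := by
        rw [zpow_ofNat, pow_two]; exact hc
      rw [this, one_zpow, one_mul]
    rw [h3]
    rcases Int.emod_two_eq_zero_or_one n with h4 | h4
    · left; rw [h4]; simp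
    · right; rw [h4]; simp
  apply le_antisymm
  · intro g hg
    apply Cfsg.Agent.Lib.Subnormal.mem_normalizer_of_conj_mem
    intro d hd
    rcases hmem d hd with rfl | rfl
    · simp [Subgroup.one_mem]
    · have h1 := Subgroup.mem_centralizer_singleton_iff.mp hg
      rw [h1]
      simpa using Subgroup.mem_zpowers d
  · intro g hg
    rw [Subgroup.mem_centralizer_singleton_iff]
    have h1 := (Subgroup.mem_normalizer_iff.mp hg c).mp (Subgroup.mem_zpowers c)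
    rcases hmem _ h1 with h2 | h2
    · exfalso
      apply hc1
      have h3 : g⁻¹ * (g * c * g⁻¹) * g = g⁻¹ * 1 * g := by rw [h2]
      have h4 : g⁻¹ * (g * c * g⁻¹) * g = c := by group
      rw [h4] at h3
      simpa using h3
    · exact mul_inv_eq_iff_eq_mul.mp h2

theorem twoLocal_centralizer {c : G} (hc : c * c = 1) (hc1 : c ≠ 1) : IsTwoLocal (Subgroup.centralizer ({c} : Set G)) := by
  refine ⟨Subgroup.zpowers c, ?_, ?_, centralizer_eq_normalizer hc hc1⟩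
  · have h2 : c ^ 2 = 1 := by rw [pow_two]; exact hc
    haveI : Fact (Nat.Prime 2) := ⟨Nat.prime_two⟩
    apply IsPGroup.iff_card.mpr
    refine ⟨1, ?_⟩
    rw [Nat.card_zpowers, pow_one]
    exact orderOf_eq_prime h2 hc1
  · intro h
    apply hc1
    have := Subgroup.mem_zpowers c
    rw [h] at this
    exact Subgroup.mem_bot.mp this

theorem isTwoLocal_cj {L : Subgroup G} (hL : IsTwoLocal L) (g : G) : IsTwoLocal (cj g L) := by
  obtain ⟨Q, hQ, hQ1, rfl⟩ := hL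
  refine ⟨cj g Q, cj_isPGroup hQ, ?_, (normalizer_cj g Q).symm⟩
  intro h
  apply hQ1
  have h2 := congrArg (cj g⁻¹) h
  rw [cj_inv_cj] at h2
  rw [h2]
  simp

theorem isMaximalTwoLocal_cj {L : Subgroup G} (hL : IsMaximalTwoLocal L) (g : G) : IsMaximalTwoLocal (cj g L) := by
  refine ⟨isTwoLocal_cj hL.1 g, ?_⟩
  intro N hN hLN
  have h1 := hL.2 (cj g⁻¹ N) (isTwoLocal_cj hN g⁻¹) (by
    have := cj_mono (g := g⁻¹) hLN
    rwa [cj_inv_cj] at this)
  have h2 := congrArg (cj g) h1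
  rwa [cj_cj_inv] at h2

theorem maxLocal_normalizer_le {L : Subgroup G} (hL : IsMaximalTwoLocal L) : Subgroup.normalizer (L : Set G) ≤ L := by
  haveI : Fact (Nat.Prime 2) := ⟨Nat.prime_two⟩
  have h1 : pCoreOf 2 L ≠ ⊥ := by
    obtain ⟨Q, hQ, hQ1, hLe⟩ := hL.1
    intro hb
    apply hQ1
    have h2 : Q ≤ pCoreOf 2 L := by
      apply le_pCoreOf _ _ hQ
      · rw [hLe]; exact Subgroup.le_normalizer
      · rw [hLe]
    rw [hb, le_bot_iff] at h2
    exact h2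
  have h2 : IsTwoLocal (Subgroup.normalizer (pCoreOf 2 L : Set G)) := ⟨_, isPGroup_pCoreOf 2 L, h1, rfl⟩
  have h3 := hL.2 _ h2 (le_normalizer_pCoreOf 2 L)
  intro g hg
  have h4 := normalizer_le_normalizer_pCoreOf 2 L hg
  rwa [h3] at h4

theorem isSylowTwoIn_of_le {T L X : Subgroup G} (hT : IsSylowTwoIn T L) (hTX : T ≤ X) (hXL : X ≤ L) : IsSylowTwoIn T X := by
  refine ⟨hTX, hT.2.1, ?_⟩
  have h3 := Subgroup.relIndex_mul_relIndex T X L hTX hXL
  have h4 := hT.2.2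
  rw [← h3] at h4
  exact (Nat.odd_mul.mp h4).1

end Basic

section Top

/-- `L` is the unique top of the `2`-locals containing `K ⊔ J`. -/
structure TopOf (J K L : Subgroup G) : Prop where
  hL : IsMaximalTwoLocal L
  hKJ : K ⊔ J ≤ L
  htop : ∀ X, IsTwoLocal X → K ⊔ J ≤ X → X ≤ L

variable {J K K' L L' : Subgroup G}

theorem TopOf.K_le (ht : TopOf J K L) : K ≤ L := le_sup_left.trans ht.hKJ

theorem TopOf.J_le (ht : TopOf J K L) : J ≤ L := le_sup_right.trans ht.hKJ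

theorem TopOf.conj (ht : TopOf J K L) {y : G} (hy : y ∈ Subgroup.normalizer (J : Set G)) : TopOf J (cj y K) (cj y L) := by
  have hJ : cj y J = J := cj_eq_of_mem_normalizer hy
  have hJ' : cj y⁻¹ J = J := cj_eq_of_mem_normalizer (Subgroup.inv_mem _ hy)
  refine ⟨isMaximalTwoLocal_cj ht.hL y, ?_, ?_⟩
  · apply sup_le (cj_mono ht.K_le)
    have := cj_mono (g := y) ht.J_le
    rwa [hJ] at this
  · intro X hX hKX
    have h1 : K ⊔ J ≤ cj y⁻¹ X := by
      apply sup_le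
      · have := cj_mono (g := y⁻¹) (le_sup_left.trans hKX)
        rwa [cj_inv_cj] at this
      · have := cj_mono (g := y⁻¹) (le_sup_right.trans hKX)
        rwa [hJ'] at this
    have h2 := cj_mono (g := y) (ht.htop _ (isTwoLocal_cj hX y⁻¹) h1)
    rwa [cj_cj_inv] at h2

theorem TopOf.unique (ht : TopOf J K L) (ht' : TopOf J K' L') (h : K' ≤ L) : L' = L :=
  ht.hL.2 L' ht'.hL.1 (ht'.htop L ht.hL.1 (sup_le h ht.J_le))

theorem TopOf.centralizer_le (ht : TopOf J K L) {c : G} (hc : c ∈ hpl J K) (hc1 : c ≠ 1) :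
    Subgroup.centralizer ({c} : Set G) ≤ L := by
  obtain ⟨h1, h2⟩ := mem_hpl.mp hc
  apply ht.htop _ (twoLocal_centralizer (omega_sq h1) hc1)
  apply sup_le
  · intro x hx
    exact Subgroup.mem_centralizer_singleton_iff.mpr (h2 x hx)
  · intro x hx
    exact Subgroup.mem_centralizer_singleton_iff.mpr ((omegaCenter_mem h1).2.1 x hx)

theorem TopOf.not_conj_le (ht : TopOf J K L) {y : G} (hy : y ∈ Subgroup.normalizer (J : Set G)) (hyL : y ∉ L) :
    ¬ cj y K ≤ L := by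
  intro h
  have h1 := ht.unique (ht.conj hy) h
  apply hyL
  apply maxLocal_normalizer_le ht.hL
  apply Cfsg.Agent.Lib.Subnormal.mem_normalizer_of_conj_mem
  intro d hd
  rw [← h1]
  exact conj_mem_cj hd

theorem exists_topOf (Z : ZNH G) (hO : pCore 2 G = ⊥) (S : Sylow 2 G) {M T K : Subgroup G} (hM : IsTwoLocal M)
    (hMJ : Subgroup.normalizer (thompsonSubgroupOf 2 (S : Subgroup G) : Set G) ≤ M) (hT : T ∈ maxStraddlingTwoSubgroups M)
    (hK : K ∈ jComponentsOutside M T) : ∃ L, TopOf (thompsonSubgroupOf 2 T) K L ∧ L ∈ jOvergroups T := by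
  obtain ⟨L₀, hL₀, htop⟩ := MS.exists_top Z hT hMJ hK.1 hK.2.1
  obtain ⟨L, hLmax, hKJL, -, -, hTL⟩ := Cfsg.Agent.S2950.result Z.hL Z.hN Z.hZ hO S M hM hMJ T hT K hK
  have h1 : L₀ = L := hLmax.2 L₀ hL₀ (htop L hLmax.1 hKJL)
  subst h1
  refine ⟨L₀, ⟨hLmax, hKJL, htop⟩, Z.jover_of_two_local hLmax.1 hTL ?_⟩
  intro hle
  exact hK.2.1 ((le_sup_left.trans hKJL).trans (hle.trans (MS.normalizer_le hT hMJ)))

end Top

section Hyper

variable {J K K' : Subgroup G} {k w₁ w₂ k' w₁' w₂' : G}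

theorem conj_mem_hpl {y c : G} (hy : y ∈ Subgroup.normalizer (J : Set G)) (hc : c ∈ hpl J K) :
    y * c * y⁻¹ ∈ hpl J (cj y K) := by
  obtain ⟨h1, h2⟩ := mem_hpl.mp hc
  refine mem_hpl.mpr ⟨?_, ?_⟩
  · apply omegaCenter_conj _ _ h1
    · intro x hx
      exact (Subgroup.mem_normalizer_iff.mp hy x).mp hx
    · intro x hx
      have := (Subgroup.mem_normalizer_iff.mp (Subgroup.inv_mem _ hy) x).mp hx
      simpa using this
  · intro x hx
    rw [mem_cj] at hx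
    have h3 := h2 _ hx
    calc x * (y * c * y⁻¹) = y * ((y⁻¹ * x * y) * c) * y⁻¹ := by group
      _ = y * (c * (y⁻¹ * x * y)) * y⁻¹ := by rw [h3]
      _ = y * c * y⁻¹ * x := by group

/-- Two hyperplanes with trivial intersection. -/
theorem hpl_small (h' : JCS J K' k' w₁' w₂') (hsep : ∀ c ∈ hpl J K, c ∈ hpl J K' → c = 1) {c₁ c₂ : G}
    (hc₁ : c₁ ∈ hpl J K) (hc₂ : c₂ ∈ hpl J K) : c₁ = 1 ∨ c₂ = 1 ∨ c₁ = c₂ := by
  by_cases h1 : c₁ = 1
  · exact Or.inl h1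
  by_cases h2 : c₂ = 1
  · exact Or.inr (Or.inl h2)
  right; right
  have hz₁ := (mem_hpl.mp hc₁).1
  have hz₂ := (mem_hpl.mp hc₂).1
  have hw := jcs_w₁_omega h'
  have h3 := (jcs_decomp h' hz₁).resolve_left (fun hh => h1 (hsep _ hc₁ hh))
  have h4 := (jcs_decomp h' hz₂).resolve_left (fun hh => h2 (hsep _ hc₂ hh))
  have h5 := (hpl J K').mul_mem h3 h4
  have e : c₁ * w₁' * (c₂ * w₁') = c₁ * c₂ := by
    have e2 : w₁' * c₂ = c₂ * w₁' := omega_comm hw hz₂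
    calc c₁ * w₁' * (c₂ * w₁') = c₁ * (w₁' * c₂) * w₁' := by group
      _ = c₁ * (c₂ * w₁') * w₁' := by rw [e2]
      _ = c₁ * c₂ * (w₁' * w₁') := by group
      _ = c₁ * c₂ := by rw [omega_sq hw, mul_one]
  rw [e] at h5
  have h6 := hsep _ ((hpl J K).mul_mem hc₁ hc₂) h5
  have h7 := omega_inv hz₂
  rw [← h7]
  exact eq_inv_of_mul_eq_one_left h6

end Hyper

section Act

variable {J K T : Subgroup G} {k w₁ w₂ : G}

theorem jcs_centralizes (h : JCS J K k w₁ w₂) {g : G} (h1 : g * w₁ * g⁻¹ = w₁) (h2 : g * w₂ * g⁻¹ = w₂) {w : G} (hw : w ∈ wOf K) :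
    g * w = w * g := by
  have h1' : g * w₁ = w₁ * g := mul_inv_eq_iff_eq_mul.mp h1
  have h2' : g * w₂ = w₂ * g := mul_inv_eq_iff_eq_mul.mp h2
  rcases h.hset w hw with rfl | rfl | rfl | rfl
  · simp
  · exact h1'
  · exact h2'
  · calc g * (w₁ * w₂) = (g * w₁) * w₂ := by group
      _ = w₁ * (g * w₂) := by rw [h1']; group
      _ = w₁ * (w₂ * g) := by rw [h2']
      _ = w₁ * w₂ * g := by group

/-- `Q = T ∩ C(W_K)`. -/
def Qof (T K : Subgroup G) : Subgroup G := T ⊓ Subgroup.centralizer (wOf K : Set G)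

theorem mem_Qof {q : G} : q ∈ Qof T K ↔ q ∈ T ∧ ∀ w ∈ wOf K, q * w = w * q := by
  rw [Qof, Subgroup.mem_inf, Subgroup.mem_centralizer_iff]
  constructor
  · rintro ⟨h1, h2⟩
    exact ⟨h1, fun w hw => (h2 w hw).symm⟩
  · rintro ⟨h1, h2⟩
    exact ⟨h1, fun w hw => (h2 w hw).symm⟩

/-- `K ∩ C(W) = O₂(K)`. -/
theorem jcs_inf_le_core (h : JCS J K k w₁ w₂) {u : G} (hu : u ∈ K) (hc : ∀ w ∈ wOf K, u * w = w * u) : u ∈ pCoreOf 2 K := by
  classical
  set D : Subgroup G := K ⊓ Subgroup.centralizer (wOf K : Set G) with hD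
  have hPD : pCoreOf 2 K ≤ D := by
    intro p hp
    refine ⟨h.hPK hp, Subgroup.mem_centralizer_iff.mpr ?_⟩
    intro w hw
    exact (wOf_commute_pCoreOf hp hw).symm
  have hDK : D ≤ K := inf_le_left
  have h1 := Subgroup.relIndex_mul_relIndex (pCoreOf 2 K) D K hPD hDK
  rw [h.hP3] at h1
  have hp3 : Nat.Prime 3 := Nat.prime_three
  have hdvd : (pCoreOf 2 K).relIndex D ∣ 3 := Dvd.intro _ h1
  rcases (Nat.dvd_prime hp3).mp hdvd with h2 | h2
  · have h3 := Subgroup.relIndex_eq_one.mp h2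
    exact h3 ⟨hu, Subgroup.mem_centralizer_iff.mpr (fun w hw => (hc w hw).symm)⟩
  · rw [h2] at h1
    have h3 : D.relIndex K = 1 := by omega
    have h4 := Subgroup.relIndex_eq_one.mp h3
    have h5 := (h4 h.hkK).2
    have h6 := Subgroup.mem_centralizer_iff.mp h5 w₁ h.hw₁
    exfalso
    apply h.hw₁1
    apply h.hfpf w₁ h.hw₁
    rw [← h6]; group

section WithT

variable (h : JCS J K k w₁ w₂) (hTK : T ≤ Subgroup.normalizer (K : Set G)) (hsyl : IsSylowTwoIn T (K ⊔ T))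
  (hTw : ∀ t ∈ T, t * w₁ * t⁻¹ = w₁)

include h hTK hsyl in
theorem jcs_core_le_T : pCoreOf 2 K ≤ T := by
  haveI : Fact (Nat.Prime 2) := ⟨Nat.prime_two⟩
  apply le_of_normal_of_isSylowTwoIn hsyl ((pCoreOf_le 2 K).trans le_sup_left) _ (isPGroup_pCoreOf 2 K)
  intro x hx d hd
  have h1 : K ⊔ T ≤ Subgroup.normalizer (K : Set G) := sup_le Subgroup.le_normalizer hTK
  exact conj_mem_pCoreOf (h1 hx) hd

include h hTK hsyl in
theorem jcs_core_le_Q : pCoreOf 2 K ≤ Qof T K := by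
  intro p hp
  exact mem_Qof.mpr ⟨jcs_core_le_T h hTK hsyl hp, fun w hw => wOf_commute_pCoreOf hp hw⟩

include h hTK hTw in
theorem jcs_T_act {t : G} (ht : t ∈ T) : t * w₂ * t⁻¹ = w₂ ∨ t * w₂ * t⁻¹ = w₁ * w₂ := by
  rcases h.hset _ (conj_mem_wOf (hTK ht) h.hw₂mem) with e | e | e | e
  · exfalso
    apply h.hw₂1
    have h3 : t⁻¹ * (t * w₂ * t⁻¹) * t = t⁻¹ * 1 * t := by rw [e]
    have h4 : t⁻¹ * (t * w₂ * t⁻¹) * t = w₂ := by group
    rw [h4] at h3
    simpa using h3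
  · exfalso
    apply h.hw₁₂
    have h3 := hTw t ht
    have h4 : t * w₂ * t⁻¹ = t * w₁ * t⁻¹ := by rw [h3, e]
    have h5 : w₂ = w₁ := by simpa using h4
    exact h5.symm
  · exact Or.inl e
  · exact Or.inr e

include h hTw in
theorem jcs_Q_of_fix {t : G} (ht : t ∈ T) (h2 : t * w₂ * t⁻¹ = w₂) : t ∈ Qof T K :=
  mem_Qof.mpr ⟨ht, fun _ hw => jcs_centralizes h (hTw t ht) h2 hw⟩

include h hTK hsyl in
theorem jcs_k_conj_Q {q : G} (hq : q ∈ Qof T K) : k * q * k⁻¹ ∈ Qof T K := by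
  obtain ⟨hqT, hqc⟩ := mem_Qof.mp hq
  have hkN : k ∈ Subgroup.normalizer (K : Set G) := Subgroup.le_normalizer h.hkK
  have hqN := hTK hqT
  have hconj : ∀ w ∈ wOf K, (k * q * k⁻¹) * w = w * (k * q * k⁻¹) := by
    intro w hw
    have h1 : k⁻¹ * w * k ∈ wOf K := by
      have := conj_mem_wOf (Subgroup.inv_mem _ hkN) hw
      simpa using this
    have h2 := hqc _ h1
    calc k * q * k⁻¹ * w = k * (q * (k⁻¹ * w * k)) * k⁻¹ := by group
      _ = k * ((k⁻¹ * w * k) * q) * k⁻¹ := by rw [h2]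
      _ = w * (k * q * k⁻¹) := by group
  set u := k * q * k⁻¹ * q⁻¹ with hu
  have huK : u ∈ K := by
    have h1 : q * k⁻¹ * q⁻¹ ∈ K := (Subgroup.mem_normalizer_iff.mp hqN _).mp (K.inv_mem h.hkK)
    have e : u = k * (q * k⁻¹ * q⁻¹) := by rw [hu]; group
    rw [e]
    exact K.mul_mem h.hkK h1
  have huc : ∀ w ∈ wOf K, u * w = w * u := by
    intro w hw
    have h1 := hqc w hw
    have h2 : q⁻¹ * w = w * q⁻¹ := by
      calc q⁻¹ * w = q⁻¹ * (w * q) * q⁻¹ := by group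
        _ = q⁻¹ * (q * w) * q⁻¹ := by rw [h1]
        _ = w * q⁻¹ := by group
    calc u * w = k * q * k⁻¹ * (q⁻¹ * w) := by rw [hu]; group
      _ = k * q * k⁻¹ * (w * q⁻¹) := by rw [h2]
      _ = (k * q * k⁻¹ * w) * q⁻¹ := by group
      _ = (w * (k * q * k⁻¹)) * q⁻¹ := by rw [hconj w hw]
      _ = w * u := by rw [hu]; group
  have h3 : u ∈ T := jcs_core_le_T h hTK hsyl (jcs_inf_le_core h huK huc)
  refine mem_Qof.mpr ⟨?_, hconj⟩
  have e : k * q * k⁻¹ = u * q := by rw [hu]; group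
  rw [e]
  exact T.mul_mem h3 hqT

include h hTK hsyl hTw in
/-- An element of `T` moving `w₂` inverts `k` modulo `Q`. -/
theorem jcs_a_k_mem {a : G} (ha : a ∈ T) (hm : a * w₂ * a⁻¹ ≠ w₂) : a * k * a⁻¹ * k ∈ Qof T K := by
  have hw₁₂m : w₁ * w₂ ∈ wOf K := (wOf K).mul_mem h.hw₁ h.hw₂mem
  have haN := hTK ha
  have ha1 : a * w₂ * a⁻¹ = w₁ * w₂ := (jcs_T_act h hTK hTw ha).resolve_left hm
  have ha₁ : a * w₁ * a⁻¹ = w₁ := hTw a ha
  have hw1w1 : w₁ * w₁ = 1 := h.hWsq _ h.hw₁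
  have ha2 : a * (w₁ * w₂) * a⁻¹ = w₂ := by
    have e : a * (w₁ * w₂) * a⁻¹ = (a * w₁ * a⁻¹) * (a * w₂ * a⁻¹) := by group
    rw [e, ha₁, ha1, ← mul_assoc, hw1w1, one_mul]
  have hi1 : a⁻¹ * w₂ * a = w₁ * w₂ := by
    calc a⁻¹ * w₂ * a = a⁻¹ * (a * (w₁ * w₂) * a⁻¹) * a := by rw [ha2]
      _ = w₁ * w₂ := by group
  have hi2 : a⁻¹ * (w₁ * w₂) * a = w₂ := by
    calc a⁻¹ * (w₁ * w₂) * a = a⁻¹ * (a * w₂ * a⁻¹) * a := by rw [ha1]
      _ = w₂ := by group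
  set u := a * k * a⁻¹ * k with hu
  have huK : u ∈ K := by
    have h1 : a * k * a⁻¹ ∈ K := (Subgroup.mem_normalizer_iff.mp haN _).mp h.hkK
    exact K.mul_mem h1 h.hkK
  have hk₃ := h.hk₃
  have e₁ : u * w₁ * u⁻¹ = w₁ := by
    calc u * w₁ * u⁻¹ = a * k * (a⁻¹ * (k * w₁ * k⁻¹) * a) * k⁻¹ * a⁻¹ := by rw [hu]; group
      _ = a * (k * (w₁ * w₂) * k⁻¹) * a⁻¹ := by rw [h.hw₂, hi1]; group
      _ = w₁ := by rw [hk₃, ha₁]
  have e₂ : u * w₂ * u⁻¹ = w₂ := by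
    calc u * w₂ * u⁻¹ = a * k * (a⁻¹ * (k * w₂ * k⁻¹) * a) * k⁻¹ * a⁻¹ := by rw [hu]; group
      _ = a * k * (a⁻¹ * (w₁ * w₂) * a) * k⁻¹ * a⁻¹ := by rw [h.hk₂]
      _ = a * k * w₂ * k⁻¹ * a⁻¹ := by rw [hi2]
      _ = a * (k * w₂ * k⁻¹) * a⁻¹ := by group
      _ = a * (w₁ * w₂) * a⁻¹ := by rw [h.hk₂]
      _ = w₂ := ha2
  exact jcs_core_le_Q h hTK hsyl (jcs_inf_le_core h huK (fun w hw => jcs_centralizes h e₁ e₂ hw))

include h hTK hTw in
/-- `Q` has index two. -/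
theorem jcs_mul_mem_Q {a b : G} (ha : a ∈ T) (hb : b ∈ T) (hma : a * w₂ * a⁻¹ ≠ w₂) (hmb : b * w₂ * b⁻¹ ≠ w₂) :
    a * b ∈ Qof T K := by
  apply jcs_Q_of_fix h hTw (T.mul_mem ha hb)
  have h1 := (jcs_T_act h hTK hTw ha).resolve_left hma
  have h2 := (jcs_T_act h hTK hTw hb).resolve_left hmb
  have hw1w1 : w₁ * w₁ = 1 := h.hWsq _ h.hw₁
  calc a * b * w₂ * (a * b)⁻¹ = a * (b * w₂ * b⁻¹) * a⁻¹ := by group
    _ = (a * w₁ * a⁻¹) * (a * w₂ * a⁻¹) := by rw [h2]; group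
    _ = w₂ := by rw [hTw a ha, h1, ← mul_assoc, hw1w1, one_mul]

include h hTK hsyl in
/-- `K ⊔ T` normalizes `Q`. -/
theorem jcs_le_norm_Q : K ⊔ T ≤ Subgroup.normalizer (Qof T K : Set G) := by
  apply sup_le
  · refine h.hKle.trans (sup_le ((jcs_core_le_Q h hTK hsyl).trans Subgroup.le_normalizer) ?_)
    rw [Subgroup.zpowers_le]
    apply Cfsg.Agent.Lib.Subnormal.mem_normalizer_of_conj_mem
    intro q hq
    exact jcs_k_conj_Q h hTK hsyl hq
  · intro t ht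
    apply Cfsg.Agent.Lib.Subnormal.mem_normalizer_of_conj_mem
    intro q hq
    obtain ⟨hqT, hqc⟩ := mem_Qof.mp hq
    refine mem_Qof.mpr ⟨T.mul_mem (T.mul_mem ht hqT) (T.inv_mem ht), ?_⟩
    intro w hw
    have h1 : t⁻¹ * w * t ∈ wOf K := by
      have := conj_mem_wOf (Subgroup.inv_mem _ (hTK ht)) hw
      simpa using this
    have h2 := hqc _ h1
    calc t * q * t⁻¹ * w = t * (q * (t⁻¹ * w * t)) * t⁻¹ := by group
      _ = t * ((t⁻¹ * w * t) * q) * t⁻¹ := by rw [h2]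
      _ = w * (t * q * t⁻¹) := by group

include h hTK hsyl in
/-- `O₂(K ⊔ T) = Q`. -/
theorem jcs_core_eq_Q (h4 : Nat.card (wOf K) = 4) : pCoreOf 2 (K ⊔ T) = Qof T K := by
  haveI : Fact (Nat.Prime 2) := ⟨Nat.prime_two⟩
  apply le_antisymm
  · intro r hr
    have hrT : r ∈ T := core_le_sylow hsyl hr
    refine mem_Qof.mpr ⟨hrT, ?_⟩
    intro w hw
    have hX : K ⊔ T ≤ Subgroup.normalizer (K : Set G) := sup_le Subgroup.le_normalizer hTK
    exact centralizes_wOf h h4 (isPGroup_pCoreOf 2 _) ((pCoreOf_le 2 _).trans hX)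
      (le_sup_left.trans (le_normalizer_pCoreOf 2 _)) hr hw
  · apply le_pCoreOf
    · exact inf_le_left.trans le_sup_right
    · exact jcs_le_norm_Q h hTK hsyl
    · exact hsyl.2.1.to_le inf_le_left

end WithT

end Act

end Cfsg.Agent.Lib.FFG
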