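import Mathlib
import Cfsg.Agent.Lib.FFG20

/-!
# Failure of factorization at the level of the group, part 21: the case `T < S`
-/

set_option autoImplicit false
set_option linter.unusedSectionVars false

open Cfsg
open scoped commutatorElement

namespace Cfsg.Agent.Lib.FFG

open Cfsg.Agent.Lib.FFAct Cfsg.Agent.Lib.PCore Cfsg.Agent.Lib.JCompStruct Cfsg.Agent.Lib.ThompsonJ
open Cfsg.Agent.Lib.BGFit2

variable {G : Type*} [Group G] [Finite G]

/-- Two components whose `W`s are disjoint: each centralizes the `W` of the other. -/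
theorem KC.centralizes_of_disjoint {X Y T₀ K K' : Subgroup G} {k w₁ w₂ k' w₁' w₂' : G}
    (h : KC X Y T₀ K k w₁ w₂) (h' : KC X Y T₀ K' k' w₁' w₂')
    (hdis : ∀ u ∈ wOf K, u ∈ wOf K' → u = 1) {κ v : G} (hκ : κ ∈ K) (hv : v ∈ wOf K') : κ * v = v * κ := by
  haveI := h.z.fact
  have hy' : h'.y ∈ Q0 (act X Y h.z.hN).range h.z.Fo := Subgroup.subset_closure h'.y_line
  have hcomm : h'.y * h.y = h.y * h'.y := h.comm_Q0 hy'
  have hv' : v ∈ (com h'.y).map (EA.val X) := by rw [h'.com_map]; exact hv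
  obtain ⟨u, hu, rfl⟩ := hv'
  have h1 : h.y u ∈ com h'.y := by
    have := com_conj_mem h.y h'.y hu
    have e : h.y * h'.y * h.y⁻¹ = h'.y := by rw [← hcomm]; group
    rwa [e] at this
  have h2 : h.y u * u⁻¹ ∈ com h.y := com_mem _ _
  have h3 : h.y u * u⁻¹ ∈ com h'.y := (com h'.y).mul_mem h1 ((com h'.y).inv_mem hu)
  have h4 : EA.val X (h.y u * u⁻¹) = 1 :=
    hdis _ (by rw [← h.com_map]; exact ⟨_, h2, rfl⟩) (by rw [← h'.com_map]; exact ⟨_, h3, rfl⟩)
  have h5 : h.y u = u := by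
    apply EA.val_injective
    rw [map_mul, map_inv] at h4
    exact mul_inv_eq_one.mp h4
  have hκY := h.hKY hκ
  have h7 : act X Y h.z.hN ⟨κ, hκY⟩ u = u := by
    rcases h.image hκ hκY with h6 | h6 | h6
    · rw [h6]; rfl
    · rw [h6]; exact h5
    · rw [h6]
      conv_lhs => rw [← h5]
      simp
  have h8 := congrArg (EA.val X) h7
  rw [act_val] at h8
  exact mul_inv_eq_iff_eq_mul.mp h8

/-- The centralizer of an involution of the hyperplane normalizes `K`. -/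
theorem ZNH.cent_le_norm (Z : ZNH G) {T K L : Subgroup G} {k w₁ w₂ h : G} (hT2 : IsPGroup 2 T) (hT1 : T ≠ ⊥)
    (hJS : JCS (thompsonSubgroupOf 2 T) K k w₁ w₂) (hK : IsJComponent T K) (htop : TopOf (thompsonSubgroupOf 2 T) K L)
    (hsylL : IsSylowTwoIn T L) (hTN : T ≤ Subgroup.normalizer (K : Set G)) (hh : h ∈ hpl (thompsonSubgroupOf 2 T) K) (hh1 : h ≠ 1)
    (hTh : ∀ t ∈ T, t * h = h * t) (hcases : ∀ z ∈ hpl (thompsonSubgroupOf 2 T) K, z = 1 ∨ z = h) :
    Subgroup.centralizer ({h} : Set G) ≤ Subgroup.normalizer (K : Set G) := by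
  classical
  set J := thompsonSubgroupOf 2 T with hJ
  set Y := Subgroup.centralizer ({h} : Set G) with hY
  have hhZ := (mem_hpl.mp hh).1
  have hY2 : IsTwoLocal Y := twoLocal_centralizer (omega_sq hhZ) hh1
  have hYL : Y ≤ L := htop.centralizer_le hh hh1
  have hKY : K ≤ Y := by
    intro x hx
    exact Subgroup.mem_centralizer_singleton_iff.mpr ((mem_hpl.mp hh).2 x hx)
  have hTY : T ≤ Y := by
    intro x hx
    exact Subgroup.mem_centralizer_singleton_iff.mpr (hTh x hx)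
  have hsylY : IsSylowTwoIn T Y := isSylowTwoIn_of_le hsylL hTY hYL
  have hJp : IsPGroup 2 J := hT2.to_le (Cfsg.Agent.Lib.JCompBasic.thompsonSubgroupOf_le 2 T)
  have hLT : Y ∈ jOvergroups T := Z.jover_of_two_local hY2 hsylY (fun hle => jcs_not_le_normalizer hJS le_rfl hJp (hKY.trans hle))
  have z := Z.znc_jover hLT
  haveI := z.fact
  have hXR : omegaCenterOf (pCoreOf 2 Y) ≤ pCoreOf 2 Y := fun v hv => (omegaCenter_mem hv).1
  apply z.le_of_components' hXR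
  · intro y hyY hyJ
    by_contra hyn
    set K' := cj y K with hK'
    have hK'c : IsJComponent T K' := isJComponent_cj_of_normalizer hK hyJ
    have hK'Y : K' ≤ Y := by
      have h1 : cj y Y = Y := cj_eq_of_mem_normalizer (Subgroup.le_normalizer hyY)
      have h2 := cj_mono (g := y) hKY
      rwa [h1] at h2
    obtain ⟨a1, a2, a3, hc⟩ := Z.kc_of hT2 hT1 hLT hK hKY
    obtain ⟨b1, b2, b3, hc'⟩ := Z.kc_of hT2 hT1 hLT hK'c hK'Y
    have hWW' : wOf K' = cj y (wOf K) := wOf_cj y K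
    have hdis : ∀ u ∈ wOf K, u ∈ wOf K' → u = 1 := by
      intro u hu hu'
      by_contra hu1
      apply hyn
      rw [hWW', mem_cj] at hu'
      have hX : y⁻¹ * u * y ∈ omegaCenterOf (pCoreOf 2 Y) := hc.hWX hu'
      have hu2 : EA.mk _ hX ∈ com hc.y := by
        have h1 : y⁻¹ * u * y ∈ (com hc.y).map (EA.val _) := by rw [hc.com_map]; exact hu'
        obtain ⟨v, hv, he⟩ := h1
        have : EA.mk _ hX = v := by
          apply EA.val_injective
          rw [he, EA.val_mk]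
        rw [this]; exact hv
      have hu3 : EA.mk _ hX ≠ 1 := by
        intro h1
        apply hu1
        have h2 := congrArg (EA.val _) h1
        rw [EA.val_mk, map_one] at h2
        have h3 : y * (y⁻¹ * u * y) * y⁻¹ = 1 := by rw [h2]; group
        rwa [show y * (y⁻¹ * u * y) * y⁻¹ = u by group] at h3
      apply hc.norm_of_meet (n := ⟨y, hyY⟩) hu2 hu3
      have h1 : u ∈ (com hc.y).map (EA.val _) := by rw [hc.com_map]; exact hu
      obtain ⟨v, hv, he⟩ := h1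
      have : act _ _ hc.z.hN ⟨y, hyY⟩ (EA.mk _ hX) = v := by
        apply EA.val_injective
        rw [act_val, EA.val_mk, he]
        group
      rw [this]; exact hv
    have hw₁' : y * w₁ * y⁻¹ ∈ wOf K' := by
      rw [hWW']; exact conj_mem_cj hJS.hw₁
    have hw₁Z : y * w₁ * y⁻¹ ∈ omegaCenterOf J := by
      apply omegaCenter_conj _ _ (jcs_w₁_omega hJS)
      · intro x hx
        exact (Subgroup.mem_normalizer_iff.mp hyJ x).mp hx
      · intro x hx
        have := (Subgroup.mem_normalizer_iff.mp (Subgroup.inv_mem _ hyJ) x).mp hx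
        simpa using this
    have hcen : y * w₁ * y⁻¹ ∈ hpl J K :=
      mem_hpl.mpr ⟨hw₁Z, fun x hx => hc.centralizes_of_disjoint hc' hdis hx hw₁'⟩
    rcases hcases _ hcen with h1 | h1
    · apply hJS.hw₁1
      have h3 : y⁻¹ * (y * w₁ * y⁻¹) * y = y⁻¹ * 1 * y := by rw [h1]
      rw [show y⁻¹ * (y * w₁ * y⁻¹) * y = w₁ by group] at h3
      simpa using h3
    · apply jcs_w₁_not_hpl hJS
      have h2 : y * h = h * y := Subgroup.mem_centralizer_singleton_iff.mp hyY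
      have h3 : w₁ = h := by
        have h4 : y⁻¹ * (y * w₁ * y⁻¹) * y = y⁻¹ * h * y := by rw [h1]
        rw [show y⁻¹ * (y * w₁ * y⁻¹) * y = w₁ by group] at h4
        rw [h4]
        calc y⁻¹ * h * y = y⁻¹ * (h * y) := by group
          _ = y⁻¹ * (y * h) := by rw [h2]
          _ = h := by group
      rw [h3]; exact hh
  · exact hTN
  · rintro k' ⟨a, c, hl⟩
    exact Z.comp_norm hT2 hT1 hLT hK hl.isJ hKY hl.hKY hl.kk

/-- An element normalizing `T` whose square is in `T`. -/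
theorem exists_sq_mem {T P : Subgroup G} (hP : IsPGroup 2 P) (hTP : T < P) :
    ∃ x ∈ P, x ∉ T ∧ x ∈ Subgroup.normalizer (T : Set G) ∧ x * x ∈ T := by
  classical
  obtain ⟨x₀, hx₀P, hx₀T, hx₀N⟩ := exists_mem_normalizer_of_lt hP hTP
  obtain ⟨n, hn⟩ := hP ⟨x₀, hx₀P⟩
  have hex : ∃ m, x₀ ^ (2 ^ m) ∈ T := by
    refine ⟨n, ?_⟩
    have := congrArg Subtype.val hn
    have h2 : x₀ ^ (2 ^ n) = 1 := by simpa using this
    rw [h2]; exact T.one_mem
  set m := Nat.find hex with hm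
  have hm1 := Nat.find_spec hex
  have hm0 : m ≠ 0 := by
    intro h0
    rw [← hm, h0] at hm1
    simp at hm1
    exact hx₀T hm1
  obtain ⟨l, hl⟩ := Nat.exists_eq_succ_of_ne_zero hm0
  have hl2 : x₀ ^ (2 ^ l) ∉ T := Nat.find_min hex (m := l) (by omega)
  refine ⟨x₀ ^ (2 ^ l), P.pow_mem hx₀P _, hl2, Subgroup.pow_mem _ hx₀N _, ?_⟩
  have e : x₀ ^ (2 ^ l) * x₀ ^ (2 ^ l) = x₀ ^ (2 ^ m) := by
    rw [← pow_add, hl, Nat.succ_eq_add_one, pow_succ]
    congr 1
    ring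
  rw [e]
  exact hm1

/-- The configuration for `T < S`. -/
structure TSC (S : Sylow 2 G) (T K L : Subgroup G) (x k w₁ w₂ k₂ w₃ : G) : Prop where
  hT2 : IsPGroup 2 T
  hT1 : T ≠ ⊥
  hTS : T ≤ (S : Subgroup G)
  hxS : x ∈ (S : Subgroup G)
  hxT : x ∉ T
  hxN : x ∈ Subgroup.normalizer (T : Set G)
  hxx : x * x ∈ T
  hK : IsJComponent T K
  hJ : JCS (thompsonSubgroupOf 2 T) K k w₁ w₂
  hJ₂ : JCS (thompsonSubgroupOf 2 T) (cj x K) k₂ (x * w₁ * x⁻¹) w₃
  htop : TopOf (thompsonSubgroupOf 2 T) K L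
  hLT : L ∈ jOvergroups T

theorem conj_mem_of_normalizer {g : G} {A : Subgroup G} (hg : g ∈ Subgroup.normalizer (A : Set G)) {a : G} (ha : a ∈ A) : g * a * g⁻¹ ∈ A :=
  (Subgroup.mem_normalizer_iff.mp hg a).mp ha

theorem conj_inv_mem_of_normalizer {g : G} {A : Subgroup G} (hg : g ∈ Subgroup.normalizer (A : Set G)) {a : G} (ha : a ∈ A) : g⁻¹ * a * g ∈ A := by
  have := (Subgroup.mem_normalizer_iff.mp (Subgroup.inv_mem _ hg) a).mp ha
  simpa using this

theorem omega_conj_of_normalizer {g : G} {J : Subgroup G} (hg : g ∈ Subgroup.normalizer (J : Set G)) {z : G}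
    (hz : z ∈ omegaCenterOf J) : g * z * g⁻¹ ∈ omegaCenterOf J :=
  omegaCenter_conj (fun _ hx => conj_mem_of_normalizer hg hx) (fun _ hx => conj_inv_mem_of_normalizer hg hx) hz

namespace TSC

variable {S : Sylow 2 G} {T K L : Subgroup G} {x k w₁ w₂ k₂ w₃ : G} (C : TSC S T K L x k w₁ w₂ k₂ w₃)
include C

theorem hJp : IsPGroup 2 (thompsonSubgroupOf 2 T) :=
  C.hT2.to_le (Cfsg.Agent.Lib.JCompBasic.thompsonSubgroupOf_le 2 T)

theorem hJT : thompsonSubgroupOf 2 T ≤ T := Cfsg.Agent.Lib.JCompBasic.thompsonSubgroupOf_le 2 T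

theorem hTJ : T ≤ Subgroup.normalizer (thompsonSubgroupOf 2 T : Set G) := le_normalizer_thompson T

theorem hxJ : x ∈ Subgroup.normalizer (thompsonSubgroupOf 2 T : Set G) := normalizer_le_normalizer_thompson T C.hxN

theorem hTL : T ≤ L := C.hLT.1.1

theorem hxL : x ∉ L := by
  intro hx
  apply C.hxT
  have hU : T ⊔ Subgroup.zpowers x ≤ (S : Subgroup G) := sup_le C.hTS (Subgroup.zpowers_le.mpr C.hxS)
  have h1 := le_of_sylow_of_pGroup C.hLT.1 (S.isPGroup'.to_le hU) le_sup_left (sup_le C.hTL (Subgroup.zpowers_le.mpr hx))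
  exact h1 (Subgroup.mem_sup_right (Subgroup.mem_zpowers x))

theorem hcT : cj x T = T := cj_eq_of_mem_normalizer C.hxN

theorem htop₂ : TopOf (thompsonSubgroupOf 2 T) (cj x K) (cj x L) := C.htop.conj C.hxJ

theorem hK₂ : IsJComponent T (cj x K) := isJComponent_cj_of_normalizer C.hK C.hxJ

theorem hnotle : ¬ cj x K ≤ L := C.htop.not_conj_le C.hxJ C.hxL

theorem hsep {c : G} (h1 : c ∈ hpl (thompsonSubgroupOf 2 T) K) (h2 : c ∈ hpl (thompsonSubgroupOf 2 T) (cj x K)) : c = 1 := by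
  by_contra hc
  apply C.hnotle
  refine le_trans ?_ (C.htop.centralizer_le h1 hc)
  intro y hy
  exact Subgroup.mem_centralizer_singleton_iff.mpr ((mem_hpl.mp h2).2 y hy)

theorem hsmall {c₁ c₂ : G} (h1 : c₁ ∈ hpl (thompsonSubgroupOf 2 T) K) (h2 : c₂ ∈ hpl (thompsonSubgroupOf 2 T) K) :
    c₁ = 1 ∨ c₂ = 1 ∨ c₁ = c₂ :=
  hpl_small C.hJ₂ (fun _ ha hb => C.hsep ha hb) h1 h2

theorem hw₁Z : w₁ ∈ omegaCenterOf (thompsonSubgroupOf 2 T) := jcs_w₁_omega C.hJ

theorem Z₀_conj {t z : G} (ht : t ∈ T) (hz : z ∈ omegaCenterOf (thompsonSubgroupOf 2 T)) :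
    t * z * t⁻¹ ∈ omegaCenterOf (thompsonSubgroupOf 2 T) := omega_conj_of_normalizer (C.hTJ ht) hz

/-- `T` centralizes `Z₀`. -/
theorem Z₀_central {t z : G} (ht : t ∈ T) (hz : z ∈ omegaCenterOf (thompsonSubgroupOf 2 T)) : t * z = z * t := by
  classical
  set J := thompsonSubgroupOf 2 T with hJ
  have hne : ∀ {t u : G}, u ≠ 1 → t * u * t⁻¹ ≠ 1 := by
    intro t u hu h1
    apply hu
    have h3 : t⁻¹ * (t * u * t⁻¹) * t = t⁻¹ * 1 * t := by rw [h1]
    rw [show t⁻¹ * (t * u * t⁻¹) * t = u by group] at h3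
    simpa using h3
  have hw₁ := C.hw₁Z
  have hw₁2 := omega_sq hw₁
  have hconj_goal : t * z * t⁻¹ = z → t * z = z * t := fun h => mul_inv_eq_iff_eq_mul.mp h
  apply hconj_goal
  by_cases hH : ∃ c ∈ hpl J K, c ≠ 1
  · obtain ⟨c, hc, hc1⟩ := hH
    have hcZ := (mem_hpl.mp hc).1
    set c₂ := x * c * x⁻¹ with hc₂
    have hc₂Z : c₂ ∈ omegaCenterOf J := omega_conj_of_normalizer C.hxJ hcZ
    have hc₂H : c₂ ∈ hpl J (cj x K) := conj_mem_hpl C.hxJ hc
    have hc₂1 : c₂ ≠ 1 := hne hc1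
    have hc₂n : c₂ ∉ hpl J K := fun h => hc₂1 (C.hsep h hc₂H)
    have hHall : ∀ u ∈ hpl J K, u = 1 ∨ u = c := by
      intro u hu
      rcases C.hsmall hu hc with h | h | h
      · exact Or.inl h
      · exact absurd h hc1
      · exact Or.inr h
    have hcc := omega_sq hcZ
    have hc₂c₂ := omega_sq hc₂Z
    have hcomm := omega_comm hcZ hc₂Z
    -- `Z₀` has four elements
    have hZ₀w : ∀ u ∈ omegaCenterOf J, u = 1 ∨ u = c ∨ u = w₁ ∨ u = c * w₁ := by
      intro u hu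
      rcases jcs_decomp C.hJ hu with h | h
      · rcases hHall u h with h | h
        · exact Or.inl h
        · exact Or.inr (Or.inl h)
      · rcases hHall _ h with h | h
        · right; right; left
          have h3 := omega_inv hw₁
          rw [← h3]
          exact eq_inv_of_mul_eq_one_left h
        · right; right; right
          rw [← h, mul_assoc, hw₁2, mul_one]
    have hc₂w : c₂ = w₁ ∨ c₂ = c * w₁ := by
      rcases hZ₀w c₂ hc₂Z with h | h | h | h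
      · exact absurd h hc₂1
      · rw [h] at hc₂n
        exact absurd hc hc₂n
      · exact Or.inl h
      · exact Or.inr h
    have hZ₄ : ∀ u ∈ omegaCenterOf J, u = 1 ∨ u = c ∨ u = c₂ ∨ u = c * c₂ := by
      intro u hu
      rcases hc₂w with h | h
      · rw [h]; exact hZ₀w u hu
      · rcases hZ₀w u hu with h1 | h1 | h1 | h1
        · exact Or.inl h1
        · exact Or.inr (Or.inl h1)
        · right; right; right
          rw [h, ← mul_assoc, hcc, one_mul, h1]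
        · right; right; left
          rw [h, h1]
    -- `(α)`
    have hα : ∀ t ∈ T, t * c * t⁻¹ ≠ c₂ := by
      intro t ht he
      apply C.hnotle
      have hC : Subgroup.centralizer ({c₂} : Set G) ≤ L := by
        intro g hg
        have h1 : t⁻¹ * g * t ∈ Subgroup.centralizer ({c} : Set G) := by
          rw [Subgroup.mem_centralizer_singleton_iff]
          have h2 : g * c₂ = c₂ * g := Subgroup.mem_centralizer_singleton_iff.mp hg
          rw [← he] at h2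
          have h3 : t⁻¹ * (g * (t * c * t⁻¹)) * t = t⁻¹ * ((t * c * t⁻¹) * g) * t := by rw [h2]
          calc t⁻¹ * g * t * c = t⁻¹ * (g * (t * c * t⁻¹)) * t := by group
            _ = t⁻¹ * ((t * c * t⁻¹) * g) * t := h3
            _ = c * (t⁻¹ * g * t) := by group
        have h2 := C.htop.centralizer_le hc hc1 h1
        have htL := C.hTL ht
        have e : g = t * (t⁻¹ * g * t) * t⁻¹ := by group
        rw [e]
        exact L.mul_mem (L.mul_mem htL h2) (L.inv_mem htL)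
      refine le_trans ?_ hC
      intro y hy
      exact Subgroup.mem_centralizer_singleton_iff.mpr ((mem_hpl.mp hc₂H).2 y hy)
    have hβ : ∀ t ∈ T, t * c * t⁻¹ = c ∨ t * c * t⁻¹ = c * c₂ := by
      intro t ht
      rcases hZ₄ _ (C.Z₀_conj ht hcZ) with h | h | h | h
      · exact absurd h (hne hc1)
      · exact Or.inl h
      · exact absurd h (hα t ht)
      · exact Or.inr h
    have hxTx : ∀ t ∈ T, x * t * x⁻¹ ∈ T := fun t ht => conj_mem_of_normalizer C.hxN ht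
    have hxTx' : ∀ t ∈ T, x⁻¹ * t * x ∈ T := fun t ht => conj_inv_mem_of_normalizer C.hxN ht
    have hγ : ∀ t ∈ T, t * c * t⁻¹ = c := by
      intro t₀ ht₀
      by_contra hcon
      have h0 := (hβ t₀ ht₀).resolve_left hcon
      set t₁ := x * t₀ * x⁻¹ with ht₁
      have ht₁T : t₁ ∈ T := hxTx t₀ ht₀
      set d := x * c₂ * x⁻¹ with hd
      have hd1 : d = (x * x) * c * (x * x)⁻¹ := by rw [hd, hc₂]; group
      have h1 : t₁ * c₂ * t₁⁻¹ = c₂ * d := by
        calc t₁ * c₂ * t₁⁻¹ = x * (t₀ * c * t₀⁻¹) * x⁻¹ := by rw [ht₁, hc₂]; group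
          _ = x * (c * c₂) * x⁻¹ := by rw [h0]
          _ = (x * c * x⁻¹) * (x * c₂ * x⁻¹) := by group
      rcases hβ _ C.hxx with h2 | h2
      · rw [← hd1] at h2
        rw [h2] at h1
        apply hα (t₁⁻¹ * t₀) (T.mul_mem (T.inv_mem ht₁T) ht₀)
        calc t₁⁻¹ * t₀ * c * (t₁⁻¹ * t₀)⁻¹ = t₁⁻¹ * (t₀ * c * t₀⁻¹) * t₁ := by group
          _ = t₁⁻¹ * (c * c₂) * t₁ := by rw [h0]
          _ = t₁⁻¹ * (c₂ * c) * t₁ := by rw [hcomm]
          _ = t₁⁻¹ * (t₁ * c₂ * t₁⁻¹) * t₁ := by rw [h1]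
          _ = c₂ := by group
      · rw [← hd1] at h2
        rw [h2] at h1
        have h3 : t₁ * c₂ * t₁⁻¹ = c := by
          calc t₁ * c₂ * t₁⁻¹ = c₂ * (c * c₂) := h1
            _ = (c₂ * c) * c₂ := by group
            _ = (c * c₂) * c₂ := by rw [hcomm]
            _ = c * (c₂ * c₂) := by group
            _ = c := by rw [hc₂c₂, mul_one]
        apply hα t₁⁻¹ (T.inv_mem ht₁T)
        calc t₁⁻¹ * c * t₁⁻¹⁻¹ = t₁⁻¹ * (t₁ * c₂ * t₁⁻¹) * t₁ := by rw [h3]; group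
          _ = c₂ := by group
    have hδ : ∀ t ∈ T, t * c₂ * t⁻¹ = c₂ := by
      intro t ht
      have h1 := hγ _ (hxTx' t ht)
      calc t * c₂ * t⁻¹ = x * ((x⁻¹ * t * x) * c * (x⁻¹ * t * x)⁻¹) * x⁻¹ := by rw [hc₂]; group
        _ = c₂ := by rw [h1]
    rcases hZ₄ z hz with rfl | rfl | rfl | rfl
    · group
    · exact hγ t ht
    · exact hδ t ht
    · calc t * (c * c₂) * t⁻¹ = (t * c * t⁻¹) * (t * c₂ * t⁻¹) := by group
        _ = c * c₂ := by rw [hγ t ht, hδ t ht]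
  · push Not at hH
    have hZ₀ : ∀ u ∈ omegaCenterOf J, u = 1 ∨ u = w₁ := by
      intro u hu
      rcases jcs_decomp C.hJ hu with h | h
      · exact Or.inl (hH u h)
      · right
        have h3 := omega_inv hw₁
        rw [← h3]
        exact eq_inv_of_mul_eq_one_left (hH _ h)
    rcases hZ₀ z hz with rfl | rfl
    · group
    · rcases hZ₀ _ (C.Z₀_conj ht hz) with h | h
      · exact absurd h (hne C.hJ.hw₁1)
      · exact h

theorem hTw {t : G} (ht : t ∈ T) : t * w₁ * t⁻¹ = w₁ := by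
  rw [C.Z₀_central ht C.hw₁Z]; group

theorem hxxw : (x * x) * w₁ * (x * x)⁻¹ = w₁ := C.hTw C.hxx

theorem hxxz {z : G} (hz : z ∈ omegaCenterOf (thompsonSubgroupOf 2 T)) : (x * x) * z * (x * x)⁻¹ = z := by
  rw [C.Z₀_central C.hxx hz]; group

theorem hw₁'Z : x * w₁ * x⁻¹ ∈ omegaCenterOf (thompsonSubgroupOf 2 T) := omega_conj_of_normalizer C.hxJ C.hw₁Z

theorem hxw' : x * (x * w₁ * x⁻¹) * x⁻¹ = w₁ := by
  calc x * (x * w₁ * x⁻¹) * x⁻¹ = (x * x) * w₁ * (x * x)⁻¹ := by group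
    _ = w₁ := C.hxxw

theorem hTw' {t : G} (ht : t ∈ T) : t * (x * w₁ * x⁻¹) * t⁻¹ = x * w₁ * x⁻¹ := by
  rw [C.Z₀_central ht C.hw₁'Z]; group

theorem hw₁T : w₁ ∈ T := C.hJT (omegaCenter_mem C.hw₁Z).1

theorem hTN (Z : ZNH G) : T ≤ Subgroup.normalizer (K : Set G) := by
  apply Cfsg.Agent.S2943.result Z.hL Z.hN Z.hZ T C.hT2 C.hT1 L C.hLT K C.hK C.htop.K_le
  intro hb
  have h1 : w₁ ∈ T ⊓ Subgroup.centralizer (T : Set G) ⊓ wOf K := by
    refine ⟨⟨C.hw₁T, Subgroup.mem_centralizer_iff.mpr ?_⟩, C.hJ.hw₁⟩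
    intro t ht
    exact C.Z₀_central ht C.hw₁Z
  rw [hb] at h1
  exact C.hJ.hw₁1 (Subgroup.mem_bot.mp h1)

theorem hTN₂ (Z : ZNH G) : T ≤ Subgroup.normalizer (cj x K : Set G) := by
  have h1 := cj_mono (g := x) (C.hTN Z)
  rw [C.hcT, ← normalizer_cj] at h1
  exact h1

theorem hsylL₂ : IsSylowTwoIn T (cj x L) := by
  have := isSylowTwoIn_cj C.hLT.1 x
  rwa [C.hcT] at this

theorem hTL₂ : T ≤ cj x L := C.hsylL₂.1

theorem hsyl₁ : IsSylowTwoIn T (K ⊔ T) :=
  isSylowTwoIn_of_le C.hLT.1 le_sup_right (sup_le C.htop.K_le C.hTL)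

theorem hsyl₂ : IsSylowTwoIn T (cj x K ⊔ T) :=
  isSylowTwoIn_of_le C.hsylL₂ le_sup_right (sup_le C.htop₂.K_le C.hTL₂)

theorem hLT₂ (Z : ZNH G) : cj x L ∈ jOvergroups T :=
  Z.jover_of_two_local (isTwoLocal_cj C.htop.hL.1 x) C.hsylL₂
    (fun hle => jcs_not_le_normalizer C.hJ₂ le_rfl C.hJp (C.htop₂.K_le.trans hle))

/-- `O₂(⟨K, Kˣ, T⟩) = 1`. -/
theorem core_eq_bot : pCoreOf 2 (K ⊔ cj x K ⊔ T) = ⊥ := by
  haveI : Fact (Nat.Prime 2) := ⟨Nat.prime_two⟩
  by_contra hR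
  set D := K ⊔ cj x K ⊔ T with hD
  have h1 : IsTwoLocal (Subgroup.normalizer (pCoreOf 2 D : Set G)) := ⟨_, isPGroup_pCoreOf 2 D, hR, rfl⟩
  have h2 : D ≤ Subgroup.normalizer (pCoreOf 2 D : Set G) := le_normalizer_pCoreOf 2 D
  have hK1 : K ≤ D := le_sup_left.trans le_sup_left
  have hK2 : cj x K ≤ D := le_sup_right.trans le_sup_left
  have hT : T ≤ D := le_sup_right
  have h3 := C.htop.htop _ h1 (sup_le (hK1.trans h2) ((C.hJT.trans hT).trans h2))
  exact C.hnotle ((hK2.trans h2).trans h3)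

/-- The dichotomy. -/
theorem dichotomy : x * w₁ * x⁻¹ = w₁ ∨ ∀ κ ∈ cj x K, κ * w₁ = w₁ * κ := by
  rcases jcs_decomp C.hJ₂ C.hw₁Z with h | h
  · exact Or.inr (mem_hpl.mp h).2
  · left
    set w := x * w₁ * x⁻¹ with hw
    have hwZ : w ∈ omegaCenterOf (thompsonSubgroupOf 2 T) := C.hw₁'Z
    have h1 : x * (w₁ * w) * x⁻¹ = w₁ * w := by
      calc x * (w₁ * w) * x⁻¹ = (x * w₁ * x⁻¹) * (x * w * x⁻¹) := by group
        _ = w * w₁ := by rw [C.hxw']
        _ = w₁ * w := omega_comm hwZ C.hw₁Z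
    have h2 : w₁ * w ∈ hpl (thompsonSubgroupOf 2 T) K := by
      have h3 := conj_mem_hpl (y := x⁻¹) (Subgroup.inv_mem _ C.hxJ) h
      rw [cj_inv_cj] at h3
      have h4 : x⁻¹ * (w₁ * w) * x⁻¹⁻¹ = w₁ * w := by
        rw [inv_inv]
        calc x⁻¹ * (w₁ * w) * x = x⁻¹ * (x * (w₁ * w) * x⁻¹) * x := by rw [h1]
          _ = w₁ * w := by group
      rwa [h4] at h3
    have h5 := C.hsep h2 h
    have h6 := omega_inv C.hw₁Z
    rw [← h6]
    exact (eq_inv_of_mul_eq_one_right h5)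

theorem hWT (Z : ZNH G) : wOf K ≤ T :=
  (wOf_le_pCoreOf K).trans (jcs_core_le_T C.hJ (C.hTN Z) C.hsyl₁)

theorem hWT₂ (Z : ZNH G) : wOf (cj x K) ≤ T :=
  (wOf_le_pCoreOf _).trans (jcs_core_le_T C.hJ₂ (C.hTN₂ Z) C.hsyl₂)

end TSC

theorem Qof_conj (g : G) (T K : Subgroup G) : Qof (cj g T) (cj g K) = cj g (Qof T K) := by
  ext q
  rw [mem_Qof, mem_cj, wOf_cj, mem_cj, mem_Qof]
  constructor
  · rintro ⟨h1, h2⟩
    refine ⟨h1, fun w hw => ?_⟩
    have h3 := h2 (g * w * g⁻¹) (conj_mem_cj hw)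
    calc g⁻¹ * q * g * w = g⁻¹ * (q * (g * w * g⁻¹)) * g := by group
      _ = g⁻¹ * ((g * w * g⁻¹) * q) * g := by rw [h3]
      _ = w * (g⁻¹ * q * g) := by group
  · rintro ⟨h1, h2⟩
    refine ⟨h1, fun w hw => ?_⟩
    have h3 := h2 _ (mem_cj.mp hw)
    calc q * w = g * ((g⁻¹ * q * g) * (g⁻¹ * w * g)) * g⁻¹ := by group
      _ = g * ((g⁻¹ * w * g) * (g⁻¹ * q * g)) * g⁻¹ := by rw [h3]
      _ = w * q := by group

end Cfsg.Agent.Lib.FFG
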