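import Mathlib
import Cfsg.Agent.Lib.FFG21

/-!
# Failure of factorization at the level of the group, part 22: `W₁` does not centralize `W₂`
-/

set_option autoImplicit false
set_option linter.unusedSectionVars false

open Cfsg
open scoped commutatorElement

namespace Cfsg.Agent.Lib.FFG

open Cfsg.Agent.Lib.FFAct Cfsg.Agent.Lib.PCore Cfsg.Agent.Lib.JCompStruct Cfsg.Agent.Lib.ThompsonJ
open Cfsg.Agent.Lib.BGFit2

variable {G : Type*} [Group G] [Finite G]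

theorem exists_A_moving {T K' : Subgroup G} {k' w w' : G} (h : JCS (thompsonSubgroupOf 2 T) K' k' w w') :
    ∃ A, MaxEA T A ∧ ∃ a ∈ A, a * w' * a⁻¹ ≠ w' := by
  by_contra hcon
  push Not at hcon
  have h1 : thompsonSubgroupOf 2 T ≤ Subgroup.centralizer ({w'} : Set G) := by
    rw [thompsonOf_eq_sSup]
    apply sSup_le
    intro A hA a ha
    exact Subgroup.mem_centralizer_singleton_iff.mpr (mul_inv_eq_iff_eq_mul.mp (hcon A hA a ha))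
  obtain ⟨j₀, hj₀, hmv⟩ := h.hmove
  have h2 := Subgroup.mem_centralizer_singleton_iff.mp (h1 hj₀)
  have h3 : j₀ * w' * j₀⁻¹ = w' := by rw [h2]; group
  rw [h3] at hmv
  exact h.hw₁1 (mul_eq_right.mp hmv.symm)

namespace TSC

variable {S : Sylow 2 G} {T K L : Subgroup G} {x k w₁ w₂ k₂ w₃ : G} (C : TSC S T K L x k w₁ w₂ k₂ w₃) (Z : ZNH G)
include C Z

theorem Q₂_eq : Qof T (cj x K) = cj x (Qof T K) := by
  have := Qof_conj x T K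
  rwa [C.hcT] at this

theorem hQ₁N : K ⊔ T ≤ Subgroup.normalizer (Qof T K : Set G) := jcs_le_norm_Q C.hJ (C.hTN Z) C.hsyl₁

theorem hQ₂N : cj x K ⊔ T ≤ Subgroup.normalizer (Qof T (cj x K) : Set G) := jcs_le_norm_Q C.hJ₂ (C.hTN₂ Z) C.hsyl₂

theorem Q₁_eq : Qof T K = cj x (Qof T (cj x K)) := by
  rw [C.Q₂_eq Z, cj_cj]
  exact (cj_eq_of_mem_normalizer (C.hQ₁N Z (Subgroup.mem_sup_right C.hxx))).symm

theorem hQ₁T : Qof T K ≤ T := inf_le_left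

theorem hQ₂T : Qof T (cj x K) ≤ T := inf_le_left

theorem hw₁Q₂ : w₁ ∈ Qof T (cj x K) ∧ w₁ ∈ Qof T K := by
  constructor
  · refine mem_Qof.mpr ⟨C.hw₁T, ?_⟩
    intro u hu
    exact (C.Z₀_central ((C.hWT₂ Z) hu) C.hw₁Z).symm
  · refine mem_Qof.mpr ⟨C.hw₁T, ?_⟩
    intro u hu
    exact (C.Z₀_central ((C.hWT Z) hu) C.hw₁Z).symm

theorem exists_q₀ : ∃ q₀ ∈ Qof T (cj x K), q₀ * w₂ * q₀⁻¹ ≠ w₂ := by
  haveI : Fact (Nat.Prime 2) := ⟨Nat.prime_two⟩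
  by_contra hcon
  push Not at hcon
  have h1 : Qof T (cj x K) ≤ Qof T K := fun q hq => jcs_Q_of_fix C.hJ (fun t ht => C.hTw ht) (C.hQ₂T Z hq) (hcon q hq)
  have h2 : Nat.card (Qof T K) ≤ Nat.card (Qof T (cj x K)) := by
    rw [C.Q₂_eq Z, card_cj']
  have h3 : Qof T (cj x K) = Qof T K := Subgroup.eq_of_le_of_card_ge h1 h2
  have h4 : Qof T K ≤ pCoreOf 2 (K ⊔ cj x K ⊔ T) := by
    apply le_pCoreOf
    · exact (C.hQ₁T Z).trans le_sup_right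
    · apply sup_le (sup_le _ _) _
      · exact le_sup_left.trans (C.hQ₁N Z)
      · rw [← h3]; exact le_sup_left.trans (C.hQ₂N Z)
      · exact le_sup_right.trans (C.hQ₁N Z)
    · exact C.hT2.to_le (C.hQ₁T Z)
  rw [C.core_eq_bot, le_bot_iff] at h4
  have h5 := (C.hw₁Q₂ Z).2
  rw [h4] at h5
  exact C.hJ.hw₁1 (Subgroup.mem_bot.mp h5)

/-- The case `w₁^x = w₁`: the elementary abelian count. -/
theorem not_comm_nt (he : x * w₁ * x⁻¹ = w₁) (hcom : ∀ u ∈ wOf K, ∀ v ∈ wOf (cj x K), u * v = v * u) : False := by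
  have h₂ : JCS (thompsonSubgroupOf 2 T) (cj x K) k₂ w₁ w₃ := by
    have := C.hJ₂
    rwa [he] at this
  obtain ⟨A, hA, a, haA, hm⟩ := exists_A_moving h₂
  obtain ⟨q₀, hq₀, hq₀e⟩ := C.exists_q₀ Z
  have hTN₂ := C.hTN₂ Z
  have hsyl₂ := C.hsyl₂
  have hTw : ∀ t ∈ T, t * w₁ * t⁻¹ = w₁ := fun t ht => C.hTw ht
  have haT : a ∈ T := hA.1 haA
  refine nt_false (T := T) (A := A) (Q := Qof T (cj x K)) (W₂ := wOf (cj x K)) (k := k₂) (a := a) (e := w₂) (c := w₁) (y := w₃)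
    (q₀ := q₀) hA haA (C.hQ₂T Z) h₂.hk3 (fun q hq => jcs_k_conj_Q h₂ hTN₂ hsyl₂ hq)
    (jcs_a_k_mem h₂ hTN₂ hsyl₂ hTw haT hm)
    (fun u hu => conj_mem_wOf (Subgroup.le_normalizer h₂.hkK) hu)
    (fun q hq u hu => (mem_Qof.mp hq).2 u hu) h₂.hWsq h₂.hw₁ h₂.hw₁1 ?_ ?_ (C.hJ.hWsq _ C.hJ.hw₂mem)
    (fun t ht => jcs_T_act C.hJ (C.hTN Z) hTw ht) hTw h₂.hw₂mem (C.hWT₂ Z h₂.hw₂mem)
    ((jcs_T_act h₂ hTN₂ hTw haT).resolve_left hm) (fun t ht ht2 => jcs_Q_of_fix h₂ hTw ht ht2)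
    (fun t ht => jcs_T_act h₂ hTN₂ hTw ht) hq₀ hq₀e
  · rw [h₂.hw₂]
    exact h₂.hw₁₂.symm
  · exact mem_Qof.mpr ⟨C.hWT Z C.hJ.hw₂mem, fun u hu => hcom _ C.hJ.hw₂mem u hu⟩

omit Z in
theorem hxiw : x⁻¹ * w₁ * x = x * w₁ * x⁻¹ := by
  have h1 := C.hxxw
  calc x⁻¹ * w₁ * x = x⁻¹ * ((x * x) * w₁ * (x * x)⁻¹) * x := by rw [h1]
    _ = x * w₁ * x⁻¹ := by group

section TypeS

variable (hS : ∀ κ ∈ cj x K, κ * w₁ = w₁ * κ)
include hS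

omit Z in
theorem s_h₁_mem : x * w₁ * x⁻¹ ∈ hpl (thompsonSubgroupOf 2 T) K := by
  refine mem_hpl.mpr ⟨C.hw₁'Z, ?_⟩
  intro κ hκ
  have h1 := hS (x * κ * x⁻¹) (conj_mem_cj hκ)
  have h2 := C.hxiw
  rw [← h2]
  calc κ * (x⁻¹ * w₁ * x) = x⁻¹ * ((x * κ * x⁻¹) * w₁) * x := by group
    _ = x⁻¹ * (w₁ * (x * κ * x⁻¹)) * x := by rw [h1]
    _ = x⁻¹ * w₁ * x * κ := by group

omit Z in
theorem s_ne : x * w₁ * x⁻¹ ≠ w₁ := by
  intro h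
  have := C.s_h₁_mem hS
  rw [h] at this
  exact jcs_w₁_not_hpl C.hJ this

omit Z in
theorem s_h₂_mem : w₁ ∈ hpl (thompsonSubgroupOf 2 T) (cj x K) := mem_hpl.mpr ⟨C.hw₁Z, hS⟩

omit Z in
theorem s_h₁1 : x * w₁ * x⁻¹ ≠ 1 := C.hJ₂.hw₁1

omit Z in
theorem s_cases₁ {z : G} (hz : z ∈ hpl (thompsonSubgroupOf 2 T) K) : z = 1 ∨ z = x * w₁ * x⁻¹ := by
  rcases C.hsmall hz (C.s_h₁_mem hS) with h | h | h
  · exact Or.inl h
  · exact absurd h (C.s_h₁1 hS)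
  · exact Or.inr h

omit Z in
theorem s_cases₂ {z : G} (hz : z ∈ hpl (thompsonSubgroupOf 2 T) (cj x K)) : z = 1 ∨ z = w₁ := by
  have h1 := conj_mem_hpl (y := x⁻¹) (Subgroup.inv_mem _ C.hxJ) hz
  rw [cj_inv_cj, inv_inv] at h1
  rcases C.s_cases₁ hS h1 with h | h
  · left
    have h3 : x * (x⁻¹ * z * x) * x⁻¹ = x * 1 * x⁻¹ := by rw [h]
    rw [show x * (x⁻¹ * z * x) * x⁻¹ = z by group] at h3
    simpa using h3
  · right
    have h3 : x * (x⁻¹ * z * x) * x⁻¹ = x * (x * w₁ * x⁻¹) * x⁻¹ := by rw [h]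
    rw [show x * (x⁻¹ * z * x) * x⁻¹ = z by group, C.hxw'] at h3
    exact h3

theorem s_C₁ : Subgroup.centralizer ({x * w₁ * x⁻¹} : Set G) ≤ Subgroup.normalizer (K : Set G) :=
  Z.cent_le_norm C.hT2 C.hT1 C.hJ C.hK C.htop C.hLT.1 (C.hTN Z) (C.s_h₁_mem hS) (C.s_h₁1 hS)
    (fun t ht => C.Z₀_central ht C.hw₁'Z) (fun z hz => C.s_cases₁ hS hz)

theorem s_C₂ : Subgroup.centralizer ({w₁} : Set G) ≤ Subgroup.normalizer (cj x K : Set G) :=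
  Z.cent_le_norm C.hT2 C.hT1 C.hJ₂ C.hK₂ C.htop₂ C.hsylL₂ (C.hTN₂ Z) (C.s_h₂_mem hS) C.hJ.hw₁1
    (fun t ht => C.Z₀_central ht C.hw₁Z) (fun z hz => C.s_cases₂ hS hz)

omit Z in
theorem s_Z₀ {z : G} (hz : z ∈ omegaCenterOf (thompsonSubgroupOf 2 T)) :
    z = 1 ∨ z = x * w₁ * x⁻¹ ∨ z = w₁ ∨ z = (x * w₁ * x⁻¹) * w₁ := by
  have hw := C.hw₁Z
  rcases jcs_decomp C.hJ hz with h | h
  · rcases C.s_cases₁ hS h with h | h
    · exact Or.inl h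
    · exact Or.inr (Or.inl h)
  · rcases C.s_cases₁ hS h with h | h
    · right; right; left
      rw [← omega_inv hw]
      exact eq_inv_of_mul_eq_one_left h
    · right; right; right
      rw [← h, mul_assoc, omega_sq hw, mul_one]

theorem s_mem_T {s : G} (h1 : s * (x * w₁ * x⁻¹) = (x * w₁ * x⁻¹) * s) (h2 : s * w₁ = w₁ * s) (hss : s * s = 1) : s ∈ T := by
  haveI : Fact (Nat.Prime 2) := ⟨Nat.prime_two⟩
  have hsL : s ∈ L := C.htop.centralizer_le (C.s_h₁_mem hS) (C.s_h₁1 hS) (Subgroup.mem_centralizer_singleton_iff.mpr h1)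
  have hsN : s ∈ Subgroup.normalizer ((S : Subgroup G) : Set G) := by
    apply Z.hZ S
    rw [Subgroup.mem_centralizer_iff]
    intro z hz
    have hz1 : z ∈ omegaCenterOf (thompsonSubgroupOf 2 T) :=
      omega_le_Z₀ T (omega_le_omega C.hTS (centralizer_le_of_jover C.hLT) hz)
    rcases C.s_Z₀ hS hz1 with rfl | rfl | rfl | rfl
    · group
    · exact h1.symm
    · exact h2.symm
    · calc (x * w₁ * x⁻¹) * w₁ * s = (x * w₁ * x⁻¹) * (w₁ * s) := by group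
        _ = (x * w₁ * x⁻¹) * (s * w₁) := by rw [h2]
        _ = ((x * w₁ * x⁻¹) * s) * w₁ := by group
        _ = (s * (x * w₁ * x⁻¹)) * w₁ := by rw [h1]
        _ = s * ((x * w₁ * x⁻¹) * w₁) := by group
  have hsS : s ∈ (S : Subgroup G) := by
    have hs2 : s ^ 2 = 1 := by rw [pow_two]; exact hss
    have hP : IsPGroup 2 (Subgroup.zpowers s) := by
      rw [Subgroup.zpowers_eq_closure]
      exact ea_isPGroup (isElementaryAbelian_closure (by rintro a rfl b rfl; rfl) (by rintro a rfl; exact hs2))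
    have h3 := hP.inf_normalizer_sylow S
    have h4 : s ∈ Subgroup.zpowers s ⊓ Subgroup.normalizer (S : Set G) := ⟨Subgroup.mem_zpowers s, hsN⟩
    rw [h3] at h4
    exact h4.2
  have h5 : (S : Subgroup G) ⊓ L ≤ T :=
    le_of_sylow_of_pGroup C.hLT.1 (S.isPGroup'.to_le inf_le_left) (le_inf C.hTS C.hTL) inf_le_right
  exact h5 ⟨hsS, hsL⟩

/-- The data for the walks. -/
theorem s_ctx (hcom : ∀ u ∈ wOf K, ∀ v ∈ wOf (cj x K), u * v = v * u)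
    (hnp : (k₂ * w₂ * k₂⁻¹) * w₂ = w₂ * (k₂ * w₂ * k₂⁻¹)) : WalkCtx (x * w₁ * x⁻¹) w₁ x (wOf K) (wOf (cj x K)) := by
  have hTN := C.hTN Z
  have hTN₂ := C.hTN₂ Z
  have hJ := C.hJ
  have hJ₂ := C.hJ₂
  have hC₁ := C.s_C₁ Z hS
  have hC₂ := C.s_C₂ Z hS
  have hk₂w : k₂ * w₁ = w₁ * k₂ := hS k₂ hJ₂.hkK
  -- `W₁ ≤ Q₂`
  have hW₁Q : ∀ v ∈ wOf K, v ∈ Qof T (cj x K) := fun v hv => mem_Qof.mpr ⟨C.hWT Z hv, fun u hu => hcom v hv u hu⟩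
  have hkv : ∀ v ∈ wOf K, k₂ * v * k₂⁻¹ ∈ T := fun v hv =>
    C.hQ₂T Z (jcs_k_conj_Q hJ₂ hTN₂ C.hsyl₂ (hW₁Q v hv))
  have hcw₂ : ∀ v ∈ wOf K, (k₂ * v * k₂⁻¹) * w₂ = w₂ * (k₂ * v * k₂⁻¹) := by
    intro v hv
    have hcw : w₁ * w₂ = w₂ * w₁ := wOf_comm hJ.hw₁ hJ.hw₂mem
    have hk₂w' : k₂ * w₁ * k₂⁻¹ = w₁ := by rw [hk₂w]; group
    rcases hJ.hset v hv with rfl | rfl | rfl | rfl
    · group
    · rw [hk₂w']; exact hcw
    · exact hnp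
    · have e : k₂ * (w₁ * w₂) * k₂⁻¹ = w₁ * (k₂ * w₂ * k₂⁻¹) := by
        calc k₂ * (w₁ * w₂) * k₂⁻¹ = (k₂ * w₁ * k₂⁻¹) * (k₂ * w₂ * k₂⁻¹) := by group
          _ = w₁ * (k₂ * w₂ * k₂⁻¹) := by rw [hk₂w']
      rw [e]
      calc w₁ * (k₂ * w₂ * k₂⁻¹) * w₂ = w₁ * ((k₂ * w₂ * k₂⁻¹) * w₂) := by group
        _ = w₁ * (w₂ * (k₂ * w₂ * k₂⁻¹)) := by rw [hnp]
        _ = (w₁ * w₂) * (k₂ * w₂ * k₂⁻¹) := by group
        _ = (w₂ * w₁) * (k₂ * w₂ * k₂⁻¹) := by rw [hcw]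
        _ = w₂ * (w₁ * (k₂ * w₂ * k₂⁻¹)) := by group
  have hnoP : ∀ u ∈ wOf K, ∀ v ∈ wOf K, u * (k₂ * v * k₂⁻¹) = (k₂ * v * k₂⁻¹) * u := by
    intro u hu v hv
    have h1 := hkv v hv
    have h2 : (k₂ * v * k₂⁻¹) * w₁ = w₁ * (k₂ * v * k₂⁻¹) := C.Z₀_central h1 C.hw₁Z
    have h3 := hcw₂ v hv
    rcases hJ.hset u hu with rfl | rfl | rfl | rfl
    · group
    · exact h2.symm
    · exact h3.symm
    · calc w₁ * w₂ * (k₂ * v * k₂⁻¹) = w₁ * (w₂ * (k₂ * v * k₂⁻¹)) := by group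
        _ = w₁ * ((k₂ * v * k₂⁻¹) * w₂) := by rw [h3]
        _ = (w₁ * (k₂ * v * k₂⁻¹)) * w₂ := by group
        _ = ((k₂ * v * k₂⁻¹) * w₁) * w₂ := by rw [h2]
        _ = (k₂ * v * k₂⁻¹) * (w₁ * w₂) := by group
  have hcent : ∀ {g h : G}, g * h * g⁻¹ = h → g ∈ Subgroup.centralizer ({h} : Set G) := by
    intro g h hg
    rw [Subgroup.mem_centralizer_singleton_iff]
    exact mul_inv_eq_iff_eq_mul.mp hg
  refine ⟨C.hxw', rfl, omega_comm C.hw₁'Z C.hw₁Z, omega_sq C.hw₁'Z, fun u hu v hv => wOf_comm hu hv, ?_, ?_, hcom, ?_, ?_⟩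
  · intro g hg
    exact conj_mem_wOf (hC₂ (hcent hg)) hJ₂.hw₁
  · intro g hg
    exact conj_mem_wOf (hC₁ (hcent hg)) hJ.hw₁
  · intro g hg u hu v hv
    have hgN := hC₂ (hcent hg)
    have hgh := conj_mem_wOf hgN hJ₂.hw₁
    rcases hJ₂.hset _ hgh with e | e | e | e
    · exfalso
      apply C.s_h₁1 hS
      have h3 : g⁻¹ * (g * (x * w₁ * x⁻¹) * g⁻¹) * g = g⁻¹ * 1 * g := by rw [e]
      rw [show g⁻¹ * (g * (x * w₁ * x⁻¹) * g⁻¹) * g = x * w₁ * x⁻¹ by group] at h3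
      simpa using h3
    · exact wOf_comm hu (conj_mem_wOf (hC₁ (hcent e)) hv)
    · have h1 : (k₂⁻¹ * g) * (x * w₁ * x⁻¹) * (k₂⁻¹ * g)⁻¹ = x * w₁ * x⁻¹ := by
        calc (k₂⁻¹ * g) * (x * w₁ * x⁻¹) * (k₂⁻¹ * g)⁻¹ = k₂⁻¹ * (g * (x * w₁ * x⁻¹) * g⁻¹) * k₂ := by group
          _ = k₂⁻¹ * w₃ * k₂ := by rw [e]
          _ = k₂⁻¹ * (k₂ * (x * w₁ * x⁻¹) * k₂⁻¹) * k₂ := by rw [hJ₂.hw₂]
          _ = x * w₁ * x⁻¹ := by group
      have h2 := conj_mem_wOf (hC₁ (hcent h1)) hv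
      have h3 := hnoP u hu _ h2
      have e2 : g * v * g⁻¹ = k₂ * ((k₂⁻¹ * g) * v * (k₂⁻¹ * g)⁻¹) * k₂⁻¹ := by group
      rw [e2]
      exact h3
    · have h1 : (k₂ * g) * (x * w₁ * x⁻¹) * (k₂ * g)⁻¹ = x * w₁ * x⁻¹ := by
        calc (k₂ * g) * (x * w₁ * x⁻¹) * (k₂ * g)⁻¹ = k₂ * (g * (x * w₁ * x⁻¹) * g⁻¹) * k₂⁻¹ := by group
          _ = k₂ * ((x * w₁ * x⁻¹) * w₃) * k₂⁻¹ := by rw [e]
          _ = x * w₁ * x⁻¹ := hJ₂.hk₃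
      have h2 := conj_mem_wOf (hC₁ (hcent h1)) hv
      have h3 := hnoP _ h2 u hu
      set v' := (k₂ * g) * v * (k₂ * g)⁻¹ with hv'
      have e2 : g * v * g⁻¹ = k₂⁻¹ * v' * k₂ := by rw [hv']; group
      rw [e2]
      calc u * (k₂⁻¹ * v' * k₂) = k₂⁻¹ * ((k₂ * u * k₂⁻¹) * v') * k₂ := by group
        _ = k₂⁻¹ * (v' * (k₂ * u * k₂⁻¹)) * k₂ := by rw [h3]
        _ = k₂⁻¹ * v' * k₂ * u := by group
  · intro s hs1 hs2 hss u hu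
    have hsT := C.s_mem_T Z hS hs1 hs2 hss
    have hTw' : ∀ t ∈ T, t * (x * w₁ * x⁻¹) * t⁻¹ = x * w₁ * x⁻¹ := fun t ht => C.hTw' ht
    have hW2 := omega_sq C.hw₁'Z
    rcases hJ₂.hset u hu with rfl | rfl | rfl | rfl
    · left; group
    · left; exact hTw' s hsT
    · exact jcs_T_act hJ₂ hTN₂ hTw' hsT
    · have e : s * ((x * w₁ * x⁻¹) * w₃) * s⁻¹ = (x * w₁ * x⁻¹) * (s * w₃ * s⁻¹) := by
        calc s * ((x * w₁ * x⁻¹) * w₃) * s⁻¹ = (s * (x * w₁ * x⁻¹) * s⁻¹) * (s * w₃ * s⁻¹) := by group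
          _ = _ := by rw [hTw' s hsT]
      rw [e]
      rcases jcs_T_act hJ₂ hTN₂ hTw' hsT with h | h
      · left; rw [h]
      · right; rw [h]

/-- No-Pauli case. -/
theorem s_false_np (hcom : ∀ u ∈ wOf K, ∀ v ∈ wOf (cj x K), u * v = v * u)
    (hnp : (k₂ * w₂ * k₂⁻¹) * w₂ = w₂ * (k₂ * w₂ * k₂⁻¹)) : False := by
  have hconj : ∀ {g h : G}, g * h = h * g → g * h * g⁻¹ = h := by
    intro g h hg
    rw [hg]; group
  exact (C.s_ctx Z hS hcom hnp).false_of_core (K₁ := K) (K₂ := cj x K) (T := T)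
    (fun g hg => hconj ((mem_hpl.mp (C.s_h₁_mem hS)).2 g hg)) (fun g hg => hconj (hS g hg)) (fun g hg => C.hTw hg)
    C.hw₁T C.hJ.hw₁1 C.core_eq_bot

omit C Z hS in
theorem norm_sqCl {Y : Subgroup G} {g : G} (hg : g ∈ Subgroup.normalizer (Y : Set G)) : g ∈ Subgroup.normalizer (sqCl Y : Set G) := by
  apply Cfsg.Agent.Lib.Subnormal.mem_normalizer_of_conj_mem
  intro d hd
  have h1 : cj g (sqCl Y) = sqCl Y := by rw [cj_sqCl, cj_eq_of_mem_normalizer hg]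
  rw [← h1]
  exact conj_mem_cj hd

/-- Pauli case. -/
theorem s_false_p (hcom : ∀ u ∈ wOf K, ∀ v ∈ wOf (cj x K), u * v = v * u)
    (hp : (k₂ * w₂ * k₂⁻¹) * w₂ ≠ w₂ * (k₂ * w₂ * k₂⁻¹)) : False := by
  haveI : Fact (Nat.Prime 2) := ⟨Nat.prime_two⟩
  have hJ := C.hJ
  have hJ₂ := C.hJ₂
  have hTN := C.hTN Z
  have hTN₂ := C.hTN₂ Z
  have hQ₂T := C.hQ₂T Z
  have hk3' : k₂ * k₂ * k₂ = 1 := by
    have h1 := hJ₂.hk3
    have h2 : k₂ ^ 3 = k₂ * k₂ * k₂ := by simp [pow_succ]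
    rwa [h2] at h1
  have hkw : k₂ * w₁ * k₂⁻¹ = w₁ := by
    rw [hS k₂ hJ₂.hkK]; group
  have hTw : ∀ t ∈ T, t * w₁ * t⁻¹ = w₁ := fun t ht => C.hTw ht
  have heQ : w₂ ∈ Qof T (cj x K) := mem_Qof.mpr ⟨C.hWT Z hJ.hw₂mem, fun u hu => hcom _ hJ.hw₂mem u hu⟩
  obtain ⟨h1, h2⟩ := pauli_core (T := T) (Q := Qof T (cj x K)) (k := k₂) (e := w₂) (h := w₁) hQ₂T hk3'
    (fun q hq => jcs_k_conj_Q hJ₂ hTN₂ C.hsyl₂ hq) hkw (omega_sq C.hw₁Z) heQ (hJ.hWsq _ hJ.hw₂mem) hTw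
    (fun t ht => jcs_T_act hJ hTN hTw ht) hp
  set Y := Qof T (cj x K) ⊓ Subgroup.centralizer ({w₂} : Set G) with hY
  have hYeq : ∀ {y : G}, y ∈ Y ↔ y ∈ Qof T K ∧ y ∈ Qof T (cj x K) := by
    intro y
    constructor
    · rintro ⟨h3, h4⟩
      refine ⟨jcs_Q_of_fix hJ hTw (hQ₂T h3) ?_, h3⟩
      rw [Subgroup.mem_centralizer_singleton_iff.mp h4]; group
    · rintro ⟨h3, h4⟩
      exact ⟨h4, Subgroup.mem_centralizer_singleton_iff.mpr ((mem_Qof.mp h3).2 _ hJ.hw₂mem)⟩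
  have hTY : T ≤ Subgroup.normalizer (Y : Set G) := by
    intro t ht
    apply Cfsg.Agent.Lib.Subnormal.mem_normalizer_of_conj_mem
    intro y hy
    obtain ⟨h3, h4⟩ := hYeq.mp hy
    exact hYeq.mpr ⟨conj_mem_of_normalizer (C.hQ₁N Z (Subgroup.mem_sup_right ht)) h3,
      conj_mem_of_normalizer (C.hQ₂N Z (Subgroup.mem_sup_right ht)) h4⟩
  have hxY : x ∈ Subgroup.normalizer (Y : Set G) := by
    apply Cfsg.Agent.Lib.Subnormal.mem_normalizer_of_conj_mem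
    intro y hy
    obtain ⟨h3, h4⟩ := hYeq.mp hy
    refine hYeq.mpr ⟨?_, ?_⟩
    · rw [C.Q₁_eq Z]
      exact conj_mem_cj h4
    · rw [C.Q₂_eq Z]
      exact conj_mem_cj h3
  set Ps := sqCl Y with hPs
  have hTPs : T ≤ Subgroup.normalizer (Ps : Set G) := fun t ht => norm_sqCl (hTY ht)
  have hxPs : x ∈ Subgroup.normalizer (Ps : Set G) := norm_sqCl hxY
  have hkPs : k₂ ∈ Subgroup.normalizer (Ps : Set G) := by
    apply Cfsg.Agent.Lib.Subnormal.mem_normalizer_of_conj_mem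
    intro d hd
    rw [← h1]
    exact conj_mem_cj hd
  have hK₂Ps : cj x K ≤ Subgroup.normalizer (Ps : Set G) := by
    refine hJ₂.hKle.trans (sup_le ((jcs_core_le_T hJ₂ hTN₂ C.hsyl₂).trans hTPs) ?_)
    rw [Subgroup.zpowers_le]
    exact hkPs
  have hKPs : K ≤ Subgroup.normalizer (Ps : Set G) := by
    intro κ hκ
    have h3 := hK₂Ps (conj_mem_cj (g := x) hκ)
    have e : κ = x⁻¹ * (x * κ * x⁻¹) * x := by group
    rw [e]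
    exact Subgroup.mul_mem _ (Subgroup.mul_mem _ (Subgroup.inv_mem _ hxPs) h3) hxPs
  have hPsT : Ps ≤ T := (sqCl_le Y).trans (inf_le_left.trans hQ₂T)
  have h5 : Ps ≤ pCoreOf 2 (K ⊔ cj x K ⊔ T) :=
    le_pCoreOf (hPsT.trans le_sup_right) (sup_le (sup_le hKPs hK₂Ps) hTPs) (C.hT2.to_le hPsT)
  rw [C.core_eq_bot, le_bot_iff] at h5
  rw [h5] at h2
  exact hJ.hw₁1 (Subgroup.mem_bot.mp h2)

end TypeS

/-- **Main claim.** `W₁` does not centralize `W₂`. -/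
theorem not_comm (hcom : ∀ u ∈ wOf K, ∀ v ∈ wOf (cj x K), u * v = v * u) : False := by
  rcases C.dichotomy with h | h
  · exact C.not_comm_nt Z h hcom
  · by_cases hp : (k₂ * w₂ * k₂⁻¹) * w₂ = w₂ * (k₂ * w₂ * k₂⁻¹)
    · exact C.s_false_np Z h hcom hp
    · exact C.s_false_p Z h hcom hp

end TSC

end Cfsg.Agent.Lib.FFG
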