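import Mathlib
import Cfsg.Agent.Lib.FFG22

/-!
# Failure of factorization at the level of the group, part 23: exclusion of a normal elementary abelian subgroup
-/

set_option autoImplicit false
set_option linter.unusedSectionVars false

open Cfsg
open scoped commutatorElement

namespace Cfsg.Agent.Lib.FFG

open Cfsg.Agent.Lib.FFAct Cfsg.Agent.Lib.PCore Cfsg.Agent.Lib.JCompStruct Cfsg.Agent.Lib.ThompsonJ
open Cfsg.Agent.Lib.BGFit2

variable {G : Type*} [Group G] [Finite G]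

theorem mem_sup_of_le_normalizer {T V : Subgroup G} (hT : T ≤ Subgroup.normalizer (V : Set G)) {n : G} (hn : n ∈ V ⊔ T) :
    ∃ v ∈ V, ∃ t ∈ T, n = v * t := by
  let D : Subgroup G :=
    { carrier := {n | ∃ v ∈ V, ∃ t ∈ T, n = v * t}
      one_mem' := ⟨1, V.one_mem, 1, T.one_mem, by group⟩
      mul_mem' := by
        rintro _ _ ⟨v, hv, t, ht, rfl⟩ ⟨v', hv', t', ht', rfl⟩
        refine ⟨v * (t * v' * t⁻¹), V.mul_mem hv (conj_mem_of_normalizer (hT ht) hv'), t * t', T.mul_mem ht ht', by group⟩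
      inv_mem' := by
        rintro _ ⟨v, hv, t, ht, rfl⟩
        refine ⟨t⁻¹ * v⁻¹ * t, conj_inv_mem_of_normalizer (hT ht) (V.inv_mem hv), t⁻¹, T.inv_mem ht, by group⟩ }
  have hle : V ⊔ T ≤ D := by
    apply sup_le
    · intro v hv
      exact ⟨v, hv, 1, T.one_mem, by group⟩
    · intro t ht
      exact ⟨1, V.one_mem, t, ht, by group⟩
  exact hle hn

theorem jcs_transitive {J K : Subgroup G} {k w₁ w₂ : G} (h : JCS J K k w₁ w₂) {a b : G} (ha : a ∈ wOf K) (hb : b ∈ wOf K)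
    (ha1 : a ≠ 1) (hb1 : b ≠ 1) : ∃ g ∈ K, g * a * g⁻¹ = b := by
  have hk := h.hkK
  have h1 := h.hw₂
  have h2 := h.hk₂
  have h3 := h.hk₃
  have hkk : k * k ∈ K := K.mul_mem hk hk
  have e2 : ∀ u : G, k * k * u * (k * k)⁻¹ = k * (k * u * k⁻¹) * k⁻¹ := fun u => by group
  rcases h.hset a ha with rfl | rfl | rfl | rfl
  · exact absurd rfl ha1
  · rcases h.hset b hb with rfl | rfl | rfl | rfl
    · exact absurd rfl hb1
    · exact ⟨1, K.one_mem, by group⟩
    · exact ⟨k, hk, h1⟩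
    · exact ⟨k * k, hkk, by rw [e2, h1, h2]⟩
  · rcases h.hset b hb with rfl | rfl | rfl | rfl
    · exact absurd rfl hb1
    · exact ⟨k * k, hkk, by rw [e2, h2, h3]⟩
    · exact ⟨1, K.one_mem, by group⟩
    · exact ⟨k, hk, h2⟩
  · rcases h.hset b hb with rfl | rfl | rfl | rfl
    · exact absurd rfl hb1
    · exact ⟨k, hk, h3⟩
    · exact ⟨k * k, hkk, by rw [e2, h3, h1]⟩
    · exact ⟨1, K.one_mem, by group⟩

/-- A `2`-subgroup normalizing a conjugate of a Sylow subgroup lies in it. -/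
theorem le_cj_of_le_normalizer (S : Sylow 2 G) {P : Subgroup G} (hP : IsPGroup 2 P) {g : G}
    (h : P ≤ Subgroup.normalizer (cj g (S : Subgroup G) : Set G)) : P ≤ cj g (S : Subgroup G) := by
  have h1 : cj g⁻¹ P ≤ Subgroup.normalizer ((S : Subgroup G) : Set G) := by
    have h2 := cj_mono (g := g⁻¹) h
    rw [normalizer_cj, cj_inv_cj] at h2
    exact h2
  have hP' : IsPGroup 2 (cj g⁻¹ P) := cj_isPGroup hP
  have h3 := hP'.inf_normalizer_sylow S
  have h4 : cj g⁻¹ P ≤ (S : Subgroup G) := by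
    intro y hy
    have h5 : y ∈ cj g⁻¹ P ⊓ Subgroup.normalizer (S : Set G) := ⟨hy, h1 hy⟩
    rw [h3] at h5
    exact h5.2
  have h6 := cj_mono (g := g) h4
  rwa [cj_cj_inv] at h6

namespace TSC

variable {S : Sylow 2 G} {T K L : Subgroup G} {x k w₁ w₂ k₂ w₃ : G} (C : TSC S T K L x k w₁ w₂ k₂ w₃) (Z : ZNH G)
include C

/-- `Z₀` has at most four elements, when the hyperplane is nontrivial. -/
theorem Z₀_four {c : G} (hc : c ∈ hpl (thompsonSubgroupOf 2 T) K) (hc1 : c ≠ 1) {u : G} (hu : u ∈ omegaCenterOf (thompsonSubgroupOf 2 T)) :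
    u = 1 ∨ u = c ∨ u = x * c * x⁻¹ ∨ u = c * (x * c * x⁻¹) := by
  classical
  set J := thompsonSubgroupOf 2 T with hJ
  have hw₁ := C.hw₁Z
  have hw₁2 := omega_sq hw₁
  have hcZ := (mem_hpl.mp hc).1
  set c₂ := x * c * x⁻¹ with hc₂
  have hc₂Z : c₂ ∈ omegaCenterOf J := omega_conj_of_normalizer C.hxJ hcZ
  have hc₂H : c₂ ∈ hpl J (cj x K) := conj_mem_hpl C.hxJ hc
  have hc₂1 : c₂ ≠ 1 := by
    intro h
    apply hc1
    have h3 : x⁻¹ * (x * c * x⁻¹) * x = x⁻¹ * 1 * x := by rw [← hc₂, h]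
    rw [show x⁻¹ * (x * c * x⁻¹) * x = c by group] at h3
    simpa using h3
  have hc₂n : c₂ ∉ hpl J K := fun h => hc₂1 (C.hsep h hc₂H)
  have hHall : ∀ u ∈ hpl J K, u = 1 ∨ u = c := by
    intro u hu
    rcases C.hsmall hu hc with h | h | h
    · exact Or.inl h
    · exact absurd h hc1
    · exact Or.inr h
  have hcc := omega_sq hcZ
  have hZ₀w : ∀ u ∈ omegaCenterOf J, u = 1 ∨ u = c ∨ u = w₁ ∨ u = c * w₁ := by
    intro u hu
    rcases jcs_decomp C.hJ hu with h | h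
    · rcases hHall u h with h | h
      · exact Or.inl h
      · exact Or.inr (Or.inl h)
    · rcases hHall _ h with h | h
      · right; right; left
        have h3 := omega_inv hw₁
        rw [← h3]
        exact eq_inv_of_mul_eq_one_left h
      · right; right; right
        rw [← h, mul_assoc, hw₁2, mul_one]
  have hc₂w : c₂ = w₁ ∨ c₂ = c * w₁ := by
    rcases hZ₀w c₂ hc₂Z with h | h | h | h
    · exact absurd h hc₂1
    · rw [h] at hc₂n
      exact absurd hc hc₂n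
    · exact Or.inl h
    · exact Or.inr h
  rcases hc₂w with h | h
  · rw [h]; exact hZ₀w u hu
  · rcases hZ₀w u hu with h1 | h1 | h1 | h1
    · exact Or.inl h1
    · exact Or.inr (Or.inl h1)
    · right; right; right
      rw [h, ← mul_assoc, hcc, one_mul, h1]
    · right; right; left
      rw [h, h1]

theorem hx_ne {c : G} (hc : c ∈ hpl (thompsonSubgroupOf 2 T) K) (hc1 : c ≠ 1) : x * c * x⁻¹ ≠ c := by
  intro h
  have hc₂H : x * c * x⁻¹ ∈ hpl (thompsonSubgroupOf 2 T) (cj x K) := conj_mem_hpl C.hxJ hc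
  rw [h] at hc₂H
  exact hc1 (C.hsep hc hc₂H)

include Z

theorem exists_e : ∃ e ∈ wOf K, e ∉ Qof T (cj x K) := by
  by_contra hcon
  push Not at hcon
  exact C.not_comm Z (fun u hu v hv => (mem_Qof.mp (hcon u hu)).2 v hv)

/-- There is no nonidentity elementary abelian subgroup of `S`, normal in `S`, containing a four-group `W` on which an element
of a group acts transitively. -/
theorem exclusion {V K₀ J₀ : Subgroup G} {k₀ a₁ a₂ : G} (hV2 : ∀ v ∈ V, v * v = 1) (hVS : V ≤ (S : Subgroup G))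
    (hVN : (S : Subgroup G) ≤ Subgroup.normalizer (V : Set G)) (hK₀ : JCS J₀ K₀ k₀ a₁ a₂) (hWV : wOf K₀ ≤ V) : False := by
  classical
  haveI : Fact (Nat.Prime 2) := ⟨Nat.prime_two⟩
  obtain ⟨e, heW, heQ₂⟩ := C.exists_e Z
  have hJ := C.hJ
  have hJ₂ := C.hJ₂
  have hTN := C.hTN Z
  have hTN₂ := C.hTN₂ Z
  have hTw : ∀ t ∈ T, t * w₁ * t⁻¹ = w₁ := fun t ht => C.hTw ht
  have hTw' : ∀ t ∈ T, t * (x * w₁ * x⁻¹) * t⁻¹ = x * w₁ * x⁻¹ := fun t ht => C.hTw' ht
  set Q₁ := Qof T K with hQ₁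
  set Q₂ := Qof T (cj x K) with hQ₂
  have hQ₁T : Q₁ ≤ T := inf_le_left
  have hQ₂T : Q₂ ≤ T := inf_le_left
  have hQ₁eq : Q₁ = cj x Q₂ := C.Q₁_eq Z
  have hQ₂eq : Q₂ = cj x Q₁ := C.Q₂_eq Z
  have heT : e ∈ T := C.hWT Z heW
  set e₂ := x * e * x⁻¹ with he₂
  have he₂W : e₂ ∈ wOf (cj x K) := by
    rw [wOf_cj]; exact conj_mem_cj heW
  have he₂T : e₂ ∈ T := C.hWT₂ Z he₂W
  have he₂Q₁ : e₂ ∉ Q₁ := by
    intro h
    rw [hQ₁eq, mem_cj] at h
    apply heQ₂
    rwa [show x⁻¹ * e₂ * x = e by rw [he₂]; group] at h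
  have he2 : e * e = 1 := hJ.hWsq e heW
  have he₂2 : e₂ * e₂ = 1 := hJ₂.hWsq e₂ he₂W
  have heQ₁ : e ∈ Q₁ := mem_Qof.mpr ⟨heT, fun w hw => wOf_comm heW hw⟩
  have he₂Q₂ : e₂ ∈ Q₂ := mem_Qof.mpr ⟨he₂T, fun w hw => wOf_comm he₂W hw⟩
  have hidx₂ : ∀ a ∈ T, ∀ b ∈ T, a ∉ Q₂ → b ∉ Q₂ → a * b ∈ Q₂ := by
    intro a ha b hb ha' hb'
    exact jcs_mul_mem_Q hJ₂ hTN₂ hTw' ha hb (fun h => ha' (jcs_Q_of_fix hJ₂ hTw' ha h)) (fun h => hb' (jcs_Q_of_fix hJ₂ hTw' hb h))
  have hidx₁ : ∀ a ∈ T, ∀ b ∈ T, a ∉ Q₁ → b ∉ Q₁ → a * b ∈ Q₁ := by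
    intro a ha b hb ha' hb'
    exact jcs_mul_mem_Q hJ hTN hTw ha hb (fun h => ha' (jcs_Q_of_fix hJ hTw ha h)) (fun h => hb' (jcs_Q_of_fix hJ hTw hb h))
  set Y := Q₁ ⊓ Q₂ with hY
  have hs1 : sqCl Q₁ = sqCl Y := by
    apply sqCl_eq_of_central (e := e) inf_le_left he2
    · intro q hq
      exact (mem_Qof.mp hq).2 e heW
    · intro q hq
      by_cases h : q ∈ Q₂
      · exact Or.inl ⟨hq, h⟩
      · exact Or.inr ⟨Q₁.mul_mem hq heQ₁, hidx₂ q (hQ₁T hq) e heT h heQ₂⟩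
  have hs2 : sqCl Q₂ = sqCl Y := by
    apply sqCl_eq_of_central (e := e₂) inf_le_right he₂2
    · intro q hq
      exact (mem_Qof.mp hq).2 e₂ he₂W
    · intro q hq
      by_cases h : q ∈ Q₁
      · exact Or.inl ⟨h, hq⟩
      · exact Or.inr ⟨hidx₁ q (hQ₂T hq) e₂ he₂T h he₂Q₁, Q₂.mul_mem hq he₂Q₂⟩
  have hP₁ : K ⊔ T ≤ Subgroup.normalizer (sqCl Y : Set G) := by
    rw [← hs1]
    exact fun g hg => norm_sqCl (C.hQ₁N Z hg)
  have hP₂ : cj x K ⊔ T ≤ Subgroup.normalizer (sqCl Y : Set G) := by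
    rw [← hs2]
    exact fun g hg => norm_sqCl (C.hQ₂N Z hg)
  have hYT : Y ≤ T := inf_le_left.trans hQ₁T
  have hsq : sqCl Y = ⊥ := by
    have h1 : sqCl Y ≤ pCoreOf 2 (K ⊔ cj x K ⊔ T) := by
      apply le_pCoreOf
      · exact (sqCl_le Y).trans (hYT.trans le_sup_right)
      · exact sup_le (sup_le (le_sup_left.trans hP₁) (le_sup_left.trans hP₂)) (le_sup_right.trans hP₁)
      · exact C.hT2.to_le ((sqCl_le Y).trans hYT)
    rwa [C.core_eq_bot, le_bot_iff] at h1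
  have hQ₁e : ∀ q ∈ Q₁, q * q = 1 := by
    intro q hq
    have h1 := sq_mem_sqCl hq
    rw [hs1, hsq] at h1
    exact Subgroup.mem_bot.mp h1
  have hQ₂e : ∀ q ∈ Q₂, q * q = 1 := by
    intro q hq
    have h1 := sq_mem_sqCl hq
    rw [hs2, hsq] at h1
    exact Subgroup.mem_bot.mp h1
  have hYc : ∀ y ∈ Y, ∀ t ∈ T, t * y = y * t := by
    intro y hy t ht
    by_cases h : t ∈ Q₁
    · exact comm_of_sq_one hQ₁e h hy.1
    · have h1 := hidx₁ t ht e₂ he₂T h he₂Q₁
      have h2 : (t * e₂) * y = y * (t * e₂) := comm_of_sq_one hQ₁e h1 hy.1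
      have h3 : e₂ * y = y * e₂ := comm_of_sq_one hQ₂e he₂Q₂ hy.2
      have h4 : t * (y * e₂) = (y * t) * e₂ := by
        calc t * (y * e₂) = t * (e₂ * y) := by rw [h3]
          _ = (t * e₂) * y := by group
          _ = y * (t * e₂) := h2
          _ = (y * t) * e₂ := by group
      have h5 : (t * y) * e₂ = (y * t) * e₂ := by rw [← h4]; group
      exact mul_right_cancel h5
  have hYZ : ∀ y ∈ Y, y ∈ omegaCenterOf (thompsonSubgroupOf 2 T) := by
    intro y hy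
    exact omega_le_Z₀ T (mem_omegaCenter (hYT hy) (fun t ht => hYc y hy t ht) (hQ₁e y hy.1))
  have hxY : ∀ y ∈ Y, x * y * x⁻¹ ∈ Y := by
    intro y hy
    refine ⟨?_, ?_⟩
    · rw [hQ₁eq]; exact conj_mem_cj hy.2
    · rw [hQ₂eq]; exact conj_mem_cj hy.1
  have hcf : ∀ a ∈ T, a ∉ Q₂ → ∀ b ∈ wOf (cj x K), b ≠ 1 → b ≠ x * w₁ * x⁻¹ → a * b ≠ b * a := by
    intro a ha haQ b hb hb1 hb2 hcomm
    apply haQ
    apply jcs_Q_of_fix hJ₂ hTw' ha
    have hbc : a * b * a⁻¹ = b := by rw [hcomm]; group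
    rcases hJ₂.hset b hb with rfl | rfl | rfl | rfl
    · exact absurd rfl hb1
    · exact absurd rfl hb2
    · exact hbc
    · have e3 : a * ((x * w₁ * x⁻¹) * w₃) * a⁻¹ = (a * (x * w₁ * x⁻¹) * a⁻¹) * (a * w₃ * a⁻¹) := by group
      rw [e3, hTw' a ha] at hbc
      exact mul_left_cancel hbc
  have he₂1 : e₂ ≠ 1 := by
    intro h
    apply heQ₂
    have h3 : x⁻¹ * (x * e * x⁻¹) * x = x⁻¹ * 1 * x := by rw [← he₂, h]
    rw [show x⁻¹ * (x * e * x⁻¹) * x = e by group] at h3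
    have h4 : e = 1 := by simpa using h3
    rw [h4]; exact Q₂.one_mem
  have he₂w : e₂ ≠ x * w₁ * x⁻¹ := by
    intro h
    apply heQ₂
    have h3 : x⁻¹ * (x * e * x⁻¹) * x = x⁻¹ * (x * w₁ * x⁻¹) * x := by rw [← he₂, h]
    rw [show x⁻¹ * (x * e * x⁻¹) * x = e by group, show x⁻¹ * (x * w₁ * x⁻¹) * x = w₁ by group] at h3
    rw [h3]
    exact (C.hw₁Q₂ Z).1
  have hee₂ : e * e₂ ≠ e₂ * e := hcf e heT heQ₂ e₂ he₂W he₂1 he₂w
  -- `(1)`
  have hV1 : ∀ v ∈ V, v ∈ T → v ∈ Y := by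
    intro v hv hvT
    have hxv : x * v * x⁻¹ ∈ V := conj_mem_of_normalizer (hVN C.hxS) hv
    have hvc : v * (x * v * x⁻¹) = (x * v * x⁻¹) * v := comm_of_sq_one hV2 hv hxv
    have hmul : ∀ y ∈ Y, ∀ y' ∈ Y, ∀ a ∈ T, ∀ b ∈ T, (y * a) * (y' * b) = (y' * b) * (y * a) → a * b = b * a := by
      intro y hy y' hy' a ha b hb h
      have h1 : (y * a) * (y' * b) = (y * y') * (a * b) := by
        calc (y * a) * (y' * b) = y * (a * y') * b := by group
          _ = y * (y' * a) * b := by rw [hYc y' hy' a ha]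
          _ = (y * y') * (a * b) := by group
      have h2 : (y' * b) * (y * a) = (y * y') * (b * a) := by
        calc (y' * b) * (y * a) = y' * (b * y) * a := by group
          _ = y' * (y * b) * a := by rw [hYc y hy b hb]
          _ = (y' * y) * (b * a) := by group
          _ = (y * y') * (b * a) := by rw [comm_of_sq_one hQ₁e hy'.1 hy.1]
      rw [h1, h2] at h
      exact mul_left_cancel h
    by_cases h1 : v ∈ Q₁
    · by_cases h2 : v ∈ Q₂
      · exact ⟨h1, h2⟩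
      · exfalso
        have hy : v * e ∈ Y := ⟨Q₁.mul_mem h1 heQ₁, hidx₂ v hvT e heT h2 heQ₂⟩
        have e1 : v = (v * e) * e := by rw [mul_assoc, he2, mul_one]
        have e3 : x * v * x⁻¹ = (x * (v * e) * x⁻¹) * e₂ := by
          calc x * v * x⁻¹ = x * (v * (e * e)) * x⁻¹ := by rw [he2, mul_one]
            _ = (x * (v * e) * x⁻¹) * (x * e * x⁻¹) := by group
        apply hee₂
        apply hmul _ hy _ (hxY _ hy) e heT e₂ he₂T
        rw [← e1, ← e3]
        exact hvc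
    · have h3 : v * e₂ ∈ Q₁ := hidx₁ v hvT e₂ he₂T h1 he₂Q₁
      by_cases h4 : v * e₂ ∈ Q₂
      · exfalso
        have hy : v * e₂ ∈ Y := ⟨h3, h4⟩
        have e1 : v = (v * e₂) * e₂ := by rw [mul_assoc, he₂2, mul_one]
        set e' := x * e₂ * x⁻¹ with he'
        have he'e : e' = (x * x) * e * (x * x)⁻¹ := by rw [he', he₂]; group
        have he'T : e' ∈ T := by
          rw [he'e]
          exact T.mul_mem (T.mul_mem C.hxx heT) (T.inv_mem C.hxx)
        have he'Q : e' ∉ Q₂ := by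
          intro h
          apply heQ₂
          have h5 := conj_inv_mem_of_normalizer (C.hQ₂N Z (Subgroup.mem_sup_right C.hxx)) h
          rw [he'e] at h5
          rwa [show (x * x)⁻¹ * (x * x * e * (x * x)⁻¹) * (x * x) = e by group] at h5
        have e3 : x * v * x⁻¹ = (x * (v * e₂) * x⁻¹) * e' := by
          calc x * v * x⁻¹ = x * (v * (e₂ * e₂)) * x⁻¹ := by rw [he₂2, mul_one]
            _ = (x * (v * e₂) * x⁻¹) * (x * e₂ * x⁻¹) := by group
        apply hcf e' he'T he'Q e₂ he₂W he₂1 he₂w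
        symm
        apply hmul _ hy _ (hxY _ hy) e₂ he₂T e' he'T
        rw [← e1, ← e3]
        exact hvc
      · exfalso
        have h5 : v * e₂ * e ∈ Y := ⟨Q₁.mul_mem h3 heQ₁, hidx₂ _ (T.mul_mem hvT he₂T) e heT h4 heQ₂⟩
        set y := v * e₂ * e with hy
        have e1 : v = y * (e * e₂) := by
          rw [hy]
          calc v = v * (e₂ * e₂) := by rw [he₂2, mul_one]
            _ = v * e₂ * 1 * e₂ := by group
            _ = v * e₂ * (e * e) * e₂ := by rw [he2]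
            _ = v * e₂ * e * (e * e₂) := by group
        have h6 := hV2 v hv
        rw [e1] at h6
        have hee : e * e₂ ∈ T := T.mul_mem heT he₂T
        have h7 : (y * (e * e₂)) * (y * (e * e₂)) = (y * y) * ((e * e₂) * (e * e₂)) := by
          calc (y * (e * e₂)) * (y * (e * e₂)) = y * ((e * e₂) * y) * (e * e₂) := by group
            _ = y * (y * (e * e₂)) * (e * e₂) := by rw [hYc y h5 _ hee]
            _ = (y * y) * ((e * e₂) * (e * e₂)) := by group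
        rw [h7, hQ₁e y h5.1, one_mul] at h6
        apply hee₂
        have h8 : e * e₂ = (e * e₂)⁻¹ := eq_inv_of_mul_eq_one_left h6
        rw [h8, mul_inv_rev, inv_eq_of_mul_eq_one_left he₂2, inv_eq_of_mul_eq_one_left he2]
  -- `(2)`
  have hw₁Q₁ : w₁ ∈ Q₁ := (C.hw₁Q₂ Z).2
  have hQ₁ne : Q₁ ≠ ⊥ := by
    intro hb
    rw [hb] at hw₁Q₁
    exact hJ.hw₁1 (Subgroup.mem_bot.mp hw₁Q₁)
  have hQ₁L : Subgroup.normalizer (Q₁ : Set G) ≤ L := by
    apply C.htop.htop _ ⟨Q₁, C.hT2.to_le hQ₁T, hQ₁ne, rfl⟩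
    exact sup_le (le_sup_left.trans (C.hQ₁N Z)) (C.hJT.trans (le_sup_right.trans (C.hQ₁N Z)))
  have hSL : (S : Subgroup G) ⊓ L ≤ T :=
    le_of_sylow_of_pGroup C.hLT.1 (S.isPGroup'.to_le inf_le_left) (le_inf C.hTS C.hTL) inf_le_right
  have hVT : V ≤ T := by
    by_contra hcon
    have hlt : T < V ⊔ T := by
      refine lt_of_le_of_ne le_sup_right ?_
      intro h
      exact hcon (le_sup_left.trans h.ge)
    have hU : V ⊔ T ≤ (S : Subgroup G) := sup_le hVS C.hTS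
    obtain ⟨n, hnU, hnT, hnN⟩ := exists_mem_normalizer_of_lt (S.isPGroup'.to_le hU) hlt
    obtain ⟨v, hv, t, ht, rfl⟩ := mem_sup_of_le_normalizer (C.hTS.trans hVN) hnU
    have hvT : v ∉ T := fun h => hnT (T.mul_mem h ht)
    have hvN : v ∈ Subgroup.normalizer (T : Set G) := by
      have e : v = v * t * t⁻¹ := by group
      rw [e]
      exact Subgroup.mul_mem _ hnN (Subgroup.le_normalizer (T.inv_mem ht))
    have hcomV : ∀ t ∈ T, t * v * t⁻¹ * v⁻¹ ∈ Y := by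
      intro t ht
      apply hV1
      · exact V.mul_mem (conj_mem_of_normalizer (hVN (C.hTS ht)) hv) (V.inv_mem hv)
      · have e : t * v * t⁻¹ * v⁻¹ = t * (v * t⁻¹ * v⁻¹) := by group
        rw [e]
        exact T.mul_mem ht (conj_mem_of_normalizer hvN (T.inv_mem ht))
    have hvQ : v ∈ Subgroup.normalizer (Q₁ : Set G) := by
      apply Cfsg.Agent.Lib.Subnormal.mem_normalizer_of_conj_mem
      intro q hq
      have h1 := hcomV q (hQ₁T hq)
      have h2 : v * q * v⁻¹ = (q * v * q⁻¹ * v⁻¹)⁻¹ * q := by group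
      rw [h2]
      exact Q₁.mul_mem (Q₁.inv_mem h1.1) hq
    exact hvT (hSL ⟨hVS hv, hQ₁L hvQ⟩)
  have hVZ : ∀ v ∈ V, v ∈ omegaCenterOf (thompsonSubgroupOf 2 T) := fun v hv => hYZ v (hV1 v hv (hVT hv))
  -- `(3)`
  have ha₁Z := hVZ _ (hWV hK₀.hw₁)
  have ha₂Z := hVZ _ (hWV hK₀.hw₂mem)
  obtain ⟨c, hc, hc1⟩ : ∃ c ∈ hpl (thompsonSubgroupOf 2 T) K, c ≠ 1 := by
    by_contra hcon
    push Not at hcon
    have hall : ∀ u ∈ omegaCenterOf (thompsonSubgroupOf 2 T), u = 1 ∨ u = w₁ := by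
      intro u hu
      rcases jcs_decomp hJ hu with h | h
      · exact Or.inl (hcon u h)
      · right
        rw [← omega_inv C.hw₁Z]
        exact eq_inv_of_mul_eq_one_left (hcon _ h)
    rcases hall _ ha₁Z with h | h
    · exact hK₀.hw₁1 h
    · rcases hall _ ha₂Z with h' | h'
      · exact hK₀.hw₂1 h'
      · exact hK₀.hw₁₂ (h.trans h'.symm)
  set c₂ := x * c * x⁻¹ with hc₂
  have hcZ := (mem_hpl.mp hc).1
  have hc₂Z : c₂ ∈ omegaCenterOf (thompsonSubgroupOf 2 T) := omega_conj_of_normalizer C.hxJ hcZ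
  have hZ₄ : ∀ {u : G}, u ∈ omegaCenterOf (thompsonSubgroupOf 2 T) → u = 1 ∨ u = c ∨ u = c₂ ∨ u = c * c₂ :=
    fun hu => C.Z₀_four hc hc1 hu
  have hxc₂ : x * c₂ * x⁻¹ = c := by
    calc x * c₂ * x⁻¹ = (x * x) * c * (x * x)⁻¹ := by rw [hc₂]; group
      _ = c := C.hxxz hcZ
  have hc₂c : c₂ ≠ c := C.hx_ne hc hc1
  have hc₂1 : c₂ ≠ 1 := by
    intro h
    apply hc1
    rw [← hxc₂, h]; group
  have hcc := omega_sq hcZ
  have hc₂c₂ := omega_sq hc₂Z
  have hcomm : c * c₂ = c₂ * c := omega_comm hcZ hc₂Z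
  have hfix : ∀ {u : G}, u ∈ omegaCenterOf (thompsonSubgroupOf 2 T) → x * u * x⁻¹ = u → u = 1 ∨ u = c * c₂ := by
    intro u hu hxu
    rcases hZ₄ hu with h | h | h | h
    · exact Or.inl h
    · rw [h] at hxu
      exact absurd hxu hc₂c
    · rw [h, hxc₂] at hxu
      exact absurd hxu.symm hc₂c
    · exact Or.inr h
  -- the central involution
  have hVdvd : 2 ∣ Nat.card V := by
    have h1 : orderOf (⟨a₁, hWV hK₀.hw₁⟩ : V) = 2 := by
      apply orderOf_eq_prime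
      · apply Subtype.ext
        show a₁ ^ 2 = 1
        rw [pow_two]; exact hV2 _ (hWV hK₀.hw₁)
      · intro h
        exact hK₀.hw₁1 (congrArg Subtype.val h)
    rw [← h1]
    exact orderOf_dvd_natCard _
  obtain ⟨z, hzV, hz1, hzS⟩ := exists_fixed_ne_one S.isPGroup' hVdvd (fun q hq w hw => conj_mem_of_normalizer (hVN hq) hw)
  have hzZ := hVZ z hzV
  have hzcc : z = c * c₂ := (hfix hzZ (hzS x C.hxS)).resolve_left hz1
  have hz2 : z * z = 1 := hV2 z hzV
  have hSZ₀ : omegaCenterOf (S : Subgroup G) ≤ omegaCenterOf (thompsonSubgroupOf 2 T) :=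
    (omega_le_omega C.hTS (centralizer_le_of_jover C.hLT)).trans (omega_le_Z₀ T)
  have hCz : Subgroup.centralizer ({z} : Set G) ≤ Subgroup.normalizer ((S : Subgroup G) : Set G) := by
    intro g hg
    apply Z.hZ S
    rw [Subgroup.mem_centralizer_iff]
    intro u hu
    have hu' := omegaCenter_mem hu
    have hxu : x * u * x⁻¹ = u := by
      rw [(hu'.2.1 x C.hxS)]; group
    rcases hfix (hSZ₀ hu) hxu with h | h
    · rw [h]; group
    · rw [h, ← hzcc]
      exact (Subgroup.mem_centralizer_singleton_iff.mp hg).symm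
  -- `c ∈ W₀`, `z ∈ W₀`
  have hcz : c ∈ wOf K₀ ∧ z ∈ wOf K₀ := by
    have hab : a₁ * a₂ ∈ wOf K₀ := (wOf K₀).mul_mem hK₀.hw₁ hK₀.hw₂mem
    have e1 : c₂ * (c * c₂) = c := by
      calc c₂ * (c * c₂) = (c₂ * c) * c₂ := by group
        _ = (c * c₂) * c₂ := by rw [hcomm]
        _ = c * (c₂ * c₂) := by group
        _ = c := by rw [hc₂c₂, mul_one]
    have e2 : c * (c * c₂) = c₂ := by rw [← mul_assoc, hcc, one_mul]
    have e3 : (c * c₂) * c = c₂ := by
      calc (c * c₂) * c = (c₂ * c) * c := by rw [hcomm]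
        _ = c₂ * (c * c) := by group
        _ = c₂ := by rw [hcc, mul_one]
    have e4 : (c * c₂) * c₂ = c := by
      calc (c * c₂) * c₂ = c * (c₂ * c₂) := by group
        _ = c := by rw [hc₂c₂, mul_one]
    have e5 : c₂ * c = c * c₂ := hcomm.symm
    rw [hzcc]
    have h₁ := hK₀.hw₁
    have h₂ := hK₀.hw₂mem
    rcases hZ₄ ha₁Z with h | h | h | h
    · exact absurd h hK₀.hw₁1
    · rw [h] at h₁ hab
      rcases hZ₄ ha₂Z with h' | h' | h' | h'
      · exact absurd h' hK₀.hw₂1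
      · exact absurd (h.trans h'.symm) hK₀.hw₁₂
      · rw [h'] at h₂ hab
        exact ⟨h₁, hab⟩
      · rw [h'] at h₂ hab
        exact ⟨h₁, h₂⟩
    · rw [h] at h₁ hab
      rcases hZ₄ ha₂Z with h' | h' | h' | h'
      · exact absurd h' hK₀.hw₂1
      · rw [h'] at h₂ hab
        rw [e5] at hab
        exact ⟨h₂, hab⟩
      · exact absurd (h.trans h'.symm) hK₀.hw₁₂
      · rw [h'] at h₂ hab
        rw [e1] at hab
        exact ⟨hab, h₂⟩
    · rw [h] at h₁ hab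
      rcases hZ₄ ha₂Z with h' | h' | h' | h'
      · exact absurd h' hK₀.hw₂1
      · rw [h'] at h₂ hab
        exact ⟨h₂, h₁⟩
      · rw [h'] at h₂ hab
        rw [e4] at hab
        exact ⟨hab, h₁⟩
      · exact absurd (h.trans h'.symm) hK₀.hw₁₂
  obtain ⟨g, -, hg⟩ := jcs_transitive hK₀ hcz.2 hcz.1 hz1 hc1
  -- the contradiction
  set P := cj g (S : Subgroup G) with hP
  have hCc : Subgroup.centralizer ({c} : Set G) ≤ Subgroup.normalizer (P : Set G) := by
    intro u hu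
    have hu' : u * c = c * u := Subgroup.mem_centralizer_singleton_iff.mp hu
    have h1 : g⁻¹ * u * g ∈ Subgroup.centralizer ({z} : Set G) := by
      rw [Subgroup.mem_centralizer_singleton_iff]
      rw [← hg] at hu'
      calc g⁻¹ * u * g * z = g⁻¹ * (u * (g * z * g⁻¹)) * g := by group
        _ = g⁻¹ * ((g * z * g⁻¹) * u) * g := by rw [hu']
        _ = z * (g⁻¹ * u * g) := by group
    have h2 := hCz h1
    rw [hP, normalizer_cj, mem_cj]
    exact h2
  have hJC : thompsonSubgroupOf 2 T ≤ Subgroup.centralizer ({c} : Set G) := by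
    intro j hj
    exact Subgroup.mem_centralizer_singleton_iff.mpr ((omegaCenter_mem hcZ).2.1 j hj)
  have hKC : K ≤ Subgroup.centralizer ({c} : Set G) := by
    intro κ hκ
    exact Subgroup.mem_centralizer_singleton_iff.mpr ((mem_hpl.mp hc).2 κ hκ)
  have hJP : thompsonSubgroupOf 2 T ≤ P := le_cj_of_le_normalizer S C.hJp (hJC.trans hCc)
  exact jcs_not_le_normalizer hJ hJP (cj_isPGroup S.isPGroup') (hKC.trans hCc)

end TSC

end Cfsg.Agent.Lib.FFG
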