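import Mathlib
import Cfsg.Agent.Lib.FFG23
import Cfsg.Agent.S2947
import Cfsg.Agent.S2949

/-!
# Failure of factorization at the level of the group, part 24: strongly embedded subgroups, the configuration `T < S`
-/

set_option autoImplicit false
set_option linter.unusedSectionVars false

open Cfsg
open scoped commutatorElement

namespace Cfsg.Agent.Lib.FFG

open Cfsg.Agent.Lib.FFAct Cfsg.Agent.Lib.PCore Cfsg.Agent.Lib.JCompStruct Cfsg.Agent.Lib.ThompsonJ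
open Cfsg.Agent.Lib.BGFit2

variable {G : Type*} [Group G] [Finite G]

/-- The existence of the configuration. -/
theorem exists_TSC (Z : ZNH G) (hO : pCore 2 G = ⊥) (S : Sylow 2 G) {M T K : Subgroup G} (hM : IsTwoLocal M)
    (hMJ : Subgroup.normalizer (thompsonSubgroupOf 2 (S : Subgroup G) : Set G) ≤ M) (hT : T ∈ maxStraddlingTwoSubgroups M)
    (hTS : T ≤ (S : Subgroup G)) (hne : T ≠ (S : Subgroup G)) (hK : K ∈ jComponentsOutside M T) :
    ∃ L x k w₁ w₂ k₂ w₃, TSC S T K L x k w₁ w₂ k₂ w₃ := by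
  obtain ⟨L, htop, hLT⟩ := exists_topOf Z hO S hM hMJ hT hK
  obtain ⟨x, hxS, hxT, hxN, hxx⟩ := exists_sq_mem S.isPGroup' (lt_of_le_of_ne hTS hne)
  have hT2 : IsPGroup 2 T := hT.1.1
  have hxJ := normalizer_le_normalizer_thompson T hxN
  obtain ⟨k, w₁, w₂, hJ⟩ := exists_JCS hT2 hK.1.1
  have hK₂ : IsJComponent T (cj x K) := isJComponent_cj_of_normalizer hK.1.1 hxJ
  obtain ⟨k₂, w', w₃, hJ₂⟩ := exists_JCS hT2 hK₂
  have hw' : x * w₁ * x⁻¹ = w' := by
    obtain ⟨j₀, hj₀, hmv⟩ := hJ₂.hmove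
    have hmem : x * w₁ * x⁻¹ ∈ wOf (cj x K) := by
      rw [wOf_cj]; exact conj_mem_cj hJ.hw₁
    have hZ : x * w₁ * x⁻¹ ∈ omegaCenterOf (thompsonSubgroupOf 2 T) := omega_conj_of_normalizer hxJ (jcs_w₁_omega hJ)
    have hfix : j₀ * (x * w₁ * x⁻¹) * j₀⁻¹ = x * w₁ * x⁻¹ := by
      rw [(omegaCenter_mem hZ).2.1 j₀ hj₀]; group
    rcases hJ₂.mem_of_fix hj₀ hmv hmem hfix with h | h
    · exfalso
      apply hJ.hw₁1
      have h3 : x⁻¹ * (x * w₁ * x⁻¹) * x = x⁻¹ * 1 * x := by rw [h]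
      rw [show x⁻¹ * (x * w₁ * x⁻¹) * x = w₁ by group] at h3
      simpa using h3
    · exact h
  subst hw'
  exact ⟨L, x, k, w₁, w₂, k₂, w₃, hT2, hT.1.2.1, hTS, hxS, hxT, hxN, hxx, hK.1.1, hJ, hJ₂, htop, hLT⟩

section SE

variable {M : Subgroup G} (hM : IsStronglyEmbedded M)
include hM

theorem se_not_mem {g t : G} (hg : g ∉ M) (ht : t ∈ M) (ht2 : t * t = 1) (ht1 : t ≠ 1) : t ∉ cj g M := by
  intro htc
  have h1 : Odd (Nat.card ↥(M ⊓ cj g M)) := hM.2.2 g hg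
  have h2 : orderOf (⟨t, ht, htc⟩ : ↥(M ⊓ cj g M)) = 2 := by
    apply orderOf_eq_prime
    · apply Subtype.ext
      show t ^ 2 = 1
      rw [pow_two]; exact ht2
    · intro h
      exact ht1 (congrArg Subtype.val h)
  have h3 : 2 ∣ Nat.card ↥(M ⊓ cj g M) := by
    rw [← h2]; exact orderOf_dvd_natCard _
  rw [Nat.odd_iff] at h1
  omega

theorem se_cent {t : G} (ht : t ∈ M) (ht2 : t * t = 1) (ht1 : t ≠ 1) : Subgroup.centralizer ({t} : Set G) ≤ M := by
  intro g hg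
  by_contra hgM
  apply se_not_mem hM hgM ht ht2 ht1
  rw [mem_cj]
  have h1 := Subgroup.mem_centralizer_singleton_iff.mp hg
  have e : g⁻¹ * t * g = t := by
    calc g⁻¹ * t * g = g⁻¹ * (t * g) := by group
      _ = g⁻¹ * (g * t) := by rw [h1]
      _ = t := by group
  rw [e]; exact ht

theorem se_exists_out {z : G} (hz : z ∈ M) (hz2 : z * z = 1) (hz1 : z ≠ 1) : ∃ z', z' ∉ M ∧ z' * z' = 1 ∧ z' ≠ 1 := by
  obtain ⟨g, hg⟩ : ∃ g, g ∉ M := by
    by_contra hcon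
    push Not at hcon
    exact hM.1 ((Subgroup.eq_top_iff' M).mpr hcon)
  refine ⟨g * z * g⁻¹, ?_, ?_, ?_⟩
  · intro h
    have h1 := se_not_mem hM hg h ?_ ?_
    · exact h1 (conj_mem_cj hz)
    · calc g * z * g⁻¹ * (g * z * g⁻¹) = g * (z * z) * g⁻¹ := by group
        _ = 1 := by rw [hz2]; group
    · intro h2
      apply hz1
      have h3 : g⁻¹ * (g * z * g⁻¹) * g = g⁻¹ * 1 * g := by rw [h2]
      rw [show g⁻¹ * (g * z * g⁻¹) * g = z by group] at h3
      simpa using h3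
  · calc g * z * g⁻¹ * (g * z * g⁻¹) = g * (z * z) * g⁻¹ := by group
      _ = 1 := by rw [hz2]; group
  · intro h2
    apply hz1
    have h3 : g⁻¹ * (g * z * g⁻¹) * g = g⁻¹ * 1 * g := by rw [h2]
    rw [show g⁻¹ * (g * z * g⁻¹) * g = z by group] at h3
    simpa using h3

/-- An involution of `M` and an involution outside `M` are conjugate. -/
theorem se_conj {t z : G} (ht : t ∈ M) (ht2 : t * t = 1) (ht1 : t ≠ 1) (hz : z ∉ M) (hz2 : z * z = 1) :
    ∃ g, g * t * g⁻¹ = z := by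
  classical
  have hti : t⁻¹ = t := inv_eq_of_mul_eq_one_left ht2
  have hzi : z⁻¹ = z := inv_eq_of_mul_eq_one_left hz2
  set d := t * z with hd
  have hdi : d⁻¹ = z * t := by rw [hd, mul_inv_rev, hti, hzi]
  have htd : t * d * t⁻¹ = d⁻¹ := by
    rw [hdi, hd, hti]
    calc t * (t * z) * t = (t * t) * z * t := by group
      _ = z * t := by rw [ht2, one_mul]
  have hzd : z * d * z⁻¹ = d⁻¹ := by
    rw [hdi, hd, hzi]
    calc z * (t * z) * z = z * t * (z * z) := by group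
      _ = z * t := by rw [hz2, mul_one]
  have hord : 0 < orderOf d := orderOf_pos d
  rcases Nat.even_or_odd' (orderOf d) with ⟨m, hm | hm⟩
  · -- even: the central involution
    exfalso
    set u := d ^ m with hu
    have huu : u * u = 1 := by
      rw [hu, ← pow_add, ← two_mul, ← hm]
      exact pow_orderOf_eq_one d
    have hu1 : u ≠ 1 := by
      intro h
      have h2 := orderOf_dvd_of_pow_eq_one h
      have hm0 : 0 < m := by omega
      have := Nat.le_of_dvd hm0 h2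
      omega
    have hui : u⁻¹ = u := inv_eq_of_mul_eq_one_left huu
    have htu : t * u * t⁻¹ = u := by
      rw [hu, ← conj_pow, htd, inv_pow, ← hu, hui]
    have hzu : z * u * z⁻¹ = u := by
      rw [hu, ← conj_pow, hzd, inv_pow, ← hu, hui]
    have huM : u ∈ M := se_cent hM ht ht2 ht1 (Subgroup.mem_centralizer_singleton_iff.mpr (mul_inv_eq_iff_eq_mul.mp htu).symm)
    exact hz (se_cent hM huM huu hu1 (Subgroup.mem_centralizer_singleton_iff.mpr (mul_inv_eq_iff_eq_mul.mp hzu)))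
  · -- odd
    refine ⟨d ^ m, ?_⟩
    have h1 : d ^ (2 * m + 1) = 1 := by
      rw [← hm]; exact pow_orderOf_eq_one d
    have h2 : t * (d ^ m)⁻¹ * t⁻¹ = d ^ m := by
      have e : t * (d ^ m)⁻¹ * t⁻¹ = (t * d ^ m * t⁻¹)⁻¹ := by group
      rw [e, ← conj_pow, htd, inv_pow, inv_inv]
    have h3 : t * (d ^ m)⁻¹ = d ^ m * t := mul_inv_eq_iff_eq_mul.mp h2
    have h4 : d ^ (2 * m) = d⁻¹ := by
      apply eq_inv_of_mul_eq_one_left
      rw [← pow_succ]; exact h1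
    calc d ^ m * t * (d ^ m)⁻¹ = d ^ m * (t * (d ^ m)⁻¹) := by group
      _ = d ^ m * (d ^ m * t) := by rw [h3]
      _ = d ^ (2 * m) * t := by rw [← mul_assoc, ← pow_add, two_mul]
      _ = z * t * t := by rw [h4, hdi]
      _ = z := by rw [mul_assoc, ht2, mul_one]

/-- Any two involutions of `M` are conjugate in `M`. -/
theorem se_trans {t₁ t₂ : G} (h1 : t₁ ∈ M) (h12 : t₁ * t₁ = 1) (h11 : t₁ ≠ 1) (h2 : t₂ ∈ M) (h22 : t₂ * t₂ = 1) (h21 : t₂ ≠ 1) :
    ∃ g ∈ M, g * t₁ * g⁻¹ = t₂ := by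
  obtain ⟨z, hz, hz2, hz1⟩ := se_exists_out hM h1 h12 h11
  obtain ⟨g₁, hg₁⟩ := se_conj hM h1 h12 h11 hz hz2
  obtain ⟨g₂, hg₂⟩ := se_conj hM h2 h22 h21 hz hz2
  refine ⟨g₂⁻¹ * g₁, ?_, ?_⟩
  · by_contra hg
    apply se_not_mem hM hg h2 h22 h21
    rw [mem_cj]
    have e : (g₂⁻¹ * g₁)⁻¹ * t₂ * (g₂⁻¹ * g₁) = t₁ := by
      have h3 : t₁ = g₁⁻¹ * z * g₁ := by rw [← hg₁]; group
      have h4 : t₂ = g₂⁻¹ * z * g₂ := by rw [← hg₂]; group
      rw [h3, h4]; group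
    rw [e]; exact h1
  · calc g₂⁻¹ * g₁ * t₁ * (g₂⁻¹ * g₁)⁻¹ = g₂⁻¹ * (g₁ * t₁ * g₁⁻¹) * g₂ := by group
      _ = g₂⁻¹ * (g₂ * t₂ * g₂⁻¹) * g₂ := by rw [hg₁, hg₂]
      _ = t₂ := by group

end SE

/-- The maximal members exist. -/
theorem exists_maxStraddling {M : Subgroup G} (h : (straddlingTwoSubgroups M).Nonempty) :
    ∃ T, T ∈ maxStraddlingTwoSubgroups M := by
  classical
  let f : Subgroup G → ℕ ×ₗ ℕ ×ₗ ℕ := fun T =>
    toLex (maxElemAbelianOrder T, toLex (Nat.card ↥(thompsonSubgroupOf 2 T), Nat.card ↥T))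
  obtain ⟨T, hT, hmax⟩ := Set.exists_max_image (straddlingTwoSubgroups M) f (Set.toFinite _) h
  refine ⟨T, hT, fun T' hT' => ?_⟩
  have h1 := hmax T' hT'
  have h2 := Prod.Lex.toLex_le_toLex'.mp h1
  refine ⟨h2.1, fun he => ?_⟩
  have h3 := Prod.Lex.toLex_le_toLex'.mp (h2.2 he)
  exact ⟨h3.1, fun he2 => h3.2 he2⟩

theorem isSylowTwoIn_of_sylow (S : Sylow 2 G) {L : Subgroup G} (hSL : (S : Subgroup G) ≤ L) : IsSylowTwoIn (S : Subgroup G) L := by
  refine ⟨hSL, S.isPGroup', ?_⟩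
  have h1 : Odd (S : Subgroup G).index := by
    have h2 := S.not_dvd_index
    rw [Nat.odd_iff]
    omega
  have h2 := Subgroup.relIndex_mul_index hSL
  rw [← h2] at h1
  exact (Nat.odd_mul.mp h1).1

/-- A Sylow subgroup straddling `L₀` is maximal among the subgroups straddling `L₀`. -/
theorem sylow_mem_maxStraddling (S : Sylow 2 G) {L₀ : Subgroup G} (hst : (S : Subgroup G) ∈ straddlingTwoSubgroups L₀) :
    (S : Subgroup G) ∈ maxStraddlingTwoSubgroups L₀ := by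
  refine ⟨hst, fun T' hT' => ?_⟩
  obtain ⟨hT'p, hT'1, hT'L, -⟩ := hT'
  have hSsyl := isSylowTwoIn_of_sylow S hst.2.2.1
  obtain ⟨P, hTP, hP⟩ := exists_isSylowTwoIn hT'L hT'p
  obtain ⟨m, hm, rfl⟩ := exists_conj_of_sylow hSsyl hP
  obtain ⟨A, hA⟩ := exists_maxEA (S : Subgroup G)
  obtain ⟨A', hA'⟩ := exists_maxEA T'
  have hAc := maxEA_cj hA m
  have h1 : Nat.card A' ≤ Nat.card (cj m A) := hAc.2.2 A' (hA'.1.trans hTP) hA'.2.1
  rw [card_cj'] at h1
  rw [maxElemAbelianOrder_eq hA, maxElemAbelianOrder_eq hA']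
  refine ⟨h1, fun he => ?_⟩
  have h2 : thompsonSubgroupOf 2 T' ≤ thompsonSubgroupOf 2 (cj m (S : Subgroup G)) := by
    rw [thompsonOf_eq_sSup T']
    apply sSup_le
    intro B hB
    refine MaxEA.le_thompson (S := cj m (S : Subgroup G)) ⟨hB.1.trans hTP, hB.2.1, fun C hC hCe => ?_⟩
    have h3 := hAc.2.2 C hC hCe
    rw [card_cj'] at h3
    have h4 := MaxEA.card_eq hB hA'
    omega
  rw [thompson_cj] at h2
  constructor
  · have := Subgroup.card_le_of_le h2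
    rwa [card_cj'] at this
  · intro _
    have := Subgroup.card_le_of_le hTP
    rwa [card_cj'] at this

/-- A conjugate of a Sylow subgroup, as a Sylow subgroup. -/
theorem exists_sylow_cj (S : Sylow 2 G) (g : G) : ∃ S' : Sylow 2 G, (S' : Subgroup G) = cj g (S : Subgroup G) := by
  refine ⟨g • S, ?_⟩
  rw [Sylow.coe_subgroup_smul]
  rfl

end Cfsg.Agent.Lib.FFG
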