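import Mathlib
import Cfsg.Agent.Lib.FFG24
import Cfsg.Agent.S2943

/-!
# Failure of factorization at the level of the group, part 25: the case `T = S`
-/

set_option autoImplicit false
set_option linter.unusedSectionVars false

open Cfsg
open scoped commutatorElement

namespace Cfsg.Agent.Lib.FFG

open Cfsg.Agent.Lib.FFAct Cfsg.Agent.Lib.PCore Cfsg.Agent.Lib.JCompStruct Cfsg.Agent.Lib.ThompsonJ
open Cfsg.Agent.Lib.BGFit2

variable {G : Type*} [Group G] [Finite G]

/-- A member of `ℒ(S)` containing a `J(S)`-component is not strongly embedded. -/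
theorem se_false (Z : ZNH G) (S : Sylow 2 G) {L₀ K₀ : Subgroup G} (hSE : IsStronglyEmbedded L₀)
    (hLT : L₀ ∈ jOvergroups (S : Subgroup G)) (hK₀ : IsJComponent (S : Subgroup G) K₀) (hKL : K₀ ≤ L₀) : False := by
  have hSp : IsPGroup 2 (S : Subgroup G) := S.isPGroup'
  obtain ⟨k, a₁, a₂, hJ⟩ := exists_JCS hSp hK₀
  have hS1 : (S : Subgroup G) ≠ ⊥ := by
    intro h
    apply hJ.hw₁1
    have h1 : a₁ ∈ (S : Subgroup G) := Cfsg.Agent.Lib.JCompBasic.thompsonSubgroupOf_le 2 _ (jcs_W_le_J hJ hJ.hw₁)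
    rw [h] at h1
    exact (Subgroup.mem_bot).mp h1
  have hWV := Z.wOf_le_V hSp hS1 hLT hK₀ hKL hJ
  have hz : a₁ ∈ omegaCenterOf (pCoreOf 2 L₀) := hWV hJ.hw₁
  have ha₁L : a₁ ∈ L₀ := pCoreOf_le 2 L₀ (omegaCenter_mem hz).1
  have ha₁2 : a₁ * a₁ = 1 := (omegaCenter_mem hz).2.2
  apply hLT.2.1
  rw [thompsonOf_eq_sSup]
  apply sSup_le
  intro A hA a ha
  have ha2 : a * a = 1 := by
    have := hA.2.1.2 a ha
    rwa [pow_two] at this
  by_cases ha1 : a = 1
  · rw [ha1]; exact Subgroup.one_mem _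
  have haS : a ∈ L₀ := hLT.1.1 (hA.1 ha)
  obtain ⟨g, hg, hgc⟩ := se_trans hSE ha₁L ha₁2 hJ.hw₁1 haS ha2 ha1
  have h3 : g * a₁ * g⁻¹ ∈ omegaCenterOf (pCoreOf 2 L₀) := conj_mem_of_normalizer (omega_normalized L₀ hg) hz
  rw [hgc] at h3
  exact (omegaCenter_mem h3).1

/-- A member of `ℒ(S)` containing `N(J(S))` is not at the top of the `2`-local subgroups containing `S`. -/
theorem no_top_of_sylow (Z : ZNH G) (hO : pCore 2 G = ⊥) (S : Sylow 2 G) {L₀ : Subgroup G} (hL₀ : IsTwoLocal L₀)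
    (hMJ : Subgroup.normalizer (thompsonSubgroupOf 2 (S : Subgroup G) : Set G) ≤ L₀)
    (hLT : L₀ ∈ jOvergroups (S : Subgroup G))
    (hall : ∀ X, IsTwoLocal X → (S : Subgroup G) ≤ X → X ≤ L₀) : False := by
  have hSp : IsPGroup 2 (S : Subgroup G) := S.isPGroup'
  obtain ⟨K₀, hK₀, hK₀L⟩ := Z.exists_jComponent hLT
  have hst : (straddlingTwoSubgroups L₀).Nonempty := by
    by_contra hne
    rw [Set.not_nonempty_iff_eq_empty] at hne
    exact se_false Z S ((Cfsg.Agent.S2947.result Z.hL Z.hN Z.hZ hO S L₀ hL₀ hMJ).mpr hne) hLT hK₀ hK₀L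
  obtain ⟨T₁, hT₁⟩ := exists_maxStraddling hst
  obtain ⟨P, hTP, hP⟩ := exists_isSylowTwoIn hT₁.1.2.2.1 hT₁.1.1
  obtain ⟨m, hm, rfl⟩ := exists_conj_of_sylow hLT.1 hP
  obtain ⟨S', hS'⟩ := exists_sylow_cj S m
  have hcL : cj m L₀ = L₀ := cj_eq_of_mem_normalizer (Subgroup.le_normalizer hm)
  have hS'p : IsPGroup 2 (S' : Subgroup G) := S'.isPGroup'
  have hMJ' : Subgroup.normalizer (thompsonSubgroupOf 2 (S' : Subgroup G) : Set G) ≤ L₀ := by
    rw [hS', thompson_cj, normalizer_cj]
    have := cj_mono (g := m) hMJ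
    rwa [hcL] at this
  have hK' : IsJComponent (S' : Subgroup G) (cj m K₀) := by
    rw [hS']; exact isJComponent_cj hK₀ m
  have hK'L : cj m K₀ ≤ L₀ := by
    have := cj_mono (g := m) hK₀L
    rwa [hcL] at this
  obtain ⟨k', a₁, a₂, hJ'⟩ := exists_JCS hS'p hK'
  have hS'sL : (S' : Subgroup G) ≤ L₀ := by
    rw [hS']
    have := cj_mono (g := m) hLT.1.1
    rwa [hcL] at this
  have hsyl' : IsSylowTwoIn (S' : Subgroup G) L₀ := isSylowTwoIn_of_sylow S' hS'sL
  have hLT' : L₀ ∈ jOvergroups (S' : Subgroup G) :=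
    Z.jover_of_two_local hL₀ hsyl'
      (fun hle => jcs_not_le_normalizer hJ' le_rfl (thompsonOf_isPGroup hS'p) (hK'L.trans hle))
  have hTS : T₁ ≤ (S' : Subgroup G) := by rw [hS']; exact hTP
  have hne : T₁ ≠ (S' : Subgroup G) := by
    intro he
    obtain ⟨X, hX, hT₁X, hXL⟩ := hT₁.1.2.2.2
    apply hXL
    have h2 : (S : Subgroup G) ≤ cj m⁻¹ X := by
      have h3 : cj m (S : Subgroup G) ≤ X := by rw [← hS', ← he]; exact hT₁X
      have h4 := cj_mono (g := m⁻¹) h3
      rw [cj_inv_cj] at h4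
      exact h4
    have h5 := hall _ (isTwoLocal_cj hX m⁻¹) h2
    have h6 := cj_mono (g := m) h5
    rw [cj_cj_inv, hcL] at h6
    exact h6
  have hK₁ := Cfsg.Agent.S2949.result Z.hL Z.hN Z.hZ hO S' L₀ hL₀ hMJ' T₁ hT₁
  obtain ⟨K₁, hK₁⟩ := hK₁
  obtain ⟨L₁, x, k₁, w₁, w₂, k₂, w₃, C⟩ := exists_TSC Z hO S' hL₀ hMJ' hT₁ hTS hne hK₁
  have hS'1 : (S' : Subgroup G) ≠ ⊥ := by
    intro h
    apply hT₁.1.2.1
    rw [h] at hTS
    exact le_bot_iff.mp hTS
  exact C.exclusion Z (V := omegaCenterOf (pCoreOf 2 L₀)) (fun v hv => (omegaCenter_mem hv).2.2)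
    (fun v hv => core_le_sylow hsyl' (omegaCenter_mem hv).1)
    (hS'sL.trans (omega_normalized L₀)) hJ' (Z.wOf_le_V hS'p hS'1 hLT' hK' hK'L hJ')

section TopSep

variable {J K K' L : Subgroup G} {k w₁ w₂ k' w₁' w₂' : G}

/-- The hyperplane separation. -/
theorem hpl_sep (htop : TopOf J K L) (hK'L : ¬ K' ≤ L) {c : G} (h1 : c ∈ hpl J K) (h2 : c ∈ hpl J K') : c = 1 := by
  by_contra hc1
  apply hK'L
  intro g hg
  apply htop.centralizer_le h1 hc1
  rw [Subgroup.mem_centralizer_singleton_iff]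
  exact (mem_hpl.mp h2).2 g hg

/-- Conjugates of the centralizers by elements of `L`. -/
theorem cent_conj_le (htop : TopOf J K L) {c s : G} (hc : c ∈ hpl J K) (hc1 : c ≠ 1) (hs : s ∈ L) :
    Subgroup.centralizer ({s * c * s⁻¹} : Set G) ≤ L := by
  intro g hg
  have h1 := Subgroup.mem_centralizer_singleton_iff.mp hg
  have h2 : s⁻¹ * g * s ∈ L := by
    apply htop.centralizer_le hc hc1
    rw [Subgroup.mem_centralizer_singleton_iff]
    calc s⁻¹ * g * s * c = s⁻¹ * (g * (s * c * s⁻¹)) * s := by group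
      _ = s⁻¹ * ((s * c * s⁻¹) * g) * s := by rw [h1]
      _ = c * (s⁻¹ * g * s) := by group
  have h3 : g = s * (s⁻¹ * g * s) * s⁻¹ := by group
  rw [h3]
  exact L.mul_mem (L.mul_mem hs h2) (L.inv_mem hs)

/-- The elements of `Z₀`. -/
theorem Z₀_cases (h : JCS J K k w₁ w₂) {c : G} (hsm : ∀ z ∈ hpl J K, z = 1 ∨ z = c) (hcZ : c ∈ omegaCenterOf J)
    {z : G} (hz : z ∈ omegaCenterOf J) : z = 1 ∨ z = c ∨ z = w₁ ∨ z = c * w₁ := by
  have hw₁Z := jcs_w₁_omega h
  rcases jcs_decomp h hz with h1 | h1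
  · rcases hsm z h1 with h2 | h2
    · exact Or.inl h2
    · exact Or.inr (Or.inl h2)
  · rcases hsm _ h1 with h2 | h2
    · right; right; left
      have h3 := omega_sq hw₁Z
      calc z = z * (w₁ * w₁) := by rw [h3, mul_one]
        _ = (z * w₁) * w₁ := by group
        _ = w₁ := by rw [h2, one_mul]
    · right; right; right
      have h3 := omega_sq hw₁Z
      calc z = z * (w₁ * w₁) := by rw [h3, mul_one]
        _ = (z * w₁) * w₁ := by group
        _ = c * w₁ := by rw [h2]

variable (Z : ZNH G) (S : Sylow 2 G)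

/-- A nontrivial element of `Z₀` centralized by `S`. -/
theorem exists_fixed_Z₀ {J : Subgroup G} (hJS : J ≤ (S : Subgroup G)) (hSJ : (S : Subgroup G) ≤ Subgroup.normalizer (J : Set G))
    {w : G} (hw : w ∈ omegaCenterOf J) (hw1 : w ≠ 1) :
    ∃ u ∈ omegaCenterOf (S : Subgroup G), u ∈ omegaCenterOf J ∧ u ≠ 1 := by
  haveI : Fact (Nat.Prime 2) := ⟨Nat.prime_two⟩
  have h2 : 2 ∣ Nat.card (omegaCenterOf J) := by
    have h3 : orderOf (⟨w, hw⟩ : omegaCenterOf J) = 2 := by
      apply orderOf_eq_prime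
      · apply Subtype.ext
        show w ^ 2 = 1
        rw [pow_two]; exact omega_sq hw
      · intro h
        exact hw1 (congrArg Subtype.val h)
    rw [← h3]; exact orderOf_dvd_natCard _
  obtain ⟨u, huZ, hu1, huf⟩ := exists_fixed_ne_one (Q := (S : Subgroup G)) (W := omegaCenterOf J) S.isPGroup' h2
    (fun q hq w hw => omega_conj_of_normalizer (hSJ hq) hw)
  refine ⟨u, ?_, huZ, hu1⟩
  apply mem_omegaCenter (hJS (omegaCenter_mem huZ).1)
  · intro s hs
    exact mul_inv_eq_iff_eq_mul.mp (huf s hs)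
  · exact omega_sq huZ

include Z in
/-- If two `J(S)`-components do not lie in a common top, `S` centralizes `Z₀`. -/
theorem topsep (hJ : JCS (thompsonSubgroupOf 2 (S : Subgroup G)) K k w₁ w₂)
    (hJ' : JCS (thompsonSubgroupOf 2 (S : Subgroup G)) K' k' w₁' w₂')
    (htop : TopOf (thompsonSubgroupOf 2 (S : Subgroup G)) K L) (hSL : (S : Subgroup G) ≤ L) (hK'L : ¬ K' ≤ L) {s z : G}
    (hs : s ∈ (S : Subgroup G)) (hz : z ∈ omegaCenterOf (thompsonSubgroupOf 2 (S : Subgroup G))) : s * z * s⁻¹ = z := by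
  set J := thompsonSubgroupOf 2 (S : Subgroup G) with hJdef
  have hJS : J ≤ (S : Subgroup G) := Cfsg.Agent.Lib.JCompBasic.thompsonSubgroupOf_le 2 _
  have hSJ : (S : Subgroup G) ≤ Subgroup.normalizer (J : Set G) := le_normalizer_thompson _
  have hsN := hSJ hs
  have hw₁Z := jcs_w₁_omega hJ
  have hsep : ∀ c ∈ hpl J K, c ∈ hpl J K' → c = 1 := fun c h1 h2 => hpl_sep htop hK'L h1 h2
  have hsm := fun (c₁ c₂ : G) h1 h2 => hpl_small hJ' hsep (c₁ := c₁) (c₂ := c₂) h1 h2
  have hsm' := fun (c₁ c₂ : G) h1 h2 => hpl_small hJ (fun c h3 h4 => hsep c h4 h3) (c₁ := c₁) (c₂ := c₂) h1 h2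
  -- conjugation is compatible with products
  have hconj_ne : ∀ {g a : G}, a ≠ 1 → g * a * g⁻¹ ≠ 1 := by
    intro g a ha h
    apply ha
    have h3 : g⁻¹ * (g * a * g⁻¹) * g = g⁻¹ * 1 * g := by rw [h]
    rw [show g⁻¹ * (g * a * g⁻¹) * g = a by group] at h3
    simpa using h3
  by_cases hex : ∃ c ∈ hpl J K, c ≠ 1
  · obtain ⟨c, hc, hc1⟩ := hex
    have hcZ : c ∈ omegaCenterOf J := (mem_hpl.mp hc).1
    have hH : ∀ z ∈ hpl J K, z = 1 ∨ z = c := by
      intro y hy
      rcases hsm y c hy hc with h | h | h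
      · exact Or.inl h
      · exact absurd h hc1
      · exact Or.inr h
    have hcases : ∀ {y : G}, y ∈ omegaCenterOf J → y = 1 ∨ y = c ∨ y = w₁ ∨ y = c * w₁ :=
      fun hy => Z₀_cases hJ hH hcZ hy
    -- `c` is fixed by all of `S`
    have hcfix : ∀ t ∈ (S : Subgroup G), t * c * t⁻¹ = c := by
      intro t ht
      by_contra hne
      have htN := hSJ ht
      set c' := t * c * t⁻¹ with hc'
      have hc'Z : c' ∈ omegaCenterOf J := omega_conj_of_normalizer htN hcZ
      have hc'1 : c' ≠ 1 := hconj_ne hc1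
      have hcH' : c ∉ hpl J K' := fun h => hc1 (hsep c hc h)
      have hc'H' : c' ∉ hpl J K' := by
        intro h
        apply hK'L
        intro g hg
        apply cent_conj_le htop hc hc1 (hSL ht)
        rw [Subgroup.mem_centralizer_singleton_iff]
        exact (mem_hpl.mp h).2 g hg
      have hw₁'Z := jcs_w₁_omega hJ'
      have h1 : c * w₁' ∈ hpl J K' := (jcs_decomp hJ' hcZ).resolve_left hcH'
      have h2 : c' * w₁' ∈ hpl J K' := (jcs_decomp hJ' hc'Z).resolve_left hc'H'
      have hcc' : c * c' ∈ hpl J K' := by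
        rcases hsm' _ _ h1 h2 with h3 | h3 | h3
        · have h4 : w₁' = c := by
            have hci := omega_inv hcZ
            rw [← hci]
            exact eq_inv_of_mul_eq_one_right h3
          rw [h4] at h2
          rw [omega_comm hcZ hc'Z]
          exact h2
        · have h4 : w₁' = c' := by
            have hci := omega_inv hc'Z
            rw [← hci]
            exact eq_inv_of_mul_eq_one_right h3
          rw [h4] at h1
          exact h1
        · exact absurd (mul_right_cancel h3).symm hne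
      apply not_le_centralizer_omega Z hJ' S hJS
      intro g hg
      rw [Subgroup.mem_centralizer_iff]
      intro u hu
      -- `u` lies in `{1, c c'}`
      have huZ : u ∈ omegaCenterOf J := omega_le_Z₀ _ hu
      have huf : t * u * t⁻¹ = u := by
        have := (omegaCenter_mem hu).2.1 t ht
        exact mul_inv_eq_iff_eq_mul.mpr this
      have hucases : u = 1 ∨ u = c * c' := by
        have hzall : ∀ {y : G}, y ∈ omegaCenterOf J → y = 1 ∨ y = c ∨ y = c' ∨ y = c * c' := by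
          intro y hy
          rcases hcases hc'Z with h3 | h3 | h3 | h3
          · exact absurd h3 hc'1
          · exact absurd h3 hne
          · rcases hcases hy with h4 | h4 | h4 | h4
            · exact Or.inl h4
            · exact Or.inr (Or.inl h4)
            · exact Or.inr (Or.inr (Or.inl (h4.trans h3.symm)))
            · right; right; right; rw [h3]; exact h4
          · rcases hcases hy with h4 | h4 | h4 | h4
            · exact Or.inl h4
            · exact Or.inr (Or.inl h4)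
            · right; right; right
              rw [h3, h4]
              calc w₁ = (c * c) * w₁ := by rw [omega_sq hcZ, one_mul]
                _ = c * (c * w₁) := by group
            · exact Or.inr (Or.inr (Or.inl (h4.trans h3.symm)))
        rcases hzall huZ with h3 | h3 | h3 | h3
        · exact Or.inl h3
        · exfalso
          apply hne
          rw [h3] at huf
          exact huf
        · exfalso
          apply hne
          rw [h3] at huf
          calc c' = t⁻¹ * (t * c' * t⁻¹) * t := by group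
            _ = t⁻¹ * c' * t := by rw [huf]
            _ = c := by rw [hc']; group
        · exact Or.inr h3
      rcases hucases with h3 | h3
      · rw [h3]; simp
      · rw [h3]
        exact ((mem_hpl.mp hcc').2 g hg).symm
    have hw₁fix : ∀ t ∈ (S : Subgroup G), t * w₁ * t⁻¹ = w₁ := by
      intro t ht
      by_contra hne
      apply not_le_centralizer_omega Z hJ S hJS
      intro g hg
      rw [Subgroup.mem_centralizer_iff]
      intro u hu
      have huZ : u ∈ omegaCenterOf J := omega_le_Z₀ _ hu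
      have huf : t * u * t⁻¹ = u := by
        have := (omegaCenter_mem hu).2.1 t ht
        exact mul_inv_eq_iff_eq_mul.mpr this
      rcases hcases huZ with h3 | h3 | h3 | h3
      · rw [h3]; simp
      · rw [h3]
        exact ((mem_hpl.mp hc).2 g hg).symm
      · exfalso
        rw [h3] at huf
        exact hne huf
      · exfalso
        apply hne
        rw [h3] at huf
        have h5 : t * (c * w₁) * t⁻¹ = (t * c * t⁻¹) * (t * w₁ * t⁻¹) := by group
        rw [h5, hcfix t ht] at huf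
        exact mul_left_cancel huf
    rcases hcases hz with h | h | h | h
    · rw [h]; group
    · rw [h]; exact hcfix s hs
    · rw [h]; exact hw₁fix s hs
    · rw [h]
      have h5 : s * (c * w₁) * s⁻¹ = (s * c * s⁻¹) * (s * w₁ * s⁻¹) := by group
      rw [h5, hcfix s hs, hw₁fix s hs]
  · push Not at hex
    have hcases : ∀ {y : G}, y ∈ omegaCenterOf J → y = 1 ∨ y = w₁ := by
      intro y hy
      rcases jcs_decomp hJ hy with h1 | h1
      · exact Or.inl (hex y h1)
      · right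
        have h2 := hex _ h1
        have h3 := omega_sq hw₁Z
        calc y = y * (w₁ * w₁) := by rw [h3, mul_one]
          _ = (y * w₁) * w₁ := by group
          _ = w₁ := by rw [h2, one_mul]
    rcases hcases hz with h | h
    · rw [h]; group
    · rw [h]
      rcases hcases (omega_conj_of_normalizer hsN hw₁Z) with h3 | h3
      · exact absurd h3 (hconj_ne hJ.hw₁1)
      · exact h3

/-- Under the hypotheses above, `Z₀ = Ω₁(Z(S))`. -/
theorem omega_eq_of_fix {J : Subgroup G} (hJS : J ≤ (S : Subgroup G)) (hf : ∀ s ∈ (S : Subgroup G), ∀ z ∈ omegaCenterOf J, s * z * s⁻¹ = z) {z : G}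
    (hz : z ∈ omegaCenterOf J) : z ∈ omegaCenterOf (S : Subgroup G) :=
  mem_omegaCenter (hJS (omegaCenter_mem hz).1) (fun s hs => mul_inv_eq_iff_eq_mul.mp (hf s hs z hz)) (omega_sq hz)

/-- `Nat.card Z₀ = 2`. -/
theorem Z₀_card_two (h : JCS J K k w₁ w₂) (hH : ∀ z ∈ hpl J K, z = 1) : Nat.card (omegaCenterOf J) = 2 := by
  classical
  have hw₁Z := jcs_w₁_omega h
  have hset : (omegaCenterOf J : Set G) = ((({1, w₁} : Finset G)) : Set G) := by
    ext y
    simp only [SetLike.mem_coe, Finset.coe_insert, Finset.coe_singleton, Set.mem_insert_iff, Set.mem_singleton_iff]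
    constructor
    · intro hy
      rcases jcs_decomp h hy with h1 | h1
      · exact Or.inl (hH y h1)
      · right
        have h2 := hH _ h1
        have h3 := omega_sq hw₁Z
        calc y = y * (w₁ * w₁) := by rw [h3, mul_one]
          _ = (y * w₁) * w₁ := by group
          _ = w₁ := by rw [h2, one_mul]
    · rintro (rfl | rfl)
      · exact Subgroup.one_mem _
      · exact hw₁Z
  have h1 : Nat.card (omegaCenterOf J) = Nat.card ↥(omegaCenterOf J : Set G) := rfl
  rw [h1, Nat.card_coe_set_eq, hset, Set.ncard_coe_finset]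
  rw [Finset.card_insert_of_notMem (by simpa using h.hw₁1.symm), Finset.card_singleton]

/-- `Nat.card Z₀ = 4`. -/
theorem Z₀_card_four (h : JCS J K k w₁ w₂) {c : G} (hc : c ∈ hpl J K) (hc1 : c ≠ 1) (hH : ∀ z ∈ hpl J K, z = 1 ∨ z = c) :
    Nat.card (omegaCenterOf J) = 4 := by
  classical
  have hw₁Z := jcs_w₁_omega h
  have hcZ := (mem_hpl.mp hc).1
  have hcw : c ≠ w₁ := fun he => jcs_w₁_not_hpl h (he ▸ hc)
  have hset : (omegaCenterOf J : Set G) = ((({1, c, w₁, c * w₁} : Finset G)) : Set G) := by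
    ext y
    simp only [SetLike.mem_coe, Finset.coe_insert, Finset.coe_singleton, Set.mem_insert_iff, Set.mem_singleton_iff]
    constructor
    · intro hy
      exact Z₀_cases h hH hcZ hy
    · rintro (rfl | rfl | rfl | rfl)
      · exact Subgroup.one_mem _
      · exact hcZ
      · exact hw₁Z
      · exact Subgroup.mul_mem _ hcZ hw₁Z
  have h1 : Nat.card (omegaCenterOf J) = Nat.card ↥(omegaCenterOf J : Set G) := rfl
  rw [h1, Nat.card_coe_set_eq, hset, Set.ncard_coe_finset]
  have h2 : (1 : G) ≠ c * w₁ := by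
    intro he
    apply hcw
    have hci := omega_inv hcZ
    rw [← hci]
    exact (eq_inv_of_mul_eq_one_right he.symm).symm
  have h3 : c ≠ c * w₁ := by
    intro he
    apply h.hw₁1
    exact (mul_eq_left.mp he.symm)
  have h4 : w₁ ≠ c * w₁ := by
    intro he
    apply hc1
    exact (mul_eq_right.mp he.symm)
  rw [Finset.card_insert_of_notMem, Finset.card_insert_of_notMem, Finset.card_insert_of_notMem, Finset.card_singleton]
  · simpa using h4
  · simp only [Finset.mem_insert, Finset.mem_singleton, not_or]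
    exact ⟨hcw, h3⟩
  · simp only [Finset.mem_insert, Finset.mem_singleton, not_or]
    exact ⟨hc1.symm, h.hw₁1.symm, h2⟩

end TopSep

/-- The `T = S` case: a second component in a different top. -/
theorem exists_second (Z : ZNH G) (hO : pCore 2 G = ⊥) (S : Sylow 2 G) {K L : Subgroup G}
    (hK : IsJComponent (S : Subgroup G) K) (htop : TopOf (thompsonSubgroupOf 2 (S : Subgroup G)) K L)
    (hLT : L ∈ jOvergroups (S : Subgroup G)) :
    ∃ K' L', IsJComponent (S : Subgroup G) K' ∧ TopOf (thompsonSubgroupOf 2 (S : Subgroup G)) K' L' ∧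
      L' ∈ jOvergroups (S : Subgroup G) ∧ ¬ K' ≤ L := by
  have hSp : IsPGroup 2 (S : Subgroup G) := S.isPGroup'
  obtain ⟨k, w₁, w₂, hJ⟩ := exists_JCS hSp hK
  have hS1 : (S : Subgroup G) ≠ ⊥ := by
    intro h
    apply hJ.hw₁1
    have h1 : w₁ ∈ (S : Subgroup G) := Cfsg.Agent.Lib.JCompBasic.thompsonSubgroupOf_le 2 _ (jcs_W_le_J hJ hJ.hw₁)
    rw [h] at h1
    exact (Subgroup.mem_bot).mp h1
  by_cases hy : Subgroup.normalizer (thompsonSubgroupOf 2 (S : Subgroup G) : Set G) ≤ L
  · have hno : ¬ (∀ X, IsTwoLocal X → (S : Subgroup G) ≤ X → X ≤ L) :=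
      fun hall => no_top_of_sylow Z hO S htop.hL.1 hy hLT hall
    push Not at hno
    obtain ⟨X, hX, hSX, hXL⟩ := hno
    have hst : (S : Subgroup G) ∈ straddlingTwoSubgroups L := ⟨hSp, hS1, hLT.1.1, X, hX, hSX, hXL⟩
    have hmax := sylow_mem_maxStraddling S hst
    obtain ⟨K₂, hK₂⟩ := Cfsg.Agent.S2949.result Z.hL Z.hN Z.hZ hO S L htop.hL.1 hy (S : Subgroup G) hmax
    obtain ⟨L₂, htop₂, hLT₂⟩ := exists_topOf Z hO S htop.hL.1 hy hmax hK₂
    exact ⟨K₂, L₂, hK₂.1.1, htop₂, hLT₂, hK₂.2.1⟩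
  · obtain ⟨y, hyJ, hyL⟩ := Set.not_subset.mp hy
    have htop₂ := htop.conj hyJ
    have hK₂ := isJComponent_cj_of_normalizer hK hyJ
    obtain ⟨k₂, a₁, a₂, hJ₂⟩ := exists_JCS hSp hK₂
    have hnot := htop.not_conj_le hyJ hyL
    have hfix := fun (s : G) (hs : s ∈ (S : Subgroup G)) (z : G) (hz : z ∈ omegaCenterOf (thompsonSubgroupOf 2 (S : Subgroup G))) =>
      topsep Z S hJ hJ₂ htop hLT.1.1 hnot hs hz
    have hSL₂ : (S : Subgroup G) ≤ cj y L := by
      by_cases hex : ∃ c ∈ hpl (thompsonSubgroupOf 2 (S : Subgroup G)) K, c ≠ 1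
      · obtain ⟨c, hc, hc1⟩ := hex
        intro s hs
        rw [mem_cj]
        apply htop.centralizer_le hc hc1
        rw [Subgroup.mem_centralizer_singleton_iff]
        have h1 : s * (y * c * y⁻¹) * s⁻¹ = y * c * y⁻¹ :=
          hfix s hs _ (omega_conj_of_normalizer hyJ (mem_hpl.mp hc).1)
        have h2 : s * (y * c * y⁻¹) = (y * c * y⁻¹) * s := mul_inv_eq_iff_eq_mul.mp h1
        calc y⁻¹ * s * y * c = y⁻¹ * (s * (y * c * y⁻¹)) * y := by group
          _ = y⁻¹ * ((y * c * y⁻¹) * s) * y := by rw [h2]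
          _ = c * (y⁻¹ * s * y) := by group
      · push Not at hex
        have hw₁Z := jcs_w₁_omega hJ
        have hcases : ∀ {u : G}, u ∈ omegaCenterOf (thompsonSubgroupOf 2 (S : Subgroup G)) → u = 1 ∨ u = w₁ := by
          intro u hu
          rcases jcs_decomp hJ hu with h1 | h1
          · exact Or.inl (hex u h1)
          · right
            have h2 := hex _ h1
            have h3 := omega_sq hw₁Z
            calc u = u * (w₁ * w₁) := by rw [h3, mul_one]
              _ = (u * w₁) * w₁ := by group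
              _ = w₁ := by rw [h2, one_mul]
        have hyw : y * w₁ * y⁻¹ = w₁ := by
          rcases hcases (omega_conj_of_normalizer hyJ hw₁Z) with h1 | h1
          · exfalso
            apply hJ.hw₁1
            have h3 : y⁻¹ * (y * w₁ * y⁻¹) * y = y⁻¹ * 1 * y := by rw [h1]
            rw [show y⁻¹ * (y * w₁ * y⁻¹) * y = w₁ by group] at h3
            simpa using h3
          · exact h1
        have hyC : y ∈ Subgroup.centralizer (omegaCenterOf (S : Subgroup G) : Set G) := by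
          rw [Subgroup.mem_centralizer_iff]
          intro u hu
          rcases hcases (omega_le_Z₀ _ hu) with h1 | h1
          · rw [h1]; simp
          · rw [h1]
            exact (mul_inv_eq_iff_eq_mul.mp hyw).symm
        have hyN := Z.hZ S hyC
        have h2 : cj y (S : Subgroup G) = (S : Subgroup G) := cj_eq_of_mem_normalizer hyN
        have h3 := cj_mono (g := y) hLT.1.1
        rwa [h2] at h3
    have hsyl := isSylowTwoIn_of_sylow S hSL₂
    exact ⟨cj y K, cj y L, hK₂, htop₂, Z.jover_of_two_local (isTwoLocal_cj htop.hL.1 y) hsyl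
      (fun hle => jcs_not_le_normalizer hJ₂ le_rfl (thompsonOf_isPGroup hSp) (htop₂.K_le.trans hle)), hnot⟩

/-- If `S` centralizes `Z₀` then `S` normalizes every `J(S)`-component. -/
theorem sylow_norm (Z : ZNH G) (S : Sylow 2 G) {K L : Subgroup G} {k w₁ w₂ : G}
    (hJ : JCS (thompsonSubgroupOf 2 (S : Subgroup G)) K k w₁ w₂)
    (hK : IsJComponent (S : Subgroup G) K) (hKL : K ≤ L) (hLT : L ∈ jOvergroups (S : Subgroup G))
    (hf : ∀ s ∈ (S : Subgroup G), ∀ z ∈ omegaCenterOf (thompsonSubgroupOf 2 (S : Subgroup G)), s * z * s⁻¹ = z) :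
    (S : Subgroup G) ≤ Subgroup.normalizer (K : Set G) := by
  have hSp : IsPGroup 2 (S : Subgroup G) := S.isPGroup'
  have hw₁Z := jcs_w₁_omega hJ
  have hJS : thompsonSubgroupOf 2 (S : Subgroup G) ≤ (S : Subgroup G) := Cfsg.Agent.Lib.JCompBasic.thompsonSubgroupOf_le 2 _
  have hw₁S : w₁ ∈ (S : Subgroup G) := hJS (omegaCenter_mem hw₁Z).1
  have hS1 : (S : Subgroup G) ≠ ⊥ := by
    intro h
    apply hJ.hw₁1
    rw [h] at hw₁S
    exact (Subgroup.mem_bot).mp hw₁S
  apply Cfsg.Agent.S2943.result Z.hL Z.hN Z.hZ (S : Subgroup G) hSp hS1 L hLT K hK hKL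
  intro h
  have h1 : w₁ ∈ (S : Subgroup G) ⊓ Subgroup.centralizer ((S : Subgroup G) : Set G) ⊓ wOf K := by
    refine ⟨⟨hw₁S, Subgroup.mem_centralizer_iff.mpr ?_⟩, hJ.hw₁⟩
    intro s hs
    exact mul_inv_eq_iff_eq_mul.mp (hf s hs w₁ hw₁Z)
  rw [h] at h1
  exact hJ.hw₁1 (Subgroup.mem_bot.mp h1)

/-- A Sylow subgroup containing `T`, with `N(J(S'))` in `M`. -/
theorem exists_sylow_over (S : Sylow 2 G) {M T : Subgroup G}
    (hMJ : Subgroup.normalizer (thompsonSubgroupOf 2 (S : Subgroup G) : Set G) ≤ M) (hTM : T ≤ M) (hT : IsPGroup 2 T) :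
    ∃ S' : Sylow 2 G, T ≤ (S' : Subgroup G) ∧ Subgroup.normalizer (thompsonSubgroupOf 2 (S' : Subgroup G) : Set G) ≤ M := by
  have hSM : (S : Subgroup G) ≤ M := (le_normalizer_thompson _).trans hMJ
  obtain ⟨P, hTP, hP⟩ := exists_isSylowTwoIn hTM hT
  obtain ⟨m, hm, rfl⟩ := exists_conj_of_sylow (isSylowTwoIn_of_sylow S hSM) hP
  obtain ⟨S', hS'⟩ := exists_sylow_cj S m
  refine ⟨S', by rw [hS']; exact hTP, ?_⟩
  have hcM : cj m M = M := cj_eq_of_mem_normalizer (Subgroup.le_normalizer hm)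
  rw [hS', thompson_cj, normalizer_cj]
  have := cj_mono (g := m) hMJ
  rwa [hcM] at this

/-- The two components, in all cases. -/
theorem exists_pair (Z : ZNH G) (hO : pCore 2 G = ⊥) (S : Sylow 2 G) {M T K : Subgroup G} (hM : IsTwoLocal M)
    (hMJ : Subgroup.normalizer (thompsonSubgroupOf 2 (S : Subgroup G) : Set G) ≤ M) (hT : T ∈ maxStraddlingTwoSubgroups M)
    (hTS : T ≤ (S : Subgroup G)) (hK : K ∈ jComponentsOutside M T) :
    ∃ L₁ K₂ L₂, TopOf (thompsonSubgroupOf 2 T) K L₁ ∧ L₁ ∈ jOvergroups T ∧ T ≤ Subgroup.normalizer (K : Set G) ∧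
      IsJComponent T K₂ ∧ TopOf (thompsonSubgroupOf 2 T) K₂ L₂ ∧ L₂ ∈ jOvergroups T ∧ T ≤ Subgroup.normalizer (K₂ : Set G) ∧
      ¬ K₂ ≤ L₁ := by
  by_cases hne : T = (S : Subgroup G)
  · subst hne
    obtain ⟨L, htop, hLT⟩ := exists_topOf Z hO S hM hMJ hT hK
    obtain ⟨K', L', hK', htop', hLT', hnot⟩ := exists_second Z hO S hK.1.1 htop hLT
    have hSp : IsPGroup 2 (S : Subgroup G) := S.isPGroup'
    obtain ⟨k, w₁, w₂, hJ⟩ := exists_JCS hSp hK.1.1
    obtain ⟨k', a₁, a₂, hJ'⟩ := exists_JCS hSp hK'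
    have hf := fun (s : G) (hs : s ∈ (S : Subgroup G)) (z : G) (hz : z ∈ omegaCenterOf (thompsonSubgroupOf 2 (S : Subgroup G))) =>
      topsep Z S hJ hJ' htop hLT.1.1 hnot hs hz
    exact ⟨L, K', L', htop, hLT, sylow_norm Z S hJ hK.1.1 htop.K_le hLT hf, hK', htop', hLT',
      sylow_norm Z S hJ' hK' htop'.K_le hLT' hf, hnot⟩
  · obtain ⟨L, x, k, w₁, w₂, k₂, w₃, C⟩ := exists_TSC Z hO S hM hMJ hT hTS hne hK
    exact ⟨L, cj x K, cj x L, C.htop, C.hLT, C.hTN Z, C.hK₂, C.htop₂, C.hLT₂ Z, C.hTN₂ Z, C.hnotle⟩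

end Cfsg.Agent.Lib.FFG
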