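import Mathlib
import Cfsg.Agent.Lib.FFG25
import Cfsg.Agent.Lib.ExtraBasics

/-!
# Failure of factorization at the level of the group, part 26: the structure of `⟨K, T⟩`
-/

set_option autoImplicit false
set_option linter.unusedSectionVars false

open Cfsg
open scoped commutatorElement

namespace Cfsg.Agent.Lib.FFG

open Cfsg.Agent.Lib.FFAct Cfsg.Agent.Lib.PCore Cfsg.Agent.Lib.JCompStruct Cfsg.Agent.Lib.ThompsonJ
open Cfsg.Agent.Lib.BGFit2

variable {G : Type*} [Group G] [Finite G]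

theorem relIndex_sup_of_le_normalizer {T K : Subgroup G} (h : T ≤ Subgroup.normalizer (K : Set G)) :
    T.relIndex (K ⊔ T) = T.relIndex K := by
  haveI : (K.subgroupOf (K ⊔ T)).Normal :=
    (Subgroup.normal_subgroupOf_iff_le_normalizer le_sup_left).mpr (sup_le Subgroup.le_normalizer h)
  have h1 := Cfsg.Agent.Lib.ExtraBasics.relIndex_sup_eq (T.subgroupOf (K ⊔ T)) (K.subgroupOf (K ⊔ T))
  have h2 : T.subgroupOf (K ⊔ T) ⊔ K.subgroupOf (K ⊔ T) = ⊤ := by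
    rw [← Subgroup.subgroupOf_sup le_sup_right le_sup_left, sup_comm, Subgroup.subgroupOf_self]
  rw [h2, Subgroup.relIndex_top_right, Subgroup.relIndex_subgroupOf le_sup_left] at h1
  exact h1

theorem not_mem_of_order_three {T : Subgroup G} (hT : IsPGroup 2 T) {k : G} (hk3 : k ^ 3 = 1) (hk1 : k ≠ 1) : k ∉ T := by
  intro hk
  haveI : Fact (Nat.Prime 2) := ⟨Nat.prime_two⟩
  have h3 := orderOf_dvd_of_pow_eq_one hk3
  have h4 := hT.orderOf_coprime (n := 3) (by norm_num) ⟨k, hk⟩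
  rw [Subgroup.orderOf_mk] at h4
  exact hk1 (orderOf_eq_one_iff.mp (Nat.Coprime.eq_one_of_dvd h4 h3))

/-- Elements normalizing both `K` and `J` fix `w₁`. -/
theorem jcs_fix_of_norm {J K : Subgroup G} {k w₁ w₂ g : G} (h : JCS J K k w₁ w₂) (hgK : g ∈ Subgroup.normalizer (K : Set G))
    (hgJ : g ∈ Subgroup.normalizer (J : Set G)) : g * w₁ * g⁻¹ = w₁ := by
  obtain ⟨j₀, hj₀, hmv⟩ := h.hmove
  have hZ := jcs_w₁_omega h
  have hmem : g * w₁ * g⁻¹ ∈ wOf K := conj_mem_wOf hgK h.hw₁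
  have hZ' : g * w₁ * g⁻¹ ∈ omegaCenterOf J := omega_conj_of_normalizer hgJ hZ
  have hfix : j₀ * (g * w₁ * g⁻¹) * j₀⁻¹ = g * w₁ * g⁻¹ := by
    rw [(omegaCenter_mem hZ').2.1 j₀ hj₀]; group
  rcases h.mem_of_fix hj₀ hmv hmem hfix with h1 | h1
  · exfalso
    apply h.hw₁1
    have h3 : g⁻¹ * (g * w₁ * g⁻¹) * g = g⁻¹ * 1 * g := by rw [h1]
    rw [show g⁻¹ * (g * w₁ * g⁻¹) * g = w₁ by group] at h3
    simpa using h3
  · exact h1

section Props

variable {T K L : Subgroup G} {k w₁ w₂ : G} (h : JCS (thompsonSubgroupOf 2 T) K k w₁ w₂)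
  (hTK : T ≤ Subgroup.normalizer (K : Set G)) (hsyl : IsSylowTwoIn T (K ⊔ T))
include h hTK hsyl

theorem jcs_relIndex_T : T.relIndex (K ⊔ T) = 3 := by
  rw [relIndex_sup_of_le_normalizer hTK, ← Subgroup.inf_relIndex_right]
  have hA : pCoreOf 2 K ≤ T ⊓ K := le_inf (jcs_core_le_T h hTK hsyl) h.hPK
  have h1 := Subgroup.relIndex_mul_relIndex _ _ _ hA inf_le_right
  rw [h.hP3] at h1
  have h2 : (T ⊓ K).relIndex K ≠ 1 := by
    intro he
    rw [Subgroup.relIndex_eq_one] at he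
    exact not_mem_of_order_three hsyl.2.1 h.hk3 h.hk1 (he h.hkK).1
  have h3 : (T ⊓ K).relIndex K ∣ 3 := ⟨_, by rw [mul_comm]; exact h1.symm⟩
  rcases (Nat.dvd_prime Nat.prime_three).mp h3 with h4 | h4
  · exact absurd h4 h2
  · exact h4

theorem jcs_Q_relIndex : (Qof T K).relIndex T = 2 := by
  have hJT : thompsonSubgroupOf 2 T ≤ T := Cfsg.Agent.Lib.JCompBasic.thompsonSubgroupOf_le 2 T
  have hTJ : T ≤ Subgroup.normalizer (thompsonSubgroupOf 2 T : Set G) := le_normalizer_thompson T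
  have hTw : ∀ t ∈ T, t * w₁ * t⁻¹ = w₁ := fun t ht => jcs_fix_of_norm h (hTK ht) (hTJ ht)
  have hQT : Qof T K ≤ T := inf_le_left
  have e : T ⊓ Subgroup.centralizer ({w₂} : Set G) = Qof T K := by
    apply le_antisymm
    · intro t ht
      apply jcs_Q_of_fix h hTw ht.1
      have h1 := Subgroup.mem_centralizer_singleton_iff.mp ht.2
      exact mul_inv_eq_iff_eq_mul.mpr h1
    · intro q hq
      obtain ⟨h1, h2⟩ := mem_Qof.mp hq
      exact ⟨h1, Subgroup.mem_centralizer_singleton_iff.mpr (h2 w₂ h.hw₂mem)⟩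
  have hc := card_le_two_mul T w₂ (w₁ * w₂) (fun a ha => jcs_T_act h hTK hTw ha)
  rw [e] at hc
  have h1 := Cfsg.Agent.Lib.ExtraBasics.relIndex_mul_card hQT
  have hpos : 0 < Nat.card (Qof T K) := Nat.card_pos
  have hposT : 0 < Nat.card T := Nat.card_pos
  have h2 : (Qof T K).relIndex T ≤ 2 := by
    by_contra hlt
    push Not at hlt
    nlinarith
  have h3 : (Qof T K).relIndex T ≠ 1 := by
    intro he
    rw [Subgroup.relIndex_eq_one] at he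
    obtain ⟨j₀, hj₀, hmv⟩ := h.hmove
    obtain ⟨-, h4⟩ := mem_Qof.mp (he (hJT hj₀))
    have h5 := h4 w₂ h.hw₂mem
    have h6 : j₀ * w₂ * j₀⁻¹ = w₂ := mul_inv_eq_iff_eq_mul.mpr h5
    rw [h6] at hmv
    exact h.hw₁1 (mul_eq_right.mp hmv.symm)
  have h4 : (Qof T K).relIndex T ≠ 0 := by
    intro he
    rw [he, zero_mul] at h1
    omega
  omega

theorem jcs_core_relIndex (h4 : Nat.card (wOf K) = 4) : (pCoreOf 2 (K ⊔ T)).relIndex (K ⊔ T) = 6 := by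
  have h5 := Subgroup.relIndex_mul_relIndex (Qof T K) T (K ⊔ T) inf_le_left le_sup_right
  rw [jcs_Q_relIndex h hTK hsyl, jcs_relIndex_T h hTK hsyl] at h5
  rw [jcs_core_eq_Q h hTK hsyl h4, ← h5]

theorem jcs_not_comm : ¬ ⁅K ⊔ T, K ⊔ T⁆ ≤ pCoreOf 2 (K ⊔ T) := by
  intro hle
  have hJT : thompsonSubgroupOf 2 T ≤ T := Cfsg.Agent.Lib.JCompBasic.thompsonSubgroupOf_le 2 T
  have h1 : K ≤ ⁅K ⊔ T, K ⊔ T⁆ :=
    calc K = ⁅K, thompsonSubgroupOf 2 T⁆ := h.hKJ.symm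
      _ ≤ _ := Subgroup.commutator_mono le_sup_left (hJT.trans le_sup_right)
  exact not_mem_of_order_three hsyl.2.1 h.hk3 h.hk1 (core_le_sylow hsyl (hle (h1 h.hkK)))

end Props

/-- `O₂(⟨K₁, K₂, T⟩) = 1`. -/
theorem core_join_bot {T K₁ K₂ L₁ : Subgroup G} (htop : TopOf (thompsonSubgroupOf 2 T) K₁ L₁) (hnot : ¬ K₂ ≤ L₁) :
    pCoreOf 2 ((K₁ ⊔ T) ⊔ (K₂ ⊔ T)) = ⊥ := by
  by_contra hR
  set D := (K₁ ⊔ T) ⊔ (K₂ ⊔ T) with hD
  have h1 : IsTwoLocal (Subgroup.normalizer (pCoreOf 2 D : Set G)) := ⟨_, isPGroup_pCoreOf 2 D, hR, rfl⟩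
  have h2 : D ≤ Subgroup.normalizer (pCoreOf 2 D : Set G) := le_normalizer_pCoreOf 2 D
  have hK1 : K₁ ≤ D := le_sup_left.trans le_sup_left
  have hK2 : K₂ ≤ D := le_sup_left.trans le_sup_right
  have hT : T ≤ D := le_sup_right.trans le_sup_left
  have hJT : thompsonSubgroupOf 2 T ≤ T := Cfsg.Agent.Lib.JCompBasic.thompsonSubgroupOf_le 2 T
  have h3 := htop.htop _ h1 (sup_le (hK1.trans h2) ((hJT.trans hT).trans h2))
  exact hnot (hK2.trans (h2.trans h3))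

/-- The properties of `⟨K, T⟩`. -/
theorem P_props (Z : ZNH G) (S : Sylow 2 G) {T K L : Subgroup G} (hK : IsJComponent T K)
    (htop : TopOf (thompsonSubgroupOf 2 T) K L) (hLT : L ∈ jOvergroups T) (hTN : T ≤ Subgroup.normalizer (K : Set G))
    (hTS : T ≤ (S : Subgroup G)) :
    Subgroup.centralizer (pCoreOf 2 (K ⊔ T) : Set G) ≤ pCoreOf 2 (K ⊔ T) ∧ IsSylowTwoIn T (K ⊔ T) ∧
        (pCoreOf 2 (K ⊔ T)).relIndex (K ⊔ T) = 6 ∧ ¬ ⁅K ⊔ T, K ⊔ T⁆ ≤ pCoreOf 2 (K ⊔ T) ∧ ⁅omegaCenterOf T, K ⊔ T⁆ ≠ ⊥ ∧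
        ∃ L : Subgroup G, IsMaximalTwoLocal L ∧ K ⊔ T ≤ L ∧ IsSylowTwoIn T L ∧
          ∀ L' : Subgroup G, IsMaximalTwoLocal L' → K ⊔ T ≤ L' → L' = L := by
  have hT2 : IsPGroup 2 T := hLT.1.2.1
  obtain ⟨k, w₁, w₂, hJ⟩ := exists_JCS hT2 hK
  have hTL : T ≤ L := hLT.1.1
  have hPL : K ⊔ T ≤ L := sup_le htop.K_le hTL
  have hsyl : IsSylowTwoIn T (K ⊔ T) := isSylowTwoIn_of_le hLT.1 le_sup_right hPL
  have hJT : thompsonSubgroupOf 2 T ≤ T := Cfsg.Agent.Lib.JCompBasic.thompsonSubgroupOf_le 2 T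
  refine ⟨?_, hsyl, jcs_core_relIndex hJ hTN hsyl hK.2.2.2.2.1, jcs_not_comm hJ hTN hsyl, ?_, L, htop.hL, hPL, hLT.1, ?_⟩
  · have h1 : pCoreOf 2 L ≤ pCoreOf 2 (K ⊔ T) :=
      le_pCoreOf ((core_le_sylow hLT.1).trans le_sup_right) (hPL.trans (le_normalizer_pCoreOf 2 L)) (isPGroup_pCoreOf 2 L)
    have h2 := Subgroup.centralizer_le (SetLike.coe_subset_coe.mpr h1)
    exact h2.trans (hLT.2.2.trans h1)
  · intro hb
    rw [Subgroup.commutator_eq_bot_iff_le_centralizer] at hb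
    apply not_le_centralizer_omega Z hJ S (hJT.trans hTS)
    intro g hg
    rw [Subgroup.mem_centralizer_iff]
    intro u hu
    have h1 : u ∈ omegaCenterOf T := omega_le_omega hTS (centralizer_le_of_jover hLT) hu
    have h2 := Subgroup.mem_centralizer_iff.mp (hb h1) g (le_sup_left (a := K) (b := T) hg)
    exact h2.symm
  · intro L' hL' hPL'
    have h1 : L' ≤ L := htop.htop L' hL'.1 (sup_le (le_sup_left.trans hPL') ((hJT.trans le_sup_right).trans hPL'))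
    exact (hL'.2 L htop.hL.1 h1).symm

end Cfsg.Agent.Lib.FFG
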