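import Mathlib
import Cfsg.Agent.Lib.FFG26
import Cfsg.Agent.Lib.CosetGraph2

/-!
# Failure of factorization at the level of the group, part 27: the central involutions
-/

set_option autoImplicit false
set_option linter.unusedSectionVars false

open Cfsg
open scoped commutatorElement

namespace Cfsg.Agent.Lib.FFG

open Cfsg.Agent.Lib.FFAct Cfsg.Agent.Lib.PCore Cfsg.Agent.Lib.JCompStruct Cfsg.Agent.Lib.ThompsonJ
open Cfsg.Agent.Lib.BGFit2

variable {G : Type*} [Group G] [Finite G]

/-- `Ω₁(Z(S)) ≠ 1`. -/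
theorem exists_omega_ne_one (S : Sylow 2 G) {w : G} (hw : w ∈ (S : Subgroup G)) (hw2 : w * w = 1) (hw1 : w ≠ 1) :
    ∃ u ∈ omegaCenterOf (S : Subgroup G), u ≠ 1 := by
  haveI : Fact (Nat.Prime 2) := ⟨Nat.prime_two⟩
  have h2 : 2 ∣ Nat.card (S : Subgroup G) := by
    have h3 : orderOf (⟨w, hw⟩ : (S : Subgroup G)) = 2 := by
      apply orderOf_eq_prime
      · apply Subtype.ext
        show w ^ 2 = 1
        rw [pow_two]; exact hw2
      · intro h
        exact hw1 (congrArg Subtype.val h)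
    have h5 := orderOf_dvd_natCard (⟨w, hw⟩ : (S : Subgroup G))
    rwa [h3] at h5
  obtain ⟨v, hvS, hv1, hvf⟩ := exists_fixed_ne_one (Q := (S : Subgroup G)) (W := (S : Subgroup G)) S.isPGroup' h2
    (fun q hq w hw => Subgroup.mul_mem _ (Subgroup.mul_mem _ hq hw) (Subgroup.inv_mem _ hq))
  have hC : IsPGroup 2 ↥((S : Subgroup G) ⊓ Subgroup.centralizer ((S : Subgroup G) : Set G)) :=
    S.isPGroup'.to_le inf_le_left
  have hne : (S : Subgroup G) ⊓ Subgroup.centralizer ((S : Subgroup G) : Set G) ≠ ⊥ := by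
    intro hb
    have h3 : v ∈ (S : Subgroup G) ⊓ Subgroup.centralizer ((S : Subgroup G) : Set G) :=
      ⟨hvS, Subgroup.mem_centralizer_iff.mpr fun s hs => mul_inv_eq_iff_eq_mul.mp (hvf s hs)⟩
    rw [hb] at h3
    exact hv1 (Subgroup.mem_bot.mp h3)
  have h4 := Cfsg.Agent.Lib.CosetGraph2.omegaOne_ne_bot hC hne
  obtain ⟨u, hu⟩ := (Subgroup.ne_bot_iff_exists_ne_one).mp h4
  exact ⟨u.1, u.2, fun h => hu (Subtype.ext h)⟩

/-- A conjugate of a central involution of a Sylow subgroup (whose centralizer normalizes that subgroup) does not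
centralize a `J`-component. -/
theorem not_conj_of_hpl (S : Sylow 2 G) {J K' : Subgroup G} {k' a₁ a₂ z g c' : G} (hJ' : JCS J K' k' a₁ a₂)
    (hz : Subgroup.centralizer ({z} : Set G) ≤ Subgroup.normalizer ((S : Subgroup G) : Set G))
    (hc' : c' ∈ hpl J K') (he : g * z * g⁻¹ = c') : False := by
  have hcN : Subgroup.centralizer ({c'} : Set G) ≤ Subgroup.normalizer (cj g (S : Subgroup G) : Set G) := by
    intro h hh
    have h1 := Subgroup.mem_centralizer_singleton_iff.mp hh
    rw [normalizer_cj, mem_cj]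
    apply hz
    rw [Subgroup.mem_centralizer_singleton_iff]
    rw [← he] at h1
    calc g⁻¹ * h * g * z = g⁻¹ * (h * (g * z * g⁻¹)) * g := by group
      _ = g⁻¹ * ((g * z * g⁻¹) * h) * g := by rw [h1]
      _ = z * (g⁻¹ * h * g) := by group
  have hc'Z := (mem_hpl.mp hc').1
  have hJN : J ≤ Subgroup.normalizer (cj g (S : Subgroup G) : Set G) := by
    intro j hj
    apply hcN
    rw [Subgroup.mem_centralizer_singleton_iff]
    exact (omegaCenter_mem hc'Z).2.1 j hj
  have hJS : J ≤ cj g (S : Subgroup G) := le_cj_of_le_normalizer S hJ'.hJp hJN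
  apply jcs_not_le_normalizer hJ' hJS (cj_isPGroup S.isPGroup')
  intro κ hκ
  apply hcN
  rw [Subgroup.mem_centralizer_singleton_iff]
  exact (mem_hpl.mp hc').2 κ hκ

namespace TSC

variable {S : Sylow 2 G} {T K L : Subgroup G} {x k w₁ w₂ k₂ w₃ : G} (C : TSC S T K L x k w₁ w₂ k₂ w₃) (Z : ZNH G)
include C Z

/-- `N(Z₀)` induces a group of order two on `Z₀`. -/
theorem relIndex_eq_two {c : G} (hc : c ∈ hpl (thompsonSubgroupOf 2 T) K) (hc1 : c ≠ 1) :
    (L ⊓ Subgroup.centralizer (omegaCenterOf (thompsonSubgroupOf 2 T) : Set G)).relIndex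
      (Subgroup.normalizer (omegaCenterOf (thompsonSubgroupOf 2 T) : Set G)) = 2 := by
  set J := thompsonSubgroupOf 2 T with hJdef
  have hcZ : c ∈ omegaCenterOf J := (mem_hpl.mp hc).1
  have hc₂H : x * c * x⁻¹ ∈ hpl J (cj x K) := conj_mem_hpl C.hxJ hc
  have hne := C.hx_ne hc hc1
  have hc₂Z : x * c * x⁻¹ ∈ omegaCenterOf J := omega_conj_of_normalizer C.hxJ hcZ
  set c₂ := x * c * x⁻¹ with hc₂
  have h4 : ∀ {u : G}, u ∈ omegaCenterOf J → u = 1 ∨ u = c ∨ u = c₂ ∨ u = c * c₂ := fun hu => C.Z₀_four hc hc1 hu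
  have hc₂1 : c₂ ≠ 1 := by
    intro h
    apply hc1
    have h3 : x⁻¹ * (x * c * x⁻¹) * x = x⁻¹ * 1 * x := by rw [← hc₂, h]
    rw [show x⁻¹ * (x * c * x⁻¹) * x = c by group] at h3
    simpa using h3
  have hzZ : c * c₂ ∈ omegaCenterOf J := Subgroup.mul_mem _ hcZ hc₂Z
  have hJS : J ≤ (S : Subgroup G) := C.hJT.trans C.hTS
  have hcS : c ∈ (S : Subgroup G) := hJS (omegaCenter_mem hcZ).1
  have hcen : Subgroup.centralizer (T : Set G) ≤ T := centralizer_le_of_jover C.hLT
  -- the elements of `Ω₁(Z(S))`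
  have hu : ∀ {u : G}, u ∈ omegaCenterOf (S : Subgroup G) → u = 1 ∨ u = c * c₂ := by
    intro u hu
    have hu' : u ∈ omegaCenterOf J := omega_le_Z₀ T (omega_le_omega C.hTS hcen hu)
    have huf : x * u * x⁻¹ = u := mul_inv_eq_iff_eq_mul.mpr ((omegaCenter_mem hu).2.1 x C.hxS)
    rcases h4 hu' with h | h | h | h
    · exact Or.inl h
    · exfalso
      apply hne
      rw [h] at huf
      exact huf
    · exfalso
      apply hne
      rw [h] at huf
      calc c₂ = x⁻¹ * (x * c₂ * x⁻¹) * x := by group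
        _ = x⁻¹ * c₂ * x := by rw [huf]
        _ = c := by rw [hc₂]; group
    · exact Or.inr h
  obtain ⟨u₀, hu₀, hu₀1⟩ := exists_omega_ne_one S hcS (omega_sq hcZ) hc1
  have hzΩ : c * c₂ ∈ omegaCenterOf (S : Subgroup G) := by
    rcases hu hu₀ with h | h
    · exact absurd h hu₀1
    · rwa [← h]
  have hzC : Subgroup.centralizer ({c * c₂} : Set G) ≤ Subgroup.normalizer ((S : Subgroup G) : Set G) := by
    intro g hg
    apply Z.hZ S
    rw [Subgroup.mem_centralizer_iff]
    intro u hu'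
    rcases hu hu' with h | h
    · rw [h]; simp
    · rw [h]
      exact (Subgroup.mem_centralizer_singleton_iff.mp hg).symm
  -- `N(Z₀)` fixes `z = c c₂`
  have hcc : c * c = 1 := omega_sq hcZ
  have hc₂c₂ : c₂ * c₂ = 1 := omega_sq hc₂Z
  have hcom : c * c₂ = c₂ * c := omega_comm hcZ hc₂Z
  have hz1 : c * c₂ ≠ 1 := by
    intro h
    apply hne
    calc c₂ = c * (c * c₂) := by rw [← mul_assoc, hcc, one_mul]
      _ = c := by rw [h, mul_one]
  have hzc : c * c₂ ≠ c := fun h => hc₂1 (mul_eq_left.mp h)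
  have hzc₂ : c * c₂ ≠ c₂ := fun h => hc1 (mul_eq_right.mp h)
  have hcong : ∀ {g a : G}, a ≠ 1 → g * a * g⁻¹ ≠ 1 := by
    intro g a ha h
    apply ha
    have h3 : g⁻¹ * (g * a * g⁻¹) * g = g⁻¹ * 1 * g := by rw [h]
    rw [show g⁻¹ * (g * a * g⁻¹) * g = a by group] at h3
    simpa using h3
  have hfz : ∀ g ∈ Subgroup.normalizer (omegaCenterOf J : Set G), g * (c * c₂) * g⁻¹ = c * c₂ := by
    intro g hg
    rcases h4 (conj_mem_of_normalizer hg hzZ) with h | h | h | h
    · exact absurd h (hcong hz1)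
    · exact (not_conj_of_hpl S C.hJ hzC hc h).elim
    · exact (not_conj_of_hpl S C.hJ₂ hzC hc₂H h).elim
    · exact h
  have hact : ∀ g ∈ Subgroup.normalizer (omegaCenterOf J : Set G), g * c * g⁻¹ = c ∨ g * c * g⁻¹ = c₂ := by
    intro g hg
    rcases h4 (conj_mem_of_normalizer hg hcZ) with h | h | h | h
    · exact absurd h (hcong hc1)
    · exact Or.inl h
    · exact Or.inr h
    · exfalso
      have h1 : g * c * g⁻¹ = g * (c * c₂) * g⁻¹ := h.trans (hfz g hg).symm
      have h2 : c = c * c₂ := mul_left_cancel (mul_right_cancel h1)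
      exact hzc h2.symm
  have hCL : Subgroup.centralizer (omegaCenterOf J : Set G) ≤ L := by
    intro g hg
    apply C.htop.centralizer_le hc hc1
    rw [Subgroup.mem_centralizer_singleton_iff]
    exact ((Subgroup.mem_centralizer_iff.mp hg) c hcZ).symm
  rw [inf_eq_right.mpr hCL]
  have hCN : Subgroup.centralizer (omegaCenterOf J : Set G) ≤ Subgroup.normalizer (omegaCenterOf J : Set G) := by
    intro g hg
    apply Cfsg.Agent.Lib.Subnormal.mem_normalizer_of_conj_mem
    intro u hu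
    have h1 := (Subgroup.mem_centralizer_iff.mp hg) u hu
    have h2 : g * u * g⁻¹ = u := mul_inv_eq_iff_eq_mul.mpr h1.symm
    rw [h2]; exact hu
  have e : Subgroup.normalizer (omegaCenterOf J : Set G) ⊓ Subgroup.centralizer ({c} : Set G) =
      Subgroup.centralizer (omegaCenterOf J : Set G) := by
    apply le_antisymm
    · rintro g ⟨hgN, hgc⟩
      have h1 := Subgroup.mem_centralizer_singleton_iff.mp hgc
      have hgcf : g * c * g⁻¹ = c := mul_inv_eq_iff_eq_mul.mpr h1
      have hgz := hfz g hgN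
      have hgc₂ : g * c₂ * g⁻¹ = c₂ := by
        have h3 : c₂ = c * (c * c₂) := by rw [← mul_assoc, hcc, one_mul]
        have h5 : g * (c * (c * c₂)) * g⁻¹ = (g * c * g⁻¹) * (g * (c * c₂) * g⁻¹) := by group
        rw [h3, h5, hgcf, hgz]
      rw [Subgroup.mem_centralizer_iff]
      intro u hu
      symm
      apply mul_inv_eq_iff_eq_mul.mp
      rcases h4 hu with h | h | h | h
      · rw [h]; group
      · rw [h]; exact hgcf
      · rw [h]; exact hgc₂
      · rw [h]; exact hgz
    · intro g hg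
      refine ⟨hCN hg, Subgroup.mem_centralizer_singleton_iff.mpr ?_⟩
      exact ((Subgroup.mem_centralizer_iff.mp hg) c hcZ).symm
  have hcard := card_le_two_mul (Subgroup.normalizer (omegaCenterOf J : Set G)) c c₂ hact
  rw [e] at hcard
  have h1 := Cfsg.Agent.Lib.ExtraBasics.relIndex_mul_card hCN
  have hpos : 0 < Nat.card (Subgroup.centralizer (omegaCenterOf J : Set G)) := Nat.card_pos
  have hposN : 0 < Nat.card (Subgroup.normalizer (omegaCenterOf J : Set G)) := Nat.card_pos
  have h2 : (Subgroup.centralizer (omegaCenterOf J : Set G)).relIndex (Subgroup.normalizer (omegaCenterOf J : Set G)) ≤ 2 := by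
    by_contra hlt
    push Not at hlt
    nlinarith
  have h3 : (Subgroup.centralizer (omegaCenterOf J : Set G)).relIndex (Subgroup.normalizer (omegaCenterOf J : Set G)) ≠ 1 := by
    intro he
    rw [Subgroup.relIndex_eq_one] at he
    have hxN : x ∈ Subgroup.normalizer (omegaCenterOf J : Set G) :=
      Cfsg.Agent.Lib.Subnormal.mem_normalizer_of_conj_mem _ _ (fun u hu => omega_conj_of_normalizer C.hxJ hu)
    have h5 := (Subgroup.mem_centralizer_iff.mp (he hxN)) c hcZ
    exact hne (mul_inv_eq_iff_eq_mul.mpr h5.symm)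
  have h5 : (Subgroup.centralizer (omegaCenterOf J : Set G)).relIndex (Subgroup.normalizer (omegaCenterOf J : Set G)) ≠ 0 := by
    intro he
    rw [he, zero_mul] at h1
    omega
  omega

end TSC

end Cfsg.Agent.Lib.FFG
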