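import Mathlib
import Cfsg.Agent.Lib.FFG27

/-!
# Failure of factorization at the level of the group, part 28: pairs of components
-/

set_option autoImplicit false
set_option linter.unusedSectionVars false

open Cfsg
open scoped commutatorElement

namespace Cfsg.Agent.Lib.FFG

open Cfsg.Agent.Lib.FFAct Cfsg.Agent.Lib.PCore Cfsg.Agent.Lib.JCompStruct Cfsg.Agent.Lib.ThompsonJ
open Cfsg.Agent.Lib.BGFit2

variable {G : Type*} [Group G] [Finite G]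

/-- The configuration of two components in different tops. -/
structure TC (T K₁ K₂ L₁ L₂ : Subgroup G) (k₁ a b k₂ c d : G) : Prop where
  hT2 : IsPGroup 2 T
  hT1 : T ≠ ⊥
  hK₁ : IsJComponent T K₁
  hK₂ : IsJComponent T K₂
  hJ₁ : JCS (thompsonSubgroupOf 2 T) K₁ k₁ a b
  hJ₂ : JCS (thompsonSubgroupOf 2 T) K₂ k₂ c d
  htop₁ : TopOf (thompsonSubgroupOf 2 T) K₁ L₁
  htop₂ : TopOf (thompsonSubgroupOf 2 T) K₂ L₂
  hLT₁ : L₁ ∈ jOvergroups T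
  hLT₂ : L₂ ∈ jOvergroups T
  hTN₁ : T ≤ Subgroup.normalizer (K₁ : Set G)
  hTN₂ : T ≤ Subgroup.normalizer (K₂ : Set G)
  hnot : ¬ K₂ ≤ L₁
  hcen : ∀ t ∈ T, ∀ z ∈ omegaCenterOf (thompsonSubgroupOf 2 T), t * z = z * t

namespace TC

variable {T K₁ K₂ L₁ L₂ : Subgroup G} {k₁ a b k₂ c d : G} (C : TC T K₁ K₂ L₁ L₂ k₁ a b k₂ c d)
include C

theorem hJT : thompsonSubgroupOf 2 T ≤ T := Cfsg.Agent.Lib.JCompBasic.thompsonSubgroupOf_le 2 T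

theorem hTJ : T ≤ Subgroup.normalizer (thompsonSubgroupOf 2 T : Set G) := le_normalizer_thompson T

theorem hJp : IsPGroup 2 (thompsonSubgroupOf 2 T) := C.hT2.to_le C.hJT

theorem hnot' : ¬ K₁ ≤ L₂ := by
  intro h
  have h1 := C.htop₁.htop L₂ C.htop₂.hL.1 (sup_le h C.htop₂.J_le)
  exact C.hnot (C.htop₂.K_le.trans h1)

/-- The symmetry of the configuration. -/
theorem swap : TC T K₂ K₁ L₂ L₁ k₂ c d k₁ a b :=
  ⟨C.hT2, C.hT1, C.hK₂, C.hK₁, C.hJ₂, C.hJ₁, C.htop₂, C.htop₁, C.hLT₂, C.hLT₁, C.hTN₂, C.hTN₁, C.hnot', C.hcen⟩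

theorem haZ : a ∈ omegaCenterOf (thompsonSubgroupOf 2 T) := jcs_w₁_omega C.hJ₁

theorem hcZ : c ∈ omegaCenterOf (thompsonSubgroupOf 2 T) := jcs_w₁_omega C.hJ₂

theorem hTfix {t z : G} (ht : t ∈ T) (hz : z ∈ omegaCenterOf (thompsonSubgroupOf 2 T)) : t * z * t⁻¹ = z := by
  rw [C.hcen t ht z hz]; group

theorem hTa {t : G} (ht : t ∈ T) : t * a * t⁻¹ = a := C.hTfix ht C.haZ

theorem hTc {t : G} (ht : t ∈ T) : t * c * t⁻¹ = c := C.hTfix ht C.hcZ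

theorem hZT {z : G} (hz : z ∈ omegaCenterOf (thompsonSubgroupOf 2 T)) : z ∈ T := C.hJT (omegaCenter_mem hz).1

theorem hsyl₁ : IsSylowTwoIn T (K₁ ⊔ T) :=
  isSylowTwoIn_of_le C.hLT₁.1 le_sup_right (sup_le C.htop₁.K_le C.hLT₁.1.1)

theorem hWT₁ : wOf K₁ ≤ T :=
  (wOf_le_pCoreOf K₁).trans (jcs_core_le_T C.hJ₁ C.hTN₁ C.hsyl₁)

/-- `O₂(⟨K₁, K₂, T⟩) = 1`. -/
theorem core_eq_bot : pCoreOf 2 (K₁ ⊔ K₂ ⊔ T) = ⊥ := by
  haveI : Fact (Nat.Prime 2) := ⟨Nat.prime_two⟩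
  by_contra hR
  set D := K₁ ⊔ K₂ ⊔ T with hD
  have h1 : IsTwoLocal (Subgroup.normalizer (pCoreOf 2 D : Set G)) := ⟨_, isPGroup_pCoreOf 2 D, hR, rfl⟩
  have h2 : D ≤ Subgroup.normalizer (pCoreOf 2 D : Set G) := le_normalizer_pCoreOf 2 D
  have hK1 : K₁ ≤ D := le_sup_left.trans le_sup_left
  have hK2 : K₂ ≤ D := le_sup_right.trans le_sup_left
  have hT : T ≤ D := le_sup_right
  have h3 := C.htop₁.htop _ h1 (sup_le (hK1.trans h2) ((C.hJT.trans hT).trans h2))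
  exact C.hnot ((hK2.trans h2).trans h3)

/-- A `2`-subgroup normalized by all of `K₁`, `K₂`, `T` is trivial. -/
theorem eq_bot_of_norm {R : Subgroup G} (hRT : R ≤ T) (h1 : K₁ ≤ Subgroup.normalizer (R : Set G))
    (h2 : K₂ ≤ Subgroup.normalizer (R : Set G)) (h3 : T ≤ Subgroup.normalizer (R : Set G)) : R = ⊥ := by
  have h4 : R ≤ pCoreOf 2 (K₁ ⊔ K₂ ⊔ T) :=
    le_pCoreOf (hRT.trans le_sup_right) (sup_le (sup_le h1 h2) h3) (C.hT2.to_le hRT)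
  rwa [C.core_eq_bot, le_bot_iff] at h4

theorem hQ₁T : Qof T K₁ ≤ T := inf_le_left

theorem hQ₁N : K₁ ⊔ T ≤ Subgroup.normalizer (Qof T K₁ : Set G) := jcs_le_norm_Q C.hJ₁ C.hTN₁ C.hsyl₁

/-- `Z₀ ≤ Q₁`. -/
theorem hZ₀Q₁ {z : G} (hz : z ∈ omegaCenterOf (thompsonSubgroupOf 2 T)) : z ∈ Qof T K₁ :=
  mem_Qof.mpr ⟨C.hZT hz, fun u hu => (C.hcen u (C.hWT₁ hu) z hz).symm⟩

theorem hidx₁ {x y : G} (hx : x ∈ T) (hy : y ∈ T) (hx' : x ∉ Qof T K₁) (hy' : y ∉ Qof T K₁) : x * y ∈ Qof T K₁ :=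
  jcs_mul_mem_Q C.hJ₁ C.hTN₁ (fun t ht => C.hTa ht) hx hy (fun h => hx' (jcs_Q_of_fix C.hJ₁ (fun t ht => C.hTa ht) hx h))
    (fun h => hy' (jcs_Q_of_fix C.hJ₁ (fun t ht => C.hTa ht) hy h))

theorem hact₁ {t : G} (ht : t ∈ T) : t * b * t⁻¹ = b ∨ t * b * t⁻¹ = a * b :=
  jcs_T_act C.hJ₁ C.hTN₁ (fun t ht => C.hTa ht) ht

theorem hfixQ₁ {t : G} (ht : t ∈ T) (h : t * b * t⁻¹ = b) : t ∈ Qof T K₁ :=
  jcs_Q_of_fix C.hJ₁ (fun t ht => C.hTa ht) ht h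

theorem hQ₁_relIndex : (Qof T K₁).relIndex T = 2 := jcs_Q_relIndex C.hJ₁ C.hTN₁ C.hsyl₁

/-- `Q₂` does not lie in `Q₁`. -/
theorem exists_q₀ : ∃ q₀ ∈ Qof T K₂, q₀ ∉ Qof T K₁ := by
  by_contra hcon
  push Not at hcon
  have h1 : Qof T K₂ ≤ Qof T K₁ := hcon
  have e1 := Cfsg.Agent.Lib.ExtraBasics.relIndex_mul_card C.hQ₁T
  have e2 := Cfsg.Agent.Lib.ExtraBasics.relIndex_mul_card C.swap.hQ₁T
  rw [C.hQ₁_relIndex] at e1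
  rw [C.swap.hQ₁_relIndex] at e2
  have h2 : Nat.card (Qof T K₁) ≤ Nat.card (Qof T K₂) := by omega
  have h3 : Qof T K₂ = Qof T K₁ := Subgroup.eq_of_le_of_card_ge h1 h2
  have h4 := C.eq_bot_of_norm C.hQ₁T (le_sup_left.trans C.hQ₁N) (by rw [← h3]; exact le_sup_left.trans C.swap.hQ₁N)
    (le_sup_right.trans C.hQ₁N)
  have h5 := C.hZ₀Q₁ C.haZ
  rw [h4] at h5
  exact C.hJ₁.hw₁1 (Subgroup.mem_bot.mp h5)

end TC

end Cfsg.Agent.Lib.FFG
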