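import Mathlib
import Cfsg.Agent.Lib.FFG28

/-!
# Failure of factorization at the level of the group, part 29: the structure when `W₁` and `W₂` do not commute
-/

set_option autoImplicit false
set_option linter.unusedSectionVars false

open Cfsg
open scoped commutatorElement

namespace Cfsg.Agent.Lib.FFG

open Cfsg.Agent.Lib.FFAct Cfsg.Agent.Lib.PCore Cfsg.Agent.Lib.JCompStruct Cfsg.Agent.Lib.ThompsonJ
open Cfsg.Agent.Lib.BGFit2

variable {G : Type*} [Group G] [Finite G]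

/-- The action of `T` on `W`. -/
theorem TC.hact_W {T K₁ K₂ L₁ L₂ : Subgroup G} {k₁ a b k₂ c d : G} (C : TC T K₁ K₂ L₁ L₂ k₁ a b k₂ c d) {t u : G} (ht : t ∈ T)
    (hu : u ∈ wOf K₁) : t * u * t⁻¹ = u ∨ t * u * t⁻¹ = a * u := by
  have haa := omega_sq C.haZ
  rcases C.hJ₁.hset u hu with rfl | rfl | rfl | rfl
  · left; group
  · left; exact C.hTa ht
  · exact C.hact₁ ht
  · have e : t * (a * b) * t⁻¹ = a * (t * b * t⁻¹) := by
      calc t * (a * b) * t⁻¹ = (t * a * t⁻¹) * (t * b * t⁻¹) := by group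
        _ = a * (t * b * t⁻¹) := by rw [C.hTa ht]
    rw [e]
    rcases C.hact₁ ht with h | h
    · left; rw [h]
    · right; rw [h]

/-- The configuration with non-commuting elements. -/
structure TN (T K₁ K₂ L₁ L₂ : Subgroup G) (k₁ a b k₂ c d e e₂ : G) : Prop extends TC T K₁ K₂ L₁ L₂ k₁ a b k₂ c d where
  he : e ∈ wOf K₁
  he₂ : e₂ ∈ wOf K₂
  hne : e * e₂ ≠ e₂ * e

namespace TN

variable {T K₁ K₂ L₁ L₂ : Subgroup G} {k₁ a b k₂ c d e e₂ : G} (N : TN T K₁ K₂ L₁ L₂ k₁ a b k₂ c d e e₂)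
include N

theorem swap : TN T K₂ K₁ L₂ L₁ k₂ c d k₁ a b e₂ e :=
  { N.toTC.swap with
    he := N.he₂
    he₂ := N.he
    hne := fun h => N.hne h.symm }

theorem heT : e ∈ T := N.toTC.hWT₁ N.he

theorem he₂T : e₂ ∈ T := N.swap.heT

theorem he2 : e * e = 1 := N.hJ₁.hWsq e N.he

theorem he₂2 : e₂ * e₂ = 1 := N.swap.he2

theorem heQ₁ : e ∈ Qof T K₁ := mem_Qof.mpr ⟨N.heT, fun w hw => wOf_comm N.he hw⟩

theorem he₂Q₂ : e₂ ∈ Qof T K₂ := N.swap.heQ₁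

theorem heQ₂ : e ∉ Qof T K₂ := fun h => N.hne ((mem_Qof.mp h).2 e₂ N.he₂)

theorem he₂Q₁ : e₂ ∉ Qof T K₁ := N.swap.heQ₂

theorem hconj₁ : e₂ * e * e₂⁻¹ = a * e := by
  rcases N.toTC.hact_W N.he₂T N.he with h | h
  · exact absurd (mul_inv_eq_iff_eq_mul.mp h).symm N.hne
  · exact h

theorem hconj₂ : e * e₂ * e⁻¹ = c * e₂ := N.swap.hconj₁

/-- `w₁ = w₁'`. -/
theorem a_eq_c : a = c := by
  have h1 := N.hconj₁
  have h2 := N.hconj₂
  have hci : c⁻¹ = c := omega_inv N.toTC.hcZ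
  have e1 : a = e₂ * e * e₂⁻¹ * e⁻¹ := by rw [h1]; group
  have e2 : c = e * e₂ * e⁻¹ * e₂⁻¹ := by rw [h2]; group
  rw [e1, ← hci, e2]
  group

/-- `Q₁` has exponent two. -/
theorem hQ_exp : (∀ q ∈ Qof T K₁, q * q = 1) ∧ (∀ q ∈ Qof T K₂, q * q = 1) := by
  set Q₁ := Qof T K₁ with hQ₁
  set Q₂ := Qof T K₂ with hQ₂
  have hQ₁T : Q₁ ≤ T := inf_le_left
  have hQ₂T : Q₂ ≤ T := inf_le_left
  set Y := Q₁ ⊓ Q₂ with hY
  have hs1 : sqCl Q₁ = sqCl Y := by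
    apply sqCl_eq_of_central (e := e) inf_le_left N.he2
    · intro q hq
      exact (mem_Qof.mp hq).2 e N.he
    · intro q hq
      by_cases h : q ∈ Q₂
      · exact Or.inl ⟨hq, h⟩
      · exact Or.inr ⟨Q₁.mul_mem hq N.heQ₁, N.swap.toTC.hidx₁ (hQ₁T hq) N.heT h N.heQ₂⟩
  have hs2 : sqCl Q₂ = sqCl Y := by
    apply sqCl_eq_of_central (e := e₂) inf_le_right N.he₂2
    · intro q hq
      exact (mem_Qof.mp hq).2 e₂ N.he₂
    · intro q hq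
      by_cases h : q ∈ Q₁
      · exact Or.inl ⟨h, hq⟩
      · exact Or.inr ⟨N.toTC.hidx₁ (hQ₂T hq) N.he₂T h N.he₂Q₁, Q₂.mul_mem hq N.he₂Q₂⟩
  have hP₁ : K₁ ⊔ T ≤ Subgroup.normalizer (sqCl Y : Set G) := by
    rw [← hs1]
    exact fun g hg => TSC.norm_sqCl (N.toTC.hQ₁N hg)
  have hP₂ : K₂ ⊔ T ≤ Subgroup.normalizer (sqCl Y : Set G) := by
    rw [← hs2]
    exact fun g hg => TSC.norm_sqCl (N.swap.toTC.hQ₁N hg)
  have hsq : sqCl Y = ⊥ :=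
    N.toTC.eq_bot_of_norm ((sqCl_le Y).trans (inf_le_left.trans hQ₁T)) (le_sup_left.trans hP₁) (le_sup_left.trans hP₂)
      (le_sup_right.trans hP₁)
  constructor
  · intro q hq
    have h1 := sq_mem_sqCl hq
    rw [hs1, hsq] at h1
    exact Subgroup.mem_bot.mp h1
  · intro q hq
    have h1 := sq_mem_sqCl hq
    rw [hs2, hsq] at h1
    exact Subgroup.mem_bot.mp h1

theorem hQ₁e {q : G} (hq : q ∈ Qof T K₁) : q * q = 1 := N.hQ_exp.1 q hq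

theorem hQ₂e {q : G} (hq : q ∈ Qof T K₂) : q * q = 1 := N.hQ_exp.2 q hq

/-- `Q₁ ∩ Q₂` is central in `T`. -/
theorem hYc {y t : G} (hy₁ : y ∈ Qof T K₁) (hy₂ : y ∈ Qof T K₂) (ht : t ∈ T) : t * y = y * t := by
  have hQ₁e : ∀ q ∈ Qof T K₁, q * q = 1 := N.hQ_exp.1
  have hQ₂e : ∀ q ∈ Qof T K₂, q * q = 1 := N.hQ_exp.2
  by_cases h : t ∈ Qof T K₁
  · exact comm_of_sq_one hQ₁e h hy₁
  · have h1 := N.toTC.hidx₁ ht N.he₂T h N.he₂Q₁
    have h2 : (t * e₂) * y = y * (t * e₂) := comm_of_sq_one hQ₁e h1 hy₁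
    have h3 : e₂ * y = y * e₂ := comm_of_sq_one hQ₂e N.he₂Q₂ hy₂
    have h4 : t * (y * e₂) = (y * t) * e₂ := by
      calc t * (y * e₂) = t * (e₂ * y) := by rw [h3]
        _ = (t * e₂) * y := by group
        _ = y * (t * e₂) := h2
        _ = (y * t) * e₂ := by group
    have h5 : (t * y) * e₂ = (y * t) * e₂ := by rw [← h4]; group
    exact mul_right_cancel h5

/-- `Q₁ ∩ Q₂ = Z₀`. -/
theorem hYZ {y : G} (hy₁ : y ∈ Qof T K₁) (hy₂ : y ∈ Qof T K₂) : y ∈ omegaCenterOf (thompsonSubgroupOf 2 T) :=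
  omega_le_Z₀ T (mem_omegaCenter ((inf_le_left : Qof T K₁ ≤ T) hy₁) (fun t ht => N.hYc hy₁ hy₂ ht) (N.hQ₁e hy₁))

/-- The elements of `Q₁`. -/
theorem hQ₁_cases {q : G} (hq : q ∈ Qof T K₁) :
    q ∈ omegaCenterOf (thompsonSubgroupOf 2 T) ∨ q * e ∈ omegaCenterOf (thompsonSubgroupOf 2 T) := by
  have hQ₁T : Qof T K₁ ≤ T := inf_le_left
  by_cases h : q ∈ Qof T K₂
  · exact Or.inl (N.hYZ hq h)
  · exact Or.inr (N.hYZ ((Qof T K₁).mul_mem hq N.heQ₁) (N.swap.toTC.hidx₁ (hQ₁T hq) N.heT h N.heQ₂))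

/-- The elements of `T`. -/
theorem hT_cases {t : G} (ht : t ∈ T) : t ∈ Qof T K₁ ∨ t * e₂ ∈ Qof T K₁ := by
  by_cases h : t ∈ Qof T K₁
  · exact Or.inl h
  · exact Or.inr (N.toTC.hidx₁ ht N.he₂T h N.he₂Q₁)

/-- `|Q₁ : Z₀| = 2`. -/
theorem hcard_Q₁ : Nat.card (Qof T K₁) = 2 * Nat.card (omegaCenterOf (thompsonSubgroupOf 2 T)) := by
  have hle : omegaCenterOf (thompsonSubgroupOf 2 T) ≤ Qof T K₁ := fun z hz => N.toTC.hZ₀Q₁ hz
  have hQ₁T : Qof T K₁ ≤ T := inf_le_left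
  have h1 := Cfsg.Agent.Lib.ExtraBasics.relIndex_mul_card hle
  have hposZ : 0 < Nat.card (omegaCenterOf (thompsonSubgroupOf 2 T)) := Nat.card_pos
  have hposQ : 0 < Nat.card (Qof T K₁) := Nat.card_pos
  -- the map `Q₁ ∖ Z₀ → Z₀`
  have h2 : (omegaCenterOf (thompsonSubgroupOf 2 T)).relIndex (Qof T K₁) ≠ 1 := by
    intro he'
    rw [Subgroup.relIndex_eq_one] at he'
    exact N.heQ₂ (N.swap.toTC.hZ₀Q₁ (he' N.heQ₁))
  have h3 : (omegaCenterOf (thompsonSubgroupOf 2 T)).relIndex (Qof T K₁) ≤ 2 := by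
    have e : Qof T K₂ ⊓ Qof T K₁ = omegaCenterOf (thompsonSubgroupOf 2 T) := by
      apply le_antisymm
      · rintro y ⟨h5, h6⟩
        exact N.hYZ h6 h5
      · intro z hz
        exact ⟨N.swap.toTC.hZ₀Q₁ hz, N.toTC.hZ₀Q₁ hz⟩
    rw [← e, Subgroup.inf_relIndex_right]
    have h7 := Subgroup.relIndex_le_of_le_right (H := Qof T K₂) hQ₁T (by rw [N.swap.toTC.hQ₁_relIndex]; norm_num)
    rwa [N.swap.toTC.hQ₁_relIndex] at h7
  have h4 : (omegaCenterOf (thompsonSubgroupOf 2 T)).relIndex (Qof T K₁) ≠ 0 := by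
    intro he'
    rw [he', zero_mul] at h1
    omega
  have h5 : (omegaCenterOf (thompsonSubgroupOf 2 T)).relIndex (Qof T K₁) = 2 := by omega
  rw [h5] at h1
  exact h1.symm

end TN

end Cfsg.Agent.Lib.FFG
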