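import Mathlib
import Cfsg.Agent.Lib.FFG29

/-!
# Failure of factorization at the level of the group, part 30: `L = ⟨K, T⟩`
-/

set_option autoImplicit false
set_option linter.unusedSectionVars false

open Cfsg
open scoped commutatorElement

namespace Cfsg.Agent.Lib.FFG

open Cfsg.Agent.Lib.FFAct Cfsg.Agent.Lib.PCore Cfsg.Agent.Lib.JCompStruct Cfsg.Agent.Lib.ThompsonJ
open Cfsg.Agent.Lib.BGFit2

variable {G : Type*} [Group G] [Finite G]

/-- The orbit count. -/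
theorem card_le_card_mul (A : Subgroup G) (w : G) (F : Finset G) (h : ∀ a ∈ A, a * w * a⁻¹ ∈ F) :
    Nat.card A ≤ F.card * Nat.card ↥(A ⊓ Subgroup.centralizer ({w} : Set G)) := by
  classical
  set B : Subgroup G := A ⊓ Subgroup.centralizer ({w} : Set G) with hB
  have hmem : ∀ a : G, a * w * a⁻¹ = w → a ∈ Subgroup.centralizer ({w} : Set G) := by
    intro a ha
    rw [Subgroup.mem_centralizer_singleton_iff]
    exact mul_inv_eq_iff_eq_mul.mp ha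
  have hex : ∀ a : A, ∃ r : A, r.1 * w * r.1⁻¹ = a.1 * w * a.1⁻¹ ∧ ∀ a' : A, a'.1 * w * a'.1⁻¹ = a.1 * w * a.1⁻¹ → True :=
    fun a => ⟨a, rfl, fun _ _ => trivial⟩
  let rep : G → G := fun y => if hy : ∃ r ∈ A, r * w * r⁻¹ = y then hy.choose else 1
  have hrep : ∀ a : A, rep (a.1 * w * a.1⁻¹) ∈ A ∧ rep (a.1 * w * a.1⁻¹) * w * (rep (a.1 * w * a.1⁻¹))⁻¹ = a.1 * w * a.1⁻¹ := by
    intro a
    have hy : ∃ r ∈ A, r * w * r⁻¹ = a.1 * w * a.1⁻¹ := ⟨a.1, a.2, rfl⟩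
    have : rep (a.1 * w * a.1⁻¹) = hy.choose := dif_pos hy
    rw [this]
    exact hy.choose_spec
  have hmemB : ∀ a : A, (rep (a.1 * w * a.1⁻¹))⁻¹ * a.1 ∈ B := by
    intro a
    obtain ⟨h1, h2⟩ := hrep a
    refine ⟨A.mul_mem (A.inv_mem h1) a.2, hmem _ ?_⟩
    calc (rep (a.1 * w * a.1⁻¹))⁻¹ * a.1 * w * ((rep (a.1 * w * a.1⁻¹))⁻¹ * a.1)⁻¹
        = (rep (a.1 * w * a.1⁻¹))⁻¹ * (a.1 * w * a.1⁻¹) * rep (a.1 * w * a.1⁻¹) := by group
      _ = (rep (a.1 * w * a.1⁻¹))⁻¹ * (rep (a.1 * w * a.1⁻¹) * w * (rep (a.1 * w * a.1⁻¹))⁻¹) * rep (a.1 * w * a.1⁻¹) := by rw [h2]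
      _ = w := by group
  let f : A → ↥F × B := fun a => (⟨a.1 * w * a.1⁻¹, h a.1 a.2⟩, ⟨_, hmemB a⟩)
  have hf : Function.Injective f := by
    intro a b hab
    have h1 : a.1 * w * a.1⁻¹ = b.1 * w * b.1⁻¹ := congrArg (fun t : ↥F × B => (t.1 : G)) hab
    have h2 : (rep (a.1 * w * a.1⁻¹))⁻¹ * a.1 = (rep (b.1 * w * b.1⁻¹))⁻¹ * b.1 :=
      congrArg (fun t : ↥F × B => (t.2 : G)) hab
    rw [h1] at h2
    exact Subtype.ext (mul_left_cancel h2)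
  have h3 := Nat.card_le_card_of_injective f hf
  rw [Nat.card_prod] at h3
  simpa [Nat.card_eq_fintype_card] using h3

/-- A subgroup of index at most two containing a Sylow subgroup, is everything. -/
theorem le_of_relIndex_le_two {T X C : Subgroup G} (hT : IsSylowTwoIn T X) (hTC : T ≤ C) (hCX : C ≤ X)
    (h : Nat.card X ≤ 2 * Nat.card C) : X ≤ C := by
  have h1 := Subgroup.relIndex_mul_relIndex T C X hTC hCX
  have h2 : Odd (T.relIndex X) := hT.2.2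
  rw [← h1] at h2
  have h3 : Odd (C.relIndex X) := (Nat.odd_mul.mp h2).2
  have h4 := Cfsg.Agent.Lib.ExtraBasics.relIndex_mul_card hCX
  have hpos : 0 < Nat.card C := Nat.card_pos
  have h5 : C.relIndex X ≤ 2 := by
    by_contra hlt
    push Not at hlt
    nlinarith
  have h6 : C.relIndex X = 1 := by
    rcases h3 with ⟨m, hm⟩
    omega
  exact Subgroup.relIndex_eq_one.mp h6

namespace TN

variable {T K₁ K₂ L₁ L₂ : Subgroup G} {k₁ a b k₂ c d e e₂ : G} (N : TN T K₁ K₂ L₁ L₂ k₁ a b k₂ c d e e₂)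
include N

theorem core_L_le : pCoreOf 2 L₁ ≤ Qof T K₁ := by
  have hPL : K₁ ⊔ T ≤ L₁ := sup_le N.htop₁.K_le N.hLT₁.1.1
  have h1 : pCoreOf 2 L₁ ≤ pCoreOf 2 (K₁ ⊔ T) :=
    le_pCoreOf ((core_le_sylow N.hLT₁.1).trans le_sup_right) (hPL.trans (le_normalizer_pCoreOf 2 L₁)) (isPGroup_pCoreOf 2 L₁)
  rwa [jcs_core_eq_Q N.hJ₁ N.hTN₁ N.toTC.hsyl₁ N.hK₁.2.2.2.2.1] at h1

theorem core_L_eq : pCoreOf 2 L₁ = Qof T K₁ := by
  apply le_antisymm N.core_L_le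
  intro q hq
  apply N.hLT₁.2.2
  rw [Subgroup.mem_centralizer_iff]
  intro r hr
  exact comm_of_sq_one N.hQ_exp.1 (N.core_L_le hr) hq

theorem hLQ : L₁ ≤ Subgroup.normalizer (Qof T K₁ : Set G) := by
  rw [← N.core_L_eq]
  exact le_normalizer_pCoreOf 2 L₁

theorem hCQ : Subgroup.centralizer (Qof T K₁ : Set G) ≤ Qof T K₁ := by
  rw [← N.core_L_eq]
  exact N.hLT₁.2.2

theorem he1 : e ≠ 1 := fun h => N.heQ₂ (by rw [h]; exact Subgroup.one_mem _)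

theorem hee : ∀ {z : G}, z ∈ omegaCenterOf (thompsonSubgroupOf 2 T) → e ≠ z :=
  fun hz h => N.heQ₂ (by rw [h]; exact N.swap.toTC.hZ₀Q₁ hz)

/-- An element of `L₁ ∩ N(T)` fixes `w₁`. -/
theorem fix_a {n : G} (hnL : n ∈ L₁) (hnT : n ∈ Subgroup.normalizer (T : Set G)) : n * a * n⁻¹ = a := by
  have hQ := N.hLQ hnL
  have he' : n * e * n⁻¹ ∈ Qof T K₁ := conj_mem_of_normalizer hQ N.heQ₁
  have ht' : n * e₂ * n⁻¹ ∈ T := conj_mem_of_normalizer hnT N.he₂T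
  have h1 : (n * e₂ * n⁻¹) * (n * e * n⁻¹) * (n * e₂ * n⁻¹)⁻¹ = (n * a * n⁻¹) * (n * e * n⁻¹) := by
    calc (n * e₂ * n⁻¹) * (n * e * n⁻¹) * (n * e₂ * n⁻¹)⁻¹ = n * (e₂ * e * e₂⁻¹) * n⁻¹ := by group
      _ = n * (a * e) * n⁻¹ := by rw [N.hconj₁]
      _ = (n * a * n⁻¹) * (n * e * n⁻¹) := by group
  have hna1 : n * a * n⁻¹ ≠ 1 := by
    intro h
    apply N.hJ₁.hw₁1
    have h3 : n⁻¹ * (n * a * n⁻¹) * n = n⁻¹ * 1 * n := by rw [h]
    rw [show n⁻¹ * (n * a * n⁻¹) * n = a by group] at h3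
    simpa using h3
  rcases N.hQ₁_cases he' with h2 | h2
  · exfalso
    rw [N.toTC.hTfix ht' h2] at h1
    exact hna1 (mul_eq_right.mp h1.symm)
  · set z := n * e * n⁻¹ * e with hz
    have he2 := N.he2
    have e1 : n * e * n⁻¹ = z * e := by rw [hz, mul_assoc (n * e * n⁻¹) e e, he2, mul_one]
    have h3 : (n * e₂ * n⁻¹) * (z * e) * (n * e₂ * n⁻¹)⁻¹ = z * ((n * e₂ * n⁻¹) * e * (n * e₂ * n⁻¹)⁻¹) := by
      have h4 := N.toTC.hTfix ht' h2
      calc (n * e₂ * n⁻¹) * (z * e) * (n * e₂ * n⁻¹)⁻¹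
          = ((n * e₂ * n⁻¹) * z * (n * e₂ * n⁻¹)⁻¹) * ((n * e₂ * n⁻¹) * e * (n * e₂ * n⁻¹)⁻¹) := by group
        _ = _ := by rw [h4]
    rw [e1, h3] at h1
    have hzc : z * a = a * z := omega_comm h2 N.toTC.haZ
    rcases N.toTC.hact_W ht' N.he with h5 | h5
    · rw [h5] at h1
      exact absurd (mul_eq_right.mp h1.symm) hna1
    · rw [h5] at h1
      have h6 : z * (a * e) = a * (z * e) := by
        calc z * (a * e) = (z * a) * e := by group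
          _ = (a * z) * e := by rw [hzc]
          _ = a * (z * e) := by group
      rw [h6] at h1
      exact (mul_right_cancel h1).symm

section WithC

variable {c₁ : G} (hc : c₁ ∈ hpl (thompsonSubgroupOf 2 T) K₁) (hc1 : c₁ ≠ 1)
include hc hc1

theorem hH : ∀ z ∈ hpl (thompsonSubgroupOf 2 T) K₁, z = 1 ∨ z = c₁ := by
  intro y hy
  rcases hpl_small N.hJ₂ (fun u h3 h4 => hpl_sep N.htop₁ N.hnot h3 h4) hy hc with h | h | h
  · exact Or.inl h
  · exact absurd h hc1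
  · exact Or.inr h

theorem hZ₄ {z : G} (hz : z ∈ omegaCenterOf (thompsonSubgroupOf 2 T)) : z = 1 ∨ z = c₁ ∨ z = a ∨ z = c₁ * a :=
  Z₀_cases N.hJ₁ (N.hH hc hc1) (mem_hpl.mp hc).1 hz

theorem hc₁a : c₁ ≠ a := fun h => jcs_w₁_not_hpl N.hJ₁ (h ▸ hc)

/-- An element of `L₁ ∩ N(T)` fixes `c₁`. -/
theorem fix_c₁_norm {n : G} (hnL : n ∈ L₁) (hnT : n ∈ Subgroup.normalizer (T : Set G)) : n * c₁ * n⁻¹ = c₁ := by
  have hcZ := (mem_hpl.mp hc).1
  set X := L₁ ⊓ Subgroup.normalizer (T : Set G) with hX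
  have hTX : T ≤ X := le_inf N.hLT₁.1.1 Subgroup.le_normalizer
  have hsyl : IsSylowTwoIn T X := isSylowTwoIn_of_le N.hLT₁.1 hTX inf_le_left
  have hcard := card_le_two_mul X c₁ (c₁ * a) (by
    rintro m ⟨hm1, hm2⟩
    have hmJ := normalizer_le_normalizer_thompson T hm2
    have hmZ := omega_conj_of_normalizer hmJ hcZ
    have hfa := N.fix_a hm1 hm2
    rcases N.hZ₄ hc hc1 hmZ with h | h | h | h
    · exfalso
      apply hc1
      have h3 : m⁻¹ * (m * c₁ * m⁻¹) * m = m⁻¹ * 1 * m := by rw [h]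
      rw [show m⁻¹ * (m * c₁ * m⁻¹) * m = c₁ by group] at h3
      simpa using h3
    · exact Or.inl h
    · exfalso
      rw [← hfa] at h
      have h2 : c₁ = a := mul_left_cancel (mul_right_cancel h)
      exact N.hc₁a hc hc1 h2
    · exact Or.inr h)
  have hTC : T ≤ X ⊓ Subgroup.centralizer ({c₁} : Set G) := by
    refine le_inf hTX ?_
    intro t ht
    exact Subgroup.mem_centralizer_singleton_iff.mpr (N.hcen t ht c₁ hcZ)
  have h1 := le_of_relIndex_le_two hsyl hTC inf_le_left hcard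
  have h2 := (h1 (⟨hnL, hnT⟩ : n ∈ X)).2
  rw [Subgroup.mem_centralizer_singleton_iff.mp h2]
  group

/-- `L₁` centralizes `c₁`. -/
theorem fix_c₁ {g : G} (hg : g ∈ L₁) : g * c₁ * g⁻¹ = c₁ := by
  classical
  have hcZ := (mem_hpl.mp hc).1
  have hQ := N.hLQ hg
  have hcQ : c₁ ∈ Qof T K₁ := N.toTC.hZ₀Q₁ hcZ
  have hc' : g * c₁ * g⁻¹ ∈ Qof T K₁ := conj_mem_of_normalizer hQ hcQ
  have hcK : ∀ κ ∈ K₁, κ * c₁ * κ⁻¹ = c₁ := fun κ hκ => by
    rw [(mem_hpl.mp hc).2 κ hκ]; group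
  have haW := N.hJ₁.hw₁
  have haa := omega_sq N.toTC.haZ
  have he2 := N.he2
  -- moving into `Z₀`
  have hstep : ∃ κ ∈ K₁, κ * (g * c₁ * g⁻¹) * κ⁻¹ ∈ omegaCenterOf (thompsonSubgroupOf 2 T) := by
    rcases N.hQ₁_cases hc' with h | h
    · exact ⟨1, K₁.one_mem, by simpa using h⟩
    · set z := g * c₁ * g⁻¹ * e with hz
      have e1 : g * c₁ * g⁻¹ = z * e := by rw [hz, mul_assoc (g * c₁ * g⁻¹) e e, he2, mul_one]
      rw [e1]
      have hmove : ∀ v ∈ wOf K₁, v ≠ 1 → ∃ κ ∈ K₁, κ * v * κ⁻¹ = a := fun v hv hv1 =>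
        jcs_transitive N.hJ₁ hv haW hv1 N.hJ₁.hw₁1
      have hcomb : ∀ {κ v y : G}, κ ∈ K₁ → κ * y * κ⁻¹ = y → κ * v * κ⁻¹ = a →
          κ * (y * v) * κ⁻¹ = y * a := by
        intro κ v y _ h1 h2
        calc κ * (y * v) * κ⁻¹ = (κ * y * κ⁻¹) * (κ * v * κ⁻¹) := by group
          _ = y * a := by rw [h1, h2]
      rcases N.hZ₄ hc hc1 h with h1 | h1 | h1 | h1
      · obtain ⟨κ, hκ, h2⟩ := hmove e N.he N.he1
        refine ⟨κ, hκ, ?_⟩
        rw [h1, one_mul, h2]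
        exact N.toTC.haZ
      · obtain ⟨κ, hκ, h2⟩ := hmove e N.he N.he1
        refine ⟨κ, hκ, ?_⟩
        rw [h1, hcomb hκ (hcK κ hκ) h2]
        exact Subgroup.mul_mem _ hcZ N.toTC.haZ
      · have hae : a * e ≠ 1 := by
          intro h2
          apply N.hee N.toTC.haZ
          rw [← omega_inv N.toTC.haZ]
          exact eq_inv_of_mul_eq_one_right h2
        obtain ⟨κ, hκ, h2⟩ := hmove _ ((wOf K₁).mul_mem haW N.he) hae
        refine ⟨κ, hκ, ?_⟩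
        rw [h1, h2]
        exact N.toTC.haZ
      · have hae : a * e ≠ 1 := by
          intro h2
          apply N.hee N.toTC.haZ
          rw [← omega_inv N.toTC.haZ]
          exact eq_inv_of_mul_eq_one_right h2
        obtain ⟨κ, hκ, h2⟩ := hmove _ ((wOf K₁).mul_mem haW N.he) hae
        refine ⟨κ, hκ, ?_⟩
        have e5 : c₁ * a * e = c₁ * (a * e) := mul_assoc _ _ _
        rw [h1, e5, hcomb hκ (hcK κ hκ) h2]
        exact Subgroup.mul_mem _ hcZ N.toTC.haZ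
  obtain ⟨κ, hκ, hκZ⟩ := hstep
  set g' := κ * g with hg'
  have hg'L : g' ∈ L₁ := L₁.mul_mem (N.htop₁.K_le hκ) hg
  have e2 : g' * c₁ * g'⁻¹ = κ * (g * c₁ * g⁻¹) * κ⁻¹ := by rw [hg']; group
  set z := g' * c₁ * g'⁻¹ with hz
  have hzZ : z ∈ omegaCenterOf (thompsonSubgroupOf 2 T) := by rw [e2]; exact hκZ
  -- fusion in `Z₀`
  set X := L₁ ⊓ Subgroup.centralizer ({z} : Set G) with hX
  have hTX : T ≤ X := le_inf N.hLT₁.1.1 (fun t ht => Subgroup.mem_centralizer_singleton_iff.mpr (N.hcen t ht z hzZ))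
  have hsylX : IsSylowTwoIn T X := isSylowTwoIn_of_le N.hLT₁.1 hTX inf_le_left
  have hcL : cj g' L₁ = L₁ := cj_eq_of_mem_normalizer (Subgroup.le_normalizer hg'L)
  have hsyl' : IsSylowTwoIn (cj g' T) L₁ := by
    have := isSylowTwoIn_cj N.hLT₁.1 g'
    rwa [hcL] at this
  have hTX' : cj g' T ≤ X := by
    refine le_inf hsyl'.1 ?_
    intro y hy
    rw [Subgroup.mem_centralizer_singleton_iff]
    have hy' := mem_cj.mp hy
    have h3 := N.hcen _ hy' c₁ hcZ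
    calc y * z = g' * ((g'⁻¹ * y * g') * c₁) * g'⁻¹ := by rw [hz]; group
      _ = g' * (c₁ * (g'⁻¹ * y * g')) * g'⁻¹ := by rw [h3]
      _ = z * y := by rw [hz]; group
  have hsylX' : IsSylowTwoIn (cj g' T) X := isSylowTwoIn_of_le hsyl' hTX' inf_le_left
  obtain ⟨l, hlX, hl⟩ := exists_conj_of_sylow hsylX hsylX'
  set n := l⁻¹ * g' with hn
  have hnL : n ∈ L₁ := L₁.mul_mem (L₁.inv_mem hlX.1) hg'L
  have hnT : n ∈ Subgroup.normalizer (T : Set G) := by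
    apply Cfsg.Agent.Lib.Subnormal.mem_normalizer_of_conj_mem
    intro t ht
    have h3 : g' * t * g'⁻¹ ∈ cj g' T := conj_mem_cj ht
    rw [hl, mem_cj] at h3
    have e3 : n * t * n⁻¹ = l⁻¹ * (g' * t * g'⁻¹) * l := by rw [hn]; group
    rw [e3]
    exact h3
  have hnc : n * c₁ * n⁻¹ = z := by
    have hlz := Subgroup.mem_centralizer_singleton_iff.mp hlX.2
    calc n * c₁ * n⁻¹ = l⁻¹ * (g' * c₁ * g'⁻¹) * l := by rw [hn]; group
      _ = l⁻¹ * z * l := by rw [hz]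
      _ = l⁻¹ * (z * l) := by group
      _ = l⁻¹ * (l * z) := by rw [hlz]
      _ = z := by group
  have hzc : z = c₁ := by
    rw [← hnc]
    exact N.fix_c₁_norm hc hc1 hnL hnT
  -- back to `g`
  rw [e2] at hzc
  have h5 := hcK κ⁻¹ (K₁.inv_mem hκ)
  rw [← hzc] at h5
  calc g * c₁ * g⁻¹ = κ⁻¹ * (κ * (g * c₁ * g⁻¹) * κ⁻¹) * κ⁻¹⁻¹ := by group
    _ = κ * (g * c₁ * g⁻¹) * κ⁻¹ := h5
    _ = c₁ := hzc

/-- The elements of `Q₁`. -/
theorem hQ₁_four {q : G} (hq : q ∈ Qof T K₁) : ∃ v ∈ wOf K₁, q = v ∨ q = c₁ * v := by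
  have haW := N.hJ₁.hw₁
  have hvz : ∀ {z : G}, z ∈ omegaCenterOf (thompsonSubgroupOf 2 T) → ∃ v ∈ wOf K₁, z = v ∨ z = c₁ * v := by
    intro z hz
    rcases N.hZ₄ hc hc1 hz with h | h | h | h
    · exact ⟨1, Subgroup.one_mem _, Or.inl h⟩
    · exact ⟨1, Subgroup.one_mem _, Or.inr (by rw [h, mul_one])⟩
    · exact ⟨a, haW, Or.inl h⟩
    · exact ⟨a, haW, Or.inr h⟩
  rcases N.hQ₁_cases hq with h | h
  · exact hvz h
  · obtain ⟨v, hv, h1⟩ := hvz h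
    have e1 : q = (q * e) * e := by rw [mul_assoc, N.he2, mul_one]
    refine ⟨v * e, (wOf K₁).mul_mem hv N.he, ?_⟩
    rcases h1 with h1 | h1
    · left; rw [e1, h1]
    · right; rw [e1, h1, mul_assoc]

/-- `L₁` normalizes `W₁`, when the hyperplane is nontrivial. -/
theorem hLW_c (Z : ZNH G) {g v : G} (hg : g ∈ L₁) (hv : v ∈ wOf K₁) : g * v * g⁻¹ ∈ wOf K₁ := by
  have hcZ := (mem_hpl.mp hc).1
  have h1 : Subgroup.centralizer ({c₁} : Set G) ≤ Subgroup.normalizer (K₁ : Set G) :=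
    Z.cent_le_norm N.hT2 N.hT1 N.hJ₁ N.hK₁ N.htop₁ N.hLT₁.1 N.hTN₁ hc hc1 (fun t ht => N.hcen t ht c₁ hcZ) (N.hH hc hc1)
  have h2 : g ∈ Subgroup.centralizer ({c₁} : Set G) := by
    rw [Subgroup.mem_centralizer_singleton_iff]
    exact mul_inv_eq_iff_eq_mul.mp (N.fix_c₁ hc hc1 hg)
  exact conj_mem_wOf (h1 h2) hv

/-- An element of `L₁` centralizing `W₁` lies in `Q₁`. -/
theorem hCL_c {m : G} (hm : m ∈ L₁) (hmW : ∀ v ∈ wOf K₁, m * v = v * m) : m ∈ Qof T K₁ := by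
  apply N.hCQ
  rw [Subgroup.mem_centralizer_iff]
  intro q hq
  have hmc : m * c₁ = c₁ * m := mul_inv_eq_iff_eq_mul.mp (N.fix_c₁ hc hc1 hm)
  obtain ⟨v, hv, h | h⟩ := N.hQ₁_four hc hc1 hq
  · rw [h]
    exact (hmW v hv).symm
  · rw [h]
    calc c₁ * v * m = c₁ * (v * m) := by group
      _ = c₁ * (m * v) := by rw [hmW v hv]
      _ = (c₁ * m) * v := by group
      _ = (m * c₁) * v := by rw [hmc]
      _ = m * (c₁ * v) := by group

end WithC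

section NoC

variable (hH : ∀ z ∈ hpl (thompsonSubgroupOf 2 T) K₁, z = 1)
include hH

/-- When the hyperplane is trivial, `Q₁ = W₁`. -/
theorem hQ₁_W {q : G} (hq : q ∈ Qof T K₁) : q ∈ wOf K₁ := by
  have haW := N.hJ₁.hw₁
  have hvz : ∀ {z : G}, z ∈ omegaCenterOf (thompsonSubgroupOf 2 T) → z ∈ wOf K₁ := by
    intro z hz
    rcases jcs_decomp N.hJ₁ hz with h1 | h1
    · rw [hH z h1]; exact Subgroup.one_mem _
    · have h2 := hH _ h1
      have e1 : z = (z * a) * a := by rw [mul_assoc, omega_sq N.toTC.haZ, mul_one]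
      rw [e1, h2, one_mul]
      exact haW
  rcases N.hQ₁_cases hq with h | h
  · exact hvz h
  · have e1 : q = (q * e) * e := by rw [mul_assoc, N.he2, mul_one]
    rw [e1]
    exact (wOf K₁).mul_mem (hvz h) N.he

theorem hLW_n {g v : G} (hg : g ∈ L₁) (hv : v ∈ wOf K₁) : g * v * g⁻¹ ∈ wOf K₁ :=
  N.hQ₁_W hH (conj_mem_of_normalizer (N.hLQ hg) (mem_Qof.mpr ⟨N.toTC.hWT₁ hv, fun w hw => wOf_comm hv hw⟩))

theorem hCL_n {m : G} (hmW : ∀ v ∈ wOf K₁, m * v = v * m) : m ∈ Qof T K₁ := by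
  apply N.hCQ
  rw [Subgroup.mem_centralizer_iff]
  intro q hq
  exact (hmW q (N.hQ₁_W hH hq)).symm

end NoC

/-- `L₁ = ⟨K₁, T⟩` from the action on `W₁`. -/
theorem L_eq (hLW : ∀ g ∈ L₁, ∀ v ∈ wOf K₁, g * v * g⁻¹ ∈ wOf K₁)
    (hCL : ∀ m ∈ L₁, (∀ v ∈ wOf K₁, m * v = v * m) → m ∈ Qof T K₁) : L₁ = K₁ ⊔ T := by
  classical
  have hPL : K₁ ⊔ T ≤ L₁ := sup_le N.htop₁.K_le N.hLT₁.1.1
  have hJ₁ := N.hJ₁
  have hab : a * b ∈ wOf K₁ := (wOf K₁).mul_mem hJ₁.hw₁ hJ₁.hw₂mem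
  have hne : ∀ {g u : G}, u ≠ 1 → g * u * g⁻¹ ≠ 1 := by
    intro g u hu h
    apply hu
    have h3 : g⁻¹ * (g * u * g⁻¹) * g = g⁻¹ * 1 * g := by rw [h]
    rw [show g⁻¹ * (g * u * g⁻¹) * g = u by group] at h3
    simpa using h3
  have h1 : Nat.card L₁ ≤ 3 * Nat.card ↥(L₁ ⊓ Subgroup.centralizer ({a} : Set G)) := by
    have h2 := card_le_card_mul L₁ a ({a, b, a * b} : Finset G) (by
      intro g hg
      simp only [Finset.mem_insert, Finset.mem_singleton]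
      rcases hJ₁.hset _ (hLW g hg a hJ₁.hw₁) with h | h | h | h
      · exact absurd h (hne hJ₁.hw₁1)
      · exact Or.inl h
      · exact Or.inr (Or.inl h)
      · exact Or.inr (Or.inr h))
    have h3 : ({a, b, a * b} : Finset G).card ≤ 3 := Finset.card_le_three
    exact h2.trans (Nat.mul_le_mul_right _ h3)
  have h2 : Nat.card ↥(L₁ ⊓ Subgroup.centralizer ({a} : Set G)) ≤
      2 * Nat.card ↥((L₁ ⊓ Subgroup.centralizer ({a} : Set G)) ⊓ Subgroup.centralizer ({b} : Set G)) := by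
    apply card_le_two_mul
    rintro g ⟨hg, hga⟩
    have hga' : g * a * g⁻¹ = a := by rw [Subgroup.mem_centralizer_singleton_iff.mp hga]; group
    rcases hJ₁.hset _ (hLW g hg b hJ₁.hw₂mem) with h | h | h | h
    · exact absurd h (hne hJ₁.hw₂1)
    · exfalso
      rw [← hga'] at h
      exact hJ₁.hw₁₂ (mul_left_cancel (mul_right_cancel h)).symm
    · exact Or.inl h
    · exact Or.inr h
  have h3 : (L₁ ⊓ Subgroup.centralizer ({a} : Set G)) ⊓ Subgroup.centralizer ({b} : Set G) ≤ Qof T K₁ := by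
    rintro m ⟨⟨hm, hma⟩, hmb⟩
    apply hCL m hm
    intro v hv
    have hma' := Subgroup.mem_centralizer_singleton_iff.mp hma
    have hmb' := Subgroup.mem_centralizer_singleton_iff.mp hmb
    rcases hJ₁.hset v hv with rfl | rfl | rfl | rfl
    · group
    · exact hma'
    · exact hmb'
    · calc m * (a * b) = (m * a) * b := by group
        _ = (a * m) * b := by rw [hma']
        _ = a * (m * b) := by group
        _ = a * (b * m) := by rw [hmb']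
        _ = a * b * m := by group
  have h4 := Subgroup.card_le_of_le h3
  have h5 := Cfsg.Agent.Lib.ExtraBasics.relIndex_mul_card (pCoreOf_le 2 (K₁ ⊔ T))
  rw [jcs_core_relIndex N.hJ₁ N.hTN₁ N.toTC.hsyl₁ N.hK₁.2.2.2.2.1,
    jcs_core_eq_Q N.hJ₁ N.hTN₁ N.toTC.hsyl₁ N.hK₁.2.2.2.2.1] at h5
  have h6 : Nat.card L₁ ≤ Nat.card ↥(K₁ ⊔ T) := by omega
  exact (Subgroup.eq_of_le_of_card_ge hPL h6).symm

/-- `L₁ = ⟨K₁, T⟩`. -/
theorem L_eq_sup (Z : ZNH G) : L₁ = K₁ ⊔ T := by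
  by_cases hex : ∃ c₁ ∈ hpl (thompsonSubgroupOf 2 T) K₁, c₁ ≠ 1
  · obtain ⟨c₁, hc, hc1⟩ := hex
    exact N.L_eq (fun g hg v hv => N.hLW_c hc hc1 Z hg hv) (fun m hm hmW => N.hCL_c hc hc1 hm hmW)
  · push Not at hex
    exact N.L_eq (fun g hg v hv => N.hLW_n hex hg hv) (fun m _ hmW => N.hCL_n hex hmW)

end TN

end Cfsg.Agent.Lib.FFG
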