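import Mathlib
import Cfsg.Agent.Lib.FFG30
import Cfsg.Agent.Lib.FFS4

/-!
# Failure of factorization at the level of the group, part 31: the isomorphism types
-/

set_option autoImplicit false
set_option linter.unusedSectionVars false

open Cfsg
open scoped commutatorElement

namespace Cfsg.Agent.Lib.FFG

open Cfsg.Agent.Lib.FFAct Cfsg.Agent.Lib.PCore Cfsg.Agent.Lib.JCompStruct Cfsg.Agent.Lib.ThompsonJ
open Cfsg.Agent.Lib.BGFit2

variable {G : Type*} [Group G] [Finite G]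

namespace TN

variable {T K₁ K₂ L₁ L₂ : Subgroup G} {k₁ a b k₂ c d e e₂ : G} (N : TN T K₁ K₂ L₁ L₂ k₁ a b k₂ c d e e₂) (Z : ZNH G)
include N Z

/-- The order of `L₁`. -/
theorem card_L : Nat.card L₁ = 12 * Nat.card (omegaCenterOf (thompsonSubgroupOf 2 T)) := by
  have h5 := Cfsg.Agent.Lib.ExtraBasics.relIndex_mul_card (pCoreOf_le 2 (K₁ ⊔ T))
  rw [jcs_core_relIndex N.hJ₁ N.hTN₁ N.toTC.hsyl₁ N.hK₁.2.2.2.2.1,
    jcs_core_eq_Q N.hJ₁ N.hTN₁ N.toTC.hsyl₁ N.hK₁.2.2.2.2.1, N.hcard_Q₁] at h5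
  rw [N.L_eq_sup Z, ← h5]
  ring

theorem hW_normal (hLW : ∀ g ∈ L₁, ∀ v ∈ wOf K₁, g * v * g⁻¹ ∈ wOf K₁) : ((wOf K₁).subgroupOf L₁).Normal := by
  constructor
  intro v hv g
  exact hLW g.1 g.2 v.1 hv

theorem hW_card : Nat.card ((wOf K₁).subgroupOf L₁) = 4 := by
  rw [card_subgroupOf' ((N.toTC.hWT₁).trans N.hLT₁.1.1)]
  exact N.hK₁.2.2.2.2.1

theorem hkL : k₁ ∈ L₁ := N.htop₁.K_le N.hJ₁.hkK

/-- The case of a trivial hyperplane. -/
theorem iso₁ (hH : ∀ z ∈ hpl (thompsonSubgroupOf 2 T) K₁, z = 1) : Nonempty (↥L₁ ≃* Equiv.Perm (Fin 4)) := by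
  haveI := N.hW_normal Z (fun g hg v hv => N.hLW_n hH hg hv)
  refine Cfsg.Agent.Lib.FFS4.iso_S4 ((wOf K₁).subgroupOf L₁) (N.hW_card Z) (k := ⟨k₁, N.hkL Z⟩) ?_ ?_ ?_ ?_ ?_
  · apply Subtype.ext
    exact N.hJ₁.hk3
  · intro h
    exact N.hJ₁.hk1 (congrArg Subtype.val h)
  · intro v hv h
    apply Subtype.ext
    exact N.hJ₁.hfpf v.1 hv (congrArg Subtype.val h)
  · intro x hx
    show x.1 ∈ wOf K₁
    apply N.hQ₁_W hH
    apply N.hCL_n hH
    intro v hv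
    have h1 := hx ⟨v, (N.toTC.hWT₁.trans N.hLT₁.1.1) hv⟩ hv
    exact congrArg Subtype.val h1
  · rw [N.card_L Z, Z₀_card_two N.hJ₁ hH]

/-- The case of a nontrivial hyperplane. -/
theorem iso₂ {c₁ : G} (hc : c₁ ∈ hpl (thompsonSubgroupOf 2 T) K₁) (hc1 : c₁ ≠ 1) :
    Nonempty (↥L₁ ≃* Equiv.Perm (Fin 4) × Multiplicative (ZMod 2)) := by
  classical
  haveI := N.hW_normal Z (fun g hg v hv => N.hLW_c hc hc1 Z hg hv)
  have hcZ := (mem_hpl.mp hc).1
  have hcT : c₁ ∈ T := N.toTC.hZT hcZ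
  have hcc : c₁ * c₁ = 1 := omega_sq hcZ
  have hcL : c₁ ∈ L₁ := N.hLT₁.1.1 hcT
  have hci : c₁⁻¹ = c₁ := omega_inv hcZ
  have hcent : ∀ t ∈ T, t * c₁ = c₁ * t := fun t ht => N.hcen t ht c₁ hcZ
  have he₂e₂ := N.he₂2
  have he₂i : e₂⁻¹ = e₂ := inv_eq_of_mul_eq_one_left he₂e₂
  -- the subgroup `T₀`
  set T₀ : Subgroup G := wOf K₁ ⊔ Subgroup.zpowers e₂ with hT₀
  have hzN : Subgroup.zpowers e₂ ≤ Subgroup.normalizer (wOf K₁ : Set G) := by
    rw [Subgroup.zpowers_le]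
    exact Cfsg.Agent.Lib.Subnormal.mem_normalizer_of_conj_mem _ _ (fun v hv => conj_mem_wOf (N.hTN₁ N.he₂T) hv)
  have hWT₀ : wOf K₁ ≤ T₀ := le_sup_left
  have he₂T₀ : e₂ ∈ T₀ := Subgroup.mem_sup_right (Subgroup.mem_zpowers e₂)
  have hQW : wOf K₁ ≤ Qof T K₁ := fun v hv => mem_Qof.mpr ⟨N.toTC.hWT₁ hv, fun w hw => wOf_comm hv hw⟩
  have hcn : c₁ ∉ T₀ := by
    intro hmem
    obtain ⟨v, hv, z, hz, he⟩ := mem_sup_of_le_normalizer hzN hmem
    have hz' : z = 1 ∨ z = e₂ := by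
      obtain ⟨m, rfl⟩ := Subgroup.mem_zpowers_iff.mp hz
      rcases Int.even_or_odd' m with ⟨n, rfl | rfl⟩
      · left
        rw [zpow_mul, zpow_two, he₂e₂, one_zpow]
      · right
        rw [zpow_add, zpow_mul, zpow_two, he₂e₂, one_zpow, one_mul, zpow_one]
    rcases hz' with rfl | rfl
    · rw [mul_one] at he
      apply hc1
      rw [he]
      apply N.hJ₁.hfpf v hv
      rw [← he, (mem_hpl.mp hc).2 k₁ N.hJ₁.hkK]
      group
    · apply N.he₂Q₁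
      have hvv : v * v = 1 := N.hJ₁.hWsq v hv
      have e1 : z = v * c₁ := by
        calc z = v * (v * z) := by rw [← mul_assoc, hvv, one_mul]
          _ = v * c₁ := by rw [he]
      rw [e1]
      exact Subgroup.mul_mem _ (hQW hv) (N.toTC.hZ₀Q₁ hcZ)
  have hcases : ∀ t ∈ T, t ∈ T₀ ∨ t * c₁ ∈ T₀ := by
    intro t ht
    have hfour : ∀ {q : G}, q ∈ Qof T K₁ → q ∈ T₀ ∨ q * c₁ ∈ T₀ := by
      intro q hq
      obtain ⟨v, hv, h | h⟩ := N.hQ₁_four hc hc1 hq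
      · left; rw [h]; exact hWT₀ hv
      · right
        have e5 : c₁ * v * c₁ = v := by
          calc c₁ * v * c₁ = c₁ * (v * c₁) := by group
            _ = c₁ * (c₁ * v) := by rw [hcent v (N.toTC.hWT₁ hv)]
            _ = (c₁ * c₁) * v := by group
            _ = v := by rw [hcc, one_mul]
        rw [h, e5]
        exact hWT₀ hv
    rcases N.hT_cases ht with h | h
    · exact hfour h
    · have e1 : t = (t * e₂) * e₂ := by rw [mul_assoc, he₂e₂, mul_one]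
      rcases hfour h with h1 | h1
      · left
        rw [e1]
        exact T₀.mul_mem h1 he₂T₀
      · right
        have e3 : t * c₁ = (t * e₂) * c₁ * e₂ := by
          calc t * c₁ = (t * e₂) * e₂ * c₁ := by rw [← e1]
            _ = (t * e₂) * (e₂ * c₁) := by group
            _ = (t * e₂) * (c₁ * e₂) := by rw [hcent e₂ N.he₂T]
            _ = (t * e₂) * c₁ * e₂ := by group
        rw [e3]
        exact T₀.mul_mem h1 he₂T₀
  -- the character of `T`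
  set H : Subgroup ↥L₁ := T.subgroupOf L₁ with hH
  let φf : H → Multiplicative (ZMod 2) := fun t => if (t.1.1 : G) ∈ T₀ then 1 else Multiplicative.ofAdd 1
  have hnot1 : Multiplicative.ofAdd (1 : ZMod 2) ≠ 1 := by decide
  have hsq1 : Multiplicative.ofAdd (1 : ZMod 2) * Multiplicative.ofAdd (1 : ZMod 2) = 1 := by decide
  have hφmul : ∀ x y : H, φf (x * y) = φf x * φf y := by
    intro x y
    have hx : (x.1.1 : G) ∈ T := x.2
    have hy : (y.1.1 : G) ∈ T := y.2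
    have hxy : ((x * y : H).1.1 : G) = x.1.1 * y.1.1 := rfl
    simp only [φf]
    rw [hxy]
    by_cases h1 : (x.1.1 : G) ∈ T₀ <;> by_cases h2 : (y.1.1 : G) ∈ T₀
    · rw [if_pos h1, if_pos h2, if_pos (T₀.mul_mem h1 h2), one_mul]
    · rw [if_pos h1, if_neg h2, if_neg (fun h => h2 ((T₀.mul_mem_cancel_left h1).mp h)), one_mul]
    · rw [if_neg h1, if_pos h2, if_neg (fun h => h1 ((T₀.mul_mem_cancel_right h2).mp h)), mul_one]
    · rw [if_neg h1, if_neg h2, hsq1, if_pos]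
      have h3 := (hcases _ hx).resolve_left h1
      have h4 := (hcases _ hy).resolve_left h2
      have h5 := T₀.mul_mem h3 h4
      have e1 : x.1.1 * c₁ * (y.1.1 * c₁) = x.1.1 * y.1.1 := by
        calc x.1.1 * c₁ * (y.1.1 * c₁) = x.1.1 * (c₁ * y.1.1) * c₁ := by group
          _ = x.1.1 * (y.1.1 * c₁) * c₁ := by rw [hcent _ hy]
          _ = x.1.1 * y.1.1 * (c₁ * c₁) := by group
          _ = x.1.1 * y.1.1 := by rw [hcc, mul_one]
      rwa [e1] at h5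
  let φ : H →* Multiplicative (ZMod 2) := MonoidHom.mk' φf hφmul
  haveI : H.FiniteIndex := inferInstance
  let χ : ↥L₁ →* Multiplicative (ZMod 2) := φ.transfer
  let c' : ↥L₁ := ⟨c₁, hcL⟩
  have hc'central : ∀ x : ↥L₁, c' * x = x * c' := by
    intro x
    apply Subtype.ext
    show c₁ * x.1 = x.1 * c₁
    exact (mul_inv_eq_iff_eq_mul.mp (N.fix_c₁ hc hc1 x.2)).symm
  have hidx : H.index = 3 := by
    have h1 : H.index = T.relIndex L₁ := rfl
    rw [h1, N.L_eq_sup Z]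
    exact jcs_relIndex_T N.hJ₁ N.hTN₁ N.toTC.hsyl₁
  have hχ : χ c' ≠ 1 := by
    have key : ∀ (m : ℕ) (g₀ : ↥L₁), g₀⁻¹ * c' ^ m * g₀ ∈ H → g₀⁻¹ * c' ^ m * g₀ = c' ^ m := by
      intro m g₀ _
      have h1 : Commute c' g₀ := hc'central g₀
      have h2 : c' ^ m * g₀ = g₀ * c' ^ m := (h1.pow_left m).eq
      rw [mul_assoc, h2]
      group
    have h1 : χ c' = φ ⟨c' ^ H.index, MonoidHom.transfer_eq_pow_aux c' key⟩ := MonoidHom.transfer_eq_pow φ c' key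
    rw [h1]
    have h2 : ((⟨c' ^ H.index, MonoidHom.transfer_eq_pow_aux c' key⟩ : H).1.1 : G) = c₁ := by
      show (c' ^ H.index : ↥L₁).1 = c₁
      rw [hidx]
      show c₁ ^ 3 = c₁
      calc c₁ ^ 3 = (c₁ * c₁) * c₁ := by simp [pow_succ]
        _ = c₁ := by rw [hcc, one_mul]
    show φf _ ≠ 1
    simp only [φf]
    rw [h2, if_neg hcn]
    exact hnot1
  refine Cfsg.Agent.Lib.FFS4.iso_S4Z2 ((wOf K₁).subgroupOf L₁) (N.hW_card Z) (k := ⟨k₁, N.hkL Z⟩) (c := c') ?_ ?_ ?_ hc'central ?_ ?_ ?_ ?_ χ hχ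
  · apply Subtype.ext
    exact N.hJ₁.hk3
  · intro h
    exact N.hJ₁.hk1 (congrArg Subtype.val h)
  · intro v hv h
    apply Subtype.ext
    exact N.hJ₁.hfpf v.1 hv (congrArg Subtype.val h)
  · apply Subtype.ext
    exact hcc
  · intro hmem
    exact hcn (hWT₀ hmem)
  · intro x hx
    have h1 : x.1 ∈ Qof T K₁ := by
      apply N.hCL_c hc hc1 x.2
      intro v hv
      have h1 := hx ⟨v, (N.toTC.hWT₁.trans N.hLT₁.1.1) hv⟩ hv
      exact congrArg Subtype.val h1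
    obtain ⟨v, hv, h | h⟩ := N.hQ₁_four hc hc1 h1
    · left
      show x.1 ∈ wOf K₁
      rw [h]; exact hv
    · right
      show x.1 * c₁ ∈ wOf K₁
      have e5 : c₁ * v * c₁ = v := by
        calc c₁ * v * c₁ = c₁ * (v * c₁) := by group
          _ = c₁ * (c₁ * v) := by rw [hcent v (N.toTC.hWT₁ hv)]
          _ = (c₁ * c₁) * v := by group
          _ = v := by rw [hcc, one_mul]
      rw [h, e5]
      exact hv
  · rw [N.card_L Z, Z₀_card_four N.hJ₁ hc hc1 (N.hH hc hc1)]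

end TN

end Cfsg.Agent.Lib.FFG
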