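import Mathlib
import Cfsg.Agent.Lib.FFG31

/-!
# Failure of factorization at the level of the group, part 32: `W₁` and `W₂` do not commute when `T = S`, the first cases
-/

set_option autoImplicit false
set_option linter.unusedSectionVars false

open Cfsg
open scoped commutatorElement

namespace Cfsg.Agent.Lib.FFG

open Cfsg.Agent.Lib.FFAct Cfsg.Agent.Lib.PCore Cfsg.Agent.Lib.JCompStruct Cfsg.Agent.Lib.ThompsonJ
open Cfsg.Agent.Lib.BGFit2

variable {G : Type*} [Group G] [Finite G]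

/-- The elementary abelian count, non-central case. -/
theorem nt_false' {T A Q W₂ : Subgroup G} {k a e c y q₀ d : G}
    (hA : MaxEA T A) (haA : a ∈ A) (hQT : Q ≤ T)
    (hk3 : k ^ 3 = 1) (hkQ : ∀ q ∈ Q, k * q * k⁻¹ ∈ Q)
    (hak : a * k * a⁻¹ * k ∈ Q)
    (hkW : ∀ u ∈ W₂, k * u * k⁻¹ ∈ W₂) (hQW : ∀ q ∈ Q, ∀ u ∈ W₂, q * u = u * q)
    (hW2 : ∀ u ∈ W₂, u * u = 1)
    (hcW : c ∈ W₂) (hc1 : c ≠ 1) (hkc : k * c * k⁻¹ ≠ c)
    (heQ : e ∈ Q) (he2 : e * e = 1)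
    (hTe : ∀ t ∈ T, t * e * t⁻¹ = e ∨ t * e * t⁻¹ = c * e) (hTc : ∀ t ∈ T, t * c * t⁻¹ = c)
    (hyW : y ∈ W₂) (hyT : y ∈ T) (hdW : d ∈ W₂) (hd1 : d ≠ 1) (hay : a * y * a⁻¹ = d * y)
    (hQy : ∀ t ∈ T, t * y * t⁻¹ = y → t ∈ Q)
    (hTy : ∀ t ∈ T, t * y * t⁻¹ = y ∨ t * y * t⁻¹ = d * y)
    (hq₀ : q₀ ∈ Q) (hq₀e : q₀ * e * q₀⁻¹ ≠ e) : False := by
  classical
  have hc2 : c * c = 1 := hW2 c hcW
  have hy2 : y * y = 1 := hW2 y hyW
  have hd2 : d * d = 1 := hW2 d hdW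
  have hWc : ∀ u ∈ W₂, ∀ v ∈ W₂, u * v = v * u := by
    intro u hu v hv
    have h1 := hW2 u hu
    have h2 := hW2 v hv
    have h3 := hW2 (u * v) (W₂.mul_mem hu hv)
    have hui : u⁻¹ = u := inv_eq_of_mul_eq_one_left h1
    have hvi : v⁻¹ = v := inv_eq_of_mul_eq_one_left h2
    have h4 : (u * v)⁻¹ = u * v := inv_eq_of_mul_eq_one_left h3
    rw [mul_inv_rev, hui, hvi] at h4
    exact h4.symm
  have hk3' : k * k * k = 1 := by
    have : k ^ 3 = k * k * k := by simp [pow_succ]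
    rw [← this, hk3]
  have hki : k⁻¹ = k * k := inv_eq_of_mul_eq_one_left hk3'
  have haT : a ∈ T := hA.1 haA
  have hkQ' : ∀ q ∈ Q, k⁻¹ * q * k ∈ Q := by
    intro q hq
    have h1 := hkQ _ (hkQ q hq)
    rwa [cube_conj hk3'] at h1
  have hkW' : ∀ u ∈ W₂, k⁻¹ * u * k ∈ W₂ := by
    intro u hu
    have h1 := hkW _ (hkW u hu)
    rwa [cube_conj hk3'] at h1
  set e₁ : G := k * e * k⁻¹ with he₁
  set e₂ : G := k⁻¹ * e * k with he₂
  set c₁ : G := k * c * k⁻¹ with hc₁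
  set c₂ : G := k⁻¹ * c * k with hc₂
  have he₁Q : e₁ ∈ Q := hkQ e heQ
  have he₂Q : e₂ ∈ Q := hkQ' e heQ
  have he₁2 : e₁ * e₁ = 1 := by
    rw [he₁]
    calc k * e * k⁻¹ * (k * e * k⁻¹) = k * (e * e) * k⁻¹ := by group
      _ = 1 := by rw [he2]; group
  have he₂2 : e₂ * e₂ = 1 := by
    rw [he₂]
    calc k⁻¹ * e * k * (k⁻¹ * e * k) = k⁻¹ * (e * e) * k := by group
      _ = 1 := by rw [he2]; group
  have hc₁W : c₁ ∈ W₂ := hkW c hcW
  have hc₂W : c₂ ∈ W₂ := hkW' c hcW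
  have hc₂c : c₂ ≠ c := by
    intro h
    apply hkc
    have h1 : k * c₂ * k⁻¹ = c := by rw [hc₂]; group
    rw [h] at h1
    exact h1
  have hc₁c₂ : c₁ ≠ c₂ := by
    intro h
    apply hkc
    have h1 : k⁻¹ * c₁ * k = k⁻¹ * c₂ * k := by rw [h]
    have h2 : k⁻¹ * c₁ * k = c := by rw [hc₁]; group
    have h3 : k⁻¹ * c₂ * k = k * c * k⁻¹ := by
      rw [hc₂, cube_conj' hk3']
    rw [h2, h3] at h1
    exact h1.symm
  have hQ₁ : ∀ t ∈ Q, t * e₁ * t⁻¹ = e₁ ∨ t * e₁ * t⁻¹ = c₁ * e₁ := by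
    intro t ht
    have h1 := hTe _ (hQT (hkQ' t ht))
    have e1 : t * e₁ * t⁻¹ = k * ((k⁻¹ * t * k) * e * (k⁻¹ * t * k)⁻¹) * k⁻¹ := by rw [he₁]; group
    rw [e1]
    rcases h1 with h1 | h1
    · left; rw [h1]
    · right; rw [h1, hc₁, he₁]; group
  have hQ₂ : ∀ t ∈ Q, t * e₂ * t⁻¹ = e₂ ∨ t * e₂ * t⁻¹ = c₂ * e₂ := by
    intro t ht
    have h1 := hTe _ (hQT (hkQ t ht))
    have e1 : t * e₂ * t⁻¹ = k⁻¹ * ((k * t * k⁻¹) * e * (k * t * k⁻¹)⁻¹) * k := by rw [he₂]; group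
    rw [e1]
    rcases h1 with h1 | h1
    · left; rw [h1]
    · right; rw [h1, hc₂, he₂]; group
  -- commuting
  have hcomm_of : ∀ {u v cu cv : G}, (u * v * u⁻¹ = v ∨ u * v * u⁻¹ = cv * v) → (v * u * v⁻¹ = u ∨ v * u * v⁻¹ = cu * u) →
      cu * cu = 1 → cu ≠ cv → u * v = v * u := by
    intro u v cu cv h1 h2 h3 h4
    by_contra hne
    have h5 : u * v * u⁻¹ = cv * v := by
      rcases h1 with h1 | h1
      · exfalso
        apply hne
        rw [mul_inv_eq_iff_eq_mul] at h1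
        exact h1
      · exact h1
    have h6 : v * u * v⁻¹ = cu * u := by
      rcases h2 with h2 | h2
      · exfalso
        apply hne
        rw [mul_inv_eq_iff_eq_mul] at h2
        exact h2.symm
      · exact h2
    apply h4
    have h7 : cv = u * v * u⁻¹ * v⁻¹ := by rw [h5]; group
    have h8 : cu = v * u * v⁻¹ * u⁻¹ := by rw [h6]; group
    have h9 : cu⁻¹ = cu := inv_eq_of_mul_eq_one_left h3
    rw [h7, ← h9, h8]
    group
  have h01 : e * e₁ = e₁ * e :=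
    hcomm_of (cu := c) (cv := c₁) (hQ₁ e heQ) (hTe e₁ (hQT he₁Q)) hc2 (Ne.symm hkc)
  have h02 : e * e₂ = e₂ * e :=
    hcomm_of (cu := c) (cv := c₂) (hQ₂ e heQ) (hTe e₂ (hQT he₂Q)) hc2 (Ne.symm hc₂c)
  have h12 : e₁ * e₂ = e₂ * e₁ := by
    have e1 : k * e₁ * k⁻¹ = e₂ := cube_conj hk3' e
    have h1 : k * (e * e₁) * k⁻¹ = k * (e₁ * e) * k⁻¹ := by rw [h01]
    have e3 : k * (e * e₁) * k⁻¹ = e₁ * e₂ := by
      rw [← e1, he₁]; group
    have e4 : k * (e₁ * e) * k⁻¹ = e₂ * e₁ := by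
      rw [← e1, he₁]; group
    rw [e3, e4] at h1
    exact h1
  -- the elements `y`
  have hye : ∀ q ∈ Q, y * q = q * y := fun q hq => (hQW q hq y hyW).symm
  -- `F2`
  have hF2 : e₁ * e₂ ∉ W₂ := by
    intro hmem
    have h1 : k * (e₁ * e₂) * k⁻¹ ∈ W₂ := hkW _ hmem
    have e1 : k * (e₁ * e₂) * k⁻¹ = e₂ * e := by
      have e3 : k * e₁ * k⁻¹ = e₂ := cube_conj hk3' e
      have e4 : k * e₂ * k⁻¹ = e := by rw [he₂]; group
      calc k * (e₁ * e₂) * k⁻¹ = (k * e₁ * k⁻¹) * (k * e₂ * k⁻¹) := by group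
        _ = e₂ * e := by rw [e3, e4]
    rw [e1] at h1
    have h2 : (e₁ * e₂) * (e₂ * e) ∈ W₂ := W₂.mul_mem hmem h1
    have e2 : (e₁ * e₂) * (e₂ * e) = e₁ * e := by
      calc (e₁ * e₂) * (e₂ * e) = e₁ * (e₂ * e₂) * e := by group
        _ = e₁ * e := by rw [he₂2]; group
    rw [e2] at h2
    -- `q₀`
    have h3 := hQW q₀ hq₀ _ h2
    have h4 : q₀ * (e₁ * e) * q₀⁻¹ = e₁ * e := by
      rw [h3]; group
    have h5 : q₀ * e * q₀⁻¹ = c * e := by
      rcases hTe q₀ (hQT hq₀) with h | h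
      · exact absurd h hq₀e
      · exact h
    have e3 : q₀ * (e₁ * e) * q₀⁻¹ = (q₀ * e₁ * q₀⁻¹) * (q₀ * e * q₀⁻¹) := by group
    rw [e3, h5] at h4
    have hce : c * e₁ = e₁ * c := (hQW e₁ he₁Q c hcW).symm
    rcases hQ₁ q₀ hq₀ with h | h
    · rw [h] at h4
      apply hc1
      have : e₁ * (c * e) = c * (e₁ * e) := by
        calc e₁ * (c * e) = (e₁ * c) * e := by group
          _ = (c * e₁) * e := by rw [hce]
          _ = c * (e₁ * e) := by group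
      rw [this] at h4
      exact mul_eq_right.mp h4
    · rw [h] at h4
      apply hkc
      have : c₁ * e₁ * (c * e) = (c₁ * c) * (e₁ * e) := by
        calc c₁ * e₁ * (c * e) = c₁ * (e₁ * c) * e := by group
          _ = c₁ * (c * e₁) * e := by rw [hce]
          _ = (c₁ * c) * (e₁ * e) := by group
      rw [this] at h4
      have h6 : c₁ * c = 1 := mul_eq_right.mp h4
      have h7 : c⁻¹ = c := inv_eq_of_mul_eq_one_left hc2
      rw [← h7]
      exact eq_inv_of_mul_eq_one_left h6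
  -- the action of `a`
  set r : G := a * k * a⁻¹ * k with hr
  have hrQ : r ∈ Q := hak
  have ha_k : a * k * a⁻¹ = r * k⁻¹ := by rw [hr]; group
  have hc₂c₂ : c₂ * c₂ = 1 := hW2 c₂ hc₂W
  have ha_e₁ : a * e₁ * a⁻¹ = e₂ ∨ a * e₁ * a⁻¹ = c₂ * e₂ := by
    have e1 : a * e₁ * a⁻¹ = r * (k⁻¹ * (a * e * a⁻¹) * k) * r⁻¹ := by
      have : a * e₁ * a⁻¹ = (a * k * a⁻¹) * (a * e * a⁻¹) * (a * k * a⁻¹)⁻¹ := by rw [he₁]; group
      rw [this, ha_k]; group
    rw [e1]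
    have hc₂r : r * c₂ * r⁻¹ = c₂ := by rw [hQW r hrQ c₂ hc₂W]; group
    rcases hTe a haT with h | h
    · rw [h]
      exact hQ₂ r hrQ
    · rw [h]
      have e2 : k⁻¹ * (c * e) * k = c₂ * e₂ := by rw [hc₂, he₂]; group
      rw [e2]
      have e3 : r * (c₂ * e₂) * r⁻¹ = (r * c₂ * r⁻¹) * (r * e₂ * r⁻¹) := by group
      rw [e3, hc₂r]
      rcases hQ₂ r hrQ with h2 | h2
      · right; rw [h2]
      · left; rw [h2, ← mul_assoc, hc₂c₂, one_mul]
  -- `A₀`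
  set A₀ : Subgroup G := A ⊓ Subgroup.centralizer ({y} : Set G) with hA₀
  have hAea : IsElementaryAbelian 2 A := hA.2.1
  have hcard₀ : Nat.card A ≤ 2 * Nat.card A₀ := card_le_two_mul A y (d * y) (fun t ht => hTy t (hA.1 ht))
  have hA₀A : A₀ ≤ A := inf_le_left
  have hA₀y : A₀ ≤ Subgroup.centralizer ({y} : Set G) := inf_le_right
  have hconj_of : ∀ {q u : G}, q ∈ Subgroup.centralizer ({u} : Set G) → q * u * q⁻¹ = u := by
    intro q u h
    rw [Subgroup.mem_centralizer_singleton_iff.mp h]; group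
  have hA₀Q : ∀ q ∈ A₀, q ∈ Q := fun q hq => hQy q (hA.1 hq.1) (hconj_of hq.2)
  have hAc : ∀ b ∈ A, ∀ b' ∈ A, b * b' = b' * b := fun b hb b' hb' => Cfsg.Agent.Lib.ThompsonJ.ea_comm hAea hb hb'
  have hmemC : ∀ {q u : G}, q * u * q⁻¹ = u → q ∈ Subgroup.centralizer ({u} : Set G) := by
    intro q u h
    rw [Subgroup.mem_centralizer_singleton_iff]
    rwa [mul_inv_eq_iff_eq_mul] at h
  -- equivalence for `e₁`, `e₂`
  have hq12 : ∀ q ∈ A₀, (q * e₁ * q⁻¹ = e₁ ↔ q * e₂ * q⁻¹ = e₂) := by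
    intro q hq
    have hqa : q * a = a * q := hAc q hq.1 a haA
    have hqQ := hA₀Q q hq
    have hqc : q * c₂ * q⁻¹ = c₂ := by rw [hQW q hqQ c₂ hc₂W]; group
    have hconj : q * (a * e₁ * a⁻¹) * q⁻¹ = a * (q * e₁ * q⁻¹) * a⁻¹ := by
      have h1 : q⁻¹ * a⁻¹ = a⁻¹ * q⁻¹ := by
        rw [← mul_inv_rev, ← mul_inv_rev, hqa]
      calc q * (a * e₁ * a⁻¹) * q⁻¹ = (q * a) * e₁ * (a⁻¹ * q⁻¹) := by group
        _ = (a * q) * e₁ * (q⁻¹ * a⁻¹) := by rw [hqa, h1]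
        _ = a * (q * e₁ * q⁻¹) * a⁻¹ := by group
    constructor
    · intro h
      rw [h] at hconj
      rcases ha_e₁ with h2 | h2
      · rwa [h2] at hconj
      · rw [h2] at hconj
        have e3 : q * (c₂ * e₂) * q⁻¹ = (q * c₂ * q⁻¹) * (q * e₂ * q⁻¹) := by group
        rw [e3, hqc] at hconj
        exact mul_left_cancel hconj
    · intro h
      have h3 : q * (a * e₁ * a⁻¹) * q⁻¹ = a * e₁ * a⁻¹ := by
        rcases ha_e₁ with h2 | h2
        · rw [h2]; exact h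
        · rw [h2]
          have e3 : q * (c₂ * e₂) * q⁻¹ = (q * c₂ * q⁻¹) * (q * e₂ * q⁻¹) := by group
          rw [e3, hqc, h]
      rw [hconj] at h3
      have h4 := mul_right_cancel h3
      exact mul_left_cancel h4
  -- `y` is not in `B`
  have hyn : ∀ B : Subgroup G, B ≤ A → y ∉ B := by
    intro B hB hy
    have h1 := hAc y (hB hy) a haA
    have h2 : a * y * a⁻¹ = y := by rw [← h1]; group
    rw [hay] at h2
    exact hd1 (mul_eq_right.mp h2)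
  -- `e₁` is not in `B ⟨y⟩` by `a`
  have hF : ∀ B : Subgroup G, B ≤ A₀ → e₁ ∉ B ⊔ Subgroup.zpowers y := by
    intro B hB hmem
    have hBy : ∀ b ∈ B, b * y = y * b := fun b hb => Subgroup.mem_centralizer_singleton_iff.mp (hA₀y (hB hb))
    have hE : ∀ E, (E = e₂ ∨ E = c₂ * e₂) → (E = e₁ ∨ E = d * e₁) → False := by
      intro E h1 h2
      apply hF2
      rcases h1 with h1 | h1 <;> rcases h2 with h2 | h2
      · have : e₁ = e₂ := h2.symm.trans h1
        rw [this, he₂2]; exact W₂.one_mem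
      · have : e₁ = d * e₂ := by rw [← h1, h2, ← mul_assoc, hd2, one_mul]
        rw [this]
        have e3 : d * e₂ * e₂ = d * (e₂ * e₂) := by group
        rw [e3, he₂2, mul_one]
        exact hdW
      · have : e₁ = c₂ * e₂ := h2.symm.trans h1
        rw [this]
        have e3 : c₂ * e₂ * e₂ = c₂ * (e₂ * e₂) := by group
        rw [e3, he₂2, mul_one]
        exact hc₂W
      · have : e₁ = d * (c₂ * e₂) := by rw [← h1, h2, ← mul_assoc, hd2, one_mul]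
        rw [this]
        have e3 : d * (c₂ * e₂) * e₂ = d * c₂ * (e₂ * e₂) := by group
        rw [e3, he₂2, mul_one]
        exact W₂.mul_mem hdW hc₂W
    rcases mem_sup_zpowers hy2 hBy hmem with hb | ⟨b, hb, hbe⟩
    · refine hE (a * e₁ * a⁻¹) ha_e₁ (Or.inl ?_)
      have h1 := hAc e₁ (hA₀A (hB hb)) a haA
      rw [← h1]; group
    · refine hE (a * e₁ * a⁻¹) ha_e₁ (Or.inr ?_)
      have h1 := hAc b (hA₀A (hB hb)) a haA
      have hbQ := hA₀Q b (hB hb)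
      have h2 := hQW b hbQ d hdW
      rw [hbe]
      calc a * (b * y) * a⁻¹ = (a * b) * y * a⁻¹ := by group
        _ = (b * a) * y * a⁻¹ := by rw [h1]
        _ = b * (a * y * a⁻¹) := by group
        _ = b * (d * y) := by rw [hay]
        _ = (b * d) * y := by group
        _ = (d * b) * y := by rw [h2]
        _ = d * (b * y) := by group
  have hCc : ∀ {q u : G}, q * u * q⁻¹ = u → u * q = q * u := by
    intro q u h
    rw [mul_inv_eq_iff_eq_mul] at h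
    exact h.symm
  have hey : e * y = y * e := hQW e heQ y hyW
  have he₁y : e₁ * y = y * e₁ := hQW e₁ he₁Q y hyW
  have he₂y : e₂ * y = y * e₂ := hQW e₂ he₂Q y hyW
  have hpos : 0 < Nat.card A₀ := Nat.card_pos
  by_cases h₁ : A₀ ≤ Subgroup.centralizer ({e₁} : Set G)
  · by_cases h₀ : A₀ ≤ Subgroup.centralizer ({e} : Set G)
    · -- chain `y, e₁`
      obtain ⟨h1a, h1b, h1c⟩ := ea_step (B := A₀) (u := y) (T := T) (ea_mono hAea hA₀A) (hA₀A.trans hA.1) hyT hy2 hA₀y (hyn _ hA₀A)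
      obtain ⟨h2a, h2b, h2c⟩ := ea_step (B := A₀ ⊔ Subgroup.zpowers y) (u := e₁) (T := T) h1a h1b (hQT he₁Q) he₁2
        (sup_zpowers_le_centralizer h₁ he₁y.symm) (hF A₀ le_rfl)
      have h3 := hA.2.2 _ h2b h2a
      omega
    · obtain ⟨q₁, hq₁, hq₁e⟩ := SetLike.not_le_iff_exists.mp h₀
      set B : Subgroup G := A₀ ⊓ Subgroup.centralizer ({e} : Set G) with hB
      have hBA₀ : B ≤ A₀ := inf_le_left
      have hcardB : Nat.card A₀ ≤ 2 * Nat.card B :=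
        card_le_two_mul A₀ e (c * e) (fun t ht => hTe t (hA.1 ht.1))
      obtain ⟨h1a, h1b, h1c⟩ := ea_step (B := B) (u := y) (T := T) (ea_mono hAea (hBA₀.trans hA₀A)) ((hBA₀.trans hA₀A).trans hA.1) hyT hy2 (hBA₀.trans hA₀y) (hyn _ (hBA₀.trans hA₀A))
      obtain ⟨h2a, h2b, h2c⟩ := ea_step (B := B ⊔ Subgroup.zpowers y) (u := e₁) (T := T) h1a h1b (hQT he₁Q) he₁2
        (sup_zpowers_le_centralizer (hBA₀.trans h₁) he₁y.symm) (hF B hBA₀)
      have hBq : B ≤ Subgroup.centralizer ({q₁} : Set G) := by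
        intro b hb
        exact Subgroup.mem_centralizer_singleton_iff.mpr (hAc b (hA₀A (hBA₀ hb)) q₁ hq₁.1)
      have hyq : y * q₁ = q₁ * y := (Subgroup.mem_centralizer_singleton_iff.mp hq₁.2).symm
      have he₁q : e₁ * q₁ = q₁ * e₁ := (Subgroup.mem_centralizer_singleton_iff.mp (h₁ hq₁)).symm
      have hn : e ∉ (B ⊔ Subgroup.zpowers y) ⊔ Subgroup.zpowers e₁ := by
        intro hmem
        have hle := sup_zpowers_le_centralizer (sup_zpowers_le_centralizer hBq hyq) he₁q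
        have h5 := Subgroup.mem_centralizer_singleton_iff.mp (hle hmem)
        exact hq₁e (Subgroup.mem_centralizer_singleton_iff.mpr h5.symm)
      obtain ⟨h3a, h3b, h3c⟩ := ea_step (B := (B ⊔ Subgroup.zpowers y) ⊔ Subgroup.zpowers e₁) (u := e) (T := T) h2a h2b (hQT heQ) he2
        (sup_zpowers_le_centralizer (sup_zpowers_le_centralizer inf_le_right hey.symm) h01.symm) hn
      have h3 := hA.2.2 _ h3b h3a
      have hposB : 0 < Nat.card B := Nat.card_pos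
      omega
  · obtain ⟨q, hq, hqe₁⟩ := SetLike.not_le_iff_exists.mp h₁
    have hqQ := hA₀Q q hq
    have hqe₁' : q * e₁ * q⁻¹ ≠ e₁ := fun h => hqe₁ (hmemC h)
    have hqe₂' : q * e₂ * q⁻¹ ≠ e₂ := fun h => hqe₁' ((hq12 q hq).mpr h)
    have hqe₁c : q * e₁ * q⁻¹ = c₁ * e₁ := (hQ₁ q hqQ).resolve_left hqe₁'
    have hqe₂c : q * e₂ * q⁻¹ = c₂ * e₂ := (hQ₂ q hqQ).resolve_left hqe₂'
    set A₁ : Subgroup G := A₀ ⊓ Subgroup.centralizer ({e₁} : Set G) with hA₁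
    have hA₁A₀ : A₁ ≤ A₀ := inf_le_left
    have hcardA₁ : Nat.card A₀ ≤ 2 * Nat.card A₁ :=
      card_le_two_mul A₀ e₁ (c₁ * e₁) (fun t ht => hQ₁ t (hA₀Q t ht))
    have hA₁e₁ : A₁ ≤ Subgroup.centralizer ({e₁} : Set G) := inf_le_right
    have hA₁e₂ : A₁ ≤ Subgroup.centralizer ({e₂} : Set G) := by
      intro b hb
      exact hmemC ((hq12 b hb.1).mp (hconj_of hb.2))
    have hchain : ∀ B : Subgroup G, B ≤ A₁ →
        IsElementaryAbelian 2 ((B ⊔ Subgroup.zpowers y) ⊔ Subgroup.zpowers e₁ ⊔ Subgroup.zpowers e₂) ∧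
        (B ⊔ Subgroup.zpowers y) ⊔ Subgroup.zpowers e₁ ⊔ Subgroup.zpowers e₂ ≤ T ∧
        8 * Nat.card B ≤ Nat.card ↥((B ⊔ Subgroup.zpowers y) ⊔ Subgroup.zpowers e₁ ⊔ Subgroup.zpowers e₂) := by
      intro B hBA₁
      have hBA₀ : B ≤ A₀ := hBA₁.trans hA₁A₀
      have hBA : B ≤ A := hBA₀.trans hA₀A
      obtain ⟨h1a, h1b, h1c⟩ := ea_step (B := B) (u := y) (T := T) (ea_mono hAea hBA) (hBA.trans hA.1) hyT hy2 (hBA₀.trans hA₀y) (hyn _ hBA)
      have hBq : B ≤ Subgroup.centralizer ({q} : Set G) := by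
        intro b hb
        exact Subgroup.mem_centralizer_singleton_iff.mpr (hAc b (hBA hb) q hq.1)
      have hyq : y * q = q * y := (Subgroup.mem_centralizer_singleton_iff.mp hq.2).symm
      have hB₁q := sup_zpowers_le_centralizer hBq hyq
      have hne₁ : e₁ ∉ B ⊔ Subgroup.zpowers y := by
        intro hmem
        have h5 := Subgroup.mem_centralizer_singleton_iff.mp (hB₁q hmem)
        exact hqe₁ (Subgroup.mem_centralizer_singleton_iff.mpr h5.symm)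
      obtain ⟨h2a, h2b, h2c⟩ := ea_step (B := B ⊔ Subgroup.zpowers y) (u := e₁) (T := T) h1a h1b (hQT he₁Q) he₁2
        (sup_zpowers_le_centralizer (hBA₁.trans hA₁e₁) he₁y.symm) hne₁
      have hne₂ : e₂ ∉ (B ⊔ Subgroup.zpowers y) ⊔ Subgroup.zpowers e₁ := by
        intro hmem
        have hce₁ : ∀ b ∈ B ⊔ Subgroup.zpowers y, b * e₁ = e₁ * b := by
          intro b hb
          have h5 := sup_zpowers_le_centralizer (hBA₁.trans hA₁e₁) he₁y.symm hb
          exact Subgroup.mem_centralizer_singleton_iff.mp h5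
        rcases mem_sup_zpowers he₁2 hce₁ hmem with hb | ⟨b, hb, hbe⟩
        · have h5 := Subgroup.mem_centralizer_singleton_iff.mp (hB₁q hb)
          apply hqe₂'
          rw [← h5]; group
        · have h5 := Subgroup.mem_centralizer_singleton_iff.mp (hB₁q hb)
          have hB₁c₁ : B ⊔ Subgroup.zpowers y ≤ Subgroup.centralizer ({c₁} : Set G) := by
            apply sup_zpowers_le_centralizer
            · intro b' hb'
              exact Subgroup.mem_centralizer_singleton_iff.mpr (hQW b' (hA₀Q b' (hBA₀ hb')) c₁ hc₁W)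
            · exact hWc y hyW c₁ hc₁W
          have h6 := Subgroup.mem_centralizer_singleton_iff.mp (hB₁c₁ hb)
          have h7 : q * e₂ * q⁻¹ = c₁ * e₂ := by
            have e4 : q * b * q⁻¹ = b := by rw [← h5]; group
            calc q * e₂ * q⁻¹ = q * (b * e₁) * q⁻¹ := by rw [← hbe]
              _ = (q * b * q⁻¹) * (q * e₁ * q⁻¹) := by group
              _ = b * (c₁ * e₁) := by rw [e4, hqe₁c]
              _ = (b * c₁) * e₁ := by group
              _ = (c₁ * b) * e₁ := by rw [h6]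
              _ = c₁ * (b * e₁) := by group
              _ = c₁ * e₂ := by rw [← hbe]
          rw [hqe₂c] at h7
          exact hc₁c₂ (mul_right_cancel h7).symm
      obtain ⟨h3a, h3b, h3c⟩ := ea_step (B := (B ⊔ Subgroup.zpowers y) ⊔ Subgroup.zpowers e₁) (u := e₂) (T := T) h2a h2b (hQT he₂Q) he₂2
        (sup_zpowers_le_centralizer (sup_zpowers_le_centralizer (hBA₁.trans hA₁e₂) he₂y.symm) h12) hne₂
      exact ⟨h3a, h3b, by omega⟩
    by_cases h₀ : A₁ ≤ Subgroup.centralizer ({e} : Set G)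
    · obtain ⟨h3a, h3b, h3c⟩ := hchain A₁ le_rfl
      have h3 := hA.2.2 _ h3b h3a
      have hposB : 0 < Nat.card A₁ := Nat.card_pos
      omega
    · obtain ⟨q₁, hq₁, hq₁e⟩ := SetLike.not_le_iff_exists.mp h₀
      set B : Subgroup G := A₁ ⊓ Subgroup.centralizer ({e} : Set G) with hB
      have hBA₁ : B ≤ A₁ := inf_le_left
      have hcardB : Nat.card A₁ ≤ 2 * Nat.card B :=
        card_le_two_mul A₁ e (c * e) (fun t ht => hTe t (hA.1 ht.1.1))
      obtain ⟨h3a, h3b, h3c⟩ := hchain B hBA₁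
      have hBq : B ≤ Subgroup.centralizer ({q₁} : Set G) := by
        intro b hb
        exact Subgroup.mem_centralizer_singleton_iff.mpr (hAc b (hA₀A (hA₁A₀ (hBA₁ hb))) q₁ hq₁.1.1)
      have hyq : y * q₁ = q₁ * y := (Subgroup.mem_centralizer_singleton_iff.mp hq₁.1.2).symm
      have he₁q : e₁ * q₁ = q₁ * e₁ := (Subgroup.mem_centralizer_singleton_iff.mp (hA₁e₁ hq₁)).symm
      have he₂q : e₂ * q₁ = q₁ * e₂ := (Subgroup.mem_centralizer_singleton_iff.mp (hA₁e₂ hq₁)).symm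
      have hn : e ∉ (B ⊔ Subgroup.zpowers y) ⊔ Subgroup.zpowers e₁ ⊔ Subgroup.zpowers e₂ := by
        intro hmem
        have hle := sup_zpowers_le_centralizer (sup_zpowers_le_centralizer (sup_zpowers_le_centralizer hBq hyq) he₁q) he₂q
        have h5 := Subgroup.mem_centralizer_singleton_iff.mp (hle hmem)
        exact hq₁e (Subgroup.mem_centralizer_singleton_iff.mpr h5.symm)
      obtain ⟨h4a, h4b, h4c⟩ := ea_step (B := (B ⊔ Subgroup.zpowers y) ⊔ Subgroup.zpowers e₁ ⊔ Subgroup.zpowers e₂) (u := e) (T := T) h3a h3b (hQT heQ) he2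
        (sup_zpowers_le_centralizer (sup_zpowers_le_centralizer (sup_zpowers_le_centralizer inf_le_right hey.symm) h01.symm) h02.symm) hn
      have h3 := hA.2.2 _ h4b h4a
      have hposB : 0 < Nat.card B := Nat.card_pos
      omega


namespace TC

variable {T K₁ K₂ L₁ L₂ : Subgroup G} {k₁ a b k₂ c d : G} (C : TC T K₁ K₂ L₁ L₂ k₁ a b k₂ c d)
include C

theorem hZK {z κ : G} (hz : z ∈ hpl (thompsonSubgroupOf 2 T) K₁) (hκ : κ ∈ K₁) : κ * z * κ⁻¹ = z := by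
  rw [(mem_hpl.mp hz).2 κ hκ]; group

/-- The group `W₁ H₁`. -/
theorem count (hcom : ∀ u ∈ wOf K₁, ∀ v ∈ wOf K₂, u * v = v * u) (hkc : k₁ * c * k₁⁻¹ ≠ c) : False := by
  classical
  set J := thompsonSubgroupOf 2 T with hJdef
  have hJ₁ := C.hJ₁
  have hJ₂ := C.hJ₂
  have hTa : ∀ t ∈ T, t * a * t⁻¹ = a := fun t ht => C.hTa ht
  have hTc : ∀ t ∈ T, t * c * t⁻¹ = c := fun t ht => C.hTc ht
  have hH₁N : hpl J K₁ ≤ Subgroup.normalizer (wOf K₁ : Set G) := by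
    intro h hh
    apply Cfsg.Agent.Lib.Subnormal.mem_normalizer_of_conj_mem
    intro v hv
    rw [(mem_hpl.mp hh).2 v ((wOf_le_pCoreOf K₁).trans hJ₁.hPK hv) |>.symm]
    rw [show v * h * h⁻¹ = v by group]
    exact hv
  set V := wOf K₁ ⊔ hpl J K₁ with hV
  have hVel : ∀ {n : G}, n ∈ V → ∃ v ∈ wOf K₁, ∃ h ∈ hpl J K₁, n = v * h :=
    fun hn => mem_sup_of_le_normalizer hH₁N hn
  have hWV : wOf K₁ ≤ V := le_sup_left
  have hHV : hpl J K₁ ≤ V := le_sup_right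
  have hWcom : ∀ {v h : G}, v ∈ wOf K₁ → h ∈ hpl J K₁ → v * h = h * v := by
    intro v h hv hh
    exact (mem_hpl.mp hh).2 v ((wOf_le_pCoreOf K₁).trans hJ₁.hPK hv)
  have hV2 : ∀ u ∈ V, u * u = 1 := by
    intro u hu
    obtain ⟨v, hv, h, hh, rfl⟩ := hVel hu
    calc v * h * (v * h) = v * (h * v) * h := by group
      _ = v * (v * h) * h := by rw [hWcom hv hh]
      _ = (v * v) * (h * h) := by group
      _ = 1 := by rw [hJ₁.hWsq v hv, omega_sq (mem_hpl.mp hh).1, one_mul]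
  have hkV : ∀ u ∈ V, k₁ * u * k₁⁻¹ ∈ V := by
    intro u hu
    obtain ⟨v, hv, h, hh, rfl⟩ := hVel hu
    have e : k₁ * (v * h) * k₁⁻¹ = (k₁ * v * k₁⁻¹) * (k₁ * h * k₁⁻¹) := by group
    rw [e, C.hZK hh hJ₁.hkK]
    exact V.mul_mem (hWV (conj_mem_wOf (Subgroup.le_normalizer hJ₁.hkK) hv)) (hHV hh)
  have hQV : ∀ q ∈ Qof T K₁, ∀ u ∈ V, q * u = u * q := by
    intro q hq u hu
    obtain ⟨hqT, hqW⟩ := mem_Qof.mp hq
    obtain ⟨v, hv, h, hh, rfl⟩ := hVel hu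
    calc q * (v * h) = (q * v) * h := by group
      _ = (v * q) * h := by rw [hqW v hv]
      _ = v * (q * h) := by group
      _ = v * (h * q) := by rw [C.hcen q hqT h (mem_hpl.mp hh).1]
      _ = v * h * q := by group
  have hZV : ∀ {z : G}, z ∈ omegaCenterOf J → z ∈ V := by
    intro z hz
    rcases jcs_decomp hJ₁ hz with h1 | h1
    · exact hHV h1
    · have e : z = (z * a) * a := by rw [mul_assoc, omega_sq C.haZ, mul_one]
      rw [e]
      exact V.mul_mem (hHV h1) (hWV hJ₁.hw₁)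
  obtain ⟨A, hA, a₀, ha₀A, hm⟩ := exists_A_moving hJ₁
  have ha₀T : a₀ ∈ T := hA.1 ha₀A
  obtain ⟨q₀, hq₀, hq₀'⟩ := C.swap.exists_q₀
  refine nt_false' (T := T) (A := A) (Q := Qof T K₁) (W₂ := V) (k := k₁) (a := a₀) (e := d) (c := c) (y := b) (q₀ := q₀) (d := a)
    hA ha₀A C.hQ₁T hJ₁.hk3 (fun q hq => jcs_k_conj_Q hJ₁ C.hTN₁ C.hsyl₁ hq)
    (jcs_a_k_mem hJ₁ C.hTN₁ C.hsyl₁ hTa ha₀T hm) hkV hQV hV2 (hZV C.hcZ) hJ₂.hw₁1 hkc
    ?_ (hJ₂.hWsq d hJ₂.hw₂mem) (fun t ht => C.swap.hact₁ ht) hTc (hWV hJ₁.hw₂mem) (C.hWT₁ hJ₁.hw₂mem) (hWV hJ₁.hw₁) hJ₁.hw₁1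
    ((C.hact₁ ha₀T).resolve_left hm) (fun t ht ht2 => C.hfixQ₁ ht ht2) (fun t ht => C.hact₁ ht) hq₀
    (fun h => hq₀' (C.swap.hfixQ₁ (C.hQ₁T hq₀) h))
  exact mem_Qof.mpr ⟨C.swap.hWT₁ hJ₂.hw₂mem, fun u hu => (hcom u hu d hJ₂.hw₂mem).symm⟩

end TC

end Cfsg.Agent.Lib.FFG
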