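import Mathlib
import Cfsg.Agent.Lib.FFG32

/-!
# Failure of factorization at the level of the group, part 33: `W₁` and `W₂` do not commute, the squares
-/

set_option autoImplicit false
set_option linter.unusedSectionVars false

open Cfsg
open scoped commutatorElement

namespace Cfsg.Agent.Lib.FFG

open Cfsg.Agent.Lib.FFAct Cfsg.Agent.Lib.PCore Cfsg.Agent.Lib.JCompStruct Cfsg.Agent.Lib.ThompsonJ
open Cfsg.Agent.Lib.BGFit2

variable {G : Type*} [Group G] [Finite G]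

namespace TC

variable {T K₁ K₂ L₁ L₂ : Subgroup G} {k₁ a b k₂ c d : G} (C : TC T K₁ K₂ L₁ L₂ k₁ a b k₂ c d)
include C

/-- A subgroup normalized by `T` and `k₁` is normalized by `K₁`. -/
theorem le_norm_K₁ {R : Subgroup G} (h1 : T ≤ Subgroup.normalizer (R : Set G)) (h2 : k₁ ∈ Subgroup.normalizer (R : Set G)) :
    K₁ ≤ Subgroup.normalizer (R : Set G) :=
  C.hJ₁.hKle.trans (sup_le ((jcs_core_le_T C.hJ₁ C.hTN₁ C.hsyl₁).trans h1) (Subgroup.zpowers_le.mpr h2))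

theorem hk₁_cube : k₁ * k₁ * k₁ = 1 := by
  have h1 := C.hJ₁.hk3
  have h2 : k₁ ^ 3 = k₁ * k₁ * k₁ := by simp [pow_succ]
  rwa [h2] at h1

section Com

variable (hcom : ∀ u ∈ wOf K₁, ∀ v ∈ wOf K₂, u * v = v * u)
include hcom

theorem hcom' : ∀ u ∈ wOf K₂, ∀ v ∈ wOf K₁, u * v = v * u := fun u hu v hv => (hcom v hv u hu).symm

theorem hk₁c : k₁ * c * k₁⁻¹ = c := by
  by_contra h
  exact C.count hcom h

theorem hk₂a : k₂ * a * k₂⁻¹ = a := C.swap.hk₁c (C.hcom' hcom)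

/-- `c ∈ H₁`. -/
theorem hcH : c ∈ hpl (thompsonSubgroupOf 2 T) K₁ := by
  rcases jcs_decomp C.hJ₁ C.hcZ with h | h
  · exact h
  · exfalso
    have h1 := C.hZK h C.hJ₁.hkK
    have e : k₁ * (c * a) * k₁⁻¹ = (k₁ * c * k₁⁻¹) * (k₁ * a * k₁⁻¹) := by group
    rw [e, C.hk₁c hcom] at h1
    have h2 := mul_left_cancel h1
    exact C.hJ₁.hw₁1 (C.hJ₁.hfpf a C.hJ₁.hw₁ h2)

theorem haH : a ∈ hpl (thompsonSubgroupOf 2 T) K₂ := C.swap.hcH (C.hcom' hcom)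

theorem hdQ₁ : d ∈ Qof T K₁ :=
  mem_Qof.mpr ⟨C.swap.hWT₁ C.hJ₂.hw₂mem, fun u hu => (hcom u hu d C.hJ₂.hw₂mem).symm⟩

theorem hbQ₂ : b ∈ Qof T K₂ := C.swap.hdQ₁ (C.hcom' hcom)

/-- The intersection `Q₁ ∩ Q₂`. -/
theorem hY_mem {y : G} : y ∈ Qof T K₂ ⊓ Subgroup.centralizer ({b} : Set G) ↔ y ∈ Qof T K₁ ∧ y ∈ Qof T K₂ := by
  constructor
  · rintro ⟨h3, h4⟩
    refine ⟨C.hfixQ₁ (C.swap.hQ₁T h3) ?_, h3⟩
    rw [Subgroup.mem_centralizer_singleton_iff.mp h4]; group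
  · rintro ⟨h3, h4⟩
    exact ⟨h4, Subgroup.mem_centralizer_singleton_iff.mpr ((mem_Qof.mp h3).2 _ C.hJ₁.hw₂mem)⟩

/-- If `k₁` fixes `d`, we have a contradiction. -/
theorem not_fix_d : k₁ * d * k₁⁻¹ ≠ d := by
  intro hfd
  have hk := C.hk₁c hcom
  have hTW : T ≤ Subgroup.normalizer (wOf K₂ : Set G) := fun t ht =>
    Cfsg.Agent.Lib.Subnormal.mem_normalizer_of_conj_mem _ _ (fun u hu => conj_mem_wOf (C.hTN₂ ht) hu)
  have hkW : k₁ ∈ Subgroup.normalizer (wOf K₂ : Set G) := by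
    apply Cfsg.Agent.Lib.Subnormal.mem_normalizer_of_conj_mem
    intro u hu
    rcases C.hJ₂.hset u hu with rfl | rfl | rfl | rfl
    · rw [show k₁ * 1 * k₁⁻¹ = 1 by group]; exact Subgroup.one_mem _
    · rw [hk]; exact hu
    · rw [hfd]; exact hu
    · have e : k₁ * (c * d) * k₁⁻¹ = (k₁ * c * k₁⁻¹) * (k₁ * d * k₁⁻¹) := by group
      rw [e, hk, hfd]; exact hu
  have h1 := C.eq_bot_of_norm C.swap.hWT₁ (C.le_norm_K₁ hTW hkW)
    (fun κ hκ => Cfsg.Agent.Lib.Subnormal.mem_normalizer_of_conj_mem _ _ (fun u hu => conj_mem_wOf (Subgroup.le_normalizer hκ) hu)) hTW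
  have h2 := C.hJ₂.hw₁
  rw [h1] at h2
  exact C.hJ₂.hw₁1 (Subgroup.mem_bot.mp h2)

/-- The case where the `k₁`-conjugates of `d` commute, `k₁` fixes `a d`, given the failure for `b`. -/
theorem fix_ad (hnp : (k₁ * d * k₁⁻¹) * d = d * (k₁ * d * k₁⁻¹))
    (hp : (k₂ * b * k₂⁻¹) * b ≠ b * (k₂ * b * k₂⁻¹)) : k₁ * (a * d) * k₁⁻¹ = a * d := by
  have hJ₁ := C.hJ₁
  have hJ₂ := C.hJ₂
  have hk3 := C.hk₁_cube
  have hk3' := C.swap.hk₁_cube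
  have hk₁c := C.hk₁c hcom
  have hk₂a := C.hk₂a hcom
  have hdQ₁ := C.hdQ₁ hcom
  have hbQ₂ := C.hbQ₂ hcom
  have hTa : ∀ t ∈ T, t * a * t⁻¹ = a := fun t ht => C.hTa ht
  have hkQ₁ : ∀ q ∈ Qof T K₁, k₁ * q * k₁⁻¹ ∈ Qof T K₁ := fun q hq => jcs_k_conj_Q hJ₁ C.hTN₁ C.hsyl₁ hq
  have hkQ₂ : ∀ q ∈ Qof T K₂, k₂ * q * k₂⁻¹ ∈ Qof T K₂ := fun q hq => jcs_k_conj_Q hJ₂ C.hTN₂ C.swap.hsyl₁ hq
  have hkQ₂' : ∀ q ∈ Qof T K₂, k₂⁻¹ * q * k₂ ∈ Qof T K₂ := by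
    intro q hq
    have h1 := hkQ₂ _ (hkQ₂ q hq)
    rwa [cube_conj hk3'] at h1
  set y₁ := k₁ * d * k₁⁻¹ with hy₁
  set y₂ := k₁⁻¹ * d * k₁ with hy₂
  have hky₁ : k₁ * y₁ * k₁⁻¹ = y₂ := cube_conj hk3 d
  have hky₂ : k₁ * y₂ * k₁⁻¹ = d := by rw [hy₂]; group
  have hky₁' : k₁⁻¹ * y₁ * k₁ = d := by rw [hy₁]; group
  have hy₁Q₁ : y₁ ∈ Qof T K₁ := hkQ₁ d hdQ₁
  have hy₂Q₁ : y₂ ∈ Qof T K₁ := by rw [← hky₁]; exact hkQ₁ _ hy₁Q₁
  have hy₁T : y₁ ∈ T := C.hQ₁T hy₁Q₁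
  have hy₁Q₂ : y₁ ∈ Qof T K₂ := by
    apply C.swap.hfixQ₁ hy₁T
    rw [hnp]; group
  -- the element `f`
  set f := k₂ * b * k₂⁻¹ with hf
  have hfQ₂ : f ∈ Qof T K₂ := hkQ₂ b hbQ₂
  have hfT : f ∈ T := C.swap.hQ₁T hfQ₂
  have hfd : f * d * f⁻¹ = d := by
    rw [(mem_Qof.mp hfQ₂).2 d hJ₂.hw₂mem]; group
  have hfb : f * b * f⁻¹ ≠ b := by
    intro h
    exact hp (mul_inv_eq_iff_eq_mul.mp h)
  set r := f * k₁ * f⁻¹ * k₁ with hr
  have hrQ : r ∈ Qof T K₁ := jcs_a_k_mem hJ₁ C.hTN₁ C.hsyl₁ hTa hfT hfb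
  have hfk : f * k₁ * f⁻¹ = r * k₁⁻¹ := by rw [hr]; group
  have h3 : f * y₁ * f⁻¹ = r * y₂ * r⁻¹ := by
    calc f * y₁ * f⁻¹ = (f * k₁ * f⁻¹) * (f * d * f⁻¹) * (f * k₁ * f⁻¹)⁻¹ := by rw [hy₁]; group
      _ = (r * k₁⁻¹) * d * (r * k₁⁻¹)⁻¹ := by rw [hfk, hfd]
      _ = r * y₂ * r⁻¹ := by rw [hy₂]; group
  have hk₁c' : k₁⁻¹ * c * k₁ = c := by
    rw [mul_inv_eq_iff_eq_mul] at hk₁c
    calc k₁⁻¹ * c * k₁ = k₁⁻¹ * (c * k₁) := by group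
      _ = k₁⁻¹ * (k₁ * c) := by rw [hk₁c]
      _ = c := by group
  have h3' : f * y₁ * f⁻¹ = y₂ ∨ f * y₁ * f⁻¹ = c * y₂ := by
    have hq := hkQ₁ r hrQ
    have e1 : r * y₂ * r⁻¹ = k₁⁻¹ * ((k₁ * r * k₁⁻¹) * d * (k₁ * r * k₁⁻¹)⁻¹) * k₁ := by rw [hy₂]; group
    rw [h3, e1]
    rcases C.swap.hact₁ (C.hQ₁T hq) with h | h
    · left; rw [h]
    · right
      rw [h]
      calc k₁⁻¹ * (c * d) * k₁ = (k₁⁻¹ * c * k₁) * (k₁⁻¹ * d * k₁) := by group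
        _ = c * y₂ := by rw [hk₁c']
  -- the other side
  have haa := omega_sq C.haZ
  have hac : ∀ t ∈ T, a * t = t * a := fun t ht => (C.hcen t ht a C.haZ).symm
  have h4 : f * y₁ * f⁻¹ = y₁ ∨ f * y₁ * f⁻¹ = a * y₁ := by
    have hs := hkQ₂' y₁ hy₁Q₂
    have e1 : y₁ * f * y₁⁻¹ = k₂ * ((k₂⁻¹ * y₁ * k₂) * b * (k₂⁻¹ * y₁ * k₂)⁻¹) * k₂⁻¹ := by rw [hf]; group
    rcases C.hact₁ (C.swap.hQ₁T hs) with h | h
    · left
      rw [h] at e1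
      have h5 : y₁ * f = f * y₁ := mul_inv_eq_iff_eq_mul.mp e1
      rw [← h5]; group
    · right
      rw [h] at e1
      have e2 : y₁ * f * y₁⁻¹ = a * f := by
        rw [e1]
        calc k₂ * (a * b) * k₂⁻¹ = (k₂ * a * k₂⁻¹) * (k₂ * b * k₂⁻¹) := by group
          _ = a * f := by rw [hk₂a]
      have h5 : y₁ * f = a * f * y₁ := mul_inv_eq_iff_eq_mul.mp e2
      have h6 : f * y₁ = a * y₁ * f := by
        calc f * y₁ = (a * a) * (f * y₁) := by rw [haa, one_mul]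
          _ = a * (a * f * y₁) := by group
          _ = a * (y₁ * f) := by rw [← h5]
          _ = a * y₁ * f := by group
      rw [h6]; group
  -- the comparison
  have hk₁a : k₁ * a * k₁⁻¹ = b := hJ₁.hw₂
  have hk₁b : k₁ * b * k₁⁻¹ = a * b := hJ₁.hk₂
  have hbb : b * b = 1 := hJ₁.hWsq b hJ₁.hw₂mem
  have hab : a * b = b * a := wOf_comm hJ₁.hw₁ hJ₁.hw₂mem
  have hbd : b * d = d * b := (hcom b hJ₁.hw₂mem d hJ₂.hw₂mem)
  have hcc := omega_sq C.hcZ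
  have hnfd := C.not_fix_d hcom
  have hkd : k₁ * d * k₁⁻¹ = y₁ := rfl
  have hbT : b ∈ T := C.hWT₁ hJ₁.hw₂mem
  have hcT : ∀ t ∈ T, c * t = t * c := fun t ht => (C.hcen t ht c C.hcZ).symm
  have hdT : d ∈ T := C.swap.hWT₁ hJ₂.hw₂mem
  have hy₂T : y₂ ∈ T := C.hQ₁T hy₂Q₁
  have hc1 : c ≠ 1 := hJ₂.hw₁1
  have hcase : y₂ = y₁ ∨ y₂ = a * y₁ ∨ c * y₂ = y₁ ∨ c * y₂ = a * y₁ := by
    rcases h3' with h | h <;> rcases h4 with h' | h'
    · left; rw [← h, h']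
    · right; left; rw [← h, h']
    · right; right; left; rw [← h, h']
    · right; right; right; rw [← h, h']
  have conj_a : ∀ x : G, k₁ * (a * x) * k₁⁻¹ = b * (k₁ * x * k₁⁻¹) := fun x => by
    rw [← hk₁a]; group
  have conj_c : ∀ x : G, k₁ * (c * x) * k₁⁻¹ = c * (k₁ * x * k₁⁻¹) := fun x => by
    nth_rewrite 2 [← hk₁c]; group
  rcases hcase with h | h | h | h
  · exfalso
    apply hnfd
    calc y₁ = y₂ := h.symm
      _ = k₁ * y₁ * k₁⁻¹ := hky₁.symm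
      _ = k₁ * y₂ * k₁⁻¹ := by rw [h]
      _ = d := hky₂
  · have h5 : d = b * y₂ := by
      calc d = k₁ * y₂ * k₁⁻¹ := hky₂.symm
        _ = k₁ * (a * y₁) * k₁⁻¹ := by rw [← h]
        _ = b * (k₁ * y₁ * k₁⁻¹) := conj_a _
        _ = b * y₂ := by rw [hky₁]
    have h6 : y₂ = b * d := by rw [h5, ← mul_assoc, hbb, one_mul]
    have h7 : y₁ = a * (b * d) := by
      rw [← h6, h, ← mul_assoc, haa, one_mul]
    rw [conj_a, hkd, h7]
    calc b * (a * (b * d)) = (b * a) * (b * d) := by group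
      _ = (a * b) * (b * d) := by rw [hab]
      _ = a * (b * b) * d := by group
      _ = a * d := by rw [hbb, mul_one]
  · exfalso
    have h5 : c * d = y₂ := by
      calc c * d = c * (k₁ * y₂ * k₁⁻¹) := by rw [hky₂]
        _ = k₁ * (c * y₂) * k₁⁻¹ := (conj_c _).symm
        _ = k₁ * y₁ * k₁⁻¹ := by rw [h]
        _ = y₂ := hky₁
    apply hnfd
    calc y₁ = c * y₂ := h.symm
      _ = c * (c * d) := by rw [h5]
      _ = (c * c) * d := by group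
      _ = d := by rw [hcc, one_mul]
  · exfalso
    have h5 : c * d = b * y₂ := by
      calc c * d = c * (k₁ * y₂ * k₁⁻¹) := by rw [hky₂]
        _ = k₁ * (c * y₂) * k₁⁻¹ := (conj_c _).symm
        _ = k₁ * (a * y₁) * k₁⁻¹ := by rw [h]
        _ = b * (k₁ * y₁ * k₁⁻¹) := conj_a _
        _ = b * y₂ := by rw [hky₁]
    have h6 : y₂ = b * (c * d) := by rw [h5, ← mul_assoc, hbb, one_mul]
    have h7 : y₁ = a * (b * d) := by
      calc y₁ = (a * a) * y₁ := by rw [haa, one_mul]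
        _ = a * (a * y₁) := by group
        _ = a * (c * y₂) := by rw [h]
        _ = a * (c * (b * (c * d))) := by rw [h6]
        _ = a * ((c * b) * (c * d)) := by group
        _ = a * ((b * c) * (c * d)) := by rw [hcT b hbT]
        _ = a * (b * (c * c) * d) := by group
        _ = a * (b * d) := by rw [hcc, mul_one]
    have h8 : y₂ = a * y₁ := by
      calc y₂ = k₁ * y₁ * k₁⁻¹ := hky₁.symm
        _ = k₁ * (a * (b * d)) * k₁⁻¹ := by rw [← h7]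
        _ = b * (k₁ * (b * d) * k₁⁻¹) := conj_a _
        _ = b * ((k₁ * b * k₁⁻¹) * (k₁ * d * k₁⁻¹)) := by group
        _ = b * ((a * b) * y₁) := by rw [hk₁b, hkd]
        _ = (b * a) * b * y₁ := by group
        _ = (a * b) * b * y₁ := by rw [hab]
        _ = a * (b * b) * y₁ := by group
        _ = a * y₁ := by rw [hbb, mul_one]
    have h9 : c * y₂ = y₂ := h.trans h8.symm
    exact hc1 (mul_eq_right.mp h9)

/-- The case where `b` and its `k₂`-conjugate do not commute. -/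
theorem pauli_false (hp : (k₂ * b * k₂⁻¹) * b ≠ b * (k₂ * b * k₂⁻¹)) : False := by
  have hJ₁ := C.hJ₁
  have hJ₂ := C.hJ₂
  have hk3 := C.hk₁_cube
  have hk3' := C.swap.hk₁_cube
  have hbb : b * b = 1 := hJ₁.hWsq b hJ₁.hw₂mem
  have hdd : d * d = 1 := hJ₂.hWsq d hJ₂.hw₂mem
  have hkQ₁ : ∀ q ∈ Qof T K₁, k₁ * q * k₁⁻¹ ∈ Qof T K₁ := fun q hq => jcs_k_conj_Q hJ₁ C.hTN₁ C.hsyl₁ hq
  have hkQ₂ : ∀ q ∈ Qof T K₂, k₂ * q * k₂⁻¹ ∈ Qof T K₂ := fun q hq => jcs_k_conj_Q hJ₂ C.hTN₂ C.swap.hsyl₁ hq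
  have h0 := pauli_core (T := T) (Q := Qof T K₂) (k := k₂) (e := b) (h := a) C.swap.hQ₁T hk3' hkQ₂ (C.hk₂a hcom)
    (omega_sq C.haZ) (C.hbQ₂ hcom) hbb (fun t ht => C.hTa ht) (fun t ht => C.hact₁ ht) hp
  set Y := Qof T K₂ ⊓ Subgroup.centralizer ({b} : Set G) with hY
  have hYeq : ∀ {y : G}, y ∈ Y ↔ y ∈ Qof T K₁ ∧ y ∈ Qof T K₂ := fun {y} => C.hY_mem hcom
  have hTY : T ≤ Subgroup.normalizer (Y : Set G) := by
    intro t ht
    apply Cfsg.Agent.Lib.Subnormal.mem_normalizer_of_conj_mem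
    intro y hy
    obtain ⟨h3, h4⟩ := hYeq.mp hy
    exact hYeq.mpr ⟨conj_mem_of_normalizer (C.hQ₁N (Subgroup.mem_sup_right ht)) h3,
      conj_mem_of_normalizer (C.swap.hQ₁N (Subgroup.mem_sup_right ht)) h4⟩
  have hTP : T ≤ Subgroup.normalizer (sqCl Y : Set G) := fun t ht => TSC.norm_sqCl (hTY ht)
  have hk₂P : k₂ ∈ Subgroup.normalizer (sqCl Y : Set G) := by
    apply Cfsg.Agent.Lib.Subnormal.mem_normalizer_of_conj_mem
    intro u hu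
    rw [← h0.1]
    exact conj_mem_cj hu
  have hk₁P : k₁ ∈ Subgroup.normalizer (sqCl Y : Set G) := by
    by_cases hnp : (k₁ * d * k₁⁻¹) * d = d * (k₁ * d * k₁⁻¹)
    · have hfix := C.fix_ad hcom hnp hp
      have hfix' : k₁⁻¹ * (a * d) * k₁ = a * d := by
        nth_rewrite 1 [← hfix]; group
      apply TSC.norm_sqCl
      apply Cfsg.Agent.Lib.Subnormal.mem_normalizer_of_conj_mem
      intro y hy
      obtain ⟨h3, h4⟩ := hYeq.mp hy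
      have h5 := hkQ₁ y h3
      refine hYeq.mpr ⟨h5, C.swap.hfixQ₁ (C.hQ₁T h5) ?_⟩
      have hyT := C.hQ₁T h3
      have hyd : y * d * y⁻¹ = d := by
        rw [(mem_Qof.mp h4).2 d hJ₂.hw₂mem]; group
      have hya : y * a * y⁻¹ = a := C.hTa hyT
      have hyad : y * (a * d) * y⁻¹ = a * d := by
        calc y * (a * d) * y⁻¹ = (y * a * y⁻¹) * (y * d * y⁻¹) := by group
          _ = a * d := by rw [hya, hyd]
      set t := k₁ * y * k₁⁻¹ with ht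
      have htT : t ∈ T := C.hQ₁T h5
      have htad : t * (a * d) * t⁻¹ = a * d := by
        calc t * (a * d) * t⁻¹ = k₁ * (y * (k₁⁻¹ * (a * d) * k₁) * y⁻¹) * k₁⁻¹ := by rw [ht]; group
          _ = k₁ * (a * d) * k₁⁻¹ := by rw [hfix', hyad]
          _ = a * d := hfix
      have hta : t * a * t⁻¹ = a := C.hTa htT
      have e : t * (a * d) * t⁻¹ = (t * a * t⁻¹) * (t * d * t⁻¹) := by group
      rw [e, hta] at htad
      exact mul_left_cancel htad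
    · have h6 := pauli_core (T := T) (Q := Qof T K₁) (k := k₁) (e := d) (h := c) C.hQ₁T hk3 hkQ₁ (C.hk₁c hcom)
        (omega_sq C.hcZ) (C.hdQ₁ hcom) hdd (fun t ht => C.hTc ht) (fun t ht => C.swap.hact₁ ht) hnp
      have hYY : Qof T K₁ ⊓ Subgroup.centralizer ({d} : Set G) = Y := by
        ext y
        rw [C.swap.hY_mem (C.hcom' hcom), hYeq, and_comm]
      rw [hYY] at h6
      apply Cfsg.Agent.Lib.Subnormal.mem_normalizer_of_conj_mem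
      intro u hu
      rw [← h6.1]
      exact conj_mem_cj hu
  have h1 := C.eq_bot_of_norm ((sqCl_le Y).trans (inf_le_left.trans C.swap.hQ₁T)) (C.le_norm_K₁ hTP hk₁P)
    (C.swap.le_norm_K₁ hTP hk₂P) hTP
  have h2 := h0.2
  rw [h1] at h2
  exact hJ₁.hw₁1 (Subgroup.mem_bot.mp h2)

end Com

end TC

end Cfsg.Agent.Lib.FFG
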