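import Mathlib
import Cfsg.Agent.Lib.FFG33

/-!
# Failure of factorization at the level of the group, part 34: labeled walks on involutions
-/

set_option autoImplicit false
set_option linter.unusedSectionVars false

open Cfsg
open scoped commutatorElement

namespace Cfsg.Agent.Lib.FFG

open Cfsg.Agent.Lib.FFAct Cfsg.Agent.Lib.PCore Cfsg.Agent.Lib.JCompStruct Cfsg.Agent.Lib.ThompsonJ
open Cfsg.Agent.Lib.BGFit2

variable {G : Type*} [Group G] [Finite G]

/-- Adjacency of involutions: images of the edge `(h false, h true)`, in either direction. -/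
def UAdj (h : Bool → G) (u v : G) : Prop := ∃ (b : Bool) (g : G), u = g * h b * g⁻¹ ∧ v = g * h (!b) * g⁻¹

/-- The data for the induction on labeled walks. -/
structure BWalk (h : Bool → G) (W : Bool → Subgroup G) : Prop where
  hh : h false * h true = h true * h false
  hsq : ∀ b, h b * h b = 1
  hW : ∀ b, ∀ u ∈ W b, ∀ v ∈ W b, u * v = v * u
  s₁ : ∀ b g, g * h b * g⁻¹ = h b → g * h (!b) * g⁻¹ ∈ W b
  s₂ : ∀ u ∈ W false, ∀ v ∈ W true, u * v = v * u
  s₃ : ∀ b g, g * h b * g⁻¹ = h b → ∀ u ∈ W (!b), ∀ v ∈ W (!b), u * (g * v * g⁻¹) = (g * v * g⁻¹) * u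
  s₄ : ∀ b s, s * h false = h false * s → s * h true = h true * s → s * s = 1 →
    ∀ u ∈ W b, s * u * s⁻¹ = u ∨ s * u * s⁻¹ = h (!b) * u
  hnc : ∀ g, g * h false * g⁻¹ ≠ h true

theorem bconj_comm {a b g : G} (h : a * b = b * a) : (g * a * g⁻¹) * (g * b * g⁻¹) = (g * b * g⁻¹) * (g * a * g⁻¹) := by
  calc (g * a * g⁻¹) * (g * b * g⁻¹) = g * (a * b) * g⁻¹ := by group
    _ = g * (b * a) * g⁻¹ := by rw [h]
    _ = (g * b * g⁻¹) * (g * a * g⁻¹) := by group

namespace BWalk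

variable {h : Bool → G} {W : Bool → Subgroup G} (C : BWalk h W)
include C

theorem hnc' (b : Bool) (g : G) : g * h b * g⁻¹ ≠ h (!b) := by
  cases b
  · exact C.hnc g
  · intro e
    apply C.hnc g⁻¹
    show g⁻¹ * h false * g⁻¹⁻¹ = h true
    have e' : g * h true * g⁻¹ = h false := e
    rw [← e']; group

theorem hcomm (b : Bool) : h b * h (!b) = h (!b) * h b := by
  cases b
  · exact C.hh
  · exact C.hh.symm

omit C in
theorem adj_symm {u v : G} (e : UAdj h u v) : UAdj h v u := by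
  obtain ⟨b, g, rfl, rfl⟩ := e
  exact ⟨!b, g, rfl, by simp⟩

omit C in
theorem adj_conj {u v : G} (e : UAdj h u v) (g : G) : UAdj h (g * u * g⁻¹) (g * v * g⁻¹) := by
  obtain ⟨b, g', rfl, rfl⟩ := e
  exact ⟨b, g * g', by group, by group⟩

theorem adj_comm {u v : G} (e : UAdj h u v) : u * v = v * u := by
  obtain ⟨b, g, rfl, rfl⟩ := e
  exact bconj_comm (C.hcomm b)

theorem adj_sq_left {u v : G} (e : UAdj h u v) : u * u = 1 := by
  obtain ⟨b, g, rfl, rfl⟩ := e
  calc g * h b * g⁻¹ * (g * h b * g⁻¹) = g * (h b * h b) * g⁻¹ := by group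
    _ = 1 := by rw [C.hsq]; group

theorem adj_sq_right {u v : G} (e : UAdj h u v) : v * v = 1 := C.adj_sq_left (adj_symm e)

/-- The neighbours of a vertex. -/
theorem nbr {b : Bool} {g r : G} (e : UAdj h (g * h b * g⁻¹) r) :
    ∃ g', g' * h b * g'⁻¹ = h b ∧ r = g * (g' * h (!b) * g'⁻¹) * g⁻¹ := by
  obtain ⟨c, g₁, h1, rfl⟩ := e
  have hcb : c = b := by
    by_contra hne
    have e1 : c = !b := by cases c <;> cases b <;> simp_all
    subst e1
    apply C.hnc' b (g₁⁻¹ * g)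
    calc g₁⁻¹ * g * h b * (g₁⁻¹ * g)⁻¹ = g₁⁻¹ * (g * h b * g⁻¹) * g₁ := by group
      _ = g₁⁻¹ * (g₁ * h (!b) * g₁⁻¹) * g₁ := by rw [h1]
      _ = h (!b) := by group
  subst hcb
  refine ⟨g⁻¹ * g₁, ?_, by group⟩
  calc g⁻¹ * g₁ * h c * (g⁻¹ * g₁)⁻¹ = g⁻¹ * (g₁ * h c * g₁⁻¹) * g := by group
    _ = g⁻¹ * (g * h c * g⁻¹) * g := by rw [← h1]
    _ = h c := by group

theorem nbr' {b : Bool} {g r : G} (e : UAdj h (g * h (!b) * g⁻¹) r) :
    ∃ g', g' * h (!b) * g'⁻¹ = h (!b) ∧ r = g * (g' * h b * g'⁻¹) * g⁻¹ := by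
  have := C.nbr e
  simpa only [Bool.not_not] using this

theorem s₁' (b : Bool) (g : G) (e : g * h (!b) * g⁻¹ = h (!b)) : g * h b * g⁻¹ ∈ W (!b) := by
  have := C.s₁ (!b) g e
  simpa only [Bool.not_not] using this

theorem h_mem (b : Bool) : h b ∈ W (!b) := by
  have := C.s₁' b 1 (by group)
  simpa using this

theorem W_comm (b : Bool) : ∀ u ∈ W b, ∀ v ∈ W (!b), u * v = v * u := by
  intro u hu v hv
  cases b
  · exact C.s₂ u hu v hv
  · exact (C.s₂ v hv u hu).symm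

theorem s₃' (b : Bool) (g : G) (e : g * h (!b) * g⁻¹ = h (!b)) :
    ∀ u ∈ W b, ∀ v ∈ W b, u * (g * v * g⁻¹) = (g * v * g⁻¹) * u := by
  have := C.s₃ (!b) g e
  simpa only [Bool.not_not] using this

/-- Walks of length two. -/
theorem walk2 {u₀ u₁ u₂ : G} (h1 : UAdj h u₀ u₁) (h2 : UAdj h u₁ u₂) : u₀ * u₂ = u₂ * u₀ := by
  obtain ⟨b, g, rfl, rfl⟩ := h1
  obtain ⟨g', hg', rfl⟩ := C.nbr' h2
  exact bconj_comm (C.hW _ _ (C.h_mem b) _ (C.s₁' b g' hg'))

/-- Walks of length three. -/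
theorem walk3 {u₀ u₁ u₂ u₃ : G} (h1 : UAdj h u₀ u₁) (h2 : UAdj h u₁ u₂) (h3 : UAdj h u₂ u₃) :
    u₀ * u₃ = u₃ * u₀ := by
  obtain ⟨b, g, rfl, rfl⟩ := h2
  obtain ⟨g₁, hg₁, rfl⟩ := C.nbr (adj_symm h1)
  obtain ⟨g₂, hg₂, rfl⟩ := C.nbr' h3
  exact bconj_comm (C.W_comm b _ (C.s₁ b g₁ hg₁) _ (C.s₁' b g₂ hg₂))

/-- Walks of length four. -/
theorem walk4 {u₀ u₁ u₂ u₃ u₄ : G} (h1 : UAdj h u₀ u₁) (h2 : UAdj h u₁ u₂) (h3 : UAdj h u₂ u₃)
    (h4 : UAdj h u₃ u₄) : u₀ * u₄ = u₄ * u₀ := by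
  obtain ⟨b, g, rfl, rfl⟩ := h2
  obtain ⟨g₁, hg₁, rfl⟩ := C.nbr (adj_symm h1)
  obtain ⟨g₂, hg₂, rfl⟩ := C.nbr' h3
  have e1 : g * (g₂ * h b * g₂⁻¹) * g⁻¹ = (g * g₂) * h b * (g * g₂)⁻¹ := by group
  rw [e1] at h4
  obtain ⟨g₃, hg₃, rfl⟩ := C.nbr h4
  have e2 : g * g₂ * (g₃ * h (!b) * g₃⁻¹) * (g * g₂)⁻¹ = g * (g₂ * (g₃ * h (!b) * g₃⁻¹) * g₂⁻¹) * g⁻¹ := by group
  rw [e2]
  exact bconj_comm (C.s₃' b g₂ hg₂ _ (C.s₁ b g₁ hg₁) _ (C.s₁ b g₃ hg₃))

/-- The step. -/
theorem step {p q r s : G} (h1 : UAdj h p q) (h2 : UAdj h q r) (hp : s * p = p * s) (hq : s * q = q * s)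
    (hs : s * s = 1) : s * r * s⁻¹ = r ∨ s * r * s⁻¹ = p * r := by
  obtain ⟨b, g, rfl, rfl⟩ := h1
  obtain ⟨g', hg', rfl⟩ := C.nbr' h2
  have hp' : (g⁻¹ * s * g) * h b = h b * (g⁻¹ * s * g) := by
    have : g⁻¹ * (s * (g * h b * g⁻¹)) * g = g⁻¹ * ((g * h b * g⁻¹) * s) * g := by rw [hp]
    calc (g⁻¹ * s * g) * h b = g⁻¹ * (s * (g * h b * g⁻¹)) * g := by group
      _ = g⁻¹ * ((g * h b * g⁻¹) * s) * g := this
      _ = h b * (g⁻¹ * s * g) := by group
  have hq' : (g⁻¹ * s * g) * h (!b) = h (!b) * (g⁻¹ * s * g) := by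
    have : g⁻¹ * (s * (g * h (!b) * g⁻¹)) * g = g⁻¹ * ((g * h (!b) * g⁻¹) * s) * g := by rw [hq]
    calc (g⁻¹ * s * g) * h (!b) = g⁻¹ * (s * (g * h (!b) * g⁻¹)) * g := by group
      _ = g⁻¹ * ((g * h (!b) * g⁻¹) * s) * g := this
      _ = h (!b) * (g⁻¹ * s * g) := by group
  have hs' : (g⁻¹ * s * g) * (g⁻¹ * s * g) = 1 := by
    calc (g⁻¹ * s * g) * (g⁻¹ * s * g) = g⁻¹ * (s * s) * g := by group
      _ = 1 := by rw [hs]; group
  have hF : (g⁻¹ * s * g) * h false = h false * (g⁻¹ * s * g) := by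
    cases b
    · exact hp'
    · exact hq'
  have hTr : (g⁻¹ * s * g) * h true = h true * (g⁻¹ * s * g) := by
    cases b
    · exact hq'
    · exact hp'
  have h3 := C.s₄ (!b) _ hF hTr hs' _ (C.s₁' b g' hg')
  simp only [Bool.not_not] at h3
  set v := g' * h b * g'⁻¹ with hv
  have e1 : s * (g * v * g⁻¹) * s⁻¹ = g * ((g⁻¹ * s * g) * v * (g⁻¹ * s * g)⁻¹) * g⁻¹ := by group
  rw [e1]
  rcases h3 with h3 | h3
  · left; rw [h3]
  · right; rw [h3]; group

/-- The induction on walks. -/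
theorem walk : ∀ (n : ℕ) (f : ℕ → G), (∀ i < n, UAdj h (f i) (f (i + 1))) → f 0 * f n = f n * f 0 := by
  intro n
  induction n using Nat.strong_induction_on with
  | _ n ih =>
    intro f hf
    match n, ih, hf with
    | 0, _, _ => rfl
    | 1, _, hf => exact C.adj_comm (hf 0 (by omega))
    | 2, _, hf => exact C.walk2 (hf 0 (by omega)) (hf 1 (by omega))
    | 3, _, hf => exact C.walk3 (hf 0 (by omega)) (hf 1 (by omega)) (hf 2 (by omega))
    | 4, _, hf => exact C.walk4 (hf 0 (by omega)) (hf 1 (by omega)) (hf 2 (by omega)) (hf 3 (by omega))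
    | m + 5, ih, hf =>
      have a1 : f 0 * f (m + 4) = f (m + 4) * f 0 :=
        ih (m + 4) (by omega) f (fun i hi => hf i (by omega))
      have a2 : f 0 * f (m + 3) = f (m + 3) * f 0 :=
        ih (m + 3) (by omega) f (fun i hi => hf i (by omega))
      have a3 : f 1 * f (m + 5) = f (m + 5) * f 1 := by
        have := ih (m + 4) (by omega) (fun i => f (i + 1)) (fun i hi => hf (i + 1) (by omega))
        exact this
      have a4 : f 2 * f (m + 5) = f (m + 5) * f 2 := by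
        have := ih (m + 3) (by omega) (fun i => f (i + 2)) (fun i hi => hf (i + 2) (by omega))
        exact this
      by_contra hne
      have hs0 : f 0 * f 0 = 1 := C.adj_sq_left (hf 0 (by omega))
      have hsn : f (m + 5) * f (m + 5) = 1 := C.adj_sq_right (hf (m + 4) (by omega))
      have b1 := C.step (hf (m + 3) (by omega)) (hf (m + 4) (by omega)) a2 a1 hs0
      have b2 := C.step (adj_symm (hf 1 (by omega))) (adj_symm (hf 0 (by omega))) a4.symm a3.symm hsn
      have hne1 : f 0 * f (m + 5) * (f 0)⁻¹ ≠ f (m + 5) := by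
        intro h
        apply hne
        rwa [mul_inv_eq_iff_eq_mul] at h
      have hne2 : f (m + 5) * f 0 * (f (m + 5))⁻¹ ≠ f 0 := by
        intro h
        apply hne
        rw [mul_inv_eq_iff_eq_mul] at h
        exact h.symm
      have b1' := b1.resolve_left hne1
      have b2' := b2.resolve_left hne2
      have hp2 : f (m + 3) * f (m + 3) = 1 := C.adj_sq_left (hf (m + 3) (by omega))
      have c1 : f (m + 3) = f 0 * f (m + 5) * (f 0)⁻¹ * (f (m + 5))⁻¹ := by rw [b1']; group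
      have c2 : f 2 = f (m + 5) * f 0 * (f (m + 5))⁻¹ * (f 0)⁻¹ := by rw [b2']; group
      have c3 : f 2 = f (m + 3) := by
        have h5 : (f (m + 3))⁻¹ = f (m + 3) := inv_eq_of_mul_eq_one_left hp2
        rw [← h5, c1, c2]
        group
      apply hne
      have h6 := hf (m + 3) (by omega)
      rw [← c3] at h6
      exact C.walk4 (hf 0 (by omega)) (hf 1 (by omega)) h6 (hf (m + 4) (by omega))

omit C in
theorem exists_walk_of_rtg {u v : G} (e : Relation.ReflTransGen (UAdj h) u v) :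
    ∃ (n : ℕ) (f : ℕ → G), f 0 = u ∧ f n = v ∧ ∀ i < n, UAdj h (f i) (f (i + 1)) := by
  classical
  induction e with
  | refl => exact ⟨0, fun _ => u, rfl, rfl, fun i hi => absurd hi (Nat.not_lt_zero i)⟩
  | @tail b c _ hbc ih =>
    obtain ⟨n, f, h0, hn, hf⟩ := ih
    refine ⟨n + 1, fun i => if i ≤ n then f i else c, ?_, ?_, ?_⟩
    · simp [h0]
    · simp
    · intro i hi
      by_cases h1 : i + 1 ≤ n
      · have h2 : i ≤ n := by omega
        simp only [h1, h2, if_true]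
        exact hf i (by omega)
      · have h2 : i = n := by omega
        subst h2
        simp only [le_refl, if_true, Nat.lt_irrefl, h1, if_false]
        rw [hn]
        exact hbc

theorem comm_of_rtg {u v : G} (e : Relation.ReflTransGen (UAdj h) u v) : u * v = v * u := by
  obtain ⟨n, f, rfl, rfl, hf⟩ := exists_walk_of_rtg e
  exact C.walk n f hf

/-- The conclusion: there is no such configuration with trivial `2`-core. -/
theorem false_of_core {K₁ K₂ T : Subgroup G}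
    (hK₁ : ∀ g ∈ K₁, g * h false * g⁻¹ = h false) (hK₂ : ∀ g ∈ K₂, g * h true * g⁻¹ = h true)
    (hT : ∀ g ∈ T, g * h true * g⁻¹ = h true)
    (hh₂T : h true ∈ T) (hh₂1 : h true ≠ 1) (hcore : pCoreOf 2 (K₁ ⊔ K₂ ⊔ T) = ⊥) : False := by
  classical
  haveI : Fact (Nat.Prime 2) := ⟨Nat.prime_two⟩
  set D := K₁ ⊔ K₂ ⊔ T with hD
  set 𝒱 : Set G := {u | Relation.ReflTransGen (UAdj h) (h true) u} with h𝒱
  have hlift : ∀ (g : G) {u v : G}, Relation.ReflTransGen (UAdj h) u v →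
      Relation.ReflTransGen (UAdj h) (g * u * g⁻¹) (g * v * g⁻¹) := by
    intro g u v e
    induction e with
    | refl => exact Relation.ReflTransGen.refl
    | tail _ hbc ih => exact ih.tail (adj_conj hbc g)
  have hedge : UAdj h (h false) (h true) := ⟨false, 1, by group, by simp⟩
  have hfix2 : ∀ g, g * h true * g⁻¹ = h true → ∀ z ∈ 𝒱, g * z * g⁻¹ ∈ 𝒱 := by
    intro g hg z hz
    have := hlift g hz
    rw [hg] at this
    exact this
  have hfix1 : ∀ g, g * h false * g⁻¹ = h false → ∀ z ∈ 𝒱, g * z * g⁻¹ ∈ 𝒱 := by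
    intro g hg z hz
    have h1 := hlift g hz
    have h2 : Relation.ReflTransGen (UAdj h) (h true) (g * h true * g⁻¹) := by
      have h3 : UAdj h (g * h false * g⁻¹) (g * h true * g⁻¹) := adj_conj hedge g
      rw [hg] at h3
      exact (Relation.ReflTransGen.single (adj_symm hedge)).tail h3
    exact h2.trans h1
  have hstab : D ≤ setStab 𝒱 := by
    apply sup_le (sup_le _ _) _
    · intro g hg
      exact hfix1 g (hK₁ g hg)
    · intro g hg
      exact hfix2 g (hK₂ g hg)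
    · intro g hg
      exact hfix2 g (hT g hg)
  have hVV : ∀ g ∈ D, g * h true * g⁻¹ ∈ 𝒱 := fun g hg => hstab hg (h true) Relation.ReflTransGen.refl
  set O : Set G := {u | ∃ g ∈ D, u = g * h true * g⁻¹} with hO
  set E := Subgroup.closure O with hE
  have hh₂D : h true ∈ D := le_sup_right (α := Subgroup G) hh₂T
  have hEcomm : ∀ a ∈ O, ∀ b ∈ O, a * b = b * a := by
    rintro _ ⟨g, hg, rfl⟩ _ ⟨g', hg', rfl⟩
    have hsym : ∀ {u v : G}, Relation.ReflTransGen (UAdj h) u v → Relation.ReflTransGen (UAdj h) v u := by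
      intro u v e
      induction e with
      | refl => exact Relation.ReflTransGen.refl
      | tail _ hbc ih => exact Relation.ReflTransGen.head (adj_symm hbc) ih
    have h1 : Relation.ReflTransGen (UAdj h) (g * h true * g⁻¹) (h true) := hsym (hVV g hg)
    exact C.comm_of_rtg (h1.trans (hVV g' hg'))
  have hEp : IsPGroup 2 E := by
    apply ea_isPGroup
    apply isElementaryAbelian_closure hEcomm
    rintro _ ⟨g, hg, rfl⟩
    rw [pow_two]
    calc g * h true * g⁻¹ * (g * h true * g⁻¹) = g * (h true * h true) * g⁻¹ := by group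
      _ = 1 := by rw [C.hsq]; group
  have hED : E ≤ D := by
    rw [hE, Subgroup.closure_le]
    rintro _ ⟨g, hg, rfl⟩
    exact D.mul_mem (D.mul_mem hg hh₂D) (D.inv_mem hg)
  have hDE : D ≤ Subgroup.normalizer (E : Set G) := by
    intro d hd
    apply Cfsg.Agent.Lib.Subnormal.mem_normalizer_of_conj_mem
    intro e he
    rw [hE] at he
    induction he using Subgroup.closure_induction with
    | mem u hu =>
      obtain ⟨g, hg, rfl⟩ := hu
      apply Subgroup.subset_closure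
      exact ⟨d * g, D.mul_mem hd hg, by group⟩
    | one => simp [E.one_mem]
    | mul a b _ _ ha hb =>
      have : d * (a * b) * d⁻¹ = (d * a * d⁻¹) * (d * b * d⁻¹) := by group
      rw [this]
      exact E.mul_mem ha hb
    | inv a _ ha =>
      have : d * a⁻¹ * d⁻¹ = (d * a * d⁻¹)⁻¹ := by group
      rw [this]
      exact E.inv_mem ha
  have hle : E ≤ pCoreOf 2 D := le_pCoreOf hED hDE hEp
  rw [hcore, le_bot_iff] at hle
  have hh₂E : h true ∈ E := Subgroup.subset_closure ⟨1, D.one_mem, by group⟩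
  rw [hle] at hh₂E
  exact hh₂1 (Subgroup.mem_bot.mp hh₂E)

end BWalk

end Cfsg.Agent.Lib.FFG
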