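import Mathlib
import Cfsg.Agent.Lib.FFG34

/-!
# Failure of factorization at the level of the group, part 35: `W₁` and `W₂` do not commute when `T = S`
-/

set_option autoImplicit false
set_option linter.unusedSectionVars false

open Cfsg
open scoped commutatorElement

namespace Cfsg.Agent.Lib.FFG

open Cfsg.Agent.Lib.FFAct Cfsg.Agent.Lib.PCore Cfsg.Agent.Lib.JCompStruct Cfsg.Agent.Lib.ThompsonJ
open Cfsg.Agent.Lib.BGFit2

variable {G : Type*} [Group G] [Finite G]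

namespace TC

variable {T K₁ K₂ L₁ L₂ : Subgroup G} {k₁ a b k₂ c d : G} (C : TC T K₁ K₂ L₁ L₂ k₁ a b k₂ c d)
include C

/-- `b` is not in `Z₀`. -/
theorem b_not_Z₀ : b ∉ omegaCenterOf (thompsonSubgroupOf 2 T) := by
  intro hb
  have hJ₁ := C.hJ₁
  have hbb : b * b = 1 := hJ₁.hWsq b hJ₁.hw₂mem
  rcases jcs_decomp hJ₁ hb with h | h
  · have h1 := C.hZK h hJ₁.hkK
    rw [hJ₁.hk₂] at h1
    exact hJ₁.hw₁1 (mul_eq_right.mp h1)
  · have h1 := C.hZK h hJ₁.hkK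
    have e : k₁ * (b * a) * k₁⁻¹ = (k₁ * b * k₁⁻¹) * (k₁ * a * k₁⁻¹) := by group
    rw [e, hJ₁.hk₂, hJ₁.hw₂, mul_assoc, hbb, mul_one] at h1
    exact hJ₁.hw₂1 (mul_eq_right.mp h1.symm)

theorem ab_not_Z₀ : a * b ∉ omegaCenterOf (thompsonSubgroupOf 2 T) := by
  intro hb
  apply C.b_not_Z₀
  have h1 := Subgroup.mul_mem _ C.haZ hb
  rwa [← mul_assoc, omega_sq C.haZ, one_mul] at h1

theorem hac_ne {e : G} (he : e ∈ hpl (thompsonSubgroupOf 2 T) K₁) : e ≠ a := by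
  rintro rfl
  exact jcs_w₁_not_hpl C.hJ₁ he

section Com

variable (hcom : ∀ u ∈ wOf K₁, ∀ v ∈ wOf K₂, u * v = v * u) (Z : ZNH G)
include hcom Z

omit Z in
theorem hcases₁ {z : G} (hz : z ∈ hpl (thompsonSubgroupOf 2 T) K₁) : z = 1 ∨ z = c := by
  rcases hpl_small C.hJ₂ (fun u h3 h4 => hpl_sep C.htop₁ C.hnot h3 h4) hz (C.hcH hcom) with h | h | h
  · exact Or.inl h
  · exact absurd h C.hJ₂.hw₁1
  · exact Or.inr h

omit Z in
theorem hZ₄ {z : G} (hz : z ∈ omegaCenterOf (thompsonSubgroupOf 2 T)) : z = 1 ∨ z = c ∨ z = a ∨ z = c * a :=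
  Z₀_cases C.hJ₁ (fun _ h => C.hcases₁ hcom h) C.hcZ hz

theorem hC₁ : Subgroup.centralizer ({c} : Set G) ≤ Subgroup.normalizer (K₁ : Set G) :=
  Z.cent_le_norm C.hT2 C.hT1 C.hJ₁ C.hK₁ C.htop₁ C.hLT₁.1 C.hTN₁ (C.hcH hcom) C.hJ₂.hw₁1
    (fun t ht => C.hcen t ht c C.hcZ) (fun _ hz => C.hcases₁ hcom hz)

omit hcom Z in
theorem hcent {g e : G} (hg : g * e * g⁻¹ = e) : g ∈ Subgroup.centralizer ({e} : Set G) := by
  rw [Subgroup.mem_centralizer_singleton_iff]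
  exact mul_inv_eq_iff_eq_mul.mp hg

theorem hs₁ {g : G} (hg : g * c * g⁻¹ = c) : g * a * g⁻¹ ∈ wOf K₁ :=
  conj_mem_wOf (C.hC₁ hcom Z (C.hcent hg)) C.hJ₁.hw₁

omit Z in
/-- No Pauli configuration. -/
theorem hnoP (hnp : (k₂ * b * k₂⁻¹) * b = b * (k₂ * b * k₂⁻¹)) :
    ∀ u ∈ wOf K₁, ∀ v ∈ wOf K₁, u * (k₂ * v * k₂⁻¹) = (k₂ * v * k₂⁻¹) * u := by
  have hJ₁ := C.hJ₁
  have hJ₂ := C.hJ₂
  have hW₁Q : ∀ v ∈ wOf K₁, v ∈ Qof T K₂ := fun v hv => mem_Qof.mpr ⟨C.hWT₁ hv, fun u hu => hcom v hv u hu⟩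
  have hkv : ∀ v ∈ wOf K₁, k₂ * v * k₂⁻¹ ∈ T := fun v hv =>
    C.swap.hQ₁T (jcs_k_conj_Q hJ₂ C.hTN₂ C.swap.hsyl₁ (hW₁Q v hv))
  have hk₂w' : k₂ * a * k₂⁻¹ = a := C.hk₂a hcom
  have hcw : a * b = b * a := wOf_comm hJ₁.hw₁ hJ₁.hw₂mem
  have hcw₂ : ∀ v ∈ wOf K₁, (k₂ * v * k₂⁻¹) * b = b * (k₂ * v * k₂⁻¹) := by
    intro v hv
    rcases hJ₁.hset v hv with rfl | rfl | rfl | rfl
    · group
    · rw [hk₂w']; exact hcw
    · exact hnp
    · have e : k₂ * (a * b) * k₂⁻¹ = a * (k₂ * b * k₂⁻¹) := by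
        calc k₂ * (a * b) * k₂⁻¹ = (k₂ * a * k₂⁻¹) * (k₂ * b * k₂⁻¹) := by group
          _ = a * (k₂ * b * k₂⁻¹) := by rw [hk₂w']
      rw [e]
      calc a * (k₂ * b * k₂⁻¹) * b = a * ((k₂ * b * k₂⁻¹) * b) := by group
        _ = a * (b * (k₂ * b * k₂⁻¹)) := by rw [hnp]
        _ = (a * b) * (k₂ * b * k₂⁻¹) := by group
        _ = (b * a) * (k₂ * b * k₂⁻¹) := by rw [hcw]
        _ = b * (a * (k₂ * b * k₂⁻¹)) := by group
  intro u hu v hv
  have h1 := hkv v hv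
  have h2 : (k₂ * v * k₂⁻¹) * a = a * (k₂ * v * k₂⁻¹) := C.hcen _ h1 a C.haZ
  have h3 := hcw₂ v hv
  rcases hJ₁.hset u hu with rfl | rfl | rfl | rfl
  · group
  · exact h2.symm
  · exact h3.symm
  · calc a * b * (k₂ * v * k₂⁻¹) = a * (b * (k₂ * v * k₂⁻¹)) := by group
      _ = a * ((k₂ * v * k₂⁻¹) * b) := by rw [h3]
      _ = (a * (k₂ * v * k₂⁻¹)) * b := by group
      _ = ((k₂ * v * k₂⁻¹) * a) * b := by rw [h2]
      _ = (k₂ * v * k₂⁻¹) * (a * b) := by group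

theorem hs₃ (hnp : (k₂ * b * k₂⁻¹) * b = b * (k₂ * b * k₂⁻¹)) {g : G} (hg : g * a * g⁻¹ = a) :
    ∀ u ∈ wOf K₁, ∀ v ∈ wOf K₁, u * (g * v * g⁻¹) = (g * v * g⁻¹) * u := by
  have hJ₂ := C.hJ₂
  have hnoP := C.hnoP hcom hnp
  have hC₁ := C.hC₁ hcom Z
  have hgc := C.swap.hs₁ (C.hcom' hcom) Z hg
  intro u hu v hv
  rcases hJ₂.hset _ hgc with e | e | e | e
  · exfalso
    apply hJ₂.hw₁1
    have h3 : g⁻¹ * (g * c * g⁻¹) * g = g⁻¹ * 1 * g := by rw [e]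
    rw [show g⁻¹ * (g * c * g⁻¹) * g = c by group] at h3
    simpa using h3
  · exact wOf_comm hu (conj_mem_wOf (hC₁ (C.hcent e)) hv)
  · have h1 : (k₂⁻¹ * g) * c * (k₂⁻¹ * g)⁻¹ = c := by
      calc (k₂⁻¹ * g) * c * (k₂⁻¹ * g)⁻¹ = k₂⁻¹ * (g * c * g⁻¹) * k₂ := by group
        _ = k₂⁻¹ * d * k₂ := by rw [e]
        _ = k₂⁻¹ * (k₂ * c * k₂⁻¹) * k₂ := by rw [hJ₂.hw₂]
        _ = c := by group
    have h2 := conj_mem_wOf (hC₁ (C.hcent h1)) hv
    have h3 := hnoP u hu _ h2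
    have e2 : g * v * g⁻¹ = k₂ * ((k₂⁻¹ * g) * v * (k₂⁻¹ * g)⁻¹) * k₂⁻¹ := by group
    rw [e2]
    exact h3
  · have h1 : (k₂ * g) * c * (k₂ * g)⁻¹ = c := by
      calc (k₂ * g) * c * (k₂ * g)⁻¹ = k₂ * (g * c * g⁻¹) * k₂⁻¹ := by group
        _ = k₂ * (c * d) * k₂⁻¹ := by rw [e]
        _ = c := hJ₂.hk₃
    have h2 := conj_mem_wOf (hC₁ (C.hcent h1)) hv
    have h3 := hnoP _ h2 u hu
    set v' := (k₂ * g) * v * (k₂ * g)⁻¹ with hv'
    have e2 : g * v * g⁻¹ = k₂⁻¹ * v' * k₂ := by rw [hv']; group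
    rw [e2]
    calc u * (k₂⁻¹ * v' * k₂) = k₂⁻¹ * ((k₂ * u * k₂⁻¹) * v') * k₂ := by group
      _ = k₂⁻¹ * (v' * (k₂ * u * k₂⁻¹)) * k₂ := by rw [h3]
      _ = k₂⁻¹ * v' * k₂ * u := by group

end Com

end TC

namespace TCS

variable {S : Sylow 2 G} {K₁ K₂ L₁ L₂ : Subgroup G} {k₁ a b k₂ c d : G}
  (C : TC (S : Subgroup G) K₁ K₂ L₁ L₂ k₁ a b k₂ c d)
  (hcom : ∀ u ∈ wOf K₁, ∀ v ∈ wOf K₂, u * v = v * u) (Z : ZNH G)
include C hcom Z

/-- Involutions centralizing `Z₀` lie in `S`. -/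
theorem s_mem {s : G} (h1 : s * c = c * s) (h2 : s * a = a * s) (hss : s * s = 1) : s ∈ (S : Subgroup G) := by
  haveI : Fact (Nat.Prime 2) := ⟨Nat.prime_two⟩
  have hsN : s ∈ Subgroup.normalizer ((S : Subgroup G) : Set G) := by
    apply Z.hZ S
    rw [Subgroup.mem_centralizer_iff]
    intro z hz
    have hz1 : z ∈ omegaCenterOf (thompsonSubgroupOf 2 (S : Subgroup G)) := omega_le_Z₀ _ hz
    rcases C.hZ₄ hcom hz1 with rfl | rfl | rfl | rfl
    · group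
    · exact h1.symm
    · exact h2.symm
    · calc c * a * s = c * (a * s) := by group
        _ = c * (s * a) := by rw [h2]
        _ = (c * s) * a := by group
        _ = (s * c) * a := by rw [h1]
        _ = s * (c * a) := by group
  have hs2 : s ^ 2 = 1 := by rw [pow_two]; exact hss
  have hP : IsPGroup 2 (Subgroup.zpowers s) := by
    rw [Subgroup.zpowers_eq_closure]
    exact ea_isPGroup (isElementaryAbelian_closure (by rintro a rfl b rfl; rfl) (by rintro a rfl; exact hs2))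
  have h3 := hP.inf_normalizer_sylow S
  have h4 : s ∈ Subgroup.zpowers s ⊓ Subgroup.normalizer (S : Set G) := ⟨Subgroup.mem_zpowers s, hsN⟩
  rw [h3] at h4
  exact h4.2

/-- An element normalizing `S` cannot swap `c` and `a`. -/
theorem no_swap {y : G} (hyc : y * c * y⁻¹ = a) (hya : y * a * y⁻¹ = c) (hyN : y ∈ Subgroup.normalizer ((S : Subgroup G) : Set G)) :
    False := by
  classical
  have hne : c ≠ a := C.hac_ne (C.hcH hcom)
  set X := setStab ({c, a} : Set G) with hX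
  have hSX : (S : Subgroup G) ≤ X := by
    intro s hs z hz
    rcases hz with rfl | hz
    · rw [C.hTc hs]; exact Or.inl rfl
    · rw [Set.mem_singleton_iff] at hz
      subst hz
      rw [C.hTa hs]; exact Or.inr rfl
  have hyX : y ∈ X := by
    intro z hz
    rcases hz with rfl | hz
    · rw [hyc]; exact Or.inr rfl
    · rw [Set.mem_singleton_iff] at hz
      subst hz
      rw [hya]; exact Or.inl rfl
  have hact : ∀ x ∈ X, x * c * x⁻¹ = c ∨ x * c * x⁻¹ = a := by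
    intro x hx
    rcases hx c (Or.inl rfl) with h | h
    · exact Or.inl h
    · exact Or.inr h
  have hcard := card_le_two_mul X c a hact
  have hSC : (S : Subgroup G) ≤ X ⊓ Subgroup.centralizer ({c} : Set G) :=
    le_inf hSX (fun s hs => TC.hcent C (C.hTc hs))
  have h1 := le_of_relIndex_le_two (isSylowTwoIn_of_sylow S hSX) hSC inf_le_left hcard
  have h2 := (h1 hyX).2
  have h3 := Subgroup.mem_centralizer_singleton_iff.mp h2
  have h4 : y * c * y⁻¹ = c := by rw [h3]; group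
  exact hne (h4.symm.trans hyc)

/-- `c` and `a` are not conjugate. -/
theorem hnc (g : G) : g * c * g⁻¹ ≠ a := by
  intro hg
  classical
  haveI : Fact (Nat.Prime 2) := ⟨Nat.prime_two⟩
  have hJ₁ := C.hJ₁
  have hJ₂ := C.hJ₂
  have hcH := C.hcH hcom
  have haH := C.haH hcom
  have hne : c ≠ a := C.hac_ne hcH
  have ha1 : a ≠ 1 := hJ₁.hw₁1
  have hc1 : c ≠ 1 := hJ₂.hw₁1
  set Ca := Subgroup.centralizer ({a} : Set G) with hCa
  have hSCa : (S : Subgroup G) ≤ Ca := fun s hs => TC.hcent C (C.hTa hs)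
  obtain ⟨S', hS'⟩ := exists_sylow_cj S g
  have hS'Ca : (S' : Subgroup G) ≤ Ca := by
    rw [hS']
    rintro _ ⟨s, hs, rfl⟩
    apply TC.hcent C
    have e : (MulAut.conj g).toMonoidHom s = g * s * g⁻¹ := rfl
    rw [e]
    calc g * s * g⁻¹ * a * (g * s * g⁻¹)⁻¹ = g * (s * (g⁻¹ * a * g) * s⁻¹) * g⁻¹ := by group
      _ = g * (s * c * s⁻¹) * g⁻¹ := by rw [← hg]; group
      _ = g * c * g⁻¹ := by rw [C.hTc hs]
      _ = a := hg
  obtain ⟨l, hl, hlS⟩ := exists_conj_of_sylow (isSylowTwoIn_of_sylow S' hS'Ca) (isSylowTwoIn_of_sylow S hSCa)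
  set y := l * g with hy
  have hyc : y * c * y⁻¹ = a := by
    calc y * c * y⁻¹ = l * (g * c * g⁻¹) * l⁻¹ := by rw [hy]; group
      _ = l * a * l⁻¹ := by rw [hg]
      _ = a := by rw [Subgroup.mem_centralizer_singleton_iff.mp hl]; group
  have hyN : y ∈ Subgroup.normalizer ((S : Subgroup G) : Set G) := by
    apply Cfsg.Agent.Lib.Subnormal.mem_normalizer_of_conj_mem
    intro s hs
    rw [hlS, hS']
    refine ⟨g * s * g⁻¹, ⟨s, hs, rfl⟩, ?_⟩
    show l * (g * s * g⁻¹) * l⁻¹ = y * s * y⁻¹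
    rw [hy]; group
  have hyJ : y ∈ Subgroup.normalizer (thompsonSubgroupOf 2 (S : Subgroup G) : Set G) :=
    normalizer_le_normalizer_thompson _ hyN
  set K' := cj y K₁ with hK'def
  have hK' : IsJComponent (S : Subgroup G) K' := isJComponent_cj_of_normalizer C.hK₁ hyJ
  have haK' : a ∈ hpl (thompsonSubgroupOf 2 (S : Subgroup G)) K' := by
    have := conj_mem_hpl hyJ hcH
    rwa [hyc] at this
  have hK'L₂ : K' ≤ L₂ := fun x hx => C.htop₂.centralizer_le haH ha1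
    (Subgroup.mem_centralizer_singleton_iff.mpr ((mem_hpl.mp haK').2 x hx))
  have hK₂N : K₂ ≤ Subgroup.normalizer (K' : Set G) :=
    Z.comp_norm C.hT2 C.hT1 C.hLT₂ hK' C.hK₂ hK'L₂ C.htop₂.K_le
  have hzW' : y * a * y⁻¹ ∈ wOf K' := by
    rw [hK'def, wOf_cj]
    exact conj_mem_cj hJ₁.hw₁
  have hzZ : y * a * y⁻¹ ∈ omegaCenterOf (thompsonSubgroupOf 2 (S : Subgroup G)) :=
    omega_conj_of_normalizer hyJ C.haZ
  by_cases hdis : ∀ u ∈ wOf K₂, u ∈ wOf K' → u = 1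
  · obtain ⟨_, _, _, hkc⟩ := Z.kc_of C.hT2 C.hT1 C.hLT₂ C.hK₂ C.htop₂.K_le
    obtain ⟨_, _, _, hkc'⟩ := Z.kc_of C.hT2 C.hT1 C.hLT₂ hK' hK'L₂
    have hzH : y * a * y⁻¹ ∈ hpl (thompsonSubgroupOf 2 (S : Subgroup G)) K₂ :=
      mem_hpl.mpr ⟨hzZ, fun κ hκ => hkc.centralizes_of_disjoint hkc' hdis hκ hzW'⟩
    rcases C.swap.hcases₁ (C.hcom' hcom) hzH with h | h
    · apply ha1
      have h3 : y⁻¹ * (y * a * y⁻¹) * y = y⁻¹ * 1 * y := by rw [h]
      rw [show y⁻¹ * (y * a * y⁻¹) * y = a by group] at h3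
      simpa using h3
    · apply hne
      have h3 : y * c * y⁻¹ = y * a * y⁻¹ := by rw [hyc, h]
      exact mul_left_cancel (mul_right_cancel h3)
  · push Not at hdis
    obtain ⟨u, huW, huW', hu1⟩ := hdis
    have hkW' : ∀ v ∈ wOf K', k₂ * v * k₂⁻¹ ∈ wOf K' := fun v hv => conj_mem_wOf (hK₂N hJ₂.hkK) hv
    have hcW' : c ∈ wOf K' := by
      rcases hJ₂.hset u huW with rfl | rfl | rfl | rfl
      · exact absurd rfl hu1
      · exact huW'
      · have := hkW' _ (hkW' _ huW')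
        rwa [hJ₂.hk₂, hJ₂.hk₃] at this
      · have := hkW' _ huW'
        rwa [hJ₂.hk₃] at this
    rw [hK'def, wOf_cj, mem_cj] at hcW'
    have hvZ : y⁻¹ * c * y ∈ omegaCenterOf (thompsonSubgroupOf 2 (S : Subgroup G)) := by
      have := omega_conj_of_normalizer (Subgroup.inv_mem _ hyJ) C.hcZ
      rwa [inv_inv] at this
    rcases hJ₁.hset _ hcW' with h | h | h | h
    · apply hc1
      have h3 : y * (y⁻¹ * c * y) * y⁻¹ = y * 1 * y⁻¹ := by rw [h]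
      rw [show y * (y⁻¹ * c * y) * y⁻¹ = c by group] at h3
      simpa using h3
    · refine no_swap C hcom Z hyc ?_ hyN
      rw [← h]; group
    · rw [h] at hvZ
      exact C.b_not_Z₀ hvZ
    · rw [h] at hvZ
      exact C.ab_not_Z₀ hvZ

/-- The data for the walks. -/
theorem bwalk (hnp₁ : (k₂ * b * k₂⁻¹) * b = b * (k₂ * b * k₂⁻¹)) (hnp₂ : (k₁ * d * k₁⁻¹) * d = d * (k₁ * d * k₁⁻¹)) :
    BWalk (fun t => cond t a c) (fun t => cond t (wOf K₂) (wOf K₁)) := by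
  have hcom' := C.hcom' hcom
  have hs4 : ∀ s, s * c = c * s → s * a = a * s → s * s = 1 → s ∈ (S : Subgroup G) :=
    fun s h1 h2 h3 => s_mem C hcom Z h1 h2 h3
  refine ⟨omega_comm C.hcZ C.haZ, ?_, ?_, ?_, hcom, ?_, ?_, hnc C hcom Z⟩
  · intro t
    cases t
    · exact omega_sq C.hcZ
    · exact omega_sq C.haZ
  · intro t u hu v hv
    cases t
    · exact wOf_comm hu hv
    · exact wOf_comm hu hv
  · intro t g hg
    cases t
    · exact C.hs₁ hcom Z hg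
    · exact C.swap.hs₁ hcom' Z hg
  · intro t g hg
    cases t
    · exact C.swap.hs₃ hcom' Z hnp₂ hg
    · exact C.hs₃ hcom Z hnp₁ hg
  · intro t s h1 h2 h3 u hu
    have hsS := hs4 s h1 h2 h3
    cases t
    · -- `u ∈ wOf K₁`
      have hTa : ∀ t ∈ (S : Subgroup G), t * a * t⁻¹ = a := fun t ht => C.hTa ht
      have hu' : u ∈ wOf K₁ := hu
      show s * u * s⁻¹ = u ∨ s * u * s⁻¹ = a * u
      rcases C.hJ₁.hset u hu' with rfl | rfl | rfl | rfl
      · left; group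
      · left; exact hTa s hsS
      · exact jcs_T_act C.hJ₁ C.hTN₁ hTa hsS
      · have e : s * (a * b) * s⁻¹ = a * (s * b * s⁻¹) := by
          calc s * (a * b) * s⁻¹ = (s * a * s⁻¹) * (s * b * s⁻¹) := by group
            _ = _ := by rw [hTa s hsS]
        rw [e]
        rcases jcs_T_act C.hJ₁ C.hTN₁ hTa hsS with h | h
        · left; rw [h]
        · right; rw [h]
    · have hTc : ∀ t ∈ (S : Subgroup G), t * c * t⁻¹ = c := fun t ht => C.hTc ht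
      have hu' : u ∈ wOf K₂ := hu
      show s * u * s⁻¹ = u ∨ s * u * s⁻¹ = c * u
      rcases C.hJ₂.hset u hu' with rfl | rfl | rfl | rfl
      · left; group
      · left; exact hTc s hsS
      · exact jcs_T_act C.hJ₂ C.hTN₂ hTc hsS
      · have e : s * (c * d) * s⁻¹ = c * (s * d * s⁻¹) := by
          calc s * (c * d) * s⁻¹ = (s * c * s⁻¹) * (s * d * s⁻¹) := by group
            _ = _ := by rw [hTc s hsS]
        rw [e]
        rcases jcs_T_act C.hJ₂ C.hTN₂ hTc hsS with h | h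
        · left; rw [h]
        · right; rw [h]

/-- **Main claim**, `T = S`: `W₁` does not centralize `W₂`. -/
theorem not_comm : False := by
  have hcom' := C.hcom' hcom
  by_cases hp₁ : (k₂ * b * k₂⁻¹) * b = b * (k₂ * b * k₂⁻¹)
  · by_cases hp₂ : (k₁ * d * k₁⁻¹) * d = d * (k₁ * d * k₁⁻¹)
    · have hconj : ∀ {g h : G}, g * h = h * g → g * h * g⁻¹ = h := by
        intro g h hg
        rw [hg]; group
      have hcH := mem_hpl.mp (C.hcH hcom)
      have haH := mem_hpl.mp (C.haH hcom)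
      exact (bwalk C hcom Z hp₁ hp₂).false_of_core (K₁ := K₁) (K₂ := K₂) (T := (S : Subgroup G))
        (fun g hg => hconj (hcH.2 g hg)) (fun g hg => hconj (haH.2 g hg)) (fun g hg => C.hTa hg)
        (C.hZT C.haZ) C.hJ₁.hw₁1 C.core_eq_bot
    · exact C.swap.pauli_false hcom' hp₂
  · exact C.pauli_false hcom hp₁

end TCS

end Cfsg.Agent.Lib.FFG
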