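import Mathlib
import Cfsg.Agent.Lib.FFG35
import Cfsg.Agent.S2949

/-!
# Failure of factorization at the level of the group, part 36: the final configuration
-/

set_option autoImplicit false
set_option linter.unusedSectionVars false

open Cfsg
open scoped commutatorElement

namespace Cfsg.Agent.Lib.FFG

open Cfsg.Agent.Lib.FFAct Cfsg.Agent.Lib.PCore Cfsg.Agent.Lib.JCompStruct Cfsg.Agent.Lib.ThompsonJ
open Cfsg.Agent.Lib.BGFit2

variable {G : Type*} [Group G] [Finite G]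

/-- The configuration exists. -/
theorem exists_TN (Z : ZNH G) (hO : pCore 2 G = ⊥) (S : Sylow 2 G) {M T K : Subgroup G} (hM : IsTwoLocal M)
    (hMJ : Subgroup.normalizer (thompsonSubgroupOf 2 (S : Subgroup G) : Set G) ≤ M) (hT : T ∈ maxStraddlingTwoSubgroups M)
    (hTS : T ≤ (S : Subgroup G)) (hK : K ∈ jComponentsOutside M T) :
    ∃ K₂ L₁ L₂ k₁ a b k₂ c d e e₂, TN T K K₂ L₁ L₂ k₁ a b k₂ c d e e₂ := by
  by_cases hne : T = (S : Subgroup G)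
  · subst hne
    obtain ⟨L, htop, hLT⟩ := exists_topOf Z hO S hM hMJ hT hK
    obtain ⟨K', L', hK', htop', hLT', hnot⟩ := exists_second Z hO S hK.1.1 htop hLT
    have hSp : IsPGroup 2 (S : Subgroup G) := S.isPGroup'
    obtain ⟨k, w₁, w₂, hJ⟩ := exists_JCS hSp hK.1.1
    obtain ⟨k', a₁, a₂, hJ'⟩ := exists_JCS hSp hK'
    have hf := fun (s : G) (hs : s ∈ (S : Subgroup G)) (z : G) (hz : z ∈ omegaCenterOf (thompsonSubgroupOf 2 (S : Subgroup G))) =>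
      topsep Z S hJ hJ' htop hLT.1.1 hnot hs hz
    have hS1 : (S : Subgroup G) ≠ ⊥ := by
      intro h
      apply hJ.hw₁1
      have h1 : w₁ ∈ (S : Subgroup G) := Cfsg.Agent.Lib.JCompBasic.thompsonSubgroupOf_le 2 _ (jcs_W_le_J hJ hJ.hw₁)
      rw [h] at h1
      exact (Subgroup.mem_bot).mp h1
    have C : TC (S : Subgroup G) K K' L L' k w₁ w₂ k' a₁ a₂ :=
      ⟨hSp, hS1, hK.1.1, hK', hJ, hJ', htop, htop', hLT, hLT', sylow_norm Z S hJ hK.1.1 htop.K_le hLT hf,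
        sylow_norm Z S hJ' hK' htop'.K_le hLT' hf, hnot, fun t ht z hz => mul_inv_eq_iff_eq_mul.mp (hf t ht z hz)⟩
    have h : ∃ u ∈ wOf K, ∃ v ∈ wOf K', u * v ≠ v * u := by
      by_contra h
      push Not at h
      exact TCS.not_comm C h Z
    obtain ⟨e, he, e₂, he₂, hne⟩ := h
    exact ⟨K', L, L', k, w₁, w₂, k', a₁, a₂, e, e₂, ⟨C, he, he₂, hne⟩⟩
  · obtain ⟨L, x, k, w₁, w₂, k₂, w₃, C⟩ := exists_TSC Z hO S hM hMJ hT hTS hne hK
    have C' : TC T K (cj x K) L (cj x L) k w₁ w₂ k₂ (x * w₁ * x⁻¹) w₃ :=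
      ⟨C.hT2, C.hT1, C.hK, C.hK₂, C.hJ, C.hJ₂, C.htop, C.htop₂, C.hLT, C.hLT₂ Z, C.hTN Z, C.hTN₂ Z, C.hnotle,
        fun t ht z hz => C.Z₀_central ht hz⟩
    have h : ∃ u ∈ wOf K, ∃ v ∈ wOf (cj x K), u * v ≠ v * u := by
      by_contra h
      push Not at h
      exact C.not_comm Z h
    obtain ⟨e, he, e₂, he₂, hne⟩ := h
    exact ⟨cj x K, L, cj x L, k, w₁, w₂, k₂, x * w₁ * x⁻¹, w₃, e, e₂, ⟨C', he, he₂, hne⟩⟩

/-- The main theorem on straddling subgroups. -/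
theorem final_S4 (Z : ZNH G) (hO : pCore 2 G = ⊥) (S : Sylow 2 G) {M T : Subgroup G} (hM : IsTwoLocal M)
    (hMJ : Subgroup.normalizer (thompsonSubgroupOf 2 (S : Subgroup G) : Set G) ≤ M) (hT : T ∈ maxStraddlingTwoSubgroups M) :
    ∃ P₁ P₂ : Subgroup G, P₁ ≠ P₂ ∧ IsMaximalTwoLocal P₁ ∧ IsMaximalTwoLocal P₂ ∧
      IsSylowTwoIn T P₁ ∧ IsSylowTwoIn T P₂ ∧
      ((Nonempty (↥P₁ ≃* Equiv.Perm (Fin 4)) ∧ Nonempty (↥P₂ ≃* Equiv.Perm (Fin 4))) ∨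
        (Nonempty (↥P₁ ≃* Equiv.Perm (Fin 4) × Multiplicative (ZMod 2)) ∧
          Nonempty (↥P₂ ≃* Equiv.Perm (Fin 4) × Multiplicative (ZMod 2)))) := by
  obtain ⟨S', hTS', hMJ'⟩ := exists_sylow_over S hMJ hT.1.2.2.1 hT.1.1
  obtain ⟨K, hK⟩ := Cfsg.Agent.S2949.result Z.hL Z.hN Z.hZ hO S' M hM hMJ' T hT
  obtain ⟨K₂, L₁, L₂, k₁, a, b, k₂, c, d, e, e₂, N⟩ := exists_TN Z hO S' hM hMJ' hT hTS' hK
  refine ⟨L₁, L₂, ?_, N.htop₁.hL, N.htop₂.hL, N.hLT₁.1, N.hLT₂.1, ?_⟩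
  · intro h
    apply N.hnot
    rw [h]
    exact N.htop₂.K_le
  · by_cases hH₁ : ∀ z ∈ hpl (thompsonSubgroupOf 2 T) K, z = 1
    · -- `|Z₀| = 2`
      have hc2 := Z₀_card_two N.hJ₁ hH₁
      left
      refine ⟨N.iso₁ Z hH₁, ?_⟩
      have hH₂ : ∀ z ∈ hpl (thompsonSubgroupOf 2 T) K₂, z = 1 := by
        intro z hz
        by_contra hz1
        have hsm : ∀ y ∈ hpl (thompsonSubgroupOf 2 T) K₂, y = 1 ∨ y = z := by
          intro y hy
          rcases hpl_small N.hJ₁ (fun u h3 h4 => hpl_sep N.htop₁ N.hnot h4 h3) hy hz with h | h | h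
          · exact Or.inl h
          · exact absurd h hz1
          · exact Or.inr h
        have := Z₀_card_four N.hJ₂ hz hz1 hsm
        omega
      exact N.swap.iso₁ Z hH₂
    · push Not at hH₁
      obtain ⟨c₁, hc, hc1⟩ := hH₁
      have hsm : ∀ y ∈ hpl (thompsonSubgroupOf 2 T) K, y = 1 ∨ y = c₁ := by
        intro y hy
        rcases hpl_small N.hJ₂ (fun u h3 h4 => hpl_sep N.htop₁ N.hnot h3 h4) hy hc with h | h | h
        · exact Or.inl h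
        · exact absurd h hc1
        · exact Or.inr h
      have hc4 := Z₀_card_four N.hJ₁ hc hc1 hsm
      right
      refine ⟨N.iso₂ Z hc hc1, ?_⟩
      by_cases hH₂ : ∀ z ∈ hpl (thompsonSubgroupOf 2 T) K₂, z = 1
      · have := Z₀_card_two N.hJ₂ hH₂
        omega
      · push Not at hH₂
        obtain ⟨c₂, hc', hc2⟩ := hH₂
        exact N.swap.iso₂ Z hc' hc2

end Cfsg.Agent.Lib.FFG
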