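import Mathlib

/-!
# Feit--Higman: the number theory

From the rationality of `R(τ)` for all `τ = √(q₁q₂) cos(2πj/m)`, deduce `m ∈ {2,3,4,6,8}`.
-/

set_option autoImplicit false

namespace Cfsg.Agent.Lib.FHNum

open Real

/-- The rational numbers inside `ℝ`. -/
noncomputable abbrev KQ : Subfield ℝ := (algebraMap ℚ ℝ).fieldRange

/-- The quantity `R(τ) = u₁ u₂ / (x² - τ²)`. -/
noncomputable def RR (q₁ q₂ τ : ℝ) : ℝ :=
  (q₁ + q₂ + 2 * τ) * (q₁ * q₂ + 1 - 2 * τ) / (q₁ * q₂ - τ ^ 2)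

lemma mem_KQ_iff {x : ℝ} : x ∈ KQ ↔ ∃ r : ℚ, (r : ℝ) = x := by
  simp [KQ, RingHom.mem_fieldRange]

lemma rat_mem (r : ℚ) : (r : ℝ) ∈ KQ := mem_KQ_iff.2 ⟨r, rfl⟩

/-- Two values of `R` at `±τ` rational imply `τ` rational. -/
lemma tau_mem {q₁ q₂ τ : ℝ} (h₁ : 1 < q₁) (h₂ : 1 < q₂) (hq₁ : q₁ ∈ KQ) (hq₂ : q₂ ∈ KQ)
    (hlt : τ ^ 2 < q₁ * q₂) (hR : RR q₁ q₂ τ ∈ KQ) (hR' : RR q₁ q₂ (-τ) ∈ KQ) : τ ∈ KQ := by
  set X := q₁ * q₂ with hX
  have hXm : X ∈ KQ := KQ.mul_mem hq₁ hq₂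
  set L := (q₁ + q₂) * (q₁ * q₂ + 1) with hL
  set K₀ := (q₁ - 1) * (q₂ - 1) with hK₀
  have hLm : L ∈ KQ := KQ.mul_mem (KQ.add_mem hq₁ hq₂) (KQ.add_mem hXm KQ.one_mem)
  have hK₀m : K₀ ∈ KQ := KQ.mul_mem (KQ.sub_mem hq₁ KQ.one_mem) (KQ.sub_mem hq₂ KQ.one_mem)
  have hK₀pos : 0 < K₀ := mul_pos (by linarith) (by linarith)
  have hLX : 0 < L - 4 * X := by
    have : L - 4 * X = (q₁ - 1) ^ 2 * q₂ + (q₂ - 1) ^ 2 * q₁ := by
      rw [hL, hX]; ring
    rw [this]
    have h3 : 0 < (q₁ - 1) ^ 2 := by have : 0 < q₁ - 1 := by linarith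
                                     positivity
    have h4 : 0 < (q₂ - 1) ^ 2 := by have : 0 < q₂ - 1 := by linarith
                                     positivity
    have h5 : 0 < q₁ := by linarith
    have h6 : 0 < q₂ := by linarith
    positivity
  set w := τ ^ 2 with hw
  have hd : 0 < X - w := by linarith
  have hd' : X - w ≠ 0 := hd.ne'
  have e1 : RR q₁ q₂ τ = (L + 2 * K₀ * τ - 4 * w) / (X - w) := by
    rw [RR, hL, hK₀, hw, hX]
    congr 1
    ring
  have e2 : RR q₁ q₂ (-τ) = (L - 2 * K₀ * τ - 4 * w) / (X - w) := by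
    rw [RR, hL, hK₀, hw, hX]
    congr 1
    · ring
    · ring
  -- `r₀ = (L - 4 w)/(X - w)`
  set r₀ := (L - 4 * w) / (X - w) with hr₀
  have hr₀m : r₀ ∈ KQ := by
    have : r₀ = (RR q₁ q₂ τ + RR q₁ q₂ (-τ)) / 2 := by
      rw [e1, e2, hr₀]
      field_simp
      ring
    rw [this]
    refine KQ.div_mem (KQ.add_mem hR hR') ?_
    exact mem_KQ_iff.2 ⟨2, by norm_num⟩
  have hr₀e : r₀ * (X - w) = L - 4 * w := by
    rw [hr₀]; field_simp
  have hr₀4 : r₀ - 4 ≠ 0 := by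
    intro h0
    have : r₀ = 4 := by linarith
    rw [this] at hr₀e
    nlinarith
  have hwm : w ∈ KQ := by
    have : w = (r₀ * X - L) / (r₀ - 4) := by
      field_simp
      linarith
    rw [this]
    refine KQ.div_mem (KQ.sub_mem (KQ.mul_mem hr₀m hXm) hLm) (KQ.sub_mem hr₀m ?_)
    exact mem_KQ_iff.2 ⟨4, by norm_num⟩
  have e3 : τ = (RR q₁ q₂ τ - RR q₁ q₂ (-τ)) * (X - w) / (4 * K₀) := by
    rw [e1, e2]
    field_simp
    ring
  rw [e3]
  refine KQ.div_mem (KQ.mul_mem (KQ.sub_mem hR hR') (KQ.sub_mem hXm hwm)) (KQ.mul_mem ?_ hK₀m)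
  exact mem_KQ_iff.2 ⟨4, by norm_num⟩

/-- The only `m ≥ 2` with `cos (2π/m)` rational and `m ≥ 5`: `m = 6`; general form. -/
lemma niven_m {m : ℕ} (hm : 2 ≤ m) (h : cos (2 * π / m) ∈ KQ) : m = 2 ∨ m = 3 ∨ m = 4 ∨ m = 6 := by
  have hm0 : (m : ℝ) ≠ 0 := by positivity
  have hmQ : (m : ℚ) ≠ 0 := by positivity
  have hr : ((2 / m : ℚ) : ℝ) * π = 2 * π / m := by
    push_cast
    field_simp
  have hbnd : (2 / m : ℚ) ∈ Set.Icc (0 : ℚ) 1 := by
    constructor
    · positivity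
    · rw [div_le_one (by positivity)]
      exact_mod_cast hm
  have hc : ∃ q : ℚ, cos (((2 / m : ℚ) : ℝ) * π) = q := by
    rw [hr]
    obtain ⟨r, hr'⟩ := mem_KQ_iff.1 h
    exact ⟨r, hr'.symm⟩
  have h3 := niven_angle_div_pi_eq hc hbnd
  simp only [Set.mem_insert_iff, Set.mem_singleton_iff] at h3
  have hmpos : (0 : ℚ) < m := by positivity
  rcases h3 with h3 | h3 | h3 | h3 | h3
  · exfalso
    have := div_pos (by norm_num : (0 : ℚ) < 2) hmpos
    linarith
  · right; right; right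
    have : (m : ℚ) = 6 := by
      field_simp at h3
      linarith
    exact_mod_cast this
  · right; right; left
    have : (m : ℚ) = 4 := by
      field_simp at h3
      linarith
    exact_mod_cast this
  · right; left
    have : (m : ℚ) = 3 := by
      field_simp at h3
      linarith
    exact_mod_cast this
  · left
    have : (m : ℚ) = 2 := by
      field_simp at h3
      linarith
    exact_mod_cast this

lemma cos_lt_one_of {θ : ℝ} (h0 : 0 < θ) (h1 : θ < π) : cos θ < 1 := by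
  have h2 : cos θ < cos 0 := cos_lt_cos_of_nonneg_of_le_pi le_rfl h1.le h0
  simpa using h2

lemma neg_one_lt_cos_of {θ : ℝ} (h0 : 0 < θ) (h1 : θ < π) : -1 < cos θ := by
  have h2 : cos π < cos θ := cos_lt_cos_of_nonneg_of_le_pi h0.le le_rfl h1
  simpa using h2

/-- Main number-theoretic statement. -/
theorem main {m : ℕ} (hm : 2 ≤ m) {q₁ q₂ : ℝ} (h₁ : 1 < q₁) (h₂ : 1 < q₂)
    (hq₁ : q₁ ∈ KQ) (hq₂ : q₂ ∈ KQ) (hodd : Odd m → q₁ = q₂)
    (hR : ∀ j : ℕ, 1 ≤ j → 2 * j < m → RR q₁ q₂ (√(q₁ * q₂) * cos (2 * π * j / m)) ∈ KQ) :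
    m = 2 ∨ m = 3 ∨ m = 4 ∨ m = 6 ∨ m = 8 := by
  have hX : 0 < q₁ * q₂ := by nlinarith
  have hxpos : 0 < √(q₁ * q₂) := Real.sqrt_pos.2 hX
  have hxx : √(q₁ * q₂) * √(q₁ * q₂) = q₁ * q₂ := Real.mul_self_sqrt hX.le
  have hmR : (0 : ℝ) < m := by positivity
  rcases Nat.even_or_odd m with he | ho
  · -- even
    obtain ⟨r, hr⟩ := he
    have hr' : m = 2 * r := by omega
    by_cases hr2 : r = 1 ∨ r = 2
    · rcases hr2 with rfl | rfl
      · left; omega
      · right; right; left; omega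
    have hr3 : 3 ≤ r := by omega
    have hrR : (0 : ℝ) < r := by positivity
    have hr3R : (3 : ℝ) ≤ r := by exact_mod_cast hr3
    -- general statement for a pair `j`, `r - j`
    have key : ∀ j : ℕ, 1 ≤ j → j < r → √(q₁ * q₂) * cos (π * j / r) ∈ KQ := by
      intro j hj hjr
      have hjR : (0 : ℝ) < j := by positivity
      have hjrR : (j : ℝ) < r := by exact_mod_cast hjr
      have h5 : (2 : ℝ) * π * j / m = π * j / r := by
        rw [hr']; push_cast; field_simp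
      have h6 : (2 : ℝ) * π * ((r - j : ℕ) : ℝ) / m = π - π * j / r := by
        rw [hr', Nat.cast_sub hjr.le]; push_cast; field_simp
      have h7 := hR j hj (by omega)
      have h8 := hR (r - j) (by omega) (by omega)
      rw [h5] at h7
      rw [h6, cos_pi_sub, mul_neg] at h8
      have hpos : 0 < π * j / r := by positivity
      have hltpi : π * j / r < π := by
        rw [div_lt_iff₀ hrR]
        exact mul_lt_mul_of_pos_left hjrR pi_pos
      refine tau_mem h₁ h₂ hq₁ hq₂ ?_ h7 h8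
      have h9 := cos_lt_one_of hpos hltpi
      have h10 := neg_one_lt_cos_of hpos hltpi
      have h11 : cos (π * j / r) ^ 2 < 1 := by nlinarith
      calc (√(q₁ * q₂) * cos (π * j / r)) ^ 2 = (q₁ * q₂) * cos (π * j / r) ^ 2 := by
            rw [mul_pow, pow_two (√(q₁ * q₂)), hxx]
        _ < q₁ * q₂ := by nlinarith
    have h1 := key 1 le_rfl (by omega)
    have h2' := key 2 (by norm_num) (by omega)
    set c₁ := cos (π / r) with hc₁
    have e1 : cos (π * ((1 : ℕ) : ℝ) / r) = c₁ := by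
      rw [hc₁]; congr 1; push_cast; ring
    have e2 : cos (π * ((2 : ℕ) : ℝ) / r) = 2 * c₁ ^ 2 - 1 := by
      rw [hc₁, ← cos_two_mul]; congr 1; push_cast; ring
    rw [e1] at h1
    rw [e2] at h2'
    set x := √(q₁ * q₂) with hx
    have hXm : q₁ * q₂ ∈ KQ := KQ.mul_mem hq₁ hq₂
    have hprod : x * (x * (2 * c₁ ^ 2 - 1)) = 2 * (x * c₁) ^ 2 - q₁ * q₂ := by
      have : x * (x * (2 * c₁ ^ 2 - 1)) = (x * x) * (2 * c₁ ^ 2 - 1) := by ring
      rw [this, hxx]
      have h3 : (x * c₁) ^ 2 = (x * x) * c₁ ^ 2 := by ring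
      rw [h3, hxx]
      ring
    have hprodm : x * (x * (2 * c₁ ^ 2 - 1)) ∈ KQ := by
      rw [hprod]
      refine KQ.sub_mem (KQ.mul_mem ?_ (KQ.pow_mem h1 2)) hXm
      exact mem_KQ_iff.2 ⟨2, by norm_num⟩
    by_cases hzero : 2 * c₁ ^ 2 - 1 = 0
    · -- `m = 8`
      right; right; right; right
      have h3 : cos (2 * (π / r)) = 0 := by
        rw [cos_two_mul]; exact hzero
      have hmem1 : 2 * (π / r) ∈ Set.Icc 0 π := by
        constructor
        · positivity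
        · rw [← mul_div_assoc, div_le_iff₀ hrR]
          nlinarith [pi_pos]
      have hmem2 : π / 2 ∈ Set.Icc 0 π := by
        constructor
        · positivity
        · linarith [pi_pos]
      have h4 := injOn_cos hmem1 hmem2 (by rw [h3, cos_pi_div_two])
      have h5 : (r : ℝ) = 4 := by
        field_simp at h4
        linarith
      have h6 : r = 4 := by exact_mod_cast h5
      omega
    · -- `x` is rational
      have hxne : x * (2 * c₁ ^ 2 - 1) ≠ 0 := mul_ne_zero hxpos.ne' hzero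
      have hxm : x ∈ KQ := by
        have : x = (x * (x * (2 * c₁ ^ 2 - 1))) / (x * (2 * c₁ ^ 2 - 1)) := by
          field_simp
        rw [this]
        exact KQ.div_mem hprodm h2'
      have hcm : c₁ ∈ KQ := by
        have : c₁ = (x * c₁) / x := by field_simp
        rw [this]
        exact KQ.div_mem h1 hxm
      have h6 : cos (2 * π / m) ∈ KQ := by
        have : 2 * π / (m : ℝ) = π / r := by
          rw [hr']; push_cast; field_simp
        rw [this]
        exact hcm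
      rcases niven_m hm h6 with h | h | h | h <;> omega
  · -- odd
    have hq := hodd ho
    subst hq
    obtain ⟨r, hr⟩ := ho
    have hm3 : 3 ≤ m := by omega
    have hm3R : (3 : ℝ) ≤ m := by exact_mod_cast hm3
    have h1 := hR 1 le_rfl (by omega)
    have hxq : √(q₁ * q₁) = q₁ := Real.sqrt_mul_self (by linarith)
    rw [hxq] at h1
    have e0 : (2 : ℝ) * π * ((1 : ℕ) : ℝ) / m = 2 * π / m := by
      push_cast; ring
    rw [e0] at h1
    set c := cos (2 * π / m) with hc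
    have hpos : 0 < 2 * π / (m : ℝ) := by positivity
    have hltpi : 2 * π / (m : ℝ) < π := by
      rw [div_lt_iff₀ hmR]
      nlinarith [pi_pos]
    have hc1 : c < 1 := cos_lt_one_of hpos hltpi
    have hc2 : -1 < c := neg_one_lt_cos_of hpos hltpi
    have hq0 : q₁ ≠ 0 := by linarith
    have hcm1 : 1 - c ≠ 0 := by linarith
    have hcp1 : 1 + c ≠ 0 := by linarith
    have e1 : RR q₁ q₁ (q₁ * c) = 2 * (q₁ ^ 2 + 1 - 2 * q₁ * c) / (q₁ * (1 - c)) := by
      rw [RR]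
      have : q₁ * q₁ - (q₁ * c) ^ 2 = q₁ ^ 2 * ((1 - c) * (1 + c)) := by ring
      rw [this]
      field_simp
      ring
    rw [e1] at h1
    set r₀ := 2 * (q₁ ^ 2 + 1 - 2 * q₁ * c) / (q₁ * (1 - c)) with hr₀
    set r₁ := r₀ * q₁ / 2 with hr₁
    have hr₁m : r₁ ∈ KQ :=
      KQ.div_mem (KQ.mul_mem h1 hq₁) (mem_KQ_iff.2 ⟨2, by norm_num⟩)
    have e2 : r₁ * (1 - c) = q₁ ^ 2 + 1 - 2 * q₁ * c := by
      rw [hr₁, hr₀]
      field_simp
    have h3 : 2 * q₁ - r₁ ≠ 0 := by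
      intro h0
      have : r₁ = 2 * q₁ := by linarith
      rw [this] at e2
      have h4 : (q₁ - 1) ^ 2 = 0 := by nlinarith
      have h5 : q₁ - 1 = 0 := by simpa using h4
      linarith
    have hcm : c ∈ KQ := by
      have : c = (q₁ ^ 2 + 1 - r₁) / (2 * q₁ - r₁) := by
        rw [eq_div_iff h3]
        linarith
      rw [this]
      refine KQ.div_mem (KQ.sub_mem (KQ.add_mem (KQ.pow_mem hq₁ 2) KQ.one_mem) hr₁m)
        (KQ.sub_mem (KQ.mul_mem (mem_KQ_iff.2 ⟨2, by norm_num⟩) hq₁) hr₁m)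
    rcases niven_m hm hcm with h | h | h | h <;> omega

end Cfsg.Agent.Lib.FHNum
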