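import Mathlib

/-!
# Feit--Higman: an idempotent in the Hecke algebra of a dihedral group

Let `A` be an `ℝ`-algebra with elements `u, A₁, A₂` such that `u` is a left unit for them and
`A_i² = q_i u + (q_i - 1) A_i`.  Let `R₁, R₂` be `2 × 2` matrices with
`R_i² = q_i + (q_i - 1) R_i` and `1 + R₁ = (q₁ + 1) E`.  If the alternating products of length `m`
agree (in `A`, in `M₂(ℝ)`, and for the scalars `q_i`), then an explicit element `e₀` of `A` satisfies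
`e₀² = Z e₀`, with `Z` explicit, and the trace of `e₀` is the trace of `u`.
-/

set_option autoImplicit false
set_option linter.unusedSectionVars false

namespace Cfsg.Agent.Lib.HeckeAbs

open Finset Matrix

/-- Alternating products, multiplying on the left: `(a b a ⋯ u, b a b ⋯ u)`. -/
def alt {X : Type*} [Mul X] (u a b : X) : ℕ → X × X
  | 0 => (u, u)
  | k + 1 => (a * (alt u a b k).2, b * (alt u a b k).1)

/-- Alternating products, multiplying on the right. -/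
def altR {X : Type*} [Mul X] (u a b : X) : ℕ → X × X
  | 0 => (u, u)
  | k + 1 => ((altR u a b k).2 * a, (altR u a b k).1 * b)

section Simple

variable {X : Type*} [Mul X] (u a b : X)

@[simp] lemma alt_zero_fst : (alt u a b 0).1 = u := rfl
@[simp] lemma alt_zero_snd : (alt u a b 0).2 = u := rfl
lemma alt_succ_fst (k : ℕ) : (alt u a b (k + 1)).1 = a * (alt u a b k).2 := rfl
lemma alt_succ_snd (k : ℕ) : (alt u a b (k + 1)).2 = b * (alt u a b k).1 := rfl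
@[simp] lemma altR_zero_fst : (altR u a b 0).1 = u := rfl
@[simp] lemma altR_zero_snd : (altR u a b 0).2 = u := rfl
lemma altR_succ_fst (k : ℕ) : (altR u a b (k + 1)).1 = (altR u a b k).2 * a := rfl
lemma altR_succ_snd (k : ℕ) : (altR u a b (k + 1)).2 = (altR u a b k).1 * b := rfl

lemma alt_swap (k : ℕ) : alt u b a k = ((alt u a b k).2, (alt u a b k).1) := by
  induction k with
  | zero => rfl
  | succ k ih =>
    ext1
    · show b * (alt u b a k).2 = b * (alt u a b k).1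
      rw [ih]
    · show a * (alt u b a k).1 = a * (alt u a b k).2
      rw [ih]

lemma altR_swap (k : ℕ) : altR u b a k = ((altR u a b k).2, (altR u a b k).1) := by
  induction k with
  | zero => rfl
  | succ k ih =>
    ext1
    · show (altR u b a k).2 * b = (altR u a b k).1 * b
      rw [ih]
    · show (altR u b a k).1 * a = (altR u a b k).2 * a
      rw [ih]

end Simple

lemma alt_real_ne_zero {q₁ q₂ : ℝ} (h₁ : q₁ ≠ 0) (h₂ : q₂ ≠ 0) (k : ℕ) :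
    (alt (1 : ℝ) q₁ q₂ k).1 ≠ 0 ∧ (alt (1 : ℝ) q₁ q₂ k).2 ≠ 0 := by
  induction k with
  | zero => simp
  | succ k ih =>
    exact ⟨by rw [alt_succ_fst]; exact mul_ne_zero h₁ ih.2,
      by rw [alt_succ_snd]; exact mul_ne_zero h₂ ih.1⟩

/-- `2 × 2` real matrices. -/
abbrev M2 := Matrix (Fin 2) (Fin 2) ℝ

/-- The idempotent `diag(1, 0)`. -/
def EE : M2 := !![1, 0; 0, 0]

lemma EE_mul_mul_EE (Y : M2) : EE * Y * EE = (Y 0 0) • EE := by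
  ext i j
  fin_cases i <;> fin_cases j <;>
    simp [EE, Matrix.mul_apply, Fin.sum_univ_two, Matrix.vecMul, dotProduct]

lemma mul_EE_zero_zero (Y : M2) : (Y * EE) 0 0 = Y 0 0 := by
  simp [EE, Matrix.mul_apply, Fin.sum_univ_two]

variable {A : Type*} [Ring A] [Algebra ℝ A]

/-- The linear map `c`. -/
noncomputable def cc (u A₁ A₂ : A) (R₁ R₂ : M2) (q₁ q₂ : ℝ) (m : ℕ) (X : M2) : A :=
  ∑ k ∈ range m,
    ((((altR (1 : M2) R₁ R₂ k).2 * X) 0 0 / (alt (1 : ℝ) q₁ q₂ k).2) • (alt u A₁ A₂ k).2 +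
      (((altR (1 : M2) R₁ R₂ (k + 1)).1 * X) 0 0 / (alt (1 : ℝ) q₁ q₂ (k + 1)).1) •
        (alt u A₁ A₂ (k + 1)).1)

section Main

variable {u A₁ A₂ : A} {R₁ R₂ : M2} {q₁ q₂ : ℝ} {m : ℕ}

lemma cc_add (X Y : M2) : cc u A₁ A₂ R₁ R₂ q₁ q₂ m (X + Y) =
    cc u A₁ A₂ R₁ R₂ q₁ q₂ m X + cc u A₁ A₂ R₁ R₂ q₁ q₂ m Y := by
  simp only [cc, ← Finset.sum_add_distrib]
  refine Finset.sum_congr rfl fun k _ => ?_
  simp only [Matrix.mul_add, Matrix.add_apply, add_div, add_smul]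
  abel

lemma cc_smul (t : ℝ) (X : M2) : cc u A₁ A₂ R₁ R₂ q₁ q₂ m (t • X) =
    t • cc u A₁ A₂ R₁ R₂ q₁ q₂ m X := by
  simp only [cc, Finset.smul_sum]
  refine Finset.sum_congr rfl fun k _ => ?_
  simp only [Matrix.mul_smul, Matrix.smul_apply, smul_eq_mul, mul_div_assoc, smul_add, mul_smul]

/-- The two forms of `c` agree. -/
lemma cc_swap (hA : (alt u A₁ A₂ m).1 = (alt u A₁ A₂ m).2)
    (hP : (altR (1 : M2) R₁ R₂ m).1 = (altR (1 : M2) R₁ R₂ m).2)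
    (hq : (alt (1 : ℝ) q₁ q₂ m).1 = (alt (1 : ℝ) q₁ q₂ m).2) (X : M2) :
    cc u A₁ A₂ R₁ R₂ q₁ q₂ m X = cc u A₂ A₁ R₂ R₁ q₂ q₁ m X := by
  simp only [cc, alt_swap u A₁ A₂, altR_swap (1 : M2) R₁ R₂, alt_swap (1 : ℝ) q₁ q₂,
    Finset.sum_add_distrib]
  set f : ℕ → A := fun k => (((altR (1 : M2) R₁ R₂ k).2 * X) 0 0 / (alt (1 : ℝ) q₁ q₂ k).2) •
    (alt u A₁ A₂ k).2 with hf
  set g : ℕ → A := fun k => (((altR (1 : M2) R₁ R₂ k).1 * X) 0 0 / (alt (1 : ℝ) q₁ q₂ k).1) •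
    (alt u A₁ A₂ k).1 with hg
  have h0 : f 0 = g 0 := by simp [hf, hg]
  have hm' : f m = g m := by
    simp only [hf, hg]
    rw [hA, hP, hq]
  have e1 : ∑ k ∈ range m, g (k + 1) = ∑ k ∈ range m, g k + g m - g 0 := by
    rw [← Finset.sum_range_succ, Finset.sum_range_succ']
    abel
  have e2 : ∑ k ∈ range m, f (k + 1) = ∑ k ∈ range m, f k + f m - f 0 := by
    rw [← Finset.sum_range_succ, Finset.sum_range_succ']
    abel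
  show ∑ k ∈ range m, f k + ∑ k ∈ range m, g (k + 1) =
    ∑ k ∈ range m, g k + ∑ k ∈ range m, f (k + 1)
  rw [e1, e2, h0, hm']
  abel

lemma u_mul_alt (huu : u * u = u) (hu1 : u * A₁ = A₁) (hu2 : u * A₂ = A₂) (k : ℕ) :
    u * (alt u A₁ A₂ k).1 = (alt u A₁ A₂ k).1 ∧ u * (alt u A₁ A₂ k).2 = (alt u A₁ A₂ k).2 := by
  cases k with
  | zero => exact ⟨huu, huu⟩
  | succ k =>
    constructor
    · rw [alt_succ_fst, ← mul_assoc, hu1]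
    · rw [alt_succ_snd, ← mul_assoc, hu2]

lemma u_mul_cc (huu : u * u = u) (hu1 : u * A₁ = A₁) (hu2 : u * A₂ = A₂) (X : M2) :
    u * cc u A₁ A₂ R₁ R₂ q₁ q₂ m X = cc u A₁ A₂ R₁ R₂ q₁ q₂ m X := by
  simp only [cc, Finset.mul_sum, mul_add, mul_smul_comm]
  refine Finset.sum_congr rfl fun k _ => ?_
  rw [(u_mul_alt huu hu1 hu2 k).2, (u_mul_alt huu hu1 hu2 (k + 1)).1]

/-- `A₁ c(X) = c(R₁ X)`. -/
lemma A1_mul_cc (huu : u * u = u) (hu1 : u * A₁ = A₁) (hu2 : u * A₂ = A₂)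
    (h₁ : q₁ ≠ 0) (h₂ : q₂ ≠ 0)
    (h11 : A₁ * A₁ = q₁ • u + (q₁ - 1) • A₁) (hR1 : R₁ * R₁ = q₁ • 1 + (q₁ - 1) • R₁) (X : M2) :
    A₁ * cc u A₁ A₂ R₁ R₂ q₁ q₂ m X = cc u A₁ A₂ R₁ R₂ q₁ q₂ m (R₁ * X) := by
  simp only [cc, Finset.mul_sum, mul_add, mul_smul_comm]
  refine Finset.sum_congr rfl fun k _ => ?_
  have hqb : (alt (1 : ℝ) q₁ q₂ k).2 ≠ 0 := (alt_real_ne_zero h₁ h₂ k).2
  have e1 : A₁ * (alt u A₁ A₂ (k + 1)).1 = q₁ • (alt u A₁ A₂ k).2 +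
      (q₁ - 1) • (alt u A₁ A₂ (k + 1)).1 := by
    rw [alt_succ_fst, ← mul_assoc, h11, add_mul, smul_mul_assoc, smul_mul_assoc,
      (u_mul_alt huu hu1 hu2 k).2]
  have e2 : A₁ * (alt u A₁ A₂ k).2 = (alt u A₁ A₂ (k + 1)).1 := rfl
  rw [e1, e2]
  have hX : (altR (1 : M2) R₁ R₂ (k + 1)).1 = (altR (1 : M2) R₁ R₂ k).2 * R₁ := rfl
  have hq : (alt (1 : ℝ) q₁ q₂ (k + 1)).1 = q₁ * (alt (1 : ℝ) q₁ q₂ k).2 := rfl
  have e3 : (altR (1 : M2) R₁ R₂ k).2 * R₁ * (R₁ * X) =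
      q₁ • ((altR (1 : M2) R₁ R₂ k).2 * X) + (q₁ - 1) • ((altR (1 : M2) R₁ R₂ k).2 * R₁ * X) := by
    rw [Matrix.mul_assoc, ← Matrix.mul_assoc R₁ R₁ X, hR1, Matrix.add_mul, Matrix.mul_add]
    simp [Matrix.mul_assoc]
  rw [hX, hq, e3]
  simp only [Matrix.add_apply, Matrix.smul_apply, smul_eq_mul]
  generalize (alt u A₁ A₂ k).2 = α
  generalize (alt u A₁ A₂ (k + 1)).1 = β
  have e4 : ((altR (1 : M2) R₁ R₂ k).2 * (R₁ * X)) 0 0 = ((altR (1 : M2) R₁ R₂ k).2 * R₁ * X) 0 0 := by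
    rw [Matrix.mul_assoc]
  rw [e4]
  generalize ((altR (1 : M2) R₁ R₂ k).2 * R₁ * X) 0 0 = a1
  generalize ((altR (1 : M2) R₁ R₂ k).2 * X) 0 0 = a0
  generalize (alt (1 : ℝ) q₁ q₂ k).2 = d at hqb
  have c1 : a1 / (q₁ * d) * q₁ = a1 / d := by field_simp
  have c2 : a0 / d + a1 / (q₁ * d) * (q₁ - 1) = (q₁ * a0 + (q₁ - 1) * a1) / (q₁ * d) := by
    field_simp
  rw [← c1, ← c2]
  simp only [smul_add, add_smul, smul_smul]
  abel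

/-- `A₂ c(X) = c(R₂ X)`, given the braid relations. -/
lemma A2_mul_cc (huu : u * u = u) (hu1 : u * A₁ = A₁) (hu2 : u * A₂ = A₂)
    (h₁ : q₁ ≠ 0) (h₂ : q₂ ≠ 0)
    (h22 : A₂ * A₂ = q₂ • u + (q₂ - 1) • A₂) (hR2 : R₂ * R₂ = q₂ • 1 + (q₂ - 1) • R₂)
    (hA : (alt u A₁ A₂ m).1 = (alt u A₁ A₂ m).2)
    (hP : (altR (1 : M2) R₁ R₂ m).1 = (altR (1 : M2) R₁ R₂ m).2)
    (hq : (alt (1 : ℝ) q₁ q₂ m).1 = (alt (1 : ℝ) q₁ q₂ m).2) (X : M2) :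
    A₂ * cc u A₁ A₂ R₁ R₂ q₁ q₂ m X = cc u A₁ A₂ R₁ R₂ q₁ q₂ m (R₂ * X) := by
  rw [cc_swap hA hP hq, cc_swap hA hP hq]
  exact A1_mul_cc huu hu2 hu1 h₂ h₁ h22 hR2 X

/-- Products of the `alt`-elements with `c`. -/
lemma alt_mul_cc (huu : u * u = u) (hu1 : u * A₁ = A₁) (hu2 : u * A₂ = A₂)
    (h₁ : q₁ ≠ 0) (h₂ : q₂ ≠ 0)
    (h11 : A₁ * A₁ = q₁ • u + (q₁ - 1) • A₁) (hR1 : R₁ * R₁ = q₁ • 1 + (q₁ - 1) • R₁)
    (h22 : A₂ * A₂ = q₂ • u + (q₂ - 1) • A₂) (hR2 : R₂ * R₂ = q₂ • 1 + (q₂ - 1) • R₂)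
    (hA : (alt u A₁ A₂ m).1 = (alt u A₁ A₂ m).2)
    (hP : (altR (1 : M2) R₁ R₂ m).1 = (altR (1 : M2) R₁ R₂ m).2)
    (hq : (alt (1 : ℝ) q₁ q₂ m).1 = (alt (1 : ℝ) q₁ q₂ m).2) (X : M2) (k : ℕ) :
    (alt u A₁ A₂ k).1 * cc u A₁ A₂ R₁ R₂ q₁ q₂ m X =
        cc u A₁ A₂ R₁ R₂ q₁ q₂ m ((alt (1 : M2) R₁ R₂ k).1 * X) ∧
    (alt u A₁ A₂ k).2 * cc u A₁ A₂ R₁ R₂ q₁ q₂ m X =
        cc u A₁ A₂ R₁ R₂ q₁ q₂ m ((alt (1 : M2) R₁ R₂ k).2 * X) := by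
  induction k with
  | zero =>
    simp only [alt_zero_fst, alt_zero_snd, Matrix.one_mul]
    exact ⟨u_mul_cc huu hu1 hu2 X, u_mul_cc huu hu1 hu2 X⟩
  | succ k ih =>
    constructor
    · rw [alt_succ_fst, mul_assoc, ih.2, alt_succ_fst, Matrix.mul_assoc]
      exact A1_mul_cc huu hu1 hu2 h₁ h₂ h11 hR1 _
    · rw [alt_succ_snd, mul_assoc, ih.1, alt_succ_snd, Matrix.mul_assoc]
      exact A2_mul_cc huu hu1 hu2 h₁ h₂ h22 hR2 hA hP hq _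

/-- The main identity `e₀² = Z e₀`. -/
theorem cc_EE_sq (huu : u * u = u) (hu1 : u * A₁ = A₁) (hu2 : u * A₂ = A₂)
    (h₁ : q₁ ≠ 0) (h₂ : q₂ ≠ 0)
    (h11 : A₁ * A₁ = q₁ • u + (q₁ - 1) • A₁) (hR1 : R₁ * R₁ = q₁ • 1 + (q₁ - 1) • R₁)
    (h22 : A₂ * A₂ = q₂ • u + (q₂ - 1) • A₂) (hR2 : R₂ * R₂ = q₂ • 1 + (q₂ - 1) • R₂)
    (hE : 1 + R₁ = (q₁ + 1) • EE)
    (hA : (alt u A₁ A₂ m).1 = (alt u A₁ A₂ m).2)
    (hP : (altR (1 : M2) R₁ R₂ m).1 = (altR (1 : M2) R₁ R₂ m).2)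
    (hq : (alt (1 : ℝ) q₁ q₂ m).1 = (alt (1 : ℝ) q₁ q₂ m).2) :
    cc u A₁ A₂ R₁ R₂ q₁ q₂ m EE * cc u A₁ A₂ R₁ R₂ q₁ q₂ m EE =
      ((q₁ + 1) * ∑ k ∈ range m, (altR (1 : M2) R₁ R₂ k).2 0 0 / (alt (1 : ℝ) q₁ q₂ k).2 *
        (alt (1 : M2) R₁ R₂ k).2 0 0) • cc u A₁ A₂ R₁ R₂ q₁ q₂ m EE := by
  set c := cc u A₁ A₂ R₁ R₂ q₁ q₂ m with hc
  have hR1E : R₁ * EE = q₁ • EE := by
    have h3 : (1 + R₁) * EE = (q₁ + 1) • EE := by
      rw [hE, Matrix.smul_mul]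
      congr 1
      ext i j
      fin_cases i <;> fin_cases j <;>
        simp [EE, Matrix.mul_apply, Fin.sum_univ_two, Matrix.vecMul, dotProduct]
    rw [Matrix.add_mul, Matrix.one_mul, add_smul, one_smul, add_comm] at h3
    exact add_right_cancel h3
  -- factorisation of `c EE`
  set t : ℕ → ℝ := fun k => (altR (1 : M2) R₁ R₂ k).2 0 0 / (alt (1 : ℝ) q₁ q₂ k).2 with ht
  have hfac : c EE = ∑ k ∈ range m, t k • ((alt u A₁ A₂ k).2 + A₁ * (alt u A₁ A₂ k).2) := by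
    rw [hc, cc]
    refine Finset.sum_congr rfl fun k _ => ?_
    have hqb : (alt (1 : ℝ) q₁ q₂ k).2 ≠ 0 := (alt_real_ne_zero h₁ h₂ k).2
    have e1 : ((altR (1 : M2) R₁ R₂ (k + 1)).1 * EE) 0 0 / (alt (1 : ℝ) q₁ q₂ (k + 1)).1 = t k := by
      rw [altR_succ_fst, alt_succ_fst, Matrix.mul_assoc, hR1E, Matrix.mul_smul, Matrix.smul_apply,
        mul_EE_zero_zero, smul_eq_mul, ht]
      simp only
      field_simp
    have e2 : ((altR (1 : M2) R₁ R₂ k).2 * EE) 0 0 / (alt (1 : ℝ) q₁ q₂ k).2 = t k := by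
      rw [mul_EE_zero_zero]
    rw [e1, e2, smul_add]
    rfl
  have hmul : ∀ Y : A, ((∑ k ∈ range m, t k • ((alt u A₁ A₂ k).2 + A₁ * (alt u A₁ A₂ k).2)) * Y) =
      ∑ k ∈ range m, t k • ((alt u A₁ A₂ k).2 * Y + A₁ * ((alt u A₁ A₂ k).2 * Y)) := by
    intro Y
    rw [Finset.sum_mul]
    refine Finset.sum_congr rfl fun k _ => ?_
    rw [smul_mul_assoc, add_mul, mul_assoc]
  have hterm : ∀ k, (alt u A₁ A₂ k).2 * c EE + A₁ * ((alt u A₁ A₂ k).2 * c EE) =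
      ((q₁ + 1) * (alt (1 : M2) R₁ R₂ k).2 0 0) • c EE := by
    intro k
    have h3 := (alt_mul_cc huu hu1 hu2 h₁ h₂ h11 hR1 h22 hR2 hA hP hq EE k).2
    rw [← hc] at h3
    rw [h3, hc, A1_mul_cc huu hu1 hu2 h₁ h₂ h11 hR1, ← cc_add]
    have h4 : (alt (1 : M2) R₁ R₂ k).2 * EE + R₁ * ((alt (1 : M2) R₁ R₂ k).2 * EE) =
        ((q₁ + 1) * (alt (1 : M2) R₁ R₂ k).2 0 0) • EE := by
      have h5 : (alt (1 : M2) R₁ R₂ k).2 * EE + R₁ * ((alt (1 : M2) R₁ R₂ k).2 * EE) =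
          (1 + R₁) * ((alt (1 : M2) R₁ R₂ k).2 * EE) := by
        rw [Matrix.add_mul, Matrix.one_mul]
      rw [h5, hE, Matrix.smul_mul, ← Matrix.mul_assoc, EE_mul_mul_EE, smul_smul]
    rw [h4, cc_smul]
  nth_rewrite 1 [hfac]
  rw [hmul, Finset.sum_congr rfl (fun k _ => by rw [hterm k]), mul_comm, Finset.sum_mul, Finset.sum_smul]
  refine Finset.sum_congr rfl fun k _ => ?_
  rw [smul_smul]
  congr 1
  ring

/-- The trace of `c EE`. -/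
theorem tr_cc_EE (hm : 1 ≤ m) (h₁ : q₁ ≠ 0) (h₂ : q₂ ≠ 0) (tr : A →ₗ[ℝ] ℝ)
    (hb : ∀ k, 1 ≤ k → k < m → tr (alt u A₁ A₂ k).2 = 0)
    (ha : ∀ k, 1 ≤ k → k ≤ m → tr (alt u A₁ A₂ k).1 = 0) :
    tr (cc u A₁ A₂ R₁ R₂ q₁ q₂ m EE) = tr u := by
  rw [cc, map_sum, Finset.sum_eq_single 0]
  · rw [map_add, map_smul, map_smul, ha 1 le_rfl hm]
    simp [EE]
  · intro k hk hk0
    have hk1 : 1 ≤ k := Nat.pos_of_ne_zero hk0
    have hk2 : k < m := Finset.mem_range.1 hk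
    rw [map_add, map_smul, map_smul, hb k hk1 hk2, ha (k + 1) (by omega) (by omega)]
    simp
  · intro h
    exact absurd (Finset.mem_range.2 hm) h

end Main

end Cfsg.Agent.Lib.HeckeAbs
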