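import Mathlib
import Cfsg.Agent.Lib.HeckeAbs
import Cfsg.Agent.Lib.FHNum

/-!
# Feit--Higman: the `2 × 2` representations of the dihedral Hecke algebra
-/

set_option autoImplicit false
set_option linter.unusedSectionVars false
set_option linter.unusedSimpArgs false

namespace Cfsg.Agent.Lib.Hecke2x2

open Cfsg.Agent.Lib.HeckeAbs Cfsg.Agent.Lib.FHNum Real Finset Matrix

/-- The matrix `R₁ = diag(q₁, -1)`. -/
def R1 (q₁ : ℝ) : M2 := !![q₁, 0; 0, -1]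

/-- The matrix `R₂`, depending on the parameter `y`. -/
def R2 (q₂ y : ℝ) : M2 := !![y - 1, 1; y * (q₂ + 1 - y), q₂ - y]

lemma R1_sq (q₁ : ℝ) : R1 q₁ * R1 q₁ = q₁ • 1 + (q₁ - 1) • R1 q₁ := by
  ext i j
  fin_cases i <;> fin_cases j <;> simp [R1, Matrix.mul_apply, Fin.sum_univ_two]
  all_goals ring

lemma R2_sq (q₂ y : ℝ) : R2 q₂ y * R2 q₂ y = q₂ • 1 + (q₂ - 1) • R2 q₂ y := by
  ext i j
  fin_cases i <;> fin_cases j <;> simp [R2, Matrix.mul_apply, Fin.sum_univ_two] <;> ring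

lemma R1_add_one (q₁ : ℝ) : 1 + R1 q₁ = (q₁ + 1) • EE := by
  ext i j
  fin_cases i <;> fin_cases j <;> simp [R1, EE]
  ring

lemma g_sq (q₁ q₂ y : ℝ) : (R1 q₁ * R2 q₂ y) * (R1 q₁ * R2 q₂ y) =
    ((q₁ + 1) * y - q₁ - q₂) • (R1 q₁ * R2 q₂ y) - (q₁ * q₂) • 1 := by
  ext i j
  fin_cases i <;> fin_cases j <;>
    simp [R1, R2, Matrix.mul_apply, Fin.sum_univ_two, Matrix.sub_apply] <;> ring

lemma g'_sq (q₁ q₂ y : ℝ) : (R2 q₂ y * R1 q₁) * (R2 q₂ y * R1 q₁) =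
    ((q₁ + 1) * y - q₁ - q₂) • (R2 q₂ y * R1 q₁) - (q₁ * q₂) • 1 := by
  ext i j
  fin_cases i <;> fin_cases j <;>
    simp [R1, R2, Matrix.mul_apply, Fin.sum_univ_two, Matrix.sub_apply] <;> ring

lemma g_entry (q₁ q₂ y : ℝ) : (R1 q₁ * R2 q₂ y) 0 0 = q₁ * (y - 1) := by
  simp [R1, R2, Matrix.mul_apply, Fin.sum_univ_two]

lemma g'_entry (q₁ q₂ y : ℝ) : (R2 q₂ y * R1 q₁) 0 0 = q₁ * (y - 1) := by
  simp [R1, R2, Matrix.mul_apply, Fin.sum_univ_two]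
  ring

lemma mul_R1_entry (Y : M2) (q₁ : ℝ) : (Y * R1 q₁) 0 0 = Y 0 0 * q₁ := by
  simp [R1, Matrix.mul_apply, Fin.sum_univ_two]

/-- The odd braid relation. -/
lemma braid3 (q y : ℝ) :
    (R1 q * R2 q y) * R1 q - (R2 q y * R1 q) * R2 q y =
      (q + ((q + 1) * y - q - q)) • (R1 q - R2 q y) := by
  ext i j
  fin_cases i <;> fin_cases j <;>
    simp [R1, R2, Matrix.mul_apply, Fin.sum_univ_two, Matrix.sub_apply] <;> ring

/-! ### Closed forms of the alternating products -/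

section Alt

variable {X : Type*} [Monoid X] (a b : X)

lemma altR_closed (l : ℕ) :
    altR 1 a b (2 * l) = ((b * a) ^ l, (a * b) ^ l) ∧
      altR 1 a b (2 * l + 1) = ((a * b) ^ l * a, (b * a) ^ l * b) := by
  induction l with
  | zero => simp [altR]
  | succ l ih =>
    have e1 : altR 1 a b (2 * (l + 1)) = ((b * a) ^ (l + 1), (a * b) ^ (l + 1)) := by
      have : 2 * (l + 1) = (2 * l + 1) + 1 := by ring
      rw [this]
      show ((altR 1 a b (2 * l + 1)).2 * a, (altR 1 a b (2 * l + 1)).1 * b) = _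
      rw [ih.2]
      simp [pow_succ, mul_assoc]
    refine ⟨e1, ?_⟩
    show ((altR 1 a b (2 * (l + 1))).2 * a, (altR 1 a b (2 * (l + 1))).1 * b) = _
    rw [e1]

lemma alt_closed (l : ℕ) :
    alt 1 a b (2 * l) = ((a * b) ^ l, (b * a) ^ l) ∧
      alt 1 a b (2 * l + 1) = (a * (b * a) ^ l, b * (a * b) ^ l) := by
  induction l with
  | zero => simp [alt]
  | succ l ih =>
    have e1 : alt 1 a b (2 * (l + 1)) = ((a * b) ^ (l + 1), (b * a) ^ (l + 1)) := by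
      have : 2 * (l + 1) = (2 * l + 1) + 1 := by ring
      rw [this]
      show (a * (alt 1 a b (2 * l + 1)).2, b * (alt 1 a b (2 * l + 1)).1) = _
      rw [ih.2]
      simp [pow_succ', mul_assoc]
    refine ⟨e1, ?_⟩
    show (a * (alt 1 a b (2 * (l + 1))).2, b * (alt 1 a b (2 * (l + 1))).1) = _
    rw [e1]

lemma pow_mul_comm_alt (l : ℕ) : (b * a) ^ l * b = b * (a * b) ^ l := by
  induction l with
  | zero => simp
  | succ l ih =>
    calc (b * a) ^ (l + 1) * b = b * a * ((b * a) ^ l * b) := by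
          rw [pow_succ', mul_assoc, mul_assoc]
      _ = b * (a * b) ^ (l + 1) := by
          rw [ih, pow_succ', mul_assoc, mul_assoc]

end Alt

/-! ### Powers of a matrix with a quadratic relation -/

/-- From the quadratic relation, a formula for powers. -/
lemma pow_formula {N : M2} {T X w₁ : ℝ} (hN : N * N = T • N - X • 1) {W : ℕ → ℝ}
    (hW0 : W 0 = 0) (hW1 : W 1 = w₁) (hW : ∀ l, W (l + 2) = T * W (l + 1) - X * W l) (l : ℕ) :
    w₁ • N ^ (l + 1) = W (l + 1) • N - (X * W l) • 1 := by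
  induction l with
  | zero => simp [hW0, hW1]
  | succ l ih =>
    have h3 : w₁ • N ^ (l + 1 + 1) = (w₁ • N ^ (l + 1)) * N := by
      rw [pow_succ, Matrix.smul_mul]
    rw [h3, ih, Matrix.sub_mul, Matrix.smul_mul, hN, Matrix.smul_mul, Matrix.one_mul, hW l]
    module

/-! ### Trigonometric part -/

/-- The normalised entries `h_l`. -/
noncomputable def hh (E φ : ℝ) (l : ℕ) : ℝ := cos (l * φ) + E * sin (l * φ)

lemma hh_zero (E φ : ℝ) : hh E φ 0 = 1 := by simp [hh]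

lemma hh_rec (E φ : ℝ) (l : ℕ) : hh E φ (l + 2) = 2 * cos φ * hh E φ (l + 1) - hh E φ l := by
  have e1 : ((l + 2 : ℕ) : ℝ) * φ = ((l + 1 : ℕ) : ℝ) * φ + φ := by push_cast; ring
  have e2 : (l : ℝ) * φ = ((l + 1 : ℕ) : ℝ) * φ - φ := by push_cast; ring
  simp only [hh]
  rw [e1, e2, cos_add, sin_add, cos_sub, sin_sub]
  ring

lemma hh_sq (E φ : ℝ) (n : ℕ) :
    (hh E φ n) ^ 2 = (1 + E ^ 2) / 2 + (1 - E ^ 2) / 2 * cos (2 * n * φ) + E * sin (2 * n * φ) := by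
  have e : 2 * (n : ℝ) * φ = 2 * (n * φ) := by ring
  rw [e, cos_two_mul, sin_two_mul]
  simp only [hh]
  have h := sin_sq_add_cos_sq ((n : ℝ) * φ)
  linear_combination E ^ 2 * h

lemma sum_hh_sq (E φ : ℝ) (hs : sin φ ≠ 0) (n : ℕ) :
    ∑ l ∈ range n, (hh E φ l) ^ 2 = n / 2 * (1 + E ^ 2) +
      (1 - E ^ 2) / 2 * ((sin ((2 * n - 1) * φ) + sin φ) / (2 * sin φ)) +
      E * ((cos φ - cos ((2 * n - 1) * φ)) / (2 * sin φ)) := by
  induction n with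
  | zero =>
    have : (2 * ((0 : ℕ) : ℝ) - 1) * φ = -φ := by push_cast; ring
    rw [this, sin_neg, cos_neg]
    simp
  | succ n ih =>
    rw [Finset.sum_range_succ, ih, hh_sq]
    have e1 : (2 * ((n + 1 : ℕ) : ℝ) - 1) * φ = 2 * n * φ + φ := by push_cast; ring
    have e2 : (2 * (n : ℝ) - 1) * φ = 2 * n * φ - φ := by ring
    rw [e1, e2, sin_add, cos_add, sin_sub, cos_sub]
    push_cast
    field_simp
    ring

/-- Sums over even and odd indices. -/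
lemma sum_range_two_mul (f : ℕ → ℝ) (r : ℕ) :
    ∑ k ∈ range (2 * r), f k = ∑ l ∈ range r, (f (2 * l) + f (2 * l + 1)) := by
  induction r with
  | zero => simp
  | succ r ih =>
    have : 2 * (r + 1) = 2 * r + 1 + 1 := by ring
    rw [this, Finset.sum_range_succ, Finset.sum_range_succ, ih, Finset.sum_range_succ]
    ring

/-- Powers of `N`, entries. -/
lemma entry_pow {N : M2} {x φ G : ℝ} (hx : x ≠ 0) (hs : sin φ ≠ 0)
    (hN : N * N = (2 * x * cos φ) • N - (x ^ 2) • 1) (hG : N 0 0 = G) (l : ℕ) :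
    (N ^ l) 0 0 = x ^ l * hh ((G / x - cos φ) / sin φ) φ l := by
  induction l using Nat.twoStepInduction with
  | zero => simp [hh]
  | one =>
    simp only [pow_one, hG, hh, Nat.cast_one, one_mul]
    field_simp
    ring
  | more l ih1 ih2 =>
    have e : N ^ (l + 2) = (2 * x * cos φ) • N ^ (l + 1) - (x ^ 2) • N ^ l := by
      have e' : N ^ (l + 2) = N ^ l * (N * N) := by rw [pow_add, pow_two]
      rw [e', hN, Matrix.mul_sub, Matrix.mul_smul, Matrix.mul_smul, Matrix.mul_one, pow_succ N l]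
    rw [e, Matrix.sub_apply, Matrix.smul_apply, Matrix.smul_apply, ih1, ih2, hh_rec, smul_eq_mul,
      smul_eq_mul]
    ring

section Param

variable {q₁ q₂ x φ y : ℝ}

lemma g_eq_sq (hxx : x ^ 2 = q₁ * q₂) (hT : (q₁ + 1) * y - q₁ - q₂ = 2 * x * cos φ) :
    (R1 q₁ * R2 q₂ y) * (R1 q₁ * R2 q₂ y) =
    (2 * x * cos φ) • (R1 q₁ * R2 q₂ y) - (x ^ 2) • 1 := by
  rw [g_sq, hT, hxx]

lemma g'_eq_sq (hxx : x ^ 2 = q₁ * q₂) (hT : (q₁ + 1) * y - q₁ - q₂ = 2 * x * cos φ) :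
    (R2 q₂ y * R1 q₁) * (R2 q₂ y * R1 q₁) =
    (2 * x * cos φ) • (R2 q₂ y * R1 q₁) - (x ^ 2) • 1 := by
  rw [g'_sq, hT, hxx]

/-- The `k`-th summand. -/
noncomputable def ff (q₁ q₂ y : ℝ) (k : ℕ) : ℝ :=
  (altR (1 : M2) (R1 q₁) (R2 q₂ y) k).2 0 0 / (alt (1 : ℝ) q₁ q₂ k).2 *
    (alt (1 : M2) (R1 q₁) (R2 q₂ y) k).2 0 0

variable (hq₁ : 0 < q₁) (hq₂ : 0 < q₂) (hx0 : 0 < x) (hxx : x ^ 2 = q₁ * q₂)
  (hT : (q₁ + 1) * y - q₁ - q₂ = 2 * x * cos φ) (hs : sin φ ≠ 0)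

include hq₁ hq₂ hx0 hxx hT hs

lemma ff_even (l : ℕ) :
    ff q₁ q₂ y (2 * l) = (hh ((q₁ * (y - 1) / x - cos φ) / sin φ) φ l) ^ 2 := by
  set E := (q₁ * (y - 1) / x - cos φ) / sin φ with hE
  have h1 := entry_pow hx0.ne' hs (g_eq_sq hxx hT) (g_entry q₁ q₂ y) l
  have h2 := entry_pow hx0.ne' hs (g'_eq_sq hxx hT) (g'_entry q₁ q₂ y) l
  rw [← hE] at h1 h2
  simp only [ff]
  rw [(altR_closed _ _ l).1, (alt_closed _ _ l).1, (alt_closed _ _ l).1]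
  simp only
  rw [h1, h2, mul_comm q₂ q₁, ← hxx, ← pow_mul]
  have hne : x ^ (2 * l) ≠ 0 := pow_ne_zero _ hx0.ne'
  have e : x ^ (2 * l) = x ^ l * x ^ l := by rw [two_mul, pow_add]
  rw [e]
  have hne' : x ^ l ≠ 0 := pow_ne_zero _ hx0.ne'
  field_simp

lemma ff_odd (l : ℕ) :
    ff q₁ q₂ y (2 * l + 1) = (hh ((q₁ * (y - 1) / x - cos φ) / sin φ) φ (l + 1)) ^ 2 / q₁ := by
  set E := (q₁ * (y - 1) / x - cos φ) / sin φ with hE
  have h2 := entry_pow hx0.ne' hs (g'_eq_sq hxx hT) (g'_entry q₁ q₂ y) (l + 1)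
  rw [← hE] at h2
  simp only [ff]
  rw [(altR_closed _ _ l).2, (alt_closed _ _ l).2, (alt_closed _ _ l).2]
  simp only
  rw [← pow_mul_comm_alt (R1 q₁) (R2 q₂ y) l]
  set v := (((R2 q₂ y * R1 q₁) ^ l * R2 q₂ y) 0 0) with hv
  have h3 : v * q₁ = x ^ (l + 1) * hh E φ (l + 1) := by
    rw [← h2, pow_succ, hv, ← mul_R1_entry, Matrix.mul_assoc]
  rw [mul_comm q₁ q₂, mul_comm q₂ q₁, ← hxx, ← pow_mul]
  have hv' : v = x ^ (l + 1) * hh E φ (l + 1) / q₁ := by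
    field_simp
    linarith
  rw [hv']
  have hq₂' : q₂ = x ^ 2 / q₁ := by
    rw [hxx]; field_simp
  rw [hq₂', pow_succ, pow_mul]
  have hne' : x ^ l ≠ 0 := pow_ne_zero _ hx0.ne'
  have e : (x ^ 2) ^ l = x ^ l * x ^ l := by rw [← pow_mul, two_mul, pow_add]
  rw [e]
  field_simp

lemma one_add_E_sq :
    1 + ((q₁ * (y - 1) / x - cos φ) / sin φ) ^ 2 =
      q₁ * ((q₁ + q₂ + 2 * (x * cos φ)) * (q₁ * q₂ + 1 - 2 * (x * cos φ))) /
        ((q₁ + 1) ^ 2 * (q₁ * q₂ - (x * cos φ) ^ 2)) := by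
  have hs2 : sin φ ^ 2 = 1 - cos φ ^ 2 := by
    have := sin_sq_add_cos_sq φ
    linarith
  set c := cos φ with hc
  have hq1 : q₁ + 1 ≠ 0 := by positivity
  have hy : y = (q₁ + q₂ + 2 * x * c) / (q₁ + 1) := by
    field_simp
    linarith
  have hd : q₁ * q₂ - (x * c) ^ 2 = x ^ 2 * sin φ ^ 2 := by
    rw [hs2, ← hxx]; ring
  have hsne : sin φ ^ 2 ≠ 0 := pow_ne_zero _ hs
  have hxne : x ≠ 0 := hx0.ne'
  rw [hd]
  -- clear the denominators
  have e1 : (q₁ * (y - 1) / x - c) / sin φ = (q₁ * (y - 1) - x * c) / (x * sin φ) := by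
    field_simp
  rw [e1, hy]
  have hqq : q₁ * q₂ = x ^ 2 := hxx.symm
  field_simp
  rw [hs2]
  have hq₂' : q₂ = x ^ 2 / q₁ := by
    rw [hxx]; field_simp
  rw [hq₂']
  field_simp
  ring

end Param

/-! ### The closed form of the sum -/

section Final

variable {q₁ q₂ : ℝ} {m j : ℕ}

lemma phi_facts (hj : 1 ≤ j) (hjm : 2 * j < m) :
    0 < sin (2 * π * j / m) ∧ (m : ℝ) * (2 * π * j / m) = 2 * π * j := by
  have hm : (0 : ℝ) < m := by
    have : 0 < m := by omega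
    exact_mod_cast this
  have hj' : (0 : ℝ) < j := by exact_mod_cast hj
  have hjm' : 2 * (j : ℝ) < m := by exact_mod_cast hjm
  constructor
  · apply sin_pos_of_pos_of_lt_pi
    · positivity
    · rw [div_lt_iff₀ hm]
      nlinarith [pi_pos]
  · field_simp

/-- The sequence `x^l sin(lφ)`. -/
noncomputable def WW (x φ : ℝ) (l : ℕ) : ℝ := x ^ l * sin (l * φ)

lemma WW_zero (x φ : ℝ) : WW x φ 0 = 0 := by simp [WW]

lemma WW_one (x φ : ℝ) : WW x φ 1 = x * sin φ := by simp [WW]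

lemma WW_rec (x φ : ℝ) (l : ℕ) :
    WW x φ (l + 2) = (2 * x * cos φ) * WW x φ (l + 1) - x ^ 2 * WW x φ l := by
  have e1 : ((l + 2 : ℕ) : ℝ) * φ = ((l + 1 : ℕ) : ℝ) * φ + φ := by push_cast; ring
  have e2 : (l : ℝ) * φ = ((l + 1 : ℕ) : ℝ) * φ - φ := by push_cast; ring
  simp only [WW]
  rw [e1, e2, sin_add, sin_sub]
  ring

variable {x φ y : ℝ}

/-- The formula for powers, in the case at hand. -/
lemma pow_WW {N : M2} (hN : N * N = (2 * x * cos φ) • N - (x ^ 2) • 1) (l : ℕ) :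
    (x * sin φ) • N ^ (l + 1) = WW x φ (l + 1) • N - (x ^ 2 * WW x φ l) • 1 :=
  pow_formula hN (WW_zero x φ) (WW_one x φ) (WW_rec x φ) l

/-- The braid relation, even case. -/
lemma braid_even (hx0 : 0 < x) (hxx : x ^ 2 = q₁ * q₂)
    (hT : (q₁ + 1) * y - q₁ - q₂ = 2 * x * cos φ) (hs : sin φ ≠ 0) {r : ℕ} (hr : 1 ≤ r)
    (hsr : sin (r * φ) = 0) :
    (altR (1 : M2) (R1 q₁) (R2 q₂ y) (2 * r)).1 = (altR (1 : M2) (R1 q₁) (R2 q₂ y) (2 * r)).2 := by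
  rw [(altR_closed _ _ r).1]
  simp only
  obtain ⟨r', rfl⟩ : ∃ r', r = r' + 1 := ⟨r - 1, by omega⟩
  have h1 : (x * sin φ) • (R2 q₂ y * R1 q₁) ^ (r' + 1) = (x * sin φ) • (R1 q₁ * R2 q₂ y) ^ (r' + 1) := by
    have hg := g_eq_sq (q₁ := q₁) (q₂ := q₂) (y := y) (x := x) (φ := φ) hxx hT
    have hg' := g'_eq_sq (q₁ := q₁) (q₂ := q₂) (y := y) (x := x) (φ := φ) hxx hT
    rw [pow_WW hg, pow_WW hg']
    have : WW x φ (r' + 1) = 0 := by
      rw [WW, hsr, mul_zero]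
    rw [this]
    simp
  have hne : x * sin φ ≠ 0 := mul_ne_zero hx0.ne' hs
  exact smul_right_injective _ hne h1

/-- The braid relation, odd case. -/
lemma braid_odd {q : ℝ} (hq : 0 < q) (hT : (q + 1) * y - q - q = 2 * q * cos φ) (hs : sin φ ≠ 0)
    {r : ℕ} (hr : 1 ≤ r) (hsr : sin ((r + 1 : ℕ) * φ) = - sin (r * φ)) :
    (altR (1 : M2) (R1 q) (R2 q y) (2 * r + 1)).1 = (altR (1 : M2) (R1 q) (R2 q y) (2 * r + 1)).2 := by
  rw [(altR_closed _ _ r).2]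
  simp only
  obtain ⟨r', rfl⟩ : ∃ r', r = r' + 1 := ⟨r - 1, by omega⟩
  have hxx : q ^ 2 = q * q := by ring
  have hg := g_eq_sq (q₁ := q) (q₂ := q) (y := y) (x := q) (φ := φ) hxx hT
  have hg' := g'_eq_sq (q₁ := q) (q₂ := q) (y := y) (x := q) (φ := φ) hxx hT
  have h1 : (q * sin φ) • ((R1 q * R2 q y) ^ (r' + 1) * R1 q) =
      (q * sin φ) • ((R2 q y * R1 q) ^ (r' + 1) * R2 q y) := by
    rw [← Matrix.smul_mul, ← Matrix.smul_mul, pow_WW hg, pow_WW hg', Matrix.sub_mul, Matrix.sub_mul,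
      Matrix.smul_mul, Matrix.smul_mul, Matrix.smul_mul, Matrix.smul_mul, Matrix.one_mul,
      Matrix.one_mul, ← sub_eq_zero]
    have h3 := braid3 q y
    rw [hT] at h3
    have e : WW q φ (r' + 1) • (R1 q * R2 q y * R1 q) - (q ^ 2 * WW q φ r') • R1 q -
        (WW q φ (r' + 1) • (R2 q y * R1 q * R2 q y) - (q ^ 2 * WW q φ r') • R2 q y) =
        WW q φ (r' + 1) • ((R1 q * R2 q y) * R1 q - (R2 q y * R1 q) * R2 q y) -
          (q ^ 2 * WW q φ r') • (R1 q - R2 q y) := by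
      module
    rw [e, h3, smul_smul, ← sub_smul]
    have h4 : WW q φ (r' + 1) * (q + 2 * q * cos φ) - q ^ 2 * WW q φ r' = 0 := by
      simp only [WW]
      have e5 : (r' : ℝ) * φ = ((r' + 1 : ℕ) : ℝ) * φ - φ := by push_cast; ring
      have e6 : ((r' + 1 + 1 : ℕ) : ℝ) * φ = ((r' + 1 : ℕ) : ℝ) * φ + φ := by push_cast; ring
      rw [e6, sin_add] at hsr
      rw [e5, sin_sub, pow_succ]
      have h7 : sin (((r' + 1 : ℕ) : ℝ) * φ) * cos φ + cos (((r' + 1 : ℕ) : ℝ) * φ) * sin φ +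
          sin (((r' + 1 : ℕ) : ℝ) * φ) = 0 := by linarith
      linear_combination q * q ^ r' * q * h7
    rw [h4, zero_smul]
  have hne : q * sin φ ≠ 0 := mul_ne_zero hq.ne' hs
  exact smul_right_injective _ hne h1

/-- The sum in the even case. -/
lemma Z_even (hq₁ : 0 < q₁) (hq₂ : 0 < q₂) (hx0 : 0 < x) (hxx : x ^ 2 = q₁ * q₂)
    (hT : (q₁ + 1) * y - q₁ - q₂ = 2 * x * cos φ) (hs : sin φ ≠ 0) {r j : ℕ}
    (hφ : (r : ℝ) * φ = π * j) :
    (q₁ + 1) * ∑ k ∈ range (2 * r), ff q₁ q₂ y k =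
      ((2 * r : ℕ) : ℝ) / 4 * FHNum.RR q₁ q₂ (x * cos φ) := by
  set E := (q₁ * (y - 1) / x - cos φ) / sin φ with hE
  have h1 : ∀ l, ff q₁ q₂ y (2 * l) + ff q₁ q₂ y (2 * l + 1) =
      (hh E φ l) ^ 2 + (hh E φ (l + 1)) ^ 2 / q₁ := by
    intro l
    rw [ff_even hq₁ hq₂ hx0 hxx hT hs, ff_odd hq₁ hq₂ hx0 hxx hT hs]
  rw [sum_range_two_mul, Finset.sum_congr rfl (fun l _ => h1 l), Finset.sum_add_distrib,
    ← Finset.sum_div]
  -- the value of `h_r`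
  have hr1 : (hh E φ r) ^ 2 = 1 := by
    rw [hh, hφ]
    have e1 : sin (π * j) = 0 := by
      rw [mul_comm]; exact sin_nat_mul_pi j
    rw [e1, mul_zero, add_zero, mul_comm, cos_nat_mul_pi]
    rw [← pow_mul, mul_comm, pow_mul]
    simp
  have h2 : ∑ l ∈ range r, (hh E φ (l + 1)) ^ 2 = ∑ l ∈ range r, (hh E φ l) ^ 2 := by
    have e1 := Finset.sum_range_succ (fun l => (hh E φ l) ^ 2) r
    have e2 := Finset.sum_range_succ' (fun l => (hh E φ l) ^ 2) r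
    simp only [hr1, hh_zero] at e1 e2
    simp only [one_pow] at e2
    linarith
  rw [h2]
  have h3 : ∑ l ∈ range r, (hh E φ l) ^ 2 = r / 2 * (1 + E ^ 2) := by
    rw [sum_hh_sq E φ hs r]
    have e : (2 * (r : ℝ) - 1) * φ = ((j : ℕ) : ℝ) * (2 * π) - φ := by
      have : (2 * (r : ℝ) - 1) * φ = 2 * (r * φ) - φ := by ring
      rw [this, hφ]; ring
    rw [e, sin_nat_mul_two_pi_sub, cos_nat_mul_two_pi_sub]
    simp
  rw [h3, FHNum.RR]
  have h4 := one_add_E_sq hq₁ hq₂ hx0 hxx hT hs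
  rw [← hE] at h4
  rw [h4]
  have hq1 : q₁ + 1 ≠ 0 := by positivity
  have hq0 : q₁ ≠ 0 := hq₁.ne'
  push_cast
  by_cases hd : q₁ * q₂ - (x * cos φ) ^ 2 = 0
  · simp [hd]
  · field_simp
    ring

/-- The sum in the odd case. -/
lemma Z_odd {q : ℝ} (hq : 0 < q) (hT : (q + 1) * y - q - q = 2 * q * cos φ) (hs : sin φ ≠ 0)
    {r j : ℕ} (hφ : ((2 * r + 1 : ℕ) : ℝ) * φ = 2 * π * j) :
    (q + 1) * ∑ k ∈ range (2 * r + 1), ff q q y k =
      ((2 * r + 1 : ℕ) : ℝ) / 4 * FHNum.RR q q (q * cos φ) := by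
  have hxx : q ^ 2 = q * q := by ring
  set E := (q * (y - 1) / q - cos φ) / sin φ with hE
  have h1 : ∀ l, ff q q y (2 * l) + ff q q y (2 * l + 1) =
      (hh E φ l) ^ 2 + (hh E φ (l + 1)) ^ 2 / q := by
    intro l
    rw [ff_even hq hq hq hxx hT hs, ff_odd hq hq hq hxx hT hs]
  rw [Finset.sum_range_succ, sum_range_two_mul, Finset.sum_congr rfl (fun l _ => h1 l),
    Finset.sum_add_distrib, ← Finset.sum_div, ff_even hq hq hq hxx hT hs, ← hE]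
  set S := ∑ l ∈ range (r + 1), (hh E φ l) ^ 2 with hS
  have e1 : ∑ l ∈ range r, (hh E φ l) ^ 2 + (hh E φ r) ^ 2 = S := by
    rw [hS, Finset.sum_range_succ]
  have e2 : ∑ l ∈ range r, (hh E φ (l + 1)) ^ 2 = S - 1 := by
    rw [hS, Finset.sum_range_succ']
    simp [hh_zero]
  have e3 : S = ((r : ℝ) + 1) / 2 * (1 + E ^ 2) + (1 - E ^ 2) / 4 + E * ((cos φ - 1) / (2 * sin φ)) := by
    rw [hS, sum_hh_sq E φ hs (r + 1)]
    have e : (2 * ((r + 1 : ℕ) : ℝ) - 1) * φ = ((j : ℕ) : ℝ) * (2 * π) := by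
      have h5 : (2 * ((r + 1 : ℕ) : ℝ) - 1) * φ = ((2 * r + 1 : ℕ) : ℝ) * φ := by
        push_cast; ring
      rw [h5, hφ]; ring
    have e8 : sin (((j : ℕ) : ℝ) * (2 * π)) = 0 := by
      simpa using sin_nat_mul_two_pi_sub 0 j
    rw [e, e8, cos_nat_mul_two_pi]
    push_cast
    field_simp
    ring
  have hq1 : q + 1 ≠ 0 := by positivity
  have hq0 : q ≠ 0 := hq.ne'
  have e4 : E * ((cos φ - 1) / (2 * sin φ)) = - (q - 1) / (2 * (q + 1)) := by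
    have hy : y = (2 * q + 2 * q * cos φ) / (q + 1) := by
      field_simp
      linarith
    have hs2 : sin φ ^ 2 = 1 - cos φ ^ 2 := by
      have := sin_sq_add_cos_sq φ
      linarith
    have e5 : E = (q - 1) * (1 + cos φ) / ((q + 1) * sin φ) := by
      rw [hE, hy]
      field_simp
      ring
    rw [e5]
    have e6 : (q - 1) * (1 + cos φ) / ((q + 1) * sin φ) * ((cos φ - 1) / (2 * sin φ)) =
        (q - 1) * ((cos φ) ^ 2 - 1) / (2 * (q + 1) * sin φ ^ 2) := by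
      field_simp
      ring
    rw [e6]
    have : cos φ ^ 2 - 1 = - sin φ ^ 2 := by linarith
    rw [this]
    field_simp
  have h4 := one_add_E_sq hq hq hq hxx hT hs
  rw [← hE] at h4
  have e7 : S = (2 * (r : ℝ) + 1) / 4 * (1 + E ^ 2) + 1 / (q + 1) := by
    rw [e3, e4]
    field_simp
    ring
  have e9 : ∑ x ∈ range r, (hh E φ x) ^ 2 + (∑ i ∈ range r, (hh E φ (i + 1)) ^ 2) / q +
      (hh E φ r) ^ 2 = S + (S - 1) / q := by
    rw [e2, ← e1]; ring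
  rw [e9, FHNum.RR]
  rw [e7, h4]
  push_cast
  have hd : q * q - (q * cos φ) ^ 2 ≠ 0 := by
    have e10 : q * q - (q * cos φ) ^ 2 = q ^ 2 * sin φ ^ 2 := by
      have := sin_sq_add_cos_sq φ
      have e11 : sin φ ^ 2 = 1 - cos φ ^ 2 := by linarith
      rw [e11]; ring
    rw [e10]
    positivity
  field_simp
  ring

end Final

/-! ### Assembling -/

/-- The abstract form of the theorem of Feit and Higman. -/
theorem fh_abstract {A : Type*} [Ring A] [Algebra ℝ A] {u A₁ A₂ : A} {q₁ q₂ : ℝ} {m : ℕ}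
    (tr : A →ₗ[ℝ] ℝ) (hm : 2 ≤ m) (h₁ : 1 < q₁) (h₂ : 1 < q₂) (hq₁ : q₁ ∈ FHNum.KQ)
    (hq₂ : q₂ ∈ FHNum.KQ) (huu : u * u = u) (hu1 : u * A₁ = A₁) (hu2 : u * A₂ = A₂)
    (h11 : A₁ * A₁ = q₁ • u + (q₁ - 1) • A₁) (h22 : A₂ * A₂ = q₂ • u + (q₂ - 1) • A₂)
    (hA : (alt u A₁ A₂ m).1 = (alt u A₁ A₂ m).2)
    (hq : (alt (1 : ℝ) q₁ q₂ m).1 = (alt (1 : ℝ) q₁ q₂ m).2)
    (htb : ∀ k, 1 ≤ k → k < m → tr (alt u A₁ A₂ k).2 = 0)
    (hta : ∀ k, 1 ≤ k → k ≤ m → tr (alt u A₁ A₂ k).1 = 0)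
    (htu : 0 < tr u) (htuq : tr u ∈ FHNum.KQ) (hidem : ∀ e : A, e * e = e → ∃ n : ℕ, tr e = n) :
    m = 2 ∨ m = 3 ∨ m = 4 ∨ m = 6 ∨ m = 8 := by
  have hq₁0 : 0 < q₁ := by linarith
  have hq₂0 : 0 < q₂ := by linarith
  have hodd : Odd m → q₁ = q₂ := by
    rintro ⟨r, rfl⟩
    have h3 := (alt_closed q₁ q₂ r).2
    rw [h3] at hq
    simp only at hq
    have h4 : q₁ * q₂ ≠ 0 := by positivity
    rw [mul_comm q₂ q₁] at hq
    exact mul_right_cancel₀ (pow_ne_zero r h4) hq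
  refine FHNum.main hm h₁ h₂ hq₁ hq₂ hodd ?_
  intro j hj hjm
  obtain ⟨hs0, hmφ⟩ := phi_facts (m := m) (j := j) hj hjm
  set φ := 2 * π * j / m with hφ
  have hs : sin φ ≠ 0 := hs0.ne'
  have hX : 0 < q₁ * q₂ := by positivity
  set x := √(q₁ * q₂) with hx
  have hx0 : 0 < x := Real.sqrt_pos.2 hX
  have hxx : x ^ 2 = q₁ * q₂ := Real.sq_sqrt hX.le
  set τ := x * cos φ with hτ
  set y := (q₁ + q₂ + 2 * τ) / (q₁ + 1) with hy
  have hT : (q₁ + 1) * y - q₁ - q₂ = 2 * x * cos φ := by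
    rw [hy, hτ]
    field_simp
    ring
  have hmR : (0 : ℝ) < m := by
    have : 0 < m := by omega
    exact_mod_cast this
  -- the braid relation and the value of `Z`
  obtain ⟨hP, hZ⟩ : (altR (1 : M2) (R1 q₁) (R2 q₂ y) m).1 = (altR (1 : M2) (R1 q₁) (R2 q₂ y) m).2 ∧
      (q₁ + 1) * ∑ k ∈ range m, ff q₁ q₂ y k = (m : ℝ) / 4 * FHNum.RR q₁ q₂ τ := by
    rcases Nat.even_or_odd m with he | ho
    · obtain ⟨r, hr⟩ := he
      have hr' : m = 2 * r := by omega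
      have hr1 : 1 ≤ r := by omega
      have hrR : (r : ℝ) * φ = π * j := by
        have : (m : ℝ) = 2 * r := by rw [hr']; push_cast; ring
        rw [this] at hmφ
        have e : 2 * ((r : ℝ) * φ) = 2 * (π * j) := by linarith
        linarith
      have hs1 : sin ((r : ℝ) * φ) = 0 := by
        rw [hrR, mul_comm]; exact sin_nat_mul_pi j
      rw [hr'] at *
      exact ⟨braid_even hx0 hxx hT hs hr1 hs1, Z_even hq₁0 hq₂0 hx0 hxx hT hs hrR⟩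
    · have hqq := hodd ho
      obtain ⟨r, hr⟩ := ho
      have hr1 : 1 ≤ r := by omega
      subst hqq
      have hxq : x = q₁ := by
        rw [hx]; exact Real.sqrt_mul_self hq₁0.le
      rw [hxq] at hT hτ
      have hmφ' : ((2 * r + 1 : ℕ) : ℝ) * φ = 2 * π * j := by rw [← hr]; exact hmφ
      have hsr : sin ((r + 1 : ℕ) * φ) = - sin (r * φ) := by
        have e : ((r + 1 : ℕ) : ℝ) * φ = ((j : ℕ) : ℝ) * (2 * π) - (r : ℝ) * φ := by
          push_cast at hmφ' ⊢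
          linarith
        rw [e, sin_nat_mul_two_pi_sub]
      rw [hr] at *
      refine ⟨braid_odd hq₁0 hT hs hr1 hsr, ?_⟩
      rw [hτ]
      exact Z_odd hq₁0 hT hs hmφ'
  -- positivity of `Z`
  have hc2 : cos φ ^ 2 < 1 := by
    have := sin_sq_add_cos_sq φ
    have h3 : 0 < sin φ ^ 2 := by positivity
    linarith
  have hc3 : -1 < cos φ := by nlinarith
  have hc4 : cos φ < 1 := by nlinarith
  have hsum : 2 * x ≤ q₁ + q₂ := by
    have h3 : (2 * x) ^ 2 ≤ (q₁ + q₂) ^ 2 := by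
      have : (2 * x) ^ 2 = 4 * (q₁ * q₂) := by rw [mul_pow, hxx]; norm_num
      rw [this]
      nlinarith [sq_nonneg (q₁ - q₂)]
    exact le_of_sq_le_sq h3 (by positivity)
  have hu₁ : 0 < q₁ + q₂ + 2 * τ := by
    rw [hτ]; nlinarith
  have hu₂ : 0 < q₁ * q₂ + 1 - 2 * τ := by
    rw [hτ, ← hxx]; nlinarith [sq_nonneg (x - 1)]
  have hd : 0 < q₁ * q₂ - τ ^ 2 := by
    rw [hτ, mul_pow, ← hxx]
    nlinarith [pow_pos hx0 2]
  have hRpos : 0 < FHNum.RR q₁ q₂ τ := by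
    rw [FHNum.RR]; positivity
  set Z := (q₁ + 1) * ∑ k ∈ range m, ff q₁ q₂ y k with hZdef
  have hZpos : 0 < Z := by
    rw [hZ]; positivity
  have hsq := cc_EE_sq (u := u) (A₁ := A₁) (A₂ := A₂) (R₁ := R1 q₁) (R₂ := R2 q₂ y) (q₁ := q₁)
    (q₂ := q₂) (m := m) huu hu1 hu2 hq₁0.ne' hq₂0.ne' h11 (R1_sq q₁) h22 (R2_sq q₂ y) (R1_add_one q₁)
    hA hP hq
  have htr := tr_cc_EE (u := u) (A₁ := A₁) (A₂ := A₂) (R₁ := R1 q₁) (R₂ := R2 q₂ y) (q₁ := q₁)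
    (q₂ := q₂) (m := m) (by omega) hq₁0.ne' hq₂0.ne' tr htb hta
  set e₀ := cc u A₁ A₂ (R1 q₁) (R2 q₂ y) q₁ q₂ m EE with he₀
  have hsq' : e₀ * e₀ = Z • e₀ := hsq
  obtain ⟨n, hn⟩ := hidem (Z⁻¹ • e₀) (by
    rw [smul_mul_smul_comm, hsq', smul_smul]
    congr 1
    field_simp)
  rw [map_smul, htr, smul_eq_mul] at hn
  have hnpos : (0 : ℝ) < n := by
    rw [← hn]; positivity
  have hZval : Z = tr u / n := by
    rw [eq_div_iff hnpos.ne', ← hn]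
    field_simp
  have hR : FHNum.RR q₁ q₂ τ = 4 * (tr u / n) / m := by
    rw [← hZval, hZ]
    field_simp
  rw [hR]
  refine FHNum.KQ.div_mem (FHNum.KQ.mul_mem ?_ (FHNum.KQ.div_mem htuq ?_)) ?_
  · exact FHNum.mem_KQ_iff.2 ⟨4, by norm_num⟩
  · exact FHNum.mem_KQ_iff.2 ⟨n, by norm_num⟩
  · exact FHNum.mem_KQ_iff.2 ⟨m, by norm_num⟩

end Cfsg.Agent.Lib.Hecke2x2
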