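import Mathlib
import Cfsg.Agent.Lib.BNPair
import Cfsg.Agent.Lib.BNPair2
import Cfsg.Agent.Lib.HeckeAbs
import Cfsg.Agent.Lib.Hecke2x2

/-!
# Feit--Higman: the Weyl group of a (B,N)-pair of rank two is dihedral

Given `S = {s₁, s₂}`, there is `m ≥ 2` such that the alternating words `s₁ s₂ ⋯` and `s₂ s₁ ⋯` of
length `k ≤ m` are reduced, the two words of length `m` agree modulo `B`, and `|W| = 2 m`.
-/

set_option autoImplicit false

namespace Cfsg.Agent.Lib.FHWeyl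

open Cfsg Cfsg.Agent.Lib.BNPair Cfsg.Agent.Lib.HeckeAbs

variable {G : Type*} [Group G] {P : Cfsg.BNPair G} {s₁ s₂ : G}

lemma alt_mem_N (hs₁ : s₁ ∈ P.S) (hs₂ : s₂ ∈ P.S) (k : ℕ) :
    (alt (1 : G) s₁ s₂ k).1 ∈ P.N ∧ (alt (1 : G) s₁ s₂ k).2 ∈ P.N := by
  induction k with
  | zero => exact ⟨P.N.one_mem, P.N.one_mem⟩
  | succ k ih =>
    exact ⟨P.N.mul_mem (S_mem_N hs₁) ih.2, P.N.mul_mem (S_mem_N hs₂) ih.1⟩

/-- If `s` shortens `n`, then `n` has a reduced word beginning with `s`. -/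
lemma exists_reduced_head {s n : G} (hs : s ∈ P.S) (hn : n ∈ P.N) (h : len P (s * n) < len P n) :
    ∃ l, IsReducedWord P (s :: l) ∧ n⁻¹ * (s :: l).prod ∈ P.B := by
  obtain ⟨l, hl, hB⟩ := exists_reduced (P := P) (P.N.mul_mem (S_mem_N hs) hn)
  have h1 : n⁻¹ * (s :: l).prod ∈ P.B := by
    have e : n⁻¹ * (s :: l).prod = (n⁻¹ * (s * s) * n) * ((s * n)⁻¹ * l.prod) := by
      rw [List.prod_cons]; group
    rw [e]
    exact P.B.mul_mem (T_conj' hn (P.sq_mem s hs) (S_sq_mem_N hs)) hB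
  refine ⟨l, ⟨hl.1.cons hs, ?_⟩, h1⟩
  have h2 := len_congr (P := P) h1
  have h3 := len_congr (P := P) hB
  have h4 := len_le_S_mul (P := P) hs hn
  have h5 := hl.2
  rw [← h2, List.length_cons]
  omega

/-- Reduced words alternate. -/
lemma reduced_prod (hS : ∀ s ∈ P.S, s = s₁ ∨ s = s₂) :
    ∀ (l : List G) (s : G), IsReducedWord P (s :: l) →
      (s = s₁ ∧ (s :: l).prod = (alt (1 : G) s₁ s₂ (l.length + 1)).1) ∨
        (s = s₂ ∧ (s :: l).prod = (alt (1 : G) s₁ s₂ (l.length + 1)).2) := by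
  intro l
  induction l with
  | nil =>
    intro s hs
    have hsS : s ∈ P.S := hs.1.head
    rcases hS s hsS with rfl | rfl
    · left
      refine ⟨rfl, ?_⟩
      simp [alt]
    · right
      refine ⟨rfl, ?_⟩
      simp [alt]
  | cons s' l ih =>
    intro s hs
    have hsS : s ∈ P.S := hs.1.head
    have ht := hs.tail
    have hs'S : s' ∈ P.S := ht.1.head
    have hne : s ≠ s' := by
      rintro rfl
      have h1 := hs.2
      simp only [List.prod_cons, List.length_cons] at h1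
      have h2 := len_S_mul_S_mul (P := P) hsS (ht.tail.1.prod_mem_N subset_rfl)
      have h3 := len_prod_le (P := P) ht.tail.1
      omega
    rcases ih s' ht with ⟨rfl, e⟩ | ⟨rfl, e⟩
    · -- `s' = s₁`, so `s = s₂`
      rcases hS s hsS with rfl | rfl
      · exact absurd rfl hne
      · right
        refine ⟨rfl, ?_⟩
        rw [List.prod_cons, e]
        rfl
    · rcases hS s hsS with rfl | rfl
      · left
        refine ⟨rfl, ?_⟩
        rw [List.prod_cons, e]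
        rfl
      · exact absurd rfl hne

/-- The lengthening step. -/
lemma len_step [Finite G] (hs₁ : s₁ ∈ P.S) (hs₂ : s₂ ∈ P.S) (hne : s₁ ≠ s₂)
    (hS : ∀ s ∈ P.S, s = s₁ ∨ s = s₂) {k : ℕ}
    (hlen : len P (alt (1 : G) s₁ s₂ k).2 = k)
    (hnc : (alt (1 : G) s₁ s₂ k).2⁻¹ * (alt (1 : G) s₁ s₂ k).1 ∉ P.B) :
    len P (s₁ * (alt (1 : G) s₁ s₂ k).2) = k + 1 := by
  have hN := (alt_mem_N hs₁ hs₂ k).2
  have h1 := len_S_mul_le (P := P) hs₁ hN
  have h2 := len_S_mul_ne (P := P) hs₁ hN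
  rw [hlen] at h1 h2
  by_contra h3
  have h4 : len P (s₁ * (alt (1 : G) s₁ s₂ k).2) < len P (alt (1 : G) s₁ s₂ k).2 := by
    rw [hlen]; omega
  obtain ⟨l, hl, hB⟩ := exists_reduced_head hs₁ hN h4
  have h5 := len_congr (P := P) hB
  rw [hlen, hl.2] at h5
  rcases reduced_prod hS l s₁ hl with ⟨-, e⟩ | ⟨h6, -⟩
  · apply hnc
    rw [e] at hB
    simp only [List.length_cons] at h5
    subst h5
    exact hB
  · exact hne h6

/-- Swapping the two generators. -/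
lemma swap_fst (s₁ s₂ : G) (k : ℕ) : (alt (1 : G) s₂ s₁ k).1 = (alt (1 : G) s₁ s₂ k).2 := by
  rw [alt_swap (1 : G) s₁ s₂ k]

lemma swap_snd (s₁ s₂ : G) (k : ℕ) : (alt (1 : G) s₂ s₁ k).2 = (alt (1 : G) s₁ s₂ k).1 := by
  rw [alt_swap (1 : G) s₁ s₂ k]

/-- Lengths of alternating words before the first coincidence. -/
lemma len_alt [Finite G] (hs₁ : s₁ ∈ P.S) (hs₂ : s₂ ∈ P.S) (hne : s₁ ≠ s₂)
    (hS : ∀ s ∈ P.S, s = s₁ ∨ s = s₂) (k : ℕ)
    (hnc : ∀ j, 1 ≤ j → j < k → (alt (1 : G) s₁ s₂ j).1⁻¹ * (alt (1 : G) s₁ s₂ j).2 ∉ P.B) :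
    len P (alt (1 : G) s₁ s₂ k).1 = k ∧ len P (alt (1 : G) s₁ s₂ k).2 = k := by
  induction k with
  | zero =>
    simp only [alt_zero_fst, alt_zero_snd]
    exact ⟨len_one, len_one⟩
  | succ k ih =>
    have ih' := ih (fun j h1 h2 => hnc j h1 (by omega))
    have hnc' : k = 0 ∨ (alt (1 : G) s₁ s₂ k).1⁻¹ * (alt (1 : G) s₁ s₂ k).2 ∉ P.B := by
      rcases Nat.eq_zero_or_pos k with h | h
      · exact Or.inl h
      · exact Or.inr (hnc k h (by omega))
    have h0 : (alt (1 : G) s₁ s₂ k).2⁻¹ * (alt (1 : G) s₁ s₂ k).1 ∉ P.B ∨ k = 0 := by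
      rcases hnc' with h | h
      · exact Or.inr h
      · left
        intro h1
        apply h
        have := P.B.inv_mem h1
        simpa using this
    constructor
    · rw [alt_succ_fst]
      rcases h0 with h0 | rfl
      · exact len_step hs₁ hs₂ hne hS ih'.2 h0
      · simp only [alt_zero_snd, mul_one]
        exact len_S hs₁
    · rw [alt_succ_snd]
      rcases h0 with h0 | rfl
      · have h1 : (alt (1 : G) s₂ s₁ k).2⁻¹ * (alt (1 : G) s₂ s₁ k).1 ∉ P.B := by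
          rw [swap_fst s₁ s₂, swap_snd s₁ s₂]
          intro h2
          apply h0
          have := P.B.inv_mem h2
          simpa using this
        have h3 := len_step (s₁ := s₂) (s₂ := s₁) hs₂ hs₁ hne.symm
          (fun s hs => (hS s hs).symm) (k := k) (by rw [swap_snd s₁ s₂]; exact ih'.1) h1
        rw [swap_snd s₁ s₂] at h3
        exact h3
      · simp only [alt_zero_fst, mul_one]
        exact len_S hs₂

/-- There is a first coincidence. -/
lemma exists_coincidence [Finite G] (hs₁ : s₁ ∈ P.S) (hs₂ : s₂ ∈ P.S) (hne : s₁ ≠ s₂)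
    (hS : ∀ s ∈ P.S, s = s₁ ∨ s = s₂) :
    ∃ k, 1 ≤ k ∧ (alt (1 : G) s₁ s₂ k).1⁻¹ * (alt (1 : G) s₁ s₂ k).2 ∈ P.B := by
  by_contra hcon
  push Not at hcon
  have h1 : ∀ k, len P (alt (1 : G) s₁ s₂ k).1 = k := fun k =>
    (len_alt hs₁ hs₂ hne hS k (fun j h1 _ => hcon j h1)).1
  have h2 : Function.Injective (fun k => (alt (1 : G) s₁ s₂ k).1) := by
    intro a b hab
    have := congrArg (len P) hab
    simp only [h1] at this
    exact this
  exact not_injective_infinite_finite _ h2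

open Classical in
/-- The number `m`: the first coincidence. -/
noncomputable def mm [Finite G] (hs₁ : s₁ ∈ P.S) (hs₂ : s₂ ∈ P.S) (hne : s₁ ≠ s₂)
    (hS : ∀ s ∈ P.S, s = s₁ ∨ s = s₂) : ℕ :=
  Nat.find (exists_coincidence hs₁ hs₂ hne hS)

/-- Closure: every element of `N` is, modulo `B`, an alternating word of length at most `m`. -/
lemma exists_alt_of_mem {m : ℕ} (hm : 1 ≤ m) (hs₁ : s₁ ∈ P.S) (hs₂ : s₂ ∈ P.S)
    (hS : ∀ s ∈ P.S, s = s₁ ∨ s = s₂)
    (hcoin : (alt (1 : G) s₁ s₂ m).1⁻¹ * (alt (1 : G) s₁ s₂ m).2 ∈ P.B) {n : G} (hn : n ∈ P.N) :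
    ∃ k ≤ m, n⁻¹ * (alt (1 : G) s₁ s₂ k).1 ∈ P.B ∨ n⁻¹ * (alt (1 : G) s₁ s₂ k).2 ∈ P.B := by
  -- the step for a letter `s₁`
  have key : ∀ (a b : G) (ha : a ∈ P.S) (hb : b ∈ P.S),
      ((alt (1 : G) a b m).1⁻¹ * (alt (1 : G) a b m).2 ∈ P.B) → ∀ n : G,
      (∃ k ≤ m, n⁻¹ * (alt (1 : G) a b k).1 ∈ P.B ∨ n⁻¹ * (alt (1 : G) a b k).2 ∈ P.B) →
      ∃ k ≤ m, (a * n)⁻¹ * (alt (1 : G) a b k).1 ∈ P.B ∨ (a * n)⁻¹ * (alt (1 : G) a b k).2 ∈ P.B := by
    intro a b ha hb hc n hk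
    -- first treat `n ≡ b_k`, `k < m`, and `n ≡ a_k`, `1 ≤ k`.
    have case1 : ∀ k, k < m → n⁻¹ * (alt (1 : G) a b k).2 ∈ P.B →
        (a * n)⁻¹ * (alt (1 : G) a b (k + 1)).1 ∈ P.B := by
      intro k _ h
      rw [alt_succ_fst]
      have e : (a * n)⁻¹ * (a * (alt (1 : G) a b k).2) = n⁻¹ * (alt (1 : G) a b k).2 := by group
      rw [e]
      exact h
    have case2 : ∀ k, n⁻¹ * (alt (1 : G) a b (k + 1)).1 ∈ P.B →
        (a * n)⁻¹ * (alt (1 : G) a b k).2 ∈ P.B := by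
      intro k h
      rw [alt_succ_fst] at h
      have hN := (alt_mem_N ha hb k).2
      have e : (a * n)⁻¹ * (alt (1 : G) a b k).2 =
          (n⁻¹ * (a * (alt (1 : G) a b k).2)) * ((alt (1 : G) a b k).2⁻¹ * (a * a)⁻¹ *
            (alt (1 : G) a b k).2) := by
        group
      rw [e]
      exact P.B.mul_mem h (T_conj' hN (S_sq_inv_mem ha) (P.N.inv_mem (S_sq_mem_N ha)))
    obtain ⟨k, hk, h | h⟩ := hk
    · -- `n ≡ a_k`
      rcases Nat.eq_zero_or_pos k with rfl | hk0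
      · exact ⟨1, hm, Or.inl (case1 0 (by omega) (by simpa using h))⟩
      · obtain ⟨k', rfl⟩ : ∃ k', k = k' + 1 := ⟨k - 1, by omega⟩
        exact ⟨k', by omega, Or.inr (case2 k' h)⟩
    · -- `n ≡ b_k`
      rcases Nat.lt_or_ge k m with hk' | hk'
      · exact ⟨k + 1, by omega, Or.inl (case1 k hk' h)⟩
      · have hkm : k = m := by omega
        subst hkm
        -- `n ≡ b_m ≡ a_m`
        have h3 : n⁻¹ * (alt (1 : G) a b k).1 ∈ P.B := by
          have e : n⁻¹ * (alt (1 : G) a b k).1 = (n⁻¹ * (alt (1 : G) a b k).2) *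
              ((alt (1 : G) a b k).1⁻¹ * (alt (1 : G) a b k).2)⁻¹ := by group
          rw [e]
          exact P.B.mul_mem h (P.B.inv_mem hc)
        obtain ⟨k', rfl⟩ : ∃ k', k = k' + 1 := ⟨k - 1, by omega⟩
        exact ⟨k', by omega, Or.inr (case2 k' h3)⟩
  have hc' : (alt (1 : G) s₂ s₁ m).1⁻¹ * (alt (1 : G) s₂ s₁ m).2 ∈ P.B := by
    rw [swap_fst s₁ s₂, swap_snd s₁ s₂]
    have := P.B.inv_mem hcoin
    simpa using this
  -- all words
  have hword : ∀ l : List G, IsWordIn P.S l →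
      ∃ k ≤ m, l.prod⁻¹ * (alt (1 : G) s₁ s₂ k).1 ∈ P.B ∨ l.prod⁻¹ * (alt (1 : G) s₁ s₂ k).2 ∈ P.B := by
    intro l
    induction l with
    | nil =>
      intro _
      exact ⟨0, by omega, Or.inl (by simp [P.B.one_mem])⟩
    | cons s l ih =>
      intro hl
      have h1 := ih hl.tail
      rw [List.prod_cons]
      rcases hS s hl.head with rfl | rfl
      · exact key s s₂ hs₁ hs₂ hcoin _ h1
      · have h2 : ∃ k ≤ m, l.prod⁻¹ * (alt (1 : G) s s₁ k).1 ∈ P.B ∨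
            l.prod⁻¹ * (alt (1 : G) s s₁ k).2 ∈ P.B := by
          obtain ⟨k, hk, h⟩ := h1
          refine ⟨k, hk, ?_⟩
          rw [swap_fst s₁ s, swap_snd s₁ s]
          exact h.symm
        obtain ⟨k, hk, h⟩ := key s s₁ hs₂ hs₁ hc' _ h2
        refine ⟨k, hk, ?_⟩
        rw [swap_fst s₁ s, swap_snd s₁ s] at h
        exact h.symm
  obtain ⟨l, hl, hnl⟩ := exists_word (P := P) hn
  obtain ⟨k, hk, h⟩ := hword l hl
  refine ⟨k, hk, ?_⟩
  have ee : ∀ x : G, n⁻¹ * x = (n⁻¹ * l.prod) * (l.prod⁻¹ * x) := by intro x; group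
  rcases h with h | h
  · left
    rw [ee]
    exact P.B.mul_mem hnl h
  · right
    rw [ee]
    exact P.B.mul_mem hnl h

/-- The structure of `W`. -/
theorem weyl_structure [Finite G] (hs₁ : s₁ ∈ P.S) (hs₂ : s₂ ∈ P.S) (hne : s₁ ≠ s₂)
    (hS : ∀ s ∈ P.S, s = s₁ ∨ s = s₂) :
    ∃ m, 2 ≤ m ∧ (∀ k ≤ m, len P (alt (1 : G) s₁ s₂ k).1 = k ∧ len P (alt (1 : G) s₁ s₂ k).2 = k) ∧
      (alt (1 : G) s₁ s₂ m).1⁻¹ * (alt (1 : G) s₁ s₂ m).2 ∈ P.B ∧
      ((P.B ⊓ P.N).subgroupOf P.N).index = 2 * m := by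
  classical
  set m := Nat.find (exists_coincidence hs₁ hs₂ hne hS) with hm
  have hspec := Nat.find_spec (exists_coincidence hs₁ hs₂ hne hS)
  rw [← hm] at hspec
  have hmin : ∀ j, 1 ≤ j → j < m → (alt (1 : G) s₁ s₂ j).1⁻¹ * (alt (1 : G) s₁ s₂ j).2 ∉ P.B := by
    intro j hj hjm h
    have := Nat.find_min (exists_coincidence hs₁ hs₂ hne hS) (m := j) (by rw [← hm]; exact hjm)
    exact this ⟨hj, h⟩
  have hlen : ∀ k ≤ m, len P (alt (1 : G) s₁ s₂ k).1 = k ∧ len P (alt (1 : G) s₁ s₂ k).2 = k := by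
    intro k hk
    exact len_alt hs₁ hs₂ hne hS k (fun j h1 h2 => hmin j h1 (by omega))
  have hm1 : 1 ≤ m := hspec.1
  have hm2 : 2 ≤ m := by
    by_contra h
    have h1 : m = 1 := by omega
    have h2 := hspec.2
    rw [h1] at h2
    apply hne
    apply P.inj s₁ hs₁ s₂ hs₂
    simpa [alt] using h2
  refine ⟨m, hm2, hlen, hspec.2, ?_⟩
  -- counting the cosets
  have hmemA : ∀ k, (alt (1 : G) s₁ s₂ k).1 ∈ P.N := fun k => (alt_mem_N hs₁ hs₂ k).1
  have hmemB : ∀ k, (alt (1 : G) s₁ s₂ k).2 ∈ P.N := fun k => (alt_mem_N hs₁ hs₂ k).2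
  let T' : Subgroup P.N := (P.B ⊓ P.N).subgroupOf P.N
  let f : Fin (m + 1) ⊕ Fin (m - 1) → (P.N ⧸ T') := fun i =>
    match i with
    | Sum.inl k => QuotientGroup.mk ⟨(alt (1 : G) s₁ s₂ k).1, hmemA k⟩
    | Sum.inr k => QuotientGroup.mk ⟨(alt (1 : G) s₁ s₂ (k + 1)).2, hmemB (k + 1)⟩
  have hmk : ∀ a b : P.N, (QuotientGroup.mk a : P.N ⧸ T') = QuotientGroup.mk b ↔
      (a : G)⁻¹ * (b : G) ∈ P.B := by
    intro a b
    rw [QuotientGroup.eq, Subgroup.mem_subgroupOf]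
    constructor
    · intro h
      exact h.1
    · intro h
      exact ⟨h, (a⁻¹ * b).2⟩
  have hinj : Function.Injective f := by
    rintro (⟨k, hk⟩ | ⟨k, hk⟩) (⟨l, hl⟩ | ⟨l, hl⟩) h
    · have h1 := (hmk _ _).1 h
      have h2 := len_congr (P := P) h1
      rw [(hlen k (by omega)).1, (hlen l (by omega)).1] at h2
      subst h2
      rfl
    · exfalso
      have h1 := (hmk _ _).1 h
      have h2 := len_congr (P := P) h1
      rw [(hlen k (by omega)).1, (hlen (l + 1) (by omega)).2] at h2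
      subst h2
      exact hmin (l + 1) (by omega) (by omega) h1
    · exfalso
      have h1 := (hmk _ _).1 h.symm
      have h2 := len_congr (P := P) h1
      rw [(hlen l (by omega)).1, (hlen (k + 1) (by omega)).2] at h2
      subst h2
      exact hmin (k + 1) (by omega) (by omega) h1
    · have h1 := (hmk _ _).1 h
      have h2 := len_congr (P := P) h1
      rw [(hlen (k + 1) (by omega)).2, (hlen (l + 1) (by omega)).2] at h2
      have h3 : k = l := by omega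
      subst h3
      rfl
  have hsurj : Function.Surjective f := by
    intro x
    obtain ⟨n, rfl⟩ := QuotientGroup.mk_surjective x
    obtain ⟨k, hk, h⟩ := exists_alt_of_mem hm1 hs₁ hs₂ hS hspec.2 n.2
    rcases h with h | h
    · exact ⟨Sum.inl ⟨k, by omega⟩, ((hmk _ _).2 h).symm⟩
    · rcases Nat.eq_zero_or_pos k with rfl | hk0
      · exact ⟨Sum.inl ⟨0, by omega⟩, ((hmk _ _).2 h).symm⟩
      · rcases Nat.lt_or_ge k m with hkm | hkm
        · obtain ⟨k', rfl⟩ : ∃ k', k = k' + 1 := ⟨k - 1, by omega⟩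
          exact ⟨Sum.inr ⟨k', by omega⟩, ((hmk _ _).2 h).symm⟩
        · have hkm' : k = m := by omega
          subst hkm'
          refine ⟨Sum.inl ⟨m, by omega⟩, ((hmk _ _).2 ?_).symm⟩
          have e : (n : G)⁻¹ * (alt (1 : G) s₁ s₂ m).1 = ((n : G)⁻¹ * (alt (1 : G) s₁ s₂ m).2) *
              ((alt (1 : G) s₁ s₂ m).1⁻¹ * (alt (1 : G) s₁ s₂ m).2)⁻¹ := by group
          show (n : G)⁻¹ * (alt (1 : G) s₁ s₂ m).1 ∈ P.B
          rw [e]
          exact P.B.mul_mem h (P.B.inv_mem hspec.2)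
  have hcard := Nat.card_congr (Equiv.ofBijective f ⟨hinj, hsurj⟩)
  rw [Nat.card_eq_fintype_card, Fintype.card_sum, Fintype.card_fin, Fintype.card_fin] at hcard
  show Nat.card (P.N ⧸ T') = 2 * m
  rw [← hcard]
  omega

end Cfsg.Agent.Lib.FHWeyl
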