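import Mathlib
import Cfsg.Agent.Lib.FHWeyl
import Cfsg.Agent.Lib.Hecke2x2

/-!
# Feit--Higman: from a (B,N)-pair to matrices

For a subset `X` of `G` let `MM β X` be the `G × G` matrix with `(x,y)`-entry `β⁻¹` if `x⁻¹ y ∈ X`
and `0` otherwise.  With `β = |B|`, the matrices of the double cosets satisfy the relations of the
Hecke algebra of the Weyl group.
-/

set_option autoImplicit false
set_option linter.unusedSectionVars false

namespace Cfsg.Agent.Lib.FHMatrix

open Cfsg Cfsg.Agent.Lib.BNPair Cfsg.Agent.Lib.HeckeAbs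

variable {G : Type*} [Group G] [Fintype G] [DecidableEq G]

/-- The matrix attached to a subset. -/
noncomputable def MM (β : ℝ) (X : Set G) : Matrix G G ℝ :=
  fun x y => X.indicator (fun _ => β⁻¹) (x⁻¹ * y)

lemma MM_apply (β : ℝ) (X : Set G) (x y : G) :
    MM β X x y = X.indicator (fun _ => β⁻¹) (x⁻¹ * y) := rfl

/-- The count occurring in a product. -/
noncomputable def cnt (X Y : Set G) (g : G) : ℕ := {w : G | w ∈ X ∧ w⁻¹ * g ∈ Y}.ncard

lemma sum_indicator_ncard (S : Set G) (c : ℝ) :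
    ∑ w : G, S.indicator (fun _ => c) w = S.ncard * c := by
  classical
  rw [Set.ncard_eq_toFinset_card']
  simp only [Set.indicator_apply]
  have : ∀ w, (if w ∈ S then c else 0) = if w ∈ S.toFinset then c else 0 := by
    intro w
    simp
  simp only [this, Finset.sum_ite_mem, Finset.univ_inter, Finset.sum_const, nsmul_eq_mul]

lemma MM_mul_apply (β : ℝ) (X Y : Set G) (x y : G) :
    (MM β X * MM β Y) x y = cnt X Y (x⁻¹ * y) * (β⁻¹ * β⁻¹) := by
  rw [Matrix.mul_apply, ← Equiv.sum_comp (Equiv.mulLeft x), cnt, ← sum_indicator_ncard]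
  refine Finset.sum_congr rfl fun w _ => ?_
  simp only [Equiv.coe_mulLeft, MM_apply, inv_mul_cancel_left]
  have e : (x * w)⁻¹ * y = w⁻¹ * (x⁻¹ * y) := by group
  rw [e]
  by_cases h1 : w ∈ X <;> by_cases h2 : w⁻¹ * (x⁻¹ * y) ∈ Y <;> simp [h1, h2]

lemma MM_mulVec (β : ℝ) (X : Set G) : (MM β X).mulVec 1 = ((X.ncard : ℝ) * β⁻¹) • 1 := by
  ext x
  simp only [Matrix.mulVec, dotProduct, Pi.one_apply, mul_one, Pi.smul_apply, smul_eq_mul]
  rw [← sum_indicator_ncard, ← Equiv.sum_comp (Equiv.mulLeft x)]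
  refine Finset.sum_congr rfl fun w _ => ?_
  simp [MM_apply]

lemma trace_MM (β : ℝ) (X : Set G) :
    Matrix.trace (MM β X) = Fintype.card G * X.indicator (fun _ => β⁻¹) 1 := by
  simp [Matrix.trace, MM_apply]

/-- An idempotent real matrix has natural trace. -/
lemma idem_trace (e : Matrix G G ℝ) (he : e * e = e) : ∃ n : ℕ, Matrix.trace e = n := by
  have h1 : IsIdempotentElem (Matrix.toLin' e) := by
    show (Matrix.toLin' e).comp (Matrix.toLin' e) = Matrix.toLin' e
    rw [← Matrix.toLin'_mul, he]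
  refine ⟨Module.finrank ℝ (LinearMap.range (Matrix.toLin' e)), ?_⟩
  rw [← Matrix.trace_toLin'_eq]
  exact LinearMap.IsProj.trace (LinearMap.IsIdempotentElem.isProj_range _ h1)

section BN

variable {P : Cfsg.BNPair G}

/-- The order of `B` as a real number. -/
noncomputable def bet (P : Cfsg.BNPair G) : ℝ := (Nat.card P.B : ℝ)

lemma bet_pos : 0 < bet P := by
  rw [bet]
  exact_mod_cast Nat.card_pos

lemma ncard_B : ((P.B : Set G)).ncard = Nat.card P.B := (Nat.card_coe_set_eq _).symm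

lemma ncard_smul_B (g : G) : ((fun b => g * b) '' (P.B : Set G)).ncard = Nat.card P.B := by
  rw [Set.ncard_image_of_injective _ (mul_right_injective g), ncard_B]

/-- `u` is a left unit. -/
lemma u_mul_MM {X : Set G} (hX : ∀ b ∈ P.B, ∀ x ∈ X, b * x ∈ X) :
    MM (bet P) (P.B : Set G) * MM (bet P) X = MM (bet P) X := by
  ext x y
  rw [MM_mul_apply, MM_apply]
  set g := x⁻¹ * y with hg
  have hb := (bet_pos (P := P)).ne'
  by_cases hgX : g ∈ X
  · have e : {w : G | w ∈ (P.B : Set G) ∧ w⁻¹ * g ∈ X} = (P.B : Set G) := by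
      ext w
      constructor
      · exact fun h => h.1
      · intro h
        exact ⟨h, hX _ (P.B.inv_mem h) _ hgX⟩
    rw [cnt, e, ncard_B, Set.indicator_of_mem hgX]
    have : (Nat.card P.B : ℝ) = bet P := rfl
    rw [this]
    field_simp
  · have e : {w : G | w ∈ (P.B : Set G) ∧ w⁻¹ * g ∈ X} = ∅ := by
      ext w
      simp only [Set.mem_ofPred_eq, Set.mem_empty_iff_false, iff_false, not_and]
      intro h h2
      apply hgX
      have := hX w h _ h2
      simpa using this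
    rw [cnt, e, Set.ncard_empty, Set.indicator_of_notMem hgX]
    simp

lemma dc_left_inv (n : G) : ∀ b ∈ P.B, ∀ x ∈ dc P n, b * x ∈ dc P n := by
  intro b hb x hx
  simpa using mul_mem_dc hx hb P.B.one_mem

lemma dc_S_inv {s : G} (hs : s ∈ P.S) : dc P s⁻¹ = dc P s := by
  have := dc_S_inv_mul (n := 1) hs P.N.one_mem
  simpa using this

lemma inv_mem_dc_S {s x : G} (hs : s ∈ P.S) (hx : x ∈ dc P s) : x⁻¹ ∈ dc P s := by
  have := inv_mem_dc hx
  rwa [dc_S_inv hs] at this

lemma dc_sq {s : G} (hs : s ∈ P.S) : dc P (s * s) = (P.B : Set G) := by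
  rw [← dc_one]
  apply dc_eq_dc_of_inv_mul_mem
  have e : (s * s)⁻¹ * 1 = (s * s)⁻¹ := by group
  rw [e]
  exact S_sq_inv_mem hs

/-- `B s B · B s B ⊆ B ∪ B s B`. -/
lemma dc_mul_dc {s x y : G} (hs : s ∈ P.S) (hx : x ∈ dc P s) (hy : y ∈ dc P s) :
    x * y ∈ (P.B : Set G) ∪ dc P s := by
  obtain ⟨b₁, hb₁, b₂, hb₂, rfl⟩ := mem_dc.1 hx
  have h1 := T1 (b := b₂) hs (S_mem_N hs) hb₂ hy
  rw [dc_sq hs] at h1
  have e : b₁ * s * b₂ * y = b₁ * (s * b₂ * y) := by group
  rw [e]
  rcases h1 with h1 | h1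
  · left
    exact P.B.mul_mem hb₁ h1
  · right
    simpa using mul_mem_dc h1 hb₁ P.B.one_mem

lemma one_mem_dc_iff {n : G} : (1 : G) ∈ dc P n ↔ n ∈ P.B := by
  constructor
  · intro h
    obtain ⟨b, hb, b', hb', e⟩ := mem_dc.1 h
    have : n = b⁻¹ * b'⁻¹ := by
      have e2 : b⁻¹ * (b * n * b') * b'⁻¹ = n := by group
      rw [← e2, ← e]
      group
    rw [this]
    exact P.B.mul_mem (P.B.inv_mem hb) (P.B.inv_mem hb')
  · intro h
    rw [← inv_mul_cancel n] 
    refine mem_dc.2 ⟨n⁻¹, P.B.inv_mem h, 1, P.B.one_mem, ?_⟩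
    simp

/-- `B ∩ B s B = ∅`. -/
lemma not_mem_dc_of_mem_B {s g : G} (hs : s ∈ P.S) (hg : g ∈ P.B) : g ∉ dc P s := by
  intro h
  have : (1 : G) ∈ dc P s := by
    have := mul_mem_dc h (P.B.inv_mem hg) P.B.one_mem
    simpa using this
  exact S_not_mem_B hs (one_mem_dc_iff.1 this)

/-- The parameter `q_s`. -/
noncomputable def qq (P : Cfsg.BNPair G) (s : G) : ℝ := ((dc P s).ncard : ℝ) / bet P

/-- The quadratic relation. -/
lemma MM_sq {s : G} (hs : s ∈ P.S) :
    MM (bet P) (dc P s) * MM (bet P) (dc P s) =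
      qq P s • MM (bet P) (P.B : Set G) + (qq P s - 1) • MM (bet P) (dc P s) := by
  ext x y
  rw [MM_mul_apply, Matrix.add_apply, Matrix.smul_apply, Matrix.smul_apply, MM_apply, MM_apply]
  set g := x⁻¹ * y with hg
  have hb := (bet_pos (P := P)).ne'
  by_cases hgB : g ∈ (P.B : Set G)
  · have hg2 : g ∉ dc P s := not_mem_dc_of_mem_B hs hgB
    have e : {w : G | w ∈ dc P s ∧ w⁻¹ * g ∈ dc P s} = dc P s := by
      ext w
      constructor
      · exact fun h => h.1
      · intro h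
        refine ⟨h, ?_⟩
        simpa using mul_mem_dc (inv_mem_dc_S hs h) P.B.one_mem hgB
    rw [cnt, e, Set.indicator_of_mem hgB, Set.indicator_of_notMem hg2, qq]
    simp only [smul_eq_mul]
    field_simp
    ring
  · by_cases hg2 : g ∈ dc P s
    · have e : {w : G | w ∈ dc P s ∧ w⁻¹ * g ∈ dc P s} =
          dc P s \ ((fun b => g * b) '' (P.B : Set G)) := by
        ext w
        constructor
        · rintro ⟨h1, h2⟩
          refine ⟨h1, ?_⟩
          rintro ⟨b, hb', rfl⟩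
          apply not_mem_dc_of_mem_B hs (g := b⁻¹) (P.B.inv_mem hb')
          have e3 : (g * b)⁻¹ * g = b⁻¹ := by group
          rwa [e3] at h2
        · rintro ⟨h1, h2⟩
          refine ⟨h1, ?_⟩
          rcases dc_mul_dc hs (inv_mem_dc_S hs h1) hg2 with h3 | h3
          · exfalso
            apply h2
            refine ⟨(w⁻¹ * g)⁻¹, P.B.inv_mem h3, ?_⟩
            simp only
            group
          · exact h3
      have hsub : (fun b => g * b) '' (P.B : Set G) ⊆ dc P s := by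
        rintro _ ⟨b, hb', rfl⟩
        simpa using mul_mem_dc hg2 P.B.one_mem hb'
      rw [cnt, e, Set.ncard_sdiff hsub, ncard_smul_B, Set.indicator_of_notMem hgB,
        Set.indicator_of_mem hg2, qq]
      have hle : Nat.card P.B ≤ (dc P s).ncard := by
        rw [← ncard_smul_B (P := P) g]
        exact Set.ncard_le_ncard hsub
      rw [Nat.cast_sub hle]
      have : (Nat.card P.B : ℝ) = bet P := rfl
      rw [this]
      simp only [smul_eq_mul]
      field_simp
      ring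
    · have e : {w : G | w ∈ dc P s ∧ w⁻¹ * g ∈ dc P s} = ∅ := by
        ext w
        simp only [Set.mem_ofPred_eq, Set.mem_empty_iff_false, iff_false, not_and]
        intro h1 h2
        have h3 := dc_mul_dc hs h1 h2
        have e3 : w * (w⁻¹ * g) = g := by group
        rw [e3] at h3
        rcases h3 with h3 | h3
        · exact hgB h3
        · exact hg2 h3
      rw [cnt, e, Set.ncard_empty, Set.indicator_of_notMem hgB, Set.indicator_of_notMem hg2]
      simp

/-- Lengthening. -/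
lemma MM_mul_of_len_lt {s n : G} (hs : s ∈ P.S) (hn : n ∈ P.N) (h : len P n < len P (s * n)) :
    MM (bet P) (dc P s) * MM (bet P) (dc P n) = MM (bet P) (dc P (s * n)) := by
  have hprod : ∀ x ∈ dc P s, ∀ y ∈ dc P n, x * y ∈ dc P (s * n) := by
    intro x hx y hy
    obtain ⟨b₁, hb₁, b₂, hb₂, rfl⟩ := mem_dc.1 hx
    obtain ⟨b₃, hb₃, b₄, hb₄, rfl⟩ := mem_dc.1 hy
    have e : b₁ * s * b₂ * (b₃ * n * b₄) = b₁ * (s * (b₂ * b₃) * n) * b₄ := by group
    rw [e]
    exact mul_mem_dc (mem_dc_of_len_lt hs (P.B.mul_mem hb₂ hb₃) hn h) hb₁ hb₄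
  have hdisj : ∀ z, z ∈ dc P n → z ∉ dc P (s * n) := by
    intro z h1 h2
    have h3 := mem_dc_of_mem_of_mem h1 h2
    have h4 := (dc_eq_iff (P.N.mul_mem (S_mem_N hs) hn) hn).1 h3
    have h5 := len_congr (P := P) h4
    omega
  ext x y
  rw [MM_mul_apply, MM_apply]
  set g := x⁻¹ * y with hg
  have hb := (bet_pos (P := P)).ne'
  by_cases hg1 : g ∈ dc P (s * n)
  · obtain ⟨b₁, hb₁, b₂, hb₂, e0⟩ := mem_dc.1 hg1
    set w₀ := b₁ * s with hw₀
    have hw₀m : w₀ ∈ dc P s := by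
      simpa [hw₀] using mul_mem_dc (self_mem_dc s) hb₁ P.B.one_mem
    have hk₀ : w₀⁻¹ * g ∈ dc P n := by
      have e1 : w₀⁻¹ * g = n * b₂ := by
        rw [e0, hw₀]; group
      rw [e1]
      simpa using mul_mem_dc (self_mem_dc n) P.B.one_mem hb₂
    have e : {w : G | w ∈ dc P s ∧ w⁻¹ * g ∈ dc P n} = (fun b => w₀ * b) '' (P.B : Set G) := by
      ext w
      constructor
      · rintro ⟨h1, h2⟩
        rcases dc_mul_dc hs (inv_mem_dc_S hs hw₀m) h1 with h3 | h3
        · exact ⟨w₀⁻¹ * w, h3, by simp⟩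
        · exfalso
          have h4 := hprod _ (inv_mem_dc_S hs h3) _ hk₀
          have e3 : (w₀⁻¹ * w)⁻¹ * (w₀⁻¹ * g) = w⁻¹ * g := by group
          rw [e3] at h4
          exact hdisj _ h2 h4
      · rintro ⟨b, hb', rfl⟩
        refine ⟨?_, ?_⟩
        · simpa using mul_mem_dc hw₀m P.B.one_mem hb'
        · have e3 : (w₀ * b)⁻¹ * g = b⁻¹ * (w₀⁻¹ * g) := by group
          rw [e3]
          simpa using mul_mem_dc hk₀ (P.B.inv_mem hb') P.B.one_mem
    rw [cnt, e, ncard_smul_B, Set.indicator_of_mem hg1]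
    have : (Nat.card P.B : ℝ) = bet P := rfl
    rw [this]
    field_simp
  · have e : {w : G | w ∈ dc P s ∧ w⁻¹ * g ∈ dc P n} = ∅ := by
      ext w
      simp only [Set.mem_ofPred_eq, Set.mem_empty_iff_false, iff_false, not_and]
      intro h1 h2
      apply hg1
      have := hprod _ h1 _ h2
      simpa using this
    rw [cnt, e, Set.ncard_empty, Set.indicator_of_notMem hg1]
    simp

lemma qq_gt_one {s : G} (hs : s ∈ P.S) : 1 < qq P s := by
  have hb := bet_pos (P := P)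
  rw [qq, one_lt_div hb]
  have hsub : (fun b => s * b) '' (P.B : Set G) ⊂ dc P s := by
    rw [Set.ssubset_iff_subset_ne]
    constructor
    · rintro _ ⟨b, hb', rfl⟩
      simpa using mul_mem_dc (self_mem_dc s) P.B.one_mem hb'
    · intro h
      obtain ⟨b, hb', hb''⟩ := exists_conj_not_mem (P := P) hs
      have h1 : b * s ∈ dc P s := by
        simpa using mul_mem_dc (self_mem_dc s) hb' P.B.one_mem
      rw [← h] at h1
      obtain ⟨c, hc, e⟩ := h1
      simp only at e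
      apply hb''
      have e2 : s * b * s = (s * s) * c := by
        have e3 : b = s * c * s⁻¹ := by
          rw [e]; group
        rw [e3]; group
      rw [e2]
      exact P.B.mul_mem (P.sq_mem s hs) hc
  have h2 := Set.ncard_lt_ncard hsub
  rw [ncard_smul_B] at h2
  rw [bet]
  exact_mod_cast h2

/-- The identification of the alternating products with matrices of double cosets. -/
lemma alt_MM {s₁ s₂ : G} (hs₁ : s₁ ∈ P.S) (hs₂ : s₂ ∈ P.S) {m : ℕ}
    (hlen : ∀ k ≤ m, len P (alt (1 : G) s₁ s₂ k).1 = k ∧ len P (alt (1 : G) s₁ s₂ k).2 = k) :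
    ∀ k ≤ m,
      (alt (MM (bet P) (P.B : Set G)) (MM (bet P) (dc P s₁)) (MM (bet P) (dc P s₂)) k).1 =
        MM (bet P) (dc P (alt (1 : G) s₁ s₂ k).1) ∧
      (alt (MM (bet P) (P.B : Set G)) (MM (bet P) (dc P s₁)) (MM (bet P) (dc P s₂)) k).2 =
        MM (bet P) (dc P (alt (1 : G) s₁ s₂ k).2) := by
  intro k
  induction k with
  | zero =>
    intro _
    simp [dc_one]
  | succ k ih =>
    intro hk
    have ih' := ih (by omega)
    have h0 := hlen k (by omega)
    have h1 := hlen (k + 1) hk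
    have hN := FHWeyl.alt_mem_N hs₁ hs₂ k
    constructor
    · rw [alt_succ_fst, ih'.2, alt_succ_fst]
      apply MM_mul_of_len_lt hs₁ hN.2
      rw [h0.2]
      have := h1.1
      rw [alt_succ_fst] at this
      omega
    · rw [alt_succ_snd, ih'.1, alt_succ_snd]
      apply MM_mul_of_len_lt hs₂ hN.1
      rw [h0.1]
      have := h1.2
      rw [alt_succ_snd] at this
      omega

/-- The action on the constant vector. -/
lemma alt_mulVec {s₁ s₂ : G} (k : ℕ) :
    (alt (MM (bet P) (P.B : Set G)) (MM (bet P) (dc P s₁)) (MM (bet P) (dc P s₂)) k).1.mulVec 1 =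
        (alt (1 : ℝ) (qq P s₁) (qq P s₂) k).1 • (1 : G → ℝ) ∧
    (alt (MM (bet P) (P.B : Set G)) (MM (bet P) (dc P s₁)) (MM (bet P) (dc P s₂)) k).2.mulVec 1 =
        (alt (1 : ℝ) (qq P s₁) (qq P s₂) k).2 • (1 : G → ℝ) := by
  have hb := (bet_pos (P := P)).ne'
  have hu : (MM (bet P) (P.B : Set G)).mulVec (1 : G → ℝ) = (1 : ℝ) • (1 : G → ℝ) := by
    rw [MM_mulVec, ncard_B]
    congr 1
    have : (Nat.card P.B : ℝ) = bet P := rfl
    rw [this]
    field_simp
  have hA : ∀ s : G, (MM (bet P) (dc P s)).mulVec (1 : G → ℝ) = qq P s • (1 : G → ℝ) := by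
    intro s
    rw [MM_mulVec, qq]
    rfl
  induction k with
  | zero => exact ⟨hu, hu⟩
  | succ k ih =>
    constructor
    · rw [alt_succ_fst, alt_succ_fst, ← Matrix.mulVec_mulVec, ih.2, Matrix.mulVec_smul, hA, smul_smul,
        mul_comm]
    · rw [alt_succ_snd, alt_succ_snd, ← Matrix.mulVec_mulVec, ih.1, Matrix.mulVec_smul, hA, smul_smul,
        mul_comm]

end BN

/-- The theorem of Feit and Higman, for given `S = {s₁, s₂}`. -/
theorem feit_higman_aux {P : Cfsg.BNPair G} {s₁ s₂ : G} (hs₁ : s₁ ∈ P.S) (hs₂ : s₂ ∈ P.S)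
    (hne : s₁ ≠ s₂) (hS : ∀ s ∈ P.S, s = s₁ ∨ s = s₂) :
    ((P.B ⊓ P.N).subgroupOf P.N).index ∈ ({4, 6, 8, 12, 16} : Set ℕ) := by
  obtain ⟨m, hm, hlen, hcoin, hidx⟩ := FHWeyl.weyl_structure hs₁ hs₂ hne hS
  have halt := alt_MM hs₁ hs₂ hlen
  have hb := bet_pos (P := P)
  set β := bet P with hβ
  set u := MM β (P.B : Set G) with hu
  set A₁ := MM β (dc P s₁) with hA₁
  set A₂ := MM β (dc P s₂) with hA₂
  have hKq : ∀ s : G, qq P s ∈ FHNum.KQ := by
    intro s
    rw [qq]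
    refine FHNum.KQ.div_mem (FHNum.mem_KQ_iff.2 ⟨((dc P s).ncard : ℚ), by norm_num⟩) ?_
    exact FHNum.mem_KQ_iff.2 ⟨(Nat.card P.B : ℚ), by rw [bet]; norm_num⟩
  have huu : u * u = u := u_mul_MM (X := (P.B : Set G)) (fun b hb x hx => P.B.mul_mem hb hx)
  have hu1 : u * A₁ = A₁ := u_mul_MM (dc_left_inv s₁)
  have hu2 : u * A₂ = A₂ := u_mul_MM (dc_left_inv s₂)
  have hA : (alt u A₁ A₂ m).1 = (alt u A₁ A₂ m).2 := by
    have h := halt m le_rfl
    rw [h.1, h.2, dc_eq_dc_of_inv_mul_mem hcoin]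
  have hq : (alt (1 : ℝ) (qq P s₁) (qq P s₂) m).1 = (alt (1 : ℝ) (qq P s₁) (qq P s₂) m).2 := by
    have h := alt_mulVec (P := P) (s₁ := s₁) (s₂ := s₂) m
    rw [← hβ, ← hu, ← hA₁, ← hA₂, hA, h.2] at h
    have h3 := congrFun h.1 1
    simpa using h3.symm
  have htr : ∀ {n : G}, n ∈ P.N → len P n ≠ 0 →
      Matrix.traceLinearMap G ℝ ℝ (MM β (dc P n)) = 0 := by
    intro n hn hl
    rw [Matrix.traceLinearMap_apply, trace_MM, Set.indicator_of_notMem, mul_zero]
    intro h1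
    exact hl ((len_eq_zero_iff hn).2 (one_mem_dc_iff.1 h1))
  have htb : ∀ k, 1 ≤ k → k < m → Matrix.traceLinearMap G ℝ ℝ (alt u A₁ A₂ k).2 = 0 := by
    intro k hk hkm
    rw [(halt k hkm.le).2]
    apply htr (FHWeyl.alt_mem_N hs₁ hs₂ k).2
    rw [(hlen k hkm.le).2]
    omega
  have hta : ∀ k, 1 ≤ k → k ≤ m → Matrix.traceLinearMap G ℝ ℝ (alt u A₁ A₂ k).1 = 0 := by
    intro k hk hkm
    rw [(halt k hkm).1]
    apply htr (FHWeyl.alt_mem_N hs₁ hs₂ k).1
    rw [(hlen k hkm).1]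
    omega
  have htu : Matrix.traceLinearMap G ℝ ℝ u = (Fintype.card G : ℝ) * β⁻¹ := by
    rw [Matrix.traceLinearMap_apply, trace_MM, Set.indicator_of_mem (P.B.one_mem)]
  have hcard : (0 : ℝ) < Fintype.card G := by
    exact_mod_cast Fintype.card_pos
  have hmm := Hecke2x2.fh_abstract (A := Matrix G G ℝ) (u := u) (A₁ := A₁) (A₂ := A₂)
    (q₁ := qq P s₁) (q₂ := qq P s₂) (m := m) (Matrix.traceLinearMap G ℝ ℝ) hm (qq_gt_one hs₁)
    (qq_gt_one hs₂) (hKq s₁) (hKq s₂) huu hu1 hu2 (MM_sq hs₁) (MM_sq hs₂) hA hq htb hta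
    (by rw [htu]; positivity)
    (by
      rw [htu]
      refine FHNum.KQ.mul_mem (FHNum.mem_KQ_iff.2 ⟨(Fintype.card G : ℚ), by norm_num⟩) ?_
      refine FHNum.KQ.inv_mem ?_
      exact FHNum.mem_KQ_iff.2 ⟨(Nat.card P.B : ℚ), by rw [hβ, bet]; norm_num⟩)
    (by
      intro e he
      simpa using idem_trace e he)
  rw [hidx]
  simp only [Set.mem_insert_iff, Set.mem_singleton_iff]
  omega


end Cfsg.Agent.Lib.FHMatrix
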