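import Mathlib
import Cfsg.Prelude.Def_Sporadic

/-!
# A family of subsets permuted by a group, and central extensions by a cyclic group of order three
-/

set_option autoImplicit false
set_option linter.all false

namespace Cfsg.Agent.Lib.FamilyAct

section family

variable {Γ X ι : Type*} [Group Γ] [Finite ι] (act : Γ →* Equiv.Perm X) (D : ι → Set X)

/-- The elements permuting a family of subsets. -/
def famT : Subgroup Γ where
  carrier := {g | ∃ π : Equiv.Perm ι, ∀ i, act g '' D i = D (π i)}
  mul_mem' := by
    rintro a b ⟨π, hπ⟩ ⟨ρ, hρ⟩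
    refine ⟨π * ρ, fun i => ?_⟩
    rw [map_mul, Equiv.Perm.coe_mul, Set.image_comp, hρ, hπ]
    rfl
  one_mem' := ⟨1, fun i => by simp⟩
  inv_mem' := by
    rintro a ⟨π, hπ⟩
    refine ⟨π⁻¹, fun i => ?_⟩
    have h := hπ (π⁻¹ i)
    have e : π (π⁻¹ i) = i := by simp
    rw [e] at h
    rw [← h, ← Set.image_comp, map_inv]
    have e2 : ⇑(act a)⁻¹ ∘ ⇑(act a) = id := by
      funext y
      simp
    rw [e2, Set.image_id]

variable {act D}

theorem mem_famT_of_subset (hfin : ∀ i, (D i).Finite) {g : Γ} {π : Equiv.Perm ι}
    (h : ∀ i, act g '' D i ⊆ D (π i)) : ∀ i, act g '' D i = D (π i) := by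
  have hcard : ∀ i, (D i).ncard ≤ (D (π i)).ncard := by
    intro i
    calc (D i).ncard = (act g '' D i).ncard := (Set.ncard_image_of_injective _ (act g).injective).symm
      _ ≤ _ := Set.ncard_le_ncard (h i) (hfin _)
  have hk : ∀ k i, (D i).ncard ≤ (D ((π ^ k) i)).ncard := by
    intro k
    induction k with
    | zero => intro i; simp
    | succ k ih =>
      intro i
      rw [pow_succ', Equiv.Perm.mul_apply]
      exact (ih i).trans (hcard _)
  intro i
  have hm : π ^ (orderOf π) = 1 := pow_orderOf_eq_one π
  have hpos : 0 < orderOf π := orderOf_pos π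
  have h3 := hk (orderOf π - 1) (π i)
  have h4 : (π ^ (orderOf π - 1)) (π i) = i := by
    rw [← Equiv.Perm.mul_apply, ← pow_succ]
    rw [Nat.sub_add_cancel hpos, hm]
    rfl
  rw [h4] at h3
  refine Set.eq_of_subset_of_ncard_le (h i) ?_ (hfin _)
  rwa [Set.ncard_image_of_injective _ (act g).injective]

/-- The homomorphism to the permutations of the family. -/
theorem exists_hom (hinj : Function.Injective D) :
    ∃ φ : famT act D →* Equiv.Perm ι, ∀ (g : famT act D) i, act g '' D i = D (φ g i) := by
  classical
  choose f hf using fun g : famT act D => g.2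
  have huniq : ∀ (g : Γ) (π ρ : Equiv.Perm ι), (∀ i, act g '' D i = D (π i)) → (∀ i, act g '' D i = D (ρ i)) → π = ρ := by
    intro g π ρ h1 h2
    ext i
    rw [hinj ((h1 i).symm.trans (h2 i))]
  refine ⟨MonoidHom.mk' f ?_, hf⟩
  intro a b
  apply huniq ((a * b : famT act D) : Γ) _ _ (hf (a * b))
  intro i
  show act ((a : Γ) * (b : Γ)) '' D i = D ((f a) (f b i))
  rw [map_mul, Equiv.Perm.coe_mul, Set.image_comp, hf b, hf a]

end family

section central

variable {G : Type*} [Group G] [Finite G] {ι : Type*}

/-- The main step: a subgroup of the centraliser mapping onto a simple group, with the element in the kernel. -/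
theorem main3 (x : G) (hx3 : x ^ 3 = 1) (hx1 : x ≠ 1) {P : Subgroup (Equiv.Perm ι)} (hPs : IsSimpleGroup P)
    (hPc : Nat.card P = 898128000) (K : Subgroup G) (hK : K ≤ Subgroup.centralizer ({x} : Set G)) (hxK : x ∈ K)
    (φ : K →* Equiv.Perm ι) (hφx : φ ⟨x, hxK⟩ = 1) (hsurj : P ≤ φ.range)
    (hC : Nat.card (Subgroup.centralizer ({x} : Set G)) ≤ 2694384000) :
    Nat.card (Subgroup.center (Subgroup.centralizer ({x} : Set G))) = 3 ∧
      Cfsg.IsMcL ((Subgroup.centralizer ({x} : Set G)) ⧸ Subgroup.center (Subgroup.centralizer ({x} : Set G))) := by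
  classical
  let x' : K := ⟨x, hxK⟩
  have hx'3 : x' ^ 3 = 1 := Subtype.ext hx3
  have hx'1 : x' ≠ 1 := fun e => hx1 (congrArg Subtype.val e)
  have hord : orderOf x' = 3 := orderOf_eq_prime hx'3 hx'1
  have hZle : Subgroup.zpowers x' ≤ φ.ker := by
    rw [Subgroup.zpowers_le]
    exact hφx
  have hZcard : Nat.card (Subgroup.zpowers x') = 3 := by rw [Nat.card_zpowers, hord]
  have hfinP : Finite P := Nat.finite_of_card_ne_zero (by rw [hPc]; norm_num)
  have hfinK : Finite K := inferInstance
  -- orders
  have hkcard : Nat.card K = Nat.card φ.range * Nat.card φ.ker := by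
    have h1 := Subgroup.card_eq_card_quotient_mul_card_subgroup φ.ker
    rw [Nat.card_congr (QuotientGroup.quotientKerEquivRange φ).toEquiv] at h1
    exact h1
  have h3 : 3 ≤ Nat.card φ.ker := by
    rw [← hZcard]
    exact Subgroup.card_le_of_le hZle
  have h4 : 898128000 ≤ Nat.card φ.range := by
    rw [← hPc]
    have hfr : Finite φ.range := Finite.of_surjective φ.rangeRestrict φ.rangeRestrict_surjective
    exact Subgroup.card_le_of_le hsurj
  have h5 : Nat.card K ≤ 2694384000 :=
    (Subgroup.card_le_of_le hK).trans hC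
  have hfinR : Finite φ.range := Finite.of_surjective φ.rangeRestrict φ.rangeRestrict_surjective
  have hrange : Nat.card φ.range = 898128000 := by
    by_contra hne
    have h6 : 898128001 ≤ Nat.card φ.range := by omega
    have h7 := Nat.mul_le_mul h6 h3
    omega
  have hker : Nat.card φ.ker = 3 := by
    by_contra hne
    have h6 : 4 ≤ Nat.card φ.ker := by omega
    have h7 := Nat.mul_le_mul h4 h6
    omega
  have hKcard : Nat.card K = 2694384000 := by rw [hkcard, hrange, hker]
  have hKeq : K = Subgroup.centralizer ({x} : Set G) :=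
    Subgroup.eq_of_le_of_card_ge hK (by rw [hKcard]; exact hC)
  subst hKeq
  have hPeq : P = φ.range := Subgroup.eq_of_le_of_card_ge hsurj (by rw [hrange, hPc])
  subst hPeq
  have hZeq : Subgroup.zpowers x' = φ.ker := Subgroup.eq_of_le_of_card_ge hZle (by rw [hker, hZcard])
  -- the centre of the simple group is trivial
  have hcent : Subgroup.center φ.range = ⊥ := by
    rcases IsSimpleGroup.eq_bot_or_eq_top_of_normal (G := φ.range) (Subgroup.center φ.range) inferInstance with h | h
    · exact h
    · exfalso
      have hd : 2 ∣ Nat.card φ.range := by rw [hrange]; norm_num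
      haveI : Fact (Nat.Prime 2) := ⟨Nat.prime_two⟩
      obtain ⟨g, hg⟩ := exists_prime_orderOf_dvd_card' 2 hd
      have hn : (Subgroup.zpowers g).Normal := by
        refine ⟨fun n hn c => ?_⟩
        have hc : n ∈ Subgroup.center φ.range := by rw [h]; trivial
        have e : c * n * c⁻¹ = n := by
          rw [(Subgroup.mem_center_iff.mp hc c)]
          group
        rw [e]
        exact hn
      rcases IsSimpleGroup.eq_bot_or_eq_top_of_normal (G := φ.range) (Subgroup.zpowers g) hn with h1 | h1
      · have : g = 1 := Subgroup.zpowers_eq_bot.mp h1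
        rw [this, orderOf_one] at hg
        omega
      · have h2 : Nat.card (Subgroup.zpowers g) = 2 := by rw [Nat.card_zpowers, hg]
        rw [h1] at h2
        have h3' : Nat.card (⊤ : Subgroup φ.range) = Nat.card φ.range := Nat.card_congr Subgroup.topEquiv.toEquiv
        rw [h3', hrange] at h2
        omega
  -- the centre of the centraliser
  have hcenter : Subgroup.center (Subgroup.centralizer ({x} : Set G)) = φ.ker := by
    apply le_antisymm
    · intro z hz
      rw [MonoidHom.mem_ker]
      have h1 : φ.rangeRestrict z ∈ Subgroup.center φ.range := by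
        rw [Subgroup.mem_center_iff]
        rintro ⟨_, ⟨y, rfl⟩⟩
        apply Subtype.ext
        show φ y * φ z = φ z * φ y
        rw [← map_mul, ← map_mul, Subgroup.mem_center_iff.mp hz y]
      rw [hcent, Subgroup.mem_bot] at h1
      exact congrArg Subtype.val h1
    · rw [← hZeq, Subgroup.zpowers_le, Subgroup.mem_center_iff]
      intro y
      apply Subtype.ext
      exact Subgroup.mem_centralizer_singleton_iff.mp y.2
  have e : (Subgroup.centralizer ({x} : Set G)) ⧸ Subgroup.center (Subgroup.centralizer ({x} : Set G)) ≃* φ.range :=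
    (QuotientGroup.quotientMulEquivOfEq hcenter).trans (QuotientGroup.quotientKerEquivRange φ)
  refine ⟨by rw [hcenter]; exact hker, e.isSimpleGroup, ?_⟩
  rw [Nat.card_congr e.toEquiv, hrange]

end central

end Cfsg.Agent.Lib.FamilyAct
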