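import Mathlib
import Cfsg.Prelude.Def_Classical
import Cfsg.Prelude.Def_LieClassical
import Cfsg.Agent.Lib.OrthoFourMinus
import Cfsg.Agent.Lib.UnitarySimple

/-!
# `PΩ⁻₆(q) ≅ PSU₄(q)`
-/

set_option autoImplicit false
set_option linter.unusedSectionVars false

namespace Cfsg.Agent.Lib.UnitaryOmega

open QuadraticMap Matrix Cfsg.Agent.Lib.OrthoBasic Cfsg.Agent.Lib.OrthoSiegel Cfsg.Agent.Lib.OrthoGen
  Cfsg.Agent.Lib.OrthoIndex Cfsg.Agent.Lib.OrthoSimple Cfsg.Agent.Lib.OrthoCount Cfsg.Agent.Lib.OrthoOrder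
  Cfsg.Agent.Lib.OrthoFinal Cfsg.Agent.Lib.OrthoChar Cfsg.Agent.Lib.OrthoDickson Cfsg.Agent.Lib.OrthoIso
  Cfsg.Agent.Lib.OrthoCardFinal Cfsg.Agent.Lib.OrthoAlt Cfsg.Agent.Lib.OrthoFourPlus
  Cfsg.Agent.Lib.QuadExt Cfsg.Agent.Lib.HermCount Cfsg.Agent.Lib.UnitaryBasic Cfsg.Agent.Lib.OrthoDihedral
  Cfsg.Agent.Lib.UnitarySU Cfsg.Agent.Lib.OrthoFourMinus
open scoped commutatorElement

section identities

variable {K : Type*} [Field K]

/-- The standard dot product. -/
def dot (v w : Fin 3 ⊕ Fin 3 → K) : K :=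
  v (.inl 0) * w (.inl 0) + v (.inl 1) * w (.inl 1) + v (.inl 2) * w (.inl 2)
    + v (.inr 0) * w (.inr 0) + v (.inr 1) * w (.inr 1) + v (.inr 2) * w (.inr 2)

lemma dot_act (A : Matrix (Fin 4) (Fin 4) K) (v w : Fin 3 ⊕ Fin 3 → K) :
    dot (actLin A v) w = dot v (actLin Aᵀ w) := by
  simp only [dot, actLin_apply, vecOf, altOf, Matrix.mul_apply, Fin.sum_univ_four, Matrix.transpose_apply]
  simp
  ring

/-- Swapping the coordinates. -/
def swp (v : Fin 3 ⊕ Fin 3 → K) : Fin 3 ⊕ Fin 3 → K := fun s => v s.swap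

lemma swp_swp (v : Fin 3 ⊕ Fin 3 → K) : swp (swp v) = v := by
  ext s
  simp [swp]

lemma dot_swp (v w : Fin 3 ⊕ Fin 3 → K) : dot (swp v) (swp w) = dot v w := by
  simp only [dot, swp, Sum.swap_inl, Sum.swap_inr]
  ring

lemma dot_comm (v w : Fin 3 ⊕ Fin 3 → K) : dot v w = dot w v := by
  simp only [dot]
  ring

/-- The Pfaffian form. -/
def pf (v : Fin 3 ⊕ Fin 3 → K) : K := v (.inl 0) * v (.inr 0) + v (.inl 1) * v (.inr 1) + v (.inl 2) * v (.inr 2)

lemma pf_eq [Fintype K] (v : Fin 3 ⊕ Fin 3 → K) : pf v = qPlus 3 K v := (qPlus_three v).symm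

lemma pf_act [Fintype K] (A : Matrix (Fin 4) (Fin 4) K) (v : Fin 3 ⊕ Fin 3 → K) :
    pf (actLin A v) = A.det * pf v := by
  rw [pf_eq, pf_eq, actLin_Q]

lemma pf_add (v w : Fin 3 ⊕ Fin 3 → K) : pf (v + w) = pf v + pf w + dot v (swp w) := by
  simp only [pf, dot, swp, Pi.add_apply, Sum.swap_inl, Sum.swap_inr]
  ring

lemma dot_swp_act [Fintype K] (A : Matrix (Fin 4) (Fin 4) K) (v w : Fin 3 ⊕ Fin 3 → K) :
    dot (actLin A v) (swp (actLin A w)) = A.det * dot v (swp w) := by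
  have h1 := pf_act A (v + w)
  rw [map_add, pf_add, pf_add, pf_act, pf_act] at h1
  linear_combination h1

lemma dot_nondeg {x : Fin 3 ⊕ Fin 3 → K} (h : ∀ w, dot x w = 0) : x = 0 := by
  classical
  ext s
  have h1 := h (Pi.single s 1)
  rcases s with i | i <;> fin_cases i <;> simpa [dot, Pi.single_apply] using h1

lemma vecOf_map (σ : K →+* K) (X : Matrix (Fin 4) (Fin 4) K) :
    (fun s => σ (vecOf X s)) = vecOf (X.map σ) := by
  ext s
  rcases s with i | i <;> fin_cases i <;> simp [vecOf]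

lemma altOf_map (σ : K →+* K) (v : Fin 3 ⊕ Fin 3 → K) :
    (altOf v).map σ = altOf (fun s => σ (v s)) := by
  ext i j
  fin_cases i <;> fin_cases j <;> simp [altOf]

lemma map_act (σ : K →+* K) (A : Matrix (Fin 4) (Fin 4) K) (v : Fin 3 ⊕ Fin 3 → K) :
    (fun s => σ (actLin A v s)) = actLin (A.map σ) (fun s => σ (v s)) := by
  rw [actLin_apply, vecOf_map, Matrix.map_mul, Matrix.map_mul, altOf_map, actLin_apply, Matrix.transpose_map]

lemma act_left_inv {A B : Matrix (Fin 4) (Fin 4) K} (h : A * B = 1) (v : Fin 3 ⊕ Fin 3 → K) :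
    actLin A (actLin B v) = v := by
  rw [← actLin_mul, h, actLin_one]

end identities

section tau

variable {K : Type*} [Field K] [Fintype K] {q : ℕ}

/-- The semilinear involution. -/
def tauV (q : ℕ) (v : Fin 3 ⊕ Fin 3 → K) : Fin 3 ⊕ Fin 3 → K := fun s => (v s.swap) ^ q

lemma dot_tau_swp (hK : Fintype.card K = q ^ 2) (v w : Fin 3 ⊕ Fin 3 → K) :
    dot (tauV q v) (swp w) = dot w (fun s => sigma hK (v s)) := by
  simp only [dot, tauV, swp, Sum.swap_inl, Sum.swap_inr, sigma_apply]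
  ring

/-- The key commutation relation. -/
theorem tau_act (hK : Fintype.card K = q ^ 2) {A : Matrix (Fin 4) (Fin 4) K} (hdet : A.det = 1)
    (hU : Aᵀ * A.map (sigma hK) = 1) (v : Fin 3 ⊕ Fin 3 → K) :
    tauV q (actLin A v) = actLin A (tauV q v) := by
  have hinv : A * A⁻¹ = 1 := Matrix.mul_nonsing_inv A (by rw [hdet]; exact isUnit_one)
  have hinv' : A⁻¹ * A = 1 := Matrix.nonsing_inv_mul A (by rw [hdet]; exact isUnit_one)
  have key : ∀ w, dot (tauV q (actLin A v) - actLin A (tauV q v)) w = 0 := by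
    intro w
    obtain ⟨y, hy⟩ : ∃ y, w = swp (actLin A y) := by
      refine ⟨actLin A⁻¹ (swp w), ?_⟩
      rw [act_left_inv hinv, swp_swp]
    have hsub : ∀ (a b c : Fin 3 ⊕ Fin 3 → K), dot (a - b) c = dot a c - dot b c := by
      intro a b c
      simp only [dot, Pi.sub_apply]
      ring
    rw [hsub, hy, dot_swp_act, hdet, one_mul, dot_tau_swp hK, dot_tau_swp hK, map_act, dot_act, ← actLin_mul, hU,
      actLin_one, sub_self]
  have h1 := dot_nondeg key
  exact sub_eq_zero.1 h1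

end tau

section embedding

variable {F K : Type*} [Field F] [Fintype F] [Field K] [Fintype K] [Algebra F K] {q : ℕ}

/-- The embedding of `K³` in `K⁶`. -/
def jV (q : ℕ) (x : Fin 3 → K) : Fin 3 ⊕ Fin 3 → K := Sum.elim x (fun i => (x i) ^ q)

lemma jV_inl (x : Fin 3 → K) (i : Fin 3) : jV q x (.inl i) = x i := rfl

lemma jV_inr (x : Fin 3 → K) (i : Fin 3) : jV q x (.inr i) = (x i) ^ q := rfl

lemma tau_jV (hK : Fintype.card K = q ^ 2) (x : Fin 3 → K) : tauV q (jV q x) = jV q x := by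
  ext s
  rcases s with i | i
  · simp [tauV, jV, pow_q_pow_q hK]
  · simp [tauV, jV]

lemma jV_of_tau {v : Fin 3 ⊕ Fin 3 → K} (h : tauV q v = v) : jV q (fun i => v (.inl i)) = v := by
  ext s
  rcases s with i | i
  · rfl
  · have := congrFun h (.inr i)
    change (v (.inl i)) ^ q = v (.inr i)
    simpa [tauV] using this

lemma jV_add (hK : Fintype.card K = q ^ 2) (x y : Fin 3 → K) : jV q (x + y) = jV q x + jV q y := by
  ext s
  rcases s with i | i
  · rfl
  · simp [jV, add_pow_q hK]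

lemma jV_smul (hF : Fintype.card F = q) (c : F) (x : Fin 3 → K) :
    jV q (c • x) = algebraMap F K c • jV q x := by
  ext s
  rcases s with i | i
  · simp [jV, Algebra.smul_def]
  · simp [jV, Algebra.smul_def, mul_pow, pow_q_algebraMap hF]

lemma pf_jV (x : Fin 3 → K) : pf (jV q x) = nrm q (x 0) + nrm q (x 1) + nrm q (x 2) := by
  simp [pf, jV, nrm]

/-- The action of a matrix on `K³`. -/
noncomputable def gLin (hF : Fintype.card F = q) (hK : Fintype.card K = q ^ 2) (A : Matrix (Fin 4) (Fin 4) K) :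
    (Fin 3 → K) →ₗ[F] (Fin 3 → K) where
  toFun x := fun i => actLin A (jV q x) (.inl i)
  map_add' x y := by
    ext i
    rw [jV_add hK, map_add]
    rfl
  map_smul' c x := by
    ext i
    rw [jV_smul hF, map_smul]
    simp [Algebra.smul_def]

lemma gLin_apply (hF : Fintype.card F = q) (hK : Fintype.card K = q ^ 2) (A : Matrix (Fin 4) (Fin 4) K)
    (x : Fin 3 → K) (i : Fin 3) : gLin hF hK A x i = actLin A (jV q x) (.inl i) := rfl

/-- On `SU`, `g` is compatible with `j`. -/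
lemma jV_gLin (hF : Fintype.card F = q) (hK : Fintype.card K = q ^ 2) {A : Matrix (Fin 4) (Fin 4) K}
    (hdet : A.det = 1) (hU : Aᵀ * A.map (sigma hK) = 1) (x : Fin 3 → K) :
    jV q (gLin hF hK A x) = actLin A (jV q x) := by
  exact jV_of_tau (v := actLin A (jV q x)) (by rw [tau_act hK hdet hU, tau_jV hK])

lemma gLin_mul (hF : Fintype.card F = q) (hK : Fintype.card K = q ^ 2) {A B : Matrix (Fin 4) (Fin 4) K}
    (hdet : B.det = 1) (hU : Bᵀ * B.map (sigma hK) = 1) (x : Fin 3 → K) :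
    gLin hF hK (A * B) x = gLin hF hK A (gLin hF hK B x) := by
  ext i
  rw [gLin_apply, gLin_apply, actLin_mul, jV_gLin hF hK hdet hU]

/-- A `K`-linear map fixing `j(K³)` is the identity. -/
lemma act_eq_of_fix (hF : Fintype.card F = q) (hK : Fintype.card K = q ^ 2) (T : (Fin 3 ⊕ Fin 3 → K) →ₗ[K] (Fin 3 ⊕ Fin 3 → K))
    (h : ∀ x, T (jV q x) = jV q x) (v : Fin 3 ⊕ Fin 3 → K) : T v = v := by
  obtain ⟨θ, hθ⟩ := Cfsg.Agent.Lib.UnitaryTv.exists_pow_q_ne hK
  have hδ : θ - θ ^ q ≠ 0 := sub_ne_zero.2 hθ.symm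
  obtain ⟨t, ht⟩ : ∃ t : K, t * (θ - θ ^ q) = 1 := ⟨(θ - θ ^ q)⁻¹, inv_mul_cancel₀ hδ⟩
  -- the trace of a vector
  have htr : ∀ u : Fin 3 ⊕ Fin 3 → K, T (u + tauV q u) = u + tauV q u := by
    intro u
    have h1 : tauV q (u + tauV q u) = u + tauV q u := by
      ext s
      simp only [tauV, Pi.add_apply, add_pow_q hK, pow_q_pow_q hK, Sum.swap_swap]
      ring
    have h2 := jV_of_tau h1
    rw [← h2]
    exact h _
  have htaus : ∀ (c : K) (u : Fin 3 ⊕ Fin 3 → K), tauV q (c • u) = c ^ q • tauV q u := by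
    intro c u
    ext s
    simp [tauV, mul_pow]
  have e1 := htr ((θ * t) • v)
  have e2 := htr (t • v)
  rw [htaus, map_add, map_smul, map_smul] at e1 e2
  rw [mul_pow] at e1
  have e3 : (θ * t - θ ^ q * t) • T v = (θ * t - θ ^ q * t) • v := by
    linear_combination (norm := module) e1 - θ ^ q • e2
  have e6 : θ * t - θ ^ q * t = 1 := by
    linear_combination ht
  rwa [e6, one_smul, one_smul] at e3

end embedding

section form

variable {F K : Type*} [Field F] [Fintype F] [Field K] [Fintype K] [Algebra F K] {a b : F} {θ lam β : K} {q : ℕ}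

lemma hyp_identity (hK : Fintype.card K = q ^ 2) (hl : nrm q lam = -1) (hβ : β + β ^ q = -1) (s t : K) :
    nrm q (s + (β + 1) * t) + nrm q (lam * (s + β * t)) = s * t ^ q + t * s ^ q := by
  simp only [nrm, add_pow_q hK, mul_pow, one_pow]
  have hl' : lam * lam ^ q = -1 := hl
  linear_combination ((s + β * t) * (s ^ q + β ^ q * t ^ q)) * hl' + (t * t ^ q) * hβ

/-- The `s`-coordinate. -/
noncomputable def sF (θ : K) (y₀ y₁ : F) : K := algebraMap F K y₀ + algebraMap F K y₁ * θ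

/-- The `t`-coordinate. -/
noncomputable def tF (q : ℕ) (θ : K) (z₀ z₁ : F) : K :=
  (algebraMap F K z₀ * θ - algebraMap F K z₁) * (θ - θ ^ q)⁻¹

lemma dual_identity (hF : Fintype.card F = q) (hK : Fintype.card K = q ^ 2) (hθ : θ ^ q ≠ θ) (y₀ y₁ z₀ z₁ : F) :
    sF θ y₀ y₁ * (tF q θ z₀ z₁) ^ q + tF q θ z₀ z₁ * (sF θ y₀ y₁) ^ q = algebraMap F K (y₀ * z₀ + y₁ * z₁) := by
  have hδ : θ - θ ^ q ≠ 0 := sub_ne_zero.2 hθ.symm
  have hd : (θ - θ ^ q) * (θ - θ ^ q)⁻¹ = 1 := mul_inv_cancel₀ hδ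
  have hdq : ((θ - θ ^ q)⁻¹) ^ q = - (θ - θ ^ q)⁻¹ := by
    rw [inv_pow, Cfsg.Agent.Lib.UnitaryBasic.sub_pow_q hK, pow_q_pow_q hK, ← neg_sub θ (θ ^ q), inv_neg]
  rw [sF, tF, add_pow_q hK, mul_pow, mul_pow, Cfsg.Agent.Lib.UnitaryBasic.sub_pow_q hK, mul_pow, hdq,
    pow_q_algebraMap hF, pow_q_algebraMap hF, pow_q_algebraMap hF, pow_q_algebraMap hF]
  simp only [map_add, map_mul]
  linear_combination (algebraMap F K y₀ * algebraMap F K z₀ + algebraMap F K y₁ * algebraMap F K z₁) * hd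

/-- The isometry `F⁴ ⊕ K → K³`. -/
noncomputable def EE (F : Type*) [Field F] [Algebra F K] (q : ℕ) (lam β θ : K) : (F × F × F × F × K) →ₗ[F] (Fin 3 → K) where
  toFun v := ![sF θ v.1 v.2.2.1 + (β + 1) * tF q θ v.2.1 v.2.2.2.1,
    lam * (sF θ v.1 v.2.2.1 + β * tF q θ v.2.1 v.2.2.2.1), v.2.2.2.2]
  map_add' v w := by
    ext i
    fin_cases i <;> simp [sF, tF] <;> ring
  map_smul' c v := by
    ext i
    fin_cases i <;> simp [sF, tF, Algebra.smul_def] <;> ring

lemma EE_form (H : Data F K a b θ) (hF : Fintype.card F = q) (hK : Fintype.card K = q ^ 2)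
    (hl : nrm q lam = -1) (hβ : β + β ^ q = -1) (hθ : θ ^ q ≠ θ) (v : F × F × F × F × K) :
    algebraMap F K (hypQ (hypQ (QK H hF hK)) v)
      = nrm q (EE F q lam β θ v 0) + nrm q (EE F q lam β θ v 1) + nrm q (EE F q lam β θ v 2) := by
  obtain ⟨y₀, z₀, y₁, z₁, w⟩ := v
  rw [hypQ_apply, hypQ_apply, map_add, map_add, map_mul, map_mul, QK_nrm]
  change _ = nrm q (sF θ y₀ y₁ + (β + 1) * tF q θ z₀ z₁) + nrm q (lam * (sF θ y₀ y₁ + β * tF q θ z₀ z₁)) + nrm q w
  rw [hyp_identity hK hl hβ, dual_identity hF hK hθ]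
  simp only [map_add, map_mul]
  ring

lemma EE_injective (H : Data F K a b θ) (hF : Fintype.card F = q) (hK : Fintype.card K = q ^ 2)
    (hl : nrm q lam = -1) (hβ : β + β ^ q = -1) (hθ : θ ^ q ≠ θ) : Function.Injective (EE F q lam β θ) := by
  rw [injective_iff_map_eq_zero]
  intro v hv
  by_contra hne
  obtain ⟨w, hw⟩ := hypQ_nondeg (hypQ_nondeg (QK_nondeg H hF hK)) v hne
  apply hw
  apply (algebraMap F K).injective
  rw [QuadraticMap.polar, map_sub, map_sub, map_zero, EE_form H hF hK hl hβ hθ, EE_form H hF hK hl hβ hθ,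
    EE_form H hF hK hl hβ hθ, map_add, hv, zero_add]
  have h0 : nrm q (0 : K) = 0 := by simp [nrm]
  simp [h0]

lemma EE_bijective (H : Data F K a b θ) (hF : Fintype.card F = q) (hK : Fintype.card K = q ^ 2)
    (hl : nrm q lam = -1) (hβ : β + β ^ q = -1) (hθ : θ ^ q ≠ θ) : Function.Bijective (EE F q lam β θ) := by
  apply (EE_injective H hF hK hl hβ hθ).bijective_of_nat_card_le
  simp only [Nat.card_eq_fintype_card, Fintype.card_prod, Fintype.card_fun, hF, hK, Fintype.card_fin]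
  apply le_of_eq
  ring

/-- The linear equivalence. -/
noncomputable def EEq (H : Data F K a b θ) (hF : Fintype.card F = q) (hK : Fintype.card K = q ^ 2)
    (hl : nrm q lam = -1) (hβ : β + β ^ q = -1) (hθ : θ ^ q ≠ θ) : (F × F × F × F × K) ≃ₗ[F] (Fin 3 → K) :=
  LinearEquiv.ofBijective (EE F q lam β θ) (EE_bijective H hF hK hl hβ hθ)

lemma EEq_form (H : Data F K a b θ) (hF : Fintype.card F = q) (hK : Fintype.card K = q ^ 2)
    (hl : nrm q lam = -1) (hβ : β + β ^ q = -1) (hθ : θ ^ q ≠ θ) (v : F × F × F × F × K) :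
    algebraMap F K (hypQ (hypQ (QK H hF hK)) v) = pf (jV q (EEq H hF hK hl hβ hθ v)) := by
  rw [pf_jV, EE_form H hF hK hl hβ hθ]
  rfl

lemma SU_mat (hK : Fintype.card K = q ^ 2) (s : Cfsg.SU 4 K q) :
    (s.1.1)ᵀ * (s.1.1).map (sigma hK) = 1 :=
  transpose_mul_map_sigma hK (fun u v => s.2 u v)

/-- The action on the model of the orthogonal space. -/
noncomputable def actV (H : Data F K a b θ) (hF : Fintype.card F = q) (hK : Fintype.card K = q ^ 2)
    (hl : nrm q lam = -1) (hβ : β + β ^ q = -1) (hθ : θ ^ q ≠ θ) (A : Matrix (Fin 4) (Fin 4) K) :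
    (F × F × F × F × K) →ₗ[F] (F × F × F × F × K) :=
  (EEq H hF hK hl hβ hθ).symm.toLinearMap ∘ₗ gLin hF hK A ∘ₗ (EEq H hF hK hl hβ hθ).toLinearMap

lemma EEq_actV (H : Data F K a b θ) (hF : Fintype.card F = q) (hK : Fintype.card K = q ^ 2)
    (hl : nrm q lam = -1) (hβ : β + β ^ q = -1) (hθ : θ ^ q ≠ θ) (A : Matrix (Fin 4) (Fin 4) K) (v : F × F × F × F × K) :
    EEq H hF hK hl hβ hθ (actV H hF hK hl hβ hθ A v) = gLin hF hK A (EEq H hF hK hl hβ hθ v) := by
  simp [actV]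

lemma actV_Q (H : Data F K a b θ) (hF : Fintype.card F = q) (hK : Fintype.card K = q ^ 2)
    (hl : nrm q lam = -1) (hβ : β + β ^ q = -1) (hθ : θ ^ q ≠ θ) (s : Cfsg.SU 4 K q) (v : F × F × F × F × K) :
    hypQ (hypQ (QK H hF hK)) (actV H hF hK hl hβ hθ s.1.1 v) = hypQ (hypQ (QK H hF hK)) v := by
  apply (algebraMap F K).injective
  rw [EEq_form H hF hK hl hβ hθ, EEq_form H hF hK hl hβ hθ, EEq_actV, jV_gLin hF hK s.1.2 (SU_mat hK s), pf_act,
    s.1.2, one_mul]

/-- `SU₄ → O(hypQ (hypQ QK))`. -/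
noncomputable def phi0 (H : Data F K a b θ) (hF : Fintype.card F = q) (hK : Fintype.card K = q ^ 2)
    (hl : nrm q lam = -1) (hβ : β + β ^ q = -1) (hθ : θ ^ q ≠ θ) :
    Cfsg.SU 4 K q →* OG (hypQ (hypQ (QK H hF hK))) where
  toFun s := OG.ofLinear (hypQ_nondeg (hypQ_nondeg (QK_nondeg H hF hK))) (actV H hF hK hl hβ hθ s.1.1)
    (actV_Q H hF hK hl hβ hθ s)
  map_one' := by
    apply OG_ext
    intro v
    apply (EEq H hF hK hl hβ hθ).injective
    change EEq H hF hK hl hβ hθ (actV H hF hK hl hβ hθ 1 v) = _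
    rw [EEq_actV]
    ext i
    rw [gLin_apply, actLin_one]
    rfl
  map_mul' A B := by
    apply OG_ext
    intro v
    apply (EEq H hF hK hl hβ hθ).injective
    change EEq H hF hK hl hβ hθ (actV H hF hK hl hβ hθ (A.1.1 * B.1.1) v)
      = EEq H hF hK hl hβ hθ (actV H hF hK hl hβ hθ A.1.1 (actV H hF hK hl hβ hθ B.1.1 v))
    rw [EEq_actV, EEq_actV, EEq_actV, gLin_mul hF hK B.1.2 (SU_mat hK B)]

lemma phi0_apply (H : Data F K a b θ) (hF : Fintype.card F = q) (hK : Fintype.card K = q ^ 2)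
    (hl : nrm q lam = -1) (hβ : β + β ^ q = -1) (hθ : θ ^ q ≠ θ) (s : Cfsg.SU 4 K q) (v : F × F × F × F × K) :
    ((phi0 H hF hK hl hβ hθ s : OG (hypQ (hypQ (QK H hF hK)))) : _ ≃ₗ[F] _) v = actV H hF hK hl hβ hθ s.1.1 v := rfl

/-- The kernel. -/
lemma phi0_eq_one_iff (H : Data F K a b θ) (hF : Fintype.card F = q) (hK : Fintype.card K = q ^ 2)
    (hl : nrm q lam = -1) (hβ : β + β ^ q = -1) (hθ : θ ^ q ≠ θ) (s : Cfsg.SU 4 K q) :
    phi0 H hF hK hl hβ hθ s = 1 ↔ ∃ c : K, c ^ 2 = 1 ∧ s.1.1 = c • 1 := by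
  constructor
  · intro h
    apply scalar_of_act_trivial
    apply act_eq_of_fix hF hK
    intro x
    obtain ⟨v, rfl⟩ := (EEq H hF hK hl hβ hθ).surjective x
    rw [← jV_gLin hF hK s.1.2 (SU_mat hK s), ← EEq_actV H hF hK hl hβ hθ, ← phi0_apply, h]
    rfl
  · rintro ⟨c, hc, hs⟩
    apply OG_ext
    intro v
    apply (EEq H hF hK hl hβ hθ).injective
    change EEq H hF hK hl hβ hθ (actV H hF hK hl hβ hθ s.1.1 v) = _
    rw [EEq_actV]
    ext i
    rw [gLin_apply, hs, act_scalar hc]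
    rfl

/-- The coordinates. -/
noncomputable def phiV2 (H : Data F K a b θ) (hF : Fintype.card F = q) (hK : Fintype.card K = q ^ 2) :
    ((Fin 2 ⊕ Fin 2) ⊕ Fin 2 → F) ≃ₗ[F] F × F × F × F × K :=
  (splitMinus 1).trans (LinearEquiv.prodCongr (LinearEquiv.refl F F)
    (LinearEquiv.prodCongr (LinearEquiv.refl F F) (phiV H hF hK)))

lemma phiV2_Q (H : Data F K a b θ) (hF : Fintype.card F = q) (hK : Fintype.card K = q ^ 2)
    (v : (Fin 2 ⊕ Fin 2) ⊕ Fin 2 → F) : hypQ (hypQ (QK H hF hK)) (phiV2 H hF hK v) = qMinus 2 a b v := by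
  rw [← qMinus_split 1 a b v]
  have h2 : phiV2 H hF hK v = ((splitMinus 1 v).1, (splitMinus 1 v).2.1, phiV H hF hK (splitMinus 1 v).2.2) := rfl
  rw [h2, hypQ_apply, phiV_Q]
  conv_rhs => rw [show splitMinus 1 v = ((splitMinus 1 v).1, (splitMinus 1 v).2.1, (splitMinus 1 v).2.2) from rfl]
  rw [hypQ_apply]

/-- `SU₄ → O⁻₆`. -/
noncomputable def phi (H : Data F K a b θ) (hF : Fintype.card F = q) (hK : Fintype.card K = q ^ 2)
    (hl : nrm q lam = -1) (hβ : β + β ^ q = -1) (hθ : θ ^ q ≠ θ) :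
    Cfsg.SU 4 K q →* OG (qMinus 2 a b) :=
  (OG.congr (phiV2 H hF hK) (phiV2_Q H hF hK)).symm.toMonoidHom.comp (phi0 H hF hK hl hβ hθ)

lemma phi_eq_one_iff (H : Data F K a b θ) (hF : Fintype.card F = q) (hK : Fintype.card K = q ^ 2)
    (hl : nrm q lam = -1) (hβ : β + β ^ q = -1) (hθ : θ ^ q ≠ θ) (s : Cfsg.SU 4 K q) :
    phi H hF hK hl hβ hθ s = 1 ↔ ∃ c : K, c ^ 2 = 1 ∧ s.1.1 = c • 1 := by
  rw [← phi0_eq_one_iff H hF hK hl hβ hθ]
  change (OG.congr (phiV2 H hF hK) (phiV2_Q H hF hK)).symm _ = 1 ↔ _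
  rw [EmbeddingLike.map_eq_one_iff]

lemma hypPair_minus2 : IsHypPair (qMinus 2 a b)
    (Sum.elim (Sum.elim (fun i => if i = 0 then 1 else 0) (fun _ => 0)) (fun _ => 0))
    (Sum.elim (Sum.elim (fun _ => 0) (fun i => if i = 0 then 1 else 0)) (fun _ => 0)) where
  Qe := by
    rw [qMinus_apply]
    simp [Cfsg.quadFormMinus]
  Qf := by
    rw [qMinus_apply]
    simp [Cfsg.quadFormMinus]
  B := by
    rw [QuadraticMap.polar, qMinus_apply, qMinus_apply, qMinus_apply]
    simp [Cfsg.quadFormMinus, Fin.sum_univ_two]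

lemma card_O6 (hF : Fintype.card F = q)
    (hab : ∀ z₁ z₂ : F, z₁ ^ 2 + a * z₁ * z₂ + b * z₂ ^ 2 = 0 → z₁ = 0 ∧ z₂ = 0)
    (hK : Fintype.card K = q ^ 2) :
    Nat.card (OG (qMinus 2 a b)) = 2 * Nat.card (Cfsg.SU 4 K q) := by
  have h := card_OG_minus a b hab 2
  have h2 := card_SU hK 4 (by norm_num)
  rw [h, hF]
  have hq : 1 ≤ q := by
    rw [← hF]
    exact Fintype.card_pos
  simp only [Finset.prod_range_succ, Finset.prod_range_zero] at h2 ⊢
  norm_num at h2 ⊢
  have hq0 : 0 < q + 1 := by omega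
  apply Nat.eq_of_mul_eq_mul_left hq0
  have h3 : (q + 1) * (2 * Nat.card (Cfsg.SU 4 K q)) = 2 * ((q + 1) * Nat.card (Cfsg.SU 4 K q)) := by ring
  rw [h3, h2]
  ring

lemma SU_perfect (hK : Fintype.card K = q ^ 2) : commutator (Cfsg.SU 4 K q) = ⊤ := by
  have h1 := Cfsg.Agent.Lib.UnitaryPerfect.SUU_perfect hK (n := 4) (by norm_num) (by norm_num)
  have h2 := range_le_commutator h1 (Cfsg.Agent.Lib.UnitarySimple.isoSU 4 K q).symm.toMonoidHom
  rw [eq_top_iff]
  refine le_trans ?_ h2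
  rw [(MonoidHom.range_eq_top (f := (Cfsg.Agent.Lib.UnitarySimple.isoSU 4 K q).symm.toMonoidHom)).2
    (Cfsg.Agent.Lib.UnitarySimple.isoSU 4 K q).symm.surjective]

/-- The main theorem given the extension. -/
theorem main_of_data (H : Data F K a b θ) (hF : Fintype.card F = q) (hK : Fintype.card K = q ^ 2)
    (hl : nrm q lam = -1) (hβ : β + β ^ q = -1) (hθ : θ ^ q ≠ θ) :
    Nonempty (Cfsg.POmega F (Cfsg.quadFormMinus 2 F a b) ≃* Cfsg.PSU 4 K q) := by
  classical
  have hq2 := two_le_q hK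
  have hperf := SU_perfect hK
  have hle := range_le_commutator hperf (phi H hF hK hl hβ hθ)
  have hcentral : ∀ (s : Cfsg.SU 4 K q) (c : K), s.1.1 = c • 1 → s ∈ Subgroup.center (Cfsg.SU 4 K q) := by
    intro A c hc
    rw [Subgroup.mem_center_iff]
    intro B
    apply Subtype.ext
    apply Subtype.ext
    change B.1.1 * A.1.1 = A.1.1 * B.1.1
    rw [hc]
    simp
  have hkercentral : (phi H hF hK hl hβ hθ).ker ≤ Subgroup.center _ := by
    intro A hA
    obtain ⟨l, _, hl⟩ := (phi_eq_one_iff H hF hK hl hβ hθ A).1 hA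
    exact hcentral A l hl
  have hGk := card_range (phi H hF hK hl hβ hθ)
  have hO := card_O6 hF H.aniso hK
  have hrange : commutator (OG (qMinus 2 a b)) = (phi H hF hK hl hβ hθ).range := by
    rcases Nat.even_or_odd (Fintype.card F) with hev | hodd
    · have := charP_two_of_even hev
      have hchar : ringChar F = 2 := ringChar.eq F 2
      obtain ⟨x, hx, D, hD⟩ := dickson_minus hchar 1 H.aniso
      obtain ⟨K', hK', hKc⟩ := exists_K_even D hD
      refine commutator_eq_range (phi H hF hK hl hβ hθ) K' hK' (k := 2) (by norm_num) hKc hle ?_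
      have hk1 : Nat.card (phi H hF hK hl hβ hθ).ker = 1 := by
        have hbot : (phi H hF hK hl hβ hθ).ker = ⊥ := by
          rw [eq_bot_iff]
          intro A hA
          obtain ⟨l, hl, hAl⟩ := (phi_eq_one_iff H hF hK hl hβ hθ A).1 hA
          have h3 : (2 : K) = 0 := by
            have h4 := CharTwo.add_self_eq_zero (1 : F)
            have h5 := congrArg (algebraMap F K) h4
            simp only [map_add, map_one, map_zero] at h5
            linear_combination h5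
          have h1 : l = 1 := by
            have h2 : (l + 1) ^ 2 = 0 := by
              linear_combination hl + l * h3 + h3
            have h4 := pow_eq_zero_iff (two_ne_zero) |>.1 h2
            linear_combination h4 - h3
          rw [Subgroup.mem_bot]
          apply Subtype.ext
          apply Subtype.ext
          rw [hAl, h1, one_smul]
          rfl
        rw [hbot]
        simp
      rw [hO, hGk, hk1, one_mul]
    · have h2F := char_ne_two_of_odd hodd
      have h2K : (2 : K) ≠ 0 := by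
        intro h
        apply h2F
        apply (algebraMap F K).injective
        rw [map_zero, map_ofNat]
        exact h
      obtain ⟨K', hK', hKc⟩ := exists_K_odd hodd (nondeg_qMinus a b H.aniso 2) (hypPair_minus2 (a := a) (b := b))
      refine commutator_eq_range (phi H hF hK hl hβ hθ) K' hK' (k := 4) (by norm_num) hKc hle ?_
      have hk2 : Nat.card (phi H hF hK hl hβ hθ).ker = 2 := by
        have hdet : ((-1 : Matrix (Fin 4) (Fin 4) K)).det = 1 := by
          rw [Matrix.det_neg]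
          simp
          norm_num
        let m₀ : Matrix.SpecialLinearGroup (Fin 4) K := ⟨-1, hdet⟩
        have hm₀ : m₀ ∈ Cfsg.SU 4 K q := by
          intro u v
          change Cfsg.hermForm 4 K q ((-1 : Matrix (Fin 4) (Fin 4) K) *ᵥ u) ((-1 : Matrix (Fin 4) (Fin 4) K) *ᵥ v) = _
          simp only [Cfsg.hermForm, Matrix.neg_mulVec, Matrix.one_mulVec, Pi.neg_apply,
            Cfsg.Agent.Lib.UnitaryBasic.neg_pow_q hK, neg_mul_neg]
        let m : Cfsg.SU 4 K q := ⟨m₀, hm₀⟩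
        have hm : m ∈ (phi H hF hK hl hβ hθ).ker := by
          rw [MonoidHom.mem_ker, phi_eq_one_iff]
          exact ⟨-1, by ring, by simp [m, m₀]⟩
        rw [Nat.card_eq_two_iff]
        refine ⟨⟨1, one_mem _⟩, ⟨m, hm⟩, ?_, ?_⟩
        · intro h
          have h3 := congrArg (fun x : (phi H hF hK hl hβ hθ).ker => (x.1.1.1 : Matrix (Fin 4) (Fin 4) K) 0 0) h
          simp [m, m₀] at h3
          apply h2K
          linear_combination h3
        · ext ⟨A, hA⟩
          simp only [Set.mem_insert_iff, Set.mem_singleton_iff, Set.mem_univ, iff_true]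
          obtain ⟨l, hl, hAl⟩ := (phi_eq_one_iff H hF hK hl hβ hθ A).1 hA
          rw [_root_.sq, mul_self_eq_one_iff] at hl
          rcases hl with rfl | rfl
          · left
            apply Subtype.ext
            apply Subtype.ext
            apply Subtype.ext
            rw [hAl, one_smul]
            rfl
          · right
            apply Subtype.ext
            apply Subtype.ext
            apply Subtype.ext
            rw [hAl]
            simp [m, m₀]
      rw [hk2] at hGk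
      rw [hO, hGk]
      ring
  refine pomega_equiv (Cfsg.quadFormMinus 2 F a b) (fun v => (qMinus_apply 2 a b v).symm) (phi H hF hK hl hβ hθ) hrange
    (QuotientGroup.mk' _) (QuotientGroup.mk'_surjective _) ?_
  intro x
  rw [QuotientGroup.mk'_apply, QuotientGroup.eq_one_iff]
  constructor
  · intro hx y
    rw [← map_mul, ← map_mul, (Subgroup.mem_center_iff.1 hx y).symm]
  · intro h
    apply central_of_perfect hperf (phi H hF hK hl hβ hθ).ker hkercentral
    intro y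
    rw [MonoidHom.mem_ker, map_commutatorElement, commutatorElement_eq_one_iff_mul_comm]
    exact h y

end form

/-- S0303 -/
theorem pomega_six_minus {F K : Type*} [Field F] [Fintype F] [Field K] [Fintype K] {q : ℕ}
    (hF : Fintype.card F = q) (hK : Fintype.card K = q ^ 2) (a b : F)
    (hab : ∀ z₁ z₂ : F, z₁ ^ 2 + a * z₁ * z₂ + b * z₂ ^ 2 = 0 → z₁ = 0 ∧ z₂ = 0) :
    Nonempty (Cfsg.POmega F (Cfsg.quadFormMinus 2 F a b) ≃* Cfsg.PSU 4 K q) := by
  obtain ⟨alg, θ, H⟩ := exists_algebra_data hF hK a b hab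
  obtain ⟨lam, hl⟩ := Cfsg.Agent.Lib.UnitaryTv.exists_nrm_eq hK (ρ := -1) (neg_ne_zero.2 one_ne_zero)
    (Cfsg.Agent.Lib.UnitaryIso.neg_one_fixed hK)
  obtain ⟨β, hβ⟩ := Cfsg.Agent.Lib.UnitaryTv.exists_trace_eq hK (ρ := -1) (Cfsg.Agent.Lib.UnitaryIso.neg_one_fixed hK)
  have hθ : θ ^ q ≠ θ := by
    intro h
    obtain ⟨c, hc⟩ := mem_range_of_pow_q hF h
    exact H.not_mem_range c hc
  exact main_of_data H hF hK hl hβ hθ

end Cfsg.Agent.Lib.UnitaryOmega
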