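import Mathlib
import Cfsg.Agent.Lib.Fi22K9
import Cfsg.Agent.Lib.Fi22KS0
import Cfsg.Agent.TcChain36.Out.Fi22.Main
import Cfsg.Agent.Lib.DoubleCover36

/-!
# Every involutory automorphism of `Fi₂₂` fixes a transposition
-/

set_option autoImplicit false
set_option maxRecDepth 1000000
set_option linter.all false

namespace Cfsg.Agent.Lib.Fi22K

open Cfsg.Agent.Lib.OutTree36 Cfsg.Agent.Lib.TcBits Cfsg.Agent.Lib.TcPres Cfsg.Agent.Lib.PresChain36
open Cfsg.Agent.TcData.Fi22.I3510 Cfsg.Agent.TcData.Fi22 Cfsg.Agent.TcChain36.Fi22 Cfsg.Agent.TcChain36.Out.Fi22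

universe u

section ext

variable {A : Type*} [Group A] [Finite A]

/-- A Sylow 2-subgroup of an extension by an involution. -/
theorem conj_into_ext {T : Subgroup A} {k q : ℕ}
    (hT : Nat.card T = 2 ^ k) (hA : Nat.card A = 2 ^ (k + 1) * q) (hq : Odd q) {s : A} (hs : s * s = 1) (hsT : s ∉ T)
    (hn : ∀ x ∈ T, s * x * s ∈ T) {ψ : A} (hψ : ψ * ψ = 1) :
    ∃ α : A, α * ψ * α⁻¹ ∈ T ∨ ∃ x ∈ T, α * ψ * α⁻¹ = x * s := by
  classical
  haveI : Fact (Nat.Prime 2) := ⟨Nat.prime_two⟩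
  have hsi : s⁻¹ = s := inv_eq_of_mul_eq_one_left hs
  let P : Subgroup A :=
    { carrier := {y | y ∈ T ∨ y * s ∈ T}
      one_mem' := Or.inl T.one_mem
      mul_mem' := by
        rintro a b (ha | ha) (hb | hb)
        · exact Or.inl (T.mul_mem ha hb)
        · right
          rw [mul_assoc]
          exact T.mul_mem ha hb
        · right
          have h1 : a * b * s = (a * s) * (s * b * s) := by
            calc a * b * s = a * (s * s) * b * s := by rw [hs, mul_one]
              _ = _ := by group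
          rw [h1]
          exact T.mul_mem ha (hn b hb)
        · left
          have h1 : a * b = (a * s) * (s * (b * s) * s) := by
            calc a * b = a * (s * s) * b * (s * s) := by rw [hs, mul_one, mul_one]
              _ = _ := by group
          rw [h1]
          exact T.mul_mem ha (hn _ hb)
      inv_mem' := by
        rintro a (ha | ha)
        · exact Or.inl (T.inv_mem ha)
        · right
          have h1 : a⁻¹ * s = s * (a * s)⁻¹ * s := by
            rw [mul_inv_rev, hsi]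
            calc a⁻¹ * s = (s * s) * a⁻¹ * s := by rw [hs, one_mul]
              _ = _ := by group
          rw [h1]
          exact hn _ (T.inv_mem ha) }
  have hP : ∀ y, y ∈ P ↔ y ∈ T ∨ y * s ∈ T := fun y => Iff.rfl
  let f : T ⊕ T → P := fun z => match z with
    | .inl x => ⟨x, Or.inl x.2⟩
    | .inr x => ⟨x * s, Or.inr (by rw [mul_assoc, hs, mul_one]; exact x.2)⟩
  have hf : Function.Bijective f := by
    constructor
    · rintro (x | x) (y | y) h
      · have := congrArg Subtype.val h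
        congr 1
        exact Subtype.ext this
      · exfalso
        have h1 : (x : A) = y * s := congrArg Subtype.val h
        apply hsT
        have h2 : s = (y : A)⁻¹ * x := by rw [h1]; group
        rw [h2]
        exact T.mul_mem (T.inv_mem y.2) x.2
      · exfalso
        have h1 : (x : A) * s = y := congrArg Subtype.val h
        apply hsT
        have h2 : s = (x : A)⁻¹ * y := by rw [← h1]; group
        rw [h2]
        exact T.mul_mem (T.inv_mem x.2) y.2
      · have h1 : (x : A) * s = y * s := congrArg Subtype.val h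
        congr 1
        exact Subtype.ext (mul_right_cancel h1)
    · rintro ⟨y, hy | hy⟩
      · exact ⟨.inl ⟨y, hy⟩, rfl⟩
      · refine ⟨.inr ⟨y * s, hy⟩, ?_⟩
        apply Subtype.ext
        show y * s * s = y
        rw [mul_assoc, hs, mul_one]
  have hcP : Nat.card P = 2 ^ (k + 1) := by
    rw [← Nat.card_congr (Equiv.ofBijective f hf), Nat.card_sum, hT]
    ring
  have hfac : (Nat.card A).factorization 2 = k + 1 := by
    have hq0 : q ≠ 0 := by rintro rfl; simp at hq
    rw [hA, Nat.factorization_mul (by positivity) hq0, Nat.factorization_pow]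
    have : q.factorization 2 = 0 := Nat.factorization_eq_zero_of_not_dvd (by
      intro hd; exact (Nat.not_even_iff_odd.mpr hq) (even_iff_two_dvd.mpr hd))
    simp [this, Nat.Prime.factorization_self Nat.prime_two]
  let S : Sylow 2 A := Sylow.ofCard P (by rw [hcP, hfac])
  have hS : (S : Subgroup A) = P := Sylow.coe_ofCard _ _
  have hZ : IsPGroup 2 (Subgroup.zpowers ψ) := by
    rintro ⟨g, n, rfl⟩
    refine ⟨1, ?_⟩
    apply Subtype.ext
    show (ψ ^ n) ^ 2 ^ 1 = 1
    rw [pow_one, ← zpow_natCast, ← zpow_mul, mul_comm, zpow_mul]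
    have : ψ ^ ((2 : ℕ) : ℤ) = 1 := by
      rw [zpow_natCast, pow_two, hψ]
    rw [this, one_zpow]
  obtain ⟨S', hS'⟩ := hZ.exists_le_sylow
  obtain ⟨α, hα⟩ := MulAction.exists_smul_eq A S' S
  have h1 : ψ ∈ (S' : Subgroup A) := hS' (Subgroup.mem_zpowers ψ)
  have h2 : α * ψ * α⁻¹ ∈ (S : Subgroup A) := by
    rw [← hα, Sylow.coe_subgroup_smul]
    exact Subgroup.smul_mem_pointwise_smul _ (MulAut.conj α) _ h1
  rw [hS] at h2
  refine ⟨α, ?_⟩
  rcases h2 with h2 | h2
  · exact Or.inl h2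
  · refine Or.inr ⟨_, h2, ?_⟩
    rw [mul_assoc _ s s, hs, mul_one]

end ext

/-- The word of the conjugation. -/
def w0 : List ℕ := [3, 4, 7, 3, 8, 7]

/-- The conjugating element. -/
noncomputable def WW : Gq := evL Lt w0

/-- The outer involution. -/
noncomputable def σ₀ : MulAut Gq := MulAut.conj WW * σ * (MulAut.conj WW)⁻¹

theorem σ₀_apply (y : Gq) : σ₀ y = WW * σ (WW⁻¹ * y * WW) * WW⁻¹ := by
  show MulAut.conj WW (σ ((MulAut.conj WW)⁻¹ y)) = _
  rw [MulAut.conj_inv_apply, MulAut.conj_apply]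

set_option Elab.async false in
theorem st_lt_chk : allR (fun q => !(Nat.blt q 3510) || Nat.blt (sT q) 3510) 12 0 = true := by decide +kernel

theorem st_lt {q : ℕ} (hq : q < 3510) : sT q < 3510 := by
  have h1 := allR_spec _ 0 st_lt_chk q (Nat.zero_le _) (by omega)
  have hqn : Nat.blt q 3510 = true := Nat.ble_eq_true_of_le hq
  simp only [hqn, Bool.not_true, Bool.false_or] at h1
  exact Nat.le_of_ble_eq_true h1

theorem st_rel' {j : ℕ} (hj : j < 9) {q : ℕ} (hq : q < 3510) : sT (ap j q) = ap (qI j) (sT q) := by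
  have h0 := st_rel
  rw [List.all_eq_true] at h0
  have h1 := allR_spec _ 0 (h0 j (List.mem_range.mpr hj)) q (Nat.zero_le _) (by omega)
  have hqn : Nat.blt q 3510 = true := Nat.ble_eq_true_of_le hq
  simp only [hqn, Bool.not_true, Bool.false_or] at h1
  exact beq_true h1

theorem st_inv' {q : ℕ} (hq : q < 3510) : sT (sT q) = q := by
  have h1 := allR_spec _ 0 st_inv q (Nat.zero_le _) (by omega)
  have hqn : Nat.blt q 3510 = true := Nat.ble_eq_true_of_le hq
  simp only [hqn, Bool.not_true, Bool.false_or] at h1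
  exact beq_true h1

/-- The action of the outer automorphism on points. -/
theorem Phi_σ (y : Gq) : ∀ q, q < 3510 → Phi (σ y) (sT q) = sT (Phi y q) := by
  have hy : y ∈ Subgroup.closure (Lt '' {j | j < 9}) := by rw [hgen]; trivial
  induction hy using Subgroup.closure_induction with
  | mem x hx =>
    obtain ⟨j, hj, rfl⟩ := hx
    intro q hq
    have hj' : j < 9 := hj
    rw [σ_Lt j hj, H.ap_eq _ _ (st_lt hq), H.ap_eq _ _ hq, st_rel' hj' hq]
  | one =>
    intro q hq
    simp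
  | mul a b _ _ ha hb =>
    intro q hq
    rw [map_mul, map_mul, Equiv.Perm.mul_apply, hb q hq, ha _ (bd b q hq), map_mul, Equiv.Perm.mul_apply]
  | inv a _ ha =>
    intro q hq
    have hq' : Phi a⁻¹ q < 3510 := bd _ _ hq
    have h1 := ha _ hq'
    have h2 : Phi a (Phi a⁻¹ q) = q := by
      rw [map_inv]
      simp
    rw [h2] at h1
    rw [map_inv, map_inv, Equiv.Perm.inv_eq_iff_eq, ← h1, map_inv]

set_option Elab.async false in
theorem sT0 : sT 0 = 0 := by decide +kernel

theorem σ_zz : σ zz = zz := by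
  have h1 := σ_Lt 0 (by norm_num)
  rw [q0, hiz] at h1
  exact h1

theorem Pq_σ {y : Gq} {p : ℕ} (h : Pq y p) : Pq (σ y) (sT p) := by
  obtain ⟨g, rfl, rfl⟩ := h
  refine ⟨σ g, ?_, ?_⟩
  · rw [map_mul, map_mul, map_inv, σ_zz]
  · have := Phi_σ g 0 (by norm_num)
    rwa [sT0] at this

/-- The inverse of the conjugating word. -/
def w0i : List ℕ := invW iv w0

set_option Elab.async false in
theorem sZ_chk : allR (fun q => !(Nat.blt q 3510) || Nat.beq (sZ q) (ev ap w0 (sT (ev ap w0i q)))) 12 0 = true := by decide +kernel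

theorem sZ_eq {q : ℕ} (hq : q < 3510) : sZ q = Phi WW (sT (Phi WW⁻¹ q)) := by
  have h1 := allR_spec _ 0 sZ_chk q (Nat.zero_le _) (by omega)
  have hqn : Nat.blt q 3510 = true := Nat.ble_eq_true_of_le hq
  simp only [hqn, Bool.not_true, Bool.false_or] at h1
  rw [beq_true h1]
  have h2 : WW⁻¹ = evL Lt w0i := (evL_invW hiv w0).symm
  rw [h2, H.ev_eq w0i hq]
  exact (H.ev_eq w0 (st_lt (H.ev_lt w0i hq))).symm

theorem sZ_lt {q : ℕ} (hq : q < 3510) : sZ q < 3510 := by
  rw [sZ_eq hq]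
  exact bd _ _ (st_lt (bd _ _ hq))

theorem sZ_sZ {q : ℕ} (hq : q < 3510) : sZ (sZ q) = q := by
  rw [sZ_eq (sZ_lt hq), sZ_eq hq]
  have h1 : Phi WW⁻¹ (Phi WW (sT (Phi WW⁻¹ q))) = sT (Phi WW⁻¹ q) := by
    rw [map_inv]
    simp
  rw [h1, st_inv' (bd _ _ hq), map_inv]
  simp

theorem Phi_σ₀ (y : Gq) {q : ℕ} (hq : q < 3510) : Phi (σ₀ y) (sZ q) = sZ (Phi y q) := by
  have hy : Phi y q < 3510 := bd _ _ hq
  rw [σ₀_apply, sZ_eq hq, sZ_eq hy]
  have e1 : ∀ r, Phi WW⁻¹ (Phi WW r) = r := by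
    intro r
    rw [map_inv]
    simp
  have e2 : ∀ r, Phi WW (Phi WW⁻¹ r) = r := by
    intro r
    rw [map_inv]
    simp
  have h1 := Phi_σ (WW⁻¹ * y * WW) (Phi WW⁻¹ q) (bd _ _ hq)
  calc Phi (WW * σ (WW⁻¹ * y * WW) * WW⁻¹) (Phi WW (sT (Phi WW⁻¹ q)))
      = Phi WW (Phi (σ (WW⁻¹ * y * WW)) (Phi WW⁻¹ (Phi WW (sT (Phi WW⁻¹ q))))) := by
        rw [map_mul Phi, map_mul Phi, Equiv.Perm.mul_apply, Equiv.Perm.mul_apply]
    _ = Phi WW (sT (Phi (WW⁻¹ * y * WW) (Phi WW⁻¹ q))) := by rw [e1, h1]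
    _ = Phi WW (sT (Phi WW⁻¹ (Phi y q))) := by
        rw [map_mul Phi, map_mul Phi, Equiv.Perm.mul_apply, Equiv.Perm.mul_apply, e2]

theorem Pq_σ₀ {y : Gq} {p : ℕ} (h : Pq y p) : Pq (σ₀ y) (sZ p) := by
  have hp := lt_of_pq h
  rw [sZ_eq hp, σ₀_apply]
  exact pq_conj (Pq_σ (by
    have := pq_conj h WW⁻¹
    simpa using this)) WW

/-- An element of the group is determined by its action on the points. -/
theorem phi_ext {a b : Gq} (h : ∀ q, q < 3510 → Phi a q = Phi b q) : a = b := by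
  have h1 : a⁻¹ * b ∈ ptStab Phi bsA := by
    intro p hp
    have hp' : p < 3510 := by
      simp only [bsA, List.mem_cons, List.not_mem_nil, or_false] at hp
      rcases hp with rfl | rfl | rfl | rfl | rfl | rfl | rfl | rfl | rfl <;> norm_num
    rw [map_mul, Equiv.Perm.mul_apply, ← h p hp', map_inv]
    simp
  have h2 := faith _ h1
  have h3 : b = a := by
    calc b = a * (a⁻¹ * b) := by group
      _ = a := by rw [h2, mul_one]
  exact h3.symm

theorem σ₀_sq : σ₀ * σ₀ = 1 := by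
  ext y
  apply phi_ext
  intro q hq
  show Phi (σ₀ (σ₀ y)) q = Phi y q
  have h1 := Phi_σ₀ (σ₀ y) (sZ_lt hq)
  have h2 := Phi_σ₀ y hq
  rw [sZ_sZ hq, ] at h1
  rw [h1, h2, sZ_sZ (bd _ _ hq)]

theorem σ₀_not : σ₀ ∉ Cfsg.Inn Gq := by
  rintro ⟨g, hg⟩
  apply hσ
  refine ⟨WW⁻¹ * g * WW, ?_⟩
  have h1 : (σ : MulAut Gq) = (MulAut.conj WW)⁻¹ * σ₀ * MulAut.conj WW := by
    simp only [σ₀]; group
  rw [h1, ← hg, map_mul, map_mul, map_inv]

/-- The normalizing data. -/
def NL : List (ℕ × ℕ) := [(0, 1), (0, 745), (0, 4), (0, 333), (0, 63), (0, 910), (0, 64), (0, 128), (0, 256), (0, 512), (17, 110), (24, 577), (13, 559), (18, 577), (16, 0), (32, 0), (74, 559)]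

/-- The words of the generators. -/
noncomputable def genW (k : ℕ) : List ℕ := bif Nat.blt k 10 then DD.eW k else DD.τW (DD.ix (k - 10))

set_option Elab.async false in
theorem nrm_chk : allN 17 (fun k => allR (fun q => !(Nat.blt q 3510) ||
    Nat.beq (sZ (ev ap (genW k) q)) (ev ap (DD.τW (NL.getD k (0, 0)).1 ++ DD.nuW 10 (NL.getD k (0, 0)).2) (sZ q))) 12 0) = true := by
  decide +kernel

set_option Elab.async false in
theorem nl_lt : allN 17 (fun k => Nat.blt (NL.getD k (0, 0)).1 128) = true := by decide +kernel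

theorem σ₀_gen {k : ℕ} (hk : k < 17) : σ₀ (evL Lt (genW k)) ∈ T0 := by
  haveI := finGq'
  have hnl : (NL.getD k (0, 0)).1 < 128 := Nat.le_of_ble_eq_true (allN_spec nl_lt hk)
  have h1 : σ₀ (evL Lt (genW k)) = evL Lt (DD.τW (NL.getD k (0, 0)).1 ++ DD.nuW 10 (NL.getD k (0, 0)).2) := by
    apply phi_ext
    intro q hq
    have h2 := allR_spec _ 0 (allN_spec nrm_chk hk) (sZ q) (Nat.zero_le _) (by have := sZ_lt hq; omega)
    have hqn : Nat.blt (sZ q) 3510 = true := Nat.ble_eq_true_of_le (sZ_lt hq)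
    simp only [hqn, Bool.not_true, Bool.false_or] at h2
    have h3 := beq_true h2
    rw [sZ_sZ hq] at h3
    have h4 := Phi_σ₀ (evL Lt (genW k)) (sZ_lt hq)
    rw [sZ_sZ hq] at h4
    rw [h4, H.ev_eq _ (sZ_lt hq), h3, H.ev_eq _ hq]
  rw [h1, evL_append, evL_nuW]
  exact T0.mul_mem (syl_tau_mem sylD' _ hnl) (sylV_le sylD' (nu_mem_sylV _))


theorem eE_gen {k : ℕ} (hk : k < 10) : eE k = evL Lt (genW k) := by
  have : Nat.blt k 10 = true := Nat.ble_eq_true_of_le hk
  simp only [genW, this, cond_true]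
  rfl

theorem tE_gen (j : ℕ) : tE j = evL Lt (genW (10 + j)) := by
  have : Nat.blt (10 + j) 10 = false := by
    rw [Bool.eq_false_iff]
    intro h
    have := Nat.le_of_ble_eq_true h
    omega
  simp only [genW, this, cond_false, Nat.add_sub_cancel_left]
  rfl

theorem σ₀_T0 {x : Gq} (hx : x ∈ T0) : σ₀ x ∈ T0 := by
  have hle : T0 ≤ T0.comap (σ₀ : Gq ≃* Gq).toMonoidHom := by
    show Subgroup.closure _ ≤ _
    rw [Subgroup.closure_le]
    rintro y (⟨k, hk, rfl⟩ | ⟨j, hj, rfl⟩)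
    · show σ₀ (eE k) ∈ T0
      rw [eE_gen hk]
      exact σ₀_gen (by have : k < 10 := hk; omega)
    · show σ₀ (tE j) ∈ T0
      rw [tE_gen]
      exact σ₀_gen (by have : j < 7 := hj; omega)
  exact hle hx

theorem center_Gq : Subgroup.center Gq = ⊥ := by
  haveI : IsSimpleGroup Gq := simpleGp
  haveI : Finite Gq := finGp
  apply Cfsg.Agent.Lib.DoubleCover36.center_eq_bot_of_simple
  show ¬ (Nat.card Cfsg.Agent.TcChain36.U62.G22).Prime
  rw [Cfsg.Agent.TcChain36.U62.cardG22]
  norm_num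

theorem conj_inj : Function.Injective (MulAut.conj : Gq →* MulAut Gq) := by
  rw [injective_iff_map_eq_one]
  intro x hx
  have h1 : x ∈ Subgroup.center Gq := by
    rw [Subgroup.mem_center_iff]
    intro y
    have h2 : MulAut.conj x y = y := by rw [hx]; rfl
    rw [MulAut.conj_apply] at h2
    calc y * x = (x * y * x⁻¹) * x := by rw [h2]
      _ = x * y := by group
  rw [center_Gq] at h1
  simpa using h1

theorem card_A : Nat.card (MulAut Gq) = 2 ^ (17 + 1) * 492567075 := by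
  haveI : Finite Gq := finGp
  have h1 := Subgroup.card_eq_card_quotient_mul_card_subgroup (Cfsg.Inn Gq)
  have h2 : Nat.card (Cfsg.Inn Gq) = Nat.card Gq :=
    (Nat.card_congr (MonoidHom.ofInjective conj_inj).toEquiv).symm
  have h3 : Nat.card (MulAut Gq ⧸ Cfsg.Inn Gq) = 2 := out_eq
  rw [h1, h2, h3]
  show 2 * Nat.card Cfsg.Agent.TcChain36.U62.G22 = _
  rw [Cfsg.Agent.TcChain36.U62.cardG22]
  norm_num

/-- The inner automorphisms from the Sylow subgroup. -/
noncomputable def That : Subgroup (MulAut Gq) := T0.map (MulAut.conj : Gq →* MulAut Gq)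

theorem σ₀_not_That : σ₀ ∉ That := by
  rintro ⟨x, _, hx⟩
  exact σ₀_not ⟨x, hx⟩

theorem That_norm {y : MulAut Gq} (hy : y ∈ That) : σ₀ * y * σ₀ ∈ That := by
  obtain ⟨x, hx, rfl⟩ := hy
  refine ⟨σ₀ x, σ₀_T0 hx, ?_⟩
  ext z
  show σ₀ x * z * (σ₀ x)⁻¹ = σ₀ (x * σ₀ z * x⁻¹)
  rw [map_mul, map_mul, map_inv]
  have : σ₀ (σ₀ z) = z := by
    have := DFunLike.congr_fun σ₀_sq z
    exact this
  rw [this]

theorem card_That : Nat.card That = 2 ^ 17 := by
  rw [← card_T0]
  exact (Nat.card_congr (T0.equivMapOfInjective _ conj_inj).toEquiv).symm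

set_option maxHeartbeats 1000000 in
/-- An automorphism from the outer coset of the Sylow subgroup fixes a transposition. -/
theorem outer_fix {x : Gq} (hx : x ∈ T0) (h2 : (MulAut.conj x * σ₀) * (MulAut.conj x * σ₀) = 1) :
    ∃ d ∈ D0, (MulAut.conj x * σ₀) d = d := by
  haveI := finGq'
  obtain ⟨i, v, hi, hv, rfl⟩ := syl_form sylD' hx
  set W := DD.τW i ++ DD.nuW 10 v with hW
  have hxW : evL Lt (DD.τW i) * nu eE 10 v = evL Lt W := by
    rw [hW, evL_append, evL_nuW]
    rfl
  rw [hxW] at h2 ⊢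
  set x := evL Lt W with hxdef
  have hpq : ∀ {y : Gq} {p : ℕ}, Pq y p → Pq ((MulAut.conj x * σ₀) y) (piW W p) := by
    intro y p hy
    have h3 := pq_conj (Pq_σ₀ hy) x
    have hp := lt_of_pq hy
    have h4 : Phi x (sZ p) = piW W p := H.ev_eq W (sZ_lt hp)
    rw [h4] at h3
    exact h3
  have hsq : ∀ {b : ℕ}, b < 3510 → piW W (piW W b) = b := by
    intro b hb
    obtain ⟨y, hy⟩ := exists_of_lt hb
    have h3 := hpq (hpq hy)
    have h4 : (MulAut.conj x * σ₀) ((MulAut.conj x * σ₀) y) = y := by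
      have := DFunLike.congr_fun h2 y
      exact this
    rw [h4] at h3
    exact pq_uniq h3 hy
  have hchk : oChkW W ((fxT.get (i * 1024 + v)).headD 0) = true := by
    have h1 := allN_spec oChk_all hi
    have h3 := allR_spec _ 0 h1 v (Nat.zero_le _) (by simpa using hv)
    exact h3
  unfold oChkW at hchk
  rw [hsq (by norm_num : (0 : ℕ) < 3510), hsq (by norm_num : (12 : ℕ) < 3510)] at hchk
  simp only [show Nat.beq 0 0 = true from rfl, show Nat.beq 12 12 = true from rfl, Bool.not_true, Bool.false_or,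
    Bool.and_eq_true] at hchk
  obtain ⟨h5, h6⟩ := hchk
  have h7 := beq_true h5
  have h8 := Nat.le_of_ble_eq_true h6
  obtain ⟨y, hy⟩ := exists_of_lt h8
  refine ⟨y, mem_D0_of_pq hy, ?_⟩
  have h9 := hpq hy
  rw [h7] at h9
  exact pq_inj h9 hy

theorem D0_class : Cfsg.IsThreeTranspositionClass D0 := Cfsg.Agent.TcChain36.U62.classD

theorem aut_D0 (α : MulAut Gq) : (α : Gq ≃* Gq) '' D0 = D0 :=
  (class_unique_iso (e := α) (rfl : (α : Gq ≃* Gq) '' D0 = (α : Gq ≃* Gq) '' D0) D0_class).symm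

/-- Every involutory automorphism fixes a transposition. -/
theorem aut_fix (φ : MulAut Gq) (h2 : φ * φ = 1) (h1 : φ ≠ 1) : ∃ d ∈ D0, φ d = d := by
  haveI : Finite Gq := finGp
  obtain ⟨α, hα⟩ := conj_into_ext card_That (by rw [card_A]) (by decide) σ₀_sq σ₀_not_That (fun x hx => That_norm hx) h2
  set ψ := α * φ * α⁻¹ with hψ
  have hψ2 : ψ * ψ = 1 := by
    rw [hψ]
    calc α * φ * α⁻¹ * (α * φ * α⁻¹) = α * (φ * φ) * α⁻¹ := by group
      _ = 1 := by rw [h2]; group
  have hψ1 : ψ ≠ 1 := by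
    intro h
    apply h1
    have : φ = α⁻¹ * ψ * α := by rw [hψ]; group
    rw [this, h]; group
  -- it is enough to treat `ψ`
  suffices hs : ∃ d ∈ D0, ψ d = d by
    obtain ⟨d, hd, hfix⟩ := hs
    refine ⟨α⁻¹ d, ?_, ?_⟩
    · rw [← aut_D0 α⁻¹]
      exact ⟨d, hd, rfl⟩
    · have h3 : φ = α⁻¹ * ψ * α := by rw [hψ]; group
      rw [h3]
      show α⁻¹ (ψ (α (α⁻¹ d))) = α⁻¹ d
      have h4 : α (α⁻¹ d) = d := by
        have : (α * α⁻¹) d = d := by rw [mul_inv_cancel]; rfl
        exact this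
      rw [h4, hfix]
  rcases hα with ⟨x, hx, hxe⟩ | ⟨y, ⟨x, hx, rfl⟩, hxe⟩
  · -- inner
    have hxe' : MulAut.conj x = ψ := hxe
    rw [← hxe'] at hψ2 hψ1 ⊢
    have hx2 : x * x = 1 := by
      apply conj_inj
      rw [map_mul, map_one]
      exact hψ2
    have hx1 : x ≠ 1 := by
      rintro rfl
      exact hψ1 (map_one _)
    obtain ⟨m, l, hm1, _, hF⟩ := fac_of_inv hx2 hx1
    obtain ⟨_, hlen, hD, hcomm, hprod⟩ := hF
    obtain ⟨d, hd⟩ : ∃ d, d ∈ l := by
      apply List.exists_mem_of_length_pos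
      omega
    refine ⟨d, hD d hd, ?_⟩
    have hc : Commute x d := by
      rw [← hprod]
      exact (Commute.list_prod_right l d (fun z hz => hcomm d hd z hz)).symm
    rw [MulAut.conj_apply, hc.eq]
    group
  · -- outer
    rw [hxe] at hψ2 ⊢
    exact outer_fix hx hψ2

variable {G : Type u} [Group G] {D : Set G}

/-- The statement on involutory automorphisms. -/
theorem s5462_iso {e : Gq ≃* G} (he : e '' D0 = D) (φ : MulAut G) (hφ : orderOf φ = 2) : ∃ d ∈ D, φ d = d := by
  let φ' : MulAut Gq := (e.trans φ).trans e.symm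
  have hφ2 : φ * φ = 1 := by
    rw [← pow_two, ← hφ, pow_orderOf_eq_one]
  have hφ1 : φ ≠ 1 := by
    rintro rfl
    simp at hφ
  have happ : ∀ x, φ' x = e.symm (φ (e x)) := fun x => rfl
  have h2 : φ' * φ' = 1 := by
    ext x
    show φ' (φ' x) = x
    rw [happ, happ, e.apply_symm_apply]
    have : φ (φ (e x)) = e x := by
      have := DFunLike.congr_fun hφ2 (e x)
      exact this
    rw [this, e.symm_apply_apply]
  have h1 : φ' ≠ 1 := by
    intro h
    apply hφ1
    ext y
    have := DFunLike.congr_fun h (e.symm y)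
    have h3 : e.symm (φ (e (e.symm y))) = e.symm y := this
    rw [e.apply_symm_apply] at h3
    exact e.symm.injective h3
  obtain ⟨d, hd, hfix⟩ := aut_fix φ' h2 h1
  refine ⟨e d, ?_, ?_⟩
  · rw [← he]
    exact ⟨d, hd, rfl⟩
  · rw [happ] at hfix
    have := congrArg e hfix
    rwa [e.apply_symm_apply] at this

end Cfsg.Agent.Lib.Fi22K
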