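import Mathlib
import Cfsg.Agent.Lib.Fi22OuA0

/-!
# The conjugation table of the outer involutions of `Fi₂₂`: the checks, part 2
-/

set_option autoImplicit false
set_option maxRecDepth 1000000
set_option linter.all false

namespace Cfsg.Agent.Lib.Fi22Ou

open Cfsg.Agent.Lib.OutTree36 Cfsg.Agent.Lib.TcBits Cfsg.Agent.Lib.TcPres Cfsg.Agent.Lib.PresChain36
open Cfsg.Agent.TcData.Fi22.I3510 Cfsg.Agent.TcData.Fi22 Cfsg.Agent.TcChain36.Fi22 Cfsg.Agent.TcChain36.Out.Fi22
open Cfsg.Agent.Lib.Fi22K

set_option Elab.async false in
theorem clP4 : allN 16 (fun j => clC (64 + j)) = true := by decide +kernel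

set_option Elab.async false in
theorem clP5 : allN 16 (fun j => clC (80 + j)) = true := by decide +kernel

set_option Elab.async false in
theorem clP6 : allN 16 (fun j => clC (96 + j)) = true := by decide +kernel

set_option Elab.async false in
theorem clP7 : allN 16 (fun j => clC (112 + j)) = true := by decide +kernel

end Cfsg.Agent.Lib.Fi22Ou
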