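import Mathlib
import Cfsg.Agent.Lib.Fi22OuA1
import Cfsg.Agent.Lib.Fi22OuA2

/-!
# The three classes of outer involutions of `Fi₂₂`
-/

set_option autoImplicit false
set_option maxRecDepth 1000000
set_option linter.all false

namespace Cfsg.Agent.Lib.Fi22Ou

open Cfsg.Agent.Lib.OutTree36 Cfsg.Agent.Lib.TcBits Cfsg.Agent.Lib.TcPres Cfsg.Agent.Lib.PresChain36
open Cfsg.Agent.TcData.Fi22.I3510 Cfsg.Agent.TcData.Fi22 Cfsg.Agent.TcChain36.Fi22 Cfsg.Agent.TcChain36.Out.Fi22
open Cfsg.Agent.Lib.Fi22K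

theorem cl_all {i : ℕ} (hi : i < 128) : clC i = true := by
  have h : 16 * (i / 16) + i % 16 = i := Nat.div_add_mod i 16
  have hj : i % 16 < 16 := Nat.mod_lt _ (by norm_num)
  have hk : i / 16 < 8 := by omega
  rw [← h]
  generalize i / 16 = k at hk
  generalize i % 16 = j at hj
  interval_cases k
  · exact allN_spec clP0 hj
  · exact allN_spec clP1 hj
  · exact allN_spec clP2 hj
  · exact allN_spec clP3 hj
  · exact allN_spec clP4 hj
  · exact allN_spec clP5 hj
  · exact allN_spec clP6 hj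
  · exact allN_spec clP7 hj

/-- Elements are determined by their values on the base. -/
theorem base_ext {a b : Gq} (h : ∀ p ∈ bsL, Phi a p = Phi b p) : a = b := by
  have h1 : a⁻¹ * b = 1 := hbs _ (fun p hp => by
    rw [map_mul, Equiv.Perm.mul_apply, ← h p hp, map_inv]
    simp)
  calc a = a * (a⁻¹ * b) := by rw [h1, mul_one]
    _ = b := by group

/-- Conjugating an automorphism past an inner automorphism. -/
theorem aut_mul_conj (f : MulAut Gq) (u : Gq) : f * MulAut.conj u = MulAut.conj (f u) * f := by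
  ext y
  show f (u * y * u⁻¹) = f u * f y * (f u)⁻¹
  rw [map_mul, map_mul, map_inv]

/-- The points of an automorphism of the coset. -/
theorem pq_word (W : List ℕ) {y : Gq} {p : ℕ} (hy : Pq y p) :
    Pq ((MulAut.conj (evL Lt W) * σ₀) y) (ev ap W (sZ p)) := by
  have h3 := pq_conj (Pq_σ₀ hy) (evL Lt W)
  have hp := lt_of_pq hy
  have h4 : Phi (evL Lt W) (sZ p) = ev ap W (sZ p) := H.ev_eq W (sZ_lt hp)
  rw [h4] at h3
  exact h3

/-- The main step: the conjugation table. -/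
theorem cl_table {x : Gq} (hx : x ∈ T0) (h2 : (MulAut.conj x * σ₀) * (MulAut.conj x * σ₀) = 1) :
    ∃ U : Gq, ∃ c, c < 3 ∧ U * x * (σ₀ U)⁻¹ = evL Lt (rW c) := by
  haveI := finGq'
  obtain ⟨i, v, hi, hv, rfl⟩ := syl_form sylD' hx
  set W := DD.τW i ++ DD.nuW 10 v with hW
  have hxW : evL Lt (DD.τW i) * nu eE 10 v = evL Lt W := by
    rw [hW, evL_append, evL_nuW]
    rfl
  rw [hxW] at h2 ⊢
  have hpq : ∀ {y : Gq} {p : ℕ}, Pq y p → Pq ((MulAut.conj (evL Lt W) * σ₀) y) (piW W p) :=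
    fun hy => pq_word W hy
  have hsq : ∀ {b : ℕ}, b < 3510 → piW W (piW W b) = b := by
    intro b hb
    obtain ⟨y, hy⟩ := exists_of_lt hb
    have h3 := hpq (hpq hy)
    have h4 : (MulAut.conj (evL Lt W) * σ₀) ((MulAut.conj (evL Lt W) * σ₀) y) = y := by
      have := DFunLike.congr_fun h2 y
      exact this
    rw [h4] at h3
    exact pq_uniq h3 hy
  have hsq' : sqF W = true := by
    unfold sqF
    rw [List.all_eq_true]
    intro b hb
    rw [hsq (hbn b hb)]
    exact Nat.beq_refl b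
  have hchk : clW W (i * 1024 + v) = true := by
    have h1 := cl_all hi
    have h3 := allR_spec _ 0 h1 v (Nat.zero_le _) (by simpa using hv)
    exact h3
  unfold clW at hchk
  rw [hsq'] at hchk
  simp only [Bool.not_true, Bool.false_or, Bool.and_eq_true] at hchk
  obtain ⟨h5, h6⟩ := hchk
  set l := clT.get (i * 1024 + v) with hl
  refine ⟨evL Lt (uOf l), cOf l, blt_true h5, ?_⟩
  apply base_ext
  intro p hp
  have hp' := hbn p hp
  unfold cjT at h6
  rw [List.all_eq_true] at h6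
  have h7 := beq_true (h6 p hp)
  set U := uOf l with hU
  rw [H.ev_eq (rW (cOf l)) hp']
  rw [← h7]
  have hsl := sZ_lt hp'
  have h8 : Phi (σ₀ (evL Lt U))⁻¹ p = sZ (ev ap (invW iv U) (sZ p)) := by
    have h9 : (σ₀ (evL Lt U))⁻¹ = σ₀ (evL Lt (invW iv U)) := by
      rw [evL_invW hiv, map_inv]
    have h10 := Phi_σ₀ (evL Lt (invW iv U)) hsl
    rw [sZ_sZ hp', H.ev_eq _ hsl] at h10
    rw [h9, h10]
  have hlt1 : ev ap (invW iv U) (sZ p) < 3510 := H.ev_lt _ hsl
  have hlt2 := sZ_lt hlt1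
  rw [map_mul, map_mul, Equiv.Perm.mul_apply, Equiv.Perm.mul_apply, h8, H.ev_eq W hlt2,
    H.ev_eq U (H.ev_lt W hlt2)]

/-- Every outer involution is conjugate to one of the three. -/
theorem class_cover (φ : MulAut Gq) (h2 : φ * φ = 1) (hn : φ ∉ Cfsg.Inn Gq) :
    ∃ α : MulAut Gq, ∃ c, c < 3 ∧ α * φ * α⁻¹ = MulAut.conj (evL Lt (rW c)) * σ₀ := by
  haveI : Finite Gq := finGp
  obtain ⟨α, hα⟩ := conj_into_ext card_That (by rw [card_A]) (by decide) σ₀_sq σ₀_not_That (fun x hx => That_norm hx) h2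
  rcases hα with ⟨x, hx, hxe⟩ | ⟨y, ⟨x, hx, rfl⟩, hxe⟩
  · exfalso
    apply hn
    have hxe' : MulAut.conj x = α * φ * α⁻¹ := hxe
    refine ⟨α⁻¹ x, ?_⟩
    have h1 : α⁻¹ * MulAut.conj x = MulAut.conj (α⁻¹ x) * α⁻¹ := aut_mul_conj α⁻¹ x
    have h3 : φ = α⁻¹ * MulAut.conj x * α := by rw [hxe']; group
    rw [h3, h1]
    group
  · have hxe' : α * φ * α⁻¹ = MulAut.conj x * σ₀ := hxe
    have hsq : (MulAut.conj x * σ₀) * (MulAut.conj x * σ₀) = 1 := by
      rw [← hxe']
      calc α * φ * α⁻¹ * (α * φ * α⁻¹) = α * (φ * φ) * α⁻¹ := by group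
        _ = 1 := by rw [h2]; group
    obtain ⟨U, c, hc, hU⟩ := cl_table hx hsq
    refine ⟨MulAut.conj U * α, c, hc, ?_⟩
    rw [← hU]
    have h1 : σ₀ * (MulAut.conj U)⁻¹ = MulAut.conj (σ₀ U)⁻¹ * σ₀ := by
      rw [← map_inv, aut_mul_conj, map_inv, map_inv]
    calc MulAut.conj U * α * φ * (MulAut.conj U * α)⁻¹
        = MulAut.conj U * (α * φ * α⁻¹) * (MulAut.conj U)⁻¹ := by group
      _ = MulAut.conj U * MulAut.conj x * (σ₀ * (MulAut.conj U)⁻¹) := by rw [hxe']; group
      _ = MulAut.conj U * MulAut.conj x * MulAut.conj (σ₀ U)⁻¹ * σ₀ := by rw [h1]; group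
      _ = _ := by simp only [map_mul]

/-! ### The invariant -/

/-- The number of transpositions fixed by an automorphism. -/
noncomputable def fixA (ψ : MulAut Gq) : ℕ := Set.ncard {d | d ∈ D0 ∧ ψ d = d}

theorem fixA_conj (α ψ : MulAut Gq) : fixA (α * ψ * α⁻¹) = fixA ψ := by
  unfold fixA
  symm
  have hα : ∀ z, α (α⁻¹ z) = z := fun z => by
    show (α * α⁻¹) z = z
    rw [mul_inv_cancel]; rfl
  have hα' : ∀ z, α⁻¹ (α z) = z := fun z => by
    show (α⁻¹ * α) z = z
    rw [inv_mul_cancel]; rfl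
  apply Set.ncard_congr (fun d _ => α d)
  · rintro d ⟨h1, h2⟩
    refine ⟨?_, ?_⟩
    · rw [← aut_D0 α]
      exact ⟨d, h1, rfl⟩
    · show α (ψ (α⁻¹ (α d))) = α d
      rw [hα', h2]
  · intro a b _ _ he
    exact α.injective he
  · rintro d ⟨h1, h2⟩
    refine ⟨α⁻¹ d, ⟨?_, ?_⟩, hα d⟩
    · rw [← aut_D0 α⁻¹]
      exact ⟨d, h1, rfl⟩
    · have h3 : α (ψ (α⁻¹ d)) = d := h2
      have := congrArg (fun z => (α⁻¹ : MulAut Gq) z) h3
      simp only [hα'] at this
      exact this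

theorem fixA_word (W : List ℕ) : fixA (MulAut.conj (evL Lt W) * σ₀) =
    cntR (fun q => Nat.blt q 3510 && Nat.beq (ev ap W (sZ q)) q) 12 0 := by
  classical
  have e : Set.ncard {d | d ∈ D0 ∧ (MulAut.conj (evL Lt W) * σ₀) d = d} =
      Set.ncard {q | q < 3510 ∧ ev ap W (sZ q) = q} := by
    apply Set.ncard_congr (fun d hd => Classical.choose (exists_pq hd.1))
    · rintro d ⟨h1, h2⟩
      have h3 := Classical.choose_spec (exists_pq h1)
      refine ⟨h3.1, ?_⟩
      have h4 := pq_word W h3.2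
      rw [h2] at h4
      exact pq_uniq h4 h3.2
    · rintro a b ⟨h1, _⟩ ⟨h2, _⟩ he
      have h3 := Classical.choose_spec (exists_pq h1)
      have h4 := Classical.choose_spec (exists_pq h2)
      have he' : Classical.choose (exists_pq h1) = Classical.choose (exists_pq h2) := he
      rw [he'] at h3
      exact pq_inj h3.2 h4.2
    · rintro q ⟨h1, h2⟩
      obtain ⟨y, hy⟩ := exists_of_lt h1
      have h3 := pq_word W hy
      rw [h2] at h3
      have hyD := mem_D0_of_pq hy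
      refine ⟨y, ⟨hyD, pq_inj h3 hy⟩, ?_⟩
      exact pq_uniq (Classical.choose_spec (exists_pq hyD)).2 hy
  unfold fixA
  rw [e]
  have e2 : {q | q < 3510 ∧ ev ap W (sZ q) = q} =
      ↑((Finset.range (2 ^ 12)).filter (fun q => (Nat.blt q 3510 && Nat.beq (ev ap W (sZ q)) q) = true)) := by
    ext q
    simp only [Set.mem_setOf_eq, Finset.coe_filter, Finset.mem_range, Bool.and_eq_true]
    constructor
    · rintro ⟨h1, h2⟩
      refine ⟨by norm_num; omega, Nat.ble_eq_true_of_le h1, ?_⟩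
      rw [h2, Nat.beq_refl]
    · rintro ⟨_, h1, h2⟩
      exact ⟨blt_true h1, beq_true h2⟩
  rw [e2, Set.ncard_coe_finset, Finset.card_filter, cntR_eq]
  apply Finset.sum_congr rfl
  intro i _
  simp only [Nat.zero_add]
  cases (Nat.blt i 3510 && Nat.beq (ev ap W (sZ i)) i) <;> rfl

set_option Elab.async false in
theorem cntA0 : cntR (fun q => Nat.blt q 3510 && Nat.beq (ev ap (rW 0) (sZ q)) q) 12 0 = 360 := by decide +kernel
set_option Elab.async false in
theorem cntA1 : cntR (fun q => Nat.blt q 3510 && Nat.beq (ev ap (rW 1) (sZ q)) q) 12 0 = 64 := by decide +kernel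
set_option Elab.async false in
theorem cntA2 : cntR (fun q => Nat.blt q 3510 && Nat.beq (ev ap (rW 2) (sZ q)) q) 12 0 = 72 := by decide +kernel

/-- The two transpositions. -/
noncomputable abbrev aa : Gq := eE 0
/-- The two transpositions. -/
noncomputable abbrev bb : Gq := eE 2

theorem rW0 : evL Lt (rW 0) = 1 := rfl
theorem rW1 : evL Lt (rW 1) = aa := rfl
theorem rW2 : evL Lt (rW 2) = aa * bb := by
  show evL Lt [9, 11] = evL Lt [9] * evL Lt [11]
  simp only [evL_cons, evL_nil, mul_one]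

set_option Elab.async false in
theorem pw_a : ev ap (EP.getD 0 []) 0 = 0 := by decide +kernel
set_option Elab.async false in
theorem pw_b : ev ap (EP.getD 2 []) 0 = 595 := by decide +kernel
set_option Elab.async false in
theorem sZ_0 : sZ 0 = 0 := by decide +kernel
set_option Elab.async false in
theorem sZ_595 : sZ 595 = 595 := by decide +kernel

theorem eE_eq {k : ℕ} (hk : k < 10) : eE k = trq (EP.getD k []) := by
  have h1 : isOne ap bsL (DD.eW k ++ trW (EP.getD k [])) = true := by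
    have := List.all_eq_true.mp e_chk k (List.mem_range.mpr hk)
    exact this
  have h2 := evL_eq_one h1
  rw [evL_append, evL_trW] at h2
  have h4 : (trq (EP.getD k []))⁻¹ = trq (EP.getD k []) := by
    apply inv_eq_of_mul_eq_one_left
    have h1 : zz * zz = 1 := Cfsg.Agent.TcChain36.U62.aa_sq
    calc trq (EP.getD k []) * trq (EP.getD k []) = evL Lt (EP.getD k []) * (zz * zz) * (evL Lt (EP.getD k []))⁻¹ := by
          simp only [trq]; group
      _ = 1 := by rw [h1]; group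
  exact (eq_inv_of_mul_eq_one_left h2).trans h4

theorem aa_pq : Pq aa 0 := by
  have := trq_pq (EP.getD 0 [])
  rw [pw_a, ← eE_eq (by norm_num)] at this
  exact this

theorem bb_pq : Pq bb 595 := by
  have := trq_pq (EP.getD 2 [])
  rw [pw_b, ← eE_eq (by norm_num)] at this
  exact this

theorem σ₀_aa : σ₀ aa = aa := by
  have h := Pq_σ₀ aa_pq
  rw [sZ_0] at h
  exact pq_inj h aa_pq

theorem σ₀_bb : σ₀ bb = bb := by
  have h := Pq_σ₀ bb_pq
  rw [sZ_595] at h
  exact pq_inj h bb_pq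

set_option Elab.async false in
theorem ev9_595 : ev ap [9] 595 = 595 := by decide +kernel

theorem comm_ab : aa * bb = bb * aa := (comm_iff_fix aa_pq bb_pq).2 (by
  have h : Phi (evL Lt [9]) 595 = ev ap [9] 595 := H.ev_eq [9] (by norm_num)
  rw [ev9_595] at h
  exact h)

theorem ne_ab : aa ≠ bb := by
  intro h
  have h1 := aa_pq
  rw [h] at h1
  have := pq_uniq h1 bb_pq
  omega

theorem mul_σ₀_eq {r : Gq} (hr : σ₀ r = r) : σ₀ * MulAut.conj r = MulAut.conj r * σ₀ := by
  rw [aut_mul_conj, hr]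

theorem fixA0 : fixA σ₀ = 360 := by
  have := fixA_word (rW 0)
  rw [cntA0, rW0, map_one, one_mul] at this
  exact this

theorem fixA1 : fixA (σ₀ * MulAut.conj aa) = 64 := by
  have := fixA_word (rW 1)
  rw [cntA1, rW1] at this
  rw [mul_σ₀_eq σ₀_aa]
  exact this

theorem σ₀_ab : σ₀ (aa * bb) = aa * bb := by rw [map_mul, σ₀_aa, σ₀_bb]

theorem fixA2 : fixA (σ₀ * MulAut.conj (aa * bb)) = 72 := by
  have := fixA_word (rW 2)
  rw [cntA2, rW2] at this
  rw [mul_σ₀_eq σ₀_ab]
  exact this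

theorem fixA_isConj {ψ χ : MulAut Gq} (h : IsConj ψ χ) : fixA ψ = fixA χ := by
  obtain ⟨α, hα⟩ := isConj_iff.mp h
  rw [← hα, fixA_conj]

/-- The covering in the form of the statement. -/
theorem class_cover' (φ : MulAut Gq) (h2 : φ * φ = 1) (hn : φ ∉ Cfsg.Inn Gq) :
    IsConj φ σ₀ ∨ IsConj φ (σ₀ * MulAut.conj aa) ∨ IsConj φ (σ₀ * MulAut.conj (aa * bb)) := by
  obtain ⟨α, c, hc, hα⟩ := class_cover φ h2 hn
  have hconj : ∀ χ, α * φ * α⁻¹ = χ → IsConj φ χ := fun χ h => isConj_iff.mpr ⟨α, h⟩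
  interval_cases c
  · left
    apply hconj
    rw [hα, rW0, map_one, one_mul]
  · right; left
    apply hconj
    rw [hα, rW1, mul_σ₀_eq σ₀_aa]
  · right; right
    apply hconj
    rw [hα, rW2, mul_σ₀_eq σ₀_ab]

end Cfsg.Agent.Lib.Fi22Ou
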