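import Mathlib
import Cfsg.Agent.Lib.SympForm
import Cfsg.Agent.Lib.SympGen
import Cfsg.Agent.Lib.SpCenter

/-!
# Vectors as numbers: the six dimensional space over the field with two elements
-/

set_option autoImplicit false
set_option maxRecDepth 100000

open Cfsg Cfsg.Agent.Lib.SympForm
open Matrix

namespace Cfsg.Agent.Lib.Fi22Ou

/-- The space. -/
abbrev V6 := Fin 3 ⊕ Fin 3 → ZMod 2

/-- The group. -/
abbrev Sp6 := Matrix.symplecticGroup (Fin 3) (ZMod 2)

/-- Booleans in the field. -/
def b2z (b : Bool) : ZMod 2 := if b then 1 else 0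

theorem b2z_xor (x y : Bool) : b2z (xor x y) = b2z x + b2z y := by
  cases x <;> cases y <;> decide

theorem b2z_and (x y : Bool) : b2z (x && y) = b2z x * b2z y := by
  cases x <;> cases y <;> decide

/-- The vector of a number. -/
def toV (a : ℕ) : V6 := Sum.elim (fun k => b2z (a.testBit k)) (fun k => b2z (a.testBit (k + 3)))

theorem toV_xor (a b : ℕ) : toV (a ^^^ b) = toV a + toV b := by
  funext k
  rcases k with k | k <;> simp [toV, Nat.testBit_xor, b2z_xor]

theorem toV_zero : toV 0 = 0 := by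
  funext k
  rcases k with k | k <;> simp [toV, b2z]

/-- The position of a bit. -/
def pos6 (i : Fin 6) : Fin 3 ⊕ Fin 3 :=
  if h : i.val < 3 then Sum.inl ⟨i, h⟩ else Sum.inr ⟨i - 3, by omega⟩

/-- The number of a vector. -/
def num (x : V6) : ℕ := Nat.ofBits (fun i : Fin 6 => decide (x (pos6 i) = 1))

theorem num_lt (x : V6) : num x < 64 := Nat.ofBits_lt_two_pow (n := 6) _

theorem testBit_num (x : V6) (i : Fin 6) : (num x).testBit i = decide (x (pos6 i) = 1) :=
  Nat.testBit_ofBits_lt _ _ i.2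

theorem testBit_ge {a i : ℕ} (ha : a < 64) (hi : 6 ≤ i) : a.testBit i = false :=
  Nat.testBit_lt_two_pow (lt_of_lt_of_le ha (by
    calc 64 = 2 ^ 6 := by norm_num
      _ ≤ 2 ^ i := Nat.pow_le_pow_right (by norm_num) hi))

theorem b2z_decide : ∀ u : ZMod 2, b2z (decide (u = 1)) = u := by decide

theorem pos6_inl : ∀ k : Fin 3, pos6 ⟨k, by omega⟩ = Sum.inl k := by decide

theorem pos6_inr : ∀ k : Fin 3, pos6 ⟨k + 3, by omega⟩ = Sum.inr k := by decide

theorem toV_num (x : V6) : toV (num x) = x := by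
  funext k
  rcases k with k | k
  · show b2z ((num x).testBit k) = _
    have h := testBit_num x ⟨k, by omega⟩
    simp only at h
    rw [h, b2z_decide, pos6_inl]
  · show b2z ((num x).testBit (k + 3)) = _
    have h := testBit_num x ⟨k + 3, by omega⟩
    simp only at h
    rw [h, b2z_decide, pos6_inr]

theorem decide_b2z : ∀ b : Bool, decide (b2z b = 1) = b := by decide

theorem toV_testBit (a : ℕ) (i : Fin 6) : decide (toV a (pos6 i) = 1) = a.testBit i := by
  have hi := i.2
  by_cases h : i.val < 3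
  · have e : pos6 i = Sum.inl ⟨i, h⟩ := by
      unfold pos6
      rw [dif_pos h]
    rw [e]
    exact decide_b2z _
  · have e : pos6 i = Sum.inr ⟨i - 3, by omega⟩ := by
      unfold pos6
      rw [dif_neg h]
    rw [e]
    have h2 : (i : ℕ) - 3 + 3 = i := by omega
    show decide (b2z (a.testBit ((i : ℕ) - 3 + 3)) = 1) = _
    rw [h2]
    exact decide_b2z _

theorem num_toV (a : ℕ) : num (toV a) = a % 64 := by
  apply Nat.eq_of_testBit_eq
  intro i
  have e : (64 : ℕ) = 2 ^ 6 := by norm_num
  by_cases hi : i < 6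
  · have h1 := testBit_num (toV a) ⟨i, hi⟩
    simp only at h1
    rw [h1, toV_testBit, e, Nat.testBit_mod_two_pow]
    simp [hi]
  · rw [testBit_ge (num_lt _) (by omega), testBit_ge (Nat.mod_lt _ (by norm_num)) (by omega)]

theorem num_toV' {a : ℕ} (ha : a < 64) : num (toV a) = a := by
  rw [num_toV, Nat.mod_eq_of_lt ha]

/-- The form on numbers. -/
def sB (a b : ℕ) : Bool :=
  xor (xor (xor (xor (xor (a.testBit 3 && b.testBit 0) (a.testBit 0 && b.testBit 3))
    (a.testBit 4 && b.testBit 1)) (a.testBit 1 && b.testBit 4))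
    (a.testBit 5 && b.testBit 2)) (a.testBit 2 && b.testBit 5)

theorem sympForm_toV (a b : ℕ) : sympForm 3 (ZMod 2) (toV a) (toV b) = b2z (sB a b) := by
  rw [sympForm_apply]
  simp only [Fin.sum_univ_three, toV, Sum.elim_inl, Sum.elim_inr, sB, b2z_xor, b2z_and]
  simp only [sub_eq_add_neg, CharTwo.neg_eq]
  simp only [Fin.val_zero, Fin.val_one, Fin.val_two, zero_add]
  norm_num
  ring

theorem sympForm_num (x y : V6) : sympForm 3 (ZMod 2) x y = b2z (sB (num x) (num y)) := by
  rw [← sympForm_toV, toV_num, toV_num]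

theorem sB_comm (a b : ℕ) : sB a b = sB b a := by
  unfold sB
  cases a.testBit 0 <;> cases a.testBit 1 <;> cases a.testBit 2 <;> cases a.testBit 3 <;> cases a.testBit 4 <;>
    cases a.testBit 5 <;> cases b.testBit 0 <;> cases b.testBit 1 <;> cases b.testBit 2 <;> cases b.testBit 3 <;>
    cases b.testBit 4 <;> cases b.testBit 5 <;> rfl

theorem sp_ext {a b : Sp6} (h : ∀ x : V6, (a : Matrix (Fin 3 ⊕ Fin 3) (Fin 3 ⊕ Fin 3) (ZMod 2)) *ᵥ x =
    (b : Matrix (Fin 3 ⊕ Fin 3) (Fin 3 ⊕ Fin 3) (ZMod 2)) *ᵥ x) : a = b := by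
  apply Subtype.ext
  ext i j
  have := congrFun (h (Pi.single j 1)) i
  simpa [mulVec_single_one] using this

/-- Transvections. -/
def T (v : V6) : Sp6 := transvElt v 1

theorem T_mulVec (v x : V6) : ((T v : Sp6) : Matrix (Fin 3 ⊕ Fin 3) (Fin 3 ⊕ Fin 3) (ZMod 2)) *ᵥ x =
    x + (sympForm 3 (ZMod 2) x v) • v := by
  show sympTransvection 3 v 1 *ᵥ x = _
  rw [mulVec_sympTransvection, one_mul]

theorem zmod2_cases : ∀ c : ZMod 2, c = 0 ∨ c = 1 := by decide

/-- The group is generated by the transvections. -/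
theorem T_generate {S : Subgroup Sp6} (hS : ∀ v : V6, v ≠ 0 → T v ∈ S) : S = ⊤ := by
  rw [eq_top_iff, ← Cfsg.Agent.Lib.SympGen.transvGroup_eq_top (K := ZMod 2) (m := 3), Subgroup.closure_le]
  rintro A ⟨w, c, hA⟩
  have hA' : A = transvElt w c := Subtype.ext hA
  rw [hA']
  have h1 : ∀ w : V6, transvElt w (0 : ZMod 2) = 1 := by
    intro w
    apply sp_ext
    intro x
    show sympTransvection 3 w 0 *ᵥ x = _
    rw [mulVec_sympTransvection]
    simp
  rcases zmod2_cases c with rfl | rfl
  · rw [h1]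
    exact Subgroup.one_mem _
  · by_cases hw : w = 0
    · have h2 : transvElt w (1 : ZMod 2) = 1 := by
        apply sp_ext
        intro x
        show sympTransvection 3 w 1 *ᵥ x = _
        rw [mulVec_sympTransvection, hw]
        simp
      rw [h2]
      exact Subgroup.one_mem _
    · exact hS w hw

/-- The quotient by a trivial centre. -/
noncomputable def pspE2 : Cfsg.PSp 3 (ZMod 2) ≃* Sp6 := by
  have h2 : (2 : ZMod 2) = 0 := rfl
  have hc : Subgroup.center Sp6 = ⊥ := by
    rw [eq_bot_iff]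
    intro z hz
    rcases Cfsg.Agent.Lib.SpCenter.mem_center_iff.mp hz with h | h
    · exact h
    · rw [h]
      apply Subtype.ext
      show -1 = _
      have h1 : (-1 : ZMod 2) = 1 := by decide
      ext i j
      simp only [Matrix.neg_apply]
      rw [← neg_one_mul, h1, one_mul]
      rfl
  exact (QuotientGroup.quotientMulEquivOfEq hc).trans QuotientGroup.quotientBot

end Cfsg.Agent.Lib.Fi22Ou
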