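import Mathlib
import Cfsg.Agent.Lib.Fi22OuB0
import Cfsg.Agent.Lib.Fi22OuV
import Cfsg.Agent.Lib.Fi22OuA0
import Cfsg.Agent.Lib.F22A27N

/-!
# The fixed points of the outer involution `σ₀ * conj aa` : checks
-/

set_option autoImplicit false
set_option maxRecDepth 1000000
set_option linter.all false

namespace Cfsg.Agent.Lib.Fi22Ou

open Cfsg.Agent.Lib.OutTree36 Cfsg.Agent.Lib.TcBits Cfsg.Agent.Lib.TcPres Cfsg.Agent.Lib.PresChain36
open Cfsg.Agent.TcData.Fi22.I3510 Cfsg.Agent.TcData.Fi22 Cfsg.Agent.TcChain36.Fi22 Cfsg.Agent.TcChain36.Out.Fi22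
open Cfsg.Agent.Lib.Fi22K
open Cfsg.Agent.Lib.F22A27 (fx lam)

/-- The points of the codes. -/
def pc (c : ℕ) : ℕ := tget 12 pcT c
/-- The codes of the points. -/
def vc (q : ℕ) : ℕ := tget 6 vcT q
/-- The words of the points. -/
def wp (c : ℕ) : List ℕ := wpL.getD c []
/-- The words of the transpositions. -/
def Tw (c : ℕ) : List ℕ := trW (wp c)
/-- The point map. -/
noncomputable def pi2 (q : ℕ) : ℕ := ev ap [9] (sZ q)
/-- The second colour. -/
def d2 (j : ℕ) : ℕ := tget 12 D2T j
/-- The index in the second colour. -/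
def ix2 (q : ℕ) : ℕ := tget 7 ix2T q
/-- The second colour. -/
def inD2 (q : ℕ) : Bool := Nat.blt (ix2 q) 120 && Nat.beq (d2 (ix2 q)) q

set_option Elab.async false in
theorem c_pc : allN 64 (fun c => Nat.blt (pc c) 3510 && Nat.beq (sZ (pc c)) (pc c) && Nat.beq (ev ap [9] (pc c)) (pc c) &&
    Nat.beq (vc (pc c)) c && Nat.beq (ev ap (wp c) 0) (pc c)) = true := by decide +kernel

set_option Elab.async false in
theorem c_F2 : allR (fun q => !(Nat.blt q 3510) || !(Nat.beq (pi2 q) q) || (Nat.beq (pc (vc q)) q && Nat.blt (vc q) 64)) 12 0 = true := by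
  decide +kernel

set_option Elab.async false in
theorem c_tau : allN 64 (fun c => allN 64 (fun d => Nat.beq (ev ap (Tw c) (pc d)) (pc (bif sB c d then d ^^^ c else d)) &&
    (!(sB c d) || !(Nat.beq (pc (d ^^^ c)) (pc d))) && Nat.blt (d ^^^ c) 64)) = true := by decide +kernel

set_option Elab.async false in
theorem c_nd : allN 64 (fun c => Nat.beq c 0 || [1, 2, 4, 8, 16, 32].any (fun d => sB c d)) = true := by decide +kernel

set_option Elab.async false in
theorem c_HL : allR (fun q => !(Nat.blt q 3510) || !(HL2.all (fun c => fx (Tw c) q)) || Nat.beq q 0 || Nat.beq q 1 || Nat.beq q 14) 12 0 = true := by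
  decide +kernel

set_option Elab.async false in
theorem c_HL0 : HL2.all (fun c => fx (Tw c) 1) = true := by decide +kernel

set_option Elab.async false in
theorem c_HLb : HL2.all (fun c => Nat.blt c 64) = true := by decide +kernel

set_option Elab.async false in
theorem c_a14 : ev ap [9] 14 = 1 ∧ ev ap [9] 1 = 14 := by decide +kernel

/-- The word of a code list. -/
def cdW (l : List ℕ) : List ℕ := l.flatMap Tw

/-- The check on the first colour. -/
noncomputable def lamOK (q : ℕ) (l : List ℕ) : Bool :=
  (Nat.beq (pc (vc q)) q && Nat.blt (vc q) 64) || (Nat.beq (ev ap (cdW l) 1) q && l.all (fun c => Nat.blt c 64))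

set_option Elab.async false in
theorem c_lam : allN 120 (fun i => lamOK (ev ap [5, 6] (lam i)) (lamWL.getD i [])) = true := by decide +kernel

set_option Elab.async false in
theorem c_d2 : allN 120 (fun j => Nat.beq (ix2 (d2 j)) j && Nat.blt (d2 j) 3510) = true := by decide +kernel

set_option Elab.async false in
theorem c_d2g : allN 64 (fun c => allN 120 (fun j => inD2 (ev ap (Tw c ++ [9]) (d2 j)))) = true := by decide +kernel

set_option Elab.async false in
theorem c_d2a : inD2 (ev ap [9] (d2 0)) = false := by decide +kernel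

end Cfsg.Agent.Lib.Fi22Ou
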