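import Mathlib
import Cfsg.Agent.Lib.Fi22OuB1
import Cfsg.Agent.Lib.Fi22OuA
import Cfsg.Agent.Lib.SpOrder

/-!
# The fixed points of the outer involution `σ₀ * conj aa`: the homomorphism to the symplectic group
-/

set_option autoImplicit false
set_option maxRecDepth 1000000
set_option linter.all false

namespace Cfsg.Agent.Lib.Fi22Ou

open Cfsg.Agent.Lib.OutTree36 Cfsg.Agent.Lib.TcBits Cfsg.Agent.Lib.TcPres Cfsg.Agent.Lib.PresChain36
open Cfsg.Agent.TcData.Fi22.I3510 Cfsg.Agent.TcData.Fi22 Cfsg.Agent.TcChain36.Fi22 Cfsg.Agent.TcChain36.Out.Fi22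
open Cfsg.Agent.Lib.Fi22K Cfsg.Agent.Lib.SympForm
open Cfsg.Agent.Lib.F22A27 (fx lam phi_comm comm_evL phi_word fx_image lam_lt eq_one_of_lam)
open Matrix

/-- The fixed subgroup of an automorphism. -/
def fixS (φ : MulAut Gq) : Subgroup Gq where
  carrier := {g | φ g = g}
  mul_mem' {a b} ha hb := by
    show φ (a * b) = a * b
    rw [map_mul, show φ a = a from ha, show φ b = b from hb]
  one_mem' := map_one φ
  inv_mem' {a} ha := by
    show φ a⁻¹ = a⁻¹
    rw [map_inv, show φ a = a from ha]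

theorem mem_fixS {φ : MulAut Gq} {g : Gq} : g ∈ fixS φ ↔ φ g = g := Iff.rfl

/-- The second involution. -/
noncomputable abbrev φ₂ : MulAut Gq := σ₀ * MulAut.conj aa

theorem φ₂_eq : φ₂ = MulAut.conj (evL Lt [9]) * σ₀ := mul_σ₀_eq σ₀_aa

theorem pq2 {y : Gq} {p : ℕ} (hy : Pq y p) : Pq (φ₂ y) (pi2 p) := by
  rw [φ₂_eq]
  exact pq_word [9] hy

theorem pc_parts {c : ℕ} (hc : c < 64) : pc c < 3510 ∧ sZ (pc c) = pc c ∧ ev ap [9] (pc c) = pc c ∧ vc (pc c) = c ∧
    ev ap (wp c) 0 = pc c := by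
  have h := allN_spec c_pc hc
  simp only [Bool.and_eq_true] at h
  obtain ⟨⟨⟨⟨h1, h2⟩, h3⟩, h4⟩, h5⟩ := h
  exact ⟨blt_true h1, beq_true h2, beq_true h3, beq_true h4, beq_true h5⟩

theorem pc_lt {c : ℕ} (hc : c < 64) : pc c < 3510 := (pc_parts hc).1
theorem vc_pc {c : ℕ} (hc : c < 64) : vc (pc c) = c := (pc_parts hc).2.2.2.1

theorem pi2_pc {c : ℕ} (hc : c < 64) : pi2 (pc c) = pc c := by
  unfold pi2
  rw [(pc_parts hc).2.1, (pc_parts hc).2.2.1]

theorem F2_pc {q : ℕ} (hq : q < 3510) (h : pi2 q = q) : pc (vc q) = q ∧ vc q < 64 := by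
  have h1 := allR_spec _ 0 c_F2 q (Nat.zero_le _) (by norm_num; omega)
  have h2 : Nat.blt q 3510 = true := Nat.ble_eq_true_of_le hq
  have h3 : Nat.beq (pi2 q) q = true := by rw [h, Nat.beq_refl]
  rw [h2, h3] at h1
  simp only [Bool.not_true, Bool.false_or, Bool.and_eq_true] at h1
  exact ⟨beq_true h1.1, blt_true h1.2⟩

/-- The transpositions. -/
noncomputable def Tp (c : ℕ) : Gq := evL Lt (Tw c)

theorem Tp_pq {c : ℕ} (hc : c < 64) : Pq (Tp c) (pc c) := by
  unfold Tp Tw
  rw [evL_trW, ← (pc_parts hc).2.2.2.2]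
  exact trq_pq _

theorem Tp_zero : Tp 0 = aa := by
  have h := Tp_pq (c := 0) (by norm_num)
  have h0 : pc 0 = 0 := by decide +kernel
  rw [h0] at h
  exact pq_inj h aa_pq

theorem Tp_act {c d : ℕ} (hc : c < 64) (hd : d < 64) : Phi (Tp c) (pc d) = pc (bif sB c d then d ^^^ c else d) := by
  have h := allN_spec (allN_spec c_tau hc) hd
  simp only [Bool.and_eq_true] at h
  unfold Tp
  rw [H.ev_eq _ (pc_lt hd)]
  exact beq_true h.1.1

theorem xor_lt {c d : ℕ} (hc : c < 64) (hd : d < 64) : d ^^^ c < 64 := by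
  have h := allN_spec (allN_spec c_tau hc) hd
  simp only [Bool.and_eq_true] at h
  exact blt_true h.2

theorem comm_Tp {c d : ℕ} (hc : c < 64) (hd : d < 64) : Tp c * Tp d = Tp d * Tp c ↔ sB c d = false := by
  rw [comm_iff_fix (Tp_pq hc) (Tp_pq hd), Tp_act hc hd]
  have h := allN_spec (allN_spec c_tau hc) hd
  simp only [Bool.and_eq_true] at h
  cases hs : sB c d
  · simp
  · simp only [cond_true, Bool.true_eq_false, iff_false]
    have h2 := h.1.2
    rw [hs] at h2
    simp only [Bool.not_true, Bool.false_or, Bool.not_eq_true'] at h2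
    intro h3
    rw [h3, Nat.beq_refl] at h2
    simp at h2

/-- The action on the codes. -/
noncomputable def AA (y : Gq) (c : ℕ) : ℕ := vc (Phi y (pc c))

section fx2

variable {y y' : Gq}

theorem fix_F2 (hy : φ₂ y = y) {q : ℕ} (hq : q < 3510) (h : pi2 q = q) : pi2 (Phi y q) = Phi y q := by
  obtain ⟨x, hx⟩ := exists_of_lt hq
  have h1 : φ₂ x = x := by
    have := pq2 hx
    rw [h] at this
    exact pq_inj this hx
  have h2 := pq_conj hx y
  have h3 : φ₂ (y * x * y⁻¹) = y * x * y⁻¹ := by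
    rw [map_mul, map_mul, map_inv, hy, h1]
  have h4 := pq2 h2
  rw [h3] at h4
  exact pq_uniq h4 h2

theorem pc_AA (hy : φ₂ y = y) {c : ℕ} (hc : c < 64) : pc (AA y c) = Phi y (pc c) :=
  (F2_pc (bd _ _ (pc_lt hc)) (fix_F2 hy (pc_lt hc) (pi2_pc hc))).1

theorem AA_lt (hy : φ₂ y = y) {c : ℕ} (hc : c < 64) : AA y c < 64 :=
  (F2_pc (bd _ _ (pc_lt hc)) (fix_F2 hy (pc_lt hc) (pi2_pc hc))).2

theorem Tp_conj (hy : φ₂ y = y) {c : ℕ} (hc : c < 64) : y * Tp c * y⁻¹ = Tp (AA y c) := by
  have h1 := pq_conj (Tp_pq hc) y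
  rw [← pc_AA hy hc] at h1
  exact pq_inj h1 (Tp_pq (AA_lt hy hc))

theorem AA_form (hy : φ₂ y = y) {c d : ℕ} (hc : c < 64) (hd : d < 64) : sB (AA y c) (AA y d) = sB c d := by
  have h1 : (Tp (AA y c) * Tp (AA y d) = Tp (AA y d) * Tp (AA y c)) ↔ (Tp c * Tp d = Tp d * Tp c) := by
    rw [← Tp_conj hy hc, ← Tp_conj hy hd]
    constructor
    · intro h
      have h2 : y * (Tp c * Tp d) * y⁻¹ = y * (Tp d * Tp c) * y⁻¹ := by
        calc y * (Tp c * Tp d) * y⁻¹ = y * Tp c * y⁻¹ * (y * Tp d * y⁻¹) := by group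
          _ = y * Tp d * y⁻¹ * (y * Tp c * y⁻¹) := h
          _ = _ := by group
      exact mul_left_cancel (mul_right_cancel h2)
    · intro h
      calc y * Tp c * y⁻¹ * (y * Tp d * y⁻¹) = y * (Tp c * Tp d) * y⁻¹ := by group
        _ = y * (Tp d * Tp c) * y⁻¹ := by rw [h]
        _ = _ := by group
  rw [comm_Tp (AA_lt hy hc) (AA_lt hy hd), comm_Tp hc hd] at h1
  cases h2 : sB (AA y c) (AA y d) <;> cases h3 : sB c d <;> simp [h2, h3] at h1 ⊢

theorem AA_mul (hy' : φ₂ y' = y') {c : ℕ} (hc : c < 64) : AA (y * y') c = AA y (AA y' c) := by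
  unfold AA
  rw [map_mul, Equiv.Perm.mul_apply]
  have := pc_AA hy' hc
  unfold AA at this
  rw [this]

theorem AA_one {c : ℕ} (hc : c < 64) : AA 1 c = c := by
  unfold AA
  rw [map_one]
  exact vc_pc hc

/-- The action on vectors. -/
noncomputable def LL (y : Gq) (x : V6) : V6 := toV (AA y (num x))

theorem LL_form (hy : φ₂ y = y) (x x' : V6) : sympForm 3 (ZMod 2) (LL y x) (LL y x') = sympForm 3 (ZMod 2) x x' := by
  unfold LL
  rw [sympForm_toV, AA_form hy (num_lt _) (num_lt _), sympForm_num]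

theorem LL_inv (hy : φ₂ y = y) (x : V6) : LL y (LL y⁻¹ x) = x := by
  have hi : φ₂ y⁻¹ = y⁻¹ := by rw [map_inv, hy]
  unfold LL
  rw [num_toV' (AA_lt hi (num_lt x)), ← AA_mul hi (num_lt x), mul_inv_cancel, AA_one (num_lt x), toV_num]

theorem LL_add (hy : φ₂ y = y) (x x' : V6) : LL y (x + x') = LL y x + LL y x' := by
  by_contra hne
  have hu : LL y (x + x') - LL y x - LL y x' ≠ 0 := by
    intro h
    apply hne
    rw [sub_sub, sub_eq_zero] at h
    exact h
  obtain ⟨w, hw⟩ := exists_sympForm_ne_zero hu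
  apply hw
  have hi : φ₂ y⁻¹ = y⁻¹ := by rw [map_inv, hy]
  rw [← LL_inv hy w, sympForm_sub_left, sympForm_sub_left, LL_form hy, LL_form hy, LL_form hy, sympForm_add_left]
  ring

/-- The linear map. -/
noncomputable def LinL (y : Gq) (hy : φ₂ y = y) : V6 →ₗ[ZMod 2] V6 :=
  AddMonoidHom.toZModLinearMap 2 (AddMonoidHom.mk' (LL y) (LL_add hy))

theorem LinL_apply (hy : φ₂ y = y) (x : V6) : LinL y hy x = LL y x := rfl

/-- The matrix. -/
noncomputable def matL (y : Gq) (hy : φ₂ y = y) : Matrix (Fin 3 ⊕ Fin 3) (Fin 3 ⊕ Fin 3) (ZMod 2) :=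
  LinearMap.toMatrix' (LinL y hy)

theorem matL_mulVec (hy : φ₂ y = y) (x : V6) : matL y hy *ᵥ x = LL y x := by
  unfold matL
  rw [LinearMap.toMatrix'_mulVec, LinL_apply]

theorem matL_mem (hy : φ₂ y = y) : matL y hy ∈ symplecticGroup (Fin 3) (ZMod 2) := by
  rw [mem_symplecticGroup_iff_preserves]
  intro x x'
  rw [matL_mulVec, matL_mulVec, LL_form hy]

end fx2

/-- The fixed subgroup. -/
noncomputable abbrev Fx2 : Subgroup Gq := fixS φ₂

/-- The homomorphism to the symplectic group. -/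
noncomputable def rho : ↥Fx2 →* Sp6 where
  toFun y := ⟨matL y (mem_fixS.1 y.2), matL_mem (mem_fixS.1 y.2)⟩
  map_one' := by
    apply sp_ext
    intro x
    show matL _ _ *ᵥ x = (1 : Matrix (Fin 3 ⊕ Fin 3) (Fin 3 ⊕ Fin 3) (ZMod 2)) *ᵥ x
    rw [matL_mulVec, one_mulVec]
    show toV (AA 1 (num x)) = x
    rw [AA_one (num_lt x), toV_num]
  map_mul' y y' := by
    apply sp_ext
    intro x
    show matL _ _ *ᵥ x = (matL y (mem_fixS.1 y.2) * matL y' (mem_fixS.1 y'.2)) *ᵥ x
    rw [matL_mulVec, ← mulVec_mulVec, matL_mulVec, matL_mulVec]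
    unfold LL
    rw [num_toV' (AA_lt y'.2 (num_lt x))]
    show toV (AA ((y : Gq) * (y' : Gq)) (num x)) = _
    rw [AA_mul y'.2 (num_lt x)]

theorem rho_mulVec (y : ↥Fx2) (x : V6) : ((rho y : Sp6) : Matrix (Fin 3 ⊕ Fin 3) (Fin 3 ⊕ Fin 3) (ZMod 2)) *ᵥ x = LL y x :=
  matL_mulVec (mem_fixS.1 y.2) x

theorem φ₂_of_pc {x : Gq} {c : ℕ} (hc : c < 64) (hx : Pq x (pc c)) : φ₂ x = x := by
  have := pq2 hx
  rw [pi2_pc hc] at this
  exact pq_inj this hx

theorem Tp_mem {c : ℕ} (hc : c < 64) : Tp c ∈ Fx2 := φ₂_of_pc hc (Tp_pq hc)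

theorem aa_mem : aa ∈ Fx2 := by
  rw [← Tp_zero]
  exact Tp_mem (by norm_num)

theorem rho_Tp {c : ℕ} (hc : c < 64) : rho ⟨Tp c, Tp_mem hc⟩ = T (toV c) := by
  apply sp_ext
  intro x
  rw [rho_mulVec, T_mulVec]
  show toV (AA (Tp c) (num x)) = _
  have hd := num_lt x
  unfold AA
  rw [Tp_act hc hd]
  conv_rhs => rw [← toV_num x]
  rw [sympForm_toV, toV_num, sB_comm (num x) c]
  cases hs : sB c (num x)
  · simp only [cond_false, b2z, if_false]
    rw [vc_pc hd, toV_num]
    simp [b2z]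
  · simp only [cond_true, b2z, if_true]
    rw [vc_pc (xor_lt hc hd), toV_xor, toV_num]
    simp

theorem sq_Tp {c : ℕ} (hc : c < 64) : Tp c * Tp c = 1 := sq_D0 (mem_D0_of_pq (Tp_pq hc))

theorem rho_aa : rho ⟨aa, aa_mem⟩ = 1 := by
  have h := rho_Tp (c := 0) (by norm_num)
  have e : (⟨aa, aa_mem⟩ : ↥Fx2) = ⟨Tp 0, Tp_mem (by norm_num)⟩ := Subtype.ext Tp_zero.symm
  rw [e, h, toV_zero]
  apply sp_ext
  intro x
  rw [T_mulVec]
  simp

/-- Fixed points of the kernel. -/
theorem ker_fix {y : ↥Fx2} (h : rho y = 1) {c : ℕ} (hc : c < 64) : Phi (y : Gq) (pc c) = pc c := by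
  have h1 := rho_mulVec y (toV c)
  rw [h] at h1
  have h2 : (1 : Sp6) = (1 : Sp6) := rfl
  have h3 : LL (y : Gq) (toV c) = toV c := by
    rw [← h1]
    show (1 : Matrix (Fin 3 ⊕ Fin 3) (Fin 3 ⊕ Fin 3) (ZMod 2)) *ᵥ _ = _
    rw [one_mulVec]
  unfold LL at h3
  rw [num_toV' hc] at h3
  have h4 := congrArg num h3
  rw [num_toV' (AA_lt y.2 hc), num_toV' hc] at h4
  rw [← pc_AA y.2 hc, h4]

/-- The element fixing the sixty-four points is `1` or `aa`. -/
theorem fix64 {y : Gq} (h : ∀ c, c < 64 → Phi y (pc c) = pc c) : y = 1 ∨ y = aa := by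
  have hcomm : ∀ c, c < 64 → Commute y (Tp c) := fun c hc => comm_of_fix (Tp_pq hc) (h c hc)
  have hcL : ∀ {l : List ℕ}, l.all (fun c => Nat.blt c 64) = true → ∀ z, Commute z (Tp 0) → (∀ c, c < 64 → Commute z (Tp c)) →
      Commute z (evL Lt (cdW l)) := by
    intro l
    induction l with
    | nil => intro _ z _ _; simp [cdW]
    | cons c l ih =>
      intro hl z h0 hz
      simp only [List.all_cons, Bool.and_eq_true] at hl
      have e : cdW (c :: l) = Tw c ++ cdW l := by simp [cdW]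
      rw [e, evL_append]
      exact (hz c (blt_true hl.1)).mul_right (ih hl.2 z h0 hz)
  -- the image of the point `1`
  have h1 : Phi y 1 = 1 ∨ Phi y 1 = 14 := by
    have hb : Phi y 1 < 3510 := bd _ _ (by norm_num)
    have hall : HL2.all (fun c => fx (Tw c) (Phi y 1)) = true := by
      rw [List.all_eq_true]
      intro c hc
      have h2 := List.all_eq_true.mp c_HL0 c hc
      have h3 := blt_true (List.all_eq_true.mp c_HLb c hc)
      exact fx_image (hcomm c h3) (by norm_num) h2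
    have h5 := allR_spec _ 0 c_HL (Phi y 1) (Nat.zero_le _) (by norm_num; omega)
    have hb' : Nat.blt (Phi y 1) 3510 = true := Nat.ble_eq_true_of_le hb
    rw [hb', hall] at h5
    simp only [Bool.not_true, Bool.false_or, Bool.or_eq_true] at h5
    rcases h5 with (h5 | h5) | h5
    · exfalso
      have h6 : Phi y 0 = 0 := by
        have h7 := h 0 (by norm_num)
        have h0 : pc 0 = 0 := by decide +kernel
        rwa [h0] at h7
      have h8 := beq_true h5
      have := (Phi y).injective (h8.trans h6.symm)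
      omega
    · exact Or.inl (beq_true h5)
    · exact Or.inr (beq_true h5)
  -- a general step
  have key : ∀ z : Gq, (∀ c, c < 64 → Phi z (pc c) = pc c) → Phi z 1 = 1 → z = 1 := by
    intro z hz hz1
    have hcz : ∀ c, c < 64 → Commute z (Tp c) := fun c hc => comm_of_fix (Tp_pq hc) (hz c hc)
    have hG : ∀ i, i < 120 → Phi z (ev ap [5, 6] (lam i)) = ev ap [5, 6] (lam i) := by
      intro i hi
      have hl := allN_spec c_lam hi
      unfold lamOK at hl
      simp only [Bool.or_eq_true, Bool.and_eq_true] at hl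
      rcases hl with ⟨h2, h3⟩ | ⟨h2, h3⟩
      · have h4 := beq_true h2
        rw [← h4]
        exact hz _ (blt_true h3)
      · have h4 := beq_true h2
        rw [← h4, ← H.ev_eq _ (by norm_num : (1 : ℕ) < 3510), phi_comm (hcL h3 z (hcz 0 (by norm_num)) hcz), hz1]
    have hz' : (evL Lt [5, 6])⁻¹ * z * evL Lt [5, 6] = 1 := by
      apply eq_one_of_lam
      intro i hi
      have hl := lam_lt hi
      have h2 := hG i hi
      rw [← H.ev_eq [5, 6] hl] at h2
      rw [map_mul, map_mul, Equiv.Perm.mul_apply, Equiv.Perm.mul_apply, h2, ← Equiv.Perm.mul_apply, ← map_mul,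
        inv_mul_cancel, map_one]
      rfl
    have : z = evL Lt [5, 6] * ((evL Lt [5, 6])⁻¹ * z * evL Lt [5, 6]) * (evL Lt [5, 6])⁻¹ := by group
    rw [this, hz']
    group
  rcases h1 with h1 | h1
  · exact Or.inl (key y h h1)
  · right
    have h2 : aa * y = 1 := by
      apply key
      · intro c hc
        rw [map_mul, Equiv.Perm.mul_apply, h c hc, ← Tp_zero]
        have := (comm_Tp (c := 0) (d := c) (by norm_num) hc).2 (by rfl)
        have h3 := (comm_iff_fix (Tp_pq (c := 0) (by norm_num)) (Tp_pq hc)).1 this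
        exact h3
      · rw [map_mul, Equiv.Perm.mul_apply, h1]
        show Phi (evL Lt [9]) 14 = 1
        rw [H.ev_eq [9] (by norm_num)]
        exact c_a14.1
    have h3 : aa * aa = 1 := by
      rw [← Tp_zero]
      exact sq_Tp (by norm_num)
    calc y = aa * (aa * y) := by rw [← mul_assoc, h3, one_mul]
      _ = aa := by rw [h2, mul_one]

theorem ker_rho {y : ↥Fx2} (h : rho y = 1) : (y : Gq) = 1 ∨ (y : Gq) = aa := fix64 (fun _ hc => ker_fix h hc)

/-! ### Fixed points: the subgroup `Cs ⊓ C(a)` -/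

theorem sB_zero (d : ℕ) : sB 0 d = false := by
  simp [sB]

/-- The centraliser in the fixed group. -/
theorem Fx2_fix0 {y : Gq} (hy : φ₂ y = y) : Phi y 0 = 0 := by
  have h0 : pc 0 = 0 := by decide +kernel
  have hc := AA_lt hy (c := 0) (by norm_num)
  suffices AA y 0 = 0 by
    have h1 := pc_AA hy (c := 0) (by norm_num)
    rw [this, h0] at h1
    exact h1.symm
  by_contra hne
  have h1 := allN_spec c_nd hc
  have h2 : Nat.beq (AA y 0) 0 = false := by
    rw [Bool.eq_false_iff]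
    intro h
    exact hne (beq_true h)
  rw [h2, Bool.false_or, List.any_eq_true] at h1
  obtain ⟨d, hd, hs⟩ := h1
  have hd64 : d < 64 := by
    simp only [List.mem_cons, List.not_mem_nil, or_false] at hd
    rcases hd with rfl | rfl | rfl | rfl | rfl | rfl <;> norm_num
  have hi : φ₂ y⁻¹ = y⁻¹ := by rw [map_inv, hy]
  have h3 := AA_form hy (c := 0) (d := AA y⁻¹ d) (by norm_num) (AA_lt hi hd64)
  rw [← AA_mul hi hd64, mul_inv_cancel, AA_one hd64, hs, sB_zero] at h3
  exact absurd h3 (by simp)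

theorem Fx2_comm {y : Gq} (hy : φ₂ y = y) : y * aa = aa * y := comm_of_fix aa_pq (Fx2_fix0 hy)

theorem φ₂_apply (y : Gq) : φ₂ y = σ₀ (aa * y * aa⁻¹) := rfl

theorem Fx2_σ₀ {y : Gq} (hy : φ₂ y = y) : σ₀ y = y := by
  have h1 := Fx2_comm hy
  rw [φ₂_apply] at hy
  have h2 : aa * y * aa⁻¹ = y := by rw [← h1]; group
  rwa [h2] at hy

/-- The fixed points of the second involution. -/
theorem fix2_iff (g : Gq) : φ₂ g = g ↔ g ∈ fixS σ₀ ⊓ Subgroup.centralizer ({aa} : Set Gq) := by
  rw [Subgroup.mem_inf, mem_fixS, Subgroup.mem_centralizer_singleton_iff]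
  constructor
  · intro h
    exact ⟨Fx2_σ₀ h, Fx2_comm h⟩
  · rintro ⟨h1, h2⟩
    rw [φ₂_apply]
    have h3 : aa * g * aa⁻¹ = g := by
      rw [← h2]
      group
    rw [h3, h1]

theorem Fx2_eq : Fx2 = fixS σ₀ ⊓ Subgroup.centralizer ({aa} : Set Gq) := by
  ext g
  exact fix2_iff g

/-! ### The complement -/

/-- The complement: generated by the products. -/
noncomputable def Y1 : Subgroup Gq := Subgroup.closure ((fun c => Tp c * aa) '' Set.Iio 64)

theorem gen_mem {c : ℕ} (hc : c < 64) : Tp c * aa ∈ Y1 := Subgroup.subset_closure ⟨c, hc, rfl⟩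

theorem Y1_le : Y1 ≤ Fx2 := by
  rw [Y1, Subgroup.closure_le]
  rintro _ ⟨c, hc, rfl⟩
  exact Fx2.mul_mem (Tp_mem hc) aa_mem

theorem aa_eq : aa = evL Lt [9] := rfl

theorem gen_word (c : ℕ) : Tp c * aa = evL Lt (Tw c ++ [9]) := by
  rw [evL_append]
  rfl

theorem gen_sq {c : ℕ} (hc : c < 64) : (Tp c * aa) * (Tp c * aa) = 1 := by
  have h1 := sq_Tp hc
  have h2 : aa * aa = 1 := by
    rw [← Tp_zero]
    exact sq_Tp (by norm_num)
  have h3 : aa * Tp c = Tp c * aa := (Fx2_comm (Tp_mem hc)).symm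
  calc (Tp c * aa) * (Tp c * aa) = Tp c * (aa * Tp c) * aa := by group
    _ = Tp c * Tp c * (aa * aa) := by rw [h3]; group
    _ = 1 := by rw [h1, h2, one_mul]

theorem d2_parts {j : ℕ} (hj : j < 120) : ix2 (d2 j) = j ∧ d2 j < 3510 := by
  have h := allN_spec c_d2 hj
  simp only [Bool.and_eq_true] at h
  exact ⟨beq_true h.1, blt_true h.2⟩

theorem gen_D2 {c : ℕ} (hc : c < 64) {q : ℕ} (hq : inD2 q = true) : inD2 (Phi (Tp c * aa) q) = true := by
  unfold inD2 at hq
  simp only [Bool.and_eq_true] at hq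
  have hj := blt_true hq.1
  have hqe := beq_true hq.2
  have h1 := allN_spec (allN_spec c_d2g hc) hj
  rw [gen_word, ← hqe, H.ev_eq _ (d2_parts hj).2]
  exact h1

theorem Y1_D2 {y : Gq} (hy : y ∈ Y1) : ∀ q, inD2 q = true ↔ inD2 (Phi y q) = true := by
  induction hy using Subgroup.closure_induction with
  | mem x hx =>
    obtain ⟨c, hc, rfl⟩ := hx
    intro q
    constructor
    · exact gen_D2 hc
    · intro h
      have h1 := gen_D2 hc h
      have h2 : Phi (Tp c * aa) (Phi (Tp c * aa) q) = q := by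
        rw [← Equiv.Perm.mul_apply, ← map_mul, gen_sq hc, map_one]
        rfl
      rwa [h2] at h1
  | one =>
    intro q
    simp
  | mul a b _ _ ha hb =>
    intro q
    rw [hb q, ha (Phi b q), map_mul, Equiv.Perm.mul_apply]
  | inv a _ ha =>
    intro q
    have h1 := ha (Phi a⁻¹ q)
    have h2 : Phi a (Phi a⁻¹ q) = q := by
      rw [map_inv]
      simp
    rw [h2] at h1
    exact h1.symm

theorem aa_not_Y1 : aa ∉ Y1 := by
  intro h
  have h1 := Y1_D2 h (d2 0)
  have h2 : inD2 (d2 0) = true := by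
    have hp := d2_parts (j := 0) (by norm_num)
    unfold inD2
    rw [hp.1]
    decide +kernel
  have h3 := h1.1 h2
  have h4 : Phi aa (d2 0) = ev ap [9] (d2 0) := H.ev_eq [9] (d2_parts (j := 0) (by norm_num)).2
  rw [h4, c_d2a] at h3
  exact absurd h3 (by simp)

/-- The homomorphism on the complement. -/
noncomputable def rho1 : ↥Y1 →* Sp6 := rho.comp (Subgroup.inclusion Y1_le)

theorem rho1_gen {c : ℕ} (hc : c < 64) : rho1 ⟨Tp c * aa, gen_mem hc⟩ = T (toV c) := by
  show rho ⟨Tp c * aa, _⟩ = _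
  have e : (⟨Tp c * aa, Y1_le (gen_mem hc)⟩ : ↥Fx2) = ⟨Tp c, Tp_mem hc⟩ * ⟨aa, aa_mem⟩ := rfl
  rw [e, map_mul, rho_Tp hc, rho_aa, mul_one]

theorem rho1_surj : Function.Surjective rho1 := by
  rw [← MonoidHom.range_eq_top]
  apply T_generate
  intro v _
  refine ⟨⟨Tp (num v) * aa, gen_mem (num_lt v)⟩, ?_⟩
  rw [rho1_gen (num_lt v), toV_num]

theorem rho1_inj : Function.Injective rho1 := by
  rw [injective_iff_map_eq_one]
  intro y hy
  rcases ker_rho (y := Subgroup.inclusion Y1_le y) hy with h | h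
  · exact Subtype.ext h
  · exfalso
    apply aa_not_Y1
    have h1 : (y : Gq) = aa := h
    rw [← h1]
    exact y.2

/-- The complement is the symplectic group. -/
noncomputable def Y1E : ↥Y1 ≃* Sp6 := MulEquiv.ofBijective rho1 ⟨rho1_inj, rho1_surj⟩

/-- The involution of the central factor. -/
noncomputable def zElt (z : ZMod 2) : ↥Fx2 := if z = 0 then 1 else ⟨aa, aa_mem⟩

theorem aa_sq : aa * aa = 1 := by
  rw [← Tp_zero]
  exact sq_Tp (by norm_num)

theorem zElt_add (z w : ZMod 2) : zElt (z + w) = zElt z * zElt w := by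
  have e1 : (1 : ZMod 2) ≠ 0 := by decide
  have e2 : (1 + 1 : ZMod 2) = 0 := by decide
  rcases zmod2_cases z with rfl | rfl <;> rcases zmod2_cases w with rfl | rfl
  · simp [zElt]
  · simp [zElt]
  · simp [zElt]
  · simp only [zElt, e2, if_true, if_neg e1]
    apply Subtype.ext
    exact aa_sq.symm

theorem zElt_comm (z : ZMod 2) (y : ↥Fx2) : zElt z * y = y * zElt z := by
  rcases zmod2_cases z with rfl | rfl
  · simp [zElt]
  · have e1 : (1 : ZMod 2) ≠ 0 := by decide
    simp only [zElt, if_neg e1]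
    apply Subtype.ext
    exact (Fx2_comm y.2).symm

/-- The map from the direct product. -/
noncomputable def prodHom : Multiplicative (ZMod 2) × ↥Y1 →* ↥Fx2 where
  toFun p := zElt (Multiplicative.toAdd p.1) * Subgroup.inclusion Y1_le p.2
  map_one' := by
    simp [zElt]
  map_mul' p p' := by
    simp only [Prod.fst_mul, Prod.snd_mul, toAdd_mul, zElt_add, map_mul]
    have := zElt_comm (Multiplicative.toAdd p'.1) (Subgroup.inclusion Y1_le p.2)
    calc _ = zElt (Multiplicative.toAdd p.1) * (zElt (Multiplicative.toAdd p'.1) * Subgroup.inclusion Y1_le p.2) *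
          Subgroup.inclusion Y1_le p'.2 := by group
      _ = _ := by rw [this]; group

theorem prodHom_bij : Function.Bijective prodHom := by
  have e1 : (1 : ZMod 2) ≠ 0 := by decide
  constructor
  · rw [injective_iff_map_eq_one]
    rintro ⟨z, y⟩ h
    have h' : zElt (Multiplicative.toAdd z) * Subgroup.inclusion Y1_le y = 1 := h
    rcases zmod2_cases (Multiplicative.toAdd z) with hz | hz
    · rw [hz] at h'
      simp only [zElt, if_true, one_mul] at h'
      have hy : y = 1 := by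
        apply Subtype.ext
        have h'' : ((Subgroup.inclusion Y1_le y : ↥Fx2) : Gq) = ((1 : ↥Fx2) : Gq) := congrArg Subtype.val h'
        exact h''
      have hz' : z = 1 := hz
      rw [hy, hz']
      rfl
    · exfalso
      rw [hz] at h'
      simp only [zElt, if_neg e1] at h'
      have h2 : aa * (y : Gq) = 1 := congrArg Subtype.val h'
      apply aa_not_Y1
      have h3 : aa = (y : Gq)⁻¹ := eq_inv_of_mul_eq_one_left h2
      rw [h3]
      exact Y1.inv_mem y.2
  · intro y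
    obtain ⟨y1, hy1⟩ := rho1_surj (rho y)
    have h1 : rho (y * (Subgroup.inclusion Y1_le y1)⁻¹) = 1 := by
      rw [map_mul, map_inv]
      have : rho (Subgroup.inclusion Y1_le y1) = rho y := hy1
      rw [this, mul_inv_cancel]
    rcases ker_rho h1 with h | h
    · refine ⟨(1, y1), ?_⟩
      have h2 : y = Subgroup.inclusion Y1_le y1 := by
        have h3 : y * (Subgroup.inclusion Y1_le y1)⁻¹ = 1 := Subtype.ext h
        exact mul_inv_eq_one.mp h3
      show zElt 0 * _ = y
      simp only [zElt, if_true, one_mul]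
      exact h2.symm
    · refine ⟨(Multiplicative.ofAdd 1, y1), ?_⟩
      show zElt 1 * _ = y
      simp only [zElt, if_neg e1]
      have h3 : y * (Subgroup.inclusion Y1_le y1)⁻¹ = ⟨aa, aa_mem⟩ := Subtype.ext h
      rw [← h3]
      group

/-- The structure of the fixed group of the second involution. -/
noncomputable def Fx2E : ↥Fx2 ≃* Multiplicative (ZMod 2) × Cfsg.PSp 3 (ZMod 2) :=
  (MulEquiv.ofBijective prodHom prodHom_bij).symm.trans
    (MulEquiv.prodCongr (MulEquiv.refl _) (Y1E.trans pspE2.symm))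

theorem card_Sp6 : Nat.card Sp6 = 1451520 := by
  have h2 := Cfsg.Agent.Lib.SpOrder.card_Sp (F := ZMod 2) 3
  rw [ZMod.card] at h2
  simp only [Finset.prod_range_succ, Finset.prod_range_zero] at h2
  norm_num at h2
  exact h2

theorem card_Fx2 : Nat.card ↥Fx2 = 2903040 := by
  have h1 := Nat.card_congr (MulEquiv.ofBijective prodHom prodHom_bij).toEquiv
  have h2 := Nat.card_congr Y1E.toEquiv
  rw [← h1, Nat.card_prod, h2, card_Sp6]
  have : Nat.card (Multiplicative (ZMod 2)) = 2 := by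
    rw [Nat.card_congr Multiplicative.toAdd]
    simp
  rw [this]

end Cfsg.Agent.Lib.Fi22Ou
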