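import Mathlib
import Cfsg.Agent.Lib.Fi22OuC0
import Cfsg.Agent.Lib.Fi22OuA0
import Cfsg.Agent.Lib.F22A27N
import Cfsg.Agent.S5405

/-!
# The fixed points of the outer involution `σ₀ * conj (aa * bb)` : checks
-/

set_option autoImplicit false
set_option maxRecDepth 1000000
set_option linter.all false

namespace Cfsg.Agent.Lib.Fi22Ou

open Cfsg.Agent.Lib.OutTree36 Cfsg.Agent.Lib.TcBits Cfsg.Agent.Lib.TcPres Cfsg.Agent.Lib.PresChain36
open Cfsg.Agent.TcData.Fi22.I3510 Cfsg.Agent.TcData.Fi22 Cfsg.Agent.TcChain36.Fi22 Cfsg.Agent.TcChain36.Out.Fi22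
open Cfsg.Agent.Lib.Fi22K
open Cfsg.Agent.Lib.F22A27 (fx lam)
open Cfsg.Agent.S5405 (qn6 pol6)

/-- The points. -/
def p3 (k : ℕ) : ℕ := tget 12 p3T k
/-- The labels. -/
def vk (k : ℕ) : ℕ := tget 6 vkT k
/-- The indices. -/
def kx (q : ℕ) : ℕ := tget 7 kxT q
/-- The words. -/
def wk (k : ℕ) : List ℕ := wkL.getD k []
/-- The words of the transpositions. -/
def Tw3 (k : ℕ) : List ℕ := trW (wk k)
/-- The factorizations. -/
def fa (c : ℕ) : ℕ := tget 12 faT c
/-- The factorizations. -/
def fb (c : ℕ) : ℕ := tget 12 fbT c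
/-- The factorizations. -/
def wfa (c : ℕ) : List ℕ := wfaL.getD c []
/-- The factorizations. -/
def wfb (c : ℕ) : List ℕ := wfbL.getD c []
/-- The words of the basis. -/
def bW (j : ℕ) : List ℕ := bWL.getD j []
/-- The word of a code. -/
def nW : ℕ → ℕ → List ℕ
  | 0, _ => []
  | m + 1, c => nW m c ++ (bif c.testBit m then bW m else [])
/-- The code in the regular orbit. -/
def oI (q : ℕ) : ℕ := tget 7 oIT q
/-- Differences. -/
def dk1 (c : ℕ) : ℕ := tget 7 dk1T c
/-- Differences. -/
def dk2 (c : ℕ) : ℕ := tget 7 dk2T c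
/-- The point map. -/
noncomputable def pi3 (q : ℕ) : ℕ := ev ap [9, 11] (sZ q)
/-- The reflection in codes. -/
def rf (v c : ℕ) : ℕ := bif pol6 c v then c ^^^ v else c

set_option Elab.async false in
theorem c3_p : allN 72 (fun k => Nat.blt (p3 k) 3510 && Nat.beq (pi3 (p3 k)) (p3 k) && Nat.beq (kx (p3 k)) k &&
    Nat.beq (ev ap (wk k) 0) (p3 k) && Nat.blt (vk k) 64 && Nat.beq (vk (k ^^^ 1)) (vk k) && Nat.blt (k ^^^ 1) 72 &&
    !(Nat.beq (k ^^^ 1) k)) = true := by decide +kernel

set_option Elab.async false in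
theorem c3_F : allR (fun q => !(Nat.blt q 3510) || !(Nat.beq (pi3 q) q) || (Nat.beq (p3 (kx q)) q && Nat.blt (kx q) 72)) 12 0 = true := by
  decide +kernel

/-- The check of the labels. -/
def labOK (q k l : ℕ) : Bool :=
  Nat.beq (p3 (kx q)) q && Nat.blt (kx q) 72 && Nat.beq (vk (kx q)) (rf (vk k) (vk l)) &&
    (Nat.beq q (p3 l) == !(pol6 (vk k) (vk l)))

set_option Elab.async false in
theorem c3_lab : allN 72 (fun k => allN 72 (fun l => labOK (ev ap (Tw3 k) (p3 l)) k l)) = true := by decide +kernel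

set_option Elab.async false in
theorem c3_vinj : allN 72 (fun k => allN 72 (fun l => !(Nat.beq (vk k) (vk l)) || Nat.beq l k || Nat.beq l (k ^^^ 1))) = true := by
  decide +kernel

set_option Elab.async false in
theorem c3_nd : allN 64 (fun c => Nat.beq c 0 || (List.range 72).any (fun l => pol6 c (vk l))) = true := by decide +kernel

set_option Elab.async false in
theorem c3_q : allN 64 (fun c => !(qn6 c) || (List.range 72).any (fun l => Nat.beq (vk l) c)) = true := by decide +kernel

set_option Elab.async false in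
theorem c3_qv : allN 72 (fun l => qn6 (vk l)) = true := by decide +kernel

set_option Elab.async false in
theorem c3_dec : allN 64 (fun c => Nat.blt (dk1 c) 72 && Nat.blt (dk2 c) 72 && Nat.beq (vk (dk1 c) ^^^ vk (dk2 c)) c) = true := by
  decide +kernel

set_option Elab.async false in
theorem c3_diam : allN 72 (fun l => allN 72 (fun m => (List.range 72).any (fun t => pol6 (vk l) (vk t) && pol6 (vk t) (vk m)))) = true := by
  decide +kernel

set_option Elab.async false in
theorem c3_bc : allN 6 (fun j => allN 6 (fun k => isOne ap bsL (bW j ++ bW k ++ invW iv (bW j) ++ invW iv (bW k)))) = true := by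
  decide +kernel

set_option Elab.async false in
theorem c3_bs : allN 6 (fun j => isOne ap bsL (bW j ++ bW j)) = true := by decide +kernel

set_option Elab.async false in
theorem c3_ne : allN 64 (fun c => Nat.beq c 0 || !(isOne ap bsL (nW 6 c))) = true := by decide +kernel

set_option Elab.async false in
theorem c3_pr : allN 72 (fun k => isOne ap bsL (Tw3 k ++ Tw3 (k ^^^ 1) ++ invW iv (nW 6 (vk k)))) = true := by decide +kernel

/-- The check of a factorization. -/
noncomputable def facOK (c : ℕ) : Bool :=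
  isOne ap bsL (nW 6 c ++ invW iv (trW (wfa c) ++ trW (wfb c))) && !(Nat.beq (fa c) (fb c)) && fx (trW (wfa c)) (fb c) &&
    Nat.beq (ev ap (wfa c) 0) (fa c) && Nat.beq (ev ap (wfb c) 0) (fb c) && Nat.blt (fa c) 3510 && Nat.blt (fb c) 3510

set_option Elab.async false in
theorem c3_fac : CLL.all facOK = true := by decide +kernel

/-- The count of a pattern. -/
noncomputable def ncnt (c q : ℕ) : ℕ := (bif fx (trW (wfa c)) q then 1 else 0) + (bif fx (trW (wfb c)) q then 1 else 0)

set_option Elab.async false in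
theorem c3_pat : allR (fun q => !(Nat.blt q 3510) || !(CLL.all (fun c => Nat.beq (ncnt c q) (ncnt c 1))) ||
    (Nat.beq (ev ap (nW 6 (oI q)) 1) q && Nat.blt (oI q) 64)) 12 0 = true := by decide +kernel

set_option Elab.async false in
theorem c3_w1 : ev ap w1L 0 = 1 := by decide +kernel

/-- The check of a derivation. -/
noncomputable def derOK (q : ℕ) : List ℕ → Bool
  | [c] => Nat.blt c 64 && Nat.beq (ev ap (nW 6 c) 1) q
  | [r, x] => Nat.blt r 64 && Nat.blt x 64 && Nat.beq (ev ap (trW (nW 6 r ++ w1L)) (ev ap (nW 6 x) 1)) q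
  | _ => false

set_option Elab.async false in
theorem c3_der : allN 120 (fun i => derOK (ev ap [5, 6] (lam i)) (derL.getD i [])) = true := by decide +kernel

end Cfsg.Agent.Lib.Fi22Ou
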