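import Mathlib
import Cfsg.Agent.Lib.Fi22OuC1
import Cfsg.Agent.Lib.Fi22OuB2

/-!
# The fixed points of the outer involution `σ₀ * conj (aa * bb)`: the action on the elementary abelian normal subgroup
-/

set_option autoImplicit false
set_option maxRecDepth 1000000
set_option linter.all false

namespace Cfsg.Agent.Lib.Fi22Ou

open Cfsg.Agent.Lib.OutTree36 Cfsg.Agent.Lib.TcBits Cfsg.Agent.Lib.TcPres Cfsg.Agent.Lib.PresChain36
open Cfsg.Agent.TcData.Fi22.I3510 Cfsg.Agent.TcData.Fi22 Cfsg.Agent.TcChain36.Fi22 Cfsg.Agent.TcChain36.Out.Fi22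
open Cfsg.Agent.Lib.Fi22K
open Cfsg.Agent.Lib.F22A27 (fx lam phi_comm comm_evL phi_word fx_image lam_lt eq_one_of_lam)
open Cfsg.Agent.S5405 (qn6 pol6 e6 hq6 hpol6 chk6e)
open Cfsg.Agent.Lib.H1Bits (enc enc_xor enc_zero enc_surj enc_inj refl_enc T phi phi_xor phi_and phi_inj phi_ne_zero nondeg_of_chk5 of_any_range)
open Cfsg.Agent.Lib.OrthGroup (O refl G B O_le_G)
open Cfsg.Agent.Lib.OrthoCount (qMinus qMinus_apply)

/-- The third involution. -/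
noncomputable abbrev φ₃ : MulAut Gq := σ₀ * MulAut.conj (aa * bb)

theorem φ₃_eq : φ₃ = MulAut.conj (evL Lt [9, 11]) * σ₀ := by
  have h : evL Lt [9, 11] = aa * bb := rW2
  rw [h]
  exact mul_σ₀_eq σ₀_ab

theorem pq3 {y : Gq} {p : ℕ} (hy : Pq y p) : Pq (φ₃ y) (pi3 p) := by
  rw [φ₃_eq]
  exact pq_word [9, 11] hy

theorem p3_parts {k : ℕ} (hk : k < 72) : p3 k < 3510 ∧ pi3 (p3 k) = p3 k ∧ kx (p3 k) = k ∧ ev ap (wk k) 0 = p3 k ∧
    vk k < 64 ∧ vk (k ^^^ 1) = vk k ∧ k ^^^ 1 < 72 ∧ k ^^^ 1 ≠ k := by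
  have h := allN_spec c3_p hk
  simp only [Bool.and_eq_true] at h
  obtain ⟨⟨⟨⟨⟨⟨⟨h1, h2⟩, h3⟩, h4⟩, h5⟩, h6⟩, h7⟩, h8⟩ := h
  refine ⟨blt_true h1, beq_true h2, beq_true h3, beq_true h4, blt_true h5, beq_true h6, blt_true h7, ?_⟩
  intro h9
  rw [h9, Nat.beq_refl] at h8
  simp at h8

theorem p3_lt {k : ℕ} (hk : k < 72) : p3 k < 3510 := (p3_parts hk).1
theorem kx_p3 {k : ℕ} (hk : k < 72) : kx (p3 k) = k := (p3_parts hk).2.2.1
theorem vk_lt {k : ℕ} (hk : k < 72) : vk k < 64 := (p3_parts hk).2.2.2.2.1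

theorem F3_p3 {q : ℕ} (hq : q < 3510) (h : pi3 q = q) : p3 (kx q) = q ∧ kx q < 72 := by
  have h1 := allR_spec _ 0 c3_F q (Nat.zero_le _) (by norm_num; omega)
  have h2 : Nat.blt q 3510 = true := Nat.ble_eq_true_of_le hq
  have h3 : Nat.beq (pi3 q) q = true := by rw [h, Nat.beq_refl]
  rw [h2, h3] at h1
  simp only [Bool.not_true, Bool.false_or, Bool.and_eq_true] at h1
  exact ⟨beq_true h1.1, blt_true h1.2⟩

/-- The transpositions. -/
noncomputable def Tz (k : ℕ) : Gq := evL Lt (Tw3 k)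

theorem Tz_pq {k : ℕ} (hk : k < 72) : Pq (Tz k) (p3 k) := by
  unfold Tz Tw3
  rw [evL_trW, ← (p3_parts hk).2.2.2.1]
  exact trq_pq _

theorem lab_parts {k l : ℕ} (hk : k < 72) (hl : l < 72) :
    p3 (kx (Phi (Tz k) (p3 l))) = Phi (Tz k) (p3 l) ∧ kx (Phi (Tz k) (p3 l)) < 72 ∧
      vk (kx (Phi (Tz k) (p3 l))) = rf (vk k) (vk l) ∧ (Phi (Tz k) (p3 l) = p3 l ↔ pol6 (vk k) (vk l) = false) := by
  have h := allN_spec (allN_spec c3_lab hk) hl
  have e : Phi (Tz k) (p3 l) = ev ap (Tw3 k) (p3 l) := H.ev_eq _ (p3_lt hl)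
  rw [e]
  unfold labOK at h
  simp only [Bool.and_eq_true] at h
  obtain ⟨⟨⟨h1, h2⟩, h3⟩, h4⟩ := h
  refine ⟨beq_true h1, blt_true h2, beq_true h3, ?_⟩
  have h5 : Nat.beq (ev ap (Tw3 k) (p3 l)) (p3 l) = !(pol6 (vk k) (vk l)) := by
    simpa using h4
  constructor
  · intro h6
    rw [h6, Nat.beq_refl] at h5
    cases hp : pol6 (vk k) (vk l)
    · rfl
    · rw [hp] at h5
      simp at h5
  · intro h6
    rw [h6] at h5
    exact beq_true h5

theorem comm_Tz {k l : ℕ} (hk : k < 72) (hl : l < 72) : Tz k * Tz l = Tz l * Tz k ↔ pol6 (vk k) (vk l) = false := by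
  rw [comm_iff_fix (Tz_pq hk) (Tz_pq hl)]
  exact (lab_parts hk hl).2.2.2

/-- The action on the fixed points. -/
noncomputable def AZ (y : Gq) (k : ℕ) : ℕ := kx (Phi y (p3 k))

theorem pol6_xor (a b d : ℕ) : pol6 (a ^^^ b) d = xor (pol6 a d) (pol6 b d) := by
  apply phi_inj
  simp only [pol6, Nat.testBit_xor, phi_xor, phi_and]
  ring

theorem pol6_zero (d : ℕ) : pol6 0 d = false := by
  simp [pol6]

theorem xor_lt64 {a b : ℕ} (ha : a < 64) (hb : b < 64) : a ^^^ b < 64 :=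
  Nat.xor_lt_two_pow (n := 6) ha hb

section fx3

variable {y y' : Gq}

theorem fix_F3 (hy : φ₃ y = y) {q : ℕ} (hq : q < 3510) (h : pi3 q = q) : pi3 (Phi y q) = Phi y q := by
  obtain ⟨x, hx⟩ := exists_of_lt hq
  have h1 : φ₃ x = x := by
    have := pq3 hx
    rw [h] at this
    exact pq_inj this hx
  have h2 := pq_conj hx y
  have h3 : φ₃ (y * x * y⁻¹) = y * x * y⁻¹ := by
    rw [map_mul, map_mul, map_inv, hy, h1]
  have h4 := pq3 h2
  rw [h3] at h4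
  exact pq_uniq h4 h2

theorem pi3_p3 {k : ℕ} (hk : k < 72) : pi3 (p3 k) = p3 k := (p3_parts hk).2.1

theorem p3_AZ (hy : φ₃ y = y) {k : ℕ} (hk : k < 72) : p3 (AZ y k) = Phi y (p3 k) :=
  (F3_p3 (bd _ _ (p3_lt hk)) (fix_F3 hy (p3_lt hk) (pi3_p3 hk))).1

theorem AZ_lt (hy : φ₃ y = y) {k : ℕ} (hk : k < 72) : AZ y k < 72 :=
  (F3_p3 (bd _ _ (p3_lt hk)) (fix_F3 hy (p3_lt hk) (pi3_p3 hk))).2

theorem Tz_conj (hy : φ₃ y = y) {k : ℕ} (hk : k < 72) : y * Tz k * y⁻¹ = Tz (AZ y k) := by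
  have h1 := pq_conj (Tz_pq hk) y
  rw [← p3_AZ hy hk] at h1
  exact pq_inj h1 (Tz_pq (AZ_lt hy hk))

theorem AZ_form (hy : φ₃ y = y) {k l : ℕ} (hk : k < 72) (hl : l < 72) :
    pol6 (vk (AZ y k)) (vk (AZ y l)) = pol6 (vk k) (vk l) := by
  have h1 : (Tz (AZ y k) * Tz (AZ y l) = Tz (AZ y l) * Tz (AZ y k)) ↔ (Tz k * Tz l = Tz l * Tz k) := by
    rw [← Tz_conj hy hk, ← Tz_conj hy hl]
    constructor
    · intro h
      have h2 : y * (Tz k * Tz l) * y⁻¹ = y * (Tz l * Tz k) * y⁻¹ := by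
        calc y * (Tz k * Tz l) * y⁻¹ = y * Tz k * y⁻¹ * (y * Tz l * y⁻¹) := by group
          _ = y * Tz l * y⁻¹ * (y * Tz k * y⁻¹) := h
          _ = _ := by group
      exact mul_left_cancel (mul_right_cancel h2)
    · intro h
      calc y * Tz k * y⁻¹ * (y * Tz l * y⁻¹) = y * (Tz k * Tz l) * y⁻¹ := by group
        _ = y * (Tz l * Tz k) * y⁻¹ := by rw [h]
        _ = _ := by group
  rw [comm_Tz (AZ_lt hy hk) (AZ_lt hy hl), comm_Tz hk hl] at h1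
  cases h2 : pol6 (vk (AZ y k)) (vk (AZ y l)) <;> cases h3 : pol6 (vk k) (vk l) <;> simp [h2, h3] at h1 ⊢

theorem AZ_mul (hy' : φ₃ y' = y') {k : ℕ} (hk : k < 72) : AZ (y * y') k = AZ y (AZ y' k) := by
  unfold AZ
  rw [map_mul, Equiv.Perm.mul_apply]
  have := p3_AZ hy' hk
  unfold AZ at this
  rw [this]

theorem AZ_one {k : ℕ} (hk : k < 72) : AZ 1 k = k := by
  unfold AZ
  rw [map_one]
  exact kx_p3 hk

theorem AZ_inj (hy : φ₃ y = y) {k l : ℕ} (hk : k < 72) (hl : l < 72) (h : AZ y k = AZ y l) : k = l := by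
  have h1 : Phi y (p3 k) = Phi y (p3 l) := by
    rw [← p3_AZ hy hk, ← p3_AZ hy hl, h]
  have h2 := (Phi y).injective h1
  rw [← kx_p3 hk, ← kx_p3 hl, h2]

/-- The pair of a fixed point is mapped to a pair. -/
theorem vk_AZ (hy : φ₃ y = y) {k : ℕ} (hk : k < 72) : vk (AZ y (k ^^^ 1)) = vk (AZ y k) := by
  have hk1 := (p3_parts hk).2.2.2.2.2.2.1
  have hi : φ₃ y⁻¹ = y⁻¹ := by rw [map_inv, hy]
  have hv : vk (k ^^^ 1) = vk k := (p3_parts hk).2.2.2.2.2.1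
  have hc : vk (AZ y (k ^^^ 1)) ^^^ vk (AZ y k) < 64 := xor_lt64 (vk_lt (AZ_lt hy hk1)) (vk_lt (AZ_lt hy hk))
  by_contra hne
  have h1 := allN_spec c3_nd hc
  have h2 : Nat.beq (vk (AZ y (k ^^^ 1)) ^^^ vk (AZ y k)) 0 = false := by
    rw [Bool.eq_false_iff]
    intro h
    apply hne
    have := beq_true h
    exact Nat.eq_of_xor_eq_zero this
  rw [h2, Bool.false_or] at h1
  obtain ⟨l, hl, h3⟩ := of_any_range h1
  have h4 : AZ y (AZ y⁻¹ l) = l := by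
    rw [← AZ_mul hi hl, mul_inv_cancel, AZ_one hl]
  rw [pol6_xor, ← h4, AZ_form hy hk1 (AZ_lt hi hl), AZ_form hy hk (AZ_lt hi hl), hv] at h3
  simp at h3

theorem AZ_pair (hy : φ₃ y = y) {k : ℕ} (hk : k < 72) : AZ y (k ^^^ 1) = AZ y k ^^^ 1 := by
  have hk1 := (p3_parts hk).2.2.2.2.2.2.1
  have h1 := allN_spec (allN_spec c3_vinj (AZ_lt hy hk)) (AZ_lt hy hk1)
  rw [(vk_AZ hy hk).symm, Nat.beq_refl] at h1
  simp only [Bool.not_true, Bool.false_or, Bool.or_eq_true] at h1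
  rcases h1 with h1 | h1
  · exfalso
    have := AZ_inj hy hk1 hk (beq_true h1)
    exact (p3_parts hk).2.2.2.2.2.2.2 this
  · exact beq_true h1

end fx3

/-! ### The subgroup -/

/-- The basis. -/
noncomputable def bE (j : ℕ) : Gq := evL Lt (bW j)

/-- The elements. -/
noncomputable def oE (c : ℕ) : Gq := nu bE 6 c

theorem bE_sq : ∀ j, j < 6 → bE j * bE j = 1 := by
  intro j hj
  have h := evL_eq_one (allN_spec c3_bs hj)
  rwa [evL_append] at h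

theorem bE_inv {j : ℕ} (hj : j < 6) : (bE j)⁻¹ = bE j := inv_eq_of_mul_eq_one_left (bE_sq j hj)

theorem bE_comm : ∀ k l, k < 6 → l < 6 → bE k * bE l = bE l * bE k := by
  intro k l hk hl
  have h := evL_eq_one (allN_spec (allN_spec c3_bc hk) hl)
  rw [evL_append, evL_append, evL_append, evL_invW hiv, evL_invW hiv] at h
  have h' : bE k * bE l * (bE k)⁻¹ * (bE l)⁻¹ = 1 := h
  calc bE k * bE l = (bE k * bE l * (bE k)⁻¹ * (bE l)⁻¹) * (bE l * bE k) := by group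
    _ = bE l * bE k := by rw [h', one_mul]

theorem oE_xor (c d : ℕ) : oE (c ^^^ d) = oE c * oE d := nu_xor bE_comm bE_sq c d 6 le_rfl

theorem oE_sq (c : ℕ) : oE c * oE c = 1 := nu_inv bE_comm bE_sq c

theorem oE_inv (c : ℕ) : (oE c)⁻¹ = oE c := inv_eq_of_mul_eq_one_left (oE_sq c)

theorem oE_zero : oE 0 = 1 := nu_zero bE 6

theorem oE_comm (c d : ℕ) : oE c * oE d = oE d * oE c := by
  rw [← oE_xor, ← oE_xor, Nat.xor_comm]

theorem evL_nW (m c : ℕ) : evL Lt (nW m c) = nu bE m c := by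
  induction m with
  | zero => rfl
  | succ m ih =>
    simp only [nW, nu, evL_append, ih]
    cases h : c.testBit m
    · simp
    · simp [bE]

theorem oE_word (c : ℕ) : oE c = evL Lt (nW 6 c) := (evL_nW 6 c).symm

theorem oE_ne {c : ℕ} (hc : c < 64) (h0 : c ≠ 0) : oE c ≠ 1 := by
  have h := allN_spec c3_ne hc
  have h2 : Nat.beq c 0 = false := by
    rw [Bool.eq_false_iff]
    intro h
    exact h0 (beq_true h)
  rw [h2, Bool.false_or] at h
  rw [oE_word]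
  exact evL_ne_one h

theorem oE_inj {c d : ℕ} (hc : c < 64) (hd : d < 64) (h : oE c = oE d) : c = d := by
  by_contra hne
  apply oE_ne (xor_lt64 hc hd)
  · intro h0
    exact hne (Nat.eq_of_xor_eq_zero h0)
  · rw [oE_xor, h, oE_sq]

theorem oE_vk {k : ℕ} (hk : k < 72) : Tz k * Tz (k ^^^ 1) = oE (vk k) := by
  have h := evL_eq_one (allN_spec c3_pr hk)
  rw [evL_append, evL_append, evL_invW hiv, ← oE_word] at h
  have h' : Tz k * Tz (k ^^^ 1) * (oE (vk k))⁻¹ = 1 := h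
  exact mul_inv_eq_one.mp h'

/-- The subgroup. -/
noncomputable def O0 : Subgroup Gq where
  carrier := {x | ∃ c, c < 64 ∧ oE c = x}
  mul_mem' := by
    rintro _ _ ⟨c, hc, rfl⟩ ⟨d, hd, rfl⟩
    exact ⟨c ^^^ d, xor_lt64 hc hd, oE_xor c d⟩
  one_mem' := ⟨0, by norm_num, oE_zero⟩
  inv_mem' := by
    rintro _ ⟨c, hc, rfl⟩
    exact ⟨c, hc, (oE_inv c).symm⟩

theorem mem_O0 {x : Gq} : x ∈ O0 ↔ ∃ c, c < 64 ∧ oE c = x := Iff.rfl

theorem card_O0 : Nat.card ↥O0 = 64 := by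
  let f : Fin 64 → ↥O0 := fun c => ⟨oE c.1, c.1, c.2, rfl⟩
  have hf : Function.Bijective f := by
    constructor
    · rintro ⟨c, hc⟩ ⟨d, hd⟩ h
      have h1 : oE c = oE d := congrArg Subtype.val h
      exact Fin.ext (oE_inj hc hd h1)
    · rintro ⟨x, c, hc, rfl⟩
      exact ⟨⟨c, hc⟩, rfl⟩
  rw [← Nat.card_congr (Equiv.ofBijective f hf)]
  simp

theorem ea_O0 : Cfsg.IsElementaryAbelian 2 O0 := by
  refine ⟨⟨⟨?_⟩⟩, ?_⟩
  · rintro ⟨_, c, hc, rfl⟩ ⟨_, d, hd, rfl⟩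
    apply Subtype.ext
    exact oE_comm c d
  · rintro _ ⟨c, hc, rfl⟩
    rw [pow_two, oE_sq]

section fx3'

variable {y y' : Gq}

theorem oE_vk_conj (hy : φ₃ y = y) {k : ℕ} (hk : k < 72) : y * oE (vk k) * y⁻¹ = oE (vk (AZ y k)) := by
  rw [← oE_vk hk, ← oE_vk (AZ_lt hy hk)]
  rw [← AZ_pair hy hk, ← Tz_conj hy hk, ← Tz_conj hy (p3_parts hk).2.2.2.2.2.2.1]
  group

theorem dec_parts {c : ℕ} (hc : c < 64) : dk1 c < 72 ∧ dk2 c < 72 ∧ vk (dk1 c) ^^^ vk (dk2 c) = c := by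
  have h := allN_spec c3_dec hc
  simp only [Bool.and_eq_true] at h
  exact ⟨blt_true h.1.1, blt_true h.1.2, beq_true h.2⟩

theorem oE_conj (hy : φ₃ y = y) {c : ℕ} (hc : c < 64) : ∃ d, d < 64 ∧ oE d = y * oE c * y⁻¹ := by
  obtain ⟨h1, h2, h3⟩ := dec_parts hc
  refine ⟨vk (AZ y (dk1 c)) ^^^ vk (AZ y (dk2 c)), xor_lt64 (vk_lt (AZ_lt hy h1)) (vk_lt (AZ_lt hy h2)), ?_⟩
  conv_rhs => rw [← h3, oE_xor]
  rw [oE_xor, ← oE_vk_conj hy h1, ← oE_vk_conj hy h2]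
  group

/-- The code of an element of the subgroup. -/
noncomputable def dc (g : Gq) : ℕ := by
  classical
  exact if h : ∃ d, d < 64 ∧ oE d = g then Classical.choose h else 0

theorem dc_oE {d : ℕ} (hd : d < 64) : dc (oE d) = d := by
  classical
  have h : ∃ e, e < 64 ∧ oE e = oE d := ⟨d, hd, rfl⟩
  unfold dc
  rw [dif_pos h]
  have hs := Classical.choose_spec h
  exact oE_inj hs.1 hd hs.2

/-- The action on the codes. -/
noncomputable def CZ (y : Gq) (c : ℕ) : ℕ := dc (y * oE c * y⁻¹)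

theorem CZ_spec (hy : φ₃ y = y) {c : ℕ} (hc : c < 64) : CZ y c < 64 ∧ oE (CZ y c) = y * oE c * y⁻¹ := by
  obtain ⟨d, hd, h⟩ := oE_conj hy hc
  unfold CZ
  rw [← h, dc_oE hd]
  exact ⟨hd, rfl⟩

theorem CZ_eq (hy : φ₃ y = y) {c d : ℕ} (hd : d < 64) (h : oE d = y * oE c * y⁻¹) : CZ y c = d := by
  unfold CZ
  rw [← h, dc_oE hd]

theorem CZ_xor (hy : φ₃ y = y) {c c' : ℕ} (hc : c < 64) (hc' : c' < 64) : CZ y (c ^^^ c') = CZ y c ^^^ CZ y c' := by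
  apply CZ_eq hy (xor_lt64 (CZ_spec hy hc).1 (CZ_spec hy hc').1)
  rw [oE_xor, oE_xor, (CZ_spec hy hc).2, (CZ_spec hy hc').2]
  group

theorem CZ_mul (hy : φ₃ y = y) (hy' : φ₃ y' = y') {c : ℕ} (hc : c < 64) : CZ (y * y') c = CZ y (CZ y' c) := by
  have h1 := CZ_spec hy' hc
  have h2 := CZ_spec hy h1.1
  have hm : φ₃ (y * y') = y * y' := by rw [map_mul, hy, hy']
  apply CZ_eq hm h2.1
  rw [h2.2, h1.2]
  group

theorem CZ_one {c : ℕ} (hc : c < 64) : CZ 1 c = c := by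
  have hm : φ₃ (1 : Gq) = 1 := map_one _
  apply CZ_eq hm hc
  group

theorem CZ_vk (hy : φ₃ y = y) {k : ℕ} (hk : k < 72) : CZ y (vk k) = vk (AZ y k) :=
  CZ_eq hy (vk_lt (AZ_lt hy hk)) (oE_vk_conj hy hk).symm

theorem qn_vk {l : ℕ} (hl : l < 72) : qn6 (vk l) = true := allN_spec c3_qv hl

theorem CZ_q_true (hy : φ₃ y = y) {c : ℕ} (hc : c < 64) (h : qn6 c = true) : qn6 (CZ y c) = true := by
  have h1 := allN_spec c3_q hc
  rw [h] at h1
  simp only [Bool.not_true, Bool.false_or] at h1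
  obtain ⟨l, hl, h2⟩ := of_any_range h1
  have h3 := beq_true h2
  rw [← h3, CZ_vk hy hl]
  exact qn_vk (AZ_lt hy hl)

theorem CZ_inv_cancel (hy : φ₃ y = y) {c : ℕ} (hc : c < 64) : CZ y⁻¹ (CZ y c) = c := by
  have hi : φ₃ y⁻¹ = y⁻¹ := by rw [map_inv, hy]
  rw [← CZ_mul hi hy hc, inv_mul_cancel, CZ_one hc]

theorem CZ_q (hy : φ₃ y = y) {c : ℕ} (hc : c < 64) : qn6 (CZ y c) = qn6 c := by
  have hi : φ₃ y⁻¹ = y⁻¹ := by rw [map_inv, hy]
  cases h : qn6 c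
  · cases h2 : qn6 (CZ y c)
    · rfl
    · have h3 := CZ_q_true hi (CZ_spec hy hc).1 h2
      rw [CZ_inv_cancel hy hc, h] at h3
      exact absurd h3 (by simp)
  · exact CZ_q_true hy hc h

end fx3'

/-! ### The vector space -/

/-- The space. -/
abbrev W6 := (Fin 2 ⊕ Fin 2) ⊕ Fin 2 → ZMod 2

/-- The form. -/
noncomputable abbrev QM : QuadraticForm (ZMod 2) W6 := qMinus 2 (1 : ZMod 2) 1

/-- The number of a vector. -/
noncomputable def nE (x : W6) : ℕ := Classical.choose (enc_surj e6 x)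

theorem nE_lt (x : W6) : nE x < 64 := (Classical.choose_spec (enc_surj e6 x)).1

theorem enc_nE (x : W6) : enc e6 (nE x) = x := (Classical.choose_spec (enc_surj e6 x)).2

theorem nE_enc {c : ℕ} (hc : c < 64) : nE (enc e6 c) = c :=
  enc_inj e6 (nE_lt _) hc (enc_nE _)

theorem nE_add (x x' : W6) : nE (x + x') = nE x ^^^ nE x' := by
  apply enc_inj e6 (nE_lt _) (xor_lt64 (nE_lt _) (nE_lt _))
  rw [enc_nE, enc_xor, enc_nE, enc_nE]

/-- The action on vectors. -/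
noncomputable def LO (y : Gq) (x : W6) : W6 := enc e6 (CZ y (nE x))

section lo

variable {y y' : Gq}

theorem LO_add (hy : φ₃ y = y) (x x' : W6) : LO y (x + x') = LO y x + LO y x' := by
  unfold LO
  rw [nE_add, CZ_xor hy (nE_lt _) (nE_lt _), enc_xor]

theorem LO_mul (hy : φ₃ y = y) (hy' : φ₃ y' = y') (x : W6) : LO (y * y') x = LO y (LO y' x) := by
  unfold LO
  rw [nE_enc (CZ_spec hy' (nE_lt _)).1, CZ_mul hy hy' (nE_lt _)]

theorem LO_one (x : W6) : LO 1 x = x := by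
  unfold LO
  rw [CZ_one (nE_lt _), enc_nE]

theorem LO_Q (hy : φ₃ y = y) (x : W6) : QM (LO y x) = QM x := by
  unfold LO
  rw [hq6, CZ_q hy (nE_lt _), ← hq6, enc_nE]

/-- The linear equivalence. -/
noncomputable def LOe (y : Gq) (hy : φ₃ y = y) : W6 ≃ₗ[ZMod 2] W6 :=
  LinearEquiv.ofLinear (AddMonoidHom.toZModLinearMap 2 (AddMonoidHom.mk' (LO y) (LO_add hy)))
    (AddMonoidHom.toZModLinearMap 2 (AddMonoidHom.mk' (LO y⁻¹) (LO_add (by rw [map_inv, hy]))))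
    (by
      apply LinearMap.ext
      intro x
      show LO y (LO y⁻¹ x) = x
      rw [← LO_mul hy (by rw [map_inv, hy]), mul_inv_cancel, LO_one])
    (by
      apply LinearMap.ext
      intro x
      show LO y⁻¹ (LO y x) = x
      rw [← LO_mul (by rw [map_inv, hy]) hy, inv_mul_cancel, LO_one])

theorem LOe_apply (hy : φ₃ y = y) (x : W6) : LOe y hy x = LO y x := rfl

end lo

/-- The fixed subgroup. -/
noncomputable abbrev Fx3 : Subgroup Gq := fixS φ₃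

/-- The homomorphism to the orthogonal group. -/
noncomputable def rhoZ : ↥Fx3 →* ↥(O QM) where
  toFun y := ⟨LOe y y.2, fun v => LO_Q y.2 v⟩
  map_one' := by
    apply Subtype.ext
    apply LinearEquiv.ext
    intro x
    exact LO_one x
  map_mul' y y' := by
    apply Subtype.ext
    apply LinearEquiv.ext
    intro x
    exact LO_mul y.2 y'.2 x

theorem rhoZ_apply (y : ↥Fx3) (x : W6) : ((rhoZ y : ↥(O QM)) : W6 ≃ₗ[ZMod 2] W6) x = LO y x := rfl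

theorem Tz_mem {k : ℕ} (hk : k < 72) : Tz k ∈ Fx3 := by
  have := pq3 (Tz_pq hk)
  rw [pi3_p3 hk] at this
  exact pq_inj this (Tz_pq hk)

theorem Tp_xor (v a b : ℕ) : H1Bits.T pol6 v (a ^^^ b) = H1Bits.T pol6 v a ^^^ H1Bits.T pol6 v b := by
  unfold H1Bits.T
  rw [pol6_xor]
  cases pol6 a v <;> cases pol6 b v <;> simp [Nat.xor_assoc, Nat.xor_comm, Nat.xor_left_comm]

theorem CZ_Tz {k : ℕ} (hk : k < 72) {c : ℕ} (hc : c < 64) : CZ (Tz k) c = H1Bits.T pol6 (vk k) c := by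
  obtain ⟨h1, h2, h3⟩ := dec_parts hc
  have hm := Tz_mem hk
  rw [← h3, CZ_xor hm (vk_lt h1) (vk_lt h2), CZ_vk hm h1, CZ_vk hm h2, Tp_xor]
  have key : ∀ l, l < 72 → vk (AZ (Tz k) l) = H1Bits.T pol6 (vk k) (vk l) := by
    intro l hl
    exact (lab_parts hk hl).2.2.1
  rw [key _ h1, key _ h2]

theorem rhoZ_Tz {k : ℕ} (hk : k < 72) : ((rhoZ ⟨Tz k, Tz_mem hk⟩ : ↥(O QM)) : W6 ≃ₗ[ZMod 2] W6) = refl QM (enc e6 (vk k)) := by
  apply LinearEquiv.ext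
  intro x
  rw [rhoZ_apply]
  show enc e6 (CZ (Tz k) (nE x)) = _
  rw [CZ_Tz hk (nE_lt x)]
  conv_rhs => rw [← enc_nE x]
  rw [refl_enc e6 hq6 hpol6 (qn_vk hk)]

theorem nondegQ : (B QM).Nondegenerate := nondeg_of_chk5 e6 hpol6 chk6e

theorem rhoZ_surj : Function.Surjective rhoZ := by
  rintro ⟨g, hg⟩
  have h1 : g ∈ G QM := O_le_G nondegQ (Or.inr (by simp)) hg
  have h2 : G QM ≤ (rhoZ.range).map (O QM).subtype := by
    unfold G
    rw [Subgroup.closure_le]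
    rintro _ ⟨v, hv, rfl⟩
    have hv' := enc_nE v
    rw [← hv'] at hv ⊢
    rw [hq6] at hv
    have h3 := phi_ne_zero hv
    have h4 := allN_spec c3_q (nE_lt v)
    rw [h3] at h4
    simp only [Bool.not_true, Bool.false_or] at h4
    obtain ⟨l, hl, h5⟩ := of_any_range h4
    have h6 := beq_true h5
    rw [← h6]
    exact ⟨rhoZ ⟨Tz l, Tz_mem hl⟩, ⟨_, rfl⟩, rhoZ_Tz hl⟩
  obtain ⟨x, ⟨y, rfl⟩, hx⟩ := h2 h1
  refine ⟨y, ?_⟩
  apply Subtype.ext
  exact hx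

end Cfsg.Agent.Lib.Fi22Ou
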