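import Mathlib
import Cfsg.Agent.Lib.Fi22OuC2
import Cfsg.Agent.Lib.PCore

/-!
# The fixed points of the outer involution `σ₀ * conj (aa * bb)`: the centralizer, the normal subgroup and the quotient
-/

set_option autoImplicit false
set_option maxRecDepth 1000000
set_option linter.all false

namespace Cfsg.Agent.Lib.Fi22Ou

open Cfsg.Agent.Lib.OutTree36 Cfsg.Agent.Lib.TcBits Cfsg.Agent.Lib.TcPres Cfsg.Agent.Lib.PresChain36
open Cfsg.Agent.TcData.Fi22.I3510 Cfsg.Agent.TcData.Fi22 Cfsg.Agent.TcChain36.Fi22 Cfsg.Agent.TcChain36.Out.Fi22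
open Cfsg.Agent.Lib.Fi22K
open Cfsg.Agent.Lib.F22A27 (fx lam phi_comm comm_evL phi_word fx_image lam_lt eq_one_of_lam)
open Cfsg.Agent.S5405 (qn6 pol6 e6 hq6 hpol6 chk6e)
open Cfsg.Agent.Lib.H1Bits (enc enc_xor enc_zero enc_surj enc_inj refl_enc T phi phi_xor phi_and phi_inj phi_ne_zero nondeg_of_chk5 of_any_range)
open Cfsg.Agent.Lib.OrthGroup (O refl G B O_le_G)
open Cfsg.Agent.Lib.OrthoCount (qMinus qMinus_apply)

/-! ### The centralizer of the subgroup -/

section cent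

/-- The facts about a factorization. -/
theorem fac_parts {c : ℕ} (hc : c ∈ CLL) : oE c = evL Lt (trW (wfa c)) * evL Lt (trW (wfb c)) ∧
    Pq (evL Lt (trW (wfa c))) (fa c) ∧ Pq (evL Lt (trW (wfb c))) (fb c) ∧ fa c ≠ fb c ∧
    evL Lt (trW (wfa c)) * evL Lt (trW (wfb c)) = evL Lt (trW (wfb c)) * evL Lt (trW (wfa c)) := by
  have h := List.all_eq_true.mp c3_fac c hc
  unfold facOK at h
  simp only [Bool.and_eq_true] at h
  obtain ⟨⟨⟨⟨⟨⟨h1, h2⟩, h3⟩, h4⟩, h5⟩, h6⟩, h7⟩ := h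
  have h8 := evL_eq_one h1
  rw [evL_append, evL_invW hiv, evL_append, ← oE_word] at h8
  have hp1 : Pq (evL Lt (trW (wfa c))) (fa c) := by
    rw [evL_trW, ← beq_true h4]
    exact trq_pq _
  have hp2 : Pq (evL Lt (trW (wfb c))) (fb c) := by
    rw [evL_trW, ← beq_true h5]
    exact trq_pq _
  refine ⟨mul_inv_eq_one.mp h8, hp1, hp2, ?_, ?_⟩
  · intro he
    rw [he, Nat.beq_refl] at h2
    simp at h2
  · refine (comm_iff_fix hp1 hp2).2 ?_
    exact (phi_word (blt_true h7)).2 h3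

variable {y : Gq}

/-- An element commuting with the factored element permutes the factors. -/
theorem swap_fac {x x' z : Gq} {p p' : ℕ} (hx : Pq x p) (hx' : Pq x' p') (hne : p ≠ p') (hc : x * x' = x' * x)
    (hz : z * (x * x') = (x * x') * z) :
    (z * x * z⁻¹ = x ∧ z * x' * z⁻¹ = x') ∨ (z * x * z⁻¹ = x' ∧ z * x' * z⁻¹ = x) := by
  have hD := mem_D0_of_pq hx
  have hD' := mem_D0_of_pq hx'
  have hxne : x ≠ x' := by
    rintro rfl
    exact hne (pq_uniq hx hx')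
  have hU := uniq2_of hD hD' hxne hc
  have hF := fac2_of hD hD' hxne hc
  have hF2 := hF.map (MulAut.conj z) (aut_D0 (MulAut.conj z))
  have e : (MulAut.conj z : Gq ≃* Gq) (x * x') = x * x' := by
    show z * (x * x') * z⁻¹ = x * x'
    rw [hz]
    group
  rw [e] at hF2
  have hS := hU _ _ hF2 hF
  have h1 := (hS (z * x * z⁻¹)).1 (by simp [MulAut.conj_apply])
  have h2 := (hS (z * x' * z⁻¹)).1 (by simp [MulAut.conj_apply])
  simp only [List.mem_cons, List.not_mem_nil, or_false] at h1 h2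
  have hinj : z * x * z⁻¹ ≠ z * x' * z⁻¹ := by
    intro h
    apply hxne
    exact mul_left_cancel (mul_right_cancel h)
  rcases h1 with h1 | h1 <;> rcases h2 with h2 | h2
  · exact absurd (h1.trans h2.symm) hinj
  · exact Or.inl ⟨h1, h2⟩
  · exact Or.inr ⟨h1, h2⟩
  · exact absurd (h1.trans h2.symm) hinj

theorem ncnt_inv (hO : ∀ c, c < 64 → y * oE c = oE c * y) {c : ℕ} (hc : c ∈ CLL) {q : ℕ} (hq : q < 3510) :
    ncnt c (Phi y q) = ncnt c q := by
  have hb := List.all_eq_true.mp (by decide +kernel : CLL.all (fun c => Nat.blt c 64) = true) c hc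
  obtain ⟨h1, hp1, hp2, hne, hcm⟩ := fac_parts hc
  set x := evL Lt (trW (wfa c)) with hxd
  set x' := evL Lt (trW (wfb c)) with hxd'
  have hz : y⁻¹ * (x * x') = (x * x') * y⁻¹ := by
    have := hO c (blt_true hb)
    rw [h1] at this
    calc y⁻¹ * (x * x') = y⁻¹ * ((x * x') * y) * y⁻¹ := by group
      _ = y⁻¹ * (y * (x * x')) * y⁻¹ := by rw [this]
      _ = _ := by group
  have hqy : Phi y q < 3510 := bd _ _ hq
  have key : ∀ u w : Gq, y⁻¹ * u * y⁻¹⁻¹ = w → (Phi u (Phi y q) = Phi y q ↔ Phi w q = q) := by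
    intro u w h
    rw [← h, inv_inv, map_mul, map_mul, Equiv.Perm.mul_apply, Equiv.Perm.mul_apply, map_inv]
    constructor
    · intro h2
      rw [h2]
      simp
    · intro h2
      have := congrArg (Phi y) h2
      simpa using this
  have hf : ∀ (a : List ℕ) , (fx a (Phi y q) = true ↔ Phi (evL Lt a) (Phi y q) = Phi y q) := fun a => (phi_word hqy).symm
  have hf' : ∀ (a : List ℕ), (fx a q = true ↔ Phi (evL Lt a) q = q) := fun a => (phi_word hq).symm
  unfold ncnt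
  rcases swap_fac hp1 hp2 hne hcm hz with ⟨e1, e2⟩ | ⟨e1, e2⟩
  · have b1 : fx (trW (wfa c)) (Phi y q) = fx (trW (wfa c)) q := by
      rw [Bool.eq_iff_iff, hf, hf', key _ _ e1]
    have b2 : fx (trW (wfb c)) (Phi y q) = fx (trW (wfb c)) q := by
      rw [Bool.eq_iff_iff, hf, hf', key _ _ e2]
    rw [b1, b2]
  · have b1 : fx (trW (wfa c)) (Phi y q) = fx (trW (wfb c)) q := by
      rw [Bool.eq_iff_iff, hf, hf', key _ _ e1]
    have b2 : fx (trW (wfb c)) (Phi y q) = fx (trW (wfa c)) q := by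
      rw [Bool.eq_iff_iff, hf, hf', key _ _ e2]
    rw [b1, b2, add_comm]

theorem der_cases {q : ℕ} {l : List ℕ} (h : derOK q l = true) :
    (∃ c, c < 64 ∧ ev ap (nW 6 c) 1 = q) ∨
      ∃ r x, r < 64 ∧ x < 64 ∧ ev ap (trW (nW 6 r ++ w1L)) (ev ap (nW 6 x) 1) = q := by
  match l, h with
  | [c], h =>
    left
    unfold derOK at h
    simp only [Bool.and_eq_true] at h
    exact ⟨c, blt_true h.1, beq_true h.2⟩
  | [r, x], h =>
    right
    unfold derOK at h
    simp only [Bool.and_eq_true] at h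
    exact ⟨r, x, blt_true h.1.1, blt_true h.1.2, beq_true h.2⟩

theorem lt1 : (1 : ℕ) < 3510 := by norm_num

theorem oE_pt {c : ℕ} : Phi (oE c) 1 = ev ap (nW 6 c) 1 := by
  rw [oE_word]
  exact H.ev_eq _ lt1

/-- An element centralizing the subgroup lies in the subgroup. -/
theorem cent_O (hO : ∀ c, c < 64 → y * oE c = oE c * y) : ∃ c, c < 64 ∧ oE c = y := by
  -- the image of the point `1`
  have hq1 : Phi y 1 < 3510 := bd _ _ lt1
  have hall : CLL.all (fun c => Nat.beq (ncnt c (Phi y 1)) (ncnt c 1)) = true := by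
    rw [List.all_eq_true]
    intro c hc
    rw [ncnt_inv hO hc lt1, Nat.beq_refl]
  have h1 := allR_spec _ 0 c3_pat (Phi y 1) (Nat.zero_le _) (by norm_num; omega)
  have hb1 : Nat.blt (Phi y 1) 3510 = true := Nat.ble_eq_true_of_le hq1
  rw [hb1, hall] at h1
  simp only [Bool.not_true, Bool.false_or, Bool.and_eq_true] at h1
  obtain ⟨h2, h3⟩ := h1
  set c₀ := oI (Phi y 1) with hc₀
  have hc₀lt : c₀ < 64 := blt_true h3
  have h4 : Phi (oE c₀) 1 = Phi y 1 := by
    rw [oE_pt]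
    exact beq_true h2
  set z := oE c₀ * y with hz
  have hz1 : Phi z 1 = 1 := by
    rw [hz, map_mul, Equiv.Perm.mul_apply, ← h4, ← Equiv.Perm.mul_apply, ← map_mul, oE_sq, map_one Phi]
    rfl
  have hcz : ∀ d, d < 64 → Commute z (oE d) := by
    intro d hd
    show z * oE d = oE d * z
    rw [hz, mul_assoc, hO d hd, ← mul_assoc, oE_comm, mul_assoc]
  have hfix : ∀ d, d < 64 → Phi z (Phi (oE d) 1) = Phi (oE d) 1 := by
    intro d hd
    rw [phi_comm (hcz d hd), hz1]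
  have hG : ∀ i, i < 120 → Phi z (ev ap [5, 6] (lam i)) = ev ap [5, 6] (lam i) := by
    intro i hi
    rcases der_cases (allN_spec c3_der hi) with ⟨c, hc, he⟩ | ⟨r, x, hr, hx, he⟩
    · rw [← he, ← oE_pt]
      exact hfix c hc
    · rw [← he]
      have hp : Pq (trq (nW 6 r ++ w1L)) (Phi (oE r) 1) := by
        have h5 := trq_pq (nW 6 r ++ w1L)
        have h6 : ev ap (nW 6 r ++ w1L) 0 = Phi (oE r) 1 := by
          rw [oE_pt, ev_append, c3_w1]
        rwa [h6] at h5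
      have hcm : z * trq (nW 6 r ++ w1L) = trq (nW 6 r ++ w1L) * z := comm_of_fix hp (hfix r hr)
      have hlt : ev ap (nW 6 x) 1 < 3510 := H.ev_lt _ lt1
      rw [← H.ev_eq _ hlt, evL_trW, phi_comm (show Commute z _ from hcm), ← oE_pt]
      rw [hfix x hx]
  have hz' : (evL Lt [5, 6])⁻¹ * z * evL Lt [5, 6] = 1 := by
    apply eq_one_of_lam
    intro i hi
    have hl := lam_lt hi
    have h2 := hG i hi
    rw [← H.ev_eq [5, 6] hl] at h2
    rw [map_mul, map_mul, Equiv.Perm.mul_apply, Equiv.Perm.mul_apply, h2, ← Equiv.Perm.mul_apply, ← map_mul,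
      inv_mul_cancel, map_one]
    rfl
  have hz1' : z = 1 := by
    have : z = evL Lt [5, 6] * ((evL Lt [5, 6])⁻¹ * z * evL Lt [5, 6]) * (evL Lt [5, 6])⁻¹ := by group
    rw [this, hz']
    group
  refine ⟨c₀, hc₀lt, ?_⟩
  have h7 : oE c₀ * y = 1 := hz1'
  calc oE c₀ = oE c₀ * (oE c₀ * y) := by rw [h7, mul_one]
    _ = y := by rw [← mul_assoc, oE_sq, one_mul]

end cent

/-! ### The normal subgroup -/

theorem O0_le : O0 ≤ Fx3 := by
  rintro _ ⟨c, hc, rfl⟩
  obtain ⟨h1, h2, h3⟩ := dec_parts hc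
  rw [← h3, oE_xor, ← oE_vk h1, ← oE_vk h2]
  have hk1 := (p3_parts h1).2.2.2.2.2.2.1
  have hk2 := (p3_parts h2).2.2.2.2.2.2.1
  exact Fx3.mul_mem (Fx3.mul_mem (Tz_mem h1) (Tz_mem hk1)) (Fx3.mul_mem (Tz_mem h2) (Tz_mem hk2))

theorem oE_mem {c : ℕ} (hc : c < 64) : oE c ∈ Fx3 := O0_le ⟨c, hc, rfl⟩

theorem ker_rhoZ : rhoZ.ker = O0.subgroupOf Fx3 := by
  ext y
  rw [MonoidHom.mem_ker, Subgroup.mem_subgroupOf]
  constructor
  · intro h
    have hc : ∀ c, c < 64 → (y : Gq) * oE c = oE c * y := by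
      intro c hc
      have h1 := congrArg (fun g : ↥(O QM) => (g : W6 ≃ₗ[ZMod 2] W6) (enc e6 c)) h
      simp only [rhoZ_apply] at h1
      have h2 : LO (y : Gq) (enc e6 c) = enc e6 c := h1
      unfold LO at h2
      rw [nE_enc hc] at h2
      have h3 := enc_inj e6 (CZ_spec y.2 hc).1 hc h2
      have h4 := (CZ_spec y.2 hc).2
      rw [h3] at h4
      calc (y : Gq) * oE c = ((y : Gq) * oE c * (y : Gq)⁻¹) * y := by group
        _ = oE c * y := by rw [← h4]
    exact cent_O hc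
  · rintro ⟨c, hc, hy⟩
    apply Subtype.ext
    apply LinearEquiv.ext
    intro x
    rw [rhoZ_apply]
    show LO (y : Gq) x = x
    unfold LO
    have h1 : CZ (y : Gq) (nE x) = nE x := by
      apply CZ_eq y.2 (nE_lt x)
      rw [← hy]
      have := oE_comm c (nE x)
      rw [this]
      group
    rw [h1, enc_nE]

instance O0_normal : (O0.subgroupOf Fx3).Normal := by
  rw [← ker_rhoZ]
  exact rhoZ.normal_ker

/-- The fixed group modulo the subgroup. -/
noncomputable def quotE : ↥Fx3 ⧸ O0.subgroupOf Fx3 ≃* ↥(O QM) :=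
  (QuotientGroup.quotientMulEquivOfEq ker_rhoZ.symm).trans (QuotientGroup.quotientKerEquivOfSurjective rhoZ rhoZ_surj)

/-- The isometry group. -/
noncomputable def isoE : ↥(O QM) ≃* ↥(Cfsg.isometryGroup (ZMod 2) (Cfsg.quadFormMinus 2 (ZMod 2) 1 1)) :=
  (Cfsg.Agent.Lib.OrthMatrix.toO QM).symm.trans (MulEquiv.subgroupCongr (by
    have e : (⇑QM : W6 → ZMod 2) = Cfsg.quadFormMinus 2 (ZMod 2) 1 1 := funext (qMinus_apply 2 1 1)
    rw [e]))

/-- The action of the fixed group on codes. -/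
theorem R_fix {R : Subgroup ↥Fx3} (hR : R.Normal) (hp : IsPGroup 2 R) :
    ∀ r ∈ R, ∀ c, c < 64 → (r : Gq) * oE c * (r : Gq)⁻¹ = oE c := by
  classical
  haveI : Fact (Nat.Prime 2) := ⟨Nat.prime_two⟩
  -- the set of fixed codes
  let W : ℕ → Prop := fun c => c < 64 ∧ ∀ r ∈ R, (r : Gq) * oE c * (r : Gq)⁻¹ = oE c
  have hW0 : W 0 := ⟨by norm_num, fun r _ => by rw [oE_zero]; group⟩
  have hWx : ∀ {c d}, W c → W d → W (c ^^^ d) := by
    intro c d hc hd
    refine ⟨xor_lt64 hc.1 hd.1, fun r hr => ?_⟩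
    rw [oE_xor]
    calc (r : Gq) * (oE c * oE d) * (r : Gq)⁻¹ = ((r : Gq) * oE c * (r : Gq)⁻¹) * ((r : Gq) * oE d * (r : Gq)⁻¹) := by group
      _ = _ := by rw [hc.2 r hr, hd.2 r hr]
  have hWg : ∀ (g : ↥Fx3) {c}, W c → W (CZ g c) := by
    intro g c hc
    have hs := CZ_spec g.2 hc.1
    refine ⟨hs.1, fun r hr => ?_⟩
    rw [hs.2]
    have h1 : (g⁻¹ * r * g) ∈ R := by
      have := hR.conj_mem r hr g⁻¹
      rwa [inv_inv] at this
    have h2 := hc.2 _ h1
    have h3 : ((g⁻¹ * r * g : ↥Fx3) : Gq) = (g : Gq)⁻¹ * r * g := rfl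
    rw [h3] at h2
    calc (r : Gq) * ((g : Gq) * oE c * (g : Gq)⁻¹) * (r : Gq)⁻¹
        = (g : Gq) * (((g : Gq)⁻¹ * r * g) * oE c * ((g : Gq)⁻¹ * r * g)⁻¹) * (g : Gq)⁻¹ := by group
      _ = _ := by rw [h2]
  -- a nonzero fixed code
  letI act : MulAction ↥R (Fin 64) :=
    { smul := fun r c => ⟨CZ ((r : ↥Fx3) : Gq) c.1, (CZ_spec (r : ↥Fx3).2 c.2).1⟩
      one_smul := fun c => Fin.ext (CZ_one c.2)
      mul_smul := fun r s c => Fin.ext (CZ_mul (r : ↥Fx3).2 (s : ↥Fx3).2 c.2) }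
  have hsm : ∀ (r : ↥R) (c : Fin 64), ((r • c : Fin 64) : ℕ) = CZ ((r : ↥Fx3) : Gq) c.1 := fun _ _ => rfl
  have hfp0 : (0 : Fin 64) ∈ MulAction.fixedPoints ↥R (Fin 64) := by
    intro r
    apply Fin.ext
    rw [hsm]
    have h0 : ((0 : Fin 64) : ℕ) = 0 := rfl
    rw [h0]
    exact CZ_eq (r : ↥Fx3).2 (by norm_num) (by rw [oE_zero]; group)
  obtain ⟨b, hb, hne⟩ := hp.exists_fixed_point_of_prime_dvd_card_of_fixed_point (Fin 64) (by
    simp : 2 ∣ Nat.card (Fin 64)) hfp0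
  have hbW : W b.1 := by
    refine ⟨b.2, fun r hr => ?_⟩
    have h1 := hb ⟨r, hr⟩
    have h2 := congrArg Fin.val h1
    rw [hsm] at h2
    have h3 := (CZ_spec r.2 b.2).2
    rw [h2] at h3
    exact h3.symm
  have hb0 : b.1 ≠ 0 := by
    intro h
    apply hne
    apply Fin.ext
    rw [h]
    rfl
  -- a transposition moving it
  have hv : ∀ {l}, l < 72 → ∀ {c}, W c → pol6 c (vk l) = true → W (vk l) := by
    intro l hl c hc hp
    have h1 := hWg ⟨Tz l, Tz_mem hl⟩ hc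
    rw [show CZ (((⟨Tz l, Tz_mem hl⟩ : ↥Fx3)) : Gq) c = H1Bits.T pol6 (vk l) c from CZ_Tz hl hc.1] at h1
    have h2 : H1Bits.T pol6 (vk l) c = c ^^^ vk l := by
      unfold H1Bits.T
      rw [hp]
      rfl
    rw [h2] at h1
    have h3 := hWx hc h1
    rwa [← Nat.xor_assoc, Nat.xor_self, Nat.zero_xor] at h3
  obtain ⟨l₀, hl₀, hWl₀⟩ : ∃ l, l < 72 ∧ W (vk l) := by
    have h1 := allN_spec c3_nd b.2
    have h2 : Nat.beq b.1 0 = false := by
      rw [Bool.eq_false_iff]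
      intro h
      exact hb0 (beq_true h)
    rw [h2, Bool.false_or] at h1
    obtain ⟨l, hl, h3⟩ := of_any_range h1
    exact ⟨l, hl, hv hl hbW h3⟩
  have hall : ∀ m, m < 72 → W (vk m) := by
    intro m hm
    have h1 := allN_spec (allN_spec c3_diam hl₀) hm
    obtain ⟨t, ht, h2⟩ := of_any_range h1
    simp only [Bool.and_eq_true] at h2
    exact hv hm (hv ht hWl₀ h2.1) h2.2
  intro r hr c hc
  obtain ⟨h1, h2, h3⟩ := dec_parts hc
  rw [← h3]
  exact (hWx (hall _ h1) (hall _ h2)).2 r hr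

/-- The largest normal `2`-subgroup. -/
theorem pCore_eq : (Cfsg.pCore 2 ↥Fx3).map Fx3.subtype = O0 := by
  classical
  haveI : Fact (Nat.Prime 2) := ⟨Nat.prime_two⟩
  haveI : Finite Gq := finGp
  apply le_antisymm
  · rintro _ ⟨r, hr, rfl⟩
    have hN : (Cfsg.pCore 2 ↥Fx3).Normal := inferInstance
    have hp := Cfsg.Agent.Lib.PCore.isPGroup_pCore (G := ↥Fx3) 2
    have h1 := R_fix hN hp r hr
    apply cent_O
    intro c hc
    have h2 := h1 c hc
    calc (r : Gq) * oE c = ((r : Gq) * oE c * (r : Gq)⁻¹) * r := by group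
      _ = oE c * r := by rw [h2]
  · intro x hx
    have hN := O0_normal
    have hp : IsPGroup 2 ↥(O0.subgroupOf Fx3) := by
      rintro ⟨y, hy⟩
      refine ⟨1, ?_⟩
      apply Subtype.ext
      apply Subtype.ext
      obtain ⟨c, _, hc⟩ := (Subgroup.mem_subgroupOf.mp hy)
      show (y : Gq) ^ 2 ^ 1 = 1
      rw [← hc, pow_one, pow_two, oE_sq]
    have h2 := Cfsg.Agent.Lib.PCore.le_pCore hN hp
    exact ⟨⟨x, O0_le hx⟩, h2 (Subgroup.mem_subgroupOf.mpr hx), rfl⟩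

end Cfsg.Agent.Lib.Fi22Ou
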