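import Mathlib
import Cfsg.Agent.Lib.Fi22OuB2
import Cfsg.Agent.Lib.F22A27M

/-!
# The fixed points of the outer involution `σ₀`: the automorphism group of `Ω⁺₈(2)`
-/

set_option autoImplicit false
set_option maxRecDepth 1000000
set_option linter.all false

namespace Cfsg.Agent.Lib.Fi22Ou

open Cfsg.Agent.Lib.OutTree36 Cfsg.Agent.Lib.TcBits Cfsg.Agent.Lib.TcPres Cfsg.Agent.Lib.PresChain36
open Cfsg.Agent.TcData.Fi22.I3510 Cfsg.Agent.TcData.Fi22 Cfsg.Agent.TcChain36.Fi22 Cfsg.Agent.TcChain36.Out.Fi22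
open Cfsg.Agent.Lib.Fi22K
open Cfsg.Agent.Lib.F22A27 (I I_iso card_I I_eq_closure col)

/-- The conjugating element. -/
noncomputable def Gg : Gq := evL Lt [5, 6]

/-- The conjugate of the subgroup `I`. -/
noncomputable def Ip : Subgroup Gq := I.map (MulAut.conj Gg).toMonoidHom

set_option Elab.async false in
theorem c_col : allR (fun q => !(Nat.blt q 3510) || !(Nat.blt (col q) 3) || Nat.beq (sZ (ev ap [5, 6] q)) (ev ap [5, 6] q)) 12 0 = true := by
  decide +kernel

theorem Ip_le : Ip ≤ fixS σ₀ := by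
  rw [Ip, Subgroup.map_le_iff_le_comap, I_eq_closure, Subgroup.closure_le]
  rintro x ⟨q, hq, hx⟩
  have hlt := lt_of_pq hx
  have h1 := allR_spec _ 0 c_col q (Nat.zero_le _) (by norm_num; omega)
  have hb1 : Nat.blt q 3510 = true := Nat.ble_eq_true_of_le hlt
  have hb2 : Nat.blt (col q) 3 = true := Nat.ble_eq_true_of_le hq
  rw [hb1, hb2] at h1
  simp only [Bool.not_true, Bool.false_or] at h1
  have h2 := beq_true h1
  have h3 := pq_conj hx Gg
  have h4 : Phi Gg q = ev ap [5, 6] q := H.ev_eq [5, 6] hlt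
  rw [h4] at h3
  have h5 := Pq_σ₀ h3
  rw [h2] at h5
  exact pq_inj h5 h3

theorem finGq3 : Finite Gq := finGp

theorem card_Ip : Nat.card ↥Ip = 1045094400 := by
  rw [← card_I]
  have hinj : Function.Injective (MulAut.conj Gg).toMonoidHom := (MulAut.conj Gg).injective
  exact (Nat.card_congr (I.equivMapOfInjective _ hinj).toEquiv).symm

theorem Fx2_le : Fx2 ≤ fixS σ₀ := by
  rw [Fx2_eq]
  exact inf_le_left

theorem card_Cs_le : Nat.card ↥(fixS σ₀) ≤ 1045094400 := by
  classical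
  haveI : Finite Gq := finGq3
  set C := fixS σ₀ with hC
  set L := Fx2.subgroupOf C with hL
  have h1 : Nat.card L * L.index = Nat.card C := Subgroup.card_mul_index L
  have h2 : Nat.card L = Nat.card ↥Fx2 :=
    Nat.card_congr (Subgroup.subgroupOfEquivOfLe Fx2_le).toEquiv
  have hS : Set.ncard {d | d ∈ D0 ∧ σ₀ d = d} = 360 := fixA0
  let f : C → {d // d ∈ D0 ∧ σ₀ d = d} := fun g => ⟨(g : Gq) * aa * (g : Gq)⁻¹, by
    refine ⟨?_, ?_⟩
    · exact D0_conj (eE_mem (by norm_num)) _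
    · have hg : σ₀ (g : Gq) = g := g.2
      rw [map_mul, map_mul, map_inv, hg, σ₀_aa]⟩
  have hfq : ∀ a b : C, a⁻¹ * b ∈ L ↔ f a = f b := by
    intro a b
    rw [Subgroup.mem_subgroupOf, Fx2_eq, Subgroup.mem_inf, Subgroup.mem_centralizer_singleton_iff]
    constructor
    · rintro ⟨_, h⟩
      apply Subtype.ext
      show (a : Gq) * aa * (a : Gq)⁻¹ = (b : Gq) * aa * (b : Gq)⁻¹
      have h3 : (a : Gq)⁻¹ * b * aa = aa * ((a : Gq)⁻¹ * b) := h
      have h4 : (b : Gq) * aa = a * aa * ((a : Gq)⁻¹ * b) := by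
        calc (b : Gq) * aa = a * ((a : Gq)⁻¹ * b * aa) := by group
          _ = a * (aa * ((a : Gq)⁻¹ * b)) := by rw [h3]
          _ = _ := by group
      rw [h4]
      group
    · intro h
      have h3 : (a : Gq) * aa * (a : Gq)⁻¹ = (b : Gq) * aa * (b : Gq)⁻¹ := congrArg Subtype.val h
      refine ⟨(a⁻¹ * b).2, ?_⟩
      show (a : Gq)⁻¹ * b * aa = aa * ((a : Gq)⁻¹ * b)
      calc (a : Gq)⁻¹ * b * aa = (a : Gq)⁻¹ * ((b : Gq) * aa * (b : Gq)⁻¹) * b := by group
        _ = (a : Gq)⁻¹ * ((a : Gq) * aa * (a : Gq)⁻¹) * b := by rw [h3]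
        _ = _ := by group
  let F : C ⧸ L → {d // d ∈ D0 ∧ σ₀ d = d} := Quotient.lift f (by
    intro a b hab
    have : a⁻¹ * b ∈ L := QuotientGroup.leftRel_apply.mp hab
    exact (hfq a b).1 this)
  have hF : Function.Injective F := by
    intro x y
    induction x using Quotient.inductionOn
    induction y using Quotient.inductionOn
    intro h
    exact Quotient.sound (QuotientGroup.leftRel_apply.mpr ((hfq _ _).2 h))
  have h3 : L.index ≤ 360 := by
    rw [Subgroup.index]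
    have h4 := Nat.card_le_card_of_injective F hF
    have h5 : Nat.card {d // d ∈ D0 ∧ σ₀ d = d} = 360 := by
      rw [← hS]
      rfl
    omega
  rw [← h1, h2, card_Fx2]
  nlinarith

theorem Ip_eq : Ip = fixS σ₀ := by
  haveI : Finite Gq := finGq3
  apply Subgroup.eq_of_le_of_card_ge Ip_le
  rw [card_Ip]
  exact card_Cs_le

/-- The fixed points of `σ₀`. -/
theorem Cs_iso : Nonempty (↥(fixS σ₀) ≃* MulAut ↥(Cfsg.Omega (ZMod 2) (Cfsg.quadFormPlus 4 (ZMod 2)))) := by
  obtain ⟨E⟩ := I_iso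
  have hinj : Function.Injective (MulAut.conj Gg).toMonoidHom := (MulAut.conj Gg).injective
  refine ⟨(MulEquiv.subgroupCongr Ip_eq.symm).trans (((I.equivMapOfInjective _ hinj).symm).trans E)⟩

end Cfsg.Agent.Lib.Fi22Ou
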