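import Mathlib
import Cfsg.Agent.Lib.U42A

/-!
# The automorphism group of the graph on the `45` isotropic points has order at most `51840`
-/

set_option autoImplicit false
set_option maxRecDepth 100000
set_option linter.unusedSectionVars false

namespace Cfsg.Agent.Lib.U42

open Cfsg Matrix
open Cfsg.Agent.Lib.F4K

/-- The automorphisms of the graph. -/
def AGQ : Subgroup (Equiv.Perm (Fin 45)) where
  carrier := {π | ∀ i j, gam (π i) (π j) = gam i j}
  mul_mem' := by
    intro a b ha hb i j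
    show gam (a (b i)) (a (b j)) = _
    rw [ha, hb]
  one_mem' := fun i j => rfl
  inv_mem' := by
    intro a ha i j
    have h := ha (a⁻¹ i) (a⁻¹ j)
    simpa using h.symm

theorem mem_AGQ {π : Equiv.Perm (Fin 45)} : π ∈ AGQ ↔ ∀ i j, gam (π i) (π j) = gam i j := Iff.rfl

/-- The pointwise stabilizers. -/
def Sl (l : List (Fin 45)) : Subgroup (Equiv.Perm (Fin 45)) where
  carrier := {π | π ∈ AGQ ∧ ∀ b ∈ l, π b = b}
  mul_mem' := by
    rintro a c ⟨ha, ha'⟩ ⟨hc, hc'⟩
    refine ⟨AGQ.mul_mem ha hc, fun b hb => ?_⟩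
    show a (c b) = b
    rw [hc' b hb, ha' b hb]
  one_mem' := ⟨AGQ.one_mem, fun b _ => rfl⟩
  inv_mem' := by
    rintro a ⟨ha, ha'⟩
    refine ⟨AGQ.inv_mem ha, fun b hb => ?_⟩
    rw [Equiv.Perm.inv_eq_iff_eq]
    exact (ha' b hb).symm

theorem mem_Sl {π : Equiv.Perm (Fin 45)} {l : List (Fin 45)} : π ∈ Sl l ↔ π ∈ AGQ ∧ ∀ b ∈ l, π b = b := Iff.rfl

theorem Sl_nil : Sl [] = AGQ := by
  ext π
  simp [mem_Sl]

/-- One step of the chain. -/
theorem card_step (l : List (Fin 45)) (b : Fin 45) (X : Finset (Fin 45)) (h : ∀ π ∈ Sl l, π b ∈ X) :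
    Nat.card (Sl l) ≤ X.card * Nat.card (Sl (b :: l)) := by
  classical
  have hrep : ∀ x : Fin 45, ∃ ρ : Equiv.Perm (Fin 45), (∃ π ∈ Sl l, π b = x) → ρ ∈ Sl l ∧ ρ b = x := by
    intro x
    by_cases hx : ∃ π ∈ Sl l, π b = x
    · obtain ⟨π, h1, h2⟩ := hx
      exact ⟨π, fun _ => ⟨h1, h2⟩⟩
    · exact ⟨1, fun h' => absurd h' hx⟩
  choose ρ hρ using hrep
  let f : Sl l → X × Sl (b :: l) := fun π =>
    (⟨π.1 b, h π.1 π.2⟩,
      ⟨(ρ (π.1 b))⁻¹ * π.1, by
        have h1 := hρ (π.1 b) ⟨π.1, π.2, rfl⟩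
        have h2 : (ρ (π.1 b))⁻¹ * π.1 ∈ Sl l := (Sl l).mul_mem ((Sl l).inv_mem h1.1) π.2
        refine ⟨h2.1, ?_⟩
        intro c hc
        rcases List.mem_cons.mp hc with rfl | hc
        · show (ρ (π.1 c))⁻¹ (π.1 c) = c
          rw [Equiv.Perm.inv_eq_iff_eq]
          exact h1.2.symm
        · exact h2.2 c hc⟩)
  have hf : Function.Injective f := by
    intro π π' hh
    have h1 : π.1 b = π'.1 b := congrArg (fun z => (z.1 : Fin 45)) hh
    have h2 : (ρ (π.1 b))⁻¹ * π.1 = (ρ (π'.1 b))⁻¹ * π'.1 := congrArg (fun z => (z.2 : Equiv.Perm (Fin 45))) hh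
    rw [← h1] at h2
    exact Subtype.ext (mul_left_cancel h2)
  have := Nat.card_le_card_of_injective f hf
  rw [Nat.card_prod] at this
  have e : Nat.card X = X.card := by simp
  rwa [e] at this

/-- The third point of a hyperbolic line, in terms of the graph. -/
def isThird (i j k : Fin 45) : Bool :=
  decide (k ≠ i) && decide (k ≠ j) && decide (∀ p, gam p i = true → gam p j = true → gam p k = true) &&
    decide (∀ k', k' ≠ i → k' ≠ j → (∀ p, gam p i = true → gam p j = true → gam p k' = true) → k' = k)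

theorem fix_third {π : Equiv.Perm (Fin 45)} (hπ : π ∈ AGQ) {i j k : Fin 45} (hi : π i = i) (hj : π j = j)
    (h : isThird i j k = true) : π k = k := by
  simp only [isThird, Bool.and_eq_true, decide_eq_true_eq] at h
  obtain ⟨⟨⟨h1, h2⟩, h3⟩, h4⟩ := h
  apply h4
  · intro e
    apply h1
    apply π.injective
    rw [e, hi]
  · intro e
    apply h2
    apply π.injective
    rw [e, hj]
  · intro p hp1 hp2
    have e1 : gam (π⁻¹ p) i = true := by
      rw [← hπ (π⁻¹ p) i, hi]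
      simpa using hp1
    have e2 : gam (π⁻¹ p) j = true := by
      rw [← hπ (π⁻¹ p) j, hj]
      simpa using hp2
    have e3 := h3 _ e1 e2
    rw [← hπ (π⁻¹ p) k] at e3
    simpa using e3

/-- Closure steps. -/
def stepsOK : List (Fin 45) → List (Fin 45 × Fin 45 × Fin 45) → Bool
  | _, [] => true
  | F, (i, j, k) :: st => decide (i ∈ F) && decide (j ∈ F) && isThird i j k && stepsOK (k :: F) st

/-- The closure. -/
def stepsF : List (Fin 45) → List (Fin 45 × Fin 45 × Fin 45) → List (Fin 45)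
  | F, [] => F
  | F, (_, _, k) :: st => stepsF (k :: F) st

theorem fix_steps {π : Equiv.Perm (Fin 45)} (hπ : π ∈ AGQ) (st : List (Fin 45 × Fin 45 × Fin 45)) :
    ∀ F : List (Fin 45), (∀ b ∈ F, π b = b) → stepsOK F st = true → ∀ b ∈ stepsF F st, π b = b := by
  induction st with
  | nil => intro F hF _; exact hF
  | cons s st ih =>
    obtain ⟨i, j, k⟩ := s
    intro F hF h
    simp only [stepsOK, Bool.and_eq_true, decide_eq_true_eq] at h
    obtain ⟨⟨⟨h1, h2⟩, h3⟩, h4⟩ := h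
    apply ih (k :: F) _ h4
    intro b hb
    rcases List.mem_cons.mp hb with rfl | hb
    · exact fix_third hπ (hF _ h1) (hF _ h2) h3
    · exact hF b hb

/-- Steps. -/
def st1 : List (Fin 45 × Fin 45 × Fin 45) := [(0, 1, 2)]
/-- Steps. -/
def st2 : List (Fin 45 × Fin 45 × Fin 45) := [(0, 1, 2), (0, 9, 12), (1, 9, 14), (1, 12, 10), (9, 2, 13), (9, 10, 11)]
/-- Steps. -/
def st3 : List (Fin 45 × Fin 45 × Fin 45) := [(0, 1, 2), (0, 9, 12), (0, 3, 6), (1, 9, 14), (1, 3, 8), (1, 12, 10), (1, 6, 4), (9, 3, 15), (9, 2, 13), (9, 10, 11), (9, 4, 35), (3, 2, 7), (3, 10, 25), (3, 4, 5)]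

theorem st1_ok : stepsOK [1, 0] st1 = true := by decide +kernel
theorem st2_ok : stepsOK [9, 1, 0] st2 = true := by decide +kernel
theorem st3_ok : stepsOK [3, 9, 1, 0] st3 = true := by decide +kernel

/-- A class. -/
def clsX (F : List (Fin 45)) (b : Fin 45) : Finset (Fin 45) :=
  Finset.univ.filter (fun p => ∀ f ∈ F, gam p f = gam b f)

theorem mem_clsX {π : Equiv.Perm (Fin 45)} (hπ : π ∈ AGQ) {F : List (Fin 45)} (hF : ∀ b ∈ F, π b = b) (b : Fin 45) :
    π b ∈ clsX F b := by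
  simp only [clsX, Finset.mem_filter, Finset.mem_univ, true_and]
  intro f hf
  have := hπ b f
  rwa [hF f hf] at this

theorem c0 : (clsX [0] 1).card = 32 := by decide +kernel
theorem c1 : (clsX (stepsF [1, 0] st1) 9).card = 12 := by decide +kernel
theorem c2 : (clsX (stepsF [9, 1, 0] st2) 3).card = 3 := by decide +kernel
theorem c3 : ∀ p q : Fin 45, (∀ f ∈ stepsF [3, 9, 1, 0] st3, gam p f = gam q f) → p = q := by decide +kernel

theorem Sl_last : Nat.card (Sl [3, 9, 1, 0]) ≤ 1 := by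
  have h : Sl [3, 9, 1, 0] = ⊥ := by
    rw [eq_bot_iff]
    intro π hπ
    rw [Subgroup.mem_bot]
    ext p
    have h1 := fix_steps hπ.1 st3 _ hπ.2 st3_ok
    have h2 := mem_clsX hπ.1 h1 p
    simp only [clsX, Finset.mem_filter, Finset.mem_univ, true_and] at h2
    rw [c3 _ _ h2]
    rfl
  rw [h]
  simp

theorem card_AGQ_le : Nat.card AGQ ≤ 51840 := by
  have h0 := card_step [] 0 Finset.univ (fun π _ => Finset.mem_univ _)
  have h1 := card_step [0] 1 (clsX [0] 1) (fun π hπ => mem_clsX hπ.1 hπ.2 1)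
  have h2 := card_step [1, 0] 9 (clsX (stepsF [1, 0] st1) 9) (fun π hπ =>
    mem_clsX hπ.1 (fix_steps hπ.1 st1 _ hπ.2 st1_ok) 9)
  have h3 := card_step [9, 1, 0] 3 (clsX (stepsF [9, 1, 0] st2) 3) (fun π hπ =>
    mem_clsX hπ.1 (fix_steps hπ.1 st2 _ hπ.2 st2_ok) 3)
  rw [c0] at h1
  rw [c1] at h2
  rw [c2] at h3
  have h4 := Sl_last
  rw [Sl_nil] at h0
  simp only [Finset.card_univ, Fintype.card_fin] at h0
  have e1 : Nat.card (Sl [9, 1, 0]) ≤ 3 := by omega
  have e2 : Nat.card (Sl [1, 0]) ≤ 36 := by omega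
  have e3 : Nat.card (Sl [0]) ≤ 1152 := by omega
  omega

end Cfsg.Agent.Lib.U42
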