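import Mathlib
import Cfsg.Agent.Lib.U42B

/-!
# The automorphism group of `PSU₄(2)` is the automorphism group of the graph on the `45` isotropic points
-/

set_option autoImplicit false
set_option maxRecDepth 100000
set_option linter.unusedSectionVars false

namespace Cfsg.Agent.Lib.U42

open Cfsg Matrix
open Cfsg.Agent.Lib.F4K Cfsg.Agent.Lib.UnitarySU Cfsg.Agent.Lib.UnitarySimple

instance : Finite G := inferInstance

theorem center_G : Subgroup.center G = ⊥ := by
  apply Subgroup.eq_bot_of_card_eq
  rw [card_center_SU' hF 4 (by norm_num)]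
  norm_num

/-- The projective group is the group. -/
noncomputable def ePSU : PSU 4 K4 2 ≃* G :=
  (QuotientGroup.quotientMulEquivOfEq center_G).trans QuotientGroup.quotientBot

instance simpleG : IsSimpleGroup G :=
  haveI : IsSimpleGroup (PSU 4 K4 2) := isSimple_PSU hF (by norm_num) (by norm_num)
  MulEquiv.isSimpleGroup ePSU.symm

theorem card_G : Nat.card G = 25920 := by
  have h := card_SU hF 4 (by norm_num)
  have e : (∏ i ∈ Finset.range 4, (if Even i then 2 ^ (i + 1) + 1 else 2 ^ (i + 1) - 1)) = 1215 := by
    decide +kernel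
  rw [e] at h
  show Nat.card (SU 4 K4 2) = 25920
  norm_num at h
  omega

theorem iota0_inj : Function.Injective iota0 := by
  have h := (MonoidHom.normal_ker iota0).eq_bot_or_eq_top
  rcases h with h | h
  · exact (MonoidHom.ker_eq_bot_iff _).mp h
  · exfalso
    have h1 : tvG 0 ∈ iota0.ker := by rw [h]; trivial
    have h2 : iota0 (tvG 0) 1 = 1 := by
      rw [MonoidHom.mem_ker.mp h1]
      rfl
    rw [iota_tv] at h2
    revert h2
    decide +kernel

/-- The group in the permutations. -/
noncomputable abbrev TT : Subgroup (Equiv.Perm (Fin 45)) := iota0.range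

theorem card_TT : Nat.card TT = 25920 := by
  rw [← card_G]
  exact (Nat.card_congr (MonoidHom.ofInjective iota0_inj).toEquiv).symm

theorem TT_le : TT ≤ AGQ := by
  rintro _ ⟨g, rfl⟩
  exact gam_iota g

/-- The field automorphism, as a function. -/
def frF (j : Fin 45) : Fin 45 := ⟨Nat.mod (Nat.land (Nat.shiftRight frP (Nat.mul 6 j)) 63) 45, Nat.mod_lt _ (by decide)⟩

theorem frF_inv : ∀ j, frF (frF j) = j := by decide +kernel

/-- The field automorphism. -/
def frE : Equiv.Perm (Fin 45) := ⟨frF, frF, frF_inv, frF_inv⟩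

theorem frE_mem : frE ∈ AGQ := by
  rw [mem_AGQ]
  show ∀ i j, gam (frF i) (frF j) = gam i j
  decide +kernel

/-- A list of swaps. -/
def swp : List (Fin 45 × Fin 45) :=
  [(1, 2), (4, 5), (7, 8), (10, 11), (13, 14), (17, 18), (19, 22), (20, 24), (21, 23), (25, 35), (26, 36), (27, 38),
    (28, 37), (29, 42), (30, 44), (31, 43), (32, 39), (33, 41), (34, 40)]

/-- A general lemma on the sign of a product of swaps. -/
theorem sign_swaps {α : Type*} [DecidableEq α] [Fintype α] (l : List (α × α)) (h : ∀ x ∈ l, x.1 ≠ x.2) :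
    Equiv.Perm.sign ((l.map (fun x => Equiv.swap x.1 x.2)).prod) = (-1) ^ l.length := by
  induction l with
  | nil => simp
  | cons a l ih =>
    rw [List.map_cons, List.prod_cons, map_mul, ih (fun x hx => h x (List.mem_cons_of_mem _ hx)),
      Equiv.Perm.sign_swap (h a List.mem_cons_self), List.length_cons, pow_succ]
    exact mul_comm _ _

/-- The permutation of a list of swaps, as a computation. -/
def swpF : List (Fin 45 × Fin 45) → Fin 45 → Fin 45
  | [], j => j
  | x :: l, j => if swpF l j = x.1 then x.2 else if swpF l j = x.2 then x.1 else swpF l j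

theorem swp_apply (l : List (Fin 45 × Fin 45)) (j : Fin 45) :
    ((l.map (fun x => Equiv.swap x.1 x.2)).prod : Equiv.Perm (Fin 45)) j = swpF l j := by
  induction l with
  | nil => rfl
  | cons a l ih =>
    rw [List.map_cons, List.prod_cons, Equiv.Perm.mul_apply, ih]
    rfl

theorem frE_eq : frE = (swp.map (fun x => Equiv.swap x.1 x.2)).prod := by
  ext j
  rw [swp_apply]
  revert j
  show ∀ j : Fin 45, (frF j).val = (swpF swp j).val
  decide +kernel

theorem sign_frE : Equiv.Perm.sign frE = -1 := by
  rw [frE_eq, sign_swaps swp (by decide +kernel)]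
  rfl

/-- Elements of the image are even. -/
theorem sign_iota (g : G) : Equiv.Perm.sign (iota0 g) = 1 := by
  have h := (MonoidHom.normal_ker (Equiv.Perm.sign.comp iota0)).eq_bot_or_eq_top
  rcases h with h | h
  · exfalso
    have hi := (MonoidHom.ker_eq_bot_iff _).mp h
    have h1 := Nat.card_le_card_of_injective _ hi
    rw [card_G] at h1
    have h2 : Nat.card (ℤˣ) = 2 := by simp
    omega
  · have h1 : g ∈ (Equiv.Perm.sign.comp iota0).ker := by rw [h]; trivial
    exact h1

theorem card_AGQ : Nat.card AGQ = 51840 := by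
  have h1 : Nat.card TT ∣ Nat.card AGQ := Subgroup.card_dvd_of_le TT_le
  rw [card_TT] at h1
  obtain ⟨k, hk⟩ := h1
  have h2 := card_AGQ_le
  have hk2 : k ≤ 2 := by omega
  have hk1 : k ≠ 1 := by
    rintro rfl
    have h3 : TT = AGQ := Subgroup.eq_of_le_of_card_ge TT_le (by rw [card_TT, hk])
    have h4 : frE ∈ TT := by rw [h3]; exact frE_mem
    obtain ⟨g, hg⟩ := h4
    have := sign_iota g
    rw [hg, sign_frE] at this
    exact absurd this (by decide)
  have hk0 : k ≠ 0 := by
    rintro rfl
    have : 0 < Nat.card AGQ := Nat.card_pos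
    omega
  have : k = 2 := by omega
  rw [hk, this]

/-- Any subgroup of the automorphisms of the graph containing the transvections and an odd permutation is everything. -/
theorem eq_AGQ {T : Subgroup (Equiv.Perm (Fin 45))} (hT : T ≤ AGQ) (h1 : TT ≤ T) {f : Equiv.Perm (Fin 45)} (hf : f ∈ T)
    (hs : Equiv.Perm.sign f = -1) : T = AGQ := by
  have h2 : Nat.card TT ∣ Nat.card T := Subgroup.card_dvd_of_le h1
  rw [card_TT] at h2
  obtain ⟨k, hk⟩ := h2
  have h3 : Nat.card T ≤ 51840 := by
    rw [← card_AGQ]
    exact Subgroup.card_le_of_le hT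
  have hk1 : k ≠ 1 := by
    rintro rfl
    have h4 : TT = T := Subgroup.eq_of_le_of_card_ge h1 (by rw [card_TT, hk])
    rw [← h4] at hf
    obtain ⟨g, hg⟩ := hf
    have := sign_iota g
    rw [hg, hs] at this
    exact absurd this (by decide)
  have hk0 : k ≠ 0 := by
    rintro rfl
    have : 0 < Nat.card T := Nat.card_pos
    omega
  have hk2 : k = 2 := by omega
  exact Subgroup.eq_of_le_of_card_ge hT (by rw [card_AGQ, hk, hk2])

end Cfsg.Agent.Lib.U42
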