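import Mathlib
import Cfsg.Agent.Lib.U42C

/-!
# The class of transvections of `SU₄(2)` is characteristic
-/

set_option autoImplicit false
set_option maxRecDepth 100000
set_option linter.unusedSectionVars false

namespace Cfsg.Agent.Lib.U42

open Cfsg Matrix
open Cfsg.Agent.Lib.F4K Cfsg.Agent.Lib.UnitarySU Cfsg.Agent.Lib.UnitarySimple

/-! ### The Sylow subgroup -/

/-- Table. -/
def lpF (b : Fin 64) (j : Fin 45) : Fin 45 :=
  ⟨Nat.mod (Nat.land (Nat.shiftRight lpP (Nat.mul 6 (Nat.add (Nat.mul 45 b) j))) 63) 45, Nat.mod_lt _ (by decide)⟩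

/-- Table. -/
def mtF (a b : Fin 64) : Fin 64 :=
  ⟨Nat.mod (Nat.land (Nat.shiftRight mtP (Nat.mul 6 (Nat.add (Nat.mul 64 a) b))) 63) 64, Nat.mod_lt _ (by decide)⟩

/-- Table. -/
def itF (a : Fin 64) : Fin 64 :=
  ⟨Nat.mod (Nat.land (Nat.shiftRight itP (Nat.mul 6 a)) 63) 64, Nat.mod_lt _ (by decide)⟩

theorem lp_mul : ∀ a b j, lpF a (lpF b j) = lpF (mtF a b) j := by decide +kernel

theorem lp_inv : ∀ a j, lpF (itF a) (lpF a j) = j := by decide +kernel

theorem lp_inv' : ∀ a j, lpF a (lpF (itF a) j) = j := by decide +kernel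

theorem lp_zero : ∀ j, lpF 0 j = j := by decide +kernel

theorem lp_inj : ∀ a b, (∀ j, lpF a j = lpF b j) → a = b := by decide +kernel

/-- The element of a table. -/
def lpE (a : Fin 64) : Equiv.Perm (Fin 45) := ⟨lpF a, lpF (itF a), lp_inv a, lp_inv' a⟩

theorem lpE_apply (a : Fin 64) (j : Fin 45) : lpE a j = lpF a j := rfl

/-- The Sylow subgroup, in the permutations. -/
def RR : Subgroup (Equiv.Perm (Fin 45)) where
  carrier := Set.range lpE
  mul_mem' := by
    rintro _ _ ⟨a, rfl⟩ ⟨b, rfl⟩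
    refine ⟨mtF a b, ?_⟩
    ext j
    show (lpF (mtF a b) j).val = (lpF a (lpF b j)).val
    rw [lp_mul]
  one_mem' := ⟨0, by ext j; exact congrArg Fin.val (lp_zero j)⟩
  inv_mem' := by
    rintro _ ⟨a, rfl⟩
    refine ⟨itF a, ?_⟩
    ext j
    rfl

theorem lpE_inj : Function.Injective lpE := by
  intro a b h
  apply lp_inj
  intro j
  have := congrArg (fun g : Equiv.Perm (Fin 45) => g j) h
  exact this

theorem card_RR : Nat.card RR = 64 := by
  have : Nat.card RR = Nat.card (Fin 64) :=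
    (Nat.card_congr (Equiv.ofInjective lpE lpE_inj)).symm
  rw [this]
  simp

/-- The word of a list of indices. -/
noncomputable def wG : List (Fin 45) → G
  | [] => 1
  | i :: l => tvG i * wG l

/-- The word, computed. -/
def wF : List (Fin 45) → Fin 45 → Fin 45
  | [], j => j
  | i :: l, j => tt i (wF l j)

theorem iota_wG (l : List (Fin 45)) (j : Fin 45) : iota0 (wG l) j = wF l j := by
  induction l with
  | nil => simp [wG, wF]
  | cons i l ih =>
    rw [wG, map_mul, Equiv.Perm.mul_apply, ih, iota_tv]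
    rfl

/-- The word of an index. -/
def rW' (a : Fin 64) : List (Fin 45) := ((rW.getD a []).map (fun x => (⟨Nat.mod x 45, Nat.mod_lt _ (by decide)⟩ : Fin 45)))

theorem rW_act : ∀ a j, wF (rW' a) j = lpF a j := by decide +kernel

theorem RR_le : RR ≤ TT := by
  rintro _ ⟨a, rfl⟩
  refine ⟨wG (rW' a), ?_⟩
  ext j
  rw [iota_wG, rW_act]
  rfl

/-- The centre of the Sylow subgroup. -/
theorem lp_center : ∀ a, (∀ b j, lpF a (lpF b j) = lpF b (lpF a j)) → a = 0 ∨ a = 2 := by decide +kernel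

theorem lp_b0 : ∀ j, lpF 2 j = tt 0 j := by decide +kernel

theorem lp_b0' : ∀ b j, lpF 2 (lpF b j) = lpF b (lpF 2 j) := by decide +kernel

/-- The Sylow subgroup of the group. -/
noncomputable def RG : Subgroup G := RR.comap iota0

theorem card_RG : Nat.card RG = 64 := by
  rw [← card_RR]
  have hm : RG.map iota0 = RR := Subgroup.map_comap_eq_self (by
    intro x hx
    exact RR_le hx)
  rw [← hm]
  exact (Subgroup.card_map_of_injective iota0_inj).symm

theorem fact_G : (Nat.card G).factorization 2 = 6 := by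
  rw [card_G, show (25920 : ℕ) = 2 ^ 6 * 405 by norm_num,
    Nat.factorization_mul (by positivity) (by norm_num), Nat.factorization_pow]
  have : (405 : ℕ).factorization 2 = 0 := Nat.factorization_eq_zero_of_not_dvd (by norm_num)
  simp [this, Nat.Prime.factorization_self Nat.prime_two]

/-- The image of the transvection under an automorphism is a conjugate. -/
theorem aut_tv0 (α : MulAut G) : ∃ g : G, α (tvG 0) = g * tvG 0 * g⁻¹ := by
  classical
  haveI : Fact (Nat.Prime 2) := ⟨Nat.prime_two⟩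
  let S : Sylow 2 G := Sylow.ofCard RG (by rw [card_RG, fact_G]; norm_num)
  have hS : (S : Subgroup G) = RG := Sylow.coe_ofCard _ _
  let R2 : Subgroup G := RG.map α.toMonoidHom
  have hc2 : Nat.card R2 = 64 := by
    rw [← card_RG]
    exact Subgroup.card_map_of_injective α.injective
  let S' : Sylow 2 G := Sylow.ofCard R2 (by rw [hc2, fact_G]; norm_num)
  have hS' : (S' : Subgroup G) = R2 := Sylow.coe_ofCard _ _
  obtain ⟨g, hg⟩ := MulAction.exists_smul_eq G S S'
  have hmem : ∀ x ∈ RG, g⁻¹ * α x * g ∈ RG := by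
    intro x hx
    have h1 : α x ∈ (S' : Subgroup G) := by
      rw [hS']
      exact ⟨x, hx, rfl⟩
    rw [← hg, Sylow.coe_subgroup_smul] at h1
    obtain ⟨y, hy, hy'⟩ := h1
    rw [hS] at hy
    have h2 : y = g⁻¹ * α x * g := by
      rw [← hy']
      show y = g⁻¹ * (g * y * g⁻¹) * g
      group
    rw [← h2]
    exact hy
  have hsurj : ∀ y ∈ RG, ∃ x ∈ RG, y = g⁻¹ * α x * g := by
    intro y hy
    have h1 : g * y * g⁻¹ ∈ (S' : Subgroup G) := by
      rw [← hg, Sylow.coe_subgroup_smul, hS]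
      exact ⟨y, hy, rfl⟩
    rw [hS'] at h1
    obtain ⟨x, hx, hx'⟩ := h1
    refine ⟨x, hx, ?_⟩
    have : α x = g * y * g⁻¹ := hx'
    rw [this]
    group
  have ht0 : tvG 0 ∈ RG := by
    show iota0 (tvG 0) ∈ RR
    refine ⟨2, ?_⟩
    ext j
    rw [iota_tv]
    exact congrArg Fin.val (lp_b0 j)
  set u := g⁻¹ * α (tvG 0) * g with hu
  have hu1 : u ∈ RG := hmem _ ht0
  obtain ⟨a, ha⟩ := hu1
  have ht0c : ∀ x ∈ RG, tvG 0 * x = x * tvG 0 := by
    rintro x ⟨b, hb⟩
    apply iota0_inj
    rw [map_mul, map_mul, ← hb]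
    ext j
    rw [Equiv.Perm.mul_apply, Equiv.Perm.mul_apply, iota_tv, iota_tv, lpE_apply, lpE_apply, ← lp_b0, ← lp_b0,
      lp_b0']
  have hcomm : ∀ y ∈ RG, u * y = y * u := by
    intro y hy
    obtain ⟨x, hx, rfl⟩ := hsurj y hy
    have h1 := ht0c x hx
    have h2 : α (tvG 0) * α x = α x * α (tvG 0) := by
      rw [← map_mul, h1, map_mul]
    rw [hu]
    calc g⁻¹ * α (tvG 0) * g * (g⁻¹ * α x * g) = g⁻¹ * (α (tvG 0) * α x) * g := by group
      _ = g⁻¹ * (α x * α (tvG 0)) * g := by rw [h2]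
      _ = _ := by group
  have hcase : a = 0 ∨ a = 2 := by
    apply lp_center
    intro b j
    obtain ⟨y, hy⟩ := RR_le (⟨b, rfl⟩ : lpE b ∈ RR)
    have hy' : y ∈ RG := by
      show iota0 y ∈ RR
      rw [hy]
      exact ⟨b, rfl⟩
    have h1 := hcomm y hy'
    have h2 : iota0 u * iota0 y = iota0 y * iota0 u := by
      rw [← map_mul, ← map_mul, h1]
    rw [hy, ← ha] at h2
    have h3 := congrArg (fun z : Equiv.Perm (Fin 45) => z j) h2
    exact h3
  rcases hcase with rfl | rfl
  · exfalso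
    have h1 : iota0 u = 1 := by
      rw [← ha]
      ext j
      exact congrArg Fin.val (lp_zero j)
    have h2 : u = 1 := iota0_inj (by rw [h1, map_one])
    have h3 : α (tvG 0) = 1 := by
      rw [hu] at h2
      have : α (tvG 0) = g * (g⁻¹ * α (tvG 0) * g) * g⁻¹ := by group
      rw [this, h2]
      group
    have h4 : tvG 0 = 1 := by
      apply α.injective
      rw [h3, map_one]
    have h5 := congrArg iota0 h4
    rw [map_one] at h5
    have h6 := congrArg (fun z : Equiv.Perm (Fin 45) => z 1) h5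
    simp only [iota_tv, Equiv.Perm.one_apply] at h6
    revert h6
    decide +kernel
  · refine ⟨g, ?_⟩
    have h1 : iota0 u = iota0 (tvG 0) := by
      rw [← ha]
      ext j
      rw [iota_tv]
      exact congrArg Fin.val (lp_b0 j)
    have h2 : u = tvG 0 := iota0_inj h1
    calc α (tvG 0) = g * u * g⁻¹ := by rw [hu]; group
      _ = g * tvG 0 * g⁻¹ := by rw [h2]

/-- Transitivity on the points. -/
theorem tt_trans : ∀ j : Fin 45, ∃ a b : Fin 45, tt a (tt b 0) = j := by decide +kernel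

theorem exists_conj_tv (i : Fin 45) : ∃ g : G, iota0 g 0 = i := by
  obtain ⟨a, b, h⟩ := tt_trans i
  refine ⟨tvG a * tvG b, ?_⟩
  rw [map_mul, Equiv.Perm.mul_apply, iota_tv, iota_tv, h]

theorem aut_tv (α : MulAut G) (i : Fin 45) : ∃ j : Fin 45, α (tvG i) = tvG j := by
  obtain ⟨g, hg⟩ := aut_tv0 α
  obtain ⟨h, rfl⟩ := exists_conj_tv i
  refine ⟨iota0 (α h * g) 0, ?_⟩
  rw [← conj_tvG, ← conj_tvG, map_mul, map_mul, map_inv, hg]
  group

theorem tvG_inj : Function.Injective tvG := by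
  have key : ∀ a b : Fin 45, (∀ j, tt a j = tt b j) → a = b := by decide +kernel
  intro a b h
  apply key
  intro j
  rw [← iota_tv, ← iota_tv, h]

end Cfsg.Agent.Lib.U42
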