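import Mathlib
import Cfsg.Agent.Lib.U42D

/-!
# The automorphism group of `PSU₄(2)` is the automorphism group of the graph on the `45` isotropic points
-/

set_option autoImplicit false
set_option maxRecDepth 100000
set_option linter.unusedSectionVars false

namespace Cfsg.Agent.Lib.U42

open Cfsg Matrix
open Cfsg.Agent.Lib.F4K Cfsg.Agent.Lib.UnitarySU Cfsg.Agent.Lib.UnitarySimple

theorem tvG_comm_iff (i j : Fin 45) : tvG i * tvG j = tvG j * tvG i ↔ gam i j = true := by
  rw [← tv_comm_iff]
  constructor
  · intro h
    exact congrArg mat h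
  · intro h
    apply G_ext
    intro x
    show (tvM i * tvM j) *ᵥ x = (tvM j * tvM i) *ᵥ x
    rw [h]

/-- The transvections generate. -/
theorem closure_tv : Subgroup.closure (Set.range tvG) = ⊤ := by
  have hn : (Subgroup.closure (Set.range tvG)).Normal := by
    refine ⟨fun x hx g => ?_⟩
    induction hx using Subgroup.closure_induction with
    | mem x hx =>
      obtain ⟨i, rfl⟩ := hx
      rw [conj_tvG]
      exact Subgroup.subset_closure ⟨_, rfl⟩
    | one => simp
    | mul a b _ _ ha hb =>
      have : g * (a * b) * g⁻¹ = (g * a * g⁻¹) * (g * b * g⁻¹) := by group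
      rw [this]
      exact Subgroup.mul_mem _ ha hb
    | inv a _ ha =>
      have : g * a⁻¹ * g⁻¹ = (g * a * g⁻¹)⁻¹ := by group
      rw [this]
      exact Subgroup.inv_mem _ ha
  rcases hn.eq_bot_or_eq_top with h | h
  · exfalso
    have h1 : tvG 0 ∈ Subgroup.closure (Set.range tvG) := Subgroup.subset_closure ⟨0, rfl⟩
    rw [h, Subgroup.mem_bot] at h1
    have h5 := congrArg iota0 h1
    rw [map_one] at h5
    have h6 := congrArg (fun z : Equiv.Perm (Fin 45) => z 1) h5
    simp only [iota_tv, Equiv.Perm.one_apply] at h6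
    revert h6
    decide +kernel
  · exact h

/-- The image of the transvections generate the group. -/
theorem TT_eq_closure : TT = Subgroup.closure (Set.range fun i => iota0 (tvG i)) := by
  have h : TT = (⊤ : Subgroup G).map iota0 := MonoidHom.range_eq_map iota0
  rw [h, ← closure_tv, MonoidHom.map_closure]
  congr 1
  ext x
  simp

/-- The permutation of an automorphism. -/
noncomputable def autF (α : MulAut G) (i : Fin 45) : Fin 45 := (aut_tv α i).choose

theorem autF_spec (α : MulAut G) (i : Fin 45) : α (tvG i) = tvG (autF α i) := (aut_tv α i).choose_spec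

theorem autF_inj (α : MulAut G) : Function.Injective (autF α) := by
  intro a b h
  apply tvG_inj
  apply α.injective
  rw [autF_spec, autF_spec, h]

/-- The permutation of an automorphism. -/
noncomputable def autP (α : MulAut G) : Equiv.Perm (Fin 45) :=
  Equiv.ofBijective (autF α) (Finite.injective_iff_bijective.mp (autF_inj α))

theorem autP_apply (α : MulAut G) (i : Fin 45) : autP α i = autF α i := rfl

theorem autP_mem (α : MulAut G) : autP α ∈ AGQ := by
  rw [mem_AGQ]
  intro i j
  have h : gam (autF α i) (autF α j) = true ↔ gam i j = true := by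
    rw [← tvG_comm_iff, ← tvG_comm_iff, ← autF_spec, ← autF_spec, ← map_mul, ← map_mul]
    exact α.injective.eq_iff
  rw [autP_apply, autP_apply]
  cases h1 : gam i j
  · cases h2 : gam (autF α i) (autF α j)
    · rfl
    · have := h.mp h2
      rw [h1] at this
      exact absurd this (by simp)
  · exact h.mpr h1

theorem autP_inj : Function.Injective (fun α : MulAut G => (⟨autP α, autP_mem α⟩ : AGQ)) := by
  intro α β h
  have h1 : autP α = autP β := congrArg Subtype.val h
  have h2 : ∀ i, α (tvG i) = β (tvG i) := by
    intro i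
    rw [autF_spec, autF_spec]
    congr 1
    exact congrArg (fun z : Equiv.Perm (Fin 45) => z i) h1
  have h3 : (α : G ≃* G).toMonoidHom = (β : G ≃* G).toMonoidHom := by
    apply MonoidHom.eq_of_eqOn_dense closure_tv
    rintro _ ⟨i, rfl⟩
    exact h2 i
  apply MulEquiv.ext
  intro x
  exact DFunLike.congr_fun h3 x

theorem card_aut_le : Nat.card (MulAut G) ≤ Nat.card AGQ :=
  Nat.card_le_card_of_injective _ autP_inj

/-- The embedding into the automorphisms of the graph. -/
noncomputable def iotaA : G →* AGQ := iota0.codRestrict AGQ (fun g => TT_le ⟨g, rfl⟩)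

theorem iotaA_val (g : G) : (iotaA g : Equiv.Perm (Fin 45)) = iota0 g := rfl

theorem iotaA_inj : Function.Injective iotaA := by
  intro a b h
  exact iota0_inj (congrArg Subtype.val h)

/-- The image in the automorphisms of the graph. -/
noncomputable abbrev NN : Subgroup AGQ := iotaA.range

theorem card_NN : Nat.card NN = 25920 := by
  rw [← card_G]
  exact (Nat.card_congr (MonoidHom.ofInjective iotaA_inj).toEquiv).symm

theorem index_NN : NN.index = 2 := by
  have h := Subgroup.card_mul_index NN
  rw [card_NN, card_AGQ] at h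
  omega

instance normal_NN : NN.Normal := Subgroup.normal_of_index_eq_two index_NN

/-- The group and its image. -/
noncomputable def eNN : G ≃* NN := MonoidHom.ofInjective iotaA_inj

theorem eNN_val (g : G) : ((eNN g : AGQ) : Equiv.Perm (Fin 45)) = iota0 g := rfl

/-- The fixed points of a transvection. -/
theorem tt_fix : ∀ i j : Fin 45, tt i j = j ↔ gam i j = true := by decide +kernel

theorem gam_rows : ∀ a b : Fin 45, (∀ i, gam i a = gam i b) → a = b := by decide +kernel

/-- The element of the automorphism group centralizing the image is trivial. -/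
theorem cent_trivial (g : Equiv.Perm (Fin 45)) (h : ∀ i, g * iota0 (tvG i) = iota0 (tvG i) * g) : g = 1 := by
  ext j
  have h1 : g j = j := by
    apply gam_rows
    intro i
    have h2 : tt i (g j) = g (tt i j) := by
      have := congrArg (fun z : Equiv.Perm (Fin 45) => z j) (h i)
      simp only [Equiv.Perm.mul_apply, iota_tv] at this
      exact this.symm
    have h3 : gam i (g j) = true ↔ gam i j = true := by
      rw [← tt_fix, ← tt_fix, h2]
      exact g.injective.eq_iff
    cases h4 : gam i j
    · cases h5 : gam i (g j)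
      · rfl
      · have := h3.mp h5
        rw [h4] at this
        exact absurd this (by simp)
    · exact h3.mpr h4
  rw [h1]
  rfl

/-- The conjugation action. -/
noncomputable def Xi : AGQ →* MulAut G :=
  (MulAut.congr eNN.symm).toMonoidHom.comp (MulAut.conjNormal (H := NN))

theorem Xi_inj : Function.Injective Xi := by
  rw [injective_iff_map_eq_one]
  intro g hg
  have h1 : ∀ x : NN, (MulAut.conjNormal (H := NN) g) x = x := by
    intro x
    have h2 : (MulAut.congr eNN.symm) (MulAut.conjNormal (H := NN) g) = 1 := hg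
    have h3 : MulAut.conjNormal (H := NN) g = 1 := by
      apply (MulAut.congr eNN.symm).injective
      rw [h2, map_one]
    rw [h3]
    rfl
  have h2 : (g : Equiv.Perm (Fin 45)) = 1 := by
    apply cent_trivial
    intro i
    have h3 := h1 (eNN (tvG i))
    have h4 : ((g : AGQ) * (eNN (tvG i) : AGQ) * g⁻¹ : AGQ) = (eNN (tvG i) : AGQ) := congrArg Subtype.val h3
    have h5 := congrArg Subtype.val h4
    have h6 : (g : Equiv.Perm (Fin 45)) * iota0 (tvG i) * (g : Equiv.Perm (Fin 45))⁻¹ = iota0 (tvG i) := h5
    calc (g : Equiv.Perm (Fin 45)) * iota0 (tvG i)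
        = ((g : Equiv.Perm (Fin 45)) * iota0 (tvG i) * (g : Equiv.Perm (Fin 45))⁻¹) * g := by group
      _ = _ := by rw [h6]
  exact Subtype.ext h2

/-- The automorphism group of the group. -/
noncomputable def eAG : AGQ ≃* MulAut G :=
  MulEquiv.ofBijective Xi (Xi_inj.bijective_of_nat_card_le card_aut_le)

/-- The automorphism group of the projective group. -/
noncomputable def eAP : AGQ ≃* MulAut (PSU 4 K4 2) :=
  eAG.trans (MulAut.congr ePSU.symm)

/-- There is no normal 2-subgroup in the automorphism group. -/
theorem normal_two_trivial (N : Subgroup AGQ) (hN : N.Normal) (h2 : IsPGroup 2 N) : N = ⊥ := by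
  have h3 : N ⊓ NN = ⊥ := by
    let N' : Subgroup G := N.comap iotaA
    have hN' : N'.Normal := Subgroup.Normal.comap hN _
    rcases hN'.eq_bot_or_eq_top with h | h
    · rw [eq_bot_iff]
      rintro x ⟨hx, g, rfl⟩
      have : g ∈ N' := hx
      rw [h, Subgroup.mem_bot] at this
      rw [this, map_one, Subgroup.mem_bot]
    · exfalso
      have h4 : NN ≤ N := by
        rintro _ ⟨g, rfl⟩
        have : g ∈ N' := by rw [h]; trivial
        exact this
      have h5 : Nat.card NN ∣ Nat.card N := Subgroup.card_dvd_of_le h4
      rw [card_NN] at h5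
      obtain ⟨k, hk⟩ := IsPGroup.iff_card.mp h2
      rw [hk] at h5
      have h6 : (3 : ℕ) ∣ 2 ^ k := Dvd.dvd.trans (by norm_num) h5
      have h7 := Nat.Prime.dvd_of_dvd_pow (by norm_num : Nat.Prime 3) h6
      omega
  rw [eq_bot_iff]
  intro g hg
  have h4 : (g : Equiv.Perm (Fin 45)) = 1 := by
    apply cent_trivial
    intro i
    have h5 : (⟨iota0 (tvG i), TT_le ⟨_, rfl⟩⟩ : AGQ) = iotaA (tvG i) := rfl
    have h6 : g * iotaA (tvG i) * g⁻¹ * (iotaA (tvG i))⁻¹ ∈ N ⊓ NN := by
      constructor
      · have : g * iotaA (tvG i) * g⁻¹ * (iotaA (tvG i))⁻¹ = g * (iotaA (tvG i) * g⁻¹ * (iotaA (tvG i))⁻¹) := by group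
        rw [this]
        exact N.mul_mem hg (hN.conj_mem _ (N.inv_mem hg) _)
      · exact NN.mul_mem (normal_NN.conj_mem _ ⟨_, rfl⟩ _) (NN.inv_mem ⟨_, rfl⟩)
    rw [h3, Subgroup.mem_bot] at h6
    have h7 : g * iotaA (tvG i) = iotaA (tvG i) * g := by
      have h8 := mul_inv_eq_one.mp h6
      calc g * iotaA (tvG i) = (g * iotaA (tvG i) * g⁻¹) * g := by group
        _ = _ := by rw [h8]
    exact congrArg Subtype.val h7
  rw [Subgroup.mem_bot]
  exact Subtype.ext h4

end Cfsg.Agent.Lib.U42
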