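import Mathlib
import Cfsg.Agent.Lib.Fi22KS
import Cfsg.Agent.Lib.Fi22K4
import Cfsg.Agent.Lib.U42E
import Cfsg.Agent.Lib.Fi22QData

/-!
# The action of the centralizer of `d₁ d₂` in `Aut(Fi₂₂)` on the `45` blocks
-/

set_option autoImplicit false
set_option maxRecDepth 1000000
set_option linter.all false

namespace Cfsg.Agent.Lib.Fi22Q

open Cfsg.Agent.Lib.Fi22K Cfsg.Agent.Lib.OutTree36 Cfsg.Agent.Lib.TcBits Cfsg.Agent.Lib.TcPres Cfsg.Agent.Lib.PresChain36
open Cfsg.Agent.TcData.Fi22.I3510 Cfsg.Agent.TcData.Fi22 Cfsg.Agent.TcChain36.Fi22 Cfsg.Agent.TcChain36.Out.Fi22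
open Cfsg.Agent.Lib.U42 (gam AGQ tt iota0 tvG TT)

/-- The automorphism group. -/
abbrev AQ : Type := MulAut Gq

/-- The product. -/
noncomputable def zq : Gq := Lt 0 * Lt 2

/-- Its inner automorphism. -/
noncomputable def jq : AQ := MulAut.conj zq

/-- The centralizer. -/
noncomputable abbrev CC : Subgroup AQ := Subgroup.centralizer ({jq} : Set AQ)

theorem aut_conj (φ : AQ) (g : Gq) : φ * MulAut.conj g * φ⁻¹ = MulAut.conj (φ g) := by
  apply MulEquiv.ext
  intro y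
  show φ (g * φ⁻¹ y * g⁻¹) = φ g * y * (φ g)⁻¹
  rw [map_mul, map_mul, map_inv]
  have : φ (φ⁻¹ y) = y := by
    show (φ * φ⁻¹) y = y
    rw [mul_inv_cancel]
    rfl
  rw [this]

theorem mem_CC {φ : AQ} : φ ∈ CC ↔ φ zq = zq := by
  rw [Subgroup.mem_centralizer_singleton_iff]
  constructor
  · intro h
    apply conj_inj
    rw [← aut_conj]
    show φ * jq * φ⁻¹ = jq
    rw [h]
    group
  · intro h
    have h1 := aut_conj φ zq
    rw [h] at h1
    change φ * jq * φ⁻¹ = jq at h1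
    calc φ * jq = (φ * jq * φ⁻¹) * φ := by group
      _ = jq * φ := by rw [h1]

theorem aut_mem (φ : AQ) {t : Gq} (ht : t ∈ D0) : φ t ∈ D0 := by
  have := aut_D0 φ
  rw [← this]
  exact ⟨t, ht, rfl⟩

theorem Lt0_D0 : Lt 0 ∈ D0 := Lt_D0 0 (by norm_num)
theorem Lt2_D0 : Lt 2 ∈ D0 := Lt_D0 2 (by norm_num)

theorem Lt02_ne : Lt 0 ≠ Lt 2 := by
  intro h
  have h1 := Lt0_pq
  rw [h] at h1
  have := pq_uniq h1 Lt2_pq
  omega

/-- An element of the centralizer fixes the pair. -/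
theorem CC_swap {φ : AQ} (hφ : φ ∈ CC) :
    (φ (Lt 0) = Lt 0 ∧ φ (Lt 2) = Lt 2) ∨ (φ (Lt 0) = Lt 2 ∧ φ (Lt 2) = Lt 0) := by
  have h1 := mem_CC.mp hφ
  have hne : φ (Lt 0) ≠ φ (Lt 2) := fun h => Lt02_ne (φ.injective h)
  have hc : φ (Lt 0) * φ (Lt 2) = φ (Lt 2) * φ (Lt 0) := by
    rw [← map_mul, ← map_mul, c02]
  have f1 := fac2_of (aut_mem φ Lt0_D0) (aut_mem φ Lt2_D0) hne hc
  rw [← map_mul] at f1
  change Fac D0 2 (φ zq) _ at f1
  rw [h1] at f1
  have f2 := fac2_of Lt0_D0 Lt2_D0 Lt02_ne c02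
  have hS := uniq2_std _ _ f1 f2
  have e1 : φ (Lt 0) ∈ [φ (Lt 0), φ (Lt 2)] := by simp
  have e2 : φ (Lt 2) ∈ [φ (Lt 0), φ (Lt 2)] := by simp
  rw [hS] at e1 e2
  simp only [List.mem_cons, List.not_mem_nil, or_false] at e1 e2
  rcases e1 with e1 | e1 <;> rcases e2 with e2 | e2
  · exact absurd (e1.trans e2.symm) hne
  · exact Or.inl ⟨e1, e2⟩
  · exact Or.inr ⟨e1, e2⟩
  · exact absurd (e1.trans e2.symm) hne

/-! ### The blocks -/

/-- The word of a transposition of a block. -/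
def wd (c : ℕ) : List ℕ := wdL.getD c []

/-- The index of a point. -/
def cTN (p : ℕ) : ℕ := tget 8 cTP p

/-- The point. -/
noncomputable def rp (c : ℕ) : ℕ := ev ap (wd c) 0

/-- The transposition. -/
noncomputable def tc (c : ℕ) : Gq := trq (wd c)

theorem tc_pq (c : ℕ) : Pq (tc c) (rp c) := trq_pq _

/-- The points of the transpositions commuting with the pair. -/
noncomputable def isOq (p : ℕ) : Bool :=
  Nat.blt p 3510 && Nat.beq (ap 0 p) p && Nat.beq (ap 2 p) p && !Nat.beq p 0 && !Nat.beq p 12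

set_option Elab.async false in
theorem chkO1 : allR (fun p => !isOq p || (Nat.blt (cTN p) 180 && Nat.beq (rp (cTN p)) p)) 12 0 = true := by
  decide +kernel

set_option Elab.async false in
theorem chkO2 : allN 180 (fun c => isOq (rp c) && Nat.beq (cTN (rp c)) c) = true := by decide +kernel

theorem isOq_spec {p : ℕ} (h : isOq p = true) : p < 3510 ∧ ap 0 p = p ∧ ap 2 p = p ∧ p ≠ 0 ∧ p ≠ 12 := by
  simp only [isOq, Bool.and_eq_true, Bool.not_eq_true'] at h
  obtain ⟨⟨⟨⟨h1, h2⟩, h3⟩, h4⟩, h5⟩ := h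
  refine ⟨Nat.le_of_ble_eq_true h1, beq_true h2, beq_true h3, ?_, ?_⟩
  · rintro rfl
    simp at h4
  · rintro rfl
    simp at h5

theorem isOq_of {p : ℕ} (h1 : p < 3510) (h2 : ap 0 p = p) (h3 : ap 2 p = p) (h4 : p ≠ 0) (h5 : p ≠ 12) :
    isOq p = true := by
  have e1 : Nat.blt p 3510 = true := Nat.ble_eq_true_of_le h1
  have e2 : Nat.beq (ap 0 p) p = true := by rw [h2, Nat.beq_refl]
  have e3 : Nat.beq (ap 2 p) p = true := by rw [h3, Nat.beq_refl]
  have e4 : Nat.beq p 0 = false := by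
    rw [Bool.eq_false_iff]; intro h; exact h4 (beq_true h)
  have e5 : Nat.beq p 12 = false := by
    rw [Bool.eq_false_iff]; intro h; exact h5 (beq_true h)
  simp only [isOq, e1, e2, e3, e4, e5, Bool.and_true, Bool.not_false]

theorem O1 {p : ℕ} (h : isOq p = true) : cTN p < 180 ∧ rp (cTN p) = p := by
  have hp := (isOq_spec h).1
  have h1 := allR_spec _ 0 chkO1 p (Nat.zero_le _) (by omega)
  simp only [h, Bool.not_true, Bool.false_or, Bool.and_eq_true] at h1
  exact ⟨Nat.le_of_ble_eq_true h1.1, beq_true h1.2⟩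

theorem O2 {c : ℕ} (h : c < 180) : isOq (rp c) = true ∧ cTN (rp c) = c := by
  have h1 := allN_spec chkO2 h
  simp only [Bool.and_eq_true] at h1
  exact ⟨h1.1, beq_true h1.2⟩

theorem rp_lt {c : ℕ} (h : c < 180) : rp c < 3510 := (isOq_spec (O2 h).1).1

/-- The block of an index. -/
def bl (c : ℕ) : Fin 45 := ⟨Nat.mod (Nat.div c 4) 45, Nat.mod_lt _ (by decide)⟩

theorem bl_four : ∀ i : Fin 45, bl (4 * i.val) = i := by decide +kernel

theorem four_lt (i : Fin 45) : 4 * i.val < 180 := by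
  have := i.2
  omega

set_option Elab.async false in
theorem chkC : allN 180 (fun c => allN 180 (fun d =>
    !(xor (Nat.beq (ev ap (trW (wd c)) (rp d)) (rp d)) (gam (bl c) (bl d))))) = true := by decide +kernel

theorem comm_tc {c d : ℕ} (hc : c < 180) (hd : d < 180) : tc c * tc d = tc d * tc c ↔ gam (bl c) (bl d) = true := by
  rw [comm_iff_fix (tc_pq c) (tc_pq d)]
  have h1 := allN_spec (allN_spec chkC hc) hd
  have e : Phi (tc c) (rp d) = ev ap (trW (wd c)) (rp d) := by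
    rw [tc, ← evL_trW]
    exact H.ev_eq _ (rp_lt hd)
  rw [e]
  cases h2 : gam (bl c) (bl d)
  · rw [h2] at h1
    simp only [Bool.xor_false, Bool.not_eq_true'] at h1
    simp only [Bool.false_eq_true, iff_false]
    intro h3
    rw [h3, Nat.beq_refl] at h1
    simp at h1
  · rw [h2] at h1
    simp only [Bool.xor_true, Bool.not_not] at h1
    simp only [iff_true]
    exact beq_true h1

/-- The transpositions commuting with the pair. -/
structure InD2 (t : Gq) : Prop where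
  mem : t ∈ D0
  nx : t ≠ Lt 0
  ny : t ≠ Lt 2
  cx : Lt 0 * t = t * Lt 0
  cy : Lt 2 * t = t * Lt 2

theorem InD2.pt {t : Gq} (h : InD2 t) {p : ℕ} (hp : Pq t p) : isOq p = true := by
  have hlt := lt_of_pq hp
  refine isOq_of hlt ?_ ?_ ?_ ?_
  · rw [← ap_eq hlt 0]
    exact (comm_iff_fix Lt0_pq hp).1 h.cx
  · rw [← ap_eq hlt 2]
    exact (comm_iff_fix Lt2_pq hp).1 h.cy
  · rintro rfl
    exact h.nx (pq_inj hp Lt0_pq)
  · rintro rfl
    exact h.ny (pq_inj hp Lt2_pq)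

theorem InD2.exists_c {t : Gq} (h : InD2 t) : ∃ c, c < 180 ∧ t = tc c := by
  obtain ⟨p, _, hp⟩ := exists_pq h.mem
  have h1 := O1 (h.pt hp)
  refine ⟨cTN p, h1.1, pq_inj hp ?_⟩
  have := tc_pq (cTN p)
  rwa [h1.2] at this

theorem inD2_tc {c : ℕ} (hc : c < 180) : InD2 (tc c) := by
  have h1 := isOq_spec (O2 hc).1
  obtain ⟨h2, h3, h4, h5, h6⟩ := h1
  refine ⟨mem_D0_of_pq (tc_pq c), ?_, ?_, ?_, ?_⟩
  · intro e
    have h7 := tc_pq c
    rw [e] at h7
    exact h5 (pq_uniq h7 Lt0_pq)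
  · intro e
    have h7 := tc_pq c
    rw [e] at h7
    exact h6 (pq_uniq h7 Lt2_pq)
  · rw [comm_iff_fix Lt0_pq (tc_pq c), ap_eq h2]
    exact h3
  · rw [comm_iff_fix Lt2_pq (tc_pq c), ap_eq h2]
    exact h4

theorem tc_inj {c d : ℕ} (hc : c < 180) (hd : d < 180) (h : tc c = tc d) : c = d := by
  have h1 := tc_pq c
  rw [h] at h1
  have h2 := pq_uniq h1 (tc_pq d)
  rw [← (O2 hc).2, ← (O2 hd).2, h2]

open Classical in
/-- The index of a transposition. -/
noncomputable def cOf (t : Gq) : ℕ := if h : ∃ c, c < 180 ∧ t = tc c then h.choose else 0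

theorem cOf_spec {t : Gq} (h : InD2 t) : cOf t < 180 ∧ t = tc (cOf t) := by
  have h1 := h.exists_c
  rw [cOf, dif_pos h1]
  exact h1.choose_spec

theorem cOf_tc {c : ℕ} (hc : c < 180) : cOf (tc c) = c := by
  have h1 := cOf_spec (inD2_tc hc)
  exact tc_inj h1.1 hc h1.2.symm

/-- The block of a transposition. -/
noncomputable def blk (t : Gq) : Fin 45 := bl (cOf t)

theorem blk_tc {c : ℕ} (hc : c < 180) : blk (tc c) = bl c := by rw [blk, cOf_tc hc]

theorem blk_pq {t : Gq} (h : InD2 t) {q : ℕ} (hq : Pq t q) : blk t = bl (cTN q) := by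
  have h1 := O1 (h.pt hq)
  have h2 : t = tc (cTN q) := pq_inj hq (by
    have := tc_pq (cTN q)
    rwa [h1.2] at this)
  conv_lhs => rw [h2]
  exact blk_tc h1.1

theorem comm_D2 {s t : Gq} (hs : InD2 s) (ht : InD2 t) : s * t = t * s ↔ gam (blk s) (blk t) = true := by
  obtain ⟨h1, e1⟩ := cOf_spec hs
  obtain ⟨h2, e2⟩ := cOf_spec ht
  rw [blk, blk, ← comm_tc h1 h2, ← e1, ← e2]

theorem InD2.map {φ : AQ} (hφ : φ ∈ CC) {t : Gq} (h : InD2 t) : InD2 (φ t) := by
  have hx : φ t ≠ φ (Lt 0) := fun e => h.nx (φ.injective e)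
  have hy : φ t ≠ φ (Lt 2) := fun e => h.ny (φ.injective e)
  have cx : φ (Lt 0) * φ t = φ t * φ (Lt 0) := by rw [← map_mul, ← map_mul, h.cx]
  have cy : φ (Lt 2) * φ t = φ t * φ (Lt 2) := by rw [← map_mul, ← map_mul, h.cy]
  rcases CC_swap hφ with ⟨e1, e2⟩ | ⟨e1, e2⟩
  · rw [e1] at hx cx
    rw [e2] at hy cy
    exact ⟨aut_mem φ h.mem, hx, hy, cx, cy⟩
  · rw [e1] at hx cx
    rw [e2] at hy cy
    exact ⟨aut_mem φ h.mem, hy, hx, cy, cx⟩

theorem apply_inv (φ : AQ) (x : Gq) : φ (φ⁻¹ x) = x := by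
  show (φ * φ⁻¹) x = x
  rw [mul_inv_cancel]
  rfl

/-- The blocks are permuted. -/
theorem blk_map {φ : AQ} (hφ : φ ∈ CC) {s t : Gq} (hs : InD2 s) (ht : InD2 t) (h : blk s = blk t) :
    blk (φ s) = blk (φ t) := by
  apply Cfsg.Agent.Lib.U42.gam_rows
  intro i
  have hc := four_lt i
  have hu : InD2 (φ⁻¹ (tc (4 * i.val))) := InD2.map (CC.inv_mem hφ) (inD2_tc hc)
  set u := φ⁻¹ (tc (4 * i.val)) with hudef
  have e1 : φ u = tc (4 * i.val) := apply_inv φ _
  have e2 : blk (φ u) = i := by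
    rw [e1, blk_tc hc, bl_four i]
  have key : ∀ w, InD2 w → (gam i (blk (φ w)) = true ↔ gam (blk u) (blk w) = true) := by
    intro w hw
    have h1 : gam (blk (φ u)) (blk (φ w)) = true ↔ φ u * φ w = φ w * φ u :=
      (comm_D2 (hu.map hφ) (hw.map hφ)).symm
    rw [e2] at h1
    rw [h1, ← map_mul, ← map_mul, φ.injective.eq_iff, comm_D2 hu hw]
  rw [Bool.eq_iff_iff, key s hs, key t ht, h]

/-- The action on the blocks. -/
noncomputable def piF (φ : AQ) (i : Fin 45) : Fin 45 := blk (φ (tc (4 * i.val)))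

/-- The action on the blocks. -/
noncomputable def piEnd : CC →* Function.End (Fin 45) where
  toFun φ := piF φ.1
  map_one' := by
    funext i
    show blk (tc (4 * i.val)) = i
    rw [blk_tc (four_lt i), bl_four]
  map_mul' := by
    intro φ ψ
    funext i
    show blk (φ.1 (ψ.1 (tc (4 * i.val)))) = blk (φ.1 (tc (4 * (blk (ψ.1 (tc (4 * i.val)))).val)))
    apply blk_map φ.2 ((inD2_tc (four_lt i)).map ψ.2) (inD2_tc (four_lt _))
    rw [blk_tc (four_lt _), bl_four]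

/-- The action on the blocks. -/
noncomputable def piP : CC →* Equiv.Perm (Fin 45) := piEnd.toHomPerm

theorem piP_apply (φ : CC) (i : Fin 45) : piP φ i = piF φ.1 i := rfl

theorem piP_mem (φ : CC) : piP φ ∈ AGQ := by
  intro i j
  show gam (piF φ.1 i) (piF φ.1 j) = gam i j
  have hi := inD2_tc (four_lt i)
  have hj := inD2_tc (four_lt j)
  rw [Bool.eq_iff_iff]
  have h1 := comm_D2 (hi.map φ.2) (hj.map φ.2)
  have h2 := comm_D2 hi hj
  rw [blk_tc (four_lt i), blk_tc (four_lt j), bl_four, bl_four] at h2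
  rw [piF, piF, ← h1, ← map_mul, ← map_mul, φ.1.injective.eq_iff, h2]

/-- The action of an inner automorphism on the blocks. -/
theorem piP_conj {g : Gq} (hg : MulAut.conj g ∈ CC) (i : Fin 45) :
    piP ⟨MulAut.conj g, hg⟩ i = bl (cTN (Phi g (rp (4 * i.val)))) := by
  rw [piP_apply, piF]
  have h1 := (inD2_tc (four_lt i)).map hg
  apply blk_pq h1
  exact pq_conj (tc_pq _) g

theorem conj_mem_CC {g : Gq} (hg : g * zq = zq * g) : MulAut.conj g ∈ CC := by
  rw [mem_CC, MulAut.conj_apply, hg]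
  group

theorem tc_comm {c : ℕ} (hc : c < 180) : tc c * zq = zq * tc c := by
  have h := inD2_tc hc
  rw [zq]
  calc tc c * (Lt 0 * Lt 2) = (tc c * Lt 0) * Lt 2 := by group
    _ = (Lt 0 * tc c) * Lt 2 := by rw [h.cx]
    _ = Lt 0 * (tc c * Lt 2) := by group
    _ = Lt 0 * (Lt 2 * tc c) := by rw [h.cy]
    _ = _ := by group

/-! ### The image -/

set_option Elab.async false in
theorem chkT : allN 45 (fun i => allN 45 (fun j =>
    Nat.beq (bl (cTN (ev ap (trW (wd (4 * i))) (rp (4 * j))))).val (Cfsg.Agent.Lib.U42.ttN i j % 45))) = true := by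
  decide +kernel

theorem piP_tc (i : Fin 45) : piP ⟨MulAut.conj (tc (4 * i.val)), conj_mem_CC (tc_comm (four_lt i))⟩ = iota0 (tvG i) := by
  ext j
  rw [piP_conj, Cfsg.Agent.Lib.U42.iota_tv]
  have h1 : Phi (tc (4 * i.val)) (rp (4 * j.val)) = ev ap (trW (wd (4 * i.val))) (rp (4 * j.val)) := by
    rw [tc, ← evL_trW]
    exact H.ev_eq _ (rp_lt (four_lt j))
  rw [h1]
  exact beq_true (allN_spec (allN_spec chkT i.2) j.2)

theorem TT_le_range : TT ≤ piP.range := by
  rw [Cfsg.Agent.Lib.U42.TT_eq_closure, Subgroup.closure_le]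
  rintro _ ⟨i, rfl⟩
  exact ⟨_, piP_tc i⟩

/-- The word of the element swapping the pair. -/
def swW : List ℕ := [1, 2, 0, 1]

/-- The element swapping the pair. -/
noncomputable def swq : Gq := evL Lt swW

theorem swq_comm : swq * zq = zq * swq := by
  have h : evL Lt (swW ++ [0, 2] ++ invW iv swW ++ [2, 0]) = 1 := evL_eq_one (by decide +kernel)
  rw [evL_append, evL_append, evL_append, evL_invW hiv] at h
  have e : evL Lt [0, 2] = zq := by simp [zq, evL]
  have e' : evL Lt [2, 0] = zq⁻¹ := by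
    have h1 : evL Lt [2, 0] = Lt 2 * Lt 0 := by simp [evL]
    rw [h1, zq, mul_inv_rev, ← hiv 0, ← hiv 2]
    rfl
  rw [e, e'] at h
  change swq * zq * swq⁻¹ * zq⁻¹ = 1 at h
  have h2 := mul_inv_eq_one.mp h
  calc swq * zq = (swq * zq * swq⁻¹) * swq := by group
    _ = zq * swq := by rw [h2]

/-- The permutation of the element swapping the pair. -/
def swLF : List (Fin 45 × Fin 45) :=
  [(0, 26), (2, 33), (3, 19), (5, 40), (7, 38), (8, 24), (9, 16), (10, 43), (12, 36), (14, 23), (15, 22), (18, 44), (20, 39), (27, 32), (35, 37)]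

set_option Elab.async false in
theorem chkS : allN 45 (fun j =>
    Nat.beq (bl (cTN (ev ap swW (rp (4 * j))))).val (Cfsg.Agent.Lib.U42.swpF swLF (bl (4 * j))).val) = true := by
  decide +kernel

theorem piP_sw : piP ⟨MulAut.conj swq, conj_mem_CC swq_comm⟩ = (swLF.map (fun x => Equiv.swap x.1 x.2)).prod := by
  ext j
  rw [piP_conj, Cfsg.Agent.Lib.U42.swp_apply]
  have h1 : Phi swq (rp (4 * j.val)) = ev ap swW (rp (4 * j.val)) := H.ev_eq _ (rp_lt (four_lt j))
  rw [h1]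
  have h2 := beq_true (allN_spec chkS j.2)
  rw [bl_four] at h2
  exact h2

theorem sign_piP_sw : Equiv.Perm.sign (piP ⟨MulAut.conj swq, conj_mem_CC swq_comm⟩) = -1 := by
  rw [piP_sw, Cfsg.Agent.Lib.U42.sign_swaps swLF (by decide +kernel)]
  rfl

theorem range_piP : piP.range = AGQ := by
  apply Cfsg.Agent.Lib.U42.eq_AGQ (f := piP ⟨MulAut.conj swq, conj_mem_CC swq_comm⟩) _ TT_le_range ⟨_, rfl⟩ sign_piP_sw
  rintro _ ⟨φ, rfl⟩
  exact piP_mem φ

end Cfsg.Agent.Lib.Fi22Q
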