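import Mathlib
import Cfsg.Agent.Lib.Fi22Q1

/-!
# The order of the centralizer of `d₁ d₂` in `Aut(Fi₂₂)`; the kernel on the blocks has order `2¹¹`
-/

set_option autoImplicit false
set_option maxRecDepth 1000000
set_option linter.all false

namespace Cfsg.Agent.Lib.Fi22Q

open Cfsg.Agent.Lib.Fi22K Cfsg.Agent.Lib.OutTree36 Cfsg.Agent.Lib.TcBits Cfsg.Agent.Lib.TcPres Cfsg.Agent.Lib.PresChain36
open Cfsg.Agent.TcData.Fi22.I3510 Cfsg.Agent.TcData.Fi22 Cfsg.Agent.TcChain36.Fi22 Cfsg.Agent.TcChain36.Out.Fi22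
open Cfsg.Agent.Lib.U42 (gam AGQ tt iota0 tvG TT)

/-- The outer element. -/
noncomputable def tauq : AQ := MulAut.conj swq * σ

theorem tau_apply (y : Gq) : tauq y = swq * σ y * swq⁻¹ := rfl

theorem σ_z : σ zq = zq := by
  have h1 := σ_Lt 0 (by norm_num)
  have h2 := σ_Lt 2 (by norm_num)
  rw [q0] at h1
  have h3 : qI 2 = 2 := by decide +kernel
  rw [h3] at h2
  rw [zq, map_mul, h1, h2]

theorem tau_z : tauq zq = zq := by
  rw [tau_apply, σ_z, swq_comm]
  group

theorem tau_mem : tauq ∈ CC := mem_CC.mpr tau_z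

theorem tau_not_inn : tauq ∉ Cfsg.Inn Gq := by
  rintro ⟨g, hg⟩
  apply hσ
  refine ⟨swq⁻¹ * g, ?_⟩
  have h : (σ : MulAut Gq) = (MulAut.conj swq)⁻¹ * tauq := by
    simp only [tauq]; group
  rw [h, ← hg, map_mul, map_inv]

/-- The centralizer in the group. -/
noncomputable abbrev H0 : Subgroup Gq := Subgroup.centralizer ({zq} : Set Gq)

theorem mem_H0 {g : Gq} : g ∈ H0 ↔ g * zq = zq * g := Subgroup.mem_centralizer_singleton_iff

theorem H0_pts {g : Gq} (hg : g ∈ H0) :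
    (Phi g 0 = 0 ∧ Phi g 12 = 12) ∨ (Phi g 0 = 12 ∧ Phi g 12 = 0) := by
  have h0 := conj_mem_CC (mem_H0.mp hg)
  have p0 := pq_conj Lt0_pq g
  have p2 := pq_conj Lt2_pq g
  rcases CC_swap h0 with ⟨e1, e2⟩ | ⟨e1, e2⟩
  · left
    rw [MulAut.conj_apply] at e1 e2
    rw [e1] at p0
    rw [e2] at p2
    exact ⟨pq_uniq p0 Lt0_pq, pq_uniq p2 Lt2_pq⟩
  · right
    rw [MulAut.conj_apply] at e1 e2
    rw [e1] at p0
    rw [e2] at p2
    exact ⟨pq_uniq p0 Lt2_pq, pq_uniq p2 Lt0_pq⟩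

/-- The stabilizer of the pair. -/
noncomputable abbrev K2 : Subgroup Gq := ptStab Phi ([12, 0] : List ℕ)

theorem K2_le : K2 ≤ H0 := by
  intro g hg
  rw [mem_H0, zq]
  have h1 : Phi g 0 = 0 := hg 0 (by simp)
  have h2 : Phi g 12 = 12 := hg 12 (by simp)
  have c0 := comm_of_fix Lt0_pq h1
  have c2 := comm_of_fix Lt2_pq h2
  calc g * (Lt 0 * Lt 2) = (g * Lt 0) * Lt 2 := by group
    _ = Lt 0 * (g * Lt 2) := by rw [c0]; group
    _ = Lt 0 * (Lt 2 * g) := by rw [c2]
    _ = _ := by group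

theorem swq_pt : Phi swq 0 = 12 := by
  show Phi (evL Lt swW) 0 = 12
  rw [H.ev_eq _ (by norm_num)]
  decide +kernel

theorem card_H0 : Nat.card H0 = 2 * 26542080 := by
  classical
  haveI := finGq'
  let t : H0 → Bool := fun g => decide (Phi g.1 0 = 0)
  have h := card_eq_of_fiber H0 K2 K2_le t ?_ ?_
  · rw [h, card_K2]
    simp
  · intro g h
    simp only [t, decide_eq_decide]
    have hg := H0_pts g.2
    have hh := H0_pts h.2
    have e : ∀ a b : Gq, a⁻¹ * b ∈ K2 ↔ Phi a 12 = Phi b 12 ∧ Phi a 0 = Phi b 0 := by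
      intro a b
      rw [mem_ptStab]
      simp only [List.mem_cons, List.not_mem_nil, or_false, forall_eq_or_imp, forall_eq, map_mul, map_inv,
        Equiv.Perm.mul_apply]
      rw [Equiv.Perm.inv_eq_iff_eq, Equiv.Perm.inv_eq_iff_eq]
      constructor
      · rintro ⟨h1, h2⟩
        exact ⟨h1.symm, h2.symm⟩
      · rintro ⟨h1, h2⟩
        exact ⟨h1.symm, h2.symm⟩
    rw [e]
    rcases hg with ⟨g1, g2⟩ | ⟨g1, g2⟩ <;> rcases hh with ⟨h1, h2⟩ | ⟨h1, h2⟩ <;> simp [g1, g2, h1, h2]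
  · intro b
    cases b
    · refine ⟨⟨swq, mem_H0.mpr swq_comm⟩, ?_⟩
      simp only [t, decide_eq_false_iff_not, swq_pt]
      norm_num
    · refine ⟨1, ?_⟩
      simp [t]

theorem card_CC : Nat.card CC = 106168320 := by
  classical
  haveI : Finite Gq := finGp
  let K : Subgroup AQ := CC ⊓ Cfsg.Inn Gq
  let t : CC → Cfsg.Out Gq := fun g => (g.1 : MulAut Gq ⧸ Cfsg.Inn Gq)
  have hsurj : Function.Surjective t := by
    let f : Bool → Cfsg.Out Gq := fun b => if b then ((tauq : AQ) : MulAut Gq ⧸ Cfsg.Inn Gq) else ((1 : AQ) : MulAut Gq ⧸ Cfsg.Inn Gq)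
    have hf : Function.Injective f := by
      intro a b hab
      cases a <;> cases b <;> simp only [f, if_true, if_false, Bool.false_eq_true] at hab
      · rfl
      · exfalso
        apply tau_not_inn
        have := QuotientGroup.eq.mp hab
        simpa using this
      · exfalso
        apply tau_not_inn
        have := QuotientGroup.eq.mp hab
        have h2 : tauq⁻¹ ∈ Cfsg.Inn Gq := by simpa using this
        simpa using (Cfsg.Inn Gq).inv_mem h2
      · rfl
    have hb := hf.bijective_of_nat_card_le (by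
      rw [show Nat.card (Cfsg.Out Gq) = 2 from out_eq]
      simp)
    intro x
    obtain ⟨b, rfl⟩ := hb.2 x
    cases b
    · exact ⟨1, rfl⟩
    · exact ⟨⟨tauq, tau_mem⟩, rfl⟩
  have h := card_eq_of_fiber CC K inf_le_left t ?_ hsurj
  · have hK : K = H0.map (MulAut.conj : Gq →* MulAut Gq) := by
      ext φ
      constructor
      · rintro ⟨h1, g, rfl⟩
        refine ⟨g, mem_H0.mpr ?_, rfl⟩
        have h2 := mem_CC.mp h1
        rw [MulAut.conj_apply] at h2
        calc g * zq = (g * zq * g⁻¹) * g := by group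
          _ = zq * g := by rw [h2]
      · rintro ⟨g, hg, rfl⟩
        exact ⟨conj_mem_CC (mem_H0.mp hg), g, rfl⟩
    rw [h, show Nat.card (Cfsg.Out Gq) = 2 from out_eq, hK, Subgroup.card_map_of_injective conj_inj, card_H0]
  · intro g h
    have e : (g.1 : MulAut Gq ⧸ Cfsg.Inn Gq) = (h.1 : MulAut Gq ⧸ Cfsg.Inn Gq) ↔ g.1⁻¹ * h.1 ∈ Cfsg.Inn Gq :=
      QuotientGroup.eq
    show (g.1 : MulAut Gq ⧸ Cfsg.Inn Gq) = (h.1 : MulAut Gq ⧸ Cfsg.Inn Gq) ↔ _
    rw [e]
    constructor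
    · intro h1
      exact ⟨CC.mul_mem (CC.inv_mem g.2) h.2, h1⟩
    · intro h1
      exact h1.2

/-- The kernel on the blocks. -/
noncomputable abbrev P0 : Subgroup CC := piP.ker

instance finCC : Finite CC := by
  haveI : Finite Gq := finGp
  infer_instance

theorem card_P0 : Nat.card P0 = 2048 := by
  have h := Subgroup.card_mul_index P0
  have h2 : P0.index = Nat.card piP.range := Subgroup.index_ker piP
  rw [h2, range_piP, Cfsg.Agent.Lib.U42.card_AGQ, card_CC] at h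
  omega

/-- The kernel on the blocks, as a subgroup of the automorphism group. -/
noncomputable abbrev PP : Subgroup AQ := P0.map CC.subtype

theorem card_PP : Nat.card PP = 2048 := by
  rw [Subgroup.card_map_of_injective CC.subtype_injective, card_P0]

theorem mem_PP {φ : AQ} : φ ∈ PP ↔ ∃ h : φ ∈ CC, piP ⟨φ, h⟩ = 1 := by
  constructor
  · rintro ⟨⟨ψ, h⟩, hψ, rfl⟩
    exact ⟨h, hψ⟩
  · rintro ⟨h, hψ⟩
    exact ⟨⟨φ, h⟩, hψ, rfl⟩

end Cfsg.Agent.Lib.Fi22Q
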