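import Mathlib
import Cfsg.Agent.Lib.Fi22Q2
import Cfsg.Agent.Lib.ExtraChain

/-!
# Generators of the kernel on the blocks, with their commutators and squares
-/

set_option autoImplicit false
set_option maxRecDepth 1000000
set_option linter.all false

namespace Cfsg.Agent.Lib.Fi22Q

open Cfsg.Agent.Lib.Fi22K Cfsg.Agent.Lib.OutTree36 Cfsg.Agent.Lib.TcBits Cfsg.Agent.Lib.TcPres Cfsg.Agent.Lib.PresChain36
open Cfsg.Agent.TcData.Fi22.I3510 Cfsg.Agent.TcData.Fi22 Cfsg.Agent.TcChain36.Fi22 Cfsg.Agent.TcChain36.Out.Fi22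
open Cfsg.Agent.Lib.ExtraChain

/-- The inner automorphism of a word. -/
noncomputable def eI (w : List ℕ) : AQ := MulAut.conj (evL Lt w)

theorem eI_mul (u v : List ℕ) : eI u * eI v = eI (u ++ v) := by
  rw [eI, eI, eI, evL_append, map_mul]

theorem ev02 : evL Lt [0, 2] = zq := by simp [zq, evL]

theorem ev20 : evL Lt [2, 0] = zq⁻¹ := by
  have h1 : evL Lt [2, 0] = Lt 2 * Lt 0 := by simp [evL]
  rw [h1, zq, mul_inv_rev, ← hiv 0, ← hiv 2]
  rfl

theorem jq_eq : jq = eI [0, 2] := by rw [eI, ev02, jq]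

/-- The test for commuting. -/
noncomputable def tC (u v : List ℕ) : Bool := isOne ap bsL (u ++ v ++ invW iv u ++ invW iv v)

/-- The test for the relation. -/
noncomputable def tR (u v : List ℕ) : Bool :=
  tC u v || isOne ap bsL ([2, 0] ++ (u ++ v ++ invW iv u ++ invW iv v))

theorem ev_comm {u v : List ℕ} (h : tC u v = true) : evL Lt u * evL Lt v = evL Lt v * evL Lt u := by
  have h1 := evL_eq_one h
  rw [evL_append, evL_append, evL_append, evL_invW hiv, evL_invW hiv] at h1
  have h2 : evL Lt u * evL Lt v * (evL Lt u)⁻¹ = evL Lt v := mul_inv_eq_one.mp h1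
  calc evL Lt u * evL Lt v = (evL Lt u * evL Lt v * (evL Lt u)⁻¹) * evL Lt u := by group
    _ = _ := by rw [h2]

theorem eI_comm {u v : List ℕ} (h : tC u v = true) : eI u * eI v = eI v * eI u := by
  rw [eI, eI, ← map_mul, ← map_mul, ev_comm h]

theorem rl_tR {u v : List ℕ} (h : tR u v = true) : Rl jq (eI u) (eI v) := by
  simp only [tR, Bool.or_eq_true] at h
  rcases h with h | h
  · exact Or.inl (eI_comm h)
  · right
    have h1 := evL_eq_one h
    rw [evL_append, evL_append, evL_append, evL_append, evL_invW hiv, evL_invW hiv, ev20] at h1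
    have h2 : evL Lt u * evL Lt v * (evL Lt u)⁻¹ * (evL Lt v)⁻¹ = zq := (inv_mul_eq_one.mp h1).symm
    have h3 : evL Lt u * evL Lt v = zq * (evL Lt v * evL Lt u) := by
      rw [← h2]
      group
    rw [eI, eI, jq, ← map_mul, ← map_mul, ← map_mul, h3]

/-- The test for squares. -/
noncomputable def tS (u : List ℕ) : Bool := isOne ap bsL (u ++ u) || isOne ap bsL ([2, 0] ++ (u ++ u))

theorem sq_tS {u : List ℕ} (h : tS u = true) : eI u * eI u = 1 ∨ eI u * eI u = jq := by
  simp only [tS, Bool.or_eq_true] at h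
  rcases h with h | h
  · left
    rw [eI_mul, eI, evL_eq_one h, map_one]
  · right
    have h1 := evL_eq_one h
    rw [evL_append, ev20] at h1
    have h2 : evL Lt (u ++ u) = zq := (inv_mul_eq_one.mp h1).symm
    rw [eI_mul, eI, h2, jq]

/-- The image of a word under the outer element. -/
def tU (u : List ℕ) : List ℕ := swW ++ u.map qI ++ invW iv swW

theorem σ_ev (u : List ℕ) (h : ∀ a ∈ u, a < 9) : σ (evL Lt u) = evL Lt (u.map qI) := by
  induction u with
  | nil => simp
  | cons a u ih =>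
    rw [evL_cons, map_mul, σ_Lt a (h a List.mem_cons_self), ih (fun b hb => h b (List.mem_cons_of_mem _ hb)),
      List.map_cons, evL_cons]

theorem tau_ev (u : List ℕ) (h : ∀ a ∈ u, a < 9) : tauq (evL Lt u) = evL Lt (tU u) := by
  rw [tau_apply, σ_ev u h, tU, evL_append, evL_append, evL_invW hiv]
  rfl

/-- The test for the relation with the outer element. -/
noncomputable def tT (u : List ℕ) : Bool :=
  isOne ap bsL (tU u ++ invW iv u) || isOne ap bsL ([2, 0] ++ (tU u ++ invW iv u))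

theorem rl_tT {u : List ℕ} (hu : ∀ a ∈ u, a < 9) (h : tT u = true) : Rl jq tauq (eI u) := by
  have e0 : tauq * eI u * tauq⁻¹ = MulAut.conj (evL Lt (tU u)) := by
    rw [eI, aut_conj, tau_ev u hu]
  simp only [tT, Bool.or_eq_true] at h
  rcases h with h | h
  · left
    have h1 := evL_eq_one h
    rw [evL_append, evL_invW hiv] at h1
    have h2 : evL Lt (tU u) = evL Lt u := mul_inv_eq_one.mp h1
    rw [h2] at e0
    calc tauq * eI u = (tauq * eI u * tauq⁻¹) * tauq := by group
      _ = eI u * tauq := by rw [e0]; rfl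
  · right
    have h1 := evL_eq_one h
    rw [evL_append, evL_append, evL_invW hiv, ev20] at h1
    have h2 : evL Lt (tU u) * (evL Lt u)⁻¹ = zq := (inv_mul_eq_one.mp h1).symm
    have h3 : evL Lt (tU u) = zq * evL Lt u := by
      rw [← h2]
      group
    rw [h3, map_mul] at e0
    calc tauq * eI u = (tauq * eI u * tauq⁻¹) * tauq := by group
      _ = jq * (eI u * tauq) := by
        rw [e0, jq, eI]
        group

/-- `σ` is an involution. -/
theorem σ_σ (y : Gq) : σ (σ y) = y := by
  apply phi_ext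
  intro q hq
  have h1 := Phi_σ (σ y) (sT q) (st_lt hq)
  rw [st_inv' hq, Phi_σ y q hq, st_inv' (bd _ _ hq)] at h1
  exact h1

theorem tau_sq : tauq * tauq = 1 := by
  have hsw : ∀ a ∈ swW, a < 9 := by decide
  have h0 : swq * σ swq = 1 := by
    show evL Lt swW * σ (evL Lt swW) = 1
    rw [σ_ev _ hsw, ← evL_append]
    exact evL_eq_one (by decide +kernel)
  have h1 : σ swq = swq⁻¹ := eq_inv_of_mul_eq_one_right h0
  apply MulEquiv.ext
  intro y
  show tauq (tauq y) = y
  rw [tau_apply, tau_apply, map_mul, map_mul, map_inv, σ_σ, h1]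
  group

/-- The words of the inner generators. -/
def iL : List (List ℕ) := [0] :: (gsL ++ hsL)

/-- The generators. -/
noncomputable def SS : Set AQ := {φ | φ = tauq ∨ φ = jq ∨ ∃ u ∈ iL, φ = eI u}

set_option Elab.async false in
theorem chkA : iL.all (fun u => iL.all (fun v => tR u v)) = true := by decide +kernel

set_option Elab.async false in
theorem chkB : iL.all tS = true := by decide +kernel

set_option Elab.async false in
theorem chkT' : iL.all tT = true := by decide +kernel

theorem chkL : iL.all (fun u => u.all (fun a => Nat.blt a 9)) = true := by decide +kernel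

set_option Elab.async false in
theorem chkZ : iL.all (fun u => tC u [0, 2]) = true := by decide +kernel

/-- The test that an element acts trivially on the blocks. -/
noncomputable def piT (u : List ℕ) : Bool :=
  allN 45 (fun i => Nat.beq (bl (cTN (ev ap u (rp (4 * i))))).val i)

set_option Elab.async false in
theorem chkP : iL.all piT = true := by decide +kernel

set_option Elab.async false in
theorem chkP0 : piT [0, 2] = true := by decide +kernel

set_option Elab.async false in
theorem chkPτ : allN 45 (fun i => Nat.beq (bl (cTN (ev ap swW (sT (rp (4 * i)))))).val i) = true := by decide +kernel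

theorem mem_iL_all {p : List ℕ → Bool} (h : iL.all p = true) {u : List ℕ} (hu : u ∈ iL) : p u = true :=
  List.all_eq_true.mp h u hu

theorem iL_lt {u : List ℕ} (hu : u ∈ iL) : ∀ a ∈ u, a < 9 := by
  intro a ha
  have h1 := mem_iL_all chkL hu
  have h2 := List.all_eq_true.mp h1 a ha
  exact Nat.le_of_ble_eq_true h2

theorem jq_sq : jq * jq = 1 := by
  rw [jq_eq, eI_mul, eI]
  have : evL Lt ([0, 2] ++ [0, 2]) = 1 := evL_eq_one (by decide +kernel)
  rw [this, map_one]

theorem jq_ne : jq ≠ 1 := by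
  intro h
  have h1 : zq = 1 := by
    apply conj_inj
    rw [map_one]
    exact h
  have h2 : evL Lt [0, 2] ≠ 1 := evL_ne_one (by decide +kernel)
  rw [ev02] at h2
  exact h2 h1

theorem eI_CC {u : List ℕ} (hu : u ∈ iL) : eI u ∈ CC := by
  apply conj_mem_CC
  have := ev_comm (mem_iL_all chkZ hu)
  rwa [ev02] at this

theorem jq_mem : jq ∈ CC := Subgroup.mem_centralizer_singleton_iff.mpr rfl

theorem comm_jq {φ : AQ} (h : φ ∈ CC) : φ * jq = jq * φ := Subgroup.mem_centralizer_singleton_iff.mp h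

theorem SS_CC {φ : AQ} (h : φ ∈ SS) : φ ∈ CC := by
  rcases h with rfl | rfl | ⟨u, hu, rfl⟩
  · exact tau_mem
  · exact jq_mem
  · exact eI_CC hu

theorem SS_rl {φ ψ : AQ} (h1 : φ ∈ SS) (h2 : ψ ∈ SS) : Rl jq φ ψ := by
  rcases h1 with rfl | rfl | ⟨u, hu, rfl⟩
  · rcases h2 with rfl | rfl | ⟨v, hv, rfl⟩
    · exact Or.inl rfl
    · exact Or.inl (comm_jq tau_mem)
    · exact rl_tT (iL_lt hv) (mem_iL_all chkT' hv)
  · exact Or.inl (comm_jq (SS_CC h2)).symm
  · rcases h2 with rfl | rfl | ⟨v, hv, rfl⟩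
    · exact Rl.symm jq_sq (rl_tT (iL_lt hu) (mem_iL_all chkT' hu))
    · exact Or.inl (comm_jq (eI_CC hu))
    · exact rl_tR (List.all_eq_true.mp (mem_iL_all chkA hu) v hv)

theorem SS_sq {φ : AQ} (h : φ ∈ SS) : φ * φ = 1 ∨ φ * φ = jq := by
  rcases h with rfl | rfl | ⟨u, hu, rfl⟩
  · exact Or.inl tau_sq
  · exact Or.inl jq_sq
  · exact sq_tS (mem_iL_all chkB hu)

/-- The subgroup generated. -/
noncomputable def WW' : Subgroup AQ := Subgroup.closure SS

theorem WW_props : (∀ a ∈ WW', a * jq = jq * a) ∧ (∀ a ∈ WW', ∀ b ∈ WW', Rl jq a b) ∧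
    (∀ a ∈ WW', a * a = 1 ∨ a * a = jq) :=
  closure_props jq_sq (fun u hu => comm_jq (SS_CC hu)) (fun u hu v hv => SS_rl hu hv) (fun u hu => SS_sq hu)

theorem eI_PP {u : List ℕ} (h0 : eI u ∈ CC) (h : piT u = true) : eI u ∈ PP := by
  rw [mem_PP]
  refine ⟨h0, ?_⟩
  ext i
  have h1 := piP_conj (g := evL Lt u) h0 i
  have h2 : Phi (evL Lt u) (rp (4 * i.val)) = ev ap u (rp (4 * i.val)) := H.ev_eq _ (rp_lt (four_lt i))
  rw [h2] at h1
  have h3 : (⟨MulAut.conj (evL Lt u), h0⟩ : CC) = ⟨eI u, h0⟩ := rfl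
  rw [h3] at h1
  rw [h1]
  exact beq_true (allN_spec h i.2)

theorem tau_pq {t : Gq} {p : ℕ} (h : Pq t p) : Pq (tauq t) (ev ap swW (sT p)) := by
  have h1 := pq_conj (Pq_σ h) swq
  have h2 : Phi swq (sT p) = ev ap swW (sT p) := H.ev_eq _ (st_lt (lt_of_pq h))
  rw [h2] at h1
  exact h1

theorem tau_PP : tauq ∈ PP := by
  rw [mem_PP]
  refine ⟨tau_mem, ?_⟩
  ext i
  rw [piP_apply]
  show (blk (tauq (tc (4 * i.val)))).val = i.val
  rw [blk_pq ((inD2_tc (four_lt i)).map tau_mem) (tau_pq (tc_pq _))]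
  exact beq_true (allN_spec chkPτ i.2)

theorem jq_PP : jq ∈ PP := by
  rw [jq_eq]
  exact eI_PP (by rw [← jq_eq]; exact jq_mem) chkP0

theorem WW_le : WW' ≤ PP := by
  rw [WW', Subgroup.closure_le]
  rintro φ (rfl | rfl | ⟨u, hu, rfl⟩)
  · exact tau_PP
  · exact jq_PP
  · exact eI_PP (eI_CC hu) (mem_iL_all chkP hu)

/-! ### The chain -/

/-- The chain in words. -/
def chW : List (List ℕ × List ℕ) := (gsL.zip hsL).reverse

/-- The test for the chain. -/
noncomputable def cI : List (List ℕ × List ℕ) → Bool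
  | [] => true
  | p :: L => (L.all fun q => tC p.1 q.2) && (!tC p.1 p.2) && tC p.1 [0] && tC [0] p.2 && cI L

set_option Elab.async false in
theorem chk_chain : cI chW = true := by decide +kernel

/-- An inner pair. -/
noncomputable def fP (p : List ℕ × List ℕ) : AQ × AQ := (eI p.1, eI p.2)

/-- The chain. -/
noncomputable def chA : List (AQ × AQ) := (eI [0], tauq) :: (chW.map fP ++ [(tauq, eI [0])])

theorem eI_noncomm {u v : List ℕ} (h : (!tC u v) = true) : eI u * eI v ≠ eI v * eI u := by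
  intro e
  have h1 : evL Lt u * evL Lt v = evL Lt v * evL Lt u := by
    apply conj_inj
    rw [map_mul, map_mul]
    exact e
  have h2 : evL Lt (u ++ v ++ invW iv u ++ invW iv v) ≠ 1 := evL_ne_one h
  apply h2
  rw [evL_append, evL_append, evL_append, evL_invW hiv, evL_invW hiv, h1]
  group

theorem tau_x_ne : tauq * eI [0] ≠ eI [0] * tauq := by
  intro e
  have e0 : tauq * eI [0] * tauq⁻¹ = MulAut.conj (evL Lt (tU [0])) := by
    rw [eI, aut_conj, tau_ev [0] (by decide)]
  have e1 : tauq * eI [0] * tauq⁻¹ = eI [0] := by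
    rw [e]
    group
  rw [e1, eI] at e0
  have e2 : evL Lt [0] = evL Lt (tU [0]) := conj_inj e0
  have h2 : evL Lt ([0] ++ invW iv (tU [0])) ≠ 1 := evL_ne_one (by decide +kernel)
  apply h2
  rw [evL_append, evL_invW hiv, ← e2]
  group

theorem chain_tail : ∀ L : List (List ℕ × List ℕ), cI L = true → Chain (L.map fP ++ [(tauq, eI [0])]) := by
  intro L
  induction L with
  | nil =>
    intro _
    exact ⟨fun q hq => absurd hq (by simp), tau_x_ne, trivial⟩
  | cons p L ih =>
    intro h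
    simp only [cI, Bool.and_eq_true] at h
    obtain ⟨⟨⟨⟨h1, h2⟩, h3⟩, h4⟩, h5⟩ := h
    refine ⟨?_, eI_noncomm h2, ih h5⟩
    intro q hq
    rcases List.mem_append.mp hq with hq | hq
    · obtain ⟨r, hr, rfl⟩ := List.mem_map.mp hq
      exact eI_comm (List.all_eq_true.mp h1 r hr)
    · rw [List.mem_singleton] at hq
      subst hq
      exact eI_comm h3

theorem tC_x_all : ∀ L : List (List ℕ × List ℕ), cI L = true → ∀ r ∈ L, tC [0] r.2 = true := by
  intro L
  induction L with
  | nil => intro _ r hr; simp at hr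
  | cons p L ih =>
    intro h r hr
    simp only [cI, Bool.and_eq_true] at h
    obtain ⟨⟨⟨⟨h1, h2⟩, h3⟩, h4⟩, h5⟩ := h
    rcases List.mem_cons.mp hr with rfl | hr
    · exact h4
    · exact ih h5 r hr

theorem chain_A : Chain chA := by
  refine ⟨?_, fun e => tau_x_ne e.symm, chain_tail _ chk_chain⟩
  intro q hq
  rw [List.mem_append] at hq
  rcases hq with hq | hq
  · obtain ⟨r, hr, rfl⟩ := List.mem_map.mp hq
    exact eI_comm (tC_x_all _ chk_chain r hr)
  · rw [List.mem_singleton] at hq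
    subst hq
    rfl

theorem chA_length : chA.length = 10 := by
  decide +kernel

theorem sub_WW {φ : AQ} (h : φ ∈ SS) : φ ∈ WW' := Subgroup.subset_closure h

theorem x_SS : eI [0] ∈ SS := Or.inr (Or.inr ⟨[0], List.mem_cons_self, rfl⟩)
theorem tau_SS : tauq ∈ SS := Or.inl rfl

theorem chW_mem {r : List ℕ × List ℕ} (hr : r ∈ chW) : r.1 ∈ iL ∧ r.2 ∈ iL := by
  rw [chW, List.mem_reverse] at hr
  obtain ⟨a, b⟩ := r
  have h1 := List.of_mem_zip hr
  exact ⟨List.mem_cons_of_mem _ (List.mem_append_left _ h1.1), List.mem_cons_of_mem _ (List.mem_append_right _ h1.2)⟩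

theorem chA_mem : ∀ p ∈ chA, p.1 ∈ WW' ∧ p.2 ∈ WW' := by
  intro p hp
  rcases List.mem_cons.mp hp with rfl | hp
  · exact ⟨sub_WW x_SS, sub_WW tau_SS⟩
  · rw [List.mem_append] at hp
    rcases hp with hp | hp
    · obtain ⟨r, hr, rfl⟩ := List.mem_map.mp hp
      have := chW_mem hr
      exact ⟨sub_WW (Or.inr (Or.inr ⟨_, this.1, rfl⟩)), sub_WW (Or.inr (Or.inr ⟨_, this.2, rfl⟩))⟩
    · rw [List.mem_singleton] at hp
      subst hp
      exact ⟨sub_WW tau_SS, sub_WW x_SS⟩

theorem jq_WW : jq ∈ WW' := sub_WW (Or.inr (Or.inl rfl))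

instance finAQ : Finite AQ := by
  haveI : Finite Gq := finGp
  infer_instance

theorem WW_main : Nat.card WW' = 2 ^ (chA.length + 1) ∧
    ∀ a ∈ WW', (∀ p ∈ chA, a * p.2 = p.2 * a) → a = 1 ∨ a = jq :=
  chain_main WW_props.2.1 jq_WW jq_ne WW_props.1 chA_mem chain_A (by
    rw [chA_length, ← show Nat.card PP = 2 ^ 11 by rw [card_PP]; norm_num]
    exact Subgroup.card_le_of_le WW_le)

theorem WW_eq : WW' = PP := by
  apply Subgroup.eq_of_le_of_card_ge WW_le
  rw [WW_main.1, chA_length, card_PP]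
  norm_num

theorem PP_rl {a b : AQ} (ha : a ∈ PP) (hb : b ∈ PP) : Rl jq a b := by
  rw [← WW_eq] at ha hb
  exact WW_props.2.1 a ha b hb

theorem PP_sq {a : AQ} (ha : a ∈ PP) : a * a = 1 ∨ a * a = jq := by
  rw [← WW_eq] at ha
  exact WW_props.2.2 a ha

theorem PP_cen {a : AQ} (ha : a ∈ PP) (h : ∀ b ∈ PP, a * b = b * a) : a = 1 ∨ a = jq := by
  have ha' : a ∈ WW' := by rw [WW_eq]; exact ha
  apply WW_main.2 a ha'
  intro p hp
  apply h
  rw [← WW_eq]
  exact (chA_mem p hp).2

theorem x_PP : eI [0] ∈ PP := by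
  rw [← WW_eq]
  exact sub_WW x_SS

end Cfsg.Agent.Lib.Fi22Q
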