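import Mathlib
import Cfsg.Agent.Lib.U42E

/-!
# Normal subgroups of the automorphism group of `PSU₄(2)`
-/

set_option autoImplicit false
set_option maxRecDepth 100000
set_option linter.unusedSectionVars false

namespace Cfsg.Agent.Lib.U42

/-- A normal subgroup meeting the image of the group trivially is trivial. -/
theorem bot_of_inf (N : Subgroup AGQ) (hN : N.Normal) (h3 : N ⊓ NN = ⊥) : N = ⊥ := by
  rw [eq_bot_iff]
  intro g hg
  have h4 : (g : Equiv.Perm (Fin 45)) = 1 := by
    apply cent_trivial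
    intro i
    have h6 : g * iotaA (tvG i) * g⁻¹ * (iotaA (tvG i))⁻¹ ∈ N ⊓ NN := by
      constructor
      · have : g * iotaA (tvG i) * g⁻¹ * (iotaA (tvG i))⁻¹ = g * (iotaA (tvG i) * g⁻¹ * (iotaA (tvG i))⁻¹) := by group
        rw [this]
        exact N.mul_mem hg (hN.conj_mem _ (N.inv_mem hg) _)
      · exact NN.mul_mem (normal_NN.conj_mem _ ⟨_, rfl⟩ _) (NN.inv_mem ⟨_, rfl⟩)
    rw [h3, Subgroup.mem_bot] at h6
    have h7 : g * iotaA (tvG i) = iotaA (tvG i) * g := by
      have h8 := mul_inv_eq_one.mp h6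
      calc g * iotaA (tvG i) = (g * iotaA (tvG i) * g⁻¹) * g := by group
        _ = _ := by rw [h8]
    exact congrArg Subtype.val h7
  rw [Subgroup.mem_bot]
  exact Subtype.ext h4

/-- A non-trivial normal subgroup contains the transvections. -/
theorem tv_mem_of_normal (N : Subgroup AGQ) (hN : N.Normal) (h : N ≠ ⊥) (i : Fin 45) : iotaA (tvG i) ∈ N := by
  let N' : Subgroup G := N.comap iotaA
  have hN' : N'.Normal := Subgroup.Normal.comap hN _
  rcases hN'.eq_bot_or_eq_top with h1 | h1
  · exfalso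
    apply h
    apply bot_of_inf N hN
    rw [eq_bot_iff]
    rintro x ⟨hx, g, rfl⟩
    have : g ∈ N' := hx
    rw [h1, Subgroup.mem_bot] at this
    rw [this, map_one, Subgroup.mem_bot]
  · have : tvG i ∈ N' := by rw [h1]; trivial
    exact this

end Cfsg.Agent.Lib.U42
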