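import Mathlib
import Cfsg.Agent.Lib.Fi22Q3
import Cfsg.Agent.Lib.U42F
import Cfsg.Agent.Lib.LargeQuot
import Cfsg.Agent.Lib.CharTwoLocal
import Cfsg.Agent.Lib.BalanceB

/-!
# The kernel on the blocks is the generalized Fitting subgroup of the centralizer, and is large extraspecial
-/

set_option autoImplicit false
set_option maxRecDepth 1000000
set_option linter.all false

namespace Cfsg.Agent.Lib.Fi22Q

open Cfsg Cfsg.Agent.Lib.Fi22K Cfsg.Agent.Lib.OutTree36 Cfsg.Agent.Lib.TcBits Cfsg.Agent.Lib.TcPres Cfsg.Agent.Lib.PresChain36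
open Cfsg.Agent.TcData.Fi22.I3510 Cfsg.Agent.TcData.Fi22 Cfsg.Agent.TcChain36.Fi22 Cfsg.Agent.TcChain36.Out.Fi22
open Cfsg.Agent.Lib.ExtraChain
open Cfsg.Agent.Lib.U42 (gam AGQ tt iota0 tvG TT iotaA)

theorem PP_two : IsPGroup 2 PP := by
  haveI : Fact (Nat.Prime 2) := ⟨Nat.prime_two⟩
  exact IsPGroup.iff_card.mpr ⟨11, by rw [card_PP]; norm_num⟩

theorem PP_extra : IsExtraspecial 2 PP := by
  have hjm : jq ∈ PP := jq_PP
  refine Cfsg.Agent.Lib.LargeQuot.extraspecial_of_elements PP_two ⟨jq, hjm⟩ ?_ ?_ ?_ ?_ ?_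
  · intro h
    exact jq_ne (congrArg Subtype.val h)
  · intro a b
    rcases (PP_rl a.2 b.2).comm with h | h
    · left
      exact Subtype.ext h
    · right
      exact Subtype.ext h
  · intro a
    rcases PP_sq a.2 with h | h
    · left
      rw [pow_two]
      exact Subtype.ext h
    · right
      rw [pow_two]
      exact Subtype.ext h
  · intro a h
    rcases PP_cen a.2 (fun b hb => congrArg Subtype.val (h ⟨b, hb⟩)) with e | e
    · left
      exact Subtype.ext e
    · right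
      exact Subtype.ext e
  · refine ⟨⟨tauq, tau_PP⟩, ⟨eI [0], x_PP⟩, ?_⟩
    intro h
    apply tau_x_ne
    have h1 : tauq * eI [0] * tauq⁻¹ * (eI [0])⁻¹ = 1 := congrArg Subtype.val h
    have h2 := mul_inv_eq_one.mp h1
    calc tauq * eI [0] = (tauq * eI [0] * tauq⁻¹) * tauq := by group
      _ = _ := by rw [h2]

/-- The action, in the automorphism group of the graph. -/
noncomputable def rho : CC →* AGQ := piP.codRestrict AGQ piP_mem

theorem rho_val (φ : CC) : (rho φ : Equiv.Perm (Fin 45)) = piP φ := rfl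

theorem rho_surj : Function.Surjective rho := by
  rintro ⟨π, hπ⟩
  rw [← range_piP] at hπ
  obtain ⟨φ, rfl⟩ := hπ
  exact ⟨φ, rfl⟩

theorem rho_ker : rho.ker = P0 := by
  ext φ
  rw [MonoidHom.mem_ker, MonoidHom.mem_ker]
  constructor
  · intro h
    exact congrArg Subtype.val h
  · intro h
    exact Subtype.ext h

/-- The word of the commutator test. -/
def tstW : List ℕ :=
  trW (wd (4 * (0 : Fin 45).val)) ++ (hsL.getD 0 []) ++ invW iv (trW (wd (4 * (0 : Fin 45).val))) ++ invW iv (hsL.getD 0 [])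

set_option Elab.async false in
theorem tst1 : (!isOne ap bsL tstW) = true := by decide +kernel

set_option Elab.async false in
theorem tst2 : (!isOne ap bsL ([2, 0] ++ tstW)) = true := by decide +kernel

theorem h0_mem : hsL.getD 0 [] ∈ iL := by decide +kernel

/-- The centralizer of the kernel lies in the kernel. -/
theorem Ce_le : Subgroup.centralizer (P0 : Set CC) ≤ P0 := by
  set Ce := Subgroup.centralizer (P0 : Set CC) with hCe
  have hCn : Ce.Normal := Subgroup.normal_centralizer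
  have hNn : (Ce.map rho).Normal := hCn.map rho rho_surj
  by_cases hN : Ce.map rho = ⊥
  · intro c hc
    have h1 : rho c ∈ Ce.map rho := ⟨c, hc, rfl⟩
    rw [hN, Subgroup.mem_bot] at h1
    rw [← rho_ker]
    exact h1
  · exfalso
    have hin := Cfsg.Agent.Lib.U42.tv_mem_of_normal _ hNn hN 0
    obtain ⟨c, hc, hce⟩ := hin
    let a : CC := ⟨MulAut.conj (tc (4 * (0 : Fin 45).val)), conj_mem_CC (tc_comm (four_lt 0))⟩
    have ha : piP a = iota0 (tvG 0) := piP_tc 0
    have hpc : piP c = iota0 (tvG 0) := congrArg Subtype.val hce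
    let q : CC := c⁻¹ * a
    have hq : q ∈ P0 := by
      rw [MonoidHom.mem_ker, map_mul, map_inv, ha, hpc]
      group
    let e : CC := ⟨eI (hsL.getD 0 []), eI_CC h0_mem⟩
    have he : e ∈ P0 := by
      have : e.1 ∈ PP := by
        rw [← WW_eq]
        exact sub_WW (Or.inr (Or.inr ⟨_, h0_mem, rfl⟩))
      obtain ⟨y, hy, hye⟩ := this
      have : y = e := Subtype.ext hye
      rwa [← this]
    have hqeq : q * e * q⁻¹ ∈ P0 := P0.mul_mem (P0.mul_mem hq he) (P0.inv_mem hq)
    have hcq : (q * e * q⁻¹) * c = c * (q * e * q⁻¹) := Subgroup.mem_centralizer_iff.mp hc _ hqeq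
    have h1 : a * e * a⁻¹ * e⁻¹ = q * e * q⁻¹ * e⁻¹ := by
      have e1 : a = c * q := by simp [q]
      rw [e1]
      calc c * q * e * (c * q)⁻¹ * e⁻¹ = (c * (q * e * q⁻¹)) * c⁻¹ * e⁻¹ := by group
        _ = ((q * e * q⁻¹) * c) * c⁻¹ * e⁻¹ := by rw [hcq]
        _ = _ := by group
    have h2 := (PP_rl (a := (q : AQ)) (b := (e : AQ)) ⟨q, hq, rfl⟩ ⟨e, he, rfl⟩).comm
    have h3 : (a : AQ) * e * (a : AQ)⁻¹ * (e : AQ)⁻¹ = (q : AQ) * e * (q : AQ)⁻¹ * (e : AQ)⁻¹ := congrArg Subtype.val h1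
    rw [← h3] at h2
    have h4 : (a : AQ) * e * (a : AQ)⁻¹ * (e : AQ)⁻¹ = MulAut.conj (evL Lt tstW) := by
      show MulAut.conj (tc (4 * (0 : Fin 45).val)) * MulAut.conj (evL Lt (hsL.getD 0 [])) * (MulAut.conj (tc (4 * (0 : Fin 45).val)))⁻¹ * (MulAut.conj (evL Lt (hsL.getD 0 [])))⁻¹ = _
      rw [tstW, evL_append, evL_append, evL_append, evL_invW hiv, evL_invW hiv, evL_trW]
      simp only [map_mul, map_inv]
      rfl
    rw [h4] at h2
    rcases h2 with h2 | h2
    · have h5 : evL Lt tstW = 1 := conj_inj (by rw [h2, map_one])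
      exact evL_ne_one tst1 h5
    · have h5 : evL Lt tstW = zq := conj_inj h2
      apply evL_ne_one tst2
      rw [evL_append, ev20, h5]
      group

/-- The centralizer of the kernel in the automorphism group. -/
theorem cent_PP {φ : AQ} (h : ∀ y ∈ PP, y * φ = φ * y) : φ = 1 ∨ φ = jq := by
  have h1 : φ ∈ CC := by
    rw [Subgroup.mem_centralizer_singleton_iff]
    exact (h jq jq_PP).symm
  have h2 : (⟨φ, h1⟩ : CC) ∈ Subgroup.centralizer (P0 : Set CC) := by
    rw [Subgroup.mem_centralizer_iff]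
    intro y hy
    apply Subtype.ext
    exact h y.1 ⟨y, hy, rfl⟩
  have h3 := Ce_le h2
  exact PP_cen ⟨_, h3, rfl⟩ (fun b hb => (h b hb).symm)

theorem P0_two : IsPGroup 2 P0 := by
  haveI : Fact (Nat.Prime 2) := ⟨Nat.prime_two⟩
  exact IsPGroup.iff_card.mpr ⟨11, by rw [card_P0]; norm_num⟩

theorem pCore_CC : pCore 2 CC = P0 := by
  haveI : Fact (Nat.Prime 2) := ⟨Nat.prime_two⟩
  apply le_antisymm
  · have hn : (pCore 2 CC).Normal := Cfsg.Agent.Lib.PCore.pCore_normal 2
    have h1 : (pCore 2 CC).map rho = ⊥ := by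
      apply Cfsg.Agent.Lib.U42.normal_two_trivial _ (hn.map rho rho_surj)
      exact (Cfsg.Agent.Lib.PCore.isPGroup_pCore 2).map rho
    rw [← rho_ker]
    intro x hx
    have h2 : rho x ∈ (pCore 2 CC).map rho := ⟨x, hx, rfl⟩
    rw [h1, Subgroup.mem_bot] at h2
    exact h2
  · exact Cfsg.Agent.Lib.PCore.le_pCore (MonoidHom.normal_ker piP) P0_two

theorem fstar_CC : generalizedFittingSubgroup CC = P0 := by
  haveI : Fact (Nat.Prime 2) := ⟨Nat.prime_two⟩
  have h : Subgroup.centralizer (pCore 2 CC : Set CC) ≤ pCore 2 CC := by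
    rw [pCore_CC]
    exact Ce_le
  rw [Cfsg.Agent.Lib.CharTwoLocal.generalizedFitting_eq_pCore h, pCore_CC]

/-- The word of a product of two transpositions of a block. -/
def w01 : List ℕ := trW (wd 0) ++ trW (wd 1)

set_option Elab.async false in
theorem w01_piT : piT w01 = true := by decide +kernel

set_option Elab.async false in
theorem w01_ne : (!isOne ap bsL ([2, 0] ++ w01)) = true := by decide +kernel

/-- The element conjugating the product into the kernel. -/
theorem exists_conj_mem : ∃ g : AQ, g * jq * g⁻¹ ∈ PP ∧ g * jq * g⁻¹ ≠ jq := by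
  have h0 : (0 : ℕ) < 180 := by norm_num
  have h1 : (1 : ℕ) < 180 := by norm_num
  have hc : tc 0 * tc 1 = tc 1 * tc 0 := (comm_tc h0 h1).mpr (by decide +kernel)
  have hne : tc 0 ≠ tc 1 := fun e => absurd (tc_inj h0 h1 e) (by norm_num)
  obtain ⟨g, e1, e2⟩ := std2 (inD2_tc h0).mem (inD2_tc h1).mem hne hc
  have e3 : g⁻¹ * zq * g = tc 0 * tc 1 := by
    rw [zq, ← e1, ← e2]
    group
  have e4 : evL Lt w01 = tc 0 * tc 1 := by
    rw [w01, evL_append, evL_trW, evL_trW]
    rfl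
  have e5 : MulAut.conj g⁻¹ * jq * (MulAut.conj g⁻¹)⁻¹ = eI w01 := by
    have h3 := aut_conj (MulAut.conj g⁻¹) zq
    rw [MulAut.conj_apply] at h3
    have h4 : g⁻¹ * zq * g⁻¹⁻¹ = tc 0 * tc 1 := by rw [inv_inv]; exact e3
    change MulAut.conj g⁻¹ * jq * (MulAut.conj g⁻¹)⁻¹ = _ at h3
    rw [h3, h4, eI, e4]
  refine ⟨MulAut.conj g⁻¹, ?_, ?_⟩
  · rw [e5]
    apply eI_PP _ w01_piT
    apply conj_mem_CC
    rw [e4, mul_assoc, tc_comm h1, ← mul_assoc, tc_comm h0, mul_assoc]
  · rw [e5]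
    intro h
    have h6 : evL Lt w01 = zq := conj_inj h
    apply evL_ne_one w01_ne
    rw [evL_append, ev20, h6]
    group

/-! ### Transport -/

section transport

universe u

variable {X : Type u} [Group X] (Ψ : AQ ≃* X)

theorem centralizer_map : (CC).map Ψ.toMonoidHom = Subgroup.centralizer ({Ψ jq} : Set X) := by
  ext x
  rw [Subgroup.mem_centralizer_singleton_iff]
  constructor
  · rintro ⟨φ, hφ, rfl⟩
    have h : φ * jq = jq * φ := Subgroup.mem_centralizer_singleton_iff.mp hφ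
    show Ψ φ * Ψ jq = Ψ jq * Ψ φ
    rw [← map_mul, ← map_mul, h]
  · intro h
    refine ⟨Ψ.symm x, ?_, by simp⟩
    show Ψ.symm x ∈ CC
    rw [Subgroup.mem_centralizer_singleton_iff]
    apply Ψ.injective
    simpa using h

/-- The centralizers. -/
noncomputable def psiC : CC ≃* Subgroup.centralizer ({Ψ jq} : Set X) :=
  (CC.equivMapOfInjective Ψ.toMonoidHom Ψ.injective).trans (MulEquiv.subgroupCongr (centralizer_map Ψ))

theorem psiC_val (φ : CC) : ((psiC Ψ φ : Subgroup.centralizer ({Ψ jq} : Set X)) : X) = Ψ φ := rfl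

/-- The main statement, after transport. -/
theorem main_X [Finite X] (Q : Subgroup X)
    (hQ : Q = (generalizedFittingSubgroup ↥(Subgroup.centralizer ({Ψ jq} : Set X))).map
      (Subgroup.centralizer ({Ψ jq} : Set X)).subtype) :
    IsLargeExtraspecial Q ∧ Nat.card Q = 2 ^ 11 ∧ Q ≤ Subgroup.centralizer ({Ψ jq} : Set X) ∧
      ∃ (_ : (Q.subgroupOf (Subgroup.centralizer ({Ψ jq} : Set X))).Normal) (F : Type) (_ : Field F) (_ : Fintype F),
        Fintype.card F = 4 ∧ Nonempty (↥(Subgroup.centralizer ({Ψ jq} : Set X)) ⧸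
          Q.subgroupOf (Subgroup.centralizer ({Ψ jq} : Set X)) ≃* MulAut (PSU 4 F 2)) := by
  set CX := Subgroup.centralizer ({Ψ jq} : Set X) with hCX
  have hF : generalizedFittingSubgroup CX = P0.map (psiC Ψ).toMonoidHom := by
    rw [← Cfsg.Agent.Lib.BalanceB.map_genFit_equiv (psiC Ψ), fstar_CC]
  have hQ2 : Q = PP.map Ψ.toMonoidHom := by
    rw [hQ, hF, PP, Subgroup.map_map, Subgroup.map_map]
    rfl
  have hmem : ∀ φ : AQ, Ψ φ ∈ Q ↔ φ ∈ PP := by
    intro φ
    rw [hQ2]
    constructor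
    · rintro ⟨ψ, hψ, h⟩
      rwa [← Ψ.injective h]
    · intro h
      exact ⟨φ, h, rfl⟩
  have hex : ∀ x : X, x ∈ Q → ∃ φ ∈ PP, Ψ φ = x := by
    intro x hx
    rw [hQ2] at hx
    obtain ⟨φ, hφ, rfl⟩ := hx
    exact ⟨φ, hφ, rfl⟩
  have hsurj : ∀ x : X, ∃ φ : AQ, Ψ φ = x := fun x => ⟨Ψ.symm x, by simp⟩
  have hcard : Nat.card Q = 2 ^ 11 := by
    rw [hQ2, Subgroup.card_map_of_injective Ψ.injective, card_PP]
    norm_num
  have hle : Q ≤ CX := by
    rw [hQ]
    rintro _ ⟨y, -, rfl⟩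
    exact y.2
  have hE : IsExtraspecial 2 Q := by
    rw [hQ2]
    exact Cfsg.Agent.Lib.LargeCent.isExtraspecial_of_equiv (PP.equivMapOfInjective Ψ.toMonoidHom Ψ.injective) PP_extra
  obtain ⟨g, hg1, hg2⟩ := exists_conj_mem
  have hL : IsLargeExtraspecial Q := by
    refine Cfsg.Agent.Lib.LargeQuot.large_of_elements hE 5 (by norm_num) (by rw [hcard]) ((hmem _).mpr jq_PP) ?_ ?_ ?_ ?_
      (Ψ g) ?_ ?_
    · intro h
      exact jq_ne (Ψ.injective (by rw [h, map_one]))
    · intro y hy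
      obtain ⟨φ, hφ, rfl⟩ := hex y hy
      obtain ⟨h1, -⟩ := mem_PP.mp hφ
      rw [← map_mul, ← map_mul, comm_jq h1]
    · intro x hx
      obtain ⟨φ, rfl⟩ := hsurj x
      have h1 : ∀ y ∈ PP, y * φ = φ * y := by
        intro y hy
        apply Ψ.injective
        rw [map_mul, map_mul]
        exact hx _ ((hmem y).mpr hy)
      rcases cent_PP h1 with rfl | rfl
      · left
        exact map_one Ψ
      · right
        rfl
    · intro x hx
      obtain ⟨φ, rfl⟩ := hsurj x
      have h1 : φ ∈ CC := by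
        rw [Subgroup.mem_centralizer_singleton_iff]
        apply Ψ.injective
        rw [map_mul, map_mul]
        exact hx
      rw [Subgroup.mem_normalizer_iff]
      intro y
      obtain ⟨ψ, rfl⟩ := hsurj y
      have e1 : Ψ φ * Ψ ψ * (Ψ φ)⁻¹ = Ψ (φ * ψ * φ⁻¹) := by
        rw [map_mul, map_mul, map_inv]
      rw [e1, hmem, hmem]
      have hNorm : ∀ a ∈ CC, ∀ b ∈ PP, a * b * a⁻¹ ∈ PP := by
        intro a ha b hb
        obtain ⟨h2, h3⟩ := mem_PP.mp hb
        refine mem_PP.mpr ⟨CC.mul_mem (CC.mul_mem ha h2) (CC.inv_mem ha), ?_⟩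
        have e2 : (⟨a * b * a⁻¹, CC.mul_mem (CC.mul_mem ha h2) (CC.inv_mem ha)⟩ : CC) = ⟨a, ha⟩ * ⟨b, h2⟩ * ⟨a, ha⟩⁻¹ := rfl
        rw [e2, map_mul, map_mul, h3, map_inv]
        group
      constructor
      · exact hNorm φ h1 ψ
      · intro h
        have := hNorm φ⁻¹ (CC.inv_mem h1) _ h
        simpa [mul_assoc] using this
    · have e1 : Ψ g * Ψ jq * (Ψ g)⁻¹ = Ψ (g * jq * g⁻¹) := by
        rw [map_mul, map_mul, map_inv]
      rw [e1, hmem]
      exact hg1
    · have e1 : Ψ g * Ψ jq * (Ψ g)⁻¹ = Ψ (g * jq * g⁻¹) := by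
        rw [map_mul, map_mul, map_inv]
      rw [e1]
      exact fun h => hg2 (Ψ.injective h)
  have hsub : Q.subgroupOf CX = generalizedFittingSubgroup CX := by
    rw [hQ]
    ext x
    rw [Subgroup.mem_subgroupOf]
    constructor
    · rintro ⟨y, hy, e⟩
      have e2 : y = x := Subtype.ext e
      rwa [← e2]
    · intro hx
      exact ⟨x, hx, rfl⟩
  have hNorm : (generalizedFittingSubgroup CX).Normal := by
    unfold generalizedFittingSubgroup
    infer_instance
  refine ⟨hL, hcard, hle, (by rw [hsub]; exact hNorm), Cfsg.Agent.Lib.F4K.K4, inferInstance, inferInstance, Cfsg.Agent.Lib.F4K.K4.card_K4, ?_⟩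
  let rho' : CX →* AGQ := rho.comp (psiC Ψ).symm.toMonoidHom
  have hs' : Function.Surjective rho' := rho_surj.comp (psiC Ψ).symm.surjective
  have hk : rho'.ker = Q.subgroupOf CX := by
    rw [hsub, hF]
    ext x
    rw [MonoidHom.mem_ker]
    constructor
    · intro h
      refine ⟨(psiC Ψ).symm x, ?_, by simp⟩
      rw [← rho_ker]
      exact h
    · rintro ⟨y, hy, rfl⟩
      rw [← rho_ker] at hy
      show rho ((psiC Ψ).symm (psiC Ψ y)) = 1
      rw [MulEquiv.symm_apply_apply]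
      exact hy
  haveI : (Q.subgroupOf CX).Normal := by
    rw [hsub]
    exact hNorm
  refine ⟨(QuotientGroup.quotientMulEquivOfEq hk.symm).trans
    ((QuotientGroup.quotientKerEquivOfSurjective rho' hs').trans Cfsg.Agent.Lib.U42.eAP)⟩

end transport

end Cfsg.Agent.Lib.Fi22Q
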