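import Mathlib
import Cfsg.Agent.Lib.Fi23S3Wd

set_option autoImplicit false
set_option maxRecDepth 1000000
set_option linter.all false

namespace Cfsg.Agent.Lib.Fi23S3

open Cfsg.Agent.Lib.OutTree36 Cfsg.Agent.Lib.TcBits Cfsg.Agent.Lib.TcPres Cfsg.Agent.Lib.PresChain36
open Cfsg.Agent.TcData.Fi23.I31671 hiding baseL
open Cfsg.Agent.TcData.Fi23
open Cfsg.Agent.TcChain36.Fi23 hiding zz
open Cfsg.Agent.TcChain36.Out.Fi23
open Cfsg.Agent.Lib.Fi23K24
open Cfsg.Agent.Lib.Fi23W90 (ptw ptw_pq)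
open Cfsg.Agent.Lib.PcClass36 (eqB eqB_sound eqB_false)
open Cfsg.Agent.Lib.Fi22K (bdS bdS_spec mem_cent_zp)

set_option Elab.async false in
theorem wd3_chkA : wd3.chkA = true := by decide +kernel

end Cfsg.Agent.Lib.Fi23S3
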