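import Mathlib
import Cfsg.Agent.Lib.Fi23I90

/-!
# `Fi₂₃` has only one generating class of 3-transpositions
-/

set_option autoImplicit false
set_option maxRecDepth 1000000
set_option linter.all false

namespace Cfsg.Agent.Lib.Fi23U90

open Cfsg.Agent.Lib.OutTree36 Cfsg.Agent.Lib.TcBits Cfsg.Agent.Lib.TcPres Cfsg.Agent.Lib.PresChain36
open Cfsg.Agent.TcData.Fi23.I31671 hiding baseL
open Cfsg.Agent.TcData.Fi23
open Cfsg.Agent.TcChain36.Fi23 hiding zz
open Cfsg.Agent.TcChain36.Out.Fi23
open Cfsg.Agent.Lib.Fi23K24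
open Cfsg.Agent.Lib.Fi23W90

theorem ne_one_of_ev {W : List ℕ} {q : ℕ} (hq : q < 31671) (h : Nat.beq (ev ap W q) q = false) :
    evL Lt W ≠ 1 := by
  intro e
  have h1 := H.ev_eq W hq
  rw [e, map_one] at h1
  have h2 : ev ap W q = q := h1.symm
  rw [h2, Nat.beq_refl] at h
  cases h

/-- The first word. -/
def W2 : List ℕ := [10, 6] ++ [7, 14] ++ [10, 6] ++ invW iv [7, 14]

/-- The second word. -/
def W3 : List ℕ := [10, 6, 4] ++ [27] ++ [10, 6, 4] ++ invW iv [27]

/-- The first element. -/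
noncomputable def t2 : Gq := Lt 10 * Lt 6

/-- The second element. -/
noncomputable def t3 : Gq := Lt 10 * Lt 6 * Lt 4

/-- The first conjugating element. -/
noncomputable def g2 : Gq := evL Lt [7, 14]

/-- The second conjugating element. -/
noncomputable def g3 : Gq := evL Lt [27]

theorem e2 : t2 * (g2 * t2 * g2⁻¹) = evL Lt W2 := by
  simp only [W2, evL_append, evL_invW hiv, t2, g2, evL_cons, evL_nil, mul_one, mul_assoc]

theorem e3 : t3 * (g3 * t3 * g3⁻¹) = evL Lt W3 := by
  simp only [W3, evL_append, evL_invW hiv, t3, g3, evL_cons, evL_nil, mul_one, mul_assoc]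

set_option Elab.async false in
theorem b22 : Nat.beq (ev ap (W2 ++ W2) 0) 0 = false := by decide +kernel

set_option Elab.async false in
theorem b23 : Nat.beq (ev ap (W2 ++ W2 ++ W2) 0) 0 = false := by decide +kernel

set_option Elab.async false in
theorem b32 : Nat.beq (ev ap (W3 ++ W3) 1) 1 = false := by decide +kernel

set_option Elab.async false in
theorem b33 : Nat.beq (ev ap (W3 ++ W3 ++ W3) 1) 1 = false := by decide +kernel

theorem n22 : (t2 * (g2 * t2 * g2⁻¹)) ^ 2 ≠ 1 := by
  rw [e2, pow_two, ← evL_append]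
  exact ne_one_of_ev (by norm_num) b22

theorem n23 : (t2 * (g2 * t2 * g2⁻¹)) ^ 3 ≠ 1 := by
  rw [e2, pow_succ, pow_two, ← evL_append, ← evL_append]
  exact ne_one_of_ev (by norm_num) b23

theorem n32 : (t3 * (g3 * t3 * g3⁻¹)) ^ 2 ≠ 1 := by
  rw [e3, pow_two, ← evL_append]
  exact ne_one_of_ev (by norm_num) b32

theorem n33 : (t3 * (g3 * t3 * g3⁻¹)) ^ 3 ≠ 1 := by
  rw [e3, pow_succ, pow_two, ← evL_append, ← evL_append]
  exact ne_one_of_ev (by norm_num) b33

variable {G : Type*} [Group G] {D D' : Set G}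

theorem exclude {e : Gq ≃* G} {d' : G} {y t g : Gq} (hD' : Cfsg.IsThreeTranspositionSet D')
    (hD2 : D' = conjugatesOf d') (hy : e y = d') (hc : IsConj y t)
    (h2 : (t * (g * t * g⁻¹)) ^ 2 ≠ 1) (h3 : (t * (g * t * g⁻¹)) ^ 3 ≠ 1) : False := by
  obtain ⟨c, hcc⟩ := isConj_iff.mp hc
  have m1 : e t ∈ D' := by
    rw [hD2]
    show IsConj d' (e t)
    refine isConj_iff.mpr ⟨e c, ?_⟩
    rw [← hy, ← hcc, map_mul, map_mul, map_inv]
  have m2 : e (g * t * g⁻¹) ∈ D' := by
    rw [hD2]
    show IsConj d' _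
    refine isConj_iff.mpr ⟨e (g * c), ?_⟩
    rw [← hy, ← hcc]
    simp only [map_mul, map_inv, mul_inv_rev]
    group
  rcases hD'.2 _ m1 _ m2 with h | h
  · apply h2
    rw [← map_mul, ← map_pow] at h
    exact (map_eq_one_iff e e.injective).mp h
  · apply h3
    rw [← map_mul, ← map_pow] at h
    exact (map_eq_one_iff e e.injective).mp h

/-- Uniqueness of the class. -/
theorem unique_iso {e : Gq ≃* G} (he : e '' D0 = D) (hD' : Cfsg.IsThreeTranspositionClass D') : D' = D := by
  obtain ⟨h1, ⟨d', hd', hD2⟩, -⟩ := hD'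
  have ho := h1.1 d' hd'
  have hy2 : (e.symm d') * (e.symm d') = 1 := by
    rw [← map_mul, ← pow_two, pow_two]
    have : d' * d' = 1 := by rw [← pow_two, ← ho]; exact pow_orderOf_eq_one d'
    rw [this, map_one]
  have hy1 : e.symm d' ≠ 1 := by
    intro h
    have : d' = 1 := by simpa using congrArg e h
    rw [this, orderOf_one] at ho
    norm_num at ho
  have hyy : e (e.symm d') = d' := by simp
  obtain ⟨m, l, hm1, hm3, hf⟩ := fac_of_inv hy2 hy1
  interval_cases m
  · obtain ⟨-, h2, h3, -, h5⟩ := hf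
    obtain ⟨x, rfl⟩ := List.length_eq_one_iff.mp h2
    have e1 : x = e.symm d' := by simpa using h5
    have hy0 : e.symm d' ∈ D0 := by
      rw [← e1]; exact h3 x (by simp)
    rw [hD2, ← he]
    ext u
    constructor
    · intro hu
      obtain ⟨c, hc⟩ := isConj_iff.mp (show IsConj d' u from hu)
      refine ⟨e.symm c * e.symm d' * (e.symm c)⁻¹, D0_conj hy0 _, ?_⟩
      rw [← hc]
      simp
    · rintro ⟨x0, hx0, rfl⟩
      show IsConj d' (e x0)
      have h6 : IsConj (e.symm d') x0 :=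
        (show IsConj zz (e.symm d') from hy0).symm.trans (show IsConj zz x0 from hx0)
      obtain ⟨c, hc⟩ := isConj_iff.mp h6
      refine isConj_iff.mpr ⟨e c, ?_⟩
      rw [← hc]
      simp
  · exact (exclude (e := e) (g := g2) h1 hD2 hyy (conj_fac (by norm_num) (by norm_num) hf fac2_exists) n22 n23).elim
  · exact (exclude (e := e) (g := g3) h1 hD2 hyy (conj_fac (by norm_num) (by norm_num) hf fac3_exists) n32 n33).elim

end Cfsg.Agent.Lib.Fi23U90
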