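import Mathlib
import Cfsg.Agent.Lib.Fi24LT45
import Cfsg.Agent.Lib.SrgPar4

/-!
# The commuting graph on the points of `Fi₂₄` is strongly regular

Consequently an element of order three without fixed points moves some point to a point commuting with it.
-/

set_option autoImplicit false
set_option maxRecDepth 100000
set_option linter.all false

namespace Cfsg.Agent.Lib.Fi24Srg4

open Cfsg.Agent.Lib.TcBits Cfsg.Agent.Lib.CoxCert Cfsg.Agent.Lib.BitClose Cfsg.Agent.Lib.F24Base Cfsg.Agent.Lib.F24Rep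
open Cfsg.Agent.Lib.F24Psi Cfsg.Agent.Lib.F24Orb Cfsg.Agent.Lib.F24Main Cfsg.Agent.Lib.F24Cl Cfsg.Spor
open Cfsg.Agent.Lib.Fi24K45 Cfsg.Agent.Lib.Fi24Scan45 Cfsg.Agent.Lib.Fi24Cent45 Cfsg.Agent.Lib.Fi24LT45
open Cfsg.Agent.TcData.Fi24.I306936 (hs)

/-- The relation on the points is symmetric. -/
theorem Cm_symm {q r : ℕ} (hq : q < nP) (hr : r < nP) : Cm q r ↔ Cm r q := by
  obtain ⟨t, ht⟩ := exists_Pq hq
  obtain ⟨u, hu⟩ := exists_Pq hr
  rw [Cm_iff ht, Cm_iff hu, ← comm_iff_fix ht hu, ← comm_iff_fix hu ht]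
  exact ⟨fun h => h.symm, fun h => h.symm⟩

theorem Cm_self {q : ℕ} (hq : q < nP) : Cm q q := by
  obtain ⟨t, ht⟩ := exists_Pq hq
  rw [Cm_iff ht, ← comm_iff_fix ht ht]

/-- The masks. -/
noncomputable def Fa : ℕ := fixW [3]
noncomputable def Fk : ℕ := fixW [4]

theorem FixM_a : FixM Fa (genF 3) := by
  have := fixW_spec [3]
  simpa [ev_cons, Fa] using this

theorem FixM_k : FixM Fk (genF 4) := by
  have := fixW_spec [4]
  simpa [ev_cons, Fk] using this

theorem lt_two_nineteen : nP < 2 ^ 19 := by norm_num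

/-- Common neighbours of two points, as a set of naturals. -/
def Cn (p q : ℕ) : Set ℕ := {r | r < nP ∧ r ≠ p ∧ r ≠ q ∧ Cm p r ∧ Cm q r}

/-- Neighbours of a point, as a set of naturals. -/
def Nb (p : ℕ) : Set ℕ := {r | r < nP ∧ r ≠ p ∧ Cm p r}

theorem Cn_image (g : Fi24) {p q : ℕ} (hp : p < nP) (hq : q < nP) : Cn (Phi g p) (Phi g q) = Phi g '' Cn p q := by
  ext r
  constructor
  · rintro ⟨h1, h2, h3, h4, h5⟩
    refine ⟨(Phi g)⁻¹ r, ⟨?_, ?_, ?_, ?_, ?_⟩, by simp⟩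
    · rw [← map_inv]
      exact Phi_lt _ h1
    · intro h
      apply h2
      rw [← h]
      simp
    · intro h
      apply h3
      rw [← h]
      simp
    · rw [← Cm_conj g hp]
      simpa using h4
    · rw [← Cm_conj g hq]
      simpa using h5
  · rintro ⟨s, ⟨h1, h2, h3, h4, h5⟩, rfl⟩
    refine ⟨Phi_lt _ h1, ?_, ?_, ?_, ?_⟩
    · intro h
      exact h2 ((Phi g).injective h)
    · intro h
      exact h3 ((Phi g).injective h)
    · exact (Cm_conj g hp).2 h4
    · exact (Cm_conj g hq).2 h5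

theorem Nb_image (g : Fi24) {p : ℕ} (hp : p < nP) : Nb (Phi g p) = Phi g '' Nb p := by
  ext r
  constructor
  · rintro ⟨h1, h2, h4⟩
    refine ⟨(Phi g)⁻¹ r, ⟨?_, ?_, ?_⟩, by simp⟩
    · rw [← map_inv]
      exact Phi_lt _ h1
    · intro h
      apply h2
      rw [← h]
      simp
    · rw [← Cm_conj g hp]
      simpa using h4
  · rintro ⟨s, ⟨h1, h2, h4⟩, rfl⟩
    refine ⟨Phi_lt _ h1, ?_, ?_⟩
    · intro h
      exact h2 ((Phi g).injective h)
    · exact (Cm_conj g hp).2 h4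

theorem bit_one (i : ℕ) : (1 : ℕ).testBit i = decide (i = 0) := by
  rcases i with _ | i
  · rfl
  · simp [Nat.testBit_succ]

theorem bit_sixtyfive (i : ℕ) : (65 : ℕ).testBit i = (decide (i = 0) || decide (i = 6)) := by
  by_cases hi : i < 7
  · interval_cases i <;> rfl
  · have h1 : (65 : ℕ) < 2 ^ i := lt_of_lt_of_le (by norm_num) (Nat.pow_le_pow_right (by norm_num) (by omega : 7 ≤ i))
    rw [Nat.testBit_lt_two_pow h1]
    have h2 : i ≠ 0 := by omega
    have h3 : i ≠ 6 := by omega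
    simp [h2, h3]

theorem bits_lt {A : ℕ} (hA : A < 2 ^ nP) {i : ℕ} (h : A.testBit i = true) : i < nP := by
  by_contra hi
  have h1 : A < 2 ^ i := lt_of_lt_of_le hA (Nat.pow_le_pow_right (by norm_num) (by omega))
  rw [Nat.testBit_lt_two_pow h1] at h
  exact Bool.noConfusion h

/-- Mask of the neighbours of the base point. -/
noncomputable def Mn : ℕ := Nat.xor A0L 1
/-- Mask of the common neighbours of the points of `l` and `a`. -/
noncomputable def Mc : ℕ := Nat.xor (Nat.land A0L Fa) 65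
/-- Mask of the common neighbours of the points of `l` and `k`. -/
noncomputable def Mk : ℕ := Nat.land A0L Fk

theorem Mn_card : popc 19 Mn = 31671 := by decide +kernel
theorem Mc_card : popc 19 Mc = 3510 := by decide +kernel
theorem Mk_card : popc 19 Mk = 3240 := by decide +kernel
theorem Mn_lt : Mn < 2 ^ 2 ^ 19 := by decide +kernel
theorem Mc_lt : Mc < 2 ^ 2 ^ 19 := by decide +kernel
theorem Mk_lt : Mk < 2 ^ 2 ^ 19 := by decide +kernel
theorem Mn_lt' : Mn < 2 ^ nP := by decide +kernel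
theorem Mc_lt' : Mc < 2 ^ nP := by decide +kernel
theorem Mk_lt' : Mk < 2 ^ nP := by decide +kernel
theorem A0L_0 : A0L.testBit 0 = true := by decide +kernel
theorem A0L_6 : A0L.testBit 6 = true := by decide +kernel
theorem A0L_2 : A0L.testBit 2 = false := by decide +kernel
theorem Fa_0 : Fa.testBit 0 = true := by decide +kernel
theorem Fa_6 : Fa.testBit 6 = true := by decide +kernel
theorem Fk_0 : Fk.testBit 0 = false := by decide +kernel

theorem Cm_zero {r : ℕ} : Cm 0 r ↔ Phi ll r = r := Cm_iff Pq_ll r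
theorem Cm_six {r : ℕ} : Cm 6 r ↔ Phi (genF 3) r = r := Cm_iff Pq3 r
theorem Cm_two {r : ℕ} : Cm 2 r ↔ Phi (genF 4) r = r := Cm_iff Pq4 r

theorem mem_Mn {r : ℕ} : Mn.testBit r = true ↔ r < nP ∧ r ≠ 0 ∧ Cm 0 r := by
  unfold Mn
  rw [xor_bit, bit_one]
  constructor
  · intro h
    have h0 : r ≠ 0 := by
      rintro rfl
      rw [A0L_0] at h
      simp at h
    have hb : A0L.testBit r = true := by simpa [h0] using h
    have hlt : r < nP := bits_lt (by decide +kernel) hb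
    exact ⟨hlt, h0, Cm_zero.2 ((FixM_A0L r hlt).1 hb)⟩
  · rintro ⟨h1, h2, h3⟩
    have hb : A0L.testBit r = true := (FixM_A0L r h1).2 (Cm_zero.1 h3)
    simp [hb, h2]

theorem mem_Mc {r : ℕ} : Mc.testBit r = true ↔ r < nP ∧ r ≠ 0 ∧ r ≠ 6 ∧ Cm 0 r ∧ Cm 6 r := by
  unfold Mc
  rw [xor_bit, land_bit, bit_sixtyfive]
  constructor
  · intro h
    have h0 : r ≠ 0 := by
      rintro rfl
      rw [A0L_0, Fa_0] at h
      simp at h
    have h6 : r ≠ 6 := by
      rintro rfl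
      rw [A0L_6, Fa_6] at h
      simp at h
    have hb : (A0L.testBit r && Fa.testBit r) = true := by simpa [h0, h6] using h
    rw [Bool.and_eq_true] at hb
    have hlt : r < nP := bits_lt (by decide +kernel) hb.1
    exact ⟨hlt, h0, h6, Cm_zero.2 ((FixM_A0L r hlt).1 hb.1), Cm_six.2 ((FixM_a r hlt).1 hb.2)⟩
  · rintro ⟨h1, h2, h6, h3, h4⟩
    have hb : A0L.testBit r = true := (FixM_A0L r h1).2 (Cm_zero.1 h3)
    have hc : Fa.testBit r = true := (FixM_a r h1).2 (Cm_six.1 h4)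
    simp [hb, hc, h2, h6]

theorem mem_Mk {r : ℕ} : Mk.testBit r = true ↔ r < nP ∧ r ≠ 0 ∧ r ≠ 2 ∧ Cm 0 r ∧ Cm 2 r := by
  unfold Mk
  rw [land_bit]
  constructor
  · intro h
    rw [Bool.and_eq_true] at h
    have h0 : r ≠ 0 := by
      rintro rfl
      rw [Fk_0] at h
      exact Bool.noConfusion h.2
    have h2 : r ≠ 2 := by
      rintro rfl
      rw [A0L_2] at h
      exact Bool.noConfusion h.1
    have hlt : r < nP := bits_lt (by decide +kernel) h.1
    exact ⟨hlt, h0, h2, Cm_zero.2 ((FixM_A0L r hlt).1 h.1), Cm_two.2 ((FixM_k r hlt).1 h.2)⟩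
  · rintro ⟨h1, h2, h6, h3, h4⟩
    have hb : A0L.testBit r = true := (FixM_A0L r h1).2 (Cm_zero.1 h3)
    have hc : Fk.testBit r = true := (FixM_k r h1).2 (Cm_two.1 h4)
    simp [hb, hc]

theorem ncard_Nb : (Nb 0).ncard = 31671 := by
  have : Nb 0 = {i | Mn.testBit i = true} := by
    ext r
    exact mem_Mn.symm
  rw [this, ncard_popc Mn_lt, Mn_card]

theorem ncard_Cc : (Cn 0 6).ncard = 3510 := by
  have : Cn 0 6 = {i | Mc.testBit i = true} := by
    ext r
    exact mem_Mc.symm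
  rw [this, ncard_popc Mc_lt, Mc_card]

theorem ncard_Ck : (Cn 0 2).ncard = 3240 := by
  have : Cn 0 2 = {i | Mk.testBit i = true} := by
    ext r
    exact mem_Mk.symm
  rw [this, ncard_popc Mk_lt, Mk_card]

theorem Cm06 : Cm 0 6 := Cm_zero.2 ((FixM_A0L 6 (by norm_num)).1 A0L_6)
theorem not_Cm02 : ¬ Cm 0 2 := by
  intro h
  have := (FixM_A0L 2 (by norm_num)).2 (Cm_zero.1 h)
  rw [A0L_2] at this
  exact Bool.noConfusion this

theorem fix_QQ {u : Fi24} (hu : u ∈ QQ) : Phi u 0 = 0 :=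
  (fix_iff u).2 (QQ_le_HH hu)

theorem hs' {p : ℕ} (hp : p < nP) : ∃ g : Fi24, Phi g 0 = p := hs p hp

/-- Pairs of points are moved to standard pairs. -/
theorem std_pair {p q : ℕ} (hp : p < nP) (hq : q < nP) (hne : p ≠ q) :
    ∃ g : Fi24, Phi g p = 0 ∧ (Phi g q = 6 ∨ Phi g q = 2) := by
  obtain ⟨g1, rfl⟩ := hs' hp
  obtain ⟨h, hh⟩ := hs' (Phi_lt g1⁻¹ hq)
  have hq0 : Phi h 0 ≠ 0 := by
    rw [hh]
    intro h0
    apply hne
    have := congrArg (Phi g1) h0
    rw [map_inv] at this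
    simpa using this.symm
  have hP : Pq (h * ll * h⁻¹) (Phi h 0) := Pq_ll.conj h
  rcases conj_cases h with h1 | ⟨u, hu, h1⟩ | ⟨u, hu, h1⟩
  · exact absurd ((fix_iff h).2 h1) hq0
  · have h2 : Pq (h * ll * h⁻¹) (Phi u 6) := by
      rw [h1]
      exact Pq3.conj u
    have h3 := Pq.uniq hP h2
    refine ⟨u⁻¹ * g1⁻¹, ?_, Or.inl ?_⟩
    · have e : Phi g1⁻¹ (Phi g1 0) = 0 := by
        rw [map_inv]
        simp
      rw [map_mul, Equiv.Perm.mul_apply, e]
      exact fix_QQ (QQ.inv_mem hu)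
    · rw [map_mul, Equiv.Perm.mul_apply, ← hh, h3, map_inv]
      simp
  · have h2 : Pq (h * ll * h⁻¹) (Phi u 2) := by
      rw [h1]
      exact Pq4.conj u
    have h3 := Pq.uniq hP h2
    refine ⟨u⁻¹ * g1⁻¹, ?_, Or.inr ?_⟩
    · have e : Phi g1⁻¹ (Phi g1 0) = 0 := by
        rw [map_inv]
        simp
      rw [map_mul, Equiv.Perm.mul_apply, e]
      exact fix_QQ (QQ.inv_mem hu)
    · rw [map_mul, Equiv.Perm.mul_apply, ← hh, h3, map_inv]
      simp

theorem std_comm {p q : ℕ} (hp : p < nP) (hq : q < nP) (hne : p ≠ q) (hc : Cm p q) :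
    ∃ g : Fi24, Phi g p = 0 ∧ Phi g q = 6 := by
  obtain ⟨g, h1, h2 | h2⟩ := std_pair hp hq hne
  · exact ⟨g, h1, h2⟩
  · exfalso
    apply not_Cm02
    rw [← h1, ← h2]
    exact (Cm_conj g hp).2 hc

theorem std_ncomm {p q : ℕ} (hp : p < nP) (hq : q < nP) (hne : p ≠ q) (hc : ¬ Cm p q) :
    ∃ g : Fi24, Phi g p = 0 ∧ Phi g q = 2 := by
  obtain ⟨g, h1, h2 | h2⟩ := std_pair hp hq hne
  · exfalso
    apply hc
    rw [← Cm_conj g hp, h1, h2]
    exact Cm06
  · exact ⟨g, h1, h2⟩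

theorem ncard_Cn_comm {p q : ℕ} (hp : p < nP) (hq : q < nP) (hne : p ≠ q) (hc : Cm p q) : (Cn p q).ncard = 3510 := by
  obtain ⟨g, h1, h2⟩ := std_comm hp hq hne hc
  have := Cn_image g hp hq
  rw [h1, h2] at this
  rw [← ncard_Cc, this, Set.ncard_image_of_injective _ (Phi g).injective]

theorem ncard_Cn_ncomm {p q : ℕ} (hp : p < nP) (hq : q < nP) (hne : p ≠ q) (hc : ¬ Cm p q) : (Cn p q).ncard = 3240 := by
  obtain ⟨g, h1, h2⟩ := std_ncomm hp hq hne hc
  have := Cn_image g hp hq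
  rw [h1, h2] at this
  rw [← ncard_Ck, this, Set.ncard_image_of_injective _ (Phi g).injective]

theorem ncard_Nb_all {p : ℕ} (hp : p < nP) : (Nb p).ncard = 31671 := by
  obtain ⟨g, rfl⟩ := hs' hp
  have h1 := Nb_image g (p := 0) (by norm_num)
  rw [h1, Set.ncard_image_of_injective _ (Phi g).injective]
  exact ncard_Nb

/-- The commuting graph on the points. -/
def Gc : SimpleGraph (Fin nP) where
  Adj a b := a ≠ b ∧ Cm a b
  symm := ⟨fun a b h => ⟨h.1.symm, (Cm_symm a.2 b.2).1 h.2⟩⟩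
  loopless := ⟨fun a h => h.1 rfl⟩

noncomputable instance : DecidableRel Gc.Adj := Classical.decRel _

theorem image_neighbor (v : Fin nP) : Fin.val '' (Gc.neighborSet v) = Nb v := by
  ext r
  constructor
  · rintro ⟨w, h, rfl⟩
    exact ⟨w.2, fun h1 => h.1 (Fin.ext h1.symm), h.2⟩
  · rintro ⟨h1, h2, h3⟩
    exact ⟨⟨r, h1⟩, ⟨fun h => h2 (congrArg Fin.val h).symm, h3⟩, rfl⟩

theorem image_common (v w : Fin nP) : Fin.val '' (Gc.commonNeighbors v w) = Cn v w := by
  ext r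
  constructor
  · rintro ⟨u, h, rfl⟩
    rw [SimpleGraph.mem_commonNeighbors] at h
    exact ⟨u.2, fun h1 => h.1.1 (Fin.ext h1.symm), fun h1 => h.2.1 (Fin.ext h1.symm), h.1.2, h.2.2⟩
  · rintro ⟨h1, h2, h3, h4, h5⟩
    refine ⟨⟨r, h1⟩, ?_, rfl⟩
    rw [SimpleGraph.mem_commonNeighbors]
    exact ⟨⟨fun h => h2 (congrArg Fin.val h).symm, h4⟩, ⟨fun h => h3 (congrArg Fin.val h).symm, h5⟩⟩

theorem srg : Gc.IsSRGWith 306936 31671 3510 3240 where
  card := by simp [nP]
  regular := by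
    intro v
    rw [← SimpleGraph.card_neighborSet_eq_degree, Fintype.card_eq_nat_card, Nat.card_coe_set_eq,
      ← Set.ncard_image_of_injective _ Fin.val_injective, image_neighbor]
    exact ncard_Nb_all v.2
  of_adj := by
    intro v w h
    rw [Fintype.card_eq_nat_card, Nat.card_coe_set_eq, ← Set.ncard_image_of_injective _ Fin.val_injective, image_common]
    exact ncard_Cn_comm v.2 w.2 (fun h1 => h.1 (Fin.ext h1)) h.2
  of_not_adj := by
    intro v w hne h
    rw [Fintype.card_eq_nat_card, Nat.card_coe_set_eq, ← Set.ncard_image_of_injective _ Fin.val_injective, image_common]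
    refine ncard_Cn_ncomm v.2 w.2 (fun h1 => hne (Fin.ext h1)) ?_
    intro hc
    exact h ⟨hne, hc⟩

/-- The permutation of the points induced by an element. -/
noncomputable def zP (x : Fi24) : Equiv.Perm (Fin nP) where
  toFun v := ⟨Phi x v, Phi_lt x v.2⟩
  invFun v := ⟨Phi x⁻¹ v, Phi_lt x⁻¹ v.2⟩
  left_inv v := by
    apply Fin.ext
    simp [map_inv]
  right_inv v := by
    apply Fin.ext
    simp [map_inv]

/-- The main statement. -/
theorem exists_comm_of_fpf (x : Fi24) (h3 : x ^ 3 = 1) (hf : ∀ p, p < nP → Phi x p ≠ p) :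
    ∃ p, p < nP ∧ Phi x p ≠ p ∧ Cm p (Phi x p) := by
  obtain ⟨v, hv⟩ := Cfsg.Agent.Lib.SrgPar4.exists_adj Gc srg (zP x)
    (by
      intro v
      apply Fin.ext
      show Phi x (Phi x (Phi x v)) = v
      have h4 : Phi (x ^ 3) v = v := by rw [h3]; simp
      simpa [pow_succ, Equiv.Perm.mul_apply] using h4)
    (by
      intro v h
      exact hf v v.2 (congrArg Fin.val h))
    (by
      intro a b
      constructor
      · rintro ⟨h1, h2⟩
        refine ⟨fun h => h1 (by rw [h]), (Cm_conj x a.2).1 h2⟩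
      · rintro ⟨h1, h2⟩
        refine ⟨fun h => h1 ((zP x).injective h), (Cm_conj x a.2).2 h2⟩)
  exact ⟨v, v.2, hf v v.2, hv.2⟩

end Cfsg.Agent.Lib.Fi24Srg4
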