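import Mathlib
import Cfsg.Agent.Lib.Fi24Srg4

/-!
# Commuting triples of points of `Fi₂₄`, and the orders of their stabilisers
-/

set_option autoImplicit false
set_option maxRecDepth 100000
set_option linter.all false

namespace Cfsg.Agent.Lib.Fi24Tr4

open Cfsg.Agent.Lib.TcBits Cfsg.Agent.Lib.CoxCert Cfsg.Agent.Lib.BitClose Cfsg.Agent.Lib.F24Base Cfsg.Agent.Lib.F24Rep
open Cfsg.Agent.Lib.F24Psi Cfsg.Agent.Lib.F24Orb Cfsg.Agent.Lib.F24Main Cfsg.Agent.Lib.F24Cl Cfsg.Spor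
open Cfsg.Agent.Lib.Fi24K45 Cfsg.Agent.Lib.Fi24Scan45 Cfsg.Agent.Lib.Fi24Cent45 Cfsg.Agent.Lib.Fi24LT45 Cfsg.Agent.Lib.Fi24Srg4
open Cfsg.Agent.TcData.Fi24.I306936 (HH)

/-- The generators of the stabiliser of the points of `l` and `a`. -/
def gens2 : List (List ℕ) :=
  [[0], [1], [6], [7], [8], [9], [10], [11], [2, 1, 0, 10, 6, 3, 2, 1, 0, 1, 2, 3, 6, 10, 0, 1, 2]]

theorem gens2_fix : ∀ w ∈ gens2, walkPt prF w 0 = 0 ∧ walkPt prF w 6 = 6 := by decide +kernel

/-- Growth of a mask. -/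
noncomputable def growW (gs : List (List ℕ)) : ℕ → ℕ → ℕ
  | 0, Y => Y
  | n + 1, Y => growW gs n (gs.foldl (fun Y w => Nat.lor Y (wordApply prF w Y)) Y)

/-- The invariant of the growth. -/
def Inv2 (Y : ℕ) : Prop := ∀ r, Y.testBit r = true → ∃ g : Fi24, Phi g 0 = 0 ∧ Phi g 6 = 6 ∧ Phi g 24 = r

theorem Inv2_step {Y : ℕ} (hY : Inv2 Y) {w : List ℕ} (hw : w ∈ gens2) : Inv2 (Nat.lor Y (wordApply prF w Y)) := by
  intro r hr
  rw [lor_bit, Bool.or_eq_true] at hr
  rcases hr with hr | hr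
  · exact hY r hr
  · rw [testBit_word] at hr
    obtain ⟨g, h1, h2, h3⟩ := hY _ hr
    obtain ⟨h4, h5⟩ := gens2_fix w hw
    rw [← Phi_walk] at h4 h5
    refine ⟨ev genF w * g, ?_, ?_, ?_⟩
    · rw [map_mul, Equiv.Perm.mul_apply, h1, h4]
    · rw [map_mul, Equiv.Perm.mul_apply, h2, h5]
    · rw [map_mul, Equiv.Perm.mul_apply, h3]
      simp

theorem Inv2_fold (l : List (List ℕ)) (hl : ∀ w ∈ l, w ∈ gens2) {Y : ℕ} (hY : Inv2 Y) :
    Inv2 (l.foldl (fun Y w => Nat.lor Y (wordApply prF w Y)) Y) := by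
  induction l generalizing Y with
  | nil => exact hY
  | cons w l ih =>
    rw [List.foldl_cons]
    exact ih (fun u hu => hl u (List.mem_cons_of_mem _ hu)) (Inv2_step hY (hl w List.mem_cons_self))

theorem Inv2_grow (n : ℕ) {Y : ℕ} (hY : Inv2 Y) : Inv2 (growW gens2 n Y) := by
  induction n generalizing Y with
  | zero => exact hY
  | succ n ih => exact ih (Inv2_fold _ (fun _ h => h) hY)

theorem Inv2_init : Inv2 (2 ^ 24) := by
  intro r hr
  rw [Nat.testBit_two_pow] at hr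
  have : 24 = r := by simpa using hr
  subst this
  exact ⟨1, by simp, by simp, by simp⟩

theorem grow_eq : growW gens2 12 (2 ^ 24) = Mc := by decide +kernel

theorem Mc_sound {r : ℕ} (h : Mc.testBit r = true) : ∃ g : Fi24, Phi g 0 = 0 ∧ Phi g 6 = 6 ∧ Phi g 24 = r := by
  have h1 := Inv2_grow 12 Inv2_init
  rw [grow_eq] at h1
  exact h1 r h

theorem Mc_24 : Mc.testBit 24 = true := by decide +kernel

/-- Commuting triples of points are moved to the standard triple. -/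
theorem std_triple {p q r : ℕ} (hp : p < nP) (hq : q < nP) (hr : r < nP) (hpq : p ≠ q) (hpr : p ≠ r) (hqr : q ≠ r)
    (h1 : Cm p q) (h2 : Cm p r) (h3 : Cm q r) : ∃ g : Fi24, Phi g p = 0 ∧ Phi g q = 6 ∧ Phi g r = 24 := by
  obtain ⟨g, hg1, hg2⟩ := std_comm hp hq hpq h1
  have h4 : Mc.testBit (Phi g r) = true := by
    rw [mem_Mc]
    refine ⟨Phi_lt g hr, ?_, ?_, ?_, ?_⟩
    · intro h
      apply hpr
      apply (Phi g).injective
      rw [hg1, h]
    · intro h
      apply hqr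
      apply (Phi g).injective
      rw [hg2, h]
    · rw [← hg1]
      exact (Cm_conj g hp).2 h2
    · rw [← hg2]
      exact (Cm_conj g hq).2 h3
  obtain ⟨u, hu1, hu2, hu3⟩ := Mc_sound h4
  refine ⟨u⁻¹ * g, ?_, ?_, ?_⟩
  · rw [map_mul, Equiv.Perm.mul_apply, hg1, map_inv]
    rw [Equiv.Perm.inv_eq_iff_eq]
    exact hu1.symm
  · rw [map_mul, Equiv.Perm.mul_apply, hg2, map_inv]
    rw [Equiv.Perm.inv_eq_iff_eq]
    exact hu2.symm
  · rw [map_mul, Equiv.Perm.mul_apply, map_inv]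
    rw [Equiv.Perm.inv_eq_iff_eq]
    exact hu3.symm

/-- The pointwise stabiliser of a list of points. -/
def St (L : List ℕ) : Subgroup Fi24 where
  carrier := {g | ∀ p ∈ L, Phi g p = p}
  one_mem' := by
    intro p _
    simp
  mul_mem' := by
    intro a b ha hb p hp
    rw [map_mul, Equiv.Perm.mul_apply, hb p hp, ha p hp]
  inv_mem' := by
    intro a ha p hp
    rw [map_inv, Equiv.Perm.inv_eq_iff_eq]
    exact (ha p hp).symm

theorem mem_St {L : List ℕ} {g : Fi24} : g ∈ St L ↔ ∀ p ∈ L, Phi g p = p := Iff.rfl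

/-- Orbits and stabilisers. -/
theorem card_orb (H K : Subgroup Fi24) (p : ℕ) (hK : ∀ g, g ∈ K ↔ g ∈ H ∧ Phi g p = p) (O : Set ℕ)
    (hO : ∀ r, r ∈ O ↔ ∃ g ∈ H, Phi g p = r) : Nat.card H = O.ncard * Nat.card K := by
  classical
  letI : MulAction H ℕ := MulAction.compHom ℕ (Phi.comp H.subtype)
  have hsm : ∀ (g : H) (n : ℕ), g • n = Phi (g : Fi24) n := fun g n => rfl
  have h1 := Subgroup.card_mul_index (MulAction.stabilizer H p)
  rw [MulAction.index_stabilizer] at h1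
  have h2 : MulAction.orbit H p = O := by
    ext r
    rw [hO, MulAction.mem_orbit_iff]
    constructor
    · rintro ⟨g, rfl⟩
      exact ⟨g, g.2, (hsm g p).symm⟩
    · rintro ⟨g, hg, rfl⟩
      exact ⟨⟨g, hg⟩, hsm ⟨g, hg⟩ p⟩
  have h3 : Nat.card (MulAction.stabilizer H p) = Nat.card K := by
    apply Nat.card_congr
    refine ⟨fun x => ⟨x.1.1, (hK _).2 ⟨x.1.2, ?_⟩⟩, fun x => ⟨⟨x.1, ((hK _).1 x.2).1⟩, ?_⟩, ?_, ?_⟩
    · exact x.2
    · exact ((hK _).1 x.2).2
    · intro x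
      rfl
    · intro x
      rfl
  rw [h2, h3] at h1
  rw [← h1, mul_comm]

theorem St0_eq : St [0] = HH := by
  ext g
  rw [mem_St, ← fix_iff]
  simp

theorem card_St0 : Nat.card (St [0]) = 2 * 4089470473293004800 := by
  rw [St0_eq]
  exact card_HH'

theorem card_St1 : Nat.card (St [0]) = 31671 * Nat.card (St [0, 6]) := by
  have h := card_orb (St [0]) (St [0, 6]) 6 (by
    intro g
    simp only [mem_St, List.mem_cons, List.not_mem_nil, or_false, forall_eq_or_imp, forall_eq]) {i | Mn.testBit i = true} (by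
    intro r
    simp only [Set.mem_setOf_eq]
    rw [mem_Mn]
    constructor
    · rintro ⟨h1, h2, h3⟩
      obtain ⟨g, hg1, hg2⟩ := std_comm (p := 0) (q := r) (by norm_num) h1 h2.symm h3
      refine ⟨g⁻¹, ?_, ?_⟩
      · apply Subgroup.inv_mem
        simpa [mem_St] using hg1
      · rw [map_inv, Equiv.Perm.inv_eq_iff_eq]
        exact hg2.symm
    · rintro ⟨g, hg, rfl⟩
      have hg0 : Phi g 0 = 0 := hg 0 (by simp)
      refine ⟨Phi_lt g (by norm_num), ?_, ?_⟩
      · intro h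
        have : (6 : ℕ) = 0 := (Phi g).injective (by rw [h, hg0])
        omega
      · have := (Cm_conj g (q := 0) (r := 6) (by norm_num)).2 Cm06
        rwa [hg0] at this)
  rw [h, ncard_popc Mn_lt, Mn_card]

theorem card_St2 : Nat.card (St [0, 6]) = 3510 * Nat.card (St [0, 6, 24]) := by
  have h := card_orb (St [0, 6]) (St [0, 6, 24]) 24 (by
    intro g
    simp only [mem_St, List.mem_cons, List.not_mem_nil, or_false, forall_eq_or_imp, forall_eq]
    try exact ⟨fun h => ⟨⟨h.1, h.2.1⟩, h.2.2⟩, fun h => ⟨h.1.1, h.1.2, h.2⟩⟩) {i | Mc.testBit i = true} (by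
    intro r
    simp only [Set.mem_setOf_eq]
    constructor
    · intro h1
      obtain ⟨g, hg1, hg2, hg3⟩ := Mc_sound h1
      refine ⟨g, ?_, hg3⟩
      simpa [mem_St] using ⟨hg1, hg2⟩
    · rintro ⟨g, hg, rfl⟩
      have hg0 : Phi g 0 = 0 := hg 0 (by simp)
      have hg6 : Phi g 6 = 6 := hg 6 (by simp)
      obtain ⟨a1, a2, a3, a4, a5⟩ := mem_Mc.1 Mc_24
      rw [mem_Mc]
      refine ⟨Phi_lt g a1, ?_, ?_, ?_, ?_⟩
      · intro h
        have : (24 : ℕ) = 0 := (Phi g).injective (by rw [h, hg0])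
        omega
      · intro h
        have : (24 : ℕ) = 6 := (Phi g).injective (by rw [h, hg6])
        omega
      · have := (Cm_conj g (q := 0) (r := 24) (by norm_num)).2 a4
        rwa [hg0] at this
      · have := (Cm_conj g (q := 6) (r := 24) (by norm_num)).2 a5
        rwa [hg6] at this)
  rw [h, ncard_popc Mc_lt, Mc_card]

theorem card_St3 : Nat.card (St [0, 6, 24]) = 73574645760 := by
  have h1 := card_St0
  rw [card_St1, card_St2] at h1
  omega

end Cfsg.Agent.Lib.Fi24Tr4
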