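import Mathlib
import Cfsg.Agent.Lib.Fi24Tr4
import Cfsg.Agent.Lib.Fi24Fd4
import Cfsg.Agent.Lib.PcThree4

/-!
# The Sylow `3`-subgroup of the stabiliser of a commuting triple in `Fi₂₄`, and its elements
-/

set_option autoImplicit false
set_option maxRecDepth 100000
set_option linter.all false

namespace Cfsg.Agent.Lib.Fi24Pc4

open Cfsg.Agent.Lib.TcBits Cfsg.Agent.Lib.CoxCert Cfsg.Agent.Lib.BitClose Cfsg.Agent.Lib.F24Base Cfsg.Agent.Lib.F24Rep
open Cfsg.Agent.Lib.F24Psi Cfsg.Agent.Lib.F24Orb Cfsg.Agent.Lib.F24Main Cfsg.Agent.Lib.F24Cl Cfsg.Spor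
open Cfsg.Agent.Lib.Fi24K45 Cfsg.Agent.Lib.Fi24Scan45 Cfsg.Agent.Lib.Fi24Cent45 Cfsg.Agent.Lib.Fi24LT45 Cfsg.Agent.Lib.Fi24Srg4
open Cfsg.Agent.Lib.Fi24Tr4 Cfsg.Agent.Lib.Fi24Fd4 Cfsg.Agent.Lib.PcThree4

/-- A walk through the literal tables. -/
noncomputable def wT (E : List ℕ) (p : ℕ) : ℕ := walkT lT E p

theorem wT_eq (E : List ℕ) {p : ℕ} (hp : p < nP) : wT E p = Phi (ev genF E) p := by
  unfold wT
  rw [← lT_eq]
  exact walkT_eq E hp

theorem lp_lt {g : ℕ} (hg : g < 12) : lp g < nP := by
  interval_cases g <;> decide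

/-- Equality of elements, read off the points of the letters. -/
noncomputable def eqW (u v : List ℕ) : Bool :=
  (List.range 12).all fun g => Nat.beq (wT u (lp g)) (wT v (lp g))

theorem eqW_sound {u v : List ℕ} (h : eqW u v = true) : ev genF u = ev genF v := by
  have h1 : ∀ g, g < 12 → Phi (ev genF u) (lp g) = Phi (ev genF v) (lp g) := by
    intro g hg
    have h2 := (List.all_eq_true.1 h) g (List.mem_range.2 hg)
    have h3 := Nat.eq_of_beq_eq_true h2
    rwa [wT_eq _ (lp_lt hg), wT_eq _ (lp_lt hg)] at h3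
  have h4 : (ev genF v)⁻¹ * ev genF u = 1 := by
    apply eq_one_of_fix
    intro g hg
    rw [map_mul, Equiv.Perm.mul_apply, h1 g hg, map_inv]
    simp
  exact (inv_mul_eq_one.1 h4).symm

theorem ev_rev (w : List ℕ) : ev genF w.reverse = (ev genF w)⁻¹ := ev_reverse w

/-- A power of a word. -/
def powW (w : List ℕ) (e : ℕ) : List ℕ := (List.replicate e w).flatten

theorem ev_powW (w : List ℕ) (e : ℕ) : ev genF (powW w e) = (ev genF w) ^ e := ev_rep genF w e

/-- The word of a product with exponents. -/
def nfW : List (List ℕ) → List ℕ → List ℕ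
  | w :: l, e :: es => nfW l es ++ powW w e
  | _, _ => []

theorem ev_nfW (ws : List (List ℕ)) (es : List ℕ) : ev genF (nfW ws es) = nf (ws.map (ev genF)) es := by
  induction ws generalizing es with
  | nil => rfl
  | cons w l ih =>
    cases es with
    | nil => rfl
    | cons e es =>
      show ev genF (nfW l es ++ powW w e) = (ev genF w) ^ e * nf (l.map (ev genF)) es
      rw [ev_append, ev_powW, ih]

/-- Membership in a list. -/
def inL (O : List ℕ) (x : ℕ) : Bool := O.any (Nat.beq x)

theorem inL_iff {O : List ℕ} {x : ℕ} : inL O x = true ↔ x ∈ O := by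
  unfold inL
  rw [List.any_eq_true]
  constructor
  · rintro ⟨y, hy, h⟩
    rwa [Nat.eq_of_beq_eq_true h]
  · intro h
    exact ⟨x, h, Nat.beq_refl x⟩

/-- The check of conjugates. -/
noncomputable def chkConj (w : List ℕ) (tail : List (List ℕ)) : List (List ℕ) → List (List ℕ) → Bool
  | h :: hs, c :: cs => eqW (w.reverse ++ h ++ w) (nfW tail c) && chkConj w tail hs cs
  | [], [] => true
  | _, _ => false

theorem chkConj_sound {w : List ℕ} {tail hs cs : List (List ℕ)} (h : chkConj w tail hs cs = true) :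
    ∀ u ∈ hs, ∃ es, ev genF w * ev genF u * (ev genF w)⁻¹ = nf (tail.map (ev genF)) es := by
  induction hs generalizing cs with
  | nil => intro u hu; simp at hu
  | cons a hs ih =>
    cases cs with
    | nil => simp [chkConj] at h
    | cons c cs =>
      simp only [chkConj, Bool.and_eq_true] at h
      intro u hu
      rcases List.mem_cons.1 hu with rfl | hu
      · refine ⟨c, ?_⟩
        have h1 := eqW_sound h.1
        rw [ev_nfW] at h1
        rw [← h1, ev_append, ev_append, ev_rev]
        group
      · exact ih h.2 u hu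

/-- The check that an element is outside a subgroup. -/
noncomputable def chkNot (w : List ℕ) (tail : List (List ℕ)) (q : ℕ) (O : List ℕ) : Bool :=
  inL O q && !(inL O (wT w q)) &&
    O.all fun p => Nat.blt p nP && tail.all fun h => inL O (wT h p) && inL O (wT h.reverse p)

theorem chkNot_sound {w : List ℕ} {tail : List (List ℕ)} {q : ℕ} {O : List ℕ} (h : chkNot w tail q O = true) :
    ev genF w ∉ clo (tail.map (ev genF)) := by
  unfold chkNot at h
  simp only [Bool.and_eq_true, Bool.not_eq_true'] at h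
  obtain ⟨⟨h1, h2⟩, h3⟩ := h
  have hO : ∀ p ∈ O, p < nP ∧ ∀ u ∈ tail, wT u p ∈ O ∧ wT u.reverse p ∈ O := by
    intro p hp
    have h4 := (List.all_eq_true.1 h3) p hp
    simp only [Bool.and_eq_true] at h4
    refine ⟨by simpa using h4.1, ?_⟩
    intro u hu
    have h5 := (List.all_eq_true.1 h4.2) u hu
    simp only [Bool.and_eq_true] at h5
    exact ⟨inL_iff.1 h5.1, inL_iff.1 h5.2⟩
  let Stb : Subgroup Fi24 :=
    { carrier := {x | ∀ p ∈ O, Phi x p ∈ O ∧ Phi x⁻¹ p ∈ O}
      one_mem' := by
        intro p hp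
        simpa using hp
      mul_mem' := by
        intro a b ha hb p hp
        constructor
        · rw [map_mul, Equiv.Perm.mul_apply]
          exact (ha _ (hb p hp).1).1
        · rw [mul_inv_rev, map_mul, Equiv.Perm.mul_apply]
          exact (hb _ (ha p hp).2).2
      inv_mem' := by
        intro a ha p hp
        rw [inv_inv]
        exact ⟨(ha p hp).2, (ha p hp).1⟩ }
  have hle : clo (tail.map (ev genF)) ≤ Stb := by
    apply (Subgroup.closure_le _).2
    intro x hx
    obtain ⟨u, hu, rfl⟩ := List.mem_map.1 hx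
    intro p hp
    obtain ⟨hlt, h5⟩ := hO p hp
    obtain ⟨h6, h7⟩ := h5 u hu
    rw [wT_eq _ hlt] at h6 h7
    rw [ev_rev] at h7
    exact ⟨h6, h7⟩
  intro hmem
  have hq : q ∈ O := inL_iff.1 h1
  have hlt := (hO q hq).1
  have h8 := (hle hmem q hq).1
  rw [← wT_eq _ hlt, ← inL_iff, h2] at h8
  exact Bool.noConfusion h8

/-- The check of a polycyclic sequence. -/
noncomputable def chkPC : List (List ℕ) → List (List (List ℕ) × List ℕ × ℕ × List ℕ) → Bool
  | [], [] => true
  | w :: l, (cs, c3, q, O) :: d =>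
    chkConj w l l cs && eqW (w ++ w ++ w) (nfW l c3) && chkNot w l q O && chkPC l d
  | _, _ => false

theorem chkPC_sound {ws : List (List ℕ)} {d : List (List (List ℕ) × List ℕ × ℕ × List ℕ)} (h : chkPC ws d = true) :
    PC (ws.map (ev genF)) := by
  induction ws generalizing d with
  | nil => trivial
  | cons w l ih =>
    cases d with
    | nil => simp [chkPC] at h
    | cons a d =>
      obtain ⟨cs, c3, q, O⟩ := a
      simp only [chkPC, Bool.and_eq_true] at h
      obtain ⟨⟨⟨h1, h2⟩, h3⟩, h4⟩ := h
      refine ⟨ih h4, ?_, ?_, chkNot_sound h3⟩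
      · intro u hu
        obtain ⟨v, hv, rfl⟩ := List.mem_map.1 hu
        obtain ⟨es, hes⟩ := chkConj_sound h1 v hv
        rw [hes]
        exact nf_mem _ _
      · have h5 := eqW_sound h2
        rw [ev_nfW] at h5
        have e : ev genF w ^ 3 = ev genF (w ++ w ++ w) := by
          rw [ev_append, ev_append, pow_succ, pow_two, mul_assoc]
        rw [e, h5]
        exact nf_mem _ _

theorem chkPC_true : chkPC hW pcD = true := by decide +kernel

/-- The polycyclic sequence. -/
noncomputable def gL : List Fi24 := hW.map (ev genF)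

theorem PC_gL : PC gL := chkPC_sound chkPC_true

/-- The Sylow `3`-subgroup. -/
noncomputable def RR : Subgroup Fi24 := clo gL

theorem card_RR : Nat.card RR = 3 ^ 7 := by
  have h := (PC_spec gL PC_gL).1
  rw [show gL.length = 7 from by simp [gL, hW]] at h
  exact h

/-- The words of the lower part. -/
def gsW : List (List ℕ) := hW.tail

def sigW : List ℕ := [2, 3, 4, 5, 1, 2, 3, 4]

theorem hW_eq : hW = sigW :: gsW := rfl

/-- The element of `σ R₀` with the given exponents. -/
def xW (es : List ℕ) : List ℕ := nfW gsW es ++ sigW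

theorem ev_xW (es : List ℕ) : ev genF (xW es) = ev genF sigW * nf (gsW.map (ev genF)) es := by
  unfold xW
  rw [ev_append, ev_nfW]

def z0W : List ℕ := xW [1, 1, 0, 0, 0, 0]

/-- The check of a certificate. -/
noncomputable def chkCert (xw : List ℕ) (c : ℕ × List ℕ) : Bool :=
  match c.1 with
  | 0 => Nat.blt (c.2.headD 0) nP && Nat.beq (wT xw (c.2.headD 0)) (c.2.headD 0)
  | 1 => Nat.blt (c.2.headD 0) nP && !(Nat.beq (wT (xw ++ xw ++ xw) (c.2.headD 0)) (c.2.headD 0))
  | _ => eqW (c.2.reverse ++ xw ++ c.2) z0W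

/-- The conclusion of a certificate. -/
def GoodX (x : Fi24) : Prop := (∃ q, q < nP ∧ Phi x q = q) ∨ x ^ 3 ≠ 1 ∨ ∃ u : Fi24, u * x * u⁻¹ = ev genF z0W

theorem chkCert_sound {xw : List ℕ} {c : ℕ × List ℕ} (h : chkCert xw c = true) : GoodX (ev genF xw) := by
  obtain ⟨k, w⟩ := c
  unfold chkCert at h
  match k, h with
  | 0, h =>
    simp only [Bool.and_eq_true] at h
    have hlt : w.headD 0 < nP := by simpa using h.1
    have h2 := Nat.eq_of_beq_eq_true h.2
    rw [wT_eq _ hlt] at h2
    exact Or.inl ⟨_, hlt, h2⟩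
  | 1, h =>
    simp only [Bool.and_eq_true, Bool.not_eq_true'] at h
    have hlt : w.headD 0 < nP := by simpa using h.1
    refine Or.inr (Or.inl ?_)
    intro h3
    have e : ev genF (xw ++ xw ++ xw) = ev genF xw ^ 3 := by
      rw [ev_append, ev_append, pow_succ, pow_two, mul_assoc]
    have h4 : wT (xw ++ xw ++ xw) (w.headD 0) = w.headD 0 := by
      rw [wT_eq _ hlt, e, h3]
      simp
    rw [h4] at h
    simp at h
  | n + 2, h =>
    have h1 := eqW_sound h
    refine Or.inr (Or.inr ⟨ev genF w, ?_⟩)
    rw [← h1, ev_append, ev_append, ev_rev]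
    group

/-- The exponents. -/
def es6 : List (List ℕ) :=
  [0, 1, 2].flatMap fun a => [0, 1, 2].flatMap fun b => [0, 1, 2].flatMap fun c =>
    [0, 1, 2].flatMap fun d => [0, 1, 2].flatMap fun e => [0, 1, 2].map fun f => [a, b, c, d, e, f]

/-- The check of all certificates. -/
noncomputable def chkAll : List (List ℕ) → List (ℕ × List ℕ) → Bool
  | e :: E, c :: C => chkCert (xW e) c && chkAll E C
  | [], _ => true
  | _, [] => false

theorem chkAll_sound {E : List (List ℕ)} {C : List (ℕ × List ℕ)} (h : chkAll E C = true) :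
    ∀ e ∈ E, GoodX (ev genF (xW e)) := by
  induction E generalizing C with
  | nil => intro e he; simp at he
  | cons a E ih =>
    cases C with
    | nil => simp [chkAll] at h
    | cons c C =>
      simp only [chkAll, Bool.and_eq_true] at h
      intro e he
      rcases List.mem_cons.1 he with rfl | he
      · exact chkCert_sound h.1
      · exact ih h.2 e he

theorem chkAll_true : chkAll es6 certs = true := by decide +kernel

theorem mem_es6 {es : List ℕ} (h1 : es.length = 6) (h2 : ∀ e ∈ es, e < 3) : es ∈ es6 := by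
  match es, h1 with
  | [a, b, c, d, e, f], _ =>
    have ha := h2 a (by simp)
    have hb := h2 b (by simp)
    have hc := h2 c (by simp)
    have hd := h2 d (by simp)
    have he := h2 e (by simp)
    have hf := h2 f (by simp)
    unfold es6
    simp only [List.mem_flatMap, List.mem_map, List.mem_cons, List.not_mem_nil, or_false]
    refine ⟨a, by omega, b, by omega, c, by omega, d, by omega, e, by omega, f, by omega, rfl⟩

/-- All elements of `σ R₀` are good. -/
theorem good_all {es : List ℕ} (h1 : es.length = 6) (h2 : ∀ e ∈ es, e < 3) : GoodX (ev genF (xW es)) :=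
  chkAll_sound chkAll_true es (mem_es6 h1 h2)

end Cfsg.Agent.Lib.Fi24Pc4
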