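import Mathlib
import Cfsg.Agent.Lib.Fi24Pc4

/-!
# Elements of order three of `Fi₂₄` without fixed transposition are conjugate
-/

set_option autoImplicit false
set_option maxRecDepth 100000
set_option linter.all false

namespace Cfsg.Agent.Lib.Fi24Fp4

open Cfsg.Agent.Lib.TcBits Cfsg.Agent.Lib.CoxCert Cfsg.Agent.Lib.BitClose Cfsg.Agent.Lib.F24Base Cfsg.Agent.Lib.F24Rep
open Cfsg.Agent.Lib.F24Psi Cfsg.Agent.Lib.F24Orb Cfsg.Agent.Lib.F24Main Cfsg.Agent.Lib.F24Cl Cfsg.Spor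
open Cfsg.Agent.Lib.Fi24K45 Cfsg.Agent.Lib.Fi24Scan45 Cfsg.Agent.Lib.Fi24Cent45 Cfsg.Agent.Lib.Fi24LT45 Cfsg.Agent.Lib.Fi24Srg4
open Cfsg.Agent.Lib.Fi24Tr4 Cfsg.Agent.Lib.Fi24Fd4 Cfsg.Agent.Lib.PcThree4 Cfsg.Agent.Lib.Fi24Pc4

/-- The three points. -/
def Sx : Set ℕ := {0, 6, 24}

theorem mem_Sx {r : ℕ} : r ∈ Sx ↔ r = 0 ∨ r = 6 ∨ r = 24 := by
  simp [Sx]

/-- The stabiliser of the three points. -/
def Nn : Subgroup Fi24 where
  carrier := {g | Phi g '' Sx = Sx}
  one_mem' := by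
    simp
  mul_mem' := by
    intro a b ha hb
    show Phi (a * b) '' Sx = Sx
    rw [map_mul, Equiv.Perm.coe_mul, Set.image_comp, hb, ha]
  inv_mem' := by
    intro a ha
    show Phi a⁻¹ '' Sx = Sx
    conv_lhs => rw [← (show Phi a '' Sx = Sx from ha)]
    rw [← Set.image_comp, map_inv]
    simp

theorem mem_Nn {g : Fi24} : g ∈ Nn ↔ Phi g '' Sx = Sx := Iff.rfl

theorem map_mem_Sx {g : Fi24} (hg : g ∈ Nn) {r : ℕ} (hr : r ∈ Sx) : Phi g r ∈ Sx := by
  rw [← mem_Nn.1 hg]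
  exact ⟨r, hr, rfl⟩

theorem Sx_finite : Sx.Finite := by
  simp [Sx]

theorem mem_Nn_of_cycle {g : Fi24} (h : ∀ r ∈ Sx, Phi g r ∈ Sx) : g ∈ Nn := by
  rw [mem_Nn]
  apply Set.eq_of_subset_of_ncard_le
  · rintro _ ⟨r, hr, rfl⟩
    exact h r hr
  · rw [Set.ncard_image_of_injective _ (Phi g).injective]
  · exact Sx_finite

theorem St3_le : St [0, 6, 24] ≤ Nn := by
  intro g hg
  apply mem_Nn_of_cycle
  intro r hr
  rcases mem_Sx.1 hr with rfl | rfl | rfl
  · rw [hg 0 (by simp)]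
    exact hr
  · rw [hg 6 (by simp)]
    exact hr
  · rw [hg 24 (by simp)]
    exact hr

theorem Sx_ncard : Sx.ncard = 3 := by
  rw [show Sx = (({0, 6, 24} : Finset ℕ) : Set ℕ) by simp [Sx], Set.ncard_coe_finset]
  rfl

theorem not_dvd : ¬ 3 ^ 8 ∣ Nat.card Nn := by
  classical
  let K1 : Subgroup Fi24 := Nn ⊓ St [0]
  let O1 : Set ℕ := {r | ∃ g ∈ Nn, Phi g 0 = r}
  let O2 : Set ℕ := {r | ∃ g ∈ K1, Phi g 6 = r}
  have h1 : Nat.card Nn = O1.ncard * Nat.card K1 := card_orb Nn K1 0 (by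
    intro g
    simp [K1, Subgroup.mem_inf, mem_St]) O1 (fun r => Iff.rfl)
  have h2 : Nat.card K1 = O2.ncard * Nat.card (St [0, 6, 24]) := card_orb K1 (St [0, 6, 24]) 6 (by
    intro g
    constructor
    · intro hg
      refine ⟨Subgroup.mem_inf.2 ⟨St3_le hg, ?_⟩, hg 6 (by simp)⟩
      intro p hp
      have : p = 0 := by simpa using hp
      subst this
      exact hg 0 (by simp)
    · rintro ⟨hg, h6⟩
      obtain ⟨hg1, hg2⟩ := Subgroup.mem_inf.1 hg
      have h0 : Phi g 0 = 0 := hg2 0 (by simp)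
      intro p hp
      simp only [List.mem_cons, List.not_mem_nil, or_false] at hp
      rcases hp with rfl | rfl | rfl
      · exact h0
      · exact h6
      · have h3 := map_mem_Sx hg1 (r := 24) (by simp [Sx])
        rcases mem_Sx.1 h3 with h4 | h4 | h4
        · have : (24 : ℕ) = 0 := (Phi g).injective (by rw [h4, h0])
          omega
        · have : (24 : ℕ) = 6 := (Phi g).injective (by rw [h4, h6])
          omega
        · exact h4) O2 (fun r => Iff.rfl)
  have hO1 : O1 ⊆ Sx := by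
    rintro _ ⟨g, hg, rfl⟩
    exact map_mem_Sx hg (by simp [Sx])
  have hO2 : O2 ⊆ ({6, 24} : Set ℕ) := by
    rintro _ ⟨g, hg, rfl⟩
    obtain ⟨hg1, hg2⟩ := Subgroup.mem_inf.1 hg
    have h0 : Phi g 0 = 0 := hg2 0 (by simp)
    have h3 := map_mem_Sx hg1 (r := 6) (by simp [Sx])
    rcases mem_Sx.1 h3 with h4 | h4 | h4
    · have : (6 : ℕ) = 0 := (Phi g).injective (by rw [h4, h0])
      omega
    · simp [h4]
    · simp [h4]
  have hc1 : O1.ncard ≤ 3 := by
    rw [← Sx_ncard]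
    exact Set.ncard_le_ncard hO1 Sx_finite
  have hc2 : O2.ncard ≤ 2 := by
    have h3 := Set.ncard_le_ncard hO2 (by simp)
    have h4 : ({6, 24} : Set ℕ).ncard = 2 := by
      rw [Set.ncard_pair]
      norm_num
    omega
  have hp1 : 0 < O1.ncard := by
    rw [Set.ncard_pos (Sx_finite.subset hO1)]
    exact ⟨_, 1, Subgroup.one_mem _, rfl⟩
  have hp2 : 0 < O2.ncard := by
    rw [Set.ncard_pos (Set.Finite.subset (by simp) hO2)]
    exact ⟨_, 1, Subgroup.one_mem _, rfl⟩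
  rw [h1, h2, card_St3]
  generalize O1.ncard = o1 at *
  generalize O2.ncard = o2 at *
  interval_cases o1 <;> interval_cases o2 <;> norm_num

theorem gs_fix : ∀ w ∈ gsW, walkPt prF w 0 = 0 ∧ walkPt prF w 6 = 6 ∧ walkPt prF w 24 = 24 := by decide +kernel

theorem sig_0 : walkPt prF sigW 0 = 6 := by decide +kernel
theorem sig_6 : walkPt prF sigW 6 = 24 := by decide +kernel
theorem sig_24 : walkPt prF sigW 24 = 0 := by decide +kernel

theorem gs_St : ∀ x ∈ gsW.map (ev genF), x ∈ St [0, 6, 24] := by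
  intro x hx
  obtain ⟨w, hw, rfl⟩ := List.mem_map.1 hx
  obtain ⟨h0, h6, h24⟩ := gs_fix w hw
  rw [← Phi_walk] at h0 h6 h24
  intro p hp
  simp only [List.mem_cons, List.not_mem_nil, or_false] at hp
  rcases hp with rfl | rfl | rfl
  · exact h0
  · exact h6
  · exact h24

theorem clo_gs_St : clo (gsW.map (ev genF)) ≤ St [0, 6, 24] := by
  apply (Subgroup.closure_le _).2
  intro x hx
  exact gs_St x hx

theorem sig_Nn : ev genF sigW ∈ Nn := by
  apply mem_Nn_of_cycle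
  intro r hr
  rw [Phi_walk]
  rcases mem_Sx.1 hr with rfl | rfl | rfl
  · rw [sig_0]; simp [Sx]
  · rw [sig_6]; simp [Sx]
  · rw [sig_24]; simp [Sx]

theorem RR_le : Fi24Pc4.RR ≤ Nn := by
  apply (Subgroup.closure_le _).2
  intro x hx
  have hx' : x ∈ (sigW :: gsW).map (ev genF) := hx
  rcases List.mem_cons.1 hx' with rfl | h
  · exact sig_Nn
  · exact St3_le (gs_St x h)

/-- An element of the Sylow subgroup moving the point `0` to `6` has exponents. -/
theorem RR_form {y : Fi24} (hy : y ∈ Fi24Pc4.RR) (h0 : Phi y 0 = 6) :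
    ∃ es : List ℕ, es.length = 6 ∧ (∀ e ∈ es, e < 3) ∧ y = ev genF (xW es) := by
  obtain ⟨es, h1, h2, h3⟩ := (PC_spec gL PC_gL).2 y hy
  have hlen : gL.length = 7 := by simp [gL, hW]
  match es, h1 with
  | [], h1 => simp [hlen] at h1
  | e :: es', h1 =>
    have hes' : es'.length = 6 := by
      simp [hlen] at h1
      omega
    have hy2 : y = ev genF sigW ^ e * nf (gsW.map (ev genF)) es' := h3
    have he : e < 3 := h2 e (by simp)
    have hr := clo_gs_St (nf_mem (gsW.map (ev genF)) es')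
    have hr0 : Phi (nf (gsW.map (ev genF)) es') 0 = 0 := hr 0 (by simp)
    have e1 : Phi y 0 = Phi (ev genF sigW ^ e) 0 := by
      rw [hy2, map_mul, Equiv.Perm.mul_apply, hr0]
    have s0 : Phi (ev genF sigW) 0 = 6 := by rw [Phi_walk, sig_0]
    have s6 : Phi (ev genF sigW) 6 = 24 := by rw [Phi_walk, sig_6]
    have he1 : e = 1 := by
      interval_cases e
      · rw [pow_zero, map_one] at e1
        rw [h0] at e1
        simp at e1
      · rfl
      · rw [pow_two, map_mul, Equiv.Perm.mul_apply, s0, s6, h0] at e1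
        omega
    subst he1
    refine ⟨es', hes', fun a ha => h2 a (by simp [ha]), ?_⟩
    rw [ev_xW, hy2, pow_one]

/-- The main theorem on elements without fixed points. -/
theorem fpf_conj {x : Fi24} (h3 : x ^ 3 = 1) (hf : ∀ p, p < nP → Phi x p ≠ p) :
    ∃ u : Fi24, u * x * u⁻¹ = ev genF z0W ∨ u * x * u⁻¹ = (ev genF z0W)⁻¹ := by
  obtain ⟨p, hp, hne, hc⟩ := exists_comm_of_fpf x h3 hf
  have hx3 : ∀ s, Phi x (Phi x (Phi x s)) = s := by
    intro s
    have h4 : Phi (x ^ 3) s = s := by rw [h3]; simp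
    simpa [pow_succ, Equiv.Perm.mul_apply] using h4
  set q := Phi x p with hq
  set r := Phi x q with hr
  have hqlt : q < nP := Phi_lt x hp
  have hrlt : r < nP := Phi_lt x hqlt
  have hxr : Phi x r = p := hx3 p
  have hpq : p ≠ q := fun h => hne h.symm
  have hqr : q ≠ r := fun h => hf q hqlt h.symm
  have hpr : p ≠ r := by
    intro h
    apply hf p hp
    conv_lhs => rw [h]
    exact hxr
  have hc2 : Cm q r := (Cm_conj x hp).2 hc
  have hc3 : Cm r p := by
    have := (Cm_conj x hqlt).2 hc2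
    rwa [hxr] at this
  obtain ⟨g, g0, g6, g24⟩ := std_triple hp hqlt hrlt hpq hpr hqr hc ((Cm_symm hrlt hp).1 hc3) hc2
  -- the conjugate acts on the three points
  set z1 := g * x * g⁻¹ with hz1
  have hg0 : Phi g⁻¹ 0 = p := by
    rw [map_inv, Equiv.Perm.inv_eq_iff_eq]
    exact g0.symm
  have hg6 : Phi g⁻¹ 6 = q := by
    rw [map_inv, Equiv.Perm.inv_eq_iff_eq]
    exact g6.symm
  have hg24 : Phi g⁻¹ 24 = r := by
    rw [map_inv, Equiv.Perm.inv_eq_iff_eq]
    exact g24.symm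
  have hz0 : Phi z1 0 = 6 := by
    rw [hz1, map_mul, map_mul, Equiv.Perm.mul_apply, Equiv.Perm.mul_apply, hg0, ← hq, g6]
  have hz6 : Phi z1 6 = 24 := by
    rw [hz1, map_mul, map_mul, Equiv.Perm.mul_apply, Equiv.Perm.mul_apply, hg6, ← hr, g24]
  have hz24 : Phi z1 24 = 0 := by
    rw [hz1, map_mul, map_mul, Equiv.Perm.mul_apply, Equiv.Perm.mul_apply, hg24, hxr, g0]
  have hzN : z1 ∈ Nn := by
    apply mem_Nn_of_cycle
    intro s hs
    rcases mem_Sx.1 hs with rfl | rfl | rfl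
    · rw [hz0]; simp [Sx]
    · rw [hz6]; simp [Sx]
    · rw [hz24]; simp [Sx]
  have hz3 : z1 ^ 3 = 1 := by
    rw [hz1, conj_pow, h3]
    simp
  obtain ⟨v, hv, hvR⟩ := exists_conj_mem Fi24Pc4.RR RR_le 7 card_RR not_dvd hzN hz3
  -- the element of the Sylow subgroup
  set z2 := v * z1 * v⁻¹ with hz2
  set c := v * g with hc'
  have hz2c : z2 = c * x * c⁻¹ := by
    rw [hz2, hz1, hc']
    group
  have hz23 : z2 ^ 3 = 1 := by
    rw [hz2c, conj_pow, h3]
    simp
  have hz2f : ∀ s, s < nP → Phi z2 s ≠ s := by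
    intro s hs h
    apply hf (Phi c⁻¹ s) (Phi_lt _ hs)
    rw [hz2c, map_mul, map_mul, Equiv.Perm.mul_apply, Equiv.Perm.mul_apply] at h
    have h4 := congrArg (Phi c⁻¹) h
    rw [map_inv] at h4 ⊢
    simpa using h4
  have hz2N : z2 ∈ Nn := RR_le hvR
  have hS0 : (0 : ℕ) ∈ Sx := by simp [Sx]
  have hS6 : (6 : ℕ) ∈ Sx := by simp [Sx]
  have key : ∀ y : Fi24, y ∈ Fi24Pc4.RR → y ^ 3 = 1 → (∀ s, s < nP → Phi y s ≠ s) → Phi y 0 = 6 →
      ∃ u : Fi24, u * y * u⁻¹ = ev genF z0W := by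
    intro y hy hy3 hyf hy0
    obtain ⟨es, h1, h2, rfl⟩ := RR_form hy hy0
    rcases good_all h1 h2 with ⟨s, hs, hfix⟩ | h4 | h4
    · exact absurd hfix (hyf s hs)
    · exact absurd hy3 h4
    · exact h4
  rcases mem_Sx.1 (map_mem_Sx hz2N hS0) with h4 | h4 | h4
  · exact absurd h4 (hz2f 0 (by norm_num))
  · obtain ⟨u, hu⟩ := key z2 hvR hz23 hz2f h4
    refine ⟨u * c, Or.inl ?_⟩
    rw [← hu, hz2c]
    group
  · -- the inverse of `z2` moves `0` to `6`
    have h6 : Phi z2 6 = 0 := by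
      rcases mem_Sx.1 (map_mem_Sx hz2N hS6) with h5 | h5 | h5
      · exact h5
      · exact absurd h5 (hz2f 6 (by norm_num))
      · have : (6 : ℕ) = 0 := (Phi z2).injective (by rw [h5, h4])
        omega
    have hinv0 : Phi z2⁻¹ 0 = 6 := by
      rw [map_inv, Equiv.Perm.inv_eq_iff_eq]
      exact h6.symm
    obtain ⟨u, hu⟩ := key z2⁻¹ (Fi24Pc4.RR.inv_mem hvR) (by rw [inv_pow, hz23, inv_one]) (by
      intro s hs h
      apply hz2f s hs
      rw [map_inv, Equiv.Perm.inv_eq_iff_eq] at h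
      exact h.symm) hinv0
    refine ⟨u * c, Or.inr ?_⟩
    rw [← hu, hz2c]
    group

/-- The element `z₀`. -/
noncomputable def z0 : Fi24 := ev genF z0W

theorem z0_cube : z0 ^ 3 = 1 := by
  have h : eqW (z0W ++ z0W ++ z0W) [] = true := by decide +kernel
  have h1 := eqW_sound h
  have e : ev genF (z0W ++ z0W ++ z0W) = z0 ^ 3 := by
    rw [ev_append, ev_append, pow_succ, pow_two, mul_assoc]
    rfl
  rw [← e, h1]
  rfl

theorem z0_fix : fixW z0W = 0 := by decide +kernel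

theorem z0_fpf : ∀ p, p < nP → Phi z0 p ≠ p := by
  intro p hp h
  have h1 := (fixW_spec z0W p hp).2 h
  rw [z0_fix] at h1
  simp at h1

end Cfsg.Agent.Lib.Fi24Fp4
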