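import Mathlib
import Cfsg.Agent.Lib.F24R24
import Cfsg.Agent.Lib.Fi23W90
import Cfsg.Agent.Lib.Fi24Fp4

/-!
# The classes of subgroups of order three of `Fi₂₄`, from those of `Fi₂₃`
-/

set_option autoImplicit false
set_option maxRecDepth 100000
set_option linter.all false

namespace Cfsg.Agent.Lib.Fi24Cl4

open Cfsg.Agent.Lib.TcBits Cfsg.Agent.Lib.CoxCert Cfsg.Agent.Lib.BitClose Cfsg.Agent.Lib.F24Base Cfsg.Agent.Lib.F24Rep
open Cfsg.Agent.Lib.F24Psi Cfsg.Agent.Lib.F24Orb Cfsg.Agent.Lib.F24Main Cfsg.Agent.Lib.F24Cl Cfsg.Spor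
open Cfsg.Agent.Lib.Fi24K45 Cfsg.Agent.Lib.Fi24Scan45 Cfsg.Agent.Lib.Fi24Cent45 Cfsg.Agent.Lib.Fi24LT45 Cfsg.Agent.Lib.Fi24Srg4
open Cfsg.Agent.Lib.Fi24Tr4 Cfsg.Agent.Lib.Fi24Pc4 Cfsg.Agent.Lib.Fi24Fp4 Cfsg.Agent.Lib.F24R24
open Subgroup

/-! ### Fixed points -/

/-- The fixed points of an element. -/
def fixC (x : Fi24) : Set ℕ := {p | p < nP ∧ Phi x p = p}

theorem fixC_conj (g x : Fi24) : fixC (g * x * g⁻¹) = Phi g '' fixC x := by
  ext r
  constructor
  · rintro ⟨h1, h2⟩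
    refine ⟨Phi g⁻¹ r, ⟨Phi_lt _ h1, ?_⟩, ?_⟩
    · rw [map_mul, map_mul, Equiv.Perm.mul_apply, Equiv.Perm.mul_apply] at h2
      have h3 := congrArg (Phi g⁻¹) h2
      rw [map_inv] at h3 ⊢
      simpa using h3
    · rw [map_inv]
      simp
  · rintro ⟨s, ⟨h1, h2⟩, rfl⟩
    refine ⟨Phi_lt _ h1, ?_⟩
    rw [map_mul, map_mul, Equiv.Perm.mul_apply, Equiv.Perm.mul_apply, map_inv]
    simp [h2]

theorem fixC_inv (x : Fi24) : fixC x⁻¹ = fixC x := by
  ext r
  constructor
  · rintro ⟨h1, h2⟩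
    refine ⟨h1, ?_⟩
    rw [map_inv, Equiv.Perm.inv_eq_iff_eq] at h2
    exact h2.symm
  · rintro ⟨h1, h2⟩
    refine ⟨h1, ?_⟩
    rw [map_inv, Equiv.Perm.inv_eq_iff_eq]
    exact h2.symm

theorem ncard_conj (g x : Fi24) : (fixC (g * x * g⁻¹)).ncard = (fixC x).ncard := by
  rw [fixC_conj, Set.ncard_image_of_injective _ (Phi g).injective]

theorem ncard_word {w : List ℕ} (h1 : fixW w < 2 ^ nP) (h2 : fixW w < 2 ^ 2 ^ 19) :
    (fixC (ev genF w)).ncard = popc 19 (fixW w) := by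
  have : fixC (ev genF w) = {i | (fixW w).testBit i = true} := by
    ext r
    constructor
    · rintro ⟨a, b⟩
      exact (fixW_spec w r a).2 b
    · intro h
      have hlt : r < nP := bits_lt h1 h
      exact ⟨hlt, (fixW_spec w r hlt).1 h⟩
  rw [this, ncard_popc h2]

/-- Two generators of a subgroup of order three. -/
theorem gen_cases {a b : Fi24} (ha : a ^ 3 = 1) (hb : b ≠ 1) (h : zpowers b = zpowers a) : b = a ∨ b = a⁻¹ := by
  have hm : b ∈ zpowers a := by
    rw [← h]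
    exact mem_zpowers b
  obtain ⟨k, rfl⟩ := mem_zpowers_iff.1 hm
  have hk : (k % 3 = 0) ∨ (k % 3 = 1) ∨ (k % 3 = 2) := by omega
  have e : a ^ k = a ^ (k % 3) := by
    conv_lhs => rw [← Int.mul_ediv_add_emod k 3]
    rw [zpow_add, zpow_mul]
    have : a ^ (3 : ℤ) = 1 := by exact_mod_cast ha
    rw [this, one_zpow, one_mul]
  rcases hk with hk | hk | hk
  · rw [e, hk] at hb
    simp at hb
  · left
    rw [e, hk]
    simp
  · right
    rw [e, hk]
    have : a ^ (2 : ℤ) * a = 1 := by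
      rw [← zpow_add_one]
      exact_mod_cast ha
    exact eq_inv_of_mul_eq_one_left this

/-- A generator of a subgroup of order three. -/
theorem exists_gen (X : Subgroup Fi24) (hX : Nat.card X = 3) : ∃ x : Fi24, x ^ 3 = 1 ∧ x ≠ 1 ∧ X = zpowers x := by
  haveI : Finite X := Nat.finite_of_card_ne_zero (by rw [hX]; norm_num)
  obtain ⟨x, hx⟩ : ∃ x : X, x ≠ 1 := by
    haveI : Nontrivial X := by
      apply Finite.one_lt_card_iff_nontrivial.mp
      rw [hX]; norm_num
    exact exists_ne 1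
  have hx1 : (x : Fi24) ≠ 1 := fun h => hx (Subtype.ext h)
  have hx3 : (x : Fi24) ^ 3 = 1 := by
    have h := pow_card_eq_one' (x := x)
    rw [hX] at h
    exact_mod_cast congrArg Subtype.val h
  haveI : Fact (Nat.Prime 3) := ⟨Nat.prime_three⟩
  refine ⟨x, hx3, hx1, ?_⟩
  symm
  apply Subgroup.eq_of_le_of_card_ge
  · rw [Subgroup.zpowers_le]
    exact x.2
  · rw [Nat.card_zpowers, orderOf_eq_prime hx3 hx1, hX]

theorem map_conj_zpowers (g x : Fi24) : (zpowers x).map (MulAut.conj g).toMonoidHom = zpowers (g * x * g⁻¹) := by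
  rw [MonoidHom.map_zpowers]
  rfl

/-- Conjugate subgroups of order three have the same number of fixed points. -/
theorem ncard_of_map {x y g : Fi24} (hx : x ^ 3 = 1) (hx1 : x ≠ 1) (hy1 : y ≠ 1)
    (h : (zpowers x).map (MulAut.conj g).toMonoidHom = zpowers y) : (fixC x).ncard = (fixC y).ncard := by
  rw [map_conj_zpowers] at h
  have h3 : (g * x * g⁻¹) ^ 3 = 1 := by
    rw [conj_pow, hx]
    simp
  rcases gen_cases h3 hy1 h.symm with rfl | rfl
  · exact (ncard_conj g x).symm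
  · rw [fixC_inv, ncard_conj]

/-! ### Transpositions commuting with `l` -/

theorem D0_letter : (Cfsg.Agent.TcChain36.Out.Fi23.Lt 0 : Cfsg.Agent.Lib.Fi23K24.Gq) ∈ Cfsg.Agent.Lib.Fi23K24.D0 :=
  Cfsg.Agent.Lib.Fi23K24.mem_D0_of_pq (Cfsg.Agent.Lib.Fi23W90.Lt_pq 0 (by norm_num))

theorem psi_letter_a : psi (Cfsg.Agent.TcChain36.Out.Fi23.Lt 0) * ll = genF 3 := by
  rw [psi_Lt (j := 0) (by norm_num), mul_assoc, ll_sq, mul_one]
  rfl

/-- A transposition commuting with `l`, different from `l`, comes from `Fi₂₃`. -/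
theorem exists_D0 {t : Fi24} (ht : t ∈ DD) (hne : t ≠ ll) (hc : t * ll = ll * t) :
    ∃ b ∈ Cfsg.Agent.Lib.Fi23K24.D0, t = psi b * ll := by
  obtain ⟨h, rfl⟩ := mem_DD.1 ht
  rcases conj_cases h with h1 | ⟨u, hu, h1⟩ | ⟨u, hu, h1⟩
  · exfalso
    apply hne
    have h2 : h * ll = ll * h := by
      have h3 : h ∈ Subgroup.centralizer {ll} := by
        rw [centralizer_ll]
        exact h1
      exact Subgroup.mem_centralizer_singleton_iff.mp h3
    rw [h2]
    group
  · rw [QQ_eq_range] at hu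
    obtain ⟨v, rfl⟩ := hu
    refine ⟨v * Cfsg.Agent.TcChain36.Out.Fi23.Lt 0 * v⁻¹, Cfsg.Agent.Lib.Fi23W90.D0_conj D0_letter v, ?_⟩
    rw [h1, map_mul, map_mul, map_inv]
    have hc' : (psi v)⁻¹ * ll = ll * (psi v)⁻¹ := by
      have := psi_comm v⁻¹
      rwa [map_inv] at this
    calc psi v * genF 3 * (psi v)⁻¹ = psi v * (psi (Cfsg.Agent.TcChain36.Out.Fi23.Lt 0) * ll) * (psi v)⁻¹ := by rw [psi_letter_a]
      _ = psi v * psi (Cfsg.Agent.TcChain36.Out.Fi23.Lt 0) * (ll * (psi v)⁻¹) := by group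
      _ = psi v * psi (Cfsg.Agent.TcChain36.Out.Fi23.Lt 0) * ((psi v)⁻¹ * ll) := by rw [hc']
      _ = _ := by group
  · exfalso
    rw [h1] at hc
    have hc2 : genF 4 * ll = ll * genF 4 := by
      have hu' : u * ll = ll * u := QQ_comm' hu
      have hui : u⁻¹ * ll = ll * u⁻¹ := QQ_comm' (QQ.inv_mem hu)
      calc genF 4 * ll = u⁻¹ * (u * genF 4 * u⁻¹) * u * ll := by group
        _ = u⁻¹ * (u * genF 4 * u⁻¹) * (ll * u) := by rw [mul_assoc _ u ll, hu']
        _ = u⁻¹ * ((u * genF 4 * u⁻¹) * ll) * u := by group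
        _ = u⁻¹ * (ll * (u * genF 4 * u⁻¹)) * u := by rw [hc]
        _ = (u⁻¹ * ll) * (u * genF 4 * u⁻¹) * u := by group
        _ = (ll * u⁻¹) * (u * genF 4 * u⁻¹) * u := by rw [hui]
        _ = _ := by group
    have h5 : (ll * genF 4) ^ 3 = 1 := lk3'
    have hcomm : Commute ll (genF 4) := hc2.symm
    rw [hcomm.mul_pow] at h5
    have hl : ll ^ 3 = ll := by
      rw [pow_succ, pow_two, ll_sq, one_mul]
    have hk : genF 4 ^ 3 = genF 4 := by
      rw [pow_succ, pow_two, genF_inv, one_mul]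
    rw [hl, hk] at h5
    have h6 : ll = genF 4 := by
      have hk2 : genF 4 * genF 4 = 1 := genF_inv 4
      calc ll = ll * (genF 4 * genF 4) := by rw [hk2, mul_one]
        _ = (ll * genF 4) * genF 4 := by rw [mul_assoc]
        _ = genF 4 := by rw [h5, one_mul]
    exact ne_k h6

/-- An element of order three commuting with `l` lies in the image of `Fi₂₃`. -/
theorem exists_psi {x : Fi24} (hx : x ^ 3 = 1) (hc : x * ll = ll * x) : ∃ a, x = psi a := by
  rcases comm_ll_cases hc with h | ⟨a, ha⟩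
  · exact h
  · exfalso
    have hcm : Commute x ll := hc
    have h1 : psi (a ^ 3) = ll := by
      rw [map_pow, ← ha, hcm.mul_pow, hx, one_mul, pow_succ, pow_two, ll_sq, one_mul]
    exact ll_not_range _ h1

theorem mem_cent_zpowers {G : Type*} [Group G] {t x : G} :
    t ∈ (centralizer ((zpowers x : Subgroup G) : Set G) : Set G) ↔ x * t = t * x := by
  constructor
  · intro h
    have h1 := (mem_centralizer_iff.1 h) x (mem_zpowers x)
    exact h1
  · intro h
    apply mem_centralizer_iff.2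
    intro y hy
    obtain ⟨k, rfl⟩ := mem_zpowers_iff.1 hy
    have hc : Commute x t := h
    exact (hc.zpow_left k).eq

abbrev Gq := Cfsg.Agent.Lib.Fi23K24.Gq
abbrev D0 := Cfsg.Agent.Lib.Fi23K24.D0

/-- The widths in `Fi₂₃`. -/
def ww : Fin 4 → ℕ := ![7, 5, 4, 1]

/-- What is needed of `Fi₂₃`. -/
structure Data23 (rq : Fin 4 → Gq) : Prop where
  cube : ∀ i, rq i ^ 3 = 1
  ne : ∀ i, rq i ≠ 1
  cover : ∀ X : Subgroup Gq, Nat.card X = 3 → ∃ i, ∃ g : Gq, X.map (MulAut.conj g).toMonoidHom = zpowers (rq i)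
  width : ∀ i, Cfsg.commutingWidth (D0 ∩ (centralizer ((zpowers (rq i) : Subgroup Gq) : Set Gq) : Set Gq)) = ww i

theorem hs'' {p : ℕ} (hp : p < nP) : ∃ g : Fi24, Phi g p = 0 := by
  obtain ⟨h, rfl⟩ := hs' hp
  refine ⟨h⁻¹, ?_⟩
  rw [map_inv]
  simp

section
variable {rq : Fin 4 → Gq} (hF : Data23 rq)
include hF

theorem psi_card_three {a : Gq} (h3 : a ^ 3 = 1) (h1 : a ≠ 1) : Nat.card (zpowers a) = 3 := by
  haveI : Fact (Nat.Prime 3) := ⟨Nat.prime_three⟩
  rw [Nat.card_zpowers]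
  exact orderOf_eq_prime h3 h1

/-- An element of order three with a fixed point is moved into the image of `Fi₂₃`. -/
theorem conj_to_psi {x : Fi24} {p : ℕ} (hp : p < nP) (hx : x ^ 3 = 1) (hx1 : x ≠ 1) (hfix : Phi x p = p) :
    ∃ (g : Fi24) (i : Fin 4), Phi g p = 0 ∧ zpowers (g * x * g⁻¹) = zpowers (psi (rq i)) := by
  obtain ⟨g1, hg1⟩ := hs'' hp
  have hf0 : Phi (g1 * x * g1⁻¹) 0 = 0 := by
    have hi : Phi g1⁻¹ 0 = p := by
      rw [map_inv, Equiv.Perm.inv_eq_iff_eq]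
      exact hg1.symm
    rw [map_mul, map_mul, Equiv.Perm.mul_apply, Equiv.Perm.mul_apply, hi, hfix, hg1]
  have hc := comm_ll_of_fix hf0
  have h3 : (g1 * x * g1⁻¹) ^ 3 = 1 := by
    rw [conj_pow, hx]
    simp
  obtain ⟨a, ha⟩ := exists_psi h3 hc
  have ha3 : a ^ 3 = 1 := by
    apply psi_inj'
    rw [map_pow, ← ha, h3, map_one]
  have ha1 : a ≠ 1 := by
    rintro rfl
    apply hx1
    rw [map_one] at ha
    have : x = g1⁻¹ * (g1 * x * g1⁻¹) * g1 := by group
    rw [this, ha]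
    group
  obtain ⟨i, h, hh⟩ := hF.cover (zpowers a) (psi_card_three hF ha3 ha1)
  refine ⟨psi h * g1, i, ?_, ?_⟩
  · have h0 : Phi (psi h) 0 = 0 := fix_of_comm_ll (psi_comm h)
    rw [map_mul, Equiv.Perm.mul_apply, hg1, h0]
  · have e : psi h * g1 * x * (psi h * g1)⁻¹ = psi (h * a * h⁻¹) := by
      rw [map_mul, map_mul, map_inv, ← ha]
      group
    rw [e]
    have h2 : zpowers (h * a * h⁻¹) = zpowers (rq i) := by
      rw [← hh, MonoidHom.map_zpowers]
      rfl
    have h3 := congrArg (Subgroup.map psi) h2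
    rwa [MonoidHom.map_zpowers, MonoidHom.map_zpowers] at h3

end

/-- The element of a class. -/
noncomputable def z5 (rq : Fin 4 → Gq) : Fin 5 → Fi24 := ![psi (rq 0), psi (rq 1), psi (rq 2), psi (rq 3), z0]

/-- The numbers of fixed points. -/
def cnt : Fin 5 → ℕ := ![3240, 378, 1485, 162, 0]

theorem z0_ne : z0 ≠ 1 := by
  intro h
  have := z0_fpf 0 (by norm_num)
  rw [h] at this
  simp at this

theorem fixC_z0 : (fixC z0).ncard = 0 := by
  have : fixC z0 = ∅ := by
    ext r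
    simp only [Set.mem_empty_iff_false, iff_false]
    rintro ⟨h1, h2⟩
    exact z0_fpf r h1 h2
  rw [this, Set.ncard_empty]

section
variable {rq : Fin 4 → Gq} (hF : Data23 rq)
include hF

theorem psi_ne (i : Fin 4) : psi (rq i) ≠ 1 := by
  intro h
  apply hF.ne i
  apply psi_inj'
  rw [h, map_one]

theorem psi_cube (i : Fin 4) : psi (rq i) ^ 3 = 1 := by
  rw [← map_pow, hF.cube, map_one]

/-- The upper bound for the width. -/
theorem width_upper (hc : ∀ i : Fin 4, (fixC (psi (rq i))).ncard = cnt i.castSucc) (i : Fin 4) {E : Set Fi24}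
    (hE : E ⊆ DD ∩ (centralizer ((zpowers (psi (rq i)) : Subgroup Fi24) : Set Fi24) : Set Fi24))
    (hfin : E.Finite) (hcl : ∀ a ∈ E, ∀ b ∈ E, Commute a b) : E.ncard ≤ ww i + 1 := by
  classical
  rcases E.eq_empty_or_nonempty with rfl | ⟨t, ht⟩
  · simp
  -- the point of `t`
  obtain ⟨htD, htC⟩ := hE ht
  obtain ⟨h0, rfl⟩ := mem_DD.1 htD
  set t := h0 * ll * h0⁻¹ with htdef
  have hPt : Pq t (Phi h0 0) := Pq_ll.conj h0
  have hlt : Phi h0 0 < nP := Phi_zero_lt h0
  have hcomm : psi (rq i) * t = t * psi (rq i) := mem_cent_zpowers.1 htC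
  have hfix : Phi (psi (rq i)) (Phi h0 0) = Phi h0 0 := fix_of_comm hPt hcomm
  obtain ⟨g, j, hg0, hgz⟩ := conj_to_psi hF hlt (psi_cube hF i) (psi_ne hF i) hfix
  have hji : j = i := by
    have h1 : (fixC (psi (rq i))).ncard = (fixC (psi (rq j))).ncard := by
      apply ncard_of_map (g := g) (psi_cube hF i) (psi_ne hF i) (psi_ne hF j)
      rw [map_conj_zpowers]
      exact hgz
    rw [hc, hc] at h1
    revert h1
    fin_cases i <;> fin_cases j <;> simp [cnt]
  subst hji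
  -- move everything by `g`
  let E' : Set Fi24 := (fun y => g * y * g⁻¹) '' E
  have hinjg : Function.Injective (fun y : Fi24 => g * y * g⁻¹) := by
    intro a b h
    have h1 : g * a * g⁻¹ = g * b * g⁻¹ := h
    simpa using h1
  have hcard : E'.ncard = E.ncard := Set.ncard_image_of_injective _ hinjg
  have hllE : ll ∈ E' := by
    refine ⟨t, ht, ?_⟩
    have h1 : Pq (g * t * g⁻¹) 0 := by
      have := hPt.conj g
      rwa [hg0] at this
    exact Pq.inj h1 Pq_ll
  -- elements of `E'`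
  have hE'D : ∀ y ∈ E', y ∈ DD := by
    rintro _ ⟨y, hy, rfl⟩
    exact DD_conj (hE hy).1 g
  have hE'C : ∀ y ∈ E', psi (rq j) * y = y * psi (rq j) := by
    rintro _ ⟨y, hy, rfl⟩
    have h1 : psi (rq j) ∈ zpowers (g * psi (rq j) * g⁻¹) := by
      rw [hgz]
      exact mem_zpowers _
    obtain ⟨k, hk⟩ := mem_zpowers_iff.1 h1
    have h2 : psi (rq j) * y = y * psi (rq j) := mem_cent_zpowers.1 (hE hy).2
    have h3 : Commute (g * psi (rq j) * g⁻¹) (g * y * g⁻¹) := by
      show g * psi (rq j) * g⁻¹ * (g * y * g⁻¹) = g * y * g⁻¹ * (g * psi (rq j) * g⁻¹)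
      calc g * psi (rq j) * g⁻¹ * (g * y * g⁻¹) = g * (psi (rq j) * y) * g⁻¹ := by group
        _ = g * (y * psi (rq j)) * g⁻¹ := by rw [h2]
        _ = _ := by group
    rw [← hk]
    exact (h3.zpow_left k).eq
  have hE'cl : ∀ a ∈ E', ∀ b ∈ E', a * b = b * a := by
    rintro _ ⟨a, ha, rfl⟩ _ ⟨b, hb, rfl⟩
    have h2 : a * b = b * a := hcl a ha b hb
    calc g * a * g⁻¹ * (g * b * g⁻¹) = g * (a * b) * g⁻¹ := by group
      _ = g * (b * a) * g⁻¹ := by rw [h2]
      _ = _ := by group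
  -- the set in `Fi₂₃`
  let B : Set Gq := {b | b ∈ D0 ∧ b ∈ (centralizer ((zpowers (rq j) : Subgroup Gq) : Set Gq) : Set Gq) ∧ psi b * ll ∈ E'}
  have hllc : ∀ b : Gq, ll * psi b = psi b * ll := fun b => (psi_comm b).symm
  have hBcl : ∀ a ∈ B, ∀ b ∈ B, Commute a b := by
    intro a ha b hb
    apply psi_inj'
    have h1 := hE'cl _ ha.2.2 _ hb.2.2
    have h2 : psi a * psi b = psi b * psi a := by
      have h3 : psi a * ll * (psi b * ll) = psi a * psi b * (ll * ll) := by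
        calc psi a * ll * (psi b * ll) = psi a * (ll * psi b) * ll := by group
          _ = psi a * (psi b * ll) * ll := by rw [hllc]
          _ = _ := by group
      have h4 : psi b * ll * (psi a * ll) = psi b * psi a * (ll * ll) := by
        calc psi b * ll * (psi a * ll) = psi b * (ll * psi a) * ll := by group
          _ = psi b * (psi a * ll) * ll := by rw [hllc]
          _ = _ := by group
      rw [h3, h4, ll_sq, mul_one, mul_one] at h1
      exact h1
    rw [map_mul, map_mul]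
    exact h2
  haveI : Finite Gq := Cfsg.Agent.TcChain36.Fi23.finG
  have hBfin : B.Finite := Set.toFinite _
  have hBle : B.ncard ≤ ww j := by
    rw [← hF.width j]
    unfold Cfsg.commutingWidth
    apply le_csSup
    · refine ⟨23, ?_⟩
      rintro n ⟨S, h1, h2, h3, rfl⟩
      exact Cfsg.Agent.Lib.Fi23W90.clique_le (fun y hy => (h1 hy).1) h2 h3
    · exact ⟨B, fun b hb => ⟨hb.1, hb.2.1⟩, hBfin, hBcl, rfl⟩
  have hsub : E' ⊆ insert ll ((fun b : Gq => psi b * ll) '' B) := by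
    intro y hy
    by_cases hyl : y = ll
    · exact Or.inl hyl
    · right
      have hcy : y * ll = ll * y := hE'cl y hy ll hllE
      obtain ⟨b, hb, rfl⟩ := exists_D0 (hE'D y hy) hyl hcy
      refine ⟨b, ⟨hb, ?_, hy⟩, rfl⟩
      apply mem_cent_zpowers.2
      apply psi_inj'
      have h1 := hE'C _ hy
      rw [map_mul, map_mul]
      have h2 : psi (rq j) * psi b * ll = psi b * psi (rq j) * ll := by
        calc psi (rq j) * psi b * ll = psi (rq j) * (psi b * ll) := by group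
          _ = psi b * ll * psi (rq j) := h1
          _ = psi b * (ll * psi (rq j)) := by group
          _ = psi b * (psi (rq j) * ll) := by rw [hllc]
          _ = _ := by group
      exact mul_right_cancel h2
  have h5 : E'.ncard ≤ (insert ll ((fun b : Gq => psi b * ll) '' B)).ncard :=
    Set.ncard_le_ncard hsub ((hBfin.image _).insert _)
  have h6 : (insert ll ((fun b : Gq => psi b * ll) '' B)).ncard ≤ ((fun b : Gq => psi b * ll) '' B).ncard + 1 :=
    Set.ncard_insert_le _ _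
  have h7 : ((fun b : Gq => psi b * ll) '' B).ncard ≤ B.ncard := Set.ncard_image_le hBfin
  omega

/-- The lower bound for the width. -/
theorem width_lower (i : Fin 4) : ∃ E : Set Fi24,
    E ⊆ DD ∩ (centralizer ((zpowers (psi (rq i)) : Subgroup Fi24) : Set Fi24) : Set Fi24) ∧ E.Finite ∧
      (∀ a ∈ E, ∀ b ∈ E, Commute a b) ∧ E.ncard = ww i + 1 := by
  classical
  have hmem : Cfsg.commutingWidth (D0 ∩ (centralizer ((zpowers (rq i) : Subgroup Gq) : Set Gq) : Set Gq)) ∈
      {n | ∃ E : Set Gq, E ⊆ D0 ∩ (centralizer ((zpowers (rq i) : Subgroup Gq) : Set Gq) : Set Gq) ∧ E.Finite ∧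
        (∀ a ∈ E, ∀ b ∈ E, Commute a b) ∧ E.ncard = n} := by
    apply Nat.sSup_mem
    · exact ⟨0, ∅, by simp, Set.finite_empty, by simp, by simp⟩
    · refine ⟨23, ?_⟩
      rintro n ⟨S, h1, h2, h3, rfl⟩
      exact Cfsg.Agent.Lib.Fi23W90.clique_le (fun y hy => (h1 hy).1) h2 h3
  obtain ⟨E0, h1, h2, h3, h4⟩ := hmem
  rw [hF.width i] at h4
  have hllc : ∀ b : Gq, ll * psi b = psi b * ll := fun b => (psi_comm b).symm
  have hinj : Function.Injective (fun b : Gq => psi b * ll) := by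
    intro a b h
    exact psi_inj' (mul_right_cancel h)
  have hnot : ll ∉ (fun b : Gq => psi b * ll) '' E0 := by
    rintro ⟨b, hb, h⟩
    have h5 : psi b = 1 := by
      have h6 : psi b * ll = 1 * ll := by rw [one_mul]; exact h
      exact mul_right_cancel h6
    have h7 : b = 1 := psi_inj' (by rw [h5, map_one])
    have h8 := (h1 hb).1
    rw [h7] at h8
    obtain ⟨g, hg⟩ := isConj_iff.mp h8
    have h9 : (Cfsg.Agent.Lib.Fi23K24.zz : Gq) = 1 := by
      have : (Cfsg.Agent.Lib.Fi23K24.zz : Gq) = g⁻¹ * (g * Cfsg.Agent.Lib.Fi23K24.zz * g⁻¹) * g := by group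
      rw [this, hg]
      group
    have h10 := Cfsg.Agent.Lib.Fi23W90.zz_order
    rw [h9, orderOf_one] at h10
    omega
  refine ⟨insert ll ((fun b : Gq => psi b * ll) '' E0), ?_, (h2.image _).insert _, ?_, ?_⟩
  · rintro y (rfl | ⟨b, hb, rfl⟩)
    · refine ⟨mem_DD.2 ⟨1, by simp⟩, mem_cent_zpowers.2 ?_⟩
      exact psi_comm _
    · refine ⟨psi_D0 (h1 hb).1, mem_cent_zpowers.2 ?_⟩
      have h5 : rq i * b = b * rq i := mem_cent_zpowers.1 (h1 hb).2
      have h6 : psi (rq i) * psi b = psi b * psi (rq i) := by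
        rw [← map_mul, ← map_mul, h5]
      calc psi (rq i) * (psi b * ll) = (psi (rq i) * psi b) * ll := by group
        _ = psi b * psi (rq i) * ll := by rw [h6]
        _ = psi b * (psi (rq i) * ll) := by group
        _ = psi b * (ll * psi (rq i)) := by rw [hllc]
        _ = _ := by group
  · rintro y (rfl | ⟨b, hb, rfl⟩) z (rfl | ⟨c, hc, rfl⟩)
    · exact Commute.refl _
    · show ll * (psi c * ll) = psi c * ll * ll
      rw [← mul_assoc, hllc]
    · show psi b * ll * ll = ll * (psi b * ll)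
      rw [← mul_assoc ll, hllc]
    · have h5 : Commute b c := h3 b hb c hc
      have h6 : psi b * psi c = psi c * psi b := by
        rw [← map_mul, ← map_mul, h5.eq]
      show psi b * ll * (psi c * ll) = psi c * ll * (psi b * ll)
      calc psi b * ll * (psi c * ll) = psi b * (ll * psi c) * ll := by group
        _ = psi b * (psi c * ll) * ll := by rw [hllc]
        _ = (psi b * psi c) * (ll * ll) := by group
        _ = (psi c * psi b) * (ll * ll) := by rw [h6]
        _ = psi c * (psi b * ll) * ll := by group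
        _ = psi c * (ll * psi b) * ll := by rw [hllc]
        _ = _ := by group
  · rw [Set.ncard_insert_of_notMem hnot (h2.image _), Set.ncard_image_of_injective _ hinj, h4]

/-- The width. -/
theorem width_psi (hc : ∀ i : Fin 4, (fixC (psi (rq i))).ncard = cnt i.castSucc) (i : Fin 4) :
    Cfsg.commutingWidth (DD ∩ (centralizer ((zpowers (psi (rq i)) : Subgroup Fi24) : Set Fi24) : Set Fi24)) = ww i + 1 := by
  unfold Cfsg.commutingWidth
  apply IsGreatest.csSup_eq
  constructor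
  · obtain ⟨E, h1, h2, h3, h4⟩ := width_lower hF i
    exact ⟨E, h1, h2, h3, h4⟩
  · rintro n ⟨E, h1, h2, h3, rfl⟩
    exact width_upper hF hc i h1 h2 h3

/-- The main theorem for the presented group. -/
theorem main_Fi24c (hc : ∀ i : Fin 4, (fixC (psi (rq i))).ncard = cnt i.castSucc) :
    (∀ i, Nat.card (zpowers (z5 rq i)) = 3) ∧
      (∀ i j, (∃ g : Fi24, (zpowers (z5 rq i)).map (MulAut.conj g).toMonoidHom = zpowers (z5 rq j)) → i = j) ∧
      (∀ X : Subgroup Fi24, Nat.card X = 3 → ∃ i, ∃ g : Fi24, X.map (MulAut.conj g).toMonoidHom = zpowers (z5 rq i)) ∧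
      Cfsg.commutingWidth (DD ∩ (centralizer ((zpowers (z5 rq 0) : Subgroup Fi24) : Set Fi24) : Set Fi24)) = 8 ∧
      Cfsg.commutingWidth (DD ∩ (centralizer ((zpowers (z5 rq 1) : Subgroup Fi24) : Set Fi24) : Set Fi24)) = 6 ∧
      Cfsg.commutingWidth (DD ∩ (centralizer ((zpowers (z5 rq 2) : Subgroup Fi24) : Set Fi24) : Set Fi24)) = 5 ∧
      Cfsg.commutingWidth (DD ∩ (centralizer ((zpowers (z5 rq 3) : Subgroup Fi24) : Set Fi24) : Set Fi24)) = 2 ∧
      Cfsg.commutingWidth (DD ∩ (centralizer ((zpowers (z5 rq 4) : Subgroup Fi24) : Set Fi24) : Set Fi24)) = 0 := by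
  haveI : Fact (Nat.Prime 3) := ⟨Nat.prime_three⟩
  have hz3 : ∀ i : Fin 5, z5 rq i ^ 3 = 1 ∧ z5 rq i ≠ 1 ∧ (fixC (z5 rq i)).ncard = cnt i := by
    intro i
    fin_cases i
    · exact ⟨psi_cube hF 0, psi_ne hF 0, hc 0⟩
    · exact ⟨psi_cube hF 1, psi_ne hF 1, hc 1⟩
    · exact ⟨psi_cube hF 2, psi_ne hF 2, hc 2⟩
    · exact ⟨psi_cube hF 3, psi_ne hF 3, hc 3⟩
    · exact ⟨z0_cube, z0_ne, fixC_z0⟩
  refine ⟨?_, ?_, ?_, ?_, ?_, ?_, ?_, ?_⟩
  · intro i
    show Nat.card (zpowers (z5 rq i)) = 3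
    rw [Nat.card_zpowers]
    exact orderOf_eq_prime (hz3 i).1 (hz3 i).2.1
  · rintro i j ⟨g, hg⟩
    have h1 := ncard_of_map (hz3 i).1 (hz3 i).2.1 (hz3 j).2.1 hg
    rw [(hz3 i).2.2, (hz3 j).2.2] at h1
    revert h1
    fin_cases i <;> fin_cases j <;> simp [cnt]
  · intro X hX
    obtain ⟨x, hx3, hx1, rfl⟩ := exists_gen X hX
    by_cases hf : ∀ p, p < nP → Phi x p ≠ p
    · obtain ⟨u, hu⟩ := fpf_conj hx3 hf
      refine ⟨4, u, ?_⟩
      rw [map_conj_zpowers]
      show _ = zpowers z0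
      rcases hu with hu | hu
      · rw [hu]
        rfl
      · rw [hu, zpowers_inv]
        rfl
    · push Not at hf
      obtain ⟨p, hp, hfix⟩ := hf
      obtain ⟨g, i, -, hg⟩ := conj_to_psi hF hp hx3 hx1 hfix
      have e : ∀ i : Fin 4, z5 rq i.castSucc = psi (rq i) := by
        intro i
        fin_cases i <;> rfl
      refine ⟨i.castSucc, g, ?_⟩
      rw [map_conj_zpowers, hg]
      show _ = zpowers (z5 rq i.castSucc)
      rw [e]
  · exact width_psi hF hc 0
  · exact width_psi hF hc 1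
  · exact width_psi hF hc 2
  · exact width_psi hF hc 3
  · have h0 : DD ∩ (centralizer ((zpowers z0 : Subgroup Fi24) : Set Fi24) : Set Fi24) = ∅ := by
      ext t
      simp only [Set.mem_inter_iff, Set.mem_empty_iff_false, iff_false, not_and]
      intro ht hc2
      obtain ⟨h0, rfl⟩ := mem_DD.1 ht
      have hPt : Pq (h0 * ll * h0⁻¹) (Phi h0 0) := Pq_ll.conj h0
      exact z0_fpf _ (Phi_zero_lt h0) (fix_of_comm hPt (mem_cent_zpowers.1 hc2))
    show Cfsg.commutingWidth (DD ∩ (centralizer ((zpowers z0 : Subgroup Fi24) : Set Fi24) : Set Fi24)) = 0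
    rw [h0]
    unfold Cfsg.commutingWidth
    apply IsGreatest.csSup_eq
    constructor
    · exact ⟨∅, by simp, Set.finite_empty, by simp, by simp⟩
    · rintro n ⟨E, h1, h2, h3, rfl⟩
      have : E = ∅ := Set.subset_empty_iff.1 h1
      rw [this]
      simp

theorem main_Fi24 (hc : ∀ i : Fin 4, (fixC (psi (rq i))).ncard = cnt i.castSucc) :
    ∃ Y : Fin 5 → Subgroup Fi24, (∀ i, Nat.card (Y i) = 3) ∧
      (∀ i j, (∃ g : Fi24, (Y i).map (MulAut.conj g).toMonoidHom = Y j) → i = j) ∧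
      (∀ X : Subgroup Fi24, Nat.card X = 3 → ∃ i, ∃ g : Fi24, X.map (MulAut.conj g).toMonoidHom = Y i) ∧
      Cfsg.commutingWidth (DD ∩ (centralizer ((Y 0 : Subgroup Fi24) : Set Fi24) : Set Fi24)) = 8 ∧
      Cfsg.commutingWidth (DD ∩ (centralizer ((Y 1 : Subgroup Fi24) : Set Fi24) : Set Fi24)) = 6 ∧
      Cfsg.commutingWidth (DD ∩ (centralizer ((Y 2 : Subgroup Fi24) : Set Fi24) : Set Fi24)) = 5 ∧
      Cfsg.commutingWidth (DD ∩ (centralizer ((Y 3 : Subgroup Fi24) : Set Fi24) : Set Fi24)) = 2 ∧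
      Cfsg.commutingWidth (DD ∩ (centralizer ((Y 4 : Subgroup Fi24) : Set Fi24) : Set Fi24)) = 0 :=
  ⟨fun i => zpowers (z5 rq i), main_Fi24c hF hc⟩

end

end Cfsg.Agent.Lib.Fi24Cl4
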