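import Mathlib
import Cfsg.Agent.Lib.FiTData
import Cfsg.Agent.Lib.GolayClasses
import Cfsg.Agent.Lib.CoTree
import Cfsg.Agent.Lib.Co0Frame
import Cfsg.Agent.Lib.MonsterSplit

/-!
# An element `xF` of order three of `Co0`: the classes modulo two of the vectors it fixes.

The classes are numbered by the numbers below `4096`: `cc` is the numbering, `M a` a vector of minimal
length in the class number `a`.
-/

set_option autoImplicit false
set_option maxRecDepth 100000

open Cfsg Cfsg.Agent.Lib.Leech Cfsg.Agent.Lib.Co0Mono Cfsg.Agent.Lib.Co0Frame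
open Cfsg.Agent.Lib.FiTData Cfsg.Agent.Lib.CoVec Cfsg.Agent.Lib.MonsterSplit
open Cfsg.Agent.Lib.Golay (idx pt idx_pt pt_idx idx_lt idxL mem_idxL ap bit bit_eq ofMask mem_ofMask
  decode idx_decode isM24 decode_mem_M24 isM24_valid reduce X3A X3A_isM24)

namespace Cfsg.Agent.Lib.FiT1

/-! ### The element -/

/-- The permutation. -/
noncomputable def sF : Equiv.Perm GolayPt := decode X3A

theorem sF_mem : sF ∈ M24 := decode_mem_M24 X3A_isM24

/-- The element of `Co0`. -/
noncomputable def xF : Co0 := monoCo0 empty_mem_codeSets sF_mem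

theorem xF_apply (v : leechLattice) (p : GolayPt) :
    ((xF : Equiv.Perm leechLattice) v : GolayPt → ℤ) p = (v : GolayPt → ℤ) (sF p) := by
  show mono ∅ sF v p = _
  rw [mono_apply]
  simp

theorem idx_sF (p : GolayPt) : idx (sF p) = ap X3A (idx p) := idx_decode (isM24_valid X3A_isM24) p

/-! ### Codes of vectors -/

/-- The code of the vector number `a`. -/
def tab (a : ℕ) : ℕ :=
  if a < 4096 then Nat.land (Nat.shiftRight tabP (Nat.mul 192 a)) (2 ^ 192 - 1) else
    Nat.land (Nat.shiftRight tabP (Nat.mul 192 0)) (2 ^ 192 - 1)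

/-- The dual codes. -/
def ny (i : ℕ) : ℕ := nyL.getD i 0

/-- The bit of the inner product with the dual vector `i`, on codes. -/
def bitN (n i : ℕ) : Bool :=
  decide ((((dotA n (ny i) : ℕ) : ℤ) - ((dotB n (ny i) : ℕ) : ℤ)) % 16 ≠ 0)

/-- The number of a class, on codes. -/
def ccN (n : ℕ) : ℕ := Nat.ofBits (fun i : Fin 12 => bitN n i)

/-- The length of the vector number `a`. -/
def nt (a : ℕ) : ℕ := sqN (tab a)

/-- The test on the vector number `a`. -/
def tabOk (a : ℕ) : Bool :=
  memL (tab a) && Nat.blt (tab a) (2 ^ 192) && Nat.beq (ccN (tab a)) a &&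
    (Nat.beq (nt a) 0 || Nat.beq (nt a) 32 || Nat.beq (nt a) 48 || Nat.beq (nt a) 64) &&
    (Nat.beq (nt a) 0 == Nat.beq a 0) && Nat.beq (actPerm X3A (tab a)) (tab a)

theorem tab_chk0 : (List.range' 0 1024).all tabOk = true := by decide +kernel

theorem tab_chk1 : (List.range' 1024 1024).all tabOk = true := by decide +kernel

theorem tab_chk2 : (List.range' 2048 1024).all tabOk = true := by decide +kernel

theorem tab_chk3 : (List.range' 3072 1024).all tabOk = true := by decide +kernel

end Cfsg.Agent.Lib.FiT1
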