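import Mathlib
import Cfsg.Agent.Lib.FiT1

/-!
# The centralizer of `xF` in `Co0` acts on the fixed classes modulo two.
-/

set_option autoImplicit false
set_option maxRecDepth 100000

open Cfsg Cfsg.Agent.Lib.Leech Cfsg.Agent.Lib.Co0Mono Cfsg.Agent.Lib.Co0Frame
open Cfsg.Agent.Lib.FiTData Cfsg.Agent.Lib.CoVec Cfsg.Agent.Lib.MonsterSplit Cfsg.Agent.Lib.FiT1
open Cfsg.Agent.Lib.Golay (idx pt idx_pt pt_idx idx_lt idxL mem_idxL ap bit bit_eq ofMask mem_ofMask toMask
  decode idx_decode isM24 decode_mem_M24 isM24_valid reduce)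

namespace Cfsg.Agent.Lib.FiT2

/-! ### The action on numbers -/

/-- The centralizer of `xF`. -/
abbrev CF : Subgroup Co0 := Subgroup.centralizer ({xF} : Set Co0)

theorem mem_CF {g : Co0} : g ∈ CF ↔ g * xF = xF * g := Subgroup.mem_centralizer_singleton_iff

theorem fix_map {g : Co0} (hg : g ∈ CF) {v : leechLattice} (hv : FixCl xF v) :
    FixCl xF ((g : Equiv.Perm leechLattice) v) := by
  obtain ⟨u, hu⟩ := hv
  refine ⟨(g : Equiv.Perm leechLattice) u, ?_⟩
  have h1 : (xF : Equiv.Perm leechLattice) ((g : Equiv.Perm leechLattice) v) = (g : Equiv.Perm leechLattice) ((xF : Equiv.Perm leechLattice) v) := by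
    have := congrArg (fun k : Co0 => (k : Equiv.Perm leechLattice) v) (mem_CF.1 hg)
    exact this.symm
  rw [h1, hu, co0_add, co0_add]

/-- The action on numbers. -/
noncomputable def A (g : Co0) (a : ℕ) : ℕ := cc ((g : Equiv.Perm leechLattice) (M a) : leechLattice)

theorem A_lt (g : Co0) (a : ℕ) : A g a < 4096 := cc_lt _

/-- Vectors of length `64` have numbers of frames. -/
theorem nt_of_norm {v : leechLattice} (hv : FixCl xF v) (h64 : sqNorm (v : GolayPt → ℤ) = 64) :
    nt (cc (v : GolayPt → ℤ)) = 64 := by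
  obtain ⟨u, hu⟩ := exists_cong_M hv
  set b := cc (v : GolayPt → ℤ) with hb
  have h1 := sqNorm_M b
  have h2 : (nt b : ℤ) ≤ 64 := by
    rcases nt_cases b with h | h | h | h <;> (rw [h]; norm_num)
  have h3 : (v : GolayPt → ℤ) - (M b : GolayPt → ℤ) = (2 : ℕ) • (u : GolayPt → ℤ) := by
    rw [hu, two_nsmul]
    simp only [AddSubgroup.coe_add]
    abel
  rcases Cfsg.Agent.Lib.LeechCong.cong_main (M b).2 u.2 (by omega) (by omega) h3 with h4 | h4 | h4
  · rw [h4, h1] at h64
    exact_mod_cast h64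
  · rw [h4, Cfsg.Agent.Lib.LeechCong.sqNorm_neg, h1] at h64
    exact_mod_cast h64
  · rw [h1] at h4
    exact_mod_cast h4.2.1

theorem A_norm {g : Co0} (hg : g ∈ CF) {a : ℕ} (h : a < 4096) (h64 : nt a = 64) : nt (A g a) = 64 := by
  apply nt_of_norm (fix_map hg (fixCl_M h))
  rw [g.2.2, sqNorm_M, h64]
  rfl

/-- Two vectors with the same number are congruent. -/
theorem cong_of_cc {v w : leechLattice} (hv : FixCl xF v) (hw : FixCl xF w)
    (h : cc (v : GolayPt → ℤ) = cc (w : GolayPt → ℤ)) : ∃ u : leechLattice, v = w + (u + u) := by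
  obtain ⟨a, ha⟩ := exists_cong_M hv
  obtain ⟨b, hb⟩ := exists_cong_M hw
  rw [h] at ha
  refine ⟨a - b, ?_⟩
  have e : w + ((a - b) + (a - b)) = (w - (b + b)) + (a + a) := by abel
  rw [e]
  have e2 : w - (b + b) = M (cc (w : GolayPt → ℤ)) := by
    conv_lhs => rw [hb]
    abel
  rw [e2]
  exact ha

theorem A_xor {g : Co0} {a b : ℕ} (ha : a < 4096) (hb : b < 4096) : A g (a ^^^ b) = A g a ^^^ A g b := by
  have hab : a ^^^ b < 4096 := by
    have := Nat.xor_lt_two_pow (n := 12) ha hb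
    simpa using this
  have h1 : FixCl xF (M a + M b) := by
    obtain ⟨u, hu⟩ := fixCl_M ha
    obtain ⟨u', hu'⟩ := fixCl_M hb
    refine ⟨u + u', ?_⟩
    have e : (xF : Equiv.Perm leechLattice) (M a + M b) = (xF : Equiv.Perm leechLattice) (M a) + (xF : Equiv.Perm leechLattice) (M b) := xF.2.1 _ _
    rw [e, hu, hu']
    abel
  have h2 : cc ((M a + M b : leechLattice) : GolayPt → ℤ) = cc (M (a ^^^ b) : GolayPt → ℤ) := by
    rw [cc_add, cc_M ha, cc_M hb, cc_M hab]
  obtain ⟨u, hu⟩ := cong_of_cc h1 (fixCl_M hab) h2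
  have h3 : (g : Equiv.Perm leechLattice) (M a) + (g : Equiv.Perm leechLattice) (M b) =
      (g : Equiv.Perm leechLattice) (M (a ^^^ b)) + ((g : Equiv.Perm leechLattice) u + (g : Equiv.Perm leechLattice) u) := by
    rw [← co0_add, ← co0_add, ← co0_add, hu]
  unfold A
  have h4 := congrArg (fun v : leechLattice => cc (v : GolayPt → ℤ)) h3
  simp only [cc_add] at h4
  rw [h4, Nat.xor_self, Nat.xor_zero]

theorem A_mul {g h : Co0} (hh : h ∈ CF) {a : ℕ} (ha : a < 4096) : A (g * h) a = A g (A h a) := by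
  have h1 := fix_map hh (fixCl_M ha)
  have h2 : cc ((h : Equiv.Perm leechLattice) (M a) : leechLattice) = cc (M (A h a) : GolayPt → ℤ) := by
    rw [cc_M (A_lt h a)]
    rfl
  obtain ⟨u, hu⟩ := cong_of_cc h1 (fixCl_M (A_lt h a)) h2
  show cc ((g : Equiv.Perm leechLattice) ((h : Equiv.Perm leechLattice) (M a)) : leechLattice) = _
  rw [hu, co0_add, co0_add, cc_congr]
  rfl

theorem A_one {a : ℕ} (ha : a < 4096) : A 1 a = a := cc_M ha

theorem A_zero (g : Co0) : A g 0 = 0 := by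
  have := A_xor (g := g) (a := 0) (b := 0) (by norm_num) (by norm_num)
  rw [Nat.xor_self, Nat.xor_self] at this
  simpa using this

theorem A_inv {g : Co0} (hg : g ∈ CF) {a : ℕ} (ha : a < 4096) : A g⁻¹ (A g a) = a := by
  rw [← A_mul hg ha, inv_mul_cancel, A_one ha]

theorem A_inj {g : Co0} (hg : g ∈ CF) {a b : ℕ} (ha : a < 4096) (hb : b < 4096) (h : A g a = A g b) : a = b := by
  rw [← A_inv hg ha, h, A_inv hg hb]

end Cfsg.Agent.Lib.FiT2
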