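import Mathlib
import Cfsg.Agent.Lib.FiT2
import Cfsg.Agent.Lib.Five3
import Cfsg.Agent.Lib.GolayClasses

/-!
# Explicit elements of the centralizer of `xF`. The stabilizer of a frame in the centralizer is small.
-/

set_option autoImplicit false
set_option maxRecDepth 100000

open Cfsg Cfsg.Agent.Lib.Leech Cfsg.Agent.Lib.Co0Mono Cfsg.Agent.Lib.Co0Frame
open Cfsg.Agent.Lib.FiTData Cfsg.Agent.Lib.CoVec Cfsg.Agent.Lib.MonsterSplit Cfsg.Agent.Lib.FiT1
open Cfsg.Agent.Lib.FiT2
open Cfsg.Agent.Lib.Five3 (co0_ext_e8 eN dec_eN eN_st)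
open Cfsg.Agent.Lib.Golay (idx pt idx_pt pt_idx idx_lt idxL mem_idxL ap bit bit_eq ofMask mem_ofMask
  decode idx_decode isM24 decode_mem_M24 isM24_valid reduce S48L exists_S48_of_agree toMask RepBy repBy_decode idC decode_idC X3A X3A_isM24)
open Cfsg.Agent.S0398 (e8 e8_apply neg_center)

namespace Cfsg.Agent.Lib.FiT3

theorem xF_acts : ActsOn xF (actPerm X3A) := by
  rw [xF_eq]
  exact actPerm_acts X3A_isM24

/-- The commutation can be checked on the frame. -/
theorem comm_of {g : Co0} {f : ℕ → ℕ} (hf : ActsOn g f)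
    (h : ∀ i < 24, f (actPerm X3A (eN i)) = actPerm X3A (f (eN i))) : g ∈ CF := by
  rw [mem_CF]
  apply co0_ext_e8
  intro p
  have h1 := hf.mul xF_acts (eN (idx p)) (eN_st p)
  have h2 := xF_acts.mul hf (eN (idx p)) (eN_st p)
  apply Subtype.ext
  have e : (⟨dec (eN (idx p)), (eN_st p).2.1⟩ : leechLattice) = e8 p := Subtype.ext (dec_eN p)
  rw [e] at h1 h2
  rw [h1.2, h2.2]
  show dec (f (actPerm X3A (eN (idx p)))) = dec (actPerm X3A (f (eN (idx p))))
  rw [h _ (idx_lt p)]

/-- The number of the image of a vector. -/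
theorem A_of {g : Co0} {f : ℕ → ℕ} (hf : ActsOn g f) (a : ℕ) : A g a = ccN (f (tab a)) := by
  unfold A
  rw [← cc_dec, ← (hf (tab a) (tab_st a)).2]
  rfl

/-! ### The frame -/

theorem tab_a0 : tab a0 = eN 0 := by decide +kernel

theorem M_a0 : M a0 = e8 (pt 0) := by
  apply Subtype.ext
  rw [M_coe, tab_a0]
  have h := dec_eN (pt 0)
  rw [idx_pt (by norm_num)] at h
  exact h

theorem nt_a0 : nt a0 = 64 := by decide +kernel

theorem a0_lt : a0 < 4096 := by decide

/-! ### The stabilizer of the frame -/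

/-- The mask of a union of orbits. -/
def dOf (b : ℕ) : ℕ := Nat.ofBits (fun i : Fin 24 => b.testBit (cidL.getD i 0))

theorem testBit_dOf (b : ℕ) (p : GolayPt) : (dOf b).testBit (idx p) = b.testBit (cidL.getD (idx p) 0) := by
  unfold dOf
  rw [Nat.testBit_ofBits_lt _ _ (idx_lt p)]

/-- The invariant sets of the code. -/
def D3L : List ℕ := (List.range 4096).filter (fun b => Nat.beq (reduce (dOf b)) 0)

theorem card_D3L : D3L.length = 64 := by decide +kernel

/-- The invariant sets of the code. -/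
noncomputable def D3F : Finset (Finset GolayPt) := by
  classical
  exact D3L.toFinset.image (fun b => ofMask (dOf b))

theorem card_D3F : D3F.card ≤ 64 := by
  classical
  rw [← card_D3L]
  exact Finset.card_image_le.trans (List.toFinset_card_le D3L)

theorem cid_val : ∀ i < 24, cidL.getD i 0 < 12 := by decide +kernel

theorem mem_D3F {c : Finset GolayPt} (hc : c ∈ codeSets) (hinv : ∀ p, sF p ∈ c ↔ p ∈ c) : c ∈ D3F := by
  classical
  set b : ℕ := Nat.ofBits (fun j : Fin 12 => decide (rep j ∈ c)) with hb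
  have hblt : b < 4096 := Nat.ofBits_lt_two_pow (n := 12) _
  have hx : ∀ p, (if sF p ∈ c then (1 : ℤ) else 0) = if p ∈ c then 1 else 0 := by
    intro p
    by_cases h : p ∈ c
    · rw [if_pos h, if_pos ((hinv p).2 h)]
    · rw [if_neg h, if_neg (fun e => h ((hinv p).1 e))]
  have hrep : ∀ p, p ∈ c ↔ rep (cid p) ∈ c := by
    intro p
    have := eq_rep (x := fun p => if p ∈ c then (1 : ℤ) else 0) hx p
    by_cases h : p ∈ c <;> by_cases h' : rep (cid p) ∈ c <;> simp_all
  have hbit : ∀ p, (dOf b).testBit (idx p) = decide (p ∈ c) := by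
    intro p
    rw [testBit_dOf]
    have h1 := cid_val _ (idx_lt p)
    have h2 : (cid p : ℕ) = cidL.getD (idx p) 0 := by
      show (cidL.getD (idx p) 0) % 12 = _
      exact Nat.mod_eq_of_lt h1
    rw [← h2, hb, Nat.testBit_ofBits_lt _ _ (cid p).2]
    simp only [Fin.eta]
    exact decide_eq_decide.2 (hrep p).symm
  have hc' : ofMask (dOf b) = c := by
    ext p
    rw [mem_ofMask, hbit]
    simp
  have h3 := (Cfsg.Agent.Lib.Golay.mem_supports_iff c).1 hc
  have hd : dOf b < 2 ^ 24 := Nat.ofBits_lt_two_pow _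
  rw [← hc', Cfsg.Agent.Lib.Golay.toMask_ofMask hd] at h3
  unfold D3F
  refine Finset.mem_image.2 ⟨b, List.mem_toFinset.2 (List.mem_filter.2 ⟨List.mem_range.2 hblt, ?_⟩), hc'⟩
  rw [h3]
  rfl

/-- The commuting test. -/
def commT (x u s : ℕ) : Bool := idxL.all fun i => Nat.beq (ap x (Cfsg.Agent.Lib.Golay.fn2 u s i)) (Cfsg.Agent.Lib.Golay.fn2 u s (ap x i))

theorem commT_of {x u s : ℕ} (hx : Cfsg.Agent.Lib.Golay.valid x = true) (hu : Cfsg.Agent.Lib.Golay.valid u = true)
    (hs : Cfsg.Agent.Lib.Golay.valid s = true)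
    (h : decode x * (decode u * decode s) = (decode u * decode s) * decode x) : commT x u s = true := by
  simp only [commT, List.all_eq_true, Nat.beq_eq]
  intro i hi
  have hi' := mem_idxL.1 hi
  have h1 := ((repBy_decode hx).mul (Cfsg.Agent.Lib.Golay.repBy_fn2 hu hs)).val hi'
  have h2 := ((Cfsg.Agent.Lib.Golay.repBy_fn2 hu hs).mul (repBy_decode hx)).val hi'
  rw [h] at h1
  exact h1.symm.trans h2

theorem U720_ok : U720.all isM24 = true := by decide +kernel

/-- The fixed points of the permutation. -/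
def F6 : List ℕ := [0, 1, 2, 3, 4, 23]

theorem mem_F6 : ∀ i < 24, ap X3A i = i → i ∈ F6 := by decide +kernel

/-- The images of the five base points. -/
def matchU (a b c d e u : ℕ) : Bool :=
  Nat.beq (ap u 3) a && Nat.beq (ap u 2) b && Nat.beq (ap u 1) c && Nat.beq (ap u 0) d && Nat.beq (ap u 23) e

/-- Five different numbers. -/
def dist5 (a b c d e : ℕ) : Bool :=
  !(Nat.beq a b) && !(Nat.beq a c) && !(Nat.beq a d) && !(Nat.beq a e) && !(Nat.beq b c) && !(Nat.beq b d) &&
    !(Nat.beq b e) && !(Nat.beq c d) && !(Nat.beq c e) && !(Nat.beq d e)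

theorem cover720 : F6.all (fun a => F6.all fun b => F6.all fun c => F6.all fun d => F6.all fun e =>
    !(dist5 a b c d e) || U720.any (matchU a b c d e)) = true := by decide +kernel

/-- The pairs of the list and the stabilizer commuting with the permutation. -/
def P3L : List (ℕ × ℕ) := (U720.flatMap fun u => S48L.map fun s => (u, s)).filter fun p => commT X3A p.1 p.2

theorem P3L_len : P3L.length = 1080 := by decide +kernel

/-- The centralizer in `M24`. -/
noncomputable def S3F : Finset (Equiv.Perm GolayPt) := by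
  classical
  exact P3L.toFinset.image (fun p => decode p.1 * decode p.2)

theorem card_S3F : S3F.card ≤ 1080 := by
  classical
  rw [← P3L_len]
  exact Finset.card_image_le.trans (List.toFinset_card_le P3L)

theorem mem_P3L {u s : ℕ} (hu : u ∈ U720) (hs : s ∈ S48L) (h : commT X3A u s = true) : (u, s) ∈ P3L := by
  unfold P3L
  exact List.mem_filter.2 ⟨List.mem_flatMap.2 ⟨u, hu, List.mem_map.2 ⟨s, hs, rfl⟩⟩, h⟩

attribute [local irreducible] P3L in
theorem mem_S3F {σ : Equiv.Perm GolayPt} (hσ : σ ∈ M24) (hc : σ * sF = sF * σ) : σ ∈ S3F := by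
  classical
  have hx : RepBy sF (ap X3A) := idx_sF
  have hcp : ∀ p, σ (sF p) = sF (σ p) := fun p => Equiv.congr_fun hc p
  have hfix : ∀ i ∈ [3,2,1,0,23], idx (σ (pt i)) ∈ F6 := by
    intro i hi
    have hi24 : i < 24 := by
      simp only [List.mem_cons, List.not_mem_nil, or_false] at hi
      rcases hi with rfl | rfl | rfl | rfl | rfl <;> norm_num
    have h1 : ap X3A i = i := by
      simp only [List.mem_cons, List.not_mem_nil, or_false] at hi
      rcases hi with rfl | rfl | rfl | rfl | rfl <;> decide +kernel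
    have h2 : sF (pt i) = pt i := by
      rw [sF_pt hi24, h1]
    apply mem_F6 _ (idx_lt _)
    rw [← idx_sF, ← hcp, h2]
  have hne : ∀ {i j : ℕ}, i < 24 → j < 24 → i ≠ j → idx (σ (pt i)) ≠ idx (σ (pt j)) := by
    intro i j hi hj hij h
    exact hij (Cfsg.Agent.Lib.Golay.pt_injOn hi hj (σ.injective (Cfsg.Agent.Lib.Golay.idx_injective h)))
  set a := idx (σ (pt 3)) with ha
  set b := idx (σ (pt 2)) with hb
  set c := idx (σ (pt 1)) with hc'
  set d := idx (σ (pt 0)) with hd
  set e := idx (σ (pt 23)) with he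
  have h5 := List.all_eq_true.1 (List.all_eq_true.1 (List.all_eq_true.1 (List.all_eq_true.1 (List.all_eq_true.1 cover720
    a (hfix 3 (by simp))) b (hfix 2 (by simp))) c (hfix 1 (by simp))) d (hfix 0 (by simp))) e (hfix 23 (by simp))
  have hdist : dist5 a b c d e = true := by
    have hb' : ∀ {x y : ℕ}, x ≠ y → (!(Nat.beq x y)) = true := by
      intro x y hxy
      have e0 : Nat.beq x y = false := by
        cases h : Nat.beq x y with
        | true => exact absurd (Nat.eq_of_beq_eq_true h) hxy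
        | false => rfl
      rw [e0]
      rfl
    simp only [dist5, Bool.and_eq_true]
    exact ⟨⟨⟨⟨⟨⟨⟨⟨⟨hb' (hne (by norm_num) (by norm_num) (by norm_num)), hb' (hne (by norm_num) (by norm_num) (by norm_num))⟩,
      hb' (hne (by norm_num) (by norm_num) (by norm_num))⟩, hb' (hne (by norm_num) (by norm_num) (by norm_num))⟩,
      hb' (hne (by norm_num) (by norm_num) (by norm_num))⟩, hb' (hne (by norm_num) (by norm_num) (by norm_num))⟩,
      hb' (hne (by norm_num) (by norm_num) (by norm_num))⟩, hb' (hne (by norm_num) (by norm_num) (by norm_num))⟩,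
      hb' (hne (by norm_num) (by norm_num) (by norm_num))⟩, hb' (hne (by norm_num) (by norm_num) (by norm_num))⟩
  rw [hdist] at h5
  simp only [Bool.not_true, Bool.false_or, List.any_eq_true] at h5
  obtain ⟨u, huL, hm⟩ := h5
  simp only [matchU, Bool.and_eq_true, Nat.beq_eq] at hm
  obtain ⟨⟨⟨⟨e1, e2⟩, e3⟩, e4⟩, e5⟩ := hm
  have hU := List.all_eq_true.1 U720_ok u huL
  have hv := isM24_valid hU
  obtain ⟨s, hs, hσs⟩ := exists_S48_of_agree hσ (decode_mem_M24 hU) (by
    intro i hi
    simp only [List.mem_cons, List.not_mem_nil, or_false] at hi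
    rcases hi with rfl | rfl | rfl | rfl | rfl
    · rw [Cfsg.Agent.Lib.Golay.decode_pt hv (by norm_num), e1, ha, pt_idx]
    · rw [Cfsg.Agent.Lib.Golay.decode_pt hv (by norm_num), e2, hb, pt_idx]
    · rw [Cfsg.Agent.Lib.Golay.decode_pt hv (by norm_num), e3, hc', pt_idx]
    · rw [Cfsg.Agent.Lib.Golay.decode_pt hv (by norm_num), e4, hd, pt_idx]
    · rw [Cfsg.Agent.Lib.Golay.decode_pt hv (by norm_num), e5, he, pt_idx])
  have hsv : Cfsg.Agent.Lib.Golay.valid s = true :=
    isM24_valid (Cfsg.Agent.Lib.Golay.S48L_isM24 s hs)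
  have hcv : Cfsg.Agent.Lib.Golay.valid X3A = true := isM24_valid X3A_isM24
  have hcomm : decode X3A * (decode u * decode s) = (decode u * decode s) * decode X3A := by
    rw [← hσs]
    exact hc.symm
  have hcT := commT_of hcv hv hsv hcomm
  unfold S3F
  exact Finset.mem_image.2 ⟨(u, s), List.mem_toFinset.2 (mem_P3L huL hs hcT), hσs.symm⟩

attribute [local irreducible] D3F S3F D3L P3L

/-- The elements of the centralizer of `xF` fixing the class of the frame are few. -/
theorem exists_mono_stab {g : Co0} (hg : g ∈ CF) (h : A g a0 = a0) :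
    ∃ p ∈ D3F ×ˢ S3F, ∃ (hc : p.1 ∈ codeSets) (hσ : p.2 ∈ M24), g = monoCo0 hc hσ := by
  classical
  have h1 := fix_map hg (fixCl_M a0_lt)
  have h2 : cc ((g : Equiv.Perm leechLattice) (M a0) : leechLattice) = cc (M a0 : GolayPt → ℤ) := by
    rw [cc_M a0_lt]
    exact h
  obtain ⟨u, hu⟩ := cong_of_cc h1 (fixCl_M a0_lt) h2
  rw [M_a0] at hu
  obtain ⟨c, σ, hc, hσ, rfl⟩ := exists_mono_of_cong hu
  have hcomm := mem_CF.1 hg
  unfold xF at hcomm
  rw [monoCo0_mul, monoCo0_mul] at hcomm
  obtain ⟨h3, h4⟩ := monoCo0_part_eq hcomm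
  have h5 : c = c.image (sF⁻¹ : Equiv.Perm GolayPt) := by
    rw [Finset.image_empty] at h3
    have e1 : symmDiff c ∅ = c := by
      ext q
      simp [Finset.mem_symmDiff]
    have e2 : ∀ x : Finset GolayPt, symmDiff ∅ x = x := by
      intro x
      ext q
      simp [Finset.mem_symmDiff]
    rw [e1, e2] at h3
    exact h3
  refine ⟨(c, σ), Finset.mem_product.2 ⟨mem_D3F hc ?_, mem_S3F hσ h4.symm⟩, hc, hσ, rfl⟩
  intro p
  constructor
  · intro hp
    rw [h5]
    exact Finset.mem_image.2 ⟨sF p, hp, by simp⟩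
  · intro hp
    rw [h5] at hp
    obtain ⟨q, hq, e⟩ := Finset.mem_image.1 hp
    have : q = sF p := by
      rw [← e]
      simp
    rw [← this]
    exact hq

/-- The action of the centralizer on the numbers. -/
noncomputable def actFin : MulAction CF (Fin 4096) where
  smul g a := ⟨A g a, A_lt _ _⟩
  one_smul a := Fin.ext (A_one a.2)
  mul_smul g h a := Fin.ext (A_mul h.2 a.2)

/-- The classes of frames. -/
def FrL : List ℕ := (List.range 4096).filter (fun a => Nat.beq (nt a) 64)

theorem FrL_len : FrL.length = 1701 := by decide +kernel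

/-- The order of the centralizer. -/
theorem card_CF_le : Nat.card CF ≤ 117573120 := by
  classical
  letI := actFin
  let a₀ : Fin 4096 := ⟨a0, a0_lt⟩
  have h1 : (MulAction.stabilizer CF a₀).index = (MulAction.orbit CF a₀).ncard := MulAction.index_stabilizer _ _
  have h2 : (MulAction.orbit CF a₀).ncard ≤ 1701 := by
    rw [← FrL_len]
    refine le_trans ?_ (List.toFinset_card_le FrL)
    rw [← Set.ncard_coe_finset]
    refine Set.ncard_le_ncard_of_injOn (fun a : Fin 4096 => (a : ℕ)) ?_ (fun a _ b _ h => Fin.ext h) (Finset.finite_toSet _)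
    rintro _ ⟨g, rfl⟩
    have h4 := A_norm g.2 (a := a0) a0_lt nt_a0
    refine Finset.mem_coe.2 (List.mem_toFinset.2 (List.mem_filter.2 ⟨List.mem_range.2 (A_lt _ _), ?_⟩))
    show Nat.beq (nt (A (g : Co0) a0)) 64 = true
    rw [h4]
    rfl
  have h3 : Nat.card (MulAction.stabilizer CF a₀) ≤ 69120 := by
    have hex : ∀ g : MulAction.stabilizer CF a₀, ∃ p : ↥(D3F ×ˢ S3F), ∃ (hc : p.1.1 ∈ codeSets) (hσ : p.1.2 ∈ M24),
        ((g : CF) : Co0) = monoCo0 hc hσ := by
      intro g
      have hg : A ((g : CF) : Co0) a0 = a0 := by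
        have h7 : (g : CF) • a₀ = a₀ := MulAction.mem_stabilizer_iff.1 g.2
        exact congrArg Fin.val h7
      obtain ⟨p, hp, hc, hσ, e⟩ := exists_mono_stab (g : CF).2 hg
      exact ⟨⟨p, hp⟩, hc, hσ, e⟩
    choose f hf1 hf2 hf3 using hex
    have hinj : Function.Injective f := by
      intro g g' h
      apply Subtype.ext
      apply Subtype.ext
      rw [hf3 g, hf3 g']
      apply monoCo0_congr
      · rw [h]
      · rw [h]
    have h4 := Nat.card_le_card_of_injective f hinj
    have h8 : Nat.card ↥(D3F ×ˢ S3F) = (D3F ×ˢ S3F).card := by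
      rw [Nat.card_eq_fintype_card, Fintype.card_coe]
    rw [h8, Finset.card_product] at h4
    have h5 := card_D3F
    have h6 := card_S3F
    calc _ ≤ D3F.card * S3F.card := h4
      _ ≤ 64 * 1080 := Nat.mul_le_mul h5 h6
      _ = 69120 := by norm_num
  have h4 := Subgroup.card_mul_index (MulAction.stabilizer CF a₀)
  rw [← h4, h1]
  calc _ ≤ 69120 * 1701 := Nat.mul_le_mul h3 h2
    _ = 117573120 := by norm_num

end Cfsg.Agent.Lib.FiT3
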