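import Mathlib
import Cfsg.Agent.Lib.F9K
import Cfsg.Agent.Lib.FiTData
import Cfsg.Agent.Lib.UnitarySimple
import Cfsg.Agent.Lib.UnitaryIso

/-!
# `SU₄(3)` acting on the `280` isotropic points of the Hermitian variety.

`PSU 4 K9 3` embeds in the permutations of the `280` points, and a subgroup of `SU 4 K9 3` containing three
explicit elements and an explicit transvection is everything.
-/

set_option autoImplicit false
set_option maxRecDepth 100000
set_option linter.unusedSectionVars false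

namespace Cfsg.Agent.Lib.FiTU

open Cfsg Matrix
open Cfsg.Agent.Lib.F9K Cfsg.Agent.Lib.FiTData Cfsg.Agent.Lib.UnitaryBasic Cfsg.Agent.Lib.UnitaryTv
open Cfsg.Agent.Lib.UnitaryGen Cfsg.Agent.Lib.UnitarySimple Cfsg.Agent.Lib.UnitaryPerfect

/-- The natural module. -/
abbrev V : Type := Fin 4 → K9

/-- The Hermitian form. -/
abbrev herm (u v : V) : K9 := hermForm 4 K9 3 u v

/-- The group. -/
abbrev G : Type := SU 4 K9 3

/-- The matrix of an element. -/
def mat (g : G) : Matrix (Fin 4) (Fin 4) K9 := g.1.1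

@[simp] lemma mat_mul (g h : G) : mat (g * h) = mat g * mat h := rfl
@[simp] lemma mat_one : mat (1 : G) = 1 := rfl

lemma mat_inv_mul (g : G) : mat g⁻¹ * mat g = 1 := by
  rw [← mat_mul, inv_mul_cancel, mat_one]

lemma mat_mul_inv (g : G) : mat g * mat g⁻¹ = 1 := by
  rw [← mat_mul, mul_inv_cancel, mat_one]

lemma herm_mat (g : G) (u v : V) : herm (mat g *ᵥ u) (mat g *ᵥ v) = herm u v := g.2 u v

lemma hF : Fintype.card K9 = 3 ^ 2 := K9.card_K9

lemma herm_smul_l (c : K9) (u v : V) : herm (c • u) v = c * herm u v := herm_smul_left c u v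

lemma herm_smul_r (c : K9) (u v : V) : herm u (c • v) = c ^ 3 * herm u v := herm_smul_right c u v

lemma herm_inv_r (g : G) (u v : V) : herm (mat g *ᵥ u) v = herm u (mat g⁻¹ *ᵥ v) := by
  have h := herm_mat g u (mat g⁻¹ *ᵥ v)
  rw [Matrix.mulVec_mulVec, mat_mul_inv, Matrix.one_mulVec] at h
  exact h

lemma mat_mulVec_ne_zero (g : G) {v : V} (hv : v ≠ 0) : mat g *ᵥ v ≠ 0 := by
  intro h
  apply hv
  have h2 := congrArg (fun x => mat g⁻¹ *ᵥ x) h
  simpa [Matrix.mulVec_mulVec, mat_inv_mul] using h2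

/-- Elements are determined by the action. -/
lemma G_ext {g h : G} (e : ∀ x : V, mat g *ᵥ x = mat h *ᵥ x) : g = h := by
  apply Subtype.ext
  apply Subtype.ext
  apply Matrix.mulVec_injective
  funext x
  exact e x

/-- The first nonzero coordinate. -/
def lead (v : V) : K9 := if v 0 ≠ 0 then v 0 else if v 1 ≠ 0 then v 1 else if v 2 ≠ 0 then v 2 else v 3

/-- The normal form of a vector. -/
def nf (v : V) : V := (lead v)⁻¹ • v

lemma lead_smul {c : K9} (hc : c ≠ 0) (v : V) : lead (c • v) = c * lead v := by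
  simp only [lead, Pi.smul_apply, smul_eq_mul, mul_ne_zero_iff, hc, ne_eq, not_false_eq_true,
    true_and]
  split_ifs <;> rfl

lemma lead_ne_zero {v : V} (hv : v ≠ 0) : lead v ≠ 0 := by
  intro h
  apply hv
  unfold lead at h
  split_ifs at h with h0 h1 h2
  · exact absurd h h0
  · exact absurd h h1
  · exact absurd h h2
  · funext i
    fin_cases i
    · simpa using h0
    · simpa using h1
    · simpa using h2
    · simpa using h

lemma nf_smul {c : K9} (hc : c ≠ 0) (v : V) : nf (c • v) = nf v := by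
  unfold nf
  rw [lead_smul hc, smul_smul, mul_inv, mul_comm c⁻¹, mul_assoc, inv_mul_cancel₀ hc, mul_one]

lemma nf_ne_zero {v : V} (hv : v ≠ 0) : nf v ≠ 0 := by
  unfold nf
  intro h
  have h2 := (smul_eq_zero.mp h).resolve_left (inv_ne_zero (lead_ne_zero hv))
  exact hv h2

lemma nf_nf {v : V} (hv : v ≠ 0) : nf (nf v) = nf v :=
  nf_smul (inv_ne_zero (lead_ne_zero hv)) v

lemma herm_nf_self {v : V} (hv : herm v v = 0) : herm (nf v) (nf v) = 0 := by
  unfold nf
  rw [herm_smul_l, herm_smul_r, hv]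
  simp

/-- The isotropic points, in normal form. -/
def Pt : Type := {v : V // v ≠ 0 ∧ herm v v = 0 ∧ nf v = v}

instance : Finite Pt := inferInstanceAs (Finite {v : V // v ≠ 0 ∧ herm v v = 0 ∧ nf v = v})

/-- The action on points. -/
def ptAct (g : G) (x : Pt) : Pt :=
  ⟨nf (mat g *ᵥ x.1), nf_ne_zero (mat_mulVec_ne_zero g x.2.1),
    herm_nf_self (by rw [herm_mat]; exact x.2.2.1), nf_nf (mat_mulVec_ne_zero g x.2.1)⟩

instance : MulAction G Pt where
  smul := ptAct
  one_smul x := by
    apply Subtype.ext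
    show nf (mat (1 : G) *ᵥ x.1) = x.1
    rw [mat_one, Matrix.one_mulVec]
    exact x.2.2.2
  mul_smul a b x := by
    apply Subtype.ext
    show nf (mat (a * b) *ᵥ x.1) = nf (mat a *ᵥ nf (mat b *ᵥ x.1))
    have h : nf (mat b *ᵥ x.1) = (lead (mat b *ᵥ x.1))⁻¹ • (mat b *ᵥ x.1) := rfl
    rw [mat_mul, h, Matrix.mulVec_smul,
      nf_smul (inv_ne_zero (lead_ne_zero (mat_mulVec_ne_zero b x.2.1))), Matrix.mulVec_mulVec]

lemma smul_val (g : G) (x : Pt) : (g • x).1 = nf (mat g *ᵥ x.1) := rfl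

/-! ### Data -/

/-- Elements from their codes. -/
def c9 (n : ℕ) : K9 := (⟨Nat.mod n 9, Nat.mod_lt _ (by decide)⟩ : Fin 9)

/-- The coordinates of the points. -/
def pc (i k : ℕ) : K9 := c9 (Nat.land (Nat.shiftRight ptP (Nat.add (Nat.mul 16 i) (Nat.mul 4 k))) 15)

/-- The points. -/
def pt (i : Fin 280) : V := ![pc i 0, pc i 1, pc i 2, pc i 3]

theorem pt_iso : ∀ i : Fin 280, herm (pt i) (pt i) = 0 := by decide +kernel

theorem pt_ne_zero : ∀ i : Fin 280, pt i ≠ 0 := by decide +kernel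

theorem pt_lead : ∀ i : Fin 280, lead (pt i) = 1 := by decide +kernel

theorem pt_inj : Function.Injective pt := by
  unfold Function.Injective
  decide +kernel

theorem cover1 : ∀ b c d : K9, herm ![1, b, c, d] ![1, b, c, d] = 0 → ∃ i, pt i = ![1, b, c, d] := by
  decide +kernel

theorem cover2 : ∀ c d : K9, herm ![0, 1, c, d] ![0, 1, c, d] = 0 → ∃ i, pt i = ![0, 1, c, d] := by
  decide +kernel

theorem cover3 : ∀ d : K9, herm ![0, 0, 1, d] ![0, 0, 1, d] = 0 → ∃ i, pt i = ![0, 0, 1, d] := by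
  decide +kernel

theorem not_iso4 : herm ![0, 0, 0, 1] ![0, 0, 0, 1] ≠ 0 := by decide +kernel

lemma nf_pt (i : Fin 280) : nf (pt i) = pt i := by
  unfold nf
  rw [pt_lead, inv_one, one_smul]

/-- The point with a given index. -/
def ptE (i : Fin 280) : Pt := ⟨pt i, pt_ne_zero i, pt_iso i, nf_pt i⟩

lemma lead_eq_one {v : V} (hv : v ≠ 0) (hn : nf v = v) : lead v = 1 := by
  have h1 : lead (nf v) = (lead v)⁻¹ * lead v := lead_smul (inv_ne_zero (lead_ne_zero hv)) v
  rw [inv_mul_cancel₀ (lead_ne_zero hv), hn] at h1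
  exact h1

lemma vec4 (v : V) : v = ![v 0, v 1, v 2, v 3] := by
  funext i
  fin_cases i <;> rfl

/-- A vector with leading coordinate one is of one of four shapes. -/
lemma lead_one_cases {v : V} (h : lead v = 1) :
    v = ![1, v 1, v 2, v 3] ∨ v = ![0, 1, v 2, v 3] ∨ v = ![0, 0, 1, v 3] ∨ v = ![0, 0, 0, 1] := by
  unfold lead at h
  split_ifs at h with h0 h1 h2
  · left
    conv_lhs => rw [vec4 v, h]
  · right; left
    have h0' : v 0 = 0 := by simpa using h0
    conv_lhs => rw [vec4 v, h, h0']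
  · right; right; left
    have h0' : v 0 = 0 := by simpa using h0
    have h1' : v 1 = 0 := by simpa using h1
    conv_lhs => rw [vec4 v, h, h0', h1']
  · right; right; right
    have h0' : v 0 = 0 := by simpa using h0
    have h1' : v 1 = 0 := by simpa using h1
    have h2' : v 2 = 0 := by simpa using h2
    conv_lhs => rw [vec4 v, h, h0', h1', h2']

lemma ptE_bij : Function.Bijective ptE := by
  constructor
  · intro i j hij
    exact pt_inj (congrArg Subtype.val hij)
  · intro x
    obtain ⟨v, hv, hiso, hn⟩ := x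
    have hl := lead_eq_one hv hn
    have : ∃ i, pt i = v := by
      rcases lead_one_cases hl with h | h | h | h
      · rw [h] at hiso ⊢
        exact cover1 _ _ _ hiso
      · rw [h] at hiso ⊢
        exact cover2 _ _ hiso
      · rw [h] at hiso ⊢
        exact cover3 _ hiso
      · rw [h] at hiso
        exact absurd hiso not_iso4
    obtain ⟨i, hi⟩ := this
    exact ⟨i, Subtype.ext hi⟩

/-- Indices and points. -/
noncomputable def eE : Fin 280 ≃ Pt := Equiv.ofBijective ptE ptE_bij

lemma eE_val (i : Fin 280) : (eE i).1 = pt i := rfl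

/-- The action on the indices. -/
noncomputable def iota0 : G →* Equiv.Perm (Fin 280) :=
  (eE.symm.permCongrHom).toMonoidHom.comp (MulAction.toPermHom G Pt)

lemma iota0_apply (s : G) (j : Fin 280) : iota0 s j = eE.symm (s • eE j) := rfl

lemma pt_iota0 (s : G) (j : Fin 280) : pt (iota0 s j) = nf (mat s *ᵥ pt j) := by
  rw [iota0_apply, ← eE_val, Equiv.apply_symm_apply]
  rfl

lemma iota0_of {s : G} {j j' : Fin 280} (h : nf (mat s *ᵥ pt j) = pt j') : iota0 s j = j' :=
  pt_inj ((pt_iota0 s j).trans h)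

/-! ### Explicit elements -/

/-- A matrix from its code. -/
def um (c : ℕ) : Matrix (Fin 4) (Fin 4) K9 :=
  Matrix.of fun i j => c9 (Nat.land (Nat.shiftRight c (Nat.mul 4 (Nat.add (Nat.mul 4 i) j))) 15)

/-- The matrices. -/
def U1M : Matrix (Fin 4) (Fin 4) K9 := um u1C

/-- The matrices. -/
def U2M : Matrix (Fin 4) (Fin 4) K9 := um u2C

/-- The matrices. -/
def U3M : Matrix (Fin 4) (Fin 4) K9 := um u3C

theorem U1_u : U1M.transpose * U1M.map (fun x => x ^ 3) = 1 := by decide +kernel
theorem U2_u : U2M.transpose * U2M.map (fun x => x ^ 3) = 1 := by decide +kernel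
theorem U3_u : U3M.transpose * U3M.map (fun x => x ^ 3) = 1 := by decide +kernel

theorem U1_det : U1M.det = 1 := by decide +kernel
theorem U2_det : U2M.det = 1 := by decide +kernel
theorem U3_det : U3M.det = 1 := by decide +kernel

/-- The Frobenius. -/
def frobH : K9 →+* K9 := sigma hF

/-- A matrix with `Aᵀ Aσ = 1` preserves the form. -/
lemma herm_of_matrix {A : Matrix (Fin 4) (Fin 4) K9}
    (h : A.transpose * A.map (fun x => x ^ 3) = 1) (u v : V) :
    herm (A *ᵥ u) (A *ᵥ v) = herm u v := by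
  have h2 : (fun i => (A *ᵥ v) i ^ 3) = A.map (fun x => x ^ 3) *ᵥ (fun i => v i ^ 3) := by
    funext i
    exact RingHom.map_mulVec frobH A v i
  have h3 : herm (A *ᵥ u) (A *ᵥ v) = (A *ᵥ u) ⬝ᵥ (fun i => (A *ᵥ v) i ^ 3) := rfl
  have h4 : herm u v = u ⬝ᵥ (fun i => v i ^ 3) := rfl
  rw [h3, h4, h2, Matrix.dotProduct_mulVec, ← Matrix.vecMul_transpose, Matrix.vecMul_vecMul, h,
    Matrix.vecMul_one]

/-- An element of `G` from a matrix. -/
def mkG (A : Matrix (Fin 4) (Fin 4) K9) (hd : A.det = 1)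
    (h : A.transpose * A.map (fun x => x ^ 3) = 1) : G :=
  ⟨⟨A, hd⟩, fun u v => herm_of_matrix h u v⟩

/-- The elements. -/
def g1 : G := mkG U1M U1_det U1_u

/-- The elements. -/
def g2 : G := mkG U2M U2_det U2_u

/-- The elements. -/
def g3 : G := mkG U3M U3_det U3_u

/-- The permutations of the indices, as numbers. -/
def piN (P j : ℕ) : ℕ := Nat.land (Nat.shiftRight P (Nat.mul 9 j)) 511

/-- The permutations of the indices. -/
def piF (P : ℕ) (j : Fin 280) : Fin 280 := ⟨Nat.mod (piN P j) 280, Nat.mod_lt _ (by decide)⟩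

theorem U1_act : ∀ j : Fin 280, nf (U1M *ᵥ pt j) = pt (piF pi1P j) := by decide +kernel
theorem U2_act : ∀ j : Fin 280, nf (U2M *ᵥ pt j) = pt (piF pi2P j) := by decide +kernel
theorem U3_act : ∀ j : Fin 280, nf (U3M *ᵥ pt j) = pt (piF pi3P j) := by decide +kernel

lemma iota_g1 (j : Fin 280) : iota0 g1 j = piF pi1P j := iota0_of (U1_act j)
lemma iota_g2 (j : Fin 280) : iota0 g2 j = piF pi2P j := iota0_of (U2_act j)
lemma iota_g3 (j : Fin 280) : iota0 g3 j = piF pi3P j := iota0_of (U3_act j)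

end Cfsg.Agent.Lib.FiTU
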