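import Mathlib
import Cfsg.Agent.Lib.FiTU1

/-!
# `SU₄(3)` acting on the `280` isotropic points of the Hermitian variety.

`PSU 4 K9 3` embeds in the permutations of the `280` points, and a subgroup of `SU 4 K9 3` containing three
explicit elements and an explicit transvection is everything.
-/

set_option autoImplicit false
set_option maxRecDepth 100000
set_option linter.unusedSectionVars false

namespace Cfsg.Agent.Lib.FiTU

open Cfsg Matrix
open Cfsg.Agent.Lib.F9K Cfsg.Agent.Lib.FiTData Cfsg.Agent.Lib.UnitaryBasic Cfsg.Agent.Lib.UnitaryTv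
open Cfsg.Agent.Lib.UnitaryGen Cfsg.Agent.Lib.UnitarySimple Cfsg.Agent.Lib.UnitaryPerfect

/-! ### The tree -/

/-- The base point. -/
def j0F : Fin 280 := ⟨j0, by decide⟩

/-- The step. -/
def stepF (k : ℕ) (j : Fin 280) : Fin 280 :=
  if Nat.beq k 0 then piF pi1P j else if Nat.beq k 1 then piF pi2P j else piF pi3P j

/-- The parent. -/
def parF (j : Fin 280) : Fin 280 := ⟨Nat.mod (parL.getD j 0) 280, Nat.mod_lt _ (by decide)⟩

theorem tree_ok : ∀ j : Fin 280, j = j0F ∨ (depL.getD (parF j) 0 < depL.getD j 0 ∧ stepF (genL.getD j 0) (parF j) = j) := by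
  decide +kernel

/-- A subgroup containing the three elements is transitive. -/
theorem trans_of_mem {S : Subgroup G} (h1 : g1 ∈ S) (h2 : g2 ∈ S) (h3 : g3 ∈ S) (j : Fin 280) :
    ∃ w ∈ S, iota0 w j0F = j := by
  suffices H : ∀ n : ℕ, ∀ j : Fin 280, depL.getD j 0 = n → ∃ w ∈ S, iota0 w j0F = j from H _ j rfl
  intro n
  induction n using Nat.strong_induction_on with
  | _ n ih =>
    intro j hj
    rcases tree_ok j with h | ⟨hd, hs⟩
    · refine ⟨1, S.one_mem, ?_⟩
      rw [h, map_one]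
      rfl
    · obtain ⟨w, hw, e⟩ := ih _ (by omega) (parF j) rfl
      have key : ∃ g ∈ S, iota0 g (parF j) = j := by
        by_cases h0 : Nat.beq (genL.getD j 0) 0 = true
        · refine ⟨g1, h1, ?_⟩
          rw [iota_g1]
          simpa only [stepF, h0, if_true] using hs
        · by_cases h00 : Nat.beq (genL.getD j 0) 1 = true
          · refine ⟨g2, h2, ?_⟩
            rw [iota_g2]
            simpa only [stepF, h0, h00, if_true, if_false, reduceIte, Bool.false_eq_true] using hs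
          · refine ⟨g3, h3, ?_⟩
            rw [iota_g3]
            simpa only [stepF, h0, h00, if_false, reduceIte, Bool.false_eq_true] using hs
      obtain ⟨g, hg, eg⟩ := key
      refine ⟨g * w, S.mul_mem hg hw, ?_⟩
      rw [map_mul, Equiv.Perm.mul_apply, e, eg]

/-! ### Transvections -/

/-- The parameter of the transvections. -/
def c0 : K9 := c9 3

theorem c0_tr : c0 ^ 3 + c0 = 0 := by decide +kernel

theorem c0_ne : c0 ≠ 0 := by decide +kernel

theorem tr_mul : ∀ c κ : K9, c ^ 3 + c = 0 → (c * κ * κ ^ 3) ^ 3 + c * κ * κ ^ 3 = 0 := by decide +kernel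

theorem tr_cases : ∀ c : K9, c ^ 3 + c = 0 → c ≠ 0 → c = c0 ∨ c = -c0 := by decide +kernel

/-- The transvection as an element of `G`. -/
noncomputable def tvG (c : K9) (u : V) (hc : c ^ 3 + c = 0) (hu : herm u u = 0) : G :=
  (isoSU 4 K9 3).symm ⟨tv hF c u hc hu, detU_of_isTv (tv_isTv hF c u hc hu)⟩

lemma tvG_apply (c : K9) (u : V) (hc : c ^ 3 + c = 0) (hu : herm u u = 0) (x : V) :
    mat (tvG c u hc hu) *ᵥ x = x + (c * herm x u) • u := by
  have h := isoSU_apply (tvG c u hc hu) x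
  rw [tvG, MulEquiv.apply_symm_apply] at h
  exact h.symm

/-- The transvection at the base point. -/
noncomputable def T0 : G := tvG c0 (pt j0F) c0_tr (pt_iso j0F)

theorem T0_act : ∀ j : Fin 280, nf (pt j + (c0 * herm (pt j) (pt j0F)) • pt j0F) =
    pt (piF pi1P (piF pi1P (piF pi1P (piF pi1P j)))) := by decide +kernel

theorem T0_apply (x : V) : mat T0 *ᵥ x = x + (c0 * herm x (pt j0F)) • pt j0F := tvG_apply _ _ _ _ _

theorem iota_T0_apply (j : Fin 280) : iota0 T0 j = piF pi1P (piF pi1P (piF pi1P (piF pi1P j))) := by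
  apply iota0_of
  rw [T0_apply]
  exact T0_act j

theorem iota_g14 (j : Fin 280) : iota0 (g1 * g1 * g1 * g1) j = piF pi1P (piF pi1P (piF pi1P (piF pi1P j))) := by
  rw [map_mul, map_mul, map_mul, Equiv.Perm.mul_apply, Equiv.Perm.mul_apply, Equiv.Perm.mul_apply, iota_g1, iota_g1,
    iota_g1, iota_g1]

theorem iota_T0 : iota0 T0 = iota0 (g1 * g1 * g1 * g1) := by
  refine Equiv.ext fun j => ?_
  rw [iota_g14, iota_T0_apply]

theorem T0_moves : iota0 T0 ≠ 1 := by
  rw [iota_T0]
  intro h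
  have h2 : ∀ j : Fin 280, piF pi1P (piF pi1P (piF pi1P (piF pi1P j))) = j := by
    intro j
    have h3 := Equiv.congr_fun h j
    rw [iota_g14, Equiv.Perm.one_apply] at h3
    exact h3
  have h4 : ¬ ∀ j : Fin 280, piF pi1P (piF pi1P (piF pi1P (piF pi1P j))) = j := by decide +kernel
  exact h4 h2

/-- Transvections are in a subgroup containing the explicit one, if the subgroup is transitive. -/
theorem isTv_mem {S : Subgroup G} (hT : T0 ∈ S) (htrans : ∀ j : Fin 280, ∃ w ∈ S, iota0 w j0F = j) (s : G)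
    (hs : IsTv ((isoSU 4 K9 3 s : SUU 4 K9 3) : U 4 K9 3)) : s ∈ S := by
  classical
  obtain ⟨c, u, hc, hu, hx⟩ := hs
  have hx' : ∀ x : V, mat s *ᵥ x = x + (c * herm x u) • u := fun x => (isoSU_apply s x).symm.trans (hx x)
  by_cases hu0 : u = 0
  · have : s = 1 := G_ext fun x => by
      rw [hx', hu0, smul_zero, add_zero, mat_one, Matrix.one_mulVec]
    rw [this]
    exact S.one_mem
  by_cases hc0 : c = 0
  · have : s = 1 := G_ext fun x => by
      rw [hx', hc0, zero_mul, zero_smul, add_zero, mat_one, Matrix.one_mulVec]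
    rw [this]
    exact S.one_mem
  have hnu : nf u ≠ 0 := nf_ne_zero hu0
  -- the point of `u`
  let p : Pt := ⟨nf u, hnu, herm_nf_self hu, nf_nf hu0⟩
  obtain ⟨w, hw, ew⟩ := htrans (eE.symm p)
  set v : V := mat w *ᵥ pt j0F with hv
  have hv0 : v ≠ 0 := mat_mulVec_ne_zero w (pt_ne_zero _)
  have hvv : herm v v = 0 := by rw [hv, herm_mat]; exact pt_iso _
  have hnf : nf v = nf u := by
    have h1 := pt_iota0 w j0F
    rw [ew, ← eE_val, Equiv.apply_symm_apply] at h1
    exact h1.symm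
  have hlv := lead_ne_zero hv0
  have hlu := lead_ne_zero hu0
  set κ : K9 := lead u * (lead v)⁻¹ with hκ
  have hκ0 : κ ≠ 0 := mul_ne_zero hlu (inv_ne_zero hlv)
  have hu' : u = κ • v := by
    have h1 : (lead v)⁻¹ • v = (lead u)⁻¹ • u := hnf
    have h2 : u = lead u • ((lead u)⁻¹ • u) := by
      rw [smul_smul, mul_inv_cancel₀ hlu, one_smul]
    rw [h2, ← h1, smul_smul]
  set c' : K9 := c * κ * κ ^ 3 with hc'
  have hc'tr : c' ^ 3 + c' = 0 := tr_mul c κ hc
  have hc'0 : c' ≠ 0 := mul_ne_zero (mul_ne_zero hc0 hκ0) (pow_ne_zero _ hκ0)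
  have hs' : ∀ x : V, mat s *ᵥ x = x + (c' * herm x v) • v := by
    intro x
    rw [hx', hu', herm_smul_r, smul_smul, hc']
    congr 2
    ring
  -- the conjugate
  set t : G := w * T0 * w⁻¹ with ht
  have htS : t ∈ S := S.mul_mem (S.mul_mem hw hT) (S.inv_mem hw)
  have ht' : ∀ x : V, mat t *ᵥ x = x + (c0 * herm x v) • v := by
    intro x
    have e1 : mat t = mat w * (mat T0 * mat w⁻¹) := by
      rw [ht, mat_mul, mat_mul, mul_assoc]
    rw [e1, ← Matrix.mulVec_mulVec, ← Matrix.mulVec_mulVec, T0, tvG_apply, Matrix.mulVec_add, Matrix.mulVec_smul,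
      Matrix.mulVec_mulVec, mat_mul_inv, Matrix.one_mulVec, herm_inv_r, inv_inv]
  rcases tr_cases c' hc'tr hc'0 with h | h
  · have : s = t := G_ext fun x => by rw [hs', ht', h]
    rw [this]
    exact htS
  · have : s * t = 1 := G_ext fun x => by
      rw [mat_mul, ← Matrix.mulVec_mulVec, ht', hs', h]
      have e1 : herm (x + (c0 * herm x v) • v) v = herm x v := by
        have e2 : herm (x + (c0 * herm x v) • v) v = herm x v + herm ((c0 * herm x v) • v) v := herm_add_left _ _ _
        rw [e2, herm_smul_l, hvv, mul_zero, add_zero]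
      rw [e1, mat_one, Matrix.one_mulVec, add_assoc, ← add_smul]
      simp
    rw [eq_inv_of_mul_eq_one_left this]
    exact S.inv_mem htS

/-- A subgroup containing the explicit elements is everything. -/
theorem all_mem {S : Subgroup G} (h1 : g1 ∈ S) (h2 : g2 ∈ S) (h3 : g3 ∈ S) (hT : T0 ∈ S) (s : G) : s ∈ S := by
  have htrans := trans_of_mem h1 h2 h3
  let S' : Subgroup (U 4 K9 3) := (S.map (isoSU 4 K9 3).toMonoidHom).map (SUU 4 K9 3).subtype
  have hle : TvG 4 K9 3 ≤ S' := by
    refine (Subgroup.closure_le _).2 ?_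
    intro t ht
    have ht1 : t ∈ SUU 4 K9 3 := mem_SUU.2 (detU_of_isTv ht)
    refine ⟨(isoSU 4 K9 3) ((isoSU 4 K9 3).symm ⟨t, ht1⟩), ⟨_, ?_, rfl⟩, ?_⟩
    · apply isTv_mem hT htrans
      rw [MulEquiv.apply_symm_apply]
      exact ht
    · rw [MulEquiv.apply_symm_apply]
      rfl
  have hg := Cfsg.Agent.Lib.UnitaryIso.gen hF 4 (by norm_num) ((isoSU 4 K9 3 s : SUU 4 K9 3) : U 4 K9 3)
    (mem_SUU.1 (isoSU 4 K9 3 s).2)
  obtain ⟨y, ⟨s₂, hs₂, rfl⟩, e⟩ := hle hg
  have e2 : (isoSU 4 K9 3).toMonoidHom s₂ = isoSU 4 K9 3 s := Subtype.ext e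
  have e3 : s₂ = s := (isoSU 4 K9 3).injective e2
  rw [← e3]
  exact hs₂

/-! ### The center -/

theorem some_ne : ∀ j : Fin 280, herm ![1, 0, 0, 0] (pt j) ≠ 0 ∨ herm ![0, 1, 0, 0] (pt j) ≠ 0 ∨
    herm ![0, 0, 1, 0] (pt j) ≠ 0 ∨ herm ![0, 0, 0, 1] (pt j) ≠ 0 := by decide +kernel

theorem exists_ne_form (j : Fin 280) : ∃ x : V, herm x (pt j) ≠ 0 := by
  rcases some_ne j with h | h | h | h <;> exact ⟨_, h⟩

/-- The center acts trivially on the points. -/
theorem center_le : Subgroup.center G ≤ iota0.ker := by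
  intro z hz
  rw [MonoidHom.mem_ker]
  refine Equiv.ext fun j => ?_
  rw [Equiv.Perm.one_apply]
  apply iota0_of
  set u := pt j with hu
  have huu : herm u u = 0 := pt_iso j
  let T : G := tvG c0 u c0_tr huu
  have hcomm : z * T = T * z := (Subgroup.mem_center_iff.1 hz T).symm
  obtain ⟨x, hx⟩ := exists_ne_form j
  have h1 := congrArg (fun g : G => mat g *ᵥ x) hcomm
  simp only [mat_mul, ← Matrix.mulVec_mulVec] at h1
  rw [tvG_apply, tvG_apply, Matrix.mulVec_add, Matrix.mulVec_smul, add_right_inj] at h1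
  set a := c0 * herm x u with ha
  have ha0 : a ≠ 0 := mul_ne_zero c0_ne hx
  set b := c0 * herm (mat z *ᵥ x) u with hb
  have h2 : mat z *ᵥ u = (a⁻¹ * b) • u := by
    rw [mul_smul, ← h1, smul_smul, inv_mul_cancel₀ ha0, one_smul]
  have h3 : a⁻¹ * b ≠ 0 := by
    intro h
    rw [h, zero_smul] at h2
    exact mat_mulVec_ne_zero z (pt_ne_zero j) h2
  rw [h2, nf_smul h3, hu, nf_pt]

/-- The map from the projective group. -/
noncomputable def iota : PSU 4 K9 3 →* Equiv.Perm (Fin 280) :=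
  QuotientGroup.lift (Subgroup.center G) iota0 center_le

theorem iota_mk (s : G) : iota (QuotientGroup.mk s) = iota0 s := rfl

theorem iota_inj : Function.Injective iota := by
  haveI : IsSimpleGroup (PSU 4 K9 3) := isSimple_PSU hF (by norm_num) (by norm_num)
  rw [← MonoidHom.ker_eq_bot_iff]
  rcases IsSimpleGroup.eq_bot_or_eq_top_of_normal iota.ker inferInstance with h | h
  · exact h
  · exfalso
    apply T0_moves
    have h1 : (QuotientGroup.mk T0 : PSU 4 K9 3) ∈ iota.ker := by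
      rw [h]
      exact Subgroup.mem_top _
    exact h1

theorem card_PSU : Nat.card (PSU 4 K9 3) = 3265920 := by
  have h := Cfsg.Agent.Lib.UnitarySU.card_PSU hF 4 (by norm_num)
  have h2 : (∏ i ∈ Finset.range 4, (if Even i then 3 ^ (i + 1) + 1 else 3 ^ (i + 1) - 1)) = 71680 := by
    decide
  rw [h2] at h
  norm_num at h
  omega

end Cfsg.Agent.Lib.FiTU
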