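import Mathlib
import Cfsg.Agent.Lib.FiT3
import Cfsg.Agent.Lib.FiTU2
import Cfsg.Agent.Lib.FiveGp1

/-!
# The centralizer of `xF` acting on the classes: explicit elements, and a family of `280` sets of classes.
-/

set_option autoImplicit false
set_option maxRecDepth 100000

open Cfsg Cfsg.Agent.Lib.Leech Cfsg.Agent.Lib.Co0Mono Cfsg.Agent.Lib.Co0Frame
open Cfsg.Agent.Lib.FiTData Cfsg.Agent.Lib.CoVec Cfsg.Agent.Lib.MonsterSplit Cfsg.Agent.Lib.FiT1
open Cfsg.Agent.Lib.FiT2 Cfsg.Agent.Lib.FiT3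
open Cfsg.Agent.Lib.FiTU (piF piN)
open Cfsg.Agent.Lib.Five3 (eN dec_eN eN_st)
open Cfsg.Agent.Lib.Golay (idx pt idx_pt pt_idx idx_lt idxL mem_idxL ap decode isM24 decode_mem_M24 reduce X3A)
open Cfsg.Agent.S0398 (e8 e8_apply neg_center)

namespace Cfsg.Agent.Lib.FiT4

/-! ### Linear maps on the numbers -/

/-- The map with given values on the basis. -/
def lin (v : ℕ → ℕ) (a : ℕ) : ℕ → ℕ
  | 0 => 0
  | k + 1 => lin v a k ^^^ (if a.testBit k then v k else 0)

theorem lin_congr (v : ℕ → ℕ) {a b : ℕ} (k : ℕ) (h : ∀ i < k, a.testBit i = b.testBit i) : lin v a k = lin v b k := by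
  induction k with
  | zero => rfl
  | succ k ih =>
    simp only [lin]
    rw [ih fun i hi => h i (by omega), h k (by omega)]

theorem pow_lt_4096 {k : ℕ} (hk : k < 12) : 2 ^ k < 4096 :=
  calc 2 ^ k < 2 ^ 12 := Nat.pow_lt_pow_right (by norm_num) hk
    _ = 4096 := by norm_num

theorem A_lin {g : Co0} {v : ℕ → ℕ} (hv : ∀ i < 12, A g (2 ^ i) = v i) (k : ℕ) (hk : k ≤ 12) {a : ℕ} (ha : a < 2 ^ k) :
    A g a = lin v a k := by
  induction k generalizing a with
  | zero =>
    have : a = 0 := by simpa using ha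
    rw [this]
    exact A_zero g
  | succ k ih =>
    have hk' : k < 12 := by omega
    have h2k : 2 ^ k ≤ 2 ^ 12 := Nat.pow_le_pow_right (by norm_num) (by omega)
    have h2k1 : 2 ^ (k + 1) ≤ 2 ^ 12 := Nat.pow_le_pow_right (by norm_num) (by omega)
    set r := a % 2 ^ k with hr
    have hrlt : r < 2 ^ k := Nat.mod_lt _ (by positivity)
    have hr12 : r < 4096 := lt_of_lt_of_le hrlt (by simpa using h2k)
    have hlow : ∀ i < k, a.testBit i = r.testBit i := by
      intro i hi
      rw [hr, Nat.testBit_mod_two_pow]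
      simp [hi]
    set t := if a.testBit k then 2 ^ k else 0 with ht
    have ht12 : t < 4096 := by
      rw [ht]
      split_ifs
      · exact pow_lt_4096 hk'
      · norm_num
    have hdec : a = r ^^^ t := by
      apply Nat.eq_of_testBit_eq
      intro i
      rw [Nat.testBit_xor]
      rcases lt_trichotomy i k with hi | hi | hi
      · rw [hlow i hi, ht]
        split_ifs
        · rw [Nat.testBit_two_pow]
          simp [Nat.ne_of_gt hi]
        · simp
      · subst hi
        have h1 : r.testBit i = false := Nat.testBit_lt_two_pow hrlt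
        rw [h1, ht]
        by_cases h2 : a.testBit i = true
        · simp [h2]
        · simp [h2]
      · have h1 : a.testBit i = false := Nat.testBit_lt_two_pow (lt_of_lt_of_le ha (Nat.pow_le_pow_right (by norm_num) hi))
        have h3 : r.testBit i = false := Nat.testBit_lt_two_pow (lt_of_lt_of_le hrlt (Nat.pow_le_pow_right (by norm_num) hi.le))
        rw [h1, h3, ht]
        split_ifs
        · rw [Nat.testBit_two_pow]
          simp [Nat.ne_of_lt hi]
        · simp
    have e1 : A g a = A g r ^^^ A g t := by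
      rw [hdec]
      conv_lhs => rw [← hdec]
      rw [← A_xor hr12 ht12, ← hdec]
    have e2 : A g t = if a.testBit k then v k else 0 := by
      rw [ht]
      split_ifs
      · exact hv k hk'
      · exact A_zero g
    rw [e1, e2, ih (by omega) hrlt]
    simp only [lin]
    rw [lin_congr v k hlow]

/-! ### The action on the classes -/

/-- The action of the centralizer on the classes. -/
noncomputable def rhoW : CF →* Equiv.Perm (Fin 4096) := @MulAction.toPermHom CF (Fin 4096) _ actFin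

theorem rhoW_val (g : CF) (a : Fin 4096) : (rhoW g a : ℕ) = A (g : Co0) a := rfl

theorem rhoW_eq {g h : CF} (e : ∀ i < 12, A (g : Co0) (2 ^ i) = A (h : Co0) (2 ^ i)) : rhoW g = rhoW h := by
  refine Equiv.ext fun a => Fin.ext ?_
  rw [rhoW_val, rhoW_val, A_lin (v := fun i => A (g : Co0) (2 ^ i)) (fun i _ => rfl) 12 le_rfl a.2,
    A_lin (v := fun i => A (g : Co0) (2 ^ i)) (fun i hi => (e i hi).symm) 12 le_rfl a.2]

/-- The group acting on the classes. -/
noncomputable abbrev AA : Subgroup (Equiv.Perm (Fin 4096)) := rhoW.range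

/-- The map to the group. -/
noncomputable def rhoA : CF →* AA := rhoW.rangeRestrict

theorem rhoA_surj : Function.Surjective rhoA := MonoidHom.rangeRestrict_surjective _

theorem rhoA_val (g : CF) : ((rhoA g : AA) : Equiv.Perm (Fin 4096)) = rhoW g := rfl

theorem rhoA_eq_one {g : CF} : rhoA g = 1 ↔ rhoW g = 1 := by
  constructor
  · intro h
    exact congrArg Subtype.val h
  · intro h
    exact Subtype.ext h

theorem rhoW_trivial {g : CF} (h : ∀ a < 4096, A (g : Co0) a = a) : rhoW g = 1 := by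
  refine Equiv.ext fun a => Fin.ext ?_
  rw [rhoW_val, h a a.2]
  rfl

/-! ### Explicit elements -/

/-- The values on the basis. -/
def imv (P i : ℕ) : ℕ := Nat.land (Nat.shiftRight P (Nat.mul 12 i)) 4095

theorem imv_lt (P i : ℕ) : imv P i < 4096 :=
  Nat.lt_succ_of_le (Nat.and_le_right)

theorem g5_ok : (isM24 g5ca = true ∧ Nat.blt g5ma (2 ^ 24) = true ∧ reduce g5ma = 0) ∧
    (isM24 g5cb = true ∧ Nat.blt g5mb (2 ^ 24) = true ∧ reduce g5mb = 0) := by decide +kernel

theorem y_ok : (isM24 yca = true ∧ Nat.blt yma (2 ^ 24) = true ∧ reduce yma = 0) ∧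
    (isM24 ycb = true ∧ Nat.blt ymb (2 ^ 24) = true ∧ reduce ymb = 0) := by decide +kernel

theorem m_ok : (isM24 m1c = true ∧ Nat.blt m1m (2 ^ 24) = true ∧ reduce m1m = 0) ∧
    (isM24 m2c = true ∧ Nat.blt m2m (2 ^ 24) = true ∧ reduce m2m = 0) ∧
    (isM24 g0c = true ∧ Nat.blt g0m (2 ^ 24) = true ∧ reduce g0m = 0) := by decide +kernel

theorem lt_of_blt {a b : ℕ} (h : Nat.blt a b = true) : a < b := by simpa [Nat.blt_eq] using h

/-- An element with one `xi`. -/
noncomputable def g5F : Co0 :=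
  monoCo0 (ofMask_mem_codeSets (lt_of_blt g5_ok.1.2.1) g5_ok.1.2.2) (decode_mem_M24 g5_ok.1.1) * xiCo0 *
    monoCo0 (ofMask_mem_codeSets (lt_of_blt g5_ok.2.2.1) g5_ok.2.2.2) (decode_mem_M24 g5_ok.2.1)

/-- The action on codes. -/
def f5 (n : ℕ) : ℕ := actMono g5ca g5ma (actXi (actMono g5cb g5mb n))

theorem g5_acts : ActsOn g5F f5 :=
  ((actMono_spec g5_ok.1.1 (lt_of_blt g5_ok.1.2.1) g5_ok.1.2.2).mul actXi_acts).mul
    (actMono_spec g5_ok.2.1 (lt_of_blt g5_ok.2.2.1) g5_ok.2.2.2)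

theorem g5_mem : g5F ∈ CF := comm_of g5_acts (by decide +kernel)

/-- An element acting as a scalar. -/
noncomputable def yF : Co0 :=
  monoCo0 (ofMask_mem_codeSets (lt_of_blt y_ok.1.2.1) y_ok.1.2.2) (decode_mem_M24 y_ok.1.1) * xiCo0 *
    monoCo0 (ofMask_mem_codeSets (lt_of_blt y_ok.2.2.1) y_ok.2.2.2) (decode_mem_M24 y_ok.2.1)

/-- The action on codes. -/
def fy (n : ℕ) : ℕ := actMono yca yma (actXi (actMono ycb ymb n))

theorem y_acts : ActsOn yF fy :=
  ((actMono_spec y_ok.1.1 (lt_of_blt y_ok.1.2.1) y_ok.1.2.2).mul actXi_acts).mul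
    (actMono_spec y_ok.2.1 (lt_of_blt y_ok.2.2.1) y_ok.2.2.2)

theorem y_mem : yF ∈ CF := comm_of y_acts (by decide +kernel)

/-- A monomial element. -/
noncomputable def m1F : Co0 := monoCo0 (ofMask_mem_codeSets (lt_of_blt m_ok.1.2.1) m_ok.1.2.2) (decode_mem_M24 m_ok.1.1)

/-- A monomial element. -/
noncomputable def m2F : Co0 :=
  monoCo0 (ofMask_mem_codeSets (lt_of_blt m_ok.2.1.2.1) m_ok.2.1.2.2) (decode_mem_M24 m_ok.2.1.1)

/-- A monomial element. -/
noncomputable def g0F : Co0 :=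
  monoCo0 (ofMask_mem_codeSets (lt_of_blt m_ok.2.2.2.1) m_ok.2.2.2.2) (decode_mem_M24 m_ok.2.2.1)

theorem m1_acts : ActsOn m1F (actMono m1c m1m) := actMono_spec m_ok.1.1 (lt_of_blt m_ok.1.2.1) m_ok.1.2.2
theorem m2_acts : ActsOn m2F (actMono m2c m2m) := actMono_spec m_ok.2.1.1 (lt_of_blt m_ok.2.1.2.1) m_ok.2.1.2.2
theorem g0_acts : ActsOn g0F (actMono g0c g0m) := actMono_spec m_ok.2.2.1 (lt_of_blt m_ok.2.2.2.1) m_ok.2.2.2.2

theorem m1_mem : m1F ∈ CF := comm_of m1_acts (by decide +kernel)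
theorem m2_mem : m2F ∈ CF := comm_of m2_acts (by decide +kernel)
theorem g0_mem : g0F ∈ CF := comm_of g0_acts (by decide +kernel)

theorem g5_img : ∀ i < 12, ccN (f5 (tab (2 ^ i))) = imv img5 i := by decide +kernel
theorem y_img : ∀ i < 12, ccN (fy (tab (2 ^ i))) = imv imy i := by decide +kernel
theorem m1_img : ∀ i < 12, ccN (actMono m1c m1m (tab (2 ^ i))) = imv imm1 i := by decide +kernel
theorem m2_img : ∀ i < 12, ccN (actMono m2c m2m (tab (2 ^ i))) = imv imm2 i := by decide +kernel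
theorem g0_img : ∀ i < 12, ccN (actMono g0c g0m (tab (2 ^ i))) = imv img0 i := by decide +kernel

theorem A_g5 {a : ℕ} (ha : a < 4096) : A g5F a = lin (imv img5) a 12 :=
  A_lin (fun i hi => by rw [A_of g5_acts]; exact g5_img i hi) 12 le_rfl ha
theorem A_y {a : ℕ} (ha : a < 4096) : A yF a = lin (imv imy) a 12 :=
  A_lin (fun i hi => by rw [A_of y_acts]; exact y_img i hi) 12 le_rfl ha
theorem A_m1 {a : ℕ} (ha : a < 4096) : A m1F a = lin (imv imm1) a 12 :=
  A_lin (fun i hi => by rw [A_of m1_acts]; exact m1_img i hi) 12 le_rfl ha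
theorem A_m2 {a : ℕ} (ha : a < 4096) : A m2F a = lin (imv imm2) a 12 :=
  A_lin (fun i hi => by rw [A_of m2_acts]; exact m2_img i hi) 12 le_rfl ha
theorem A_g0 {a : ℕ} (ha : a < 4096) : A g0F a = lin (imv img0) a 12 :=
  A_lin (fun i hi => by rw [A_of g0_acts]; exact g0_img i hi) 12 le_rfl ha

theorem A_y_basis {i : ℕ} (hi : i < 12) : A yF (2 ^ i) = imv imy i := by
  rw [A_of y_acts]
  exact y_img i hi
theorem A_g5_basis {i : ℕ} (hi : i < 12) : A g5F (2 ^ i) = imv img5 i := by
  rw [A_of g5_acts]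
  exact g5_img i hi
theorem A_m1_basis {i : ℕ} (hi : i < 12) : A m1F (2 ^ i) = imv imm1 i := by
  rw [A_of m1_acts]
  exact m1_img i hi
theorem A_m2_basis {i : ℕ} (hi : i < 12) : A m2F (2 ^ i) = imv imm2 i := by
  rw [A_of m2_acts]
  exact m2_img i hi
theorem A_g0_basis {i : ℕ} (hi : i < 12) : A g0F (2 ^ i) = imv img0 i := by
  rw [A_of g0_acts]
  exact g0_img i hi

/-- The elements in the centralizer. -/
noncomputable def g5C : CF := ⟨g5F, g5_mem⟩
/-- The elements in the centralizer. -/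
noncomputable def yC : CF := ⟨yF, y_mem⟩
/-- The elements in the centralizer. -/
noncomputable def m1C : CF := ⟨m1F, m1_mem⟩
/-- The elements in the centralizer. -/
noncomputable def m2C : CF := ⟨m2F, m2_mem⟩
/-- The elements in the centralizer. -/
noncomputable def g0C : CF := ⟨g0F, g0_mem⟩

/-! ### Relations -/

theorem y_comm5 : ∀ i < 12, lin (imv img5) (imv imy i) 12 = lin (imv imy) (imv img5 i) 12 := by decide +kernel
theorem y_comm1 : ∀ i < 12, lin (imv imm1) (imv imy i) 12 = lin (imv imy) (imv imm1 i) 12 := by decide +kernel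
theorem y_comm2 : ∀ i < 12, lin (imv imm2) (imv imy i) 12 = lin (imv imy) (imv imm2 i) 12 := by decide +kernel
theorem y_inv0 : ∀ i < 12, lin (imv img0) (imv imy i) 12 = lin (imv imy) (lin (imv imy) (imv img0 i) 12) 12 := by
  decide +kernel
theorem y_cube : ∀ i < 12, lin (imv imy) (lin (imv imy) (imv imy i) 12) 12 = 2 ^ i := by decide +kernel
theorem y_ne : imv imy 0 ≠ 1 := by decide +kernel

theorem comm5 : rhoW (g5C * yC) = rhoW (yC * g5C) := rhoW_eq fun i hi => by
  show A (g5F * yF) _ = A (yF * g5F) _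
  rw [A_mul y_mem (pow_lt_4096 hi), A_mul g5_mem (pow_lt_4096 hi), A_y_basis hi, A_g5_basis hi, A_g5 (imv_lt _ _),
    A_y (imv_lt _ _), y_comm5 i hi]
theorem comm1 : rhoW (m1C * yC) = rhoW (yC * m1C) := rhoW_eq fun i hi => by
  show A (m1F * yF) _ = A (yF * m1F) _
  rw [A_mul y_mem (pow_lt_4096 hi), A_mul m1_mem (pow_lt_4096 hi), A_y_basis hi, A_m1_basis hi, A_m1 (imv_lt _ _),
    A_y (imv_lt _ _), y_comm1 i hi]
theorem comm2 : rhoW (m2C * yC) = rhoW (yC * m2C) := rhoW_eq fun i hi => by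
  show A (m2F * yF) _ = A (yF * m2F) _
  rw [A_mul y_mem (pow_lt_4096 hi), A_mul m2_mem (pow_lt_4096 hi), A_y_basis hi, A_m2_basis hi, A_m2 (imv_lt _ _),
    A_y (imv_lt _ _), y_comm2 i hi]

theorem inv0 : rhoW (g0C * yC) = rhoW (yC * yC * g0C) := rhoW_eq fun i hi => by
  show A (g0F * yF) _ = A (yF * yF * g0F) _
  have hyy : yF * yF ∈ CF := CF.mul_mem y_mem y_mem
  rw [A_mul y_mem (pow_lt_4096 hi), A_mul g0_mem (pow_lt_4096 hi), A_mul y_mem (A_lt _ _), A_y (A_lt _ _), A_y_basis hi,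
    A_g0_basis hi, A_g0 (imv_lt _ _), A_y (imv_lt _ _), y_inv0 i hi]

theorem cube_y : rhoW (yC * yC * yC) = 1 := by
  rw [← map_one rhoW]
  refine rhoW_eq fun i hi => ?_
  show A (yF * yF * yF) _ = A 1 _
  rw [A_one (pow_lt_4096 hi), A_mul y_mem (pow_lt_4096 hi), A_mul y_mem (A_lt _ _), A_y (A_lt _ _), A_y_basis hi,
    A_y (imv_lt _ _), y_cube i hi]

theorem rhoW_y_ne : rhoW yC ≠ 1 := by
  intro h
  have h1 := congrArg (fun s : Equiv.Perm (Fin 4096) => ((s ⟨1, by norm_num⟩ : Fin 4096) : ℕ)) h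
  have h2 : A yF 1 = 1 := h1
  have h3 := A_y_basis (i := 0) (by norm_num)
  rw [pow_zero, h2] at h3
  exact y_ne h3.symm

/-- The scalar. -/
noncomputable def om : AA := rhoA yC

theorem om_cube : om * om * om = 1 := by
  apply Subtype.ext
  show rhoW yC * rhoW yC * rhoW yC = 1
  rw [← map_mul, ← map_mul]
  exact cube_y

theorem om_ne : om ≠ 1 := fun h => rhoW_y_ne (congrArg Subtype.val h)

theorem om_pow : om ^ 3 = 1 := by
  rw [pow_succ, pow_two]
  exact om_cube

theorem orderOf_om : orderOf om = 3 :=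
  haveI : Fact (Nat.Prime 3) := ⟨by norm_num⟩
  orderOf_eq_prime om_pow om_ne

/-- The monomial element inverting the scalar. -/
noncomputable def gO : AA := rhoA g0C

theorem gO_inv : gO * om * gO⁻¹ = om⁻¹ := by
  have h1 : gO * om = om * om * gO := by
    apply Subtype.ext
    show rhoW g0C * rhoW yC = rhoW yC * rhoW yC * rhoW g0C
    rw [← map_mul, inv0, map_mul, map_mul]
  rw [h1]
  have h2 : om * om * om = 1 := om_cube
  have h3 : om⁻¹ = om * om := inv_eq_of_mul_eq_one_right (by rw [← mul_assoc]; exact h2)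
  rw [h3]
  group

end Cfsg.Agent.Lib.FiT4
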