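import Mathlib
import Cfsg.Agent.Lib.FiT4

/-!
# A family of `280` sets of classes preserved by the centralizer of the scalar.
-/

set_option autoImplicit false
set_option maxRecDepth 100000

open Cfsg Cfsg.Agent.Lib.Leech Cfsg.Agent.Lib.Co0Mono Cfsg.Agent.Lib.Co0Frame
open Cfsg.Agent.Lib.FiTData Cfsg.Agent.Lib.CoVec Cfsg.Agent.Lib.MonsterSplit Cfsg.Agent.Lib.FiT1
open Cfsg.Agent.Lib.FiT2 Cfsg.Agent.Lib.FiT3 Cfsg.Agent.Lib.FiT4
open Cfsg.Agent.Lib.FiTU (piF piN)

namespace Cfsg.Agent.Lib.FiT5

/-- An element of the family. -/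
def spN (j k : ℕ) : ℕ := Nat.land (Nat.shiftRight spP (Nat.mul 12 (Nat.add (Nat.mul 54 j) k))) 4095

/-- The members of a set of the family. -/
def spE (j : ℕ) : List ℕ := (List.range 54).map (spN j)

theorem spN_lt (j k : ℕ) : spN j k < 4096 := Nat.lt_succ_of_le Nat.and_le_right

theorem spE_lt {j n : ℕ} (h : n ∈ spE j) : n < 4096 := by
  obtain ⟨k, _, rfl⟩ := List.mem_map.1 h
  exact spN_lt _ _

theorem spE_nodup : ∀ j : Fin 280, (spE j).Nodup := by decide +kernel

/-- A set of the family. -/
def Sp (j : Fin 280) : Finset (Fin 4096) := Finset.univ.filter fun b => b.val ∈ spE j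

theorem mem_Sp {j : Fin 280} {b : Fin 4096} : b ∈ Sp j ↔ b.val ∈ spE j := by
  simp [Sp]

attribute [local irreducible] Sp

theorem image_Sp (j : Fin 280) : (Sp j).image Fin.val = (spE j).toFinset := by
  ext n
  simp only [Finset.mem_image, List.mem_toFinset, mem_Sp]
  constructor
  · rintro ⟨b, hb, rfl⟩
    exact hb
  · intro h
    exact ⟨⟨n, spE_lt h⟩, h, rfl⟩

theorem card_Sp (j : Fin 280) : (Sp j).card = 54 := by
  have h1 : ((Sp j).image Fin.val).card = (Sp j).card := Finset.card_image_of_injective _ Fin.val_injective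
  rw [← h1, image_Sp, List.toFinset_card_of_nodup (spE_nodup j)]
  simp [spE]

/-- A sum determining the set. -/
def key (j : ℕ) : ℕ := ((spE j).map fun n => n ^ 3).sum

theorem key_nodup : ((List.range 280).map key).Nodup := by decide +kernel

theorem key_eq (j : Fin 280) : ∑ b ∈ Sp j, (b.val : ℕ) ^ 3 = key j := by
  have h1 : ∑ n ∈ (Sp j).image Fin.val, n ^ 3 = ∑ b ∈ Sp j, (b.val : ℕ) ^ 3 :=
    Finset.sum_image (fun a _ b _ h => Fin.val_injective h)
  rw [← h1, image_Sp]
  exact List.sum_toFinset _ (spE_nodup j)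

theorem Sp_inj {j k : Fin 280} (h : Sp j = Sp k) : j = k := by
  have h1 : key j = key k := by
    rw [← key_eq, ← key_eq, h]
  have h2 := (List.inj_on_of_nodup_map key_nodup) (List.mem_range.2 j.2) (List.mem_range.2 k.2) h1
  exact Fin.ext h2

/-- A permutation mapping the members of one set into another. -/
theorem image_of {a : Equiv.Perm (Fin 4096)} {j j' : Fin 280} (h : ∀ b ∈ Sp j, a b ∈ Sp j') :
    (Sp j).image a = Sp j' := by
  apply Finset.eq_of_subset_of_card_le
  · intro b hb
    obtain ⟨c, hc, rfl⟩ := Finset.mem_image.1 hb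
    exact h c hc
  · rw [Finset.card_image_of_injective _ a.injective, card_Sp, card_Sp]

/-- The mask of a list. -/
def mask : List ℕ → ℕ
  | [] => 0
  | n :: L => Nat.lor (mask L) (Nat.shiftLeft 1 n)

/-- A bit of a number. -/
def tb (M n : ℕ) : Bool := Nat.beq (Nat.land (Nat.shiftRight M n) 1) 1

theorem tb_iff {M n : ℕ} : tb M n = true ↔ M.testBit n = true := by
  unfold tb
  rw [Nat.beq_eq, Nat.testBit]
  show (M >>> n) &&& 1 = 1 ↔ _
  have h1 : 1 &&& (M >>> n) = (M >>> n) &&& 1 := Nat.and_comm _ _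
  rw [h1]
  have h2 : (M >>> n) &&& 1 = (M >>> n) % 2 := Nat.and_one_is_mod _
  rw [h2]
  rcases Nat.mod_two_eq_zero_or_one (M >>> n) with h | h <;> simp [h]

theorem mem_of_mask {L : List ℕ} {m : ℕ} (h : tb (mask L) m = true) : m ∈ L := by
  rw [tb_iff] at h
  induction L with
  | nil => simp [mask] at h
  | cons n L ih =>
    simp only [mask] at h
    have h1 : (Nat.lor (mask L) (Nat.shiftLeft 1 n)).testBit m = ((mask L) ||| (1 <<< n)).testBit m := rfl
    rw [h1, Nat.testBit_or, Bool.or_eq_true] at h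
    rcases h with h | h
    · exact List.mem_cons_of_mem _ (ih h)
    · rw [Nat.one_shiftLeft, Nat.testBit_two_pow] at h
      have : n = m := by simpa using h
      rw [← this]
      exact List.mem_cons_self

/-- The check that a map given by the images of a basis maps a set to another. -/
def chkM (v : ℕ → ℕ) (M : ℕ) (j : Fin 280) : Bool := (spE j).all fun n => tb M (lin v n 12)

/-- The check that a map given by the images of a basis permutes the family. -/
def chk (v : ℕ → ℕ) (P : ℕ) (j : Fin 280) : Bool := chkM v (mask (spE (piF P j))) j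

theorem chk5 : ∀ j : Fin 280, chk (imv img5) pi1P j = true := by decide +kernel
theorem chk1 : ∀ j : Fin 280, chk (imv imm1) pi2P j = true := by decide +kernel
theorem chk2 : ∀ j : Fin 280, chk (imv imm2) pi3P j = true := by decide +kernel
theorem chkY : ∀ j : Fin 280, chkM (imv imy) (mask (spE j)) j = true := by decide +kernel

theorem chk_mem {v : ℕ → ℕ} {M : ℕ} {j : Fin 280} (h : chkM v M j = true) (n : ℕ) (hn : n ∈ spE j) : tb M (lin v n 12) = true :=
  List.all_eq_true.1 h n hn

end Cfsg.Agent.Lib.FiT5
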