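import Mathlib
import Cfsg.Agent.Lib.FiT5

/-!
# The centralizer of `xF` modulo `⟨xF, -1⟩` has a subgroup of index two, the central extension of `PSU(4, 3)` by the
scalars.
-/

set_option autoImplicit false
set_option maxRecDepth 100000

open Cfsg Cfsg.Agent.Lib.Leech Cfsg.Agent.Lib.Co0Mono Cfsg.Agent.Lib.Co0Frame
open Cfsg.Agent.Lib.FiTData Cfsg.Agent.Lib.CoVec Cfsg.Agent.Lib.MonsterSplit Cfsg.Agent.Lib.FiT1
open Cfsg.Agent.Lib.FiT2 Cfsg.Agent.Lib.FiT3 Cfsg.Agent.Lib.FiT4 Cfsg.Agent.Lib.FiT5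
open Cfsg.Agent.Lib.FiTU (piF piN iota0 g1 g2 g3 T0 iota_g1 iota_g2 iota_g3 iota_T0 all_mem iota iota_mk iota_inj card_PSU)
open Cfsg.Agent.Lib.Golay (idx pt idx_pt pt_idx idx_lt idxL mem_idxL ap X3A)
open Cfsg.Agent.S0398 (e8 e8_apply neg_center)
open Cfsg.Agent.Lib.F9K (K9)

namespace Cfsg.Agent.Lib.FiT6

attribute [local irreducible] Sp

/-! ### The kernel on the classes -/

theorem xF_pow : xF ^ 3 = 1 := by
  apply monoCo0_ext
  intro v
  show (((xF ^ 3 : Co0) : Equiv.Perm leechLattice) v : GolayPt → ℤ) = v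
  have h : xF ^ 3 = xF * (xF * (xF * 1)) := by
    simp only [pow_succ, pow_zero, mul_assoc, one_mul, mul_one]
  rw [h]
  exact congrArg Subtype.val (xF_three v)

/-- `xF` in its centralizer. -/
noncomputable def xC : CF := ⟨xF, mem_CF.2 rfl⟩

/-- Negation in the centralizer. -/
noncomputable def negC : CF := ⟨negCo0, mem_CF.2 (Subgroup.mem_center_iff.1 neg_center xF).symm⟩

theorem A_xF {a : ℕ} (ha : a < 4096) : A xF a = a := by
  show cc ((xF : Equiv.Perm leechLattice) (M a) : leechLattice) = a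
  rw [xF_M ha, cc_M ha]

theorem cc_neg (v : leechLattice) : cc ((-v : leechLattice) : GolayPt → ℤ) = cc (v : GolayPt → ℤ) := by
  have h : -v = v + (-v + -v) := by abel
  rw [h, cc_congr]

theorem A_neg {a : ℕ} (ha : a < 4096) : A negCo0 a = a := by
  show cc ((negCo0 : Equiv.Perm leechLattice) (M a) : leechLattice) = a
  rw [negCo0_apply, cc_neg, cc_M ha]

theorem xC_pow : xC ^ 3 = 1 := Subtype.ext xF_pow

theorem xF_ne : xF ≠ 1 := by
  intro h
  have h2 := congrFun (congrArg Subtype.val (congrArg (fun g : Co0 => (g : Equiv.Perm leechLattice) (e8 (pt 5))) h)) (pt 5)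
  have h3 : (((xF : Equiv.Perm leechLattice) (e8 (pt 5)) : leechLattice) : GolayPt → ℤ) (pt 5) = 0 := by
    rw [xF_apply, e8_apply, if_neg]
    rw [sF_pt (by norm_num)]
    intro e
    have h5 : ap X3A 5 = 14 := by decide +kernel
    rw [h5] at e
    have := Cfsg.Agent.Lib.Golay.pt_injOn (by norm_num) (by norm_num) e
    omega
  have h4 : (((1 : Co0) : Equiv.Perm leechLattice) (e8 (pt 5)) : GolayPt → ℤ) (pt 5) = 8 := by
    show (e8 (pt 5) : GolayPt → ℤ) (pt 5) = 8
    rw [e8_apply, if_pos rfl]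
  have h5 : (((xF : Equiv.Perm leechLattice) (e8 (pt 5)) : leechLattice) : GolayPt → ℤ) (pt 5) =
      (((1 : Co0) : Equiv.Perm leechLattice) (e8 (pt 5)) : GolayPt → ℤ) (pt 5) := h2
  rw [h3, h4] at h5
  omega

theorem orderOf_xC : orderOf xC = 3 :=
  haveI : Fact (Nat.Prime 3) := ⟨by norm_num⟩
  orderOf_eq_prime xC_pow (fun h => xF_ne (congrArg (fun g : CF => (g : Co0)) h))

/-- The elements of the kernel. -/
noncomputable def kerMap : Fin 3 × Bool → rhoW.ker := fun p =>
  ⟨xC ^ (p.1 : ℕ) * (if p.2 then negC else 1), by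
    rw [MonoidHom.mem_ker, map_mul, map_pow, rhoW_trivial (g := xC) (fun _ ha => A_xF ha), one_pow, one_mul]
    split_ifs
    · exact rhoW_trivial (g := negC) (fun _ ha => A_neg ha)
    · exact map_one _⟩

theorem nt_one : nt 1 ≠ 0 := by decide +kernel

theorem kerMap_inj : Function.Injective kerMap := by
  have hB : (xF : Equiv.Perm leechLattice) (M 1) = M 1 := xF_M (by norm_num)
  have hfix : ∀ k : ℕ, ((xC ^ k : CF) : Co0).1 (M 1) = M 1 := by
    intro k
    induction k with
    | zero => rfl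
    | succ k ih =>
      rw [pow_succ]
      show ((xC ^ k : CF) : Co0).1 ((xF : Equiv.Perm leechLattice) (M 1)) = _
      rw [hB, ih]
  have hne : (M 1 : leechLattice) ≠ -M 1 := by
    intro h
    have h2 : sqNorm (M 1 : GolayPt → ℤ) = (nt 1 : ℤ) := sqNorm_M 1
    have h3 : (M 1 : leechLattice) + M 1 = 0 := by
      nth_rw 2 [h]
      simp
    have h4 : ((M 1 : leechLattice) : GolayPt → ℤ) = 0 := by
      funext p
      have h5 := congrFun (congrArg Subtype.val h3) p
      have h6 : ((M 1 : leechLattice) : GolayPt → ℤ) p + ((M 1 : leechLattice) : GolayPt → ℤ) p = 0 := h5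
      show ((M 1 : leechLattice) : GolayPt → ℤ) p = 0
      omega
    rw [h4] at h2
    have h7 : (nt 1 : ℤ) = 0 := by
      rw [← h2]
      simp [sqNorm]
    exact nt_one (by exact_mod_cast h7)
  rintro ⟨i, β⟩ ⟨j, γ⟩ h
  have h1 : xC ^ (i : ℕ) * (if β then negC else 1) = xC ^ (j : ℕ) * (if γ then negC else 1) := congrArg Subtype.val h
  have hval : ∀ (k : ℕ) (b : Bool), ((xC ^ k * (if b then negC else 1) : CF) : Co0).1 (M 1) =
      if b then -M 1 else M 1 := by
    intro k b
    cases b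
    · simp only [Bool.false_eq_true, if_false, mul_one]
      exact hfix k
    · simp only [if_true]
      show ((xC ^ k : CF) : Co0).1 (-(M 1)) = _
      rw [co0_neg, hfix]
  have h2 := congrArg (fun g : CF => (g : Co0).1 (M 1)) h1
  simp only [hval] at h2
  have hβ : β = γ := by
    cases β <;> cases γ
    · rfl
    · simp only [Bool.false_eq_true, if_false, if_true] at h2
      exact absurd h2 hne
    · simp only [Bool.false_eq_true, if_false, if_true] at h2
      exact absurd h2.symm hne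
    · rfl
  subst hβ
  have h3 := mul_right_cancel h1
  have h4 : (i : ℕ) = j := by
    have hlt : ∀ k : Fin 3, (k : ℕ) ∈ Set.Iio (orderOf xC) := by
      intro k
      rw [orderOf_xC]
      exact k.2
    exact pow_injOn_Iio_orderOf (hlt i) (hlt j) h3
  rw [Fin.ext h4]

/-! ### The stabilizer of the family -/

/-- The permutation preserves the family. -/
def Pres (a : Equiv.Perm (Fin 4096)) : Prop := ∀ j : Fin 280, ∃ j' : Fin 280, (Sp j).image a = Sp j'

theorem Pres_inv {a : Equiv.Perm (Fin 4096)} (h : Pres a) : Pres a⁻¹ := by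
  classical
  choose f hf using h
  have hinj : Function.Injective f := by
    intro j k e
    apply Sp_inj
    have h1 : (Sp j).image a = (Sp k).image a := by rw [hf, hf, e]
    exact Finset.image_injective a.injective h1
  have hs : Function.Surjective f := Finite.surjective_of_injective hinj
  intro j
  obtain ⟨k, rfl⟩ := hs j
  refine ⟨k, ?_⟩
  rw [← hf, Finset.image_image]
  have : (⇑a⁻¹ ∘ ⇑a) = id := by
    funext x
    simp
  rw [this, Finset.image_id]

/-- The stabilizer of the scalar and of the family. -/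
def MA : Subgroup AA where
  carrier := {a | a * om = om * a ∧ Pres (a : Equiv.Perm (Fin 4096))}
  mul_mem' := by
    rintro a b ⟨h1, h2⟩ ⟨h3, h4⟩
    refine ⟨?_, ?_⟩
    · rw [mul_assoc, h3, ← mul_assoc, h1, mul_assoc]
    · intro j
      obtain ⟨k, hk⟩ := h4 j
      obtain ⟨l, hl⟩ := h2 k
      refine ⟨l, ?_⟩
      rw [← hl, ← hk, Finset.image_image]
      rfl
  one_mem' := by
    refine ⟨by simp, fun j => ⟨j, ?_⟩⟩
    show (Sp j).image (⇑(1 : Equiv.Perm (Fin 4096))) = Sp j
    have : ⇑(1 : Equiv.Perm (Fin 4096)) = id := rfl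
    rw [this, Finset.image_id]
  inv_mem' := by
    rintro a ⟨h1, h2⟩
    refine ⟨?_, Pres_inv h2⟩
    exact (show Commute a om from h1).inv_left.eq

theorem mem_MA {a : AA} : a ∈ MA ↔ a * om = om * a ∧ Pres (a : Equiv.Perm (Fin 4096)) := Iff.rfl

/-- The action on the family. -/
noncomputable def fB (a : MA) (j : Fin 280) : Fin 280 := Classical.choose (a.2.2 j)

theorem fB_spec (a : MA) (j : Fin 280) : (Sp j).image ((a : AA) : Equiv.Perm (Fin 4096)) = Sp (fB a j) :=
  Classical.choose_spec (a.2.2 j)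

theorem fB_of {a : MA} {j j' : Fin 280} (h : (Sp j).image ((a : AA) : Equiv.Perm (Fin 4096)) = Sp j') : fB a j = j' :=
  Sp_inj (by rw [← fB_spec, h])

theorem fB_mul (a b : MA) (j : Fin 280) : fB (a * b) j = fB a (fB b j) := by
  apply fB_of
  rw [← fB_spec a, ← fB_spec b, Finset.image_image]
  rfl

theorem fB_one (j : Fin 280) : fB 1 j = j := by
  apply fB_of
  show (Sp j).image (⇑(1 : Equiv.Perm (Fin 4096))) = Sp j
  have : ⇑(1 : Equiv.Perm (Fin 4096)) = id := rfl
  rw [this, Finset.image_id]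

/-- The map to the permutations of the family. -/
noncomputable def rhoB : MA →* Equiv.Perm (Fin 280) where
  toFun a := ⟨fB a, fB a⁻¹, fun j => by rw [← fB_mul, inv_mul_cancel, fB_one],
    fun j => by rw [← fB_mul, mul_inv_cancel, fB_one]⟩
  map_one' := Equiv.ext fB_one
  map_mul' a b := Equiv.ext (fB_mul a b)

theorem rhoB_apply (a : MA) (j : Fin 280) : rhoB a j = fB a j := rfl

theorem image_chk {a : Equiv.Perm (Fin 4096)} {v : ℕ → ℕ} {j j' : Fin 280} (hv : ∀ b : Fin 4096, (a b : ℕ) = lin v b 12)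
    (hc : chkM v (mask (spE j')) j = true) : (Sp j).image a = Sp j' :=
  image_of fun b hb => by
    rw [mem_Sp, hv]
    exact mem_of_mask (chk_mem hc _ (mem_Sp.1 hb))

theorem rhoW_g5 (b : Fin 4096) : (rhoW g5C b : ℕ) = lin (imv img5) b 12 := A_g5 b.2
theorem rhoW_m1 (b : Fin 4096) : (rhoW m1C b : ℕ) = lin (imv imm1) b 12 := A_m1 b.2
theorem rhoW_m2 (b : Fin 4096) : (rhoW m2C b : ℕ) = lin (imv imm2) b 12 := A_m2 b.2
theorem rhoW_y (b : Fin 4096) : (rhoW yC b : ℕ) = lin (imv imy) b 12 := A_y b.2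

theorem comm_A {g : CF} (h : rhoW (g * yC) = rhoW (yC * g)) : rhoA g * om = om * rhoA g := by
  rw [map_mul, map_mul] at h
  exact Subtype.ext h

/-- Generators of the stabilizer. -/
noncomputable def a5 : MA := ⟨rhoA g5C, comm_A comm5, fun j => ⟨_, image_chk rhoW_g5 (chk5 j)⟩⟩
/-- Generators of the stabilizer. -/
noncomputable def a1 : MA := ⟨rhoA m1C, comm_A comm1, fun j => ⟨_, image_chk rhoW_m1 (chk1 j)⟩⟩
/-- Generators of the stabilizer. -/
noncomputable def a2 : MA := ⟨rhoA m2C, comm_A comm2, fun j => ⟨_, image_chk rhoW_m2 (chk2 j)⟩⟩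
/-- The scalar in the stabilizer. -/
noncomputable def aw : MA := ⟨om, rfl, fun j => ⟨_, image_chk rhoW_y (chkY j)⟩⟩

theorem rhoB_a5 : rhoB a5 = iota0 g1 := Equiv.ext fun j => by
  rw [rhoB_apply, iota_g1]
  have e : ((a5 : AA) : Equiv.Perm (Fin 4096)) = rhoW g5C := rfl
  exact fB_of (by rw [e]; exact image_chk rhoW_g5 (chk5 j))

theorem rhoB_a1 : rhoB a1 = iota0 g2 := Equiv.ext fun j => by
  rw [rhoB_apply, iota_g2]
  have e : ((a1 : AA) : Equiv.Perm (Fin 4096)) = rhoW m1C := rfl
  exact fB_of (by rw [e]; exact image_chk rhoW_m1 (chk1 j))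

theorem rhoB_a2 : rhoB a2 = iota0 g3 := Equiv.ext fun j => by
  rw [rhoB_apply, iota_g3]
  have e : ((a2 : AA) : Equiv.Perm (Fin 4096)) = rhoW m2C := rfl
  exact fB_of (by rw [e]; exact image_chk rhoW_m2 (chk2 j))

theorem rhoB_aw : rhoB aw = 1 := Equiv.ext fun j => by
  have e : ((aw : AA) : Equiv.Perm (Fin 4096)) = rhoW yC := rfl
  exact fB_of (by rw [e]; exact image_chk rhoW_y (chkY j))

theorem iota0_mem (s : Cfsg.Agent.Lib.FiTU.G) : iota0 s ∈ rhoB.range := by
  have h : s ∈ (rhoB.range).comap iota0 := by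
    refine all_mem ?_ ?_ ?_ ?_ s
    · exact ⟨a5, rhoB_a5⟩
    · exact ⟨a1, rhoB_a1⟩
    · exact ⟨a2, rhoB_a2⟩
    · show iota0 T0 ∈ rhoB.range
      rw [iota_T0, map_mul, map_mul, map_mul]
      have h1 : iota0 g1 ∈ rhoB.range := ⟨a5, rhoB_a5⟩
      exact mul_mem (mul_mem (mul_mem h1 h1) h1) h1
  exact h

theorem iota_le : iota.range ≤ rhoB.range := by
  rintro _ ⟨x, rfl⟩
  obtain ⟨s, rfl⟩ := QuotientGroup.mk_surjective x
  rw [iota_mk]
  exact iota0_mem s

theorem card_iota_range : Nat.card iota.range = 3265920 := by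
  rw [← card_PSU]
  exact (Nat.card_congr (MonoidHom.ofInjective iota_inj).toEquiv).symm

theorem gO_not_mem : gO ∉ MA := by
  intro h
  have h1 : gO * om = om * gO := h.1
  have h2 := gO_inv
  rw [h1, mul_inv_cancel_right] at h2
  have h3 : om * om = 1 := by
    nth_rw 1 [h2]
    simp
  apply om_ne
  have h4 := om_cube
  rw [h3, one_mul] at h4
  exact h4

theorem MA_ne_top : MA ≠ ⊤ := fun h => gO_not_mem (h ▸ Subgroup.mem_top _)

theorem orderOf_aw : orderOf aw = 3 := by
  rw [← Subgroup.orderOf_coe]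
  exact orderOf_om

theorem zp_le : Subgroup.zpowers aw ≤ rhoB.ker := by
  rw [Subgroup.zpowers_le]
  exact rhoB_aw

/-- The orders are as small as they can be. -/
theorem counts : Nat.card rhoW.ker = 6 ∧ MA.index = 2 ∧ Nat.card rhoB.ker = 3 ∧ Nat.card rhoB.range = 3265920 := by
  have h1 := Subgroup.card_mul_index rhoW.ker
  rw [Subgroup.index_ker rhoW] at h1
  have h2 : Nat.card MA * MA.index = Nat.card rhoW.range := Subgroup.card_mul_index MA
  have h3 := Subgroup.card_mul_index rhoB.ker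
  rw [Subgroup.index_ker rhoB] at h3
  have h4 := card_CF_le
  have l1 : 6 ≤ Nat.card rhoW.ker := by
    have := Nat.card_le_card_of_injective kerMap kerMap_inj
    rw [Nat.card_prod, Nat.card_eq_fintype_card (α := Fin 3), Nat.card_eq_fintype_card (α := Bool),
      Fintype.card_fin, Fintype.card_bool] at this
    exact this
  have l2 : 2 ≤ MA.index := by
    have hne : MA.index ≠ 1 := fun h => MA_ne_top (Subgroup.index_eq_one.1 h)
    have hne0 : MA.index ≠ 0 := Subgroup.index_ne_zero_of_finite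
    omega
  have l3 : 3 ≤ Nat.card rhoB.ker := by
    have h5 := Subgroup.card_le_of_le zp_le
    rw [Nat.card_zpowers, orderOf_aw] at h5
    exact h5
  have l4 : 3265920 ≤ Nat.card rhoB.range := by
    have h5 := Subgroup.card_le_of_le iota_le
    rw [card_iota_range] at h5
    exact h5
  rw [← h2, ← h3] at h1
  generalize Nat.card rhoW.ker = a at *
  generalize MA.index = i at *
  generalize Nat.card rhoB.ker = b at *
  generalize Nat.card rhoB.range = r at *
  have key : ∀ {a' b' i' r' : ℕ}, a' ≤ a → b' ≤ b → i' ≤ i → r' ≤ r → a' * (b' * r' * i') ≤ 117573120 := by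
    intro a' b' i' r' e1 e2 e3 e4
    calc a' * (b' * r' * i') ≤ a * (b * r * i) :=
          Nat.mul_le_mul e1 (Nat.mul_le_mul (Nat.mul_le_mul e2 e4) e3)
      _ = Nat.card CF := h1
      _ ≤ 117573120 := h4
  refine ⟨?_, ?_, ?_, ?_⟩
  · by_contra hc
    have := key (a' := 7) (b' := 3) (i' := 2) (r' := 3265920) (by omega) l3 l2 l4
    omega
  · by_contra hc
    have := key (a' := 6) (b' := 3) (i' := 3) (r' := 3265920) l1 l3 (by omega) l4
    omega
  · by_contra hc
    have := key (a' := 6) (b' := 4) (i' := 2) (r' := 3265920) l1 (by omega) l2 l4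
    omega
  · by_contra hc
    have := key (a' := 6) (b' := 3) (i' := 2) (r' := 3265921) l1 l3 l2 (by omega)
    omega

theorem kerMap_surj : Function.Surjective kerMap := by
  have h9 : Nat.card rhoW.ker ≤ Nat.card (Fin 3 × Bool) := by
    rw [Nat.card_prod, Nat.card_eq_fintype_card (α := Fin 3), Nat.card_eq_fintype_card (α := Bool),
      Fintype.card_fin, Fintype.card_bool, counts.1]
  exact (Function.Injective.bijective_of_nat_card_le kerMap_inj h9).2

/-- The kernel of the action on the classes. -/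
theorem rhoW_ker {g : CF} (h : rhoW g = 1) : ∃ i : ℕ, g = xC ^ i ∨ g = xC ^ i * negC := by
  obtain ⟨⟨i, β⟩, hp⟩ := kerMap_surj ⟨g, h⟩
  have h2 : xC ^ (i : ℕ) * (if β then negC else 1) = g := congrArg Subtype.val hp
  refine ⟨i, ?_⟩
  cases β
  · left
    simpa using h2.symm
  · right
    simpa using h2.symm

theorem MA_index : MA.index = 2 := counts.2.1

theorem rhoB_range : rhoB.range = iota.range :=
  (Subgroup.eq_of_le_of_card_ge iota_le (by rw [counts.2.2.2, card_iota_range])).symm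

theorem rhoB_ker : rhoB.ker = Subgroup.zpowers aw :=
  (Subgroup.eq_of_le_of_card_ge zp_le (by rw [Nat.card_zpowers, orderOf_aw, counts.2.2.1])).symm

/-! ### The normal subgroups -/

/-- The scalars. -/
noncomputable def NA : Subgroup AA := Subgroup.zpowers om

theorem om_mem : om ∈ NA := Subgroup.mem_zpowers om

theorem card_NA : Nat.card NA = 3 := by
  unfold NA
  rw [Nat.card_zpowers, orderOf_om]

theorem MA_comm {a : AA} (h : a ∈ MA) : a * om * a⁻¹ = om := by
  rw [h.1, mul_inv_cancel_right]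

theorem not_MA_inv {a : AA} (h : a ∉ MA) : a * om * a⁻¹ = om⁻¹ := by
  have h1 : a * gO⁻¹ ∈ MA := by
    rw [Subgroup.mul_mem_iff_of_index_two MA_index]
    simp [h, gO_not_mem]
  have h2 := MA_comm h1
  have h3 : (a * gO⁻¹) * om⁻¹ * (a * gO⁻¹)⁻¹ = om⁻¹ := by
    have h4 := congrArg (fun t => t⁻¹) h2
    simpa [mul_assoc] using h4
  calc a * om * a⁻¹ = (a * gO⁻¹) * (gO * om * gO⁻¹) * (a * gO⁻¹)⁻¹ := by group
    _ = om⁻¹ := by rw [gO_inv, h3]

instance MA_normal : MA.Normal := Subgroup.normal_of_index_eq_two MA_index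

instance NA_normal : NA.Normal := by
  constructor
  intro n hn a
  unfold NA at hn ⊢
  obtain ⟨k, rfl⟩ := Subgroup.mem_zpowers_iff.1 hn
  rw [← MulAut.conj_apply, map_zpow, MulAut.conj_apply]
  apply Subgroup.zpow_mem
  by_cases h : a ∈ MA
  · rw [MA_comm h]
    exact Subgroup.mem_zpowers om
  · rw [not_MA_inv h]
    exact Subgroup.inv_mem _ (Subgroup.mem_zpowers om)

theorem aw_val : ((aw : MA) : AA) = om := rfl

theorem NA_le_MA : NA ≤ MA := by
  unfold NA
  rw [Subgroup.zpowers_le]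
  exact aw.2

/-- The map to the simple group. -/
noncomputable def phi : MA →* PSU 4 K9 3 :=
  ((MonoidHom.ofInjective iota_inj).symm.toMonoidHom).comp
    (rhoB.codRestrict iota.range fun a => rhoB_range ▸ MonoidHom.mem_range.2 ⟨a, rfl⟩)

theorem iota_phi (a : MA) : iota (phi a) = rhoB a := by
  have h := (MonoidHom.ofInjective iota_inj).apply_symm_apply
    (rhoB.codRestrict iota.range (fun a => rhoB_range ▸ MonoidHom.mem_range.2 ⟨a, rfl⟩) a)
  exact congrArg Subtype.val h

theorem phi_surj : Function.Surjective phi := by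
  intro x
  have h : iota x ∈ rhoB.range := iota_le ⟨x, rfl⟩
  obtain ⟨a, ha⟩ := h
  refine ⟨a, iota_inj ?_⟩
  rw [iota_phi, ha]

theorem phi_eq_one {a : MA} : phi a = 1 ↔ rhoB a = 1 := by
  rw [← iota_phi]
  constructor
  · intro h
    rw [h, map_one]
  · intro h
    apply iota_inj
    rw [h, map_one]

theorem phi_ker : phi.ker = NA.subgroupOf MA := by
  ext a
  rw [MonoidHom.mem_ker, phi_eq_one, ← MonoidHom.mem_ker, rhoB_ker, Subgroup.mem_subgroupOf]
  constructor
  · intro h
    obtain ⟨k, rfl⟩ := Subgroup.mem_zpowers_iff.1 h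
    exact Subgroup.zpow_mem _ (Subgroup.mem_zpowers om) k
  · intro h
    obtain ⟨k, hk⟩ := Subgroup.mem_zpowers_iff.1 h
    refine Subgroup.mem_zpowers_iff.2 ⟨k, Subtype.ext ?_⟩
    rw [← hk]
    rfl

/-! ### No normal `2`-subgroups -/

theorem no_normal (P : Subgroup AA) (hn : P.Normal) (h2 : IsPGroup 2 P) : P = ⊥ := by
  haveI : IsSimpleGroup (PSU 4 K9 3) :=
    Cfsg.Agent.Lib.UnitarySimple.isSimple_PSU Cfsg.Agent.Lib.FiTU.hF (by norm_num) (by norm_num)
  have hN : ((P.subgroupOf MA).map phi).Normal := Subgroup.Normal.map (Subgroup.normal_subgroupOf) _ phi_surj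
  have h2' : IsPGroup 2 ((P.subgroupOf MA).map phi) := by
    apply IsPGroup.map (p := 2) _ phi
    intro x
    obtain ⟨k, hk⟩ := h2 ⟨((x : MA) : AA), x.2⟩
    have h3 : (((x : MA) : AA)) ^ 2 ^ k = 1 := by
      have := congrArg Subtype.val hk
      simpa using this
    refine ⟨k, ?_⟩
    apply Subtype.ext
    apply Subtype.ext
    simpa using h3
  have h3 : (P.subgroupOf MA).map phi = ⊥ := by
    rcases IsSimpleGroup.eq_bot_or_eq_top_of_normal _ hN with h | h
    · exact h
    · exfalso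
      obtain ⟨n, hn⟩ := IsPGroup.iff_card.1 h2'
      rw [h, Subgroup.card_top, card_PSU] at hn
      have h6 : 3 ∣ 2 ^ n := by
        rw [← hn]
        norm_num
      have := (Nat.prime_three.dvd_of_dvd_pow h6)
      omega
  have h4 : ∀ p : AA, p ∈ P → p ∈ MA → p = 1 := by
    intro p hp hm
    have h5 : phi ⟨p, hm⟩ = 1 := by
      have : phi ⟨p, hm⟩ ∈ (P.subgroupOf MA).map phi := ⟨⟨p, hm⟩, hp, rfl⟩
      rw [h3] at this
      exact this
    have h6 : (⟨p, hm⟩ : MA) ∈ NA.subgroupOf MA := by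
      rw [← phi_ker]
      exact h5
    have h7 : p ∈ NA := h6
    obtain ⟨k, hk⟩ := Subgroup.mem_zpowers_iff.1 h7
    have h8 : p ^ 3 = 1 := by
      rw [← hk, ← zpow_natCast, ← zpow_mul, mul_comm, zpow_mul]
      simp [om_pow]
    obtain ⟨l, hl⟩ := h2 ⟨p, hp⟩
    have hl' : p ^ 2 ^ l = 1 := congrArg Subtype.val hl
    exact Cfsg.Agent.Lib.FiveGp1.eq_one_of_two_five ⟨l, hl'⟩ (by decide) h8
  have h5 : ∀ t : AA, t ∈ P → t * om * t⁻¹ = om := by
    intro t ht
    have h6 : t * om * t⁻¹ * om⁻¹ ∈ P := by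
      have h7 : om * t⁻¹ * om⁻¹ ∈ P := hn.conj_mem _ (P.inv_mem ht) om
      have := P.mul_mem ht h7
      simpa [mul_assoc] using this
    have h8 : t * om * t⁻¹ * om⁻¹ ∈ NA :=
      NA.mul_mem (NA_normal.conj_mem _ om_mem t) (NA.inv_mem om_mem)
    have h9 := h4 _ h6 (NA_le_MA h8)
    exact mul_inv_eq_one.1 h9
  rw [eq_bot_iff]
  intro t ht
  have h6 : t ∈ MA := by
    by_contra hc
    have h7 := not_MA_inv hc
    rw [h5 t ht] at h7
    have h8 : om * om = 1 := by
      nth_rw 1 [h7]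
      simp
    apply om_ne
    have h9 := om_cube
    rw [h8, one_mul] at h9
    exact h9
  exact h4 t ht h6

end Cfsg.Agent.Lib.FiT6
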