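import Mathlib
import Cfsg.Agent.Lib.MonsterTrans
import Cfsg.Agent.Lib.MonsterSplit
import Cfsg.Agent.Lib.Co0Pair
import Cfsg.Agent.Lib.GolayBits
import Cfsg.Agent.Lib.ExtraDual
import Cfsg.Agent.S5552
import Cfsg.Agent.S5392

/-!
# Monster type: the commutator form of `Q` in lattice terms, twisting the identification,
normal `2`-subgroups of the stabilizer of a short vector, and involutions of `Q ∩ Q'` not conjugate to `z`.
-/

set_option autoImplicit false

open Cfsg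
open Cfsg.Agent.Lib.LargeExtra Cfsg.Agent.Lib.LargePair Cfsg.Agent.Lib.MonsterLocal
open Cfsg.Agent.Lib.Co0Mono Cfsg.Agent.Lib.Leech
open Cfsg.Agent.Lib.Co0Frame Cfsg.Agent.Lib.MonsterMain Cfsg.Agent.Lib.LeechFourForm
open Cfsg.Agent.Lib.Co0Stab2
open Cfsg.Agent.S0398 (neg_center)

namespace Cfsg.Agent.Lib.MonsterBabyA

variable {G : Type*} [Group G] [Finite G] {z : G} {Q : Subgroup (CC z)} [Q.Normal]
  {e : (CC z) ⧸ Q ≃* Spor.Co1} {ψ : leechLattice → Q ⧸ Subgroup.center Q}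

/-- The form attached to `Q`, with its values. -/
theorem exists_form' (D : Data z Q e ψ) (T : CoTrans) :
    ∃ (q : leechLattice → ZMod 2) (b : leechLattice → leechLattice → ZMod 2), IsInvForm q b ∧
      (∀ v x, Rep ψ v x → (q v = 0 ↔ x * x = 1)) ∧
      (∀ v w x y, Rep ψ v x → Rep ψ w y → (b v w = 0 ↔ x * y = y * x)) ∧
      (∀ v, q v = ((sqNorm (v : GolayPt → ℤ) / 16 : ℤ) : ZMod 2)) := by
  obtain ⟨q, b, hf, hq, hb⟩ := exists_form D
  refine ⟨q, b, hf, hq, hb, ?_⟩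
  have hne : ∃ v w, b v w ≠ 0 := by
    obtain ⟨-, -, -, -, g, hg, hne⟩ := D.set
    have hgQ : g * z * g⁻¹ ∈ Q0 Q := D.mem_Q0_iff.2 hg
    have P := D.pair hgQ hne
    obtain ⟨t, ht, hts⟩ := P.exists_t
    obtain ⟨v1, hv1⟩ := D.exists_rep ht
    obtain ⟨v2, hv2⟩ := D.exists_rep P.hsQ
    refine ⟨v1, v2, fun h => ?_⟩
    have h1 := (hb v1 v2 _ _ hv1 hv2).1 h
    have h2 : t * (g * z * g⁻¹) * t⁻¹ = g * z * g⁻¹ := conj_eq_of_comm h1
    rw [hts] at h2
    have h3 : z = 1 := by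
      have := mul_right_cancel (b := g * z * g⁻¹) (a := z) (c := 1) (by rw [h2, one_mul])
      exact this
    exact P.z1 h3
  intro v
  by_cases hv : ∃ u : leechLattice, v = u + u
  · obtain ⟨u, rfl⟩ := hv
    have h1 := Cfsg.Agent.S5552.norm_class 0 u
    rw [zero_add] at h1
    rw [hf.q_double, h1]
    have h2 : sqNorm ((0 : leechLattice) : GolayPt → ℤ) = 0 := by
      simp [sqNorm]
    rw [h2]
    rfl
  · obtain ⟨w', u, rfl, h1 | h1 | h1⟩ := exists_short hv
    · rw [q_congr hf, Cfsg.Agent.S5552.norm_class, q32 hf T h1, h1]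
      rfl
    · rw [q_congr hf, Cfsg.Agent.S5552.norm_class, h1]
      have h2 := q48_aux hf T hne h1
      have h3 : ∀ a : ZMod 2, a ≠ 0 → a = 1 := by decide
      rw [h3 _ h2]
      rfl
    · rw [q_congr hf, Cfsg.Agent.S5552.norm_class, q64 hf T h1, h1]
      rfl

/-- Commutation in `Q` is the form `dot / 8` modulo `2`. -/
theorem rep_comm_iff (D : Data z Q e ψ) (T : CoTrans) {v w : leechLattice} {x y : G}
    (hv : Rep ψ v x) (hw : Rep ψ w y) :
    x * y = y * x ↔ (16 : ℤ) ∣ dotInt (v : GolayPt → ℤ) (w : GolayPt → ℤ) := by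
  obtain ⟨q, b, hf, -, hb, hval⟩ := exists_form' D T
  rw [← hb v w x y hv hw]
  have h1 := hf.q_add v w
  rw [hval, hval, hval] at h1
  have h2 : sqNorm ((v + w : leechLattice) : GolayPt → ℤ) = sqNorm (v : GolayPt → ℤ) + sqNorm (w : GolayPt → ℤ) +
      2 * dotInt (v : GolayPt → ℤ) (w : GolayPt → ℤ) := Cfsg.Agent.Lib.Co0Mod.sqNorm_add' _ _
  obtain ⟨a, ha⟩ := sqNorm_dvd v.2
  obtain ⟨a', ha'⟩ := sqNorm_dvd w.2
  obtain ⟨c, hc⟩ := Cfsg.Agent.S5552.dot8 v.2 w.2
  rw [h2, ha, ha', hc] at h1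
  have h3 : (16 * a + 16 * a' + 2 * (8 * c)) / 16 = a + a' + c := by omega
  have h4 : 16 * a / 16 = a := by omega
  have h5 : 16 * a' / 16 = a' := by omega
  rw [h3, h4, h5] at h1
  push_cast at h1
  have h6 : b v w = (c : ZMod 2) := by
    have := add_left_cancel h1
    exact this.symm
  rw [h6, hc]
  rw [ZMod.intCast_zmod_eq_zero_iff_dvd]
  push_cast
  omega

/-- Short vectors represent involutions not conjugate to `z`. -/
theorem short_rep (D : Data z Q e ψ) (T : CoTrans) {v : leechLattice} {x : G} (hv : Rep ψ v x)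
    (h32 : sqNorm (v : GolayPt → ℤ) = 32) : x * x = 1 ∧ ¬ IsConj z x ∧ x ≠ 1 ∧ x ≠ z := by
  obtain ⟨q, b, hf, hq, -, -⟩ := exists_form' D T
  have hnd : ¬ ∃ u : leechLattice, v = u + u := by
    rintro ⟨u, rfl⟩
    have h1 : sqNorm ((u + u : leechLattice) : GolayPt → ℤ) = 4 * sqNorm (u : GolayPt → ℤ) := by
      unfold sqNorm
      rw [Finset.mul_sum]
      refine Finset.sum_congr rfl fun i _ => ?_
      show ((u : GolayPt → ℤ) i + (u : GolayPt → ℤ) i) ^ 2 = _
      ring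
    have hu0 : (u : GolayPt → ℤ) ≠ 0 := by
      intro h0
      rw [h1, h0] at h32
      simp [sqNorm] at h32
    have := Cfsg.Agent.Lib.LeechCong.min_norm' u.2 hu0
    omega
  have hx1 : x ≠ 1 := fun h => hnd ((D.rep_central_iff hv).1 (Or.inl h))
  have hxz : x ≠ z := fun h => hnd ((D.rep_central_iff hv).1 (Or.inr h))
  refine ⟨(hq v x hv).1 (q32 hf T h32), ?_, hx1, hxz⟩
  intro hc
  obtain ⟨hc', hq', hψ⟩ := hv
  obtain ⟨w, hw, hψw⟩ := (conj_iff D T ⟨⟨x, hc'⟩, hq'⟩).1 ⟨hc, hxz⟩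
  have hv' : Rep ψ v x := ⟨hc', hq', hψ⟩
  have hw' : Rep ψ w x := ⟨hc', hq', hψw⟩
  obtain ⟨u, hu⟩ := D.rep_cong hv' hw'
  have h1 : (v : GolayPt → ℤ) - w = 2 • (u : GolayPt → ℤ) := by
    rw [hu]
    simp only [AddSubgroup.coe_add, two_nsmul]
    abel
  rcases Cfsg.Agent.Lib.LeechCong.cong_main w.2 u.2 (by omega) (by omega) h1 with h2 | h2 | h2
  · rw [h2] at h32
    omega
  · rw [h2, Cfsg.Agent.Lib.LeechCong.sqNorm_neg] at h32
    omega
  · omega

omit [Finite G] in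
/-- Twisting the identification by an element of `Co0`. -/
theorem twist (D : Data z Q e ψ) (g : Co0) :
    Data z Q (e.trans (MulAut.conj (mkCo g : Spor.Co1))) (fun v => ψ ((g⁻¹ : Co0).1 v)) := by
  refine ⟨D.set, ?_, ?_, ?_, ?_⟩
  · intro v w
    show ψ ((g⁻¹ : Co0).1 (v + w)) = _
    rw [(g⁻¹ : Co0).2.1, D.iso.1]
  · intro y
    obtain ⟨v, hv⟩ := D.iso.2.1 y
    refine ⟨g.1 v, ?_⟩
    show ψ ((g⁻¹ : Co0).1 (g.1 v)) = y
    rw [show (g⁻¹ : Co0).1 (g.1 v) = v from (g.1.symm_apply_apply v), hv]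
  · intro v
    show ψ ((g⁻¹ : Co0).1 v) = 1 ↔ _
    rw [D.iso.2.2.1]
    constructor
    · rintro ⟨w, hw⟩
      refine ⟨g.1 w, ?_⟩
      rw [← g.2.1]
      rw [← hw]
      exact (g.1.apply_symm_apply v).symm
    · rintro ⟨w, rfl⟩
      refine ⟨(g⁻¹ : Co0).1 w, ?_⟩
      rw [(g⁻¹ : Co0).2.1]
  · intro h g' hg' v q hq
    have h1 : (QuotientGroup.mk (g⁻¹ * g' * g) : Spor.Co1) = e (QuotientGroup.mk h) := by
      have h2 : (QuotientGroup.mk g' : Spor.Co1) = mkCo g * e (QuotientGroup.mk h) * (mkCo g)⁻¹ := hg'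
      show mkCo (g⁻¹ * g' * g) = _
      rw [map_mul, map_mul, map_inv]
      show (mkCo g)⁻¹ * (QuotientGroup.mk g' : Spor.Co1) * mkCo g = _
      rw [h2]
      group
    have h3 := D.iso.2.2.2 h (g⁻¹ * g' * g) h1 ((g⁻¹ : Co0).1 v) q hq
    have h4 : (g⁻¹ * g' * g) • (g⁻¹ : Co0).1 v = (g⁻¹ : Co0).1 (g' • v) := by
      show (g⁻¹ : Co0).1 (g'.1 (g.1 ((g⁻¹ : Co0).1 v))) = (g⁻¹ : Co0).1 (g'.1 v)
      rw [show g.1 ((g⁻¹ : Co0).1 v) = v from g.1.apply_symm_apply v]
    rw [h4] at h3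
    exact h3

/-- Subgroups of `Co0` normalized by the stabilizer of the class of a short vector are central,
as soon as they are `2`-groups modulo the centre. -/
theorem no_normal_two (T : CoTrans) {P : Subgroup Co0} {v : leechLattice}
    (hv : sqNorm (v : GolayPt → ℤ) = 32)
    (hfix : ∀ y ∈ P, ∃ u : leechLattice, (y : Equiv.Perm leechLattice) v = v + (u + u))
    (hnorm : ∀ x : Co0, (∃ u : leechLattice, (x : Equiv.Perm leechLattice) v = v + (u + u)) →
      ∀ y ∈ P, x * y * x⁻¹ ∈ P)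
    (h2 : ∀ y ∈ P, ∃ k : ℕ, y ^ (2 ^ k) ∈ Subgroup.center Co0) :
    P ≤ Subgroup.center Co0 := by
  have : Finite Co0 := finite_Co0
  have hp : Fact (Nat.Prime 2) := ⟨Nat.prime_two⟩
  set P₁ : Subgroup Spor.Co1 := P.map mkCo with hP₁
  have hP2 : IsPGroup 2 P₁ := by
    rintro ⟨_, y, hy, rfl⟩
    obtain ⟨k, hk⟩ := h2 y hy
    refine ⟨k, Subtype.ext ?_⟩
    show (mkCo y) ^ (2 ^ k) = 1
    rw [← map_pow]
    exact mkCo_eq_one_iff.2 hk
  by_contra hne
  obtain ⟨y₀, hy₀, hy₀Z⟩ := SetLike.not_le_iff_exists.1 hne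
  have hnt : Nontrivial P₁ := by
    refine ⟨⟨⟨mkCo y₀, y₀, hy₀, rfl⟩, 1, fun h => hy₀Z ?_⟩⟩
    exact mkCo_eq_one_iff.1 (congrArg Subtype.val h)
  have hcn : Nontrivial (Subgroup.center P₁) := hP2.center_nontrivial
  -- an involution in the centre
  obtain ⟨a, ha1⟩ := exists_ne (1 : Subgroup.center P₁)
  obtain ⟨b, hb⟩ : ∃ b : Subgroup.center P₁, orderOf b = 2 := by
    have h3 : IsPGroup 2 (Subgroup.center P₁) := hP2.to_subgroup _
    obtain ⟨k, hk⟩ := h3 a
    have h4 : orderOf a ≠ 1 := fun h => ha1 (orderOf_eq_one_iff.1 h)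
    have h5 : orderOf a ∣ 2 ^ k := orderOf_dvd_of_pow_eq_one hk
    have h6 : 2 ∣ orderOf a := by
      obtain ⟨j, -, hj⟩ := (Nat.dvd_prime_pow Nat.prime_two).1 h5
      rw [hj] at h4 ⊢
      have hj0 : j ≠ 0 := by
        rintro rfl
        simp at h4
      exact dvd_pow_self 2 hj0
    exact ⟨a ^ (orderOf a / 2), orderOf_pow_orderOf_div (by
      have := orderOf_pos a
      omega) h6⟩
  -- the subgroup `W`
  let Wb : Subgroup Spor.Co1 :=
    { carrier := {c | c ∈ P₁ ∧ (∀ p ∈ P₁, c * p = p * c) ∧ c ^ 2 = 1}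
      mul_mem' := by
        rintro c d ⟨h1, h3, h4⟩ ⟨h5, h6, h7⟩
        refine ⟨P₁.mul_mem h1 h5, ?_, ?_⟩
        · intro p hp
          calc c * d * p = c * (d * p) := by group
            _ = c * (p * d) := by rw [h6 p hp]
            _ = (c * p) * d := by group
            _ = (p * c) * d := by rw [h3 p hp]
            _ = p * (c * d) := by group
        · have h8 : c * d = d * c := h3 d h5
          rw [(show Commute c d from h8).mul_pow]
          rw [h4, h7, one_mul]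
      one_mem' := ⟨P₁.one_mem, by simp, one_pow 2⟩
      inv_mem' := by
        rintro c ⟨h1, h3, h4⟩
        refine ⟨P₁.inv_mem h1, ?_, ?_⟩
        · intro p hp
          have := h3 p hp
          calc c⁻¹ * p = c⁻¹ * (p * c) * c⁻¹ := by group
            _ = c⁻¹ * (c * p) * c⁻¹ := by rw [this]
            _ = p * c⁻¹ := by group
        · rw [inv_pow, h4, inv_one] }
  have hWb : ∀ c, c ∈ Wb ↔ c ∈ P₁ ∧ (∀ p ∈ P₁, c * p = p * c) ∧ c ^ 2 = 1 := fun c => Iff.rfl
  set W : Subgroup Co0 := Wb.comap mkCo with hW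
  have hNEA : IsNEA W v := by
    refine ⟨?_, ?_, ?_, ?_⟩
    · rintro y ⟨⟨p, hp, hpy⟩, -, -⟩
      obtain ⟨u, hu⟩ := hfix p hp
      have h3 : p⁻¹ * y ∈ Subgroup.center Co0 := by
        apply mkCo_eq_one_iff.1
        rw [map_mul, map_inv, hpy]
        exact inv_mul_cancel _
      rcases center_cases h3 with h4 | h4
      · have : y = p := by
          have h5 := inv_mul_eq_one.1 h4
          exact h5.symm
        rw [this]
        exact ⟨u, hu⟩
      · have : y = p * negCo0 := by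
          rw [← h4]
          group
        rw [this]
        refine ⟨-v - u, ?_⟩
        show (p : Equiv.Perm leechLattice) (-v) = _
        rw [co0_neg, hu]
        abel
    · rintro x hx y ⟨h3, h4, h5⟩
      have hxinv : ∃ u : leechLattice, ((x⁻¹ : Co0) : Equiv.Perm leechLattice) v = v + (u + u) := by
        obtain ⟨u, hu⟩ := hx
        refine ⟨-((x⁻¹ : Co0) : Equiv.Perm leechLattice) u, ?_⟩
        have h6 : ((x⁻¹ : Co0) : Equiv.Perm leechLattice) ((x : Equiv.Perm leechLattice) v) = v :=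
          (x : Equiv.Perm leechLattice).symm_apply_apply v
        rw [hu] at h6
        have h7 := (x⁻¹ : Co0).2.1 v (u + u)
        have h8 := (x⁻¹ : Co0).2.1 u u
        rw [h8] at h7
        rw [h7] at h6
        have h9 : ((x⁻¹ : Co0) : Equiv.Perm leechLattice) v = v - (((x⁻¹ : Co0) : Equiv.Perm leechLattice) u + ((x⁻¹ : Co0) : Equiv.Perm leechLattice) u) := by
          rw [eq_sub_iff_add_eq]
          exact h6
        rw [h9]
        abel
      have hmap : ∀ a : Co0, (∃ u : leechLattice, (a : Equiv.Perm leechLattice) v = v + (u + u)) → ∀ p ∈ P₁, mkCo a * p * (mkCo a)⁻¹ ∈ P₁ := by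
        rintro a ha _ ⟨y', hy', rfl⟩
        refine ⟨a * y' * a⁻¹, hnorm a ha y' hy', ?_⟩
        simp only [map_mul, map_inv]
      refine ⟨?_, ?_, ?_⟩
      · rw [map_mul, map_mul, map_inv]
        exact hmap x hx _ h3
      · intro p hp
        have h6 := hmap x⁻¹ hxinv p hp
        rw [map_inv, inv_inv] at h6
        have h7 := h4 _ h6
        rw [map_mul, map_mul, map_inv]
        calc mkCo x * mkCo y * (mkCo x)⁻¹ * p
            = mkCo x * (mkCo y * ((mkCo x)⁻¹ * p * mkCo x)) * (mkCo x)⁻¹ := by group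
          _ = mkCo x * (((mkCo x)⁻¹ * p * mkCo x) * mkCo y) * (mkCo x)⁻¹ := by rw [h7]
          _ = p * (mkCo x * mkCo y * (mkCo x)⁻¹) := by group
      · rw [map_mul, map_mul, map_inv]
        have h6 : (mkCo x * mkCo y * (mkCo x)⁻¹) ^ 2 = mkCo x * (mkCo y) ^ 2 * (mkCo x)⁻¹ := by
          rw [pow_two, pow_two]
          group
        rw [h6, h5]
        simp
    · rintro x ⟨h3, h4, -⟩ y ⟨h5, -, -⟩
      apply mkCo_eq_one_iff.1
      simp only [map_mul, map_inv]
      rw [h4 _ h5]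
      group
    · rintro x ⟨-, -, h4⟩
      apply mkCo_eq_one_iff.1
      rw [map_pow]
      exact h4
  obtain ⟨g₁, hg₁⟩ := T.t32 v (uab t0 t1) hv (sqNorm_uab t_ne.1)
  have hZW : Subgroup.center Co0 ≤ W := by
    intro x hx
    show mkCo x ∈ Wb
    rw [mkCo_eq_one_iff.2 hx]
    exact Wb.one_mem
  have hle := IsNEA.le_center_of hNEA hZW g₁ hg₁
  -- the involution gives an element of `W` outside the centre
  obtain ⟨y, hy⟩ := mkCo_surjective (((b : Subgroup.center P₁) : P₁) : Spor.Co1)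
  have hyW : y ∈ W := by
    show mkCo y ∈ Wb
    rw [hy]
    refine ⟨((b : Subgroup.center P₁) : P₁).2, ?_, ?_⟩
    · intro p hp
      have h3 := Subgroup.mem_center_iff.1 b.2 ⟨p, hp⟩
      exact (congrArg Subtype.val h3).symm
    · have h3 : b ^ 2 = 1 := by
        rw [← hb]
        exact pow_orderOf_eq_one b
      have h4 := congrArg (fun t : Subgroup.center P₁ => ((t : P₁) : Spor.Co1)) h3
      simpa using h4
  have h3 := mkCo_eq_one_iff.2 (hle hyW)
  rw [hy] at h3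
  have h4 : b = 1 := Subtype.ext (Subtype.ext h3)
  rw [h4, orderOf_one] at hb
  omega

/-- The coordinates of a lattice vector whose sign change by an octad differs from it by a double,
possibly up to the frame vector. -/
theorem key_coord {O : Finset GolayPt} (hO : O ∈ codeSets) (hcard : O.card = 8) {k : GolayPt} (hk : k ∉ O)
    {w y : leechLattice}
    (h : ((eps hO : Co0) : Equiv.Perm leechLattice) w = w + (y + y) ∨
      ((eps hO : Co0) : Equiv.Perm leechLattice) w = w + (Cfsg.Agent.S0398.e8 k + (y + y)))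
    {a b : GolayPt} (ha : a ∈ O) (hb : b ∈ O) :
    (4 : ℤ) ∣ (w : GolayPt → ℤ) a + (w : GolayPt → ℤ) b := by
  classical
  -- coordinates of `y`
  have hin : ∀ i ∈ O, (y : GolayPt → ℤ) i = -(w : GolayPt → ℤ) i := by
    intro i hi
    have hik : i ≠ k := fun e => hk (e ▸ hi)
    rcases h with h | h
    · have h1 := congrArg (fun t : leechLattice => (t : GolayPt → ℤ) i) h
      simp only [eps_apply, if_pos hi, AddSubgroup.coe_add, Pi.add_apply] at h1
      omega
    · have h1 := congrArg (fun t : leechLattice => (t : GolayPt → ℤ) i) h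
      simp only [eps_apply, if_pos hi, AddSubgroup.coe_add, Pi.add_apply,
        Cfsg.Agent.S0398.e8_apply, if_neg hik] at h1
      omega
  have hout : ∀ i, i ∉ O → (4 : ℤ) ∣ (y : GolayPt → ℤ) i := by
    intro i hi
    rcases h with h | h
    · have h1 := congrArg (fun t : leechLattice => (t : GolayPt → ℤ) i) h
      simp only [eps_apply, if_neg hi, AddSubgroup.coe_add, Pi.add_apply] at h1
      omega
    · have h1 := congrArg (fun t : leechLattice => (t : GolayPt → ℤ) i) h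
      simp only [eps_apply, if_neg hi, AddSubgroup.coe_add, Pi.add_apply,
        Cfsg.Agent.S0398.e8_apply] at h1
      split_ifs at h1 <;> omega
  obtain ⟨m, α, hf⟩ := mem_leechLattice_iff.1 y.2
  obtain ⟨β, hβ | hβ⟩ := hf.normal
  · -- even form
    obtain ⟨hβc, hβm, -⟩ := hβ
    have hsub : β ⊆ O := by
      intro i hi
      by_contra hiO
      have h1 := hβm i
      have h2 := hout i hiO
      simp only [br, if_pos hi, Int.ModEq] at h1
      omega
    have hcases := Cfsg.Agent.Lib.GolayBits.card_of_mem_supports hβc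
    have hle := Finset.card_le_card hsub
    have h3 : β = ∅ ∨ β = O := by
      rcases hcases with h0 | h0 | h0 | h0 | h0
      · left
        exact Finset.card_eq_zero.1 h0
      · right
        exact Finset.eq_of_subset_of_card_le hsub (by omega)
      · omega
      · omega
      · omega
    have ha' := hβm a
    have hb' := hβm b
    have ea := hin a ha
    have eb := hin b hb
    rcases h3 with rfl | rfl
    · simp only [br, Finset.notMem_empty, if_false, Int.ModEq] at ha' hb'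
      omega
    · simp only [br, if_pos ha, if_pos hb, Int.ModEq] at ha' hb'
      omega
  · -- odd form: impossible
    exfalso
    obtain ⟨-, hβm, -⟩ := hβ
    have hex : ∃ p, p ∉ O := by
      by_contra hcon
      push Not at hcon
      have : O = Finset.univ := Finset.eq_univ_iff_forall.2 hcon
      rw [this] at hcard
      exact absurd hcard (by decide)
    obtain ⟨p, hp⟩ := hex
    have h1 := hβm p
    have h2 := hout p hp
    simp only [Int.ModEq] at h1
    unfold br at h1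
    split_ifs at h1 <;> omega

omit [Finite G] [Q.Normal] in
theorem exists_rep_of (v : leechLattice) : ∃ x : G, Rep ψ v x := by
  obtain ⟨q, hq⟩ := QuotientGroup.mk_surjective (ψ v)
  exact ⟨((q : CC z) : G), (q : CC z).2, q.2, hq.symm⟩

theorem dot_vec (a b : GolayPt) (x : GolayPt → ℤ) :
    dotInt (vec a b : GolayPt → ℤ) x = 4 * x a + 4 * x b := by
  show dotInt (vf a b) x = _
  unfold dotInt vf
  simp only [add_mul, Finset.sum_add_distrib, ite_mul, zero_mul, Finset.sum_ite_eq', Finset.mem_univ, if_true]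

/-- `Q ∩ Q'` contains an involution not conjugate to `z`. -/
theorem exists_inter (D : Data z Q e ψ) (T : CoTrans) {Q' : Subgroup G} {s g : G}
    (P : PairS (Q0 Q) Q' z s g) : ∃ x ∈ Q0 Q ⊓ Q', x * x = 1 ∧ ¬ IsConj z x ∧ x ≠ 1 := by
  classical
  set A := Q0 Q ⊓ Q' with hA
  have hcardA : Nat.card A = 2 ^ 13 := card_inter D T P
  have h1 := Cfsg.Agent.Lib.ExtraDual.card_mul_centralizer P.hS.extra (A := A) inf_le_left P.z_mem_inter
  rw [D.card_Q0, hcardA] at h1
  have h2 : A ≤ Q0 Q ⊓ Subgroup.centralizer (A : Set G) := fun x hx =>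
    ⟨hx.1, Subgroup.mem_centralizer_iff.2 (fun y hy => P.inter_comm hy.1 hy.2 hx.1 hx.2)⟩
  have hselfc : A = Q0 Q ⊓ Subgroup.centralizer (A : Set G) := by
    apply Subgroup.eq_of_le_of_card_ge h2
    rw [hcardA]
    have h3 : (2 : ℕ) * 2 ^ 25 = 2 ^ 13 * 2 ^ 13 := by norm_num
    rw [h3] at h1
    exact (Nat.eq_of_mul_eq_mul_left (by norm_num) h1).le
  obtain ⟨v₀, hv₀⟩ := D.exists_rep P.hsQ
  obtain ⟨v, -, -, h64, hv⟩ := exists_rep64 D T P hv₀
  obtain ⟨g₀, u, hg₀, hle⟩ := Wt_le_sign D T P hv h64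
  have hsign : (Sign).map mkCo = (W1 e Q').map (MulAut.conj (mkCo g₀)).toMonoidHom := by
    symm
    apply Subgroup.eq_of_le_of_card_ge
    · rintro _ ⟨w, hw, rfl⟩
      obtain ⟨t, rfl⟩ := mkCo_surjective w
      have ht : t ∈ Wt e Q' := hw
      refine ⟨g₀ * t * g₀⁻¹, hle ⟨t, ht, rfl⟩, ?_⟩
      simp [MulAut.conj_apply]
    · have hA : Nat.card ↥((W1 e Q').map (MulAut.conj (mkCo g₀)).toMonoidHom) = 2 ^ 11 := by
        rw [Subgroup.card_map_of_injective (MulAut.conj (mkCo g₀)).injective, card_W1_eq D T P]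
      rw [hA]
      exact card_map_Sign_le
  -- the frame point
  have hO0 := Cfsg.Agent.S5392.O0_card
  obtain ⟨k, hk⟩ : ∃ k, k ∉ O0 := by
    by_contra hcon
    push Not at hcon
    have : O0 = Finset.univ := Finset.eq_univ_iff_forall.2 hcon
    rw [this] at hO0
    exact absurd hO0 (by decide)
  set w₀ : leechLattice := (g₀⁻¹ : Co0).1 (vec t0 t1) with hw₀
  have hw₀n : sqNorm (w₀ : GolayPt → ℤ) = 32 := by
    rw [hw₀, (g₀⁻¹ : Co0).2.2]
    exact sqNorm_vec t_ne.1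
  obtain ⟨x₀, hx₀⟩ := exists_rep_of (G := G) (z := z) (Q := Q) (ψ := ψ) w₀
  obtain ⟨hxx, hnc, hx1, -⟩ := short_rep D T hx₀ hw₀n
  refine ⟨x₀, ?_, hxx, hnc, hx1⟩
  rw [hselfc]
  refine ⟨hx₀.mem, Subgroup.mem_centralizer_iff.2 ?_⟩
  intro a' ha'
  obtain ⟨w, hw⟩ := D.exists_rep ha'.1
  have hgw : g₀.1 w₀ = vec t0 t1 := g₀.1.apply_symm_apply _
  have key : (16 : ℤ) ∣ dotInt (w₀ : GolayPt → ℤ) (w : GolayPt → ℤ) := by
    rw [← Cfsg.Agent.Lib.Co0Pair.dot_co0 g₀ w₀ w]
    show (16 : ℤ) ∣ dotInt (g₀.1 w₀ : GolayPt → ℤ) (g₀.1 w : GolayPt → ℤ)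
    rw [hgw, dot_vec]
    -- the sign change
    have hmem : mkCo (eps O0_mem) ∈ (W1 e Q').map (MulAut.conj (mkCo g₀)).toMonoidHom := by
      rw [← hsign]
      exact ⟨eps O0_mem, ⟨_, O0_mem, rfl⟩, rfl⟩
    obtain ⟨_, ⟨r, hr, rfl⟩, hwb⟩ := hmem
    have hr' : (r : G) ∈ Q' := hr
    have hφ : mkCo (g₀⁻¹ * eps O0_mem * g₀) = phi Q e r := by
      simp only [MulEquiv.coe_toMonoidHom, MulAut.conj_apply] at hwb
      rw [map_mul, map_mul, map_inv, ← hwb]
      group
    have hrc := D.rep_conj hw hφ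
    have hgact : ∀ y : leechLattice, g₀.1 ((g₀⁻¹ * eps O0_mem * g₀ : Co0).1 y) =
        (eps O0_mem : Co0).1 (g₀.1 y) := by
      intro y
      show g₀.1 ((g₀⁻¹ : Co0).1 ((eps O0_mem : Co0).1 (g₀.1 y))) = _
      exact g₀.1.apply_symm_apply _
    have hcase : ∃ y : leechLattice, (eps O0_mem : Co0).1 (g₀.1 w) = g₀.1 w + (y + y) ∨
        (eps O0_mem : Co0).1 (g₀.1 w) = g₀.1 w + (Cfsg.Agent.S0398.e8 k + (y + y)) := by
      rcases P.hS'.extra.comm _ hr' _ ha'.2 with h3 | h3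
      · have h4 : (r : G) * a' * (r : G)⁻¹ = a' := mul_inv_eq_one.1 h3
        rw [h4] at hrc
        obtain ⟨y, hy⟩ := D.rep_cong hrc hw
        refine ⟨g₀.1 y, Or.inl ?_⟩
        rw [← hgact, hy, g₀.2.1, g₀.2.1]
      · have h4 : (r : G) * a' * (r : G)⁻¹ = s * a' := mul_inv_eq_iff_eq_mul.1 h3
        rw [h4] at hrc
        obtain ⟨y, hy⟩ := D.rep_cong hrc (D.rep_add hv hw)
        refine ⟨Cfsg.Agent.Lib.Co0Frame.hw k none + u + g₀.1 y, Or.inr ?_⟩
        rw [← hgact, hy, g₀.2.1, g₀.2.1, g₀.2.1, hg₀, Cfsg.Agent.Lib.Co0Frame.e8_eq_add k none]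
        abel
    obtain ⟨y, hy⟩ := hcase
    obtain ⟨c, hc⟩ := key_coord O0_mem hO0 hk hy Cfsg.Agent.S5392.t0_mem Cfsg.Agent.S5392.t1_mem
    rw [show (4 : ℤ) * (g₀.1 w : GolayPt → ℤ) t0 + 4 * (g₀.1 w : GolayPt → ℤ) t1 =
      4 * ((g₀.1 w : GolayPt → ℤ) t0 + (g₀.1 w : GolayPt → ℤ) t1) by ring, hc]
    exact ⟨c, by ring⟩
  exact ((rep_comm_iff D T hx₀ hw).2 key).symm

/-- `z` is not conjugate to its product with `t`. -/
theorem not_conj_mul (D : Data z Q e ψ) {t : G} (htQ : t ∈ Q0 Q) (h1 : t ≠ 1) (hz : t ≠ z)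
    (ht : ¬ IsConj z t) : ¬ IsConj z (t * z) := by
  intro h
  obtain ⟨c, -, -, hc⟩ := D.exists_flip htQ h1 hz
  apply ht
  refine h.trans ?_
  rw [← hc]
  exact (isConj_iff.2 ⟨(c : G), rfl⟩).symm

/-- An element of the centralizer of `t` moving `z` inside `Q`. -/
theorem exists_conj_fix (D : Data z Q e ψ) (T : CoTrans) {t : G} (htQ : t ∈ Q0 Q) (ht2 : orderOf t = 2)
    (ht : ¬ IsConj z t) :
    ∃ g : G, g * t = t * g ∧ g * z * g⁻¹ ∈ Q0 Q ∧ g * z * g⁻¹ ≠ z ∧ g * z * g⁻¹ ≠ t * z := by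
  have ht1 : t ≠ 1 := by
    rintro rfl
    simp at ht2
  have htz : t ≠ z := by
    rintro rfl
    exact ht (IsConj.refl _)
  obtain ⟨-, -, -, -, g₀, hg, hne⟩ := D.set
  have hgQ : g₀ * z * g₀⁻¹ ∈ Q0 Q := D.mem_Q0_iff.2 hg
  have P := D.pair hgQ hne
  obtain ⟨x, hx, hxx, hxc, hx1⟩ := exists_inter D T P
  have hord : ∀ {y : G}, y * y = 1 → y ≠ 1 → orderOf y = 2 := by
    intro y hy hy1
    exact orderOf_eq_prime (by rw [pow_two]; exact hy) hy1
  have hx2 := hord hxx hx1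
  obtain ⟨y, hy, hyx⟩ : ∃ y ∈ Q0 Q, g₀ * y * g₀⁻¹ = x := by
    have h1 := hx.2
    rw [P.hQ'] at h1
    obtain ⟨y, hy, hyx⟩ := h1
    exact ⟨y, hy, by simpa [MulAut.conj_apply] using hyx⟩
  have hy1 : y ≠ 1 := by
    rintro rfl
    apply hx1
    rw [← hyx]
    group
  have hyy : y * y = 1 := by
    have h1 : g₀ * (y * y) * g₀⁻¹ = 1 := by
      calc g₀ * (y * y) * g₀⁻¹ = (g₀ * y * g₀⁻¹) * (g₀ * y * g₀⁻¹) := by group
        _ = 1 := by rw [hyx, hxx]
    have h2 : y * y = g₀⁻¹ * (g₀ * (y * y) * g₀⁻¹) * g₀ := by group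
    rw [h2, h1]
    group
  have hyc : ¬ IsConj z y := by
    intro h
    apply hxc
    rw [← hyx]
    exact h.trans (isConj_iff.2 ⟨g₀, rfl⟩)
  obtain ⟨c₁, hc₁, h1⟩ := nonconj_transitive D T hx.1 htQ hx2 ht2 hxc ht
  obtain ⟨c₂, hc₂, h2⟩ := nonconj_transitive D T htQ hy ht2 (hord hyy hy1) ht hyc
  have hc₁z : c₁ * z = z * c₁ := Subgroup.mem_centralizer_singleton_iff.1 hc₁
  have hc₂z : c₂ * z = z * c₂ := Subgroup.mem_centralizer_singleton_iff.1 hc₂
  have hgz : (c₁ * g₀ * c₂) * z * (c₁ * g₀ * c₂)⁻¹ = c₁ * (g₀ * z * g₀⁻¹) * c₁⁻¹ := by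
    have : c₂ * z * c₂⁻¹ = z := conj_eq_of_comm hc₂z
    calc (c₁ * g₀ * c₂) * z * (c₁ * g₀ * c₂)⁻¹ = c₁ * (g₀ * (c₂ * z * c₂⁻¹) * g₀⁻¹) * c₁⁻¹ := by group
      _ = _ := by rw [this]
  refine ⟨c₁ * g₀ * c₂, ?_, ?_, ?_, ?_⟩
  · apply comm_of_conj_eq
    calc (c₁ * g₀ * c₂) * t * (c₁ * g₀ * c₂)⁻¹ = c₁ * (g₀ * (c₂ * t * c₂⁻¹) * g₀⁻¹) * c₁⁻¹ := by group
      _ = t := by rw [h2, hyx, h1]
  · rw [hgz]
    exact P.hS.nQ _ hc₁z _ hgQ
  · rw [hgz]
    intro h3
    apply hne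
    have h4 : g₀ * z * g₀⁻¹ = c₁⁻¹ * (c₁ * (g₀ * z * g₀⁻¹) * c₁⁻¹) * c₁ := by group
    rw [h4, h3, mul_assoc, ← hc₁z]
    group
  · intro h3
    apply not_conj_mul D htQ ht1 htz ht
    rw [← h3]
    exact isConj_iff.2 ⟨_, rfl⟩

section Triv

/-- The subgroup generated by `u` and the doubles. -/
def Mu (u : leechLattice) : AddSubgroup leechLattice where
  carrier := {d | ∃ w : leechLattice, d = w + w ∨ d = u + (w + w)}
  zero_mem' := ⟨0, Or.inl (by simp)⟩
  add_mem' := by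
    rintro a b ⟨w, rfl | rfl⟩ ⟨w', rfl | rfl⟩
    · exact ⟨w + w', Or.inl (by abel)⟩
    · exact ⟨w + w', Or.inr (by abel)⟩
    · exact ⟨w + w', Or.inr (by abel)⟩
    · exact ⟨u + w + w', Or.inl (by abel)⟩
  neg_mem' := by
    rintro a ⟨w, rfl | rfl⟩
    · exact ⟨-w, Or.inl (by abel)⟩
    · exact ⟨-u - w, Or.inr (by abel)⟩

theorem mem_Mu {u d : leechLattice} : d ∈ Mu u ↔ ∃ w : leechLattice, d = w + w ∨ d = u + (w + w) := Iff.rfl

theorem Mu_map {u d : leechLattice} {y : Co0} (hy : y.1 u = u ∨ y.1 u = -u) (hd : d ∈ Mu u) : y.1 d ∈ Mu u := by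
  obtain ⟨w, rfl | rfl⟩ := hd
  · exact ⟨y.1 w, Or.inl (y.2.1 w w)⟩
  · rw [y.2.1, y.2.1]
    rcases hy with h | h
    · exact ⟨y.1 w, Or.inr (by rw [h])⟩
    · exact ⟨y.1 w - u, Or.inr (by rw [h]; abel)⟩

theorem inv_pm {u : leechLattice} {y : Co0} (hy : y.1 u = u ∨ y.1 u = -u) :
    (y⁻¹ : Co0).1 u = u ∨ (y⁻¹ : Co0).1 u = -u := by
  have h0 : (y⁻¹ : Co0).1 (y.1 u) = u := y.1.symm_apply_apply u
  rcases hy with h | h
  · left
    rwa [h] at h0
  · right
    rw [h, co0_neg] at h0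
    exact neg_eq_iff_eq_neg.1 h0

/-- The vectors whose inner product with `u` is divisible by `16`. -/
def Perp (u x : leechLattice) : Prop := (16 : ℤ) ∣ dotInt (x : GolayPt → ℤ) (u : GolayPt → ℤ)

theorem dotInt_sub_left (x y u : GolayPt → ℤ) : dotInt (x - y) u = dotInt x u - dotInt y u := by
  simp only [dotInt, Pi.sub_apply, sub_mul, Finset.sum_sub_distrib]

theorem perp_move {u x : leechLattice} {y : Co0} (hy : y.1 u = u ∨ y.1 u = -u) (hx : Perp u x) : Perp u (y.1 x) := by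
  have h1 := Cfsg.Agent.Lib.Co0Pair.dot_co0 y x u
  unfold Perp at *
  rcases hy with h | h
  · have h2 : dotInt (y.1 x : GolayPt → ℤ) (u : GolayPt → ℤ) = dotInt (x : GolayPt → ℤ) (u : GolayPt → ℤ) := by
      rw [← h1]
      show _ = dotInt (y.1 x : GolayPt → ℤ) (y.1 u : GolayPt → ℤ)
      rw [h]
    rwa [h2]
  · have h2 : dotInt (y.1 x : GolayPt → ℤ) (u : GolayPt → ℤ) = -dotInt (x : GolayPt → ℤ) (u : GolayPt → ℤ) := by
      rw [← h1]
      show _ = -dotInt (y.1 x : GolayPt → ℤ) (y.1 u : GolayPt → ℤ)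
      rw [h]
      simp only [dotInt, AddSubgroup.coe_neg, Pi.neg_apply, mul_neg, Finset.sum_neg_distrib, neg_neg]
    rw [h2]
    exact (dvd_neg).2 hx

theorem perp_diff {u : leechLattice} {y : Co0} (hy : y.1 u = u ∨ y.1 u = -u) (v : leechLattice) :
    Perp u (y.1 v - v) := by
  have h1 := Cfsg.Agent.Lib.Co0Pair.dot_co0 y v u
  unfold Perp
  have h3 : ((y.1 v - v : leechLattice) : GolayPt → ℤ) = (y.1 v : GolayPt → ℤ) - (v : GolayPt → ℤ) := rfl
  rw [h3, dotInt_sub_left]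
  obtain ⟨c, hc⟩ := Cfsg.Agent.S5552.dot8 v.2 u.2
  rcases hy with h | h
  · have h2 : dotInt (y.1 v : GolayPt → ℤ) (u : GolayPt → ℤ) = dotInt (v : GolayPt → ℤ) (u : GolayPt → ℤ) := by
      rw [← h1]
      show _ = dotInt (y.1 v : GolayPt → ℤ) (y.1 u : GolayPt → ℤ)
      rw [h]
    rw [h2, sub_self]
    exact dvd_zero _
  · have h2 : dotInt (y.1 v : GolayPt → ℤ) (u : GolayPt → ℤ) = -dotInt (v : GolayPt → ℤ) (u : GolayPt → ℤ) := by
      rw [← h1]
      show _ = -dotInt (y.1 v : GolayPt → ℤ) (y.1 u : GolayPt → ℤ)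
      rw [h]
      simp only [dotInt, AddSubgroup.coe_neg, Pi.neg_apply, mul_neg, Finset.sum_neg_distrib, neg_neg]
    rw [h2, hc]
    exact ⟨-c, by ring⟩

/-- The elements fixing `± u` and acting trivially on `u^⊥` modulo `u` and doubles. -/
def TrivSub (u : leechLattice) : Subgroup Co0 where
  carrier := {y | (y.1 u = u ∨ y.1 u = -u) ∧ ∀ x, Perp u x → y.1 x - x ∈ Mu u}
  mul_mem' := by
    rintro a b ⟨ha, ha'⟩ ⟨hb, hb'⟩
    constructor
    · rcases hb with h | h
      · show a.1 (b.1 u) = _ ∨ a.1 (b.1 u) = _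
        rw [h]
        exact ha
      · show a.1 (b.1 u) = _ ∨ a.1 (b.1 u) = _
        rw [h, co0_neg]
        rcases ha with h' | h'
        · right
          rw [h']
        · left
          rw [h', neg_neg]
    · intro x hx
      have h1 := Mu_map ha (hb' x hx)
      have h2 := ha' x hx
      have h3 := (Mu u).add_mem h1 h2
      have h4 : a.1 (b.1 x - x) + (a.1 x - x) = (a * b : Co0).1 x - x := by
        have : a.1 (b.1 x - x) = a.1 (b.1 x) - a.1 x := by
          have h5 := a.2.1 (b.1 x - x) x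
          rw [sub_add_cancel] at h5
          rw [h5]
          abel
        rw [this]
        show _ = a.1 (b.1 x) - x
        abel
      rwa [h4] at h3
  one_mem' := by
    refine ⟨Or.inl rfl, fun x _ => ?_⟩
    show (x - x) ∈ Mu u
    rw [sub_self]
    exact (Mu u).zero_mem
  inv_mem' := by
    rintro a ⟨ha, ha'⟩
    refine ⟨inv_pm ha, fun x hx => ?_⟩
    have h1 := Mu_map (inv_pm ha) (ha' x hx)
    have h2 := (Mu u).neg_mem h1
    have h6 : (a⁻¹ : Co0).1 (a.1 x - x) + (a⁻¹ : Co0).1 x = x := by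
      rw [← (a⁻¹ : Co0).2.1, sub_add_cancel]
      exact a.1.symm_apply_apply x
    have h3 : -((a⁻¹ : Co0).1 (a.1 x - x)) = (a⁻¹ : Co0).1 x - x := by
      generalize (a⁻¹ : Co0).1 (a.1 x - x) = p at h6 ⊢
      generalize (a⁻¹ : Co0).1 x = r at h6 ⊢
      rw [← h6]
      abel
    rwa [h3] at h2

theorem cong_pm {u : leechLattice} (hu : sqNorm (u : GolayPt → ℤ) = 32) {x : Co0}
    (hx : ∃ w : leechLattice, x.1 u = u + (w + w)) : x.1 u = u ∨ x.1 u = -u := by
  obtain ⟨w, hw⟩ := hx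
  exact pm_of_cong hu (by rw [x.2.2, hu]) hw

/-- Fourth powers in `TrivSub` act trivially modulo `2`. -/
theorem TrivSub_pow {u : leechLattice} {y : Co0} (hy : y ∈ TrivSub u) : y ^ (2 ^ 2) ∈ Subgroup.center Co0 := by
  obtain ⟨h1, h2⟩ := hy
  have h3 : ∀ v : leechLattice, (y * y : Co0).1 v - v ∈ Mu u := by
    intro v
    set w := y.1 v - v with hw
    have h4 := h2 w (perp_diff h1 v)
    have h5 : (y * y : Co0).1 v - v = (y.1 w - w) + (w + w) := by
      have h6 : y.1 v = v + w := by rw [hw]; abel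
      have e1 : y.1 (y.1 v) = (v + w) + y.1 w := by
        conv_lhs => rw [h6]
        rw [y.2.1, h6]
      show y.1 (y.1 v) - v = _
      rw [e1]
      abel
    rw [h5]
    exact (Mu u).add_mem h4 ⟨w, Or.inl rfl⟩
  have hyy : (y * y : Co0).1 u = u := by
    show y.1 (y.1 u) = u
    rcases h1 with h | h
    · rw [h, h]
    · rw [h, co0_neg, h, neg_neg]
  have h4 : ∀ v : leechLattice, ∃ w : leechLattice,
      (((y ^ 2 ^ 2 : Co0).1 v : leechLattice) : GolayPt → ℤ) - (v : GolayPt → ℤ) = 2 • (w : GolayPt → ℤ) := by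
    intro v
    have h5 : y ^ 2 ^ 2 = (y * y) * (y * y) := by
      simp only [show (2 : ℕ) ^ 2 = 2 + 2 from rfl, pow_add, pow_two]
    rw [h5]
    set y₂ := y * y with hy₂
    obtain ⟨a, ha | ha⟩ := h3 v
    · refine ⟨a + y₂.1 a, ?_⟩
      have h6 : y₂.1 v = v + (a + a) := by rw [← ha]; abel
      have h7 : (y₂ * y₂ : Co0).1 v = v + (a + a) + (y₂.1 a + y₂.1 a) := by
        show y₂.1 (y₂.1 v) = _
        rw [h6, y₂.2.1, y₂.2.1, ← h6, h6]
      rw [h7]
      funext k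
      simp only [AddSubgroup.coe_add, Pi.add_apply, Pi.sub_apply, Pi.smul_apply, two_nsmul]
      ring
    · refine ⟨u + a + y₂.1 a, ?_⟩
      have h6 : y₂.1 v = v + (u + (a + a)) := by rw [← ha]; abel
      have h7 : (y₂ * y₂ : Co0).1 v = v + (u + (a + a)) + (u + (y₂.1 a + y₂.1 a)) := by
        show y₂.1 (y₂.1 v) = _
        rw [h6, y₂.2.1, y₂.2.1, y₂.2.1, hyy, ← h6, h6]
      rw [h7]
      funext k
      simp only [AddSubgroup.coe_add, Pi.add_apply, Pi.sub_apply, Pi.smul_apply, two_nsmul]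
      ring
  rcases Cfsg.Agent.S5392.kernel_part _ h4 with h5 | h5
  · rw [h5]
    exact Subgroup.one_mem _
  · rw [h5]
    exact neg_center

/-- An element fixing `± u`, acting trivially on `u^⊥` modulo `u` and doubles, is central. -/
theorem triv_central (T : CoTrans) {u : leechLattice} (hu : sqNorm (u : GolayPt → ℤ) = 32) :
    TrivSub u ≤ Subgroup.center Co0 := by
  apply no_normal_two T hu
  · intro y hy
    exact cong_of_pm hy.1
  · intro x hx y hy
    have hxu := cong_pm hu hx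
    have hxi := inv_pm hxu
    have hzu : (x * y * x⁻¹ : Co0) ∈ TrivSub u := by
      obtain ⟨h1, h2⟩ := hy
      refine ⟨?_, ?_⟩
      · have h3 : (x * y * x⁻¹ : Co0).1 u = x.1 (y.1 ((x⁻¹ : Co0).1 u)) := rfl
        rw [h3]
        rcases hxi with a | a <;> rcases h1 with b | b <;> rcases hxu with c | c
        all_goals simp only [a, b, c, co0_neg, neg_neg, true_or, or_true]
      · intro v hv
        have h3 := h2 _ (perp_move hxi hv)
        have h4 := Mu_map hxu h3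
        have h5 : x.1 (y.1 ((x⁻¹ : Co0).1 v) - (x⁻¹ : Co0).1 v) = (x * y * x⁻¹ : Co0).1 v - v := by
          have h6 := x.2.1 (y.1 ((x⁻¹ : Co0).1 v) - (x⁻¹ : Co0).1 v) ((x⁻¹ : Co0).1 v)
          rw [sub_add_cancel, show x.1 ((x⁻¹ : Co0).1 v) = v from x.1.apply_symm_apply v] at h6
          show _ = x.1 (y.1 ((x⁻¹ : Co0).1 v)) - v
          rw [h6]
          abel
        rwa [h5] at h4
    exact hzu
  · intro y hy
    exact ⟨2, TrivSub_pow hy⟩

end Triv

/-- `Co2` has no non-trivial normal `2`-subgroup. -/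
theorem co2_no_normal (T : CoTrans) (P : Subgroup Spor.Co2) (hn : P.Normal) (h2 : IsPGroup 2 P) : P = ⊥ := by
  have hu : sqNorm ((Spor.leechU : leechLattice) : GolayPt → ℤ) = 32 := by decide +kernel
  have hCo2 : Spor.Co2 ≤ Co0 := inf_le_left
  have hfixu : ∀ c : Spor.Co2, (⟨c.1, hCo2 c.2⟩ : Co0).1 Spor.leechU = Spor.leechU := fun c => c.2.2
  let ι : Spor.Co2 →* Co0 := Subgroup.inclusion hCo2
  have hι : ∀ c, (ι c).1 = c.1 := fun c => rfl
  set W : Subgroup Co0 := (P.map (mkCo.comp ι)).comap mkCo with hW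
  have hmemW : ∀ y, y ∈ W ↔ ∃ c ∈ P, mkCo (ι c) = mkCo y := by
    intro y
    constructor
    · rintro ⟨c, hc, h⟩
      exact ⟨c, hc, h⟩
    · rintro ⟨c, hc, h⟩
      exact ⟨c, hc, h⟩
  have hpm : ∀ y c : Co0, mkCo c = mkCo y → y = c ∨ y = c * negCo0 := by
    intro y c h
    have h3 : c⁻¹ * y ∈ Subgroup.center Co0 := by
      apply mkCo_eq_one_iff.1
      rw [map_mul, map_inv, h]
      exact inv_mul_cancel _
    rcases center_cases h3 with h4 | h4
    · left
      exact (inv_mul_eq_one.1 h4).symm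
    · right
      rw [← h4]
      group
  have hle : W ≤ Subgroup.center Co0 := by
    apply no_normal_two T hu
    · intro y hy
      obtain ⟨c, hc, h⟩ := (hmemW y).1 hy
      apply cong_of_pm
      rcases hpm y (ι c) h with h3 | h3
      · left
        rw [h3]
        exact hfixu c
      · right
        rw [h3]
        show (ι c).1 (-Spor.leechU) = _
        rw [co0_neg]
        rw [show (ι c).1 Spor.leechU = Spor.leechU from hfixu c]
    · intro x hx y hy
      obtain ⟨c, hc, h⟩ := (hmemW y).1 hy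
      have hxu := cong_pm hu hx
      -- replace `x` by an element of `Co2`
      obtain ⟨x', hx'⟩ : ∃ x' : Spor.Co2, mkCo (ι x') = mkCo x := by
        rcases hxu with h3 | h3
        · exact ⟨⟨x.1, x.2, h3⟩, rfl⟩
        · have h4 : (x * negCo0 : Co0).1 Spor.leechU = Spor.leechU := by
            show x.1 (-Spor.leechU) = _
            rw [co0_neg, h3, neg_neg]
          refine ⟨⟨(x * negCo0 : Co0).1, (x * negCo0 : Co0).2, h4⟩, ?_⟩
          show mkCo (x * negCo0) = _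
          rw [map_mul, mkCo_eq_one_iff.2 neg_center, mul_one]
      refine (hmemW _).2 ⟨x' * c * x'⁻¹, hn.conj_mem c hc x', ?_⟩
      simp only [map_mul, map_inv, hx', h]
    · intro y hy
      obtain ⟨c, hc, h⟩ := (hmemW y).1 hy
      obtain ⟨k, hk⟩ := h2 ⟨c, hc⟩
      refine ⟨k, ?_⟩
      apply mkCo_eq_one_iff.1
      rw [map_pow, ← h, ← map_pow, ← map_pow]
      have h3 : c ^ 2 ^ k = 1 := by
        have := congrArg Subtype.val hk
        simpa using this
      rw [h3]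
      simp
  rw [eq_bot_iff]
  intro c hc
  have h3 := hle ((hmemW (ι c)).2 ⟨c, hc, rfl⟩)
  rw [Subgroup.mem_bot]
  rcases center_cases h3 with h4 | h4
  · have h5 : (ι c).1 = (1 : Co0).1 := congrArg Subtype.val h4
    exact Subtype.ext h5
  · exfalso
    have h5 := hfixu c
    have h6 : (ι c).1 Spor.leechU = -Spor.leechU := by
      rw [h4]
      rfl
    have h7 : (⟨c.1, hCo2 c.2⟩ : Co0) = ι c := rfl
    rw [h7, h6] at h5
    have h8 := congrArg (fun v : leechLattice => (v : GolayPt → ℤ) none) h5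
    simp only [AddSubgroup.coe_neg, Pi.neg_apply] at h8
    have h9 : ((Spor.leechU : leechLattice) : GolayPt → ℤ) none = 4 := by decide +kernel
    rw [h9] at h8
    omega

end Cfsg.Agent.Lib.MonsterBabyA
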