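import Mathlib
import Cfsg.Agent.Lib.FiveGp1
import Cfsg.Agent.Lib.MonsterBabyA
import Cfsg.Agent.Lib.Co0Order

/-!
# Normal form for a Sylow `5`-subgroup of the centralizer of two conjugates of `z` in `Q`.
-/

set_option autoImplicit false

open Cfsg
open Cfsg.Agent.Lib.LargeExtra Cfsg.Agent.Lib.LargePair Cfsg.Agent.Lib.MonsterLocal
open Cfsg.Agent.Lib.Co0Mono Cfsg.Agent.Lib.Leech
open Cfsg.Agent.Lib.Co0Frame Cfsg.Agent.Lib.MonsterMain Cfsg.Agent.Lib.MonsterBabyA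
open Cfsg.Agent.Lib.Five1 Cfsg.Agent.Lib.Five2 Cfsg.Agent.Lib.Five4 Cfsg.Agent.Lib.FiveGp1
open Cfsg.Agent.Lib.Co0Order
open Cfsg.Agent.S0398 (e8 e8_apply neg_center)
open Cfsg.Agent.Lib.Golay (pt)

namespace Cfsg.Agent.Lib.FiveGp2

theorem x5_mem_NN : x5 ∈ NN := ⟨∅, xi5, empty_mem_codeSets, xi5_mem, rfl⟩

theorem x5_pow : x5 ^ 5 = 1 := congrArg Subtype.val x5_pow_five

theorem x5_ne : x5 ≠ 1 := fun h => x5_ne_one (Subtype.ext h)

theorem orderOf_x5 : orderOf x5 = 5 :=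
  haveI : Fact (Nat.Prime 5) := ⟨by norm_num⟩
  orderOf_eq_prime x5_pow x5_ne

theorem x5_ne_neg : x5 ≠ negCo0 := by
  intro h
  have h1 : x5 ^ 5 = negCo0 ^ 5 := by rw [h]
  rw [x5_pow] at h1
  have h2 : negCo0 ^ 5 = negCo0 := by
    apply monoCo0_ext
    intro v
    show ((negCo0 ^ 5 : Co0).1 v : GolayPt → ℤ) = _
    have h3 : negCo0 ^ 5 = negCo0 * (negCo0 * (negCo0 * (negCo0 * (negCo0 * 1)))) := by
      simp only [pow_succ, pow_zero, one_mul, mul_one, mul_assoc]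
    rw [h3]
    show ((negCo0 : Co0).1 ((negCo0 : Co0).1 ((negCo0 : Co0).1 ((negCo0 : Co0).1 ((negCo0 : Co0).1 v)))) : GolayPt → ℤ) = _
    simp only [negCo0_apply, neg_neg]
  rw [h2] at h1
  have h4 : x5 = 1 := h.trans h1.symm
  exact x5_ne h4

theorem mkCo_x5_ne : mkCo x5 ≠ 1 := by
  intro h
  rcases center_cases (mkCo_eq_one_iff.1 h) with h1 | h1
  · exact x5_ne h1
  · exact x5_ne_neg h1

theorem mkCo_x5_pow : mkCo x5 ^ 5 = 1 := by
  rw [← map_pow, x5_pow, map_one]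

theorem orderOf_mkCo_x5 : orderOf (mkCo x5) = 5 :=
  haveI : Fact (Nat.Prime 5) := ⟨by norm_num⟩
  orderOf_eq_prime mkCo_x5_pow mkCo_x5_ne

theorem fact_NN : (Nat.card NN).factorization 5 = 1 := by
  rw [card_NN, show 4096 * 244823040 = 5 * 200559034368 by norm_num,
    Nat.factorization_mul (by norm_num) (by norm_num)]
  have h2 : (Nat.factorization 200559034368) 5 = 0 := Nat.factorization_eq_zero_of_not_dvd (by norm_num)
  rw [Finsupp.add_apply, Nat.Prime.factorization_self (by norm_num : Nat.Prime 5), h2]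

variable {G : Type*} [Group G] [Finite G] {z : G} {Q : Subgroup (CC z)} [Q.Normal]
  {e : (CC z) ⧸ Q ≃* Spor.Co1} {ψ : leechLattice → Q ⧸ Subgroup.center Q}

/-- The twisted map is also a representation. -/
theorem rep_twist {v : leechLattice} {x : G} (h : Rep ψ v x) (g : Co0) :
    Rep (fun v => ψ ((g⁻¹ : Co0).1 v)) (g.1 v) x := by
  obtain ⟨hc, hq, h2⟩ := h
  refine ⟨hc, hq, ?_⟩
  show ψ ((g⁻¹ : Co0).1 (g.1 v)) = _
  rw [show (g⁻¹ : Co0).1 (g.1 v) = v from g.1.symm_apply_apply v, h2]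

theorem phi_twist (g : Co0) (c : CC z) :
    phi Q (e.trans (MulAut.conj (mkCo g : Spor.Co1))) c = mkCo g * phi Q e c * (mkCo g)⁻¹ := rfl

/-- The local subgroup. -/
theorem mem_XX {s x : G} : x ∈ Subgroup.centralizer ({z, s} : Set G) ↔ x ∈ CC z ∧ x * s = s * x := by
  rw [Subgroup.mem_centralizer_iff, Subgroup.mem_centralizer_singleton_iff]
  constructor
  · intro h
    exact ⟨(h z (by simp)).symm, (h s (by simp)).symm⟩
  · rintro ⟨h1, h2⟩ y hy
    rcases hy with rfl | hy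
    · exact h1.symm
    · rw [Set.mem_singleton_iff.1 hy]
      exact h2.symm

/-- Elements commuting with `s` have monomial lifts. -/
theorem lift_mono (D : Data z Q e ψ) {s : G} (hrep : Rep ψ (e8 (pt 5)) s) {c : CC z} (hc : (c : G) * s = s * (c : G))
    {g : Co0} (hg : mkCo g = phi Q e c) : g ∈ NN := by
  obtain ⟨u, hu⟩ := D.fix_of_comm hrep hg.symm hc
  obtain ⟨d, σ, hd, hσ, h⟩ := exists_mono_of_cong hu
  exact ⟨d, σ, hd, hσ, h⟩

/-- The `5`-part of the order of the centralizer of `z, s`. -/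
theorem fact_XX (D : Data z Q e ψ) {s : G} (hrep : Rep ψ (e8 (pt 5)) s) (hs1 : s ≠ 1) (hsz : s ≠ z) :
    (Nat.card ↥(Subgroup.centralizer ({z, s} : Set G))).factorization 5 = 1 := by
  classical
  set X := Subgroup.centralizer ({z, s} : Set G) with hX
  have hp5 : Nat.Prime 5 := by norm_num
  -- lower bound
  have hdvd : 5 ∣ Nat.card X := by
    have hg0 := monoCo0_cong empty_mem_codeSets xi5_mem (pt 5)
    obtain ⟨u, hu⟩ := hg0
    obtain ⟨c, hc, hcs⟩ := D.exists_lift_comm hrep hs1 hsz (g := x5) hu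
    have hcX : (c : G) ∈ X := mem_XX.2 ⟨c.2, hcs⟩
    have h1 : orderOf (phi Q e c) ∣ orderOf c := orderOf_map_dvd _ _
    rw [hc, orderOf_mkCo_x5] at h1
    have h2 : orderOf c = orderOf (c : G) := Subgroup.orderOf_coe c |>.symm
    have h3 : orderOf (⟨c, hcX⟩ : X) = orderOf (c : G) := Subgroup.orderOf_mk _ _
    rw [h2, ← h3] at h1
    exact h1.trans (orderOf_dvd_natCard _)
  -- upper bound
  have hle : X ≤ CC z := by
    intro x hx
    exact (mem_XX.1 hx).1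
  set T : Subgroup (CC z) := X.subgroupOf (CC z) with hT
  have hcT : Nat.card T = Nat.card X := Nat.card_congr (Subgroup.subgroupOfEquivOfLe hle).toEquiv
  have h1 := Cfsg.Agent.Lib.LargeQuot.card_map_mul (phi Q e) T
  rw [phi_ker] at h1
  -- the image
  have hmap : T.map (phi Q e) ≤ NN.map mkCo := by
    rintro _ ⟨c, hc, rfl⟩
    obtain ⟨g, hg⟩ := exists_lift' (Q := Q) (e := e) c
    have hc' : (c : G) ∈ X := hc
    exact ⟨g, lift_mono D hrep (mem_XX.1 hc').2 hg, hg⟩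
  have hd1 : Nat.card (T.map (phi Q e)) ∣ 4096 * 244823040 := by
    have h2 := Subgroup.card_dvd_of_le hmap
    have h3 : Nat.card (NN.map mkCo) ∣ Nat.card NN := by
      have h4 := Cfsg.Agent.Lib.LargeQuot.card_map_mul mkCo NN
      exact ⟨_, h4.symm⟩
    rw [card_NN] at h3
    exact h2.trans h3
  -- the kernel
  obtain ⟨j, -, hj⟩ : ∃ j ≤ 25, Nat.card ↥(Q.subgroupOf T) = 2 ^ j := by
    have h2 : Nat.card ↥(Q.subgroupOf T) ∣ 2 ^ 25 := by
      have h3 : Nat.card Q = 2 ^ 25 := by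
        have h4 := D.set.2.2.2.1
        rw [h4]
      rw [← h3]
      have h5 : Nat.card ↥((Q.subgroupOf T).map T.subtype) = Nat.card ↥(Q.subgroupOf T) :=
        Subgroup.card_map_of_injective T.subtype_injective
      rw [← h5]
      apply Subgroup.card_dvd_of_le
      rintro _ ⟨y, hy, rfl⟩
      exact hy
    exact (Nat.dvd_prime_pow Nat.prime_two).1 h2
  rw [hj, hcT] at h1
  have hcop : Nat.Coprime 25 (2 ^ j) := Nat.Coprime.pow_right _ (by norm_num)
  have hnot25 : ¬ 25 ∣ Nat.card X := by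
    intro h
    rw [← h1] at h
    have h2 := hcop.dvd_of_dvd_mul_right h
    have h3 := h2.trans hd1
    revert h3
    norm_num
  have hpos : Nat.card X ≠ 0 := Nat.card_pos.ne'
  have h4 : (Nat.card X).factorization 5 ≠ 0 := by
    intro h
    have := (Nat.factorization_eq_zero_iff _ _).1 h
    rcases this with h5 | h5 | h5
    · exact h5 hp5
    · exact h5 hdvd
    · exact hpos h5
  have h5 : ¬ 2 ≤ (Nat.card X).factorization 5 := by
    intro h
    apply hnot25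
    exact (hp5.pow_dvd_iff_le_factorization hpos).2 h
  omega

/-- The normal form. -/
theorem exists_normal (D : Data z Q e ψ) (T : CoTrans) {s : G} (hsQ : s ∈ Q0 Q) (hs : IsConj z s) (hsz : s ≠ z)
    {B : Subgroup G} (hB : B ≤ Subgroup.centralizer ({z, s} : Set G))
    (hBp : Nat.card B = 5 ^ (Nat.card ↥(Subgroup.centralizer ({z, s} : Set G))).factorization 5) :
    ∃ (e' : (CC z) ⧸ Q ≃* Spor.Co1) (ψ' : leechLattice → Q ⧸ Subgroup.center Q) (b : G) (hb : b ∈ CC z),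
      Data z Q e' ψ' ∧ Rep ψ' (e8 (pt 5)) s ∧ B = Subgroup.zpowers b ∧ phi Q e' ⟨b, hb⟩ = mkCo x5 ∧
        b * s = s * b ∧ b ^ 5 = 1 ∧ b ≠ 1 ∧
        (Nat.card ↥(Subgroup.centralizer ({z, s} : Set G))).factorization 5 = 1 := by
  classical
  have hfive : Fact (Nat.Prime 5) := ⟨by norm_num⟩
  have hS := D.setting
  have hs1 : s ≠ 1 := by
    rintro rfl
    exact hS.extra.ne_one (isConj_one_left.1 hs)
  obtain ⟨hc, hq⟩ := D.mem_Q0_iff.1 hsQ
  obtain ⟨v, h64, hψv⟩ := (conj_iff D T ⟨⟨s, hc⟩, hq⟩).1 ⟨hs, hsz⟩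
  have hrep0 : Rep ψ v s := ⟨hc, hq, hψv⟩
  obtain ⟨g, u, hg⟩ := T.t64' h64 (sqNorm_e8 (pt 5))
  -- first twist
  have D₁ := twist D g
  have hrep1 : Rep (fun v => ψ ((g⁻¹ : Co0).1 v)) (e8 (pt 5)) s := by
    have h1 := rep_twist hrep0 g
    rw [hg] at h1
    have h2 := D₁.rep_congr h1 (-u)
    have e1 : e8 (pt 5) + (u + u) + (-u + -u) = e8 (pt 5) := by abel
    rwa [e1] at h2
  generalize hψ₁ : (fun v => ψ ((g⁻¹ : Co0).1 v)) = ψ₁ at D₁ hrep1
  generalize he₁ : e.trans (MulAut.conj (mkCo g : Spor.Co1)) = e₁ at D₁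
  have hfac := fact_XX D₁ hrep1 hs1 hsz
  -- the order of `B`
  have hcard : Nat.card B = 5 := by
    rw [hBp, hfac, pow_one]
  have hnt : Nontrivial B := by
    rw [← Finite.one_lt_card_iff_nontrivial, hcard]
    norm_num
  obtain ⟨⟨b, hbB⟩, hb1⟩ := exists_ne (1 : B)
  have hb1' : b ≠ 1 := fun h => hb1 (Subtype.ext h)
  have hb5 : b ^ 5 = 1 := by
    have h1 := pow_card_eq_one' (x := (⟨b, hbB⟩ : B))
    rw [hcard] at h1
    exact congrArg Subtype.val h1
  have hord : orderOf b = 5 := orderOf_eq_prime hb5 hb1'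
  have hbX := mem_XX.1 (hB hbB)
  obtain ⟨hbC, hbs⟩ := hbX
  obtain ⟨g₀, hg₀⟩ := exists_lift' (Q := Q) (e := e₁) (⟨b, hbC⟩ : CC z)
  -- a lift of order five
  have h5c : mkCo g₀ ^ 5 = 1 := by
    rw [hg₀, ← map_pow]
    have : (⟨b, hbC⟩ : CC z) ^ 5 = 1 := Subtype.ext hb5
    rw [this, map_one]
  obtain ⟨g₁, hg₁, hg₁5⟩ : ∃ g₁ : Co0, mkCo g₁ = phi Q e₁ (⟨b, hbC⟩ : CC z) ∧ g₁ ^ 5 = 1 := by
    rw [← map_pow] at h5c
    rcases center_cases (mkCo_eq_one_iff.1 h5c) with h | h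
    · exact ⟨g₀, hg₀, h⟩
    · refine ⟨g₀ * negCo0, ?_, ?_⟩
      · rw [map_mul, mkCo_eq_one_iff.2 neg_center, mul_one, hg₀]
      · have hc : Commute g₀ negCo0 := Subgroup.mem_center_iff.1 neg_center g₀
        rw [hc.mul_pow, h]
        have hnn : negCo0 * negCo0 = 1 := by
          apply monoCo0_ext
          intro v
          show ((negCo0 : Co0).1 ((negCo0 : Co0).1 v) : GolayPt → ℤ) = _
          simp only [negCo0_apply, neg_neg]
          rfl
        have h3 : negCo0 ^ 5 = negCo0 := by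
          have h4 : negCo0 ^ 5 = negCo0 * negCo0 * (negCo0 * negCo0) * negCo0 := by
            simp only [pow_succ, pow_zero, one_mul, mul_assoc]
          rw [h4, hnn, one_mul, one_mul]
        rw [h3, hnn]
  have hg₁N : g₁ ∈ NN := lift_mono D₁ hrep1 hbs hg₁
  have hbQ : ∀ x ∈ Q0 Q, x ^ 5 = 1 → x = 1 := by
    intro x hx h5
    have h4 : x ^ 2 ^ 2 = 1 := by
      rcases hS.extra.sq x hx with h | h
      · rw [show (2 : ℕ) ^ 2 = 2 * 2 by norm_num, pow_mul, h, one_pow]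
      · rw [show (2 : ℕ) ^ 2 = 2 * 2 by norm_num, pow_mul, h, pow_two]
        exact hS.extra.sq_eq
    exact eq_one_of_two_five ⟨2, h4⟩ (by decide) h5
  have hg₁1 : g₁ ≠ 1 := by
    rintro rfl
    rw [map_one] at hg₁
    have h1 := phi_eq_one_iff.1 hg₁.symm
    exact hb1' (hbQ b ⟨_, h1, rfl⟩ hb5)
  have hordg : orderOf g₁ = 5 := orderOf_eq_prime hg₁5 hg₁1
  -- Sylow in the monomial group
  haveI : Finite Co0 := finite_Co0
  obtain ⟨l, hl, hm⟩ := sylow_conj (p := 5) (X := NN) (A := Subgroup.zpowers x5) (A' := Subgroup.zpowers g₁)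
    (Subgroup.zpowers_le.2 x5_mem_NN) (Subgroup.zpowers_le.2 hg₁N)
    (by rw [Nat.card_zpowers, orderOf_x5, fact_NN, pow_one]) (by rw [Nat.card_zpowers, Nat.card_zpowers, hordg, orderOf_x5])
  have hx5m : x5 ∈ Subgroup.map (MulAut.conj l).toMonoidHom (Subgroup.zpowers g₁) := by
    rw [hm]
    exact Subgroup.mem_zpowers _
  obtain ⟨_, ⟨m, rfl⟩, hlm⟩ := hx5m
  have hlm' : l * g₁ ^ m * l⁻¹ = x5 := hlm
  -- the new generator
  have hmphi : (⟨b ^ m, (CC z).zpow_mem hbC m⟩ : CC z) = (⟨b, hbC⟩ : CC z) ^ m := rfl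
  have hne : b ^ m ≠ 1 := by
    intro h
    have h1 : (⟨b, hbC⟩ : CC z) ^ m = 1 := Subtype.ext h
    have h2 : mkCo (g₁ ^ m) = 1 := by
      rw [map_zpow, hg₁, ← map_zpow, h1, map_one]
    apply mkCo_x5_ne
    rw [← hlm', map_mul, map_mul, h2, mul_one, map_inv, mul_inv_cancel]
  have hm5 : (b ^ m) ^ 5 = 1 := by
    rw [← zpow_natCast, ← zpow_mul, mul_comm, zpow_mul, zpow_natCast, hb5, one_zpow]
  have hord' : orderOf (b ^ m) = 5 := orderOf_eq_prime hm5 hne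
  have hBeq : B = Subgroup.zpowers (b ^ m) := by
    symm
    apply Subgroup.eq_of_le_of_card_ge
    · exact Subgroup.zpowers_le.2 (B.zpow_mem hbB m)
    · rw [hcard, Nat.card_zpowers, hord']
  -- second twist
  have D₂ := twist D₁ l
  refine ⟨e₁.trans (MulAut.conj (mkCo l : Spor.Co1)), fun v => ψ₁ ((l⁻¹ : Co0).1 v), b ^ m, (CC z).zpow_mem hbC m, D₂,
    ?_, hBeq, ?_, ?_, hm5, hne, hfac⟩
  · obtain ⟨c, σ, hc, hσ, rfl⟩ := hl
    obtain ⟨u', hu'⟩ := monoCo0_cong hc hσ (pt 5)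
    have h1 := rep_twist hrep1 (monoCo0 hc hσ)
    rw [hu'] at h1
    have h2 := D₂.rep_congr h1 (-u')
    have e1 : e8 (pt 5) + (u' + u') + (-u' + -u') = e8 (pt 5) := by abel
    rwa [e1] at h2
  · rw [phi_twist, hmphi, map_zpow, ← hg₁, ← map_zpow, ← map_inv, ← map_mul, ← map_mul, hlm']
  · exact Commute.zpow_left hbs m

end Cfsg.Agent.Lib.FiveGp2
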