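import Mathlib
import Cfsg.Agent.Lib.FiveGp2

/-!
# Local computations: the subgroup of `Q` centralizing `b`, lifting elements, the automizer of `⟨b⟩`.
-/

set_option autoImplicit false
set_option maxRecDepth 100000

open Cfsg
open Cfsg.Agent.Lib.LargeExtra Cfsg.Agent.Lib.LargePair Cfsg.Agent.Lib.MonsterLocal
open Cfsg.Agent.Lib.Co0Mono Cfsg.Agent.Lib.Leech
open Cfsg.Agent.Lib.Co0Frame Cfsg.Agent.Lib.MonsterMain Cfsg.Agent.Lib.MonsterBabyA
open Cfsg.Agent.Lib.Five1 Cfsg.Agent.Lib.Five2 Cfsg.Agent.Lib.Five4 Cfsg.Agent.Lib.FiveGp1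
open Cfsg.Agent.Lib.Co0Order Cfsg.Agent.Lib.FiveGp2 Cfsg.Agent.Lib.FiveData Cfsg.Agent.Lib.MonsterSplit
open Cfsg.Agent.S0398 (e8 e8_apply neg_center)
open Cfsg.Agent.Lib.Golay (pt idx idx_pt pt_idx idx_lt ap decode idx_decode isM24 decode_mem_M24 isM24_valid)
open Cfsg.Agent.Lib.CoVec

namespace Cfsg.Agent.Lib.FiveGp3

/-! ### Tables -/

/-- The pairing on the fixed classes is non-degenerate. -/
theorem pairing_tab : ∀ n < 256, n = 0 ∨ ∃ i < 8,
    (((dotA (tab n) (tab (2 ^ i)) : ℕ) : ℤ) - ((dotB (tab n) (tab (2 ^ i)) : ℕ) : ℤ)) % 16 ≠ 0 := by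
  decide +kernel

theorem tau2_isM24 : isM24 tau2 = true := by decide +kernel

/-- The element conjugating `x5` to its square. -/
noncomputable def tauP : Equiv.Perm GolayPt := decode tau2

theorem tauP_mem : tauP ∈ M24 := decode_mem_M24 tau2_isM24

/-- The element of `Co0` conjugating `x5` to its square. -/
noncomputable def y2 : Co0 := monoCo0 empty_mem_codeSets tauP_mem

theorem tau_table : ∀ i < 24, ap c5 (ap tau2 i) = ap tau2 (ap c5 (ap c5 i)) := by decide +kernel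

theorem tau_comm : xi5 * tauP = tauP * (xi5 * xi5) := by
  refine Equiv.ext fun p => ?_
  apply Cfsg.Agent.Lib.Golay.idx_injective
  show idx (xi5 (tauP p)) = idx (tauP (xi5 (xi5 p)))
  have h1 : ∀ q, idx (tauP q) = ap tau2 (idx q) := fun q => idx_decode (isM24_valid tau2_isM24) q
  rw [idx_xi5, h1, h1, idx_xi5, idx_xi5]
  exact tau_table _ (idx_lt p)

theorem y2_conj : y2 * x5 = x5 * x5 * y2 := by
  unfold y2 x5
  rw [monoCo0_mul, monoCo0_mul, monoCo0_mul]
  apply monoCo0_congr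
  · simp
  · exact tau_comm

/-! ### The element `negCo0` -/

theorem neg_sq : negCo0 * negCo0 = 1 := by
  apply monoCo0_ext
  intro v
  show ((negCo0 : Co0).1 ((negCo0 : Co0).1 v) : GolayPt → ℤ) = _
  simp only [negCo0_apply, neg_neg]
  rfl

theorem neg_pow5 : negCo0 ^ 5 = negCo0 := by
  have h4 : negCo0 ^ 5 = negCo0 * negCo0 * (negCo0 * negCo0) * negCo0 := by
    simp only [pow_succ, pow_zero, one_mul, mul_assoc]
  rw [h4, neg_sq, one_mul, one_mul]

theorem neg_ne : negCo0 ≠ 1 := by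
  intro h
  have h1 := congrFun (congrArg Subtype.val (congrArg (fun g : Co0 => (g : Equiv.Perm leechLattice) (e8 (pt 0))) h)) (pt 0)
  have h2 : ((negCo0 : Equiv.Perm leechLattice) (e8 (pt 0)) : GolayPt → ℤ) (pt 0) = -((e8 (pt 0) : GolayPt → ℤ) (pt 0)) := by
    rw [negCo0_apply]
    rfl
  have h3 : ((1 : Co0) : Equiv.Perm leechLattice) (e8 (pt 0)) = e8 (pt 0) := rfl
  simp only [h3] at h1
  rw [h2, e8_apply] at h1
  simp at h1

/-- Lifts of elements commuting with the image of `x5` commute with `x5`. -/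
theorem lift_C5 {g : Co0} (h : mkCo g * mkCo x5 = mkCo x5 * mkCo g) : g ∈ C5 := by
  have h1 : mkCo (g * x5 * g⁻¹ * x5⁻¹) = 1 := by
    simp only [map_mul, map_inv]
    rw [h]
    group
  rcases center_cases (mkCo_eq_one_iff.1 h1) with h2 | h2
  · rw [mem_C5]
    have h3 : g * x5 * g⁻¹ = x5 := mul_inv_eq_one.1 h2
    exact mul_inv_eq_iff_eq_mul.1 h3
  · exfalso
    have h3 : g * x5 * g⁻¹ = negCo0 * x5 := mul_inv_eq_iff_eq_mul.1 h2
    have h4 : (g * x5 * g⁻¹) ^ 5 = 1 := by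
      rw [conj_pow, x5_pow]
      group
    have hcm : Commute negCo0 x5 := (Subgroup.mem_center_iff.1 neg_center x5).symm
    rw [h3, hcm.mul_pow, x5_pow, mul_one, neg_pow5] at h4
    exact neg_ne h4

variable {G : Type*} [Group G] [Finite G] {z : G} {Q : Subgroup (CC z)} [Q.Normal]
  {e : (CC z) ⧸ Q ≃* Spor.Co1} {ψ : leechLattice → Q ⧸ Subgroup.center Q}

section basics

/-- Elements of `Q` of order dividing five are trivial. -/
theorem Q0_five (D : Data z Q e ψ) {x : G} (hx : x ∈ Q0 Q) (h5 : x ^ 5 = 1) : x = 1 := by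
  have hS := D.setting
  have h4 : x ^ 2 ^ 2 = 1 := by
    rcases hS.extra.sq x hx with h | h
    · rw [show (2 : ℕ) ^ 2 = 2 * 2 by norm_num, pow_mul, h, one_pow]
    · rw [show (2 : ℕ) ^ 2 = 2 * 2 by norm_num, pow_mul, h, pow_two]
      exact hS.extra.sq_eq
  exact eq_one_of_two_five ⟨2, h4⟩ (by decide) h5

theorem zpowers_five {b x : G} (hb5 : b ^ 5 = 1) (hx : x ∈ Subgroup.zpowers b) : x ^ 5 = 1 := by
  obtain ⟨i, rfl⟩ := hx
  show (b ^ i) ^ 5 = 1
  rw [← zpow_natCast, ← zpow_mul, mul_comm, zpow_mul, zpow_natCast, hb5, one_zpow]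

theorem inter_B (D : Data z Q e ψ) {b x : G} (hb5 : b ^ 5 = 1) (hx : x ∈ Q0 Q) (hB : x ∈ Subgroup.zpowers b) : x = 1 :=
  Q0_five D hx (zpowers_five hb5 hB)

theorem two_Q0 (D : Data z Q e ψ) : IsPGroup 2 ↥(Q0 Q) := IsPGroup.of_card (n := 25) D.card_Q0

end basics

/-- The data. -/
structure Nf (z : G) (Q : Subgroup (CC z)) [Q.Normal] (e : (CC z) ⧸ Q ≃* Spor.Co1)
    (ψ : leechLattice → Q ⧸ Subgroup.center Q) (s b : G) : Prop where
  D : Data z Q e ψ
  T : CoTrans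
  hrep : Rep ψ (e8 (pt 5)) s
  hs : IsConj z s
  hsz : s ≠ z
  hbC : b ∈ CC z
  hphi : phi Q e ⟨b, hbC⟩ = mkCo x5
  hbs : b * s = s * b
  hb5 : b ^ 5 = 1
  hb1 : b ≠ 1
  hfac : (Nat.card ↥(Subgroup.centralizer ({z, s} : Set G))).factorization 5 = 1

namespace Nf

variable {s b : G} (N : Nf z Q e ψ s b)
include N

theorem hs1 : s ≠ 1 := by
  rintro rfl
  exact N.D.setting.extra.ne_one (isConj_one_left.1 N.hs)

theorem hbz : b * z = z * b := Subgroup.mem_centralizer_singleton_iff.1 N.hbC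

/-- Representatives of classes fixed by `x5` commute with `b`. -/
theorem comm_of_fix {v : leechLattice} {y : G} (h : Rep ψ v y) (hv : (x5 : Equiv.Perm leechLattice) v = v) :
    y * b = b * y := by
  have hS := N.D.setting
  have h1 := N.D.rep_conj h (g := x5) (c := ⟨b, N.hbC⟩) N.hphi.symm
  rw [hv] at h1
  change Rep ψ v (b * y * b⁻¹) at h1
  rcases N.D.rep_eq h h1 with h2 | h2
  · have h3 := mul_inv_eq_iff_eq_mul.1 h2
    exact h3.symm
  · exfalso
    have h3 : b * y = y * z * b := mul_inv_eq_iff_eq_mul.1 h2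
    have hc : Commute b z := N.hbz
    have key : ∀ k : ℕ, b ^ k * y = y * z ^ k * b ^ k := by
      intro k
      induction k with
      | zero => simp
      | succ k ih =>
        calc b ^ (k + 1) * y = b * (b ^ k * y) := by rw [pow_succ']; group
          _ = b * (y * z ^ k * b ^ k) := by rw [ih]
          _ = (b * y) * z ^ k * b ^ k := by group
          _ = y * z * b * z ^ k * b ^ k := by rw [h3]
          _ = y * z * (b * z ^ k) * b ^ k := by group
          _ = y * z * (z ^ k * b) * b ^ k := by rw [(hc.pow_right k).eq]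
          _ = y * z ^ (k + 1) * b ^ (k + 1) := by
            rw [pow_succ' z k, pow_succ' b k]
            group
    have h5 := key 5
    rw [N.hb5, one_mul, mul_one] at h5
    have hz5 : z ^ 5 = 1 := by
      have h6 : y * z ^ 5 = y * 1 := by rw [← h5, mul_one]
      exact mul_left_cancel h6
    have hzz : z * z = 1 := hS.extra.sq_eq
    apply hS.extra.ne_one
    have h7 : z ^ 5 = z * z * (z * z) * z := by
      simp only [pow_succ, pow_zero, one_mul, mul_assoc]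
    rw [h7, hzz, one_mul, one_mul] at hz5
    exact hz5

/-- Elements commuting with `b` are represented by vectors from the table. -/
theorem rep_M {y : G} (hy : y ∈ Q0 Q) (hc : b * y = y * b) : ∃ a < 256, Rep ψ (M a) y := by
  obtain ⟨v, hv⟩ := N.D.exists_rep hy
  obtain ⟨u, hu⟩ := N.D.fix_of_comm hv (g := x5) (c := ⟨b, N.hbC⟩) N.hphi hc
  obtain ⟨w, hw⟩ := exists_cong_M (v := v) ⟨u, hu⟩
  refine ⟨cc (v : GolayPt → ℤ), cc_lt _, ?_⟩
  have h2 := N.D.rep_congr hv (-w)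
  have e1 : v + (-w + -w) = M (cc (v : GolayPt → ℤ)) := by
    nth_rw 1 [hw]
    abel
  rwa [e1] at h2

/-- The elements representing the table. -/
theorem exists_r : ∃ r : ℕ → G, ∀ a, Rep ψ (M a) (r a) := by
  choose r hr using fun a => exists_rep_of (G := G) (z := z) (Q := Q) (ψ := ψ) (M a)
  exact ⟨r, hr⟩

theorem mem_R1 {r : ℕ → G} (hr : ∀ a, Rep ψ (M a) (r a)) {a : ℕ} (ha : a < 256) :
    r a ∈ Q0 Q ⊓ CC b :=
  ⟨(hr a).mem, Subgroup.mem_centralizer_singleton_iff.2 (N.comm_of_fix (hr a) (x5_M ha))⟩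

/-- The order of the centralizer of `b` in `Q`. -/
theorem card_R1 : Nat.card ↥(Q0 Q ⊓ CC b) = 512 := by
  classical
  have hS := N.D.setting
  obtain ⟨r, hr⟩ := N.exists_r
  have hz1 : z ≠ 1 := hS.extra.ne_one
  have hzQ := hS.extra.mem
  have hzb : z ∈ CC b := Subgroup.mem_centralizer_singleton_iff.2 N.hbz.symm
  let f : Fin 256 × Bool → ↥(Q0 Q ⊓ CC b) := fun p =>
    ⟨r p.1 * (if p.2 then z else 1), (Q0 Q ⊓ CC b).mul_mem (N.mem_R1 hr p.1.2) (by
      split_ifs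
      · exact ⟨hzQ, hzb⟩
      · exact Subgroup.one_mem _)⟩
  have hrep : ∀ p : Fin 256 × Bool, Rep ψ (M p.1) ((f p : ↥(Q0 Q ⊓ CC b)) : G) := by
    rintro ⟨a, β⟩
    cases β
    · show Rep ψ (M a) (r a * 1)
      rw [mul_one]
      exact hr a
    · exact N.D.rep_mul_z (hr a)
  have hf : Function.Bijective f := by
    constructor
    · rintro ⟨a, β⟩ ⟨a', β'⟩ h
      have h1 := hrep (a, β)
      rw [h] at h1
      obtain ⟨u, hu⟩ := N.D.rep_cong h1 (hrep (a', β'))
      have h2 : (a : ℕ) = a' := by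
        have h3 := congrArg (fun v : leechLattice => cc (v : GolayPt → ℤ)) hu
        simp only [cc_congr, cc_M a.2, cc_M a'.2] at h3
        exact h3
      have h3 : a = a' := Fin.ext h2
      subst h3
      have h4 : r a * (if β then z else 1) = r a * (if β' then z else 1) := congrArg Subtype.val h
      have h5 := mul_left_cancel h4
      have h6 : β = β' := by
        cases β <;> cases β'
        · rfl
        · exact absurd (by simpa using h5.symm) hz1
        · exact absurd (by simpa using h5) hz1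
        · rfl
      rw [h6]
    · rintro ⟨y, hy, hyb⟩
      have hc : b * y = y * b := (Subgroup.mem_centralizer_singleton_iff.1 hyb).symm
      obtain ⟨a, ha, hrepy⟩ := N.rep_M hy hc
      rcases N.D.rep_eq (hr a) hrepy with h | h
      · refine ⟨(⟨a, ha⟩, false), Subtype.ext ?_⟩
        show r a * 1 = y
        rw [mul_one, h]
      · refine ⟨(⟨a, ha⟩, true), Subtype.ext ?_⟩
        show r a * z = y
        rw [h]
  rw [← Nat.card_congr (Equiv.ofBijective f hf), Nat.card_prod]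
  simp

theorem pairing {n : ℕ} (hn : n < 256) (h0 : n ≠ 0) : ∃ i < 8,
    ¬ (16 : ℤ) ∣ dotInt (M n : GolayPt → ℤ) (M (2 ^ i) : GolayPt → ℤ) := by
  rcases pairing_tab n hn with h | ⟨i, hi, h⟩
  · exact absurd h h0
  · refine ⟨i, hi, fun h1 => h ?_⟩
    rw [M_coe, M_coe, dotInt_dec] at h1
    exact Int.emod_eq_zero_of_dvd h1

theorem M_zero : ∃ u : leechLattice, M 0 = u + u := by
  have h1 : sqNorm (M 0 : GolayPt → ℤ) = 0 := by
    rw [sqNorm_M]
    have := ((tab_ok 0 (by norm_num)).2.2.2.2.2).2 rfl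
    rw [this]
    rfl
  have h2 : (M 0 : GolayPt → ℤ) = 0 := by
    unfold sqNorm at h1
    funext p
    have h3 := (Finset.sum_eq_zero_iff_of_nonneg (fun i _ => sq_nonneg _)).1 h1 p (Finset.mem_univ p)
    simpa using h3
  refine ⟨0, ?_⟩
  apply Subtype.ext
  rw [h2]
  simp

/-- The centre of the centralizer of `b` in `Q`. -/
theorem cen_R1 {a : G} (ha : a ∈ Q0 Q ⊓ CC b) (hab : ∀ y ∈ Q0 Q ⊓ CC b, a * y = y * a) : a = 1 ∨ a = z := by
  have hc : b * a = a * b := (Subgroup.mem_centralizer_singleton_iff.1 ha.2).symm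
  obtain ⟨n, hn, hrepa⟩ := N.rep_M ha.1 hc
  by_cases h0 : n = 0
  · subst h0
    exact (N.D.rep_central_iff hrepa).2 N.M_zero
  · exfalso
    obtain ⟨i, hi, hdvd⟩ := N.pairing hn h0
    obtain ⟨r, hr⟩ := N.exists_r
    have h2i : 2 ^ i < 256 := by
      calc 2 ^ i < 2 ^ 8 := Nat.pow_lt_pow_right (by norm_num) hi
        _ = 256 := by norm_num
    have h1 := hab _ (N.mem_R1 hr h2i)
    exact hdvd ((rep_comm_iff N.D N.T hrepa (hr _)).1 h1)

theorem non_R1 : ∃ x ∈ Q0 Q ⊓ CC b, ∃ y ∈ Q0 Q ⊓ CC b, x * y ≠ y * x := by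
  by_contra hcon
  push Not at hcon
  obtain ⟨r, hr⟩ := N.exists_r
  have h1 := N.cen_R1 (N.mem_R1 hr (a := 1) (by norm_num)) (fun y hy => hcon _ (N.mem_R1 hr (a := 1) (by norm_num)) y hy)
  obtain ⟨u, hu⟩ := (N.D.rep_central_iff (hr 1)).1 h1
  have h2 := congrArg (fun v : leechLattice => cc (v : GolayPt → ℤ)) hu
  simp only [cc_double, cc_M (show 1 < 256 by norm_num)] at h2
  exact one_ne_zero h2

/-- Elements of the centralizer of `x5` lift to the centralizer of `b`. -/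
theorem exists_comm_lift {g : Co0} (hg : g ∈ C5) : ∃ (x : G) (hx : x ∈ CC z), x * b = b * x ∧ phi Q e ⟨x, hx⟩ = mkCo g := by
  have hS := N.D.setting
  obtain ⟨c, hc⟩ := exists_lift (Q := Q) (e := e) (z := z) g
  let bC : CC z := ⟨b, N.hbC⟩
  have hn : ∀ x ∈ Q0 Q, b * x * b⁻¹ ∈ Q0 Q := fun x hx => hS.nQ b N.hbz x hx
  have hb'5 : ((c : G) * b * (c : G)⁻¹) ^ 5 = 1 := by
    rw [conj_pow, N.hb5]
    group
  have hb' : b⁻¹ * ((c : G) * b * (c : G)⁻¹) ∈ Q0 Q := by
    have h1 : phi Q e (bC⁻¹ * (c * bC * c⁻¹)) = 1 := by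
      simp only [map_mul, map_inv]
      rw [hc]
      show (phi Q e ⟨b, N.hbC⟩)⁻¹ * (mkCo g * phi Q e ⟨b, N.hbC⟩ * (mkCo g)⁻¹) = 1
      rw [N.hphi]
      have h2 : mkCo g * mkCo x5 = mkCo x5 * mkCo g := by
        rw [← map_mul, mem_C5.1 hg, map_mul]
      rw [h2]
      group
    exact ⟨_, phi_eq_one_iff.1 h1, rfl⟩
  obtain ⟨q, hq, hqc⟩ := coprime_conj (two_Q0 N.D) N.hb5 N.hb1 hn hb'5 hb'
  obtain ⟨hqC, hqq⟩ := N.D.mem_Q0_iff.1 hq
  refine ⟨q * c, (CC z).mul_mem hqC c.2, ?_, ?_⟩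
  · have h1 : q * ((c : G) * b * (c : G)⁻¹) * q⁻¹ = b := hqc
    have h2 : q * (c : G) * b = b * (q * (c : G)) := by
      calc q * (c : G) * b = (q * ((c : G) * b * (c : G)⁻¹) * q⁻¹) * (q * (c : G)) := by group
        _ = b * (q * (c : G)) := by rw [h1]
    exact h2
  · have h1 : (⟨q * c, (CC z).mul_mem hqC c.2⟩ : CC z) = (⟨q, hqC⟩ : CC z) * c := rfl
    rw [h1, map_mul, phi_eq_one_iff.2 hqq, one_mul, hc]

/-- The automizer of `⟨b⟩`. -/
theorem exists_n : ∃ n ∈ CC z, n * s = s * n ∧ n * b * n⁻¹ = b * b := by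
  have hS := N.D.setting
  obtain ⟨u, hu⟩ := monoCo0_cong empty_mem_codeSets tauP_mem (pt 5)
  obtain ⟨c, hc, hcs⟩ := N.D.exists_lift_comm N.hrep N.hs1 N.hsz (g := y2) hu
  let bC : CC z := ⟨b, N.hbC⟩
  have hb2C : b * b ∈ CC z := (CC z).mul_mem N.hbC N.hbC
  have hb2z : (b * b) * z = z * (b * b) := by
    rw [mul_assoc, N.hbz, ← mul_assoc, N.hbz, mul_assoc]
  have hb2s : (b * b) * s = s * (b * b) := by
    rw [mul_assoc, N.hbs, ← mul_assoc, N.hbs, mul_assoc]
  have hb25 : (b * b) ^ 5 = 1 := by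
    rw [← pow_two, ← pow_mul, mul_comm, pow_mul, N.hb5, one_pow]
  have hb21 : b * b ≠ 1 := by
    intro h
    apply N.hb1
    have h1 : b ^ 5 = (b * b) * (b * b) * b := by
      simp only [pow_succ, pow_zero, one_mul, mul_assoc]
    rw [N.hb5, h, one_mul, one_mul] at h1
    exact h1.symm
  set X := Q0 Q ⊓ CC s with hX
  have h2X : IsPGroup 2 X := (two_Q0 N.D).to_le inf_le_left
  have hn : ∀ x ∈ X, (b * b) * x * (b * b)⁻¹ ∈ X := by
    intro x hx
    refine ⟨hS.nQ _ hb2z x hx.1, ?_⟩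
    show (b * b) * x * (b * b)⁻¹ ∈ CC s
    rw [Subgroup.mem_centralizer_singleton_iff]
    have h1 : x * s = s * x := Subgroup.mem_centralizer_singleton_iff.1 hx.2
    have h2 : (b * b)⁻¹ * s = s * (b * b)⁻¹ := Commute.inv_left hb2s
    calc (b * b) * x * (b * b)⁻¹ * s = (b * b) * x * ((b * b)⁻¹ * s) := by group
      _ = (b * b) * x * (s * (b * b)⁻¹) := by rw [h2]
      _ = (b * b) * (x * s) * (b * b)⁻¹ := by group
      _ = (b * b) * (s * x) * (b * b)⁻¹ := by rw [h1]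
      _ = ((b * b) * s) * x * (b * b)⁻¹ := by group
      _ = (s * (b * b)) * x * (b * b)⁻¹ := by rw [hb2s]
      _ = s * ((b * b) * x * (b * b)⁻¹) := by group
  have hb'5 : ((c : G) * b * (c : G)⁻¹) ^ 5 = 1 := by
    rw [conj_pow, N.hb5]
    group
  have hb' : (b * b)⁻¹ * ((c : G) * b * (c : G)⁻¹) ∈ X := by
    refine ⟨?_, ?_⟩
    · have h1 : phi Q e ((bC * bC)⁻¹ * (c * bC * c⁻¹)) = 1 := by
        simp only [map_mul, map_inv, mul_inv_rev]
        rw [hc]
        show ((phi Q e ⟨b, N.hbC⟩)⁻¹ * (phi Q e ⟨b, N.hbC⟩)⁻¹) * (mkCo y2 * phi Q e ⟨b, N.hbC⟩ * (mkCo y2)⁻¹) = 1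
        rw [N.hphi]
        have h2 : mkCo y2 * mkCo x5 = mkCo x5 * mkCo x5 * mkCo y2 := by
          rw [← map_mul, y2_conj]
          simp only [map_mul]
        rw [h2]
        group
      exact ⟨_, phi_eq_one_iff.1 h1, rfl⟩
    · show (b * b)⁻¹ * ((c : G) * b * (c : G)⁻¹) ∈ CC s
      rw [Subgroup.mem_centralizer_singleton_iff]
      have hci : (c : G)⁻¹ * s = s * (c : G)⁻¹ := Commute.inv_left hcs
      have hbi : (b * b)⁻¹ * s = s * (b * b)⁻¹ := Commute.inv_left hb2s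
      calc (b * b)⁻¹ * ((c : G) * b * (c : G)⁻¹) * s
          = (b * b)⁻¹ * (c : G) * b * ((c : G)⁻¹ * s) := by group
        _ = (b * b)⁻¹ * (c : G) * (b * s) * (c : G)⁻¹ := by rw [hci]; group
        _ = (b * b)⁻¹ * ((c : G) * s) * b * (c : G)⁻¹ := by rw [N.hbs]; group
        _ = ((b * b)⁻¹ * s) * (c : G) * b * (c : G)⁻¹ := by rw [hcs]; group
        _ = s * ((b * b)⁻¹ * ((c : G) * b * (c : G)⁻¹)) := by rw [hbi]; group
  obtain ⟨q, hq, hqc⟩ := coprime_conj h2X hb25 hb21 hn hb'5 hb'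
  refine ⟨q * c, (CC z).mul_mem (N.D.mem_Q0_iff.1 hq.1).1 c.2, ?_, ?_⟩
  · have h1 : q * s = s * q := Subgroup.mem_centralizer_singleton_iff.1 hq.2
    rw [mul_assoc, hcs, ← mul_assoc, h1, mul_assoc]
  · calc q * (c : G) * b * (q * (c : G))⁻¹ = q * ((c : G) * b * (c : G)⁻¹) * q⁻¹ := by group
      _ = b * b := hqc

/-- An element swapping `z` and `s` up to the automizer: an element of the centralizer of `b` taking
`z` to `s`. -/
theorem exists_swap : ∃ w : G, w * b = b * w ∧ w * z * w⁻¹ = s := by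
  classical
  have hfive : Fact (Nat.Prime 5) := ⟨by norm_num⟩
  have hS := N.D.setting
  obtain ⟨g₀, hg₀⟩ := isConj_iff.1 N.hs
  have hsQ : s ∈ Q0 Q := N.hrep.mem
  have hP := N.D.pair (g := g₀) (by rw [hg₀]; exact hsQ) (by rw [hg₀]; exact N.hsz)
  obtain ⟨z', hz'Q, hz'⟩ := hP.hzQ'
  have hz'' : g₀ * z' * g₀⁻¹ = z := hz'
  have hzc : IsConj z z' := by
    refine isConj_iff.2 ⟨g₀⁻¹, ?_⟩
    rw [← hz'']
    group
  have hz'z : z' ≠ z := by
    intro h
    rw [h, hg₀] at hz''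
    exact N.hsz hz''
  obtain ⟨c, hcC, hcz⟩ := conj_transitive N.D N.T hz'Q hsQ hzc N.hs hz'z N.hsz
  have hcc : c * z = z * c := Subgroup.mem_centralizer_singleton_iff.1 hcC
  -- the element `w` swaps
  set w := g₀ * c⁻¹ with hw
  have hwz : w * z * w⁻¹ = s := by
    have h1 : c⁻¹ * z * c = z := by
      rw [mul_assoc, ← hcc]
      group
    calc w * z * w⁻¹ = g₀ * (c⁻¹ * z * c) * g₀⁻¹ := by rw [hw]; group
      _ = s := by rw [h1, hg₀]
  have hws : w * s * w⁻¹ = z := by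
    have h1 : c⁻¹ * s * c = z' := by
      rw [← hcz]
      group
    calc w * s * w⁻¹ = g₀ * (c⁻¹ * s * c) * g₀⁻¹ := by rw [hw]; group
      _ = z := by rw [h1, hz'']
  set X := Subgroup.centralizer ({z, s} : Set G) with hX
  have hbX : b ∈ X := mem_XX.2 ⟨N.hbC, N.hbs⟩
  have hb' : w * b * w⁻¹ ∈ X := by
    refine mem_XX.2 ⟨?_, ?_⟩
    · rw [Subgroup.mem_centralizer_singleton_iff]
      calc w * b * w⁻¹ * z = w * b * (w⁻¹ * z * w) * w⁻¹ := by group
        _ = w * b * s * w⁻¹ := by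
          have h1 : w⁻¹ * z * w = s := by
            rw [← hws]
            group
          rw [h1]
        _ = w * s * b * w⁻¹ := by rw [mul_assoc w b s, N.hbs, ← mul_assoc]
        _ = (w * s * w⁻¹) * (w * b * w⁻¹) := by group
        _ = z * (w * b * w⁻¹) := by rw [hws]
    · calc w * b * w⁻¹ * s = w * b * (w⁻¹ * s * w) * w⁻¹ := by group
        _ = w * b * z * w⁻¹ := by
          have h1 : w⁻¹ * s * w = z := by
            rw [← hwz]
            group
          rw [h1]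
        _ = w * z * b * w⁻¹ := by rw [mul_assoc w b z, N.hbz, ← mul_assoc]
        _ = (w * z * w⁻¹) * (w * b * w⁻¹) := by group
        _ = s * (w * b * w⁻¹) := by rw [hwz]
  have hord : orderOf b = 5 := orderOf_eq_prime N.hb5 N.hb1
  have hord' : orderOf (w * b * w⁻¹) = 5 := by
    have h1 : w * b * w⁻¹ = MulAut.conj w b := rfl
    rw [h1, MulEquiv.orderOf_eq, hord]
  obtain ⟨l, hl, hm⟩ := sylow_conj (p := 5) (X := X) (A := Subgroup.zpowers b) (A' := Subgroup.zpowers (w * b * w⁻¹))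
    (Subgroup.zpowers_le.2 hbX) (Subgroup.zpowers_le.2 hb')
    (by rw [Nat.card_zpowers, hord, N.hfac, pow_one]) (by rw [Nat.card_zpowers, Nat.card_zpowers, hord, hord'])
  have h1 : l * (w * b * w⁻¹) * l⁻¹ ∈ Subgroup.zpowers b := by
    rw [← hm]
    exact ⟨_, Subgroup.mem_zpowers _, rfl⟩
  obtain ⟨k, hk⟩ := h1
  have hk' : b ^ k = l * (w * b * w⁻¹) * l⁻¹ := hk
  obtain ⟨hlz, hls⟩ := mem_XX.1 hl
  have hlz' : l * z = z * l := Subgroup.mem_centralizer_singleton_iff.1 hlz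
  have hks : k % 5 ≠ 0 := by
    intro h0
    have h2 : b ^ k = 1 := by
      have h3 : k = 5 * (k / 5) := by omega
      rw [h3, zpow_mul]
      have h4 : b ^ (5 : ℤ) = 1 := by
        rw [show (5 : ℤ) = ((5 : ℕ) : ℤ) by norm_num, zpow_natCast, N.hb5]
      rw [h4, one_zpow]
    rw [h2] at hk'
    apply N.hb1
    have h3 : l * w * b * (l * w)⁻¹ = 1 := by
      rw [hk']
      group
    have h4 := mul_inv_eq_one.1 h3
    exact mul_eq_left.1 h4
  obtain ⟨n, hnC, hns, hnb⟩ := N.exists_n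
  have hj : ∃ j : ℕ, (2 ^ j * k) % 5 = 1 := by
    have h3 : k % 5 = 1 ∨ k % 5 = 2 ∨ k % 5 = 3 ∨ k % 5 = 4 := by omega
    rcases h3 with h3 | h3 | h3 | h3
    · exact ⟨0, by norm_num; omega⟩
    · exact ⟨3, by norm_num; omega⟩
    · exact ⟨1, by norm_num; omega⟩
    · exact ⟨2, by norm_num; omega⟩
  obtain ⟨j, hj⟩ := hj
  have hpow : ∀ i : ℕ, n ^ i * b * (n ^ i)⁻¹ = b ^ ((2 : ℤ) ^ i) := by
    intro i
    induction i with
    | zero => simp
    | succ i ih =>
      calc n ^ (i + 1) * b * (n ^ (i + 1))⁻¹ = n ^ i * (n * b * n⁻¹) * (n ^ i)⁻¹ := by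
            rw [pow_succ]; group
        _ = n ^ i * (b * b) * (n ^ i)⁻¹ := by rw [hnb]
        _ = (n ^ i * b * (n ^ i)⁻¹) * (n ^ i * b * (n ^ i)⁻¹) := by group
        _ = b ^ ((2 : ℤ) ^ i) * b ^ ((2 : ℤ) ^ i) := by rw [ih]
        _ = b ^ ((2 : ℤ) ^ (i + 1)) := by
          rw [← zpow_add, pow_succ]
          congr 1
          ring
  refine ⟨n ^ j * (l * w), ?_, ?_⟩
  · have h2 : (n ^ j * (l * w)) * b * (n ^ j * (l * w))⁻¹ = b := by
      have h3 : (l * w) * b * (l * w)⁻¹ = b ^ k := by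
        rw [hk']
        group
      calc (n ^ j * (l * w)) * b * (n ^ j * (l * w))⁻¹ = n ^ j * ((l * w) * b * (l * w)⁻¹) * (n ^ j)⁻¹ := by group
        _ = n ^ j * b ^ k * (n ^ j)⁻¹ := by rw [h3]
        _ = (n ^ j * b * (n ^ j)⁻¹) ^ k := by rw [conj_zpow]
        _ = (b ^ ((2 : ℤ) ^ j)) ^ k := by rw [hpow]
        _ = b ^ ((2 : ℤ) ^ j * k) := by rw [zpow_mul]
        _ = b := by
          have h4 : b ^ ((2 : ℤ) ^ j * k) = b ^ (1 : ℤ) := by
            rw [zpow_eq_zpow_iff_modEq, hord]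
            push_cast
            unfold Int.ModEq
            rw [hj]
            norm_num
          rw [h4, zpow_one]
    exact mul_inv_eq_iff_eq_mul.1 h2
  · have hnj : ∀ i : ℕ, n ^ i * s * (n ^ i)⁻¹ = s := by
      intro i
      have h2 : Commute (n ^ i) s := Commute.pow_left hns i
      rw [h2.eq]
      group
    calc (n ^ j * (l * w)) * z * (n ^ j * (l * w))⁻¹ = n ^ j * (l * (w * z * w⁻¹) * l⁻¹) * (n ^ j)⁻¹ := by group
      _ = n ^ j * (l * s * l⁻¹) * (n ^ j)⁻¹ := by rw [hwz]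
      _ = n ^ j * s * (n ^ j)⁻¹ := by
        rw [hls]
        group
      _ = s := hnj j

end Nf

end Cfsg.Agent.Lib.FiveGp3
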