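import Mathlib
import Cfsg.Agent.Lib.ThreeData
import Cfsg.Agent.Lib.CoTree
import Cfsg.Agent.Lib.Co0Frame
import Cfsg.Agent.Lib.MonsterSplit
import Cfsg.Agent.S5552

/-!
# An element `x3` of order three of `Co0`: the classes modulo two of the vectors it fixes.

The classes are numbered by the numbers below `256`: `cc` is the numbering, `M a` a vector of minimal
length in the class number `a`.
-/

set_option autoImplicit false
set_option maxRecDepth 100000

open Cfsg Cfsg.Agent.Lib.Leech Cfsg.Agent.Lib.Co0Mono Cfsg.Agent.Lib.Co0Frame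
open Cfsg.Agent.Lib.ThreeData Cfsg.Agent.Lib.CoVec Cfsg.Agent.Lib.MonsterSplit
open Cfsg.Agent.Lib.Golay (idx pt idx_pt pt_idx idx_lt idxL mem_idxL ap bit bit_eq ofMask mem_ofMask
  decode idx_decode isM24 decode_mem_M24 isM24_valid reduce)

namespace Cfsg.Agent.Lib.Three1

/-! ### The element -/

theorem c3_isM24 : isM24 c3 = true := by decide +kernel

/-- The permutation. -/
noncomputable def xi3 : Equiv.Perm GolayPt := decode c3

theorem xi3_mem : xi3 ∈ M24 := decode_mem_M24 c3_isM24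

/-- The element of `Co0`. -/
noncomputable def x3 : Co0 := monoCo0 empty_mem_codeSets xi3_mem

theorem x3_apply (v : leechLattice) (p : GolayPt) :
    ((x3 : Equiv.Perm leechLattice) v : GolayPt → ℤ) p = (v : GolayPt → ℤ) (xi3 p) := by
  show mono ∅ xi3 v p = _
  rw [mono_apply]
  simp

theorem idx_xi3 (p : GolayPt) : idx (xi3 p) = ap c3 (idx p) := idx_decode (isM24_valid c3_isM24) p

/-! ### Codes of vectors -/

/-- The code of the vector number `a`. -/
def tab (a : ℕ) : ℕ :=
  if a < 256 then Nat.land (Nat.shiftRight tabP (Nat.mul 192 a)) (2 ^ 192 - 1) else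
    Nat.land (Nat.shiftRight tabP (Nat.mul 192 0)) (2 ^ 192 - 1)

/-- The dual codes. -/
def ny (i : ℕ) : ℕ := nyL.getD i 0

/-- The bit of the inner product with the dual vector `i`, on codes. -/
def bitN (n i : ℕ) : Bool :=
  decide ((((dotA n (ny i) : ℕ) : ℤ) - ((dotB n (ny i) : ℕ) : ℤ)) % 16 ≠ 0)

/-- The number of a class, on codes. -/
def ccN (n : ℕ) : ℕ := Nat.ofBits (fun i : Fin 8 => bitN n i)

/-- The length of the vector number `a`. -/
def nt (a : ℕ) : ℕ := sqN (tab a)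

theorem tab_ok : ∀ a < 256, memL (tab a) = true ∧ Nat.blt (tab a) (2 ^ 192) = true ∧
    ccN (tab a) = a ∧ (nt a = 0 ∨ nt a = 48 ∨ nt a = 64) ∧ (nt a = 0 ↔ a = 0) := by
  decide +kernel

/-- The code of the half of the difference. -/
def tabU (a : ℕ) : ℕ :=
  if a < 256 then Nat.land (Nat.shiftRight tabUP (Nat.mul 192 a)) (2 ^ 192 - 1) else 0

theorem tabU_ok : ∀ a < 256, memL (tabU a) = true ∧
    idxL.all (fun i => Nat.beq (byte (actPerm c3 (tab a)) i + 256) (byte (tab a) i + 2 * byte (tabU a) i)) = true := by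
  decide +kernel

theorem tab_fix : ∀ i < 8, actPerm c3 (tab (2 ^ i)) = tab (2 ^ i) := by decide +kernel

theorem ny_ok : ∀ i < 8, memL (ny i) = true ∧ Nat.blt (ny i) (2 ^ 192) = true ∧ Nat.ble (sqN (ny i)) 2000 = true := by
  decide +kernel


theorem ny_lt (i : Fin 8) : ny i < 2 ^ 192 := by
  have := (ny_ok i i.2).2.1
  simpa [Nat.blt_eq] using this

theorem ny_mem (i : Fin 8) : dec (ny i) ∈ leechLattice := mem_of_memL (ny_ok i i.2).1

theorem tab_ge {a : ℕ} (h : ¬ a < 256) : tab a = tab 0 := by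
  simp [tab, h]

theorem tab_mem (a : ℕ) : memL (tab a) = true := by
  by_cases h : a < 256
  · exact (tab_ok a h).1
  · rw [tab_ge h]
    exact (tab_ok 0 (by norm_num)).1

theorem tab_lt (a : ℕ) : tab a < 2 ^ 192 := by
  by_cases h : a < 256
  · have := (tab_ok a h).2.1
    simpa [Nat.blt_eq] using this
  · rw [tab_ge h]
    have := (tab_ok 0 (by norm_num)).2.1
    simpa [Nat.blt_eq] using this

/-- The vector number `a`. -/
def M (a : ℕ) : leechLattice := ⟨dec (tab a), mem_of_memL (tab_mem a)⟩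

theorem M_coe (a : ℕ) : ((M a : leechLattice) : GolayPt → ℤ) = dec (tab a) := rfl

theorem nt_cases (a : ℕ) : nt a = 0 ∨ nt a = 48 ∨ nt a = 64 := by
  by_cases h : a < 256
  · exact (tab_ok a h).2.2.2.1
  · have : nt a = nt 0 := by unfold nt; rw [tab_ge h]
    rw [this]
    exact (tab_ok 0 (by norm_num)).2.2.2.1

theorem sqNorm_M (a : ℕ) : sqNorm (M a : GolayPt → ℤ) = (nt a : ℤ) := sqNorm_dec _

theorem tab_st (a : ℕ) : St (tab a) := by
  refine ⟨tab_lt a, mem_of_memL (tab_mem a), ?_⟩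
  rw [sqNorm_dec]
  rcases nt_cases a with h | h | h <;> (unfold nt at h; rw [h]; norm_num)

theorem x3_eq : x3 = permCo0 c3_isM24 := by
  unfold x3 permCo0
  apply monoCo0_congr
  · ext p
    simp [mem_ofMask]
  · rfl

/-- The half of the difference. -/
noncomputable def U (a : ℕ) (h : a < 256) : leechLattice := ⟨dec (tabU a), mem_of_memL (tabU_ok a h).1⟩

theorem x3_M {a : ℕ} (h : a < 256) :
    (x3 : Equiv.Perm leechLattice) (M a) = M a + (U a h + U a h) := by
  apply Subtype.ext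
  rw [x3_eq]
  have h1 := (actPerm_acts c3_isM24 (tab a) (tab_st a)).2
  have h2 : ∀ p : GolayPt, byte (actPerm c3 (tab a)) (idx p) + 256 = byte (tab a) (idx p) + 2 * byte (tabU a) (idx p) := by
    intro p
    have h3 := (tabU_ok a h).2
    rw [List.all_eq_true] at h3
    exact Nat.eq_of_beq_eq_true (h3 _ (mem_idxL.2 (idx_lt p)))
  refine h1.trans ?_
  funext p
  show dec (actPerm c3 (tab a)) p = dec (tab a) p + (dec (tabU a) p + dec (tabU a) p)
  unfold dec
  have := h2 p
  omega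

theorem x3_B (i : ℕ) (hi : i < 8) : (x3 : Equiv.Perm leechLattice) (M (2 ^ i)) = M (2 ^ i) := by
  apply Subtype.ext
  rw [x3_eq]
  have h1 := (actPerm_acts c3_isM24 (tab (2 ^ i)) (tab_st _)).2
  rw [tab_fix i hi] at h1
  exact h1

/-! ### The numbering -/

/-- The number of a class. -/
def cc (x : GolayPt → ℤ) : ℕ :=
  Nat.ofBits (fun i : Fin 8 => decide (dotInt x (dec (ny i)) % 16 ≠ 0))

theorem cc_dec (n : ℕ) : cc (dec n) = ccN n := by
  have h : (fun i : Fin 8 => decide (dotInt (dec n) (dec (ny i)) % 16 ≠ 0)) = fun i : Fin 8 => bitN n i := by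
    funext i
    unfold bitN
    rw [dotInt_dec]
  unfold cc ccN
  rw [h]

theorem cc_lt (x : GolayPt → ℤ) : cc x < 256 := Nat.ofBits_lt_two_pow (n := 8) _

theorem cc_M {a : ℕ} (h : a < 256) : cc (M a : GolayPt → ℤ) = a := by
  rw [M_coe, cc_dec]
  exact (tab_ok a h).2.2.1

theorem testBit_cc (x : GolayPt → ℤ) (i : Fin 8) :
    (cc x).testBit i = decide (dotInt x (dec (ny i)) % 16 ≠ 0) := by
  unfold cc
  rw [Nat.testBit_ofBits_lt _ _ i.2]

theorem lt_ext {a b : ℕ} (ha : a < 256) (hb : b < 256) (h : ∀ i : Fin 8, a.testBit i = b.testBit i) : a = b := by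
  apply Nat.eq_of_testBit_eq
  intro i
  by_cases hi : i < 8
  · exact h ⟨i, hi⟩
  · have h1 : ∀ {c : ℕ}, c < 256 → c.testBit i = false := fun {c} hc =>
      Nat.testBit_lt_two_pow (lt_of_lt_of_le hc (by
        calc 256 = 2 ^ 8 := by norm_num
          _ ≤ 2 ^ i := Nat.pow_le_pow_right (by norm_num) (by omega)))
    rw [h1 ha, h1 hb]

theorem cc_add (v w : leechLattice) :
    cc ((v + w : leechLattice) : GolayPt → ℤ) = cc (v : GolayPt → ℤ) ^^^ cc (w : GolayPt → ℤ) := by
  apply lt_ext (cc_lt _)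
  · have := Nat.xor_lt_two_pow (n := 8) (cc_lt (v : GolayPt → ℤ)) (cc_lt (w : GolayPt → ℤ))
    simpa using this
  intro i
  rw [Nat.testBit_xor, testBit_cc, testBit_cc, testBit_cc]
  obtain ⟨a, ha⟩ := Cfsg.Agent.S5552.dot8 v.2 (ny_mem i)
  obtain ⟨b, hb⟩ := Cfsg.Agent.S5552.dot8 w.2 (ny_mem i)
  have h1 : dotInt ((v + w : leechLattice) : GolayPt → ℤ) (dec (ny i)) = 8 * a + 8 * b := by
    rw [AddSubgroup.coe_add, Cfsg.dotInt_add_left, ha, hb]
  rw [h1, ha, hb]
  by_cases h2 : a % 2 = 0 <;> by_cases h3 : b % 2 = 0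
  · have e1 : (8 * a + 8 * b) % 16 = 0 := by omega
    have e2 : (8 * a) % 16 = 0 := by omega
    have e3 : (8 * b) % 16 = 0 := by omega
    simp [e1, e2, e3]
  · have e1 : (8 * a + 8 * b) % 16 ≠ 0 := by omega
    have e2 : (8 * a) % 16 = 0 := by omega
    have e3 : (8 * b) % 16 ≠ 0 := by omega
    simp [e1, e2, e3]
  · have e1 : (8 * a + 8 * b) % 16 ≠ 0 := by omega
    have e2 : (8 * a) % 16 ≠ 0 := by omega
    have e3 : (8 * b) % 16 = 0 := by omega
    simp [e1, e2, e3]
  · have e1 : (8 * a + 8 * b) % 16 = 0 := by omega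
    have e2 : (8 * a) % 16 ≠ 0 := by omega
    have e3 : (8 * b) % 16 ≠ 0 := by omega
    simp [e1, e2, e3]

theorem cc_double (u : leechLattice) : cc ((u + u : leechLattice) : GolayPt → ℤ) = 0 := by
  rw [cc_add, Nat.xor_self]

theorem cc_congr (v u : leechLattice) : cc ((v + (u + u) : leechLattice) : GolayPt → ℤ) = cc (v : GolayPt → ℤ) := by
  rw [cc_add, cc_double, Nat.xor_zero]

/-- Equal numbers mean the difference is orthogonal modulo `16` to the dual vectors. -/
theorem dvd_of_cc_eq {v w : leechLattice} (h : cc (v : GolayPt → ℤ) = cc (w : GolayPt → ℤ)) (i : Fin 8) :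
    (16 : ℤ) ∣ dotInt ((v - w : leechLattice) : GolayPt → ℤ) (dec (ny i)) := by
  obtain ⟨a, ha⟩ := Cfsg.Agent.S5552.dot8 v.2 (ny_mem i)
  obtain ⟨b, hb⟩ := Cfsg.Agent.S5552.dot8 w.2 (ny_mem i)
  have h1 : dotInt ((v - w : leechLattice) : GolayPt → ℤ) (dec (ny i)) = 8 * a - 8 * b := by
    have : ((v - w : leechLattice) : GolayPt → ℤ) = (v : GolayPt → ℤ) + -(w : GolayPt → ℤ) := by
      rw [AddSubgroup.coe_sub, sub_eq_add_neg]
    rw [this, Cfsg.dotInt_add_left, Cfsg.dotInt_neg_left, ha, hb]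
    ring
  have h2 := congrArg (fun c => c.testBit i) h
  simp only [testBit_cc, ha, hb, decide_eq_decide] at h2
  rw [h1]
  by_cases h3 : a % 2 = 0
  · have e2 : (8 * a) % 16 = 0 := by omega
    have e3 : (8 * b) % 16 = 0 := by
      by_contra e4
      exact (h2.2 e4) e2
    omega
  · have e2 : (8 * a) % 16 ≠ 0 := by omega
    have e3 := h2.1 e2
    omega

/-! ### Fixed vectors -/

/-- The orbit of a point. -/
def cid (p : GolayPt) : Fin 8 := Fin.ofNat 8 (cidL.getD (idx p) 0)

/-- Representatives of the orbits. -/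
def rep (l : Fin 8) : GolayPt := pt (repL.getD l 0)

theorem xi3_pt {i : ℕ} (hi : i < 24) : xi3 (pt i) = pt (ap c3 i) := by
  rw [← pt_idx (xi3 (pt i)), idx_xi3, idx_pt hi]

theorem ap3_lt {i : ℕ} (hi : i < 24) : ap c3 i < 24 :=
  Cfsg.Agent.Lib.Golay.valid_ap_lt (isM24_valid c3_isM24) hi

theorem iter_fix {x : GolayPt → ℤ} (hx : ∀ p, x (xi3 p) = x p) (n : ℕ) {i : ℕ} (hi : i < 24) :
    (ap c3)^[n] i < 24 ∧ x (pt ((ap c3)^[n] i)) = x (pt i) := by
  induction n with
  | zero => exact ⟨hi, rfl⟩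
  | succ n ih =>
    rw [Function.iterate_succ_apply']
    refine ⟨ap3_lt ih.1, ?_⟩
    rw [← xi3_pt ih.1, hx, ih.2]

theorem orb_chain : ∀ i < 24, ∃ n < 3, (ap c3)^[n] i = repL.getD (cidL.getD i 0 % 8) 0 := by
  decide +kernel

theorem eq_rep {x : GolayPt → ℤ} (hx : ∀ p, x (xi3 p) = x p) (p : GolayPt) : x p = x (rep (cid p)) := by
  obtain ⟨n, -, hn⟩ := orb_chain (idx p) (idx_lt p)
  have h1 := (iter_fix hx n (idx_lt p)).2
  rw [hn, pt_idx] at h1
  rw [← h1]
  rfl

/-- The sum of the dual vector on an orbit. -/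
def Yd (i l : Fin 8) : ℤ := ∑ p, if cid p = l then dec (ny i) p else 0

/-- The value of the vector number `2 ^ i` on an orbit. -/
def Bd (i l : Fin 8) : ℤ := dec (tab (2 ^ (i : ℕ))) (rep l)

theorem Bd_apply (i : Fin 8) (p : GolayPt) : dec (tab (2 ^ (i : ℕ))) p = Bd i (cid p) := by
  have hx : ∀ q, dec (tab (2 ^ (i : ℕ))) (xi3 q) = dec (tab (2 ^ (i : ℕ))) q := by
    intro q
    have h1 := congrArg (fun v : leechLattice => (v : GolayPt → ℤ) q) (x3_B i i.2)
    simp only [x3_apply, M_coe] at h1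
    exact h1
  exact eq_rep hx p

theorem mat_eq : ∀ j l : Fin 8, ∑ i : Fin 8, Yd i j * Bd i l = if j = l then 8 else 0 := by
  decide +kernel

theorem dot_fixed {x : GolayPt → ℤ} (hx : ∀ p, x (xi3 p) = x p) (i : Fin 8) :
    dotInt x (dec (ny i)) = ∑ j : Fin 8, x (rep j) * Yd i j := by
  unfold dotInt Yd
  simp only [Finset.mul_sum]
  rw [Finset.sum_comm]
  apply Finset.sum_congr rfl
  intro p _
  rw [Finset.sum_eq_single (cid p)]
  · rw [if_pos rfl, ← eq_rep hx]
  · intro l _ hl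
    rw [if_neg (Ne.symm hl), mul_zero]
  · simp

/-- A fixed vector, orthogonal modulo `16` to the dual vectors, is a double. -/
theorem fixed_two {w : leechLattice} (hw : (x3 : Equiv.Perm leechLattice) w = w)
    (h16 : ∀ i : Fin 8, (16 : ℤ) ∣ dotInt (w : GolayPt → ℤ) (dec (ny i))) : ∃ u : leechLattice, w = u + u := by
  have hx : ∀ p, (w : GolayPt → ℤ) (xi3 p) = (w : GolayPt → ℤ) p := by
    intro p
    have := congrArg (fun v : leechLattice => (v : GolayPt → ℤ) p) hw
    simpa only [x3_apply] using this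
  choose m hm using h16
  set F : Fin 8 → ℤ := fun l => (w : GolayPt → ℤ) (rep l) with hF
  have key : ∀ l, F l = 2 * ∑ i : Fin 8, m i * Bd i l := by
    intro l
    have h1 : ∑ i : Fin 8, (∑ j : Fin 8, F j * Yd i j) * Bd i l = 8 * F l := by
      simp only [Finset.sum_mul]
      rw [Finset.sum_comm]
      have h2 : ∀ j : Fin 8, ∑ i : Fin 8, F j * Yd i j * Bd i l = F j * (if j = l then 8 else 0) := by
        intro j
        rw [← mat_eq j l, Finset.mul_sum]
        exact Finset.sum_congr rfl fun i _ => by ring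
      simp only [h2]
      rw [Finset.sum_eq_single l]
      · rw [if_pos rfl]; ring
      · intro j _ hj
        rw [if_neg hj, mul_zero]
      · simp
    have h3 : ∀ i : Fin 8, ∑ j : Fin 8, F j * Yd i j = 16 * m i := by
      intro i
      rw [← hm i, dot_fixed hx]
    simp only [h3] at h1
    have h4 : ∑ i : Fin 8, 16 * m i * Bd i l = 8 * (2 * ∑ i : Fin 8, m i * Bd i l) := by
      rw [Finset.mul_sum, Finset.mul_sum]
      exact Finset.sum_congr rfl fun i _ => by ring
    rw [h4] at h1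
    linarith
  refine ⟨∑ i : Fin 8, m i • M (2 ^ (i : ℕ)), ?_⟩
  apply Subtype.ext
  funext p
  have h5 : ((∑ i : Fin 8, m i • M (2 ^ (i : ℕ)) : leechLattice) : GolayPt → ℤ) p = ∑ i : Fin 8, m i * Bd i (cid p) := by
    simp only [AddSubgroup.val_finsetSum, Finset.sum_apply, AddSubgroup.coe_zsmul, Pi.smul_apply, smul_eq_mul, M_coe, Bd_apply]
  show (w : GolayPt → ℤ) p = ((∑ i : Fin 8, m i • M (2 ^ (i : ℕ)) : leechLattice) : GolayPt → ℤ) p + ((∑ i : Fin 8, m i • M (2 ^ (i : ℕ)) : leechLattice) : GolayPt → ℤ) p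
  rw [h5, eq_rep hx p]
  have := key (cid p)
  simp only [hF] at this
  rw [this]
  ring

theorem xi3_three (p : GolayPt) : xi3 (xi3 (xi3 p)) = p := by
  have h : ∀ i < 24, ap c3 (ap c3 (ap c3 i)) = i := by decide +kernel
  apply Cfsg.Agent.Lib.Golay.idx_injective
  simp only [idx_xi3]
  exact h _ (idx_lt p)

theorem x3_three (v : leechLattice) :
    (x3 : Equiv.Perm leechLattice) ((x3 : Equiv.Perm leechLattice) ((x3 : Equiv.Perm leechLattice) v)) = v := by
  apply Subtype.ext
  funext p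
  simp only [x3_apply, xi3_three]

theorem fixCl_M {a : ℕ} (h : a < 256) : FixCl x3 (M a) := ⟨U a h, x3_M h⟩

/-- The sum over the orbit of a vector fixed modulo two. -/
theorem exists_N {v : leechLattice} (hv : FixCl x3 v) : ∃ N c : leechLattice, (x3 : Equiv.Perm leechLattice) N = N ∧ N = v + (c + c) := by
  obtain ⟨u, hu⟩ := hv
  set T : leechLattice → leechLattice := fun a => (x3 : Equiv.Perm leechLattice) a with hT
  have hadd : ∀ a b, T (a + b) = T a + T b := fun a b => x3.2.1 a b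
  have h1 : T v = v + (u + u) := hu
  have h5 : T (T (T v)) = v := x3_three v
  have h2 : T (T v) = v + ((u + T u) + (u + T u)) := by
    rw [h1, hadd, hadd, h1]
    abel
  refine ⟨v + T v + T (T v), v + u + (u + T u), ?_, ?_⟩
  · show T (v + T v + T (T v)) = _
    rw [hadd, hadd, h5]
    abel
  · rw [h2, h1]
    abel

/-- A vector fixed modulo two by `x3` is congruent to the minimal vector of its number. -/
theorem exists_cong_M {v : leechLattice} (hv : FixCl x3 v) :
    ∃ u : leechLattice, v = M (cc (v : GolayPt → ℤ)) + (u + u) := by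
  set a := cc (v : GolayPt → ℤ) with ha
  have hlt : a < 256 := cc_lt _
  obtain ⟨N, c, hN, hNv⟩ := exists_N hv
  obtain ⟨N', c', hN', hNv'⟩ := exists_N (fixCl_M hlt)
  have hcc : cc (N : GolayPt → ℤ) = cc (N' : GolayPt → ℤ) := by
    rw [hNv, hNv', cc_congr, cc_congr, cc_M hlt]
  have hfix : (x3 : Equiv.Perm leechLattice) (N - N') = N - N' := by
    have h6 := x3.2.1 (N - N') N'
    rw [sub_add_cancel, hN, hN'] at h6
    rw [eq_sub_iff_add_eq]
    exact h6.symm
  obtain ⟨u', hu'⟩ := fixed_two hfix (dvd_of_cc_eq hcc)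
  refine ⟨u' + c' - c, ?_⟩
  have h8 : N = N' + (u' + u') := by
    rw [← hu']
    abel
  have h9 : v = N - (c + c) := by
    rw [hNv]
    abel
  rw [h9, h8, hNv']
  abel

end Cfsg.Agent.Lib.Three1
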