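import Mathlib
import Cfsg.Agent.Lib.Three2
import Cfsg.Agent.Lib.Five3
import Cfsg.Agent.Lib.GolayClasses

/-!
# Explicit elements of the centralizer of `x3`. The stabilizer of a frame in the centralizer is small.
-/

set_option autoImplicit false
set_option maxRecDepth 100000

open Cfsg Cfsg.Agent.Lib.Leech Cfsg.Agent.Lib.Co0Mono Cfsg.Agent.Lib.Co0Frame
open Cfsg.Agent.Lib.ThreeData Cfsg.Agent.Lib.CoVec Cfsg.Agent.Lib.MonsterSplit Cfsg.Agent.Lib.Three1
open Cfsg.Agent.Lib.Three2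
open Cfsg.Agent.Lib.Five3 (co0_ext_e8 eN dec_eN eN_st)
open Cfsg.Agent.Lib.Golay (idx pt idx_pt pt_idx idx_lt idxL mem_idxL ap bit bit_eq ofMask mem_ofMask
  decode idx_decode isM24 decode_mem_M24 isM24_valid reduce S48L exists_S48_of_agree toMask RepBy repBy_decode idC decode_idC)
open Cfsg.Agent.S0398 (e8 e8_apply neg_center)

namespace Cfsg.Agent.Lib.Three3

theorem x3_acts : ActsOn x3 (actPerm c3) := by
  rw [x3_eq]
  exact actPerm_acts c3_isM24

/-- The commutation can be checked on the frame. -/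
theorem comm_of {g : Co0} {f : ℕ → ℕ} (hf : ActsOn g f)
    (h : ∀ i < 24, f (actPerm c3 (eN i)) = actPerm c3 (f (eN i))) : g ∈ C3 := by
  rw [mem_C3]
  apply co0_ext_e8
  intro p
  have h1 := hf.mul x3_acts (eN (idx p)) (eN_st p)
  have h2 := x3_acts.mul hf (eN (idx p)) (eN_st p)
  apply Subtype.ext
  have e : (⟨dec (eN (idx p)), (eN_st p).2.1⟩ : leechLattice) = e8 p := Subtype.ext (dec_eN p)
  rw [e] at h1 h2
  rw [h1.2, h2.2]
  show dec (f (actPerm c3 (eN (idx p)))) = dec (actPerm c3 (f (eN (idx p))))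
  rw [h _ (idx_lt p)]

/-- The number of the image of a vector. -/
theorem A_of {g : Co0} {f : ℕ → ℕ} (hf : ActsOn g f) (a : ℕ) : A g a = ccN (f (tab a)) := by
  unfold A
  rw [← cc_dec, ← (hf (tab a) (tab_st a)).2]
  rfl

/-! ### Explicit elements -/

theorem g7_ok : isM24 g7c = true ∧ Nat.blt g7m (2 ^ 24) = true ∧ reduce g7m = 0 := by decide +kernel

theorem g7m_lt : g7m < 2 ^ 24 := by
  have := g7_ok.2.1
  simpa [Nat.blt_eq] using this

/-- A monomial element acting as a seven-cycle. -/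
noncomputable def g7 : Co0 := monoCo0 (ofMask_mem_codeSets g7m_lt g7_ok.2.2) (decode_mem_M24 g7_ok.1)

theorem g7_acts : ActsOn g7 (actMono g7c g7m) := actMono_spec g7_ok.1 g7m_lt g7_ok.2.2

theorem g7_mem : g7 ∈ C3 := comm_of g7_acts (by decide +kernel)

theorem gc_ok : (isM24 gcca = true ∧ Nat.blt gcma (2 ^ 24) = true ∧ reduce gcma = 0) ∧
    (isM24 gccb = true ∧ Nat.blt gcmb (2 ^ 24) = true ∧ reduce gcmb = 0) := by decide +kernel

theorem gcma_lt : gcma < 2 ^ 24 := by
  have := gc_ok.1.2.1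
  simpa [Nat.blt_eq] using this

theorem gcmb_lt : gcmb < 2 ^ 24 := by
  have := gc_ok.2.2.1
  simpa [Nat.blt_eq] using this

/-- An element acting as a three-cycle. -/
noncomputable def gc : Co0 :=
  monoCo0 (ofMask_mem_codeSets gcma_lt gc_ok.1.2.2) (decode_mem_M24 gc_ok.1.1) * xiCo0 *
    monoCo0 (ofMask_mem_codeSets gcmb_lt gc_ok.2.2.2) (decode_mem_M24 gc_ok.2.1)

/-- The action on codes. -/
def fc (n : ℕ) : ℕ := actMono gcca gcma (actXi (actMono gccb gcmb n))

theorem gc_acts : ActsOn gc fc :=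
  ((actMono_spec gc_ok.1.1 gcma_lt gc_ok.1.2.2).mul actXi_acts).mul
    (actMono_spec gc_ok.2.1 gcmb_lt gc_ok.2.2.2)

theorem gc_mem : gc ∈ C3 := comm_of gc_acts (by decide +kernel)

theorem g9_ok : (isM24 g9ca = true ∧ Nat.blt g9ma (2 ^ 24) = true ∧ reduce g9ma = 0) ∧
    (isM24 g9cb = true ∧ Nat.blt g9mb (2 ^ 24) = true ∧ reduce g9mb = 0) ∧
    (isM24 g9cc = true ∧ Nat.blt g9mc (2 ^ 24) = true ∧ reduce g9mc = 0) ∧
    (isM24 g9cd = true ∧ Nat.blt g9md (2 ^ 24) = true ∧ reduce g9md = 0) := by decide +kernel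

theorem g9ma_lt : g9ma < 2 ^ 24 := by
  have := g9_ok.1.2.1
  simpa [Nat.blt_eq] using this

theorem g9mb_lt : g9mb < 2 ^ 24 := by
  have := g9_ok.2.1.2.1
  simpa [Nat.blt_eq] using this

theorem g9mc_lt : g9mc < 2 ^ 24 := by
  have := g9_ok.2.2.1.2.1
  simpa [Nat.blt_eq] using this

theorem g9md_lt : g9md < 2 ^ 24 := by
  have := g9_ok.2.2.2.2.1
  simpa [Nat.blt_eq] using this

/-- An element acting as a nine-cycle. -/
noncomputable def g9 : Co0 :=
  monoCo0 (ofMask_mem_codeSets g9ma_lt g9_ok.1.2.2) (decode_mem_M24 g9_ok.1.1) * xiCo0 *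
    monoCo0 (ofMask_mem_codeSets g9mb_lt g9_ok.2.1.2.2) (decode_mem_M24 g9_ok.2.1.1) * xiCo0 *
    monoCo0 (ofMask_mem_codeSets g9mc_lt g9_ok.2.2.1.2.2) (decode_mem_M24 g9_ok.2.2.1.1) * xiCo0 *
    monoCo0 (ofMask_mem_codeSets g9md_lt g9_ok.2.2.2.2.2) (decode_mem_M24 g9_ok.2.2.2.1)

/-- The action on codes. -/
def f9 (n : ℕ) : ℕ :=
  actMono g9ca g9ma (actXi (actMono g9cb g9mb (actXi (actMono g9cc g9mc (actXi (actMono g9cd g9md n))))))

theorem g9_acts : ActsOn g9 f9 :=
  (((((((actMono_spec g9_ok.1.1 g9ma_lt g9_ok.1.2.2).mul actXi_acts).mul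
    (actMono_spec g9_ok.2.1.1 g9mb_lt g9_ok.2.1.2.2)).mul actXi_acts).mul
    (actMono_spec g9_ok.2.2.1.1 g9mc_lt g9_ok.2.2.1.2.2)).mul actXi_acts).mul
    (actMono_spec g9_ok.2.2.2.1 g9md_lt g9_ok.2.2.2.2.2))

theorem g9_mem : g9 ∈ C3 := comm_of g9_acts (by decide +kernel)

/-! ### The frame -/

theorem tab103 : tab 103 = eN 5 := by decide +kernel

theorem M103 : M 103 = e8 (pt 5) := by
  apply Subtype.ext
  rw [M_coe, tab103]
  exact dec_eN (pt 5)

theorem nt103 : nt 103 = 64 := by decide +kernel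

/-! ### The stabilizer of the frame -/

/-- The mask of a union of orbits. -/
def dOf (b : ℕ) : ℕ := Nat.ofBits (fun i : Fin 24 => b.testBit (cidL.getD i 0))

theorem testBit_dOf (b : ℕ) (p : GolayPt) : (dOf b).testBit (idx p) = b.testBit (cidL.getD (idx p) 0) := by
  unfold dOf
  rw [Nat.testBit_ofBits_lt _ _ (idx_lt p)]

/-- The invariant sets of the code. -/
def D3L : Finset ℕ := (Finset.range 256).filter (fun b => reduce (dOf b) = 0)

theorem card_D3L : D3L.card = 16 := by decide +kernel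

/-- The invariant sets of the code. -/
noncomputable def D3F : Finset (Finset GolayPt) := D3L.image (fun b => ofMask (dOf b))

theorem card_D3F : D3F.card ≤ 16 := by
  rw [← card_D3L]
  exact Finset.card_image_le

theorem cid_val : ∀ i < 24, cidL.getD i 0 < 8 := by decide +kernel

theorem mem_D3F {c : Finset GolayPt} (hc : c ∈ codeSets) (hinv : ∀ p, xi3 p ∈ c ↔ p ∈ c) : c ∈ D3F := by
  classical
  set b : ℕ := Nat.ofBits (fun j : Fin 8 => decide (rep j ∈ c)) with hb
  have hblt : b < 256 := Nat.ofBits_lt_two_pow (n := 8) _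
  have hx : ∀ p, (if xi3 p ∈ c then (1 : ℤ) else 0) = if p ∈ c then 1 else 0 := by
    intro p
    by_cases h : p ∈ c
    · rw [if_pos h, if_pos ((hinv p).2 h)]
    · rw [if_neg h, if_neg (fun e => h ((hinv p).1 e))]
  have hrep : ∀ p, p ∈ c ↔ rep (cid p) ∈ c := by
    intro p
    have := eq_rep (x := fun p => if p ∈ c then (1 : ℤ) else 0) hx p
    by_cases h : p ∈ c <;> by_cases h' : rep (cid p) ∈ c <;> simp_all
  have hbit : ∀ p, (dOf b).testBit (idx p) = decide (p ∈ c) := by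
    intro p
    rw [testBit_dOf]
    have h1 := cid_val _ (idx_lt p)
    have h2 : (cid p : ℕ) = cidL.getD (idx p) 0 := by
      show (cidL.getD (idx p) 0) % 8 = _
      exact Nat.mod_eq_of_lt h1
    rw [← h2, hb, Nat.testBit_ofBits_lt _ _ (cid p).2]
    simp only [Fin.eta]
    exact decide_eq_decide.2 (hrep p).symm
  have hc' : ofMask (dOf b) = c := by
    ext p
    rw [mem_ofMask, hbit]
    simp
  refine Finset.mem_image.2 ⟨b, Finset.mem_filter.2 ⟨Finset.mem_range.2 hblt, ?_⟩, hc'⟩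
  have h3 := (Cfsg.Agent.Lib.Golay.mem_supports_iff c).1 hc
  have hd : dOf b < 2 ^ 24 := Nat.ofBits_lt_two_pow _
  rw [← hc', Cfsg.Agent.Lib.Golay.toMask_ofMask hd] at h3
  exact h3

/-- The elements of the five-point stabilizer commuting with the permutation. -/
def S3L : List ℕ := S48L.filter (fun s => idxL.all fun i => Nat.beq (ap s (ap c3 i)) (ap c3 (ap s i)))

theorem U24_ok : (List.range 24).all (fun a => isM24 (U24L.getD a 0) && Nat.beq (ap (U24L.getD a 0) 23) a &&
    idxL.all (fun i => Nat.beq (ap (U24L.getD a 0) (ap c3 i)) (ap c3 (ap (U24L.getD a 0) i)))) = true := by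
  decide +kernel

theorem St21_ok : St21L.all (fun c => isM24 c) = true := by decide +kernel

theorem St21_len : St21L.length = 21 := by decide +kernel

theorem T21_ok : T21L.all (fun c => isM24 c && Nat.beq (ap c 23) 23 && Nat.beq (ap c 0) 0 && Nat.beq (ap c 1) 1 &&
    Nat.beq (ap c 3) (ap c3 (ap c 2))) = true := by decide +kernel

theorem T21_cover : idxL.all (fun b => Nat.beq b 23 || Nat.beq b 0 || Nat.beq b 1 || T21L.any (fun c => Nat.beq (ap c 2) b)) = true := by
  decide +kernel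

/-- The commuting test. -/
def commT (x u s : ℕ) : Bool := idxL.all fun i => Nat.beq (ap x (Cfsg.Agent.Lib.Golay.fn2 u s i)) (Cfsg.Agent.Lib.Golay.fn2 u s (ap x i))

theorem commT_of {x u s : ℕ} (hx : Cfsg.Agent.Lib.Golay.valid x = true) (hu : Cfsg.Agent.Lib.Golay.valid u = true)
    (hs : Cfsg.Agent.Lib.Golay.valid s = true)
    (h : decode x * (decode u * decode s) = (decode u * decode s) * decode x) : commT x u s = true := by
  simp only [commT, List.all_eq_true, Nat.beq_eq]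
  intro i hi
  have hi' := mem_idxL.1 hi
  have h1 := ((repBy_decode hx).mul (Cfsg.Agent.Lib.Golay.repBy_fn2 hu hs)).val hi'
  have h2 := ((Cfsg.Agent.Lib.Golay.repBy_fn2 hu hs).mul (repBy_decode hx)).val hi'
  rw [h] at h1
  exact h1.symm.trans h2

/-- All elements commuting with the permutation in the cosets are in the list. -/
theorem T21_comm : T21L.all (fun u => S48L.all (fun s => !(commT c3 u s) ||
    St21L.any (fun t => idxL.all (fun i => Nat.beq (ap t i) (Cfsg.Agent.Lib.Golay.fn2 u s i))))) = true := by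
  decide +kernel

/-- The centralizer in `M24`. -/
noncomputable def S3F : Finset (Equiv.Perm GolayPt) :=
  ((Finset.range 24) ×ˢ St21L.toFinset).image (fun p => decode (U24L.getD p.1 0) * decode p.2)

theorem card_S3F : S3F.card ≤ 504 := by
  refine Finset.card_image_le.trans ?_
  rw [Finset.card_product, Finset.card_range]
  have := List.toFinset_card_le St21L
  rw [St21_len] at this
  omega

theorem chain3 : ap c3 23 = 0 ∧ ap c3 0 = 1 ∧ ap c3 1 = 23 ∧ ap c3 2 = 3 := by decide +kernel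

theorem mem_S3F {σ : Equiv.Perm GolayPt} (hσ : σ ∈ M24) (hc : σ * xi3 = xi3 * σ) : σ ∈ S3F := by
  classical
  obtain ⟨e1, e2, e3, e4⟩ := chain3
  have hx : RepBy xi3 (ap c3) := idx_xi3
  -- the first coset
  set a := idx (σ (pt 23)) with ha
  have halt : a < 24 := idx_lt _
  have hU := List.all_eq_true.1 U24_ok a (List.mem_range.2 halt)
  simp only [Bool.and_eq_true] at hU
  obtain ⟨⟨hU1, hU2⟩, hU3⟩ := hU
  set u₀ := U24L.getD a 0 with hu₀
  have hv₀ := isM24_valid hU1
  have hu₀c : decode u₀ * xi3 = xi3 * decode u₀ := by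
    refine Cfsg.Agent.Lib.Golay.comm_of_repBy (repBy_decode hv₀) hx hx ?_
    intro i hi
    exact Nat.eq_of_beq_eq_true ((List.all_eq_true.1 hU3) i (mem_idxL.2 hi))
  set σ₁ := (decode u₀)⁻¹ * σ with hσ₁
  have hσ₁m : σ₁ ∈ M24 := M24.mul_mem (M24.inv_mem (decode_mem_M24 hU1)) hσ
  have hσ₁c : σ₁ * xi3 = xi3 * σ₁ := by
    have h5 : (decode u₀)⁻¹ * xi3 = xi3 * (decode u₀)⁻¹ := by
      have : xi3 = (decode u₀)⁻¹ * (xi3 * decode u₀) := by rw [← hu₀c]; group
      calc (decode u₀)⁻¹ * xi3 = (decode u₀)⁻¹ * xi3 * (decode u₀ * (decode u₀)⁻¹) := by group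
        _ = (decode u₀)⁻¹ * (xi3 * decode u₀) * (decode u₀)⁻¹ := by group
        _ = xi3 * (decode u₀)⁻¹ := by rw [← this]
    calc σ₁ * xi3 = (decode u₀)⁻¹ * (σ * xi3) := by rw [hσ₁]; group
      _ = (decode u₀)⁻¹ * xi3 * σ := by rw [hc]; group
      _ = xi3 * σ₁ := by rw [h5, hσ₁]; group
  have hcp : ∀ p, σ₁ (xi3 p) = xi3 (σ₁ p) := fun p => Equiv.congr_fun hσ₁c p
  have h23 : σ₁ (pt 23) = pt 23 := by
    rw [hσ₁, Equiv.Perm.mul_apply, Equiv.Perm.inv_eq_iff_eq, Cfsg.Agent.Lib.Golay.decode_pt hv₀ (by norm_num),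
      Nat.eq_of_beq_eq_true hU2, ha, pt_idx]
  have h0 : σ₁ (pt 0) = pt 0 := by
    rw [← e1, ← xi3_pt (by norm_num), hcp, h23]
  have h1 : σ₁ (pt 1) = pt 1 := by
    rw [← e2, ← xi3_pt (by norm_num), hcp, h0]
  -- the image of the fourth point
  set b := idx (σ₁ (pt 2)) with hb
  have hblt : b < 24 := idx_lt _
  have hσb : σ₁ (pt 2) = pt b := (pt_idx _).symm
  have hne : ∀ {i j : ℕ}, i < 24 → j < 24 → i ≠ j → σ₁ (pt i) ≠ σ₁ (pt j) := by
    intro i j hi hj hij h
    exact hij (Cfsg.Agent.Lib.Golay.pt_injOn hi hj (σ₁.injective h))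
  have hb1 : ¬ b = 23 := by
    intro h
    apply hne (i := 2) (j := 23) (by norm_num) (by norm_num) (by norm_num)
    rw [hσb, h23, h]
  have hb2 : ¬ b = 0 := by
    intro h
    apply hne (i := 2) (j := 0) (by norm_num) (by norm_num) (by norm_num)
    rw [hσb, h0, h]
  have hb3 : ¬ b = 1 := by
    intro h
    apply hne (i := 2) (j := 1) (by norm_num) (by norm_num) (by norm_num)
    rw [hσb, h1, h]
  have hall := List.all_eq_true.1 T21_cover b (mem_idxL.2 hblt)
  simp only [Bool.or_eq_true, Nat.beq_eq, List.any_eq_true] at hall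
  obtain ⟨u, huL, hu2⟩ : ∃ u ∈ T21L, ap u 2 = b := by
    rcases hall with ((h | h) | h) | ⟨c, h4, h5⟩
    · exact absurd h hb1
    · exact absurd h hb2
    · exact absurd h hb3
    · exact ⟨c, h4, h5⟩
  have hok := List.all_eq_true.1 T21_ok u huL
  simp only [Bool.and_eq_true] at hok
  obtain ⟨⟨⟨⟨hT1, hT2⟩, hT3⟩, hT4⟩, hT5⟩ := hok
  have hv := isM24_valid hT1
  have hσ3 : σ₁ (pt 3) = pt (ap c3 b) := by
    rw [← e4, ← xi3_pt (by norm_num), hcp, hσb, xi3_pt hblt]
  obtain ⟨s, hs, hσs⟩ := exists_S48_of_agree hσ₁m (decode_mem_M24 hT1) (by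
    intro i hi
    simp only [List.mem_cons, List.not_mem_nil, or_false] at hi
    rcases hi with rfl | rfl | rfl | rfl | rfl
    · rw [hσ3, Cfsg.Agent.Lib.Golay.decode_pt hv (by norm_num), Nat.eq_of_beq_eq_true hT5, hu2]
    · rw [hσb, Cfsg.Agent.Lib.Golay.decode_pt hv (by norm_num), hu2]
    · rw [h1, Cfsg.Agent.Lib.Golay.decode_pt hv (by norm_num), Nat.eq_of_beq_eq_true hT4]
    · rw [h0, Cfsg.Agent.Lib.Golay.decode_pt hv (by norm_num), Nat.eq_of_beq_eq_true hT3]
    · rw [h23, Cfsg.Agent.Lib.Golay.decode_pt hv (by norm_num), Nat.eq_of_beq_eq_true hT2])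
  have hsv : Cfsg.Agent.Lib.Golay.valid s = true :=
    isM24_valid (Cfsg.Agent.Lib.Golay.S48L_isM24 s hs)
  have hcv : Cfsg.Agent.Lib.Golay.valid c3 = true := isM24_valid c3_isM24
  have hcomm : decode c3 * (decode u * decode s) = (decode u * decode s) * decode c3 := by
    rw [← hσs]
    exact hσ₁c.symm
  have hcT := commT_of hcv hv hsv hcomm
  have hany := List.all_eq_true.1 (List.all_eq_true.1 T21_comm u huL) s hs
  rw [hcT] at hany
  simp only [Bool.not_true, Bool.false_or, List.any_eq_true] at hany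
  obtain ⟨t, htL, ht⟩ := hany
  have htv : Cfsg.Agent.Lib.Golay.valid t = true := isM24_valid (List.all_eq_true.1 St21_ok t htL)
  have hσt : σ₁ = decode t := by
    rw [hσs]
    apply Cfsg.Agent.Lib.Golay.eq_of_repBy (Cfsg.Agent.Lib.Golay.repBy_fn2 hv hsv) (repBy_decode htv)
    intro i hi
    exact (Nat.eq_of_beq_eq_true (List.all_eq_true.1 ht i (mem_idxL.2 hi))).symm
  refine Finset.mem_image.2 ⟨(a, t), Finset.mem_product.2 ⟨Finset.mem_range.2 halt, List.mem_toFinset.2 htL⟩, ?_⟩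
  show decode u₀ * decode t = σ
  rw [← hσt, hσ₁]
  group

/-- The elements of the centralizer of `x3` fixing the class of the frame are few. -/
theorem exists_mono_stab {g : Co0} (hg : g ∈ C3) (h : A g 103 = 103) :
    ∃ p ∈ D3F ×ˢ S3F, ∃ (hc : p.1 ∈ codeSets) (hσ : p.2 ∈ M24), g = monoCo0 hc hσ := by
  classical
  have h1 := fix_map hg (fixCl_M (a := 103) (by norm_num))
  have h2 : cc ((g : Equiv.Perm leechLattice) (M 103) : leechLattice) = cc (M 103 : GolayPt → ℤ) := by
    rw [cc_M (by norm_num)]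
    exact h
  obtain ⟨u, hu⟩ := cong_of_cc h1 (fixCl_M (by norm_num)) h2
  rw [M103] at hu
  obtain ⟨c, σ, hc, hσ, rfl⟩ := exists_mono_of_cong hu
  have hcomm := mem_C3.1 hg
  unfold x3 at hcomm
  rw [monoCo0_mul, monoCo0_mul] at hcomm
  obtain ⟨h3, h4⟩ := monoCo0_part_eq hcomm
  have h5 : c = c.image (xi3⁻¹ : Equiv.Perm GolayPt) := by
    rw [Finset.image_empty] at h3
    have e1 : symmDiff c ∅ = c := by
      ext q
      simp [Finset.mem_symmDiff]
    have e2 : ∀ x : Finset GolayPt, symmDiff ∅ x = x := by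
      intro x
      ext q
      simp [Finset.mem_symmDiff]
    rw [e1, e2] at h3
    exact h3
  refine ⟨(c, σ), Finset.mem_product.2 ⟨mem_D3F hc ?_, mem_S3F hσ h4.symm⟩, hc, hσ, rfl⟩
  intro p
  constructor
  · intro hp
    rw [h5]
    exact Finset.mem_image.2 ⟨xi3 p, hp, by simp⟩
  · intro hp
    rw [h5] at hp
    obtain ⟨q, hq, e⟩ := Finset.mem_image.1 hp
    have : q = xi3 p := by
      rw [← e]
      simp
    rw [← this]
    exact hq

/-- The action of the centralizer on the numbers. -/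
noncomputable def actFin : MulAction C3 (Fin 256) where
  smul g a := ⟨A g a, A_lt _ _⟩
  one_smul a := Fin.ext (A_one a.2)
  mul_smul g h a := Fin.ext (A_mul h.2 a.2)

theorem card_frames : ((Finset.univ : Finset (Fin 256)).filter (fun a : Fin 256 => nt (a : ℕ) = 64)).card = 135 := by decide +kernel

/-- The order of the centralizer. -/
theorem card_C3_le : Nat.card C3 ≤ 1088640 := by
  classical
  letI := actFin
  let a₀ : Fin 256 := ⟨103, by norm_num⟩
  have h1 : (MulAction.stabilizer C3 a₀).index = (MulAction.orbit C3 a₀).ncard := MulAction.index_stabilizer _ _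
  have h2 : (MulAction.orbit C3 a₀).ncard ≤ 135 := by
    rw [← card_frames, ← Set.ncard_coe_finset]
    apply Set.ncard_le_ncard _ (Finset.finite_toSet _)
    rintro _ ⟨g, rfl⟩
    have h4 := A_norm g.2 (a := 103) (by norm_num) nt103
    exact Finset.mem_coe.2 (Finset.mem_filter.2 ⟨Finset.mem_univ _, h4⟩)
  have h3 : Nat.card (MulAction.stabilizer C3 a₀) ≤ 8064 := by
    have hex : ∀ g : MulAction.stabilizer C3 a₀, ∃ p : ↥(D3F ×ˢ S3F), ∃ (hc : p.1.1 ∈ codeSets) (hσ : p.1.2 ∈ M24),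
        ((g : C3) : Co0) = monoCo0 hc hσ := by
      intro g
      have hg : A ((g : C3) : Co0) 103 = 103 := by
        have h7 : (g : C3) • a₀ = a₀ := MulAction.mem_stabilizer_iff.1 g.2
        exact congrArg Fin.val h7
      obtain ⟨p, hp, hc, hσ, e⟩ := exists_mono_stab (g : C3).2 hg
      exact ⟨⟨p, hp⟩, hc, hσ, e⟩
    choose f hf1 hf2 hf3 using hex
    have hinj : Function.Injective f := by
      intro g g' h
      apply Subtype.ext
      apply Subtype.ext
      rw [hf3 g, hf3 g']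
      apply monoCo0_congr
      · rw [h]
      · rw [h]
    have h4 := Nat.card_le_card_of_injective f hinj
    have h8 : Nat.card ↥(D3F ×ˢ S3F) = (D3F ×ˢ S3F).card := by
      rw [Nat.card_eq_fintype_card, Fintype.card_coe]
    rw [h8, Finset.card_product] at h4
    have h5 := card_D3F
    have h6 := card_S3F
    calc _ ≤ D3F.card * S3F.card := h4
      _ ≤ 16 * 504 := Nat.mul_le_mul h5 h6
      _ = 8064 := by norm_num
  have h4 := Subgroup.card_mul_index (MulAction.stabilizer C3 a₀)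
  rw [← h4, h1]
  calc _ ≤ 8064 * 135 := Nat.mul_le_mul h3 h2
    _ = 1088640 := by norm_num

end Cfsg.Agent.Lib.Three3
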