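import Mathlib
import Cfsg.Agent.Lib.Three3
import Cfsg.Agent.Lib.FiveGp1

/-!
# The centralizer of `x3` modulo `⟨x3, -1⟩` is the alternating group of degree nine.

The frames among the classes are partitioned into nine subspaces, which are permuted by the centralizer.
-/

set_option autoImplicit false
set_option maxRecDepth 100000

open Cfsg Cfsg.Agent.Lib.Leech Cfsg.Agent.Lib.Co0Mono Cfsg.Agent.Lib.Co0Frame
open Cfsg.Agent.Lib.ThreeData Cfsg.Agent.Lib.CoVec Cfsg.Agent.Lib.MonsterSplit Cfsg.Agent.Lib.Three1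
open Cfsg.Agent.Lib.Three2 Cfsg.Agent.Lib.Three3
open Cfsg.Agent.Lib.Five3 (eN dec_eN eN_st)
open Cfsg.Agent.Lib.Golay (idx pt idx_pt pt_idx idx_lt idxL mem_idxL ap)
open Cfsg.Agent.S0398 (e8 e8_apply neg_center)

namespace Cfsg.Agent.Lib.Three4

/-! ### The partition -/

/-- The number of the subspace of a class. -/
def spi (a : ℕ) : ℕ := spL.getD a 0

theorem spi_lt : (List.range 256).all (fun a => Nat.blt (spi a) 9) = true := by decide +kernel

theorem spi_lt' {a : ℕ} (ha : a < 256) : spi a < 9 := by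
  have := List.all_eq_true.1 spi_lt a (List.mem_range.2 ha)
  simpa [Nat.blt_eq] using this

/-- A frame in the subspace. -/
def rS (i : ℕ) : ℕ := repS.getD i 0

theorem rS_ok : (List.range 9).all (fun i => Nat.blt (rS i) 256 && Nat.beq (nt (rS i)) 64 && Nat.beq (spi (rS i)) i) = true := by
  decide +kernel

theorem rS_spec {i : ℕ} (hi : i < 9) : rS i < 256 ∧ nt (rS i) = 64 ∧ spi (rS i) = i := by
  have := List.all_eq_true.1 rS_ok i (List.mem_range.2 hi)
  simp only [Bool.and_eq_true, Nat.blt_eq, Nat.beq_eq] at this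
  exact ⟨this.1.1, this.1.2, this.2⟩

/-- The elements of the centralizer permuting the subspaces. -/
def H : Subgroup C3 where
  carrier := {g | ∀ a < 256, ∀ b < 256, nt a = 64 → nt b = 64 → spi a = spi b →
    spi (A (g : Co0) a) = spi (A (g : Co0) b)}
  mul_mem' := by
    intro g h hg hh a ha b hb h1 h2 h3
    have e1 : A ((g * h : C3) : Co0) a = A (g : Co0) (A (h : Co0) a) := A_mul h.2 ha
    have e2 : A ((g * h : C3) : Co0) b = A (g : Co0) (A (h : Co0) b) := A_mul h.2 hb
    rw [e1, e2]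
    exact hg _ (A_lt _ _) _ (A_lt _ _) (A_norm h.2 ha h1) (A_norm h.2 hb h2) (hh a ha b hb h1 h2 h3)
  one_mem' := by
    intro a ha b hb _ _ h3
    have e1 : A ((1 : C3) : Co0) a = a := A_one ha
    have e2 : A ((1 : C3) : Co0) b = b := A_one hb
    rw [e1, e2]
    exact h3
  inv_mem' := by
    intro g hg
    have hmul : ∀ {g h : C3}, (∀ a < 256, ∀ b < 256, nt a = 64 → nt b = 64 → spi a = spi b →
        spi (A (g : Co0) a) = spi (A (g : Co0) b)) → (∀ a < 256, ∀ b < 256, nt a = 64 → nt b = 64 → spi a = spi b →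
        spi (A (h : Co0) a) = spi (A (h : Co0) b)) → ∀ a < 256, ∀ b < 256, nt a = 64 → nt b = 64 → spi a = spi b →
        spi (A ((g * h : C3) : Co0) a) = spi (A ((g * h : C3) : Co0) b) := by
      intro g h hg hh a ha b hb h1 h2 h3
      have e1 : A ((g * h : C3) : Co0) a = A (g : Co0) (A (h : Co0) a) := A_mul h.2 ha
      have e2 : A ((g * h : C3) : Co0) b = A (g : Co0) (A (h : Co0) b) := A_mul h.2 hb
      rw [e1, e2]
      exact hg _ (A_lt _ _) _ (A_lt _ _) (A_norm h.2 ha h1) (A_norm h.2 hb h2) (hh a ha b hb h1 h2 h3)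
    have hpow : ∀ n : ℕ, ∀ a < 256, ∀ b < 256, nt a = 64 → nt b = 64 → spi a = spi b →
        spi (A ((g ^ n : C3) : Co0) a) = spi (A ((g ^ n : C3) : Co0) b) := by
      intro n
      induction n with
      | zero =>
        intro a ha b hb _ _ h3
        rw [pow_zero]
        have e1 : A ((1 : C3) : Co0) a = a := A_one ha
        have e2 : A ((1 : C3) : Co0) b = b := A_one hb
        rw [e1, e2]
        exact h3
      | succ n ih =>
        rw [pow_succ]
        exact hmul ih hg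
    haveI : Finite C3 := Subgroup.instFiniteSubtypeMem _
    have hinv : g⁻¹ = g ^ (orderOf g - 1) := by
      apply inv_eq_of_mul_eq_one_left
      rw [← pow_succ, Nat.sub_add_cancel (orderOf_pos g), pow_orderOf_eq_one]
    rw [Set.mem_ofPred_eq] at hg ⊢
    rw [hinv]
    exact hpow _

/-- The action on the subspaces. -/
noncomputable def fH (g : H) (i : Fin 9) : Fin 9 := ⟨spi (A ((g : C3) : Co0) (rS i)), spi_lt' (A_lt _ _)⟩

theorem fH_mul (g h : H) (i : Fin 9) : fH (g * h) i = fH g (fH h i) := by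
  apply Fin.ext
  show spi (A (((g * h : H) : C3) : Co0) (rS i)) = spi (A ((g : C3) : Co0) (rS (spi (A ((h : C3) : Co0) (rS i)))))
  have hs := rS_spec i.2
  have e1 : A (((g * h : H) : C3) : Co0) (rS i) = A ((g : C3) : Co0) (A ((h : C3) : Co0) (rS i)) := A_mul (h : C3).2 hs.1
  rw [e1]
  have ha : A ((h : C3) : Co0) (rS i) < 256 := A_lt _ _
  have hr := rS_spec (spi_lt' ha)
  exact g.2 _ ha _ hr.1 (A_norm (h : C3).2 hs.1 hs.2.1) hr.2.1 hr.2.2.symm

theorem fH_one (i : Fin 9) : fH 1 i = i := by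
  apply Fin.ext
  show spi (A ((1 : C3) : Co0) (rS i)) = i
  have hs := rS_spec i.2
  have e1 : A ((1 : C3) : Co0) (rS i) = rS i := A_one hs.1
  rw [e1]
  exact hs.2.2

/-- The map to the permutations of the subspaces. -/
noncomputable def rhoH : H →* Equiv.Perm (Fin 9) where
  toFun g := ⟨fH g, fH g⁻¹, fun i => by rw [← fH_mul, inv_mul_cancel, fH_one],
    fun i => by rw [← fH_mul, mul_inv_cancel, fH_one]⟩
  map_one' := Equiv.ext fH_one
  map_mul' g h := Equiv.ext (fH_mul g h)

theorem rhoH_apply (g : H) (i : Fin 9) : (rhoH g i : ℕ) = spi (A ((g : C3) : Co0) (rS i)) := rfl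

/-- Elements with the action on the subspaces given by a table. -/
theorem rhoH_of {g : Co0} (hg : g ∈ C3) {f : ℕ → ℕ} (hf : ActsOn g f) {L : List ℕ}
    (tb : (List.range 256).all (fun a => !(Nat.beq (nt a) 64) || Nat.beq (spi (ccN (f (tab a)))) (L.getD (spi a) 0)) = true)
    {t : Equiv.Perm (Fin 9)} (ht : ∀ i : Fin 9, (t i : ℕ) = L.getD i 0) : t ∈ rhoH.range := by
  have key : ∀ a < 256, nt a = 64 → spi (A g a) = L.getD (spi a) 0 := by
    intro a ha h64
    have h1 := List.all_eq_true.1 tb a (List.mem_range.2 ha)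
    rw [h64] at h1
    have h1' : Nat.beq 64 64 = true := rfl
    simp only [h1', Bool.not_true, Bool.false_or] at h1
    rw [A_of hf]
    exact Nat.eq_of_beq_eq_true h1
  have hH : (⟨g, hg⟩ : C3) ∈ H := by
    intro a ha b hb h1 h2 h3
    show spi (A g a) = spi (A g b)
    rw [key a ha h1, key b hb h2, h3]
  refine ⟨⟨⟨g, hg⟩, hH⟩, Equiv.ext fun i => Fin.ext ?_⟩
  rw [rhoH_apply, ht]
  have hs := rS_spec i.2
  show spi (A g (rS i)) = _
  rw [key _ hs.1 hs.2.1, hs.2.2]

/-! ### The images of the explicit elements -/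

/-- The seven-cycle. -/
def t7 : Equiv.Perm (Fin 9) := ⟨![4, 6, 2, 1, 5, 8, 0, 7, 3], ![6, 3, 2, 8, 0, 4, 1, 7, 5], by decide, by decide⟩

/-- The nine-cycle. -/
def t9 : Equiv.Perm (Fin 9) := ⟨![5, 3, 4, 0, 6, 2, 7, 8, 1], ![3, 8, 5, 1, 2, 0, 4, 6, 7], by decide, by decide⟩

/-- The three-cycle. -/
def tc : Equiv.Perm (Fin 9) := Equiv.swap 7 5 * Equiv.swap 7 6

theorem t7_mem : t7 ∈ rhoH.range :=
  rhoH_of g7_mem g7_acts (L := [4, 6, 2, 1, 5, 8, 0, 7, 3]) (by decide +kernel) (by decide)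

theorem t9_mem : t9 ∈ rhoH.range :=
  rhoH_of g9_mem g9_acts (L := [5, 3, 4, 0, 6, 2, 7, 8, 1]) (by decide +kernel) (by decide)

theorem tc_mem : tc ∈ rhoH.range :=
  rhoH_of gc_mem gc_acts (L := [0, 1, 2, 3, 4, 7, 5, 6, 8]) (by decide +kernel) (by decide)

theorem tc_three : Equiv.Perm.IsThreeCycle tc :=
  Equiv.Perm.isThreeCycle_swap_mul_swap_same (by decide) (by decide) (by decide)

theorem two_trans : ∀ a b : Fin 9, a ≠ b → ∃ i : Fin 9, ∃ j : Fin 7, ∃ k : Fin 9,
    (t9 ^ (i : ℕ) * t7 ^ (j : ℕ) * t9 ^ (k : ℕ)) 0 = a ∧ (t9 ^ (i : ℕ) * t7 ^ (j : ℕ) * t9 ^ (k : ℕ)) 1 = b := by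
  decide +kernel

theorem A9_le : alternatingGroup (Fin 9) ≤ rhoH.range := by
  classical
  set S := rhoH.range with hS
  have h0 : ∀ a b : Fin 9, a ≠ b → ∃ s : S, (s : Equiv.Perm (Fin 9)) 0 = a ∧ (s : Equiv.Perm (Fin 9)) 1 = b := by
    intro a b hab
    obtain ⟨i, j, k, h1, h2⟩ := two_trans a b hab
    exact ⟨⟨_, S.mul_mem (S.mul_mem (S.pow_mem t9_mem _) (S.pow_mem t7_mem _)) (S.pow_mem t9_mem _)⟩, h1, h2⟩
  have h2 : MulAction.IsMultiplyPretransitive S (Fin 9) 2 := by
    rw [MulAction.is_two_pretransitive_iff]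
    intro a b c d hab hcd
    obtain ⟨s₁, h1, h2⟩ := h0 a b hab
    obtain ⟨s₂, h3, h4⟩ := h0 c d hcd
    refine ⟨s₂ * s₁⁻¹, ?_, ?_⟩
    · show (s₂ : Equiv.Perm (Fin 9)) ((s₁ : Equiv.Perm (Fin 9))⁻¹ a) = c
      have e : (s₁ : Equiv.Perm (Fin 9))⁻¹ a = 0 := by
        rw [Equiv.Perm.inv_eq_iff_eq]
        exact h1.symm
      rw [e, h3]
    · show (s₂ : Equiv.Perm (Fin 9)) ((s₁ : Equiv.Perm (Fin 9))⁻¹ b) = d
      have e : (s₁ : Equiv.Perm (Fin 9))⁻¹ b = 1 := by
        rw [Equiv.Perm.inv_eq_iff_eq]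
        exact h2.symm
      rw [e, h4]
  exact Equiv.Perm.alternatingGroup_le_of_isPreprimitive_of_isThreeCycle_mem
    (MulAction.isPreprimitive_of_is_two_pretransitive h2) tc_three tc_mem

theorem card_A9 : Nat.card (alternatingGroup (Fin 9)) = 181440 := by
  have h := two_mul_card_alternatingGroup (α := Fin 9)
  rw [Nat.card_eq_fintype_card]
  rw [Fintype.card_perm, Fintype.card_fin] at h
  have : Nat.factorial 9 = 362880 := by decide
  omega

/-! ### The kernel -/

theorem x3_pow : x3 ^ 3 = 1 := by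
  apply monoCo0_ext
  intro v
  show (((x3 ^ 3 : Co0) : Equiv.Perm leechLattice) v : GolayPt → ℤ) = v
  have h : x3 ^ 3 = x3 * (x3 * (x3 * 1)) := by
    simp only [pow_succ, pow_zero, mul_assoc, one_mul, mul_one]
  rw [h]
  exact congrArg Subtype.val (x3_three v)

/-- `x3` in its centralizer. -/
noncomputable def x3C : C3 := ⟨x3, mem_C3.2 rfl⟩

/-- Negation in the centralizer. -/
noncomputable def negC : C3 := ⟨negCo0, mem_C3.2 (Subgroup.mem_center_iff.1 neg_center x3).symm⟩

theorem A_x3 {a : ℕ} (ha : a < 256) : A x3 a = a := by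
  show cc ((x3 : Equiv.Perm leechLattice) (M a) : leechLattice) = a
  rw [x3_M ha, cc_congr, cc_M ha]

theorem cc_neg (v : leechLattice) : cc ((-v : leechLattice) : GolayPt → ℤ) = cc (v : GolayPt → ℤ) := by
  have h : -v = v + (-v + -v) := by abel
  rw [h, cc_congr]

theorem A_neg {a : ℕ} (ha : a < 256) : A negCo0 a = a := by
  show cc ((negCo0 : Equiv.Perm leechLattice) (M a) : leechLattice) = a
  rw [negCo0_apply, cc_neg, cc_M ha]

theorem mem_H_of_fix {g : C3} (h : ∀ a < 256, A (g : Co0) a = a) : g ∈ H := by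
  intro a ha b hb _ _ h3
  show spi (A (g : Co0) a) = spi (A (g : Co0) b)
  rw [h a ha, h b hb, h3]

theorem rhoH_of_fix {g : H} (h : ∀ a < 256, A ((g : C3) : Co0) a = a) : rhoH g = 1 := by
  apply Equiv.ext
  intro i
  apply Fin.ext
  rw [rhoH_apply]
  have hs := rS_spec i.2
  rw [h _ hs.1, hs.2.2]
  rfl

/-- `x3` in the subgroup. -/
noncomputable def x3H : H := ⟨x3C, mem_H_of_fix fun _ ha => A_x3 ha⟩

/-- Negation in the subgroup. -/
noncomputable def negH : H := ⟨negC, mem_H_of_fix fun _ ha => A_neg ha⟩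

theorem x3H_pow : x3H ^ 3 = 1 := Subtype.ext (Subtype.ext x3_pow)

theorem x3_ne : x3 ≠ 1 := by
  intro h
  have h2 := congrFun (congrArg Subtype.val (congrArg (fun g : Co0 => (g : Equiv.Perm leechLattice) (e8 (pt 0))) h)) (pt 0)
  have h3 : (((x3 : Equiv.Perm leechLattice) (e8 (pt 0)) : leechLattice) : GolayPt → ℤ) (pt 0) = 0 := by
    rw [x3_apply, e8_apply, if_neg]
    rw [xi3_pt (by norm_num)]
    intro e
    have h5 : ap c3 0 = 1 := chain3.2.1
    rw [h5] at e
    have := Cfsg.Agent.Lib.Golay.pt_injOn (by norm_num) (by norm_num) e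
    omega
  have h4 : (((1 : Co0) : Equiv.Perm leechLattice) (e8 (pt 0)) : GolayPt → ℤ) (pt 0) = 8 := by
    show (e8 (pt 0) : GolayPt → ℤ) (pt 0) = 8
    rw [e8_apply, if_pos rfl]
  have h5 : (((x3 : Equiv.Perm leechLattice) (e8 (pt 0)) : leechLattice) : GolayPt → ℤ) (pt 0) =
      (((1 : Co0) : Equiv.Perm leechLattice) (e8 (pt 0)) : GolayPt → ℤ) (pt 0) := h2
  rw [h3, h4] at h5
  omega

theorem orderOf_x3H : orderOf x3H = 3 :=
  haveI : Fact (Nat.Prime 3) := ⟨by norm_num⟩
  orderOf_eq_prime x3H_pow (fun h => x3_ne (congrArg (fun g : H => ((g : C3) : Co0)) h))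

/-- The elements of the kernel. -/
noncomputable def kerMap : Fin 3 × Bool → rhoH.ker := fun p =>
  ⟨x3H ^ (p.1 : ℕ) * (if p.2 then negH else 1), by
    rw [MonoidHom.mem_ker, map_mul, map_pow, rhoH_of_fix (g := x3H) (fun _ ha => A_x3 ha), one_pow, one_mul]
    split_ifs
    · exact rhoH_of_fix (g := negH) (fun _ ha => A_neg ha)
    · exact map_one _⟩

theorem kerMap_inj : Function.Injective kerMap := by
  have hB : (x3 : Equiv.Perm leechLattice) (M 1) = M 1 := x3_B 0 (by norm_num)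
  have hfix : ∀ k : ℕ, (((x3H ^ k : H) : C3) : Co0).1 (M 1) = M 1 := by
    intro k
    induction k with
    | zero => rfl
    | succ k ih =>
      rw [pow_succ]
      show (((x3H ^ k : H) : C3) : Co0).1 ((x3 : Equiv.Perm leechLattice) (M 1)) = _
      rw [hB, ih]
  have hne : (M 1 : leechLattice) ≠ -M 1 := by
    intro h
    have h1 : cc ((M 1 : leechLattice) : GolayPt → ℤ) = 1 := cc_M (by norm_num)
    have h2 : sqNorm (M 1 : GolayPt → ℤ) = 48 := by
      rw [sqNorm_M]
      have : nt 1 = 48 := by decide +kernel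
      rw [this]
      rfl
    have h3 : (M 1 : leechLattice) + M 1 = 0 := by
      nth_rw 2 [h]
      simp
    have h4 : ((M 1 : leechLattice) : GolayPt → ℤ) = 0 := by
      funext p
      have h5 := congrFun (congrArg Subtype.val h3) p
      have h6 : ((M 1 : leechLattice) : GolayPt → ℤ) p + ((M 1 : leechLattice) : GolayPt → ℤ) p = 0 := h5
      show ((M 1 : leechLattice) : GolayPt → ℤ) p = 0
      omega
    rw [h4] at h2
    simp [sqNorm] at h2
  rintro ⟨i, β⟩ ⟨j, γ⟩ h
  have h1 : x3H ^ (i : ℕ) * (if β then negH else 1) = x3H ^ (j : ℕ) * (if γ then negH else 1) := congrArg Subtype.val h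
  have hval : ∀ (k : ℕ) (b : Bool), (((x3H ^ k * (if b then negH else 1) : H) : C3) : Co0).1 (M 1) =
      if b then -M 1 else M 1 := by
    intro k b
    cases b
    · simp only [Bool.false_eq_true, if_false, mul_one]
      exact hfix k
    · simp only [if_true]
      show (((x3H ^ k : H) : C3) : Co0).1 (-(M 1)) = _
      rw [co0_neg, hfix]
  have h2 := congrArg (fun g : H => ((g : C3) : Co0).1 (M 1)) h1
  simp only [hval] at h2
  have hβ : β = γ := by
    cases β <;> cases γ
    · rfl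
    · simp only [Bool.false_eq_true, if_false, if_true] at h2
      exact absurd h2 hne
    · simp only [Bool.false_eq_true, if_false, if_true] at h2
      exact absurd h2.symm hne
    · rfl
  subst hβ
  have h3 := mul_right_cancel h1
  have h4 : (i : ℕ) = j := by
    have hlt : ∀ k : Fin 3, (k : ℕ) ∈ Set.Iio (orderOf x3H) := by
      intro k
      rw [orderOf_x3H]
      exact k.2
    exact pow_injOn_Iio_orderOf (hlt i) (hlt j) h3
  rw [Fin.ext h4]

/-- The main facts. -/
theorem rho_main : rhoH.range = alternatingGroup (Fin 9) ∧ Function.Surjective kerMap ∧ H = ⊤ := by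
  have h1 := Subgroup.card_mul_index rhoH.ker
  have h2 : rhoH.ker.index = Nat.card rhoH.range := Subgroup.index_ker rhoH
  have h3 := card_C3_le
  have h4 : 6 ≤ Nat.card rhoH.ker := by
    have := Nat.card_le_card_of_injective kerMap kerMap_inj
    rw [Nat.card_prod, Nat.card_eq_fintype_card (α := Fin 3), Nat.card_eq_fintype_card (α := Bool),
      Fintype.card_fin, Fintype.card_bool] at this
    exact this
  have h5 : Nat.card (alternatingGroup (Fin 9)) ≤ Nat.card rhoH.range := Subgroup.card_le_of_le A9_le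
  rw [card_A9] at h5
  have h6 : Nat.card H ≤ Nat.card C3 := Subgroup.card_le_card_group H
  rw [h2] at h1
  have h7 : Nat.card rhoH.range ≤ 181440 := by
    by_contra hcon
    have h8 : 181441 ≤ Nat.card rhoH.range := by omega
    have h9 := Nat.mul_le_mul h4 h8
    omega
  have h8 : Nat.card rhoH.ker ≤ 6 := by
    by_contra hcon
    have h9 : 7 ≤ Nat.card rhoH.ker := by omega
    have h11 := Nat.mul_le_mul h9 h5
    omega
  refine ⟨(Subgroup.eq_of_le_of_card_ge A9_le (by rw [card_A9]; exact h7)).symm, ?_, ?_⟩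
  · have h9 : Nat.card rhoH.ker ≤ Nat.card (Fin 3 × Bool) := by
      rw [Nat.card_prod, Nat.card_eq_fintype_card (α := Fin 3), Nat.card_eq_fintype_card (α := Bool),
        Fintype.card_fin, Fintype.card_bool]
      exact h8
    exact (Function.Injective.bijective_of_nat_card_le kerMap_inj h9).2
  · apply Subgroup.eq_top_of_le_card
    have h10 : Nat.card rhoH.ker * Nat.card rhoH.range ≥ 6 * 181440 := Nat.mul_le_mul h4 h5
    omega

theorem mem_H (g : C3) : g ∈ H := by
  rw [rho_main.2.2]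
  exact Subgroup.mem_top g

theorem rhoH_mem (g : H) : rhoH g ∈ alternatingGroup (Fin 9) := by
  rw [← rho_main.1]
  exact ⟨g, rfl⟩

/-- The map to the alternating group. -/
noncomputable def rho : C3 →* alternatingGroup (Fin 9) :=
  (rhoH.codRestrict _ rhoH_mem).comp ((MonoidHom.id C3).codRestrict H mem_H)

theorem rho_val (g : C3) : (rho g : Equiv.Perm (Fin 9)) = rhoH ⟨g, mem_H g⟩ := rfl

theorem rho_surj : Function.Surjective rho := by
  intro y
  have h1 : (y : Equiv.Perm (Fin 9)) ∈ rhoH.range := by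
    rw [rho_main.1]
    exact y.2
  obtain ⟨g, hg⟩ := h1
  refine ⟨(g : C3), Subtype.ext ?_⟩
  rw [rho_val]
  exact hg

theorem rho_trivial {g : C3} (h : ∀ a < 256, A (g : Co0) a = a) : rho g = 1 := by
  apply Subtype.ext
  rw [rho_val]
  exact rhoH_of_fix h

theorem rho_x3 : rho x3C = 1 := rho_trivial fun _ ha => A_x3 ha

/-- The kernel of the map. -/
theorem rho_ker {g : C3} (h : rho g = 1) : ∃ i : ℕ, g = x3C ^ i ∨ g = x3C ^ i * negC := by
  have h1 : rhoH ⟨g, mem_H g⟩ = 1 := by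
    rw [← rho_val, h]
    rfl
  obtain ⟨⟨i, β⟩, hp⟩ := rho_main.2.1 ⟨⟨g, mem_H g⟩, h1⟩
  have h2 : x3H ^ (i : ℕ) * (if β then negH else 1) = ⟨g, mem_H g⟩ := congrArg Subtype.val hp
  have hpow : ∀ k : ℕ, ((x3H ^ k : H) : C3) = x3C ^ k := fun k => rfl
  have hneg : ((negH : H) : C3) = negC := rfl
  refine ⟨i, ?_⟩
  cases β
  · left
    have h3 := congrArg (fun t : H => (t : C3)) h2
    simpa [hpow] using h3.symm
  · right
    have h3 := congrArg (fun t : H => (t : C3)) h2
    simpa [hpow, hneg] using h3.symm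

/-! ### The alternating group has no normal `2`-subgroups -/

theorem A9_no_normal (P : Subgroup (alternatingGroup (Fin 9))) (hn : P.Normal) (h2 : IsPGroup 2 P) : P = ⊥ := by
  haveI : IsSimpleGroup (alternatingGroup (Fin 9)) := alternatingGroup.isSimpleGroup (by simp)
  rcases IsSimpleGroup.eq_bot_or_eq_top_of_normal P hn with h | h
  · exact h
  · exfalso
    have h3 : tc ∈ alternatingGroup (Fin 9) := tc_three.mem_alternatingGroup
    obtain ⟨k, hk⟩ := h2 ⟨⟨tc, h3⟩, by rw [h]; exact Subgroup.mem_top _⟩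
    have hk' : tc ^ 2 ^ k = 1 := congrArg (fun t : P => ((t : alternatingGroup (Fin 9)) : Equiv.Perm (Fin 9))) hk
    have h4 : tc ^ 3 = 1 := by decide +kernel
    have h5 := Cfsg.Agent.Lib.FiveGp1.eq_one_of_two_five ⟨k, hk'⟩ (by decide) h4
    revert h5
    decide +kernel

end Cfsg.Agent.Lib.Three4
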