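import Mathlib

set_option autoImplicit false

/-!
# Literal data: a subgroup of order 27 of the centralizer in `M24` of an element of order three with fixed
points, and coset representatives.
-/

namespace Cfsg.Agent.Lib.ThreeClassData

/-- the elements of a subgroup of order 27 commuting with the element `X3A`  -/
def LP : List ℕ := [48490594733131867895371920302038083, 50147487029979776774204776021777476, 59240252103267601151595915027536960, 60491514886048658417705667986086979, 61468661966838117339484015415024708, 63091270512736695476215892246912064, 64429903037773925560184049034746947, 65690068202238975193096763330288708, 70551588306795960484195489481350208, 89878028926541315351377905342088931, 91297798992270500543301729288980196, 100247931515887572706570511075870432, 101667705172469571182120336086927075, 103046903223925413470076284160706276, 104359671819155350276565116020426464, 105641307341559440692888642611447523, 106736543766476830646532788034995940, 112050536371373209481996916377093856, 962264202152923372032015157828913187, 963560678574847416843644794794149924, 972606645568131968584696805283956768, 973894932661834648760043476466403363, 975204377279163133757896202227025956, 976531636853126291160407323722221600, 978326293876408961817848874736420899, 979614577379258849441890429454780452, 984818244535754528103549039458486304]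

/-- coset representatives of the five-point stabilizer -/
def U3F : List ℕ := [17295376101851072919038206396173025, 6789033645183578931559437662554849, 17250791575396226690830415996029665, 18636073964476362074761031092210401, 18680831609114502679128665532631777, 7115745673693266624461987961375457, 19088943340355360776987662391479009, 18345978577453331787560863464229601, 6861326480932767014323888755935969, 22257038570301555294849574634916577, 7352630374875689704267271776930529, 28909504238490641168609107805407969, 6842002546168394222501826179599073, 22403910407716236058405403381730017, 21632717670220079703935367269354209, 19036614028856091541376396525374177, 7164942765072162168112614355864289, 22924961381755247080217812754107105, 22894369291150048598913752766253793, 18565360044177079786503970896939745]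

end Cfsg.Agent.Lib.ThreeClassData
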