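import Mathlib
import Cfsg.Agent.Lib.Three4
import Cfsg.Agent.Lib.ThreeClassData
import Cfsg.Agent.Lib.CoprimeConj

/-!
# Elements of order three of `M24`. Centralizers of elements of order three in extensions by `2`-groups.
-/

set_option autoImplicit false
set_option maxRecDepth 100000

open Cfsg Finset
open Cfsg.Agent.Lib.ThreeClassData

namespace Cfsg.Agent.Lib.ThreeGp1

open Cfsg.Agent.Lib.Golay

/-! ### The fixed points of an element of order three -/

theorem cover3F : coverU U3F 0 1 23 2 [23,0,1,2] = true := by decide +kernel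

theorem tab3F : U3F.all (fun u => S48L.all (fun s => !(ord3 u s && Nat.beq (fn2 u s 2) 2) || Nat.ble 5 (fixC2 u s))) = true := by
  decide +kernel

/-- An element of order three of `M24` with a fixed point has at least five of them. -/
theorem fix_five {g : Equiv.Perm GolayPt} (hg : g ∈ M24) (h3 : g ^ 3 = 1) (h1 : g ≠ 1) {p : GolayPt} (hp : g p = p) :
    5 ≤ (univ.filter fun p => g p = p).card := by
  classical
  have h33 : ∀ p, g (g (g p)) = p := by
    intro p
    have := congrArg (fun s : Equiv.Perm GolayPt => s p) h3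
    simpa [pow_succ, Equiv.Perm.mul_apply] using this
  obtain ⟨a, ha⟩ : ∃ a, g a ≠ a := by
    by_contra hcon
    push Not at hcon
    exact h1 (Equiv.ext hcon)
  have hab : a ≠ g a := ha.symm
  have hbc : g a ≠ g (g a) := fun h => ha (g.injective h).symm
  have hac : a ≠ g (g a) := by
    intro h
    apply ha
    have h2 := h33 a
    rw [← h] at h2
    exact h2
  have hpa : p ≠ a := by
    rintro rfl
    exact ha hp
  have hpb : p ≠ g a := by
    intro h
    apply hbc
    rw [← h, hp]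
  have hpc : p ≠ g (g a) := by
    intro h
    apply hpa
    have h2 := h33 a
    rw [← h, hp] at h2
    exact h2
  obtain ⟨d, hd⟩ := exists_not_mem {a, g a, g (g a), p} (lt_of_le_of_lt (Finset.card_le_four) (by norm_num))
  simp only [mem_insert, mem_singleton, not_or] at hd
  obtain ⟨hda, hdb, hdc, hdp⟩ := hd
  obtain ⟨k, hk, e1, e2, e3, e4, e5⟩ := exists_M24_five a (g a) (g (g a)) p d hab hac (Ne.symm hpa) (Ne.symm hda)
    hbc (Ne.symm hpb) (Ne.symm hdb) (Ne.symm hpc) (Ne.symm hdc) (Ne.symm hdp)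
  have hg' : k⁻¹ * g * k ∈ M24 := M24.mul_mem (M24.mul_mem (M24.inv_mem hk) hg) hk
  have i1 := conj_apply (g := g) e1 e2 rfl
  have i2 := conj_apply (g := g) e2 e3 rfl
  have i3 := conj_apply (g := g) e3 e1 (h33 a)
  have i4 := conj_apply (g := g) e4 e4 hp
  have hq : idx ((k⁻¹ * g * k) (pt 3)) ∉ [23,0,1,2] := by
    intro hmem
    have h5 : (k⁻¹ * g * k) (pt 3) = pt (idx ((k⁻¹ * g * k) (pt 3))) := (pt_idx _).symm
    have h6 : ∀ i ∈ [23,0,1,2], (k⁻¹ * g * k) (pt 3) ≠ pt i := by
      intro i hi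
      simp only [List.mem_cons, List.not_mem_nil, or_false] at hi
      simp only [Equiv.Perm.mul_apply]
      rw [e5, Ne, Equiv.Perm.inv_eq_iff_eq]
      rcases hi with rfl | rfl | rfl | rfl
      · rw [e1]
        intro h
        apply hdc
        rw [← h33 d, h]
      · rw [e2]
        intro h
        exact hda (g.injective h)
      · rw [e3]
        intro h
        exact hdb (g.injective h)
      · rw [e4]
        intro h
        apply hdp
        apply g.injective
        rw [h, hp]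
    apply h6 _ hmem
    exact h5
  obtain ⟨u, hu, hm, s, hs, e⟩ := coverU_spec cover3F hg' i1 i2 i3 i4 hq
  have huv := isM24_valid hm
  have hsv := isM24_valid (S48L_isM24 s hs)
  have e3' : (decode u * decode s) ^ 3 = 1 := by
    rw [← e, conj_pow_inv, h3]
    group
  have hfix : fn2 u s 2 = 2 := by
    have h5 := (repBy_fn2 huv hsv).val (i := 2) (by norm_num)
    rw [← h5, ← e, i4]
    exact idx_pt (by norm_num)
  have hall := List.all_eq_true.1 (List.all_eq_true.1 tab3F u hu) s hs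
  have h7 : Nat.beq (fn2 u s 2) 2 = true := by
    rw [hfix]
    rfl
  rw [ord3_of huv hsv e3', h7] at hall
  simp only [Bool.and_self, Bool.not_true, Bool.false_or] at hall
  have h8 : 5 ≤ fixC2 u s := Nat.le_of_ble_eq_true hall
  rw [← card_fixed_fn2 huv hsv, ← e] at h8
  have hgk : g = k * (k⁻¹ * g * k) * k⁻¹ := by group
  rw [hgk, card_fixed_conj]
  exact h8

/-! ### A subgroup of order 27 -/

theorem LP_M24 : LP.all isM24 = true := by decide +kernel

theorem LP_comm : LP.all (fun c => idxL.all fun i => Nat.beq (ap c (ap X3A i)) (ap X3A (ap c i))) = true := by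
  decide +kernel

theorem LP_mul : LP.all (fun a => LP.all (fun b => LP.any (fun c => idxL.all fun i => Nat.beq (ap c i) (ap a (ap b i))))) = true := by
  decide +kernel

theorem LP_one : LP.any (fun c => idxL.all fun i => Nat.beq (ap c i) i) = true := by decide +kernel

theorem LP_inv : LP.all (fun a => LP.any (fun c => idxL.all fun i => Nat.beq (ap c (ap a i)) i)) = true := by
  decide +kernel

theorem LP_len : LP.length = 27 := by decide +kernel

theorem LP_ne : ∀ i j : Fin 27, i ≠ j → ∃ k : Fin 24, ap (LP.getD i 0) k ≠ ap (LP.getD j 0) k := by decide +kernel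

theorem LP_valid {c : ℕ} (hc : c ∈ LP) : valid c = true := isM24_valid (List.all_eq_true.1 LP_M24 c hc)

/-- A subgroup of order 27. -/
noncomputable def P1 : Subgroup (Equiv.Perm GolayPt) where
  carrier := {g | ∃ c ∈ LP, g = decode c}
  mul_mem' := by
    rintro _ _ ⟨a, ha, rfl⟩ ⟨b, hb, rfl⟩
    have h1 := List.any_eq_true.1 (List.all_eq_true.1 (List.all_eq_true.1 LP_mul a ha) b hb)
    obtain ⟨c, hc, h2⟩ := h1
    refine ⟨c, hc, ?_⟩
    apply eq_of_repBy ((repBy_decode (LP_valid ha)).mul (repBy_decode (LP_valid hb))) (repBy_decode (LP_valid hc))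
    intro i hi
    exact (Nat.eq_of_beq_eq_true (List.all_eq_true.1 h2 i (mem_idxL.2 hi))).symm
  one_mem' := by
    obtain ⟨c, hc, h2⟩ := List.any_eq_true.1 LP_one
    refine ⟨c, hc, ?_⟩
    apply eq_of_repBy (f := id) (fun p => rfl) (repBy_decode (LP_valid hc))
    intro i hi
    exact (Nat.eq_of_beq_eq_true (List.all_eq_true.1 h2 i (mem_idxL.2 hi))).symm
  inv_mem' := by
    rintro _ ⟨a, ha, rfl⟩
    obtain ⟨c, hc, h2⟩ := List.any_eq_true.1 (List.all_eq_true.1 LP_inv a ha)
    refine ⟨c, hc, ?_⟩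
    apply inv_eq_of_mul_eq_one_left
    apply eq_of_repBy (f' := id) ((repBy_decode (LP_valid hc)).mul (repBy_decode (LP_valid ha))) (fun p => rfl)
    intro i hi
    exact Nat.eq_of_beq_eq_true (List.all_eq_true.1 h2 i (mem_idxL.2 hi))

theorem card_P1 : Nat.card P1 = 27 := by
  have hmem : ∀ i : Fin 27, LP.getD i 0 ∈ LP := by
    intro i
    have hi : (i : ℕ) < LP.length := by
      rw [LP_len]
      exact i.2
    rw [List.getD_eq_getElem _ _ hi]
    exact List.getElem_mem hi
  let f : Fin 27 → P1 := fun i => ⟨decode (LP.getD i 0), _, hmem i, rfl⟩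
  have hf : Function.Bijective f := by
    constructor
    · intro i j h
      by_contra hij
      obtain ⟨k, hk⟩ := LP_ne i j hij
      apply hk
      have h1 : decode (LP.getD i 0) = decode (LP.getD j 0) := congrArg Subtype.val h
      have h2 := (repBy_decode (LP_valid (hmem i))).val k.2
      have h3 := (repBy_decode (LP_valid (hmem j))).val k.2
      rw [← h2, ← h3, h1]
    · rintro ⟨_, c, hc, rfl⟩
      obtain ⟨i, hi, rfl⟩ := List.mem_iff_getElem.1 hc
      refine ⟨⟨i, by rw [← LP_len]; exact hi⟩, Subtype.ext ?_⟩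
      show decode (LP.getD i 0) = _
      rw [List.getD_eq_getElem _ _ hi]
  rw [← Nat.card_congr (Equiv.ofBijective f hf)]
  simp

theorem P1_M24 {g : Equiv.Perm GolayPt} (hg : g ∈ P1) : g ∈ M24 := by
  obtain ⟨c, hc, rfl⟩ := hg
  exact decode_mem_M24 (List.all_eq_true.1 LP_M24 c hc)

theorem P1_comm {g : Equiv.Perm GolayPt} (hg : g ∈ P1) : g * decode X3A = decode X3A * g := by
  obtain ⟨c, hc, rfl⟩ := hg
  apply comm_of_repBy (repBy_decode (LP_valid hc)) (repBy_decode (isM24_valid X3A_isM24))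
    (repBy_decode (isM24_valid X3A_isM24))
  intro i hi
  exact Nat.eq_of_beq_eq_true (List.all_eq_true.1 (List.all_eq_true.1 LP_comm c hc) i (mem_idxL.2 hi))

/-- An element of order three with a fixed point is central in a subgroup of order 27. -/
theorem exists_P {g : Equiv.Perm GolayPt} (hg : g ∈ M24) (h3 : g ^ 3 = 1) (h1 : g ≠ 1) {p : GolayPt} (hp : g p = p) :
    ∃ P : Subgroup (Equiv.Perm GolayPt), Nat.card P = 27 ∧ P ≤ M24 ∧ ∀ τ ∈ P, τ * g = g * τ := by
  obtain ⟨k, hk, e⟩ := class3A hg h3 h1 (fix_five hg h3 h1 hp)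
  refine ⟨P1.map (MulAut.conj k).toMonoidHom, ?_, ?_, ?_⟩
  · rw [Subgroup.card_map_of_injective (MulAut.conj k).injective, card_P1]
  · rintro _ ⟨τ, hτ, rfl⟩
    exact M24.mul_mem (M24.mul_mem hk (P1_M24 hτ)) (M24.inv_mem hk)
  · rintro _ ⟨τ, hτ, rfl⟩
    have h2 := P1_comm hτ
    have h4 : τ * (decode X3A)⁻¹ = (decode X3A)⁻¹ * τ := Commute.inv_right h2
    show k * τ * k⁻¹ * g = g * (k * τ * k⁻¹)
    rcases e with e | e
    · rw [e]
      calc k * τ * k⁻¹ * (k * decode X3A * k⁻¹) = k * (τ * decode X3A) * k⁻¹ := by group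
        _ = k * (decode X3A * τ) * k⁻¹ := by rw [h2]
        _ = _ := by group
    · rw [e]
      calc k * τ * k⁻¹ * (k * (decode X3A)⁻¹ * k⁻¹) = k * (τ * (decode X3A)⁻¹) * k⁻¹ := by group
        _ = k * ((decode X3A)⁻¹ * τ) * k⁻¹ := by rw [h4]
        _ = _ := by group

/-! ### Centralizers in extensions by `2`-groups -/

section generic

variable {G : Type*} [Group G] [Finite G] {X : Subgroup G} {T : Type*} [Group T] (θ : X →* T)

/-- The kernel of the map, in the group. -/
def NN₂ : Subgroup G := θ.ker.map X.subtype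

variable {θ}

theorem NN₂_two (hker : ∀ x : X, θ x = 1 → ∃ k : ℕ, (x : G) ^ 2 ^ k = 1) : IsPGroup 2 (NN₂ θ) := by
  rintro ⟨_, x, hx, rfl⟩
  obtain ⟨k, hk⟩ := hker x hx
  exact ⟨k, Subtype.ext hk⟩

theorem NN₂_norm {y : X} : ∀ x ∈ NN₂ θ, (y : G) * x * (y : G)⁻¹ ∈ NN₂ θ := by
  rintro _ ⟨x, hx, rfl⟩
  refine ⟨y * x * y⁻¹, ?_, rfl⟩
  have hx' : θ x = 1 := hx
  show θ (y * x * y⁻¹) = 1
  rw [map_mul, map_mul, hx', mul_one, map_inv, mul_inv_cancel]

/-- Two elements of order three with the same image are conjugate by an element of the kernel. -/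
theorem conj_ker (hker : ∀ x : X, θ x = 1 → ∃ k : ℕ, (x : G) ^ 2 ^ k = 1) {y y' : X} (h3 : y ^ 3 = 1) (h1 : y ≠ 1)
    (h3' : y' ^ 3 = 1) (h : θ y = θ y') : ∃ q : X, θ q = 1 ∧ q * y' * q⁻¹ = y := by
  have h3g : (y : G) ^ 3 = 1 := congrArg Subtype.val h3
  have h3g' : (y' : G) ^ 3 = 1 := congrArg Subtype.val h3'
  have h1g : (y : G) ≠ 1 := fun e => h1 (Subtype.ext e)
  have hb' : (y : G)⁻¹ * (y' : G) ∈ NN₂ θ := by
    refine ⟨y⁻¹ * y', ?_, rfl⟩
    show θ (y⁻¹ * y') = 1
    rw [map_mul, map_inv, h, inv_mul_cancel]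
  obtain ⟨_, ⟨q, hq, rfl⟩, hqc⟩ := Cfsg.Agent.Lib.CoprimeConj.coprime_conj (p := 3) (by norm_num) (by decide)
    (NN₂_two hker) h3g h1g NN₂_norm h3g' hb'
  exact ⟨q, hq, Subtype.ext hqc⟩

/-- Elements commuting with the image lift to elements commuting with the element. -/
theorem lift_comm (hker : ∀ x : X, θ x = 1 → ∃ k : ℕ, (x : G) ^ 2 ^ k = 1) {y : X} (h3 : y ^ 3 = 1) (h1 : y ≠ 1)
    (c₀ : X) (hc : θ c₀ * θ y = θ y * θ c₀) : ∃ c : X, c * y = y * c ∧ θ c = θ c₀ := by
  have h3' : (c₀ * y * c₀⁻¹) ^ 3 = 1 := by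
    rw [conj_pow, h3]
    group
  have he : θ y = θ (c₀ * y * c₀⁻¹) := by
    rw [map_mul, map_mul, hc, map_inv]
    group
  obtain ⟨q, hq, hqc⟩ := conj_ker hker h3 h1 h3' he
  refine ⟨q * c₀, ?_, ?_⟩
  · have h2 : q * c₀ * y * (q * c₀)⁻¹ = y := by
      calc q * c₀ * y * (q * c₀)⁻¹ = q * (c₀ * y * c₀⁻¹) * q⁻¹ := by group
        _ = y := hqc
    exact mul_inv_eq_iff_eq_mul.1 h2
  · rw [map_mul, hq, one_mul]

/-- The order of a subgroup commuting with the image divides the order of the centralizer. -/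
theorem dvd_card (hker : ∀ x : X, θ x = 1 → ∃ k : ℕ, (x : G) ^ 2 ^ k = 1) {y : X} (h3 : y ^ 3 = 1) (h1 : y ≠ 1)
    {P : Subgroup T} (hcomm : ∀ τ ∈ P, τ * θ y = θ y * τ) (hr : P ≤ θ.range) :
    Nat.card P ∣ Nat.card (Subgroup.centralizer ({y} : Set X)) := by
  set A := Subgroup.centralizer ({y} : Set X) with hA
  have hle : P ≤ (θ.comp A.subtype).range := by
    intro τ hτ
    obtain ⟨c₀, rfl⟩ := hr hτ
    obtain ⟨c, hc, he⟩ := lift_comm hker h3 h1 c₀ (hcomm _ hτ)
    exact ⟨⟨c, Subgroup.mem_centralizer_singleton_iff.2 hc⟩, he⟩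
  exact (Subgroup.card_dvd_of_le hle).trans (Subgroup.card_range_dvd _)

/-- An element of order three with a large centralizer is central in a Sylow subgroup. -/
theorem central_of_dvd {Y : Subgroup G} (hY : Y ≤ X) (hY3 : Nat.card Y = 3) {y : X} (hyY : (y : G) ∈ Y) (h1 : y ≠ 1)
    (h81 : ¬ 81 ∣ Nat.card X) (h27 : 27 ∣ Nat.card (Subgroup.centralizer ({y} : Set X))) :
    ∃ P : Sylow 3 X, Y.subgroupOf X ≤ (Subgroup.center (P : Subgroup X)).map (P : Subgroup X).subtype := by
  classical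
  have hp : Fact (Nat.Prime 3) := ⟨by norm_num⟩
  set A := Subgroup.centralizer ({y} : Set X) with hA
  have hyA : y ∈ A := Subgroup.mem_centralizer_singleton_iff.2 rfl
  have h3 : y ^ 3 = 1 := by
    have h2 := pow_card_eq_one' (x := (⟨(y : G), hyY⟩ : Y))
    rw [hY3] at h2
    have h2' : (y : G) ^ 3 = 1 := by simpa using congrArg Subtype.val h2
    exact Subtype.ext h2'
  have hord : orderOf y = 3 := orderOf_eq_prime h3 h1
  -- the subgroup generated by `y` in the centralizer
  have hP : IsPGroup 3 (Subgroup.zpowers (⟨y, hyA⟩ : A)) := by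
    refine IsPGroup.of_card (n := 1) ?_
    rw [Nat.card_zpowers, pow_one, Subgroup.orderOf_mk, hord]
  obtain ⟨R, hR⟩ := hP.exists_le_sylow
  have hyR : (⟨y, hyA⟩ : A) ∈ (R : Subgroup A) := hR (Subgroup.mem_zpowers _)
  set R' : Subgroup X := (R : Subgroup A).map A.subtype with hR'
  have hyR' : y ∈ R' := ⟨_, hyR, rfl⟩
  have hcR' : Nat.card R' = Nat.card (R : Subgroup A) :=
    Subgroup.card_map_of_injective A.subtype_injective
  have hcR : Nat.card (R : Subgroup A) = 3 ^ (Nat.card A).factorization 3 := R.card_eq_multiplicity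
  have hA0 : Nat.card A ≠ 0 := Nat.card_pos.ne'
  have hv : 3 ≤ (Nat.card A).factorization 3 :=
    (hp.out.pow_dvd_iff_le_factorization hA0).1 (by simpa using h27)
  have hX0 : Nat.card X ≠ 0 := Nat.card_pos.ne'
  have hdX : 3 ^ (Nat.card A).factorization 3 ∣ Nat.card X := by
    rw [← hcR, ← hcR']
    exact Subgroup.card_subgroup_dvd_card R'
  have hv2 : (Nat.card A).factorization 3 ≤ (Nat.card X).factorization 3 :=
    (hp.out.pow_dvd_iff_le_factorization hX0).1 hdX
  have hv3 : (Nat.card X).factorization 3 ≤ 3 := by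
    by_contra hcon
    apply h81
    have h4 : 4 ≤ (Nat.card X).factorization 3 := by omega
    exact (hp.out.pow_dvd_iff_le_factorization hX0).2 h4
  have hcard : Nat.card R' = 3 ^ (Nat.card X).factorization 3 := by
    rw [hcR', hcR]
    congr 1
    omega
  refine ⟨Sylow.ofCard R' hcard, ?_⟩
  -- every element of `Y` is a power of `y`
  have hYz : Y = Subgroup.zpowers (y : G) := by
    symm
    apply Subgroup.eq_of_le_of_card_ge (Subgroup.zpowers_le.2 hyY)
    rw [hY3, Nat.card_zpowers, Subgroup.orderOf_coe, hord]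
  intro x hx
  have hx' : (x : G) ∈ Y := hx
  rw [hYz] at hx'
  obtain ⟨i, hi⟩ := hx'
  have hi' : (y : G) ^ i = (x : G) := hi
  have hxy : x = y ^ i := Subtype.ext hi'.symm
  have hxR : x ∈ R' := by
    rw [hxy]
    exact R'.zpow_mem hyR' i
  have hxc : ∀ w ∈ R', w * x = x * w := by
    rintro _ ⟨⟨w, hw⟩, _, rfl⟩ 
    show w * x = x * w
    rw [hxy]
    exact (Commute.zpow_right (show Commute w y from Subgroup.mem_centralizer_singleton_iff.1 hw) i).eq
  have hco : ((Sylow.ofCard R' hcard : Sylow 3 X) : Subgroup X) = R' := rfl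
  rw [hco]
  refine ⟨⟨x, hxR⟩, ?_, rfl⟩
  rw [SetLike.mem_coe, Subgroup.mem_center_iff]
  rintro ⟨w, hw⟩
  exact Subtype.ext (hxc w hw)

end generic

end Cfsg.Agent.Lib.ThreeGp1
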