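import Mathlib
import Cfsg.Agent.Lib.ThreeGp1
import Cfsg.Agent.Lib.FiveGp3

/-!
# Normal form for a subgroup of order three of the centralizer of two conjugates of `z` in `Q`, not `3`-central.
-/

set_option autoImplicit false

open Cfsg
open Cfsg.Agent.Lib.LargeExtra Cfsg.Agent.Lib.LargePair Cfsg.Agent.Lib.MonsterLocal
open Cfsg.Agent.Lib.Co0Mono Cfsg.Agent.Lib.Leech
open Cfsg.Agent.Lib.Co0Frame Cfsg.Agent.Lib.MonsterMain Cfsg.Agent.Lib.MonsterBabyA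
open Cfsg.Agent.Lib.Three1 Cfsg.Agent.Lib.Three4 Cfsg.Agent.Lib.ThreeGp1
open Cfsg.Agent.Lib.FiveGp1 (eq_one_of_two_five)
open Cfsg.Agent.Lib.FiveGp2 (rep_twist phi_twist mem_XX lift_mono)
open Cfsg.Agent.Lib.Co0Order
open Cfsg.Agent.S0398 (e8 e8_apply neg_center)
open Cfsg.Agent.Lib.Golay (pt idx idx_lt ap class3A class3B)

namespace Cfsg.Agent.Lib.ThreeGp2

/-! ### The element `xi3` -/

theorem xi3_fpf (p : GolayPt) : xi3 p ≠ p := by
  have h : ∀ i < 24, ap Cfsg.Agent.Lib.ThreeData.c3 i ≠ i := by decide +kernel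
  intro hp
  apply h _ (idx_lt p)
  rw [← idx_xi3, hp]

theorem xi3_pow : xi3 ^ 3 = 1 := by
  refine Equiv.ext fun p => ?_
  simp [pow_succ, Equiv.Perm.mul_apply, xi3_three]

theorem neg_pow3 : negCo0 ^ 3 = negCo0 := by
  have h4 : negCo0 ^ 3 = negCo0 * negCo0 * negCo0 := by
    simp only [pow_succ, pow_zero, one_mul]
  rw [h4, Cfsg.Agent.Lib.FiveGp3.neg_sq, one_mul]

/-! ### The sign group -/

theorem eps_self {c : Finset GolayPt} (hc : c ∈ codeSets) : eps hc * eps hc = 1 := by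
  apply monoCo0_ext
  intro v
  funext k
  show ((((eps hc : Co0) : Equiv.Perm leechLattice) (((eps hc : Co0) : Equiv.Perm leechLattice) v) : leechLattice) :
    GolayPt → ℤ) k = (v : GolayPt → ℤ) k
  rw [eps_apply, eps_apply]
  by_cases h : k ∈ c <;> simp [h]

theorem isP_Sign : IsPGroup 2 Sign := by
  rintro ⟨_, c, hc, rfl⟩
  refine ⟨1, Subtype.ext ?_⟩
  show (eps hc) ^ 2 ^ 1 = 1
  rw [pow_one, pow_two, eps_self]

theorem mono_exists {c : Finset GolayPt} {σ τ : Equiv.Perm GolayPt} (hc : c ∈ codeSets) (hσ : σ ∈ M24) (hτ : τ ∈ M24)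
    (h : σ = τ) : ∃ (d : Finset GolayPt) (hd : d ∈ codeSets), monoCo0 hc hσ = monoCo0 hd hτ :=
  ⟨c, hc, monoCo0_congr _ _ _ _ rfl h⟩

theorem conj_Sign {d : Finset GolayPt} {τ : Equiv.Perm GolayPt} (hd : d ∈ codeSets) (hτ : τ ∈ M24) :
    ∀ x ∈ Sign, monoCo0 hd hτ * x * (monoCo0 hd hτ)⁻¹ ∈ Sign := by
  rintro _ ⟨c, hc, rfl⟩
  unfold eps
  rw [monoCo0_inv, monoCo0_mul, monoCo0_mul]
  exact mono_exists _ _ M24.one_mem (by group)

theorem inv_mul_Sign {c d : Finset GolayPt} {τ : Equiv.Perm GolayPt} (hc : c ∈ codeSets) (hd : d ∈ codeSets)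
    (hτ : τ ∈ M24) : (monoCo0 hc hτ)⁻¹ * monoCo0 hd hτ ∈ Sign := by
  rw [monoCo0_inv, monoCo0_mul]
  exact mono_exists _ _ M24.one_mem (by group)

theorem conj_mono {c : Finset GolayPt} {σ l τ : Equiv.Perm GolayPt} (hc : c ∈ codeSets) (hσ : σ ∈ M24) (hl : l ∈ M24)
    (hτ : τ ∈ M24) (h : σ = l * τ * l⁻¹) :
    ∃ (d : Finset GolayPt) (hd : d ∈ codeSets), monoCo0 empty_mem_codeSets hl * monoCo0 hc hσ *
      (monoCo0 empty_mem_codeSets hl)⁻¹ = monoCo0 hd hτ := by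
  rw [monoCo0_inv, monoCo0_mul, monoCo0_mul]
  exact mono_exists _ _ hτ (by rw [h]; group)

/-! ### The permutation part -/

theorem mem_NN_iff {g : Co0} : g ∈ NN ↔ ∃ (c : Finset GolayPt) (σ : Equiv.Perm GolayPt) (hc : c ∈ codeSets)
    (hσ : σ ∈ M24), g = monoCo0 hc hσ := Iff.rfl

/-- The permutation part of a monomial element. -/
noncomputable def partOf (g : NN) : Equiv.Perm GolayPt :=
  Classical.choose (Classical.choose_spec (mem_NN_iff.1 g.2))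

theorem partOf_eq (g : NN) {c : Finset GolayPt} {σ : Equiv.Perm GolayPt} {hc : c ∈ codeSets} {hσ : σ ∈ M24}
    (h : (g : Co0) = monoCo0 hc hσ) : partOf g = σ := by
  obtain ⟨hc', hσ', h'⟩ := Classical.choose_spec (Classical.choose_spec (mem_NN_iff.1 g.2))
  exact (monoCo0_part_eq (h'.symm.trans h)).2

/-- The homomorphism to the permutations. -/
noncomputable def partI : NN →* Equiv.Perm GolayPt :=
  MonoidHom.mk' (fun g => (partOf g)⁻¹) (by
    intro g g'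
    obtain ⟨c, σ, hc, hσ, h⟩ := mem_NN_iff.1 g.2
    obtain ⟨d, τ, hd, hτ, h'⟩ := mem_NN_iff.1 g'.2
    rw [partOf_eq g h, partOf_eq g' h']
    have h2 : ((g * g' : NN) : Co0) = _ := (congrArg₂ (· * ·) h h').trans (monoCo0_mul hc hd hσ hτ)
    rw [partOf_eq _ h2, mul_inv_rev])

theorem partI_apply (g : NN) : partI g = (partOf g)⁻¹ := rfl

/-- The map from the monomial group to `Co1`. -/
noncomputable def imN : NN →* Spor.Co1 := mkCo.comp NN.subtype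

/-- The image in `Co1`. -/
noncomputable def KN : Subgroup Spor.Co1 := imN.range

theorem rrN_surj : Function.Surjective imN.rangeRestrict := MonoidHom.rangeRestrict_surjective _

theorem ker_leN : (imN.rangeRestrict).ker ≤ partI.ker := by
  intro g hg
  rw [MonoidHom.mem_ker] at hg ⊢
  have h1 : mkCo (g : Co0) = 1 := congrArg Subtype.val hg
  rcases center_cases (mkCo_eq_one_iff.1 h1) with h2 | h2
  · have : g = 1 := Subtype.ext h2
    rw [this, map_one]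
  · have h3 : partOf g = 1 := partOf_eq g (h2.trans neg_eq_monoCo0)
    rw [partI_apply, h3, inv_one]

/-- The permutation part on the image in `Co1`. -/
noncomputable def partK : KN →* Equiv.Perm GolayPt :=
  (imN.rangeRestrict).liftOfSurjective rrN_surj ⟨partI, ker_leN⟩

theorem partK_apply (g : NN) (y : KN) (h : (y : Spor.Co1) = mkCo (g : Co0)) : partK y = partI g := by
  have h1 : y = imN.rangeRestrict g := Subtype.ext h
  rw [h1]
  exact (imN.rangeRestrict).liftOfRightInverse_comp_apply _ _ ⟨partI, ker_leN⟩ g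

variable {G : Type*} [Group G] [Finite G] {z : G} {Q : Subgroup (CC z)} [Q.Normal]
  {e : (CC z) ⧸ Q ≃* Spor.Co1} {ψ : leechLattice → Q ⧸ Subgroup.center Q}

/-- The map of the centralizer of `z, s` onto `M24`. -/
theorem exists_theta (D : Data z Q e ψ) {s : G} (hrep : Rep ψ (e8 (pt 5)) s) (hs1 : s ≠ 1) (hsz : s ≠ z) :
    ∃ θ : ↥(Subgroup.centralizer ({z, s} : Set G)) →* Equiv.Perm GolayPt,
      (∀ x, θ x ∈ M24) ∧ (∀ σ ∈ M24, ∃ x, θ x = σ) ∧
      (∀ x, θ x = 1 → ∃ k : ℕ, (x : G) ^ 2 ^ k = 1) ∧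
      (∀ (x : ↥(Subgroup.centralizer ({z, s} : Set G))) (hx : (x : G) ∈ CC z) (c : Finset GolayPt)
        (σ : Equiv.Perm GolayPt) (hc : c ∈ codeSets) (hσ : σ ∈ M24),
        mkCo (monoCo0 hc hσ) = phi Q e ⟨x, hx⟩ → θ x = σ⁻¹) := by
  classical
  have hS := D.setting
  set X := Subgroup.centralizer ({z, s} : Set G) with hX
  have hle : X ≤ CC z := fun x hx => (mem_XX.1 hx).1
  let phiX : X →* Spor.Co1 := (phi Q e).comp (Subgroup.inclusion hle)
  have hK : ∀ x, phiX x ∈ KN := by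
    intro x
    obtain ⟨g, hg⟩ := exists_lift' (Q := Q) (e := e) (⟨x, hle x.2⟩ : CC z)
    have hgN := lift_mono D hrep (mem_XX.1 x.2).2 hg
    exact ⟨⟨g, hgN⟩, hg⟩
  let θ : X →* Equiv.Perm GolayPt := partK.comp (phiX.codRestrict KN hK)
  have hθ : ∀ (x : X) (g : NN), mkCo g.1 = phiX x → θ x = partI g := fun x g hg => partK_apply g _ hg.symm
  have hspec : ∀ (x : X) (hx : (x : G) ∈ CC z) (c : Finset GolayPt) (σ : Equiv.Perm GolayPt) (hc : c ∈ codeSets)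
      (hσ : σ ∈ M24), mkCo (monoCo0 hc hσ) = phi Q e ⟨x, hx⟩ → θ x = σ⁻¹ := by
    intro x hx c σ hc hσ h
    have h1 := hθ x ⟨monoCo0 hc hσ, c, σ, hc, hσ, rfl⟩ h
    rw [h1, partI_apply, partOf_eq _ rfl]
  refine ⟨θ, ?_, ?_, ?_, hspec⟩
  · intro x
    obtain ⟨g, hg⟩ := exists_lift' (Q := Q) (e := e) (⟨x, hle x.2⟩ : CC z)
    obtain ⟨c, σ, hc, hσ, rfl⟩ := lift_mono D hrep (mem_XX.1 x.2).2 hg
    rw [hspec x (hle x.2) c σ hc hσ hg]
    exact M24.inv_mem hσ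
  · intro σ hσ
    obtain ⟨u, hu⟩ := monoCo0_cong empty_mem_codeSets (M24.inv_mem hσ) (pt 5)
    obtain ⟨c, hc, hcs⟩ := D.exists_lift_comm hrep hs1 hsz hu
    have hcX : (c : G) ∈ X := mem_XX.2 ⟨c.2, hcs⟩
    refine ⟨⟨c, hcX⟩, ?_⟩
    rw [hspec ⟨c, hcX⟩ c.2 _ _ empty_mem_codeSets (M24.inv_mem hσ) hc.symm, inv_inv]
  · intro x hx
    obtain ⟨g, hg⟩ := exists_lift' (Q := Q) (e := e) (⟨x, hle x.2⟩ : CC z)
    obtain ⟨c, σ, hc, hσ, rfl⟩ := lift_mono D hrep (mem_XX.1 x.2).2 hg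
    have h1 := hspec x (hle x.2) c σ hc hσ hg
    rw [hx] at h1
    have hσ1 : σ = 1 := by
      have h2 := h1.symm
      rwa [inv_eq_one] at h2
    subst hσ1
    have h2 : (⟨x, hle x.2⟩ : CC z) * ⟨x, hle x.2⟩ ∈ Q := by
      apply phi_eq_one_iff (e := e).1
      rw [map_mul, ← hg, ← map_mul]
      have h3 : monoCo0 hc hσ * monoCo0 hc hσ = 1 := eps_self hc
      rw [h3, map_one]
    have h3 : (x : G) * x ∈ Q0 Q := ⟨_, h2, rfl⟩
    refine ⟨3, ?_⟩
    have h4 : (x : G) ^ 2 ^ 3 = (((x : G) * x) ^ 2) ^ 2 := by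
      rw [← pow_two, ← pow_mul, ← pow_mul]
      norm_num
    rw [h4]
    rcases hS.extra.sq _ h3 with h5 | h5
    · rw [h5, one_pow]
    · rw [h5, pow_two]
      exact hS.extra.sq_eq

/-- The `3`-part of the order of the centralizer of `z, s`. -/
theorem not81 (D : Data z Q e ψ) {s : G} (hrep : Rep ψ (e8 (pt 5)) s) :
    ¬ 81 ∣ Nat.card ↥(Subgroup.centralizer ({z, s} : Set G)) := by
  classical
  set X := Subgroup.centralizer ({z, s} : Set G) with hX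
  have hle : X ≤ CC z := by
    intro x hx
    exact (mem_XX.1 hx).1
  set T : Subgroup (CC z) := X.subgroupOf (CC z) with hT
  have hcT : Nat.card T = Nat.card X := Nat.card_congr (Subgroup.subgroupOfEquivOfLe hle).toEquiv
  have h1 := Cfsg.Agent.Lib.LargeQuot.card_map_mul (phi Q e) T
  rw [phi_ker] at h1
  -- the image
  have hmap : T.map (phi Q e) ≤ NN.map mkCo := by
    rintro _ ⟨c, hc, rfl⟩
    obtain ⟨g, hg⟩ := exists_lift' (Q := Q) (e := e) c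
    have hc' : (c : G) ∈ X := hc
    exact ⟨g, lift_mono D hrep (mem_XX.1 hc').2 hg, hg⟩
  have hd1 : Nat.card (T.map (phi Q e)) ∣ 4096 * 244823040 := by
    have h2 := Subgroup.card_dvd_of_le hmap
    have h3 : Nat.card (NN.map mkCo) ∣ Nat.card NN := by
      have h4 := Cfsg.Agent.Lib.LargeQuot.card_map_mul mkCo NN
      exact ⟨_, h4.symm⟩
    rw [card_NN] at h3
    exact h2.trans h3
  -- the kernel
  obtain ⟨j, -, hj⟩ : ∃ j ≤ 25, Nat.card ↥(Q.subgroupOf T) = 2 ^ j := by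
    have h2 : Nat.card ↥(Q.subgroupOf T) ∣ 2 ^ 25 := by
      have h3 : Nat.card Q = 2 ^ 25 := by
        have h4 := D.set.2.2.2.1
        rw [h4]
      rw [← h3]
      have h5 : Nat.card ↥((Q.subgroupOf T).map T.subtype) = Nat.card ↥(Q.subgroupOf T) :=
        Subgroup.card_map_of_injective T.subtype_injective
      rw [← h5]
      apply Subgroup.card_dvd_of_le
      rintro _ ⟨y, hy, rfl⟩
      exact hy
    exact (Nat.dvd_prime_pow Nat.prime_two).1 h2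
  rw [hj, hcT] at h1
  have hcop : Nat.Coprime 81 (2 ^ j) := Nat.Coprime.pow_right _ (by norm_num)
  intro h
  rw [← h1] at h
  have h2 := hcop.dvd_of_dvd_mul_right h
  have h3 := h2.trans hd1
  revert h3
  norm_num

/-- The normal form. -/
theorem exists_normal3 (D : Data z Q e ψ) (T : CoTrans) {s : G} (hsQ : s ∈ Q0 Q) (hs : IsConj z s) (hsz : s ≠ z)
    {Y : Subgroup G} (hY : Y ≤ Subgroup.centralizer ({z, s} : Set G)) (hY3 : Nat.card Y = 3)
    (hnc : ∀ P : Sylow 3 ↥(Subgroup.centralizer ({z, s} : Set G)), ¬ Y.subgroupOf (Subgroup.centralizer ({z, s} : Set G)) ≤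
      (Subgroup.center ↥(P : Subgroup ↥(Subgroup.centralizer ({z, s} : Set G)))).map
        (P : Subgroup ↥(Subgroup.centralizer ({z, s} : Set G))).subtype) :
    ∃ (e' : (CC z) ⧸ Q ≃* Spor.Co1) (ψ' : leechLattice → Q ⧸ Subgroup.center Q) (b : G) (hb : b ∈ CC z),
      Data z Q e' ψ' ∧ Rep ψ' (e8 (pt 5)) s ∧ Y = Subgroup.zpowers b ∧ phi Q e' ⟨b, hb⟩ = mkCo x3 ∧
        b * s = s * b ∧ b ^ 3 = 1 ∧ b ≠ 1 ∧ ∃ w : G, w * b = b * w ∧ w * z * w⁻¹ = s := by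
  classical
  have hthree : Fact (Nat.Prime 3) := ⟨by norm_num⟩
  have hS := D.setting
  have hs1 : s ≠ 1 := by
    rintro rfl
    exact hS.extra.ne_one (isConj_one_left.1 hs)
  obtain ⟨hc, hq⟩ := D.mem_Q0_iff.1 hsQ
  obtain ⟨v, h64, hψv⟩ := (conj_iff D T ⟨⟨s, hc⟩, hq⟩).1 ⟨hs, hsz⟩
  have hrep0 : Rep ψ v s := ⟨hc, hq, hψv⟩
  obtain ⟨g, u, hg⟩ := T.t64' h64 (sqNorm_e8 (pt 5))
  -- first twist
  have D₁ := twist D g
  have hrep1 : Rep (fun v => ψ ((g⁻¹ : Co0).1 v)) (e8 (pt 5)) s := by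
    have h1 := rep_twist hrep0 g
    rw [hg] at h1
    have h2 := D₁.rep_congr h1 (-u)
    have e1 : e8 (pt 5) + (u + u) + (-u + -u) = e8 (pt 5) := by abel
    rwa [e1] at h2
  generalize hψ₁ : (fun v => ψ ((g⁻¹ : Co0).1 v)) = ψ₁ at D₁ hrep1
  generalize he₁ : e.trans (MulAut.conj (mkCo g : Spor.Co1)) = e₁ at D₁
  set X := Subgroup.centralizer ({z, s} : Set G) with hX
  obtain ⟨θ, hM, hsurj, hker, hspec⟩ := exists_theta D₁ hrep1 hs1 hsz
  have h81 := not81 D₁ hrep1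
  have hnt : Nontrivial Y := by
    rw [← Finite.one_lt_card_iff_nontrivial, hY3]
    norm_num
  obtain ⟨⟨b, hbY⟩, hb1⟩ := exists_ne (1 : Y)
  have hb1' : b ≠ 1 := fun h => hb1 (Subtype.ext h)
  have hb3 : b ^ 3 = 1 := by
    have h1 := pow_card_eq_one' (x := (⟨b, hbY⟩ : Y))
    rw [hY3] at h1
    exact congrArg Subtype.val h1
  have hord : orderOf b = 3 := orderOf_eq_prime hb3 hb1'
  have hYb : Y = Subgroup.zpowers b := by
    symm
    apply Subgroup.eq_of_le_of_card_ge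
    · exact Subgroup.zpowers_le.2 hbY
    · rw [hY3, Nat.card_zpowers, hord]
  have hbX := mem_XX.1 (hY hbY)
  obtain ⟨hbC, hbs⟩ := hbX
  let y : X := ⟨b, hY hbY⟩
  have hy3 : y ^ 3 = 1 := Subtype.ext hb3
  have hy1 : y ≠ 1 := fun h => hb1' (congrArg Subtype.val h)
  have hnc' : ¬ 27 ∣ Nat.card (Subgroup.centralizer ({y} : Set X)) := by
    intro h27
    obtain ⟨P, hP⟩ := central_of_dvd hY hY3 (y := y) hbY hy1 h81 h27
    exact hnc P hP
  -- fixed-point freeness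
  have hfpf : ∀ y₁ : X, y₁ ^ 3 = 1 → y₁ ≠ 1 → ¬ 27 ∣ Nat.card (Subgroup.centralizer ({y₁} : Set X)) →
      ∀ p, θ y₁ p ≠ p := by
    intro y₁ h3 h1 h27 p hp
    have hθ1 : θ y₁ ≠ 1 := by
      intro h
      apply h1
      apply Subtype.ext
      exact eq_one_of_two_five (hker y₁ h) (by decide) (congrArg Subtype.val h3)
    have hθ3 : θ y₁ ^ 3 = 1 := by rw [← map_pow, h3, map_one]
    obtain ⟨P, hcP, hPM, hPc⟩ := exists_P (hM y₁) hθ3 hθ1 hp
    apply h27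
    have := dvd_card hker h3 h1 hPc (fun τ hτ => hsurj τ (hPM hτ))
    rwa [hcP] at this
  -- the element swapping `z` and `s`
  obtain ⟨g₀, hg₀⟩ := isConj_iff.1 hs
  have hP := D₁.pair (g := g₀) (by rw [hg₀]; exact hsQ) (by rw [hg₀]; exact hsz)
  obtain ⟨z', hz'Q, hz'⟩ := hP.hzQ'
  have hz'' : g₀ * z' * g₀⁻¹ = z := hz'
  have hzc : IsConj z z' := by
    refine isConj_iff.2 ⟨g₀⁻¹, ?_⟩
    rw [← hz'']
    group
  have hz'z : z' ≠ z := by
    intro h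
    rw [h, hg₀] at hz''
    exact hsz hz''
  obtain ⟨c, hcC, hcz⟩ := conj_transitive D₁ T hz'Q hsQ hzc hs hz'z hsz
  have hcc : c * z = z * c := Subgroup.mem_centralizer_singleton_iff.1 hcC
  set w := g₀ * c⁻¹ with hw
  have hwz : w * z * w⁻¹ = s := by
    have h1 : c⁻¹ * z * c = z := by
      rw [mul_assoc, ← hcc]
      group
    calc w * z * w⁻¹ = g₀ * (c⁻¹ * z * c) * g₀⁻¹ := by rw [hw]; group
      _ = s := by rw [h1, hg₀]
  have hws : w * s * w⁻¹ = z := by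
    have h1 : c⁻¹ * s * c = z' := by
      rw [← hcz]
      group
    calc w * s * w⁻¹ = g₀ * (c⁻¹ * s * c) * g₀⁻¹ := by rw [hw]; group
      _ = z := by rw [h1, hz'']
  have hwz' : w⁻¹ * s * w = z := by
    rw [← hwz]
    group
  have hws' : w⁻¹ * z * w = s := by
    rw [← hws]
    group
  have hwX : ∀ x ∈ X, w * x * w⁻¹ ∈ X := by
    intro x hx
    obtain ⟨hx1, hx2⟩ := mem_XX.1 hx
    have hx1' : x * z = z * x := Subgroup.mem_centralizer_singleton_iff.1 hx1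
    refine mem_XX.2 ⟨?_, ?_⟩
    · rw [Subgroup.mem_centralizer_singleton_iff]
      calc w * x * w⁻¹ * z = w * x * (w⁻¹ * z * w) * w⁻¹ := by group
        _ = w * x * s * w⁻¹ := by rw [hws']
        _ = w * s * x * w⁻¹ := by rw [mul_assoc w x s, hx2, mul_assoc w s x]
        _ = (w * s * w⁻¹) * (w * x * w⁻¹) := by group
        _ = z * (w * x * w⁻¹) := by rw [hws]
    · calc w * x * w⁻¹ * s = w * x * (w⁻¹ * s * w) * w⁻¹ := by group
        _ = w * x * z * w⁻¹ := by rw [hwz']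
        _ = w * z * x * w⁻¹ := by rw [mul_assoc w x z, hx1', mul_assoc w z x]
        _ = (w * z * w⁻¹) * (w * x * w⁻¹) := by group
        _ = s * (w * x * w⁻¹) := by rw [hwz]
  have hwX' : ∀ x ∈ X, w⁻¹ * x * w ∈ X := by
    intro x hx
    obtain ⟨hx1, hx2⟩ := mem_XX.1 hx
    have hx1' : x * z = z * x := Subgroup.mem_centralizer_singleton_iff.1 hx1
    refine mem_XX.2 ⟨?_, ?_⟩
    · rw [Subgroup.mem_centralizer_singleton_iff]
      calc w⁻¹ * x * w * z = w⁻¹ * x * (w * z * w⁻¹) * w := by group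
        _ = w⁻¹ * x * s * w := by rw [hwz]
        _ = w⁻¹ * s * x * w := by rw [mul_assoc w⁻¹ x s, hx2, mul_assoc w⁻¹ s x]
        _ = (w⁻¹ * s * w) * (w⁻¹ * x * w) := by group
        _ = z * (w⁻¹ * x * w) := by rw [hwz']
    · calc w⁻¹ * x * w * s = w⁻¹ * x * (w * s * w⁻¹) * w := by group
        _ = w⁻¹ * x * z * w := by rw [hws]
        _ = w⁻¹ * z * x * w := by rw [mul_assoc w⁻¹ x z, hx1', mul_assoc w⁻¹ z x]
        _ = (w⁻¹ * z * w) * (w⁻¹ * x * w) := by group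
        _ = s * (w⁻¹ * x * w) := by rw [hws']
  let y' : X := ⟨w * b * w⁻¹, hwX _ (hY hbY)⟩
  have hy'3 : y' ^ 3 = 1 := by
    apply Subtype.ext
    show (w * b * w⁻¹) ^ 3 = 1
    rw [conj_pow, hb3]
    group
  have hy'1 : y' ≠ 1 := by
    intro h
    have h1 : w * b * w⁻¹ = 1 := congrArg Subtype.val h
    apply hb1'
    have h2 := mul_inv_eq_one.1 h1
    exact mul_eq_left.1 h2
  have hcard : Nat.card (Subgroup.centralizer ({y'} : Set X)) = Nat.card (Subgroup.centralizer ({y} : Set X)) := by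
    apply Nat.card_congr
    refine ⟨fun x => ⟨⟨w⁻¹ * x.1.1 * w, hwX' _ x.1.2⟩, ?_⟩, fun x => ⟨⟨w * x.1.1 * w⁻¹, hwX _ x.1.2⟩, ?_⟩, ?_, ?_⟩
    · rw [Subgroup.mem_centralizer_singleton_iff]
      apply Subtype.ext
      have h1 : (x.1.1 : G) * (w * b * w⁻¹) = (w * b * w⁻¹) * x.1.1 :=
        congrArg Subtype.val (Subgroup.mem_centralizer_singleton_iff.1 x.2)
      show w⁻¹ * x.1.1 * w * b = b * (w⁻¹ * x.1.1 * w)
      calc w⁻¹ * x.1.1 * w * b = w⁻¹ * ((x.1.1 : G) * (w * b * w⁻¹)) * w := by group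
        _ = w⁻¹ * ((w * b * w⁻¹) * x.1.1) * w := by rw [h1]
        _ = _ := by group
    · rw [Subgroup.mem_centralizer_singleton_iff]
      apply Subtype.ext
      have h1 : (x.1.1 : G) * b = b * x.1.1 :=
        congrArg Subtype.val (Subgroup.mem_centralizer_singleton_iff.1 x.2)
      show w * x.1.1 * w⁻¹ * (w * b * w⁻¹) = (w * b * w⁻¹) * (w * x.1.1 * w⁻¹)
      calc w * x.1.1 * w⁻¹ * (w * b * w⁻¹) = w * ((x.1.1 : G) * b) * w⁻¹ := by group
        _ = w * (b * x.1.1) * w⁻¹ := by rw [h1]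
        _ = _ := by group
    · intro x
      apply Subtype.ext
      apply Subtype.ext
      show w * (w⁻¹ * x.1.1 * w) * w⁻¹ = x.1.1
      group
    · intro x
      apply Subtype.ext
      apply Subtype.ext
      show w⁻¹ * (w * x.1.1 * w⁻¹) * w = x.1.1
      group
  have hfy := hfpf y hy3 hy1 hnc'
  have hfy' := hfpf y' hy'3 hy'1 (by rw [hcard]; exact hnc')
  have hθy3 : θ y ^ 3 = 1 := by rw [← map_pow, hy3, map_one]
  have hθy'3 : θ y' ^ 3 = 1 := by rw [← map_pow, hy'3, map_one]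
  obtain ⟨k₁, hk₁, e₁'⟩ := class3B (hM y) hθy3 hfy
  obtain ⟨k₂, hk₂, e₂'⟩ := class3B (hM y') hθy'3 hfy'
  obtain ⟨l₁, hl₁⟩ := hsurj (k₁ * k₂⁻¹) (M24.mul_mem hk₁ (M24.inv_mem hk₂))
  have hθe : θ y = θ (l₁ * y' * l₁⁻¹) := by
    rw [map_mul, map_mul, map_inv, hl₁, e₁', e₂']
    group
  have hl3 : (l₁ * y' * l₁⁻¹) ^ 3 = 1 := by
    rw [conj_pow, hy'3]
    group
  obtain ⟨q, -, hq⟩ := conj_ker hker hy3 hy1 hl3 hθe
  have hq' : (q : G) * ((l₁ : G) * (w * b * w⁻¹) * (l₁ : G)⁻¹) * (q : G)⁻¹ = b := congrArg Subtype.val hq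
  have hWb : ((q : G) * l₁ * w) * b = b * ((q : G) * l₁ * w) := by
    have h1 : ((q : G) * l₁ * w) * b * ((q : G) * l₁ * w)⁻¹ = b := by
      rw [← hq']
      nth_rw 1 [hq']
      group
    exact mul_inv_eq_iff_eq_mul.1 h1
  have hWz : ((q : G) * l₁ * w) * z * ((q : G) * l₁ * w)⁻¹ = s := by
    have hql : (l₁ : G) * s = s * l₁ := (mem_XX.1 l₁.2).2
    have hqq : (q : G) * s = s * q := (mem_XX.1 q.2).2
    calc ((q : G) * l₁ * w) * z * ((q : G) * l₁ * w)⁻¹ = (q : G) * l₁ * (w * z * w⁻¹) * (l₁ : G)⁻¹ * (q : G)⁻¹ := by group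
      _ = (q : G) * ((l₁ : G) * s) * (l₁ : G)⁻¹ * (q : G)⁻¹ := by rw [hwz, mul_assoc (q : G)]
      _ = (q : G) * s * (q : G)⁻¹ := by rw [hql]; group
      _ = s := by rw [hqq]; group
  -- a lift of order three
  obtain ⟨g₀', hg₀'⟩ := exists_lift' (Q := Q) (e := e₁) (⟨b, hbC⟩ : CC z)
  have h3c : mkCo g₀' ^ 3 = 1 := by
    rw [hg₀', ← map_pow]
    have : (⟨b, hbC⟩ : CC z) ^ 3 = 1 := Subtype.ext hb3
    rw [this, map_one]
  obtain ⟨g₁, hg₁, hg₁3⟩ : ∃ g₁ : Co0, mkCo g₁ = phi Q e₁ (⟨b, hbC⟩ : CC z) ∧ g₁ ^ 3 = 1 := by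
    rw [← map_pow] at h3c
    rcases center_cases (mkCo_eq_one_iff.1 h3c) with h | h
    · exact ⟨g₀', hg₀', h⟩
    · refine ⟨g₀' * negCo0, ?_, ?_⟩
      · rw [map_mul, mkCo_eq_one_iff.2 neg_center, mul_one, hg₀']
      · have hc : Commute g₀' negCo0 := Subgroup.mem_center_iff.1 neg_center g₀'
        rw [hc.mul_pow, h, neg_pow3, Cfsg.Agent.Lib.FiveGp3.neg_sq]
  obtain ⟨d, σ, hd, hσ, rfl⟩ := lift_mono D₁ hrep1 hbs hg₁
  have hθσ : θ y = σ⁻¹ := hspec y hbC d σ hd hσ hg₁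
  have hσ3 : σ ^ 3 = 1 := by
    have h1 := hθy3
    rw [hθσ, inv_pow, inv_eq_one] at h1
    exact h1
  have hσf : ∀ p, σ p ≠ p := by
    intro p hp
    apply hfy p
    rw [hθσ, Equiv.Perm.inv_eq_iff_eq]
    exact hp.symm
  obtain ⟨k, hk, e3⟩ := class3B hσ hσ3 hσf
  obtain ⟨k', hk', e3'⟩ := class3B xi3_mem xi3_pow xi3_fpf
  have hl : k * k'⁻¹ ∈ M24 := M24.mul_mem hk (M24.inv_mem hk')
  have hσl : σ = (k * k'⁻¹) * xi3 * (k * k'⁻¹)⁻¹ := by
    nth_rw 1 [e3]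
    rw [e3']
    group
  obtain ⟨d', hd', hud⟩ := conj_mono hd hσ hl xi3_mem hσl
  generalize hu₀ : monoCo0 empty_mem_codeSets hl = u₀ at hud
  have hg₂3 : (monoCo0 hd' xi3_mem) ^ 3 = 1 := by
    rw [← hud, conj_pow, hg₁3]
    group
  have : Finite Co0 := finite_Co0
  obtain ⟨q₁, hq₁, hq₁c⟩ := Cfsg.Agent.Lib.CoprimeConj.coprime_conj (N := Sign) (p := 3) (by norm_num) (by decide) isP_Sign
    x3_pow x3_ne (conj_Sign empty_mem_codeSets xi3_mem) hg₂3 (inv_mul_Sign empty_mem_codeSets hd' xi3_mem)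
  have hvN : q₁ * u₀ ∈ NN := by
    obtain ⟨c₁, hc₁, rfl⟩ := hq₁
    rw [← hu₀]
    exact NN.mul_mem ⟨c₁, 1, hc₁, M24.one_mem, rfl⟩ ⟨∅, _, empty_mem_codeSets, hl, rfl⟩
  have hv : (q₁ * u₀) * monoCo0 hd hσ * (q₁ * u₀)⁻¹ = x3 := by
    rw [← hq₁c, ← hud]
    group
  -- second twist
  have D₂ := twist D₁ (q₁ * u₀)
  refine ⟨e₁.trans (MulAut.conj (mkCo (q₁ * u₀) : Spor.Co1)), fun v => ψ₁ (((q₁ * u₀)⁻¹ : Co0).1 v), b, hbC, D₂,
    ?_, hYb, ?_, hbs, hb3, hb1', _, hWb, hWz⟩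
  · obtain ⟨c₂, σ₂, hc₂, hσ₂, hv₂⟩ := hvN
    obtain ⟨u', hu'⟩ := monoCo0_cong hc₂ hσ₂ (pt 5)
    rw [← hv₂] at hu'
    have h1 := rep_twist hrep1 (q₁ * u₀)
    rw [hu'] at h1
    have h2 := D₂.rep_congr h1 (-u')
    have e1 : e8 (pt 5) + (u' + u') + (-u' + -u') = e8 (pt 5) := by abel
    rwa [e1] at h2
  · rw [phi_twist, ← hg₁, ← map_inv, ← map_mul, ← map_mul, hv]

end Cfsg.Agent.Lib.ThreeGp2
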