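import Mathlib
import Cfsg.Agent.Lib.ThreeGp2
import Cfsg.Agent.Lib.FiT6

/-!
# Normal form for a `3`-central subgroup of order three of the centralizer of two conjugates of `z` in `Q`.
-/

set_option autoImplicit false
set_option maxRecDepth 100000

open Cfsg
open Cfsg.Agent.Lib.LargeExtra Cfsg.Agent.Lib.LargePair Cfsg.Agent.Lib.MonsterLocal
open Cfsg.Agent.Lib.Co0Mono Cfsg.Agent.Lib.Leech
open Cfsg.Agent.Lib.Co0Frame Cfsg.Agent.Lib.MonsterMain Cfsg.Agent.Lib.MonsterBabyA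
open Cfsg.Agent.Lib.ThreeGp1 Cfsg.Agent.Lib.ThreeGp2
open Cfsg.Agent.Lib.FiT1 (sF sF_mem xF)
open Cfsg.Agent.Lib.Three1 (xi3 xi3_mem)
open Cfsg.Agent.Lib.Three3 (S3F card_S3F mem_S3F)
open Cfsg.Agent.Lib.FiveGp1 (eq_one_of_two_five)
open Cfsg.Agent.Lib.FiveGp2 (rep_twist phi_twist mem_XX lift_mono)
open Cfsg.Agent.Lib.Co0Order
open Cfsg.Agent.S0398 (e8 e8_apply neg_center)
open Cfsg.Agent.Lib.Golay (pt idx idx_pt idx_lt ap class3A class3B decode isM24 isM24_valid decode_mem_M24 RepBy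
  repBy_decode eq_of_repBy comm_of_repBy X3A X3A_isM24)

namespace Cfsg.Agent.Lib.FiTGp1

/-! ### Elements of order three -/

/-- An element inverting the permutation. -/
def nI : ℕ := 183408252294785790726249072792012832

theorem nI_isM24 : isM24 nI = true := by decide +kernel

theorem nI_inv : decode X3A * decode nI * decode X3A = decode nI :=
  eq_of_repBy (((repBy_decode (isM24_valid X3A_isM24)).mul (repBy_decode (isM24_valid nI_isM24))).mul
    (repBy_decode (isM24_valid X3A_isM24))) (repBy_decode (isM24_valid nI_isM24)) (by decide +kernel)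

theorem sF_inv_eq : sF⁻¹ = decode nI * sF * (decode nI)⁻¹ := by
  have h := nI_inv
  have h2 : sF * decode nI * sF = decode nI := h
  calc sF⁻¹ = sF⁻¹ * (decode nI) * (decode nI)⁻¹ := by group
    _ = sF⁻¹ * (sF * decode nI * sF) * (decode nI)⁻¹ := by rw [h2]
    _ = _ := by group

/-- An element of order three of `M24` with fixed points is conjugate to `sF`. -/
theorem class3F {g : Equiv.Perm GolayPt} (hg : g ∈ M24) (h3 : g ^ 3 = 1) (h1 : g ≠ 1) (hf : ∃ p, g p = p) :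
    ∃ k ∈ M24, g = k * sF * k⁻¹ := by
  obtain ⟨p, hp⟩ := hf
  obtain ⟨k, hk, e⟩ := class3A hg h3 h1 (fix_five hg h3 h1 hp)
  rcases e with e | e
  · exact ⟨k, hk, e⟩
  · refine ⟨k * decode nI, M24.mul_mem hk (decode_mem_M24 nI_isM24), ?_⟩
    have e2 : (decode X3A)⁻¹ = sF⁻¹ := rfl
    rw [e, e2, sF_inv_eq]
    group

theorem repBy_pow {g : Equiv.Perm GolayPt} {f : ℕ → ℕ} (h : RepBy g f) (n : ℕ) : RepBy (g ^ n) f^[n] := by
  induction n with
  | zero =>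
    intro p
    rfl
  | succ n ih =>
    intro p
    rw [pow_succ, Equiv.Perm.mul_apply, ih, h, Function.iterate_succ_apply]

theorem pow_ne {g : Equiv.Perm GolayPt} {f : ℕ → ℕ} (h : RepBy g f) (n : ℕ) {i : ℕ} (hi : i < 24) (hne : f^[n] i ≠ i) :
    g ^ n ≠ 1 := by
  intro h1
  apply hne
  have h2 := (repBy_pow h n).val hi
  rw [h1] at h2
  rw [← h2]
  exact idx_pt hi

/-- An element of order seven commuting with `xi3`. -/
def c7 : ℕ := 962670480447559068472803274043822112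

/-- An element of order four commuting with `xi3`. -/
def c4 : ℕ := 928434446597837145345795608279024143

theorem c7_isM24 : isM24 c7 = true := by decide +kernel
theorem c4_isM24 : isM24 c4 = true := by decide +kernel
theorem c7_v : Cfsg.Agent.Lib.Golay.valid c7 = true := isM24_valid c7_isM24
theorem c4_v : Cfsg.Agent.Lib.Golay.valid c4 = true := isM24_valid c4_isM24

theorem c3_v : Cfsg.Agent.Lib.Golay.valid Cfsg.Agent.Lib.ThreeData.c3 = true := isM24_valid Cfsg.Agent.Lib.Three1.c3_isM24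

theorem c7_comm : decode c7 * xi3 = xi3 * decode c7 :=
  comm_of_repBy (repBy_decode c7_v) (repBy_decode c3_v) (repBy_decode c3_v) (by decide +kernel)

theorem c4_comm : decode c4 * xi3 = xi3 * decode c4 :=
  comm_of_repBy (repBy_decode c4_v) (repBy_decode c3_v) (repBy_decode c3_v) (by decide +kernel)

theorem orderOf_c7 : orderOf (decode c7) = 7 :=
  haveI : Fact (Nat.Prime 7) := ⟨by norm_num⟩
  orderOf_eq_prime (eq_of_repBy (f' := id) (repBy_pow (repBy_decode c7_v) 7) (fun _ => rfl) (by decide +kernel))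
    (by
      have := pow_ne (repBy_decode c7_v) 1 (i := 2) (by decide) (by decide +kernel)
      simpa using this)

theorem orderOf_c4 : orderOf (decode c4) = 2 ^ (1 + 1) :=
  orderOf_eq_prime_pow (pow_ne (repBy_decode c4_v) (2 ^ 1) (i := 0) (by decide) (by decide +kernel))
    (eq_of_repBy (f' := id) (repBy_pow (repBy_decode c4_v) (2 ^ (1 + 1))) (fun _ => rfl) (by decide +kernel))

/-- The centralizer of `xi3` in `M24`. -/
noncomputable def T3 : Subgroup (Equiv.Perm GolayPt) := M24 ⊓ Subgroup.centralizer ({xi3} : Set (Equiv.Perm GolayPt))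

theorem mem_T3 {σ : Equiv.Perm GolayPt} : σ ∈ T3 ↔ σ ∈ M24 ∧ σ * xi3 = xi3 * σ := by
  show σ ∈ M24 ∧ σ ∈ Subgroup.centralizer ({xi3} : Set (Equiv.Perm GolayPt)) ↔ _
  rw [Subgroup.mem_centralizer_singleton_iff]

theorem card_T3_le : Nat.card T3 ≤ 504 := by
  classical
  have h0 : Nat.card T3 = (T3 : Set (Equiv.Perm GolayPt)).ncard := Nat.card_coe_set_eq _
  rw [h0]
  refine le_trans ?_ card_S3F
  rw [← Set.ncard_coe_finset]
  exact Set.ncard_le_ncard (fun σ hσ => Finset.mem_coe.2 (mem_S3F (mem_T3.1 hσ).1 (mem_T3.1 hσ).2)) (Finset.finite_toSet _)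

/-- No subgroup of order divisible by `27` centralizes an element of order three without fixed points. -/
theorem no27 {g : Equiv.Perm GolayPt} (hg : g ∈ M24) (h3 : g ^ 3 = 1) (hf : ∀ p, g p ≠ p) (I : Subgroup (Equiv.Perm GolayPt))
    (hI : ∀ τ ∈ I, τ ∈ M24 ∧ τ * g = g * τ) : ¬ 27 ∣ Nat.card I := by
  intro h27
  obtain ⟨k, hk, e⟩ := class3B hg h3 hf
  obtain ⟨k', hk', e'⟩ := class3B xi3_mem Cfsg.Agent.Lib.ThreeGp2.xi3_pow Cfsg.Agent.Lib.ThreeGp2.xi3_fpf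
  set l := k' * k⁻¹ with hl
  have hlM : l ∈ M24 := M24.mul_mem hk' (M24.inv_mem hk)
  have hlg : l * g * l⁻¹ = xi3 := by
    rw [e, e', hl]
    group
  have hle : I.map (MulAut.conj l).toMonoidHom ≤ T3 := by
    rintro _ ⟨τ, hτ, rfl⟩
    obtain ⟨h1, h2⟩ := hI τ hτ
    refine mem_T3.2 ⟨M24.mul_mem (M24.mul_mem hlM h1) (M24.inv_mem hlM), ?_⟩
    show l * τ * l⁻¹ * xi3 = xi3 * (l * τ * l⁻¹)
    rw [← hlg]
    calc l * τ * l⁻¹ * (l * g * l⁻¹) = l * (τ * g) * l⁻¹ := by group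
      _ = l * (g * τ) * l⁻¹ := by rw [h2]
      _ = _ := by group
  have h1 : Nat.card I ∣ Nat.card T3 := by
    have := Subgroup.card_dvd_of_le hle
    rwa [Subgroup.card_map_of_injective (MulAut.conj l).injective] at this
  have h7 : 7 ∣ Nat.card T3 := by
    have := orderOf_dvd_natCard (⟨decode c7, mem_T3.2 ⟨decode_mem_M24 c7_isM24, c7_comm⟩⟩ : T3)
    rwa [Subgroup.orderOf_mk, orderOf_c7] at this
  have h4 : 4 ∣ Nat.card T3 := by
    have := orderOf_dvd_natCard (⟨decode c4, mem_T3.2 ⟨decode_mem_M24 c4_isM24, c4_comm⟩⟩ : T3)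
    rwa [Subgroup.orderOf_mk, orderOf_c4] at this
  have h756 : 756 ∣ Nat.card T3 := by
    have h5 : Nat.Coprime 27 7 := by norm_num
    have h6 : Nat.Coprime (27 * 7) 4 := by norm_num
    exact (h6.mul_dvd_of_dvd_of_dvd (h5.mul_dvd_of_dvd_of_dvd (h27.trans h1) h7) h4)
  have h8 := Nat.le_of_dvd Nat.card_pos h756
  have h9 := card_T3_le
  omega

variable {G : Type*} [Group G] [Finite G]

/-- Elements central in a Sylow subgroup have large centralizers. -/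
theorem dvd_of_central {X : Subgroup G} (P : Sylow 3 X) {y : X}
    (hy : y ∈ (Subgroup.center (P : Subgroup X)).map (P : Subgroup X).subtype) (h27 : 27 ∣ Nat.card X) :
    27 ∣ Nat.card (Subgroup.centralizer ({y} : Set X)) := by
  classical
  have hp : Fact (Nat.Prime 3) := ⟨by norm_num⟩
  have hle : (P : Subgroup X) ≤ Subgroup.centralizer ({y} : Set X) := by
    intro w hw
    rw [Subgroup.mem_centralizer_singleton_iff]
    obtain ⟨c, hc, rfl⟩ := hy
    have h1 := Subgroup.mem_center_iff.1 hc ⟨w, hw⟩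
    exact congrArg Subtype.val h1
  have hcP : Nat.card (P : Subgroup X) = 3 ^ (Nat.card X).factorization 3 := P.card_eq_multiplicity
  have hX0 : Nat.card X ≠ 0 := Nat.card_pos.ne'
  have hv : 3 ≤ (Nat.card X).factorization 3 :=
    (hp.out.pow_dvd_iff_le_factorization hX0).1 (by simpa using h27)
  have h1 : 27 ∣ Nat.card (P : Subgroup X) := by
    rw [hcP]
    exact pow_dvd_pow 3 hv
  exact h1.trans (Subgroup.card_dvd_of_le hle)

theorem dvd_X {X : Subgroup G} {θ : X →* Equiv.Perm GolayPt} (hsurj : ∀ σ ∈ M24, ∃ x, θ x = σ) : 27 ∣ Nat.card X := by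
  have hle : P1 ≤ θ.range := fun τ hτ => hsurj τ (P1_M24 hτ)
  have h1 := Subgroup.card_dvd_of_le hle
  rw [card_P1] at h1
  exact h1.trans (Subgroup.card_range_dvd _)

/-- An element of order three with a centralizer of order divisible by `27` has fixed points. -/
theorem fix_of_dvd {X : Subgroup G} {θ : X →* Equiv.Perm GolayPt} (hM : ∀ x, θ x ∈ M24)
    (hker : ∀ x : X, θ x = 1 → ∃ k : ℕ, (x : G) ^ 2 ^ k = 1) {y : X} (h3 : y ^ 3 = 1) (_h1 : y ≠ 1)
    (h27 : 27 ∣ Nat.card (Subgroup.centralizer ({y} : Set X))) : ∃ p, θ y p = p := by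
  by_contra hcon
  push Not at hcon
  set A := Subgroup.centralizer ({y} : Set X) with hA
  have h4 := Cfsg.Agent.Lib.LargeQuot.card_map_mul θ A
  have hP : IsPGroup 2 (θ.ker.subgroupOf A) := by
    rintro ⟨x, hx⟩
    obtain ⟨k, hk⟩ := hker (x : X) hx
    refine ⟨k, ?_⟩
    apply Subtype.ext
    apply Subtype.ext
    apply Subtype.ext
    simpa using hk
  obtain ⟨n, hn⟩ := IsPGroup.iff_card.1 hP
  rw [hn] at h4
  have hcop : Nat.Coprime 27 (2 ^ n) := Nat.Coprime.pow_right _ (by norm_num)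
  rw [← h4] at h27
  have h5 := hcop.dvd_of_dvd_mul_right h27
  refine no27 (hM y) (by rw [← map_pow, h3, map_one]) hcon (A.map θ) ?_ h5
  rintro _ ⟨a, ha, rfl⟩
  refine ⟨hM a, ?_⟩
  rw [← map_mul, ← map_mul, Subgroup.mem_centralizer_singleton_iff.1 ha]

variable {z : G} {Q : Subgroup (CC z)} [Q.Normal]
  {e : (CC z) ⧸ Q ≃* Spor.Co1} {ψ : leechLattice → Q ⧸ Subgroup.center Q}

/-- The normal form. -/
theorem exists_normalF (D : Data z Q e ψ) (T : CoTrans) {s : G} (hsQ : s ∈ Q0 Q) (hs : IsConj z s) (hsz : s ≠ z)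
    {Y : Subgroup G} (hY : Y ≤ Subgroup.centralizer ({z, s} : Set G)) (hY3 : Nat.card Y = 3)
    (hc : ∃ P : Sylow 3 ↥(Subgroup.centralizer ({z, s} : Set G)), Y.subgroupOf (Subgroup.centralizer ({z, s} : Set G)) ≤
      (Subgroup.center ↥(P : Subgroup ↥(Subgroup.centralizer ({z, s} : Set G)))).map
        (P : Subgroup ↥(Subgroup.centralizer ({z, s} : Set G))).subtype) :
    ∃ (e' : (CC z) ⧸ Q ≃* Spor.Co1) (ψ' : leechLattice → Q ⧸ Subgroup.center Q) (b : G) (hb : b ∈ CC z),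
      Data z Q e' ψ' ∧ Rep ψ' (e8 (pt 5)) s ∧ Y = Subgroup.zpowers b ∧ phi Q e' ⟨b, hb⟩ = mkCo xF ∧
        b * s = s * b ∧ b ^ 3 = 1 ∧ b ≠ 1 ∧ ∃ w : G, w * b = b * w ∧ w * z * w⁻¹ = s := by
  classical
  have hthree : Fact (Nat.Prime 3) := ⟨by norm_num⟩
  have hS := D.setting
  have hs1 : s ≠ 1 := by
    rintro rfl
    exact hS.extra.ne_one (isConj_one_left.1 hs)
  obtain ⟨hc, hq⟩ := D.mem_Q0_iff.1 hsQ
  obtain ⟨v, h64, hψv⟩ := (conj_iff D T ⟨⟨s, hc⟩, hq⟩).1 ⟨hs, hsz⟩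
  have hrep0 : Rep ψ v s := ⟨hc, hq, hψv⟩
  obtain ⟨g, u, hg⟩ := T.t64' h64 (sqNorm_e8 (pt 5))
  -- first twist
  have D₁ := twist D g
  have hrep1 : Rep (fun v => ψ ((g⁻¹ : Co0).1 v)) (e8 (pt 5)) s := by
    have h1 := rep_twist hrep0 g
    rw [hg] at h1
    have h2 := D₁.rep_congr h1 (-u)
    have e1 : e8 (pt 5) + (u + u) + (-u + -u) = e8 (pt 5) := by abel
    rwa [e1] at h2
  generalize hψ₁ : (fun v => ψ ((g⁻¹ : Co0).1 v)) = ψ₁ at D₁ hrep1
  generalize he₁ : e.trans (MulAut.conj (mkCo g : Spor.Co1)) = e₁ at D₁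
  set X := Subgroup.centralizer ({z, s} : Set G) with hX
  obtain ⟨θ, hM, hsurj, hker, hspec⟩ := exists_theta D₁ hrep1 hs1 hsz
  have hnt : Nontrivial Y := by
    rw [← Finite.one_lt_card_iff_nontrivial, hY3]
    norm_num
  obtain ⟨⟨b, hbY⟩, hb1⟩ := exists_ne (1 : Y)
  have hb1' : b ≠ 1 := fun h => hb1 (Subtype.ext h)
  have hb3 : b ^ 3 = 1 := by
    have h1 := pow_card_eq_one' (x := (⟨b, hbY⟩ : Y))
    rw [hY3] at h1
    exact congrArg Subtype.val h1
  have hord : orderOf b = 3 := orderOf_eq_prime hb3 hb1'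
  have hYb : Y = Subgroup.zpowers b := by
    symm
    apply Subgroup.eq_of_le_of_card_ge
    · exact Subgroup.zpowers_le.2 hbY
    · rw [hY3, Nat.card_zpowers, hord]
  have hbX := mem_XX.1 (hY hbY)
  obtain ⟨hbC, hbs⟩ := hbX
  let y : X := ⟨b, hY hbY⟩
  have hy3 : y ^ 3 = 1 := Subtype.ext hb3
  have hy1 : y ≠ 1 := fun h => hb1' (congrArg Subtype.val h)
  have hnc' : 27 ∣ Nat.card (Subgroup.centralizer ({y} : Set X)) := by
    obtain ⟨P, hP⟩ := hc
    exact dvd_of_central P (hP (show y ∈ Y.subgroupOf X from hbY)) (dvd_X hsurj)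
  have hθne : ∀ y₁ : X, y₁ ^ 3 = 1 → y₁ ≠ 1 → θ y₁ ≠ 1 := by
    intro y₁ h3 h1 h
    apply h1
    apply Subtype.ext
    exact eq_one_of_two_five (hker y₁ h) (by decide) (congrArg Subtype.val h3)
  -- the element swapping `z` and `s`
  obtain ⟨g₀, hg₀⟩ := isConj_iff.1 hs
  have hP := D₁.pair (g := g₀) (by rw [hg₀]; exact hsQ) (by rw [hg₀]; exact hsz)
  obtain ⟨z', hz'Q, hz'⟩ := hP.hzQ'
  have hz'' : g₀ * z' * g₀⁻¹ = z := hz'
  have hzc : IsConj z z' := by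
    refine isConj_iff.2 ⟨g₀⁻¹, ?_⟩
    rw [← hz'']
    group
  have hz'z : z' ≠ z := by
    intro h
    rw [h, hg₀] at hz''
    exact hsz hz''
  obtain ⟨c, hcC, hcz⟩ := conj_transitive D₁ T hz'Q hsQ hzc hs hz'z hsz
  have hcc : c * z = z * c := Subgroup.mem_centralizer_singleton_iff.1 hcC
  set w := g₀ * c⁻¹ with hw
  have hwz : w * z * w⁻¹ = s := by
    have h1 : c⁻¹ * z * c = z := by
      rw [mul_assoc, ← hcc]
      group
    calc w * z * w⁻¹ = g₀ * (c⁻¹ * z * c) * g₀⁻¹ := by rw [hw]; group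
      _ = s := by rw [h1, hg₀]
  have hws : w * s * w⁻¹ = z := by
    have h1 : c⁻¹ * s * c = z' := by
      rw [← hcz]
      group
    calc w * s * w⁻¹ = g₀ * (c⁻¹ * s * c) * g₀⁻¹ := by rw [hw]; group
      _ = z := by rw [h1, hz'']
  have hwz' : w⁻¹ * s * w = z := by
    rw [← hwz]
    group
  have hws' : w⁻¹ * z * w = s := by
    rw [← hws]
    group
  have hwX : ∀ x ∈ X, w * x * w⁻¹ ∈ X := by
    intro x hx
    obtain ⟨hx1, hx2⟩ := mem_XX.1 hx
    have hx1' : x * z = z * x := Subgroup.mem_centralizer_singleton_iff.1 hx1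
    refine mem_XX.2 ⟨?_, ?_⟩
    · rw [Subgroup.mem_centralizer_singleton_iff]
      calc w * x * w⁻¹ * z = w * x * (w⁻¹ * z * w) * w⁻¹ := by group
        _ = w * x * s * w⁻¹ := by rw [hws']
        _ = w * s * x * w⁻¹ := by rw [mul_assoc w x s, hx2, mul_assoc w s x]
        _ = (w * s * w⁻¹) * (w * x * w⁻¹) := by group
        _ = z * (w * x * w⁻¹) := by rw [hws]
    · calc w * x * w⁻¹ * s = w * x * (w⁻¹ * s * w) * w⁻¹ := by group
        _ = w * x * z * w⁻¹ := by rw [hwz']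
        _ = w * z * x * w⁻¹ := by rw [mul_assoc w x z, hx1', mul_assoc w z x]
        _ = (w * z * w⁻¹) * (w * x * w⁻¹) := by group
        _ = s * (w * x * w⁻¹) := by rw [hwz]
  have hwX' : ∀ x ∈ X, w⁻¹ * x * w ∈ X := by
    intro x hx
    obtain ⟨hx1, hx2⟩ := mem_XX.1 hx
    have hx1' : x * z = z * x := Subgroup.mem_centralizer_singleton_iff.1 hx1
    refine mem_XX.2 ⟨?_, ?_⟩
    · rw [Subgroup.mem_centralizer_singleton_iff]
      calc w⁻¹ * x * w * z = w⁻¹ * x * (w * z * w⁻¹) * w := by group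
        _ = w⁻¹ * x * s * w := by rw [hwz]
        _ = w⁻¹ * s * x * w := by rw [mul_assoc w⁻¹ x s, hx2, mul_assoc w⁻¹ s x]
        _ = (w⁻¹ * s * w) * (w⁻¹ * x * w) := by group
        _ = z * (w⁻¹ * x * w) := by rw [hwz']
    · calc w⁻¹ * x * w * s = w⁻¹ * x * (w * s * w⁻¹) * w := by group
        _ = w⁻¹ * x * z * w := by rw [hws]
        _ = w⁻¹ * z * x * w := by rw [mul_assoc w⁻¹ x z, hx1', mul_assoc w⁻¹ z x]
        _ = (w⁻¹ * z * w) * (w⁻¹ * x * w) := by group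
        _ = s * (w⁻¹ * x * w) := by rw [hws']
  let y' : X := ⟨w * b * w⁻¹, hwX _ (hY hbY)⟩
  have hy'3 : y' ^ 3 = 1 := by
    apply Subtype.ext
    show (w * b * w⁻¹) ^ 3 = 1
    rw [conj_pow, hb3]
    group
  have hy'1 : y' ≠ 1 := by
    intro h
    have h1 : w * b * w⁻¹ = 1 := congrArg Subtype.val h
    apply hb1'
    have h2 := mul_inv_eq_one.1 h1
    exact mul_eq_left.1 h2
  have hcard : Nat.card (Subgroup.centralizer ({y'} : Set X)) = Nat.card (Subgroup.centralizer ({y} : Set X)) := by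
    apply Nat.card_congr
    refine ⟨fun x => ⟨⟨w⁻¹ * x.1.1 * w, hwX' _ x.1.2⟩, ?_⟩, fun x => ⟨⟨w * x.1.1 * w⁻¹, hwX _ x.1.2⟩, ?_⟩, ?_, ?_⟩
    · rw [Subgroup.mem_centralizer_singleton_iff]
      apply Subtype.ext
      have h1 : (x.1.1 : G) * (w * b * w⁻¹) = (w * b * w⁻¹) * x.1.1 :=
        congrArg Subtype.val (Subgroup.mem_centralizer_singleton_iff.1 x.2)
      show w⁻¹ * x.1.1 * w * b = b * (w⁻¹ * x.1.1 * w)
      calc w⁻¹ * x.1.1 * w * b = w⁻¹ * ((x.1.1 : G) * (w * b * w⁻¹)) * w := by group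
        _ = w⁻¹ * ((w * b * w⁻¹) * x.1.1) * w := by rw [h1]
        _ = _ := by group
    · rw [Subgroup.mem_centralizer_singleton_iff]
      apply Subtype.ext
      have h1 : (x.1.1 : G) * b = b * x.1.1 :=
        congrArg Subtype.val (Subgroup.mem_centralizer_singleton_iff.1 x.2)
      show w * x.1.1 * w⁻¹ * (w * b * w⁻¹) = (w * b * w⁻¹) * (w * x.1.1 * w⁻¹)
      calc w * x.1.1 * w⁻¹ * (w * b * w⁻¹) = w * ((x.1.1 : G) * b) * w⁻¹ := by group
        _ = w * (b * x.1.1) * w⁻¹ := by rw [h1]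
        _ = _ := by group
    · intro x
      apply Subtype.ext
      apply Subtype.ext
      show w * (w⁻¹ * x.1.1 * w) * w⁻¹ = x.1.1
      group
    · intro x
      apply Subtype.ext
      apply Subtype.ext
      show w⁻¹ * (w * x.1.1 * w⁻¹) * w = x.1.1
      group
  have hfy := fix_of_dvd hM hker hy3 hy1 hnc'
  have hfy' := fix_of_dvd hM hker hy'3 hy'1 (by rw [hcard]; exact hnc')
  have hθy3 : θ y ^ 3 = 1 := by rw [← map_pow, hy3, map_one]
  have hθy'3 : θ y' ^ 3 = 1 := by rw [← map_pow, hy'3, map_one]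
  obtain ⟨k₁, hk₁, e₁'⟩ := class3F (hM y) hθy3 (hθne y hy3 hy1) hfy
  obtain ⟨k₂, hk₂, e₂'⟩ := class3F (hM y') hθy'3 (hθne y' hy'3 hy'1) hfy'
  obtain ⟨l₁, hl₁⟩ := hsurj (k₁ * k₂⁻¹) (M24.mul_mem hk₁ (M24.inv_mem hk₂))
  have hθe : θ y = θ (l₁ * y' * l₁⁻¹) := by
    rw [map_mul, map_mul, map_inv, hl₁, e₁', e₂']
    group
  have hl3 : (l₁ * y' * l₁⁻¹) ^ 3 = 1 := by
    rw [conj_pow, hy'3]
    group
  obtain ⟨q, -, hq⟩ := conj_ker hker hy3 hy1 hl3 hθe
  have hq' : (q : G) * ((l₁ : G) * (w * b * w⁻¹) * (l₁ : G)⁻¹) * (q : G)⁻¹ = b := congrArg Subtype.val hq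
  have hWb : ((q : G) * l₁ * w) * b = b * ((q : G) * l₁ * w) := by
    have h1 : ((q : G) * l₁ * w) * b * ((q : G) * l₁ * w)⁻¹ = b := by
      rw [← hq']
      nth_rw 1 [hq']
      group
    exact mul_inv_eq_iff_eq_mul.1 h1
  have hWz : ((q : G) * l₁ * w) * z * ((q : G) * l₁ * w)⁻¹ = s := by
    have hql : (l₁ : G) * s = s * l₁ := (mem_XX.1 l₁.2).2
    have hqq : (q : G) * s = s * q := (mem_XX.1 q.2).2
    calc ((q : G) * l₁ * w) * z * ((q : G) * l₁ * w)⁻¹ = (q : G) * l₁ * (w * z * w⁻¹) * (l₁ : G)⁻¹ * (q : G)⁻¹ := by group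
      _ = (q : G) * ((l₁ : G) * s) * (l₁ : G)⁻¹ * (q : G)⁻¹ := by rw [hwz, mul_assoc (q : G)]
      _ = (q : G) * s * (q : G)⁻¹ := by rw [hql]; group
      _ = s := by rw [hqq]; group
  -- a lift of order three
  obtain ⟨g₀', hg₀'⟩ := exists_lift' (Q := Q) (e := e₁) (⟨b, hbC⟩ : CC z)
  have h3c : mkCo g₀' ^ 3 = 1 := by
    rw [hg₀', ← map_pow]
    have : (⟨b, hbC⟩ : CC z) ^ 3 = 1 := Subtype.ext hb3
    rw [this, map_one]
  obtain ⟨g₁, hg₁, hg₁3⟩ : ∃ g₁ : Co0, mkCo g₁ = phi Q e₁ (⟨b, hbC⟩ : CC z) ∧ g₁ ^ 3 = 1 := by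
    rw [← map_pow] at h3c
    rcases center_cases (mkCo_eq_one_iff.1 h3c) with h | h
    · exact ⟨g₀', hg₀', h⟩
    · refine ⟨g₀' * negCo0, ?_, ?_⟩
      · rw [map_mul, mkCo_eq_one_iff.2 neg_center, mul_one, hg₀']
      · have hc : Commute g₀' negCo0 := Subgroup.mem_center_iff.1 neg_center g₀'
        rw [hc.mul_pow, h, neg_pow3, Cfsg.Agent.Lib.FiveGp3.neg_sq]
  obtain ⟨d, σ, hd, hσ, rfl⟩ := lift_mono D₁ hrep1 hbs hg₁
  have hθσ : θ y = σ⁻¹ := hspec y hbC d σ hd hσ hg₁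
  have hσ3 : σ ^ 3 = 1 := by
    have h1 := hθy3
    rw [hθσ, inv_pow, inv_eq_one] at h1
    exact h1
  have hσ1 : σ ≠ 1 := by
    intro h
    apply hθne y hy3 hy1
    rw [hθσ, h, inv_one]
  have hσf : ∃ p, σ p = p := by
    obtain ⟨p, hp⟩ := hfy
    refine ⟨p, ?_⟩
    rw [hθσ, Equiv.Perm.inv_eq_iff_eq] at hp
    exact hp.symm
  obtain ⟨k, hl, hσl⟩ := class3F hσ hσ3 hσ1 hσf
  obtain ⟨d', hd', hud⟩ := conj_mono hd hσ hl sF_mem hσl
  generalize hu₀ : monoCo0 empty_mem_codeSets hl = u₀ at hud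
  have hg₂3 : (monoCo0 hd' sF_mem) ^ 3 = 1 := by
    rw [← hud, conj_pow, hg₁3]
    group
  have : Finite Co0 := finite_Co0
  obtain ⟨q₁, hq₁, hq₁c⟩ := Cfsg.Agent.Lib.CoprimeConj.coprime_conj (N := Sign) (p := 3) (by norm_num) (by decide) isP_Sign
    Cfsg.Agent.Lib.FiT6.xF_pow Cfsg.Agent.Lib.FiT6.xF_ne (conj_Sign empty_mem_codeSets sF_mem) hg₂3 (inv_mul_Sign empty_mem_codeSets hd' sF_mem)
  have hvN : q₁ * u₀ ∈ NN := by
    obtain ⟨c₁, hc₁, rfl⟩ := hq₁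
    rw [← hu₀]
    exact NN.mul_mem ⟨c₁, 1, hc₁, M24.one_mem, rfl⟩ ⟨∅, _, empty_mem_codeSets, hl, rfl⟩
  have hv : (q₁ * u₀) * monoCo0 hd hσ * (q₁ * u₀)⁻¹ = xF := by
    rw [← hq₁c, ← hud]
    group
  -- second twist
  have D₂ := twist D₁ (q₁ * u₀)
  refine ⟨e₁.trans (MulAut.conj (mkCo (q₁ * u₀) : Spor.Co1)), fun v => ψ₁ (((q₁ * u₀)⁻¹ : Co0).1 v), b, hbC, D₂,
    ?_, hYb, ?_, hbs, hb3, hb1', _, hWb, hWz⟩
  · obtain ⟨c₂, σ₂, hc₂, hσ₂, hv₂⟩ := hvN
    obtain ⟨u', hu'⟩ := monoCo0_cong hc₂ hσ₂ (pt 5)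
    rw [← hv₂] at hu'
    have h1 := rep_twist hrep1 (q₁ * u₀)
    rw [hu'] at h1
    have h2 := D₂.rep_congr h1 (-u')
    have e1 : e8 (pt 5) + (u' + u') + (-u' + -u') = e8 (pt 5) := by abel
    rwa [e1] at h2
  · rw [phi_twist, ← hg₁, ← map_inv, ← map_mul, ← map_mul, hv]

end Cfsg.Agent.Lib.FiTGp1
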