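import Mathlib
import Cfsg.Agent.Lib.ThreeGp2
import Cfsg.Agent.Lib.CoprimeConj
import Cfsg.Agent.Lib.FiveGp3

/-!
# Local computations: the subgroup of `Q` centralizing `b`, lifting elements.
-/

set_option autoImplicit false
set_option maxRecDepth 100000

open Cfsg
open Cfsg.Agent.Lib.LargeExtra Cfsg.Agent.Lib.LargePair Cfsg.Agent.Lib.MonsterLocal
open Cfsg.Agent.Lib.Co0Mono Cfsg.Agent.Lib.Leech
open Cfsg.Agent.Lib.Co0Frame Cfsg.Agent.Lib.MonsterMain Cfsg.Agent.Lib.MonsterBabyA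
open Cfsg.Agent.Lib.Three1 Cfsg.Agent.Lib.Three2 Cfsg.Agent.Lib.Three3 Cfsg.Agent.Lib.Three4 Cfsg.Agent.Lib.FiveGp1
open Cfsg.Agent.Lib.Co0Order Cfsg.Agent.Lib.ThreeGp2 Cfsg.Agent.Lib.ThreeData Cfsg.Agent.Lib.MonsterSplit
open Cfsg.Agent.Lib.FiveGp2 (mem_XX rep_twist phi_twist lift_mono)
open Cfsg.Agent.Lib.FiveGp3 (neg_ne two_Q0)
open Cfsg.Agent.S0398 (e8 e8_apply neg_center)
open Cfsg.Agent.Lib.Golay (pt idx idx_pt pt_idx idx_lt ap decode idx_decode isM24 decode_mem_M24 isM24_valid)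
open Cfsg.Agent.Lib.CoVec

namespace Cfsg.Agent.Lib.ThreeGp3

/-! ### Tables -/

/-- The pairing on the fixed classes is non-degenerate. -/
theorem pairing_tab : ∀ n < 256, n = 0 ∨ ∃ i < 8,
    (((dotA (tab n) (tab (2 ^ i)) : ℕ) : ℤ) - ((dotB (tab n) (tab (2 ^ i)) : ℕ) : ℤ)) % 16 ≠ 0 := by
  decide +kernel

/-- Lifts of elements commuting with the image of `x3` commute with `x3`. -/
theorem lift_C3 {g : Co0} (h : mkCo g * mkCo x3 = mkCo x3 * mkCo g) : g ∈ C3 := by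
  have h1 : mkCo (g * x3 * g⁻¹ * x3⁻¹) = 1 := by
    simp only [map_mul, map_inv]
    rw [h]
    group
  rcases center_cases (mkCo_eq_one_iff.1 h1) with h2 | h2
  · rw [mem_C3]
    have h3 : g * x3 * g⁻¹ = x3 := mul_inv_eq_one.1 h2
    exact mul_inv_eq_iff_eq_mul.1 h3
  · exfalso
    have h3 : g * x3 * g⁻¹ = negCo0 * x3 := mul_inv_eq_iff_eq_mul.1 h2
    have h4 : (g * x3 * g⁻¹) ^ 3 = 1 := by
      rw [conj_pow, x3_pow]
      group
    have hcm : Commute negCo0 x3 := (Subgroup.mem_center_iff.1 neg_center x3).symm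
    rw [h3, hcm.mul_pow, x3_pow, mul_one, neg_pow3] at h4
    exact neg_ne h4

variable {G : Type*} [Group G] [Finite G] {z : G} {Q : Subgroup (CC z)} [Q.Normal]
  {e : (CC z) ⧸ Q ≃* Spor.Co1} {ψ : leechLattice → Q ⧸ Subgroup.center Q}

section basics

/-- Elements of `Q` of order dividing five are trivial. -/
theorem Q0_three (D : Data z Q e ψ) {x : G} (hx : x ∈ Q0 Q) (h5 : x ^ 3 = 1) : x = 1 := by
  have hS := D.setting
  have h4 : x ^ 2 ^ 2 = 1 := by
    rcases hS.extra.sq x hx with h | h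
    · rw [show (2 : ℕ) ^ 2 = 2 * 2 by norm_num, pow_mul, h, one_pow]
    · rw [show (2 : ℕ) ^ 2 = 2 * 2 by norm_num, pow_mul, h, pow_two]
      exact hS.extra.sq_eq
  exact eq_one_of_two_five ⟨2, h4⟩ (by decide) h5

theorem zpowers_three {b x : G} (hb5 : b ^ 3 = 1) (hx : x ∈ Subgroup.zpowers b) : x ^ 3 = 1 := by
  obtain ⟨i, rfl⟩ := hx
  show (b ^ i) ^ 3 = 1
  rw [← zpow_natCast, ← zpow_mul, mul_comm, zpow_mul, zpow_natCast, hb5, one_zpow]

theorem inter_B (D : Data z Q e ψ) {b x : G} (hb5 : b ^ 3 = 1) (hx : x ∈ Q0 Q) (hB : x ∈ Subgroup.zpowers b) : x = 1 :=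
  Q0_three D hx (zpowers_three hb5 hB)

end basics

/-- The data. -/
structure Nf (z : G) (Q : Subgroup (CC z)) [Q.Normal] (e : (CC z) ⧸ Q ≃* Spor.Co1)
    (ψ : leechLattice → Q ⧸ Subgroup.center Q) (s b : G) : Prop where
  D : Data z Q e ψ
  T : CoTrans
  hrep : Rep ψ (e8 (pt 5)) s
  hs : IsConj z s
  hsz : s ≠ z
  hbC : b ∈ CC z
  hphi : phi Q e ⟨b, hbC⟩ = mkCo x3
  hbs : b * s = s * b
  hb5 : b ^ 3 = 1
  hb1 : b ≠ 1
  hswap : ∃ w : G, w * b = b * w ∧ w * z * w⁻¹ = s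

namespace Nf

variable {s b : G} (N : Nf z Q e ψ s b)
include N

theorem hs1 : s ≠ 1 := by
  rintro rfl
  exact N.D.setting.extra.ne_one (isConj_one_left.1 N.hs)

theorem hbz : b * z = z * b := Subgroup.mem_centralizer_singleton_iff.1 N.hbC

/-- Representatives of classes fixed by `x3` commute with `b`. -/
theorem comm_of_fix {v : leechLattice} {y : G} (h : Rep ψ v y) (hv : FixCl x3 v) :
    y * b = b * y := by
  have hS := N.D.setting
  have h0 := N.D.rep_conj h (g := x3) (c := ⟨b, N.hbC⟩) N.hphi.symm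
  obtain ⟨u, hu⟩ := hv
  rw [hu] at h0
  have h1 := N.D.rep_congr h0 (-u)
  have e1 : v + (u + u) + (-u + -u) = v := by abel
  rw [e1] at h1
  change Rep ψ v (b * y * b⁻¹) at h1
  rcases N.D.rep_eq h h1 with h2 | h2
  · have h3 := mul_inv_eq_iff_eq_mul.1 h2
    exact h3.symm
  · exfalso
    have h3 : b * y = y * z * b := mul_inv_eq_iff_eq_mul.1 h2
    have hc : Commute b z := N.hbz
    have key : ∀ k : ℕ, b ^ k * y = y * z ^ k * b ^ k := by
      intro k
      induction k with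
      | zero => simp
      | succ k ih =>
        calc b ^ (k + 1) * y = b * (b ^ k * y) := by rw [pow_succ']; group
          _ = b * (y * z ^ k * b ^ k) := by rw [ih]
          _ = (b * y) * z ^ k * b ^ k := by group
          _ = y * z * b * z ^ k * b ^ k := by rw [h3]
          _ = y * z * (b * z ^ k) * b ^ k := by group
          _ = y * z * (z ^ k * b) * b ^ k := by rw [(hc.pow_right k).eq]
          _ = y * z ^ (k + 1) * b ^ (k + 1) := by
            rw [pow_succ' z k, pow_succ' b k]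
            group
    have h5 := key 3
    rw [N.hb5, one_mul, mul_one] at h5
    have hz5 : z ^ 3 = 1 := by
      have h6 : y * z ^ 3 = y * 1 := by rw [← h5, mul_one]
      exact mul_left_cancel h6
    have hzz : z * z = 1 := hS.extra.sq_eq
    apply hS.extra.ne_one
    have h7 : z ^ 3 = z * z * z := by
      simp only [pow_succ, pow_zero, one_mul]
    rw [h7, hzz, one_mul] at hz5
    exact hz5

/-- Elements commuting with `b` are represented by vectors from the table. -/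
theorem rep_M {y : G} (hy : y ∈ Q0 Q) (hc : b * y = y * b) : ∃ a < 256, Rep ψ (M a) y := by
  obtain ⟨v, hv⟩ := N.D.exists_rep hy
  obtain ⟨u, hu⟩ := N.D.fix_of_comm hv (g := x3) (c := ⟨b, N.hbC⟩) N.hphi hc
  obtain ⟨w, hw⟩ := exists_cong_M (v := v) ⟨u, hu⟩
  refine ⟨cc (v : GolayPt → ℤ), cc_lt _, ?_⟩
  have h2 := N.D.rep_congr hv (-w)
  have e1 : v + (-w + -w) = M (cc (v : GolayPt → ℤ)) := by
    nth_rw 1 [hw]
    abel
  rwa [e1] at h2

/-- The elements representing the table. -/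
theorem exists_r : ∃ r : ℕ → G, ∀ a, Rep ψ (M a) (r a) := by
  choose r hr using fun a => exists_rep_of (G := G) (z := z) (Q := Q) (ψ := ψ) (M a)
  exact ⟨r, hr⟩

theorem mem_R1 {r : ℕ → G} (hr : ∀ a, Rep ψ (M a) (r a)) {a : ℕ} (ha : a < 256) :
    r a ∈ Q0 Q ⊓ CC b :=
  ⟨(hr a).mem, Subgroup.mem_centralizer_singleton_iff.2 (N.comm_of_fix (hr a) (fixCl_M ha))⟩

/-- The order of the centralizer of `b` in `Q`. -/
theorem card_R1 : Nat.card ↥(Q0 Q ⊓ CC b) = 512 := by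
  classical
  have hS := N.D.setting
  obtain ⟨r, hr⟩ := N.exists_r
  have hz1 : z ≠ 1 := hS.extra.ne_one
  have hzQ := hS.extra.mem
  have hzb : z ∈ CC b := Subgroup.mem_centralizer_singleton_iff.2 N.hbz.symm
  let f : Fin 256 × Bool → ↥(Q0 Q ⊓ CC b) := fun p =>
    ⟨r p.1 * (if p.2 then z else 1), (Q0 Q ⊓ CC b).mul_mem (N.mem_R1 hr p.1.2) (by
      split_ifs
      · exact ⟨hzQ, hzb⟩
      · exact Subgroup.one_mem _)⟩
  have hrep : ∀ p : Fin 256 × Bool, Rep ψ (M p.1) ((f p : ↥(Q0 Q ⊓ CC b)) : G) := by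
    rintro ⟨a, β⟩
    cases β
    · show Rep ψ (M a) (r a * 1)
      rw [mul_one]
      exact hr a
    · exact N.D.rep_mul_z (hr a)
  have hf : Function.Bijective f := by
    constructor
    · rintro ⟨a, β⟩ ⟨a', β'⟩ h
      have h1 := hrep (a, β)
      rw [h] at h1
      obtain ⟨u, hu⟩ := N.D.rep_cong h1 (hrep (a', β'))
      have h2 : (a : ℕ) = a' := by
        have h3 := congrArg (fun v : leechLattice => cc (v : GolayPt → ℤ)) hu
        simp only [cc_congr, cc_M a.2, cc_M a'.2] at h3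
        exact h3
      have h3 : a = a' := Fin.ext h2
      subst h3
      have h4 : r a * (if β then z else 1) = r a * (if β' then z else 1) := congrArg Subtype.val h
      have h5 := mul_left_cancel h4
      have h6 : β = β' := by
        cases β <;> cases β'
        · rfl
        · exact absurd (by simpa using h5.symm) hz1
        · exact absurd (by simpa using h5) hz1
        · rfl
      rw [h6]
    · rintro ⟨y, hy, hyb⟩
      have hc : b * y = y * b := (Subgroup.mem_centralizer_singleton_iff.1 hyb).symm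
      obtain ⟨a, ha, hrepy⟩ := N.rep_M hy hc
      rcases N.D.rep_eq (hr a) hrepy with h | h
      · refine ⟨(⟨a, ha⟩, false), Subtype.ext ?_⟩
        show r a * 1 = y
        rw [mul_one, h]
      · refine ⟨(⟨a, ha⟩, true), Subtype.ext ?_⟩
        show r a * z = y
        rw [h]
  rw [← Nat.card_congr (Equiv.ofBijective f hf), Nat.card_prod]
  simp

theorem pairing {n : ℕ} (hn : n < 256) (h0 : n ≠ 0) : ∃ i < 8,
    ¬ (16 : ℤ) ∣ dotInt (M n : GolayPt → ℤ) (M (2 ^ i) : GolayPt → ℤ) := by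
  rcases pairing_tab n hn with h | ⟨i, hi, h⟩
  · exact absurd h h0
  · refine ⟨i, hi, fun h1 => h ?_⟩
    rw [M_coe, M_coe, dotInt_dec] at h1
    exact Int.emod_eq_zero_of_dvd h1

theorem M_zero : ∃ u : leechLattice, M 0 = u + u := by
  have h1 : sqNorm (M 0 : GolayPt → ℤ) = 0 := by
    rw [sqNorm_M]
    have := ((tab_ok 0 (by norm_num)).2.2.2.2).2 rfl
    rw [this]
    rfl
  have h2 : (M 0 : GolayPt → ℤ) = 0 := by
    unfold sqNorm at h1
    funext p
    have h3 := (Finset.sum_eq_zero_iff_of_nonneg (fun i _ => sq_nonneg _)).1 h1 p (Finset.mem_univ p)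
    simpa using h3
  refine ⟨0, ?_⟩
  apply Subtype.ext
  rw [h2]
  simp

/-- The centre of the centralizer of `b` in `Q`. -/
theorem cen_R1 {a : G} (ha : a ∈ Q0 Q ⊓ CC b) (hab : ∀ y ∈ Q0 Q ⊓ CC b, a * y = y * a) : a = 1 ∨ a = z := by
  have hc : b * a = a * b := (Subgroup.mem_centralizer_singleton_iff.1 ha.2).symm
  obtain ⟨n, hn, hrepa⟩ := N.rep_M ha.1 hc
  by_cases h0 : n = 0
  · subst h0
    exact (N.D.rep_central_iff hrepa).2 N.M_zero
  · exfalso
    obtain ⟨i, hi, hdvd⟩ := N.pairing hn h0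
    obtain ⟨r, hr⟩ := N.exists_r
    have h2i : 2 ^ i < 256 := by
      calc 2 ^ i < 2 ^ 8 := Nat.pow_lt_pow_right (by norm_num) hi
        _ = 256 := by norm_num
    have h1 := hab _ (N.mem_R1 hr h2i)
    exact hdvd ((rep_comm_iff N.D N.T hrepa (hr _)).1 h1)

theorem non_R1 : ∃ x ∈ Q0 Q ⊓ CC b, ∃ y ∈ Q0 Q ⊓ CC b, x * y ≠ y * x := by
  by_contra hcon
  push Not at hcon
  obtain ⟨r, hr⟩ := N.exists_r
  have h1 := N.cen_R1 (N.mem_R1 hr (a := 1) (by norm_num)) (fun y hy => hcon _ (N.mem_R1 hr (a := 1) (by norm_num)) y hy)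
  obtain ⟨u, hu⟩ := (N.D.rep_central_iff (hr 1)).1 h1
  have h2 := congrArg (fun v : leechLattice => cc (v : GolayPt → ℤ)) hu
  simp only [cc_double, cc_M (show 1 < 256 by norm_num)] at h2
  exact one_ne_zero h2

/-- Elements of the centralizer of `x3` lift to the centralizer of `b`. -/
theorem exists_comm_lift {g : Co0} (hg : g ∈ C3) : ∃ (x : G) (hx : x ∈ CC z), x * b = b * x ∧ phi Q e ⟨x, hx⟩ = mkCo g := by
  have hS := N.D.setting
  obtain ⟨c, hc⟩ := exists_lift (Q := Q) (e := e) (z := z) g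
  let bC : CC z := ⟨b, N.hbC⟩
  have hn : ∀ x ∈ Q0 Q, b * x * b⁻¹ ∈ Q0 Q := fun x hx => hS.nQ b N.hbz x hx
  have hb'7 : ((c : G) * b * (c : G)⁻¹) ^ 3 = 1 := by
    rw [conj_pow, N.hb5]
    group
  have hb' : b⁻¹ * ((c : G) * b * (c : G)⁻¹) ∈ Q0 Q := by
    have h1 : phi Q e (bC⁻¹ * (c * bC * c⁻¹)) = 1 := by
      simp only [map_mul, map_inv]
      rw [hc]
      show (phi Q e ⟨b, N.hbC⟩)⁻¹ * (mkCo g * phi Q e ⟨b, N.hbC⟩ * (mkCo g)⁻¹) = 1
      rw [N.hphi]
      have h2 : mkCo g * mkCo x3 = mkCo x3 * mkCo g := by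
        rw [← map_mul, mem_C3.1 hg, map_mul]
      rw [h2]
      group
    exact ⟨_, phi_eq_one_iff.1 h1, rfl⟩
  obtain ⟨q, hq, hqc⟩ := Cfsg.Agent.Lib.CoprimeConj.coprime_conj (by norm_num) (by decide) (two_Q0 N.D) N.hb5 N.hb1 hn hb'7 hb'
  obtain ⟨hqC, hqq⟩ := N.D.mem_Q0_iff.1 hq
  refine ⟨q * c, (CC z).mul_mem hqC c.2, ?_, ?_⟩
  · have h1 : q * ((c : G) * b * (c : G)⁻¹) * q⁻¹ = b := hqc
    have h2 : q * (c : G) * b = b * (q * (c : G)) := by
      calc q * (c : G) * b = (q * ((c : G) * b * (c : G)⁻¹) * q⁻¹) * (q * (c : G)) := by group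
        _ = b * (q * (c : G)) := by rw [h1]
    exact h2
  · have h1 : (⟨q * c, (CC z).mul_mem hqC c.2⟩ : CC z) = (⟨q, hqC⟩ : CC z) * c := rfl
    rw [h1, map_mul, phi_eq_one_iff.2 hqq, one_mul, hc]


end Nf

end Cfsg.Agent.Lib.ThreeGp3
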