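import Mathlib
import Cfsg.Agent.Lib.FiTGp2
import Cfsg.Agent.Lib.CoverW2

/-!
# The centralizer of `Y` modulo `Y` is of large Fischer type.
-/

set_option autoImplicit false

open Cfsg
open Cfsg.Agent.Lib.LargeExtra Cfsg.Agent.Lib.LargePair Cfsg.Agent.Lib.MonsterLocal
open Cfsg.Agent.Lib.Co0Mono Cfsg.Agent.Lib.Leech
open Cfsg.Agent.Lib.Co0Frame Cfsg.Agent.Lib.MonsterMain Cfsg.Agent.Lib.MonsterBabyA
open Cfsg.Agent.Lib.FiT1 Cfsg.Agent.Lib.FiT2 Cfsg.Agent.Lib.FiT4 Cfsg.Agent.Lib.FiT6 Cfsg.Agent.Lib.FiveGp1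
open Cfsg.Agent.Lib.Co0Order Cfsg.Agent.Lib.ThreeGp2 Cfsg.Agent.Lib.FiTGp2 Cfsg.Agent.Lib.CoverW
open Cfsg.Agent.Lib.ThreeGp3 (Q0_three zpowers_three inter_B)
open Cfsg.Agent.Lib.FiveGp2 (mem_XX rep_twist phi_twist lift_mono)
open Cfsg.Agent.Lib.FiveGp3 (neg_ne two_Q0)
open Cfsg.Agent.S0398 (e8 e8_apply neg_center)
open Cfsg.Agent.Lib.Golay (pt)
open Cfsg.Agent.Lib.F9K (K9)

namespace Cfsg.Agent.Lib.FiTGp3

/-- The map from the centralizer of `xF` to `Co1`. -/
noncomputable def imF : CF →* Spor.Co1 := mkCo.comp CF.subtype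

theorem imF_apply (g : CF) : imF g = mkCo (g : Co0) := rfl

/-- The image in `Co1`. -/
noncomputable def KF : Subgroup Spor.Co1 := imF.range

theorem rr_surj : Function.Surjective imF.rangeRestrict := MonoidHom.rangeRestrict_surjective _

theorem rho_neg : rhoA negC = 1 := rhoA_eq_one.2 (rhoW_trivial fun _ ha => A_neg ha)

theorem rho_xF : rhoA xC = 1 := rhoA_eq_one.2 (rhoW_trivial fun _ ha => A_xF ha)

theorem ker_le : (imF.rangeRestrict).ker ≤ rhoA.ker := by
  intro g hg
  rw [MonoidHom.mem_ker] at hg ⊢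
  have h1 : mkCo (g : Co0) = 1 := congrArg Subtype.val hg
  rcases center_cases (mkCo_eq_one_iff.1 h1) with h2 | h2
  · have : g = 1 := Subtype.ext h2
    rw [this, map_one]
  · have : g = negC := Subtype.ext h2
    rw [this, rho_neg]

/-- The map from the image in `Co1` to the group on the classes. -/
noncomputable def rhoK : KF →* AA :=
  (imF.rangeRestrict).liftOfSurjective rr_surj ⟨rhoA, ker_le⟩

theorem rhoK_apply (g : CF) (y : KF) (h : (y : Spor.Co1) = mkCo (g : Co0)) : rhoK y = rhoA g := by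
  have h1 : y = imF.rangeRestrict g := Subtype.ext h
  rw [h1]
  exact (imF.rangeRestrict).liftOfRightInverse_comp_apply _ _ ⟨rhoA, ker_le⟩ g

/-- The large Fischer type from the data in the quotient. -/
theorem large_of_surj {H : Type*} [Group H] {zb : H} {A : Type*} [Group A] [Finite (Subgroup.centralizer ({zb} : Set H))]
    (F : Subgroup.centralizer ({zb} : Set H) →* A) (hF : Function.Surjective F)
    (hset : IsExtraspecialCentralizerSetting zb F.ker 6) (MA' NA' : Subgroup A) [hM : MA'.Normal] [hN : NA'.Normal]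
    (hle : NA' ≤ MA') (hidx : MA'.index = 2) (hNA : Nat.card NA' = 3) (φ : MA' →* PSU 4 K9 3)
    (hφ : Function.Surjective φ) (hker : φ.ker = NA'.subgroupOf MA') : IsOfLargeFischerTypeAt zb F.ker := by
  refine ⟨hset, NA'.comap F, MA'.comap F, hN.comap F, hM.comap F, ?_, Subgroup.comap_mono hle, ?_, ?_, ?_⟩
  · intro x hx
    have hx' : F x = 1 := hx
    show F x ∈ NA'
    rw [hx']
    exact NA'.one_mem
  · have h1 := Cfsg.Agent.Lib.LargeQuot.card_map_mul F (NA'.comap F)
    rw [Subgroup.map_comap_eq_self_of_surjective hF, hNA] at h1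
    have hle' : F.ker ≤ NA'.comap F := by
      intro x hx
      have hx' : F x = 1 := hx
      show F x ∈ NA'
      rw [hx']
      exact NA'.one_mem
    rw [← h1, Nat.card_congr (Subgroup.subgroupOfEquivOfLe hle').toEquiv]
  · refine ⟨K9, inferInstance, inferInstance, Cfsg.Agent.Lib.FiTU.hF, ?_⟩
    let f : ↥(MA'.comap F) →* PSU 4 K9 3 := φ.comp ((F.comp (MA'.comap F).subtype).codRestrict MA' fun x => x.2)
    have hf : Function.Surjective f := by
      intro p
      obtain ⟨a, rfl⟩ := hφ p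
      obtain ⟨c, hc⟩ := hF (a : A)
      have hcm : c ∈ MA'.comap F := by
        show F c ∈ MA'
        rw [hc]
        exact a.2
      refine ⟨⟨c, hcm⟩, ?_⟩
      show φ _ = φ a
      congr 1
      exact Subtype.ext hc
    have hk : f.ker = (NA'.comap F).subgroupOf (MA'.comap F) := by
      ext x
      rw [Subgroup.mem_subgroupOf]
      show φ _ = 1 ↔ F x.1 ∈ NA'
      rw [← MonoidHom.mem_ker, hker, Subgroup.mem_subgroupOf]
      rfl
    exact ⟨(QuotientGroup.quotientMulEquivOfEq hk.symm).trans (QuotientGroup.quotientKerEquivOfSurjective f hf)⟩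
  · rw [Subgroup.index_comap_of_surjective _ hF, hidx]

variable {G : Type*} [Group G] [Finite G] {z : G} {Q : Subgroup (CC z)} [Q.Normal]
  {e : (CC z) ⧸ Q ≃* Spor.Co1} {ψ : leechLattice → Q ⧸ Subgroup.center Q}

section main

variable {s b : G}

theorem mem_CB {y : G} : y ∈ Subgroup.centralizer ((Subgroup.zpowers b : Subgroup G) : Set G) ↔ y * b = b * y := by
  rw [Subgroup.mem_centralizer_iff]
  constructor
  · intro h
    exact (h b (Subgroup.mem_zpowers b)).symm
  · rintro h _ ⟨i, rfl⟩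
    exact (Commute.zpow_right (show Commute y b from h) i).symm.eq

variable [hn : ((Subgroup.zpowers b).subgroupOf (Subgroup.centralizer ((Subgroup.zpowers b : Subgroup G) : Set G))).Normal]

/-- The main construction. -/
theorem main (N : Nf z Q e ψ s b) :
    IsOfLargeFischerType (↥(Subgroup.centralizer ((Subgroup.zpowers b : Subgroup G) : Set G)) ⧸
      (Subgroup.zpowers b).subgroupOf (Subgroup.centralizer ((Subgroup.zpowers b : Subgroup G) : Set G))) := by
  classical
  have D := N.D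
  have hS := D.setting
  have hzQ0 : z ∈ Q0 Q := hS.extra.mem
  have hzz : z ∈ CC z := Subgroup.mem_centralizer_singleton_iff.2 rfl
  have hbb : b ∈ Subgroup.centralizer ((Subgroup.zpowers b : Subgroup G) : Set G) := mem_CB.2 rfl
  have hzCB : z ∈ Subgroup.centralizer ((Subgroup.zpowers b : Subgroup G) : Set G) := mem_CB.2 N.hbz.symm
  set CB := Subgroup.centralizer ((Subgroup.zpowers b : Subgroup G) : Set G) with hCB
  let NN' := (Subgroup.zpowers b).subgroupOf CB
  let zb : ↥CB ⧸ NN' := QuotientGroup.mk ⟨z, hzCB⟩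
  have hmemN : ∀ y : CB, y ∈ NN' ↔ (y : G) ∈ Subgroup.zpowers b := fun y => Iff.rfl
  let L := ↥(CC z ⊓ CB)
  have hinc : ∀ x : L, ((QuotientGroup.mk' NN').comp (Subgroup.inclusion (inf_le_right : CC z ⊓ CB ≤ CB))) x ∈
      Subgroup.centralizer ({zb} : Set (↥CB ⧸ NN')) := by
    intro x
    rw [Subgroup.mem_centralizer_singleton_iff]
    show (QuotientGroup.mk _ : ↥CB ⧸ NN') * QuotientGroup.mk _ = QuotientGroup.mk _ * QuotientGroup.mk _
    rw [← QuotientGroup.mk_mul, ← QuotientGroup.mk_mul]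
    congr 1
    apply Subtype.ext
    exact Subgroup.mem_centralizer_singleton_iff.1 x.2.1
  let π : L →* Subgroup.centralizer ({zb} : Set (↥CB ⧸ NN')) :=
    ((QuotientGroup.mk' NN').comp (Subgroup.inclusion (inf_le_right : CC z ⊓ CB ≤ CB))).codRestrict _ hinc
  let ζ : L := ⟨z, hzz, hzCB⟩
  have hπeq : ∀ x y : L, π x = π y ↔ (x : G)⁻¹ * (y : G) ∈ Subgroup.zpowers b := by
    intro x y
    constructor
    · intro h
      have h1 : (QuotientGroup.mk (⟨x.1, x.2.2⟩ : CB) : ↥CB ⧸ NN') = QuotientGroup.mk ⟨y.1, y.2.2⟩ := congrArg Subtype.val h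
      have h2 := QuotientGroup.eq.1 h1
      exact h2
    · intro h
      apply Subtype.ext
      show (QuotientGroup.mk (⟨x.1, x.2.2⟩ : CB) : ↥CB ⧸ NN') = QuotientGroup.mk ⟨y.1, y.2.2⟩
      exact QuotientGroup.eq.2 h
  -- the map to the wreath product
  let phiL : L →* Spor.Co1 := (phi Q e).comp (Subgroup.inclusion (inf_le_left : CC z ⊓ CB ≤ CC z))
  have hphiL : ∀ (x : L), phiL x = phi Q e ⟨x.1, x.2.1⟩ := fun x => rfl
  have hbL : b ∈ CC z ⊓ CB := ⟨N.hbC, hbb⟩
  have hphib : phiL ⟨b, hbL⟩ = mkCo xF := N.hphi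
  have hliftC : ∀ (x : L) (g : Co0), mkCo g = phiL x → g ∈ CF := by
    intro x g hg
    apply lift_CF
    have h1 : (x : G) * b = b * (x : G) := mem_CB.1 x.2.2
    have h2 : x * ⟨b, hbL⟩ = ⟨b, hbL⟩ * x := Subtype.ext h1
    have h3 := congrArg phiL h2
    rw [map_mul, map_mul, hphib, ← hg] at h3
    exact h3
  have hK : ∀ x : L, phiL x ∈ KF := by
    intro x
    obtain ⟨g, hg⟩ := exists_lift' (Q := Q) (e := e) (⟨x.1, x.2.1⟩ : CC z)
    exact ⟨⟨g, hliftC x g hg⟩, hg⟩
  let F₀ : L →* AA := rhoK.comp (phiL.codRestrict KF hK)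
  have hF₀ : ∀ (x : L) (g : CF), mkCo (g : Co0) = phiL x → F₀ x = rhoA g := by
    intro x g hg
    exact rhoK_apply g _ hg.symm
  let F₁ : L →* AA := F₀
  have hF₁ : ∀ x : L, F₁ x = 1 ↔ F₀ x = 1 := fun x => Iff.rfl
  let R0 : Subgroup L := (Q0 Q).subgroupOf (CC z ⊓ CB)
  have hmemR0 : ∀ x : L, x ∈ R0 ↔ (x : G) ∈ Q0 Q := fun x => Iff.rfl
  have hR1 : ∀ x : G, x ∈ Q0 Q ⊓ CC b → ∃ hx : x ∈ CC z ⊓ CB, (⟨x, hx⟩ : L) ∈ R0 := by
    intro x hx
    refine ⟨⟨(D.mem_Q0_iff.1 hx.1).1, mem_CB.2 (Subgroup.mem_centralizer_singleton_iff.1 hx.2)⟩, hx.1⟩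
  have hR1' : ∀ x : L, x ∈ R0 → (x : G) ∈ Q0 Q ⊓ CC b := by
    intro x hx
    exact ⟨hx, Subgroup.mem_centralizer_singleton_iff.2 (mem_CB.1 x.2.2)⟩
  have hF₀Q : ∀ x : L, x ∈ R0 → F₀ x = 1 := by
    intro x hx
    obtain ⟨hc, hq⟩ := D.mem_Q0_iff.1 hx
    have h1 := hF₀ x 1 (by
      rw [hphiL]
      show mkCo 1 = _
      rw [map_one]
      exact (phi_eq_one_iff.2 hq).symm)
    rw [h1, map_one]
  have hF₀b : ∀ x : L, (x : G) ∈ Subgroup.zpowers b → F₀ x = 1 := by
    rintro x ⟨i, hi⟩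
    have hi' : b ^ i = (x : G) := hi
    have h1 : x = (⟨b, hbL⟩ : L) ^ i := Subtype.ext hi'.symm
    have h2 := hF₀ ⟨b, hbL⟩ xC hphib.symm
    rw [h1, map_zpow, h2, rho_xF, one_zpow]
  -- the kernel
  have hker : ∀ x : L, F₀ x = 1 → ∃ r ∈ R0, π x = π r := by
    intro x hx
    obtain ⟨g, hg⟩ := exists_lift' (Q := Q) (e := e) (⟨x.1, x.2.1⟩ : CC z)
    have hgC := hliftC x g hg
    rw [hF₀ x ⟨g, hgC⟩ hg] at hx
    obtain ⟨i, hi⟩ := rhoW_ker (rhoA_eq_one.1 hx)
    have h1 : mkCo g = mkCo xF ^ i := by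
      rcases hi with h | h
      · have h2 : g = xF ^ i := congrArg Subtype.val h
        rw [h2, map_pow]
      · have h2 : g = xF ^ i * negCo0 := congrArg Subtype.val h
        rw [h2, map_mul, mkCo_eq_one_iff.2 neg_center, mul_one, map_pow]
    have hbi : b ^ i ∈ CC z ⊓ CB := (CC z ⊓ CB).pow_mem hbL i
    let r : L := x * ((⟨b, hbL⟩ : L) ^ i)⁻¹
    have hrval : (r : G) = (x : G) * (b ^ i)⁻¹ := rfl
    have h2 : phi Q e ⟨r.1, r.2.1⟩ = 1 := by
      rw [← hphiL, map_mul, map_inv, map_pow, hphib, hphiL, ← hg, h1]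
      group
    refine ⟨r, ⟨_, phi_eq_one_iff.1 h2, rfl⟩, ?_⟩
    rw [hπeq, hrval]
    have h3 : (x : G)⁻¹ * ((x : G) * (b ^ i)⁻¹) = (b ^ i)⁻¹ := by group
    rw [h3]
    exact Subgroup.inv_mem _ (Subgroup.pow_mem _ (Subgroup.mem_zpowers b) i)
  -- the order of `R0`
  have hcardR0 : Nat.card R0 = 2 ^ (2 * 6 + 1) := by
    have h1 : R0.map (CC z ⊓ CB).subtype = Q0 Q ⊓ CC b := by
      ext x
      constructor
      · rintro ⟨y, hy, rfl⟩
        exact hR1' y hy
      · intro hx
        obtain ⟨h2, h3⟩ := hR1 x hx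
        exact ⟨⟨x, h2⟩, h3, rfl⟩
    have h2 := N.card_R1
    rw [← h1, Subgroup.card_map_of_injective (CC z ⊓ CB).subtype_injective] at h2
    rw [h2]
    norm_num
  have C : Cover zb π ζ F₁ R0 6 := by
    refine
      { π_surj := ?_
        π_ζ := rfl
        inj := ?_
        F_surj := ?_
        F_ker := ?_
        ζ_mem := hzQ0
        ζ_ne := fun h => hS.extra.ne_one (congrArg Subtype.val h)
        ζ_sq := Subtype.ext hS.extra.sq_eq
        card := hcardR0
        comm := ?_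
        sq := ?_
        cen := ?_
        non := ?_
        hO := no_normal
        hC := ?_
        weak := ?_ }
    · -- π_surj
      intro d
      obtain ⟨y, hy⟩ := QuotientGroup.mk_surjective (d : ↥CB ⧸ NN')
      have h1 : (QuotientGroup.mk y : ↥CB ⧸ NN') * zb = zb * QuotientGroup.mk y := by
        rw [hy]
        exact Subgroup.mem_centralizer_singleton_iff.1 d.2
      have h2' : (y * ⟨z, hzCB⟩ : CB)⁻¹ * (⟨z, hzCB⟩ * y) ∈ NN' := QuotientGroup.eq.1 h1
      have h2 : ((y : G) * z)⁻¹ * (z * (y : G)) ∈ Subgroup.zpowers b := h2'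
      set c := ((y : G) * z)⁻¹ * (z * (y : G)) with hc
      have hc3 : c ^ 3 = 1 := zpowers_three N.hb5 h2
      have hcz : c * z = z * c := by
        have hb' : z ∈ Subgroup.centralizer ((Subgroup.zpowers b : Subgroup G) : Set G) := hzCB
        exact (Subgroup.mem_centralizer_iff.1 hb' c h2)
      have hzz' : z * z = 1 := hS.extra.sq_eq
      have hzc : z * c = (y : G)⁻¹ * z * (y : G) := by
        rw [hc]
        have hzi : z⁻¹ = z := inv_eq_of_mul_eq_one_left hzz'
        calc z * (((y : G) * z)⁻¹ * (z * (y : G))) = (z * z⁻¹) * (y : G)⁻¹ * (z * (y : G)) := by group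
          _ = (y : G)⁻¹ * z * (y : G) := by group
      have hc2 : c * c = 1 := by
        have h3 : (z * c) * (z * c) = 1 := by
          rw [hzc]
          calc (y : G)⁻¹ * z * (y : G) * ((y : G)⁻¹ * z * (y : G)) = (y : G)⁻¹ * (z * z) * (y : G) := by group
            _ = 1 := by rw [hzz']; group
        calc c * c = z * z * (c * c) := by rw [hzz', one_mul]
          _ = z * (z * c) * c := by group
          _ = z * (c * z) * c := by rw [hcz]
          _ = (z * c) * (z * c) := by group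
          _ = 1 := h3
      have hc1 : c = 1 := by
        have h7 : c ^ 3 = c * c * c := by
          simp only [pow_succ, pow_zero, one_mul]
        rw [h7, hc2, one_mul] at hc3
        exact hc3
      have h3 : (y : G) * z = z * (y : G) := by
        rw [hc] at hc1
        exact (inv_mul_eq_one.1 hc1)
      refine ⟨⟨(y : G), Subgroup.mem_centralizer_singleton_iff.2 h3, y.2⟩, ?_⟩
      apply Subtype.ext
      exact hy
    · -- inj
      intro q hq h1
      have h2 : π q = π 1 := by rw [h1, map_one]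
      have h3 := (hπeq q 1).1 h2
      have h4 : (q : G)⁻¹ ∈ Subgroup.zpowers b := by simpa using h3
      have h5 : (q : G) ∈ Subgroup.zpowers b := by simpa using Subgroup.inv_mem _ h4
      exact Subtype.ext (inter_B D N.hb5 hq h5)
    · -- F_surj
      intro y
      obtain ⟨g, rfl⟩ := rhoA_surj y
      obtain ⟨x, hx, hxb, hxp⟩ := N.exists_comm_lift g.2
      have hxL : x ∈ CC z ⊓ CB := ⟨hx, mem_CB.2 hxb⟩
      exact ⟨⟨x, hxL⟩, hF₀ ⟨x, hxL⟩ g hxp.symm⟩
    · -- F_ker
      intro x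
      rw [hF₁]
      constructor
      · exact hker x
      · rintro ⟨r, hr, h⟩
        have h1 := (hπeq x r).1 h
        have h2 : x⁻¹ * r = (x⁻¹ * r : L) := rfl
        have h3 := hF₀b (x⁻¹ * r) h1
        rw [map_mul, map_inv, hF₀Q r hr, mul_one, inv_eq_one] at h3
        exact h3
    · -- comm
      intro a ha c hc
      rcases hS.extra.comm _ ((hmemR0 a).1 ha) _ ((hmemR0 c).1 hc) with h | h
      · left
        exact Subtype.ext h
      · right
        exact Subtype.ext h
    · -- sq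
      intro a ha
      rcases hS.extra.sq _ ((hmemR0 a).1 ha) with h | h
      · left
        exact Subtype.ext h
      · right
        exact Subtype.ext h
    · -- cen
      intro a ha hab
      have h1 := N.cen_R1 (hR1' a ha) (by
        intro y hy
        obtain ⟨h2, h3⟩ := hR1 y hy
        exact congrArg Subtype.val (hab ⟨y, h2⟩ h3))
      rcases h1 with h | h
      · left
        exact Subtype.ext h
      · right
        exact Subtype.ext h
    · -- non
      obtain ⟨x, hx, y, hy, hxy⟩ := N.non_R1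
      obtain ⟨h1, h2⟩ := hR1 x hx
      obtain ⟨h3, h4⟩ := hR1 y hy
      exact ⟨⟨x, h1⟩, h2, ⟨y, h3⟩, h4, fun h => hxy (congrArg Subtype.val h)⟩
    · -- hC
      intro x hx
      -- `x` commutes with `R0`
      have hcomm : ∀ q ∈ R0, (x : G) * (q : G) = (q : G) * (x : G) := by
        intro q hq
        have h1 : π (x * q) = π (q * x) := by
          rw [map_mul, map_mul]
          exact hx q hq
        have h2 := (hπeq _ _).1 h1
        have h4 : (q : G)⁻¹ * ((x : G)⁻¹ * (q : G) * (x : G)) ∈ Q0 Q := by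
          refine (Q0 Q).mul_mem ((Q0 Q).inv_mem hq) ?_
          have hxi : (x : G)⁻¹ * z = z * (x : G)⁻¹ :=
            Commute.inv_left (Subgroup.mem_centralizer_singleton_iff.1 x.2.1)
          have := hS.nQ _ hxi _ hq
          simpa using this
        have h5 : ((x * q : L) : G)⁻¹ * ((q * x : L) : G) = (q : G)⁻¹ * ((x : G)⁻¹ * (q : G) * (x : G)) := by
          show ((x : G) * (q : G))⁻¹ * ((q : G) * (x : G)) = _
          group
        rw [h5] at h2
        have h6 := inter_B D N.hb5 h4 h2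
        have h7 : (x : G)⁻¹ * (q : G) * (x : G) = (q : G) := by
          have := inv_mul_eq_one.1 h6
          exact this.symm
        calc (x : G) * (q : G) = (x : G) * ((x : G)⁻¹ * (q : G) * (x : G)) := by rw [h7]
          _ = (q : G) * (x : G) := by group
      -- the lift acts trivially
      apply hker
      obtain ⟨g, hg⟩ := exists_lift' (Q := Q) (e := e) (⟨x.1, x.2.1⟩ : CC z)
      have hgC := hliftC x g hg
      rw [hF₀ x ⟨g, hgC⟩ hg]
      apply rhoA_eq_one.2
      apply rhoW_trivial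
      intro a ha
      obtain ⟨r, hr⟩ := N.exists_r
      obtain ⟨h1, h2⟩ := hR1 _ (N.mem_R1 hr ha)
      have h3 := hcomm ⟨r a, h1⟩ h2
      obtain ⟨u, hu⟩ := D.fix_of_comm (hr a) hg.symm h3
      show cc ((g : Equiv.Perm leechLattice) (M a) : leechLattice) = a
      rw [hu, cc_congr, cc_M ha]
    · -- weak
      obtain ⟨w, hwb, hwz⟩ := N.hswap
      have hwCB : w ∈ CB := mem_CB.2 hwb
      have hsCB : s ∈ CB := mem_CB.2 (N.hbs).symm
      have hsQ := N.hrep.mem
      have hsC : s ∈ CC z ⊓ CB := ⟨(D.mem_Q0_iff.1 hsQ).1, hsCB⟩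
      refine ⟨QuotientGroup.mk ⟨w, hwCB⟩, ⟨s, hsC⟩, hsQ, ?_, ?_⟩
      · show (QuotientGroup.mk _ : ↥CB ⧸ NN') * QuotientGroup.mk _ * (QuotientGroup.mk _)⁻¹ = QuotientGroup.mk _
        rw [← QuotientGroup.mk_inv, ← QuotientGroup.mk_mul, ← QuotientGroup.mk_mul]
        congr 1
        exact Subtype.ext hwz
      · intro h
        have h1 : (QuotientGroup.mk _ : ↥CB ⧸ NN') * QuotientGroup.mk _ * (QuotientGroup.mk _)⁻¹ = QuotientGroup.mk _ := h
        rw [← QuotientGroup.mk_inv, ← QuotientGroup.mk_mul, ← QuotientGroup.mk_mul] at h1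
        have h2 := QuotientGroup.eq.1 h1
        have h3 : ((w * z * w⁻¹))⁻¹ * z ∈ Subgroup.zpowers b := h2
        rw [hwz] at h3
        have h4 := inter_B D N.hb5 ((Q0 Q).mul_mem ((Q0 Q).inv_mem hsQ) hzQ0) h3
        exact N.hsz (inv_mul_eq_one.1 h4)
  obtain ⟨hset, -⟩ := C.setting'
  exact ⟨zb, C.F.ker, inferInstance, large_of_surj C.F C.F_surjective hset MA NA NA_le_MA MA_index card_NA phi phi_surj phi_ker⟩

end main

end Cfsg.Agent.Lib.FiTGp3
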