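import Mathlib
import Cfsg.Agent.Lib.CharTwoLocal
import Cfsg.Agent.Lib.LargeQuot
import Cfsg.Agent.Lib.BalanceB

/-!
# The structure of a centraliser from a permutation action on `126` points
-/

set_option autoImplicit false
set_option maxHeartbeats 1000000
set_option linter.all false

namespace Cfsg.Agent.Lib.FiZAbs45

open Cfsg Cfsg.Agent.Lib.PCore

variable {X U : Type*} [Group X] [Finite X] [Group U]

theorem card_mult : Nat.card (Multiplicative (Fin 12 → ZMod 2)) = 2 ^ 12 := by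
  have e : Nat.card (Multiplicative (Fin 12 → ZMod 2)) = Nat.card (Fin 12 → ZMod 2) := rfl
  rw [e, Nat.card_fun, Nat.card_eq_fintype_card, ZMod.card, Nat.card_eq_fintype_card, Fintype.card_fin]

/-- An element of a normal subgroup with a `2`-power order lies in the subgroup of index `3`. -/
theorem mem_of_two_elt {N Q : Subgroup X} (hQN : Q ≤ N) (hnorm : N ≤ Subgroup.normalizer (Q : Set X))
    (hcard : Nat.card N = 3 * Nat.card Q) {y : X} (hy : y ∈ N) {k : ℕ} (hk : y ^ 2 ^ k = 1) : y ∈ Q := by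
  haveI hn : (Q.subgroupOf N).Normal := (Subgroup.normal_subgroupOf_iff_le_normalizer hQN).mpr hnorm
  have hQpos : 0 < Nat.card Q := Nat.card_pos
  have hidx : (Q.subgroupOf N).index = 3 := by
    have h1 := Subgroup.card_mul_index (Q.subgroupOf N)
    have h2 : Nat.card (Q.subgroupOf N) = Nat.card Q :=
      Nat.card_congr (Subgroup.subgroupOfEquivOfLe hQN).toEquiv
    rw [h2, hcard] at h1
    have h3 : Nat.card Q * (Q.subgroupOf N).index = Nat.card Q * 3 := by rw [h1]; ring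
    exact Nat.eq_of_mul_eq_mul_left hQpos h3
  have hcard2 : Nat.card (↥N ⧸ Q.subgroupOf N) = 3 := hidx
  set u : ↥N ⧸ Q.subgroupOf N := QuotientGroup.mk ⟨y, hy⟩ with hu
  have h3 : orderOf u ∣ 3 := by
    have := orderOf_dvd_natCard u
    rwa [hcard2] at this
  have h4 : orderOf u ∣ 2 ^ k := by
    apply orderOf_dvd_of_pow_eq_one
    rw [hu, ← QuotientGroup.mk_pow]
    have : (⟨y, hy⟩ : N) ^ 2 ^ k = 1 := Subtype.ext (by simpa using hk)
    rw [this]
    rfl
  have hco : Nat.Coprime 3 (2 ^ k) := Nat.Coprime.pow_right k (by norm_num)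
  have h5 : orderOf u = 1 := Nat.eq_one_of_dvd_coprimes hco h3 h4
  have h6 : u = 1 := orderOf_eq_one_iff.mp h5
  rw [hu, QuotientGroup.eq_one_iff] at h6
  exact h6

/-- The setting. -/
structure Setup (ρ : X →* Equiv.Perm (Fin 126)) (ψ : U →* Equiv.Perm (Fin 126)) (Q : Subgroup X) (z t x0 m5 c : X)
    (Θ : Q →* Multiplicative (Fin 12 → ZMod 2)) : Prop where
  hψ : Function.Injective ψ
  hU : Nat.card U = 3265920
  hS : IsSimpleGroup U
  hcard : Nat.card X ≤ 2 * (3 * 2 ^ 13) * 3265920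
  hB : ∀ u, ∃ x, ρ x = ψ u
  hc : Equiv.Perm.sign (ρ c) = -1
  hQρ : Q ≤ ρ.ker
  hzQ : z ∈ Q
  hz1 : z ≠ 1
  hzX : ∀ g : X, g * z = z * g
  hcomm : ∀ a ∈ Q, ∀ b ∈ Q, a * b * a⁻¹ * b⁻¹ = 1 ∨ a * b * a⁻¹ * b⁻¹ = z
  hsq : ∀ a ∈ Q, a ^ 2 = 1 ∨ a ^ 2 = z
  hΘs : Function.Surjective Θ
  hΘc : ∀ a : Q, Θ a = 1 ↔ ∀ b : Q, a * b = b * a
  ht1 : ρ t = 1
  ht3 : orderOf t = 3
  htQ : ∀ x ∈ Q, t * x * t⁻¹ ∈ Q
  hx0 : x0 ∈ Q
  htx1 : t * x0 * t⁻¹ ≠ x0
  htx1' : t * x0 * t⁻¹ ≠ z * x0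
  htx2 : t * t * x0 * t⁻¹ * t⁻¹ ≠ x0
  htx2' : t * t * x0 * t⁻¹ * t⁻¹ ≠ z * x0
  hK0 : ∀ k : X, (∀ q ∈ Q, k * q = q * k) → ρ k 0 = 0
  hT : ∀ i, ∃ m : X, Equiv.Perm.sign (ρ m) = 1 ∧ ρ m 0 = i
  hm5 : Equiv.Perm.sign (ρ m5) = 1
  hm50 : ρ m5 0 = 0
  hm5f : ∀ i, ρ m5 i = i → i = 0

variable {ρ : X →* Equiv.Perm (Fin 126)} {ψ : U →* Equiv.Perm (Fin 126)} {Q : Subgroup X} {z t x0 m5 c : X}
  {Θ : Q →* Multiplicative (Fin 12 → ZMod 2)}

namespace Setup

variable (h : Setup ρ ψ Q z t x0 m5 c Θ)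
include h

theorem hzz : z * z = 1 := by
  rcases h.hsq z h.hzQ with e | e
  · rwa [pow_two] at e
  · exfalso
    apply h.hz1
    rw [pow_two] at e
    exact mul_left_cancel (e.trans (mul_one z).symm)

theorem hQ2 : IsPGroup 2 Q := by
  rintro ⟨a, ha⟩
  refine ⟨2, ?_⟩
  apply Subtype.ext
  show a ^ 2 ^ 2 = 1
  rcases h.hsq a ha with e | e
  · rw [show (2 : ℕ) ^ 2 = 2 * 2 by norm_num, pow_mul, e, one_pow]
  · rw [show (2 : ℕ) ^ 2 = 2 * 2 by norm_num, pow_mul, e, pow_two, h.hzz]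

theorem two_elt {a : X} (ha : a ∈ Q) : a ^ 2 ^ 2 = 1 := by
  have := h.hQ2 ⟨a, ha⟩
  rcases h.hsq a ha with e | e
  · rw [show (2 : ℕ) ^ 2 = 2 * 2 by norm_num, pow_mul, e, one_pow]
  · rw [show (2 : ℕ) ^ 2 = 2 * 2 by norm_num, pow_mul, e, pow_two, h.hzz]

/-- The sign on `X`. -/
noncomputable def sg (_ : Setup ρ ψ Q z t x0 m5 c Θ) : X →* ℤˣ := Equiv.Perm.sign.comp ρ

theorem sg_apply (x : X) : h.sg x = Equiv.Perm.sign (ρ x) := rfl

theorem sg_surj : Function.Surjective h.sg := by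
  intro y
  rcases Int.units_eq_one_or y with e | e
  · exact ⟨1, by rw [e, map_one]⟩
  · exact ⟨c, by rw [e, h.sg_apply, h.hc]⟩

theorem index_M : h.sg.ker.index = 2 := by
  rw [Subgroup.index_ker, MonoidHom.range_eq_top.mpr h.sg_surj, Subgroup.card_top, Nat.card_eq_fintype_card,
    Fintype.card_units_int]

theorem N_le_M : ρ.ker ≤ h.sg.ker := by
  intro x hx
  rw [MonoidHom.mem_ker] at hx ⊢
  rw [h.sg_apply, hx, map_one]

/-- The map on `M`. -/
noncomputable def rM (_ : Setup ρ ψ Q z t x0 m5 c Θ) : h.sg.ker →* Equiv.Perm (Fin 126) := ρ.comp h.sg.ker.subtype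

theorem rM_apply (x : h.sg.ker) : h.rM h x = ρ x := rfl

theorem ker_rM : (h.rM h).ker = ρ.ker.subgroupOf h.sg.ker := by
  ext x
  rw [MonoidHom.mem_ker, Subgroup.mem_subgroupOf, MonoidHom.mem_ker]
  rfl

theorem sign_psi (u : U) : Equiv.Perm.sign (ψ u) = 1 := by
  haveI := h.hS
  have hk : (Equiv.Perm.sign.comp ψ).ker = ⊥ ∨ (Equiv.Perm.sign.comp ψ).ker = ⊤ :=
    IsSimpleGroup.eq_bot_or_eq_top_of_normal _ inferInstance
  rcases hk with e | e
  · exfalso
    have hinj : Function.Injective (Equiv.Perm.sign.comp ψ) := (MonoidHom.ker_eq_bot_iff _).mp e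
    haveI : Finite U := Nat.finite_of_card_ne_zero (by rw [h.hU]; norm_num)
    have h1 := Nat.card_le_card_of_injective _ hinj
    rw [h.hU, Nat.card_eq_fintype_card, Fintype.card_units_int] at h1
    norm_num at h1
  · have : u ∈ (Equiv.Perm.sign.comp ψ).ker := by rw [e]; exact Subgroup.mem_top u
    exact this

theorem range_le : ψ.range ≤ (h.rM h).range := by
  rintro _ ⟨u, rfl⟩
  obtain ⟨x, hx⟩ := h.hB u
  have hm : x ∈ h.sg.ker := by
    rw [MonoidHom.mem_ker, h.sg_apply, hx, h.sign_psi]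
  exact ⟨⟨x, hm⟩, hx⟩

theorem card_range : Nat.card ψ.range = 3265920 := by
  rw [← h.hU]
  exact Nat.card_congr (MonoidHom.ofInjective h.hψ).toEquiv.symm

theorem card_Q_fac : Nat.card Q = Nat.card Θ.ker * 2 ^ 12 := by
  have h1 := Subgroup.card_mul_index Θ.ker
  rw [Subgroup.index_ker, MonoidHom.range_eq_top.mpr h.hΘs, Subgroup.card_top, card_mult] at h1
  exact h1.symm

theorem z_ker : (⟨z, h.hzQ⟩ : Q) ∈ Θ.ker := by
  rw [MonoidHom.mem_ker, h.hΘc]
  intro b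
  exact Subtype.ext (h.hzX b.1).symm

theorem two_le_ker : 2 ≤ Nat.card Θ.ker := by
  have hne : (⟨⟨z, h.hzQ⟩, h.z_ker⟩ : Θ.ker) ≠ 1 := by
    intro e
    exact h.hz1 (congrArg (fun y : Θ.ker => ((y : Q) : X)) e)
  haveI : Nontrivial Θ.ker := ⟨⟨_, _, hne⟩⟩
  have : 1 < Nat.card Θ.ker := Finite.one_lt_card
  exact this

theorem t_mem : t ∈ ρ.ker := by
  rw [MonoidHom.mem_ker, h.ht1]

/-- The counting. -/
theorem counts : Nat.card ρ.ker = 3 * 2 ^ 13 ∧ Nat.card Q = 2 ^ 13 ∧ Nat.card (h.rM h).range = 3265920 := by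
  set n := Nat.card ρ.ker with hn
  set q := Nat.card Q with hq
  set r := Nat.card (h.rM h).range with hr
  have h1 : q ∣ n := Subgroup.card_dvd_of_le h.hQρ
  have h2 : 3 ∣ n := by
    have := Subgroup.orderOf_dvd_natCard ρ.ker h.t_mem
    rwa [h.ht3] at this
  obtain ⟨a, ha⟩ := IsPGroup.iff_card.mp h.hQ2
  have h3 : 3 * q ∣ n := by
    apply Nat.Coprime.mul_dvd_of_dvd_of_dvd _ h2 h1
    rw [hq, ha]
    exact Nat.Coprime.pow_right a (by norm_num)
  have h4 : 3265920 ∣ r := by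
    have := Subgroup.card_dvd_of_le h.range_le
    rwa [h.card_range] at this
  have hrpos : 0 < r := Nat.card_pos
  have hnpos : 0 < n := Nat.card_pos
  have h5 : 3265920 ≤ r := Nat.le_of_dvd hrpos h4
  have h6 : 3 * q ≤ n := Nat.le_of_dvd hnpos h3
  have h7 : 2 ^ 13 ≤ q := by
    rw [hq, h.card_Q_fac]
    have := h.two_le_ker
    nlinarith
  have h8 : Nat.card h.sg.ker * 2 = Nat.card X := by
    have := Subgroup.card_mul_index h.sg.ker
    rwa [h.index_M] at this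
  have h9 : Nat.card h.sg.ker = n * r := by
    have h10 := Subgroup.card_mul_index (h.rM h).ker
    rw [Subgroup.index_ker] at h10
    rw [← h10, h.ker_rM]
    congr 1
    exact Nat.card_congr (Subgroup.subgroupOfEquivOfLe h.N_le_M).toEquiv
  have h11 : n * r ≤ (3 * 2 ^ 13) * 3265920 := by
    have := h.hcard
    nlinarith
  have h12 : n ≤ 3 * 2 ^ 13 := by
    by_contra hc
    push Not at hc
    nlinarith
  have h13 : r ≤ 3265920 := by
    by_contra hc
    push Not at hc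
    nlinarith
  have hq' : q = 2 ^ 13 := by omega
  have hn' : n = 3 * 2 ^ 13 := by omega
  exact ⟨hn', hq', by omega⟩

theorem card_N : Nat.card ρ.ker = 3 * Nat.card Q := by
  rw [h.counts.1, h.counts.2.1]

theorem t_sq_inv : t⁻¹ = t * t := by
  have h1 : t ^ 3 = 1 := by
    rw [← h.ht3]
    exact pow_orderOf_eq_one t
  apply inv_eq_of_mul_eq_one_right
  calc t * (t * t) = t ^ 3 := by rw [pow_succ, pow_two, mul_assoc]
    _ = 1 := h1

theorem t_norm : t ∈ Subgroup.normalizer (Q : Set X) := by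
  rw [Subgroup.mem_normalizer_iff]
  intro x
  constructor
  · exact h.htQ x
  · intro hx
    have h1 := h.htQ _ hx
    have h2 := h.htQ _ h1
    have h3 : x = t * (t * (t * x * t⁻¹) * t⁻¹) * t⁻¹ := by
      have e : t⁻¹ = t * t := h.t_sq_inv
      have e3 : t * t * t = 1 := by
        have := congrArg (fun y => y * t) e
        simp only [inv_mul_cancel] at this
        exact this.symm
      have e4 : t⁻¹ * t⁻¹ * t⁻¹ = 1 := by
        rw [← mul_inv_rev, ← mul_inv_rev, ← mul_assoc, e3, inv_one]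
      calc x = (t * t * t) * x * (t⁻¹ * t⁻¹ * t⁻¹) := by rw [e3, e4]; group
        _ = _ := by group
    rw [h3]
    exact h2

/-- `N` is generated by `Q` and `t`. -/
theorem N_eq : Q ⊔ Subgroup.zpowers t = ρ.ker := by
  have hle : Q ⊔ Subgroup.zpowers t ≤ ρ.ker :=
    sup_le h.hQρ ((Subgroup.zpowers_le).mpr h.t_mem)
  apply Subgroup.eq_of_le_of_card_ge hle
  rw [h.counts.1]
  have h1 : 2 ^ 13 ∣ Nat.card ↥(Q ⊔ Subgroup.zpowers t) := by
    have := Subgroup.card_dvd_of_le (le_sup_left : Q ≤ Q ⊔ Subgroup.zpowers t)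
    rwa [h.counts.2.1] at this
  have h2 : 3 ∣ Nat.card ↥(Q ⊔ Subgroup.zpowers t) := by
    have := Subgroup.orderOf_dvd_natCard (Q ⊔ Subgroup.zpowers t)
      ((le_sup_right : Subgroup.zpowers t ≤ Q ⊔ Subgroup.zpowers t) (Subgroup.mem_zpowers t))
    rwa [h.ht3] at this
  have h3 : 3 * 2 ^ 13 ∣ Nat.card ↥(Q ⊔ Subgroup.zpowers t) :=
    Nat.Coprime.mul_dvd_of_dvd_of_dvd (by norm_num) h2 h1
  exact Nat.le_of_dvd Nat.card_pos h3

theorem N_norm : ρ.ker ≤ Subgroup.normalizer (Q : Set X) := by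
  rw [← h.N_eq]
  apply sup_le Subgroup.le_normalizer
  rw [Subgroup.zpowers_le]
  exact h.t_norm

theorem mem_Q_of {y : X} (hy : y ∈ ρ.ker) {k : ℕ} (hk : y ^ 2 ^ k = 1) : y ∈ Q :=
  mem_of_two_elt h.hQρ h.N_norm h.card_N hy hk

theorem normal_Q : Q.Normal := by
  constructor
  intro x hx g
  have h1 : g * x * g⁻¹ ∈ ρ.ker := ρ.normal_ker.conj_mem x (h.hQρ hx) g
  apply h.mem_Q_of h1 (k := 2)
  rw [conj_pow, h.two_elt hx]
  group

/-- The centraliser of `Q` acts trivially. -/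
theorem cent_ker {k : X} (hk : ∀ q ∈ Q, k * q = q * k) : ρ k = 1 := by
  haveI := h.normal_Q
  ext i
  obtain ⟨m, -, hm⟩ := h.hT i
  have h1 : ∀ q ∈ Q, (m⁻¹ * k * m) * q = q * (m⁻¹ * k * m) := by
    intro q hq
    have h2 : m * q * m⁻¹ ∈ Q := ‹Q.Normal›.conj_mem q hq m
    have h3 := hk _ h2
    calc (m⁻¹ * k * m) * q = m⁻¹ * (k * (m * q * m⁻¹)) * m := by group
      _ = m⁻¹ * ((m * q * m⁻¹) * k) * m := by rw [h3]
      _ = _ := by group
  have h2 := h.hK0 _ h1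
  rw [map_mul, map_mul, map_inv, Equiv.Perm.mul_apply, Equiv.Perm.mul_apply, hm, Equiv.Perm.inv_eq_iff_eq] at h2
  simp only [Equiv.Perm.coe_one, id_eq]
  rw [← hm] at h2 ⊢
  simpa using congrArg Fin.val h2 |> fun e => e

theorem conj_cases {k h' q : X} (e : k = h' * q) (hq : q ∈ Q) (hk : k * x0 = x0 * k) :
    h' * x0 * h'⁻¹ = x0 ∨ h' * x0 * h'⁻¹ = z * x0 := by
  have h1 : h' * (q * x0 * q⁻¹) * h'⁻¹ = x0 := by
    calc h' * (q * x0 * q⁻¹) * h'⁻¹ = k * x0 * k⁻¹ := by rw [e]; group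
      _ = x0 := by rw [hk]; group
  rcases h.hcomm q hq x0 h.hx0 with h2 | h2
  · left
    have h3 : q * x0 * q⁻¹ = x0 := by
      have := mul_inv_eq_one.mp h2
      exact this
    rwa [h3] at h1
  · right
    have h3 : q * x0 * q⁻¹ = z * x0 := by
      have := mul_inv_eq_iff_eq_mul.mp h2
      exact this
    rw [h3] at h1
    have h4 : h' * (z * x0) * h'⁻¹ = z * (h' * x0 * h'⁻¹) := by
      have := h.hzX h'
      calc h' * (z * x0) * h'⁻¹ = (h' * z) * x0 * h'⁻¹ := by group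
        _ = (z * h') * x0 * h'⁻¹ := by rw [this]
        _ = _ := by group
    rw [h4] at h1
    calc h' * x0 * h'⁻¹ = (z * z) * (h' * x0 * h'⁻¹) := by rw [h.hzz, one_mul]
      _ = z * (z * (h' * x0 * h'⁻¹)) := by group
      _ = z * x0 := by rw [h1]

/-- The centraliser of `Q` lies in `Q`. -/
theorem cent_le {k : X} (hk : ∀ q ∈ Q, k * q = q * k) : k ∈ Q := by
  haveI := h.normal_Q
  have h1 : k ∈ ρ.ker := h.cent_ker hk
  rw [← h.N_eq, sup_comm] at h1
  have e := Subgroup.mul_normal (Subgroup.zpowers t) Q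
  have h2 : k ∈ (↑(Subgroup.zpowers t ⊔ Q) : Set X) := h1
  rw [e] at h2
  obtain ⟨h', hh', q, hq, rfl⟩ := Set.mem_mul.mp h2
  have hx := h.conj_cases rfl hq (hk x0 h.hx0)
  obtain ⟨n, rfl⟩ := Subgroup.mem_zpowers_iff.mp hh'
  have ht : t ^ 3 = 1 := by rw [← h.ht3]; exact pow_orderOf_eq_one t
  have hmod : t ^ n = t ^ (n % 3) := by
    conv_lhs => rw [← Int.emod_add_mul_ediv n 3]
    rw [zpow_add, zpow_mul]
    simp [ht]
  have hr0 : 0 ≤ n % 3 := Int.emod_nonneg _ (by norm_num)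
  have hr3 : n % 3 < 3 := Int.emod_lt_of_pos _ (by norm_num)
  rw [hmod] at hx ⊢
  have hcases : n % 3 = 0 ∨ n % 3 = 1 ∨ n % 3 = 2 := by omega
  rcases hcases with e0 | e0 | e0
  · rw [e0, zpow_zero, one_mul]
    exact hq
  · exfalso
    rw [e0, zpow_one] at hx
    rcases hx with h3 | h3
    · exact h.htx1 h3
    · exact h.htx1' h3
  · exfalso
    rw [e0] at hx
    have e2 : t ^ (2 : ℤ) = t * t := by rw [zpow_two]
    rw [e2] at hx
    rcases hx with h3 | h3
    · apply h.htx2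
      have e3 : t * t * x0 * t⁻¹ * t⁻¹ = t * t * x0 * (t * t)⁻¹ := by group
      rw [e3]
      exact h3
    · apply h.htx2'
      have e3 : t * t * x0 * t⁻¹ * t⁻¹ = t * t * x0 * (t * t)⁻¹ := by group
      rw [e3]
      exact h3

theorem range_eq : (h.rM h).range = ψ.range := by
  symm
  apply Subgroup.eq_of_le_of_card_ge h.range_le
  rw [h.card_range, h.counts.2.2]

/-- The isomorphism on the image. -/
noncomputable def eR (_ : Setup ρ ψ Q z t x0 m5 c Θ) : (h.rM h).range ≃* U :=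
  (MulEquiv.subgroupCongr h.range_eq).trans (MonoidHom.ofInjective h.hψ).symm

theorem simple_range : IsSimpleGroup (h.rM h).range := by
  haveI := h.hS
  exact MulEquiv.isSimpleGroup (h.eR h)

theorem pcore_step (P : Subgroup X) [hPn : P.Normal] (hP : IsPGroup 2 P) {x : X} (hx : x ∈ P) (hxM : x ∈ h.sg.ker) :
    ρ x = 1 := by
  haveI : Fact (Nat.Prime 2) := ⟨Nat.prime_two⟩
  haveI := h.simple_range
  have hMn : h.sg.ker.Normal := h.sg.normal_ker
  set T : Subgroup h.sg.ker := P.subgroupOf h.sg.ker with hT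
  haveI hTn : T.Normal := hPn.subgroupOf _
  set f := (h.rM h).rangeRestrict with hf
  have hfs : Function.Surjective f := MonoidHom.rangeRestrict_surjective _
  have hSn : (T.map f).Normal := Subgroup.Normal.map hTn f hfs
  have hTp : IsPGroup 2 T := hP.to_le (by exact fun y hy => hy) |> fun _ => by
    intro y
    obtain ⟨k, hk⟩ := hP ⟨(y : h.sg.ker), y.2⟩
    refine ⟨k, ?_⟩
    apply Subtype.ext
    apply Subtype.ext
    have := congrArg Subtype.val hk
    simpa using this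
  rcases IsSimpleGroup.eq_bot_or_eq_top_of_normal _ hSn with e | e
  · have h1 : f ⟨x, hxM⟩ ∈ T.map f := ⟨⟨x, hxM⟩, hx, rfl⟩
    rw [e, Subgroup.mem_bot] at h1
    exact congrArg Subtype.val h1
  · exfalso
    have h2 : IsPGroup 2 (T.map f) := hTp.map f
    obtain ⟨a, ha⟩ := IsPGroup.iff_card.mp h2
    rw [e, Subgroup.card_top, h.counts.2.2] at ha
    have h3 : 3 ∣ 2 ^ a := by rw [← ha]; norm_num
    have h4 := Nat.Prime.dvd_of_dvd_pow Nat.prime_three h3
    norm_num at h4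

theorem pCore_eq : pCore 2 X = Q := by
  haveI : Fact (Nat.Prime 2) := ⟨Nat.prime_two⟩
  haveI := h.normal_Q
  apply le_antisymm _ (le_pCore h.normal_Q h.hQ2)
  have hP : IsPGroup 2 (pCore 2 X) := isPGroup_pCore 2
  have hPn : (pCore 2 X).Normal := inferInstance
  have hMn : h.sg.ker.Normal := h.sg.normal_ker
  have hstep : ∀ x ∈ pCore 2 X ⊓ h.sg.ker, ρ x = 1 := by
    rintro x ⟨hx1, hx2⟩
    exact h.pcore_step (pCore 2 X) hP hx1 hx2
  have hPM : pCore 2 X ≤ h.sg.ker := by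
    intro p hp
    have hcm : ∀ m ∈ h.sg.ker, ρ p * ρ m = ρ m * ρ p := by
      intro m hm
      have h1 : p * m * p⁻¹ * m⁻¹ ∈ pCore 2 X := by
        have : p * (m * p⁻¹ * m⁻¹) ∈ pCore 2 X := (pCore 2 X).mul_mem hp (hPn.conj_mem _ ((pCore 2 X).inv_mem hp) m)
        rwa [← mul_assoc, ← mul_assoc] at this
      have h2 : p * m * p⁻¹ * m⁻¹ ∈ h.sg.ker :=
        h.sg.ker.mul_mem (hMn.conj_mem _ hm p) (h.sg.ker.inv_mem hm)
      have h3 := hstep _ ⟨h1, h2⟩
      simp only [map_mul, map_inv] at h3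
      have h4 := mul_inv_eq_one.mp h3
      exact mul_inv_eq_iff_eq_mul.mp h4
    have hm5M : m5 ∈ h.sg.ker := by
      rw [MonoidHom.mem_ker, h.sg_apply, h.hm5]
    have h0 : ρ p 0 = 0 := by
      apply h.hm5f
      have := hcm m5 hm5M
      have h1 := congrArg (fun π : Equiv.Perm (Fin 126) => π 0) this
      simp only [Equiv.Perm.mul_apply, h.hm50] at h1
      exact h1.symm
    have hall : ρ p = 1 := by
      ext i
      obtain ⟨m, hm1, hm2⟩ := h.hT i
      have hmM : m ∈ h.sg.ker := by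
        rw [MonoidHom.mem_ker, h.sg_apply, hm1]
      have := hcm m hmM
      have h1 := congrArg (fun π : Equiv.Perm (Fin 126) => π 0) this
      simp only [Equiv.Perm.mul_apply, h0, hm2] at h1
      rw [h1]
      rfl
    exact h.N_le_M hall
  intro x hx
  have h1 : ρ x = 1 := hstep x ⟨hx, hPM hx⟩
  obtain ⟨k, hk⟩ := hP ⟨x, hx⟩
  have h2 : x ^ 2 ^ k = 1 := by
    have := congrArg Subtype.val hk
    simpa using this
  exact h.mem_Q_of h1 h2

theorem fstar : generalizedFittingSubgroup X = Q := by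
  haveI : Fact (Nat.Prime 2) := ⟨Nat.prime_two⟩
  have h1 : Subgroup.centralizer (pCore 2 X : Set X) ≤ pCore 2 X := by
    rw [h.pCore_eq]
    intro k hk
    apply h.cent_le
    intro q hq
    exact (Subgroup.mem_centralizer_iff.mp hk q hq).symm
  rw [Cfsg.Agent.Lib.CharTwoLocal.generalizedFitting_eq_pCore h1, h.pCore_eq]

theorem ker_eq {a : Q} (ha : Θ a = 1) : a = 1 ∨ a = ⟨z, h.hzQ⟩ := by
  have h1 : Nat.card Θ.ker = 2 := by
    have h2 := h.card_Q_fac
    rw [h.counts.2.1] at h2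
    omega
  rw [Nat.card_eq_two_iff' (1 : Θ.ker)] at h1
  obtain ⟨y, hy, huniq⟩ := h1
  by_cases ha1 : a = 1
  · exact Or.inl ha1
  · right
    have hzk : (⟨⟨z, h.hzQ⟩, h.z_ker⟩ : Θ.ker) ≠ 1 := by
      intro e
      exact h.hz1 (congrArg (fun y : Θ.ker => ((y : Q) : X)) e)
    have hak : (⟨a, ha⟩ : Θ.ker) ≠ 1 := by
      intro e
      exact ha1 (congrArg Subtype.val e)
    have e1 := huniq _ hzk
    have e2 := huniq _ hak
    have e3 : (⟨a, ha⟩ : Θ.ker) = ⟨⟨z, h.hzQ⟩, h.z_ker⟩ := e2.trans e1.symm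
    exact congrArg Subtype.val e3

theorem extra : IsExtraspecial 2 ↥Q := by
  haveI : Finite ↥Q := inferInstance
  refine Cfsg.Agent.Lib.LargeQuot.extraspecial_of_elements h.hQ2 ⟨z, h.hzQ⟩ ?_ ?_ ?_ ?_ ?_
  · intro e
    exact h.hz1 (congrArg Subtype.val e)
  · rintro ⟨a, ha⟩ ⟨b, hb⟩
    rcases h.hcomm a ha b hb with e | e
    · exact Or.inl (Subtype.ext e)
    · exact Or.inr (Subtype.ext e)
  · rintro ⟨a, ha⟩
    rcases h.hsq a ha with e | e
    · exact Or.inl (Subtype.ext e)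
    · exact Or.inr (Subtype.ext e)
  · intro a ha
    exact h.ker_eq ((h.hΘc a).mpr ha)
  · by_contra hc
    push Not at hc
    have h1 : ∀ a : ↥Q, Θ a = 1 := by
      intro a
      rw [h.hΘc]
      intro b
      have e := hc a b
      calc a * b = (a * b * a⁻¹ * b⁻¹) * (b * a) := by group
        _ = b * a := by rw [e, one_mul]
    obtain ⟨a, ha⟩ := h.hΘs (Multiplicative.ofAdd (fun _ => 1))
    rw [h1 a] at ha
    have e2 := congrArg (fun y => (Multiplicative.toAdd y) 0) ha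
    exact absurd e2 (by decide)

/-- The conclusion. -/
theorem conclusion : ∃ (Q' : Subgroup X) (_ : Q'.Normal), generalizedFittingSubgroup X = Q' ∧ IsExtraspecial 2 ↥Q' ∧
    Nat.card Q' = 2 ^ 13 ∧ ∃ (N M : Subgroup X) (_ : N.Normal) (_ : M.Normal), Q' ≤ N ∧ N ≤ M ∧
      Nat.card N = 3 * Nat.card Q' ∧ Nonempty (↥M ⧸ N.subgroupOf M ≃* U) ∧ M.index = 2 := by
  refine ⟨Q, h.normal_Q, h.fstar, h.extra, h.counts.2.1, ρ.ker, h.sg.ker, inferInstance, inferInstance, h.hQρ, h.N_le_M,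
    h.card_N, ?_, h.index_M⟩
  exact ⟨(QuotientGroup.quotientMulEquivOfEq h.ker_rM.symm).trans
    ((QuotientGroup.quotientKerEquivRange (h.rM h)).trans (h.eR h))⟩

end Setup

/-- Transfer of the conclusion. -/
theorem transfer {Y : Type*} [Group Y] (E : X ≃* Y)
    (H : ∃ (Q' : Subgroup X) (_ : Q'.Normal), generalizedFittingSubgroup X = Q' ∧ IsExtraspecial 2 ↥Q' ∧
    Nat.card Q' = 2 ^ 13 ∧ ∃ (N M : Subgroup X) (_ : N.Normal) (_ : M.Normal), Q' ≤ N ∧ N ≤ M ∧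
      Nat.card N = 3 * Nat.card Q' ∧ Nonempty (↥M ⧸ N.subgroupOf M ≃* U) ∧ M.index = 2) :
    ∃ (Q' : Subgroup Y) (_ : Q'.Normal), generalizedFittingSubgroup Y = Q' ∧ IsExtraspecial 2 ↥Q' ∧
    Nat.card Q' = 2 ^ 13 ∧ ∃ (N M : Subgroup Y) (_ : N.Normal) (_ : M.Normal), Q' ≤ N ∧ N ≤ M ∧
      Nat.card N = 3 * Nat.card Q' ∧ Nonempty (↥M ⧸ N.subgroupOf M ≃* U) ∧ M.index = 2 := by
  obtain ⟨Q, hQn, hF, hE, hC, N, M, hN, hM, hQN, hNM, hNc, ⟨f⟩, hi⟩ := H
  have hs : Function.Surjective E.toMonoidHom := E.surjective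
  have hcard : ∀ S : Subgroup X, Nat.card ↥(S.map E.toMonoidHom) = Nat.card S := fun S =>
    Nat.card_congr (S.equivMapOfInjective E.toMonoidHom E.injective).symm.toEquiv
  refine ⟨Q.map E.toMonoidHom, hQn.map _ hs, ?_, ?_, ?_, N.map E.toMonoidHom, M.map E.toMonoidHom, hN.map _ hs, hM.map _ hs,
    Subgroup.map_mono hQN, Subgroup.map_mono hNM, ?_, ?_, ?_⟩
  · rw [← hF]
    exact (Cfsg.Agent.Lib.BalanceB.map_genFit_equiv E).symm
  · exact Cfsg.Agent.Lib.LargeCent.isExtraspecial_of_equiv (Q.equivMapOfInjective E.toMonoidHom E.injective) hE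
  · rw [hcard, hC]
  · rw [hcard, hcard, hNc]
  · haveI hN0 : N.Normal := hN
    haveI hN1 : (N.map E.toMonoidHom).Normal := hN.map _ hs
    let g : ↥M ≃* ↥(M.map E.toMonoidHom) := M.equivMapOfInjective E.toMonoidHom E.injective
    have hg : (N.subgroupOf M).map g.toMonoidHom = (N.map E.toMonoidHom).subgroupOf (M.map E.toMonoidHom) := by
      ext ⟨y, hy⟩
      constructor
      · rintro ⟨⟨a, ha⟩, ha2, e⟩
        rw [Subgroup.mem_subgroupOf]
        have e2 : E a = y := congrArg Subtype.val e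
        exact ⟨a, ha2, e2⟩
      · intro h2
        rw [Subgroup.mem_subgroupOf] at h2
        obtain ⟨a, ha, e⟩ := h2
        obtain ⟨b, hb, e2⟩ := hy
        have e3 : a = b := E.injective (e.trans e2.symm)
        subst e3
        exact ⟨⟨a, hb⟩, ha, Subtype.ext e⟩
    exact ⟨(QuotientGroup.congr (N.subgroupOf M) ((N.map E.toMonoidHom).subgroupOf (M.map E.toMonoidHom)) g hg).symm.trans f⟩
  · rw [← hi]
    exact Subgroup.index_map_equiv (H := M) E

end Cfsg.Agent.Lib.FiZAbs45
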