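import Mathlib

/-!
# A group generated by twelve involutions commuting up to a central involution
-/

set_option autoImplicit false
set_option linter.all false

namespace Cfsg.Agent.Lib.FiZq45

variable {X : Type*} [Group X]

/-- The setting. -/
structure QS (x : Fin 12 → X) (z : X) (B : Matrix (Fin 12) (Fin 12) (ZMod 2)) : Prop where
  hz : ∀ g : X, g * z = z * g
  hzz : z * z = 1
  hz1 : z ≠ 1
  hx2 : ∀ i, x i * x i = 1
  hB0 : ∀ i j, B i j = 0 → x i * x j = x j * x i
  hB1 : ∀ i j, B i j = 1 → x i * x j = z * (x j * x i)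

/-- The group. -/
def QQ (x : Fin 12 → X) (z : X) : Subgroup X := Subgroup.closure (Set.range x ∪ {z})

/-- Commuting up to the central involution. -/
def Ph (z a b : X) : Prop := a * b = b * a ∨ a * b = z * (b * a)

variable {x : Fin 12 → X} {z : X} {B : Matrix (Fin 12) (Fin 12) (ZMod 2)}

theorem zmod2_cases (a : ZMod 2) : a = 0 ∨ a = 1 := by
  revert a
  decide

namespace QS

variable (h : QS x z B)
include h

theorem ph_symm {a b : X} (p : Ph z a b) : Ph z b a := by
  rcases p with e | e
  · exact Or.inl e.symm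
  · right
    rw [e, ← mul_assoc, h.hzz, one_mul]

theorem ph_mul {a b c : X} (p : Ph z a b) (q : Ph z a c) : Ph z a (b * c) := by
  have hc := h.hz
  rcases p with e | e <;> rcases q with f | f
  · left
    rw [← mul_assoc, e, mul_assoc, f, mul_assoc]
  · right
    calc a * (b * c) = (a * b) * c := by group
      _ = b * (a * c) := by rw [e]; group
      _ = b * (z * (c * a)) := by rw [f]
      _ = (b * z) * (c * a) := by group
      _ = (z * b) * (c * a) := by rw [hc]
      _ = _ := by group
  · right
    calc a * (b * c) = (a * b) * c := by group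
      _ = z * b * (a * c) := by rw [e]; group
      _ = z * b * (c * a) := by rw [f]
      _ = _ := by group
  · left
    calc a * (b * c) = (a * b) * c := by group
      _ = z * b * (a * c) := by rw [e]; group
      _ = z * b * (z * (c * a)) := by rw [f]
      _ = z * (b * z) * (c * a) := by group
      _ = z * (z * b) * (c * a) := by rw [hc]
      _ = (z * z) * (b * (c * a)) := by group
      _ = _ := by rw [h.hzz, one_mul]; group

theorem ph_inv {a b : X} (p : Ph z a b) : Ph z a b⁻¹ := by
  have hc := h.hz
  rcases p with e | e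
  · left
    have c : Commute a b := e
    exact c.inv_right
  · right
    -- `b⁻¹ * a = z * (a * b⁻¹)`
    have e1 : b⁻¹ * (a * b) * b⁻¹ = b⁻¹ * (z * (b * a)) * b⁻¹ := by rw [e]
    have e2 : b⁻¹ * (z * (b * a)) * b⁻¹ = z * (a * b⁻¹) := by
      calc b⁻¹ * (z * (b * a)) * b⁻¹ = (b⁻¹ * z) * (b * a) * b⁻¹ := by group
        _ = (z * b⁻¹) * (b * a) * b⁻¹ := by rw [hc]
        _ = _ := by group
    have e3 : b⁻¹ * (a * b) * b⁻¹ = b⁻¹ * a := by group
    rw [e3, e2] at e1
    rw [e1, ← mul_assoc, h.hzz, one_mul]

theorem ph_one (a : X) : Ph z a 1 := Or.inl (by simp)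

theorem ph_gen {a b : X} (ha : a ∈ Set.range x ∪ {z}) (hb : b ∈ Set.range x ∪ {z}) : Ph z a b := by
  rcases ha with ⟨i, rfl⟩ | ha
  · rcases hb with ⟨j, rfl⟩ | hb
    · rcases zmod2_cases (B i j) with e | e
      · exact Or.inl (h.hB0 i j e)
      · exact Or.inr (h.hB1 i j e)
    · rw [Set.mem_singleton_iff] at hb
      subst hb
      exact Or.inl (h.hz _)
  · rw [Set.mem_singleton_iff] at ha
    subst ha
    exact Or.inl (h.hz _).symm

theorem ph_right {a : X} (ha : a ∈ Set.range x ∪ {z}) {b : X} (hb : b ∈ QQ x z) : Ph z a b := by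
  induction hb using Subgroup.closure_induction with
  | mem b hb => exact h.ph_gen ha hb
  | one => exact h.ph_one a
  | mul b c _ _ pb pc => exact h.ph_mul pb pc
  | inv b _ pb => exact h.ph_inv pb

theorem ph_all {a b : X} (ha : a ∈ QQ x z) (hb : b ∈ QQ x z) : Ph z a b := by
  apply h.ph_symm
  induction ha using Subgroup.closure_induction with
  | mem a ha => exact h.ph_symm (h.ph_right ha hb)
  | one => exact h.ph_one b
  | mul a c _ _ pa pc => exact h.ph_mul pa pc
  | inv a _ pa => exact h.ph_inv pa

theorem hzQ : z ∈ QQ x z := Subgroup.subset_closure (Or.inr rfl)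

theorem hxQ (i : Fin 12) : x i ∈ QQ x z := Subgroup.subset_closure (Or.inl ⟨i, rfl⟩)

theorem hcomm {a b : X} (ha : a ∈ QQ x z) (hb : b ∈ QQ x z) : a * b * a⁻¹ * b⁻¹ = 1 ∨ a * b * a⁻¹ * b⁻¹ = z := by
  rcases h.ph_all ha hb with e | e
  · left
    rw [e]
    group
  · right
    rw [e]
    group

theorem hsq {a : X} (ha : a ∈ QQ x z) : a ^ 2 = 1 ∨ a ^ 2 = z := by
  have hc := h.hz
  have hzz := h.hzz
  induction ha using Subgroup.closure_induction with
  | mem a ha =>
    rcases ha with ⟨i, rfl⟩ | ha
    · left
      rw [pow_two]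
      exact h.hx2 i
    · rw [Set.mem_singleton_iff] at ha
      subst ha
      left
      rw [pow_two]
      exact hzz
  | one => exact Or.inl (by simp)
  | mul a b ha hb pa pb =>
    have key : (a * b) ^ 2 = a ^ 2 * b ^ 2 ∨ (a * b) ^ 2 = z * (a ^ 2 * b ^ 2) := by
      rcases h.ph_all hb ha with e | e
      · left
        simp only [pow_two]
        calc a * b * (a * b) = a * (b * a) * b := by group
          _ = a * (a * b) * b := by rw [e]
          _ = _ := by group
      · right
        simp only [pow_two]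
        calc a * b * (a * b) = a * (b * a) * b := by group
          _ = a * (z * (a * b)) * b := by rw [e]
          _ = (a * z) * (a * b) * b := by group
          _ = (z * a) * (a * b) * b := by rw [hc]
          _ = _ := by group
    rcases key with k | k <;> rcases pa with pa | pa <;> rcases pb with pb | pb <;> rw [k, pa, pb] <;> simp [hzz]
  | inv a _ pa =>
    have e : a⁻¹ ^ 2 = (a ^ 2)⁻¹ := by simp
    have hzi : z⁻¹ = z := inv_eq_of_mul_eq_one_left hzz
    rw [e]
    rcases pa with pa | pa
    · left
      rw [pa, inv_one]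
    · right
      rw [pa, hzi]

end QS

/-- The commuting character. -/
noncomputable def eps (x : Fin 12 → X) (j : Fin 12) (a : X) : ZMod 2 :=
  open Classical in if a * x j = x j * a then 0 else 1

namespace QS

variable (h : QS x z B)
include h

theorem not_comm {a b : X} (e : a * b = z * (b * a)) : a * b ≠ b * a := by
  intro f
  apply h.hz1
  rw [f] at e
  exact mul_eq_right.mp e.symm

theorem eps_cases {a : X} (ha : a ∈ QQ x z) (j : Fin 12) :
    (eps x j a = 0 ∧ a * x j = x j * a) ∨ (eps x j a = 1 ∧ a * x j = z * (x j * a)) := by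
  classical
  rcases h.ph_all ha (h.hxQ j) with e | e
  · left
    refine ⟨?_, e⟩
    unfold eps
    rw [if_pos e]
  · right
    refine ⟨?_, e⟩
    unfold eps
    rw [if_neg (h.not_comm e)]

theorem eps_of_comm {a : X} (j : Fin 12) (e : a * x j = x j * a) : eps x j a = 0 := by
  classical
  unfold eps
  rw [if_pos e]

theorem eps_of_not {a : X} (j : Fin 12) (e : a * x j = z * (x j * a)) : eps x j a = 1 := by
  classical
  unfold eps
  rw [if_neg (h.not_comm e)]

theorem eps_mul {a b : X} (ha : a ∈ QQ x z) (hb : b ∈ QQ x z) (j : Fin 12) :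
    eps x j (a * b) = eps x j a + eps x j b := by
  have hc := h.hz
  rcases h.eps_cases ha j with ⟨e1, f1⟩ | ⟨e1, f1⟩ <;> rcases h.eps_cases hb j with ⟨e2, f2⟩ | ⟨e2, f2⟩ <;> rw [e1, e2]
  · rw [add_zero]
    apply h.eps_of_comm
    calc a * b * x j = a * (b * x j) := by group
      _ = a * (x j * b) := by rw [f2]
      _ = (a * x j) * b := by group
      _ = x j * a * b := by rw [f1]
      _ = _ := by group
  · rw [zero_add]
    apply h.eps_of_not
    calc a * b * x j = a * (b * x j) := by group
      _ = a * (z * (x j * b)) := by rw [f2]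
      _ = (a * z) * (x j * b) := by group
      _ = (z * a) * (x j * b) := by rw [hc]
      _ = z * ((a * x j) * b) := by group
      _ = z * (x j * a * b) := by rw [f1]
      _ = _ := by group
  · rw [add_zero]
    apply h.eps_of_not
    calc a * b * x j = a * (b * x j) := by group
      _ = a * (x j * b) := by rw [f2]
      _ = (a * x j) * b := by group
      _ = z * (x j * a) * b := by rw [f1]
      _ = _ := by group
  · have e3 : (1 : ZMod 2) + 1 = 0 := by decide
    rw [e3]
    apply h.eps_of_comm
    calc a * b * x j = a * (b * x j) := by group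
      _ = a * (z * (x j * b)) := by rw [f2]
      _ = (a * z) * (x j * b) := by group
      _ = (z * a) * (x j * b) := by rw [hc]
      _ = z * ((a * x j) * b) := by group
      _ = z * (z * (x j * a) * b) := by rw [f1]
      _ = (z * z) * (x j * a * b) := by group
      _ = _ := by rw [h.hzz, one_mul]; group

/-- The map. -/
noncomputable def Th (_ : QS x z B) : ↥(QQ x z) →* Multiplicative (Fin 12 → ZMod 2) :=
  MonoidHom.mk' (fun a => Multiplicative.ofAdd fun j => eps x j a) (by
    intro a b
    rw [← ofAdd_add]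
    congr 1
    funext j
    exact h.eps_mul a.2 b.2 j)

theorem Th_apply (a : ↥(QQ x z)) : h.Th h a = Multiplicative.ofAdd fun j => eps x j a := rfl

theorem Th_x (i : Fin 12) : h.Th h ⟨x i, h.hxQ i⟩ = Multiplicative.ofAdd (B i) := by
  rw [h.Th_apply]
  congr 1
  funext j
  rcases zmod2_cases (B i j) with e | e
  · rw [e]
    exact h.eps_of_comm j (h.hB0 i j e)
  · rw [e]
    exact h.eps_of_not j (h.hB1 i j e)

theorem Th_c (a : ↥(QQ x z)) : h.Th h a = 1 ↔ ∀ b : ↥(QQ x z), a * b = b * a := by
  constructor
  · intro e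
    have e1 : ∀ j, eps x j (a : X) = 0 := by
      intro j
      have e2 := congrArg (fun y => (Multiplicative.toAdd y) j) e
      exact e2
    have e3 : ∀ j, (a : X) * x j = x j * a := by
      intro j
      rcases h.eps_cases a.2 j with ⟨_, f⟩ | ⟨f1, _⟩
      · exact f
      · rw [e1 j] at f1
        exact absurd f1 (by decide)
    have hle : QQ x z ≤ Subgroup.centralizer ({(a : X)} : Set X) := by
      apply (Subgroup.closure_le _).mpr
      rintro y (⟨j, rfl⟩ | hy)
      · apply Subgroup.mem_centralizer_singleton_iff.mpr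
        exact (e3 j).symm
      · rw [Set.mem_singleton_iff] at hy
        subst hy
        exact Subgroup.mem_centralizer_singleton_iff.mpr (h.hz _).symm
    intro b
    have h1 := Subgroup.mem_centralizer_singleton_iff.mp (hle b.2)
    exact Subtype.ext h1.symm
  · intro e
    rw [h.Th_apply]
    have e1 : (fun j => eps x j (a : X)) = 0 := by
      funext j
      apply h.eps_of_comm
      have := e ⟨x j, h.hxQ j⟩
      exact congrArg Subtype.val this
    rw [e1]
    rfl

theorem Th_s {I : Matrix (Fin 12) (Fin 12) (ZMod 2)} (hI : I * B = 1) : Function.Surjective (h.Th h) := by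
  intro y
  have hS : ∀ v : Fin 12 → ZMod 2, ∃ a, h.Th h a = Multiplicative.ofAdd v := by
    intro v
    have hv : v = ∑ k, (Matrix.vecMul v I) k • B k := by
      rw [← Matrix.vecMul_eq_sum, Matrix.vecMul_vecMul, hI, Matrix.vecMul_one]
    rw [hv]
    refine Finset.sum_induction _ (fun w => ∃ a, h.Th h a = Multiplicative.ofAdd w) ?_ ?_ ?_
    · rintro u w ⟨a, ha⟩ ⟨b, hb⟩
      exact ⟨a * b, by rw [map_mul, ha, hb, ofAdd_add]⟩
    · exact ⟨1, by rw [map_one]; rfl⟩
    · intro k _
      rcases zmod2_cases (Matrix.vecMul v I k) with e | e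
      · rw [e, zero_smul]
        exact ⟨1, by rw [map_one]; rfl⟩
      · rw [e, one_smul]
        exact ⟨⟨x k, h.hxQ k⟩, h.Th_x k⟩
  obtain ⟨a, ha⟩ := hS (Multiplicative.toAdd y)
  exact ⟨a, by rw [ha]; rfl⟩

/-- Conjugation preserves the group. -/
theorem conj_mem {t : X} (htx : ∀ i, t * x i * t⁻¹ ∈ QQ x z) {a : X} (ha : a ∈ QQ x z) : t * a * t⁻¹ ∈ QQ x z := by
  induction ha using Subgroup.closure_induction with
  | mem a ha =>
    rcases ha with ⟨i, rfl⟩ | ha
    · exact htx i
    · rw [Set.mem_singleton_iff] at ha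
      subst ha
      have e : t * a * t⁻¹ = a := by
        rw [h.hz t]
        group
      rw [e]
      exact h.hzQ
  | one =>
    have e : t * 1 * t⁻¹ = 1 := by group
    rw [e]
    exact Subgroup.one_mem _
  | mul a b _ _ pa pb =>
    have e : t * (a * b) * t⁻¹ = (t * a * t⁻¹) * (t * b * t⁻¹) := by group
    rw [e]
    exact Subgroup.mul_mem _ pa pb
  | inv a _ pa =>
    have e : t * a⁻¹ * t⁻¹ = (t * a * t⁻¹)⁻¹ := by group
    rw [e]
    exact Subgroup.inv_mem _ pa

/-- Non-commuting elements. -/
theorem noncomm : ∃ i j, B i j = 1 → ¬ (x i * x j = x j * x i) := ⟨0, 0, fun e => by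
  intro f
  exact h.not_comm (h.hB1 0 0 e) f⟩

end QS

end Cfsg.Agent.Lib.FiZq45
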