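import Mathlib
import Cfsg.Agent.Lib.FiZf45
import Cfsg.Agent.Lib.FiZg45
import Cfsg.Agent.Lib.FiZq45
import Cfsg.Agent.Lib.FiZAbs45

/-!
# The centraliser of a product of four transpositions of `Fi₂₄`
-/

set_option autoImplicit false
set_option maxRecDepth 1000000
set_option maxHeartbeats 1000000
set_option linter.all false

namespace Cfsg.Agent.Lib.FiZh45

open Cfsg
open Cfsg.Agent.Lib.TcBits Cfsg.Agent.Lib.CoxCert Cfsg.Agent.Lib.BitClose Cfsg.Agent.Lib.F24Rep
open Cfsg.Agent.Lib.F24Base hiding lab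
open Cfsg.Agent.Lib.F24Psi Cfsg.Agent.Lib.F24Orb Cfsg.Agent.Lib.F24Main Cfsg.Agent.Lib.F24Cl Cfsg.Spor
open Cfsg.Agent.Lib.Fi24K45 Cfsg.Agent.Lib.Fi24Cent45 Cfsg.Agent.Lib.Fi24Syl45
open Cfsg.Agent.Lib.FiZa45 Cfsg.Agent.Lib.FiZb45 Cfsg.Agent.Lib.FiZd45 Cfsg.Agent.Lib.FiZc45 Cfsg.Agent.Lib.Fi24LT45 Cfsg.Agent.Lib.FiZe45 Cfsg.Agent.Lib.FiZf45
open Cfsg.Agent.Lib.FiZq45 Cfsg.Agent.Lib.FiZAbs45

/-- The group. -/
abbrev XX : Type := ↥C0

/-- The words. -/
noncomputable def XF (i : ℕ) : Fi24 := ev genF (XW i)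

theorem z0w_ev : ev genF z0w = z0 := rfl

theorem XF_sq {i : ℕ} (hi : i < 12) : XF i * XF i = 1 := by
  have h := eq_of_chk (all_range c_xx hi)
  rw [ev_append] at h
  show ev genF (XW i) * ev genF (XW i) = 1
  simpa using h

theorem XF_z {i : ℕ} (hi : i < 12) : XF i * z0 = z0 * XF i := by
  have h := eq_of_chk (all_range c_xz hi)
  rw [ev_append, ev_append] at h
  exact h.symm

theorem z0_sq : z0 * z0 = 1 := by
  have h := eq_of_chk c_zz
  rw [ev_append] at h
  show ev genF z0w * ev genF z0w = 1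
  simpa using h

theorem z0_ne : z0 ≠ 1 := ne_of_chk c_z1

theorem XF_word {i : ℕ} (hi : i < 12) : (XW i).all (fun g => Nat.blt g 12) = true ∧ Even (XW i).length := by
  have h : ((XW i).all (fun g => Nat.blt g 12) && Nat.beq ((XW i).length % 2) 0) = true := all_range c_words hi
  rw [Bool.and_eq_true, Nat.beq_eq] at h
  exact ⟨h.1, Nat.even_iff.mpr h.2⟩

theorem ev_HC_of {v : List ℕ} (h1 : v.all (fun g => Nat.blt g 12) = true) (h2 : Even v.length) : ev genF v ∈ HC := by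
  rw [ev_HC v]
  · exact h2
  · intro k hk
    have := List.all_eq_true.mp h1 k hk
    rwa [Nat.blt_eq] at this

theorem XF_HC {i : ℕ} (hi : i < 12) : XF i ∈ HC := ev_HC_of (XF_word hi).1 (XF_word hi).2

theorem z0_HC : z0 ∈ HC := ev_HC_of (v := [5, 3, 1, 6]) (by decide) (by decide)

theorem z0_cz : z0 ∈ Cz := mem_Cz.mpr rfl

theorem XF_mem {i : ℕ} (hi : i < 12) : XF i ∈ C0 := ⟨XF_HC hi, mem_Cz.mpr (XF_z hi)⟩

theorem z0_mem : z0 ∈ C0 := ⟨z0_HC, z0_cz⟩

/-- The relations. -/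
theorem rel_lt {i j : ℕ} (hij : i < j) (hj : j < 12) :
    XF j * (XF i * (XF j * XF i)) = if Bb i j then z0 else 1 := by
  have h : (Nat.ble j i || eqChk (XW i ++ XW j ++ XW i ++ XW j) (if Bb i j then z0w else [])) = true :=
    all_range (all_range c_B (by omega : i < 12)) hj
  have hn : Nat.ble j i = false := by
    rw [← Bool.not_eq_true, Nat.ble_eq]
    omega
  rw [hn, Bool.false_or] at h
  have h2 := eq_of_chk h
  rw [ev_append, ev_append, ev_append] at h2
  rw [show XF j * (XF i * (XF j * XF i)) = ev genF (XW j) * (ev genF (XW i) * (ev genF (XW j) * ev genF (XW i))) from rfl, h2]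
  cases Bb i j
  · rfl
  · rfl

theorem Bb_symm {i j : ℕ} (hi : i < 12) (hj : j < 12) : Bb i j = Bb j i := by
  have h : (Bool.xor (Bb i j) (Bb j i) == false) = true := all_range (all_range c_Bs hi) hj
  revert h
  generalize Bb i j = a
  generalize Bb j i = b
  revert a b
  decide

theorem Bb_diag {i : ℕ} (hi : i < 12) : Bb i i = false := by
  have h : (!(Bb i i)) = true := all_range c_Bd hi
  simpa using h

theorem inv_rel {a b c : Fi24} (ha : a * a = 1) (hb : b * b = 1) (h : a * (b * (a * b)) = c) : a * b = c * (b * a) := by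
  rw [← h]
  calc a * b = a * b * (a * (b * b) * a) := by rw [hb, mul_one, ha, mul_one]
    _ = _ := by group

theorem rel_false {i j : ℕ} (hi : i < 12) (hj : j < 12) (hb : Bb i j = false) : XF i * XF j = XF j * XF i := by
  rcases lt_trichotomy i j with h | h | h
  · have h1 := rel_lt h hj
    rw [hb] at h1
    simp only [Bool.false_eq_true, if_false] at h1
    have h2 := inv_rel (XF_sq hj) (XF_sq hi) h1
    rw [one_mul] at h2
    exact h2.symm
  · rw [h]
  · have hb' : Bb j i = false := by rw [← Bb_symm hi hj]; exact hb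
    have h1 := rel_lt h hi
    rw [hb'] at h1
    simp only [Bool.false_eq_true, if_false] at h1
    have h2 := inv_rel (XF_sq hi) (XF_sq hj) h1
    rw [one_mul] at h2
    exact h2

theorem z_move {a b : Fi24} (ha : a * z0 = z0 * a) (hb : b * z0 = z0 * b) (h : a * b = z0 * (b * a)) : b * a = z0 * (a * b) := by
  rw [h, ← mul_assoc, z0_sq, one_mul]

theorem rel_true {i j : ℕ} (hi : i < 12) (hj : j < 12) (hb : Bb i j = true) : XF i * XF j = z0 * (XF j * XF i) := by
  rcases lt_trichotomy i j with h | h | h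
  · have h1 := rel_lt h hj
    rw [hb] at h1
    simp only [if_true] at h1
    have h2 := inv_rel (XF_sq hj) (XF_sq hi) h1
    exact z_move (XF_z hj) (XF_z hi) h2
  · subst h
    rw [Bb_diag hi] at hb
    exact absurd hb Bool.false_ne_true
  · have hb' : Bb j i = true := by rw [← Bb_symm hi hj]; exact hb
    have h1 := rel_lt h hi
    rw [hb'] at h1
    simp only [if_true] at h1
    exact inv_rel (XF_sq hi) (XF_sq hj) h1

/-- The elements of the group. -/
noncomputable def xX (i : Fin 12) : XX := ⟨XF i, XF_mem i.2⟩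
/-- The central involution. -/
noncomputable def zX : XX := ⟨z0, z0_mem⟩

/-- The matrix. -/
def BM : Matrix (Fin 12) (Fin 12) (ZMod 2) := fun i j => if Bb i j then 1 else 0
/-- The inverse. -/
def IM : Matrix (Fin 12) (Fin 12) (ZMod 2) := fun i j => if (Binv.getD i 0).testBit j then 1 else 0

set_option Elab.async false in
theorem c_IM : ∀ i j : Fin 12, (∑ k : Fin 12, IM i k * BM k j) = if i = j then (1 : ZMod 2) else 0 := by decide +kernel

theorem IM_BM : IM * BM = 1 := by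
  ext i j
  rw [Matrix.mul_apply, Matrix.one_apply]
  exact c_IM i j

theorem hQS : QS xX zX BM where
  hz := fun g => Subtype.ext (mem_Cz.mp g.2.2)
  hzz := Subtype.ext z0_sq
  hz1 := fun e => z0_ne (congrArg Subtype.val e)
  hx2 := fun i => Subtype.ext (XF_sq i.2)
  hB0 := by
    intro i j e
    apply Subtype.ext
    apply rel_false i.2 j.2
    by_contra hc
    have hc' : Bb i j = true := by simpa using hc
    simp [BM, hc'] at e
  hB1 := by
    intro i j e
    apply Subtype.ext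
    apply rel_true i.2 j.2
    by_contra hc
    have hc' : Bb i j = false := by simpa using hc
    simp [BM, hc'] at e

/-- The group `Q`. -/
noncomputable abbrev QX : Subgroup XX := QQ xX zX

/-- The image of `Q`. -/
noncomputable def QF : Subgroup Fi24 := QX.map C0.subtype

theorem mem_QX_of {y : XX} (h : (y : Fi24) ∈ QF) : y ∈ QX := by
  obtain ⟨a, ha, e⟩ := h
  have e2 : a = y := Subtype.ext e
  rwa [← e2]

theorem XF_QF {i : ℕ} (hi : i < 12) : XF i ∈ QF := ⟨xX ⟨i, hi⟩, hQS.hxQ _, rfl⟩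

theorem z0_QF : z0 ∈ QF := ⟨zX, hQS.hzQ, rfl⟩

theorem flat_QF : ∀ L : List ℕ, (∀ j ∈ L, j < 12) → ev genF (L.flatMap XW) ∈ QF
  | [], _ => QF.one_mem
  | j :: L, h => by
    have hj : j < 12 := h j (by simp)
    have h1 := flat_QF L fun k hk => h k (by simp [hk])
    rw [List.flatMap_cons, ev_append]
    exact QF.mul_mem h1 (XF_QF hj)

theorem yW_QF (i : ℕ) : ev genF (yW i) ∈ QF := by
  unfold yW
  rw [ev_append]
  apply QF.mul_mem
  · cases Nat.beq (yE.getD i 0) 1
    · exact QF.one_mem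
    · exact z0_QF
  · apply flat_QF
    intro j hj
    have := (List.mem_filter.mp hj).1
    exact List.mem_range.mp this

/-! ### The element of order three -/

/-- The word. -/
noncomputable def TF : Fi24 := ev genF tW

theorem TF_z : TF * z0 = z0 * TF := by
  have h := eq_of_chk c_tz
  rw [ev_append, ev_append] at h
  exact h.symm

theorem TF_cube : TF * TF * TF = z0 := by
  have h := eq_of_chk c_t3
  rw [ev_append, ev_append] at h
  rw [show z0 = ev genF z0w from rfl, ← h]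
  show ev genF tW * ev genF tW * ev genF tW = _
  group

theorem TF_HC : TF ∈ HC := by
  have h : (tW.all (fun g => Nat.blt g 12) && Nat.beq (tW.length % 2) 0) = true := c_tw
  rw [Bool.and_eq_true, Nat.beq_eq] at h
  exact ev_HC_of h.1 (Nat.even_iff.mpr h.2)

theorem TF_cz : TF ∈ Cz := mem_Cz.mpr TF_z

/-- The element of order three. -/
noncomputable def tX : XX := ⟨TF * z0, HC.mul_mem TF_HC z0_HC, Cz.mul_mem TF_cz z0_cz⟩

theorem tX_conj (x : XX) : ((tX * x * tX⁻¹ : XX) : Fi24) = TF * x * TF⁻¹ := by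
  have hx : (x : Fi24) * z0 = z0 * x := mem_Cz.mp x.2.2
  show (TF * z0) * (x : Fi24) * (TF * z0)⁻¹ = _
  calc (TF * z0) * (x : Fi24) * (TF * z0)⁻¹ = TF * (z0 * (x : Fi24)) * z0⁻¹ * TF⁻¹ := by group
    _ = TF * ((x : Fi24) * z0) * z0⁻¹ * TF⁻¹ := by rw [hx]
    _ = _ := by group

theorem conj_ev {u : List ℕ} : ev genF (tW.reverse ++ u ++ tW) = TF * ev genF u * TF⁻¹ := by
  rw [ev_append, ev_append, Fi24Scan45.ev_reverse]
  show TF * (ev genF u * TF⁻¹) = _
  group

theorem tX_x (i : Fin 12) : tX * xX i * tX⁻¹ ∈ QX := by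
  apply mem_QX_of
  rw [tX_conj]
  have h := eq_of_chk (all_range c_ty i.2)
  rw [conj_ev] at h
  show TF * XF i * TF⁻¹ ∈ QF
  rw [show TF * XF i * TF⁻¹ = TF * ev genF (XW i) * TF⁻¹ from rfl, h]
  exact yW_QF i

theorem tX_cube : tX ^ 3 = 1 := by
  apply Subtype.ext
  show (TF * z0) ^ 3 = 1
  have c : Commute TF z0 := TF_z
  rw [c.mul_pow, show TF ^ 3 = TF * TF * TF by rw [pow_succ, pow_two], TF_cube,
    show z0 ^ 3 = z0 * z0 * z0 by rw [pow_succ, pow_two], z0_sq, one_mul, z0_sq]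

theorem n1 : tX * xX 0 * tX⁻¹ ≠ xX 0 := by
  intro e
  have h := congrArg Subtype.val e
  rw [tX_conj] at h
  apply ne_of_chk c_n1
  rw [conj_ev]
  exact h

theorem n2 : tX * xX 0 * tX⁻¹ ≠ zX * xX 0 := by
  intro e
  have h := congrArg Subtype.val e
  rw [tX_conj] at h
  apply ne_of_chk c_n2
  rw [conj_ev, ev_append]
  exact h

theorem tX_ne : tX ≠ 1 := by
  intro e
  apply n1
  rw [e]
  group

theorem tX_order : orderOf tX = 3 := by
  haveI : Fact (Nat.Prime 3) := ⟨Nat.prime_three⟩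
  exact orderOf_eq_prime tX_cube tX_ne

theorem conj_ev2 {u : List ℕ} : ev genF (tW.reverse ++ tW.reverse ++ u ++ tW ++ tW) = TF * TF * ev genF u * TF⁻¹ * TF⁻¹ := by
  have e : tW.reverse ++ tW.reverse ++ u ++ tW ++ tW = tW.reverse ++ (tW.reverse ++ u ++ tW) ++ tW := by simp
  rw [e, conj_ev, conj_ev]
  group

theorem tX2_val (x : XX) : ((tX * tX * x * tX⁻¹ * tX⁻¹ : XX) : Fi24) = TF * TF * x * TF⁻¹ * TF⁻¹ := by
  have e : tX * tX * x * tX⁻¹ * tX⁻¹ = tX * (tX * x * tX⁻¹) * tX⁻¹ := by group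
  rw [e, tX_conj]
  have e2 := tX_conj x
  show TF * ((tX * x * tX⁻¹ : XX) : Fi24) * TF⁻¹ = _
  rw [e2]
  group

theorem n3 : tX * tX * xX 0 * tX⁻¹ * tX⁻¹ ≠ xX 0 := by
  intro e
  have h := congrArg Subtype.val e
  rw [tX2_val] at h
  apply ne_of_chk c_n3
  rw [conj_ev2]
  exact h

theorem n4 : tX * tX * xX 0 * tX⁻¹ * tX⁻¹ ≠ zX * xX 0 := by
  intro e
  have h := congrArg Subtype.val e
  rw [tX2_val] at h
  apply ne_of_chk c_n4
  rw [conj_ev2, ev_append]
  exact h

/-! ### The action on the tetrads -/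

theorem rho_z (t : Fin 126) : rho ⟨z0, z0_cz⟩ t = t := by
  obtain ⟨h1, h2, -⟩ := rep_spec t.2
  have h3 := rho_rep ⟨z0, z0_cz⟩ t.2 h2 ((fix_z0 (dzv_lt h2)).mpr ⟨_, h2, rfl⟩)
  rw [h1] at h3
  exact Fin.ext h3

theorem rhoX_z : rhoX zX = 1 := by
  ext t
  simp only [Equiv.Perm.coe_one, id_eq]
  rw [rhoX_apply]
  exact congrArg Fin.val (rho_z t)

theorem rhoX_x (i : Fin 12) : rhoX (xX i) = 1 := by
  rw [rhoX_apply]
  exact rho_trace (w := XW i) (xX i).2.2 (all_range c_trX i.2)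

theorem hQker : QX ≤ rhoX.ker := by
  apply (Subgroup.closure_le _).mpr
  rintro y (⟨i, rfl⟩ | hy)
  · exact rhoX_x i
  · rw [Set.mem_singleton_iff] at hy
    subst hy
    exact rhoX_z

theorem rhoX_t : rhoX tX = 1 := by
  have e : tX = (⟨TF, TF_HC, TF_cz⟩ : XX) * zX := rfl
  rw [e, map_mul, rhoX_z, mul_one, rhoX_apply]
  exact rho_trace (w := tW) TF_cz c_trT

/-- Product of swaps. -/
def swp : List (ℕ × ℕ) → Equiv.Perm (Fin 126)
  | [] => 1
  | a :: l => Equiv.swap (Fin.ofNat 126 a.1) (Fin.ofNat 126 a.2) * swp l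

theorem sign_swp : ∀ l : List (ℕ × ℕ), (∀ a ∈ l, Fin.ofNat 126 a.1 ≠ Fin.ofNat 126 a.2) →
    Equiv.Perm.sign (swp l) = (-1) ^ l.length
  | [], _ => by simp [swp]
  | a :: l, h => by
    rw [swp, map_mul, Equiv.Perm.sign_swap (h a (by simp)), sign_swp l (fun b hb => h b (by simp [hb])), List.length_cons,
      pow_succ, mul_comm]

set_option Elab.async false in
theorem c_sw1 : ∀ t : Fin 126, (swp swL t : ℕ) = Rc t := by decide +kernel

set_option Elab.async false in
theorem c_sw2 : (∀ a ∈ swL, Fin.ofNat 126 a.1 ≠ Fin.ofNat 126 a.2) ∧ swL.length = 45 := by decide +kernel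

/-- An element acting oddly. -/
noncomputable def cX : XX := ⟨ev genF c1w, ev_HC_of (v := c1w) (by decide) (by decide), mem_Cz.mpr (by
  have h := eq_of_chk c_c1z
  rw [ev_append, ev_append] at h
  exact h.symm)⟩

theorem rho_c (t : Fin 126) : ((rhoX cX t : Fin 126) : ℕ) = Rc t := by
  have h : (Nat.blt (Rc t) 126 && (List.range 4).any fun j =>
    Nat.beq (Fi24Scan45.walkT lT c1w (dzv (rep t))) (dzv (tmv (Rc t) j))) = true := all_range c_c1 t.2
  rw [Bool.and_eq_true, Nat.blt_eq, List.any_eq_true] at h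
  obtain ⟨h1, j, hj, e⟩ := h
  have hj' : j < 4 := List.mem_range.mp hj
  rw [Nat.beq_eq] at e
  obtain ⟨h2, h3⟩ := tm_spec h1 hj'
  obtain ⟨-, hr, -⟩ := rep_spec t.2
  have h4 := rho_rep ⟨ev genF c1w, cX.2.2⟩ t.2 h2 (by
    show Phi (ev genF c1w) _ = _
    rw [← lT_eq, Fi24Scan45.walkT_eq _ (dzv_lt hr)] at e
    exact e)
  rw [h3] at h4
  exact h4

theorem sign_c : Equiv.Perm.sign (rhoX cX) = -1 := by
  have e : rhoX cX = swp swL := by
    ext t
    rw [rho_c, c_sw1]
  rw [e, sign_swp _ c_sw2.1, c_sw2.2]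
  decide

/-! ### The words for the three permutations -/

theorem w_spec {w : List ℕ} (h1 : w.all (fun k => Nat.blt k 13) = true) (h2 : Even w.length) :
    ∃ hv : ∀ k ∈ w, k < 13, gwF w ∈ HC := by
  have hv : ∀ k ∈ w, k < 13 := by
    intro k hk
    have := List.all_eq_true.mp h1 k hk
    rwa [Nat.blt_eq] at this
  exact ⟨hv, (gwF_HC w hv).mpr h2⟩

/-- The element of a word. -/
noncomputable def mX (w : List ℕ) (h1 : w.all (fun k => Nat.blt k 13) = true) (h2 : Even w.length) : XX :=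
  ⟨gwF w, (w_spec h1 h2).2, gwF_mem w (w_spec h1 h2).1⟩

theorem mX_apply {w : List ℕ} (h1 : w.all (fun k => Nat.blt k 13) = true) (h2 : Even w.length) (t : Fin 126) :
    ((rhoX (mX w h1 h2) t : Fin 126) : ℕ) = rdv w t :=
  rho_gw w (w_spec h1 h2).1 t t.2

/-- The three elements. -/
noncomputable def m1 : XX := mX w1 (by decide) (by decide)
noncomputable def m2 : XX := mX w2 (by decide) (by decide)
noncomputable def m3 : XX := mX w3 (by decide) (by decide)

set_option Elab.async false in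
theorem c_w1 : ∀ t : Fin 126, rdv w1 t = (FiZg45.rd FiZg45.p1T t : ℕ) := by decide +kernel
set_option Elab.async false in
theorem c_w2 : ∀ t : Fin 126, rdv w2 t = (FiZg45.rd FiZg45.p2T t : ℕ) := by decide +kernel
set_option Elab.async false in
theorem c_w3 : ∀ t : Fin 126, rdv w3 t = (FiZg45.rd FiZg45.p3T t : ℕ) := by decide +kernel

theorem m1_apply (t : Fin 126) : rhoX m1 t = FiZg45.rd FiZg45.p1T t := Fin.ext ((mX_apply _ _ t).trans (c_w1 t))
theorem m2_apply (t : Fin 126) : rhoX m2 t = FiZg45.rd FiZg45.p2T t := Fin.ext ((mX_apply _ _ t).trans (c_w2 t))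
theorem m3_apply (t : Fin 126) : rhoX m3 t = FiZg45.rd FiZg45.p3T t := Fin.ext ((mX_apply _ _ t).trans (c_w3 t))

theorem m1_eq : rhoX m1 = FiZg45.Phi2 (QuotientGroup.mk Cfsg.Agent.Lib.FiTU.g1) :=
  Equiv.ext fun i => by rw [m1_apply]; exact (FiZg45.pm0 i).symm
theorem m2_eq : rhoX m2 = FiZg45.Phi2 (QuotientGroup.mk Cfsg.Agent.Lib.FiTU.g2) :=
  Equiv.ext fun i => by rw [m2_apply]; exact (FiZg45.pm1 i).symm
theorem m3_eq : rhoX m3 = FiZg45.Phi2 (QuotientGroup.mk Cfsg.Agent.Lib.FiTU.g3) :=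
  Equiv.ext fun i => by rw [m3_apply]; exact (FiZg45.pm2 i).symm

theorem sign_m1 : Equiv.Perm.sign (rhoX m1) = 1 := by rw [m1_eq, FiZg45.sign_Phi2]
theorem sign_m2 : Equiv.Perm.sign (rhoX m2) = 1 := by rw [m2_eq, FiZg45.sign_Phi2]
theorem sign_m3 : Equiv.Perm.sign (rhoX m3) = 1 := by rw [m3_eq, FiZg45.sign_Phi2]

/-- Which table. -/
def pick (j : ℕ) : ℕ := if j = 0 then FiZg45.p1T else if j = 1 then FiZg45.p2T else FiZg45.p3T

/-- A table, on natural numbers. -/
def rdF (T i : ℕ) : ℕ := Nat.mod (Nat.land (Nat.shiftRight T (Nat.mul 8 i)) 255) 126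

theorem rdF_eq (T : ℕ) (i : Fin 126) : (FiZg45.rd T i : ℕ) = rdF T i := rfl

set_option Elab.async false in
theorem c_tree2 : (List.range 126).all (fun t => Nat.beq t 0 ||
    (Nat.blt (rd 7 trP t) 126 && Nat.blt (rd 4 trD (rd 7 trP t)) (rd 4 trD t) && Nat.blt (rd 2 trG t) 3 &&
      Nat.beq (rdF (pick (rd 2 trG t)) (rd 7 trP t)) t)) = true := by decide +kernel

theorem exists_sign1 (j : ℕ) : ∃ m : XX, Equiv.Perm.sign (rhoX m) = 1 ∧ ∀ t : Fin 126, ((rhoX m t : Fin 126) : ℕ) = rdF (pick j) t := by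
  by_cases h0 : j = 0
  · subst h0
    exact ⟨m1, sign_m1, fun t => by rw [m1_apply]; rfl⟩
  · by_cases h1 : j = 1
    · subst h1
      exact ⟨m2, sign_m2, fun t => by rw [m2_apply]; rfl⟩
    · refine ⟨m3, sign_m3, fun t => ?_⟩
      rw [m3_apply]
      have e : pick j = FiZg45.p3T := by
        unfold pick
        rw [if_neg h0, if_neg h1]
      rw [e]
      rfl

theorem hT_aux : ∀ n t, t < 126 → rd 4 trD t = n → ∃ m : XX, Equiv.Perm.sign (rhoX m) = 1 ∧ ((rhoX m 0 : Fin 126) : ℕ) = t := by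
  intro n
  induction n using Nat.strong_induction_on with
  | _ n ih =>
    intro t ht hn
    have h : (Nat.beq t 0 || (Nat.blt (rd 7 trP t) 126 && Nat.blt (rd 4 trD (rd 7 trP t)) (rd 4 trD t) && Nat.blt (rd 2 trG t) 3 &&
      Nat.beq (rdF (pick (rd 2 trG t)) (rd 7 trP t)) t)) = true := all_range c_tree2 ht
    simp only [Bool.or_eq_true, Bool.and_eq_true, Nat.beq_eq, Nat.blt_eq] at h
    rcases h with h | ⟨⟨⟨h1, h2⟩, h3⟩, h4⟩
    · subst h
      exact ⟨1, by simp, by simp⟩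
    · obtain ⟨m', hm1, hm2⟩ := ih _ (by omega) _ h1 rfl
      obtain ⟨m, hs, ha⟩ := exists_sign1 (rd 2 trG t)
      refine ⟨m * m', ?_, ?_⟩
      · rw [map_mul, map_mul, hs, hm1, one_mul]
      · rw [map_mul, Equiv.Perm.mul_apply, ha, hm2, h4]

theorem hT (i : Fin 126) : ∃ m : XX, Equiv.Perm.sign (rhoX m) = 1 ∧ rhoX m 0 = i := by
  obtain ⟨m, h1, h2⟩ := hT_aux _ i i.2 rfl
  exact ⟨m, h1, Fin.ext h2⟩

set_option Elab.async false in
theorem c_m3 : (∀ i : Fin 126, FiZg45.rd FiZg45.p3T i = i → i = 0) ∧ FiZg45.rd FiZg45.p3T 0 = 0 := by decide +kernel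

/-! ### Elements commuting with `Q` -/

theorem XF0 : XF 0 = genF 3 * ll := by
  have e : XW 0 = [5, 3] := by decide
  unfold XF
  rw [e]
  simp [ev_cons, ll]

theorem a_dd : genF 3 ∈ DD := mem_DD_of_Pq (Pq_letter (by norm_num))
theorem l_dd : ll ∈ DD := mem_DD_of_Pq Pq_ll

theorem a_ne_l : genF 3 ≠ ll := by
  intro e
  have h1 : Pq (genF 3) (lp 3) := Pq_letter (by norm_num)
  rw [e] at h1
  have h2 := h1.uniq Pq_ll
  exact absurd h2 (by decide)

theorem a_l_comm : genF 3 * ll = ll * genF 3 := by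
  rw [← gen0, ← gen1]
  exact (comm_gen_iff (at_gen_small (i := 0) (by norm_num)) (k := 1) (by norm_num)).mpr (by decide +kernel)

theorem fix_l {k : Fi24} (hq : k * (genF 3 * ll) = (genF 3 * ll) * k) : k * ll * k⁻¹ = ll ∨ k * ll * k⁻¹ = genF 3 := by
  by_contra hc
  push Not at hc
  obtain ⟨h1, h2⟩ := hc
  set l' := k * ll * k⁻¹ with hl'
  set a' := k * genF 3 * k⁻¹ with ha'
  have hal := a_l_comm
  have hl'd : l' ∈ DD := by
    obtain ⟨x, hx⟩ := mem_DD.mp l_dd
    exact mem_DD.mpr ⟨k, rfl⟩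
  have ha'd : a' ∈ DD := by
    obtain ⟨x, hx⟩ := mem_DD.mp a_dd
    exact mem_DD.mpr ⟨k * x, by rw [ha', ← hx]; group⟩
  have hprod : a' * l' = genF 3 * ll := by
    calc a' * l' = k * (genF 3 * ll) * k⁻¹ := by rw [ha', hl']; group
      _ = _ := by rw [hq]; group
  have hcomm' : a' * l' = l' * a' := by
    calc a' * l' = k * (genF 3 * ll) * k⁻¹ := by rw [ha', hl']; group
      _ = k * (ll * genF 3) * k⁻¹ := by rw [hal]
      _ = _ := by rw [ha', hl']; group
  have hne' : a' ≠ l' := by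
    intro e
    exact a_ne_l (mul_left_cancel (mul_right_cancel e))
  have hl_self : l' * l' = 1 := DD_sq hl'd
  have ha_self : a' * a' = 1 := DD_sq ha'd
  have hl_prod : l' * (genF 3 * ll) = (genF 3 * ll) * l' := by
    rw [← hprod]
    calc l' * (a' * l') = (l' * a') * l' := by group
      _ = (a' * l') * l' := by rw [hcomm']
  have ha_prod : a' * (genF 3 * ll) = (genF 3 * ll) * a' := by
    rw [← hprod]
    calc a' * (a' * l') = a' * (l' * a') := by rw [hcomm']
      _ = (a' * l') * a' := by group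
  have hprod2 : ∀ d : Fi24, d * (genF 3 * ll) = (genF 3 * ll) * d → d * (ll * genF 3) = (ll * genF 3) * d := by
    intro d hd
    rw [← hal]
    exact hd
  have c1 : l' * genF 3 = genF 3 * l' := lemmaA a_dd l_dd hl'd a_ne_l hl_prod
  have c2 : l' * ll = ll * l' := lemmaA l_dd a_dd hl'd a_ne_l.symm (hprod2 _ hl_prod)
  have c3 : a' * genF 3 = genF 3 * a' := lemmaA a_dd l_dd ha'd a_ne_l ha_prod
  have c4 : a' * ll = ll * a' := lemmaA l_dd a_dd ha'd a_ne_l.symm (hprod2 _ ha_prod)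
  have n1' : ll ≠ l' := fun e => h1 e.symm
  have n2' : genF 3 ≠ l' := fun e => h2 e.symm
  have n3' : ll ≠ a' := by
    intro e
    apply h2
    rw [← e] at hprod
    have h4 : ll * l' = ll * genF 3 := by rw [hprod, hal]
    exact mul_left_cancel h4
  have n4' : genF 3 ≠ a' := by
    intro e
    apply h1
    rw [← e] at hprod
    exact mul_left_cancel hprod
  obtain ⟨g, g1, g2, g3, g4⟩ := tuple4 l_dd a_dd hl'd ha'd a_ne_l.symm n1' n3' n2' n4' hne'.symm hal.symm c2.symm c4.symm c1.symm c3.symm hcomm'.symm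
  apply z0_ne
  have e1 : genF 6 * genF 1 = genF 3 * ll := by
    rw [← g4, ← g3, ← g2, ← g1]
    have e2 : g * a' * g⁻¹ * (g * l' * g⁻¹) = g * (a' * l') * g⁻¹ := by group
    rw [e2, hprod]
    group
  rw [z0_eq, e1]
  have e3 : genF 3 * ll * genF 3 * ll = genF 3 * (ll * genF 3) * ll := by group
  rw [e3, ← hal]
  have h5 : genF 3 * genF 3 = 1 := DD_sq a_dd
  have h6 : ll * ll = 1 := ll_sq
  calc genF 3 * (genF 3 * ll) * ll = (genF 3 * genF 3) * (ll * ll) := by group
    _ = 1 := by rw [h5, h6, one_mul]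

theorem fin_zero_eq {n : ℕ} (hn : n < 126) (h : n = 0) : (0 : Fin 126) = ⟨n, hn⟩ := by
  subst h
  rfl

theorem fin_of_val {n : ℕ} (h1 : n < 126) (x : Fin 126) (h : (x : ℕ) = n) : x = ⟨n, h1⟩ := Fin.ext h

theorem hK0 (k : XX) (hk : ∀ q ∈ QX, k * q = q * k) : rhoX k 0 = 0 := by
  have h1 := hk (xX 0) (hQS.hxQ 0)
  have h2 : (k : Fi24) * XF 0 = XF 0 * k := congrArg Subtype.val h1
  rw [XF0] at h2
  have g0 : At ll 0 := by
    have := at_gen_small (i := 0) (by norm_num)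
    rwa [gen0] at this
  have g1 : At (genF 3) 1 := by
    have := at_gen_small (i := 1) (by norm_num)
    rwa [gen1] at this
  have hlab0 : lab 0 = 0 := (lab_zero (by norm_num)).mpr (by norm_num)
  have hlab1 : lab 1 = 0 := (lab_zero (by norm_num)).mpr (by norm_num)
  have e0 : (0 : Fin 126) = ⟨lab 0, lab_lt g0.1⟩ := fin_zero_eq _ hlab0
  rw [rhoX_apply, e0]
  have hPhi : ∀ b : ℕ, b < 504 → Pq ((k : Fi24) * ll * (k : Fi24)⁻¹) (dzv b) → Phi (k : Fi24) (dzv 0) = dzv b := by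
    intro b _ hb
    exact (g0.2.conj _).uniq hb
  rcases fix_l h2 with h3 | h3
  · have h4 := rho_pt ⟨k, k.2.2⟩ g0.1 g0.1 (hPhi 0 (by norm_num) (by rw [h3]; exact g0.2))
    exact fin_of_val _ _ h4
  · have h4 := rho_pt ⟨k, k.2.2⟩ g0.1 g1.1 (hPhi 1 (by norm_num) (by rw [h3]; exact g1.2))
    exact fin_of_val _ _ (h4.trans (hlab1.trans hlab0.symm))

/-- The setup. -/
theorem setup : Setup rhoX FiZg45.Phi2 QX zX tX (xX 0) m3 cX (hQS.Th hQS) where
  hψ := FiZg45.Phi2_inj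
  hU := Cfsg.Agent.Lib.FiTU.card_PSU
  hS := Cfsg.Agent.Lib.UnitarySimple.isSimple_PSU Cfsg.Agent.Lib.FiTU.hF (by norm_num) (by norm_num)
  hcard := card_C0_le
  hB := FiZg45.range_le rhoX m1 m2 m3 m1_apply m2_apply m3_apply
  hc := sign_c
  hQρ := hQker
  hzQ := hQS.hzQ
  hz1 := hQS.hz1
  hzX := hQS.hz
  hcomm := fun a ha b hb => hQS.hcomm ha hb
  hsq := fun a ha => hQS.hsq ha
  hΘs := hQS.Th_s IM_BM
  hΘc := hQS.Th_c
  ht1 := rhoX_t
  ht3 := tX_order
  htQ := fun x hx => hQS.conj_mem tX_x hx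
  hx0 := hQS.hxQ 0
  htx1 := n1
  htx1' := n2
  htx2 := n3
  htx2' := n4
  hK0 := hK0
  hT := hT
  hm5 := sign_m3
  hm50 := by rw [m3_apply]; exact c_m3.2
  hm5f := by
    intro i hi
    rw [m3_apply] at hi
    exact c_m3.1 i hi

/-! ### Transfer to a group isomorphic to `Fi₂₄` -/

section Final

variable {G : Type*} [Group G] {D : Set G}

theorem final (hD : IsThreeTranspositionGroup D) (hprim : IsPrimitiveUnderConj D) (e : Fi24 ≃* G) (he : e ll ∈ D)
    (L : Subgroup G) (hL : L = commutator G) (z : G) (l : List G)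
    (hl : (l.Nodup ∧ l.length = 4 ∧ (∀ a ∈ l, a ∈ D) ∧ (∀ a ∈ l, ∀ b ∈ l, Commute a b) ∧ l.prod = z)) (C : Subgroup G)
    (hC : C = L ⊓ Subgroup.centralizer ({z} : Set G)) :
    ∃ (Q : Subgroup ↥C) (_ : Q.Normal), generalizedFittingSubgroup ↥C = Q ∧ IsExtraspecial 2 ↥Q ∧ Nat.card Q = 2 ^ 13 ∧
      ∃ (N M : Subgroup ↥C) (_ : N.Normal) (_ : M.Normal), Q ≤ N ∧ N ≤ M ∧ Nat.card N = 3 * Nat.card Q ∧
        (∃ (K : Type) (_ : Field K) (_ : Fintype K), Fintype.card K = 9 ∧ Nonempty (↥M ⧸ N.subgroupOf M ≃* PSU 4 K 3)) ∧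
        M.index = 2 := by
  have hDe : e '' DD = D := image_DD hD hprim e he
  obtain ⟨hn, hlen, hmem, hcm, hprod⟩ := hl
  have hDD : ∀ a ∈ D, e.symm a ∈ DD := by
    intro a ha
    rw [← hDe] at ha
    obtain ⟨x, hx, rfl⟩ := ha
    simpa using hx
  rcases l with _ | ⟨a, _ | ⟨b, _ | ⟨c, _ | ⟨d, _ | ⟨f, l⟩⟩⟩⟩⟩
  · simp at hlen
  · simp at hlen
  · simp at hlen
  · simp at hlen
  rotate_left
  · simp at hlen
  have ha : a ∈ D := hmem a (by simp)
  have hb : b ∈ D := hmem b (by simp)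
  have hc : c ∈ D := hmem c (by simp)
  have hd : d ∈ D := hmem d (by simp)
  simp only [List.nodup_cons, List.mem_cons, List.not_mem_nil, or_false, not_or, List.nodup_nil, not_false_eq_true, and_true] at hn
  obtain ⟨⟨nab, nac, nad⟩, ⟨nbc, nbd⟩, ncd⟩ := hn
  have cab : Commute a b := hcm a (by simp) b (by simp)
  have cac : Commute a c := hcm a (by simp) c (by simp)
  have cad : Commute a d := hcm a (by simp) d (by simp)
  have cbc : Commute b c := hcm b (by simp) c (by simp)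
  have cbd : Commute b d := hcm b (by simp) d (by simp)
  have ccd : Commute c d := hcm c (by simp) d (by simp)
  have nj : ∀ x y : G, x ≠ y → e.symm x ≠ e.symm y := fun x y h h2 => h (e.symm.injective h2)
  have cj : ∀ x y : G, Commute x y → e.symm x * e.symm y = e.symm y * e.symm x := by
    intro x y h
    rw [← map_mul, ← map_mul, h.eq]
  obtain ⟨g, g1, g2, g3, g4⟩ := tuple4 (hDD a ha) (hDD b hb) (hDD c hc) (hDD d hd) (nj _ _ nab) (nj _ _ nac) (nj _ _ nad)
    (nj _ _ nbc) (nj _ _ nbd) (nj _ _ ncd) (cj _ _ cab) (cj _ _ cac) (cj _ _ cad) (cj _ _ cbc) (cj _ _ cbd) (cj _ _ ccd)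
  -- the new isomorphism
  let e' : Fi24 ≃* G := (MulAut.conj g⁻¹).trans e
  have he' : ∀ x, e' x = e (g⁻¹ * x * g) := by
    intro x
    show e (MulAut.conj g⁻¹ x) = _
    rw [MulAut.conj_apply, inv_inv]
  have hz : e' z0 = z := by
    rw [he', z0_eq, ← g4, ← g3, ← g2, ← g1, ← hprod]
    have e1 : g⁻¹ * (g * e.symm d * g⁻¹ * (g * e.symm c * g⁻¹) * (g * e.symm b * g⁻¹) * (g * e.symm a * g⁻¹)) * g =
        e.symm d * e.symm c * e.symm b * e.symm a := by group
    rw [e1]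
    simp only [map_mul, MulEquiv.apply_symm_apply, List.prod_cons, List.prod_nil, mul_one]
    have c1 : d * c = c * d := ccd.eq.symm
    calc d * c * b * a = a * (d * c * b) := ((cad.symm.mul_left cac.symm).mul_left cab.symm).eq
      _ = a * (b * (d * c)) := by
        congr 1
        exact ((cbd.symm.mul_left cbc.symm)).eq
      _ = a * (b * (c * d)) := by rw [c1]
  have hmapC : Cz.map e'.toMonoidHom = Subgroup.centralizer ({z} : Set G) := by
    ext y
    rw [Subgroup.mem_centralizer_singleton_iff]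
    constructor
    · rintro ⟨x, hx, rfl⟩
      have h1 := mem_Cz.mp hx
      rw [← hz]
      show e' x * e' z0 = e' z0 * e' x
      rw [← map_mul, ← map_mul, h1]
    · intro h1
      refine ⟨e'.symm y, ?_, by simp⟩
      apply mem_Cz.mpr
      apply e'.injective
      rw [map_mul, map_mul, MulEquiv.apply_symm_apply, hz, h1]
  have hmap : C0.map e'.toMonoidHom = C := by
    rw [Subgroup.map_inf _ _ _ e'.injective, hmapC, hC, hL]
    congr 1
    exact map_commutator_eq e'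
  let E : C0 ≃* ↥C := (C0.equivMapOfInjective e'.toMonoidHom e'.injective).trans (MulEquiv.subgroupCongr hmap)
  haveI : Finite C0 := inferInstance
  obtain ⟨Q, hQn, hF, hE, hCd, N, M, hN, hM, hQN, hNM, hNc, hf, hi⟩ := transfer E setup.conclusion
  exact ⟨Q, hQn, hF, hE, hCd, N, M, hN, hM, hQN, hNM, hNc, ⟨Cfsg.Agent.Lib.F9K.K9, inferInstance, inferInstance, Cfsg.Agent.Lib.FiTU.hF, hf⟩, hi⟩

end Final

end Cfsg.Agent.Lib.FiZh45
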