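import Mathlib
import Cfsg.Agent.Lib.FieldDegP
import Cfsg.Agent.Lib.PDegKernel71

/-!
# Faithful `p`-rational characters: Sylow order bound

The arithmetic function `F n = ∑ ⌊n / ((p - 1) p^i)⌋`, the shape of the field of values of a faithful
irreducible character of a nontrivial `p`-group, and the Galois orbits of the constituents of a
rational valued faithful character of a `p`-group.
-/

set_option autoImplicit false
set_option linter.unusedVariables false
set_option linter.unusedSectionVars false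
set_option linter.style.haveILetI false
set_option linter.unusedSimpArgs false

namespace Cfsg.Agent.Lib.FieldDegP2

open Cfsg Cfsg.Agent.Lib.CharBasic Cfsg.Agent.Lib.CharInd Cfsg.Agent.Lib.PRational
open Cfsg.Agent.Lib.CharInduction Cfsg.Agent.Lib.CharKernel Cfsg.Agent.Lib.FieldDegP
open scoped ComplexConjugate

universe u

/-! ### The arithmetic function -/

section Arith

/-- The sum in the statement. -/
def bigF (p n : ℕ) : ℕ := ∑ i ∈ Finset.range (n + 1), n / ((p - 1) * p ^ i)

theorem div_eq_zero_of_big {p n i : ℕ} (hp : 2 ≤ p) (hi : n + 1 ≤ i) : n / ((p - 1) * p ^ i) = 0 := by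
  apply Nat.div_eq_of_lt
  have h1 : i < p ^ i := Nat.lt_pow_self hp
  have h2 : 1 ≤ p - 1 := by omega
  have h3 : p ^ i ≤ (p - 1) * p ^ i := Nat.le_mul_of_pos_left _ (by omega)
  omega

theorem bigF_eq {p n M : ℕ} (hp : 2 ≤ p) (hM : n + 1 ≤ M) :
    bigF p n = ∑ i ∈ Finset.range M, n / ((p - 1) * p ^ i) := by
  unfold bigF
  apply Finset.sum_subset
  · intro i hi
    rw [Finset.mem_range] at hi ⊢
    omega
  · intro i _ hi
    apply div_eq_zero_of_big hp
    rw [Finset.mem_range] at hi
    omega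

theorem bigF_mono {p x y : ℕ} (hp : 2 ≤ p) (hxy : x ≤ y) : bigF p x ≤ bigF p y := by
  rw [bigF_eq (M := y + 1) hp (by omega), bigF_eq (n := y) (M := y + 1) hp le_rfl]
  exact Finset.sum_le_sum fun i _ => Nat.div_le_div_right hxy

theorem bigF_add {p x y : ℕ} (hp : 2 ≤ p) : bigF p x + bigF p y ≤ bigF p (x + y) := by
  rw [bigF_eq (M := x + y + 1) hp (by omega), bigF_eq (n := y) (M := x + y + 1) hp (by omega),
    bigF_eq (n := x + y) (M := x + y + 1) hp le_rfl, ← Finset.sum_add_distrib]
  exact Finset.sum_le_sum fun i _ => Nat.div_add_div_le_add_div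

theorem bigF_zero (p : ℕ) : bigF p 0 = 0 := by
  simp [bigF]

theorem sum_bigF_le {ι : Type*} {p : ℕ} (hp : 2 ≤ p) (s : Finset ι) (x : ι → ℕ) :
    ∑ i ∈ s, bigF p (x i) ≤ bigF p (∑ i ∈ s, x i) := by
  classical
  induction s using Finset.induction_on with
  | empty => simp [bigF_zero]
  | insert a s ha ih =>
    rw [Finset.sum_insert ha, Finset.sum_insert ha]
    exact (Nat.add_le_add_left ih _).trans (bigF_add hp)

theorem geom_aux (p s : ℕ) (hp : 2 ≤ p) : (p - 1) * (∑ j ∈ Finset.range (s + 1), p ^ j) + 1 = p ^ (s + 1) := by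
  obtain ⟨q, rfl⟩ : ∃ q, p = q + 1 := ⟨p - 1, by omega⟩
  simp only [Nat.add_sub_cancel]
  induction s with
  | zero => simp
  | succ s ih =>
    rw [Finset.sum_range_succ, mul_add, pow_succ (q + 1) (s + 1)]
    rw [← ih]
    ring

theorem bernoulli_aux (p t : ℕ) (hp : 2 ≤ p) : 1 + (p - 1) * (t + 1) ≤ p ^ (t + 1) := by
  obtain ⟨q, rfl⟩ : ∃ q, p = q + 1 := ⟨p - 1, by omega⟩
  simp only [Nat.add_sub_cancel]
  induction t with
  | zero => simp; omega
  | succ t ih =>
    rw [pow_succ]
    nlinarith [Nat.zero_le (q * q * (t + 1))]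

theorem le_bigF_of_main {p a' b t : ℕ} (hp : 2 ≤ p)
    (hmain : (p - 1) * a' ≤ (p ^ b - 1) + (p - 1) * (t + 1) * p ^ b) :
    a' ≤ bigF p (p ^ b * ((p - 1) * p ^ t)) := by
  have hq : 0 < p - 1 := by omega
  set s := b + t with hs
  have hn : p ^ b * ((p - 1) * p ^ t) = (p - 1) * p ^ s := by
    rw [hs, pow_add]
    ring
  rw [hn]
  -- lower bound for the sum
  have h1 : ∑ j ∈ Finset.range (s + 1), p ^ j ≤ bigF p ((p - 1) * p ^ s) := by
    unfold bigF
    have h2 : ∑ j ∈ Finset.range (s + 1), p ^ j =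
        ∑ i ∈ Finset.range (s + 1), (p - 1) * p ^ s / ((p - 1) * p ^ i) := by
      rw [← Finset.sum_range_reflect]
      refine Finset.sum_congr rfl fun i hi => ?_
      rw [Finset.mem_range] at hi
      symm
      apply Nat.div_eq_of_eq_mul_left (Nat.mul_pos hq (pow_pos (by omega) i))
      have h3 : s = (s + 1 - 1 - i) + i := by omega
      conv_lhs => rw [h3]
      rw [pow_add]
      ring
    rw [h2]
    apply Finset.sum_le_sum_of_subset
    intro i hi
    rw [Finset.mem_range] at hi ⊢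
    have h3 : s < p ^ s := Nat.lt_pow_self hp
    have h4 : p ^ s ≤ (p - 1) * p ^ s := Nat.le_mul_of_pos_left _ hq
    omega
  refine le_trans ?_ h1
  apply Nat.le_of_mul_le_mul_left _ hq
  have h5 := geom_aux p s hp
  have h6 := bernoulli_aux p t hp
  have h7 : p ^ b * (1 + (p - 1) * (t + 1)) ≤ p ^ b * p ^ (t + 1) := Nat.mul_le_mul_left _ h6
  have h8 : p ^ b * p ^ (t + 1) = p ^ (s + 1) := by
    rw [hs, ← pow_add]
    ring_nf
  have hbpos : 1 ≤ p ^ b := Nat.one_le_pow _ _ (by omega)
  have h9 : p ^ b * (1 + (p - 1) * (t + 1)) = p ^ b + (p - 1) * (t + 1) * p ^ b := by ring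
  omega

end Arith

/-! ### The shape of the field of values -/

section Form

variable {Q : Type*} [Group Q] [Finite Q]

/-- An element of the Galois group fixing the values of a faithful irreducible character of a nontrivial
`p`-group acts trivially on `p`-th roots of unity. -/
theorem pow_eq_one_mod {p a : ℕ} (hp : p.Prime) (hQ : Nat.card Q = p ^ a) (ha : 0 < a) {θ : Q → ℂ}
    (hθ : IsIrrCharacter Q θ) (hfaith : ∀ g, θ g = θ 1 → g = 1) {k : ℕ} (hk : k.Coprime (p ^ a))
    (hinv : ∀ g, θ (g ^ k) = θ g) : k ≡ 1 [MOD p] := by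
  classical
  haveI : Fact p.Prime := ⟨hp⟩
  have hpg : IsPGroup p Q := IsPGroup.of_card hQ
  haveI : Nontrivial Q := by
    apply Finite.one_lt_card_iff_nontrivial.mp
    rw [hQ]
    exact Nat.one_lt_pow ha.ne' hp.one_lt
  haveI : Nontrivial (Subgroup.center Q) := hpg.center_nontrivial
  have hzc : p ∣ Nat.card (Subgroup.center Q) := by
    obtain ⟨m, hm⟩ := IsPGroup.exists_card_eq (p := p) (G := Subgroup.center Q)
      (hpg.to_subgroup (Subgroup.center Q))
    have h1 : 1 < Nat.card (Subgroup.center Q) := Finite.one_lt_card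
    rw [hm] at h1 ⊢
    have hm0 : m ≠ 0 := by
      rintro rfl
      simp at h1
    exact dvd_pow_self p hm0
  obtain ⟨z, hz⟩ := exists_prime_orderOf_dvd_card' (G := Subgroup.center Q) p hzc
  have hzQ : orderOf (z : Q) = p := by
    rw [Subgroup.orderOf_coe, hz]
  obtain ⟨n, ρ, hρ, rfl⟩ := hθ
  obtain ⟨c, hc⟩ := schur_scalar hρ (ρ (z : Q)) (fun h => by
    have h1 : h * (z : Q) = (z : Q) * h := Subgroup.mem_center_iff.mp z.2 h
    ext x
    simp only [LinearMap.comp_apply]
    rw [← Module.End.mul_apply, ← Module.End.mul_apply, ← map_mul, ← map_mul, h1])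
  have hpow : ∀ j : ℕ, ρ ((z : Q) ^ j) = c ^ j • LinearMap.id := by
    intro j
    have hid : (LinearMap.id : (Fin n → ℂ) →ₗ[ℂ] (Fin n → ℂ)) = 1 := rfl
    rw [map_pow, hc, hid, smul_pow, one_pow]
  haveI : Nontrivial (Fin n → ℂ) := ((isIrreducible_iff ρ).mp hρ).1
  have hn : (n : ℂ) ≠ 0 := by
    have : 0 < Module.finrank ℂ (Fin n → ℂ) := Module.finrank_pos
    rw [Module.finrank_fin_fun] at this
    exact_mod_cast this.ne'
  have hchar : ∀ j : ℕ, ρ.character ((z : Q) ^ j) = c ^ j * n := by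
    intro j
    simp only [Representation.character]
    rw [hpow j, map_smul, LinearMap.trace_id, Module.finrank_fin_fun, smul_eq_mul]
  have hk0 : k ≠ 0 := by
    rintro rfl
    rw [Nat.coprime_zero_left] at hk
    have : 1 < p ^ a := Nat.one_lt_pow ha.ne' hp.one_lt
    omega
  have h1 : c ^ k = c := by
    have h2 := hinv (z : Q)
    have h3 := hchar k
    have h4 := hchar 1
    rw [pow_one, pow_one] at h4
    rw [h3, h4] at h2
    exact mul_right_cancel₀ hn h2
  have hc0 : c ≠ 0 := by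
    rintro rfl
    have h2 := hchar p
    rw [← hzQ, pow_orderOf_eq_one, hzQ, zero_pow hp.ne_zero, zero_mul] at h2
    have h3 : ρ.character 1 = n := char_one_eq_rep ρ
    rw [h3] at h2
    exact hn h2
  have h2 : c ^ (k - 1) = 1 := by
    have h3 : c ^ (k - 1) * c = c := by
      rw [← pow_succ]
      have : k - 1 + 1 = k := by omega
      rw [this, h1]
    exact mul_right_cancel₀ hc0 (by rw [h3, one_mul])
  have h3 : (z : Q) ^ (k - 1) = 1 := by
    apply hfaith
    rw [hchar, h2, one_mul, char_one_eq_rep]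
  have h4 : p ∣ k - 1 := hzQ ▸ orderOf_dvd_of_pow_eq_one h3
  exact (Nat.modEq_iff_dvd' (by omega)).mpr h4 |>.symm

/-- The degree of the field of values of a faithful irreducible character of a nontrivial `p`-group. -/
theorem fieldDeg_form {p a : ℕ} (hp : p.Prime) (hQ : Nat.card Q = p ^ a) (ha : 0 < a) {θ : Q → ℂ}
    (hθ : IsIrrCharacter Q θ) (hfaith : ∀ g, θ g = θ 1 → g = 1) :
    ∃ t, fieldDeg θ = (p - 1) * p ^ t := by
  classical
  haveI hNZ : NeZero (p ^ a) := ⟨(pow_pos hp.pos a).ne'⟩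
  haveI : NeZero p := ⟨hp.ne_zero⟩
  set N := p ^ a with hN
  have hθc := IsIrrCharacter.isCharacter hθ
  have hdv : Nat.card Q ∣ N := by rw [hQ]
  have hT := fieldDeg_eq_index N hdv hθc
  set T := fixS N (Set.range θ) with hTdef
  let ζ : ℂ := Complex.exp (2 * Real.pi * Complex.I / p)
  have hζ : IsPrimitiveRoot ζ p := Complex.isPrimitiveRoot_exp p hp.ne_zero
  have hζN : ζ ^ N = 1 := by
    rw [hN, ← Nat.sub_add_cancel ha, pow_succ', pow_mul, hζ.pow_eq_one, one_pow]
  have hζL : ζ ∈ cycL N := mem_cycL_of_pow (NeZero.ne N) hζN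
  set D := fixS N {ζ} with hDdef
  -- index of D
  have hDidx : D.index = p - 1 := by
    rw [hDdef, ← finrank_adjoin_eq_index N {ζ} (by
      intro y hy
      rw [Set.mem_singleton_iff] at hy
      rw [hy]
      exact hζL)]
    have hint : IsIntegral ℚ ζ := by
      apply IsIntegral.of_pow hp.pos
      rw [hζ.pow_eq_one]
      exact isIntegral_one
    rw [IntermediateField.adjoin.finrank hint, ← Polynomial.cyclotomic_eq_minpoly_rat hζ hp.pos,
      Polynomial.natDegree_cyclotomic, Nat.totient_prime hp]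
  -- T ≤ D
  have hTD : T ≤ D := by
    intro σ hσ
    obtain ⟨k, hk, hσk⟩ := exists_pow_of_aut σ
    rw [hTdef, mem_fixS_char N hdv hθc σ hσk] at hσ
    have hmod := pow_eq_one_mod hp hQ ha hθ hfaith hk hσ
    rw [hDdef, mem_fixS]
    intro y hy
    rw [Set.mem_singleton_iff] at hy
    have hyN : y ^ N = 1 := by
      apply Subtype.ext
      push_cast
      rw [hy, hζN]
    have hyp : y ^ p = 1 := by
      apply Subtype.ext
      push_cast
      rw [hy, hζ.pow_eq_one]
    rw [hσk y hyN, ← Nat.mod_add_div k p, pow_add, pow_mul, hyp, one_pow, mul_one]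
    have h1 : k % p = 1 % p := hmod
    rw [h1, Nat.mod_eq_of_lt hp.one_lt, pow_one]
  -- the order of the Galois group
  have hirr : Irreducible (Polynomial.cyclotomic N ℚ) := Polynomial.cyclotomic.irreducible_rat (NeZero.pos N)
  have hcardΓ : Nat.card Gal(cycL N/ℚ) = p ^ (a - 1) * (p - 1) := by
    rw [IsGalois.card_aut_eq_finrank, IsCyclotomicExtension.finrank (cycL N) hirr, hN,
      Nat.totient_prime_pow hp ha]
  have hp1 : 0 < p - 1 := by
    have := hp.two_le
    omega
  have hcardD : Nat.card D = p ^ (a - 1) := by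
    have h1 := Subgroup.card_mul_index D
    rw [hcardΓ, hDidx] at h1
    exact Nat.eq_of_mul_eq_mul_right hp1 h1
  obtain ⟨t, -, ht⟩ := (Nat.dvd_prime_pow hp).mp (hcardD ▸ Subgroup.relIndex_dvd_card T D)
  refine ⟨t, ?_⟩
  rw [hT, ← Subgroup.relIndex_mul_index hTD, ht, hDidx, mul_comm]

end Form

/-! ### Galois orbits of the constituents -/

section Main

variable {P : Type u} [Group P] [Finite P]

/-- The kernel quotient of an irreducible character of a `p`-group is bounded by the arithmetic function. -/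
theorem ker_index_le {p a' : ℕ} (hp : p.Prime) {θ : P → ℂ} (hθ : IsIrrCharacter P θ)
    (hidx : (charKer (IsIrrCharacter.isCharacter hθ)).index = p ^ a') :
    a' ≤ bigF p (charDegree θ * fieldDeg θ) := by
  classical
  rcases Nat.eq_zero_or_pos a' with rfl | ha'
  · exact Nat.zero_le _
  have hθc := IsIrrCharacter.isCharacter hθ
  let K := charKer hθc
  obtain ⟨θ', hθ', hlift⟩ := exists_quotient_irr K hθ (fun x hx => hx)
  have hcardQ : Nat.card (P ⧸ K) = p ^ a' := by
    rw [← Subgroup.index_eq_card]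
    exact hidx
  have hfaith' : ∀ z, θ' z = θ' 1 → z = 1 := by
    intro z hz
    obtain ⟨y, rfl⟩ := QuotientGroup.mk_surjective z
    rw [← QuotientGroup.mk_one, hlift, hlift] at hz
    exact (QuotientGroup.eq_one_iff y).mpr hz
  have hrange : Set.range θ' = Set.range θ := by
    ext w
    constructor
    · rintro ⟨z, rfl⟩
      obtain ⟨y, rfl⟩ := QuotientGroup.mk_surjective z
      exact ⟨y, (hlift y).symm⟩
    · rintro ⟨y, rfl⟩
      exact ⟨y, hlift y⟩
  have hfd : fieldDeg θ' = fieldDeg θ := by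
    simp only [fieldDeg]
    rw [hrange]
  have hdeg' : charDegree θ' = charDegree θ := by
    simp only [charDegree]
    have := hlift 1
    rw [QuotientGroup.mk_one] at this
    rw [this]
  obtain ⟨t, ht⟩ := fieldDeg_form hp hcardQ ha' hθ' hfaith'
  have hbound := main_bound hp _ (P ⧸ K) a' rfl hcardQ θ' hθ' hfaith' t (le_of_eq ht)
  obtain ⟨b, -, hb⟩ := (Nat.dvd_prime_pow hp).mp (hcardQ ▸ charDegree_dvd_card hθ')
  rw [hfd] at ht
  rw [hdeg'] at hb hbound
  rw [ht, hb]
  rw [hb] at hbound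
  exact le_bigF_of_main hp.two_le hbound

variable [NeZero (Nat.card P)]

/-- The Galois action on irreducible characters. -/
noncomputable instance galAct : MulAction Gal(cycL (Nat.card P)/ℚ) (IrrCharacter P) where
  smul σ θ := ⟨fun g => ((σ ⟨θ.1 g, char_mem _ dvd_rfl (IsIrrCharacter.isCharacter θ.2) g⟩ : cycL _) : ℂ), by
    classical
    letI : Fintype P := Fintype.ofFinite _
    obtain ⟨k, hk, hσ⟩ := exists_pow_of_aut σ
    have h1 : (fun g => ((σ ⟨θ.1 g, char_mem _ dvd_rfl (IsIrrCharacter.isCharacter θ.2) g⟩ :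
        cycL _) : ℂ)) = fun g => θ.1 (g ^ k) :=
      funext (gal_char _ dvd_rfl (IsIrrCharacter.isCharacter θ.2) σ hσ)
    rw [h1]
    exact CharPow.isIrr_pow θ.2 hk.symm⟩
  one_smul θ := rfl
  mul_smul σ τ θ := rfl

omit [NeZero (Nat.card P)] in
theorem galAct_def [NeZero (Nat.card P)] (σ : Gal(cycL (Nat.card P)/ℚ)) (θ : IrrCharacter P) (g : P) :
    (σ • θ).1 g = ((σ ⟨θ.1 g, char_mem _ dvd_rfl (IsIrrCharacter.isCharacter θ.2) g⟩ : cycL _) : ℂ) := rfl

theorem galAct_val {σ : Gal(cycL (Nat.card P)/ℚ)} {k : ℕ}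
    (hσ : ∀ y : cycL (Nat.card P), y ^ Nat.card P = 1 → σ y = y ^ k) (θ : IrrCharacter P) (g : P) :
    (σ • θ).1 g = θ.1 (g ^ k) :=
  gal_char _ dvd_rfl (IsIrrCharacter.isCharacter θ.2) σ hσ g

theorem galAct_ker (σ : Gal(cycL (Nat.card P)/ℚ)) (θ : IrrCharacter P) (g : P) :
    (σ • θ).1 g = (σ • θ).1 1 ↔ θ.1 g = θ.1 1 := by
  classical
  letI : Fintype P := Fintype.ofFinite _
  obtain ⟨k, hk, hσ⟩ := exists_pow_of_aut σ
  rw [galAct_val hσ, galAct_val hσ, one_pow]
  have hθc := IsIrrCharacter.isCharacter θ.2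
  rw [← mem_charKer hθc, ← mem_charKer hθc]
  exact CharPow.pow_mem_iff hk.symm (charKer hθc) g

theorem galAct_degree (σ : Gal(cycL (Nat.card P)/ℚ)) (θ : IrrCharacter P) :
    charDegree (σ • θ).1 = charDegree θ.1 := by
  obtain ⟨k, hk, hσ⟩ := exists_pow_of_aut σ
  simp only [charDegree]
  rw [galAct_val hσ, one_pow]

theorem galAct_stabilizer (θ : IrrCharacter P) :
    MulAction.stabilizer Gal(cycL (Nat.card P)/ℚ) θ = fixS (Nat.card P) (Set.range θ.1) := by
  have hθc := IsIrrCharacter.isCharacter θ.2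
  ext σ
  rw [MulAction.mem_stabilizer_iff, mem_fixS]
  constructor
  · rintro h y ⟨g, hg⟩
    have h1 := congrFun (congrArg Subtype.val h) g
    rw [galAct_def] at h1
    apply Subtype.ext
    have h2 : y = ⟨θ.1 g, char_mem _ dvd_rfl hθc g⟩ := Subtype.ext hg.symm
    rw [h2]
    exact h1
  · intro h
    apply Subtype.ext
    funext g
    rw [galAct_def, h _ ⟨g, rfl⟩]

theorem fieldDeg_eq_ncard (θ : IrrCharacter P) :
    fieldDeg θ.1 = (MulAction.orbit Gal(cycL (Nat.card P)/ℚ) θ).ncard := by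
  rw [fieldDeg_eq_index _ dvd_rfl (IsIrrCharacter.isCharacter θ.2), ← galAct_stabilizer,
    MulAction.index_stabilizer]

end Main

section Pgroup

variable {P : Type u} [Group P] [Fintype P]

theorem inner_galAct [NeZero (Nat.card P)] {τ : P → ℂ}
    (hinv : ∀ k, k.Coprime (Nat.card P) → ∀ g, τ (g ^ k) = τ g) (σ : Gal(cycL (Nat.card P)/ℚ))
    (θ : IrrCharacter P) : classInner τ (σ • θ).1 = classInner τ θ.1 := by
  obtain ⟨k, hk, hσ⟩ := exists_pow_of_aut σ
  unfold classInner
  congr 1
  symm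
  rw [← Equiv.sum_comp (powCoprime hk.symm) (fun g => τ g * conj (θ.1 g))]
  refine Finset.sum_congr rfl fun g _ => ?_
  simp only [powCoprime_apply]
  rw [galAct_val hσ, hinv k hk]

/-- **The order of a `p`-group with a faithful Galois stable character.** -/
theorem main_pgroup {p a : ℕ} (hp : p.Prime) (hP : Nat.card P = p ^ a) {τ : P → ℂ}
    (hτ : IsCharacter P τ) (hfaith : ∀ g, τ g = τ 1 → g = 1)
    (hinv : ∀ k, k.Coprime (Nat.card P) → ∀ g, τ (g ^ k) = τ g) : a ≤ bigF p (charDegree τ) := by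
  classical
  haveI : NeZero (Nat.card P) := ⟨Nat.card_pos.ne'⟩
  let Γ := Gal(cycL (Nat.card P)/ℚ)
  let Y : SubMulAction Γ (IrrCharacter P) :=
    { carrier := {θ | classInner τ θ.1 ≠ 0}
      smul_mem' := by
        intro σ θ hθ
        change classInner τ (σ • θ).1 ≠ 0
        rw [inner_galAct hinv]
        exact hθ }
  have hmemY : ∀ θ : IrrCharacter P, θ ∈ Y ↔ classInner τ θ.1 ≠ 0 := fun θ => Iff.rfl
  obtain ⟨m, hm⟩ := exists_nat_decomp hτ
  have hmm : ∀ i : IrrCharacter P, classInner τ i.1 = m i := by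
    intro i
    rw [hm]
    exact classInner_nat_decomp m i.1 i.2
  letI : Fintype Y := Fintype.ofFinite _
  letI : Fintype (MulAction.orbitRel.Quotient Γ Y) := Fintype.ofFinite _
  let Q := MulAction.orbitRel.Quotient Γ Y
  let rep : Q → Y := fun q => Quotient.out q
  have hrep : ∀ y : Y, ∃ σ : Γ, σ • y = rep (Quotient.mk'' y) := by
    intro y
    have h1 : MulAction.orbitRel Γ Y |>.r (rep (Quotient.mk'' y)) y := Quotient.mk_out (s := MulAction.orbitRel Γ Y) y
    rw [MulAction.orbitRel_apply] at h1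
    obtain ⟨σ, hσ⟩ := h1
    exact ⟨σ, hσ⟩
  -- the intersection of kernels
  let K : Q → Subgroup P := fun q => charKer (IsIrrCharacter.isCharacter (rep q).1.2)
  have hbot : (⨅ q, K q) = ⊥ := by
    rw [eq_bot_iff]
    intro x hx
    rw [Subgroup.mem_iInf] at hx
    have hy : ∀ y : Y, y.1.1 x = y.1.1 1 := by
      intro y
      obtain ⟨σ, hσ⟩ := hrep y
      have h1 : (rep (Quotient.mk'' y)).1.1 x = (rep (Quotient.mk'' y)).1.1 1 := hx _
      rw [← hσ] at h1
      exact (galAct_ker σ y.1 x).mp h1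
    apply Subgroup.mem_bot.mpr
    apply hfaith
    rw [hm, Finset.sum_apply, Finset.sum_apply]
    refine Finset.sum_congr rfl fun i _ => ?_
    by_cases hi : m i = 0
    · simp [hi]
    · have hiY : i ∈ Y := by
        rw [hmemY, hmm]
        exact_mod_cast hi
      simp only [Pi.smul_apply]
      rw [hy ⟨i, hiY⟩]
  -- indices
  have hidx : ∀ q, ∃ b, (K q).index = p ^ b := by
    intro q
    have h1 : (K q).index ∣ p ^ a := hP ▸ Subgroup.index_dvd_card (K q)
    obtain ⟨b, -, hb⟩ := (Nat.dvd_prime_pow hp).mp h1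
    exact ⟨b, hb⟩
  choose b hb using hidx
  have h1 := Subgroup.index_iInf_le K
  rw [hbot, Subgroup.index_bot, hP] at h1
  simp only [hb] at h1
  rw [Finset.prod_pow_eq_pow_sum] at h1
  have h2 : a ≤ ∑ q, b q := (Nat.pow_le_pow_iff_right hp.one_lt).mp h1
  have h3 : ∀ q, b q ≤ bigF p (charDegree (rep q).1.1 * fieldDeg (rep q).1.1) :=
    fun q => ker_index_le hp (rep q).1.2 (hb q)
  have h4 : ∑ q, bigF p (charDegree (rep q).1.1 * fieldDeg (rep q).1.1) ≤
      bigF p (∑ q, charDegree (rep q).1.1 * fieldDeg (rep q).1.1) :=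
    sum_bigF_le hp.two_le _ _
  -- the degree
  have h5 : ∑ q, charDegree (rep q).1.1 * fieldDeg (rep q).1.1 = ∑ y : Y, charDegree y.1.1 := by
    letI : ∀ q : Q, Fintype (MulAction.orbit Γ (Quotient.out q : Y)) := fun _ => Fintype.ofFinite _
    let e := MulAction.selfEquivSigmaOrbits Γ Y
    rw [← Equiv.sum_comp e.symm (fun y : Y => charDegree y.1.1), Fintype.sum_sigma]
    refine Finset.sum_congr rfl fun q _ => ?_
    have h7 : ∀ z : MulAction.orbit Γ (Quotient.out q : Y),
        charDegree (e.symm ⟨q, z⟩).1.1 = charDegree (rep q).1.1 := by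
      rintro ⟨z, σ, rfl⟩
      exact galAct_degree σ (rep q).1
    simp only [h7, Finset.sum_const, Finset.card_univ, smul_eq_mul]
    rw [mul_comm]
    congr 1
    rw [fieldDeg_eq_ncard (rep q).1, ← SubMulAction.val_image_orbit,
      Set.ncard_image_of_injective _ Subtype.val_injective, ← Nat.card_coe_set_eq,
      Nat.card_eq_fintype_card]
  have h6 : ∑ y : Y, charDegree y.1.1 ≤ charDegree τ := by
    rw [PDegKernel71.charDegree_nat_decomp m hτ hm]
    have h8 : ∑ y : Y, charDegree y.1.1 = ∑ i ∈ Finset.univ.filter (fun i : IrrCharacter P => i ∈ Y), charDegree i.1 :=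
      (Finset.sum_subtype (Finset.univ.filter (fun i : IrrCharacter P => i ∈ Y)) (by simp)
        (fun i : IrrCharacter P => charDegree i.1)).symm
    rw [h8]
    calc ∑ i ∈ Finset.univ.filter (fun i : IrrCharacter P => i ∈ Y), charDegree i.1
        ≤ ∑ i ∈ Finset.univ.filter (fun i : IrrCharacter P => i ∈ Y), m i * charDegree i.1 := by
          refine Finset.sum_le_sum fun i hi => ?_
          have hiY : i ∈ Y := (Finset.mem_filter.mp hi).2
          rw [hmemY, hmm] at hiY
          have hmi : 1 ≤ m i := by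
            by_contra hh
            have : m i = 0 := by omega
            apply hiY
            simp [this]
          exact Nat.le_mul_of_pos_left _ hmi
      _ ≤ ∑ i, m i * charDegree i.1 :=
          Finset.sum_le_sum_of_subset (Finset.filter_subset _ _)
  calc a ≤ ∑ q, b q := h2
    _ ≤ ∑ q, bigF p (charDegree (rep q).1.1 * fieldDeg (rep q).1.1) := Finset.sum_le_sum fun q _ => h3 q
    _ ≤ bigF p (∑ q, charDegree (rep q).1.1 * fieldDeg (rep q).1.1) := h4
    _ ≤ bigF p (charDegree τ) := bigF_mono hp.two_le (h5 ▸ h6)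

end Pgroup

end Cfsg.Agent.Lib.FieldDegP2
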