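import Mathlib
import Cfsg.Prelude.Def_GeometricClasses

/-!
# Field subalgebras of matrix algebras (`Cfsg.Geo.IsFieldSubalgebra`): basic facts
-/

set_option autoImplicit false

namespace Cfsg.Agent.Lib.FieldSub

open Matrix Polynomial Module Cfsg.Geo

variable {F : Type*} [Field F] {n : Type} [Fintype n] [DecidableEq n] {K : Subalgebra F (Matrix n n F)}

theorem inv_mem_K {r : ℕ} (hK : IsFieldSubalgebra r K) {x : Matrix n n F} (hx : x ∈ K) (h0 : x ≠ 0) :
    ∃ y ∈ K, x * y = 1 ∧ y * x = 1 := by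
  obtain ⟨y, hy, hxy⟩ := hK.inv x hx h0
  exact ⟨y, hy, hxy, by rw [hK.comm y hy x hx, hxy]⟩

theorem K_no_zero {r : ℕ} (hK : IsFieldSubalgebra r K) {x y : Matrix n n F} (hx : x ∈ K) (h0 : x ≠ 0)
    (h : x * y = 0) : y = 0 := by
  obtain ⟨x', hx', h1, h2⟩ := inv_mem_K hK hx h0
  calc y = (x' * x) * y := by rw [h2, Matrix.one_mul]
    _ = x' * (x * y) := Matrix.mul_assoc _ _ _
    _ = 0 := by rw [h, Matrix.mul_zero]

theorem scalar_mem (s : F) : s • (1 : Matrix n n F) ∈ K := K.smul_mem K.one_mem s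

theorem exists_gen (hK : IsFieldSubalgebra 2 K) :
    ∃ ω ∈ K, (∀ s : F, ω ≠ s • (1 : Matrix n n F)) ∧
      ∀ k ∈ K, ∃ α β : F, k = α • (1 : Matrix n n F) + β • ω := by
  classical
  have hfin := hK.finrank_eq
  have h1ne : (1 : K) ≠ 0 := by
    intro h
    have : Subsingleton K := by
      refine ⟨fun a b => ?_⟩
      have ha : a = 0 := by rw [← mul_one a, h, mul_zero]
      have hb : b = 0 := by rw [← mul_one b, h, mul_zero]
      rw [ha, hb]
    rw [finrank_zero_of_subsingleton] at hfin
    omega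
  obtain ⟨ω, hω⟩ : ∃ ω : K, ∀ s : F, s • (1 : K) ≠ ω := by
    by_contra hcon
    push_neg at hcon
    have := finrank_le_one (R := F) (1 : K) (fun w => by
      obtain ⟨s, hs⟩ := hcon w
      exact ⟨s, hs⟩)
    omega
  have hli : LinearIndependent F ![(1 : K), ω] := by
    rw [LinearIndependent.pair_iff]
    intro s t h
    have ht : t = 0 := by
      by_contra ht
      apply hω (-(t⁻¹ * s))
      have h2 : ω = -(t⁻¹ • (s • (1 : K))) := by
        have h3 : t • ω = -(s • (1 : K)) := by
          rw [eq_neg_iff_add_eq_zero, add_comm]; exact h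
        calc ω = t⁻¹ • (t • ω) := by rw [smul_smul, inv_mul_cancel₀ ht, one_smul]
          _ = _ := by rw [h3, smul_neg]
      rw [h2, neg_smul, smul_smul]
    subst ht
    rw [zero_smul, add_zero] at h
    refine ⟨?_, rfl⟩
    rcases smul_eq_zero.mp h with h | h
    · exact h
    · exact absurd h h1ne
  have hspan : Submodule.span F (Set.range ![(1 : K), ω]) = ⊤ := by
    apply hli.span_eq_top_of_card_eq_finrank
    simp [hfin]
  refine ⟨ω.1, ω.2, ?_, ?_⟩
  · intro s hs
    apply hω s
    apply Subtype.ext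
    rw [hs]
    rfl
  · intro k hk
    have : (⟨k, hk⟩ : K) ∈ Submodule.span F (Set.range ![(1 : K), ω]) := by rw [hspan]; trivial
    rw [Matrix.range_cons, Matrix.range_cons, Matrix.range_empty, Set.union_empty] at this
    rw [Set.singleton_union, Submodule.mem_span_pair] at this
    obtain ⟨α, β, h⟩ := this
    refine ⟨α, β, ?_⟩
    have := congrArg Subtype.val h
    simpa using this.symm


end Cfsg.Agent.Lib.FieldSub
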