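-- Shared library: modules of the commuting graph of a primitive 3-transposition class are trivial
-- (Gallai decomposition argument), and the subgroup generated by the centraliser of a member is a
-- maximal D-subgroup.
import Mathlib
import Cfsg.Agent.Lib.FischerPrim

set_option autoImplicit false
set_option linter.unusedSimpArgs false
set_option linter.unusedVariables false
set_option linter.unusedSectionVars false

open Cfsg
open Cfsg.Agent.Lib.ThreeTransCore Cfsg.Agent.Lib.FischerPrim

namespace Cfsg.Agent.Lib.FischerMod52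

variable {G : Type*} [Group G] {D : Set G}

/-- A module of the commuting graph on `D`: every member of `D` outside `P` commutes with all of `P` or with none. -/
def IsMod (D P : Set G) : Prop :=
  P ⊆ D ∧ ∀ z ∈ D, z ∉ P → ∀ p ∈ P, ∀ q ∈ P, (Commute z p ↔ Commute z q)

theorem IsMod.union {A B : Set G} (hA : IsMod D A) (hB : IsMod D B) {w : G} (hwA : w ∈ A) (hwB : w ∈ B) :
    IsMod D (A ∪ B) := by
  refine ⟨Set.union_subset hA.1 hB.1, ?_⟩
  intro z hz hzn p hp q hq
  have hzA : z ∉ A := fun h => hzn (Or.inl h)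
  have hzB : z ∉ B := fun h => hzn (Or.inr h)
  have key : ∀ r ∈ A ∪ B, (Commute z r ↔ Commute z w) := by
    rintro r (hr | hr)
    · exact hA.2 z hz hzA r hr w hwA
    · exact hB.2 z hz hzB r hr w hwB
  rw [key p hp, key q hq]

theorem IsMod.conj (hcD : ∀ g : G, ∀ x ∈ D, g * x * g⁻¹ ∈ D) {P : Set G} (hP : IsMod D P) (g : G) :
    IsMod D ((fun x => g * x * g⁻¹) '' P) := by
  refine ⟨?_, ?_⟩
  · rintro _ ⟨x, hx, rfl⟩
    exact hcD g x (hP.1 hx)
  · rintro z hz hzn _ ⟨p, hp, rfl⟩ _ ⟨q, hq, rfl⟩
    have hz' : g⁻¹ * z * g ∈ D := by simpa using hcD g⁻¹ z hz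
    have hzn' : g⁻¹ * z * g ∉ P := fun h => hzn ⟨_, h, by simp; group⟩
    have := hP.2 _ hz' hzn' p hp q hq
    have conv : ∀ r : G, Commute z (g * r * g⁻¹) ↔ Commute (g⁻¹ * z * g) r := by
      intro r
      constructor
      · intro h
        have h' : z * (g * r * g⁻¹) = (g * r * g⁻¹) * z := h
        show (g⁻¹ * z * g) * r = r * (g⁻¹ * z * g)
        calc (g⁻¹ * z * g) * r = g⁻¹ * (z * (g * r * g⁻¹)) * g := by group
          _ = g⁻¹ * ((g * r * g⁻¹) * z) * g := by rw [h']
          _ = r * (g⁻¹ * z * g) := by group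
      · intro h
        have h' : (g⁻¹ * z * g) * r = r * (g⁻¹ * z * g) := h
        show z * (g * r * g⁻¹) = (g * r * g⁻¹) * z
        calc z * (g * r * g⁻¹) = g * ((g⁻¹ * z * g) * r) * g⁻¹ := by group
          _ = g * (r * (g⁻¹ * z * g)) * g⁻¹ := by rw [h']
          _ = (g * r * g⁻¹) * z := by group
    rw [conv, conv]
    exact this

section main

variable [Finite G]

/-- A subset of `D` which commutes with the rest of `D` is invariant under conjugation. -/
theorem invariant_of_commuting (hG : IsThreeTranspositionGroup D) {Y : Set G} (hY : Y ⊆ D)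
    (hcomm : ∀ y ∈ Y, ∀ z ∈ D, z ∉ Y → Commute y z) (g : G) :
    ∀ y ∈ D, (y ∈ Y ↔ g * y * g⁻¹ ∈ Y) := by
  have hgen : g ∈ Subgroup.closure D := by rw [hG.2.2]; trivial
  induction hgen using Subgroup.closure_induction with
  | mem t ht =>
    have ht2 : t * t = 1 := mul_self_of_mem hG.1 ht
    have htinv : t⁻¹ = t := inv_of_mem hG.1 ht
    have key : ∀ y ∈ D, y ∈ Y → t * y * t⁻¹ ∈ Y := by
      intro y hyD hy
      by_cases htY : t ∈ Y
      · by_contra hn
        have hzD : t * y * t⁻¹ ∈ D := hG.2.1 t y hyD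
        have h1 : Commute t (t * y * t⁻¹) := hcomm t htY _ hzD hn
        have h2 : t * (t * y * t⁻¹) = (t * y * t⁻¹) * t := h1
        rw [htinv] at h2 hn
        have h3 : t * y * t = y := by
          have : t * (t * y * t) = y * t := by
            calc t * (t * y * t) = (t * t) * y * t := by group
              _ = y * t := by rw [ht2, one_mul]
          rw [this] at h2
          have h4 : t * y * t * t = t * y * (t * t) := by group
          rw [h4, ht2, mul_one] at h2
          -- y * t = t * y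
          calc t * y * t = (y * t) * t := by rw [h2]
            _ = y * (t * t) := by group
            _ = y := by rw [ht2, mul_one]
        rw [h3] at hn
        exact hn hy
      · have h1 : Commute y t := hcomm y hy t ht htY
        have : t * y * t⁻¹ = y := by
          rw [h1.symm.eq]; simp
        rw [this]; exact hy
    intro y hyD
    constructor
    · exact key y hyD
    · intro h
      have := key _ (hG.2.1 t y hyD) h
      rw [htinv] at this
      have e' : t * (t * y * t) * t = y := by
        calc t * (t * y * t) * t = (t * t) * y * (t * t) := by group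
          _ = y := by rw [ht2]; simp
      rwa [e'] at this
  | one => intro y _; simp
  | mul a b _ _ iha ihb =>
    intro y hyD
    rw [ihb y hyD, iha _ (hG.2.1 b y hyD)]
    have : a * (b * y * b⁻¹) * a⁻¹ = a * b * y * (a * b)⁻¹ := by group
    rw [this]
  | inv a _ iha =>
    intro y hyD
    have hD' : a⁻¹ * y * a⁻¹⁻¹ ∈ D := hG.2.1 a⁻¹ y hyD
    have := iha _ hD'
    have e : a * (a⁻¹ * y * a⁻¹⁻¹) * a⁻¹ = y := by group
    rw [e] at this
    exact this.symm

/-- Overlap of two modules covering `D` is impossible. -/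
theorem no_overlap (hG : IsThreeTranspositionGroup D) (hprim : IsPrimitiveUnderConj D)
    (hw : ∃ a ∈ D, ∃ b ∈ D, a ≠ b ∧ Commute a b) {A B : Set G} (hA : IsMod D A) (hB : IsMod D B)
    (hU : A ∪ B = D) {w a₀ b₀ : G} (hwA : w ∈ A) (hwB : w ∈ B) (ha₀ : a₀ ∈ A) (ha₀' : a₀ ∉ B)
    (hb₀ : b₀ ∈ B) (hb₀' : b₀ ∉ A) : False := by
  have hDc := class_of_prim hG hprim
  set Y : Set G := {y | y ∈ A ∧ y ∉ B} with hYdef
  have hYD : Y ⊆ D := fun y hy => hA.1 hy.1
  have hconst : ∀ a ∈ Y, ∀ z ∈ D, z ∉ Y → (Commute a z ↔ Commute a₀ b₀) := by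
    intro a ha z hz hzY
    have hzB : z ∈ B := by
      by_contra hzB
      have : z ∈ A := by
        rw [← hU] at hz
        exact hz.resolve_right hzB
      exact hzY ⟨this, hzB⟩
    have haD : a ∈ D := hA.1 ha.1
    have ha₀D : a₀ ∈ D := hA.1 ha₀
    have hb₀D : b₀ ∈ D := hB.1 hb₀
    have h1 : Commute a z ↔ Commute a b₀ := hB.2 a haD ha.2 z hzB b₀ hb₀
    have h2 : Commute b₀ a ↔ Commute b₀ a₀ := hA.2 b₀ hb₀D hb₀' a ha.1 a₀ ha₀
    rw [h1]
    constructor
    · intro h
      exact (h2.mp h.symm).symm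
    · intro h
      exact (h2.mpr h.symm).symm
  have ha₀Y : a₀ ∈ Y := ⟨ha₀, ha₀'⟩
  have hb₀Y : b₀ ∉ Y := fun h => hb₀' h.1
  have hb₀D : b₀ ∈ D := hB.1 hb₀
  have ha₀D : a₀ ∈ D := hA.1 ha₀
  by_cases hρ : Commute a₀ b₀
  · -- Y is invariant, contradicting transitivity
    have hinv := invariant_of_commuting hG hYD (fun y hy z hz hzY => (hconst y hy z hz hzY).mpr hρ)
    obtain ⟨g, hg⟩ := hprim.1 a₀ ha₀D b₀ hb₀D
    have := (hinv g a₀ ha₀D).mp ha₀Y
    rw [hg] at this
    exact hb₀Y this
  · -- commuting graph disconnected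
    have hconn := connected_of_prim hDc hprim hw
    have hreach := hconn.preconnected ⟨a₀, ha₀D⟩ ⟨b₀, hb₀D⟩
    have hstep : ∀ u v : D, (commutingGraph D).Reachable u v → (u : G) ∈ Y → (v : G) ∈ Y := by
      intro u v huv
      obtain ⟨p⟩ := huv
      induction p with
      | nil => exact id
      | @cons u' v' w' h _ ih =>
        intro hu
        apply ih
        by_contra hvY
        have hadj := (SimpleGraph.fromRel_adj _ _ _).mp h
        have hcomm : Commute (u' : G) (v' : G) := by
          rcases hadj.2 with h1 | h1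
          · exact h1
          · exact h1.symm
        exact hρ ((hconst _ hu _ v'.2 hvY).mp hcomm)
    exact hb₀Y (hstep _ _ hreach ha₀Y)

/-- A primitive 3-transposition class with commuting members has no non-trivial module. -/
theorem no_module (hG : IsThreeTranspositionGroup D) (hprim : IsPrimitiveUnderConj D)
    (hw : ∃ a ∈ D, ∃ b ∈ D, a ≠ b ∧ Commute a b) {P : Set G} (hP : IsMod D P)
    (hnt : P.Nontrivial) (hne : P ≠ D) : False := by
  classical
  haveI : Fintype G := Fintype.ofFinite G
  -- pick a proper non-trivial module of largest size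
  let Pf : Finset (Finset G) := Finset.univ.filter fun Q : Finset G =>
    IsMod D (Q : Set G) ∧ (Q : Set G).Nontrivial ∧ (Q : Set G) ≠ D
  have hmem : P.toFinset ∈ Pf := by
    simp only [Pf, Finset.mem_filter, Finset.mem_univ, true_and, Set.coe_toFinset]
    exact ⟨hP, hnt, hne⟩
  obtain ⟨Q, hQ, hmax⟩ := Finset.exists_max_image Pf Finset.card ⟨_, hmem⟩
  simp only [Pf, Finset.mem_filter, Finset.mem_univ, true_and] at hQ hmax
  obtain ⟨hQm, hQn, hQne⟩ := hQ
  have hcD : ∀ g : G, ∀ x ∈ D, g * x * g⁻¹ ∈ D := hG.2.1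
  -- it is a block
  have hblock : ∀ g : G, (fun x => g * x * g⁻¹) '' (Q : Set G) = (Q : Set G) ∨
      Disjoint ((fun x => g * x * g⁻¹) '' (Q : Set G)) (Q : Set G) := by
    intro g
    by_contra hcon
    push Not at hcon
    obtain ⟨hneq, hnd⟩ := hcon
    rw [Set.not_disjoint_iff] at hnd
    obtain ⟨w, hw1, hw2⟩ := hnd
    have hinj : Function.Injective (fun x => g * x * g⁻¹) := by
      intro x y hxy
      simpa using hxy
    let Q' : Finset G := Q.image (fun x => g * x * g⁻¹)
    have hQ'coe : (Q' : Set G) = (fun x => g * x * g⁻¹) '' (Q : Set G) := by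
      simp [Q']
    have hQ'card : Q'.card = Q.card := Finset.card_image_of_injective _ hinj
    have hQ'm : IsMod D (Q' : Set G) := by rw [hQ'coe]; exact hQm.conj hcD g
    have hU : IsMod D ((Q' ∪ Q : Finset G) : Set G) := by
      rw [Finset.coe_union]
      exact IsMod.union hQ'm hQm (by rw [hQ'coe]; exact hw1) hw2
    have hne' : Q' ≠ Q := by
      intro h
      apply hneq
      rw [← hQ'coe, h]
    have hsub1 : ¬ Q' ⊆ Q := by
      intro h
      exact hne' (Finset.eq_of_subset_of_card_le h hQ'card.ge)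
    have hsub2 : ¬ Q ⊆ Q' := by
      intro h
      exact hne' (Finset.eq_of_subset_of_card_le h hQ'card.le).symm
    obtain ⟨b₀, hb₀, hb₀'⟩ := Finset.not_subset.mp hsub1
    obtain ⟨a₀, ha₀, ha₀'⟩ := Finset.not_subset.mp hsub2
    have hcard : Q.card < (Q' ∪ Q).card := by
      apply Finset.card_lt_card
      refine ⟨Finset.subset_union_right, ?_⟩
      intro h
      exact hb₀' (h (Finset.mem_union_left _ hb₀))
    have hUD : ((Q' ∪ Q : Finset G) : Set G) = D := by
      by_contra hn
      have hnt' : ((Q' ∪ Q : Finset G) : Set G).Nontrivial := by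
        rw [Finset.coe_union]
        exact hQn.mono Set.subset_union_right
      have := hmax _ ⟨hU, hnt', hn⟩
      omega
    rw [Finset.coe_union] at hUD
    exact no_overlap hG hprim hw hQm hQ'm (by rw [Set.union_comm]; exact hUD) hw2
      (by rw [hQ'coe]; exact hw1) ha₀ (by simpa using ha₀') (by simpa using hb₀) (by simpa using hb₀')
  rcases hprim.2.2 (Q : Set G) hQm.1 hblock with h | h
  · exact hQn.not_subsingleton h
  · exact hQne h

/-- The subgroup generated by the centraliser of a member is proper. -/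
theorem closure_centralizer_ne_top (hG : IsThreeTranspositionGroup D) (hprim : IsPrimitiveUnderConj D)
    {d : G} (hd : d ∈ D) : Subgroup.closure {y : G | y ∈ D ∧ Commute d y} ≠ ⊤ := by
  intro h
  have hcent : ∀ g : G, Commute d g := by
    intro g
    have hg : g ∈ Subgroup.closure {y : G | y ∈ D ∧ Commute d y} := by rw [h]; trivial
    induction hg using Subgroup.closure_induction with
    | mem t ht => exact ht.2
    | one => exact Commute.one_right d
    | mul a b _ _ iha ihb => exact iha.mul_right ihb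
    | inv a _ iha => exact iha.inv_right
  obtain ⟨a, ha, b, hb, hab⟩ := hprim.2.1
  obtain ⟨g, hg⟩ := hprim.1 d hd a ha
  obtain ⟨g', hg'⟩ := hprim.1 d hd b hb
  have h1 : a = d := by
    rw [← hg, (hcent g).symm.eq]; simp
  have h2 : b = d := by
    rw [← hg', (hcent g').symm.eq]; simp
  exact hab (h1.trans h2.symm)

/-- Two non-commuting members of the class are conjugate by their product. -/
theorem conj_of_not_commute (hG : IsThreeTranspositionSet D) {a d : G} (ha : a ∈ D) (hd : d ∈ D)
    (h : ¬ Commute d a) : (d * a) * d * (d * a)⁻¹ = a := by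
  have h1 := braid_of_not_commute hG hd ha h
  have hd2 : d * d = 1 := mul_self_of_mem hG hd
  have ha2 : a * a = 1 := mul_self_of_mem hG ha
  have hdi : d⁻¹ = d := inv_of_mem hG hd
  have hai : a⁻¹ = a := inv_of_mem hG ha
  -- d a d = a d a
  calc (d * a) * d * (d * a)⁻¹ = (d * a * d) * (a⁻¹ * d⁻¹) := by group
    _ = (a * d * a) * (a * d) := by rw [h1, hdi, hai]
    _ = a * d * (a * a) * d := by group
    _ = a * (d * d) := by rw [ha2]; group
    _ = a := by rw [hd2, mul_one]

/-- The subgroup generated by the centraliser of a member is a maximal `D`-subgroup. -/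
theorem closure_centralizer_maximal (hG : IsThreeTranspositionGroup D) (hprim : IsPrimitiveUnderConj D)
    (hw : ∃ a ∈ D, ∃ b ∈ D, a ≠ b ∧ Commute a b) {d : G} (hd : d ∈ D) (K : Subgroup G)
    (hK : IsDSubgroup D K) (hHK : Subgroup.closure {y : G | y ∈ D ∧ Commute d y} ≤ K) :
    K = Subgroup.closure {y : G | y ∈ D ∧ Commute d y} ∨ K = ⊤ := by
  by_contra hcon
  push Not at hcon
  obtain ⟨hne, hnt⟩ := hcon
  set H := Subgroup.closure {y : G | y ∈ D ∧ Commute d y} with hHdef
  have hT := hG.1
  -- a member of K not in H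
  obtain ⟨a, haD, haK, haH⟩ : ∃ a, a ∈ D ∧ a ∈ K ∧ a ∉ H := by
    by_contra hno
    push Not at hno
    apply hne
    apply le_antisymm _ hHK
    rw [← hK]
    rw [Subgroup.closure_le]
    rintro y ⟨hy, hyK⟩
    exact hno y hy hyK
  have hdH : d ∈ H := Subgroup.subset_closure ⟨hd, Commute.refl d⟩
  have hdK : d ∈ K := hHK hdH
  -- a member of D not in K
  obtain ⟨x, hxD, hxK⟩ : ∃ x, x ∈ D ∧ x ∉ K := by
    by_contra hno
    push Not at hno
    apply hnt
    rw [eq_top_iff, ← hG.2.2, Subgroup.closure_le]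
    exact hno
  -- the K-class of d
  let S : Set G := {s | ∃ k ∈ K, k * d * k⁻¹ = s}
  have hSD : S ⊆ D := by
    rintro _ ⟨k, _, rfl⟩
    exact hG.2.1 k d hd
  have hSK : S ⊆ K := by
    rintro _ ⟨k, hk, rfl⟩
    exact K.mul_mem (K.mul_mem hk hdK) (K.inv_mem hk)
  have hdS : d ∈ S := ⟨1, K.one_mem, by simp⟩
  have hnc : ¬ Commute d a := fun h => haH (Subgroup.subset_closure ⟨haD, h⟩)
  have haS : a ∈ S := ⟨d * a, K.mul_mem hdK haK, conj_of_not_commute hT haD hd hnc⟩
  have had : a ≠ d := fun h => haH (h ▸ hdH)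
  -- S is a module
  have hmod : IsMod D S := by
    refine ⟨hSD, ?_⟩
    intro z hz hzS p hp q hq
    by_cases hzK : z ∈ K
    · -- z in K outside S commutes with all of S
      have key : ∀ s ∈ S, Commute z s := by
        intro s hs
        by_contra hn
        apply hzS
        obtain ⟨k, hk, rfl⟩ := hs
        have hsD : k * d * k⁻¹ ∈ D := hG.2.1 k d hd
        have hsK : k * d * k⁻¹ ∈ K := hSK ⟨k, hk, rfl⟩
        have hn' : ¬ Commute (k * d * k⁻¹) z := fun h => hn h.symm
        have := conj_of_not_commute hT hz hsD hn'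
        refine ⟨(k * d * k⁻¹) * z * k, K.mul_mem (K.mul_mem hsK hzK) hk, ?_⟩
        have e : ((k * d * k⁻¹) * z * k) * d * ((k * d * k⁻¹) * z * k)⁻¹ =
            ((k * d * k⁻¹) * z) * (k * d * k⁻¹) * ((k * d * k⁻¹) * z)⁻¹ := by group
        rw [e]
        exact this
      exact ⟨fun _ => key q hq, fun _ => key p hp⟩
    · -- z outside K commutes with nothing in S
      have key : ∀ s ∈ S, ¬ Commute z s := by
        rintro _ ⟨k, hk, rfl⟩ hc
        apply hzK
        have hz' : k⁻¹ * z * k ∈ D := by simpa using hG.2.1 k⁻¹ z hz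
        have hcomm : Commute d (k⁻¹ * z * k) := by
          have h' : z * (k * d * k⁻¹) = (k * d * k⁻¹) * z := hc
          show d * (k⁻¹ * z * k) = (k⁻¹ * z * k) * d
          calc d * (k⁻¹ * z * k) = k⁻¹ * ((k * d * k⁻¹) * z) * k := by group
            _ = k⁻¹ * (z * (k * d * k⁻¹)) * k := by rw [h']
            _ = (k⁻¹ * z * k) * d := by group
        have hinH : k⁻¹ * z * k ∈ K := hHK (Subgroup.subset_closure ⟨hz', hcomm⟩)
        have : k * (k⁻¹ * z * k) * k⁻¹ ∈ K := K.mul_mem (K.mul_mem hk hinH) (K.inv_mem hk)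
        simpa [mul_assoc] using this
      exact ⟨fun h => absurd h (key p hp), fun h => absurd h (key q hq)⟩
  refine no_module hG hprim hw hmod ⟨a, haS, d, hdS, had⟩ ?_
  intro h
  exact hxK (hSK (h ▸ hxD))

end main

end Cfsg.Agent.Lib.FischerMod52
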