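import Mathlib
import Cfsg.Prelude.Def_OddOrderLocal
import Cfsg.Agent.Lib.PCore
import Cfsg.Agent.Lib.BGTrans
import Cfsg.Agent.Lib.CompFitting
import Cfsg.Agent.Lib.CoprimeInv

/-!
# Cores of subgroups as subgroups of the ambient group, elementwise tools.

`Op p X` and `Opp p X` are `O_p(X)`, `O_{p'}(X)` as subgroups of `G`.  The lemmas are elementwise
reformulations for the local analysis around Fitting subgroups with two primes: `X×Y` lemma
instances, and a form of Bender's maximal subgroup lemma.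
-/

set_option autoImplicit false
set_option linter.style.haveILetI false

open Cfsg Subgroup
open scoped Pointwise

namespace Cfsg.Agent.Lib.FitPair

open Cfsg.Agent.Lib.PCore

variable {G : Type*} [Group G]

/-- `O_p(X)` as a subgroup of `G`. -/
def Op (p : ℕ) (X : Subgroup G) : Subgroup G := (pCore p X).map X.subtype

/-- `O_{p'}(X)` as a subgroup of `G`. -/
def Opp (p : ℕ) (X : Subgroup G) : Subgroup G := (pPrimeCore p X).map X.subtype

/-- `p`-elements. -/
def PElt (p : ℕ) (x : G) : Prop := ∃ k : ℕ, x ^ p ^ k = 1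

theorem Op_le (p : ℕ) (X : Subgroup G) : Op p X ≤ X := map_subtype_le _

theorem Opp_le (p : ℕ) (X : Subgroup G) : Opp p X ≤ X := map_subtype_le _

/-- A characteristic subgroup of `X` is normalized by `N_G(X)`. -/
theorem normalizer_le_normalizer_map {X : Subgroup G} (K : Subgroup X) [K.Characteristic] :
    normalizer (X : Set G) ≤ normalizer ((K.map X.subtype : Subgroup G) : Set G) := by
  intro g hg
  have hXg : ∀ x ∈ X, g * x * g⁻¹ ∈ X := fun x hx => (mem_normalizer_iff.mp hg x).mp hx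
  have hXg' : ∀ x ∈ X, g⁻¹ * x * g ∈ X := fun x hx => by
    have := (mem_normalizer_iff.mp (inv_mem hg) x).mp hx
    simpa using this
  let φ : X ≃* X :=
    { toFun := fun x => ⟨g * x * g⁻¹, hXg x x.2⟩
      invFun := fun x => ⟨g⁻¹ * x * g, hXg' x x.2⟩
      left_inv := fun x => by ext; simp [mul_assoc]
      right_inv := fun x => by ext; simp [mul_assoc]
      map_mul' := fun x y => by ext; simp [mul_assoc] }
  have hfix : ∀ x : X, x ∈ K ↔ φ x ∈ K := by
    intro x
    have := (inferInstance : K.Characteristic).fixed φ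
    constructor
    · intro hx
      have h1 : x ∈ K.comap φ.toMonoidHom := by rw [this]; exact hx
      exact h1
    · intro hx
      have h1 : x ∈ K.comap φ.toMonoidHom := hx
      rwa [this] at h1
  rw [mem_normalizer_iff]
  intro y
  constructor
  · rintro ⟨z, hz, rfl⟩
    exact ⟨φ z, (hfix z).mp hz, rfl⟩
  · rintro ⟨z, hz, hzy⟩
    have hyX : y ∈ X := by
      have h1 := hXg' z z.2
      have h2 : g⁻¹ * (z : G) * g = y := by
        have : (z : G) = g * y * g⁻¹ := hzy
        rw [this]; group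
      rwa [h2] at h1
    refine ⟨⟨y, hyX⟩, ?_, rfl⟩
    show (⟨y, hyX⟩ : X) ∈ K
    rw [hfix]
    have : φ ⟨y, hyX⟩ = z := Subtype.ext hzy.symm
    rw [this]
    exact hz

theorem normalizer_le_Op (p : ℕ) (X : Subgroup G) :
    normalizer (X : Set G) ≤ normalizer (Op p X : Set G) := by
  haveI : (pCore p X).Characteristic := pCore_characteristic p
  exact normalizer_le_normalizer_map _

theorem normalizer_le_Opp (p : ℕ) (X : Subgroup G) :
    normalizer (X : Set G) ≤ normalizer (Opp p X : Set G) :=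
  normalizer_le_normalizer_map _

theorem le_normalizer_Op (p : ℕ) (X : Subgroup G) : X ≤ normalizer (Op p X : Set G) :=
  le_normalizer.trans (normalizer_le_Op p X)

theorem le_normalizer_Opp (p : ℕ) (X : Subgroup G) : X ≤ normalizer (Opp p X : Set G) :=
  le_normalizer.trans (normalizer_le_Opp p X)

theorem conj_mem_of_normalizer {K : Subgroup G} {g x : G} (hg : g ∈ normalizer (K : Set G))
    (hx : x ∈ K) : g * x * g⁻¹ ∈ K := (mem_normalizer_iff.mp hg x).mp hx

theorem inv_conj_mem_of_normalizer {K : Subgroup G} {g x : G} (hg : g ∈ normalizer (K : Set G))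
    (hx : x ∈ K) : g⁻¹ * x * g ∈ K := by
  have := conj_mem_of_normalizer (inv_mem hg) hx
  simpa using this

section Finite

variable [Finite G]

theorem isPGroup_Op (p : ℕ) [Fact p.Prime] (X : Subgroup G) : IsPGroup p (Op p X) :=
  (isPGroup_pCore (G := X) p).map _

theorem coprime_Opp (p : ℕ) (X : Subgroup G) : (Nat.card (Opp p X)).Coprime p := by
  have : Nat.card (Opp p X) = Nat.card (pPrimeCore p X) :=
    Subgroup.card_map_of_injective X.subtype_injective
  rw [this]
  exact card_pPrimeCore_coprime p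

theorem orderOf_coprime_of_mem_Opp {p : ℕ} {X : Subgroup G} {x : G} (hx : x ∈ Opp p X) :
    (orderOf x).Coprime p :=
  Nat.Coprime.coprime_dvd_left (Subgroup.orderOf_dvd_natCard _ hx) (coprime_Opp p X)

theorem pelt_of_mem_pgroup {p : ℕ} {Y : Subgroup G} (hY : IsPGroup p Y) {x : G} (hx : x ∈ Y) :
    PElt p x := by
  obtain ⟨k, hk⟩ := hY ⟨x, hx⟩
  exact ⟨k, congrArg Subtype.val hk⟩

theorem pelt_of_mem_Op {p : ℕ} [Fact p.Prime] {X : Subgroup G} {x : G} (hx : x ∈ Op p X) :
    PElt p x := pelt_of_mem_pgroup (isPGroup_Op p X) hx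

/-- An element which is both a `p`-element and a `p'`-element is trivial. -/
theorem eq_one_of_pelt_of_coprime {p : ℕ} [Fact p.Prime] {x : G} (h1 : PElt p x)
    (h2 : (orderOf x).Coprime p) : x = 1 := by
  obtain ⟨k, hk⟩ := h1
  have h3 : orderOf x ∣ p ^ k := orderOf_dvd_of_pow_eq_one hk
  have h4 : (orderOf x).Coprime (p ^ k) := Nat.Coprime.pow_right k h2
  have h5 : orderOf x = 1 := Nat.Coprime.eq_one_of_dvd h4 h3
  exact orderOf_eq_one_iff.mp h5

theorem pelt_pow {p : ℕ} {x : G} (h : PElt p x) (n : ℕ) : PElt p (x ^ n) := by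
  obtain ⟨k, hk⟩ := h
  exact ⟨k, by rw [← pow_mul, mul_comm, pow_mul, hk, one_pow]⟩

theorem coprime_orderOf_pow {p : ℕ} {x : G} (h : (orderOf x).Coprime p) (n : ℕ) :
    (orderOf (x ^ n)).Coprime p :=
  Nat.Coprime.coprime_dvd_left (orderOf_pow_dvd n) h

theorem pelt_inv {p : ℕ} {x : G} (h : PElt p x) : PElt p x⁻¹ := by
  obtain ⟨k, hk⟩ := h
  exact ⟨k, by rw [inv_pow, hk, inv_one]⟩

theorem coprime_orderOf_inv {p : ℕ} {x : G} (h : (orderOf x).Coprime p) :
    (orderOf x⁻¹).Coprime p := by rwa [orderOf_inv]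

/-- The product of two commuting `p`-elements is a `p`-element. -/
theorem pelt_mul {p : ℕ} {x y : G} (hc : Commute x y) (hx : PElt p x)
    (hy : PElt p y) : PElt p (x * y) := by
  obtain ⟨k, hk⟩ := hx
  obtain ⟨l, hl⟩ := hy
  refine ⟨k + l, ?_⟩
  rw [hc.mul_pow]
  have h1 : x ^ p ^ (k + l) = 1 := by rw [pow_add, pow_mul, hk, one_pow]
  have h2 : y ^ p ^ (k + l) = 1 := by rw [add_comm, pow_add, pow_mul, hl, one_pow]
  rw [h1, h2, one_mul]

/-- The product of two commuting `p'`-elements is a `p'`-element. -/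
theorem coprime_orderOf_mul {p : ℕ} {x y : G} (hc : Commute x y) (hx : (orderOf x).Coprime p)
    (hy : (orderOf y).Coprime p) : (orderOf (x * y)).Coprime p := by
  refine Nat.Coprime.coprime_dvd_left (hc.orderOf_mul_dvd_lcm) ?_
  exact Nat.Coprime.coprime_dvd_left (Nat.lcm_dvd_mul _ _) (Nat.Coprime.mul_left hx hy)

/-- Coprime normal subgroups commute; here in terms of subgroups normalizing each other. -/
theorem comm_of_normalize_of_coprime {A B : Subgroup G} (hAB : A ≤ normalizer (B : Set G))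
    (hBA : B ≤ normalizer (A : Set G)) (hc : (Nat.card A).Coprime (Nat.card B)) :
    ∀ a ∈ A, ∀ b ∈ B, a * b = b * a := by
  intro a ha b hb
  have h1 : a * b * a⁻¹ * b⁻¹ ∈ A := by
    have : a * (b * a⁻¹ * b⁻¹) ∈ A :=
      A.mul_mem ha (conj_mem_of_normalizer (hBA hb) (A.inv_mem ha))
    simpa [mul_assoc] using this
  have h2 : a * b * a⁻¹ * b⁻¹ ∈ B :=
    B.mul_mem (conj_mem_of_normalizer (hAB ha) hb) (B.inv_mem hb)
  have h3 : A ⊓ B = ⊥ := CoprimeInv.inf_eq_bot_of_coprime' hc
  have h4 : a * b * a⁻¹ * b⁻¹ ∈ A ⊓ B := mem_inf.mpr ⟨h1, h2⟩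
  rw [h3, mem_bot] at h4
  have : a * b * a⁻¹ = b := by
    rw [mul_inv_eq_one] at h4; exact h4
  rw [mul_inv_eq_iff_eq_mul] at this
  exact this

theorem Op_comm_Opp (p : ℕ) [hp : Fact p.Prime] (X : Subgroup G) :
    ∀ a ∈ Op p X, ∀ b ∈ Opp p X, a * b = b * a := by
  apply comm_of_normalize_of_coprime
  · exact (Op_le p X).trans (le_normalizer_Opp p X)
  · exact (Opp_le p X).trans (le_normalizer_Op p X)
  · obtain ⟨k, hk⟩ := IsPGroup.iff_card.mp (isPGroup_Op p X)
    rw [hk]
    exact Nat.Coprime.pow_left k (coprime_Opp p X).symm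

theorem Op_comm_Op {p r : ℕ} [hp : Fact p.Prime] [hr : Fact r.Prime] (hne : p ≠ r)
    (X : Subgroup G) : ∀ a ∈ Op p X, ∀ b ∈ Op r X, a * b = b * a := by
  apply comm_of_normalize_of_coprime
  · exact (Op_le p X).trans (le_normalizer_Op r X)
  · exact (Op_le r X).trans (le_normalizer_Op p X)
  · obtain ⟨k, hk⟩ := IsPGroup.iff_card.mp (isPGroup_Op p X)
    obtain ⟨l, hl⟩ := IsPGroup.iff_card.mp (isPGroup_Op r X)
    rw [hk, hl]
    exact Nat.Coprime.pow k l ((Nat.coprime_primes hp.out hr.out).mpr hne)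

theorem le_Op {p : ℕ} {Y X : Subgroup G} (hYX : Y ≤ X) (hXY : X ≤ normalizer (Y : Set G))
    (hY : IsPGroup p Y) : Y ≤ Op p X := by
  have hnormal : (Y.subgroupOf X).Normal := normal_subgroupOf_of_le_normalizer hXY
  have hp : IsPGroup p (Y.subgroupOf X) :=
    hY.of_injective (Subgroup.subgroupOfEquivOfLe hYX).toMonoidHom
      (Subgroup.subgroupOfEquivOfLe hYX).injective
  have h1 : Y.subgroupOf X ≤ pCore p X := le_pCore hnormal hp
  intro y hy
  exact ⟨⟨y, hYX hy⟩, h1 hy, rfl⟩

theorem le_Opp {p : ℕ} {Y X : Subgroup G} (hYX : Y ≤ X) (hXY : X ≤ normalizer (Y : Set G))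
    (hY : (Nat.card Y).Coprime p) : Y ≤ Opp p X := by
  have hnormal : (Y.subgroupOf X).Normal := normal_subgroupOf_of_le_normalizer hXY
  have hcard : Nat.card (Y.subgroupOf X) = Nat.card Y := CoprimeInv.card_subgroupOf_of_le hYX
  have h1 : Y.subgroupOf X ≤ pPrimeCore p X := le_pPrimeCore hnormal (by rw [hcard]; exact hY)
  intro y hy
  exact ⟨⟨y, hYX hy⟩, h1 hy, rfl⟩

theorem Op_le_Opp {p r : ℕ} [hp : Fact p.Prime] [hr : Fact r.Prime] (hne : p ≠ r)
    (X : Subgroup G) : Op p X ≤ Opp r X := by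
  apply le_Opp (Op_le p X) (le_normalizer_Op p X)
  obtain ⟨k, hk⟩ := IsPGroup.iff_card.mp (isPGroup_Op p X)
  rw [hk]
  exact Nat.Coprime.pow_left k ((Nat.coprime_primes hp.out hr.out).mpr hne)

/-! ### Fitting subgroup -/

theorem fittingOf_le (X : Subgroup G) : fittingOf X ≤ X := map_subtype_le _

theorem normalizer_le_fittingOf (X : Subgroup G) :
    normalizer (X : Set G) ≤ normalizer (fittingOf X : Set G) := by
  haveI : (fittingSubgroup X).Characteristic := by
    rw [Subgroup.characteristic_iff_le_comap]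
    intro φ
    refine sSup_le fun N hN => ?_
    rw [← Subgroup.map_le_iff_le_comap]
    apply le_fittingSubgroup
    · exact Subgroup.Normal.map hN.1 _ φ.surjective
    · haveI := hN.2
      have e : N ≃* N.map φ.toMonoidHom := N.equivMapOfInjective _ φ.injective
      exact nilpotent_of_surjective e.toMonoidHom e.surjective
  exact normalizer_le_normalizer_map _

theorem le_normalizer_fittingOf (X : Subgroup G) : X ≤ normalizer (fittingOf X : Set G) :=
  le_normalizer.trans (normalizer_le_fittingOf X)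

theorem Op_le_fittingOf (p : ℕ) [Fact p.Prime] (X : Subgroup G) : Op p X ≤ fittingOf X :=
  map_mono (pCore_le_fittingSubgroup p)

theorem fittingOf_eq_iSup (X : Subgroup G) : fittingOf X = ⨆ r : Nat.Primes, Op (r : ℕ) X := by
  unfold fittingOf Op
  rw [fittingSubgroup_eq_iSup_pCore, Subgroup.map_iSup]

/-- Something that centralizes all `O_r(X)` centralizes `F(X)`. -/
theorem commute_fittingOf {X : Subgroup G} {a : G}
    (h : ∀ r : ℕ, r.Prime → ∀ u ∈ Op r X, a * u = u * a) :
    ∀ u ∈ fittingOf X, a * u = u * a := by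
  have : fittingOf X ≤ centralizer ({a} : Set G) := by
    rw [fittingOf_eq_iSup]
    refine iSup_le fun r => ?_
    intro u hu
    rw [mem_centralizer_singleton_iff]
    exact (h r r.2 u hu).symm
  intro u hu
  have h1 := this hu
  rw [mem_centralizer_singleton_iff] at h1
  exact h1.symm

/-- Decomposition of elements of `F(X)`. -/
theorem exists_mul_of_mem_fittingOf (p : ℕ) [Fact p.Prime] {X : Subgroup G} {x : G}
    (hx : x ∈ fittingOf X) : ∃ a ∈ Op p X, ∃ b ∈ Opp p X, x = a * b := by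
  obtain ⟨y, hy, rfl⟩ := hx
  have h1 := fittingSubgroup_le_sup (G := X) p hy
  have hS : ((pCore p X ⊔ pPrimeCore p X : Subgroup X) : Set X) =
      (pCore p X : Set X) * (pPrimeCore p X : Set X) := Subgroup.mul_normal _ _
  have h2 : y ∈ ((pCore p X ⊔ pPrimeCore p X : Subgroup X) : Set X) := h1
  rw [hS] at h2
  obtain ⟨a, ha, b, hb, rfl⟩ := h2
  exact ⟨a, ⟨a, ha, rfl⟩, b, ⟨b, hb, rfl⟩, rfl⟩

/-- A `p`-element of `F(X)` lies in `O_p(X)`. -/
theorem mem_Op_of_pelt {p : ℕ} [Fact p.Prime] {X : Subgroup G} {x : G}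
    (hx : x ∈ fittingOf X) (hpx : PElt p x) : x ∈ Op p X := by
  obtain ⟨a, ha, b, hb, rfl⟩ := exists_mul_of_mem_fittingOf p hx
  have hc : Commute a b := Op_comm_Opp p X a ha b hb
  have hb1 : b = 1 := by
    apply eq_one_of_pelt_of_coprime _ (orderOf_coprime_of_mem_Opp hb)
    have h2 : PElt p (a⁻¹ * (a * b)) :=
      pelt_mul (p := p) ((Commute.inv_left (Commute.refl a)).mul_right hc.inv_left) (pelt_inv (pelt_of_mem_Op ha)) hpx
    simpa using h2
  rw [hb1, mul_one]
  exact ha

/-- A `p'`-element of `F(X)` lies in `O_{p'}(X)`. -/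
theorem mem_Opp_of_coprime {p : ℕ} [Fact p.Prime] {X : Subgroup G} {x : G}
    (hx : x ∈ fittingOf X) (hpx : (orderOf x).Coprime p) : x ∈ Opp p X := by
  obtain ⟨a, ha, b, hb, rfl⟩ := exists_mul_of_mem_fittingOf p hx
  have hc : Commute a b := Op_comm_Opp p X a ha b hb
  have ha1 : a = 1 := by
    apply eq_one_of_pelt_of_coprime (pelt_of_mem_Op ha)
    have h2 : (orderOf (a * b * b⁻¹)).Coprime p := by
      apply coprime_orderOf_mul (p := p) _ hpx (coprime_orderOf_inv (orderOf_coprime_of_mem_Opp hb))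
      exact (hc.inv_right).mul_left (Commute.inv_right (Commute.refl b))
    simpa using h2
  rw [ha1, one_mul]
  exact hb

/-- Elements of `F(X)` of coprime orders commute. -/
theorem comm_of_mem_fittingOf {p : ℕ} [Fact p.Prime] {X : Subgroup G} {x y : G}
    (hx : x ∈ fittingOf X) (hy : y ∈ fittingOf X) (hpx : PElt p x)
    (hpy : (orderOf y).Coprime p) : x * y = y * x :=
  Op_comm_Opp p X x (mem_Op_of_pelt hx hpx) y (mem_Opp_of_coprime hy hpy)

/-- Self-centralizing Fitting subgroup, ambient form. -/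
theorem mem_fittingOf_of_commute {X : Subgroup G} (hX : Group.IsSolvable X) {x : G} (hxX : x ∈ X)
    (h : ∀ u ∈ fittingOf X, x * u = u * x) : x ∈ fittingOf X := by
  have h1 : (⟨x, hxX⟩ : X) ∈ centralizer (fittingSubgroup X : Set X) := by
    rw [mem_centralizer_iff]
    intro u hu
    apply Subtype.ext
    exact (h u ⟨u, hu, rfl⟩).symm
  exact ⟨_, centralizer_fittingSubgroup_le h1, rfl⟩

theorem mem_fittingOf_of_commute_Op {X : Subgroup G} (hX : Group.IsSolvable X) {x : G}
    (hxX : x ∈ X) (h : ∀ r : ℕ, r.Prime → ∀ u ∈ Op r X, x * u = u * x) : x ∈ fittingOf X :=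
  mem_fittingOf_of_commute hX hxX (commute_fittingOf h)

/-- The nilpotency of `F(X)`. -/
theorem isNilpotent_fittingOf (X : Subgroup G) : Group.IsNilpotent (fittingOf X) := by
  haveI : Group.IsNilpotent (fittingSubgroup X) := isNilpotent_fittingSubgroup
  have e : fittingSubgroup X ≃* (fittingSubgroup X).map X.subtype :=
    (fittingSubgroup X).equivMapOfInjective _ X.subtype_injective
  exact nilpotent_of_surjective e.toMonoidHom e.surjective

theorem le_fittingOf {K X : Subgroup G} (hKX : K ≤ X) (hXK : X ≤ normalizer (K : Set G))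
    (hn : Group.IsNilpotent K) : K ≤ fittingOf X := by
  have hnormal : (K.subgroupOf X).Normal := normal_subgroupOf_of_le_normalizer hXK
  have hnil : Group.IsNilpotent (K.subgroupOf X) := by
    have e := Subgroup.subgroupOfEquivOfLe hKX
    exact nilpotent_of_surjective e.symm.toMonoidHom e.symm.surjective
  have h1 : K.subgroupOf X ≤ fittingSubgroup X := le_fittingSubgroup hnormal hnil
  intro y hy
  exact ⟨⟨y, hKX hy⟩, h1 hy, rfl⟩

/-! ### Parts of elements -/

/-- An element is the product of its `r`-part and its `r'`-part. -/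
theorem exists_parts (r : ℕ) [hr : Fact r.Prime] (x : G) :
    ∃ y ∈ zpowers x, ∃ z ∈ zpowers x, x = y * z ∧ PElt r y ∧ (orderOf z).Coprime r := by
  have hn : orderOf x ≠ 0 := (orderOf_pos x).ne'
  obtain ⟨k, l, hrl, hkl⟩ := Nat.exists_eq_pow_mul_and_not_dvd hn r hr.out.ne_one
  have hcop : Nat.Coprime (r ^ k) l := Nat.Coprime.pow_left k ((Nat.Prime.coprime_iff_not_dvd hr.out).mpr hrl)
  have hbez := Nat.gcd_eq_gcd_ab (r ^ k) l
  rw [Nat.Coprime.gcd_eq_one hcop] at hbez
  let A := Nat.gcdA (r ^ k) l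
  let B := Nat.gcdB (r ^ k) l
  have hb : (1 : ℤ) = (r ^ k : ℕ) * A + l * B := by exact_mod_cast hbez
  refine ⟨x ^ ((l : ℤ) * B), zpow_mem_zpowers _ _, x ^ (((r ^ k : ℕ) : ℤ) * A), zpow_mem_zpowers _ _, ?_, ?_, ?_⟩
  · rw [← zpow_add, add_comm, ← hb, zpow_one]
  · refine ⟨k, ?_⟩
    rw [← zpow_natCast, ← zpow_mul]
    have : (l : ℤ) * B * ((r ^ k : ℕ) : ℤ) = ((orderOf x : ℕ) : ℤ) * B := by
      rw [hkl]; push_cast; ring
    rw [this, zpow_mul, zpow_natCast, pow_orderOf_eq_one, one_zpow]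
  · have h1 : (x ^ (((r ^ k : ℕ) : ℤ) * A)) ^ l = 1 := by
      rw [← zpow_natCast, ← zpow_mul]
      have : (((r ^ k : ℕ) : ℤ) * A) * (l : ℤ) = ((orderOf x : ℕ) : ℤ) * A := by
        rw [hkl]; push_cast; ring
      rw [this, zpow_mul, zpow_natCast, pow_orderOf_eq_one, one_zpow]
    exact Nat.Coprime.coprime_dvd_left (orderOf_dvd_of_pow_eq_one h1)
      ((Nat.Prime.coprime_iff_not_dvd hr.out).mpr hrl).symm

/-- If `a` commutes with `c = [a,v]` and the orders are coprime then `c = 1`. -/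
theorem comm_of_comm_commute {a v : G} (h : a * (a * v * a⁻¹ * v⁻¹) = (a * v * a⁻¹ * v⁻¹) * a)
    (hc : Nat.Coprime (orderOf (a * v * a⁻¹ * v⁻¹)) (orderOf a)) : a * v = v * a := by
  set c := a * v * a⁻¹ * v⁻¹ with hcdef
  have hav : a * v = c * v * a := by rw [hcdef]; group
  have key : ∀ n : ℕ, a ^ n * v = c ^ n * v * a ^ n := by
    intro n
    induction n with
    | zero => simp
    | succ n ih =>
      have hcn : Commute a (c ^ n) := Commute.pow_right h n
      calc a ^ (n + 1) * v = a * (a ^ n * v) := by rw [pow_succ']; group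
        _ = a * (c ^ n * v * a ^ n) := by rw [ih]
        _ = (a * c ^ n) * v * a ^ n := by group
        _ = c ^ n * (a * v) * a ^ n := by rw [hcn.eq]; group
        _ = c ^ n * (c * v * a) * a ^ n := by rw [hav]
        _ = c ^ (n + 1) * v * a ^ (n + 1) := by rw [pow_succ, pow_succ']; group
  have h1 := key (orderOf a)
  rw [pow_orderOf_eq_one, one_mul, mul_one] at h1
  have h2 : c ^ orderOf a = 1 := by
    have h := congrArg (· * v⁻¹) h1
    simpa using h.symm
  have h3 : orderOf c = 1 := Nat.Coprime.eq_one_of_dvd hc (orderOf_dvd_of_pow_eq_one h2)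
  have h4 : c = 1 := orderOf_eq_one_iff.mp h3
  rw [hav, h4, one_mul]

theorem coprime_orderOf_of_pelt {p : ℕ} {a c : G} (ha : PElt p a)
    (hc : (orderOf c).Coprime p) : Nat.Coprime (orderOf c) (orderOf a) := by
  obtain ⟨k, hk⟩ := ha
  exact Nat.Coprime.coprime_dvd_right (orderOf_dvd_of_pow_eq_one hk) (Nat.Coprime.pow_right k hc)

/-- If `a` centralizes all `O_r(X)` for `r ≠ p` then `a` centralizes all `p'`-elements of `F(X)`. -/
theorem comm_of_coprime_mem_fittingOf {p : ℕ} [Fact p.Prime] {X : Subgroup G} {a : G}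
    (h : ∀ r : ℕ, r.Prime → r ≠ p → ∀ u ∈ Op r X, a * u = u * a) :
    ∀ u ∈ fittingOf X, (orderOf u).Coprime p → a * u = u * a := by
  have key : ∀ n : ℕ, ∀ u ∈ fittingOf X, orderOf u = n → (orderOf u).Coprime p → a * u = u * a := by
    intro n
    induction n using Nat.strong_induction_on with
    | _ n ih =>
      intro u hu hn hc
      by_cases h1 : orderOf u = 1
      · rw [orderOf_eq_one_iff.mp h1]; simp
      · obtain ⟨r, hr, hrd⟩ := Nat.exists_prime_and_dvd h1
        haveI : Fact r.Prime := ⟨hr⟩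
        have hrp : r ≠ p := by
          rintro rfl
          have := Nat.Coprime.coprime_dvd_left hrd hc
          rw [Nat.coprime_self] at this
          exact hr.ne_one this
        obtain ⟨y, hy, z, hz, rfl', hyr, hzr⟩ := exists_parts r u
        have hyF : y ∈ fittingOf X := (zpowers_le.mpr hu) hy
        have hzF : z ∈ fittingOf X := (zpowers_le.mpr hu) hz
        have hyO : y ∈ Op r X := mem_Op_of_pelt hyF hyr
        have hcy := h r hr hrp y hyO
        have hzord : orderOf z ∣ orderOf u := by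
          have := Subgroup.orderOf_dvd_natCard (zpowers u) hz
          rwa [Nat.card_zpowers] at this
        have hzlt : orderOf z < n := by
          rw [← hn]
          apply lt_of_le_of_ne (Nat.le_of_dvd (orderOf_pos u) hzord)
          intro heq
          rw [heq] at hzr
          have := Nat.Coprime.coprime_dvd_left hrd hzr
          rw [Nat.coprime_self] at this
          exact hr.ne_one this
        have hcz := ih _ hzlt z hzF rfl (Nat.Coprime.coprime_dvd_left hzord hc)
        rw [rfl', ← mul_assoc, hcy, mul_assoc, hcz, mul_assoc]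
  intro u hu hc
  exact key _ u hu rfl hc

/-- **Lemma 1.** A `p`-element `a` of the solvable group `X` centralizing `O_r(X)` for `r ≠ p`
centralizes `O_{p'}(X)`. -/
theorem comm_Opp_of_pelt {p : ℕ} [hp : Fact p.Prime] {X : Subgroup G} (hX : Group.IsSolvable X)
    {a : G} (haX : a ∈ X) (hap : PElt p a)
    (h : ∀ r : ℕ, r.Prime → r ≠ p → ∀ u ∈ Op r X, a * u = u * a) :
    ∀ d ∈ Opp p X, a * d = d * a := by
  intro d hd
  have hdX := Opp_le p X hd
  set c := a * d * a⁻¹ * d⁻¹ with hcdef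
  have hcO : c ∈ Opp p X :=
    (Opp p X).mul_mem (conj_mem_of_normalizer (le_normalizer_Opp p X haX) hd) ((Opp p X).inv_mem hd)
  have hcX := Opp_le p X hcO
  have hcF : c ∈ fittingOf X := by
    apply mem_fittingOf_of_commute_Op hX hcX
    intro r hr u hu
    by_cases hrp : r = p
    · subst hrp
      exact (Op_comm_Opp r X u hu c hcO).symm
    · haveI : Fact r.Prime := ⟨hr⟩
      have hu1 : d⁻¹ * u * d ∈ Op r X := inv_conj_mem_of_normalizer (le_normalizer_Op r X hdX) hu
      have h1 := h r hr hrp u hu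
      have h2 := h r hr hrp _ hu1
      have h3 : a⁻¹ * (d⁻¹ * u * d) = (d⁻¹ * u * d) * a⁻¹ := Commute.inv_left h2
      calc c * u = a * d * (a⁻¹ * (d⁻¹ * u * d)) * d⁻¹ := by rw [hcdef]; group
        _ = a * d * ((d⁻¹ * u * d) * a⁻¹) * d⁻¹ := by rw [h3]
        _ = (a * u) * d * a⁻¹ * d⁻¹ := by group
        _ = (u * a) * d * a⁻¹ * d⁻¹ := by rw [h1]
        _ = u * c := by rw [hcdef]; group
  have hcc : (orderOf c).Coprime p := orderOf_coprime_of_mem_Opp hcO
  have hac : a * c = c * a := comm_of_coprime_mem_fittingOf h c hcF hcc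
  exact comm_of_comm_commute hac (coprime_orderOf_of_pelt hap hcc)

/-- **Lemma 2** (the core of Bender's maximal subgroup lemma). -/
theorem comm_bender {p : ℕ} [hp : Fact p.Prime] {X : Subgroup G} (hX : Group.IsSolvable X)
    {x d : G} (hxX : x ∈ X) (hxp : PElt p x) (hxc : ∀ u ∈ Opp p X, x * u = u * x)
    (hdX : d ∈ X) (hdp : (orderOf d).Coprime p) (hdc : ∀ u ∈ Op p X, d * u = u * d) :
    x * d = d * x := by
  set c := x * d * x⁻¹ * d⁻¹ with hcdef
  have hcX : c ∈ X := X.mul_mem (X.mul_mem (X.mul_mem hxX hdX) (X.inv_mem hxX)) (X.inv_mem hdX)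
  have hinv : ∀ {a b : G}, a * b = b * a → a⁻¹ * b = b * a⁻¹ := fun hab => Commute.inv_left hab
  have hcF : c ∈ fittingOf X := by
    apply mem_fittingOf_of_commute_Op hX hcX
    intro r hr u hu
    by_cases hrp : r = p
    · subst hrp
      have h1 := hdc u hu
      have h2 : x⁻¹ * u * x ∈ Op r X := inv_conj_mem_of_normalizer (le_normalizer_Op r X hxX) hu
      have h3 := hdc _ h2
      have h4 := hinv h1
      calc c * u = x * d * x⁻¹ * (d⁻¹ * u) := by rw [hcdef]; group
        _ = x * d * x⁻¹ * (u * d⁻¹) := by rw [h4]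
        _ = x * (d * (x⁻¹ * u * x)) * x⁻¹ * d⁻¹ := by group
        _ = x * ((x⁻¹ * u * x) * d) * x⁻¹ * d⁻¹ := by rw [h3]
        _ = u * c := by rw [hcdef]; group
    · haveI : Fact r.Prime := ⟨hr⟩
      have huO : u ∈ Opp p X := Op_le_Opp hrp X hu
      have h1 := hxc u huO
      have h2 : d⁻¹ * u * d ∈ Opp p X := inv_conj_mem_of_normalizer (le_normalizer_Opp p X hdX) huO
      have h3 := hxc _ h2
      have h4 := hinv h3
      calc c * u = x * d * (x⁻¹ * (d⁻¹ * u * d)) * d⁻¹ := by rw [hcdef]; group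
        _ = x * d * ((d⁻¹ * u * d) * x⁻¹) * d⁻¹ := by rw [h4]
        _ = (x * u) * d * x⁻¹ * d⁻¹ := by group
        _ = (u * x) * d * x⁻¹ * d⁻¹ := by rw [h1]
        _ = u * c := by rw [hcdef]; group
  obtain ⟨a, ha, b, hb, hab⟩ := exists_mul_of_mem_fittingOf p hcF
  have haX := Op_le p X ha
  -- the powers
  have hpow : ∀ n : ℕ, ∃ b' ∈ Opp p X, (c * d) ^ n = (a * d) ^ n * b' := by
    intro n
    have hb1 : d⁻¹ * b * d ∈ Opp p X := inv_conj_mem_of_normalizer (le_normalizer_Opp p X hdX) hb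
    have hcd : c * d = (a * d) * (d⁻¹ * b * d) := by rw [hab]; group
    induction n with
    | zero => exact ⟨1, one_mem _, by simp⟩
    | succ n ih =>
      obtain ⟨b', hb', he⟩ := ih
      have hadX : a * d ∈ X := X.mul_mem haX hdX
      refine ⟨(a * d)⁻¹ * b' * (a * d) * (d⁻¹ * b * d),
        (Opp p X).mul_mem (inv_conj_mem_of_normalizer (le_normalizer_Opp p X hadX) hb') hb1, ?_⟩
      rw [pow_succ, he, hcd, pow_succ]
      group
  have hcd' : c * d = x * d * x⁻¹ := by rw [hcdef]; group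
  have hn1 : (c * d) ^ orderOf d = 1 := by
    rw [hcd', conj_pow, pow_orderOf_eq_one]; simp
  obtain ⟨b', hb', he⟩ := hpow (orderOf d)
  have hadc : Commute a d := (hdc a ha).symm
  have han : a ^ orderOf d ∈ Opp p X := by
    rw [hn1, hadc.mul_pow, pow_orderOf_eq_one, mul_one] at he
    have : a ^ orderOf d = b'⁻¹ := by
      rw [eq_inv_iff_mul_eq_one]; exact he.symm
    rw [this]
    exact (Opp p X).inv_mem hb'
  have hap : PElt p a := pelt_of_mem_Op ha
  have h1 : a ^ orderOf d = 1 := eq_one_of_pelt_of_coprime (pelt_pow hap _) (orderOf_coprime_of_mem_Opp han)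
  have ha1 : a = 1 := by
    apply eq_one_of_pelt_of_coprime hap
    exact Nat.Coprime.coprime_dvd_left (orderOf_dvd_of_pow_eq_one h1) hdp
  have hcb : c = b := by rw [hab, ha1, one_mul]
  have hcO : c ∈ Opp p X := hcb ▸ hb
  have hxcc : x * c = c * x := hxc c hcO
  exact comm_of_comm_commute hxcc (coprime_orderOf_of_pelt hxp (orderOf_coprime_of_mem_Opp hcO))

theorem coprime_of_pelt {p r : ℕ} [hp : Fact p.Prime] [hr : Fact r.Prime] (hpr : p ≠ r) {x : G}
    (h : PElt r x) : (orderOf x).Coprime p := by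
  obtain ⟨k, hk⟩ := h
  exact Nat.Coprime.coprime_dvd_left (orderOf_dvd_of_pow_eq_one hk)
    (Nat.Coprime.pow_left k ((Nat.coprime_primes hr.out hp.out).mpr hpr.symm))

/-- **Lemma 3.**  Normalizer argument in an `r`-group. -/
theorem comm_of_pair {p r : ℕ} [hp : Fact p.Prime] [hr : Fact r.Prime] (hpr : p ≠ r)
    {L B B' E : Subgroup G} (hB : IsPGroup p B) (hB' : IsPGroup r B') (hE : IsPGroup r E)
    (hBE : B ≤ normalizer (E : Set G)) (hB'E : B' ≤ normalizer (E : Set G))
    (hBB' : ∀ b ∈ B, ∀ b' ∈ B', b * b' = b' * b)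
    (hLB : L ≤ normalizer (B : Set G)) (hNB : normalizer (B : Set G) ≤ L)
    (hNB' : normalizer (B' : Set G) ≤ L) :
    E ≤ L ∧ ∀ b ∈ B, ∀ e ∈ E, b * e = e * b := by
  classical
  have hB'L : B' ≤ L := le_normalizer.trans hNB'
  have hinf : B ⊓ E = ⊥ := by
    apply CoprimeInv.inf_eq_bot_of_coprime'
    obtain ⟨k, hk⟩ := IsPGroup.iff_card.mp hB
    obtain ⟨l, hl⟩ := IsPGroup.iff_card.mp hE
    rw [hk, hl]
    exact Nat.Coprime.pow k l ((Nat.coprime_primes hp.out hr.out).mpr hpr)
  -- fact 1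
  have f1 : ∀ e ∈ E, e ∈ L → ∀ b ∈ B, b * e = e * b := by
    intro e he heL b hb
    have h1 : e * b * e⁻¹ ∈ B := conj_mem_of_normalizer (hLB heL) hb
    have h2 : e * (b * e⁻¹ * b⁻¹) ∈ E :=
      E.mul_mem he (conj_mem_of_normalizer (hBE hb) (E.inv_mem he))
    have h3 : e * b * e⁻¹ * b⁻¹ ∈ B ⊓ E :=
      mem_inf.mpr ⟨B.mul_mem h1 (B.inv_mem hb), by simpa [mul_assoc] using h2⟩
    rw [hinf, mem_bot, mul_inv_eq_one, mul_inv_eq_iff_eq_mul] at h3
    exact h3.symm
  let P : Subgroup G := E ⊔ B'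
  have hP : IsPGroup r P := by
    have := CoprimeInv.isPGroup_sup_of_le_normalizer hB' hE hB'E
    rwa [sup_comm] at this
  have hcoe : (P : Set G) = (E : Set G) * (B' : Set G) :=
    coe_mul_of_right_le_normalizer_left E B' hB'E
  let W : Subgroup G := P ⊓ L
  have hB'W : B' ≤ W := le_inf le_sup_right hB'L
  have f2 : ∀ w ∈ W, ∀ b ∈ B, b * w = w * b := by
    intro w hw b hb
    have hwP : w ∈ (P : Set G) := (mem_inf.mp hw).1
    rw [hcoe] at hwP
    obtain ⟨e, he, b', hb', rfl⟩ := hwP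
    have heL : e ∈ L := by
      have : e = (e * b') * b'⁻¹ := by group
      rw [this]
      exact L.mul_mem (mem_inf.mp hw).2 (L.inv_mem (hB'L hb'))
    have h1 := f1 e he heL b hb
    have h2 := hBB' b hb b' hb'
    rw [← mul_assoc, h1, mul_assoc, h2, mul_assoc]
  by_cases hWP : W = P
  · have hEL : E ≤ L := by
      intro e he
      have : e ∈ W := by rw [hWP]; exact mem_sup_left he
      exact (mem_inf.mp this).2
    exact ⟨hEL, fun b hb e he => f1 e he (hEL he) b hb⟩
  · exfalso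
    have hlt : W < P := lt_of_le_of_ne inf_le_left hWP
    obtain ⟨t, htP, htW, htN⟩ := CoprimeInv.exists_mem_normalizer_of_lt hP hlt
    have htP' : t ∈ (P : Set G) := htP
    rw [hcoe] at htP'
    obtain ⟨e, he, b', hb', rfl⟩ := htP'
    have hb'W := hB'W hb'
    have heN : e ∈ normalizer (W : Set G) := by
      have : e = (e * b') * b'⁻¹ := by group
      rw [this]
      exact (normalizer (W : Set G)).mul_mem htN (inv_mem (le_normalizer hb'W))
    have heW : e ∉ W := fun h => htW (W.mul_mem h hb'W)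
    have hebB : ∀ b ∈ B, e * b = b * e := by
      intro b hb
      have hy : e * b * e⁻¹ ∈ normalizer (B : Set G) := by
        apply hLB
        apply hNB'
        apply BGTrans.centralizer_le_normalizer
        rw [mem_centralizer_iff]
        intro b₀ hb₀
        have h1 : e⁻¹ * b₀ * e ∈ W := inv_conj_mem_of_normalizer heN (hB'W hb₀)
        have h2 := f2 _ h1 b hb
        calc b₀ * (e * b * e⁻¹) = e * ((e⁻¹ * b₀ * e) * b) * e⁻¹ := by group
          _ = e * (b * (e⁻¹ * b₀ * e)) * e⁻¹ := by rw [h2]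
          _ = (e * b * e⁻¹) * b₀ := by group
      have hCN : CoprimeInv.cj B e ≤ normalizer (B : Set G) := by
        intro x hx
        obtain ⟨b₁, hb₁, rfl⟩ := hx
        have hy1 : e * b₁ * e⁻¹ ∈ normalizer (B : Set G) := by
          apply hLB
          apply hNB'
          apply BGTrans.centralizer_le_normalizer
          rw [mem_centralizer_iff]
          intro b₀ hb₀
          have h1 : e⁻¹ * b₀ * e ∈ W := inv_conj_mem_of_normalizer heN (hB'W hb₀)
          have h2 := f2 _ h1 b₁ hb₁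
          calc b₀ * (e * b₁ * e⁻¹) = e * ((e⁻¹ * b₀ * e) * b₁) * e⁻¹ := by group
            _ = e * (b₁ * (e⁻¹ * b₀ * e)) * e⁻¹ := by rw [h2]
            _ = (e * b₁ * e⁻¹) * b₀ := by group
        simpa [MulAut.conj_apply] using hy1
      have hCp : IsPGroup p (CoprimeInv.cj B e) := hB.map _
      have hSp : IsPGroup p (CoprimeInv.cj B e ⊔ B : Subgroup G) :=
        CoprimeInv.isPGroup_sup_of_le_normalizer hCp hB hCN
      have hm1 : e * b * e⁻¹ * b⁻¹ ∈ (CoprimeInv.cj B e ⊔ B : Subgroup G) :=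
        mul_mem (mem_sup_left (CoprimeInv.conj_mem_cj hb)) (mem_sup_right (inv_mem hb))
      have hm2 : e * b * e⁻¹ * b⁻¹ ∈ E := by
        have : e * (b * e⁻¹ * b⁻¹) ∈ E :=
          E.mul_mem he (conj_mem_of_normalizer (hBE hb) (E.inv_mem he))
        simpa [mul_assoc] using this
      have h1 : e * b * e⁻¹ * b⁻¹ = 1 :=
        eq_one_of_pelt_of_coprime (p := p) (pelt_of_mem_pgroup hSp hm1)
          (coprime_of_pelt hpr (pelt_of_mem_pgroup hE hm2))
      rw [mul_inv_eq_one, mul_inv_eq_iff_eq_mul] at h1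
      exact h1
    have heL : e ∈ L := by
      apply hNB
      apply BGTrans.centralizer_le_normalizer
      rw [mem_centralizer_iff]
      intro b hb
      exact (hebB b hb).symm
    exact heW (mem_inf.mpr ⟨mem_sup_left he, heL⟩)

/-- **Lemma 4** (a form of Lemma B). -/
theorem lemmaB {p : ℕ} [hp : Fact p.Prime] {F H W T : Subgroup G} {a : G}
    (hHF : H ≤ normalizer (F : Set G)) (hW : IsPGroup p W) (hT : IsPGroup p T)
    (haF : a ∈ F) (haW : a ∈ normalizer (W : Set G)) (hTW : T ≤ normalizer (W : Set G))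
    (hcomm : ∀ u ∈ T, a * u = u * a) (hcop : (orderOf a).Coprime p)
    (hCT : centralizer (T : Set G) ≤ H)
    (hFp : ∀ c ∈ F, PElt p c → a * c = c * a) :
    ∀ v ∈ W, a * v = v * a := by
  apply CompFitting.ab_lemma W T a hW hT (fun v hv => conj_mem_of_normalizer haW hv)
    (fun t ht v hv => conj_mem_of_normalizer (hTW ht) hv) hcomm hcop
  intro v hv hvT
  have hvH : v ∈ H := hCT (mem_centralizer_iff.mpr fun u hu => hvT u hu)
  have hcF : a * v * a⁻¹ * v⁻¹ ∈ F := by
    have : a * (v * a⁻¹ * v⁻¹) ∈ F :=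
      F.mul_mem haF (conj_mem_of_normalizer (hHF hvH) (F.inv_mem haF))
    simpa [mul_assoc] using this
  have hcW : a * v * a⁻¹ * v⁻¹ ∈ W :=
    W.mul_mem (conj_mem_of_normalizer haW hv) (W.inv_mem hv)
  have hcp : PElt p (a * v * a⁻¹ * v⁻¹) := pelt_of_mem_pgroup hW hcW
  exact comm_of_comm_commute (hFp _ hcF hcp) (coprime_orderOf_of_pelt hcp hcop).symm

/-! ### Maximal local subgroups -/

/-- `H` is the normalizer of every nontrivial `p`-subgroup that it normalizes. -/
def HMaxLocal (H : Subgroup G) : Prop :=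
  ∀ (p : ℕ) (T : Subgroup G), p.Prime → IsPGroup p T → T ≠ ⊥ → H ≤ normalizer (T : Set G) →
    normalizer (T : Set G) = H

/-- `Z(O_p(H))`-like subgroup: the part of `O_p(H)` central in `F(H)`. -/
def Zp (p : ℕ) (H : Subgroup G) : Subgroup G := Op p H ⊓ centralizer (fittingOf H : Set G)

theorem Op_ne_bot_of_dvd {p : ℕ} [hp : Fact p.Prime] {H : Subgroup G}
    (hd : p ∣ Nat.card (fittingOf H)) : Op p H ≠ ⊥ := by
  obtain ⟨x, hx⟩ := exists_prime_orderOf_dvd_card' p hd
  intro h
  have h1 : (x : G) ∈ Op p H := by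
    apply mem_Op_of_pelt x.2
    refine ⟨1, ?_⟩
    rw [pow_one]
    have := pow_orderOf_eq_one x
    rw [hx] at this
    exact_mod_cast congrArg Subtype.val this
  rw [h, mem_bot] at h1
  have h2 : x = 1 := Subtype.ext h1
  rw [h2, orderOf_one] at hx
  exact hp.out.ne_one hx.symm

theorem dvd_of_Op_ne_bot {p : ℕ} [hp : Fact p.Prime] {H : Subgroup G} (h : Op p H ≠ ⊥) :
    p ∣ Nat.card (fittingOf H) := by
  have h1 : Nat.card (Op p H) ∣ Nat.card (fittingOf H) :=
    Subgroup.card_dvd_of_le (Op_le_fittingOf p H)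
  obtain ⟨k, hk⟩ := IsPGroup.iff_card.mp (isPGroup_Op p H)
  rcases k with _ | k
  · exfalso
    apply h
    exact Subgroup.eq_bot_of_card_eq (Op p H) (by rw [hk, pow_zero])
  · rw [hk] at h1
    exact (dvd_pow_self p (Nat.succ_ne_zero k)).trans h1

theorem isPGroup_Zp (p : ℕ) [Fact p.Prime] (H : Subgroup G) : IsPGroup p (Zp p H) :=
  (isPGroup_Op p H).to_le inf_le_left

theorem Zp_ne_bot {p : ℕ} [hp : Fact p.Prime] {H : Subgroup G}
    (hd : p ∣ Nat.card (fittingOf H)) : Zp p H ≠ ⊥ := by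
  have hne := Op_ne_bot_of_dvd hd
  haveI : IsPGroup p (Op p H) := isPGroup_Op p H
  haveI : Nontrivial (Op p H) := (Subgroup.nontrivial_iff_ne_bot _).mpr hne
  have hc : Nontrivial (center (Op p H)) := (isPGroup_Op p H).center_nontrivial
  obtain ⟨z, hz⟩ := exists_ne (1 : center (Op p H))
  have hz1 : ((z : Op p H) : G) ≠ 1 := by
    intro h
    apply hz
    apply Subtype.ext
    apply Subtype.ext
    exact h
  have hzO : ((z : Op p H) : G) ∈ Op p H := (z : Op p H).2
  intro hb
  have hmem : ((z : Op p H) : G) ∈ Zp p H := by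
    refine mem_inf.mpr ⟨hzO, ?_⟩
    rw [mem_centralizer_iff]
    intro u hu
    obtain ⟨a, ha, b, hb', rfl⟩ := exists_mul_of_mem_fittingOf p hu
    have h1 : a * ((z : Op p H) : G) = ((z : Op p H) : G) * a := by
      have := mem_center_iff.mp z.2 ⟨a, ha⟩
      exact congrArg Subtype.val this
    have h2 : b * ((z : Op p H) : G) = ((z : Op p H) : G) * b :=
      (Op_comm_Opp p H _ hzO b hb').symm
    rw [mul_assoc, h2, ← mul_assoc, h1, mul_assoc]
  rw [hb, mem_bot] at hmem
  exact hz1 hmem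

theorem le_normalizer_Zp (p : ℕ) (H : Subgroup G) : H ≤ normalizer (Zp p H : Set G) :=
  CoprimeInv.le_normalizer_inf (le_normalizer_Op p H)
    ((le_normalizer_fittingOf H).trans (BGTrans.normalizer_le_normalizer_centralizer _))

theorem centralizer_Zp_le {p : ℕ} [hp : Fact p.Prime] {H : Subgroup G} (hH : HMaxLocal H)
    (hd : p ∣ Nat.card (fittingOf H)) : centralizer (Zp p H : Set G) ≤ H := by
  have h1 := hH p _ hp.out (isPGroup_Zp p H) (Zp_ne_bot hd) (le_normalizer_Zp p H)
  exact (BGTrans.centralizer_le_normalizer (Zp p H)).trans h1.le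

theorem Zp_le_Tp {p : ℕ} [hp : Fact p.Prime] {H M : Subgroup G}
    (hZM : fittingOf H ⊓ centralizer (fittingOf H : Set G) ≤ M) : Zp p H ≤ M ⊓ Op p H := by
  intro z hz
  obtain ⟨h1, h2⟩ := mem_inf.mp hz
  exact mem_inf.mpr ⟨hZM (mem_inf.mpr ⟨Op_le_fittingOf p H h1, h2⟩), h1⟩

theorem centralizer_Tp_le {p : ℕ} [hp : Fact p.Prime] {H M : Subgroup G} (hH : HMaxLocal H)
    (hZM : fittingOf H ⊓ centralizer (fittingOf H : Set G) ≤ M)
    (hd : p ∣ Nat.card (fittingOf H)) : centralizer ((M ⊓ Op p H : Subgroup G) : Set G) ≤ H :=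
  (centralizer_le (Zp_le_Tp hZM)).trans (centralizer_Zp_le hH hd)

/-- **Lemma B** for `H`: with `T = M ∩ O_p(H)`, an element of `O_t(H)`, `t ≠ p`,
normalizing a `p`-subgroup `W` that `T` normalizes centralizes `W`. -/
theorem lemmaB_inst {p t : ℕ} [hp : Fact p.Prime] [ht : Fact t.Prime] (hpt : p ≠ t)
    {H M W : Subgroup G} (hH : HMaxLocal H)
    (hZM : fittingOf H ⊓ centralizer (fittingOf H : Set G) ≤ M)
    (hd : p ∣ Nat.card (fittingOf H)) (hW : IsPGroup p W)
    (hTW : (M ⊓ Op p H : Subgroup G) ≤ normalizer (W : Set G)) {a : G} (ha : a ∈ Op t H)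
    (haW : a ∈ normalizer (W : Set G)) : ∀ v ∈ W, a * v = v * a := by
  have hap : PElt t a := pelt_of_mem_Op ha
  have hcop : (orderOf a).Coprime p := coprime_of_pelt hpt hap
  exact lemmaB (F := fittingOf H) (H := H) (T := M ⊓ Op p H) (le_normalizer_fittingOf H) hW
    ((isPGroup_Op p H).to_le inf_le_right) (Op_le_fittingOf t H ha) haW hTW
    (fun u hu => (Op_comm_Op hpt H u (mem_inf.mp hu).2 a ha).symm) hcop
    (centralizer_Tp_le hH hZM hd)
    (fun c hc hcp => (comm_of_mem_fittingOf hc (Op_le_fittingOf t H ha) hcp hcop).symm)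

theorem Op_eq_bot_of_not_dvd {r : ℕ} {H : Subgroup G} (hr : r.Prime)
    (hd : ¬ r ∣ Nat.card (fittingOf H)) : Op r H = ⊥ := by
  haveI : Fact r.Prime := ⟨hr⟩
  by_contra h
  exact hd (dvd_of_Op_ne_bot h)

/-- The subgroup generated by the `p`-elements of `C_G(D)` is normalized by `N_G(D)`. -/
theorem normalizer_le_closure_pelt (p : ℕ) (D : Subgroup G) :
    normalizer (D : Set G) ≤
      normalizer ((closure {x | PElt p x ∧ x ∈ centralizer (D : Set G)} : Subgroup G) : Set G) := by
  intro g hg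
  rw [CoprimeInv.mem_normalizer_iff_cj]
  unfold CoprimeInv.cj
  rw [MonoidHom.map_closure]
  congr 1
  ext x
  have hgc : g ∈ normalizer (centralizer (D : Set G) : Set G) :=
    BGTrans.normalizer_le_normalizer_centralizer D hg
  constructor
  · rintro ⟨y, ⟨⟨k, hk⟩, hy⟩, rfl⟩
    refine ⟨⟨k, ?_⟩, ?_⟩
    · show (g * y * g⁻¹) ^ p ^ k = 1
      rw [conj_pow, hk]; simp
    · exact conj_mem_of_normalizer hgc hy
  · rintro ⟨⟨k, hk⟩, hx⟩
    refine ⟨g⁻¹ * x * g, ⟨⟨k, ?_⟩, inv_conj_mem_of_normalizer hgc hx⟩, by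
      show g * (g⁻¹ * x * g) * g⁻¹ = x
      group⟩
    have : g⁻¹ * x * g = g⁻¹ * x * g⁻¹⁻¹ := by simp
    rw [this, conj_pow, hk]; simp

end Finite

end Cfsg.Agent.Lib.FitPair
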