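import Mathlib
import Cfsg.Agent.Lib.FixIso
import Cfsg.Agent.Lib.Chev.TwD4BN
import Cfsg.Agent.Lib.Chev.TwD4P
import Cfsg.Agent.Lib.Chev.RelG2
import Cfsg.Agent.Lib.Chev.RootG2

/-!
# The fixed points of the graph automorphism of `chevD4`: the group `chevG2`
-/

set_option autoImplicit false
set_option linter.unusedSectionVars false
set_option linter.unusedVariables false

namespace Cfsg.Agent.Lib.FixD4

open Cfsg Cfsg.Lie Matrix Equiv Cfsg.Agent.Lib.Chev Cfsg.Agent.Lib.FixIso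

/-- The sparse columns of the embedding of the Lie lattices. -/
def tbl : List (List (ℕ × ℤ)) :=
  [[(0, 1), (2, 1), (3, 1)],
  [(1, 1)],
  [(4, -1)],
  [(5, -1)],
  [(6, -1), (7, -1), (10, 1)],
  [(8, 1), (11, -1), (12, -1)],
  [(9, 1), (14, 1), (15, 1)],
  [(13, 1)],
  [(18, 1)],
  [(16, 1), (17, 1), (22, 1)],
  [(19, -1), (20, -1), (23, 1)],
  [(21, 1), (24, -1), (25, -1)],
  [(26, -1)],
  [(27, -1)]]

/-- The column of a flat index -/
def Lc (c : ℕ) : List (ℕ × ℤ) := tbl.getD c []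

/-- The node of the small diagram of a node of the big diagram. -/
def m : ℕ → ℕ
  | 1 => 1
  | _ => 0

theorem hS : Full TabG2.T TabG2.X RootG2T.R chevG2 := ⟨RelG2.checks, RootG2.checks⟩

theorem chk_pos : ∀ i < chevD4.rank, checkItw TabD4.T TabG2.T Lc
    (rsOf TwTabD4.S.r (chevD4.simple (TwD4.A i)) (TwD4.dd i)) (chevG2.simple (m i)) = true := by
  decide +kernel

theorem chk_neg : ∀ i < chevD4.rank, checkItw TabD4.T TabG2.T Lc
    (rsOf TwTabD4.S.r (chevD4.neg (chevD4.simple (TwD4.A i))) (TwD4.dd i))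
    (chevG2.neg (chevG2.simple (m i))) = true := by
  decide +kernel

theorem chk_inj : checkInj TabD4.T TabG2.T Lc = true := by decide +kernel

theorem m_lt : ∀ i < chevD4.rank, m i < chevG2.rank := by decide +kernel

theorem m_surj : ∀ k < chevG2.rank, ∃ i < chevD4.rank, m i = k := by decide +kernel

variable {F : Type*} [Field F] [Fintype F]

theorem iter_refl (k : ℕ) (t : F) : (RingEquiv.refl F)^[k] t = t := by
  induction k with
  | zero => rfl
  | succ k ih => rw [Function.iterate_succ_apply', ih]; rfl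

theorem itw : Itw (TwD4.sc (RingEquiv.refl F)) hS (pMat chevD4 chevG2 F Lc) m where
  all_t := fun i _ t => iter_refl _ t
  m_lt := m_lt
  m_surj := m_surj
  inj := pMat_inj TwD4.hF hS Lc chk_inj
  pos := fun i hi t => by
    rw [Checks.coe_wordG, cw_refl]
    exact itw_of_check TwD4.hF hS Lc _ _ (chk_pos i hi) t
  neg := fun i hi t => by
    rw [Checks.coe_wordG, cw_refl]
    exact itw_of_check TwD4.hF hS Lc _ _ (chk_neg i hi) t

theorem hnt : ∃ y ∈ (TwD4.sc (RingEquiv.refl F)).G1, ∀ b ∈ chevD4.borelSubgroup F,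
    (b : Matrix chevD4.Idx chevD4.Idx F) * pMat chevD4 chevG2 F Lc ≠
      (y : Matrix chevD4.Idx chevD4.Idx F) * pMat chevD4 chevG2 F Lc := by
  have hi : 1 < chevD4.rank := by decide
  have hs := TwD4.hF.simple_lt hi
  refine ⟨TwD4.hF.c.xG (chevD4.neg (chevD4.simple 1)) 1, ?_, ?_⟩
  · have h1 : TwD4.hF.c.wordG (cw TwTabD4.S.r (RingEquiv.refl F) (chevD4.neg (chevD4.simple (TwD4.A 1))) (TwD4.dd 1) 1) ∈
        (TwD4.sc (RingEquiv.refl F)).G1 :=
      Subgroup.subset_closure ⟨1, hi, 1, iter_refl _ _, Or.inr rfl⟩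
    have h2 : TwD4.hF.c.wordG (cw TwTabD4.S.r (RingEquiv.refl F) (chevD4.neg (chevD4.simple (TwD4.A 1))) (TwD4.dd 1) 1) =
        TwD4.hF.c.xG (chevD4.neg (chevD4.simple 1)) 1 := by
      show TwD4.hF.c.wordG [(chevD4.neg (chevD4.simple 1), (1 : F))] = _
      rw [Checks.wordG_cons, Checks.wordG_nil, mul_one]
    rwa [h2] at h1
  · intro b hb
    exact nt_of TwD4.hF Lc hs (TwD4.hF.simple_ge hi) (c₀ := 8) (by decide) (by decide +kernel) hb

/-- The fixed points of the twist. -/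
theorem main : Nonempty (↥(TwD4.τ (RingEquiv.refl F)).Fx ≃* ↥(chevG2.group F)) :=
  itw.nonempty_equiv (fun c hc => TwD4.hκ (fun t => iter_refl _ t) c hc) (TwD4.hmem _) TwD4.hJJ TwD4.conn hnt

/-- The twist acts on the fundamental root elements as the diagram symmetry. -/
theorem graph_eq (φ : ↥(chevD4.group F) →* ↥(chevD4.group F)) (π₀ : Fin chevD4.rank → Fin chevD4.rank)
    (hπ : ∀ i : Fin chevD4.rank, (π₀ i : ℕ) = TwTabD4.S.p i)
    (hφ : ∀ (g : ↥(chevD4.group F)) (i : Fin chevD4.rank) (t : F),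
      (((g : GL chevD4.Idx F) : Matrix chevD4.Idx chevD4.Idx F) = chevD4.x F (chevD4.simple i) t →
        ((φ g : GL chevD4.Idx F) : Matrix chevD4.Idx chevD4.Idx F) = chevD4.x F (chevD4.simple (π₀ i)) t) ∧
      (((g : GL chevD4.Idx F) : Matrix chevD4.Idx chevD4.Idx F) = chevD4.x F (chevD4.neg (chevD4.simple i)) t →
        ((φ g : GL chevD4.Idx F) : Matrix chevD4.Idx chevD4.Idx F) = chevD4.x F (chevD4.neg (chevD4.simple (π₀ i))) t))
    (g : ↥(chevD4.group F)) : φ g = (TwD4.τ (RingEquiv.refl F)).σ g :=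
  hom_eq_σ (TwD4.sc (RingEquiv.refl F)) (fun _ => rfl) φ π₀ hπ hφ g

/-- Abstract fixed points. -/
theorem equiv_of_graph (φ : ↥(chevD4.group F) →* ↥(chevD4.group F)) (π₀ : Fin chevD4.rank → Fin chevD4.rank)
    (hπ : ∀ i : Fin chevD4.rank, (π₀ i : ℕ) = TwTabD4.S.p i)
    (hφ : ∀ (g : ↥(chevD4.group F)) (i : Fin chevD4.rank) (t : F),
      (((g : GL chevD4.Idx F) : Matrix chevD4.Idx chevD4.Idx F) = chevD4.x F (chevD4.simple i) t →
        ((φ g : GL chevD4.Idx F) : Matrix chevD4.Idx chevD4.Idx F) = chevD4.x F (chevD4.simple (π₀ i)) t) ∧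
      (((g : GL chevD4.Idx F) : Matrix chevD4.Idx chevD4.Idx F) = chevD4.x F (chevD4.neg (chevD4.simple i)) t →
        ((φ g : GL chevD4.Idx F) : Matrix chevD4.Idx chevD4.Idx F) = chevD4.x F (chevD4.neg (chevD4.simple (π₀ i))) t))
    (H : Subgroup ↥(chevD4.group F)) (hH : ∀ g, g ∈ H ↔ φ g = g) :
    Nonempty (↥H ≃* ↥(chevG2.group F)) := by
  obtain ⟨e⟩ := main (F := F)
  refine ⟨(fixEquiv H ?_).trans e⟩
  intro g
  rw [hH, graph_eq φ π₀ hπ hφ g, Tw.s_eq _ g.2]
  exact Subtype.ext_iff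

end Cfsg.Agent.Lib.FixD4
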