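import Mathlib
import Cfsg.Prelude.Def_BlockLocal
import Cfsg.Agent.Lib.BlockKnorr
import Cfsg.Agent.Lib.PConstr
import Cfsg.Agent.Lib.GlaubCorr
import Cfsg.Agent.Lib.BlockSecond
import Cfsg.Agent.Lib.BlkFong
import Cfsg.Agent.Lib.BlockInduced

/-!
# Blocks over an invariant character of `O_{p'}(G)` in a `p`-constrained group

`G` is `p`-constrained, `K = O_{p'}(G)`, `θ ∈ Irr(K)` is `G`-invariant.  The set of characters of `G`
over `θ` is a single `p`-block, every Sylow `p`-subgroup of `G` is a defect group, and for each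
`p`-subgroup `R` exactly one block of `C_G(R)` induces it.

The idempotent of the block is `ε = ext0 K e_θ`.  Its Brauer image at a `p`-subgroup `S` is congruent
to a unit times the idempotent of the Glauberman correspondent of `θ` for `S`.
-/

set_option autoImplicit false
set_option linter.unusedSectionVars false
set_option linter.unusedVariables false
set_option linter.style.haveILetI false

namespace Cfsg.Agent.Lib.FongPrincipal

open Cfsg Cfsg.Agent.Lib.CharBasic Cfsg.Agent.Lib.CharInd Cfsg.Agent.Lib.CharIntegrality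
open Cfsg.Agent.Lib.BlockLocal Cfsg.Agent.Lib.BlockIdem Cfsg.Agent.Lib.BlkBasic
open Cfsg.Agent.Lib.CharInduction Cfsg.Agent.Lib.CharClifford Cfsg.Agent.Lib.BlkNormalSub
open Cfsg.Agent.Lib.BrauerMap Cfsg.Agent.Lib.BrauerPair Cfsg.Agent.Lib.BlockDefect
open Cfsg.Agent.Lib.BlkFong Cfsg.Agent.Lib.GlaubCorr Cfsg.Agent.Lib.BlockSecond
open Cfsg.Agent.Lib.CharKernel
open scoped ComplexConjugate

universe u

section Glaub

variable {N C : Type u} [Group N] [Fintype N] [Group C] [Fintype C] {p : ℕ} {M : Ideal AlgInt}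

/-- The idempotent of a single character. -/
theorem blockCoeff_singleton (θ : IrrCharacter N) (g : N) :
    blockCoeff ({θ} : Set (IrrCharacter N)) g = ec (θ : N → ℂ) g := by
  classical
  rw [blockCoeff_apply, Finset.sum_eq_single θ]
  · rw [blkInd_of_mem (Set.mem_singleton θ), one_mul]
  · intro b _ hb
    rw [blkInd_of_not_mem (by simpa using hb), zero_mul]
  · intro h
    exact absurd (Finset.mem_univ _) h

/-- The constituent of multiplicity prime to `p`, all the others having multiplicity divisible by `p`. -/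
structure IsGlaub (p : ℕ) (ι : C →* N) (θ : IrrCharacter N) (τ : IrrCharacter C) : Prop where
  mem : ∃ m : ℕ, classInner (fun c => (θ : N → ℂ) (ι c)) (τ : C → ℂ) = m ∧ ¬ p ∣ m
  dvd : ∀ β : IrrCharacter C, β ≠ τ →
    ∃ b : ℕ, classInner (fun c => (θ : N → ℂ) (ι c)) (β : C → ℂ) = ((p * b : ℕ) : ℂ)

theorem memLocalRing_ec (hM : IsPModular p M) (hC : ¬ p ∣ Nat.card C) (β : IrrCharacter C) (c : C) :
    MemLocalRing M (ec (β : C → ℂ) c) := by
  haveI := hM.2.1.isPrime
  unfold ec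
  rw [div_eq_mul_inv]
  refine memLocalRing_mul (memLocalRing_of_isIntegral ?_) (memLocalRing_inv_natCast hM hC)
  exact (Cfsg.Agent.Lib.BlockVal.isIntegral_irr β _).mul (Cfsg.Agent.Lib.BlockVal.isIntegral_irr β _)

theorem not_dvd_charDegree (hC : ¬ p ∣ Nat.card C) (β : IrrCharacter C) :
    ¬ p ∣ charDegree (β : C → ℂ) :=
  fun h => hC (h.trans (charDegree_dvd_card β.2))

/-- **The Glauberman congruence.** -/
theorem IsGlaub.congr (hM : IsPModular p M) {ι : C →* N} {θ : IrrCharacter N} {τ : IrrCharacter C}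
    (h : IsGlaub p ι θ τ) (hN : ¬ p ∣ Nat.card N) (hC : ¬ p ∣ Nat.card C) :
    ∃ lam : ℂ, MemLocalRing M lam ∧ ¬ MemLocalIdeal M lam ∧
      ∀ c : C, MemLocalIdeal M (blockCoeff ({θ} : Set (IrrCharacter N)) (ι c) -
        lam * blockCoeff ({τ} : Set (IrrCharacter C)) c) := by
  classical
  haveI hMp := hM.2.1.isPrime
  have hθc := IsIrrCharacter.isCharacter θ.2
  have hres : IsClassFunction C (fun c => (θ : N → ℂ) (ι c)) :=
    isClassFunction_of_isCharacter (isCharacter_comp ι hθc)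
  set m : IrrCharacter C → ℂ := fun β => classInner (fun c => (θ : N → ℂ) (ι c)) (β : C → ℂ) with hm
  have hexp : ∀ c : C, (θ : N → ℂ) (ι c) = ∑ β : IrrCharacter C, m β * (β : C → ℂ) c := by
    intro c
    have := congrFun (classFunction_eq_sum hres) c
    rw [Finset.sum_apply] at this
    simpa using this
  set dθ := charDegree (θ : N → ℂ) with hdθ
  have hθ1 : (θ : N → ℂ) 1 = (dθ : ℂ) := one_eq_charDegree hθc
  have hNne : (Nat.card N : ℂ) ≠ 0 := by exact_mod_cast Nat.card_pos.ne'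
  have hCne : (Nat.card C : ℂ) ≠ 0 := by exact_mod_cast Nat.card_pos.ne'
  have hβ1 : ∀ β : IrrCharacter C, (β : C → ℂ) 1 = (charDegree (β : C → ℂ) : ℂ) :=
    fun β => one_eq_charDegree (IsIrrCharacter.isCharacter β.2)
  have hβne : ∀ β : IrrCharacter C, (β : C → ℂ) 1 ≠ 0 := fun β => irr_one_ne_zero' β.2
  set a : IrrCharacter C → ℂ := fun β =>
    (dθ : ℂ) * m β * (Nat.card C : ℂ) * (Nat.card N : ℂ)⁻¹ * ((charDegree (β : C → ℂ) : ℂ))⁻¹ with ha
  have hsum : ∀ c : C, blockCoeff ({θ} : Set (IrrCharacter N)) (ι c) =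
      ∑ β : IrrCharacter C, a β * blockCoeff ({β} : Set (IrrCharacter C)) c := by
    intro c
    rw [blockCoeff_singleton]
    unfold ec
    rw [← map_inv, hexp c⁻¹, hθ1, Finset.mul_sum, Finset.sum_div]
    refine Finset.sum_congr rfl fun β _ => ?_
    rw [blockCoeff_singleton]
    unfold ec
    simp only [ha]
    rw [hβ1 β]
    have h1 : (charDegree (β : C → ℂ) : ℂ) ≠ 0 := by
      rw [← hβ1 β]
      exact hβne β
    field_simp
  have hNinv : MemLocalRing M (Nat.card N : ℂ)⁻¹ := memLocalRing_inv_natCast hM hN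
  have hβinv : ∀ β : IrrCharacter C, MemLocalRing M ((charDegree (β : C → ℂ) : ℂ))⁻¹ :=
    fun β => memLocalRing_inv_natCast hM (not_dvd_charDegree hC β)
  obtain ⟨m₀, hm₀, hpm₀⟩ := h.mem
  have hdθp : ¬ p ∣ dθ := not_dvd_charDegree (C := N) hN θ
  have hCp : ¬ MemLocalIdeal M (Nat.card C : ℂ) := not_memLocalIdeal_natCast hM hC
  refine ⟨a τ, ?_, ?_, ?_⟩
  · simp only [ha, hm]
    rw [hm₀]
    exact memLocalRing_mul (memLocalRing_mul (memLocalRing_mul (memLocalRing_mul
      (memLocalRing_natCast _) (memLocalRing_natCast _)) (memLocalRing_natCast _)) hNinv) (hβinv τ)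
  · intro hI
    simp only [ha, hm] at hI
    rw [hm₀] at hI
    -- clear the denominators
    have h1 := memLocalIdeal_mul_right hI (memLocalRing_natCast (Nat.card N))
    have h2 := memLocalIdeal_mul_right h1 (memLocalRing_natCast (charDegree (τ : C → ℂ)))
    have hτne : (charDegree (τ : C → ℂ) : ℂ) ≠ 0 := by
      rw [← hβ1 τ]
      exact hβne τ
    have e : (dθ : ℂ) * m₀ * (Nat.card C : ℂ) * (Nat.card N : ℂ)⁻¹ * ((charDegree (τ : C → ℂ) : ℂ))⁻¹ *
        (Nat.card N : ℂ) * (charDegree (τ : C → ℂ) : ℂ) = ((dθ * m₀ * Nat.card C : ℕ) : ℂ) := by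
      push_cast
      field_simp
    rw [e] at h2
    refine not_memLocalIdeal_natCast hM ?_ h2
    intro hd
    rcases (Nat.Prime.dvd_mul hM.1).1 hd with hd | hd
    · rcases (Nat.Prime.dvd_mul hM.1).1 hd with hd | hd
      · exact hdθp hd
      · exact hpm₀ hd
    · exact hC hd
  · intro c
    have h1 : blockCoeff ({θ} : Set (IrrCharacter N)) (ι c) - a τ * blockCoeff ({τ} : Set (IrrCharacter C)) c =
        ∑ β ∈ Finset.univ.erase τ, a β * blockCoeff ({β} : Set (IrrCharacter C)) c := by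
      rw [hsum c, ← Finset.add_sum_erase _ _ (Finset.mem_univ τ)]
      ring
    rw [h1]
    refine memLocalIdeal_sum _ _ fun β hβ => ?_
    refine memLocalIdeal_mul_right ?_ ?_
    · have hne : β ≠ τ := (Finset.mem_erase.mp hβ).1
      obtain ⟨b, hb⟩ := h.dvd β hne
      simp only [ha, hm]
      rw [hb]
      refine memLocalIdeal_mul_right (memLocalIdeal_mul_right (memLocalIdeal_mul_right
        (memLocalIdeal_mul_left (memLocalRing_natCast _)
          (memLocalIdeal_natCast_of_dvd hM (dvd_mul_right p b))) (memLocalRing_natCast _)) hNinv) (hβinv β)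
    · rw [blockCoeff_singleton]
      exact memLocalRing_ec hM hC β c

end Glaub

section Corr

variable {Γ : Type u} [Group Γ] {p : ℕ} [hp : Fact p.Prime]

/-- Existence of the Glauberman correspondent for a `p`-subgroup acting on a `p'`-subgroup. -/
theorem exists_isGlaub (N S : Subgroup Γ) [Fintype N] (hS : IsPGroup p S) (hN : ¬ p ∣ Nat.card N)
    (hnorm : ∀ s ∈ S, ∀ g ∈ N, s * g * s⁻¹ ∈ N) (θ : IrrCharacter N)
    (hθ : ∀ s ∈ S, ∀ g g' : N, (g' : Γ) = s * g * s⁻¹ → (θ : N → ℂ) g' = (θ : N → ℂ) g)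
    {C : Type u} [Group C] [Fintype C] (ι : C →* N) (hι : Function.Injective ι)
    (h1 : ∀ c, ∀ s ∈ S, s * ((ι c : N) : Γ) = (ι c : N) * s)
    (h2 : ∀ g : N, (∀ s ∈ S, s * (g : Γ) = g * s) → ∃ c, ι c = g) :
    ∃ τ : IrrCharacter C, IsGlaub p ι θ τ := by
  classical
  let A : Subgroup (MulAut N) := (conjHom N S hnorm).range
  have hAp : IsPGroup p A :=
    hS.of_surjective (conjHom N S hnorm).rangeRestrict (conjHom N S hnorm).rangeRestrict_surjective
  have hcop : (Nat.card N).Coprime (Nat.card A) := by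
    obtain ⟨k, hk⟩ := IsPGroup.iff_card.mp hAp
    rw [hk]
    exact Nat.Coprime.pow_right _ ((Nat.Prime.coprime_iff_not_dvd hp.out).2 hN).symm
  have hfix : IsFixModel A ι := by
    refine ⟨hι, ?_, ?_⟩
    · rintro c _ ⟨s, rfl⟩
      apply Subtype.ext
      rw [conjHom_apply]
      show (s : Γ) * ((ι c : N) : Γ) * (s : Γ)⁻¹ = _
      rw [h1 c s s.2, mul_inv_cancel_right]
    · intro g hg
      apply h2 g
      intro s hs
      have h3 := congrArg Subtype.val (hg _ ⟨⟨s, hs⟩, rfl⟩)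
      rw [conjHom_apply] at h3
      exact mul_inv_eq_iff_eq_mul.mp h3
  obtain ⟨π, -, hπ⟩ := corr_pgroup p (Nat.card A) N A rfl hAp hcop C ι hfix
  have hinv : InvA A (θ : N → ℂ) := (invA_conjHom_iff N S hnorm _).2 hθ
  refine ⟨π ⟨θ, hinv⟩, ?_, ?_⟩
  · obtain ⟨⟨m₀, hm₀, hpm⟩, -⟩ := hπ ⟨θ, hinv⟩
    exact ⟨m₀, hm₀, not_dvd_of_modEq_pm hp.out hpm⟩
  · exact (hπ ⟨θ, hinv⟩).2

end Corr

section Res

variable {G : Type u} [Group G] [Fintype G] {p : ℕ} [hp : Fact p.Prime] {M : Ideal AlgInt}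

/-- **The Brauer image of `ε = ext0 K e_θ`.** -/
theorem exists_res_congr (hM : IsPModular p M) {K : Subgroup G} (hKn : K.Normal) [Fintype K]
    (hKp : ¬ p ∣ Nat.card K) (θ : IrrCharacter K) (hθ : ∀ g : G, conjIrr K hKn g θ = θ)
    {S : Subgroup G} (hS : IsPGroup p S) [Fintype (Subgroup.centralizer (S : Set G))]
    {C : Subgroup (Subgroup.centralizer (S : Set G))} [Fintype C]
    (hC : C = K.subgroupOf (Subgroup.centralizer (S : Set G))) (hCn : C.Normal) :
    ∃ (τ : IrrCharacter C) (lam : ℂ), MemLocalRing M lam ∧ ¬ MemLocalIdeal M lam ∧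
      Stable C hCn ({τ} : Set (IrrCharacter C)) ∧
      ∀ ξ : IrrCharacter (Subgroup.centralizer (S : Set G)),
        MemLocalIdeal M (brO S (ext0 K (blockCoeff ({θ} : Set (IrrCharacter K)))) ξ -
          lam * blkInd (Cov ({τ} : Set (IrrCharacter C))) ξ) := by
  classical
  haveI hMp := hM.2.1.isPrime
  have hmemC : ∀ c : C, ((c : Subgroup.centralizer (S : Set G)) : G) ∈ K := by
    intro c
    have h0 : ∀ x : Subgroup.centralizer (S : Set G), x ∈ C → (x : G) ∈ K := by
      intro x hx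
      rw [hC] at hx
      exact hx
    exact h0 _ c.2
  let ι : C →* K := ((Subgroup.centralizer (S : Set G)).subtype.comp C.subtype).codRestrict K hmemC
  have hιval : ∀ c : C, ((ι c : K) : G) = ((c : Subgroup.centralizer (S : Set G)) : G) := fun c => rfl
  have hι : Function.Injective ι := by
    intro a b hab
    have h1 : ((ι a : K) : G) = ((ι b : K) : G) := congrArg Subtype.val hab
    rw [hιval, hιval] at h1
    exact Subtype.ext (Subtype.ext h1)
  have hθ' : ∀ g : G, ∀ k k' : K, (k' : G) = g * k * g⁻¹ → (θ : K → ℂ) k' = (θ : K → ℂ) k := by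
    intro g k k' hk'
    have h1 := congrFun (congrArg Subtype.val (hθ g)) k
    rw [conjIrr_coe, conjBy_apply] at h1
    have h2 : (⟨g * k * g⁻¹, hKn.conj_mem k k.2 g⟩ : K) = k' := Subtype.ext hk'.symm
    rw [h2] at h1
    exact h1
  have hnorm : ∀ s ∈ S, ∀ g ∈ K, s * g * s⁻¹ ∈ K := fun s _ g hg => hKn.conj_mem g hg s
  have hCdvd : Nat.card C ∣ Nat.card K := Subgroup.card_dvd_of_injective ι hι
  have hCp : ¬ p ∣ Nat.card C := fun h => hKp (h.trans hCdvd)
  obtain ⟨τ, hτ⟩ := exists_isGlaub K S hS hKp hnorm θ (fun s _ g g' h => hθ' s g g' h) ι hι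
    (by
      intro c s hs
      rw [hιval]
      exact Subgroup.mem_centralizer_iff.mp (c : Subgroup.centralizer (S : Set G)).2 s hs)
    (by
      intro g hg
      have h1 : (g : G) ∈ Subgroup.centralizer (S : Set G) := by
        rw [Subgroup.mem_centralizer_iff]
        exact hg
      have h2 : (⟨g, h1⟩ : Subgroup.centralizer (S : Set G)) ∈ C := by
        rw [hC, Subgroup.mem_subgroupOf]
        exact g.2
      exact ⟨⟨⟨g, h1⟩, h2⟩, Subtype.ext rfl⟩)
  obtain ⟨lam, hlamR, hlamI, hcong⟩ := hτ.congr hM hKp hCp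
  -- invariance of `τ`
  have hstab : Stable C hCn ({τ} : Set (IrrCharacter C)) := by
    intro t ψ hψ
    rw [Set.mem_singleton_iff] at hψ ⊢
    subst hψ
    by_contra hne
    obtain ⟨b, hb⟩ := hτ.dvd _ hne
    obtain ⟨m₀, hm₀, hpm₀⟩ := hτ.mem
    -- `θ ∘ ι` comes from a class function on `T`
    set f : Subgroup.centralizer (S : Set G) → ℂ := fun x => ext0 K (θ : K → ℂ) (x : G) with hf
    have hfcl : IsClassFunction (Subgroup.centralizer (S : Set G)) f := by
      intro x y
      simp only [hf]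
      by_cases hx : (x : G) ∈ K
      · have h1 : ((y * x * y⁻¹ : Subgroup.centralizer (S : Set G)) : G) ∈ K := by
          simpa using hKn.conj_mem _ hx (y : G)
        rw [ext0_of_mem K _ h1, ext0_of_mem K _ hx]
        apply hθ' (y : G)
        simp
      · have h1 : ((y * x * y⁻¹ : Subgroup.centralizer (S : Set G)) : G) ∉ K := by
          intro h
          apply hx
          have h2 := hKn.conj_mem _ h (y : G)⁻¹
          simpa [mul_assoc] using h2
        rw [ext0_of_not_mem K _ h1, ext0_of_not_mem K _ hx]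
    have hfres : (fun c : C => f (c : Subgroup.centralizer (S : Set G))) = fun c : C => (θ : K → ℂ) (ι c) := by
      funext c
      simp only [hf]
      rw [ext0_of_mem K _ (hmemC c)]
      rfl
    have h1 := classInner_restrict_conjBy C hCn t hfcl (ψ : C → ℂ)
    rw [hfres] at h1
    rw [conjIrr_coe, h1, hm₀] at hb
    exact hpm₀ ⟨b, by exact_mod_cast hb⟩
  refine ⟨τ, lam, hlamR, hlamI, hstab, fun ξ => ?_⟩
  -- compare on `T`
  set ε : G → ℂ := ext0 K (blockCoeff ({θ} : Set (IrrCharacter K))) with hε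
  have hKst : Stable K hKn ({θ} : Set (IrrCharacter K)) := by
    intro g ψ hψ
    rw [Set.mem_singleton_iff] at hψ ⊢
    rw [hψ]
    exact hθ g
  have hεcl : IsClassFunction G ε := (ginv_blockCoeff hKst).ext0
  have hf1 : IsClassFunction (Subgroup.centralizer (S : Set G)) (resC (Subgroup.centralizer (S : Set G)) ε) := resC_isClassFunction (inv_of_isClassFunction hεcl _)
  have hf2 : IsClassFunction (Subgroup.centralizer (S : Set G)) (ext0 C (blockCoeff ({τ} : Set (IrrCharacter C)))) :=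
    (ginv_blockCoeff hstab).ext0
  have hf3 : IsClassFunction (Subgroup.centralizer (S : Set G)) (lam • ext0 C (blockCoeff ({τ} : Set (IrrCharacter C)))) := by
    intro x y
    simp only [Pi.smul_apply, hf2 x y]
  have hval : ∀ x : Subgroup.centralizer (S : Set G), MemLocalIdeal M (resC (Subgroup.centralizer (S : Set G)) ε x -
      (lam • ext0 C (blockCoeff ({τ} : Set (IrrCharacter C)))) x) := by
    intro x
    simp only [resC_apply, Pi.smul_apply, smul_eq_mul, hε]
    by_cases hx : (x : G) ∈ K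
    · have hxC : x ∈ C := by
        rw [hC, Subgroup.mem_subgroupOf]
        exact hx
      rw [ext0_of_mem K _ hx, ext0_of_mem C _ hxC]
      exact hcong ⟨x, hxC⟩
    · have hxC : x ∉ C := by
        rw [hC, Subgroup.mem_subgroupOf]
        exact hx
      rw [ext0_of_not_mem K _ hx, ext0_of_not_mem C _ hxC]
      simpa using memLocalIdeal_zero
  have h1 := memLocalIdeal_omega_sub _ hf1 hf3 hval ξ
  rw [omega_smul, omega_ext0_eq_blkInd hstab] at h1
  exact h1

end Res

section Main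

variable {G : Type u} [Group G] [Fintype G] {p : ℕ} [hp : Fact p.Prime] {M : Ideal AlgInt}

/-- A block with a unit coefficient at `1` has Sylow defect groups. -/
theorem isDefectGroup_of_coeff_one (hM : IsPModular p M) {B : Set (IrrCharacter G)} (hB : IsPBlock M B)
    (h : ¬ MemLocalIdeal M (blockCoeff B 1)) {D : Subgroup G}
    (hD : Nat.card D = p ^ (Nat.card G).factorization p) : IsDefectGroup p M B D := by
  haveI hMp := hM.2.1.isPrime
  have htop : Subgroup.centralizer ({1} : Set G) = ⊤ := by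
    rw [eq_top_iff]
    intro x _
    rw [Subgroup.mem_centralizer_singleton_iff]
    simp
  rw [isDefectGroup_iff]
  refine ⟨1, ⟨memLocalRing_blockCoeff hB 1, h, fun χ _ => ?_⟩, ?_, ?_⟩
  · have h1 : centralChar (χ : G → ℂ) 1 = 1 := by
      unfold centralChar
      rw [htop, Subgroup.index_top]
      have := irr_one_ne_zero' χ.2
      simp [this]
    rw [h1]
    exact not_memLocalIdeal_one
  · rw [htop]
    exact le_top
  · rw [htop, Nat.card_congr Subgroup.topEquiv.toEquiv]
    exact hD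

/-- The coefficient at `1` of the idempotent of a character of a `p'`-group is a unit. -/
theorem not_memLocalIdeal_coeff_one (hM : IsPModular p M) {N : Type u} [Group N] [Fintype N]
    (hN : ¬ p ∣ Nat.card N) (θ : IrrCharacter N) :
    ¬ MemLocalIdeal M (blockCoeff ({θ} : Set (IrrCharacter N)) 1) := by
  haveI hMp := hM.2.1.isPrime
  intro hI
  rw [blockCoeff_singleton] at hI
  unfold ec at hI
  have hNne : (Nat.card N : ℂ) ≠ 0 := by exact_mod_cast Nat.card_pos.ne'
  have h2 := memLocalIdeal_mul_right hI (memLocalRing_natCast (Nat.card N))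
  have hθ1 : (θ : N → ℂ) 1 = (charDegree (θ : N → ℂ) : ℂ) :=
    one_eq_charDegree (IsIrrCharacter.isCharacter θ.2)
  have e : (θ : N → ℂ) 1 * (θ : N → ℂ) 1⁻¹ / (Nat.card N : ℂ) * (Nat.card N : ℂ) =
      ((charDegree (θ : N → ℂ) * charDegree (θ : N → ℂ) : ℕ) : ℂ) := by
    rw [inv_one, hθ1]
    push_cast
    field_simp
  rw [e] at h2
  refine not_memLocalIdeal_natCast hM ?_ h2
  intro hd
  rcases (Nat.Prime.dvd_mul hM.1).1 hd with hd | hd <;> exact not_dvd_charDegree hN θ hd

/-- Index of `O_{p'}(G) ∩ H` in a subgroup `H ≤ O_{p',p}(G)`. -/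
theorem index_subgroupOf_pow (H : Subgroup G) (hH : H ≤ pPrimePCore p G) :
    ∃ k : ℕ, ((pPrimeCore p G).subgroupOf H).index = p ^ k := by
  let φ : H →* ↥(pCore p (G ⧸ pPrimeCore p G)) :=
    ((QuotientGroup.mk' (pPrimeCore p G)).comp H.subtype).codRestrict _ (fun x => hH x.2)
  have hker : φ.ker = (pPrimeCore p G).subgroupOf H := by
    ext x
    rw [MonoidHom.mem_ker, Subgroup.mem_subgroupOf]
    constructor
    · intro h1
      have h2 := congrArg Subtype.val h1
      exact (QuotientGroup.eq_one_iff _).mp h2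
    · intro h1
      apply Subtype.ext
      exact (QuotientGroup.eq_one_iff _).mpr h1
  have hpp : IsPGroup p (pCore p (G ⧸ pPrimeCore p G)) := Cfsg.Agent.Lib.PCore.isPGroup_pCore p
  obtain ⟨k, hk⟩ := IsPGroup.iff_card.mp (hpp.to_subgroup φ.range)
  exact ⟨k, by rw [← hker, Subgroup.index_ker, hk]⟩

/-- Two blocks lying over the idempotent `ε` with non-vanishing Brauer images coincide. -/
theorem exists_xi (hM : IsPModular p M) {Q : Subgroup G} (hQ : IsPGroup p Q)
    [Fintype (Subgroup.centralizer (Q : Set G))]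
    {C : Subgroup (Subgroup.centralizer (Q : Set G))} (τ : IrrCharacter C) [Fintype C] {ε : G → ℂ}
    (hε : IsClassFunction G ε) (hεR : ∀ x, MemLocalRing M (ε x)) {lam : ℂ} (hlamR : MemLocalRing M lam)
    (hcong : ∀ ξ, MemLocalIdeal M (brO Q ε ξ - lam * blkInd (Cov ({τ} : Set (IrrCharacter C))) ξ))
    {B : Set (IrrCharacter G)} (hB : IsPBlock M B)
    (h : CharIntegrality.conv (blockCoeff B) ε = blockCoeff B)
    (hg : ∃ g : Subgroup.centralizer (Q : Set G), ¬ MemLocalIdeal M (blockCoeff B (g : G))) :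
    ∃ ξ : IrrCharacter (Subgroup.centralizer (Q : Set G)),
      MemLocalIdeal M (brO Q (blockCoeff B) ξ - 1) ∧ ξ ∈ Cov ({τ} : Set (IrrCharacter C)) := by
  classical
  haveI hMp := hM.2.1.isPrime
  have hecl : IsClassFunction G (blockCoeff B) := BlkBasic.blockCoeff_isClassFunction B
  have heR : ∀ x, MemLocalRing M (blockCoeff B x) := memLocalRing_blockCoeff hB
  have hI : ∀ S : Subgroup G, Inv S (blockCoeff B) := fun S => inv_of_isClassFunction hecl S
  have hIε : ∀ S : Subgroup G, Inv S ε := fun S => inv_of_isClassFunction hε S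
  set v := resC (Subgroup.centralizer (Q : Set G)) (blockCoeff B) with hv
  have hcl : IsClassFunction (Subgroup.centralizer (Q : Set G)) v := resC_isClassFunction (hI _)
  have hR : ∀ x, MemLocalRing M (v x) := fun x => heR x
  have hid : ∀ x, MemLocalIdeal M (v x - CharIntegrality.conv v v x) := by
    intro x
    have h1 := conv_resC_congr Q hQ hM (hI Q) (hI Q) heR heR x
    rwa [conv_blockCoeff_self] at h1
  obtain ⟨g, hg⟩ := hg
  obtain ⟨ξ, hξ⟩ : ∃ ξ : IrrCharacter (Subgroup.centralizer (Q : Set G)),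
      ¬ MemLocalIdeal M (omega (ξ : Subgroup.centralizer (Q : Set G) → ℂ) v) := by
    by_contra hcon
    push Not at hcon
    exact hg (memLocalIdeal_of_idem_of_omega hcl hR hid hcon g)
  have hbr : brO Q (blockCoeff B) ξ = omega (ξ : Subgroup.centralizer (Q : Set G) → ℂ) v := rfl
  have haR : MemLocalRing M (brO Q (blockCoeff B) ξ) := memLocalRing_brO (hI _) heR ξ
  have hdR : MemLocalRing M (brO Q ε ξ) := memLocalRing_brO (hIε _) hεR ξ
  have hidem : MemLocalIdeal M (brO Q (blockCoeff B) ξ * brO Q (blockCoeff B) ξ -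
      brO Q (blockCoeff B) ξ) := by
    have h1 := brO_conv hQ hM (hI Q) (hI Q) (hI _) (hI _) heR heR ξ
    rw [conv_blockCoeff_self] at h1
    have h2 := memLocalIdeal_neg h1
    simpa using h2
  have ha1 : MemLocalIdeal M (brO Q (blockCoeff B) ξ - 1) := by
    rcases memLocalIdeal_or_of_idem haR hidem with h1 | h1
    · exact absurd (hbr ▸ h1) hξ
    · exact h1
  refine ⟨ξ, ha1, ?_⟩
  -- the image of `ε` at `ξ` is `1` modulo `M`
  have hd1 : MemLocalIdeal M (brO Q ε ξ - 1) := by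
    have h1 := brO_conv hQ hM (hI Q) (hIε Q) (hI _) (hIε _) heR hεR ξ
    rw [h] at h1
    have h2 := memLocalIdeal_mul_left (memLocalRing_sub memLocalRing_one hdR) ha1
    have h3 := memLocalIdeal_sub h1 h2
    have e : brO Q (blockCoeff B) ξ - brO Q (blockCoeff B) ξ * brO Q ε ξ -
        (1 - brO Q ε ξ) * (brO Q (blockCoeff B) ξ - 1) = 1 - brO Q ε ξ := by ring
    rw [e] at h3
    exact memLocalIdeal_sub_comm h3
  by_contra hcon
  have h1 := hcong ξ
  rw [blkInd_of_not_mem hcon, mul_zero, sub_zero] at h1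
  have h2 := memLocalIdeal_sub h1 hd1
  apply not_memLocalIdeal_one (M := M)
  simpa using h2

/-- **The primitivity argument.** -/
theorem eq_of_brO (hM : IsPModular p M) {Q : Subgroup G} (hQ : IsPGroup p Q)
    [Fintype (Subgroup.centralizer (Q : Set G))]
    {C : Subgroup (Subgroup.centralizer (Q : Set G))} (hCn : C.Normal) [Fintype C]
    (hidx : ∃ k : ℕ, C.index = p ^ k) (τ : IrrCharacter C) {ε : G → ℂ}
    (hε : IsClassFunction G ε) (hεR : ∀ x, MemLocalRing M (ε x)) {lam : ℂ} (hlamR : MemLocalRing M lam)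
    (hcong : ∀ ξ, MemLocalIdeal M (brO Q ε ξ - lam * blkInd (Cov ({τ} : Set (IrrCharacter C))) ξ))
    {B₁ B₂ : Set (IrrCharacter G)} (hB₁ : IsPBlock M B₁) (hB₂ : IsPBlock M B₂)
    (h₁ : CharIntegrality.conv (blockCoeff B₁) ε = blockCoeff B₁)
    (h₂ : CharIntegrality.conv (blockCoeff B₂) ε = blockCoeff B₂)
    (hg₁ : ∃ g : Subgroup.centralizer (Q : Set G), ¬ MemLocalIdeal M (blockCoeff B₁ (g : G)))
    (hg₂ : ∃ g : Subgroup.centralizer (Q : Set G), ¬ MemLocalIdeal M (blockCoeff B₂ (g : G))) :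
    B₁ = B₂ := by
  classical
  haveI hMp := hM.2.1.isPrime
  obtain ⟨ξ₁, ha₁, hc₁⟩ := exists_xi hM hQ τ hε hεR hlamR hcong hB₁ h₁ hg₁
  obtain ⟨ξ₂, ha₂, hc₂⟩ := exists_xi hM hQ τ hε hεR hlamR hcong hB₂ h₂ hg₂
  obtain ⟨τ₁, hτ₁, hn₁⟩ := hc₁
  obtain ⟨τ₂, hτ₂, hn₂⟩ := hc₂
  rw [Set.mem_singleton_iff] at hτ₁ hτ₂
  subst hτ₁
  subst hτ₂
  have hsb := sameBlock_of_covers_of_index hM hCn hidx (sameBlock_refl _) hn₁ hn₂
  by_contra hne
  have hecl₁ := BlkBasic.blockCoeff_isClassFunction B₁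
  have hecl₂ := BlkBasic.blockCoeff_isClassFunction B₂
  have heR₁ : ∀ x, MemLocalRing M (blockCoeff B₁ x) := memLocalRing_blockCoeff hB₁
  have heR₂ : ∀ x, MemLocalRing M (blockCoeff B₂ x) := memLocalRing_blockCoeff hB₂
  have hI₁ : ∀ S : Subgroup G, Inv S (blockCoeff B₁) := fun S => inv_of_isClassFunction hecl₁ S
  have hI₂ : ∀ S : Subgroup G, Inv S (blockCoeff B₂) := fun S => inv_of_isClassFunction hecl₂ S
  have h3 := brO_sub_of_sameBlock (hI₁ _) heR₁ hsb
  have h4 := brO_conv hQ hM (hI₁ Q) (hI₂ Q) (hI₁ _) (hI₂ _) heR₁ heR₂ ξ₂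
  rw [conv_blockCoeff_of_ne hB₁ hB₂ hne, brO_zero, zero_sub] at h4
  have hR₁₂ : MemLocalRing M (brO Q (blockCoeff B₁) ξ₂) := memLocalRing_brO (hI₁ _) heR₁ ξ₂
  have h5 := memLocalIdeal_mul_left hR₁₂ ha₂
  have h6 := memLocalIdeal_sub (memLocalIdeal_sub (memLocalIdeal_sub h3 ha₁) h5) h4
  have e : brO Q (blockCoeff B₁) ξ₁ - brO Q (blockCoeff B₁) ξ₂ - (brO Q (blockCoeff B₁) ξ₁ - 1) -
      brO Q (blockCoeff B₁) ξ₂ * (brO Q (blockCoeff B₂) ξ₂ - 1) -
      -(brO Q (blockCoeff B₁) ξ₂ * brO Q (blockCoeff B₂) ξ₂) = 1 := by ring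
  rw [e] at h6
  exact not_memLocalIdeal_one h6

/-- **A Sylow subgroup of `L` centralizes a defect class.**  Here `L / K` is a `p`-group. -/
theorem exists_coeff_centralizer (hM : IsPModular p M) {K L : Subgroup G} (hKn : K.Normal) [hLn : L.Normal]
    [Fintype K] [Fintype L] (hKL : K ≤ L) (hKp : ¬ p ∣ Nat.card K)
    (hidx : ∃ k : ℕ, (K.subgroupOf L).index = p ^ k) (θ : IrrCharacter K)
    (hθ : ∀ g : G, conjIrr K hKn g θ = θ) {Q : Subgroup G} (hQL : Q ≤ L)
    (hQc : Nat.card Q = p ^ (Nat.card L).factorization p) (χ : IrrCharacter G)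
    (hχ : classInner (fun k : K => (χ : G → ℂ) k) (θ : K → ℂ) ≠ 0) :
    ∃ g : Subgroup.centralizer (Q : Set G),
      ¬ MemLocalIdeal M (blockCoeff (blockOf M (χ : G → ℂ)) (g : G)) := by
  classical
  haveI hMp := hM.2.1.isPrime
  haveI : K.Normal := hKn
  have hK'n : (K.subgroupOf L).Normal := inferInstance
  let e : (K.subgroupOf L) ≃* K := Subgroup.subgroupOfEquivOfLe hKL
  have hcard : Nat.card (K.subgroupOf L) = Nat.card K := Nat.card_congr e.toEquiv
  letI : Fintype (K.subgroupOf L) := Fintype.ofFinite _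
  let θ' : IrrCharacter (K.subgroupOf L) :=
    ⟨fun x => (θ : K → ℂ) (e x), isIrrCharacter_comp_of_surjective e.toMonoidHom e.surjective θ.2⟩
  have hK'p : ¬ p ∣ Nat.card (K.subgroupOf L) := by rwa [hcard]
  have hKst : Stable K hKn ({θ} : Set (IrrCharacter K)) := by
    intro g ψ hψ
    rw [Set.mem_singleton_iff] at hψ ⊢
    rw [hψ]
    exact hθ g
  have hst : Stable (K.subgroupOf L) hK'n ({θ'} : Set (IrrCharacter (K.subgroupOf L))) := by
    intro g ψ hψ
    rw [Set.mem_singleton_iff] at hψ ⊢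
    rw [hψ]
    apply Subtype.ext
    funext n
    rw [conjIrr_coe, conjBy_apply]
    have h1 := congrFun (congrArg Subtype.val (hθ (g : G))) (e n)
    rw [conjIrr_coe, conjBy_apply] at h1
    exact h1
  set ε : G → ℂ := ext0 K (blockCoeff ({θ} : Set (IrrCharacter K))) with hε
  have hεcl : IsClassFunction G ε := (ginv_blockCoeff hKst).ext0
  have hres : resC L ε = ext0 (K.subgroupOf L) (blockCoeff ({θ'} : Set (IrrCharacter (K.subgroupOf L)))) := by
    funext x
    simp only [resC_apply, hε]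
    by_cases hx : (x : G) ∈ K
    · have hx' : x ∈ K.subgroupOf L := Subgroup.mem_subgroupOf.mpr hx
      rw [ext0_of_mem K _ hx, ext0_of_mem (K.subgroupOf L) _ hx', blockCoeff_singleton, blockCoeff_singleton]
      unfold ec
      rw [hcard]
      rfl
    · have hx' : x ∉ K.subgroupOf L := fun h => hx (Subgroup.mem_subgroupOf.mp h)
      rw [ext0_of_not_mem K _ hx, ext0_of_not_mem (K.subgroupOf L) _ hx']
  obtain ⟨ψ, hψ⟩ := exists_constituent (N := L) χ
  have hfG : GInv L hLn (resC L ε) := fun g n => hεcl (n : G) g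
  have h1 := omega_eq_of_constituent χ ψ hψ hfG
  have hext : ext0 L (resC L ε) = ε :=
    ext0_resC L (fun x hx => ext0_of_not_mem K _ (fun h => hx (hKL h)))
  have hχcov : χ ∈ Cov (G := G) ({θ} : Set (IrrCharacter K)) := ⟨θ, rfl, hχ⟩
  rw [hext, hres, hε, omega_ext0_eq_blkInd hKst, omega_ext0_eq_blkInd hst, blkInd_of_mem hχcov] at h1
  have hψcov : ψ ∈ Cov ({θ'} : Set (IrrCharacter (K.subgroupOf L))) := by
    by_contra hcon
    rw [blkInd_of_not_mem hcon] at h1
    exact one_ne_zero h1.symm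
  have hb_eq : blockOf M (ψ : L → ℂ) = Cov ({θ'} : Set (IrrCharacter (K.subgroupOf L))) := by
    obtain ⟨θ₁, hθ₁, hn⟩ := hψcov
    rw [Set.mem_singleton_iff] at hθ₁
    subst hθ₁
    ext ψ'
    constructor
    · intro hψ'
      exact ⟨_, rfl, constituent_of_sameBlock_of_coprime hM hK'n hK'p hψ' hn⟩
    · rintro ⟨θ₂, hθ₂, hn₂⟩
      rw [Set.mem_singleton_iff] at hθ₂
      subst hθ₂
      exact sameBlock_of_covers_of_index hM hK'n hidx (sameBlock_refl _) hn hn₂
  have hunit : ¬ MemLocalIdeal M (blockCoeff (blockOf M (ψ : L → ℂ)) 1) := by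
    rw [hb_eq, blockCoeff_cov hst, ext0_of_mem (K.subgroupOf L) _ (Subgroup.one_mem _)]
    exact not_memLocalIdeal_coeff_one hM hK'p θ'
  have hcardQ : Nat.card (Q.subgroupOf L) = p ^ (Nat.card L).factorization p := by
    rw [← hQc]
    exact Nat.card_congr (Subgroup.subgroupOfEquivOfLe hQL).toEquiv
  have hdef : IsDefectGroup p M (blockOf M (ψ : L → ℂ)) (Q.subgroupOf L) :=
    isDefectGroup_of_coeff_one hM ⟨ψ, rfl⟩ hunit hcardQ
  obtain ⟨P', hP', hinf⟩ := Cfsg.Agent.Lib.BlockKnorr.exists_defect_inf_eq hM ⟨ψ, rfl⟩ hQL hdef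
    (⟨χ, rfl⟩ : IsPBlock M (blockOf M (χ : G → ℂ)))
    ⟨χ, mem_blockOf_self χ, ψ, mem_blockOf_self ψ, hψ⟩
  obtain ⟨g₀, hg₀, hle, -⟩ := isDefectGroup_iff.mp hP'
  refine ⟨⟨g₀, ?_⟩, hg₀.2.1⟩
  rw [Subgroup.mem_centralizer_iff]
  intro q hq
  have h3 : q ∈ P' := by
    have hq' : q ∈ Q := hq
    rw [← hinf] at hq'
    exact hq'.1
  have h4 := hle h3
  rw [Subgroup.mem_centralizer_singleton_iff] at h4
  exact h4

/-- Local integrality of the idempotent `ε`. -/
theorem memLocalRing_eps (hM : IsPModular p M) {K : Subgroup G} [Fintype K] (hKp : ¬ p ∣ Nat.card K)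
    (θ : IrrCharacter K) (x : G) :
    MemLocalRing M (ext0 K (blockCoeff ({θ} : Set (IrrCharacter K))) x) := by
  haveI hMp := hM.2.1.isPrime
  exact memLocalRing_ext0 K (memLocalRing_blockCoeff_of_coprime hM hKp _) x

/-- **Main theorem**: the characters over an invariant character of `O_{p'}(G)` in a `p`-constrained group all
lie in one block. -/
theorem sameBlock_of_over (hM : IsPModular p M) (hG : IsPConstrained p G) [Fintype (pPrimeCore p G)]
    (θ : IrrCharacter (pPrimeCore p G))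
    (hθ : ∀ g : G, conjIrr (pPrimeCore p G) inferInstance g θ = θ) {χ₁ χ₂ : IrrCharacter G}
    (h₁ : classInner (fun k : pPrimeCore p G => (χ₁ : G → ℂ) k) (θ : pPrimeCore p G → ℂ) ≠ 0)
    (h₂ : classInner (fun k : pPrimeCore p G => (χ₂ : G → ℂ) k) (θ : pPrimeCore p G → ℂ) ≠ 0) :
    SameBlock M (χ₁ : G → ℂ) (χ₂ : G → ℂ) := by
  classical
  haveI hMp := hM.2.1.isPrime
  have hKn : (pPrimeCore p G).Normal := inferInstance
  have hKp : ¬ p ∣ Nat.card (pPrimeCore p G) := Cfsg.Agent.Lib.PCore.not_dvd_card_pPrimeCore p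
  obtain ⟨P⟩ : Nonempty (Sylow p (pPrimePCore p G)) := inferInstance
  set Q : Subgroup G := (P : Subgroup (pPrimePCore p G)).map (pPrimePCore p G).subtype with hQ
  have hQp : IsPGroup p Q := P.isPGroup'.map _
  have hQL : Q ≤ pPrimePCore p G := Subgroup.map_subtype_le _
  have hQc : Nat.card Q = p ^ (Nat.card (pPrimePCore p G)).factorization p := by
    rw [hQ, Subgroup.card_map_of_injective (pPrimePCore p G).subtype_injective]
    exact Sylow.card_eq_multiplicity P
  have hCQ : Subgroup.centralizer (Q : Set G) ≤ pPrimePCore p G := hG P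
  letI : Fintype (Subgroup.centralizer (Q : Set G)) := Fintype.ofFinite _
  letI : Fintype (pPrimePCore p G) := Fintype.ofFinite _
  letI : Fintype ((pPrimeCore p G).subgroupOf (Subgroup.centralizer (Q : Set G))) := Fintype.ofFinite _
  have hCn : ((pPrimeCore p G).subgroupOf (Subgroup.centralizer (Q : Set G))).Normal := inferInstance
  obtain ⟨τ, lam, hlamR, hlamI, hst, hcong⟩ := exists_res_congr (M := M) hM hKn hKp θ hθ hQp rfl hCn
  have hidx := index_subgroupOf_pow (Subgroup.centralizer (Q : Set G)) hCQ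
  have hidxL := index_subgroupOf_pow (pPrimePCore p G) le_rfl
  have hKst : Stable (pPrimeCore p G) hKn ({θ} : Set (IrrCharacter (pPrimeCore p G))) := by
    intro g ψ hψ
    rw [Set.mem_singleton_iff] at hψ ⊢
    rw [hψ]
    exact hθ g
  set ε : G → ℂ := ext0 (pPrimeCore p G) (blockCoeff ({θ} : Set (IrrCharacter (pPrimeCore p G)))) with hε
  have hεcl : IsClassFunction G ε := (ginv_blockCoeff hKst).ext0
  have hεR : ∀ x, MemLocalRing M (ε x) := memLocalRing_eps hM hKp θ
  have key : ∀ χ : IrrCharacter G,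
      classInner (fun k : pPrimeCore p G => (χ : G → ℂ) k) (θ : pPrimeCore p G → ℂ) ≠ 0 →
      CharIntegrality.conv (blockCoeff (blockOf M (χ : G → ℂ))) ε = blockCoeff (blockOf M (χ : G → ℂ)) := by
    intro χ hχ
    rw [hε, ← blockCoeff_cov hKst, conv_blockCoeff]
    congr 1
    apply Set.inter_eq_left.mpr
    intro ψ hψ
    exact ⟨θ, rfl, constituent_of_sameBlock_of_coprime hM hKn hKp hψ hχ⟩
  have hg₁ := exists_coeff_centralizer (M := M) hM hKn (Cfsg.Agent.Lib.PPrimeP.pPrimeCore_le_pPrimePCore p)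
    hKp hidxL θ hθ hQL hQc χ₁ h₁
  have hg₂ := exists_coeff_centralizer (M := M) hM hKn (Cfsg.Agent.Lib.PPrimeP.pPrimeCore_le_pPrimePCore p)
    hKp hidxL θ hθ hQL hQc χ₂ h₂
  have heq := eq_of_brO hM hQp hCn hidx τ hεcl hεR hlamR hcong ⟨χ₁, rfl⟩ ⟨χ₂, rfl⟩ (key χ₁ h₁) (key χ₂ h₂)
    hg₁ hg₂
  have h3 : χ₂ ∈ blockOf M (χ₁ : G → ℂ) := by
    rw [heq]
    exact mem_blockOf_self χ₂
  exact h3

/-- `O_{p'}(C_G(R)) = O_{p'}(G) ∩ C_G(R)` in a `p`-constrained group. -/
theorem pPrimeCore_centralizer (hG : IsPConstrained p G) {R : Subgroup G} (hR : IsPGroup p R) :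
    pPrimeCore p ↥(Subgroup.centralizer (R : Set G)) =
      (pPrimeCore p G).subgroupOf (Subgroup.centralizer (R : Set G)) := by
  have hc := Cfsg.Agent.Lib.PConstr.isPConstrained_iff.mp hG
  apply le_antisymm
  · intro d hd
    rw [Subgroup.mem_subgroupOf]
    apply Cfsg.Agent.Lib.PConstr.mem_pPrimeCore_of_subgroup hc hR le_rfl d
      (Cfsg.Agent.Lib.PConstr.orderOf_coprime_of_mem_pPrimeCore hd)
    · intro t ht
      exact (Subgroup.mem_centralizer_iff.mp d.2 t ht).symm
    · intro x _ _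
      exact Cfsg.Agent.Lib.PConstr.comm_mem_left _ hd
  · exact Cfsg.Agent.Lib.PConstr.subgroupOf_pPrimeCore_le _

/-- The block of a `p`-constrained group lying over an invariant character of `O_{p'}(G)`. -/
theorem isPBlock_cov (hM : IsPModular p M) (hG : IsPConstrained p G) [Fintype (pPrimeCore p G)]
    (θ : IrrCharacter (pPrimeCore p G))
    (hθ : ∀ g : G, conjIrr (pPrimeCore p G) inferInstance g θ = θ) :
    IsPBlock M (Cov (G := G) ({θ} : Set (IrrCharacter (pPrimeCore p G)))) := by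
  classical
  have hKn : (pPrimeCore p G).Normal := inferInstance
  have hKp : ¬ p ∣ Nat.card (pPrimeCore p G) := Cfsg.Agent.Lib.PCore.not_dvd_card_pPrimeCore p
  obtain ⟨χ₀, hχ₀⟩ := exists_cover hKn θ
  refine ⟨χ₀, ?_⟩
  ext χ
  constructor
  · rintro ⟨θ₁, hθ₁, hn⟩
    rw [Set.mem_singleton_iff] at hθ₁
    subst hθ₁
    exact sameBlock_of_over hM hG _ hθ hχ₀ hn
  · intro h
    exact ⟨θ, rfl, constituent_of_sameBlock_of_coprime hM hKn hKp h hχ₀⟩

/-- **Blocks of principal type.** -/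
theorem existsUnique_induced (hM : IsPModular p M) (hG : IsPConstrained p G) [Fintype (pPrimeCore p G)]
    (θ : IrrCharacter (pPrimeCore p G))
    (hθ : ∀ g : G, conjIrr (pPrimeCore p G) inferInstance g θ = θ)
    {R : Subgroup G} (hR : IsPGroup p R) :
    ∃! f : Set (IrrCharacter (Subgroup.centralizer (R : Set G))),
      IsInducedBlock M (Subgroup.centralizer (R : Set G)) f
        (Cov (G := G) ({θ} : Set (IrrCharacter (pPrimeCore p G)))) := by
  classical
  haveI hMp := hM.2.1.isPrime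
  have hKn : (pPrimeCore p G).Normal := inferInstance
  have hKp : ¬ p ∣ Nat.card (pPrimeCore p G) := Cfsg.Agent.Lib.PCore.not_dvd_card_pPrimeCore p
  have hO := pPrimeCore_centralizer hG hR
  have hTc := Cfsg.Agent.Lib.PConstr.isPConstrained_centralizer hG R hR
  letI : Fintype (Subgroup.centralizer (R : Set G)) := Fintype.ofFinite _
  letI : Fintype (pPrimeCore p ↥(Subgroup.centralizer (R : Set G))) := Fintype.ofFinite _
  have hOn : (pPrimeCore p ↥(Subgroup.centralizer (R : Set G))).Normal := inferInstance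
  obtain ⟨τ, lam, hlamR, hlamI, hst, hcong⟩ := exists_res_congr (M := M) hM hKn hKp θ hθ hR hO hOn
  have hτ : ∀ g : Subgroup.centralizer (R : Set G), conjIrr _ hOn g τ = τ := fun g => hst g τ rfl
  have hBb := isPBlock_cov (M := M) hM hG θ hθ
  have hKst : Stable (pPrimeCore p G) hKn ({θ} : Set (IrrCharacter (pPrimeCore p G))) := by
    intro g ψ hψ
    rw [Set.mem_singleton_iff] at hψ ⊢
    rw [hψ]
    exact hθ g
  set ε : G → ℂ := ext0 (pPrimeCore p G) (blockCoeff ({θ} : Set (IrrCharacter (pPrimeCore p G)))) with hε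
  have hεcl : IsClassFunction G ε := (ginv_blockCoeff hKst).ext0
  have hεR : ∀ x, MemLocalRing M (ε x) := memLocalRing_eps hM hKp θ
  -- the key congruence
  have hP : ∀ (f : Set (IrrCharacter (Subgroup.centralizer (R : Set G)))) (B' : Set (IrrCharacter G)),
      IsInducedBlock M (Subgroup.centralizer (R : Set G)) f B' → ∀ ξ ∈ f, ∀ χ ∈ B',
      MemLocalIdeal M (lam * blkInd (Cov ({τ} : Set (IrrCharacter _))) ξ -
        blkInd (Cov ({θ} : Set (IrrCharacter (pPrimeCore p G)))) χ) := by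
    intro f B' hind ξ hξ χ hχ
    have h1 := Cfsg.Agent.Lib.BlockInduced.memLocalIdeal_trunc_sub (Subgroup.centralizer (R : Set G))
      (ξ : Subgroup.centralizer (R : Set G) → ℂ) χ (hind.2.2 ξ hξ χ hχ) hεcl hεR
    have h2 : ∑ h : Subgroup.centralizer (R : Set G), ε (h : G) * (ξ : Subgroup.centralizer (R : Set G) → ℂ) h /
        (ξ : Subgroup.centralizer (R : Set G) → ℂ) 1 = brO R ε ξ := by
      unfold brO omega
      rw [Finset.sum_div]
      rfl
    rw [h2, hε, omega_ext0_eq_blkInd hKst, ← hε] at h1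
    exact memLocalIdeal_sub_trans (memLocalIdeal_sub_comm (hcong ξ)) h1
  obtain ⟨ξ₀, hξ₀⟩ := exists_cover hOn τ
  have hξ₀cov : ξ₀ ∈ Cov ({τ} : Set (IrrCharacter _)) := ⟨τ, rfl, hξ₀⟩
  refine ⟨blockOf M (ξ₀ : Subgroup.centralizer (R : Set G) → ℂ), ?_, ?_⟩
  · obtain ⟨B', hB'⟩ := exists_isInducedBlock_centralizer hM hR rfl
      (⟨ξ₀, rfl⟩ : IsPBlock M (blockOf M (ξ₀ : Subgroup.centralizer (R : Set G) → ℂ)))
    obtain ⟨χ', hχ'⟩ := hB'.2.1
    have hχ'm : χ' ∈ B' := by
      rw [hχ']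
      exact mem_blockOf_self χ'
    have h1 := hP _ B' hB' ξ₀ (mem_blockOf_self ξ₀) χ' hχ'm
    rw [blkInd_of_mem hξ₀cov, mul_one] at h1
    have hχ'c : χ' ∈ Cov (G := G) ({θ} : Set (IrrCharacter (pPrimeCore p G))) := by
      by_contra hcon
      rw [blkInd_of_not_mem hcon, sub_zero] at h1
      exact hlamI h1
    have hBB : B' = Cov (G := G) ({θ} : Set (IrrCharacter (pPrimeCore p G))) := by
      rcases eq_or_disjoint_of_isPBlock hB'.2.1 hBb with h2 | h2
      · exact h2
      · exact absurd hχ'c (Set.disjoint_left.1 h2 hχ'm)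
    rw [← hBB]
    exact hB'
  · intro f hf
    obtain ⟨ξ₁, hξ₁⟩ := hf.1
    have hξ₁m : ξ₁ ∈ f := by
      rw [hξ₁]
      exact mem_blockOf_self ξ₁
    obtain ⟨χ₀, hχ₀⟩ := exists_cover hKn θ
    have hχ₀c : χ₀ ∈ Cov (G := G) ({θ} : Set (IrrCharacter (pPrimeCore p G))) := ⟨θ, rfl, hχ₀⟩
    have h1 := hP f _ hf ξ₁ hξ₁m χ₀ hχ₀c
    rw [blkInd_of_mem hχ₀c] at h1
    have hξ₁c : ξ₁ ∈ Cov ({τ} : Set (IrrCharacter _)) := by
      by_contra hcon
      rw [blkInd_of_not_mem hcon, mul_zero, zero_sub] at h1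
      apply not_memLocalIdeal_one (M := M)
      simpa using memLocalIdeal_neg h1
    obtain ⟨τ₁, hτ₁, hn₁⟩ := hξ₁c
    rw [Set.mem_singleton_iff] at hτ₁
    subst hτ₁
    have hsb := sameBlock_of_over (M := M) hM hTc _ hτ hξ₀ hn₁
    rw [hξ₁]
    ext ξ
    exact ⟨fun h => sameBlock_trans hsb h, fun h => sameBlock_trans (sameBlock_symm hsb) h⟩

end Main

end Cfsg.Agent.Lib.FongPrincipal
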