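import Mathlib
import Cfsg.Agent.Lib.NeumannBFC
import Cfsg.Agent.Lib.BrauerWielandt

/-!
# Groups with a four-group of involutions with small centralizers

If `X` contains commuting involutions `u ≠ v` such that the centralizers of `u`, `v`, `u * v` have
order at most `n`, and the `2`-part of `|X|` is at most `2 ^ a`, then `|X|` is bounded in terms of
`n`, `a`.  Simple groups and the Feit-Thompson theorem play no role: the proof goes through
P. M. Neumann's argument and the Brauer-Wielandt formula.
-/

set_option autoImplicit false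
set_option linter.unusedSectionVars false
set_option linter.style.haveILetI false
set_option linter.unusedVariables false

namespace Cfsg.Agent.Lib.FourGroupBound

open Subgroup Cfsg.Agent.Lib.NeumannBFC Cfsg.Agent.Lib.BrauerWielandt
open scoped commutatorElement

universe u

section Central

variable {G : Type*} [Group G]

/-- Power formulas when the commutator of `x, y` is central in `⟨x, y⟩`. -/
theorem pow_mul_central {x y z : G} (h : y * x = x * y * z) (hzx : z * x = x * z)
    (hzy : z * y = y * z) (k : ℕ) :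
    y ^ k * x = x * y ^ k * z ^ k ∧ (x * y) ^ k = x ^ k * y ^ k * z ^ (k.choose 2) := by
  induction k with
  | zero => simp
  | succ k ih =>
    obtain ⟨ih1, ih2⟩ := ih
    have hzpx : z ^ (k.choose 2) * x = x * z ^ (k.choose 2) := by
      have : Commute z x := hzx
      exact (this.pow_left _)
    have hzpy : z ^ (k.choose 2) * y = y * z ^ (k.choose 2) := by
      have : Commute z y := hzy
      exact (this.pow_left _)
    have hzky : z ^ k * y = y * z ^ k := by
      have : Commute z y := hzy
      exact (this.pow_left _)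
    have hykz : y ^ k * z = z * y ^ k := by
      have : Commute z y := hzy
      exact ((this.pow_right k).symm)
    constructor
    · rw [pow_succ, mul_assoc, h, ← mul_assoc, ← mul_assoc, ih1]
      rw [pow_succ z]
      calc x * y ^ k * z ^ k * y * z = x * y ^ k * (z ^ k * y) * z := by group
        _ = x * y ^ k * (y * z ^ k) * z := by rw [hzky]
        _ = x * (y ^ k * y) * (z ^ k * z) := by group
    · have hc : (k + 1).choose 2 = k + k.choose 2 := by
        rw [Nat.choose_succ_succ' k 1, Nat.choose_one_right]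
      rw [hc, pow_succ, ih2, pow_add z, pow_succ x, pow_succ y]
      calc x ^ k * y ^ k * z ^ k.choose 2 * (x * y)
          = x ^ k * y ^ k * (z ^ k.choose 2 * x) * y := by group
        _ = x ^ k * y ^ k * (x * z ^ k.choose 2) * y := by rw [hzpx]
        _ = x ^ k * (y ^ k * x) * (z ^ k.choose 2 * y) := by group
        _ = x ^ k * (x * y ^ k * z ^ k) * (y * z ^ k.choose 2) := by rw [ih1, hzpy]
        _ = x ^ k * x * y ^ k * (z ^ k * y) * z ^ k.choose 2 := by group
        _ = x ^ k * x * y ^ k * (y * z ^ k) * z ^ k.choose 2 := by rw [hzky]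
        _ = x ^ k * x * (y ^ k * y) * (z ^ k * z ^ k.choose 2) := by group

/-- If `x, y` have odd order dividing `m`, so does their product. -/
theorem mul_pow_eq_one_of_odd {x y z : G} (h : y * x = x * y * z) (hzx : z * x = x * z)
    (hzy : z * y = y * z) {m : ℕ} (hm : Odd m) (hxm : x ^ m = 1) (hym : y ^ m = 1) :
    (x * y) ^ m = 1 := by
  obtain ⟨e, rfl⟩ := hm
  obtain ⟨h1, h2⟩ := pow_mul_central h hzx hzy (2 * e + 1)
  rw [hym, mul_one] at h1
  have hz : z ^ (2 * e + 1) = 1 := by
    rw [one_mul] at h1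
    exact (left_eq_mul.mp h1)
  have hc : (2 * e + 1).choose 2 = (2 * e + 1) * e := by
    rw [Nat.choose_two_right]
    have : (2 * e + 1) * (2 * e + 1 - 1) = 2 * ((2 * e + 1) * e) := by
      simp only [Nat.add_sub_cancel]
      ring
    rw [this]
    simp
  rw [h2, hxm, hym, hc, pow_mul, hz]
  simp

end Central

section Bound

/-- The bound for the class sizes. -/
def mB (n : ℕ) : ℕ := (2 * n ^ 2) ^ (3 * (2 * n ^ 2) + 1)

/-- The bound for the commutator subgroup. -/
def cB (n : ℕ) : ℕ := cardCommutatorBound (commBound (mB n))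

/-- The final bound. -/
def bound (n a : ℕ) : ℕ := 2 * n ^ 2 * ((mB n) ^ (cB n) * (n ^ 3 * 2 ^ a))

variable {X : Type u} [Group X] [Finite X]

theorem cl_conj (g z : X) : cl (g * z * g⁻¹) = cl z := by
  rw [← card_clF, ← card_clF]
  congr 1
  ext w
  rw [mem_clF, mem_clF]
  constructor
  · rintro ⟨c, rfl⟩
    exact ⟨c * g, by group⟩
  · rintro ⟨c, rfl⟩
    exact ⟨c * g⁻¹, by group⟩

/-- Class sizes in a subgroup are at most those in the group. -/
theorem cl_subgroup_le (K : Subgroup X) (z : K) : cl z ≤ cl (z : X) := by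
  classical
  rw [← card_clF, ← card_clF]
  apply Finset.card_le_card_of_injOn (fun w : K => (w : X))
  · intro w hw
    obtain ⟨g, rfl⟩ := mem_clF.mp hw
    exact mem_clF.mpr ⟨(g : X), rfl⟩
  · intro a _ b _ h
    exact Subtype.ext h

/-- **The bound.** -/
theorem card_le_of_four_group (u v : X) (hu : orderOf u = 2) (hv : orderOf v = 2)
    (huv : u * v = v * u) (hne : v ≠ u) {n a : ℕ}
    (h1 : Nat.card (centralizer ({u} : Set X)) ≤ n)
    (h2 : Nat.card (centralizer ({v} : Set X)) ≤ n)
    (h3 : Nat.card (centralizer ({u * v} : Set X)) ≤ n)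
    (ha : (Nat.card X).factorization 2 ≤ a) : Nat.card X ≤ bound n a := by
  classical
  letI : Fact (Nat.Prime 2) := ⟨Nat.prime_two⟩
  have hnpos : 1 ≤ n := (Nat.card_pos (α := centralizer ({u} : Set X))).trans_le h1
  -- the set of elements with small classes
  set S : Set X := {g : X | cl g ≤ 2 * n ^ 2} with hS
  have h2n : 1 ≤ 2 * n ^ 2 := by
    have : 1 ≤ n ^ 2 := Nat.one_le_pow _ _ hnpos
    omega
  have hS1 : (1 : X) ∈ S := by
    show cl (1 : X) ≤ _
    rw [cl_one]
    exact h2n
  have hSsymm : ∀ s ∈ S, s⁻¹ ∈ S := by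
    intro s hs
    show cl s⁻¹ ≤ _
    rw [cl_inv]
    exact hs
  have hd := card_le_small_classes hu h1
  set K := Subgroup.closure S with hK
  have hKidx : K.index ≤ 2 * n ^ 2 := index_closure_le hd
  have hKcl : ∀ z ∈ K, cl z ≤ mB n := fun z hz =>
    cl_le_of_mem_wordSet (m := 2 * n ^ 2) (fun s hs => hs) _ z
      (closure_subset_wordSet hS1 hSsymm hd hz)
  have hKnormal : K.Normal := by
    refine ⟨fun x hx g => ?_⟩
    induction hx using Subgroup.closure_induction with
    | mem x hx =>
      apply Subgroup.subset_closure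
      show cl (g * x * g⁻¹) ≤ _
      rw [cl_conj]
      exact hx
    | one => simp [K.one_mem]
    | mul x y _ _ ihx ihy =>
      have : g * (x * y) * g⁻¹ = (g * x * g⁻¹) * (g * y * g⁻¹) := by group
      rw [this]
      exact K.mul_mem ihx ihy
    | inv x _ ih =>
      have : g * x⁻¹ * g⁻¹ = (g * x * g⁻¹)⁻¹ := by group
      rw [this]
      exact K.inv_mem ih
  have hKcl' : ∀ z : K, cl z ≤ mB n := fun z => (cl_subgroup_le K z).trans (hKcl z z.2)
  have hbfc := card_commutator_le_of_class_le hKcl'
  -- the commutator subgroup, inside `X`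
  set D := ⁅K, K⁆ with hD
  have hDcard : Nat.card D ≤ cB n := by
    have h4 : D = (_root_.commutator K).map K.subtype := (Subgroup.map_subtype_commutator K).symm
    rw [h4, Subgroup.card_map_of_injective K.subtype_injective]
    exact hbfc
  have hDK : D ≤ K := Subgroup.commutator_le_left K K
  have hDnormal : D.Normal := Subgroup.commutator_normal K K
  have hDcomm : ∀ x ∈ K, ∀ y ∈ K, y⁻¹ * x⁻¹ * y * x ∈ D := by
    intro x hx y hy
    have : y⁻¹ * x⁻¹ * y * x = ⁅y⁻¹, x⁻¹⁆ := by
      rw [commutatorElement_def]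
      group
    rw [this]
    exact Subgroup.commutator_mem_commutator (K.inv_mem hy) (K.inv_mem hx)
  -- the centralizer of `D` in `K`
  set C : Subgroup X := K ⊓ centralizer (D : Set X) with hC
  have hCnormal : C.Normal := Subgroup.normal_inf_normal K (centralizer (D : Set X))
  have hCcomm : ∀ c ∈ C, ∀ d ∈ D, d * c = c * d := fun c hc d hd =>
    Subgroup.mem_centralizer_iff.mp (Subgroup.mem_inf.mp hc).2 d hd
  -- `|K| ≤ mB ^ cB * |C|`
  have hKC : Nat.card K ≤ (mB n) ^ (cB n) * Nat.card C := by
    letI : Fintype D := Fintype.ofFinite D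
    let Ck : Subgroup K := ⨅ d : D, centralizer ({(⟨d.1, hDK d.2⟩ : K)} : Set K)
    have hmBpos : 1 ≤ mB n := Nat.one_le_pow _ _ h2n
    have hidx : Ck.index ≤ (mB n) ^ (cB n) := by
      calc Ck.index ≤ ∏ d : D, (centralizer ({(⟨d.1, hDK d.2⟩ : K)} : Set K)).index :=
            index_iInf_le _
        _ ≤ ∏ _d : D, mB n := Finset.prod_le_prod' fun d _ => hKcl' _
        _ = (mB n) ^ (Nat.card D) := by
            rw [Finset.prod_const, Finset.card_univ, Nat.card_eq_fintype_card]
        _ ≤ (mB n) ^ (cB n) := Nat.pow_le_pow_right hmBpos hDcard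
    have hinj : Nat.card Ck ≤ Nat.card C := by
      let φ : Ck → C := fun c => ⟨c.1.1, Subgroup.mem_inf.mpr ⟨c.1.2, by
        rw [Subgroup.mem_centralizer_iff]
        intro d hd
        have h5 := (Subgroup.mem_iInf.mp c.2) ⟨d, hd⟩
        rw [mem_centralizer_singleton_iff] at h5
        exact (congrArg Subtype.val h5).symm⟩⟩
      apply Nat.card_le_card_of_injective φ
      intro a b hab
      have : (a : K).1 = (b : K).1 := congrArg (fun w : C => (w : X)) hab
      exact Subtype.ext (Subtype.ext this)
    calc Nat.card K = Ck.index * Nat.card Ck := (Subgroup.index_mul_card Ck).symm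
      _ ≤ _ := Nat.mul_le_mul hidx hinj
  -- the odd elements of `C`
  set N := Nat.card X with hN
  have hNne : N ≠ 0 := Nat.card_pos.ne'
  set m := ordCompl[2] N with hm
  set t := N.factorization 2 with ht
  have hNm : 2 ^ t * m = N := Nat.ordProj_mul_ordCompl_eq_self N 2
  have hmodd : Odd m := by
    rw [← Nat.not_even_iff_odd, even_iff_two_dvd]
    exact Nat.not_dvd_ordCompl Nat.prime_two hNne
  have hCwitness : ∀ x ∈ C, ∀ y ∈ C, x ^ m = 1 → y ^ m = 1 → (x * y) ^ m = 1 := by
    intro x hx y hy hxm hym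
    have hxK := (Subgroup.mem_inf.mp hx).1
    have hyK := (Subgroup.mem_inf.mp hy).1
    set z := y⁻¹ * x⁻¹ * y * x with hz
    have hzD : z ∈ D := hDcomm x hxK y hyK
    apply mul_pow_eq_one_of_odd (z := z) _ (hCcomm x hx z hzD) (hCcomm y hy z hzD) hmodd hxm hym
    rw [hz]
    group
  let W : Subgroup X :=
    { carrier := {c | c ∈ C ∧ c ^ m = 1}
      mul_mem' := fun {x y} hx hy => ⟨C.mul_mem hx.1 hy.1, hCwitness x hx.1 y hy.1 hx.2 hy.2⟩
      one_mem' := ⟨C.one_mem, one_pow _⟩
      inv_mem' := fun {x} hx => ⟨C.inv_mem hx.1, by rw [inv_pow, hx.2, inv_one]⟩ }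
  have hWC : W ≤ C := fun x hx => hx.1
  have hWnormal : W.Normal := by
    refine ⟨fun x hx g => ⟨hCnormal.conj_mem x hx.1 g, ?_⟩⟩
    rw [conj_pow, hx.2]
    group
  have hWodd : ¬ 2 ∣ Nat.card W := by
    intro h
    obtain ⟨w, hw⟩ := exists_prime_orderOf_dvd_card' (G := W) 2 h
    have h6 : (w : X) ^ m = 1 := w.2.2
    have h7 : orderOf (w : X) = 2 := by rw [Subgroup.orderOf_coe]; exact hw
    have h8 := orderOf_dvd_of_pow_eq_one h6
    rw [h7] at h8
    exact (Nat.not_even_iff_odd.mpr hmodd) (even_iff_two_dvd.mpr h8)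
  -- the Brauer-Wielandt bound
  have hWle : Nat.card W ≤ n ^ 3 := by
    have hvnot : v ∉ Subgroup.zpowers u := by
      intro hvu
      obtain ⟨k, hk⟩ := Subgroup.mem_zpowers_iff.mp hvu
      have hv1 : v ≠ 1 := by
        rintro rfl
        rw [orderOf_one] at hv
        omega
      have huu : u ^ 2 = 1 := by rw [← hu]; exact pow_orderOf_eq_one u
      rcases Int.emod_two_eq_zero_or_one k with h5 | h5
      · apply hv1
        rw [← hk, ← Int.emod_add_mul_ediv k 2, h5, zero_add, zpow_mul]
        have : u ^ (2 : ℤ) = 1 := by exact_mod_cast huu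
        rw [this, one_zpow]
      · apply hne
        rw [← hk, ← Int.emod_add_mul_ediv k 2, h5, zpow_add, zpow_one, zpow_mul]
        have : u ^ (2 : ℤ) = 1 := by exact_mod_cast huu
        rw [this, one_zpow, mul_one]
    have hvv : v ^ 2 = 1 := by rw [← hv]; exact pow_orderOf_eq_one v
    have hL := lines_of_pair (p := 2) huv hu hvv hvnot
    have hbw := bw_general hL hWodd (by
      rw [(Subgroup.normalizer_eq_top_iff (H := W)).mpr hWnormal]
      exact le_top)
    unfold BW at hbw
    rw [Fintype.prod_option, Fin.prod_univ_two] at hbw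
    have hcardC : ∀ g : X, Nat.card ↥(W ⊓ Subgroup.centralizer
        ((Subgroup.zpowers g : Subgroup X) : Set X)) ≤ Nat.card (centralizer ({g} : Set X)) := by
      intro g
      rw [centralizer_zpowers_eq]
      exact Subgroup.card_le_of_le inf_le_right
    have e1 : lineGen (p := 2) u v none = u := rfl
    have e2 : lineGen (p := 2) u v (some 0) = v := by
      show u ^ ((0 : Fin 2) : ℕ) * v = v
      simp
    have e3 : lineGen (p := 2) u v (some 1) = u * v := by
      show u ^ ((1 : Fin 2) : ℕ) * v = u * v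
      simp
    beta_reduce at hbw
    rw [e1, e2, e3] at hbw
    have hpos : 1 ≤ Nat.card ↥(W ⊓ Subgroup.centralizer
        ((Subgroup.zpowers u ⊔ Subgroup.zpowers v : Subgroup X) : Set X)) ^ 2 :=
      Nat.one_le_pow _ _ Nat.card_pos
    calc Nat.card W ≤ Nat.card W * Nat.card ↥(W ⊓ Subgroup.centralizer
          ((Subgroup.zpowers u ⊔ Subgroup.zpowers v : Subgroup X) : Set X)) ^ 2 :=
          Nat.le_mul_of_pos_right _ hpos
      _ = _ := hbw.symm
      _ ≤ n * (n * n) := by
          apply Nat.mul_le_mul ((hcardC u).trans h1)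
          exact Nat.mul_le_mul ((hcardC v).trans h2) ((hcardC _).trans h3)
      _ = n ^ 3 := by ring
  -- `C / W` is a `2`-group
  have hCle : Nat.card C ≤ n ^ 3 * 2 ^ a := by
    let W' : Subgroup C := W.subgroupOf C
    haveI hW'n : W'.Normal := Subgroup.Normal.subgroupOf hWnormal C
    have hQ : IsPGroup 2 (C ⧸ W') := by
      intro q
      refine ⟨t, ?_⟩
      induction q using QuotientGroup.induction_on with
      | H c =>
        rw [← QuotientGroup.mk_pow, QuotientGroup.eq_one_iff, Subgroup.mem_subgroupOf]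
        refine ⟨C.pow_mem c.2 _, ?_⟩
        show ((c : X) ^ 2 ^ t) ^ m = 1
        rw [← pow_mul, hNm, hN]
        exact pow_card_eq_one'
    obtain ⟨j, hj⟩ := hQ.exists_card_eq
    have hdvd : Nat.card (C ⧸ W') ∣ N := by
      have h5 : Nat.card (C ⧸ W') ∣ Nat.card C := by
        rw [Subgroup.card_eq_card_quotient_mul_card_subgroup W']
        exact dvd_mul_right _ _
      exact h5.trans (Subgroup.card_subgroup_dvd_card C)
    have hjt : j ≤ a := by
      rw [hj] at hdvd
      exact ((Nat.Prime.pow_dvd_iff_le_factorization Nat.prime_two hNne).mp hdvd).trans ha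
    have hcardW' : Nat.card W' = Nat.card W :=
      Nat.card_congr (Subgroup.subgroupOfEquivOfLe hWC).toEquiv
    rw [Subgroup.card_eq_card_quotient_mul_card_subgroup W', hcardW', hj, mul_comm]
    exact Nat.mul_le_mul hWle (Nat.pow_le_pow_right (by norm_num) hjt)
  unfold bound
  calc N = K.index * Nat.card K := (Subgroup.index_mul_card K).symm
    _ ≤ 2 * n ^ 2 * ((mB n) ^ (cB n) * (n ^ 3 * 2 ^ a)) :=
        Nat.mul_le_mul hKidx (hKC.trans (Nat.mul_le_mul_left _ hCle))

end Bound

end Cfsg.Agent.Lib.FourGroupBound
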