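import Mathlib
import Cfsg.Agent.Lib.Fpf3C

/-!
# Quadratic character sums and automorphisms of `3`-power order
-/

set_option autoImplicit false
set_option linter.unusedSectionVars false
set_option linter.unusedSimpArgs false

namespace Cfsg.Agent.Lib.Fpf3D

open Cfsg.Agent.Lib.T64 Cfsg.Agent.Lib.Fpf3 Cfsg.Agent.Lib.Fpf3B Cfsg.Agent.Lib.Fpf3C

section SumSq

variable {Y : Type*} [Group Y] [Fintype Y]

/-- The square of a quadratic character sum on a `2`-group is zero or a power of two. -/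
theorem sum_sq (hp : IsPGroup 2 Y) (χ : Y → ℤ) (hχ : ∀ y, χ y * χ y = 1) (Ψ : Y → (Y →* ℤ))
    (hm : ∀ a u, χ (a * u) = χ a * χ u * Ψ u a) (hΨ : ∀ u v a, Ψ (u * v) a = Ψ u a * Ψ v a) :
    (∑ y, χ y) ^ 2 = 0 ∨ ∃ k : ℕ, (∑ y, χ y) ^ 2 = 2 ^ k := by
  classical
  have hne : ∀ u a, Ψ u a ≠ 0 := by
    intro u a h0
    have h1 : Ψ u a * Ψ u a⁻¹ = 1 := by rw [← map_mul, mul_inv_cancel, map_one]
    rw [h0, zero_mul] at h1
    exact zero_ne_one h1
  have hΨ1 : Ψ 1 = 1 := by
    ext a
    have h1 := hΨ 1 1 a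
    rw [mul_one] at h1
    have h2 : Ψ 1 a * (Ψ 1 a - 1) = 0 := by linear_combination -h1
    have h3 := (mul_eq_zero.mp h2).resolve_left (hne 1 a)
    simp only [MonoidHom.one_apply]
    linarith
  let Rad : Subgroup Y :=
    { carrier := {u | Ψ u = 1}
      one_mem' := hΨ1
      mul_mem' := by
        intro u v hu hv
        have hu' : Ψ u = 1 := hu
        have hv' : Ψ v = 1 := hv
        show Ψ (u * v) = 1
        ext a
        rw [hΨ, hu', hv']
        simp
      inv_mem' := by
        intro u hu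
        have hu' : Ψ u = 1 := hu
        show Ψ u⁻¹ = 1
        ext a
        have h1 := hΨ u u⁻¹ a
        rw [mul_inv_cancel, hΨ1, hu'] at h1
        simpa using h1.symm }
  have hRad : ∀ u, u ∈ Rad ↔ Ψ u = 1 := fun u => Iff.rfl
  have h1 : (∑ y, χ y) ^ 2 = ∑ u, χ u * ∑ a, Ψ u a := by
    calc (∑ y, χ y) ^ 2 = (∑ a, χ a) * ∑ y, χ y := pow_two _
      _ = ∑ a, χ a * ∑ y, χ y := Finset.sum_mul _ _ _
      _ = ∑ a, χ a * ∑ u, χ (a * u) := by
          refine Finset.sum_congr rfl fun a _ => ?_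
          congr 1
          exact (Equiv.sum_comp (Equiv.mulLeft a) χ).symm
      _ = ∑ a, ∑ u, χ u * Ψ u a := by
          refine Finset.sum_congr rfl fun a _ => ?_
          rw [Finset.mul_sum]
          refine Finset.sum_congr rfl fun u _ => ?_
          rw [hm]
          linear_combination (χ u * Ψ u a) * hχ a
      _ = ∑ u, ∑ a, χ u * Ψ u a := Finset.sum_comm
      _ = _ := by
          refine Finset.sum_congr rfl fun u _ => ?_
          rw [Finset.mul_sum]
  have h2 : ∀ u, χ u * ∑ a, Ψ u a =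
      (if u ∈ Rad then χ u * (Fintype.card Y : ℤ) else 0) := by
    intro u
    rw [sum_hom_units (Ψ u)]
    by_cases hu : Ψ u = 1
    · rw [if_pos hu, if_pos ((hRad u).mpr hu)]
    · rw [if_neg hu, if_neg (fun h => hu ((hRad u).mp h))]
      simp
  have h3 : (∑ y, χ y) ^ 2 = (Fintype.card Y : ℤ) * ∑ r : Rad, χ r := by
    rw [h1, Finset.sum_congr rfl fun u _ => h2 u, Finset.sum_ite, Finset.sum_const_zero, add_zero,
      Finset.mul_sum]
    have h4 : ∑ u ∈ Finset.univ.filter (· ∈ Rad), (Fintype.card Y : ℤ) * χ u =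
        ∑ r : Rad, (Fintype.card Y : ℤ) * χ r := Finset.sum_subtype _ (by simp) _
    rw [← h4]
    refine Finset.sum_congr rfl fun u _ => ?_
    ring
  have hχ1 : χ 1 = 1 := by
    have h4 := hm 1 1
    rw [mul_one, hΨ1] at h4
    simp only [MonoidHom.one_apply, mul_one] at h4
    have h5 := hχ 1
    rw [← h4] at h5
    exact h5
  let f : Rad →* ℤ :=
    { toFun := fun r => χ r
      map_one' := hχ1
      map_mul' := by
        intro a u
        have h4 : Ψ u = 1 := u.2
        show χ (a * u) = χ a * χ u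
        rw [hm, h4]
        simp }
  have h5 : ∑ r : Rad, χ r = if f = 1 then (Fintype.card Rad : ℤ) else 0 := by
    have h6 := sum_hom_units f
    exact h6.trans (by split_ifs <;> simp)
  obtain ⟨p, hp'⟩ := IsPGroup.iff_card.mp hp
  obtain ⟨r, hr⟩ := IsPGroup.iff_card.mp (hp.to_subgroup Rad)
  rw [Nat.card_eq_fintype_card] at hp' hr
  rw [h3, h5]
  by_cases hf : f = 1
  · right
    rw [if_pos hf, hp', hr]
    refine ⟨p + r, ?_⟩
    push_cast
    rw [pow_add]
  · left
    rw [if_neg hf, mul_zero]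

end SumSq

section Arith

theorem arith_final (m a : ℕ) (hm : 1 ≤ m) (hY : 9 * m + 4 = 2 ^ a)
    (hS : ((4 : ℤ) - 3 * m) ^ 2 = 0 ∨ ∃ k : ℕ, ((4 : ℤ) - 3 * m) ^ 2 = 2 ^ k) : False := by
  have hne : ((4 : ℤ) - 3 * m) ≠ 0 := by omega
  obtain ⟨k, hk⟩ : ∃ k : ℕ, ((4 : ℤ) - 3 * m) ^ 2 = 2 ^ k := by
    rcases hS with h0 | h0
    · exact absurd (pow_eq_zero_iff (by norm_num) |>.mp h0) hne
    · exact h0
  have hk2 : (((4 : ℤ) - 3 * m).natAbs) ^ 2 = 2 ^ k := by
    zify
    rw [sq_abs]
    exact hk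
  obtain ⟨b, -, hb⟩ := (Nat.dvd_prime_pow Nat.prime_two).mp
    (Dvd.intro_left _ (by rw [← hk2]; ring) :
      ((4 : ℤ) - 3 * m).natAbs ∣ 2 ^ k)
  rcases Nat.lt_or_ge m 2 with hm2 | hm2
  · have : m = 1 := by omega
    subst this
    norm_num at hY
    have ha : a < 4 := by
      by_contra hc
      push Not at hc
      have := Nat.pow_le_pow_right (n := 2) (by norm_num) hc
      omega
    interval_cases a <;> omega
  · have h1 : 3 * m = 2 ^ b + 4 := by
      have h2 : ((4 : ℤ) - 3 * m).natAbs = 3 * m - 4 := by omega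
      rw [h2] at hb
      have h3 : 4 ≤ 3 * m := by omega
      omega
    have h2 : 2 ^ a = 3 * 2 ^ b + 16 := by omega
    rcases Nat.lt_or_ge b 5 with hb5 | hb5
    · have ha : a < 7 := by
        by_contra hc
        push Not at hc
        have h3 := Nat.pow_le_pow_right (n := 2) (by norm_num) hc
        have h4 := Nat.pow_le_pow_right (n := 2) (by norm_num) (Nat.lt_succ_iff.mp hb5)
        omega
      interval_cases b <;> interval_cases a <;> omega
    · obtain ⟨c, rfl⟩ : ∃ c, b = c + 5 := ⟨b - 5, by omega⟩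
      have h3 : 2 ^ a = 16 * (6 * 2 ^ c + 1) := by
        rw [h2, pow_add]
        ring
      have h4 : (6 * 2 ^ c + 1) ∣ 2 ^ a := ⟨16, by rw [h3]; ring⟩
      obtain ⟨e, -, he⟩ := (Nat.dvd_prime_pow Nat.prime_two).mp h4
      rcases Nat.eq_zero_or_pos e with rfl | he0
      · have : 0 < 2 ^ c := by positivity
        simp at he
      · have h5 : 2 ∣ 2 ^ e := dvd_pow_self 2 (by omega)
        rw [← he] at h5
        omega

end Arith

section NoRho

variable {D : Type*} [Group D] [Finite D]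

/-- An automorphism of order three of a group of exponent four all of whose involutions are central
(four in number, up to the identity), commuting with an automorphism transitive on the involutions
and trivial on the involutions, is trivial. -/
theorem no_rho (V : Subgroup D) (hVZ : V ≤ Subgroup.center D) (hV4 : Nat.card V = 4)
    (hsq : ∀ x : D, x ^ 2 = 1 ↔ x ∈ V) (h4 : ∀ x : D, x ^ 4 = 1) (β ρ : MulAut D)
    (hβρ : ∀ x, β (ρ x) = ρ (β x)) (hρ3 : ∀ x, ρ (ρ (ρ x)) = x) (hρV : ∀ v ∈ V, ρ v = v)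
    (htr : ∀ v ∈ V, ∀ v' ∈ V, v ≠ 1 → v' ≠ 1 → ∃ k : ℕ, (β ^ k) v = v') (x₀ : D) : ρ x₀ = x₀ := by
  classical
  by_contra hx₀
  have hp : IsPGroup 2 D := fun g => ⟨2, by simpa using h4 g⟩
  have hsqV : ∀ x : D, x ^ 2 ∈ V := fun x => (hsq _).mp (by rw [← pow_mul]; exact h4 x)
  have hc : ∀ {v : D}, v ∈ V → ∀ g, g * v = v * g := fun hv g => central (hVZ hv) g
  have hcmV : ∀ a b : D, cm a b ∈ V := by
    intro a b
    have e : cm a b = (a * b) ^ 2 * (a ^ 2)⁻¹ * (b ^ 2)⁻¹ := by
      have h1 := hc (V.inv_mem (hsqV a)) b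
      calc cm a b = a * b * a * ((a ^ 2)⁻¹ * b) * (b ^ 2)⁻¹ := by simp only [cm, pow_two]; group
        _ = a * b * a * (b * (a ^ 2)⁻¹) * (b ^ 2)⁻¹ := by rw [h1]
        _ = _ := by simp only [pow_two]; group
    rw [e]
    exact V.mul_mem (V.mul_mem (hsqV _) (V.inv_mem (hsqV _))) (V.inv_mem (hsqV _))
  have hmulN : ∀ x y : D, x * ρ x * ρ (ρ x) ∈ V → y * ρ y * ρ (ρ y) ∈ V →
      (x * y) * ρ (x * y) * ρ (ρ (x * y)) ∈ V := by
    intro x y hx hy
    simp only [map_mul]
    obtain ⟨x', hx'⟩ : ∃ x', x' = ρ x := ⟨_, rfl⟩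
    obtain ⟨x'', hx''⟩ : ∃ x'', x'' = ρ (ρ x) := ⟨_, rfl⟩
    obtain ⟨y', hy'⟩ : ∃ y', y' = ρ y := ⟨_, rfl⟩
    obtain ⟨y'', hy''⟩ : ∃ y'', y'' = ρ (ρ y) := ⟨_, rfl⟩
    rw [← hx'', ← hx'] at hx ⊢
    rw [← hy'', ← hy'] at hy ⊢
    have c1 := hcmV y x'
    have c2 := hcmV y' x''
    have c3 := hcmV y x''
    have e1 : y * x' = cm y x' * (x' * y) := by simp only [cm]; group
    have e2 : y' * x'' = cm y' x'' * (x'' * y') := by simp only [cm]; group
    have e3 : y * x'' = cm y x'' * (x'' * y) := by simp only [cm]; group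
    have key : x * y * (x' * y') * (x'' * y'') =
        cm y x' * (cm y' x'' * (cm y x'' * ((x * x' * x'') * (y * y' * y'')))) := by
      generalize cm y x' = a at *
      generalize cm y' x'' = b at *
      generalize cm y x'' = c at *
      calc x * y * (x' * y') * (x'' * y'') = x * (y * x') * (y' * x'') * y'' := by group
        _ = x * (a * (x' * y)) * (b * (x'' * y')) * y'' := by rw [e1, e2]
        _ = (x * a) * (x' * y) * (b * (x'' * y')) * y'' := by group
        _ = (a * x) * (x' * y) * (b * (x'' * y')) * y'' := by rw [hc c1 x]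
        _ = a * (x * x' * (y * b)) * (x'' * y') * y'' := by group
        _ = a * (x * x' * (b * y)) * (x'' * y') * y'' := by rw [hc c2 y]
        _ = a * (x * x' * b) * (y * x'') * y' * y'' := by group
        _ = a * (x * x' * b) * (c * (x'' * y)) * y' * y'' := by rw [e3]
        _ = a * (x * x' * (b * c)) * (x'' * y) * y' * y'' := by group
        _ = a * ((b * c) * (x * x')) * (x'' * y) * y' * y'' := by
            rw [hc (V.mul_mem c2 c3) (x * x')]
        _ = _ := by group
    rw [key]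
    exact V.mul_mem (hcmV _ _) (V.mul_mem (hcmV _ _) (V.mul_mem (hcmV _ _) (V.mul_mem hx hy)))
  let T₁ : Subgroup D :=
    { carrier := {x | x * ρ x * ρ (ρ x) ∈ V}
      one_mem' := by
        show 1 * ρ 1 * ρ (ρ 1) ∈ V
        simp
      mul_mem' := fun {x y} hx hy => hmulN x y hx hy
      inv_mem' := by
        intro x hx
        have h1 : x⁻¹ = x * x * x := by
          apply inv_eq_of_mul_eq_one_left
          have := h4 x
          simp only [pow_succ, pow_zero, one_mul] at this
          exact this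
        have hx' : x * ρ x * ρ (ρ x) ∈ V := hx
        show x⁻¹ * ρ x⁻¹ * ρ (ρ x⁻¹) ∈ V
        rw [h1]
        exact hmulN _ _ (hmulN _ _ hx' hx') hx' }
  have hT₁ : ∀ x, x ∈ T₁ ↔ x * ρ x * ρ (ρ x) ∈ V := fun x => Iff.rfl
  have hT₁V : V ≤ T₁ := by
    intro v hv
    rw [hT₁, hρV v hv, hρV v hv]
    exact V.mul_mem (V.mul_mem hv hv) hv
  have hVβ : ∀ v ∈ V, β v ∈ V := by
    intro v hv
    rw [← hsq, ← map_pow, (hsq v).mpr hv, map_one]
  have hT₁β : ∀ x ∈ T₁, β x ∈ T₁ := by
    intro x hx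
    rw [hT₁] at hx ⊢
    have h1 := hVβ _ hx
    simp only [map_mul, hβρ] at h1
    exact h1
  have hT₁βk : ∀ (k : ℕ), ∀ x ∈ T₁, (β ^ k) x ∈ T₁ := by
    intro k
    induction k with
    | zero => intro x hx; simpa using hx
    | succ k ih =>
      intro x hx
      rw [pow_succ', MulAut.mul_apply]
      exact hT₁β _ (ih x hx)
  have hT₁ρ : ∀ x ∈ T₁, ρ x ∈ T₁ := by
    intro x hx
    rw [hT₁] at hx ⊢
    have h1 : ρ (x * ρ x * ρ (ρ x)) = x * ρ x * ρ (ρ x) := hρV _ hx
    simp only [map_mul] at h1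
    rw [h1]
    exact hx
  have hfix : ∀ x ∈ T₁, ρ x = x → x ∈ V := by
    intro x hx hρx
    rw [hT₁, hρx, hρx] at hx
    rw [← hsq]
    have h1 := (hsq _).mpr hx
    have h2 := h4 x
    calc x ^ 2 = x ^ 2 * x ^ 4 := by rw [h2, mul_one]
      _ = (x * x * x) ^ 2 := by simp only [pow_succ, pow_zero, one_mul]; group
      _ = 1 := h1
  obtain ⟨x₁, hx₁def⟩ : ∃ x₁, x₁ = x₀⁻¹ * ρ x₀ := ⟨_, rfl⟩
  have hx₁ : x₁ ∈ T₁ := by
    rw [hT₁, hx₁def]
    simp only [map_mul, map_inv, hρ3]
    have : x₀⁻¹ * ρ x₀ * ((ρ x₀)⁻¹ * ρ (ρ x₀)) * ((ρ (ρ x₀))⁻¹ * x₀) = 1 := by group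
    rw [this]
    exact V.one_mem
  have hx₁V : x₁ ∉ V := by
    intro h1
    apply hx₀
    have h2 : ρ x₀ = x₀ * x₁ := by rw [hx₁def]; group
    have h3 : ρ (ρ x₀) = x₀ * x₁ ^ 2 := by
      rw [h2, map_mul, hρV _ h1, h2, pow_two]
      group
    rw [(hsq x₁).mpr h1, mul_one] at h3
    have h5 := congrArg ρ h3
    rw [hρ3] at h5
    exact h5.symm
  -- counting
  have : Fintype D := Fintype.ofFinite D
  have : Fintype T₁ := Fintype.ofFinite T₁
  have : Fintype V := Fintype.ofFinite V
  let sqY : T₁ → V := fun y => ⟨(y : D) ^ 2, hsqV _⟩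
  have hsqY : ∀ y : T₁, ((sqY y : V) : D) = (y : D) ^ 2 := fun y => rfl
  let n : V → ℕ := fun v => Nat.card {y : T₁ // sqY y = v}
  have hn1 : n 1 = 4 := by
    rw [← hV4]
    apply Nat.card_congr
    exact
      { toFun := fun y => ⟨y.1.1, (hsq _).mp (congrArg Subtype.val y.2)⟩
        invFun := fun v => ⟨⟨v.1, hT₁V v.2⟩, Subtype.ext ((hsq _).mpr v.2)⟩
        left_inv := fun y => rfl
        right_inv := fun v => rfl }
  have hnle : ∀ v v' : V, v ≠ 1 → v' ≠ 1 → n v ≤ n v' := by
    intro v v' hv hv'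
    obtain ⟨k, hk⟩ := htr v v.2 v' v'.2 (fun h => hv (Subtype.ext h)) (fun h => hv' (Subtype.ext h))
    refine Nat.card_le_card_of_injective
      (fun y => (⟨⟨(β ^ k) y.1.1, hT₁βk k _ y.1.2⟩, Subtype.ext (by
        show ((β ^ k) y.1.1) ^ 2 = v'
        rw [← map_pow]
        have h1 : (y.1.1) ^ 2 = v := congrArg Subtype.val y.2
        rw [h1, hk])⟩ : {y : T₁ // sqY y = v'})) ?_
    intro y y' hyy
    have h1 : (β ^ k) y.1.1 = (β ^ k) y'.1.1 :=
      congrArg (fun z : {y : T₁ // sqY y = v'} => z.1.1) hyy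
    exact Subtype.ext (Subtype.ext ((β ^ k).injective h1))
  have h3 : ∀ v : V, v ≠ 1 → 3 ∣ n v := by
    intro v hv
    have : Fact (Nat.Prime 3) := ⟨Nat.prime_three⟩
    have : Fintype {y : T₁ // sqY y = v} := Fintype.ofFinite _
    let f : Function.End {y : T₁ // sqY y = v} := fun y =>
      ⟨⟨ρ y.1.1, hT₁ρ _ y.1.2⟩, Subtype.ext (by
        show (ρ y.1.1) ^ 2 = v
        rw [← map_pow]
        have h1 : (y.1.1) ^ 2 = v := congrArg Subtype.val y.2
        rw [h1]
        exact hρV _ v.2)⟩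
    have hf : f ^ (3 ^ 1) = 1 := by
      funext y
      apply Subtype.ext
      apply Subtype.ext
      exact hρ3 _
    have h5 := Equiv.Perm.card_fixedPoints_modEq (p := 3) (n := 1) hf
    have h6 : IsEmpty f.fixedPoints := by
      refine ⟨fun y => ?_⟩
      have h7 : ρ y.1.1.1 = y.1.1.1 :=
        congrArg (fun z : {y : T₁ // sqY y = v} => z.1.1) y.2
      have h8 := hfix _ y.1.1.2 h7
      have h9 := (hsq _).mpr h8
      have h10 : (y.1.1.1) ^ 2 = v := congrArg Subtype.val y.1.2
      apply hv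
      apply Subtype.ext
      rw [← h10, h9]
      rfl
    have h7 : Fintype.card f.fixedPoints = 0 := Fintype.card_eq_zero
    rw [h7] at h5
    have h8 : n v = Fintype.card {y : T₁ // sqY y = v} := Nat.card_eq_fintype_card
    rw [h8]
    exact (Nat.modEq_zero_iff_dvd).mp h5
  obtain ⟨v₀, hv₀⟩ : ∃ v₀ : V, v₀ = sqY ⟨x₁, hx₁⟩ := ⟨_, rfl⟩
  have hv₀1 : v₀ ≠ 1 := by
    intro h1
    rw [hv₀] at h1
    exact hx₁V ((hsq _).mp (congrArg Subtype.val h1))
  have hval : ∀ v : V, v ≠ 1 → n v = n v₀ := fun v hv =>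
    le_antisymm (hnle v v₀ hv hv₀1) (hnle v₀ v hv₀1 hv)
  have hn₀ : 1 ≤ n v₀ := by
    have : Nonempty {y : T₁ // sqY y = v₀} := ⟨⟨⟨x₁, hx₁⟩, hv₀.symm⟩⟩
    exact Nat.card_pos
  obtain ⟨m, hm⟩ := h3 v₀ hv₀1
  have hcardV : (Finset.univ.erase (1 : V)).card = 3 := by
    rw [Finset.card_erase_of_mem (Finset.mem_univ _), Finset.card_univ, ← Nat.card_eq_fintype_card,
      hV4]
  have hcardY : Nat.card T₁ = 4 + 3 * n v₀ := by
    rw [Nat.card_congr (Equiv.sigmaFiberEquiv sqY).symm, Nat.card_sigma]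
    have h1 : ∑ v : V, n v = n 1 + ∑ v ∈ Finset.univ.erase (1 : V), n v :=
      (Finset.add_sum_erase _ _ (Finset.mem_univ _)).symm
    have h2 : ∑ v ∈ Finset.univ.erase (1 : V), n v = 3 * n v₀ := by
      rw [Finset.sum_congr rfl (fun v hv => hval v (Finset.ne_of_mem_erase hv)), Finset.sum_const,
        hcardV]
      rfl
    show ∑ v : V, n v = _
    rw [h1, h2, hn1]
  -- the character
  let H : Subgroup V := Subgroup.zpowers v₀
  have hv₀sq : v₀ ^ 2 = 1 := Subtype.ext ((hsq _).mpr v₀.2)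
  have hHcard : Nat.card H = 2 := by
    rw [Nat.card_zpowers]
    exact orderOf_eq_prime hv₀sq hv₀1
  have hHidx : H.index = 2 := by
    have h1 := Subgroup.card_mul_index H
    rw [hHcard, hV4] at h1
    omega
  let lam : V →* ℤ :=
    { toFun := fun v => if v ∈ H then 1 else -1
      map_one' := if_pos H.one_mem
      map_mul' := by
        intro a b
        have h1 := Subgroup.mul_mem_iff_of_index_two hHidx (a := a) (b := b)
        by_cases ha : a ∈ H <;> by_cases hb : b ∈ H <;> simp [ha, hb, h1] }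
  have hlam : ∀ v, lam v = if v ∈ H then 1 else -1 := fun v => rfl
  have hlamne : lam ≠ 1 := by
    intro h1
    have h2 : H = ⊤ := by
      rw [eq_top_iff]
      intro v _
      by_contra hv
      have h5 := congrArg (fun f : V →* ℤ => f v) h1
      simp only [MonoidHom.one_apply, hlam, if_neg hv] at h5
      norm_num at h5
    rw [h2, Subgroup.index_top] at hHidx
    norm_num at hHidx
  have hlamsum : ∑ v : V, lam v = 0 := sum_hom_units_eq_zero lam hlamne
  -- the sum
  let χ : T₁ → ℤ := fun y => lam (sqY y)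
  have hcen : ∀ a b : D, cm a b ∈ Subgroup.center D := fun a b => hVZ (hcmV a b)
  let Ψ : T₁ → (T₁ →* ℤ) := fun u =>
    { toFun := fun a => lam ⟨cm u.1 a.1, hcmV _ _⟩
      map_one' := by
        have h1 : (⟨cm u.1 (1 : T₁).1, hcmV _ _⟩ : V) = 1 := by
          apply Subtype.ext
          show cm u.1 1 = 1
          exact cm_one_right _
        rw [h1, map_one]
      map_mul' := by
        intro a b
        rw [← map_mul]
        congr 1
        apply Subtype.ext
        exact cm_mul_right_z _ _ _ (hcen _ _) }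
  have hΨ : ∀ u a : T₁, Ψ u a = lam ⟨cm u.1 a.1, hcmV _ _⟩ := fun u a => rfl
  have hS2 := sum_sq (hp.to_subgroup T₁) χ
    (by
      intro y
      show lam (sqY y) * lam (sqY y) = 1
      rw [← map_mul]
      have h1 : sqY y * sqY y = 1 := by
        apply Subtype.ext
        show (y : D) ^ 2 * (y : D) ^ 2 = 1
        rw [← pow_add]
        exact h4 _
      rw [h1, map_one])
    Ψ
    (by
      intro a u
      show lam (sqY (a * u)) = lam (sqY a) * lam (sqY u) * Ψ u a
      rw [hΨ, ← map_mul, ← map_mul]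
      congr 1
      apply Subtype.ext
      show ((a : D) * u) ^ 2 = (a : D) ^ 2 * (u : D) ^ 2 * cm u.1 a.1
      rw [sq_mul_cl (hcen _ _), mul_assoc]
      exact (central (hcen _ _) _).symm)
    (by
      intro u v a
      rw [hΨ, hΨ, hΨ, ← map_mul]
      congr 1
      apply Subtype.ext
      exact cm_mul_left_z _ _ _ (hcen _ _) (hcen _ _))
  have hSval : ∑ y, χ y = 4 - n v₀ := by
    have h1 : ∑ y : T₁, χ y = ∑ v : V, (n v : ℤ) * lam v := by
      rw [← Finset.sum_fiberwise Finset.univ sqY χ]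
      refine Finset.sum_congr rfl fun v _ => ?_
      have h2 : ∀ y ∈ Finset.univ.filter (fun y => sqY y = v), χ y = lam v := by
        intro y hy
        rw [Finset.mem_filter] at hy
        show lam (sqY y) = lam v
        rw [hy.2]
      rw [Finset.sum_congr rfl h2, Finset.sum_const, nsmul_eq_mul]
      congr 2
      rw [← Fintype.card_subtype]
      exact (Nat.card_eq_fintype_card).symm
    rw [h1, ← Finset.add_sum_erase _ _ (Finset.mem_univ (1 : V)), hn1, map_one]
    have h2 : ∑ v ∈ Finset.univ.erase (1 : V), (n v : ℤ) * lam v =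
        (n v₀ : ℤ) * ∑ v ∈ Finset.univ.erase (1 : V), lam v := by
      rw [Finset.mul_sum]
      refine Finset.sum_congr rfl fun v hv => ?_
      rw [hval v (Finset.ne_of_mem_erase hv)]
    have h3' : ∑ v ∈ Finset.univ.erase (1 : V), lam v = -1 := by
      have h5 := Finset.add_sum_erase Finset.univ lam (Finset.mem_univ (1 : V))
      rw [hlamsum, map_one] at h5
      linarith
    rw [h2, h3']
    push_cast
    ring
  obtain ⟨a, ha⟩ := IsPGroup.iff_card.mp (hp.to_subgroup T₁)
  have hm1 : 1 ≤ m := by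
    rcases Nat.eq_zero_or_pos m with rfl | h5
    · omega
    · exact h5
  refine arith_final m a hm1 ?_ ?_
  · rw [← ha, hcardY, hm]
    ring
  · rw [hSval, hm] at hS2
    push_cast at hS2
    exact hS2

end NoRho

section Omega

variable {T : Type*} [Group T] [Finite T]

/-- The nonabelian case: all involutions are central and form a four-group. -/
theorem main_omega_nonab (hp : IsPGroup 2 T) {ρ : MulAut T} (h : Fpf ρ) (V : Subgroup T)
    (hsq : ∀ t : T, t ^ 2 = 1 ↔ t ∈ V) (hVZ : V ≤ Subgroup.center T) (hV4 : Nat.card V = 4)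
    (x₀ : T) (hx₀ : x₀ ∉ Subgroup.center T) : Nat.card T = 64 := by
  classical
  have : Fact (Nat.Prime 2) := ⟨Nat.prime_two⟩
  have hcl := cm_mem_center hp h
  have hVρ : ∀ m ∈ V, ρ m ∈ V := by
    intro m hm
    rw [← hsq] at hm ⊢
    rw [← map_pow, hm, map_one]
  have hnt : Nontrivial (T ⧸ Subgroup.center T) := by
    refine ⟨(x₀ : T ⧸ Subgroup.center T), 1, ?_⟩
    intro h1
    exact hx₀ ((QuotientGroup.eq_one_iff _).mp h1)
  have hcommA : ∀ a b : T ⧸ Subgroup.center T, a * b = b * a := by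
    intro a b
    induction a using QuotientGroup.induction_on with
    | H a =>
      induction b using QuotientGroup.induction_on with
      | H b =>
        rw [← QuotientGroup.mk_mul, ← QuotientGroup.mk_mul, QuotientGroup.eq]
        have h1 := hcl b⁻¹ a⁻¹
        have h2 : (a * b)⁻¹ * (b * a) = cm b⁻¹ a⁻¹ := by simp only [cm]; group
        rw [h2]
        exact h1
  have hpA : IsPGroup 2 (T ⧸ Subgroup.center T) := hp.to_quotient _
  have hFA := fpf_qaut h
  -- generation contradicts noncommutativity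
  have hnogen : ∀ Ω : Subgroup (T ⧸ Subgroup.center T), (∀ a, a ^ 2 = 1 ↔ a ∈ Ω) →
      Nat.card Ω = 4 → False := by
    intro Ω hΩ' hcard
    obtain ⟨a₁, ha₁, ha₁1⟩ : ∃ a₁ ∈ Ω, a₁ ≠ 1 := by
      by_contra hcon
      push Not at hcon
      have h1 : Ω = ⊥ := by
        rw [eq_bot_iff]
        intro a ha
        exact hcon a ha
      rw [h1] at hcard
      simp at hcard
    obtain ⟨e, he⟩ : ∃ e : T ⧸ Subgroup.center T, ∀ g, g ^ 2 ≠ e := by
      by_contra hcon
      push Not at hcon
      have hsurj : Function.Surjective (fun g : T ⧸ Subgroup.center T => g ^ 2) := fun e => hcon e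
      have hinj := Finite.injective_iff_surjective.mpr hsurj
      have h1 : a₁ ^ 2 = 1 := (hΩ' a₁).mpr ha₁
      exact ha₁1 (hinj (by simpa using h1))
    induction e using QuotientGroup.induction_on with
    | H x =>
      have hgen := gen_of_omega hcommA hpA hFA Ω hΩ' hcard _ he
      have hdec : ∀ s : T, ∃ (i j : ℤ) (z : T), z ∈ Subgroup.center T ∧
          s = x ^ i * (ρ x) ^ j * z := by
        intro s
        obtain ⟨i, j, hij⟩ := hgen (s : T ⧸ Subgroup.center T)
        rw [qaut_mk, ← QuotientGroup.mk_zpow, ← QuotientGroup.mk_zpow, ← QuotientGroup.mk_mul,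
          QuotientGroup.eq] at hij
        exact ⟨i, j, _, hij, by group⟩
      have hc0 : Commute x (ρ x) := comm_self h x
      have hcom : ∀ i j i' j' : ℤ, Commute (x ^ i * (ρ x) ^ j) (x ^ i' * (ρ x) ^ j') := by
        intro i j i' j'
        apply Commute.mul_left
        · apply Commute.mul_right
          · exact Commute.zpow_zpow_self x i i'
          · exact hc0.zpow_zpow i j'
        · apply Commute.mul_right
          · exact hc0.symm.zpow_zpow j i'
          · exact Commute.zpow_zpow_self _ j j'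
      apply hx₀
      rw [Subgroup.mem_center_iff]
      intro g
      obtain ⟨i, j, z, hz, hs⟩ := hdec g
      obtain ⟨i', j', z', hz', hs'⟩ := hdec x₀
      rw [hs, hs']
      have h1 := (hcom i j i' j').eq
      generalize x ^ i * (ρ x) ^ j = C at *
      generalize x ^ i' * (ρ x) ^ j' = C' at *
      calc C * z * (C' * z') = C * (z * C') * z' := by group
        _ = C * (C' * z) * z' := by rw [central hz C']
        _ = (C * C') * (z * z') := by group
        _ = (C' * C) * (z' * z) := by rw [h1, central hz z']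
        _ = C' * (C * z') * z := by group
        _ = C' * (z' * C) * z := by rw [central hz' C]
        _ = _ := by group
  -- the structure on the centre
  let ρZ : MulAut (Subgroup.center T) := Subgroup.centerCongr ρ
  have hρZ : ∀ z : Subgroup.center T, ((ρZ z : Subgroup.center T) : T) = ρ z := fun z => rfl
  have hZcomm : ∀ a b : Subgroup.center T, a * b = b * a := fun a b =>
    Subtype.ext (central b.2 a)
  have hLZ4 : Nat.card (V.subgroupOf (Subgroup.center T)) = 4 := by
    rw [Nat.card_congr (Subgroup.subgroupOfEquivOfLe hVZ).toEquiv, hV4]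
  let sqZ : Subgroup.center T →* Subgroup.center T :=
    { toFun := fun y => y ^ 2
      map_one' := one_pow 2
      map_mul' := fun a b => (show Commute a b from hZcomm a b).mul_pow 2 }
  have hsqZ : ∀ y, sqZ y = y ^ 2 := fun y => rfl
  have hSidx : sqZ.range.index = 4 := by
    refine index_squares hZcomm sqZ hsqZ _ ?_ hLZ4
    intro y
    rw [Subgroup.mem_subgroupOf, ← hsq]
    constructor
    · intro h1
      exact congrArg Subtype.val h1
    · intro h1
      exact Subtype.ext h1
  have hcardQ : Nat.card (Subgroup.center T ⧸ sqZ.range) = 4 := hSidx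
  -- the squares of the quotient
  let W : Subgroup (T ⧸ Subgroup.center T) :=
    { carrier := {a | a ^ 2 = 1}
      one_mem' := one_pow 2
      mul_mem' := by
        intro a b ha hb
        have ha' : a ^ 2 = 1 := ha
        have hb' : b ^ 2 = 1 := hb
        show (a * b) ^ 2 = 1
        rw [(show Commute a b from hcommA a b).mul_pow, ha', hb', one_mul]
      inv_mem' := by
        intro a ha
        have ha' : a ^ 2 = 1 := ha
        show a⁻¹ ^ 2 = 1
        rw [inv_pow, ha', inv_one] }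
  have hW : ∀ a, a ^ 2 = 1 ↔ a ∈ W := fun a => Iff.rfl
  have hρW : ∀ m ∈ W, qaut ρ m ∈ W := by
    intro m hm
    rw [← hW] at hm ⊢
    rw [← map_pow, hm, map_one]
  -- the centre is `V`
  have hZV : ∀ z ∈ Subgroup.center T, z ∈ V := by
    by_contra hcon
    push Not at hcon
    obtain ⟨z, hz, hzV⟩ := hcon
    have hz2 : z ^ 2 ≠ 1 := fun h1 => hzV ((hsq z).mp h1)
    obtain ⟨u, hu, hu4⟩ := exists_order_four (hp.to_subgroup (Subgroup.center T))
      (y := ⟨z, hz⟩) (by
        intro h1
        exact hz2 (congrArg Subtype.val h1))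
    have hu' : (u : T) ^ 2 ≠ 1 := fun h1 => hu (Subtype.ext h1)
    have hu4' : (u : T) ^ 4 = 1 := congrArg Subtype.val hu4
    have hv0 : (u : T) ^ 2 ∈ V := by
      rw [← hsq, ← pow_mul]
      exact hu4'
    have hVS : ∀ v ∈ V, ∃ s : Subgroup.center T, (s : T) ^ 2 = v := by
      intro v hv
      rcases enum_four h hVρ hV4 hv0 hu' hv with h1 | h1 | h1 | h1
      · exact ⟨1, by simp [h1]⟩
      · exact ⟨u, h1.symm⟩
      · exact ⟨ρZ u, by rw [h1, hρZ, map_pow]⟩
      · exact ⟨ρZ (ρZ u), by rw [h1, hρZ, hρZ, map_pow, map_pow]⟩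
    have hcardW : Nat.card W = 4 := by
      have hle : Nat.card W ≤ 4 := by
        rw [← hcardQ]
        let out' : W → T := fun a => Quotient.out (a : T ⧸ Subgroup.center T)
        have hout : ∀ a : W, ((out' a : T) : T ⧸ Subgroup.center T) = a := fun a =>
          QuotientGroup.out_eq' _
        have hmem : ∀ a : W, (out' a) ^ 2 ∈ Subgroup.center T := by
          intro a
          rw [← QuotientGroup.eq_one_iff, QuotientGroup.mk_pow, hout]
          exact a.2
        let φ : W → Subgroup.center T ⧸ sqZ.range := fun a => QuotientGroup.mk ⟨_, hmem a⟩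
        apply Nat.card_le_card_of_injective φ
        intro a b hab
        have h1 := QuotientGroup.eq.mp hab
        obtain ⟨s, hs⟩ := h1
        have hs' : (s : T) ^ 2 = ((out' a) ^ 2)⁻¹ * (out' b) ^ 2 := congrArg Subtype.val hs
        obtain ⟨x, hx⟩ : ∃ x, x = out' a := ⟨_, rfl⟩
        obtain ⟨x', hx'⟩ : ∃ x', x' = out' b := ⟨_, rfl⟩
        rw [← hx, ← hx'] at hs'
        have hxZ : x ^ 2 ∈ Subgroup.center T := hx ▸ hmem a
        have hx'Z : x' ^ 2 ∈ Subgroup.center T := hx' ▸ hmem b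
        -- the commutator lies in `V`
        have hc : cm x⁻¹ x' ∈ V := by
          rw [← hsq, pow_two, ← cm_mul_left_z _ _ _ (hcl _ _) (hcl _ _)]
          have h2 : x⁻¹ * x⁻¹ = (x ^ 2)⁻¹ := by simp only [pow_two]; group
          rw [h2]
          exact cm_central_left (Subgroup.inv_mem _ hxZ) _
        obtain ⟨s', hs''⟩ := hVS _ hc
        have h3 : (x' * x⁻¹) ^ 2 = ((s' * s : Subgroup.center T) : T) ^ 2 := by
          rw [sq_mul_cl (hcl _ _), ← hs'']
          have h4 : (x⁻¹) ^ 2 = (x ^ 2)⁻¹ := by simp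
          have hss : Commute (s' : T) (s : T) := congrArg Subtype.val (hZcomm s' s)
          rw [Subgroup.coe_mul, hss.mul_pow, hs', h4]
          have h5 := central (Subgroup.inv_mem _ hxZ) (x' ^ 2)
          rw [mul_assoc, h5]
        obtain ⟨r, hr⟩ : ∃ r : Subgroup.center T, r = s' * s := ⟨_, rfl⟩
        rw [← hr] at h3
        have h6 : (x' * x⁻¹ * (r : T)⁻¹) ^ 2 = 1 := by
          have hcr : Commute (x' * x⁻¹) (r : T)⁻¹ := central (Subgroup.inv_mem _ r.2) _
          rw [hcr.mul_pow, h3, inv_pow]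
          group
        have h7 := hVZ ((hsq _).mp h6)
        have h8 : x' * x⁻¹ ∈ Subgroup.center T := by
          have h9 : x' * x⁻¹ = (x' * x⁻¹ * (r : T)⁻¹) * r := by group
          rw [h9]
          exact Subgroup.mul_mem _ h7 r.2
        have h9 : ((x' : T) : T ⧸ Subgroup.center T) = x := by
          have h10 := (QuotientGroup.eq_one_iff _).mpr h8
          rw [QuotientGroup.mk_mul, QuotientGroup.mk_inv, mul_inv_eq_one] at h10
          exact h10
        rw [hx, hx', hout, hout] at h9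
        exact (Subtype.ext h9).symm
      have h3 := card_mod3 hFA (M := W) hρW
      have h4 : Nat.card W ≠ 1 := by
        intro h5
        have h6 : W = ⊥ := Subgroup.card_eq_one.mp h5
        obtain ⟨a, ha⟩ := exists_prime_orderOf_dvd_card' (G := T ⧸ Subgroup.center T) 2 (by
          obtain ⟨n, hn⟩ := IsPGroup.iff_card.mp hpA
          have h7 : 1 < Nat.card (T ⧸ Subgroup.center T) := Finite.one_lt_card
          rw [hn] at h7 ⊢
          refine dvd_pow_self 2 ?_
          rintro rfl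
          simp at h7)
        have h7 : a ^ 2 = 1 := by rw [← ha]; exact pow_orderOf_eq_one a
        have h8 : a ∈ W := h7
        rw [h6] at h8
        have h9 : a = 1 := by simpa using h8
        rw [h9, orderOf_one] at ha
        norm_num at ha
      have h5 : 0 < Nat.card W := Nat.card_pos
      omega
    exact hnogen W hW hcardW
  have hZeq : Subgroup.center T = V := le_antisymm hZV hVZ
  have hZ4 : Nat.card (Subgroup.center T) = 4 := by rw [hZeq, hV4]
  -- the quotient is elementary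
  have hsqz : ∀ z ∈ Subgroup.center T, z * z = 1 := by
    intro z hz
    rw [← pow_two]
    exact (hsq z).mpr (hZV z hz)
  have hsqT : ∀ x : T, x ^ 2 ∈ Subgroup.center T := by
    intro x
    rw [Subgroup.mem_center_iff]
    intro g
    have h1 : cm (x * x) g = 1 := by
      rw [cm_mul_left_z _ _ _ (hcl _ _) (hcl _ _)]
      exact hsqz _ (hcl _ _)
    rw [pow_two]
    exact (cm_eq_one_iff.mp h1).symm
  have hA2 : ∀ a : T ⧸ Subgroup.center T, a ^ 2 = 1 := by
    intro a
    induction a using QuotientGroup.induction_on with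
    | H a =>
      rw [← QuotientGroup.mk_pow, QuotientGroup.eq_one_iff]
      exact hsqT a
  have hCl : Cl T := ⟨hcl, hsqz⟩
  -- the order of the quotient
  obtain ⟨y, hy⟩ : ∃ y, cm x₀ y ≠ 1 := by
    by_contra hcon
    push Not at hcon
    apply hx₀
    rw [Subgroup.mem_center_iff]
    intro g
    exact (cm_eq_one_iff.mp (hcon g)).symm
  let κ : T →* Subgroup.center T × Subgroup.center T :=
    { toFun := fun t => (⟨cm t x₀, hcl _ _⟩, ⟨cm t y, hcl _ _⟩)
      map_one' := by
        apply Prod.ext <;> apply Subtype.ext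
        · exact cm_one_left _
        · exact cm_one_left _
      map_mul' := by
        intro a b
        apply Prod.ext <;> apply Subtype.ext
        · exact cm_mul_left_z _ _ _ (hcl _ _) (hcl _ _)
        · exact cm_mul_left_z _ _ _ (hcl _ _) (hcl _ _) }
  have hρcm : ∀ s a : T, cm s a = 1 → cm (ρ s) a = 1 := by
    intro s a hsa
    rw [cm_rho_left hCl h, cm_rho_right hCl h, hsa, map_one, map_one]
  have hκ : κ.ker ≤ Subgroup.center T := by
    intro t ht
    have ht1 : cm t x₀ = 1 := congrArg (fun p : Subgroup.center T × Subgroup.center T => (p.1 : T)) ht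
    have ht2 : cm t y = 1 := congrArg (fun p : Subgroup.center T × Subgroup.center T => (p.2 : T)) ht
    by_contra htZ
    have htt : t ^ 2 ≠ 1 := fun h3 => htZ (hVZ ((hsq t).mp h3))
    have hxx : x₀ ^ 2 ≠ 1 := fun h3 => hx₀ (hVZ ((hsq x₀).mp h3))
    have hρZ' : ∀ m ∈ Subgroup.center T, ρ m ∈ Subgroup.center T := fun m hm => center_map ρ hm
    obtain ⟨t', h1, h2, h3⟩ : ∃ t', t' ^ 2 = x₀ ^ 2 ∧ cm t' y = 1 ∧ cm t' x₀ = 1 := by
      rcases enum_four h hρZ' hZ4 (hsqT t) htt (hsqT x₀) with h3 | h3 | h3 | h3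
      · exact absurd h3 hxx
      · exact ⟨t, h3.symm, ht2, ht1⟩
      · exact ⟨ρ t, by rw [← map_pow]; exact h3.symm, hρcm _ _ ht2, hρcm _ _ ht1⟩
      · exact ⟨ρ (ρ t), by rw [← map_pow, ← map_pow]; exact h3.symm, hρcm _ _ (hρcm _ _ ht2),
          hρcm _ _ (hρcm _ _ ht1)⟩
    have h5 : (x₀ * t') ^ 2 = 1 := by
      rw [sq_mul_cl (hcl _ _), h3 , one_mul, h1]
      exact (hsq _).mpr (hZV _ (Subgroup.mul_mem _ (hsqT x₀) (hsqT x₀))) |> fun h6 => by
        have h7 := hsqz _ (hsqT x₀)
        rw [← pow_two] at h7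
        rw [← pow_two, h7]
    have h6 := hVZ ((hsq _).mp h5)
    have h7 : cm (x₀ * t') y = 1 := cm_central_left h6 y
    rw [cm_mul_left_z _ _ _ (hcl _ _) (hcl _ _), h2, mul_one] at h7
    exact hy h7
  have h1 := Subgroup.card_mul_index κ.ker
  rw [Subgroup.index_ker] at h1
  have h2 : Nat.card κ.range ≤ 16 := by
    have h3 := Subgroup.card_le_card_group κ.range
    rw [Nat.card_prod, hZ4] at h3
    exact h3
  have h3 : Nat.card κ.ker ≤ 4 := by
    rw [← hZ4]
    exact Subgroup.card_le_of_le hκ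
  have h4 : Nat.card T ≤ 64 := by
    rw [← h1]
    exact (Nat.mul_le_mul h3 h2).trans (by norm_num)
  have h5 := Subgroup.card_mul_index (Subgroup.center T)
  rw [hZ4] at h5
  have h6 : (Subgroup.center T).index = Nat.card (T ⧸ Subgroup.center T) := rfl
  have h7 := card_mod3 hFA (M := ⊤) (fun _ _ => Subgroup.mem_top _)
  rw [Subgroup.card_top] at h7
  obtain ⟨a, ha⟩ := IsPGroup.iff_card.mp hpA
  rw [h6] at h5
  have h8 : 1 < Nat.card (T ⧸ Subgroup.center T) := Finite.one_lt_card
  have ha5 : a < 5 := by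
    by_contra hc
    push Not at hc
    have := Nat.pow_le_pow_right (n := 2) (by norm_num) hc
    omega
  rw [ha] at h7 h8 h5
  interval_cases a
  · norm_num at h8
  · norm_num at h7
  · exfalso
    refine hnogen ⊤ (fun a => ⟨fun _ => Subgroup.mem_top _, fun _ => hA2 a⟩) ?_
    rw [Subgroup.card_top, ha]
    norm_num
  · norm_num at h7
  · omega

/-- The conclusion. -/
theorem main_omega (hp : IsPGroup 2 T) {ρ : MulAut T} (h : Fpf ρ) (V : Subgroup T)
    (hsq : ∀ t : T, t ^ 2 = 1 ↔ t ∈ V) (hVZ : V ≤ Subgroup.center T) (hV4 : Nat.card V = 4) :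
    (∃ n : ℕ, 1 ≤ n ∧ Nonempty (T ≃* Multiplicative (ZMod (2 ^ n)) × Multiplicative (ZMod (2 ^ n)))) ∨
      (Nat.card T = 64 ∧ ¬ IsMulCommutative T) := by
  by_cases htop : ∀ x : T, x ∈ Subgroup.center T
  · left
    have hcomm : ∀ a b : T, a * b = b * a := fun a b => central (htop b) a
    exact homocyclic hcomm hp h V hsq hV4
  · right
    push Not at htop
    obtain ⟨x₀, hx₀⟩ := htop
    refine ⟨main_omega_nonab hp h V hsq hVZ hV4 x₀ hx₀, ?_⟩
    intro hc
    apply hx₀
    rw [Subgroup.mem_center_iff]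
    intro g
    exact (isMulCommutative_iff.mp hc) g x₀

end Omega

end Cfsg.Agent.Lib.Fpf3D
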