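import Mathlib
import Cfsg.Prelude.Def_Solvable
import Cfsg.Agent.Lib.PCore

/-!
Fixed-point-free automorphisms of order dividing four (Gorenstein-Herstein).

`core`: if `K` is a solvable group of odd order with `O_p(K) = 1` acting faithfully on an abelian
group `V` of exponent `p`, `σ` a fixed-point-free automorphism of `K` with `σ⁴ = 1`, `τ` a
fixed-point-free automorphism of `V` with `τ⁴ = 1`, compatible with the action, then `σ²` is the
identity of `K` (so `K` is abelian, inverted by `σ`).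
-/

set_option autoImplicit false

open Cfsg

namespace Cfsg.Agent.Lib.Fpf4

open scoped commutatorElement

universe u v

section group

variable {K : Type*} [Group K]

lemma exists_eq_inv_mul_sub [Finite K] (σ : K ≃* K) (L : Subgroup K) (hL : ∀ x ∈ L, σ x ∈ L)
    (hf : ∀ x ∈ L, σ x = x → x = 1) (g : K) (hg : g ∈ L) : ∃ h ∈ L, g = h⁻¹ * σ h := by
  let F : L → L := fun h => ⟨h.1⁻¹ * σ h.1, L.mul_mem (L.inv_mem h.2) (hL _ h.2)⟩
  have hinj : Function.Injective F := by
    intro a b hab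
    have hab' : a.1⁻¹ * σ a.1 = b.1⁻¹ * σ b.1 := congrArg Subtype.val hab
    have h1 : σ (b.1 * a.1⁻¹) = b.1 * a.1⁻¹ := by
      rw [map_mul, map_inv]
      have h1 : σ b.1 = b.1 * (a.1⁻¹ * σ a.1) := by rw [hab']; group
      rw [h1]; group
    have := hf _ (L.mul_mem b.2 (L.inv_mem a.2)) h1
    exact Subtype.ext (mul_inv_eq_one.mp this).symm
  obtain ⟨h, hh⟩ := (Finite.injective_iff_surjective.mp hinj) ⟨g, hg⟩
  exact ⟨h.1, h.2, (congrArg Subtype.val hh).symm⟩

lemma inv_of_invol_sub [Finite K] (φ : K ≃* K) (L : Subgroup K) (hL : ∀ x ∈ L, φ x ∈ L)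
    (hinv : ∀ x ∈ L, φ (φ x) = x) (hf : ∀ x ∈ L, φ x = x → x = 1) : ∀ x ∈ L, φ x = x⁻¹ := by
  intro x hx
  obtain ⟨h, hh, rfl⟩ := exists_eq_inv_mul_sub φ L hL hf x hx
  rw [map_mul, map_inv, hinv h hh]
  group

lemma comm_of_inv (φ : K ≃* K) (L : Subgroup K) (h : ∀ x ∈ L, φ x = x⁻¹) :
    ∀ a ∈ L, ∀ b ∈ L, a * b = b * a := by
  intro a ha b hb
  have h1 := h (a * b) (L.mul_mem ha hb)
  rw [map_mul, h a ha, h b hb] at h1
  have h2 : (b * a)⁻¹ = (a * b)⁻¹ := by rw [mul_inv_rev]; exact h1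
  exact (inv_injective h2).symm

lemma eq_one_of_mul_self (hodd : Odd (Nat.card K)) [Finite K] {u : K} (h : u * u = 1) : u = 1 := by
  have h1 : orderOf u ∣ 2 := orderOf_dvd_of_pow_eq_one (by rw [pow_two, h])
  have h2 : orderOf u ∣ Nat.card K := orderOf_dvd_natCard u
  have h3 : Nat.Coprime 2 (Nat.card K) := Nat.coprime_two_left.mpr hodd
  have h4 : orderOf u ∣ 1 := by
    have := Nat.dvd_gcd h1 h2
    rwa [h3] at this
  exact orderOf_eq_one_iff.mp (Nat.dvd_one.mp h4)

lemma eq_of_sq_eq (hodd : Odd (Nat.card K)) [Finite K] (u : K) (L : Subgroup K) (h : u ^ 2 ∈ L) :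
    u ∈ L := by
  have h2 : Odd (orderOf u) := by
    exact Odd.of_dvd_nat hodd (orderOf_dvd_natCard u)
  obtain ⟨m, hm⟩ := h2
  have : u = (u ^ 2) ^ (m + 1) := by
    rw [← pow_mul]
    have : 2 * (m + 1) = orderOf u + 1 := by omega
    rw [this, pow_succ, pow_orderOf_eq_one, one_mul]
  rw [this]
  exact L.pow_mem h _

/-- abelian normal subgroups are `p'` when `O_p = 1` -/
lemma pCore_eq_bot_of_normal [Finite K] (p : ℕ) [Fact p.Prime] (hO : pCore p K = ⊥)
    (X : Subgroup K) [X.Normal] : pCore p X = ⊥ := by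
  have h1 : ((pCore p X).map X.subtype).Normal := inferInstance
  have h2 : IsPGroup p ((pCore p X).map X.subtype) :=
    (Cfsg.Agent.Lib.PCore.isPGroup_pCore p).map X.subtype
  have h3 := Cfsg.Agent.Lib.PCore.le_pCore h1 h2
  rw [hO] at h3
  have h4 : (pCore p X).map X.subtype = ⊥ := le_bot_iff.mp h3
  exact (Subgroup.map_eq_bot_iff_of_injective _ X.subtype_injective).mp h4

lemma coprime_of_normal_comm [Finite K] (p : ℕ) [hp : Fact p.Prime] (hO : pCore p K = ⊥)
    (X : Subgroup K) [X.Normal] (hcomm : ∀ a ∈ X, ∀ b ∈ X, a * b = b * a) :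
    (Nat.card X).Coprime p := by
  rw [Nat.coprime_comm, Nat.Prime.coprime_iff_not_dvd hp.out]
  intro hd
  obtain ⟨x, hx⟩ := exists_prime_orderOf_dvd_card' p hd
  have h0 := pCore_eq_bot_of_normal p hO X
  have hn : (Subgroup.zpowers x).Normal := by
    constructor
    intro n hn g
    have : g * n * g⁻¹ = n := by
      have := hcomm g.1 g.2 n.1 n.2
      apply Subtype.ext
      simp only [Subgroup.coe_mul, Subgroup.coe_inv]
      rw [this]; group
    rwa [this]
  have hpg : IsPGroup p (Subgroup.zpowers x) := by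
    intro y
    refine ⟨1, ?_⟩
    obtain ⟨k, hk⟩ := y.2
    apply Subtype.ext
    simp only [Subgroup.coe_pow, pow_one, OneMemClass.coe_one]
    rw [← hk]
    simp only
    rw [← zpow_natCast, ← zpow_mul, mul_comm, zpow_mul, zpow_natCast, ← hx, pow_orderOf_eq_one,
      one_zpow]
  have h3 := Cfsg.Agent.Lib.PCore.le_pCore hn hpg
  rw [h0, le_bot_iff, Subgroup.zpowers_eq_bot] at h3
  rw [h3, orderOf_one] at hx
  exact hp.out.one_lt.ne hx

end group

section act

variable {V : Type*} [CommGroup V]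

lemma eq_one_of_pow_coprime {p n : ℕ} (h : n.Coprime p) {x : V} (h1 : x ^ p = 1) (h2 : x ^ n = 1) :
    x = 1 := by
  have h3 : orderOf x ∣ Nat.gcd n p :=
    Nat.dvd_gcd (orderOf_dvd_of_pow_eq_one h2) (orderOf_dvd_of_pow_eq_one h1)
  rw [h] at h3
  exact orderOf_eq_one_iff.mp (Nat.dvd_one.mp h3)

lemma eq_of_pow_eq {p n : ℕ} (h : n.Coprime p) (hV : ∀ v : V, v ^ p = 1) {x y : V}
    (h2 : x ^ n = y ^ n) : x = y := by
  have : x / y = 1 := by
    apply eq_one_of_pow_coprime h (hV _)
    rw [div_pow, h2, div_self']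
  exact div_eq_one.mp this

lemma sum_tau (τ : V ≃* V) (h4 : ∀ v, τ (τ (τ (τ v))) = v) (hfp : ∀ v, τ v = v → v = 1) (v : V) :
    v * τ v * τ (τ v) * τ (τ (τ v)) = 1 := by
  apply hfp
  simp only [map_mul, h4]
  ac_rfl

variable {K : Type*} [Group K] [Finite K]

theorem sum_formula {p : ℕ} (hV : ∀ v : V, v ^ p = 1) (τ : V ≃* V) (h4 : ∀ v, τ (τ (τ (τ v))) = v)
    (hfp : ∀ v, τ v = v → v = 1) (hodd : Odd (Nat.card K)) (ρ : K →* MulAut V) (σ : K ≃* K)
    (hcomp : ∀ k v, τ (ρ k v) = ρ (σ k) (τ v)) (A : Subgroup K) (hAσ : ∀ a ∈ A, σ a ∈ A)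
    (hf : ∀ a ∈ A, σ a = a → a = 1) (hinv : ∀ a ∈ A, σ (σ a) = a⁻¹)
    (hcomm : ∀ a ∈ A, ∀ b ∈ A, a * b = b * a)
    (hcop : (Nat.card A).Coprime p) : ∀ a ∈ A, ∀ v, ρ a v = v := by
  classical
  letI := Fintype.ofFinite A
  have key : ∀ g : A, ∀ v : V,
      v * ρ g.1 (τ v) * ρ (g.1 * σ g.1) (τ (τ v)) * ρ (σ g.1) (τ (τ (τ v))) = 1 := by
    intro g v
    obtain ⟨h, hh, hg⟩ := exists_eq_inv_mul_sub σ A hAσ hf g.1 g.2
    have h0 := sum_tau τ h4 hfp (ρ h v)
    simp only [hcomp] at h0
    have h1 := congrArg (ρ h⁻¹) h0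
    simp only [map_mul, map_one] at h1
    have e0 : ρ h⁻¹ (ρ h v) = v := by simp
    have e1 : ρ h⁻¹ (ρ (σ h) (τ v)) = ρ g.1 (τ v) := by
      rw [hg, map_mul, MulAut.mul_apply]
    have e2 : ρ h⁻¹ (ρ (σ (σ h)) (τ (τ v))) = ρ (g.1 * σ g.1) (τ (τ v)) := by
      have e : h⁻¹ * σ (σ h) = g.1 * σ g.1 := by
        rw [hg]; simp only [map_mul, map_inv]; group
      rw [← MulAut.mul_apply, ← map_mul, e]
    have e3 : ρ h⁻¹ (ρ (σ (σ (σ h))) (τ (τ (τ v)))) = ρ (σ g.1) (τ (τ (τ v))) := by
      have hs : σ h ∈ A := hAσ h hh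
      have e : h⁻¹ * σ (σ (σ h)) = σ g.1 := by
        rw [hg, hinv (σ h) hs, map_mul, map_inv, hinv h hh]
        exact hcomm _ (A.inv_mem hh) _ (A.inv_mem hs)
      rw [← MulAut.mul_apply, ← map_mul, e]
    -- the orders of the `σ`'s in `h0`
    rw [e0, e1, e2, e3] at h1
    exact h1
  set S : V → V := fun w => ∏ a : A, ρ a.1 w with hS
  have hSmul : ∀ x y, S (x * y) = S x * S y := by
    intro x y
    simp only [hS, map_mul]
    exact Finset.prod_mul_distrib
  have hSone : S 1 = 1 := by simp [hS]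
  have hSinv : ∀ x, S x⁻¹ = (S x)⁻¹ := by
    intro x
    have := hSmul x x⁻¹
    rw [mul_inv_cancel, hSone] at this
    exact (inv_eq_of_mul_eq_one_right this.symm).symm
  -- bijections
  let θ : A → A := fun g => ⟨g.1 * σ g.1, A.mul_mem g.2 (hAσ _ g.2)⟩
  have hθ : Function.Bijective θ := by
    apply Finite.injective_iff_bijective.mp
    intro a b hab
    have hab' : a.1 * σ a.1 = b.1 * σ b.1 := congrArg Subtype.val hab
    have hu : (a.1 * b.1⁻¹) ∈ A := A.mul_mem a.2 (A.inv_mem b.2)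
    have h1 : σ (a.1 * b.1⁻¹) = (a.1 * b.1⁻¹)⁻¹ := by
      rw [map_mul, map_inv, mul_inv_rev, inv_inv]
      have hc := hcomm _ (hAσ _ a.2) _ (A.inv_mem (hAσ _ b.2))
      have : σ a.1 * (σ b.1)⁻¹ = a.1⁻¹ * b.1 := by
        have h2 : σ a.1 = a.1⁻¹ * (b.1 * σ b.1) := by rw [← hab']; group
        rw [h2]; group
      rw [this]
      exact hcomm _ (A.inv_mem a.2) _ b.2 |>.trans rfl
    have h2 : σ (σ (a.1 * b.1⁻¹)) = a.1 * b.1⁻¹ := by
      rw [h1, map_inv, h1, inv_inv]
    have h3 := hinv _ hu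
    rw [h2] at h3
    have h4 : (a.1 * b.1⁻¹) * (a.1 * b.1⁻¹) = 1 := by
      nth_rewrite 1 [h3]
      simp
    have h5 := eq_one_of_mul_self hodd h4
    exact Subtype.ext (mul_inv_eq_one.mp h5)
  let s : A → A := fun g => ⟨σ g.1, hAσ _ g.2⟩
  have hs : Function.Bijective s := by
    apply Finite.injective_iff_bijective.mp
    intro a b hab
    exact Subtype.ext (σ.injective (congrArg Subtype.val hab))
  have hmain : ∀ v : V, v ^ Nat.card A = S v := by
    intro v
    have h0 : ∏ g : A, (v * ρ g.1 (τ v) * ρ (g.1 * σ g.1) (τ (τ v)) * ρ (σ g.1) (τ (τ (τ v)))) = 1 :=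
      Finset.prod_eq_one (fun g _ => key g v)
    rw [Finset.prod_mul_distrib, Finset.prod_mul_distrib, Finset.prod_mul_distrib] at h0
    have e1 : ∏ g : A, ρ (g.1 * σ g.1) (τ (τ v)) = S (τ (τ v)) :=
      hθ.prod_comp (fun a : A => ρ a.1 (τ (τ v)))
    have e2 : ∏ g : A, ρ (σ g.1) (τ (τ (τ v))) = S (τ (τ (τ v))) :=
      hs.prod_comp (fun a : A => ρ a.1 (τ (τ (τ v))))
    rw [e1, e2, Finset.prod_const, Finset.card_univ, ← Nat.card_eq_fintype_card] at h0
    have h1 := sum_tau τ h4 hfp v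
    have h2 : τ v * τ (τ v) * τ (τ (τ v)) = v⁻¹ := by
      rw [eq_inv_iff_mul_eq_one, ← h1]; ac_rfl
    have h3 : S (τ v) * S (τ (τ v)) * S (τ (τ (τ v))) = (S v)⁻¹ := by
      rw [← hSmul, ← hSmul, h2, hSinv]
    have h4 : v ^ Nat.card A * (S v)⁻¹ = 1 := by
      rw [← h3, ← mul_assoc, ← mul_assoc]; exact h0
    exact mul_inv_eq_one.mp h4
  intro a ha v
  have h1 : ρ a (S v) = S v := by
    simp only [hS, map_prod]
    have hb : Function.Bijective (fun g : A => (⟨a, ha⟩ : A) * g) :=
      Group.mulLeft_bijective _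
    have := hb.prod_comp (fun g : A => ρ g.1 v)
    rw [← this]
    refine Finset.prod_congr rfl fun g _ => ?_
    simp [map_mul]
  have h2 : (ρ a v) ^ Nat.card A = v ^ Nat.card A := by
    rw [← map_pow, hmain, h1]
  exact eq_of_pow_eq hcop hV h2

theorem step {p : ℕ} [hp : Fact p.Prime] (hV : ∀ v : V, v ^ p = 1) (τ : V ≃* V)
    (h4 : ∀ v, τ (τ (τ (τ v))) = v) (hfp : ∀ v, τ v = v → v = 1) (hodd : Odd (Nat.card K))
    (ρ : K →* MulAut V) (hρ : Function.Injective ρ) (σ : K ≃* K)
    (hcomp : ∀ k v, τ (ρ k v) = ρ (σ k) (τ v)) (hσ4 : ∀ k, σ (σ (σ (σ k))) = k)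
    (hσ : ∀ k, σ k = k → k = 1) (hO : pCore p K = ⊥)
    (hK' : ∀ k ∈ commutator K, σ (σ k) = k) : ∀ k, σ (σ k) = k := by
  classical
  let T : Subgroup K :=
    { carrier := {k | σ (σ k) = k}
      mul_mem' := by
        intro a b ha hb
        simp only [Set.mem_ofPred_eq] at *
        rw [map_mul, map_mul, ha, hb]
      one_mem' := by simp
      inv_mem' := by
        intro a ha
        simp only [Set.mem_ofPred_eq] at *
        rw [map_inv, map_inv, ha] }
  have hmemT : ∀ k, k ∈ T ↔ σ (σ k) = k := fun _ => Iff.rfl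
  haveI hTn : T.Normal := Subgroup.Normal.of_commutator_le K (fun k hk => hK' k hk)
  have hTσ : ∀ t ∈ T, σ t ∈ T := fun t ht => by
    rw [hmemT] at *
    rw [ht]
  have hTinv : ∀ t ∈ T, σ t = t⁻¹ :=
    inv_of_invol_sub σ T hTσ (fun t ht => ht) (fun t _ h => hσ t h)
  have hTcomm := comm_of_inv σ T hTinv
  have hTcop : (Nat.card T).Coprime p := coprime_of_normal_comm p hO T hTcomm
  letI := Fintype.ofFinite T
  set S : V → V := fun v => ∏ t : T, ρ t.1 v with hS
  -- claim a
  have hneg : ∀ u, τ (τ u) = u → τ u = u⁻¹ := by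
    intro u hu
    have : u * τ u = 1 := hfp _ (by simp only [map_mul, hu]; exact mul_comm _ _)
    exact eq_inv_of_mul_eq_one_right this
  have ha : ∀ t ∈ T, ∀ v, τ (τ v) = v → ρ t v = v := by
    intro t ht v hv
    have ht' : σ (σ t) = t := ht
    have h1 : τ (τ (ρ t v)) = ρ t v := by rw [hcomp, hcomp, ht', hv]
    have h2 := hneg _ h1
    rw [hcomp, hTinv t ht, hneg v hv, map_inv] at h2
    have h3 : ρ t⁻¹ v = ρ t v := inv_injective h2
    let L : Subgroup K :=
      { carrier := {x | ρ x v = v}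
        mul_mem' := by
          intro a b ha hb
          simp only [Set.mem_ofPred_eq] at *
          rw [map_mul, MulAut.mul_apply, hb, ha]
        one_mem' := by simp
        inv_mem' := by
          intro a ha
          simp only [Set.mem_ofPred_eq] at *
          rw [map_inv]
          nth_rewrite 1 [← ha]
          exact MulAut.inv_apply_self _ _ _ }
    have h4 : t ^ 2 ∈ L := by
      change ρ (t ^ 2) v = v
      rw [pow_two, map_mul, MulAut.mul_apply, ← h3]
      simp
    exact eq_of_sq_eq hodd t L h4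
  have hSmul : ∀ x y, S (x * y) = S x * S y := by
    intro x y
    simp only [hS, map_mul]
    exact Finset.prod_mul_distrib
  have hSone : S 1 = 1 := by simp [hS]
  have hSinv : ∀ x, S x⁻¹ = (S x)⁻¹ := by
    intro x
    have := hSmul x x⁻¹
    rw [mul_inv_cancel, hSone] at this
    exact (inv_eq_of_mul_eq_one_right this.symm).symm
  have hSpow : ∀ x (n : ℕ), S (x ^ n) = (S x) ^ n := by
    intro x n
    induction n with
    | zero => simp [hSone]
    | succ n ih => rw [pow_succ, hSmul, ih, pow_succ]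
  have hSfix : ∀ t ∈ T, ∀ v, ρ t (S v) = S v := by
    intro t ht v
    simp only [hS, map_prod]
    have hb : Function.Bijective (fun g : T => (⟨t, ht⟩ : T) * g) :=
      Group.mulLeft_bijective _
    have := hb.prod_comp (fun g : T => ρ g.1 v)
    rw [← this]
    refine Finset.prod_congr rfl fun g _ => ?_
    simp [map_mul]
  have hSconst : ∀ u, (∀ t ∈ T, ρ t u = u) → S u = u ^ Nat.card T := by
    intro u hu
    have : S u = ∏ _t : T, u := Finset.prod_congr rfl fun t _ => hu t.1 t.2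
    rw [this, Finset.prod_const, Finset.card_univ, Nat.card_eq_fintype_card]
  have hSρ : ∀ g w, S (ρ g w) = ρ g (S w) := by
    intro g w
    simp only [hS, map_prod]
    let c : T → T := fun t => ⟨g * t.1 * g⁻¹, hTn.conj_mem _ t.2 _⟩
    have hc : Function.Bijective c := by
      apply Finite.injective_iff_bijective.mp
      intro a b hab
      have : g * a.1 * g⁻¹ = g * b.1 * g⁻¹ := congrArg Subtype.val hab
      exact Subtype.ext (by simpa using this)
    rw [← hc.prod_comp (fun t : T => ρ t.1 (ρ g w))]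
    refine Finset.prod_congr rfl fun t _ => ?_
    simp [c, map_mul]
  have hSτ : ∀ w, S (τ w) = τ (S w) := by
    intro w
    simp only [hS, map_prod]
    let c : T → T := fun t => ⟨σ t.1, hTσ _ t.2⟩
    have hc : Function.Bijective c := by
      apply Finite.injective_iff_bijective.mp
      intro a b hab
      exact Subtype.ext (σ.injective (congrArg Subtype.val hab))
    rw [← hc.prod_comp (fun t : T => ρ t.1 (τ w))]
    refine Finset.prod_congr rfl fun t _ => ?_
    simp only [c, hcomp]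
  -- claim b
  have hb : ∀ w, S w = 1 → τ (τ w) = w⁻¹ := by
    intro w hw
    have h1 : τ (τ (w * τ (τ w))) = w * τ (τ w) := by
      simp only [map_mul, h4]; exact mul_comm _ _
    have h2 : S (w * τ (τ w)) = (w * τ (τ w)) ^ Nat.card T :=
      hSconst _ (fun t ht => ha t ht _ h1)
    rw [hSmul, hSτ, hSτ, hw, map_one, map_one, mul_one] at h2
    have h3 := eq_one_of_pow_coprime hTcop (hV _) h2.symm
    exact eq_inv_of_mul_eq_one_right h3
  -- claim c
  have hc : ∀ a w, S w = 1 → ρ (σ (σ a)) w = ρ a w := by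
    intro a w hw
    have h1 : S (ρ a w) = 1 := by rw [hSρ, hw, map_one]
    have h2 := hb _ h1
    rw [hcomp, hcomp, hb w hw, map_inv] at h2
    exact inv_injective h2
  -- the subgroup A
  let A : Subgroup K :=
    { carrier := {a | ∀ w, S w = 1 → ρ a w = w}
      mul_mem' := by
        intro a b ha hb w hw
        rw [map_mul, MulAut.mul_apply, hb w hw, ha w hw]
      one_mem' := by intro w _; simp
      inv_mem' := by
        intro a ha w hw
        rw [map_inv]
        nth_rewrite 1 [← ha w hw]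
        exact MulAut.inv_apply_self _ _ _ }
  have hmemA : ∀ a, a ∈ A ↔ ∀ w, S w = 1 → ρ a w = w := fun _ => Iff.rfl
  haveI hAn : A.Normal := by
    constructor
    intro a ha g w hw
    have h1 : S (ρ g⁻¹ w) = 1 := by rw [hSρ, hw, map_one]
    rw [map_mul, map_mul, MulAut.mul_apply, MulAut.mul_apply, ha _ h1, ← MulAut.mul_apply,
      ← map_mul]
    simp
  have hAσ : ∀ a ∈ A, σ a ∈ A := by
    intro a ha w hw
    have h1 : S (τ (τ (τ w))) = 1 := by rw [hSτ, hSτ, hSτ, hw]; simp
    have h2 := ha _ h1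
    have h3 : ρ (σ a) w = τ (ρ a (τ (τ (τ w)))) := by
      rw [hcomp, h4]
    rw [h3, h2, h4]
  let ψ : K ≃* K := σ.trans σ
  have hψ : ∀ x, ψ x = σ (σ x) := fun _ => rfl
  have hAψfix : ∀ a ∈ A, ψ a = a → a = 1 := by
    intro a ha hfix
    have hT : a ∈ T := hfix
    apply hρ
    rw [map_one]
    ext v
    rw [MulAut.one_apply]
    set u := S v with hu
    have hSu : S u = u ^ Nat.card T := hSconst u (fun t ht => hSfix t ht v)
    have h1 : S (v ^ Nat.card T * u⁻¹) = 1 := by
      rw [hSmul, hSinv, hSpow, hSu, ← hu, mul_inv_cancel]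
    have h2 := ha _ h1
    have h3 : ρ a u = u := hSfix a hT v
    rw [map_mul, map_inv, h3, map_pow] at h2
    have h5 : (ρ a v) ^ Nat.card T = v ^ Nat.card T := mul_right_cancel h2
    exact eq_of_pow_eq hTcop hV h5
  have hAψ : ∀ a ∈ A, ψ a ∈ A := fun a ha => hAσ _ (hAσ _ ha)
  have hAinv : ∀ a ∈ A, ψ a = a⁻¹ :=
    inv_of_invol_sub ψ A hAψ (fun a _ => hσ4 a) hAψfix
  have hAcomm := comm_of_inv ψ A hAinv
  have hAcop : (Nat.card A).Coprime p := coprime_of_normal_comm p hO A hAcomm
  have htriv := sum_formula hV τ h4 hfp hodd ρ σ hcomp A hAσ (fun a _ h => hσ a h)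
    (fun a ha => hAinv a ha) hAcomm hAcop
  intro k
  have hmem : k⁻¹ * σ (σ k) ∈ A := by
    intro w hw
    rw [map_mul, MulAut.mul_apply, hc k w hw, map_inv]
    exact MulAut.inv_apply_self _ _ _
  have h1 : k⁻¹ * σ (σ k) = 1 := by
    apply hρ
    rw [map_one]
    ext v
    exact htriv _ hmem v
  exact (inv_mul_eq_one.mp h1).symm

end act

/-- restriction of an automorphism to an invariant subgroup -/
def restrictAut {K : Type*} [Group K] (σ : K ≃* K) (L : Subgroup K) (h : ∀ x ∈ L, σ x ∈ L)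
    (h' : ∀ x ∈ L, σ.symm x ∈ L) : L ≃* L where
  toFun x := ⟨σ x, h x x.2⟩
  invFun x := ⟨σ.symm x, h' x x.2⟩
  left_inv x := by ext; simp
  right_inv x := by ext; simp
  map_mul' x y := by ext; simp

theorem core {V : Type*} [CommGroup V] {p : ℕ} [hp : Fact p.Prime] (hV : ∀ v : V, v ^ p = 1)
    (τ : V ≃* V) (h4 : ∀ v, τ (τ (τ (τ v))) = v) (hfp : ∀ v, τ v = v → v = 1) :
    ∀ (n : ℕ) (K : Type u) [Group K] [Finite K] [Group.IsSolvable K], Nat.card K = n →
      Odd (Nat.card K) → ∀ (ρ : K →* MulAut V) (σ : K ≃* K), Function.Injective ρ →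
      (∀ k v, τ (ρ k v) = ρ (σ k) (τ v)) → (∀ k, σ (σ (σ (σ k))) = k) →
      (∀ k, σ k = k → k = 1) → pCore p K = ⊥ → ∀ k, σ (σ k) = k := by
  intro n
  induction n using Nat.strong_induction_on with
  | _ n ih =>
    intro K _ _ _ hn hodd ρ σ hρ hcomp hσ4 hσ hO
    rcases subsingleton_or_nontrivial K with hs | hs
    · intro k; exact Subsingleton.elim _ _
    let L : Subgroup K := commutator K
    have hlt : L < ⊤ := Group.IsSolvable.commutator_lt_top_of_nontrivial K
    have hcard : Nat.card L < n := by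
      rw [← hn]
      have h1 : Nat.card L ∣ Nat.card K := Subgroup.card_subgroup_dvd_card L
      have h2 : Nat.card L ≠ Nat.card K := fun h =>
        hlt.ne (Subgroup.eq_top_of_card_eq L h)
      exact lt_of_le_of_ne (Nat.le_of_dvd Nat.card_pos h1) h2
    have hLc : L.Characteristic := inferInstanceAs (commutator K).Characteristic
    have hL : ∀ x ∈ L, σ x ∈ L := fun x hx =>
      Subgroup.characteristic_iff_le_comap.mp hLc σ hx
    have hL' : ∀ x ∈ L, σ.symm x ∈ L := fun x hx =>
      Subgroup.characteristic_iff_le_comap.mp hLc σ.symm hx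
    have := ih (Nat.card L) hcard L rfl (Odd.of_dvd_nat hodd (Subgroup.card_subgroup_dvd_card L))
      (ρ.comp L.subtype) (restrictAut σ L hL hL')
      (hρ.comp L.subtype_injective)
      (fun k v => hcomp k.1 v)
      (fun k => Subtype.ext (hσ4 k.1))
      (fun k hk => Subtype.ext (hσ k.1 (congrArg Subtype.val hk)))
      (pCore_eq_bot_of_normal p hO L)
    exact step hV τ h4 hfp hodd ρ hρ σ hcomp hσ4 hσ hO
      (fun k hk => congrArg Subtype.val (this ⟨k, hk⟩))

/-- `x⁻¹ σ x ∈ L` forces `x ∈ L` for fpf `σ`. -/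
lemma mem_of_inv_mul_mem {G : Type*} [Group G] [Finite G] (σ : G ≃* G) (hσ : ∀ g, σ g = g → g = 1)
    (L : Subgroup G) (hL : ∀ x ∈ L, σ x ∈ L) (g : G) (hg : g⁻¹ * σ g ∈ L) : g ∈ L := by
  obtain ⟨d, hd, hdg⟩ := exists_eq_inv_mul_sub σ L hL (fun x _ h => hσ x h) _ hg
  have h1 : σ (g * d⁻¹) = g * d⁻¹ := by
    rw [map_mul, map_inv]
    have h2 : σ g = g * (d⁻¹ * σ d) := by rw [← hdg]; group
    rw [h2]; group
  have h3 := hσ _ h1
  rw [mul_inv_eq_one] at h3
  rwa [h3]

theorem commute_of_irr {G : Type*} [Group G] [Finite G] [Group.IsSolvable G] (σ : G ≃* G)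
    (hσ4 : ∀ k, σ (σ (σ (σ k))) = k) (hσ : ∀ g, σ g = g → g = 1) (hodd : Odd (Nat.card G))
    {V : Type*} [CommGroup V] [Finite V] [Nontrivial V] {p : ℕ} [hp : Fact p.Prime]
    (hV : ∀ v : V, v ^ p = 1) (ρ : G →* MulAut V) (τ : V ≃* V)
    (hcomp : ∀ k v, τ (ρ k v) = ρ (σ k) (τ v)) (h4 : ∀ v, τ (τ (τ (τ v))) = v)
    (hfp : ∀ v, τ v = v → v = 1)
    (hirr : ∀ U : Subgroup V, (∀ g, ∀ u ∈ U, ρ g u ∈ U) → (∀ u ∈ U, τ u ∈ U) → U ≠ ⊥ → U = ⊤) :
    ∀ a b, ρ a * ρ b = ρ b * ρ a := by
  classical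
  let K : Subgroup (MulAut V) := ρ.range
  have hconj : ∀ g, (τ : MulAut V) * ρ g * (τ : MulAut V)⁻¹ = ρ (σ g) := by
    intro g
    ext v
    change τ (ρ g (τ.symm v)) = _
    rw [hcomp, τ.apply_symm_apply]
  let c : MulAut V ≃* MulAut V := MulAut.conj (τ : MulAut V)
  have hc : ∀ g, c (ρ g) = ρ (σ g) := hconj
  have hcK : ∀ x ∈ K, c x ∈ K := by
    rintro x ⟨g, rfl⟩
    exact ⟨σ g, (hc g).symm⟩
  have hcK' : ∀ x ∈ K, c.symm x ∈ K := by
    rintro x ⟨g, rfl⟩
    refine ⟨σ.symm g, ?_⟩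
    apply c.injective
    rw [hc, c.apply_symm_apply]
    simp
  let σK : K ≃* K := restrictAut c K hcK hcK'
  have hσKval : ∀ g (h : ρ g ∈ K), (σK ⟨ρ g, h⟩ : K).1 = ρ (σ g) := fun g _ => hc g
  haveI : Finite K := by
    have : Finite (ρ.range) := inferInstance
    exact this
  haveI : Group.IsSolvable K := Group.isSolvable_of_surjective (f := ρ.rangeRestrict) ρ.rangeRestrict_surjective
  have hcardK : Nat.card K ∣ Nat.card G := Subgroup.card_dvd_of_surjective ρ.rangeRestrict ρ.rangeRestrict_surjective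
  have hσKfix : ∀ k : K, σK k = k → k = 1 := by
    rintro ⟨x, g, rfl⟩ hk
    have h1 : ρ (σ g) = ρ g := (hσKval g _).symm.trans (congrArg Subtype.val hk)
    have h2 : g ∈ ρ.ker := by
      apply mem_of_inv_mul_mem σ hσ ρ.ker
      · intro x hx
        have hx' : ρ x = 1 := hx
        rw [MonoidHom.mem_ker]
        rw [← hc, hx']
        simp
      · rw [MonoidHom.mem_ker, map_mul, map_inv, h1]
        simp
    exact Subtype.ext h2
  have hcomp' : ∀ (k : K) v, τ ((K.subtype k) v) = K.subtype (σK k) (τ v) := by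
    rintro ⟨x, g, rfl⟩ v
    change τ (ρ g v) = (c (ρ g)) (τ v)
    rw [hc]
    exact hcomp g v
  have hσK4 : ∀ k : K, σK (σK (σK (σK k))) = k := by
    rintro ⟨x, g, rfl⟩
    apply Subtype.ext
    change c (c (c (c (ρ g)))) = ρ g
    rw [hc, hc, hc, hc, hσ4]
  -- `O_p(K) = 1`
  have hO : pCore p K = ⊥ := by
    let P : Subgroup K := pCore p K
    have hPp : IsPGroup p P := Cfsg.Agent.Lib.PCore.isPGroup_pCore p
    have hPn : P.Normal := inferInstance
    have hPc : P.Characteristic := inferInstance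
    letI : MulAction P V := MulAction.compHom V (K.subtype.comp P.subtype)
    have hsmul : ∀ (x : P) (v : V), x • v = (x.1.1 : MulAut V) v := fun _ _ => rfl
    let U : Subgroup V :=
      { carrier := {v | ∀ x : P, (x.1.1 : MulAut V) v = v}
        mul_mem' := by
          intro a b ha hb x
          rw [map_mul, ha x, hb x]
        one_mem' := by intro x; simp
        inv_mem' := by
          intro a ha x
          rw [map_inv, ha x] }
    have hU : U ≠ ⊥ := by
      have hdvd : p ∣ Nat.card V := by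
        have hpV : IsPGroup p V := fun v => ⟨1, by simpa using hV v⟩
        obtain ⟨n, hn0, hn⟩ := hpV.nontrivial_iff_card.mp inferInstance
        rw [hn]
        exact dvd_pow_self _ (ne_of_gt hn0)
      obtain ⟨b, hb, hne⟩ := hPp.exists_fixed_point_of_prime_dvd_card_of_fixed_point V hdvd
        (a := (1 : V)) (by intro x; rw [hsmul]; simp)
      intro hUb
      have : b ∈ U := fun x => hb x
      rw [hUb, Subgroup.mem_bot] at this
      exact hne this.symm
    have hUtop := hirr U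
      (by
        intro g u hu x
        have hx : ((⟨ρ g, g, rfl⟩ : K)⁻¹ * x.1 * (⟨ρ g, g, rfl⟩ : K)) ∈ P := by
          have := hPn.conj_mem x.1 x.2 (⟨ρ g, g, rfl⟩ : K)⁻¹
          simpa using this
        have h1 := hu ⟨_, hx⟩
        have h2 : ((ρ g)⁻¹ * x.1.1 * ρ g) u = u := h1
        have h3 : x.1.1 (ρ g u) = ρ g ((ρ g)⁻¹ (x.1.1 (ρ g u))) := by simp
        rw [h3]
        congr 1)
      (by
        intro u hu x
        have hx : σK.symm x.1 ∈ P :=
          Subgroup.characteristic_iff_le_comap.mp hPc σK.symm x.2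
        have h1 := hu ⟨_, hx⟩
        have h2 := hcomp' (σK.symm x.1) u
        rw [σK.apply_symm_apply] at h2
        have h3 : (K.subtype (σK.symm x.1)) u = u := h1
        rw [h3] at h2
        exact h2.symm)
      hU
    rw [eq_bot_iff]
    intro x hx
    rw [Subgroup.mem_bot]
    apply Subtype.ext
    ext v
    have : v ∈ U := by rw [hUtop]; trivial
    exact this ⟨x, hx⟩
  have hmain := core hV τ h4 hfp (Nat.card K) K rfl (Odd.of_dvd_nat hodd hcardK) K.subtype σK
    K.subtype_injective hcomp' hσK4 hσKfix hO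
  have hinv : ∀ x ∈ (⊤ : Subgroup K), σK x = x⁻¹ :=
    inv_of_invol_sub σK ⊤ (fun _ _ => trivial) (fun x _ => hmain x) (fun x _ h => hσKfix x h)
  have hcm := comm_of_inv σK ⊤ hinv
  intro a b
  have := hcm ⟨ρ a, a, rfl⟩ trivial ⟨ρ b, b, rfl⟩ trivial
  exact congrArg Subtype.val this

lemma odd_card {G : Type*} [Group G] [Finite G] (σ : MulAut G) (h4 : σ ^ 4 = 1)
    (hf : ∀ g : G, σ g = g → g = 1) : Odd (Nat.card G) := by
  have hP : IsPGroup 2 (Subgroup.zpowers σ) := by
    intro x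
    refine ⟨2, ?_⟩
    obtain ⟨k, hk⟩ := x.2
    apply Subtype.ext
    simp only [Subgroup.coe_pow, OneMemClass.coe_one]
    rw [← hk]
    simp only
    rw [← zpow_natCast, ← zpow_mul, mul_comm, zpow_mul]
    have : σ ^ ((2 ^ 2 : ℕ) : ℤ) = 1 := by
      rw [zpow_natCast]; exact h4
    rw [this, one_zpow]
  haveI : Fact (Nat.Prime 2) := ⟨Nat.prime_two⟩
  have h1 := hP.card_modEq_card_fixedPoints G
  have h2 : Nat.card (MulAction.fixedPoints (Subgroup.zpowers σ) G) = 1 := by
    rw [Nat.card_eq_one_iff_unique]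
    refine ⟨⟨?_⟩, ⟨⟨1, ?_⟩⟩⟩
    · rintro ⟨a, ha⟩ ⟨b, hb⟩
      apply Subtype.ext
      have e : ∀ c ∈ MulAction.fixedPoints (Subgroup.zpowers σ) G, c = 1 := by
        intro c hc
        apply hf
        exact hc ⟨σ, Subgroup.mem_zpowers σ⟩
      simp only
      rw [e a ha, e b hb]
    · intro x
      exact map_one (x.1 : MulAut G)
  rw [h2] at h1
  rw [← Nat.not_even_iff_odd]
  intro he
  have h3 := h1.symm
  unfold Nat.ModEq at h3
  rw [Nat.even_iff.mp he] at h3
  omega

theorem main : ∀ (n : ℕ) (G : Type u) [Group G] [Finite G], Group.IsSolvable G →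
    ∀ σ : MulAut G, Nat.card G = n → σ ^ 4 = 1 → (∀ g : G, σ g = g → g = 1) →
    Group.IsNilpotent (commutator G) := by
  intro n
  induction n using Nat.strong_induction_on with
  | _ n ih =>
    intro G _ _ hG σ hn hσ4 hfpf
    haveI := hG
    have hodd := odd_card σ hσ4 hfpf
    have h4' : ∀ k, σ (σ (σ (σ k))) = k := by
      intro k
      have : (σ ^ 4) k = k := by rw [hσ4]; rfl
      simpa [pow_succ, MulAut.mul_apply] using this
    rcases subsingleton_or_nontrivial G with hs | hs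
    · infer_instance
    let 𝒮 : Set (Subgroup G) := {N | N.Normal ∧ (∀ x ∈ N, σ x ∈ N) ∧ N ≠ ⊥}
    have htop : (⊤ : Subgroup G) ∈ 𝒮 :=
      ⟨inferInstance, fun _ _ => trivial, top_ne_bot⟩
    obtain ⟨N, hNmin⟩ := (Set.toFinite 𝒮).exists_minimal ⟨⊤, htop⟩
    obtain ⟨⟨hNn, hNσ, hNb⟩, hNm⟩ := hNmin
    have hmin : ∀ M : Subgroup G, M.Normal → (∀ x ∈ M, σ x ∈ M) → M ≠ ⊥ → M ≤ N → N ≤ M :=
      fun M h1 h2 h3 h4 => hNm ⟨h1, h2, h3⟩ h4
    haveI := hNn
    -- `N` is abelian
    have hcomm0 : ⁅N, N⁆ = ⊥ := by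
      by_contra hne
      have hlt := Group.IsSolvable.commutator_lt_of_ne_bot hNb
      have hle : N ≤ ⁅N, N⁆ := by
        refine hmin _ (Subgroup.commutator_normal N N) ?_ hne hlt.le
        intro x hx
        have h1 : σ x ∈ (⁅N, N⁆).map σ.toMonoidHom := ⟨x, hx, rfl⟩
        rw [Subgroup.map_commutator] at h1
        have h2 : N.map σ.toMonoidHom ≤ N := by
          rintro _ ⟨y, hy, rfl⟩
          exact hNσ y hy
        exact Subgroup.commutator_mono h2 h2 h1
      exact absurd hlt (not_lt_of_ge hle)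
    have hab : ∀ a ∈ N, ∀ b ∈ N, a * b = b * a := by
      intro a ha b hb
      have h1 : ⁅a, b⁆ ∈ ⁅N, N⁆ := Subgroup.commutator_mem_commutator ha hb
      rw [hcomm0, Subgroup.mem_bot, commutatorElement_eq_one_iff_mul_comm] at h1
      exact h1
    have hNσ' : ∀ x ∈ N, σ.symm x ∈ N := by
      intro x hx
      have : σ.symm x = σ (σ (σ x)) := by
        apply σ.injective
        rw [σ.apply_symm_apply, h4']
      rw [this]
      exact hNσ _ (hNσ _ (hNσ _ hx))
    haveI hNt : Nontrivial N := (Subgroup.nontrivial_iff_ne_bot N).mpr hNb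
    obtain ⟨p, hpp, hpd⟩ : ∃ p, p.Prime ∧ p ∣ Nat.card N :=
      Nat.exists_prime_and_dvd (Finite.one_lt_card_iff_nontrivial.mpr hNt).ne'
    haveI : Fact p.Prime := ⟨hpp⟩
    -- elements of order `p`
    let Ω : Subgroup G :=
      { carrier := {x | x ∈ N ∧ x ^ p = 1}
        mul_mem' := by
          rintro a b ⟨ha, ha'⟩ ⟨hb, hb'⟩
          refine ⟨N.mul_mem ha hb, ?_⟩
          rw [(show Commute a b from hab a ha b hb).mul_pow, ha', hb', one_mul]
        one_mem' := ⟨N.one_mem, one_pow _⟩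
        inv_mem' := by
          rintro a ⟨ha, ha'⟩
          exact ⟨N.inv_mem ha, by rw [inv_pow, ha', inv_one]⟩ }
    have hΩ : N ≤ Ω := by
      apply hmin
      · constructor
        rintro a ⟨ha, ha'⟩ g
        refine ⟨hNn.conj_mem a ha g, ?_⟩
        rw [conj_pow, ha']; simp
      · rintro a ⟨ha, ha'⟩
        exact ⟨hNσ a ha, by rw [← map_pow, ha', map_one]⟩
      · intro hb
        obtain ⟨x, hx⟩ := exists_prime_orderOf_dvd_card' p hpd
        have h1 : x.1 ∈ Ω := ⟨x.2, by
          have := pow_orderOf_eq_one x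
          rw [hx] at this
          exact congrArg Subtype.val this⟩
        rw [hb, Subgroup.mem_bot] at h1
        have h2 : x = 1 := Subtype.ext h1
        rw [h2, orderOf_one] at hx
        exact hpp.one_lt.ne hx
      · intro x hx
        exact hx.1
    letI instN : CommGroup N :=
      { (inferInstance : Group N) with
        mul_comm := fun a b => Subtype.ext (hab a.1 a.2 b.1 b.2) }
    let ρ : G →* MulAut N := MulAut.conjNormal
    let τ : N ≃* N := restrictAut σ N hNσ hNσ'
    have hcomm : ∀ a b, ρ a * ρ b = ρ b * ρ a := by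
      refine commute_of_irr σ h4' hfpf hodd (p := p) ?_ ρ τ ?_ ?_ ?_ ?_
      · intro v
        exact Subtype.ext (hΩ v.2).2
      · intro k v
        apply Subtype.ext
        change σ (k * v.1 * k⁻¹) = σ k * σ v.1 * (σ k)⁻¹
        simp [map_mul]
      · intro v
        exact Subtype.ext (h4' v.1)
      · intro v hv
        exact Subtype.ext (hfpf v.1 (congrArg Subtype.val hv))
      · intro U hU1 hU2 hU3
        have hle : U.map N.subtype ≤ N := Subgroup.map_subtype_le U
        have hNle : N ≤ U.map N.subtype := by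
          apply hmin _ _ _ _ hle
          · constructor
            rintro _ ⟨u, hu, rfl⟩ g
            exact ⟨ρ g u, hU1 g u hu, rfl⟩
          · rintro _ ⟨u, hu, rfl⟩
            exact ⟨τ u, hU2 u hu, rfl⟩
          · intro hb
            rw [Subgroup.map_eq_bot_iff_of_injective _ N.subtype_injective] at hb
            exact hU3 hb
        rw [eq_top_iff]
        intro x _
        obtain ⟨u, hu, hux⟩ := hNle x.2
        have : u = x := Subtype.ext hux
        rwa [← this]
    have hcent : ∀ y ∈ commutator G, ∀ x ∈ N, y * x = x * y := by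
      have hker : commutator G ≤ ρ.ker := by
        rw [commutator_def, Subgroup.commutator_le]
        intro a _ b _
        rw [MonoidHom.mem_ker, map_commutatorElement, commutatorElement_eq_one_iff_mul_comm]
        exact hcomm a b
      intro y hy x hx
      have h1 : ρ y = 1 := hker hy
      have h2 : ρ y ⟨x, hx⟩ = ⟨x, hx⟩ := by rw [h1]; rfl
      have h3 : y * x * y⁻¹ = x := congrArg Subtype.val h2
      exact mul_inv_eq_iff_eq_mul.mp h3
    -- the quotient
    have hmap : N.map σ.toMonoidHom = N := by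
      apply le_antisymm
      · rintro _ ⟨y, hy, rfl⟩
        exact hNσ y hy
      · intro x hx
        exact ⟨σ.symm x, hNσ' x hx, σ.apply_symm_apply x⟩
    let σQ : MulAut (G ⧸ N) := QuotientGroup.congr N N σ hmap
    have hσQ : ∀ g : G, σQ (g : G ⧸ N) = ((σ g : G) : G ⧸ N) := fun g => rfl
    have hQ4 : σQ ^ 4 = 1 := by
      ext x
      induction x using QuotientGroup.induction_on with
      | H g =>
        simp only [pow_succ, pow_zero, one_mul, MulAut.mul_apply, hσQ, h4', MulAut.one_apply]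
    have hQf : ∀ g : G ⧸ N, σQ g = g → g = 1 := by
      intro x
      induction x using QuotientGroup.induction_on with
      | H g =>
        intro h
        rw [hσQ] at h
        have h1 : g⁻¹ * σ g ∈ N := by
          rw [← QuotientGroup.eq]
          exact h.symm
        have h2 := mem_of_inv_mul_mem σ hfpf N hNσ g h1
        exact (QuotientGroup.eq_one_iff g).mpr h2
    have hcardlt : Nat.card (G ⧸ N) < n := by
      rw [← hn, Subgroup.card_eq_card_quotient_mul_card_subgroup N]
      have h1 : 1 < Nat.card N := Finite.one_lt_card_iff_nontrivial.mpr hNt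
      have h2 : 0 < Nat.card (G ⧸ N) := Nat.card_pos
      nlinarith
    have hQnil := ih _ hcardlt (G ⧸ N) inferInstance σQ rfl hQ4 hQf
    let f : G →* G ⧸ N := QuotientGroup.mk' N
    have hf : ∀ x ∈ commutator G, f x ∈ commutator (G ⧸ N) := by
      have : commutator G ≤ (commutator (G ⧸ N)).comap f := by
        rw [commutator_def, Subgroup.commutator_le]
        intro a _ b _
        rw [Subgroup.mem_comap, map_commutatorElement]
        exact Subgroup.commutator_mem_commutator trivial trivial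
      exact this
    let g : commutator G →* commutator (G ⧸ N) :=
      (f.comp (commutator G).subtype).codRestrict (commutator (G ⧸ N)) (fun x => hf x.1 x.2)
    haveI := hQnil
    refine Subgroup.isNilpotent_of_ker_le_center g ?_
    intro x hx
    have h1 : f x.1 = 1 := congrArg Subtype.val hx
    have h2 : x.1 ∈ N := (QuotientGroup.eq_one_iff x.1).mp h1
    rw [Subgroup.mem_center_iff]
    intro y
    apply Subtype.ext
    exact hcent y.1 y.2 x.1 h2

end Cfsg.Agent.Lib.Fpf4
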