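import Mathlib
import Cfsg.Agent.Lib.FpfNorm

/-!
# Fixed-point-free actions in every coprime characteristic

If a finite group `A` acts fixed-point-freely on a nontrivial finite abelian group, then for every
prime `s` not dividing `|A|` it acts fixed-point-freely on a nontrivial finite abelian group of
exponent `s`.

The proof lifts the module to `ℤ / r ^ (m + 1)` with Schur--Zassenhaus, which shows that the integer
group ring modulo the "norm" elements contains no nonzero integer; Nakayama's lemma then shows that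
its reduction modulo `s` is nonzero.
-/

set_option autoImplicit false

namespace Cfsg.Agent.Lib.FpfChar

open Cfsg.Agent.Lib.FpfNorm

universe u v

/-- A homomorphism to a quotient with kernel of coprime order lifts. -/
theorem exists_lift_of_coprime {A E Γ : Type*} [Group A] [Finite A] [Group E] [Finite E] [Group Γ]
    (π : E →* Γ) (hπ : Function.Surjective π) (hcop : (Nat.card π.ker).Coprime (Nat.card A))
    (ρ : A →* Γ) : ∃ ρ' : A →* E, ∀ a, π (ρ' a) = ρ a := by
  classical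
  let P : Subgroup (A × E) :=
    MonoidHom.eqLocus (ρ.comp (MonoidHom.fst A E)) (π.comp (MonoidHom.snd A E))
  have hPmem : ∀ z : A × E, z ∈ P ↔ ρ z.1 = π z.2 := fun z => Iff.rfl
  let f : P →* A := (MonoidHom.fst A E).comp P.subtype
  have hfa : ∀ z : P, f z = z.1.1 := fun _ => rfl
  have hf : Function.Surjective f := by
    intro a
    obtain ⟨e, he⟩ := hπ (ρ a)
    exact ⟨⟨(a, e), he.symm⟩, rfl⟩
  let g : f.ker →* π.ker :=
    MonoidHom.codRestrict ((MonoidHom.snd A E).comp (P.subtype.comp f.ker.subtype)) π.ker (by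
      rintro ⟨⟨⟨a, e⟩, hz⟩, hk⟩
      have h1 : a = 1 := hk
      have h2 : ρ a = π e := hz
      rw [h1, map_one] at h2
      exact h2.symm)
  have hg : Function.Injective g := by
    rintro ⟨⟨⟨a, e⟩, hz⟩, hk⟩ ⟨⟨⟨b, e'⟩, hz'⟩, hk'⟩ h
    have h1 : a = 1 := hk
    have h2 : b = 1 := hk'
    have h3 : e = e' := congrArg (fun x : π.ker => (x : E)) h
    subst h1 h2 h3
    rfl
  have hdvd : Nat.card f.ker ∣ Nat.card π.ker := Subgroup.card_dvd_of_injective g hg
  have hindex : f.ker.index = Nat.card A := by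
    rw [Subgroup.index_ker, MonoidHom.range_eq_top.mpr hf, Subgroup.card_top]
  have hcop2 : (Nat.card f.ker).Coprime f.ker.index := by
    rw [hindex]
    exact Nat.Coprime.coprime_dvd_left hdvd hcop
  obtain ⟨H, hH⟩ := Subgroup.exists_right_complement'_of_coprime hcop2
  have hbij : Function.Bijective (f.comp H.subtype) := by
    constructor
    · rw [injective_iff_map_eq_one]
      intro z hz
      have h1 : (z : P) ∈ f.ker := hz
      have h2 := Subgroup.disjoint_def.mp hH.disjoint h1 z.2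
      exact Subtype.ext h2
    · intro a
      obtain ⟨p, rfl⟩ := hf a
      obtain ⟨⟨⟨k, hk⟩, ⟨h, hh⟩⟩, hkh⟩ := hH.2 p
      refine ⟨⟨h, hh⟩, ?_⟩
      have h2 : f p = f h := by
        have hkh' : k * h = p := hkh
        rw [← hkh', map_mul, MonoidHom.mem_ker.mp hk, one_mul]
      exact h2.symm
  let e : H ≃* A := MulEquiv.ofBijective (f.comp H.subtype) hbij
  refine ⟨(MonoidHom.snd A E).comp (P.subtype.comp (H.subtype.comp e.symm.toMonoidHom)), ?_⟩
  intro a
  have h1 : f (e.symm a : P) = a := e.apply_symm_apply a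
  have h2 : ρ ((e.symm a : P) : A × E).1 = π ((e.symm a : P) : A × E).2 := (e.symm a : P).2
  have h3 : ((e.symm a : P) : A × E).1 = a := h1
  rw [h3] at h2
  exact h2.symm

/-- If `r ^ (m + 1) = 0` in a ring, then `1 + r * Y` has order dividing `r ^ m`. -/
theorem pow_eq_one_of_eq_one_add {S : Type*} [Ring S] {r m : ℕ} (hS : ((r ^ (m + 1) : ℕ) : S) = 0)
    (Y : S) : (1 + (r : S) * Y) ^ (r ^ m) = 1 := by
  have h := dvd_sub_pow_of_dvd_sub (R := Polynomial ℤ) (p := r)
    (a := 1 + (r : Polynomial ℤ) * Polynomial.X) (b := 1) (by simp) m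
  obtain ⟨P, hP⟩ := h
  have h2 := congrArg (Polynomial.aeval Y) hP
  simp only [map_sub, map_pow, map_add, map_one, map_mul, map_natCast, Polynomial.aeval_X,
    one_pow] at h2
  rw [Nat.cast_pow] at hS
  rw [hS, zero_mul] at h2
  exact sub_eq_zero.mp h2

section Reduction

variable {r : ℕ} [hr : Fact r.Prime]

/-- Reduction `ℤ / r ^ (m + 1) → ℤ / r`. -/
noncomputable def redZ (m : ℕ) : ZMod (r ^ (m + 1)) →+* ZMod r :=
  ZMod.castHom (dvd_pow_self r (Nat.succ_ne_zero m)) (ZMod r)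

theorem neZero_pow (m : ℕ) : NeZero (r ^ (m + 1)) := ⟨pow_ne_zero _ hr.out.ne_zero⟩

theorem redZ_natCast (m n : ℕ) : redZ (r := r) m (n : ZMod (r ^ (m + 1))) = (n : ZMod r) :=
  map_natCast _ n

theorem isUnit_of_redZ (m : ℕ) (x : ZMod (r ^ (m + 1))) (h : IsUnit (redZ m x)) : IsUnit x := by
  haveI := neZero_pow (r := r) m
  have h1 : redZ m x = ((x.val : ℕ) : ZMod r) := by
    conv_lhs => rw [← ZMod.natCast_zmod_val x]
    rw [redZ_natCast]
  rw [h1, ZMod.isUnit_iff_coprime] at h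
  rw [← ZMod.natCast_zmod_val x, ZMod.isUnit_iff_coprime]
  exact Nat.Coprime.pow_right _ h

theorem exists_mul_of_redZ_eq_zero (m : ℕ) (x : ZMod (r ^ (m + 1))) (h : redZ m x = 0) :
    ∃ y, x = (r : ZMod (r ^ (m + 1))) * y := by
  haveI := neZero_pow (r := r) m
  have h1 : redZ m x = ((x.val : ℕ) : ZMod r) := by
    conv_lhs => rw [← ZMod.natCast_zmod_val x]
    rw [redZ_natCast]
  rw [h1, ZMod.natCast_eq_zero_iff] at h
  obtain ⟨c, hc⟩ := h
  refine ⟨(c : ZMod (r ^ (m + 1))), ?_⟩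
  rw [← ZMod.natCast_zmod_val x, hc]
  push_cast
  simp

variable {k : ℕ}

/-- Reduction of matrices. -/
noncomputable def redM (m : ℕ) :
    Matrix (Fin k) (Fin k) (ZMod (r ^ (m + 1))) →+* Matrix (Fin k) (Fin k) (ZMod r) :=
  (redZ m).mapMatrix

theorem isUnit_of_redM (m : ℕ) (X : Matrix (Fin k) (Fin k) (ZMod (r ^ (m + 1))))
    (h : IsUnit (redM m X)) : IsUnit X := by
  rw [Matrix.isUnit_iff_isUnit_det] at h ⊢
  apply isUnit_of_redZ m
  rw [RingHom.map_det]
  exact h

/-- Reduction of invertible matrices. -/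
noncomputable def redGL (m : ℕ) :
    (Matrix (Fin k) (Fin k) (ZMod (r ^ (m + 1))))ˣ →* (Matrix (Fin k) (Fin k) (ZMod r))ˣ :=
  Units.map (redM m).toMonoidHom

theorem redGL_surjective (m : ℕ) : Function.Surjective (redGL (r := r) (k := k) m) := by
  intro g
  let X : Matrix (Fin k) (Fin k) (ZMod (r ^ (m + 1))) :=
    (g.1).map (fun x => ((x.val : ℕ) : ZMod (r ^ (m + 1))))
  have hX : redM m X = g.1 := by
    ext i j
    change redZ m (((g.1 i j).val : ℕ) : ZMod (r ^ (m + 1))) = g.1 i j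
    rw [redZ_natCast, ZMod.natCast_zmod_val]
  have hu : IsUnit X := by
    apply isUnit_of_redM m
    rw [hX]
    exact g.isUnit
  obtain ⟨u, hu⟩ := hu
  refine ⟨u, Units.ext ?_⟩
  change redM m u.1 = g.1
  rw [hu, hX]

theorem isPGroup_ker_redGL (m : ℕ) : IsPGroup r (redGL (r := r) (k := k) m).ker := by
  haveI := neZero_pow (r := r) m
  rintro ⟨g, hg⟩
  refine ⟨m, ?_⟩
  apply Subtype.ext
  apply Units.ext
  have hg' : redM m g.1 = 1 := congrArg Units.val (MonoidHom.mem_ker.mp hg)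
  have hent : ∀ i j, ∃ y, (g.1 - 1) i j = (r : ZMod (r ^ (m + 1))) * y := by
    intro i j
    apply exists_mul_of_redZ_eq_zero
    have h1 : redM m (g.1 - 1) = 0 := by
      rw [map_sub, hg', map_one, sub_self]
    exact congrFun (congrFun h1 i) j
  choose y hy using hent
  let Y : Matrix (Fin k) (Fin k) (ZMod (r ^ (m + 1))) := Matrix.of y
  have hgY : g.1 = 1 + (r : Matrix (Fin k) (Fin k) (ZMod (r ^ (m + 1)))) * Y := by
    have h2 : g.1 - 1 = (r : Matrix (Fin k) (Fin k) (ZMod (r ^ (m + 1)))) * Y := by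
      ext i j
      rw [hy, ← map_natCast (Matrix.scalar (Fin k)) r, Matrix.scalar_apply,
        Matrix.diagonal_mul]
      rfl
    rw [← h2]
    simp
  have hS : ((r ^ (m + 1) : ℕ) : Matrix (Fin k) (Fin k) (ZMod (r ^ (m + 1)))) = 0 := by
    rw [← map_natCast (Matrix.scalar (Fin k)) (r ^ (m + 1)), ZMod.natCast_self, map_zero]
  have h3 := pow_eq_one_of_eq_one_add hS Y
  rw [← hgY] at h3
  change g.1 ^ r ^ m = 1
  exact h3

/-- Lifting a representation of a group of order prime to `r`. -/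
theorem exists_lift_rep {A : Type*} [Group A] [Finite A] (hcop : (Nat.card A).Coprime r)
    (ρ : A →* (Matrix (Fin k) (Fin k) (ZMod r))ˣ) (hunit : ∀ a, a ≠ 1 → IsUnit ((ρ a).1 - 1))
    (m : ℕ) : ∃ ρ' : A →* (Matrix (Fin k) (Fin k) (ZMod (r ^ (m + 1))))ˣ,
      ∀ a, a ≠ 1 → IsUnit ((ρ' a).1 - 1) := by
  haveI := neZero_pow (r := r) m
  have hker : (Nat.card (redGL (r := r) (k := k) m).ker).Coprime (Nat.card A) := by
    obtain ⟨n, hn⟩ := IsPGroup.iff_card.mp (isPGroup_ker_redGL (r := r) (k := k) m)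
    rw [hn]
    exact Nat.Coprime.pow_left _ hcop.symm
  obtain ⟨ρ', hρ'⟩ := exists_lift_of_coprime (redGL m) (redGL_surjective m) hker ρ
  refine ⟨ρ', fun a ha => ?_⟩
  apply isUnit_of_redM m
  have h1 : redM m (ρ' a).1 = (ρ a).1 := congrArg Units.val (hρ' a)
  rw [map_sub, h1, map_one]
  exact hunit a ha

end Reduction

section Integral

variable {A : Type u} [Group A] [Fintype A] [DecidableEq A]

/-- The sum of `x * a ^ i * y` in the integer group ring, written as a function. -/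
noncomputable def gen (x a y : A) : A → ℤ :=
  ∑ i ∈ Finset.range (orderOf a), Pi.single (x * a ^ i * y) 1

variable (A) in
/-- The additive subgroup generated by the elements `x (∑ a ^ i) y`, `a ≠ 1`. -/
noncomputable def KK : Submodule ℤ (A → ℤ) :=
  Submodule.span ℤ {z | ∃ x a y : A, a ≠ 1 ∧ z = gen x a y}

/-- The linear extension of a monoid homomorphism to the group ring. -/
noncomputable def Psi {S : Type*} [Ring S] (τ : A →* S) : (A → ℤ) →ₗ[ℤ] S where
  toFun l := ∑ x, l x • τ x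
  map_add' l l' := by simp [add_smul, Finset.sum_add_distrib]
  map_smul' c l := by simp [mul_smul, Finset.smul_sum]

theorem Psi_single {S : Type*} [Ring S] (τ : A →* S) (z : A) (c : ℤ) :
    Psi τ (Pi.single z c) = c • τ z := by
  change ∑ x, (Pi.single z c : A → ℤ) x • τ x = c • τ z
  rw [Finset.sum_eq_single z]
  · simp
  · intro x _ hx
    simp [Pi.single_apply, hx]
  · simp

theorem KK_le_ker_Psi {S : Type*} [Ring S] (τ : A →* S) (hτ : ∀ a, a ≠ 1 → IsUnit (τ a - 1)) :
    KK A ≤ LinearMap.ker (Psi τ) := by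
  rw [KK, Submodule.span_le]
  rintro _ ⟨x, a, y, ha, rfl⟩
  rw [SetLike.mem_coe, LinearMap.mem_ker, gen, map_sum]
  simp_rw [Psi_single, one_smul, map_mul, map_pow]
  rw [← Finset.sum_mul, ← Finset.mul_sum]
  have h1 : (τ a - 1) * ∑ i ∈ Finset.range (orderOf a), τ a ^ i = 0 := by
    rw [mul_geom_sum, ← map_pow, pow_orderOf_eq_one, map_one, sub_self]
  rw [(hτ a ha).mul_right_eq_zero.mp h1, mul_zero, zero_mul]

/-- No nonzero integer lies in `KK` when `A` has a matrix representation with `ρ a - 1` invertible.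
-/
theorem eq_zero_of_mem_KK {r k : ℕ} [Fact r.Prime] (hk : 0 < k)
    (hcop : (Nat.card A).Coprime r)
    (ρ : A →* (Matrix (Fin k) (Fin k) (ZMod r))ˣ) (hunit : ∀ a, a ≠ 1 → IsUnit ((ρ a).1 - 1))
    (n : ℤ) (hn : (Pi.single 1 n : A → ℤ) ∈ KK A) : n = 0 := by
  by_contra hne
  have hr : r.Prime := Fact.out
  set m := n.natAbs with hm
  obtain ⟨ρ', hρ'⟩ := exists_lift_rep hcop ρ hunit m
  let τ : A →* Matrix (Fin k) (Fin k) (ZMod (r ^ (m + 1))) :=
    (Units.coeHom _).comp ρ'
  have hτ : ∀ a, a ≠ 1 → IsUnit (τ a - 1) := hρ'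
  have h1 := KK_le_ker_Psi τ hτ hn
  rw [LinearMap.mem_ker, Psi_single, map_one] at h1
  have h2 := congrFun (congrFun h1 ⟨0, hk⟩) ⟨0, hk⟩
  simp only [Matrix.smul_apply, Matrix.one_apply_eq, Matrix.zero_apply, zsmul_eq_mul, mul_one] at h2
  have h3 := (ZMod.intCast_zmod_eq_zero_iff_dvd n (r ^ (m + 1))).mp h2
  have h4 : r ^ (m + 1) ∣ m := by
    have := Int.natCast_dvd.mp h3
    exact this
  have h5 : m ≠ 0 := by
    rw [hm]
    exact Int.natAbs_ne_zero.mpr hne
  have h6 := Nat.le_of_dvd (Nat.pos_of_ne_zero h5) h4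
  have h7 : m < r ^ m := Nat.lt_pow_self hr.one_lt
  have h8 : r ^ m ≤ r ^ (m + 1) := Nat.pow_le_pow_right hr.pos (Nat.le_succ m)
  omega

variable (A) in
/-- The kernel of the reduction modulo `s` of the group ring modulo `KK`. -/
noncomputable def Ks (s : ℕ) : Submodule ℤ (A → ℤ) :=
  KK A ⊔ LinearMap.range ((s : ℤ) • (LinearMap.id : (A → ℤ) →ₗ[ℤ] (A → ℤ)))

theorem Ks_ne_top {r k : ℕ} [Fact r.Prime] (hk : 0 < k)
    (hcop : (Nat.card A).Coprime r)
    (ρ : A →* (Matrix (Fin k) (Fin k) (ZMod r))ˣ) (hunit : ∀ a, a ≠ 1 → IsUnit ((ρ a).1 - 1))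
    (s : ℕ) (hs : 2 ≤ s) : Ks A s ≠ ⊤ := by
  intro htop
  have hfg : (⊤ : Submodule ℤ ((A → ℤ) ⧸ KK A)).FG := Module.Finite.fg_top
  have hle : (⊤ : Submodule ℤ ((A → ℤ) ⧸ KK A)) ≤
      Ideal.span {(s : ℤ)} • (⊤ : Submodule ℤ ((A → ℤ) ⧸ KK A)) := by
    intro x _
    obtain ⟨l, rfl⟩ := Submodule.Quotient.mk_surjective _ x
    have h1 : l ∈ Ks A s := by rw [htop]; trivial
    obtain ⟨k', hk', t, ht, rfl⟩ := Submodule.mem_sup.mp h1
    obtain ⟨w, rfl⟩ := LinearMap.mem_range.mp ht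
    rw [Submodule.Quotient.mk_add, (Submodule.Quotient.mk_eq_zero _).mpr hk', zero_add]
    have h2 : (Submodule.Quotient.mk (((s : ℤ) • (LinearMap.id : (A → ℤ) →ₗ[ℤ] (A → ℤ))) w) :
        (A → ℤ) ⧸ KK A) = (s : ℤ) • Submodule.Quotient.mk w := rfl
    rw [h2]
    exact Submodule.smul_mem_smul (Ideal.mem_span_singleton_self _) trivial
  obtain ⟨n, hn1, hn2⟩ := Submodule.exists_sub_one_mem_and_smul_eq_zero_of_fg_of_le_smul _ _ hfg hle
  have h3 : (Pi.single 1 n : A → ℤ) ∈ KK A := by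
    have h4 := hn2 (Submodule.Quotient.mk (Pi.single 1 1)) trivial
    rw [← Submodule.Quotient.mk_smul, Submodule.Quotient.mk_eq_zero] at h4
    have h5 : n • (Pi.single 1 1 : A → ℤ) = Pi.single 1 n := by
      ext x
      simp [Pi.single_apply]
    rwa [h5] at h4
  have h6 := eq_zero_of_mem_KK hk hcop ρ hunit n h3
  rw [h6, Ideal.mem_span_singleton] at hn1
  have h7 : (s : ℤ) ∣ 1 := by
    have := (dvd_neg (a := (s : ℤ))).mpr hn1
    simpa using this
  have h8 := Int.natCast_dvd_natCast.mp (by exact_mod_cast h7 : ((s : ℕ) : ℤ) ∣ ((1 : ℕ) : ℤ))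
  have := Nat.le_of_dvd one_pos h8
  omega

/-- Left translation on functions. -/
noncomputable def Ltr (a : A) : (A → ℤ) →ₗ[ℤ] (A → ℤ) :=
  LinearMap.funLeft ℤ ℤ (fun x => a⁻¹ * x)

theorem Ltr_apply (a : A) (l : A → ℤ) (x : A) : Ltr a l x = l (a⁻¹ * x) := rfl

theorem Ltr_single (a z : A) (c : ℤ) : Ltr a (Pi.single z c) = Pi.single (a * z) c := by
  ext x
  rw [Ltr_apply]
  by_cases h : x = a * z
  · subst h
    simp
  · have h1 : a⁻¹ * x ≠ z := fun h2 => h (by rw [← h2]; group)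
    simp [Pi.single_apply, h, h1]

theorem Ltr_mul (a b : A) (l : A → ℤ) : Ltr (a * b) l = Ltr a (Ltr b l) := by
  ext x
  simp only [Ltr_apply, mul_inv_rev, mul_assoc]

theorem Ltr_one (l : A → ℤ) : Ltr (1 : A) l = l := by
  ext x
  simp [Ltr_apply]

theorem Ltr_gen (g x a y : A) : Ltr g (gen x a y) = gen (g * x) a y := by
  rw [gen, map_sum, gen]
  refine Finset.sum_congr rfl fun i _ => ?_
  rw [Ltr_single, mul_assoc, mul_assoc, mul_assoc]

theorem Ks_le_comap (s : ℕ) (a : A) : Ks A s ≤ (Ks A s).comap (Ltr a) := by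
  apply sup_le
  · rw [KK, Submodule.span_le]
    rintro _ ⟨x, b, y, hb, rfl⟩
    have : Ltr a (gen x b y) ∈ Ks A s := by
      rw [Ltr_gen]
      exact Submodule.mem_sup_left (Submodule.subset_span ⟨_, b, y, hb, rfl⟩)
    exact this
  · rintro _ ⟨w, rfl⟩
    have : Ltr a (((s : ℤ) • (LinearMap.id : (A → ℤ) →ₗ[ℤ] (A → ℤ))) w) ∈ Ks A s := by
      have h1 : Ltr a (((s : ℤ) • (LinearMap.id : (A → ℤ) →ₗ[ℤ] (A → ℤ))) w) =
          ((s : ℤ) • (LinearMap.id : (A → ℤ) →ₗ[ℤ] (A → ℤ))) (Ltr a w) :=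
        map_smul (Ltr a) (s : ℤ) w
      rw [h1]
      exact Submodule.mem_sup_right ⟨_, rfl⟩
    exact this

/-- The norm element kills everything. -/
theorem sum_Ltr_mem_KK (a : A) (ha : a ≠ 1) (l : A → ℤ) :
    ∑ i ∈ Finset.range (orderOf a), Ltr (a ^ i) l ∈ KK A := by
  have h1 : l = ∑ y, Pi.single y (l y) := (Finset.univ_sum_single l).symm
  have h2 : ∑ i ∈ Finset.range (orderOf a), Ltr (a ^ i) l =
      ∑ y, (l y) • gen 1 a y := by
    conv_lhs => rw [h1]
    simp_rw [map_sum, Ltr_single]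
    rw [Finset.sum_comm]
    refine Finset.sum_congr rfl fun y _ => ?_
    rw [gen, Finset.smul_sum]
    refine Finset.sum_congr rfl fun i _ => ?_
    ext x
    simp [Pi.single_apply]
  rw [h2]
  exact Submodule.sum_mem _ fun y _ =>
    Submodule.smul_mem _ _ (Submodule.subset_span ⟨1, a, y, ha, rfl⟩)

end Integral

/-- A fixed-point-free action on a vector space over a prime field gives matrices. -/
theorem exists_matrix_rep_of_module {A : Type*} [Group A] {W : Type*} [AddCommGroup W] [Finite W]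
    [Nontrivial W] {r : ℕ} [Fact r.Prime] [Module (ZMod r) W] (act : A → W →+ W)
    (hone : ∀ x, act 1 x = x) (hmul : ∀ a b x, act (a * b) x = act a (act b x))
    (hfix : ∀ a, a ≠ 1 → ∀ x, act a x = x → x = 0) :
    ∃ (k : ℕ) (ρ : A →* (Matrix (Fin k) (Fin k) (ZMod r))ˣ),
      0 < k ∧ ∀ a, a ≠ 1 → IsUnit ((ρ a).1 - 1) := by
  classical
  let T : A →* Module.End (ZMod r) W :=
    { toFun := fun a => (act a).toZModLinearMap r
      map_one' := LinearMap.ext hone
      map_mul' := fun a b => LinearMap.ext (hmul a b) }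
  have hT : ∀ (a : A) (x : W), T a x = act a x := fun _ _ => rfl
  let b := Module.finBasis (ZMod r) W
  let ρ₀ : A →* Matrix (Fin (Module.finrank (ZMod r) W)) (Fin (Module.finrank (ZMod r) W)) (ZMod r) :=
    ((LinearMap.toMatrixAlgEquiv b).toRingEquiv.toMonoidHom).comp T
  refine ⟨Module.finrank (ZMod r) W, ρ₀.toHomUnits, Module.finrank_pos, ?_⟩
  intro a ha
  have h1 : (ρ₀.toHomUnits a).1 - 1 = LinearMap.toMatrixAlgEquiv b (T a - 1) := by
    rw [map_sub, map_one]
    rfl
  rw [h1]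
  apply IsUnit.map (LinearMap.toMatrixAlgEquiv b)
  rw [LinearMap.isUnit_iff_ker_eq_bot, LinearMap.ker_eq_bot']
  intro x hx
  have h2 : T a x = x := sub_eq_zero.mp hx
  rw [hT] at h2
  exact hfix a ha x h2

/-- A fixed-point-free action on an elementary abelian group gives matrices. -/
theorem exists_matrix_rep_of_additive {A : Type*} [Group A] {W : Type*} [AddCommGroup W] [Finite W]
    [Nontrivial W] {r : ℕ} [Fact r.Prime] (hW : ∀ x : W, r • x = 0) (act : A → W →+ W)
    (hone : ∀ x, act 1 x = x) (hmul : ∀ a b x, act (a * b) x = act a (act b x))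
    (hfix : ∀ a, a ≠ 1 → ∀ x, act a x = x → x = 0) :
    ∃ (k : ℕ) (ρ : A →* (Matrix (Fin k) (Fin k) (ZMod r))ˣ),
      0 < k ∧ ∀ a, a ≠ 1 → IsUnit ((ρ a).1 - 1) :=
  letI : Module (ZMod r) W := AddCommGroup.zmodModule hW
  exists_matrix_rep_of_module act hone hmul hfix

/-- From a fixed-point-free action on an abelian group to matrices over a prime field. -/
theorem exists_matrix_rep {A : Type*} [Group A] [Finite A] {V : Type*} [CommGroup V] [Finite V]
    [Nontrivial V] {φ : A →* MulAut V} (h : IsFpf φ) :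
    ∃ (r k : ℕ) (_ : Fact r.Prime) (ρ : A →* (Matrix (Fin k) (Fin k) (ZMod r))ˣ),
      0 < k ∧ (Nat.card A).Coprime r ∧ ∀ a, a ≠ 1 → IsUnit ((ρ a).1 - 1) := by
  classical
  obtain ⟨r, hr, hrV⟩ := Nat.exists_prime_and_dvd (Finite.one_lt_card (α := V)).ne'
  haveI : Fact r.Prime := ⟨hr⟩
  set U : Subgroup V := (powMonoidHom r : V →* V).ker with hU
  have hUmem : ∀ v, v ∈ U ↔ v ^ r = 1 := fun v => MonoidHom.mem_ker
  have hUinv : ∀ (a : A) (v : V), v ∈ U → φ a v ∈ U := by
    intro a v hv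
    rw [hUmem] at hv ⊢
    rw [← map_pow, hv, map_one]
  haveI hUnt : Nontrivial U := by
    obtain ⟨v, hv⟩ := exists_prime_orderOf_dvd_card' r hrV
    have h1 : v ∈ U := by
      rw [hUmem, ← hv, pow_orderOf_eq_one]
    have h2 : v ≠ 1 := by
      rintro rfl
      rw [orderOf_one] at hv
      exact hr.one_lt.ne hv
    exact ⟨⟨⟨v, h1⟩, 1, fun h3 => h2 (congrArg Subtype.val h3)⟩⟩
  have hWr : ∀ x : Additive U, r • x = 0 := by
    intro x
    apply Additive.toMul.injective
    apply Subtype.ext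
    exact (hUmem _).mp (Additive.toMul x).2
  let act₀ : A → Additive U →+ Additive U := fun a =>
    AddMonoidHom.mk' (fun x => Additive.ofMul (⟨φ a (Additive.toMul x : U), hUinv a _ (Additive.toMul x).2⟩ : U))
      (fun x y => by
        apply Additive.toMul.injective
        apply Subtype.ext
        exact map_mul (φ a) _ _)
  have hact : ∀ (a : A) (x : Additive U), ((Additive.toMul (act₀ a x) : U) : V) =
      φ a ((Additive.toMul x : U) : V) := fun _ _ => rfl
  have hone : ∀ x, act₀ 1 x = x := by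
    intro x
    apply Additive.toMul.injective
    apply Subtype.ext
    rw [hact, map_one]
    rfl
  have hmul : ∀ a b x, act₀ (a * b) x = act₀ a (act₀ b x) := by
    intro a b x
    apply Additive.toMul.injective
    apply Subtype.ext
    rw [hact, map_mul]
    rfl
  obtain ⟨k, ρ, hk, hunit⟩ := exists_matrix_rep_of_additive hWr act₀ hone hmul (by
    intro a ha x hx
    have h3 : φ a ((Additive.toMul x : U) : V) = ((Additive.toMul x : U) : V) := by
      rw [← hact]
      exact congrArg (fun y : Additive U => ((Additive.toMul y : U) : V)) hx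
    have h4 := h a ha _ h3
    apply Additive.toMul.injective
    exact Subtype.ext h4)
  refine ⟨r, k, inferInstance, ρ, hk, ?_, hunit⟩
  rw [Nat.coprime_comm, Nat.Prime.coprime_iff_not_dvd hr]
  intro hrA
  exact not_dvd_card_of_fpf h hrA hrV

/-- **Change of characteristic.**  A finite group acting fixed-point-freely on a nontrivial finite
abelian group acts fixed-point-freely on a nontrivial finite abelian group of exponent `s`, for
every prime `s` not dividing its order. -/
theorem exists_fpf_mod_prime {A : Type u} [Group A] [Finite A] {V : Type v} [CommGroup V] [Finite V]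
    [Nontrivial V] {φ : A →* MulAut V} (h : IsFpf φ) (s : ℕ) [hs : Fact s.Prime]
    (hsA : (Nat.card A).Coprime s) :
    ∃ (W : Type u) (_ : AddCommGroup W) (_ : Finite W) (_ : Nontrivial W)
      (F : A → W →+ W), (∀ x, F 1 x = x) ∧ (∀ a b x, F (a * b) x = F a (F b x)) ∧
        (∀ x : W, s • x = 0) ∧ ∀ a, a ≠ 1 → ∀ v, F a v = v → v = 0 := by
  classical
  letI : Fintype A := Fintype.ofFinite A
  obtain ⟨r, k, hr, ρ, hk, hcop, hunit⟩ := exists_matrix_rep h
  have hne := Ks_ne_top hk hcop ρ hunit s hs.out.two_le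
  let W := (A → ℤ) ⧸ Ks A s
  haveI hWnt : Nontrivial W := Submodule.Quotient.nontrivial_iff.mpr hne
  have hsW : ∀ x : W, s • x = 0 := by
    intro x
    obtain ⟨l, rfl⟩ := Submodule.Quotient.mk_surjective _ x
    rw [← Submodule.Quotient.mk_smul, Submodule.Quotient.mk_eq_zero]
    apply Submodule.mem_sup_right
    refine ⟨l, ?_⟩
    simp
  haveI hWfin : Finite W := by
    apply Module.finite_of_fg_torsion
    intro x
    refine ⟨⟨(s : ℤ), ?_⟩, ?_⟩
    · rw [mem_nonZeroDivisors_iff_ne_zero]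
      exact_mod_cast hs.out.ne_zero
    · change (s : ℤ) • x = 0
      rw [natCast_zsmul]
      exact hsW x
  let F₀ : A → W →ₗ[ℤ] W := fun a => Submodule.mapQ _ _ (Ltr a) (Ks_le_comap s a)
  have hF₀ : ∀ a l, F₀ a (Submodule.Quotient.mk l) = Submodule.Quotient.mk (Ltr a l) :=
    fun _ _ => rfl
  let F : A → W →+ W := fun a => (F₀ a).toAddMonoidHom
  have hFa : ∀ a v, F a v = F₀ a v := fun _ _ => rfl
  refine ⟨W, inferInstance, hWfin, hWnt, F, ?_, ?_, hsW, ?_⟩
  · intro x
    obtain ⟨l, rfl⟩ := Submodule.Quotient.mk_surjective _ x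
    rw [hFa, hF₀, Ltr_one]
  · intro a b x
    obtain ⟨l, rfl⟩ := Submodule.Quotient.mk_surjective _ x
    rw [hFa, hFa, hFa, hF₀, hF₀, hF₀, Ltr_mul]
  intro a ha v hv
  obtain ⟨l, rfl⟩ := Submodule.Quotient.mk_surjective _ v
  have hpow : ∀ i, F₀ (a ^ i) (Submodule.Quotient.mk l) = Submodule.Quotient.mk l := by
    intro i
    induction i with
    | zero =>
      rw [pow_zero, hF₀, Ltr_one]
    | succ i ih =>
      rw [pow_succ, hF₀, Ltr_mul, ← hF₀, ← hF₀]
      have h1 : F₀ a (Submodule.Quotient.mk l) = Submodule.Quotient.mk l := hv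
      rw [h1, ih]
  have hsum : (orderOf a) • (Submodule.Quotient.mk l : W) = 0 := by
    have h1 : (∑ i ∈ Finset.range (orderOf a), Submodule.Quotient.mk (Ltr (a ^ i) l) : W) = 0 := by
      have h2 := sum_Ltr_mem_KK a ha l
      have h3 : (∑ i ∈ Finset.range (orderOf a), Ltr (a ^ i) l) ∈ Ks A s :=
        Submodule.mem_sup_left h2
      rw [← Submodule.Quotient.mk_eq_zero] at h3
      have h6 := map_sum (Submodule.mkQ (Ks A s)) (fun i => Ltr (a ^ i) l)
        (Finset.range (orderOf a))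
      rw [← h3]
      exact h6.symm
    have h4 : ∀ i, (Submodule.Quotient.mk (Ltr (a ^ i) l) : W) = Submodule.Quotient.mk l := fun i =>
      hpow i
    simp_rw [h4] at h1
    rw [Finset.sum_const, Finset.card_range] at h1
    exact h1
  have hcop2 : (orderOf a).Coprime s :=
    Nat.Coprime.coprime_dvd_left (orderOf_dvd_natCard a) hsA
  have h7 : addOrderOf (Submodule.Quotient.mk l : W) ∣ Nat.gcd (orderOf a) s :=
    Nat.dvd_gcd (addOrderOf_dvd_iff_nsmul_eq_zero.mpr hsum)
      (addOrderOf_dvd_iff_nsmul_eq_zero.mpr (hsW _))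
  rw [hcop2, Nat.dvd_one] at h7
  exact AddMonoid.addOrderOf_eq_one_iff.mp h7

end Cfsg.Agent.Lib.FpfChar
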