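import Mathlib
import Cfsg.Agent.Lib.Fr7A

/-!
# Frames in dimension at least seven: the case analysis
-/

set_option autoImplicit false
set_option linter.unusedVariables false
set_option linter.unusedSectionVars false
set_option linter.unusedSimpArgs false
set_option linter.style.longLine false

namespace Cfsg.Agent.Lib.Fr7B

open Matrix QuadraticMap Cfsg Cfsg.Geo Module
open Cfsg.Agent.Lib.OrthoBasic Cfsg.Agent.Lib.OrthoSiegel Cfsg.Agent.Lib.OmCalc Cfsg.Agent.Lib.OmPair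
  Cfsg.Agent.Lib.OrthGroup Cfsg.Agent.Lib.OrthOmega
open Cfsg.Agent.H28.KlD Cfsg.Agent.H28.FrA Cfsg.Agent.H28.FrB Cfsg.Agent.H28.FrC Cfsg.Agent.H28.FrD Cfsg.Agent.H28.FrE Cfsg.Agent.H28.FrF
open Cfsg.Agent.Lib.Fr7A
open Cfsg.Agent.Lib.SympT (GL_ext mulVec_mul_GL mulVec_inv_GL inv_mulVec_GL)

local notation:70 g:71 " ⋆ " x:70 => Matrix.mulVec (Units.val g) x

variable {ι : Type} [Fintype ι] [DecidableEq ι] {F : Type*} [Field F] [Fintype F]
  {Q : QuadraticForm F (ι → F)} {K : Type} [Fintype K] [DecidableEq K] {e : K → ι → F} {c : F}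
  {M : Subgroup (GL ι F)}

/-- The standing assumptions. -/
structure Cx (hQ : Nondeg Q) (M : Subgroup (GL ι F)) (e : K → ι → F) (c : F) (p : ℕ) : Prop where
  C : MC Q M e c
  hn : Odd (Fintype.card K)
  h7 : 7 ≤ Fintype.card ι
  fr : Nonempty (Frame Q)
  h13 : 7 ≤ Fintype.card K
  hF : Fintype.card F = p
  hodd : Odd p

lemma sum_T (C : MC Q M e c) {w : ι → F} (hw : UU Q M c w) {T : Finset K} (hT : ∀ j, co Q e c j w ≠ 0 → j ∈ T) :
    ∑ i ∈ T, co Q e c i w ^ 2 = 1 := by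
  have h4 := Fr.sum_sq C.fr hw.1
  rwa [← Finset.sum_subset (Finset.subset_univ T) (fun j _ hj => by
    have : co Q e c j w = 0 := by
      by_contra h0
      exact hj (hT j h0)
    rw [this]; ring)] at h4

lemma exists_fresh (T : Finset K) (h : T.card + 4 ≤ Fintype.card K) :
    ∃ k' k'' l l' : K, k' ∉ T ∧ ¬ k'' = k' ∧ k'' ∉ T ∧ ¬ l = k'' ∧ ¬ l = k' ∧ l ∉ T ∧ ¬ l' = l ∧ ¬ l' = k'' ∧ ¬ l' = k' ∧ l' ∉ T := by
  obtain ⟨k', hk'⟩ := exists_out T (by omega)
  obtain ⟨k'', hk''⟩ := exists_out (insert k' T) (by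
    have := Finset.card_insert_le k' T
    omega)
  obtain ⟨l, hl⟩ := exists_out (insert k'' (insert k' T)) (by
    have := Finset.card_insert_le k' T
    have := Finset.card_insert_le k'' (insert k' T)
    omega)
  obtain ⟨l', hl'⟩ := exists_out (insert l (insert k'' (insert k' T))) (by
    have := Finset.card_insert_le k' T
    have := Finset.card_insert_le k'' (insert k' T)
    have := Finset.card_insert_le l (insert k'' (insert k' T))
    omega)
  simp only [Finset.mem_insert, not_or] at hk'' hl hl'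
  exact ⟨k', k'', l, l', hk', hk''.1, hk''.2, hl.1, hl.2.1, hl.2.2, hl'.1, hl'.2.1, hl'.2.2.1, hl'.2.2.2⟩

section main

variable {hQ : Nondeg Q} {p : ℕ} [hp : Fact p.Prime] [CharP F p]

include hp in
/-- Step B finished. -/
theorem stepB7 (X : Cx hQ M e c p) {w : ι → F} (hw : UU Q M c w) {T : Finset K}
    (hT : ∀ j, co Q e c j w ≠ 0 → j ∈ T) {k : K} (hk : k ∈ T) {x : F} (hx : x = co Q e c k w)
    (hx0 : x ≠ 0) (hx1 : x ^ 2 ≠ 1) (hx2 : 2 * x ^ 2 ≠ 1) {ζ ω : F} (hzw : ζ ^ 2 + ω ^ 2 = x ^ 2 - 1) (hω : ω ^ 2 ≠ 1)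
    (hcard : T.card ≤ 2 ∨ (T.card ≤ 3 ∧ ω = 0)) : omegaGL ⇑Q ≤ M := by
  have hT3 : T.card ≤ 3 := by
    rcases hcard with h | h
    · omega
    · exact h.1
  have h13 := X.h13
  obtain ⟨k', k'', l, l', a1, a2, a3, a4, a5, a6, a7, a8, a9, a10⟩ := exists_fresh T (by omega)
  obtain ⟨z, hR, hz0, hsup⟩ := stepB_core (hp := hp) hQ X.C X.hn X.hF X.hodd hw hT hk hx hx0 hx1 hx2 hzw hω a1 a2 a3 a4 a5 a6 a7 a8 a9 a10
  have hpf := hpf_of X.hF
  have hkk' : k ≠ k' := by rintro rfl; exact a1 hk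
  have hkk'' : k ≠ k'' := by rintro rfl; exact a3 hk
  have hcard' : 0 < T.card := Finset.card_pos.2 ⟨k, hk⟩
  have herase := Finset.card_erase_of_mem hk
  by_cases hω0 : ω = 0
  · refine stage2_7 hQ X.C X.hn X.h7 X.fr hpf (A := insert k' (T.erase k)) (k := k) ?_ ?_ h13 hR.sing hz0 ?_ hR
    · intro j hj
      rcases hsup j hj with h | ⟨_, h⟩ | ⟨h1, h2⟩
      · simp [h]
      · exact absurd hω0 h
      · simp [h1, h2]
    · have := Finset.card_insert_le k' (T.erase k)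
      omega
    · simp [hkk']
  · have hT2 : T.card ≤ 2 := by
      rcases hcard with h | h
      · exact h
      · exact absurd h.2 hω0
    refine stage2_7 hQ X.C X.hn X.h7 X.fr hpf (A := insert k' (insert k'' (T.erase k))) (k := k) ?_ ?_ h13 hR.sing hz0 ?_ hR
    · intro j hj
      rcases hsup j hj with h | ⟨h, _⟩ | ⟨h1, h2⟩
      · simp [h]
      · simp [h]
      · simp [h1, h2]
    · have := Finset.card_insert_le k' (insert k'' (T.erase k))
      have := Finset.card_insert_le k'' (T.erase k)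
      omega
    · simp [hkk', hkk'']

include hp in
theorem two_finish (X : Cx hQ M e c p) (h3 : (3 : F) ≠ 0) (h5 : (5 : F) ≠ 0) {w : ι → F} (hw : UU Q M c w) {T : Finset K}
    (hT : ∀ j, co Q e c j w ≠ 0 → j ∈ T) (hT2 : T.card ≤ 2) {k : K} (hk : co Q e c k w ≠ 0)
    (hx1 : co Q e c k w ^ 2 ≠ 1) (hx2 : 2 * co Q e c k w ^ 2 ≠ 1) : omegaGL ⇑Q ≤ M := by
  obtain ⟨ζ, ω, h1, h4⟩ := exists_circle_B X.C.fr.h2 h3 h5 (co Q e c k w ^ 2 - 1)
  exact stepB7 X hw hT (hT k hk) rfl hk hx1 hx2 h1 h4 (Or.inl hT2)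

include hp in
/-- Any point of the unit circle on a good pair of coordinates. -/
theorem pair_unit (X : Cx hQ M e c p) {w : ι → F} (hw : UU Q M c w) {T : Finset K}
    (hT : ∀ j, co Q e c j w ≠ 0 → j ∈ T) (hT5 : T.card ≤ 5) {k k' : K} (hk : k ∈ T) (hk' : k' ∈ T) (n1 : k ≠ k')
    (hs0 : co Q e c k w ^ 2 + co Q e c k' w ^ 2 ≠ 0) (hs1 : co Q e c k w ^ 2 + co Q e c k' w ^ 2 ≠ 1)
    (hs2 : 2 * (co Q e c k w ^ 2 + co Q e c k' w ^ 2) ≠ 1) {a b : F} (hab : a ^ 2 + b ^ 2 = 1) :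
    UU Q M c (a • e k + b • e k') := by
  have h13 := X.h13
  have hfr := X.C.fr
  obtain ⟨l, hl⟩ := exists_out T (by omega)
  obtain ⟨l', hl'⟩ := exists_out (insert l T) (by
    have := Finset.card_insert_le l T
    omega)
  simp only [Finset.mem_insert, not_or] at hl'
  have n2 : k ≠ l := by rintro rfl; exact hl hk
  have n3 : k ≠ l' := by rintro rfl; exact hl'.2 hk
  have n4 : k' ≠ l := by rintro rfl; exact hl hk'
  have n5 : k' ≠ l' := by rintro rfl; exact hl'.2 hk'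
  have n6 : l ≠ l' := Ne.symm hl'.1
  have e3 : co Q e c l w = 0 := by
    by_contra h0
    exact hl (hT l h0)
  have e4 : co Q e c l' w = 0 := by
    by_contra h0
    exact hl'.2 (hT l' h0)
  obtain ⟨x₁, hd₁⟩ : ∃ x, x = co Q e c k w := ⟨_, rfl⟩
  obtain ⟨x₂, hd₂⟩ : ∃ x, x = co Q e c k' w := ⟨_, rfl⟩
  rw [← hd₁, ← hd₂] at hs0 hs1 hs2
  obtain ⟨s, hs⟩ : ∃ s, s = x₁ ^ 2 + x₂ ^ 2 := ⟨_, rfl⟩
  rw [← hs] at hs0 hs1 hs2
  have hi : s * s⁻¹ = 1 := mul_inv_cancel₀ hs0
  obtain ⟨η, hη⟩ : ∃ η, η = s⁻¹ * (a * x₁ + b * x₂) := ⟨_, rfl⟩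
  obtain ⟨ζ, hζ⟩ : ∃ ζ, ζ = s⁻¹ * (b * x₁ - a * x₂) := ⟨_, rfl⟩
  have hAB : (a * x₁ + b * x₂) ^ 2 + (b * x₁ - a * x₂) ^ 2 = s := by
    rw [hs]
    linear_combination (x₁ ^ 2 + x₂ ^ 2) * hab
  have hsum : ∀ u, (x₁ ^ 2 + x₂ ^ 2 + (co Q e c l w ^ 2 + co Q e c l' w ^ 2)) * u = s * u := by
    intro u
    rw [e3, e4, hs]
    ring
  obtain ⟨w₁, hw₁, hsup, c1, c2, c3, c4⟩ := stepA0 (hp := hp) X.C X.hn X.hF X.hodd hw n1 n2 n3 n4 n5 n6
    (η := η) (ζ := ζ)
    (by
      rw [← hd₁, ← hd₂, e3, e4]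
      intro h0
      apply hs0
      rw [hs]
      linear_combination h0)
    (by
      rw [← hd₁, ← hd₂, e3, e4]
      intro h0
      apply hs1
      rw [hs]
      linear_combination h0)
    (by
      rw [← hd₁, ← hd₂, e3, e4]
      intro h0
      apply hs2
      rw [hs]
      linear_combination h0)
    (by
      rw [← hd₁, ← hd₂, hsum, hsum, hη, hζ]
      linear_combination (s * s⁻¹ ^ 2) * hAB + (s * s⁻¹ + 1) * hi)
  rw [← hd₁, ← hd₂] at c1 c2
  have e5 : w₁ = a • e k + b • e k' := by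
    apply hfr.ext_co
    intro j
    rw [co_add, co_smul, co_smul, hfr.co_e, hfr.co_e]
    by_cases j1 : j = k
    · subst j1
      rw [c1, if_pos rfl, if_neg n1.symm, hη, hζ]
      linear_combination a * hi + (s⁻¹ * a) * (-hs)
    · by_cases j2 : j = k'
      · subst j2
        rw [c2, if_neg n1, if_pos rfl, hη, hζ]
        linear_combination b * hi + (s⁻¹ * b) * (-hs)
      · rw [if_neg (Ne.symm j1), if_neg (Ne.symm j2), mul_zero, mul_zero, add_zero]
        by_cases j3 : j = l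
        · subst j3
          rw [c3, e3, e4]
          ring
        · by_cases j4 : j = l'
          · subst j4
            rw [c4, e3, e4]
            ring
          · by_contra h0
            rcases hsup j h0 with h | h | h | h
            · exact j1 h
            · exact j2 h
            · exact j3 h
            · exact j4 h
  rw [← e5]
  exact hw₁

include hp in
/-- A good pair finishes the proof. -/
theorem pair_finish (X : Cx hQ M e c p) (h3 : (3 : F) ≠ 0) (h5 : (5 : F) ≠ 0) (h7 : (7 : F) ≠ 0) {w : ι → F} (hw : UU Q M c w) {T : Finset K}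
    (hT : ∀ j, co Q e c j w ≠ 0 → j ∈ T) (hT5 : T.card ≤ 5) {k k' : K} (hk : k ∈ T) (hk' : k' ∈ T) (n1 : k ≠ k')
    (hs0 : co Q e c k w ^ 2 + co Q e c k' w ^ 2 ≠ 0) (hs1 : co Q e c k w ^ 2 + co Q e c k' w ^ 2 ≠ 1)
    (hs2 : 2 * (co Q e c k w ^ 2 + co Q e c k' w ^ 2) ≠ 1) : omegaGL ⇑Q ≤ M := by
  have hfr := X.C.fr
  have h2 := hfr.h2
  obtain ⟨a, ha⟩ : ∃ a : F, a = 4 / 5 := ⟨_, rfl⟩
  obtain ⟨b, hb⟩ : ∃ b : F, b = 3 / 5 := ⟨_, rfl⟩
  have ha5 : 5 * a = 4 := by rw [ha]; field_simp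
  have hb5 : 5 * b = 3 := by rw [hb]; field_simp
  have h25 : (25 : F) ≠ 0 := by
    have : (25 : F) = 5 * 5 := by norm_num
    rw [this]
    exact mul_ne_zero h5 h5
  have hab : a ^ 2 + b ^ 2 = 1 := by
    apply mul_left_cancel₀ h25
    linear_combination (5 * a + 4) * ha5 + (5 * b + 3) * hb5
  have hU := pair_unit X hw hT hT5 hk hk' n1 hs0 hs1 hs2 hab
  have hcok : co Q e c k (a • e k + b • e k') = a := by
    rw [co_add, co_smul, co_smul, hfr.co_e_self, hfr.co_e_ne n1.symm]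
    ring
  have h4 : (4 : F) ≠ 0 := by
    have : (4 : F) = 2 * 2 := by norm_num
    rw [this]
    exact mul_ne_zero h2 h2
  have ha0 : a ≠ 0 := by
    rintro rfl
    apply h4
    linear_combination -ha5
  refine two_finish X h3 h5 hU (T := {k, k'}) ?_ Finset.card_le_two (k := k) ?_ ?_ ?_
  · intro j hj
    by_contra hj'
    simp only [Finset.mem_insert, Finset.mem_singleton, not_or] at hj'
    apply hj
    rw [co_add, co_smul, co_smul, hfr.co_e_ne (Ne.symm hj'.1), hfr.co_e_ne (Ne.symm hj'.2)]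
    ring
  · rw [hcok]
    exact ha0
  · rw [hcok]
    intro h0
    apply h3
    have h9 : (3 : F) * 3 = 0 := by
      linear_combination (5 * a + 4) * ha5 - 25 * h0
    exact (mul_self_eq_zero.1 h9)
  · rw [hcok]
    intro h0
    apply h7
    linear_combination (-2 : F) * (5 * a + 4) * ha5 + 25 * h0

include hp in
/-- The vector `(1/2)(1,1,1,1)`. -/
theorem etype (X : Cx hQ M e c p) (h3 : (3 : F) ≠ 0) {w : ι → F} (hw : UU Q M c w) {a b d f : K}
    (n1 : a ≠ b) (n2 : a ≠ d) (n3 : a ≠ f) (n4 : b ≠ d) (n5 : b ≠ f) (n6 : d ≠ f)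
    (hsup : ∀ j, co Q e c j w ≠ 0 → j = a ∨ j = b ∨ j = d ∨ j = f)
    (ya : 4 * co Q e c a w ^ 2 = 1) (yb : 4 * co Q e c b w ^ 2 = 1) (yd : 4 * co Q e c d w ^ 2 = 1) (yf : 4 * co Q e c f w ^ 2 = 1) :
    omegaGL ⇑Q ≤ M := by
  classical
  have C := X.C
  have hn := X.hn
  have h13 := X.h13
  have hfr := C.fr
  have hc := hfr.hc
  have h2 := hfr.h2
  have hc2 := hfr.c2
  have hpf := hpf_of X.hF
  obtain ⟨T, hT⟩ : ∃ T : Finset K, T = {a, b, d, f} := ⟨_, rfl⟩
  have hTc : T.card ≤ 4 := by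
    rw [hT]
    exact Finset.card_le_four
  obtain ⟨m, hm⟩ := exists_out T (by omega)
  obtain ⟨l, hl⟩ := exists_out (insert m T) (by
    have := Finset.card_insert_le m T
    omega)
  obtain ⟨l', hl'⟩ := exists_out (insert l (insert m T)) (by
    have := Finset.card_insert_le m T
    have := Finset.card_insert_le l (insert m T)
    omega)
  rw [hT] at hm hl hl'
  simp only [Finset.mem_insert, Finset.mem_singleton, not_or] at hm hl hl'
  obtain ⟨m1, m2, m3, m4⟩ := hm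
  obtain ⟨l0, l1, l2, l3, l4⟩ := hl
  obtain ⟨l'a, l'0, l'1, l'2, l'3, l'4⟩ := hl'
  have hlm : l ≠ l' := Ne.symm l'a
  obtain ⟨π, hπ⟩ : ∃ π : Equiv.Perm K, π = Equiv.swap f m * Equiv.swap l l' := ⟨_, rfl⟩
  have hsign : Equiv.Perm.sign π = 1 := by
    rw [hπ, Equiv.Perm.sign_mul, Equiv.Perm.sign_swap (Ne.symm m4), Equiv.Perm.sign_swap hlm]
    simp
  obtain ⟨g, hg, hgx⟩ := C.perm_lift π hsign
  have hiso := C.iso hg
  have co_act : ∀ i v, co Q e c (π i) (g ⋆ v) = co Q e c i v := by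
    intro i v
    simp only [co]
    rw [← hgx, polar_iso hiso]
  have πa : π a = a := by
    rw [hπ, Equiv.Perm.mul_apply, Equiv.swap_apply_of_ne_of_ne (Ne.symm l1) (Ne.symm l'1), Equiv.swap_apply_of_ne_of_ne n3 (Ne.symm m1)]
  have πb : π b = b := by
    rw [hπ, Equiv.Perm.mul_apply, Equiv.swap_apply_of_ne_of_ne (Ne.symm l2) (Ne.symm l'2), Equiv.swap_apply_of_ne_of_ne n5 (Ne.symm m2)]
  have πd : π d = d := by
    rw [hπ, Equiv.Perm.mul_apply, Equiv.swap_apply_of_ne_of_ne (Ne.symm l3) (Ne.symm l'3), Equiv.swap_apply_of_ne_of_ne n6 (Ne.symm m3)]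
  have πf : π f = m := by
    rw [hπ, Equiv.Perm.mul_apply, Equiv.swap_apply_of_ne_of_ne (Ne.symm l4) (Ne.symm l'4), Equiv.swap_apply_left]
  have πm : π m = f := by
    rw [hπ, Equiv.Perm.mul_apply, Equiv.swap_apply_of_ne_of_ne (Ne.symm l0) (Ne.symm l'0), Equiv.swap_apply_right]
  have hcozero : ∀ j, j ≠ a → j ≠ b → j ≠ d → j ≠ f → co Q e c j w = 0 := by
    intro j j1 j2 j3 j4
    by_contra h0
    rcases hsup j h0 with h | h | h | h
    · exact j1 h
    · exact j2 h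
    · exact j3 h
    · exact j4 h
  have hcom : co Q e c m w = 0 := hcozero m m1 m2 m3 m4
  obtain ⟨w', hw'⟩ : ∃ w', w' = g ⋆ w := ⟨_, rfl⟩
  have cwa : co Q e c a w' = co Q e c a w := by
    have := co_act a w
    rwa [πa, ← hw'] at this
  have cwb : co Q e c b w' = co Q e c b w := by
    have := co_act b w
    rwa [πb, ← hw'] at this
  have cwd : co Q e c d w' = co Q e c d w := by
    have := co_act d w
    rwa [πd, ← hw'] at this
  have cwm : co Q e c m w' = co Q e c f w := by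
    have := co_act f w
    rwa [πf, ← hw'] at this
  have cwf : co Q e c f w' = 0 := by
    have := co_act m w
    rwa [πm, ← hw', hcom] at this
  have cwo : ∀ j, j ≠ a → j ≠ b → j ≠ d → j ≠ f → j ≠ m → co Q e c j w' = 0 := by
    intro j j1 j2 j3 j4 j5
    have h1 := co_act (π.symm j) w
    rw [Equiv.apply_symm_apply, ← hw'] at h1
    rw [h1]
    apply hcozero
    · intro h
      apply j1
      rw [← Equiv.apply_symm_apply π j, h, πa]
    · intro h
      apply j2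
      rw [← Equiv.apply_symm_apply π j, h, πb]
    · intro h
      apply j3
      rw [← Equiv.apply_symm_apply π j, h, πd]
    · intro h
      apply j5
      rw [← Equiv.apply_symm_apply π j, h, πf]
  -- the reflection
  have hU' : UU Q M c w' := by
    rw [hw']
    exact C.U_conj hg hw
  obtain ⟨-, g₀, hg₀, hg₀x⟩ := id hw
  have hU := C.U_conj hg₀ hU'
  rw [hg₀x] at hU
  obtain ⟨x₁, hd₁⟩ : ∃ x, x = co Q e c a w := ⟨_, rfl⟩
  obtain ⟨x₂, hd₂⟩ : ∃ x, x = co Q e c b w := ⟨_, rfl⟩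
  obtain ⟨x₃, hd₃⟩ : ∃ x, x = co Q e c d w := ⟨_, rfl⟩
  obtain ⟨x₄, hd₄⟩ : ∃ x, x = co Q e c f w := ⟨_, rfl⟩
  rw [← hd₁] at ya cwa
  rw [← hd₂] at yb cwb
  rw [← hd₃] at yd cwd
  rw [← hd₄] at yf cwm
  obtain ⟨lam, hlam⟩ : ∃ lam, lam = c⁻¹ * polar Q w' w := ⟨_, rfl⟩
  rw [← hlam] at hU
  have hsumw : ∑ j, co Q e c j w' * co Q e c j w = x₁ ^ 2 + x₂ ^ 2 + x₃ ^ 2 := by
    have hsub : ({a, b, d, f} : Finset K) ⊆ Finset.univ := Finset.subset_univ _
    rw [← Finset.sum_subset hsub (fun j _ hj => by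
      simp only [Finset.mem_insert, Finset.mem_singleton, not_or] at hj
      rw [hcozero j hj.1 hj.2.1 hj.2.2.1 hj.2.2.2, mul_zero])]
    rw [Finset.sum_insert (by simp [n1, n2, n3]), Finset.sum_insert (by simp [n4, n5]), Finset.sum_insert (by simp [n6]),
      Finset.sum_singleton, cwa, cwb, cwd, cwf, ← hd₁, ← hd₂, ← hd₃, ← hd₄]
    ring
  have hlam2 : 2 * lam = 3 := by
    rw [hlam, hfr.polar_eq, hsumw]
    have : c⁻¹ * (2 * c * (x₁ ^ 2 + x₂ ^ 2 + x₃ ^ 2)) = 2 * (x₁ ^ 2 + x₂ ^ 2 + x₃ ^ 2) := by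
      field_simp
    rw [this]
    linear_combination ya + yb + yd
  obtain ⟨u, hu⟩ : ∃ u, u = lam • w - w' := ⟨_, rfl⟩
  rw [← hu] at hU
  have cua : co Q e c a u = (lam - 1) * x₁ := by
    rw [hu, co_sub, co_smul, cwa, ← hd₁]
    ring
  have cub : co Q e c b u = (lam - 1) * x₂ := by
    rw [hu, co_sub, co_smul, cwb, ← hd₂]
    ring
  have cud : co Q e c d u = (lam - 1) * x₃ := by
    rw [hu, co_sub, co_smul, cwd, ← hd₃]
    ring
  have cuf : co Q e c f u = lam * x₄ := by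
    rw [hu, co_sub, co_smul, cwf, ← hd₄]
    ring
  have cum : co Q e c m u = - x₄ := by
    rw [hu, co_sub, co_smul, cwm, hcom]
    ring
  have cuo : ∀ j, j ≠ a → j ≠ b → j ≠ d → j ≠ f → j ≠ m → co Q e c j u = 0 := by
    intro j j1 j2 j3 j4 j5
    rw [hu, co_sub, co_smul, cwo j j1 j2 j3 j4 j5, hcozero j j1 j2 j3 j4]
    ring
  have hr : 2 * (lam - 1) = 1 := by linear_combination hlam2
  have hx10 : x₁ ≠ 0 := by
    rintro rfl
    norm_num at ya
  have hx20 : x₂ ≠ 0 := by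
    rintro rfl
    norm_num at yb
  have hx30 : x₃ ≠ 0 := by
    rintro rfl
    norm_num at yd
  have hx40 : x₄ ≠ 0 := by
    rintro rfl
    norm_num at yf
  have hr0 : lam - 1 ≠ 0 := by
    intro h0
    rw [h0] at hr
    norm_num at hr
  have hl0 : lam ≠ 0 := by
    rintro rfl
    apply h3
    linear_combination -hlam2
  have hsq1 : 16 * ((lam - 1) * x₁) ^ 2 = 1 := by
    linear_combination (4 * x₁ ^ 2) * (2 * (lam - 1) + 1) * hr + ya
  have hsq2 : 16 * ((lam - 1) * x₂) ^ 2 = 1 := by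
    linear_combination (4 * x₂ ^ 2) * (2 * (lam - 1) + 1) * hr + yb
  have hsqf : 16 * (lam * x₄) ^ 2 = 9 := by
    linear_combination (4 * x₄ ^ 2) * (2 * lam + 3) * hlam2 + 9 * yf
  have hsqm : 16 * (- x₄) ^ 2 = 4 := by
    linear_combination 4 * yf
  have h16 : (16 : F) ≠ 0 := by
    have : (16 : F) = 2 * 2 * 2 * 2 := by norm_num
    rw [this]
    exact mul_ne_zero (mul_ne_zero (mul_ne_zero h2 h2) h2) h2
  have hn1 : a ≠ m := Ne.symm m1
  have hn2 : f ≠ m := Ne.symm m4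
  by_cases h5 : (5 : F) = 0
  · refine zs7 hQ C hn X.h7 X.fr h13 hpf hU (S := {a, f}) ?_ ⟨a, by simp⟩ (le_trans Finset.card_le_two (by omega)) ?_
    · intro j hj
      simp only [Finset.mem_insert, Finset.mem_singleton] at hj
      rcases hj with rfl | rfl
      · rw [cua]
        exact mul_ne_zero hr0 hx10
      · rw [cuf]
        exact mul_ne_zero hl0 hx40
    · rw [Finset.sum_pair n3, cua, cuf]
      apply mul_left_cancel₀ h16
      linear_combination hsq1 + hsqf + 2 * h5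
  by_cases h7 : (7 : F) = 0
  · refine zs7 hQ C hn X.h7 X.fr h13 hpf hU (S := {a, f, m}) ?_ ⟨a, by simp⟩ (le_trans Finset.card_le_three (by omega)) ?_
    · intro j hj
      simp only [Finset.mem_insert, Finset.mem_singleton] at hj
      rcases hj with rfl | rfl | rfl
      · rw [cua]
        exact mul_ne_zero hr0 hx10
      · rw [cuf]
        exact mul_ne_zero hl0 hx40
      · rw [cum]
        exact neg_ne_zero.2 hx40
    · rw [Finset.sum_insert (by simp [n3, hn1]), Finset.sum_pair hn2, cua, cuf, cum]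
      apply mul_left_cancel₀ h16
      linear_combination hsq1 + hsqf + hsqm + 2 * h7
  · obtain ⟨T', hT'⟩ : ∃ T' : Finset K, T' = {a, b, d, f, m} := ⟨_, rfl⟩
    have hT'c : T'.card ≤ 5 := by
      rw [hT']
      exact Finset.card_le_five
    have hcoT : co Q e c a u ^ 2 + co Q e c b u ^ 2 = ((lam - 1) * x₁) ^ 2 + ((lam - 1) * x₂) ^ 2 := by
      rw [cua, cub]
    refine pair_finish X h3 h5 h7 hU (T := T') ?_ hT'c (k := a) (k' := b) (by rw [hT']; simp) (by rw [hT']; simp) n1 ?_ ?_ ?_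
    · intro j hj
      rw [hT']
      by_contra hj'
      simp only [Finset.mem_insert, Finset.mem_singleton, not_or] at hj'
      exact hj (cuo j hj'.1 hj'.2.1 hj'.2.2.1 hj'.2.2.2.1 hj'.2.2.2.2)
    · rw [hcoT]
      intro h0
      have : (2 : F) = 0 := by linear_combination 16 * h0 - hsq1 - hsq2
      exact h2 this
    · rw [hcoT]
      intro h0
      apply h7
      have : (14 : F) = 0 := by linear_combination hsq1 + hsq2 - 16 * h0
      have h14 : (14 : F) = 2 * 7 := by norm_num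
      rw [h14] at this
      exact (mul_eq_zero.1 this).resolve_left h2
    · rw [hcoT]
      intro h0
      apply h3
      have : (6 : F) = 0 := by linear_combination hsq1 + hsq2 - 8 * h0
      have h14 : (6 : F) = 2 * 3 := by norm_num
      rw [h14] at this
      exact (mul_eq_zero.1 this).resolve_left h2

end main

end Cfsg.Agent.Lib.Fr7B
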