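import Mathlib
import Cfsg.Agent.Lib.Fr7B

/-!
# Frames in dimension at least seven: the final case analysis and maximality
-/

set_option autoImplicit false
set_option linter.unusedVariables false
set_option linter.unusedSectionVars false
set_option linter.unusedSimpArgs false
set_option linter.style.longLine false

namespace Cfsg.Agent.Lib.Fr7C

open Matrix QuadraticMap Cfsg Cfsg.Geo Module
open Cfsg.Agent.Lib.OrthoBasic Cfsg.Agent.Lib.OrthoSiegel Cfsg.Agent.Lib.OmCalc Cfsg.Agent.Lib.OmPair
  Cfsg.Agent.Lib.OrthGroup Cfsg.Agent.Lib.OrthOmega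
open Cfsg.Agent.H28.KlD Cfsg.Agent.H28.FrA Cfsg.Agent.H28.FrB Cfsg.Agent.H28.FrC Cfsg.Agent.H28.FrD Cfsg.Agent.H28.FrE Cfsg.Agent.H28.FrF Cfsg.Agent.H28.FrG
open Cfsg.Agent.Lib.Fr7A Cfsg.Agent.Lib.Fr7B
open Cfsg.Agent.Lib.SympT (GL_ext mulVec_mul_GL mulVec_inv_GL inv_mulVec_GL)

local notation:70 g:71 " ⋆ " x:70 => Matrix.mulVec (Units.val g) x

variable {ι : Type} [Fintype ι] [DecidableEq ι] {F : Type*} [Field F] [Fintype F]
  {Q : QuadraticForm F (ι → F)} {K : Type} [Fintype K] [DecidableEq K] {e : K → ι → F} {c : F}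
  {M : Subgroup (GL ι F)}

lemma p7_val (hF : Fintype.card F = 7) (h70 : (7 : F) = 0) {x : F} (hx : x ≠ 0) :
    ∃ n ∈ ({1, 2, 4} : Finset ℕ), x ^ 2 = (n : F) := by
  have h6 : x ^ 6 = 1 := by
    have := FiniteField.pow_card_sub_one_eq_one x hx
    rwa [hF] at this
  have h : (x ^ 2 - 1) * ((x ^ 2 - 2) * (x ^ 2 - 4)) = 0 := by
    linear_combination h6 + (-x ^ 4 + 2 * x ^ 2 - 1) * h70
  rcases mul_eq_zero.1 h with h1 | h1
  · exact ⟨1, by simp, by push_cast; linear_combination h1⟩
  rcases mul_eq_zero.1 h1 with h2 | h2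
  · exact ⟨2, by simp, by push_cast; linear_combination h2⟩
  · exact ⟨4, by simp, by push_cast; linear_combination h2⟩

set_option maxRecDepth 100000 in
lemma p7_T3 : ∀ n₁ ∈ ({1, 2, 4} : Finset ℕ), ∀ n₂ ∈ ({1, 2, 4} : Finset ℕ), ∀ n₃ ∈ ({1, 2, 4} : Finset ℕ),
    7 ∣ n₁ + n₂ + n₃ + 6 → n₁ = 2 ∨ n₂ = 2 ∨ n₃ = 2 := by
  decide

set_option maxRecDepth 100000 in
lemma p7_T4 : ∀ n₁ ∈ ({1, 2, 4} : Finset ℕ), ∀ n₂ ∈ ({1, 2, 4} : Finset ℕ), ∀ n₃ ∈ ({1, 2, 4} : Finset ℕ), ∀ n₄ ∈ ({1, 2, 4} : Finset ℕ),
    7 ∣ n₁ + n₂ + n₃ + n₄ + 6 → 7 ∣ n₁ + n₂ + n₃ ∨ 7 ∣ n₁ + n₂ + n₄ ∨ 7 ∣ n₁ + n₃ + n₄ ∨ 7 ∣ n₂ + n₃ + n₄ ∨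
      (n₁ = 2 ∧ n₂ = 2 ∧ n₃ = 2 ∧ n₄ = 2) := by
  decide

section main

variable {hQ : Nondeg Q} {p : ℕ} [hp : Fact p.Prime] [CharP F p]

include hp in
/-- Supports of size three and four. -/
theorem three_four (X : Cx hQ M e c p) (hs : ∀ n : ℕ, 1 ≤ n → n ≤ 6 → (n : F) ≠ 0) {w : ι → F} (hw : UU Q M c w)
    {T : Finset K} (hmemT : ∀ j, j ∈ T ↔ co Q e c j w ≠ 0) (h34 : T.card = 3 ∨ T.card = 4) : omegaGL ⇑Q ≤ M := by
  classical
  by_contra hno
  have C := X.C
  have hfr := C.fr
  have h2 := hfr.h2
  have h3 : (3 : F) ≠ 0 := by simpa using hs 3 (by omega) (by omega)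
  have h5 : (5 : F) ≠ 0 := by simpa using hs 5 (by omega) (by omega)
  have hpf := hpf_of X.hF
  have hsum := sum_T C hw (fun j hj => (hmemT j).2 hj)
  have hsmall : ∀ S : Finset K, S ⊆ T → S.Nonempty → S.card ≤ 3 → ∑ i ∈ S, co Q e c i w ^ 2 ≠ 0 := by
    intro S hS hne h5' h0
    exact hno (zs7 hQ C X.hn X.h7 X.fr X.h13 hpf hw (fun j hj => (hmemT j).1 (hS hj)) hne h5' h0)
  have hpair : ∀ u ∈ T, ∀ v ∈ T, u ≠ v → co Q e c u w ^ 2 + co Q e c v w ^ 2 ≠ 0 := by
    intro u hu v hv huv h0
    refine hsmall {u, v} ?_ ⟨u, by simp⟩ (le_trans Finset.card_le_two (by omega)) ?_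
    · intro i hi
      simp only [Finset.mem_insert, Finset.mem_singleton] at hi
      rcases hi with rfl | rfl <;> assumption
    · rw [Finset.sum_pair huv]
      exact h0
  have htri : ∀ u ∈ T, ∀ v ∈ T, ∀ t ∈ T, u ≠ v → u ≠ t → v ≠ t → co Q e c u w ^ 2 + co Q e c v w ^ 2 + co Q e c t w ^ 2 ≠ 0 := by
    intro u hu v hv t ht huv hut hvt h0
    refine hsmall {u, v, t} ?_ ⟨u, by simp⟩ Finset.card_le_three ?_
    · intro i hi
      simp only [Finset.mem_insert, Finset.mem_singleton] at hi
      rcases hi with rfl | rfl | rfl <;> assumption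
    · rw [Finset.sum_insert (by simp [huv, hut]), Finset.sum_pair hvt]
      linear_combination h0
  have hne : ∀ j ∈ T, co Q e c j w ^ 2 ≠ 0 := fun j hj => pow_ne_zero 2 ((hmemT j).1 hj)
  have hp7 : p = 7 ∨ (7 : F) ≠ 0 := by
    by_cases h : p = 7
    · exact Or.inl h
    · right
      intro h0
      have h1 : p ∣ 7 := (CharP.cast_eq_zero_iff F p 7).1 (by exact_mod_cast h0)
      exact h ((Nat.prime_dvd_prime_iff_eq hp.out (by norm_num)).1 h1)
  rcases h34 with h | h
  · obtain ⟨a, b, d, n1, n2, n4, hTe⟩ := Finset.card_eq_three.1 h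
    have ma : a ∈ T := by rw [hTe]; simp
    have mb : b ∈ T := by rw [hTe]; simp
    have md : d ∈ T := by rw [hTe]; simp
    have hs3 : co Q e c a w ^ 2 + co Q e c b w ^ 2 + co Q e c d w ^ 2 = 1 := by
      rw [hTe, Finset.sum_insert (by simp [n1, n2]), Finset.sum_pair n4] at hsum
      linear_combination hsum
    rcases hp7 with h7 | h7
    · subst h7
      have h70 : (7 : F) = 0 := by exact_mod_cast CharP.cast_eq_zero F 7
      obtain ⟨n₁, hn₁, e1⟩ := p7_val X.hF h70 ((hmemT a).1 ma)
      obtain ⟨n₂, hn₂, e2⟩ := p7_val X.hF h70 ((hmemT b).1 mb)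
      obtain ⟨n₃, hn₃, e3⟩ := p7_val X.hF h70 ((hmemT d).1 md)
      have hdvd : 7 ∣ n₁ + n₂ + n₃ + 6 := by
        apply (CharP.cast_eq_zero_iff F 7 _).1
        push_cast
        rw [← e1, ← e2, ← e3]
        linear_combination hs3 + h70
      have hk2 : ∃ k ∈ T, co Q e c k w ^ 2 = 2 := by
        rcases p7_T3 n₁ hn₁ n₂ hn₂ n₃ hn₃ hdvd with r | r | r
        · exact ⟨a, ma, by rw [e1, r]; norm_num⟩
        · exact ⟨b, mb, by rw [e2, r]; norm_num⟩
        · exact ⟨d, md, by rw [e3, r]; norm_num⟩
      obtain ⟨k, hk, hk2⟩ := hk2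
      refine hno (stepB7 X hw (fun j hj => (hmemT j).2 hj) hk rfl ((hmemT k).1 hk) ?_ ?_ (ζ := 1) (ω := 0) ?_ ?_ (Or.inr ⟨by omega, rfl⟩))
      · rw [hk2]
        intro h1
        apply one_ne_zero (α := F)
        linear_combination h1
      · rw [hk2]
        intro h1
        apply h3
        linear_combination h1
      · rw [hk2]
        ring
      · norm_num
    · by_cases c1 : 2 * co Q e c a w ^ 2 = 1
      · by_cases c2 : 2 * co Q e c b w ^ 2 = 1
        · have c3 : 2 * co Q e c d w ^ 2 ≠ 1 := by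
            intro c3
            apply one_ne_zero (α := F)
            linear_combination 2 * hs3 - c1 - c2 - c3
          refine hno (pair_finish X h3 h5 h7 hw (T := T) (fun j hj => (hmemT j).2 hj) (by omega) ma mb n1 (hpair a ma b mb n1) ?_ ?_)
          · intro h0
            apply hne d md
            linear_combination hs3 - h0
          · intro h0
            apply c3
            linear_combination 2 * hs3 - h0
        · refine hno (pair_finish X h3 h5 h7 hw (T := T) (fun j hj => (hmemT j).2 hj) (by omega) ma md n2 (hpair a ma d md n2) ?_ ?_)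
          · intro h0
            apply hne b mb
            linear_combination hs3 - h0
          · intro h0
            apply c2
            linear_combination 2 * hs3 - h0
      · refine hno (pair_finish X h3 h5 h7 hw (T := T) (fun j hj => (hmemT j).2 hj) (by omega) mb md n4 (hpair b mb d md n4) ?_ ?_)
        · intro h0
          apply hne a ma
          linear_combination hs3 - h0
        · intro h0
          apply c1
          linear_combination 2 * hs3 - h0
  · obtain ⟨a, b, d, f, ma, mb, md, mf, n1, n2, n3, n4, n5, n6⟩ := exists_four (show 4 ≤ T.card by omega)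
    have hTe : ({a, b, d, f} : Finset K) = T := by
      apply Finset.eq_of_subset_of_card_le
      · intro i hi
        simp only [Finset.mem_insert, Finset.mem_singleton] at hi
        rcases hi with rfl | rfl | rfl | rfl <;> assumption
      · rw [h, Finset.card_insert_of_notMem (by simp [n1, n2, n3]), Finset.card_insert_of_notMem (by simp [n4, n5]),
          Finset.card_insert_of_notMem (by simp [n6]), Finset.card_singleton]
    have hs4 : co Q e c a w ^ 2 + co Q e c b w ^ 2 + co Q e c d w ^ 2 + co Q e c f w ^ 2 = 1 := by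
      rw [← hTe, Finset.sum_insert (by simp [n1, n2, n3]), Finset.sum_insert (by simp [n4, n5]),
        Finset.sum_insert (by simp [n6]), Finset.sum_singleton] at hsum
      linear_combination hsum
    have hsup : ∀ j, co Q e c j w ≠ 0 → j = a ∨ j = b ∨ j = d ∨ j = f := by
      intro j hj
      have := (hmemT j).2 hj
      rw [← hTe] at this
      simpa using this
    rcases hp7 with h7 | h7
    · subst h7
      have h70 : (7 : F) = 0 := by exact_mod_cast CharP.cast_eq_zero F 7
      obtain ⟨n₁, hn₁, e1⟩ := p7_val X.hF h70 ((hmemT a).1 ma)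
      obtain ⟨n₂, hn₂, e2⟩ := p7_val X.hF h70 ((hmemT b).1 mb)
      obtain ⟨n₃, hn₃, e3⟩ := p7_val X.hF h70 ((hmemT d).1 md)
      obtain ⟨n₄, hn₄, e4⟩ := p7_val X.hF h70 ((hmemT f).1 mf)
      have hdvd : 7 ∣ n₁ + n₂ + n₃ + n₄ + 6 := by
        apply (CharP.cast_eq_zero_iff F 7 _).1
        push_cast
        rw [← e1, ← e2, ← e3, ← e4]
        linear_combination hs4 + h70
      rcases p7_T4 n₁ hn₁ n₂ hn₂ n₃ hn₃ n₄ hn₄ hdvd with r | r | r | r | ⟨r1, r2, r3, r4⟩
      · have h1 := (CharP.cast_eq_zero_iff F 7 _).2 r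
        push_cast at h1
        rw [← e1, ← e2, ← e3] at h1
        exact htri a ma b mb d md n1 n2 n4 h1
      · have h1 := (CharP.cast_eq_zero_iff F 7 _).2 r
        push_cast at h1
        rw [← e1, ← e2, ← e4] at h1
        exact htri a ma b mb f mf n1 n3 n5 h1
      · have h1 := (CharP.cast_eq_zero_iff F 7 _).2 r
        push_cast at h1
        rw [← e1, ← e3, ← e4] at h1
        exact htri a ma d md f mf n2 n3 n6 h1
      · have h1 := (CharP.cast_eq_zero_iff F 7 _).2 r
        push_cast at h1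
        rw [← e2, ← e3, ← e4] at h1
        exact htri b mb d md f mf n4 n5 n6 h1
      · refine hno (etype X h3 hw n1 n2 n3 n4 n5 n6 hsup ?_ ?_ ?_ ?_)
        · rw [e1, r1]
          push_cast
          linear_combination h70
        · rw [e2, r2]
          push_cast
          linear_combination h70
        · rw [e3, r3]
          push_cast
          linear_combination h70
        · rw [e4, r4]
          push_cast
          linear_combination h70
    · have key : ∀ u v u' v' : K, u ∈ T → v ∈ T → u' ∈ T → v' ∈ T → u ≠ v → u' ≠ v' →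
          co Q e c u w ^ 2 + co Q e c v w ^ 2 + (co Q e c u' w ^ 2 + co Q e c v' w ^ 2) = 1 →
          2 * (co Q e c u w ^ 2 + co Q e c v w ^ 2) = 1 := by
        intro u v u' v' hu hv hu' hv' huv hu'v' hsumP
        by_contra hc
        refine hno (pair_finish X h3 h5 h7 hw (T := T) (fun j hj => (hmemT j).2 hj) (by omega) hu hv huv (hpair u hu v hv huv) ?_ hc)
        intro h0
        apply hpair u' hu' v' hv' hu'v'
        linear_combination hsumP - h0
      have e1 := key a b d f ma mb md mf n1 n6 (by linear_combination hs4)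
      have e2 := key a d b f ma md mb mf n2 n5 (by linear_combination hs4)
      have e3 := key a f b d ma mf mb md n3 n4 (by linear_combination hs4)
      have e4 := key b d a f mb md ma mf n4 n3 (by linear_combination hs4)
      refine hno (etype X h3 hw n1 n2 n3 n4 n5 n6 hsup ?_ ?_ ?_ ?_)
      · linear_combination e1 + e2 - e4
      · linear_combination e1 + e4 - e2
      · linear_combination e2 + e4 - e1
      · linear_combination 2 * e3 - (e1 + e2 - e4)

include hp in
theorem finish7 (X : Cx hQ M e c p) (hs : ∀ n : ℕ, 1 ≤ n → n ≤ 6 → (n : F) ≠ 0) {w : ι → F} (hw : UU Q M c w) {k k' l l' : K}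
    (n1 : k ≠ k') (n2 : k ≠ l) (n3 : k ≠ l') (n4 : k' ≠ l) (n5 : k' ≠ l') (n6 : l ≠ l')
    (hsup : ∀ j, co Q e c j w ≠ 0 → j = k ∨ j = k' ∨ j = l ∨ j = l') (h1 : co Q e c k w ≠ 0) (h2 : co Q e c k' w ≠ 0)
    (h3 : co Q e c l w ≠ 0 ∨ co Q e c l' w ≠ 0) : omegaGL ⇑Q ≤ M := by
  classical
  obtain ⟨T, hT⟩ : ∃ T : Finset K, T = Finset.univ.filter (fun j => co Q e c j w ≠ 0) := ⟨_, rfl⟩
  have hmemT : ∀ j, j ∈ T ↔ co Q e c j w ≠ 0 := by
    intro j
    rw [hT]
    simp
  have hsub : T ⊆ {k, k', l, l'} := by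
    intro j hj
    have := hsup j ((hmemT j).1 hj)
    simpa using this
  have hle : T.card ≤ 4 := le_trans (Finset.card_le_card hsub) Finset.card_le_four
  have hge : 3 ≤ T.card := by
    rcases h3 with h | h
    · have h4 : ({k, k', l} : Finset K) ⊆ T := by
        intro i hi
        simp only [Finset.mem_insert, Finset.mem_singleton] at hi
        rcases hi with rfl | rfl | rfl
        · exact (hmemT _).2 h1
        · exact (hmemT _).2 h2
        · exact (hmemT _).2 h
      have h5 := Finset.card_le_card h4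
      rwa [Finset.card_eq_three.2 ⟨k, k', l, n1, n2, n4, rfl⟩] at h5
    · have h4 : ({k, k', l'} : Finset K) ⊆ T := by
        intro i hi
        simp only [Finset.mem_insert, Finset.mem_singleton] at hi
        rcases hi with rfl | rfl | rfl
        · exact (hmemT _).2 h1
        · exact (hmemT _).2 h2
        · exact (hmemT _).2 h
      have h5 := Finset.card_le_card h4
      rwa [Finset.card_eq_three.2 ⟨k, k', l', n1, n3, n5, rfl⟩] at h5
  exact three_four X hs hw hmemT (by omega)

include hp in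
/-- Supports of size at least five. -/
theorem large7 (X : Cx hQ M e c p) (hs : ∀ n : ℕ, 1 ≤ n → n ≤ 6 → (n : F) ≠ 0) {w : ι → F} (hw : UU Q M c w)
    {T : Finset K} (hmemT : ∀ j, j ∈ T ↔ co Q e c j w ≠ 0) (hT5 : 5 ≤ T.card) : omegaGL ⇑Q ≤ M := by
  classical
  have C := X.C
  have hfr := C.fr
  have hc := hfr.hc
  have h2 := hfr.h2
  have hc2 := hfr.c2
  have h3 : (3 : F) ≠ 0 := by simpa using hs 3 (by omega) (by omega)
  have h5 : (5 : F) ≠ 0 := by simpa using hs 5 (by omega) (by omega)
  have hpf := hpf_of X.hF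
  have hsum := sum_T C hw (fun j hj => (hmemT j).2 hj)
  by_contra hno
  have hsmall : ∀ S : Finset K, S ⊆ T → S.Nonempty → S.card ≤ 3 → ∑ i ∈ S, co Q e c i w ^ 2 ≠ 0 := by
    intro S hS hne h5' h0
    exact hno (zs7 hQ C X.hn X.h7 X.fr X.h13 hpf hw (fun j hj => (hmemT j).1 (hS hj)) hne h5' h0)
  have hpair : ∀ u ∈ T, ∀ v ∈ T, u ≠ v → co Q e c u w ^ 2 + co Q e c v w ^ 2 ≠ 0 := by
    intro u hu v hv huv h0
    refine hsmall {u, v} ?_ ⟨u, by simp⟩ (le_trans Finset.card_le_two (by omega)) ?_
    · intro i hi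
      simp only [Finset.mem_insert, Finset.mem_singleton] at hi
      rcases hi with rfl | rfl <;> assumption
    · rw [Finset.sum_pair huv]
      exact h0
  have htri : ∀ u ∈ T, ∀ v ∈ T, ∀ t ∈ T, u ≠ v → u ≠ t → v ≠ t → co Q e c u w ^ 2 + co Q e c v w ^ 2 + co Q e c t w ^ 2 ≠ 0 := by
    intro u hu v hv t ht huv hut hvt h0
    refine hsmall {u, v, t} ?_ ⟨u, by simp⟩ Finset.card_le_three ?_
    · intro i hi
      simp only [Finset.mem_insert, Finset.mem_singleton] at hi
      rcases hi with rfl | rfl | rfl <;> assumption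
    · rw [Finset.sum_insert (by simp [huv, hut]), Finset.sum_pair hvt]
      linear_combination h0
  by_cases hZ : ∃ S : Finset K, S ⊆ T ∧ S.Nonempty ∧ ∑ i ∈ S, co Q e c i w ^ 2 = 0
  · obtain ⟨S, hST, hne, hS0⟩ := hZ
    have hcardS : 4 ≤ S.card := by
      by_contra hlt
      exact hsmall S hST hne (by omega) hS0
    obtain ⟨k, hkS, hk⟩ : ∃ k, k ∉ S ∧ co Q e c k w ≠ 0 := by
      by_contra hcon
      push Not at hcon
      have h1 := Fr.sum_sq hfr hw.1
      rw [← Finset.sum_subset (Finset.subset_univ S) (fun j _ hj => by rw [hcon j hj]; ring), hS0] at h1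
      exact zero_ne_one h1
    have hR := MC.direct C (hQ := hQ) X.hn hpf hw hS0 hkS hk
    obtain ⟨z, hz⟩ : ∃ z, z = res Q e c S w := ⟨_, rfl⟩
    rw [← hz] at hR
    have hzco : ∀ j, co Q e c j z = if j ∈ S then co Q e c j w else 0 := by
      intro j
      rw [hz, Fr.co_res hfr]
    obtain ⟨a, b, d, ma, mb, md, n1, n2, n3⟩ := exists_three (show 3 ≤ S.card by omega)
    have hγ : co Q e c a w ^ 2 + co Q e c b w ^ 2 + co Q e c d w ^ 2 ≠ 0 := htri a (hST ma) b (hST mb) d (hST md) n1 n2 n3
    obtain ⟨l, hl0, hl1, hl2⟩ := exists_lambda h2 h3 h5 (neg_ne_zero.2 hγ)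
    have hzs : Q z = 0 := hR.sing
    have hpk : polar Q (e k) z = 0 := by
      rw [polar_comm, hfr.polar_e, hzco, if_neg hkS, mul_zero]
    have hU : UU Q M c (e k + l • z) := by
      have hR' := R_smul' hpf hR (-(l * (2 * c)⁻¹))
      obtain ⟨he', hy', hT'⟩ := hR'
      have h1 := C.U_conj hT' (C.U_e X.hn k)
      rw [sE_apply', hpk, zero_smul, add_zero, polar_smul_r, polar_self', hfr.he, mul_zero, add_zero] at h1
      convert h1 using 1
      rw [sub_eq_add_neg, ← neg_smul]
      congr 2
      field_simp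
    have hcow : ∀ j ∈ S, co Q e c j (e k + l • z) = l * co Q e c j w := by
      intro j hj
      rw [co_add, co_smul, hzco, if_pos hj, hfr.co_e_ne (by rintro rfl; exact hkS hj), zero_add]
    have hcok : co Q e c k (e k + l • z) = 1 := by
      rw [co_add, co_smul, hzco, if_neg hkS, mul_zero, add_zero, hfr.co_e_self]
    have nka : k ≠ a := by rintro rfl; exact hkS ma
    have nkb : k ≠ b := by rintro rfl; exact hkS mb
    have nkd : k ≠ d := by rintro rfl; exact hkS md
    obtain ⟨w₁, hw₁, hsup, h1, h2', h3'⟩ := stepA (hp := hp) C X.hn X.hF X.hodd h3 h5 hU nka nkb nkd n1 n2 n3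
      (by rw [hcok]; exact one_ne_zero)
      (by rw [hcow a ma]; exact mul_ne_zero hl0 ((hmemT a).1 (hST ma)))
      (by
        rw [hcow _ mb, hcow _ md]
        intro h0
        apply mul_ne_zero (pow_ne_zero 2 hl0) (hpair b (hST mb) d (hST md) n3)
        linear_combination h0)
      (by
        rw [hcok, hcow _ ma, hcow _ mb, hcow _ md]
        intro h0
        apply hl1
        linear_combination -h0)
      (by
        rw [hcok, hcow _ ma, hcow _ mb, hcow _ md]
        intro h0
        apply mul_ne_zero (pow_ne_zero 2 hl0) hγ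
        linear_combination h0)
      (by
        rw [hcok, hcow _ ma, hcow _ mb, hcow _ md]
        intro h0
        apply hl2
        linear_combination -h0)
    exact hno (finish7 X hs hw₁ nka nkb nkd n1 n2 n3 hsup h1 h2' h3')
  · push Not at hZ
    have hnz : ∀ S : Finset K, S ⊆ T → S.Nonempty → ∑ i ∈ S, co Q e c i w ^ 2 ≠ 0 := hZ
    by_cases h4 : ∃ a b d₁ d₂, a ∈ T ∧ b ∈ T ∧ d₁ ∈ T ∧ d₂ ∈ T ∧ a ≠ b ∧ a ≠ d₁ ∧ a ≠ d₂ ∧ b ≠ d₁ ∧ b ≠ d₂ ∧ d₁ ≠ d₂ ∧
        2 * (co Q e c a w ^ 2 + co Q e c b w ^ 2 + (co Q e c d₁ w ^ 2 + co Q e c d₂ w ^ 2)) ≠ 1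
    · obtain ⟨a, b, d₁, d₂, ma, mb, md₁, md₂, n1, n2, n3, n4, n5, n6, hhalf⟩ := h4
      have hsub : ({a, b, d₁, d₂} : Finset K) ⊆ T := by
        intro i hi
        simp only [Finset.mem_insert, Finset.mem_singleton] at hi
        rcases hi with rfl | rfl | rfl | rfl <;> assumption
      have hsumP : ∑ i ∈ ({a, b, d₁, d₂} : Finset K), co Q e c i w ^ 2 = co Q e c a w ^ 2 + co Q e c b w ^ 2 + (co Q e c d₁ w ^ 2 + co Q e c d₂ w ^ 2) := by
        rw [Finset.sum_insert (by simp [n1, n2, n3]), Finset.sum_insert (by simp [n4, n5]),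
          Finset.sum_insert (by simp [n6]), Finset.sum_singleton]
        ring
      have hβ0 : co Q e c a w ^ 2 + co Q e c b w ^ 2 + (co Q e c d₁ w ^ 2 + co Q e c d₂ w ^ 2) ≠ 0 := by
        rw [← hsumP]
        exact hnz _ hsub ⟨a, by simp⟩
      have hβ1 : co Q e c a w ^ 2 + co Q e c b w ^ 2 + (co Q e c d₁ w ^ 2 + co Q e c d₂ w ^ 2) ≠ 1 := by
        intro h1
        have hcomp : (T \ {a, b, d₁, d₂}).Nonempty := by
          rw [← Finset.card_pos, Finset.card_sdiff_of_subset hsub]
          have := Finset.card_le_four (a := a) (b := b) (c := d₁) (d := d₂)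
          omega
        refine hnz _ Finset.sdiff_subset hcomp ?_
        have := Finset.sum_sdiff (f := fun i => co Q e c i w ^ 2) hsub
        rw [hsumP, h1, hsum] at this
        linear_combination this
      have hB0 : co Q e c d₁ w ^ 2 + co Q e c d₂ w ^ 2 ≠ 0 := by
        have e9 := Finset.sum_pair (f := fun i => co Q e c i w ^ 2) n6
        rw [← e9]
        refine hnz _ ?_ ⟨d₁, by simp⟩
        intro i hi
        simp only [Finset.mem_insert, Finset.mem_singleton] at hi
        rcases hi with rfl | rfl <;> assumption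
      obtain ⟨w₁, hw₁, hsup, h1, h2', h3'⟩ := stepA (hp := hp) C X.hn X.hF X.hodd h3 h5 hw n1 n2 n3 n4 n5 n6
        ((hmemT a).1 ma) ((hmemT b).1 mb) hB0 hβ0 hβ1 hhalf
      exact hno (finish7 X hs hw₁ n1 n2 n3 n4 n5 n6 hsup h1 h2' h3')
    · push Not at h4
      have heq : ∀ a ∈ T, ∀ b ∈ T, co Q e c a w ^ 2 = co Q e c b w ^ 2 := by
        intro a ha b hb
        by_cases hab : a = b
        · rw [hab]
        have h6 : 3 ≤ ((T.erase a).erase b).card := by
          rw [Finset.card_erase_of_mem (Finset.mem_erase.2 ⟨Ne.symm hab, hb⟩), Finset.card_erase_of_mem ha]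
          omega
        obtain ⟨x, y, z, hx, hy, hz, nxy, nxz, nyz⟩ := exists_three h6
        simp only [Finset.mem_erase] at hx hy hz
        have e1 := h4 a x y z ha hx.2.2 hy.2.2 hz.2.2 (Ne.symm hx.2.1) (Ne.symm hy.2.1) (Ne.symm hz.2.1) nxy nxz nyz
        have e2 := h4 b x y z hb hx.2.2 hy.2.2 hz.2.2 (Ne.symm hx.1) (Ne.symm hy.1) (Ne.symm hz.1) nxy nxz nyz
        have e3 : 2 * (co Q e c a w ^ 2 - co Q e c b w ^ 2) = 0 := by linear_combination e1 - e2
        exact sub_eq_zero.1 ((mul_eq_zero.1 e3).resolve_left h2)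
      have h8 : ∀ a ∈ T, 8 * co Q e c a w ^ 2 = 1 := by
        intro a ha
        have h6 : 3 ≤ (T.erase a).card := by
          rw [Finset.card_erase_of_mem ha]
          omega
        obtain ⟨x, y, z, hx, hy, hz, nxy, nxz, nyz⟩ := exists_three h6
        simp only [Finset.mem_erase] at hx hy hz
        have e1 := h4 a x y z ha hx.2 hy.2 hz.2 (Ne.symm hx.1) (Ne.symm hy.1) (Ne.symm hz.1) nxy nxz nyz
        rw [← heq a ha x hx.2, ← heq a ha y hy.2, ← heq a ha z hz.2] at e1
        linear_combination e1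
      obtain ⟨a, b, d₁, d₂, ma, mb, md₁, md₂, n1, n2, n3, n4, n5, n6⟩ := exists_four (show 4 ≤ T.card by omega)
      have hs8 := h8 a ma
      obtain ⟨s, hsd⟩ : ∃ s, s = co Q e c a w ^ 2 := ⟨_, rfl⟩
      rw [← hsd] at hs8
      have hs0 : s ≠ 0 := by
        rintro rfl
        norm_num at hs8
      by_cases hz : ∃ z, z ∉ T
      · obtain ⟨z, hz⟩ := hz
        have hcoz : co Q e c z w = 0 := by
          by_contra h0
          exact hz ((hmemT z).2 h0)
        have n7 : a ≠ z := by rintro rfl; exact hz ma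
        have n8 : b ≠ z := by rintro rfl; exact hz mb
        have n9 : d₁ ≠ z := by rintro rfl; exact hz md₁
        have e1 : co Q e c b w ^ 2 = s := by rw [hsd]; exact heq b mb a ma
        have e2 : co Q e c d₁ w ^ 2 = s := by rw [hsd]; exact heq d₁ md₁ a ma
        have e3 : co Q e c z w ^ 2 = 0 := by rw [hcoz]; ring
        obtain ⟨w₁, hw₁, hsup, h1, h2', h3'⟩ := stepA (hp := hp) C X.hn X.hF X.hodd h3 h5 hw n1 n2 n7 n4 n8 n9
          ((hmemT a).1 ma) ((hmemT b).1 mb)
          (by rw [e2, e3, add_zero]; exact hs0)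
          (by
            rw [← hsd, e1, e2, e3]
            intro h0
            apply h3
            linear_combination 8 * h0 - 3 * hs8)
          (by
            rw [← hsd, e1, e2, e3]
            intro h0
            apply h5
            linear_combination -8 * h0 + 3 * hs8)
          (by
            rw [← hsd, e1, e2, e3]
            intro h0
            apply one_ne_zero (α := F)
            linear_combination -4 * h0 + 3 * hs8)
        exact hno (finish7 X hs hw₁ n1 n2 n7 n4 n8 n9 hsup h1 h2' h3')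
      · push Not at hz
        have hTu : T = Finset.univ := Finset.eq_univ_iff_forall.2 hz
        have hcard : T.card = Fintype.card K := by rw [hTu, Finset.card_univ]
        have hall : ∀ i ∈ T, co Q e c i w ^ 2 = s := fun i hi => by rw [hsd]; exact heq i hi a ma
        have h9 : ((T.card : ℕ) : F) * s = 1 := by
          rw [← hsum, Finset.sum_congr rfl hall, Finset.sum_const, nsmul_eq_mul]
        have hcK := X.h13
        by_cases hlt : T.card < 8
        · have hT7 : T.card = 7 := by omega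
          rw [hT7] at h9
          exfalso
          apply hs0
          push_cast at h9
          linear_combination hs8 - h9
        obtain ⟨rr, hrr⟩ := X.hn
        have h10 : ((T.card - 8 : ℕ) : F) = 0 := by
          rw [Nat.cast_sub (by omega)]
          apply mul_right_cancel₀ hs0
          push_cast
          linear_combination h9 - hs8
        have hdvd : p ∣ T.card - 8 := (CharP.cast_eq_zero_iff F p _).1 h10
        have hple : p ≤ T.card - 8 := Nat.le_of_dvd (by omega) hdvd
        obtain ⟨S, hS, hSc⟩ := Finset.exists_subset_card_eq (show p ≤ T.card by omega)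
        refine hnz S hS (Finset.card_pos.1 (by rw [hSc]; exact hp.out.pos)) ?_
        rw [Finset.sum_congr rfl (fun i hi => hall i (hS hi)), Finset.sum_const, hSc, nsmul_eq_mul, CharP.cast_eq_zero F p, zero_mul]


include hp in
/-- The field of three elements. -/
theorem p_three7 (X : Cx hQ M e c p) (h3p : p = 3) {w : ι → F} (hw : UU Q M c w) (hAx : ¬ Ax Q e c w)
    {T : Finset K} (hmemT : ∀ j, j ∈ T ↔ co Q e c j w ≠ 0) : omegaGL ⇑Q ≤ M := by
  classical
  subst h3p
  have C := X.C
  have hF := X.hF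
  have hfr := C.fr
  have h2 := hfr.h2
  have hpf := hpf_of hF
  have h30 : (3 : F) = 0 := by exact_mod_cast CharP.cast_eq_zero F 3
  have hsq : ∀ i ∈ T, co Q e c i w ^ 2 = 1 := by
    intro i hi
    have := FiniteField.pow_card_sub_one_eq_one _ ((hmemT i).1 hi)
    rwa [hF] at this
  have hsum : ∑ i ∈ T, co Q e c i w ^ 2 = 1 := by
    have h4 := Fr.sum_sq hfr hw.1
    rwa [← Finset.sum_subset (Finset.subset_univ T) (fun j _ hj => by
      have : co Q e c j w = 0 := by
        by_contra h0
        exact hj ((hmemT j).2 h0)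
      rw [this]; ring)] at h4
  by_cases h : 3 ≤ T.card
  · obtain ⟨S, hS, hSc⟩ := Finset.exists_subset_card_eq h
    refine zs7 hQ C X.hn X.h7 X.fr X.h13 hpf hw (fun j hj => (hmemT j).1 (hS hj)) (Finset.card_pos.1 (by omega)) (by omega) ?_
    rw [Finset.sum_congr rfl (fun i hi => hsq i (hS hi)), Finset.sum_const, hSc, nsmul_eq_mul, mul_one]
    exact_mod_cast h30
  · rw [Finset.sum_congr rfl hsq, Finset.sum_const, nsmul_eq_mul, mul_one] at hsum
    have hcases : T.card = 0 ∨ T.card = 1 ∨ T.card = 2 := by omega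
    rcases hcases with h1 | h1 | h1
    · rw [h1] at hsum
      simp at hsum
    · obtain ⟨i, rfl⟩ := Finset.card_eq_one.1 h1
      exfalso
      refine hAx ⟨i, fun j hj => ?_⟩
      by_contra h0
      have := (hmemT j).2 h0
      simp at this
      exact hj this
    · rw [h1] at hsum
      exfalso
      apply one_ne_zero (α := F)
      have : (2 : F) = 1 := by exact_mod_cast hsum
      linear_combination this

include hp in
/-- The field of five elements. -/
theorem p_five7 (X : Cx hQ M e c p) (h5p : p = 5) {w : ι → F} (hw : UU Q M c w) (hAx : ¬ Ax Q e c w)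
    {T : Finset K} (hmemT : ∀ j, j ∈ T ↔ co Q e c j w ≠ 0) : omegaGL ⇑Q ≤ M := by
  classical
  subst h5p
  have C := X.C
  have hF := X.hF
  have hn := X.hn
  have hfr := C.fr
  have h2 := hfr.h2
  have hc := hfr.hc
  have hpf := hpf_of hF
  have h50 : (5 : F) = 0 := by exact_mod_cast CharP.cast_eq_zero F 5
  have h3 : (3 : F) ≠ 0 := by
    intro h30
    apply h2
    linear_combination h50 - h30
  have hsq : ∀ i ∈ T, co Q e c i w ^ 2 = 1 ∨ co Q e c i w ^ 2 = -1 := by
    intro i hi
    have := FiniteField.pow_card_sub_one_eq_one _ ((hmemT i).1 hi)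
    rw [hF] at this
    have h4 : (co Q e c i w ^ 2) ^ 2 = 1 := by
      rw [← this]
      ring
    exact sq_eq_one_iff_of_ne_zero_aux h4
  have hsum := sum_T C hw (fun j hj => (hmemT j).2 hj)
  by_cases hmix : ∃ a ∈ T, ∃ b ∈ T, co Q e c a w ^ 2 = 1 ∧ co Q e c b w ^ 2 = -1
  · obtain ⟨a, ha, b, hb, h1, h4⟩ := hmix
    have hab : a ≠ b := by
      rintro rfl
      rw [h1] at h4
      apply h2
      linear_combination h4
    refine zs7 hQ C hn X.h7 X.fr X.h13 hpf hw (S := {a, b}) (fun j hj => ?_) ⟨a, by simp⟩ (le_trans Finset.card_le_two (by omega)) ?_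
    · simp only [Finset.mem_insert, Finset.mem_singleton] at hj
      rcases hj with rfl | rfl
      · exact (hmemT _).1 ha
      · exact (hmemT _).1 hb
    · rw [Finset.sum_pair hab, h1, h4]
      ring
  · push Not at hmix
    by_cases hall : ∀ j ∈ T, co Q e c j w ^ 2 = 1
    · by_cases h : 5 ≤ T.card
      · obtain ⟨a, b, d, f, ma, mb, md, mf, n1, n2, n3, n4, n5, n6⟩ := exists_four (show 4 ≤ T.card by omega)
        have ya := hall a ma
        have yb := hall b mb
        have yd := hall d md
        have yf := hall f mf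
        obtain ⟨w₁, hw₁, hsup, c1, c2, c3, c4⟩ := stepA0 (hp := hp) C hn hF X.hodd hw n1 n2 n3 n4 n5 n6 (η := 2) (ζ := 0)
          (by
            rw [ya, yb, yd, yf]
            intro h0
            apply h2
            exact mul_self_eq_zero.1 (by linear_combination h0))
          (by
            rw [ya, yb, yd, yf]
            intro h0
            apply h3
            linear_combination h0)
          (by
            rw [ya, yb, yd, yf]
            intro h0
            apply h2
            linear_combination h0 - h50)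
          (by
            rw [ya, yb, yd, yf]
            linear_combination 3 * h50)
        have e4 : ∀ x y : F, x ^ 2 = 1 → 4 * (2 * x - 0 * y) ^ 2 = 1 := by
          intro x y hx
          linear_combination 16 * hx + 3 * h50
        have e5 : ∀ x y : F, x ^ 2 = 1 → 4 * (2 * x + 0 * y) ^ 2 = 1 := by
          intro x y hx
          linear_combination 16 * hx + 3 * h50
        refine etype X h3 hw₁ n1 n2 n3 n4 n5 n6 hsup ?_ ?_ ?_ ?_
        · rw [c1]
          exact e4 _ _ ya
        · rw [c2]
          exact e5 _ _ yb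
        · rw [c3]
          exact e4 _ _ yd
        · rw [c4]
          exact e5 _ _ yf
      · rw [Finset.sum_congr rfl hall, Finset.sum_const, nsmul_eq_mul, mul_one] at hsum
        have hcases : T.card = 0 ∨ T.card = 1 ∨ T.card = 2 ∨ T.card = 3 ∨ T.card = 4 := by omega
        exfalso
        rcases hcases with h1 | h1 | h1 | h1 | h1
        · rw [h1] at hsum
          simp at hsum
        · obtain ⟨i, rfl⟩ := Finset.card_eq_one.1 h1
          refine hAx ⟨i, fun j hj => ?_⟩
          by_contra h0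
          have := (hmemT j).2 h0
          simp at this
          exact hj this
        · rw [h1] at hsum
          apply one_ne_zero (α := F)
          have : (2 : F) = 1 := by exact_mod_cast hsum
          linear_combination this
        · rw [h1] at hsum
          apply h2
          have : (3 : F) = 1 := by exact_mod_cast hsum
          linear_combination this
        · rw [h1] at hsum
          apply h3
          have : (4 : F) = 1 := by exact_mod_cast hsum
          linear_combination this
    · push Not at hall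
      obtain ⟨b, hb, hb1⟩ := hall
      have hb2 := (hsq b hb).resolve_left hb1
      have hallm : ∀ j ∈ T, co Q e c j w ^ 2 = -1 := by
        intro j hj
        rcases hsq j hj with h1 | h1
        · exact absurd hb2 (hmix j hj b hb h1)
        · exact h1
      by_cases h : 5 ≤ T.card
      · -- sign changes on four coordinates
        obtain ⟨S, hS, hSc⟩ := Finset.exists_subset_card_eq (show 4 ≤ T.card by omega)
        obtain ⟨t, ht, htS⟩ := Finset.exists_mem_notMem_of_card_lt_card (show S.card < T.card by omega)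
        obtain ⟨a, ha⟩ : S.Nonempty := Finset.card_pos.1 (by omega)
        have hat : a ≠ t := by
          rintro rfl
          exact htS ha
        have hU' := C.U_flipS hn S hw
        obtain ⟨w', hw'⟩ : ∃ w', w' = w - (2 : F) • ∑ i ∈ S, co Q e c i w • e i := ⟨_, rfl⟩
        rw [← hw'] at hU'
        have hres : ∑ i ∈ S, co Q e c i w • e i = res Q e c S w := rfl
        rw [hres] at hw'
        have hcow' : ∀ j, co Q e c j w' = if j ∈ S then - co Q e c j w else co Q e c j w := by
          intro j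
          rw [hw', co_sub, co_smul, Fr.co_res hfr]
          by_cases hj : j ∈ S
          · rw [if_pos hj, if_pos hj]
            ring
          · rw [if_neg hj, if_neg hj]
            ring
        have hSy : ∑ i ∈ S, co Q e c i w ^ 2 = -4 := by
          rw [Finset.sum_congr rfl (fun i hi => hallm i (hS hi)), Finset.sum_const, hSc]
          simp
        obtain ⟨-, g₀, hg₀, hg₀x⟩ := id hw
        have hU := C.U_conj hg₀ hU'
        rw [hg₀x] at hU
        have hpol : c⁻¹ * polar Q w' w = 18 := by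
          rw [hw', polar_sub_left, polar_smul_l, polar_comm Q (res Q e c S w) w, Fr.polar_res hfr, hSy, polar_self', hw.1]
          field_simp
          ring
        rw [hpol] at hU
        obtain ⟨u, hu⟩ : ∃ u, u = (18 : F) • w - w' := ⟨_, rfl⟩
        rw [← hu] at hU
        have cua : co Q e c a u = 19 * co Q e c a w := by
          rw [hu, co_sub, co_smul, hcow', if_pos ha]
          ring
        have cut : co Q e c t u = 17 * co Q e c t w := by
          rw [hu, co_sub, co_smul, hcow', if_neg htS]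
          ring
        have h19 : (19 : F) ≠ 0 := by
          intro h0
          apply one_ne_zero (α := F)
          linear_combination 4 * h50 - h0
        have h17 : (17 : F) ≠ 0 := by
          intro h0
          apply h2
          linear_combination h0 - 3 * h50
        refine zs7 hQ C hn X.h7 X.fr X.h13 hpf hU (S := {a, t}) (fun j hj => ?_) ⟨a, by simp⟩ (le_trans Finset.card_le_two (by omega)) ?_
        · simp only [Finset.mem_insert, Finset.mem_singleton] at hj
          rcases hj with rfl | rfl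
          · rw [cua]
            exact mul_ne_zero h19 ((hmemT _).1 (hS ha))
          · rw [cut]
            exact mul_ne_zero h17 ((hmemT _).1 ht)
        · rw [Finset.sum_pair hat, cua, cut]
          have y1 := hallm a (hS ha)
          have y2 := hallm t ht
          linear_combination 361 * y1 + 289 * y2 - 130 * h50
      · rw [Finset.sum_congr rfl hallm, Finset.sum_const, nsmul_eq_mul] at hsum
        have hcases : T.card = 0 ∨ T.card = 1 ∨ T.card = 2 ∨ T.card = 3 ∨ T.card = 4 := by omega
        rcases hcases with h1 | h1 | h1 | h1 | h1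
        · rw [h1] at hsum
          simp at hsum
        · rw [h1] at hsum
          exfalso
          apply h2
          have : (1 : F) * (-1) = 1 := by exact_mod_cast hsum
          linear_combination -this
        · rw [h1] at hsum
          exfalso
          apply h3
          have : (2 : F) * (-1) = 1 := by exact_mod_cast hsum
          linear_combination -this
        · rw [h1] at hsum
          exfalso
          have : (3 : F) * (-1) = 1 := by exact_mod_cast hsum
          have h4 : (2 : F) * 2 = 0 := by linear_combination -this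
          exact h2 (mul_self_eq_zero.1 h4)
        · obtain ⟨a, b, d, f, ma, mb, md, mf, n1, n2, n3, n4, n5, n6⟩ := exists_four (show 4 ≤ T.card by omega)
          have hTe : ({a, b, d, f} : Finset K) = T := by
            apply Finset.eq_of_subset_of_card_le
            · intro i hi
              simp only [Finset.mem_insert, Finset.mem_singleton] at hi
              rcases hi with rfl | rfl | rfl | rfl <;> assumption
            · rw [h1, Finset.card_insert_of_notMem (by simp [n1, n2, n3]), Finset.card_insert_of_notMem (by simp [n4, n5]),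
                Finset.card_insert_of_notMem (by simp [n6]), Finset.card_singleton]
          have hsup : ∀ j, co Q e c j w ≠ 0 → j = a ∨ j = b ∨ j = d ∨ j = f := by
            intro j hj
            have := (hmemT j).2 hj
            rw [← hTe] at this
            simpa using this
          have y4 : ∀ j ∈ T, 4 * co Q e c j w ^ 2 = 1 := by
            intro j hj
            rw [hallm j hj]
            linear_combination -h50
          exact etype X h3 hw n1 n2 n3 n4 n5 n6 hsup (y4 a ma) (y4 b mb) (y4 d md) (y4 f mf)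

include hp in
/-- The main theorem in dimension at least seven. -/
theorem main7 (X : Cx hQ M e c p) {w : ι → F} (hw : UU Q M c w) (hAx : ¬ Ax Q e c w) (hBad : ¬ Bad Q e c w) :
    omegaGL ⇑Q ≤ M := by
  classical
  obtain ⟨T, hT⟩ : ∃ T : Finset K, T = Finset.univ.filter (fun j => co Q e c j w ≠ 0) := ⟨_, rfl⟩
  have hmemT : ∀ j, j ∈ T ↔ co Q e c j w ≠ 0 := by
    intro j
    rw [hT]
    simp
  have hprime := hp.out
  have hodd := X.hodd
  have hcases : p = 3 ∨ p = 5 ∨ 7 ≤ p := by
    have h2 := hprime.two_le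
    obtain ⟨r, hr⟩ := hodd
    have h4 : p ≠ 2 := by omega
    have h6 : p ≠ 4 := by omega
    have h8 : p ≠ 6 := by omega
    omega
  rcases hcases with h | h | h
  · exact p_three7 X h hw hAx hmemT
  · exact p_five7 X h hw hAx hmemT
  · have hs : ∀ n : ℕ, 1 ≤ n → n ≤ 6 → (n : F) ≠ 0 := by
      intro n h1 h6 h0
      have := Nat.le_of_dvd (by omega) ((CharP.cast_eq_zero_iff F p n).1 h0)
      omega
    have C := X.C
    have hfr := C.fr
    have h2 := hfr.h2
    have h3 : (3 : F) ≠ 0 := by simpa using hs 3 (by omega) (by omega)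
    have h5 : (5 : F) ≠ 0 := by simpa using hs 5 (by omega) (by omega)
    have hsum := sum_T C hw (fun j hj => (hmemT j).2 hj)
    by_cases h5' : 5 ≤ T.card
    · exact large7 X hs hw hmemT h5'
    have hcases : T.card = 0 ∨ T.card = 1 ∨ T.card = 2 ∨ T.card = 3 ∨ T.card = 4 := by omega
    rcases hcases with h1 | h1 | h1 | h1 | h1
    · rw [Finset.card_eq_zero] at h1
      rw [h1] at hsum
      simp at hsum
    · exfalso
      obtain ⟨i, rfl⟩ := Finset.card_eq_one.1 h1
      refine hAx ⟨i, fun j hj => ?_⟩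
      by_contra h0
      have := (hmemT j).2 h0
      simp at this
      exact hj this
    · obtain ⟨a, b, hab, rfl⟩ := Finset.card_eq_two.1 h1
      have ha : co Q e c a w ≠ 0 := (hmemT a).1 (by simp)
      have hb : co Q e c b w ≠ 0 := (hmemT b).1 (by simp)
      rw [Finset.sum_pair hab] at hsum
      have hs2 : 2 * co Q e c a w ^ 2 ≠ 1 := by
        intro h0
        refine hBad ⟨a, b, hab, fun j j1 j2 => ?_, h0, ?_⟩
        · by_contra h4
          have := (hmemT j).2 h4
          simp only [Finset.mem_insert, Finset.mem_singleton] at this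
          rcases this with h6 | h6
          · exact j1 h6
          · exact j2 h6
        · linear_combination 2 * hsum - h0
      refine two_finish X h3 h5 hw (T := {a, b}) (fun j hj => (hmemT j).2 hj) (by rw [h1]) ha ?_ hs2
      intro h0
      apply pow_ne_zero 2 hb
      linear_combination hsum - h0
    · exact three_four X hs hw hmemT (Or.inl h1)
    · exact three_four X hs hw hmemT (Or.inr h1)

end main

section frame

open Cfsg.Agent.Lib.OrthMatrix Cfsg.Agent.Lib.SpinorCrit
open Cfsg.Agent.Lib.QuadFF (nondegenerate_of_ND)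

variable {t : ℕ} {D : Fin t → Submodule F (ι → F)}

/-- A product of reflections with the spinor condition lies in `omegaGL`. -/
theorem mem_list7 (hQ' : Nondeg Q) (h7 : 7 ≤ Fintype.card ι) (L : List (ι → F)) (hL : ∀ v ∈ L, Q v ≠ 0)
    (he : Even L.length) (hs : IsSquare (L.map Q).prod) {g : GL ι F} (hg : ∀ x, g ⋆ x = prodR Q L x) :
    g ∈ omegaGL ⇑Q := by
  have hB : (B Q).Nondegenerate := nondegenerate_of_ND (nd_of hQ')
  have hiso : g ∈ isometryGroup F ⇑Q := by
    rw [mem_isometryGroup]
    intro v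
    rw [hg]
    exact (prodO Q L).2 v
  refine ⟨⟨g, hiso⟩, ?_, rfl⟩
  rw [SetLike.mem_coe]
  show (⟨g, hiso⟩ : ↥(isometryGroup F ⇑Q)) ∈ Omega F ⇑Q
  rw [mem_Omega_iff]
  have h1 : toO Q ⟨g, hiso⟩ = prodO Q L := by
    apply Subtype.ext
    ext1 x
    rw [toO_apply]
    exact hg x
  rw [h1, mem_Omega_prodO_iff Q hB (Or.inr (by simp; omega)) L hL]
  exact ⟨he, hs⟩

theorem mc_of7 (hQ : Nondeg Q) (h7 : 7 ≤ Fintype.card ι) (hD : IsOrthogonalMDecomposition ⇑Q 1 D) {e : Fin t → ι → F} {c : F}
    (hfr : Fr Q e c) (hmem : ∀ i, e i ∈ D i) (hgen : ∀ i x, x ∈ D i → ∃ a : F, x = a • e i)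
    (hHM : decompositionStabilizer D ⊓ omegaGL ⇑Q ≤ M) (hMK : M ≤ omegaGL ⇑Q) : MC Q M e c := by
  refine ⟨hfr, hMK, fun L π ε hL hev hsq hact => ?_⟩
  obtain ⟨g, hg⟩ := exists_gl_prodR (Q := Q) L
  refine ⟨g, hHM ⟨?_, mem_list7 hQ h7 L hL hev hsq hg⟩, hg⟩
  refine Cfsg.Agent.Lib.SympDecomp.decomp_of_maps (k := 1) hD.decomp.decomp.finrank_eq g π (fun i x hx => ?_)
  obtain ⟨a, rfl⟩ := hgen i x hx
  rw [Matrix.mulVec_smul, hg, hact]
  exact (D (π i)).smul_mem _ ((D (π i)).smul_mem _ (hmem _))

/-- The stabiliser is a proper subgroup. -/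
theorem stab_lt7 (hQ : Nondeg Q) (h7 : 7 ≤ Fintype.card ι) (fr : Nonempty (Frame Q)) (hD : IsOrthogonalMDecomposition ⇑Q 1 D) {e : Fin t → ι → F} {c : F}
    (hfr : Fr Q e c) (hmem : ∀ i, e i ∈ D i) (hgen : ∀ i x, x ∈ D i → ∃ a : F, x = a • e i) (h4 : 4 ≤ t) :
    decompositionStabilizer D ⊓ omegaGL ⇑Q < omegaGL ⇑Q := by
  refine lt_of_le_of_ne inf_le_right (fun heq => ?_)
  have hc := hfr.hc
  have h2 := hfr.h2
  have hc2 := hfr.c2
  obtain ⟨a, b, d, f, -, -, -, -, n1, n2, n3, n4, n5, n6⟩ := exists_four (S := (Finset.univ : Finset (Fin t))) (by simpa using h4)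
  obtain ⟨x, y, hxy⟩ := exists_diag h2 (one_ne_zero (α := F)) (one_ne_zero (α := F)) (-1)
  obtain ⟨z, hz⟩ : ∃ z, z = x • e a + y • e b + e d := ⟨_, rfl⟩
  have hcoz : ∀ j, co Q e c j z = x * (if a = j then 1 else 0) + y * (if b = j then 1 else 0) + (if d = j then 1 else 0) := by
    intro j
    rw [hz, co_add, co_add, co_smul, co_smul, hfr.co_e, hfr.co_e, hfr.co_e]
  have hQz : Q z = 0 := by
    rw [hz, Cfsg.Agent.Lib.OrthoBasic.Q_add, Cfsg.Agent.Lib.OrthoBasic.Q_add, Cfsg.Agent.Lib.OrthoBasic.Q_smul, Cfsg.Agent.Lib.OrthoBasic.Q_smul,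
      hfr.he, hfr.he, hfr.he]
    simp only [polar_add_left, polar_smul_l, polar_smul_r, hfr.ho a b n1, hfr.ho a d n2, hfr.ho b d n4]
    linear_combination c * hxy
  have hzf : polar Q z (e f) = 0 := by
    rw [hfr.polar_e, hcoz, if_neg n3, if_neg n5, if_neg n6]
    ring
  obtain ⟨fr₀⟩ := fr
  have hO := Cfsg.Agent.Lib.OmTwoCore.sE_mem_omega hQ (by omega) fr₀ hQz hzf
  have hmem' : sE hQ hQz hzf ∈ decompositionStabilizer D ⊓ omegaGL ⇑Q := by
    rw [heq]
    exact hO
  obtain ⟨σ, hσ⟩ := hmem'.1
  have h1 : sE hQ hQz hzf ⋆ e d ∈ D (σ d) := by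
    rw [← hσ d]
    exact ⟨e d, hmem d, rfl⟩
  obtain ⟨u, hu⟩ := hgen _ _ h1
  have hzd : polar Q (e d) z = 2 * c := by
    rw [polar_comm, hfr.polar_e, hcoz, if_neg n2, if_neg n4, if_pos rfl]
    ring
  rw [sE_apply', hzd, hfr.ho d f n6, hfr.he] at hu
  have hcof : co Q e c f (e d + (2 * c) • e f - (0 + c * (2 * c)) • z) = 2 * c := by
    rw [co_sub, co_add, co_smul, co_smul, hfr.co_e, hfr.co_e, hcoz]
    simp only [n1, n2, n3, n4, n5, n6, n1.symm, n2.symm, n3.symm, n4.symm, n5.symm, n6.symm, if_true, if_false, eq_self_iff_true]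
    ring
  have hσf : σ d = f := by
    by_contra hne
    have h3 := congrArg (co Q e c f) hu
    rw [hcof, co_smul, hfr.co_e, if_neg hne, mul_zero] at h3
    exact hc2 h3
  have hcoa : co Q e c a (e d + (2 * c) • e f - (0 + c * (2 * c)) • z) = - (2 * c ^ 2 * x) := by
    rw [co_sub, co_add, co_smul, co_smul, hfr.co_e, hfr.co_e, hcoz]
    simp only [n1, n2, n3, n4, n5, n6, n1.symm, n2.symm, n3.symm, n4.symm, n5.symm, n6.symm, if_true, if_false, eq_self_iff_true]
    ring
  have hcob : co Q e c b (e d + (2 * c) • e f - (0 + c * (2 * c)) • z) = - (2 * c ^ 2 * y) := by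
    rw [co_sub, co_add, co_smul, co_smul, hfr.co_e, hfr.co_e, hcoz]
    simp only [n1, n2, n3, n4, n5, n6, n1.symm, n2.symm, n3.symm, n4.symm, n5.symm, n6.symm, if_true, if_false, eq_self_iff_true]
    ring
  have ha := congrArg (co Q e c a) hu
  have hb := congrArg (co Q e c b) hu
  rw [hσf, hcoa, co_smul, hfr.co_e, if_neg n3.symm, mul_zero, neg_eq_zero] at ha
  rw [hσf, hcob, co_smul, hfr.co_e, if_neg n5.symm, mul_zero, neg_eq_zero] at hb
  have hcc : 2 * c ^ 2 ≠ 0 := mul_ne_zero h2 (pow_ne_zero 2 hc)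
  have hx0 : x = 0 := (mul_eq_zero.1 ha).resolve_left hcc
  have hy0 : y = 0 := (mul_eq_zero.1 hb).resolve_left hcc
  rw [hx0, hy0] at hxy
  apply one_ne_zero (α := F)
  linear_combination hxy

/-- The maximality theorem in dimension at least seven. -/
theorem frame_maximal7 {p : ℕ} [hp : Fact p.Prime] [CharP F p] (hQ : Nondeg Q) (h7 : 7 ≤ Fintype.card ι) (fr : Nonempty (Frame Q))
    (ht13 : 7 ≤ t) (htodd : Odd t)
    (hF : Fintype.card F = p) (hodd : Odd p) (h2 : (2 : F) ≠ 0) (hD : IsOrthogonalMDecomposition ⇑Q 1 D) :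
    IsMaximalIn (omegaGL ⇑Q) (decompositionStabilizer D ⊓ omegaGL ⇑Q) := by
  classical
  obtain ⟨e, c, hfr, hmem, hgen⟩ := frame_exists hQ h2 hD
  refine ⟨stab_lt7 hQ h7 fr hD hfr hmem hgen (by omega), fun M hHM hMK => ?_⟩
  by_cases hMH : M = decompositionStabilizer D ⊓ omegaGL ⇑Q
  · exact Or.inl hMH
  right
  refine le_antisymm hMK ?_
  have C : MC Q M e c := mc_of7 hQ h7 hD hfr hmem hgen hHM hMK
  have hn : Odd (Fintype.card (Fin t)) := by simpa using htodd
  have h13 : 7 ≤ Fintype.card (Fin t) := by simpa using ht13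
  have X : Cx hQ M e c p := ⟨C, hn, h7, fr, h13, hF, hodd⟩
  obtain ⟨g, hg, hgH⟩ : ∃ g ∈ M, g ∉ decompositionStabilizer D ⊓ omegaGL ⇑Q := by
    by_contra hcon
    push Not at hcon
    exact hMH (le_antisymm hcon hHM)
  have hgS : g ∉ decompositionStabilizer D := fun h => hgH ⟨h, hMK hg⟩
  obtain ⟨k, hk⟩ : ∃ k, ¬ Ax Q e c (g ⋆ e k) := by
    by_contra hcon
    push Not at hcon
    exact hgS (stab_of_axes hD hfr hmem hgen (C.iso hg) hcon)
  by_cases hw : ∃ w, UU Q M c w ∧ ¬ Ax Q e c w ∧ ¬ Bad Q e c w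
  · obtain ⟨w, hw1, hw2, hw3⟩ := hw
    exact main7 X hw1 hw2 hw3
  · push Not at hw
    exfalso
    refine stepG C hn (by omega) hg hk (fun w hU => ?_)
    by_cases hax : Ax Q e c w
    · exact Or.inl hax
    · exact Or.inr (hw w hU hax)

end frame

end Cfsg.Agent.Lib.Fr7C
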