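import Mathlib
import Cfsg.Prelude.Def_Solvable
import Cfsg.Agent.Lib.FrobCompl
import Cfsg.Agent.Lib.FrobeniusThm
import Cfsg.Agent.S0059

/-!
# Frobenius complements act fixed-point-freely on an abelian group; no Frobenius group does;
conjugacy of Frobenius complements.
-/

set_option autoImplicit false

namespace Cfsg.Agent.Lib.FrobConj

open Cfsg Cfsg.Agent.Lib.FpfNorm Cfsg.Agent.Lib.FrobCompl Cfsg.Agent.Lib.Frobenius
open Finset
open scoped Pointwise

universe u v

section NoFrobenius

variable {A : Type u} [Group A] [Finite A]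

theorem conj_smul_ne_bot {D : Subgroup A} (hD : D ≠ ⊥) (g : A) : MulAut.conj g • D ≠ ⊥ := by
  intro h
  apply hD
  rw [eq_bot_iff]
  intro d hd
  have h1 : g * d * g⁻¹ ∈ MulAut.conj g • D := by
    rw [mem_conj_iff]
    simpa [mul_assoc] using hd
  rw [h, Subgroup.mem_bot] at h1
  have h2 : d = g⁻¹ * (g * d * g⁻¹) * g := by group
  rw [h2, h1]
  simp

/-- A group acting fixed-point-freely on a nontrivial abelian group contains no Frobenius
complement. -/
theorem not_isFrobeniusComplement_of_fpf {V : Type v} [CommGroup V] [Finite V] [Nontrivial V]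
    {φ : A →* MulAut V} (h : IsFpf φ) (D : Subgroup A) (hD : IsFrobeniusComplement D) : False := by
  classical
  letI := Fintype.ofFinite A
  letI := Fintype.ofFinite (Subgroup A)
  obtain ⟨N, hNset, hNn, hNc⟩ := Cfsg.Agent.Lib.FrobeniusThm.exists_kernel_subgroup hD
  have hNmem : ∀ x, x ∈ N ↔ x ∈ frobeniusKernel D := fun x => by
    rw [← SetLike.mem_coe, hNset]
  have hDne := hD.1
  have hDtop := hD.2.1
  have hNne : N ≠ ⊥ := by
    rintro rfl
    apply hDtop
    have h1 := hNc.sup_eq_top
    rwa [bot_sup_eq] at h1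
  -- the partition
  set C : Finset (Subgroup A) := univ.image (fun g : A => MulAut.conj g • D) with hC
  set Pt : Finset (Subgroup A) := insert N C with hPt
  have hCmem : ∀ S, S ∈ C ↔ ∃ g : A, MulAut.conj g • D = S := by
    intro S
    simp [hC]
  have hNC : N ∉ C := by
    rw [hCmem]
    rintro ⟨g, hg⟩
    obtain ⟨d, hd, hd1⟩ := (Subgroup.bot_or_exists_ne_one D).resolve_left hDne
    have h1 : g * d * g⁻¹ ∈ MulAut.conj g • D := by
      rw [mem_conj_iff]
      simpa [mul_assoc] using hd
    have h2 : g * d * g⁻¹ ∈ N := hg ▸ h1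
    rw [hNmem, mem_kernel_iff] at h2
    rcases h2 with h2 | h2
    · apply hd1
      have h3 : d = g⁻¹ * (g * d * g⁻¹) * g := by group
      rw [h3, h2]
      simp
    · apply h2 g
      simpa [mul_assoc] using hd
  have hpart : ∀ a : A, a ≠ 1 → ∃ S ∈ Pt, a ∈ S ∧ ∀ T ∈ Pt, a ∈ T → T = S := by
    intro a ha
    by_cases haN : a ∈ N
    · refine ⟨N, mem_insert_self _ _, haN, ?_⟩
      intro T hT haT
      rw [hPt, mem_insert] at hT
      rcases hT with rfl | hT
      · rfl
      · exfalso
        obtain ⟨g, rfl⟩ := (hCmem T).mp hT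
        rw [hNmem, mem_kernel_iff] at haN
        rcases haN with h1 | h1
        · exact ha h1
        · exact h1 g (mem_conj_iff.mp haT)
    · have h1 : a ∉ frobeniusKernel D := fun h' => haN ((hNmem a).mpr h')
      obtain ⟨-, g, hg⟩ := not_mem_kernel_iff.mp h1
      refine ⟨MulAut.conj g • D, mem_insert_of_mem ((hCmem _).mpr ⟨g, rfl⟩), mem_conj_iff.mpr hg, ?_⟩
      intro T hT haT
      rw [hPt, mem_insert] at hT
      rcases hT with rfl | hT
      · exact absurd haT haN
      · obtain ⟨g', rfl⟩ := (hCmem T).mp hT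
        have hg' := mem_conj_iff.mp haT
        have hu1 : g⁻¹ * a * g ≠ 1 := by
          intro h2
          apply ha
          have h3 : a = g * (g⁻¹ * a * g) * g⁻¹ := by group
          rw [h3, h2]
          simp
        have hw : (g⁻¹ * g') ∈ D := by
          apply mem_of_conj_mem hD hg hu1
          have h4 : (g⁻¹ * g')⁻¹ * (g⁻¹ * a * g) * (g⁻¹ * g') = g'⁻¹ * a * g' := by group
          rw [h4]
          exact hg'
        have hg'eq : g' = g * (g⁻¹ * g') := by group
        rw [hg'eq, map_mul, mul_smul]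
        congr 1
        ext x
        rw [mem_conj_iff]
        constructor
        · intro hx
          have := D.mul_mem (D.mul_mem hw hx) (D.inv_mem hw)
          convert this using 1
          group
        · intro hx
          exact D.mul_mem (D.mul_mem (D.inv_mem hw) hx) hw
  have hne : Pt.Nonempty := ⟨N, mem_insert_self _ _⟩
  have hfilter : ∀ S : Subgroup A, (univ.filter (· ∈ S)).card = Nat.card S := by
    intro S
    rw [Nat.card_eq_fintype_card, Fintype.card_subtype]
  have hconjcard : ∀ g : A, Nat.card (MulAut.conj g • D : Subgroup A) = Nat.card D := fun g =>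
    Nat.card_congr (MulEquiv.subgroupMap (MulAut.conj g) D).symm.toEquiv
  have hcount := sum_card_partition Pt hpart hne
  have hPtcard : Pt.card = C.card + 1 := card_insert_of_notMem hNC
  have hsum : ∑ S ∈ Pt, (univ.filter (· ∈ S)).card = Nat.card N + C.card * Nat.card D := by
    rw [hPt, sum_insert hNC, hfilter]
    congr 1
    rw [sum_const_nat]
    intro S hS
    rw [hfilter]
    obtain ⟨g, rfl⟩ := (hCmem S).mp hS
    exact hconjcard g
  have hA : Fintype.card A = Nat.card N * Nat.card D := by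
    rw [← Nat.card_eq_fintype_card, hNc.card_mul_card]
  rw [hsum, hPtcard, hA, Nat.add_sub_cancel] at hcount
  have hD1 : 1 < Nat.card D := by
    by_contra hcon
    have : Nat.card D = 1 := by
      have := Nat.card_pos (α := D)
      omega
    exact hDne (Subgroup.card_eq_one.mp this)
  have hn : C.card = Nat.card N := by
    obtain ⟨r, hr⟩ : ∃ r, Nat.card D = r + 1 := ⟨Nat.card D - 1, by omega⟩
    have hr0 : 0 < r := by omega
    rw [hr] at hcount
    have h3 : r * C.card = r * Nat.card N := by nlinarith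
    exact Nat.eq_of_mul_eq_mul_left hr0 h3
  haveI : Nontrivial A := by
    by_contra hcon
    rw [not_nontrivial_iff_subsingleton] at hcon
    apply hDne
    exact Subsingleton.elim _ _
  have hpow : ∀ v : V, v ^ Nat.card N = 1 := by
    intro v
    have h1 := prod_partition (fun a => φ a v) Pt hpart hne
    have h2 : ∏ S ∈ Pt, ∏ a ∈ univ.filter (· ∈ S), φ a v = 1 := by
      apply Finset.prod_eq_one
      intro S hS
      apply norm_eq_one h S
      rw [hPt, mem_insert] at hS
      rcases hS with rfl | hS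
      · exact hNne
      · obtain ⟨g, rfl⟩ := (hCmem S).mp hS
        exact conj_smul_ne_bot hDne g
    rw [h2, norm_univ_eq_one h, mul_one, map_one, MulAut.one_apply, hPtcard, Nat.add_sub_cancel,
      hn] at h1
    exact h1.symm
  obtain ⟨v, hv⟩ := exists_ne (1 : V)
  have hcop : (Nat.card N).Coprime (Nat.card V) := by
    apply Nat.coprime_of_dvd
    intro q hq hq1 hq2
    haveI : Fact q.Prime := ⟨hq⟩
    exact not_dvd_card_of_fpf h (q := q)
      (hq1.trans (Subgroup.card_subgroup_dvd_card N)) hq2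
  have h1 : orderOf v ∣ Nat.card N := orderOf_dvd_of_pow_eq_one (hpow v)
  have h2 : orderOf v ∣ Nat.card V := orderOf_dvd_natCard v
  exact hv (orderOf_eq_one_iff.mp (Nat.eq_one_of_dvd_coprimes hcop h1 h2))

end NoFrobenius

section Concrete

variable {G : Type u} [Group G] [Finite G]

/-- An invariant nontrivial `p`-subgroup contains an invariant nontrivial abelian subgroup. -/
theorem exists_abelian_of_invariant_pgroup (Q' B : Subgroup G) (hQ'ne : Q' ≠ ⊥) {q : ℕ}
    [Fact q.Prime] (hQp : IsPGroup q Q') (hQ : B ≤ Subgroup.normalizer (Q' : Set G)) :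
    ∃ V : Subgroup G, V ≠ ⊥ ∧ V ≤ Q' ∧ IsMulCommutative V ∧ B ≤ Subgroup.normalizer (V : Set G) := by
  classical
  haveI : Nontrivial Q' := (Subgroup.nontrivial_iff_ne_bot Q').mpr hQ'ne
  haveI := hQp.center_nontrivial
  obtain ⟨z, hz⟩ := exists_ne (1 : Subgroup.center Q')
  refine ⟨Q' ⊓ Subgroup.centralizer (Q' : Set G), ?_, inf_le_left, ?_, ?_⟩
  · intro hbot
    apply hz
    have hmem : (((z : Q') : G)) ∈ Q' ⊓ Subgroup.centralizer (Q' : Set G) := by
      refine Subgroup.mem_inf.mpr ⟨(z : Q').2, ?_⟩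
      rw [Subgroup.mem_centralizer_iff]
      intro y hy
      have := (Subgroup.mem_center_iff.mp z.2) ⟨y, hy⟩
      exact congrArg Subtype.val this
    rw [hbot] at hmem
    exact Subtype.ext (Subtype.ext (Subgroup.mem_bot.mp hmem))
  · refine IsMulCommutative.of_comm ?_
    intro u v
    ext
    have hv := (Subgroup.mem_inf.mp v.2).2
    rw [Subgroup.mem_centralizer_iff] at hv
    exact hv u (Subgroup.mem_inf.mp u.2).1
  · intro a ha
    apply Cfsg.Agent.Lib.Subnormal.mem_normalizer_of_conj_mem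
    intro d hd
    have hdQ := (Subgroup.mem_inf.mp hd).1
    have hdC := (Subgroup.mem_inf.mp hd).2
    rw [Subgroup.mem_centralizer_iff] at hdC
    have haN := hQ ha
    have haN' := Subgroup.mem_normalizer_iff.mp haN
    refine Subgroup.mem_inf.mpr ⟨(haN' d).mp hdQ, ?_⟩
    rw [Subgroup.mem_centralizer_iff]
    intro y hy
    have hy' : a⁻¹ * y * a ∈ Q' := by
      have h1 := (Subgroup.mem_normalizer_iff.mp (Subgroup.inv_mem _ haN)) y
      have h2 := h1.mp hy
      simpa using h2
    have h3 := hdC _ hy'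
    calc y * (a * d * a⁻¹) = a * ((a⁻¹ * y * a) * d) * a⁻¹ := by group
      _ = a * (d * (a⁻¹ * y * a)) * a⁻¹ := by rw [h3]
      _ = a * d * a⁻¹ * y := by group

theorem conj_frobenius {H : Subgroup G} (hH : IsFrobeniusComplement H) (c : G) :
    IsFrobeniusComplement (MulAut.conj c • H) := by
  refine ⟨conj_smul_ne_bot hH.1 c, ?_, ?_⟩
  · intro htop
    apply hH.2.1
    rw [eq_top_iff]
    intro x _
    have h1 : c * x * c⁻¹ ∈ MulAut.conj c • H := htop ▸ Subgroup.mem_top _
    rw [mem_conj_iff] at h1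
    simpa [mul_assoc] using h1
  · intro g hg
    rw [eq_bot_iff]
    intro x hx
    obtain ⟨hx1, hx2⟩ := Subgroup.mem_inf.mp hx
    rw [mem_conj_iff] at hx1 hx2
    rw [mem_conj_iff] at hx2
    have hg' : c⁻¹ * g * c ∉ H := by
      intro h1
      apply hg
      rw [mem_conj_iff]
      exact h1
    have h3 : c⁻¹ * x * c = 1 := by
      apply ti hH hg' hx1
      convert hx2 using 1
      group
    have h4 : x = c * (c⁻¹ * x * c) * c⁻¹ := by group
    rw [Subgroup.mem_bot, h4, h3]
    simp

/-- Elements of a Frobenius complement act fixed-point-freely on the kernel. -/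
theorem kernel_fpf {H N : Subgroup G} (hH : IsFrobeniusComplement H)
    (hNset : (N : Set G) = frobeniusKernel H) : ∀ h ∈ H, h ≠ 1 →
      N ⊓ Subgroup.centralizer {h} = ⊥ := by
  intro h hh hh1
  rw [eq_bot_iff]
  intro k hk
  obtain ⟨hkN, hkC⟩ := Subgroup.mem_inf.mp hk
  rw [Subgroup.mem_centralizer_singleton_iff] at hkC
  have hkH : k ∈ H := by
    apply mem_of_conj_mem' hH hh hh1
    have : k * h * k⁻¹ = h := by rw [hkC]; group
    rw [this]
    exact hh
  have hk2 : k ∈ frobeniusKernel H := by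
    rw [← hNset]; exact hkN
  exact Subgroup.mem_bot.mpr (eq_one_of_mem_kernel_of_mem hk2 hkH)

/-- Two complements of a normal subgroup are isomorphic. -/
theorem exists_mulEquiv_of_complements (N A B : Subgroup G) [N.Normal]
    (hA : Disjoint A N) (hAc : Nat.card A = N.index)
    (hB : Disjoint B N) (hBc : Nat.card B = N.index) : Nonempty (A ≃* B) := by
  have key : ∀ X : Subgroup G, Disjoint X N → Nat.card X = N.index →
      Nonempty (X ≃* (G ⧸ N)) := by
    intro X hX hXc
    let f : X →* G ⧸ N := (QuotientGroup.mk' N).comp X.subtype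
    have hinj : Function.Injective f := by
      rw [injective_iff_map_eq_one]
      intro x hx
      have h1 : (x : G) ∈ N := (QuotientGroup.eq_one_iff _).mp hx
      have h2 := Subgroup.disjoint_def.mp hX x.2 h1
      exact Subtype.ext h2
    have hbij : Function.Bijective f := by
      rw [Nat.bijective_iff_injective_and_card]
      exact ⟨hinj, hXc⟩
    exact ⟨MulEquiv.ofBijective f hbij⟩
  obtain ⟨e₁⟩ := key A hA hAc
  obtain ⟨e₂⟩ := key B hB hBc
  exact ⟨e₁.trans e₂.symm⟩

/-- A Frobenius complement acts fixed-point-freely on a nontrivial abelian group. -/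
theorem exists_fpf_of_isFrobeniusComplement {H : Subgroup G} (hH : IsFrobeniusComplement H) :
    ∃ (V : Subgroup G) (_ : IsMulCommutative V) (φ : H →* MulAut V), V ≠ ⊥ ∧ IsFpf φ := by
  classical
  obtain ⟨N, hNset, hNn, hNc⟩ := Cfsg.Agent.Lib.FrobeniusThm.exists_kernel_subgroup hH
  have hfpfH := kernel_fpf hH hNset
  have hHN : H ≤ Subgroup.normalizer (N : Set G) := by
    rw [Subgroup.normalizer_eq_top_iff.mpr hNn]
    exact le_top
  have hcopHN : (Nat.card H).Coprime (Nat.card N) := coprime_of_fpf N H hHN hfpfH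
  have hidx : Nat.card H = N.index := hNc.symm.index_eq_card.symm
  have hcop : (Nat.card N).Coprime N.index := by
    rw [← hidx]
    exact hcopHN.symm
  have hNne : N ≠ ⊥ := by
    rintro rfl
    apply hH.2.1
    have h1 := hNc.sup_eq_top
    rwa [bot_sup_eq] at h1
  have hN1 : Nat.card N ≠ 1 := fun h1 => hNne (Subgroup.card_eq_one.mp h1)
  set q := (Nat.card N).minFac with hq
  haveI : Fact q.Prime := ⟨Nat.minFac_prime hN1⟩
  obtain ⟨Q⟩ : Nonempty (Sylow q N) := inferInstance
  set Q' : Subgroup G := (Q : Subgroup N).map N.subtype with hQ'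
  have hNP : Subgroup.normalizer (Q' : Set G) ⊔ N = ⊤ := Sylow.normalizer_sup_eq_top Q
  obtain ⟨A, hAL, hAc⟩ := Cfsg.Agent.S0059.exists_compl_in N (Subgroup.normalizer (Q' : Set G)) hNP hcop
  have hAd : Disjoint A N := by
    rw [Subgroup.disjoint_def]
    intro x hxA hxN
    have h1 : orderOf x ∣ Nat.card A := Subgroup.orderOf_dvd_natCard A hxA
    have h2 : orderOf x ∣ Nat.card N := Subgroup.orderOf_dvd_natCard N hxN
    rw [hAc] at h1
    exact orderOf_eq_one_iff.mp (Nat.eq_one_of_dvd_coprimes hcop.symm h1 h2)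
  have hHd : Disjoint H N := hNc.disjoint.symm
  have hfpfA : ∀ a ∈ A, a ≠ 1 → N ⊓ Subgroup.centralizer {a} = ⊥ := by
    intro a ha ha1
    have haN : a ∉ N := fun h1 => ha1 (Subgroup.disjoint_def.mp hAd ha h1)
    have haK : a ∉ frobeniusKernel H := by
      rw [← hNset]
      exact haN
    obtain ⟨-, g, hg⟩ := not_mem_kernel_iff.mp haK
    have hy1 : g⁻¹ * a * g ≠ 1 := by
      intro h2
      apply ha1
      have h3 : a = g * (g⁻¹ * a * g) * g⁻¹ := by group
      rw [h3, h2]
      simp
    rw [eq_bot_iff]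
    intro k hk
    obtain ⟨hkN, hkC⟩ := Subgroup.mem_inf.mp hk
    rw [Subgroup.mem_centralizer_singleton_iff] at hkC
    have h4 : g⁻¹ * k * g ∈ N ⊓ Subgroup.centralizer {g⁻¹ * a * g} := by
      refine Subgroup.mem_inf.mpr ⟨?_, ?_⟩
      · have := hNn.conj_mem k hkN g⁻¹
        simpa using this
      · rw [Subgroup.mem_centralizer_singleton_iff]
        calc g⁻¹ * k * g * (g⁻¹ * a * g) = g⁻¹ * (k * a) * g := by group
          _ = g⁻¹ * (a * k) * g := by rw [hkC]
          _ = g⁻¹ * a * g * (g⁻¹ * k * g) := by group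
    rw [hfpfH _ hg hy1, Subgroup.mem_bot] at h4
    have h3 : k = g * (g⁻¹ * k * g) * g⁻¹ := by group
    rw [Subgroup.mem_bot, h3, h4]
    simp
  -- the abelian subgroup
  have hQp : IsPGroup q Q' := Q.isPGroup'.map _
  have hQne : (Q : Subgroup N) ≠ ⊥ := Q.ne_bot_of_dvd_card (Nat.minFac_dvd _)
  have hQ'ne : Q' ≠ ⊥ := by
    intro h
    apply hQne
    rwa [hQ', Subgroup.map_eq_bot_iff_of_injective _ N.subtype_injective] at h
  obtain ⟨V, hV, hVQ, hVc, hAV⟩ := exists_abelian_of_invariant_pgroup Q' A hQ'ne hQp hAL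
  have hVN : V ≤ N := hVQ.trans (Subgroup.map_subtype_le _)
  have hf : IsFpf (conjHom A V hAV) := by
    apply conjHom_fpf
    intro a ha ha1
    rw [eq_bot_iff]
    calc V ⊓ Subgroup.centralizer {a} ≤ N ⊓ Subgroup.centralizer {a} := inf_le_inf_right _ hVN
      _ = ⊥ := hfpfA a ha ha1
      _ ≤ ⊥ := le_rfl
  obtain ⟨e⟩ := exists_mulEquiv_of_complements N H A hHd hidx hAd hAc
  exact ⟨V, hVc, (conjHom A V hAV).comp e.toMonoidHom, hV, hf.comp _ e.injective⟩

open scoped IsMulCommutative in
/-- A Frobenius complement `H₀` sharing a nontrivial element with a Frobenius complement `H` lies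
in `H`. -/
theorem le_of_inf_ne_bot {H H₀ : Subgroup G} (hH : IsFrobeniusComplement H)
    (hH₀ : IsFrobeniusComplement H₀) (hne : H ⊓ H₀ ≠ ⊥) : H₀ ≤ H := by
  by_contra hnle
  obtain ⟨V, hVc, φ, hV, hf⟩ := exists_fpf_of_isFrobeniusComplement hH₀
  haveI : Nontrivial V := (Subgroup.nontrivial_iff_ne_bot V).mpr hV
  apply not_isFrobeniusComplement_of_fpf hf (H.subgroupOf H₀)
  refine ⟨?_, ?_, ?_⟩
  · intro hbot
    apply hne
    rw [eq_bot_iff]
    intro x hx
    obtain ⟨hx1, hx2⟩ := Subgroup.mem_inf.mp hx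
    have h1 : (⟨x, hx2⟩ : H₀) ∈ H.subgroupOf H₀ := Subgroup.mem_subgroupOf.mpr hx1
    rw [hbot, Subgroup.mem_bot] at h1
    exact Subgroup.mem_bot.mpr (congrArg Subtype.val h1)
  · intro htop
    apply hnle
    intro x hx
    have h1 : (⟨x, hx⟩ : H₀) ∈ H.subgroupOf H₀ := by rw [htop]; trivial
    exact Subgroup.mem_subgroupOf.mp h1
  · intro g hg
    rw [eq_bot_iff]
    intro x hx
    obtain ⟨hx1, hx2⟩ := Subgroup.mem_inf.mp hx
    rw [mem_conj_iff] at hx2
    have hg' : (g : G) ∉ H := fun h1 => hg (Subgroup.mem_subgroupOf.mpr h1)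
    have h3 := ti hH hg' (Subgroup.mem_subgroupOf.mp hx1) (by
      have := Subgroup.mem_subgroupOf.mp hx2
      simpa using this)
    exact Subgroup.mem_bot.mpr (Subtype.ext h3)

/-- Some conjugate of a Frobenius complement meets any other Frobenius complement nontrivially. -/
theorem exists_conj_inf_ne_bot {H H₀ : Subgroup G} (hH : IsFrobeniusComplement H)
    (hH₀ : IsFrobeniusComplement H₀) : ∃ g : G, H ⊓ MulAut.conj g • H₀ ≠ ⊥ := by
  obtain ⟨N, hNset, -, hNc⟩ := Cfsg.Agent.Lib.FrobeniusThm.exists_kernel_subgroup hH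
  obtain ⟨N₀, hN₀set, -, hN₀c⟩ := Cfsg.Agent.Lib.FrobeniusThm.exists_kernel_subgroup hH₀
  have key : ∀ {L M : Subgroup G}, L ≠ ⊥ → M.IsComplement' L → M ≠ ⊤ := by
    intro L M hL hc ht
    subst ht
    apply hL
    have h1 := hc.disjoint
    rw [disjoint_iff] at h1
    simpa using h1
  have hNt := key hH.1 hNc
  have hN₀t := key hH₀.1 hN₀c
  obtain ⟨x, hx⟩ : ∃ x, x ∉ N := by
    by_contra hcon
    push Not at hcon
    exact hNt (eq_top_iff.mpr fun x _ => hcon x)
  obtain ⟨y, hy⟩ : ∃ y, y ∉ N₀ := by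
    by_contra hcon
    push Not at hcon
    exact hN₀t (eq_top_iff.mpr fun x _ => hcon x)
  obtain ⟨z, hz, hz₀⟩ : ∃ z, z ∉ N ∧ z ∉ N₀ := by
    by_cases hxN₀ : x ∈ N₀
    · by_cases hyN : y ∈ N
      · refine ⟨x * y, ?_, ?_⟩
        · intro h1
          apply hx
          have := N.mul_mem h1 (N.inv_mem hyN)
          simpa using this
        · intro h1
          apply hy
          have := N₀.mul_mem (N₀.inv_mem hxN₀) h1
          simpa using this
      · exact ⟨y, hyN, hy⟩
    · exact ⟨x, hx, hxN₀⟩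
  have hzK : z ∉ frobeniusKernel H := by rw [← hNset]; exact hz
  have hzK₀ : z ∉ frobeniusKernel H₀ := by rw [← hN₀set]; exact hz₀
  obtain ⟨hz1, g, hg⟩ := not_mem_kernel_iff.mp hzK
  obtain ⟨-, g₀, hg₀⟩ := not_mem_kernel_iff.mp hzK₀
  refine ⟨g⁻¹ * g₀, ?_⟩
  intro hbot
  have hmem : g⁻¹ * z * g ∈ H ⊓ MulAut.conj (g⁻¹ * g₀) • H₀ := by
    refine Subgroup.mem_inf.mpr ⟨hg, ?_⟩
    rw [mem_conj_iff]
    convert hg₀ using 1
    group
  rw [hbot, Subgroup.mem_bot] at hmem
  apply hz1
  have h3 : z = g * (g⁻¹ * z * g) * g⁻¹ := by group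
  rw [h3, hmem]
  simp

/-- A Frobenius complement has a conjugate inside any other Frobenius complement. -/
theorem exists_conj_le {H H₀ : Subgroup G} (hH : IsFrobeniusComplement H)
    (hH₀ : IsFrobeniusComplement H₀) : ∃ g : G, MulAut.conj g • H₀ ≤ H := by
  obtain ⟨g, hg⟩ := exists_conj_inf_ne_bot hH hH₀
  exact ⟨g, le_of_inf_ne_bot hH (conj_frobenius hH₀ g) hg⟩

/-- All Frobenius complements are conjugate. -/
theorem exists_conj_eq {H H₀ : Subgroup G} (hH : IsFrobeniusComplement H)
    (hH₀ : IsFrobeniusComplement H₀) : ∃ g : G, MulAut.conj g • H₀ = H := by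
  obtain ⟨g, hg⟩ := exists_conj_le hH hH₀
  obtain ⟨g', hg'⟩ := exists_conj_le hH₀ hH
  refine ⟨g, Subgroup.eq_of_le_of_card_ge hg ?_⟩
  have h1 : Nat.card (MulAut.conj g • H₀ : Subgroup G) = Nat.card H₀ :=
    Nat.card_congr (MulEquiv.subgroupMap (MulAut.conj g) H₀).symm.toEquiv
  have h2 : Nat.card (MulAut.conj g' • H : Subgroup G) = Nat.card H :=
    Nat.card_congr (MulEquiv.subgroupMap (MulAut.conj g') H).symm.toEquiv
  rw [h1, ← h2]
  exact Subgroup.card_le_of_le hg'

end Concrete

end Cfsg.Agent.Lib.FrobConj
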