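import Mathlib
import Cfsg.Agent.S0173
import Cfsg.Agent.Lib.CharInduction
import Cfsg.Agent.Lib.CharKernel
import Cfsg.Agent.Lib.GenChar

/-!
# Characters of a Frobenius-type pair

Let `K` be a normal subgroup of `M` containing the centralizer in `M` of each of its non-identity
elements.  The characters of `M` not having `K` in their kernel are the characters induced from the
non-principal irreducible characters of `K`.  Also: a class function orthogonal to the differences of
these (with the degree weights) is constant on `K` away from `1`, and two integrality lemmas.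
-/

set_option autoImplicit false
set_option linter.style.haveILetI false

namespace Cfsg.Agent.Lib.FrobNorm

open Cfsg Cfsg.Agent.Lib.CharBasic Cfsg.Agent.Lib.CharInd Cfsg.Agent.Lib.CharInduction
  Cfsg.Agent.Lib.CharKernel Cfsg.Agent.Lib.GenChar
open scoped ComplexConjugate

universe u

section Bez

variable {K : Type u} [Group K] [Fintype K]

/-- If `t θ(1)` is an integer for all non-principal irreducible `θ` then `t` is an integer. -/
theorem bez (hK : Nat.card K ≠ 1) (t : ℂ)
    (h : ∀ θ : IrrCharacter K, (θ : K → ℂ) ≠ (fun _ => 1) → ∃ z : ℤ, t * (θ : K → ℂ) 1 = z) :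
    ∃ z : ℤ, t = z := by
  classical
  have hsum := sum_charDegree_sq (G := K)
  let i₁ : IrrCharacter K := ⟨fun _ => 1, isIrrCharacter_one⟩
  have hi₁ : charDegree (i₁ : K → ℂ) = 1 := by
    simp [charDegree, i₁]
  have hne : ∀ θ : IrrCharacter K, θ ≠ i₁ → (θ : K → ℂ) ≠ (fun _ => 1) :=
    fun θ hθ h0 => hθ (Subtype.ext h0)
  have hz : ∀ θ : IrrCharacter K, ∃ z : ℤ, θ ≠ i₁ → t * (θ : K → ℂ) 1 = z := by
    intro θ
    by_cases hθ : θ = i₁
    · exact ⟨0, fun h0 => absurd hθ h0⟩
    · obtain ⟨z, hz⟩ := h θ (hne θ hθ)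
      exact ⟨z, fun _ => hz⟩
  choose z hz using hz
  have hsplit : ∑ θ ∈ Finset.univ.erase i₁, charDegree (θ : K → ℂ) ^ 2 + 1 = Nat.card K := by
    rw [← hsum, ← Finset.sum_erase_add _ _ (Finset.mem_univ i₁), hi₁, one_pow]
  obtain ⟨θ₀, hθ₀⟩ : ∃ θ₀ : IrrCharacter K, θ₀ ≠ i₁ := by
    by_contra hall
    push Not at hall
    apply hK
    rw [← hsplit, Finset.sum_eq_zero, zero_add]
    intro θ hθ
    exact absurd (hall θ) (Finset.mem_erase.1 hθ).1
  obtain ⟨q, hq⟩ := charDegree_dvd_card θ₀.2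
  have hdeg : ∀ θ : IrrCharacter K, (θ : K → ℂ) 1 = (charDegree (θ : K → ℂ) : ℂ) :=
    fun θ => one_eq_charDegree (IsIrrCharacter.isCharacter θ.2)
  refine ⟨q * z θ₀ - ∑ θ ∈ Finset.univ.erase i₁, z θ * (charDegree (θ : K → ℂ) : ℤ), ?_⟩
  push_cast
  have h1 : ∑ θ ∈ Finset.univ.erase i₁, (z θ : ℂ) * (charDegree (θ : K → ℂ) : ℂ) =
      t * ∑ θ ∈ Finset.univ.erase i₁, ((charDegree (θ : K → ℂ) ^ 2 : ℕ) : ℂ) := by
    rw [Finset.mul_sum]
    refine Finset.sum_congr rfl fun θ hθ => ?_
    rw [← hz θ (Finset.mem_erase.1 hθ).1, hdeg θ]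
    push_cast
    ring
  have h2 : (q : ℂ) * (z θ₀ : ℂ) = t * (Nat.card K : ℂ) := by
    rw [← hz θ₀ hθ₀, hdeg θ₀, hq]
    push_cast
    ring
  rw [h1, h2]
  have h3 : ((∑ θ ∈ Finset.univ.erase i₁, charDegree (θ : K → ℂ) ^ 2 + 1 : ℕ) : ℂ) = (Nat.card K : ℂ) := by
    rw [hsplit]
  push_cast at h3
  rw [← h3]
  push_cast
  ring

/-- A generalized character constant away from the identity has an integer as this value. -/
theorem int_of_const (hK : Nat.card K ≠ 1) {F : K → ℂ} (hF : IsGeneralizedCharacter K F) {n : ℂ}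
    (hn : ∀ k : K, k ≠ 1 → F k = n) : ∃ z : ℤ, n = z := by
  classical
  have hK0 : (Nat.card K : ℂ) ≠ 0 := by exact_mod_cast Nat.card_pos.ne'
  set D := F 1 with hD
  set t : ℂ := (D - n) / (Nat.card K : ℂ) with ht
  have hform : ∀ θ : K → ℂ, classInner F θ =
      n * classInner (fun _ => 1) θ + t * conj (θ 1) := by
    intro θ
    unfold classInner
    have h1 : ∑ k : K, F k * conj (θ k) =
        ∑ k : K, (n * conj (θ k) + (if k = 1 then (D - n) * conj (θ 1) else 0)) := by
      refine Finset.sum_congr rfl fun k _ => ?_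
      by_cases hk : k = 1
      · subst hk
        rw [if_pos rfl, ← hD]
        ring
      · rw [if_neg hk, hn k hk]
        ring
    rw [h1, Finset.sum_add_distrib, Finset.sum_ite_eq' Finset.univ (1 : K)]
    simp only [Finset.mem_univ, if_true, ← Finset.mul_sum, one_mul]
    rw [ht]
    field_simp
  have h1 : ∀ θ : IrrCharacter K, (θ : K → ℂ) ≠ (fun _ => 1) → ∃ z : ℤ, t * (θ : K → ℂ) 1 = z := by
    intro θ hθ
    obtain ⟨z, hz⟩ := classInner_gen_irr hF θ.2
    refine ⟨z, ?_⟩
    have h2 := hform θ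
    have h3 : classInner (fun _ => (1 : ℂ)) (θ : K → ℂ) = 0 :=
      classInner_irr_ne isIrrCharacter_one θ.2 (Ne.symm hθ)
    have h4 : conj ((θ : K → ℂ) 1) = (θ : K → ℂ) 1 := by
      rw [one_eq_charDegree (IsIrrCharacter.isCharacter θ.2)]
      simp
    rw [h3, mul_zero, zero_add, h4, hz] at h2
    exact h2.symm
  obtain ⟨z₁, hz₁⟩ := bez hK t h1
  obtain ⟨z₂, hz₂⟩ := classInner_gen_irr hF (isIrrCharacter_one (G := K))
  have h2 := hform (fun _ => 1)
  rw [classInner_irr_self isIrrCharacter_one, hz₂, hz₁] at h2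
  simp only [map_one, mul_one] at h2
  refine ⟨z₂ - z₁, ?_⟩
  push_cast
  rw [h2]
  ring

end Bez

section Main

variable {M : Type u} [Group M] [Fintype M] (K : Subgroup M) [hN : K.Normal]

/-- A character not having `K` in its kernel. -/
def Relevant (χ : M → ℂ) : Prop := ∃ k ∈ K, χ k ≠ χ 1

omit [Fintype M] in
/-- The inertia group of a non-principal irreducible character of `K` is `K`. -/
theorem stab_mem [Finite M] (hC : ∀ k ∈ K, k ≠ 1 → ∀ g : M, g * k = k * g → g ∈ K) {τ : K → ℂ}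
    (hτ : IsIrrCharacter K τ) (hτ1 : τ ≠ fun _ => 1) {g : M} (hg : conjBy K hN g τ = τ) : g ∈ K := by
  by_contra hgK
  let α : K ≃* K := conjAut K hN g
  have hfix := Cfsg.Agent.S0173.result α
  have hone : Nat.card {C : ConjClasses K // ConjClasses.map α.toMonoidHom C = C} = 1 := by
    rw [Nat.card_eq_one_iff_unique]
    have hkey : ∀ C : ConjClasses K, ConjClasses.map α.toMonoidHom C = C →
        C = ConjClasses.mk 1 := by
      intro C hC'
      obtain ⟨k, rfl⟩ := ConjClasses.mk_surjective C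
      have h2 : ConjClasses.mk (α k) = ConjClasses.mk k := hC'
      rw [ConjClasses.mk_eq_mk_iff_isConj, isConj_iff] at h2
      obtain ⟨s, hs⟩ := h2
      have h3 : ((s : K) : M) * (g * k * g⁻¹) * ((s : K) : M)⁻¹ = k := congrArg Subtype.val hs
      have h4 : (s : M) * g ∉ K := by
        intro hmem
        apply hgK
        have : g = (s : M)⁻¹ * ((s : M) * g) := by group
        rw [this]
        exact K.mul_mem (K.inv_mem s.2) hmem
      have h5 : ((s : M) * g) * k = k * ((s : M) * g) := by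
        calc ((s : M) * g) * k = ((s : M) * (g * k * g⁻¹) * (s : M)⁻¹) * ((s : M) * g) := by group
          _ = k * ((s : M) * g) := by rw [h3]
      have h7 : k = 1 := by
        by_contra hk
        exact h4 (hC k k.2 (fun h => hk (Subtype.ext h)) _ h5)
      rw [h7]
    constructor
    · constructor
      rintro ⟨C, hC'⟩ ⟨D, hD⟩
      apply Subtype.ext
      show C = D
      rw [hkey C hC', hkey D hD]
    · refine ⟨⟨ConjClasses.mk 1, ?_⟩⟩
      have : ConjClasses.map α.toMonoidHom (ConjClasses.mk 1) = ConjClasses.mk (α 1) := rfl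
      rw [this, map_one]
  rw [hone] at hfix
  have hu := (Nat.card_eq_one_iff_unique.mp hfix.symm).1
  have h8 : (⟨⟨τ, hτ⟩, hg⟩ : {χ : IrrCharacter K // (χ : K → ℂ) ∘ α = (χ : K → ℂ)}) =
      ⟨⟨fun _ => 1, isIrrCharacter_one⟩, rfl⟩ := Subsingleton.elim _ _
  exact hτ1 (congrArg (fun z => ((z.1 : IrrCharacter K) : K → ℂ)) h8)

/-- Non-principal irreducible characters of `K` induce irreducibly. -/
theorem ind_irr (hC : ∀ k ∈ K, k ≠ 1 → ∀ g : M, g * k = k * g → g ∈ K) {τ : K → ℂ}
    (hτ : IsIrrCharacter K τ) (hτ1 : τ ≠ fun _ => 1) : IsIrrCharacter M (indFun K τ) := by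
  classical
  rw [isIrrCharacter_iff_norm_one]
  refine ⟨indFun_isCharacter K (IsIrrCharacter.isCharacter hτ), ?_⟩
  have h1 := natCard_mul_classInner_indFun_self K hN τ hτ
  have hstab : Nat.card {g : M // conjBy K hN g τ = τ} = Nat.card K := by
    apply Nat.card_congr
    apply Equiv.subtypeEquivRight
    intro g
    constructor
    · intro hg
      exact stab_mem K hC hτ hτ1 hg
    · intro hg
      funext n
      rw [conjBy_apply]
      exact char_apply_conj (IsIrrCharacter.isCharacter hτ) n ⟨g, hg⟩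
  rw [hstab] at h1
  have hne : (Nat.card K : ℂ) ≠ 0 := natCard_subgroup_ne_zero K
  exact mul_left_cancel₀ hne (by rw [h1, mul_one])

/-- A relevant irreducible character is induced from a non-principal character of `K`. -/
theorem exists_ind (hC : ∀ k ∈ K, k ≠ 1 → ∀ g : M, g * k = k * g → g ∈ K) {χ : M → ℂ}
    (hχ : IsIrrCharacter M χ) (hrel : Relevant K χ) :
    ∃ θ : K → ℂ, IsIrrCharacter K θ ∧ θ ≠ (fun _ => 1) ∧ χ = indFun K θ := by
  classical
  letI : Fintype K := Fintype.ofFinite _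
  have hχc := IsIrrCharacter.isCharacter hχ
  obtain ⟨m, hm⟩ := exists_nat_decomp (isCharacter_restrict K hχc)
  obtain ⟨i, hi, hi1⟩ : ∃ i : IrrCharacter K, m i ≠ 0 ∧ (i : K → ℂ) ≠ fun _ => 1 := by
    by_contra hall
    push Not at hall
    obtain ⟨k, hk, hne⟩ := hrel
    apply hne
    have h1 := congrFun hm ⟨k, hk⟩
    have h2 := congrFun hm 1
    simp only [OneMemClass.coe_one] at h2
    simp only at h1
    rw [h1, h2]
    simp only [Finset.sum_apply, Pi.smul_apply]
    refine Finset.sum_congr rfl fun i _ => ?_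
    by_cases h0 : m i = 0
    · simp [h0]
    · rw [hall i h0]
  refine ⟨i, i.2, hi1, ?_⟩
  have hin : classInner (indFun K (i : K → ℂ)) χ ≠ 0 := by
    rw [frobenius K _ (isClassFunction_of_isCharacter hχc)]
    have h1 : classInner (fun h : K => χ h) (i : K → ℂ) = m i := by
      rw [hm, classInner_nat_decomp m i i.2]
    rw [← classInner_conj_symm, h1, map_natCast]
    exact_mod_cast hi
  have h2 := classInner_irr (ind_irr K hC i.2 hi1) hχ
  rw [h2] at hin
  by_contra hne
  rw [if_neg (fun h => hne h.symm)] at hin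
  exact hin rfl

/-- A character induced from a non-principal irreducible is relevant. -/
theorem ind_relevant (hC : ∀ k ∈ K, k ≠ 1 → ∀ g : M, g * k = k * g → g ∈ K) {τ : K → ℂ}
    (hτ : IsIrrCharacter K τ) (hτ1 : τ ≠ fun _ => 1) : Relevant K (indFun K τ) := by
  classical
  letI : Fintype K := Fintype.ofFinite _
  by_contra hcon
  unfold Relevant at hcon
  push Not at hcon
  have hirr := ind_irr K hC hτ hτ1
  have h1 := classInner_irr_self hirr
  rw [frobenius K τ (isClassFunction_of_isCharacter (IsIrrCharacter.isCharacter hirr))] at h1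
  have h2 : (fun h : K => indFun K τ h) = (indFun K τ 1) • (fun _ => (1 : ℂ)) := by
    funext h
    simp [hcon h h.2]
  rw [h2, classInner_smul_right, classInner_irr_ne hτ isIrrCharacter_one hτ1, mul_zero] at h1
  exact zero_ne_one h1

/-- A relevant character vanishes off `K`. -/
theorem vanish (hC : ∀ k ∈ K, k ≠ 1 → ∀ g : M, g * k = k * g → g ∈ K) {χ : M → ℂ}
    (hχ : IsIrrCharacter M χ) (hrel : Relevant K χ) {x : M} (hx : x ∉ K) : χ x = 0 := by
  obtain ⟨θ, -, -, rfl⟩ := exists_ind K hC hχ hrel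
  exact indFun_of_not_mem_normal K hN θ hx

/-- A class function orthogonal to the weighted differences of the relevant characters is constant
on the non-identity elements of `K`. -/
theorem const_of_perp {f : M → ℂ} (hf : IsClassFunction M f)
    (hperp : ∀ ξ ξ' : IrrCharacter M, Relevant K ξ → Relevant K ξ' →
      (charDegree (ξ' : M → ℂ) : ℂ) * classInner f ξ = (charDegree (ξ : M → ℂ) : ℂ) * classInner f ξ') :
    ∃ c : ℂ, ∀ k ∈ K, k ≠ 1 → f k = c := by
  classical
  have hdeg : ∀ θ : IrrCharacter M, (θ : M → ℂ) 1 = (charDegree (θ : M → ℂ) : ℂ) :=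
    fun θ => one_eq_charDegree (IsIrrCharacter.isCharacter θ.2)
  have hd0 : ∀ θ : IrrCharacter M, (charDegree (θ : M → ℂ) : ℂ) ≠ 0 :=
    fun θ => by exact_mod_cast (charDegree_pos θ.2).ne'
  obtain ⟨r, hr⟩ : ∃ r : ℂ, ∀ ξ : IrrCharacter M, Relevant K ξ →
      classInner f ξ = r * (charDegree (ξ : M → ℂ) : ℂ) := by
    by_cases hS : ∃ ξ₀ : IrrCharacter M, Relevant K ξ₀
    · obtain ⟨ξ₀, hξ₀⟩ := hS
      refine ⟨classInner f ξ₀ / (charDegree (ξ₀ : M → ℂ) : ℂ), fun ξ hξ => ?_⟩
      have h1 := hperp ξ ξ₀ hξ hξ₀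
      have h2 := hd0 ξ₀
      field_simp
      linear_combination h1
    · exact ⟨0, fun ξ hξ => absurd ⟨ξ, hξ⟩ hS⟩
  refine ⟨r * (- ∑ ξ : IrrCharacter M, if Relevant K ξ then 0 else
      (charDegree (ξ : M → ℂ) : ℂ) * (charDegree (ξ : M → ℂ) : ℂ)) +
      ∑ ξ : IrrCharacter M, if Relevant K ξ then 0 else classInner f ξ * (charDegree (ξ : M → ℂ) : ℂ), ?_⟩
  intro k hk hk1
  have h1 := congrFun (classFunction_eq_sum hf) k
  simp only [Finset.sum_apply, Pi.smul_apply, smul_eq_mul] at h1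
  have h2 := sum_irr_deg_mul k
  rw [if_neg hk1] at h2
  have h3 : ∀ ξ : IrrCharacter M, classInner f ξ * (ξ : M → ℂ) k =
      r * ((ξ : M → ℂ) 1 * (ξ : M → ℂ) k) +
      ((r * (- if Relevant K ξ then 0 else
      (charDegree (ξ : M → ℂ) : ℂ) * (charDegree (ξ : M → ℂ) : ℂ))) +
      (if Relevant K ξ then 0 else classInner f ξ * (charDegree (ξ : M → ℂ) : ℂ))) := by
    intro ξ
    by_cases hξ : Relevant K ξ
    · rw [if_pos hξ, if_pos hξ, hr ξ hξ, hdeg ξ]
      ring
    · rw [if_neg hξ, if_neg hξ]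
      have h4 : (ξ : M → ℂ) k = (ξ : M → ℂ) 1 := by
        by_contra h5
        exact hξ ⟨k, hk, h5⟩
      rw [h4, hdeg ξ]
      ring
  rw [h1, Finset.sum_congr rfl fun ξ _ => h3 ξ, Finset.sum_add_distrib, ← Finset.mul_sum, h2, mul_zero,
    zero_add, Finset.sum_add_distrib, ← Finset.mul_sum, Finset.sum_neg_distrib]

end Main

end Cfsg.Agent.Lib.FrobNorm
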