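import Mathlib
import Cfsg.Prelude.Def_Solvable
import Cfsg.Agent.Lib.FrobConj

/-!
# The Frobenius partition and the norm identity for a Frobenius group acting on an abelian group.
-/

set_option autoImplicit false

namespace Cfsg.Agent.Lib.FrobPartition

open Cfsg Cfsg.Agent.Lib.FpfNorm Cfsg.Agent.Lib.FrobCompl Cfsg.Agent.Lib.Frobenius
open Cfsg.Agent.Lib.FrobConj
open Finset
open scoped Pointwise

universe u v

variable {A : Type u} [Group A] [Finite A]

/-- The norm over a subgroup is fixed by the subgroup. -/
theorem norm_fixed [Fintype A] [DecidableEq A] {V : Type v} [CommGroup V] (φ : A →* MulAut V)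
    (S : Subgroup A) [DecidablePred (· ∈ S)] (v : V) (b : A) (hb : b ∈ S) :
    φ b (∏ a ∈ univ.filter (· ∈ S), φ a v) = ∏ a ∈ univ.filter (· ∈ S), φ a v := by
  rw [map_prod]
  refine Finset.prod_bij' (fun a _ => b * a) (fun a _ => b⁻¹ * a) ?_ ?_ ?_ ?_ ?_
  · intro a ha
    rw [mem_filter] at ha ⊢
    exact ⟨mem_univ _, S.mul_mem hb ha.2⟩
  · intro a ha
    rw [mem_filter] at ha ⊢
    exact ⟨mem_univ _, S.mul_mem (S.inv_mem hb) ha.2⟩
  · intro a _
    simp
  · intro a _
    simp
  · intro a _
    rw [map_mul, MulAut.mul_apply]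

/-- If neither the complement nor the kernel of a Frobenius group fixes a nontrivial point of the
abelian group `V`, then `V` is killed by the order of the kernel. -/
theorem pow_card_kernel_eq_one {V : Type v} [CommGroup V] (φ : A →* MulAut V) (D : Subgroup A)
    (hD : IsFrobeniusComplement D) (N : Subgroup A) (hNset : (N : Set A) = frobeniusKernel D)
    (hfixD : ∀ v : V, (∀ d ∈ D, φ d v = v) → v = 1)
    (hfixN : ∀ v : V, (∀ n ∈ N, φ n v = v) → v = 1) (v : V) : v ^ Nat.card N = 1 := by
  classical
  letI := Fintype.ofFinite A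
  letI := Fintype.ofFinite (Subgroup A)
  obtain ⟨N', hNset', hNn, hNc⟩ := Cfsg.Agent.Lib.FrobeniusThm.exists_kernel_subgroup hD
  obtain rfl : N' = N := by
    apply SetLike.coe_injective
    rw [hNset, hNset']
  rename' N' => N
  have hNmem : ∀ x, x ∈ N ↔ x ∈ frobeniusKernel D := fun x => by
    rw [← SetLike.mem_coe, hNset]
  have hDne := hD.1
  have hDtop := hD.2.1
  have hNne : N ≠ ⊥ := by
    rintro rfl
    apply hDtop
    have h1 := hNc.sup_eq_top
    rwa [bot_sup_eq] at h1
  -- the partition
  set C : Finset (Subgroup A) := univ.image (fun g : A => MulAut.conj g • D) with hC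
  set Pt : Finset (Subgroup A) := insert N C with hPt
  have hCmem : ∀ S, S ∈ C ↔ ∃ g : A, MulAut.conj g • D = S := by
    intro S
    simp [hC]
  have hNC : N ∉ C := by
    rw [hCmem]
    rintro ⟨g, hg⟩
    obtain ⟨d, hd, hd1⟩ := (Subgroup.bot_or_exists_ne_one D).resolve_left hDne
    have h1 : g * d * g⁻¹ ∈ MulAut.conj g • D := by
      rw [mem_conj_iff]
      simpa [mul_assoc] using hd
    have h2 : g * d * g⁻¹ ∈ N := hg ▸ h1
    rw [hNmem, mem_kernel_iff] at h2
    rcases h2 with h2 | h2
    · apply hd1
      have h3 : d = g⁻¹ * (g * d * g⁻¹) * g := by group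
      rw [h3, h2]
      simp
    · apply h2 g
      simpa [mul_assoc] using hd
  have hpart : ∀ a : A, a ≠ 1 → ∃ S ∈ Pt, a ∈ S ∧ ∀ T ∈ Pt, a ∈ T → T = S := by
    intro a ha
    by_cases haN : a ∈ N
    · refine ⟨N, mem_insert_self _ _, haN, ?_⟩
      intro T hT haT
      rw [hPt, mem_insert] at hT
      rcases hT with rfl | hT
      · rfl
      · exfalso
        obtain ⟨g, rfl⟩ := (hCmem T).mp hT
        rw [hNmem, mem_kernel_iff] at haN
        rcases haN with h1 | h1
        · exact ha h1
        · exact h1 g (mem_conj_iff.mp haT)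
    · have h1 : a ∉ frobeniusKernel D := fun h' => haN ((hNmem a).mpr h')
      obtain ⟨-, g, hg⟩ := not_mem_kernel_iff.mp h1
      refine ⟨MulAut.conj g • D, mem_insert_of_mem ((hCmem _).mpr ⟨g, rfl⟩), mem_conj_iff.mpr hg, ?_⟩
      intro T hT haT
      rw [hPt, mem_insert] at hT
      rcases hT with rfl | hT
      · exact absurd haT haN
      · obtain ⟨g', rfl⟩ := (hCmem T).mp hT
        have hg' := mem_conj_iff.mp haT
        have hu1 : g⁻¹ * a * g ≠ 1 := by
          intro h2
          apply ha
          have h3 : a = g * (g⁻¹ * a * g) * g⁻¹ := by group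
          rw [h3, h2]
          simp
        have hw : (g⁻¹ * g') ∈ D := by
          apply mem_of_conj_mem hD hg hu1
          have h4 : (g⁻¹ * g')⁻¹ * (g⁻¹ * a * g) * (g⁻¹ * g') = g'⁻¹ * a * g' := by group
          rw [h4]
          exact hg'
        have hg'eq : g' = g * (g⁻¹ * g') := by group
        rw [hg'eq, map_mul, mul_smul]
        congr 1
        ext x
        rw [mem_conj_iff]
        constructor
        · intro hx
          have := D.mul_mem (D.mul_mem hw hx) (D.inv_mem hw)
          convert this using 1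
          group
        · intro hx
          exact D.mul_mem (D.mul_mem (D.inv_mem hw) hx) hw
  have hne : Pt.Nonempty := ⟨N, mem_insert_self _ _⟩
  have hfilter : ∀ S : Subgroup A, (univ.filter (· ∈ S)).card = Nat.card S := by
    intro S
    rw [Nat.card_eq_fintype_card, Fintype.card_subtype]
  have hconjcard : ∀ g : A, Nat.card (MulAut.conj g • D : Subgroup A) = Nat.card D := fun g =>
    Nat.card_congr (MulEquiv.subgroupMap (MulAut.conj g) D).symm.toEquiv
  have hcount := sum_card_partition Pt hpart hne
  have hPtcard : Pt.card = C.card + 1 := card_insert_of_notMem hNC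
  have hsum : ∑ S ∈ Pt, (univ.filter (· ∈ S)).card = Nat.card N + C.card * Nat.card D := by
    rw [hPt, sum_insert hNC, hfilter]
    congr 1
    rw [sum_const_nat]
    intro S hS
    rw [hfilter]
    obtain ⟨g, rfl⟩ := (hCmem S).mp hS
    exact hconjcard g
  have hAc : Fintype.card A = Nat.card N * Nat.card D := by
    rw [← Nat.card_eq_fintype_card, hNc.card_mul_card]
  rw [hsum, hPtcard, hAc, Nat.add_sub_cancel] at hcount
  have hD1 : 1 < Nat.card D := by
    by_contra hcon
    have : Nat.card D = 1 := by
      have := Nat.card_pos (α := D)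
      omega
    exact hDne (Subgroup.card_eq_one.mp this)
  have hn : C.card = Nat.card N := by
    obtain ⟨r, hr⟩ : ∃ r, Nat.card D = r + 1 := ⟨Nat.card D - 1, by omega⟩
    have hr0 : 0 < r := by omega
    rw [hr] at hcount
    have h3 : r * C.card = r * Nat.card N := by nlinarith
    exact Nat.eq_of_mul_eq_mul_left hr0 h3
  have h1 := prod_partition (fun a => φ a v) Pt hpart hne
  have h2 : ∏ S ∈ Pt, ∏ a ∈ univ.filter (· ∈ S), φ a v = 1 := by
    apply Finset.prod_eq_one
    intro S hS
    rw [hPt, mem_insert] at hS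
    rcases hS with rfl | hS
    · apply hfixN
      intro n hn
      exact norm_fixed φ S v n hn
    · obtain ⟨g, rfl⟩ := (hCmem S).mp hS
      set w := ∏ a ∈ univ.filter (· ∈ MulAut.conj g • D), φ a v with hw
      have h3 : φ g⁻¹ w = 1 := by
        apply hfixD
        intro d hd
        have h4 : g * d * g⁻¹ ∈ MulAut.conj g • D := by
          rw [mem_conj_iff]
          simpa [mul_assoc] using hd
        have h5 := norm_fixed φ (MulAut.conj g • D) v _ h4
        rw [← MulAut.mul_apply, ← map_mul]
        have h6 : d * g⁻¹ = g⁻¹ * (g * d * g⁻¹) := by group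
        rw [h6, map_mul, MulAut.mul_apply, h5]
      have h7 : w = φ g (φ g⁻¹ w) := by
        rw [← MulAut.mul_apply, ← map_mul]
        simp
      rw [h7, h3, map_one]
  have h3 : ∏ a, φ a v = 1 := by
    apply hfixN
    intro n hn
    have := norm_fixed φ (⊤ : Subgroup A) v n (Subgroup.mem_top n)
    simpa using this
  rw [h2, h3, mul_one, map_one, MulAut.one_apply, hPtcard, Nat.add_sub_cancel, hn] at h1
  exact h1.symm

end Cfsg.Agent.Lib.FrobPartition
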