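import Mathlib
import Cfsg.Agent.Lib.FrobThreeD

/-!
# Abelian Sylow subgroup with `N/C` of order three: the signs and the square for odd `p`
-/

set_option autoImplicit false
set_option linter.unusedSectionVars false
set_option linter.unusedVariables false
set_option linter.style.haveILetI false

namespace Cfsg.Agent.Lib.FrobThreeE

open Cfsg Cfsg.Agent.Lib Cfsg.Agent.Lib.FrobBlock Cfsg.Agent.Lib.FrobThree Cfsg.Agent.Lib.FrobThreeA
open Cfsg.Agent.Lib.FrobThreeB Cfsg.Agent.Lib.FrobThreeC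
open Cfsg.Agent.Lib.CharBasic Subgroup
open Cfsg.Agent.Lib.DefectOne (cj cj_coe chi smul_apply smul_ne_one)
open scoped ComplexConjugate

universe u

theorem odd_alg {a₂ a₃ e d₂ d₃ d τ₂ τ₃ τ : ℚ} (h₂ : d₂ ≠ 0) (h₃ : d₃ ≠ 0) (h : d ≠ 0)
    (t₂ : τ₂ ≠ d₂) (t₃ : τ₃ ≠ d₃) (t : τ ≠ d)
    (E1 : 1 + (a₂ * d₂ + a₃ * d₃) + e * d = 0) (E2 : 1 + (a₂ * τ₂ + a₃ * τ₃) + e * τ = 0)
    (E3 : 1 + (a₂ * (τ₂ ^ 2 / d₂) + a₃ * (τ₃ ^ 2 / d₃)) + e * (τ ^ 2 / d) = 0) :
    ∃ q : ℚ, (a₂ * d₂) * (a₃ * d₃) * (e * d) = q ^ 2 := by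
  have hx : ∀ {τ d : ℚ}, d ≠ 0 → τ ≠ d → 1 - τ / d ≠ 0 := by
    intro τ d hd ht h0
    apply ht
    have : τ / d = 1 := by linarith
    field_simp at this
    exact this
  have h1 : ∀ {a τ d : ℚ}, d ≠ 0 → (a * d) * (1 - τ / d) = a * d - a * τ := by
    intro a τ d hd
    field_simp
  have h2 : ∀ {a τ d : ℚ}, d ≠ 0 → (a * d) * (1 - τ / d) ^ 2 = a * d - 2 * (a * τ) + a * (τ ^ 2 / d) := by
    intro a τ d hd
    field_simp
    ring
  apply vander (hx h₂ t₂) (hx h₃ t₃) (hx h t)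
  · linarith
  · rw [h1 h₂, h1 h₃, h1 h]
    linarith
  · rw [h2 h₂, h2 h₃, h2 h]
    linarith

section Main

variable {G : Type u} [Group G] [Fintype G] {p : ℕ} [hp : Fact p.Prime] {M : Ideal AlgInt}
variable {P : Sylow p G}

set_option quotPrecheck false in
local notation "𝔸" => ↥(P : Subgroup G)
set_option quotPrecheck false in
local notation "𝔑" => ↥(normalizer ((P : Subgroup G) : Set G))
set_option quotPrecheck false in
local notation "ℭ" => centralizer ((P : Subgroup G) : Set G)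

variable [Fintype ↥(P : Subgroup G)] [Fintype (↥(P : Subgroup G) →* ℂˣ)]
  {Xf Yf : Finset (IrrCharacter G)} {a : IrrCharacter G → ℤ} {δ : ℤ}
  {ζ : (↥(P : Subgroup G) →* ℂˣ) → IrrCharacter G} {r : ℕ}

/-- The signs and the square, for odd `p`. -/
theorem odd_clause (H : Hyp P) (hM : IsPModular p M) (hp2 : p ≠ 2)
    (hidx : ((ℭ).subgroupOf (normalizer ((P : Subgroup G) : Set G))).index = 3)
    (D : Dat M P Xf Yf a δ ζ r) (hmP : 3 + 1 < Nat.card 𝔸) {t : G} (htt : t * t = 1) (ht1 : t ≠ 1)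
    (hn : ∀ K : Subgroup G, K.Normal → t ∈ K → K = ⊤) {u v η : IrrCharacter G} (hu : u ≠ BlockNormal.irrOne G)
    (hv : v ≠ BlockNormal.irrOne G) (huv : u ≠ v) (hX : Xf = {BlockNormal.irrOne G, u, v}) (hη : η ∈ Yf) :
    a u * a v * (-δ) = 1 ∧ ¬ (a u = 1 ∧ a v = 1 ∧ δ = -1) ∧
      IsSquare (charDegree (u : G → ℂ) * charDegree (v : G → ℂ) * charDegree (η : G → ℂ)) := by
  classical
  have ho : orderOf t = 2 := by
    haveI : Fact (Nat.Prime 2) := ⟨Nat.prime_two⟩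
    exact orderOf_eq_prime (by rw [sq]; exact htt) ht1
  have hreg : ¬ p ∣ orderOf t := by
    rw [ho]
    intro h
    exact hp2 ((Nat.prime_dvd_prime_iff_eq hp.out Nat.prime_two).1 h)
  obtain ⟨τu, hτu⟩ := int_of_invol htt ht1 (IsIrrCharacter.isCharacter u.2)
  obtain ⟨τv, hτv⟩ := int_of_invol htt ht1 (IsIrrCharacter.isCharacter v.2)
  obtain ⟨τ, hτ⟩ := int_of_invol htt ht1 (IsIrrCharacter.isCharacter η.2)
  have hun := CharKernel.one_eq_charDegree (IsIrrCharacter.isCharacter u.2)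
  have hvn := CharKernel.one_eq_charDegree (IsIrrCharacter.isCharacter v.2)
  have hηn := CharKernel.one_eq_charDegree (IsIrrCharacter.isCharacter η.2)
  set du := charDegree (u : G → ℂ) with hdu
  set dv := charDegree (v : G → ℂ) with hdv
  set d := charDegree (η : G → ℂ) with hd
  have hdu0 : 0 < du := CharKernel.charDegree_pos u.2
  have hdv0 : 0 < dv := CharKernel.charDegree_pos v.2
  have hd0 : 0 < d := CharKernel.charDegree_pos η.2
  have h1e : ((BlockNormal.irrOne G : IrrCharacter G) : G → ℂ) = fun _ => 1 := rfl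
  -- the linear relations
  have E1 := D.hlin η hη 1 (by simp [hp.out.one_lt.ne'])
  rw [D.sum_X hu hv huv hX, D.ha1, hun, hvn, hηn, h1e] at E1
  have E2 := D.hlin η hη t hreg
  rw [D.sum_X hu hv huv hX, D.ha1, hτu, hτv, hτ, h1e] at E2
  push_cast at E1 E2
  -- an element of `P`
  have hne : Nontrivial 𝔸 := by
    apply Finite.one_lt_card_iff_nontrivial.mp
    omega
  obtain ⟨y, hy⟩ := exists_ne (1 : 𝔸)
  have hyG : (y : G) ≠ 1 := fun h => hy (Subtype.ext h)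
  -- the sum over `Y`
  have hsumY : ∑ η' ∈ Yf, (η' : G → ℂ) y = - (δ : ℂ) := by
    have h2 := SingConst.sum_reg (M := M) hM (H.pelt y.2) hyG (g := 1) (by simp [hp.out.one_lt.ne'])
    rw [D.sum_B₀, D.sum_X hu hv huv hX] at h2
    have hu1 : u ∈ Xf := by rw [hX]; simp
    have hv1 : v ∈ Xf := by rw [hX]; simp
    rw [D.hvX _ D.h1X y hy, D.hvX u hu1 y hy, D.hvX v hv1 y hy, D.ha1, hun, hvn, h1e] at h2
    have h3 : ∑ η' ∈ Yf, (η' : G → ℂ) y * conj ((η' : G → ℂ) 1) = (∑ η' ∈ Yf, (η' : G → ℂ) y) * (d : ℂ) := by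
      rw [Finset.sum_mul]
      refine Finset.sum_congr rfl fun η' hη' => ?_
      rw [D.Y_deg hη' hη, hηn, Complex.conj_natCast]
    rw [h3] at h2
    simp only [map_one, map_natCast] at h2
    push_cast at h2
    have hd1 : (d : ℂ) ≠ 0 := by exact_mod_cast hd0.ne'
    apply mul_right_cancel₀ hd1
    linear_combination h2 - E1
  have E3 : 1 + ((a u : ℂ) * ((τu : ℂ) ^ 2 / du) + (a v : ℂ) * ((τv : ℂ) ^ 2 / dv)) + (-δ : ℂ) * ((τ : ℂ) ^ 2 / d) = 0 := by
    have h2 := Cfsg.Agent.S4722.sum_first_eq_zero (M := M) hM (t := t) (y := (y : G)) htt (H.pelt y.2) (by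
      intro g h3
      apply hy
      have h4 := not_real H hidx y.2 (isConj_iff.2 ⟨_, h3⟩)
      have h5 : orderOf (y : G) ∣ 2 := orderOf_dvd_of_pow_eq_one (by rw [sq]; exact h4)
      obtain ⟨k, hk⟩ := H.pelt y.2
      rw [hk] at h5
      have h6 : k = 0 := by
        by_contra h7
        exact hp2 ((Nat.prime_dvd_prime_iff_eq hp.out Nat.prime_two).1 ((dvd_pow_self p h7).trans h5))
      rw [h6, pow_zero] at hk
      exact Subtype.ext (orderOf_eq_one_iff.mp hk))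
    rw [SingConst.finsum_B₀, D.sum_B₀, D.sum_X hu hv huv hX] at h2
    have hu1 : u ∈ Xf := by rw [hX]; simp
    have hv1 : v ∈ Xf := by rw [hX]; simp
    rw [D.hvX _ D.h1X y hy, D.hvX u hu1 y hy, D.hvX v hv1 y hy, D.ha1, hun, hvn, hτu, hτv, h1e] at h2
    have h3 : ∑ η' ∈ Yf, ((η' : G → ℂ) t ^ 2 / (η' : G → ℂ) 1) * conj ((η' : G → ℂ) y) =
        ((τ : ℂ) ^ 2 / d) * conj (∑ η' ∈ Yf, (η' : G → ℂ) y) := by
      rw [map_sum, Finset.mul_sum]
      refine Finset.sum_congr rfl fun η' hη' => ?_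
      rw [D.Y_deg hη' hη, hηn, D.hagree η' hη' η hη t hreg, hτ]
    rw [h3, hsumY] at h2
    simp only [map_intCast, map_one, map_neg] at h2
    push_cast at h2
    linear_combination h2
  -- the values at `t`
  have hne1 : (τu : ℚ) ≠ du := by
    intro h
    apply hu
    apply eq_one_of_ker hn
    rw [hτu, hun]
    exact_mod_cast h
  have hne2 : (τv : ℚ) ≠ dv := by
    intro h
    apply hv
    apply eq_one_of_ker hn
    rw [hτv, hvn]
    exact_mod_cast h
  have hη1 : η ≠ BlockNormal.irrOne G := by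
    rintro rfl
    exact Finset.disjoint_left.1 D.hD D.h1X hη
  have hne3 : (τ : ℚ) ≠ d := by
    intro h
    apply hη1
    apply eq_one_of_ker hn
    rw [hτ, hηn]
    exact_mod_cast h
  have hE1 : (1 : ℚ) + ((a u : ℚ) * du + (a v : ℚ) * dv) + (-(δ : ℚ)) * d = 0 := by
    have : (((1 : ℚ) + ((a u : ℚ) * du + (a v : ℚ) * dv) + (-(δ : ℚ)) * d : ℚ) : ℂ) = 0 := by
      push_cast
      linear_combination E1
    exact_mod_cast this
  have hE2 : (1 : ℚ) + ((a u : ℚ) * τu + (a v : ℚ) * τv) + (-(δ : ℚ)) * τ = 0 := by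
    have : (((1 : ℚ) + ((a u : ℚ) * τu + (a v : ℚ) * τv) + (-(δ : ℚ)) * τ : ℚ) : ℂ) = 0 := by
      push_cast
      linear_combination E2
    exact_mod_cast this
  have hE3 : (1 : ℚ) + ((a u : ℚ) * ((τu : ℚ) ^ 2 / du) + (a v : ℚ) * ((τv : ℚ) ^ 2 / dv)) + (-(δ : ℚ)) * ((τ : ℚ) ^ 2 / d) = 0 := by
    have : (((1 : ℚ) + ((a u : ℚ) * ((τu : ℚ) ^ 2 / du) + (a v : ℚ) * ((τv : ℚ) ^ 2 / dv)) + (-(δ : ℚ)) * ((τ : ℚ) ^ 2 / d) : ℚ) : ℂ) = 0 := by
      push_cast
      linear_combination E3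
    exact_mod_cast this
  obtain ⟨q, hq⟩ := odd_alg (by exact_mod_cast hdu0.ne') (by exact_mod_cast hdv0.ne') (by exact_mod_cast hd0.ne')
    hne1 hne2 hne3 hE1 hE2 hE3
  have hu1 : u ∈ Xf := by rw [hX]; simp
  have hv1 : v ∈ Xf := by rw [hX]; simp
  have hDQ : (0 : ℚ) < (du : ℚ) * dv * d := by positivity
  have hprod : ((a u * a v * (-δ) : ℤ) : ℚ) * ((du : ℚ) * dv * d) = q ^ 2 := by
    rw [← hq]
    push_cast
    ring
  have hsign : a u * a v * (-δ) = 1 := by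
    have h3 : a u * a v * (-δ) = 1 ∨ a u * a v * (-δ) = -1 := by
      rcases D.hXs u hu1 with h4 | h4 <;> rcases D.hXs v hv1 with h5 | h5 <;> rcases D.hδ with h6 | h6 <;>
        rw [h4, h5, h6] <;> norm_num
    rcases h3 with h3 | h3
    · exact h3
    · exfalso
      rw [h3] at hprod
      have h4 : (0 : ℚ) ≤ q ^ 2 := sq_nonneg q
      rw [← hprod] at h4
      push_cast at h4
      linarith
  refine ⟨hsign, ?_, ?_⟩
  · rintro ⟨h3, h4, h5⟩
    rw [h3, h4, h5] at hE1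
    push_cast at hE1
    have : (0 : ℚ) < 1 + (du : ℚ) + dv + d := by positivity
    linarith
  · rw [hsign] at hprod
    have h3 : IsSquare (((du * dv * d : ℕ)) : ℚ) := by
      refine ⟨q, ?_⟩
      push_cast
      rw [sq] at hprod
      push_cast at hprod
      linarith
    exact Rat.isSquare_natCast_iff.mp h3

end Main

end Cfsg.Agent.Lib.FrobThreeE
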