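import Mathlib
import Cfsg.Agent.Lib.FunctorComplete

/-!
# Completeness of a functor with known closure: the quotient step.
-/

set_option autoImplicit false
set_option linter.unusedSectionVars false
set_option linter.unusedVariables false
set_option linter.style.haveILetI false
set_option linter.unusedSimpArgs false

namespace Cfsg.Agent.Lib.FunctorComplete

open Subgroup
open scoped commutatorElement

universe u v

/-- The data of a functor `θ` on `W` with closure `W`. -/
structure Sys (p : ℕ) {B : Type v} {H : Type u} [Group B] [Group H] (ι : B →* H) (W : Subgroup H)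
    (θ : B → Subgroup H) : Prop where
  solv : Group.IsSolvable ↥W
  cop : ¬ p ∣ Nat.card W
  inv : Inv ι W
  θinv : ∀ x, x ≠ 1 → Inv ι (θ x)
  θle : ∀ x, x ≠ 1 → θ x ≤ W
  θC : ∀ x, x ≠ 1 → θ x ≤ Subgroup.centralizer {ι x}
  func : ∀ x, x ≠ 1 → ∀ y, y ≠ 1 → θ x ⊓ Subgroup.centralizer {ι y} ≤ θ y
  gen : W ≤ ⨆ x : {x : B // x ≠ 1}, θ x

/-- The conclusion, for all systems with a smaller group. -/
def IHyp (p : ℕ) (B : Type v) [Group B] (n : ℕ) : Prop :=
  ∀ (H : Type u) [Group H] [Finite H] (ι : B →* H) (W : Subgroup H) (θ : B → Subgroup H),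
    Nat.card W < n → Sys p ι W θ → ∀ x, x ≠ 1 → W ⊓ Subgroup.centralizer {ι x} ≤ θ x

section quot

variable {p : ℕ} [hp : Fact p.Prime] {B : Type v} [Group B] {H : Type u} [Group H] [Finite H]

theorem solvable_of_le {K W : Subgroup H} (hs : Group.IsSolvable ↥W) (h : K ≤ W) :
    Group.IsSolvable ↥K :=
  Group.isSolvable_of_isSolvable_injective (f := Subgroup.inclusion h) (Subgroup.inclusion_injective h)

theorem not_dvd_of_le {K W : Subgroup H} (hs : ¬ p ∣ Nat.card W) (h : K ≤ W) :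
    ¬ p ∣ Nat.card K := fun hd => hs (hd.trans (Subgroup.card_dvd_of_le h))

/-- The quotient step. -/
theorem qstep (hexp : ∀ b : B, b ^ p = 1) {ι : B →* H} {W : Subgroup H} {θ : B → Subgroup H}
    (IH : IHyp.{u, v} p B (Nat.card W)) (S : Sys p ι W θ) (K : Subgroup H) (hK1 : K ≠ ⊥) (hKW : K ≤ W)
    (hKn : ∀ g ∈ W, ∀ k ∈ K, g * k * g⁻¹ ∈ K) (hKinv : Inv ι K) :
    ∀ x, x ≠ 1 → ∀ c ∈ W, c ∈ Subgroup.centralizer {ι x} → ∃ t ∈ θ x, ∃ n ∈ K, c = t * n := by
  classical
  set M : Subgroup H := normalizer (K : Set H) with hM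
  have hWM : W ≤ M := by
    intro g hg
    rw [hM, Subgroup.mem_normalizer_iff]
    intro n
    refine ⟨hKn g hg n, fun hn => ?_⟩
    have := hKn g⁻¹ (W.inv_mem hg) _ hn
    simpa [mul_assoc] using this
  have hιM : ∀ b, ι b ∈ M := fun b => hKinv.le_normalizer b
  haveI hNorm : (K.subgroupOf M).Normal := Subgroup.normal_in_normalizer
  set π : ↥M →* ↥M ⧸ K.subgroupOf M := QuotientGroup.mk' (K.subgroupOf M) with hπ
  let ι₀ : B →* ↥M := ι.codRestrict M hιM
  let ι' : B →* ↥M ⧸ K.subgroupOf M := π.comp ι₀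
  have hι' : ∀ b, ι' b = π ⟨ι b, hιM b⟩ := fun b => rfl
  let W' : Subgroup (↥M ⧸ K.subgroupOf M) := (W.subgroupOf M).map π
  let θ' : B → Subgroup (↥M ⧸ K.subgroupOf M) := fun x => ((θ x).subgroupOf M).map π
  have hker : ∀ m : ↥M, π m = 1 ↔ (m : H) ∈ K := by
    intro m
    rw [hπ, ← MonoidHom.mem_ker, QuotientGroup.ker_mk', Subgroup.mem_subgroupOf]
  have hπeq : ∀ m m' : ↥M, π m = π m' ↔ (m : H)⁻¹ * m' ∈ K := by
    intro m m'
    constructor
    · intro h
      have : π (m⁻¹ * m') = 1 := by rw [map_mul, map_inv, h]; group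
      have := (hker _).1 this
      simpa using this
    · intro h
      have : π (m⁻¹ * m') = 1 := (hker _).2 (by simpa using h)
      rw [map_mul, map_inv, inv_mul_eq_one] at this
      exact this
  -- the surjection from `W`
  have hsurj : Function.Surjective (π.subgroupMap (W.subgroupOf M)) :=
    π.subgroupMap_surjective _
  have hcardW : Nat.card (W.subgroupOf M) = Nat.card W :=
    Cfsg.Agent.Lib.CoprimeInv.card_subgroupOf_of_le hWM
  have hSys : Sys p ι' W' θ' := by
    refine ⟨?_, ?_, ?_, ?_, ?_, ?_, ?_, ?_⟩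
    · -- solvable
      haveI hsW : Group.IsSolvable ↥W := S.solv
      haveI : Group.IsSolvable ↥(W.subgroupOf M) :=
        Group.isSolvable_of_isSolvable_injective (f := (Subgroup.subgroupOfEquivOfLe hWM).toMonoidHom)
          (Subgroup.subgroupOfEquivOfLe hWM).injective
      exact Group.isSolvable_of_surjective hsurj
    · -- coprime
      intro hd
      apply S.cop
      rw [← hcardW]
      exact hd.trans (Subgroup.card_dvd_of_surjective _ hsurj)
    · rintro b _ ⟨w, hw, rfl⟩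
      refine ⟨⟨ι b, hιM b⟩ * w * ⟨ι b, hιM b⟩⁻¹, ?_, ?_⟩
      · exact S.inv b _ hw
      · simp [hι']
    · intro x hx
      rintro b _ ⟨w, hw, rfl⟩
      refine ⟨⟨ι b, hιM b⟩ * w * ⟨ι b, hιM b⟩⁻¹, ?_, ?_⟩
      · exact S.θinv x hx b _ hw
      · simp [hι']
    · intro x hx
      rintro _ ⟨w, hw, rfl⟩
      exact ⟨w, S.θle x hx hw, rfl⟩
    · intro x hx
      rintro _ ⟨w, hw, rfl⟩
      rw [Subgroup.mem_centralizer_singleton_iff, hι', ← map_mul, ← map_mul]
      congr 1
      apply Subtype.ext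
      exact (Subgroup.mem_centralizer_singleton_iff.mp (S.θC x hx hw))
    · intro x hx y hy
      rintro _ ⟨⟨w, hw, rfl⟩, hc⟩
      have hc' : π w * ι' y = ι' y * π w := Subgroup.mem_centralizer_singleton_iff.mp hc
      have hwθ : (w : H) ∈ θ x := hw
      have hKθ : ¬ p ∣ Nat.card (θ x ⊓ K : Subgroup H) :=
        not_dvd_of_le (not_dvd_of_le S.cop (S.θle x hx)) inf_le_left
      have hB : IsPGroup p (Subgroup.zpowers (ι y)) :=
        by
          rintro ⟨x, k, rfl⟩
          refine ⟨1, Subtype.ext ?_⟩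
          simp only [pow_one, SubgroupClass.coe_pow, OneMemClass.coe_one]
          change (ι y ^ k) ^ p = 1
          rw [← zpow_natCast, ← zpow_mul, mul_comm, zpow_mul, zpow_natCast, ← map_pow, hexp, map_one, one_zpow]
      have hιzp : ∀ b ∈ Subgroup.zpowers (ι y), ∃ n : ℤ, b = ι (y ^ n) := by
        rintro b ⟨n, rfl⟩
        exact ⟨n, by simp⟩
      have hInvK : Inv ι (θ x ⊓ K) := (S.θinv x hx).inf hKinv
      obtain ⟨u, hu, hfix⟩ := Cfsg.Agent.Lib.CoprimeHyper.exists_fixed_in_coset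
        (Subgroup.zpowers (ι y)) (θ x ⊓ K) hB hKθ (by
          intro b hb k hk
          obtain ⟨n, rfl⟩ := hιzp b hb
          exact hInvK _ k hk) (w : H) (by
          intro b hb
          obtain ⟨n, rfl⟩ := hιzp b hb
          refine ⟨(θ x).mul_mem ((θ x).inv_mem hwθ) (S.θinv x hx _ _ hwθ), ?_⟩
          have h1 : π w * ι' (y ^ n) = ι' (y ^ n) * π w := by
            rw [map_zpow]
            exact ((show Commute (π w) (ι' y) from hc').zpow_right n)
          have h2 : π w = π (⟨ι (y ^ n), hιM _⟩ * w * ⟨ι (y ^ n), hιM _⟩⁻¹) := by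
            rw [map_mul, map_mul, map_inv, ← hι', ← h1]; group
          exact (hπeq _ _).1 h2)
      have htC : (w : H) * u ∈ Subgroup.centralizer {ι y} := by
        rw [Subgroup.mem_centralizer_singleton_iff]
        have := hfix (ι y) (Subgroup.mem_zpowers _)
        calc (w : H) * u * ι y = ι y * ((w : H) * u) * (ι y)⁻¹ * ι y := by rw [this]
          _ = ι y * ((w : H) * u) := by group
      have htθ : (w : H) * u ∈ θ y := S.func x hx y hy ⟨(θ x).mul_mem hwθ hu.1, htC⟩
      have hM' : (w : H) * u ∈ M := M.mul_mem w.2 (hWM (S.θle x hx hu.1))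
      refine ⟨⟨(w : H) * u, hM'⟩, htθ, ?_⟩
      refine (hπeq _ _).2 ?_
      show ((w : H) * u)⁻¹ * (w : H) ∈ K
      have : ((w : H) * u)⁻¹ * (w : H) = u⁻¹ := by group
      rw [this]
      exact K.inv_mem hu.2
    · -- closure
      set T : Subgroup (↥M ⧸ K.subgroupOf M) := ⨆ x : {x : B // x ≠ 1}, θ' x with hT
      have h1 : W ≤ (T.comap π).map M.subtype := by
        refine le_trans S.gen (iSup_le ?_)
        rintro ⟨x, hx⟩ t ht
        have htM := hWM (S.θle x hx ht)
        refine ⟨⟨t, htM⟩, ?_, rfl⟩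
        show π ⟨t, htM⟩ ∈ T
        exact (le_iSup (fun x : {x : B // x ≠ 1} => θ' x) ⟨x, hx⟩) ⟨⟨t, htM⟩, ht, rfl⟩
      rintro _ ⟨w, hw, rfl⟩
      obtain ⟨w', hw', he⟩ := h1 hw
      have : w' = w := Subtype.ext he
      rw [← this]
      exact hw'
  have hlt : Nat.card W' < Nat.card W := by
    by_contra hge
    push Not at hge
    have hbij := hsurj.bijective_of_nat_card_le (by rw [hcardW]; exact hge)
    obtain ⟨k, hk, hk1⟩ := (Subgroup.bot_or_exists_ne_one K).resolve_left hK1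
    have hkM : k ∈ M := hWM (hKW hk)
    have hk2 : (⟨⟨k, hkM⟩, hKW hk⟩ : ↥(W.subgroupOf M)) = 1 := by
      apply hbij.1
      apply Subtype.ext
      show π ⟨k, hkM⟩ = π 1
      rw [map_one]
      exact (hker _).2 hk
    apply hk1
    have := congrArg (fun z : ↥(W.subgroupOf M) => ((z : ↥M) : H)) hk2
    simpa using this
  intro x hx c hcW hcC
  have hcM := hWM hcW
  have h1 : π ⟨c, hcM⟩ ∈ W' ⊓ Subgroup.centralizer {ι' x} := by
    refine ⟨⟨⟨c, hcM⟩, hcW, rfl⟩, ?_⟩
    change π ⟨c, hcM⟩ ∈ Subgroup.centralizer {ι' x}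
    rw [Subgroup.mem_centralizer_singleton_iff, hι', ← map_mul, ← map_mul]
    congr 1
    apply Subtype.ext
    exact Subgroup.mem_centralizer_singleton_iff.mp hcC
  obtain ⟨t, ht, hte⟩ := IH _ ι' W' θ' hlt hSys x hx h1
  refine ⟨t, ht, (t : H)⁻¹ * c, (hπeq _ _).1 hte, by group⟩

end quot

end Cfsg.Agent.Lib.FunctorComplete
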