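import Mathlib
import Cfsg.Agent.Lib.FunctorCompleteB

/-!
# Completeness of a functor with known closure: the main induction.
-/

set_option autoImplicit false
set_option linter.unusedSectionVars false
set_option linter.unusedVariables false
set_option linter.style.haveILetI false
set_option linter.unusedSimpArgs false

namespace Cfsg.Agent.Lib.FunctorComplete

open Subgroup
open scoped commutatorElement

universe u v

/-- Averaging over a finite group acting on a commutative group. -/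
theorem avg_exists {A : Type*} [CommGroup A] {Y : Type*} [Group Y] [Fintype Y]
    (c : Y → A →* A) (hc : ∀ y z a, c y (c z a) = c (y * z) a) :
    ∃ P : A →* A, (∀ a, P a = ∏ y, c y a) ∧ (∀ z a, c z (P a) = P a) := by
  classical
  refine ⟨∏ y, c y, ?_, ?_⟩
  · intro a
    rw [MonoidHom.finsetProd_apply]
  · intro z a
    rw [MonoidHom.finsetProd_apply, map_prod]
    simp only [hc]
    exact Fintype.prod_equiv (Equiv.mulLeft z) _ _ (fun y => rfl)

section main

variable {p : ℕ} [hp : Fact p.Prime] {B : Type v} [Group B] [Finite B] {H : Type u} [Group H]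
  [Finite H] {ι : B →* H} {W : Subgroup H} {θ : B → Subgroup H}

theorem piece_mem (S : Sys p ι W θ) {y : B} (hy : y ≠ 1) {Y : Subgroup B} {t : H} (ht : t ∈ θ y)
    (htC : t ∈ Subgroup.centralizer ((Y.map ι : Subgroup H) : Set H)) {h : B} (hY : h ∈ Y)
    (h1 : h ≠ 1) : t ∈ θ h :=
  S.func y hy h h1 ⟨ht, by
    show t ∈ Subgroup.centralizer {ι h}
    rw [Subgroup.mem_centralizer_singleton_iff]
    exact (Subgroup.mem_centralizer_iff.mp htC (ι h) ⟨h, hY, rfl⟩).symm⟩

theorem le_normalizer_of_pieces (hcomm : ∀ a b : B, a * b = b * a) (hexp : ∀ b : B, b ^ p = 1)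
    (hcard : Nat.card B = p ^ 3) (S : Sys p ι W θ) (K : Subgroup H)
    (hall : ∀ y, y ≠ 1 → ∀ Y : Subgroup B, p ^ 2 ≤ Nat.card Y → ∀ t ∈ θ y,
      t ∈ Subgroup.centralizer ((Y.map ι : Subgroup H) : Set H) → ∀ u ∈ K, t * u * t⁻¹ ∈ K) :
    ∀ g ∈ W, ∀ u ∈ K, g * u * g⁻¹ ∈ K := by
  have h : W ≤ normalizer (K : Set H) := by
    refine le_trans S.gen (iSup_le ?_)
    rintro ⟨y, hy⟩
    have hgen := gen_general hcomm hexp ι ⊤ 2 (by rw [Subgroup.card_top, hcard])
      (θ y) (not_dvd_of_le S.cop (S.θle y hy)) (S.θinv y hy)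
    refine le_trans hgen (iSup_le ?_)
    rintro ⟨Y', _hYt, hY'⟩ t ⟨ht, htC⟩
    rw [Subgroup.mem_normalizer_iff]
    intro n
    refine ⟨hall y hy Y' hY' t ht htC n, fun hn => ?_⟩
    have := hall y hy Y' hY' t⁻¹ ((θ y).inv_mem ht) (Subgroup.inv_mem _ htC) _ hn
    simpa [mul_assoc] using this
  intro g hg u hu
  exact (Subgroup.mem_normalizer_iff.mp (h hg) u).mp hu

theorem mem_of_pow_mem {K : Subgroup H} {v : H} {m : ℕ} (hcop : Nat.Coprime m (orderOf v))
    (h : v ^ m ∈ K) : v ∈ K := by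
  have h1 := Nat.gcd_eq_gcd_ab m (orderOf v)
  rw [hcop] at h1
  have h2 : v = (v ^ m) ^ (Nat.gcdA m (orderOf v)) := by
    have h3 : v ^ ((m : ℤ) * Nat.gcdA m (orderOf v) + (orderOf v : ℤ) * Nat.gcdB m (orderOf v))
        = v := by
      rw [← h1]
      simp
    rw [zpow_add, zpow_mul (v) (orderOf v : ℤ), zpow_natCast v (orderOf v), pow_orderOf_eq_one,
      one_zpow, mul_one, zpow_mul, zpow_natCast] at h3
    exact h3.symm
  rw [h2]
  exact K.zpow_mem h _

/-- Case A: an abelian piece generated by its intersections with the `θ z`. -/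
theorem abelian_fixed (hcomm : ∀ a b : B, a * b = b * a) (hexp : ∀ b : B, b ^ p = 1)
    (hcard : Nat.card B = p ^ 3) (S : Sys p ι W θ) (N : Subgroup H) (hNW : N ≤ W)
    (hNinv : Inv ι N) (hab : ∀ a ∈ N, ∀ b ∈ N, a * b = b * a)
    (hNgen : N ≤ ⨆ z : {z : B // z ≠ 1}, N ⊓ θ z) (x : B) (hx : x ≠ 1) :
    N ⊓ Subgroup.centralizer {ι x} ≤ θ x := by
  classical
  have hNp : ¬ p ∣ Nat.card N := not_dvd_of_le S.cop hNW
  have hT : ∀ Y : Subgroup B, p ^ 2 ≤ Nat.card Y → ∀ h ∈ Y, h ≠ 1 → ∀ v ∈ N,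
      v ∈ Subgroup.centralizer ((Y.map ι : Subgroup H) : Set H) → v ∈ θ h := by
    intro Y hY h hhY hh1 v hvN hvC
    letI cN : CommGroup ↥N :=
      { (inferInstance : Group ↥N) with
        mul_comm := fun a b => Subtype.ext (hab a a.2 b b.2) }
    let c : ↥Y → (↥N →* ↥N) := fun e =>
      { toFun := fun a => ⟨ι e * a * (ι e)⁻¹, hNinv e a a.2⟩
        map_one' := by
          apply Subtype.ext
          show ι (e : B) * ((1 : ↥N) : H) * (ι (e : B))⁻¹ = 1
          simp
        map_mul' := by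
          intro a b
          apply Subtype.ext
          show ι (e : B) * ((a * b : ↥N) : H) * (ι (e : B))⁻¹ = _ * _
          show ι (e : B) * ((a : H) * (b : H)) * (ι (e : B))⁻¹
            = (ι (e : B) * (a : H) * (ι (e : B))⁻¹) * (ι (e : B) * (b : H) * (ι (e : B))⁻¹)
          group }
    have hc : ∀ y z a, c y (c z a) = c (y * z) a := by
      intro y z a
      apply Subtype.ext
      show ι (y : B) * (ι (z : B) * (a : H) * (ι (z : B))⁻¹) * (ι (y : B))⁻¹
        = ι ((y : B) * (z : B)) * (a : H) * (ι ((y : B) * (z : B)))⁻¹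
      rw [map_mul]
      group
    letI : Fintype ↥Y := Fintype.ofFinite _
    obtain ⟨P, hP, hPfix⟩ := avg_exists c hc
    -- images lie in `θ f` when the argument does
    have hPmem : ∀ f, f ≠ 1 → ∀ a : ↥N, (a : H) ∈ θ f → ((P a : ↥N) : H) ∈ θ f := by
      intro f hf a ha
      have h1 : P a ∈ (θ f).subgroupOf N := by
        rw [hP]
        refine Subgroup.prod_mem _ ?_
        intro e _
        exact S.θinv f hf e _ ha
      exact h1
    have hPc : ∀ a : ↥N, ((P a : ↥N) : H) ∈ Subgroup.centralizer {ι h} := by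
      intro a
      have h1 := hPfix ⟨h, hhY⟩ a
      have h2 : ι h * ((P a : ↥N) : H) * (ι h)⁻¹ = ((P a : ↥N) : H) := congrArg Subtype.val h1
      rw [Subgroup.mem_centralizer_singleton_iff]
      calc ((P a : ↥N) : H) * ι h = ι h * ((P a : ↥N) : H) * (ι h)⁻¹ * ι h := by rw [h2]
        _ = ι h * ((P a : ↥N) : H) := by group
    -- the comap subgroup is everything
    let Z : Subgroup ↥N := ((θ h).subgroupOf N).comap P
    have hZ : N ≤ Z.map N.subtype := by
      refine le_trans hNgen (iSup_le ?_)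
      rintro ⟨z, hz⟩
      have hgen := gen_general hcomm hexp ι ⊤ 2 (by rw [Subgroup.card_top, hcard])
        (N ⊓ θ z) (not_dvd_of_le hNp inf_le_left) (hNinv.inf (S.θinv z hz))
      refine le_trans hgen (iSup_le ?_)
      rintro ⟨Y', _hYt, hY'⟩ u ⟨⟨huN, huθ⟩, huC⟩
      obtain ⟨f, hfY, hfY', hf1⟩ := exists_inter hcomm hcard hY hY'
      have huf : u ∈ θ f := piece_mem S hz huθ huC hfY' hf1
      refine ⟨⟨u, huN⟩, ?_, rfl⟩
      show ((P ⟨u, huN⟩ : ↥N) : H) ∈ θ h
      exact S.func f hf1 h hh1 ⟨hPmem f hf1 _ huf, hPc _⟩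
    have hvZ : (⟨v, hvN⟩ : ↥N) ∈ Z := by
      obtain ⟨w, hw, he⟩ := hZ hvN
      have : w = ⟨v, hvN⟩ := Subtype.ext he
      rwa [← this]
    have hPv : P ⟨v, hvN⟩ = ⟨v, hvN⟩ ^ Fintype.card ↥Y := by
      rw [hP]
      have : ∀ e : ↥Y, c e ⟨v, hvN⟩ = ⟨v, hvN⟩ := by
        intro e
        apply Subtype.ext
        show ι (e : B) * v * (ι (e : B))⁻¹ = v
        have h1 := Subgroup.mem_centralizer_iff.mp hvC (ι e) ⟨e, e.2, rfl⟩
        rw [h1]
        group
      simp only [this]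
      rw [Finset.prod_const, Finset.card_univ]
    have hvpow : v ^ Fintype.card ↥Y ∈ θ h := by
      have h1 : ((P ⟨v, hvN⟩ : ↥N) : H) ∈ θ h := hvZ
      rw [hPv] at h1
      exact h1
    refine mem_of_pow_mem ?_ hvpow
    -- coprimality
    have hYp : IsPGroup p ↥Y := fun y => ⟨1, Subtype.ext (by simpa using hexp y)⟩
    obtain ⟨n, hn⟩ := IsPGroup.iff_card.mp hYp
    rw [← Nat.card_eq_fintype_card, hn]
    apply Nat.Coprime.pow_left
    rw [Nat.Prime.coprime_iff_not_dvd hp.out]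
    intro hd
    apply hNp
    have h2 : orderOf v ∣ Nat.card N := by
      rw [← Subgroup.orderOf_mk v hvN]
      exact orderOf_dvd_natCard _
    exact hd.trans h2
  -- conclude
  have hU : Inv ι (N ⊓ Subgroup.centralizer {ι x}) := hNinv.inf (Inv.centralizer ι hcomm x)
  have hgen := gen_general hcomm hexp ι ⊤ 2 (by rw [Subgroup.card_top, hcard])
    (N ⊓ Subgroup.centralizer {ι x}) (not_dvd_of_le hNp inf_le_left) hU
  refine le_trans hgen (iSup_le ?_)
  rintro ⟨Y', _hYt, hY'⟩ v ⟨⟨hvN, hvx⟩, hvC⟩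
  have hle : Y' ≤ Y' ⊔ Subgroup.zpowers x := le_sup_left
  have hcardY : p ^ 2 ≤ Nat.card (Y' ⊔ Subgroup.zpowers x : Subgroup B) :=
    le_trans hY' (Subgroup.card_le_of_le hle)
  refine hT (Y' ⊔ Subgroup.zpowers x) hcardY x
    ((le_sup_right : Subgroup.zpowers x ≤ Y' ⊔ Subgroup.zpowers x) (Subgroup.mem_zpowers x)) hx v hvN ?_
  rw [Subgroup.mem_centralizer_iff]
  rintro _ ⟨b, hb, rfl⟩
  have hE : Y' ⊔ Subgroup.zpowers x ≤ (Subgroup.centralizer {v}).comap ι := by
    refine sup_le ?_ ?_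
    · intro b hb
      rw [Subgroup.mem_comap, Subgroup.mem_centralizer_singleton_iff]
      exact Subgroup.mem_centralizer_iff.mp hvC (ι b) ⟨b, hb, rfl⟩
    · rw [Subgroup.zpowers_le, Subgroup.mem_comap, Subgroup.mem_centralizer_singleton_iff]
      exact (Subgroup.mem_centralizer_singleton_iff.mp hvx).symm
  have := hE hb
  rw [Subgroup.mem_comap, Subgroup.mem_centralizer_singleton_iff] at this
  exact this

end main

end Cfsg.Agent.Lib.FunctorComplete
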