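import Mathlib
import Cfsg.Agent.Lib.FunctorCompleteC

/-!
# Completeness of a functor with known closure: the main theorem.
-/

set_option autoImplicit false
set_option linter.unusedSectionVars false
set_option linter.unusedVariables false
set_option linter.style.haveILetI false
set_option linter.unusedSimpArgs false

namespace Cfsg.Agent.Lib.FunctorComplete

open Subgroup
open scoped commutatorElement

universe u v

section main

variable {p : ℕ} [hp : Fact p.Prime] {B : Type v} [Group B] [Finite B] {H : Type u} [Group H]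
  [Finite H] {ι : B →* H} {W : Subgroup H} {θ : B → Subgroup H}

/-- Nontrivial `B`-invariant normal subgroups of `W`. -/
structure BN (ι : B →* H) (W K : Subgroup H) : Prop where
  ne : K ≠ ⊥
  le : K ≤ W
  norm : ∀ g ∈ W, ∀ k ∈ K, g * k * g⁻¹ ∈ K
  inv : Inv ι K

theorem comm_ne_self (hs : Group.IsSolvable ↥W) {K : Subgroup H} (hKW : K ≤ W) (hK : K ≠ ⊥) :
    ⁅K, K⁆ ≠ K := by
  intro h
  have hne : K.subgroupOf W ≠ ⊥ := by
    intro hb
    apply hK
    rw [eq_bot_iff]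
    intro k hk
    have : (⟨k, hKW hk⟩ : ↥W) ∈ K.subgroupOf W := hk
    rw [hb, Subgroup.mem_bot] at this
    exact congrArg Subtype.val this
  have hlt := Group.IsSolvable.commutator_lt_of_ne_bot hne
  apply hlt.ne
  apply Subgroup.map_injective W.subtype_injective
  rw [Subgroup.map_commutator, Subgroup.subgroupOf_map_subtype, inf_eq_left.mpr hKW, h]

theorem conj_comm_mem {K : Subgroup H} {g : H} (h : ∀ k ∈ K, g * k * g⁻¹ ∈ K) :
    ∀ c ∈ ⁅K, K⁆, g * c * g⁻¹ ∈ ⁅K, K⁆ := by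
  have hle : ⁅K, K⁆ ≤ (⁅K, K⁆).comap (MulAut.conj g).toMonoidHom := by
    rw [Subgroup.commutator_le]
    intro a ha b hb
    show g * ⁅a, b⁆ * g⁻¹ ∈ ⁅K, K⁆
    have : g * ⁅a, b⁆ * g⁻¹ = ⁅g * a * g⁻¹, g * b * g⁻¹⁆ := by
      simp only [commutatorElement_def]
      group
    rw [this]
    exact Subgroup.commutator_mem_commutator (h a ha) (h b hb)
  exact fun c hc => hle hc

theorem card_lt_aux {K L : Subgroup H} (hle : K ≤ L) (hne : K ≠ L) : Nat.card K < Nat.card L := by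
  refine lt_of_le_of_ne (Subgroup.card_le_of_le hle) ?_
  intro h
  exact hne (Subgroup.eq_of_le_of_card_ge hle h.ge)

/-- Case B: no intersection of `N` with a `θ x`: contradiction. -/
theorem caseB (hcomm : ∀ a b : B, a * b = b * a) (hexp : ∀ b : B, b ^ p = 1)
    (hcard : Nat.card B = p ^ 3) (IH : IHyp.{u, v} p B (Nat.card W)) (S : Sys p ι W θ)
    (hW : W ≠ ⊥) {N : Subgroup H} (hN : BN ι W N) (hNbot : ∀ y, y ≠ 1 → N ⊓ θ y = ⊥) : False := by
  have hp2 : p ^ 2 ≤ Nat.card B := by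
    rw [hcard]
    exact Nat.pow_le_pow_right hp.out.pos (by norm_num)
  have hNW : N ≠ W := by
    intro he
    apply hW
    rw [eq_bot_iff]
    refine le_trans S.gen (iSup_le ?_)
    rintro ⟨x, hx⟩ t ht
    have h1 : t ∈ N ⊓ θ x := ⟨he ▸ S.θle x hx ht, ht⟩
    rw [hNbot x hx] at h1
    exact h1
  -- every proper invariant subgroup containing `N` equals `N`
  have B1 : ∀ L : Subgroup H, L ≤ W → (∀ g ∈ W, ∀ k ∈ L, g * k * g⁻¹ ∈ L) → Inv ι L → N ≤ L → L ≠ W →
      L ≤ N := by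
    intro L hLW hLn hLinv hNL hLne
    let R : B → Subgroup H := fun h => θ h ⊓ L
    let Rt : Subgroup H := ⨆ h : {h : B // h ≠ 1}, R h
    have hRtL : Rt ≤ L := iSup_le fun h => inf_le_right
    have hRtW : Rt ≤ W := hRtL.trans hLW
    have hRle : ∀ h, h ≠ 1 → R h ≤ Rt := fun h hh => le_iSup (fun h : {h : B // h ≠ 1} => R h) ⟨h, hh⟩
    have hRinv : ∀ h, h ≠ 1 → Inv ι (R h) := fun h hh => (S.θinv h hh).inf hLinv
    have hRtinv : Inv ι Rt := Inv.iSup fun h => hRinv h h.2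
    have hSR : Sys p ι Rt R := by
      refine ⟨solvable_of_le S.solv hRtW, not_dvd_of_le S.cop hRtW, hRtinv, hRinv, hRle, ?_, ?_, le_rfl⟩
      · intro x hx
        exact inf_le_left.trans (S.θC x hx)
      · intro x hx y hy t ht
        exact ⟨S.func x hx y hy ⟨ht.1.1, ht.2⟩, ht.1.2⟩
    have hlt : Nat.card Rt < Nat.card W := by
      refine lt_of_le_of_lt (Subgroup.card_le_of_le hRtL) (card_lt_aux hLW hLne)
    have IHR := IH H ι Rt R hlt hSR
    -- `Rt` meets `N` trivially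
    have hRtN : Rt ⊓ N = ⊥ := by
      apply eq_bot_of_no_fixed hcomm hexp hp2 ι (Rt ⊓ N)
        (not_dvd_of_le S.cop (inf_le_left.trans hRtW)) (hRtinv.inf hN.inv)
      intro h hh
      rw [eq_bot_iff]
      rintro v ⟨⟨hv1, hv2⟩, hv3⟩
      have h1 := IHR h hh ⟨hv1, hv3⟩
      have h2 : v ∈ N ⊓ θ h := ⟨hv2, h1.1⟩
      rw [hNbot h hh] at h2
      exact h2
    -- `Rt` is normal in `W`
    have hRtn : ∀ g ∈ W, ∀ u ∈ Rt, g * u * g⁻¹ ∈ Rt := by
      apply le_normalizer_of_pieces hcomm hexp hcard S Rt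
      intro y hy Y hY t ht htC
      have hgen := gen_rank2 hcomm hexp ι Y hY Rt (not_dvd_of_le S.cop hRtW) hRtinv
      have hle : Rt ≤ Rt.comap (MulAut.conj t).toMonoidHom := by
        refine le_trans hgen (iSup_le ?_)
        rintro ⟨h, hhY, hh1⟩ u hu
        have h1 : u ∈ R h := IHR h hh1 hu
        have htθ : t ∈ θ h := piece_mem S hy ht htC hhY hh1
        refine hRle h hh1 ⟨?_, ?_⟩
        · exact (θ h).mul_mem ((θ h).mul_mem htθ h1.1) ((θ h).inv_mem htθ)
        · exact hLn t (S.θle y hy ht) u h1.2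
      exact fun u hu => hle hu
    by_cases hRt : Rt = ⊥
    · -- the fixed points of `L` lie in `N`
      have hθL : ∀ h, h ≠ 1 → ∀ t, t ∈ θ h → t ∈ L → t = 1 := by
        intro h hh t ht htL
        have h1 : t ∈ Rt := hRle h hh ⟨ht, htL⟩
        rw [hRt, Subgroup.mem_bot] at h1
        exact h1
      have hgen := gen_rank2 hcomm hexp ι ⊤ (by rwa [Subgroup.card_top]) L
        (not_dvd_of_le S.cop hLW) hLinv
      refine le_trans hgen (iSup_le ?_)
      rintro ⟨h, _hhT, hh⟩ c ⟨hcL, hcC⟩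
      obtain ⟨t, ht, n, hn, rfl⟩ := qstep hexp IH S N hN.ne hN.le hN.norm hN.inv h hh c (hLW hcL) hcC
      have htL : t ∈ L := by
        have : t = t * n * n⁻¹ := by group
        rw [this]
        exact L.mul_mem hcL (L.inv_mem (hNL hn))
      rw [hθL h hh t ht htL, one_mul]
      exact hn
    · exfalso
      apply hN.ne
      apply eq_bot_of_no_fixed hcomm hexp hp2 ι N (not_dvd_of_le S.cop hN.le) hN.inv
      intro x hx
      rw [eq_bot_iff]
      rintro c ⟨hcN, hcC⟩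
      obtain ⟨t, ht, n, hn, rfl⟩ := qstep hexp IH S Rt hRt hRtW hRtn hRtinv x hx c (hN.le hcN) hcC
      have htL : t ∈ L := by
        have : t = t * n * n⁻¹ := by group
        rw [this]
        exact L.mul_mem (hNL hcN) (L.inv_mem (hRtL hn))
      have htR : t ∈ Rt := hRle x hx ⟨ht, htL⟩
      have h1 : t * n ∈ Rt ⊓ N := ⟨Rt.mul_mem htR hn, hcN⟩
      rw [hRtN] at h1
      exact h1
  -- `W / N` is abelian
  have hcomN : ⁅W, W⁆ ≤ N := by
    have hW' : ∀ g ∈ W, ∀ k ∈ ⁅W, W⁆ ⊔ N, g * k * g⁻¹ ∈ ⁅W, W⁆ ⊔ N := by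
      intro g hg k hk
      have hle : ⁅W, W⁆ ⊔ N ≤ (⁅W, W⁆ ⊔ N).comap (MulAut.conj g).toMonoidHom := by
        refine sup_le (fun x hx => ?_) (fun x hx => ?_)
        · exact (le_sup_left : ⁅W, W⁆ ≤ ⁅W, W⁆ ⊔ N)
            (conj_comm_mem (fun k hk => W.mul_mem (W.mul_mem hg hk) (W.inv_mem hg)) x hx)
        · exact (le_sup_right : N ≤ ⁅W, W⁆ ⊔ N) (hN.norm g hg x hx)
      exact hle hk
    have hWinv : Inv ι ⁅W, W⁆ := fun b c hc => conj_comm_mem (fun k hk => S.inv b k hk) c hc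
    have hle : ⁅W, W⁆ ⊔ N ≤ W := sup_le (Subgroup.commutator_le_self W) hN.le
    have hne : ⁅W, W⁆ ⊔ N ≠ W := by
      intro he
      -- pass to the quotient
      haveI hn : (N.subgroupOf W).Normal := by
        constructor
        intro n hn g
        exact hN.norm g g.2 n hn
      haveI hsW : Group.IsSolvable ↥W := S.solv
      let π := QuotientGroup.mk' (N.subgroupOf W)
      have hπs : Function.Surjective π := QuotientGroup.mk'_surjective _
      have hQs : Group.IsSolvable (↥W ⧸ N.subgroupOf W) := Group.isSolvable_of_surjective hπs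
      have htop : ⁅(⊤ : Subgroup ↥W), (⊤ : Subgroup ↥W)⁆ ⊔ N.subgroupOf W = (⊤ : Subgroup ↥W) := by
        apply Subgroup.map_injective W.subtype_injective
        rw [Subgroup.map_sup, Subgroup.map_commutator, Subgroup.subgroupOf_map_subtype,
          inf_eq_left.mpr hN.le, ← MonoidHom.range_eq_map, Subgroup.range_subtype, he]
      have hπtop : (⊤ : Subgroup ↥W).map π = ⊤ := by
        rw [← MonoidHom.range_eq_map, MonoidHom.range_eq_top]
        exact hπs
      have hq : ⁅(⊤ : Subgroup (↥W ⧸ N.subgroupOf W)), (⊤ : Subgroup (↥W ⧸ N.subgroupOf W))⁆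
          = (⊤ : Subgroup (↥W ⧸ N.subgroupOf W)) := by
        have h1 := congrArg (Subgroup.map π) htop
        rw [Subgroup.map_sup, Subgroup.map_commutator, hπtop] at h1
        have h2 : (N.subgroupOf W).map π = ⊥ := QuotientGroup.map_mk'_self _
        rw [h2, sup_bot_eq] at h1
        exact h1
      by_cases hnt : Nontrivial (↥W ⧸ N.subgroupOf W)
      · have := Group.IsSolvable.commutator_lt_top_of_nontrivial (↥W ⧸ N.subgroupOf W)
        exact this.ne hq
      · rw [not_nontrivial_iff_subsingleton] at hnt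
        apply hNW
        refine le_antisymm hN.le ?_
        intro w hw
        have h1 : π ⟨w, hw⟩ = 1 := Subsingleton.elim _ _
        rw [← MonoidHom.mem_ker, QuotientGroup.ker_mk'] at h1
        exact h1
    have := B1 (⁅W, W⁆ ⊔ N) hle hW' (hWinv.sup hN.inv) le_sup_right hne
    exact le_sup_left.trans this
  -- a non-trivial value of the functor
  have hex : ∃ x, x ≠ 1 ∧ θ x ≠ ⊥ := by
    by_contra hno
    push Not at hno
    apply hW
    rw [eq_bot_iff]
    refine le_trans S.gen (iSup_le ?_)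
    rintro ⟨x, hx⟩
    exact (hno x hx).le
  obtain ⟨x₀, hx₀, hθ₀⟩ := hex
  set D : Subgroup H := (W ⊓ Subgroup.centralizer {ι x₀}) ⊔ N with hD
  have hDW : D ≤ W := sup_le inf_le_left hN.le
  have hND : N ≤ D := le_sup_right
  have hDn : ∀ g ∈ W, ∀ k ∈ D, g * k * g⁻¹ ∈ D := by
    intro g hg k hk
    have h1 : ⁅g, k⁆ ∈ N := hcomN (Subgroup.commutator_mem_commutator hg (hDW hk))
    have h2 : g * k * g⁻¹ = ⁅g, k⁆ * k := by
      simp only [commutatorElement_def]
      group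
    rw [h2]
    exact D.mul_mem (hND h1) hk
  have hDinv : Inv ι D := (S.inv.inf (Inv.centralizer ι hcomm x₀)).sup hN.inv
  have hDeq : D = W := by
    by_contra hne
    have h1 := B1 D hDW hDn hDinv hND hne
    apply hθ₀
    rw [eq_bot_iff]
    intro t ht
    have h2 : t ∈ D := (le_sup_left : W ⊓ Subgroup.centralizer {ι x₀} ≤ D)
      ⟨S.θle x₀ hx₀ ht, S.θC x₀ hx₀ ht⟩
    have h3 : t ∈ N ⊓ θ x₀ := ⟨h1 h2, ht⟩
    rw [hNbot x₀ hx₀] at h3
    exact h3
  -- `x₀` acts trivially on `W / N`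
  let E : Subgroup H :=
    { carrier := {w | w ∈ W ∧ ι x₀ * w * (ι x₀)⁻¹ * w⁻¹ ∈ N}
      one_mem' := ⟨W.one_mem, by simp⟩
      mul_mem' := by
        rintro a b ⟨ha, ha'⟩ ⟨hb, hb'⟩
        refine ⟨W.mul_mem ha hb, ?_⟩
        have : ι x₀ * (a * b) * (ι x₀)⁻¹ * (a * b)⁻¹
            = (ι x₀ * a * (ι x₀)⁻¹ * a⁻¹) * (a * (ι x₀ * b * (ι x₀)⁻¹ * b⁻¹) * a⁻¹) := by group
        rw [this]
        exact N.mul_mem ha' (hN.norm a ha _ hb')
      inv_mem' := by
        rintro a ⟨ha, ha'⟩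
        refine ⟨W.inv_mem ha, ?_⟩
        have : ι x₀ * a⁻¹ * (ι x₀)⁻¹ * a⁻¹⁻¹ = a⁻¹ * (ι x₀ * a * (ι x₀)⁻¹ * a⁻¹)⁻¹ * a⁻¹⁻¹ := by group
        rw [this]
        exact hN.norm _ (W.inv_mem ha) _ (N.inv_mem ha') }
  have hDE : D ≤ E := by
    refine sup_le ?_ ?_
    · rintro w ⟨hw, hwC⟩
      refine ⟨hw, ?_⟩
      have h1 : w * ι x₀ = ι x₀ * w := Subgroup.mem_centralizer_singleton_iff.mp hwC
      have : ι x₀ * w * (ι x₀)⁻¹ * w⁻¹ = 1 := by
        rw [← h1]; group
      rw [this]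
      exact N.one_mem
    · intro n hn
      refine ⟨hN.le hn, ?_⟩
      exact N.mul_mem (hN.inv x₀ n hn) (N.inv_mem hn)
  have hall : ∀ y, y ≠ 1 → θ y ≤ θ x₀ := by
    intro y hy t ht
    have htW := S.θle y hy ht
    have h1 : t ∈ E := hDE (hDeq ▸ htW)
    have h2 : ι x₀ * t * (ι x₀)⁻¹ * t⁻¹ ∈ N ⊓ θ y :=
      ⟨h1.2, (θ y).mul_mem (S.θinv y hy x₀ t ht) ((θ y).inv_mem ht)⟩
    rw [hNbot y hy, Subgroup.mem_bot] at h2
    refine S.func y hy x₀ hx₀ ⟨ht, ?_⟩
    show t ∈ Subgroup.centralizer {ι x₀}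
    rw [Subgroup.mem_centralizer_singleton_iff]
    have h3 : ι x₀ * t * (ι x₀)⁻¹ = t := by
      rw [mul_inv_eq_one] at h2
      exact h2
    calc t * ι x₀ = ι x₀ * t * (ι x₀)⁻¹ * ι x₀ := by rw [h3]
      _ = ι x₀ * t := by group
  have hWθ : W ≤ θ x₀ := le_trans S.gen (iSup_le fun y => hall y y.2)
  apply hN.ne
  rw [eq_bot_iff]
  intro n hn
  have h1 : n ∈ N ⊓ θ x₀ := ⟨hn, hWθ (hN.le hn)⟩
  rw [hNbot x₀ hx₀] at h1
  exact h1

/-- One induction step. -/
theorem step (hcomm : ∀ a b : B, a * b = b * a) (hexp : ∀ b : B, b ^ p = 1)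
    (hcard : Nat.card B = p ^ 3) (IH : IHyp.{u, v} p B (Nat.card W)) (S : Sys p ι W θ) :
    ∀ x, x ≠ 1 → W ⊓ Subgroup.centralizer {ι x} ≤ θ x := by
  classical
  intro x hx
  by_cases hW : W = ⊥
  · rintro c ⟨hc, -⟩
    have hc' : c ∈ W := hc
    rw [hW, Subgroup.mem_bot] at hc'
    rw [hc']
    exact (θ x).one_mem
  -- a minimal invariant normal subgroup
  have hWBN : BN ι W W := ⟨hW, le_rfl, fun g hg k hk => W.mul_mem (W.mul_mem hg hk) (W.inv_mem hg), S.inv⟩
  obtain ⟨N, hNmin⟩ := (Set.toFinite {K : Subgroup H | BN ι W K}).exists_minimal ⟨W, hWBN⟩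
  have hN : BN ι W N := hNmin.prop
  have hmin : ∀ K, BN ι W K → K ≤ N → K = N := fun K hK hle => le_antisymm hle (hNmin.le_of_le hK hle)
  -- `N` is abelian
  have hab : ∀ a ∈ N, ∀ b ∈ N, a * b = b * a := by
    have h1 : ⁅N, N⁆ = ⊥ := by
      by_contra hne
      have hBN : BN ι W ⁅N, N⁆ := by
        refine ⟨hne, (Subgroup.commutator_le_self N).trans hN.le, ?_, ?_⟩
        · intro g hg c hc
          exact conj_comm_mem (fun k hk => hN.norm g hg k hk) c hc
        · intro b c hc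
          exact conj_comm_mem (fun k hk => hN.inv b k hk) c hc
      have := hmin _ hBN (Subgroup.commutator_le_self N)
      exact comm_ne_self S.solv hN.le hN.ne this
    intro a ha b hb
    have h2 : ⁅a, b⁆ ∈ ⁅N, N⁆ := Subgroup.commutator_mem_commutator ha hb
    rw [h1, Subgroup.mem_bot, commutatorElement_eq_one_iff_mul_comm] at h2
    exact h2
  by_cases hcase : ∀ y, y ≠ 1 → N ⊓ θ y = ⊥
  · exact (caseB hcomm hexp hcard IH S hW hN hcase).elim
  · push Not at hcase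
    obtain ⟨y₀, hy₀, hne⟩ := hcase
    set N₀ : Subgroup H := ⨆ z : {z : B // z ≠ 1}, N ⊓ θ z with hN₀
    have hN₀N : N₀ ≤ N := iSup_le fun z => inf_le_left
    have hN₀ne : N₀ ≠ ⊥ := by
      intro hb
      apply hne
      rw [eq_bot_iff, ← hb]
      exact le_iSup (fun z : {z : B // z ≠ 1} => N ⊓ θ z) ⟨y₀, hy₀⟩
    have hNp : ¬ p ∣ Nat.card N := not_dvd_of_le S.cop hN.le
    have hN₀inv : Inv ι N₀ := Inv.iSup fun z => hN.inv.inf (S.θinv z z.2)
    have hN₀n : ∀ g ∈ W, ∀ u ∈ N₀, g * u * g⁻¹ ∈ N₀ := by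
      apply le_normalizer_of_pieces hcomm hexp hcard S N₀
      intro y hy Y hY t ht htC
      have hle : N₀ ≤ N₀.comap (MulAut.conj t).toMonoidHom := by
        refine iSup_le ?_
        rintro ⟨z, hz⟩
        have hgen := gen_general hcomm hexp ι ⊤ 2 (by rw [Subgroup.card_top, hcard])
          (N ⊓ θ z) (not_dvd_of_le hNp inf_le_left) (hN.inv.inf (S.θinv z hz))
        refine le_trans hgen (iSup_le ?_)
        rintro ⟨Y', _hYt, hY'⟩ u ⟨⟨huN, huθ⟩, huC⟩
        obtain ⟨w, hwY, hwY', hw1⟩ := exists_inter hcomm hcard hY hY'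
        have htw : t ∈ θ w := piece_mem S hy ht htC hwY hw1
        have huw : u ∈ θ w := piece_mem S hz huθ huC hwY' hw1
        refine (le_iSup (fun z : {z : B // z ≠ 1} => N ⊓ θ z) ⟨w, hw1⟩) ⟨?_, ?_⟩
        · exact hN.norm t (S.θle y hy ht) u huN
        · exact (θ w).mul_mem ((θ w).mul_mem htw huw) ((θ w).inv_mem htw)
      exact fun u hu => hle hu
    have hN₀eq : N₀ = N := hmin N₀ ⟨hN₀ne, hN₀N.trans hN.le, hN₀n, hN₀inv⟩ hN₀N
    have hfix := abelian_fixed hcomm hexp hcard S N hN.le hN.inv hab (by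
        intro n hn
        have : n ∈ N₀ := hN₀eq ▸ hn
        exact this) x hx
    rintro c ⟨hcW, hcC⟩
    obtain ⟨t, ht, n, hn, rfl⟩ := qstep hexp IH S N hN.ne hN.le hN.norm hN.inv x hx c hcW hcC
    have hnC : n ∈ Subgroup.centralizer {ι x} := by
      have h1 := S.θC x hx ht
      have : n = t⁻¹ * (t * n) := by group
      rw [this]
      exact Subgroup.mul_mem _ (Subgroup.inv_mem _ h1) hcC
    exact (θ x).mul_mem ht (hfix ⟨hn, hnC⟩)

/-- **Completeness**: a functor on a solvable `p'`-group `W` for an elementary abelian group `B` of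
order `p ^ 3` whose closure is `W` satisfies `C_W(x) = θ x`. -/
theorem complete (hcomm : ∀ a b : B, a * b = b * a) (hexp : ∀ b : B, b ^ p = 1)
    (hcard : Nat.card B = p ^ 3) (S : Sys p ι W θ) :
    ∀ x, x ≠ 1 → W ⊓ Subgroup.centralizer {ι x} ≤ θ x := by
  have key : ∀ n : ℕ, IHyp.{u, v} p B n := by
    intro n
    induction n with
    | zero =>
      intro H _ _ ι W θ hlt
      exact absurd hlt (Nat.not_lt_zero _)
    | succ n ih =>
      intro H _ _ ι W θ hlt S
      refine step hcomm hexp hcard ?_ S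
      intro H' _ _ ι' W' θ' hlt' S'
      exact ih H' ι' W' θ' (lt_of_lt_of_le hlt' (Nat.le_of_lt_succ hlt)) S'
  exact key (Nat.card W + 1) H ι W θ (Nat.lt_succ_self _) S

end main

end Cfsg.Agent.Lib.FunctorComplete
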