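/-
FusionCenterQuot: if `F_T(H)` is constrained (`T` Sylow in `H`), so is the fusion system of `H / Z(H)`
on the image of `T`.  The proof goes through a model of `F_T(H)`.
-/
import Mathlib
import Cfsg.Agent.S5090
import Cfsg.Agent.S5076
import Cfsg.Agent.Lib.PCore

set_option autoImplicit false

namespace Cfsg.Agent.Lib.FusionCenterQuot

open Cfsg Cfsg.FusionSystem Cfsg.Agent.Lib.PCore

variable {H : Type*} [Group H]

/-- Conjugation by `g` in a model, read back through `ι`. -/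
lemma exists_conj_hom {T : Subgroup H} {M : Type*} [Group M] (ι : T →* M)
    (hι : Function.Injective ι) (P : Subgroup H) (hP : P ≤ T) (g : M)
    (hg : ∀ x : P, g * ι ⟨x, hP x.2⟩ * g⁻¹ ∈ ι.range) :
    ∃ φ : P →* H, ∀ x : P, ∃ h : φ x ∈ T, ι ⟨φ x, h⟩ = g * ι ⟨x, hP x.2⟩ * g⁻¹ := by
  let e := MonoidHom.ofInjective hι
  let f : P →* ι.range :=
    ((MulAut.conj g).toMonoidHom.comp (ι.comp (Subgroup.inclusion hP))).codRestrict ι.range hg
  refine ⟨T.subtype.comp (e.symm.toMonoidHom.comp f), fun x => ⟨(e.symm (f x)).2, ?_⟩⟩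
  have h1 : ι (e.symm (f x)) = ((f x : ι.range) : M) := by
    have := congrArg (fun y : ι.range => (y : M)) (e.apply_symm_apply (f x))
    simpa [e, MonoidHom.ofInjective_apply] using this
  show ι ⟨((e.symm (f x) : T) : H), (e.symm (f x)).2⟩ = _
  rw [Subtype.coe_eta, h1]
  rfl

lemma pCentral_mem [Finite H] {p : ℕ} [Fact p.Prime] (T : Sylow p H) {z : H}
    (hz : z ∈ Subgroup.center H) (hp : ∃ k : ℕ, z ^ p ^ k = 1) : z ∈ (T : Subgroup H) := by
  have hN : (Subgroup.zpowers z).Normal := by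
    constructor
    intro n hn g
    obtain ⟨k, rfl⟩ := Subgroup.mem_zpowers_iff.1 hn
    have : g * z ^ k * g⁻¹ = z ^ k := by
      have h : z ^ k ∈ Subgroup.center H := Subgroup.zpow_mem _ hz k
      rw [Subgroup.mem_center_iff] at h
      rw [h g]; simp
    rw [this]
    exact Subgroup.mem_zpowers_iff.2 ⟨k, rfl⟩
  have hP : IsPGroup p (Subgroup.zpowers z) := by
    obtain ⟨k, hk⟩ := hp
    rintro ⟨y, hy⟩
    obtain ⟨m, rfl⟩ := Subgroup.mem_zpowers_iff.1 hy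
    refine ⟨k, Subtype.ext ?_⟩
    show (z ^ m) ^ p ^ k = 1
    rw [← zpow_natCast, ← zpow_mul, mul_comm, zpow_mul, zpow_natCast, hk, one_zpow]
  exact hP.le_sylow_of_normal T (Subgroup.mem_zpowers z)

theorem main [Finite H] {p : ℕ} [Fact p.Prime] (T : Sylow p H)
    (hF : (groupFusionSystem (T : Subgroup H)).IsConstrained p) :
    (groupFusionSystem ((T : Subgroup H).map (QuotientGroup.mk' (Subgroup.center H)))).IsConstrained p := by
  classical
  set Z := Subgroup.center H with hZdef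
  set π := QuotientGroup.mk' Z with hπdef
  have hπ : Function.Surjective π := QuotientGroup.mk'_surjective Z
  have hker : ∀ a b : H, π a = π b → a⁻¹ * b ∈ Z := fun a b h => QuotientGroup.eq.1 h
  let T' : Sylow p (H ⧸ Z) := T.mapSurjective hπ
  have hT' : (T' : Subgroup (H ⧸ Z)) = (T : Subgroup H).map π := rfl
  have hsat : (groupFusionSystem ((T : Subgroup H).map π)).IsSaturated p := by
    have := Cfsg.Agent.S5076.result p T'
    rwa [hT'] at this
  obtain ⟨M, iM, ι, hfin, hreal, ⟨T₀, hT₀⟩, hcent⟩ :=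
    Cfsg.Agent.S5090.result p T.isPGroup' (groupFusionSystem (T : Subgroup H)) hF
  haveI := hfin
  have hinj : Function.Injective ι := hreal.1
  have hR := hreal.2
  set O := pCore p M with hOdef
  have hOr : O ≤ ι.range := by rw [← hT₀]; exact pCore_le_sylow p T₀
  have hOn : O.Normal := inferInstance
  -- the candidate
  let Q : Subgroup H := (O.comap ι).map (T : Subgroup H).subtype
  have hQT : Q ≤ (T : Subgroup H) := by
    rintro _ ⟨t, -, rfl⟩
    exact t.2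
  have hQmem : ∀ (q : H) (h : q ∈ (T : Subgroup H)), ι ⟨q, h⟩ ∈ O → q ∈ Q := fun q h hq =>
    ⟨⟨q, h⟩, hq, rfl⟩
  have hQmem' : ∀ (q : H) (h : q ∈ Q), ∃ h' : q ∈ (T : Subgroup H), ι ⟨q, h'⟩ ∈ O := by
    rintro _ ⟨t, ht, rfl⟩
    exact ⟨t.2, ht⟩
  -- central elements of `T` inside `H` are central in `M`
  have hZO : ∀ (z : H) (hzT : z ∈ (T : Subgroup H)), z ∈ Z → ι ⟨z, hzT⟩ ∈ O := by
    intro z hzT hz
    apply hcent
    rw [Subgroup.mem_centralizer_iff]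
    intro o ho
    obtain ⟨t, rfl⟩ := hOr ho
    rw [← map_mul, ← map_mul]
    congr 1
    apply Subtype.ext
    show (t : H) * z = z * t
    exact ((Subgroup.mem_center_iff.1 hz) _)
  have hZcentral : ∀ (z : H) (hzT : z ∈ (T : Subgroup H)), z ∈ Z → ∀ g : M,
      g * ι ⟨z, hzT⟩ * g⁻¹ = ι ⟨z, hzT⟩ := by
    intro z hzT hz g
    let P : Subgroup H := Subgroup.zpowers z
    have hPZ : P ≤ Z := (Subgroup.zpowers_le).2 hz
    have hPT : P ≤ (T : Subgroup H) := (Subgroup.zpowers_le).2 hzT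
    have hg : ∀ x : P, g * ι ⟨x, hPT x.2⟩ * g⁻¹ ∈ ι.range := fun x =>
      hOr (hOn.conj_mem _ (hZO x (hPT x.2) (hPZ x.2)) g)
    obtain ⟨φ, hφ⟩ := exists_conj_hom ι hinj P hPT g hg
    have hφT : ∀ x : P, φ x ∈ (T : Subgroup H) := fun x => (hφ x).1
    have hφm : φ ∈ (groupFusionSystem (T : Subgroup H)).Hom P :=
      (hR P hPT φ hφT).2 ⟨g, fun x => (hφ x).2⟩
    obtain ⟨-, -, y, hy⟩ := hφm
    let zz : P := ⟨z, Subgroup.mem_zpowers z⟩
    have h1 : φ zz = z := by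
      rw [hy zz]
      show y * z * y⁻¹ = z
      rw [(Subgroup.mem_center_iff.1 hz) y]
      simp
    obtain ⟨h2, h3⟩ := hφ zz
    have h4 : ι ⟨φ zz, h2⟩ = ι ⟨z, hzT⟩ := congrArg ι (Subtype.ext h1)
    exact h3.symm.trans h4
  -- the central subgroup of `M`
  let Zι : Subgroup M := (Z.subgroupOf (T : Subgroup H)).map ι
  have hZιc : ∀ c ∈ Zι, ∀ g : M, g * c * g⁻¹ = c := by
    rintro _ ⟨⟨z, hzT⟩, hz, rfl⟩ g
    exact hZcentral z hzT hz g
  have hZιc' : ∀ c ∈ Zι, ∀ g : M, g * c = c * g := by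
    intro c hc g
    have := hZιc c hc g
    calc g * c = g * c * g⁻¹ * g := by group
      _ = c * g := by rw [this]
  have hZιp : IsPGroup p Zι := by
    exact (T.isPGroup'.to_subgroup (Z.subgroupOf (T : Subgroup H))).map ι
  -- the subgroup `X` of elements acting trivially on `O` modulo `Zι`
  let X : Subgroup M :=
    { carrier := {m | ∀ o ∈ O, m * o * m⁻¹ * o⁻¹ ∈ Zι}
      one_mem' := by
        intro o _
        simp
      mul_mem' := by
        intro a b ha hb o ho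
        have h1 := hb o ho
        have h2 := ha o ho
        have h3 : (a * b) * o * (a * b)⁻¹ * o⁻¹ =
            (a * (b * o * b⁻¹ * o⁻¹) * a⁻¹) * (a * o * a⁻¹ * o⁻¹) := by group
        rw [h3, hZιc _ h1 a]
        exact Zι.mul_mem h1 h2
      inv_mem' := by
        intro a ha o ho
        have ho' : a⁻¹ * o * a ∈ O := by
          have := hOn.conj_mem o ho a⁻¹
          simpa using this
        have h1 := ha _ ho'
        have h2 : a * (a⁻¹ * o * a) * a⁻¹ * (a⁻¹ * o * a)⁻¹ = o * (a⁻¹ * o⁻¹ * a) := by group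
        rw [h2] at h1
        have h3 : a⁻¹ * o * a⁻¹⁻¹ * o⁻¹ = (o * (a⁻¹ * o⁻¹ * a))⁻¹ := by group
        rw [h3]
        exact Zι.inv_mem h1 }
  have hXmem : ∀ m, m ∈ X ↔ ∀ o ∈ O, m * o * m⁻¹ * o⁻¹ ∈ Zι := fun m => Iff.rfl
  have hXn : X.Normal := by
    constructor
    intro a ha g o ho
    have ho' : g⁻¹ * o * g ∈ O := by
      have := hOn.conj_mem o ho g⁻¹
      simpa using this
    have h1 := ha _ ho'
    have h2 : g * a * g⁻¹ * o * (g * a * g⁻¹)⁻¹ * o⁻¹ =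
        g * (a * (g⁻¹ * o * g) * a⁻¹ * (g⁻¹ * o * g)⁻¹) * g⁻¹ := by group
    rw [h2, hZιc _ h1 g]
    exact h1
  have hXp : IsPGroup p X := by
    rintro ⟨m, hm⟩
    -- the power formula
    have hpow : ∀ (o : M), o ∈ O → ∀ n : ℕ,
        m ^ n * o * (m ^ n)⁻¹ * o⁻¹ = (m * o * m⁻¹ * o⁻¹) ^ n := by
      intro o ho n
      have hc := hm o ho
      induction n with
      | zero => simp
      | succ n ih =>
        have h1 : m ^ n * o * (m ^ n)⁻¹ = (m * o * m⁻¹ * o⁻¹) ^ n * o := by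
          rw [← ih]; group
        have h2 : m ^ (n + 1) * o * (m ^ (n + 1))⁻¹ * o⁻¹ =
            m * (m ^ n * o * (m ^ n)⁻¹) * m⁻¹ * o⁻¹ := by
          rw [pow_succ']; group
        rw [h2, h1]
        have h3 := hZιc _ (Zι.pow_mem hc n) m
        have h4 : m * ((m * o * m⁻¹ * o⁻¹) ^ n * o) * m⁻¹ * o⁻¹ =
            (m * (m * o * m⁻¹ * o⁻¹) ^ n * m⁻¹) * (m * o * m⁻¹ * o⁻¹) := by group
        rw [h4, h3, pow_succ]
    obtain ⟨a, ha⟩ := IsPGroup.iff_card.1 hZιp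
    have hm2 : m ^ p ^ a ∈ O := by
      apply hcent
      rw [Subgroup.mem_centralizer_iff]
      intro o ho
      have h1 := hpow o ho (p ^ a)
      have h2 : (m * o * m⁻¹ * o⁻¹) ^ p ^ a = 1 := by
        have h3 : (⟨_, hm o ho⟩ : Zι) ^ Nat.card Zι = 1 := pow_card_eq_one'
        rw [ha] at h3
        exact congrArg Subtype.val h3
      rw [h2] at h1
      have h3 : m ^ p ^ a * o * (m ^ p ^ a)⁻¹ = o := by
        have := mul_eq_one_iff_eq_inv.1 h1
        simpa using this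
      calc o * m ^ p ^ a = m ^ p ^ a * o * (m ^ p ^ a)⁻¹ * m ^ p ^ a := by rw [h3]
        _ = m ^ p ^ a * o := by group
    obtain ⟨b, hb⟩ := (isPGroup_pCore (G := M) p) ⟨m ^ p ^ a, hm2⟩
    refine ⟨a + b, Subtype.ext ?_⟩
    have h1 : (m ^ p ^ a) ^ p ^ b = 1 := congrArg Subtype.val hb
    show m ^ p ^ (a + b) = 1
    rw [pow_add, pow_mul, h1]
  have hXO : X ≤ O := le_pCore hXn hXp
  -- the normality statement
  set Tb : Subgroup (H ⧸ Z) := (T : Subgroup H).map π with hTb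
  let Qb : Subgroup (H ⧸ Z) := Q.map π
  have hQbT : Qb ≤ Tb := Subgroup.map_mono hQT
  have key : ∀ (Pb : Subgroup (H ⧸ Z)) (φb : Pb →* (H ⧸ Z)), φb ∈ (groupFusionSystem Tb).Hom Pb →
      ∃ ψb ∈ (groupFusionSystem Tb).Hom (Pb ⊔ Qb),
        (∀ x : Pb, ψb (Subgroup.inclusion le_sup_left x) = φb x) ∧
        (Qb.subgroupOf (Pb ⊔ Qb)).map ψb = Qb := by
    rintro Pb φb ⟨hPb, hval, xb, hxb⟩
    obtain ⟨x, rfl⟩ := hπ xb
    let P : Subgroup H := (T : Subgroup H) ⊓ Pb.comap π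
    have hPT : P ≤ (T : Subgroup H) := inf_le_left
    have hPmap : P.map π = Pb := by
      ext a
      constructor
      · rintro ⟨t, ht, rfl⟩
        exact ht.2
      · intro ha
        obtain ⟨t, ht, rfl⟩ := hPb ha
        exact ⟨t, ⟨ht, ha⟩, rfl⟩
    have hval' : ∀ r ∈ P, x * r * x⁻¹ ∈ (T : Subgroup H) := by
      intro r hr
      have h1 : φb ⟨π r, hr.2⟩ ∈ Tb := hval _
      rw [hxb] at h1
      obtain ⟨t, ht, h2⟩ := h1
      have h3 : π (x * r * x⁻¹) = π x * (π r) * (π x)⁻¹ := by simp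
      have h4 : π t = π (x * r * x⁻¹) := by rw [h2, h3]
      have hz := hker _ _ h4
      set z := t⁻¹ * (x * r * x⁻¹) with hzdef
      have hzp : ∃ k : ℕ, z ^ p ^ k = 1 := by
        obtain ⟨k1, hk1⟩ := T.isPGroup' ⟨t, ht⟩
        obtain ⟨k2, hk2⟩ := T.isPGroup' ⟨r, hr.1⟩
        have hk1' : t ^ p ^ k1 = 1 := congrArg Subtype.val hk1
        have hk2' : r ^ p ^ k2 = 1 := congrArg Subtype.val hk2
        refine ⟨k1 + k2, ?_⟩
        have hcomm : Commute t⁻¹ (t * z) := by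
          have : Commute t z := (Subgroup.mem_center_iff.1 hz t)
          have h5 : Commute t (t * z) := (Commute.refl t).mul_right this
          exact h5.inv_left
        have h6 : t * z = x * r * x⁻¹ := by rw [hzdef]; group
        have h7 : z = t⁻¹ * (t * z) := by group
        have h8 : (x * r * x⁻¹) ^ (p ^ k2) = 1 := by
          rw [conj_pow, hk2']
          simp
        rw [h7, hcomm.mul_pow, h6, inv_pow, pow_add, pow_mul, hk1', pow_mul' _ (p ^ k1), h8]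
        simp
      have hzT : z ∈ (T : Subgroup H) := pCentral_mem T hz hzp
      have h9 : x * r * x⁻¹ = t * z := by rw [hzdef]; group
      rw [h9]
      exact (T : Subgroup H).mul_mem ht hzT
    let φ₀ : P →* H := conjHom P x
    have hφ₀T : ∀ r : P, φ₀ r ∈ (T : Subgroup H) := fun r => hval' r r.2
    have hφ₀ : φ₀ ∈ (groupFusionSystem (T : Subgroup H)).Hom P :=
      ⟨hPT, hφ₀T, x, fun r => rfl⟩
    obtain ⟨g, hg⟩ := (hR P hPT φ₀ hφ₀T).1 hφ₀
    let R : Subgroup H := P ⊔ Q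
    have hRT : R ≤ (T : Subgroup H) := sup_le hPT hQT
    let W : Subgroup H :=
      (((ι.range).comap (MulAut.conj g).toMonoidHom).comap ι).map (T : Subgroup H).subtype
    have hRW : R ≤ W := by
      apply sup_le
      · intro r hr
        refine ⟨⟨r, hPT hr⟩, ?_, rfl⟩
        show g * ι ⟨r, hPT hr⟩ * g⁻¹ ∈ ι.range
        rw [← hg ⟨r, hr⟩]
        exact ⟨_, rfl⟩
      · intro q hq
        obtain ⟨h1, h2⟩ := hQmem' q hq
        refine ⟨⟨q, h1⟩, ?_, rfl⟩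
        exact hOr (hOn.conj_mem _ h2 g)
    have hgR : ∀ r : R, g * ι ⟨r, hRT r.2⟩ * g⁻¹ ∈ ι.range := by
      intro r
      obtain ⟨t, ht, h1⟩ := hRW r.2
      have h2 : t = ⟨r, hRT r.2⟩ := Subtype.ext h1
      rw [← h2]
      exact ht
    obtain ⟨ψ, hψ⟩ := exists_conj_hom ι hinj R hRT g hgR
    have hψT : ∀ r : R, ψ r ∈ (T : Subgroup H) := fun r => (hψ r).1
    have hψm : ψ ∈ (groupFusionSystem (T : Subgroup H)).Hom R :=
      (hR R hRT ψ hψT).2 ⟨g, fun r => (hψ r).2⟩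
    obtain ⟨-, -, y, hy⟩ := hψm
    have hyP : ∀ r (hr : r ∈ P), y * r * y⁻¹ = x * r * x⁻¹ := by
      intro r hr
      let r' : R := ⟨r, le_sup_left (a := P) hr⟩
      obtain ⟨h1, h2⟩ := hψ r'
      have h3 := hg ⟨r, hr⟩
      have h4 : ι ⟨ψ r', h1⟩ = ι ⟨φ₀ ⟨r, hr⟩, hφ₀T _⟩ := h2.trans h3.symm
      have h5 := congrArg Subtype.val (hinj h4)
      have h6 : ψ r' = y * r * y⁻¹ := hy r'
      have h7 : φ₀ ⟨r, hr⟩ = x * r * x⁻¹ := rfl
      exact h6.symm.trans (h5.trans h7)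
    have hyQ : ∀ q ∈ Q, y * q * y⁻¹ ∈ Q := by
      intro q hq
      let q' : R := ⟨q, le_sup_right (b := Q) hq⟩
      obtain ⟨h1, h2⟩ := hψ q'
      have h3 : ψ q' = y * q * y⁻¹ := hy q'
      rw [← h3]
      obtain ⟨h4, h5⟩ := hQmem' q hq
      apply hQmem _ h1
      rw [h2]
      exact hOn.conj_mem _ h5 g
    have hyQ' : ∀ q ∈ Q, ∃ q' ∈ Q, y * q' * y⁻¹ = q := by
      intro q hq
      obtain ⟨h4, h5⟩ := hQmem' q hq
      have h6 : g⁻¹ * ι ⟨q, h4⟩ * g⁻¹⁻¹ ∈ O := hOn.conj_mem _ h5 g⁻¹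
      obtain ⟨t, ht⟩ := hOr h6
      have htQ : (t : H) ∈ Q := by
        apply hQmem _ t.2
        rw [Subtype.coe_eta, ht]
        exact h6
      refine ⟨t, htQ, ?_⟩
      let q' : R := ⟨t, le_sup_right (b := Q) htQ⟩
      obtain ⟨h1, h2⟩ := hψ q'
      have h3 : ψ q' = y * t * y⁻¹ := hy q'
      rw [← h3]
      have h7 : ι ⟨ψ q', h1⟩ = ι ⟨q, h4⟩ := by
        rw [h2]
        show g * ι ⟨(t : H), t.2⟩ * g⁻¹ = _
        rw [Subtype.coe_eta, ht]
        group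
      exact congrArg Subtype.val (hinj h7)
    have hRmap : (Pb ⊔ Qb) = R.map π := by
      rw [Subgroup.map_sup, hPmap]
    refine ⟨conjHom (Pb ⊔ Qb) (π y), ⟨sup_le hPb hQbT, ?_, π y, fun _ => rfl⟩, ?_, ?_⟩
    · rintro ⟨a, ha⟩
      rw [hRmap] at ha
      obtain ⟨r, hr, rfl⟩ := ha
      show π y * π r * (π y)⁻¹ ∈ Tb
      refine ⟨y * r * y⁻¹, ?_, by simp⟩
      have := hψT ⟨r, hr⟩
      rwa [hy ⟨r, hr⟩] at this
    · rintro ⟨a, ha⟩
      rw [← hPmap] at ha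
      obtain ⟨r, hr, rfl⟩ := ha
      have h1 := hxb ⟨π r, (hPmap ▸ Subgroup.mem_map_of_mem π hr : π r ∈ Pb)⟩
      show π y * π r * (π y)⁻¹ = _
      rw [h1]
      show π y * π r * (π y)⁻¹ = π x * π r * (π x)⁻¹
      rw [← map_inv, ← map_inv, ← map_mul, ← map_mul, ← map_mul, ← map_mul, hyP r hr]
    · ext a
      constructor
      · rintro ⟨⟨b, hb1⟩, hb2, rfl⟩
        obtain ⟨q, hq, rfl⟩ := (hb2 : b ∈ Qb)
        refine ⟨y * q * y⁻¹, hyQ q hq, ?_⟩
        show π (y * q * y⁻¹) = π y * π q * (π y)⁻¹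
        simp
      · rintro ⟨q, hq, rfl⟩
        obtain ⟨q', hq', rfl⟩ := hyQ' q hq
        have hmem : π q' ∈ Pb ⊔ Qb := le_sup_right (a := Pb) (b := Qb) ⟨q', hq', rfl⟩
        refine ⟨⟨π q', hmem⟩, ⟨q', hq', rfl⟩, ?_⟩
        show π y * π q' * (π y)⁻¹ = π (y * q' * y⁻¹)
        simp
  refine ⟨hsat, Qb, ⟨hQbT, key⟩, hQbT, ?_⟩
  rintro Q' ⟨φ, hφ, rfl⟩
  -- `φ.range = Qb`
  obtain ⟨ψ, -, h1, h2⟩ := key Qb φ hφ
  have hrange : φ.range = Qb := by
    apply le_antisymm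
    · rintro _ ⟨b, rfl⟩
      rw [← h1 b]
      have h3 : ψ (Subgroup.inclusion le_sup_left b) ∈ (Qb.subgroupOf (Qb ⊔ Qb)).map ψ :=
        ⟨Subgroup.inclusion le_sup_left b, b.2, rfl⟩
      rw [h2] at h3
      exact h3
    · intro a ha
      rw [← h2] at ha
      obtain ⟨⟨b, hb1⟩, hb2, rfl⟩ := ha
      have hb3 : b ∈ Qb := hb2
      refine ⟨⟨b, hb3⟩, ?_⟩
      rw [← h1]
      rfl
  rw [hrange]
  rintro a ⟨haT, hac⟩
  obtain ⟨t, ht, rfl⟩ := haT
  have hιt : ι ⟨t, ht⟩ ∈ X := by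
    intro o ho
    obtain ⟨t', rfl⟩ := hOr ho
    have hq : (t' : H) ∈ Q := by
      apply hQmem _ t'.2
      rw [Subtype.coe_eta]
      exact ho
    have h3 : π (t' : H) ∈ Qb := ⟨t', hq, rfl⟩
    have h4 := (Subgroup.mem_centralizer_iff.1 hac) _ h3
    rw [← map_mul, ← map_mul] at h4
    have h5 := hker _ _ h4
    refine ⟨⟨t, ht⟩ * t' * (⟨t, ht⟩ : (T : Subgroup H))⁻¹ * t'⁻¹, ?_, by simp⟩
    show ((t * (t' : H) * t⁻¹ * (t' : H)⁻¹ : H)) ∈ Z
    have h7 : t * (t' : H) * t⁻¹ * (t' : H)⁻¹ = ((t' : H) * t) * (((t' : H) * t)⁻¹ * (t * t')) * ((t' : H) * t)⁻¹ := by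
      group
    rw [h7]
    exact (Subgroup.normal_of_characteristic (Subgroup.center H)).conj_mem _ h5 _
  exact ⟨t, hQmem t ht (hXO hιt), rfl⟩

end Cfsg.Agent.Lib.FusionCenterQuot
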