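/-
FusionConstrSub3: lifts of automorphisms of `E` to `Y`.
-/
import Mathlib
import Cfsg.Agent.Lib.FusionConstrSub2

set_option autoImplicit false

namespace Cfsg.Agent.Lib.FusionConstrSub

open Cfsg Cfsg.FusionSystem Cfsg.Agent.Lib.FusionCore Cfsg.Agent.Lib.FusionCore2
open Cfsg.Agent.Lib.FusionNormalSub (maps_group maps_sub)
open Cfsg.Agent.Lib.FusionInvariant (Str StrongMem)

variable {G : Type*} [Group G] {p : ℕ}

namespace Ctx

variable [Finite G] [Fact p.Prime] {S : Sylow p G} {T : Subgroup G} {E : FusionSystem T} (C : Ctx S T E)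

include C

/-- `Z(T)`, as a set of conditions. -/
lemma act_triv_of {x : G} (hxc : (orderOf x).Coprime p) (hαm : Maps E T (fun t => x * t * x⁻¹))
    (hxT : ∀ t ∈ T, x * t * x⁻¹ ∈ T) (hxT' : ∀ t ∈ T, x⁻¹ * t * x ∈ T)
    (hxc2 : ∀ c ∈ centralizerIn (S : Subgroup G) T, c⁻¹ * (x * c * x⁻¹) ∈ T) :
    ∀ v ∈ pCore p G, v⁻¹ * (x * v * x⁻¹) ∈ RR p T := by
  haveI := C.R_normal
  have key : ∀ v ∈ pCore p G, (v⁻¹ * (x * v * x⁻¹))⁻¹ * (x * (v⁻¹ * (x * v * x⁻¹)) * x⁻¹) ∈ RR p T := by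
    intro v hv
    set v₃ := v⁻¹ * (x * v * x⁻¹) with hv₃
    have hv₃V : v₃ ∈ pCore p G := (pCore p G).mul_mem ((pCore p G).inv_mem hv) (C.conj_V x hv)
    -- conjugation by `v₃` is in `E`
    have hvS : v ∈ (S : Subgroup G) := Ctx.hVS hv
    have hm1 : Maps (FF S) T (fun t => v⁻¹ * t * v⁻¹⁻¹) :=
      maps_group.2 ⟨C.hTS, fun t ht => C.hTS (C.norm_T (Subgroup.inv_mem _ hvS) ht), v⁻¹, fun _ _ => rfl⟩
    have himg1 : img (fun t => v⁻¹ * t * v⁻¹⁻¹) T = T := by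
      refine img_conj_eq hm1 (fun t ht => C.norm_T (Subgroup.inv_mem _ hvS) ht) (fun t ht => ?_)
      have := C.norm_T hvS ht
      simpa using this
    obtain ⟨k, hk, hk1⟩ := C.strr (le_refl T) le_rfl hαm hxT hm1
    rw [himg1] at hk
    have hm2 : Maps E T (fun t => (v⁻¹ * x * v) * t * (v⁻¹ * x * v)⁻¹) := by
      refine hk.congr (fun y hy => ?_)
      have hy' : v * y * v⁻¹ ∈ T := C.norm_T hvS hy
      have h1 := hk1 _ hy'
      have e : v⁻¹ * (v * y * v⁻¹) * v⁻¹⁻¹ = y := by group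
      rw [e] at h1
      rw [h1]
      group
    have hx1 : Maps E T (fun t => x⁻¹ * t * x⁻¹⁻¹) :=
      maps_conj_inv hαm (img_conj_eq hαm hxT hxT')
    have hm3 : Maps E T (fun t => v₃ * t * v₃⁻¹) := by
      refine (hx1.comp hm2 (fun t ht => ?_)).congr (fun t _ => ?_)
      · have := hxT' t ht
        simpa using this
      · show (v⁻¹ * x * v) * (x⁻¹ * t * x⁻¹⁻¹) * (v⁻¹ * x * v)⁻¹ = v₃ * t * v₃⁻¹
        rw [hv₃]
        group
    -- it is inner
    have himg3 : img (fun t => v₃ * t * v₃⁻¹) T = T := by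
      refine img_conj_eq hm3 (fun t ht => C.norm_T (hVS hv₃V) ht) (fun t ht => ?_)
      have := C.norm_T (Subgroup.inv_mem _ (hVS hv₃V)) ht
      simpa using this
    obtain ⟨n, hn⟩ := hVp (p := p) (G := G) ⟨v₃, hv₃V⟩
    have hn' : v₃ ^ p ^ n = 1 := by
      have := congrArg Subtype.val hn
      simpa using this
    have hpow : (hm3.toAut himg3) ^ p ^ n = 1 := by
      have hall : ∀ (m : ℕ), ∀ t ∈ T, afn ((hm3.toAut himg3) ^ m) t = v₃ ^ m * t * (v₃ ^ m)⁻¹ := by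
        intro m
        induction m with
        | zero =>
          intro t ht
          rw [pow_zero, pow_zero, afn_one ht]
          group
        | succ m ih =>
          intro t ht
          have h1 : afn ((hm3.toAut himg3) ^ m) t ∈ T := afn_mem _ ht
          rw [pow_succ', afn_mul _ _ ht, hm3.afn_toAut himg3 h1, ih t ht, pow_succ']
          group
      refine afn_ext (fun t ht => ?_)
      rw [hall _ t ht, hn', afn_one ht]
      group
    obtain ⟨t₀, ht₀, h0⟩ := C.inn_of_pow (hm3.toAut_mem himg3) hpow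
    have hc : t₀⁻¹ * v₃ ∈ centralizerIn (S : Subgroup G) T := by
      refine mem_centralizerIn.2 ⟨Subgroup.mul_mem _ (Subgroup.inv_mem _ (C.hTS ht₀)) (hVS hv₃V), fun t ht => ?_⟩
      have h1 := h0 t ht
      rw [hm3.afn_toAut himg3 ht] at h1
      have h2 : v₃ * t = t₀ * t * t₀⁻¹ * v₃ := by
        show _ = _
        have h3 : v₃ * t * v₃⁻¹ = t₀ * t * t₀⁻¹ := h1
        rw [← h3]
        group
      calc t * (t₀⁻¹ * v₃) = t₀⁻¹ * (t₀ * t * t₀⁻¹ * v₃) := by group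
        _ = t₀⁻¹ * (v₃ * t) := by rw [h2]
        _ = t₀⁻¹ * v₃ * t := by group
    have hT : v₃⁻¹ * (x * v₃ * x⁻¹) ∈ T := by
      set c := t₀⁻¹ * v₃ with hcdef
      have ev : v₃ = t₀ * c := by rw [hcdef]; group
      have hcT := hxc2 c hc
      have hcc := (mem_centralizerIn.1 hc).2
      have hcS : c ∈ (S : Subgroup G) := (mem_centralizerIn.1 hc).1
      have e : v₃⁻¹ * (x * v₃ * x⁻¹) = c⁻¹ * (t₀⁻¹ * (x * t₀ * x⁻¹)) * c * (c⁻¹ * (x * c * x⁻¹)) := by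
        rw [ev]
        group
      rw [e]
      have h3 : c⁻¹ * (t₀⁻¹ * (x * t₀ * x⁻¹)) * c ∈ T :=
        C.conj_T (g := c⁻¹) (T.mul_mem (T.inv_mem ht₀) (hxT t₀ ht₀)) (by
          simp only [inv_inv]
          exact Subgroup.mul_mem _ (Subgroup.mul_mem _ (Subgroup.inv_mem _ hcS)
            (C.hTS (T.mul_mem (T.inv_mem ht₀) (hxT t₀ ht₀)))) hcS) |> fun h => by simpa using h
      exact T.mul_mem h3 hcT
    exact ⟨hT, (pCore p G).mul_mem ((pCore p G).inv_mem hv₃V) (C.conj_V x hv₃V)⟩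
  intro v hv
  let π := QuotientGroup.mk' (RR p T)
  let U : Subgroup (G ⧸ RR p T) := Subgroup.centralizer {π x} ⊓ (pCore p G).map π
  have hUp : IsPGroup p U := (hVp.map π).to_le inf_le_right
  have hx' : (orderOf (π x)).Coprime p := Nat.Coprime.coprime_dvd_left (orderOf_map_dvd π x) hxc
  have hcomm := Cfsg.Agent.Lib.PResid.commute_of_coprime_of_chain (x := π x) (v := π v) hUp hx'
    (fun u hu => by
      have := Subgroup.mem_centralizer_iff.1 hu.1 (π x) rfl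
      exact this.symm) (by
      have e : (π v)⁻¹ * (π x * π v * (π x)⁻¹) = π (v⁻¹ * (x * v * x⁻¹)) := by
        simp only [_root_.map_mul, _root_.map_inv]
      rw [e]
      refine ⟨Subgroup.mem_centralizer_iff.2 (fun g hg => ?_), ⟨_, (pCore p G).mul_mem ((pCore p G).inv_mem hv) (C.conj_V x hv), rfl⟩⟩
      rw [Set.mem_singleton_iff.1 hg]
      have h1 : π ((v⁻¹ * (x * v * x⁻¹))⁻¹ * (x * (v⁻¹ * (x * v * x⁻¹)) * x⁻¹)) = 1 := (QuotientGroup.eq_one_iff _).2 (key v hv)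
      have h2 : (π (v⁻¹ * (x * v * x⁻¹)))⁻¹ * (π x * π (v⁻¹ * (x * v * x⁻¹)) * (π x)⁻¹) = 1 := by
        rw [← h1]
        simp only [_root_.map_mul, _root_.map_inv]
      rw [inv_mul_eq_one, eq_mul_inv_iff_mul_eq] at h2
      exact h2.symm)
  have h3 : (π v)⁻¹ * (π x * π v * (π x)⁻¹) = 1 := by
    rw [hcomm.symm.eq]
    group
  have h4 : π (v⁻¹ * (x * v * x⁻¹)) = 1 := by
    simpa only [_root_.map_mul, _root_.map_inv] using h3
  exact (QuotientGroup.eq_one_iff _).1 h4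

/-- The lift of a `p'`-automorphism of `T`, using the extension condition. -/
theorem key_lift {b : MulAut T} (hb : b ∈ E.autGroup T) (hbc : (orderOf b).Coprime p) :
    ∃ x : G, (orderOf x).Coprime p ∧ x ∈ YY C ∧ ∀ t ∈ T, afn b t = x * t * x⁻¹ := by
  obtain ⟨β, hβ, hβ1, hβ2⟩ := C.hE.2 b hb
  have hLS : T ⊔ centralizerIn (S : Subgroup G) T ≤ S := sup_le C.hTS inf_le_left
  have hβm : Maps (FF S) (T ⊔ centralizerIn (S : Subgroup G) T) (afn β) := (mem_autGroup_iff hLS).1 hβ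
  obtain ⟨-, -, g, hg⟩ := maps_group.1 hβm
  have h1 : ∀ t ∈ T, afn b t = g * t * g⁻¹ := by
    intro t ht
    have htL : t ∈ T ⊔ centralizerIn (S : Subgroup G) T := mem_sup_of_mem_left ht
    rw [← hg t htL, afn_of_mem β htL, afn_of_mem b ht]
    exact (hβ1 ⟨t, ht⟩).symm
  have h2 : ∀ c ∈ centralizerIn (S : Subgroup G) T, c⁻¹ * (g * c * g⁻¹) ∈ T ⊓ Subgroup.centralizer (T : Set G) := by
    intro c hc
    have hcL : c ∈ T ⊔ centralizerIn (S : Subgroup G) T := mem_sup_of_mem_right hc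
    rw [← hg c hcL, afn_of_mem β hcL]
    exact hβ2 ⟨c, hcL⟩ hc
  have h3 : ∀ (n : ℕ), ∀ t ∈ T, g ^ n * t * (g ^ n)⁻¹ = afn (b ^ n) t := by
    intro n
    induction n with
    | zero =>
      intro t ht
      rw [pow_zero, pow_zero, afn_one ht]
      group
    | succ n ih =>
      intro t ht
      rw [pow_succ' b n, afn_mul _ _ ht, h1 _ (afn_mem _ ht), ← ih t ht, pow_succ' g n]
      group
  have hZ : ∀ z ∈ T ⊓ Subgroup.centralizer (T : Set G), g * z * g⁻¹ ∈ T ⊓ Subgroup.centralizer (T : Set G) := by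
    rintro z ⟨hz1, hz2⟩
    refine ⟨by rw [← h1 z hz1]; exact afn_mem _ hz1, Subgroup.mem_centralizer_iff.2 (fun y hy => ?_)⟩
    have hy0 : afn b⁻¹ y ∈ T := afn_mem _ hy
    have hy1 : y = g * afn b⁻¹ y * g⁻¹ := by
      rw [← h1 _ hy0, afn_afn_inv _ hy]
    have hc := Subgroup.mem_centralizer_iff.1 hz2 _ hy0
    calc y * (g * z * g⁻¹) = g * (afn b⁻¹ y * z) * g⁻¹ := by
          conv_lhs => rw [hy1]
          group
      _ = g * (z * afn b⁻¹ y) * g⁻¹ := by rw [hc]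
      _ = (g * z * g⁻¹) * (g * afn b⁻¹ y * g⁻¹) := by group
      _ = (g * z * g⁻¹) * y := by rw [← hy1]
  have h4 : ∀ (n : ℕ), ∀ c ∈ centralizerIn (S : Subgroup G) T,
      c⁻¹ * (g ^ n * c * (g ^ n)⁻¹) ∈ T ⊓ Subgroup.centralizer (T : Set G) := by
    intro n
    induction n with
    | zero =>
      intro c _
      simp
    | succ n ih =>
      intro c hc
      have h5 := ih c hc
      set z := c⁻¹ * (g ^ n * c * (g ^ n)⁻¹) with hz
      have e1 : g ^ n * c * (g ^ n)⁻¹ = c * z := by rw [hz]; group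
      have e2 : c⁻¹ * (g ^ (n + 1) * c * (g ^ (n + 1))⁻¹) = (c⁻¹ * (g * c * g⁻¹)) * (g * z * g⁻¹) := by
        have e3 : g ^ (n + 1) * c * (g ^ (n + 1))⁻¹ = g * (g ^ n * c * (g ^ n)⁻¹) * g⁻¹ := by
          rw [pow_succ']
          group
        rw [e3, e1]
        group
      rw [e2]
      exact Subgroup.mul_mem _ (h2 c hc) (hZ z h5)
  obtain ⟨a₁, b₁, hab, -, ⟨k, ha₁⟩, hb₁, hazp, hbzp⟩ := Cfsg.Agent.Lib.PResid.exists_decomp (p := p) g
  obtain ⟨m, hm⟩ := mem_powers_iff_mem_zpowers.2 hazp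
  obtain ⟨n, hn⟩ := mem_powers_iff_mem_zpowers.2 hbzp
  have hbm1 : (b ^ m) ^ p ^ k = 1 := by
    refine afn_ext (fun t ht => ?_)
    rw [← pow_mul, ← h3 _ t ht, pow_mul, show g ^ m = a₁ from hm, ha₁, afn_one ht]
    group
  have hbm2 : (b ^ m) ^ orderOf b = 1 := by
    rw [← pow_mul, mul_comm, pow_mul, pow_orderOf_eq_one, one_pow]
  have hbm3 : b ^ m = 1 := Cfsg.Agent.Lib.PResid.eq_one_of_pow_eq_one_of_coprime hbm1 hbm2 hbc
  have ha₂ : ∀ t ∈ T, a₁ * t * a₁⁻¹ = t := by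
    intro t ht
    have := h3 m t ht
    rw [hbm3, afn_one ht, show g ^ m = a₁ from hm] at this
    exact this
  have hx1 : ∀ t ∈ T, afn b t = b₁ * t * b₁⁻¹ := by
    intro t ht
    have h5 := h3 n t ht
    rw [show g ^ n = b₁ from hn] at h5
    have h6 : b₁ * t * b₁⁻¹ ∈ T := by
      rw [h5]
      exact afn_mem _ ht
    rw [h1 t ht, hab]
    have e : a₁ * b₁ * t * (a₁ * b₁)⁻¹ = a₁ * (b₁ * t * b₁⁻¹) * a₁⁻¹ := by group
    rw [e, ha₂ _ h6]
  have hbT : Maps E T (afn b) := (mem_autGroup_iff le_rfl).1 hb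
  have hαm : Maps E T (fun t => b₁ * t * b₁⁻¹) := hbT.congr hx1
  have hxT : ∀ t ∈ T, b₁ * t * b₁⁻¹ ∈ T := fun t ht => by
    rw [← hx1 t ht]
    exact afn_mem _ ht
  have hxT' : ∀ t ∈ T, b₁⁻¹ * t * b₁ ∈ T := fun t ht => by
    have h5 : afn b⁻¹ t ∈ T := afn_mem _ ht
    have h6 := hx1 _ h5
    rw [afn_afn_inv _ ht] at h6
    have e : b₁⁻¹ * t * b₁ = afn b⁻¹ t := by
      calc b₁⁻¹ * t * b₁ = b₁⁻¹ * (b₁ * afn b⁻¹ t * b₁⁻¹) * b₁ := by rw [← h6]
        _ = afn b⁻¹ t := by group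
    rw [e]
    exact h5
  have hxc2 : ∀ c ∈ centralizerIn (S : Subgroup G) T, c⁻¹ * (b₁ * c * b₁⁻¹) ∈ T := by
    intro c hc
    have := (h4 n c hc).1
    rwa [show g ^ n = b₁ from hn] at this
  refine ⟨b₁, hb₁, (mem_YY C).2 ⟨hαm.restrict R_le_T, C.act_triv_of hb₁ hαm hxT hxT' hxc2⟩, hx1⟩

/-- Every automorphism of `T` in `E` is induced by an element of `Y`. -/
theorem exists_lift_T {a : MulAut T} (ha : a ∈ E.autGroup T) :
    ∃ y ∈ YY C, ∀ t ∈ T, afn a t = y * t * y⁻¹ := by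
  haveI := finite_mulAut (P := T) le_rfl
  obtain ⟨a₁, b₁, hab, -, ⟨k, ha₁⟩, hb₁, -, -⟩ := Cfsg.Agent.Lib.PResid.exists_decomp (p := p) (⟨a, ha⟩ : E.autGroup T)
  have ha₂ : (a₁ : MulAut T) ^ p ^ k = 1 := congrArg Subtype.val ha₁
  obtain ⟨t₀, ht₀, h1⟩ := C.inn_of_pow a₁.2 ha₂
  have hb₂ : (orderOf (b₁ : MulAut T)).Coprime p := by
    rw [Subgroup.orderOf_coe]
    exact hb₁
  obtain ⟨x, -, hxY, h2⟩ := C.key_lift b₁.2 hb₂
  refine ⟨t₀ * x, Subgroup.mul_mem _ (C.T_le_YY ht₀) hxY, fun t ht => ?_⟩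
  have e : a = (a₁ : MulAut T) * b₁ := congrArg Subtype.val hab
  rw [e, afn_mul _ _ ht, h1 _ (afn_mem _ ht), h2 t ht]
  group

lemma YY_normal : (YY C).Normal := by
  haveI := C.R_normal
  refine ⟨fun g hg k => ?_⟩
  obtain ⟨h1, h2⟩ := (mem_YY C).1 hg
  refine (mem_YY C).2 ⟨?_, (ActTriv_normal (pCore p G) (RR p T)).conj_mem g h2 k⟩
  obtain ⟨K, hK, h3⟩ := C.strr (le_refl (RR p T)) R_le_T h1 (fun x hx => C.conj_R g hx) (C.maps_F_R k)
  have himg : img (fun x => k * x * k⁻¹) (RR p T) = RR p T := by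
    ext y
    rw [(C.maps_F_R k).mem_img]
    constructor
    · rintro ⟨x, hx, rfl⟩
      exact C.conj_R k hx
    · intro hy
      exact ⟨_, C.conj_R' k hy, by group⟩
  rw [himg] at hK
  refine hK.congr (fun y hy => ?_)
  have h4 := h3 _ (C.conj_R' k hy)
  have e : k * (k⁻¹ * y * k) * k⁻¹ = y := by group
  rw [e] at h4
  rw [h4]
  group

/-- Every element of `Aut_E(R)` is induced by an element of `Y`. -/
theorem exists_lift_R {a : MulAut (RR p T)} (ha : a ∈ E.autGroup (RR p T)) :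
    ∃ y ∈ YY C, ∀ r ∈ RR p T, afn a r = y * r * y⁻¹ := by
  have hRT : RR p T ≤ T := R_le_T
  obtain ⟨hC, hA⟩ := of_fullyNormalized C.hTp C.sat C.Rfn
  have hRec := receptive_of_fullyCentralized C.hTp C.sat hC
  haveI := finite_mulAut hRT
  obtain ⟨-, A, hA⟩ := hA
  -- the image of `Y`
  let K : Subgroup (E.autGroup (RR p T)) :=
    { carrier := {a | ∃ y ∈ YY C, ∀ r ∈ RR p T, afn (a : MulAut (RR p T)) r = y * r * y⁻¹}
      mul_mem' := by
        rintro a b ⟨y, hy, h1⟩ ⟨z, hz, h2⟩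
        refine ⟨y * z, Subgroup.mul_mem _ hy hz, fun r hr => ?_⟩
        show afn ((a : MulAut (RR p T)) * (b : MulAut (RR p T))) r = _
        rw [afn_mul _ _ hr, h1 _ (afn_mem _ hr), h2 r hr]
        group
      one_mem' := ⟨1, Subgroup.one_mem _, fun r hr => by
        show afn (1 : MulAut (RR p T)) r = _
        rw [afn_one hr]
        group⟩
      inv_mem' := by
        rintro a ⟨y, hy, h1⟩
        refine ⟨y⁻¹, Subgroup.inv_mem _ hy, fun r hr => ?_⟩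
        have h2 := h1 _ (afn_mem (a : MulAut (RR p T))⁻¹ hr)
        rw [afn_afn_inv _ hr] at h2
        show afn (a : MulAut (RR p T))⁻¹ r = _
        calc afn (a : MulAut (RR p T))⁻¹ r = y⁻¹ * (y * afn (a : MulAut (RR p T))⁻¹ r * y⁻¹) * y⁻¹⁻¹ := by group
          _ = y⁻¹ * r * y⁻¹⁻¹ := by rw [← h2] }
  have hK : ∀ (a : E.autGroup (RR p T)), a ∈ K ↔ ∃ y ∈ YY C, ∀ r ∈ RR p T, afn (a : MulAut (RR p T)) r = y * r * y⁻¹ :=
    fun _ => Iff.rfl
  have hYn : (YY C).Normal := C.YY_normal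
  · haveI hKn : K.Normal := by
      refine ⟨fun b hb c => ?_⟩
      obtain ⟨y, hy, h1⟩ := (hK b).1 hb
      have hcm : Maps E (RR p T) (afn (c : MulAut (RR p T))) := (mem_autGroup_iff hRT).1 c.2
      obtain ⟨-, -, g, hg⟩ := maps_group.1 ((Cfsg.Agent.Lib.FusionInvariant.maps_sub C.sub) hcm)
      refine (hK _).2 ⟨g * y * g⁻¹, hYn.conj_mem y hy g, fun r hr => ?_⟩
      show afn ((c : MulAut (RR p T)) * (b : MulAut (RR p T)) * (c : MulAut (RR p T))⁻¹) r = _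
      have h2 : afn (c : MulAut (RR p T))⁻¹ r ∈ RR p T := afn_mem _ hr
      have h3 := hg _ h2
      rw [afn_afn_inv _ hr] at h3
      have h4 : afn (c : MulAut (RR p T))⁻¹ r = g⁻¹ * r * g := by
        calc afn (c : MulAut (RR p T))⁻¹ r = g⁻¹ * (g * afn (c : MulAut (RR p T))⁻¹ r * g⁻¹) * g := by group
          _ = g⁻¹ * r * g := by rw [← h3]
      rw [afn_mul _ _ hr, afn_mul _ _ h2, h1 _ h2, hg _ (C.conj_R y h2), h4]
      group
    have hAK : ∀ b ∈ (A : Subgroup (E.autGroup (RR p T))), b ∈ K := by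
      intro b hb
      rw [hA] at hb
      obtain ⟨t, ht, h1⟩ := mem_autInducedBy.1 (Subgroup.mem_subgroupOf.1 hb)
      exact (hK b).2 ⟨t, C.T_le_YY ht, h1⟩
    obtain ⟨ν, κ, hκ, hβ, hν⟩ := Cfsg.Agent.Lib.FusionAlperin.frattini_inf A K (⟨a, ha⟩ : E.autGroup (RR p T))
    have hνm : Maps E (RR p T) (afn (ν : MulAut (RR p T))) := (mem_autGroup_iff hRT).1 ν.2
    have hNf : T ≤ Nf T (RR p T) (afn (ν : MulAut (RR p T))) := by
      intro g hg
      have hgN : g ∈ normalizerIn T (RR p T) :=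
        ⟨hg, mem_normalizer_of_conj_mem (fun x hx => C.conj_R g hx)⟩
      refine mem_Nf.2 ⟨hg, hgN.2, ?_⟩
      have hc1 : conjN T (RR p T) ⟨g, hgN⟩ ∈ autInducedBy T (RR p T) := by
        rw [← conjN_range]
        exact ⟨_, rfl⟩
      have hc2 : (⟨conjN T (RR p T) ⟨g, hgN⟩, autInducedBy_le_autGroup hRT hc1⟩ : E.autGroup (RR p T)) ∈
          (A : Subgroup (E.autGroup (RR p T))) := by
        rw [hA]
        exact hc1
      have h3 := (hν _ ⟨hc2, hAK _ hc2⟩).1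
      rw [hA] at h3
      obtain ⟨h, hh, h4⟩ := mem_autInducedBy.1 (Subgroup.mem_subgroupOf.1 h3)
      refine ⟨h, hh, fun x hx => ?_⟩
      have h5 := h4 _ (afn_mem (ν : MulAut (RR p T)) hx)
      have e : (↑(ν * ⟨conjN T (RR p T) ⟨g, hgN⟩, autInducedBy_le_autGroup hRT hc1⟩ * ν⁻¹ : E.autGroup (RR p T)) : MulAut (RR p T))
          = (ν : MulAut (RR p T)) * conjN T (RR p T) ⟨g, hgN⟩ * (ν : MulAut (RR p T))⁻¹ := rfl
      rw [e, afn_mul _ _ (afn_mem _ hx), afn_inv_afn _ hx, afn_mul _ _ hx, afn_conjN _ hx] at h5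
      exact h5
    obtain ⟨k, hk, hk1⟩ := Cfsg.Agent.Lib.FusionCore.IsReceptive.ext hRec hνm (afn_img _)
    have hkT : Maps E T k := hk.restrict hNf
    have himg : img k T = T := img_eq_of_card hkT le_rfl le_rfl (fun x hx => hkT.mem hx) le_rfl
    obtain ⟨y, hy, h1⟩ := C.exists_lift_T (hkT.toAut_mem himg)
    have hνK : ν ∈ K := (hK ν).2 ⟨y, hy, fun r hr => by
      rw [← hk1 r hr, ← h1 r (hRT hr), hkT.afn_toAut himg (hRT hr)]⟩
    have hβK : (⟨a, ha⟩ : E.autGroup (RR p T)) ∈ K := by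
      rw [hβ]
      exact K.mul_mem hνK hκ
    exact (hK _).1 hβK

end Ctx

end Cfsg.Agent.Lib.FusionConstrSub
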