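/-
FusionConstrSub4: the normal subgroup `H` attached to a normal subsystem.
-/
import Mathlib
import Cfsg.Agent.Lib.FusionConstrSub3
import Cfsg.Agent.Lib.FusionHyperfocal

set_option autoImplicit false

namespace Cfsg.Agent.Lib.FusionConstrSub

open Cfsg Cfsg.FusionSystem Cfsg.Agent.Lib.FusionCore Cfsg.Agent.Lib.FusionCore2
open Cfsg.Agent.Lib.FusionNormalSub (maps_group maps_sub)
open Cfsg.Agent.Lib.FusionInvariant (Str StrongMem)
open scoped commutatorElement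

variable {G : Type*} [Group G] {p : ℕ}

lemma afn_pow_toAut {Ω : Type*} [Group Ω] {S P : Subgroup Ω} {F : FusionSystem S} {g : Ω}
    (hm : Maps F P (fun x => g * x * g⁻¹)) (himg : img (fun x => g * x * g⁻¹) P = P) (m : ℕ) :
    ∀ r ∈ P, afn ((hm.toAut himg) ^ m) r = g ^ m * r * (g ^ m)⁻¹ := by
  induction m with
  | zero =>
    intro t ht
    rw [pow_zero, pow_zero, afn_one ht]
    group
  | succ m ih =>
    intro t ht
    have h1 : afn ((hm.toAut himg) ^ m) t ∈ P := afn_mem _ ht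
    rw [pow_succ', afn_mul _ _ ht, hm.afn_toAut himg h1, ih t ht, pow_succ']
    group

namespace Ctx

variable [Finite G] [Fact p.Prime] {S : Sylow p G} {T : Subgroup G} {E : FusionSystem T} (C : Ctx S T E)

include C

/-- The `p`-elements of `Y` are products of elements of `T` and `St`. -/
lemma decomp_SY {x : G} (hxS : x ∈ (S : Subgroup G)) (hxY : x ∈ YY C) : ∃ t ∈ T, ∃ w ∈ StG C, x = t * w := by
  have hRT : RR p T ≤ T := R_le_T
  obtain ⟨hC, hA⟩ := of_fullyNormalized C.hTp C.sat C.Rfn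
  haveI := finite_mulAut hRT
  obtain ⟨-, A, hA⟩ := hA
  obtain ⟨hm, hv⟩ := (mem_YY C).1 hxY
  have himg := img_conj_eq hm (fun y hy => C.conj_R x hy) (fun y hy => C.conj_R' x hy)
  obtain ⟨n, hn⟩ := S.isPGroup' ⟨x, hxS⟩
  have hn' : x ^ p ^ n = 1 := by
    have := congrArg Subtype.val hn
    simpa using this
  have hpow : (⟨hm.toAut himg, hm.toAut_mem himg⟩ : E.autGroup (RR p T)) ^ p ^ n = 1 := by
    refine Subtype.ext (afn_ext (fun r hr => ?_))
    show afn ((hm.toAut himg) ^ p ^ n) r = afn 1 r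
    rw [afn_pow_toAut hm himg _ r hr, hn', afn_one hr]
    group
  have hmem : (⟨hm.toAut himg, hm.toAut_mem himg⟩ : E.autGroup (RR p T)) ∈ (A : Subgroup (E.autGroup (RR p T))) := by
    refine mem_sylow_of_normalizes A hpow (fun b hb => ?_)
    rw [hA] at hb ⊢
    obtain ⟨t, ht, h2⟩ := mem_autInducedBy.1 (Subgroup.mem_subgroupOf.1 hb)
    refine Subgroup.mem_subgroupOf.2 (mem_autInducedBy.2 ⟨x * t * x⁻¹, C.norm_T hxS ht, fun r hr => ?_⟩)
    show afn ((hm.toAut himg) * (b : MulAut (RR p T)) * (hm.toAut himg)⁻¹) r = _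
    have h3 : afn (hm.toAut himg)⁻¹ r = x⁻¹ * r * x := by
      have h4 := hm.afn_toAut himg (afn_mem (hm.toAut himg)⁻¹ hr)
      rw [afn_afn_inv _ hr] at h4
      calc afn (hm.toAut himg)⁻¹ r = x⁻¹ * (x * afn (hm.toAut himg)⁻¹ r * x⁻¹) * x := by group
        _ = x⁻¹ * r * x := by rw [← h4]
    rw [afn_mul _ _ hr, afn_mul _ _ (afn_mem _ hr), h2 _ (afn_mem _ hr), h3,
      hm.afn_toAut himg (C.conj_R t (C.conj_R' x hr))]
    group
  rw [hA] at hmem
  obtain ⟨t, ht, h2⟩ := mem_autInducedBy.1 (Subgroup.mem_subgroupOf.1 hmem)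
  refine ⟨t, ht, t⁻¹ * x, (mem_StG C).2 ⟨?_, fun r hr => ?_⟩, by group⟩
  · exact ((mem_YY C).1 (Subgroup.mul_mem _ (Subgroup.inv_mem _ (C.T_le_YY ht)) hxY)).2
  · have h3 := h2 r hr
    rw [hm.afn_toAut himg hr] at h3
    have h4 : x * r * x⁻¹ = t * r * t⁻¹ := h3
    calc r * (t⁻¹ * x) = t⁻¹ * (t * r * t⁻¹) * x := by group
      _ = t⁻¹ * (x * r * x⁻¹) * x := by rw [h4]
      _ = t⁻¹ * x * r := by group

/-- The focal subgroup in `Y` lies in `T`. -/
lemma focal_le (R : Sylow p (YY C)) (hR : (R : Subgroup (YY C)) = (S : Subgroup G).subgroupOf (YY C)) :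
    (R : Subgroup (YY C)).focalSubgroup ≤ T.subgroupOf (YY C) := by
  rw [Subgroup.focalSubgroup_def, Subgroup.closure_le]
  rintro g ⟨hg, x, hx, u, rfl⟩
  rw [hR] at hg hx
  have hx1 : (x : G) ∈ (S : Subgroup G) := Subgroup.mem_subgroupOf.1 hx
  have hg1 : ((⁅x, u⁆ : YY C) : G) ∈ (S : Subgroup G) := Subgroup.mem_subgroupOf.1 hg
  obtain ⟨t, ht, w, hw, hxe⟩ := C.decomp_SY hx1 x.2
  have huY := ((mem_YY C).1 u.2).2
  have hwV := C.StG_le hw
  have hwS : w ∈ (S : Subgroup G) := hVS hwV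
  have hg2 : ((⁅x, u⁆ : YY C) : G) = (x : G) * ((u : G) * (x : G) * (u : G)⁻¹)⁻¹ := by
    show (x : G) * u * (x : G)⁻¹ * (u : G)⁻¹ = _
    group
  have hz : (u : G) * (x : G) * (u : G)⁻¹ ∈ (S : Subgroup G) := by
    have h1 : (x : G)⁻¹ * ((⁅x, u⁆ : YY C) : G) = ((u : G) * (x : G) * (u : G)⁻¹)⁻¹ := by
      rw [hg2]
      group
    have h2 := Subgroup.mul_mem _ (Subgroup.inv_mem _ hx1) hg1
    rw [h1] at h2
    exact (Subgroup.inv_mem_iff _).1 h2
  have hr := huY w hwV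
  set r := w⁻¹ * ((u : G) * w * (u : G)⁻¹) with hrdef
  have hrT : r ∈ T := R_le_T hr
  have e1 : (u : G) * w * (u : G)⁻¹ = w * r := by rw [hrdef]; group
  have e2 : (u : G) * (x : G) * (u : G)⁻¹ = ((u : G) * t * (u : G)⁻¹) * (w * r) := by
    rw [← e1, hxe]
    group
  have ht1 : (u : G) * t * (u : G)⁻¹ ∈ T := by
    refine C.conj_T ht ?_
    have h3 : (u : G) * t * (u : G)⁻¹ = ((u : G) * (x : G) * (u : G)⁻¹) * (w * r)⁻¹ := by
      rw [e2]
      group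
    rw [h3]
    exact Subgroup.mul_mem _ hz (Subgroup.inv_mem _ (Subgroup.mul_mem _ hwS (C.hTS hrT)))
  refine Subgroup.mem_subgroupOf.2 ?_
  rw [hg2, e2, hxe]
  have e3 : t * w * (((u : G) * t * (u : G)⁻¹) * (w * r))⁻¹ =
      t * (w * r⁻¹ * w⁻¹) * ((u : G) * t * (u : G)⁻¹)⁻¹ := by group
  rw [e3]
  exact T.mul_mem (T.mul_mem ht (C.norm_T hwS (T.inv_mem hrT))) (T.inv_mem ht1)

/-- The subgroup generated by `p'`-elements of `Y`. -/
def OO : Subgroup G := (pResidual p (YY C)).map (YY C).subtype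

lemma OO_le : OO C ≤ YY C := by
  rintro _ ⟨x, -, rfl⟩
  exact x.2

lemma mem_OO_of_coprime {y : G} (hy : y ∈ YY C) (hc : (orderOf y).Coprime p) : y ∈ OO C := by
  refine ⟨⟨y, hy⟩, Subgroup.subset_closure ?_, rfl⟩
  show (orderOf (⟨y, hy⟩ : YY C)).Coprime p
  rw [← Subgroup.orderOf_coe]
  exact hc

lemma OO_conj (g : G) {x : G} (hx : x ∈ OO C) : g * x * g⁻¹ ∈ OO C := by
  haveI hYn := C.YY_normal
  obtain ⟨y, hy, rfl⟩ := hx
  induction hy using Subgroup.closure_induction with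
  | mem z hz =>
    refine C.mem_OO_of_coprime (hYn.conj_mem _ z.2 g) ?_
    have h1 : orderOf (g * (YY C).subtype z * g⁻¹) = orderOf (z : G) :=
      MulEquiv.orderOf_eq (MulAut.conj g) (z : G)
    rw [h1, Subgroup.orderOf_coe]
    exact hz
  | one => simp
  | mul a b _ _ ha hb =>
    have e : g * (YY C).subtype (a * b) * g⁻¹ = (g * (YY C).subtype a * g⁻¹) * (g * (YY C).subtype b * g⁻¹) := by
      simp only [_root_.map_mul]
      group
    rw [e]
    exact Subgroup.mul_mem _ ha hb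
  | inv a _ ha =>
    have e : g * (YY C).subtype a⁻¹ * g⁻¹ = (g * (YY C).subtype a * g⁻¹)⁻¹ := by
      simp only [_root_.map_inv]
      group
    rw [e]
    exact Subgroup.inv_mem _ ha

/-- The normal subgroup attached to `E`. -/
def HH : Subgroup G := OO C ⊔ T

omit C in
lemma T_le_HH (C : Ctx S T E) : T ≤ HH C := le_sup_right

omit C in
lemma OO_le_HH (C : Ctx S T E) : OO C ≤ HH C := le_sup_left

lemma HH_le_YY : HH C ≤ YY C := sup_le C.OO_le C.T_le_YY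

lemma conj_T_mem_HH (g : G) {t : G} (ht : t ∈ T) : g * t * g⁻¹ ∈ HH C := by
  haveI := C.YY_normal
  obtain ⟨R, hR⟩ := Cfsg.Agent.Lib.SylowNum.exists_sylow_subgroupOf (YY C) S
  have htop := Sylow.normalizer_sup_eq_top R
  have hg : g ∈ Subgroup.normalizer ((R.map (YY C).subtype : Subgroup G) : Set G) ⊔ YY C := by
    rw [htop]
    exact Subgroup.mem_top g
  rw [← SetLike.mem_coe, Subgroup.mul_normal, Set.mem_mul] at hg
  obtain ⟨n, hn, y, hy, rfl⟩ := hg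
  obtain ⟨κ, hκ, r, hr, hyr⟩ := Cfsg.Agent.Lib.FusionHyperfocal.exists_pResidual_mul_sylow R (⟨y, hy⟩ : YY C)
  rw [hR] at hr
  have hrS : (r : G) ∈ (S : Subgroup G) := Subgroup.mem_subgroupOf.1 hr
  have hye : y = (κ : G) * r := congrArg Subtype.val hyr
  have hκO : (κ : G) ∈ OO C := ⟨κ, hκ, rfl⟩
  have ht1 : (r : G) * t * (r : G)⁻¹ ∈ T := C.norm_T hrS ht
  set t' := (r : G) * t * (r : G)⁻¹ with ht'
  have hP : ∀ z ∈ T, z ∈ (R.map (YY C).subtype : Subgroup G) := by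
    intro z hz
    refine ⟨⟨z, C.T_le_YY hz⟩, ?_, rfl⟩
    show (⟨z, C.T_le_YY hz⟩ : YY C) ∈ (R : Subgroup (YY C))
    rw [hR]
    exact Subgroup.mem_subgroupOf.2 (C.hTS hz)
  have ht2 : n * t' * n⁻¹ ∈ T := by
    refine C.conj_T ht1 ?_
    have h1 := (Subgroup.mem_normalizer_iff.1 (SetLike.mem_coe.1 hn) t').1 (hP t' ht1)
    obtain ⟨z, hz, h2⟩ := h1
    rw [← h2]
    have h3 : (z : G) ∈ (S : Subgroup G) := by
      have h4 : z ∈ (R : Subgroup (YY C)) := hz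
      rw [hR] at h4
      exact Subgroup.mem_subgroupOf.1 h4
    exact h3
  have ho1 := C.OO_conj n hκO
  have e : n * y * t * (n * y)⁻¹ = (n * (κ : G) * n⁻¹) * (n * t' * n⁻¹) * (n * (κ : G) * n⁻¹)⁻¹ := by
    rw [hye, ht']
    group
  rw [e]
  exact Subgroup.mul_mem _ (Subgroup.mul_mem _ (C.OO_le_HH ho1) (C.T_le_HH ht2))
    (Subgroup.inv_mem _ (C.OO_le_HH ho1))

lemma HH_normal : (HH C).Normal := by
  refine ⟨fun x hx g => ?_⟩
  have hle : HH C ≤ (HH C).comap (MulAut.conj g).toMonoidHom :=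
    sup_le (fun o ho => C.OO_le_HH (C.OO_conj g ho)) (fun t ht => C.conj_T_mem_HH g ht)
  exact hle hx

lemma HH_inf_S {x : G} (hx : x ∈ HH C) (hxS : x ∈ (S : Subgroup G)) : x ∈ T := by
  haveI := C.YY_normal
  obtain ⟨R, hR⟩ := Cfsg.Agent.Lib.SylowNum.exists_sylow_subgroupOf (YY C) S
  have hTP : T.subgroupOf (YY C) ≤ (R : Subgroup (YY C)) := by
    rw [hR]
    intro z hz
    exact Subgroup.mem_subgroupOf.2 (C.hTS (Subgroup.mem_subgroupOf.1 hz))
  obtain ⟨K, -, hK1, hK2⟩ := exists_kernel R (T.subgroupOf (YY C)) hTP (C.focal_le R hR)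
  have hle : HH C ≤ K.map (YY C).subtype := by
    refine sup_le ?_ (fun t ht => ?_)
    · refine Subgroup.map_mono ?_
      rw [pResidual, Subgroup.closure_le]
      exact fun y hy => hK2 y hy
    · have h1 : (⟨t, C.T_le_YY ht⟩ : YY C) ∈ K ⊓ (R : Subgroup (YY C)) := by
        rw [hK1]
        exact Subgroup.mem_subgroupOf.2 ht
      exact ⟨_, h1.1, rfl⟩
  obtain ⟨k, hk, rfl⟩ := hle hx
  have h1 : k ∈ K ⊓ (R : Subgroup (YY C)) := by
    refine ⟨hk, ?_⟩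
    rw [hR]
    exact Subgroup.mem_subgroupOf.2 hxS
  rw [hK1] at h1
  exact Subgroup.mem_subgroupOf.1 h1

lemma exists_sylow_HH : ∃ R : Sylow p (HH C), (R : Subgroup (HH C)) = T.subgroupOf (HH C) := by
  haveI := C.HH_normal
  obtain ⟨R, hR⟩ := Cfsg.Agent.Lib.SylowNum.exists_sylow_subgroupOf (HH C) S
  refine ⟨R, ?_⟩
  rw [hR]
  ext x
  rw [Subgroup.mem_subgroupOf, Subgroup.mem_subgroupOf]
  exact ⟨fun h => C.HH_inf_S x.2 h, fun h => C.hTS h⟩

/-- `Aut_E(T) ≤ Aut_H(T)`. -/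
lemma exists_lift_HH {a : MulAut T} (ha : a ∈ E.autGroup T) :
    ∃ y ∈ HH C, ∀ t ∈ T, afn a t = y * t * y⁻¹ := by
  haveI := finite_mulAut (P := T) le_rfl
  obtain ⟨a₁, b₁, hab, -, ⟨k, ha₁⟩, hb₁, -, -⟩ := Cfsg.Agent.Lib.PResid.exists_decomp (p := p) (⟨a, ha⟩ : E.autGroup T)
  have ha₂ : (a₁ : MulAut T) ^ p ^ k = 1 := congrArg Subtype.val ha₁
  obtain ⟨t₀, ht₀, h1⟩ := C.inn_of_pow a₁.2 ha₂
  have hb₂ : (orderOf (b₁ : MulAut T)).Coprime p := by
    rw [Subgroup.orderOf_coe]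
    exact hb₁
  obtain ⟨x, hxc, hxY, h2⟩ := C.key_lift b₁.2 hb₂
  refine ⟨t₀ * x, Subgroup.mul_mem _ (C.T_le_HH ht₀) (C.OO_le_HH (C.mem_OO_of_coprime hxY hxc)), fun t ht => ?_⟩
  have e : a = (a₁ : MulAut T) * b₁ := congrArg Subtype.val hab
  rw [e, afn_mul _ _ ht, h1 _ (afn_mem _ ht), h2 t ht]
  group

/-- `E ≤ F_T(H)`. -/
lemma le_sys : E ≤ fusionSystemOfSubgroup (HH C) T (C.T_le_HH) := by
  haveI := C.HH_normal
  refine le_of_normalized C.hTp C.sat ?_ ?_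
  · intro a ha
    obtain ⟨y, hy, h1⟩ := C.exists_lift_HH ha
    refine (mem_autGroup_iff le_rfl).2 (maps_sub.2 ⟨le_rfl, fun x hx => afn_mem _ hx, y, hy, h1⟩)
  · intro P hP a ha b hb
    have ham : Maps E P (afn a) := (mem_autGroup_iff hP).1 ha
    obtain ⟨-, -, g, hg⟩ := maps_group.1 ((Cfsg.Agent.Lib.FusionInvariant.maps_sub C.sub) ham)
    obtain ⟨-, -, h, hh, hh1⟩ := maps_sub.1 ((mem_autGroup_iff hP).1 hb)
    refine (mem_autGroup_iff hP).2 (maps_sub.2 ⟨hP, fun x hx => hP (afn_mem _ hx), g * h * g⁻¹,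
      (inferInstance : (HH C).Normal).conj_mem h hh g, fun r hr => ?_⟩)
    have h2 : afn a⁻¹ r ∈ P := afn_mem _ hr
    have h3 := hg _ h2
    rw [afn_afn_inv _ hr] at h3
    have h4 : afn a⁻¹ r = g⁻¹ * r * g := by
      calc afn a⁻¹ r = g⁻¹ * (g * afn a⁻¹ r * g⁻¹) * g := by group
        _ = g⁻¹ * r * g := by rw [← h3]
    rw [afn_mul _ _ hr, afn_mul _ _ h2, hg _ (afn_mem _ h2), hh1 _ h2, h4]
    group

/-- `F_T(H) ≤ E`. -/
lemma sys_le : fusionSystemOfSubgroup (HH C) T (C.T_le_HH) ≤ E := by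
  haveI := C.HH_normal
  obtain ⟨R, hR⟩ := C.exists_sylow_HH
  have hRT : RR p T ≤ T := R_le_T
  obtain ⟨hC, -⟩ := of_fullyNormalized C.hTp C.sat C.Rfn
  have hRec := receptive_of_fullyCentralized C.hTp C.sat hC
  refine le_of_normalized C.hTp (Cfsg.Agent.Lib.FusionNormalSub.isSaturated_of_sylow (C.T_le_HH) R hR) ?_ ?_
  · intro a ha
    obtain ⟨-, -, x, hx, h1⟩ := maps_sub.1 ((mem_autGroup_iff le_rfl).1 ha)
    have hxY := C.HH_le_YY hx
    obtain ⟨hm, hv⟩ := (mem_YY C).1 hxY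
    have himg := img_conj_eq hm (fun y hy => C.conj_R x hy) (fun y hy => C.conj_R' x hy)
    have hνm : Maps E (RR p T) (afn (hm.toAut himg)) := hm.congr (fun r hr => (hm.afn_toAut himg hr).symm)
    have hNf : T ≤ Nf T (RR p T) (afn (hm.toAut himg)) := by
      intro g hg
      have hgN : g ∈ normalizerIn T (RR p T) :=
        ⟨hg, mem_normalizer_of_conj_mem (fun x hx => C.conj_R g hx)⟩
      refine mem_Nf.2 ⟨hg, hgN.2, afn a g, afn_mem a hg, fun r hr => ?_⟩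
      rw [h1 g hg, hm.afn_toAut himg (C.conj_R g hr), hm.afn_toAut himg hr]
      group
    obtain ⟨k, hk, hk1⟩ := Cfsg.Agent.Lib.FusionCore.IsReceptive.ext hRec hνm (afn_img _)
    have hkT : Maps E T k := hk.restrict hNf
    have hkimg : img k T = T := img_eq_of_card hkT le_rfl le_rfl (fun x hx => hkT.mem hx) le_rfl
    obtain ⟨x', hx', h2⟩ := C.exists_lift_HH (hkT.toAut_mem hkimg)
    have h3 : ∀ t ∈ T, k t = x' * t * x'⁻¹ := fun t ht => by
      rw [← h2 t ht, hkT.afn_toAut hkimg ht]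
    set z := x⁻¹ * x' with hz
    have hzH : z ∈ HH C := Subgroup.mul_mem _ (Subgroup.inv_mem _ hx) hx'
    have hzSt : z ∈ StG C := by
      refine (mem_StG C).2 ⟨((mem_YY C).1 (C.HH_le_YY hzH)).2, fun r hr => ?_⟩
      have h4 := h3 r (hRT hr)
      rw [hk1 r hr, hm.afn_toAut himg hr] at h4
      have h5 : x * r * x⁻¹ = x' * r * x'⁻¹ := h4
      have h6 : x' * r = x * r * x⁻¹ * x' := by
        rw [h5]
        group
      rw [hz]
      calc r * (x⁻¹ * x') = x⁻¹ * (x * r * x⁻¹ * x') := by group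
        _ = x⁻¹ * (x' * r) := by rw [h6]
        _ = x⁻¹ * x' * r := by group
    have hzT : z ∈ T := C.HH_inf_S hzH (hVS (C.StG_le hzSt))
    refine (mem_autGroup_iff le_rfl).2 ?_
    have hm2 : Maps E T (fun t => z⁻¹ * t * z⁻¹⁻¹) := Maps.conj le_rfl (T.inv_mem hzT)
    refine (hm2.comp hkT (fun t ht => T.mul_mem (T.mul_mem (T.inv_mem hzT) ht) (T.inv_mem (T.inv_mem hzT)))).congr
      (fun t ht => ?_)
    show k (z⁻¹ * t * z⁻¹⁻¹) = afn a t
    rw [h3 _ (T.mul_mem (T.mul_mem (T.inv_mem hzT) ht) (T.inv_mem (T.inv_mem hzT))), h1 t ht, hz]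
    group
  · intro P hP a ha b hb
    obtain ⟨-, -, h, -, hh1⟩ := maps_sub.1 ((mem_autGroup_iff hP).1 ha)
    refine C.conj_aut_mem hP (maps_group.2 ⟨hP.trans C.hTS, fun x hx => C.hTS (hP (afn_mem _ hx)), h, hh1⟩) hb

end Ctx

end Cfsg.Agent.Lib.FusionConstrSub
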