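/-
FusionConstrSub5: uniqueness of the normal subgroup attached to a normal subsystem, and the theorem (S5121).
-/
import Mathlib
import Cfsg.Agent.Lib.FusionConstrSub4

set_option autoImplicit false

namespace Cfsg.Agent.Lib.FusionConstrSub

open Cfsg Cfsg.FusionSystem Cfsg.Agent.Lib.FusionCore Cfsg.Agent.Lib.FusionCore2
open Cfsg.Agent.Lib.FusionNormalSub (maps_group maps_sub)

variable {G : Type*} [Group G] {p : ℕ}

namespace Ctx

variable [Finite G] [Fact p.Prime] {S : Sylow p G} {T : Subgroup G} {E : FusionSystem T}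

open Cfsg.Agent.Lib.PCore in
omit [Fact p.Prime] in
lemma mem_T_of_core [Fact p.Prime] {H : Subgroup G} (R : Sylow p H) (hR : (R : Subgroup H) = T.subgroupOf H)
    {y : G} (hy : y ∈ H) (hyV : y ∈ pCore p G) : y ∈ T := by
  have h1 : (pCore p G).subgroupOf H ≤ pCore p H := by
    refine le_pCore inferInstance ?_
    exact (hVp (p := p) (G := G)).comap_of_injective H.subtype Subtype.coe_injective
  have h2 : (⟨y, hy⟩ : H) ∈ (R : Subgroup H) :=
    pCore_le_sylow p R (h1 (Subgroup.mem_subgroupOf.2 hyV))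
  rw [hR] at h2
  exact Subgroup.mem_subgroupOf.1 h2

variable (C : Ctx S T E)

include C

/-- Normal subgroups containing `T` as a Sylow subgroup act trivially on `V / R`. -/
lemma act_of_normal {H : Subgroup G} [hH : H.Normal] (R : Sylow p H) (hR : (R : Subgroup H) = T.subgroupOf H)
    {x : G} (hx : x ∈ H) : ∀ v ∈ pCore p G, v⁻¹ * (x * v * x⁻¹) ∈ RR p T := by
  intro v hv
  have h1 : v⁻¹ * (x * v * x⁻¹) ∈ pCore p G := (pCore p G).mul_mem ((pCore p G).inv_mem hv) (C.conj_V x hv)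
  have h2 : v⁻¹ * (x * v * x⁻¹) ∈ H := by
    have e : v⁻¹ * (x * v * x⁻¹) = (v⁻¹ * x * v⁻¹⁻¹) * x⁻¹ := by group
    rw [e]
    exact H.mul_mem (hH.conj_mem x hx v⁻¹) (H.inv_mem hx)
  exact ⟨mem_T_of_core R hR h2 h1, h1⟩

lemma H_le_of {H₁ H₂ : Subgroup G} [hH₁ : H₁.Normal] [hH₂ : H₂.Normal] (hT₁ : T ≤ H₁) (hT₂ : T ≤ H₂)
    (R₁ : Sylow p H₁) (hR₁ : (R₁ : Subgroup H₁) = T.subgroupOf H₁) (R₂ : Sylow p H₂) (hR₂ : (R₂ : Subgroup H₂) = T.subgroupOf H₂)
    (h₁ : ∀ P : Subgroup G, E.Hom P = (fusionSystemOfSubgroup H₁ T hT₁).Hom P)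
    (h₂ : ∀ P : Subgroup G, E.Hom P = (fusionSystemOfSubgroup H₂ T hT₂).Hom P) : H₁ ≤ H₂ := by
  intro x hx
  have hRT : RR p T ≤ T := R_le_T
  have hm1 : Maps (fusionSystemOfSubgroup H₁ T hT₁) (RR p T) (fun r => x * r * x⁻¹) :=
    maps_sub.2 ⟨hRT, fun r hr => hRT (C.conj_R x hr), x, hx, fun _ _ => rfl⟩
  have hm2 : Maps (fusionSystemOfSubgroup H₂ T hT₂) (RR p T) (fun r => x * r * x⁻¹) := by
    obtain ⟨φ, hφ, h⟩ := hm1
    refine ⟨φ, ?_, h⟩
    rw [← h₂, h₁]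
    exact hφ
  obtain ⟨-, -, x', hx', h3⟩ := maps_sub.1 hm2
  set k := x⁻¹ * x' with hk
  have hkSt : k ∈ StG C := by
    refine (mem_StG C).2 ⟨fun v hv => ?_, fun r hr => ?_⟩
    · haveI := C.R_normal
      have h5 : x ∈ ActTriv (pCore p G) (RR p T) := C.act_of_normal R₁ hR₁ hx
      have h6 : x' ∈ ActTriv (pCore p G) (RR p T) := C.act_of_normal R₂ hR₂ hx'
      exact (Subgroup.mul_mem _ (Subgroup.inv_mem _ h5) h6) v hv
    · have h4 : x * r * x⁻¹ = x' * r * x'⁻¹ := h3 r hr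
      have h6 : x' * r = x * r * x⁻¹ * x' := by
        rw [h4]
        group
      rw [hk]
      calc r * (x⁻¹ * x') = x⁻¹ * (x * r * x⁻¹ * x') := by group
        _ = x⁻¹ * (x' * r) := by rw [h6]
        _ = x⁻¹ * x' * r := by group
  have hkV := C.StG_le hkSt
  obtain ⟨n, hn⟩ := hVp (p := p) (G := G) ⟨k, hkV⟩
  have hn' : k ^ p ^ n = 1 := by
    have := congrArg Subtype.val hn
    simpa using this
  -- modulo `H₂`
  let π := QuotientGroup.mk' H₂
  have hπ : π x = (π k)⁻¹ := by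
    have h7 : π x * π k = 1 := by
      rw [← _root_.map_mul, hk, mul_inv_cancel_left]
      exact (QuotientGroup.eq_one_iff _).2 hx'
    exact eq_inv_of_mul_eq_one_left h7
  have h8 : π x ^ p ^ n = 1 := by
    rw [hπ, inv_pow, ← _root_.map_pow, hn', _root_.map_one, inv_one]
  let L : Subgroup H₁ := H₂.subgroupOf H₁
  have hLn : L.Normal := inferInstance
  have hindex : L.index.Coprime p := by
    have h9 : T.subgroupOf H₁ ≤ L := fun t ht => Subgroup.mem_subgroupOf.2 (hT₂ (Subgroup.mem_subgroupOf.1 ht))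
    have h10 : L.index ∣ (T.subgroupOf H₁).index := Subgroup.index_dvd_of_le h9
    have h11 : ¬ p ∣ (R₁ : Subgroup H₁).index := R₁.not_dvd_index
    rw [hR₁] at h11
    have h12 : (T.subgroupOf H₁).index.Coprime p := ((Nat.Prime.coprime_iff_not_dvd Fact.out).2 h11).symm
    exact Nat.Coprime.coprime_dvd_left h10 h12
  have h13 : (⟨x, hx⟩ : H₁) ^ L.index ∈ L := Subgroup.pow_index_mem L _
  have h14 : x ^ L.index ∈ H₂ := by
    have := Subgroup.mem_subgroupOf.1 h13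
    simpa using this
  have h15 : π x ^ L.index = 1 := by
    rw [← _root_.map_pow]
    exact (QuotientGroup.eq_one_iff _).2 h14
  have h16 := Cfsg.Agent.Lib.PResid.eq_one_of_pow_eq_one_of_coprime h8 h15 hindex
  exact (QuotientGroup.eq_one_iff _).1 h16

end Ctx

/-- The theorem: normal subsystems of `F_S(G)` with `C_G(O_p G) ≤ O_p G` come from normal subgroups. -/
theorem main {G : Type*} [Group G] [Finite G] (p : ℕ) [Fact p.Prime] (S : Sylow p G)
    (hG : Subgroup.centralizer ((Cfsg.pCore p G : Subgroup G) : Set G) ≤ Cfsg.pCore p G) (T : Subgroup G)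
    (E : Cfsg.FusionSystem T)
    (hE : E.IsNormalIn (Cfsg.groupFusionSystem (S : Subgroup G)) p) :
    ∃ H : Subgroup G, (∃ hTH : T ≤ H, H.Normal ∧ (∃ R : Sylow p H, (R : Subgroup H) = T.subgroupOf H) ∧
      ∀ P : Subgroup G, E.Hom P = (Cfsg.fusionSystemOfSubgroup H T hTH).Hom P) ∧
      ∀ H' : Subgroup G, (∃ hTH' : T ≤ H', H'.Normal ∧ (∃ R : Sylow p H', (R : Subgroup H') = T.subgroupOf H') ∧
        ∀ P : Subgroup G, E.Hom P = (Cfsg.fusionSystemOfSubgroup H' T hTH').Hom P) → H' = H := by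
  have C : Ctx S T E := ⟨hG, hE⟩
  haveI := C.HH_normal
  obtain ⟨R, hR⟩ := C.exists_sylow_HH
  have hom : ∀ P : Subgroup G, E.Hom P = (Cfsg.fusionSystemOfSubgroup (Ctx.HH C) T (Ctx.T_le_HH C)).Hom P :=
    fun P => Set.Subset.antisymm (C.le_sys P) (C.sys_le P)
  refine ⟨Ctx.HH C, ⟨Ctx.T_le_HH C, C.HH_normal, ⟨R, hR⟩, hom⟩, ?_⟩
  rintro H' ⟨hT', hn', ⟨R', hR'⟩, hom'⟩
  exact le_antisymm (C.H_le_of hT' (Ctx.T_le_HH C) R' hR' R hR hom' hom)
    (C.H_le_of (Ctx.T_le_HH C) hT' R hR R' hR' hom hom')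

end Cfsg.Agent.Lib.FusionConstrSub
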