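/-
FusionDirectProd: saturated fusion systems over a product of two commuting strongly closed subgroups (S5130).
-/
import Mathlib
import Cfsg.Agent.Lib.FusionCore
import Cfsg.Agent.Lib.FusionCore2
import Cfsg.Agent.Lib.FusionInvariant
import Cfsg.Agent.Lib.FusionSatNorm

set_option autoImplicit false

namespace Cfsg.Agent.Lib.FusionDirectProd

open Cfsg Cfsg.FusionSystem Cfsg.Agent.Lib.FusionCore Cfsg.Agent.Lib.FusionInvariant

variable {Ω : Type*} [Group Ω] {S T Y P Q : Subgroup Ω} {p : ℕ} {f g : Ω → Ω}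

/-- Elements of the product of two commuting subgroups. -/
lemma exists_mul (hc : ∀ a ∈ T, ∀ b ∈ Y, a * b = b * a) {x : Ω} (hx : x ∈ T ⊔ Y) :
    ∃ t ∈ T, ∃ y ∈ Y, x = t * y := by
  let H : Subgroup Ω :=
    { carrier := {x | ∃ t ∈ T, ∃ y ∈ Y, x = t * y}
      one_mem' := ⟨1, T.one_mem, 1, Y.one_mem, by simp⟩
      mul_mem' := by
        rintro _ _ ⟨t, ht, y, hy, rfl⟩ ⟨t', ht', y', hy', rfl⟩
        refine ⟨t * t', T.mul_mem ht ht', y * y', Y.mul_mem hy hy', ?_⟩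
        have := hc t' ht' y hy
        calc t * y * (t' * y') = t * (y * t') * y' := by group
          _ = t * (t' * y) * y' := by rw [this]
          _ = _ := by group
      inv_mem' := by
        rintro _ ⟨t, ht, y, hy, rfl⟩
        refine ⟨t⁻¹, T.inv_mem ht, y⁻¹, Y.inv_mem hy, ?_⟩
        have := hc t ht y⁻¹ (Y.inv_mem hy)
        rw [mul_inv_rev]
        have h2 : y⁻¹ * t⁻¹ = t⁻¹ * y⁻¹ := by
          have h3 := hc t ht y hy
          calc y⁻¹ * t⁻¹ = (t * y)⁻¹ := by group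
            _ = (y * t)⁻¹ := by rw [h3]
            _ = _ := by group
        exact h2 }
  have hle : T ⊔ Y ≤ H := by
    refine sup_le (fun t ht => ⟨t, ht, 1, Y.one_mem, by simp⟩) (fun y hy => ⟨1, T.one_mem, y, hy, by simp⟩)
  exact hle hx

/-- A map on `A ⊔ B` takes values in a subgroup if it does so on `A` and `B`. -/
lemma forall_mem_sup {F : FusionSystem S} {A B : Subgroup Ω} (h : Maps F (A ⊔ B) g) {I : Subgroup Ω}
    (hA : ∀ x ∈ A, g x ∈ I) (hB : ∀ x ∈ B, g x ∈ I) : ∀ x ∈ A ⊔ B, g x ∈ I := by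
  have hle : A ⊔ B ≤ (I.comap h.hom).map (A ⊔ B).subtype := by
    refine sup_le (fun x hx => ?_) (fun x hx => ?_)
    · refine ⟨⟨x, (le_sup_left : A ≤ A ⊔ B) hx⟩, ?_, rfl⟩
      show h.hom _ ∈ I
      rw [h.hom_apply]
      exact hA x hx
    · refine ⟨⟨x, (le_sup_right : B ≤ A ⊔ B) hx⟩, ?_, rfl⟩
      show h.hom _ ∈ I
      rw [h.hom_apply]
      exact hB x hx
  intro x hx
  obtain ⟨⟨y, hy⟩, hy2, rfl⟩ := hle hx
  have : h.hom ⟨y, hy⟩ ∈ I := hy2
  rwa [h.hom_apply] at this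

lemma maps_iff {F : FusionSystem S} {R : FusionSystem T} (hR : ∀ P : Subgroup Ω, P ≤ T → R.Hom P = F.Hom P)
    (hP : P ≤ T) : Maps R P f ↔ Maps F P f := by
  constructor
  · rintro ⟨φ, hφ, h⟩
    exact ⟨φ, by rw [← hR P hP]; exact hφ, h⟩
  · rintro ⟨φ, hφ, h⟩
    exact ⟨φ, by rw [hR P hP]; exact hφ, h⟩

lemma autGroup_eq {F : FusionSystem S} {R : FusionSystem T} (hR : ∀ P : Subgroup Ω, P ≤ T → R.Hom P = F.Hom P)
    (hP : P ≤ T) : R.autGroup P = F.autGroup P := by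
  rw [autGroup, autGroup, hR P hP]

section Sat

variable [Finite S] [Fact p.Prime]

/-- The restriction of a saturated system to a strongly closed factor of a central product is saturated. -/
theorem saturated_restrict (hS : IsPGroup p S) {F : FusionSystem S} (hF : F.IsSaturated p)
    (hT : F.StronglyClosed T) (hTY : T ⊔ Y = S) (hc : ∀ a ∈ T, ∀ b ∈ Y, a * b = b * a)
    {R : FusionSystem T} (hR : ∀ P : Subgroup Ω, P ≤ T → R.Hom P = F.Hom P) : R.IsSaturated p := by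
  have hTS : T ≤ S := hT.1
  haveI : Finite T := finite_of_le hTS
  have hpT : IsPGroup p T := hS.to_le hTS
  intro P hP
  obtain ⟨Q, hPQ, hQa, hQr⟩ := hF P (hP.trans hTS)
  rw [FusionCore.isConj_iff] at hPQ
  obtain ⟨f₀, hf₀, rfl⟩ := hPQ
  have hQT : img f₀ P ≤ T := strong_img_le hT hP hf₀
  refine ⟨img f₀ P, FusionCore.isConj_iff.2 ⟨f₀, (maps_iff hR hP).2 hf₀, rfl⟩, ?_, ?_⟩
  · rw [isFullyAutomized_iff hpT hQT]
    rw [isFullyAutomized_iff hS (hQT.trans hTS)] at hQa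
    rw [autGroup_eq hR hQT]
    have e : autInducedBy T (img f₀ P) = autInducedBy S (img f₀ P) := by
      apply le_antisymm (autInducedBy_mono hTS)
      intro α hα
      rw [mem_autInducedBy] at hα ⊢
      obtain ⟨s, hs, h⟩ := hα
      rw [← hTY] at hs
      obtain ⟨t, ht, y, hy, rfl⟩ := exists_mul hc hs
      refine ⟨t, ht, fun x hx => ?_⟩
      rw [h x hx]
      have := hc x (hQT hx) y hy
      calc t * y * x * (t * y)⁻¹ = t * (y * x) * y⁻¹ * t⁻¹ := by group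
        _ = t * (x * y) * y⁻¹ * t⁻¹ := by rw [this]
        _ = _ := by group
    rw [e]
    exact hQa
  · refine isReceptive_of hQT (fun P' f' hf' himg => ?_)
    have hP'T : P' ≤ T := hf'.le
    obtain ⟨k, hk, hkf⟩ := IsReceptive.ext hQr ((maps_iff hR hP'T).1 hf') himg
    have hle : Nf T P' f' ≤ Nf S P' f' := by
      intro z hz
      rw [mem_Nf] at hz ⊢
      obtain ⟨h1, h2, u, hu, hu2⟩ := hz
      exact ⟨hTS h1, h2, u, hTS hu, hu2⟩
    have hle2 : Nf T P' f' ≤ T := fun z hz => (mem_Nf.1 hz).1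
    exact ⟨k, (maps_iff hR hle2).2 (hk.restrict hle), hkf⟩

variable {F : FusionSystem S}

/-- A strongly closed subgroup is the only conjugate of itself. -/
lemma img_strong (hT : F.StronglyClosed T) (hf : Maps F T f) : img f T = T :=
  img_eq_of_card hf hT.1 hT.1 (fun _ hx => StrongMem hT le_rfl hf hx) le_rfl

/-- A strongly closed subgroup is receptive. -/
lemma receptive_strong (hF : F.IsSaturated p) (hT : F.StronglyClosed T) : F.IsReceptive T := by
  obtain ⟨Q, hPQ, -, hQr⟩ := hF T hT.1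
  rw [FusionCore.isConj_iff] at hPQ
  obtain ⟨f₀, hf₀, rfl⟩ := hPQ
  rwa [img_strong hT hf₀] at hQr

/-- Automorphisms of a strongly closed factor extend to the whole group. -/
theorem ext_aut (hF : F.IsSaturated p) (hT : F.StronglyClosed T) (hTY : T ⊔ Y = S)
    (hc : ∀ a ∈ T, ∀ b ∈ Y, a * b = b * a) (hf : Maps F T f) :
    ∃ k, Maps F S k ∧ ∀ x ∈ T, k x = f x := by
  obtain ⟨k, hk, hkf⟩ := IsReceptive.ext (receptive_strong hF hT) hf (img_strong hT hf)
  refine ⟨k, hk.restrict ?_, hkf⟩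
  have hle : T ⊔ Y ≤ Nf S T f := by
    refine sup_le (le_Nf hf) (fun y hy => centralizerIn_le_Nf hf ?_)
    exact mem_centralizerIn.2 ⟨hTY ▸ (le_sup_right : Y ≤ T ⊔ Y) hy, fun x hx => hc x hx y hy⟩
  rwa [hTY] at hle

/-- Every map with source in the factor extends over the other factor. -/
theorem ext_sup (hF : F.IsSaturated p) (hT : F.StronglyClosed T) (hY : F.StronglyClosed Y) (hTY : T ⊔ Y = S)
    (hc : ∀ a ∈ T, ∀ b ∈ Y, a * b = b * a) (hP : P ≤ T) (hf : Maps F P f) :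
    ∃ k, Maps F (P ⊔ Y) k ∧ ∀ x ∈ P, k x = f x := by
  have hTS : T ≤ S := hT.1
  have hYS : Y ≤ S := hY.1
  -- extension to a receptive conjugate
  have key : ∀ {A : Subgroup Ω} {h : Ω → Ω}, A ≤ T → Maps F A h → F.IsReceptive (img h A) →
      ∃ k, Maps F (A ⊔ Y) k ∧ ∀ x ∈ A, k x = h x := by
    intro A h hA hh hr
    obtain ⟨k, hk, hkf⟩ := IsReceptive.ext hr hh rfl
    refine ⟨k, hk.restrict (sup_le (le_Nf hh) (fun y hy => centralizerIn_le_Nf hh ?_)), hkf⟩
    exact mem_centralizerIn.2 ⟨hYS hy, fun x hx => hc x (hA hx) y hy⟩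
  obtain ⟨Q, hPQ, -, hQr⟩ := hF P hf.le
  rw [FusionCore.isConj_iff] at hPQ
  obtain ⟨f₁, hf₁, rfl⟩ := hPQ
  obtain ⟨g₁, hg₁, hg₁f⟩ := key hP hf₁ hQr
  -- the inverse of `f`
  obtain ⟨fi, hfi, hfi1, hfi2⟩ := hf.inv
  have hP' : img f P ≤ T := strong_img_le hT hP hf
  have hcomp : Maps F (img f P) (f₁ ∘ fi) := hfi.comp hf₁ (fun y hy => (hfi2 y hy).1)
  have himg : img (f₁ ∘ fi) (img f P) = img f₁ P := by
    have e := hf.img_inv hfi hfi1
    rw [img_comp hfi (by rw [e]; exact hf₁), e]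
  obtain ⟨g₂, hg₂, hg₂f⟩ := key hP' hcomp (himg ▸ hQr)
  obtain ⟨gi, hgi, hgi1, hgi2⟩ := hg₂.inv
  have h1 : ∀ x ∈ P, g₁ x = g₂ (f x) := by
    intro x hx
    rw [hg₁f x hx, hg₂f _ (hf.mem_img_of_mem hx)]
    simp only [Function.comp, hfi1 x hx]
  have hmem : ∀ x ∈ P ⊔ Y, g₁ x ∈ img g₂ (img f P ⊔ Y) := by
    refine forall_mem_sup hg₁ (fun x hx => ?_) (fun y hy => ?_)
    · rw [h1 x hx]
      exact hg₂.mem_img_of_mem ((le_sup_left : img f P ≤ img f P ⊔ Y) (hf.mem_img_of_mem hx))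
    · have h2 : g₁ y ∈ Y := StrongMem hY le_rfl (hg₁.restrict le_sup_right) hy
      have h3 := hg₂.restrict (le_sup_right : Y ≤ img f P ⊔ Y)
      have h4 : g₁ y ∈ img g₂ Y := by rw [img_strong hY h3]; exact h2
      obtain ⟨z, hz, hz2⟩ := h3.mem_img.1 h4
      rw [← hz2]
      exact hg₂.mem_img_of_mem ((le_sup_right : Y ≤ img f P ⊔ Y) hz)
  refine ⟨gi ∘ g₁, hg₁.comp hgi hmem, fun x hx => ?_⟩
  simp only [Function.comp]
  rw [h1 x hx]
  exact hgi1 _ ((le_sup_left : img f P ≤ img f P ⊔ Y) (hf.mem_img_of_mem hx))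

/-- Maps of the centralizer part. -/
lemma maps_cent_iff {R' : FusionSystem T} (hR' : ∀ P : Subgroup Ω, P ≤ T → R'.Hom P = F.centralizerHom Y P)
    (hTS : T ≤ S) (hYS : Y ≤ S) (hc : ∀ a ∈ T, ∀ b ∈ Y, a * b = b * a) (hT : F.StronglyClosed T) (hP : P ≤ T) :
    Maps R' P f ↔ ∃ k, Maps F (P ⊔ Y) k ∧ (∀ x ∈ P, k x = f x) ∧ ∀ y ∈ Y, k y = y := by
  have hcen : ∀ x ∈ T, x ∈ centralizerIn S Y := fun x hx =>
    mem_centralizerIn.2 ⟨hTS hx, fun y hy => (hc x hx y hy).symm⟩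
  constructor
  · rintro ⟨φ, hφ, h⟩
    rw [hR' P hP] at hφ
    obtain ⟨-, -, -, ψ, hψ, h1, h2⟩ := hφ
    refine ⟨fn ψ, Maps.of_mem hψ, fun x hx => ?_, fun y hy => ?_⟩
    · rw [fn_of_mem ψ ((le_sup_left : P ≤ P ⊔ Y) hx), ← h ⟨x, hx⟩, ← h1 ⟨x, hx⟩]
      rfl
    · rw [fn_of_mem ψ ((le_sup_right : Y ≤ P ⊔ Y) hy)]
      exact h2 ⟨y, hy⟩
  · rintro ⟨k, hk, h1, h2⟩
    have hm : Maps F P f := (hk.restrict le_sup_left).congr h1
    refine ⟨hm.hom, ?_, hm.hom_apply⟩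
    rw [hR' P hP]
    refine ⟨hm.hom_mem, fun x hx => hcen x (hP hx), fun x => hcen _ ?_, hk.hom, hk.hom_mem, fun x => ?_, fun x => ?_⟩
    · rw [hm.hom_apply]
      exact StrongMem hT hP hm x.2
    · rw [hk.hom_apply, hm.hom_apply]
      exact h1 x x.2
    · rw [hk.hom_apply]
      exact h2 x x.2

/-- Frattini condition for the centralizer part. -/
theorem frat_cent (hF : F.IsSaturated p) (hT : F.StronglyClosed T) (hY : F.StronglyClosed Y) (hTY : T ⊔ Y = S)
    (hc : ∀ a ∈ T, ∀ b ∈ Y, a * b = b * a) {R' : FusionSystem T}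
    (hR' : ∀ P : Subgroup Ω, P ≤ T → R'.Hom P = F.centralizerHom Y P) : Frat F R' := by
  intro P f hP hf
  have hTS : T ≤ S := hT.1
  have hYS : Y ≤ S := hY.1
  obtain ⟨g₃, hg₃, hg₃f⟩ := ext_sup hF hT hY hTY hc hP hf
  have hc' : ∀ a ∈ Y, ∀ b ∈ T, a * b = b * a := fun a ha b hb => (hc b hb a ha).symm
  obtain ⟨h, hh, hhf⟩ := ext_aut hF hY (by rwa [sup_comm]) hc' (hg₃.restrict le_sup_right)
  -- `h` is onto `S`
  have himgS : img h S = S := img_strong ⟨le_rfl, fun R hR φ hφ x => (F.le_of_mem hφ).2 x⟩ hh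
  obtain ⟨k, hk, hk1, hk2⟩ := hh.inv
  rw [himgS] at hk hk2
  have hT2 : img h T = T := img_strong hT (hh.restrict hTS)
  refine ⟨(hh.restrict hTS).toAut hT2, (hh.restrict hTS).toAut_mem hT2, k ∘ f, ?_, fun x hx => ?_⟩
  · rw [maps_cent_iff hR' hTS hYS hc hT hP]
    have hg₃S : ∀ x ∈ P ⊔ Y, g₃ x ∈ S := fun x hx => hg₃.mem hx
    refine ⟨k ∘ g₃, hg₃.comp hk hg₃S, fun x hx => ?_, fun y hy => ?_⟩
    · simp only [Function.comp, hg₃f x hx]
    · simp only [Function.comp]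
      rw [← hhf y hy]
      exact hk1 y (hYS hy)
  · have hmemT : k (f x) ∈ T := by
      have hfx : f x ∈ T := StrongMem hT hP hf hx
      have hk3 : Maps F T k := hk.restrict hTS
      exact StrongMem hT le_rfl hk3 hfx
    simp only [Function.comp]
    rw [(hh.restrict hTS).afn_toAut hT2 hmemT]
    exact ((hk2 _ (hf.mem hx)).2).symm

/-- Invariance of the centralizer part. -/
theorem inv_cent (hF : F.IsSaturated p) (hT : F.StronglyClosed T) (hY : F.StronglyClosed Y) (hTY : T ⊔ Y = S)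
    (hc : ∀ a ∈ T, ∀ b ∈ Y, a * b = b * a) {R' : FusionSystem T}
    (hR' : ∀ P : Subgroup Ω, P ≤ T → R'.Hom P = F.centralizerHom Y P) : Inv F R' := by
  intro P f hf a ha
  have hTS : T ≤ S := hT.1
  have hYS : Y ≤ S := hY.1
  have hP : P ≤ T := hf.le
  obtain ⟨g, hg, hgf, hgY⟩ := (maps_cent_iff hR' hTS hYS hc hT hP).1 hf
  have haT := Maps_of_mem_autGroup hTS ha
  obtain ⟨h, hh, hhf⟩ := ext_aut hF hT hTY hc haT
  have himgS : img h S = S := img_strong ⟨le_rfl, fun R hR φ hφ x => (F.le_of_mem hφ).2 x⟩ hh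
  obtain ⟨b, hb, hb1, hb2⟩ := hh.inv
  rw [himgS] at hb hb2
  have hPa : img (afn a) P ≤ T := by
    intro y hy
    obtain ⟨x, hx, rfl⟩ := (haT.restrict hP).mem_img.1 hy
    exact afn_mem a (hP hx)
  have hbY : ∀ y ∈ Y, b y ∈ Y := fun y hy => StrongMem hY le_rfl (hb.restrict hYS) hy
  have hbP : ∀ y ∈ img (afn a) P, b y ∈ P := by
    intro y hy
    obtain ⟨x, hx, rfl⟩ := (haT.restrict hP).mem_img.1 hy
    rw [← hhf x (hP hx), hb1 x (hTS (hP hx))]
    exact hx
  have hb3 : Maps F (img (afn a) P ⊔ Y) b := hb.restrict (sup_le (hPa.trans hTS) hYS)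
  have hbs : ∀ x ∈ img (afn a) P ⊔ Y, b x ∈ P ⊔ Y := by
    refine forall_mem_sup hb3 (fun x hx => ?_) (fun y hy => ?_)
    · exact (le_sup_left : P ≤ P ⊔ Y) (hbP x hx)
    · exact (le_sup_right : Y ≤ P ⊔ Y) (hbY y hy)
  have hgb : Maps F (img (afn a) P ⊔ Y) (g ∘ b) := hb3.comp hg hbs
  have hk : Maps F (img (afn a) P ⊔ Y) (h ∘ (g ∘ b)) := hgb.comp hh (fun x hx => hgb.mem hx)
  refine ⟨h ∘ (g ∘ b), ?_, fun x hx => ?_⟩
  · rw [maps_cent_iff hR' hTS hYS hc hT hPa]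
    refine ⟨_, hk, fun x _ => rfl, fun y hy => ?_⟩
    simp only [Function.comp]
    rw [hgY _ (hbY y hy)]
    exact (hb2 y (hYS hy)).2
  · simp only [Function.comp]
    have hxT := hP hx
    rw [← hhf x hxT, hb1 x (hTS hxT), hgf x hx, hhf _ (hf.mem hx)]

/-- The centralizer part is saturated. -/
theorem saturated_cent (hS : IsPGroup p S) (hF : F.IsSaturated p) (hT : F.StronglyClosed T)
    (hY : F.StronglyClosed Y) (hTY : T ⊔ Y = S) (hc : ∀ a ∈ T, ∀ b ∈ Y, a * b = b * a) {R' : FusionSystem T}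
    (hR' : ∀ P : Subgroup Ω, P ≤ T → R'.Hom P = F.centralizerHom Y P) : R'.IsSaturated p := by
  have hTS : T ≤ S := hT.1
  have hYS : Y ≤ S := hY.1
  obtain ⟨E, hE⟩ := exists_centralizerSystem (F := F) hYS
  have hYc : F.IsFullyCentralized Y := by
    refine ⟨hYS, fun Q hQ => ?_⟩
    rw [FusionCore.isConj_iff] at hQ
    obtain ⟨h, hh, rfl⟩ := hQ
    rw [img_strong hY hh]
  have hEs : E.IsSaturated p := Cfsg.Agent.Lib.FusionSatNorm.saturated_centralizer hS hF hYc hE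
  have hCS : centralizerIn S Y ≤ S := inf_le_left
  haveI : Finite (centralizerIn S Y) := finite_of_le hCS
  have hTC : T ≤ centralizerIn S Y := fun x hx =>
    mem_centralizerIn.2 ⟨hTS hx, fun y hy => (hc x hx y hy).symm⟩
  have hTE : E.StronglyClosed T := by
    refine ⟨hTC, fun R hRT φ hφ x => ?_⟩
    rw [hE R] at hφ
    exact hT.2 R hRT φ hφ.1 x
  have hZ : T ⊔ (Y ⊓ Subgroup.centralizer (Y : Set Ω)) = centralizerIn S Y := by
    apply le_antisymm
    · refine sup_le hTC (fun y hy => ?_)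
      refine mem_centralizerIn.2 ⟨hYS hy.1, fun z hz => ?_⟩
      exact (Subgroup.mem_centralizer_iff.1 hy.2 z hz)
    · intro c hc0
      obtain ⟨hcS, hcY⟩ := mem_centralizerIn.1 hc0
      rw [← hTY] at hcS
      obtain ⟨t, ht, y, hy, rfl⟩ := exists_mul hc hcS
      refine Subgroup.mul_mem _ ((le_sup_left : T ≤ T ⊔ _) ht) ((le_sup_right : _ ≤ T ⊔ _) ⟨hy, ?_⟩)
      refine Subgroup.mem_centralizer_iff.2 ?_
      intro z hz
      have h1 := hcY z hz
      have h2 := hc t ht z hz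
      have : t * (z * y) = t * (y * z) := by
        calc t * (z * y) = (t * z) * y := by group
          _ = z * t * y := by rw [h2]
          _ = z * (t * y) := by group
          _ = t * y * z := h1
          _ = t * (y * z) := by group
      exact (mul_left_cancel this)
  refine saturated_restrict (hS.to_le hCS) hEs hTE hZ ?_ (fun P hP => (hR' P hP).trans (hE P).symm)
  intro a ha b hb
  exact hc a ha b hb.1

/-- The extension condition. -/
theorem ext_cond (hT : F.StronglyClosed T) (hY : F.StronglyClosed Y) (hTY : T ⊔ Y = S)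
    (hc : ∀ a ∈ T, ∀ b ∈ Y, a * b = b * a) {R' : FusionSystem T}
    (hR' : ∀ P : Subgroup Ω, P ≤ T → R'.Hom P = F.centralizerHom Y P) :
    ∀ α ∈ R'.autGroup T, ∃ β ∈ F.autGroup (T ⊔ centralizerIn S T),
      (∀ x : T, ((β (Subgroup.inclusion le_sup_left x) : ↥(T ⊔ centralizerIn S T)) : Ω) = ((α x : T) : Ω)) ∧
      ∀ c : ↥(T ⊔ centralizerIn S T), (c : Ω) ∈ centralizerIn S T →
        (c : Ω)⁻¹ * ((β c : ↥(T ⊔ centralizerIn S T)) : Ω) ∈ T ⊓ Subgroup.centralizer (T : Set Ω) := by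
  intro α hα
  have hTS : T ≤ S := hT.1
  have hYS : Y ≤ S := hY.1
  have hUS : T ⊔ centralizerIn S T = S := by
    apply le_antisymm (sup_le hTS inf_le_left)
    rw [← hTY]
    refine sup_le le_sup_left (fun y hy => (le_sup_right : _ ≤ T ⊔ centralizerIn (T ⊔ Y) T) ?_)
    exact mem_centralizerIn.2 ⟨(le_sup_right : Y ≤ T ⊔ Y) hy, fun x hx => hc x hx y hy⟩
  have hm := Maps_of_mem_autGroup le_rfl hα
  obtain ⟨k, hk, hk1, hk2⟩ := (maps_cent_iff hR' hTS hYS hc hT le_rfl).1 hm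
  rw [hTY] at hk
  have hk' : Maps F (T ⊔ centralizerIn S T) k := by rw [hUS]; exact hk
  have himg : img k (T ⊔ centralizerIn S T) = T ⊔ centralizerIn S T := by
    rw [hUS]
    exact img_strong ⟨le_rfl, fun R hR φ hφ x => (F.le_of_mem hφ).2 x⟩ hk
  refine ⟨hk'.toAut himg, hk'.toAut_mem himg, fun x => ?_, fun c hcc => ?_⟩
  · have := hk'.afn_toAut himg ((le_sup_left : T ≤ T ⊔ centralizerIn S T) x.2)
    rw [afn_of_mem _ ((le_sup_left : T ≤ T ⊔ centralizerIn S T) x.2)] at this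
    refine Eq.trans this ?_
    rw [hk1 _ x.2, afn_coe]
  · have hcS : (c : Ω) ∈ T ⊔ Y := by rw [hTY]; exact hTS.trans le_rfl |> fun _ => (mem_centralizerIn.1 hcc).1
    obtain ⟨t, ht, y, hy, hty⟩ := exists_mul hc hcS
    have hval : ((hk'.toAut himg c : ↥(T ⊔ centralizerIn S T)) : Ω) = k c := by
      have := hk'.afn_toAut himg c.2
      rwa [afn_of_mem _ c.2] at this
    rw [hval, hty, hk.map_mul ((le_sup_left : T ≤ T ⊔ Y) ht |> fun h => hTY ▸ h) (hYS hy), hk2 y hy, hk1 t ht]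
    have htz : ∀ z ∈ T, t * z = z * t := by
      intro z hz
      have h1 := (mem_centralizerIn.1 hcc).2 z hz
      rw [hty] at h1
      have h2 := hc z hz y hy
      have h3 : z * t * y = t * z * y := by
        calc z * t * y = z * (t * y) := by group
          _ = t * y * z := h1
          _ = t * (y * z) := by group
          _ = t * (z * y) := by rw [h2]
          _ = t * z * y := by group
      exact (mul_right_cancel h3).symm
    have haz : ∀ z ∈ T, afn α t * z = z * afn α t := by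
      intro z hz
      have e1 := afn_mem α⁻¹ hz
      have h1 := htz _ e1
      have hm2 : afn α (t * afn α⁻¹ z) = afn α t * afn α (afn α⁻¹ z) := hm.map_mul ht e1
      have hm3 : afn α (afn α⁻¹ z * t) = afn α (afn α⁻¹ z) * afn α t := hm.map_mul e1 ht
      rw [afn_afn_inv α hz] at hm2 hm3
      rw [← hm2, ← hm3, h1]
    have e : (t * y)⁻¹ * (afn α t * y) = t⁻¹ * afn α t := by
      have h1 := hc (afn α t) (afn_mem α ht) y hy
      rw [h1, mul_inv_rev]
      have h2 := hc t⁻¹ (T.inv_mem ht) y hy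
      calc y⁻¹ * t⁻¹ * (y * afn α t) = y⁻¹ * (t⁻¹ * y) * afn α t := by group
        _ = y⁻¹ * (y * t⁻¹) * afn α t := by rw [h2]
        _ = _ := by group
    rw [e]
    refine ⟨T.mul_mem (T.inv_mem ht) (afn_mem α ht), ?_⟩
    refine Subgroup.mem_centralizer_iff.2 ?_
    intro z hz
    have h1 := htz z hz
    have h2 := haz z hz
    have h3 : t⁻¹ * z = z * t⁻¹ := by
      calc t⁻¹ * z = t⁻¹ * (z * t) * t⁻¹ := by group
        _ = t⁻¹ * (t * z) * t⁻¹ := by rw [h1]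
        _ = _ := by group
    calc z * (t⁻¹ * afn α t) = (z * t⁻¹) * afn α t := by group
      _ = t⁻¹ * z * afn α t := by rw [h3]
      _ = t⁻¹ * (z * afn α t) := by group
      _ = t⁻¹ * (afn α t * z) := by rw [h2]
      _ = _ := by group

/-- Invariance of the restriction. -/
theorem inv_restrict (hT : F.StronglyClosed T) {R : FusionSystem T}
    (hR : ∀ P : Subgroup Ω, P ≤ T → R.Hom P = F.Hom P) : Inv F R := by
  intro P f hf a ha
  have hTS : T ≤ S := hT.1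
  have hP : P ≤ T := hf.le
  have hfF : Maps F P f := (maps_iff hR hP).1 hf
  have haT := Maps_of_mem_autGroup hTS ha
  have hPa : img (afn a) P ≤ T := by
    intro y hy
    obtain ⟨x, hx, rfl⟩ := (haT.restrict hP).mem_img.1 hy
    exact afn_mem a (hP hx)
  have ha2 : Maps F T (afn a⁻¹) := Maps_of_mem_autGroup hTS (inv_mem ha)
  have h1 : Maps F (img (afn a) P) (afn a⁻¹) := ha2.restrict hPa
  have hbP : ∀ y ∈ img (afn a) P, afn a⁻¹ y ∈ P := by
    intro y hy
    obtain ⟨x, hx, rfl⟩ := (haT.restrict hP).mem_img.1 hy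
    rw [afn_inv_afn a (hP hx)]
    exact hx
  have h2 : Maps F (img (afn a) P) (f ∘ afn a⁻¹) := h1.comp hfF hbP
  have h3 : Maps F (img (afn a) P) (afn a ∘ (f ∘ afn a⁻¹)) :=
    h2.comp haT (fun y hy => StrongMem hT hP hfF (hbP y hy))
  refine ⟨_, (maps_iff hR hPa).2 h3, fun x hx => ?_⟩
  simp only [Function.comp]
  rw [afn_inv_afn a (hP hx)]

/-- The Frattini condition for the restriction. -/
theorem frat_restrict (hT : F.StronglyClosed T) {R : FusionSystem T}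
    (hR : ∀ P : Subgroup Ω, P ≤ T → R.Hom P = F.Hom P) : Frat F R := by
  intro P f hP hf
  refine ⟨1, one_mem _, f, (maps_iff hR hP).2 hf, fun x hx => ?_⟩
  rw [afn_one (StrongMem hT hP hf hx)]

/-- Transfer the conditions to the restriction system `R` on `T`. -/
lemma frat_to_restrict (hT : F.StronglyClosed T) {R : FusionSystem T} {R' : FusionSystem T}
    (hR : ∀ P : Subgroup Ω, P ≤ T → R.Hom P = F.Hom P) (h : Frat F R') : Frat R R' := by
  intro P f hP hf
  obtain ⟨a, ha, f₀, hf₀, hfa⟩ := h hP ((maps_iff hR hP).1 hf)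
  exact ⟨a, by rw [autGroup_eq hR le_rfl]; exact ha, f₀, hf₀, hfa⟩

lemma inv_to_restrict {R : FusionSystem T} {R' : FusionSystem T}
    (hR : ∀ P : Subgroup Ω, P ≤ T → R.Hom P = F.Hom P) (h : Inv F R') : Inv R R' := by
  intro P f hf a ha
  exact h hf a (by rw [← autGroup_eq hR le_rfl]; exact ha)

end Sat

/-- S5130. -/
theorem main [Finite S] [Fact p.Prime] (hS : IsPGroup p S) (F : FusionSystem S) (hF : F.IsSaturated p)
    (S₁ S₂ : Subgroup Ω) (hle₁ : S₁ ≤ S) (hle₂ : S₂ ≤ S) (hc : ∀ a ∈ S₁, ∀ b ∈ S₂, a * b = b * a)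
    (hsup : S₁ ⊔ S₂ = S) (h₁ : F.StronglyClosed S₁) (h₂ : F.StronglyClosed S₂) (R R' : FusionSystem S₁)
    (hR : ∀ P : Subgroup Ω, P ≤ S₁ → R.Hom P = F.Hom P)
    (hR' : ∀ P : Subgroup Ω, P ≤ S₁ → R'.Hom P = F.centralizerHom S₂ P) :
    R.IsSaturated p ∧ R'.IsSaturated p ∧ R'.IsNormalIn F p ∧ R'.IsNormalIn R p ∧ R.IsWeaklyNormalIn F p := by
  have hRs : R.IsSaturated p := saturated_restrict hS hF h₁ hsup hc hR
  have hR's : R'.IsSaturated p := saturated_cent hS hF h₁ h₂ hsup hc hR'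
  have hsub : R'.IsSubsystemOf F := by
    intro P φ hφ
    have hP := (R'.le_of_mem hφ).1
    rw [hR' P hP] at hφ
    exact hφ.1
  have hsubR : R'.IsSubsystemOf R := by
    intro P φ hφ
    have hP := (R'.le_of_mem hφ).1
    rw [hR P hP]
    exact hsub P hφ
  have hinv : Inv F R' := inv_cent hF h₁ h₂ hsup hc hR'
  have hfrat : Frat F R' := frat_cent hF h₁ h₂ hsup hc hR'
  have hclR : R.StronglyClosed S₁ := ⟨le_rfl, fun Q _ φ hφ x => (R.le_of_mem hφ).2 x⟩
  refine ⟨hRs, hR's, ⟨⟨hR's, hF, ?_⟩, ext_cond h₁ h₂ hsup hc hR'⟩, ⟨⟨hR's, hRs, ?_⟩, ?_⟩, hRs, hF, ?_⟩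
  · exact isInvariantIn_iff.2 ⟨hsub, h₁, hinv, hfrat⟩
  · exact isInvariantIn_iff.2 ⟨hsubR, hclR, inv_to_restrict hR hinv, frat_to_restrict h₁ hR hfrat⟩
  · intro α hα
    have hU : S₁ ⊔ centralizerIn S₁ S₁ = S₁ := sup_eq_left.2 inf_le_left
    have hm := Maps_of_mem_autGroup le_rfl hα
    have hm' : Maps R (S₁ ⊔ centralizerIn S₁ S₁) (afn α) := by rw [hU]; exact maps_sub hsubR hm
    have himg : img (afn α) (S₁ ⊔ centralizerIn S₁ S₁) = S₁ ⊔ centralizerIn S₁ S₁ := by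
      rw [hU]; exact afn_img α
    refine ⟨hm'.toAut himg, hm'.toAut_mem himg, fun x => ?_, fun c hcc => ?_⟩
    · have := hm'.afn_toAut himg ((le_sup_left : S₁ ≤ S₁ ⊔ centralizerIn S₁ S₁) x.2)
      rw [afn_of_mem _ ((le_sup_left : S₁ ≤ S₁ ⊔ centralizerIn S₁ S₁) x.2)] at this
      refine Eq.trans this ?_
      rw [afn_coe]
    · have hval : ((hm'.toAut himg c : ↥(S₁ ⊔ centralizerIn S₁ S₁)) : Ω) = afn α c := by
        have := hm'.afn_toAut himg c.2
        rwa [afn_of_mem _ c.2] at this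
      rw [hval]
      obtain ⟨htS, htz⟩ := mem_centralizerIn.1 hcc
      have haz : ∀ z ∈ S₁, afn α c * z = z * afn α c := by
        intro z hz
        have e1 := afn_mem α⁻¹ hz
        have h1 := htz _ e1
        have hm2 : afn α ((c : Ω) * afn α⁻¹ z) = afn α c * afn α (afn α⁻¹ z) := hm.map_mul htS e1
        have hm3 : afn α (afn α⁻¹ z * (c : Ω)) = afn α (afn α⁻¹ z) * afn α c := hm.map_mul e1 htS
        rw [afn_afn_inv α hz] at hm2 hm3
        rw [← hm2, ← hm3, h1]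
      refine ⟨S₁.mul_mem (S₁.inv_mem htS) (afn_mem α htS), Subgroup.mem_centralizer_iff.2 ?_⟩
      intro z hz
      have h1 := htz z hz
      have h2 := haz z hz
      have h3 : (c : Ω)⁻¹ * z = z * (c : Ω)⁻¹ := by
        calc (c : Ω)⁻¹ * z = (c : Ω)⁻¹ * (z * c) * (c : Ω)⁻¹ := by group
          _ = (c : Ω)⁻¹ * (c * z) * (c : Ω)⁻¹ := by rw [h1]
          _ = _ := by group
      calc z * ((c : Ω)⁻¹ * afn α c) = (z * (c : Ω)⁻¹) * afn α c := by group
        _ = (c : Ω)⁻¹ * z * afn α c := by rw [h3]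
        _ = (c : Ω)⁻¹ * (z * afn α c) := by group
        _ = (c : Ω)⁻¹ * (afn α c * z) := by rw [h2]
        _ = _ := by group
  · refine isInvariantIn_iff.2 ⟨?_, h₁, inv_restrict h₁ hR, frat_restrict h₁ hR⟩
    intro P φ hφ
    have hP := (R.le_of_mem hφ).1
    rwa [hR P hP] at hφ

end Cfsg.Agent.Lib.FusionDirectProd
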