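import Cfsg.Agent.Lib.G23Up
import Cfsg.Agent.Lib.G23CData
import Cfsg.Agent.Lib.CoverStem

/-!
# `G₂(3)`: the triple cover
-/

set_option autoImplicit false
set_option maxRecDepth 100000

universe u

namespace Cfsg.Agent.Lib.G23Cover

open Cfsg Cfsg.Lie Cfsg.Agent.Lib.G2Data Cfsg.Agent.Lib.G2Three Cfsg.Agent.Lib.G23Data Cfsg.Agent.Lib.G23Sub
open Cfsg.Agent.Lib.SchurCoset46 Cfsg.Agent.Lib.CosetPackG Cfsg.Agent.Lib.G23Cert Cfsg.Agent.Lib.G23Up
open Cfsg.Agent.Lib.G23CData Cfsg.Agent.Lib.CoverStem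
open scoped Matrix MatrixGroups Pointwise

/-- The certificate for the cover. -/
def cov : CoverCert where
  p := 3
  n := 378
  m := 2
  k := 7
  f := fun i y => fld (cond (Nat.beq i 0) tFa tFb) 11 2047 y
  nb := fun y => (List.range 117).map fun j => fld (fld tN 1287 (2 ^ 1287 - 1) y) 11 2047 j
  mks := fun y => fld tM 1134 (2 ^ 1134 - 1) y
  prt := fun c => fld G23CData.tR 11 2047 c
  lead := fun c => fld tD 11 2047 c
  word := wordT

theorem cov_ok : cov.check = true := by decide +kernel

/-! ### The fibres -/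

/-- The code of the vector of a fibre. -/
def Lp (c : ℕ) : ℕ := fld G23CData.tP 12 4095 c

/-- The index of the code of a vector. -/
def Lpi (d : ℕ) : ℕ := fld tPI 10 1023 d

/-- The code of the negative of a vector. -/
def negC (c : ℕ) : ℕ := act Mneg c

theorem Mneg_eq : matOf Mneg = -1 := by decide +kernel

theorem vv_neg (c : ℕ) : vv (negC c) = - vv c := by
  rw [negC, vv_act, Mneg_eq, Matrix.neg_mulVec, Matrix.one_mulVec]

theorem VV_neg (c : ℕ) : VV (negC c) = - VV c := by
  rw [VV, vv_neg, Matrix.mulVec_neg, VV]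

/-- The objects below the fibres. -/
def rep (c : ℕ) : Set V := {VV (Lp c), - VV (Lp c)}

theorem smul_pair (g : G0) {a b : ℕ} (h : g • VV a = VV b ∨ g • VV a = VV (negC b)) :
    g • ({VV a, - VV a} : Set V) = {VV b, - VV b} := by
  have hneg : g • (- VV a) = - (g • VV a) := by
    rw [smul_def, smul_def, Matrix.mulVec_neg]
  rw [Set.smul_set_insert, Set.smul_set_singleton, hneg]
  rcases h with h | h
  · rw [h]
  · rw [h, VV_neg, neg_neg, Set.pair_comm]

theorem fib_chk : (List.range 2).all (fun i => (List.range 1134).all fun y =>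
    Nat.beq (act (gL (2 * i)) (Lp (y / 3))) (Lp (cov.f i y / 3)) ||
      Nat.beq (act (gL (2 * i)) (Lp (y / 3))) (negC (Lp (cov.f i y / 3)))) = true := by
  decide +kernel

theorem rep_chk : (List.range 378).all (fun c =>
    Nat.blt (Lp c) 2187 && Nat.beq (Lpi (Lp c)) c && Nat.beq (Lpi (negC (Lp c))) 1023) = true := by
  decide +kernel

theorem hfib0 : ∀ i, i < 2 → ∀ y, y < 1134 → sG i • rep (y / 3) = rep (cov.f i y / 3) := by
  intro i hi y hy
  have h := fib_chk
  simp only [List.all_eq_true, List.mem_range, Bool.or_eq_true] at h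
  have h1 := h i hi y hy
  apply smul_pair
  have hl : Y (sG i) = matOf (gL (2 * i)) := by
    rw [← Y_lett (by omega), lett_even]
  rcases h1 with h1 | h1
  · left
    apply smul_VV_eq
    rw [hl, ← vv_act, Nat.eq_of_beq_eq_true h1]
  · right
    apply smul_VV_eq
    rw [hl, ← vv_act, Nat.eq_of_beq_eq_true h1]

theorem hrep0 : ∀ c d, c < 378 → d < 378 → rep c = rep d → c = d := by
  intro c d hc hd he
  have h := rep_chk
  simp only [List.all_eq_true, List.mem_range, Bool.and_eq_true, Nat.blt_eq] at h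
  obtain ⟨⟨h1, h2⟩, h3⟩ := h c hc
  obtain ⟨⟨h4, h5⟩, h6⟩ := h d hd
  have h2' := Nat.eq_of_beq_eq_true h2
  have h5' := Nat.eq_of_beq_eq_true h5
  have h6' := Nat.eq_of_beq_eq_true h6
  have hm : VV (Lp c) ∈ rep d := by
    rw [← he]
    exact Set.mem_insert _ _
  rcases hm with hm | hm
  · have := VV_inj h1 h4 hm
    rw [← h2', ← h5', this]
  · have hm' : VV (Lp c) = VV (negC (Lp d)) := by rw [VV_neg]; exact hm
    have := VV_inj h1 (act_lt _ _) hm'
    exfalso
    have h7 : Lpi (Lp c) = 1023 := by rw [this]; exact h6'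
    omega

theorem prodW_evW {H : Type*} [Group H] (g : ℕ → H) (w : List ℕ) : prodW g w = evW g (w.map (2 * ·)) := by
  induction w with
  | nil => rfl
  | cons i w ih =>
    show g i * prodW g w = lett g (2 * i) * evW g (w.map (2 * ·))
    rw [ih, lett_even]

theorem word_one : wordOne (wordT.map (2 * ·)) = true := by decide +kernel

theorem hW0 : prodW sG wordT = 1 := by
  rw [prodW_evW]
  exact evW_eq_one word_one

/-- The triple cover, for a group isomorphic to `G₂(3)`. -/
theorem exists_cover {G' : Type u} [Group G'] [Finite G'] (e : G' ≃* G0) :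
    ∃ (Γ : Type u) (_ : Group Γ) (_ : Finite Γ) (σ : Γ →* G'), IsStemExtension σ ∧
      Nonempty (σ.ker ≃* Multiplicative (ZMod 3)) := by
  letI : MulAction G' (Set V) := MulAction.compHom (Set V) e.toMonoidHom
  have hsm : ∀ (x : G') (t : Set V), x • t = e x • t := fun _ _ => rfl
  let s : ℕ → G' := fun i => e.symm (sG i)
  have hprod : ∀ w, prodW s w = e.symm (prodW sG w) := by
    intro w
    induction w with
    | nil => exact (map_one e.symm).symm
    | cons i w ih =>
      show s i * prodW s w = e.symm (sG i * prodW sG w)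
      rw [ih, map_mul]
  refine exists_stem (Ω := Set V) cov cov_ok Nat.prime_three (s := s) ?_ ?_ (rep := rep) ?_ hrep0 ?_
  · have h1 := congrArg (Subgroup.map e.symm.toMonoidHom) hgen
    rw [MonoidHom.map_closure, Subgroup.map_top_of_surjective _ e.symm.surjective] at h1
    rw [← h1]
    congr 1
    ext a
    constructor
    · rintro ⟨i, hi, rfl⟩
      exact ⟨sG i, ⟨i, hi, rfl⟩, rfl⟩
    · rintro ⟨_, ⟨i, hi, rfl⟩, rfl⟩
      exact ⟨i, hi, rfl⟩
  · intro i _
    show (e.symm (sG i)) ^ 7 = 1
    rw [← map_pow, sG_pow, map_one]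
  · intro i hi y hy
    rw [hsm]
    show e (e.symm (sG i)) • _ = _
    rw [MulEquiv.apply_symm_apply]
    exact hfib0 i hi y hy
  · rw [hprod]
    show e.symm (prodW sG wordT) = 1
    rw [hW0, map_one]

end Cfsg.Agent.Lib.G23Cover
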