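-- Shared library: data for G2(4): labels of a central extension by a group of order two: some relators.
import Mathlib
import Cfsg.Agent.Lib.G24LpT

set_option autoImplicit false
set_option Elab.async false
set_option maxRecDepth 100000
set_option linter.all false

namespace Cfsg.Agent.Lib.G24LpA

open Cfsg.Agent.Lib.SchurLoop Cfsg.Agent.Lib.SchurIdx Cfsg.Agent.Lib.G24LpT

theorem r0 : LoopC.rChk lcert 0 = true := by decide +kernel
theorem r1 : LoopC.rChk lcert 1 = true := by decide +kernel
theorem r3 : LoopC.rChk lcert 3 = true := by decide +kernel
theorem r4 : LoopC.rChk lcert 4 = true := by decide +kernel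
theorem r8 : LoopC.rChk lcert 8 = true := by decide +kernel
theorem r11 : LoopC.rChk lcert 11 = true := by decide +kernel
theorem r12 : LoopC.rChk lcert 12 = true := by decide +kernel
theorem r15 : LoopC.rChk lcert 15 = true := by decide +kernel
theorem r18 : LoopC.rChk lcert 18 = true := by decide +kernel
theorem r21 : LoopC.rChk lcert 21 = true := by decide +kernel
theorem r24 : LoopC.rChk lcert 24 = true := by decide +kernel
theorem r31 : LoopC.rChk lcert 31 = true := by decide +kernel
theorem r34 : LoopC.rChk lcert 34 = true := by decide +kernel
theorem r36 : LoopC.rChk lcert 36 = true := by decide +kernel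
theorem r44 : LoopC.rChk lcert 44 = true := by decide +kernel
theorem r46 : LoopC.rChk lcert 46 = true := by decide +kernel
theorem r49 : LoopC.rChk lcert 49 = true := by decide +kernel
theorem r52 : LoopC.rChk lcert 52 = true := by decide +kernel
theorem r53 : LoopC.rChk lcert 53 = true := by decide +kernel

end Cfsg.Agent.Lib.G24LpA
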