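-- Shared library: data for G2(4): labels of a central extension by a group of order two: some relators.
import Mathlib
import Cfsg.Agent.Lib.G24LpT

set_option autoImplicit false
set_option Elab.async false
set_option maxRecDepth 100000
set_option linter.all false

namespace Cfsg.Agent.Lib.G24LpB

open Cfsg.Agent.Lib.SchurLoop Cfsg.Agent.Lib.SchurIdx Cfsg.Agent.Lib.G24LpT

theorem r2 : LoopC.rChk lcert 2 = true := by decide +kernel
theorem r6 : LoopC.rChk lcert 6 = true := by decide +kernel
theorem r7 : LoopC.rChk lcert 7 = true := by decide +kernel
theorem r9 : LoopC.rChk lcert 9 = true := by decide +kernel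
theorem r13 : LoopC.rChk lcert 13 = true := by decide +kernel
theorem r16 : LoopC.rChk lcert 16 = true := by decide +kernel
theorem r19 : LoopC.rChk lcert 19 = true := by decide +kernel
theorem r22 : LoopC.rChk lcert 22 = true := by decide +kernel
theorem r25 : LoopC.rChk lcert 25 = true := by decide +kernel
theorem r27 : LoopC.rChk lcert 27 = true := by decide +kernel
theorem r29 : LoopC.rChk lcert 29 = true := by decide +kernel
theorem r32 : LoopC.rChk lcert 32 = true := by decide +kernel
theorem r35 : LoopC.rChk lcert 35 = true := by decide +kernel
theorem r37 : LoopC.rChk lcert 37 = true := by decide +kernel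
theorem r41 : LoopC.rChk lcert 41 = true := by decide +kernel
theorem r47 : LoopC.rChk lcert 47 = true := by decide +kernel
theorem r50 : LoopC.rChk lcert 50 = true := by decide +kernel

end Cfsg.Agent.Lib.G24LpB
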