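-- Shared library: data for G2(4): labels of a central extension by a group of order two: some relators.
import Mathlib
import Cfsg.Agent.Lib.G24LpT

set_option autoImplicit false
set_option Elab.async false
set_option maxRecDepth 100000
set_option linter.all false

namespace Cfsg.Agent.Lib.G24LpC

open Cfsg.Agent.Lib.SchurLoop Cfsg.Agent.Lib.SchurIdx Cfsg.Agent.Lib.G24LpT

theorem r5 : LoopC.rChk lcert 5 = true := by decide +kernel
theorem r10 : LoopC.rChk lcert 10 = true := by decide +kernel
theorem r14 : LoopC.rChk lcert 14 = true := by decide +kernel
theorem r17 : LoopC.rChk lcert 17 = true := by decide +kernel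
theorem r20 : LoopC.rChk lcert 20 = true := by decide +kernel
theorem r23 : LoopC.rChk lcert 23 = true := by decide +kernel
theorem r26 : LoopC.rChk lcert 26 = true := by decide +kernel
theorem r28 : LoopC.rChk lcert 28 = true := by decide +kernel
theorem r30 : LoopC.rChk lcert 30 = true := by decide +kernel
theorem r33 : LoopC.rChk lcert 33 = true := by decide +kernel
theorem r38 : LoopC.rChk lcert 38 = true := by decide +kernel
theorem r39 : LoopC.rChk lcert 39 = true := by decide +kernel
theorem r40 : LoopC.rChk lcert 40 = true := by decide +kernel
theorem r42 : LoopC.rChk lcert 42 = true := by decide +kernel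
theorem r43 : LoopC.rChk lcert 43 = true := by decide +kernel
theorem r45 : LoopC.rChk lcert 45 = true := by decide +kernel
theorem r48 : LoopC.rChk lcert 48 = true := by decide +kernel
theorem r51 : LoopC.rChk lcert 51 = true := by decide +kernel

end Cfsg.Agent.Lib.G24LpC
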