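-- Shared library: data for G2(4): labels of a central extension by a group of order two.
import Mathlib
import Cfsg.Agent.Lib.G24LpA
import Cfsg.Agent.Lib.G24LpB
import Cfsg.Agent.Lib.G24LpC

set_option autoImplicit false
set_option maxRecDepth 100000
set_option linter.all false

namespace Cfsg.Agent.Lib.G24Lp

open Cfsg.Agent.Lib.SchurLoop Cfsg.Agent.Lib.SchurIdx Cfsg.Agent.Lib

/-- The certificate. -/
noncomputable abbrev lcert : LoopC := G24LpT.lcert

/-- The relators. -/
abbrev relsL : List (List ℕ) := G24LpT.relsL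

/-- Their values. -/
abbrev tvL : List ℕ := G24LpT.tvL

theorem rall : ∀ j, j < lcert.R → LoopC.rChk lcert j = true := by
  intro j hj
  have hj' : j < 54 := hj
  interval_cases j
  · exact G24LpA.r0
  · exact G24LpA.r1
  · exact G24LpB.r2
  · exact G24LpA.r3
  · exact G24LpA.r4
  · exact G24LpC.r5
  · exact G24LpB.r6
  · exact G24LpB.r7
  · exact G24LpA.r8
  · exact G24LpB.r9
  · exact G24LpC.r10
  · exact G24LpA.r11
  · exact G24LpA.r12
  · exact G24LpB.r13
  · exact G24LpC.r14
  · exact G24LpA.r15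
  · exact G24LpB.r16
  · exact G24LpC.r17
  · exact G24LpA.r18
  · exact G24LpB.r19
  · exact G24LpC.r20
  · exact G24LpA.r21
  · exact G24LpB.r22
  · exact G24LpC.r23
  · exact G24LpA.r24
  · exact G24LpB.r25
  · exact G24LpC.r26
  · exact G24LpB.r27
  · exact G24LpC.r28
  · exact G24LpB.r29
  · exact G24LpC.r30
  · exact G24LpA.r31
  · exact G24LpB.r32
  · exact G24LpC.r33
  · exact G24LpA.r34
  · exact G24LpB.r35
  · exact G24LpA.r36
  · exact G24LpB.r37
  · exact G24LpC.r38
  · exact G24LpC.r39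
  · exact G24LpC.r40
  · exact G24LpB.r41
  · exact G24LpC.r42
  · exact G24LpC.r43
  · exact G24LpA.r44
  · exact G24LpC.r45
  · exact G24LpA.r46
  · exact G24LpB.r47
  · exact G24LpC.r48
  · exact G24LpA.r49
  · exact G24LpB.r50
  · exact G24LpC.r51
  · exact G24LpA.r52
  · exact G24LpA.r53

theorem lcert_ok : lcert.check = true := LoopC.check_of_parts lcert G24LpT.pre_ok rall G24LpT.post_ok

end Cfsg.Agent.Lib.G24Lp
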