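-- Shared library: G2(4): elements of the Chevalley group on codes of 8 x 8 matrices over the field with four elements, root elements, stabilisers of row vectors, orbit chains.
import Mathlib
import Cfsg.Agent.Lib.G24Rel
import Cfsg.Agent.Lib.F4Mat8
import Cfsg.Agent.Lib.SchurCoset46
import Cfsg.Agent.Lib.OrbitChain
import Cfsg.Agent.Lib.SchurPackD

set_option autoImplicit false
set_option maxRecDepth 100000
set_option linter.unusedVariables false
set_option linter.unusedSectionVars false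

namespace Cfsg.Agent.Lib.G24Mat

open Cfsg Cfsg.Lie Matrix Subgroup Cfsg.Agent.Lib.F4K Cfsg.Agent.Lib.G24Data Cfsg.Agent.Lib.G24Rel
  Cfsg.Agent.Lib.F4Mat8 Cfsg.Agent.Lib.SchurCoset46 Cfsg.Agent.Lib.SchurPackD

/-- The root of the polynomial. -/
def om : K4 := c4 2

theorem two0 : (2 : K4) = 0 := by decide +kernel

theorem omom : om * om = om + 1 := by decide +kernel

/-- The matrix of a code. -/
def dc (c : ℕ) : M8 := dec om c

theorem dc_mul (a b : ℕ) : dc (mulC a b) = dc a * dc b := dec_mulC om two0 omom a b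

/-- The code of the identity. -/
def idM : ℕ := 9241421688590303745

theorem dc_id : dc idM = 1 := by decide +kernel

/-- An element of the group has the given matrix. -/
def Rq (g : Lg) (c : ℕ) : Prop := ((phi g : GL (Fin 8) K4) : M8) = dc c

theorem Rq_mul {g h : Lg} {a b : ℕ} (hg : Rq g a) (hh : Rq h b) : Rq (g * h) (mulC a b) := by
  show ((phi (g * h) : GL (Fin 8) K4) : M8) = _
  rw [map_mul, Units.val_mul, hg, hh, dc_mul]

theorem Rq_one : Rq 1 idM := by
  show ((phi 1 : GL (Fin 8) K4) : M8) = _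
  rw [map_one, Units.val_one, dc_id]

theorem Rq_inv {g : Lg} {a b : ℕ} (hg : Rq g a) (h : mulC a b = idM) : Rq g⁻¹ b := by
  have h1 : dc a * dc b = 1 := by rw [← dc_mul, h, dc_id]
  have h2 : ((phi g : GL (Fin 8) K4) : M8) * dc b = 1 := by rw [hg]; exact h1
  show ((phi g⁻¹ : GL (Fin 8) K4) : M8) = dc b
  rw [map_inv]
  calc (((phi g)⁻¹ : GL (Fin 8) K4) : M8)
      = (((phi g)⁻¹ : GL (Fin 8) K4) : M8) * (((phi g : GL (Fin 8) K4) : M8) * dc b) := by rw [h2, mul_one]
    _ = dc b := by rw [← mul_assoc, ← Units.val_mul, inv_mul_cancel, Units.val_one, one_mul]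

theorem Rq_unique {g h : Lg} {c : ℕ} (hg : Rq g c) (hh : Rq h c) : g = h :=
  phi_injective (Units.ext (hg.trans hh.symm))

theorem eq_one_of_Rq {g : Lg} (hg : Rq g idM) : g = 1 := Rq_unique hg Rq_one

/-! ### Root elements -/

theorem x_sq : ∀ (r : Fin chevG2.nroots) (t : K4), chevG2.xMat K4 r t * chevG2.xMat K4 r t = 1 := by decide +kernel

/-- A root element. -/
def rootG (r : Fin chevG2.nroots) (t : K4) : Lg :=
  ⟨⟨chevG2.xMat K4 r t, chevG2.xMat K4 r t, x_sq r t, x_sq r t⟩, Subgroup.subset_closure ⟨r, t, rfl⟩⟩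

theorem phi_root (r : Fin chevG2.nroots) (t : K4) : phi (rootG r t) = yU r t := phi_gen r t _ rfl

/-- The root element with a given index. -/
def rE (i : ℕ) : Lg := rootG ⟨(i / 4) % 12, Nat.mod_lt _ (by decide)⟩ (c4 i)

/-- A subgroup with all root elements is everything. -/
theorem top_of_roots (C : Subgroup Lg) (h : ∀ i, i < 48 → rE i ∈ C) : C = ⊤ := by
  have h1 : ∀ (r : Fin chevG2.nroots) (t : K4), rootG r t ∈ C := by
    intro r t
    have hr : r.1 < 12 := r.2
    have ht : t.1 < 4 := t.2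
    have h2 := h (4 * r.1 + t.1) (by omega)
    have e1 : ((4 * r.1 + t.1) / 4) % 12 = r.1 := by omega
    have e2 : c4 (4 * r.1 + t.1) = t := by
      apply Fin.ext
      show Nat.mod (4 * r.1 + t.1) 4 = t.1
      show (4 * r.1 + t.1) % 4 = t.1
      omega
    have e3 : rE (4 * r.1 + t.1) = rootG r t := by
      unfold rE
      rw [e2]
      congr 1
      exact Fin.ext e1
    rwa [e3] at h2
  rw [eq_top_iff]
  rintro ⟨g, hg⟩ -
  have key : ∀ x (hx : x ∈ chevG2.group K4), (⟨x, hx⟩ : Lg) ∈ C := by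
    intro x hx
    unfold ChevalleyDatum.group at hx
    induction hx using Subgroup.closure_induction with
    | mem x hx =>
      obtain ⟨r, t, hx'⟩ := hx
      have h2 := h1 r t
      have e : (⟨x, Subgroup.subset_closure ⟨r, t, hx'⟩⟩ : Lg) = rootG r t := by
        apply Subtype.ext
        apply Units.ext
        exact hx'
      have := e ▸ h2
      exact this
    | one => exact C.one_mem
    | mul a b ha hb iha ihb => exact C.mul_mem iha ihb
    | inv a ha iha => exact C.inv_mem iha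
  exact key g hg

/-! ### Words in root elements -/

/-- The product of root elements. -/
def evE : List ℕ → Lg
  | [] => 1
  | i :: w => rE i * evE w

/-- The code of a product of root elements. -/
def evC (L : List ℕ) : List ℕ → ℕ
  | [] => idM
  | i :: w => mulC (L.getD i 0) (evC L w)

theorem Rq_evE {L : List ℕ} (hL : ∀ i, i < 48 → Rq (rE i) (L.getD i 0)) :
    ∀ w : List ℕ, (∀ i ∈ w, i < 48) → Rq (evE w) (evC L w) := by
  intro w
  induction w with
  | nil => intro _; exact Rq_one
  | cons i w ih =>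
    intro h
    exact Rq_mul (hL i (h i List.mem_cons_self)) (ih (fun a ha => h a (List.mem_cons_of_mem _ ha)))

/-- The codes of root elements are right. -/
def rootChk (L : List ℕ) : Bool :=
  decide (∀ (r : Fin chevG2.nroots) (t : K4), yM r.1 t = dc (L.getD (4 * r.1 + t.1) 0))

theorem Rq_rE {L : List ℕ} (h : rootChk L = true) : ∀ i, i < 48 → Rq (rE i) (L.getD i 0) := by
  have h1 := of_decide_eq_true h
  intro i hi
  set r : Fin chevG2.nroots := ⟨(i / 4) % 12, Nat.mod_lt _ (by decide)⟩ with hr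
  set t : K4 := c4 i with ht
  have hrv : r.1 = i / 4 := by
    show (i / 4) % 12 = i / 4
    omega
  have htv : t.1 = i % 4 := rfl
  have e : 4 * r.1 + t.1 = i := by
    rw [hrv, htv]
    omega
  show ((phi (rootG r t) : GL (Fin 8) K4) : M8) = _
  rw [phi_root]
  show yM r.1 t = _
  have h2 := h1 r t
  rw [e] at h2
  exact h2

/-! ### Row vectors -/

/-- The action on matrices. -/
noncomputable def act (g : Lg) (D : M8) : M8 := D * ((phi g⁻¹ : GL (Fin 8) K4) : M8)

theorem act_mul (g h : Lg) (D : M8) : act (g * h) D = act g (act h D) := by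
  simp only [act, _root_.mul_inv_rev, map_mul, Units.val_mul, mul_assoc]

theorem act_one (D : M8) : act 1 D = D := by
  simp [act]

/-- The stabiliser of a matrix under right multiplication. -/
noncomputable def Stb (D : M8) : Subgroup Lg where
  carrier := {g | D * ((phi g : GL (Fin 8) K4) : M8) = D}
  mul_mem' := by
    intro a b ha hb
    show D * ((phi (a * b) : GL (Fin 8) K4) : M8) = D
    rw [map_mul, Units.val_mul, ← mul_assoc, show D * ((phi a : GL (Fin 8) K4) : M8) = D from ha]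
    exact hb
  one_mem' := by
    show D * ((phi 1 : GL (Fin 8) K4) : M8) = D
    rw [map_one, Units.val_one, mul_one]
  inv_mem' := by
    intro a ha
    show D * ((phi a⁻¹ : GL (Fin 8) K4) : M8) = D
    have ha' : D * ((phi a : GL (Fin 8) K4) : M8) = D := ha
    conv_lhs => rw [← ha']
    rw [mul_assoc, ← Units.val_mul, ← map_mul, mul_inv_cancel, map_one, Units.val_one, mul_one]

theorem mem_Stb {D : M8} {g : Lg} : g ∈ Stb D ↔ D * ((phi g : GL (Fin 8) K4) : M8) = D := Iff.rfl

theorem act_of_mem {D : M8} {g : Lg} (h : g ∈ Stb D) : act g D = D :=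
  (Stb D).inv_mem h

/-- The row vector of a compressed code, as a code of a matrix. -/
def vc (c : ℕ) : ℕ := Nat.lor (Nat.land c 255) (Nat.shiftLeft (Nat.shiftRight c 8) 64)

/-- Binary digits. -/
def lb2 (a b c d e f g h : ℕ) : ℕ := a + 2 * (b + 2 * (c + 2 * (d + 2 * (e + 2 * (f + 2 * (g + 2 * h))))))

/-- The compressed code of the first row. -/
def lv (D : M8) : ℕ :=
  lb2 ((D 0 0).1 % 2) ((D 0 1).1 % 2) ((D 0 2).1 % 2) ((D 0 3).1 % 2) ((D 0 4).1 % 2) ((D 0 5).1 % 2) ((D 0 6).1 % 2) ((D 0 7).1 % 2) +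
    256 * lb2 ((D 0 0).1 / 2) ((D 0 1).1 / 2) ((D 0 2).1 / 2) ((D 0 3).1 / 2) ((D 0 4).1 / 2) ((D 0 5).1 / 2) ((D 0 6).1 / 2) ((D 0 7).1 / 2)

/-- A level: points, parents and labels of a tree, and a rank table. -/
structure Lvl where
  (n m w pts par lb rk : ℕ)

/-- A point. -/
def Lvl.pt (L : Lvl) (i : ℕ) : ℕ := fld L.pts 16 65535 i

/-- A parent. -/
def Lvl.p (L : Lvl) (i : ℕ) : ℕ := fld L.par L.w (2 ^ L.w - 1) i

/-- A label. -/
def Lvl.l (L : Lvl) (i : ℕ) : ℕ := fld L.lb 4 15 i

/-- The rank of a point. -/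
def Lvl.rank (L : Lvl) (v : ℕ) : ℕ := fld L.rk L.w (2 ^ L.w - 1) v

/-- The check of a level. -/
def Lvl.chk (L : Lvl) (gens : ℕ → ℕ) : Bool :=
  (List.range L.n).all fun i =>
    Nat.beq (L.rank (L.pt i)) i && Nat.beq (lv (dc (vc (L.pt i)))) (L.pt i) &&
      (Nat.beq i 0 || (Nat.blt (L.p i) i && (Nat.blt (L.l i) L.m && Nat.beq (mulC (vc (L.pt (L.p i))) (gens (L.l i))) (vc (L.pt i)))))

/-- The order bound of a level. -/
theorem Lvl.card_le (L : Lvl) (gens : ℕ → ℕ) (h : L.chk gens = true) {S T : Subgroup Lg} [Finite S] (hTS : T ≤ S)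
    (g : ℕ → Lg) (hg : ∀ i, i < L.m → g i ∈ S) (hR : ∀ i, i < L.m → Rq (g i)⁻¹ (gens i))
    (hfix : ∀ t ∈ T, act t (dc (vc (L.pt 0))) = dc (vc (L.pt 0))) : L.n * Nat.card T ≤ Nat.card S := by
  have h1 := List.all_eq_true.mp h
  refine Cfsg.Agent.Lib.OrbitChain.card_mul_le_of_tree hTS act act_mul act_one g hg (fun i => dc (vc (L.pt i))) L.p L.l
    ?_ ?_ hfix
  · intro i hi h0
    have h2 := h1 i (List.mem_range.mpr hi)
    simp only [Bool.and_eq_true, Bool.or_eq_true] at h2
    rcases h2.2 with h3 | ⟨h3, h4, h5⟩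
    · exact absurd (Nat.eq_of_beq_eq_true h3) h0
    · have h3' : L.p i < i := Nat.le_of_ble_eq_true h3
      have h4' : L.l i < L.m := Nat.le_of_ble_eq_true h4
      refine ⟨h3', h4', ?_⟩
      show dc (vc (L.pt (L.p i))) * ((phi (g (L.l i))⁻¹ : GL (Fin 8) K4) : M8) = _
      rw [hR _ h4', ← dc_mul, Nat.eq_of_beq_eq_true h5]
  · intro i j hi hj hij
    have h3 := h1 i (List.mem_range.mpr hi)
    have h4 := h1 j (List.mem_range.mpr hj)
    simp only [Bool.and_eq_true] at h3 h4
    have h5 := Nat.eq_of_beq_eq_true h3.1.1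
    have h6 := Nat.eq_of_beq_eq_true h4.1.1
    have h7 := Nat.eq_of_beq_eq_true h3.1.2
    have h8 := Nat.eq_of_beq_eq_true h4.1.2
    have h9 : L.pt i = L.pt j := by
      rw [← h7, ← h8]
      exact congrArg lv hij
    rw [← h5, ← h6, h9]

end Cfsg.Agent.Lib.G24Mat
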