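-- Shared library: a perfect subgroup of index prime to `p` whose multiplier is prime to `p` forces the same for the group; labels on coset graphs checked relator by relator.
import Mathlib
import Cfsg.Agent.Lib.SchurPerf
import Cfsg.Agent.Lib.SchurLoop
import Cfsg.Agent.Lib.SchurStem

set_option autoImplicit false
set_option linter.unusedVariables false
set_option linter.unusedSectionVars false
set_option linter.style.haveILetI false

universe u

namespace Cfsg.Agent.Lib.SchurIdx

open Cfsg Subgroup Cfsg.Agent.Lib.SchurCoset46 Cfsg.Agent.Lib.SchurPack Cfsg.Agent.Lib.SchurPerf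
  Cfsg.Agent.Lib.SchurLoop

/-- The multiplier through a perfect subgroup of index prime to `p`. -/
theorem PT_of_index {G : Type} [Group G] [Finite G] {H : Subgroup G} (hperf : commutator H = ⊤) {p : ℕ} (hp : p.Prime)
    (hPT : PT.{u, 0} p H) (hc : Nat.Coprime H.index p) : PT.{u, 0} p G := by
  intro Γ _ _ σ hσ
  obtain ⟨w₀, ρ₀, hw₀, hρ₀⟩ := exists_retract hσ hperf hp hPT
  have hcw : Nat.Coprime w₀ p := by
    have h1 : Nat.gcd w₀ p ∣ w₀ % p := (Nat.dvd_mod_iff (Nat.gcd_dvd_right _ _)).mpr (Nat.gcd_dvd_left _ _)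
    rw [hw₀] at h1
    exact Nat.dvd_one.mp h1
  have hidx : (H.comap σ).index = H.index := Subgroup.index_comap_of_surjective H hσ.1
  have hcomm : ∀ a b : σ.ker, a * b = b * a := fun a b =>
    Subtype.ext (Subgroup.mem_center_iff.mp (hσ.2.1 b.2) a.1)
  letI : CommGroup σ.ker := { (inferInstance : Group σ.ker) with mul_comm := hcomm }
  have hc2 : Nat.Coprime ((H.comap σ).index * w₀) p := by
    rw [hidx]
    exact Nat.Coprime.mul_left hc hcw
  obtain ⟨v, hv⟩ := Nat.exists_mul_mod_eq_one_of_coprime hc2 hp.one_lt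
  refine coprime_of_pow hp hv.2 ?_
  rintro ⟨k, hk⟩
  obtain ⟨h, h2⟩ := Cfsg.Agent.Lib.SchurStem.pow_index_mem_commutator (H.comap σ) (hσ.2.1 hk) (hσ.2.2 hk)
  have h3 := Cfsg.Agent.Lib.SchurStem.map_eq_one_of_mem_commutator ρ₀ h2
  have hker : k ^ (H.comap σ).index ∈ σ.ker := σ.ker.pow_mem hk _
  rw [hρ₀ _ hker h] at h3
  have h4 : (k ^ (H.comap σ).index) ^ w₀ = 1 := congrArg Subtype.val h3
  apply Subtype.ext
  show k ^ ((H.comap σ).index * w₀ * v) = 1
  rw [pow_mul, pow_mul, h4, one_pow]

namespace LoopC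

/-- The first part of the check. -/
def preChk (C : LoopC) : Bool :=
  Nat.ble C.w C.W && Nat.blt 0 C.W && Nat.beq C.hm (hmask C.W C.w C.g) && C.tabChk &&
    (List.range (C.n * C.m)).all (fun e => Nat.beq (Nat.land (C.U e) C.hm) 0)

/-- The check of a relator. -/
def rChk (C : LoopC) (j : ℕ) : Bool :=
  Nat.beq (Nat.land (C.tv j) C.hm) 0 &&
    (List.range' 0 1).all (fun _ => Nat.blt ((C.rels j).length * C.DD + C.DD) C.BB) &&
    (C.rels j).all (fun l => Nat.blt l (2 * C.m)) &&
    (List.range C.n).all (C.loopOne j)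

/-- The last part of the check. -/
def postChk (C : LoopC) : Bool :=
  (List.range C.g).all (fun i => Nat.blt (C.genJ i) C.R && Nat.beq (C.tv (C.genJ i)) (C.BB ^ i))

theorem check_of_parts (C : LoopC) (h1 : preChk C = true) (h2 : ∀ j, j < C.R → rChk C j = true)
    (h3 : postChk C = true) : C.check = true := by
  have e : C.check = (preChk C && (List.range C.R).all (rChk C) && postChk C) := rfl
  rw [e, h1, h3, Bool.true_and, Bool.and_true, List.all_eq_true]
  intro j hj
  exact h2 j (List.mem_range.mp hj)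

end LoopC

end Cfsg.Agent.Lib.SchurIdx
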