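-- Shared library: the group U3(4) on two generators of order thirteen: presentation, order, perfectness, the multiplier is prime to two, three and five.
import Mathlib
import Cfsg.Agent.Lib.U3FTc
import Cfsg.Agent.Lib.U3FC2
import Cfsg.Agent.Lib.U3FC5
import Cfsg.Agent.Lib.SchurTower

set_option autoImplicit false
set_option maxRecDepth 100000
set_option linter.unusedVariables false
set_option linter.unusedSectionVars false

universe u

namespace Cfsg.Agent.Lib.U3FMain

open Cfsg Subgroup Cfsg.Agent.Lib.SchurCoset46 Cfsg.Agent.Lib.SchurPack Cfsg.Agent.Lib.SchurPackC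
  Cfsg.Agent.Lib.SchurPerf Cfsg.Agent.Lib.SchurTower

/-- The relators. -/
abbrev rels : List (List ℕ) := U3FTc.relsL

theorem tcf : TCf 2 4800 rels [0] := fun W _ x hg hr H hH => U3FTc.index_le x hg hr H hH

theorem ordBd : OrdBd 2 rels 62400 :=
  OrdBd.step (k := 0) (m' := 1) (N' := 13) tcf (ordBd_cyc 13 (by norm_num)) (by decide) (by decide) (by decide +kernel)

theorem rels_lt : ∀ r ∈ rels, ∀ l ∈ r, l < 2 * 2 := by decide +kernel

theorem loop2 : ∀ r ∈ rels, ∀ c, c < U3FC2.cert.n → endV U3FC2.cert.T c r = c := by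
  have h : rels.all (fun r => (List.range 832).all (fun c => Nat.beq (endV U3FC2.cert.T c r) c)) = true := by
    decide +kernel
  intro r hr c hc
  have h1 := (List.all_eq_true.mp h) r hr
  exact Nat.eq_of_beq_eq_true ((List.all_eq_true.mp h1) c (List.mem_range.mpr hc))

theorem loop5 : ∀ r ∈ rels, ∀ c, c < U3FC5.cert.n → endV U3FC5.cert.T c r = c := by
  have h : rels.all (fun r => (List.range 325).all (fun c => Nat.beq (endV U3FC5.cert.T c r) c)) = true := by
    decide +kernel
  intro r hr c hc
  have h1 := (List.all_eq_true.mp h) r hr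
  exact Nat.eq_of_beq_eq_true ((List.all_eq_true.mp h1) c (List.mem_range.mpr hc))

variable {H : Type} [Group H] [Finite H] {s : ℕ → H}

theorem perfect (hFP : FP s 2 rels) : commutator H = ⊤ := by
  refine perfect_of_combo hFP.gen [(7, U3FTc.relsL.getD 3 []), (1, U3FTc.relsL.getD 4 [])]
    [(-1, U3FTc.relsL.getD 3 [])] ?_ ?_ (by decide +kernel) (by decide +kernel)
    (by decide +kernel) (by decide +kernel)
  · intro p hp
    have hm : p.2 ∈ rels := by
      simp only [List.mem_cons, List.not_mem_nil, or_false] at hp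
      rcases hp with rfl | rfl <;> decide +kernel
    exact ⟨rels_lt _ hm, hFP.rel _ hm⟩
  · intro p hp
    have hm : p.2 ∈ rels := by
      simp only [List.mem_cons, List.not_mem_nil, or_false] at hp
      rcases hp with rfl
      decide +kernel
    exact ⟨rels_lt _ hm, hFP.rel _ hm⟩

theorem PT2 (hFP : FP s 2 rels) (hcard : Nat.card H = 62400) : PT.{u, 0} 2 H := by
  refine PT_coprime U3FC2.cert U3FC2.cert_ok hFP loop2 (E := 3) Nat.prime_two rfl (by rw [hcard]; norm_num)
    (o₀ := 13) (o₁ := 13) ?_ (by norm_num) (by norm_num) (N₀ := 75) (by rw [hcard]; rfl) (by norm_num) rfl ?_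
  · refine ⟨rfl, by decide +kernel, by decide +kernel, ?_, by show 2 ≤ 9; norm_num⟩
    intro j hj
    have h1 : Nat.ble (j + 1) 2 = true := hj
    have h2 := Nat.le_of_ble_eq_true h1
    omega
  · have h : (List.range 9).all (fun j => rels.contains (U3FC2.cert.rels j)) = true := by decide +kernel
    intro j hj
    have h1 := List.all_eq_true.mp h j (List.mem_range.mpr hj)
    simpa using h1

theorem PT5 (hFP : FP s 2 rels) (hcard : Nat.card H = 62400) : PT.{u, 0} 5 H := by
  refine PT_coprime U3FC5.cert U3FC5.cert_ok hFP loop5 (E := 1) Nat.prime_five rfl (by rw [hcard]; norm_num)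
    (o₀ := 13) (o₁ := 13) ?_ (by norm_num) (by norm_num) (N₀ := 192) (by rw [hcard]; rfl) (by norm_num) rfl ?_
  · refine ⟨rfl, by decide +kernel, by decide +kernel, ?_, by show 2 ≤ 9; norm_num⟩
    intro j hj
    have h1 : Nat.ble (j + 1) 2 = true := hj
    have h2 := Nat.le_of_ble_eq_true h1
    omega
  · have h : (List.range 9).all (fun j => rels.contains (U3FC5.cert.rels j)) = true := by decide +kernel
    intro j hj
    have h1 := List.all_eq_true.mp h j (List.mem_range.mpr hj)
    simpa using h1

end Cfsg.Agent.Lib.U3FMain
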