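-- Shared library: the Schur multiplier of G2(4): generators, a presentation along a tower, the bound on kernels and the cover.
import Mathlib
import Cfsg.Agent.Lib.G24Mat
import Cfsg.Agent.Lib.G24D
import Cfsg.Agent.Lib.G24Tc1
import Cfsg.Agent.Lib.G24Tc2
import Cfsg.Agent.Lib.G24Tab
import Cfsg.Agent.Lib.G24C2
import Cfsg.Agent.Lib.G24Lp
import Cfsg.Agent.Lib.U3FMain
import Cfsg.Agent.Lib.U33Main
import Cfsg.Agent.Lib.SchurAsm
import Cfsg.Agent.Lib.SchurIdx
import Cfsg.Agent.S1059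

set_option autoImplicit false
set_option maxRecDepth 100000
set_option linter.unusedVariables false
set_option linter.unusedSectionVars false

namespace Cfsg.Agent.Lib.G24Mult

open Cfsg Cfsg.Lie Matrix Subgroup Cfsg.Agent.Lib.SchurCoset46 Cfsg.Agent.Lib.SchurPack Cfsg.Agent.Lib.SchurPackC
  Cfsg.Agent.Lib.SchurPerf Cfsg.Agent.Lib.SchurRep Cfsg.Agent.Lib.SchurTower Cfsg.Agent.Lib.F4K
  Cfsg.Agent.Lib.G24Rel Cfsg.Agent.Lib.F4Mat8 Cfsg.Agent.Lib.G24Mat Cfsg.Agent.Lib.G24D Cfsg.Agent.Lib.SchurIdx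

theorem card_Lg : Nat.card Lg = 251596800 := by
  rw [Cfsg.Agent.S1059.result (F := K4) (q := 4) K4.card_K4]
  norm_num

instance : Finite Lg := Nat.finite_of_card_ne_zero (by rw [card_Lg]; norm_num)

/-! ### Generators -/

theorem rc_ok : rootChk rcL = true := by decide +kernel

theorem Rq_r : ∀ i, i < 48 → Rq (rE i) (rcL.getD i 0) := Rq_rE rc_ok

/-- The eight elements. -/
def gE (i : ℕ) : Lg := evE (wRL.getD i [])

theorem gE_chk : (List.range 8).all (fun i => (wRL.getD i []).all (fun a => Nat.blt a 48) &&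
    Nat.beq (evC rcL (wRL.getD i [])) (lcL.getD (2 * i) 0) && Nat.beq (mulC (lcL.getD (2 * i) 0) (lcL.getD (2 * i + 1) 0)) idM) = true := by
  decide +kernel

theorem Rq_gE {i : ℕ} (hi : i < 8) : Rq (gE i) (lcL.getD (2 * i) 0) := by
  have h1 := List.all_eq_true.mp gE_chk i (List.mem_range.mpr hi)
  simp only [Bool.and_eq_true, List.all_eq_true] at h1
  obtain ⟨⟨h2, h3⟩, h4⟩ := h1
  have h5 := Rq_evE Rq_r (wRL.getD i []) (fun a ha => Nat.le_of_ble_eq_true (h2 a ha))
  rw [Nat.eq_of_beq_eq_true h3] at h5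
  exact h5

theorem Rq_gE' {i : ℕ} (hi : i < 8) : Rq (gE i)⁻¹ (lcL.getD (2 * i + 1) 0) := by
  have h1 := List.all_eq_true.mp gE_chk i (List.mem_range.mpr hi)
  simp only [Bool.and_eq_true] at h1
  exact Rq_inv (Rq_gE hi) (Nat.eq_of_beq_eq_true h1.2)

/-- The generators along a map of indices. -/
def sM (mp : ℕ → ℕ) (i : ℕ) : Lg := gE (mp i)

/-- The code of a letter. -/
def lcm (mp : ℕ → ℕ) (l : ℕ) : ℕ := lcL.getD (2 * mp (l / 2) + l % 2) 0

/-- The code of a word. -/
def evM (mp : ℕ → ℕ) : List ℕ → ℕ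
  | [] => idM
  | l :: w => mulC (lcm mp l) (evM mp w)

theorem Rq_lett {mp : ℕ → ℕ} {l : ℕ} (h : mp (l / 2) < 8) : Rq (lett (sM mp) l) (lcm mp l) := by
  rcases Nat.mod_two_eq_zero_or_one l with h2 | h2
  · have e : lett (sM mp) l = gE (mp (l / 2)) := by
      unfold lett
      rw [if_pos h2]
      rfl
    rw [e]
    unfold lcm
    rw [h2]
    exact Rq_gE h
  · have e : lett (sM mp) l = (gE (mp (l / 2)))⁻¹ := by
      unfold lett
      rw [if_neg (by omega)]
      rfl
    rw [e]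
    unfold lcm
    rw [h2]
    exact Rq_gE' h

theorem Rq_evM {mp : ℕ → ℕ} {k : ℕ} (hmp : ∀ i, i < k → mp i < 8) :
    ∀ w : List ℕ, (∀ l ∈ w, l < 2 * k) → Rq (evW (sM mp) w) (evM mp w) := by
  intro w
  induction w with
  | nil => intro _; exact Rq_one
  | cons l w ih =>
    intro h
    have hl := h l List.mem_cons_self
    exact Rq_mul (Rq_lett (hmp _ (by omega))) (ih (fun a ha => h a (List.mem_cons_of_mem _ ha)))

/-- The test for a relator. -/
def relChk (mp : ℕ → ℕ) (k : ℕ) (w : List ℕ) : Bool := w.all (fun l => Nat.blt l (2 * k)) && Nat.beq (evM mp w) idM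

theorem rel_of_chk {mp : ℕ → ℕ} {k : ℕ} (hmp : ∀ i, i < k → mp i < 8) {w : List ℕ} (h : relChk mp k w = true) :
    evW (sM mp) w = 1 := by
  simp only [relChk, Bool.and_eq_true, List.all_eq_true] at h
  have h1 := Rq_evM hmp w (fun l hl => Nat.le_of_ble_eq_true (h.1 l hl))
  rw [Nat.eq_of_beq_eq_true h.2] at h1
  exact eq_one_of_Rq h1

theorem evW_mem {W : Type*} [Group W] (C : Subgroup W) {x : ℕ → W} {k : ℕ} (hx : ∀ i, i < k → x i ∈ C) :
    ∀ w : List ℕ, (∀ l ∈ w, l < 2 * k) → evW x w ∈ C := by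
  intro w
  induction w with
  | nil => intro _; exact C.one_mem
  | cons l w ih =>
    intro h
    refine C.mul_mem ?_ (ih (fun a ha => h a (List.mem_cons_of_mem _ ha)))
    have hl := h l List.mem_cons_self
    unfold lett
    split_ifs
    · exact hx _ (by omega)
    · exact C.inv_mem (hx _ (by omega))

/-- The tower. -/
def mT (i : ℕ) : ℕ := [0, 1, 0, 2, 0, 3].getD i 0

/-- The generators of the certificate. -/
def mC (i : ℕ) : ℕ := 4 + i

/-- The generators of the subgroup. -/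
def mA (i : ℕ) : ℕ := 6 + i

theorem mT_lt : ∀ i, i < 6 → mT i < 8 := by decide

theorem mC_lt : ∀ i, i < 2 → mC i < 8 := by decide

theorem mA_lt : ∀ i, i < 2 → mA i < 8 := by decide

/-- The generators of the tower. -/
abbrev sG : ℕ → Lg := sM mT

/-- The generators of the certificate. -/
abbrev sC : ℕ → Lg := sM mC

/-- The generators of the subgroup. -/
abbrev sA : ℕ → Lg := sM mA

/-- The relators of the tower. -/
abbrev R : List (List ℕ) := G24Tc1.relsL

theorem rels_chk : R.all (relChk mT 6) = true := by decide +kernel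

theorem rels_ok : ∀ r ∈ R, evW sG r = 1 := fun r hr =>
  rel_of_chk mT_lt (List.all_eq_true.mp rels_chk r hr)

theorem rels_lt : ∀ r ∈ R, ∀ l ∈ r, l < 2 * 6 := by decide +kernel

/-! ### Generation -/

theorem wRoot_chk : (List.range 48).all (fun i => (wRootL.getD i []).all (fun l => Nat.blt l 4) &&
    Nat.beq (evM mC (wRootL.getD i [])) (rcL.getD i 0)) = true := by decide +kernel

theorem closure_sC : closure (sC '' Set.Iio 2) = ⊤ := by
  apply top_of_roots
  intro i hi
  have h1 := List.all_eq_true.mp wRoot_chk i (List.mem_range.mpr hi)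
  simp only [Bool.and_eq_true, List.all_eq_true] at h1
  have h2 : ∀ l ∈ wRootL.getD i [], l < 2 * 2 := fun l hl => Nat.le_of_ble_eq_true (h1.1 l hl)
  have h3 := Rq_evM mC_lt _ h2
  rw [Nat.eq_of_beq_eq_true h1.2] at h3
  rw [Rq_unique (Rq_r i hi) h3]
  have hmem : ∀ i, i < 2 → sC i ∈ closure (sC '' Set.Iio 2) := fun i hi => Subgroup.subset_closure ⟨i, hi, rfl⟩
  exact evW_mem _ hmem _ h2

theorem wC_chk : (List.range 2).all (fun i => (wCL.getD i []).all (fun l => Nat.blt l 4) &&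
    Nat.beq (evM mT (wCL.getD i [])) (lcL.getD (2 * mC i) 0)) = true := by decide +kernel

theorem closure_sG2 : closure (sG '' Set.Iio 2) = ⊤ := by
  rw [eq_top_iff, ← closure_sC, closure_le]
  rintro _ ⟨i, hi, rfl⟩
  have hi' : i < 2 := hi
  have h1 := List.all_eq_true.mp wC_chk i (List.mem_range.mpr hi')
  simp only [Bool.and_eq_true, List.all_eq_true] at h1
  have h2 : ∀ l ∈ wCL.getD i [], l < 2 * 2 := fun l hl => Nat.le_of_ble_eq_true (h1.1 l hl)
  have h3 := Rq_evM (k := 6) mT_lt _ (fun l hl => by have := h2 l hl; omega)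
  rw [Nat.eq_of_beq_eq_true h1.2] at h3
  have e : sC i = evW sG (wCL.getD i []) := Rq_unique (Rq_gE (mC_lt i hi')) h3
  rw [e]
  have hmem : ∀ i, i < 2 → sG i ∈ closure (sG '' Set.Iio 2) := fun i hi => Subgroup.subset_closure ⟨i, hi, rfl⟩
  exact evW_mem _ hmem _ h2

theorem closure_sG : closure (sG '' Set.Iio 6) = ⊤ := by
  rw [eq_top_iff, ← closure_sG2]
  refine closure_mono (Set.image_mono ?_)
  intro i hi
  have h : i < 2 := hi
  show i < 6
  omega

/-! ### The presentation -/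

theorem tcf1 : TCf 6 416 R [4, 5, 6, 7] := fun W _ x hg hr H hH => G24Tc1.index_le x hg hr H hH

theorem tcf2 : TCf 4 100 G24Tc2.relsL [4, 5, 6, 7] := fun W _ x hg hr H hH => G24Tc2.index_le x hg hr H hH

theorem rels2_lt : ∀ r ∈ G24Tc2.relsL, ∀ l ∈ r, l < 2 * 4 := by decide +kernel

theorem rels2_sub : ∀ r ∈ G24Tc2.relsL, shW 2 r ∈ R := by decide +kernel

theorem ordBd2 : OrdBd 4 G24Tc2.relsL (100 * 6048) :=
  OrdBd.step (k := 2) (m' := 2) tcf2 U33Main.ordBd (by decide) U33Main.rels_lt (by decide +kernel)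

theorem ordBd0 : OrdBd 6 R (416 * (100 * 6048)) :=
  OrdBd.step (k := 2) (m' := 4) tcf1 ordBd2 (by decide) rels2_lt rels2_sub

theorem card_Lg' : Nat.card Lg = 416 * (100 * 6048) := by
  rw [card_Lg]

theorem hFP : FP sG 6 R := ⟨closure_sG, rels_ok, rels_lt, by rw [card_Lg']; exact ordBd0⟩

/-! ### The stabiliser of a row vector -/

theorem mem_Stb_of {g : Lg} {c v : ℕ} (h : Rq g c) (hv : mulC v c = v) : g ∈ Stb (dc v) := by
  show dc v * ((phi g : GL (Fin 8) K4) : M8) = dc v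
  rw [h, ← dc_mul, hv]

/-- The row vector. -/
def v0 : ℕ := vc (lvT.pt 0)

/-- The stabiliser of a row vector. -/
noncomputable def H0 : Subgroup Lg := Stb (dc v0)

theorem sA_fix : (List.range 2).all (fun i => Nat.beq (mulC v0 (lcL.getD (2 * mA i) 0)) v0) = true := by
  decide +kernel

theorem sA_mem {i : ℕ} (hi : i < 2) : sA i ∈ H0 :=
  mem_Stb_of (Rq_gE (mA_lt i hi))
    (Nat.eq_of_beq_eq_true (List.all_eq_true.mp sA_fix i (List.mem_range.mpr hi)))

theorem lvT_chk : lvT.chk (fun l => lcL.getD (8 + l) 0) = true := by decide +kernel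

theorem lett_sC {l : ℕ} (hl : l < 4) : Rq (lett sC l) (lcL.getD (8 + l) 0) := by
  have h := Rq_lett (mp := mC) (l := l) (mC_lt _ (by omega))
  have e : lcm mC l = lcL.getD (8 + l) 0 := by
    unfold lcm mC
    congr 1
    omega
  rwa [e] at h

theorem c0 : 4032 * Nat.card H0 ≤ Nat.card Lg := by
  have h := Lvl.card_le lvT _ lvT_chk (S := ⊤) (T := H0) le_top (fun l => (lett sC l)⁻¹) (fun _ _ => mem_top _)
    (fun l hl => by
      rw [inv_inv]
      exact lett_sC hl)
    (fun t ht => act_of_mem ht)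
  rwa [Subgroup.card_top] at h

theorem card_H0_le : Nat.card H0 ≤ 62400 := by
  have h := c0
  rw [card_Lg] at h
  omega

/-! ### The subgroup generated by two elements -/

/-- The subgroup generated by the two elements. -/
def SA : Subgroup Lg := closure (sA '' Set.Iio 2)

theorem SA_le : SA ≤ H0 := by
  rw [SA, closure_le]
  rintro _ ⟨i, hi, rfl⟩
  exact sA_mem hi

/-- Elements of a subgroup fixing a row vector. -/
def gS (i : ℕ) : Lg := evW sA (wSL.getD i [])

/-- The second level. -/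
def L2 : Subgroup Lg := closure (gS '' Set.Iio 4)

theorem gS_chk : (List.range 4).all (fun i => (wSL.getD i []).all (fun l => Nat.blt l 4) &&
    Nat.beq (evM mA (wSL.getD i [])) (mSL.getD i 0) &&
    Nat.beq (mulC (vc (lv1.pt 0)) (mSL.getD i 0)) (vc (lv1.pt 0))) = true := by decide +kernel

theorem gS_of {i : ℕ} (hi : i < 4) : gS i ∈ SA ∧ Rq (gS i) (mSL.getD i 0) ∧ gS i ∈ Stb (dc (vc (lv1.pt 0))) := by
  have h1 := List.all_eq_true.mp gS_chk i (List.mem_range.mpr hi)
  simp only [Bool.and_eq_true, List.all_eq_true] at h1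
  obtain ⟨⟨h2, h3⟩, h4⟩ := h1
  have h5 : ∀ l ∈ wSL.getD i [], l < 2 * 2 := fun l hl => Nat.le_of_ble_eq_true (h2 l hl)
  have h6 := Rq_evM mA_lt _ h5
  rw [Nat.eq_of_beq_eq_true h3] at h6
  have hmem : ∀ i, i < 2 → sA i ∈ SA := fun i hi => Subgroup.subset_closure ⟨i, hi, rfl⟩
  refine ⟨evW_mem _ hmem _ h5, h6, mem_Stb_of h6 (Nat.eq_of_beq_eq_true h4)⟩

theorem L2_le : L2 ≤ SA := by
  rw [L2, closure_le]
  rintro _ ⟨i, hi, rfl⟩
  exact (gS_of hi).1

theorem L2_fix : L2 ≤ Stb (dc (vc (lv1.pt 0))) := by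
  rw [L2, closure_le]
  rintro _ ⟨i, hi, rfl⟩
  exact (gS_of hi).2.2

theorem lv1_chk : lv1.chk (fun l => lcL.getD (12 + l) 0) = true := by decide +kernel

theorem lv2_chk : lv2.chk (fun l => mSL.getD l 0) = true := by decide +kernel

theorem lett_sA {l : ℕ} (hl : l < 4) : Rq (lett sA l) (lcL.getD (12 + l) 0) := by
  have h := Rq_lett (mp := mA) (l := l) (mA_lt _ (by omega))
  have e : lcm mA l = lcL.getD (12 + l) 0 := by
    unfold lcm mA
    congr 1
    omega
  rwa [e] at h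

theorem c1 : 975 * Nat.card L2 ≤ Nat.card SA := by
  refine Lvl.card_le lv1 _ lv1_chk L2_le (fun l => (lett sA l)⁻¹) ?_ ?_ (fun t ht => act_of_mem (L2_fix ht))
  · intro l hl
    have hl' : l < 4 := hl
    refine SA.inv_mem ?_
    unfold lett
    split_ifs
    · exact subset_closure ⟨_, by show l / 2 < 2; omega, rfl⟩
    · exact SA.inv_mem (subset_closure ⟨_, by show l / 2 < 2; omega, rfl⟩)
  · intro l hl
    rw [inv_inv]
    exact lett_sA hl

theorem c2 : 64 * Nat.card (⊥ : Subgroup Lg) ≤ Nat.card L2 := by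
  refine Lvl.card_le lv2 _ lv2_chk bot_le (fun i => (gS i)⁻¹) ?_ ?_ ?_
  · intro i hi
    exact L2.inv_mem (subset_closure ⟨i, hi, rfl⟩)
  · intro i hi
    rw [inv_inv]
    exact (gS_of hi).2.1
  · intro t ht
    rw [Subgroup.mem_bot.mp ht, act_one]

theorem card_SA_ge : 62400 ≤ Nat.card SA := by
  have h1 := c1
  have h2 := c2
  rw [Subgroup.card_bot, mul_one] at h2
  omega

theorem SA_eq : SA = H0 :=
  Subgroup.eq_of_le_of_card_ge SA_le (card_H0_le.trans card_SA_ge)

theorem card_H0 : Nat.card H0 = 62400 := by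
  have h1 := card_SA_ge
  rw [SA_eq] at h1
  exact le_antisymm card_H0_le h1

/-- The generators in the subgroup. -/
noncomputable def s0 (i : ℕ) : H0 := if hi : i < 2 then ⟨sA i, sA_mem hi⟩ else 1

theorem s0_val {i : ℕ} (hi : i < 2) : (s0 i : Lg) = sA i := by
  simp [s0, hi]

theorem rels3_chk : U3FMain.rels.all (relChk mA 2) = true := by decide +kernel

theorem hFP0 : FP s0 2 U3FMain.rels := by
  refine ⟨closure_sub_top H0 sA s0 SA_eq.symm (fun i hi => s0_val hi), ?_, U3FMain.rels_lt, ?_⟩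
  · intro r hr
    apply Subtype.ext
    have h1 := map_evW H0.subtype s0 r
    have h2 : evW (fun i => H0.subtype (s0 i)) r = evW sA r :=
      evW_congr (m := 2) (fun i hi => s0_val hi) r (U3FMain.rels_lt r hr)
    have h3 : evW sA r = 1 := rel_of_chk mA_lt (List.all_eq_true.mp rels3_chk r hr)
    show H0.subtype (evW s0 r) = 1
    rw [h1, h2, h3]
  · rw [card_H0]
    exact U3FMain.ordBd

theorem perf0 : commutator H0 = ⊤ := U3FMain.perfect hFP0

theorem index_H0 : H0.index = 4032 := by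
  have h := Subgroup.card_mul_index H0
  rw [card_H0, card_Lg] at h
  omega

/-! ### The table -/

theorem par_chk : (List.range 4032).all (fun c => Nat.beq c 0 ||
    (Nat.beq (G24Tab.par4 c).1 (lvT.p c) && Nat.beq (G24Tab.par4 c).2 (lvT.l c))) = true := by
  decide +kernel

theorem lvT_of {c : ℕ} (hc : c < 4032) : Nat.beq (lvT.rank (lvT.pt c)) c = true ∧ Nat.beq (lv (dc (vc (lvT.pt c)))) (lvT.pt c) = true ∧
    (Nat.beq c 0 || (Nat.blt (lvT.p c) c && (Nat.blt (lvT.l c) lvT.m && Nat.beq (mulC (vc (lvT.pt (lvT.p c))) (lcL.getD (8 + lvT.l c) 0)) (vc (lvT.pt c))))) = true := by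
  have h1 := List.all_eq_true.mp lvT_chk c (List.mem_range.mpr hc)
  simp only [Bool.and_eq_true] at h1 ⊢
  obtain ⟨⟨h2, h3⟩, h4⟩ := h1
  exact ⟨h2, h3, h4⟩

/-- The representatives. -/
noncomputable abbrev tR : ℕ → Lg := tOf sC G24Tab.par4

theorem pt_tR : ∀ c, c < 4032 → dc v0 * ((phi (tR c) : GL (Fin 8) K4) : M8) = dc (vc (lvT.pt c)) := by
  intro c
  induction c using Nat.strong_induction_on with
  | _ c ih =>
    intro hc
    rcases Nat.eq_zero_or_pos c with rfl | hpos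
    · rw [tR, tOf_zero, map_one, Units.val_one, mul_one]
      rfl
    · obtain ⟨-, -, h3⟩ := lvT_of hc
      have hne : Nat.beq c 0 = false := by
        cases c with
        | zero => omega
        | succ d => rfl
      rw [hne, Bool.false_or] at h3
      simp only [Bool.and_eq_true] at h3
      obtain ⟨h4, h5, h6⟩ := h3
      have h7 := List.all_eq_true.mp par_chk c (List.mem_range.mpr hc)
      rw [hne, Bool.false_or] at h7
      simp only [Bool.and_eq_true] at h7
      have e1 := Nat.eq_of_beq_eq_true h7.1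
      have e2 := Nat.eq_of_beq_eq_true h7.2
      have hp : lvT.p c < c := Nat.le_of_ble_eq_true h4
      have hl : lvT.l c < 4 := Nat.le_of_ble_eq_true h5
      rw [tR, tOf_pos sC G24Tab.par4 hpos (by rw [e1]; exact hp), e1, e2, map_mul, Units.val_mul, ← mul_assoc,
        ih _ hp (by omega), lett_sC hl, ← dc_mul, Nat.eq_of_beq_eq_true h6]

theorem hne0 : ∀ c, c < 4032 → tR c ∈ H0 → c = 0 := by
  intro c hc hm
  have h1 := pt_tR c hc
  have h2 : dc v0 * ((phi (tR c) : GL (Fin 8) K4) : M8) = dc v0 := hm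
  rw [h2] at h1
  obtain ⟨h3, h4, -⟩ := lvT_of hc
  obtain ⟨h5, h6, -⟩ := lvT_of (c := 0) (by norm_num)
  have h7 := congrArg lv h1
  have h8 : lvT.pt 0 = lvT.pt c := by
    have e1 := Nat.eq_of_beq_eq_true h4
    have e2 := Nat.eq_of_beq_eq_true h6
    unfold v0 at h7
    rw [e1, e2] at h7
    exact h7
  have e3 := Nat.eq_of_beq_eq_true h3
  have e4 := Nat.eq_of_beq_eq_true h5
  rw [← e3, ← h8, e4]

theorem row_chk : (List.range 4032).all (fun c => Nat.blt (G24Tab.T4 c 0) 4032 && Nat.blt (G24Tab.T4 c 2) 4032 &&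
    Nat.beq (mulC (vc (lvT.pt c)) (lcL.getD 8 0)) (vc (lvT.pt (G24Tab.T4 c 0))) &&
    Nat.beq (mulC (vc (lvT.pt c)) (lcL.getD 10 0)) (vc (lvT.pt (G24Tab.T4 c 2)))) = true := by
  decide +kernel

theorem hms0 : ∀ c, c < 4032 → ∀ i, i < 2 → tR c * sC i * (tR (G24Tab.T4 c (2 * i)))⁻¹ ∈ H0 := by
  intro c hc i hi
  have h1 := List.all_eq_true.mp row_chk c (List.mem_range.mpr hc)
  simp only [Bool.and_eq_true] at h1
  obtain ⟨⟨⟨h2, h3⟩, h4⟩, h5⟩ := h1
  have key : ∃ d, d = G24Tab.T4 c (2 * i) ∧ d < 4032 ∧ mulC (vc (lvT.pt c)) (lcL.getD (2 * mC i) 0) = vc (lvT.pt d) := by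
    have hi' : i = 0 ∨ i = 1 := by omega
    rcases hi' with rfl | rfl
    · exact ⟨_, rfl, Nat.le_of_ble_eq_true h2, Nat.eq_of_beq_eq_true h4⟩
    · exact ⟨_, rfl, Nat.le_of_ble_eq_true h3, Nat.eq_of_beq_eq_true h5⟩
  obtain ⟨d, hd, hd2, hd3⟩ := key
  rw [← hd]
  have h6 := pt_tR c hc
  have h7 := pt_tR d hd2
  show dc v0 * ((phi (tR c * sC i * (tR d)⁻¹) : GL (Fin 8) K4) : M8) = dc v0
  have h8 : Rq (sC i) (lcL.getD (2 * mC i) 0) := Rq_gE (mC_lt i hi)
  rw [map_mul, map_mul, Units.val_mul, Units.val_mul, ← mul_assoc, ← mul_assoc, h6, h8, ← dc_mul, hd3, ← h7, mul_assoc,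
    ← Units.val_mul, ← map_mul, mul_inv_cancel, map_one, Units.val_one, mul_one]

/-! ### The subgroup of order 6048 -/

/-- The generators of the subgroup of order 604800. -/
abbrev z1 : ℕ → Lg := fun i => sG (2 + i)

/-- The generators of the subgroup of order 6048. -/
abbrev z2 : ℕ → Lg := fun i => sG (4 + i)

/-- The subgroup of order 604800. -/
def L1 : Subgroup Lg := closure (z1 '' Set.Iio 4)

/-- The subgroup of order 6048. -/
def H2 : Subgroup Lg := closure (z2 '' Set.Iio 2)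

theorem z1_mem {i : ℕ} (hi : i < 4) : sG (2 + i) ∈ L1 := subset_closure ⟨i, hi, rfl⟩

theorem z2_mem {i : ℕ} (hi : i < 2) : sG (4 + i) ∈ H2 := subset_closure ⟨i, hi, rfl⟩

theorem H2_le : H2 ≤ L1 := by
  rw [H2, closure_le]
  rintro _ ⟨i, hi, rfl⟩
  have hi' : i < 2 := hi
  have h := z1_mem (i := 2 + i) (by omega)
  rwa [show 2 + (2 + i) = 4 + i by omega] at h

/-- The generators in the subgroup. -/
noncomputable def x1 (i : ℕ) : L1 := if hi : i < 4 then ⟨sG (2 + i), z1_mem hi⟩ else 1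

theorem x1_val {i : ℕ} (hi : i < 4) : (x1 i : Lg) = sG (2 + i) := by
  simp [x1, hi]

/-- The generators in the subgroup. -/
noncomputable def x2 (i : ℕ) : H2 := if hi : i < 2 then ⟨sG (4 + i), z2_mem hi⟩ else 1

theorem x2_val {i : ℕ} (hi : i < 2) : (x2 i : Lg) = sG (4 + i) := by
  simp [x2, hi]

theorem x1_gen : closure (x1 '' Set.Iio 4) = ⊤ := closure_sub_top L1 z1 x1 rfl (fun i hi => x1_val hi)

theorem x2_gen : closure (x2 '' Set.Iio 2) = ⊤ := closure_sub_top H2 z2 x2 rfl (fun i hi => x2_val hi)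

theorem x1_rel : ∀ r ∈ G24Tc2.relsL, evW x1 r = 1 := by
  intro r hr
  apply Subtype.ext
  have h1 := map_evW L1.subtype x1 r
  have h2 : evW (fun i => L1.subtype (x1 i)) r = evW z1 r :=
    evW_congr (m := 4) (fun i hi => x1_val hi) r (rels2_lt r hr)
  have h3 : evW z1 r = 1 := by
    rw [← evW_sh]
    exact rels_ok _ (rels2_sub r hr)
  show L1.subtype (evW x1 r) = 1
  rw [h1, h2, h3]

theorem rels4_sub : ∀ r ∈ U33Main.rels, shW 4 r ∈ R := by decide +kernel

theorem x2_rel : ∀ r ∈ U33Main.rels, evW x2 r = 1 := by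
  intro r hr
  apply Subtype.ext
  have h1 := map_evW H2.subtype x2 r
  have h2 : evW (fun i => H2.subtype (x2 i)) r = evW z2 r :=
    evW_congr (m := 2) (fun i hi => x2_val hi) r (U33Main.rels_lt r hr)
  have h3 : evW z2 r = 1 := by
    rw [← evW_sh]
    exact rels_ok _ (rels4_sub r hr)
  show H2.subtype (evW x2 r) = 1
  rw [h1, h2, h3]

theorem idx1 : L1.index ≤ 416 := by
  refine (tcf1 Lg sG closure_sG rels_ok L1 ?_).2
  have h2 : sG 2 ∈ L1 := z1_mem (i := 0) (by norm_num)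
  have h3 : sG 3 ∈ L1 := z1_mem (i := 1) (by norm_num)
  intro a ha
  simp only [List.mem_cons, List.not_mem_nil, or_false] at ha
  rcases ha with rfl | rfl | rfl | rfl
  · exact h2
  · exact L1.inv_mem h2
  · exact h3
  · exact L1.inv_mem h3

theorem idx2 : (H2.subgroupOf L1).index ≤ 100 := by
  refine (tcf2 L1 x1 x1_gen x1_rel (H2.subgroupOf L1) ?_).2
  have h2 : x1 2 ∈ H2.subgroupOf L1 := by
    rw [Subgroup.mem_subgroupOf, x1_val (by norm_num)]
    exact z2_mem (i := 0) (by norm_num)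
  have h3 : x1 3 ∈ H2.subgroupOf L1 := by
    rw [Subgroup.mem_subgroupOf, x1_val (by norm_num)]
    exact z2_mem (i := 1) (by norm_num)
  intro a ha
  simp only [List.mem_cons, List.not_mem_nil, or_false] at ha
  rcases ha with rfl | rfl | rfl | rfl
  · exact h2
  · exact (H2.subgroupOf L1).inv_mem h2
  · exact h3
  · exact (H2.subgroupOf L1).inv_mem h3

theorem card_H2 : Nat.card H2 = 6048 := by
  have h1 := U33Main.ordBd H2 x2 x2_gen x2_rel
  have h2 := Subgroup.card_mul_index L1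
  have h3 := Subgroup.card_mul_index (H2.subgroupOf L1)
  have h4 : Nat.card (H2.subgroupOf L1) = Nat.card H2 :=
    Nat.card_congr (Subgroup.subgroupOfEquivOfLe H2_le).toEquiv
  rw [h4] at h3
  rw [card_Lg] at h2
  have h5 := idx1
  have h6 := idx2
  have h7 : Nat.card L1 ≤ Nat.card H2 * 100 := by
    rw [← h3]
    exact Nat.mul_le_mul_left _ h6
  have h8 : 251596800 ≤ Nat.card L1 * 416 := by
    rw [← h2]
    exact Nat.mul_le_mul_left _ h5
  omega

theorem hFP2 : FP x2 2 U33Main.rels :=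
  ⟨x2_gen, x2_rel, U33Main.rels_lt, by rw [card_H2]; exact U33Main.ordBd⟩

theorem index_H2 : H2.index = 41600 := by
  have h := Subgroup.card_mul_index H2
  rw [card_H2, card_Lg] at h
  omega

/-! ### Multipliers -/

universe u

theorem PT3 : PT.{u, 0} 3 Lg :=
  PT_of_index (U33Main.perfect hFP2) Nat.prime_three (U33Main.PT3 hFP2 card_H2) (by rw [index_H2]; norm_num)

theorem PT5 : PT.{u, 0} 5 Lg :=
  PT_of_index perf0 Nat.prime_five (U3FMain.PT5 hFP0 card_H0) (by rw [index_H0]; norm_num)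

theorem primes_of_sq {p : ℕ} (hp : p.Prime) (h : p ^ 2 ∣ 251596800) : p = 2 ∨ p = 3 ∨ p = 5 := by
  have h1 : p ∣ 2 ^ 12 * 3 ^ 3 * 5 ^ 2 * 7 * 13 := by
    refine Dvd.dvd.trans (dvd_pow_self p two_ne_zero) ?_
    exact h.trans (by norm_num)
  rcases (Nat.Prime.dvd_mul hp).mp h1 with h2 | h2
  · rcases (Nat.Prime.dvd_mul hp).mp h2 with h3 | h3
    · rcases (Nat.Prime.dvd_mul hp).mp h3 with h4 | h4
      · rcases (Nat.Prime.dvd_mul hp).mp h4 with h5 | h5
        · exact Or.inl ((Nat.prime_dvd_prime_iff_eq hp Nat.prime_two).mp (hp.dvd_of_dvd_pow h5))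
        · exact Or.inr (Or.inl ((Nat.prime_dvd_prime_iff_eq hp Nat.prime_three).mp (hp.dvd_of_dvd_pow h5)))
      · exact Or.inr (Or.inr ((Nat.prime_dvd_prime_iff_eq hp Nat.prime_five).mp (hp.dvd_of_dvd_pow h4)))
    · have := (Nat.prime_dvd_prime_iff_eq hp (by norm_num : Nat.Prime 7)).mp h3
      subst this
      norm_num at h
  · have := (Nat.prime_dvd_prime_iff_eq hp (by norm_num : Nat.Prime 13)).mp h2
    subst this
    norm_num at h

theorem C2_rel : (List.range 46).all (fun j => relChk mC 2 (G24C2.cert.rels j)) = true := by decide +kernel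

/-- The kernel of every finite stem extension is an image of the group of order two. -/
theorem upper {Γ : Type u} [Group Γ] [Finite Γ] (σ : Γ →* Lg) (hσ : IsStemExtension σ) :
    ∃ π : Multiplicative (ZMod 2) →* σ.ker, Function.Surjective π := by
  have hN2 : Norm G24C2.cert 3 3 := by
    refine ⟨rfl, by decide +kernel, by decide +kernel, ?_, by show 2 ≤ 46; norm_num⟩
    intro j hj
    have h1 : Nat.ble (j + 1) 2 = true := hj
    have h2 := Nat.le_of_ble_eq_true h1
    omega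
  have hrelC := fun j (hj : j < G24C2.cert.R) => List.all_eq_true.mp C2_rel j (List.mem_range.mpr hj)
  obtain ⟨e, g, he, hg, ho, hcl⟩ := bound_perfect hσ perf0 Nat.prime_two (U3FMain.PT2 hFP0 card_H0) G24C2.cert G24C2.cert_ok
    (E := 6) rfl (by rw [card_Lg]; norm_num) hN2 (by norm_num) (by norm_num) (t := tR) (tOf_zero _ _)
    hne0 (s := sC) hms0 closure_sC
    (fun j hj l hl => by
      have h1 := hrelC j hj
      simp only [relChk, Bool.and_eq_true, List.all_eq_true] at h1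
      exact Nat.le_of_ble_eq_true (h1.1 l hl))
    (fun j hj => rel_of_chk mC_lt (hrelC j hj))
  have h0 : g 0 ^ 2 = 1 := ho (0, 2, _) List.mem_cons_self
  have hGlen : G24C2.cert.G.length = 1 := rfl
  rw [hGlen] at hcl
  have : Fact (1 < 2) := ⟨by norm_num⟩
  refine Cfsg.Agent.Lib.SchurAsm.exists_surj1 hσ (hg 0) h0 ?_
  refine le_of_primes (fun a ha b => (Subgroup.mem_center_iff.mp (hσ.2.1 ha) b).symm) ?_
  intro p hp hd
  have : Fact p.Prime := ⟨hp⟩
  obtain ⟨x, hx⟩ := exists_prime_orderOf_dvd_card' p hd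
  have hs : orderOf (x : Γ) ^ 2 ∣ Nat.card Lg := sq_orderOf_dvd hσ x.2
  rw [Subgroup.orderOf_coe, hx, card_Lg] at hs
  rcases primes_of_sq hp hs with rfl | rfl | rfl
  · refine ⟨e, he, fun k hk => ?_⟩
    refine closure_mono ?_ (hcl k hk)
    rintro _ ⟨i, hi, rfl⟩
    have hi' : i < 1 := hi
    interval_cases i
    rfl
  · have h3 := PT3.{u} Γ σ hσ
    exact absurd hd ((Nat.Prime.coprime_iff_not_dvd Nat.prime_three).mp h3.symm)
  · have h5 := PT5.{u} Γ σ hσ
    exact absurd hd ((Nat.Prime.coprime_iff_not_dvd Nat.prime_five).mp h5.symm)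

/-! ### Existence -/

/-- The kernel. -/
abbrev A2 := Multiplicative (ZMod 2)

/-- The labels. -/
def τ2 : ℕ → A2 := fun _ => Multiplicative.ofAdd 1

theorem τ2_pow (j : ℕ) : τ2 j ^ G24Lp.lcert.M = 1 := by
  show (Multiplicative.ofAdd (1 : ZMod 2) : A2) ^ 2 = 1
  decide

theorem τ2_top : Subgroup.closure (τ2 '' Set.Iio G24Lp.lcert.g) = ⊤ := by
  have h0 : τ2 0 ∈ Subgroup.closure (τ2 '' Set.Iio G24Lp.lcert.g) :=
    Subgroup.subset_closure ⟨0, by show 0 < 1; norm_num, rfl⟩
  have key : ∀ x : A2, x = τ2 0 ^ (Multiplicative.toAdd x).val := by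
    decide
  rw [eq_top_iff]
  intro x _
  rw [key x]
  exact pow_mem h0 _

theorem relsEq : G24Tc1.relsL = G24Lp.relsL := by decide +kernel

theorem exists_A2 : ∃ (Γ : Type) (_ : Group Γ) (_ : Finite Γ) (σ : Γ →* Lg),
    IsStemExtension σ ∧ Nonempty (σ.ker ≃* A2) := by
  have hN : Nat.Coprime 7 (Nat.card A2) := by
    rw [Nat.card_eq_fintype_card]
    decide +kernel
  have hrel : ∀ j, j < G24Lp.lcert.R → evW sG (G24Lp.lcert.rels j) = 1 := by
    intro j hj
    have h2 : G24Lp.lcert.rels j = G24Lp.relsL[j] := List.getD_eq_getElem _ _ hj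
    rw [h2]
    exact rels_ok _ (by
      show G24Lp.relsL[j] ∈ G24Tc1.relsL
      rw [relsEq]
      exact List.getElem_mem _)
  refine Cfsg.Agent.Lib.SchurLoop.LoopC.exists_cover G24Lp.lcert G24Lp.lcert_ok τ2_pow τ2_top
    (s := sG) closure_sG hrel ?_ (N := 7) hN ?_
  · intro W _ _ x hgen hrelW
    rw [card_Lg']
    refine ordBd0 W x hgen ?_
    intro r hr
    rw [show R = G24Lp.relsL from relsEq] at hr
    obtain ⟨j, hj, rfl⟩ := List.mem_iff_getElem.mp hr
    have h1 := hrelW j hj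
    have h2 : G24Lp.lcert.rels j = G24Lp.relsL[j] := List.getD_eq_getElem _ _ hj
    rwa [h2] at h1
  · have h : ∀ i, i < 6 → ∃ j, j < 54 ∧ List.replicate 7 (2 * i) = G24Lp.relsL.getD j [] ∧ G24Lp.tvL.getD j 0 = 0 := by
      decide +kernel
    intro i hi
    have hi' : i < 6 := hi
    obtain ⟨j, hj, h1, h2⟩ := h i hi'
    exact ⟨j, hj, 7, dvd_rfl, h1.symm, h2⟩

end Cfsg.Agent.Lib.G24Mult
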