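import Cfsg.Agent.Lib.SL3G250
import Cfsg.Agent.Lib.ChevReg50

/-!
# The cyclic torus of order `q² + q + 1` of `G₂(q)`
-/

set_option autoImplicit false
set_option linter.unusedSectionVars false
set_option linter.unusedVariables false
set_option linter.unusedSimpArgs false

namespace Cfsg.Agent.Lib.G2Cox50

open Cfsg Cfsg.Lie Cfsg.Agent.Lib.Chev Matrix Cfsg.Agent.Lib.SL3G250 Cfsg.Agent.Lib.ChevFix

/-! ### Arithmetic -/

theorem not_dvd_big {q X Y : ℤ} (hq : 5 ≤ q) (hX : |X| ≤ 4) (hY : |Y| ≤ 4) (hne : X ≠ 0 ∨ Y ≠ 0) :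
    ¬ (q ^ 2 + q + 1) ∣ X * q + Y := by
  intro h
  have hm : 0 < q ^ 2 + q + 1 := by nlinarith
  have hlt : |X * q + Y| < q ^ 2 + q + 1 := by
    have h1 : |X * q + Y| ≤ |X * q| + |Y| := abs_add_le _ _
    have h2 : |X * q| = |X| * q := by rw [abs_mul, abs_of_pos (by linarith : 0 < q)]
    rw [h2] at h1
    have h3 : |X| * q ≤ 4 * q := by nlinarith [abs_nonneg X]
    nlinarith
  have h0 : X * q + Y = 0 := Int.eq_zero_of_abs_lt_dvd h hlt
  have hXz : X = 0 := by
    by_contra hX0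
    have h5 : q ∣ Y := ⟨-X, by linarith⟩
    have h6 : Y = 0 := Int.eq_zero_of_abs_lt_dvd h5 (by linarith)
    rw [h6] at h0
    have : X * q = 0 := by linarith
    rcases mul_eq_zero.1 this with h7 | h7
    · exact hX0 h7
    · linarith
  have hYz : Y = 0 := by rw [hXz] at h0; linarith
  rcases hne with h8 | h8
  · exact h8 hXz
  · exact h8 hYz

theorem check_pairs : ∀ r s : Fin 12, r ≠ s → |xT r - xT s| ≤ 4 ∧ |yT r - yT s| ≤ 4 ∧ (xT r - xT s ≠ 0 ∨ yT r - yT s ≠ 0) ∧
    ¬ ((13 : ℤ) ∣ (xT r - xT s) * 3 + (yT r - yT s)) ∧ ¬ ((21 : ℤ) ∣ (xT r - xT s) * 4 + (yT r - yT s)) := by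
  decide +kernel

theorem check_single : ∀ r : Fin 12, |xT r| ≤ 4 ∧ |yT r| ≤ 4 ∧ (xT r ≠ 0 ∨ yT r ≠ 0) ∧
    ¬ ((13 : ℤ) ∣ xT r * 3 + yT r) ∧ ¬ ((21 : ℤ) ∣ xT r * 4 + yT r) := by
  decide +kernel

theorem not_dvd_pair {q : ℕ} (hq : 3 ≤ q) {r s : Fin 12} (h : r ≠ s) :
    ¬ (((q : ℤ) ^ 2 + q + 1) ∣ (xT r - xT s) * q + (yT r - yT s)) := by
  obtain ⟨h1, h2, h3, h4, h5⟩ := check_pairs r s h
  rcases (by omega : q = 3 ∨ q = 4 ∨ 5 ≤ q) with rfl | rfl | h6
  · simpa using h4
  · simpa using h5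
  · exact not_dvd_big (by exact_mod_cast h6) h1 h2 h3

theorem not_dvd_single {q : ℕ} (hq : 3 ≤ q) (r : Fin 12) :
    ¬ (((q : ℤ) ^ 2 + q + 1) ∣ xT r * q + yT r) := by
  obtain ⟨h1, h2, h3, h4, h5⟩ := check_single r
  rcases (by omega : q = 3 ∨ q = 4 ∨ 5 ≤ q) with rfl | rfl | h6
  · simpa using h4
  · simpa using h5
  · exact not_dvd_big (by exact_mod_cast h6) h1 h2 h3

/-! ### The torus element -/

section Tor

variable {K : Type*} [Field K]

/-- A regular element of the torus. -/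
theorem regular (q : ℕ) (hq : 3 ≤ q) (z : Kˣ)
    (hz : orderOf z = q ^ 2 + q + 1) :
    (∀ r, r < chevG2.nroots → chiT chevG2 (cOf z (z ^ q)) r ≠ 1) ∧
    (∀ r s, r < chevG2.nroots → s < chevG2.nroots → r ≠ s →
      chiT chevG2 (cOf z (z ^ q)) r ≠ chiT chevG2 (cOf z (z ^ q)) s) := by
  have hval : ∀ r : Fin 12, chiT chevG2 (cOf z (z ^ q)) r = z ^ (xT r * q + yT r) := by
    intro r
    rw [chiT_cOf, ← zpow_natCast, ← _root_.zpow_mul, ← _root_.zpow_add, add_comm]
    congr 1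
    ring
  constructor
  · intro r hr h
    have h1 := hval ⟨r, hr⟩
    simp only at h1
    rw [h] at h1
    have h2 := (orderOf_dvd_iff_zpow_eq_one).2 h1.symm
    rw [hz] at h2
    exact not_dvd_single hq ⟨r, hr⟩ (by exact_mod_cast h2)
  · intro r s hr hs hne h
    have h1 := hval ⟨r, hr⟩
    have h2 := hval ⟨s, hs⟩
    simp only at h1 h2
    rw [h, h2] at h1
    have h3 : z ^ ((xT ⟨r, hr⟩ - xT ⟨s, hs⟩) * q + (yT ⟨r, hr⟩ - yT ⟨s, hs⟩)) = 1 := by
      have e : (xT ⟨r, hr⟩ - xT ⟨s, hs⟩) * q + (yT ⟨r, hr⟩ - yT ⟨s, hs⟩) =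
          (xT ⟨r, hr⟩ * q + yT ⟨r, hr⟩) - (xT ⟨s, hs⟩ * q + yT ⟨s, hs⟩) := by ring
      rw [e, _root_.zpow_sub, ← h1, mul_inv_cancel]
    have h4 := (orderOf_dvd_iff_zpow_eq_one).2 h3
    rw [hz] at h4
    have hne' : (⟨r, hr⟩ : Fin 12) ≠ ⟨s, hs⟩ := fun e => hne (Fin.mk.inj e)
    exact not_dvd_pair hq hne' (by exact_mod_cast h4)

end Tor


section Fr

variable {F K : Type*} [Field F] [Field K] [Fintype F] [Fintype K] [Algebra F K]

/-- The Frobenius map over `F`. -/
noncomputable def sg (F K : Type*) [Field F] [Field K] [Fintype F] [Algebra F K] : K →+* K :=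
  (FiniteField.frobeniusAlgHom F K : K →ₐ[F] K).toRingHom

theorem sg_apply (x : K) : sg F K x = x ^ Fintype.card F := rfl

theorem sg_alg (y : F) : sg F K (algebraMap F K y) = algebraMap F K y :=
  (FiniteField.frobeniusAlgHom F K).commutes y

theorem sg3 {q : ℕ} (hFq : Fintype.card F = q) (hKq : Fintype.card K = q ^ 3) (x : K) :
    sg F K (sg F K (sg F K x)) = x := by
  simp only [sg_apply, hFq, ← pow_mul]
  have : q * q * q = q ^ 3 := by ring
  rw [this, ← hKq, FiniteField.pow_card]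

theorem mem_range_of_fixed {x : K} (h : sg F K x = x) : ∃ y, algebraMap F K y = x := by
  classical
  set q := Fintype.card F with hq
  have hq2 : 1 < q := Fintype.one_lt_card
  have hne : (Polynomial.X ^ q - Polynomial.X : Polynomial K) ≠ 0 := FiniteField.X_pow_card_sub_X_ne_zero K hq2
  set R := (Polynomial.X ^ q - Polynomial.X : Polynomial K).roots.toFinset with hR
  have hRcard : R.card ≤ q := by
    calc R.card ≤ Multiset.card (Polynomial.X ^ q - Polynomial.X : Polynomial K).roots := Multiset.toFinset_card_le _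
      _ ≤ (Polynomial.X ^ q - Polynomial.X : Polynomial K).natDegree := Polynomial.card_roots' _
      _ = q := FiniteField.X_pow_card_sub_X_natDegree_eq K hq2
  have hmem : ∀ u : K, u ∈ R ↔ u ^ q = u := by
    intro u
    simp only [hR, Multiset.mem_toFinset, Polynomial.mem_roots hne, Polynomial.IsRoot.def, Polynomial.eval_sub,
      Polynomial.eval_pow, Polynomial.eval_X, sub_eq_zero]
  have hsub : (Finset.univ.image (algebraMap F K)) ⊆ R := by
    intro u hu
    obtain ⟨y, -, rfl⟩ := Finset.mem_image.1 hu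
    rw [hmem]
    exact sg_alg y
  have hcard : (Finset.univ.image (algebraMap F K)).card = q := by
    rw [Finset.card_image_of_injective _ (algebraMap F K).injective, Finset.card_univ]
  have heq := Finset.eq_of_subset_of_card_le hsub (by rw [hcard]; exact hRcard)
  have hx : x ∈ R := (hmem x).2 h
  rw [← heq] at hx
  obtain ⟨y, -, rfl⟩ := Finset.mem_image.1 hx
  exact ⟨y, rfl⟩

/-- Descent of a matrix with entries fixed by the Frobenius map. -/
theorem exists_descent (B : SpecialLinearGroup (Fin 3) K) (h : ∀ i j, sg F K ((B : Matrix (Fin 3) (Fin 3) K) i j) = (B : Matrix (Fin 3) (Fin 3) K) i j) :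
    ∃ B₀ : SpecialLinearGroup (Fin 3) F, SpecialLinearGroup.map (algebraMap F K) B₀ = B := by
  choose M hM using fun i j => mem_range_of_fixed (F := F) (h i j)
  have hmap : (Matrix.of M).map (algebraMap F K) = (B : Matrix (Fin 3) (Fin 3) K) := by
    ext i j
    exact hM i j
  have hdet : (Matrix.of M).det = 1 := by
    apply (algebraMap F K).injective
    rw [RingHom.map_det, map_one]
    show ((Matrix.of M).map (algebraMap F K)).det = 1
    rw [hmap]
    exact B.2
  refine ⟨⟨Matrix.of M, hdet⟩, Subtype.ext ?_⟩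
  exact hmap

/-- The cyclic permutation matrix. -/
noncomputable def Pm (K : Type*) [Field K] : SpecialLinearGroup (Fin 3) K :=
  ⟨!![0, 0, 1; 1, 0, 0; 0, 1, 0], by simp [Matrix.det_fin_three]⟩

theorem Pm_coe : ((Pm K : SpecialLinearGroup (Fin 3) K) : Matrix (Fin 3) (Fin 3) K) = !![0, 0, 1; 1, 0, 0; 0, 1, 0] := rfl

theorem Pm_dg (a b : Kˣ) : Pm K * dg K (a, b) * (Pm K)⁻¹ = dg K ((a * b)⁻¹, a) := by
  rw [mul_inv_eq_iff_eq_mul]
  apply Subtype.ext
  have e1 : ((Pm K * dg K (a, b) : SpecialLinearGroup (Fin 3) K) : Matrix (Fin 3) (Fin 3) K) =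
      (Pm K : Matrix (Fin 3) (Fin 3) K) * (dg K (a, b) : Matrix (Fin 3) (Fin 3) K) := Matrix.SpecialLinearGroup.coe_mul _ _
  have e2 : ((dg K ((a * b)⁻¹, a) * Pm K : SpecialLinearGroup (Fin 3) K) : Matrix (Fin 3) (Fin 3) K) =
      (dg K ((a * b)⁻¹, a) : Matrix (Fin 3) (Fin 3) K) * (Pm K : Matrix (Fin 3) (Fin 3) K) := Matrix.SpecialLinearGroup.coe_mul _ _
  show ((Pm K * dg K (a, b) : SpecialLinearGroup (Fin 3) K) : Matrix (Fin 3) (Fin 3) K) = ((dg K ((a * b)⁻¹, a) * Pm K : SpecialLinearGroup (Fin 3) K) : Matrix (Fin 3) (Fin 3) K)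
  rw [e1, e2, dg_coe, dg_coe, Pm_coe]
  ext i j
  fin_cases i <;> fin_cases j <;> simp [Matrix.mul_apply, Fin.sum_univ_three, Matrix.diagonal_apply]

/-- A matrix over `K` whose columns are permuted by the Frobenius map. -/
theorem exists_Y {q : ℕ} (hFq : Fintype.card F = q) (hKq : Fintype.card K = q ^ 3) :
    ∃ Y : SpecialLinearGroup (Fin 3) K, ∀ i j, sg F K ((Y : Matrix (Fin 3) (Fin 3) K) i j) = (Y : Matrix (Fin 3) (Fin 3) K) i (j + 1) := by
  have hq2 : 1 < q := hFq ▸ Fintype.one_lt_card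
  have hs3 := sg3 (F := F) (K := K) hFq hKq
  -- an element not in `F`
  obtain ⟨γ, hγ⟩ : ∃ γ : K, sg F K γ ≠ γ := by
    by_contra hall
    push Not at hall
    have hsurj : Function.Surjective (algebraMap F K) := fun x => mem_range_of_fixed (hall x)
    have h1 := Fintype.card_le_of_surjective _ hsurj
    rw [hKq, hFq] at h1
    have : q ^ 3 > q := by
      calc q = q ^ 1 := (pow_one q).symm
        _ < q ^ 3 := Nat.pow_lt_pow_right hq2 (by norm_num)
    omega
  set σ := sg F K with hσ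
  let n : Fin 3 → K := ![γ, σ γ, σ (σ γ)]
  have hn : ∀ j, σ (n j) = n (j + 1) := by
    intro j
    fin_cases j
    · rfl
    · rfl
    · exact hs3 γ
  have hinj : Function.Injective n := by
    have h01 : γ ≠ σ γ := fun h => hγ h.symm
    have h12 : σ γ ≠ σ (σ γ) := fun h => hγ (σ.injective h).symm
    have h02 : γ ≠ σ (σ γ) := by
      intro h
      apply hγ
      have := congrArg σ h
      rw [hs3 γ] at this
      exact this
    intro i j h
    fin_cases i <;> fin_cases j <;> first | rfl | skip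
    · exact absurd h h01
    · exact absurd h h02
    · exact absurd h.symm h01
    · exact absurd h h12
    · exact absurd h.symm h02
    · exact absurd h.symm h12
  let Y₀ : Matrix (Fin 3) (Fin 3) K := (Matrix.vandermonde n)ᵀ
  have hY₀ : ∀ i j, σ (Y₀ i j) = Y₀ i (j + 1) := by
    intro i j
    show σ ((n j) ^ (i : ℕ)) = (n (j + 1)) ^ (i : ℕ)
    rw [map_pow, hn]
  have hΔ0 : Y₀.det ≠ 0 := by
    show ((Matrix.vandermonde n)ᵀ).det ≠ 0
    rw [Matrix.det_transpose]
    exact Matrix.det_vandermonde_ne_zero_iff.2 hinj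
  have hΔ : σ Y₀.det = Y₀.det := by
    rw [RingHom.map_det]
    have h1 : σ.mapMatrix Y₀ = Y₀.submatrix id (finRotate 3) := by
      ext i j
      show σ (Y₀ i j) = Y₀ i (finRotate 3 j)
      rw [hY₀]
      congr 1
      fin_cases j <;> rfl
    rw [h1, Matrix.det_permute', sign_finRotate]
    simp
  let d : Fin 3 → K := ![Y₀.det⁻¹, 1, 1]
  have hd : ∀ i, σ (d i) = d i := by
    intro i
    fin_cases i
    · show σ (Y₀.det⁻¹) = Y₀.det⁻¹
      rw [map_inv₀, hΔ]
    · exact map_one σ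
    · exact map_one σ
  have hdet : (Matrix.diagonal d * Y₀).det = 1 := by
    rw [Matrix.det_mul, Matrix.det_diagonal, Fin.prod_univ_three]
    simp [d, hΔ0]
  refine ⟨⟨Matrix.diagonal d * Y₀, hdet⟩, ?_⟩
  intro i j
  show σ ((Matrix.diagonal d * Y₀) i j) = (Matrix.diagonal d * Y₀) i (j + 1)
  rw [Matrix.diagonal_mul, Matrix.diagonal_mul, map_mul, hd, hY₀]

theorem map_sg_dg (a b : Kˣ) : SpecialLinearGroup.map (sg F K) (dg K (a, b)) =
    dg K (Units.map (sg F K : K →* K) a, Units.map (sg F K : K →* K) b) := by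
  apply Subtype.ext
  show (dg K (a, b) : Matrix (Fin 3) (Fin 3) K).map (sg F K) = _
  rw [dg_coe, dg_coe]
  ext i j
  by_cases h : i = j
  · subst h
    fin_cases i <;> simp [Matrix.diagonal_apply, Units.coe_map]
  · simp [Matrix.diagonal_apply_ne _ h]

theorem key_conj {Y : SpecialLinearGroup (Fin 3) K}
    (hY : ∀ i j, sg F K ((Y : Matrix (Fin 3) (Fin 3) K) i j) = (Y : Matrix (Fin 3) (Fin 3) K) i (j + 1)) (a b : Kˣ) :
    SpecialLinearGroup.map (sg F K) (Y * dg K (a, b) * Y⁻¹) =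
      Y * dg K ((Units.map (sg F K : K →* K) a * Units.map (sg F K : K →* K) b)⁻¹, Units.map (sg F K : K →* K) a) * Y⁻¹ := by
  have h1 : SpecialLinearGroup.map (sg F K) Y = Y * Pm K := by
    apply Subtype.ext
    show (Y : Matrix (Fin 3) (Fin 3) K).map (sg F K) = ((Y * Pm K : SpecialLinearGroup (Fin 3) K) : Matrix (Fin 3) (Fin 3) K)
    have e : ((Y * Pm K : SpecialLinearGroup (Fin 3) K) : Matrix (Fin 3) (Fin 3) K) =
      (Y : Matrix (Fin 3) (Fin 3) K) * (Pm K : Matrix (Fin 3) (Fin 3) K) := Matrix.SpecialLinearGroup.coe_mul _ _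
    rw [e, Pm_coe]
    ext i j
    rw [Matrix.map_apply, hY]
    fin_cases j <;> simp [Matrix.mul_apply, Fin.sum_univ_three]
  rw [map_mul, map_mul, map_inv, h1, map_sg_dg, ← Pm_dg]
  group

end Fr

section Main

variable {F K : Type*} [Field F] [Field K] [Fintype F] [Fintype K] [Algebra F K]


theorem cOf_surj (c : Fin chevG2.rank → Kˣ) : ∃ a b : Kˣ, c = cOf a b := by
  refine ⟨c i0 ^ 2 * (c i1)⁻¹, (c i0)⁻¹ * c i1, ?_⟩
  funext i
  obtain ⟨i, hi⟩ := i
  have hi2 : i < 2 := hi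
  interval_cases i
  · show c i0 = _
    apply Units.ext
    simp [cOf]
    field_simp
  · show c i1 = _
    apply Units.ext
    simp [cOf]
    field_simp

theorem card_arith {q : ℕ} (hq : 3 ≤ q) : q ^ 3 - 1 = (q - 1) * (q ^ 2 + q + 1) := by
  obtain ⟨k, rfl⟩ : ∃ k, q = k + 1 := ⟨q - 1, by omega⟩
  simp only [Nat.add_sub_cancel]
  have : (k + 1) ^ 3 = k * ((k + 1) ^ 2 + (k + 1) + 1) + 1 := by ring
  omega

theorem norm_iff (u : Kˣ) (q : ℕ) : (u ^ q * (u ^ q) ^ q)⁻¹ = u ↔ u ^ (q ^ 2 + q + 1) = 1 := by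
  have e : u ^ (q ^ 2 + q + 1) = u * (u ^ q * (u ^ q) ^ q) := by
    rw [← pow_mul, ← pow_add, ← pow_succ']
    congr 1
    ring
  rw [inv_eq_iff_mul_eq_one, e]
  constructor
  · intro h
    rw [mul_comm]
    exact h
  · intro h
    rw [mul_comm]
    exact h

/-- The main theorem, given the extension of degree three. -/
theorem core (q : ℕ) (hFq : Fintype.card F = q) (hq : 3 ≤ q) (hKq : Fintype.card K = q ^ 3) :
    ∃ H : Subgroup ↥(chevG2.group F), IsCyclic ↥H ∧ Nat.card ↥H = q ^ 2 + q + 1 ∧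
      Subgroup.centralizer (H : Set ↥(chevG2.group F)) = H := by
  classical
  obtain ⟨T, X, R, hG⟩ := exists_full chevG2 (by simp)
  set f := algebraMap F K with hf
  set m := q ^ 2 + q + 1 with hm
  have hm0 : m ≠ 0 := by omega
  have hq1 : q - 1 ≠ 0 := by omega
  -- the generator of the multiplicative group
  obtain ⟨γ, hγ⟩ := IsCyclic.exists_generator (α := Kˣ)
  have hordγ : orderOf γ = (q - 1) * m := by
    rw [orderOf_eq_card_of_forall_mem_zpowers hγ, Nat.card_eq_fintype_card, Fintype.card_units, hKq, card_arith hq]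
  set z := γ ^ (q - 1) with hz
  have hordz : orderOf z = m := by
    rw [hz, orderOf_pow' γ hq1, hordγ, Nat.gcd_eq_right (Nat.dvd_mul_right _ _),
      Nat.mul_div_cancel_left _ (Nat.pos_of_ne_zero hq1)]
  have hzm : z ^ m = 1 := by rw [← hordz]; exact pow_orderOf_eq_one z
  have hσu : ∀ u : Kˣ, Units.map (sg F K : K →* K) u = u ^ q := by
    intro u
    apply Units.ext
    show sg F K (u : K) = _
    rw [sg_apply, hFq]
    simp
  obtain ⟨Y, hY⟩ := exists_Y (F := F) (K := K) hFq hKq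
  set D := dg K (z, z ^ q) with hD
  set A := Y * D * Y⁻¹ with hA
  have hAfix : SpecialLinearGroup.map (sg F K) A = A := by
    rw [hA, hD, key_conj hY, hσu, hσu, (norm_iff z q).2 hzm]
  obtain ⟨A₀, hA₀⟩ := exists_descent (F := F) A (fun i j => by
    have := congrArg (fun B : SpecialLinearGroup (Fin 3) K => (B : Matrix (Fin 3) (Fin 3) K) i j) hAfix
    exact this)
  set s₀ := rho F A₀ with hs₀
  have hι : glM chevG2 f s₀ = rho K A := by
    rw [hs₀, rho_map, ← hA₀]
  have ht : rho K D = tor R chevG2 (cOf z (z ^ q)) := rho_dg hG z (z ^ q)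
  obtain ⟨hreg1, hreg2⟩ := regular q hq z hordz
  have hDpow : ∀ k : ℕ, D ^ k = dg K (z ^ k, (z ^ q) ^ k) := by
    intro k
    rw [hD, ← map_pow, Prod.pow_mk]
  have hApow : ∀ k : ℕ, A ^ k = Y * D ^ k * Y⁻¹ := fun k => conj_pow
  have hpow : ∀ k : ℕ, s₀ ^ k = 1 ↔ z ^ k = 1 := by
    intro k
    constructor
    · intro h
      have h1 : glM chevG2 f (s₀ ^ k) = 1 := by rw [h, map_one]
      rw [map_pow, hι, ← map_pow] at h1
      have h2 : A ^ k = 1 := rho_injective (by rw [h1, map_one])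
      rw [hApow] at h2
      have h2' : D ^ k = 1 := by
        have e : D ^ k = Y⁻¹ * (Y * D ^ k * Y⁻¹) * Y := by group
        rw [e, h2]
        group
      rw [hDpow] at h2'
      have h3 : dg K (z ^ k, (z ^ q) ^ k) = dg K (1, 1) := by rw [h2']; exact (map_one (dg K)).symm
      exact (dg_inj h3).1
    · intro h
      apply glM_injective chevG2 f
      rw [map_pow, hι, ← map_pow, map_one]
      have h2 : A ^ k = 1 := by
        rw [hApow, hDpow, pow_right_comm z q k, h, one_pow]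
        have : dg K (1, 1) = 1 := map_one (dg K)
        rw [this, mul_one, mul_inv_cancel]
      rw [h2, map_one]
  have hs₀mem : s₀ ∈ chevG2.group F := rho_mem A₀
  refine ⟨Subgroup.zpowers ⟨s₀, hs₀mem⟩, inferInstance, ?_, ?_⟩
  · rw [Nat.card_zpowers, Subgroup.orderOf_mk, orderOf_eq_orderOf_iff.2 hpow, hordz]
  · ext g
    constructor
    · intro hg
      have hcomm : g.1 * s₀ = s₀ * g.1 := by
        have h1 := Subgroup.mem_centralizer_iff.1 hg ⟨s₀, hs₀mem⟩ (Subgroup.mem_zpowers _)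
        exact (congrArg Subtype.val h1).symm
      set ι := glM chevG2 f with hιdef
      have hιg : ι g.1 ∈ chevG2.group K := map_group_le chevG2 f ⟨g.1, g.2, rfl⟩
      set Y₁ := rho K Y with hY₁
      have hY₁mem : Y₁ ∈ chevG2.group K := rho_mem Y
      have hrA : rho K A = Y₁ * tor R chevG2 (cOf z (z ^ q)) * Y₁⁻¹ := by
        rw [hA, map_mul, map_mul, map_inv, ht]
      have hcomm2 : ι g.1 * rho K A = rho K A * ι g.1 := by
        rw [← hι, ← map_mul, ← map_mul, hcomm]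
      set g' := Y₁⁻¹ * ι g.1 * Y₁ with hg'
      have hg'mem : g' ∈ chevG2.group K := mul_mem (mul_mem (inv_mem hY₁mem) hιg) hY₁mem
      have hg'comm : g' * tor R chevG2 (cOf z (z ^ q)) = tor R chevG2 (cOf z (z ^ q)) * g' := by
        rw [hrA] at hcomm2
        have e1 : g' * tor R chevG2 (cOf z (z ^ q)) = Y₁⁻¹ * (ι g.1 * (Y₁ * tor R chevG2 (cOf z (z ^ q)) * Y₁⁻¹)) * Y₁ := by
          rw [hg']; group
        have e2 : tor R chevG2 (cOf z (z ^ q)) * g' = Y₁⁻¹ * ((Y₁ * tor R chevG2 (cOf z (z ^ q)) * Y₁⁻¹) * ι g.1) * Y₁ := by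
          rw [hg']; group
        rw [e1, e2, hcomm2]
      have hdiag := Cfsg.Agent.Lib.ChevReg50.mem_diagonal_of_comm hG _ hreg1 hreg2 hg'mem hg'comm
      obtain ⟨c', hc'⟩ := (hG.mem_diagonal_iff).1 hdiag
      obtain ⟨a, b, rfl⟩ := cOf_surj c'
      rw [← rho_dg hG] at hc'
      set B := Y * dg K (a, b) * Y⁻¹ with hB
      have hιB : ι g.1 = rho K B := by
        rw [hB, map_mul, map_mul, map_inv, ← hY₁, ← hc', hg']
        group
      have hBfix : SpecialLinearGroup.map (sg F K) B = B := by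
        apply Subtype.ext
        show (B : Matrix (Fin 3) (Fin 3) K).map (sg F K) = _
        ext i j
        rw [Matrix.map_apply, ← rho_entry, ← hιB]
        show sg F K (f _) = f _
        rw [hf, sg_alg]
      rw [hB, key_conj hY, hσu, hσu] at hBfix
      have h5 : dg K ((a ^ q * b ^ q)⁻¹, a ^ q) = dg K (a, b) :=
        mul_left_cancel (mul_right_cancel hBfix)
      obtain ⟨h6, h7⟩ := dg_inj h5
      rw [← h7] at h6
      have hnorm : a ^ m = 1 := (norm_iff a q).1 h6
      -- `a` is a power of `z`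
      obtain ⟨k, hk⟩ := Subgroup.mem_zpowers_iff.1 (hγ a)
      have hdvd : ((orderOf γ : ℕ) : ℤ) ∣ k * m := by
        rw [orderOf_dvd_iff_zpow_eq_one, _root_.zpow_mul, hk]
        exact_mod_cast hnorm
      rw [hordγ] at hdvd
      have hdvd2 : ((q - 1 : ℕ) : ℤ) ∣ k := by
        rw [Nat.cast_mul] at hdvd
        have hm0' : (m : ℤ) ≠ 0 := by exact_mod_cast hm0
        exact (mul_dvd_mul_iff_right hm0').1 hdvd
      obtain ⟨k', rfl⟩ := hdvd2
      have ha : a = z ^ k' := by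
        rw [← hk, hz, ← zpow_natCast, ← _root_.zpow_mul]
      have hb : b = (z ^ q) ^ k' := by
        rw [← h7, ha, ← zpow_natCast, ← zpow_natCast, ← _root_.zpow_mul, ← _root_.zpow_mul, mul_comm]
      have hBz : B = A ^ k' := by
        rw [hB, hA, conj_zpow, hD, ← map_zpow, Prod.pow_mk, ha, hb]
      have hg1 : g.1 = s₀ ^ k' := by
        apply glM_injective chevG2 f
        rw [map_zpow, hι, ← map_zpow, ← hBz]
        exact hιB
      refine Subgroup.mem_zpowers_iff.2 ⟨k', ?_⟩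
      apply Subtype.ext
      rw [hg1]
      simp
    · intro hg
      obtain ⟨k, rfl⟩ := Subgroup.mem_zpowers_iff.1 hg
      refine Subgroup.mem_centralizer_iff.2 ?_
      intro h hh
      obtain ⟨l, rfl⟩ := Subgroup.mem_zpowers_iff.1 hh
      exact zpow_mul_comm _ _ _

end Main

end Cfsg.Agent.Lib.G2Cox50
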