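import Cfsg.Agent.Lib.HeckeLam50
import Cfsg.Agent.Lib.DZGG50

/-!
# Abstract inputs of the Gelfand–Graev argument in a group with a (B,N)-pair
-/

set_option autoImplicit false
set_option linter.unusedSectionVars false
set_option linter.unusedVariables false

namespace Cfsg.Agent.Lib.StBN50

open Cfsg Cfsg.Agent.Lib.BNPair Cfsg.Agent.Lib.CoxLen50 MulAction
open scoped ComplexConjugate

variable {G : Type*} [Group G]

/-- The projection of `B = U T` onto `T`. -/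
theorem exists_proj {B U T : Subgroup G} (hUB : U ≤ B) (hTB : T ≤ B)
    (hnorm : ∀ b ∈ B, ∀ u ∈ U, b * u * b⁻¹ ∈ U) (hdec : ∀ b ∈ B, ∃ t ∈ T, t⁻¹ * b ∈ U)
    (hUT : U ⊓ T = ⊥) :
    ∃ π : ↥B →* ↥T, (∀ t : T, π ⟨t, hTB t.2⟩ = t) ∧ ∀ b : B, π b = 1 ↔ (b : G) ∈ U := by
  classical
  have huniq : ∀ b : G, ∀ t ∈ T, ∀ t' ∈ T, t⁻¹ * b ∈ U → t'⁻¹ * b ∈ U → t = t' := by
    intro b t ht t' ht' h1 h2
    have h3 : t'⁻¹ * t ∈ U ⊓ T := by
      refine ⟨?_, T.mul_mem (T.inv_mem ht') ht⟩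
      have e : t'⁻¹ * t = (t'⁻¹ * b) * (t⁻¹ * b)⁻¹ := by group
      rw [e]
      exact U.mul_mem h2 (U.inv_mem h1)
    rw [hUT, Subgroup.mem_bot] at h3
    exact (inv_mul_eq_one.1 h3).symm ▸ rfl
  choose f hfT hfU using fun b : B => hdec b.1 b.2
  let π : ↥B →* ↥T := MonoidHom.mk' (fun b => ⟨f b, hfT b⟩) (by
    intro a b
    apply Subtype.ext
    show f (a * b) = f a * f b
    apply huniq ((a * b : B) : G) _ (hfT _) _ (T.mul_mem (hfT a) (hfT b)) (hfU _)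
    have e : (f a * f b)⁻¹ * ((a * b : B) : G) =
        (f b)⁻¹ * ((f a)⁻¹ * (a : G)) * ((f b)⁻¹)⁻¹ * ((f b)⁻¹ * (b : G)) := by
      simp only [Subgroup.coe_mul]
      group
    rw [e]
    exact U.mul_mem (hnorm _ (B.inv_mem (hTB (hfT b))) _ (hfU a)) (hfU b))
  refine ⟨π, ?_, ?_⟩
  · intro t
    apply Subtype.ext
    show f ⟨t, hTB t.2⟩ = t
    apply huniq t _ (hfT _) _ t.2 (hfU _)
    simp
  · intro b
    constructor
    · intro h
      have h1 : f b = 1 := congrArg Subtype.val h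
      have h2 := hfU b
      rw [h1] at h2
      simpa using h2
    · intro h
      apply Subtype.ext
      show f b = 1
      apply huniq b _ (hfT _) _ T.one_mem (hfU _)
      simpa using h

variable [Fintype G] {P : Cfsg.BNPair G}

open scoped Classical in
/-- The inner sum in the Gelfand–Graev count. -/
theorem gg_inner {U : Subgroup G} [Fintype U] (ψ : U →* ℂˣ) (hUB : U ≤ P.B)
    (hB : ∀ b ∈ P.B, ∃ u ∈ U, ∃ t ∈ P.B ⊓ P.N, b = u * t) {n₀ : G} (hn₀ : n₀ ∈ P.N)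
    (h1 : ∀ u : U, n₀⁻¹ * (u : G) * n₀ ∈ P.B → u = 1)
    (hnd : ∀ n ∈ P.N, pi P n ≠ pi P n₀ → ∃ v : U, n⁻¹ * (v : G) * n ∈ P.B ∧ ψ v ≠ 1) (x : G) :
    (∑ u : U, if x⁻¹ * (u : G) * x ∈ P.B then conj ((ψ u : ℂˣ) : ℂ) else 0) =
      if del P x = pi P n₀ then 1 else 0 := by
  classical
  obtain ⟨n, hn, hx⟩ := exists_mem_dc (P := P) x
  obtain ⟨b₁, hb₁, b₂, hb₂, e⟩ := mem_dc.1 hx
  obtain ⟨u₁, hu₁, t, ht, rfl⟩ := hB b₁ hb₁
  have htn : n⁻¹ * t * n ∈ P.B := by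
    have := P.conj_mem n⁻¹ (P.N.inv_mem hn) t ht
    rwa [inv_inv] at this
  set b' := (n⁻¹ * t * n) * b₂ with hb'
  have hb'B : b' ∈ P.B := P.B.mul_mem htn hb₂
  have ex : x = u₁ * n * b' := by
    rw [e, hb']
    group
  have hdel : del P x = pi P n := del_eq hn hx
  -- change of variable
  have h2 : (∑ u : U, if x⁻¹ * (u : G) * x ∈ P.B then conj ((ψ u : ℂˣ) : ℂ) else 0) =
      ∑ v : U, if n⁻¹ * (v : G) * n ∈ P.B then conj ((ψ v : ℂˣ) : ℂ) else 0 := by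
    apply Fintype.sum_equiv (MulAut.conj (⟨u₁, hu₁⟩ : U)⁻¹).toEquiv
    intro u
    have hv : ((MulAut.conj (⟨u₁, hu₁⟩ : U)⁻¹).toEquiv u : U) = (⟨u₁, hu₁⟩ : U)⁻¹ * u * (⟨u₁, hu₁⟩ : U) := by
      simp [MulAut.conj_apply]
    rw [hv]
    have hpsi : ψ ((⟨u₁, hu₁⟩ : U)⁻¹ * u * (⟨u₁, hu₁⟩ : U)) = ψ u := by
      rw [map_mul, map_mul, map_inv, mul_comm (ψ _)⁻¹ (ψ u), mul_assoc, inv_mul_cancel, mul_one]
    rw [hpsi]
    have hiff : x⁻¹ * (u : G) * x ∈ P.B ↔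
        n⁻¹ * (((⟨u₁, hu₁⟩ : U)⁻¹ * u * (⟨u₁, hu₁⟩ : U) : U) : G) * n ∈ P.B := by
      have e2 : x⁻¹ * (u : G) * x = b'⁻¹ * (n⁻¹ * (u₁⁻¹ * u * u₁) * n) * b' := by
        rw [ex]
        group
      rw [e2]
      constructor
      · intro h3
        have := P.B.mul_mem (P.B.mul_mem hb'B h3) (P.B.inv_mem hb'B)
        have e3 : b' * (b'⁻¹ * (n⁻¹ * (u₁⁻¹ * u * u₁) * n) * b') * b'⁻¹ = n⁻¹ * (u₁⁻¹ * u * u₁) * n := by group
        rw [e3] at this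
        simpa using this
      · intro h3
        exact P.B.mul_mem (P.B.mul_mem (P.B.inv_mem hb'B) (by simpa using h3)) hb'B
    simp only [hiff]
  rw [h2, hdel]
  by_cases hw : pi P n = pi P n₀
  · rw [if_pos hw]
    have h3 := (pi_eq_iff hn₀ hn).1 hw.symm
    rw [Finset.sum_eq_single (1 : U)]
    · simp [P.B.one_mem]
    · intro v _ hv
      rw [if_neg]
      intro h4
      apply hv
      apply h1
      have e4 : n₀⁻¹ * (v : G) * n₀ = (n₀⁻¹ * n) * (n⁻¹ * (v : G) * n) * (n₀⁻¹ * n)⁻¹ := by group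
      rw [e4]
      exact P.B.mul_mem (P.B.mul_mem h3 h4) (P.B.inv_mem h3)
    · simp
  · rw [if_neg hw]
    obtain ⟨v₀, hv₀, hψ⟩ := hnd n hn hw
    set S := ∑ v : U, if n⁻¹ * (v : G) * n ∈ P.B then conj ((ψ v : ℂˣ) : ℂ) else 0 with hS
    have h3 : S = conj ((ψ v₀ : ℂˣ) : ℂ) * S := by
      rw [hS, Finset.mul_sum]
      apply Fintype.sum_equiv (Equiv.mulLeft v₀⁻¹)
      intro v
      have hiff : n⁻¹ * (((v₀⁻¹ * v : U)) : G) * n ∈ P.B ↔ n⁻¹ * (v : G) * n ∈ P.B := by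
        have e5 : n⁻¹ * (((v₀⁻¹ * v : U)) : G) * n = (n⁻¹ * (v₀ : G) * n)⁻¹ * (n⁻¹ * (v : G) * n) := by
          simp only [Subgroup.coe_mul, InvMemClass.coe_inv]
          group
        rw [e5]
        exact Subgroup.mul_mem_cancel_left _ (P.B.inv_mem hv₀)
      simp only [Equiv.coe_mulLeft, hiff]
      split_ifs with h5
      · rw [← map_mul, ← Units.val_mul, ← map_mul]
        simp
      · simp
    have h4 : (1 - conj ((ψ v₀ : ℂˣ) : ℂ)) * S = 0 := by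
      rw [sub_mul, one_mul, ← h3, sub_self]
    have h5 : (1 - conj ((ψ v₀ : ℂˣ) : ℂ)) ≠ 0 := by
      intro h6
      apply hψ
      have h7 : conj ((ψ v₀ : ℂˣ) : ℂ) = 1 := (sub_eq_zero.1 h6).symm
      have h8 : ((ψ v₀ : ℂˣ) : ℂ) = 1 := by
        have := congrArg conj h7
        simpa using this
      exact Units.ext h8
    exact (mul_eq_zero.1 h4).resolve_left h5

open scoped Classical in
/-- The Gelfand–Graev count. -/
theorem gg_sum {U : Subgroup G} [Fintype U] (ψ : U →* ℂˣ) (hUB : U ≤ P.B)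
    (hB : ∀ b ∈ P.B, ∃ u ∈ U, ∃ t ∈ P.B ⊓ P.N, b = u * t) {n₀ : G} (hn₀ : n₀ ∈ P.N)
    (h1 : ∀ u : U, n₀⁻¹ * (u : G) * n₀ ∈ P.B → u = 1)
    (hnd : ∀ n ∈ P.N, pi P n ≠ pi P n₀ → ∃ v : U, n⁻¹ * (v : G) * n ∈ P.B ∧ ψ v ≠ 1) :
    (∑ x : G, ∑ u : U, if x⁻¹ * (u : G) * x ∈ P.B then conj ((ψ u : ℂˣ) : ℂ) else 0) =
      (Nat.card {g : G // del P g = pi P n₀} : ℂ) := by
  classical
  rw [Finset.sum_congr rfl (fun x _ => gg_inner ψ hUB hB hn₀ h1 hnd x), Finset.sum_boole,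
    Nat.card_eq_fintype_card, Fintype.card_subtype]

end Cfsg.Agent.Lib.StBN50
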