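import Mathlib

set_option autoImplicit false

/-!
# Conjugacy classes of `GL₂` and of `SL₂` in characteristic two
-/

namespace Cfsg.Agent.Lib.GL2Classes

open Matrix
open scoped MatrixGroups

/-- Conjugacy classes as the fibres of a complete class invariant. -/
lemma card_conjClasses_eq_of {G X : Type*} [Group G] (c : G → X) (hconj : ∀ g h, c (g * h * g⁻¹) = c h)
    (hinj : ∀ a b, c a = c b → IsConj a b) (hsurj : Function.Surjective c) :
    Nat.card (ConjClasses G) = Nat.card X := by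
  have hlift : ∀ a b : G, IsConj a b → c a = c b := by
    intro a b h
    obtain ⟨g, rfl⟩ := isConj_iff.1 h
    exact (hconj g a).symm
  let f : ConjClasses G → X := Quotient.lift c hlift
  have hf : Function.Bijective f := by
    constructor
    · intro x y
      obtain ⟨a, rfl⟩ := ConjClasses.exists_rep x
      obtain ⟨b, rfl⟩ := ConjClasses.exists_rep y
      intro h
      exact ConjClasses.mk_eq_mk_iff_isConj.2 (hinj a b h)
    · intro x
      obtain ⟨a, rfl⟩ := hsurj x
      exact ⟨ConjClasses.mk a, rfl⟩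
  exact Nat.card_congr (Equiv.ofBijective f hf)

variable {F : Type*} [Field F]

/-- Non-scalar `2 × 2` matrices are conjugate to companion matrices. -/
lemma exists_companion (A : Matrix (Fin 2) (Fin 2) F) (hA : ¬ ∃ a : F, A = a • 1) :
    ∃ Q : GL (Fin 2) F, (Q : Matrix (Fin 2) (Fin 2) F) * !![0, -A.det; 1, A.trace] = A * (Q : Matrix (Fin 2) (Fin 2) F) := by
  set a := A 0 0 with ha
  set b := A 0 1 with hb
  set c := A 1 0 with hc
  set d := A 1 1 with hd
  have hA' : A = !![a, b; c, d] := Matrix.eta_fin_two _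
  have hdet : A.det = a * d - b * c := by rw [hA', Matrix.det_fin_two_of]
  have htr : A.trace = a + d := by
    rw [hA']
    simp [Matrix.trace_fin_two]
  have hv : ∃ v0 v1 : F, v0 * (c * v0 + d * v1) - (a * v0 + b * v1) * v1 ≠ 0 := by
    by_cases hc0 : c = 0
    · by_cases hb0 : b = 0
      · have hne : a ≠ d := by
          intro h
          apply hA
          refine ⟨a, ?_⟩
          rw [hA', hc0, hb0, ← h]
          ext i j
          fin_cases i <;> fin_cases j <;> simp
        refine ⟨1, 1, ?_⟩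
        intro h
        apply hne
        rw [hc0, hb0] at h
        have : d - a = 0 := by linear_combination h
        exact (sub_eq_zero.mp this).symm
      · refine ⟨0, 1, ?_⟩
        simpa using hb0
    · refine ⟨1, 0, ?_⟩
      simpa using hc0
  obtain ⟨v0, v1, hv⟩ := hv
  let M : Matrix (Fin 2) (Fin 2) F := !![v0, a * v0 + b * v1; v1, c * v0 + d * v1]
  have hM : M.det ≠ 0 := by
    rw [Matrix.det_fin_two_of]
    exact hv
  refine ⟨Matrix.GeneralLinearGroup.mkOfDetNeZero M hM, ?_⟩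
  change M * _ = A * M
  rw [hdet, htr]
  conv_rhs => rw [hA']
  ext i j
  fin_cases i <;> fin_cases j <;>
    simp [M, Matrix.mul_apply, Fin.sum_univ_two] <;> ring

/-- Two non-scalar matrices with the same trace and determinant are conjugate under `GL₂`. -/
lemma exists_conj_GL (A B : Matrix (Fin 2) (Fin 2) F) (hA : ¬ ∃ a : F, A = a • 1) (hB : ¬ ∃ a : F, B = a • 1)
    (ht : A.trace = B.trace) (hd : A.det = B.det) :
    ∃ Q : GL (Fin 2) F, (Q : Matrix (Fin 2) (Fin 2) F) * A = B * (Q : Matrix (Fin 2) (Fin 2) F) := by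
  obtain ⟨P, hP⟩ := exists_companion A hA
  obtain ⟨R, hR⟩ := exists_companion B hB
  rw [ht, hd] at hP
  refine ⟨R * P⁻¹, ?_⟩
  have h1 : ((P⁻¹ : GL (Fin 2) F) : Matrix (Fin 2) (Fin 2) F) * A * (P : Matrix (Fin 2) (Fin 2) F) =
      !![0, -B.det; 1, B.trace] := by
    rw [Matrix.mul_assoc, ← hP, ← Matrix.mul_assoc, ← Units.val_mul, inv_mul_cancel]
    simp
  have h2 : ((P⁻¹ : GL (Fin 2) F) : Matrix (Fin 2) (Fin 2) F) * A =
      !![0, -B.det; 1, B.trace] * ((P⁻¹ : GL (Fin 2) F) : Matrix (Fin 2) (Fin 2) F) := by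
    rw [← h1, Matrix.mul_assoc, ← Units.val_mul, mul_inv_cancel]
    simp
  rw [Units.val_mul, Matrix.mul_assoc, h2, ← Matrix.mul_assoc, hR, Matrix.mul_assoc]

/-- The class invariant of `GL₂`. -/
noncomputable def cGL (g : GL (Fin 2) F) : (F × Fˣ) ⊕ Fˣ :=
  open Classical in
  if h : ∃ a : Fˣ, (g : Matrix (Fin 2) (Fin 2) F) = (a : F) • 1 then .inr h.choose
  else .inl ((g : Matrix (Fin 2) (Fin 2) F).trace, Matrix.GeneralLinearGroup.det g)

lemma scalar_unit (g : GL (Fin 2) F) (h : ∃ a : F, (g : Matrix (Fin 2) (Fin 2) F) = a • 1) :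
    ∃ a : Fˣ, (g : Matrix (Fin 2) (Fin 2) F) = (a : F) • 1 := by
  obtain ⟨a, ha⟩ := h
  have ha0 : a ≠ 0 := by
    rintro rfl
    have h1 : (g : Matrix (Fin 2) (Fin 2) F) * ((g⁻¹ : GL (Fin 2) F) : Matrix (Fin 2) (Fin 2) F) = 1 := by
      rw [← Units.val_mul, mul_inv_cancel]
      simp
    rw [ha, zero_smul, Matrix.zero_mul] at h1
    exact zero_ne_one h1
  exact ⟨Units.mk0 a ha0, ha⟩

lemma scalar_conj (g h : GL (Fin 2) F) (a : F) :
    ((g * h * g⁻¹ : GL (Fin 2) F) : Matrix (Fin 2) (Fin 2) F) = a • 1 ↔ (h : Matrix (Fin 2) (Fin 2) F) = a • 1 := by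
  have h1 : ((g * h * g⁻¹ : GL (Fin 2) F) : Matrix (Fin 2) (Fin 2) F) =
      (g : Matrix (Fin 2) (Fin 2) F) * h * ((g⁻¹ : GL (Fin 2) F) : Matrix (Fin 2) (Fin 2) F) := rfl
  have hgi : (g : Matrix (Fin 2) (Fin 2) F) * ((g⁻¹ : GL (Fin 2) F) : Matrix (Fin 2) (Fin 2) F) = 1 := by
    rw [← Units.val_mul, mul_inv_cancel]
    simp
  have hig : ((g⁻¹ : GL (Fin 2) F) : Matrix (Fin 2) (Fin 2) F) * (g : Matrix (Fin 2) (Fin 2) F) = 1 := by
    rw [← Units.val_mul, inv_mul_cancel]
    simp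
  rw [h1]
  constructor
  · intro h2
    calc (h : Matrix (Fin 2) (Fin 2) F)
        = ((g⁻¹ : GL (Fin 2) F) : Matrix (Fin 2) (Fin 2) F) * ((g : Matrix (Fin 2) (Fin 2) F) * h *
          ((g⁻¹ : GL (Fin 2) F) : Matrix (Fin 2) (Fin 2) F)) * (g : Matrix (Fin 2) (Fin 2) F) := by
          simp only [Matrix.mul_assoc, hig, Matrix.mul_one]
          rw [← Matrix.mul_assoc, hig, Matrix.one_mul]
      _ = a • 1 := by
          rw [h2, Matrix.mul_smul, Matrix.smul_mul, Matrix.mul_one, hig]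
  · intro h2
    rw [h2, Matrix.mul_smul, Matrix.smul_mul, Matrix.mul_one, hgi]

lemma scalar_inj {a b : F} (h : (a • 1 : Matrix (Fin 2) (Fin 2) F) = b • 1) : a = b := by
  have := congrFun (congrFun h 0) 0
  simpa using this

lemma cGL_conj (g h : GL (Fin 2) F) : cGL (g * h * g⁻¹) = cGL h := by
  classical
  unfold cGL
  by_cases h1 : ∃ a : Fˣ, (h : Matrix (Fin 2) (Fin 2) F) = (a : F) • 1
  · have h2 : ∃ a : Fˣ, ((g * h * g⁻¹ : GL (Fin 2) F) : Matrix (Fin 2) (Fin 2) F) = (a : F) • 1 := by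
      obtain ⟨a, ha⟩ := h1
      exact ⟨a, (scalar_conj g h a).2 ha⟩
    rw [dif_pos h1, dif_pos h2]
    congr 1
    apply Units.ext
    apply scalar_inj (F := F)
    rw [← h1.choose_spec, ← (scalar_conj g h _).1 h2.choose_spec]
  · have h2 : ¬ ∃ a : Fˣ, ((g * h * g⁻¹ : GL (Fin 2) F) : Matrix (Fin 2) (Fin 2) F) = (a : F) • 1 := by
      rintro ⟨a, ha⟩
      exact h1 ⟨a, (scalar_conj g h a).1 ha⟩
    rw [dif_neg h1, dif_neg h2]
    congr 2
    · change ((g : Matrix (Fin 2) (Fin 2) F) * h * ((g⁻¹ : GL (Fin 2) F) : Matrix (Fin 2) (Fin 2) F)).trace = _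
      rw [Matrix.trace_mul_comm, ← Matrix.mul_assoc, ← Units.val_mul, inv_mul_cancel]
      simp
    · rw [map_mul, map_mul, map_inv]
      simp

/-- The companion element of `GL₂`. -/
noncomputable def compGL (t : F) (d : Fˣ) : GL (Fin 2) F :=
  Matrix.GeneralLinearGroup.mkOfDetNeZero !![0, -(d : F); 1, t] (by
    rw [Matrix.det_fin_two_of]
    simp)

lemma compGL_val (t : F) (d : Fˣ) : (compGL t d : Matrix (Fin 2) (Fin 2) F) = !![0, -(d : F); 1, t] := rfl

lemma cGL_surjective : Function.Surjective (cGL (F := F)) := by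
  classical
  rintro (⟨t, d⟩ | a)
  · refine ⟨compGL t d, ?_⟩
    unfold cGL
    have h1 : ¬ ∃ a : Fˣ, (compGL t d : Matrix (Fin 2) (Fin 2) F) = (a : F) • 1 := by
      rintro ⟨a, ha⟩
      rw [compGL_val] at ha
      have h2 := congrFun (congrFun ha 1) 0
      simp at h2
    rw [dif_neg h1, compGL_val]
    congr 2
    · simp [Matrix.trace_fin_two]
    · apply Units.ext
      change (!![0, -(d : F); 1, t] : Matrix (Fin 2) (Fin 2) F).det = d
      rw [Matrix.det_fin_two_of]
      simp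
  · let g : GL (Fin 2) F := Matrix.GeneralLinearGroup.mkOfDetNeZero ((a : F) • 1) (by
      simp [Matrix.det_smul])
    refine ⟨g, ?_⟩
    unfold cGL
    have h1 : ∃ b : Fˣ, (g : Matrix (Fin 2) (Fin 2) F) = (b : F) • 1 := ⟨a, rfl⟩
    rw [dif_pos h1]
    congr 1
    apply Units.ext
    apply scalar_inj (F := F)
    exact h1.choose_spec.symm

lemma cGL_inj (a b : GL (Fin 2) F) (h : cGL a = cGL b) : IsConj a b := by
  classical
  unfold cGL at h
  by_cases h1 : ∃ c : Fˣ, (a : Matrix (Fin 2) (Fin 2) F) = (c : F) • 1 <;>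
    by_cases h2 : ∃ c : Fˣ, (b : Matrix (Fin 2) (Fin 2) F) = (c : F) • 1
  · rw [dif_pos h1, dif_pos h2] at h
    have h3 := Sum.inr.inj h
    have h4 : a = b := by
      apply Units.ext
      rw [h1.choose_spec, h2.choose_spec, h3]
    rw [h4]
  · rw [dif_pos h1, dif_neg h2] at h
    cases h
  · rw [dif_neg h1, dif_pos h2] at h
    cases h
  · rw [dif_neg h1, dif_neg h2] at h
    have h3 := Sum.inl.inj h
    have h4 := congrArg Prod.fst h3
    have h5 := congrArg (fun x : F × Fˣ => ((x.2 : Fˣ) : F)) h3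
    simp only at h4 h5
    have hA : ¬ ∃ c : F, (a : Matrix (Fin 2) (Fin 2) F) = c • 1 := fun h6 => h1 (scalar_unit a h6)
    have hB : ¬ ∃ c : F, (b : Matrix (Fin 2) (Fin 2) F) = c • 1 := fun h6 => h2 (scalar_unit b h6)
    obtain ⟨Q, hQ⟩ := exists_conj_GL _ _ hA hB h4 h5
    rw [isConj_iff]
    refine ⟨Q, ?_⟩
    apply Units.ext
    change (Q : Matrix (Fin 2) (Fin 2) F) * a * ((Q⁻¹ : GL (Fin 2) F) : Matrix (Fin 2) (Fin 2) F) = b
    rw [hQ, Matrix.mul_assoc, ← Units.val_mul, mul_inv_cancel]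
    simp

/-- Over a finite field with q elements, the general linear group GL₂ has exactly q² − 1 conjugacy classes. -/
theorem card_conjClasses_GL2 [Fintype F] :
    Nat.card (ConjClasses (Matrix.GeneralLinearGroup (Fin 2) F)) = Fintype.card F ^ 2 - 1 := by
  classical
  rw [card_conjClasses_eq_of cGL cGL_conj cGL_inj cGL_surjective]
  rw [Nat.card_eq_fintype_card, Fintype.card_sum, Fintype.card_prod, Fintype.card_units]
  have h1 : 1 ≤ Fintype.card F := Fintype.card_pos
  obtain ⟨q, hq⟩ : ∃ q, Fintype.card F = q + 1 := ⟨Fintype.card F - 1, by omega⟩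
  rw [hq]
  have h2 : (q + 1) ^ 2 = q * (q + 2) + 1 := by ring
  rw [h2]
  simp
  ring

section char2

variable [Fintype F] [CharP F 2]

open Classical in
/-- The class invariant of `SL₂` in characteristic two. -/
noncomputable def cSL (g : SL(2, F)) : F ⊕ Unit :=
  if g = 1 then .inr () else .inl (g : Matrix (Fin 2) (Fin 2) F).trace

lemma not_scalar_of_ne_one {g : SL(2, F)} (hg : g ≠ 1) : ¬ ∃ a : F, (g : Matrix (Fin 2) (Fin 2) F) = a • 1 := by
  rintro ⟨a, ha⟩
  apply hg
  have h1 : (g : Matrix (Fin 2) (Fin 2) F).det = 1 := g.2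
  rw [ha, Matrix.det_smul] at h1
  simp only [Fintype.card_fin, Matrix.det_one, mul_one] at h1
  have h2 : (a + 1) ^ 2 = 0 := by
    have h3 : (a + 1) ^ 2 = a ^ 2 + 1 ^ 2 := add_pow_char a 1 2
    rw [h3, h1, one_pow]
    exact CharTwo.add_self_eq_zero 1
  have h3 : a + 1 = 0 := pow_eq_zero_iff (by norm_num) |>.1 h2
  have h4 : a = 1 := CharTwo.add_eq_zero.1 h3
  apply Subtype.ext
  rw [ha, h4, one_smul]
  rfl

lemma cSL_conj (g h : SL(2, F)) : cSL (g * h * g⁻¹) = cSL h := by
  classical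
  unfold cSL
  by_cases h1 : h = 1
  · rw [if_pos h1, if_pos]
    rw [h1]
    simp
  · rw [if_neg h1, if_neg]
    · congr 1
      change ((g : Matrix (Fin 2) (Fin 2) F) * h * ((g⁻¹ : SL(2, F)) : Matrix (Fin 2) (Fin 2) F)).trace = _
      rw [Matrix.trace_mul_comm, ← Matrix.mul_assoc, ← Matrix.SpecialLinearGroup.coe_mul, inv_mul_cancel]
      simp
    · intro h2
      apply h1
      have h3 : h = g⁻¹ * (g * h * g⁻¹) * g := by group
      rw [h3, h2]
      simp

lemma cSL_surjective : Function.Surjective (cSL (F := F)) := by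
  classical
  rintro (t | ⟨⟩)
  · let g : SL(2, F) := ⟨!![0, -1; 1, t], by rw [Matrix.det_fin_two_of]; simp⟩
    refine ⟨g, ?_⟩
    unfold cSL
    have h1 : g ≠ 1 := by
      intro h
      have h2 := congrArg (fun x : SL(2, F) => (x : Matrix (Fin 2) (Fin 2) F) 0 0) h
      simp [g] at h2
    rw [if_neg h1]
    congr 1
    simp [g, Matrix.trace_fin_two]
  · refine ⟨1, ?_⟩
    simp [cSL]

lemma cSL_inj (a b : SL(2, F)) (h : cSL a = cSL b) : IsConj a b := by
  classical
  unfold cSL at h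
  by_cases h1 : a = 1 <;> by_cases h2 : b = 1
  · rw [h1, h2]
  · rw [if_pos h1, if_neg h2] at h
    cases h
  · rw [if_neg h1, if_pos h2] at h
    cases h
  · rw [if_neg h1, if_neg h2] at h
    have h3 := Sum.inl.inj h
    have hda : (a : Matrix (Fin 2) (Fin 2) F).det = (b : Matrix (Fin 2) (Fin 2) F).det := by
      rw [a.2, b.2]
    obtain ⟨Q, hQ⟩ := exists_conj_GL _ _ (not_scalar_of_ne_one h1) (not_scalar_of_ne_one h2) h3 hda
    -- rescale `Q`
    have hdet : (Q : Matrix (Fin 2) (Fin 2) F).det ≠ 0 := by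
      have := Q.det_ne_zero
      exact this
    obtain ⟨r, hr⟩ : IsSquare (Q : Matrix (Fin 2) (Fin 2) F).det :=
      FiniteField.isSquare_of_char_two (ringChar.eq F 2) _
    have hr0 : r ≠ 0 := by
      rintro rfl
      apply hdet
      rw [hr, mul_zero]
    let S : SL(2, F) := ⟨r⁻¹ • (Q : Matrix (Fin 2) (Fin 2) F), by
      rw [Matrix.det_smul, hr]
      simp only [Fintype.card_fin]
      field_simp⟩
    rw [isConj_iff]
    refine ⟨S, ?_⟩
    apply Subtype.ext
    change (r⁻¹ • (Q : Matrix (Fin 2) (Fin 2) F)) * a * ((S⁻¹ : SL(2, F)) : Matrix (Fin 2) (Fin 2) F) = b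
    have h5 : (r⁻¹ • (Q : Matrix (Fin 2) (Fin 2) F)) * a = b * (S : Matrix (Fin 2) (Fin 2) F) := by
      change _ = (b : Matrix (Fin 2) (Fin 2) F) * (r⁻¹ • (Q : Matrix (Fin 2) (Fin 2) F))
      rw [Matrix.smul_mul, hQ, Matrix.mul_smul]
    rw [h5, Matrix.mul_assoc, ← Matrix.SpecialLinearGroup.coe_mul, mul_inv_cancel]
    simp

/-- Over a finite field with q elements, q even, the special linear group SL₂ has exactly q + 1 conjugacy classes. -/
theorem card_conjClasses_SL2_even :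
    Nat.card (ConjClasses (Matrix.SpecialLinearGroup (Fin 2) F)) = Fintype.card F + 1 := by
  classical
  rw [card_conjClasses_eq_of cSL cSL_conj cSL_inj cSL_surjective]
  rw [Nat.card_eq_fintype_card, Fintype.card_sum]
  simp

end char2

end Cfsg.Agent.Lib.GL2Classes
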