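import Mathlib

/-!
# Certified regular subgroups of `GL₂(𝔽_p)`

The statement `main`: a subgroup of `GL₂(𝔽_p)` generated by explicit matrices acts regularly
on the non-zero vectors, provided a certificate (table `t`: first column ↦ second column) passes a
Boolean check, to be evaluated by the kernel.
-/

set_option autoImplicit false

namespace Cfsg.Agent.Lib.GL2Reg

/-- A matrix code: entries `a b c d` of `[[a,b],[c,d]]`. -/
abbrev Q := ℕ × ℕ × ℕ × ℕ

/-- Decode a matrix code. -/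
def dec (p : ℕ) (g : Q) : Matrix (Fin 2) (Fin 2) (ZMod p) :=
  !![(g.1 : ZMod p), (g.2.1 : ZMod p); (g.2.2.1 : ZMod p), (g.2.2.2 : ZMod p)]

/-- The vector with code `i`. -/
def vecOf (p i : ℕ) : Fin 2 → ZMod p := ![((i / p : ℕ) : ZMod p), ((i % p : ℕ) : ZMod p)]

/-- The matrix with the given columns. -/
def cols {p : ℕ} (u w : Fin 2 → ZMod p) : Matrix (Fin 2) (Fin 2) (ZMod p) :=
  !![u 0, w 0; u 1, w 1]

/-- The code of the image of the vector with code `i`. -/
def act (p : ℕ) (g : Q) (i : ℕ) : ℕ :=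
  ((g.1 * (i / p) + g.2.1 * (i % p)) % p) * p + (g.2.2.1 * (i / p) + g.2.2.2 * (i % p)) % p

theorem vecOf_act {p : ℕ} (hp : 0 < p) (g : Q) (i : ℕ) :
    vecOf p (act p g i) = (dec p g).mulVec (vecOf p i) := by
  have h1 : act p g i / p = (g.1 * (i / p) + g.2.1 * (i % p)) % p := by
    unfold act
    rw [mul_comm, Nat.mul_add_div hp, Nat.div_eq_of_lt (Nat.mod_lt _ hp), add_zero]
  have h2 : act p g i % p = (g.2.2.1 * (i / p) + g.2.2.2 * (i % p)) % p := by
    unfold act
    rw [mul_comm, Nat.mul_add_mod, Nat.mod_mod]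
  ext r
  fin_cases r
  · simp [vecOf, dec, Matrix.mulVec, dotProduct, Fin.sum_univ_two, h1]
  · simp [vecOf, dec, Matrix.mulVec, dotProduct, Fin.sum_univ_two, h2]

theorem dec_mul_cols {p : ℕ} (g : Q) (u w : Fin 2 → ZMod p) :
    dec p g * cols u w = cols ((dec p g).mulVec u) ((dec p g).mulVec w) := by
  ext r s
  fin_cases r <;> fin_cases s <;>
    simp [dec, cols, Matrix.mulVec, dotProduct, Fin.sum_univ_two, Matrix.mul_apply]

/-- Kernel-friendly bounded universal quantifier over `[lo, lo + 2 ^ d)`. -/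
def allRange (f : ℕ → Bool) : ℕ → ℕ → Bool
  | 0, lo => f lo
  | d + 1, lo => allRange f d lo && allRange f d (lo + 2 ^ d)

theorem allRange_spec (f : ℕ → Bool) (d lo : ℕ) (h : allRange f d lo = true) (i : ℕ)
    (h1 : lo ≤ i) (h2 : i < lo + 2 ^ d) : f i = true := by
  induction d generalizing lo with
  | zero =>
    have : i = lo := by simp at h2; omega
    subst this
    exact h
  | succ d ih =>
    simp only [allRange, Bool.and_eq_true] at h
    rcases Nat.lt_or_ge i (lo + 2 ^ d) with h3 | h3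
    · exact ih lo h.1 h1 h3
    · refine ih (lo + 2 ^ d) h.2 h3 ?_
      rw [pow_succ] at h2
      omega

/-- The bits obtained by moving all bits of `mask` in `[lo, lo + 2 ^ d)` with `g`. -/
def spread (p : ℕ) (g : Q) (mask : ℕ) : ℕ → ℕ → ℕ
  | 0, lo => if mask.testBit lo then 2 ^ act p g lo else 0
  | d + 1, lo => spread p g mask d lo ||| spread p g mask d (lo + 2 ^ d)

theorem spread_spec (p : ℕ) (g : Q) (mask d lo j : ℕ) (h : (spread p g mask d lo).testBit j = true) :
    ∃ i, mask.testBit i = true ∧ j = act p g i := by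
  induction d generalizing lo with
  | zero =>
    simp only [spread] at h
    split_ifs at h with h0
    · rw [Nat.testBit_two_pow] at h
      exact ⟨lo, h0, (of_decide_eq_true h).symm⟩
    · simp at h
  | succ d ih =>
    simp only [spread, Nat.testBit_or, Bool.or_eq_true] at h
    rcases h with h | h
    · exact ih _ h
    · exact ih _ h

/-- One round of the orbit computation. -/
def round (p d : ℕ) (gs : List Q) (mask : ℕ) : ℕ :=
  gs.foldl (fun m g => m ||| spread p g m d 0) mask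

/-- The orbit computation. -/
def bfs (p d : ℕ) (gs : List Q) : ℕ → ℕ → ℕ
  | 0, m => m
  | n + 1, m => bfs p d gs n (round p d gs m)

theorem round_spec (p d : ℕ) (gs : List Q) (P : ℕ → Prop)
    (hP : ∀ g ∈ gs, ∀ i, P i → P (act p g i)) (m : ℕ) (hm : ∀ i, m.testBit i = true → P i) :
    ∀ i, (round p d gs m).testBit i = true → P i := by
  unfold round
  induction gs generalizing m with
  | nil => simpa using hm
  | cons g gs ih =>
    simp only [List.foldl_cons]
    apply ih (fun g' hg' => hP g' (List.mem_cons_of_mem _ hg'))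
    intro j hj
    simp only [Nat.testBit_or, Bool.or_eq_true] at hj
    rcases hj with hj | hj
    · exact hm j hj
    · obtain ⟨i, hi, rfl⟩ := spread_spec p g m d 0 j hj
      exact hP g (List.mem_cons_self) i (hm i hi)

theorem bfs_spec (p d : ℕ) (gs : List Q) (P : ℕ → Prop)
    (hP : ∀ g ∈ gs, ∀ i, P i → P (act p g i)) (n m : ℕ) (hm : ∀ i, m.testBit i = true → P i) :
    ∀ i, (bfs p d gs n m).testBit i = true → P i := by
  induction n generalizing m with
  | zero => simpa [bfs] using hm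
  | succ n ih => exact ih _ (round_spec p d gs P hP m hm)

/-- The certificate check at one index `i`: the table is closed under left multiplication by
the generators and either the element is the identity or it has no nonzero fixed vector. -/
def checkAt (p : ℕ) (gs : List Q) (t : ℕ → ℕ) (i : ℕ) : Bool :=
  i == 0 || decide (p * p ≤ i) ||
    ((gs.all fun g =>
        let i' := act p g i
        i' != 0 && decide (i' < p * p) && t i' == act p g (t i)) &&
      ((i == p && t i == 1) ||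
        ((i / p + (p - 1)) * (t i % p + (p - 1)) + (p - 1) * ((t i / p) * (i % p))) % p != 0))

/-- The whole check. -/
def check (p d n : ℕ) (gs : List Q) (t : ℕ → ℕ) : Bool :=
  decide (p * p ≤ 2 ^ d) && t p == 1 &&
  allRange (checkAt p gs t) d 0 &&
    (bfs p d gs n (2 ^ p)) == 2 ^ (p * p) - 2

theorem testBit_full (n i : ℕ) (h0 : i ≠ 0) (h1 : i < n) : (2 ^ n - 2).testBit i = true := by
  obtain ⟨j, rfl⟩ : ∃ j, i = j + 1 := ⟨i - 1, by omega⟩
  obtain ⟨m, rfl⟩ : ∃ m, n = m + 1 := ⟨n - 1, by omega⟩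
  have : (2 ^ (m + 1) - 2) / 2 = 2 ^ m - 1 := by
    rw [pow_succ]
    have : 0 < 2 ^ m := by positivity
    omega
  rw [Nat.testBit_succ, this, Nat.testBit_two_pow_sub_one]
  simp
  omega

theorem vecOf_surj {p : ℕ} [Fact p.Prime] (v : Fin 2 → ZMod p) (hv : v ≠ 0) :
    ∃ i, i ≠ 0 ∧ i < p * p ∧ vecOf p i = v := by
  have hp : 0 < p := (Fact.out : p.Prime).pos
  have : NeZero p := ⟨hp.ne'⟩
  refine ⟨(v 0).val * p + (v 1).val, ?_, ?_, ?_⟩
  · intro h
    apply hv
    have h0 : (v 0).val = 0 := by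
      by_contra hne
      have : 0 < (v 0).val * p := Nat.mul_pos (Nat.pos_of_ne_zero hne) hp
      omega
    have h1 : (v 1).val = 0 := by omega
    ext r
    fin_cases r
    · simpa using (ZMod.val_eq_zero _).mp h0
    · simpa using (ZMod.val_eq_zero _).mp h1
  · have h1 := ZMod.val_lt (v 1)
    have h0 := ZMod.val_lt (v 0)
    have : (v 0).val * p + (v 1).val < ((v 0).val + 1) * p := by nlinarith
    have h2 : ((v 0).val + 1) * p ≤ p * p := Nat.mul_le_mul_right _ h0
    omega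
  · have h1 : ((v 0).val * p + (v 1).val) / p = (v 0).val := by
      rw [mul_comm, Nat.mul_add_div hp, Nat.div_eq_of_lt (ZMod.val_lt _), add_zero]
    have h2 : ((v 0).val * p + (v 1).val) % p = (v 1).val := by
      rw [mul_comm, Nat.mul_add_mod, Nat.mod_eq_of_lt (ZMod.val_lt _)]
    ext r
    fin_cases r
    · simp [vecOf, h1]
    · simp [vecOf, h2]

section main

variable {p : ℕ} [Fact p.Prime]

theorem gl_mul_mulVec (g h : Matrix.GeneralLinearGroup (Fin 2) (ZMod p)) (v : Fin 2 → ZMod p) :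
    ((g * h : Matrix.GeneralLinearGroup (Fin 2) (ZMod p)) : Matrix (Fin 2) (Fin 2) (ZMod p)).mulVec v =
      (g : Matrix (Fin 2) (Fin 2) (ZMod p)).mulVec ((h : Matrix (Fin 2) (Fin 2) (ZMod p)).mulVec v) := by
  rw [Units.val_mul, Matrix.mulVec_mulVec]

theorem gl_inv_mulVec (h : Matrix.GeneralLinearGroup (Fin 2) (ZMod p)) (v : Fin 2 → ZMod p) :
    ((h⁻¹ : Matrix.GeneralLinearGroup (Fin 2) (ZMod p)) : Matrix (Fin 2) (Fin 2) (ZMod p)).mulVec
      ((h : Matrix (Fin 2) (Fin 2) (ZMod p)).mulVec v) = v := by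
  rw [← gl_mul_mulVec, inv_mul_cancel, Units.val_one, Matrix.one_mulVec]

variable (S : Set (Matrix.GeneralLinearGroup (Fin 2) (ZMod p)))

/-- Elements of the closure are in the table. -/
theorem closure_table (gs : List Q) (t : ℕ → ℕ) (d : ℕ)
    (hS : ∀ g ∈ S, ∃ c ∈ gs, (g : Matrix (Fin 2) (Fin 2) (ZMod p)) = dec p c)
    (hd : p * p ≤ 2 ^ d)
    (ht1 : t p = 1) (hall : allRange (checkAt p gs t) d 0 = true)
    (h : Matrix.GeneralLinearGroup (Fin 2) (ZMod p)) (hh : h ∈ Subgroup.closure S) :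
    ∃ i, i ≠ 0 ∧ i < p * p ∧ (h : Matrix (Fin 2) (Fin 2) (ZMod p)) = cols (vecOf p i) (vecOf p (t i)) := by
  have hp : 0 < p := (Fact.out : p.Prime).pos
  have hp1 : 1 < p := (Fact.out : p.Prime).one_lt
  have hh' : h ∈ Submonoid.closure S := by
    rw [← Subgroup.closure_toSubmonoid_of_finite]
    exact hh
  induction hh' using Submonoid.closure_induction_left with
  | one =>
    refine ⟨p, by omega, by nlinarith, ?_⟩
    rw [ht1]
    have : NeZero p := ⟨hp.ne'⟩
    have e1 : (p / p) = 1 := Nat.div_self hp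
    have e2 : (p % p) = 0 := Nat.mod_self p
    have e3 : 1 / p = 0 := Nat.div_eq_of_lt hp1
    have e4 : 1 % p = 1 := Nat.mod_eq_of_lt hp1
    ext r s
    fin_cases r <;> fin_cases s <;> simp [cols, vecOf, e1, e2, e3, e4]
  | mul_left g hg y hy ih =>
    have hyc : y ∈ Subgroup.closure S := by
      rw [← Subgroup.mem_toSubmonoid, Subgroup.closure_toSubmonoid_of_finite]
      exact hy
    obtain ⟨i, hi0, hi1, hi⟩ := ih hyc
    obtain ⟨c, hc, hgc⟩ := hS g hg
    have hc1 := allRange_spec _ d 0 hall i (Nat.zero_le _) (by omega)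
    simp only [checkAt, Bool.or_eq_true, beq_iff_eq, decide_eq_true_eq, Bool.and_eq_true,
      List.all_eq_true] at hc1
    rcases hc1 with (hc1 | hc1) | hc1
    · exact absurd hc1 hi0
    · omega
    have hc2 := hc1.1 c hc
    simp only [bne_iff_ne, ne_eq, Bool.and_eq_true, decide_eq_true_eq, beq_iff_eq] at hc2
    refine ⟨act p c i, hc2.1.1, hc2.1.2, ?_⟩
    rw [hc2.2, Units.val_mul, hgc, hi, dec_mul_cols, vecOf_act hp, vecOf_act hp]

/-- Fixed-point-freeness. -/
theorem closure_fpf (gs : List Q) (t : ℕ → ℕ) (d : ℕ)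
    (hS : ∀ g ∈ S, ∃ c ∈ gs, (g : Matrix (Fin 2) (Fin 2) (ZMod p)) = dec p c)
    (hd : p * p ≤ 2 ^ d)
    (ht1 : t p = 1) (hall : allRange (checkAt p gs t) d 0 = true)
    (h : Matrix.GeneralLinearGroup (Fin 2) (ZMod p)) (hh : h ∈ Subgroup.closure S)
    (v : Fin 2 → ZMod p) (hv : v ≠ 0)
    (hfix : (h : Matrix (Fin 2) (Fin 2) (ZMod p)).mulVec v = v) : h = 1 := by
  have hp : 0 < p := (Fact.out : p.Prime).pos
  have hp1 : 1 < p := (Fact.out : p.Prime).one_lt
  have : NeZero p := ⟨hp.ne'⟩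
  obtain ⟨i, hi0, hi1, hi⟩ := closure_table S gs t d hS hd ht1 hall h hh
  have hc1 := allRange_spec _ d 0 hall i (Nat.zero_le _) (by omega)
  simp only [checkAt, Bool.or_eq_true, beq_iff_eq, decide_eq_true_eq, Bool.and_eq_true,
    List.all_eq_true] at hc1
  rcases hc1 with (hc1 | hc1) | hc1
  · exact absurd hc1 hi0
  · omega
  rcases hc1.2 with ⟨rfl, hti⟩ | hdet
  · apply Units.ext
    rw [hi, hti, Units.val_one]
    have e1 : (i / i) = 1 := Nat.div_self hp
    have e2 : (i % i) = 0 := Nat.mod_self i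
    have e3 : 1 / i = 0 := Nat.div_eq_of_lt hp1
    have e4 : 1 % i = 1 := Nat.mod_eq_of_lt hp1
    ext r s
    fin_cases r <;> fin_cases s <;> simp [cols, vecOf, e1, e2, e3, e4]
  · exfalso
    have hdet' := hdet
    simp only [bne_iff_ne, ne_eq] at hdet'
    apply hdet'
    rw [← Nat.dvd_iff_mod_eq_zero, ← ZMod.natCast_eq_zero_iff]
    have hker : ((h : Matrix (Fin 2) (Fin 2) (ZMod p)) - 1).mulVec v = 0 := by
      rw [Matrix.sub_mulVec, hfix, Matrix.one_mulVec, sub_self]
    have hdet0 : ((h : Matrix (Fin 2) (Fin 2) (ZMod p)) - 1).det = 0 :=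
      Matrix.exists_mulVec_eq_zero_iff.mp ⟨v, hv, hker⟩
    rw [Matrix.det_fin_two, hi] at hdet0
    have hm1 : ((p - 1 : ℕ) : ZMod p) = -1 := by
      rw [Nat.cast_sub hp]
      simp
    push_cast
    rw [hm1]
    simp [cols, vecOf] at hdet0
    simp only [ZMod.natCast_mod]
    linear_combination hdet0

/-- Transitivity from the bit mask. -/
theorem closure_trans (gs : List Q) (d n : ℕ)
    (hgs : ∀ c ∈ gs, ∃ g ∈ S, (g : Matrix (Fin 2) (Fin 2) (ZMod p)) = dec p c)
    (hbfs : bfs p d gs n (2 ^ p) = 2 ^ (p * p) - 2) (i : ℕ) (hi0 : i ≠ 0) (hi1 : i < p * p) :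
    ∃ h ∈ Subgroup.closure S,
      (h : Matrix (Fin 2) (Fin 2) (ZMod p)).mulVec (vecOf p p) = vecOf p i := by
  have hp : 0 < p := (Fact.out : p.Prime).pos
  have := bfs_spec p d gs
    (fun i => ∃ h ∈ Subgroup.closure S,
      (h : Matrix (Fin 2) (Fin 2) (ZMod p)).mulVec (vecOf p p) = vecOf p i) ?_ n (2 ^ p) ?_ i
    (by rw [hbfs]; exact testBit_full _ _ hi0 hi1)
  · exact this
  · rintro c hc j ⟨h, hh, hhj⟩
    obtain ⟨g, hg, hgc⟩ := hgs c hc
    refine ⟨g * h, Subgroup.mul_mem _ (Subgroup.subset_closure hg) hh, ?_⟩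
    rw [Units.val_mul, ← Matrix.mulVec_mulVec, hhj, hgc, vecOf_act hp]
  · intro j hj
    rw [Nat.testBit_two_pow] at hj
    have : p = j := of_decide_eq_true hj
    subst this
    exact ⟨1, Subgroup.one_mem _, by simp⟩

/-- The main theorem: a certificate passing `check` gives regularity on non-zero vectors. -/
theorem main (gs : List Q) (t : ℕ → ℕ) (d n N : ℕ)
    (hS : ∀ g ∈ S, ∃ c ∈ gs, (g : Matrix (Fin 2) (Fin 2) (ZMod p)) = dec p c)
    (hgs : ∀ c ∈ gs, ∃ g ∈ S, (g : Matrix (Fin 2) (Fin 2) (ZMod p)) = dec p c)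
    (hc : check p d n gs t = true) (hN : p * p - 1 = N) :
    Nat.card (Subgroup.closure S) = N ∧ ∀ v w : Fin 2 → ZMod p, v ≠ 0 → w ≠ 0 →
      ∃! h : Subgroup.closure S,
        Matrix.mulVec ((h : Matrix.GeneralLinearGroup (Fin 2) (ZMod p)) :
          Matrix (Fin 2) (Fin 2) (ZMod p)) v = w := by
  have hp : 0 < p := (Fact.out : p.Prime).pos
  have hp1 : 1 < p := (Fact.out : p.Prime).one_lt
  have : NeZero p := ⟨hp.ne'⟩
  simp only [check, Bool.and_eq_true, decide_eq_true_eq, beq_iff_eq] at hc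
  obtain ⟨⟨⟨hd, ht1⟩, hall⟩, hbfs⟩ := hc
  have hfpf := closure_fpf S gs t d hS hd ht1 hall
  have htr : ∀ v : Fin 2 → ZMod p, v ≠ 0 → ∃ h ∈ Subgroup.closure S,
      (h : Matrix (Fin 2) (Fin 2) (ZMod p)).mulVec (vecOf p p) = v := by
    intro v hv
    obtain ⟨i, hi0, hi1, rfl⟩ := vecOf_surj v hv
    exact closure_trans S gs d n hgs hbfs i hi0 hi1
  have he : vecOf p p ≠ 0 := by
    intro h
    have := congrFun h 0
    have e1 : (p / p) = 1 := Nat.div_self hp
    simp [vecOf, e1] at this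
  have hreg : ∀ v w : Fin 2 → ZMod p, v ≠ 0 → w ≠ 0 →
      ∃! h : Subgroup.closure S,
        Matrix.mulVec ((h : Matrix.GeneralLinearGroup (Fin 2) (ZMod p)) :
          Matrix (Fin 2) (Fin 2) (ZMod p)) v = w := by
    intro v w hv hw
    obtain ⟨h₁, hh₁, h₁e⟩ := htr v hv
    obtain ⟨h₂, hh₂, h₂e⟩ := htr w hw
    refine ⟨⟨h₂ * h₁⁻¹, Subgroup.mul_mem _ hh₂ (Subgroup.inv_mem _ hh₁)⟩, ?_, ?_⟩
    · simp only
      rw [gl_mul_mulVec, ← h₁e, gl_inv_mulVec, h₂e]
    · rintro ⟨y, hy⟩ hyv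
      simp only at hyv
      apply Subtype.ext
      simp only
      have hfix := hfpf (h₁ * h₂⁻¹ * y)
        (Subgroup.mul_mem _ (Subgroup.mul_mem _ hh₁ (Subgroup.inv_mem _ hh₂)) hy) v hv ?_
      · have : h₁ * h₂⁻¹ * y = 1 := hfix
        have h3 : y = (h₁ * h₂⁻¹)⁻¹ := eq_inv_of_mul_eq_one_right this
        rw [h3]
        simp
      · rw [gl_mul_mulVec, gl_mul_mulVec, hyv, ← h₂e, gl_inv_mulVec, h₁e]
  refine ⟨?_, hreg⟩
  -- the bijection to non-zero vectors
  let f : Subgroup.closure S → {v : Fin 2 → ZMod p // v ≠ 0} := fun h =>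
    ⟨((h : Matrix.GeneralLinearGroup (Fin 2) (ZMod p)) : Matrix (Fin 2) (Fin 2) (ZMod p)).mulVec (vecOf p p), by
      intro h0
      have h1 := gl_inv_mulVec (h : Matrix.GeneralLinearGroup (Fin 2) (ZMod p)) (vecOf p p)
      rw [h0, Matrix.mulVec_zero] at h1
      exact he h1.symm⟩
  have hf : Function.Bijective f := by
    constructor
    · intro x y hxy
      have h1 : ((x : Matrix.GeneralLinearGroup (Fin 2) (ZMod p)) : Matrix (Fin 2) (Fin 2) (ZMod p)).mulVec (vecOf p p)
          = ((y : Matrix.GeneralLinearGroup (Fin 2) (ZMod p)) : Matrix (Fin 2) (Fin 2) (ZMod p)).mulVec (vecOf p p) :=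
        congrArg Subtype.val hxy
      exact (hreg (vecOf p p) (((y : Matrix.GeneralLinearGroup (Fin 2) (ZMod p)) : Matrix (Fin 2) (Fin 2) (ZMod p)).mulVec (vecOf p p)) he (f y).2).unique h1 rfl
    · rintro ⟨w, hw⟩
      obtain ⟨h, hh, hhe⟩ := htr w hw
      exact ⟨⟨h, hh⟩, Subtype.ext hhe⟩
  rw [Nat.card_eq_of_bijective f hf, ← hN]
  rw [Nat.card_eq_fintype_card, Fintype.card_subtype_compl]
  simp [ZMod.card]
  ring_nf

end main

end Cfsg.Agent.Lib.GL2Reg
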