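import Mathlib
import Cfsg.Agent.Lib.TvGL

/-!
# Monomial elements, pseudoreflections and transvection relations in `GL(ι, F)`
-/

set_option autoImplicit false
set_option linter.unusedSectionVars false
set_option linter.unusedVariables false

namespace Cfsg.Agent.Lib.GLMon

open Matrix Cfsg.Geo Cfsg.Agent.Lib.TvGL
open scoped MatrixGroups

variable {ι : Type} [Fintype ι] [DecidableEq ι] {F : Type*} [Field F]

/-- The monomial element `e_a ↦ s a • e_{π a}`. -/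
def mon (π : Equiv.Perm ι) (s : ι → Fˣ) : GL ι F where
  val := Matrix.of fun b a => if b = π a then (s a : F) else 0
  inv := Matrix.of fun b a => if a = π b then (((s b)⁻¹ : Fˣ) : F) else 0
  val_inv := by
    ext i j
    simp only [Matrix.mul_apply, Matrix.of_apply, Matrix.one_apply]
    rw [Finset.sum_eq_single (π.symm i)]
    · by_cases h : i = j
      · subst h; simp
      · have : ¬ j = i := fun h' => h h'.symm
        simp [h, this]
    · intro k _ hk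
      have : ¬ i = π k := by
        intro h
        apply hk
        rw [h]; simp
      simp [this]
    · simp
  inv_val := by
    ext i j
    simp only [Matrix.mul_apply, Matrix.of_apply, Matrix.one_apply]
    rw [Finset.sum_eq_single (π i)]
    · by_cases h : i = j
      · subst h; simp
      · have : ¬ π i = π j := fun h' => h (π.injective h')
        simp [h, this]
    · intro k _ hk
      simp [hk]
    · simp

theorem mon_apply (π : Equiv.Perm ι) (s : ι → Fˣ) (b a : ι) :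
    ((mon π s : GL ι F) : Matrix ι ι F) b a = if b = π a then (s a : F) else 0 := rfl

theorem mon_inv_apply (π : Equiv.Perm ι) (s : ι → Fˣ) (b a : ι) :
    (((mon π s)⁻¹ : GL ι F) : Matrix ι ι F) b a =
      if a = π b then (((s b)⁻¹ : Fˣ) : F) else 0 := rfl

theorem mon_mulVec (π : Equiv.Perm ι) (s : ι → Fˣ) (v : ι → F) (b : ι) :
    (((mon π s : GL ι F) : Matrix ι ι F) *ᵥ v) b = (s (π.symm b) : F) * v (π.symm b) := by
  simp only [Matrix.mulVec, dotProduct, mon_apply]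
  rw [Finset.sum_eq_single (π.symm b)]
  · simp
  · intro k _ hk
    have : ¬ b = π k := by
      intro h
      apply hk
      rw [h]; simp
    simp [this]
  · simp

theorem mon_inv_mulVec (π : Equiv.Perm ι) (s : ι → Fˣ) (v : ι → F) (b : ι) :
    ((((mon π s)⁻¹ : GL ι F) : Matrix ι ι F) *ᵥ v) b = (((s b)⁻¹ : Fˣ) : F) * v (π b) := by
  simp only [Matrix.mulVec, dotProduct, mon_inv_apply]
  rw [Finset.sum_eq_single (π b)]
  · simp
  · intro k _ hk
    simp [hk]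
  · simp

theorem vecMul_mon (π : Equiv.Perm ι) (s : ι → Fˣ) (w : ι → F) (a : ι) :
    (w ᵥ* ((mon π s : GL ι F) : Matrix ι ι F)) a = w (π a) * (s a : F) := by
  simp only [Matrix.vecMul, dotProduct, mon_apply]
  rw [Finset.sum_eq_single (π a)]
  · simp
  · intro k _ hk
    simp [hk]
  · simp

theorem vecMul_mon_inv (π : Equiv.Perm ι) (s : ι → Fˣ) (w : ι → F) (a : ι) :
    (w ᵥ* (((mon π s)⁻¹ : GL ι F) : Matrix ι ι F)) a =
      w (π.symm a) * (((s (π.symm a))⁻¹ : Fˣ) : F) := by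
  simp only [Matrix.vecMul, dotProduct, mon_inv_apply]
  rw [Finset.sum_eq_single (π.symm a)]
  · simp
  · intro k _ hk
    have : ¬ a = π k := by
      intro h
      apply hk
      rw [h]; simp
    simp [this]
  · simp

theorem det_mon (π : Equiv.Perm ι) (s : ι → Fˣ) :
    ((mon π s : GL ι F) : Matrix ι ι F).det =
      ((Equiv.Perm.sign π : ℤˣ) : ℤ) * ∏ a, (s a : F) := by
  have e : ((mon π s : GL ι F) : Matrix ι ι F) =
      (Matrix.diagonal fun a => (s a : F)).submatrix π.symm id := by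
    ext b a
    rw [mon_apply, Matrix.submatrix_apply, Matrix.diagonal_apply]
    simp only [id]
    by_cases h : b = π a
    · subst h; simp
    · have : ¬ π.symm b = a := by
        intro h'
        apply h
        rw [← h']; simp
      simp [h, this]
  rw [e, Matrix.det_permute, Matrix.det_diagonal]
  simp

theorem mon_mem_SL (π : Equiv.Perm ι) (s : ι → Fˣ)
    (h : (((Equiv.Perm.sign π : ℤˣ) : ℤ) : F) * ∏ a, (s a : F) = 1) :
    mon π s ∈ specialLinear ι F := by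
  rw [mem_specialLinear_iff, det_mon]
  exact h

/-- Diagonal elements. -/
abbrev dg (s : ι → Fˣ) : GL ι F := mon 1 s

theorem dg_apply (s : ι → Fˣ) (b a : ι) :
    ((dg s : GL ι F) : Matrix ι ι F) b a = if b = a then (s a : F) else 0 := rfl

theorem dg_mulVec (s : ι → Fˣ) (v : ι → F) (b : ι) :
    (((dg s : GL ι F) : Matrix ι ι F) *ᵥ v) b = (s b : F) * v b := by
  rw [mon_mulVec]; rfl

theorem dg_inv_mulVec (s : ι → Fˣ) (v : ι → F) (b : ι) :
    ((((dg s)⁻¹ : GL ι F) : Matrix ι ι F) *ᵥ v) b = (((s b)⁻¹ : Fˣ) : F) * v b := by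
  rw [mon_inv_mulVec]; rfl

theorem vecMul_dg (s : ι → Fˣ) (w : ι → F) (a : ι) :
    (w ᵥ* ((dg s : GL ι F) : Matrix ι ι F)) a = w a * (s a : F) := by
  rw [vecMul_mon]; rfl

theorem vecMul_dg_inv (s : ι → Fˣ) (w : ι → F) (a : ι) :
    (w ᵥ* (((dg s)⁻¹ : GL ι F) : Matrix ι ι F)) a = w a * (((s a)⁻¹ : Fˣ) : F) := by
  rw [vecMul_mon_inv]; rfl

theorem dg_mem_SL (s : ι → Fˣ) (h : ∏ a, s a = 1) : dg s ∈ specialLinear ι F := by
  apply mon_mem_SL
  have : ∏ a, (s a : F) = 1 := by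
    have := congrArg (Units.val) h
    simpa using this
  rw [this]
  simp

/-- `tt a b u`: the function `u` at `a`, `u⁻¹` at `b`, `1` elsewhere. -/
def tt (a b : ι) (u : Fˣ) : ι → Fˣ := fun d => if d = a then u else if d = b then u⁻¹ else 1

theorem tt_left (a b : ι) (u : Fˣ) : tt a b u a = u := by simp [tt]

theorem tt_right {a b : ι} (h : a ≠ b) (u : Fˣ) : tt a b u b = u⁻¹ := by
  simp [tt, h.symm]

theorem tt_other {a b d : ι} (u : Fˣ) (h1 : d ≠ a) (h2 : d ≠ b) : tt a b u d = 1 := by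
  simp [tt, h1, h2]

theorem prod_tt {a b : ι} (h : a ≠ b) (u : Fˣ) : ∏ d, tt a b u d = 1 := by
  rw [← Finset.prod_erase_mul _ _ (Finset.mem_univ a),
    ← Finset.prod_erase_mul _ _ (Finset.mem_erase.mpr ⟨h.symm, Finset.mem_univ b⟩)]
  rw [tt_left, tt_right h, Finset.prod_eq_one]
  · simp
  · intro d hd
    simp only [Finset.mem_erase] at hd
    exact tt_other u hd.2.1 hd.1

/-! ### Pseudoreflections -/

theorem vvv_mul {u φ : ι → F} (h : φ ⬝ᵥ u = 1) :
    vecMulVec u φ * vecMulVec u φ = vecMulVec u φ := by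
  rw [vecMulVec_mul_self, h, one_smul]

/-- The pseudoreflection `1 + (μ - 1) u φᵀ` where `φ ⬝ u = 1`. -/
def rf (u φ : ι → F) (h : φ ⬝ᵥ u = 1) (μ : Fˣ) : GL ι F where
  val := 1 + ((μ : F) - 1) • vecMulVec u φ
  inv := 1 + ((((μ⁻¹ : Fˣ) : F)) - 1) • vecMulVec u φ
  val_inv := by
    have e : (μ : F) * ((μ⁻¹ : Fˣ) : F) = 1 := by simp
    have : (1 + ((μ : F) - 1) • vecMulVec u φ) * (1 + (((μ⁻¹ : Fˣ) : F) - 1) • vecMulVec u φ) =
        1 + (((μ : F) - 1) + (((μ⁻¹ : Fˣ) : F) - 1) + ((μ : F) - 1) * (((μ⁻¹ : Fˣ) : F) - 1)) •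
          vecMulVec u φ := by
      rw [add_mul, mul_add, mul_add, mul_one, one_mul, mul_one, smul_mul_smul_comm, vvv_mul h,
        add_smul, add_smul]
      abel
    rw [this]
    have e2 : ((μ : F) - 1) + (((μ⁻¹ : Fˣ) : F) - 1) + ((μ : F) - 1) * (((μ⁻¹ : Fˣ) : F) - 1) = 0 := by
      linear_combination e
    rw [e2]
    simp
  inv_val := by
    have e : (μ : F) * ((μ⁻¹ : Fˣ) : F) = 1 := by simp
    have : (1 + (((μ⁻¹ : Fˣ) : F) - 1) • vecMulVec u φ) * (1 + ((μ : F) - 1) • vecMulVec u φ) =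
        1 + (((μ : F) - 1) + (((μ⁻¹ : Fˣ) : F) - 1) + ((μ : F) - 1) * (((μ⁻¹ : Fˣ) : F) - 1)) •
          vecMulVec u φ := by
      rw [add_mul, mul_add, mul_add, mul_one, one_mul, mul_one, smul_mul_smul_comm, vvv_mul h,
        add_smul, add_smul, mul_comm (((μ⁻¹ : Fˣ) : F) - 1) ((μ : F) - 1)]
      abel
    rw [this]
    have e2 : ((μ : F) - 1) + (((μ⁻¹ : Fˣ) : F) - 1) + ((μ : F) - 1) * (((μ⁻¹ : Fˣ) : F) - 1) = 0 := by
      linear_combination e
    rw [e2]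
    simp

theorem rf_val (u φ : ι → F) (h : φ ⬝ᵥ u = 1) (μ : Fˣ) :
    ((rf u φ h μ : GL ι F) : Matrix ι ι F) = 1 + ((μ : F) - 1) • vecMulVec u φ := rfl

theorem rf_inv_val (u φ : ι → F) (h : φ ⬝ᵥ u = 1) (μ : Fˣ) :
    (((rf u φ h μ)⁻¹ : GL ι F) : Matrix ι ι F) = 1 + (((μ⁻¹ : Fˣ) : F) - 1) • vecMulVec u φ := rfl

theorem rf_mulVec (u φ : ι → F) (h : φ ⬝ᵥ u = 1) (μ : Fˣ) (v : ι → F) :
    ((rf u φ h μ : GL ι F) : Matrix ι ι F) *ᵥ v = v + (((μ : F) - 1) * (φ ⬝ᵥ v)) • u := by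
  rw [rf_val, add_mulVec, one_mulVec, smul_mulVec, vecMulVec_mulVec', smul_smul]

theorem vecMul_vvv (u φ w : ι → F) : w ᵥ* vecMulVec u φ = (w ⬝ᵥ u) • φ := by
  ext j
  simp only [vecMul, vecMulVec_apply, dotProduct, Pi.smul_apply, smul_eq_mul, Finset.sum_mul]
  refine Finset.sum_congr rfl fun k _ => ?_
  ring

theorem vecMul_rf_inv (u φ : ι → F) (h : φ ⬝ᵥ u = 1) (μ : Fˣ) (w : ι → F) :
    w ᵥ* (((rf u φ h μ)⁻¹ : GL ι F) : Matrix ι ι F) =
      w + ((((μ⁻¹ : Fˣ) : F) - 1) * (w ⬝ᵥ u)) • φ := by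
  rw [rf_inv_val, vecMul_add, vecMul_one, vecMul_smul, vecMul_vvv, smul_smul]

/-- Conjugation of a pseudoreflection. -/
theorem conj_rf (g : GL ι F) (u φ u' φ' : ι → F) (h : φ ⬝ᵥ u = 1) (h' : φ' ⬝ᵥ u' = 1) (μ : Fˣ)
    (hx : (g : Matrix ι ι F) *ᵥ u = u') (hy : φ' ᵥ* (g : Matrix ι ι F) = φ) :
    g * rf u φ h μ * g⁻¹ = rf u' φ' h' μ := by
  apply Units.ext
  rw [Units.val_mul, Units.val_mul, rf_val, rf_val, mul_add, add_mul, mul_one]
  have hg : (g : Matrix ι ι F) * ((g⁻¹ : GL ι F) : Matrix ι ι F) = 1 := by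
    rw [← Units.val_mul, mul_inv_cancel, Units.val_one]
  rw [hg]
  congr 1
  have hy' : φ ᵥ* ((g⁻¹ : GL ι F) : Matrix ι ι F) = φ' := by
    rw [← hy, vecMul_vecMul, hg, vecMul_one]
  rw [← hy', ← hx, Matrix.mul_smul, Matrix.smul_mul, Matrix.mul_vecMulVec, Matrix.vecMulVec_mul]

theorem vvv_sub_left (u u' φ : ι → F) : vecMulVec (u' - u) φ = vecMulVec u' φ - vecMulVec u φ := by
  ext i j; simp [vecMulVec_apply, sub_mul]

theorem vvv_sub_right (u φ φ' : ι → F) : vecMulVec u (φ' - φ) = vecMulVec u φ' - vecMulVec u φ := by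
  ext i j; simp [vecMulVec_apply, mul_sub]

theorem rf_mul_center {u u' φ : ι → F} (h : φ ⬝ᵥ u = 1) (h' : φ ⬝ᵥ u' = 1) (μ : Fˣ)
    (h'' : φ ⬝ᵥ ((1 - ((μ⁻¹ : Fˣ) : F)) • (u' - u)) = 0) :
    rf u' φ h' μ * (rf u φ h μ)⁻¹ = tv ((1 - ((μ⁻¹ : Fˣ) : F)) • (u' - u)) φ h'' := by
  apply Units.ext
  have e : (μ : F) * ((μ⁻¹ : Fˣ) : F) = 1 := by simp
  rw [Units.val_mul, rf_val, rf_inv_val, tv_val, vecMulVec_smul_left, vvv_sub_left]
  have hAB : vecMulVec u' φ * vecMulVec u φ = vecMulVec u' φ := by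
    rw [vecMulVec_mul_self, h, one_smul]
  generalize vecMulVec u' φ = A at *
  generalize vecMulVec u φ = B at *
  generalize hm : ((μ⁻¹ : Fˣ) : F) = b at *
  generalize hm' : (μ : F) = a at *
  have e1 : (1 + (a - 1) • A) * (1 + (b - 1) • B) =
      1 + (a - 1) • A + (b - 1) • B + ((a - 1) * (b - 1)) • (A * B) := by
    rw [add_mul, mul_add, mul_add, mul_one, one_mul, mul_one, smul_mul_smul_comm]
    abel
  rw [e1, hAB]
  have e2 : (a - 1) + (a - 1) * (b - 1) = 1 - b := by linear_combination e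
  have e3 : (a - 1) • A + ((a - 1) * (b - 1)) • A = (1 - b) • A := by rw [← add_smul, e2]
  calc 1 + (a - 1) • A + (b - 1) • B + ((a - 1) * (b - 1)) • A
      = 1 + ((a - 1) • A + ((a - 1) * (b - 1)) • A) + (b - 1) • B := by abel
    _ = 1 + (1 - b) • (A - B) := by rw [e3]; module

theorem rf_mul_axis {u φ φ' : ι → F} (h : φ ⬝ᵥ u = 1) (h' : φ' ⬝ᵥ u = 1) (μ : Fˣ)
    (h'' : (φ' - φ) ⬝ᵥ (((μ : F) - 1) • u) = 0) :
    rf u φ' h' μ * (rf u φ h μ)⁻¹ = tv (((μ : F) - 1) • u) (φ' - φ) h'' := by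
  apply Units.ext
  have e : (μ : F) * ((μ⁻¹ : Fˣ) : F) = 1 := by simp
  rw [Units.val_mul, rf_val, rf_inv_val, tv_val, vecMulVec_smul_left, vvv_sub_right]
  have hAB : vecMulVec u φ' * vecMulVec u φ = vecMulVec u φ := by
    rw [vecMulVec_mul_self, h', one_smul]
  generalize vecMulVec u φ' = A at *
  generalize vecMulVec u φ = B at *
  generalize hm : ((μ⁻¹ : Fˣ) : F) = b at *
  generalize hm' : (μ : F) = a at *
  have e1 : (1 + (a - 1) • A) * (1 + (b - 1) • B) =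
      1 + (a - 1) • A + (b - 1) • B + ((a - 1) * (b - 1)) • (A * B) := by
    rw [add_mul, mul_add, mul_add, mul_one, one_mul, mul_one, smul_mul_smul_comm]
    abel
  rw [e1, hAB]
  have e2 : (b - 1) + (a - 1) * (b - 1) = 1 - a := by linear_combination e
  have e3 : (b - 1) • B + ((a - 1) * (b - 1)) • B = (1 - a) • B := by rw [← add_smul, e2]
  calc 1 + (a - 1) • A + (b - 1) • B + ((a - 1) * (b - 1)) • B
      = 1 + (a - 1) • A + ((b - 1) • B + ((a - 1) * (b - 1)) • B) := by abel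
    _ = 1 + (a - 1) • (A - B) := by rw [e3]; module

/-! ### The relation `Gam` -/

/-- `M` contains the transvection with data `(x, y)`. -/
def Gam (M : Subgroup (GL ι F)) (x y : ι → F) : Prop := ∃ h : y ⬝ᵥ x = 0, tv x y h ∈ M

variable {M : Subgroup (GL ι F)}

theorem Gam.dot {x y : ι → F} (h : Gam M x y) : y ⬝ᵥ x = 0 := h.1

theorem gam_conj {x y : ι → F} (hG : Gam M x y) {g : GL ι F} (hg : g ∈ M) :
    Gam M ((g : Matrix ι ι F) *ᵥ x) (y ᵥ* ((g⁻¹ : GL ι F) : Matrix ι ι F)) := by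
  obtain ⟨h, ht⟩ := hG
  have hgi : ((g⁻¹ : GL ι F) : Matrix ι ι F) * (g : Matrix ι ι F) = 1 := by
    rw [← Units.val_mul, inv_mul_cancel, Units.val_one]
  have h' : (y ᵥ* ((g⁻¹ : GL ι F) : Matrix ι ι F)) ⬝ᵥ ((g : Matrix ι ι F) *ᵥ x) = 0 := by
    rw [← dotProduct_mulVec, mulVec_mulVec, hgi, one_mulVec]
    exact h
  refine ⟨h', ?_⟩
  have e := conj_tv g x y _ _ h h' rfl (by rw [vecMul_vecMul, hgi, vecMul_one])
  rw [← e]
  exact M.mul_mem (M.mul_mem hg ht) (M.inv_mem hg)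

theorem gam_add_cov {x y y' : ι → F} (h1 : Gam M x y) (h2 : Gam M x y') : Gam M x (y + y') := by
  obtain ⟨h, ht⟩ := h1
  obtain ⟨h', ht'⟩ := h2
  have h'' : (y + y') ⬝ᵥ x = 0 := by rw [add_dotProduct, h, h', add_zero]
  exact ⟨h'', tv_mul_same_center h h' h'' ▸ M.mul_mem ht ht'⟩

theorem gam_add_cen {x x' y : ι → F} (h1 : Gam M x y) (h2 : Gam M x' y) : Gam M (x + x') y := by
  obtain ⟨h, ht⟩ := h1
  obtain ⟨h', ht'⟩ := h2
  have h'' : y ⬝ᵥ (x + x') = 0 := by rw [dotProduct_add, h, h', add_zero]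
  exact ⟨h'', tv_mul_same_axis h h' h'' ▸ M.mul_mem ht ht'⟩

theorem gam_neg_cen {x y : ι → F} (h1 : Gam M x y) : Gam M (-x) y := by
  obtain ⟨h, ht⟩ := h1
  exact ⟨neg_dot h, tv_inv x y h ▸ M.inv_mem ht⟩

theorem gam_smul_comm {x y : ι → F} {c : F} (h : Gam M (c • x) y) : Gam M x (c • y) := by
  obtain ⟨h0, ht⟩ := h
  have h1 : (c • y) ⬝ᵥ x = 0 := by
    rw [smul_dotProduct]
    rwa [dotProduct_smul] at h0
  refine ⟨h1, ?_⟩
  have e : tv x (c • y) h1 = tv (c • x) y h0 :=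
    tv_ext (by rw [vecMulVec_smul_left, vecMulVec_smul_right])
  rw [e]
  exact ht

theorem gam_smul_comm' {x y : ι → F} {c : F} (h : Gam M x (c • y)) : Gam M (c • x) y := by
  obtain ⟨h0, ht⟩ := h
  have h1 : y ⬝ᵥ (c • x) = 0 := by
    rw [dotProduct_smul]
    rwa [smul_dotProduct] at h0
  refine ⟨h1, ?_⟩
  have e : tv (c • x) y h1 = tv x (c • y) h0 :=
    tv_ext (by rw [vecMulVec_smul_left, vecMulVec_smul_right])
  rw [e]
  exact ht

theorem gam_neg_cov {x y : ι → F} (h1 : Gam M x y) : Gam M x (-y) := by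
  have h2 : Gam M ((-1 : F) • x) y := by simpa using gam_neg_cen h1
  simpa using gam_smul_comm h2

theorem gam_sub_cov {x y y' : ι → F} (h1 : Gam M x y) (h2 : Gam M x y') : Gam M x (y - y') := by
  simpa [sub_eq_add_neg] using gam_add_cov h1 (gam_neg_cov h2)

theorem gam_sub_cen {x x' y : ι → F} (h1 : Gam M x y) (h2 : Gam M x' y) : Gam M (x - x') y := by
  simpa [sub_eq_add_neg] using gam_add_cen h1 (gam_neg_cen h2)

theorem gam_congr {x y x' y' : ι → F} (h : Gam M x y) (hx : x = x') (hy : y = y') : Gam M x' y' :=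
  hx ▸ hy ▸ h

/-! ### Pseudoreflection families in `M` -/

/-- `M` contains all pseudoreflections with data `(u, φ)`. -/
def RF (M : Subgroup (GL ι F)) (u φ : ι → F) : Prop :=
  ∃ h : φ ⬝ᵥ u = 1, ∀ μ : Fˣ, rf u φ h μ ∈ M

theorem RF.dot {u φ : ι → F} (h : RF M u φ) : φ ⬝ᵥ u = 1 := h.1

theorem rf_conj {u φ : ι → F} (hR : RF M u φ) {g : GL ι F} (hg : g ∈ M) :
    RF M ((g : Matrix ι ι F) *ᵥ u) (φ ᵥ* ((g⁻¹ : GL ι F) : Matrix ι ι F)) := by
  obtain ⟨h, ht⟩ := hR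
  have hgi : ((g⁻¹ : GL ι F) : Matrix ι ι F) * (g : Matrix ι ι F) = 1 := by
    rw [← Units.val_mul, inv_mul_cancel, Units.val_one]
  have h' : (φ ᵥ* ((g⁻¹ : GL ι F) : Matrix ι ι F)) ⬝ᵥ ((g : Matrix ι ι F) *ᵥ u) = 1 := by
    rw [← dotProduct_mulVec, mulVec_mulVec, hgi, one_mulVec]
    exact h
  refine ⟨h', fun μ => ?_⟩
  have e := conj_rf g u φ _ _ h h' μ rfl (by rw [vecMul_vecMul, hgi, vecMul_one])
  rw [← e]
  exact M.mul_mem (M.mul_mem hg (ht μ)) (M.inv_mem hg)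

theorem rf_congr {u φ u' φ' : ι → F} (h : RF M u φ) (hu : u = u') (hφ : φ = φ') : RF M u' φ' :=
  hu ▸ hφ ▸ h

/-! ### Block preserving elements -/

section block

variable {κ : Type} [Fintype κ] [DecidableEq κ]

/-- `x` permutes the coordinate blocks given by `c`. -/
def BlockPres (c : ι → κ) (x : GL ι F) : Prop :=
  ∃ σ : Equiv.Perm κ, ∀ a b, c b ≠ σ (c a) → (x : Matrix ι ι F) b a = 0

theorem mul_inv_val (x : GL ι F) :
    (x : Matrix ι ι F) * ((x⁻¹ : GL ι F) : Matrix ι ι F) = 1 := by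
  rw [← Units.val_mul, mul_inv_cancel, Units.val_one]

theorem inv_mul_val (x : GL ι F) :
    ((x⁻¹ : GL ι F) : Matrix ι ι F) * (x : Matrix ι ι F) = 1 := by
  rw [← Units.val_mul, inv_mul_cancel, Units.val_one]

theorem row_ne_zero (x : GL ι F) (k : ι) : ∃ a, (x : Matrix ι ι F) k a ≠ 0 := by
  by_contra h
  push Not at h
  have := congrFun (congrFun (mul_inv_val x) k) k
  rw [Matrix.mul_apply, Matrix.one_apply_eq] at this
  simp [h] at this

theorem col_ne_zero (x : GL ι F) (a : ι) : ∃ k, (x : Matrix ι ι F) k a ≠ 0 := by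
  by_contra h
  push Not at h
  have := congrFun (congrFun (inv_mul_val x) a) a
  rw [Matrix.mul_apply, Matrix.one_apply_eq] at this
  simp [h] at this

/-- A map on blocks suffices. -/
theorem blockPres_of_fun {c : ι → κ} (hc : Function.Surjective c) (x : GL ι F) (f : κ → κ)
    (h : ∀ a b, c b ≠ f (c a) → (x : Matrix ι ι F) b a = 0) : BlockPres c x := by
  have hs : Function.Surjective f := by
    intro j
    by_contra hj
    push Not at hj
    obtain ⟨k, hk⟩ := hc j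
    obtain ⟨a, ha⟩ := row_ne_zero x k
    exact ha (h a k (by rw [hk]; exact (hj _).symm))
  have hb : Function.Bijective f := Finite.surjective_iff_bijective.mp hs
  exact ⟨Equiv.ofBijective f hb, fun a b hab => h a b (by simpa using hab)⟩

/-- `x` is monomial. -/
def IsMono (x : GL ι F) : Prop := ∃ π : Equiv.Perm ι, ∀ a b, b ≠ π a → (x : Matrix ι ι F) b a = 0

theorem isMono_iff_blockPres (x : GL ι F) : IsMono x ↔ BlockPres (id : ι → ι) x := Iff.rfl

theorem isMono_of_fun (x : GL ι F) (f : ι → ι) (h : ∀ a b, b ≠ f a → (x : Matrix ι ι F) b a = 0) :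
    IsMono x :=
  blockPres_of_fun (c := (id : ι → ι)) Function.surjective_id x f h

theorem isMono_mon (π : Equiv.Perm ι) (s : ι → Fˣ) : IsMono (mon π s : GL ι F) :=
  ⟨π, fun a b h => by rw [mon_apply, if_neg h]⟩

theorem eq_mon_of_isMono {x : GL ι F} {π : Equiv.Perm ι}
    (h : ∀ a b, b ≠ π a → (x : Matrix ι ι F) b a = 0) :
    ∃ s : ι → Fˣ, x = mon π s ∧ ∀ a, (s a : F) = (x : Matrix ι ι F) (π a) a := by
  have hne : ∀ a, (x : Matrix ι ι F) (π a) a ≠ 0 := by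
    intro a
    obtain ⟨k, hk⟩ := col_ne_zero x a
    by_cases e : k = π a
    · rwa [e] at hk
    · exact absurd (h a k e) hk
  refine ⟨fun a => Units.mk0 _ (hne a), ?_, fun a => rfl⟩
  apply Units.ext
  ext b a
  rw [mon_apply]
  by_cases e : b = π a
  · subst e; simp
  · rw [if_neg e]; exact h a b e

theorem isMono_inv {x : GL ι F} (h : IsMono x) : IsMono x⁻¹ := by
  obtain ⟨π, hπ⟩ := h
  obtain ⟨s, rfl, -⟩ := eq_mon_of_isMono hπ
  refine ⟨π.symm, fun a b hb => ?_⟩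
  rw [mon_inv_apply, if_neg]
  intro e
  apply hb
  rw [e]; simp

theorem isMono_mul {x y : GL ι F} (hx : IsMono x) (hy : IsMono y) : IsMono (x * y) := by
  obtain ⟨π, hπ⟩ := hx
  obtain ⟨π', hπ'⟩ := hy
  refine isMono_of_fun _ (fun a => π (π' a)) fun a b hb => ?_
  rw [Units.val_mul, Matrix.mul_apply]
  refine Finset.sum_eq_zero fun k _ => ?_
  by_cases e : k = π' a
  · subst e
    rw [hπ _ _ hb, zero_mul]
  · rw [hπ' _ _ e, mul_zero]

theorem exists_perm_pair {α : Type} [DecidableEq α] {a b a' b' : α} (hab : a ≠ b) (hab' : a' ≠ b') :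
    ∃ π : Equiv.Perm α, π a = a' ∧ π b = b' := by
  let σ : Equiv.Perm α := Equiv.swap a a'
  have h1 : σ a = a' := Equiv.swap_apply_left a a'
  have h2 : σ b ≠ a' := by
    intro h
    apply hab
    apply σ.injective
    rw [h1, h]
  refine ⟨Equiv.swap (σ b) b' * σ, ?_, ?_⟩
  · rw [Equiv.Perm.mul_apply, h1]
    exact Equiv.swap_apply_of_ne_of_ne h2.symm hab'
  · rw [Equiv.Perm.mul_apply]
    exact Equiv.swap_apply_left _ _

end block

end Cfsg.Agent.Lib.GLMon
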