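import Mathlib
import Cfsg.Agent.Lib.GLMon

/-!
# Overgroups of the full monomial group in `GL(ι, F)`, `|F| ≥ 5`

A subgroup of `GL(ι, F)` containing all diagonal and permutation matrices and a non-monomial element
contains all elementary transvections.
-/

set_option autoImplicit false
set_option linter.unusedSectionVars false
set_option linter.unusedVariables false

namespace Cfsg.Agent.Lib.GLMonFull

open Matrix Cfsg.Geo Cfsg.Agent.Lib.TvGL Cfsg.Agent.Lib.GLMon
open scoped MatrixGroups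

variable {ι : Type} [Fintype ι] [DecidableEq ι] {F : Type*} [Field F]

/-- `σ` at `a`, `1` elsewhere. -/
def ds (a : ι) (σ : Fˣ) : ι → Fˣ := fun d => if d = a then σ else 1

theorem ds_same (a : ι) (σ : Fˣ) : ds a σ a = σ := by simp [ds]

theorem ds_ne {a d : ι} (σ : Fˣ) (h : d ≠ a) : ds a σ d = 1 := by simp [ds, h]

theorem exists_three [Fintype F] (hq : 5 ≤ Fintype.card F) :
    ∃ x y z : F, x ≠ 0 ∧ x ≠ 1 ∧ y ≠ 0 ∧ y ≠ 1 ∧ z ≠ 0 ∧ z ≠ 1 ∧ x ≠ y ∧ x ≠ z ∧ y ≠ z := by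
  classical
  have : 2 < ((Finset.univ : Finset F) \ {0, 1}).card := by
    have h := Finset.le_card_sdiff ({0, 1} : Finset F) Finset.univ
    have h2 : ({0, 1} : Finset F).card ≤ 2 := Finset.card_le_two
    rw [Finset.card_univ] at h
    omega
  obtain ⟨x, y, z, hx, hy, hz, hxy, hxz, hyz⟩ := Finset.two_lt_card_iff.mp this
  simp only [Finset.mem_sdiff, Finset.mem_univ, true_and, Finset.mem_insert, Finset.mem_singleton,
    not_or] at hx hy hz
  exact ⟨x, y, z, hx.1, hx.2, hy.1, hy.2, hz.1, hz.2, hxy, hxz, hyz⟩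

theorem exists_unit_ne_one [Fintype F] (hq : 5 ≤ Fintype.card F) : ∃ σ : Fˣ, (σ : F) ≠ 1 := by
  obtain ⟨x, -, -, hx0, hx1, -⟩ := exists_three hq
  exact ⟨Units.mk0 x hx0, hx1⟩

theorem exists_x [Fintype F] (hq : 5 ≤ Fintype.card F) {P : F} (hP : P ≠ 0) :
    ∃ x : F, x ≠ 0 ∧ x ≠ 1 ∧ P * (x - 1) ^ 2 + x ≠ 0 := by
  by_contra hcon
  push Not at hcon
  obtain ⟨x, y, z, hx0, hx1, hy0, hy1, hz0, hz1, hxy, hxz, hyz⟩ := exists_three hq
  have h1 := hcon x hx0 hx1
  have h2 := hcon y hy0 hy1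
  have h3 := hcon z hz0 hz1
  have h12 : P * (x + y - 2) + 1 = 0 := by
    have : (x - y) * (P * (x + y - 2) + 1) = 0 := by linear_combination h1 - h2
    exact (mul_eq_zero.mp this).resolve_left (sub_ne_zero.mpr hxy)
  have h13 : P * (x + z - 2) + 1 = 0 := by
    have : (x - z) * (P * (x + z - 2) + 1) = 0 := by linear_combination h1 - h3
    exact (mul_eq_zero.mp this).resolve_left (sub_ne_zero.mpr hxz)
  have : P * (y - z) = 0 := by linear_combination h12 - h13
  exact (mul_ne_zero hP (sub_ne_zero.mpr hyz)) this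

theorem smul_single' (c : F) (a : ι) (r : F) :
    c • (Pi.single a r : ι → F) = Pi.single a (c * r) := by
  ext d
  by_cases h : d = a
  · subst h; simp
  · simp [h]

theorem dg_single (s : ι → Fˣ) (a : ι) (r : F) :
    ((dg s : GL ι F) : Matrix ι ι F) *ᵥ Pi.single a r = Pi.single a ((s a : F) * r) := by
  ext d
  rw [dg_mulVec]
  by_cases h : d = a
  · subst h; simp
  · simp [h]

variable {M : Subgroup (GL ι F)}

/-- `M` contains an elementary transvection. -/
def Elem (M : Subgroup (GL ι F)) : Prop :=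
  ∃ a b : ι, a ≠ b ∧ ∃ r : F, r ≠ 0 ∧ Gam M (Pi.single a r) (Pi.single b 1)

section
variable [Fintype F] (hq : 5 ≤ Fintype.card F) (hd : ∀ s : ι → Fˣ, dg s ∈ M)
include hq hd

theorem elem_of_center {a : ι} {r : F} {φ : ι → F} (hr : r ≠ 0)
    (hG : Gam M (Pi.single a r) φ) (hφ : φ ≠ 0) : Elem M := by
  have h0 : φ a = 0 := by
    have := hG.dot
    rw [dotProduct_single] at this
    exact (mul_eq_zero.mp this).resolve_right hr
  obtain ⟨b, hb⟩ : ∃ b, φ b ≠ 0 := by
    by_contra h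
    push Not at h
    exact hφ (funext h)
  have hba : b ≠ a := fun e => hb (e ▸ h0)
  obtain ⟨σ, hσ⟩ := exists_unit_ne_one hq
  have h1 := gam_conj hG (hd (ds b σ))
  rw [dg_single, ds_ne σ hba.symm, Units.val_one, one_mul] at h1
  have h2 := gam_sub_cov hG h1
  have e : φ - φ ᵥ* (((dg (ds b σ))⁻¹ : GL ι F) : Matrix ι ι F) =
      ((1 - ((σ⁻¹ : Fˣ) : F)) * φ b) • (Pi.single b 1 : ι → F) := by
    ext d
    rw [Pi.sub_apply, vecMul_dg_inv]
    by_cases hdb : d = b
    · subst hdb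
      rw [ds_same]
      simp
      ring
    · rw [ds_ne σ hdb]
      simp [hdb]
  rw [e] at h2
  have hc : (1 - ((σ⁻¹ : Fˣ) : F)) * φ b ≠ 0 := by
    refine mul_ne_zero (sub_ne_zero.mpr ?_) hb
    intro h
    apply hσ
    have : σ⁻¹ = 1 := Units.ext (by rw [← h]; rfl)
    rw [inv_eq_one.mp this]; rfl
  have h3 := gam_smul_comm' h2
  rw [smul_single'] at h3
  exact ⟨a, b, hba.symm, _, mul_ne_zero hc hr, h3⟩

theorem elem_of_axis {b : ι} {r : F} {u : ι → F} (hr : r ≠ 0)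
    (hG : Gam M u (Pi.single b r)) (hu : u ≠ 0) : Elem M := by
  have h0 : u b = 0 := by
    have := hG.dot
    rw [single_dotProduct] at this
    exact (mul_eq_zero.mp this).resolve_left hr
  obtain ⟨a, ha⟩ : ∃ a, u a ≠ 0 := by
    by_contra h
    push Not at h
    exact hu (funext h)
  have hab : a ≠ b := fun e => ha (e ▸ h0)
  obtain ⟨σ, hσ⟩ := exists_unit_ne_one hq
  have h1 := gam_conj hG (hd (ds a σ))
  have e1 : (Pi.single b r : ι → F) ᵥ* (((dg (ds a σ))⁻¹ : GL ι F) : Matrix ι ι F) =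
      Pi.single b r := by
    ext d
    rw [vecMul_dg_inv]
    by_cases hdb : d = b
    · subst hdb
      rw [ds_ne σ hab.symm]
      simp
    · simp [hdb]
  rw [e1] at h1
  have h2 := gam_sub_cen h1 hG
  have e : ((dg (ds a σ) : GL ι F) : Matrix ι ι F) *ᵥ u - u =
      (Pi.single a (((σ : F) - 1) * u a) : ι → F) := by
    ext d
    rw [Pi.sub_apply, dg_mulVec]
    by_cases hda : d = a
    · subst hda
      rw [ds_same]
      simp
      ring
    · rw [ds_ne σ hda]
      simp [hda]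
  rw [e] at h2
  have hc : ((σ : F) - 1) * u a ≠ 0 := mul_ne_zero (sub_ne_zero.mpr hσ) ha
  have e2 : (Pi.single b r : ι → F) = r • (Pi.single b 1 : ι → F) := by
    rw [smul_single']; simp
  rw [e2] at h2
  have h3 := gam_smul_comm' h2
  rw [smul_single'] at h3
  exact ⟨a, b, hab, _, mul_ne_zero hr hc, h3⟩

theorem rf_ne_zero_left {u φ : ι → F} (h : RF M u φ) : u ≠ 0 := by
  rintro rfl
  have := h.dot
  simp at this

theorem rf_ne_zero_right {u φ : ι → F} (h : RF M u φ) : φ ≠ 0 := by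
  rintro rfl
  have := h.dot
  simp at this

theorem elem_of_mixed_center {u φ : ι → F} (hR : RF M u φ) {a : ι} (hua : u a ≠ 0) (hφa : φ a = 0) :
    Elem M := by
  obtain ⟨σ, hσ⟩ := exists_unit_ne_one hq
  have hR' := rf_conj hR (hd (ds a σ))
  have e1 : φ ᵥ* (((dg (ds a σ))⁻¹ : GL ι F) : Matrix ι ι F) = φ := by
    ext d
    rw [vecMul_dg_inv]
    by_cases hda : d = a
    · subst hda
      simp [hφa]
    · rw [ds_ne σ hda]
      simp
  rw [e1] at hR'
  obtain ⟨h, hm⟩ := hR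
  obtain ⟨h', hm'⟩ := hR'
  have e2 : ((dg (ds a σ) : GL ι F) : Matrix ι ι F) *ᵥ u - u =
      (Pi.single a (((σ : F) - 1) * u a) : ι → F) := by
    ext d
    rw [Pi.sub_apply, dg_mulVec]
    by_cases hda : d = a
    · subst hda
      rw [ds_same]
      simp
      ring
    · rw [ds_ne σ hda]
      simp [hda]
  obtain ⟨μ, hμ⟩ := exists_unit_ne_one hq
  have h'' : φ ⬝ᵥ ((1 - ((μ⁻¹ : Fˣ) : F)) • (((dg (ds a σ) : GL ι F) : Matrix ι ι F) *ᵥ u - u)) = 0 := by
    rw [dotProduct_smul, dotProduct_sub, h, h']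
    simp
  have e3 := rf_mul_center h h' μ h''
  have hmem : tv _ φ h'' ∈ M := e3 ▸ M.mul_mem (hm' μ) (M.inv_mem (hm μ))
  have hG : Gam M ((1 - ((μ⁻¹ : Fˣ) : F)) • (((dg (ds a σ) : GL ι F) : Matrix ι ι F) *ᵥ u - u)) φ :=
    ⟨h'', hmem⟩
  rw [e2, smul_single'] at hG
  refine elem_of_center hq hd ?_ hG ?_
  · refine mul_ne_zero (sub_ne_zero.mpr ?_) (mul_ne_zero (sub_ne_zero.mpr hσ) hua)
    intro e
    apply hμ
    have : μ⁻¹ = 1 := Units.ext (by rw [← e]; rfl)
    rw [inv_eq_one.mp this]; rfl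
  · rintro rfl
    simp at h

theorem elem_of_mixed_axis {u φ : ι → F} (hR : RF M u φ) {a : ι} (hφa : φ a ≠ 0) (hua : u a = 0) :
    Elem M := by
  obtain ⟨σ, hσ⟩ := exists_unit_ne_one hq
  have hR' := rf_conj hR (hd (ds a σ))
  have e1 : ((dg (ds a σ) : GL ι F) : Matrix ι ι F) *ᵥ u = u := by
    ext d
    rw [dg_mulVec]
    by_cases hda : d = a
    · subst hda
      simp [hua]
    · rw [ds_ne σ hda]
      simp
  rw [e1] at hR'
  obtain ⟨h, hm⟩ := hR
  obtain ⟨h', hm'⟩ := hR'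
  have e2 : φ ᵥ* (((dg (ds a σ))⁻¹ : GL ι F) : Matrix ι ι F) - φ =
      (Pi.single a ((((σ⁻¹ : Fˣ) : F) - 1) * φ a) : ι → F) := by
    ext d
    rw [Pi.sub_apply, vecMul_dg_inv]
    by_cases hda : d = a
    · subst hda
      rw [ds_same]
      simp
      ring
    · rw [ds_ne σ hda]
      simp [hda]
  obtain ⟨μ, hμ⟩ := exists_unit_ne_one hq
  have h'' : (φ ᵥ* (((dg (ds a σ))⁻¹ : GL ι F) : Matrix ι ι F) - φ) ⬝ᵥ (((μ : F) - 1) • u) = 0 := by
    rw [dotProduct_smul, sub_dotProduct, h, h']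
    simp
  have e3 := rf_mul_axis h h' μ h''
  have hmem : tv _ _ h'' ∈ M := e3 ▸ M.mul_mem (hm' μ) (M.inv_mem (hm μ))
  have hG : Gam M (((μ : F) - 1) • u) (φ ᵥ* (((dg (ds a σ))⁻¹ : GL ι F) : Matrix ι ι F) - φ) :=
    ⟨h'', hmem⟩
  rw [e2] at hG
  refine elem_of_axis hq hd ?_ hG ?_
  · refine mul_ne_zero (sub_ne_zero.mpr ?_) hφa
    intro e
    apply hσ
    have : σ⁻¹ = 1 := Units.ext (by rw [e]; rfl)
    rw [inv_eq_one.mp this]; rfl
  · intro e
    have hu0 : u = 0 := by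
      have := (smul_eq_zero.mp e).resolve_left (sub_ne_zero.mpr hμ)
      exact this
    subst hu0
    simp at h

theorem elem_of_key {u φ : ι → F} (hR : RF M u φ) (A : Finset ι)
    (hP : ∑ j ∈ A, u j * φ j ≠ 0) (hP2 : 2 * ∑ j ∈ A, u j * φ j ≠ 1)
    {j : ι} (hjA : j ∉ A) (huj : u j ≠ 0) (hφj : φ j ≠ 0) : Elem M := by
  obtain ⟨P, hPdef⟩ : ∃ P, P = ∑ j ∈ A, u j * φ j := ⟨_, rfl⟩
  rw [← hPdef] at hP hP2
  obtain ⟨x, hx0, hx1, hxP⟩ := exists_x hq hP
  let X : Fˣ := Units.mk0 x hx0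
  let s : ι → Fˣ := fun d => if d ∈ A then X else 1
  have hsj : s j = 1 := by simp [s, hjA]
  have hR' := rf_conj hR (hd s)
  obtain ⟨v, hv⟩ : ∃ v, v = ((dg s : GL ι F) : Matrix ι ι F) *ᵥ u := ⟨_, rfl⟩
  obtain ⟨ψ, hψ⟩ : ∃ ψ, ψ = φ ᵥ* (((dg s)⁻¹ : GL ι F) : Matrix ι ι F) := ⟨_, rfl⟩
  rw [← hv, ← hψ] at hR'
  have hvd : ∀ d, v d = (s d : F) * u d := fun d => by rw [hv, dg_mulVec]
  have hψd : ∀ d, ψ d = φ d * (((s d)⁻¹ : Fˣ) : F) := fun d => by rw [hψ, vecMul_dg_inv]
  have hvj : v j = u j := by rw [hvd, hsj]; simp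
  have hψj : ψ j = φ j := by rw [hψd, hsj]; simp
  have h1 : ∑ d, φ d * u d = 1 := hR.dot
  obtain ⟨κ, hκdef⟩ : ∃ κ, κ = ψ ⬝ᵥ u := ⟨_, rfl⟩
  obtain ⟨κ', hκ'def⟩ : ∃ κ', κ' = φ ⬝ᵥ v := ⟨_, rfl⟩
  have hκ : κ = 1 + (x⁻¹ - 1) * P := by
    have : ∀ d, ψ d * u d = φ d * u d + (if d ∈ A then (x⁻¹ - 1) * (u d * φ d) else 0) := by
      intro d
      rw [hψd]
      by_cases hdA : d ∈ A
      · simp [s, hdA, X]; ring
      · simp [s, hdA]
    rw [hκdef, dotProduct, Finset.sum_congr rfl (fun d _ => this d), Finset.sum_add_distrib,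
      Finset.sum_ite_mem, Finset.univ_inter, ← Finset.mul_sum, h1, hPdef]
  have hκ' : κ' = 1 + (x - 1) * P := by
    have : ∀ d, φ d * v d = φ d * u d + (if d ∈ A then (x - 1) * (u d * φ d) else 0) := by
      intro d
      rw [hvd]
      by_cases hdA : d ∈ A
      · simp [s, hdA, X]; ring
      · simp [s, hdA]
    rw [hκ'def, dotProduct, Finset.sum_congr rfl (fun d _ => this d), Finset.sum_add_distrib,
      Finset.sum_ite_mem, Finset.univ_inter, ← Finset.mul_sum, h1, hPdef]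
  have hxi : x⁻¹ * x = 1 := inv_mul_cancel₀ hx0
  have hκ1 : κ ≠ 1 := by
    rw [hκ]
    intro h
    have : (x⁻¹ - 1) * P = 0 := by linear_combination h
    rcases mul_eq_zero.mp this with h2 | h2
    · apply hx1
      have : x⁻¹ = 1 := by linear_combination h2
      rw [← inv_inv x, this, inv_one]
    · exact hP h2
  have hκ'1 : κ' ≠ 1 := by
    rw [hκ']
    intro h
    have : (x - 1) * P = 0 := by linear_combination h
    rcases mul_eq_zero.mp this with h2 | h2
    · exact hx1 (by linear_combination h2)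
    · exact hP h2
  have hsum : κ + κ' - 1 ≠ 0 := by
    intro h
    apply hxP
    rw [hκ, hκ'] at h
    linear_combination x * h - P * hxi
  by_cases hκ0 : κ = 0
  · -- second option
    have hκ'0 : κ' ≠ 0 := by
      intro hκ'0
      rw [hκ] at hκ0
      rw [hκ'] at hκ'0
      have h3 : (x⁻¹ - x) * P = 0 := by linear_combination hκ0 - hκ'0
      have h4 : x⁻¹ = x := by
        have := (mul_eq_zero.mp h3).resolve_right hP
        linear_combination this
      have h5 : (x - 1) * (x + 1) = 0 := by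
        rw [h4] at hxi
        linear_combination hxi
      have h6 : x = -1 := by
        have := (mul_eq_zero.mp h5).resolve_left (sub_ne_zero.mpr hx1)
        linear_combination this
      apply hP2
      rw [h6] at hκ'0
      linear_combination -hκ'0
    have hk : 1 - κ'⁻¹ ≠ 0 := by
      intro h
      apply hκ'1
      have : κ'⁻¹ = 1 := by linear_combination -h
      rw [← inv_inv κ', this, inv_one]
    let μ : Fˣ := (Units.mk0 (1 - κ'⁻¹) hk)⁻¹
    have hμi : ((μ⁻¹ : Fˣ) : F) = 1 - κ'⁻¹ := by simp [μ]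
    obtain ⟨h', hm'⟩ := id hR'
    have hRu := rf_conj hR (hm' μ)
    rw [rf_mulVec, vecMul_rf_inv, ← hκdef, ← hκ'def, hκ0, hμi] at hRu
    refine elem_of_mixed_center hq hd hRu (a := j) ?_ ?_
    · simpa using huj
    · have : κ'⁻¹ * κ' = 1 := inv_mul_cancel₀ hκ'0
      simp only [Pi.add_apply, Pi.smul_apply, smul_eq_mul, hψj]
      linear_combination (-φ j) * this
  · have hk : 1 - κ⁻¹ ≠ 0 := by
      intro h
      apply hκ1
      have : κ⁻¹ = 1 := by linear_combination -h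
      rw [← inv_inv κ, this, inv_one]
    let μ : Fˣ := Units.mk0 (1 - κ⁻¹) hk
    have hμ : (μ : F) = 1 - κ⁻¹ := rfl
    obtain ⟨y, hy⟩ : ∃ y, y = ((μ⁻¹ : Fˣ) : F) := ⟨_, rfl⟩
    have hyμ : (μ : F) * y = 1 := by rw [hy]; simp
    have hκi : κ⁻¹ * κ = 1 := inv_mul_cancel₀ hκ0
    obtain ⟨h', hm'⟩ := id hR'
    have hRu := rf_conj hR (hm' μ)
    rw [rf_mulVec, vecMul_rf_inv, ← hκdef, ← hκ'def, hμ, ← hy] at hRu
    have hy2 : (y - 1) * (κ - 1) = 1 := by
      rw [hμ] at hyμ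
      have : (1 - κ⁻¹) * κ = κ - 1 := by linear_combination -hκi
      calc (y - 1) * (κ - 1) = (y - 1) * ((1 - κ⁻¹) * κ) := by rw [this]
        _ = ((1 - κ⁻¹) * y) * κ - (1 - κ⁻¹) * κ := by ring
        _ = 1 := by rw [hyμ, this]; ring
    refine elem_of_mixed_axis hq hd hRu (a := j) ?_ ?_
    · simp only [Pi.add_apply, Pi.smul_apply, smul_eq_mul, hψj]
      have : φ j + (y - 1) * κ' * φ j = φ j * (1 + (y - 1) * κ') := by ring
      rw [this]
      refine mul_ne_zero hφj ?_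
      intro h
      apply hsum
      linear_combination (κ - 1) * h - κ' * hy2
    · simp only [Pi.add_apply, Pi.smul_apply, smul_eq_mul, hvj]
      linear_combination (-u j) * hκi

theorem elem_of_three {u φ : ι → F} (hR : RF M u φ) {a b d : ι} (hab : a ≠ b) (had : a ≠ d)
    (hbd : b ≠ d) (hua : u a ≠ 0) (hub : u b ≠ 0) (hud : u d ≠ 0) (hφa : φ a ≠ 0) (hφb : φ b ≠ 0)
    (hφd : φ d ≠ 0) : Elem M := by
  by_cases h1 : 2 * (u a * φ a) = 1
  · by_cases h2 : 2 * (u b * φ b) = 1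
    · refine elem_of_key hq hd hR {a, b} ?_ ?_ (j := d) ?_ hud hφd
      · rw [Finset.sum_pair hab]
        intro h
        have h3 : (2 : F) = 0 := by linear_combination 2 * h - h1 - h2
        have : (1 : F) = 0 := by linear_combination -h1 + (u a * φ a) * h3
        exact one_ne_zero this
      · rw [Finset.sum_pair hab]
        intro h
        have : (1 : F) = 0 := by linear_combination h - h1 - h2
        exact one_ne_zero this
      · simp [had.symm, hbd.symm]
    · refine elem_of_key hq hd hR {b} ?_ ?_ (j := a) ?_ hua hφa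
      · rw [Finset.sum_singleton]; exact mul_ne_zero hub hφb
      · rwa [Finset.sum_singleton]
      · simp [hab]
  · refine elem_of_key hq hd hR {a} ?_ ?_ (j := b) ?_ hub hφb
    · rw [Finset.sum_singleton]; exact mul_ne_zero hua hφa
    · rwa [Finset.sum_singleton]
    · simp [hab.symm]

theorem elem_of_two (hp : ∀ π : Equiv.Perm ι, mon π 1 ∈ M) (hn : 3 ≤ Fintype.card ι)
    {u φ : ι → F} (hR : RF M u φ) {a b : ι} (hab : a ≠ b)
    (hua : u a ≠ 0) (hub : u b ≠ 0) : Elem M := by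
  by_cases hφa : φ a = 0
  · exact elem_of_mixed_center hq hd hR hua hφa
  by_cases hφb : φ b = 0
  · exact elem_of_mixed_center hq hd hR hub hφb
  by_cases h3 : ∃ d, d ≠ a ∧ d ≠ b ∧ u d ≠ 0
  · obtain ⟨d, hda, hdb, hud⟩ := h3
    by_cases hφd : φ d = 0
    · exact elem_of_mixed_center hq hd hR hud hφd
    exact elem_of_three hq hd hR hab hda.symm hdb.symm hua hub hud hφa hφb hφd
  push Not at h3
  by_cases h4 : ∃ d, d ≠ a ∧ d ≠ b ∧ φ d ≠ 0
  · obtain ⟨d, hda, hdb, hφd⟩ := h4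
    exact elem_of_mixed_axis hq hd hR hφd (h3 d hda hdb)
  push Not at h4
  by_cases h1 : 2 * (u a * φ a) = 1
  swap
  · refine elem_of_key hq hd hR {a} ?_ ?_ (j := b) ?_ hub hφb
    · rw [Finset.sum_singleton]; exact mul_ne_zero hua hφa
    · rwa [Finset.sum_singleton]
    · simp [hab.symm]
  by_cases h2 : 2 * (u b * φ b) = 1
  swap
  · refine elem_of_key hq hd hR {b} ?_ ?_ (j := a) ?_ hua hφa
    · rw [Finset.sum_singleton]; exact mul_ne_zero hub hφb
    · rwa [Finset.sum_singleton]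
    · simp [hab]
  -- the exceptional case: move to a third coordinate
  obtain ⟨e, hea, heb⟩ : ∃ e : ι, e ≠ a ∧ e ≠ b := by
    by_contra hcon
    push Not at hcon
    have : (Finset.univ : Finset ι) ⊆ {a, b} := by
      intro d _
      by_cases hd' : d = a
      · simp [hd']
      · simp [hcon d hd']
    have := Finset.card_le_card this
    have h2' : ({a, b} : Finset ι).card ≤ 2 := Finset.card_le_two
    rw [Finset.card_univ] at this
    omega
  have hue : u e = 0 := h3 e hea heb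
  have hφe : φ e = 0 := h4 e hea heb
  have h20 : (2 : F) ≠ 0 := by
    intro h
    rw [h] at h1
    simp at h1
  -- the swapped data
  obtain ⟨τ, hτ⟩ : ∃ τ : Equiv.Perm ι, τ = Equiv.swap a e := ⟨_, rfl⟩
  have hτa : τ a = e := by rw [hτ]; exact Equiv.swap_apply_left a e
  have hτe : τ e = a := by rw [hτ]; exact Equiv.swap_apply_right a e
  have hτb : τ b = b := by rw [hτ]; exact Equiv.swap_apply_of_ne_of_ne hab.symm heb.symm
  have hτs : τ.symm = τ := by rw [hτ]; exact Equiv.symm_swap a e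
  have hR' := rf_conj hR (hp τ)
  obtain ⟨v, hv⟩ : ∃ v, v = ((mon τ 1 : GL ι F) : Matrix ι ι F) *ᵥ u := ⟨_, rfl⟩
  obtain ⟨ψ, hψ⟩ : ∃ ψ, ψ = φ ᵥ* (((mon τ 1)⁻¹ : GL ι F) : Matrix ι ι F) := ⟨_, rfl⟩
  rw [← hv, ← hψ] at hR'
  have hvd : ∀ d, v d = u (τ d) := fun d => by rw [hv, mon_mulVec, hτs]; simp
  have hψd : ∀ d, ψ d = φ (τ d) := fun d => by rw [hψ, vecMul_mon_inv, hτs]; simp
  have hκ : ψ ⬝ᵥ u = u b * φ b := by
    rw [dotProduct, Finset.sum_eq_single b]
    · rw [hψd, hτb]; ring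
    · intro d _ hdb
      by_cases hda : d = a
      · subst hda
        rw [hψd, hτa, hφe, zero_mul]
      · rw [h3 d hda hdb, mul_zero]
    · simp
  have hκ' : φ ⬝ᵥ v = u b * φ b := by
    rw [dotProduct, Finset.sum_eq_single b]
    · rw [hvd, hτb]; ring
    · intro d _ hdb
      by_cases hda : d = a
      · subst hda
        rw [hvd, hτa, hue, mul_zero]
      · rw [h4 d hda hdb, zero_mul]
    · simp
  -- `μ ≠ 0, 1, -1`
  obtain ⟨x, y, z, hx0, hx1, hy0, hy1, hz0, hz1, hxy, hxz, hyz⟩ := exists_three hq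
  obtain ⟨w, hw0, hw1, hw2⟩ : ∃ w : F, w ≠ 0 ∧ w ≠ 1 ∧ w + 1 ≠ 0 := by
    by_cases hx2 : x + 1 = 0
    · refine ⟨y, hy0, hy1, fun hy2 => hxy ?_⟩
      linear_combination hx2 - hy2
    · exact ⟨x, hx0, hx1, hx2⟩
  let μ : Fˣ := Units.mk0 w hw0
  have hμ : (μ : F) = w := rfl
  obtain ⟨w', hw'⟩ : ∃ w', w' = ((μ⁻¹ : Fˣ) : F) := ⟨_, rfl⟩
  have hww' : w * w' = 1 := by rw [hw', ← hμ]; simp
  have hw'0 : w' ≠ 0 := right_ne_zero_of_mul_eq_one hww'
  have hw'1 : w' ≠ 1 := by
    intro h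
    rw [h, mul_one] at hww'
    exact hw1 hww'
  have hw'2 : w' + 1 ≠ 0 := by
    intro h
    apply hw2
    have : w' = -1 := by linear_combination h
    rw [this] at hww'
    linear_combination -hww'
  obtain ⟨h', hm'⟩ := id hR'
  have hRu := rf_conj hR (hm' μ)
  rw [rf_mulVec, vecMul_rf_inv, hκ, hκ', hμ, ← hw'] at hRu
  obtain ⟨p, hpdef⟩ : ∃ p, p = u b * φ b := ⟨_, rfl⟩
  rw [← hpdef] at hRu h2
  have hp0 : p ≠ 0 := by
    rw [hpdef]; exact mul_ne_zero hub hφb
  refine elem_of_three hq hd hRu (a := a) (b := b) (d := e) hab hea.symm heb.symm ?_ ?_ ?_ ?_ ?_ ?_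
  · simp only [Pi.add_apply, Pi.smul_apply, smul_eq_mul, hvd, hτa, hue, mul_zero, add_zero]
    exact hua
  · simp only [Pi.add_apply, Pi.smul_apply, smul_eq_mul, hvd, hτb]
    have : u b + (w - 1) * p * u b = u b * (1 + (w - 1) * p) := by ring
    rw [this]
    refine mul_ne_zero hub ?_
    intro h
    apply hw2
    linear_combination 2 * h - (w - 1) * h2
  · simp only [Pi.add_apply, Pi.smul_apply, smul_eq_mul, hvd, hτe, hue, zero_add]
    exact mul_ne_zero (mul_ne_zero (sub_ne_zero.mpr hw1) hp0) hua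
  · simp only [Pi.add_apply, Pi.smul_apply, smul_eq_mul, hψd, hτa, hφe, mul_zero, add_zero]
    exact hφa
  · simp only [Pi.add_apply, Pi.smul_apply, smul_eq_mul, hψd, hτb]
    have : φ b + (w' - 1) * p * φ b = φ b * (1 + (w' - 1) * p) := by ring
    rw [this]
    refine mul_ne_zero hφb ?_
    intro h
    apply hw'2
    linear_combination 2 * h - (w' - 1) * h2
  · simp only [Pi.add_apply, Pi.smul_apply, smul_eq_mul, hψd, hτe, hφe, zero_add]
    exact mul_ne_zero (mul_ne_zero (sub_ne_zero.mpr hw'1) hp0) hφa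

theorem rf_of_column {z : GL ι F} (hz : z ∈ M) (i : ι) :
    RF M ((z : Matrix ι ι F) *ᵥ Pi.single i 1) ((Pi.single i 1 : ι → F) ᵥ* ((z⁻¹ : GL ι F) : Matrix ι ι F)) := by
  refine rf_conj ?_ hz
  have h : (Pi.single i 1 : ι → F) ⬝ᵥ (Pi.single i 1 : ι → F) = 1 := by simp
  refine ⟨h, fun μ => ?_⟩
  have : rf (Pi.single i 1) (Pi.single i 1) h μ = dg (ds i μ) := by
    apply Units.ext
    rw [rf_val]
    ext b a
    rw [dg_apply]
    simp only [Matrix.add_apply, Matrix.smul_apply, vecMulVec_apply, Matrix.one_apply, smul_eq_mul]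
    by_cases hba : b = a
    · subst hba
      by_cases hbi : b = i
      · subst hbi
        simp [ds_same]
      · simp [hbi, ds_ne μ hbi]
    · by_cases hbi : b = i
      · subst hbi
        have : ¬ a = b := fun e => hba e.symm
        simp [hba, this]
      · simp [hba, hbi]
  rw [this]
  exact hd _

/-- The main existence statement. -/
theorem elem_exists (hp : ∀ π : Equiv.Perm ι, mon π 1 ∈ M) (hn : 3 ≤ Fintype.card ι)
    {z : GL ι F} (hz : z ∈ M) (hnm : ¬ IsMono z) : Elem M := by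
  have : ∃ i a b, a ≠ b ∧ (z : Matrix ι ι F) a i ≠ 0 ∧ (z : Matrix ι ι F) b i ≠ 0 := by
    by_contra hcon
    push Not at hcon
    apply hnm
    choose f hf using fun a => col_ne_zero z a
    refine isMono_of_fun z f fun a b hb => ?_
    by_contra hne
    exact hf a (hcon a b (f a) hb hne)
  obtain ⟨i, a, b, hab, ha, hb⟩ := this
  have hcol : ∀ d, ((z : Matrix ι ι F) *ᵥ Pi.single i 1) d = (z : Matrix ι ι F) d i := by
    intro d
    simp
  exact elem_of_two hq hd hp hn (rf_of_column hq hd hz i) hab (by rwa [hcol]) (by rwa [hcol])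

/-- All elementary transvections from one. -/
theorem elem_all (hp : ∀ π : Equiv.Perm ι, mon π 1 ∈ M) (hE : Elem M) {a b : ι} (hab : a ≠ b) (r : F) :
    Gam M (Pi.single a r) (Pi.single b 1) := by
  obtain ⟨a₀, b₀, hab₀, r₀, hr₀, hG⟩ := hE
  by_cases hr : r = 0
  · subst hr
    have h0 : (Pi.single b (1 : F) : ι → F) ⬝ᵥ (Pi.single a (0 : F) : ι → F) = 0 := by simp
    refine ⟨h0, ?_⟩
    have : tv (Pi.single a (0 : F)) (Pi.single b 1) h0 = 1 := by
      apply Units.ext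
      rw [tv_val]
      ext i j
      simp [vecMulVec_apply, Pi.single_apply]
    rw [this]
    exact M.one_mem
  obtain ⟨π, h1, h2⟩ := exists_perm_pair hab₀ hab
  have h3 := gam_conj hG (hd (ds a₀ (Units.mk0 (r / r₀) (div_ne_zero hr hr₀))))
  rw [dg_single, ds_same] at h3
  have e1 : (Pi.single b₀ 1 : ι → F) ᵥ*
      (((dg (ds a₀ (Units.mk0 (r / r₀) (div_ne_zero hr hr₀))))⁻¹ : GL ι F) : Matrix ι ι F) =
      Pi.single b₀ 1 := by
    ext d
    rw [vecMul_dg_inv]
    by_cases hdb : d = b₀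
    · subst hdb
      rw [ds_ne _ hab₀.symm]
      simp
    · simp [hdb]
  rw [e1] at h3
  have e2 : ((Units.mk0 (r / r₀) (div_ne_zero hr hr₀) : Fˣ) : F) * r₀ = r := by
    simp
    field_simp
  rw [e2] at h3
  have h4 := gam_conj h3 (hp π)
  refine gam_congr h4 ?_ ?_
  · ext d
    rw [mon_mulVec]
    by_cases hd' : d = a
    · subst hd'
      rw [← h1]
      simp
    · have : π.symm d ≠ a₀ := by
        intro e
        apply hd'
        rw [← h1, ← e]; simp
      simp [hd', this]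
  · ext d
    rw [vecMul_mon_inv]
    by_cases hd' : d = b
    · subst hd'
      rw [← h2]
      simp
    · have : π.symm d ≠ b₀ := by
        intro e
        apply hd'
        rw [← h2, ← e]; simp
      simp [hd', this]

end

end Cfsg.Agent.Lib.GLMonFull
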