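import Mathlib
import Cfsg.Agent.Lib.GLMon

/-!
# Subgroups containing the diagonal group of determinant one in which no non-monomial element
fixes a coordinate line are monomial (`|F| ≥ 5`, `|ι| ≥ 13`).
-/

set_option autoImplicit false
set_option linter.unusedSectionVars false
set_option linter.unusedVariables false

namespace Cfsg.Agent.Lib.GLMonStar

open Matrix Cfsg.Geo Cfsg.Agent.Lib.TvGL Cfsg.Agent.Lib.GLMon
open scoped MatrixGroups

variable {ι : Type} [Fintype ι] [DecidableEq ι] {F : Type*} [Field F]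

theorem exists_nu [Fintype F] (hq : 5 ≤ Fintype.card F) : ∃ ν : Fˣ, ν ^ 2 ≠ 1 ∧ ν ^ 3 ≠ 1 := by
  classical
  obtain ⟨ν, hν⟩ := IsCyclic.exists_generator (α := Fˣ)
  have ho : orderOf ν = Fintype.card Fˣ :=
    (orderOf_eq_card_of_forall_mem_zpowers hν).trans Nat.card_eq_fintype_card
  have hc : 4 ≤ Fintype.card Fˣ := by
    rw [Fintype.card_units]
    omega
  refine ⟨ν, fun h => ?_, fun h => ?_⟩
  · have := orderOf_le_of_pow_eq_one (by norm_num) h
    omega
  · have := orderOf_le_of_pow_eq_one (by norm_num) h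
    omega

theorem exists_three_avoid (S : Finset ι) (h : S.card + 3 ≤ Fintype.card ι) :
    ∃ c d e : ι, c ∉ S ∧ d ∉ S ∧ e ∉ S ∧ c ≠ d ∧ c ≠ e ∧ d ≠ e := by
  have : 2 < ((Finset.univ : Finset ι) \ S).card := by
    have h1 := Finset.le_card_sdiff S Finset.univ
    rw [Finset.card_univ] at h1
    omega
  obtain ⟨x, y, z, hx, hy, hz, hxy, hxz, hyz⟩ := Finset.two_lt_card_iff.mp this
  simp only [Finset.mem_sdiff, Finset.mem_univ, true_and] at hx hy hz
  exact ⟨x, y, z, hx, hy, hz, hxy, hxz, hyz⟩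

theorem mulVec_single_one (A : Matrix ι ι F) (k : ι) : A *ᵥ Pi.single k 1 = fun d => A d k := by
  ext d
  simp

theorem sum_diag (ρ y s : ι → F) (R : Finset ι) (h : ∀ d, d ∉ R → (s d - 1) * y d = 0) :
    ∑ d, ρ d * (s d * y d) = ∑ d, ρ d * y d + ∑ d ∈ R, (s d - 1) * (ρ d * y d) := by
  have h1 : ∑ d ∈ R, (s d - 1) * (ρ d * y d) = ∑ d, (s d - 1) * (ρ d * y d) := by
    refine Finset.sum_subset (Finset.subset_univ R) fun d _ hd => ?_
    linear_combination (ρ d) * h d hd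
  rw [h1, ← Finset.sum_add_distrib]
  refine Finset.sum_congr rfl fun d _ => ?_
  ring

theorem conj_entry (g : GL ι F) (s : ι → Fˣ) (i k : ι) :
    ((g⁻¹ * dg s * g : GL ι F) : Matrix ι ι F) i k =
      ∑ d, ((g⁻¹ : GL ι F) : Matrix ι ι F) i d * ((s d : F) * (g : Matrix ι ι F) d k) := by
  rw [Units.val_mul, Units.val_mul, Matrix.mul_assoc, Matrix.mul_apply]
  refine Finset.sum_congr rfl fun d _ => ?_
  congr 1
  rw [Matrix.mul_apply, Finset.sum_eq_single d]
  · rw [dg_apply]; simp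
  · intro e _ he
    rw [dg_apply, if_neg he.symm, zero_mul]
  · simp

theorem sum_entry_zero (g : GL ι F) {i k : ι} (h : i ≠ k) :
    ∑ d, ((g⁻¹ : GL ι F) : Matrix ι ι F) i d * (g : Matrix ι ι F) d k = 0 := by
  have := congrFun (congrFun (inv_mul_val g) i) k
  rw [Matrix.mul_apply, Matrix.one_apply_ne h] at this
  exact this

theorem exists_delta (a1 a2 a3 b1 b2 b3 : F) :
    ∃ d1 d2 d3 : F, (d1 ≠ 0 ∨ d2 ≠ 0 ∨ d3 ≠ 0) ∧ d1 * a1 + d2 * a2 + d3 * a3 = 0 ∧
      d1 * b1 + d2 * b2 + d3 * b3 = 0 := by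
  let f : (Fin 3 → F) →ₗ[F] (Fin 2 → F) := LinearMap.pi ![dotL ![a1, a2, a3], dotL ![b1, b2, b3]]
  have hk : LinearMap.ker f ≠ ⊥ := LinearMap.ker_ne_bot_of_finrank_lt (by simp)
  obtain ⟨v, hv, hv0⟩ := Submodule.exists_mem_ne_zero_of_ne_bot hk
  have hv' : f v = 0 := hv
  have h1 := congrFun hv' 0
  have h2 := congrFun hv' 1
  simp only [f, LinearMap.pi_apply, Pi.zero_apply, Matrix.cons_val_zero, Matrix.cons_val_one,
    dotL_apply, dotProduct, Fin.sum_univ_three] at h1 h2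
  simp at h1 h2
  refine ⟨v 0, v 1, v 2, ?_, by linear_combination h1, by linear_combination h2⟩
  by_contra hcon
  push Not at hcon
  apply hv0
  ext j
  fin_cases j
  · exact hcon.1
  · exact hcon.2.1
  · exact hcon.2.2

section star

variable [Fintype F] (hq : 5 ≤ Fintype.card F) {M : Subgroup (GL ι F)}
  (hT : ∀ s : ι → Fˣ, ∏ a, s a = 1 → dg s ∈ M)
  (hstar : ∀ x ∈ M, ∀ k l, (∀ b, b ≠ l → (x : Matrix ι ι F) b k = 0) → IsMono x)
include hq hT hstar

theorem col_of_two_zeros {x : GL ι F} (hx : x ∈ M) (hnm : ¬ IsMono x) {k a b : ι} (hab : a ≠ b)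
    (ha : (x : Matrix ι ι F) a k = 0) (hb : (x : Matrix ι ι F) b k = 0) {l : ι}
    (hl : ((x⁻¹ : GL ι F) : Matrix ι ι F) l a ≠ 0) {d : ι} (hda : d ≠ a) (hdb : d ≠ b) :
    (x : Matrix ι ι F) d l = 0 := by
  obtain ⟨ν, hν2, hν3⟩ := exists_nu hq
  have hν1 : ν ≠ ν⁻¹ := by
    intro h
    apply hν2
    rw [pow_two]
    nth_rewrite 1 [h]
    simp
  have hν01 : ν ≠ 1 := by
    rintro rfl
    simp at hν2
  obtain ⟨t, ht⟩ : ∃ t, t = tt a b ν := ⟨_, rfl⟩
  have htp : ∏ d, t d = 1 := by rw [ht]; exact prod_tt hab ν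
  have hτ : dg t ∈ M := hT t htp
  have hm : x⁻¹ * dg t * x ∈ M := M.mul_mem (M.mul_mem (M.inv_mem hx) hτ) hx
  obtain ⟨X, hX⟩ : ∃ X : Matrix ι ι F, X = (x : Matrix ι ι F) := ⟨_, rfl⟩
  obtain ⟨Xi, hXi⟩ : ∃ Xi : Matrix ι ι F, Xi = ((x⁻¹ : GL ι F) : Matrix ι ι F) := ⟨_, rfl⟩
  obtain ⟨T, hTd⟩ : ∃ T : Matrix ι ι F, T = ((dg t : GL ι F) : Matrix ι ι F) := ⟨_, rfl⟩
  have hXXi : X * Xi = 1 := by rw [hX, hXi]; exact mul_inv_val x
  have hXiX : Xi * X = 1 := by rw [hX, hXi]; exact inv_mul_val x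
  obtain ⟨Mm, hMm⟩ : ∃ Mm : Matrix ι ι F, Mm = ((x⁻¹ * dg t * x : GL ι F) : Matrix ι ι F) := ⟨_, rfl⟩
  have hMm' : Mm = Xi * T * X := by rw [hMm, Units.val_mul, Units.val_mul, hXi, hTd, hX]
  have hcomm : ∀ v, X *ᵥ (Mm *ᵥ v) = T *ᵥ (X *ᵥ v) := by
    intro v
    rw [hMm', mulVec_mulVec, ← Matrix.mul_assoc, ← Matrix.mul_assoc, hXXi, Matrix.one_mul, mulVec_mulVec]
  have hTv : ∀ (v : ι → F) (d : ι), (T *ᵥ v) d = (t d : F) * v d := by
    intro v d
    rw [hTd, dg_mulVec]
  have hinj : ∀ v, X *ᵥ v = 0 → v = 0 := by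
    intro v hv
    have : Xi *ᵥ (X *ᵥ v) = v := by rw [mulVec_mulVec, hXiX, one_mulVec]
    rw [← this, hv, mulVec_zero]
  have hXk : ∀ d, (X *ᵥ Pi.single k 1) d = X d k := fun d => by rw [mulVec_single_one]
  -- `m` fixes `e_k`, hence is monomial
  have hfix : Mm *ᵥ Pi.single k 1 = Pi.single k 1 := by
    have h1 : X *ᵥ (Mm *ᵥ Pi.single k 1 - Pi.single k 1) = 0 := by
      rw [mulVec_sub, hcomm]
      ext d
      rw [Pi.sub_apply, hTv, hXk, Pi.zero_apply]
      by_cases h1 : d = a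
      · subst h1; rw [← hX] at ha; simp [ha]
      · by_cases h2 : d = b
        · subst h2; rw [← hX] at hb; simp [hb]
        · rw [ht, tt_other ν h1 h2]; simp
    exact sub_eq_zero.mp (hinj _ h1)
  have hmm : IsMono (x⁻¹ * dg t * x) := by
    refine hstar _ hm k k fun b' hb' => ?_
    have := congrFun hfix b'
    rw [mulVec_single_one, hMm] at this
    simpa [hb'] using this
  obtain ⟨π, hπ⟩ := hmm
  obtain ⟨lam, hlam, -⟩ := eq_mon_of_isMono hπ
  have hMv : ∀ (v : ι → F) (e : ι), (Mm *ᵥ v) (π e) = (lam e : F) * v e := by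
    intro v e
    rw [hMm, hlam, mon_mulVec]
    simp
  have hMs : ∀ (e : ι) (r : F), Mm *ᵥ Pi.single e r = Pi.single (π e) ((lam e : F) * r) := by
    intro e r
    rw [hMm, hlam]
    ext d
    rw [mon_mulVec]
    by_cases hd : d = π e
    · subst hd; simp
    · have : π.symm d ≠ e := by
        intro h
        apply hd
        rw [← h]; simp
      simp [hd, this]
  -- the eigenvector `w`
  obtain ⟨w, hw⟩ : ∃ w, w = Xi *ᵥ Pi.single a (1 : F) := ⟨_, rfl⟩
  have hwl : w l ≠ 0 := by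
    rw [hw, mulVec_single_one]
    rw [← hXi] at hl
    exact hl
  have hwX : X *ᵥ w = Pi.single a 1 := by rw [hw, mulVec_mulVec, hXXi, one_mulVec]
  have hMw : Mm *ᵥ w = (ν : F) • w := by
    have h1 : X *ᵥ (Mm *ᵥ w - (ν : F) • w) = 0 := by
      rw [mulVec_sub, hcomm, mulVec_smul, hwX]
      ext d
      rw [Pi.sub_apply, hTv, Pi.zero_apply, Pi.smul_apply, smul_eq_mul]
      by_cases h1 : d = a
      · subst h1; rw [ht, tt_left]; simp
      · simp [h1]
    exact sub_eq_zero.mp (hinj _ h1)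
  have hwπ : (ν : F) * w (π l) = (lam l : F) * w l := by
    have := hMv w l
    rw [hMw, Pi.smul_apply, smul_eq_mul] at this
    exact this
  obtain ⟨z, hz⟩ : ∃ z, z = X *ᵥ Pi.single l (1 : F) := ⟨_, rfl⟩
  have hzd : ∀ e, z e = X e l := fun e => by rw [hz, mulVec_single_one]
  by_cases hπl : π l = l
  · -- `l` is fixed: the column is a multiple of `e_a`
    exfalso
    rw [hπl] at hwπ
    have hlamν : (lam l : F) = ν := by
      have : ((ν : F) - lam l) * w l = 0 := by linear_combination hwπ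
      have := (mul_eq_zero.mp this).resolve_right hwl
      linear_combination -this
    have h1 : Mm *ᵥ Pi.single l 1 = (ν : F) • Pi.single l 1 := by
      rw [hMs, hπl, hlamν, mul_one]
      ext d
      by_cases hd' : d = l
      · subst hd'; simp
      · simp [hd']
    have h2 : T *ᵥ z = (ν : F) • z := by
      rw [hz, ← hcomm, h1, mulVec_smul]
    apply hnm
    refine hstar x hx l a fun b' hb' => ?_
    have h3 := congrFun h2 b'
    rw [hTv, Pi.smul_apply, smul_eq_mul, hzd, hX] at h3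
    have hne : (t b' : F) ≠ ν := by
      intro h
      have hu : t b' = ν := Units.ext h
      rw [ht] at hu
      by_cases h4 : b' = b
      · subst h4
        rw [tt_right hab] at hu
        exact hν1 hu.symm
      · rw [tt_other ν hb' h4] at hu
        exact hν01 hu.symm
    have : ((t b' : F) - ν) * (x : Matrix ι ι F) b' l = 0 := by linear_combination h3
    exact (mul_eq_zero.mp this).resolve_left (sub_ne_zero.mpr hne)
  -- `l` is moved
  obtain ⟨n0, hn0⟩ : ∃ n0 : F, n0 = (ν : F) := ⟨_, rfl⟩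
  obtain ⟨n1, hn1⟩ : ∃ n1 : F, n1 = ((ν⁻¹ : Fˣ) : F) := ⟨_, rfl⟩
  have hn01 : n0 * n1 = 1 := by rw [hn0, hn1]; simp
  have hn00 : n0 ≠ 0 := left_ne_zero_of_mul_eq_one hn01
  obtain ⟨c0, hc0⟩ : ∃ c0 : F, c0 = 1 + n0 + n1 := ⟨_, rfl⟩
  have htd : ∀ e, (t e : F) = n0 ∨ (t e : F) = n1 ∨ (t e : F) = 1 := by
    intro e
    by_cases h1 : e = a
    · left; rw [h1, ht, tt_left, hn0]
    · by_cases h2 : e = b
      · right; left; rw [h2, ht, tt_right hab, hn1]
      · right; right; rw [ht, tt_other ν h1 h2]; rfl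
  have hpoly : ∀ e, (t e : F) ^ 3 - c0 * (t e : F) ^ 2 + c0 * (t e : F) - 1 = 0 := by
    intro e
    rw [hc0]
    rcases htd e with h | h | h <;> rw [h]
    · linear_combination (1 - n0) * hn01
    · linear_combination (1 - n1) * hn01
    · ring
  obtain ⟨l1, hl1⟩ : ∃ l1, l1 = π l := ⟨_, rfl⟩
  obtain ⟨l2, hl2⟩ : ∃ l2, l2 = π l1 := ⟨_, rfl⟩
  obtain ⟨l3, hl3⟩ : ∃ l3, l3 = π l2 := ⟨_, rfl⟩
  have hl1l : l1 ≠ l := by rw [hl1]; exact hπl
  have hl2l1 : l2 ≠ l1 := by
    rw [hl2]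
    intro h
    apply hl1l
    apply π.injective
    rw [h, hl1]
  obtain ⟨f1, hf1⟩ : ∃ f1, f1 = (Pi.single l1 (lam l : F) : ι → F) := ⟨_, rfl⟩
  obtain ⟨f2, hf2⟩ : ∃ f2, f2 = (Pi.single l2 ((lam l1 : F) * lam l) : ι → F) := ⟨_, rfl⟩
  obtain ⟨f3, hf3⟩ : ∃ f3, f3 = (Pi.single l3 ((lam l2 : F) * ((lam l1 : F) * lam l)) : ι → F) :=
    ⟨_, rfl⟩
  have hf01 : Mm *ᵥ Pi.single l 1 = f1 := by
    rw [hMs, hf1, hl1, mul_one]
  have hf12 : Mm *ᵥ f1 = f2 := by
    rw [hf1, hMs, hf2, hl2]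
  have hf23 : Mm *ᵥ f2 = f3 := by
    rw [hf2, hMs, hf3, hl3]
  have hX1 : X *ᵥ f1 = T *ᵥ z := by rw [← hf01, hcomm, hz]
  have hX2 : X *ᵥ f2 = T *ᵥ (T *ᵥ z) := by rw [← hf12, hcomm, hX1]
  have hX3 : X *ᵥ f3 = T *ᵥ (T *ᵥ (T *ᵥ z)) := by rw [← hf23, hcomm, hX2]
  have hE : f3 - c0 • f2 + c0 • f1 - Pi.single l 1 = 0 := by
    apply hinj
    rw [mulVec_sub, mulVec_add, mulVec_sub, mulVec_smul, mulVec_smul, hX1, hX2, hX3, ← hz]
    ext e
    simp only [Pi.sub_apply, Pi.add_apply, Pi.smul_apply, smul_eq_mul, hTv, Pi.zero_apply]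
    linear_combination (z e) * hpoly e
  have hElam : (lam l : F) ≠ 0 := (lam l).ne_zero
  have hElam1 : (lam l1 : F) ≠ 0 := (lam l1).ne_zero
  have hEl1 := congrFun hE l1
  simp only [Pi.sub_apply, Pi.add_apply, Pi.smul_apply, smul_eq_mul, Pi.zero_apply, hf1, hf2, hf3,
    Pi.single_eq_same, Pi.single_eq_of_ne hl1l, Pi.single_eq_of_ne hl2l1.symm] at hEl1
  by_cases hl2l : l2 = l
  swap
  · exfalso
    have hl3l1 : l1 ≠ l3 := by
      rw [hl3, hl1]
      intro h
      exact hl2l (π.injective h).symm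
    rw [Pi.single_eq_of_ne hl3l1] at hEl1
    have h0 : c0 = 0 := by
      have : c0 * (lam l : F) = 0 := by linear_combination hEl1
      exact (mul_eq_zero.mp this).resolve_right hElam
    apply hν3
    apply Units.ext
    rw [Units.val_pow_eq_pow_val, ← hn0, Units.val_one]
    rw [hc0] at h0
    linear_combination (n0 ^ 2 - n0) * h0 + (1 - n0) * hn01
  -- a `2`-cycle
  have hl3' : l3 = l1 := by rw [hl3, hl2l, hl1]
  rw [hl3', Pi.single_eq_same, hl2l] at hEl1
  obtain ⟨Lam, hLam⟩ : ∃ Lam : F, Lam = (lam l1 : F) * lam l := ⟨_, rfl⟩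
  rw [← hLam] at hEl1
  have hLc : Lam = -c0 := by
    have : (lam l : F) * (Lam + c0) = 0 := by linear_combination hEl1
    have := (mul_eq_zero.mp this).resolve_left hElam
    linear_combination this
  have hEl := congrFun hE l
  simp only [Pi.sub_apply, Pi.add_apply, Pi.smul_apply, smul_eq_mul, Pi.zero_apply, hf1, hf2, hf3,
    Pi.single_eq_same, Pi.single_eq_of_ne hl1l.symm, hl3', hl2l, ← hLam] at hEl
  have hc2 : (n0 + n1) * (n0 + n1 + 2) = 0 := by
    rw [hc0] at hLc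
    rw [hLc, hc0] at hEl
    linear_combination hEl
  have hn2 : n0 ^ 2 = -1 ∧ n0 + n1 = 0 := by
    rcases mul_eq_zero.mp hc2 with h | h
    · exact ⟨by linear_combination n0 * h - hn01, h⟩
    · exfalso
      apply hν2
      apply Units.ext
      rw [Units.val_pow_eq_pow_val, ← hn0, Units.val_one]
      have h1 : (n0 + 1) ^ 2 = 0 := by linear_combination n0 * h - hn01
      have h2 : n0 = -1 := by
        have := pow_eq_zero_iff (two_ne_zero) |>.mp h1
        linear_combination this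
      rw [h2]; ring
  have h20 : (2 : F) ≠ 0 := by
    intro h
    apply hν2
    apply Units.ext
    rw [Units.val_pow_eq_pow_val, ← hn0, Units.val_one, hn2.1]
    linear_combination -h
  have hL1 : Lam = -1 := by
    rw [hLc, hc0]
    linear_combination -hn2.2
  -- conclude
  have h2z := congrFun hX2 d
  have h3 : (X *ᵥ f2) d = - z d := by
    rw [hf2, hl2l, ← hLam, hL1]
    have : (Pi.single l (-1 : F) : ι → F) = (-1 : F) • Pi.single l 1 := by
      ext e
      by_cases he : e = l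
      · subst he; simp
      · simp [he]
    rw [this, mulVec_smul, ← hz]
    simp
  have h4 : (T *ᵥ (T *ᵥ z)) d = z d := by
    rw [hTv, hTv, ht, tt_other ν hda hdb]
    simp
  rw [h3, h4] at h2z
  have h5 : 2 * z d = 0 := by linear_combination -h2z
  have h6 := (mul_eq_zero.mp h5).resolve_left h20
  rw [hzd, hX] at h6
  exact h6

theorem mono_of_three_zeros {x : GL ι F} (hx : x ∈ M) {k c d d' : ι} (hcd : c ≠ d) (hcd' : c ≠ d')
    (hdd' : d ≠ d') (h1 : (x : Matrix ι ι F) c k = 0) (h2 : (x : Matrix ι ι F) d k = 0)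
    (h3 : (x : Matrix ι ι F) d' k = 0) : IsMono x := by
  by_contra hnm
  obtain ⟨l, hl⟩ := col_ne_zero x⁻¹ c
  apply hnm
  refine hstar x hx l c fun b hb => ?_
  by_cases hbd : b = d
  · subst hbd
    exact col_of_two_zeros hq hT hstar hx hnm hcd' h1 h3 hl hb hdd'
  · exact col_of_two_zeros hq hT hstar hx hnm hcd h1 h2 hl hb hbd

theorem mono_of_two_zeros (hn : 5 ≤ Fintype.card ι) {x : GL ι F} (hx : x ∈ M) {k a b : ι} (hab : a ≠ b)
    (h1 : (x : Matrix ι ι F) a k = 0) (h2 : (x : Matrix ι ι F) b k = 0) : IsMono x := by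
  by_contra hnm
  obtain ⟨l, hl⟩ := col_ne_zero x⁻¹ a
  have hS : ({a, b} : Finset ι).card + 3 ≤ Fintype.card ι := by
    have : ({a, b} : Finset ι).card ≤ 2 := Finset.card_le_two
    omega
  obtain ⟨c, d, e, hc, hd, he, hcd, hce, hde⟩ := exists_three_avoid _ hS
  simp only [Finset.mem_insert, Finset.mem_singleton, not_or] at hc hd he
  exact hnm (mono_of_three_zeros hq hT hstar hx hcd hce hde
    (col_of_two_zeros hq hT hstar hx hnm hab h1 h2 hl hc.1 hc.2)
    (col_of_two_zeros hq hT hstar hx hnm hab h1 h2 hl hd.1 hd.2)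
    (col_of_two_zeros hq hT hstar hx hnm hab h1 h2 hl he.1 he.2))

theorem mono_of_conj (hn : 13 ≤ Fintype.card ι) {g : GL ι F} (hg : g ∈ M) {s : ι → Fˣ}
    {R : Finset ι} (hR : ∀ j, j ∉ R → s j = 1) (hRc : R.card ≤ 4) {a : ι} (hsa : s a ≠ 1)
    (hm : IsMono (g⁻¹ * dg s * g)) : IsMono g := by
  obtain ⟨π, hπ⟩ := hm
  obtain ⟨lam, hlam, -⟩ := eq_mon_of_isMono hπ
  obtain ⟨X, hX⟩ : ∃ X : Matrix ι ι F, X = (g : Matrix ι ι F) := ⟨_, rfl⟩
  obtain ⟨Xi, hXi⟩ : ∃ Xi : Matrix ι ι F, Xi = ((g⁻¹ : GL ι F) : Matrix ι ι F) := ⟨_, rfl⟩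
  obtain ⟨T, hTd⟩ : ∃ T : Matrix ι ι F, T = ((dg s : GL ι F) : Matrix ι ι F) := ⟨_, rfl⟩
  have hXXi : X * Xi = 1 := by rw [hX, hXi]; exact mul_inv_val g
  have hXiX : Xi * X = 1 := by rw [hX, hXi]; exact inv_mul_val g
  obtain ⟨Mm, hMm⟩ : ∃ Mm : Matrix ι ι F, Mm = ((g⁻¹ * dg s * g : GL ι F) : Matrix ι ι F) := ⟨_, rfl⟩
  have hMm' : Mm = Xi * T * X := by rw [hMm, Units.val_mul, Units.val_mul, hXi, hTd, hX]
  have hTv : ∀ (v : ι → F) (d : ι), (T *ᵥ v) d = (s d : F) * v d := by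
    intro v d
    rw [hTd, dg_mulVec]
  have hMv : ∀ v, Mm *ᵥ v = Xi *ᵥ (T *ᵥ (X *ᵥ v)) := by
    intro v
    rw [hMm', mulVec_mulVec, mulVec_mulVec, Matrix.mul_assoc]
  let vv : ι → (ι → F) := fun l => Mm *ᵥ Pi.single l 1 - Pi.single l 1
  have hvv : ∀ l, vv l = Pi.single (π l) (lam l : F) - Pi.single l 1 := by
    intro l
    show Mm *ᵥ Pi.single l 1 - Pi.single l 1 = _
    congr 1
    rw [hMm, hlam]
    ext d
    rw [mon_mulVec]
    by_cases hd : d = π l
    · subst hd; simp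
    · have : π.symm d ≠ l := by
        intro h
        apply hd
        rw [← h]; simp
      simp [hd, this]
  obtain ⟨w, hw⟩ : ∃ w, w = Xi *ᵥ Pi.single a (1 : F) := ⟨_, rfl⟩
  have hwd : ∀ d, w d = Xi d a := fun d => by rw [hw, mulVec_single_one]
  have hsum : ∀ v : ι → F, Mm *ᵥ v - v = ∑ l, v l • vv l := by
    intro v
    ext d
    simp only [vv, Finset.sum_apply, Pi.smul_apply, Pi.sub_apply, smul_eq_mul, mulVec_single_one]
    have h1 : ∑ l, v l * (Mm d l - (Pi.single l (1 : F) : ι → F) d) =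
        ∑ l, v l * Mm d l - ∑ l, v l * (Pi.single l (1 : F) : ι → F) d := by
      rw [← Finset.sum_sub_distrib]
      exact Finset.sum_congr rfl fun l _ => by ring
    rw [h1, mulVec, dotProduct]
    congr 1
    · exact Finset.sum_congr rfl fun l _ => by ring
    · rw [Finset.sum_eq_single d]
      · simp
      · intro l _ hl
        simp [hl.symm]
      · simp
  -- `w` lies in the span
  have hspan : w ∈ Submodule.span F (Set.range vv) := by
    have h1 : Mm *ᵥ w - w = ((s a : F) - 1) • w := by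
      rw [hMv, hw, mulVec_mulVec _ X Xi, hXXi, one_mulVec]
      have : T *ᵥ Pi.single a (1 : F) = (s a : F) • Pi.single a 1 := by
        ext d
        rw [hTv, Pi.smul_apply, smul_eq_mul]
        by_cases hd : d = a
        · subst hd; simp
        · simp [hd]
      rw [this, mulVec_smul]
      module
    have h2 : ((s a : F) - 1) • w ∈ Submodule.span F (Set.range vv) := by
      rw [← h1, hsum]
      exact Submodule.sum_mem _ fun l _ => Submodule.smul_mem _ _ (Submodule.subset_span ⟨l, rfl⟩)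
    have hne : (s a : F) - 1 ≠ 0 := sub_ne_zero.mpr fun h => hsa (Units.ext h)
    exact (Submodule.smul_mem_iff _ hne).mp h2
  -- dimension of the span
  have hdim : Module.finrank F (Submodule.span F (Set.range vv)) ≤ 4 := by
    classical
    let f : ι → (ι → F) := fun j => Xi *ᵥ Pi.single j 1
    have hle : Submodule.span F (Set.range vv) ≤
        Submodule.span F ((R.image f : Finset (ι → F)) : Set (ι → F)) := by
      rw [Submodule.span_le]
      rintro _ ⟨l, rfl⟩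
      obtain ⟨u, hu⟩ : ∃ u, u = X *ᵥ Pi.single l (1 : F) := ⟨_, rfl⟩
      have h1 : vv l = Xi *ᵥ (T *ᵥ u - u) := by
        show Mm *ᵥ Pi.single l 1 - Pi.single l 1 = _
        rw [hMv, ← hu, mulVec_sub, hu, mulVec_mulVec _ Xi X, hXiX, one_mulVec]
      have h2 : T *ᵥ u - u = ∑ j ∈ R, (((s j : F) - 1) * u j) • Pi.single j 1 := by
        ext d
        simp only [Pi.sub_apply, hTv, Finset.sum_apply, Pi.smul_apply, smul_eq_mul]
        by_cases hd : d ∈ R
        · rw [Finset.sum_eq_single d]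
          · simp; ring
          · intro j _ hj
            simp [hj.symm]
          · intro h; exact absurd hd h
        · rw [hR d hd, Finset.sum_eq_zero]
          · simp
          · intro j hj
            have : d ≠ j := fun e => hd (e ▸ hj)
            simp [this]
      rw [SetLike.mem_coe, h1, h2, mulVec_sum]
      refine Submodule.sum_mem _ fun j hj => ?_
      rw [mulVec_smul]
      refine Submodule.smul_mem _ _ (Submodule.subset_span ?_)
      simp only [Finset.coe_image, Set.mem_image, Finset.mem_coe]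
      exact ⟨j, hj, rfl⟩
    refine le_trans (Submodule.finrank_mono hle) ?_
    refine le_trans (finrank_span_finset_le_card _) ?_
    exact le_trans Finset.card_image_le hRc
  -- a sparse spanning family
  obtain ⟨κ, a', hinj, hsp, hli⟩ := exists_linearIndependent' F vv
  have : Fintype κ := Fintype.ofInjective a' hinj
  have hκ : Fintype.card κ ≤ 4 := by
    rw [← finrank_span_eq_card hli, hsp]
    exact hdim
  let Z : Finset ι := (Finset.univ.image a') ∪ (Finset.univ.image fun i => π (a' i))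
  have hZ : Z.card ≤ 8 := by
    refine le_trans (Finset.card_union_le _ _) ?_
    have h1 : (Finset.univ.image a').card ≤ Fintype.card κ := Finset.card_image_le
    have h2 : (Finset.univ.image fun i => π (a' i)).card ≤ Fintype.card κ := Finset.card_image_le
    omega
  have hzero : ∀ d, d ∉ Z → w d = 0 := by
    intro d hd
    have hd1 : ∀ i, d ≠ a' i := by
      intro i h
      apply hd
      rw [h]
      exact Finset.mem_union_left _ (Finset.mem_image_of_mem _ (Finset.mem_univ i))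
    have hd2 : ∀ i, d ≠ π (a' i) := by
      intro i h
      apply hd
      rw [h]
      exact Finset.mem_union_right _ (Finset.mem_image_of_mem (fun i => π (a' i)) (Finset.mem_univ i))
    rw [← hsp] at hspan
    have key : ∀ v ∈ Submodule.span F (Set.range (vv ∘ a')), v d = 0 := by
      intro v hv
      induction hv using Submodule.span_induction with
      | mem x hx =>
        obtain ⟨i, rfl⟩ := hx
        show vv (a' i) d = 0
        rw [hvv, Pi.sub_apply]
        simp [hd1 i, hd2 i]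
      | zero => rfl
      | add x y _ _ hx hy => rw [Pi.add_apply, hx, hy, add_zero]
      | smul c x _ hx => rw [Pi.smul_apply, hx, smul_zero]
    exact key w hspan
  obtain ⟨c, d, -, hc, hd, -, hcd, -, -⟩ := exists_three_avoid Z (by omega)
  have h1 : ((g⁻¹ : GL ι F) : Matrix ι ι F) c a = 0 := by
    rw [← hXi, ← hwd]; exact hzero c hc
  have h2 : ((g⁻¹ : GL ι F) : Matrix ι ι F) d a = 0 := by
    rw [← hXi, ← hwd]; exact hzero d hd
  have := mono_of_two_zeros hq hT hstar (by omega) (M.inv_mem hg) hcd h1 h2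
  simpa using isMono_inv this

theorem mono_of_zero (hn : 13 ≤ Fintype.card ι) {x : GL ι F} (hx : x ∈ M) {k c : ι}
    (hc : (x : Matrix ι ι F) c k = 0) : IsMono x := by
  classical
  obtain ⟨i, i', -, hi, hi', -, hii', -, -⟩ := exists_three_avoid ({k} : Finset ι) (by simp; omega)
  obtain ⟨j1, j2, j3, h1, h2, h3, h12, h13, h23⟩ := exists_three_avoid ({c} : Finset ι) (by simp; omega)
  simp only [Finset.mem_singleton] at hi hi' h1 h2 h3
  obtain ⟨y, hy⟩ : ∃ y : ι → F, y = fun d => (x : Matrix ι ι F) d k := ⟨_, rfl⟩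
  have hyd : ∀ d, (x : Matrix ι ι F) d k = y d := fun d => by rw [hy]
  obtain ⟨ρ, hρ⟩ : ∃ ρ : ι → F, ρ = fun d => ((x⁻¹ : GL ι F) : Matrix ι ι F) i d := ⟨_, rfl⟩
  obtain ⟨ρ', hρ'⟩ : ∃ ρ' : ι → F, ρ' = fun d => ((x⁻¹ : GL ι F) : Matrix ι ι F) i' d := ⟨_, rfl⟩
  obtain ⟨δ1, δ2, δ3, hδ, he1, he2⟩ := exists_delta (ρ j1 * y j1) (ρ j2 * y j2) (ρ j3 * y j3)
    (ρ' j1 * y j1) (ρ' j2 * y j2) (ρ' j3 * y j3)
  -- choice of `κ`
  obtain ⟨κ, hκ⟩ : ∃ κ : F, κ ∉ ({0, -δ1⁻¹, -δ2⁻¹, -δ3⁻¹} : Finset F) := by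
    by_contra hcon
    push Not at hcon
    have hsub : (Finset.univ : Finset F) ⊆ {0, -δ1⁻¹, -δ2⁻¹, -δ3⁻¹} := fun z _ => hcon z
    have h4 := Finset.card_le_card hsub
    have h5 : ({0, -δ1⁻¹, -δ2⁻¹, -δ3⁻¹} : Finset F).card ≤ 4 := Finset.card_le_four
    rw [Finset.card_univ] at h4
    omega
  simp only [Finset.mem_insert, Finset.mem_singleton, not_or] at hκ
  obtain ⟨hκ0, hκ1, hκ2, hκ3⟩ := hκ
  have hne : ∀ δ : F, κ ≠ -δ⁻¹ → 1 + κ * δ ≠ 0 := by
    intro δ hκδ h
    apply hκδ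
    have hδ0 : δ ≠ 0 := by
      rintro rfl
      simp at h
    field_simp
    linear_combination h
  let u1 : Fˣ := Units.mk0 _ (hne δ1 hκ1)
  let u2 : Fˣ := Units.mk0 _ (hne δ2 hκ2)
  let u3 : Fˣ := Units.mk0 _ (hne δ3 hκ3)
  let s : ι → Fˣ := fun d => tt j1 c u1 d * tt j2 c u2 d * tt j3 c u3 d
  have hprod : ∏ d, s d = 1 := by
    simp only [s, Finset.prod_mul_distrib, prod_tt h1, prod_tt h2, prod_tt h3, one_mul]
  have hs1 : (s j1 : F) = 1 + κ * δ1 := by
    simp only [s]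
    rw [tt_left, tt_other u2 h12 h1, tt_other u3 h13 h1]
    simp [u1]
  have hs2 : (s j2 : F) = 1 + κ * δ2 := by
    simp only [s]
    rw [tt_left, tt_other u1 h12.symm h2, tt_other u3 h23 h2]
    simp [u2]
  have hs3 : (s j3 : F) = 1 + κ * δ3 := by
    simp only [s]
    rw [tt_left, tt_other u1 h13.symm h3, tt_other u2 h23.symm h3]
    simp [u3]
  have hsother : ∀ d, d ≠ j1 → d ≠ j2 → d ≠ j3 → d ≠ c → s d = 1 := by
    intro d d1 d2 d3 d4
    simp only [s]
    rw [tt_other u1 d1 d4, tt_other u2 d2 d4, tt_other u3 d3 d4]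
    simp
  have hyc : y c = 0 := by rw [← hyd]; exact hc
  have hR0 : ∀ d, d ∉ ({j1, j2, j3} : Finset ι) → ((s d : F) - 1) * y d = 0 := by
    intro d hd
    simp only [Finset.mem_insert, Finset.mem_singleton, not_or] at hd
    by_cases hdc : d = c
    · rw [hdc, hyc, mul_zero]
    · rw [hsother d hd.1 hd.2.1 hd.2.2 hdc]
      simp
  have hsumf : ∀ f : ι → F, ∑ d ∈ ({j1, j2, j3} : Finset ι), f d = f j1 + f j2 + f j3 := by
    intro f
    rw [Finset.sum_insert (by simp [h12, h13]), Finset.sum_pair h23]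
    ring
  have hz1 : ((x⁻¹ * dg s * x : GL ι F) : Matrix ι ι F) i k = 0 := by
    rw [conj_entry]
    simp only [hyd]
    have := sum_diag ρ y (fun d => (s d : F)) _ hR0
    simp only [hρ] at this
    rw [this, hsumf]
    have h0 := sum_entry_zero x hi
    simp only [hyd] at h0
    rw [h0, hs1, hs2, hs3]
    simp only [hρ] at he1
    linear_combination κ * he1
  have hz2 : ((x⁻¹ * dg s * x : GL ι F) : Matrix ι ι F) i' k = 0 := by
    rw [conj_entry]
    simp only [hyd]
    have := sum_diag ρ' y (fun d => (s d : F)) _ hR0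
    simp only [hρ'] at this
    rw [this, hsumf]
    have h0 := sum_entry_zero x hi'
    simp only [hyd] at h0
    rw [h0, hs1, hs2, hs3]
    simp only [hρ'] at he2
    linear_combination κ * he2
  have hm := mono_of_two_zeros hq hT hstar (by omega)
    (M.mul_mem (M.mul_mem (M.inv_mem hx) (hT s hprod)) hx) hii' hz1 hz2
  have hRR : ∀ j, j ∉ ({j1, j2, j3, c} : Finset ι) → s j = 1 := by
    intro d hd
    simp only [Finset.mem_insert, Finset.mem_singleton, not_or] at hd
    exact hsother d hd.1 hd.2.1 hd.2.2.1 hd.2.2.2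
  have hRc : ({j1, j2, j3, c} : Finset ι).card ≤ 4 := Finset.card_le_four
  have hne1 : ∀ (j : ι) (δ : F), (s j : F) = 1 + κ * δ → δ ≠ 0 → s j ≠ 1 := by
    intro j δ h hδ0 h'
    rw [h', Units.val_one] at h
    exact (mul_ne_zero hκ0 hδ0) (by linear_combination -h)
  rcases hδ with hδ | hδ | hδ
  · exact mono_of_conj hq hT hstar hn hx hRR hRc (hne1 _ _ hs1 hδ) hm
  · exact mono_of_conj hq hT hstar hn hx hRR hRc (hne1 _ _ hs2 hδ) hm
  · exact mono_of_conj hq hT hstar hn hx hRR hRc (hne1 _ _ hs3 hδ) hm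

theorem mono_of_entries (hn : 13 ≤ Fintype.card ι) {g : GL ι F} (hg : g ∈ M) {i k : ι} (hik : i ≠ k)
    {a b : ι} (hab : a ≠ b)
    (hCa : ((g⁻¹ : GL ι F) : Matrix ι ι F) i a * (g : Matrix ι ι F) a k ≠ 0)
    (hCb : ((g⁻¹ : GL ι F) : Matrix ι ι F) i b * (g : Matrix ι ι F) b k ≠ 0)
    (hne : ((g⁻¹ : GL ι F) : Matrix ι ι F) i a * (g : Matrix ι ι F) a k ≠
      ((g⁻¹ : GL ι F) : Matrix ι ι F) i b * (g : Matrix ι ι F) b k) : IsMono g := by
  obtain ⟨Ca, hCad⟩ : ∃ Ca, Ca = ((g⁻¹ : GL ι F) : Matrix ι ι F) i a * (g : Matrix ι ι F) a k := ⟨_, rfl⟩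
  obtain ⟨Cb, hCbd⟩ : ∃ Cb, Cb = ((g⁻¹ : GL ι F) : Matrix ι ι F) i b * (g : Matrix ι ι F) b k := ⟨_, rfl⟩
  rw [← hCad] at hCa hne
  rw [← hCbd] at hCb hne
  let ν : Fˣ := Units.mk0 (Cb / Ca) (div_ne_zero hCb hCa)
  have hν : (ν : F) = Cb / Ca := rfl
  have hνi : ((ν⁻¹ : Fˣ) : F) = Ca / Cb := by
    rw [Units.val_inv_eq_inv_val, hν, inv_div]
  have hz : ((g⁻¹ * dg (tt a b ν) * g : GL ι F) : Matrix ι ι F) i k = 0 := by
    rw [conj_entry]
    have hR0 : ∀ d, d ∉ ({a, b} : Finset ι) →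
        ((tt a b ν d : F) - 1) * (g : Matrix ι ι F) d k = 0 := by
      intro d hd
      simp only [Finset.mem_insert, Finset.mem_singleton, not_or] at hd
      rw [tt_other ν hd.1 hd.2]
      simp
    have := sum_diag (fun d => ((g⁻¹ : GL ι F) : Matrix ι ι F) i d) (fun d => (g : Matrix ι ι F) d k)
      (fun d => (tt a b ν d : F)) _ hR0
    rw [this, sum_entry_zero g hik, Finset.sum_pair hab, tt_left, tt_right hab, ← hCad, ← hCbd, hν, hνi]
    field_simp
    ring
  have hm := mono_of_zero hq hT hstar hn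
    (M.mul_mem (M.mul_mem (M.inv_mem hg) (hT _ (prod_tt hab ν))) hg) hz
  have hν1 : tt a b ν a ≠ 1 := by
    rw [tt_left]
    intro h
    have : Cb / Ca = 1 := by rw [← hν, h]; rfl
    apply hne
    field_simp at this
    exact this.symm
  refine mono_of_conj hq hT hstar hn hg (R := {a, b}) ?_
    (le_trans Finset.card_le_two (by norm_num)) hν1 hm
  intro j hj
  simp only [Finset.mem_insert, Finset.mem_singleton, not_or] at hj
  exact tt_other ν hj.1 hj.2

theorem mono_all (hn : 13 ≤ Fintype.card ι) {g : GL ι F} (hg : g ∈ M) : IsMono g := by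
  classical
  by_cases hz : ∃ c k, (g : Matrix ι ι F) c k = 0
  · obtain ⟨c, k, h⟩ := hz
    exact mono_of_zero hq hT hstar hn hg h
  push Not at hz
  obtain ⟨i, k, k', -, -, -, hik, hik', hkk'⟩ := exists_three_avoid (∅ : Finset ι) (by simp; omega)
  obtain ⟨Xi, hXi⟩ : ∃ Xi : Matrix ι ι F, Xi = ((g⁻¹ : GL ι F) : Matrix ι ι F) := ⟨_, rfl⟩
  obtain ⟨C, hC⟩ : ∃ C : ι → F, C = fun j => Xi i j * (g : Matrix ι ι F) j k := ⟨_, rfl⟩
  have hCd : ∀ j, Xi i j * (g : Matrix ι ι F) j k = C j := fun j => by rw [hC]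
  by_cases h1 : ∃ a b, a ≠ b ∧ C a ≠ 0 ∧ C b ≠ 0 ∧ C a ≠ C b
  · obtain ⟨a, b, hab, ha, hb, hne⟩ := h1
    rw [← hCd] at ha hb
    rw [← hCd, ← hCd] at hne
    rw [hXi] at ha hb hne
    exact mono_of_entries hq hT hstar hn hg hik hab ha hb hne
  push Not at h1
  obtain ⟨a, ha⟩ := row_ne_zero g⁻¹ i
  rw [← hXi] at ha
  have hCa : C a ≠ 0 := by
    rw [← hCd]
    exact mul_ne_zero ha (hz a k)
  have hsum : ∑ j, C j = 0 := by
    have := sum_entry_zero g hik
    rw [← hXi] at this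
    simp only [hCd] at this
    exact this
  by_cases he : ∃ e, Xi i e = 0
  · obtain ⟨e, he⟩ := he
    have hCe : C e = 0 := by rw [← hCd, he, zero_mul]
    have hea : e ≠ a := fun h => hCa (h ▸ hCe)
    obtain ⟨b, hba, hCb⟩ : ∃ b, b ≠ a ∧ C b ≠ 0 := by
      by_contra hcon
      push Not at hcon
      apply hCa
      rw [← hsum, Finset.sum_eq_single a]
      · intro j _ hj
        exact hcon j hj
      · simp
    have hCba : C a = C b := h1 a b hba.symm hCa hCb
    have hbe : b ≠ e := fun h => hCb (h ▸ hCe)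
    obtain ⟨x, hx⟩ : ∃ x : F, x ∉ ({0, 1, 2} : Finset F) := by
      by_contra hcon
      push Not at hcon
      have hsub : (Finset.univ : Finset F) ⊆ {0, 1, 2} := fun z _ => hcon z
      have h4 := Finset.card_le_card hsub
      have h5 : ({0, 1, 2} : Finset F).card ≤ 3 := Finset.card_le_three
      rw [Finset.card_univ] at h4
      omega
    simp only [Finset.mem_insert, Finset.mem_singleton, not_or] at hx
    obtain ⟨hx0, hx1, hx2⟩ := hx
    let X : Fˣ := Units.mk0 x hx0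
    let Y : Fˣ := Units.mk0 (2 - x) (sub_ne_zero.mpr (Ne.symm hx2))
    let s : ι → Fˣ := fun d => tt a e X d * tt b e Y d
    have hprod : ∏ d, s d = 1 := by
      simp only [s, Finset.prod_mul_distrib, prod_tt hea.symm, prod_tt hbe, one_mul]
    have hsa : (s a : F) = x := by
      simp only [s]
      rw [tt_left, tt_other Y hba.symm hea.symm]
      simp [X]
    have hsb : (s b : F) = 2 - x := by
      simp only [s]
      rw [tt_left, tt_other X hba hbe]
      simp [Y]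
    have hsother : ∀ d, d ≠ a → d ≠ b → d ≠ e → s d = 1 := by
      intro d d1 d2 d3
      simp only [s]
      rw [tt_other X d1 d3, tt_other Y d2 d3]
      simp
    have hR0 : ∀ d, d ∉ ({a, b, e} : Finset ι) → ((s d : F) - 1) * (g : Matrix ι ι F) d k = 0 := by
      intro d hd
      simp only [Finset.mem_insert, Finset.mem_singleton, not_or] at hd
      rw [hsother d hd.1 hd.2.1 hd.2.2]
      simp
    have hz0 : ((g⁻¹ * dg s * g : GL ι F) : Matrix ι ι F) i k = 0 := by
      rw [conj_entry, ← hXi]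
      have := sum_diag (fun d => Xi i d) (fun d => (g : Matrix ι ι F) d k)
        (fun d => (s d : F)) _ hR0
      rw [this]
      simp only [hCd]
      rw [hsum, Finset.sum_insert (by simp [hba.symm, hea.symm]), Finset.sum_pair hbe, hCe, hsa, hsb,
        ← hCba]
      ring
    have hm := mono_of_zero hq hT hstar hn
      (M.mul_mem (M.mul_mem (M.inv_mem hg) (hT s hprod)) hg) hz0
    have hRR : ∀ j, j ∉ ({a, b, e} : Finset ι) → s j = 1 := by
      intro d hd
      simp only [Finset.mem_insert, Finset.mem_singleton, not_or] at hd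
      exact hsother d hd.1 hd.2.1 hd.2.2
    have hs1 : s a ≠ 1 := by
      intro h
      rw [h] at hsa
      exact hx1 hsa.symm
    exact mono_of_conj hq hT hstar hn hg hRR (le_trans Finset.card_le_three (by norm_num)) hs1 hm
  push Not at he
  have hCall : ∀ j, C j = C a := by
    intro j
    by_cases hj : j = a
    · rw [hj]
    · refine (h1 a j (Ne.symm hj) hCa ?_).symm
      rw [← hCd]
      exact mul_ne_zero (he j) (hz j k)
  -- the second column
  by_cases h2 : ∃ a b, a ≠ b ∧ Xi i a * (g : Matrix ι ι F) a k' ≠ Xi i b * (g : Matrix ι ι F) b k'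
  · obtain ⟨a', b', hab', hne⟩ := h2
    rw [hXi] at hne
    refine mono_of_entries hq hT hstar hn hg hik' hab' ?_ ?_ hne
    · rw [← hXi]; exact mul_ne_zero (he a') (hz a' k')
    · rw [← hXi]; exact mul_ne_zero (he b') (hz b' k')
  push Not at h2
  exfalso
  obtain ⟨ρ, hρ⟩ : ∃ ρ, ρ = (Xi i a * (g : Matrix ι ι F) a k') / C a := ⟨_, rfl⟩
  have hcol : ∀ j, (g : Matrix ι ι F) j k' = ρ * (g : Matrix ι ι F) j k := by
    intro j
    have h3 : Xi i j * (g : Matrix ι ι F) j k' = Xi i a * (g : Matrix ι ι F) a k' := by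
      by_cases hj : j = a
      · rw [hj]
      · exact h2 j a hj
    have h4 : Xi i j * (g : Matrix ι ι F) j k = C a := by rw [hCd, hCall]
    apply mul_left_cancel₀ (he j)
    rw [h3, show Xi i j * (ρ * (g : Matrix ι ι F) j k) = ρ * (Xi i j * (g : Matrix ι ι F) j k) by ring,
      h4, hρ, div_mul_cancel₀ _ hCa]
  have h6 := congrFun (congrFun (inv_mul_val g) k') k'
  rw [Matrix.mul_apply, Matrix.one_apply_eq] at h6
  simp only [hcol] at h6
  have h7 := sum_entry_zero g (i := k') (k := k) hkk'.symm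
  have h8 : ∑ d, ((g⁻¹ : GL ι F) : Matrix ι ι F) k' d * (ρ * (g : Matrix ι ι F) d k) =
      ρ * ∑ d, ((g⁻¹ : GL ι F) : Matrix ι ι F) k' d * (g : Matrix ι ι F) d k := by
    rw [Finset.mul_sum]
    exact Finset.sum_congr rfl fun d _ => by ring
  rw [h8, h7, mul_zero] at h6
  exact zero_ne_one h6

end star

end Cfsg.Agent.Lib.GLMonStar
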