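import Mathlib
import Cfsg.Agent.Lib.GLMonFull
import Cfsg.Agent.Lib.GLMonStar

/-!
# Spreading elementary transvections, lifts from the stabiliser of a coordinate line, and
maximality of the monomial group in `SL(ι, F)`, `|F| ≥ 5`, `|ι| ≥ 13`
-/

set_option autoImplicit false
set_option linter.unusedSectionVars false
set_option linter.unusedVariables false

namespace Cfsg.Agent.Lib.GLMonLift

open Matrix Cfsg.Geo Cfsg.Agent.Lib.TvGL Cfsg.Agent.Lib.GLMon Cfsg.Agent.Lib.GLMonFull
  Cfsg.Agent.Lib.GLMonStar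
open scoped MatrixGroups

variable {ι : Type} [Fintype ι] [DecidableEq ι] {F : Type*} [Field F]

set_option backward.isDefEq.respectTransparency.types false in
/-- A subgroup of `GL` containing all elementary transvections contains the special linear group. -/
theorem sl_le_of_elem (M : Subgroup (GL ι F))
    (hM : ∀ (i j : ι), i ≠ j → ∀ a : F, Gam M (Pi.single i a) (Pi.single j 1)) :
    specialLinear ι F ≤ M := by
  intro g hg
  rw [mem_specialLinear_iff] at hg
  by_cases hn : Nontrivial ι
  swap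
  · have hs : Subsingleton ι := not_nontrivial_iff_subsingleton.mp hn
    have : g = 1 := by
      apply Units.ext
      ext i j
      have hij : i = j := Subsingleton.elim _ _
      subst hij
      have h1 : ((g : GL ι F) : Matrix ι ι F).det = (g : Matrix ι ι F) i i := by
        rw [Matrix.det_eq_elem_of_subsingleton _ i]
      rw [h1] at hg
      simp [hg]
    rw [this]
    exact M.one_mem
  let G : SpecialLinearGroup ι F := ⟨(g : Matrix ι ι F), hg⟩
  let P : SpecialLinearGroup ι F → Prop := fun A => SpecialLinearGroup.toGL A ∈ M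
  have key : P G := by
    have htrans : ∀ (i j : ι) (hij : i ≠ j) (a : F), P (SpecialLinearGroup.transvection hij a) := by
      intro i j hij a
      obtain ⟨hdot, hmem⟩ := hM i j hij a
      have : SpecialLinearGroup.toGL (SpecialLinearGroup.transvection hij a) =
          tv (Pi.single i a) (Pi.single j 1) hdot := by
        apply Units.ext
        show (SpecialLinearGroup.transvection hij a : Matrix ι ι F) = _
        rw [SpecialLinearGroup.transvection_coe, tv_val]
        congr 1
        ext k l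
        simp only [Matrix.single_apply, vecMulVec_apply, Pi.single_apply]
        by_cases h1 : i = k <;> by_cases h2 : j = l
        · subst h1; subst h2; simp
        · subst h1; simp [h2, Ne.symm h2]
        · subst h2; simp [h1, Ne.symm h1]
        · simp [h1, h2, Ne.symm h1, Ne.symm h2]
      show SpecialLinearGroup.toGL _ ∈ M
      rw [this]
      exact hmem
    have hmul : ∀ A B : SpecialLinearGroup ι F, P A → P B → P (A * B) := by
      intro A B hA hB
      show SpecialLinearGroup.toGL (A * B) ∈ M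
      rw [map_mul]
      exact M.mul_mem hA hB
    refine SpecialLinearGroup.diagonal_transvection_induction' P G ?_ htrans hmul
    intro i j hij c hc
    have e : SpecialLinearGroup.diag2n hij c hc =
        SpecialLinearGroup.transvection hij c * SpecialLinearGroup.transvection hij.symm (-c⁻¹) *
          SpecialLinearGroup.transvection hij c * SpecialLinearGroup.transvection hij (-1) *
          SpecialLinearGroup.transvection hij.symm 1 * SpecialLinearGroup.transvection hij (-1) := by
      have hstep : ∀ (a b : ι) (hab : a ≠ b) (t : F) (u : ι → F),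
          ((SpecialLinearGroup.transvection hab t : SpecialLinearGroup ι F) : Matrix ι ι F) *ᵥ u =
            Function.update u a (u a + t * u b) := by
        intro a b hab t u
        rw [SpecialLinearGroup.transvection_coe, add_mulVec, one_mulVec, single_mulVec]
        ext k
        by_cases hk : k = a
        · subst hk; simp
        · simp [Function.update_of_ne hk, Pi.single_apply, hk]
      apply SpecialLinearGroup.coeMonoidHom_injective
      simp only [map_mul]
      apply Matrix.ext_of_mulVec_single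
      intro l
      generalize (Pi.single l (1 : F) : ι → F) = u
      simp only [SpecialLinearGroup.coeMonoidHom_apply, ← mulVec_mulVec, hstep]
      rw [SpecialLinearGroup.diag2n_coe]
      ext k
      rw [mulVec_diagonal]
      by_cases h1 : k = i
      · subst h1
        simp [Function.update_of_ne hij.symm, Function.update_self, Function.update_of_ne hij]
        field_simp
        ring
      · by_cases h2 : k = j
        · subst h2
          simp [Function.update_of_ne hij.symm, Function.update_self, Function.update_of_ne hij, h1]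
          field_simp
          ring
        · simp [Function.update_of_ne h1, Function.update_of_ne h2, h1, h2]
    rw [e]
    exact hmul _ _ (hmul _ _ (hmul _ _ (hmul _ _ (hmul _ _ (htrans _ _ _ _) (htrans _ _ _ _))
      (htrans _ _ _ _)) (htrans _ _ _ _)) (htrans _ _ _ _)) (htrans _ _ _ _)
  have : SpecialLinearGroup.toGL G = g := by
    apply Units.ext
    rfl
  rw [← this]
  exact key

/-- The sign of a permutation as a unit of `F`. -/
def signU (π : Equiv.Perm ι) : Fˣ := Units.map (Int.castRingHom F).toMonoidHom (Equiv.Perm.sign π)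

theorem signU_val (π : Equiv.Perm ι) :
    ((signU π : Fˣ) : F) = (((Equiv.Perm.sign π : ℤˣ) : ℤ) : F) := rfl

theorem signU_sq (π : Equiv.Perm ι) :
    (((Equiv.Perm.sign π : ℤˣ) : ℤ) : F) * ((signU π : Fˣ) : F) = 1 := by
  rw [signU_val, ← Int.cast_mul, ← Units.val_mul, Int.units_mul_self]
  simp

theorem prod_ds (z : ι) (ε : Fˣ) : ∏ a, ds z ε a = ε := by
  rw [Finset.prod_eq_single z]
  · exact ds_same z ε
  · intro b _ hb
    exact ds_ne ε hb
  · simp

theorem prod_ds_val (z : ι) (ε : Fˣ) : ∏ a, (ds z ε a : F) = ε := by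
  have := congrArg Units.val (prod_ds z ε)
  simpa using this

/-- The signed permutation with the sign corrected at the source coordinate `z`. -/
theorem signed_mem_SL (π : Equiv.Perm ι) (z : ι) : mon π (ds z (signU π)) ∈ specialLinear ι F := by
  apply mon_mem_SL
  rw [prod_ds_val]
  exact signU_sq π

section spread

variable {κ : Type} [Fintype κ] [DecidableEq κ]

theorem exists_third (hn : 3 ≤ Fintype.card ι) (a b : ι) : ∃ z, z ≠ a ∧ z ≠ b := by
  by_contra hcon
  push Not at hcon
  have : (Finset.univ : Finset ι) ⊆ {a, b} := by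
    intro d _
    by_cases hd' : d = a
    · simp [hd']
    · simp [hcon d hd']
  have := Finset.card_le_card this
  have h2' : ({a, b} : Finset ι).card ≤ 2 := Finset.card_le_two
  rw [Finset.card_univ] at this
  omega

theorem gam_zero (M : Subgroup (GL ι F)) {a b : ι} (hab : a ≠ b) :
    Gam M (Pi.single a (0 : F)) (Pi.single b 1) := by
  have h0 : (Pi.single b (1 : F) : ι → F) ⬝ᵥ (Pi.single a (0 : F) : ι → F) = 0 := by simp
  refine ⟨h0, ?_⟩
  have : tv (Pi.single a (0 : F)) (Pi.single b 1) h0 = 1 := by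
    apply Units.ext
    rw [tv_val]
    ext i j
    simp
  rw [this]
  exact M.one_mem

theorem spread (c : ι → κ) (M : Subgroup (GL ι F))
    (hHM : ∀ x, x ∈ specialLinear ι F → BlockPres c x → x ∈ M) (hn : 3 ≤ Fintype.card ι)
    (hperm : ∀ p k p₁ k₁, c p ≠ c k → c p₁ ≠ c k₁ →
      ∃ (π : Equiv.Perm ι) (σ : Equiv.Perm κ), (∀ a, c (π a) = σ (c a)) ∧ π p = p₁ ∧ π k = k₁)
    {p k : ι} (hpk : c p ≠ c k) {r : F} (hr : r ≠ 0)
    (hG : Gam M (Pi.single p r) (Pi.single k 1)) : specialLinear ι F ≤ M := by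
  have hne : p ≠ k := fun e => hpk (e ▸ rfl)
  have hdg : ∀ s : ι → Fˣ, ∏ a, s a = 1 → dg s ∈ M := by
    intro s hs
    refine hHM _ (dg_mem_SL s hs) ⟨1, fun a b hab => ?_⟩
    rw [dg_apply, if_neg]
    rintro rfl
    exact hab rfl
  obtain ⟨z, hz1, hz2⟩ := exists_third hn p k
  have hscale : ∀ r' : F, Gam M (Pi.single p r') (Pi.single k 1) := by
    intro r'
    by_cases hr' : r' = 0
    · subst hr'
      exact gam_zero M hne
    have h0 : r' / r ≠ 0 := div_ne_zero hr' hr
    have h1 := gam_conj hG (hdg _ (prod_tt hz1.symm (Units.mk0 (r' / r) h0)))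
    rw [dg_single, tt_left] at h1
    refine gam_congr h1 ?_ ?_
    · congr 1
      simp
      field_simp
    · ext d
      rw [vecMul_dg_inv]
      by_cases hd : d = k
      · subst hd
        rw [tt_other _ hne.symm hz2.symm]
        simp
      · simp [hd]
  apply sl_le_of_elem
  intro p₁ k₁ hne₁ a
  by_cases hc : c p₁ = c k₁
  · -- inside a block
    have hdot : (Pi.single k₁ (1 : F) : ι → F) ⬝ᵥ (Pi.single p₁ a : ι → F) = 0 :=
      single_dot_single hne₁ a
    refine ⟨hdot, hHM _ (tv_mem_specialLinear _ _ _) ⟨1, fun d e hde => ?_⟩⟩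
    rw [tv_val, Matrix.add_apply, vecMulVec_apply, Matrix.one_apply_ne]
    · by_cases h1 : e = p₁
      · subst h1
        have : d ≠ k₁ := by
          rintro rfl
          exact hde hc
        simp [this]
      · simp [h1]
    · rintro rfl
      exact hde rfl
  · obtain ⟨π, σ, hπσ, h1, h2⟩ := hperm p k p₁ k₁ hpk hc
    have hm : mon π (ds z (signU π)) ∈ M := by
      refine hHM _ (signed_mem_SL π z) ⟨σ, fun d e hde => ?_⟩
      rw [mon_apply, if_neg]
      intro h
      apply hde
      rw [h, hπσ]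
    have h3 := gam_conj (hscale a) hm
    refine gam_congr h3 ?_ ?_
    · ext d
      rw [mon_mulVec]
      by_cases hd : d = p₁
      · subst hd
        rw [← h1]
        simp [ds_ne _ hz1.symm]
      · have : π.symm d ≠ p := by
          intro e
          apply hd
          rw [← h1, ← e]; simp
        simp [hd, this]
    · ext d
      rw [vecMul_mon_inv]
      by_cases hd : d = k₁
      · subst hd
        rw [← h2]
        simp [ds_ne _ hz2.symm]
      · have : π.symm d ≠ k := by
          intro e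
          apply hd
          rw [← h2, ← e]; simp
        simp [hd, this]

end spread

section lifts

variable [Fintype F] (hq : 5 ≤ Fintype.card F) {M : Subgroup (GL ι F)}
  (hT : ∀ s : ι → Fˣ, ∏ a, s a = 1 → dg s ∈ M)

theorem dg_conj_apply (s : ι → Fˣ) (x : GL ι F) (b d : ι) :
    ((dg s * x * (dg s)⁻¹ : GL ι F) : Matrix ι ι F) b d =
      (s b : F) * (x : Matrix ι ι F) b d * (((s d)⁻¹ : Fˣ) : F) := by
  rw [Units.val_mul, Units.val_mul, Matrix.mul_apply, Finset.sum_eq_single d]
  · rw [Matrix.mul_apply, Finset.sum_eq_single b]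
    · rw [dg_apply, mon_inv_apply]
      simp
    · intro e _ he
      rw [dg_apply, if_neg he.symm, zero_mul]
    · simp
  · intro e _ he
    rw [mon_inv_apply, if_neg]
    · simp
    · simpa using he.symm
  · simp

include hq hT

theorem axis_reduce (hn : 5 ≤ Fintype.card ι) {c : ι} {r : F} {θ : ι → F} (hr : r ≠ 0)
    (hG : Gam M (Pi.single c r) θ) (hθ0 : θ ≠ 0) : Elem M := by
  have hθc : θ c = 0 := by
    have := hG.dot
    rw [dotProduct_single] at this
    exact (mul_eq_zero.mp this).resolve_right hr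
  obtain ⟨b, hb⟩ : ∃ b, θ b ≠ 0 := by
    by_contra h
    push Not at h
    exact hθ0 (funext h)
  have hbc : b ≠ c := fun e => hb (e ▸ hθc)
  obtain ⟨e, e', -, he, he', -, hee', -, -⟩ := exists_three_avoid ({b, c} : Finset ι)
    (by have : ({b, c} : Finset ι).card ≤ 2 := Finset.card_le_two
        omega)
  simp only [Finset.mem_insert, Finset.mem_singleton, not_or] at he he'
  obtain ⟨σ, hσ⟩ := exists_unit_ne_one hq
  have hσ' : ((σ⁻¹ : Fˣ) : F) ≠ 1 := by
    intro h
    apply hσ
    have : σ⁻¹ = 1 := Units.ext h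
    rw [inv_eq_one.mp this]; rfl
  -- step 1
  have h1 := gam_conj hG (hT _ (prod_tt (Ne.symm he.1) σ))
  rw [dg_single, tt_other σ hbc.symm (Ne.symm he.2), Units.val_one, one_mul] at h1
  have h2 := gam_sub_cov hG h1
  obtain ⟨θ₁, hθ₁⟩ : ∃ θ₁, θ₁ = θ - θ ᵥ* (((dg (tt b e σ))⁻¹ : GL ι F) : Matrix ι ι F) := ⟨_, rfl⟩
  rw [← hθ₁] at h2
  have hθ₁d : ∀ d, θ₁ d = θ d * (1 - (((tt b e σ d)⁻¹ : Fˣ) : F)) := by
    intro d
    rw [hθ₁, Pi.sub_apply, vecMul_dg_inv]
    ring
  have hθ₁b : θ₁ b ≠ 0 := by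
    rw [hθ₁d, tt_left]
    exact mul_ne_zero hb (sub_ne_zero.mpr (Ne.symm hσ'))
  have hθ₁e' : θ₁ e' = 0 := by
    rw [hθ₁d, tt_other σ he'.1 hee'.symm]
    simp
  -- step 2
  have h3 := gam_conj h2 (hT _ (prod_tt (Ne.symm he'.1) σ))
  rw [dg_single, tt_other σ hbc.symm (Ne.symm he'.2), Units.val_one, one_mul] at h3
  have h4 := gam_sub_cov h2 h3
  have e2 : θ₁ - θ₁ ᵥ* (((dg (tt b e' σ))⁻¹ : GL ι F) : Matrix ι ι F) =
      (θ₁ b * (1 - ((σ⁻¹ : Fˣ) : F))) • (Pi.single b 1 : ι → F) := by
    ext d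
    rw [Pi.sub_apply, vecMul_dg_inv]
    by_cases hdb : d = b
    · subst hdb
      rw [tt_left]
      simp
      ring
    · by_cases hde' : d = e'
      · subst hde'
        simp [hθ₁e', hdb]
      · rw [tt_other σ hdb hde']
        simp [hdb]
  rw [e2] at h4
  have h5 := gam_smul_comm' h4
  rw [smul_single'] at h5
  exact ⟨c, b, hbc.symm, _, mul_ne_zero (mul_ne_zero hθ₁b (sub_ne_zero.mpr (Ne.symm hσ'))) hr, h5⟩

theorem lift_center {x : GL ι F} (hx : x ∈ M) {c g : ι} (hcol : ∀ b, b ≠ c → (x : Matrix ι ι F) b c = 0)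
    (hgc : g ≠ c) (hg1 : ∀ b, b ≠ c → b ≠ g → (x : Matrix ι ι F) b g = 0)
    (hg2 : ∀ d, d ≠ g → (x : Matrix ι ι F) g d = 0) (hg3 : (x : Matrix ι ι F) g g = 1) (ν : Fˣ) :
    Gam M (Pi.single c ((x : Matrix ι ι F) c c)⁻¹) (fun d =>
      (((ν⁻¹ : Fˣ) : F) * (((tt g c ν d)⁻¹ : Fˣ) : F) - 1) * (x : Matrix ι ι F) c d) := by
  obtain ⟨θ, hθ⟩ : ∃ θ : ι → F, θ = fun d =>
      (((ν⁻¹ : Fˣ) : F) * (((tt g c ν d)⁻¹ : Fˣ) : F) - 1) * (x : Matrix ι ι F) c d := ⟨_, rfl⟩
  rw [← hθ]
  have hθd : ∀ d, θ d = (((ν⁻¹ : Fˣ) : F) * (((tt g c ν d)⁻¹ : Fˣ) : F) - 1) * (x : Matrix ι ι F) c d :=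
    fun d => by rw [hθ]
  obtain ⟨k, hk⟩ := col_ne_zero x c
  have hcc : (x : Matrix ι ι F) c c ≠ 0 := by
    by_cases e : k = c
    · rwa [e] at hk
    · exact absurd (hcol k e) hk
  have hθc : θ c = 0 := by
    rw [hθd, tt_right hgc]
    simp
  have h : θ ⬝ᵥ (Pi.single c ((x : Matrix ι ι F) c c)⁻¹ : ι → F) = 0 := by
    rw [dotProduct_single, hθc, zero_mul]
  refine ⟨h, ?_⟩
  have hmem : x⁻¹ * (dg (tt g c ν) * x * (dg (tt g c ν))⁻¹) ∈ M :=
    M.mul_mem (M.inv_mem hx) (M.mul_mem (M.mul_mem (hT _ (prod_tt hgc ν)) hx)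
      (M.inv_mem (hT _ (prod_tt hgc ν))))
  have e : tv (Pi.single c ((x : Matrix ι ι F) c c)⁻¹) θ h =
      x⁻¹ * (dg (tt g c ν) * x * (dg (tt g c ν))⁻¹) := by
    rw [eq_inv_mul_iff_mul_eq]
    apply Units.ext
    ext b d
    rw [dg_conj_apply, Units.val_mul, tv_val, Matrix.mul_add, Matrix.mul_one, Matrix.add_apply,
      Matrix.mul_apply]
    have h1 : ∑ j, (x : Matrix ι ι F) b j *
        vecMulVec (Pi.single c ((x : Matrix ι ι F) c c)⁻¹) θ j d =
        (x : Matrix ι ι F) b c * ((x : Matrix ι ι F) c c)⁻¹ * θ d := by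
      rw [Finset.sum_eq_single c]
      · rw [vecMulVec_apply]; simp; ring
      · intro j _ hj
        rw [vecMulVec_apply]; simp [hj]
      · simp
    rw [h1]
    by_cases hbc : b = c
    · subst hbc
      rw [mul_inv_cancel₀ hcc, one_mul, hθd, tt_right hgc]
      simp
      ring
    · rw [hcol b hbc, zero_mul, zero_mul, add_zero]
      by_cases hbg : b = g
      · subst hbg
        by_cases hdb : d = b
        · subst hdb
          rw [hg3, tt_left]
          simp
        · rw [hg2 d hdb]
          simp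
      · rw [tt_other ν hbg hbc, Units.val_one, one_mul]
        by_cases hdg : d = g
        · subst hdg
          rw [hg1 b hbc hbg]
          simp
        · by_cases hdc : d = c
          · subst hdc
            rw [hcol b hbc]
            simp
          · rw [tt_other ν hdg hdc]
            simp
  rw [e]
  exact hmem

/-- If some entry of row `c` off the diagonal is non-zero, then `M` has an elementary transvection. -/
theorem elem_of_row {x : GL ι F} (hx : x ∈ M) (hn : 5 ≤ Fintype.card ι) {c g : ι}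
    (hcol : ∀ b, b ≠ c → (x : Matrix ι ι F) b c = 0)
    (hgc : g ≠ c) (hg1 : ∀ b, b ≠ c → b ≠ g → (x : Matrix ι ι F) b g = 0)
    (hg2 : ∀ d, d ≠ g → (x : Matrix ι ι F) g d = 0) (hg3 : (x : Matrix ι ι F) g g = 1)
    {d₀ : ι} (hd₀c : d₀ ≠ c) (hd₀ : (x : Matrix ι ι F) c d₀ ≠ 0) : Elem M := by
  obtain ⟨ν, hν2, hν3⟩ := exists_nu hq
  obtain ⟨k, hk⟩ := col_ne_zero x c
  have hcc : (x : Matrix ι ι F) c c ≠ 0 := by
    by_cases e : k = c
    · rwa [e] at hk
    · exact absurd (hcol k e) hk
  refine axis_reduce hq hT hn (inv_ne_zero hcc) (lift_center hq hT hx hcol hgc hg1 hg2 hg3 ν) ?_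
  intro h0
  have h1 := congrFun h0 d₀
  simp only [Pi.zero_apply] at h1
  have h2 := (mul_eq_zero.mp h1).resolve_right hd₀
  have hu : ν⁻¹ * (tt g c ν d₀)⁻¹ = 1 := by
    apply Units.ext
    rw [Units.val_mul, Units.val_one]
    linear_combination h2
  by_cases hd₀g : d₀ = g
  · subst hd₀g
    rw [tt_left] at hu
    apply hν2
    rw [pow_two]
    have : (ν * ν)⁻¹ = 1 := by
      rw [_root_.mul_inv_rev]; exact hu
    exact inv_eq_one.mp this
  · rw [tt_other ν hd₀g hd₀c] at hu
    apply hν2
    have : ν⁻¹ = 1 := by simpa using hu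
    rw [inv_eq_one.mp this]; simp

theorem case_L1 (hn : 5 ≤ Fintype.card ι) {z : GL ι F} (hz : z ∈ M) {c : ι}
    (hcol : ∀ b, b ≠ c → (z : Matrix ι ι F) b c = 0)
    (hrows : ∀ a b, a ≠ c → b ≠ c → (z : Matrix ι ι F) a b = if a = b then 1 else 0)
    {d₀ : ι} (hd₀c : d₀ ≠ c) (hd₀ : (z : Matrix ι ι F) c d₀ ≠ 0) : Elem M := by
  refine elem_of_row hq hT hz hn hcol hd₀c ?_ ?_ ?_ hd₀c hd₀
  · intro b hb hbg
    rw [hrows b d₀ hb hd₀c, if_neg hbg]
  · intro d hd
    by_cases hdc : d = c
    · rw [hdc]; exact hcol _ hd₀c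
    · rw [hrows d₀ d hd₀c hdc, if_neg (Ne.symm hd)]
  · rw [hrows d₀ d₀ hd₀c hd₀c, if_pos rfl]

theorem case_L2 (hn : 6 ≤ Fintype.card ι) {x : GL ι F} (hx : x ∈ M) {c a b : ι}
    (hcol : ∀ d, d ≠ c → (x : Matrix ι ι F) d c = 0) (ha : a ≠ c) (hb : b ≠ c) (hab : a ≠ b)
    (hrows : ∀ a' b', a' ≠ c → b' ≠ c → (x : Matrix ι ι F) a' b' =
      (if a' = b' then 1 else 0) + (if a' = a ∧ b' = b then 1 else 0)) : Elem M := by
  obtain ⟨g, -, -, hg, -, -, -, -, -⟩ := exists_three_avoid ({a, b, c} : Finset ι)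
    (by have : ({a, b, c} : Finset ι).card ≤ 3 := Finset.card_le_three
        omega)
  simp only [Finset.mem_insert, Finset.mem_singleton, not_or] at hg
  obtain ⟨hga, hgb, hgc⟩ := hg
  by_cases hθ : ∃ d, d ≠ c ∧ (x : Matrix ι ι F) c d ≠ 0
  · obtain ⟨d₀, hd₀c, hd₀⟩ := hθ
    refine elem_of_row hq hT hx (by omega) hcol hgc ?_ ?_ ?_ hd₀c hd₀
    · intro b' hb' hb'g
      rw [hrows b' g hb' hgc, if_neg hb'g, if_neg (fun h => hgb h.2)]
      simp
    · intro d hd
      by_cases hdc : d = c
      · rw [hdc]; exact hcol _ hgc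
      · rw [hrows g d hgc hdc, if_neg (Ne.symm hd), if_neg (fun h => hga h.1)]
        simp
    · rw [hrows g g hgc hgc, if_pos rfl, if_neg (fun h => hga h.1)]
      simp
  push Not at hθ
  obtain ⟨ν, hν⟩ := exists_unit_ne_one hq
  have hdot : (Pi.single b (1 : F) : ι → F) ⬝ᵥ (Pi.single a ((ν : F) - 1) : ι → F) = 0 :=
    single_dot_single hab _
  refine ⟨a, b, hab, (ν : F) - 1, sub_ne_zero.mpr hν, hdot, ?_⟩
  have hmem : x⁻¹ * (dg (tt a g ν) * x * (dg (tt a g ν))⁻¹) ∈ M :=
    M.mul_mem (M.inv_mem hx) (M.mul_mem (M.mul_mem (hT _ (prod_tt (Ne.symm hga) ν)) hx)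
      (M.inv_mem (hT _ (prod_tt (Ne.symm hga) ν))))
  have e : tv (Pi.single a ((ν : F) - 1)) (Pi.single b 1) hdot =
      x⁻¹ * (dg (tt a g ν) * x * (dg (tt a g ν))⁻¹) := by
    rw [eq_inv_mul_iff_mul_eq]
    apply Units.ext
    ext b' d
    rw [dg_conj_apply, Units.val_mul, tv_val, Matrix.mul_add, Matrix.mul_one, Matrix.add_apply,
      Matrix.mul_apply]
    have h1 : ∑ j, (x : Matrix ι ι F) b' j *
        vecMulVec (Pi.single a ((ν : F) - 1)) (Pi.single b 1) j d =
        (x : Matrix ι ι F) b' a * ((ν : F) - 1) * (Pi.single b (1 : F) : ι → F) d := by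
      rw [Finset.sum_eq_single a]
      · rw [vecMulVec_apply]; simp; ring
      · intro j _ hj
        rw [vecMulVec_apply]; simp [hj]
      · simp
    rw [h1]
    have hσa : (tt a g ν a : F) = ν := by rw [tt_left]
    by_cases hb'c : b' = c
    · subst hb'c
      rw [hθ a ha, zero_mul, zero_mul, add_zero, tt_other ν (Ne.symm ha) (Ne.symm hgc), Units.val_one,
        one_mul]
      by_cases hdc : d = b'
      · subst hdc
        rw [tt_other ν (Ne.symm ha) (Ne.symm hgc)]
        simp
      · rw [hθ d hdc]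
        simp
    by_cases hdc : d = c
    · subst hdc
      have hne : (Pi.single b (1 : F) : ι → F) d = 0 := by simp [Ne.symm hb]
      rw [hne, mul_zero, add_zero, hcol b' hb'c]
      simp
    rw [hrows b' d hb'c hdc, hrows b' a hb'c ha]
    by_cases hb'a : b' = a
    · subst hb'a
      rw [tt_left]
      by_cases hdb' : d = b'
      · subst hdb'
        rw [tt_left]
        simp [Ne.symm hab, hab]
      · by_cases hdb : d = b
        · subst hdb
          rw [tt_other ν hdb' (Ne.symm hgb)]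
          simp [hdb', Ne.symm hdb', hab]
        · by_cases hdg : d = g
          · subst hdg
            simp [Ne.symm hdb', hdb, hab]
          · rw [tt_other ν hdb' hdg]
            simp [Ne.symm hdb', hdb, hab]
    · by_cases hb'g : b' = g
      · subst hb'g
        rw [tt_right (Ne.symm hga)]
        by_cases hdb' : d = b'
        · subst hdb'
          rw [tt_right (Ne.symm hga)]
          simp [hb'a]
        · simp [Ne.symm hdb', hb'a]
      · rw [tt_other ν hb'a hb'g, Units.val_one, one_mul]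
        by_cases hdb' : d = b'
        · subst hdb'
          rw [tt_other ν hb'a hb'g]
          simp [hb'a]
        · simp [Ne.symm hdb', hb'a]
  rw [e]
  exact hmem

end lifts

section res

/-- The stabiliser of the coordinate line `e_c`. -/
def lineStab (c : ι) : Subgroup (GL ι F) where
  carrier := {x | ∀ b, b ≠ c → (x : Matrix ι ι F) b c = 0}
  one_mem' := fun b hb => by
    show ((1 : GL ι F) : Matrix ι ι F) b c = 0
    rw [Units.val_one, Matrix.one_apply_ne hb]
  mul_mem' := by
    intro x y hx hy b hb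
    rw [Units.val_mul, Matrix.mul_apply, Finset.sum_eq_single c]
    · rw [hx b hb, zero_mul]
    · intro d _ hd
      rw [hy d hd, mul_zero]
    · simp
  inv_mem' := by
    intro x hx b hb
    have hcc : (x : Matrix ι ι F) c c ≠ 0 := by
      obtain ⟨k, hk⟩ := col_ne_zero x c
      by_cases e : k = c
      · rwa [e] at hk
      · exact absurd (hx k e) hk
    have := congrFun (congrFun (inv_mul_val x) b) c
    rw [Matrix.mul_apply, Matrix.one_apply_ne hb, Finset.sum_eq_single c] at this
    · exact (mul_eq_zero.mp this).resolve_right hcc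
    · intro d _ hd
      rw [hx d hd, mul_zero]
    · simp

/-- Restriction of a matrix to the coordinates different from `c`. -/
def resMat (c : ι) (x : Matrix ι ι F) : Matrix {a // a ≠ c} {a // a ≠ c} F :=
  x.submatrix Subtype.val Subtype.val

theorem resMat_mul (c : ι) {x : Matrix ι ι F} (y : Matrix ι ι F) (hx : ∀ b, b ≠ c → x b c = 0) :
    resMat c (x * y) = resMat c x * resMat c y := by
  ext a b
  simp only [resMat, Matrix.submatrix_apply, Matrix.mul_apply]
  rw [Fintype.sum_eq_add_sum_subtype_ne _ c, hx _ a.2, zero_mul, zero_add]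

theorem resMat_one (c : ι) : resMat c (1 : Matrix ι ι F) = 1 := by
  ext a b
  simp only [resMat, Matrix.submatrix_apply, Matrix.one_apply, Subtype.ext_iff]

/-- The restriction homomorphism on the stabiliser of `e_c`. -/
def resHom (c : ι) : lineStab (F := F) c →* GL {a // a ≠ c} F where
  toFun x :=
    { val := resMat c (x.1 : Matrix ι ι F)
      inv := resMat c ((x.1⁻¹ : GL ι F) : Matrix ι ι F)
      val_inv := by
        rw [← resMat_mul c _ x.2, mul_inv_val, resMat_one]
      inv_val := by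
        rw [← resMat_mul c _ ((lineStab (F := F) c).inv_mem x.2), inv_mul_val, resMat_one] }
  map_one' := by
    apply Units.ext
    exact resMat_one c
  map_mul' x y := by
    apply Units.ext
    exact resMat_mul c _ x.2

theorem resHom_apply (c : ι) (x : lineStab (F := F) c) (a b : {a // a ≠ c}) :
    ((resHom c x : GL {a // a ≠ c} F) : Matrix {a // a ≠ c} {a // a ≠ c} F) a b =
      (x.1 : Matrix ι ι F) a.1 b.1 := rfl

/-- Extension of a function on `{a // a ≠ c}` by `ε` at `c`. -/
def extS (c : ι) (s' : {a // a ≠ c} → Fˣ) (ε : Fˣ) : ι → Fˣ :=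
  fun a => if h : a ≠ c then s' ⟨a, h⟩ else ε

theorem extS_ne (c : ι) (s' : {a // a ≠ c} → Fˣ) (ε : Fˣ) (a : {a // a ≠ c}) :
    extS c s' ε a.1 = s' a := by
  simp [extS, a.2]

theorem extS_same (c : ι) (s' : {a // a ≠ c} → Fˣ) (ε : Fˣ) : extS c s' ε c = ε := by
  simp [extS]

theorem prod_extS (c : ι) (s' : {a // a ≠ c} → Fˣ) (ε : Fˣ) :
    ∏ a, extS c s' ε a = ε * ∏ a, s' a := by
  rw [Fintype.prod_eq_mul_prod_subtype_ne _ c, extS_same]
  congr 1
  exact Finset.prod_congr rfl fun a _ => extS_ne c s' ε a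

variable {M : Subgroup (GL ι F)}

theorem exists_lift (hHM : ∀ x, x ∈ specialLinear ι F → IsMono x → x ∈ M) (c : ι)
    (π' : Equiv.Perm {a // a ≠ c}) (s' : {a // a ≠ c} → Fˣ) :
    ∃ x : lineStab (F := F) c, x.1 ∈ M ∧ IsMono x.1 ∧ resHom c x = mon π' s' := by
  let π : Equiv.Perm ι := Equiv.Perm.ofSubtype π'
  have hπc : π c = c := Equiv.Perm.ofSubtype_apply_of_not_mem π' (by simp)
  have hπa : ∀ a : {a // a ≠ c}, π a.1 = (π' a).1 := fun a => Equiv.Perm.ofSubtype_apply_coe π' a
  let ε : Fˣ := (signU π * ∏ a, s' a)⁻¹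
  let s : ι → Fˣ := extS c s' ε
  have hSL : mon π s ∈ specialLinear ι F := by
    apply mon_mem_SL
    have h1 : ∏ a, (s a : F) = ((∏ a, s a : Fˣ) : F) := by simp
    rw [h1, prod_extS]
    have h2 : ε * ∏ a, s' a = (signU π)⁻¹ := by
      simp only [ε]
      rw [mul_inv, mul_assoc, inv_mul_cancel, mul_one]
    rw [h2, ← signU_val]
    simp
  refine ⟨⟨mon π s, fun b hb => ?_⟩, hHM _ hSL (isMono_mon _ _), isMono_mon _ _, ?_⟩
  · rw [mon_apply, hπc, if_neg hb]
  · apply Units.ext
    ext a b
    have hsb : s b.1 = s' b := extS_ne c s' ε b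
    rw [resHom_apply, mon_apply, mon_apply, hπa, hsb]
    simp only [Subtype.ext_iff]

end res

section final

variable [Fintype F] {M : Subgroup (GL ι F)}

theorem case_one (hq : 5 ≤ Fintype.card F) (hn : 13 ≤ Fintype.card ι)
    (hHM : ∀ x, x ∈ specialLinear ι F → IsMono x → x ∈ M) {y : GL ι F} (hy : y ∈ M) {c : ι}
    (hyc : ∀ b, b ≠ c → (y : Matrix ι ι F) b c = 0) (hnm : ¬ IsMono y) : Elem M := by
  have hT : ∀ s : ι → Fˣ, ∏ a, s a = 1 → dg s ∈ M :=
    fun s hs => hHM _ (dg_mem_SL s hs) (isMono_mon _ _)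
  let ytil : lineStab (F := F) c := ⟨y, hyc⟩
  by_cases hybar : IsMono (resHom c ytil)
  · obtain ⟨π', hπ'⟩ := hybar
    obtain ⟨s', hs', -⟩ := eq_mon_of_isMono hπ'
    obtain ⟨mt, hmt, hmm, hmt'⟩ := exists_lift hHM c π' s'
    let ztil : lineStab (F := F) c := ytil * mt⁻¹
    have hz1 : resHom c ztil = 1 := by
      simp only [ztil]
      rw [map_mul, map_inv, hmt', ← hs', mul_inv_cancel]
    have hzM : ztil.1 ∈ M := M.mul_mem hy (M.inv_mem hmt)
    have hrows : ∀ a b, a ≠ c → b ≠ c → ((ztil.1 : GL ι F) : Matrix ι ι F) a b = if a = b then 1 else 0 := by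
      intro a b ha hb
      have := resHom_apply c ztil ⟨a, ha⟩ ⟨b, hb⟩
      rw [hz1, Units.val_one, Matrix.one_apply] at this
      have h2 : ((ztil.1 : GL ι F) : Matrix ι ι F) a b =
          if (⟨a, ha⟩ : {a // a ≠ c}) = ⟨b, hb⟩ then 1 else 0 := this.symm
      rw [h2]
      simp [Subtype.ext_iff]
    by_cases hθ : ∃ d, d ≠ c ∧ ((ztil.1 : GL ι F) : Matrix ι ι F) c d ≠ 0
    · obtain ⟨d₀, hd₀c, hd₀⟩ := hθ
      exact case_L1 hq hT (by omega) hzM ztil.2 hrows hd₀c hd₀
    · exfalso
      push Not at hθ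
      have hmono : IsMono ztil.1 := by
        refine ⟨1, fun a b hb => ?_⟩
        by_cases hbc : b = c
        · subst hbc
          exact hθ a hb.symm
        · by_cases hac : a = c
          · subst hac
            exact ztil.2 b hbc
          · rw [hrows b a hbc hac]
            exact if_neg hb
      apply hnm
      have e : y = ztil.1 * mt.1 := by
        simp [ztil, ytil]
      rw [e]
      exact isMono_mul hmono hmm
  · let Mb : Subgroup (GL {a // a ≠ c} F) := (M.subgroupOf (lineStab c)).map (resHom c)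
    have hMb : ∀ w, w ∈ Mb ↔ ∃ x : lineStab (F := F) c, x.1 ∈ M ∧ resHom c x = w := by
      intro w
      simp only [Mb, Subgroup.mem_map, Subgroup.mem_subgroupOf]
    have hd : ∀ s : {a // a ≠ c} → Fˣ, dg s ∈ Mb := fun s => by
      obtain ⟨x, h1, -, h2⟩ := exists_lift hHM c 1 s
      exact (hMb _).mpr ⟨x, h1, h2⟩
    have hp : ∀ π : Equiv.Perm {a // a ≠ c}, mon π 1 ∈ Mb := fun π => by
      obtain ⟨x, h1, -, h2⟩ := exists_lift hHM c π 1
      exact (hMb _).mpr ⟨x, h1, h2⟩
    have hcard : Fintype.card {a // a ≠ c} = Fintype.card ι - 1 := by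
      rw [Fintype.card_subtype_compl]
      simp
    have hE := elem_exists hq hd hp (by omega) ((hMb _).mpr ⟨ytil, hy, rfl⟩) hybar
    obtain ⟨a, b, -, -, -, -, hab, -, -⟩ := exists_three_avoid (∅ : Finset {a // a ≠ c}) (by simp; omega)
    obtain ⟨hdot, hmem⟩ := elem_all hq hd hp hE hab (1 : F)
    obtain ⟨x, hxM, hx⟩ := (hMb _).mp hmem
    refine case_L2 hq hT (by omega) hxM x.2 a.2 b.2 (fun h => hab (Subtype.ext h)) ?_
    intro a' b' ha' hb'
    have := resHom_apply c x ⟨a', ha'⟩ ⟨b', hb'⟩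
    rw [hx, tv_val, Matrix.add_apply, vecMulVec_apply, Matrix.one_apply] at this
    have h2 : ((x.1 : GL ι F) : Matrix ι ι F) a' b' =
        (if (⟨a', ha'⟩ : {a // a ≠ c}) = ⟨b', hb'⟩ then 1 else 0) +
          (Pi.single a (1 : F) : {a // a ≠ c} → F) ⟨a', ha'⟩ * (Pi.single b (1 : F) : {a // a ≠ c} → F) ⟨b', hb'⟩ :=
      this.symm
    rw [h2]
    congr 1
    · simp [Subtype.ext_iff]
    · by_cases hA : a' = a.1
      · by_cases hB : b' = b.1
        · subst hA; subst hB; simp
        · have h5 : (⟨b', hb'⟩ : {a // a ≠ c}) ≠ b := fun h => hB (congrArg Subtype.val h)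
          simp [hB, h5]
      · have h5 : (⟨a', ha'⟩ : {a // a ≠ c}) ≠ a := fun h => hA (congrArg Subtype.val h)
        simp [hA, h5]

/-- Overgroups of the monomial group of `SL(ι, F)`. -/
theorem mono_overgroup (hq : 5 ≤ Fintype.card F) (hn : 13 ≤ Fintype.card ι)
    (hHM : ∀ x, x ∈ specialLinear ι F → IsMono x → x ∈ M) {g : GL ι F} (hg : g ∈ M)
    (hgm : ¬ IsMono g) : specialLinear ι F ≤ M := by
  have hT : ∀ s : ι → Fˣ, ∏ a, s a = 1 → dg s ∈ M :=
    fun s hs => hHM _ (dg_mem_SL s hs) (isMono_mon _ _)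
  have hE : Elem M := by
    by_cases hstar : ∀ x ∈ M, ∀ k l, (∀ b, b ≠ l → (x : Matrix ι ι F) b k = 0) → IsMono x
    · exact absurd (mono_all hq hT hstar hn hg) hgm
    push Not at hstar
    obtain ⟨x, hx, k, l, hcol, hnm⟩ := hstar
    obtain ⟨π, hπ⟩ : ∃ π : Equiv.Perm ι, π l = k := ⟨Equiv.swap l k, Equiv.swap_apply_left l k⟩
    have hm : mon π (ds l (signU π)) ∈ M := hHM _ (signed_mem_SL π l) (isMono_mon _ _)
    refine case_one hq hn hHM (M.mul_mem hm hx) (c := k) ?_ ?_
    · intro b hb
      rw [Units.val_mul, Matrix.mul_apply, Finset.sum_eq_single l]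
      · rw [mon_apply, hπ, if_neg hb, zero_mul]
      · intro d _ hd
        rw [hcol d hd, mul_zero]
      · simp
    · intro h
      apply hnm
      have := isMono_mul (isMono_inv (isMono_mon π (ds l (signU π)) (F := F))) h
      simpa using this
  obtain ⟨a, b, hab, r, hr, hG⟩ := hE
  refine spread (id : ι → ι) M hHM (by omega) ?_ (p := a) (k := b) hab hr hG
  intro p k p₁ k₁ h1 h2
  obtain ⟨π, h3, h4⟩ := exists_perm_pair h1 h2
  exact ⟨π, π, fun _ => rfl, h3, h4⟩

end final

end Cfsg.Agent.Lib.GLMonLift
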