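import Mathlib
import Cfsg.Agent.Lib.GLMonLift

/-!
# Overgroups of the block-permuting group in `SL(ι, F)`, blocks of size at least two
-/

set_option autoImplicit false
set_option linter.unusedSectionVars false
set_option linter.unusedVariables false

namespace Cfsg.Agent.Lib.GLMonBlk

open Matrix Cfsg.Geo Cfsg.Agent.Lib.TvGL Cfsg.Agent.Lib.GLMon Cfsg.Agent.Lib.GLMonFull
  Cfsg.Agent.Lib.GLMonLift
open scoped MatrixGroups

variable {ι : Type} [Fintype ι] [DecidableEq ι] {F : Type*} [Field F]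
variable {κ : Type} [Fintype κ] [DecidableEq κ]

/-- `x` is supported on the block `l`. -/
def InBlock (c : ι → κ) (l : κ) (x : ι → F) : Prop := ∀ a, c a ≠ l → x a = 0

theorem inBlock_single (c : ι → κ) (p : ι) (r : F) : InBlock c (c p) (Pi.single p r : ι → F) := by
  intro a ha
  have : a ≠ p := fun e => ha (e ▸ rfl)
  simp [this]

theorem InBlock.smul {c : ι → κ} {l : κ} {x : ι → F} (h : InBlock c l x) (r : F) :
    InBlock c l (r • x) := fun a ha => by simp [h a ha]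

theorem InBlock.sub {c : ι → κ} {l : κ} {x y : ι → F} (h : InBlock c l x) (h' : InBlock c l y) :
    InBlock c l (x - y) := fun a ha => by simp [h a ha, h' a ha]

theorem InBlock.add {c : ι → κ} {l : κ} {x y : ι → F} (h : InBlock c l x) (h' : InBlock c l y) :
    InBlock c l (x + y) := fun a ha => by simp [h a ha, h' a ha]

theorem dot_of_blocks {c : ι → κ} {l l' : κ} {x y : ι → F} (hll : l ≠ l') (h : InBlock c l x)
    (h' : InBlock c l' y) : x ⬝ᵥ y = 0 := by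
  refine Finset.sum_eq_zero fun a _ => ?_
  by_cases ha : c a = l
  · rw [h' a (fun e => hll (ha ▸ e)), mul_zero]
  · rw [h a ha, zero_mul]

/-- The restriction of a vector to a block. -/
def res (c : ι → κ) (l : κ) (v : ι → F) : ι → F := fun a => if c a = l then v a else 0

theorem res_inBlock (c : ι → κ) (l : κ) (v : ι → F) : InBlock c l (res c l v) := by
  intro a ha
  simp [res, ha]

theorem res_of_eq {c : ι → κ} {l : κ} {a : ι} (v : ι → F) (h : c a = l) : res c l v a = v a := by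
  simp [res, h]

theorem dot_res_of_inBlock {c : ι → κ} {l : κ} {f : ι → F} (hf : InBlock c l f) (v : ι → F) :
    f ⬝ᵥ res c l v = f ⬝ᵥ v := by
  refine Finset.sum_congr rfl fun a _ => ?_
  by_cases ha : c a = l
  · rw [res_of_eq v ha]
  · rw [hf a ha]; simp

/-- Elements respecting every block. -/
def Pres (c : ι → κ) (x : GL ι F) : Prop := ∀ a b, c b ≠ c a → (x : Matrix ι ι F) b a = 0

theorem Pres.blockPres {c : ι → κ} {x : GL ι F} (h : Pres c x) : BlockPres c x :=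
  ⟨1, fun a b hab => h a b hab⟩

theorem Pres.mul {c : ι → κ} {x y : GL ι F} (hx : Pres c x) (hy : Pres c y) : Pres c (x * y) := by
  intro a b hab
  rw [Units.val_mul, Matrix.mul_apply]
  refine Finset.sum_eq_zero fun d _ => ?_
  by_cases hd : c d = c a
  · rw [hx d b (by rw [hd]; exact hab), zero_mul]
  · rw [hy a d hd, mul_zero]

theorem pres_tv {c : ι → κ} {l : κ} {x y : ι → F} (hx : InBlock c l x) (hy : InBlock c l y)
    (h : y ⬝ᵥ x = 0) : Pres c (tv x y h) := by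
  intro a b hab
  have hne : b ≠ a := fun e => hab (e ▸ rfl)
  rw [tv_val, Matrix.add_apply, vecMulVec_apply, Matrix.one_apply_ne hne, zero_add]
  by_cases hb : c b = l
  · rw [hy a (fun e => hab (hb.trans e.symm)), mul_zero]
  · rw [hx b hb, zero_mul]

theorem pres_rf {c : ι → κ} {l : κ} {x y : ι → F} (hx : InBlock c l x) (hy : InBlock c l y)
    (h : y ⬝ᵥ x = 1) (μ : Fˣ) : Pres c (rf x y h μ) := by
  intro a b hab
  have hne : b ≠ a := fun e => hab (e ▸ rfl)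
  rw [rf_val, Matrix.add_apply, Matrix.smul_apply, vecMulVec_apply, Matrix.one_apply_ne hne, zero_add]
  by_cases hb : c b = l
  · rw [hy a (fun e => hab (hb.trans e.symm))]; simp
  · rw [hx b hb]; simp

theorem det_rf (x y : ι → F) (h : y ⬝ᵥ x = 1) (μ : Fˣ) :
    ((rf x y h μ : GL ι F) : Matrix ι ι F).det = μ := by
  rw [rf_val, ← vecMulVec_smul_left, vecMulVec_eq (ι := Unit),
    det_one_add_replicateCol_mul_replicateRow, dotProduct_smul, h]
  simp

theorem vecMul_tv_inv (a f y : ι → F) (h : f ⬝ᵥ a = 0) :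
    y ᵥ* (((tv a f h)⁻¹ : GL ι F) : Matrix ι ι F) = y - (y ⬝ᵥ a) • f := by
  rw [tv_inv_val, vecMul_sub, vecMul_one, vecMul_vvv]

/-- The vector `f_q`. -/
theorem exists_f {c : ι → κ} {X : ι → F} {p q : ι} (hpq : p ≠ q) (hcq : c q = c p) (hp : X p ≠ 0) :
    ∃ f : ι → F, InBlock c (c p) f ∧ f ≠ 0 ∧ f ⬝ᵥ X = 0 ∧
      f = X q • (Pi.single p 1 : ι → F) - X p • (Pi.single q 1 : ι → F) := by
  refine ⟨_, ?_, ?_, ?_, rfl⟩
  · exact ((inBlock_single c p 1).smul _).sub (by rw [← hcq]; exact (inBlock_single c q 1).smul _)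
  · intro h
    have := congrFun h q
    simp [hpq] at this
    exact hp this
  · rw [sub_dotProduct, smul_dotProduct, smul_dotProduct, single_dotProduct, single_dotProduct]
    simp
    ring

theorem mulVec_single_one' (A : Matrix ι ι F) (k : ι) : A *ᵥ Pi.single k 1 = fun d => A d k := by
  ext d
  simp

section main

variable {c : ι → κ} {M : Subgroup (GL ι F)}
  (hHM : ∀ x, x ∈ specialLinear ι F → BlockPres c x → x ∈ M)
  (hfib : ∀ p : ι, ∃ p', p' ≠ p ∧ c p' = c p)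
include hHM

theorem gam_block {l : κ} {x y : ι → F} (hx : InBlock c l x) (hy : InBlock c l y) (h : y ⬝ᵥ x = 0) :
    tv x y h ∈ M :=
  hHM _ (tv_mem_specialLinear x y h) (pres_tv hx hy h).blockPres

/-- `M` contains a mixed elementary transvection. -/
def Mixed (c : ι → κ) (M : Subgroup (GL ι F)) : Prop :=
  ∃ p k : ι, c p ≠ c k ∧ ∃ r : F, r ≠ 0 ∧ Gam M (Pi.single p r) (Pi.single k 1)

theorem b_reduce {l : κ} {X Φ a f : ι → F} (hG : Gam M X Φ) (ha : InBlock c l a) (hf : InBlock c l f)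
    (hfa : f ⬝ᵥ a = 0) (hfX : f ⬝ᵥ X = 0) : Gam M X ((Φ ⬝ᵥ a) • f) := by
  have h1 := gam_conj hG (gam_block hHM ha hf hfa)
  rw [tv_mulVec, hfX, zero_smul, add_zero, vecMul_tv_inv] at h1
  have h2 := gam_sub_cov hG h1
  exact gam_congr h2 rfl (by abel)

include hfib

theorem b_center2 {p : ι} {r : F} {Φ : ι → F} (hr : r ≠ 0) (hG : Gam M (Pi.single p r) Φ)
    (hΦ : Φ ≠ 0) (h0 : ∀ a, c a = c p → Φ a = 0) : Mixed c M := by
  obtain ⟨k, hk⟩ : ∃ k, Φ k ≠ 0 := by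
    by_contra h
    push Not at h
    exact hΦ (funext h)
  have hck : c k ≠ c p := fun e => hk (h0 k e)
  obtain ⟨k', hk'k, hk'c⟩ := hfib k
  have hk'p : k' ≠ p := by
    rintro rfl
    exact hck hk'c.symm
  have hdot : (Pi.single k' (1 : F) : ι → F) ⬝ᵥ (Pi.single k (1 : F) : ι → F) = 0 :=
    single_dot_single hk'k.symm 1
  have hs := gam_block hHM (l := c k) (inBlock_single c k 1)
    (by rw [← hk'c]; exact inBlock_single c k' 1) hdot
  have h1 := gam_conj hG hs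
  rw [tv_mulVec, vecMul_tv_inv, single_dot_single hk'p.symm r, zero_smul, add_zero,
    dotProduct_single, mul_one] at h1
  have h2 := gam_sub_cov hG h1
  have e : Φ - (Φ - Φ k • (Pi.single k' 1 : ι → F)) = Φ k • (Pi.single k' 1 : ι → F) := by abel
  rw [e] at h2
  have h3 := gam_smul_comm' h2
  rw [smul_single'] at h3
  exact ⟨p, k', fun e => hck (by rw [← hk'c, e]), _, mul_ne_zero hk hr, h3⟩

theorem b_center {X Φ : ι → F} (hG : Gam M X Φ) (hΦ : Φ ≠ 0) {p : ι} (hp : X p ≠ 0)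
    (h0 : ∀ a, c a = c p → Φ a = 0) : Mixed c M := by
  obtain ⟨p', hp'p, hp'c⟩ := hfib p
  have hdot : (Pi.single p (1 : F) : ι → F) ⬝ᵥ (Pi.single p' (1 : F) : ι → F) = 0 :=
    single_dot_single hp'p 1
  have hs := gam_block hHM (l := c p) (by rw [← hp'c]; exact inBlock_single c p' 1)
    (inBlock_single c p 1) hdot
  have h1 := gam_conj hG hs
  rw [tv_mulVec, vecMul_tv_inv, dotProduct_single, mul_one, h0 p' hp'c, zero_smul, sub_zero,
    single_dotProduct, one_mul] at h1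
  have h2 := gam_sub_cen h1 hG
  have e : X + X p • (Pi.single p' 1 : ι → F) - X = Pi.single p' (X p) := by
    rw [add_sub_cancel_left, smul_single', mul_one]
  rw [e] at h2
  exact b_center2 hHM hfib hp h2 hΦ (fun a ha => h0 a (ha.trans hp'c))

/-- The first reduction: covector in a block. -/
theorem b_axis {l : κ} {X Φ a f : ι → F} (hG : Gam M X Φ) (ha : InBlock c l a) (hf : InBlock c l f)
    (hfa : f ⬝ᵥ a = 0) (hfX : f ⬝ᵥ X = 0) (hΦa : Φ ⬝ᵥ a ≠ 0) (hf0 : f ≠ 0) {p : ι} (hp : X p ≠ 0)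
    (hpl : c p ≠ l) : Mixed c M :=
  b_center hHM hfib (b_reduce hHM hG ha hf hfa hfX) (smul_ne_zero hΦa hf0) hp
    (fun d hd => by
      rw [Pi.smul_apply, hf d (fun e => hpl (hd.symm.trans e)), smul_zero])

theorem b_C3 {X Φ : ι → F} (hG : Gam M X Φ) {p₁ p₂ : ι} (h1 : X p₁ ≠ 0) (h2 : X p₂ ≠ 0)
    (hc : c p₂ ≠ c p₁) (hD : Φ ⬝ᵥ res c (c p₁) X ≠ 0) : Mixed c M := by
  obtain ⟨q, hqp, hqc⟩ := hfib p₁
  obtain ⟨f, hf, hf0, hfX, hfd⟩ := exists_f (c := c) (X := X) hqp.symm hqc h1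
  exact b_axis hHM hfib hG (res_inBlock c _ X) hf (by rw [dot_res_of_inBlock hf]; exact hfX) hfX hD hf0
    h2 hc

theorem b_C3' {X Φ : ι → F} (hG : Gam M X Φ) (hfib3 : ∀ p r : ι, ∃ q, q ≠ p ∧ q ≠ r ∧ c q = c p)
    {p₁ p₂ k₁ : ι} (h1 : X p₁ ≠ 0) (h2 : X p₂ ≠ 0)
    (hc : c p₂ ≠ c p₁) (hk₁ : c k₁ = c p₁) (hΦ : Φ k₁ ≠ 0) : Mixed c M := by
  by_cases hr : ∃ r, r ≠ p₁ ∧ c r = c p₁ ∧ Φ r ≠ 0
  · obtain ⟨r, hrp, hrc, hΦr⟩ := hr
    obtain ⟨q, hqp, hqr, hqc⟩ := hfib3 p₁ r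
    obtain ⟨f, hf, hf0, hfX, hfd⟩ := exists_f (c := c) (X := X) hqp.symm hqc h1
    refine b_axis hHM hfib hG (a := Pi.single r 1) (by rw [← hrc]; exact inBlock_single c r 1) hf ?_ hfX
      ?_ hf0 h2 hc
    · rw [hfd, sub_dotProduct, smul_dotProduct, smul_dotProduct, single_dot_single hrp,
        single_dot_single hqr.symm]
      simp
    · rw [dotProduct_single, mul_one]
      exact hΦr
  · push Not at hr
    refine b_C3 hHM hfib hG h1 h2 hc ?_
    have hk : k₁ = p₁ := by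
      by_contra hne
      exact hΦ (hr k₁ hne hk₁)
    subst hk
    have : Φ ⬝ᵥ res c (c k₁) X = Φ k₁ * X k₁ := by
      rw [dotProduct, Finset.sum_eq_single k₁]
      · rw [res_of_eq X rfl]
      · intro d _ hd
        by_cases hdc : c d = c k₁
        · rw [hr d hd hdc, zero_mul]
        · rw [res_inBlock c _ X d hdc, mul_zero]
      · simp
    rw [this]
    exact mul_ne_zero hΦ h1

/-- The diagonal-like step. -/
theorem b_rho {X Φ w f w' f' : ι → F} {l l' : κ} (hll : l ≠ l') (hG : Gam M X Φ)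
    (hw : InBlock c l w) (hf : InBlock c l f) (hw' : InBlock c l' w') (hf' : InBlock c l' f')
    (h1 : f ⬝ᵥ w = 1) (h2 : f' ⬝ᵥ w' = 1) (hfX : f ⬝ᵥ X = 0) (hf'X : f' ⬝ᵥ X = 0) (ν : Fˣ) :
    Gam M X ((((ν : F) - 1) * (Φ ⬝ᵥ w')) • f' + ((((ν⁻¹ : Fˣ) : F) - 1) * (Φ ⬝ᵥ w)) • f) := by
  have hmem : rf w f h1 ν * rf w' f' h2 ν⁻¹ ∈ M := by
    refine hHM _ ?_ ((pres_rf hw hf h1 ν).mul (pres_rf hw' hf' h2 ν⁻¹)).blockPres
    rw [mem_specialLinear_iff, Units.val_mul, Matrix.det_mul, det_rf, det_rf]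
    simp
  have h3 := gam_conj hG hmem
  have e1 : (((rf w f h1 ν * rf w' f' h2 ν⁻¹ : GL ι F)) : Matrix ι ι F) *ᵥ X = X := by
    have hX' : ((rf w' f' h2 ν⁻¹ : GL ι F) : Matrix ι ι F) *ᵥ X = X := by
      rw [rf_mulVec, hf'X, mul_zero, zero_smul, add_zero]
    rw [Units.val_mul, ← mulVec_mulVec, hX', rf_mulVec, hfX, mul_zero, zero_smul, add_zero]
  have e2 : Φ ᵥ* (((rf w f h1 ν * rf w' f' h2 ν⁻¹)⁻¹ : GL ι F) : Matrix ι ι F) =
      Φ + ((((ν : F) - 1) * (Φ ⬝ᵥ w')) • f' + ((((ν⁻¹ : Fˣ) : F) - 1) * (Φ ⬝ᵥ w)) • f) := by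
    rw [_root_.mul_inv_rev, Units.val_mul, ← vecMul_vecMul, vecMul_rf_inv, vecMul_rf_inv, inv_inv]
    have : (Φ + (((ν : F) - 1) * (Φ ⬝ᵥ w')) • f') ⬝ᵥ w = Φ ⬝ᵥ w := by
      rw [add_dotProduct, smul_dotProduct, dot_of_blocks hll.symm hf' hw]
      simp
    rw [this]
    abel
  rw [e1, e2] at h3
  have h4 := gam_sub_cov h3 hG
  rw [add_sub_cancel_left] at h4
  exact h4

/-- From a transvection whose centre meets two blocks to a mixed elementary transvection. -/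
theorem mixed_of_gam
    (hA : (∀ p r : ι, ∃ q, q ≠ p ∧ q ≠ r ∧ c q = c p) ∨ (∃ ν : Fˣ, ν ≠ 1) ∧ (∀ i j : κ, ∃ l, l ≠ i ∧ l ≠ j))
    (hc : Function.Surjective c)
    {X Φ : ι → F} (hG : Gam M X Φ) (hΦ : Φ ≠ 0) {p₁ p₂ : ι} (h1 : X p₁ ≠ 0) (h2 : X p₂ ≠ 0)
    (h12 : c p₂ ≠ c p₁) : Mixed c M := by
  by_cases hs1 : ∃ p, X p ≠ 0 ∧ ∀ a, c a = c p → Φ a = 0
  · obtain ⟨p, hp, h0⟩ := hs1
    exact b_center hHM hfib hG hΦ hp h0
  push Not at hs1
  by_cases hs2 : ∃ k, Φ k ≠ 0 ∧ ∀ a, c a = c k → X a = 0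
  · obtain ⟨k, hk, h0⟩ := hs2
    obtain ⟨k', hk'k, hk'c⟩ := hfib k
    have hp1 : c p₁ ≠ c k := fun e => h1 (h0 _ e)
    refine b_axis hHM hfib hG (l := c k) (a := Pi.single k 1) (f := Pi.single k' 1)
      (inBlock_single c k 1) (by rw [← hk'c]; exact inBlock_single c k' 1) ?_ ?_ ?_ ?_ h1 hp1
    · exact single_dot_single hk'k.symm 1
    · rw [single_dotProduct, one_mul]; exact h0 k' hk'c
    · rw [dotProduct_single, mul_one]; exact hk
    · intro h
      have := congrFun h k'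
      simp at this
  push Not at hs2
  obtain ⟨k₁, hk₁c, hk₁⟩ := hs1 p₁ h1
  rcases hA with hfib3 | ⟨⟨ν, hν⟩, h3⟩
  · exact b_C3' hHM hfib hG hfib3 h1 h2 h12 hk₁c hk₁
  by_cases hD1 : Φ ⬝ᵥ res c (c p₁) X ≠ 0
  · exact b_C3 hHM hfib hG h1 h2 h12 hD1
  push Not at hD1
  obtain ⟨l', hl'1, hl'2⟩ := h3 (c p₁) (c p₂)
  -- `w`, `f` at the block of `p₁`
  have hdotΦ : ∀ (l : κ) (k : ι), c k = l → Φ k ≠ 0 → Φ ⬝ᵥ res c l X = 0 →
      ∃ f : ι → F, InBlock c l f ∧ f ⬝ᵥ (Pi.single k (1 : F) : ι → F) = 1 ∧ f ⬝ᵥ X = 0 ∧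
        f = (Φ k)⁻¹ • res c l Φ := by
    intro l k hkl hΦk hD
    refine ⟨_, (res_inBlock c l Φ).smul _, ?_, ?_, rfl⟩
    · rw [dotProduct_single, mul_one, Pi.smul_apply, res_of_eq Φ hkl, smul_eq_mul,
        inv_mul_cancel₀ hΦk]
    · have h5 : res c l Φ ⬝ᵥ X = Φ ⬝ᵥ res c l X := by
        refine Finset.sum_congr rfl fun a _ => ?_
        by_cases ha : c a = l
        · rw [res_of_eq Φ ha, res_of_eq X ha]
        · rw [res_inBlock c l Φ a ha, res_inBlock c l X a ha]; simp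
      rw [smul_dotProduct, h5, hD, smul_zero]
  obtain ⟨f, hf, hfw, hfX, hfd⟩ := hdotΦ _ k₁ hk₁c hk₁ hD1
  -- second block
  by_cases hD2 : ∃ k', c k' = l' ∧ Φ k' ≠ 0 ∧ Φ ⬝ᵥ res c l' X ≠ 0
  · obtain ⟨k', hk'c, hΦk', hD⟩ := hD2
    obtain ⟨p', hp'c, hXp'⟩ := hs2 k' hΦk'
    have hp'l : c p' = l' := hp'c.trans hk'c
    refine b_C3 hHM hfib hG hXp' h1 (by rw [hp'l]; exact hl'1.symm) (by rw [hp'l]; exact hD)
  push Not at hD2
  obtain ⟨w', f', hw', hf', hw'f', hf'X⟩ : ∃ w' f' : ι → F, InBlock c l' w' ∧ InBlock c l' f' ∧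
      f' ⬝ᵥ w' = 1 ∧ f' ⬝ᵥ X = 0 := by
    by_cases hΦl' : ∃ k', c k' = l' ∧ Φ k' ≠ 0
    · obtain ⟨k', hk'c, hΦk'⟩ := hΦl'
      obtain ⟨f', hf', hf'w, hf'X, -⟩ := hdotΦ _ k' hk'c hΦk' (hD2 k' hk'c hΦk')
      exact ⟨Pi.single k' 1, f', by rw [← hk'c]; exact inBlock_single c k' 1, hf', hf'w, hf'X⟩
    · push Not at hΦl'
      obtain ⟨a₀, ha₀⟩ := hc l'
      refine ⟨Pi.single a₀ 1, Pi.single a₀ 1, ?_, ?_, by simp, ?_⟩
      · rw [← ha₀]; exact inBlock_single c a₀ 1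
      · rw [← ha₀]; exact inBlock_single c a₀ 1
      · rw [single_dotProduct, one_mul]
        by_contra hne
        obtain ⟨a₁, ha₁c, ha₁⟩ := hs1 a₀ hne
        exact ha₁ (hΦl' a₁ (ha₁c.trans ha₀))
  have hG2 := b_rho hHM hfib (l := c p₁) (l' := l') hl'1.symm hG
    (w := Pi.single k₁ 1) (by rw [← hk₁c]; exact inBlock_single c k₁ 1) hf hw' hf' hfw hw'f' hfX hf'X ν
  have hν' : ((ν⁻¹ : Fˣ) : F) - 1 ≠ 0 := by
    intro h
    apply hν
    have : ν⁻¹ = 1 := Units.ext (by rw [Units.val_one]; linear_combination h)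
    exact inv_eq_one.mp this
  refine b_center hHM hfib hG2 ?_ h2 ?_
  · intro h0
    have h6 := congrFun h0 k₁
    rw [Pi.add_apply, Pi.smul_apply, Pi.smul_apply, hf' k₁ (by rw [hk₁c]; exact hl'1.symm), smul_zero,
      zero_add, hfd, Pi.smul_apply, res_of_eq Φ hk₁c, dotProduct_single, mul_one, smul_eq_mul,
      smul_eq_mul, inv_mul_cancel₀ hk₁, mul_one] at h6
    exact (mul_ne_zero hν' hk₁) h6
  · intro a ha
    rw [Pi.add_apply, Pi.smul_apply, Pi.smul_apply, hf' a (by rw [ha]; exact hl'2.symm),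
      hf a (by rw [ha]; exact h12)]
    simp

end main

theorem exists_nonblock_image {c : ι → κ} (hc : Function.Surjective c) {g : GL ι F}
    (hg : ¬ BlockPres c g) :
    ∃ i, ∃ x : ι → F, InBlock c i x ∧ ∀ j, ¬ InBlock c j ((g : Matrix ι ι F) *ᵥ x) := by
  by_contra hcon
  push Not at hcon
  apply hg
  choose f hf using fun i => hcon i _ (show InBlock c i (Pi.single (Function.surjInv hc i) (1 : F)) by
    have := inBlock_single (F := F) c (Function.surjInv hc i) 1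
    rwa [Function.surjInv_eq hc i] at this)
  refine blockPres_of_fun hc g f fun a b hb => ?_
  by_contra hne
  obtain ⟨i, hi⟩ : ∃ i, i = c a := ⟨_, rfl⟩
  rw [← hi] at hb
  obtain ⟨a₀, ha₀⟩ : ∃ a₀, a₀ = Function.surjInv hc i := ⟨_, rfl⟩
  have hca₀ : c a₀ = i := by rw [ha₀]; exact Function.surjInv_eq hc i
  have hf0 := hf i
  rw [← ha₀, mulVec_single_one'] at hf0
  obtain ⟨j', hj'⟩ := hcon i _ (show InBlock c i (Pi.single a (1 : F)) by
    have := inBlock_single (F := F) c a 1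
    rwa [← hi] at this)
  rw [mulVec_single_one'] at hj'
  obtain ⟨j'', hj''⟩ := hcon i _ (show InBlock c i ((Pi.single a (1 : F) : ι → F) + Pi.single a₀ 1) by
    have h1 := inBlock_single (F := F) c a 1
    have h2 := inBlock_single (F := F) c a₀ 1
    rw [← hi] at h1
    rw [hca₀] at h2
    exact h1.add h2)
  rw [mulVec_add, mulVec_single_one', mulVec_single_one'] at hj''
  have hbj' : c b = j' := by
    by_contra h
    exact hne (hj' b h)
  obtain ⟨k, hk⟩ := col_ne_zero g a₀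
  have hkc : c k = f i := by
    by_contra h
    exact hk (hf0 k h)
  have hkj' : c k ≠ j' := by
    rw [hkc, ← hbj']
    exact Ne.symm hb
  have h1 : c k = j'' := by
    by_contra h
    have := hj'' k h
    have h3 : (g : Matrix ι ι F) k a = 0 := hj' k hkj'
    simp only [Pi.add_apply] at this
    rw [h3, zero_add] at this
    exact hk this
  have h2 : c b = j'' := by
    by_contra h
    have := hj'' b h
    have h3 : (g : Matrix ι ι F) b a₀ = 0 := hf0 b hb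
    simp only [Pi.add_apply] at this
    rw [h3, add_zero] at this
    exact hne this
  exact hb (by rw [h2, ← h1, hkc])

/-- Overgroups of the group of block-permuting matrices of determinant one, blocks of size `≥ 2`. -/
theorem block_overgroup {c : ι → κ} {M : Subgroup (GL ι F)} (hc : Function.Surjective c)
    (hfib : ∀ p : ι, ∃ p', p' ≠ p ∧ c p' = c p)
    (hA : (∀ p r : ι, ∃ q, q ≠ p ∧ q ≠ r ∧ c q = c p) ∨
      (∃ ν : Fˣ, ν ≠ 1) ∧ (∀ i j : κ, ∃ l, l ≠ i ∧ l ≠ j))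
    (hn : 3 ≤ Fintype.card ι)
    (hperm : ∀ p k p₁ k₁, c p ≠ c k → c p₁ ≠ c k₁ →
      ∃ (π : Equiv.Perm ι) (σ : Equiv.Perm κ), (∀ a, c (π a) = σ (c a)) ∧ π p = p₁ ∧ π k = k₁)
    (hHM : ∀ x, x ∈ specialLinear ι F → BlockPres c x → x ∈ M) {g : GL ι F} (hg : g ∈ M)
    (hgb : ¬ BlockPres c g) : specialLinear ι F ≤ M := by
  obtain ⟨i, x, hx, hno⟩ := exists_nonblock_image hc hgb
  have hx0 : x ≠ 0 := by
    rintro rfl
    apply hno i
    intro a _
    simp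
  obtain ⟨a, ha⟩ : ∃ a, x a ≠ 0 := by
    by_contra h
    push Not at h
    exact hx0 (funext h)
  have hai : c a = i := by
    by_contra h
    exact ha (hx a h)
  subst hai
  obtain ⟨b, hba, hbc⟩ := hfib a
  obtain ⟨y, hy, hy0, hyx, -⟩ := exists_f (c := c) (X := x) hba.symm hbc ha
  have hG0 : Gam M x y := ⟨hyx, gam_block hHM hx hy hyx⟩
  have hG := gam_conj hG0 hg
  have hnot : ∀ j, ∃ k, c k ≠ j ∧ ((g : Matrix ι ι F) *ᵥ x) k ≠ 0 := by
    intro j
    have := hno j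
    simpa [InBlock] using this
  obtain ⟨p₁, -, hp₁⟩ := hnot (c a)
  obtain ⟨p₂, hc₂, hp₂⟩ := hnot (c p₁)
  have hΦ : y ᵥ* ((g⁻¹ : GL ι F) : Matrix ι ι F) ≠ 0 := by
    intro h
    apply hy0
    have : (y ᵥ* ((g⁻¹ : GL ι F) : Matrix ι ι F)) ᵥ* (g : Matrix ι ι F) = y := by
      rw [vecMul_vecMul, inv_mul_val, vecMul_one]
    rw [← this, h, zero_vecMul]
  obtain ⟨p, k, hpk, r, hr, hG'⟩ := mixed_of_gam hHM hfib hA hc hG hΦ hp₁ hp₂ hc₂
  exact spread c M hHM hn hperm hpk hr hG'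


end Cfsg.Agent.Lib.GLMonBlk
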