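import Mathlib
import Cfsg.Agent.Lib.GLMonBlk

/-!
# Maximality in `SL_n(F)` of the stabiliser of a decomposition into equidimensional subspaces
-/

set_option autoImplicit false
set_option linter.unusedSectionVars false
set_option linter.unusedVariables false

namespace Cfsg.Agent.Lib.GLMonDec

open Matrix Cfsg.Geo Cfsg.Agent.Lib.TvGL Cfsg.Agent.Lib.GLMon Cfsg.Agent.Lib.GLMonFull
  Cfsg.Agent.Lib.GLMonLift Cfsg.Agent.Lib.GLMonBlk Module
open scoped MatrixGroups

section core

variable {ι : Type} [Fintype ι] [DecidableEq ι] {F : Type*} [Field F]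
variable {κ : Type} [Fintype κ] [DecidableEq κ] {m : ℕ}

/-- The block of a coordinate. -/
def cc (e : ι ≃ κ × Fin m) : ι → κ := fun a => (e a).1

theorem cc_surj (e : ι ≃ κ × Fin m) (hm : 0 < m) : Function.Surjective (cc e) := by
  intro i
  refine ⟨e.symm (i, ⟨0, hm⟩), ?_⟩
  simp [cc]

theorem block_perm (e : ι ≃ κ × Fin m) {p k p₁ k₁ : ι} (h : cc e p ≠ cc e k) (h' : cc e p₁ ≠ cc e k₁) :
    ∃ (π : Equiv.Perm ι) (σ : Equiv.Perm κ), (∀ a, cc e (π a) = σ (cc e a)) ∧ π p = p₁ ∧ π k = k₁ := by
  obtain ⟨σ, h1, h2⟩ := exists_perm_pair h h'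
  let ρ : κ → Equiv.Perm (Fin m) := fun l =>
    if l = cc e p then Equiv.swap (e p).2 (e p₁).2 else if l = cc e k then Equiv.swap (e k).2 (e k₁).2 else 1
  let PP : κ × Fin m ≃ κ × Fin m := Equiv.prodShear σ ρ
  refine ⟨e.trans (PP.trans e.symm), σ, fun a => ?_, ?_, ?_⟩
  · simp [cc, PP, Equiv.prodShear]
  · apply e.injective
    simp only [Equiv.trans_apply, Equiv.apply_symm_apply, PP, Equiv.prodShear_apply]
    refine Prod.ext ?_ ?_
    · exact h1
    · simp [ρ, cc]
  · apply e.injective
    simp only [Equiv.trans_apply, Equiv.apply_symm_apply, PP, Equiv.prodShear_apply]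
    refine Prod.ext ?_ ?_
    · exact h2
    · have : (e k).1 ≠ (e p).1 := fun e' => h e'.symm
      simp [ρ, cc, this]

theorem core [Fintype F] (e : ι ≃ κ × Fin m) (hκ : 2 ≤ Fintype.card κ) (hm : 0 < m)
    (hn : 13 ≤ Fintype.card ι) (h1 : ¬ (m = 1 ∧ Fintype.card F ≤ 4))
    (h2 : ¬ (m = 2 ∧ Fintype.card F = 2)) {M : Subgroup (GL ι F)}
    (hHM : ∀ x, x ∈ specialLinear ι F → BlockPres (cc e) x → x ∈ M) {g : GL ι F} (hg : g ∈ M)
    (hgb : ¬ BlockPres (cc e) g) : specialLinear ι F ≤ M := by
  classical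
  have hcard : Fintype.card ι = Fintype.card κ * m := by
    rw [Fintype.card_congr e, Fintype.card_prod, Fintype.card_fin]
  by_cases hm1 : m = 1
  · subst hm1
    have hq : 5 ≤ Fintype.card F := by
      by_contra h
      exact h1 ⟨rfl, by omega⟩
    let ec : ι ≃ κ := e.trans (Equiv.prodUnique κ (Fin 1))
    have hec : ∀ a, ec a = cc e a := fun a => rfl
    have hB : ∀ x : GL ι F, BlockPres (cc e) x ↔ IsMono x := by
      intro x
      constructor
      · rintro ⟨σ, hσ⟩
        refine ⟨ec.trans (σ.trans ec.symm), fun a b hb => hσ a b ?_⟩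
        intro h
        apply hb
        apply ec.injective
        simp only [Equiv.trans_apply, Equiv.apply_symm_apply]
        rw [hec, hec, h]
      · rintro ⟨π, hπ⟩
        refine ⟨ec.symm.trans (π.trans ec), fun a b hb => hπ a b ?_⟩
        intro h
        apply hb
        simp only [Equiv.trans_apply]
        rw [h, ← hec, ← hec]
        simp
    exact mono_overgroup hq hn (fun x hx hm => hHM x hx ((hB x).mpr hm)) hg (fun h => hgb ((hB g).mpr h))
  · have hm2 : 2 ≤ m := by omega
    have hfin3 : 3 ≤ m → 3 ≤ Fintype.card (Fin m) := fun h => by simpa using h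
    have hfib : ∀ p : ι, ∃ p', p' ≠ p ∧ cc e p' = cc e p := by
      intro p
      obtain ⟨d, hd⟩ : ∃ d : Fin m, d ≠ (e p).2 := by
        by_cases h0 : (e p).2 = ⟨0, by omega⟩
        · exact ⟨⟨1, by omega⟩, by rw [h0]; simp [Fin.ext_iff]⟩
        · exact ⟨⟨0, by omega⟩, Ne.symm h0⟩
      refine ⟨e.symm ((e p).1, d), ?_, by simp [cc]⟩
      intro h
      apply hd
      have := congrArg (fun z => (e z).2) h
      simpa using this
    have hA : (∀ p r : ι, ∃ q, q ≠ p ∧ q ≠ r ∧ cc e q = cc e p) ∨
        (∃ ν : Fˣ, ν ≠ 1) ∧ (∀ i j : κ, ∃ l, l ≠ i ∧ l ≠ j) := by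
      by_cases hm3 : 3 ≤ m
      · left
        intro p r
        obtain ⟨d, hd1, hd2⟩ := exists_third (hfin3 hm3) (e p).2 (e r).2
        refine ⟨e.symm ((e p).1, d), ?_, ?_, by simp [cc]⟩
        · intro h
          apply hd1
          have := congrArg (fun z => (e z).2) h
          simpa using this
        · intro h
          apply hd2
          have := congrArg (fun z => (e z).2) h
          simpa using this
      · right
        have hm2' : m = 2 := by omega
        subst hm2'
        have hq : 3 ≤ Fintype.card F := by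
          have := Fintype.one_lt_card (α := F)
          by_contra h
          exact h2 ⟨rfl, by omega⟩
        constructor
        · obtain ⟨x, hx⟩ : ∃ x : F, x ∉ ({0, 1} : Finset F) := by
            by_contra hcon
            push Not at hcon
            have hsub : (Finset.univ : Finset F) ⊆ {0, 1} := fun z _ => hcon z
            have h4 := Finset.card_le_card hsub
            have h5 : ({0, 1} : Finset F).card ≤ 2 := Finset.card_le_two
            rw [Finset.card_univ] at h4
            omega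
          simp only [Finset.mem_insert, Finset.mem_singleton, not_or] at hx
          exact ⟨Units.mk0 x hx.1, fun h => hx.2 (by
            have := congrArg Units.val h
            simpa using this)⟩
        · intro i j
          exact exists_third (by omega) i j
    exact block_overgroup (cc_surj e hm) hfib hA (by omega) (fun p k p₁ k₁ h h' => block_perm e h h')
      hHM hg hgb

end core

section transfer

variable {F : Type*} [Field F] {n t m : ℕ} {D : Fin t → Submodule F (Fin n → F)}

theorem exists_adapted (hD : IsMDecomposition m D) :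
    ∃ (e : Fin n ≃ Fin t × Fin m) (B : Basis (Fin n) F (Fin n → F)),
      (∀ a, B a ∈ D (e a).1) ∧ (∀ w i, w ∈ D i → ∀ a, (e a).1 ≠ i → B.repr w a = 0) := by
  classical
  have hI := DirectSum.isInternal_submodule_of_iSupIndep_of_iSup_eq_top hD.indep hD.iSup_eq_top
  let v : ∀ i, Basis (Fin m) F (D i) := fun i => Module.finBasisOfFinrankEq F (D i) (hD.finrank_eq i)
  let Bs := hI.collectedBasis v
  have hcard : Fintype.card (Fin n) = Fintype.card (Fin t × Fin m) := by
    have := Module.finrank_eq_card_basis Bs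
    rw [Module.finrank_fintype_fun_eq_card] at this
    simpa using this
  let e0 : Fin n ≃ Fin t × Fin m := Fintype.equivOfCardEq hcard
  let e1 : (Σ _ : Fin t, Fin m) ≃ Fin t × Fin m := Equiv.sigmaEquivProd _ _
  refine ⟨e0, Bs.reindex (e1.trans e0.symm), ?_, ?_⟩
  · intro a
    rw [Basis.reindex_apply]
    have := hI.collectedBasis_mem v ((e1.trans e0.symm).symm a)
    exact this
  · intro w i hw a ha
    rw [Basis.repr_reindex_apply]
    exact hI.collectedBasis_repr_of_mem_ne v (Ne.symm ha) hw

/-- The change of basis element. -/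
noncomputable def matOf (B : Basis (Fin n) F (Fin n → F)) : GL (Fin n) F where
  val := (Pi.basisFun F (Fin n)).toMatrix B
  inv := B.toMatrix (Pi.basisFun F (Fin n))
  val_inv := Basis.toMatrix_mul_toMatrix_flip _ _
  inv_val := Basis.toMatrix_mul_toMatrix_flip _ _

theorem matOf_apply (B : Basis (Fin n) F (Fin n → F)) (i j : Fin n) :
    ((matOf B : GL (Fin n) F) : Matrix (Fin n) (Fin n) F) i j = B j i := by
  show (Pi.basisFun F (Fin n)).toMatrix B i j = _
  rw [Basis.toMatrix_apply, Pi.basisFun_repr]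

theorem matOf_inv_mulVec (B : Basis (Fin n) F (Fin n → F)) (w : Fin n → F) :
    (((matOf B)⁻¹ : GL (Fin n) F) : Matrix (Fin n) (Fin n) F) *ᵥ w = B.repr w := by
  have h := Basis.toMatrix_mulVec_repr (Pi.basisFun F (Fin n)) B w
  have h2 : ⇑((Pi.basisFun F (Fin n)).repr w) = w := by
    ext i
    rw [Pi.basisFun_repr]
  rw [h2] at h
  exact h

theorem matOf_mulVec (B : Basis (Fin n) F (Fin n → F)) (x : Fin n → F) :
    ((matOf B : GL (Fin n) F) : Matrix (Fin n) (Fin n) F) *ᵥ x = ∑ a, x a • B a := by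
  ext j
  simp only [Matrix.mulVec, dotProduct, matOf_apply, Finset.sum_apply, Pi.smul_apply, smul_eq_mul]
  exact Finset.sum_congr rfl fun a _ => by ring

theorem matOf_single (B : Basis (Fin n) F (Fin n → F)) (a : Fin n) :
    ((matOf B : GL (Fin n) F) : Matrix (Fin n) (Fin n) F) *ᵥ Pi.single a 1 = B a := by
  ext j
  rw [mulVec_single_one']
  exact matOf_apply B j a

theorem mem_dec_iff (hD : IsMDecomposition m D) (e : Fin n ≃ Fin t × Fin m)
    (B : Basis (Fin n) F (Fin n → F)) (h1 : ∀ a, B a ∈ D (e a).1)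
    (h2 : ∀ w i, w ∈ D i → ∀ a, (e a).1 ≠ i → B.repr w a = 0) (z : GL (Fin n) F) :
    z ∈ decompositionStabilizer D ↔ BlockPres (cc e) ((matOf B)⁻¹ * z * matOf B) := by
  classical
  constructor
  · rintro ⟨σ, hσ⟩
    refine ⟨σ, fun a b hb => ?_⟩
    have hmem : (z : Matrix (Fin n) (Fin n) F) *ᵥ B a ∈ D (σ (e a).1) := by
      rw [← hσ]
      exact Submodule.mem_map_of_mem (h1 a)
    have h3 := h2 _ _ hmem b hb
    rw [← matOf_inv_mulVec, ← matOf_single, mulVec_mulVec, mulVec_mulVec, mulVec_single_one'] at h3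
    rw [Units.val_mul, Units.val_mul]
    exact h3
  · rintro ⟨σ, hσ⟩
    refine ⟨σ, fun i => ?_⟩
    let L : (Fin n → F) ≃ₗ[F] (Fin n → F) := Matrix.toLin'OfInv
      (M := ((z⁻¹ : GL (Fin n) F) : Matrix (Fin n) (Fin n) F)) (M' := (z : Matrix (Fin n) (Fin n) F))
      (inv_mul_val z) (mul_inv_val z)
    have hL : (D i).map (Matrix.toLin' (z : Matrix (Fin n) (Fin n) F)) = (D i).map L.toLinearMap := rfl
    refine Submodule.eq_of_le_of_finrank_eq ?_ ?_
    · rintro _ ⟨x, hx, rfl⟩
      rw [Matrix.toLin'_apply]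
      -- write `z x = P (y (P⁻¹ x))`
      obtain ⟨y, hy⟩ : ∃ y : Matrix (Fin n) (Fin n) F,
          y = (((matOf B)⁻¹ * z * matOf B : GL (Fin n) F) : Matrix (Fin n) (Fin n) F) := ⟨_, rfl⟩
      have hzx : (z : Matrix (Fin n) (Fin n) F) *ᵥ x = ((matOf B : GL (Fin n) F) : Matrix _ _ F) *ᵥ
          (y *ᵥ (((matOf B)⁻¹ : GL (Fin n) F) : Matrix (Fin n) (Fin n) F) *ᵥ x) := by
        rw [hy, Units.val_mul, Units.val_mul, mulVec_mulVec, mulVec_mulVec]
        have hPP := mul_inv_val (matOf B)
        generalize ((matOf B : GL (Fin n) F) : Matrix (Fin n) (Fin n) F) = P' at *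
        generalize (((matOf B)⁻¹ : GL (Fin n) F) : Matrix (Fin n) (Fin n) F) = Pi' at *
        generalize (z : Matrix (Fin n) (Fin n) F) = Z at *
        congr 1
        rw [Matrix.mul_assoc Pi' Z P', ← Matrix.mul_assoc P' Pi', hPP, Matrix.one_mul, Matrix.mul_assoc,
          hPP, Matrix.mul_one]
      rw [hzx, matOf_mulVec]
      refine Submodule.sum_mem _ fun a _ => ?_
      by_cases ha : (e a).1 = σ i
      · rw [← ha]
        exact Submodule.smul_mem _ _ (h1 a)
      · have hz0 : (y *ᵥ (((matOf B)⁻¹ : GL (Fin n) F) : Matrix (Fin n) (Fin n) F) *ᵥ x) a = 0 := by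
          rw [matOf_inv_mulVec, Matrix.mulVec, dotProduct]
          refine Finset.sum_eq_zero fun d _ => ?_
          by_cases hd : (e d).1 = i
          · have : y a d = 0 := by
              rw [hy]
              refine hσ d a ?_
              show (e a).1 ≠ σ (e d).1
              rw [hd]
              exact ha
            rw [this, zero_mul]
          · rw [h2 x i hx d hd, mul_zero]
        rw [hz0, zero_smul]
        exact Submodule.zero_mem _
    · rw [hL, LinearEquiv.finrank_map_eq, hD.finrank_eq, hD.finrank_eq]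

theorem conj_mem_SL (P z : GL (Fin n) F) : P⁻¹ * z * P ∈ specialLinear (Fin n) F ↔
    z ∈ specialLinear (Fin n) F := by
  show (Matrix.GeneralLinearGroup.det : GL (Fin n) F →* Fˣ) _ = 1 ↔
    (Matrix.GeneralLinearGroup.det : GL (Fin n) F →* Fˣ) _ = 1
  rw [map_mul, map_mul, map_inv, mul_comm _ (Matrix.GeneralLinearGroup.det P), mul_inv_cancel_left]

/-- The theorem: the stabiliser of a decomposition is maximal in `SL`. -/
theorem dec_maximal [Fintype F] (hn : 13 ≤ n) (hD : IsMDecomposition m D)
    (h1 : ¬ (m = 1 ∧ Fintype.card F ≤ 4)) (h2 : ¬ (m = 2 ∧ Fintype.card F = 2)) :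
    IsMaximalIn (specialLinear (Fin n) F) (decompositionStabilizer D ⊓ specialLinear (Fin n) F) := by
  classical
  obtain ⟨e, B, hB1, hB2⟩ := exists_adapted hD
  have hm := hD.pos
  have ht := hD.two_le
  obtain ⟨P, hP⟩ : ∃ P, P = matOf B := ⟨_, rfl⟩
  have hdec : ∀ z : GL (Fin n) F, z ∈ decompositionStabilizer D ↔ BlockPres (cc e) (P⁻¹ * z * P) := by
    intro z
    rw [hP]
    exact mem_dec_iff hD e B hB1 hB2 z
  have hκ : 2 ≤ Fintype.card (Fin t) := by simpa using ht
  refine ⟨?_, ?_⟩
  · refine lt_of_le_of_ne inf_le_right ?_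
    intro heq
    -- a mixed transvection
    let i₀ : Fin t := ⟨0, by omega⟩
    let j₀ : Fin t := ⟨1, by omega⟩
    have hij : i₀ ≠ j₀ := by simp [i₀, j₀, Fin.ext_iff]
    let a : Fin n := e.symm (i₀, ⟨0, hm⟩)
    let b : Fin n := e.symm (j₀, ⟨0, hm⟩)
    have hca : cc e a = i₀ := by simp [cc, a]
    have hcb : cc e b = j₀ := by simp [cc, b]
    have hab : a ≠ b := by
      intro h
      apply hij
      rw [← hca, ← hcb, h]
    have hdot : (Pi.single b (1 : F) : Fin n → F) ⬝ᵥ (Pi.single a (1 : F) : Fin n → F) = 0 :=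
      single_dot_single hab 1
    obtain ⟨y, hy⟩ : ∃ y, y = tv (Pi.single a (1 : F)) (Pi.single b 1) hdot := ⟨_, rfl⟩
    have hySL : y ∈ specialLinear (Fin n) F := by
      rw [hy]; exact tv_mem_specialLinear _ _ _
    have hzSL : P * y * P⁻¹ ∈ specialLinear (Fin n) F := by
      rw [← conj_mem_SL P]
      simpa [mul_assoc] using hySL
    rw [← heq] at hzSL
    have h3 := (hdec _).mp hzSL.1
    have e1 : P⁻¹ * (P * y * P⁻¹) * P = y := by group
    rw [e1] at h3
    obtain ⟨σ, hσ⟩ := h3
    have h4 : (y : Matrix (Fin n) (Fin n) F) a b = 1 := by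
      rw [hy, tv_val, Matrix.add_apply, vecMulVec_apply, Matrix.one_apply_ne hab]
      simp
    have h5 : (y : Matrix (Fin n) (Fin n) F) b b = 1 := by
      rw [hy, tv_val, Matrix.add_apply, vecMulVec_apply, Matrix.one_apply_eq]
      simp [hab.symm]
    have h6 : cc e a = σ (cc e b) := by
      by_contra h
      rw [hσ b a h] at h4
      exact zero_ne_one h4
    have h7 : cc e b = σ (cc e b) := by
      by_contra h
      rw [hσ b b h] at h5
      exact zero_ne_one h5
    exact hij (by rw [← hca, ← hcb, h6, ← h7])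
  · intro M hHM hMS
    by_cases hle : M ≤ decompositionStabilizer D ⊓ specialLinear (Fin n) F
    · exact Or.inl (le_antisymm hle hHM)
    right
    refine le_antisymm hMS ?_
    obtain ⟨g, hgM, hgH⟩ := SetLike.not_le_iff_exists.mp hle
    have hgD : g ∉ decompositionStabilizer D := fun h => hgH ⟨h, hMS hgM⟩
    let M' : Subgroup (GL (Fin n) F) := M.comap (MulAut.conj P).toMonoidHom
    have hM' : ∀ y, y ∈ M' ↔ P * y * P⁻¹ ∈ M := fun y => Iff.rfl
    have hcard : Fintype.card (Fin n) = n := by simp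
    have hSL : specialLinear (Fin n) F ≤ M' := by
      refine core e hκ hm (by omega) h1 h2 (g := P⁻¹ * g * P) ?_ ?_ ?_
      · intro y hy hy2
        rw [hM']
        have e1 : P⁻¹ * (P * y * P⁻¹) * P = y := by group
        have hz1 : P * y * P⁻¹ ∈ specialLinear (Fin n) F := by
          rw [← conj_mem_SL P, e1]
          exact hy
        exact hHM (Subgroup.mem_inf.mpr ⟨(hdec _).mpr (by rw [e1]; exact hy2), hz1⟩)
      · rw [hM']
        have e1 : P * (P⁻¹ * g * P) * P⁻¹ = g := by group
        rw [e1]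
        exact hgM
      · intro h
        exact hgD ((hdec g).mpr h)
    intro z hz
    have h3 := hSL ((conj_mem_SL P z).mpr hz)
    rw [hM'] at h3
    have e1 : P * (P⁻¹ * z * P) * P⁻¹ = z := by group
    rwa [e1] at h3

end transfer

end Cfsg.Agent.Lib.GLMonDec
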