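import Mathlib
import Cfsg.Prelude.Def_ClassicalGeometry
import Cfsg.Agent.Lib.Bruhat
import Cfsg.Agent.Lib.ClassicalSL

/-!
# The stabiliser in `GL_n` of a coordinate subspace
-/

set_option autoImplicit false
set_option linter.unusedSectionVars false
set_option linter.unusedSimpArgs false

namespace Cfsg.Agent.Lib.GLParab

open Matrix
open scoped MatrixGroups
open Cfsg.Agent.Lib.Bruhat Cfsg.Agent.Lib.ClassicalSL

variable {F : Type*} [Field F] {n : ℕ}

/-- The coordinate subspace. -/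
abbrev Wset (n k : ℕ) (F : Type*) [Field F] : Set (Fin n → F) :=
  {v : Fin n → F | ∀ i : Fin n, k ≤ (i : ℕ) → v i = 0}

/-- Its stabiliser. -/
abbrev Pk (n k : ℕ) (F : Type*) [Field F] : Subgroup (GL (Fin n) F) :=
  Cfsg.stabilizing (Cfsg.glToMat (Fin n) F) (Wset n k F)

theorem mem_stabilizing_iff (g : GL (Fin n) F) (S : Set (Fin n → F)) :
    g ∈ Cfsg.stabilizing (Cfsg.glToMat (Fin n) F) S ↔ ∀ v, v ∈ S ↔ (g : Matrix (Fin n) (Fin n) F) *ᵥ v ∈ S :=
  Iff.rfl

/-- Label of the two blocks. -/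
def lab (k : ℕ) (i : Fin n) : ℕ := if (i : ℕ) < k then 0 else 1

theorem blockTriangular_iff (k : ℕ) (M : Matrix (Fin n) (Fin n) F) :
    M.BlockTriangular (lab k) ↔ ∀ i j : Fin n, k ≤ (i : ℕ) → (j : ℕ) < k → M i j = 0 := by
  constructor
  · intro h i j hi hj
    apply h
    simp only [lab, if_neg (not_lt.2 hi), if_pos hj]
    omega
  · intro h i j hij
    simp only [lab] at hij
    by_cases hi : (i : ℕ) < k
    · rw [if_pos hi] at hij
      omega
    · by_cases hj : (j : ℕ) < k
      · exact h i j (not_lt.1 hi) hj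
      · rw [if_neg hi, if_neg hj] at hij
        omega

theorem mulVec_mem_Wset {k : ℕ} {M : Matrix (Fin n) (Fin n) F}
    (h : ∀ i j : Fin n, k ≤ (i : ℕ) → (j : ℕ) < k → M i j = 0) {v : Fin n → F} (hv : v ∈ Wset n k F) :
    M *ᵥ v ∈ Wset n k F := by
  intro i hi
  simp only [Matrix.mulVec, dotProduct]
  refine Finset.sum_eq_zero fun j _ => ?_
  by_cases hj : (j : ℕ) < k
  · rw [h i j hi hj, zero_mul]
  · rw [hv j (not_lt.1 hj), mul_zero]

theorem mem_Pk_iff {k : ℕ} (g : GL (Fin n) F) :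
    g ∈ Pk n k F ↔ ∀ i j : Fin n, k ≤ (i : ℕ) → (j : ℕ) < k → (g : Matrix (Fin n) (Fin n) F) i j = 0 := by
  constructor
  · intro h i j hi hj
    have hv : (Pi.single j 1 : Fin n → F) ∈ Wset n k F := by
      intro l hl
      apply Pi.single_eq_of_ne
      intro hlj
      rw [hlj] at hl
      omega
    have h1 := (h _).1 hv i hi
    simpa [Matrix.mulVec_single_one] using h1
  · intro h
    have hb : (g : Matrix (Fin n) (Fin n) F).BlockTriangular (lab k) := (blockTriangular_iff k _).2 h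
    have hi : ((g⁻¹ : GL (Fin n) F) : Matrix (Fin n) (Fin n) F).BlockTriangular (lab k) := by
      have : Invertible (g : Matrix (Fin n) (Fin n) F) := g.invertible
      rw [Matrix.coe_units_inv]
      exact Matrix.blockTriangular_inv_of_blockTriangular hb
    have h' := (blockTriangular_iff k _).1 hi
    intro v
    refine ⟨mulVec_mem_Wset h, fun hv => ?_⟩
    have := mulVec_mem_Wset h' hv
    rw [Matrix.mulVec_mulVec] at this
    have h3 : ((g⁻¹ : GL (Fin n) F) : Matrix (Fin n) (Fin n) F) * (g : Matrix (Fin n) (Fin n) F) = 1 := by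
      rw [← Units.val_mul, inv_mul_cancel]
      rfl
    change (((g⁻¹ : GL (Fin n) F) : Matrix (Fin n) (Fin n) F) * (g : Matrix (Fin n) (Fin n) F)) *ᵥ v ∈ _ at this
    rwa [h3, Matrix.one_mulVec] at this

/-! ### Elementary matrices -/

/-- The elementary matrix as an element of the general linear group. -/
def T {i j : Fin n} (h : i ≠ j) (c : F) : GL (Fin n) F :=
  SpecialLinearGroup.toGL (SpecialLinearGroup.transvection h c)

theorem coe_T {i j : Fin n} (h : i ≠ j) (c : F) :
    (T h c : Matrix (Fin n) (Fin n) F) = 1 + Matrix.single i j c := rfl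

theorem T_mem_Pk {k : ℕ} {a b : Fin n} (h : a ≠ b) (c : F) (hab : ¬ (k ≤ (a : ℕ) ∧ (b : ℕ) < k)) :
    T h c ∈ Pk n k F := by
  rw [mem_Pk_iff]
  intro i j hi hj
  rw [coe_T, Matrix.add_apply, Matrix.one_apply_ne, Matrix.single_apply_of_ne, zero_add]
  · rintro ⟨rfl, rfl⟩
    exact hab ⟨hi, hj⟩
  · rintro rfl
    omega

theorem permM_mul_apply (σ : Equiv.Perm (Fin n)) (M : Matrix (Fin n) (Fin n) F) (i j : Fin n) :
    (permM F σ * M) i j = M (σ⁻¹ i) j := by
  rw [Matrix.mul_apply, Finset.sum_eq_single (σ⁻¹ i)]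
  · simp [permM_apply]
  · intro l _ hl
    rw [permM_apply, if_neg, zero_mul]
    rintro rfl
    simp at hl
  · simp

theorem mul_permM_apply (σ : Equiv.Perm (Fin n)) (M : Matrix (Fin n) (Fin n) F) (i j : Fin n) :
    (M * permM F σ⁻¹) i j = M i (σ⁻¹ j) := by
  rw [Matrix.mul_apply, Finset.sum_eq_single (σ⁻¹ j)]
  · simp [permM_apply]
  · intro l _ hl
    rw [permM_apply, if_neg, mul_zero]
    exact hl
  · simp

theorem permM_conj (σ : Equiv.Perm (Fin n)) (M : Matrix (Fin n) (Fin n) F) :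
    permM F σ * M * permM F σ⁻¹ = Matrix.of fun i j => M (σ⁻¹ i) (σ⁻¹ j) := by
  ext i j
  rw [mul_permM_apply, permM_mul_apply]
  rfl

theorem permGL_conj_T (σ : Equiv.Perm (Fin n)) {a b : Fin n} (h : a ≠ b) (c : F) :
    permGL F σ * T h c * (permGL F σ)⁻¹ = T (fun e => h (σ.injective e)) c := by
  apply Units.ext
  have : ((permGL F σ)⁻¹ : GL (Fin n) F) = permGL F σ⁻¹ := rfl
  rw [this, Units.val_mul, Units.val_mul, permGL_val, permGL_val, coe_T, coe_T, permM_conj]
  ext i j
  simp only [Matrix.of_apply, Matrix.add_apply, Matrix.one_apply, Matrix.single_apply]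
  have h1 : (σ⁻¹ i = σ⁻¹ j) ↔ i = j := σ⁻¹.injective.eq_iff
  have h2 : (a = σ⁻¹ i) ↔ (σ a = i) := by
    constructor
    · rintro rfl; simp
    · rintro rfl; simp
  have h3 : (b = σ⁻¹ j) ↔ (σ b = j) := by
    constructor
    · rintro rfl; simp
    · rintro rfl; simp
  simp only [h1, h2, h3]

theorem permGL_mem_Pk {k : ℕ} (σ : Equiv.Perm (Fin n))
    (h : ∀ j : Fin n, (j : ℕ) < k → (σ j : ℕ) < k) : permGL F σ ∈ Pk n k F := by
  rw [mem_Pk_iff]
  intro i j hi hj
  rw [permGL_val, permM_apply, if_neg]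
  rintro rfl
  have := h j hj
  omega

theorem upper_le_Pk (k : ℕ) : Cfsg.upperTriangularGL n F ≤ Pk n k F := by
  intro g hg
  rw [mem_Pk_iff]
  intro i j hi hj
  apply hg
  change (j : ℕ) < (i : ℕ)
  omega

/-- Every element lies in a subgroup containing the elementary matrices and the diagonal matrices of
the form `diagGL`. -/
theorem eq_top_of_T_mem [NeZero n] (hn : 2 ≤ n) (H : Subgroup (GL (Fin n) F))
    (hT : ∀ (a b : Fin n) (h : a ≠ b) (c : F), T h c ∈ H)
    (hD : ∀ (a : F) (ha : a ≠ 0), diagGL (0 : Fin n) a ha ∈ H) : H = ⊤ := by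
  rw [eq_top_iff]
  intro g _
  have : Nontrivial (Fin n) := Fin.nontrivial_iff_two_le.2 hn
  have hSL : ∀ A : SpecialLinearGroup (Fin n) F, SpecialLinearGroup.toGL A ∈ H := by
    intro A
    refine transvection_induction (fun A => SpecialLinearGroup.toGL A ∈ H) ?_ ?_ A
    · intro i j h c
      exact hT i j h c
    · intro A B hA hB
      rw [map_mul]
      exact H.mul_mem hA hB
  have hdet : ((GeneralLinearGroup.det g : Fˣ) : F) ≠ 0 := Units.ne_zero _
  let D := diagGL (0 : Fin n) ((GeneralLinearGroup.det g : Fˣ) : F) hdet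
  have hDdet : ((GeneralLinearGroup.det D : Fˣ) : F) = ((GeneralLinearGroup.det g : Fˣ) : F) := by
    change Matrix.det (diagonal fun k => if k = (0 : Fin n) then _ else 1) = _
    rw [Matrix.det_diagonal]
    simp
  have hker : D⁻¹ * g ∈ (GeneralLinearGroup.det : GL (Fin n) F →* Fˣ).ker := by
    rw [MonoidHom.mem_ker, map_mul, map_inv]
    have : GeneralLinearGroup.det D = GeneralLinearGroup.det g := Units.ext hDdet
    rw [this, inv_mul_cancel]
  obtain ⟨s, hs⟩ := exists_toGL_eq_of_mem_ker hker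
  have h1 : g = D * (D⁻¹ * g) := by group
  rw [h1, ← hs]
  exact H.mul_mem (hD _ _) (hSL s)

theorem exists_back {k : ℕ} (σ : Equiv.Perm (Fin n)) {j₀ : Fin n} (hj₀ : (j₀ : ℕ) < k)
    (h0 : k ≤ (σ j₀ : ℕ)) : ∃ j₁ : Fin n, k ≤ (j₁ : ℕ) ∧ (σ j₁ : ℕ) < k := by
  by_contra hno
  push Not at hno
  classical
  let S : Finset (Fin n) := Finset.univ.filter fun i => k ≤ (i : ℕ)
  have hsub : S.image σ ⊆ S := by
    intro x hx
    obtain ⟨y, hy, rfl⟩ := Finset.mem_image.1 hx
    simp only [S, Finset.mem_filter, Finset.mem_univ, true_and] at hy ⊢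
    exact hno y hy
  have heq : S.image σ = S := Finset.eq_of_subset_of_card_le hsub (by
    rw [Finset.card_image_of_injective _ σ.injective])
  have hmem : σ j₀ ∈ S := by
    simp only [S, Finset.mem_filter, Finset.mem_univ, true_and]
    exact h0
  rw [← heq] at hmem
  obtain ⟨y, hy, hyj⟩ := Finset.mem_image.1 hmem
  have := σ.injective hyj
  subst this
  simp only [S, Finset.mem_filter, Finset.mem_univ, true_and] at hy
  omega

/-- The stabiliser is maximal. -/
theorem isCoatom_Pk (k : ℕ) (hk0 : 0 < k) (hkn : k < n) : IsCoatom (Pk n k F) := by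
  have hn : 2 ≤ n := by omega
  have : NeZero n := ⟨by omega⟩
  let i₀ : Fin n := ⟨k, hkn⟩
  let j₀ : Fin n := ⟨0, by omega⟩
  constructor
  · -- proper
    intro htop
    have h1 : permGL F (Equiv.swap j₀ i₀) ∈ Pk n k F := by
      rw [htop]
      trivial
    rw [mem_Pk_iff] at h1
    have h2 := h1 i₀ j₀ (le_refl k) hk0
    rw [permGL_val, permM_apply, if_pos (by simp)] at h2
    exact one_ne_zero h2
  · intro H hH
    obtain ⟨hle, g, hgH, hgP⟩ := SetLike.lt_iff_le_and_exists.1 hH
    obtain ⟨p, p', σ, hp, hp', rfl⟩ := bruhat g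
    have hpH : p ∈ H := hle (upper_le_Pk k hp)
    have hpH' : p' ∈ H := hle (upper_le_Pk k hp')
    have hσH : permGL F σ ∈ H := by
      have : permGL F σ = p⁻¹ * (p * permGL F σ * p') * p'⁻¹ := by group
      rw [this]
      exact H.mul_mem (H.mul_mem (H.inv_mem hpH) hgH) (H.inv_mem hpH')
    have hσP : permGL F σ ∉ Pk n k F := by
      intro hm
      exact hgP ((Pk n k F).mul_mem ((Pk n k F).mul_mem (upper_le_Pk k hp) hm) (upper_le_Pk k hp'))
    obtain ⟨j₁, hj₁, hj₁'⟩ : ∃ j : Fin n, (j : ℕ) < k ∧ k ≤ (σ j : ℕ) := by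
      by_contra hno
      push Not at hno
      exact hσP (permGL_mem_Pk σ hno)
    obtain ⟨j₂, hj₂, hj₂'⟩ := exists_back σ hj₁ hj₁'
    have hne : j₁ ≠ j₂ := by
      rintro rfl
      omega
    -- lower left elementary matrices
    have hlow : ∀ (a b : Fin n) (h : a ≠ b) (c : F), k ≤ (a : ℕ) → (b : ℕ) < k → T h c ∈ H := by
      intro a b h c ha hb
      let τ : Equiv.Perm (Fin n) := Equiv.swap (σ j₁) a * Equiv.swap (σ j₂) b
      have h1 : ∀ x y z : Fin n, k ≤ (x : ℕ) → k ≤ (y : ℕ) → (z : ℕ) < k → (Equiv.swap x y z : Fin n) = z := by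
        intro x y z hx hy hz
        apply Equiv.swap_apply_of_ne_of_ne
        · rintro rfl; omega
        · rintro rfl; omega
      have h2 : ∀ x y z : Fin n, (x : ℕ) < k → (y : ℕ) < k → (z : ℕ) < k → ((Equiv.swap x y z : Fin n) : ℕ) < k := by
        intro x y z hx hy hz
        rw [Equiv.swap_apply_def]
        split_ifs <;> assumption
      have hτ : ∀ j : Fin n, (j : ℕ) < k → (τ j : ℕ) < k := by
        intro j hj
        have h3 := h2 (σ j₂) b j hj₂' hb hj
        change ((Equiv.swap (σ j₁) a (Equiv.swap (σ j₂) b j) : Fin n) : ℕ) < k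
        rw [h1 _ _ _ hj₁' ha h3]
        exact h3
      have hne' : σ j₁ ≠ σ j₂ := fun e => hne (σ.injective e)
      have h4 : T hne c ∈ H := hle (T_mem_Pk hne c (by
        rintro ⟨h5, -⟩
        omega))
      have h5 : permGL F σ * T hne c * (permGL F σ)⁻¹ ∈ H :=
        H.mul_mem (H.mul_mem hσH h4) (H.inv_mem hσH)
      rw [permGL_conj_T] at h5
      have hτH : permGL F τ ∈ H := hle (permGL_mem_Pk τ hτ)
      have h6 : permGL F τ * T hne' c * (permGL F τ)⁻¹ ∈ H :=
        H.mul_mem (H.mul_mem hτH h5) (H.inv_mem hτH)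
      rw [permGL_conj_T] at h6
      have h7 : τ (σ j₁) = a := by
        change Equiv.swap (σ j₁) a (Equiv.swap (σ j₂) b (σ j₁)) = a
        have e1 : Equiv.swap (σ j₂) b (σ j₁) = σ j₁ := by
          apply Equiv.swap_apply_of_ne_of_ne hne'
          rintro e
          rw [e] at hj₁'
          omega
        rw [e1]
        exact Equiv.swap_apply_left _ _
      have h8 : τ (σ j₂) = b := by
        change Equiv.swap (σ j₁) a (Equiv.swap (σ j₂) b (σ j₂)) = b
        rw [Equiv.swap_apply_left]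
        exact h1 _ _ _ hj₁' ha hb
      have h9 : ∀ (x y : Fin n) (hxy : x ≠ y), x = a → y = b → T hxy c = T h c := by
        rintro x y hxy rfl rfl
        rfl
      rw [h9 _ _ _ h7 h8] at h6
      exact h6
    refine eq_top_of_T_mem hn H ?_ ?_
    · intro a b h c
      by_cases hab : k ≤ (a : ℕ) ∧ (b : ℕ) < k
      · exact hlow a b h c hab.1 hab.2
      · exact hle (T_mem_Pk h c hab)
    · intro a ha
      apply hle
      rw [mem_Pk_iff]
      intro i j hi hj
      change Matrix.diagonal _ i j = 0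
      apply Matrix.diagonal_apply_ne
      rintro rfl
      omega

end Cfsg.Agent.Lib.GLParab
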