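import Mathlib
import Cfsg.Agent.Lib.GLParab
import Cfsg.Agent.Lib.FlagIndex
import Cfsg.Agent.Lib.OrthMatrix

/-!
# The order of the stabiliser of a coordinate subspace, its isomorphism type and its invariant subspaces
-/

set_option autoImplicit false
set_option linter.unusedSectionVars false
set_option linter.unusedSimpArgs false

namespace Cfsg.Agent.Lib.GLParab2

open Matrix
open scoped MatrixGroups
open Cfsg.Agent.Lib.Bruhat Cfsg.Agent.Lib.ClassicalSL Cfsg.Agent.Lib.GLParab

variable {F : Type*} [Field F] {n : ℕ}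

section count

variable {k : ℕ}

/-- The block splitting of `Fin n`. -/
def eSplit (hk : k ≤ n) : Fin k ⊕ Fin (n - k) ≃ Fin n :=
  finSumFinEquiv.trans (finCongr (by omega))

theorem eSplit_inl (hk : k ≤ n) (i : Fin k) : ((eSplit hk (Sum.inl i) : Fin n) : ℕ) = i := by
  simp [eSplit]

theorem eSplit_inr (hk : k ≤ n) (i : Fin (n - k)) : ((eSplit hk (Sum.inr i) : Fin n) : ℕ) = k + i := by
  simp [eSplit]

/-- The elements of the stabiliser as matrices. -/
noncomputable def equivMat (k : ℕ) :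
    ↥(Pk n k F) ≃ {M : Matrix (Fin n) (Fin n) F //
      (∀ i j : Fin n, k ≤ (i : ℕ) → (j : ℕ) < k → M i j = 0) ∧ M.det ≠ 0} where
  toFun g := ⟨((g : GL (Fin n) F) : Matrix (Fin n) (Fin n) F), (mem_Pk_iff _).1 g.2, by
    have h : ((GeneralLinearGroup.det (g : GL (Fin n) F) : Fˣ) : F) ≠ 0 := Units.ne_zero _
    simpa using h⟩
  invFun M := ⟨GeneralLinearGroup.mkOfDetNeZero M.1 M.2.2, (mem_Pk_iff _).2 M.2.1⟩
  left_inv g := by
    apply Subtype.ext
    apply Units.ext
    rfl
  right_inv M := by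
    apply Subtype.ext
    rfl

/-- Matrices with the lower left block zero, in coordinates. -/
noncomputable def equivBlocks (hk : k ≤ n) :
    {M : Matrix (Fin n) (Fin n) F //
      (∀ i j : Fin n, k ≤ (i : ℕ) → (j : ℕ) < k → M i j = 0) ∧ M.det ≠ 0} ≃
    ({A : Matrix (Fin k) (Fin k) F // A.det ≠ 0} × {D : Matrix (Fin (n - k)) (Fin (n - k)) F // D.det ≠ 0}) ×
      Matrix (Fin k) (Fin (n - k)) F where
  toFun M :=
    have h1 : (M.1.submatrix (eSplit hk) (eSplit hk)).toBlocks₂₁ = 0 := by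
      ext i j
      exact M.2.1 _ _ (by rw [eSplit_inr]; omega) (by rw [eSplit_inl]; exact j.2)
    have h2 : (M.1.submatrix (eSplit hk) (eSplit hk)).det = (M.1.submatrix (eSplit hk) (eSplit hk)).toBlocks₁₁.det *
        (M.1.submatrix (eSplit hk) (eSplit hk)).toBlocks₂₂.det := by
      conv_lhs => rw [← Matrix.fromBlocks_toBlocks (M.1.submatrix (eSplit hk) (eSplit hk)), h1]
      exact Matrix.det_fromBlocks_zero₂₁ _ _ _
    have h3 : (M.1.submatrix (eSplit hk) (eSplit hk)).det ≠ 0 := by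
      rw [Matrix.det_submatrix_equiv_self]
      exact M.2.2
    ((⟨(M.1.submatrix (eSplit hk) (eSplit hk)).toBlocks₁₁, fun h => h3 (by rw [h2, h, zero_mul])⟩,
      ⟨(M.1.submatrix (eSplit hk) (eSplit hk)).toBlocks₂₂, fun h => h3 (by rw [h2, h, mul_zero])⟩),
      (M.1.submatrix (eSplit hk) (eSplit hk)).toBlocks₁₂)
  invFun x := ⟨(Matrix.fromBlocks x.1.1.1 x.2 0 x.1.2.1).submatrix (eSplit hk).symm (eSplit hk).symm, by
      intro i j hi hj
      simp only [Matrix.submatrix_apply]
      obtain ⟨i', rfl⟩ := (eSplit hk).surjective i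
      obtain ⟨j', rfl⟩ := (eSplit hk).surjective j
      simp only [Equiv.symm_apply_apply]
      rcases i' with i' | i'
      · rw [eSplit_inl] at hi
        omega
      · rcases j' with j' | j'
        · rfl
        · rw [eSplit_inr] at hj
          omega, by
      rw [Matrix.det_submatrix_equiv_self, Matrix.det_fromBlocks_zero₂₁]
      exact mul_ne_zero x.1.1.2 x.1.2.2⟩
  left_inv M := by
    apply Subtype.ext
    have h1 : (M.1.submatrix (eSplit hk) (eSplit hk)).toBlocks₂₁ = 0 := by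
      ext i j
      exact M.2.1 _ _ (by rw [eSplit_inr]; omega) (by rw [eSplit_inl]; exact j.2)
    simp only
    rw [← h1, Matrix.fromBlocks_toBlocks]
    ext i j
    simp
  right_inv x := by
    rcases x with ⟨⟨⟨A, hA⟩, ⟨D, hD⟩⟩, B⟩
    simp

/-- The order of the stabiliser. -/
theorem card_Pk [Fintype F] (hk : k ≤ n) :
    Nat.card ↥(Pk n k F) = Fintype.card F ^ (k * (n - k)) *
      (∏ i : Fin k, (Fintype.card F ^ k - Fintype.card F ^ (i : ℕ))) *
      ∏ i : Fin (n - k), (Fintype.card F ^ (n - k) - Fintype.card F ^ (i : ℕ)) := by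
  classical
  rw [Nat.card_congr ((equivMat k).trans (equivBlocks hk)), Nat.card_prod, Nat.card_prod,
    Cfsg.Agent.Lib.FlagIndex.card_det_ne, Cfsg.Agent.Lib.FlagIndex.card_det_ne]
  have h : Nat.card (Matrix (Fin k) (Fin (n - k)) F) = Fintype.card F ^ (k * (n - k)) := by
    rw [Nat.card_eq_fintype_card]
    change Fintype.card (Fin k → Fin (n - k) → F) = _
    rw [Fintype.card_fun, Fintype.card_fun, Fintype.card_fin, Fintype.card_fin, ← pow_mul, mul_comm]
  have h1 : ∀ r, Cfsg.Agent.Lib.FlagIndex.glCount (Fintype.card F) (Fintype.card (Fin r)) =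
      ∏ i : Fin r, (Fintype.card F ^ r - Fintype.card F ^ (i : ℕ)) := by
    intro r
    rw [Fintype.card_fin]
    rfl
  rw [h, h1, h1]
  ring

end count

section iso

/-- The inverse transpose. -/
def invT : GL (Fin n) F ≃* GL (Fin n) F where
  toFun g := ⟨((g⁻¹ : GL (Fin n) F) : Matrix (Fin n) (Fin n) F)ᵀ, (g : Matrix (Fin n) (Fin n) F)ᵀ, by
      rw [← Matrix.transpose_mul, ← Units.val_mul, mul_inv_cancel]
      simp, by
      rw [← Matrix.transpose_mul, ← Units.val_mul, inv_mul_cancel]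
      simp⟩
  invFun g := ⟨((g⁻¹ : GL (Fin n) F) : Matrix (Fin n) (Fin n) F)ᵀ, (g : Matrix (Fin n) (Fin n) F)ᵀ, by
      rw [← Matrix.transpose_mul, ← Units.val_mul, mul_inv_cancel]
      simp, by
      rw [← Matrix.transpose_mul, ← Units.val_mul, inv_mul_cancel]
      simp⟩
  left_inv g := by
    apply Units.ext
    simp
  right_inv g := by
    apply Units.ext
    simp
  map_mul' a b := by
    apply Units.ext
    simp [Matrix.transpose_mul]

theorem coe_invT (g : GL (Fin n) F) :
    (invT g : Matrix (Fin n) (Fin n) F) = ((g⁻¹ : GL (Fin n) F) : Matrix (Fin n) (Fin n) F)ᵀ := rfl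

/-- inverse transpose followed by conjugation by the reversal. -/
def phi : GL (Fin n) F ≃* GL (Fin n) F :=
  invT.trans (MulAut.conj (permGL F (Fin.revPerm : Equiv.Perm (Fin n))))

theorem phi_apply (g : GL (Fin n) F) (i j : Fin n) :
    (phi g : Matrix (Fin n) (Fin n) F) i j =
      ((g⁻¹ : GL (Fin n) F) : Matrix (Fin n) (Fin n) F) (Fin.rev j) (Fin.rev i) := by
  have h : ((permGL F (Fin.revPerm : Equiv.Perm (Fin n)))⁻¹ : GL (Fin n) F) =
      permGL F (Fin.revPerm : Equiv.Perm (Fin n))⁻¹ := rfl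
  change ((permGL F Fin.revPerm * invT g * (permGL F Fin.revPerm)⁻¹ : GL (Fin n) F) : Matrix (Fin n) (Fin n) F) i j = _
  rw [h, Units.val_mul, Units.val_mul, permGL_val, permGL_val, permM_conj, coe_invT]
  simp [Matrix.of_apply, Matrix.transpose_apply, Fin.revPerm]

theorem inv_mem_Pk_coe {k : ℕ} (g : GL (Fin n) F) : g ∈ Pk n k F ↔ g⁻¹ ∈ Pk n k F :=
  (Subgroup.inv_mem_iff _).symm

theorem mem_Pk_iff_phi {k : ℕ} (hk : k ≤ n) (g : GL (Fin n) F) : g ∈ Pk n k F ↔ phi g ∈ Pk n (n - k) F := by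
  rw [inv_mem_Pk_coe, mem_Pk_iff, mem_Pk_iff]
  constructor
  · intro h i j hi hj
    rw [phi_apply]
    apply h
    · simp only [Fin.val_rev]; omega
    · simp only [Fin.val_rev]; omega
  · intro h i j hi hj
    have := h (Fin.rev j) (Fin.rev i) (by simp only [Fin.val_rev]; omega) (by simp only [Fin.val_rev]; omega)
    rw [phi_apply] at this
    simpa using this

/-- The stabilisers of the coordinate subspaces of dimensions `k` and `n - k` are isomorphic. -/
noncomputable def isoPk {k : ℕ} (hk : k ≤ n) : ↥(Pk n k F) ≃* ↥(Pk n (n - k) F) :=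
  (phi.subgroupMap (Pk n k F)).trans (MulEquiv.subgroupCongr (by
    ext x
    constructor
    · rintro ⟨g, hg, rfl⟩
      exact (mem_Pk_iff_phi hk g).1 hg
    · intro hx
      refine ⟨phi.symm x, ?_, by simp⟩
      rw [SetLike.mem_coe, mem_Pk_iff_phi hk]
      simpa using hx))

end iso

section inv

/-- The coordinate subspace as a submodule. -/
def Wsub (n k : ℕ) (F : Type*) [Field F] : Submodule F (Fin n → F) where
  carrier := Wset n k F
  add_mem' {a b} ha hb i hi := by simp [ha i hi, hb i hi]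
  zero_mem' i _ := rfl
  smul_mem' c a ha i hi := by simp [ha i hi]

theorem mem_Wsub {k : ℕ} {v : Fin n → F} : v ∈ Wsub n k F ↔ ∀ i : Fin n, k ≤ (i : ℕ) → v i = 0 := Iff.rfl

/-- The coordinates on the coordinate subspace. -/
def Wequiv {k : ℕ} (hk : k ≤ n) : Wsub n k F ≃ₗ[F] (Fin k → F) where
  toFun v i := v.1 (Fin.castLE hk i)
  map_add' _ _ := rfl
  map_smul' _ _ := rfl
  invFun u := ⟨fun i => if h : (i : ℕ) < k then u ⟨i, h⟩ else 0, fun i hi => dif_neg (by omega)⟩
  left_inv v := by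
    apply Subtype.ext
    funext i
    by_cases h : (i : ℕ) < k
    · simp [h, Fin.castLE]
    · simp only [h, dite_false]
      exact (v.2 i (not_lt.1 h)).symm
  right_inv u := by
    funext i
    simp [Fin.castLE]

theorem finrank_Wsub {k : ℕ} (hk : k ≤ n) : Module.finrank F (Wsub n k F) = k := by
  rw [(Wequiv hk).finrank_eq]
  simp

variable {m : ℕ} {X : Submodule F (Fin n → F)}

theorem T_mulVec {a b : Fin n} (h : a ≠ b) (c : F) (x : Fin n → F) :
    (T h c : Matrix (Fin n) (Fin n) F) *ᵥ x = x + (c * x b) • Pi.single a 1 := by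
  rw [coe_T, Matrix.add_mulVec, Matrix.one_mulVec]
  congr 1
  ext i
  simp [Matrix.mulVec, dotProduct, Matrix.single_apply, Pi.single_apply]
  by_cases hi : i = a
  · subst hi
    simp
  · simp [hi, Ne.symm hi]

theorem single_mem (hX : ∀ h ∈ Pk n m F, ∀ x ∈ X, (h : Matrix (Fin n) (Fin n) F) *ᵥ x ∈ X)
    {x : Fin n → F} (hx : x ∈ X) {a b : Fin n} (hab : a ≠ b) (hT : ¬ (m ≤ (a : ℕ) ∧ (b : ℕ) < m))
    (hb : x b ≠ 0) : (Pi.single a 1 : Fin n → F) ∈ X := by
  have h1 := hX _ (T_mem_Pk hab (x b)⁻¹ hT) x hx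
  rw [T_mulVec, inv_mul_cancel₀ hb, one_smul] at h1
  have h2 := X.sub_mem h1 hx
  simpa using h2

theorem mem_of_singles {v : Fin n → F} (h : ∀ a, v a ≠ 0 → (Pi.single a 1 : Fin n → F) ∈ X) : v ∈ X := by
  have h1 : v = ∑ i, v i • (Pi.single i 1 : Fin n → F) := by
    ext j
    simp [Finset.sum_apply, Pi.single_apply]
  rw [h1]
  refine X.sum_mem fun i _ => ?_
  by_cases hi : v i = 0
  · rw [hi, zero_smul]
    exact X.zero_mem
  · exact X.smul_mem _ (h i hi)

/-- The last coordinate: if the other coordinates lie in `X`, so does the one of `b`. -/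
theorem single_mem_self {x : Fin n → F} (hx : x ∈ X) {b : Fin n} (hb : x b ≠ 0)
    (h : ∀ a, a ≠ b → x a ≠ 0 → (Pi.single a 1 : Fin n → F) ∈ X) : (Pi.single b 1 : Fin n → F) ∈ X := by
  have h1 : x - x b • (Pi.single b 1 : Fin n → F) ∈ X := by
    apply mem_of_singles
    intro a ha
    by_cases hab : a = b
    · subst hab
      simp at ha
    · apply h a hab
      simpa [Pi.single_apply, hab] using ha
  have h2 := X.sub_mem hx h1
  have h3 : x - (x - x b • (Pi.single b 1 : Fin n → F)) = x b • Pi.single b 1 := by abel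
  rw [h3] at h2
  exact (X.smul_mem_iff hb).1 h2

/-- The only invariant subspaces of the stabiliser. -/
theorem invariant_eq (hX : ∀ h ∈ Pk n m F, ∀ x ∈ X, (h : Matrix (Fin n) (Fin n) F) *ᵥ x ∈ X) :
    X = ⊥ ∨ X = Wsub n m F ∨ X = ⊤ := by
  by_cases h1 : ∃ x ∈ X, ∃ b : Fin n, m ≤ (b : ℕ) ∧ x b ≠ 0
  · obtain ⟨x, hx, b, hb, hxb⟩ := h1
    right; right
    have h2 : ∀ a, a ≠ b → (Pi.single a 1 : Fin n → F) ∈ X := by
      intro a hab
      apply single_mem hX hx hab _ hxb
      omega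
    have h3 := single_mem_self hx hxb fun a hab _ => h2 a hab
    rw [eq_top_iff]
    intro v _
    apply mem_of_singles
    intro a _
    by_cases hab : a = b
    · rwa [hab]
    · exact h2 a hab
  · push Not at h1
    by_cases h0 : X = ⊥
    · exact Or.inl h0
    right; left
    obtain ⟨x, hx, hx0⟩ := (Submodule.ne_bot_iff X).1 h0
    obtain ⟨b, hb⟩ := Function.ne_iff.1 hx0
    have hb' : x b ≠ 0 := hb
    have hbm : (b : ℕ) < m := by
      by_contra hh
      exact hb' (h1 x hx b (not_lt.1 hh))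
    have h2 : ∀ a : Fin n, (a : ℕ) < m → a ≠ b → (Pi.single a 1 : Fin n → F) ∈ X := by
      intro a ham hab
      apply single_mem hX hx hab _ hb'
      omega
    have h3 : (Pi.single b 1 : Fin n → F) ∈ X := single_mem_self hx hb' fun a hab hxa => h2 a (by
      by_contra hh
      exact hxa (h1 x hx a (not_lt.1 hh))) hab
    apply le_antisymm
    · intro y hy i hi
      exact h1 y hy i hi
    · intro v hv
      apply mem_of_singles
      intro a ha
      by_cases hab : a = b
      · rwa [hab]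
      · apply h2 a _ hab
        by_contra hh
        exact ha (hv a (not_lt.1 hh))

/-- The two stabilisers are not conjugate when `2 k ≠ n`. -/
theorem not_conj {k : ℕ} (hk0 : 0 < k) (hkn : k < n) (h2 : 2 * k ≠ n) (g : GL (Fin n) F) :
    (Pk n k F).map (MulAut.conj g).toMonoidHom ≠ Pk n (n - k) F := by
  intro h
  let L : (Fin n → F) ≃ₗ[F] (Fin n → F) := Cfsg.Agent.Lib.OrthMatrix.glEquiv g
  have hL : ∀ v, L v = (g : Matrix (Fin n) (Fin n) F) *ᵥ v := fun v => rfl
  have hX : ∀ h ∈ Pk n (n - k) F, ∀ x ∈ (Wsub n k F).map (L : (Fin n → F) →ₗ[F] (Fin n → F)),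
      (h : Matrix (Fin n) (Fin n) F) *ᵥ x ∈ (Wsub n k F).map (L : (Fin n → F) →ₗ[F] (Fin n → F)) := by
    intro h' hh x hx
    rw [← h] at hh
    obtain ⟨p, hp, rfl⟩ := hh
    obtain ⟨w, hw, rfl⟩ := hx
    refine ⟨(p : Matrix (Fin n) (Fin n) F) *ᵥ w, (hp w).1 hw, ?_⟩
    have h5 : (((MulAut.conj g).toMonoidHom p : GL (Fin n) F) : Matrix (Fin n) (Fin n) F) =
        (g : Matrix (Fin n) (Fin n) F) * (p : Matrix (Fin n) (Fin n) F) * ((g⁻¹ : GL (Fin n) F) : Matrix (Fin n) (Fin n) F) := rfl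
    have h6 : ((g⁻¹ : GL (Fin n) F) : Matrix (Fin n) (Fin n) F) * (g : Matrix (Fin n) (Fin n) F) = 1 := by
      rw [← Units.val_mul, inv_mul_cancel]
      rfl
    change L _ = _
    rw [h5]
    change _ = _ *ᵥ (L w)
    rw [hL, hL, Matrix.mulVec_mulVec, Matrix.mulVec_mulVec, Matrix.mul_assoc, h6, Matrix.mul_one]
  have hfin : Module.finrank F ((Wsub n k F).map (L : (Fin n → F) →ₗ[F] (Fin n → F))) = k := by
    rw [LinearEquiv.finrank_map_eq, finrank_Wsub hkn.le]
  rcases invariant_eq hX with h3 | h3 | h3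
  · rw [h3, finrank_bot] at hfin
    omega
  · rw [h3, finrank_Wsub (by omega)] at hfin
    omega
  · rw [h3, finrank_top] at hfin
    simp at hfin
    omega

end inv

end Cfsg.Agent.Lib.GLParab2
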