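import Mathlib
import Cfsg.Agent.Lib.UnitaryConjGU

/-!
# Unitary elements of `1 + S`, for a nilpotent `dag`-stable subalgebra `S`

Let `K` be a field with `q ^ 2` elements, `A` a `K`-algebra with a semilinear anti-involution `dag` and
`S` a `K`-subspace closed under products and `dag`, nilpotent. Then `x ↦ dag x * x` maps `1 + S` onto the
`dag`-fixed elements of `1 + S`; so the unitary elements of `1 + S` number the square root of `#S`.
-/

set_option autoImplicit false
set_option linter.unusedSectionVars false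
set_option linter.unusedSimpArgs false
set_option linter.unusedVariables false

namespace Cfsg.Agent.Lib.GUCentA

open Cfsg.Agent.Lib.UnitaryBasic Cfsg.Agent.Lib.HermCount

variable {K A : Type*} [Field K] [Fintype K] {q : ℕ} [Ring A] [Algebra K A]

/-- A semilinear anti-involution. -/
structure IsDag (q : ℕ) (dag : A → A) : Prop where
  add : ∀ x y, dag (x + y) = dag x + dag y
  mul : ∀ x y, dag (x * y) = dag y * dag x
  one : dag 1 = 1
  smul : ∀ (c : K) x, dag (c • x) = c ^ q • dag x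
  dag_dag : ∀ x, dag (dag x) = x

variable {dag : A → A} (hd : IsDag (K := K) q dag)
include hd

theorem IsDag.zero : dag 0 = 0 := by
  have h := hd.add 0 0
  rw [add_zero] at h
  exact left_eq_add.mp h

theorem IsDag.neg (x : A) : dag (-x) = - dag x := by
  have h := hd.add x (-x)
  rw [add_neg_cancel, hd.zero] at h
  exact (neg_eq_of_add_eq_zero_right h.symm).symm

omit hd

theorem exists_trace_one (hK : Fintype.card K = q ^ 2) : ∃ c : K, c + c ^ q = 1 := by
  obtain ⟨a, ha⟩ := Cfsg.Agent.Lib.UnitaryConjGU.exists_ne_pow hK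
  have hsub : a - a ^ q ≠ 0 := sub_ne_zero.mpr (Ne.symm ha)
  refine ⟨a / (a - a ^ q), ?_⟩
  have h1 : (a / (a - a ^ q)) ^ q = a ^ q / (a ^ q - a) := by
    rw [div_pow, sub_pow_q hK, pow_q_pow_q hK]
  rw [h1, ← neg_sub a (a ^ q), div_neg]
  field_simp
  ring

variable {S : Submodule K A} (hS : ∀ a ∈ S, ∀ b ∈ S, a * b ∈ S)
include hS

theorem pow_succ_le (m : ℕ) : S ^ (m + 2) ≤ S ^ (m + 1) := by
  induction m with
  | zero =>
    rw [pow_succ, zero_add, pow_one]
    exact Submodule.mul_le.mpr fun a ha b hb => hS a ha b hb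
  | succ m ih =>
    calc S ^ (m + 1 + 2) = S * S ^ (m + 2) := pow_succ' _ _
      _ ≤ S * S ^ (m + 1) := mul_le_mul' le_rfl ih
      _ = S ^ (m + 1 + 1) := (pow_succ' _ _).symm

theorem pow_le_of_le {a b : ℕ} (h : b ≤ a) : S ^ (a + 1) ≤ S ^ (b + 1) := by
  induction h with
  | refl => exact le_rfl
  | step _ ih => exact (pow_succ_le hS _).trans ih

theorem pow_le_self (m : ℕ) : S ^ (m + 1) ≤ S := by
  have := pow_le_of_le hS (Nat.zero_le m)
  simpa using this

omit hS

theorem left_mem {m : ℕ} {a b : A} (ha : a ∈ S) (hb : b ∈ S ^ (m + 1)) : a * b ∈ S ^ (m + 2) := by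
  rw [pow_succ' S (m + 1)]
  exact Submodule.mul_mem_mul ha hb

theorem right_mem {m : ℕ} {a b : A} (ha : a ∈ S) (hb : b ∈ S ^ (m + 1)) : b * a ∈ S ^ (m + 2) := by
  rw [pow_succ S (m + 1)]
  exact Submodule.mul_mem_mul hb ha

include hd in
theorem dag_pow_mem (hD : ∀ a ∈ S, dag a ∈ S) (m : ℕ) : ∀ a ∈ S ^ (m + 1), dag a ∈ S ^ (m + 1) := by
  induction m with
  | zero =>
    simpa using hD
  | succ m ih =>
    intro a ha
    rw [pow_succ S (m + 1)] at ha
    refine Submodule.mul_induction_on ha (fun x hx y hy => ?_) (fun x y hx hy => ?_)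
    · rw [hd.mul]
      exact left_mem (hD y hy) (ih x hx)
    · rw [hd.add]
      exact add_mem hx hy

variable {M : ℕ} (hM : S ^ M = ⊥)
include hS hM

theorem eq_zero_of_mem {m : ℕ} (hm : M ≤ m + 1) {t : A} (ht : t ∈ S ^ (m + 1)) : t = 0 := by
  by_cases h0 : M = 0
  · subst h0
    -- `S ^ 0 = 1 = ⊥` forces everything to vanish
    have h1 : (1 : A) ∈ (⊥ : Submodule K A) := by
      rw [← hM, pow_zero]
      exact Submodule.one_le.mp le_rfl
    have h2 : (1 : A) = 0 := by simpa using h1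
    have : t = t * 1 := (mul_one t).symm
    rw [this, h2, mul_zero]
  · obtain ⟨M', rfl⟩ : ∃ M', M = M' + 1 := ⟨M - 1, by omega⟩
    have := pow_le_of_le hS (a := m) (b := M') (by omega) ht
    rw [hM] at this
    simpa using this

theorem exists_right_inv_aux (k : ℕ) : ∀ m, M ≤ m + 1 + k → ∀ t ∈ S ^ (m + 1), ∃ t' ∈ S, (1 + t) * (1 + t') = 1 := by
  induction k with
  | zero =>
    intro m hm t ht
    rw [eq_zero_of_mem hS hM (by omega) ht]
    exact ⟨0, zero_mem _, by simp⟩
  | succ k ih =>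
    intro m hm t ht
    have htS := pow_le_self hS m ht
    have h2 : -(t * t) ∈ S ^ (m + 1 + 1) := neg_mem (left_mem htS ht)
    obtain ⟨t'', ht'', h3⟩ := ih (m + 1) (by omega) _ h2
    refine ⟨-t + t'' + -t * t'', add_mem (add_mem (neg_mem htS) ht'') (hS _ (neg_mem htS) _ ht''), ?_⟩
    calc (1 + t) * (1 + (-t + t'' + -t * t'')) = (1 + -(t * t)) * (1 + t'') := by noncomm_ring
      _ = 1 := h3

theorem exists_right_inv {t : A} (ht : t ∈ S) : ∃ t' ∈ S, (1 + t) * (1 + t') = 1 := by
  refine exists_right_inv_aux hS hM M 0 (by omega) t ?_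
  simpa using ht

theorem exists_inv {t : A} (ht : t ∈ S) : ∃ t' ∈ S, (1 + t) * (1 + t') = 1 ∧ (1 + t') * (1 + t) = 1 := by
  obtain ⟨t', ht', h1⟩ := exists_right_inv hS hM ht
  obtain ⟨t'', ht'', h2⟩ := exists_right_inv hS hM ht'
  have h3 : 1 + t = 1 + t'' := by
    calc 1 + t = (1 + t) * ((1 + t') * (1 + t'')) := by rw [h2, mul_one]
      _ = ((1 + t) * (1 + t')) * (1 + t'') := by rw [mul_assoc]
      _ = 1 + t'' := by rw [h1, one_mul]
  exact ⟨t', ht', h1, by rw [h3]; exact h2⟩

include hd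

/-- Norms: every `dag`-fixed element of `1 + S` is `dag x * x` with `x ∈ 1 + S`. -/
theorem exists_norm_aux (hK : Fintype.card K = q ^ 2) (hD : ∀ a ∈ S, dag a ∈ S) (k : ℕ) :
    ∀ m, M ≤ m + 1 + k → ∀ s ∈ S ^ (m + 1), dag s = s → ∃ r ∈ S, (1 + dag r) * (1 + r) = 1 + s := by
  induction k with
  | zero =>
    intro m hm s hs _
    rw [eq_zero_of_mem hS hM (by omega) hs]
    exact ⟨0, zero_mem _, by simp [hd.zero]⟩
  | succ k ih =>
    intro m hm s hs hss
    obtain ⟨c, hc⟩ := exists_trace_one (K := K) hK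
    obtain ⟨t, ht⟩ : ∃ t, t = c • s := ⟨_, rfl⟩
    have htm : t ∈ S ^ (m + 1) := by rw [ht]; exact Submodule.smul_mem _ _ hs
    have htS := pow_le_self hS m htm
    have hdt : dag t = c ^ q • s := by rw [ht, hd.smul, hss]
    have hts : dag t + t = s := by
      rw [hdt, ht, ← add_smul, add_comm, hc, one_smul]
    obtain ⟨t', ht', h1, h2⟩ := exists_inv hS hM htS
    have hdtS := hD t htS
    have hdt'S := hD t' ht'
    have h3 : (1 + dag t') * (1 + dag t) = 1 := by
      have := congrArg dag h1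
      rwa [hd.mul, hd.add, hd.add, hd.one] at this
    have h4 : (1 + dag t) * (1 + dag t') = 1 := by
      have := congrArg dag h2
      rwa [hd.mul, hd.add, hd.add, hd.one] at this
    -- the new element
    obtain ⟨w, hw⟩ : ∃ w, w = dag t * t := ⟨_, rfl⟩
    have hwm : w ∈ S ^ (m + 2) := by rw [hw]; exact left_mem hdtS htm
    have hexp : 1 + s = (1 + dag t) * (1 + t) - w := by
      rw [hw, ← hts]
      noncomm_ring
    obtain ⟨s', hs'⟩ : ∃ s', s' = -((1 + dag t') * w * (1 + t')) := ⟨_, rfl⟩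
    have hprod : (1 + dag t') * (1 + s) * (1 + t') = 1 + s' := by
      rw [hexp, hs']
      calc (1 + dag t') * ((1 + dag t) * (1 + t) - w) * (1 + t')
          = ((1 + dag t') * (1 + dag t)) * ((1 + t) * (1 + t')) - (1 + dag t') * w * (1 + t') := by noncomm_ring
        _ = _ := by rw [h3, h1]; noncomm_ring
    have hs'm : s' ∈ S ^ (m + 1 + 1) := by
      rw [hs']
      refine neg_mem ?_
      have e : (1 + dag t') * w * (1 + t') = w + dag t' * w + (w + dag t' * w) * t' := by noncomm_ring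
      rw [e]
      have h5 : dag t' * w ∈ S ^ (m + 2) := by
        have := left_mem (m := m + 1) hdt'S hwm
        exact pow_succ_le hS _ this
      have h6 : w + dag t' * w ∈ S ^ (m + 2) := add_mem hwm h5
      refine add_mem h6 ?_
      have := right_mem (m := m + 1) ht' h6
      exact pow_succ_le hS _ this
    have hs'd : dag s' = s' := by
      have h7 : dag (1 + s') = 1 + s' := by
        rw [← hprod, hd.mul, hd.mul, hd.add 1 t', hd.add 1 (dag t'), hd.add 1 s, hd.one, hd.dag_dag, hss, mul_assoc]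
      rw [hd.add, hd.one] at h7
      exact add_left_cancel h7
    obtain ⟨r', hr', h8⟩ := ih (m + 1) (by omega) s' hs'm hs'd
    refine ⟨r' + t + r' * t, add_mem (add_mem hr' htS) (hS _ hr' _ htS), ?_⟩
    have h9 : 1 + (r' + t + r' * t) = (1 + r') * (1 + t) := by noncomm_ring
    have h10 : 1 + dag (r' + t + r' * t) = (1 + dag t) * (1 + dag r') := by
      have := congrArg dag h9
      rw [hd.add 1 (r' + t + r' * t), hd.one, hd.mul (1 + r') (1 + t), hd.add 1 r', hd.add 1 t, hd.one] at this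
      exact this
    rw [h9, h10]
    calc (1 + dag t) * (1 + dag r') * ((1 + r') * (1 + t))
        = (1 + dag t) * ((1 + dag r') * (1 + r')) * (1 + t) := by noncomm_ring
      _ = (1 + dag t) * (1 + s') * (1 + t) := by rw [h8]
      _ = (1 + dag t) * ((1 + dag t') * (1 + s) * (1 + t')) * (1 + t) := by rw [hprod]
      _ = ((1 + dag t) * (1 + dag t')) * (1 + s) * ((1 + t') * (1 + t)) := by noncomm_ring
      _ = 1 + s := by rw [h4, h2, one_mul, mul_one]

theorem exists_norm (hK : Fintype.card K = q ^ 2) (hD : ∀ a ∈ S, dag a ∈ S) {s : A} (hs : s ∈ S) (hss : dag s = s) :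
    ∃ r ∈ S, (1 + dag r) * (1 + r) = 1 + s := by
  refine exists_norm_aux hd hS hM hK hD M 0 (by omega) s ?_ hss
  simpa using hs

/-- The unitary elements of `1 + S`. -/
abbrev RR (S : Submodule K A) (dag : A → A) : Type _ := {r : A // r ∈ S ∧ (1 + dag r) * (1 + r) = 1}

/-- The `dag`-fixed elements of `S`. -/
abbrev SS (S : Submodule K A) (dag : A → A) : Type _ := {s : A // s ∈ S ∧ dag s = s}

theorem card_S_eq [Finite A] (hK : Fintype.card K = q ^ 2) (hD : ∀ a ∈ S, dag a ∈ S) :
    Nat.card S = Nat.card (RR S dag) * Nat.card (SS S dag) := by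
  classical
  have hF : ∀ s : SS S dag, ∃ r ∈ S, (1 + dag r) * (1 + r) = 1 + s.1 := fun s =>
    exists_norm hd hS hM hK hD s.2.1 s.2.2
  choose σ hσ hσ' using hF
  have hmem : ∀ (z : RR S dag) (s : SS S dag), z.1 + σ s + z.1 * σ s ∈ S := fun z s =>
    add_mem (add_mem z.2.1 (hσ s)) (hS _ z.2.1 _ (hσ s))
  have hexp : ∀ (z : RR S dag) (s : SS S dag), 1 + (z.1 + σ s + z.1 * σ s) = (1 + z.1) * (1 + σ s) := fun z s => by
    noncomm_ring
  have hnorm : ∀ x, x ∈ S → ∀ y, y ∈ S → 1 + dag (x + y + x * y) = (1 + dag y) * (1 + dag x) := by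
    intro x _ y _
    have h : 1 + (x + y + x * y) = (1 + x) * (1 + y) := by noncomm_ring
    have := congrArg dag h
    rwa [hd.add 1 (x + y + x * y), hd.one, hd.mul (1 + x) (1 + y), hd.add 1 x, hd.add 1 y, hd.one] at this
  let G : RR S dag × SS S dag → S := fun p => ⟨p.1.1 + σ p.2 + p.1.1 * σ p.2, hmem p.1 p.2⟩
  have hGn : ∀ p : RR S dag × SS S dag, (1 + dag (G p).1) * (1 + (G p).1) = 1 + p.2.1 := by
    rintro ⟨z, s⟩
    show (1 + dag (z.1 + σ s + z.1 * σ s)) * (1 + (z.1 + σ s + z.1 * σ s)) = _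
    rw [hexp, hnorm _ z.2.1 _ (hσ s)]
    calc (1 + dag (σ s)) * (1 + dag z.1) * ((1 + z.1) * (1 + σ s))
        = (1 + dag (σ s)) * ((1 + dag z.1) * (1 + z.1)) * (1 + σ s) := by noncomm_ring
      _ = 1 + s.1 := by rw [z.2.2, mul_one, hσ']
  have hbij : Function.Bijective G := by
    constructor
    · rintro ⟨z, s⟩ ⟨z', s'⟩ h
      have h1 := hGn (z, s)
      rw [h, hGn (z', s')] at h1
      have hss' : s = s' := Subtype.ext (add_left_cancel h1).symm
      subst hss'
      have h2 : (1 + z.1) * (1 + σ s) = (1 + z'.1) * (1 + σ s) := by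
        rw [← hexp, ← hexp]
        exact congrArg (fun y : S => 1 + y.1) h
      obtain ⟨v, _, hv1, _⟩ := exists_inv hS hM (hσ s)
      have h3 : 1 + z.1 = 1 + z'.1 := by
        calc 1 + z.1 = (1 + z.1) * ((1 + σ s) * (1 + v)) := by rw [hv1, mul_one]
          _ = ((1 + z.1) * (1 + σ s)) * (1 + v) := by rw [mul_assoc]
          _ = ((1 + z'.1) * (1 + σ s)) * (1 + v) := by rw [h2]
          _ = (1 + z'.1) * ((1 + σ s) * (1 + v)) := by rw [mul_assoc]
          _ = 1 + z'.1 := by rw [hv1, mul_one]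
      exact Prod.ext (Subtype.ext (add_left_cancel h3)) rfl
    · rintro ⟨r, hr⟩
      -- the norm of `1 + r`
      obtain ⟨s, hs⟩ : ∃ s, s = dag r + r + dag r * r := ⟨_, rfl⟩
      have hsm : s ∈ S := by
        rw [hs]
        exact add_mem (add_mem (hD r hr) hr) (hS _ (hD r hr) _ hr)
      have hsn : (1 + dag r) * (1 + r) = 1 + s := by rw [hs]; noncomm_ring
      have hsd : dag s = s := by
        have h1 : dag (1 + s) = 1 + s := by
          rw [← hsn, hd.mul, hd.add, hd.add, hd.one, hd.dag_dag]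
        rw [hd.add, hd.one] at h1
        exact add_left_cancel h1
      let s0 : SS S dag := ⟨s, hsm, hsd⟩
      obtain ⟨v, hv, hv1, hv2⟩ := exists_inv hS hM (hσ s0)
      have hvd1 : (1 + dag v) * (1 + dag (σ s0)) = 1 := by
        have := congrArg dag hv1
        rwa [hd.mul, hd.add, hd.add, hd.one] at this
      have hvd2 : (1 + dag (σ s0)) * (1 + dag v) = 1 := by
        have := congrArg dag hv2
        rwa [hd.mul, hd.add, hd.add, hd.one] at this
      have hzm : r + v + r * v ∈ S := add_mem (add_mem hr hv) (hS _ hr _ hv)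
      have hzu : (1 + dag (r + v + r * v)) * (1 + (r + v + r * v)) = 1 := by
        have h1 : 1 + (r + v + r * v) = (1 + r) * (1 + v) := by noncomm_ring
        rw [h1, hnorm _ hr _ hv]
        calc (1 + dag v) * (1 + dag r) * ((1 + r) * (1 + v))
            = (1 + dag v) * ((1 + dag r) * (1 + r)) * (1 + v) := by noncomm_ring
          _ = (1 + dag v) * (1 + s) * (1 + v) := by rw [hsn]
          _ = (1 + dag v) * ((1 + dag (σ s0)) * (1 + σ s0)) * (1 + v) := by rw [hσ' s0]
          _ = ((1 + dag v) * (1 + dag (σ s0))) * ((1 + σ s0) * (1 + v)) := by noncomm_ring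
          _ = 1 := by rw [hvd1, hv1, one_mul]
      refine ⟨(⟨_, hzm, hzu⟩, s0), Subtype.ext ?_⟩
      show (r + v + r * v) + σ s0 + (r + v + r * v) * σ s0 = r
      have h1 : 1 + ((r + v + r * v) + σ s0 + (r + v + r * v) * σ s0) = (1 + r) * ((1 + v) * (1 + σ s0)) := by
        noncomm_ring
      have h2 : 1 + ((r + v + r * v) + σ s0 + (r + v + r * v) * σ s0) = 1 + r := by
        rw [h1, hv2, mul_one]
      exact add_left_cancel h2
  rw [← Nat.card_prod]
  exact (Nat.card_congr (Equiv.ofBijective G hbij)).symm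

omit hS hM

theorem card_S_eq_sq [Finite A] (hK : Fintype.card K = q ^ 2) (hD : ∀ a ∈ S, dag a ∈ S) :
    Nat.card S = Nat.card (SS S dag) * Nat.card (SS S dag) := by
  classical
  obtain ⟨δ, hδ⟩ := Cfsg.Agent.Lib.UnitaryConjGU.exists_ne_pow (K := K) hK
  have hsub : δ - δ ^ q ≠ 0 := sub_ne_zero.mpr (Ne.symm hδ)
  let G : SS S dag × SS S dag → S := fun p => ⟨p.1.1 + δ • p.2.1, add_mem p.1.2.1 (Submodule.smul_mem _ _ p.2.2.1)⟩
  have hGd : ∀ p : SS S dag × SS S dag, dag (G p).1 = p.1.1 + δ ^ q • p.2.1 := by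
    rintro ⟨a, b⟩
    show dag (a.1 + δ • b.1) = _
    rw [hd.add, hd.smul, a.2.2, b.2.2]
  have hbij : Function.Bijective G := by
    constructor
    · rintro ⟨a, b⟩ ⟨a', b'⟩ h
      have h1 : a.1 + δ • b.1 = a'.1 + δ • b'.1 := congrArg Subtype.val h
      have h2 : a.1 + δ ^ q • b.1 = a'.1 + δ ^ q • b'.1 := by
        have := hGd (a, b)
        rw [h, hGd (a', b')] at this
        exact this.symm
      have h3 : (δ - δ ^ q) • (b.1 - b'.1) = 0 := by
        have e : (δ - δ ^ q) • (b.1 - b'.1) = (a.1 + δ • b.1 - (a'.1 + δ • b'.1)) - (a.1 + δ ^ q • b.1 - (a'.1 + δ ^ q • b'.1)) := by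
          simp only [smul_sub, sub_smul]
          abel
        rw [e, h1, h2, sub_self, sub_self, sub_zero]
      have h4 : b.1 = b'.1 := by
        have := (smul_eq_zero.mp h3).resolve_left hsub
        exact sub_eq_zero.mp this
      have h5 : a.1 = a'.1 := by
        rw [h4] at h1
        exact add_right_cancel h1
      exact Prod.ext (Subtype.ext h5) (Subtype.ext h4)
    · rintro ⟨r, hr⟩
      obtain ⟨b, hb⟩ : ∃ b, b = (δ - δ ^ q)⁻¹ • (r - dag r) := ⟨_, rfl⟩
      have hsm : r - dag r ∈ S := sub_mem hr (hD r hr)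
      have hbm : b ∈ S := by
        rw [hb]
        exact Submodule.smul_mem _ _ hsm
      have hdif : dag (r - dag r) = -(r - dag r) := by
        rw [sub_eq_add_neg, hd.add, hd.neg, hd.dag_dag]
        abel
      have hinv : ((δ - δ ^ q)⁻¹) ^ q = -(δ - δ ^ q)⁻¹ := by
        rw [inv_pow, sub_pow_q hK, pow_q_pow_q hK, ← neg_sub δ (δ ^ q), inv_neg]
      have hbd : dag b = b := by
        rw [hb, hd.smul, hinv, hdif, smul_neg, neg_smul, neg_neg]
      have hsc : (δ - δ ^ q) • b = r - dag r := by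
        rw [hb, smul_smul, mul_inv_cancel₀ hsub, one_smul]
      obtain ⟨a, ha⟩ : ∃ a, a = r - δ • b := ⟨_, rfl⟩
      have ham : a ∈ S := by
        rw [ha, sub_eq_add_neg]
        exact add_mem hr (neg_mem (Submodule.smul_mem _ _ hbm))
      have had : dag a = a := by
        rw [ha, sub_eq_add_neg, hd.add, hd.neg, hd.smul, hbd]
        have : dag r = r - (δ - δ ^ q) • b := by rw [hsc]; abel
        rw [this, sub_smul]
        abel
      refine ⟨(⟨a, ham, had⟩, ⟨b, hbm, hbd⟩), Subtype.ext ?_⟩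
      show a + δ • b = r
      rw [ha]
      abel
  rw [← Nat.card_prod]
  exact (Nat.card_congr (Equiv.ofBijective G hbij)).symm

include hS hM

/-- The number of unitary elements of `1 + S`. -/
theorem card_RR_sq [Finite A] (hK : Fintype.card K = q ^ 2) (hD : ∀ a ∈ S, dag a ∈ S) :
    Nat.card (RR S dag) * Nat.card (RR S dag) = Nat.card S := by
  have h1 := card_S_eq hd hS hM hK hD
  have h2 := card_S_eq_sq hd hK hD
  have hpos : 0 < Nat.card (SS S dag) := by
    have : Nonempty (SS S dag) := ⟨⟨0, zero_mem _, hd.zero⟩⟩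
    exact Nat.card_pos
  have h3 : Nat.card (RR S dag) = Nat.card (SS S dag) := by
    rw [h2] at h1
    exact (Nat.eq_of_mul_eq_mul_right hpos h1).symm
  rw [h3, h2]

end Cfsg.Agent.Lib.GUCentA
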