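import Mathlib
import Cfsg.Agent.Lib.FlagIndex

/-!
# Counting invertible block triangular matrices with a general label
-/

set_option autoImplicit false
set_option linter.unusedSectionVars false

namespace Cfsg.Agent.Lib.JCentTri

open Matrix Finset Cfsg.Agent.Lib.FlagIndex

variable {F : Type*} [Field F] [Fintype F] {t : ℕ} (d : Fin t → ℕ)

/-- The block of label `i`. -/
abbrev Blk (i : ℕ) : Type := {k : Fin t // d k = i}

/-- The pairs of positions in the strictly upper part. -/
abbrev Pairs : Type := {p : Fin t × Fin t // d p.1 < d p.2}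

theorem lbl_lt (i : Fin t) : d i < univ.sup d + 1 :=
  Nat.lt_succ_of_le (Finset.le_sup (f := d) (Finset.mem_univ i))

/-- A block triangular matrix from its blocks and its upper part. -/
def ofData (A : ∀ c : Fin (univ.sup d + 1), Matrix (Blk d c) (Blk d c) F) (f : Pairs d → F) :
    Matrix (Fin t) (Fin t) F :=
  Matrix.of fun i j =>
    if h : d j = d i then
      A ⟨d i, lbl_lt d i⟩ ⟨i, rfl⟩ ⟨j, h⟩
    else if h' : d i < d j then f ⟨(i, j), h'⟩ else 0

theorem ofData_blockTriangular (A : ∀ c : Fin (univ.sup d + 1), Matrix (Blk d c) (Blk d c) F) (f : Pairs d → F) :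
    (ofData d A f).BlockTriangular d := by
  intro i j hij
  simp only [ofData, Matrix.of_apply]
  rw [dif_neg (by omega), dif_neg (by omega)]

theorem block_ofData (A : ∀ c : Fin (univ.sup d + 1), Matrix (Blk d c) (Blk d c) F) (f : Pairs d → F)
    (c : Fin (univ.sup d + 1)) :
    (ofData d A f).toSquareBlock d c.val = A c := by
  ext ⟨i, hi⟩ ⟨j, hj⟩
  have hc : c = ⟨d i, lbl_lt d i⟩ := Fin.ext hi.symm
  subst hc
  simp only [Matrix.toSquareBlock_def, Matrix.of_apply, ofData]
  rw [dif_pos hj]

theorem pairs_ofData (A : ∀ c : Fin (univ.sup d + 1), Matrix (Blk d c) (Blk d c) F) (f : Pairs d → F) (p : Pairs d) :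
    ofData d A f p.1.1 p.1.2 = f p := by
  have hp := p.2
  simp only [ofData, Matrix.of_apply]
  rw [dif_neg (by omega), dif_pos hp]

theorem ofData_toData (M : Matrix (Fin t) (Fin t) F) (hM : M.BlockTriangular d) :
    ofData d (fun c => M.toSquareBlock d c.val) (fun p => M p.1.1 p.1.2) = M := by
  ext i j
  simp only [ofData, Matrix.of_apply]
  by_cases h : d j = d i
  · rw [dif_pos h]
    rfl
  · rw [dif_neg h]
    by_cases h' : d i < d j
    · rw [dif_pos h']
    · rw [dif_neg h']
      exact (hM (by omega)).symm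

theorem det_ne_zero_iff (M : Matrix (Fin t) (Fin t) F) (hM : M.BlockTriangular d) :
    M.det ≠ 0 ↔ ∀ c : Fin (univ.sup d + 1), (M.toSquareBlock d c.val).det ≠ 0 := by
  rw [hM.det, Finset.prod_ne_zero_iff]
  constructor
  · intro h c
    by_cases hc : c.val ∈ univ.image d
    · exact h _ hc
    · have : IsEmpty {a : Fin t // d a = c.val} := by
        constructor
        rintro ⟨a, ha⟩
        exact hc (Finset.mem_image.mpr ⟨a, Finset.mem_univ _, ha⟩)
      rw [Matrix.det_isEmpty]
      exact one_ne_zero
  · intro h a ha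
    obtain ⟨i, _, rfl⟩ := Finset.mem_image.mp ha
    exact h ⟨d i, lbl_lt d i⟩

/-- Block triangular invertible matrices in coordinates. -/
noncomputable def equivData :
    {M : Matrix (Fin t) (Fin t) F // M.BlockTriangular d ∧ M.det ≠ 0} ≃
      (∀ c : Fin (univ.sup d + 1), {A : Matrix (Blk d c) (Blk d c) F // A.det ≠ 0}) × (Pairs d → F) where
  toFun M := (fun c => ⟨M.1.toSquareBlock d c.val,
      (det_ne_zero_iff d M.1 M.2.1).mp M.2.2 c⟩, fun p => M.1 p.1.1 p.1.2)
  invFun x := ⟨ofData d (fun c => (x.1 c).1) x.2, ofData_blockTriangular d _ _, by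
      rw [det_ne_zero_iff d _ (ofData_blockTriangular d _ _)]
      intro c
      rw [block_ofData d]
      exact (x.1 c).2⟩
  left_inv M := by
    apply Subtype.ext
    exact ofData_toData d M.1 M.2.1
  right_inv x := by
    apply Prod.ext
    · funext c
      apply Subtype.ext
      exact block_ofData d (fun c => (x.1 c).1) x.2 c
    · funext p
      exact pairs_ofData d (fun c => (x.1 c).1) x.2 p

/-- The count of invertible block triangular matrices. -/
theorem card_tri :
    Nat.card {M : Matrix (Fin t) (Fin t) F // M.BlockTriangular d ∧ M.det ≠ 0} =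
      (∏ c : Fin (univ.sup d + 1), glCount (Fintype.card F) (Fintype.card (Blk d c))) *
        Fintype.card F ^ Fintype.card (Pairs d) := by
  classical
  rw [Nat.card_congr (equivData d), Nat.card_prod, Nat.card_pi, Nat.card_fun]
  congr 1
  · apply Finset.prod_congr rfl
    intro c _
    rw [card_det_ne]
  · rw [Nat.card_eq_fintype_card, Nat.card_eq_fintype_card]

end Cfsg.Agent.Lib.JCentTri
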