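import Mathlib
import Cfsg.Agent.Lib.JType
import Cfsg.Agent.Lib.JCentTri

/-!
# The commutant of a unipotent Jordan matrix in coordinates
-/

set_option autoImplicit false
set_option linter.unusedSectionVars false
set_option linter.unusedSimpArgs false
set_option linter.unusedVariables false

namespace Cfsg.Agent.Lib.JCent

open Matrix Finset Cfsg.Agent.Lib.JType

variable {F : Type*} [Field F] {t : ℕ} {d : Fin t → ℕ}

theorem mul_J_apply (g : Matrix (Kap d) (Kap d) F) (p : Kap d) (l : Fin t) (b : Fin (d l)) :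
    (g * Cfsg.jordanTypeMatrix d F) p ⟨l, b⟩ =
      g p ⟨l, b⟩ + if h : (b : ℕ) + 1 < d l then g p ⟨l, ⟨b + 1, h⟩⟩ else 0 := by
  classical
  simp only [Matrix.mul_apply, Fintype.sum_sigma]
  rw [Finset.sum_eq_single l]
  · simp only [Cfsg.jordanTypeMatrix, Matrix.blockDiagonal'_apply_eq, Cfsg.jordanBlock, Matrix.of_apply]
    by_cases h : (b : ℕ) + 1 < d l
    · rw [dif_pos h, Finset.sum_eq_add b ⟨b + 1, h⟩]
      · simp
      · intro e
        have := congrArg Fin.val e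
        simp at this
      · intro j _ hj
        have h1 : (j : ℕ) ≠ b := fun e => hj.1 (Fin.ext e)
        have h2 : (j : ℕ) ≠ b + 1 := fun e => hj.2 (Fin.ext e)
        simp [h1, h2]
      · simp
      · simp
    · rw [dif_neg h, Finset.sum_eq_single b]
      · simp
      · intro j _ hj
        have h1 : (j : ℕ) ≠ b := fun e => hj (Fin.ext e)
        have h2 : (j : ℕ) ≠ b + 1 := by have := j.2; omega
        simp [h1, h2]
      · simp
  · intro l' _ hl
    refine Finset.sum_eq_zero fun j _ => ?_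
    simp only [Cfsg.jordanTypeMatrix]
    rw [Matrix.blockDiagonal'_apply_ne _ _ _ hl, mul_zero]
  · simp

theorem J_mul_apply (g : Matrix (Kap d) (Kap d) F) (k : Fin t) (a : Fin (d k)) (q : Kap d) :
    (Cfsg.jordanTypeMatrix d F * g) ⟨k, a⟩ q =
      g ⟨k, a⟩ q + if h : 1 ≤ (a : ℕ) then g ⟨k, ⟨a - 1, by omega⟩⟩ q else 0 :=
  mulVec_J d (fun r : Kap d => g r q) k a

/-- Extension of the entries of a matrix to natural number indices. -/
def ex (g : Matrix (Kap d) (Kap d) F) (k : Fin t) (a : ℕ) (l : Fin t) (b : ℕ) : F :=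
  if h : a < d k ∧ b < d l then g ⟨k, ⟨a, h.1⟩⟩ ⟨l, ⟨b, h.2⟩⟩ else 0

theorem ex_eq (g : Matrix (Kap d) (Kap d) F) (k : Fin t) (a : Fin (d k)) (l : Fin t) (b : Fin (d l)) :
    ex g k a l b = g ⟨k, a⟩ ⟨l, b⟩ := dif_pos ⟨a.2, b.2⟩

theorem ex_of_lt (g : Matrix (Kap d) (Kap d) F) {k : Fin t} {a : ℕ} {l : Fin t} {b : ℕ} (ha : a < d k) (hb : b < d l) :
    ex g k a l b = g ⟨k, ⟨a, ha⟩⟩ ⟨l, ⟨b, hb⟩⟩ := dif_pos ⟨ha, hb⟩

theorem ex_left {g : Matrix (Kap d) (Kap d) F} {k : Fin t} {a : ℕ} (h : d k ≤ a) (l : Fin t) (b : ℕ) : ex g k a l b = 0 :=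
  dif_neg fun e => by have := e.1; omega

theorem ex_right {g : Matrix (Kap d) (Kap d) F} (k : Fin t) (a : ℕ) {l : Fin t} {b : ℕ} (h : d l ≤ b) : ex g k a l b = 0 :=
  dif_neg fun e => by have := e.2; omega

theorem comm_E {g : Matrix (Kap d) (Kap d) F} (hg : g * Cfsg.jordanTypeMatrix d F = Cfsg.jordanTypeMatrix d F * g)
    (k l : Fin t) (a b : ℕ) (ha : a < d k) (hb : b < d l) :
    ex g k a l (b + 1) = if a = 0 then 0 else ex g k (a - 1) l b := by
  have h := congrFun (congrFun hg (⟨k, ⟨a, ha⟩⟩ : Kap d)) (⟨l, ⟨b, hb⟩⟩ : Kap d)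
  rw [mul_J_apply, J_mul_apply, add_right_inj] at h
  simp only at h
  by_cases h1 : b + 1 < d l
  · rw [dif_pos h1] at h
    have e1 : ex g k a l (b + 1) = g ⟨k, ⟨a, ha⟩⟩ ⟨l, ⟨b + 1, h1⟩⟩ := dif_pos ⟨ha, h1⟩
    rw [e1, h]
    by_cases h2 : a = 0
    · rw [dif_neg (by omega), if_pos h2]
    · rw [dif_pos (by omega), if_neg h2]
      exact (ex_of_lt g (by omega) hb).symm
  · rw [dif_neg h1] at h
    rw [ex_right _ _ (by omega)]
    by_cases h2 : a = 0
    · rw [if_pos h2]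
    · rw [dif_pos (by omega)] at h
      rw [if_neg h2, h]
      exact (ex_of_lt g (by omega) hb).symm

theorem comm_of_E {g : Matrix (Kap d) (Kap d) F}
    (hE : ∀ (k l : Fin t) (a b : ℕ), a < d k → b < d l → ex g k a l (b + 1) = if a = 0 then 0 else ex g k (a - 1) l b) :
    g * Cfsg.jordanTypeMatrix d F = Cfsg.jordanTypeMatrix d F * g := by
  ext ⟨k, a⟩ ⟨l, b⟩
  rw [mul_J_apply, J_mul_apply, add_right_inj]
  have h := hE k l a b a.2 b.2
  by_cases h1 : (b : ℕ) + 1 < d l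
  · rw [dif_pos h1]
    have e1 : ex g k a l (b + 1) = g ⟨k, a⟩ ⟨l, ⟨b + 1, h1⟩⟩ := dif_pos ⟨a.2, h1⟩
    rw [← e1, h]
    by_cases h2 : (a : ℕ) = 0
    · rw [dif_neg (by omega), if_pos h2]
    · rw [dif_pos (by omega), if_neg h2]
      exact ex_of_lt g (by have := a.2; omega) b.2
  · rw [dif_neg h1]
    rw [ex_right _ _ (by omega)] at h
    by_cases h2 : (a : ℕ) = 0
    · rw [dif_neg (by omega)]
    · rw [dif_pos (by omega)]
      rw [if_neg h2] at h
      rw [h]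
      exact ex_of_lt g (by have := a.2; omega) b.2

section shape

variable {g : Matrix (Kap d) (Kap d) F} (hg : g * Cfsg.jordanTypeMatrix d F = Cfsg.jordanTypeMatrix d F * g)
include hg

theorem shape (k l : Fin t) (b : ℕ) : ∀ a, a < d k → b < d l → ex g k a l b = if b ≤ a then ex g k (a - b) l 0 else 0 := by
  induction b with
  | zero => intro a _ _; simp
  | succ b ih =>
    intro a ha hb
    rw [comm_E hg k l a b ha (by omega)]
    by_cases h0 : a = 0
    · rw [if_pos h0, if_neg (by omega)]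
    · rw [if_neg h0, ih (a - 1) (by omega) (by omega)]
      by_cases h1 : b + 1 ≤ a
      · rw [if_pos (by omega), if_pos h1]
        congr 1
        omega
      · rw [if_neg (by omega), if_neg h1]

theorem vanish (k l : Fin t) (hl : 1 ≤ d l) (a : ℕ) (h : a + d l < d k) : ex g k a l 0 = 0 := by
  have h1 := comm_E hg k l (a + d l) (d l - 1) h (by omega)
  rw [ex_right _ _ (by omega), if_neg (by omega)] at h1
  rw [shape hg k l (d l - 1) _ (by omega) (by omega), if_pos (by omega)] at h1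
  have e : a + d l - 1 - (d l - 1) = a := by omega
  rw [e] at h1
  exact h1.symm

theorem zero_row (k l : Fin t) (b : ℕ) (hb : b ≠ 0) : ex g k 0 l b = 0 := by
  by_cases h0 : 0 < d k
  · by_cases h1 : b < d l
    · rw [shape hg k l b 0 h0 h1, if_neg (by omega)]
    · exact ex_right _ _ (by omega)
  · exact ex_left (by omega) _ _

end shape

/-- The free coordinates of a commuting matrix. -/
abbrev Idx (d : Fin t → ℕ) : Type := {p : Kap d × Fin t // d p.1.1 ≤ p.1.2 + d p.2}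

/-- The free parameters of a commuting matrix. -/
def Phi (g : Matrix (Kap d) (Kap d) F) (p : Idx d) : F := ex g p.1.1.1 p.1.1.2 p.1.2 0

/-- Extension of the parameters. -/
def ct (c : Idx d → F) (k l : Fin t) (a : ℕ) : F :=
  if h : a < d k ∧ d k ≤ a + d l then c ⟨(⟨k, ⟨a, h.1⟩⟩, l), h.2⟩ else 0

/-- The commuting matrix with given parameters. -/
def Psi (c : Idx d → F) : Matrix (Kap d) (Kap d) F :=
  Matrix.of fun p q => if (q.2 : ℕ) ≤ p.2 then ct c p.1 q.1 (p.2 - q.2) else 0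

theorem ex_Psi (c : Idx d → F) (k l : Fin t) (a b : ℕ) (ha : a < d k) (hb : b < d l) :
    ex (Psi c) k a l b = if b ≤ a then ct c k l (a - b) else 0 := dif_pos ⟨ha, hb⟩

theorem Psi_comm (c : Idx d → F) :
    Psi c * Cfsg.jordanTypeMatrix d F = Cfsg.jordanTypeMatrix d F * Psi c := by
  refine comm_of_E fun k l a b ha hb => ?_
  by_cases h1 : b + 1 < d l
  · rw [ex_Psi c k l a (b + 1) ha h1]
    by_cases h0 : a = 0
    · rw [if_pos h0, if_neg (by omega)]
    · rw [if_neg h0, ex_Psi c k l (a - 1) b (by omega) hb]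
      by_cases h2 : b + 1 ≤ a
      · rw [if_pos h2, if_pos (by omega)]
        congr 1
        omega
      · rw [if_neg h2, if_neg (by omega)]
  · rw [ex_right _ _ (by omega)]
    by_cases h0 : a = 0
    · rw [if_pos h0]
    · rw [if_neg h0, ex_Psi c k l (a - 1) b (by omega) hb]
      by_cases h2 : b ≤ a - 1
      · rw [if_pos h2]
        unfold ct
        rw [dif_neg]
        rintro ⟨_, h3⟩
        omega
      · rw [if_neg h2]

theorem Phi_Psi (c : Idx d → F) : Phi (Psi c) = c := by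
  funext ⟨⟨⟨k, a⟩, l⟩, hp⟩
  simp only at hp
  have h0 : 0 < d l := by
    by_contra h
    have := a.2
    omega
  show ex (Psi c) k a l 0 = _
  rw [ex_Psi c k l a 0 a.2 h0, if_pos (Nat.zero_le _)]
  show ct c k l (a - 0) = _
  exact dif_pos ⟨a.2, hp⟩

theorem Psi_Phi (hd : ∀ k, 1 ≤ d k) {g : Matrix (Kap d) (Kap d) F}
    (hg : g * Cfsg.jordanTypeMatrix d F = Cfsg.jordanTypeMatrix d F * g) : Psi (Phi g) = g := by
  ext ⟨k, a⟩ ⟨l, b⟩
  rw [← ex_eq g, shape hg k l b a a.2 b.2]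
  show (if (b : ℕ) ≤ a then ct (Phi g) k l (a - b) else 0) = _
  by_cases h1 : (b : ℕ) ≤ a
  · rw [if_pos h1, if_pos h1]
    by_cases h2 : d k ≤ (a : ℕ) - b + d l
    · exact dif_pos ⟨by have := a.2; omega, h2⟩
    · rw [vanish hg k l (hd l) _ (by omega)]
      exact dif_neg fun e => h2 e.2
  · rw [if_neg h1, if_neg h1]

/-- The top left corner of a commuting matrix. -/
def Tm (g : Matrix (Kap d) (Kap d) F) : Matrix (Fin t) (Fin t) F := Matrix.of fun k l => ex g k 0 l 0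

theorem Tm_apply (g : Matrix (Kap d) (Kap d) F) (k l : Fin t) : Tm g k l = ex g k 0 l 0 := rfl

/-- The zero of a block index. -/
def zz (hd : ∀ k, 1 ≤ d k) (k : Fin t) : Fin (d k) := ⟨0, by have := hd k; omega⟩

theorem Tm_eq (hd : ∀ k, 1 ≤ d k) (g : Matrix (Kap d) (Kap d) F) (k l : Fin t) : Tm g k l = g ⟨k, zz hd k⟩ ⟨l, zz hd l⟩ :=
  ex_eq g k (zz hd k) l (zz hd l)

theorem top_mulVec (hd : ∀ k, 1 ≤ d k) {g : Matrix (Kap d) (Kap d) F}
    (hg : g * Cfsg.jordanTypeMatrix d F = Cfsg.jordanTypeMatrix d F * g) (x : Kap d → F) (k : Fin t) :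
    (g *ᵥ x) ⟨k, zz hd k⟩ = (Tm g *ᵥ fun l => x ⟨l, zz hd l⟩) k := by
  classical
  simp only [Matrix.mulVec, dotProduct, Fintype.sum_sigma]
  refine Finset.sum_congr rfl fun l _ => ?_
  rw [Finset.sum_eq_single (zz hd l)]
  · rw [Tm_eq hd]
  · intro b _ hb
    have h : (b : ℕ) ≠ 0 := fun e => hb (Fin.ext e)
    have h1 := zero_row hg k l b h
    have h2 : ex g k 0 l b = g ⟨k, zz hd k⟩ ⟨l, b⟩ := ex_eq g k (zz hd k) l b
    rw [← h2, h1, zero_mul]
  · simp

theorem Tm_mul (hd : ∀ k, 1 ≤ d k) {g : Matrix (Kap d) (Kap d) F}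
    (hg : g * Cfsg.jordanTypeMatrix d F = Cfsg.jordanTypeMatrix d F * g) (h : Matrix (Kap d) (Kap d) F) :
    Tm (g * h) = Tm g * Tm h := by
  ext k l
  rw [Tm_eq hd]
  have h1 := top_mulVec hd hg (fun r => h r ⟨l, zz hd l⟩) k
  have h2 : (g * h) ⟨k, zz hd k⟩ ⟨l, zz hd l⟩ = (g *ᵥ fun r => h r ⟨l, zz hd l⟩) ⟨k, zz hd k⟩ := rfl
  rw [h2, h1]
  show _ = (Tm g * Tm h) k l
  rw [Matrix.mul_apply]
  simp only [Matrix.mulVec, dotProduct, Tm_eq hd h]

theorem Tm_one (hd : ∀ k, 1 ≤ d k) : Tm (1 : Matrix (Kap d) (Kap d) F) = 1 := by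
  classical
  ext k l
  rw [Tm_eq hd]
  by_cases h : k = l
  · subst h
    rw [Matrix.one_apply_eq, Matrix.one_apply_eq]
  · have : (⟨k, zz hd k⟩ : Kap d) ≠ ⟨l, zz hd l⟩ := fun e => h (congrArg Sigma.fst e)
    rw [Matrix.one_apply_ne this, Matrix.one_apply_ne h]

theorem Tm_tri (hd : ∀ k, 1 ≤ d k) {g : Matrix (Kap d) (Kap d) F}
    (hg : g * Cfsg.jordanTypeMatrix d F = Cfsg.jordanTypeMatrix d F * g) : (Tm g).BlockTriangular d := by
  intro k l h
  rw [Tm_apply]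
  exact vanish hg k l (hd l) 0 (by omega)

/-- Invertibility is detected on the corner: from invertible to invertible. -/
theorem det_Tm_ne (hd : ∀ k, 1 ≤ d k) {g : Matrix (Kap d) (Kap d) F}
    (hg : g * Cfsg.jordanTypeMatrix d F = Cfsg.jordanTypeMatrix d F * g) (hu : IsUnit g) : (Tm g).det ≠ 0 := by
  classical
  obtain ⟨u, rfl⟩ := hu
  have h : (Tm (u : Matrix (Kap d) (Kap d) F)) * Tm ((u⁻¹ : (Matrix (Kap d) (Kap d) F)ˣ) : Matrix (Kap d) (Kap d) F) = 1 := by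
    rw [← Tm_mul hd hg]
    simp [Tm_one hd]
  intro h0
  have h1 := congrArg Matrix.det h
  rw [Matrix.det_mul, h0, zero_mul, Matrix.det_one] at h1
  exact zero_ne_one h1

theorem NJ_of_top (hd : ∀ k, 1 ≤ d k) (u : Kap d → F) (hu : ∀ k, u ⟨k, zz hd k⟩ = 0) : ∃ y, NJ d F y = u := by
  refine ⟨fun p => if h : (p.2 : ℕ) + 1 < d p.1 then u ⟨p.1, ⟨p.2 + 1, h⟩⟩ else 0, ?_⟩
  funext ⟨k, a⟩
  rw [NJ_apply]
  by_cases h : 1 ≤ (a : ℕ)
  · rw [dif_pos h]
    simp only
    rw [dif_pos (by have := a.2; omega)]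
    congr 3
    omega
  · rw [dif_neg h]
    have : a = zz hd k := Fin.ext (by simp [zz]; omega)
    rw [this, hu]

theorem mulVec_NJ {g : Matrix (Kap d) (Kap d) F}
    (hg : g * Cfsg.jordanTypeMatrix d F = Cfsg.jordanTypeMatrix d F * g) (x : Kap d → F) :
    g *ᵥ NJ d F x = NJ d F (g *ᵥ x) := by
  have h1 : NJ d F x = Cfsg.jordanTypeMatrix d F *ᵥ x - x := rfl
  have h2 : NJ d F (g *ᵥ x) = Cfsg.jordanTypeMatrix d F *ᵥ (g *ᵥ x) - g *ᵥ x := rfl
  rw [h1, h2, Matrix.mulVec_sub, Matrix.mulVec_mulVec, Matrix.mulVec_mulVec, hg]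

theorem mulVec_NJ_pow {g : Matrix (Kap d) (Kap d) F}
    (hg : g * Cfsg.jordanTypeMatrix d F = Cfsg.jordanTypeMatrix d F * g) (p : ℕ) (x : Kap d → F) :
    g *ᵥ (NJ d F ^ p) x = (NJ d F ^ p) (g *ᵥ x) := by
  induction p generalizing x with
  | zero => simp
  | succ p ih =>
    rw [pow_succ, Module.End.mul_apply, Module.End.mul_apply, ih, mulVec_NJ hg]

/-- Invertibility is detected on the corner: from the corner to the matrix. -/
theorem isUnit_of_det_Tm (hd : ∀ k, 1 ≤ d k) {g : Matrix (Kap d) (Kap d) F}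
    (hg : g * Cfsg.jordanTypeMatrix d F = Cfsg.jordanTypeMatrix d F * g) (h : (Tm g).det ≠ 0) : IsUnit g := by
  classical
  have hT : IsUnit (Tm g).det := isUnit_iff_ne_zero.mpr h
  have h1 : ∀ v : Kap d → F, ∃ x y, v = g *ᵥ x + NJ d F y := by
    intro v
    obtain ⟨w, hw⟩ : ∃ w : Fin t → F, Tm g *ᵥ w = fun l => v ⟨l, zz hd l⟩ :=
      ⟨(Tm g)⁻¹ *ᵥ fun l => v ⟨l, zz hd l⟩, by rw [Matrix.mulVec_mulVec, Matrix.mul_nonsing_inv _ hT, Matrix.one_mulVec]⟩
    let x : Kap d → F := fun p => if (p.2 : ℕ) = 0 then w p.1 else 0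
    have hx : (fun l => x ⟨l, zz hd l⟩) = w := by
      funext l
      simp [x, zz]
    obtain ⟨y, hy⟩ := NJ_of_top hd (v - g *ᵥ x) (fun k => by
      rw [Pi.sub_apply, top_mulVec hd hg, hx, hw, sub_self])
    exact ⟨x, y, by rw [hy]; abel⟩
  have h2 : ∀ (p : ℕ) (v : Kap d → F), ∃ x y, v = g *ᵥ x + (NJ d F ^ p) y := by
    intro p
    induction p with
    | zero =>
      intro v
      exact ⟨0, v, by simp⟩
    | succ p ih =>
      intro v
      obtain ⟨x, y, rfl⟩ := ih v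
      obtain ⟨x', y', rfl⟩ := h1 y
      refine ⟨x + (NJ d F ^ p) x', y', ?_⟩
      rw [Matrix.mulVec_add, mulVec_NJ_pow hg, map_add, pow_succ, Module.End.mul_apply, add_assoc]
  obtain ⟨n, hn⟩ := NJ_nilpotent (F := F) d
  have hs : Function.Surjective g.mulVec := by
    intro v
    obtain ⟨x, y, rfl⟩ := h2 n v
    refine ⟨x, ?_⟩
    rw [hn]
    simp
  exact Matrix.mulVec_surjective_iff_isUnit.mp hs

end Cfsg.Agent.Lib.JCent
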