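import Mathlib
import Cfsg.Agent.Lib.JCent

/-!
# The order of the centraliser of a unipotent Jordan matrix
-/

set_option autoImplicit false
set_option linter.unusedSectionVars false
set_option linter.unusedSimpArgs false
set_option linter.unusedVariables false

namespace Cfsg.Agent.Lib.JCentCount

open Matrix Finset Cfsg.Agent.Lib.JType Cfsg.Agent.Lib.JCent Cfsg.Agent.Lib.JCentTri

variable {F : Type*} [Field F] {t : ℕ} {d : Fin t → ℕ}

/-- Commuting invertible matrices in coordinates. -/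
noncomputable def E1 (hd : ∀ k, 1 ≤ d k) :
    {g : GL (Kap d) F // (g : Matrix (Kap d) (Kap d) F) * Cfsg.jordanTypeMatrix d F =
        Cfsg.jordanTypeMatrix d F * (g : Matrix (Kap d) (Kap d) F)} ≃
      {c : Idx d → F // (Tm (Psi c)).det ≠ 0} where
  toFun g := ⟨Phi (g.1 : Matrix (Kap d) (Kap d) F), by
    rw [Psi_Phi hd g.2]
    exact det_Tm_ne hd g.2 g.1.isUnit⟩
  invFun c := ⟨(isUnit_of_det_Tm hd (Psi_comm c.1) c.2).unit, Psi_comm c.1⟩
  left_inv g := by
    apply Subtype.ext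
    apply Units.ext
    exact Psi_Phi hd g.2
  right_inv c := by
    apply Subtype.ext
    exact Phi_Psi c.1

/-- The coordinates off the corner. -/
abbrev Rest (d : Fin t → ℕ) : Type := {p : Kap d × Fin t // d p.1.1 ≤ p.1.2 + d p.2 ∧ (p.1.2 : ℕ) ≠ 0}

/-- Parameters from a corner and the rest. -/
def mk (M : Matrix (Fin t) (Fin t) F) (r : Rest d → F) : Idx d → F := fun p =>
  if h : (p.1.1.2 : ℕ) = 0 then M p.1.1.1 p.1.2 else r ⟨p.1, p.2, h⟩

theorem Tm_Psi (hd : ∀ k, 1 ≤ d k) (c : Idx d → F) (k l : Fin t) : Tm (Psi c) k l = ct c k l 0 := by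
  rw [Tm_apply, ex_Psi c k l 0 0 (hd k) (hd l), if_pos le_rfl]

theorem Tm_mk (hd : ∀ k, 1 ≤ d k) {M : Matrix (Fin t) (Fin t) F} (hM : M.BlockTriangular d) (r : Rest d → F) :
    Tm (Psi (mk M r)) = M := by
  ext k l
  rw [Tm_Psi hd]
  by_cases h : d k ≤ d l
  · have h0 : 0 < d k := hd k
    have h1 : 0 < d k ∧ d k ≤ 0 + d l := ⟨h0, by omega⟩
    show dite _ _ _ = _
    rw [dif_pos h1]
    exact dif_pos rfl
  · rw [hM (by omega)]
    exact dif_neg fun e => h (by have := e.2; omega)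

/-- Splitting the parameters. -/
noncomputable def E2 (hd : ∀ k, 1 ≤ d k) :
    {c : Idx d → F // (Tm (Psi c)).det ≠ 0} ≃
      {M : Matrix (Fin t) (Fin t) F // M.BlockTriangular d ∧ M.det ≠ 0} × (Rest d → F) where
  toFun c := (⟨Tm (Psi c.1), Tm_tri hd (Psi_comm c.1), c.2⟩, fun r => c.1 ⟨r.1, r.2.1⟩)
  invFun x := ⟨mk x.1.1 x.2, by
    rw [Tm_mk hd x.1.2.1]
    exact x.1.2.2⟩
  left_inv c := by
    apply Subtype.ext
    funext ⟨⟨⟨k, ⟨a, ha⟩⟩, l⟩, hp⟩
    simp only at hp
    by_cases h : a = 0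
    · subst h
      show mk (Tm (Psi c.1)) (fun r : Rest d => c.1 ⟨r.1, r.2.1⟩) ⟨(⟨k, ⟨0, ha⟩⟩, l), hp⟩ = c.1 ⟨(⟨k, ⟨0, ha⟩⟩, l), hp⟩
      unfold mk
      rw [dif_pos rfl]
      simp only
      rw [Tm_Psi hd]
      exact dif_pos ⟨ha, hp⟩
    · show dite _ _ _ = _
      rw [dif_neg h]
  right_inv x := by
    apply Prod.ext
    · apply Subtype.ext
      exact Tm_mk hd x.1.2.1 x.2
    · funext r
      show dite _ _ _ = _
      rw [dif_neg r.2.2]

theorem card_Rest (hd : ∀ k, 1 ≤ d k) :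
    Fintype.card (Rest d) = ∑ k, ∑ l, (if d k ≤ d l then d k - 1 else d l) := by
  classical
  rw [Fintype.card_subtype, Finset.card_filter, Fintype.sum_prod_type, Fintype.sum_sigma]
  refine Finset.sum_congr rfl fun k _ => ?_
  rw [Finset.sum_comm]
  refine Finset.sum_congr rfl fun l _ => ?_
  rw [Fin.sum_univ_eq_sum_range (fun a => if d k ≤ a + d l ∧ a ≠ 0 then 1 else 0) (d k), ← Finset.card_filter]
  have h1 : (range (d k)).filter (fun a => d k ≤ a + d l ∧ a ≠ 0) = Finset.Ico (max 1 (d k - d l)) (d k) := by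
    ext a
    simp only [Finset.mem_filter, Finset.mem_range, Finset.mem_Ico]
    omega
  have := hd k
  rw [h1, Nat.card_Ico]
  split_ifs <;> omega

theorem card_Pairs : Fintype.card (Pairs d) = ∑ k, ∑ l, (if d k < d l then 1 else 0) := by
  classical
  rw [Fintype.card_subtype, Finset.card_filter, Fintype.sum_prod_type]

theorem sum_fib (d : Fin t → ℕ) (f : ℕ → ℕ) :
    ∑ k, f (d k) = ∑ i ∈ range (univ.sup d + 1), (univ.filter (fun k : Fin t => d k = i)).card * f i := by
  rw [← Finset.sum_fiberwise_of_maps_to (s := univ) (t := range (univ.sup d + 1)) (g := d)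
    (fun k _ => Finset.mem_range.mpr (lbl_lt d k))]
  refine Finset.sum_congr rfl fun i _ => ?_
  rw [Finset.sum_congr rfl (fun k hk => by rw [(Finset.mem_filter.mp hk).2]), Finset.sum_const, smul_eq_mul]

theorem exponent (hd : ∀ k, 1 ≤ d k) :
    Fintype.card (Pairs d) + Fintype.card (Rest d) =
      2 * (∑ i ∈ range (univ.sup d + 1), ∑ j ∈ range (univ.sup d + 1),
          if i < j then i * (univ.filter (fun k : Fin t => d k = i)).card * (univ.filter (fun k : Fin t => d k = j)).card else 0)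
        + ∑ i ∈ range (univ.sup d + 1), (i - 1) * (univ.filter (fun k : Fin t => d k = i)).card ^ 2 := by
  rw [card_Pairs, card_Rest hd]
  obtain ⟨S, hS⟩ : ∃ S, S = range (univ.sup d + 1) := ⟨_, rfl⟩
  obtain ⟨a, ha⟩ : ∃ a : ℕ → ℕ, a = fun i => (univ.filter (fun k : Fin t => d k = i)).card := ⟨_, rfl⟩
  have ha' : ∀ i, (univ.filter (fun k : Fin t => d k = i)).card = a i := fun i => by rw [ha]
  simp only [ha', ← hS]
  let φ : ℕ → ℕ → ℕ := fun i j => if i < j then i else if i = j then i - 1 else j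
  have h1 : (∑ k, ∑ l, if d k < d l then 1 else 0) + (∑ k, ∑ l, if d k ≤ d l then d k - 1 else d l) =
      ∑ k, ∑ l, φ (d k) (d l) := by
    rw [← Finset.sum_add_distrib]
    refine Finset.sum_congr rfl fun k _ => ?_
    rw [← Finset.sum_add_distrib]
    refine Finset.sum_congr rfl fun l _ => ?_
    have := hd k
    simp only [φ]
    split_ifs <;> omega
  have h2 : ∀ i, ∑ l, φ i (d l) = ∑ j ∈ S, a j * φ i j := by
    intro i
    rw [sum_fib d (fun j => φ i j), hS, ha]
  have h3 : ∑ k, ∑ l, φ (d k) (d l) = ∑ i ∈ S, ∑ j ∈ S, a i * (a j * φ i j) := by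
    simp only [h2]
    rw [sum_fib d (fun i => ∑ j ∈ S, a j * φ i j), ← hS]
    refine Finset.sum_congr rfl fun i _ => ?_
    rw [Finset.mul_sum, ha']
  rw [h1, h3]
  have h4 : ∑ i ∈ S, ∑ j ∈ S, (if j < i then j * a j * a i else 0) = ∑ i ∈ S, ∑ j ∈ S, (if i < j then i * a i * a j else 0) :=
    Finset.sum_comm
  have h5 : ∑ i ∈ S, ∑ j ∈ S, (if i = j then (i - 1) * a i ^ 2 else 0) = ∑ i ∈ S, (i - 1) * a i ^ 2 := by
    refine Finset.sum_congr rfl fun i hi => ?_
    rw [Finset.sum_ite_eq]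
    simp [hi]
  rw [← h5, two_mul]
  nth_rewrite 1 [← h4]
  simp only [← Finset.sum_add_distrib]
  refine Finset.sum_congr rfl fun i _ => Finset.sum_congr rfl fun j _ => ?_
  simp only [φ]
  rcases lt_trichotomy i j with h | h | h
  · rw [if_pos h, if_neg (by omega), if_pos h, if_neg (by omega)]
    ring
  · subst h
    simp
    ring
  · rw [if_neg (by omega), if_neg (by omega), if_pos h, if_neg (by omega), if_neg (by omega)]
    ring

end Cfsg.Agent.Lib.JCentCount
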