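import Mathlib
import Cfsg.Agent.Lib.GUCentA
import Cfsg.Agent.Lib.JCentCount

/-!
# The centraliser of a Jordan matrix in the isometry group of an invariant block Hermitian form
-/

set_option autoImplicit false
set_option linter.unusedSectionVars false
set_option linter.unusedSimpArgs false
set_option linter.unusedVariables false

namespace Cfsg.Agent.Lib.GUCentB

open Matrix Finset Cfsg Cfsg.Agent.Lib.JType Cfsg.Agent.Lib.JCent Cfsg.Agent.Lib.JCentCount Cfsg.Agent.Lib.JCentTri
open Cfsg.Agent.Lib.GUCentA Cfsg.Agent.Lib.UnitaryBasic Cfsg.Agent.Lib.HermCount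

section cs

variable {K : Type*} [Field K] [Fintype K] {q : ℕ} {ι : Type*} [Fintype ι] [DecidableEq ι]

/-- Conjugate transpose. -/
def cs (q : ℕ) (X : Matrix ι ι K) : Matrix ι ι K := (X.map fun x => x ^ q)ᵀ

theorem cs_apply (X : Matrix ι ι K) (i j : ι) : cs q X i j = X j i ^ q := rfl

theorem cs_eq (hK : Fintype.card K = q ^ 2) (X : Matrix ι ι K) : cs q X = (X.map (sigma hK))ᵀ := rfl

theorem cs_add (hK : Fintype.card K = q ^ 2) (X Y : Matrix ι ι K) : cs q (X + Y) = cs q X + cs q Y := by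
  ext i j
  simp only [cs_apply, Matrix.add_apply]
  exact add_pow_q hK _ _

theorem cs_mul (hK : Fintype.card K = q ^ 2) (X Y : Matrix ι ι K) : cs q (X * Y) = cs q Y * cs q X := by
  rw [cs_eq hK, cs_eq hK, cs_eq hK, Matrix.map_mul, Matrix.transpose_mul]

theorem cs_one (hK : Fintype.card K = q ^ 2) : cs q (1 : Matrix ι ι K) = 1 := by
  have hq : q ≠ 0 := by have := two_le_q hK; omega
  ext i j
  rw [cs_apply]
  by_cases h : i = j
  · subst h
    simp
  · simp [Matrix.one_apply, h, Ne.symm h, hq]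

theorem cs_cs (hK : Fintype.card K = q ^ 2) (X : Matrix ι ι K) : cs q (cs q X) = X := by
  ext i j
  rw [cs_apply, cs_apply, pow_q_pow_q hK]

theorem cs_smul (c : K) (X : Matrix ι ι K) : cs q (c • X) = c ^ q • cs q X := by
  ext i j
  simp only [cs_apply, Matrix.smul_apply, smul_eq_mul, mul_pow]

theorem cs_zero (hK : Fintype.card K = q ^ 2) : cs q (0 : Matrix ι ι K) = 0 := by
  have hq : q ≠ 0 := by have := two_le_q hK; omega
  ext i j
  simp [cs_apply, hq]

end cs

variable {K : Type*} [Field K] [Fintype K] {q : ℕ} {t : ℕ} {d : Fin t → ℕ}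

/-- The last index of a block. -/
def lst (hd : ∀ k, 1 ≤ d k) (k : Fin t) : Fin (d k) := ⟨d k - 1, by have := hd k; omega⟩

/-- The block scalar: `n` acting on the multiplicity spaces. -/
def io (n : Matrix (Fin t) (Fin t) K) : Matrix (Kap d) (Kap d) K :=
  Matrix.of fun x y => if (x.2 : ℕ) = y.2 then n x.1 y.1 else 0

/-- Matrices respecting the block sizes. -/
def IsBD (d : Fin t → ℕ) (n : Matrix (Fin t) (Fin t) K) : Prop := ∀ k l, d k ≠ d l → n k l = 0

theorem io_apply (n : Matrix (Fin t) (Fin t) K) (x y : Kap d) : io n x y = if (x.2 : ℕ) = y.2 then n x.1 y.1 else 0 := rfl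

theorem io_mul {n n' : Matrix (Fin t) (Fin t) K} (hn : IsBD d n) :
    (io n * io n' : Matrix (Kap d) (Kap d) K) = io (n * n') := by
  classical
  ext x y
  rw [Matrix.mul_apply, Fintype.sum_sigma, io_apply, Matrix.mul_apply]
  have key : ∀ k' : Fin t, ∑ c : Fin (d k'), io n x ⟨k', c⟩ * io n' (⟨k', c⟩ : Kap d) y =
      if (x.2 : ℕ) = y.2 then n x.1 k' * n' k' y.1 else 0 := by
    intro k'
    by_cases hk : d x.1 = d k'
    · have hlt : (x.2 : ℕ) < d k' := by rw [← hk]; exact x.2.2
      rw [Finset.sum_eq_single (⟨x.2, hlt⟩ : Fin (d k'))]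
      · simp only [io_apply]
        simp
      · intro c _ hc
        have : (x.2 : ℕ) ≠ c := fun e => hc (Fin.ext e.symm)
        simp [io_apply, this]
      · simp
    · rw [hn _ _ hk]
      simp [io_apply, hn _ _ hk]
  simp only [key]
  by_cases h : (x.2 : ℕ) = y.2
  · simp [h]
  · simp [h]

theorem io_one : (io (1 : Matrix (Fin t) (Fin t) K) : Matrix (Kap d) (Kap d) K) = 1 := by
  classical
  ext x y
  rw [io_apply]
  by_cases h : x = y
  · subst h
    simp
  · rw [Matrix.one_apply_ne h]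
    by_cases h1 : x.1 = y.1
    · have h2 : (x.2 : ℕ) ≠ y.2 := by
        intro e
        apply h
        obtain ⟨k, a⟩ := x
        obtain ⟨l, b⟩ := y
        simp only at h1
        subst h1
        simp only at e
        rw [Fin.ext e]
      rw [if_neg h2]
    · by_cases h2 : (x.2 : ℕ) = y.2
      · rw [if_pos h2, Matrix.one_apply_ne h1]
      · rw [if_neg h2]

theorem io_comm {n : Matrix (Fin t) (Fin t) K} (hn : IsBD d n) :
    io n * Cfsg.jordanTypeMatrix d K = Cfsg.jordanTypeMatrix d K * io n := by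
  ext ⟨k, a⟩ ⟨l, b⟩
  rw [mul_J_apply, J_mul_apply]
  congr 1
  by_cases h0 : n k l = 0
  · have h1 : ∀ (x : Fin (d k)) (y : Fin (d l)), io n (⟨k, x⟩ : Kap d) (⟨l, y⟩ : Kap d) = 0 := by
      intro x y
      rw [io_apply]
      simp [h0]
    split_ifs <;> simp [h1]
  · have hkl : d k = d l := by
      by_contra e
      exact h0 (hn k l e)
    have e1 : (if h : (b : ℕ) + 1 < d l then io n (⟨k, a⟩ : Kap d) (⟨l, ⟨b + 1, h⟩⟩ : Kap d) else 0) =
        if (a : ℕ) = b + 1 then n k l else 0 := by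
      by_cases h1 : (b : ℕ) + 1 < d l
      · rw [dif_pos h1, io_apply]
      · rw [dif_neg h1, if_neg]
        intro e
        apply h1
        rw [← e, ← hkl]
        exact a.2
    have e2 : (if h : 1 ≤ (a : ℕ) then io n (⟨k, ⟨a - 1, by omega⟩⟩ : Kap d) (⟨l, b⟩ : Kap d) else 0) =
        if (a : ℕ) = b + 1 then n k l else 0 := by
      by_cases h1 : 1 ≤ (a : ℕ)
      · rw [dif_pos h1, io_apply]
        by_cases h2 : (a : ℕ) = b + 1
        · rw [if_pos h2, if_pos (by simp only; omega)]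
        · rw [if_neg h2, if_neg (by simp only; omega)]
      · rw [dif_neg h1, if_neg (by omega)]
    rw [e1, e2]

theorem cs_io (hK : Fintype.card K = q ^ 2) (n : Matrix (Fin t) (Fin t) K) :
    cs q (io n : Matrix (Kap d) (Kap d) K) = io (cs q n) := by
  have hq : q ≠ 0 := by have := two_le_q hK; omega
  ext x y
  rw [cs_apply, io_apply, io_apply, cs_apply]
  by_cases h : (x.2 : ℕ) = y.2
  · rw [if_pos h.symm, if_pos h]
  · rw [if_neg (Ne.symm h), if_neg h, zero_pow hq]

theorem isBD_cs (hK : Fintype.card K = q ^ 2) {n : Matrix (Fin t) (Fin t) K} (hn : IsBD d n) : IsBD d (cs q n) := by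
  have hq : q ≠ 0 := by have := two_le_q hK; omega
  intro k l h
  rw [cs_apply, hn l k (Ne.symm h), zero_pow hq]

/-- The block diagonal part of the corner. -/
def DD (d : Fin t → ℕ) (g : Matrix (Kap d) (Kap d) K) : Matrix (Fin t) (Fin t) K :=
  Matrix.of fun k l => if d k = d l then Tm g k l else 0

theorem DD_apply (g : Matrix (Kap d) (Kap d) K) (k l : Fin t) : DD d g k l = if d k = d l then Tm g k l else 0 := rfl

theorem isBD_DD (g : Matrix (Kap d) (Kap d) K) : IsBD d (DD d g) := by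
  intro k l h
  rw [DD_apply, if_neg h]

variable (hd : ∀ k, 1 ≤ d k)
include hd

theorem DD_mul {g g' : Matrix (Kap d) (Kap d) K}
    (hg : g * Cfsg.jordanTypeMatrix d K = Cfsg.jordanTypeMatrix d K * g)
    (hg' : g' * Cfsg.jordanTypeMatrix d K = Cfsg.jordanTypeMatrix d K * g') :
    DD d (g * g') = DD d g * DD d g' := by
  ext k l
  rw [DD_apply, Tm_mul hd hg, Matrix.mul_apply, Matrix.mul_apply]
  by_cases hkl : d k = d l
  · rw [if_pos hkl]
    refine Finset.sum_congr rfl fun m _ => ?_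
    simp only [DD_apply]
    by_cases h : d k = d m
    · rw [if_pos h, if_pos (by omega)]
    · rw [if_neg h, zero_mul]
      rcases lt_or_gt_of_ne h with h1 | h1
      · -- `d k < d m`, so `d l < d m`
        rw [Tm_tri hd hg' (show d l < d m by omega), mul_zero]
      · rw [Tm_tri hd hg (show d m < d k by omega), zero_mul]
  · rw [if_neg hkl]
    symm
    refine Finset.sum_eq_zero fun m _ => ?_
    simp only [DD_apply]
    by_cases h : d k = d m
    · rw [if_neg (show ¬ d m = d l by omega), mul_zero]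
    · rw [if_neg h, zero_mul]

theorem DD_one : DD d (1 : Matrix (Kap d) (Kap d) K) = 1 := by
  ext k l
  rw [DD_apply, Tm_one hd]
  by_cases h : d k = d l
  · rw [if_pos h]
  · rw [if_neg h, Matrix.one_apply_ne]
    intro e
    exact h (by rw [e])

theorem Tm_io (n : Matrix (Fin t) (Fin t) K) : Tm (io n : Matrix (Kap d) (Kap d) K) = n := by
  ext k l
  rw [Tm_eq hd, io_apply]
  simp [zz]

theorem DD_io {n : Matrix (Fin t) (Fin t) K} (hn : IsBD d n) : DD d (io n : Matrix (Kap d) (Kap d) K) = n := by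
  ext k l
  rw [DD_apply, Tm_io hd]
  by_cases h : d k = d l
  · rw [if_pos h]
  · rw [if_neg h, hn k l h]

omit hd

/-- An invariant block form. -/
structure FD (q : ℕ) (d : Fin t → ℕ) (hd : ∀ k, 1 ≤ d k) (H H' : Matrix (Kap d) (Kap d) K) (c : ℕ → K) : Prop where
  hst : cs q H = H
  mul1 : H * H' = 1
  mul2 : H' * H = 1
  inv : cs q (Cfsg.jordanTypeMatrix d K) * H * Cfsg.jordanTypeMatrix d K = H
  off : ∀ x y : Kap d, x.1 ≠ y.1 → H x y = 0
  lastz : ∀ (l : Fin t) (b : Fin (d l)), (b : ℕ) ≠ 0 → H ⟨l, b⟩ ⟨l, lst hd l⟩ = 0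
  lastc : ∀ l : Fin t, H ⟨l, zz hd l⟩ ⟨l, lst hd l⟩ = c (d l)
  cne : ∀ m, 1 ≤ m → c m ≠ 0
  comm : ∀ n : Matrix (Fin t) (Fin t) K, IsBD d n → H * io n = io n * H

/-- The adjoint. -/
def dagH (q : ℕ) (H H' : Matrix (Kap d) (Kap d) K) (g : Matrix (Kap d) (Kap d) K) : Matrix (Kap d) (Kap d) K :=
  H' * cs q g * H

variable {H H' : Matrix (Kap d) (Kap d) K} {c : ℕ → K} (F : FD (K := K) q d hd H H' c)
  (hK : Fintype.card K = q ^ 2)
include hd F hK

theorem cs_H' : cs q H' = H' := by
  have h1 : cs q H' * H = 1 := by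
    have := congrArg (cs q) F.mul1
    rwa [cs_mul hK, F.hst, cs_one hK] at this
  calc cs q H' = cs q H' * (H * H') := by rw [F.mul1, mul_one]
    _ = H' := by rw [← mul_assoc, h1, one_mul]

theorem isDag : IsDag (K := K) q (dagH q H H') where
  add x y := by
    simp only [dagH]
    rw [cs_add hK]
    noncomm_ring
  mul x y := by
    simp only [dagH]
    rw [cs_mul hK]
    calc H' * (cs q y * cs q x) * H = H' * cs q y * (H * H') * cs q x * H := by rw [F.mul1]; simp only [mul_one, mul_assoc]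
      _ = H' * cs q y * H * (H' * cs q x * H) := by simp only [mul_assoc]
  one := by
    simp only [dagH]
    rw [cs_one hK, mul_one, F.mul2]
  smul a x := by
    simp only [dagH]
    rw [cs_smul, Matrix.mul_smul, Matrix.smul_mul]
  dag_dag x := by
    simp only [dagH]
    rw [cs_mul hK, cs_mul hK, cs_H' hd F hK, F.hst, cs_cs hK]
    calc H' * (H * (x * H')) * H = (H' * H) * x * (H' * H) := by simp only [mul_assoc]
      _ = x := by rw [F.mul2, one_mul, mul_one]

theorem H_dag (g : Matrix (Kap d) (Kap d) K) : H * dagH q H H' g = cs q g * H := by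
  simp only [dagH]
  rw [← mul_assoc, ← mul_assoc, F.mul1, one_mul]

theorem dag_J_mul : dagH q H H' (Cfsg.jordanTypeMatrix d K) * Cfsg.jordanTypeMatrix d K = 1 := by
  simp only [dagH]
  rw [mul_assoc, mul_assoc, ← mul_assoc _ H, F.inv, F.mul2]

theorem comm_dag {g : Matrix (Kap d) (Kap d) K}
    (hg : g * Cfsg.jordanTypeMatrix d K = Cfsg.jordanTypeMatrix d K * g) :
    dagH q H H' g * Cfsg.jordanTypeMatrix d K = Cfsg.jordanTypeMatrix d K * dagH q H H' g := by
  have hD := isDag hd F hK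
  obtain ⟨j, hj⟩ : ∃ j, j = dagH q H H' (Cfsg.jordanTypeMatrix d K) := ⟨_, rfl⟩
  have h1 : j * Cfsg.jordanTypeMatrix d K = 1 := by rw [hj]; exact dag_J_mul hd F hK
  have h2 : Cfsg.jordanTypeMatrix d K * j = 1 := mul_eq_one_comm.mp h1
  have h3 : j * dagH q H H' g = dagH q H H' g * j := by
    have := congrArg (dagH q H H') hg
    rw [hD.mul, hD.mul, ← hj] at this
    exact this
  obtain ⟨a, ha⟩ : ∃ a, a = dagH q H H' g := ⟨_, rfl⟩
  rw [← ha] at h3 ⊢
  calc a * Cfsg.jordanTypeMatrix d K = (Cfsg.jordanTypeMatrix d K * j) * a * Cfsg.jordanTypeMatrix d K := by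
        rw [h2, one_mul]
    _ = Cfsg.jordanTypeMatrix d K * (j * a) * Cfsg.jordanTypeMatrix d K := by simp only [mul_assoc]
    _ = Cfsg.jordanTypeMatrix d K * (a * j) * Cfsg.jordanTypeMatrix d K := by rw [h3]
    _ = Cfsg.jordanTypeMatrix d K * a * (j * Cfsg.jordanTypeMatrix d K) := by simp only [mul_assoc]
    _ = Cfsg.jordanTypeMatrix d K * a := by rw [h1, mul_one]

/-- The key computation: the corner of the adjoint is the conjugate transpose. -/
theorem Tm_dag {g : Matrix (Kap d) (Kap d) K}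
    (hg : g * Cfsg.jordanTypeMatrix d K = Cfsg.jordanTypeMatrix d K * g) {k l : Fin t} (hkl : d k = d l) :
    Tm (dagH q H H' g) k l = (Tm g l k) ^ q := by
  classical
  obtain ⟨g', hg'⟩ : ∃ g', g' = dagH q H H' g := ⟨_, rfl⟩
  have hcomm : g' * Cfsg.jordanTypeMatrix d K = Cfsg.jordanTypeMatrix d K * g' := by
    rw [hg']; exact comm_dag hd F hK hg
  have hH : H * g' = cs q g * H := by rw [hg']; exact H_dag hd F hK g
  have e := congrFun (congrFun hH ⟨k, zz hd k⟩) ⟨l, lst hd l⟩
  rw [Matrix.mul_apply, Matrix.mul_apply, Fintype.sum_sigma, Fintype.sum_sigma] at e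
  -- the left side
  have hL : ∑ k' : Fin t, ∑ b : Fin (d k'), H ⟨k, zz hd k⟩ ⟨k', b⟩ * g' ⟨k', b⟩ ⟨l, lst hd l⟩ =
      c (d k) * Tm g' k l := by
    rw [Finset.sum_eq_single k]
    · rw [Finset.sum_eq_single (lst hd k)]
      · rw [F.lastc]
        congr 1
        have h1 : g' ⟨k, lst hd k⟩ ⟨l, lst hd l⟩ = ex g' k (d k - 1) l (d l - 1) := (ex_eq g' k (lst hd k) l (lst hd l)).symm
        have := hd k
        have := hd l
        rw [h1, shape hcomm k l (d l - 1) (d k - 1) (by omega) (by omega), if_pos (by omega), Tm_apply]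
        congr 1
        omega
      · intro b _ hb
        have h1 : g' ⟨k, b⟩ ⟨l, lst hd l⟩ = ex g' k b l (d l - 1) := (ex_eq g' k b l (lst hd l)).symm
        have h2 : (b : ℕ) ≠ d k - 1 := fun e => hb (Fin.ext e)
        have := b.2
        have := hd l
        rw [h1, shape hcomm k l (d l - 1) b b.2 (by omega), if_neg (by omega), mul_zero]
      · simp
    · intro k' _ hk'
      refine Finset.sum_eq_zero fun b _ => ?_
      rw [F.off _ _ (Ne.symm hk'), zero_mul]
    · simp
  have hR : ∑ k' : Fin t, ∑ b : Fin (d k'), cs q g ⟨k, zz hd k⟩ ⟨k', b⟩ * H ⟨k', b⟩ ⟨l, lst hd l⟩ =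
      (Tm g l k) ^ q * c (d l) := by
    rw [Finset.sum_eq_single l]
    · rw [Finset.sum_eq_single (zz hd l)]
      · rw [F.lastc, cs_apply, Tm_eq hd]
      · intro b _ hb
        have : (b : ℕ) ≠ 0 := fun e => hb (Fin.ext e)
        rw [F.lastz l b this, mul_zero]
      · simp
    · intro k' _ hk'
      refine Finset.sum_eq_zero fun b _ => ?_
      rw [F.off _ _ hk', mul_zero]
    · simp
  rw [hL, hR, hkl, mul_comm] at e
  rw [← hg']
  exact mul_right_cancel₀ (F.cne _ (hd l)) e

theorem DD_dag {g : Matrix (Kap d) (Kap d) K}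
    (hg : g * Cfsg.jordanTypeMatrix d K = Cfsg.jordanTypeMatrix d K * g) :
    DD d (dagH q H H' g) = cs q (DD d g) := by
  have hq : q ≠ 0 := by have := two_le_q hK; omega
  ext k l
  rw [DD_apply, cs_apply, DD_apply]
  by_cases h : d k = d l
  · rw [if_pos h, if_pos h.symm, Tm_dag hd F hK hg h]
  · rw [if_neg h, if_neg (Ne.symm h), zero_pow hq]

theorem dag_io {n : Matrix (Fin t) (Fin t) K} (hn : IsBD d n) :
    dagH q H H' (io n) = io (cs q n) := by
  simp only [dagH]
  rw [cs_io hK, mul_assoc, ← F.comm _ (isBD_cs hK hn), ← mul_assoc, F.mul2, one_mul]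

end Cfsg.Agent.Lib.GUCentB
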