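import Mathlib
import Cfsg.Agent.Lib.GUCentB

/-!
# The radical of the centraliser algebra and the count of the isometries commuting with `J`
-/

set_option autoImplicit false
set_option linter.unusedSectionVars false
set_option linter.unusedSimpArgs false
set_option linter.unusedVariables false

namespace Cfsg.Agent.Lib.GUCentB

open Matrix Finset Cfsg Cfsg.Agent.Lib.JType Cfsg.Agent.Lib.JCent Cfsg.Agent.Lib.JCentCount Cfsg.Agent.Lib.JCentTri
open Cfsg.Agent.Lib.GUCentA Cfsg.Agent.Lib.UnitaryBasic Cfsg.Agent.Lib.HermCount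

variable {K : Type*} [Field K] [Fintype K] {q : ℕ} {t : ℕ} {d : Fin t → ℕ} (hd : ∀ k, 1 ≤ d k)

/-- The radical of the centraliser algebra. -/
def Rad (K : Type*) [Field K] (d : Fin t → ℕ) (hd : ∀ k, 1 ≤ d k) : Submodule K (Matrix (Kap d) (Kap d) K) where
  carrier := {g | g * Cfsg.jordanTypeMatrix d K = Cfsg.jordanTypeMatrix d K * g ∧ ∀ k l, d k = d l → Tm g k l = 0}
  add_mem' := by
    rintro a b ⟨ha, ha'⟩ ⟨hb, hb'⟩
    refine ⟨by rw [add_mul, mul_add, ha, hb], fun k l h => ?_⟩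
    rw [Tm_eq hd (a + b) k l, Matrix.add_apply, ← Tm_eq hd a k l, ← Tm_eq hd b k l, ha' k l h, hb' k l h, add_zero]
  zero_mem' := by
    refine ⟨by simp, fun k l _ => ?_⟩
    rw [Tm_eq hd]
    rfl
  smul_mem' := by
    rintro c a ⟨ha, ha'⟩
    refine ⟨by rw [Matrix.smul_mul, Matrix.mul_smul, ha], fun k l h => ?_⟩
    rw [Tm_eq hd (c • a) k l, Matrix.smul_apply, ← Tm_eq hd a k l, ha' k l h, smul_zero]

theorem mem_Rad {g : Matrix (Kap d) (Kap d) K} :
    g ∈ Rad K d hd ↔ g * Cfsg.jordanTypeMatrix d K = Cfsg.jordanTypeMatrix d K * g ∧ ∀ k l, d k = d l → Tm g k l = 0 :=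
  Iff.rfl

theorem mem_Rad_iff {g : Matrix (Kap d) (Kap d) K} :
    g ∈ Rad K d hd ↔ g * Cfsg.jordanTypeMatrix d K = Cfsg.jordanTypeMatrix d K * g ∧ DD d g = 0 := by
  rw [mem_Rad]
  constructor
  · rintro ⟨h1, h2⟩
    refine ⟨h1, ?_⟩
    ext k l
    rw [DD_apply]
    by_cases h : d k = d l
    · rw [if_pos h, h2 k l h]; rfl
    · rw [if_neg h]; rfl
  · rintro ⟨h1, h2⟩
    refine ⟨h1, fun k l h => ?_⟩
    have := congrFun (congrFun h2 k) l
    rwa [DD_apply, if_pos h] at this

theorem Rad_mul {a b : Matrix (Kap d) (Kap d) K} (ha : a ∈ Rad K d hd) (hb : b ∈ Rad K d hd) : a * b ∈ Rad K d hd := by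
  rw [mem_Rad_iff] at ha hb ⊢
  refine ⟨?_, ?_⟩
  · rw [mul_assoc, hb.1, ← mul_assoc, ha.1, mul_assoc]
  · rw [DD_mul hd ha.1 hb.1, ha.2, zero_mul]

/-- A weight on the basis, increased by the radical. -/
def wt (d : Fin t → ℕ) (x : Kap d) : ℕ := x.2 * (univ.sup d + 1) + (univ.sup d + 1 - d x.1)

theorem wt_lt {g : Matrix (Kap d) (Kap d) K} (hg : g ∈ Rad K d hd) {x y : Kap d} (h : g x y ≠ 0) : wt d y < wt d x := by
  obtain ⟨k, a⟩ := x
  obtain ⟨l, b⟩ := y
  obtain ⟨h1, h2⟩ := (mem_Rad hd).1 hg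
  have h3 : ex g k a l b = g ⟨k, a⟩ ⟨l, b⟩ := ex_eq g k a l b
  rw [← h3, shape h1 k l b a a.2 b.2] at h
  have hle : (b : ℕ) ≤ a := by
    by_contra e
    rw [if_neg e] at h
    exact h rfl
  rw [if_pos hle] at h
  have hM : ∀ k : Fin t, d k < univ.sup d + 1 := fun k => Nat.lt_succ_of_le (Finset.le_sup (f := d) (Finset.mem_univ k))
  have hv : d k ≤ (a : ℕ) - b + d l := by
    by_contra e
    exact h (vanish h1 k l (hd l) _ (by omega))
  simp only [wt]
  obtain ⟨M, hMdef⟩ : ∃ M, M = univ.sup d + 1 := ⟨_, rfl⟩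
  rw [← hMdef] at hM ⊢
  have hk := hM k
  have hl := hM l
  by_cases e : (a : ℕ) = b
  · rw [e, Nat.sub_self] at h
    rw [e]
    have h4 : d k ≠ d l := by
      intro e4
      exact h (h2 k l e4)
    rw [e, Nat.sub_self] at hv
    omega
  · have h5 : ((b : ℕ) + 1) * M ≤ a * M := Nat.mul_le_mul_right _ (by omega)
    rw [add_mul, one_mul] at h5
    omega

/-- Matrices of a given weight jump. -/
def LL (K : Type*) [Field K] (d : Fin t → ℕ) (j : ℕ) : Submodule K (Matrix (Kap d) (Kap d) K) where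
  carrier := {g | ∀ x y, g x y ≠ 0 → wt d y + j ≤ wt d x}
  add_mem' := by
    intro a b ha hb x y h
    by_cases h1 : a x y = 0
    · apply hb
      intro h2
      apply h
      rw [Matrix.add_apply, h1, h2, add_zero]
    · exact ha x y h1
  zero_mem' := by
    intro x y h
    exact absurd rfl h
  smul_mem' := by
    intro c a ha x y h
    apply ha
    intro h1
    apply h
    rw [Matrix.smul_apply, h1, smul_zero]

theorem Rad_le_LL : Rad K d hd ≤ LL K d 1 := by
  intro g hg x y h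
  exact wt_lt hd hg h

theorem LL_mul (j : ℕ) : LL K d j * LL K d 1 ≤ LL K d (j + 1) := by
  refine Submodule.mul_le.mpr fun a ha b hb x y h => ?_
  rw [Matrix.mul_apply] at h
  obtain ⟨z, _, hz⟩ := Finset.exists_ne_zero_of_sum_ne_zero h
  have h1 : a x z ≠ 0 := left_ne_zero_of_mul hz
  have h2 : b z y ≠ 0 := right_ne_zero_of_mul hz
  have h3 := ha x z h1
  have h4 := hb z y h2
  omega

theorem Rad_pow_le (j : ℕ) : Rad K d hd ^ (j + 1) ≤ LL K d (j + 1) := by
  induction j with
  | zero => simpa using Rad_le_LL hd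
  | succ j ih =>
    rw [pow_succ]
    exact (mul_le_mul' ih (Rad_le_LL hd)).trans (LL_mul (j + 1))

theorem exists_Rad_pow : ∃ M, Rad K d hd ^ M = ⊥ := by
  classical
  obtain ⟨W, hW⟩ : ∃ W, ∀ x : Kap d, wt d x < W + 1 := by
    refine ⟨univ.sup (wt d), fun x => Nat.lt_succ_of_le (Finset.le_sup (f := wt d) (Finset.mem_univ x))⟩
  refine ⟨W + 1, ?_⟩
  rw [eq_bot_iff]
  intro g hg
  have h1 := Rad_pow_le hd W hg
  rw [Submodule.mem_bot]
  ext x y
  by_contra h2
  have h3 := h1 x y h2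
  have := hW x
  omega

/-! ### The cardinality of the radical -/

/-- Strictly upper matrices. -/
abbrev SU (K : Type*) [Field K] (d : Fin t → ℕ) : Type _ := {M : Matrix (Fin t) (Fin t) K // ∀ k l, d l ≤ d k → M k l = 0}

noncomputable def SUequiv : SU K d ≃ (Pairs d → K) where
  toFun M p := M.1 p.1.1 p.1.2
  invFun f := ⟨Matrix.of fun k l => if h : d k < d l then f ⟨(k, l), h⟩ else 0, fun k l h => by
    simp only [Matrix.of_apply]
    rw [dif_neg (by omega)]⟩
  left_inv M := by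
    apply Subtype.ext
    ext k l
    simp only [Matrix.of_apply]
    by_cases h : d k < d l
    · rw [dif_pos h]
    · rw [dif_neg h, M.2 k l (by omega)]
  right_inv f := by
    funext p
    simp only [Matrix.of_apply]
    rw [dif_pos p.2]

theorem mk_Tm (hd : ∀ k, 1 ≤ d k) (c : Idx d → K) : JCentCount.mk (Tm (Psi c)) (fun r : Rest d => c ⟨r.1, r.2.1⟩) = c := by
  funext ⟨⟨⟨k, ⟨a, ha⟩⟩, l⟩, hp⟩
  simp only at hp
  by_cases h : a = 0
  · subst h
    show JCentCount.mk (Tm (Psi c)) (fun r : Rest d => c ⟨r.1, r.2.1⟩) ⟨(⟨k, ⟨0, ha⟩⟩, l), hp⟩ = c ⟨(⟨k, ⟨0, ha⟩⟩, l), hp⟩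
    unfold JCentCount.mk
    rw [dif_pos rfl]
    simp only
    rw [Tm_Psi hd]
    exact dif_pos ⟨ha, hp⟩
  · show dite _ _ _ = _
    rw [dif_neg h]

/-- The radical in coordinates. -/
noncomputable def RadEquiv : Rad K d hd ≃ SU K d × (Rest d → K) where
  toFun g := (⟨Tm g.1, fun k l h => by
      rcases lt_or_eq_of_le h with h1 | h1
      · exact Tm_tri hd g.2.1 h1
      · exact g.2.2 k l h1.symm⟩, fun r => Phi g.1 ⟨r.1, r.2.1⟩)
  invFun x := ⟨Psi (JCentCount.mk x.1.1 x.2), Psi_comm _, fun k l h => by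
      have hT : x.1.1.BlockTriangular d := fun k l h => x.1.2 k l (by omega)
      rw [Tm_mk hd hT]
      exact x.1.2 k l (by omega)⟩
  left_inv g := by
    apply Subtype.ext
    have h1 : Psi (Phi g.1) = g.1 := Psi_Phi hd g.2.1
    have h2 := mk_Tm hd (Phi g.1)
    rw [h1] at h2
    show Psi (JCentCount.mk (Tm g.1) (fun r => Phi g.1 ⟨r.1, r.2.1⟩)) = g.1
    rw [h2, h1]
  right_inv x := by
    have hT : x.1.1.BlockTriangular d := fun k l h => x.1.2 k l (by omega)
    apply Prod.ext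
    · apply Subtype.ext
      exact Tm_mk hd hT x.2
    · funext r
      show Phi (Psi (JCentCount.mk x.1.1 x.2)) ⟨r.1, r.2.1⟩ = x.2 r
      rw [Phi_Psi]
      show dite _ _ _ = _
      rw [dif_neg r.2.2]

theorem card_Rad (hK : Fintype.card K = q ^ 2) :
    Nat.card (Rad K d hd) = (q ^ (Fintype.card (Pairs d) + Fintype.card (Rest d))) ^ 2 := by
  classical
  rw [Nat.card_congr (RadEquiv hd), Nat.card_prod, Nat.card_congr SUequiv, Nat.card_fun, Nat.card_fun,
    Nat.card_eq_fintype_card, Nat.card_eq_fintype_card, Nat.card_eq_fintype_card, hK, ← pow_mul, ← pow_mul, ← pow_add,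
    ← pow_mul]
  congr 1
  ring

/-! ### The count -/

variable {H H' : Matrix (Kap d) (Kap d) K} {c : ℕ → K} (F : FD (K := K) q d hd H H' c)
  (hK : Fintype.card K = q ^ 2)
include F hK

theorem Rad_dag {a : Matrix (Kap d) (Kap d) K} (ha : a ∈ Rad K d hd) : dagH q H H' a ∈ Rad K d hd := by
  rw [mem_Rad_iff] at ha ⊢
  refine ⟨comm_dag hd F hK ha.1, ?_⟩
  rw [DD_dag hd F hK ha.1, ha.2, cs_zero hK]

/-- The unitary elements of the radical: their number. -/
theorem card_RR : Nat.card (RR (Rad K d hd) (dagH q H H')) = q ^ (Fintype.card (Pairs d) + Fintype.card (Rest d)) := by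
  classical
  obtain ⟨M, hM⟩ := exists_Rad_pow (K := K) hd
  have h1 := card_RR_sq (isDag hd F hK) (fun a ha b hb => Rad_mul hd ha hb) hM hK (fun a ha => Rad_dag hd F hK ha)
  rw [card_Rad hd hK, ← pow_two] at h1
  exact Nat.pow_left_injective (n := 2) (by omega) h1

/-- The isometries commuting with `J`. -/
abbrev T0 (q : ℕ) (d : Fin t → ℕ) (H : Matrix (Kap d) (Kap d) K) : Type _ :=
  {g : Matrix (Kap d) (Kap d) K // g * Cfsg.jordanTypeMatrix d K = Cfsg.jordanTypeMatrix d K * g ∧ cs q g * H * g = H}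

/-- The unitary matrices respecting the sizes. -/
abbrev UB (q : ℕ) (d : Fin t → ℕ) (K : Type*) [Field K] : Type _ :=
  {m : Matrix (Fin t) (Fin t) K // IsBD d m ∧ cs q m * m = 1}

theorem dag_mul_of_T0 {g : Matrix (Kap d) (Kap d) K} (hg : cs q g * H * g = H) : dagH q H H' g * g = 1 := by
  simp only [dagH]
  rw [mul_assoc, mul_assoc, ← mul_assoc _ H g, hg, F.mul2]

theorem T0_of_dag {g : Matrix (Kap d) (Kap d) K} (hg : dagH q H H' g * g = 1) : cs q g * H * g = H := by
  have h1 := H_dag hd F hK g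
  rw [← h1, mul_assoc, hg, mul_one]

theorem card_T0 : Nat.card (T0 q d H) = Nat.card (UB q d K) * q ^ (Fintype.card (Pairs d) + Fintype.card (Rest d)) := by
  classical
  rw [← card_RR hd F hK, ← Nat.card_prod]
  have hio1 : ∀ m : UB q d K, io (cs q m.1) * io m.1 = (1 : Matrix (Kap d) (Kap d) K) := fun m => by
    rw [io_mul (isBD_cs hK m.2.1), m.2.2, io_one]
  have hio2 : ∀ m : UB q d K, io m.1 * io (cs q m.1) = (1 : Matrix (Kap d) (Kap d) K) := fun m =>
    mul_eq_one_comm.mp (hio1 m)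
  have hD := isDag hd F hK
  -- the map
  have hmem : ∀ (m : UB q d K) (r : RR (Rad K d hd) (dagH q H H')),
      (io m.1 * (1 + r.1)) * Cfsg.jordanTypeMatrix d K = Cfsg.jordanTypeMatrix d K * (io m.1 * (1 + r.1)) ∧
      cs q (io m.1 * (1 + r.1)) * H * (io m.1 * (1 + r.1)) = H := by
    intro m r
    have hr : r.1 * Cfsg.jordanTypeMatrix d K = Cfsg.jordanTypeMatrix d K * r.1 := r.2.1.1
    have hc1 : (1 + r.1) * Cfsg.jordanTypeMatrix d K = Cfsg.jordanTypeMatrix d K * (1 + r.1) := by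
      rw [add_mul, mul_add, hr, one_mul, mul_one]
    constructor
    · rw [mul_assoc, hc1, ← mul_assoc, io_comm m.2.1, mul_assoc]
    · refine T0_of_dag hd F hK ?_
      rw [hD.mul, dag_io hd F hK m.2.1]
      have h1 : dagH q H H' (1 + r.1) = 1 + dagH q H H' r.1 := by rw [hD.add, hD.one]
      rw [h1]
      calc (1 + dagH q H H' r.1) * io (cs q m.1) * (io m.1 * (1 + r.1))
          = (1 + dagH q H H' r.1) * (io (cs q m.1) * io m.1) * (1 + r.1) := by simp only [mul_assoc]
        _ = 1 := by rw [hio1, mul_one, r.2.2]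
  let G : UB q d K × RR (Rad K d hd) (dagH q H H') → T0 q d H := fun p => ⟨io p.1.1 * (1 + p.2.1), hmem p.1 p.2⟩
  have hDG : ∀ p, DD d (G p).1 = p.1.1 := by
    rintro ⟨m, r⟩
    show DD d (io m.1 * (1 + r.1)) = m.1
    have hr := (mem_Rad_iff hd).1 r.2.1
    have hc1 : (1 + r.1) * Cfsg.jordanTypeMatrix d K = Cfsg.jordanTypeMatrix d K * (1 + r.1) := by
      rw [add_mul, mul_add, hr.1, one_mul, mul_one]
    rw [DD_mul hd (io_comm m.2.1) hc1, DD_io hd m.2.1]
    have h2 : DD d (1 + r.1) = 1 := by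
      have h3 : ∀ k l, DD d (1 + r.1) k l = (1 : Matrix (Fin t) (Fin t) K) k l := by
        intro k l
        have h4 := congrFun (congrFun (DD_one (K := K) hd) k) l
        have h5 := congrFun (congrFun hr.2 k) l
        rw [DD_apply] at h4 h5 ⊢
        by_cases h : d k = d l
        · rw [if_pos h] at h4 h5 ⊢
          rw [Tm_eq hd] at h4 h5 ⊢
          rw [Matrix.add_apply, h4, h5]
          simp
        · rw [if_neg h] at h4 ⊢
          exact h4
      ext k l
      exact h3 k l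
    rw [h2, mul_one]
  have hbij : Function.Bijective G := by
    constructor
    · rintro ⟨m, r⟩ ⟨m', r'⟩ h
      have h1 : m.1 = m'.1 := by
        have e1 := hDG (m, r)
        rw [h, hDG (m', r')] at e1
        exact e1.symm
      have hm : m = m' := Subtype.ext h1
      subst hm
      have h2 : io m.1 * (1 + r.1) = io m.1 * (1 + r'.1) := congrArg Subtype.val h
      have h3 : (1 + r.1 : Matrix (Kap d) (Kap d) K) = 1 + r'.1 := by
        calc (1 + r.1 : Matrix (Kap d) (Kap d) K) = (io (cs q m.1) * io m.1) * (1 + r.1) := by rw [hio1, one_mul]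
          _ = io (cs q m.1) * (io m.1 * (1 + r.1)) := by rw [mul_assoc]
          _ = io (cs q m.1) * (io m.1 * (1 + r'.1)) := by rw [h2]
          _ = (io (cs q m.1) * io m.1) * (1 + r'.1) := by rw [mul_assoc]
          _ = 1 + r'.1 := by rw [hio1, one_mul]
      exact Prod.ext rfl (Subtype.ext (add_left_cancel h3))
    · rintro ⟨g, hg1, hg2⟩
      have hdg : dagH q H H' g * g = 1 := dag_mul_of_T0 hd F hK hg2
      have hdgc := comm_dag hd F hK hg1
      -- the image in `UB`
      obtain ⟨m, hm⟩ : ∃ m, m = DD d g := ⟨_, rfl⟩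
      have hmB : IsBD d m := by rw [hm]; exact isBD_DD g
      have hmU : cs q m * m = 1 := by
        rw [hm, ← DD_dag hd F hK hg1, ← DD_mul hd hdgc hg1, hdg, DD_one hd]
      have hmU' : m * cs q m = 1 := mul_eq_one_comm.mp hmU
      let m0 : UB q d K := ⟨m, hmB, hmU⟩
      obtain ⟨r, hr⟩ : ∃ r, r = io (cs q m) * g - 1 := ⟨_, rfl⟩
      have hr1 : 1 + r = io (cs q m) * g := by rw [hr]; noncomm_ring
      have hc : (io (cs q m) * g) * Cfsg.jordanTypeMatrix d K = Cfsg.jordanTypeMatrix d K * (io (cs q m) * g) := by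
        rw [mul_assoc, hg1, ← mul_assoc, io_comm (isBD_cs hK hmB), mul_assoc]
      have hrm : r ∈ Rad K d hd := by
        rw [mem_Rad_iff hd]
        constructor
        · rw [hr, sub_mul, mul_sub, hc, one_mul, mul_one]
        · have h5 : DD d (io (cs q m) * g) = 1 := by
            rw [DD_mul hd (io_comm (isBD_cs hK hmB)) hg1, DD_io hd (isBD_cs hK hmB), ← hm, hmU]
          have h6 : ∀ k l, DD d r k l = 0 := by
            intro k l
            have h7 := congrFun (congrFun h5 k) l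
            have h8 := congrFun (congrFun (DD_one (K := K) hd) k) l
            rw [DD_apply] at h7 h8 ⊢
            by_cases h : d k = d l
            · rw [if_pos h] at h7 h8 ⊢
              rw [Tm_eq hd] at h7 h8 ⊢
              rw [hr, Matrix.sub_apply, h7, h8, sub_self]
            · rw [if_neg h]
          ext k l
          exact h6 k l
      have hrU : (1 + dagH q H H' r) * (1 + r) = 1 := by
        have h1 : 1 + dagH q H H' r = dagH q H H' g * io m := by
          have h2 : dagH q H H' (1 + r) = 1 + dagH q H H' r := by rw [hD.add, hD.one]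
          rw [← h2, hr1, hD.mul, dag_io hd F hK (isBD_cs hK hmB), cs_cs hK]
        rw [h1, hr1]
        calc dagH q H H' g * io m * (io (cs q m) * g) = dagH q H H' g * (io m * io (cs q m)) * g := by simp only [mul_assoc]
          _ = 1 := by rw [io_mul hmB, hmU', io_one, mul_one, hdg]
      refine ⟨(m0, ⟨r, hrm, hrU⟩), Subtype.ext ?_⟩
      show io m * (1 + r) = g
      rw [hr1, ← mul_assoc, io_mul hmB, hmU', io_one, one_mul]
  exact (Nat.card_congr (Equiv.ofBijective G hbij)).symm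

end Cfsg.Agent.Lib.GUCentB
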