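import Mathlib
import Cfsg.Agent.Lib.GUCentB2
import Cfsg.Agent.Lib.GUOrderP
import Cfsg.Agent.Lib.GUField

/-!
# The invariant form of a Jordan matrix and the count of its unitary centraliser
-/

set_option autoImplicit false
set_option linter.unusedSectionVars false
set_option linter.unusedSimpArgs false
set_option linter.unusedVariables false

namespace Cfsg.Agent.Lib.GUCentC

open Matrix Finset Cfsg Cfsg.Agent.Lib.JType Cfsg.Agent.Lib.JCent Cfsg.Agent.Lib.JCentCount Cfsg.Agent.Lib.JCentTri
open Cfsg.Agent.Lib.GUCentA Cfsg.Agent.Lib.GUCentB Cfsg.Agent.Lib.UnitaryBasic Cfsg.Agent.Lib.HermCount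
open Cfsg.Agent.Lib.UnitaryConjGU

variable {K : Type*} [Field K] [Fintype K] {q : ℕ}

/-! ### The Jordan block -/

theorem jb_sub_one_apply (m : ℕ) (a b : Fin m) :
    (jordanBlock m K - 1) a b = if (a : ℕ) = b + 1 then 1 else 0 := by
  classical
  rw [Matrix.sub_apply]
  simp only [jordanBlock, Matrix.of_apply]
  by_cases h : (a : ℕ) = b
  · have h1 : a = b := Fin.ext h
    subst h1
    simp
  · have h1 : a ≠ b := fun e => h (by rw [e])
    rw [if_neg h, Matrix.one_apply_ne h1, sub_zero]

theorem jb_pow_apply (m j : ℕ) (a b : Fin m) :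
    ((jordanBlock m K - 1) ^ j) a b = if (a : ℕ) = b + j then 1 else 0 := by
  classical
  induction j generalizing a with
  | zero =>
    rw [pow_zero, Matrix.one_apply]
    simp [Fin.ext_iff]
  | succ j ih =>
    rw [pow_succ', Matrix.mul_apply]
    simp only [jb_sub_one_apply, ih]
    by_cases h : 1 ≤ (a : ℕ)
    · have hlt : (a : ℕ) - 1 < m := by have := a.2; omega
      rw [Finset.sum_eq_single (⟨a - 1, hlt⟩ : Fin m)]
      · simp only
        rw [if_pos (by omega), one_mul]
        by_cases e : (a : ℕ) - 1 = b + j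
        · rw [if_pos e, if_pos (by omega)]
        · rw [if_neg e, if_neg (by omega)]
      · intro c _ hc
        rw [if_neg, zero_mul]
        intro e
        apply hc
        apply Fin.ext
        simp only
        omega
      · simp
    · rw [Finset.sum_eq_zero, if_neg (by omega)]
      intro c _
      rw [if_neg (by omega), zero_mul]

theorem jb_nil (m : ℕ) : IsNilpotent (jordanBlock m K - 1) := by
  refine ⟨m, ?_⟩
  ext a b
  rw [jb_pow_apply, Matrix.zero_apply, if_neg]
  have := a.2
  omega

theorem cs_eq_st (n : ℕ) (X : Matrix (Fin n) (Fin n) K) : cs q X = st q X := rfl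

/-- An invariant Hermitian form for a single Jordan block. -/
theorem exists_form (hK : Fintype.card K = q ^ 2) (m : ℕ) :
    ∃ h h' : Matrix (Fin m) (Fin m) K, cs q h = h ∧ h * h' = 1 ∧ h' * h = 1 ∧
      cs q (jordanBlock m K) * h * jordanBlock m K = h := by
  classical
  obtain ⟨p, hp⟩ := CharP.exists K
  haveI := hp
  haveI : Fact p.Prime := ⟨CharP.char_is_prime K p⟩
  have hU : IsUnit (1 + (jordanBlock m K - 1)) := (jb_nil m).isUnit_one_add
  rw [add_sub_cancel] at hU
  obtain ⟨A, hA⟩ := hU
  have hA' : ((A : GL (Fin m) K) : Matrix (Fin m) (Fin m) K) = jordanBlock m K := hA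
  obtain ⟨B, hB⟩ := Cfsg.Agent.Lib.GUOrderP.exists_GU p hK (A : GL (Fin m) K) (by rw [hA']; exact jb_nil m)
  obtain ⟨P, hP⟩ := isConj_iff.1 hB
  have hBU := st_mul_self_of_mem hK B.2
  obtain ⟨pp, hpp⟩ : ∃ pp : Matrix (Fin m) (Fin m) K, pp = (P : GL (Fin m) K) := ⟨_, rfl⟩
  obtain ⟨pi, hpi⟩ : ∃ pi : Matrix (Fin m) (Fin m) K, pi = ((P⁻¹ : GL (Fin m) K) : Matrix (Fin m) (Fin m) K) := ⟨_, rfl⟩
  have h1 : pp * pi = 1 := by rw [hpp, hpi]; exact Units.mul_inv P
  have h2 : pi * pp = 1 := by rw [hpp, hpi]; exact Units.inv_mul P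
  have h3 : ((B : GL (Fin m) K) : Matrix (Fin m) (Fin m) K) = pp * jordanBlock m K * pi := by
    rw [← hP, hpp, hpi, ← hA']
    rfl
  obtain ⟨b, hb⟩ : ∃ b : Matrix (Fin m) (Fin m) K, b = ((B : GL (Fin m) K) : Matrix (Fin m) (Fin m) K) := ⟨_, rfl⟩
  rw [← hb] at h3 hBU
  have h4 : b * pp = pp * jordanBlock m K := by
    rw [h3, mul_assoc, h2, mul_one]
  refine ⟨st q pp * pp, pi * st q pi, ?_, ?_, ?_, ?_⟩
  · rw [cs_eq_st, st_mul hK, st_st hK]
  · calc st q pp * pp * (pi * st q pi) = st q pp * (pp * pi) * st q pi := by simp only [mul_assoc]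
      _ = 1 := by rw [h1, mul_one, ← st_mul hK, h2, st_one hK]
  · calc pi * st q pi * (st q pp * pp) = pi * st q (pp * pi) * pp := by rw [st_mul hK]; simp only [mul_assoc]
      _ = 1 := by rw [h1, st_one hK, mul_one, h2]
  · rw [cs_eq_st]
    calc st q (jordanBlock m K) * (st q pp * pp) * jordanBlock m K
        = st q (pp * jordanBlock m K) * (pp * jordanBlock m K) := by rw [st_mul hK]; simp only [mul_assoc]
      _ = st q pp * (st q b * b) * pp := by rw [← h4, st_mul hK]; simp only [mul_assoc]
      _ = st q pp * pp := by rw [hBU, mul_one]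

/-! ### The block sum -/

variable {t : ℕ} {d : Fin t → ℕ}

theorem J_last {m : ℕ} (M : Matrix (Fin m) (Fin m) K) (x b : Fin m) (hb : (b : ℕ) + 1 = m) :
    (M * jordanBlock m K) x b = M x b := by
  classical
  rw [Matrix.mul_apply, Finset.sum_eq_single b]
  · simp [jordanBlock]
  · intro c _ hc
    have h1 : (c : ℕ) ≠ b := fun e => hc (Fin.ext e)
    have h2 : (c : ℕ) ≠ b + 1 := by have := c.2; omega
    simp [jordanBlock, h1, h2]
  · simp

theorem cs_J_mul {m : ℕ} (hK : Fintype.card K = q ^ 2) (M : Matrix (Fin m) (Fin m) K) (x y : Fin m) (hx : (x : ℕ) + 1 < m) :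
    (cs q (jordanBlock m K) * M) x y = M x y + M ⟨x + 1, hx⟩ y := by
  classical
  have hq : q ≠ 0 := by have := two_le_q hK; omega
  rw [Matrix.mul_apply]
  rw [Finset.sum_eq_add x ⟨x + 1, hx⟩]
  · simp [cs_apply, jordanBlock, hq]
  · intro e
    have := congrArg Fin.val e
    simp at this
  · intro c _ hc
    have h1 : (c : ℕ) ≠ x := fun e => hc.1 (Fin.ext e)
    have h2 : (c : ℕ) ≠ x + 1 := fun e => hc.2 (Fin.ext e)
    simp [cs_apply, jordanBlock, h1, h2, hq]
  · simp
  · simp

/-- The last column of an invariant form. -/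
theorem form_last {m : ℕ} (hK : Fintype.card K = q ^ 2) {h : Matrix (Fin m) (Fin m) K}
    (hinv : cs q (jordanBlock m K) * h * jordanBlock m K = h) (b l : Fin m) (hb : (b : ℕ) ≠ 0) (hl : (l : ℕ) + 1 = m) :
    h b l = 0 := by
  have hb1 : (b : ℕ) - 1 + 1 < m := by have := b.2; omega
  have h1 := congrFun (congrFun hinv ⟨b - 1, by omega⟩) l
  rw [J_last _ _ _ hl, cs_J_mul hK _ _ _ hb1] at h1
  have h2 : (⟨(b : ℕ) - 1 + 1, hb1⟩ : Fin m) = b := Fin.ext (by simp only; omega)
  simp only [h2] at h1
  exact left_eq_add.mp h1.symm |> fun e => e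

theorem form_corner {m : ℕ} (hK : Fintype.card K = q ^ 2) {h h' : Matrix (Fin m) (Fin m) K}
    (hinv : cs q (jordanBlock m K) * h * jordanBlock m K = h) (h2 : h' * h = 1)
    (z l : Fin m) (hz : (z : ℕ) = 0) (hl : (l : ℕ) + 1 = m) : h z l ≠ 0 := by
  classical
  intro e
  have h1 := congrFun (congrFun h2 l) l
  rw [Matrix.mul_apply, Finset.sum_eq_zero, Matrix.one_apply_eq] at h1
  · exact zero_ne_one h1
  · intro c _
    by_cases hc : (c : ℕ) = 0
    · have : c = z := Fin.ext (by omega)
      rw [this, e, mul_zero]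
    · rw [form_last hK hinv c l hc hl, mul_zero]

theorem cs_blockDiagonal (hK : Fintype.card K = q ^ 2) (M : ∀ k : Fin t, Matrix (Fin (d k)) (Fin (d k)) K) :
    cs q (Matrix.blockDiagonal' M) = Matrix.blockDiagonal' fun k => cs q (M k) := by
  have hq : q ≠ 0 := by have := two_le_q hK; omega
  rw [cs, Matrix.blockDiagonal'_map (f := fun x : K => x ^ q) _ (by simp [hq]), Matrix.blockDiagonal'_transpose]
  rfl

theorem bd_comm_aux (m m' : ℕ) (hmm : m = m') (h : Matrix (Fin m) (Fin m) K) (h2 : Matrix (Fin m') (Fin m') K) (hh : HEq h h2)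
    (a : Fin m) (b : Fin m') (v : K) :
    ∑ c : Fin m, h a c * (if (c : ℕ) = b then v else 0) = ∑ c : Fin m', (if (a : ℕ) = c then v else 0) * h2 c b := by
  classical
  subst hmm
  have : h = h2 := eq_of_heq hh
  subst this
  rw [Finset.sum_eq_single b, Finset.sum_eq_single a]
  · simp [mul_comm]
  · intro c _ hc
    have : (a : ℕ) ≠ c := fun e => hc (Fin.ext e.symm)
    rw [if_neg this, zero_mul]
  · simp
  · intro c _ hc
    have : (c : ℕ) ≠ b := fun e => hc (Fin.ext e)
    rw [if_neg this, mul_zero]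
  · simp

/-- The invariant form for the Jordan matrix. -/
theorem exists_FD (hK : Fintype.card K = q ^ 2) (hd : ∀ k, 1 ≤ d k) :
    ∃ (H H' : Matrix (Kap d) (Kap d) K) (c : ℕ → K), FD q d hd H H' c := by
  classical
  choose h h' hs h1 h2 hinv using fun m : ℕ => exists_form (K := K) hK m
  let c : ℕ → K := fun m => if hm : 1 ≤ m then h m ⟨0, by omega⟩ ⟨m - 1, by omega⟩ else 1
  refine ⟨Matrix.blockDiagonal' fun k => h (d k), Matrix.blockDiagonal' fun k => h' (d k), c, ?_⟩
  refine ⟨?_, ?_, ?_, ?_, ?_, ?_, ?_, ?_, ?_⟩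
  · rw [cs_blockDiagonal hK]
    simp only [hs]
  · rw [← Matrix.blockDiagonal'_mul, ← Matrix.blockDiagonal'_one]
    congr 1
    funext k
    exact h1 _
  · rw [← Matrix.blockDiagonal'_mul, ← Matrix.blockDiagonal'_one]
    congr 1
    funext k
    exact h2 _
  · rw [Cfsg.jordanTypeMatrix, cs_blockDiagonal hK, ← Matrix.blockDiagonal'_mul, ← Matrix.blockDiagonal'_mul]
    congr 1
    funext k
    exact hinv _
  · intro x y hxy
    obtain ⟨k, a⟩ := x
    obtain ⟨l, b⟩ := y
    exact Matrix.blockDiagonal'_apply_ne _ _ _ hxy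
  · intro l b hb
    rw [Matrix.blockDiagonal'_apply_eq]
    have := hd l
    exact form_last hK (hinv _) _ _ hb (by simp only [lst]; omega)
  · intro l
    rw [Matrix.blockDiagonal'_apply_eq]
    have hl := hd l
    show _ = dite _ _ _
    rw [dif_pos hl]
    rfl
  · intro m hm
    show dite _ _ _ ≠ 0
    rw [dif_pos hm]
    exact form_corner hK (hinv m) (h2 m) _ _ rfl (by simp only; omega)
  · intro n hn
    ext ⟨k, a⟩ ⟨l, b⟩
    rw [Matrix.mul_apply, Matrix.mul_apply, Fintype.sum_sigma, Fintype.sum_sigma]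
    rw [Finset.sum_eq_single k, Finset.sum_eq_single l]
    · simp only [Matrix.blockDiagonal'_apply_eq, io_apply]
      by_cases h0 : d k = d l
      · exact bd_comm_aux (d k) (d l) h0 (h (d k)) (h (d l)) (by rw [h0]) a b (n k l)
      · rw [hn k l h0]
        simp
    · intro k' _ hk'
      refine Finset.sum_eq_zero fun c _ => ?_
      rw [Matrix.blockDiagonal'_apply_ne _ _ _ hk', mul_zero]
    · simp
    · intro k' _ hk'
      refine Finset.sum_eq_zero fun c _ => ?_
      rw [Matrix.blockDiagonal'_apply_ne _ _ _ (Ne.symm hk'), zero_mul]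
    · simp

/-! ### Unitary matrices respecting the sizes -/

/-- Unitary matrices on a general index. -/
abbrev UM (q : ℕ) (K : Type*) [Field K] (ι : Type*) [Fintype ι] [DecidableEq ι] : Type _ :=
  {A : Matrix ι ι K // cs q A * A = 1}

theorem sum_blk {c : ℕ} (f : Fin t → K) (hf : ∀ k, f k ≠ 0 → d k = c) :
    ∑ k, f k = ∑ k : Blk d c, f k.1 := by
  classical
  rw [← Finset.sum_subtype (univ.filter fun k => d k = c) (by simp) f]
  exact (Finset.sum_filter_of_ne fun k _ h => hf k h).symm

theorem cs_mul_apply_of_BD (hK : Fintype.card K = q ^ 2) {m : Matrix (Fin t) (Fin t) K} (hm : IsBD d m) (c : ℕ) (i j : Blk d c) :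
    (cs q (m.toSquareBlock d c) * m.toSquareBlock d c) i j = (cs q m * m) i.1 j.1 := by
  classical
  have hq : q ≠ 0 := by have := two_le_q hK; omega
  rw [Matrix.mul_apply, Matrix.mul_apply, sum_blk (c := c)]
  · rfl
  · intro k hk
    have h1 : m k j.1 ≠ 0 := right_ne_zero_of_mul hk
    by_contra e
    apply h1
    apply hm
    rw [j.2]
    exact e

/-- The isometries of the multiplicity spaces. -/
noncomputable def UBequiv (hK : Fintype.card K = q ^ 2) :
    UB q d K ≃ ∀ c : Fin (univ.sup d + 1), UM q K (Blk d c) where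
  toFun m c := ⟨m.1.toSquareBlock d c.val, by
    ext i j
    rw [cs_mul_apply_of_BD hK m.2.1, m.2.2]
    simp only [Matrix.one_apply, Subtype.ext_iff]⟩
  invFun x := ⟨ofData d (fun c => (x c).1) 0, by
      intro k l h
      simp only [ofData, Matrix.of_apply]
      rw [dif_neg (Ne.symm h)]
      split_ifs <;> rfl, by
      classical
      have hq : q ≠ 0 := by have := two_le_q hK; omega
      have hBD : IsBD d (ofData d (fun c => (x c).1) 0 : Matrix (Fin t) (Fin t) K) := by
        intro k l h
        simp only [ofData, Matrix.of_apply]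
        rw [dif_neg (Ne.symm h)]
        split_ifs <;> rfl
      ext i j
      by_cases hij : d i = d j
      · have h1 := cs_mul_apply_of_BD hK hBD (d i) ⟨i, rfl⟩ ⟨j, hij.symm⟩
        have h2 := block_ofData d (fun c => (x c).1) 0 ⟨d i, lbl_lt d i⟩
        simp only at h2
        rw [h2, (x ⟨d i, lbl_lt d i⟩).2] at h1
        rw [← h1]
        simp only [Matrix.one_apply, Subtype.ext_iff]
      · rw [Matrix.one_apply_ne (fun e => hij (by rw [e])), Matrix.mul_apply]
        refine Finset.sum_eq_zero fun k _ => ?_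
        by_cases hk : d k = d j
        · rw [cs_apply, hBD k i (by rw [hk]; exact Ne.symm hij), zero_pow hq, zero_mul]
        · rw [hBD k j hk, mul_zero]⟩
  left_inv m := by
    apply Subtype.ext
    have h1 : (fun p : Pairs d => m.1 p.1.1 p.1.2) = 0 := by
      funext p
      exact m.2.1 _ _ (by have := p.2; omega)
    have h2 := ofData_toData d m.1 (fun i j hij => m.2.1 i j (by omega))
    rw [h1] at h2
    exact h2
  right_inv x := by
    funext c
    apply Subtype.ext
    exact block_ofData d (fun c => (x c).1) 0 c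

/-- Unitary matrices on a general index and the unitary group. -/
noncomputable def UMequiv (hK : Fintype.card K = q ^ 2) (ι : Type*) [Fintype ι] [DecidableEq ι] :
    UM q K ι ≃ GU (Fintype.card ι) K q :=
  let e := Fintype.equivFin ι
  { toFun := fun A => ⟨⟨Matrix.reindex e e A.1, Matrix.reindex e e (cs q A.1), by
        have h2 := mul_eq_one_comm.mp A.2
        simp only [Matrix.reindex_apply, Matrix.submatrix_mul_equiv, h2, Matrix.submatrix_one_equiv], by
        have h2 := A.2
        simp only [Matrix.reindex_apply, Matrix.submatrix_mul_equiv, h2, Matrix.submatrix_one_equiv]⟩, by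
        refine mem_of_st_mul_self hK ?_
        have h2 := A.2
        show st q (Matrix.reindex e e A.1) * Matrix.reindex e e A.1 = 1
        have h3 : st q (Matrix.reindex e e A.1) = Matrix.reindex e e (cs q A.1) := rfl
        rw [h3]
        simp only [Matrix.reindex_apply, Matrix.submatrix_mul_equiv, h2, Matrix.submatrix_one_equiv]⟩
    invFun := fun g => ⟨Matrix.reindex e.symm e.symm ((g.1 : GL (Fin (Fintype.card ι)) K) : Matrix (Fin (Fintype.card ι)) (Fin (Fintype.card ι)) K), by
        have h1 := st_mul_self_of_mem hK g.2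
        have h3 : cs q (Matrix.reindex e.symm e.symm ((g.1 : GL (Fin (Fintype.card ι)) K) : Matrix (Fin (Fintype.card ι)) (Fin (Fintype.card ι)) K)) =
            Matrix.reindex e.symm e.symm (st q ((g.1 : GL (Fin (Fintype.card ι)) K) : Matrix (Fin (Fintype.card ι)) (Fin (Fintype.card ι)) K)) := rfl
        rw [h3]
        simp only [Matrix.reindex_apply, Matrix.submatrix_mul_equiv, h1, Matrix.submatrix_one_equiv]⟩
    left_inv := fun A => by
      apply Subtype.ext
      ext i j
      simp
    right_inv := fun g => by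
      apply Subtype.ext
      apply Units.ext
      ext i j
      simp }

theorem card_UB (hK : Fintype.card K = q ^ 2) :
    Nat.card (UB q d K) = ∏ c : Fin (univ.sup d + 1), Nat.card (GU (Fintype.card (Blk d c)) K q) := by
  rw [Nat.card_congr (UBequiv hK), Nat.card_pi]
  exact Finset.prod_congr rfl fun c _ => Nat.card_congr (UMequiv hK _)

end Cfsg.Agent.Lib.GUCentC
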