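import Mathlib

set_option autoImplicit false

/-!
Counting commuting pairs: the inequalities of Gallagher between the number of conjugacy classes
of a group, of a subgroup, of a normal subgroup and of the quotient.
-/

namespace Cfsg.Agent.Lib.Gallagher

/-- double counting of pairs in a relation, first coordinate -/
lemma card_pairs_left {α β : Type*} [Finite α] [Finite β] (r : α → β → Prop) :
    Nat.card {p : α × β // r p.1 p.2} = ∑ᶠ a, Nat.card {b // r a b} := by
  classical
  have := Fintype.ofFinite α
  rw [finsum_eq_sum_of_fintype]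
  have e : {p : α × β // r p.1 p.2} ≃ Σ a : α, {b // r a b} :=
    { toFun := fun p => ⟨p.1.1, p.1.2, p.2⟩
      invFun := fun s => ⟨(s.1, s.2.1), s.2.2⟩
      left_inv := fun p => by rfl
      right_inv := fun s => by rfl }
  rw [Nat.card_congr e, Nat.card_sigma]

/-- double counting of pairs in a relation, second coordinate -/
lemma card_pairs_right {α β : Type*} [Finite α] [Finite β] (r : α → β → Prop) :
    Nat.card {p : α × β // r p.1 p.2} = ∑ᶠ b, Nat.card {a // r a b} := by
  classical
  have := Fintype.ofFinite β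
  rw [finsum_eq_sum_of_fintype]
  have e : {p : α × β // r p.1 p.2} ≃ Σ b : β, {a // r a b} :=
    { toFun := fun p => ⟨p.1.2, p.1.1, p.2⟩
      invFun := fun s => ⟨(s.2.1, s.1), s.2.2⟩
      left_inv := fun p => by rfl
      right_inv := fun s => by rfl }
  rw [Nat.card_congr e, Nat.card_sigma]

variable {X : Type*} [Group X]

lemma coe_commute_iff (Y : Subgroup X) (a b : Y) : Commute a b ↔ Commute (a : X) (b : X) := by
  constructor
  · intro h
    exact congrArg Subtype.val h.eq
  · intro h
    exact Subtype.ext h.eq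

/-- `|C_Y(x)|`-counting: the elements of the subgroup `Y` commuting with `x` -/
lemma card_commuting_subgroup (x : X) (Y : Subgroup X) :
    Nat.card {z : Y // Commute x (z : X)} =
      Nat.card (Subgroup.centralizer ({x} : Set X) ⊓ Y : Subgroup X) := by
  apply Nat.card_congr
  refine ⟨fun z => ⟨z.1.1, ?_, z.1.2⟩, fun z => ⟨⟨z.1, z.2.2⟩, ?_⟩, fun z => rfl, fun z => rfl⟩
  · have h := z.2
    exact (Subgroup.mem_centralizer_singleton_iff).2 h.symm.eq
  · have h := z.2.1
    exact ((Subgroup.mem_centralizer_singleton_iff).1 h).symm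

lemma card_commuting_top (x : X) :
    Nat.card {z : X // Commute x z} = Nat.card (Subgroup.centralizer ({x} : Set X)) := by
  apply Nat.card_congr
  refine ⟨fun z => ⟨z.1, ?_⟩, fun z => ⟨z.1, ?_⟩, fun z => rfl, fun z => rfl⟩
  · exact (Subgroup.mem_centralizer_singleton_iff).2 z.2.symm.eq
  · exact ((Subgroup.mem_centralizer_singleton_iff).1 z.2).symm

lemma card_eq_relIndex_mul (C Y : Subgroup X) :
    Nat.card C = Y.relIndex C * Nat.card (C ⊓ Y : Subgroup X) := by
  have h := Subgroup.relIndex_mul_relIndex (⊥ : Subgroup X) (C ⊓ Y) C bot_le inf_le_left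
  simp only [Subgroup.relIndex_bot_left, Subgroup.inf_relIndex_left] at h
  rw [mul_comm]; exact h.symm

variable [Finite X]

lemma relIndex_le_index (C Y : Subgroup X) : Y.relIndex C ≤ Y.index := by
  have h := Subgroup.relIndex_le_of_le_right (H := Y) (K := C) (L := ⊤) le_top
    (by rw [Subgroup.relIndex_top_right]; exact Subgroup.index_ne_zero_of_finite)
  rwa [Subgroup.relIndex_top_right] at h

/-- `|C_X(x)| ≤ |X : Y| |C_Y(x)|` -/
lemma card_commuting_le (x : X) (Y : Subgroup X) :
    Nat.card {z : X // Commute x z} ≤ Y.index * Nat.card {z : Y // Commute x (z : X)} := by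
  rw [card_commuting_top, card_commuting_subgroup, card_eq_relIndex_mul _ Y]
  exact Nat.mul_le_mul_right _ (relIndex_le_index _ Y)

/-- If `|C : C ∩ Y| = |X : Y|`, then `X = C Y`. -/
lemma exists_mul_of_relIndex_eq (C Y : Subgroup X) (h : Y.relIndex C = Y.index) (g : X) :
    ∃ c ∈ C, ∃ u ∈ Y, g = c * u := by
  classical
  have hinj := (Subgroup.quotientSubgroupOfEmbeddingOfLE Y (le_top : C ≤ ⊤)).injective
  have hcard : Nat.card ((C : Subgroup X) ⧸ Y.subgroupOf C) =
      Nat.card ((⊤ : Subgroup X) ⧸ Y.subgroupOf ⊤) := by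
    have h1 : Nat.card ((C : Subgroup X) ⧸ Y.subgroupOf C) = Y.relIndex C := rfl
    have h2 : Nat.card ((⊤ : Subgroup X) ⧸ Y.subgroupOf ⊤) = Y.relIndex ⊤ := rfl
    rw [h1, h2, Subgroup.relIndex_top_right, h]
  have hsurj := (Nat.bijective_iff_injective_and_card _).mpr ⟨hinj, hcard⟩
  obtain ⟨q, hq⟩ := hsurj.2 (QuotientGroup.mk (⟨g, trivial⟩ : (⊤ : Subgroup X)))
  induction q using QuotientGroup.induction_on with
  | H c =>
    rw [Subgroup.quotientSubgroupOfEmbeddingOfLE_apply_mk, QuotientGroup.eq, Subgroup.mem_subgroupOf] at hq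
    refine ⟨c, c.2, _, hq, ?_⟩
    simp

/-- `k(Y) ≤ |X : Y| k(X)`, `k(X) ≤ |X : Y| k(Y)`, with strict inequality in the latter when `Y`
is not normal. -/
theorem card_conjClasses_subgroup (Y : Subgroup X) :
    Nat.card (ConjClasses Y) ≤ Y.index * Nat.card (ConjClasses X) ∧
    Nat.card (ConjClasses X) ≤ Y.index * Nat.card (ConjClasses Y) ∧
    (¬ Y.Normal → Nat.card (ConjClasses X) < Y.index * Nat.card (ConjClasses Y)) := by
  classical
  have := Fintype.ofFinite X
  have := Fintype.ofFinite Y
  have hcardX : Nat.card X = Y.index * Nat.card Y := by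
    rw [mul_comm]; exact Y.card_mul_index.symm
  have hY0 : 0 < Nat.card Y := Nat.card_pos
  have hX0 : 0 < Nat.card X := Nat.card_pos
  have hm0 : 0 < Y.index := Nat.pos_of_ne_zero Subgroup.index_ne_zero_of_finite
  have N1 := card_comm_eq_card_conjClasses_mul_card X
  have N2 := card_comm_eq_card_conjClasses_mul_card Y
  -- the sums
  have S1 : Nat.card {p : X × X // Commute p.1 p.2} = ∑ x : X, Nat.card {z : X // Commute x z} := by
    rw [card_pairs_left (fun a b : X => Commute a b), finsum_eq_sum_of_fintype]
  have S2 : Nat.card {p : Y × Y // Commute p.1 p.2} =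
      ∑ y : Y, Nat.card {z : Y // Commute (y : X) (z : X)} := by
    have := card_pairs_left (fun a b : Y => Commute (a : X) (b : X))
    rw [finsum_eq_sum_of_fintype] at this
    rw [← this]
    apply Nat.card_congr
    apply Equiv.subtypeEquivRight
    intro p
    exact (coe_commute_iff Y _ _)
  have S3 : ∑ x : X, Nat.card {z : Y // Commute x (z : X)} =
      ∑ y : Y, Nat.card {x : X // Commute x (y : X)} := by
    have h1 := card_pairs_left (fun (a : X) (b : Y) => Commute a (b : X))
    have h2 := card_pairs_right (fun (a : X) (b : Y) => Commute a (b : X))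
    rw [finsum_eq_sum_of_fintype] at h1 h2
    rw [← h1, h2]
  have S4 : ∀ y : Y, Nat.card {x : X // Commute x (y : X)} = Nat.card {x : X // Commute (y : X) x} := by
    intro y
    apply Nat.card_congr
    apply Equiv.subtypeEquivRight
    intro x
    exact ⟨Commute.symm, Commute.symm⟩
  have L1 : Nat.card {p : X × X // Commute p.1 p.2} ≤
      Y.index * ∑ y : Y, Nat.card {x : X // Commute (y : X) x} := by
    rw [S1, Finset.mul_sum]
    calc ∑ x : X, Nat.card {z : X // Commute x z}
        ≤ ∑ x : X, Y.index * Nat.card {z : Y // Commute x (z : X)} :=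
          Finset.sum_le_sum (fun x _ => card_commuting_le x Y)
      _ = Y.index * ∑ x : X, Nat.card {z : Y // Commute x (z : X)} := by rw [Finset.mul_sum]
      _ = Y.index * ∑ y : Y, Nat.card {x : X // Commute x (y : X)} := by rw [S3]
      _ = ∑ y : Y, Y.index * Nat.card {x : X // Commute (y : X) x} := by
          rw [Finset.mul_sum]; exact Finset.sum_congr rfl (fun y _ => by rw [S4])
  refine ⟨?_, ?_, ?_⟩
  · -- `k(Y) ≤ m k(X)` : commuting pairs of `Y` inject in commuting pairs of `X`
    have hle : Nat.card {p : Y × Y // Commute p.1 p.2} ≤ Nat.card {p : X × X // Commute p.1 p.2} := by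
      apply Nat.card_le_card_of_injective
        (fun p : {p : Y × Y // Commute p.1 p.2} =>
          (⟨((p.1.1 : X), (p.1.2 : X)), (coe_commute_iff Y _ _).mp p.2⟩ :
            {p : X × X // Commute p.1 p.2}))
      intro p q hpq
      apply Subtype.ext
      have h1 := congrArg (fun r : {p : X × X // Commute p.1 p.2} => r.1) hpq
      simp only [Prod.mk.injEq] at h1
      exact Prod.ext (Subtype.ext h1.1) (Subtype.ext h1.2)
    rw [N1, N2, hcardX] at hle
    have : Nat.card (ConjClasses Y) * Nat.card Y ≤
        (Y.index * Nat.card (ConjClasses X)) * Nat.card Y := by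
      calc _ ≤ _ := hle
        _ = _ := by ring
    exact Nat.le_of_mul_le_mul_right this hY0
  · have L2 : Y.index * ∑ y : Y, Nat.card {x : X // Commute (y : X) x} ≤
        Y.index * ∑ y : Y, Y.index * Nat.card {z : Y // Commute (y : X) (z : X)} := by
      apply Nat.mul_le_mul_left
      exact Finset.sum_le_sum (fun y _ => card_commuting_le (y : X) Y)
    rw [← Finset.mul_sum, ← S2, N2] at L2
    have := L1.trans L2
    rw [N1, hcardX] at this
    have h3 : Nat.card (ConjClasses X) * (Y.index * Nat.card Y) ≤
        (Y.index * Nat.card (ConjClasses Y)) * (Y.index * Nat.card Y) := by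
      calc _ ≤ _ := this
        _ = _ := by ring
    exact Nat.le_of_mul_le_mul_right h3 (Nat.mul_pos hm0 hY0)
  · intro hnn
    -- find `y ∈ Y` with `C_X(y) Y ≠ X`
    have hex : ∃ y : Y, Y.relIndex (Subgroup.centralizer ({(y : X)} : Set X)) ≠ Y.index := by
      by_contra hcon
      simp only [not_exists, not_not] at hcon
      apply hnn
      constructor
      intro y hy g
      obtain ⟨c, hc, u, hu, hg⟩ := exists_mul_of_relIndex_eq _ Y (hcon ⟨y, hy⟩) g⁻¹
      have hg' : g = u⁻¹ * c⁻¹ := by
        rw [← inv_inj, hg]; group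
      have hcc : c⁻¹ * y * c = y := by
        have h1 := (Subgroup.mem_centralizer_singleton_iff).1 hc
        calc c⁻¹ * y * c = c⁻¹ * (y * c) := by group
          _ = c⁻¹ * (c * y) := by rw [h1]
          _ = y := by group
      have : g * y * g⁻¹ = u⁻¹ * y * u := by
        rw [hg']
        calc u⁻¹ * c⁻¹ * y * (u⁻¹ * c⁻¹)⁻¹ = u⁻¹ * (c⁻¹ * y * c) * u := by group
          _ = u⁻¹ * y * u := by rw [hcc]
      rw [this]
      exact Y.mul_mem (Y.mul_mem (Y.inv_mem hu) hy) hu
    obtain ⟨y0, hy0⟩ := hex
    have hstrict : Nat.card {x : X // Commute (y0 : X) x} <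
        Y.index * Nat.card {z : Y // Commute (y0 : X) (z : X)} := by
      rw [card_commuting_top, card_commuting_subgroup,
        card_eq_relIndex_mul (Subgroup.centralizer ({(y0 : X)} : Set X)) Y]
      apply Nat.mul_lt_mul_of_pos_right
      · exact lt_of_le_of_ne (relIndex_le_index _ Y) hy0
      · exact Nat.card_pos
    have L2 : ∑ y : Y, Nat.card {x : X // Commute (y : X) x} <
        ∑ y : Y, Y.index * Nat.card {z : Y // Commute (y : X) (z : X)} := by
      apply Finset.sum_lt_sum
      · intro y _
        exact card_commuting_le (y : X) Y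
      · exact ⟨y0, Finset.mem_univ _, hstrict⟩
    rw [← Finset.mul_sum, ← S2, N2] at L2
    have L3 := L1.trans_lt (Nat.mul_lt_mul_of_pos_left L2 hm0)
    rw [N1, hcardX] at L3
    have h3 : Nat.card (ConjClasses X) * (Y.index * Nat.card Y) <
        (Y.index * Nat.card (ConjClasses Y)) * (Y.index * Nat.card Y) := by
      calc _ < _ := L3
        _ = _ := by ring
    exact Nat.lt_of_mul_lt_mul_right h3

/-- `k(X) ≤ k(N) k(X/N)` for a normal subgroup `N` -/
theorem card_conjClasses_normal (N : Subgroup X) [N.Normal] :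
    Nat.card (ConjClasses X) ≤ Nat.card (ConjClasses N) * Nat.card (ConjClasses (X ⧸ N)) := by
  classical
  have := Fintype.ofFinite X
  have := Fintype.ofFinite N
  have := Fintype.ofFinite (X ⧸ N)
  have N1 := card_comm_eq_card_conjClasses_mul_card X
  have N2 := card_comm_eq_card_conjClasses_mul_card N
  have N3 := card_comm_eq_card_conjClasses_mul_card (X ⧸ N)
  have hcardX : Nat.card X = Nat.card N * Nat.card (X ⧸ N) := by
    rw [← Subgroup.index_eq_card]; exact (N.card_mul_index).symm
  have S1 : Nat.card {p : X × X // Commute p.1 p.2} = ∑ x : X, Nat.card {z : X // Commute x z} := by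
    rw [card_pairs_left (fun a b : X => Commute a b), finsum_eq_sum_of_fintype]
  have S2 : Nat.card {p : N × N // Commute p.1 p.2} =
      ∑ y : N, Nat.card {z : N // Commute (y : X) (z : X)} := by
    have := card_pairs_left (fun a b : N => Commute (a : X) (b : X))
    rw [finsum_eq_sum_of_fintype] at this
    rw [← this]
    apply Nat.card_congr
    apply Equiv.subtypeEquivRight
    intro p
    exact coe_commute_iff N _ _
  have S3 : Nat.card {p : (X ⧸ N) × (X ⧸ N) // Commute p.1 p.2} =
      ∑ q : X ⧸ N, Nat.card {z : X ⧸ N // Commute q z} := by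
    rw [card_pairs_left (fun a b : X ⧸ N => Commute a b), finsum_eq_sum_of_fintype]
  -- `|C_X(x)| ≤ |C_{X/N}(x̄)| |C_N(x)|`
  have step1 : ∀ x : X, Nat.card {z : X // Commute x z} ≤
      Nat.card {z : X ⧸ N // Commute (x : X ⧸ N) z} * Nat.card {z : N // Commute x (z : X)} := by
    intro x
    rw [card_commuting_top, card_commuting_subgroup,
      card_eq_relIndex_mul (Subgroup.centralizer ({x} : Set X)) N]
    apply Nat.mul_le_mul_right
    have h1 : N.relIndex (Subgroup.centralizer ({x} : Set X)) =
        Nat.card ((Subgroup.centralizer ({x} : Set X)).map (QuotientGroup.mk' N)) := by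
      have := Subgroup.relIndex_ker (K := Subgroup.centralizer ({x} : Set X)) (QuotientGroup.mk' N)
      rwa [QuotientGroup.ker_mk'] at this
    rw [h1, card_commuting_top]
    apply Nat.card_le_card_of_injective
      (fun q : ((Subgroup.centralizer ({x} : Set X)).map (QuotientGroup.mk' N)) =>
        (⟨q.1, by
          obtain ⟨c, hc, hq⟩ := q.2
          rw [SetLike.mem_coe, Subgroup.mem_centralizer_singleton_iff] at hc
          rw [Subgroup.mem_centralizer_singleton_iff, ← hq]
          show (QuotientGroup.mk c : X ⧸ N) * (QuotientGroup.mk x) = (QuotientGroup.mk x) * (QuotientGroup.mk c)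
          rw [← QuotientGroup.mk_mul, ← QuotientGroup.mk_mul, hc]⟩ :
          Subgroup.centralizer ({(x : X ⧸ N)} : Set (X ⧸ N))))
    intro a b hab
    apply Subtype.ext
    exact congrArg (fun r : (Subgroup.centralizer ({(x : X ⧸ N)} : Set (X ⧸ N))) => (r : X ⧸ N)) hab
  -- for each coset, the total of `|C_N(x)|` is at most `k(N) |N|`
  have step2 : ∀ q : X ⧸ N, ∑ x : {x : X // (x : X ⧸ N) = q}, Nat.card {z : N // Commute (x : X) (z : X)} ≤
      Nat.card {p : N × N // Commute p.1 p.2} := by
    intro q
    have h1 := card_pairs_left (fun (a : {x : X // (x : X ⧸ N) = q}) (b : N) => Commute (a : X) (b : X))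
    have h2 := card_pairs_right (fun (a : {x : X // (x : X ⧸ N) = q}) (b : N) => Commute (a : X) (b : X))
    rw [finsum_eq_sum_of_fintype] at h1 h2
    rw [← h1, h2, S2]
    apply Finset.sum_le_sum
    intro n _
    -- the elements of the coset commuting with `n` form (if nonempty) a coset of `C_N(n)`
    by_cases hne : Nonempty {a : {x : X // (x : X ⧸ N) = q} // Commute (a : X) (n : X)}
    · obtain ⟨a0⟩ := hne
      apply Nat.card_le_card_of_injective
        (fun a : {a : {x : X // (x : X ⧸ N) = q} // Commute (a : X) (n : X)} =>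
          (⟨⟨(a0.1.1 : X)⁻¹ * a.1.1, by
            have h3 : ((a0.1.1 : X) : X ⧸ N) = (a.1.1 : X) := by rw [a0.1.2, a.1.2]
            exact QuotientGroup.eq.mp h3⟩, by
            show Commute (n : X) ((a0.1.1 : X)⁻¹ * (a.1.1 : X))
            exact Commute.mul_right (a0.2.symm.inv_right) a.2.symm⟩ :
            {z : N // Commute (n : X) (z : X)}))
      intro a b hab
      have h3 : (a0.1.1 : X)⁻¹ * (a.1.1 : X) = (a0.1.1 : X)⁻¹ * (b.1.1 : X) := by
        have := congrArg (fun r : {z : N // Commute (n : X) (z : X)} => (r.1 : X)) hab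
        exact this
      have h4 := mul_left_cancel h3
      exact Subtype.ext (Subtype.ext h4)
    · have : IsEmpty {a : {x : X // (x : X ⧸ N) = q} // Commute (a : X) (n : X)} := not_nonempty_iff.mp hne
      rw [Nat.card_of_isEmpty]
      exact Nat.zero_le _
  have total : Nat.card {p : X × X // Commute p.1 p.2} ≤
      Nat.card {p : (X ⧸ N) × (X ⧸ N) // Commute p.1 p.2} * Nat.card {p : N × N // Commute p.1 p.2} := by
    rw [S1, S3, Finset.sum_mul]
    calc ∑ x : X, Nat.card {z : X // Commute x z}
        ≤ ∑ x : X, Nat.card {z : X ⧸ N // Commute (x : X ⧸ N) z} * Nat.card {z : N // Commute x (z : X)} :=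
          Finset.sum_le_sum (fun x _ => step1 x)
      _ = ∑ q : X ⧸ N, ∑ x : {x : X // (x : X ⧸ N) = q},
            Nat.card {z : X ⧸ N // Commute ((x : X) : X ⧸ N) z} * Nat.card {z : N // Commute (x : X) (z : X)} :=
          (Fintype.sum_fiberwise (fun x : X => (x : X ⧸ N)) _).symm
      _ = ∑ q : X ⧸ N, Nat.card {z : X ⧸ N // Commute q z} *
            ∑ x : {x : X // (x : X ⧸ N) = q}, Nat.card {z : N // Commute (x : X) (z : X)} := by
          apply Finset.sum_congr rfl
          intro q _
          rw [Finset.mul_sum]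
          apply Finset.sum_congr rfl
          intro x _
          rw [x.2]
      _ ≤ ∑ q : X ⧸ N, Nat.card {z : X ⧸ N // Commute q z} * Nat.card {p : N × N // Commute p.1 p.2} :=
          Finset.sum_le_sum (fun q _ => Nat.mul_le_mul_left _ (step2 q))
  rw [N1, N2, N3, hcardX] at total
  have hpos : 0 < Nat.card N * Nat.card (X ⧸ N) := Nat.mul_pos Nat.card_pos Nat.card_pos
  apply Nat.le_of_mul_le_mul_right _ hpos
  calc _ ≤ _ := total
    _ = _ := by ring

end Cfsg.Agent.Lib.Gallagher
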