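import Mathlib
import Cfsg.Agent.Lib.GlaubCycVal

/-!
# The canonical extension on all cosets, if all non-trivial elements have the same fixed points
-/

set_option autoImplicit false
set_option linter.style.haveILetI false
set_option linter.unusedVariables false
set_option linter.unusedSectionVars false

namespace Cfsg.Agent.Lib.GlaubCycSub

open Cfsg Cfsg.Agent.Lib.CharBasic Cfsg.Agent.Lib.CharInd Cfsg.Agent.Lib.GlaubDual
open Cfsg.Agent.Lib.GlaubBase Cfsg.Agent.Lib.GlaubCorr Cfsg.Agent.Lib.CharDet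
open Cfsg.Agent.Lib.CharPow Cfsg.Agent.Lib.GlaubCyc Cfsg.Agent.Lib.Clifford
open Cfsg.Agent.Lib.GlaubCycVal
open scoped ComplexConjugate Classical

universe u

section Irr

variable {L N : Type u} [Group L] [Group N]

/-- A character whose pull-back is irreducible is irreducible. -/
theorem isIrr_of_comp [Finite N] (j : N →* L) {ψ : L → ℂ} (hψ : IsCharacter L ψ)
    (hirr : IsIrrCharacter N (ψ ∘ j)) : IsIrrCharacter L ψ := by
  obtain ⟨n, R, rfl⟩ := hψ
  obtain ⟨k, ρ, hρ, hk⟩ := hirr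
  have hkn : k = n := by
    have h1 := congrFun hk 1
    simp only [Function.comp_apply, map_one] at h1
    rw [char_one_eq_rep, char_one_eq_rep] at h1
    exact_mod_cast h1
  subst hkn
  let σ : Representation ℂ N (Fin k → ℂ) := R.comp j
  have hσ : Representation.character ρ = Representation.character σ := hk
  obtain ⟨E⟩ := Cfsg.Agent.Lib.CharEquiv.equiv_of_character_eq (G := N) k _ _ ρ σ
    (by simp) hσ
  have h1 : σ = Cfsg.Agent.Lib.CharBasic.transport E.toLinearEquiv ρ := by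
    apply MonoidHom.ext
    intro g
    apply LinearMap.ext
    intro w
    rw [transport_apply]
    have h3 := E.toIntertwiningMap.isIntertwining _ _ g (E.toLinearEquiv.symm w)
    have h4 : E.toLinearEquiv (E.toLinearEquiv.symm w) = w := LinearEquiv.apply_symm_apply _ _
    calc σ g w = σ g (E.toLinearEquiv (E.toLinearEquiv.symm w)) := by rw [h4]
      _ = _ := h3.symm
  have h2 : σ.IsIrreducible := by
    rw [h1]
    exact transport_isIrreducible _ _ hρ
  refine ⟨k, R, ?_, rfl⟩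
  rw [isIrreducible_iff] at h2 ⊢
  refine ⟨h2.1, fun U hU => h2.2 U fun g v hv => hU (j g) v hv⟩

end Irr

section Sub

variable {Γ : Type u} [Group Γ] [Fintype Γ] {G S C : Subgroup Γ} [Fintype G] [Fintype S]
  [Fintype C] [hN : G.Normal] (hs : Setup G S C)

/-- The canonical extension on the coset of a non-generating element with the same fixed points. -/
theorem val_of_sub (x : S) (hfix : G ⊓ Subgroup.centralizer ({(x : Γ)} : Set Γ) = C) (χ : XS G S) :
    ∃ (β : IrrCharacter C) (ε : ℤ), (ε = 1 ∨ ε = -1) ∧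
      ∀ c : C, (canon hs χ : Γ → ℂ) ((c : Γ) * x) = (ε : ℂ) * (β : C → ℂ) c := by
  set z : Γ := (x : Γ) with hz
  let S₁ : Subgroup Γ := Subgroup.zpowers z
  have hS₁S : S₁ ≤ S := by
    rintro _ ⟨k, rfl⟩
    exact S.zpow_mem x.2 k
  let L : Subgroup Γ := G ⊔ S₁
  have hGL : G ≤ L := le_sup_left
  have hS₁L : S₁ ≤ L := le_sup_right
  have hCL : C ≤ L := (C_le_G hs).trans hGL
  have hzL : z ∈ L := hS₁L (Subgroup.mem_zpowers z)
  let G' : Subgroup L := G.subgroupOf L
  let S' : Subgroup L := S₁.subgroupOf L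
  let C' : Subgroup L := C.subgroupOf L
  letI : Fintype L := Fintype.ofFinite _
  letI : Fintype G' := Fintype.ofFinite _
  letI : Fintype S' := Fintype.ofFinite _
  letI : Fintype C' := Fintype.ofFinite _
  haveI hN' : G'.Normal := Subgroup.normal_subgroupOf
  let eG : G' ≃* G := Subgroup.subgroupOfEquivOfLe hGL
  let eS : S' ≃* S₁ := Subgroup.subgroupOfEquivOfLe hS₁L
  let eC : C' ≃* C := Subgroup.subgroupOfEquivOfLe hCL
  have heG : ∀ g : G', ((eG g : G) : Γ) = ((g : L) : Γ) := fun g => rfl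
  have hcS : Nat.card S' ∣ Nat.card S := by
    rw [Nat.card_congr eS.toEquiv]
    exact Subgroup.card_dvd_of_le hS₁S
  let t' : S' := ⟨⟨z, hzL⟩, Subgroup.mem_subgroupOf.mpr (Subgroup.mem_zpowers z)⟩
  have ht' : ∀ y : S', y ∈ Subgroup.zpowers t' := by
    rintro ⟨⟨w, hwL⟩, hw⟩
    obtain ⟨k, hk⟩ := Subgroup.mem_subgroupOf.mp hw
    exact ⟨k, Subtype.ext (Subtype.ext hk)⟩
  have hs' : Setup G' S' C' := by
    refine ⟨?_, ?_, ⟨⟨t', ht'⟩⟩, ?_⟩
    · rw [Nat.card_congr eG.toEquiv]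
      exact Nat.Coprime.coprime_dvd_right hcS hs.cop
    · rw [eq_top_iff]
      rintro ⟨y, hy⟩ -
      have h1 : y ∈ ((G ⊔ S₁ : Subgroup Γ) : Set Γ) := hy
      rw [Subgroup.normal_mul] at h1
      obtain ⟨g, hg, t, ht, rfl⟩ := Set.mem_mul.mp h1
      have h2 : (⟨g * t, hy⟩ : L) = ⟨g, hGL hg⟩ * ⟨t, hS₁L ht⟩ := rfl
      rw [h2]
      exact Subgroup.mul_mem _ (Subgroup.mem_sup_left (Subgroup.mem_subgroupOf.mpr hg))
        (Subgroup.mem_sup_right (Subgroup.mem_subgroupOf.mpr ht))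
    · ext ⟨y, hy⟩
      rw [Subgroup.mem_subgroupOf, Subgroup.mem_inf, Subgroup.mem_subgroupOf]
      constructor
      · intro hyC
        refine ⟨C_le_G hs hyC, ?_⟩
        rw [Subgroup.mem_centralizer_iff]
        rintro ⟨r, hr⟩ hr'
        apply Subtype.ext
        have hr1 : r ∈ S₁ := Subgroup.mem_subgroupOf.mp hr'
        have h1 : y ∈ G ⊓ Subgroup.centralizer (S : Set Γ) := hs.hC ▸ hyC
        exact Subgroup.mem_centralizer_iff.mp h1.2 r (hS₁S hr1)
      · rintro ⟨hyG, hyc⟩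
        rw [← hfix]
        refine ⟨hyG, ?_⟩
        show y ∈ Subgroup.centralizer ({z} : Set Γ)
        rw [Subgroup.mem_centralizer_iff]
        intro r hr
        rw [Set.mem_singleton_iff] at hr
        subst hr
        have h1 := Subgroup.mem_centralizer_iff.mp hyc (t' : L) t'.2
        exact congrArg Subtype.val h1
  -- the character
  let χ₁ : XS G' S' := ⟨⟨(χ.1 : G → ℂ) ∘ eG, isIrrCharacter_comp_of_surjective eG.toMonoidHom
      eG.surjective χ.1.2⟩, by
    intro s hs₁ g g' hg'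
    have hs₂ : ((s : L) : Γ) ∈ S := hS₁S (Subgroup.mem_subgroupOf.mp hs₁)
    have h1 := χ.2 ((s : L) : Γ) hs₂ (eG g) (eG g') (by
      rw [heG, heG]
      have h2 := congrArg Subtype.val hg'
      exact h2)
    exact h1⟩
  let ψ : L → ℂ := (canon hs χ : Γ → ℂ) ∘ L.subtype
  have hψc : IsCharacter L ψ := isCharacter_comp _ (IsIrrCharacter.isCharacter (canon hs χ).2)
  have hres : ψ ∘ G'.subtype = (χ₁.1 : G' → ℂ) := by
    funext g
    have h1 := canon_apply hs χ (eG g)
    exact h1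
  have hψ : IsIrrCharacter L ψ := isIrr_of_comp G'.subtype hψc (by rw [hres]; exact χ₁.1.2)
  have hd : (detOrder ψ).Coprime (Nat.card S') := by
    obtain ⟨m, hm, hm1⟩ := (detOrder_coprime_iff (Γ := Γ) _).mp (canon_det hs χ)
    rw [detOrder_coprime_iff (Γ := L)]
    refine ⟨m, Nat.Coprime.coprime_dvd_right hcS hm, fun g => ?_⟩
    rw [show ψ = (canon hs χ : Γ → ℂ) ∘ L.subtype from rfl,
      detChar_comp L.subtype (IsIrrCharacter.isCharacter (canon hs χ).2)]
    exact hm1 _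
  have hcanon := eq_canon hs' χ₁ hψ hres hd
  obtain ⟨β₁, ε, hε, hval⟩ := exists_val hs' χ₁
  refine ⟨⟨(β₁ : C' → ℂ) ∘ eC.symm, isIrrCharacter_comp_of_surjective eC.symm.toMonoidHom
    eC.symm.surjective β₁.2⟩, ε, hε, fun c => ?_⟩
  have h1 := (hval t' ht').1 (eC.symm c)
  rw [← hcanon] at h1
  have h2 : ((eC.symm c : C') : L).1 = (c : Γ) := by
    have := congrArg Subtype.val (eC.apply_symm_apply c)
    exact this
  have h3 : ψ (((eC.symm c : C') : L) * (t' : L)) = (canon hs χ : Γ → ℂ) ((c : Γ) * x) := by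
    show (canon hs χ : Γ → ℂ) (((eC.symm c : C') : L).1 * z) = _
    rw [h2]
  rw [← h3]
  exact h1

end Sub

section Comb

/-- The case of an extremal variance. -/
theorem var_two {L : Type*} [Fintype L] (n : ℕ) (hn : 2 ≤ n) (hc : Fintype.card L = n) (m : L → ℕ)
    (hD : (n : ℤ) * ∑ l, (m l : ℤ) ^ 2 - (∑ l, (m l : ℤ)) ^ 2 = n - 1) :
    ∃ (q : ℕ) (ε : ℤ) (l₀ : L), (ε = 1 ∨ ε = -1) ∧
      ∀ l, (m l : ℤ) = q + if l = l₀ then ε else 0 := by
  set M : ℤ := ∑ l, (m l : ℤ) with hM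
  have hM0 : 0 ≤ M := Finset.sum_nonneg fun l _ => by positivity
  have hp0 : (0 : ℤ) < n := by exact_mod_cast (by omega : 0 < n)
  have hn2 : (2 : ℤ) ≤ n := by exact_mod_cast hn
  set q : ℤ := M / n with hq
  set r : ℤ := M % n with hr
  have hr0 : 0 ≤ r := Int.emod_nonneg _ hp0.ne'
  have hr1 : r < n := Int.emod_lt_of_pos _ hp0
  have hMeq : M = n * q + r := (Int.mul_ediv_add_emod M n).symm
  have hq0 : 0 ≤ q := Int.ediv_nonneg hM0 hp0.le
  let e : L → ℤ := fun l => (m l : ℤ) - q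
  have he : ∑ l, e l = r := by
    simp only [e, Finset.sum_sub_distrib, Finset.sum_const, Finset.card_univ, hc, nsmul_eq_mul]
    rw [← hM, hMeq]
    ring
  have hsq : ∑ l, (m l : ℤ) ^ 2 = n * q ^ 2 + 2 * q * r + ∑ l, e l ^ 2 := by
    have h1 : ∀ l, (m l : ℤ) ^ 2 = q ^ 2 + 2 * q * e l + e l ^ 2 := fun l => by
      simp only [e]; ring
    simp only [h1, Finset.sum_add_distrib, Finset.sum_const, Finset.card_univ, hc, nsmul_eq_mul,
      ← Finset.mul_sum, he]
  set A : ℤ := ∑ l, e l ^ 2 with hA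
  have hA0 : 0 ≤ A := Finset.sum_nonneg fun l _ => sq_nonneg _
  have hD' : (n : ℤ) * A - r ^ 2 = n - 1 := by
    rw [← hD, hsq, hMeq]
    ring
  have hrA : r ≤ A := by
    rw [← he]
    apply Finset.sum_le_sum
    intro l _
    exact Int.le_self_sq (e l)
  have hr00 : r ≠ 0 := by
    intro h
    rw [h] at hD'
    have h1 : A ≤ 0 ∨ 1 ≤ A := by omega
    rcases h1 with h1 | h1
    · have : A = 0 := by omega
      rw [this] at hD'
      omega
    · nlinarith
  have hr2 : 1 ≤ r := by omega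
  have hr3 : r ≤ n - 1 := by omega
  have h4 : (r - 1) * ((n : ℤ) - 1 - r) ≥ 0 := mul_nonneg (by omega) (by omega)
  have h5 : A = r := by
    have h6 : (n : ℤ) * (A - r) ≤ 0 := by nlinarith
    have h7 : A - r ≤ 0 := by
      by_contra h8
      have h9 : 0 < A - r := by omega
      have := mul_pos hp0 h9
      omega
    omega
  have h8 : (r - 1) * ((n : ℤ) - 1 - r) = 0 := by
    rw [h5] at hD'
    nlinarith
  rcases mul_eq_zero.mp h8 with h9 | h9
  · -- `r = 1`
    have hr4 : r = 1 := by omega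
    have hA1 : ∑ l, e l ^ 2 = 1 := by rw [← hA, h5, hr4]
    obtain ⟨l₀, h10, h11⟩ := exists_of_sum_sq e hA1
    have h12 : e l₀ = 1 := by
      have h13 : ∑ l, e l = e l₀ := Finset.sum_eq_single l₀ (fun l _ hl => h11 l hl)
        (fun h => absurd (Finset.mem_univ _) h)
      rw [he, hr4] at h13
      exact h13.symm
    refine ⟨q.toNat, 1, l₀, Or.inl rfl, fun l => ?_⟩
    rw [Int.toNat_of_nonneg hq0]
    split_ifs with h14
    · rw [h14]
      simp only [e] at h12
      omega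
    · have := h11 l h14
      simp only [e] at this
      omega
  · -- `r = n - 1`
    have hr4 : r = n - 1 := by omega
    let z : L → ℤ := fun l => 1 - e l
    have hz : ∑ l, z l = 1 := by
      simp only [z, Finset.sum_sub_distrib, Finset.sum_const, Finset.card_univ, hc, nsmul_eq_mul, he]
      rw [hr4]
      simp
    have hz2 : ∑ l, z l ^ 2 = 1 := by
      have h10 : ∀ l, z l ^ 2 = 1 - 2 * e l + e l ^ 2 := fun l => by
        simp only [z]; ring
      simp only [h10, Finset.sum_add_distrib, Finset.sum_sub_distrib, Finset.sum_const,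
        Finset.card_univ, hc, nsmul_eq_mul, ← Finset.mul_sum, he]
      rw [← hA, h5, hr4]
      simp
      ring
    obtain ⟨l₀, h10, h11⟩ := exists_of_sum_sq z hz2
    have h12 : z l₀ = 1 := by
      have h13 : ∑ l, z l = z l₀ := Finset.sum_eq_single l₀ (fun l _ hl => h11 l hl)
        (fun h => absurd (Finset.mem_univ _) h)
      rw [hz] at h13
      exact h13.symm
    refine ⟨(q + 1).toNat, -1, l₀, Or.inr rfl, fun l => ?_⟩
    rw [Int.toNat_of_nonneg (by omega)]
    split_ifs with h14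
    · rw [h14]
      simp only [z, e] at h12
      omega
    · have := h11 l h14
      simp only [z, e] at this
      omega

/-- A family of variances with sum `n - 1`. -/
theorem var_sum {J L : Type*} [Fintype J] [Fintype L] (n : ℕ) (hn : 2 ≤ n)
    (hc : Fintype.card L = n) (m : J → L → ℕ)
    (h : ∑ j, ((n : ℤ) * ∑ l, (m j l : ℤ) ^ 2 - (∑ l, (m j l : ℤ)) ^ 2) = n - 1) :
    ∃ j₀, ((n : ℤ) * ∑ l, (m j₀ l : ℤ) ^ 2 - (∑ l, (m j₀ l : ℤ)) ^ 2 = n - 1) ∧
      ∀ j, j ≠ j₀ → ∃ b : ℕ, ∀ l, m j l = b := by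
  set D : J → ℤ := fun j => (n : ℤ) * ∑ l, (m j l : ℤ) ^ 2 - (∑ l, (m j l : ℤ)) ^ 2 with hD
  have hvar : ∀ j, (D j = 0 ∧ ∃ a : ℕ, ∀ l, m j l = a) ∨ (n : ℤ) - 1 ≤ D j := fun j =>
    var_lemma n hn hc (m j)
  have hnz : (2 : ℤ) ≤ n := by exact_mod_cast hn
  have hnn : ∀ j, 0 ≤ D j := by
    intro j
    rcases hvar j with h | h
    · rw [h.1]
    · linarith
  obtain ⟨j₀, hj₀⟩ : ∃ j₀, D j₀ ≠ 0 := by
    by_contra H
    push Not at H
    rw [Finset.sum_eq_zero fun j _ => H j] at h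
    linarith
  have h8 : (n : ℤ) - 1 ≤ D j₀ := by
    rcases hvar j₀ with h | h
    · exact absurd h.1 hj₀
    · exact h
  have h9 : D j₀ + ∑ j ∈ Finset.univ.erase j₀, D j = ∑ j, D j :=
    Finset.add_sum_erase Finset.univ D (Finset.mem_univ j₀)
  rw [h] at h9
  have h10 : 0 ≤ ∑ j ∈ Finset.univ.erase j₀, D j := Finset.sum_nonneg fun j _ => hnn j
  have h11 : D j₀ = (n : ℤ) - 1 := by linarith
  have h12 : ∑ j ∈ Finset.univ.erase j₀, D j = 0 := by linarith
  have h13 : ∀ j, j ≠ j₀ → D j = 0 := by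
    intro j hj
    exact (Finset.sum_eq_zero_iff_of_nonneg fun j _ => hnn j).mp h12 j
      (Finset.mem_erase.mpr ⟨hj, Finset.mem_univ _⟩)
  refine ⟨j₀, h11, fun j hj => ?_⟩
  rcases hvar j with h14 | h14
  · exact h14.2
  · rw [h13 j hj] at h14
    linarith

end Comb

section Main

variable {Γ : Type u} [Group Γ] [Fintype Γ] {G S C : Subgroup Γ} [Fintype G] [Fintype S]
  [Fintype C] [hN : G.Normal] (hs : Setup G S C)

/-- Parseval on `S`. -/
theorem sum_norm_FF (χ : XS G S) (β : IrrCharacter C) (n : IrrCharacter S → ℕ)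
    (hn : ∀ l : IrrCharacter S, mult hs χ (β : C → ℂ) (l : S → ℂ) = n l) :
    ∑ t, FF hs χ t β * conj (FF hs χ t β) = (Nat.card S : ℂ) * ∑ l, (n l : ℂ) ^ 2 := by
  have hS : (Nat.card S : ℂ) ≠ 0 := by exact_mod_cast Nat.card_pos.ne'
  have h1 : ∀ t, FF hs χ t β = ∑ l : IrrCharacter S, (n l : ℂ) * (l : S → ℂ) t := by
    intro t
    rw [Cfsg.Agent.Lib.GlaubCycVal.FF_eq_sum]
    simp only [hn]
  have h2 : ∀ l μ : IrrCharacter S, ∑ t, (l : S → ℂ) t * conj ((μ : S → ℂ) t) =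
      (Nat.card S : ℂ) * if l = μ then 1 else 0 := by
    intro l μ
    have h3 : classInner (l : S → ℂ) (μ : S → ℂ) = if l = μ then 1 else 0 := by
      by_cases h : l = μ
      · subst h
        rw [if_pos rfl, classInner_irr_self l.2]
      · rw [if_neg h, classInner_irr_ne l.2 μ.2 (fun h' => h (Subtype.ext h'))]
    rw [← h3]
    unfold classInner
    field_simp
  simp only [h1, map_sum, map_mul, Complex.conj_natCast]
  have h4 : ∀ t, (∑ l : IrrCharacter S, (n l : ℂ) * (l : S → ℂ) t) *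
      (∑ μ : IrrCharacter S, (n μ : ℂ) * conj ((μ : S → ℂ) t)) =
      ∑ l : IrrCharacter S, ∑ μ : IrrCharacter S,
        (n l : ℂ) * (n μ : ℂ) * ((l : S → ℂ) t * conj ((μ : S → ℂ) t)) := by
    intro t
    rw [Finset.sum_mul_sum]
    refine Finset.sum_congr rfl fun l _ => Finset.sum_congr rfl fun μ _ => ?_
    ring
  simp only [h4]
  rw [Finset.sum_comm, Finset.mul_sum]
  refine Finset.sum_congr rfl fun l _ => ?_
  rw [Finset.sum_comm, Finset.sum_eq_single l]
  · rw [← Finset.mul_sum, h2, if_pos rfl]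
    ring
  · intro μ _ hμ
    rw [← Finset.mul_sum, h2, if_neg (Ne.symm hμ)]
    ring
  · intro h
    exact absurd (Finset.mem_univ _) h

/-- The row norm on a coset, when the values are known. -/
theorem sum_FF_of_val (χ : XS G S) (t : S) {β : IrrCharacter C} {ε : ℤ} (hε : ε = 1 ∨ ε = -1)
    (hv : ∀ c : C, (canon hs χ : Γ → ℂ) ((c : Γ) * t) = (ε : ℂ) * (β : C → ℂ) c) :
    ∑ γ : IrrCharacter C, FF hs χ t γ * conj (FF hs χ t γ) = 1 := by
  rw [Finset.sum_eq_single β]
  · rw [FF_of_val_self hs χ t hv]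
    rcases hε with rfl | rfl <;> simp
  · intro γ _ hγ
    rw [FF_of_val_ne hs χ t hv hγ]
    simp
  · intro h
    exact absurd (Finset.mem_univ _) h

/-- The main theorem: all elements of `S` other than `1` have the same fixed points. -/
theorem main_fpf (hfpf : ∀ x : S, x ≠ 1 →
      G ⊓ Subgroup.centralizer ({(x : Γ)} : Set Γ) = C) (hn : 2 ≤ Nat.card S) (χ : XS G S) :
    ∃ (β₀ : IrrCharacter C) (q : ℕ) (ε : ℤ) (l₀ : IrrCharacter S) (b : IrrCharacter C → ℕ),
      (ε = 1 ∨ ε = -1) ∧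
      (∀ x : S, x ≠ 1 → ∀ c : C, (canon hs χ : Γ → ℂ) ((c : Γ) * x) =
        (ε : ℂ) * (l₀ : S → ℂ) x * (β₀ : C → ℂ) c) ∧
      (∀ γ : IrrCharacter C, γ ≠ β₀ →
        classInner (fun c : C => (χ.1 : G → ℂ) ⟨c, C_le_G hs c.2⟩) (γ : C → ℂ) =
          (Nat.card S : ℂ) * b γ) ∧
      classInner (fun c : C => (χ.1 : G → ℂ) ⟨c, C_le_G hs c.2⟩) (β₀ : C → ℂ) =
        (Nat.card S : ℂ) * q + ε := by
  have hcomm := S_comm hs
  have hcL : Fintype.card (IrrCharacter S) = Nat.card S := by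
    rw [Fintype.card_eq_nat_card, card_dual hcomm]
  have hmn : ∀ (β : IrrCharacter C) (l : IrrCharacter S), ∃ n : ℕ,
      mult hs χ (β : C → ℂ) (l : S → ℂ) = n := fun β l => mult_nat hs χ β l
  choose n hnm using hmn
  have h1 : ∀ (β : IrrCharacter C) (t : S),
      FF hs χ t β = ∑ l : IrrCharacter S, (n β l : ℂ) * (l : S → ℂ) t := by
    intro β t
    rw [Cfsg.Agent.Lib.GlaubCycVal.FF_eq_sum]
    simp only [hnm]
  have h2 : ∀ β : IrrCharacter C, FF hs χ 1 β = ∑ l : IrrCharacter S, (n β l : ℂ) := by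
    intro β
    rw [h1]
    simp only [dual_one hcomm, mul_one]
  have h3 : ∀ β : IrrCharacter C, ∑ t, FF hs χ t β * conj (FF hs χ t β) =
      (Nat.card S : ℂ) * ∑ l, (n β l : ℂ) ^ 2 := fun β => sum_norm_FF hs χ β (n β) (hnm β)
  have h4 : ∀ t : S, t ≠ 1 → ∑ β : IrrCharacter C, FF hs χ t β * conj (FF hs χ t β) = 1 := by
    intro t ht
    obtain ⟨β, ε, hε, hv⟩ := val_of_sub hs t (hfpf t ht) χ
    exact sum_FF_of_val hs χ t hε hv
  have h5 : ∑ β : IrrCharacter C, ((Nat.card S : ℂ) * ∑ l, (n β l : ℂ) ^ 2 -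
      (∑ l, (n β l : ℂ)) ^ 2) = (Nat.card S : ℂ) - 1 := by
    have h6 : ∀ β : IrrCharacter C, (Nat.card S : ℂ) * ∑ l, (n β l : ℂ) ^ 2 -
        (∑ l, (n β l : ℂ)) ^ 2 = ∑ t ∈ Finset.univ.erase (1 : S),
          FF hs χ t β * conj (FF hs χ t β) := by
      intro β
      rw [← h3, ← Finset.add_sum_erase _ _ (Finset.mem_univ (1 : S)), h2, map_sum]
      simp only [Complex.conj_natCast]
      ring
    simp only [h6]
    rw [Finset.sum_comm]
    rw [Finset.sum_congr rfl (fun t ht => h4 t (Finset.ne_of_mem_erase ht))]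
    rw [Finset.sum_const, Finset.card_erase_of_mem (Finset.mem_univ _), Finset.card_univ,
      Fintype.card_eq_nat_card]
    rw [nsmul_eq_mul, mul_one, Nat.cast_sub (by omega)]
    simp
  have h7 : ∑ β, ((Nat.card S : ℤ) * ∑ l, (n β l : ℤ) ^ 2 - (∑ l, (n β l : ℤ)) ^ 2) =
      (Nat.card S : ℤ) - 1 := by
    have : ((∑ β, ((Nat.card S : ℤ) * ∑ l, (n β l : ℤ) ^ 2 - (∑ l, (n β l : ℤ)) ^ 2) : ℤ) : ℂ) =
        (((Nat.card S : ℤ) - 1 : ℤ) : ℂ) := by
      push_cast
      exact h5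
    exact_mod_cast this
  obtain ⟨β₀, hβ₀, hother⟩ := var_sum (Nat.card S) hn hcL n h7
  obtain ⟨q, ε, l₀, hε, hl₀⟩ := var_two (Nat.card S) hn hcL (n β₀) hβ₀
  have hl₀' : ∀ l, (n β₀ l : ℂ) = q + if l = l₀ then (ε : ℂ) else 0 := by
    intro l
    have h9 := hl₀ l
    split_ifs at h9 ⊢
    · exact_mod_cast h9
    · simpa using (by exact_mod_cast h9 : (n β₀ l : ℂ) = ((q + 0 : ℕ) : ℂ))
  choose! b hb using hother
  have hF0 : ∀ x : S, x ≠ 1 → ∀ γ : IrrCharacter C, γ ≠ β₀ → FF hs χ x γ = 0 := by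
    intro x hx γ hγ
    rw [h1]
    simp only [hb γ hγ]
    rw [← Finset.mul_sum, sum_dual_one hcomm, if_neg hx, mul_zero]
  have hF1 : ∀ x : S, x ≠ 1 → FF hs χ x β₀ = (ε : ℂ) * (l₀ : S → ℂ) x := by
    intro x hx
    rw [h1]
    simp only [hl₀', add_mul, Finset.sum_add_distrib]
    rw [← Finset.mul_sum, sum_dual_one hcomm, if_neg hx, mul_zero, zero_add,
      Finset.sum_eq_single l₀]
    · simp
    · intro l _ hl
      simp [hl]
    · intro h
      exact absurd (Finset.mem_univ _) h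
  refine ⟨β₀, q, ε, l₀, b, hε, ?_, ?_, ?_⟩
  · intro x hx c
    have h8 := EE_eq_sum hs χ x c
    rw [EE_apply] at h8
    rw [h8, Finset.sum_eq_single β₀]
    · rw [hF1 x hx]
    · intro γ _ hγ
      rw [hF0 x hx γ hγ, zero_mul]
    · intro h
      exact absurd (Finset.mem_univ _) h
  · intro γ hγ
    rw [← FF_one hs χ, h2]
    simp only [hb γ hγ, Finset.sum_const, Finset.card_univ, Fintype.card_eq_nat_card,
      card_dual hcomm, nsmul_eq_mul]
  · rw [← FF_one hs χ, h2]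
    simp only [hl₀', Finset.sum_add_distrib, Finset.sum_const, Finset.card_univ,
      Fintype.card_eq_nat_card, card_dual hcomm, nsmul_eq_mul]
    simp

end Main

end Cfsg.Agent.Lib.GlaubCycSub
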