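import Mathlib
import Cfsg.Agent.Lib.GlaubFix
import Cfsg.Agent.Lib.GlaubAbove
import Cfsg.Agent.Lib.DegreeDiv
import Cfsg.Agent.Lib.DetChar

/-!
# Invariant constituents above, abelian sections

Multiplication by linear characters acts on the irreducible characters. For `G / N` abelian and
`θ` a `G`-invariant character of `N`, invariant under a group of operators of coprime order,
there is an invariant irreducible character of `G` over `θ`.
-/

set_option autoImplicit false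
set_option linter.style.haveILetI false
set_option linter.unusedVariables false
set_option linter.unusedSectionVars false

namespace Cfsg.Agent.Lib.GlaubFixBase

open Cfsg Cfsg.Agent.Lib.CharBasic Cfsg.Agent.Lib.CharInd Cfsg.Agent.Lib.GlaubDual
open Cfsg.Agent.Lib.Clifford Cfsg.Agent.Lib.CharKernel Cfsg.Agent.Lib.GlaubFix
open Cfsg.Agent.Lib.CharInduction Cfsg.Agent.Lib.CharClifford Cfsg.Agent.Lib.GlaubAbove
open scoped ComplexConjugate Classical

universe u

section Tw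

variable {G : Type u} [Group G] [Finite G]

/-- Multiplying by a linear character permutes the irreducible characters. -/
noncomputable def twPerm : (G →* ℂˣ) →* Equiv.Perm (IrrCharacter G) where
  toFun β :=
    { toFun := fun χ => ⟨(fun g => ((β g : ℂˣ) : ℂ)) * (χ : G → ℂ),
        Cfsg.Agent.Lib.DetChar.isIrr_mul_hom β χ.2⟩
      invFun := fun χ => ⟨(fun g => ((β⁻¹ g : ℂˣ) : ℂ)) * (χ : G → ℂ),
        Cfsg.Agent.Lib.DetChar.isIrr_mul_hom β⁻¹ χ.2⟩
      left_inv := fun χ => by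
        apply Subtype.ext
        funext g
        simp [Pi.mul_apply]
      right_inv := fun χ => by
        apply Subtype.ext
        funext g
        simp [Pi.mul_apply] }
  map_one' := by
    ext χ : 1
    apply Subtype.ext
    funext g
    simp [Pi.mul_apply]
  map_mul' β γ := by
    ext χ : 1
    apply Subtype.ext
    funext g
    simp [Pi.mul_apply, mul_assoc]

theorem twPerm_apply (β : G →* ℂˣ) (χ : IrrCharacter G) (g : G) :
    (twPerm β χ : G → ℂ) g = ((β g : ℂˣ) : ℂ) * (χ : G → ℂ) g := rfl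

end Tw

section Base

variable {G : Type u} [Group G] [Fintype G] (N : Subgroup G) [hN : N.Normal] [Fintype N]

/-- The linear characters with `N` in the kernel. -/
def linOver : Subgroup (G →* ℂˣ) where
  carrier := {β | ∀ n ∈ N, β n = 1}
  mul_mem' := fun {a b} ha hb n hn => by simp [ha n hn, hb n hn]
  one_mem' := fun n hn => rfl
  inv_mem' := fun {a} ha n hn => by simp [ha n hn]

omit [Fintype N] in
theorem card_linOver (hab : ∀ x y : G, x * y * x⁻¹ * y⁻¹ ∈ N) :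
    Finite (linOver N) ∧ Nat.card (linOver N) = N.index := by
  letI : Fintype (G ⧸ N) := Fintype.ofFinite _
  have hcQ : ∀ x y : G ⧸ N, x * y = y * x := by
    intro x y
    obtain ⟨x, rfl⟩ := QuotientGroup.mk_surjective x
    obtain ⟨y, rfl⟩ := QuotientGroup.mk_surjective y
    have h1 : ((x * y * x⁻¹ * y⁻¹ : G) : G ⧸ N) = 1 := (QuotientGroup.eq_one_iff _).mpr (hab x y)
    have h2 : (x : G ⧸ N) * y * (x : G ⧸ N)⁻¹ * (y : G ⧸ N)⁻¹ = 1 := h1
    rw [mul_inv_eq_one, mul_inv_eq_iff_eq_mul] at h2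
    exact h2
  let f : linOver N → IrrCharacter (G ⧸ N) := fun β =>
    ⟨fun q => ((QuotientGroup.lift N β.1 (fun n hn => β.2 n hn) q : ℂˣ) : ℂ),
      isIrrCharacter_of_hom _⟩
  have hf : Function.Bijective f := by
    constructor
    · intro β γ h
      apply Subtype.ext
      ext g
      have h1 := congrFun (congrArg Subtype.val h) (g : G ⧸ N)
      exact h1
    · intro l
      obtain ⟨f₀, hf₀⟩ := exists_dual_hom hcQ l
      refine ⟨⟨f₀.comp (QuotientGroup.mk' N), fun n hn => ?_⟩, ?_⟩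
      · have : (QuotientGroup.mk' N) n = 1 := (QuotientGroup.eq_one_iff n).mpr hn
        show f₀ (QuotientGroup.mk' N n) = 1
        rw [this, map_one]
      · apply Subtype.ext
        funext q
        obtain ⟨g, rfl⟩ := QuotientGroup.mk_surjective q
        rw [hf₀]
        rfl
  refine ⟨Finite.of_injective f hf.1, ?_⟩
  rw [Nat.card_congr (Equiv.ofBijective f hf), card_dual hcQ]
  rfl

/-- **Base case**. -/
theorem base_case {S : Type u} [Group S] [Finite S] (a : S →* MulAut G) (S₀ : Subgroup S)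
    (hNa : ∀ s, ∀ x ∈ N, a s x ∈ N) (h₀ : ∀ s ∈ S₀, ∃ n ∈ N, ∀ g, a s g = n * g * n⁻¹)
    (hcop : N.index.Coprime S₀.index) (hab : ∀ x y : G, x * y * x⁻¹ * y⁻¹ ∈ N)
    (θ : IrrCharacter N)
    (hθ : ∀ s (x : N), (θ : N → ℂ) ⟨a s x, hNa s x x.2⟩ = (θ : N → ℂ) x)
    (hθG : ∀ (g : G) (n : N), (θ : N → ℂ) ⟨g * n * g⁻¹, hN.conj_mem (n : G) n.2 g⟩ = (θ : N → ℂ) n) :
    ∃ χ : IrrCharacter G, classInner (fun n : N => (χ : G → ℂ) n) (θ : N → ℂ) ≠ 0 ∧
      ∀ s g, (χ : G → ℂ) (a s g) = (χ : G → ℂ) g := by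
  letI : Fintype (G ⧸ N) := Fintype.ofFinite _
  have hcQ : ∀ x y : G ⧸ N, x * y = y * x := by
    intro x y
    obtain ⟨x, rfl⟩ := QuotientGroup.mk_surjective x
    obtain ⟨y, rfl⟩ := QuotientGroup.mk_surjective y
    have h1 : ((x * y * x⁻¹ * y⁻¹ : G) : G ⧸ N) = 1 := (QuotientGroup.eq_one_iff _).mpr (hab x y)
    have h2 : (x : G ⧸ N) * y * (x : G ⧸ N)⁻¹ * (y : G ⧸ N)⁻¹ = 1 := h1
    rw [mul_inv_eq_one, mul_inv_eq_iff_eq_mul] at h2
    exact h2
  obtain ⟨hfinD, hcardD⟩ := card_linOver N hab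
  let κ : G →* G ⧸ N := QuotientGroup.mk' N
  let j : N →* G := N.subtype
  have hj : Function.Injective j := N.subtype_injective
  have hker : ∀ x, κ x = 1 ↔ ∃ g, j g = x := by
    intro x
    rw [show κ x = (x : G ⧸ N) from rfl, QuotientGroup.eq_one_iff]
    constructor
    · intro h
      exact ⟨⟨x, h⟩, rfl⟩
    · rintro ⟨g, rfl⟩
      exact g.2
  have hsurj : Function.Surjective κ := QuotientGroup.mk'_surjective N
  let φD : linOver N →* Equiv.Perm (IrrCharacter G) := twPerm.comp (linOver N).subtype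
  let φS : S →* Equiv.Perm (IrrCharacter G) := actAut.comp a
  let A := φD.range
  let P := φS.range
  let f : IrrCharacter G → N → ℂ := fun χ n => (χ : G → ℂ) n
  have hcA : Nat.card A ∣ N.index := by
    have h1 : φD.ker.index = Nat.card φD.range := Subgroup.index_ker φD
    show Nat.card φD.range ∣ _
    rw [← h1, ← hcardD]
    exact Subgroup.index_dvd_card _
  have hcP : Nat.card P ∣ S₀.index := by
    have h1 : φS.ker.index = Nat.card φS.range := Subgroup.index_ker φS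
    show Nat.card φS.range ∣ _
    rw [← h1]
    apply Subgroup.index_dvd_of_le
    intro s hs
    rw [MonoidHom.mem_ker]
    ext χ : 1
    apply Subtype.ext
    funext g
    obtain ⟨n, hn, hn'⟩ := h₀ s hs
    show (χ : G → ℂ) ((a s)⁻¹ g) = (χ : G → ℂ) g
    have h2 : g = n * ((a s)⁻¹ g) * n⁻¹ := by
      rw [← hn']
      simp
    conv_rhs => rw [h2]
    exact (isClassFunction_of_isCharacter (IsIrrCharacter.isCharacter χ.2) _ _).symm
  have hcop' : (Nat.card A).Coprime (Nat.card P) :=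
    Nat.Coprime.coprime_dvd_left hcA (Nat.Coprime.coprime_dvd_right hcP hcop)
  have hs' : Group.IsSolvable A ∨ Group.IsSolvable P := by
    left
    refine Group.isSolvable_of_comm ?_
    rintro ⟨_, x, rfl⟩ ⟨_, y, rfl⟩
    apply Subtype.ext
    show φD x * φD y = φD y * φD x
    rw [← map_mul, ← map_mul, mul_comm]
  have hPA : ∀ p ∈ P, ∀ b ∈ A, p * b * p⁻¹ ∈ A := by
    rintro _ ⟨s, rfl⟩ _ ⟨β, rfl⟩
    refine ⟨⟨β.1.comp (a s⁻¹).toMonoidHom, fun n hn => ?_⟩, ?_⟩
    · exact β.2 _ (hNa s⁻¹ n hn)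
    · ext χ : 1
      apply Subtype.ext
      funext g
      show (((β.1 (a s⁻¹ g)) : ℂˣ) : ℂ) * (χ : G → ℂ) g =
        ((φS s * φD β * (φS s)⁻¹) χ : G → ℂ) g
      have h2 : (φS s)⁻¹ = φS s⁻¹ := (map_inv φS s).symm
      rw [h2]
      show _ = (φD β (φS s⁻¹ χ) : G → ℂ) ((a s)⁻¹ g)
      show _ = ((β.1 ((a s)⁻¹ g)) : ℂˣ) * (φS s⁻¹ χ : G → ℂ) ((a s)⁻¹ g)
      have h3 : (φS s⁻¹ χ : G → ℂ) ((a s)⁻¹ g) = (χ : G → ℂ) ((a s⁻¹)⁻¹ ((a s)⁻¹ g)) := rfl
      rw [h3, map_inv, inv_inv]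
      simp
  -- the set of constituents
  let St : Subgroup (Equiv.Perm (IrrCharacter G)) :=
    { carrier := {x | ∀ χ, classInner (f (x χ)) (θ : N → ℂ) ≠ 0 ↔ classInner (f χ) (θ : N → ℂ) ≠ 0}
      mul_mem' := fun {x y} hx hy χ => by
        show classInner (f (x (y χ))) _ ≠ 0 ↔ _
        rw [hx, hy]
      one_mem' := fun χ => Iff.rfl
      inv_mem' := fun {x} hx χ => by
        have h0 : x (x⁻¹ χ) = χ := by simp
        have := hx (x⁻¹ χ)
        rw [h0] at this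
        exact this.symm }
  have hASt : A ≤ St := by
    rintro _ ⟨β, rfl⟩ χ
    have h1 : f (φD β χ) = f χ := by
      funext n
      show ((β.1 n : ℂˣ) : ℂ) * (χ : G → ℂ) n = _
      rw [β.2 n n.2]
      simp [f]
    rw [h1]
  have hPSt : P ≤ St := by
    rintro _ ⟨s, rfl⟩ χ
    have h1 : classInner (f (φS s χ)) (θ : N → ℂ) = classInner (f χ) (θ : N → ℂ) := by
      let r : N ≃* N := resN a N hNa s
      have h2 := classInner_comp_mulEquiv r (f (φS s χ)) (θ : N → ℂ)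
      rw [← h2]
      congr 1
      · funext n
        show (χ : G → ℂ) ((a s)⁻¹ (a s n)) = _
        simp [f]
      · funext n
        exact hθ s n
    rw [h1]
  have hSup : A ⊔ P ≤ St := sup_le hASt hPSt
  obtain ⟨χ₀, hχ₀⟩ := exists_irr_over N θ
  obtain ⟨e₀, he₀, hr₀, -⟩ := restrict_eq_smul_of_invariant N θ.2 hθG χ₀.2 hχ₀
  have htr : ∀ x ∈ A ⊔ P, ∃ b ∈ A, x χ₀ = b χ₀ := by
    intro x hx
    have h1 : classInner (f (x χ₀)) (θ : N → ℂ) ≠ 0 := (hSup hx χ₀).mpr hχ₀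
    obtain ⟨e₁, he₁, hr₁, -⟩ := restrict_eq_smul_of_invariant N θ.2 hθG (x χ₀).2 h1
    have h2 : classInner ((x χ₀ : G → ℂ) ∘ j) ((χ₀ : G → ℂ) ∘ j) ≠ 0 := by
      have h3 : (x χ₀ : G → ℂ) ∘ j = (e₁ : ℂ) • (θ : N → ℂ) := hr₁
      have h4 : (χ₀ : G → ℂ) ∘ j = (e₀ : ℂ) • (θ : N → ℂ) := hr₀
      rw [h3, h4, classInner_smul_left, classInner_smul_right, classInner_irr_self θ.2]
      simp [he₀, he₁]
    rw [classInner_restrict_eq_sum κ hcQ j hj hker hsurj] at h2
    obtain ⟨l, -, hl⟩ := Finset.exists_ne_zero_of_sum_ne_zero h2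
    have h3 : (x χ₀ : G → ℂ) = tw κ (χ₀ : G → ℂ) l := by
      by_contra hne
      exact hl (classInner_irr_ne (x χ₀).2 (tw_isIrr κ hcQ χ₀.2 l) hne)
    obtain ⟨f₀, hf₀⟩ := exists_dual_hom hcQ l
    refine ⟨φD ⟨f₀.comp κ, fun n hn => ?_⟩, ⟨_, rfl⟩, ?_⟩
    · show f₀ (κ n) = 1
      rw [(hker n).mpr ⟨⟨n, hn⟩, rfl⟩, map_one]
    · apply Subtype.ext
      rw [h3]
      funext g
      show (χ₀ : G → ℂ) g * (l : G ⧸ N → ℂ) (κ g) = ((f₀ (κ g) : ℂˣ) : ℂ) * (χ₀ : G → ℂ) g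
      rw [hf₀, mul_comm]
  obtain ⟨x, hx, hfix⟩ := exists_fixed_of_perm A P hPA hcop' hs' χ₀ htr
  refine ⟨x χ₀, (hSup hx χ₀).mpr hχ₀, fun s g => ?_⟩
  have h1 := hfix (φS s⁻¹) ⟨s⁻¹, rfl⟩
  have h2 := congrFun (congrArg Subtype.val h1) g
  have h3 : (φS s⁻¹ (x χ₀) : G → ℂ) g = (x χ₀ : G → ℂ) ((a s⁻¹)⁻¹ g) := rfl
  rw [h3, map_inv, inv_inv] at h2
  exact h2

end Base

end Cfsg.Agent.Lib.GlaubFixBase
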