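import Mathlib
import Cfsg.Agent.Lib.GlaubFixBase

/-!
# Invariant constituents above

`θ ∈ Irr(N)` invariant under a group of operators of order prime to `|G : N|`, with `G / N`
solvable: there is an invariant constituent of `θ^G`.
-/

set_option autoImplicit false
set_option linter.style.haveILetI false
set_option linter.unusedVariables false
set_option linter.unusedSectionVars false

namespace Cfsg.Agent.Lib.GlaubFixInd

open Cfsg Cfsg.Agent.Lib.CharBasic Cfsg.Agent.Lib.CharInd Cfsg.Agent.Lib.GlaubDual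
open Cfsg.Agent.Lib.Clifford Cfsg.Agent.Lib.CharKernel Cfsg.Agent.Lib.GlaubFix
open Cfsg.Agent.Lib.CharInduction Cfsg.Agent.Lib.CharClifford Cfsg.Agent.Lib.GlaubAbove
open Cfsg.Agent.Lib.GlaubFixBase
open scoped ComplexConjugate Classical commutatorElement

universe u

section Aux

variable {G : Type u} [Group G] [Fintype G]

/-- Lying over is transitive. -/
theorem over_trans (N M : Subgroup G) (hNM : N ≤ M) [Fintype N] [Fintype M] (χ : IrrCharacter G)
    (ξ : IrrCharacter M) (θ : IrrCharacter N)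
    (h1 : classInner (fun m : M => (χ : G → ℂ) m) (ξ : M → ℂ) ≠ 0)
    (h2 : classInner (fun n : N => (ξ : M → ℂ) ⟨n, hNM n.2⟩) (θ : N → ℂ) ≠ 0) :
    classInner (fun n : N => (χ : G → ℂ) n) (θ : N → ℂ) ≠ 0 := by
  have hχc := IsIrrCharacter.isCharacter χ.2
  have h3 : ∀ η : IrrCharacter M, ∃ k : ℕ, classInner (fun m : M => (χ : G → ℂ) m) (η : M → ℂ) = k :=
    fun η => classInner_char_irr (isCharacter_restrict M hχc) η.2
  have h4 : ∀ η : IrrCharacter M, ∃ k : ℕ,
      classInner (fun n : N => (η : M → ℂ) ⟨n, hNM n.2⟩) (θ : N → ℂ) = k := fun η =>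
    classInner_char_irr (isCharacter_comp (Subgroup.inclusion hNM)
      (IsIrrCharacter.isCharacter η.2)) θ.2
  choose p hp using h3
  choose q hq using h4
  have h5 := classInner_comp_eq_sum (fun m : M => (χ : G → ℂ) m)
    (isClassFunction_of_isCharacter (isCharacter_restrict M hχc)) (Subgroup.inclusion hNM)
    (θ : N → ℂ)
  have h6 : classInner (fun n : N => (χ : G → ℂ) n) (θ : N → ℂ) =
      ((∑ η : IrrCharacter M, p η * q η : ℕ) : ℂ) := by
    have h7 : (fun n : N => (χ : G → ℂ) n) =
        fun c : N => (fun m : M => (χ : G → ℂ) m) (Subgroup.inclusion hNM c) := rfl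
    rw [h7, h5]
    push_cast
    refine Finset.sum_congr rfl fun η _ => ?_
    rw [hp η, ← hq η]
    rfl
  rw [h6]
  have h8 : p ξ ≠ 0 := by
    intro h
    apply h1
    rw [hp, h]
    simp
  have h9 : q ξ ≠ 0 := by
    intro h
    apply h2
    rw [hq, h]
    simp
  have h10 : 0 < ∑ η : IrrCharacter M, p η * q η :=
    Finset.sum_pos' (fun _ _ => Nat.zero_le _)
      ⟨ξ, Finset.mem_univ _, Nat.mul_pos (Nat.pos_of_ne_zero h8) (Nat.pos_of_ne_zero h9)⟩
  exact_mod_cast h10.ne'

/-- Induction is compatible with automorphisms. -/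
theorem indFun_comp_aut (T : Subgroup G) (r : MulAut G) (hT : ∀ x, x ∈ T ↔ r x ∈ T) (ψ : T → ℂ)
    (hψ : ∀ t (ht : t ∈ T), ψ ⟨r t, (hT t).mp ht⟩ = ψ ⟨t, ht⟩) (g : G) :
    indFun T ψ (r g) = indFun T ψ g := by
  rw [indFun_apply, indFun_apply]
  congr 1
  rw [← Equiv.sum_comp r.toEquiv]
  refine Finset.sum_congr rfl fun y _ => ?_
  have h1 : (r y)⁻¹ * r g * r y = r (y⁻¹ * g * y) := by simp
  show extendByZero T ψ ((r y)⁻¹ * r g * r y) = _
  rw [h1]
  by_cases h : y⁻¹ * g * y ∈ T
  · rw [extendByZero_of_mem T ψ ((hT _).mp h), extendByZero_of_mem T ψ h]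
    exact hψ _ h
  · rw [extendByZero_of_not_mem T ψ (fun h' => h ((hT _).mpr h')), extendByZero_of_not_mem T ψ h]

/-- `H / (N ∩ H)` embeds into `G / N`. -/
theorem solvable_sub (N H : Subgroup G) [N.Normal] (hs : Group.IsSolvable (G ⧸ N)) :
    Group.IsSolvable (H ⧸ N.subgroupOf H) := by
  let f : H ⧸ N.subgroupOf H →* G ⧸ N :=
    QuotientGroup.map (N.subgroupOf H) N H.subtype (fun x hx => hx)
  refine Group.isSolvable_of_isSolvable_injective (f := f) ?_
  rw [injective_iff_map_eq_one]
  intro q hq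
  obtain ⟨x, rfl⟩ := QuotientGroup.mk_surjective q
  have h1 : ((x : G) : G ⧸ N) = 1 := hq
  rw [QuotientGroup.eq_one_iff] at h1
  exact (QuotientGroup.eq_one_iff _).mpr (Subgroup.mem_subgroupOf.mpr h1)

/-- `G / M` is a quotient of `G / N`. -/
theorem solvable_quot (N M : Subgroup G) [N.Normal] [M.Normal] (hNM : N ≤ M)
    (hs : Group.IsSolvable (G ⧸ N)) : Group.IsSolvable (G ⧸ M) := by
  let f : G ⧸ N →* G ⧸ M := QuotientGroup.map N M (MonoidHom.id G) hNM
  refine Group.isSolvable_of_surjective (f := f) ?_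
  intro q
  obtain ⟨x, rfl⟩ := QuotientGroup.mk_surjective q
  exact ⟨(x : G ⧸ N), rfl⟩

/-- A perfect solvable section is trivial. -/
theorem sup_commutator_ne_top (N : Subgroup G) [N.Normal] (hs : Group.IsSolvable (G ⧸ N))
    (hM : N ⊔ commutator G ≠ N) : N ⊔ commutator G ≠ ⊤ := by
  intro htop
  have hN : N ≠ ⊤ := by
    intro h
    rw [h] at hM
    simp at hM
  have hnt : Nontrivial (G ⧸ N) := QuotientGroup.nontrivial_iff.mpr hN
  have h1 := Group.IsSolvable.commutator_lt_top_of_nontrivial (G ⧸ N)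
  have h2 : (commutator G).map (QuotientGroup.mk' N) = ⊤ := by
    have h3 := congrArg (Subgroup.map (QuotientGroup.mk' N)) htop
    rw [Subgroup.map_sup, QuotientGroup.map_mk'_self, bot_sup_eq,
      Subgroup.map_top_of_surjective _ (QuotientGroup.mk'_surjective N)] at h3
    exact h3
  have h4 : commutator (G ⧸ N) = ⊤ := by
    have h5 : commutator (G ⧸ N) = ⁅(⊤ : Subgroup (G ⧸ N)), ⊤⁆ := rfl
    have h6 := Subgroup.map_top_of_surjective _ (QuotientGroup.mk'_surjective N)
    rw [h5, ← h6, ← Subgroup.map_commutator, h6]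
    exact h2
  rw [h4] at h1
  exact lt_irrefl _ h1

end Aux

/-- **Invariant constituents above.** -/
theorem exists_inv_above {S : Type u} [Group S] [Finite S] (S₀ : Subgroup S) (n : ℕ) :
    ∀ (G : Type u) [Group G] [Fintype G] (N : Subgroup G) [hN : N.Normal] [Fintype N]
      (a : S →* MulAut G) (hNa : ∀ s, ∀ x ∈ N, a s x ∈ N)
      (h₀ : ∀ s ∈ S₀, ∃ n ∈ N, ∀ g, a s g = n * g * n⁻¹)
      (hcop : N.index.Coprime S₀.index) (hsolv : Group.IsSolvable (G ⧸ N)) (hn : N.index = n)
      (θ : IrrCharacter N)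
      (hθ : ∀ s (x : N), (θ : N → ℂ) ⟨a s x, hNa s x x.2⟩ = (θ : N → ℂ) x),
      ∃ χ : IrrCharacter G, classInner (fun n : N => (χ : G → ℂ) n) (θ : N → ℂ) ≠ 0 ∧
        ∀ s g, (χ : G → ℂ) (a s g) = (χ : G → ℂ) g := by
  induction n using Nat.strong_induction_on with
  | _ n ih =>
    intro G _ _ N hN _ a hNa h₀ hcop hsolv hn θ hθ
    have hn0 : 0 < n := by
      rw [← hn]
      exact Nat.pos_of_ne_zero Subgroup.index_ne_zero_of_finite
    -- passing to a stable subgroup containing `N`
    have hsub : ∀ (H : Subgroup G) (hNH : N ≤ H) (hH : ∀ s, ∀ x ∈ H, a s x ∈ H),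
        H ≠ ⊤ → ∃ (_ : Fintype H) (ψ : IrrCharacter H),
          classInner (fun m : N => (ψ : H → ℂ) ⟨m, hNH m.2⟩) (θ : N → ℂ) ≠ 0 ∧
          ∀ s (g : H), (ψ : H → ℂ) ⟨a s g, hH s g g.2⟩ = (ψ : H → ℂ) g := by
      intro H hNH hH hne
      letI : Fintype H := Fintype.ofFinite _
      let N₁ : Subgroup H := N.subgroupOf H
      letI : Fintype N₁ := Fintype.ofFinite _
      have hidx : N₁.index * H.index = n := by
        rw [← hn]
        exact Subgroup.relIndex_mul_index hNH
      have hH1 : 1 < H.index := by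
        have h1 : H.index ≠ 0 := Subgroup.index_ne_zero_of_finite
        have h2 : H.index ≠ 1 := fun h => hne (Subgroup.index_eq_one.mp h)
        omega
      have hlt : N₁.index < n := by
        rw [← hidx]
        have h1 : 0 < N₁.index := Nat.pos_of_ne_zero Subgroup.index_ne_zero_of_finite
        nlinarith
      let e : N₁ ≃* N := Subgroup.subgroupOfEquivOfLe hNH
      have hNa₁ : ∀ s, ∀ x ∈ N₁, resN a H hH s x ∈ N₁ := fun s x hx =>
        Subgroup.mem_subgroupOf.mpr (hNa s _ (Subgroup.mem_subgroupOf.mp hx))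
      have h₀₁ : ∀ s ∈ S₀, ∃ n ∈ N₁, ∀ g, resN a H hH s g = n * g * n⁻¹ := by
        intro s hs
        obtain ⟨m, hm, hm'⟩ := h₀ s hs
        refine ⟨⟨m, hNH hm⟩, Subgroup.mem_subgroupOf.mpr hm, fun g => Subtype.ext ?_⟩
        exact hm' g
      have hcop₁ : N₁.index.Coprime S₀.index :=
        Nat.Coprime.coprime_dvd_left ⟨H.index, by rw [hn, hidx]⟩ hcop
      obtain ⟨ψ, hψ1, hψ2⟩ := ih N₁.index hlt H N₁ (resN a H hH) hNa₁ h₀₁ hcop₁
        (solvable_sub N H hsolv) rfl
        ⟨(θ : N → ℂ) ∘ e, isIrrCharacter_comp_of_surjective e.toMonoidHom e.surjective θ.2⟩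
        (fun s x => by
          have h1 := hθ s (e x)
          exact h1)
      refine ⟨inferInstance, ψ, ?_, fun s g => hψ2 s g⟩
      have h3 := classInner_comp_mulEquiv e
        (fun m : N => (ψ : H → ℂ) ⟨m, hNH m.2⟩) (θ : N → ℂ)
      rw [← h3]
      exact hψ1
    -- the inertia group
    let T₀ : Subgroup G := Cfsg.Agent.Lib.DegreeDiv.inertia N hN (θ : N → ℂ)
    have hNT : N ≤ T₀ := Cfsg.Agent.Lib.DegreeDiv.le_inertia N hN (IsIrrCharacter.isCharacter θ.2)
    by_cases hT : T₀ = ⊤
    · -- `θ` is invariant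
      have hθG : ∀ (g : G) (m : N),
          (θ : N → ℂ) ⟨g * m * g⁻¹, hN.conj_mem (m : G) m.2 g⟩ = (θ : N → ℂ) m := by
        intro g m
        have h1 : g ∈ T₀ := by
          rw [hT]
          trivial
        exact h1 m
      let M : Subgroup G := N ⊔ commutator G
      haveI hMn : M.Normal := inferInstance
      by_cases hM : M = N
      · refine Cfsg.Agent.Lib.GlaubFixBase.base_case N a S₀ hNa h₀ hcop ?_ θ hθ hθG
        intro x y
        have h1 : ⁅x, y⁆ ∈ commutator G :=
          Subgroup.commutator_mem_commutator (Subgroup.mem_top x) (Subgroup.mem_top y)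
        have h2 : ⁅x, y⁆ ∈ M := Subgroup.mem_sup_right h1
        rw [hM] at h2
        exact h2
      · have hNM : N ≤ M := le_sup_left
        have hMtop : M ≠ ⊤ := sup_commutator_ne_top N hsolv hM
        have hMa : ∀ s, ∀ x ∈ M, a s x ∈ M := by
          intro s
          have h1 : M ≤ M.comap (a s).toMonoidHom := by
            refine sup_le ?_ ?_
            · intro x hx
              exact Subgroup.mem_sup_left (hNa s x hx)
            · intro x hx
              apply Subgroup.mem_sup_right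
              exact (Subgroup.characteristic_iff_le_comap.mp
                (inferInstance : (commutator G).Characteristic) (a s)) hx
          exact fun x hx => h1 hx
        obtain ⟨_, ξ, hξ1, hξ2⟩ := hsub M hNM hMa hMtop
        have hidx : N.relIndex M * M.index = n := by
          rw [← hn]
          exact Subgroup.relIndex_mul_index hNM
        have hrel : 1 < N.relIndex M := by
          have h1 : N.relIndex M ≠ 0 := by
            intro h
            rw [h, zero_mul] at hidx
            omega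
          have h2 : N.relIndex M ≠ 1 := by
            intro h
            exact hM (le_antisymm (Subgroup.relIndex_eq_one.mp h) hNM)
          omega
        have hlt : M.index < n := by
          rw [← hidx]
          have h1 : 0 < M.index := Nat.pos_of_ne_zero Subgroup.index_ne_zero_of_finite
          nlinarith
        have hcop₁ : M.index.Coprime S₀.index :=
          Nat.Coprime.coprime_dvd_left ⟨N.relIndex M, by rw [hn, ← hidx, mul_comm]⟩ hcop
        have h₀₁ : ∀ s ∈ S₀, ∃ n ∈ M, ∀ g, a s g = n * g * n⁻¹ := by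
          intro s hs
          obtain ⟨m, hm, hm'⟩ := h₀ s hs
          exact ⟨m, hNM hm, hm'⟩
        obtain ⟨χ, hχ1, hχ2⟩ := ih M.index hlt G M a hMa h₀₁ hcop₁
          (solvable_quot N M hNM hsolv) rfl ξ (fun s x => hξ2 s x)
        exact ⟨χ, over_trans N M hNM χ ξ θ hχ1 hξ1, hχ2⟩
    · -- reduction to the inertia group
      have hTa : ∀ s, ∀ x ∈ T₀, a s x ∈ T₀ := by
        intro s x hx m
        let m' : N := ⟨a s⁻¹ m, hNa s⁻¹ m m.2⟩
        have h1 : a s x * m * (a s x)⁻¹ = a s (x * m' * x⁻¹) := by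
          have h2 : a s (m' : G) = m := by
            show a s (a s⁻¹ (m : G)) = m
            rw [← MulAut.mul_apply, ← map_mul, mul_inv_cancel, map_one]
            rfl
          simp [h2]
        have h3 := hθ s ⟨x * m' * x⁻¹, hN.conj_mem _ m'.2 x⟩
        have h4 := hx m'
        have h5 := hθ s m'
        have h6 : (⟨a s (m' : G), hNa s _ m'.2⟩ : N) = m := by
          apply Subtype.ext
          show a s (a s⁻¹ (m : G)) = m
          rw [← MulAut.mul_apply, ← map_mul, mul_inv_cancel, map_one]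
          rfl
        rw [h6] at h5
        rw [h5, ← h4, ← h3]
        refine congrArg (θ : N → ℂ) (Subtype.ext ?_)
        exact h1
      obtain ⟨_, ψ, hψ1, hψ2⟩ := hsub T₀ hNT hTa hT
      obtain ⟨h1, h2⟩ := indFun_irr_of_over N T₀ θ.2
        (Cfsg.Agent.Lib.DegreeDiv.mem_inertia N hN (θ : N → ℂ)) hNT ψ.2 hψ1
      refine ⟨⟨indFun T₀ (ψ : T₀ → ℂ), h1⟩, ?_, fun s g => ?_⟩
      · show classInner (fun n : N => indFun T₀ (ψ : T₀ → ℂ) n) _ ≠ 0
        rw [h2]
        exact hψ1
      · show indFun T₀ (ψ : T₀ → ℂ) (a s g) = indFun T₀ (ψ : T₀ → ℂ) g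
        refine indFun_comp_aut T₀ (a s) (fun x => ⟨hTa s x, fun h => ?_⟩) _ ?_ g
        · have h3 := hTa s⁻¹ _ h
          have h4 : a s⁻¹ (a s x) = x := by
            rw [← MulAut.mul_apply, ← map_mul, inv_mul_cancel, map_one]
            rfl
          rwa [h4] at h3
        · intro t ht
          exact hψ2 s ⟨t, ht⟩

end Cfsg.Agent.Lib.GlaubFixInd
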