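import Mathlib
import Cfsg.Agent.Lib.GlaubFixInd
import Cfsg.Agent.Lib.CharCentral
import Cfsg.Agent.Lib.DetChar

/-!
# Invariant constituents above a central subgroup

`T ⊵ H ≥ Z`, `Z` central in `T`, `T / H` solvable, `|T : H|` prime to `|H : Z|`. Every linear
character of `Z` lies under a `T`-invariant irreducible character of `H`.
-/

set_option autoImplicit false
set_option linter.style.haveILetI false
set_option linter.unusedVariables false
set_option linter.unusedSectionVars false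

namespace Cfsg.Agent.Lib.GlaubFixCentral

open Cfsg Cfsg.Agent.Lib.CharBasic Cfsg.Agent.Lib.CharInd Cfsg.Agent.Lib.GlaubDual
open Cfsg.Agent.Lib.Clifford Cfsg.Agent.Lib.CharKernel Cfsg.Agent.Lib.GlaubFix
open Cfsg.Agent.Lib.CharInduction Cfsg.Agent.Lib.CharClifford Cfsg.Agent.Lib.GlaubAbove
open Cfsg.Agent.Lib.GlaubCorr
open scoped ComplexConjugate Classical

universe u

/-- The case of a Hall subgroup `H`. -/
theorem central_coprime {T : Type u} [Group T] [Fintype T] (H Z : Subgroup T) [hH : H.Normal]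
    [Fintype H] [Fintype Z] (hZc : ∀ z ∈ Z, ∀ x, z * x = x * z) (hZH : Z ≤ H)
    (hcop : (Nat.card H).Coprime H.index) (hsolv : Group.IsSolvable (T ⧸ H)) (c : Z →* ℂˣ) :
    ∃ β : IrrCharacter H,
      (∀ (z : Z) (g : H), (β : H → ℂ) (⟨z, hZH z.2⟩ * g) = ((c z : ℂˣ) : ℂ) * (β : H → ℂ) g) ∧
      ∀ (x : T) (g : H), (β : H → ℂ) ⟨x * g * x⁻¹, hH.conj_mem _ g.2 x⟩ = (β : H → ℂ) g := by
  obtain ⟨C, hC⟩ := Subgroup.exists_right_complement'_of_coprime hcop
  have hCcard : Nat.card C = H.index := hC.symm.index_eq_card.symm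
  have hCs : Group.IsSolvable C := by
    let f : C →* T ⧸ H := (QuotientGroup.mk' H).comp C.subtype
    refine Group.isSolvable_of_isSolvable_injective (f := f) ?_
    rw [injective_iff_map_eq_one]
    intro x hx
    have h1 : (x : T) ∈ H := (QuotientGroup.eq_one_iff _).mp hx
    have h2 : (x : T) ∈ H ⊓ C := ⟨h1, x.2⟩
    rw [hC.disjoint.eq_bot, Subgroup.mem_bot] at h2
    exact Subtype.ext h2
  have hnorm : ∀ s ∈ C, ∀ g ∈ H, s * g * s⁻¹ ∈ H := fun s _ g hg => hH.conj_mem g hg s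
  let a : C →* MulAut H := conjHom H C hnorm
  let A₀ := a.range
  have hA₀s : Group.IsSolvable A₀ := Group.isSolvable_of_surjective a.rangeRestrict_surjective
  have hA₀c : (Nat.card H).Coprime (Nat.card A₀) := by
    refine Nat.Coprime.coprime_dvd_right ?_ hcop
    rw [← hCcard]
    exact card_range_conjHom_dvd H C hnorm
  let N : Subgroup H := Z.subgroupOf H
  letI : Fintype N := Fintype.ofFinite _
  have hcen : ∀ x : N, ∀ g : H, (x : H) * g = g * x := by
    intro x g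
    apply Subtype.ext
    exact hZc _ (Subgroup.mem_subgroupOf.mp x.2) _
  have hNn : N.Normal := by
    constructor
    intro n hn g
    have h1 := hcen ⟨n, hn⟩ g
    have h2 : g * n * g⁻¹ = n := by
      rw [mul_inv_eq_iff_eq_mul]
      exact h1.symm
    rwa [h2]
  let e : N ≃* Z := Subgroup.subgroupOfEquivOfLe hZH
  let θ : IrrCharacter N := ⟨fun x => (((c.comp e.toMonoidHom) x : ℂˣ) : ℂ), isIrrCharacter_of_hom _⟩
  have hfix : ∀ b ∈ A₀, ∀ x ∈ N, b x = x := by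
    rintro _ ⟨s, rfl⟩ x hx
    apply Subtype.ext
    show (s : T) * x * (s : T)⁻¹ = x
    rw [mul_inv_eq_iff_eq_mul]
    exact (hZc _ (Subgroup.mem_subgroupOf.mp hx) _).symm
  obtain ⟨χ₀, hχ₀⟩ := exists_inv_over _ H A₀ N rfl hA₀s hA₀c hNn
    (fun b hb x hx => by rwa [hfix b hb x hx]) θ (fun b hb x x' hx' => by
      have h1 : x' = x := Subtype.ext (by rw [hx', hfix b hb x x.2])
      rw [h1])
  have hinvθ : ∀ (g : H) (n : N), (θ : N → ℂ) ⟨g * n * g⁻¹, hNn.conj_mem (n : H) n.2 g⟩ = (θ : N → ℂ) n := by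
    intro g n
    refine congrArg (θ : N → ℂ) (Subtype.ext ?_)
    show g * n * g⁻¹ = n
    rw [mul_inv_eq_iff_eq_mul]
    exact (hcen n g).symm
  obtain ⟨e₁, he₁, hres, -⟩ := restrict_eq_smul_of_invariant N θ.2 hinvθ χ₀.1.2 hχ₀
  have hval : ∀ x : N, (χ₀.1 : H → ℂ) x = (e₁ : ℂ) * (θ : N → ℂ) x := fun x => congrFun hres x
  have hone : (χ₀.1 : H → ℂ) 1 = e₁ := by
    have := hval 1
    simpa [θ] using this
  refine ⟨χ₀.1, fun z g => ?_, fun x g => ?_⟩
  · let x : N := e.symm z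
    have hxz : (x : H) = ⟨z, hZH z.2⟩ := rfl
    have h1 := Cfsg.Agent.Lib.CharCentral.central_mul χ₀.1.2 (hcen x) g
    rw [hone, hval x, hxz] at h1
    have h2 : (θ : N → ℂ) x = ((c z : ℂˣ) : ℂ) := by
      show (((c.comp e.toMonoidHom) x : ℂˣ) : ℂ) = _
      show ((c (e x) : ℂˣ) : ℂ) = _
      rw [MulEquiv.apply_symm_apply]
    rw [h2] at h1
    have he₁' : (e₁ : ℂ) ≠ 0 := by exact_mod_cast he₁
    have h3 : (e₁ : ℂ) * (χ₀.1 : H → ℂ) (⟨z, hZH z.2⟩ * g) =
        (e₁ : ℂ) * (((c z : ℂˣ) : ℂ) * (χ₀.1 : H → ℂ) g) := by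
      rw [h1]
      ring
    exact mul_left_cancel₀ he₁' h3
  · -- write `x` as a product
    have htop : C ⊔ H = ⊤ := by
      rw [sup_comm]
      exact hC.sup_eq_top
    have hx : x ∈ C ⊔ H := by
      rw [htop]
      trivial
    rw [Subgroup.mem_sup_of_normal_right] at hx
    obtain ⟨s, hs, h, hh, rfl⟩ := hx
    have h1 := χ₀.2 (a ⟨s, hs⟩) ⟨⟨s, hs⟩, rfl⟩ ⟨h * g * h⁻¹, hH.conj_mem _ g.2 h⟩
    have h2 : (χ₀.1 : H → ℂ) ⟨h * g * h⁻¹, hH.conj_mem _ g.2 h⟩ = (χ₀.1 : H → ℂ) g :=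
      isClassFunction_of_isCharacter (IsIrrCharacter.isCharacter χ₀.1.2) g ⟨h, hh⟩
    rw [← h2, ← h1]
    refine congrArg (χ₀.1 : H → ℂ) (Subtype.ext ?_)
    show s * h * g * (s * h)⁻¹ = s * (h * g * h⁻¹) * s⁻¹
    group

/-- Splitting a number according to a given one. -/
theorem exists_split (n : ℕ) : ∀ (w m : ℕ), 0 < n → m.Coprime w →
    ∃ w₀ u : ℕ, n = w₀ * u ∧ u.Coprime w ∧ w₀.Coprime m := by
  induction n using Nat.strong_induction_on with
  | _ n ih =>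
    intro w m hn hm
    by_cases h : n.Coprime w
    · exact ⟨1, n, by simp, h, by simp⟩
    · have hg1 : 1 < Nat.gcd n w := by
        have h1 : Nat.gcd n w ≠ 1 := h
        have h2 : Nat.gcd n w ≠ 0 := Nat.gcd_ne_zero_left hn.ne'
        omega
      obtain ⟨n', hn'⟩ : Nat.gcd n w ∣ n := Nat.gcd_dvd_left _ _
      have hn'0 : 0 < n' := by
        rcases Nat.eq_zero_or_pos n' with h0 | h0
        · rw [h0, mul_zero] at hn'
          omega
        · exact h0
      have hlt : n' < n := by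
        rw [hn']
        nlinarith
      obtain ⟨w₀, u, h1, h2, h3⟩ := ih n' hlt w m hn'0 hm
      refine ⟨Nat.gcd n w * w₀, u, ?_, h2, ?_⟩
      · rw [mul_assoc, ← h1]
        exact hn'
      · refine Nat.Coprime.mul_left ?_ h3
        exact Nat.Coprime.coprime_dvd_left (Nat.gcd_dvd_right _ _) hm.symm

/-- A group of exponent prime to `w` has order prime to `w`. -/
theorem coprime_card_of_exp {X : Type*} [Group X] [Finite X] {u w : ℕ} (hu : u.Coprime w)
    (h : ∀ x : X, x ^ u = 1) : (Nat.card X).Coprime w := by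
  refine Nat.coprime_of_dvd fun p hp h1 h2 => ?_
  haveI : Fact p.Prime := ⟨hp⟩
  obtain ⟨x, hx⟩ := exists_prime_orderOf_dvd_card' p h1
  have h3 : p ∣ u := by
    rw [← hx]
    exact orderOf_dvd_of_pow_eq_one (h x)
  have h4 := Nat.dvd_gcd h3 h2
  rw [hu] at h4
  exact hp.one_lt.ne' (Nat.dvd_one.mp h4)

/-- **The central case.** -/
theorem central_case {T : Type u} [Group T] [Fintype T] (H Z : Subgroup T) [hH : H.Normal]
    [Fintype H] [Fintype Z] (hZc : ∀ z ∈ Z, ∀ x, z * x = x * z) (hZH : Z ≤ H)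
    (hcop : H.index.Coprime (Z.relIndex H)) (hsolv : Group.IsSolvable (T ⧸ H)) (c : Z →* ℂˣ) :
    ∃ β : IrrCharacter H,
      (∀ (z : Z) (g : H), (β : H → ℂ) (⟨z, hZH z.2⟩ * g) = ((c z : ℂˣ) : ℂ) * (β : H → ℂ) g) ∧
      ∀ (x : T) (g : H), (β : H → ℂ) ⟨x * g * x⁻¹, hH.conj_mem _ g.2 x⟩ = (β : H → ℂ) g := by
  set m := Z.relIndex H with hm
  obtain ⟨w₀, u, hn, hu, hw₀⟩ := exists_split (Nat.card Z) H.index m Nat.card_pos hcop.symm
  -- Bezout
  obtain ⟨a, b, hab⟩ : ∃ a b : ℤ, (m : ℤ) * a + (w₀ : ℤ) * b = 1 := by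
    refine ⟨Nat.gcdA m w₀, Nat.gcdB m w₀, ?_⟩
    have h1 := Nat.gcd_eq_gcd_ab m w₀
    rw [Nat.Coprime.symm hw₀] at h1
    simpa using h1.symm
  let Z' : Subgroup H := Z.subgroupOf H
  have hZ'idx : Z'.index = m := rfl
  let e : Z' ≃* Z := Subgroup.subgroupOfEquivOfLe hZH
  let ϕ : Z' →* ℂˣ := (zpowGroupHom a).comp (c.comp e.toMonoidHom)
  let μ : H →* ℂˣ := MonoidHom.transfer ϕ
  have key : ∀ (g : H) (k : ℕ) (g₀ : H), g₀⁻¹ * g ^ k * g₀ ∈ Z' → g₀⁻¹ * g ^ k * g₀ = g ^ k := by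
    intro g k g₀ hx
    have h1 : (g₀⁻¹ * g ^ k * g₀) * g₀ = g₀ * (g₀⁻¹ * g ^ k * g₀) :=
      (Subtype.ext (hZc _ (Subgroup.mem_subgroupOf.mp hx) _))
    have h2 : g₀ * (g₀⁻¹ * g ^ k * g₀) = g ^ k * g₀ := by group
    rw [h2] at h1
    exact mul_right_cancel h1
  have hgm : ∀ g : H, ((g : T) ^ m) ∈ Z := by
    intro g
    have h1 : g ^ Z'.index ∈ Z' := MonoidHom.transfer_eq_pow_aux g (key g)
    exact Subgroup.mem_subgroupOf.mp h1
  have hμ : ∀ g : H, μ g = c ⟨(g : T) ^ m, hgm g⟩ ^ a := by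
    intro g
    have h1 := MonoidHom.transfer_eq_pow ϕ g (key g)
    have h2 : μ g = ϕ ⟨g ^ Z'.index, MonoidHom.transfer_eq_pow_aux g (key g)⟩ := h1
    rw [h2]
    rfl
  have hμinv : ∀ (x : T) (g : H), μ ⟨x * g * x⁻¹, hH.conj_mem _ g.2 x⟩ = μ g := by
    intro x g
    rw [hμ, hμ]
    congr 2
    apply Subtype.ext
    show (x * g * x⁻¹) ^ m = (g : T) ^ m
    rw [conj_pow, mul_inv_eq_iff_eq_mul]
    exact (hZc _ (hgm g) x).symm
  let incl : Z →* H := Subgroup.inclusion hZH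
  let c' : Z →* ℂˣ := c * (μ.comp incl)⁻¹
  have hc'val : ∀ z : Z, c' z = c z * (μ (incl z))⁻¹ := fun z => rfl
  have hμZ : ∀ z : Z, μ (incl z) = c z ^ ((m : ℤ) * a) := by
    intro z
    rw [hμ, zpow_mul]
    congr 1
    have h1 : (⟨((incl z : H) : T) ^ m, hgm _⟩ : Z) = z ^ m := Subtype.ext rfl
    rw [h1, map_pow, zpow_natCast]
  have hc'b : ∀ z : Z, c' z = c z ^ ((w₀ : ℤ) * b) := by
    intro z
    have h1 : (w₀ : ℤ) * b = 1 - (m : ℤ) * a := by linarith
    rw [hc'val, hμZ, h1, zpow_sub, zpow_one]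
  have hc'u : ∀ z : Z, c' z ^ u = 1 := by
    intro z
    rw [hc'b, ← zpow_natCast, ← zpow_mul]
    have h1 : (w₀ : ℤ) * b * (u : ℤ) = ((Nat.card Z : ℕ) : ℤ) * b := by
      rw [hn]
      push_cast
      ring
    rw [h1, zpow_mul, zpow_natCast, ← map_pow, pow_card_eq_one', map_one, one_zpow]
  -- the kernel
  let K : Subgroup T := c'.ker.map Z.subtype
  have hKZ : K ≤ Z := by
    rintro _ ⟨z, -, rfl⟩
    exact z.2
  haveI hKn : K.Normal := by
    constructor
    intro n hn g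
    have h2 : g * n * g⁻¹ = n := by
      rw [mul_inv_eq_iff_eq_mul]
      exact (hZc n (hKZ hn) g).symm
    rwa [h2]
  have hKmem : ∀ z : Z, (z : T) ∈ K → c' z = 1 := by
    rintro z ⟨y, hy, hyz⟩
    have h1 : y = z := Subtype.ext hyz
    rw [← h1]
    exact hy
  let T' := T ⧸ K
  let f : T →* T' := QuotientGroup.mk' K
  have hf : Function.Surjective f := QuotientGroup.mk'_surjective K
  have hfker : f.ker = K := QuotientGroup.ker_mk' K
  letI : Fintype T' := Fintype.ofFinite _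
  let H' : Subgroup T' := H.map f
  let Z'' : Subgroup T' := Z.map f
  letI : Fintype H' := Fintype.ofFinite _
  letI : Fintype Z'' := Fintype.ofFinite _
  haveI hH'n : H'.Normal := hH.map f hf
  have hKH : K ≤ H := hKZ.trans hZH
  have hH'idx : H'.index = H.index := by
    show (H.map f).index = _
    rw [Subgroup.index_map, hfker, sup_eq_left.mpr hKH, MonoidHom.range_eq_top.mpr hf,
      Subgroup.index_top, mul_one]
  have hH'card : Nat.card H' = Nat.card c'.range * m := by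
    have h1 : Nat.card H' = K.relIndex H := by
      have h0 := Subgroup.relIndex_ker (K := H) f
      rw [hfker] at h0
      exact h0.symm
    have h2 : K.relIndex Z = Nat.card c'.range := by
      rw [← Subgroup.index_ker]
      show (K.subgroupOf Z).index = _
      congr 1
      exact Subgroup.comap_map_eq_self_of_injective Z.subtype_injective _
    rw [h1, ← h2, hm]
    exact (Subgroup.relIndex_mul_relIndex _ _ _ hKZ hZH).symm
  have hcop' : (Nat.card H').Coprime H'.index := by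
    rw [hH'card, hH'idx]
    refine Nat.Coprime.mul_left ?_ hcop.symm
    refine coprime_card_of_exp hu ?_
    rintro ⟨_, z, rfl⟩
    apply Subtype.ext
    exact hc'u z
  have hsolv' : Group.IsSolvable (T' ⧸ H') := by
    let F : T ⧸ H →* T' ⧸ H' := QuotientGroup.map H H' f (Subgroup.le_comap_map f H)
    refine Group.isSolvable_of_surjective (f := F) ?_
    intro q
    obtain ⟨x, rfl⟩ := QuotientGroup.mk_surjective q
    obtain ⟨y, rfl⟩ := hf x
    exact ⟨(y : T ⧸ H), rfl⟩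
  have hZ''c : ∀ z ∈ Z'', ∀ x, z * x = x * z := by
    rintro _ ⟨z, hz, rfl⟩ x
    obtain ⟨y, rfl⟩ := hf x
    rw [← map_mul, ← map_mul, hZc z hz y]
  have hZ''H' : Z'' ≤ H' := Subgroup.map_mono hZH
  let q : Z →* Z'' := f.subgroupMap Z
  have hq : Function.Surjective q := f.subgroupMap_surjective Z
  have hqker : q.ker ≤ c'.ker := by
    intro z hz
    rw [MonoidHom.mem_ker] at hz ⊢
    apply hKmem
    rw [← hfker, MonoidHom.mem_ker]
    exact congrArg Subtype.val hz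
  let cq : Z'' →* ℂˣ := q.liftOfRightInverse (Function.surjInv hq) (Function.rightInverse_surjInv hq)
    ⟨c', hqker⟩
  have hcq : ∀ z : Z, cq (q z) = c' z := fun z =>
    q.liftOfRightInverse_comp_apply _ _ ⟨c', hqker⟩ z
  obtain ⟨βq, hβ1, hβ2⟩ := central_coprime H' Z'' hZ''c hZ''H' hcop' hsolv' cq
  let qH : H →* H' := f.subgroupMap H
  have hqH : Function.Surjective qH := f.subgroupMap_surjective H
  have hβ₁ : IsIrrCharacter H ((βq : H' → ℂ) ∘ qH) := isIrrCharacter_comp_of_surjective qH hqH βq.2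
  refine ⟨⟨(fun g => ((μ g : ℂˣ) : ℂ)) * ((βq : H' → ℂ) ∘ qH),
    Cfsg.Agent.Lib.DetChar.isIrr_mul_hom μ hβ₁⟩, fun z g => ?_, fun x g => ?_⟩
  · show ((μ (⟨z, hZH z.2⟩ * g) : ℂˣ) : ℂ) * (βq : H' → ℂ) (qH (⟨z, hZH z.2⟩ * g)) =
      ((c z : ℂˣ) : ℂ) * (((μ g : ℂˣ) : ℂ) * (βq : H' → ℂ) (qH g))
    have h1 : qH (⟨z, hZH z.2⟩ * g) = ⟨(q z : Z''), hZ''H' (q z).2⟩ * qH g := by
      rw [map_mul]
      rfl
    rw [h1, hβ1, hcq, hc'val, map_mul]
    have h2 : (⟨z, hZH z.2⟩ : H) = incl z := rfl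
    rw [h2]
    simp only [Units.val_mul, Units.val_inv_eq_inv_val]
    have h3 : ((μ (incl z) : ℂˣ) : ℂ) ≠ 0 := Units.ne_zero _
    field_simp
  · show ((μ ⟨x * g * x⁻¹, hH.conj_mem _ g.2 x⟩ : ℂˣ) : ℂ) *
        (βq : H' → ℂ) (qH ⟨x * g * x⁻¹, hH.conj_mem _ g.2 x⟩) =
      ((μ g : ℂˣ) : ℂ) * (βq : H' → ℂ) (qH g)
    rw [hμinv]
    congr 1
    have h1 := hβ2 (f x) (qH g)
    rw [← h1]
    refine congrArg (βq : H' → ℂ) (Subtype.ext ?_)
    show f (x * g * x⁻¹) = f x * f g * (f x)⁻¹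
    simp

end Cfsg.Agent.Lib.GlaubFixCentral
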