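import Mathlib
import Cfsg.Agent.Lib.GlaubFixCentral
import Cfsg.Agent.Lib.DegreeDiv
import Cfsg.Agent.Lib.CosetAvg

/-!
# Invariant constituents above, solvable operators

By passing to a central extension in which `θ` extends.
-/

set_option autoImplicit false
set_option linter.style.haveILetI false
set_option linter.unusedVariables false
set_option linter.unusedSectionVars false

namespace Cfsg.Agent.Lib.GlaubFixLift

open Cfsg Cfsg.Agent.Lib.CharBasic Cfsg.Agent.Lib.CharInd Cfsg.Agent.Lib.GlaubDual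
open Cfsg.Agent.Lib.Clifford Cfsg.Agent.Lib.CharKernel Cfsg.Agent.Lib.GlaubFix
open Cfsg.Agent.Lib.CharInduction Cfsg.Agent.Lib.CharClifford Cfsg.Agent.Lib.GlaubAbove
open Cfsg.Agent.Lib.GlaubCorr Cfsg.Agent.Lib.GlaubFixCentral Cfsg.Agent.Lib.CosetAvg
open scoped ComplexConjugate Classical

universe u

/-- Characters through a surjection. -/
theorem exists_irr_of_surj {A B : Type u} [Group A] [Fintype A] [Group B] [Fintype B] (f : A →* B)
    (hf : Function.Surjective f) {ψ : A → ℂ} (hψ : IsIrrCharacter A ψ)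
    (h : ∀ x, f x = 1 → ψ x = ψ 1) : ∃ χ : IrrCharacter B, ∀ a, (χ : B → ℂ) (f a) = ψ a := by
  obtain ⟨χ', h1, h2⟩ := exists_quotient_irr f.ker hψ (fun x hx => h x hx)
  let e : A ⧸ f.ker ≃* B := QuotientGroup.quotientKerEquivOfSurjective f hf
  refine ⟨⟨χ' ∘ e.symm, isIrrCharacter_comp_of_surjective e.symm.toMonoidHom e.symm.surjective h1⟩,
    fun a => ?_⟩
  show χ' (e.symm (f a)) = _
  have h3 : e.symm (f a) = (a : A ⧸ f.ker) := by
    rw [MulEquiv.symm_apply_eq]
    rfl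
  rw [h3, h2]

/-- **The lifting theorem**. -/
theorem lift_central {Γ E : Type u} [Group Γ] [Fintype Γ] [Group E] [Fintype E] (π : E →* Γ)
    (hπ : Function.Surjective π) (G N : Subgroup Γ) [hG : G.Normal] [hN : N.Normal] (hNG : N ≤ G)
    [Fintype G] [Fintype N] (hat : N →* E) (hhat : ∀ n, π (hat n) = n) (hrange : hat.range.Normal)
    (Θ : E → ℂ) (hΘ : IsCharacter E Θ) (θ : IrrCharacter N) (hΘθ : ∀ n, Θ (hat n) = (θ : N → ℂ) n)
    (c : π.ker →* ℂˣ) (hcen : ∀ z ∈ π.ker, ∀ y, z * y = y * z)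
    (hscal : ∀ (z : π.ker) (y : E), Θ (z * y) = ((c z : ℂˣ) : ℂ) * Θ y)
    (hcop : G.index.Coprime (N.relIndex G)) (hsolv : Group.IsSolvable (Γ ⧸ G)) :
    ∃ χ : IrrCharacter G, classInner (fun n : N => (χ : G → ℂ) ⟨n, hNG n.2⟩) (θ : N → ℂ) ≠ 0 ∧
      ∀ (x : Γ) (g : G), (χ : G → ℂ) ⟨x * g * x⁻¹, hG.conj_mem _ g.2 x⟩ = (χ : G → ℂ) g := by
  have hhinj : Function.Injective hat := by
    intro a b hab
    have := congrArg π hab
    rw [hhat, hhat] at this
    exact Subtype.ext this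
  let A : Subgroup E := hat.range
  haveI hAn : A.Normal := hrange
  let T := E ⧸ A
  let f : E →* T := QuotientGroup.mk' A
  have hf : Function.Surjective f := QuotientGroup.mk'_surjective A
  have hfker : f.ker = A := QuotientGroup.ker_mk' A
  have hfA : ∀ n : N, f (hat n) = 1 := fun n =>
    (QuotientGroup.eq_one_iff _).mpr ⟨n, rfl⟩
  letI : Fintype T := Fintype.ofFinite _
  let GE : Subgroup E := G.comap π
  haveI hGEn : GE.Normal := hG.comap π
  let H : Subgroup T := GE.map f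
  let Z : Subgroup T := π.ker.map f
  letI : Fintype H := Fintype.ofFinite _
  letI : Fintype Z := Fintype.ofFinite _
  haveI hHn : H.Normal := hGEn.map f hf
  have hAGE : A ≤ GE := by
    rintro _ ⟨n, rfl⟩
    show π (hat n) ∈ G
    rw [hhat]
    exact hNG n.2
  have hZc : ∀ z ∈ Z, ∀ x, z * x = x * z := by
    rintro _ ⟨z, hz, rfl⟩ x
    obtain ⟨y, rfl⟩ := hf x
    rw [← map_mul, ← map_mul, hcen z hz y]
  have hkGE : π.ker ≤ GE := by
    intro z hz
    show π z ∈ G
    rw [MonoidHom.mem_ker.mp hz]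
    exact G.one_mem
  have hZH : Z ≤ H := Subgroup.map_mono hkGE
  have hHidx : H.index = G.index := by
    show (GE.map f).index = _
    rw [Subgroup.index_map, hfker, sup_eq_left.mpr hAGE, MonoidHom.range_eq_top.mpr hf,
      Subgroup.index_top, mul_one]
    exact Subgroup.index_comap_of_surjective G hπ
  have hZcomap : Z.comap f = N.comap π := by
    ext x
    constructor
    · rintro ⟨z, hz, hzx⟩
      have h1 : (z : E)⁻¹ * x ∈ A := by
        rw [← hfker, MonoidHom.mem_ker, map_mul, map_inv, hzx, inv_mul_cancel]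
      obtain ⟨n, hn⟩ := h1
      have h2 : x = z * hat n := by
        rw [hn]
        group
      show π x ∈ N
      rw [h2, map_mul, MonoidHom.mem_ker.mp hz, one_mul, hhat]
      exact n.2
    · intro hx
      refine ⟨x * (hat ⟨π x, hx⟩)⁻¹, ?_, ?_⟩
      · show _ ∈ π.ker
        rw [MonoidHom.mem_ker, map_mul, map_inv, hhat]
        simp
      · rw [map_mul, map_inv, hfA]
        simp
  have hZidx : Z.relIndex H = N.relIndex G := by
    have h1 : Z.relIndex H = (Z.comap f).relIndex GE := (Subgroup.relIndex_comap Z f GE).symm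
    rw [h1, hZcomap, Subgroup.relIndex_comap, Subgroup.map_comap_eq_self_of_surjective hπ]
  have hcop' : H.index.Coprime (Z.relIndex H) := by
    rw [hHidx, hZidx]
    exact hcop
  have hsolv' : Group.IsSolvable (T ⧸ H) := by
    let p : T →* Γ ⧸ G := QuotientGroup.lift A ((QuotientGroup.mk' G).comp π) (by
      rintro _ ⟨n, rfl⟩
      show ((π (hat n) : Γ) : Γ ⧸ G) = 1
      rw [hhat]
      exact (QuotientGroup.eq_one_iff _).mpr (hNG n.2))
    have hp : ∀ x : E, p (f x) = ((π x : Γ) : Γ ⧸ G) := fun x => rfl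
    let F : T ⧸ H →* Γ ⧸ G := QuotientGroup.lift H p (by
      rintro _ ⟨x, hx, rfl⟩
      show p (f x) = 1
      rw [hp]
      exact (QuotientGroup.eq_one_iff _).mpr hx)
    refine Group.isSolvable_of_isSolvable_injective (f := F) ?_
    rw [injective_iff_map_eq_one]
    intro q hq
    obtain ⟨t, rfl⟩ := QuotientGroup.mk_surjective q
    obtain ⟨x, rfl⟩ := hf t
    have h1 : ((π x : Γ) : Γ ⧸ G) = 1 := hq
    rw [QuotientGroup.eq_one_iff] at h1
    exact (QuotientGroup.eq_one_iff _).mpr ⟨x, h1, rfl⟩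
  let q : π.ker →* Z := f.subgroupMap π.ker
  have hq : Function.Surjective q := f.subgroupMap_surjective π.ker
  have hqker : q.ker ≤ c.ker := by
    intro z hz
    rw [MonoidHom.mem_ker] at hz ⊢
    have h1 : f z = 1 := congrArg Subtype.val hz
    have h2 : (z : E) ∈ A := by
      rw [← hfker]
      exact h1
    obtain ⟨n, hn⟩ := h2
    have h3 : n = 1 := by
      apply Subtype.ext
      have h4 := congrArg π hn
      rw [hhat, MonoidHom.mem_ker.mp z.2] at h4
      exact h4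
    have h5 : z = 1 := by
      apply Subtype.ext
      rw [← hn, h3, map_one]
      rfl
    rw [h5, map_one]
  let cq : Z →* ℂˣ := q.liftOfRightInverse (Function.surjInv hq) (Function.rightInverse_surjInv hq)
    ⟨c, hqker⟩
  have hcq : ∀ z : π.ker, cq (q z) = c z := fun z =>
    q.liftOfRightInverse_comp_apply _ _ ⟨c, hqker⟩ z
  obtain ⟨β, hβ1, hβ2⟩ := central_case H Z hZc hZH hcop' hsolv' cq⁻¹
  -- multiply with the extension
  let qG : GE →* H := f.subgroupMap GE
  have hqG : Function.Surjective qG := f.subgroupMap_surjective GE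
  letI : Fintype GE := Fintype.ofFinite _
  let A' : Subgroup GE := A.subgroupOf GE
  letI : Fintype A' := Fintype.ofFinite _
  haveI hA'n : A'.Normal := Subgroup.normal_subgroupOf
  let e₀ : N ≃* A := MonoidHom.ofInjective hhinj
  let e : A' ≃* N := (Subgroup.subgroupOfEquivOfLe hAGE).trans e₀.symm
  have he : ∀ a : A', hat (e a) = ((a : GE) : E) := by
    intro a
    have h1 : ((e₀ (e a) : A) : E) = hat (e a) := rfl
    rw [← h1]
    simp [e]
    rfl
  let Θ₁ : GE → ℂ := fun g => Θ g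
  have hΘ₁ : IsCharacter GE Θ₁ := isCharacter_restrict GE hΘ
  have hθA : IsIrrCharacter A' (fun a : A' => Θ₁ a) := by
    have h1 : (fun a : A' => Θ₁ a) = (θ : N → ℂ) ∘ e := by
      funext a
      show Θ ((a : GE) : E) = _
      rw [← he, hΘθ]
      rfl
    rw [h1]
    exact isIrrCharacter_comp_of_surjective e.toMonoidHom e.surjective θ.2
  let b₁ : GE → ℂ := (β : H → ℂ) ∘ qG
  have hb₁ : IsIrrCharacter GE b₁ := isIrrCharacter_comp_of_surjective qG hqG β.2
  have hqGA : ∀ a : A', qG a = 1 := by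
    intro a
    apply Subtype.ext
    show f ((a : GE) : E) = 1
    rw [← he, hfA]
  let ψ : GE → ℂ := b₁ * Θ₁
  have hb₁A : ∀ (n : A') (g : GE), b₁ (n * g) = b₁ g := by
    intro n g
    show (β : H → ℂ) (qG (n * g)) = _
    rw [map_mul, hqGA, one_mul]
    rfl
  have hψ : IsIrrCharacter GE ψ := by
    rw [isIrrCharacter_iff_norm_one]
    refine ⟨isCharacter_mul (IsIrrCharacter.isCharacter hb₁) hΘ₁, ?_⟩
    have h1 := classInner_mul_mul_of_invariant A' hΘ₁ hθA hb₁A hb₁A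
    show classInner (b₁ * Θ₁) (b₁ * Θ₁) = 1
    rw [h1]
    exact classInner_irr_self hb₁
  have hψval : ∀ g : GE, ψ g = (β : H → ℂ) (qG g) * Θ g := fun g => rfl
  -- descent
  let fG : GE →* G := π.subgroupComap G
  have hfG : Function.Surjective fG := π.subgroupComap_surjective_of_surjective G hπ
  have hψz : ∀ (z : π.ker) (g : GE), ψ (⟨z, hkGE z.2⟩ * g) = ψ g := by
    intro z g
    rw [hψval, hψval]
    have h1 : qG (⟨z, hkGE z.2⟩ * g) = ⟨(q z : Z), hZH (q z).2⟩ * qG g := by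
      rw [map_mul]
      rfl
    have h2 := hβ1 (q z) (qG g)
    rw [h1, h2, MonoidHom.inv_apply, hcq]
    have h3 : ((⟨z, hkGE z.2⟩ * g : GE) : E) = z * g := rfl
    rw [h3, hscal]
    simp only [Units.val_inv_eq_inv_val]
    have h4 : ((c z : ℂˣ) : ℂ) ≠ 0 := Units.ne_zero _
    field_simp
  obtain ⟨χ, hχ⟩ := exists_irr_of_surj fG hfG hψ (by
    intro x hx
    have hx' : (x : E) ∈ π.ker := by
      rw [MonoidHom.mem_ker]
      exact congrArg Subtype.val hx
    have h1 := hψz ⟨x, hx'⟩ 1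
    rw [mul_one] at h1
    exact h1)
  refine ⟨χ, ?_, fun x g => ?_⟩
  · have h1 : (fun n : N => (χ : G → ℂ) ⟨n, hNG n.2⟩) = ((β : H → ℂ) 1) • (θ : N → ℂ) := by
      funext n
      have hmem : hat n ∈ GE := hAGE ⟨n, rfl⟩
      have h2 : (⟨(n : Γ), hNG n.2⟩ : G) = fG ⟨hat n, hmem⟩ := by
        apply Subtype.ext
        exact (hhat n).symm
      have h3 : qG ⟨hat n, hmem⟩ = 1 := by
        apply Subtype.ext
        exact hfA n
      show (χ : G → ℂ) ⟨(n : Γ), hNG n.2⟩ = (β : H → ℂ) 1 * (θ : N → ℂ) n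
      rw [h2, hχ, hψval, h3, ← hΘθ]
    rw [h1, classInner_smul_left, classInner_irr_self θ.2, mul_one]
    exact irr_degree_ne_zero β.2
  · obtain ⟨x', rfl⟩ := hπ x
    obtain ⟨g', rfl⟩ := hfG g
    let y : GE := ⟨x' * g' * x'⁻¹, hGEn.conj_mem _ g'.2 x'⟩
    have h1 : (⟨π x' * (fG g' : G) * (π x')⁻¹, hG.conj_mem _ (fG g').2 _⟩ : G) = fG y := by
      apply Subtype.ext
      show _ = π (x' * g' * x'⁻¹)
      simp
      rfl
    rw [h1, hχ, hχ, hψval, hψval]
    have h2 : qG y = ⟨f x' * (qG g' : T) * (f x')⁻¹, hHn.conj_mem _ (qG g').2 _⟩ := by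
      apply Subtype.ext
      show f (x' * g' * x'⁻¹) = _
      simp
      rfl
    have h3 := hβ2 (f x') (qG g')
    have h4 : Θ (x' * g' * x'⁻¹) = Θ g' := isClassFunction_of_isCharacter hΘ _ _
    rw [h2, h3]
    show _ * Θ (x' * g' * x'⁻¹) = _
    rw [h4]

/-- **Invariant constituents above, solvable operators.** -/
theorem exists_inv_above_solvable {Γ : Type u} [Group Γ] [Fintype Γ] (G N : Subgroup Γ)
    [hG : G.Normal] [hN : N.Normal] (hNG : N ≤ G) [Fintype G] [Fintype N]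
    (hcop : G.index.Coprime (N.relIndex G)) (hsolv : Group.IsSolvable (Γ ⧸ G)) (θ : IrrCharacter N)
    (hinv : ∀ (x : Γ) (n : N), (θ : N → ℂ) ⟨x * n * x⁻¹, hN.conj_mem n n.2 x⟩ = (θ : N → ℂ) n) :
    ∃ χ : IrrCharacter G, classInner (fun n : N => (χ : G → ℂ) ⟨n, hNG n.2⟩) (θ : N → ℂ) ≠ 0 ∧
      ∀ (x : Γ) (g : G), (χ : G → ℂ) ⟨x * g * x⁻¹, hG.conj_mem _ g.2 x⟩ = (χ : G → ℂ) g := by
  obtain ⟨θ₀, hθ₀⟩ := θ
  obtain ⟨k, ρ, hρ, rfl⟩ := hθ₀
  have hk : 0 < k := by
    obtain ⟨d, hd0, hd⟩ := irr_degree_pos ⟨k, ρ, hρ, rfl⟩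
    rw [char_one_eq_rep] at hd
    have : k = d := by exact_mod_cast hd
    omega
  have hsurj := Cfsg.Agent.Lib.ImplGroup.exists_impl N ρ hinv
  haveI hfin := Cfsg.Agent.Lib.DegreeDiv.finite_ker N ρ hρ hsurj hk
  letI : Fintype (Cfsg.Agent.Lib.DegreeDiv.detHom N ρ).ker := Fintype.ofFinite _
  let X := Cfsg.Agent.Lib.ImplGroup.implExt N ρ hρ hsurj
  let π := Cfsg.Agent.Lib.DegreeDiv.piKer N ρ
  have hπ : Function.Surjective π := Cfsg.Agent.Lib.DegreeDiv.exists_lift N ρ hρ hsurj hk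
  let τ := Cfsg.Agent.Lib.DegreeDiv.repKer N ρ
  have hex : ∀ z : π.ker, ∃ c : ℂˣ, ((z : (Cfsg.Agent.Lib.DegreeDiv.detHom N ρ).ker) :
      Cfsg.Agent.Lib.ImplGroup.implGroup N ρ) = X.ι c := by
    intro z
    obtain ⟨c, hc⟩ := X.exists_of_same 1
      ((z : (Cfsg.Agent.Lib.DegreeDiv.detHom N ρ).ker) : Cfsg.Agent.Lib.ImplGroup.implGroup N ρ)
      (by
        rw [map_one]
        exact (MonoidHom.mem_ker.mp z.2).symm)
    exact ⟨c, by rw [hc, mul_one]⟩
  choose cf hcf using hex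
  let c : π.ker →* ℂˣ := MonoidHom.mk' cf (by
    intro x y
    apply X.inj
    rw [map_mul, ← hcf, ← hcf, ← hcf]
    rfl)
  have hτ : ∀ z : π.ker, τ z = ((c z : ℂˣ) : ℂ) • (1 : Module.End ℂ (Fin k → ℂ)) := by
    intro z
    show (((z : (Cfsg.Agent.Lib.DegreeDiv.detHom N ρ).ker) :
      Cfsg.Agent.Lib.ImplGroup.implGroup N ρ) : Γ × (Module.End ℂ (Fin k → ℂ))ˣ).2.val = _
    rw [hcf]
    exact Cfsg.Agent.Lib.ImplGroup.scalarUnit_val _
  refine lift_central π hπ G N hNG (Cfsg.Agent.Lib.DegreeDiv.hatKer N ρ)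
    (fun n => rfl) (Cfsg.Agent.Lib.DegreeDiv.range_hatKer_normal N ρ) τ.character
    (isCharacter_of_rep' _) ⟨ρ.character, k, ρ, hρ, rfl⟩ (fun n => ?_) c ?_ ?_ hcop hsolv
  · show LinearMap.trace ℂ _ (τ (Cfsg.Agent.Lib.DegreeDiv.hatKer N ρ n)) = LinearMap.trace ℂ _ (ρ n)
    rw [Cfsg.Agent.Lib.DegreeDiv.repKer_hatKer]
  · intro z hz y
    apply Subtype.ext
    show ((z : (Cfsg.Agent.Lib.DegreeDiv.detHom N ρ).ker) :
      Cfsg.Agent.Lib.ImplGroup.implGroup N ρ) * y = y * z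
    rw [hcf ⟨z, hz⟩]
    exact X.central _ _
  · intro z y
    show LinearMap.trace ℂ _ (τ (z * y)) = _ * LinearMap.trace ℂ _ (τ y)
    rw [map_mul, hτ, smul_mul_assoc, one_mul, map_smul]
    rfl

end Cfsg.Agent.Lib.GlaubFixLift
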