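import Mathlib
import Cfsg.Agent.Lib.GolayChain
import Cfsg.Agent.Lib.GolayClasses

/-!
# Searching for intertwining elements along the stabiliser chain of `M24`

Counting the elements `c` of `G pre` with `c * a = b * c`, by pruned search along a base.
-/

set_option autoImplicit false
set_option linter.style.haveILetI false
set_option linter.unusedVariables false
set_option linter.unusedSectionVars false

namespace Cfsg.Agent.Lib.GolaySearch

open Cfsg Cfsg.Agent.Lib.Golay

/-- Image of a point under a product of codes. -/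
def apL : List ℕ → ℕ → ℕ
  | [], x => x
  | t :: ts, x => ap t (apL ts x)

/-- The consistency test of a new image. -/
def stepOK (a b : ℕ) (ps : List (ℕ × ℕ)) (β y : ℕ) : Bool :=
  (ps.all fun p => (!(Nat.beq (ap a p.1) β) || Nat.beq y (ap b p.2)) &&
    (!(Nat.beq (ap a β) p.1) || Nat.beq p.2 (ap b y))) &&
  (!(Nat.beq (ap a β) β) || Nat.beq y (ap b y))

/-- The test at a leaf. -/
def leafOK (a b : ℕ) (ts : List ℕ) : Bool :=
  idxL.all fun x => Nat.beq (apL ts (ap a x)) (ap b (apL ts x))

/-- Number of surviving leaves. -/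
def cnt (a b : ℕ) : List (ℕ × List ℕ) → List ℕ → List (ℕ × ℕ) → ℕ
  | [], ts, _ => cond (leafOK a b ts) 1 0
  | (β, T) :: rest, ts, ps =>
      T.foldr (fun t acc =>
        Nat.add (cond (stepOK a b ps β (apL (ts ++ [t]) β))
          (cnt a b rest (ts ++ [t]) ((β, apL (ts ++ [t]) β) :: ps)) 0) acc) 0

/-- The product of a list of codes. -/
noncomputable def prodL (ts : List ℕ) : Equiv.Perm GolayPt := (ts.map decode).prod

theorem prodL_cons (t : ℕ) (ts : List ℕ) : prodL (t :: ts) = decode t * prodL ts := by
  simp [prodL]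

theorem prodL_append (ts : List ℕ) (t : ℕ) : prodL (ts ++ [t]) = prodL ts * decode t := by
  simp [prodL]

theorem prodL_mem {ts : List ℕ} (h : ∀ t ∈ ts, isM24 t = true) : prodL ts ∈ M24 := by
  induction ts with
  | nil => exact M24.one_mem
  | cons t ts ih =>
    rw [prodL_cons]
    exact M24.mul_mem (decode_mem_M24 (h t List.mem_cons_self))
      (ih fun s hs => h s (List.mem_cons_of_mem _ hs))

theorem idx_prodL {ts : List ℕ} (h : ∀ t ∈ ts, isM24 t = true) (p : GolayPt) :
    idx (prodL ts p) = apL ts (idx p) := by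
  induction ts with
  | nil => rfl
  | cons t ts ih =>
    rw [prodL_cons, Equiv.Perm.mul_apply, idx_decode (isM24_valid (h t List.mem_cons_self)),
      ih fun s hs => h s (List.mem_cons_of_mem _ hs)]
    rfl

/-- The levels are correct. -/
def Good : List ℕ → List (ℕ × List ℕ) → Prop
  | pre, [] => ∀ g h : Equiv.Perm GolayPt, g ∈ M24 → h ∈ M24 → (∀ x ∈ pre, g (pt x) = h (pt x)) → g = h
  | pre, (β, T) :: rest => β < 24 ∧ (∀ t ∈ T, isM24 t = true ∧ ∀ x ∈ pre, ap t x = x) ∧
      (∀ g ∈ G pre, ∃ t ∈ T, ap t β = idx (g (pt β))) ∧ Good (β :: pre) rest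

/-- The elements still possible. -/
def S (a b : ℕ) (pre ts : List ℕ) (ps : List (ℕ × ℕ)) : Set (Equiv.Perm GolayPt) :=
  {c | c ∈ M24 ∧ c * decode a = decode b * c ∧ (∀ p ∈ ps, c (pt p.1) = pt p.2) ∧
    ∀ x ∈ pre, c (pt x) = prodL ts (pt x)}

theorem ncard_le_foldr {X ι : Type*} [Finite X] (L : List ι) (F : ι → Set X) (val : ι → ℕ)
    (hval : ∀ t ∈ L, (F t).ncard ≤ val t) (A : Set X) (hA : ∀ c ∈ A, ∃ t ∈ L, c ∈ F t) :
    A.ncard ≤ L.foldr (fun t acc => Nat.add (val t) acc) 0 := by
  induction L generalizing A with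
  | nil =>
    have : A = ∅ := by
      apply Set.eq_empty_of_forall_notMem
      intro c hc
      obtain ⟨t, ht, _⟩ := hA c hc
      cases ht
    rw [this]
    simp
  | cons t L ih =>
    have h1 : A.ncard ≤ (F t).ncard + (A \ F t).ncard := by
      have : A ⊆ F t ∪ (A \ F t) := by
        intro c hc
        by_cases h : c ∈ F t
        · exact Or.inl h
        · exact Or.inr ⟨hc, h⟩
      exact (Set.ncard_le_ncard this (Set.toFinite _)).trans (Set.ncard_union_le _ _)
    have h2 := ih (fun s hs => hval s (List.mem_cons_of_mem _ hs)) (A \ F t) (by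
      rintro c ⟨hc, hcn⟩
      obtain ⟨s, hs, hcs⟩ := hA c hc
      rcases List.mem_cons.mp hs with rfl | hs'
      · exact absurd hcs hcn
      · exact ⟨s, hs', hcs⟩)
    have h3 := hval t List.mem_cons_self
    show A.ncard ≤ Nat.add (val t) _
    show A.ncard ≤ val t + _
    omega

theorem beq_t {a b : ℕ} (h : a = b) : Nat.beq a b = true := by
  subst h
  exact Nat.beq_refl a

theorem beq_f {a b : ℕ} (h : a ≠ b) : Nat.beq a b = false := by
  rw [← Bool.not_eq_true]
  intro h'
  exact h (Nat.eq_of_beq_eq_true h')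

/-- Points from a membership in `ps`. -/
theorem stepOK_of_mem {a b : ℕ} (ha : valid a = true) (hb : valid b = true)
    {ps : List (ℕ × ℕ)} {β y : ℕ} (hβ : β < 24) {c : Equiv.Perm GolayPt}
    (hcomm : c * decode a = decode b * c) (hps : ∀ p ∈ ps, c (pt p.1) = pt p.2)
    (hpslt : ∀ p ∈ ps, p.1 < 24 ∧ p.2 < 24)
    (hy : y < 24) (hcy : c (pt β) = pt y) : stepOK a b ps β y = true := by
  have hbval : ∀ x v, x < 24 → c (pt x) = pt v → v < 24 → c (pt (ap a x)) = pt (ap b v) := by
    intro x v hx hv hvlt
    have h1 := congrArg (fun f : Equiv.Perm GolayPt => f (pt x)) hcomm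
    simp only [Equiv.Perm.mul_apply] at h1
    rw [decode_pt ha hx, hv, decode_pt hb hvlt] at h1
    exact h1
  simp only [stepOK, Bool.and_eq_true, List.all_eq_true, Bool.or_eq_true, Bool.not_eq_true']
  refine ⟨?_, ?_⟩
  · intro p hp
    obtain ⟨hp1, hp2⟩ := hpslt p hp
    have hpc := hps p hp
    refine ⟨?_, ?_⟩
    · by_cases h : ap a p.1 = β
      · right
        have h3 := hbval p.1 p.2 hp1 hpc hp2
        rw [h, hcy] at h3
        exact beq_t (pt_injOn hy (valid_ap_lt hb hp2) h3)
      · left
        exact beq_f h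
    · by_cases h : ap a β = p.1
      · right
        have h3 := hbval β y hβ hcy hy
        rw [h, hpc] at h3
        exact beq_t (pt_injOn hp2 (valid_ap_lt hb hy) h3)
      · left
        exact beq_f h
  · by_cases h : ap a β = β
    · right
      have h3 := hbval β y hβ hcy hy
      rw [h, hcy] at h3
      exact beq_t (pt_injOn hy (valid_ap_lt hb hy) h3)
    · left
      exact beq_f h

theorem ncard_S_le {a b : ℕ} (ha : valid a = true) (hb : valid b = true)
    (rest : List (ℕ × List ℕ)) (pre ts : List ℕ) (ps : List (ℕ × ℕ)) (hg : Good pre rest)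
    (hts : ∀ t ∈ ts, isM24 t = true) (hpre : ∀ x ∈ pre, x < 24)
    (hpslt : ∀ p ∈ ps, p.1 < 24 ∧ p.2 < 24) :
    (S a b pre ts ps).ncard ≤ cnt a b rest ts ps := by
  induction rest generalizing pre ts ps with
  | nil =>
    have hu := prodL_mem hts
    have hsub : ∀ c ∈ S a b pre ts ps, c = prodL ts := fun c hc =>
      hg c (prodL ts) hc.1 hu hc.2.2.2
    by_cases hl : leafOK a b ts = true
    · have h1 : S a b pre ts ps ⊆ {prodL ts} := fun c hc => hsub c hc
      have h2 := Set.ncard_le_ncard h1 (Set.toFinite _)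
      rw [Set.ncard_singleton] at h2
      simp only [cnt, hl, cond_true]
      exact h2
    · have h1 : S a b pre ts ps = ∅ := by
        apply Set.eq_empty_of_forall_notMem
        intro c hc
        apply hl
        have hcu := hsub c hc
        have hcomm := hc.2.1
        simp only [leafOK, List.all_eq_true]
        intro x hx
        have hx' : x < 24 := mem_idxL.mp hx
        have h2 := congrArg (fun f : Equiv.Perm GolayPt => idx (f (pt x))) hcomm
        simp only [Equiv.Perm.mul_apply] at h2
        rw [hcu, idx_decode hb, idx_prodL hts, decode_pt ha hx', idx_prodL hts,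
          idx_pt (valid_ap_lt ha hx'), idx_pt hx'] at h2
        exact beq_t h2
      rw [h1]
      simp
  | cons lvl rest ih =>
    obtain ⟨β, T⟩ := lvl
    obtain ⟨hβ, hT, hcov, hg'⟩ := hg
    simp only [cnt]
    refine ncard_le_foldr T
      (fun t => if stepOK a b ps β (apL (ts ++ [t]) β) = true then
        S a b (β :: pre) (ts ++ [t]) ((β, apL (ts ++ [t]) β) :: ps) else ∅)
      (fun t => cond (stepOK a b ps β (apL (ts ++ [t]) β))
        (cnt a b rest (ts ++ [t]) ((β, apL (ts ++ [t]) β) :: ps)) 0) ?_ _ ?_
    · intro t ht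
      have hts' : ∀ s ∈ ts ++ [t], isM24 s = true := by
        intro s hs
        rcases List.mem_append.mp hs with hs | hs
        · exact hts s hs
        · rw [List.mem_singleton.mp hs]
          exact (hT t ht).1
      by_cases hst : stepOK a b ps β (apL (ts ++ [t]) β) = true
      · simp only [hst, if_true, cond_true]
        refine ih _ _ _ hg' hts' ?_ ?_
        · intro x hx
          rcases List.mem_cons.mp hx with rfl | hx
          · exact hβ
          · exact hpre x hx
        · intro p hp
          rcases List.mem_cons.mp hp with rfl | hp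
          · refine ⟨hβ, ?_⟩
            show apL (ts ++ [t]) β < 24
            have := idx_prodL hts' (pt β)
            rw [idx_pt hβ] at this
            rw [← this]
            exact idx_lt _
          · exact hpslt p hp
      · simp [hst]
    · intro c hc
      have hu := prodL_mem hts
      have hgm : (prodL ts)⁻¹ * c ∈ G pre := by
        refine ⟨M24.mul_mem (M24.inv_mem hu) hc.1, fun x hx => ?_⟩
        rw [Equiv.Perm.mul_apply, hc.2.2.2 x hx]
        simp
      obtain ⟨t, ht, htc⟩ := hcov _ hgm
      have hts' : ∀ s ∈ ts ++ [t], isM24 s = true := by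
        intro s hs
        rcases List.mem_append.mp hs with hs | hs
        · exact hts s hs
        · rw [List.mem_singleton.mp hs]
          exact (hT t ht).1
      have hvt : valid t = true := isM24_valid (hT t ht).1
      have hprod : prodL (ts ++ [t]) (pt β) = c (pt β) := by
        rw [prodL_append, Equiv.Perm.mul_apply, decode_pt hvt hβ, htc, pt_idx]
        simp
      have hy : apL (ts ++ [t]) β = idx (c (pt β)) := by
        have := idx_prodL hts' (pt β)
        rw [idx_pt hβ, hprod] at this
        exact this.symm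
      have hcy : c (pt β) = pt (apL (ts ++ [t]) β) := by
        rw [hy, pt_idx]
      have hst : stepOK a b ps β (apL (ts ++ [t]) β) = true :=
        stepOK_of_mem ha hb hβ hc.2.1 hc.2.2.1 hpslt (by rw [hy]; exact idx_lt _) hcy
      refine ⟨t, ht, ?_⟩
      simp only [hst, if_true]
      refine ⟨hc.1, hc.2.1, ?_, ?_⟩
      · intro p hp
        rcases List.mem_cons.mp hp with rfl | hp
        · exact hcy
        · exact hc.2.2.1 p hp
      · intro x hx
        rcases List.mem_cons.mp hx with rfl | hx
        · exact hprod.symm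
        · rw [prodL_append, Equiv.Perm.mul_apply, decode_pt hvt (hpre x hx),
            (hT t ht).2 x hx, hc.2.2.2 x hx]

/-- The number of intertwiners in `G pre`. -/
theorem ncard_inter_le {a b : ℕ} (ha : valid a = true) (hb : valid b = true)
    {pre : List ℕ} {rest : List (ℕ × List ℕ)} (hg : Good pre rest) (hpre : ∀ x ∈ pre, x < 24) :
    {c : Equiv.Perm GolayPt | c ∈ G pre ∧ c * decode a = decode b * c}.ncard ≤
      cnt a b rest [] (pre.map fun x => (x, x)) := by
  refine le_trans (Set.ncard_le_ncard ?_ (Set.toFinite _))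
    (ncard_S_le ha hb rest pre [] _ hg (by simp) hpre ?_)
  · rintro c ⟨hc, hcomm⟩
    refine ⟨hc.1, hcomm, ?_, ?_⟩
    · intro p hp
      obtain ⟨x, hx, rfl⟩ := List.mem_map.mp hp
      exact hc.2 x hx
    · intro x hx
      rw [hc.2 x hx]
      rfl
  · intro p hp
    obtain ⟨x, hx, rfl⟩ := List.mem_map.mp hp
    exact ⟨hpre x hx, hpre x hx⟩

/-! ### The chains of `M24` and `M22` -/

/-- The chain of `M22`. -/
def chain22 : List (ℕ × List ℕ) := [(1, T3), (2, T4), (3, T5), (5, T6), (4, T7)]

/-- The chain of `M24`. -/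
def chain24 : List (ℕ × List ℕ) := (23, T1) :: (0, T2) :: chain22

theorem levelT {pre : List ℕ} {b : ℕ} {Ls T : List ℕ} (h : levelOK pre b Ls T = true) :
    ∀ t ∈ T, isM24 t = true ∧ ∀ x ∈ pre, ap t x = x := by
  simp only [levelOK, Bool.and_eq_true, List.all_eq_true] at h
  intro t ht
  obtain ⟨h1, h2⟩ := h.1 t ht
  exact ⟨h1, fun x hx => Nat.eq_of_beq_eq_true (h2 x hx)⟩

theorem levelC {pre : List ℕ} {b : ℕ} {Ls T : List ℕ} (h : levelOK pre b Ls T = true)
    (hin : ∀ g ∈ G pre, idx (g (pt b)) ∈ Ls) :
    ∀ g ∈ G pre, ∃ t ∈ T, ap t b = idx (g (pt b)) := by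
  simp only [levelOK, Bool.and_eq_true, List.all_eq_true, List.any_eq_true] at h
  intro g hg
  obtain ⟨t, ht, h2⟩ := h.2 _ (hin g hg)
  exact ⟨t, ht, Nat.eq_of_beq_eq_true h2⟩

theorem levelIn {l : List ℕ} {b : ℕ} {Ls : List ℕ} (hb : b < 24) (hl : ∀ x ∈ l, x < 24)
    (hbl : b ∉ l) (hc : coverOK l Ls = true) : ∀ g ∈ G l, idx (g (pt b)) ∈ Ls :=
  fun g hg => mem_of_coverOK hc (idx_lt _) (G_moves hb hl hbl hg)

theorem good22 : Good [0, 23] chain22 := by
  refine ⟨by norm_num, levelT level3, levelC level3 (levelIn (by norm_num) (by decide) (by decide)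
    (by decide +kernel)), by norm_num, levelT level4, levelC level4 (levelIn (by norm_num) (by decide)
    (by decide) (by decide +kernel)), by norm_num, levelT level5, levelC level5 (levelIn (by norm_num)
    (by decide) (by decide) (by decide +kernel)), by norm_num, levelT level6, levelC level6 L6_in,
    by norm_num, levelT level7, levelC level7 L7_in, ?_⟩
  intro g h hg hh hag
  exact eq_of_agree_base hg hh hag

theorem good24 : Good [] chain24 := by
  refine ⟨by norm_num, levelT level1, levelC level1 (levelIn (by norm_num) (by decide) (by decide)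
    (by decide +kernel)), by norm_num, levelT level2, levelC level2 (levelIn (by norm_num) (by decide)
    (by decide) (by decide +kernel)), good22⟩

end Cfsg.Agent.Lib.GolaySearch
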