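import Mathlib
import Cfsg.Agent.Lib.GolaySearch
import Cfsg.Agent.Lib.ClassTab
import Cfsg.Agent.Lib.PermChar

/-!
# Class tables of the stabilisers in `M24`
-/

set_option autoImplicit false
set_option maxRecDepth 100000
set_option linter.style.haveILetI false
set_option linter.unusedVariables false
set_option linter.unusedSectionVars false

namespace Cfsg.Agent.Lib.GolayTab

open Cfsg Cfsg.Agent.Lib.Golay Cfsg.Agent.Lib.GolaySearch Cfsg.Agent.Lib.ClassTab
open Cfsg.Agent.Lib.CharBasic Cfsg.Agent.Lib.GenChar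
open scoped Pointwise

/-- The membership test. -/
def inG (pre : List ℕ) (c : ℕ) : Bool := isM24 c && pre.all fun x => Nat.beq (ap c x) x

theorem mem_G_of_inG {pre : List ℕ} {c : ℕ} (hpre : ∀ x ∈ pre, x < 24) (h : inG pre c = true) :
    decode c ∈ G pre := by
  simp only [inG, Bool.and_eq_true, List.all_eq_true] at h
  refine ⟨decode_mem_M24 h.1, fun x hx => ?_⟩
  rw [decode_pt (isM24_valid h.1) (hpre x hx), Nat.eq_of_beq_eq_true (h.2 x hx)]

section Tab

variable {pre : List ℕ} {rest : List (ℕ × List ℕ)}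

/-- An element of the stabiliser. -/
noncomputable def elt (hpre : ∀ x ∈ pre, x < 24) (c : ℕ) (h : inG pre c = true) : ↥(G pre) :=
  ⟨decode c, mem_G_of_inG hpre h⟩

theorem valid_of_inG {c : ℕ} (h : inG pre c = true) : valid c = true := by
  simp only [inG, Bool.and_eq_true] at h
  exact isM24_valid h.1

theorem card_cent_le (hg : Good pre rest) (hpre : ∀ x ∈ pre, x < 24) {c : ℕ} (h : inG pre c = true) :
    Nat.card (Subgroup.centralizer ({elt hpre c h} : Set ↥(G pre))) ≤
      cnt c c rest [] (pre.map fun x => (x, x)) := by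
  refine le_trans ?_ (ncard_inter_le (valid_of_inG h) (valid_of_inG h) hg hpre)
  rw [← Nat.card_coe_set_eq]
  refine Nat.card_le_card_of_injective
    (fun x => ⟨(x.1 : Equiv.Perm GolayPt), x.1.2, ?_⟩) ?_
  · have h1 := Subgroup.mem_centralizer_singleton_iff.mp x.2
    exact congrArg Subtype.val h1
  · intro x y hxy
    apply Subtype.ext
    apply Subtype.ext
    exact Subtype.mk.inj hxy

theorem not_conj_of_cnt (hg : Good pre rest) (hpre : ∀ x ∈ pre, x < 24) {a b : ℕ}
    (ha : inG pre a = true) (hb : inG pre b = true)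
    (h0 : cnt a b rest [] (pre.map fun x => (x, x)) = 0) : ¬ IsConj (elt hpre a ha) (elt hpre b hb) := by
  intro hc
  rw [isConj_iff] at hc
  obtain ⟨c, hc⟩ := hc
  have h1 := ncard_inter_le (valid_of_inG ha) (valid_of_inG hb) hg hpre
  rw [h0] at h1
  have h2 : {c : Equiv.Perm GolayPt | c ∈ G pre ∧ c * decode a = decode b * c} = ∅ := by
    have := Nat.le_zero.mp h1
    exact (Set.ncard_eq_zero (Set.toFinite _)).mp this
  have h3 : (c : Equiv.Perm GolayPt) ∈
      {c : Equiv.Perm GolayPt | c ∈ G pre ∧ c * decode a = decode b * c} := by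
    refine ⟨c.2, ?_⟩
    have h4 : (c : Equiv.Perm GolayPt) * decode a * (c : Equiv.Perm GolayPt)⁻¹ = decode b :=
      congrArg Subtype.val hc
    rw [← h4]
    group
  rw [h2] at h3
  exact h3

/-- The number of fixed points of a power of a code. -/
def sigAt (c k : ℕ) : ℕ := fixCount ((ap c)^[k])

theorem repBy_iter {c : ℕ} (hv : valid c = true) (k : ℕ) :
    RepBy (decode c ^ k) ((ap c)^[k]) := by
  induction k with
  | zero =>
    intro p
    rfl
  | succ k ih =>
    intro p
    rw [pow_succ, Equiv.Perm.mul_apply, ih, idx_decode hv, Function.iterate_succ_apply]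

theorem sigAt_eq {c : ℕ} (hv : valid c = true) (k : ℕ) :
    sigAt c k = (Finset.univ.filter fun p => (decode c ^ k) p = p).card :=
  (card_fixed_repBy (repBy_iter hv k)).symm

theorem not_conj_of_sig (hpre : ∀ x ∈ pre, x < 24) {a b : ℕ}
    (ha : inG pre a = true) (hb : inG pre b = true) {k : ℕ}
    (h : sigAt a k ≠ sigAt b k) : ¬ IsConj (elt hpre a ha) (elt hpre b hb) := by
  intro hc
  rw [isConj_iff] at hc
  obtain ⟨c, hc⟩ := hc
  apply h
  rw [sigAt_eq (valid_of_inG ha), sigAt_eq (valid_of_inG hb)]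
  have h4 : (c : Equiv.Perm GolayPt) * decode a * (c : Equiv.Perm GolayPt)⁻¹ = decode b :=
    congrArg Subtype.val hc
  rw [← h4, conj_pow, card_fixed_conj]

/-- The test for two codes to be not conjugate. -/
def ncOK (pre : List ℕ) (rest : List (ℕ × List ℕ)) (exps : List ℕ) (a b : ℕ) : Bool :=
  (exps.any fun k => !(Nat.beq (sigAt a k) (sigAt b k))) ||
    Nat.beq (cnt a b rest [] (pre.map fun x => (x, x))) 0

theorem not_conj_of_ncOK (hg : Good pre rest) (hpre : ∀ x ∈ pre, x < 24) {exps : List ℕ} {a b : ℕ}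
    (ha : inG pre a = true) (hb : inG pre b = true) (h : ncOK pre rest exps a b = true) :
    ¬ IsConj (elt hpre a ha) (elt hpre b hb) := by
  simp only [ncOK, Bool.or_eq_true, List.any_eq_true, Bool.not_eq_true'] at h
  rcases h with ⟨k, _, hk⟩ | h
  · refine not_conj_of_sig hpre ha hb (k := k) ?_
    intro he
    rw [he, beq_t rfl] at hk
    exact Bool.noConfusion hk
  · exact not_conj_of_cnt hg hpre ha hb (Nat.eq_of_beq_eq_true h)

/-- The class table from a list of codes. -/
noncomputable def mkTab (hg : Good pre rest) (hpre : ∀ x ∈ pre, x < 24) {n : ℕ} (code : Fin n → ℕ)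
    (exps : List ℕ) (hcode : ∀ i, inG pre (code i) = true) (cc cs : Fin n → ℕ)
    (i0 : Fin n) (hi0 : Nat.card ↥(G pre) ≤ cc i0)
    (hcnt : ∀ i, i ≠ i0 → cnt (code i) (code i) rest [] (pre.map fun x => (x, x)) ≤ cc i)
    (hnc : ∀ i j, i ≠ j → ncOK pre rest exps (code i) (code j) = true)
    (hmul : ∀ i, cs i * cc i = Nat.card ↥(G pre)) (hpos : ∀ i, 0 < cc i)
    (hsum : ∑ i, cs i = Nat.card ↥(G pre)) : Tab ↥(G pre) n where
  r i := elt hpre (code i) (hcode i)
  cc := cc
  cs := cs
  cent_le i := by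
    by_cases h : i = i0
    · subst h
      refine le_trans ?_ hi0
      exact Nat.card_le_card_of_injective (Subtype.val) Subtype.val_injective
    · exact (card_cent_le hg hpre (hcode i)).trans (hcnt i h)
  not_conj i j hij := not_conj_of_ncOK hg hpre (hcode i) (hcode j) (hnc i j hij)
  mul_eq := hmul
  cc_pos := hpos
  sum_eq := hsum

end Tab

/-- The test that a list is increasing. -/
def incL : List ℕ → Bool
  | [] => true
  | [_] => true
  | a :: b :: l => Nat.blt a b && incL (b :: l)

theorem pairwise_of_incL : ∀ {l : List ℕ}, incL l = true → l.Pairwise (· < ·)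
  | [], _ => List.Pairwise.nil
  | [_], _ => List.pairwise_singleton _ _
  | a :: b :: l, h => by
    simp only [incL, Bool.and_eq_true] at h
    have h1 := pairwise_of_incL h.2
    have h2 : a < b := by
      have := h.1
      simpa [Nat.blt_eq] using this
    refine List.pairwise_cons.mpr ⟨fun x hx => ?_, h1⟩
    rcases List.mem_cons.mp hx with rfl | hx
    · exact h2
    · exact h2.trans ((List.pairwise_cons.mp h1).1 x hx)

theorem octL_nodup : octL.Nodup :=
  (pairwise_of_incL (l := octL) (by decide +kernel)).imp fun h => ne_of_lt h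

theorem dodL_nodup : dodL.Nodup :=
  (pairwise_of_incL (l := dodL) (by decide +kernel)).imp fun h => ne_of_lt h

/-! ### Characters from families of subsets -/

section Fam

variable (H : Subgroup (Equiv.Perm GolayPt))

/-- The number of masks fixed by a code. -/
def fixL (F : List ℕ) (c : ℕ) : ℕ := (F.filter fun m => Nat.beq (img c m) m).length

theorem fam_isChar (F : List ℕ) (hnd : F.Nodup) (hlt : ∀ m ∈ F, m < 2 ^ 24)
    (hst : ∀ g ∈ H, ∀ m ∈ F, toMask (g • ofMask m) ∈ F) :
    ∃ f : ↥H → ℂ, IsCharacter ↥H f ∧ ∀ (g : ↥H) (c : ℕ), valid c = true →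
      (g : Equiv.Perm GolayPt) = decode c → f g = (fixL F c : ℂ) := by
  classical
  letI act : MulAction ↥H {m // m ∈ F.toFinset} :=
    { smul := fun g m => ⟨toMask ((g : Equiv.Perm GolayPt) • ofMask m.1), by
        have h1 := List.mem_toFinset.mp m.2
        exact List.mem_toFinset.mpr (hst g g.2 m.1 h1)⟩
      one_smul := fun m => by
        apply Subtype.ext
        show toMask (((1 : ↥H) : Equiv.Perm GolayPt) • ofMask m.1) = m.1
        rw [Subgroup.coe_one, one_smul, toMask_ofMask (hlt _ (List.mem_toFinset.mp m.2))]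
      mul_smul := fun g h m => by
        apply Subtype.ext
        show toMask (((g * h : ↥H) : Equiv.Perm GolayPt) • ofMask m.1) =
          toMask ((g : Equiv.Perm GolayPt) • ofMask (toMask ((h : Equiv.Perm GolayPt) • ofMask m.1)))
        rw [ofMask_toMask, Subgroup.coe_mul, mul_smul] }
  refine ⟨Cfsg.Agent.Lib.PermChar.pc ↥H {m // m ∈ F.toFinset},
    Cfsg.Agent.Lib.PermChar.isCharacter_pc, ?_⟩
  intro g c hv hgc
  show ((Nat.card (MulAction.fixedBy {m // m ∈ F.toFinset} g) : ℕ) : ℂ) = _
  congr 1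
  unfold fixL
  rw [← List.toFinset_card_of_nodup (hnd.filter _), ← Nat.card_eq_finsetCard]
  refine Nat.card_congr
    { toFun := fun x => ⟨x.1.1, ?_⟩
      invFun := fun y => ⟨⟨y.1, ?_⟩, ?_⟩
      left_inv := fun x => rfl
      right_inv := fun y => rfl }
  · have hm := List.mem_toFinset.mp x.1.2
    refine List.mem_toFinset.mpr (List.mem_filter.mpr ⟨hm, ?_⟩)
    have h1 : toMask ((g : Equiv.Perm GolayPt) • ofMask x.1.1) = x.1.1 :=
      congrArg Subtype.val x.2
    rw [hgc, decode_smul_ofMask hv, toMask_ofMask (img_lt hv _)] at h1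
    exact beq_t h1
  · have hm := List.mem_toFinset.mp y.2
    exact List.mem_toFinset.mpr (List.mem_filter.mp hm).1
  · have hm := List.mem_toFinset.mp y.2
    have hf := (List.mem_filter.mp hm).2
    apply Subtype.ext
    show toMask ((g : Equiv.Perm GolayPt) • ofMask y.1) = y.1
    rw [hgc, decode_smul_ofMask hv, toMask_ofMask (img_lt hv _)]
    exact Nat.eq_of_beq_eq_true hf

/-- The character on the 24 points. -/
theorem pts_isChar : ∃ f : ↥H → ℂ, IsCharacter ↥H f ∧ ∀ (g : ↥H) (c : ℕ), valid c = true →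
    (g : Equiv.Perm GolayPt) = decode c → f g = (fixCount (ap c) : ℂ) := by
  classical
  refine ⟨Cfsg.Agent.Lib.PermChar.pc ↥H GolayPt, Cfsg.Agent.Lib.PermChar.isCharacter_pc, ?_⟩
  intro g c hv hgc
  show ((Nat.card (MulAction.fixedBy GolayPt g) : ℕ) : ℂ) = _
  congr 1
  have h1 := card_fixed_repBy (repBy_decode hv)
  rw [← hgc] at h1
  unfold fixCount
  rw [← h1, ← Nat.card_eq_finsetCard]
  exact Nat.card_congr (Equiv.subtypeEquivRight fun p => by
    simp only [MulAction.mem_fixedBy, Finset.mem_filter, Finset.mem_univ, true_and]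
    exact Iff.rfl)

variable {H}

/-- Stable sublists of the octads. -/
theorem stable_oct (hH : H ≤ M24) (p : ℕ → Bool)
    (hp : ∀ g ∈ H, ∀ m ∈ octL, p (toMask (g • ofMask m)) = p m) :
    ∀ g ∈ H, ∀ m ∈ octL.filter p, toMask (g • ofMask m) ∈ octL.filter p := by
  intro g hg m hm
  obtain ⟨hm1, hm2⟩ := List.mem_filter.mp hm
  refine List.mem_filter.mpr ⟨?_, by rw [hp g hg m hm1]; exact hm2⟩
  exact (mem_octads_iff_list _).mp (smul_mem_octads (hH hg) (ofMask_mem_octads hm1))

/-- Stable sublists of the dodecads. -/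
theorem stable_dod (hH : H ≤ M24) (p : ℕ → Bool)
    (hp : ∀ g ∈ H, ∀ m ∈ dodL, p (toMask (g • ofMask m)) = p m) :
    ∀ g ∈ H, ∀ m ∈ dodL.filter p, toMask (g • ofMask m) ∈ dodL.filter p := by
  intro g hg m hm
  obtain ⟨hm1, hm2⟩ := List.mem_filter.mp hm
  refine List.mem_filter.mpr ⟨?_, by rw [hp g hg m hm1]; exact hm2⟩
  exact (mem_dodecads_iff_list _).mp (smul_mem_dodecads (hH hg) (ofMask_mem_dodecads hm1))

end Fam

/-- A test for a subset to contain the fixed points in a prescribed pattern. -/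
def pat (pre : List (ℕ × Bool)) (m : ℕ) : Bool :=
  pre.all fun x => (m.testBit x.1) == x.2

theorem testBit_smul {g : Equiv.Perm GolayPt} {x : ℕ} (hx : x < 24) (hg : g (pt x) = pt x)
    {m : ℕ} : (toMask (g • ofMask m)).testBit x = m.testBit x := by
  have h1 := testBit_toMask (g • ofMask m) (pt x)
  rw [idx_pt hx] at h1
  rw [h1]
  have h2 : pt x ∈ g • ofMask m ↔ pt x ∈ ofMask m := by
    rw [Finset.mem_smul_finset]
    constructor
    · rintro ⟨y, hy, hyx⟩
      have : y = pt x := by
        apply g.injective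
        rw [hg]
        exact hyx
      rwa [this] at hy
    · intro h
      exact ⟨pt x, h, hg⟩
  rw [mem_ofMask, idx_pt hx] at h2
  by_cases h : m.testBit x = true
  · rw [h]
    simpa using h2.mpr h
  · have h3 : (m.testBit x) = false := by simpa using h
    rw [h3]
    simpa [h3] using h2

theorem pat_smul {pre : List (ℕ × Bool)} {g : Equiv.Perm GolayPt}
    (hg : ∀ x ∈ pre, x.1 < 24 ∧ g (pt x.1) = pt x.1) (m : ℕ) :
    pat pre (toMask (g • ofMask m)) = pat pre m := by
  unfold pat
  induction pre with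
  | nil => rfl
  | cons y ys ih =>
    simp only [List.all_cons]
    rw [testBit_smul (hg y (List.mem_cons_self ..)).1 (hg y (List.mem_cons_self ..)).2,
      ih (fun x hx => hg x (List.mem_cons_of_mem _ hx))]

/-! ### Generalized characters on the class table -/

section Gen

variable {pre : List ℕ} {n : ℕ} (T : Tab ↥(G pre) n) (code : Fin n → ℕ)
  (hr : ∀ i, ((T.r i : ↥(G pre)) : Equiv.Perm GolayPt) = decode (code i))
  (hv : ∀ i, valid (code i) = true)

include hr hv

theorem gen_pts {w : ℂ} (A : Fin n → ℤ) (hA : ∀ i, (fixCount (ap (code i)) : ℤ) = A i) :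
    GVW T w A 0 := by
  obtain ⟨f, hf, hval⟩ := pts_isChar (G pre)
  refine T.isGen_of_values hf fun i => ?_
  rw [hval _ _ (hv i) (hr i)]
  simp only [vw, Pi.zero_apply, Int.cast_zero, zero_mul, add_zero]
  rw [← hA]
  simp

theorem gen_fam {w : ℂ} (F : List ℕ) (hnd : F.Nodup) (hlt : ∀ m ∈ F, m < 2 ^ 24)
    (hst : ∀ g ∈ G pre, ∀ m ∈ F, toMask (g • ofMask m) ∈ F)
    (A : Fin n → ℤ) (hA : ∀ i, (fixL F (code i) : ℤ) = A i) : GVW T w A 0 := by
  obtain ⟨f, hf, hval⟩ := fam_isChar (G pre) F hnd hlt hst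
  refine T.isGen_of_values hf fun i => ?_
  rw [hval _ _ (hv i) (hr i)]
  simp only [vw, Pi.zero_apply, Int.cast_zero, zero_mul, add_zero]
  rw [← hA]
  simp

end Gen


/-! ### Powers of the representatives -/

section Pow

variable {pre : List ℕ} {n : ℕ} (T : Tab ↥(G pre) n) (code : Fin n → ℕ)
  (hr : ∀ i, ((T.r i : ↥(G pre)) : Equiv.Perm GolayPt) = decode (code i))
  (hv : ∀ i, valid (code i) = true)

/-- The test that `u` conjugates `c` to the `k`-th power of `a`. -/
def powOK (pre : List ℕ) (a k u c : ℕ) : Bool :=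
  inG pre u && idxL.all fun x => Nat.beq (ap u (ap c x)) ((ap a)^[k] (ap u x))

include hr hv

theorem cl_pow (hpre : ∀ x ∈ pre, x < 24) {i j : Fin n} {k u : ℕ}
    (h : powOK pre (code i) k u (code j) = true) : T.cl (T.r i ^ k) = j := by
  simp only [powOK, Bool.and_eq_true, List.all_eq_true] at h
  obtain ⟨hu, he⟩ := h
  apply T.cl_eq_of_conj
  rw [isConj_iff]
  refine ⟨elt hpre u hu, ?_⟩
  have hvu := valid_of_inG hu
  have h1 : decode u * decode (code j) = decode (code i) ^ k * decode u := by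
    refine comm_of_repBy (repBy_decode hvu) (repBy_decode (hv j)) (repBy_iter (hv i) k) ?_
    intro x hx
    exact Nat.eq_of_beq_eq_true (he x (mem_idxL.mpr hx))
  apply Subtype.ext
  show decode u * ((T.r j : ↥(G pre)) : Equiv.Perm GolayPt) * (decode u)⁻¹ =
    ((T.r i : ↥(G pre)) : Equiv.Perm GolayPt) ^ k
  rw [hr i, hr j, h1]
  group

/-- The test for the order of a code. -/
def orderOK (a m : ℕ) : Bool :=
  Nat.beq (sigAt a m) 24 && (List.range m).all fun k => Nat.beq k 0 || !(Nat.beq (sigAt a k) 24)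

theorem order_eq {m' : ℕ} (hm : 0 < m') {i : Fin n} (h : orderOK (code i) m' = true) :
    orderOf (T.r i) = m' := by
  have key : ∀ k, T.r i ^ k = 1 ↔ sigAt (code i) k = 24 := by
    intro k
    rw [sigAt_eq (hv i) k]
    constructor
    · intro h1
      have h2 : decode (code i) ^ k = 1 := by
        rw [← hr i]
        exact_mod_cast congrArg Subtype.val h1
      rw [h2]
      simp
    · intro h1
      have h2 : (Finset.univ.filter fun p => (decode (code i) ^ k) p = p) = Finset.univ := by
        apply Finset.eq_univ_of_card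
        rw [h1, card_pt]
      apply Subtype.ext
      show ((T.r i : ↥(G pre)) : Equiv.Perm GolayPt) ^ k = 1
      rw [hr i]
      apply Equiv.ext
      intro p
      have h3 := Finset.mem_univ p
      rw [← h2, Finset.mem_filter] at h3
      exact h3.2
  simp only [orderOK, Bool.and_eq_true, List.all_eq_true, Bool.or_eq_true, Bool.not_eq_true'] at h
  rw [orderOf_eq_iff hm]
  refine ⟨(key m').mpr (Nat.eq_of_beq_eq_true h.1), fun k hk hk0 h1 => ?_⟩
  rcases h.2 k (List.mem_range.mpr hk) with h2 | h2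
  · have := Nat.eq_of_beq_eq_true h2
    omega
  · rw [beq_t ((key k).mp h1)] at h2
    exact Bool.noConfusion h2

end Pow

/-- A character from the octads with a prescribed pattern on the fixed points. -/
theorem gen_oct_pat {pre : List ℕ} {n : ℕ} (T : Tab ↥(G pre) n) (code : Fin n → ℕ)
    (hr : ∀ i, ((T.r i : ↥(G pre)) : Equiv.Perm GolayPt) = decode (code i))
    (hv : ∀ i, valid (code i) = true) {w : ℂ} (P : List (ℕ × Bool))
    (hP : ∀ x ∈ P, x.1 < 24 ∧ x.1 ∈ pre) (A : Fin n → ℤ)
    (hA : ∀ i, (fixL (octL.filter (pat P)) (code i) : ℤ) = A i) : GVW T w A 0 := by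
  refine gen_fam T code hr hv _ (octL_nodup.filter _) (fun m hm => ?_) ?_ A hA
  · exact lt_of_mem_octL (List.mem_filter.mp hm).1
  · refine stable_oct (H := G pre) (fun g hg => hg.1) (pat P) fun g hg m _ => pat_smul ?_ m
    intro x hx
    exact ⟨(hP x hx).1, hg.2 x.1 (hP x hx).2⟩

/-- A character from the dodecads with a prescribed pattern on the fixed points. -/
theorem gen_dod_pat {pre : List ℕ} {n : ℕ} (T : Tab ↥(G pre) n) (code : Fin n → ℕ)
    (hr : ∀ i, ((T.r i : ↥(G pre)) : Equiv.Perm GolayPt) = decode (code i))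
    (hv : ∀ i, valid (code i) = true) {w : ℂ} (P : List (ℕ × Bool))
    (hP : ∀ x ∈ P, x.1 < 24 ∧ x.1 ∈ pre) (A : Fin n → ℤ)
    (hA : ∀ i, (fixL (dodL.filter (pat P)) (code i) : ℤ) = A i) : GVW T w A 0 := by
  refine gen_fam T code hr hv _ (dodL_nodup.filter _) (fun m hm => ?_) ?_ A hA
  · exact lt_of_mem_dodL (List.mem_filter.mp hm).1
  · refine stable_dod (H := G pre) (fun g hg => hg.1) (pat P) fun g hg m _ => pat_smul ?_ m
    intro x hx
    exact ⟨(hP x hx).1, hg.2 x.1 (hP x hx).2⟩

end Cfsg.Agent.Lib.GolayTab
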