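import Mathlib
import Cfsg.Agent.Lib.GolayTab

/-!
# Centralizer orders along the stabiliser chain

The order of a centralizer is bounded by the product over the levels of the chain of the number of
points that the image of the base point can be.
-/

set_option autoImplicit false
set_option maxRecDepth 100000
set_option linter.style.haveILetI false
set_option linter.unusedVariables false
set_option linter.unusedSectionVars false

namespace Cfsg.Agent.Lib.GolayCent

open Cfsg Cfsg.Agent.Lib.Golay Cfsg.Agent.Lib.GolaySearch Cfsg.Agent.Lib.ClassTab
open Cfsg.Agent.Lib.GolayTab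

/-- The test along the chain: at each level, each candidate is listed or is refuted. -/
def chainOK (a : ℕ) : List (ℕ × List ℕ) → List (ℕ × ℕ) → List (List ℕ) → Bool
  | [], _, [] => true
  | (β, T) :: rest, prs, keep :: keeps =>
      (T.all fun t => keep.any (Nat.beq (ap t β)) || !(stepOK a a prs β (ap t β)) ||
         Nat.beq (cnt a a rest [t] ((β, ap t β) :: prs)) 0) &&
      chainOK a rest ((β, β) :: prs) keeps
  | _, _, _ => false

/-- The elements of a stabiliser commuting with a code. -/
def Cn (a : ℕ) (pre : List ℕ) : Set (Equiv.Perm GolayPt) :=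
  {c | c ∈ G pre ∧ c * decode a = decode a * c}

theorem foldr_const {ι : Type*} (L : List ι) (N : ℕ) :
    L.foldr (fun _ acc => Nat.add N acc) 0 = L.length * N := by
  induction L with
  | nil => simp
  | cons x L ih =>
    simp only [List.foldr_cons, ih, List.length_cons]
    show N + L.length * N = _
    ring

theorem ncard_Cn_le {a : ℕ} (ha : valid a = true) :
    ∀ (rest : List (ℕ × List ℕ)) (pre : List ℕ) (prs : List (ℕ × ℕ)) (keeps : List (List ℕ)),
      Good pre rest → (∀ x ∈ pre, x < 24) → (∀ p ∈ prs, p.1 ∈ pre ∧ p.2 = p.1) →
      chainOK a rest prs keeps = true →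
      (Cn a pre).ncard ≤ (keeps.map List.length).prod := by
  intro rest
  induction rest with
  | nil =>
    intro pre prs keeps hg hpre hprs h
    cases keeps with
    | nil =>
      have h1 : Cn a pre ⊆ {1} := by
        intro c hc
        exact hg c 1 hc.1.1 M24.one_mem (fun x hx => hc.1.2 x hx)
      have h2 := Set.ncard_le_ncard h1 (Set.toFinite _)
      rw [Set.ncard_singleton] at h2
      simpa using h2
    | cons k keeps =>
      simp [chainOK] at h
  | cons lvl rest ih =>
    intro pre prs keeps hg hpre hprs h
    obtain ⟨β, T⟩ := lvl
    cases keeps with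
    | nil =>
      simp [chainOK] at h
    | cons keep keeps =>
      simp only [chainOK, Bool.and_eq_true, List.all_eq_true] at h
      obtain ⟨hT0, h2⟩ := h
      obtain ⟨hβ, hT, hcov, hg'⟩ := hg
      have hpre' : ∀ x ∈ β :: pre, x < 24 := by
        intro x hx
        rcases List.mem_cons.mp hx with rfl | hx
        · exact hβ
        · exact hpre x hx
      have hprs' : ∀ p ∈ (β, β) :: prs, p.1 ∈ β :: pre ∧ p.2 = p.1 := by
        intro p hp
        rcases List.mem_cons.mp hp with rfl | hp
        · exact ⟨List.mem_cons_self .., rfl⟩
        · exact ⟨List.mem_cons_of_mem _ (hprs p hp).1, (hprs p hp).2⟩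
      have hIH := ih (β :: pre) ((β, β) :: prs) keeps hg' hpre' hprs' h2
      set N := (Cn a (β :: pre)).ncard with hN
      have hprslt : ∀ p ∈ prs, p.1 < 24 ∧ p.2 < 24 := by
        intro p hp
        have h1 := hpre _ (hprs p hp).1
        rw [(hprs p hp).2]
        exact ⟨h1, h1⟩
      -- each element has its image listed
      have hcovK : ∀ c ∈ Cn a pre, ∃ y ∈ keep, c ∈ {c | c ∈ Cn a pre ∧ c (pt β) = pt y} := by
        intro c hc
        obtain ⟨t, ht, htc⟩ := hcov c hc.1
        have hcy : c (pt β) = pt (ap t β) := by
          rw [htc, pt_idx]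
        have hy24 : ap t β < 24 := by
          rw [htc]
          exact idx_lt _
        have hfix : ∀ p ∈ prs, c (pt p.1) = pt p.2 := by
          intro p hp
          rw [(hprs p hp).2]
          exact hc.1.2 _ (hprs p hp).1
        have hst : stepOK a a prs β (ap t β) = true :=
          stepOK_of_mem ha ha hβ hc.2 hfix hprslt hy24 hcy
        have htest := hT0 t ht
        simp only [Bool.or_eq_true, hst, Bool.not_true, Bool.false_eq_true, or_false] at htest
        rcases htest with h3 | h3
        · obtain ⟨y, hy, hyb⟩ := List.any_eq_true.mp h3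
          refine ⟨y, hy, hc, ?_⟩
          rw [hcy, Nat.eq_of_beq_eq_true hyb]
        · exfalso
          have hvt : valid t = true := isM24_valid (hT t ht).1
          have h4 := ncard_S_le ha ha rest (β :: pre) [t] ((β, ap t β) :: prs) hg'
            (by
              intro s hs
              rw [List.mem_singleton.mp hs]
              exact (hT t ht).1) hpre'
            (by
              intro p hp
              rcases List.mem_cons.mp hp with rfl | hp
              · exact ⟨hβ, hy24⟩
              · exact hprslt p hp)
          have h5 : cnt a a rest [t] ((β, ap t β) :: prs) = 0 := Nat.eq_of_beq_eq_true h3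
          have h6 : apL [t] β = ap t β := rfl
          rw [h5] at h4
          have h7 := (Set.ncard_eq_zero (Set.toFinite _)).mp (Nat.le_zero.mp h4)
          have h8 : c ∈ S a a (β :: pre) [t] ((β, ap t β) :: prs) := by
            refine ⟨hc.1.1, hc.2, ?_, ?_⟩
            · intro p hp
              rcases List.mem_cons.mp hp with rfl | hp
              · exact hcy
              · exact hfix p hp
            · intro x hx
              have hpl : prodL [t] = decode t := by simp [prodL]
              rw [hpl]
              rcases List.mem_cons.mp hx with rfl | hx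
              · rw [decode_pt hvt hβ]
                exact hcy
              · rw [decode_pt hvt (hpre x hx), (hT t ht).2 x hx]
                exact hc.1.2 x hx
          rw [h7] at h8
          exact h8
      have hfib : ∀ y ∈ keep, ({c | c ∈ Cn a pre ∧ c (pt β) = pt y} : Set _).ncard ≤ N := by
        intro y _
        by_cases hne : ({c | c ∈ Cn a pre ∧ c (pt β) = pt y} : Set (Equiv.Perm GolayPt)).Nonempty
        · obtain ⟨c0, hc0, hc0y⟩ := hne
          refine Set.ncard_le_ncard_of_injOn (fun c => c0⁻¹ * c) ?_ ?_ (Set.toFinite _)
          · rintro c ⟨hc, hcy⟩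
            refine ⟨⟨(G pre).mul_mem ((G pre).inv_mem hc0.1) hc.1 |>.1, ?_⟩, ?_⟩
            · intro x hx
              rcases List.mem_cons.mp hx with rfl | hx
              · rw [Equiv.Perm.mul_apply, hcy, ← hc0y]
                simp
              · exact ((G pre).mul_mem ((G pre).inv_mem hc0.1) hc.1).2 x hx
            · have h1 := hc.2
              have h2 := hc0.2
              calc c0⁻¹ * c * decode a = c0⁻¹ * (c * decode a) := by group
                _ = c0⁻¹ * (decode a * c) := by rw [h1]
                _ = c0⁻¹ * decode a * c := by group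
                _ = c0⁻¹ * (decode a * c0) * c0⁻¹ * c := by group
                _ = c0⁻¹ * (c0 * decode a) * c0⁻¹ * c := by rw [h2]
                _ = decode a * (c0⁻¹ * c) := by group
          · intro c1 _ c2 _ h12
            exact mul_left_cancel h12
        · rw [Set.not_nonempty_iff_eq_empty] at hne
          rw [hne]
          simp
      have h3 := ncard_le_foldr keep (fun y => {c | c ∈ Cn a pre ∧ c (pt β) = pt y}) (fun _ => N) hfib
        (Cn a pre) hcovK
      rw [foldr_const] at h3
      simp only [List.map_cons, List.prod_cons]
      exact h3.trans (Nat.mul_le_mul_left _ hIH)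

section Tab

variable {pre : List ℕ} {rest : List (ℕ × List ℕ)}

theorem card_cent_le' (hg : Good pre rest) (hpre : ∀ x ∈ pre, x < 24) {c : ℕ} (h : inG pre c = true)
    {keeps : List (List ℕ)} (hc : chainOK c rest (pre.map fun x => (x, x)) keeps = true) :
    Nat.card (Subgroup.centralizer ({elt hpre c h} : Set ↥(G pre))) ≤ (keeps.map List.length).prod := by
  refine le_trans ?_ (ncard_Cn_le (valid_of_inG h) rest pre _ keeps hg hpre ?_ hc)
  · rw [← Nat.card_coe_set_eq]
    refine Nat.card_le_card_of_injective
      (fun x => ⟨(x.1 : Equiv.Perm GolayPt), x.1.2, ?_⟩) ?_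
    · have h1 := Subgroup.mem_centralizer_singleton_iff.mp x.2
      exact congrArg Subtype.val h1
    · intro x y hxy
      apply Subtype.ext
      apply Subtype.ext
      exact Subtype.mk.inj hxy
  · intro p hp
    obtain ⟨x, hx, rfl⟩ := List.mem_map.mp hp
    exact ⟨hx, rfl⟩

/-- The class table from a list of codes, with the centralizers bounded along the chain. -/
noncomputable def mkTab' (hg : Good pre rest) (hpre : ∀ x ∈ pre, x < 24) {n : ℕ} (code : Fin n → ℕ)
    (exps : List ℕ) (hcode : ∀ i, inG pre (code i) = true) (cc cs : Fin n → ℕ)
    (i0 : Fin n) (hi0 : Nat.card ↥(G pre) ≤ cc i0) (keeps : Fin n → List (List ℕ))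
    (hchain : ∀ i, i ≠ i0 → chainOK (code i) rest (pre.map fun x => (x, x)) (keeps i) = true)
    (hprod : ∀ i, i ≠ i0 → ((keeps i).map List.length).prod ≤ cc i)
    (hnc : ∀ i j, i < j → ncOK pre rest exps (code i) (code j) = true)
    (hmul : ∀ i, cs i * cc i = Nat.card ↥(G pre)) (hpos : ∀ i, 0 < cc i)
    (hsum : ∑ i, cs i = Nat.card ↥(G pre)) : Tab ↥(G pre) n where
  r i := elt hpre (code i) (hcode i)
  cc := cc
  cs := cs
  cent_le i := by
    by_cases h : i = i0
    · subst h
      refine le_trans ?_ hi0
      exact Nat.card_le_card_of_injective (Subtype.val) Subtype.val_injective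
    · exact (card_cent_le' hg hpre (hcode i) (hchain i h)).trans (hprod i h)
  not_conj i j hij := by
    rcases lt_or_gt_of_ne hij with h | h
    · exact not_conj_of_ncOK hg hpre (hcode i) (hcode j) (hnc i j h)
    · intro hc
      exact not_conj_of_ncOK hg hpre (hcode j) (hcode i) (hnc j i h) hc.symm
  mul_eq := hmul
  cc_pos := hpos
  sum_eq := hsum

end Tab

end Cfsg.Agent.Lib.GolayCent
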