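import Mathlib
import Cfsg.Agent.Lib.M24Facts

/-!
The permutation module of `M24` on binary words of length 24: the action on words, the dot product, self-duality
of the code.
-/

set_option autoImplicit false

namespace Cfsg.Agent.Lib.GolayMod

open Cfsg Cfsg.Agent.Lib.Golay Cfsg.Agent.Lib.M24Facts
open scoped Pointwise

/-- The dot product of words. -/
def dot (u v : GolayPt → ZMod 2) : ZMod 2 := ∑ i, u i * v i

/-- The action of a permutation on words. -/
def act (g : Equiv.Perm GolayPt) (w : GolayPt → ZMod 2) : GolayPt → ZMod 2 := fun p => w (g.symm p)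

theorem act_apply (g : Equiv.Perm GolayPt) (w : GolayPt → ZMod 2) (p : GolayPt) : act g w p = w (g.symm p) := rfl

theorem act_eq_pushWord (g : Equiv.Perm GolayPt) (w : GolayPt → ZMod 2) : act g w = pushWord g w := rfl

theorem act_one (w : GolayPt → ZMod 2) : act 1 w = w := rfl

theorem act_mul (g h : Equiv.Perm GolayPt) (w : GolayPt → ZMod 2) : act (g * h) w = act g (act h w) := rfl

theorem act_add (g : Equiv.Perm GolayPt) (u v : GolayPt → ZMod 2) : act g (u + v) = act g u + act g v := rfl

theorem act_inv_act (g : Equiv.Perm GolayPt) (w : GolayPt → ZMod 2) : act g⁻¹ (act g w) = w := by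
  funext p
  simp [act, Equiv.Perm.inv_def]

theorem act_act_inv (g : Equiv.Perm GolayPt) (w : GolayPt → ZMod 2) : act g (act g⁻¹ w) = w := by
  funext p
  simp [act, Equiv.Perm.inv_def]

theorem act_mem {g : Equiv.Perm GolayPt} {w : GolayPt → ZMod 2} (hg : g ∈ M24) (hw : w ∈ golayCode) :
    act g w ∈ golayCode := by
  have h1 : support₂ w ∈ supports (golayCode : Set (GolayPt → ZMod 2)) := ⟨w, hw, rfl⟩
  have h2 := smul_mem_supports hg h1
  rw [← support_pushWord] at h2
  obtain ⟨v, hv, hvs⟩ := h2
  rw [eq_of_support₂_eq hvs] at hv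
  exact hv

theorem act_mem_iff {g : Equiv.Perm GolayPt} {w : GolayPt → ZMod 2} (hg : g ∈ M24) :
    act g w ∈ golayCode ↔ w ∈ golayCode := by
  constructor
  · intro h
    have := act_mem (M24.inv_mem hg) h
    rwa [act_inv_act] at this
  · exact act_mem hg

theorem dot_comm (u v : GolayPt → ZMod 2) : dot u v = dot v u := by
  simp [dot, mul_comm]

theorem dot_add_left (u u' v : GolayPt → ZMod 2) : dot (u + u') v = dot u v + dot u' v := by
  simp [dot, add_mul, Finset.sum_add_distrib]

theorem dot_add_right (u v v' : GolayPt → ZMod 2) : dot u (v + v') = dot u v + dot u v' := by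
  simp [dot, mul_add, Finset.sum_add_distrib]

theorem dot_act (g : Equiv.Perm GolayPt) (u v : GolayPt → ZMod 2) : dot (act g u) (act g v) = dot u v := by
  unfold dot act
  exact Equiv.sum_comp g.symm (fun i => u i * v i)

theorem dot_act_left (g : Equiv.Perm GolayPt) (u v : GolayPt → ZMod 2) : dot (act g u) v = dot u (act g⁻¹ v) := by
  rw [← dot_act g u, act_act_inv]

theorem dot_self_code {u v : GolayPt → ZMod 2} (hu : u ∈ golayCode) (hv : v ∈ golayCode) : dot u v = 0 :=
  golay_orth u hu v hv

/-- The dot product as a bilinear form. -/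
noncomputable def dotB : LinearMap.BilinForm (ZMod 2) (GolayPt → ZMod 2) :=
  Matrix.toBilin' (1 : Matrix GolayPt GolayPt (ZMod 2))

theorem dotB_apply (u v : GolayPt → ZMod 2) : dotB u v = dot u v := by
  unfold dotB dot
  rw [Matrix.toBilin'_apply']
  simp [dotProduct]

theorem dotB_nondeg : dotB.Nondegenerate := by
  unfold dotB
  exact Matrix.nondegenerate_toBilin'_iff.2 (Matrix.nondegenerate_of_det_ne_zero (by simp))

theorem dotB_refl : dotB.IsRefl := by
  intro u v h
  rw [dotB_apply] at h ⊢
  rw [dot_comm, h]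

/-- The code is self-dual. -/
theorem self_dual {w : GolayPt → ZMod 2} (h : ∀ c ∈ golayCode, dot w c = 0) : w ∈ golayCode := by
  have hle : golayCode ≤ dotB.orthogonal golayCode := by
    intro x hx
    rw [LinearMap.BilinForm.mem_orthogonal_iff]
    intro c hc
    show dotB c x = 0
    rw [dotB_apply]
    exact golay_orth c hc x hx
  have hfin : Module.finrank (ZMod 2) (dotB.orthogonal golayCode) = 12 := by
    rw [LinearMap.BilinForm.finrank_orthogonal dotB_nondeg, finrank_golayCode]
    simp [card_pt]
  have heq : golayCode = dotB.orthogonal golayCode :=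
    Submodule.eq_of_le_of_finrank_eq hle (by rw [hfin, finrank_golayCode])
  rw [heq, LinearMap.BilinForm.mem_orthogonal_iff]
  intro c hc
  show dotB c w = 0
  rw [dotB_apply, dot_comm]
  exact h c hc

/-- The word with given support. -/
def ind' (S : Finset GolayPt) : GolayPt → ZMod 2 := fun p => if p ∈ S then 1 else 0

theorem ind'_apply_mem {S : Finset GolayPt} {p : GolayPt} (h : p ∈ S) : ind' S p = 1 := if_pos h
theorem ind'_apply_not_mem {S : Finset GolayPt} {p : GolayPt} (h : p ∉ S) : ind' S p = 0 := if_neg h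

theorem support₂_ind' (S : Finset GolayPt) : support₂ (ind' S) = S := by
  ext p
  by_cases h : p ∈ S <;> simp [support₂, ind', h]

theorem ind'_support₂ (w : GolayPt → ZMod 2) : ind' (support₂ w) = w := by
  apply eq_of_support₂_eq
  rw [support₂_ind']

theorem act_ind' (g : Equiv.Perm GolayPt) (S : Finset GolayPt) : act g (ind' S) = ind' (g • S) := by
  apply eq_of_support₂_eq
  rw [support₂_ind', ← support₂_ind' (g • S), act_eq_pushWord, support_pushWord, support₂_ind', support₂_ind']

theorem ind'_mem_iff {S : Finset GolayPt} : ind' S ∈ golayCode ↔ S ∈ supports (golayCode : Set (GolayPt → ZMod 2)) := by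
  constructor
  · intro h
    exact ⟨_, h, support₂_ind' S⟩
  · rintro ⟨v, hv, rfl⟩
    rwa [ind'_support₂]

theorem ind'_add (A B : Finset GolayPt) : ind' A + ind' B = ind' (symmDiff A B) := by
  funext p
  have h2 : (1 : ZMod 2) + 1 = 0 := by decide
  by_cases ha : p ∈ A <;> by_cases hb : p ∈ B <;> simp [ind', Finset.mem_symmDiff, ha, hb, h2]

theorem one_mem_code : (fun _ => (1 : ZMod 2) : GolayPt → ZMod 2) ∈ golayCode :=
  Submodule.subset_span (Or.inr rfl)

theorem act_all_one (g : Equiv.Perm GolayPt) : act g (fun _ => (1 : ZMod 2)) = fun _ => (1 : ZMod 2) := rfl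

theorem word_add_self' (w : GolayPt → ZMod 2) : w + w = 0 := by
  funext i
  have : ∀ x : ZMod 2, x + x = 0 := by decide
  exact this _

theorem mem_octads_of_norm {v : GolayPt → ZMod 2} (hv : v ∈ golayCode) (h : hammingNorm v = 8) :
    support₂ v ∈ octads := ⟨⟨v, hv, rfl⟩, h⟩

theorem code_of_mem_octads {O : Finset GolayPt} (hO : O ∈ octads) : ind' O ∈ golayCode :=
  ind'_mem_iff.2 hO.1

theorem ind'_compl (O : Finset GolayPt) : ind' Oᶜ = ind' O + fun _ => (1 : ZMod 2) := by
  funext p
  by_cases h : p ∈ O <;> simp [ind', h]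
  decide

/-- Three octads adding up to zero. -/
theorem trio_octads : ofMask 8536111 ∈ octads ∧ ofMask 5279 ∈ octads ∧ ofMask 8541360 ∈ octads ∧
    ind' (ofMask 8536111) + ind' (ofMask 5279) + ind' (ofMask 8541360) = 0 := by
  refine ⟨ofMask_mem_octads (by decide +kernel), ofMask_mem_octads (by decide +kernel),
    ofMask_mem_octads (by decide +kernel), ?_⟩
  funext p
  revert p
  decide +kernel

/-- A word orthogonal to all octads is in the code. -/
theorem mem_code_of_dot_octads {w : GolayPt → ZMod 2}
    (h : ∀ O ∈ octads, dot w (ind' O) = 0) : w ∈ golayCode := by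
  apply self_dual
  intro c hc
  have h1 : Submodule.span (ZMod 2) {w : GolayPt → ZMod 2 | w ∈ golayCode ∧ hammingNorm w = 8} ≤
      LinearMap.ker (dotB w) := by
    rw [Submodule.span_le]
    rintro v ⟨hv, hv8⟩
    have := h _ (mem_octads_of_norm hv hv8)
    rw [ind'_support₂] at this
    show dotB w v = 0
    rw [dotB_apply]
    exact this
  rw [AbstractGolay.span_octads isAbstractGolay card_pt] at h1
  have h2 : dotB w c = 0 := h1 hc
  rwa [dotB_apply] at h2

/-- A word orthogonal to all complements of octads is in the code. -/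
theorem mem_code_of_dot_compl {w : GolayPt → ZMod 2}
    (h : ∀ O ∈ octads, dot w (ind' Oᶜ) = 0) : w ∈ golayCode := by
  obtain ⟨h1, h2, h3, hsum⟩ := trio_octads
  set e := dot w (fun _ => (1 : ZMod 2)) with he
  have hO : ∀ O ∈ octads, dot w (ind' O) = e := by
    intro O hO
    have := h O hO
    rw [ind'_compl, dot_add_right, ← he] at this
    have h2 : ∀ a b : ZMod 2, a + b = 0 → a = b := by decide
    exact h2 _ _ this
  have he0 : e = 0 := by
    have h4 : dot w (ind' (ofMask 8536111) + ind' (ofMask 5279) + ind' (ofMask 8541360)) = 0 := by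
      rw [hsum]
      simp [dot]
    rw [dot_add_right, dot_add_right, hO _ h1, hO _ h2, hO _ h3] at h4
    have h5 : ∀ a : ZMod 2, a + a + a = 0 → a = 0 := by decide
    exact h5 _ h4
  apply mem_code_of_dot_octads
  intro O hO'
  rw [hO O hO', he0]

end Cfsg.Agent.Lib.GolayMod
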