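import Mathlib
import Cfsg.Agent.Lib.GolayOrbBase

set_option autoImplicit false
set_option maxRecDepth 100000
set_option maxHeartbeats 4000000

/-!
# Orbits of the stabiliser of a pair of dodecads
-/

namespace Cfsg.Agent.Lib.Golay
open Cfsg Finset Cfsg.Agent.Lib.OrbitTree

open scoped Pointwise

/-- orbits of the stabiliser of a pair of dodecads on sextets -/
theorem dod_sextets : Orb3 (famOf D0L) sextets 396 495 880 :=
  orb3_fam GDod_ok D0L_nice (fun _ _ h => h) sexL_nice sextets_eq_image sextets_inv (count_sextets _ D0L_nice)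
    (r₁ := DSR0) (r₂ := DSR1) (r₃ := DSR2) (v₁ := DSV0) (v₂ := DSV1) (v₃ := DSV2) (T₁ := DST0) (T₂ := DST1) (T₃ := DST2)
    (by decide +kernel) (by decide +kernel) (by decide +kernel) (by decide +kernel) (by decide +kernel)
    (by decide +kernel) (by decide +kernel)


end Cfsg.Agent.Lib.Golay
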