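import Mathlib
import Cfsg.Agent.Lib.GolayOrbBase

set_option autoImplicit false
set_option maxRecDepth 100000
set_option maxHeartbeats 4000000

/-!
# M24 is transitive on sextets and trios
-/

namespace Cfsg.Agent.Lib.Golay
open Cfsg Finset Cfsg.Agent.Lib.OrbitTree

open scoped Pointwise

/-! ### transitivity of `M24` -/

theorem exists_smul_sextet {S : Finset (Finset GolayPt)} (hS : S ∈ sextets) : ∃ k ∈ M24, k • famOf S0L = S := by
  rw [sextets_eq_image] at hS
  obtain ⟨y, hy, rfl⟩ := hS
  have hc : sortU ltL (S0L :: evalT actS GM24 MST0 S0L) = sortU ltL sexL := by decide +kernel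
  exact reach_all_of_tree total_ltL decode_smul_famOf'' GM24_spec MST0 hc hy

theorem exists_smul_trio {T : Finset (Finset GolayPt)} (hT : T ∈ trios) : ∃ k ∈ M24, k • famOf T0L = T := by
  rw [trios_eq_image] at hT
  obtain ⟨y, hy, rfl⟩ := hT
  have hc : sortU ltL (T0L :: evalT actS GM24 MTT0 T0L) = sortU ltL triL := by decide +kernel
  exact reach_all_of_tree total_ltL decode_smul_famOf'' GM24_spec MTT0 hc hy


end Cfsg.Agent.Lib.Golay
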