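import Mathlib
import Cfsg.Agent.Lib.GolayOrbBase

set_option autoImplicit false
set_option maxRecDepth 100000
set_option maxHeartbeats 4000000

/-!
# Orbits of the stabiliser of an octad
-/

namespace Cfsg.Agent.Lib.Golay
open Cfsg Finset Cfsg.Agent.Lib.OrbitTree

open scoped Pointwise

/-- orbits of the octad stabiliser on trios -/
theorem oct_trios : Orb3 (ofMask oct0) trios 15 420 3360 :=
  orb3_fam GOct_ok oct0_nice oct0_zB triL_nice trios_eq_image trios_inv (count_trios _ oct0_nice)
    (r₁ := OTR0) (r₂ := OTR1) (r₃ := OTR2) (v₁ := OTV0) (v₂ := OTV1) (v₃ := OTV2) (T₁ := OTT0) (T₂ := OTT1) (T₃ := OTT2)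
    (by decide +kernel) (by decide +kernel) (by decide +kernel) (by decide +kernel) (by decide +kernel)
    (by decide +kernel) (by decide +kernel)

/-- orbits of the octad stabiliser on sextets -/
theorem oct_sextets : Orb3 (ofMask oct0) sextets 35 840 896 :=
  orb3_fam GOct_ok oct0_nice oct0_zB sexL_nice sextets_eq_image sextets_inv (count_sextets _ oct0_nice)
    (r₁ := OSR0) (r₂ := OSR1) (r₃ := OSR2) (v₁ := OSV0) (v₂ := OSV1) (v₃ := OSV2) (T₁ := OST0) (T₂ := OST1) (T₃ := OST2)
    (by decide +kernel) (by decide +kernel) (by decide +kernel) (by decide +kernel) (by decide +kernel)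
    (by decide +kernel) (by decide +kernel)


end Cfsg.Agent.Lib.Golay
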