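import Mathlib
import Cfsg.Agent.Lib.GolayOrbBase

set_option autoImplicit false
set_option maxRecDepth 100000
set_option maxHeartbeats 4000000

/-!
# Orbits of the stabiliser of a sextet
-/

namespace Cfsg.Agent.Lib.Golay
open Cfsg Finset Cfsg.Agent.Lib.OrbitTree

open scoped Pointwise

/-- orbits of the sextet stabiliser on octads -/
theorem sex_octads : Orb3 (famOf S0L) octads 15 360 384 :=
  orb3_mask GSex_ok S0L_nice (fun _ _ h => h) octads_eq_image octads_inv (count_octads _ S0L_nice)
    (r₁ := SOR0) (r₂ := SOR1) (r₃ := SOR2) (v₁ := SOV0) (v₂ := SOV1) (v₃ := SOV2) (T₁ := SOT0) (T₂ := SOT1) (T₃ := SOT2)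
    (by decide +kernel) (by decide +kernel) (by decide +kernel) (by decide +kernel) (by decide +kernel)
    (by decide +kernel) (by decide +kernel)

/-- orbits of the sextet stabiliser on trios -/
theorem sex_trios : Orb4 (famOf S0L) trios 15 180 720 2880 :=
  orb4_fam GSex_ok S0L_nice (fun _ _ h => h) triL_nice trios_eq_image trios_inv (count_trios _ S0L_nice)
    (r₁ := STR0) (r₂ := STR1) (r₃ := STR2) (r₄ := STR3) (v₁ := STV0) (v₂ := STV1) (v₃ := STV2) (v₄ := STV3)
    (T₁ := STT0) (T₂ := STT1) (T₃ := STT2) (T₄ := STT3)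
    (by decide +kernel) (by decide +kernel) (by decide +kernel) (by decide +kernel) (by decide +kernel)
    (by decide +kernel) (by decide +kernel) (by decide +kernel)


end Cfsg.Agent.Lib.Golay
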