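import Mathlib
import Cfsg.Agent.Lib.GolayOrbBase

set_option autoImplicit false
set_option maxRecDepth 100000
set_option maxHeartbeats 4000000

/-!
# Orbits of the stabiliser of a trio
-/

namespace Cfsg.Agent.Lib.Golay
open Cfsg Finset Cfsg.Agent.Lib.OrbitTree

open scoped Pointwise

/-- orbits of the trio stabiliser on octads -/
theorem tri_octads : Orb3 (famOf T0L) octads 3 84 672 :=
  orb3_mask GTri_ok T0L_nice (fun _ _ h => h) octads_eq_image octads_inv (count_octads _ T0L_nice)
    (r₁ := TOR0) (r₂ := TOR1) (r₃ := TOR2) (v₁ := TOV0) (v₂ := TOV1) (v₃ := TOV2) (T₁ := TOT0) (T₂ := TOT1) (T₃ := TOT2)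
    (by decide +kernel) (by decide +kernel) (by decide +kernel) (by decide +kernel) (by decide +kernel)
    (by decide +kernel) (by decide +kernel)

/-- orbits of the trio stabiliser on sextets -/
theorem tri_sextets : Orb4 (famOf T0L) sextets 7 84 336 1344 :=
  orb4_fam GTri_ok T0L_nice (fun _ _ h => h) sexL_nice sextets_eq_image sextets_inv (count_sextets _ T0L_nice)
    (r₁ := TSR0) (r₂ := TSR1) (r₃ := TSR2) (r₄ := TSR3) (v₁ := TSV0) (v₂ := TSV1) (v₃ := TSV2) (v₄ := TSV3)
    (T₁ := TST0) (T₂ := TST1) (T₃ := TST2) (T₄ := TST3)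
    (by decide +kernel) (by decide +kernel) (by decide +kernel) (by decide +kernel) (by decide +kernel)
    (by decide +kernel) (by decide +kernel) (by decide +kernel)


end Cfsg.Agent.Lib.Golay
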