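import Mathlib
import Cfsg.Agent.Lib.Golay
import Cfsg.Agent.Lib.AbstractGolay

/-!
The punctured length-23 code.
-/

set_option autoImplicit false

namespace Cfsg.Agent.Lib.GolayPuncture

open Cfsg Cfsg.Agent.Lib

/-- Puncturing at the extra point. -/
def pun (w : GolayPt → ZMod 2) : ZMod 23 → ZMod 2 := fun x => w (some x)

/-- The punctured code. -/
def P : Set (ZMod 23 → ZMod 2) := {u | ∃ w ∈ golayCode, ∀ x : ZMod 23, u x = w (some x)}

theorem mem_P_iff (u : ZMod 23 → ZMod 2) : u ∈ P ↔ ∃ w ∈ golayCode, pun w = u := by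
  constructor
  · rintro ⟨w, hw, h⟩
    exact ⟨w, hw, funext fun x => (h x).symm⟩
  · rintro ⟨w, hw, rfl⟩
    exact ⟨w, hw, fun _ => rfl⟩

theorem norm_eq (w : GolayPt → ZMod 2) :
    hammingNorm w = (if w none ≠ 0 then 1 else 0) + hammingNorm (pun w) := by
  classical
  unfold hammingNorm
  rw [Finset.card_filter, Finset.card_filter, Fintype.sum_option]
  rfl

theorem pun_sub (v w : GolayPt → ZMod 2) : pun (v - w) = pun v - pun w := rfl

theorem norm_pun_ge {w : GolayPt → ZMod 2} (hw : w ∈ golayCode) (h0 : w ≠ 0) :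
    7 ≤ hammingNorm (pun w) := by
  have h1 := Golay.golay_min w hw h0
  have h2 := norm_eq w
  have h3 : (if w none ≠ 0 then 1 else 0) ≤ 1 := by split_ifs <;> simp
  omega

theorem pun_injOn {v w : GolayPt → ZMod 2} (hv : v ∈ golayCode) (hw : w ∈ golayCode)
    (h : pun v = pun w) : v = w := by
  by_contra hne
  have h0 : v - w ≠ 0 := sub_ne_zero.2 hne
  have h1 := norm_pun_ge (golayCode.sub_mem hv hw) h0
  rw [pun_sub, h, sub_self] at h1
  simp at h1

/-- Minimum weight. -/
theorem min_weight {u : ZMod 23 → ZMod 2} (hu : u ∈ P) (h0 : u ≠ 0) : 7 ≤ hammingNorm u := by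
  obtain ⟨w, hw, rfl⟩ := (mem_P_iff u).1 hu
  refine norm_pun_ge hw ?_
  rintro rfl
  exact h0 rfl

theorem min_dist {u v : ZMod 23 → ZMod 2} (hu : u ∈ P) (hv : v ∈ P) (h : u ≠ v) :
    7 ≤ hammingDist u v := by
  obtain ⟨w, hw, rfl⟩ := (mem_P_iff u).1 hu
  obtain ⟨w', hw', rfl⟩ := (mem_P_iff v).1 hv
  rw [hammingDist_eq_hammingNorm, neg_add_eq_sub, ← pun_sub]
  refine norm_pun_ge (golayCode.sub_mem hw' hw) ?_
  intro h0
  rw [sub_eq_zero] at h0
  exact h (by rw [h0])

/-- Perfect code: existence and uniqueness. -/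
theorem perfect (u : ZMod 23 → ZMod 2) : ∃! c : ZMod 23 → ZMod 2, c ∈ P ∧ hammingDist u c ≤ 3 := by
  classical
  -- extension by zero at the extra point
  let w : GolayPt → ZMod 2 := fun p => match p with
    | none => 0
    | some x => u x
  obtain ⟨c, hc, hle⟩ := AbstractGolay.covering Golay.isAbstractGolay Golay.card_pt (none : GolayPt) w
  have hdist : hammingDist u (pun c) ≤ 3 := by
    refine le_trans (le_of_eq ?_) hle
    unfold hammingDist
    rw [← Finset.card_map ⟨some, Option.some_injective _⟩]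
    congr 1
    ext p
    simp only [Finset.mem_map, Finset.mem_filter, Finset.mem_univ, true_and, Function.Embedding.coeFn_mk,
      Finset.mem_erase, AbstractGolay.mem_supp, Pi.add_apply]
    constructor
    · rintro ⟨x, hx, rfl⟩
      refine ⟨by simp, ?_⟩
      have : u x + c (some x) ≠ 0 := by
        intro h
        apply hx
        have := sub_eq_zero.1 (show u x - c (some x) = 0 by
          have h2 : ∀ a b : ZMod 2, a + b = a - b := by decide
          rw [← h2]; exact h)
        exact this
      exact this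
    · rintro ⟨hne, h⟩
      cases p with
      | none => exact absurd rfl hne
      | some x =>
        refine ⟨x, ?_, rfl⟩
        intro hxc
        apply h
        show u x + c (some x) = 0
        have hxc' : u x = c (some x) := hxc
        rw [hxc']
        exact CharTwo.add_self_eq_zero _
  refine ⟨pun c, ⟨(mem_P_iff _).2 ⟨c, hc, rfl⟩, hdist⟩, ?_⟩
  rintro c' ⟨hc', hd'⟩
  by_contra hne
  have h7 := min_dist hc' ((mem_P_iff _).2 ⟨c, hc, rfl⟩) hne
  have htri := hammingDist_triangle c' u (pun c)
  rw [hammingDist_comm c' u] at htri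
  omega

/-- The list model. -/
def psi (m : ℕ) : ZMod 23 → ZMod 2 := pun (Golay.word m)

theorem P_eq_image : P = psi '' {m | m ∈ Golay.codeL} := by
  ext u
  rw [mem_P_iff]
  constructor
  · rintro ⟨w, hw, rfl⟩
    refine ⟨Golay.maskOf w, (Golay.mem_golayCode_iff_list w).1 hw, ?_⟩
    simp only [psi, Golay.word_maskOf]
  · rintro ⟨m, hm, rfl⟩
    refine ⟨Golay.word m, ?_, rfl⟩
    rw [Golay.mem_golayCode_iff_list, Golay.maskOf_word (Golay.lt_of_mem_codeL hm)]
    exact hm

theorem word_mem_of_mem {m : ℕ} (hm : m ∈ Golay.codeL) : Golay.word m ∈ golayCode := by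
  rw [Golay.mem_golayCode_iff_list, Golay.maskOf_word (Golay.lt_of_mem_codeL hm)]
  exact hm

theorem psi_injOn : Set.InjOn psi {m | m ∈ Golay.codeL} := by
  intro a ha b hb hab
  have := pun_injOn (word_mem_of_mem ha) (word_mem_of_mem hb) hab
  exact Golay.word_inj (Golay.lt_of_mem_codeL ha) (Golay.lt_of_mem_codeL hb) this

theorem norm_psi (m : ℕ) : hammingNorm (psi m) = Golay.pop m - Golay.bit m 23 := by
  have h1 := norm_eq (Golay.word m)
  have h2 : hammingNorm (Golay.word m) = Golay.pop m := by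
    rw [← Golay.card_ofMask, ← Golay.support_word]
    rfl
  have h3 : (if Golay.word m none ≠ 0 then 1 else 0) = Golay.bit m 23 := by
    rw [Golay.bit_eq]
    have hw : Golay.word m none = if m.testBit 23 = true then 1 else 0 := rfl
    rw [hw]
    cases m.testBit 23 <;> decide
  rw [h2, h3] at h1
  show hammingNorm (pun (Golay.word m)) = _
  generalize Golay.pop m = a at *
  generalize Golay.bit m 23 = b at *
  omega

theorem ncard_P_filter (f : ℕ → Bool) :
    {u | u ∈ P ∧ f (hammingNorm u) = true}.ncard =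
      (Golay.codeL.filter (fun m => f (Golay.pop m - Golay.bit m 23))).length := by
  classical
  have hnd : Golay.codeL.Nodup := Golay.strictAsc_nodup Golay.codeL_asc
  have hset : {u | u ∈ P ∧ f (hammingNorm u) = true} =
      psi '' {m | m ∈ (Golay.codeL.filter (fun m => f (Golay.pop m - Golay.bit m 23)))} := by
    ext u
    rw [P_eq_image]
    constructor
    · rintro ⟨⟨m, hm, rfl⟩, hf⟩
      refine ⟨m, ?_, rfl⟩
      rw [norm_psi] at hf
      simpa [List.mem_filter] using ⟨hm, hf⟩
    · rintro ⟨m, hm, rfl⟩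
      have hm' := List.mem_filter.1 hm
      refine ⟨⟨m, hm'.1, rfl⟩, ?_⟩
      rw [norm_psi]
      exact hm'.2
  rw [hset, Set.InjOn.ncard_image]
  · have : {m | m ∈ Golay.codeL.filter (fun m => f (Golay.pop m - Golay.bit m 23))} =
        (((Golay.codeL.filter (fun m => f (Golay.pop m - Golay.bit m 23))).toFinset : Finset ℕ) : Set ℕ) := by
      ext; simp
    rw [this, Set.ncard_coe_finset, List.toFinset_card_of_nodup (hnd.filter _)]
  · intro a ha b hb hab
    exact psi_injOn (List.mem_filter.1 ha).1 (List.mem_filter.1 hb).1 hab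

end Cfsg.Agent.Lib.GolayPuncture
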