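import Mathlib
import Cfsg.Agent.Lib.GolayTab

/-!
# Permutation characters on the subsets of a given size of the points
-/

set_option autoImplicit false
set_option linter.style.haveILetI false
set_option linter.unusedVariables false
set_option linter.unusedSectionVars false

namespace Cfsg.Agent.Lib.GolayTab

open Cfsg Cfsg.Agent.Lib.Golay Cfsg.Agent.Lib.GolaySearch Cfsg.Agent.Lib.ClassTab
open scoped Pointwise

theorem stable_sub {k : ℕ} {F : List ℕ} (hinc : incL F = true)
    (hpop : F.all (fun m => Nat.blt m 16777216 && Nat.beq (pop m) k) = true)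
    (hlen : F.length = Nat.choose 24 k) (g : Equiv.Perm GolayPt) {m : ℕ} (hm : m ∈ F) :
    toMask (g • ofMask m) ∈ F := by
  classical
  have hnd : F.Nodup := (pairwise_of_incL hinc).imp fun h => ne_of_lt h
  have hp : ∀ m ∈ F, m < 2 ^ 24 ∧ pop m = k := by
    intro m hm
    have h1 := List.all_eq_true.mp hpop m hm
    simp only [Bool.and_eq_true] at h1
    refine ⟨?_, Nat.eq_of_beq_eq_true h1.2⟩
    have h2 := h1.1
    simp only [Nat.blt_eq] at h2
    norm_num
    exact h2
  have hsub : (F.toFinset.image ofMask) ⊆ Finset.powersetCard k (Finset.univ : Finset GolayPt) := by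
    intro S hS
    obtain ⟨m', hm', rfl⟩ := Finset.mem_image.mp hS
    refine Finset.mem_powersetCard.mpr ⟨Finset.subset_univ _, ?_⟩
    rw [card_ofMask]
    exact (hp m' (List.mem_toFinset.mp hm')).2
  have hcard : (F.toFinset.image ofMask).card = F.length := by
    rw [Finset.card_image_of_injOn, List.toFinset_card_of_nodup hnd]
    intro a ha b hb hab
    have ha' := (hp a (List.mem_toFinset.mp ha)).1
    have hb' := (hp b (List.mem_toFinset.mp hb)).1
    rw [← toMask_ofMask ha', ← toMask_ofMask hb']
    exact congrArg toMask hab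
  have heq : F.toFinset.image ofMask = Finset.powersetCard k (Finset.univ : Finset GolayPt) := by
    refine Finset.eq_of_subset_of_card_le hsub ?_
    rw [hcard, hlen, Finset.card_powersetCard, Finset.card_univ, card_pt]
  have hS : g • ofMask m ∈ Finset.powersetCard k (Finset.univ : Finset GolayPt) := by
    refine Finset.mem_powersetCard.mpr ⟨Finset.subset_univ _, ?_⟩
    rw [Finset.card_smul_finset, card_ofMask]
    exact (hp m hm).2
  rw [← heq] at hS
  obtain ⟨m', hm', he⟩ := Finset.mem_image.mp hS
  rw [← he, toMask_ofMask (hp m' (List.mem_toFinset.mp hm')).1]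
  exact List.mem_toFinset.mp hm'

/-- The permutation character on the subsets of a given size. -/
theorem gen_sub {pre : List ℕ} {n : ℕ} (T : Tab ↥(G pre) n) (code : Fin n → ℕ)
    (hr : ∀ i, ((T.r i : ↥(G pre)) : Equiv.Perm GolayPt) = decode (code i))
    (hv : ∀ i, valid (code i) = true) {w : ℂ} (k : ℕ) (F : List ℕ) (hinc : incL F = true)
    (hpop : F.all (fun m => Nat.blt m 16777216 && Nat.beq (pop m) k) = true)
    (hlen : F.length = Nat.choose 24 k) (A : Fin n → ℤ)
    (hA : ∀ i, (fixL F (code i) : ℤ) = A i) : GVW T w A 0 := by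
  refine gen_fam T code hr hv F ((pairwise_of_incL hinc).imp fun h => ne_of_lt h) (fun m hm => ?_)
    (fun g _ m hm => stable_sub hinc hpop hlen g hm) A hA
  have h1 := List.all_eq_true.mp hpop m hm
  simp only [Bool.and_eq_true] at h1
  have h2 := h1.1
  simp only [Nat.blt_eq] at h2
  norm_num
  exact h2

end Cfsg.Agent.Lib.GolayTab
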