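import Mathlib
import Cfsg.Agent.Lib.OrthMatrix

/-!
# Vanishing of first cohomology of small orthogonal groups over the field with two elements:
crossed homomorphisms, a triangular elimination along Coxeter generators, and a bit model for the finite checks.
-/

set_option autoImplicit false
set_option linter.unusedSectionVars false
set_option linter.unusedSimpArgs false
set_option linter.unusedVariables false

namespace Cfsg.Agent.Lib.H1Bits

open Module Matrix
open scoped MatrixGroups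
open Cfsg.Agent.Lib.OrthGroup Cfsg.Agent.Lib.OrthOmega Cfsg.Agent.Lib.OrthMatrix

/-! ### Crossed homomorphisms, abstractly -/

section Abstract

variable {G V : Type*} [Group G] [AddCommGroup V]

/-- The norm `y + g y + g² y + ...` with `m` terms. -/
def normIter (g : V → V) : ℕ → V → V
  | 0, _ => 0
  | m + 1, y => y + g (normIter g m y)

/-- A crossed homomorphism for an action on an elementary abelian 2-group. -/
structure Cross (ρ : G → V → V) (f : G → V) : Prop where
  h2 : ∀ x : V, x + x = 0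
  one : ∀ x, ρ 1 x = x
  mul : ∀ g h x, ρ (g * h) x = ρ g (ρ h x)
  add : ∀ g x y, ρ g (x + y) = ρ g x + ρ g y
  cr : ∀ g h, f (g * h) = f g + ρ g (f h)

variable {ρ : G → V → V} {f : G → V}

namespace Cross

theorem f_one (hc : Cross ρ f) : f 1 = 0 := by
  have h1 := hc.cr 1 1
  rw [mul_one, hc.one, hc.h2] at h1
  exact h1

theorem map_zero' (hc : Cross ρ f) (g : G) : ρ g 0 = 0 := by
  have h1 := hc.add g 0 0
  rw [add_zero] at h1
  have h2 : ρ g 0 + ρ g 0 = 0 := hc.h2 _
  rw [← h1] at h2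
  exact h2

theorem twist (hc : Cross ρ f) (v : V) : Cross ρ (fun g => f g + ρ g v + v) where
  h2 := hc.h2
  one := hc.one
  mul := hc.mul
  add := hc.add
  cr g h := by
    simp only [hc.cr, hc.mul, hc.add]
    have : f g + ρ g (f h) + ρ g (ρ h v) + v + (f g + ρ g v + v + (ρ g (f h) + ρ g (ρ h v) + ρ g v))
        = 2 • f g + 2 • ρ g (f h) + 2 • ρ g (ρ h v) + 2 • v + 2 • ρ g v := by abel
    have h0 : f g + ρ g (f h) + ρ g (ρ h v) + v + (f g + ρ g v + v + (ρ g (f h) + ρ g (ρ h v) + ρ g v)) = 0 := by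
      rw [this]
      simp [two_nsmul, hc.h2]
    have h1 : ∀ a b : V, a + b = 0 → a = b := by
      intro a b hab
      have : a = a + (b + b) := by rw [hc.h2, add_zero]
      rw [this, ← add_assoc, hab, zero_add]
    exact h1 _ _ h0

theorem pow (hc : Cross ρ f) (g : G) (m : ℕ) : f (g ^ m) = normIter (ρ g) m (f g) := by
  induction m with
  | zero => simp [normIter, hc.f_one]
  | succ m ih => rw [pow_succ', hc.cr, ih, normIter]

theorem mul_zero' (hc : Cross ρ f) {g h : G} (hg : f g = 0) (hh : f h = 0) : f (g * h) = 0 := by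
  rw [hc.cr, hg, hh, hc.map_zero', add_zero]

theorem inv_zero' (hc : Cross ρ f) {g : G} (hg : f g = 0) : f g⁻¹ = 0 := by
  have h1 := hc.cr g⁻¹ g
  rw [inv_mul_cancel, hc.f_one, hg, hc.map_zero', add_zero] at h1
  exact h1.symm

end Cross

/-- Triangular elimination along a sequence of generators. -/
theorem chain (hc : Cross ρ f) (τ : ℕ → ℕ → G) (m : ℕ → ℕ → ℕ) (n : ℕ)
    (hτ : ∀ i j k, τ i j * τ j k = τ i k) (hτ1 : ∀ i, τ i i = 1)
    (hm : ∀ i k, i < k → k < n → (τ i k) ^ (m i k) = 1)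
    (stage : ∀ k, 0 < k → k < n → ∀ x, (∀ i, i < k → normIter (ρ (τ i k)) (m i k) (ρ (τ i 0) x) = 0) →
      ∃ v, (∀ i, i < k → ρ (τ 0 i) v = v) ∧ x = ρ (τ 0 k) v + v) :
    ∀ K, K ≤ n → ∃ v, ∀ k, k < K → f (τ 0 k) = ρ (τ 0 k) v + v := by
  have h2 := hc.h2
  have h1 : ∀ a b : V, a + b = 0 → a = b := by
    intro a b hab
    have : a = a + (b + b) := by rw [h2, add_zero]
    rw [this, ← add_assoc, hab, zero_add]
  intro K
  induction K with
  | zero => intro _; exact ⟨0, fun k hk => absurd hk (Nat.not_lt_zero k)⟩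
  | succ K ih =>
    intro hK
    obtain ⟨v, hv⟩ := ih (by omega)
    rcases Nat.eq_zero_or_pos K with rfl | hKpos
    · refine ⟨0, fun k hk => ?_⟩
      have : k = 0 := by omega
      subst this
      rw [hτ1, hc.f_one, hc.map_zero', add_zero]
    · -- the twisted homomorphism
      have hc' := hc.twist v
      set f' : G → V := fun g => f g + ρ g v + v with hf'
      have hf'0 : ∀ i, i < K → f' (τ 0 i) = 0 := by
        intro i hi
        simp only [hf']
        rw [hv i hi, add_assoc _ (ρ _ v) v, h2]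
      have hinv : ∀ i, τ i 0 = (τ 0 i)⁻¹ := by
        intro i
        apply eq_inv_of_mul_eq_one_left
        rw [hτ, hτ1]
      have hf'1 : ∀ i, i < K → f' (τ i 0) = 0 := by
        intro i hi
        rw [hinv]
        exact hc'.inv_zero' (hf'0 i hi)
      obtain ⟨v', hv'1, hv'2⟩ := stage K hKpos (by omega) (f' (τ 0 K)) (by
        intro i hi
        have h3 := hc'.pow (τ i K) (m i K)
        rw [hm i K hi (by omega), hc'.f_one] at h3
        have h4 : f' (τ i K) = ρ (τ i 0) (f' (τ 0 K)) := by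
          rw [← hτ i 0 K, hc'.cr, hf'1 i hi, zero_add]
        rw [h4] at h3
        exact h3.symm)
      refine ⟨v + v', fun k hk => ?_⟩
      have hsum : ∀ g x y, ρ g (x + y) = ρ g x + ρ g y := hc.add
      rcases Nat.lt_succ_iff_lt_or_eq.1 hk with hk | rfl
      · rw [hv k hk, hsum, hv'1 k hk]
        have : ρ (τ 0 k) v + v + (ρ (τ 0 k) v + v' + (v + v')) = 2 • ρ (τ 0 k) v + 2 • v + 2 • v' := by abel
        apply h1
        rw [this]
        simp [two_nsmul, h2]
      · have h3 : f (τ 0 k) + ρ (τ 0 k) v + v = ρ (τ 0 k) v' + v' := hv'2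
        rw [hsum]
        apply h1
        have : f (τ 0 k) + (ρ (τ 0 k) v + ρ (τ 0 k) v' + (v + v')) =
          (f (τ 0 k) + ρ (τ 0 k) v + v) + (ρ (τ 0 k) v' + v') := by abel
        rw [this, h3, h2]

end Abstract

/-! ### The concrete group -/

section Concrete

variable {ι : Type} [Fintype ι] [DecidableEq ι] (Q : QuadraticForm (ZMod 2) (ι → ZMod 2))

/-- The action of `Ω` on the natural module. -/
def rho (g : ↥(Cfsg.Omega (ZMod 2) ⇑Q)) (x : ι → ZMod 2) : ι → ZMod 2 :=
  (((g : ↥(Cfsg.isometryGroup (ZMod 2) ⇑Q)) : GL ι (ZMod 2)) : Matrix ι ι (ZMod 2)) *ᵥ x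

theorem add_self_V (x : ι → ZMod 2) : x + x = 0 := by
  funext a
  exact CharTwo.add_self_eq_zero (x a)

theorem cross_rho {f : ↥(Cfsg.Omega (ZMod 2) ⇑Q) → (ι → ZMod 2)}
    (hf : ∀ g h, f (g * h) = f g + rho Q g (f h)) : Cross (rho Q) f where
  h2 := add_self_V
  one x := by simp [rho]
  mul g h x := by simp [rho, mulVec_mulVec]
  add g x y := by simp [rho, mulVec_add]
  cr := hf

theorem rho_eq_toO (g : ↥(Cfsg.Omega (ZMod 2) ⇑Q)) (x : ι → ZMod 2) :
    rho Q g x = (toO Q g.1 : (ι → ZMod 2) ≃ₗ[ZMod 2] (ι → ZMod 2)) x := rfl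

theorem rho_inj {g g' : ↥(Cfsg.Omega (ZMod 2) ⇑Q)} (h : ∀ x, rho Q g x = rho Q g' x) : g = g' := by
  apply Subtype.ext
  apply Subtype.ext
  apply Units.ext
  exact (matrix_eq_iff _ _).2 h

variable {Q}

theorem isSquare_prod (L : List (ι → ZMod 2)) : IsSquare (L.map Q).prod := by
  have h : ∀ a : ZMod 2, IsSquare a := by decide
  exact h _

/-- The product of two reflections as an element of `Ω`. -/
noncomputable def tauO (hQ : (B Q).Nondegenerate) (u w : ι → ZMod 2) (hu : Q u ≠ 0) (hw : Q w ≠ 0) :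
    ↥(Cfsg.Omega (ZMod 2) ⇑Q) :=
  ⟨(toO Q).symm (reflO Q u * reflO Q w), by
    rw [mem_Omega_iff, MulEquiv.apply_symm_apply]
    have h := prodO_mem_commutator hQ [u, w] (by simp [hu, hw]) (by simp) (isSquare_prod _)
    rwa [prodO_cons, prodO_cons, prodO_nil, mul_one] at h⟩

theorem rho_tauO (hQ : (B Q).Nondegenerate) (u w : ι → ZMod 2) (hu : Q u ≠ 0) (hw : Q w ≠ 0) (x : ι → ZMod 2) :
    rho Q (tauO hQ u w hu hw) x = refl Q u (refl Q w x) := by
  rw [rho_eq_toO]
  simp [tauO]

theorem Q_refl (u x : ι → ZMod 2) : Q (refl Q u x) = Q x := refl_mem Q u x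

/-- From generators to the whole group. -/
theorem all_of_gens (hQ : (B Q).Nondegenerate) (hOG : O Q ≤ G Q)
    {f : ↥(Cfsg.Omega (ZMod 2) ⇑Q) → (ι → ZMod 2)} (hc : Cross (rho Q) f)
    (r : ℕ → (ι → ZMod 2)) (hr : ∀ i, Q (r i) ≠ 0) (n : ℕ)
    (hreach : ∀ P : (ι → ZMod 2) → Prop, P (r 0) → (∀ i, i < n → ∀ u, P u → P (refl Q (r i) u)) →
      ∀ u, Q u ≠ 0 → P u)
    (h0 : ∀ k, k < n → f (tauO hQ (r 0) (r k) (hr 0) (hr k)) = 0) (g : ↥(Cfsg.Omega (ZMod 2) ⇑Q)) : f g = 0 := by
  -- step 1 : all `tauO (r 0) u`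
  have hstep1 : ∀ u, Q u ≠ 0 → ∃ hu : Q u ≠ 0, f (tauO hQ (r 0) u (hr 0) hu) = 0 := by
    apply hreach
    · refine ⟨hr 0, ?_⟩
      have : tauO hQ (r 0) (r 0) (hr 0) (hr 0) = 1 := by
        apply rho_inj
        intro x
        rw [rho_tauO, refl_refl, (cross_rho Q hc.cr).one]
      rw [this, hc.f_one]
    · rintro i hi u ⟨hu, hu0⟩
      have hu' : Q (refl Q (r i) u) ≠ 0 := by rwa [Q_refl]
      refine ⟨hu', ?_⟩
      have hh := h0 i hi
      set s := tauO hQ (r 0) (r i) (hr 0) (hr i) with hs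
      set h := tauO hQ (r 0) u (hr 0) hu with hh'
      have e : tauO hQ (r 0) (refl Q (r i) u) (hr 0) hu' = s * h⁻¹ * s := by
        apply rho_inj
        intro x
        -- `h⁻¹` acts by `t_u t_0`
        have hinv : ∀ y, rho Q h⁻¹ y = refl Q u (refl Q (r 0) y) := by
          intro y
          have h1 : rho Q h (refl Q u (refl Q (r 0) y)) = y := by
            rw [hh', rho_tauO, refl_refl, refl_refl]
          have h2 := (cross_rho Q hc.cr).mul h⁻¹ h (refl Q u (refl Q (r 0) y))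
          rw [inv_mul_cancel, (cross_rho Q hc.cr).one, h1] at h2
          exact h2.symm
        rw [(cross_rho Q hc.cr).mul, (cross_rho Q hc.cr).mul, hinv, hs, rho_tauO, rho_tauO, rho_tauO]
        rw [refl_refl]
        -- conjugate reflection
        have hconj := conj_refl (refl_mem Q (r i)) u
        have := congrArg (fun e : (ι → ZMod 2) ≃ₗ[ZMod 2] (ι → ZMod 2) => e x) hconj
        simp only [OrthGroup.mul_apply, refl_inv] at this
        rw [this]
      rw [e]
      exact hc.mul_zero' (hc.mul_zero' hh (hc.inv_zero' hu0)) hh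
  -- step 2 : all `tauO u w`
  have hstep2 : ∀ u w (hu : Q u ≠ 0) (hw : Q w ≠ 0), f (tauO hQ u w hu hw) = 0 := by
    intro u w hu hw
    obtain ⟨_, h1⟩ := hstep1 u hu
    obtain ⟨_, h2⟩ := hstep1 w hw
    set a := tauO hQ (r 0) u (hr 0) hu with ha
    set b := tauO hQ (r 0) w (hr 0) hw with hb
    have e : tauO hQ u w hu hw = a⁻¹ * b := by
      apply rho_inj
      intro x
      have hinv : ∀ y, rho Q a⁻¹ y = refl Q u (refl Q (r 0) y) := by
        intro y
        have h1 : rho Q a (refl Q u (refl Q (r 0) y)) = y := by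
          rw [ha, rho_tauO, refl_refl, refl_refl]
        have h2 := (cross_rho Q hc.cr).mul a⁻¹ a (refl Q u (refl Q (r 0) y))
        rw [inv_mul_cancel, (cross_rho Q hc.cr).one, h1] at h2
        exact h2.symm
      rw [(cross_rho Q hc.cr).mul, hinv, hb, rho_tauO, rho_tauO, refl_refl]
    rw [e]
    exact hc.mul_zero' (hc.inv_zero' h1) h2
  -- step 3 : even lists
  have hstep3 : ∀ (k : ℕ) (L : List (ι → ZMod 2)), L.length = 2 * k → (∀ v ∈ L, Q v ≠ 0) →
      ∀ g : ↥(Cfsg.Omega (ZMod 2) ⇑Q), toO Q g.1 = prodO Q L → f g = 0 := by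
    intro k
    induction k with
    | zero =>
      intro L hL _ g hg
      have hL0 : L = [] := List.length_eq_zero_iff.1 (by omega)
      subst hL0
      have : g = 1 := by
        apply rho_inj
        intro x
        rw [rho_eq_toO, hg, (cross_rho Q hc.cr).one]
        rfl
      rw [this, hc.f_one]
    | succ k ih =>
      intro L hL hLQ g hg
      match L, hL, hLQ, hg with
      | u :: w :: L', hL, hLQ, hg =>
        have hu : Q u ≠ 0 := hLQ u (by simp)
        have hw : Q w ≠ 0 := hLQ w (by simp)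
        have h1 := hstep2 u w hu hw
        set a := tauO hQ u w hu hw with ha
        have hg' : toO Q (a⁻¹ * g).1 = prodO Q L' := by
          have : (a⁻¹ * g).1 = (a.1)⁻¹ * g.1 := rfl
          rw [this, map_mul, map_inv, hg, prodO_cons, prodO_cons, ha]
          simp only [tauO, MulEquiv.apply_symm_apply]
          group
        have h2 := ih L' (by simp at hL; omega) (fun v hv => hLQ v (by simp [hv])) _ hg'
        have e : g = a * (a⁻¹ * g) := by group
        rw [e]
        exact hc.mul_zero' h1 h2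
  -- conclusion
  have hg := (mem_Omega_iff (Q := Q) g.1).1 g.2
  obtain ⟨L, hL1, hL2, hL3, _⟩ := (mem_commutator_iff hQ hOG _).1 hg
  obtain ⟨k, hk⟩ := hL3
  exact hstep3 k L (by omega) hL1 g hL2

end Concrete

/-! ### Reflections generate, without totally singular lines -/

section NoTS

variable {F V : Type*} [Field F] [AddCommGroup V] [Module F V] [FiniteDimensional F V]

theorem exists_step_noTS {Q : QuadraticForm F V} (hQ : (B Q).Nondegenerate)
    (hno : ∀ u w : V, Q u = 0 → Q w = 0 → B Q u w = 0 → u ≠ 0 → w ∉ Submodule.span F {u} → False)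
    {g : V ≃ₗ[F] V} (hg : g ∈ O Q) (hg1 : g ≠ 1) :
    ∃ e ∈ G Q, fix g < fix (e * g) := by
  by_cases hsing : ∀ a, Q (g a - a) = 0
  · exfalso
    obtain ⟨a, ha⟩ : ∃ a, g a ≠ a := by
      by_contra h
      push Not at h
      exact hg1 (LinearEquiv.ext h)
    set u := g a - a with hu
    have hu0 : u ≠ 0 := sub_ne_zero.2 ha
    have hau : B Q a u = 0 := by
      rw [hu, B_self_range hg, hsing]; simp
    obtain ⟨b, hb⟩ : ∃ b, B Q a (g b - b) ≠ 0 := by
      by_contra h
      push Not at h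
      apply hu0
      apply hQ.1
      intro y
      obtain ⟨b, rfl⟩ := g.surjective y
      have h1 := h b
      rw [map_sub, sub_eq_zero] at h1
      rw [hu, map_sub, LinearMap.sub_apply, B_of_mem_O hg, h1]
      simp
    set c := (B Q a (g b - b))⁻¹ with hc
    set w := c • (g b - b) with hw
    have haw : B Q a w = 1 := by
      rw [hw, map_smul, smul_eq_mul, hc]
      exact inv_mul_cancel₀ hb
    have hQw : Q w = 0 := by
      rw [hw, Q_smul, hsing, mul_zero]
    have huw : B Q u w = 0 := by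
      have h1 := hsing (a + b)
      rw [map_add] at h1
      have h2 : g a + g b - (a + b) = u + (g b - b) := by
        rw [hu]; abel
      rw [h2, Q_add, hsing a, hsing b] at h1
      rw [hw, map_smul, smul_eq_mul]
      simp only [add_zero, zero_add] at h1
      rw [h1, mul_zero]
    have hindep : w ∉ Submodule.span F {u} := by
      intro hmem
      obtain ⟨l, hl⟩ := Submodule.mem_span_singleton.1 hmem
      rw [← hl, map_smul, hau, smul_zero] at haw
      exact zero_ne_one haw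
    exact hno u w (hsing a) hQw huw hu0 hindep
  · push Not at hsing
    obtain ⟨a, ha⟩ := hsing
    exact ⟨refl Q (g a - a), refl_mem_G Q ha, fix_lt_refl_mul hg a ha⟩

theorem O_le_G_noTS {Q : QuadraticForm F V} (hQ : (B Q).Nondegenerate)
    (hno : ∀ u w : V, Q u = 0 → Q w = 0 → B Q u w = 0 → u ≠ 0 → w ∉ Submodule.span F {u} → False) :
    O Q ≤ G Q := by
  have main : ∀ n : ℕ, ∀ g ∈ O Q, finrank F V - finrank F (fix g) ≤ n → g ∈ G Q := by
    intro n
    induction n with
    | zero =>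
      intro g _ h
      have h1 := Submodule.finrank_le (fix g)
      have h2 : finrank F (fix g) = finrank F V := by omega
      have h3 := Submodule.eq_top_of_finrank_eq h2
      rw [eq_one_of_fix_eq_top h3]
      exact (G Q).one_mem
    | succ n ih =>
      intro g hg h
      by_cases hg1 : g = 1
      · rw [hg1]; exact (G Q).one_mem
      obtain ⟨e, heG, hlt⟩ := exists_step_noTS hQ hno hg hg1
      have h1 := Submodule.finrank_lt_finrank_of_lt hlt
      have h2 := Submodule.finrank_le (fix (e * g))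
      have h3 : e * g ∈ G Q := ih _ ((O Q).mul_mem (G_le_O Q heG) hg) (by omega)
      have h4 : g = e⁻¹ * (e * g) := by group
      rw [h4]
      exact (G Q).mul_mem ((G Q).inv_mem heG) h3
  intro g hg
  exact main _ g hg le_rfl

end NoTS

/-! ### Bit model -/

section Bits

/-- Booleans as elements of the field with two elements. -/
def phi (b : Bool) : ZMod 2 := if b then 1 else 0

theorem phi_xor (a b : Bool) : phi (xor a b) = phi a + phi b := by cases a <;> cases b <;> decide

theorem phi_and (a b : Bool) : phi (a && b) = phi a * phi b := by cases a <;> cases b <;> decide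

theorem phi_inj {a b : Bool} (h : phi a = phi b) : a = b := by
  revert a b; decide

theorem phi_ne_zero {a : Bool} (h : phi a ≠ 0) : a = true := by
  revert a; decide

variable {ι : Type} [Fintype ι] [DecidableEq ι] {d : ℕ} (e : ι ≃ Fin d)

/-- Bit vectors. -/
def enc (x : ℕ) : ι → ZMod 2 := fun a => phi (x.testBit (e a))

theorem enc_xor (x y : ℕ) : enc e (x ^^^ y) = enc e x + enc e y := by
  funext a
  simp [enc, Nat.testBit_xor, phi_xor]

theorem enc_zero : enc e 0 = 0 := by
  funext a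
  simp [enc, phi]

theorem enc_surj (u : ι → ZMod 2) : ∃ x, x < 2 ^ d ∧ enc e x = u := by
  refine ⟨Nat.ofBits (fun i : Fin d => decide (u (e.symm i) = 1)), Nat.ofBits_lt_two_pow _, ?_⟩
  funext a
  simp only [enc]
  rw [Nat.testBit_ofBits_lt _ _ (e a).2]
  simp only [Fin.eta, Equiv.symm_apply_apply]
  have : ∀ z : ZMod 2, phi (decide (z = 1)) = z := by decide
  exact this _

theorem enc_inj {x y : ℕ} (hx : x < 2 ^ d) (hy : y < 2 ^ d) (h : enc e x = enc e y) : x = y := by
  apply Nat.eq_of_testBit_eq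
  intro j
  by_cases hj : j < d
  · have := congrFun h (e.symm ⟨j, hj⟩)
    simp only [enc, Equiv.apply_symm_apply] at this
    exact phi_inj this
  · have hle : 2 ^ d ≤ 2 ^ j := Nat.pow_le_pow_right (by norm_num) (by omega)
    rw [Nat.testBit_eq_false_of_lt (lt_of_lt_of_le hx hle), Nat.testBit_eq_false_of_lt (lt_of_lt_of_le hy hle)]

/-- A reflection in bits. -/
def T (pol : ℕ → ℕ → Bool) (r x : ℕ) : ℕ := bif pol x r then x ^^^ r else x

theorem T_lt {pol : ℕ → ℕ → Bool} {r x : ℕ} (hr : r < 2 ^ d) (hx : x < 2 ^ d) : T pol r x < 2 ^ d := by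
  unfold T
  cases pol x r with
  | true => exact Nat.xor_lt_two_pow hx hr
  | false => exact hx

/-- Norm in bits. -/
def nrmN (g : ℕ → ℕ) : ℕ → ℕ → ℕ
  | 0, _ => 0
  | m + 1, y => y ^^^ g (nrmN g m y)

theorem nrmN_lt {g : ℕ → ℕ} (hg : ∀ x, x < 2 ^ d → g x < 2 ^ d) (m : ℕ) {y : ℕ} (hy : y < 2 ^ d) :
    nrmN g m y < 2 ^ d := by
  induction m with
  | zero => exact Nat.two_pow_pos d
  | succ m ih => exact Nat.xor_lt_two_pow hy (hg _ ih)

variable {Q : QuadraticForm (ZMod 2) (ι → ZMod 2)} {pol : ℕ → ℕ → Bool} {qn : ℕ → Bool}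

theorem refl_enc (hq : ∀ x, Q (enc e x) = phi (qn x)) (hpol : ∀ x y, B Q (enc e x) (enc e y) = phi (pol x y))
    {r : ℕ} (hr : qn r = true) (x : ℕ) : refl Q (enc e r) (enc e x) = enc e (T pol r x) := by
  rw [refl_apply, hq, hpol, hr]
  have h1 : phi true = 1 := rfl
  rw [h1, inv_one, one_mul]
  unfold T
  cases pol x r with
  | true =>
    simp only [cond_true]
    rw [enc_xor, h1, one_smul]
    funext a
    exact CharTwo.sub_eq_add _ _
  | false =>
    simp only [cond_false]
    have h0 : phi false = 0 := rfl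
    rw [h0, zero_smul, sub_zero]

/-- The main reduction. -/
theorem main_bits (hq : ∀ x, Q (enc e x) = phi (qn x)) (hpol : ∀ x y, B Q (enc e x) (enc e y) = phi (pol x y))
    (hQ : (B Q).Nondegenerate) (hOG : O Q ≤ G Q) (rt : ℕ → ℕ) (hrt : ∀ i, qn (rt i) = true) (hrtlt : ∀ i, rt i < 2 ^ d)
    (n : ℕ) (hn : 0 < n) (m : ℕ → ℕ → ℕ)
    (C2 : ∀ k, k < n → ∀ i, i < k → ∀ x, x < 2 ^ d →
      (fun y => T pol (rt i) (T pol (rt k) y))^[m i k] x = x)
    (C3 : ∀ k, 0 < k → k < n → ∀ x, x < 2 ^ d →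
      (∀ i, i < k → nrmN (fun y => T pol (rt i) (T pol (rt k) y)) (m i k) (T pol (rt i) (T pol (rt 0) x)) = 0) →
      ∃ v, v < 2 ^ d ∧ (∀ i, i < k → T pol (rt 0) (T pol (rt i) v) = v) ∧ x = T pol (rt 0) (T pol (rt k) v) ^^^ v)
    (C4 : ∀ P : ℕ → Prop, P (rt 0) → (∀ i, i < n → ∀ u, P u → P (T pol (rt i) u)) → ∀ x, x < 2 ^ d → qn x = true → P x)
    (f : ↥(Cfsg.Omega (ZMod 2) ⇑Q) → (ι → ZMod 2)) (hf : ∀ g h, f (g * h) = f g + rho Q g (f h)) :
    ∃ v, ∀ g, f g = rho Q g v + v := by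
  have hc := cross_rho Q hf
  set r : ℕ → (ι → ZMod 2) := fun i => enc e (rt i) with hrdef
  have hr : ∀ i, Q (r i) ≠ 0 := by
    intro i
    simp only [hrdef]
    rw [hq, hrt]
    decide
  have hrefl : ∀ i x, refl Q (r i) (enc e x) = enc e (T pol (rt i) x) := fun i x => refl_enc e hq hpol (hrt i) x
  let τ : ℕ → ℕ → ↥(Cfsg.Omega (ZMod 2) ⇑Q) := fun i j => tauO hQ (r i) (r j) (hr i) (hr j)
  have hτρ : ∀ i j x, rho Q (τ i j) x = refl Q (r i) (refl Q (r j) x) := fun i j x => rho_tauO hQ _ _ _ _ x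
  have hτρe : ∀ i j x, rho Q (τ i j) (enc e x) = enc e (T pol (rt i) (T pol (rt j) x)) := by
    intro i j x
    rw [hτρ, hrefl, hrefl]
  have hTw_lt : ∀ i j x, x < 2 ^ d → T pol (rt i) (T pol (rt j) x) < 2 ^ d := fun i j x hx =>
    T_lt (hrtlt i) (T_lt (hrtlt j) hx)
  have hiter : ∀ (g : ↥(Cfsg.Omega (ZMod 2) ⇑Q)) (φ : ℕ → ℕ), (∀ x, rho Q g (enc e x) = enc e (φ x)) → ∀ (k x : ℕ),
      rho Q (g ^ k) (enc e x) = enc e (φ^[k] x) := by
    intro g φ hφ k
    induction k with
    | zero => intro x; simp [hc.one]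
    | succ k ih =>
      intro x
      rw [pow_succ, hc.mul, hφ, ih, Function.iterate_succ_apply]
  have hnorm : ∀ (g : ↥(Cfsg.Omega (ZMod 2) ⇑Q)) (φ : ℕ → ℕ), (∀ x, rho Q g (enc e x) = enc e (φ x)) → ∀ (k y : ℕ),
      normIter (rho Q g) k (enc e y) = enc e (nrmN φ k y) := by
    intro g φ hφ k y
    induction k with
    | zero => simp [normIter, nrmN, enc_zero]
    | succ k ih => rw [normIter, nrmN, ih, hφ, enc_xor]
  obtain ⟨v, hv⟩ := chain hc τ m n
    (fun i j k => by
      apply rho_inj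
      intro x
      rw [hc.mul, hτρ, hτρ, hτρ, refl_refl])
    (fun i => by
      apply rho_inj
      intro x
      rw [hτρ, refl_refl, hc.one])
    (fun i k hik hk => by
      apply rho_inj
      intro x
      obtain ⟨y, hy, rfl⟩ := enc_surj e x
      rw [hiter (τ i k) _ (hτρe i k), C2 k hk i hik y hy, hc.one])
    (fun k hk0 hk x hx => by
      obtain ⟨x', hx', rfl⟩ := enc_surj e x
      have h3 := C3 k hk0 hk x' hx' (by
        intro i hi
        have h4 := hx i hi
        rw [hτρe, hnorm (τ i k) _ (hτρe i k)] at h4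
        rw [← enc_zero e] at h4
        exact enc_inj e (nrmN_lt (fun y hy => hTw_lt i k y hy) _ (hTw_lt i 0 x' hx')) (Nat.two_pow_pos d) h4)
      obtain ⟨v', hv', h5, h6⟩ := h3
      refine ⟨enc e v', fun i hi => ?_, ?_⟩
      · rw [hτρe, h5 i hi]
      · rw [hτρe, ← enc_xor, ← h6])
    n le_rfl
  refine ⟨v, fun g => ?_⟩
  have h7 := all_of_gens hQ hOG (hc.twist v) r hr n
    (by
      intro P hP hstep u hu
      obtain ⟨x, hx, rfl⟩ := enc_surj e u
      refine C4 (fun z => P (enc e z)) hP (fun i hi u hu => ?_) x hx (phi_ne_zero (by rwa [hq] at hu))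
      rw [← hrefl]
      exact hstep i hi _ hu)
    (by
      intro k hk
      have := hv k hk
      change f (τ 0 k) + rho Q (τ 0 k) v + v = 0
      rw [this, add_assoc _ (rho Q _ v) v, add_self_V]) g
  have h2 := add_self_V (rho Q g v + v)
  have h8 : f g + (rho Q g v + v) = 0 := by rw [← add_assoc]; exact h7
  have : f g = f g + ((rho Q g v + v) + (rho Q g v + v)) := by rw [h2, add_zero]
  rw [this, ← add_assoc, h8, zero_add]

/-! ### Boolean checks -/

theorem of_all_range {n : ℕ} {p : ℕ → Bool} (h : (List.range n).all p = true) : ∀ i, i < n → p i = true := by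
  intro i hi
  exact List.all_eq_true.1 h i (List.mem_range.2 hi)

theorem of_any_range {n : ℕ} {p : ℕ → Bool} (h : (List.range n).any p = true) : ∃ i, i < n ∧ p i = true := by
  obtain ⟨i, hi, h1⟩ := List.any_eq_true.1 h
  exact ⟨i, List.mem_range.1 hi, h1⟩

/-- The list-indexed roots. -/
def rtOf (R : List ℕ) (r₀ i : ℕ) : ℕ := R.getD i r₀

/-- The basic check on the roots. -/
def chk1 (d : ℕ) (qn : ℕ → Bool) (R : List ℕ) (r₀ : ℕ) : Bool :=
  qn r₀ && decide (r₀ < 2 ^ d) && R.all (fun r => qn r && decide (r < 2 ^ d))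

theorem of_chk1 {qn : ℕ → Bool} {R : List ℕ} {r₀ : ℕ} (h : chk1 d qn R r₀ = true) (i : ℕ) :
    qn (rtOf R r₀ i) = true ∧ rtOf R r₀ i < 2 ^ d := by
  simp only [chk1, Bool.and_eq_true, decide_eq_true_eq, List.all_eq_true] at h
  obtain ⟨⟨h1, h2⟩, h3⟩ := h
  unfold rtOf
  by_cases hi : i < R.length
  · rw [List.getD_eq_getElem _ _ hi]
    exact h3 _ (List.getElem_mem hi)
  · rw [List.getD_eq_default _ _ (by omega)]
    exact ⟨h1, h2⟩

/-- The order parameter. -/
def mOf (pol : ℕ → ℕ → Bool) (rt : ℕ → ℕ) (i k : ℕ) : ℕ := bif pol (rt i) (rt k) then 3 else 2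

/-- The Coxeter relations. -/
def chk2 (d n : ℕ) (pol : ℕ → ℕ → Bool) (rt : ℕ → ℕ) : Bool :=
  (List.range n).all fun k => (List.range k).all fun i => (List.range (2 ^ d)).all fun x =>
    (fun y => T pol (rt i) (T pol (rt k) y))^[mOf pol rt i k] x == x

theorem of_chk2 {n : ℕ} {rt : ℕ → ℕ} (h : chk2 d n pol rt = true) (k : ℕ) (hk : k < n) (i : ℕ) (hi : i < k) (x : ℕ) (hx : x < 2 ^ d) :
    (fun y => T pol (rt i) (T pol (rt k) y))^[mOf pol rt i k] x = x :=
  beq_iff_eq.1 (of_all_range (of_all_range (of_all_range h k hk) i hi) x hx)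

/-- The stages. -/
def chk3 (d n : ℕ) (pol : ℕ → ℕ → Bool) (rt : ℕ → ℕ) : Bool :=
  (List.range n).all fun k => k == 0 || (List.range (2 ^ d)).all fun x =>
    !((List.range k).all fun i =>
        nrmN (fun y => T pol (rt i) (T pol (rt k) y)) (mOf pol rt i k) (T pol (rt i) (T pol (rt 0) x)) == 0)
    || (List.range (2 ^ d)).any fun v =>
      ((List.range k).all fun i => T pol (rt 0) (T pol (rt i) v) == v) && x == (T pol (rt 0) (T pol (rt k) v) ^^^ v)

theorem of_chk3 {n : ℕ} {rt : ℕ → ℕ} (h : chk3 d n pol rt = true) (k : ℕ) (hk0 : 0 < k) (hk : k < n) (x : ℕ) (hx : x < 2 ^ d)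
    (hc : ∀ i, i < k → nrmN (fun y => T pol (rt i) (T pol (rt k) y)) (mOf pol rt i k) (T pol (rt i) (T pol (rt 0) x)) = 0) :
    ∃ v, v < 2 ^ d ∧ (∀ i, i < k → T pol (rt 0) (T pol (rt i) v) = v) ∧ x = T pol (rt 0) (T pol (rt k) v) ^^^ v := by
  have h1 := of_all_range h k hk
  rw [Bool.or_eq_true] at h1
  rcases h1 with h1 | h1
  · have : k = 0 := beq_iff_eq.1 h1
    omega
  have h2 := of_all_range h1 x hx
  rw [Bool.or_eq_true] at h2
  rcases h2 with h2 | h2
  · exfalso
    have h3 : (List.range k).all (fun i =>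
        nrmN (fun y => T pol (rt i) (T pol (rt k) y)) (mOf pol rt i k) (T pol (rt i) (T pol (rt 0) x)) == 0) = true := by
      rw [List.all_eq_true]
      intro i hi
      exact beq_iff_eq.2 (hc i (List.mem_range.1 hi))
    rw [h3] at h2
    exact Bool.false_ne_true h2
  · obtain ⟨v, hv, h3⟩ := of_any_range h2
    rw [Bool.and_eq_true] at h3
    refine ⟨v, hv, fun i hi => beq_iff_eq.1 (of_all_range h3.1 i hi), beq_iff_eq.1 h3.2⟩

/-- Reachability. -/
def reachChk (pol : ℕ → ℕ → Bool) (rt : ℕ → ℕ) (n : ℕ) : List ℕ → List ℕ → Bool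
  | _, [] => true
  | done, a :: tl =>
    ((List.range n).any fun i => done.any fun b => T pol (rt i) b == a) && reachChk pol rt n (a :: done) tl

theorem reach_of_chk {rt : ℕ → ℕ} {n : ℕ} (P : ℕ → Prop) (hstep : ∀ i, i < n → ∀ u, P u → P (T pol (rt i) u)) :
    ∀ (l done : List ℕ), (∀ b ∈ done, P b) → reachChk pol rt n done l = true → ∀ a ∈ l, P a := by
  intro l
  induction l with
  | nil => intro _ _ _ a ha; simp at ha
  | cons a tl ih =>
    intro done hd hchk z hz
    rw [reachChk, Bool.and_eq_true] at hchk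
    have ha : P a := by
      obtain ⟨i, hi, h1⟩ := of_any_range hchk.1
      obtain ⟨b, hb, h2⟩ := List.any_eq_true.1 h1
      rw [← beq_iff_eq.1 h2]
      exact hstep i hi b (hd b hb)
    rcases List.mem_cons.1 hz with rfl | hz
    · exact ha
    · refine ih (a :: done) ?_ hchk.2 z hz
      intro b hb
      rcases List.mem_cons.1 hb with rfl | hb
      · exact ha
      · exact hd b hb

/-- The reachability check. -/
def chk4 (d n : ℕ) (pol : ℕ → ℕ → Bool) (qn : ℕ → Bool) (rt : ℕ → ℕ) (L : List ℕ) : Bool :=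
  reachChk pol rt n [rt 0] L && (List.range (2 ^ d)).all fun x => !(qn x) || (x == rt 0 || L.contains x)

theorem of_chk4 {n : ℕ} {rt : ℕ → ℕ} {L : List ℕ} (h : chk4 d n pol qn rt L = true)
    (P : ℕ → Prop) (h0 : P (rt 0)) (hstep : ∀ i, i < n → ∀ u, P u → P (T pol (rt i) u)) (x : ℕ) (hx : x < 2 ^ d)
    (hqx : qn x = true) : P x := by
  rw [chk4, Bool.and_eq_true] at h
  have h1 := reach_of_chk P hstep L [rt 0] (by simpa using h0) h.1
  have h2 := of_all_range h.2 x hx
  rw [Bool.or_eq_true, Bool.or_eq_true, hqx] at h2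
  rcases h2 with h2 | h2 | h2
  · simp at h2
  · rw [beq_iff_eq.1 h2]
    exact h0
  · exact h1 x (List.contains_iff_mem.1 h2)

/-- Nondegeneracy check. -/
def chk5 (d : ℕ) (pol : ℕ → ℕ → Bool) : Bool :=
  (List.range (2 ^ d)).all fun x => x == 0 || (List.range (2 ^ d)).any fun y => pol x y

theorem nondeg_of_chk5 (hpol : ∀ x y, B Q (enc e x) (enc e y) = phi (pol x y)) (h : chk5 d pol = true) :
    (B Q).Nondegenerate := by
  have hsep : ∀ u, (∀ w, B Q u w = 0) → u = 0 := by
    intro u hu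
    obtain ⟨x, hx, rfl⟩ := enc_surj e u
    have h1 := of_all_range h x hx
    rw [Bool.or_eq_true] at h1
    rcases h1 with h1 | h1
    · rw [beq_iff_eq.1 h1, enc_zero]
    · obtain ⟨y, hy, h2⟩ := of_any_range h1
      have h3 := hu (enc e y)
      rw [hpol, h2] at h3
      exact absurd h3 (by decide)
  exact ⟨hsep, fun u hu => hsep u (fun w => by rw [B_comm]; exact hu w)⟩

/-- No totally singular lines. -/
def chk6 (d : ℕ) (pol : ℕ → ℕ → Bool) (qn : ℕ → Bool) : Bool :=
  (List.range (2 ^ d)).all fun x => (List.range (2 ^ d)).all fun y =>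
    x == 0 || y == 0 || x == y || qn x || qn y || pol x y

theorem noTS_of_chk6 (hq : ∀ x, Q (enc e x) = phi (qn x)) (hpol : ∀ x y, B Q (enc e x) (enc e y) = phi (pol x y))
    (h : chk6 d pol qn = true) (u w : ι → ZMod 2) (hu : Q u = 0) (hw : Q w = 0) (huw : B Q u w = 0) (hu0 : u ≠ 0)
    (hsp : w ∉ Submodule.span (ZMod 2) {u}) : False := by
  obtain ⟨x, hx, rfl⟩ := enc_surj e u
  obtain ⟨y, hy, rfl⟩ := enc_surj e w
  have h1 := of_all_range (of_all_range h x hx) y hy
  simp only [Bool.or_eq_true, beq_iff_eq] at h1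
  have hphi : ∀ b : Bool, phi b = 0 → b = false := by decide
  rcases h1 with ((((h1 | h1) | h1) | h1) | h1) | h1
  · apply hu0
    rw [h1, enc_zero]
  · apply hsp
    rw [h1, enc_zero]
    exact Submodule.zero_mem _
  · apply hsp
    rw [h1]
    exact Submodule.mem_span_singleton_self _
  · rw [hq] at hu
    rw [hphi _ hu] at h1
    simp at h1
  · rw [hq] at hw
    rw [hphi _ hw] at h1
    simp at h1
  · rw [hpol] at huw
    rw [hphi _ huw] at h1
    simp at h1

/-- The final statement. -/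
theorem final (Q : QuadraticForm (ZMod 2) (ι → ZMod 2)) {q : (ι → ZMod 2) → ZMod 2} (hqq : ⇑Q = q)
    (hq : ∀ x, Q (enc e x) = phi (qn x)) (hpol : ∀ x y, B Q (enc e x) (enc e y) = phi (pol x y))
    (hOG : O Q ≤ G Q) (R : List ℕ) (r₀ : ℕ) (L : List ℕ) (hn : 0 < R.length)
    (h1 : chk1 d qn R r₀ = true) (h2 : chk2 d R.length pol (rtOf R r₀) = true)
    (h3 : chk3 d R.length pol (rtOf R r₀) = true) (h4 : chk4 d R.length pol qn (rtOf R r₀) L = true)
    (h5 : chk5 d pol = true) :
    ∀ f : ↥(Cfsg.Omega (ZMod 2) q) → (ι → ZMod 2),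
      (∀ g h, f (g * h) = f g + Matrix.mulVec (((g : ↥(Cfsg.isometryGroup (ZMod 2) q)) : GL ι (ZMod 2)) : Matrix ι ι (ZMod 2)) (f h)) →
      ∃ v : ι → ZMod 2, ∀ g : ↥(Cfsg.Omega (ZMod 2) q),
        f g = Matrix.mulVec (((g : ↥(Cfsg.isometryGroup (ZMod 2) q)) : GL ι (ZMod 2)) : Matrix ι ι (ZMod 2)) v - v := by
  subst hqq
  intro f hf
  obtain ⟨v, hv⟩ := main_bits e hq hpol (nondeg_of_chk5 e hpol h5) hOG (rtOf R r₀) (fun i => (of_chk1 h1 i).1)
    (fun i => (of_chk1 h1 i).2) R.length hn (mOf pol (rtOf R r₀)) (of_chk2 h2) (of_chk3 h3)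
    (fun P h0 hstep x hx hqx => of_chk4 h4 P h0 hstep x hx hqx) f hf
  refine ⟨v, fun g => ?_⟩
  rw [hv g]
  funext a
  exact (CharTwo.sub_eq_add _ _).symm

end Bits

end Cfsg.Agent.Lib.H1Bits
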