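import Mathlib

/-!
# Lifting idempotents over a local ring in which monic polynomials split

`R` is a local ring in which every monic polynomial is a product of linear factors, `A` an `R`-algebra.
An element `a` of `A` integral over `R` whose image under a semilinear ring homomorphism to an algebra
over the residue field is idempotent yields an idempotent polynomial in `a`, without constant term,
with the same image.
-/

set_option autoImplicit false
set_option linter.unusedSectionVars false
set_option linter.unusedVariables false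

namespace Cfsg.Agent.Lib.H59Pim1

open Polynomial IsLocalRing

variable {R : Type*} [CommRing R]

/-- Every monic polynomial is a product of linear factors. -/
def MonicSplit (R : Type*) [CommRing R] : Prop :=
  ∀ q : R[X], q.Monic → ∃ s : Multiset R, q = (s.map fun a => X - C a).prod

theorem isCoprime_linear {a b : R} (h : IsUnit (a - b)) : IsCoprime (X - C a : R[X]) (X - C b) := by
  obtain ⟨u, hu⟩ := h
  refine ⟨C (↑u⁻¹ : R) * (-1), C (↑u⁻¹ : R), ?_⟩
  have h1 : (C (↑u⁻¹ : R) : R[X]) * C (a - b) = 1 := by
    rw [← C_mul, ← hu, Units.inv_mul, C_1]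
  rw [C_sub] at h1
  linear_combination h1

theorem isCoprime_prod_right (a : R) (t : Multiset R) (h : ∀ b ∈ t, IsUnit (a - b)) :
    IsCoprime (X - C a : R[X]) (t.map fun b => X - C b).prod := by
  induction t using Multiset.induction_on with
  | empty => simpa using isCoprime_one_right
  | cons b t ih =>
    rw [Multiset.map_cons, Multiset.prod_cons]
    exact IsCoprime.mul_right (isCoprime_linear (h b (Multiset.mem_cons_self b t)))
      (ih fun c hc => h c (Multiset.mem_cons_of_mem hc))

theorem isCoprime_prod_prod (s t : Multiset R) (h : ∀ a ∈ s, ∀ b ∈ t, IsUnit (a - b)) :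
    IsCoprime ((s.map fun a => X - C a).prod : R[X]) (t.map fun b => X - C b).prod := by
  induction s using Multiset.induction_on with
  | empty => simpa using isCoprime_one_left
  | cons a s ih =>
    rw [Multiset.map_cons, Multiset.prod_cons]
    exact IsCoprime.mul_left (isCoprime_prod_right a t (h a (Multiset.mem_cons_self a s)))
      (ih fun c hc => h c (Multiset.mem_cons_of_mem hc))

theorem eval_prod_linear (x : R) (s : Multiset R) :
    eval x ((s.map fun a => X - C a).prod : R[X]) = (s.map fun a => x - a).prod := by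
  induction s using Multiset.induction_on with
  | empty => simp
  | cons a s ih => simp [ih]

section Lift

variable [IsLocalRing R]

theorem isUnit_prod_of_residue (s : Multiset R) (h : ∀ a ∈ s, residue R a ≠ 0) : IsUnit s.prod := by
  induction s using Multiset.induction_on with
  | empty => simp
  | cons a s ih =>
    rw [Multiset.prod_cons]
    refine IsUnit.mul ?_ (ih fun c hc => h c (Multiset.mem_cons_of_mem hc))
    exact (residue_ne_zero_iff_isUnit a).1 (h a (Multiset.mem_cons_self a s))

variable {A S : Type*} [Ring A] [Algebra R A] [Ring S] [Algebra (ResidueField R) S]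

/-- Evaluation of a polynomial at an element with idempotent image. -/
theorem map_aeval_of_idem (π : A →+* S) (hπ : ∀ (r : R) (a : A), π (r • a) = residue R r • π a)
    (a : A) (hx : π a * π a = π a) (T : R[X]) :
    π (aeval a T) = residue R (T.eval 0) • π 1 +
      (residue R (T.eval 1) - residue R (T.eval 0)) • π a := by
  have hpow : ∀ n : ℕ, π (a ^ (n + 1)) = π a := by
    intro n
    induction n with
    | zero => simp
    | succ n ih => rw [pow_succ, map_mul, ih, hx]
  induction T using Polynomial.induction_on' with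
  | add p q hp hq =>
    simp only [map_add, eval_add, hp, hq, add_smul, sub_smul]
    abel
  | monomial n r =>
    rw [aeval_monomial, ← Algebra.smul_def]
    cases n with
    | zero =>
      simp [hπ]
    | succ n =>
      rw [hπ, hpow]
      simp [eval_monomial]

/-- **The lift.** -/
theorem exists_idem_poly (hs : MonicSplit R) (π : A →+* S)
    (hπ : ∀ (r : R) (a : A), π (r • a) = residue R r • π a)
    (a : A) (ha : IsIntegral R a) (hx : π a * π a = π a) :
    ∃ P : R[X], P.eval 0 = 0 ∧ aeval a P * aeval a P = aeval a P ∧ π (aeval a P) = π a := by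
  classical
  obtain ⟨q, hqm, hq0⟩ := ha
  have hq0' : aeval a q = 0 := by simpa [aeval_def] using hq0
  obtain ⟨s, hs'⟩ := hs q hqm
  set s₁ := s.filter fun l => residue R l = 1 with hs₁
  set s₂ := s.filter fun l => ¬ residue R l = 1 with hs₂
  have hs12 : s₁ + s₂ = s := Multiset.filter_add_not _ _
  set t := (0 : R) ::ₘ s₂ with ht
  set q₁ : R[X] := (s₁.map fun l => X - C l).prod with hq₁
  set q₂ : R[X] := (t.map fun l => X - C l).prod with hq₂
  have htmem : ∀ b ∈ t, residue R b ≠ 1 := by
    intro b hb
    rcases Multiset.mem_cons.1 hb with rfl | hb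
    · simp
    · exact (Multiset.mem_filter.1 hb).2
  have hcop : IsCoprime q₁ q₂ := by
    refine isCoprime_prod_prod s₁ t fun l hl b hb => ?_
    rw [← residue_ne_zero_iff_isUnit, map_sub, (Multiset.mem_filter.1 hl).2]
    intro h
    exact htmem b hb (sub_eq_zero.1 h).symm
  obtain ⟨u, w, huw⟩ := hcop
  have hmul : q₁ * q₂ = X * q := by
    rw [hq₁, hq₂, ht, Multiset.map_cons, Multiset.prod_cons, hs', ← hs12, Multiset.map_add,
      Multiset.prod_add]
    simp only [map_zero, sub_zero]
    ring
  have haq : aeval a (q₁ * q₂) = 0 := by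
    rw [hmul, map_mul, hq0', mul_zero]
  have hq₂0 : q₂.eval 0 = 0 := by
    rw [hq₂, ht, Multiset.map_cons, Multiset.prod_cons]
    simp
  refine ⟨w * q₂, by rw [eval_mul, hq₂0, mul_zero], ?_, ?_⟩
  · -- idempotence
    have h1 : w * q₂ * (w * q₂) = w * q₂ - (u * w) * (q₁ * q₂) := by
      have : w * q₂ = 1 - u * q₁ := by rw [← huw]; ring
      linear_combination (w * q₂) * this
    have h2 : aeval a (w * q₂) * aeval a (w * q₂) = aeval a (w * q₂ * (w * q₂)) := by
      rw [map_mul (aeval a) (w * q₂) (w * q₂)]
    rw [h2, h1, map_sub, map_mul (aeval a) (u * w) (q₁ * q₂), haq, mul_zero, sub_zero]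
  · rw [map_aeval_of_idem π hπ a hx, eval_mul, hq₂0, mul_zero, map_zero, zero_smul, zero_add,
      sub_zero]
    by_cases hx0 : π a = 0
    · rw [hx0, smul_zero]
    have h3 : residue R (eval 1 (q₁ * q₂)) = 0 := by
      by_contra hne
      have h4 := map_aeval_of_idem π hπ a hx (q₁ * q₂)
      rw [haq, map_zero, hmul, eval_mul, eval_mul, eval_X, zero_mul, map_zero, zero_smul, zero_add,
        sub_zero, ← eval_mul, ← hmul] at h4
      have h5 := congrArg (fun z => (residue R (eval 1 (q₁ * q₂)))⁻¹ • z) h4
      simp only [smul_zero, smul_smul, inv_mul_cancel₀ hne, one_smul] at h5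
      exact hx0 h5.symm
    have h6 : IsUnit (eval 1 q₂) := by
      rw [hq₂, eval_prod_linear]
      refine isUnit_prod_of_residue _ fun c hc => ?_
      obtain ⟨b, hb, rfl⟩ := Multiset.mem_map.1 hc
      simp only [map_sub, map_one]
      intro h
      exact htmem b hb (sub_eq_zero.1 h).symm
    have h7 : residue R (eval 1 q₁) = 0 := by
      rw [eval_mul, map_mul] at h3
      rcases mul_eq_zero.1 h3 with h | h
      · exact h
      · exact absurd ((residue_ne_zero_iff_isUnit _).2 h6) (not_not.2 h)
    have h8 : residue R (eval 1 w * eval 1 q₂) = 1 := by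
      have h9 := congrArg (fun T => residue R (eval 1 T)) huw
      simp only [eval_add, eval_mul, eval_one, map_add, map_mul, map_one, h7, mul_zero, zero_add]
        at h9
      rw [map_mul]
      exact h9
    rw [eval_mul, h8, one_smul]

/-- A polynomial without constant term at an element of a corner lies in the corner. -/
theorem aeval_eq_mul_of_eval_zero (y : A) (P : R[X]) (hP : P.eval 0 = 0) :
    aeval y P = aeval y P.divX * y ∧ aeval y P = y * aeval y P.divX := by
  have h0 : P.coeff 0 = 0 := by rw [coeff_zero_eq_eval_zero, hP]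
  have h1 : P = P.divX * X := by
    conv_lhs => rw [← divX_mul_X_add P, h0]
    simp
  have h2 : aeval y P = aeval y P.divX * y := by
    conv_lhs => rw [h1]
    rw [map_mul, aeval_X]
  refine ⟨h2, ?_⟩
  have h3 : aeval y P = y * aeval y P.divX := by
    rw [h2]
    exact (Polynomial.aeval_X (R := R) y ▸ (Commute.all (X : R[X]) P.divX).map (aeval y)).eq.symm ▸ rfl
  exact h3

end Lift

section Peel

variable [IsLocalRing R] {A : Type*} [Ring A] [Algebra R A]
variable {ι : Type*} [Fintype ι] [DecidableEq ι] {d : ι → ℕ}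

/-- The matrix unit at the first position of the factor `i`. -/
noncomputable def unit00 (hpos : ∀ i, 0 < d i) (i : ι) :
    ∀ j, Matrix (Fin (d j)) (Fin (d j)) (ResidueField R) :=
  Pi.single i (Matrix.single ⟨0, hpos i⟩ ⟨0, hpos i⟩ 1)

variable (hs : MonicSplit R) (hint : ∀ a : A, IsIntegral R a)
  (ρ : ∀ i, A →+* Matrix (Fin (d i)) (Fin (d i)) (ResidueField R))
  (hρ : ∀ i (r : R) (a : A), ρ i (r • a) = residue R r • ρ i a)
  (hsurj : Function.Surjective (fun (a : A) i => ρ i a))
  (hnil : ∀ t : A, t * t = t → (∀ i, ρ i t = 0) → t = 0)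
  (hpos : ∀ i, 0 < d i)

include hs hint hρ hsurj in
theorem exists_primitive (i : ι) :
    ∃ f : A, f * f = f ∧ ∀ j, ρ j f = unit00 (R := R) hpos i j := by
  classical
  let π : A →+* ∀ j, Matrix (Fin (d j)) (Fin (d j)) (ResidueField R) := Pi.ringHom ρ
  obtain ⟨a, ha⟩ := hsurj (unit00 (R := R) hpos i)
  have hπa : π a = unit00 (R := R) hpos i := ha
  have hE : unit00 (R := R) hpos i * unit00 (R := R) hpos i = unit00 (R := R) hpos i := by
    funext j
    by_cases h : j = i
    · subst h
      simp [unit00, Matrix.single_mul_single_same]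
    · simp [unit00, Pi.single_eq_of_ne h]
  obtain ⟨P, -, h1, h2⟩ := exists_idem_poly hs π
    (fun r a => by
      funext j
      exact hρ j r a)
    a (hint a) (by rw [hπa, hE])
  refine ⟨aeval a P, h1, fun j => ?_⟩
  have := congrFun h2 j
  rw [hπa] at this
  exact this

include hs hint hρ hsurj hnil in
/-- **The peeling step.** -/
theorem exists_peel {fi f : A} {i : ι} (hfi : fi * fi = fi)
    (hfiρ : ∀ j, ρ j fi = unit00 (R := R) hpos i j) (hf : f * f = f) (hne : ρ i f ≠ 0) :
    ∃ a b : A, b * a = fi ∧ (a * b) * (a * b) = a * b ∧ (a * b) * f = a * b ∧ f * (a * b) = a * b ∧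
      a * b ≠ 0 ∧ ∀ j, j ≠ i → ρ j (a * b) = 0 := by
  classical
  let π : A →+* ∀ j, Matrix (Fin (d j)) (Fin (d j)) (ResidueField R) := Pi.ringHom ρ
  have hπ : ∀ (r : R) (a : A), π (r • a) = residue R r • π a := fun r a => by
    funext j
    exact hρ j r a
  obtain ⟨s, t, hst⟩ : ∃ s t, ρ i f s t ≠ 0 := by
    by_contra hcon
    push Not at hcon
    exact hne (Matrix.ext hcon)
  set c := ρ i f s t with hc
  let o : Fin (d i) := ⟨0, hpos i⟩
  obtain ⟨a', ha'⟩ := hsurj (Pi.single i (Matrix.single t o 1))
  obtain ⟨b', hb'⟩ := hsurj (Pi.single i (Matrix.single o s c⁻¹))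
  have ha'i : ρ i a' = Matrix.single t o 1 := by
    have := congrFun ha' i
    simpa using this
  have hb'i : ρ i b' = Matrix.single o s c⁻¹ := by
    have := congrFun hb' i
    simpa using this
  have hfii : ρ i fi = Matrix.single o o 1 := by
    rw [hfiρ]
    simp [unit00, o]
  have hfij : ∀ j, j ≠ i → ρ j fi = 0 := by
    intro j hj
    rw [hfiρ]
    simp [unit00, Pi.single_eq_of_ne hj]
  obtain ⟨a, hadef⟩ : ∃ a, a = f * a' * fi := ⟨_, rfl⟩
  obtain ⟨b, hbdef⟩ : ∃ b, b = fi * b' * f := ⟨_, rfl⟩
  obtain ⟨y, hy⟩ : ∃ y, y = b * a := ⟨_, rfl⟩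
  have haf : a * fi = a := by
    rw [hadef, mul_assoc, hfi]
  have hfa : f * a = a := by
    rw [hadef, ← mul_assoc, ← mul_assoc, hf]
  have hbf : b * f = b := by
    rw [hbdef, mul_assoc, hf]
  have hfb : fi * b = b := by
    rw [hbdef, ← mul_assoc, ← mul_assoc, hfi]
  have hρfi : ρ i f * ρ i f = ρ i f := by rw [← map_mul, hf]
  have hyi : ρ i y = Matrix.single o o 1 := by
    have h1 : ρ i y = Matrix.single o o 1 * (Matrix.single o s c⁻¹ * (ρ i f *
        (Matrix.single t o 1 * Matrix.single o o 1))) := by
      rw [hy, hadef, hbdef]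
      simp only [map_mul, hfii, hb'i, ha'i]
      have : ∀ (u v w x : Matrix (Fin (d i)) (Fin (d i)) (ResidueField R)),
          u * v * ρ i f * (ρ i f * w * x) = u * (v * ((ρ i f * ρ i f) * (w * x))) := by
        intro u v w x
        noncomm_ring
      rw [this, hρfi]
    rw [h1]
    have h2 : (Matrix.single t o (1 : ResidueField R)) * Matrix.single o o 1 = Matrix.single t o 1 := by
      rw [Matrix.single_mul_single_same, one_mul]
    rw [h2]
    have h3 : (ρ i f) * Matrix.single t o (1 : ResidueField R) =
        ρ i f * Matrix.single t o 1 := rfl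
    ext p q
    simp only [Matrix.mul_apply, Matrix.single_apply]
    have e1 : ∀ x : Fin (d i), (∑ z, ρ i f x z * (if t = z ∧ o = q then (1 : ResidueField R) else 0)) =
        if o = q then ρ i f x t else 0 := by
      intro x
      by_cases hq : o = q
      · simp [hq]
      · simp [hq]
    simp only [e1]
    by_cases hq : o = q
    · subst hq
      by_cases hp : o = p
      · subst hp
        simp only [and_self, if_true, true_and]
        simp [hc.symm, inv_mul_cancel₀ hst]
      · simp [hp]
    · simp [hq]
  have hyj : ∀ j, j ≠ i → ρ j y = 0 := by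
    intro j hj
    rw [hy, hadef, map_mul, map_mul, hfij j hj, mul_zero, mul_zero]
  have hπy : π y = π fi := by
    funext j
    by_cases h : j = i
    · subst h
      show ρ j y = ρ j fi
      rw [hyi, hfii]
    · show ρ j y = ρ j fi
      rw [hyj j h, hfij j h]
  obtain ⟨P, hP0, hPi, hPπ⟩ := exists_idem_poly hs π hπ y (hint y)
    (by rw [hπy, ← map_mul, hfi])
  obtain ⟨hQ1, hQ2⟩ := aeval_eq_mul_of_eval_zero (R := R) y P hP0
  set Q : A := aeval y P.divX with hQ
  set E : A := aeval y P with hE
  have hfiy : fi * y = y := by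
    rw [hy, ← mul_assoc, hfb]
  have hyfi : y * fi = y := by
    rw [hy, mul_assoc, haf]
  have hEfi : E * fi = E := by rw [hQ1, mul_assoc, hyfi]
  have hfiE : fi * E = E := by rw [hQ2, ← mul_assoc, hfiy]
  have ht : fi - E = 0 := by
    apply hnil
    · rw [sub_mul, mul_sub, mul_sub, hfi, hfiE, hEfi, hPi]
      abel
    · intro j
      have h1 := congrFun hPπ j
      have h2 := congrFun hπy j
      have h3 : ρ j E = ρ j y := h1
      have h4 : ρ j y = ρ j fi := h2
      rw [map_sub, h3, h4, sub_self]
  have hEeq : E = fi := (sub_eq_zero.1 ht).symm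
  have hQy : Q * y = fi := by rw [← hQ1, hEeq]
  have hb₁ : (Q * b) * a = fi := by
    rw [mul_assoc, ← hy, hQy]
  refine ⟨a, Q * b, hb₁, ?_, ?_, ?_, ?_, ?_⟩
  · calc a * (Q * b) * (a * (Q * b)) = a * ((Q * b) * a) * (Q * b) := by noncomm_ring
      _ = a * (Q * b) := by rw [hb₁, haf]
  · rw [mul_assoc, mul_assoc, hbf]
  · rw [← mul_assoc, hfa]
  · intro h0
    have h1 : fi = 0 := by
      calc fi = fi * fi := hfi.symm
        _ = (Q * b) * (a * (Q * b)) * a := by rw [← hb₁]; noncomm_ring
        _ = 0 := by rw [h0]; simp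
    have h2 := hfii
    rw [h1, map_zero] at h2
    have h3 := congrArg (fun M : Matrix (Fin (d i)) (Fin (d i)) (ResidueField R) => M o o) h2
    simp at h3
  · intro j hj
    have : ρ j a = 0 := by
      rw [hadef, map_mul, hfij j hj, mul_zero]
    rw [map_mul, this, zero_mul]

include hs hint hρ hsurj hnil in
/-- **The decomposition of an idempotent.** -/
theorem exists_decomp {X : Type*} [AddCommGroup X] (cl : A →+ X)
    (hcl : ∀ a b : A, cl (a * b) = cl (b * a)) (meas : A → ℕ)
    (hmeas : ∀ f f' : A, f * f = f → f' * f' = f' → f' * f = f' → f * f' = f' → f' ≠ 0 →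
      meas (f - f') < meas f)
    (fi : ι → A) (hfi : ∀ i, fi i * fi i = fi i)
    (hfiρ : ∀ i j, ρ j (fi i) = unit00 (R := R) hpos i j) :
    ∀ f : A, f * f = f → ∃ N : ι → ℕ, cl f = ∑ i, N i • cl (fi i) ∧ ∀ i, N i ≠ 0 ↔ ρ i f ≠ 0 := by
  classical
  have key : ∀ n : ℕ, ∀ f : A, meas f = n → f * f = f →
      ∃ N : ι → ℕ, cl f = ∑ i, N i • cl (fi i) ∧ ∀ i, N i ≠ 0 ↔ ρ i f ≠ 0 := by
    intro n
    induction n using Nat.strong_induction_on with
    | _ n ih =>
      intro f hfn hf
      by_cases h0 : ∀ i, ρ i f = 0
      · have hf0 : f = 0 := hnil f hf h0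
        refine ⟨0, by simp [hf0], fun i => by simp [h0 i]⟩
      · push Not at h0
        obtain ⟨i, hi⟩ := h0
        obtain ⟨a, b, hba, h1, h2, h3, h4, h5⟩ := exists_peel hs hint ρ hρ hsurj hnil hpos (hfi i)
          (hfiρ i) hf hi
        set f' := a * b with hf'
        have hsub : (f - f') * (f - f') = f - f' := by
          rw [sub_mul, mul_sub, mul_sub, hf, h3, h2, h1]
          abel
        obtain ⟨N, hN1, hN2⟩ := ih _ (hfn ▸ hmeas f f' hf h1 h2 h3 h4) (f - f') rfl hsub
        refine ⟨N + Pi.single i 1, ?_, fun j => ?_⟩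
        · have h6 : cl f = cl (fi i) + cl (f - f') := by
            rw [map_sub, ← hba, hf', hcl a b]
            abel
          have h8 : ∑ j, (Pi.single i 1 : ι → ℕ) j • cl (fi j) = cl (fi i) := by
            rw [Finset.sum_eq_single i]
            · simp
            · intro j _ hj
              simp [Pi.single_eq_of_ne hj]
            · simp
          rw [h6, hN1]
          simp only [Pi.add_apply, add_smul, Finset.sum_add_distrib]
          rw [h8, add_comm]
        · by_cases hj : j = i
          · subst hj
            simp [hi]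
          · have h7 : ρ j f = ρ j (f - f') := by
              rw [map_sub, h5 j hj, sub_zero]
            rw [h7, ← hN2 j]
            simp [Pi.single_eq_of_ne hj]
  intro f hf
  exact key _ f rfl hf

end Peel

end Cfsg.Agent.Lib.H59Pim1
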