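import Mathlib
import Cfsg.Agent.Lib.H59Pim1
import Cfsg.Agent.Lib.BlockResidue
import Cfsg.Agent.Lib.BlockOsima
import Cfsg.Agent.Lib.BlkOrth
import Cfsg.Agent.Lib.BlockBrandt
import Cfsg.Agent.Lib.BrauerCount50

/-!
# The group algebra over the local ring at `M`

The local ring at a prime ideal `M` of the algebraic integers: monic polynomials split, the residue field
is algebraically closed.  Over it, the class function `cl a` attached to an element `a` of the group
algebra is a trace form; for idempotents it is an integer combination of irreducible characters vanishing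
on `p`-singular elements.
-/

set_option autoImplicit false
set_option linter.unusedSectionVars false
set_option linter.unusedVariables false
set_option linter.style.haveILetI false

namespace Cfsg.Agent.Lib.H59Pim2

open Cfsg Polynomial IsLocalRing
open Cfsg.Agent.Lib.BlockLocal Cfsg.Agent.Lib.H59Pim1

section Split

variable {M : Ideal AlgInt} [hM : M.IsPrime]

theorem exists_common_denom {ι : Type*} (s : Finset ι) (f : ι → ℂ)
    (h : ∀ i ∈ s, MemLocalRing M (f i)) :
    ∃ b : AlgInt, b ∉ M ∧ ∀ i ∈ s, IsIntegral ℤ ((b : ℂ) * f i) := by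
  classical
  induction s using Finset.induction_on with
  | empty => exact ⟨1, one_not_mem, by simp⟩
  | insert a s ha ih =>
    obtain ⟨b, hb, hbi⟩ := ih fun i hi => h i (Finset.mem_insert_of_mem hi)
    obtain ⟨u, v, hv, huv⟩ := h a (Finset.mem_insert_self a s)
    refine ⟨b * v, mul_not_mem hb hv, fun i hi => ?_⟩
    rcases Finset.mem_insert.1 hi with rfl | hi
    · have h1 : (((b * v : AlgInt) : ℂ)) * f i = ((b * u : AlgInt) : ℂ) := by
        rw [← huv]
        have := coe_ne_zero_of_not_mem (M := M) hv
        push_cast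
        field_simp
      rw [h1]
      exact (b * u).2
    · have h1 : (((b * v : AlgInt) : ℂ)) * f i = (v : ℂ) * ((b : ℂ) * f i) := by
        push_cast
        ring
      rw [h1]
      exact IsIntegral.mul v.2 (hbi i hi)

theorem memLocalRing_of_root {q : (localSubring M)[X]} (hq : q.Monic) {z : ℂ}
    (hz : eval₂ (localSubring M).subtype z q = 0) : MemLocalRing M z := by
  classical
  set n := q.natDegree with hn
  obtain ⟨b, hb, hbi⟩ := exists_common_denom (M := M) (Finset.range (n + 1))
    (fun j => ((q.coeff j : localSubring M) : ℂ)) (fun j _ => (q.coeff j).2)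
  set Q : ℂ[X] := q.map (localSubring M).subtype with hQ
  have hQm : Q.Monic := hq.map _
  have hQn : Q.natDegree = n := by
    rw [hQ, natDegree_map_eq_of_injective (localSubring M).subtype_injective]
  have hQc : ∀ j, Q.coeff j = ((q.coeff j : localSubring M) : ℂ) := fun j => by
    rw [hQ, coeff_map]
    rfl
  set T : ℂ[X] := Q.scaleRoots (b : ℂ) with hT
  have hTm : T.Monic := (monic_scaleRoots_iff _).2 hQm
  have hTl : T ∈ lifts (algebraMap AlgInt ℂ) := by
    rw [lifts_iff_coeff_lifts]
    intro j
    rw [hT, coeff_scaleRoots, hQn, hQc]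
    by_cases hj : j < n
    · have h1 : IsIntegral ℤ (((q.coeff j : localSubring M) : ℂ) * (b : ℂ) ^ (n - j)) := by
        have h2 : n - j = (n - j - 1) + 1 := by omega
        rw [h2, pow_succ]
        have h3 : ((q.coeff j : localSubring M) : ℂ) * ((b : ℂ) ^ (n - j - 1) * (b : ℂ)) =
            (b : ℂ) ^ (n - j - 1) * ((b : ℂ) * ((q.coeff j : localSubring M) : ℂ)) := by ring
        rw [h3]
        exact IsIntegral.mul (IsIntegral.pow b.2 _) (hbi j (Finset.mem_range.2 (by omega)))
      exact ⟨⟨_, h1⟩, rfl⟩
    · by_cases hj' : j = n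
      · subst hj'
        have h1 : q.coeff q.natDegree = 1 := hq.coeff_natDegree
        rw [hn, h1]
        exact ⟨1, by simp⟩
      · have h1 : q.coeff j = 0 := coeff_eq_zero_of_natDegree_lt (by omega)
        rw [h1]
        exact ⟨0, by simp⟩
  obtain ⟨T', hT'1, -, hT'3⟩ := lifts_and_natDegree_eq_and_monic hTl hTm
  have hQz : eval₂ (RingHom.id ℂ) z Q = 0 := by
    rw [hQ, eval₂_map]
    exact hz
  have hroot : eval₂ (RingHom.id ℂ) ((b : ℂ) * z) T = 0 :=
    scaleRoots_eval₂_eq_zero (RingHom.id ℂ) (s := (b : ℂ)) hQz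
  have hint : IsIntegral AlgInt ((b : ℂ) * z) := by
    refine ⟨T', hT'3, ?_⟩
    rw [eval₂_eq_eval_map, hT'1]
    rw [eval₂_id] at hroot
    exact hroot
  have hint2 : IsIntegral ℤ ((b : ℂ) * z) := isIntegral_trans (R := ℤ) (A := AlgInt) _ hint
  refine ⟨⟨_, hint2⟩, b, hb, ?_⟩
  have := coe_ne_zero_of_not_mem (M := M) hb
  simp only
  field_simp

theorem monicSplit_local : MonicSplit (localSubring M) := by
  classical
  have key : ∀ n : ℕ, ∀ q : (localSubring M)[X], q.Monic → q.natDegree = n →
      ∃ s : Multiset (localSubring M), q = (s.map fun a => X - C a).prod := by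
    intro n
    induction n with
    | zero =>
      intro q hq hn
      exact ⟨0, by simpa using Polynomial.eq_one_of_monic_natDegree_zero hq hn⟩
    | succ n ih =>
      intro q hq hn
      have hdeg : (q.map (localSubring M).subtype).degree ≠ 0 := by
        rw [degree_map_eq_of_injective (localSubring M).subtype_injective,
          degree_eq_natDegree hq.ne_zero, hn]
        exact_mod_cast Nat.succ_ne_zero n
      obtain ⟨z, hz⟩ := IsAlgClosed.exists_root _ hdeg
      have hz' : eval₂ (localSubring M).subtype z q = 0 := by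
        rw [IsRoot.def, eval_map] at hz
        exact hz
      have hzloc := memLocalRing_of_root hq hz'
      set r : localSubring M := ⟨z, hzloc⟩ with hr
      have hroot : q.IsRoot r := by
        rw [IsRoot.def]
        apply (localSubring M).subtype_injective
        have h1 := eval₂_at_apply (p := q) (localSubring M).subtype r
        rw [map_zero, ← h1]
        exact hz'
      have hdvd : q = (X - C r) * (q /ₘ (X - C r)) := (mul_divByMonic_eq_iff_isRoot.2 hroot).symm
      have hm2 : (q /ₘ (X - C r)).Monic := (monic_X_sub_C r).of_mul_monic_left (by rw [← hdvd]; exact hq)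
      have hn2 : (q /ₘ (X - C r)).natDegree = n := by
        have := natDegree_mul (monic_X_sub_C r).ne_zero hm2.ne_zero
        rw [← hdvd, natDegree_X_sub_C, hn] at this
        omega
      obtain ⟨s, hs⟩ := ih _ hm2 hn2
      refine ⟨r ::ₘ s, ?_⟩
      rw [Multiset.map_cons, Multiset.prod_cons, ← hs]
      exact hdvd
  exact fun q hq => key _ q hq rfl

/-- The residue field of the local ring at `M` is algebraically closed. -/
theorem isAlgClosed_residue_local : IsAlgClosed (ResidueField (localSubring M)) := by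
  refine IsAlgClosed.of_exists_root _ fun p hp hirr => ?_
  have hlift : p ∈ Polynomial.lifts (residue (localSubring M)) := by
    rw [Polynomial.mem_lifts]
    exact Polynomial.map_surjective _ residue_surjective p
  obtain ⟨q, hq, hdeg, hmon⟩ := Polynomial.lifts_and_degree_eq_and_monic hlift hp
  obtain ⟨s, hs⟩ := monicSplit_local (M := M) q hmon
  have hdegpos : 0 < q.natDegree := by
    have := Polynomial.degree_pos_of_irreducible hirr
    rw [← hdeg] at this
    exact natDegree_pos_iff_degree_pos.2 this
  have hs0 : s ≠ 0 := by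
    rintro rfl
    rw [hs] at hdegpos
    simp at hdegpos
  obtain ⟨r, hr⟩ := Multiset.exists_mem_of_ne_zero hs0
  refine ⟨residue _ r, ?_⟩
  have h0 : q.eval r = 0 := by
    rw [hs, eval_prod_linear]
    apply Multiset.prod_eq_zero
    exact Multiset.mem_map.2 ⟨r, hr, sub_self r⟩
  rw [← hq, Polynomial.eval_map_apply, h0, map_zero]

end Split

section GA

open MonoidAlgebra Cfsg.Agent.Lib.BlockResidue Cfsg.Agent.Lib.CharBasic
  Cfsg.Agent.Lib.CharIntegrality Cfsg.Agent.Lib.BlockIdem Cfsg.Agent.Lib.BlkBasic
  Cfsg.Agent.Lib.BlockBrandt Cfsg.Agent.Lib.BlkOrth Cfsg.Agent.Lib.BlockOsima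
open scoped ComplexConjugate

universe u

variable {G : Type u} [Group G] [Fintype G] {M : Ideal AlgInt} [hM : M.IsPrime]

/-- The group algebra over the local ring. -/
abbrev OmA (M : Ideal AlgInt) [M.IsPrime] (G : Type u) [Group G] := MonoidAlgebra (localSubring M) G

/-- The residue field. -/
abbrev kF (M : Ideal AlgInt) [M.IsPrime] := ResidueField (localSubring M)

/-- The group algebra over the residue field. -/
abbrev KkA (M : Ideal AlgInt) [M.IsPrime] (G : Type u) [Group G] := MonoidAlgebra (kF M) G

/-- The coefficient function. -/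
noncomputable def cf (a : OmA M G) : G → ℂ := fun g => ((a.coeff g : localSubring M) : ℂ)

theorem cf_add (a b : OmA M G) : cf (a + b) = cf a + cf b := by
  funext g
  simp [cf]

theorem cf_sub (a b : OmA M G) : cf (a - b) = cf a - cf b := by
  funext g
  simp [cf]

theorem cf_zero : cf (0 : OmA M G) = 0 := by
  funext g
  simp [cf]

theorem cf_mem (a : OmA M G) (g : G) : MemLocalRing M (cf a g) := (a.coeff g).2

theorem cf_injective : Function.Injective (cf : OmA M G → G → ℂ) := by
  intro a b h
  refine ext_coeff fun g => ?_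
  exact Subtype.ext (congrFun h g)

theorem cf_mul (a b : OmA M G) : cf (a * b) = conv (cf a) (cf b) := by
  funext z
  simp only [cf, conv]
  rw [coeff_mul_eq]
  push_cast
  rfl

/-- The element with given coefficient function. -/
noncomputable def ofCf (f : G → ℂ) (h : ∀ g, MemLocalRing M (f g)) : OmA M G :=
  ofFun fun g => (⟨f g, h g⟩ : localSubring M)

theorem cf_ofCf (f : G → ℂ) (h : ∀ g, MemLocalRing M (f g)) : cf (ofCf f h : OmA M G) = f := rfl

/-- Reduction. -/
noncomputable def rhoL : OmA M G →+* KkA M G := MonoidAlgebra.mapRingHom G (residue (localSubring M))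

theorem coeff_rhoL (a : OmA M G) (g : G) :
    (rhoL a).coeff g = residue (localSubring M) (a.coeff g) := by
  simp [rhoL]

theorem rhoL_surjective : Function.Surjective (rhoL : OmA M G → KkA M G) := by
  intro x
  choose f hf using fun g => residue_surjective (R := localSubring M) (x.coeff g)
  refine ⟨ofFun f, ext_coeff fun g => ?_⟩
  rw [coeff_rhoL]
  simp [hf]

theorem rhoL_smul (r : localSubring M) (a : OmA M G) :
    rhoL (r • a) = residue (localSubring M) r • rhoL a := by
  refine ext_coeff fun g => ?_
  simp [coeff_rhoL]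

instance : Module.Finite (localSubring M) (OmA M G) :=
  Module.Finite.of_basis (MonoidAlgebra.basis G (localSubring M))

theorem isIntegral_om (a : OmA M G) : IsIntegral (localSubring M) a :=
  Algebra.IsIntegral.isIntegral a

theorem memLocalIdeal_of_residue (z : localSubring M) (h : residue (localSubring M) z = 0) :
    MemLocalIdeal M (z : ℂ) := by
  by_contra hcon
  have hu : IsUnit z := IsUnit.of_mul_eq_one
    (⟨(z : ℂ)⁻¹, memLocalRing_inv z.2 hcon⟩ : localSubring M)
    (Subtype.ext (mul_inv_eq_one_of_not_memLocalIdeal hcon))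
  exact (residue_ne_zero_iff_isUnit z).2 hu h

theorem residue_of_memLocalIdeal (z : localSubring M) (h : MemLocalIdeal M (z : ℂ)) :
    residue (localSubring M) z = 0 := residue_eq_zero_of_memLocalIdeal z h

/-- Inclusion. -/
noncomputable def iotaL : OmA M G →+* MonoidAlgebra ℂ G :=
  MonoidAlgebra.mapRingHom G (localSubring M).subtype

theorem coeff_iotaL (a : OmA M G) (g : G) : (iotaL a).coeff g = cf a g := by
  simp [iotaL, cf]

theorem iotaL_injective : Function.Injective (iotaL : OmA M G → MonoidAlgebra ℂ G) := by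
  intro a b h
  apply cf_injective
  funext g
  rw [← coeff_iotaL, ← coeff_iotaL, h]

/-- The measure of an idempotent: the dimension of the left ideal over `ℂ`. -/
noncomputable def meas (f : OmA M G) : ℕ :=
  Module.finrank ℂ (LinearMap.range (LinearMap.mulRight ℂ (iotaL f)))

theorem meas_cast {f : OmA M G} (hf : f * f = f) : (meas f : ℂ) = (Nat.card G : ℂ) * cf f 1 := by
  unfold meas
  rw [finrank_range_mulRight _ (by rw [← map_mul, hf]), coeff_iotaL]

theorem eq_zero_of_meas {f : OmA M G} (h : meas f = 0) : f = 0 := by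
  apply iotaL_injective
  rw [map_zero]
  have h1 : LinearMap.range (LinearMap.mulRight ℂ (iotaL f)) = ⊥ :=
    Submodule.finrank_eq_zero.1 h
  have h2 : (1 : MonoidAlgebra ℂ G) * iotaL f ∈ LinearMap.range (LinearMap.mulRight ℂ (iotaL f)) :=
    ⟨1, rfl⟩
  rw [h1, Submodule.mem_bot, one_mul] at h2
  exact h2

theorem meas_pos {f : OmA M G} (h : f ≠ 0) : 0 < meas f :=
  Nat.pos_of_ne_zero fun h0 => h (eq_zero_of_meas h0)

theorem meas_sub {f f' : OmA M G} (hf : f * f = f) (hf' : f' * f' = f') (h1 : f' * f = f')
    (h2 : f * f' = f') (hne : f' ≠ 0) : meas (f - f') < meas f := by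
  have hsub : (f - f') * (f - f') = f - f' := by
    rw [sub_mul, mul_sub, mul_sub, hf, h1, h2, hf']
    abel
  have h3 : ((meas (f - f') + meas f' : ℕ) : ℂ) = (meas f : ℂ) := by
    push_cast
    rw [meas_cast hsub, meas_cast hf', meas_cast hf, cf_sub]
    simp only [Pi.sub_apply]
    ring
  have h4 : meas (f - f') + meas f' = meas f := by exact_mod_cast h3
  have h5 := meas_pos hne
  omega

/-- An idempotent with zero reduction vanishes. -/
theorem eq_zero_of_rho_eq_zero {t : OmA M G} (ht : t * t = t) (h0 : rhoL t = 0) : t = 0 := by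
  classical
  have hloc : ∀ g, MemLocalIdeal M (cf t g) := by
    intro g
    apply memLocalIdeal_of_residue
    rw [← coeff_rhoL, h0]
    simp
  have hconv : conv (cf t) (cf t) = cf t := by rw [← cf_mul, ht]
  have hE : idemMatrix (cf t) * idemMatrix (cf t) = idemMatrix (cf t) := by
    rw [idemMatrix_mul, hconv]
  have htr := trace_eq_of_idem (M := M) (E := (0 : Matrix G G ℂ)) (E' := idemMatrix (cf t))
    (by simp) hE (fun i j => by simpa using memLocalRing_zero)
    (fun i j => by
      simp only [Matrix.zero_apply, sub_zero, idemMatrix, Matrix.of_apply]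
      exact hloc _)
  have h1 : (Nat.card G : ℂ) * cf t 1 = 0 := by
    rw [Matrix.trace_zero] at htr
    have h2 : Matrix.trace (idemMatrix (cf t)) = (Nat.card G : ℂ) * cf t 1 := by
      simp only [Matrix.trace, Matrix.diag, idemMatrix, Matrix.of_apply, mul_inv_cancel]
      simp [Nat.card_eq_fintype_card]
    rw [← h2, ← htr]
  apply eq_zero_of_meas
  have h3 : (meas t : ℂ) = 0 := by rw [meas_cast ht, h1]
  exact_mod_cast h3

/-- Nilpotent reductions of idempotents vanish. -/
theorem eq_zero_of_isNilpotent {t : OmA M G} (ht : t * t = t) (h0 : IsNilpotent (rhoL t)) : t = 0 := by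
  apply eq_zero_of_rho_eq_zero ht
  obtain ⟨n, hn⟩ := h0
  have hid : rhoL t * rhoL t = rhoL t := by rw [← map_mul, ht]
  have hpow : ∀ m : ℕ, rhoL t ^ (m + 1) = rhoL t := by
    intro m
    induction m with
    | zero => simp
    | succ m ih => rw [pow_succ, ih, hid]
  cases n with
  | zero =>
    have h1 : (1 : KkA M G) = 0 := by simpa using hn
    have : Subsingleton (KkA M G) := subsingleton_of_zero_eq_one h1.symm
    exact Subsingleton.elim _ _
  | succ n => rw [← hpow n, hn]

/-- The class function attached to an element of the group algebra. -/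
noncomputable def clF (a : OmA M G) : G → ℂ := fun x => ∑ y : G, cf a (y * x⁻¹ * y⁻¹)

/-- As an additive map. -/
noncomputable def clH : OmA M G →+ (G → ℂ) where
  toFun := clF
  map_zero' := by
    funext x
    simp [clF, cf_zero]
  map_add' a b := by
    funext x
    simp [clF, cf_add, Finset.sum_add_distrib]

theorem clH_apply (a : OmA M G) : clH a = clF a := rfl

theorem clF_mul_comm (a b : OmA M G) : clF (a * b) = clF (b * a) := by
  funext x
  simp only [clF, cf_mul, conv]
  -- first expression
  have h1 : ∀ y : G, ∑ t : G, cf a t * cf b (t⁻¹ * (y * x⁻¹ * y⁻¹)) =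
      ∑ s : G, cf a (y * x⁻¹ * y⁻¹ * s⁻¹) * cf b s := by
    intro y
    refine (Fintype.sum_equiv (Equiv.mk (fun s : G => y * x⁻¹ * y⁻¹ * s⁻¹)
      (fun t => t⁻¹ * (y * x⁻¹ * y⁻¹)) (fun s => by group) (fun t => by group)) _ _
      fun s => ?_).symm
    simp only [Equiv.coe_fn_mk]
    congr 2
    group
  have h2 : ∀ s : G, ∑ y : G, cf a (s⁻¹ * (y * x⁻¹ * y⁻¹)) =
      ∑ y : G, cf a (y * x⁻¹ * y⁻¹ * s⁻¹) := by
    intro s
    refine Fintype.sum_equiv (Equiv.mulLeft s⁻¹) _ _ fun y => ?_
    simp only [Equiv.coe_mulLeft]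
    congr 1
    group
  simp_rw [h1]
  rw [Finset.sum_comm]
  conv_rhs => rw [Finset.sum_comm]
  refine Finset.sum_congr rfl fun s _ => ?_
  rw [← Finset.sum_mul, mul_comm, ← Finset.mul_sum, h2]

theorem clF_isClassFunction (a : OmA M G) : IsClassFunction G (clF a) := by
  intro g h
  simp only [clF]
  refine Fintype.sum_equiv (Equiv.mulRight h) _ _ fun y => ?_
  simp only [Equiv.coe_mulRight]
  congr 1
  group

theorem clF_one (a : OmA M G) : clF a 1 = (Nat.card G : ℂ) * cf a 1 := by
  simp [clF, Nat.card_eq_fintype_card]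

/-- The value of a function at an element of the group algebra. -/
noncomputable def ev (χ : G → ℂ) (a : OmA M G) : ℂ := ∑ g : G, cf a g * χ g

theorem classInner_clF (a : OmA M G) {χ : G → ℂ} (hχ : IsCharacter G χ) :
    classInner (clF a) χ = ev χ a := by
  have hcl := isClassFunction_of_isCharacter hχ
  rw [classInner_eq_inv hχ]
  simp only [clF, ev, Finset.sum_mul]
  rw [Finset.sum_comm]
  have h1 : ∀ y : G, ∑ x : G, cf a (y * x⁻¹ * y⁻¹) * χ x⁻¹ = ∑ g : G, cf a g * χ g := by
    intro y
    refine Fintype.sum_equiv (Equiv.mk (fun x : G => y * x⁻¹ * y⁻¹) (fun g => (y⁻¹ * g * y)⁻¹)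
      (fun x => by group) (fun g => by group)) _ _ fun x => ?_
    simp only [Equiv.coe_fn_mk]
    rw [hcl x⁻¹ y]
  simp_rw [h1]
  rw [Finset.sum_const, Finset.card_univ, nsmul_eq_mul, ← Nat.card_eq_fintype_card, ← mul_assoc,
    inv_mul_cancel₀ natCard_ne_zero', one_mul]

theorem clF_eq_sum (a : OmA M G) :
    clF a = ∑ χ : IrrCharacter G, ev (χ : G → ℂ) a • (χ : G → ℂ) := by
  conv_lhs => rw [classFunction_eq_sum (clF_isClassFunction a)]
  refine Finset.sum_congr rfl fun χ _ => ?_
  rw [classInner_clF a (IsIrrCharacter.isCharacter χ.2)]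

theorem ev_eq_trace {χ : IrrCharacter G} {n : ℕ} (ρ : Representation ℂ G (Fin n → ℂ))
    (h : ρ.character = (χ : G → ℂ)) (a : OmA M G) :
    ev (χ : G → ℂ) a = LinearMap.trace ℂ _ (sumOp ρ (cf a)) := by
  rw [trace_sumOp, h]
  rfl

/-- Idempotents have natural number values at irreducible characters. -/
theorem ev_nat (χ : IrrCharacter G) {f : OmA M G} (hf : f * f = f) : ∃ n : ℕ, ev (χ : G → ℂ) f = n := by
  obtain ⟨n, ρ, -, hρ⟩ := χ.2
  rw [ev_eq_trace ρ hρ]
  have hid : IsIdempotentElem (sumOp ρ (cf f)) := by
    unfold IsIdempotentElem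
    have := sumOp_mul ρ (cf f) (cf f)
    rw [← cf_mul, hf] at this
    exact this
  exact ⟨_, (LinearMap.IsIdempotentElem.isProj_range _ hid).trace⟩

/-- The value at a product with a central element. -/
theorem ev_mul_central (χ : IrrCharacter G) {c : OmA M G} (hc : IsClassFunction G (cf c)) (a : OmA M G) :
    ev (χ : G → ℂ) (c * a) = omega (χ : G → ℂ) (cf c) * ev (χ : G → ℂ) a := by
  obtain ⟨n, ρ, hirr, hρ⟩ := χ.2
  rw [ev_eq_trace ρ hρ, ev_eq_trace ρ hρ, cf_mul, ← sumOp_mul, sumOp_eq_smul ρ hirr hc,
    omega_eq_centralValue ρ hρ, LinearMap.smul_comp, LinearMap.id_comp, map_smul, smul_eq_mul]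

/-- Idempotents vanish at `p`-singular classes. -/
theorem clF_eq_zero_of_singular {p : ℕ} (hMp : IsPModular p M) {f : OmA M G} (hf : f * f = f) {x : G}
    (hx : p ∣ orderOf x) : clF f x = 0 := by
  have hconv : conv (cf f) (cf f) = cf f := by rw [← cf_mul, hf]
  have := trace_lemma hMp (cf f) (cf_mem f) hconv 1 x⁻¹ (fun t => by simp) ∅ (fun z => by simp)
    (fun z _ k hk => by
      have h1 : x⁻¹ ^ k = 1 := by
        have h2 : z * x⁻¹ ^ k = z := by simpa using hk
        simpa using h2
      rw [orderOf_dvd_iff_pow_eq_one.symm] at h1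
      rw [orderOf_inv] at h1
      exact hx.trans h1)
    (fun u hu => absurd hu (Set.notMem_empty u))
  simp only [clF]
  simpa using this

end GA

end Cfsg.Agent.Lib.H59Pim2
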