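import Mathlib
import Cfsg.Agent.Lib.H59Pim2
import Cfsg.Agent.Lib.RegLattice
import Cfsg.Agent.Lib.BrauerGlobal
import Cfsg.Agent.Lib.Monomial

/-!
# Generalized characters vanishing on `p`-singular elements

Such a generalized character is an integer combination of characters induced from linear characters
of `p`-regular subgroups, by Brauer's induction theorem.  These induced characters are attached to
idempotents of the group algebra over the local ring.
-/

set_option autoImplicit false
set_option linter.unusedSectionVars false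
set_option linter.unusedVariables false
set_option linter.style.haveILetI false

namespace Cfsg.Agent.Lib.H59Pim3

open Cfsg Cfsg.Agent.Lib.CharBasic Cfsg.Agent.Lib.CharInd Cfsg.Agent.Lib.BrauerInd
open Cfsg.Agent.Lib.BrauerGlobal Cfsg.Agent.Lib.Monomial Cfsg.Agent.Lib.RegLattice
open Cfsg.Agent.Lib.BlkOrth
open scoped ComplexConjugate

universe u

section Span

variable (p : ℕ) (G : Type u) [Group G] [Fintype G]

/-- Characters induced from linear characters of `p`-regular subgroups. -/
def pGen : Set (G → ℂ) :=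
  {h | ∃ (U : Subgroup G) (μ : U →* ℂˣ), ¬ p ∣ Nat.card U ∧ h = indFun U (fun u => ((μ u : ℂˣ) : ℂ))}

/-- Integer combinations of those. -/
def pSpan : AddSubgroup (G → ℂ) := AddSubgroup.closure (pGen p G)

variable {p G}

theorem indFun_mem_pSpan (K : Subgroup G) [Fintype K] {f : K → ℂ} (hf : f ∈ pSpan p K) :
    indFun K f ∈ pSpan p G := by
  induction hf using AddSubgroup.closure_induction with
  | mem f hf =>
    obtain ⟨F, μ, hF, rfl⟩ := hf
    rw [indFun_indFun_map]
    set e := F.equivMapOfInjective K.subtype K.subtype_injective with he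
    refine AddSubgroup.subset_closure ⟨F.map K.subtype, μ.comp e.symm.toMonoidHom, ?_, ?_⟩
    · rwa [← Nat.card_congr e.toEquiv]
    · rfl
  | zero =>
    rw [indFun_zero]
    exact AddSubgroup.zero_mem _
  | add a b _ _ ha hb =>
    rw [indFun_add]
    exact AddSubgroup.add_mem _ ha hb
  | neg a _ ha =>
    have : -a = (0 : K → ℂ) - a := by simp
    rw [this, indFun_sub, indFun_zero]
    exact AddSubgroup.sub_mem _ (AddSubgroup.zero_mem _) ha

end Span

section Nilp

variable {E : Type u} [Group E] [Fintype E] {p : ℕ}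

theorem exists_regHom [Group.IsNilpotent E] (hp : p.Prime) :
    ∃ φ : E →* E, (∀ c : E, ¬ p ∣ orderOf c → φ c = c) ∧ ∀ x : E, ¬ p ∣ orderOf (φ x) := by
  obtain ⟨N, h1, h2⟩ := exists_regExp (X := E) hp
  haveI : Fact p.Prime := ⟨hp⟩
  let φ : E →* E := MonoidHom.mk' (fun x => x ^ N) (pow_mul_of_nilpotent h1 h2)
  refine ⟨φ, h1, fun x => ?_⟩
  obtain ⟨s, hs⟩ := exists_isPPart hp x
  obtain ⟨y, hxy, -, hsp, hy⟩ := hs
  have h3 : φ x = y := by
    rw [← hxy, map_mul]
    show s ^ N * y ^ N = y
    rw [h2 s hsp, h1 y hy, one_mul]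
  rw [h3]
  exact hy

theorem not_dvd_card_of_regular {H : Subgroup E} (hp : p.Prime)
    (hH : ∀ c ∈ H, ¬ p ∣ orderOf c) : ¬ p ∣ Nat.card H := by
  intro hd
  haveI : Fact p.Prime := ⟨hp⟩
  obtain ⟨x, hx⟩ := exists_prime_orderOf_dvd_card' (G := H) p hd
  apply hH x x.2
  rw [Subgroup.orderOf_coe, hx]

/-- **Generalized characters of nilpotent groups vanishing on `p`-singular elements.** -/
theorem mem_pSpan_of_nilpotent [Group.IsNilpotent E] (hp : p.Prime) {ω : E → ℂ}
    (hω : IsGeneralizedCharacter E ω) (hv : ∀ x, p ∣ orderOf x → ω x = 0) : ω ∈ pSpan p E := by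
  classical
  obtain ⟨φ, hφ1, hφ2⟩ := exists_regHom (E := E) hp
  let H : Subgroup E := φ.range
  haveI : Fintype H := Fintype.ofFinite _
  have hH : ∀ c : E, c ∈ H ↔ ¬ p ∣ orderOf c := by
    intro c
    constructor
    · rintro ⟨x, rfl⟩
      exact hφ2 x
    · intro hc
      exact ⟨c, hφ1 c hc⟩
  have hHcard : ¬ p ∣ Nat.card H := not_dvd_card_of_regular hp fun c hc => (hH c).1 hc
  obtain ⟨χ₁, χ₂, hχ₁, hχ₂, hω'⟩ := hω
  have hωcl : IsClassFunction E ω := by
    intro g h
    rw [hω']
    simp only [Pi.sub_apply]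
    rw [isClassFunction_of_isCharacter hχ₁ g h, isClassFunction_of_isCharacter hχ₂ g h]
  have hE0 : (Nat.card E : ℂ) ≠ 0 := natCard_ne_zero'
  have hH0 : (Nat.card H : ℂ) ≠ 0 := natCard_ne_zero'
  set r : ℂ := (Nat.card H : ℂ) / (Nat.card E : ℂ) with hr
  let η : H → ℂ := fun h => r * ω h
  have hηcl : IsClassFunction H η := by
    intro g h
    simp only [η]
    have : ((h * g * h⁻¹ : H) : E) = (h : E) * (g : E) * (h : E)⁻¹ := by simp
    rw [this, hωcl]
  let φ' : E →* H := φ.rangeRestrict
  have hφ' : ∀ h : H, φ' (h : E) = h := by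
    intro h
    apply Subtype.ext
    exact hφ1 _ ((hH _).1 h.2)
  -- integrality
  have hint : ∀ τ : IrrCharacter H, ∃ n : ℤ, classInner η (τ : H → ℂ) = n := by
    intro τ
    have hτ : IsCharacter E ((τ : H → ℂ) ∘ φ') :=
      isCharacter_comp φ' (IsIrrCharacter.isCharacter τ.2)
    have h1 : classInner η (τ : H → ℂ) = classInner ω ((τ : H → ℂ) ∘ φ') := by
      unfold classInner
      have h2 : ∑ g : E, ω g * conj (((τ : H → ℂ) ∘ φ') g) =
          ∑ h : H, ω h * conj ((τ : H → ℂ) h) := by
        have h3 : ∑ h : H, ω h * conj ((τ : H → ℂ) h) =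
            ∑ h : H, (fun g : E => ω g * conj ((τ : H → ℂ) (φ' g))) h :=
          Finset.sum_congr rfl fun h _ => by
            simp only
            rw [hφ']
        rw [h3, ← Cfsg.Agent.Lib.BlockQ.sum_ite_mem_subgroup H
          (fun g : E => ω g * conj ((τ : H → ℂ) (φ' g)))]
        refine Finset.sum_congr rfl fun g _ => ?_
        by_cases hg : g ∈ H
        · rw [if_pos hg]
          rfl
        · rw [if_neg hg]
          have h3 : p ∣ orderOf g := by
            by_contra h4
            exact hg ((hH g).2 h4)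
          rw [hv g h3, zero_mul]
      rw [h2]
      simp only [η, mul_assoc]
      rw [← Finset.mul_sum, ← mul_assoc, hr]
      congr 1
      field_simp
    rw [h1, hω', classInner_sub_left]
    obtain ⟨a, ha⟩ := classInner_char_char hχ₁ hτ
    obtain ⟨b, hb⟩ := classInner_char_char hχ₂ hτ
    refine ⟨(a : ℤ) - b, ?_⟩
    rw [ha, hb]
    push_cast
    rfl
  choose n hn using hint
  have hηsum : η = ∑ τ : IrrCharacter H, (n τ : ℂ) • (τ : H → ℂ) := by
    conv_lhs => rw [classFunction_eq_sum hηcl]
    refine Finset.sum_congr rfl fun τ _ => ?_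
    rw [hn]
  -- the induction formula
  have hind : ω = indFun H η := by
    funext x
    rw [indFun_apply]
    by_cases hx : x ∈ H
    · have h1 : ∀ y : E, extendByZero H η (y⁻¹ * x * y) = r * ω x := by
        intro y
        have h2 : y⁻¹ * x * y ∈ H := by
          rw [hH]
          have h3 : orderOf (y⁻¹ * x * y) = orderOf x := by
            have := hωcl
            rw [show y⁻¹ * x * y = MulAut.conj y⁻¹ x by simp [MulAut.conj_apply]]
            exact MulEquiv.orderOf_eq _ _
          rw [h3]
          exact (hH x).1 hx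
        rw [extendByZero_of_mem H η h2]
        simp only [η]
        congr 1
        have := hωcl x y⁻¹
        rw [inv_inv] at this
        exact this
      simp_rw [h1]
      rw [Finset.sum_const, Finset.card_univ, nsmul_eq_mul, ← Nat.card_eq_fintype_card, hr]
      field_simp
    · have h2 : p ∣ orderOf x := by
        by_contra h4
        exact hx ((hH x).2 h4)
      have h1 : ∀ y : E, extendByZero H η (y⁻¹ * x * y) = 0 := by
        intro y
        apply extendByZero_of_not_mem
        rw [hH]
        have h3 : orderOf (y⁻¹ * x * y) = orderOf x := by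
          rw [show y⁻¹ * x * y = MulAut.conj y⁻¹ x by simp [MulAut.conj_apply]]
          exact MulEquiv.orderOf_eq _ _
        rw [h3]
        exact not_not.2 h2
      simp_rw [h1]
      simp [hv x h2]
  rw [hind, hηsum, indFun_sum]
  refine AddSubgroup.sum_mem _ fun τ _ => ?_
  rw [indFun_smul]
  have hz : ((n τ : ℂ) • indFun H (τ : H → ℂ)) = n τ • indFun H (τ : H → ℂ) := by
    funext g
    simp
  rw [hz]
  refine AddSubgroup.zsmul_mem _ ?_ _
  apply indFun_mem_pSpan
  obtain ⟨F, μ, hF⟩ := exists_monomial _ H (τ : H → ℂ) rfl τ.2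
  refine AddSubgroup.subset_closure ⟨F, μ, ?_, hF⟩
  refine not_dvd_card_of_regular hp fun c _ => ?_
  rw [← Subgroup.orderOf_coe]
  exact (hH _).1 c.2

end Nilp

section Main

variable {G : Type u} [Group G] [Fintype G] {p : ℕ}

/-- **Generalized characters vanishing on `p`-singular elements.** -/
theorem mem_pSpan (hp : p.Prime) {θ : G → ℂ} (hθ : IsGeneralizedCharacter G θ)
    (hv : ∀ x, p ∣ orderOf x → θ x = 0) : θ ∈ pSpan p G := by
  classical
  obtain ⟨χ₁, χ₂, hχ₁, hχ₂, hθ'⟩ := hθ
  have hcl : IsClassFunction G θ := by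
    intro g h
    rw [hθ']
    simp only [Pi.sub_apply]
    rw [isClassFunction_of_isCharacter hχ₁ g h, isClassFunction_of_isCharacter hχ₂ g h]
  have key : ∀ f ∈ globalSpan G, f * θ ∈ pSpan p G := by
    intro f hf
    induction hf using AddSubgroup.closure_induction with
    | mem f hf =>
      obtain ⟨q, hq, E, φ, hEl, hφ, rfl⟩ := hf
      haveI : Fact q.Prime := ⟨hq⟩
      haveI : Fintype E := Fintype.ofFinite _
      haveI := isNilpotent_of_isElementary hEl
      rw [← indFun_mul_restrict E φ hcl]
      apply indFun_mem_pSpan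
      apply mem_pSpan_of_nilpotent hp
      · refine ⟨φ * fun e : E => χ₁ e, φ * fun e : E => χ₂ e,
          isCharacter_mul hφ (isCharacter_restrict E hχ₁),
          isCharacter_mul hφ (isCharacter_restrict E hχ₂), ?_⟩
        funext e
        simp only [Pi.mul_apply, Pi.sub_apply, hθ']
        ring
      · intro x hx
        have h1 : p ∣ orderOf (x : G) := by rwa [Subgroup.orderOf_coe]
        simp [hv _ h1]
    | zero =>
      rw [zero_mul]
      exact AddSubgroup.zero_mem _
    | add a b _ _ ha hb =>
      rw [add_mul]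
      exact AddSubgroup.add_mem _ ha hb
    | neg a _ ha =>
      rw [neg_mul]
      exact AddSubgroup.neg_mem _ ha
  have := key _ one_mem_globalSpan
  have h2 : (fun _ : G => (1 : ℂ)) * θ = θ := by
    funext g
    simp
  rwa [h2] at this

end Main

end Cfsg.Agent.Lib.H59Pim3
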