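import Mathlib
import Cfsg.Agent.Lib.H59Pim3

/-!
# Projective indecomposable characters

A Wedderburn system of the residue group algebra is lifted to a family of idempotents `fi` of the group
algebra over the local ring.  The class function of any idempotent is a natural combination of the
class functions of the `fi`, which are linearly independent.
-/

set_option autoImplicit false
set_option linter.unusedSectionVars false
set_option linter.unusedVariables false
set_option linter.style.haveILetI false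

namespace Cfsg.Agent.Lib.H59Pim4

open Cfsg Cfsg.Agent.Lib.CharBasic Cfsg.Agent.Lib.CharInd Cfsg.Agent.Lib.BrauerInd
open Cfsg.Agent.Lib.H59Pim1 Cfsg.Agent.Lib.H59Pim2 Cfsg.Agent.Lib.H59Pim3
open Cfsg.Agent.Lib.BlockLocal Cfsg.Agent.Lib.BlockVal Cfsg.Agent.Lib.BlockOsima
open Cfsg.Agent.Lib.BlockResidue Cfsg.Agent.Lib.BrauerCount50 Cfsg.Agent.Lib.BlkBasic
open Cfsg.Agent.Lib.CharIntegrality Cfsg.Agent.Lib.BlockIdem
open MonoidAlgebra IsLocalRing
open scoped ComplexConjugate

universe u

variable {G : Type u} [Group G] [Fintype G] {M : Ideal AlgInt} [hM : M.IsPrime] {p : ℕ}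

section Induced

/-- **The idempotent of a linear character of a `p`-regular subgroup.** -/
theorem exists_idem_of_gen (hMp : IsPModular p M) {U : Subgroup G} (μ : U →* ℂˣ)
    (hU : ¬ p ∣ Nat.card U) :
    ∃ f : OmA M G, f * f = f ∧ clF f = indFun U (fun u => ((μ u : ℂˣ) : ℂ)) := by
  classical
  haveI : Fintype U := Fintype.ofFinite _
  have hU0 : (Nat.card U : ℂ) ≠ 0 := natCard_ne_zero'
  let b : U → ℂ := fun u => (Nat.card U : ℂ)⁻¹ * ((μ u⁻¹ : ℂˣ) : ℂ)
  let a : G → ℂ := extendByZero U b
  have hμloc : ∀ u : U, MemLocalRing M ((μ u : ℂˣ) : ℂ) := by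
    intro u
    refine memLocalRing_of_pow_eq_one (N := Nat.card U) Nat.card_pos ?_
    rw [← Units.val_pow_eq_pow_val, ← map_pow, pow_card_eq_one', map_one, Units.val_one]
  have hinvloc : MemLocalRing M ((Nat.card U : ℂ)⁻¹) := by
    have := memLocalRing_natCast_div_of_not_dvd hMp 1 hU
    simpa using this
  have hloc : ∀ g, MemLocalRing M (a g) := by
    intro g
    by_cases hg : g ∈ U
    · rw [show a g = extendByZero U b g from rfl, extendByZero_of_mem U b hg]
      exact memLocalRing_mul hinvloc (hμloc _)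
    · rw [show a g = extendByZero U b g from rfl, extendByZero_of_not_mem U b hg]
      exact memLocalRing_zero
  have hconv : conv a a = a := by
    funext z
    simp only [conv]
    by_cases hz : z ∈ U
    · have h1 : ∀ x : G, a x * a (x⁻¹ * z) = extendByZero U (fun u => b u * b (u⁻¹ * ⟨z, hz⟩)) x := by
        intro x
        by_cases hx : x ∈ U
        · rw [extendByZero_of_mem U _ hx]
          show extendByZero U b x * extendByZero U b (x⁻¹ * z) = _
          rw [extendByZero_of_mem U b hx, extendByZero_of_mem U b (U.mul_mem (U.inv_mem hx) hz)]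
          rfl
        · rw [extendByZero_of_not_mem U _ hx]
          show extendByZero U b x * _ = 0
          rw [extendByZero_of_not_mem U b hx, zero_mul]
      simp_rw [h1]
      rw [sum_extendByZero]
      have h2 : ∀ u : U, b u * b (u⁻¹ * ⟨z, hz⟩) = (Nat.card U : ℂ)⁻¹ * b ⟨z, hz⟩ := by
        intro u
        simp only [b, mul_inv_rev, inv_inv, map_mul, Units.val_mul]
        have h3 : ((μ u : ℂˣ) : ℂ) * ((μ u⁻¹ : ℂˣ) : ℂ) = 1 := by
          rw [← Units.val_mul, ← map_mul, mul_inv_cancel, map_one, Units.val_one]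
        linear_combination ((Nat.card U : ℂ)⁻¹ ^ 2 * ((μ (⟨z, hz⟩ : U)⁻¹ : ℂˣ) : ℂ)) * h3
      simp_rw [h2]
      rw [Finset.sum_const, Finset.card_univ, ← Nat.card_eq_fintype_card, nsmul_eq_mul, ← mul_assoc,
        mul_inv_cancel₀ hU0, one_mul]
      show _ = extendByZero U b z
      rw [extendByZero_of_mem U b hz]
    · have h1 : ∀ x : G, a x * a (x⁻¹ * z) = 0 := by
        intro x
        by_cases hx : x ∈ U
        · have h2 : x⁻¹ * z ∉ U := fun h => hz (by simpa using U.mul_mem hx h)
          show extendByZero U b x * extendByZero U b (x⁻¹ * z) = 0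
          rw [extendByZero_of_not_mem U b h2, mul_zero]
        · show extendByZero U b x * _ = 0
          rw [extendByZero_of_not_mem U b hx, zero_mul]
      simp_rw [h1]
      rw [Finset.sum_const_zero]
      show 0 = extendByZero U b z
      rw [extendByZero_of_not_mem U b hz]
  refine ⟨ofCf a hloc, ?_, ?_⟩
  · apply cf_injective
    rw [cf_mul, cf_ofCf, hconv]
  · funext x
    rw [indFun_apply]
    simp only [clF, cf_ofCf]
    rw [← Equiv.sum_comp (Equiv.inv G) (fun y => extendByZero U (fun u => ((μ u : ℂˣ) : ℂ)) (y⁻¹ * x * y)),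
      Finset.mul_sum]
    refine Finset.sum_congr rfl fun y _ => ?_
    simp only [Equiv.inv_apply, inv_inv]
    by_cases hw : y * x * y⁻¹ ∈ U
    · have h1 : y * x⁻¹ * y⁻¹ ∈ U := by
        have := U.inv_mem hw
        simpa [mul_assoc] using this
      show extendByZero U b _ = _
      rw [extendByZero_of_mem U b h1, extendByZero_of_mem U _ hw]
      simp only [b]
      congr 3
      apply Subtype.ext
      simp [mul_assoc]
    · have h1 : y * x⁻¹ * y⁻¹ ∉ U := by
        intro h
        apply hw
        have := U.inv_mem h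
        simpa [mul_assoc] using this
      show extendByZero U b _ = _
      rw [extendByZero_of_not_mem U b h1, extendByZero_of_not_mem U _ hw, mul_zero]

/-- All members of `pSpan` are combinations of class functions of idempotents. -/
theorem pSpan_le (hMp : IsPModular p M) :
    pSpan p G ≤ AddSubgroup.closure {h | ∃ f : OmA M G, f * f = f ∧ h = clF f} := by
  rw [pSpan, AddSubgroup.closure_le]
  rintro h ⟨U, μ, hU, rfl⟩
  obtain ⟨f, hf, hf2⟩ := exists_idem_of_gen (M := M) hMp μ hU
  exact AddSubgroup.subset_closure ⟨f, hf, hf2.symm⟩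

end Induced

section Sys

/-- The lifted Wedderburn system. -/
structure PimSys (M : Ideal AlgInt) [M.IsPrime] (G : Type u) [Group G] where
  r : ℕ
  d : Fin r → ℕ
  pos : ∀ i, 0 < d i
  ρ : ∀ i, OmA M G →+* Matrix (Fin (d i)) (Fin (d i)) (kF M)
  smul : ∀ i (c : localSubring M) (a : OmA M G), ρ i (c • a) = residue (localSubring M) c • ρ i a
  surj : Function.Surjective (fun (a : OmA M G) i => ρ i a)
  nil : ∀ t : OmA M G, t * t = t → (∀ i, ρ i t = 0) → t = 0
  fi : Fin r → OmA M G
  idem : ∀ i, fi i * fi i = fi i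
  fiρ : ∀ i j, ρ j (fi i) = unit00 (R := localSubring M) pos i j

theorem exists_pimSys : Nonempty (PimSys M G) := by
  classical
  haveI : IsAlgClosed (kF M) := isAlgClosed_residue_local
  obtain ⟨S⟩ := exists_wsys (kF M) G
  let ρ : ∀ i, OmA M G →+* Matrix (Fin (S.d i)) (Fin (S.d i)) (kF M) := fun i =>
    (S.ρ i).toRingHom.comp rhoL
  have hsm : ∀ i (c : localSubring M) (a : OmA M G),
      ρ i (c • a) = residue (localSubring M) c • ρ i a := by
    intro i c a
    show S.ρ i (rhoL (c • a)) = _ • S.ρ i (rhoL a)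
    rw [rhoL_smul, map_smul]
  have hsurj : Function.Surjective (fun (a : OmA M G) i => ρ i a) := by
    intro y
    obtain ⟨b, hb⟩ := S.surj y
    obtain ⟨a, rfl⟩ := rhoL_surjective b
    exact ⟨a, hb⟩
  have hnil : ∀ t : OmA M G, t * t = t → (∀ i, ρ i t = 0) → t = 0 := by
    intro t ht h0
    exact eq_zero_of_isNilpotent ht (S.nil _ h0)
  choose fi hfi hfiρ using fun i : Fin S.r =>
    exists_primitive monicSplit_local isIntegral_om ρ hsm hsurj S.pos i
  exact ⟨⟨S.r, S.d, S.pos, ρ, hsm, hsurj, hnil, fi, hfi, hfiρ⟩⟩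

namespace PimSys

variable (S : PimSys M G)

theorem decomp {f : OmA M G} (hf : f * f = f) :
    ∃ N : Fin S.r → ℕ, clF f = ∑ i, N i • clF (S.fi i) ∧ ∀ i, N i ≠ 0 ↔ S.ρ i f ≠ 0 := by
  obtain ⟨N, h1, h2⟩ := exists_decomp monicSplit_local isIntegral_om S.ρ S.smul S.surj S.nil S.pos
    clH (fun a b => clF_mul_comm a b) meas (fun f f' hf hf' h1 h2 h3 => meas_sub hf hf' h1 h2 h3)
    S.fi S.idem S.fiρ f hf
  exact ⟨N, h1, h2⟩

theorem trace_eq_zero {a : OmA M G} (h : clF a = 0) (j : Fin S.r) : Matrix.trace (S.ρ j a) = 0 := by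
  classical
  haveI : Fintype (ConjClasses G) := Fintype.ofFinite _
  let t : G → kF M := fun g => Matrix.trace (S.ρ j (single g 1))
  have ht : ∀ g c : G, t (c * g * c⁻¹) = t g := by
    intro g c
    simp only [t]
    have h1 : (single (c * g * c⁻¹) (1 : localSubring M) : OmA M G) =
        single c 1 * (single g 1 * single c⁻¹ 1) := by
      simp [MonoidAlgebra.single_mul_single, mul_assoc]
    have h2 : (single c⁻¹ (1 : localSubring M) : OmA M G) * single c 1 = 1 := by
      simp [MonoidAlgebra.single_mul_single, MonoidAlgebra.one_def]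
    rw [h1, map_mul, Matrix.trace_mul_comm, ← map_mul, mul_assoc, h2, mul_one]
  have h1 : Matrix.trace (S.ρ j a) = ∑ g : G, residue (localSubring M) (a.coeff g) * t g := by
    conv_lhs => rw [eq_sum_single a]
    rw [map_sum, Matrix.trace_sum]
    refine Finset.sum_congr rfl fun g _ => ?_
    rw [single_eq_smul, S.smul, Matrix.trace_smul, smul_eq_mul]
  rw [h1, ← Finset.sum_fiberwise (s := Finset.univ) (g := fun g : G => ConjClasses.mk g)]
  refine Finset.sum_eq_zero fun K _ => ?_
  obtain ⟨y, rfl⟩ := ConjClasses.mk_surjective K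
  have h2 : ∀ g ∈ Finset.univ.filter (fun g : G => ConjClasses.mk g = ConjClasses.mk y),
      residue (localSubring M) (a.coeff g) * t g = residue (localSubring M) (a.coeff g) * t y := by
    intro g hg
    have h3 := (Finset.mem_filter.1 hg).2
    rw [ConjClasses.mk_eq_mk_iff_isConj, isConj_iff] at h3
    obtain ⟨c, rfl⟩ := h3
    rw [ht]
  rw [Finset.sum_congr rfl h2, ← Finset.sum_mul, ← map_sum]
  have h4 : ∑ g ∈ Finset.univ.filter (fun g : G => ConjClasses.mk g = ConjClasses.mk y), a.coeff g = 0 := by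
    apply Subtype.ext
    rw [AddSubmonoidClass.coe_finset_sum]
    have h5 : ∑ x : G, cf a (x⁻¹ * y * x) = 0 := by
      have h6 := congrFun h y⁻¹
      simp only [clF, Pi.zero_apply, inv_inv] at h6
      rw [← h6]
      exact Equiv.sum_comp (Equiv.inv G) (fun w => cf a (w * y * w⁻¹)) ▸ by simp
    rw [sum_conj_eq_card_mul] at h5
    have h7 := (mul_eq_zero.1 h5).resolve_left natCard_ne_zero'
    show _ = (0 : ℂ)
    rw [← h7, Finset.sum_filter]
    refine Finset.sum_congr rfl fun g _ => ?_
    by_cases hg : IsConj y g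
    · rw [classIndicator_of_conj hg, if_pos ((ConjClasses.mk_eq_mk_iff_isConj).2 hg.symm)]
      simp [cf]
    · rw [classIndicator_of_not_conj hg, if_neg (fun h => hg ((ConjClasses.mk_eq_mk_iff_isConj).1 h).symm)]
      simp
  rw [h4, map_zero, zero_mul]

theorem dvd_of_memLocalIdeal_intCast (hMp : IsPModular p M) {n : ℤ} (h : MemLocalIdeal M (n : ℂ)) :
    (p : ℤ) ∣ n := by
  by_contra hn
  have hp : Prime (p : ℤ) := Nat.prime_iff_prime_int.1 hMp.1
  have hc : IsCoprime n (p : ℤ) := ((Prime.coprime_iff_not_dvd hp).2 hn).symm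
  obtain ⟨u, v, huv⟩ := hc
  apply not_memLocalIdeal_one (M := M)
  have h1 : MemLocalIdeal M ((p : AlgInt) : ℂ) := memLocalIdeal_coe hMp.2.2
  have h2 : ((u * n + v * p : ℤ) : ℂ) = 1 := by
    rw [huv]
    simp
  rw [← h2]
  push_cast
  refine memLocalIdeal_add (memLocalIdeal_mul_left (memLocalRing_intCast u) h) ?_
  refine memLocalIdeal_mul_left (memLocalRing_intCast v) ?_
  simpa using h1

theorem trace_fi (i j : Fin S.r) : Matrix.trace (S.ρ j (S.fi i)) = if i = j then 1 else 0 := by
  rw [S.fiρ]
  by_cases h : i = j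
  · subst h
    simp [unit00, Matrix.trace_single_eq_same]
  · simp [unit00, h, Pi.single_eq_of_ne (Ne.symm h)]

theorem dvd_of_sum_eq_zero (hMp : IsPModular p M) (c : Fin S.r → ℤ)
    (h : ∑ i, c i • clF (S.fi i) = 0) (j : Fin S.r) : (p : ℤ) ∣ c j := by
  classical
  let a : OmA M G := ∑ i, c i • S.fi i
  have h1 : clF a = 0 := by
    rw [← clH_apply, map_sum, ← h]
    refine Finset.sum_congr rfl fun i _ => ?_
    rw [map_zsmul, clH_apply]
  have h2 := S.trace_eq_zero h1 j
  have htz : ∀ (n : ℤ) (X : Matrix (Fin (S.d j)) (Fin (S.d j)) (kF M)),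
      Matrix.trace (n • X) = n • Matrix.trace X := fun n X =>
    map_zsmul (Matrix.traceAddMonoidHom (Fin (S.d j)) (kF M)) n X
  have h3 : Matrix.trace (S.ρ j a) = ((c j : ℤ) : kF M) := by
    simp only [a]
    rw [map_sum, Matrix.trace_sum, Finset.sum_eq_single j]
    · rw [map_zsmul, htz, trace_fi, if_pos rfl]
      simp
    · intro i _ hi
      rw [map_zsmul, htz, trace_fi, if_neg hi]
      simp
    · simp
  rw [h3] at h2
  apply dvd_of_memLocalIdeal_intCast hMp
  have h4 : residue (localSubring M) ((c j : ℤ) : localSubring M) = 0 := by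
    rw [map_intCast]
    exact h2
  have h5 := memLocalIdeal_of_residue _ h4
  simpa using h5

/-- **Linear independence.** -/
theorem indep (hMp : IsPModular p M) (c : Fin S.r → ℤ) (h : ∑ i, c i • clF (S.fi i) = 0) : c = 0 := by
  classical
  have hp := hMp.1
  have key : ∀ n : ℕ, ∀ c : Fin S.r → ℤ, ∑ i, c i • clF (S.fi i) = 0 →
      ∀ j, (p : ℤ) ^ n ∣ c j := by
    intro n
    induction n with
    | zero => intro c _ j; simp
    | succ n ih =>
      intro c hc j
      have hd := S.dvd_of_sum_eq_zero hMp c hc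
      choose c' hc' using hd
      have h1 : ∑ i, c' i • clF (S.fi i) = 0 := by
        funext x
        have h2 := congrFun hc x
        simp only [Finset.sum_apply, Pi.smul_apply, Pi.zero_apply, hc', mul_smul] at h2 ⊢
        rw [← Finset.smul_sum] at h2
        have hp0 : (p : ℤ) ≠ 0 := by exact_mod_cast hp.ne_zero
        exact (smul_eq_zero.1 h2).resolve_left hp0
      rw [pow_succ', hc' j]
      exact mul_dvd_mul_left _ (ih c' h1 j)
  funext j
  have h1 := key (c j).natAbs c h j
  have h2 : ((c j).natAbs : ℤ) < (p : ℤ) ^ (c j).natAbs := by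
    exact_mod_cast Nat.lt_pow_self hp.one_lt
  have h3 : |c j| < (p : ℤ) ^ (c j).natAbs := by
    rw [Int.abs_eq_natAbs]
    exact h2
  exact Int.eq_zero_of_abs_lt_dvd h1 h3

end PimSys

end Sys

end Cfsg.Agent.Lib.H59Pim4
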