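import Mathlib
import Cfsg.Agent.Lib.H59Pim4
import Cfsg.Agent.Lib.BlockQ
import Cfsg.Agent.Lib.BlockDefect

/-!
# The sum of the squares of the degrees of a block

The projective indecomposable characters of a block give Brauer's formula for the sum of the squares of
the degrees of the members of a block.
-/

set_option autoImplicit false
set_option linter.unusedSectionVars false
set_option linter.unusedVariables false
set_option linter.style.haveILetI false

namespace Cfsg.Agent.Lib.H59Pim5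

open Cfsg Cfsg.Agent.Lib.CharBasic Cfsg.Agent.Lib.CharInd
open Cfsg.Agent.Lib.H59Pim1 Cfsg.Agent.Lib.H59Pim2 Cfsg.Agent.Lib.H59Pim3 Cfsg.Agent.Lib.H59Pim4
open Cfsg.Agent.Lib.BlockLocal Cfsg.Agent.Lib.BlockVal Cfsg.Agent.Lib.BlockOsima
open Cfsg.Agent.Lib.BlockResidue Cfsg.Agent.Lib.BlkBasic
open Cfsg.Agent.Lib.CharIntegrality Cfsg.Agent.Lib.BlockIdem
open Cfsg.Agent.Lib.BlockQ Cfsg.Agent.Lib.BlockOrtho
open MonoidAlgebra IsLocalRing
open scoped ComplexConjugate

universe u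

variable {G : Type u} [Group G] [Fintype G] {M : Ideal AlgInt} [hM : M.IsPrime] {p : ℕ}
  {B : Set (IrrCharacter G)}

section Idem

/-- The block idempotent in the group algebra over the local ring. -/
noncomputable def eB (hB : IsPBlock M B) : OmA M G :=
  ofCf (blockCoeff B) (memLocalRing_blockCoeff hB)

theorem cf_eB (hB : IsPBlock M B) : cf (eB hB) = blockCoeff B := rfl

theorem eB_idem (hB : IsPBlock M B) : eB hB * eB hB = eB hB := by
  apply cf_injective
  rw [cf_mul, cf_eB, Cfsg.Agent.Lib.BlkOrth.conv_blockCoeff]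

theorem eB_central (hB : IsPBlock M B) (a : OmA M G) : eB hB * a = a * eB hB := by
  refine Cfsg.Agent.Lib.BlockResidue.central_of_class (fun g x => ?_) a
  apply Subtype.ext
  exact blockCoeff_isClassFunction B g x

theorem ev_eB_mul (hB : IsPBlock M B) (χ : IrrCharacter G) (a : OmA M G) :
    ev (χ : G → ℂ) (eB hB * a) = blkInd B χ * ev (χ : G → ℂ) a := by
  rw [ev_mul_central χ (by rw [cf_eB]; exact blockCoeff_isClassFunction B) a, cf_eB,
    omega_blockCoeff]

theorem ev_one (χ : G → ℂ) : ev χ (1 : OmA M G) = χ 1 := by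
  classical
  unfold ev
  rw [Finset.sum_eq_single 1]
  · simp [cf, MonoidAlgebra.one_def, MonoidAlgebra.coeff_single]
  · intro g _ hg
    simp [cf, MonoidAlgebra.one_def, MonoidAlgebra.coeff_single, Finsupp.single_apply, Ne.symm hg]
  · intro h; exact absurd (Finset.mem_univ _) h

theorem ev_eB (hB : IsPBlock M B) (χ : IrrCharacter G) :
    ev (χ : G → ℂ) (eB hB) = blkInd B χ * (χ : G → ℂ) 1 := by
  have h := ev_eB_mul hB χ (1 : OmA M G)
  rwa [mul_one, ev_one] at h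

end Idem

section Sys

variable (S : PimSys M G)

theorem ρ_fi_of_ne {i j : Fin S.r} (h : j ≠ i) : S.ρ j (S.fi i) = 0 := by
  rw [S.fiρ]
  simp [unit00, Pi.single_eq_of_ne h]

theorem ρ_fi_self_ne_zero (i : Fin S.r) : S.ρ i (S.fi i) ≠ 0 := by
  rw [S.fiρ]
  intro h
  have h1 := congrFun (congrFun h ⟨0, S.pos i⟩) ⟨0, S.pos i⟩
  simp [unit00] at h1

theorem fi_ne_zero (i : Fin S.r) : S.fi i ≠ 0 := by
  intro h
  apply ρ_fi_self_ne_zero S i
  rw [h, map_zero]

theorem ρ_central_eq (hB : IsPBlock M B) (i : Fin S.r) :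
    S.ρ i (eB hB) = 0 ∨ S.ρ i (eB hB) = 1 := by
  classical
  have hc : ∀ Y : Matrix (Fin (S.d i)) (Fin (S.d i)) (kF M), Commute (S.ρ i (eB hB)) Y := by
    intro Y
    obtain ⟨a, ha⟩ := S.surj (Pi.single i Y)
    have h1 : S.ρ i a = Y := by
      have := congrFun ha i
      simpa using this
    show _ * _ = _ * _
    rw [← h1, ← map_mul, ← map_mul, eB_central]
  obtain ⟨c, hc'⟩ : S.ρ i (eB hB) ∈ Set.range (Matrix.scalar (Fin (S.d i))) :=
    Matrix.mem_range_scalar_of_commute_single fun _ _ _ => (hc _).symm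
  have hi : S.ρ i (eB hB) * S.ρ i (eB hB) = S.ρ i (eB hB) := by
    rw [← map_mul, eB_idem]
  rw [← hc'] at hi
  have h0 := congrFun (congrFun hi ⟨0, S.pos i⟩) ⟨0, S.pos i⟩
  simp [Matrix.scalar_apply, Matrix.mul_apply, Matrix.diagonal_apply] at h0
  have h2 : c * c = c := h0
  have h3 : c = 0 ∨ c = 1 := by
    have : c * (c - 1) = 0 := by rw [mul_sub, h2]; ring
    rcases mul_eq_zero.1 this with h | h
    · exact Or.inl h
    · exact Or.inr (sub_eq_zero.1 h)
  rcases h3 with rfl | rfl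
  · left; rw [← hc']; simp
  · right; rw [← hc']; simp

theorem eB_mul_fi_of_ne (hB : IsPBlock M B) {i : Fin S.r} (h : S.ρ i (eB hB) ≠ 0) :
    eB hB * S.fi i = S.fi i := by
  have h1 : S.ρ i (eB hB) = 1 := (ρ_central_eq S hB i).resolve_left h
  let t : OmA M G := S.fi i - eB hB * S.fi i
  have ht : t * t = t := by
    simp only [t]
    have e1 := eB_idem hB
    have e2 := S.idem i
    have e3 : S.fi i * eB hB = eB hB * S.fi i := (eB_central hB _).symm
    have h1' : (eB hB * S.fi i) * S.fi i = eB hB * S.fi i := by rw [mul_assoc, e2]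
    have h2' : S.fi i * (eB hB * S.fi i) = eB hB * S.fi i := by rw [← mul_assoc, e3, h1']
    have h3' : (eB hB * S.fi i) * (eB hB * S.fi i) = eB hB * S.fi i := by
      rw [mul_assoc, h2', ← mul_assoc, e1]
    rw [sub_mul, mul_sub, mul_sub, e2, h1', h2', h3']
    abel
  have h0 : t = 0 := by
    apply S.nil t ht
    intro j
    simp only [t, map_sub, map_mul]
    by_cases hj : j = i
    · subst hj
      rw [h1, one_mul, sub_self]
    · rw [ρ_fi_of_ne S hj, mul_zero, sub_zero]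
  exact (sub_eq_zero.1 h0).symm

theorem eB_mul_fi_of_eq (hB : IsPBlock M B) {i : Fin S.r} (h : S.ρ i (eB hB) = 0) :
    eB hB * S.fi i = 0 := by
  let t : OmA M G := eB hB * S.fi i
  have ht : t * t = t := by
    simp only [t]
    have e1 := eB_idem hB
    have e2 := S.idem i
    have e3 : S.fi i * eB hB = eB hB * S.fi i := (eB_central hB _).symm
    have h1' : (eB hB * S.fi i) * S.fi i = eB hB * S.fi i := by rw [mul_assoc, e2]
    have h2' : S.fi i * (eB hB * S.fi i) = eB hB * S.fi i := by rw [← mul_assoc, e3, h1']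
    rw [mul_assoc, h2', ← mul_assoc, e1]
  apply S.nil t ht
  intro j
  simp only [t, map_mul]
  by_cases hj : j = i
  · subst hj
    rw [h, zero_mul]
  · rw [ρ_fi_of_ne S hj, mul_zero]

theorem ev_fi_of_not_mem (hB : IsPBlock M B) {i : Fin S.r} (h : S.ρ i (eB hB) ≠ 0)
    {χ : IrrCharacter G} (hχ : χ ∉ B) : ev (χ : G → ℂ) (S.fi i) = 0 := by
  have h1 := ev_eB_mul hB χ (S.fi i)
  rwa [eB_mul_fi_of_ne S hB h, blkInd_of_not_mem hχ, zero_mul] at h1

theorem ev_zero (χ : G → ℂ) : ev χ (0 : OmA M G) = 0 := by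
  simp [ev, cf_zero]

theorem ev_fi_of_mem (hB : IsPBlock M B) {i : Fin S.r} (h : S.ρ i (eB hB) = 0)
    {χ : IrrCharacter G} (hχ : χ ∈ B) : ev (χ : G → ℂ) (S.fi i) = 0 := by
  have h1 := ev_eB_mul hB χ (S.fi i)
  rw [eB_mul_fi_of_eq S hB h, blkInd_of_mem hχ, one_mul, ev_zero] at h1
  exact h1.symm

/-- Inner products of integer combinations of the `clF (fi i)`. -/
theorem classInner_comb (c : Fin S.r → ℤ) (χ : IrrCharacter G) :
    classInner (∑ i, c i • clF (S.fi i)) (χ : G → ℂ) =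
      ∑ i, (c i : ℂ) * ev (χ : G → ℂ) (S.fi i) := by
  rw [classInner_sum_left]
  refine Finset.sum_congr rfl fun i _ => ?_
  have h1 : c i • clF (S.fi i) = (c i : ℂ) • clF (S.fi i) := by
    funext x
    simp
  rw [h1, classInner_smul_left, classInner_clF _ (IsIrrCharacter.isCharacter χ.2)]

theorem comb_eq_zero_of (c : Fin S.r → ℤ)
    (h : ∀ χ : IrrCharacter G, ∑ i, (c i : ℂ) * ev (χ : G → ℂ) (S.fi i) = 0) :
    ∑ i, c i • clF (S.fi i) = 0 := by
  have h1 : IsClassFunction G (∑ i, c i • clF (S.fi i)) := by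
    intro g y
    simp only [Finset.sum_apply, Pi.smul_apply]
    refine Finset.sum_congr rfl fun i _ => ?_
    rw [clF_isClassFunction (S.fi i) g y]
  rw [classFunction_eq_sum h1]
  refine Finset.sum_eq_zero fun χ _ => ?_
  rw [classInner_comb, h, zero_smul]

/-- Every generalized character vanishing on the `p`-singular elements is a combination. -/
theorem exists_int_comb (hMp : IsPModular p M) {θ : G → ℂ} (hθ : IsGeneralizedCharacter G θ)
    (hv : ∀ x, p ∣ orderOf x → θ x = 0) : ∃ c : Fin S.r → ℤ, θ = ∑ i, c i • clF (S.fi i) := by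
  have key : ∀ x ∈ AddSubgroup.closure {h | ∃ f : OmA M G, f * f = f ∧ h = clF f},
      ∃ c : Fin S.r → ℤ, x = ∑ i, c i • clF (S.fi i) := by
    intro x hx
    induction hx using AddSubgroup.closure_induction with
    | mem x hx =>
      obtain ⟨f, hf, rfl⟩ := hx
      obtain ⟨N, hN, -⟩ := S.decomp hf
      refine ⟨fun i => (N i : ℤ), ?_⟩
      rw [hN]
      refine Finset.sum_congr rfl fun i _ => ?_
      funext x
      simp
    | zero => exact ⟨0, by simp⟩
    | add x y hx hy h1 h2 =>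
      obtain ⟨c1, h1⟩ := h1
      obtain ⟨c2, h2⟩ := h2
      refine ⟨c1 + c2, ?_⟩
      rw [h1, h2, ← Finset.sum_add_distrib]
      refine Finset.sum_congr rfl fun i _ => ?_
      rw [Pi.add_apply, add_smul]
    | neg x hx h1 =>
      obtain ⟨c1, h1⟩ := h1
      refine ⟨-c1, ?_⟩
      rw [h1, ← Finset.sum_neg_distrib]
      refine Finset.sum_congr rfl fun i _ => ?_
      rw [Pi.neg_apply, neg_smul]
  exact key _ (pSpan_le (M := M) hMp (mem_pSpan hMp.1 hθ hv))

/-- The block version: the coefficients vanish outside the block. -/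
theorem exists_int_comb_block (hMp : IsPModular p M) (hB : IsPBlock M B) {θ : G → ℂ}
    (hθ : IsGeneralizedCharacter G θ) (hv : ∀ x, p ∣ orderOf x → θ x = 0)
    (hout : ∀ χ : IrrCharacter G, χ ∉ B → classInner θ (χ : G → ℂ) = 0) :
    ∃ c : Fin S.r → ℤ, (∀ i, S.ρ i (eB hB) = 0 → c i = 0) ∧ θ = ∑ i, c i • clF (S.fi i) := by
  classical
  obtain ⟨c, hc⟩ := exists_int_comb S hMp hθ hv
  refine ⟨c, ?_, hc⟩
  let c' : Fin S.r → ℤ := fun i => if S.ρ i (eB hB) = 0 then c i else 0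
  have h1 : ∑ i, c' i • clF (S.fi i) = 0 := by
    apply comb_eq_zero_of S
    intro χ
    by_cases hχ : χ ∈ B
    · refine Finset.sum_eq_zero fun i _ => ?_
      by_cases hi : S.ρ i (eB hB) = 0
      · rw [ev_fi_of_mem S hB hi hχ, mul_zero]
      · simp [c', hi]
    · have h2 := hout χ hχ
      rw [hc, classInner_comb] at h2
      rw [← h2]
      refine Finset.sum_congr rfl fun i _ => ?_
      by_cases hi : S.ρ i (eB hB) = 0
      · simp [c', hi]
      · rw [ev_fi_of_not_mem S hB hi hχ, mul_zero, mul_zero]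
  have h2 := PimSys.indep S hMp c' h1
  intro i hi
  have h3 := congrFun h2 i
  simpa [c', hi] using h3

end Sys

section Degree

variable {g : ℕ}

/-- The multiplicities of the character `Ψ`. -/
noncomputable def mB (B : Set (IrrCharacter G)) (g : ℕ) (χ : IrrCharacter G) : ℕ :=
  @ite ℕ (χ ∈ B) (Classical.propDecidable _) (charDegree (χ : G → ℂ) / g) 0

theorem mB_of_mem {χ : IrrCharacter G} (h : χ ∈ B) : mB B g χ = charDegree (χ : G → ℂ) / g :=
  if_pos h

theorem mB_of_not_mem {χ : IrrCharacter G} (h : χ ∉ B) : mB B g χ = 0 :=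
  if_neg h

theorem deg_eq_mul (hg1 : ∀ χ ∈ B, g ∣ charDegree (χ : G → ℂ)) {χ : IrrCharacter G} (h : χ ∈ B) :
    charDegree (χ : G → ℂ) = g * mB B g χ := by
  rw [mB_of_mem h, Nat.mul_div_cancel' (hg1 χ h)]

/-- The character `Ψ` with `g • Ψ` the character of the block idempotent. -/
noncomputable def Psi (B : Set (IrrCharacter G)) (g : ℕ) : G → ℂ :=
  ∑ χ : IrrCharacter G, mB B g χ • (χ : G → ℂ)

theorem isCharacter_Psi : IsCharacter G (Psi B g) := isCharacter_of_nat_decomp _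

theorem classInner_Psi (χ : IrrCharacter G) : classInner (Psi B g) (χ : G → ℂ) = mB B g χ := by
  have := classInner_nat_decomp (mB B g) (χ : G → ℂ) χ.2
  exact this

theorem deg_cast (χ : IrrCharacter G) : (χ : G → ℂ) 1 = (charDegree (χ : G → ℂ) : ℂ) :=
  Cfsg.Agent.Lib.CharKernel.one_eq_charDegree (IsIrrCharacter.isCharacter χ.2)

theorem Psi_smul (hB : IsPBlock M B) (hg1 : ∀ χ ∈ B, g ∣ charDegree (χ : G → ℂ)) (x : G) :
    (g : ℂ) * Psi B g x = clF (eB hB) x := by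
  rw [clF_eq_sum]
  simp only [Psi, Finset.sum_apply, Pi.smul_apply, smul_eq_mul, Finset.mul_sum]
  refine Finset.sum_congr rfl fun χ _ => ?_
  rw [ev_eB, nsmul_eq_mul]
  by_cases hχ : χ ∈ B
  · rw [blkInd_of_mem hχ, one_mul, deg_cast, deg_eq_mul hg1 hχ]
    push_cast
    ring
  · rw [blkInd_of_not_mem hχ, mB_of_not_mem hχ]
    simp

theorem Psi_vanish (hMp : IsPModular p M) (hB : IsPBlock M B)
    (hg1 : ∀ χ ∈ B, g ∣ charDegree (χ : G → ℂ)) (hg0 : g ≠ 0) {x : G} (hx : p ∣ orderOf x) :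
    Psi B g x = 0 := by
  have h1 := Psi_smul hB hg1 x
  rw [clF_eq_zero_of_singular hMp (eB_idem hB) hx] at h1
  have hg : (g : ℂ) ≠ 0 := by exact_mod_cast hg0
  exact (mul_eq_zero.1 h1).resolve_left hg

theorem isGen_of_char {χ : G → ℂ} (h : IsCharacter G χ) : IsGeneralizedCharacter G χ := by
  refine ⟨χ, ∑ i : IrrCharacter G, (0 : ℕ) • (i : G → ℂ), h, isCharacter_of_nat_decomp _, ?_⟩
  simp

/-- The coefficients of `Ψ`. -/
theorem exists_Psi_coeff (S : PimSys M G) (hMp : IsPModular p M) (hB : IsPBlock M B)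
    (hg1 : ∀ χ ∈ B, g ∣ charDegree (χ : G → ℂ)) (hg0 : g ≠ 0) :
    ∃ c : Fin S.r → ℕ, (∀ i, S.ρ i (eB hB) = 0 → c i = 0) ∧ (∀ i, S.ρ i (eB hB) ≠ 0 → 0 < c i) ∧
      ∀ χ : IrrCharacter G, (mB B g χ : ℂ) = ∑ i, (c i : ℂ) * ev (χ : G → ℂ) (S.fi i) := by
  classical
  obtain ⟨c, hc0, hc⟩ := exists_int_comb_block S hMp hB (isGen_of_char isCharacter_Psi)
    (fun x hx => Psi_vanish hMp hB hg1 hg0 hx) (fun χ hχ => by
      rw [classInner_Psi, mB_of_not_mem hχ]; simp)
  obtain ⟨N, hN, hN'⟩ := S.decomp (eB_idem hB)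
  have h1 : ∑ i, ((g : ℤ) * c i - (N i : ℤ)) • clF (S.fi i) = 0 := by
    funext x
    have h2 := Psi_smul hB hg1 x
    rw [hN, hc] at h2
    simp only [Finset.sum_apply, Pi.smul_apply, Pi.zero_apply, Finset.mul_sum] at h2 ⊢
    rw [← sub_eq_zero, ← Finset.sum_sub_distrib] at h2
    rw [← h2]
    refine Finset.sum_congr rfl fun i _ => ?_
    rw [zsmul_eq_mul, zsmul_eq_mul, nsmul_eq_mul]
    push_cast
    ring
  have h2 := PimSys.indep S hMp _ h1
  have h3 : ∀ i, (g : ℤ) * c i = (N i : ℤ) := by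
    intro i
    have := congrFun h2 i
    simpa [sub_eq_zero] using this
  have hpos : ∀ i, S.ρ i (eB hB) ≠ 0 → 0 < c i := by
    intro i hi
    have h4 : 0 < N i := Nat.pos_of_ne_zero ((hN' i).2 hi)
    have h5 : 0 < (g : ℤ) * c i := by rw [h3]; exact_mod_cast h4
    have hg' : (0 : ℤ) < g := by exact_mod_cast Nat.pos_of_ne_zero hg0
    exact (pos_iff_pos_of_mul_pos h5).1 hg'
  have hnn : ∀ i, 0 ≤ c i := by
    intro i
    by_cases hi : S.ρ i (eB hB) = 0
    · rw [hc0 i hi]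
    · exact (hpos i hi).le
  refine ⟨fun i => (c i).toNat, fun i hi => by simp [hc0 i hi], fun i hi => by
    simpa using hpos i hi, fun χ => ?_⟩
  rw [← classInner_Psi, hc, classInner_comb]
  refine Finset.sum_congr rfl fun i _ => ?_
  congr 1
  have : (((c i).toNat : ℤ) : ℂ) = (c i : ℂ) := by rw [Int.toNat_of_nonneg (hnn i)]
  exact ((Int.cast_natCast _).symm.trans this).symm

/-- The factorization of `g`, the greatest common divisor of the degrees. -/
theorem g_ne_zero (hB : IsPBlock M B) (hg1 : ∀ χ ∈ B, g ∣ charDegree (χ : G → ℂ)) : g ≠ 0 := by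
  rintro rfl
  obtain ⟨χ, hχ⟩ := isPBlock_nonempty hB
  have h1 := hg1 χ hχ
  rw [zero_dvd_iff] at h1
  exact Cfsg.Agent.Lib.CharKernel.charDegree_ne_zero χ.2 h1

theorem fact_g_eq (hMp : IsPModular p M) (hB : IsPBlock M B)
    (hg1 : ∀ χ ∈ B, g ∣ charDegree (χ : G → ℂ))
    (hg2 : ∀ g' : ℕ, (∀ χ ∈ B, g' ∣ charDegree (χ : G → ℂ)) → g' ∣ g) :
    g.factorization p = minExp p B := by
  have hg0 := g_ne_zero hB hg1
  have hp := hMp.1
  apply le_antisymm
  · obtain ⟨χ₀, hχ₀, h0⟩ := exists_minExp (p := p) hB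
    rw [← h0]
    exact (Nat.factorization_le_iff_dvd hg0
      (Cfsg.Agent.Lib.CharKernel.charDegree_ne_zero χ₀.2)).2 (hg1 χ₀ hχ₀) p
  · have h1 : p ^ minExp p B ∣ g := by
      apply hg2
      intro χ hχ
      exact (hp.pow_dvd_iff_le_factorization
        (Cfsg.Agent.Lib.CharKernel.charDegree_ne_zero χ.2)).2 (minExp_le hχ)
    exact (hp.pow_dvd_iff_le_factorization hg0).1 h1

/-- Cancellation of the part of `g` prime to `p`. -/
theorem dvd_of_pow_add_dvd_mul (hp : p.Prime) (hg0 : g ≠ 0) {d n : ℕ}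
    (h : p ^ (d + g.factorization p) ∣ g * n) : p ^ d ∣ n := by
  have h1 := Nat.ordProj_mul_ordCompl_eq_self g p
  have h2 := Nat.not_dvd_ordCompl hp hg0
  set b := g.factorization p
  set g' := g / p ^ b
  rw [← h1, pow_add, mul_comm (p ^ d), mul_assoc] at h
  have h3 : p ^ d ∣ g' * n := Nat.dvd_of_mul_dvd_mul_left (pow_pos hp.pos b) h
  exact Nat.Coprime.dvd_of_dvd_mul_left (Nat.Coprime.pow_left d ((Nat.Prime.coprime_iff_not_dvd hp).2 h2)) h3

open Classical in
/-- The set of the factors on which the block idempotent does not vanish. -/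
noncomputable def tT (S : PimSys M G) (hB : IsPBlock M B) : Finset (Fin S.r) :=
  Finset.univ.filter fun i => S.ρ i (eB hB) ≠ 0

/-- The first half: the divisibility of the sum of the squares of the `m` by `p ^ d`, and the lower
bound for the quotient. -/
theorem exists_v (S : PimSys M G) (hMp : IsPModular p M) (hB : IsPBlock M B)
    (hg1 : ∀ χ ∈ B, g ∣ charDegree (χ : G → ℂ)) (hg0 : g ≠ 0) {d : ℕ}
    (hda : (Nat.card G).factorization p = d + g.factorization p) :
    ∃ v : ℕ, (tT S hB).card ≤ v ∧ ∑ χ : IrrCharacter G, (mB B g χ) ^ 2 = p ^ d * v := by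
  classical
  have hp := hMp.1
  obtain ⟨c, hc0, hcp, hc⟩ := exists_Psi_coeff S hMp hB hg1 hg0
  have hw : ∀ i χ, ∃ n : ℕ, ev ((χ : IrrCharacter G) : G → ℂ) (S.fi i) = n :=
    fun i χ => ev_nat χ (S.idem i)
  choose w hw using hw
  have hm : ∀ χ : IrrCharacter G, mB B g χ = ∑ i, c i * w i χ := by
    intro χ
    have h1 := hc χ
    simp only [hw] at h1
    exact_mod_cast h1
  let y : Fin S.r → ℕ := fun i => ∑ χ : IrrCharacter G, w i χ * mB B g χ
  have hsq : ∑ χ : IrrCharacter G, (mB B g χ) ^ 2 = ∑ i, c i * y i := by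
    simp only [y, Finset.mul_sum]
    rw [Finset.sum_comm]
    refine Finset.sum_congr rfl fun χ _ => ?_
    rw [sq]
    nth_rewrite 1 [hm χ]
    rw [Finset.sum_mul]
    refine Finset.sum_congr rfl fun i _ => ?_
    ring
  have hclF : ∀ i (x : G), clF (S.fi i) x = ∑ χ : IrrCharacter G, (w i χ : ℂ) * (χ : G → ℂ) x := by
    intro i x
    rw [clF_eq_sum]
    simp only [Finset.sum_apply, Pi.smul_apply, smul_eq_mul, hw]
  have hy0 : ∀ i, S.ρ i (eB hB) ≠ 0 → ∀ χ, χ ∉ B → w i χ = 0 := by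
    intro i hi χ hχ
    have h1 := ev_fi_of_not_mem S hB hi hχ
    rw [hw] at h1
    exact_mod_cast h1
  have hdeg : ∀ i, S.ρ i (eB hB) ≠ 0 →
      ∑ χ : IrrCharacter G, w i χ * charDegree (χ : G → ℂ) = g * y i := by
    intro i hi
    simp only [y, Finset.mul_sum]
    refine Finset.sum_congr rfl fun χ _ => ?_
    by_cases hχ : χ ∈ B
    · rw [deg_eq_mul hg1 hχ]
      ring
    · rw [hy0 i hi χ hχ]
      simp
  have hypos : ∀ i, S.ρ i (eB hB) ≠ 0 → 0 < y i := by
    intro i hi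
    have h1 := meas_pos (fi_ne_zero S i)
    have h2 := meas_cast (S.idem i)
    rw [← clF_one, hclF] at h2
    simp only [deg_cast] at h2
    have h3 : meas (S.fi i) = ∑ χ : IrrCharacter G, w i χ * charDegree (χ : G → ℂ) := by
      exact_mod_cast h2
    rw [h3, hdeg i hi] at h1
    exact Nat.pos_of_mul_pos_left h1 |> fun h => h
  have hdvd : ∀ i, S.ρ i (eB hB) ≠ 0 → p ^ d ∣ y i := by
    intro i hi
    have h1 := pow_dvd_sum_of_vanish hp (Finset.univ : Finset (IrrCharacter G))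
      (fun χ => (w i χ : ℤ)) (fun x hx => by
        have h2 := hclF i x
        rw [clF_eq_zero_of_singular hMp (S.idem i) hx] at h2
        rw [h2]
        simp)
    have h2 : p ^ (Nat.card G).factorization p ∣ g * y i := by
      rw [← hdeg i hi]
      exact_mod_cast h1
    rw [hda] at h2
    exact dvd_of_pow_add_dvd_mul hp hg0 h2
  refine ⟨∑ i, c i * (y i / p ^ d), ?_, ?_⟩
  · rw [tT, Finset.card_filter]
    refine Finset.sum_le_sum fun i _ => ?_
    by_cases hi : S.ρ i (eB hB) = 0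
    · simp [hi]
    · rw [if_pos hi]
      have h1 := hcp i hi
      have h2 : 0 < y i / p ^ d := Nat.div_pos (Nat.le_of_dvd (hypos i hi) (hdvd i hi)) (pow_pos hp.pos d)
      exact Nat.mul_pos h1 h2
  · rw [hsq, Finset.mul_sum]
    refine Finset.sum_congr rfl fun i _ => ?_
    by_cases hi : S.ρ i (eB hB) = 0
    · rw [hc0 i hi]; simp
    · rw [mul_left_comm, Nat.mul_div_cancel' (hdvd i hi)]

theorem mem_tT (S : PimSys M G) (hB : IsPBlock M B) {i : Fin S.r} :
    i ∈ tT S hB ↔ S.ρ i (eB hB) ≠ 0 := by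
  simp [tT]

/-- The rank of the block is at most the number of factors. -/
theorem blockRank_le (S : PimSys M G) (hMp : IsPModular p M) (hB : IsPBlock M B) :
    blockRank p B ≤ (tT S hB).card := by
  classical
  have hp := hMp.1
  let F : Fin S.r → (G → ℂ) := fun i => clF (S.fi i)
  have h1 : Submodule.span ℂ ((fun χ : IrrCharacter G => pRegularPart p (χ : G → ℂ)) '' B) ≤
      Submodule.span ℂ (((tT S hB).image F : Finset (G → ℂ)) : Set (G → ℂ)) := by
    rw [Submodule.span_le]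
    rintro _ ⟨χ, hχ, rfl⟩
    let a : IrrCharacter G → ℤ := fun ψ => @ite ℤ (ψ ∈ B) (Classical.propDecidable _) (Q p B χ ψ) 0
    let θ : G → ℂ := ∑ ψ : IrrCharacter G, (a ψ : ℂ) • (ψ : G → ℂ)
    have hθ : ∀ x, (p : ℂ) ^ blockDefect p B * pRegularPart p (χ : G → ℂ) x = θ x := by
      intro x
      rw [pow_mul_pRegularPart hMp hB hχ x]
      simp only [θ, Finset.sum_apply, Pi.smul_apply, smul_eq_mul]
      rw [← Finset.sum_subset (Finset.subset_univ (bF B))]
      · refine Finset.sum_congr rfl fun ψ hψ => ?_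
        have hψ' : ψ ∈ B := by simpa [bF] using hψ
        simp only [a]
        rw [if_pos hψ']
      · intro ψ _ hψ
        have hψ' : ψ ∉ B := by simpa [bF] using hψ
        simp only [a]
        rw [if_neg hψ']
        simp
    have hgen : IsGeneralizedCharacter G θ := by
      refine ⟨∑ ψ : IrrCharacter G, (a ψ).toNat • (ψ : G → ℂ),
        ∑ ψ : IrrCharacter G, (-a ψ).toNat • (ψ : G → ℂ), isCharacter_of_nat_decomp _,
        isCharacter_of_nat_decomp _, ?_⟩
      simp only [θ]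
      rw [← Finset.sum_sub_distrib]
      refine Finset.sum_congr rfl fun ψ _ => ?_
      funext x
      have h2 : ((a ψ : ℤ) : ℂ) = (((a ψ).toNat : ℤ) : ℂ) - (((-a ψ).toNat : ℤ) : ℂ) := by
        rw [← Int.cast_sub, Int.toNat_sub_toNat_neg]
      rw [Pi.sub_apply, Pi.smul_apply, Pi.smul_apply, Pi.smul_apply, smul_eq_mul, nsmul_eq_mul,
        nsmul_eq_mul, h2]
      push_cast
      ring
    have hv : ∀ x, p ∣ orderOf x → θ x = 0 := by
      intro x hx
      rw [← hθ, pRegularPart_of_sing _ hx, mul_zero]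
    have hout : ∀ ψ : IrrCharacter G, ψ ∉ B → classInner θ (ψ : G → ℂ) = 0 := by
      intro ψ hψ
      simp only [θ]
      rw [Cfsg.Agent.Lib.CharLattice.classInner_int_decomp]
      simp only [a]
      rw [if_neg hψ]
      simp
    obtain ⟨c, hc0, hc⟩ := exists_int_comb_block S hMp hB hgen hv hout
    have hpne : (p : ℂ) ^ blockDefect p B ≠ 0 := pow_ne_zero _ (by exact_mod_cast hp.ne_zero)
    have h3 : pRegularPart p (χ : G → ℂ) =
        ((p : ℂ) ^ blockDefect p B)⁻¹ • ∑ i ∈ tT S hB, (c i : ℂ) • F i := by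
      funext x
      simp only [Pi.smul_apply, smul_eq_mul, Finset.sum_apply]
      rw [eq_inv_mul_iff_mul_eq₀ hpne, hθ, hc]
      simp only [Finset.sum_apply, Pi.smul_apply, smul_eq_mul]
      rw [← Finset.sum_subset (Finset.subset_univ (tT S hB))]
      · refine Finset.sum_congr rfl fun i _ => ?_
        rw [zsmul_eq_mul]
      · intro i _ hi
        have hi' : S.ρ i (eB hB) = 0 := by simpa [mem_tT] using hi
        rw [hc0 i hi']
        simp
    change pRegularPart p (χ : G → ℂ) ∈ Submodule.span ℂ _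
    rw [h3]
    refine Submodule.smul_mem _ _ (Submodule.sum_mem _ fun i hi => Submodule.smul_mem _ _ ?_)
    apply Submodule.subset_span
    exact Finset.mem_coe.2 (Finset.mem_image_of_mem _ hi)
  calc blockRank p B ≤ Module.finrank ℂ
        (Submodule.span ℂ (((tT S hB).image F : Finset (G → ℂ)) : Set (G → ℂ))) :=
        Submodule.finrank_mono h1
    _ ≤ ((tT S hB).image F).card := finrank_span_finset_le_card _
    _ ≤ (tT S hB).card := Finset.card_image_le

/-- The second half: the quotient is prime to `p`. -/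
theorem not_dvd_v (hMp : IsPModular p M) (hB : IsPBlock M B)
    (hg1 : ∀ χ ∈ B, g ∣ charDegree (χ : G → ℂ)) (hg0 : g ≠ 0)
    (hgb : g.factorization p = minExp p B) {v : ℕ}
    (hv : ∑ χ : IrrCharacter G, (mB B g χ) ^ 2 = p ^ blockDefect p B * v) : ¬ p ∣ v := by
  classical
  have hp := hMp.1
  obtain ⟨χ₀, hχ₀, h0⟩ := exists_minExp (p := p) hB
  set d := blockDefect p B with hd
  have hcard := card_factorization_eq (p := p) hB
  -- the degree of `χ₀`
  have hε₀ : ¬ p ∣ mB B g χ₀ := by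
    intro h
    have h1 := deg_eq_mul hg1 hχ₀
    have h2 := Cfsg.Agent.Lib.CharKernel.charDegree_ne_zero χ₀.2
    have h3 : mB B g χ₀ ≠ 0 := by
      intro h3
      rw [h3, mul_zero] at h1
      exact h2 h1
    have h4 : (charDegree (χ₀ : G → ℂ)).factorization p =
        g.factorization p + (mB B g χ₀).factorization p := by
      rw [h1, Nat.factorization_mul hg0 h3]
      rfl
    have h5 : 0 < (mB B g χ₀).factorization p := hp.factorization_pos_of_dvd h3 h
    rw [h0, hgb] at h4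
    omega
  set ε₀ : ℤ := (mB B g χ₀ : ℤ) with hε₀def
  have hε₀' : ¬ (p : ℤ) ∣ ε₀ := by
    rw [hε₀def]
    exact_mod_cast hε₀
  set c₀ : ℤ := Q p B χ₀ χ₀ with hc₀
  -- the factor `κ`
  have hκ : MemLocalRing M (((p ^ d * g : ℕ) : ℂ) / (Nat.card G : ℂ)) := by
    haveI : Nonempty G := inferInstance
    refine memLocalRing_natCast_div_of_dvd hMp Nat.card_pos.ne' ?_
    rw [hcard, pow_add, ← hgb]
    exact Nat.mul_dvd_mul_left _ (Nat.ordProj_dvd g p)
  -- the formula for `Q`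
  have hQ : ∀ ψ ∈ B, (Q p B χ₀ ψ : ℂ) = ((p ^ d * g : ℕ) : ℂ) / (Nat.card G : ℂ) * (mB B g ψ : ℂ) *
      omega (ψ : G → ℂ) (regInv p (χ₀ : G → ℂ)) := by
    intro ψ hψ
    rw [← Q_spec hMp hB χ₀ hψ, classInner_eq_omega, deg_cast ψ, deg_eq_mul hg1 hψ]
    push_cast
    ring
  -- the congruence
  have hn : ∀ ψ ∈ B, (p : ℤ) ∣ ε₀ * Q p B χ₀ ψ - c₀ * (mB B g ψ : ℤ) := by
    intro ψ hψ
    apply PimSys.dvd_of_memLocalIdeal_intCast hMp
    have h1 : MemLocalIdeal M (omega (ψ : G → ℂ) (regInv p (χ₀ : G → ℂ)) -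
        omega (χ₀ : G → ℂ) (regInv p (χ₀ : G → ℂ))) :=
      memLocalIdeal_sub_of_mem_Zc (omega_regInv_mem_Zc (IsIrrCharacter.isCharacter χ₀.2))
        (Cfsg.Agent.Lib.BlockDefect.sameBlock_of_mem hB hψ hχ₀)
    have h2 : ((ε₀ * Q p B χ₀ ψ - c₀ * (mB B g ψ : ℤ) : ℤ) : ℂ) =
        (((p ^ d * g : ℕ) : ℂ) / (Nat.card G : ℂ) * (mB B g χ₀ : ℂ) * (mB B g ψ : ℂ)) *
        (omega (ψ : G → ℂ) (regInv p (χ₀ : G → ℂ)) -
        omega (χ₀ : G → ℂ) (regInv p (χ₀ : G → ℂ))) := by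
      push_cast
      rw [hε₀def, hc₀]
      push_cast
      rw [hQ ψ hψ, hQ χ₀ hχ₀]
      push_cast
      ring
    rw [h2]
    exact memLocalIdeal_mul_left (memLocalRing_mul (memLocalRing_mul hκ (memLocalRing_natCast _))
      (memLocalRing_natCast _)) h1
  -- the quotients
  let W : IrrCharacter G → ℤ := fun ψ => (ε₀ * Q p B χ₀ ψ - c₀ * (mB B g ψ : ℤ)) / (p : ℤ)
  have hW : ∀ ψ ∈ B, (p : ℤ) * W ψ = ε₀ * Q p B χ₀ ψ - c₀ * (mB B g ψ : ℤ) :=
    fun ψ hψ => Int.mul_ediv_cancel' (hn ψ hψ)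
  have hmem : ∀ ψ, ψ ∈ bF B ↔ ψ ∈ B := fun ψ => by simp [bF]
  -- the sum of the `m` on the block
  have hPsi : ∀ x : G, Psi B g x = ∑ ψ ∈ bF B, (mB B g ψ : ℂ) * (ψ : G → ℂ) x := by
    intro x
    simp only [Psi, Finset.sum_apply, Pi.smul_apply]
    rw [← Finset.sum_subset (Finset.subset_univ (bF B))]
    · refine Finset.sum_congr rfl fun ψ _ => ?_
      rw [nsmul_eq_mul]
    · intro ψ _ hψ
      rw [mB_of_not_mem (fun h => hψ ((hmem ψ).2 h))]
      simp
  -- the combination vanishes on the singular elements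
  have hvan : ∀ x : G, p ∣ orderOf x → ∑ ψ ∈ bF B, (W ψ : ℂ) * (ψ : G → ℂ) x = 0 := by
    intro x hx
    have hpne : (p : ℂ) ≠ 0 := by exact_mod_cast hp.ne_zero
    have h1 : (p : ℂ) * ∑ ψ ∈ bF B, (W ψ : ℂ) * (ψ : G → ℂ) x =
        (ε₀ : ℂ) * ∑ ψ ∈ bF B, (Q p B χ₀ ψ : ℂ) * (ψ : G → ℂ) x -
          (c₀ : ℂ) * ∑ ψ ∈ bF B, (mB B g ψ : ℂ) * (ψ : G → ℂ) x := by
      rw [Finset.mul_sum, Finset.mul_sum, Finset.mul_sum, ← Finset.sum_sub_distrib]
      refine Finset.sum_congr rfl fun ψ hψ => ?_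
      have h2 := congrArg (fun n : ℤ => (n : ℂ)) (hW ψ ((hmem ψ).1 hψ))
      simp only [Int.cast_mul, Int.cast_sub, Int.cast_natCast] at h2
      rw [← mul_assoc, h2]
      ring
    rw [← pow_mul_pRegularPart hMp hB hχ₀ x, ← hPsi, pRegularPart_of_sing _ hx,
      Psi_vanish hMp hB hg1 hg0 hx] at h1
    simp only [mul_zero, sub_zero] at h1
    exact (mul_eq_zero.1 h1).resolve_left hpne
  have hdvd := pow_dvd_sum_of_vanish hp (bF B) W hvan
  have hsum1 : ∑ τ ∈ bF B, W τ * (charDegree (τ : G → ℂ) : ℤ) =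
      (g : ℤ) * ∑ τ ∈ bF B, W τ * (mB B g τ : ℤ) := by
    rw [Finset.mul_sum]
    refine Finset.sum_congr rfl fun τ hτ => ?_
    rw [deg_eq_mul hg1 ((hmem τ).1 hτ)]
    push_cast
    ring
  rw [hsum1, hcard, ← hgb] at hdvd
  -- cancellation in the integers
  have hY : ((p : ℤ) ^ d) ∣ ∑ τ ∈ bF B, W τ * (mB B g τ : ℤ) := by
    rw [← Int.natAbs_dvd_natAbs] at hdvd ⊢
    rw [Int.natAbs_mul, Int.natAbs_pow, Int.natAbs_natCast, Int.natAbs_natCast] at hdvd
    rw [Int.natAbs_pow, Int.natAbs_natCast]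
    exact dvd_of_pow_add_dvd_mul hp hg0 hdvd
  obtain ⟨Y, hY⟩ := hY
  -- the sum of `Q` against the `m`
  have hQsum : ∑ ψ ∈ bF B, Q p B χ₀ ψ * (mB B g ψ : ℤ) = (p : ℤ) ^ d * ε₀ := by
    have h1 := pow_mul_pRegularPart hMp hB hχ₀ (1 : G)
    rw [pRegularPart_of_reg _ (by simpa using hp.ne_one)] at h1
    have hgne : (g : ℂ) ≠ 0 := by exact_mod_cast hg0
    have h2 : (g : ℂ) * ((∑ ψ ∈ bF B, Q p B χ₀ ψ * (mB B g ψ : ℤ) : ℤ) : ℂ) =
        (g : ℂ) * (((p : ℤ) ^ d * ε₀ : ℤ) : ℂ) := by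
      push_cast
      rw [hε₀def]
      push_cast
      rw [deg_cast χ₀, deg_eq_mul hg1 hχ₀] at h1
      push_cast at h1
      rw [show (g : ℂ) * ((p : ℂ) ^ d * (mB B g χ₀ : ℂ)) = (p : ℂ) ^ d * ((g : ℂ) * (mB B g χ₀ : ℂ)) by
        ring, h1, Finset.mul_sum]
      refine Finset.sum_congr rfl fun ψ hψ => ?_
      rw [deg_cast ψ, deg_eq_mul hg1 ((hmem ψ).1 hψ)]
      push_cast
      ring
    have h3 := mul_left_cancel₀ hgne h2
    exact_mod_cast h3
  have hvZ : ∑ τ ∈ bF B, ((mB B g τ : ℤ)) ^ 2 = (p : ℤ) ^ d * (v : ℤ) := by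
    have h1 : ∑ τ ∈ bF B, (mB B g τ) ^ 2 = p ^ d * v := by
      rw [← hv]
      refine Finset.sum_subset (Finset.subset_univ _) fun ψ _ hψ => ?_
      rw [mB_of_not_mem (fun h => hψ ((hmem ψ).2 h))]
      simp
    exact_mod_cast h1
  -- the final identity
  have hfin : (p : ℤ) ^ d * ((p : ℤ) * Y) = (p : ℤ) ^ d * (ε₀ ^ 2 - c₀ * (v : ℤ)) := by
    have h1 : (p : ℤ) * ∑ τ ∈ bF B, W τ * (mB B g τ : ℤ) =
        ε₀ * ∑ ψ ∈ bF B, Q p B χ₀ ψ * (mB B g ψ : ℤ) - c₀ * ∑ τ ∈ bF B, ((mB B g τ : ℤ)) ^ 2 := by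
      rw [Finset.mul_sum, Finset.mul_sum, Finset.mul_sum, ← Finset.sum_sub_distrib]
      refine Finset.sum_congr rfl fun ψ hψ => ?_
      rw [← mul_assoc, hW ψ ((hmem ψ).1 hψ)]
      ring
    rw [hY, hQsum, hvZ] at h1
    linear_combination h1
  have hpne : (p : ℤ) ^ d ≠ 0 := pow_ne_zero _ (by exact_mod_cast hp.ne_zero)
  have hfin' := mul_left_cancel₀ hpne hfin
  intro hpv
  apply hε₀'
  have hpp : Prime (p : ℤ) := Nat.prime_iff_prime_int.1 hp
  have h2 : (p : ℤ) ∣ ε₀ ^ 2 := by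
    have h3 : ε₀ ^ 2 = (p : ℤ) * Y + c₀ * (v : ℤ) := by linear_combination -hfin'
    rw [h3]
    exact dvd_add (dvd_mul_right _ _) (dvd_mul_of_dvd_right (by exact_mod_cast hpv) _)
  exact hpp.dvd_of_dvd_pow h2

/-- **Brauer's formula for the sum of the squares of the degrees of a block.** -/
theorem main [Fact p.Prime] (hMp : IsPModular p M) (hB : IsPBlock M B) {D : Subgroup G}
    (hD : IsDefectGroup p M B D) {a d : ℕ} (ha : (Nat.card G).factorization p = a)
    (hd : Nat.card D = p ^ d)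
    (hg1 : ∀ χ ∈ B, g ∣ charDegree (χ : G → ℂ))
    (hg2 : ∀ g' : ℕ, (∀ χ ∈ B, g' ∣ charDegree (χ : G → ℂ)) → g' ∣ g) :
    g.factorization p = a - d ∧ ∃ v : ℕ, 0 < v ∧ ¬ p ∣ v ∧ blockRank p B ≤ v ∧
      ∑ᶠ χ ∈ B, charDegree (χ : G → ℂ) ^ 2 = p ^ (2 * a - d) * (g / p ^ (a - d)) ^ 2 * v := by
  classical
  have hp := hMp.1
  have hg0 := g_ne_zero hB hg1
  have hdd : d = blockDefect p B := by
    have h1 := Cfsg.Agent.Lib.BlockDefect.card_isDefectGroup hMp hB hD
    rw [hd] at h1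
    exact Nat.pow_right_injective hp.two_le h1
  have hgb := fact_g_eq hMp hB hg1 hg2
  have hcard := card_factorization_eq (p := p) hB
  rw [ha] at hcard
  have hb : g.factorization p = a - d := by
    rw [hgb, hdd, hcard]
    omega
  refine ⟨hb, ?_⟩
  obtain ⟨S⟩ := exists_pimSys (M := M) (G := G)
  obtain ⟨v, hv1, hv2⟩ := exists_v S hMp hB hg1 hg0 (d := d) (by rw [ha, hgb, hcard, hdd])
  have hv3 := not_dvd_v hMp hB hg1 hg0 hgb (v := v) (by rw [← hdd]; exact hv2)
  refine ⟨v, ?_, hv3, (blockRank_le S hMp hB).trans hv1, ?_⟩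
  · apply Nat.pos_of_ne_zero
    rintro rfl
    exact hv3 (dvd_zero p)
  · rw [finsum_mem_eq_sum_bF]
    have hmem : ∀ ψ, ψ ∈ bF B ↔ ψ ∈ B := fun ψ => by simp [bF]
    have h1 : ∑ χ ∈ bF B, charDegree (χ : G → ℂ) ^ 2 = g ^ 2 * ∑ χ : IrrCharacter G, (mB B g χ) ^ 2 := by
      have h2 : ∑ χ ∈ bF B, (mB B g χ) ^ 2 = ∑ χ : IrrCharacter G, (mB B g χ) ^ 2 := by
        refine Finset.sum_subset (Finset.subset_univ _) fun ψ _ hψ => ?_
        rw [mB_of_not_mem (fun h => hψ ((hmem ψ).2 h))]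
        simp
      rw [← h2, Finset.mul_sum]
      refine Finset.sum_congr rfl fun χ hχ => ?_
      rw [deg_eq_mul hg1 ((hmem χ).1 hχ), mul_pow]
    rw [h1, hv2]
    have h3 := Nat.ordProj_mul_ordCompl_eq_self g p
    rw [hb] at h3
    have h4 : 2 * a - d = 2 * (a - d) + d := by
      have : d ≤ a := by rw [hcard, hdd]; omega
      omega
    rw [h4, pow_add]
    set b := a - d
    set g' := g / p ^ b
    rw [← h3]
    ring

end Degree

end Cfsg.Agent.Lib.H59Pim5
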