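import Mathlib
import Cfsg.Agent.Lib.H59Pim5
import Cfsg.Agent.Lib.BlockKL
import Cfsg.Agent.Lib.BlockSection
import Cfsg.Agent.Lib.BlockGal

/-!
# The number of `p`-rational characters of a block

The automorphisms of a group act on the span of the projective indecomposable characters by matrices with
natural entries; this gives the nonnegativity of the traces on the sections.
-/

set_option autoImplicit false
set_option linter.unusedSectionVars false
set_option linter.unusedVariables false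
set_option linter.style.haveILetI false

namespace Cfsg.Agent.Lib.H59Rat

open Cfsg Cfsg.Agent.Lib.CharBasic Cfsg.Agent.Lib.CharInd
open Cfsg.Agent.Lib.H59Pim1 Cfsg.Agent.Lib.H59Pim2 Cfsg.Agent.Lib.H59Pim3 Cfsg.Agent.Lib.H59Pim4
open Cfsg.Agent.Lib.H59Pim5
open Cfsg.Agent.Lib.BlockLocal Cfsg.Agent.Lib.BlockVal Cfsg.Agent.Lib.BlockOsima
open Cfsg.Agent.Lib.BlockResidue Cfsg.Agent.Lib.BlkBasic
open Cfsg.Agent.Lib.CharIntegrality Cfsg.Agent.Lib.BlockIdem
open Cfsg.Agent.Lib.BlockQ Cfsg.Agent.Lib.BlockOrtho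
open MonoidAlgebra IsLocalRing
open scoped ComplexConjugate

universe u

section Pim

variable {H : Type u} [Group H] [Fintype H] {M : Ideal AlgInt} [hM : M.IsPrime] {p : ℕ}

theorem classInner_smul_clF (a : ℂ) (f : OmA M H) (χ : IrrCharacter H) :
    classInner (a • clF f) (χ : H → ℂ) = a * ev (χ : H → ℂ) f := by
  rw [classInner_smul_left, classInner_clF _ (IsIrrCharacter.isCharacter χ.2)]

/-- **Independence over the complex numbers.** -/
theorem indep_complex (S : PimSys M H) (hMp : IsPModular p M) (a : Fin S.r → ℂ)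
    (h : ∑ i, a i • clF (S.fi i) = 0) : a = 0 := by
  classical
  have hw : ∀ i χ, ∃ n : ℕ, ev ((χ : IrrCharacter H) : H → ℂ) (S.fi i) = n :=
    fun i χ => ev_nat χ (S.idem i)
  choose w hw using hw
  have hcoord : ∀ χ : IrrCharacter H, ∑ i, a i * (w i χ : ℂ) = 0 := by
    intro χ
    have h1 : classInner (∑ i, a i • clF (S.fi i)) (χ : H → ℂ) = classInner 0 (χ : H → ℂ) := by
      rw [h]
    rw [classInner_sum_left] at h1
    simp only [classInner_smul_clF, hw] at h1
    rw [h1]
    simp [classInner]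
  funext i0
  by_contra hne
  obtain ⟨l, hl⟩ : ∃ l : Module.Dual ℚ ℂ, l (a i0) ≠ 0 := by
    by_contra hall
    push Not at hall
    exact hne ((Module.forall_dual_apply_eq_zero_iff ℚ (a i0)).1 hall)
  have hq : ∀ χ : IrrCharacter H, ∑ i, l (a i) * (w i χ : ℚ) = 0 := by
    intro χ
    have h1 := congrArg l (hcoord χ)
    rw [map_sum, map_zero] at h1
    rw [← h1]
    refine Finset.sum_congr rfl fun i _ => ?_
    rw [mul_comm (a i), ← nsmul_eq_mul, map_nsmul, nsmul_eq_mul, mul_comm]
  obtain ⟨b, hb⟩ := IsLocalization.exist_integer_multiples_of_finite (nonZeroDivisors ℤ)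
    (fun i => l (a i))
  have hb' : ∀ i, ∃ c : ℤ, (c : ℚ) = (b : ℤ) • l (a i) := by
    intro i
    obtain ⟨c, hc⟩ := hb i
    exact ⟨c, by simpa using hc⟩
  choose c hc using hb'
  have h2 : ∑ i, c i • clF (S.fi i) = 0 := by
    apply comb_eq_zero_of S
    intro χ
    have h3 : ∑ i, (c i : ℚ) * (w i χ : ℚ) = 0 := by
      have h4 := hq χ
      have h5 : ∑ i, (c i : ℚ) * (w i χ : ℚ) = (b : ℤ) • ∑ i, l (a i) * (w i χ : ℚ) := by
        rw [Finset.smul_sum]
        refine Finset.sum_congr rfl fun i _ => ?_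
        rw [hc, smul_mul_assoc]
      rw [h5, h4, smul_zero]
    have h4 : ∑ i, c i * (w i χ : ℤ) = 0 := by exact_mod_cast h3
    simp only [hw]
    exact_mod_cast h4
  have h3 := PimSys.indep S hMp c h2
  have h4 := hc i0
  rw [h3] at h4
  simp only [Pi.zero_apply, Int.cast_zero] at h4
  have hb0 : (b : ℤ) ≠ 0 := nonZeroDivisors.ne_zero b.2
  exact hl ((smul_eq_zero.1 h4.symm).resolve_left hb0)

/-- The regular part of a member of a block is a combination. -/
theorem exists_reg_coeff (S : PimSys M H) (hMp : IsPModular p M) {F : Set (IrrCharacter H)}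
    (hF : IsPBlock M F) {χ : IrrCharacter H} (hχ : χ ∈ F) :
    ∃ c : Fin S.r → ℂ, pRegularPart p (χ : H → ℂ) = ∑ i, c i • clF (S.fi i) := by
  classical
  have hp := hMp.1
  let a : IrrCharacter H → ℤ := fun ψ => @ite ℤ (ψ ∈ F) (Classical.propDecidable _) (Q p F χ ψ) 0
  let θ : H → ℂ := ∑ ψ : IrrCharacter H, (a ψ : ℂ) • (ψ : H → ℂ)
  have hθ : ∀ x, (p : ℂ) ^ blockDefect p F * pRegularPart p (χ : H → ℂ) x = θ x := by
    intro x
    rw [pow_mul_pRegularPart hMp hF hχ x]
    simp only [θ, Finset.sum_apply, Pi.smul_apply, smul_eq_mul]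
    rw [← Finset.sum_subset (Finset.subset_univ (bF F))]
    · refine Finset.sum_congr rfl fun ψ hψ => ?_
      have hψ' : ψ ∈ F := by simpa [bF] using hψ
      simp only [a]
      rw [if_pos hψ']
    · intro ψ _ hψ
      have hψ' : ψ ∉ F := by simpa [bF] using hψ
      simp only [a]
      rw [if_neg hψ']
      simp
  have hgen : IsGeneralizedCharacter H θ := by
    refine ⟨∑ ψ : IrrCharacter H, (a ψ).toNat • (ψ : H → ℂ),
      ∑ ψ : IrrCharacter H, (-a ψ).toNat • (ψ : H → ℂ), isCharacter_of_nat_decomp _,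
      isCharacter_of_nat_decomp _, ?_⟩
    simp only [θ]
    rw [← Finset.sum_sub_distrib]
    refine Finset.sum_congr rfl fun ψ _ => ?_
    funext x
    have h2 : ((a ψ : ℤ) : ℂ) = (((a ψ).toNat : ℤ) : ℂ) - (((-a ψ).toNat : ℤ) : ℂ) := by
      rw [← Int.cast_sub, Int.toNat_sub_toNat_neg]
    rw [Pi.sub_apply, Pi.smul_apply, Pi.smul_apply, Pi.smul_apply, smul_eq_mul, nsmul_eq_mul,
      nsmul_eq_mul, h2]
    push_cast
    ring
  have hv : ∀ x, p ∣ orderOf x → θ x = 0 := by
    intro x hx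
    rw [← hθ, pRegularPart_of_sing _ hx, mul_zero]
  obtain ⟨c, hc⟩ := exists_int_comb S hMp hgen hv
  have hpne : (p : ℂ) ^ blockDefect p F ≠ 0 := pow_ne_zero _ (by exact_mod_cast hp.ne_zero)
  refine ⟨fun i => ((p : ℂ) ^ blockDefect p F)⁻¹ * (c i : ℂ), ?_⟩
  funext x
  simp only [Finset.sum_apply, Pi.smul_apply, smul_eq_mul]
  have h1 := hθ x
  rw [hc] at h1
  simp only [Finset.sum_apply, Pi.smul_apply] at h1
  simp only [mul_assoc]
  rw [← Finset.mul_sum, eq_inv_mul_iff_mul_eq₀ hpne, h1]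
  refine Finset.sum_congr rfl fun i _ => ?_
  rw [zsmul_eq_mul]

/-- The transport of an idempotent along an automorphism. -/
theorem exists_idem_comp {f : OmA M H} (hf : f * f = f) (α : H ≃* H) :
    ∃ f' : OmA M H, f' * f' = f' ∧ ∀ x, clF f' x = clF f (α x) := by
  have hmem : ∀ g, MemLocalRing M (cf f (α g)) := fun g => cf_mem f (α g)
  refine ⟨ofCf (fun g => cf f (α g)) hmem, ?_, ?_⟩
  · apply cf_injective
    rw [cf_mul, cf_ofCf]
    funext g
    have h1 := congrFun (congrArg cf hf) (α g)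
    rw [cf_mul] at h1
    show conv (fun g => cf f (α g)) (fun g => cf f (α g)) g = cf f (α g)
    rw [← h1]
    unfold conv
    refine Finset.sum_bij' (fun x _ => α x) (fun x _ => α.symm x) (by simp) (by simp) (by simp)
      (by simp) ?_
    intro x _
    simp
  · intro x
    simp only [clF, cf_ofCf]
    refine Finset.sum_bij' (fun y _ => α y) (fun y _ => α.symm y) (by simp) (by simp) (by simp)
      (by simp) ?_
    intro y _
    simp

/-- The action on the basis has natural coefficients. -/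
theorem exists_nat_comp (S : PimSys M H) (α : H ≃* H) (i : Fin S.r) :
    ∃ N : Fin S.r → ℕ, ∀ x, clF (S.fi i) (α x) = ∑ j, (N j : ℂ) * clF (S.fi j) x := by
  obtain ⟨f', hf', h1⟩ := exists_idem_comp (S.idem i) α
  obtain ⟨N, hN, -⟩ := S.decomp hf'
  refine ⟨N, fun x => ?_⟩
  rw [← h1, hN]
  simp only [Finset.sum_apply, Pi.smul_apply]
  refine Finset.sum_congr rfl fun j _ => ?_
  rw [nsmul_eq_mul]

/-- **The trace of an automorphism on the regular functions of a block.** -/
theorem exists_nat_trace (S : PimSys M H) (hMp : IsPModular p M) {F : Set (IrrCharacter H)}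
    (hF : IsPBlock M F) (α : H ≃* H) :
    ∃ n : ℕ, ∑ s : H, (@ite ℂ (¬ p ∣ orderOf s) (Classical.propDecidable _)
      (∑ᶠ ψ ∈ F, (ψ : H → ℂ) (α s) * conj ((ψ : H → ℂ) s)) 0) = (Nat.card H : ℂ) * n := by
  classical
  have hmem : ∀ ψ, ψ ∈ bF F ↔ ψ ∈ F := fun ψ => by simp [bF]
  have hc : ∀ ψ : IrrCharacter H, ∃ c : Fin S.r → ℂ, ψ ∈ F →
      pRegularPart p (ψ : H → ℂ) = ∑ i, c i • clF (S.fi i) := by
    intro ψ
    by_cases hψ : ψ ∈ F
    · obtain ⟨c, hc⟩ := exists_reg_coeff S hMp hF hψ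
      exact ⟨c, fun _ => hc⟩
    · exact ⟨0, fun h => absurd h hψ⟩
  choose c hc using hc
  let Φ : Fin S.r → H → ℂ := fun i => clF (S.fi i)
  let C : Fin S.r → H → ℂ := fun i s => ∑ ψ ∈ bF F, conj ((ψ : H → ℂ) s) * c ψ i
  have hL : ∀ s x, ∑ ψ ∈ bF F, conj ((ψ : H → ℂ) s) * pRegularPart p (ψ : H → ℂ) x =
      ∑ i, C i s * Φ i x := by
    intro s x
    simp only [C, Finset.sum_mul]
    rw [Finset.sum_comm]
    refine Finset.sum_congr rfl fun ψ hψ => ?_
    rw [hc ψ ((hmem ψ).1 hψ)]
    simp only [Finset.sum_apply, Pi.smul_apply, smul_eq_mul, Finset.mul_sum, Φ, mul_assoc]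
  have hcard : (Nat.card H : ℂ) ≠ 0 := natCard_ne_zero'
  let δ : Fin S.r → ℂ := fun j => if S.ρ j (eB hF) ≠ 0 then 1 else 0
  have hkey : ∀ j x, ∑ s : H, (∑ ψ ∈ bF F, conj ((ψ : H → ℂ) s) *
      pRegularPart p (ψ : H → ℂ) x) * Φ j s = (Nat.card H : ℂ) * (δ j * Φ j x) := by
    intro j x
    simp only [Finset.sum_mul]
    rw [Finset.sum_comm]
    have h1 : ∀ ψ ∈ bF F, ∑ s : H, conj ((ψ : H → ℂ) s) * pRegularPart p (ψ : H → ℂ) x * Φ j s =
        (Nat.card H : ℂ) * (ev (ψ : H → ℂ) (S.fi j) * pRegularPart p (ψ : H → ℂ) x) := by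
      intro ψ _
      have h2 := classInner_clF (S.fi j) (IsIrrCharacter.isCharacter ψ.2)
      unfold classInner at h2
      have h3 : ∑ s : H, clF (S.fi j) s * conj ((ψ : H → ℂ) s) =
          (Nat.card H : ℂ) * ev (ψ : H → ℂ) (S.fi j) := by
        rw [← h2]
        field_simp
      rw [← mul_assoc, ← h3, Finset.sum_mul]
      refine Finset.sum_congr rfl fun s _ => ?_
      simp only [Φ]
      ring
    rw [Finset.sum_congr rfl h1, ← Finset.mul_sum]
    congr 1
    by_cases hj : S.ρ j (eB hF) = 0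
    · simp only [δ, hj, ne_eq, not_true_eq_false, if_false, zero_mul]
      refine Finset.sum_eq_zero fun ψ hψ => ?_
      rw [ev_fi_of_mem S hF hj ((hmem ψ).1 hψ), zero_mul]
    · simp only [δ]
      rw [if_pos hj, one_mul]
      have h2 : ∑ ψ ∈ bF F, ev (ψ : H → ℂ) (S.fi j) * pRegularPart p (ψ : H → ℂ) x =
          ∑ ψ : IrrCharacter H, ev (ψ : H → ℂ) (S.fi j) * pRegularPart p (ψ : H → ℂ) x := by
        refine Finset.sum_subset (Finset.subset_univ _) fun ψ _ hψ => ?_
        rw [ev_fi_of_not_mem S hF hj (fun h => hψ ((hmem ψ).2 h)), zero_mul]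
      rw [h2]
      by_cases hx : p ∣ orderOf x
      · simp only [Φ]
        rw [clF_eq_zero_of_singular hMp (S.idem j) hx]
        refine Finset.sum_eq_zero fun ψ _ => ?_
        rw [pRegularPart_of_sing _ hx, mul_zero]
      · simp only [Φ]
        rw [clF_eq_sum]
        simp only [Finset.sum_apply, Pi.smul_apply, smul_eq_mul]
        refine Finset.sum_congr rfl fun ψ _ => ?_
        rw [pRegularPart_of_reg _ hx]
  let X : Fin S.r → Fin S.r → ℂ := fun i j => ∑ s : H, C i s * Φ j s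
  have hX : ∀ i j, X i j = if i = j then (Nat.card H : ℂ) * δ j else 0 := by
    intro i j
    have h1 : ∑ i, (X i j - if i = j then (Nat.card H : ℂ) * δ j else 0) • clF (S.fi i) = 0 := by
      funext x
      simp only [Finset.sum_apply, Pi.smul_apply, smul_eq_mul, Pi.zero_apply, sub_mul,
        Finset.sum_sub_distrib]
      rw [sub_eq_zero]
      have h2 := hkey j x
      simp only [hL] at h2
      have h3 : ∑ i, (if i = j then (Nat.card H : ℂ) * δ j else 0) * clF (S.fi i) x =
          (Nat.card H : ℂ) * (δ j * Φ j x) := by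
        rw [Finset.sum_eq_single j]
        · rw [if_pos rfl, mul_assoc]
        · intro b _ hb
          rw [if_neg hb, zero_mul]
        · intro h; exact absurd (Finset.mem_univ _) h
      rw [h3, ← h2]
      simp only [X, Finset.sum_mul, Φ]
      rw [Finset.sum_comm]
      refine Finset.sum_congr rfl fun s _ => ?_
      refine Finset.sum_congr rfl fun k _ => ?_
      ring
    have h2 := indep_complex S hMp _ h1
    exact sub_eq_zero.1 (congrFun h2 i)
  have hN := fun i => exists_nat_comp S α i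
  choose N hN using hN
  refine ⟨∑ i, @ite ℕ (S.ρ i (eB hF) ≠ 0) (Classical.propDecidable _) (N i i) 0, ?_⟩
  have h1 : ∀ s : H, (@ite ℂ (¬ p ∣ orderOf s) (Classical.propDecidable _)
      (∑ᶠ ψ ∈ F, (ψ : H → ℂ) (α s) * conj ((ψ : H → ℂ) s)) 0) = ∑ i, C i s * Φ i (α s) := by
    intro s
    rw [← hL]
    have ho : orderOf (α s) = orderOf s := MulEquiv.orderOf_eq α s
    by_cases hs : p ∣ orderOf s
    · rw [if_neg (not_not.2 hs)]
      symm
      refine Finset.sum_eq_zero fun ψ _ => ?_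
      rw [pRegularPart_of_sing _ (by rwa [ho]), mul_zero]
    · rw [if_pos hs, finsum_mem_eq_sum_bF]
      refine Finset.sum_congr rfl fun ψ _ => ?_
      rw [pRegularPart_of_reg _ (by rwa [ho]), mul_comm]
  rw [Finset.sum_congr rfl fun s _ => h1 s]
  have h2 : ∑ s : H, ∑ i, C i s * Φ i (α s) = ∑ i, ∑ j, (N i j : ℂ) * X i j := by
    rw [Finset.sum_comm]
    refine Finset.sum_congr rfl fun i _ => ?_
    simp only [X, Finset.mul_sum]
    rw [Finset.sum_comm]
    refine Finset.sum_congr rfl fun s _ => ?_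
    simp only [Φ]
    rw [hN, Finset.mul_sum]
    refine Finset.sum_congr rfl fun j _ => ?_
    ring
  rw [h2, Nat.cast_sum, Finset.mul_sum]
  refine Finset.sum_congr rfl fun i _ => ?_
  rw [Finset.sum_eq_single i]
  · rw [hX, if_pos rfl]
    simp only [δ]
    by_cases hi : S.ρ i (eB hF) ≠ 0
    · rw [if_pos hi, if_pos hi]
      ring
    · rw [if_neg hi, if_neg hi]
      simp
  · intro j _ hj
    rw [hX, if_neg (Ne.symm hj), mul_zero]
  · intro h; exact absurd (Finset.mem_univ _) h

end Pim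

section Main

open Cfsg.Agent.Lib.BlockKL Cfsg.Agent.Lib.BlockSubsection Cfsg.Agent.Lib.BlockSection
open Cfsg.Agent.Lib.BrauerPair Cfsg.Agent.Lib.BlkOrth Cfsg.Agent.Lib.BlockGal
open scoped Classical

variable {G : Type u} [Group G] [Fintype G] {p : ℕ} {M : Ideal AlgInt}

theorem isConj_of_mul (hp : p.Prime) {z z' c c' : G} (hz : ∃ k : ℕ, orderOf z = p ^ k)
    (hz' : ∃ k : ℕ, orderOf z' = p ^ k) (hc : Commute z c) (hc' : Commute z' c')
    (hr : ¬ p ∣ orderOf c) (hr' : ¬ p ∣ orderOf c') (h : IsConj (z * c) (z' * c')) :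
    IsConj z z' := by
  obtain ⟨x, hx⟩ := isConj_iff.1 h
  have h1 : IsPPart p (z' * c') (x * z * x⁻¹) := by
    refine ⟨x * c * x⁻¹, ?_, ?_, ?_, ?_⟩
    · rw [← hx]
      group
    · show _ * _ = _ * _
      have hc1 : z * c = c * z := hc
      calc x * z * x⁻¹ * (x * c * x⁻¹) = x * (z * c) * x⁻¹ := by group
        _ = x * (c * z) * x⁻¹ := by rw [hc1]
        _ = _ := by group
    · rw [orderOf_conj_eq']
      exact hz
    · rw [orderOf_conj_eq']
      exact hr
  exact isConj_iff.2 ⟨x, pPart_unique hp h1 (pPart_of_mul hc' hz' hr')⟩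

/-- The contribution of a section is a natural number. -/
theorem section_nat (hMp : IsPModular p M) {B : Set (IrrCharacter G)} (hB : IsPBlock M B) {k : ℕ}
    (hk : (Nat.card G).Coprime k) (hreg : ∀ s : G, ¬ p ∣ orderOf s → s ^ k = s) {z : G}
    (hz : ∃ e : ℕ, orderOf z = p ^ e) :
    ∃ n : ℕ, ∑ s : Subgroup.centralizer ({z} : Set G), (if ¬ p ∣ orderOf s then
      ∑ χ ∈ bF B, (χ : G → ℂ) ((z * (s : G)) ^ k) * conj ((χ : G → ℂ) (z * (s : G))) else 0) =
        n := by
  haveI := isPrime_of_isPModular hMp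
  haveI : Fact p.Prime := ⟨hMp.1⟩
  have hp := hMp.1
  have hcen := centralizer_pow hk z
  have hpowreg : ∀ s : Subgroup.centralizer ({z} : Set G), ¬ p ∣ orderOf s →
      (z * (s : G)) ^ k = z ^ k * (s : G) := by
    intro s hs
    have hc : Commute z (s : G) :=
      commute_of_mem (H := Subgroup.centralizer ({z} : Set G)) rfl s.2
    rw [hc.mul_pow, hreg (s : G) (by rwa [Subgroup.orderOf_coe])]
  have hzk : ∃ e : ℕ, orderOf (z ^ k) = p ^ e := by
    have h1 : (orderOf z).gcd k = 1 :=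
      Nat.Coprime.coprime_dvd_left (orderOf_dvd_natCard z) hk
    rw [orderOf_pow, h1, Nat.div_one]
    exact hz
  by_cases hconj : IsConj (z ^ k) z
  · obtain ⟨y, hy⟩ := isConj_iff.1 hconj
    set H := Subgroup.centralizer ({z} : Set G) with hH
    have hmem1 : ∀ s : H, y * (s : G) * y⁻¹ ∈ H := by
      intro s
      have h1 : (s : G) ∈ Subgroup.centralizer ({z ^ k} : Set G) := by rw [hcen]; exact s.2
      show y * (s : G) * y⁻¹ ∈ Subgroup.centralizer ({z} : Set G)
      rw [Subgroup.mem_centralizer_singleton_iff]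
      have h2 := Subgroup.mem_centralizer_singleton_iff.mp h1
      calc y * (s : G) * y⁻¹ * z = y * (s : G) * y⁻¹ * (y * z ^ k * y⁻¹) := by rw [hy]
        _ = y * ((s : G) * z ^ k) * y⁻¹ := by group
        _ = y * (z ^ k * (s : G)) * y⁻¹ := by rw [h2]
        _ = (y * z ^ k * y⁻¹) * (y * (s : G) * y⁻¹) := by group
        _ = z * (y * (s : G) * y⁻¹) := by rw [hy]
    have hmem2 : ∀ s : H, y⁻¹ * (s : G) * y ∈ H := by
      intro s
      have h1 := Subgroup.mem_centralizer_singleton_iff.mp s.2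
      have h2 : y⁻¹ * (s : G) * y ∈ Subgroup.centralizer ({z ^ k} : Set G) := by
        rw [Subgroup.mem_centralizer_singleton_iff]
        have h3 : z ^ k = y⁻¹ * z * y := by
          calc z ^ k = y⁻¹ * (y * z ^ k * y⁻¹) * y := by group
            _ = _ := by rw [hy]
        rw [h3]
        calc y⁻¹ * (s : G) * y * (y⁻¹ * z * y) = y⁻¹ * ((s : G) * z) * y := by group
          _ = y⁻¹ * (z * (s : G)) * y := by rw [h1]
          _ = _ := by group
      rw [hcen] at h2
      exact h2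
    let α : H ≃* H :=
      { toFun := fun s => ⟨y * (s : G) * y⁻¹, hmem1 s⟩
        invFun := fun s => ⟨y⁻¹ * (s : G) * y, hmem2 s⟩
        left_inv := fun s => Subtype.ext (by
          show y⁻¹ * (y * (s : G) * y⁻¹) * y = s
          group)
        right_inv := fun s => Subtype.ext (by
          show y * (y⁻¹ * (s : G) * y) * y⁻¹ = s
          group)
        map_mul' := fun a b => Subtype.ext (by
          show y * ((a : G) * (b : G)) * y⁻¹ = (y * (a : G) * y⁻¹) * (y * (b : G) * y⁻¹)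
          group) }
    have hαc : ∀ s : H, ((α s : H) : G) = y * (s : G) * y⁻¹ := fun s => rfl
    obtain ⟨S⟩ := exists_pimSys (M := M) (G := H)
    have htrace := fun F : BlockT M H => exists_nat_trace S hMp F.2 α
    choose nF hnF using htrace
    refine ⟨Nat.card H * ∑ F : BlockT M H, if IsInducedBlock M H F.1 B then nF F else 0, ?_⟩
    have h1 : ∀ s : H, (if ¬ p ∣ orderOf s then
        ∑ χ ∈ bF B, (χ : G → ℂ) ((z * (s : G)) ^ k) * conj ((χ : G → ℂ) (z * (s : G))) else 0) =
        ∑ F : BlockT M H, if IsInducedBlock M H F.1 B then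
          (@ite ℂ (¬ p ∣ orderOf s) (Classical.propDecidable _)
            (∑ᶠ ψ ∈ F.1, (ψ : H → ℂ) (α s) * conj ((ψ : H → ℂ) s)) 0) else 0 := by
      intro s
      by_cases hs : ¬ p ∣ orderOf s
      · simp only [if_pos hs]
        have ho : ¬ p ∣ orderOf (α s) := by
          rwa [MulEquiv.orderOf_eq α s]
        have h2 := sum_block_mul_conj (p := p) hMp hz hH hB ho hs
        rw [← h2, finsum_mem_eq_sum_bF]
        refine Finset.sum_congr rfl fun χ _ => ?_
        rw [hpowreg s hs]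
        congr 1
        have h3 := isClassFunction_of_isCharacter (IsIrrCharacter.isCharacter χ.2) (z ^ k * (s : G)) y
        have h4 : z * (y * (s : G) * y⁻¹) = y * (z ^ k * (s : G)) * y⁻¹ := by
          calc z * (y * (s : G) * y⁻¹) = (y * z ^ k * y⁻¹) * (y * (s : G) * y⁻¹) := by rw [hy]
            _ = _ := by group
        rw [hαc, h4]
        exact h3.symm
      · simp only [if_neg hs]
        simp
    rw [Finset.sum_congr rfl fun s _ => h1 s, Finset.sum_comm]
    push_cast
    rw [Finset.mul_sum]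
    refine Finset.sum_congr rfl fun F _ => ?_
    by_cases hF : IsInducedBlock M H F.1 B
    · simp only [if_pos hF]
      exact hnF F
    · simp only [if_neg hF]
      simp
  · refine ⟨0, ?_⟩
    rw [Nat.cast_zero]
    refine Finset.sum_eq_zero fun s _ => ?_
    by_cases hs : ¬ p ∣ orderOf s
    · rw [if_pos hs, hpowreg s hs]
      have hs2 : (s : G) ∈ Subgroup.centralizer ({z ^ k} : Set G) := by rw [hcen]; exact s.2
      have hs3 : ¬ p ∣ orderOf (⟨s, hs2⟩ : Subgroup.centralizer ({z ^ k} : Set G)) := by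
        rw [Subgroup.orderOf_mk, Subgroup.orderOf_coe]
        exact hs
      have h1 := sum_block_mul_conj_eq_zero (p := p) hMp hzk rfl hB hs3 (v := z * (s : G)) (by
        intro c hc hcon
        apply hconj
        refine isConj_of_mul hp hzk hz ?_ ?_ ?_ ?_ hcon
        · exact commute_of_mem (H := Subgroup.centralizer ({z ^ k} : Set G)) rfl c.2
        · exact commute_of_mem (H := Subgroup.centralizer ({z} : Set G)) rfl s.2
        · rwa [Subgroup.orderOf_coe]
        · rwa [Subgroup.orderOf_coe])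
      rw [finsum_mem_eq_sum_bF] at h1
      exact h1
    · rw [if_neg hs]

/-- **The count of fixed points.** -/
theorem rank_le_fix (hMp : IsPModular p M) {B : Set (IrrCharacter G)} (hB : IsPBlock M B) {k : ℕ}
    (hk : (Nat.card G).Coprime k) (hreg : ∀ s : G, ¬ p ∣ orderOf s → s ^ k = s) :
    blockRank p B ≤ ((bF B).filter fun χ : IrrCharacter G => ∀ g, (χ : G → ℂ) (g ^ k) = (χ : G → ℂ) g).card := by
  have hp := hMp.1
  haveI : Fact p.Prime := ⟨hp⟩
  set f : G → ℂ := fun g => ∑ χ ∈ bF B, (χ : G → ℂ) (g ^ k) * conj ((χ : G → ℂ) g) with hf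
  have hcard : (Nat.card G : ℂ) ≠ 0 := natCard_ne_zero'
  have h1 : ∑ g : G, f g = (Nat.card G : ℂ) *
      (((bF B).filter fun χ : IrrCharacter G => ∀ g, (χ : G → ℂ) (g ^ k) = (χ : G → ℂ) g).card : ℂ) := by
    simp only [hf]
    rw [Finset.sum_comm, Finset.card_filter]
    push_cast
    rw [Finset.mul_sum]
    refine Finset.sum_congr rfl fun χ _ => ?_
    have h2 := classInner_irr (powIrr hk χ).2 χ.2
    unfold classInner at h2
    have h3 : ∑ g : G, (χ : G → ℂ) (g ^ k) * conj ((χ : G → ℂ) g) =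
        (Nat.card G : ℂ) * (if (powIrr hk χ : G → ℂ) = (χ : G → ℂ) then 1 else 0) := by
      rw [← h2]
      field_simp
      rfl
    rw [h3]
    congr 1
    by_cases h4 : ∀ g, (χ : G → ℂ) (g ^ k) = (χ : G → ℂ) g
    · rw [if_pos h4, if_pos]
      funext g
      exact h4 g
    · rw [if_neg h4, if_neg]
      intro h5
      exact h4 fun g => congrFun h5 g
  have h2 : (Nat.card G : ℂ) * (blockRank p B : ℂ) = ∑ g : G, if ¬ p ∣ orderOf g then f g else 0 := by
    rw [card_mul_blockRank hMp hB]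
    refine Finset.sum_congr rfl fun g _ => ?_
    by_cases hg : ¬ p ∣ orderOf g
    · rw [if_pos hg]
      simp only [hf]
      rw [← finsum_mem_eq_sum_bF, finsum_mem_eq_sum_indB]
      refine Finset.sum_congr rfl fun χ _ => ?_
      rw [pRegularPart_of_reg _ hg, hreg g hg]
    · rw [if_neg hg]
      apply Finset.sum_eq_zero
      intro χ _
      rw [pRegularPart_of_sing _ (not_not.mp hg)]
      simp
  have h3 : ∀ z : G, ∃ n : ℕ, (if ∃ e : ℕ, orderOf z = p ^ e then
      ∑ s : Subgroup.centralizer ({z} : Set G), if ¬ p ∣ orderOf s then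
        (if p ∣ orderOf (z * (s : G)) then f (z * (s : G)) else 0) else 0 else 0) = n := by
    intro z
    by_cases hz : ∃ e : ℕ, orderOf z = p ^ e
    · rw [if_pos hz]
      by_cases hz1 : z = 1
      · subst hz1
        refine ⟨0, ?_⟩
        rw [Nat.cast_zero]
        refine Finset.sum_eq_zero fun s _ => ?_
        by_cases hs : ¬ p ∣ orderOf s
        · rw [if_pos hs, if_neg]
          rw [one_mul, Subgroup.orderOf_coe]
          exact hs
        · rw [if_neg hs]
      · obtain ⟨n, hn⟩ := section_nat hMp hB hk hreg hz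
        refine ⟨n, ?_⟩
        rw [← hn]
        refine Finset.sum_congr rfl fun s _ => ?_
        by_cases hs : ¬ p ∣ orderOf s
        · rw [if_pos hs, if_pos hs, if_pos]
          have hc : Commute z (s : G) :=
            commute_of_mem (H := Subgroup.centralizer ({z} : Set G)) rfl s.2
          have h4 : IsPPart p (z * (s : G)) z := pPart_of_mul hc hz (by rwa [Subgroup.orderOf_coe])
          by_contra h5
          exact hz1 ((pPart_regular_iff hp h4).mp h5)
        · rw [if_neg hs, if_neg hs]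
    · exact ⟨0, by rw [if_neg hz, Nat.cast_zero]⟩
  choose n hn using h3
  have h4 : ∑ g : G, (if p ∣ orderOf g then f g else 0) = ∑ z, (n z : ℂ) := by
    rw [sum_section hp]
    exact Finset.sum_congr rfl fun z _ => hn z
  have h5 : ∑ g : G, f g = (∑ g : G, if ¬ p ∣ orderOf g then f g else 0) +
      ∑ g : G, (if p ∣ orderOf g then f g else 0) := by
    rw [← Finset.sum_add_distrib]
    refine Finset.sum_congr rfl fun g _ => ?_
    by_cases hg : p ∣ orderOf g <;> simp [hg]
  rw [h1, ← h2, h4] at h5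
  have h6 : Nat.card G * ((bF B).filter fun χ : IrrCharacter G => ∀ g, (χ : G → ℂ) (g ^ k) = (χ : G → ℂ) g).card =
      Nat.card G * blockRank p B + ∑ z, n z := by
    exact_mod_cast h5
  have h7 : Nat.card G * blockRank p B ≤
      Nat.card G * ((bF B).filter fun χ : IrrCharacter G => ∀ g, (χ : G → ℂ) (g ^ k) = (χ : G → ℂ) g).card := by
    rw [h6]
    exact Nat.le_add_right _ _
  exact Nat.le_of_mul_le_mul_left h7 Nat.card_pos

/-- The generator of the relevant Galois group. -/
theorem exists_gen (hp : p.Prime) (hodd : p ≠ 2) {n : ℕ} (hn : n ≠ 0) :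
    ∃ k : ℕ, Nat.Coprime k n ∧ k ≡ 1 [MOD n / p ^ n.factorization p] ∧
      ∀ k' : ℕ, Nat.Coprime k' n → k' ≡ 1 [MOD n / p ^ n.factorization p] →
        ∃ j : ℕ, k' ≡ k ^ j [MOD n] := by
  set a := n.factorization p with ha
  set m := n / p ^ a with hm
  have hnm : p ^ a * m = n := Nat.ordProj_mul_ordCompl_eq_self n p
  have hcop : Nat.Coprime (p ^ a) m := Nat.Coprime.pow_left a (Nat.coprime_ordCompl hp hn)
  haveI : Fact p.Prime := ⟨hp⟩
  haveI : NeZero (p ^ a) := ⟨pow_ne_zero _ hp.ne_zero⟩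
  haveI : IsCyclic (ZMod (p ^ a))ˣ := ZMod.isCyclic_units_of_prime_pow p hp hodd a
  obtain ⟨γ, hγ⟩ := IsCyclic.exists_generator (α := (ZMod (p ^ a))ˣ)
  let c := Nat.chineseRemainder hcop ((γ : ZMod (p ^ a)).val) 1
  have hc1 : (c : ℕ) ≡ (γ : ZMod (p ^ a)).val [MOD p ^ a] := c.2.1
  have hc2 : (c : ℕ) ≡ 1 [MOD m] := c.2.2
  have hcγ : ((c : ℕ) : ZMod (p ^ a)) = (γ : ZMod (p ^ a)) := by
    rw [(ZMod.natCast_eq_natCast_iff _ _ _).2 hc1, ZMod.natCast_zmod_val]
  have hcop1 : Nat.Coprime (c : ℕ) (p ^ a) := by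
    rw [← ZMod.isUnit_iff_coprime, hcγ]
    exact γ.isUnit
  have hcop2 : Nat.Coprime (c : ℕ) m := by
    have := hc2.gcd_eq
    rw [Nat.gcd_one_left] at this
    exact this
  refine ⟨c, ?_, hc2, ?_⟩
  · rw [← hnm]
    exact Nat.Coprime.mul_right hcop1 hcop2
  · intro k' hk' hk'1
    have hk'p : Nat.Coprime k' (p ^ a) := by
      rw [← hnm] at hk'
      exact Nat.Coprime.coprime_mul_right_right hk'
    obtain ⟨u, hu⟩ := (ZMod.isUnit_iff_coprime k' (p ^ a)).2 hk'p
    obtain ⟨j, hj⟩ := (mem_powers_iff_mem_zpowers).2 (hγ u)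
    refine ⟨j, ?_⟩
    rw [← hnm, ← Nat.modEq_and_modEq_iff_modEq_mul hcop]
    constructor
    · rw [← ZMod.natCast_eq_natCast_iff]
      push_cast
      rw [hcγ, ← hu, ← hj]
      simp
    · calc k' ≡ 1 [MOD m] := hk'1
        _ = 1 ^ j := by simp
        _ ≡ (c : ℕ) ^ j [MOD m] := (hc2.pow j).symm

/-- **The number of `p`-rational characters of a block.** -/
theorem main (hodd : p ≠ 2) (hMp : IsPModular p M) {B : Set (IrrCharacter G)} (hB : IsPBlock M B) :
    blockRank p B ≤ Nat.card {χ : IrrCharacter G // χ ∈ B ∧ ∀ k : ℕ, Nat.Coprime k (Nat.card G) →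
      k ≡ 1 [MOD Nat.card G / p ^ (Nat.card G).factorization p] →
        ∀ g : G, (χ : G → ℂ) (g ^ k) = (χ : G → ℂ) g} := by
  have hp := hMp.1
  have hn : Nat.card G ≠ 0 := Nat.card_pos.ne'
  obtain ⟨k, hk1, hk2, hk3⟩ := exists_gen hp hodd hn
  have hreg : ∀ s : G, ¬ p ∣ orderOf s → s ^ k = s := by
    intro s hs
    have h1 : orderOf s ∣ Nat.card G / p ^ (Nat.card G).factorization p := by
      have h2 : orderOf s ∣ Nat.card G := orderOf_dvd_natCard s
      have h3 := Nat.ordProj_mul_ordCompl_eq_self (Nat.card G) p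
      rw [← h3] at h2
      refine Nat.Coprime.dvd_of_dvd_mul_left ?_ h2
      exact Nat.Coprime.pow_right _ ((Nat.Prime.coprime_iff_not_dvd hp).2 hs).symm
    have h4 : k ≡ 1 [MOD orderOf s] := hk2.of_dvd h1
    have h5 := (pow_eq_pow_iff_modEq (x := s)).2 h4
    rwa [pow_one] at h5
  have h1 := rank_le_fix hMp hB hk1.symm hreg
  rw [Nat.card_eq_fintype_card, Fintype.card_subtype]
  refine h1.trans (Finset.card_le_card ?_)
  intro χ hχ
  obtain ⟨hχ1, hχ2⟩ := Finset.mem_filter.1 hχ
  refine Finset.mem_filter.2 ⟨Finset.mem_univ _, ?_, ?_⟩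
  · simpa [bF] using hχ1
  · intro k' hk'1 hk'2 g
    obtain ⟨j, hj⟩ := hk3 k' hk'1 hk'2
    have h2 : g ^ k' = g ^ (k ^ j) :=
      (pow_eq_pow_iff_modEq (x := g)).2 (hj.of_dvd (orderOf_dvd_natCard g))
    have hpow : ∀ (j : ℕ) (g : G), (χ : G → ℂ) (g ^ (k ^ j)) = (χ : G → ℂ) g := by
      intro j
      induction j with
      | zero => intro g; simp
      | succ j ih =>
        intro g
        rw [pow_succ, pow_mul, hχ2]
        exact ih g
    rw [h2, hpow]

end Main

end Cfsg.Agent.Lib.H59Rat
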