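import Mathlib
import Cfsg.Agent.Lib.BGFree3
import Cfsg.Agent.Lib.BGP2A
import Cfsg.Agent.Lib.CoprimeIndexP
import Cfsg.Agent.Lib.CoprimeInv
import Cfsg.Agent.Lib.BGTau4

/-!
# Frobenius type actions on `q`-groups: section counts with a general base
-/

set_option autoImplicit false
set_option linter.unusedSectionVars false
set_option linter.unusedVariables false
set_option linter.style.haveILetI false
set_option linter.unusedSimpArgs false
set_option linter.unusedDecidableInType false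
set_option linter.unusedFintypeInType false

namespace Cfsg.Agent.Lib.H6F1

open Module Cfsg Cfsg.Agent.Lib.BGSec Cfsg.Agent.Lib.BGFree Cfsg.Agent.Lib.BGFree3 Cfsg.Agent.Lib.Glauberman
open Cfsg.Agent.Lib.CoprimeInv

open scoped commutatorElement

universe u

section Count

variable {X : Type u} [Group X] [Finite X]

/-- The section count for a general pair `C ≤ A`. -/
theorem sec_count_gen (ℓ : ℕ) [Fact ℓ.Prime] (A C Γ T : Subgroup X) (hCA : C ≤ A)
    (hab : ∀ a ∈ A, ∀ b ∈ A, a * b * a⁻¹ * b⁻¹ ∈ C) (hpow : ∀ a ∈ A, a ^ ℓ ∈ C)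
    (hΓA : ∀ g ∈ Γ, ∀ a ∈ A, g * a * g⁻¹ ∈ A) (hΓC : ∀ g ∈ Γ, ∀ a ∈ C, g * a * g⁻¹ ∈ C)
    (hTΓ : T ≤ Γ) {x : X} (hxΓ : x ∈ Γ) (hsolvT : Group.IsSolvable T)
    (hcopT : (Nat.card T).Coprime (Nat.card A)) (hcopx : (orderOf x).Coprime (Nat.card A))
    (hℓA : ℓ ∣ Nat.card A)
    (hCT : ∀ a ∈ A, a ∈ Subgroup.centralizer (T : Set X) → a ∈ C)
    (hxT : ∀ t ∈ T, x * t * x⁻¹ ∈ T)
    (hfpf : ∀ i, 0 < i → i < orderOf x → ∀ t ∈ T, x ^ i * t = t * x ^ i → t = 1) :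
    ∃ n : ℕ, Nat.card ↥(A ⊓ Subgroup.centralizer ({x} : Set X)) =
        Nat.card ↥(C ⊓ Subgroup.centralizer ({x} : Set X)) * n ∧
      Nat.card A = Nat.card C * n ^ orderOf x := by
  classical
  obtain ⟨V, i1, i2, i3, f, ρ, hsurj, hadd, hker, hact⟩ := exists_sec ℓ A C Γ hCA hab hpow hΓA hΓC
  have hℓ : ℓ.Prime := Fact.out
  have hmpos : 0 < orderOf x := orderOf_pos x
  have hℓm : ¬ ℓ ∣ orderOf x := fun h => hℓ.one_lt.ne' (Nat.eq_one_of_dvd_coprimes hcopx h hℓA)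
  have hℓT : ¬ ℓ ∣ Nat.card T := fun h => hℓ.one_lt.ne' (Nat.eq_one_of_dvd_coprimes hcopT h hℓA)
  have hmF : ((orderOf x : ℕ) : ZMod ℓ) ≠ 0 := by
    rw [Ne, ZMod.natCast_eq_zero_iff]
    exact hℓm
  have hf1 : f 1 = 0 := by
    have := hadd 1 1
    rw [mul_one] at this
    exact left_eq_add.mp this
  have hfinv : ∀ a, f a⁻¹ = - f a := by
    intro a
    have := hadd a a⁻¹
    rw [mul_inv_cancel, hf1] at this
    exact (neg_eq_of_add_eq_zero_right this.symm).symm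
  -- fixed vectors lift to fixed elements
  have hN1 : A ≤ Subgroup.normalizer ((C : Subgroup X) : Set X) := by
    rw [Subgroup.le_normalizer_iff]
    intro a ha c hc
    have h1 : a * c * a⁻¹ * c⁻¹ ∈ C := hab a ha c (hCA hc)
    have h2 : a * c * a⁻¹ = (a * c * a⁻¹ * c⁻¹) * c := by group
    rw [h2]
    exact C.mul_mem h1 hc
  have hcoset : ∀ (Y : Subgroup X) (hYΓ : Y ≤ Γ), (Nat.card Y).Coprime (Nat.card A) → Group.IsSolvable Y →
      ∀ a : ↥A, (∀ (y : X) (hy : y ∈ Y), ((ρ ⟨y, hYΓ hy⟩ : (Module.End (ZMod ℓ) V)ˣ) : Module.End (ZMod ℓ) V) (f a) = f a) →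
      ∃ c : ↥A, (c : X) ∈ Subgroup.centralizer (Y : Set X) ∧ f c = f a := by
    intro Y hYΓ hcop hsolv a hfix
    have hN2 : Y ≤ Subgroup.normalizer ((C : Subgroup X) : Set X) := by
      rw [Subgroup.le_normalizer_iff]
      intro h hh k hk
      exact hΓC h (hYΓ hh) k hk
    have hfix' : ∀ y ∈ Y, y * (a : X) * y⁻¹ * (a : X)⁻¹ ∈ C := by
      intro y hy
      have h1 := hfix y hy
      rw [hact] at h1
      have h2 : (y * (a : X) * y⁻¹ * (a : X)⁻¹) = (((⟨y * (a : X) * y⁻¹, hΓA y (hYΓ hy) a a.2⟩ : ↥A) * a⁻¹ : ↥A) : X) := rfl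
      rw [h2, ← hker, hadd, hfinv]
      have h3 : f ⟨y * (a : X) * y⁻¹, hΓA y (hYΓ hy) a a.2⟩ = f a := h1
      rw [h3, add_neg_cancel]
    obtain ⟨c, hc, hac⟩ := exists_mem_centralizer_of_coset_fixed (A := Y) (K := A) (N := C) hcop (Or.inl hsolv)
      hCA hN1 hN2 (a : X) a.2 hfix'
    obtain ⟨hcA, hcC⟩ := Subgroup.mem_inf.mp hc
    refine ⟨⟨c, hcA⟩, hcC, ?_⟩
    have h4 : f (a⁻¹ * ⟨c, hcA⟩) = 0 := (hker _).mpr hac
    rw [hadd, hfinv] at h4
    exact (neg_add_eq_zero.mp h4).symm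
  let x' : (Module.End (ZMod ℓ) V)ˣ := ρ ⟨x, hxΓ⟩
  let g : ↥T →* (Module.End (ZMod ℓ) V)ˣ := ρ.comp (Subgroup.inclusion hTΓ)
  haveI hfinT : Finite g.range := Finite.of_surjective g.rangeRestrict g.rangeRestrict_surjective
  have hcT : (Nat.card g.range : ZMod ℓ) ≠ 0 := by
    rw [Ne, ZMod.natCast_eq_zero_iff]
    intro h
    exact hℓT (h.trans (Subgroup.card_range_dvd g))
  have hsolvT' : Group.IsSolvable g.range :=
    Group.isSolvable_of_surjective (f := g.rangeRestrict) g.rangeRestrict_surjective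
  have hxpow : x' ^ (orderOf x) = 1 := by
    have h1 : (⟨x, hxΓ⟩ : ↥Γ) ^ (orderOf x) = 1 := Subtype.ext (by simp [pow_orderOf_eq_one])
    show (ρ ⟨x, hxΓ⟩) ^ (orderOf x) = 1
    rw [← map_pow, h1, map_one]
  have hxT' : ∀ t ∈ g.range, x' * t * x'⁻¹ ∈ g.range := by
    rintro _ ⟨k, rfl⟩
    refine ⟨⟨x * k * x⁻¹, hxT k k.2⟩, ?_⟩
    have e : Subgroup.inclusion hTΓ ⟨x * k * x⁻¹, hxT k k.2⟩ = ⟨x, hxΓ⟩ * Subgroup.inclusion hTΓ k * (⟨x, hxΓ⟩ : ↥Γ)⁻¹ := rfl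
    show ρ (Subgroup.inclusion hTΓ ⟨x * k * x⁻¹, hxT k k.2⟩) = _
    rw [e, map_mul, map_mul, map_inv]
    rfl
  have hfpfT : ∀ i, 0 < i → i < orderOf x → ∀ t ∈ g.range, x' ^ i * t = t * x' ^ i → t = 1 := by
    rintro i hi0 him _ ⟨k, rfl⟩ hc
    have hzΓ : x ^ i ∈ Γ := Γ.pow_mem hxΓ i
    have e : ρ ⟨x ^ i, hzΓ⟩ = x' ^ i := by
      have : (⟨x ^ i, hzΓ⟩ : ↥Γ) = (⟨x, hxΓ⟩ : ↥Γ) ^ i := rfl
      rw [this, map_pow]
    exact fpf_image hTΓ ρ hzΓ (Cfsg.Agent.Lib.BGAb.conj_pow_mem' x hxT i) (hfpf i hi0 him) k.2 (by rw [e]; exact hc)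
  have hCT' : ∀ v : V, (∀ t ∈ g.range, (t : Module.End (ZMod ℓ) V) v = v) → v = 0 := by
    intro v hv
    obtain ⟨a, rfl⟩ := hsurj v
    obtain ⟨c, hc, hfc⟩ := hcoset T hTΓ hcopT hsolvT a (fun y hy => hv _ ⟨⟨y, hy⟩, rfl⟩)
    have h1 := hCT c c.2 hc
    rw [← hfc]
    exact (hker c).mpr h1
  have hft := ft g.range x' hmpos hmF hxpow hsolvT' hcT hxT' hfpfT hCT'
  -- counting
  have h1 := card_eq_of_surj f hadd hsurj (C.subgroupOf A)
    (fun a => by rw [hker, Subgroup.mem_subgroupOf])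
  rw [Nat.card_congr (Subgroup.subgroupOfEquivOfLe hCA).toEquiv] at h1
  let K₀ := LinearMap.ker ((x' : Module.End (ZMod ℓ) V) - 1)
  have hfixC : ∀ (a : ↥A), (a : X) ∈ Subgroup.centralizer ({x} : Set X) → f a ∈ K₀ := by
    intro a ha
    rw [LinearMap.mem_ker, LinearMap.sub_apply, sub_eq_zero, Module.End.one_apply]
    show ((ρ ⟨x, hxΓ⟩ : (Module.End (ZMod ℓ) V)ˣ) : Module.End (ZMod ℓ) V) (f a) = f a
    rw [hact]
    congr 1
    apply Subtype.ext
    show x * (a : X) * x⁻¹ = a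
    have h2 : (a : X) * x⁻¹ = x⁻¹ * a := by
      have h3 := Subgroup.mem_centralizer_iff.mp ha x rfl
      calc (a : X) * x⁻¹ = x⁻¹ * (x * a) * x⁻¹ := by group
        _ = x⁻¹ * (a * x) * x⁻¹ := by rw [h3]
        _ = x⁻¹ * a := by group
    rw [mul_assoc, h2]
    group
  let φ : ↥(A ⊓ Subgroup.centralizer ({x} : Set X)) → ↥K₀ := fun a =>
    ⟨f ⟨a, (Subgroup.mem_inf.mp a.2).1⟩, hfixC _ (Subgroup.mem_inf.mp a.2).2⟩
  have hcopz : (Nat.card (Subgroup.zpowers x)).Coprime (Nat.card A) := by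
    rw [Nat.card_zpowers]
    exact hcopx
  have hfix_zpow : ∀ v : V, ((ρ ⟨x, hxΓ⟩ : (Module.End (ZMod ℓ) V)ˣ) : Module.End (ZMod ℓ) V) v = v →
      ∀ (z : X) (hz : z ∈ Subgroup.zpowers x),
      ((ρ ⟨z, Subgroup.zpowers_le.mpr hxΓ hz⟩ : (Module.End (ZMod ℓ) V)ˣ) : Module.End (ZMod ℓ) V) v = v := by
    intro v hv z hz
    obtain ⟨n, rfl⟩ := Subgroup.mem_zpowers_iff.mp hz
    have e : (⟨x ^ n, Subgroup.zpowers_le.mpr hxΓ hz⟩ : ↥Γ) = (⟨x, hxΓ⟩ : ↥Γ) ^ n := rfl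
    rw [e, map_zpow]
    have h1 : ρ ⟨x, hxΓ⟩ ∈ fixS (Submodule.span (ZMod ℓ) {v}) := by
      rw [mem_fixS]
      intro u hu
      obtain ⟨c, rfl⟩ := Submodule.mem_span_singleton.mp hu
      rw [map_smul, hv]
    exact (Subgroup.zpow_mem _ h1 n) v (Submodule.mem_span_singleton_self v)
  have hφs : Function.Surjective φ := by
    rintro ⟨v, hv⟩
    obtain ⟨a, rfl⟩ := hsurj v
    have hv' : ((ρ ⟨x, hxΓ⟩ : (Module.End (ZMod ℓ) V)ˣ) : Module.End (ZMod ℓ) V) (f a) = f a := by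
      have := LinearMap.mem_ker.mp hv
      rwa [LinearMap.sub_apply, sub_eq_zero, Module.End.one_apply] at this
    obtain ⟨c, hc, hfc⟩ := hcoset (Subgroup.zpowers x) (Subgroup.zpowers_le.mpr hxΓ) hcopz
      (by
        haveI : IsCyclic (Subgroup.zpowers x) := inferInstance
        infer_instance) a (fun y hy => hfix_zpow _ hv' y hy)
    have hc2 : (c : X) ∈ Subgroup.centralizer ({x} : Set X) := by
      refine Subgroup.centralizer_le ?_ hc
      intro y hy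
      rw [Set.mem_singleton_iff] at hy
      rw [hy]
      exact Subgroup.mem_zpowers x
    refine ⟨⟨c, Subgroup.mem_inf.mpr ⟨c.2, hc2⟩⟩, ?_⟩
    apply Subtype.ext
    exact hfc
  have h2 := card_eq_of_surj φ (fun a b => by
      apply Subtype.ext
      exact hadd ⟨a, (Subgroup.mem_inf.mp a.2).1⟩ ⟨b, (Subgroup.mem_inf.mp b.2).1⟩) hφs
    ((C ⊓ Subgroup.centralizer ({x} : Set X)).subgroupOf (A ⊓ Subgroup.centralizer ({x} : Set X)))
    (by
      intro a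
      rw [Subgroup.mem_subgroupOf, Subgroup.mem_inf]
      constructor
      · intro h
        have h3 : f ⟨a, (Subgroup.mem_inf.mp a.2).1⟩ = 0 := congrArg Subtype.val h
        exact ⟨(hker _).mp h3, (Subgroup.mem_inf.mp a.2).2⟩
      · rintro ⟨h3, -⟩
        apply Subtype.ext
        exact (hker _).mpr h3)
  rw [Nat.card_congr (Subgroup.subgroupOfEquivOfLe (inf_le_inf_right _ hCA)).toEquiv] at h2
  have hV : Nat.card V = Nat.card ↥K₀ ^ orderOf x := by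
    rw [natCard_pow (ℓ := ℓ), natCard_pow (ℓ := ℓ) (V := ↥K₀), hft, ← pow_mul, mul_comm]
  exact ⟨Nat.card ↥K₀, h2, by rw [h1, hV]⟩

/-- `[A, P]` is proper in `A`, for `P` nilpotent. -/
theorem commutator_ne_of_nilpotent {A P : Subgroup X} (hAP : A ≤ P) (hP : Group.IsNilpotent P)
    (hA : A ≠ ⊥) : ⁅A, P⁆ ≠ A := by
  intro he
  have key : ∀ n, A ≤ P.lowerCentralSeries n := by
    intro n
    induction n with
    | zero => exact hAP
    | succ n ih =>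
      rw [← he, Subgroup.lowerCentralSeries_succ]
      exact Subgroup.commutator_mono ih le_rfl
  obtain ⟨n, hn⟩ := (Subgroup.isNilpotent_iff_lowerCentralSeries P).mp hP
  have h2 := key n
  rw [hn] at h2
  exact hA (le_bot_iff.mp h2)

/-- The Frattini type quotient of a normal subgroup of a `q`-group. -/
theorem comm_sup_secG_ne {q : ℕ} [Fact q.Prime] {A P : Subgroup X} (hP : IsPGroup q P) (hAP : A ≤ P)
    (hPA : P ≤ Subgroup.normalizer (A : Set X)) (hA : A ≠ ⊥) : ⁅A, P⁆ ⊔ secG q A ≠ A := by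
  classical
  intro he
  have hnil : Group.IsNilpotent P := hP.isNilpotent
  have hne := commutator_ne_of_nilpotent hAP hnil hA
  have hle : ⁅A, P⁆ ≤ A := commutator_le_of_le_normalizer hPA
  let N : Subgroup ↥A := (⁅A, P⁆ : Subgroup X).subgroupOf A
  have hmemN : ∀ a : ↥A, a ∈ N ↔ (a : X) ∈ (⁅A, P⁆ : Subgroup X) := fun a => Subgroup.mem_subgroupOf
  haveI hN : N.Normal := by
    refine (Subgroup.normal_subgroupOf_iff_le_normalizer hle).mpr ?_
    exact hAP.trans (Cfsg.Agent.Lib.BGTau4.le_normalizer_comm_right A P)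
  have hA' : IsPGroup q ↥A := hP.to_le hAP
  have hQ : IsPGroup q (↥A ⧸ N) := hA'.to_quotient N
  haveI : Finite (↥A ⧸ N) := inferInstance
  have hbot : (⊤ : Subgroup (↥A ⧸ N)) ≠ ⊥ := by
    intro h
    apply hne
    refine le_antisymm hle ?_
    intro a ha
    have h1 : ((⟨a, ha⟩ : ↥A) : ↥A ⧸ N) ∈ (⊤ : Subgroup (↥A ⧸ N)) := Subgroup.mem_top _
    rw [h, Subgroup.mem_bot] at h1
    exact (hmemN _).mp ((QuotientGroup.eq_one_iff _).mp h1)
  have hnil' : Group.IsNilpotent (⊤ : Subgroup (↥A ⧸ N)) := (hQ.to_subgroup ⊤).isNilpotent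
  obtain ⟨ℓ, hℓ, hdvd, hne2⟩ := exists_secG_ne (⊤ : Subgroup (↥A ⧸ N)) hnil' hbot
  have hℓq : ℓ = q := by
    have h2 : ℓ ∣ Nat.card (↥A ⧸ N) := by
      rwa [Subgroup.card_top] at hdvd
    obtain ⟨m, hm⟩ := IsPGroup.iff_card.mp hQ
    rw [hm] at h2
    exact (Nat.prime_dvd_prime_iff_eq hℓ (Fact.out)).mp (hℓ.dvd_of_dvd_pow h2)
  subst hℓq
  apply hne2
  rw [eq_top_iff]
  rintro y -
  obtain ⟨a, rfl⟩ := QuotientGroup.mk_surjective y
  have hle2 : ⁅A, P⁆ ⊔ secG ℓ A ≤ ((secG ℓ (⊤ : Subgroup (↥A ⧸ N))).comap (QuotientGroup.mk' N)).map A.subtype := by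
    refine sup_le ?_ ?_
    · intro c hc
      refine ⟨⟨c, hle hc⟩, ?_, rfl⟩
      have h3 : (QuotientGroup.mk' N) ⟨c, hle hc⟩ = 1 := (QuotientGroup.eq_one_iff _).mpr ((hmemN _).mpr hc)
      rw [SetLike.mem_coe, Subgroup.mem_comap, h3]
      exact one_mem _
    · rw [secG, Subgroup.closure_le]
      rintro c (⟨a, ha, b, hb, rfl⟩ | ⟨a, ha, rfl⟩)
      · refine ⟨⟨a, ha⟩ * ⟨b, hb⟩ * (⟨a, ha⟩ : ↥A)⁻¹ * (⟨b, hb⟩ : ↥A)⁻¹, ?_, rfl⟩
        rw [SetLike.mem_coe, Subgroup.mem_comap, map_mul, map_mul, map_mul, map_inv, map_inv]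
        exact comm_mem_secG (Subgroup.mem_top _) (Subgroup.mem_top _)
      · refine ⟨(⟨a, ha⟩ : ↥A) ^ ℓ, ?_, rfl⟩
        rw [SetLike.mem_coe, Subgroup.mem_comap, map_pow]
        exact pow_mem_secG (Subgroup.mem_top _)
  have h4 : (a : X) ∈ ⁅A, P⁆ ⊔ secG ℓ A := by
    rw [he]
    exact a.2
  obtain ⟨a₁, ha₁, he₁⟩ := hle2 h4
  have h5 : a₁ = a := Subtype.ext he₁
  subst h5
  exact ha₁

end Count

section Norm

variable {X : Type u} [Group X]

theorem mem_norm_sup {g : X} {A B : Subgroup X} (hA : g ∈ Subgroup.normalizer (A : Set X))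
    (hB : g ∈ Subgroup.normalizer (B : Set X)) : g ∈ Subgroup.normalizer ((A ⊔ B : Subgroup X) : Set X) := by
  rw [Subgroup.mem_normalizer_iff_map_conj_eq] at *
  rw [Subgroup.map_sup, hA, hB]

theorem mem_norm_inf {g : X} {A B : Subgroup X} (hA : g ∈ Subgroup.normalizer (A : Set X))
    (hB : g ∈ Subgroup.normalizer (B : Set X)) : g ∈ Subgroup.normalizer ((A ⊓ B : Subgroup X) : Set X) := by
  rw [Subgroup.mem_normalizer_iff] at *
  intro h
  rw [Subgroup.mem_inf, Subgroup.mem_inf, hA h, hB h]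

theorem mem_norm_comm {g : X} {A B : Subgroup X} (hA : g ∈ Subgroup.normalizer (A : Set X))
    (hB : g ∈ Subgroup.normalizer (B : Set X)) : g ∈ Subgroup.normalizer ((⁅A, B⁆ : Subgroup X) : Set X) := by
  rw [Subgroup.mem_normalizer_iff_map_conj_eq] at *
  rw [Subgroup.map_commutator, hA, hB]

theorem mem_norm_centralizer {g : X} {A : Subgroup X} (hA : g ∈ Subgroup.normalizer (A : Set X)) :
    g ∈ Subgroup.normalizer ((Subgroup.centralizer (A : Set X) : Subgroup X) : Set X) := by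
  have key : ∀ g : X, g ∈ Subgroup.normalizer (A : Set X) → ∀ h ∈ Subgroup.centralizer (A : Set X),
      g * h * g⁻¹ ∈ Subgroup.centralizer (A : Set X) := by
    intro g hg h hh
    rw [Subgroup.mem_centralizer_iff]
    intro a ha
    have h1 : g⁻¹ * a * g ∈ A := by
      have := (Subgroup.mem_normalizer_iff.mp (Subgroup.inv_mem _ hg) a).mp ha
      simpa using this
    have h2 := Subgroup.mem_centralizer_iff.mp hh _ h1
    calc a * (g * h * g⁻¹) = g * ((g⁻¹ * a * g) * h) * g⁻¹ := by group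
      _ = g * (h * (g⁻¹ * a * g)) * g⁻¹ := by rw [h2]
      _ = _ := by group
  rw [Subgroup.mem_normalizer_iff]
  intro h
  constructor
  · intro hh
    exact key g hA h hh
  · intro hh
    have h1 := key g⁻¹ (Subgroup.inv_mem _ hA) _ hh
    simpa [mul_assoc] using h1

theorem mem_norm_secG {ℓ : ℕ} {g : X} {A : Subgroup X} (hA : g ∈ Subgroup.normalizer (A : Set X)) :
    g ∈ Subgroup.normalizer ((secG ℓ A : Subgroup X) : Set X) := by
  have hconj : ∀ g : X, g ∈ Subgroup.normalizer (A : Set X) → ∀ c ∈ secG ℓ A, g * c * g⁻¹ ∈ secG ℓ A := by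
    intro g hg c hc
    exact secG_conj (fun a ha => (Subgroup.mem_normalizer_iff.mp hg a).mp ha) c hc
  rw [Subgroup.mem_normalizer_iff]
  intro h
  constructor
  · intro hh
    exact hconj g hA h hh
  · intro hh
    have h1 := hconj g⁻¹ (Subgroup.inv_mem _ hA) _ hh
    simpa [mul_assoc] using h1

theorem conj_mem_of_le {K A : Subgroup X} (h : K ≤ Subgroup.normalizer (A : Set X)) {g a : X} (hg : g ∈ K) (ha : a ∈ A) :
    g * a * g⁻¹ ∈ A :=
  (Subgroup.mem_normalizer_iff.mp (h hg) a).mp ha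

end Norm

end Cfsg.Agent.Lib.H6F1
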