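import Mathlib
import Cfsg.Agent.Lib.H6F1

/-!
# A Frobenius pair acting on a `q`-group with a fixed subgroup of order `q`
-/

set_option autoImplicit false
set_option linter.unusedSectionVars false
set_option linter.unusedVariables false
set_option linter.style.haveILetI false
set_option linter.unusedSimpArgs false
set_option linter.unusedDecidableInType false
set_option linter.unusedFintypeInType false

namespace Cfsg.Agent.Lib.H6F2

open Subgroup Cfsg.Agent.Lib.BGFree3 Cfsg.Agent.Lib.Glauberman Cfsg.Agent.Lib.CoprimeInv Cfsg.Agent.Lib.H6F1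

open scoped commutatorElement

universe u

variable {X : Type u} [Group X] [Finite X]

/-- The hypotheses of the abstract count. -/
structure FrobSetup (q : ℕ) (Q D K Ks : Subgroup X) : Prop where
  hQ : IsPGroup q Q
  hDQ : D ≤ normalizer (Q : Set X)
  hKQ : K ≤ normalizer (Q : Set X)
  hKD : K ≤ normalizer (D : Set X)
  hcopD : (Nat.card D).Coprime q
  hcopK : (Nat.card K).Coprime q
  hsolvD : Group.IsSolvable D
  hfree : ∀ k ∈ K, k ≠ 1 → ∀ d ∈ D, k * d = d * k → d = 1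
  hfix : ∀ k ∈ K, k ≠ 1 → Q ⊓ centralizer ({k} : Set X) = Ks
  hKs : Nat.card Ks = q
  hKc : IsCyclic K
  hK1 : K ≠ ⊥
  hne : ¬ Q ≤ centralizer (D : Set X)

theorem prime_eq_of_pgroup {q ℓ : ℕ} [Fact q.Prime] {A : Subgroup X} (hA : IsPGroup q A) (hℓ : ℓ.Prime)
    (hd : ℓ ∣ Nat.card A) : ℓ = q := by
  obtain ⟨m, hm⟩ := IsPGroup.iff_card.mp hA
  rw [hm] at hd
  exact (Nat.prime_dvd_prime_iff_eq hℓ Fact.out).mp (hℓ.dvd_of_dvd_pow hd)

theorem secG_ne_of_pgroup {q : ℕ} [Fact q.Prime] {A : Subgroup X} (hA : IsPGroup q A) (h1 : A ≠ ⊥) :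
    secG q A ≠ A := by
  obtain ⟨ℓ, hℓ, hd, hne⟩ := exists_secG_ne A hA.isNilpotent h1
  have := prime_eq_of_pgroup hA hℓ hd
  subst this
  exact hne

theorem prime_dvd_of_pgroup {q : ℕ} [Fact q.Prime] {A : Subgroup X} (hA : IsPGroup q A) (h1 : A ≠ ⊥) :
    q ∣ Nat.card A := by
  obtain ⟨m, hm⟩ := IsPGroup.iff_card.mp hA
  rw [hm]
  have hm0 : m ≠ 0 := by
    rintro rfl
    rw [pow_zero] at hm
    exact h1 (Subgroup.card_eq_one.mp hm)
  exact dvd_pow_self q hm0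

theorem cop_of_pgroup {q m : ℕ} [Fact q.Prime] {A : Subgroup X} (hA : IsPGroup q A) (hm : m.Coprime q) :
    m.Coprime (Nat.card A) := by
  obtain ⟨e, he⟩ := IsPGroup.iff_card.mp hA
  rw [he]
  exact Nat.Coprime.pow_right _ hm

namespace FrobSetup

variable {q : ℕ} [Fact q.Prime] {Q D K Ks : Subgroup X} (S : FrobSetup q Q D K Ks)

include S

theorem exists_k : ∃ k ∈ K, k ≠ 1 := by
  by_contra h
  push Not at h
  exact S.hK1 (eq_bot_iff.mpr fun a ha => h a ha)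

theorem count {A C : Subgroup X} (hAQ : A ≤ Q) (hCA : C ≤ A) (hne : C ≠ A)
    (hab : ∀ a ∈ A, ∀ b ∈ A, a * b * a⁻¹ * b⁻¹ ∈ C) (hpow : ∀ a ∈ A, a ^ q ∈ C)
    (hKA : K ≤ normalizer (A : Set X)) (hDA : D ≤ normalizer (A : Set X))
    (hKC : K ≤ normalizer (C : Set X)) (hDC : D ≤ normalizer (C : Set X))
    (hCT : ∀ a ∈ A, a ∈ centralizer (D : Set X) → a ∈ C) {k : X} (hk : k ∈ K) (hk1 : k ≠ 1) :
    ∃ n : ℕ, 1 < n ∧ Nat.card ↥(A ⊓ centralizer ({k} : Set X)) = Nat.card ↥(C ⊓ centralizer ({k} : Set X)) * n ∧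
      Nat.card A = Nat.card C * n ^ orderOf k := by
  have hAp : IsPGroup q A := S.hQ.to_le hAQ
  have hA1 : A ≠ ⊥ := by
    rintro rfl
    exact hne (le_bot_iff.mp hCA)
  have hqA : q ∣ Nat.card A := prime_dvd_of_pgroup hAp hA1
  have hok : orderOf k ∣ Nat.card K := by
    have := orderOf_dvd_natCard (⟨k, hk⟩ : ↥K)
    rwa [Subgroup.orderOf_mk] at this
  obtain ⟨n, h1, h2⟩ := sec_count_gen q A C (K ⊔ D) D hCA hab hpow
    (fun g hg a ha => conj_mem_of_le (sup_le hKA hDA) hg ha)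
    (fun g hg a ha => conj_mem_of_le (sup_le hKC hDC) hg ha)
    le_sup_right ((le_sup_left : K ≤ K ⊔ D) hk) S.hsolvD (cop_of_pgroup hAp S.hcopD)
    (cop_of_pgroup hAp (Nat.Coprime.coprime_dvd_left hok S.hcopK)) hqA hCT
    (fun t ht => conj_mem_of_le S.hKD hk ht)
    (fun i hi0 him t ht hc => S.hfree (k ^ i) (K.pow_mem hk i) (pow_ne_one_of_lt_orderOf hi0.ne' him) t ht hc)
  refine ⟨n, ?_, h1, h2⟩
  by_contra hn
  have hn2 : n = 0 ∨ n = 1 := by omega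
  rcases hn2 with rfl | rfl
  · have h3 : 0 < Nat.card ↥(A ⊓ centralizer ({k} : Set X)) := Nat.card_pos
    rw [h1, mul_zero] at h3
    exact lt_irrefl _ h3
  · rw [one_pow, mul_one] at h2
    exact hne (Subgroup.eq_of_le_of_card_ge hCA h2.le)

theorem exists_fixed {A C : Subgroup X} (hAQ : A ≤ Q) (hCA : C ≤ A) (hne : C ≠ A)
    (hab : ∀ a ∈ A, ∀ b ∈ A, a * b * a⁻¹ * b⁻¹ ∈ C) (hpow : ∀ a ∈ A, a ^ q ∈ C)
    (hKA : K ≤ normalizer (A : Set X)) (hDA : D ≤ normalizer (A : Set X))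
    (hKC : K ≤ normalizer (C : Set X)) (hDC : D ≤ normalizer (C : Set X))
    (hCT : ∀ a ∈ A, a ∈ centralizer (D : Set X) → a ∈ C) {k : X} (hk : k ∈ K) (hk1 : k ≠ 1) :
    ∃ c ∈ A, c ∈ centralizer ({k} : Set X) ∧ c ∉ C := by
  by_contra h
  push Not at h
  obtain ⟨n, hn, h1, -⟩ := S.count hAQ hCA hne hab hpow hKA hDA hKC hDC hCT hk hk1
  have hle : A ⊓ centralizer ({k} : Set X) ≤ C ⊓ centralizer ({k} : Set X) :=
    fun c hc => ⟨h c hc.1 hc.2, hc.2⟩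
  have h2 := Subgroup.card_le_of_le hle
  have h3 : 0 < Nat.card ↥(C ⊓ centralizer ({k} : Set X)) := Nat.card_pos
  rw [h1] at h2
  nlinarith

theorem Ks_le_of_fixed {A : Subgroup X} (hAQ : A ≤ Q) {c k : X} (hcA : c ∈ A) (hc1 : c ≠ 1)
    (hck : c ∈ centralizer ({k} : Set X)) (hk : k ∈ K) (hk1 : k ≠ 1) : Ks ≤ A := by
  have hcKs : c ∈ Ks := by
    rw [← S.hfix k hk hk1]
    exact ⟨hAQ hcA, hck⟩
  have hq : q.Prime := Fact.out
  have hI : Nat.card ↥(A ⊓ Ks) ∣ q := by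
    rw [← S.hKs]
    exact Subgroup.card_dvd_of_le inf_le_right
  have hI1 : Nat.card ↥(A ⊓ Ks) ≠ 1 := by
    intro h
    have h2 := Subgroup.card_eq_one.mp h
    have h3 : c ∈ A ⊓ Ks := ⟨hcA, hcKs⟩
    rw [h2] at h3
    exact hc1 h3
  have hI2 : Nat.card ↥(A ⊓ Ks) = q := ((Nat.dvd_prime hq).mp hI).resolve_left hI1
  have h4 : A ⊓ Ks = Ks := Subgroup.eq_of_le_of_card_ge inf_le_right (by rw [hI2, S.hKs])
  exact h4 ▸ inf_le_left

/-- Every invariant subgroup on which `D` acts nontrivially contains `Ks`. -/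
theorem key1 {B : Subgroup X} (hBQ : B ≤ Q) (hKB : K ≤ normalizer (B : Set X)) (hDB : D ≤ normalizer (B : Set X))
    (hB : ¬ B ≤ centralizer (D : Set X)) : Ks ≤ ⁅B, D⁆ := by
  have hAB : ⁅B, D⁆ ≤ B := commutator_le_of_le_normalizer hDB
  have hAQ : ⁅B, D⁆ ≤ Q := hAB.trans hBQ
  have hA1 : ⁅B, D⁆ ≠ ⊥ := by
    intro h
    rw [Subgroup.commutator_eq_bot_iff_le_centralizer] at h
    exact hB h
  have hAp : IsPGroup q ↥(⁅B, D⁆ : Subgroup X) := S.hQ.to_le hAQ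
  have hBp : IsPGroup q B := S.hQ.to_le hBQ
  have hAA : ⁅⁅B, D⁆, D⁆ = ⁅B, D⁆ :=
    commutator_commutator_eq hDB (cop_of_pgroup hBp S.hcopD) (Or.inl S.hsolvD)
  have hDA : D ≤ normalizer ((⁅B, D⁆ : Subgroup X) : Set X) := le_normalizer_commutator hDB
  have hKA : K ≤ normalizer ((⁅B, D⁆ : Subgroup X) : Set X) := fun g hg => mem_norm_comm (hKB hg) (S.hKD hg)
  have hsec := secG_ne_of_pgroup hAp hA1
  have hCT : ∀ a ∈ (⁅B, D⁆ : Subgroup X), a ∈ centralizer (D : Set X) → a ∈ secG q ⁅B, D⁆ := by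
    intro a ha hac
    have h1 := Cfsg.Agent.Lib.BGP2A.fixed_le_commutator hAp hDA S.hcopD hAA ⟨ha, hac⟩
    have h2 : (⁅⁅B, D⁆, ⁅B, D⁆⁆ : Subgroup X) ≤ secG q ⁅B, D⁆ := by
      rw [Subgroup.commutator_le]
      intro x hx y hy
      exact comm_mem_secG hx hy
    exact h2 h1
  obtain ⟨k, hk, hk1⟩ := S.exists_k
  obtain ⟨c, hcA, hck, hcC⟩ := S.exists_fixed hAQ (secG_le q _) hsec (fun a ha b hb => comm_mem_secG ha hb)
    (fun a ha => pow_mem_secG ha) hKA hDA (fun g hg => mem_norm_secG (hKA hg)) (fun g hg => mem_norm_secG (hDA hg))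
    hCT hk hk1
  refine S.Ks_le_of_fixed hAQ hcA ?_ hck hk hk1
  rintro rfl
  exact hcC (one_mem _)

theorem hDA1 : D ≤ normalizer ((⁅Q, D⁆ : Subgroup X) : Set X) := le_normalizer_commutator S.hDQ

theorem hKA1 : K ≤ normalizer ((⁅Q, D⁆ : Subgroup X) : Set X) := fun _ hg => mem_norm_comm (S.hKQ hg) (S.hKD hg)

theorem hQA1 : Q ≤ normalizer ((⁅Q, D⁆ : Subgroup X) : Set X) := Cfsg.Agent.Lib.BGTau4.le_normalizer_comm_left Q D

theorem hA1Q : ⁅Q, D⁆ ≤ Q := commutator_le_of_le_normalizer S.hDQ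

theorem hA1p : IsPGroup q ↥(⁅Q, D⁆ : Subgroup X) := S.hQ.to_le S.hA1Q

theorem hA1ne : ⁅Q, D⁆ ≠ ⊥ := by
  intro h
  rw [Subgroup.commutator_eq_bot_iff_le_centralizer] at h
  exact S.hne h

theorem hA1A1 : ⁅⁅Q, D⁆, D⁆ = ⁅Q, D⁆ :=
  commutator_commutator_eq S.hDQ (cop_of_pgroup S.hQ S.hcopD) (Or.inl S.hsolvD)

theorem hcomm_le : (⁅⁅Q, D⁆, ⁅Q, D⁆⁆ : Subgroup X) ≤ secG q ⁅Q, D⁆ := by
  rw [Subgroup.commutator_le]
  intro x hx y hy
  exact comm_mem_secG hx hy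

theorem hfix1 {a : X} (ha : a ∈ (⁅Q, D⁆ : Subgroup X)) (hac : a ∈ centralizer (D : Set X)) : a ∈ secG q ⁅Q, D⁆ :=
  S.hcomm_le (Cfsg.Agent.Lib.BGP2A.fixed_le_commutator S.hA1p S.hDA1 S.hcopD S.hA1A1 ⟨ha, hac⟩)

theorem count_A1 {k : X} (hk : k ∈ K) (hk1 : k ≠ 1) :
    secG q ⁅Q, D⁆ ⊓ centralizer ({k} : Set X) = ⊥ ∧ Nat.card ↥(⁅Q, D⁆ : Subgroup X) = Nat.card (secG q ⁅Q, D⁆) * q ^ orderOf k ∧
      Ks ≤ ⁅Q, D⁆ := by
  have hq : q.Prime := Fact.out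
  obtain ⟨n, hn, h1, h2⟩ := S.count S.hA1Q (secG_le q _) (secG_ne_of_pgroup S.hA1p S.hA1ne)
    (fun a ha b hb => comm_mem_secG ha hb) (fun a ha => pow_mem_secG ha) S.hKA1 S.hDA1
    (fun g hg => mem_norm_secG (S.hKA1 hg)) (fun g hg => mem_norm_secG (S.hDA1 hg))
    (fun a ha hac => S.hfix1 ha hac) hk hk1
  have hle : (⁅Q, D⁆ : Subgroup X) ⊓ centralizer ({k} : Set X) ≤ Ks := by
    rw [← S.hfix k hk hk1]
    exact inf_le_inf_right _ S.hA1Q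
  have hd : Nat.card ↥((⁅Q, D⁆ : Subgroup X) ⊓ centralizer ({k} : Set X)) ∣ q := by
    rw [← S.hKs]
    exact Subgroup.card_dvd_of_le hle
  have hcpos : 0 < Nat.card ↥(secG q ⁅Q, D⁆ ⊓ centralizer ({k} : Set X)) := Nat.card_pos
  have hcq : Nat.card ↥((⁅Q, D⁆ : Subgroup X) ⊓ centralizer ({k} : Set X)) = q := by
    refine ((Nat.dvd_prime hq).mp hd).resolve_left ?_
    intro h
    rw [h] at h1
    have := Nat.eq_one_of_mul_eq_one_left h1.symm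
    omega
  have hnq : n = q := by
    have h3 : n ∣ q := by
      rw [← hcq, h1]
      exact Dvd.intro_left _ rfl
    exact ((Nat.dvd_prime hq).mp h3).resolve_left hn.ne'
  rw [hnq] at h1 h2
  refine ⟨?_, h2, ?_⟩
  · apply Subgroup.card_eq_one.mp
    rw [hcq] at h1
    have h3 : 1 * q = Nat.card ↥(secG q ⁅Q, D⁆ ⊓ centralizer ({k} : Set X)) * q := by
      rw [one_mul]
      exact h1
    exact (Nat.eq_of_mul_eq_mul_right hq.pos h3).symm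
  · have h4 : (⁅Q, D⁆ : Subgroup X) ⊓ centralizer ({k} : Set X) = Ks :=
      Subgroup.eq_of_le_of_card_ge hle (by rw [hcq, S.hKs])
    exact h4 ▸ inf_le_left

/-- `D` centralizes the Frattini part. -/
theorem C1_le : secG q ⁅Q, D⁆ ≤ centralizer (D : Set X) := by
  by_contra hC
  obtain ⟨k, hk, hk1⟩ := S.exists_k
  have h1 := S.key1 ((secG_le q _).trans S.hA1Q) (fun g hg => mem_norm_secG (S.hKA1 hg))
    (fun g hg => mem_norm_secG (S.hDA1 hg)) hC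
  have h2 : ⁅secG q ⁅Q, D⁆, D⁆ ≤ secG q ⁅Q, D⁆ :=
    commutator_le_of_le_normalizer (fun g hg => mem_norm_secG (S.hDA1 hg))
  have h3 := (S.count_A1 hk hk1).1
  have h4 : Ks ≤ secG q ⁅Q, D⁆ ⊓ centralizer ({k} : Set X) := by
    refine le_inf (h1.trans h2) ?_
    rw [← S.hfix k hk hk1]
    exact inf_le_right
  rw [h3] at h4
  have h5 := S.hKs
  rw [le_bot_iff.mp h4, Subgroup.card_bot] at h5
  exact (Fact.out : q.Prime).one_lt.ne h5

/-- `K` has prime order, and all its non-identity elements are generators. -/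
theorem K_prime : (Nat.card K).Prime ∧ ∀ k ∈ K, k ≠ 1 → orderOf k = Nat.card K := by
  have hq : q.Prime := Fact.out
  obtain ⟨k₀, hk₀, hk₀1⟩ := S.exists_k
  have hCpos : 0 < Nat.card (secG q ⁅Q, D⁆) := Nat.card_pos
  have horder : ∀ x ∈ K, x ≠ 1 → orderOf x = orderOf k₀ := by
    intro x hx hx1
    have h1 := (S.count_A1 hx hx1).2.1
    have h2 := (S.count_A1 hk₀ hk₀1).2.1
    rw [h1] at h2
    exact Nat.pow_right_injective hq.two_le (Nat.eq_of_mul_eq_mul_left hCpos h2)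
  have hk₀o : 1 < orderOf k₀ := by
    have h0 : 0 < orderOf k₀ := orderOf_pos k₀
    have h1 : orderOf k₀ ≠ 1 := fun h => hk₀1 (orderOf_eq_one_iff.mp h)
    omega
  have hp : (orderOf k₀).Prime := by
    refine Nat.prime_of_coprime _ hk₀o ?_
    intro i hi hi0
    have h1 : k₀ ^ i ≠ 1 := pow_ne_one_of_lt_orderOf hi0 hi
    have h2 := horder (k₀ ^ i) (K.pow_mem hk₀ i) h1
    rw [orderOf_pow' k₀ hi0] at h2
    rcases Nat.div_eq_self.mp h2 with h3 | h3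
    · omega
    · exact h3
  have hcardK : Nat.card K = orderOf k₀ := by
    haveI := S.hKc
    obtain ⟨g, hg⟩ := IsCyclic.exists_ofOrder_eq_natCard (α := K)
    have hg1 : (g : X) ≠ 1 := by
      intro h
      have h2 : g = 1 := Subtype.ext h
      rw [h2, orderOf_one] at hg
      haveI := (Subgroup.nontrivial_iff_ne_bot K).mpr S.hK1
      exact (Finite.one_lt_card_iff_nontrivial.mpr inferInstance).ne hg
    have h3 := horder g g.2 hg1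
    rw [Subgroup.orderOf_coe] at h3
    rw [← hg, h3]
  refine ⟨by rw [hcardK]; exact hp, ?_⟩
  intro k hk hk1
  rw [hcardK]
  exact horder k hk hk1

theorem card_A1 : Nat.card ↥(⁅Q, D⁆ : Subgroup X) = Nat.card (secG q ⁅Q, D⁆) * q ^ Nat.card K := by
  obtain ⟨k, hk, hk1⟩ := S.exists_k
  rw [← S.K_prime.2 k hk hk1]
  exact (S.count_A1 hk hk1).2.1

theorem A1_inf_Q0 : (⁅Q, D⁆ : Subgroup X) ⊓ (Q ⊓ centralizer (D : Set X)) = secG q ⁅Q, D⁆ := by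
  apply le_antisymm
  · rintro a ⟨ha, -, hac⟩
    exact S.hfix1 ha hac
  · intro a ha
    exact ⟨secG_le q _ ha, S.hA1Q (secG_le q _ ha), S.C1_le ha⟩

theorem A1_sup_Q0 : (⁅Q, D⁆ : Subgroup X) ⊔ (Q ⊓ centralizer (D : Set X)) = Q :=
  commutator_sup_inf_centralizer S.hDQ (cop_of_pgroup S.hQ S.hcopD) (Or.inl S.hsolvD)

theorem hQ0A1 : Q ⊓ centralizer (D : Set X) ≤ normalizer ((⁅Q, D⁆ : Subgroup X) : Set X) :=
  Cfsg.Agent.Lib.CoprimeIndexP.inf_centralizer_le_normalizer S.hDQ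

theorem card_Q : Nat.card Q = Nat.card ↥(Q ⊓ centralizer (D : Set X)) * q ^ Nat.card K := by
  have h := card_sup_mul_card_inf S.hQ0A1
  rw [sup_comm, S.A1_sup_Q0, inf_comm, S.A1_inf_Q0, S.card_A1] at h
  have hCpos : 0 < Nat.card (secG q ⁅Q, D⁆) := Nat.card_pos
  refine Nat.eq_of_mul_eq_mul_right hCpos ?_
  rw [h]
  ring

theorem hKQ0 : K ≤ normalizer ((Q ⊓ centralizer (D : Set X) : Subgroup X) : Set X) :=
  fun _ hg => mem_norm_inf (S.hKQ hg) (mem_norm_centralizer (S.hKD hg))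

theorem hDQ0 : D ≤ normalizer ((Q ⊓ centralizer (D : Set X) : Subgroup X) : Set X) :=
  fun _ hg => mem_norm_inf (S.hDQ hg) (mem_norm_centralizer (Subgroup.le_normalizer hg))

/-- If `Ks ≤ B ≤ [Q, D]`, `B` invariant, then `B` covers the Frattini quotient of `[Q, D]`. -/
theorem key3 {B : Subgroup X} (hBA : B ≤ ⁅Q, D⁆) (hKB : K ≤ normalizer (B : Set X)) (hDB : D ≤ normalizer (B : Set X))
    (hKs : Ks ≤ B) : B ⊔ secG q ⁅Q, D⁆ = ⁅Q, D⁆ := by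
  by_contra hne
  obtain ⟨k, hk, hk1⟩ := S.exists_k
  have hle : B ⊔ secG q ⁅Q, D⁆ ≤ ⁅Q, D⁆ := sup_le hBA (secG_le q _)
  obtain ⟨c, hcA, hck, hcC⟩ := S.exists_fixed S.hA1Q hle hne
    (fun a ha b hb => Subgroup.mem_sup_right (comm_mem_secG ha hb))
    (fun a ha => Subgroup.mem_sup_right (pow_mem_secG ha)) S.hKA1 S.hDA1
    (fun g hg => mem_norm_sup (hKB hg) (mem_norm_secG (S.hKA1 hg)))
    (fun g hg => mem_norm_sup (hDB hg) (mem_norm_secG (S.hDA1 hg)))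
    (fun a ha hac => Subgroup.mem_sup_right (S.hfix1 ha hac)) hk hk1
  have h1 : c ∈ Ks := by
    rw [← S.hfix k hk hk1]
    exact ⟨S.hA1Q hcA, hck⟩
  exact hcC (Subgroup.mem_sup_left (hKs h1))

/-- `[A₁, Q₀] ≤ C₁`. -/
theorem comm_A1_Q0 : ⁅(⁅Q, D⁆ : Subgroup X), Q ⊓ centralizer (D : Set X)⁆ ≤ secG q ⁅Q, D⁆ := by
  by_contra hC
  set B : Subgroup X := ⁅(⁅Q, D⁆ : Subgroup X), Q ⊓ centralizer (D : Set X)⁆ ⊔ secG q ⁅Q, D⁆ with hB
  have hcomm : ⁅(⁅Q, D⁆ : Subgroup X), Q ⊓ centralizer (D : Set X)⁆ ≤ ⁅Q, D⁆ :=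
    commutator_le_of_le_normalizer S.hQ0A1
  have hBA : B ≤ ⁅Q, D⁆ := sup_le hcomm (secG_le q _)
  have hKB : K ≤ normalizer (B : Set X) := fun g hg =>
    mem_norm_sup (mem_norm_comm (S.hKA1 hg) (S.hKQ0 hg)) (mem_norm_secG (S.hKA1 hg))
  have hDB : D ≤ normalizer (B : Set X) := fun g hg =>
    mem_norm_sup (mem_norm_comm (S.hDA1 hg) (S.hDQ0 hg)) (mem_norm_secG (S.hDA1 hg))
  have hBC : ¬ B ≤ centralizer (D : Set X) := by
    intro h
    apply hC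
    intro a ha
    have h1 : a ∈ B := Subgroup.mem_sup_left ha
    exact S.hfix1 (hBA h1) (h h1)
  have hKs : Ks ≤ B := (S.key1 (hBA.trans S.hA1Q) hKB hDB hBC).trans (commutator_le_of_le_normalizer hDB)
  have h3 := S.key3 hBA hKB hDB hKs
  have h4 : B ⊔ secG q ⁅Q, D⁆ = B := sup_eq_left.mpr le_sup_right
  rw [h4] at h3
  have h5 : ⁅(⁅Q, D⁆ : Subgroup X), Q⁆ ⊔ secG q ⁅Q, D⁆ ≠ ⁅Q, D⁆ :=
    comm_sup_secG_ne S.hQ S.hA1Q S.hQA1 S.hA1ne
  apply h5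
  refine le_antisymm (sup_le (commutator_le_of_le_normalizer S.hQA1) (secG_le q _)) ?_
  conv_lhs => rw [← h3]
  exact sup_le_sup_right (Subgroup.commutator_mono le_rfl inf_le_left) _

theorem hA1Q0 : (⁅Q, D⁆ : Subgroup X) ≤ normalizer ((Q ⊓ centralizer (D : Set X) : Subgroup X) : Set X) := by
  rw [Subgroup.le_normalizer_iff]
  intro a ha z hz
  have h1 : ⁅a, z⁆ ∈ secG q ⁅Q, D⁆ := S.comm_A1_Q0 (Subgroup.commutator_mem_commutator ha hz)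
  have h2 : ⁅a, z⁆ ∈ Q ⊓ centralizer (D : Set X) := ⟨S.hA1Q (secG_le q _ h1), S.C1_le h1⟩
  have e : a * z * a⁻¹ = ⁅a, z⁆ * z := by
    rw [commutatorElement_def]
    group
  rw [e]
  exact mul_mem h2 hz

/-- `Q` normalizes `Q₀`. -/
theorem hQQ0 : Q ≤ normalizer ((Q ⊓ centralizer (D : Set X) : Subgroup X) : Set X) := by
  conv_lhs => rw [← S.A1_sup_Q0]
  exact sup_le S.hA1Q0 Subgroup.le_normalizer

/-- Every element of `Q` lies in the product `A₁ Q₀`. -/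
theorem exists_decomp {a : X} (ha : a ∈ Q) : ∃ a₁ ∈ (⁅Q, D⁆ : Subgroup X), ∃ z ∈ Q ⊓ centralizer (D : Set X), a = a₁ * z := by
  have h1 : a ∈ (((⁅Q, D⁆ : Subgroup X) ⊔ (Q ⊓ centralizer (D : Set X)) : Subgroup X) : Set X) := by
    rw [S.A1_sup_Q0]
    exact ha
  rw [Subgroup.coe_mul_of_left_le_normalizer_right _ _ S.hA1Q0, Set.mem_mul] at h1
  obtain ⟨a₁, ha₁, z, hz, e⟩ := h1
  exact ⟨a₁, ha₁, z, hz, e.symm⟩

theorem elem {a b : X} (ha : a ∈ Q) (hb : b ∈ Q) :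
    a ^ q ∈ Q ⊓ centralizer (D : Set X) ∧ a * b * a⁻¹ * b⁻¹ ∈ Q ⊓ centralizer (D : Set X) := by
  let N : Subgroup ↥Q := (Q ⊓ centralizer (D : Set X)).subgroupOf Q
  have hmemN : ∀ x : ↥Q, x ∈ N ↔ (x : X) ∈ Q ⊓ centralizer (D : Set X) := fun x => Subgroup.mem_subgroupOf
  haveI : N.Normal := (Subgroup.normal_subgroupOf_iff_le_normalizer inf_le_left).mpr S.hQQ0
  have hC1 : ∀ {c : X}, c ∈ secG q ⁅Q, D⁆ → c ∈ Q ⊓ centralizer (D : Set X) :=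
    fun hc => ⟨S.hA1Q (secG_le q _ hc), S.C1_le hc⟩
  let π := QuotientGroup.mk' N
  have hπ : ∀ x : ↥Q, π x = 1 ↔ (x : X) ∈ Q ⊓ centralizer (D : Set X) := fun x => by
    rw [← hmemN]
    exact QuotientGroup.eq_one_iff x
  have hdec : ∀ x : ↥Q, ∃ a₁ : ↥Q, (a₁ : X) ∈ (⁅Q, D⁆ : Subgroup X) ∧ π x = π a₁ := by
    intro x
    obtain ⟨a₁, ha₁, z, hz, e⟩ := S.exists_decomp x.2
    refine ⟨⟨a₁, S.hA1Q ha₁⟩, ha₁, ?_⟩
    have h0 : x = ⟨a₁, S.hA1Q ha₁⟩ * ⟨z, hz.1⟩ := Subtype.ext e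
    rw [h0, map_mul, (hπ ⟨z, hz.1⟩).mpr hz, mul_one]
  obtain ⟨a₁, ha₁, ea⟩ := hdec ⟨a, ha⟩
  obtain ⟨b₁, hb₁, eb⟩ := hdec ⟨b, hb⟩
  constructor
  · have h0 := (hπ ((⟨a, ha⟩ : ↥Q) ^ q)).mp (by
      rw [map_pow, ea, ← map_pow]
      exact (hπ _).mpr (hC1 (pow_mem_secG ha₁)))
    exact h0
  · have h0 := (hπ ((⟨a, ha⟩ : ↥Q) * ⟨b, hb⟩ * (⟨a, ha⟩ : ↥Q)⁻¹ * (⟨b, hb⟩ : ↥Q)⁻¹)).mp (by
      rw [map_mul, map_mul, map_mul, map_inv, map_inv, ea, eb, ← map_inv, ← map_inv, ← map_mul, ← map_mul, ← map_mul]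
      exact (hπ _).mpr (hC1 (comm_mem_secG ha₁ hb₁)))
    exact h0

theorem no_intermediate {N : Subgroup X} (h1 : Q ⊓ centralizer (D : Set X) < N) (h2 : N < Q)
    (hKN : K ≤ normalizer (N : Set X)) (hDN : D ≤ normalizer (N : Set X)) : False := by
  have hKA3 : K ≤ normalizer (((⁅Q, D⁆ : Subgroup X) ⊓ N : Subgroup X) : Set X) :=
    fun g hg => mem_norm_inf (S.hKA1 hg) (hKN hg)
  have hDA3 : D ≤ normalizer (((⁅Q, D⁆ : Subgroup X) ⊓ N : Subgroup X) : Set X) :=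
    fun g hg => mem_norm_inf (S.hDA1 hg) (hDN hg)
  have hA3 : ¬ (⁅Q, D⁆ : Subgroup X) ⊓ N ≤ centralizer (D : Set X) := by
    intro h
    apply h1.not_ge
    intro x hx
    obtain ⟨a₁, ha₁, z, hz, e⟩ := S.exists_decomp (h2.le hx)
    have ha₁N : a₁ ∈ N := by
      have h0 : a₁ = x * z⁻¹ := by
        rw [e]
        group
      rw [h0]
      exact N.mul_mem hx (N.inv_mem (h1.le hz))
    have hc := h ⟨ha₁, ha₁N⟩
    rw [e]
    exact (Q ⊓ centralizer (D : Set X)).mul_mem ⟨S.hA1Q ha₁, hc⟩ hz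
  have hKs : Ks ≤ (⁅Q, D⁆ : Subgroup X) ⊓ N :=
    (S.key1 (inf_le_left.trans S.hA1Q) hKA3 hDA3 hA3).trans (commutator_le_of_le_normalizer hDA3)
  have h3 := S.key3 inf_le_left hKA3 hDA3 hKs
  apply h2.not_ge
  rw [← S.A1_sup_Q0]
  refine sup_le ?_ h1.le
  rw [← h3]
  exact sup_le inf_le_right (fun c hc => h1.le ⟨S.hA1Q (secG_le q _ hc), S.C1_le hc⟩)

theorem Q0_lt : Q ⊓ centralizer (D : Set X) < Q := by
  refine lt_of_le_of_ne inf_le_left ?_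
  intro h
  have h1 := S.card_Q
  rw [h] at h1
  have hq : q.Prime := Fact.out
  have hp := S.K_prime.1
  have h2 : 0 < Nat.card Q := Nat.card_pos
  have h3 : 1 < q ^ Nat.card K := Nat.one_lt_pow hp.ne_zero hq.one_lt
  nlinarith

end FrobSetup

end Cfsg.Agent.Lib.H6F2
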