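import Mathlib
import Cfsg.Agent.Lib.PComplement

/-!
# Groups acting on abelian groups with fixed points in a given subgroup

`H` acts on an abelian group `B` and every non-identity element of `H` has all of its fixed
points inside a subgroup `Z'` fixed pointwise by `H`.  If `s`-elements outside `Z'` exist for enough primes
then `H` has very restricted structure.
-/

set_option autoImplicit false
set_option linter.unusedVariables false
set_option linter.unusedSectionVars false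
set_option linter.style.haveILetI false

namespace Cfsg.Agent.Lib.H73Rep

open Subgroup

section Abstract

variable {H B : Type*} [Group H] [CommGroup B]

/-- Fixed points of non-identity elements lie in `Z'`, which is fixed pointwise. -/
structure SR (ρ : H →* MulAut B) (Z' : Subgroup B) : Prop where
  fixZ : ∀ h : H, ∀ z ∈ Z', ρ h z = z
  sr : ∀ h : H, h ≠ 1 → ∀ b : B, ρ h b = b → b ∈ Z'

variable {ρ : H →* MulAut B} {Z' : Subgroup B}

theorem rho_pow_apply_of_fixed (hs : SR ρ Z') (u : H) (a z : B) (hz : z ∈ Z') (h : ρ u a = z * a) (i : ℕ) :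
    ρ (u ^ i) a = z ^ i * a := by
  induction i with
  | zero => simp
  | succ i ih =>
    rw [pow_succ', map_mul, MulAut.mul_apply, ih, map_mul, map_pow, hs.fixZ u z hz, h, pow_succ]
    rw [mul_assoc]

/-- Norm over a cyclic subgroup is fixed, hence in `Z'`. -/
theorem norm_mem (hs : SR ρ Z') {h : H} {t : ℕ} (h1 : h ≠ 1) (ht : h ^ t = 1) (b : B) :
    (∏ i ∈ Finset.range t, ρ (h ^ i) b) ∈ Z' := by
  apply hs.sr h h1
  rw [map_prod]
  have h2 : ∀ i, ρ h (ρ (h ^ i) b) = ρ (h ^ (i + 1)) b := by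
    intro i
    rw [pow_succ', map_mul, MulAut.mul_apply]
  simp only [h2]
  have h3 := Finset.prod_range_succ (fun i => ρ (h ^ i) b) t
  have h4 := Finset.prod_range_succ' (fun i => ρ (h ^ i) b) t
  rw [h3] at h4
  simp only [ht, pow_zero, map_one, MulAut.one_apply] at h4
  exact (mul_right_cancel h4).symm

theorem mem_of_sub_mem (hs : SR ρ Z') {u : H} {ℓ s k : ℕ} (hu : u ≠ 1) (huℓ : u ^ ℓ = 1)
    (hcop : ℓ.Coprime s) {a : B} (ha : a ^ (s ^ k) = 1) (hd : ρ u a * a⁻¹ ∈ Z') : a ∈ Z' := by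
  set z := ρ u a * a⁻¹ with hz
  have h1 : ρ u a = z * a := by rw [hz]; simp
  have h2 := rho_pow_apply_of_fixed hs u a z hd h1 ℓ
  rw [huℓ, map_one, MulAut.one_apply] at h2
  have h3 : z ^ ℓ = 1 := by simpa using h2.symm
  have h4 : z ^ (s ^ k) = 1 := by
    rw [hz, mul_pow, inv_pow, ← map_pow, ha, map_one, one_mul, inv_one]
  have h5 : orderOf z = 1 := Nat.eq_one_of_dvd_coprimes (hcop.pow_right k)
    (orderOf_dvd_of_pow_eq_one h3) (orderOf_dvd_of_pow_eq_one h4)
  have h6 : z = 1 := orderOf_eq_one_iff.1 h5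
  apply hs.sr u hu a
  rw [h1, h6, one_mul]

/-- The subgroup of `s`-elements. -/
def primaryOf (s : ℕ) (B : Type*) [CommGroup B] : Subgroup B where
  carrier := {b | ∃ k : ℕ, b ^ (s ^ k) = 1}
  one_mem' := ⟨0, by simp⟩
  mul_mem' := by
    rintro a b ⟨k, hk⟩ ⟨l, hl⟩
    refine ⟨k + l, ?_⟩
    rw [mul_pow, pow_add, pow_mul, hk, one_pow, one_mul, mul_comm (s ^ k), pow_mul, hl, one_pow]
  inv_mem' := by
    rintro a ⟨k, hk⟩
    exact ⟨k, by rw [inv_pow, hk, inv_one]⟩

theorem mem_primaryOf {s : ℕ} {b : B} : b ∈ primaryOf s B ↔ ∃ k : ℕ, b ^ (s ^ k) = 1 := Iff.rfl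

theorem exists_fixed_mod (hs : SR ρ Z') [Finite B] {h : H} {s : ℕ} [hsp : Fact s.Prime] (hh : h ^ s = 1)
    {a₀ : B} {k₀ : ℕ} (ha₀ : a₀ ^ (s ^ k₀) = 1) (ha₀Z : a₀ ∉ Z') :
    ∃ a : B, (∃ k : ℕ, a ^ (s ^ k) = 1) ∧ a ∉ Z' ∧ ρ h a * a⁻¹ ∈ Z' := by
  classical
  let Bs : Subgroup B := primaryOf s B
  have hpB : IsPGroup s Bs := by
    rintro ⟨x, k, hk⟩
    exact ⟨k, Subtype.ext hk⟩
  let N : Subgroup Bs := Z'.subgroupOf Bs
  have hmem : ∀ (i : ℕ) (x : B), x ∈ Bs → ρ (h ^ i) x ∈ Bs := by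
    rintro i x ⟨k, hk⟩
    exact ⟨k, by rw [← map_pow, hk, map_one]⟩
  let φ : Bs →* Bs :=
    { toFun := fun x => ⟨ρ h x, by simpa using hmem 1 x x.2⟩
      map_one' := Subtype.ext (map_one _)
      map_mul' := fun x y => Subtype.ext (map_mul _ _ _) }
  have hφN : N ≤ N.comap φ := by
    intro x hx
    have hx' : (x : B) ∈ Z' := hx
    show ((φ x : Bs) : B) ∈ Z'
    show ρ h (x : B) ∈ Z'
    rw [hs.fixZ h _ hx']
    exact hx'
  let X := Bs ⧸ N
  let f : X →* X := QuotientGroup.map N N φ hφN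
  let F : Function.End X := fun q => f q
  have hF1 : ∀ (i : ℕ) (x : Bs), (F ^ i) ((x : Bs) : X) = ((⟨ρ (h ^ i) x, hmem i x x.2⟩ : Bs) : X) := by
    intro i
    induction i with
    | zero =>
      intro x
      simp only [pow_zero, map_one, MulAut.one_apply]
      rfl
    | succ i ih =>
      intro x
      rw [pow_succ']
      show F ((F ^ i) ((x : Bs) : X)) = _
      rw [ih x]
      show f ((⟨ρ (h ^ i) x, hmem i x x.2⟩ : Bs) : X) = _
      show ((φ ⟨ρ (h ^ i) x, hmem i x x.2⟩ : Bs) : X) = _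
      congr 1
      apply Subtype.ext
      show ρ h (ρ (h ^ i) x) = ρ (h ^ (i + 1)) x
      rw [pow_succ', map_mul, MulAut.mul_apply]
  have hF : F ^ s ^ 1 = 1 := by
    funext q
    induction q using QuotientGroup.induction_on with
    | H x =>
      rw [pow_one, hF1 s x]
      have : (⟨ρ (h ^ s) x, hmem s x x.2⟩ : Bs) = x := by
        apply Subtype.ext
        show ρ (h ^ s) (x : B) = x
        rw [hh, map_one, MulAut.one_apply]
      rw [this]
      rfl
  haveI : Fintype X := Fintype.ofFinite X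
  have key := Equiv.Perm.card_fixedPoints_modEq (f := F) (p := s) (n := 1) hF
  have key' : Nat.card X ≡ Nat.card F.fixedPoints [MOD s] := by
    rw [Nat.card_eq_fintype_card, Nat.card_eq_fintype_card]
    convert key
  -- `s` divides the order of `X`
  have hpX : IsPGroup s X := hpB.to_quotient N
  have hnt : (((⟨a₀, ⟨k₀, ha₀⟩⟩ : Bs)) : X) ≠ 1 := by
    intro h1
    exact ha₀Z ((QuotientGroup.eq_one_iff (⟨a₀, ⟨k₀, ha₀⟩⟩ : Bs)).1 h1)
  haveI : Nontrivial X := ⟨⟨_, _, hnt⟩⟩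
  have hd : s ∣ Nat.card X := by
    obtain ⟨n, hn⟩ := IsPGroup.iff_card.1 hpX
    rw [hn]
    apply dvd_pow_self
    rintro rfl
    rw [pow_zero] at hn
    exact Finite.one_lt_card.ne' hn
  have hd2 : s ∣ Nat.card F.fixedPoints :=
    (Nat.modEq_zero_iff_dvd.1 (key'.symm.trans (Nat.modEq_zero_iff_dvd.2 hd)))
  have h1fix : (1 : X) ∈ F.fixedPoints := by
    show f 1 = 1
    exact map_one f
  have hcard : 1 < Nat.card F.fixedPoints := by
    have h2 : 0 < Nat.card F.fixedPoints := by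
      haveI : Nonempty F.fixedPoints := ⟨⟨1, h1fix⟩⟩
      exact Nat.card_pos
    have h3 := Nat.le_of_dvd h2 hd2
    have h4 := hsp.out.two_le
    omega
  haveI : Nontrivial F.fixedPoints := (Finite.one_lt_card_iff_nontrivial).1 hcard
  obtain ⟨q, hq⟩ := exists_ne (⟨1, h1fix⟩ : F.fixedPoints)
  obtain ⟨q, hqfix⟩ := q
  have hq1 : q ≠ 1 := fun h => hq (Subtype.ext h)
  induction q using QuotientGroup.induction_on with
  | H x =>
    refine ⟨x, x.2, ?_, ?_⟩
    · intro hxZ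
      apply hq1
      exact (QuotientGroup.eq_one_iff _).2 hxZ
    · have h5 : F ((x : Bs) : X) = ((x : Bs) : X) := hqfix
      have h6 : ((φ x : Bs) : X) = ((x : Bs) : X) := h5
      have h7 := QuotientGroup.eq.1 h6
      have h8 : (((φ x)⁻¹ * x : Bs) : B) ∈ Z' := h7
      have h9 : (((φ x)⁻¹ * x : Bs) : B) = (ρ h x)⁻¹ * x := rfl
      rw [h9] at h8
      have h10 : ρ h (x : B) * (x : B)⁻¹ = ((ρ h x)⁻¹ * x)⁻¹ := by simp [mul_comm]
      rw [h10]
      exact Z'.inv_mem h8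

/-- Commuting elements of coprime order contradict the existence of `s`-elements outside `Z'`. -/
theorem no_commute (hs : SR ρ Z') [Finite B] {h u : H} {s ℓ : ℕ} [hsp : Fact s.Prime] (hh1 : h ≠ 1)
    (hh : h ^ s = 1) (hu1 : u ≠ 1) (hu : u ^ ℓ = 1) (hcop : ℓ.Coprime s) (hc : h * u = u * h)
    {a₀ : B} {k₀ : ℕ} (ha₀ : a₀ ^ (s ^ k₀) = 1) (ha₀Z : a₀ ∉ Z') : False := by
  obtain ⟨a, ⟨k, hk⟩, haZ, hac⟩ := exists_fixed_mod hs hh ha₀ ha₀Z
  set c := ρ h a * a⁻¹ with hcdef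
  have h1 : ρ h a = c * a := by rw [hcdef]; simp
  have h2 : ρ h (ρ u a * a⁻¹) = ρ u a * a⁻¹ := by
    have h3 : ρ h (ρ u a) = ρ u (ρ h a) := by
      rw [← MulAut.mul_apply, ← MulAut.mul_apply, ← map_mul, ← map_mul, hc]
    rw [map_mul, map_inv, h3, h1, map_mul, hs.fixZ u c hac]
    simp [mul_comm, mul_left_comm]
  have h4 : ρ u a * a⁻¹ ∈ Z' := hs.sr h hh1 _ h2
  exact haZ (mem_of_sub_mem hs hu1 hu hcop hk h4)

/-- Reindexing a periodic product. -/
theorem prod_range_mul_coprime {C : Type*} [CommMonoid C] {ℓ e : ℕ} (hℓ : 0 < ℓ) (hcop : e.Coprime ℓ) (F : ℕ → C)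
    (hF : ∀ n, F (n % ℓ) = F n) :
    ∏ i ∈ Finset.range ℓ, F (i * e) = ∏ i ∈ Finset.range ℓ, F i := by
  have hmaps : Set.MapsTo (fun i => i * e % ℓ) (Finset.range ℓ : Set ℕ) (Finset.range ℓ : Set ℕ) := by
    intro i _
    simpa using Nat.mod_lt _ hℓ
  have hinj : Set.InjOn (fun i => i * e % ℓ) (Finset.range ℓ : Set ℕ) := by
    intro i hi j hj hij
    have hi' : i < ℓ := by simpa using hi
    have hj' : j < ℓ := by simpa using hj
    have h1 : i * e ≡ j * e [MOD ℓ] := hij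
    have h2 : i ≡ j [MOD ℓ] := Nat.ModEq.cancel_right_of_coprime (by rw [Nat.gcd_comm]; exact hcop) h1
    have h3 : i % ℓ = j % ℓ := h2
    rwa [Nat.mod_eq_of_lt hi', Nat.mod_eq_of_lt hj'] at h3
  have hsurj : Set.SurjOn (fun i => i * e % ℓ) (Finset.range ℓ : Set ℕ) (Finset.range ℓ : Set ℕ) :=
    Finset.surjOn_of_injOn_of_card_le _ hmaps hinj le_rfl
  exact Finset.prod_nbij (fun i => i * e % ℓ) (fun i hi => by simpa using hmaps hi)
    hinj hsurj (fun i _ => (hF _).symm)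

/-- The family lemma. -/
theorem family (hs : SR ρ Z') {u : H} {ℓ t : ℕ} (hℓ : 0 < ℓ) (hu : u ^ ℓ = 1) (hu1 : u ≠ 1) (x : ℕ → H)
    (hx1 : ∀ i < ℓ, x i ≠ 1) (hxt : ∀ i < ℓ, (x i) ^ t = 1) (e : ℕ → ℕ) (g : ℕ → H)
    (he : ∀ j, 0 < j → j < t → (e j).Coprime ℓ)
    (hform : ∀ i < ℓ, ∀ j, 0 < j → j < t → (x i) ^ j = u ^ (i * e j) * g j) (ht : 0 < t) (b : B) :
    b ^ ℓ ∈ Z' := by
  have h1 : (∏ i ∈ Finset.range ℓ, ∏ j ∈ Finset.range t, ρ ((x i) ^ j) b) ∈ Z' :=
    Z'.prod_mem (fun i hi => norm_mem hs (hx1 i (Finset.mem_range.1 hi)) (hxt i (Finset.mem_range.1 hi)) b)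
  rw [Finset.prod_comm] at h1
  obtain ⟨t', rfl⟩ : ∃ t', t = t' + 1 := ⟨t - 1, by omega⟩
  rw [Finset.prod_range_succ'] at h1
  have h2 : (∏ i ∈ Finset.range ℓ, ρ ((x i) ^ 0) b) = b ^ ℓ := by
    simp
  rw [h2] at h1
  have h3 : (∏ j ∈ Finset.range t', ∏ i ∈ Finset.range ℓ, ρ ((x i) ^ (j + 1)) b) ∈ Z' := by
    apply Z'.prod_mem
    intro j hj
    have hj' : j < t' := Finset.mem_range.1 hj
    have h4 : ∏ i ∈ Finset.range ℓ, ρ ((x i) ^ (j + 1)) b
        = ∏ i ∈ Finset.range ℓ, (fun n => ρ (u ^ n) (ρ (g (j + 1)) b)) (i * e (j + 1)) := by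
      apply Finset.prod_congr rfl
      intro i hi
      rw [hform i (Finset.mem_range.1 hi) (j + 1) (by omega) (by omega), map_mul, MulAut.mul_apply]
    have h5 := prod_range_mul_coprime hℓ (he (j + 1) (by omega) (by omega))
      (fun n => ρ (u ^ n) (ρ (g (j + 1)) b)) (by
        intro n
        show ρ (u ^ (n % ℓ)) _ = ρ (u ^ n) _
        rw [← pow_eq_pow_mod n hu])
    rw [h4, h5]
    exact norm_mem hs hu1 hu _
  exact (Subgroup.mul_mem_cancel_left Z' h3).1 h1

theorem mem_of_pow_mem {ℓ s k : ℕ} (hcop : ℓ.Coprime s) {a : B} (ha : a ^ (s ^ k) = 1) (h : a ^ ℓ ∈ Z') : a ∈ Z' := by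
  have h1 : ℓ.Coprime (orderOf a) :=
    Nat.Coprime.coprime_dvd_right (orderOf_dvd_of_pow_eq_one ha) (hcop.pow_right k)
  obtain ⟨w, hw⟩ := exists_pow_eq_self_of_coprime h1
  rw [← hw]
  exact Z'.pow_mem h w

/-- An element of order `s` cannot normalize `⟨u⟩` for `u` of prime order `ℓ ≠ s`, if there are `s`-elements outside `Z'`. -/
theorem no_normalize (hs : SR ρ Z') [Finite B] {h u : H} {s ℓ : ℕ} [hsp : Fact s.Prime] (hℓ : ℓ.Prime)
    (hne : ℓ ≠ s) (hh1 : h ≠ 1) (hh : h ^ s = 1) (hu1 : u ≠ 1) (hu : u ^ ℓ = 1) {c : ℕ}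
    (hc : h * u * h⁻¹ = u ^ c) {a₀ : B} {k₀ : ℕ} (ha₀ : a₀ ^ (s ^ k₀) = 1) (ha₀Z : a₀ ∉ Z') : False := by
  have hcop : ℓ.Coprime s := (Nat.coprime_primes hℓ hsp.out).2 hne
  have hord : orderOf h = s := orderOf_eq_prime hh hh1
  have hconj : ∀ j : ℕ, h ^ j * u * (h ^ j)⁻¹ = u ^ (c ^ j) := by
    intro j
    induction j with
    | zero => simp
    | succ j ih =>
      have h1 : h ^ (j + 1) * u * (h ^ (j + 1))⁻¹ = h ^ j * (h * u * h⁻¹) * (h ^ j)⁻¹ := by
        rw [pow_succ]; group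
      rw [h1, hc, ← conj_pow, ih, ← pow_mul, pow_succ]
  have hinv : (u⁻¹ : H) = u ^ (ℓ - 1) := by
    have h1 : u ^ (ℓ - 1) * u = 1 := by
      rw [← pow_succ, Nat.sub_add_cancel hℓ.one_le, hu]
    exact (eq_inv_of_mul_eq_one_left h1).symm
  let x : ℕ → H := fun i => u ^ i * h * (u ^ i)⁻¹
  let e : ℕ → ℕ := fun j => 1 + (ℓ - 1) * c ^ j
  have hpowx : ∀ i j : ℕ, (x i) ^ j = u ^ i * h ^ j * (u ^ i)⁻¹ := by
    intro i j
    show (u ^ i * h * (u ^ i)⁻¹) ^ j = _
    rw [conj_pow]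
  have hform : ∀ i < ℓ, ∀ j, 0 < j → j < s → (x i) ^ j = u ^ (i * e j) * h ^ j := by
    intro i _ j _ _
    rw [hpowx]
    have h1 : h ^ j * (u ^ i)⁻¹ * (h ^ j)⁻¹ = (u ^ (i * c ^ j))⁻¹ := by
      have h0 : h ^ j * (u ^ i)⁻¹ * (h ^ j)⁻¹ = (h ^ j * u ^ i * (h ^ j)⁻¹)⁻¹ := by group
      rw [h0, ← conj_pow, hconj j, ← pow_mul, mul_comm]
    have h2 : u ^ (i * e j) = u ^ i * (u ^ (i * c ^ j))⁻¹ := by
      show u ^ (i * (1 + (ℓ - 1) * c ^ j)) = _
      rw [mul_add, mul_one, pow_add, ← inv_pow, hinv]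
      congr 1
      rw [← pow_mul]
      congr 1
      ring
    rw [h2, ← h1]
    group
  have hecop : ∀ j, 0 < j → j < s → (e j).Coprime ℓ := by
    intro j hj0 hjs
    rw [Nat.coprime_comm, Nat.Prime.coprime_iff_not_dvd hℓ]
    intro hd
    have h1 : u ^ (e j) = 1 := by
      obtain ⟨d, hd⟩ := hd
      rw [hd, pow_mul, hu, one_pow]
    have h2 : u ^ (c ^ j) = u := by
      have h3 : u ^ (e j) = u * (u ^ (c ^ j))⁻¹ := by
        show u ^ (1 + (ℓ - 1) * c ^ j) = _
        rw [pow_add, pow_one, pow_mul, ← hinv, inv_pow]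
      rw [h3] at h1
      exact (mul_inv_eq_one.1 h1).symm
    have h4 : h ^ j * u = u * h ^ j := by
      have h5 := hconj j
      rw [h2] at h5
      exact mul_inv_eq_iff_eq_mul.1 h5
    have h6 : h ^ j ≠ 1 := by
      apply pow_ne_one_of_lt_orderOf (by omega)
      rwa [hord]
    have h7 : (h ^ j) ^ s = 1 := by
      rw [← pow_mul, mul_comm, pow_mul, hh, one_pow]
    exact no_commute hs h6 h7 hu1 hu hcop h4 ha₀ ha₀Z
  have hfam := family hs (t := s) hℓ.pos hu hu1 x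
    (by
      intro i _ h1
      apply hh1
      have h2 : u ^ i * h * (u ^ i)⁻¹ = 1 := h1
      have h3 : u ^ i * h = u ^ i := mul_inv_eq_one.1 h2
      exact mul_left_cancel (h3.trans (mul_one _).symm))
    (by
      intro i _
      rw [hpowx, hh]
      group)
    e (fun j => h ^ j) hecop hform hsp.out.pos a₀
  exact ha₀Z (mem_of_pow_mem hcop ha₀ hfam)

/-- Rank one. -/
theorem no_rank_two (hs : SR ρ Z') [Finite B] {u v : H} {s ℓ : ℕ} (hℓ : ℓ.Prime) (hcop : ℓ.Coprime s)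
    (hu1 : u ≠ 1) (hu : u ^ ℓ = 1) (hv : v ^ ℓ = 1) (hc : u * v = v * u) (hvu : ∀ i : ℕ, v ≠ u ^ i)
    {a₀ : B} {k₀ : ℕ} (ha₀ : a₀ ^ (s ^ k₀) = 1) (ha₀Z : a₀ ∉ Z') : False := by
  have hcomm : Commute u v := hc
  have hinv : ∀ i : ℕ, (u ^ i)⁻¹ = u ^ (i * (ℓ - 1)) := by
    intro i
    symm
    apply eq_inv_of_mul_eq_one_left
    rw [← pow_add]
    have : i * (ℓ - 1) + i = i * ℓ := by
      have := hℓ.one_le
      obtain ⟨l, rfl⟩ : ∃ l, ℓ = l + 1 := ⟨ℓ - 1, by omega⟩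
      simp only [Nat.add_sub_cancel]
      ring
    rw [this, mul_comm, pow_mul, hu, one_pow]
  let x : ℕ → H := fun i => v * u ^ i
  have hpowx : ∀ i j : ℕ, (x i) ^ j = u ^ (i * j) * v ^ j := by
    intro i j
    show (v * u ^ i) ^ j = _
    have h1 : Commute v (u ^ i) := (hcomm.pow_left i).symm
    rw [h1.mul_pow, ← pow_mul, (hcomm.pow_pow (i * j) j).symm.eq]
  have hfam := family hs (t := ℓ) hℓ.pos hu hu1 x
    (by
      intro i _ h1
      have h2 : v * u ^ i = 1 := h1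
      have h3 : v = (u ^ i)⁻¹ := eq_inv_of_mul_eq_one_left h2
      rw [hinv] at h3
      exact hvu _ h3)
    (by
      intro i _
      rw [hpowx, hv, mul_one, mul_comm, pow_mul, hu, one_pow])
    (fun j => j) (fun j => v ^ j)
    (by
      intro j hj0 hjl
      exact (Nat.coprime_of_lt_prime (by omega) hjl hℓ).symm)
    (by
      intro i _ j _ _
      exact hpowx i j)
    hℓ.pos a₀
  exact ha₀Z (mem_of_pow_mem hcop ha₀ hfam)

end Abstract

section GroupTheory

/-- First group-theoretic condition: elements of order `s ≠ p₀` normalize no subgroup of prime order `ℓ ≠ s`. -/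
def N1 (p₀ : ℕ) (X : Type*) [Group X] : Prop :=
  ∀ s ℓ : ℕ, s.Prime → ℓ.Prime → s ≠ p₀ → s ≠ ℓ → ∀ h u : X, orderOf h = s → orderOf u = ℓ →
    ∀ c : ℕ, h * u * h⁻¹ = u ^ c → False

/-- Second condition: rank one. -/
def R1 (X : Type*) [Group X] : Prop :=
  ∀ ℓ : ℕ, ℓ.Prime → ∀ u v : X, orderOf u = ℓ → orderOf v = ℓ → u * v = v * u → (∀ i : ℕ, v ≠ u ^ i) → False

variable {X : Type*} [Group X]

theorem N1.subgroup {p₀ : ℕ} (h : N1 p₀ X) (Y : Subgroup X) : N1 p₀ Y := by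
  intro s ℓ hs hℓ hsp hsℓ a b ha hb c hc
  refine h s ℓ hs hℓ hsp hsℓ a b (by rw [← ha, Subgroup.orderOf_coe]) (by rw [← hb, Subgroup.orderOf_coe]) c ?_
  have := congrArg (fun z : Y => (z : X)) hc
  simpa using this

theorem R1.subgroup (h : R1 X) (Y : Subgroup X) : R1 Y := by
  intro ℓ hℓ a b ha hb hab hne
  refine h ℓ hℓ a b (by rw [← ha, Subgroup.orderOf_coe]) (by rw [← hb, Subgroup.orderOf_coe]) ?_ ?_
  · exact congrArg (fun z : Y => (z : X)) hab
  · intro i hi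
    apply hne i
    apply Subtype.ext
    simpa using hi

/-- An element of order `s ≠ t`, `s ≠ p₀` normalizes no nontrivial `t`-subgroup. -/
theorem not_normalize_pGroup [Finite X] {p₀ t s : ℕ} (h1 : N1 p₀ X) (h2 : R1 X) [ht : Fact t.Prime] (hs : s.Prime)
    (hsp : s ≠ p₀) (hst : s ≠ t) {Q : Subgroup X} (hQ : IsPGroup t Q) (hQ1 : Q ≠ ⊥) {g : X}
    (hg : g ∈ normalizer (Q : Set X)) (hgs : orderOf g = s) : False := by
  classical
  haveI : Nontrivial Q := (Subgroup.nontrivial_iff_ne_bot Q).2 hQ1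
  haveI := hQ.center_nontrivial
  have hd : t ∣ Nat.card (center Q) := by
    obtain ⟨n, hn⟩ := IsPGroup.iff_card.1 (hQ.to_subgroup (center Q))
    rw [hn]
    apply dvd_pow_self
    rintro rfl
    rw [pow_zero] at hn
    exact Finite.one_lt_card.ne' hn
  obtain ⟨z, hz⟩ := exists_prime_orderOf_dvd_card' t hd
  have hzo : orderOf ((z : Q) : X) = t := by
    rw [Subgroup.orderOf_coe, Subgroup.orderOf_coe, hz]
  have hzQ : ((z : Q) : X) ∈ Q := (z : Q).2
  have h3 : g * ((z : Q) : X) * g⁻¹ ∈ Q := (mem_set_normalizer_iff.1 hg _).1 hzQ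
  have h4 : orderOf (g * ((z : Q) : X) * g⁻¹) = t := by
    rw [← hzo]
    exact MulEquiv.orderOf_eq (MulAut.conj g) _
  have h5 : ((z : Q) : X) * (g * ((z : Q) : X) * g⁻¹) = (g * ((z : Q) : X) * g⁻¹) * ((z : Q) : X) := by
    have := (Subgroup.mem_center_iff.1 z.2) ⟨_, h3⟩
    exact (congrArg (fun y : Q => (y : X)) this).symm
  by_cases h6 : ∀ i : ℕ, g * ((z : Q) : X) * g⁻¹ ≠ ((z : Q) : X) ^ i
  · exact h2 t ht.out _ _ hzo h4 h5 h6
  · push Not at h6
    obtain ⟨i, hi⟩ := h6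
    exact h1 s t hs ht.out hsp hst g _ hgs hzo i hi

/-- Normal complements. -/
theorem hasNormalPComplement_of_conds [Finite X] {p₀ t : ℕ} (h1 : N1 p₀ X) (h2 : R1 X) [ht : Fact t.Prime]
    (hp : ∀ s : ℕ, s.Prime → s ∣ Nat.card X → s ≠ t → s ≠ p₀) : Cfsg.HasNormalPComplement t X := by
  rw [Cfsg.Agent.Lib.PComplement.hasNormalPComplement_iff_forall]
  intro Q hQ g hg hgc
  by_cases hQ1 : Q = ⊥
  · subst hQ1
    rw [mem_centralizer_iff]
    intro x hx
    have hx' : x = 1 := by simpa using hx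
    rw [hx']
    simp
  by_cases hg1 : g = 1
  · rw [hg1]
    exact one_mem _
  exfalso
  have ho : orderOf g ≠ 1 := by rwa [Ne, orderOf_eq_one_iff]
  have hs := Nat.minFac_prime ho
  set s := (orderOf g).minFac with hsdef
  have hsd : s ∣ orderOf g := Nat.minFac_dvd _
  have hst : s ≠ t := by
    intro h
    rw [h] at hsd
    exact ht.out.one_lt.ne' (Nat.eq_one_of_dvd_coprimes hgc hsd dvd_rfl)
  have hsX : s ∣ Nat.card X := hsd.trans (orderOf_dvd_natCard g)
  have hg' : orderOf (g ^ (orderOf g / s)) = s := by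
    rw [orderOf_pow_orderOf_div (orderOf_pos g).ne' hsd]
  exact not_normalize_pGroup h1 h2 hs (hp s hs hsX hst) hst hQ hQ1 (pow_mem hg _) hg'

/-- No two primes other than `p₀` divide the order. -/
theorem no_two_primes [Finite X] {p₀ q r : ℕ} (hp₀ : p₀.Prime) (hq : q.Prime) (hr : r.Prime) (h1 : N1 p₀ X)
    (h2 : R1 X) (hqp : q ≠ p₀) (hrp : r ≠ p₀) (hqr : q ≠ r) (hqd : q ∣ Nat.card X) (hrd : r ∣ Nat.card X) :
    False := by
  classical
  haveI : Fact p₀.Prime := ⟨hp₀⟩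
  haveI : Fact q.Prime := ⟨hq⟩
  haveI : Fact r.Prime := ⟨hr⟩
  -- the normal `p₀`-complement
  obtain ⟨P, M, hMn, hMc⟩ := hasNormalPComplement_of_conds (t := p₀) h1 h2
    (fun s _ _ hs => hs)
  have hcard : Nat.card M * Nat.card P = Nat.card X := hMc.card_mul_card
  have hpow : ∀ {s : ℕ}, s.Prime → s ≠ p₀ → s ∣ Nat.card X → s ∣ Nat.card M := by
    intro s hs hsp hd
    rw [← hcard] at hd
    rcases (hs.dvd_mul).1 hd with h | h
    · exact h
    · exfalso
      obtain ⟨n, hn⟩ := IsPGroup.iff_card.1 P.isPGroup'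
      rw [hn] at h
      exact hsp ((Nat.prime_dvd_prime_iff_eq hs hp₀).1 (hs.dvd_of_dvd_pow h))
  have hqM := hpow hq hqp hqd
  have hrM := hpow hr hrp hrd
  -- the coprimality of `M`
  have hMp : ∀ s : ℕ, s.Prime → s ∣ Nat.card M → s ≠ p₀ := by
    rintro s hs hd rfl
    -- `p₀` divides `|M|` contradicts the maximality of `P`
    have h3 : s * Nat.card P ∣ Nat.card X := by
      rw [← hcard]
      exact Nat.mul_dvd_mul_right hd _
    have h4 : Nat.card P = s ^ (Nat.card X).factorization s := P.card_eq_multiplicity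
    rw [h4, ← pow_succ'] at h3
    have h5 := (hs.pow_dvd_iff_le_factorization Nat.card_pos.ne').1 h3
    omega
  -- in `M`: a normal `r`-complement
  obtain ⟨R, K, hKn, hKc⟩ := hasNormalPComplement_of_conds (X := M) (t := r) (h1.subgroup M) (h2.subgroup M)
    (fun s hs hd _ => hMp s hs hd)
  have hcard2 : Nat.card K * Nat.card R = Nat.card M := hKc.card_mul_card
  obtain ⟨n, hn⟩ := IsPGroup.iff_card.1 R.isPGroup'
  have hqK : q ∣ Nat.card K := by
    rw [← hcard2] at hqM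
    rcases (hq.dvd_mul).1 hqM with h | h
    · exact h
    · exfalso
      rw [hn] at h
      exact hqr ((Nat.prime_dvd_prime_iff_eq hq hr).1 (hq.dvd_of_dvd_pow h))
  -- `r` divides the index of `K`
  have hrK : ¬ r ∣ Nat.card K := by
    intro hd
    have h3 : r * Nat.card R ∣ Nat.card M := by
      rw [← hcard2]
      exact Nat.mul_dvd_mul_right hd _
    have h4 : Nat.card R = r ^ (Nat.card M).factorization r := R.card_eq_multiplicity
    rw [h4, ← pow_succ'] at h3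
    have h5 := (hr.pow_dvd_iff_le_factorization Nat.card_pos.ne').1 h3
    omega
  -- Frattini
  haveI := hKn
  let E : Sylow q K := default
  have hE := Sylow.normalizer_sup_eq_top E
  set E' : Subgroup M := (E : Subgroup K).map K.subtype with hE'
  have hE'p : IsPGroup q E' := E.isPGroup'.map _
  have hE'1 : E' ≠ ⊥ := by
    intro hb
    have h3 : (E : Subgroup K) = ⊥ := by
      rw [hE', Subgroup.map_eq_bot_iff_of_injective _ K.subtype_injective] at hb
      exact hb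
    exact Sylow.ne_bot_of_dvd_card E hqK h3
  -- `r` divides the order of the normalizer
  have hrN : r ∣ Nat.card (normalizer (E' : Set M)) := by
    have h3 : K.relIndex (normalizer (E' : Set M)) = K.index := by
      rw [← Subgroup.relIndex_sup_right, hE, Subgroup.relIndex_top_right]
    have h4 : r ∣ K.index := by
      have h5 : Nat.card K * K.index = Nat.card M := K.card_mul_index
      rw [← h5] at hrM
      exact ((hr.dvd_mul).1 hrM).resolve_left hrK
    rw [← h3] at h4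
    exact h4.trans (Subgroup.relIndex_dvd_card _ _)
  obtain ⟨g, hg⟩ := exists_prime_orderOf_dvd_card' r hrN
  exact not_normalize_pGroup (h1.subgroup M) (h2.subgroup M) hr hrp (Ne.symm hqr) hE'p hE'1 g.2
    (by rw [Subgroup.orderOf_coe, hg])

end GroupTheory

section Wrapper

variable {G : Type*} [Group G] [Finite G]

/-- Main wrapper: an abelian subgroup `B` of `G`, whose noncentral elements have the property that
elements of `N(B)` fixing one centralize `B`. Then `N(B)/C(B)` cannot have two different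
prime divisors (other than `p₀`), provided the corresponding primary elements exist in `B`. -/
theorem wrapper (B : Subgroup G) (hB : ∀ a ∈ B, ∀ b ∈ B, a * b = b * a) {p₀ : ℕ} (hp₀ : p₀.Prime)
    (hSR : ∀ g ∈ normalizer (B : Set G), ∀ b ∈ B, b ∉ center G → g * b = b * g →
      g ∈ centralizer (B : Set G))
    (hgood : ∀ s : ℕ, s.Prime → s ≠ p₀ → s ∣ (centralizer (B : Set G)).index →
      ∃ a ∈ B, a ∉ center G ∧ ∃ k : ℕ, a ^ (s ^ k) = 1)
    {q r : ℕ} (hq : q.Prime) (hr : r.Prime) (hqp : q ≠ p₀) (hrp : r ≠ p₀) (hqr : q ≠ r) {gq gr : G}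
    (hgq : gq ∈ normalizer (B : Set G)) (hgr : gr ∈ normalizer (B : Set G))
    (hgq1 : gq ∉ centralizer (B : Set G)) (hgr1 : gr ∉ centralizer (B : Set G))
    {kq kr : ℕ} (hgqk : gq ^ (q ^ kq) = 1) (hgrk : gr ^ (r ^ kr) = 1) : False := by
  classical
  letI : CommGroup B := { (inferInstance : Group B) with
    mul_comm := fun a b => Subtype.ext (hB a a.2 b b.2) }
  -- the acting group
  let ρ₀ : normalizer (B : Set G) →* MulAut B := B.normalizerMonoidHom
  have happly : ∀ (g : normalizer (B : Set G)) (b : B), ((ρ₀ g b : B) : G) = (g : G) * b * (g : G)⁻¹ :=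
    fun g b => rfl
  let H : Subgroup (MulAut B) := ρ₀.range
  let ρ : H →* MulAut B := H.subtype
  let Z' : Subgroup B := (center G).subgroupOf B
  haveI : Finite (normalizer (B : Set G)) := inferInstance
  haveI : Finite H := Set.finite_range _ |>.to_subtype
  haveI : Finite B := inferInstance
  have hmemZ : ∀ b : B, b ∈ Z' ↔ (b : G) ∈ center G := fun b => Iff.rfl
  have hker : ∀ g : normalizer (B : Set G), ρ₀ g = 1 ↔ (g : G) ∈ centralizer (B : Set G) := by
    intro g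
    constructor
    · intro h1
      rw [mem_centralizer_iff]
      intro b hb
      have h2 := happly g ⟨b, hb⟩
      rw [h1, MulAut.one_apply] at h2
      have h2' : b = (g : G) * b * (g : G)⁻¹ := h2
      exact eq_mul_inv_iff_mul_eq.1 h2'
    · intro h1
      ext b
      rw [mem_centralizer_iff] at h1
      have h2 := h1 b b.2
      rw [happly, MulAut.one_apply]
      rw [← h2]
      group
  have hSRd : SR ρ Z' := by
    constructor
    · rintro ⟨h, g, rfl⟩ z hz
      apply Subtype.ext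
      show ((ρ₀ g z : B) : G) = z
      rw [happly]
      have hz' : (z : G) ∈ center G := hz
      have := (mem_center_iff.1 hz') (g : G)
      rw [this]
      group
    · rintro ⟨h, g, rfl⟩ h1 b hb
      have hb' : ((ρ₀ g b : B) : G) = b := congrArg Subtype.val hb
      rw [happly] at hb'
      by_contra hbZ
      have h2 : (g : G) * b = b * g := (mul_inv_eq_iff_eq_mul.1 hb')
      have h3 := hSR g g.2 b b.2 hbZ h2
      apply h1
      apply Subtype.ext
      exact (hker g).2 h3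
  -- primary elements
  have hcardH : Nat.card H ∣ (centralizer (B : Set G)).index := by
    have h1 : Nat.card H = ρ₀.ker.index := (Subgroup.index_ker ρ₀).symm
    have h2 : ρ₀.ker = (centralizer (B : Set G)).subgroupOf (normalizer (B : Set G)) := by
      ext g
      rw [MonoidHom.mem_ker, hker, mem_subgroupOf]
    rw [h1, h2]
    have h3 : centralizer (B : Set G) ≤ normalizer (B : Set G) := Subgroup.centralizer_le_normalizer _
    exact (Subgroup.relIndex_mul_index h3) ▸ dvd_mul_right _ _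
  have hgood' : ∀ s : ℕ, s.Prime → s ≠ p₀ → s ∣ Nat.card H →
      ∃ a : B, a ∉ Z' ∧ ∃ k : ℕ, a ^ (s ^ k) = 1 := by
    intro s hs hsp hd
    obtain ⟨a, haB, haZ, k, hk⟩ := hgood s hs hsp (hd.trans hcardH)
    exact ⟨⟨a, haB⟩, haZ, k, Subtype.ext hk⟩
  have hN1 : N1 p₀ H := by
    intro s ℓ hs hℓ hsp hsℓ h u hh hu c hc
    haveI : Fact s.Prime := ⟨hs⟩
    obtain ⟨a, haZ, k, hk⟩ := hgood' s hs hsp (by rw [← hh]; exact orderOf_dvd_natCard h)
    refine no_normalize hSRd hℓ (Ne.symm hsℓ) ?_ (by rw [← hh]; exact pow_orderOf_eq_one h) ?_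
      (by rw [← hu]; exact pow_orderOf_eq_one u) hc hk haZ
    · rintro rfl
      rw [orderOf_one] at hh
      exact hs.one_lt.ne hh
    · rintro rfl
      rw [orderOf_one] at hu
      exact hℓ.one_lt.ne hu
  -- the two primes divide the order of `H`
  have hdvd : ∀ {s k : ℕ} {g : G}, s.Prime → g ∈ normalizer (B : Set G) → g ∉ centralizer (B : Set G) →
      g ^ (s ^ k) = 1 → s ∣ Nat.card H := by
    intro s k g hs hg hg1 hgk
    let h : H := ⟨ρ₀ ⟨g, hg⟩, ⟨g, hg⟩, rfl⟩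
    have h1 : h ≠ 1 := by
      intro h2
      apply hg1
      exact (hker ⟨g, hg⟩).1 (congrArg Subtype.val h2)
    have h2 : h ^ (s ^ k) = 1 := by
      apply Subtype.ext
      show (ρ₀ ⟨g, hg⟩) ^ (s ^ k) = 1
      rw [← map_pow]
      have : (⟨g, hg⟩ : normalizer (B : Set G)) ^ (s ^ k) = 1 := Subtype.ext hgk
      rw [this, map_one]
    have h3 : orderOf h ∣ s ^ k := orderOf_dvd_of_pow_eq_one h2
    obtain ⟨j, -, hj⟩ := (Nat.dvd_prime_pow hs).1 h3
    have hj0 : j ≠ 0 := by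
      rintro rfl
      rw [pow_zero, orderOf_eq_one_iff] at hj
      exact h1 hj
    exact (dvd_pow_self s hj0).trans (hj ▸ orderOf_dvd_natCard h)
  have hqd : q ∣ Nat.card H := hdvd hq hgq hgq1 hgqk
  have hrd : r ∣ Nat.card H := hdvd hr hgr hgr1 hgrk
  have hR1 : R1 H := by
    intro ℓ hℓ u v hu hv huv hne
    have hu1 : u ≠ 1 := by
      rintro rfl
      rw [orderOf_one] at hu
      exact hℓ.one_lt.ne hu
    have hu' : u ^ ℓ = 1 := by rw [← hu]; exact pow_orderOf_eq_one u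
    have hv' : v ^ ℓ = 1 := by rw [← hv]; exact pow_orderOf_eq_one v
    by_cases hqℓ : q = ℓ
    · have hrℓ : ℓ ≠ r := fun h => hqr (hqℓ.trans h)
      obtain ⟨a, haZ, k, hk⟩ := hgood' r hr hrp hrd
      exact no_rank_two hSRd hℓ ((Nat.coprime_primes hℓ hr).2 hrℓ) hu1 hu' hv' huv hne hk haZ
    · obtain ⟨a, haZ, k, hk⟩ := hgood' q hq hqp hqd
      exact no_rank_two hSRd hℓ ((Nat.coprime_primes hℓ hq).2 (Ne.symm hqℓ)) hu1 hu' hv' huv hne hk haZ
  exact no_two_primes hp₀ hq hr hN1 hR1 hqp hrp hqr hqd hrd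

/-- Rank one, at the level of a subgroup `L` normalizing `B`. -/
theorem wrapper_rank1 (B : Subgroup G) (hB : ∀ a ∈ B, ∀ b ∈ B, a * b = b * a) (L : Subgroup G)
    (hL : L ≤ normalizer (B : Set G))
    (hSR : ∀ g ∈ L, ∀ b ∈ B, b ∉ center G → g * b = b * g → g ∈ centralizer (B : Set G))
    {ℓ s : ℕ} (hℓ : ℓ.Prime) (hcop : ℓ.Coprime s) {c₁ c₂ : G} (hc₁ : c₁ ∈ L) (hc₂ : c₂ ∈ L)
    (h1 : c₁ ∉ centralizer (B : Set G)) (h2 : c₁ ^ ℓ ∈ centralizer (B : Set G))
    (h3 : c₂ ^ ℓ ∈ centralizer (B : Set G)) (h4 : c₁ * c₂ * c₁⁻¹ * c₂⁻¹ ∈ centralizer (B : Set G))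
    (h5 : ∀ i : ℕ, c₂ * (c₁ ^ i)⁻¹ ∉ centralizer (B : Set G))
    {a₀ : G} (ha₀B : a₀ ∈ B) (ha₀ : a₀ ∉ center G) {k : ℕ} (hk : a₀ ^ (s ^ k) = 1) : False := by
  classical
  letI : CommGroup B := { (inferInstance : Group B) with
    mul_comm := fun a b => Subtype.ext (hB a a.2 b b.2) }
  let ρ₀ : L →* MulAut B := B.normalizerMonoidHom.comp (Subgroup.inclusion hL)
  have happly : ∀ (g : L) (b : B), ((ρ₀ g b : B) : G) = (g : G) * b * (g : G)⁻¹ :=
    fun g b => rfl
  let H : Subgroup (MulAut B) := ρ₀.range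
  let ρ : H →* MulAut B := H.subtype
  let Z' : Subgroup B := (center G).subgroupOf B
  haveI : Finite B := inferInstance
  have hker : ∀ g : L, ρ₀ g = 1 ↔ (g : G) ∈ centralizer (B : Set G) := by
    intro g
    constructor
    · intro h1
      rw [mem_centralizer_iff]
      intro b hb
      have h2 := happly g ⟨b, hb⟩
      rw [h1, MulAut.one_apply] at h2
      have h2' : b = (g : G) * b * (g : G)⁻¹ := h2
      exact eq_mul_inv_iff_mul_eq.1 h2'
    · intro h1
      ext b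
      rw [mem_centralizer_iff] at h1
      have h2 := h1 b b.2
      rw [happly, MulAut.one_apply]
      rw [← h2]
      group
  have hSRd : SR ρ Z' := by
    constructor
    · rintro ⟨h, g, rfl⟩ z hz
      apply Subtype.ext
      show ((ρ₀ g z : B) : G) = z
      rw [happly]
      have hz' : (z : G) ∈ center G := hz
      have := (mem_center_iff.1 hz') (g : G)
      rw [this]
      group
    · rintro ⟨h, g, rfl⟩ h1 b hb
      have hb' : ((ρ₀ g b : B) : G) = b := congrArg Subtype.val hb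
      rw [happly] at hb'
      by_contra hbZ
      have h2 : (g : G) * b = b * g := (mul_inv_eq_iff_eq_mul.1 hb')
      have h3 := hSR g g.2 b b.2 hbZ h2
      apply h1
      apply Subtype.ext
      exact (hker g).2 h3
  let l₁ : L := ⟨c₁, hc₁⟩
  let l₂ : L := ⟨c₂, hc₂⟩
  let u : H := ⟨ρ₀ l₁, l₁, rfl⟩
  let v : H := ⟨ρ₀ l₂, l₂, rfl⟩
  have hu1 : u ≠ 1 := by
    intro h
    exact h1 ((hker l₁).1 (congrArg Subtype.val h))
  have hu' : u ^ ℓ = 1 := by
    apply Subtype.ext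
    show (ρ₀ l₁) ^ ℓ = 1
    rw [← map_pow]
    exact (hker _).2 h2
  have hv' : v ^ ℓ = 1 := by
    apply Subtype.ext
    show (ρ₀ l₂) ^ ℓ = 1
    rw [← map_pow]
    exact (hker _).2 h3
  have huv : u * v = v * u := by
    apply Subtype.ext
    show (ρ₀ l₁) * (ρ₀ l₂) = (ρ₀ l₂) * (ρ₀ l₁)
    have h6 : ρ₀ (l₁ * l₂ * l₁⁻¹ * l₂⁻¹) = 1 := (hker _).2 h4
    simp only [map_mul, map_inv] at h6
    have h7 : ρ₀ l₁ * ρ₀ l₂ * (ρ₀ l₁)⁻¹ = ρ₀ l₂ := mul_inv_eq_one.1 h6
    exact mul_inv_eq_iff_eq_mul.1 h7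
  have hne : ∀ i : ℕ, v ≠ u ^ i := by
    intro i hi
    have h6 : ρ₀ l₂ = (ρ₀ l₁) ^ i := congrArg Subtype.val hi
    apply h5 i
    have h7 : ρ₀ (l₂ * (l₁ ^ i)⁻¹) = 1 := by
      rw [map_mul, map_inv, map_pow, h6]
      simp
    exact (hker _).1 h7
  exact no_rank_two hSRd hℓ hcop hu1 hu' hv' huv hne (a₀ := ⟨a₀, ha₀B⟩) (k₀ := k)
    (Subtype.ext hk) ha₀

end Wrapper

end Cfsg.Agent.Lib.H73Rep
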