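import Mathlib
import Cfsg.Agent.Lib.H73Rep
import Cfsg.Agent.Lib.ItoTwo

/-!
# Two-prime exclusion for groups whose `p₀`-regular classes have two sizes
-/

set_option autoImplicit false
set_option linter.style.haveILetI false
set_option linter.unusedVariables false
set_option linter.unusedSectionVars false
open scoped Pointwise

namespace Cfsg.Agent.Lib.H73Core

open Subgroup Cfsg.Agent.Lib.ItoTwo Cfsg.Agent.Lib.H73Rep

variable {G : Type*} [Group G] [Finite G] {p₀ k : ℕ}

/-- Regular elements. -/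
abbrev Reg (p₀ : ℕ) (x : G) : Prop := (orderOf x).Coprime p₀

/-- The hypothesis: regular elements have centralizers of index `1` or `k`. -/
abbrev Hyp (p₀ k : ℕ) (G : Type*) [Group G] : Prop :=
  ∀ x : G, (orderOf x).Coprime p₀ → (cen x).index = 1 ∨ (cen x).index = k

theorem isPrimary_reg {s : ℕ} (hs : s.Prime) (hp₀ : p₀.Prime) (hne : s ≠ p₀) {x : G} (hx : IsPrimary s x) :
    Reg p₀ x := by
  obtain ⟨e, he⟩ := hx
  have h1 : orderOf x ∣ s ^ e := orderOf_dvd_of_pow_eq_one he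
  exact Nat.Coprime.coprime_dvd_left h1 (Nat.Coprime.pow_left _ ((Nat.coprime_primes hs hp₀).2 hne))

theorem reg_mul {x y : G} (hxy : x * y = y * x) (hx : Reg p₀ x) (hy : Reg p₀ y) : Reg p₀ (x * y) := by
  have hc : Commute x y := hxy
  exact Nat.Coprime.coprime_dvd_left hc.orderOf_mul_dvd_mul_orderOf (Nat.Coprime.mul_left hx hy)

theorem reg_pow {x : G} (hx : Reg p₀ x) (n : ℕ) : Reg p₀ (x ^ n) :=
  Nat.Coprime.coprime_dvd_left (orderOf_pow_dvd n) hx

theorem index_of_not_center (h : Hyp p₀ k G) {x : G} (hr : Reg p₀ x) (hx : x ∉ center G) : (cen x).index = k := by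
  rcases h x hr with h1 | h1
  · exact absurd (index_cen_eq_one_iff.1 h1) hx
  · exact h1

theorem card_cen_eq (h : Hyp p₀ k G) {x y : G} (hrx : Reg p₀ x) (hry : Reg p₀ y)
    (hx : x ∉ center G) (hy : y ∉ center G) : Nat.card (cen x) = Nat.card (cen y) := by
  have h1 := card_mul_index (cen x)
  have h2 := card_mul_index (cen y)
  rw [index_of_not_center h hrx hx] at h1
  rw [index_of_not_center h hry hy] at h2
  have hn0 : k ≠ 0 := by
    rw [← index_of_not_center h hrx hx]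
    exact index_ne_zero_of_finite
  exact Nat.eq_of_mul_eq_mul_right (Nat.pos_of_ne_zero hn0) (h1.trans h2.symm)

theorem relIndex_cen_eq (h : Hyp p₀ k G) {x y : G} (hrx : Reg p₀ x) (hry : Reg p₀ y)
    (hx : x ∉ center G) (hy : y ∉ center G) :
    (center G).relIndex (cen x) = (center G).relIndex (cen y) := by
  have h1 := relIndex_mul_index (center_le_cen x)
  have h2 := relIndex_mul_index (center_le_cen y)
  rw [index_of_not_center h hrx hx] at h1
  rw [index_of_not_center h hry hy] at h2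
  have hn0 : k ≠ 0 := by
    rw [← index_of_not_center h hrx hx]
    exact index_ne_zero_of_finite
  exact Nat.eq_of_mul_eq_mul_right (Nat.pos_of_ne_zero hn0) (h1.trans h2.symm)

theorem cen_eq_of_commute (h : Hyp p₀ k G) {x y : G} (hrx : Reg p₀ x) (hry : Reg p₀ y)
    (hx : x ∉ center G) (hy : y ∉ center G) (hxy : x * y = y * x)
    (hc : (orderOf x).Coprime (orderOf y)) : cen x = cen y := by
  have hm : x * y ∉ center G := fun hm => hx (mem_center_of_mul_mem_center hxy hc hm)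
  have hr : Reg p₀ (x * y) := reg_mul hxy hrx hry
  have h1 : cen (x * y) = cen x ⊓ cen y := cen_mul_eq_inf hxy hc
  have h2 : cen (x * y) = cen x := by
    apply Subgroup.eq_of_le_of_card_ge
    · rw [h1]; exact inf_le_left
    · rw [card_cen_eq h hr hrx hm hx]
  have h3 : cen (x * y) = cen y := by
    apply Subgroup.eq_of_le_of_card_ge
    · rw [h1]; exact inf_le_right
    · rw [card_cen_eq h hr hry hm hy]
  rw [← h2, h3]

/-- Elements of a Sylow subgroup are primary. -/
theorem isPrimary_of_mem_sylow {t : ℕ} [Fact t.Prime] (P : Sylow t G) {c : G} (hc : c ∈ (P : Subgroup G)) :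
    IsPrimary t c := by
  obtain ⟨e, he⟩ := IsPGroup.iff_orderOf.1 P.isPGroup' ⟨c, hc⟩
  refine ⟨e, ?_⟩
  have := pow_orderOf_eq_one (⟨c, hc⟩ : (P : Subgroup G))
  rw [he] at this
  exact congrArg Subtype.val this

/-- A noncentral Sylow subgroup has an element in the second centre. This holds whenever the
center of the Sylow subgroup is central. -/
theorem anchor_of {t : ℕ} [ht : Fact t.Prime] (P : Sylow t G) (hP : ¬ (P : Subgroup G) ≤ center G)
    (hZP : ∀ z ∈ (P : Subgroup G), (∀ y ∈ (P : Subgroup G), y * z = z * y) → z ∈ center G) :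
    ∃ a ∈ (P : Subgroup G), a ∉ center G ∧ ∀ g ∈ (P : Subgroup G), g * a * g⁻¹ * a⁻¹ ∈ center G := by
  classical
  let A : Subgroup G := (P : Subgroup G)
  have hpA : IsPGroup t A := P.isPGroup'
  haveI hnt : Nontrivial (A ⧸ center A) := by
    by_contra hns
    rw [not_nontrivial_iff_subsingleton] at hns
    apply hP
    intro x hx
    have h1 : ((⟨x, hx⟩ : A) : A ⧸ center A) = 1 := Subsingleton.elim _ _
    have h2 : (⟨x, hx⟩ : A) ∈ center A := (QuotientGroup.eq_one_iff _).1 h1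
    apply hZP x hx
    intro y hy
    have h3 := (mem_center_iff.1 h2) ⟨y, hy⟩
    exact congrArg Subtype.val h3
  haveI hcq := (hpA.to_quotient (center A)).center_nontrivial
  obtain ⟨⟨c, hc⟩, hc1⟩ := exists_ne (1 : center (A ⧸ center A))
  induction c using QuotientGroup.induction_on with
  | H a₀ =>
    refine ⟨a₀, a₀.2, ?_, ?_⟩
    · intro ha
      apply hc1
      apply Subtype.ext
      have : a₀ ∈ center A := by
        rw [mem_center_iff]
        intro g
        apply Subtype.ext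
        exact ((mem_center_iff.1 ha) (g : G))
      exact (QuotientGroup.eq_one_iff _).2 this
    · intro g hg
      let g₀ : A := ⟨g, hg⟩
      have h1 := (mem_center_iff.1 hc) (g₀ : A ⧸ center A)
      have h2 : g₀ * a₀ * g₀⁻¹ * a₀⁻¹ ∈ center A := by
        rw [← QuotientGroup.eq_one_iff]
        simp only [QuotientGroup.mk_mul, QuotientGroup.mk_inv]
        rw [h1]
        group
      have h3 : ((g₀ * a₀ * g₀⁻¹ * a₀⁻¹ : A) : G) ∈ center G := by
        apply hZP _ (SetLike.coe_mem _)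
        intro y hy
        exact congrArg Subtype.val ((mem_center_iff.1 h2) ⟨y, hy⟩)
      exact h3

section Main

variable (hp₀ : p₀.Prime) (h : Hyp p₀ k G)

include hp₀ h

theorem sylow_anchor (hex : ∃ x : G, Reg p₀ x ∧ x ∉ center G) {t : ℕ} [ht : Fact t.Prime] (htp : t ≠ p₀)
    (htk : t ∣ k) (P : Sylow t G) :
    ¬ (P : Subgroup G) ≤ center G ∧
    ∃ a ∈ (P : Subgroup G), a ∉ center G ∧ ∀ g ∈ (P : Subgroup G), g * a * g⁻¹ * a⁻¹ ∈ center G := by
  obtain ⟨x₀, hrx₀, hx₀⟩ := hex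
  have hnot : ∀ (H : Subgroup G), (P : Subgroup G) ≤ H → ¬ t ∣ H.index := by
    intro H hH hd
    exact P.not_dvd_index (hd.trans (index_dvd_of_le hH))
  have hP : ¬ (P : Subgroup G) ≤ center G := by
    intro hle
    have := hnot _ (hle.trans (center_le_cen x₀))
    rw [index_of_not_center h hrx₀ hx₀] at this
    exact this htk
  refine ⟨hP, anchor_of P hP ?_⟩
  intro z hzP hz
  have h1 : (P : Subgroup G) ≤ cen z := fun y hy => mem_cen.2 (hz y hy)
  have h2 := hnot _ h1
  rcases h z (isPrimary_reg ht.out hp₀ htp (isPrimary_of_mem_sylow P hzP)) with h3 | h3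
  · exact index_cen_eq_one_iff.1 h3
  · rw [h3] at h2
    exact absurd htk h2

/-- A noncentral `s`-element exists in each centralizer. -/
theorem exists_primary_in_cen (hk0 : ∃ x : G, Reg p₀ x ∧ x ∉ center G) {s : ℕ} [hs : Fact s.Prime] (hsp : s ≠ p₀)
    (hsk : s ∣ k) {a : G} (hra : Reg p₀ a) (ha : a ∉ center G) :
    ∃ u ∈ cen a, u ∉ center G ∧ IsPrimary s u := by
  let S : Sylow s G := default
  obtain ⟨hS, b, hbS, hbz, -⟩ := sylow_anchor hp₀ h hk0 hsp hsk S
  have hpb := isPrimary_of_mem_sylow S hbS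
  have h1 : s ∣ (center G).relIndex (cen a) := by
    rw [relIndex_cen_eq h hra (isPrimary_reg hs.out hp₀ hsp hpb) ha hbz]
    exact dvd_relIndex_of_primary hs.out hbz hpb
  haveI := normal_center_subgroupOf (G := G) (cen a)
  exact exists_primary_of_dvd_relIndex hs.out (center G) (cen a) inferInstance h1

/-- Regular elements of the centralizer of a primary element are central in the centralizer. -/
theorem reg_central (hex : ∃ x : G, Reg p₀ x ∧ x ∉ center G) {r s : ℕ} [hr : Fact r.Prime] [hs : Fact s.Prime]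
    (hrs : r ≠ s) (hrp : r ≠ p₀) (hsp : s ≠ p₀) (hsk : s ∣ k) {a : G} (ha : a ∉ center G)
    (hpa : IsPrimary r a) :
    (∀ v ∈ cen a, Reg p₀ v → ∀ w ∈ cen a, w * v = v * w) ∧
      ∀ u ∈ cen a, Reg p₀ u → u ∉ center G → cen u = cen a := by
  classical
  have hra := isPrimary_reg hr.out hp₀ hrp hpa
  obtain ⟨u, hu, huz, hpu⟩ := exists_primary_in_cen hp₀ h hex hsp hsk hra ha
  have hru := isPrimary_reg hs.out hp₀ hsp hpu
  have hcu : cen u = cen a := cen_eq_of_commute h hru hra huz ha (mem_cen.1 hu)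
    (coprime_orderOf_of_isPrimary hs.out hr.out hrs.symm hpu hpa)
  have hcomm : ∀ v ∈ cen a, Reg p₀ v → ∀ w ∈ cen a, w * v = v * w := by
    intro v hv hrv w hw
    obtain ⟨v₁, v₂, h12, hc12, hp1, hc2, hm1, hm2⟩ := exists_primary_split hr.out v
    obtain ⟨n₁, hn₁⟩ := mem_powers_iff_mem_zpowers.2 hm1
    obtain ⟨n₂, hn₂⟩ := mem_powers_iff_mem_zpowers.2 hm2
    have hrv₁ : Reg p₀ v₁ := by
      rw [← hn₁]; exact reg_pow hrv n₁
    have hrv₂ : Reg p₀ v₂ := by
      rw [← hn₂]; exact reg_pow hrv n₂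
    have hv₁ : v₁ ∈ cen a := (zpowers_le.2 hv) hm1
    have hv₂ : v₂ ∈ cen a := (zpowers_le.2 hv) hm2
    have hk2 : w * v₂ = v₂ * w := by
      by_cases hz : v₂ ∈ center G
      · exact ((mem_center_iff.1 hz) w)
      · have hcop : (orderOf v₂).Coprime (orderOf a) := by
          obtain ⟨e, he⟩ := hpa
          exact Nat.Coprime.coprime_dvd_right (orderOf_dvd_of_pow_eq_one he) (Nat.Coprime.pow_right _ hc2)
        have h3 := cen_eq_of_commute h hrv₂ hra hz ha (mem_cen.1 hv₂) hcop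
        rw [← h3] at hw
        exact mem_cen.1 hw
    have hk1 : w * v₁ = v₁ * w := by
      by_cases hz : v₁ ∈ center G
      · exact ((mem_center_iff.1 hz) w)
      · have hv₁' : v₁ ∈ cen u := by rw [hcu]; exact hv₁
        have h3 := cen_eq_of_commute h hrv₁ hru hz huz (mem_cen.1 hv₁')
          (coprime_orderOf_of_isPrimary hr.out hs.out hrs hp1 hpu)
        rw [hcu] at h3
        rw [← h3] at hw
        exact mem_cen.1 hw
    rw [h12]
    calc w * (v₁ * v₂) = (w * v₁) * v₂ := by group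
      _ = (v₁ * w) * v₂ := by rw [hk1]
      _ = v₁ * (w * v₂) := by group
      _ = v₁ * (v₂ * w) := by rw [hk2]
      _ = _ := by group
  refine ⟨hcomm, ?_⟩
  intro u' hu' hru' hu'z
  symm
  apply Subgroup.eq_of_le_of_card_ge
  · intro w hw
    rw [mem_cen]
    exact hcomm u' hu' hru' w hw
  · rw [card_cen_eq h hru' hra hu'z ha]

omit hp₀ h in
/-- Regular elements of a subgroup whose regular elements are central. -/
def regSub (T : Subgroup G) (hT : ∀ v ∈ T, Reg p₀ v → ∀ w ∈ T, w * v = v * w) : Subgroup G where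
  carrier := {v | v ∈ T ∧ Reg p₀ v}
  one_mem' := ⟨one_mem _, by simp [Reg]⟩
  mul_mem' := by
    rintro x y ⟨hx, hrx⟩ ⟨hy, hry⟩
    exact ⟨mul_mem hx hy, reg_mul (hT x hx hrx y hy).symm hrx hry⟩
  inv_mem' := by
    rintro x ⟨hx, hrx⟩
    refine ⟨inv_mem hx, ?_⟩
    show (orderOf x⁻¹).Coprime p₀
    rw [orderOf_inv]
    exact hrx

/-- Anchors of distinct primes have nonconjugate centralizers. -/
theorem not_conj (hex : ∃ x : G, Reg p₀ x ∧ x ∉ center G) {r s : ℕ} [hr : Fact r.Prime] [hs : Fact s.Prime]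
    (hrs : r ≠ s) (hrp : r ≠ p₀) (hsp : s ≠ p₀) (hrk : r ∣ k) (hsk : s ∣ k) (R : Sylow r G) (S : Sylow s G)
    {a b : G} (haR : a ∈ (R : Subgroup G)) (haz : a ∉ center G)
    (hag : ∀ g ∈ (R : Subgroup G), g * a * g⁻¹ * a⁻¹ ∈ center G) (hbS : b ∈ (S : Subgroup G))
    (hbz : b ∉ center G) (hbg : ∀ g ∈ (S : Subgroup G), g * b * g⁻¹ * b⁻¹ ∈ center G) (g₀ : G) :
    g₀ * b * g₀⁻¹ ∉ cen a := by
  classical
  intro hin
  have hpa := isPrimary_of_mem_sylow R haR
  have hpb := isPrimary_of_mem_sylow S hbS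
  have hra := isPrimary_reg hr.out hp₀ hrp hpa
  have hrb := isPrimary_reg hs.out hp₀ hsp hpb
  obtain ⟨hcomm, hcen⟩ := reg_central hp₀ h hex hrs hrp hsp hsk haz hpa
  let B : Subgroup G := regSub (cen a) hcomm
  have hBmem : ∀ x, x ∈ B ↔ x ∈ cen a ∧ Reg p₀ x := fun x => Iff.rfl
  have haB : a ∈ B := (hBmem a).2 ⟨self_mem_cen a, hra⟩
  have hBab : ∀ x ∈ B, ∀ y ∈ B, x * y = y * x := by
    intro x hx y hy
    exact (hcomm y ((hBmem y).1 hy).1 ((hBmem y).1 hy).2 x ((hBmem x).1 hx).1)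
  have hCB : centralizer (B : Set G) = cen a := by
    ext x
    constructor
    · intro hx
      rw [mem_centralizer_iff] at hx
      rw [mem_cen]
      exact (hx a haB).symm
    · intro hx
      rw [mem_centralizer_iff]
      intro y hy
      exact (hcomm y ((hBmem y).1 hy).1 ((hBmem y).1 hy).2 x hx).symm
  have hNorm : ∀ y : G, (∀ u ∈ cen a, y * u * y⁻¹ ∈ cen a) → (∀ u ∈ cen a, y⁻¹ * u * y ∈ cen a) →
      y ∈ normalizer (B : Set G) := by
    intro y h1 h2
    rw [mem_normalizer_iff]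
    intro u
    have hrconj : ∀ v : G, orderOf (y * v * y⁻¹) = orderOf v := fun v =>
      MulEquiv.orderOf_eq (MulAut.conj y) v
    constructor
    · rintro ⟨hu, hru⟩
      refine (hBmem _).2 ⟨h1 u hu, ?_⟩
      show (orderOf _).Coprime p₀
      rw [hrconj]
      exact hru
    · intro hu
      obtain ⟨hu1, hu2⟩ := (hBmem _).1 hu
      refine (hBmem _).2 ⟨?_, ?_⟩
      · have := h2 _ hu1
        have h3 : y⁻¹ * (y * u * y⁻¹) * y = u := by group
        rwa [h3] at this
      · have h3 : orderOf (y * u * y⁻¹) = orderOf u := hrconj u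
        have h4 : (orderOf (y * u * y⁻¹)).Coprime p₀ := hu2
        rw [h3] at h4
        exact h4
  have hSR : ∀ g ∈ normalizer (B : Set G), ∀ b ∈ B, b ∉ center G → g * b = b * g →
      g ∈ centralizer (B : Set G) := by
    intro g _ b' hb' hb'z hc
    rw [hCB, ← hcen b' ((hBmem _).1 hb').1 ((hBmem _).1 hb').2 hb'z]
    exact mem_cen.2 hc
  have hidx : (cen a).index = k := index_of_not_center h hra haz
  have hgood : ∀ s' : ℕ, s'.Prime → s' ≠ p₀ → s' ∣ (centralizer (B : Set G)).index →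
      ∃ c ∈ B, c ∉ center G ∧ ∃ e : ℕ, c ^ (s' ^ e) = 1 := by
    intro s' hs' hs'p hd
    haveI : Fact s'.Prime := ⟨hs'⟩
    rw [hCB, hidx] at hd
    obtain ⟨u, hu, huz, e, he⟩ := exists_primary_in_cen hp₀ h hex hs'p hd hra haz
    exact ⟨u, (hBmem u).2 ⟨hu, isPrimary_reg hs' hp₀ hs'p ⟨e, he⟩⟩, huz, e, he⟩
  -- elements outside
  have hRT : ¬ (R : Subgroup G) ≤ cen a := by
    intro hle
    rw [← hidx] at hrk
    exact R.not_dvd_index (hrk.trans (index_dvd_of_le hle))
  obtain ⟨y₁, hy₁R, hy₁T⟩ := SetLike.not_le_iff_exists.1 hRT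
  have hST : ¬ (S : Subgroup G) ≤ cen b := by
    intro hle
    rw [← index_of_not_center h hrb hbz] at hsk
    exact S.not_dvd_index (hsk.trans (index_dvd_of_le hle))
  obtain ⟨y₂, hy₂S, hy₂T⟩ := SetLike.not_le_iff_exists.1 hST
  -- the centralizer of the conjugate
  have hb₁z : g₀ * b * g₀⁻¹ ∉ center G := by
    intro hz
    apply hbz
    have := conj_mem_center (g := g₀⁻¹) hz
    have h3 : g₀⁻¹ * (g₀ * b * g₀⁻¹) * g₀⁻¹⁻¹ = b := by group
    rwa [h3] at this
  have hrb₁ : Reg p₀ (g₀ * b * g₀⁻¹) := by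
    show (orderOf _).Coprime p₀
    rw [MulEquiv.orderOf_eq (MulAut.conj g₀) b |> fun h => (show orderOf (g₀ * b * g₀⁻¹) = orderOf b from h)]
    exact hrb
  have hcb₁ : cen (g₀ * b * g₀⁻¹) = cen a := hcen _ hin hrb₁ hb₁z
  have hconj : ∀ y ∈ (S : Subgroup G), ∀ u ∈ cen a, (g₀ * y * g₀⁻¹) * u * (g₀ * y * g₀⁻¹)⁻¹ ∈ cen a := by
    intro y hy u hu
    rw [← hcb₁] at hu ⊢
    rw [mem_cen_conj] at hu ⊢
    have h4 := conj_mem_cen_of_comm_central (hbg y hy) hu
    have h5 : g₀⁻¹ * (g₀ * y * g₀⁻¹ * u * (g₀ * y * g₀⁻¹)⁻¹) * g₀ = y * (g₀⁻¹ * u * g₀) * y⁻¹ := by group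
    rw [h5]
    exact h4
  obtain ⟨e₁, he₁⟩ := isPrimary_of_mem_sylow R hy₁R
  obtain ⟨e₂, he₂⟩ := isPrimary_of_mem_sylow S hy₂S
  refine wrapper B hBab hp₀ hSR hgood hr.out hs.out hrp hsp hrs (gq := y₁) (gr := g₀ * y₂ * g₀⁻¹) (kr := e₂) ?_ ?_ ?_ ?_
    he₁ ?_
  · exact hNorm _ (fun u hu => conj_mem_cen_of_comm_central (hag _ hy₁R) hu) (fun u hu => by
      have := conj_mem_cen_of_comm_central (hag _ (inv_mem hy₁R)) hu
      simpa using this)
  · refine hNorm _ (fun u hu => hconj _ hy₂S u hu) (fun u hu => ?_)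
    have := hconj _ (inv_mem hy₂S) u hu
    have h3 : g₀ * y₂⁻¹ * g₀⁻¹ * u * (g₀ * y₂⁻¹ * g₀⁻¹)⁻¹ = (g₀ * y₂ * g₀⁻¹)⁻¹ * u * (g₀ * y₂ * g₀⁻¹) := by group
    rwa [h3] at this
  · rw [hCB]; exact hy₁T
  · rw [hCB, ← hcb₁, mem_cen_conj]
    have h3 : g₀⁻¹ * (g₀ * y₂ * g₀⁻¹) * g₀ = y₂ := by group
    rwa [h3]
  · rw [conj_pow, he₂]
    group

/-- The main inequality. -/
theorem ordProj_lt (hex : ∃ x : G, Reg p₀ x ∧ x ∉ center G) {r s : ℕ} [hr : Fact r.Prime] [hs : Fact s.Prime]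
    (hrs : r ≠ s) (hrp : r ≠ p₀) (hsp : s ≠ p₀) (hrk : r ∣ k) (hsk : s ∣ k) :
    r ^ (k.factorization r) < s ^ (k.factorization s) := by
  classical
  let R : Sylow r G := default
  let S : Sylow s G := default
  obtain ⟨hR, a, haR, haz, hag⟩ := sylow_anchor hp₀ h hex hrp hrk R
  obtain ⟨hS, b, hbS, hbz, hbg⟩ := sylow_anchor hp₀ h hex hsp hsk S
  have hpa := isPrimary_of_mem_sylow R haR
  have hpb := isPrimary_of_mem_sylow S hbS
  have hra := isPrimary_reg hr.out hp₀ hrp hpa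
  have hrb := isPrimary_reg hs.out hp₀ hsp hpb
  obtain ⟨hcomm, hcen⟩ := reg_central hp₀ h hex hrs hrp hsp hsk haz hpa
  have hnc := not_conj hp₀ h hex hrs hrp hsp hrk hsk R S haR haz hag hbS hbz hbg
  have hidx : (cen a).index = k := index_of_not_center h hra haz
  have hk0 : k ≠ 0 := by
    rw [← hidx]
    exact index_ne_zero_of_finite
  let B : Subgroup G := regSub (cen a) hcomm
  have hBmem : ∀ x, x ∈ B ↔ x ∈ cen a ∧ Reg p₀ x := fun x => Iff.rfl
  -- `[B : Z ∩ B]` divides `k`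
  have hcbar : (center G).relIndex B ∣ k := by
    rw [← index_of_not_center h hrb hbz, ← ncard_class]
    apply dvd_ncard_conj B
    · rintro g - _ ⟨e, rfl⟩
      exact ⟨g * e, by group⟩
    · rintro _ ⟨e, rfl⟩
      have hx := hnc e
      have hinf : cen (e * b * e⁻¹) ⊓ B = center G ⊓ B := by
        apply le_antisymm
        · rintro u ⟨hu1, hu2⟩
          refine ⟨?_, hu2⟩
          by_contra huz
          apply hx
          rw [← hcen u ((hBmem u).1 hu2).1 ((hBmem u).1 hu2).2 huz, mem_cen]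
          exact (mem_cen.1 hu1).symm
        · exact inf_le_inf_right _ (center_le_cen _)
      rw [← inf_relIndex_right (cen (e * b * e⁻¹)) B, hinf, inf_relIndex_right]
  -- the `s`-part of `B`
  let Q : Subgroup G :=
    { carrier := {u | u ∈ cen a ∧ IsPrimary s u}
      one_mem' := ⟨one_mem _, 0, by simp⟩
      mul_mem' := by
        rintro u v ⟨hu, e, he⟩ ⟨hv, l, hl⟩
        refine ⟨mul_mem hu hv, e + l, ?_⟩
        have hc : Commute u v := (hcomm v hv (isPrimary_reg hs.out hp₀ hsp ⟨l, hl⟩) u hu)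
        rw [hc.mul_pow, pow_add, pow_mul, he, one_pow, one_mul, mul_comm, pow_mul, hl, one_pow]
      inv_mem' := by
        rintro u ⟨hu, e, he⟩
        exact ⟨inv_mem hu, e, by rw [inv_pow, he, inv_one]⟩ }
  have hQmem : ∀ u, u ∈ Q ↔ u ∈ cen a ∧ IsPrimary s u := fun u => Iff.rfl
  have hQp : IsPGroup s Q := by
    rintro ⟨u, hu⟩
    obtain ⟨e, he⟩ := ((hQmem u).1 hu).2
    exact ⟨e, Subtype.ext he⟩
  have hQT : Q ≤ cen a := fun u hu => ((hQmem u).1 hu).1
  have hQB : Q ≤ B := fun u hu => (hBmem u).2 ⟨((hQmem u).1 hu).1, isPrimary_reg hs.out hp₀ hsp ((hQmem u).1 hu).2⟩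
  -- the set of noncentral elements of `Q`
  let Ω : Set G := {u | u ∈ Q ∧ u ∉ center G}
  have hm : r ^ (k.factorization r) ∣ Ω.ncard := by
    apply dvd_ncard_conj (R : Subgroup G)
    · rintro g hg u ⟨hu, huz⟩
      refine ⟨(hQmem _).2 ⟨conj_mem_cen_of_comm_central (hag g hg) ((hQmem u).1 hu).1, ?_⟩, ?_⟩
      · obtain ⟨e, he⟩ := ((hQmem u).1 hu).2
        refine ⟨e, ?_⟩
        rw [conj_pow, he]
        group
      · intro hz
        apply huz
        have := conj_mem_center (g := g⁻¹) hz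
        have h3 : g⁻¹ * (g * u * g⁻¹) * g⁻¹⁻¹ = u := by group
        rwa [h3] at this
    · rintro u ⟨hu, huz⟩
      rw [hcen u ((hQmem u).1 hu).1 (isPrimary_reg hs.out hp₀ hsp ((hQmem u).1 hu).2) huz]
      have := ordProj_index_dvd_relIndex R (cen a)
      rwa [hidx] at this
  -- counting `Ω`
  let d := Nat.card ((center G).subgroupOf Q)
  let e := (center G).relIndex Q
  have hde : d * e = Nat.card Q := card_mul_index _
  have hd0 : 0 < d := Nat.card_pos
  have hcount : Ω.ncard + d = Nat.card Q := by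
    have hsub : ((Q ⊓ center G : Subgroup G) : Set G) ⊆ (Q : Set G) := fun u hu => hu.1
    have h1 := Set.ncard_sdiff_add_ncard_of_subset hsub (Set.toFinite _)
    have h2 : (Q : Set G) \ ((Q ⊓ center G : Subgroup G) : Set G) = Ω := by
      ext u
      constructor
      · rintro ⟨h3, h4⟩
        exact ⟨h3, fun h5 => h4 ⟨h3, h5⟩⟩
      · rintro ⟨h3, h4⟩
        exact ⟨h3, fun h5 => h4 h5.2⟩
    have h3 : ((Q : Set G)).ncard = Nat.card Q := by rw [← Nat.card_coe_set_eq]; rfl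
    have h4 : (((Q ⊓ center G : Subgroup G) : Set G)).ncard = d := by
      rw [← Nat.card_coe_set_eq]
      apply Nat.card_congr
      exact ⟨fun x => ⟨⟨x.1, x.2.1⟩, x.2.2⟩, fun x => ⟨x.1.1, x.1.2, x.2⟩, fun _ => rfl, fun _ => rfl⟩
    rw [h2, h3, h4] at h1
    exact h1
  -- `d` is a power of `s`
  obtain ⟨j, hj⟩ := IsPGroup.iff_card.1 (hQp.to_subgroup ((center G).subgroupOf Q))
  have hcop : Nat.Coprime (r ^ (k.factorization r)) d := by
    show Nat.Coprime _ (Nat.card ((center G).subgroupOf Q))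
    rw [hj]
    exact Nat.Coprime.pow _ _ ((Nat.coprime_primes hr.out hs.out).2 hrs)
  have hΩ : Ω.ncard = d * (e - 1) := by
    have : 1 ≤ e := Nat.pos_of_ne_zero (by
      show ((center G).subgroupOf Q).index ≠ 0
      exact index_ne_zero_of_finite)
    obtain ⟨e', he'⟩ : ∃ e', e = e' + 1 := ⟨e - 1, by omega⟩
    rw [he', Nat.add_sub_cancel, mul_comm]
    have : d * (e' + 1) = Nat.card Q := by rw [← he']; exact hde
    nlinarith [this, hcount]
  have hm2 : r ^ (k.factorization r) ∣ e - 1 := by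
    rw [hΩ] at hm
    exact hcop.dvd_of_dvd_mul_left hm
  -- `e ≠ 1`
  have he1 : e ≠ 1 := by
    intro he
    have hle : Q ≤ center G := relIndex_eq_one.1 he
    obtain ⟨u, huc, huz, hpu⟩ := exists_primary_in_cen hp₀ h hex hsp hsk hra haz
    exact huz (hle ((hQmem u).2 ⟨huc, hpu⟩))
  have he0 : e ≠ 0 := by
    show ((center G).subgroupOf Q).index ≠ 0
    exact index_ne_zero_of_finite
  have hepos : 0 < e - 1 := by omega
  have hle1 : r ^ (k.factorization r) ≤ e - 1 := Nat.le_of_dvd hepos hm2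
  -- `e` divides the `s`-part of `k`
  have hedvd : e ∣ (center G).relIndex B := by
    haveI := normal_center_subgroupOf (G := G) B
    have h1 := relIndex_dvd_index_of_normal ((center G).subgroupOf B) (Q.subgroupOf B)
    rwa [relIndex_subgroupOf hQB] at h1
  obtain ⟨i, hi⟩ : ∃ i, e = s ^ i := by
    have h1 : e ∣ Nat.card Q := ⟨d, by rw [← hde, mul_comm]⟩
    obtain ⟨q, hq⟩ := IsPGroup.iff_card.1 hQp
    rw [hq] at h1
    obtain ⟨i, -, hi⟩ := (Nat.dvd_prime_pow hs.out).1 h1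
    exact ⟨i, hi⟩
  have hen : s ^ i ∣ k := by
    rw [← hi]
    exact hedvd.trans hcbar
  have hle2 : i ≤ k.factorization s := (hs.out.pow_dvd_iff_le_factorization hk0).1 hen
  have hle3 : e ≤ s ^ (k.factorization s) := by
    rw [hi]
    exact Nat.pow_le_pow_right hs.out.pos hle2
  omega

end Main

/-- **Two-prime exclusion**. -/
theorem core (hp₀ : p₀.Prime) (h : Hyp p₀ k G) (hex : ∃ x : G, Reg p₀ x ∧ x ∉ center G) {r s : ℕ} (hr : r.Prime)
    (hs : s.Prime) (hrs : r ≠ s) (hrp : r ≠ p₀) (hsp : s ≠ p₀) (hrk : r ∣ k) (hsk : s ∣ k) : False := by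
  haveI : Fact r.Prime := ⟨hr⟩
  haveI : Fact s.Prime := ⟨hs⟩
  exact lt_asymm (ordProj_lt hp₀ h hex hrs hrp hsp hrk hsk) (ordProj_lt hp₀ h hex hrs.symm hsp hrp hsk hrk)

end Cfsg.Agent.Lib.H73Core
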