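import Cfsg.Agent.Lib.H97Lin

/-!
Subalgebras of the matrix algebra normalised by an irreducible group: they are semisimple; central ones are matrix
algebras; commutative ones give an imprimitive decomposition or a field.
-/

set_option autoImplicit false
set_option linter.unusedSectionVars false
set_option linter.style.haveILetI false

namespace Cfsg.Agent.H97.Asch

open Matrix Cfsg Cfsg.Geo
open scoped MatrixGroups

variable {ι : Type} [Fintype ι] [DecidableEq ι] {F : Type*} [Field F]

/-- the group `H` normalises the subalgebra `B`. -/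
def NormAlg (H : Subgroup (GL ι F)) (B : Subalgebra F (Matrix ι ι F)) : Prop :=
  ∀ h ∈ H, ∀ b ∈ B, (h : Matrix ι ι F) * b * ((h⁻¹ : GL ι F) : Matrix ι ι F) ∈ B

/-- the ring hom from a subalgebra to the endomorphisms of column vectors -/
noncomputable def algToEnd (B : Subalgebra F (Matrix ι ι F)) : B →+* Module.End F (ι → F) :=
  (Matrix.toLinAlgEquiv' : Matrix ι ι F ≃ₐ[F] Module.End F (ι → F)).toAlgHom.toRingHom.comp B.val.toRingHom

/-- the module structure of the column vectors over a subalgebra -/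
@[reducible] noncomputable def algModule (B : Subalgebra F (Matrix ι ι F)) : Module B (ι → F) :=
  Module.compHom (ι → F) (algToEnd B)

theorem algModule_smul (B : Subalgebra F (Matrix ι ι F)) (b : B) (v : ι → F) :
    (algModule B).toSMul.smul b v = (b : Matrix ι ι F) *ᵥ v := by
  rfl

/-- `H` translates of a `B`-submodule. -/
noncomputable def transB {H : Subgroup (GL ι F)} {B : Subalgebra F (Matrix ι ι F)} (hB : NormAlg H B)
    {h : GL ι F} (hh : h ∈ H) (U : @Submodule B (ι → F) _ _ (algModule B)) :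
    @Submodule B (ι → F) _ _ (algModule B) :=
  letI := algModule B
  { carrier := {v | ((h⁻¹ : GL ι F) : Matrix ι ι F) *ᵥ v ∈ U}
    add_mem' := fun {a b} ha hb => by
      simp only [Set.mem_ofPred_eq] at ha hb ⊢
      rw [Matrix.mulVec_add]
      exact U.add_mem ha hb
    zero_mem' := by
      simp only [Set.mem_ofPred_eq, Matrix.mulVec_zero]
      exact U.zero_mem
    smul_mem' := fun c x hx => by
      simp only [Set.mem_ofPred_eq] at hx ⊢
      have hc : ((h⁻¹ : GL ι F) : Matrix ι ι F) * (c : Matrix ι ι F) * (h : Matrix ι ι F) ∈ B := by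
        have := hB h⁻¹ (H.inv_mem hh) c c.2
        simpa using this
      have h2 : (((h⁻¹ : GL ι F) : Matrix ι ι F) * (c : Matrix ι ι F) * (h : Matrix ι ι F)) *ᵥ
          (((h⁻¹ : GL ι F) : Matrix ι ι F) *ᵥ x) ∈ U := U.smul_mem (⟨_, hc⟩ : B) hx
      have e : (((h⁻¹ : GL ι F) : Matrix ι ι F) * (c : Matrix ι ι F) * (h : Matrix ι ι F)) *ᵥ
          (((h⁻¹ : GL ι F) : Matrix ι ι F) *ᵥ x) = ((h⁻¹ : GL ι F) : Matrix ι ι F) *ᵥ ((c : Matrix ι ι F) *ᵥ x) := by
        rw [← Matrix.mulVec_mulVec, gl_mulVec_inv, Matrix.mulVec_mulVec]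
      rw [e] at h2
      exact h2 }

theorem mem_transB {H : Subgroup (GL ι F)} {B : Subalgebra F (Matrix ι ι F)} (hB : NormAlg H B)
    {h : GL ι F} (hh : h ∈ H) (U : @Submodule B (ι → F) _ _ (algModule B)) (v : ι → F) :
    v ∈ transB hB hh U ↔ ((h⁻¹ : GL ι F) : Matrix ι ι F) *ᵥ v ∈ U := Iff.rfl

theorem isAtom_transB {H : Subgroup (GL ι F)} {B : Subalgebra F (Matrix ι ι F)} (hB : NormAlg H B)
    {h : GL ι F} (hh : h ∈ H) {U : @Submodule B (ι → F) _ _ (algModule B)} (hU : IsAtom U) :
    IsAtom (transB hB hh U) := by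
  letI := algModule B
  refine ⟨?_, fun U' hU' => ?_⟩
  · intro hb
    apply hU.1
    rw [eq_bot_iff]
    intro u hu
    have h1 : (h : Matrix ι ι F) *ᵥ u ∈ transB hB hh U := by
      rw [mem_transB, gl_inv_mulVec]
      exact hu
    rw [hb, Submodule.mem_bot] at h1
    rw [Submodule.mem_bot]
    exact gl_mulVec_injective h (by simpa using h1)
  · have hinv := H.inv_mem hh
    have hlt : transB hB hinv U' < U := by
      refine lt_of_le_of_ne ?_ ?_
      · intro v hv
        rw [mem_transB, inv_inv] at hv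
        have h1 := hU'.le hv
        rw [mem_transB, gl_inv_mulVec] at h1
        exact h1
      · intro he
        apply hU'.ne
        apply le_antisymm hU'.le
        intro v hv
        rw [mem_transB] at hv
        rw [← he, mem_transB, inv_inv, gl_mulVec_inv] at hv
        exact hv
    have hb := hU.2 _ hlt
    rw [eq_bot_iff]
    intro v hv
    have h1 : ((h⁻¹ : GL ι F) : Matrix ι ι F) *ᵥ v ∈ transB hB hinv U' := by
      rw [mem_transB, inv_inv, gl_mulVec_inv]
      exact hv
    rw [hb, Submodule.mem_bot] at h1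
    rw [Submodule.mem_bot]
    exact gl_mulVec_injective h⁻¹ (by simpa using h1)

/-- a subalgebra normalised by an irreducible group acts semisimply on column vectors. -/
theorem isSemisimpleModule_of_normAlg [Finite F] [Nonempty ι] {H : Subgroup (GL ι F)} (hH : Irr H)
    {B : Subalgebra F (Matrix ι ι F)} (hB : NormAlg H B) :
    @IsSemisimpleModule B _ (ι → F) _ (algModule B) := by
  classical
  letI := algModule B
  haveI : Finite (ι → F) := inferInstance
  haveI : Finite (Submodule B (ι → F)) := by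
    have : Function.Injective (fun U : Submodule B (ι → F) => (U : Set (ι → F))) :=
      SetLike.coe_injective
    exact Finite.of_injective _ this
  haveI : Nontrivial (Submodule B (ι → F)) := by
    have : Nontrivial (ι → F) := inferInstance
    infer_instance
  obtain ⟨U, hU⟩ := IsAtomic.exists_atom (Submodule B (ι → F))
  apply IsSemisimpleModule.of_sSup_simples_eq_top
  -- the sum of the translates
  let S : Submodule B (ι → F) := ⨆ h : H, transB hB h.2 U
  have hSs : S ≤ sSup {m : Submodule B (ι → F) | IsSimpleModule B m} := by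
    refine iSup_le fun h => le_sSup ?_
    exact isSimpleModule_iff_isAtom.mpr (isAtom_transB hB h.2 hU)
  -- the sum is `H`-stable
  have hcB : ∀ c : F, (c • (1 : Matrix ι ι F)) ∈ B := fun c => B.smul_mem B.one_mem c
  let SF : Submodule F (ι → F) :=
    { carrier := S
      add_mem' := fun ha hb => S.add_mem ha hb
      zero_mem' := S.zero_mem
      smul_mem' := fun c x hx => by
        have h2 : (c • (1 : Matrix ι ι F)) *ᵥ x ∈ S := S.smul_mem (⟨c • (1 : Matrix ι ι F), hcB c⟩ : B) hx
        rw [Matrix.smul_mulVec, Matrix.one_mulVec] at h2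
        exact h2 }
  have hst : Stable H SF := by
    intro g hg x hx
    have hx' : x ∈ S := hx
    show (g : Matrix ι ι F) *ᵥ x ∈ S
    -- the translate by `g` of `S` is contained in `S`
    have hle : S ≤ transB hB (H.inv_mem hg) S := by
      refine iSup_le fun h => ?_
      intro v hv
      rw [mem_transB, inv_inv]
      have h1 : (g : Matrix ι ι F) *ᵥ v ∈ transB hB (H.mul_mem hg h.2) U := by
        rw [mem_transB] at hv ⊢
        rw [_root_.mul_inv_rev, gl_mulVec_mul, gl_inv_mulVec]
        exact hv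
      exact (le_iSup (fun h : H => transB hB h.2 U) ⟨g * h, H.mul_mem hg h.2⟩) h1
    have := hle hx'
    rwa [mem_transB, inv_inv] at this
  have hSF0 : SF ≠ ⊥ := by
    intro hb
    apply hU.1
    rw [eq_bot_iff]
    intro u hu
    have h1 : u ∈ transB hB (H.one_mem) U := by
      rw [mem_transB]
      simpa using hu
    have h2 : u ∈ S := (le_iSup (fun h : H => transB hB h.2 U) ⟨1, H.one_mem⟩) h1
    have h3 : u ∈ SF := h2
    rw [hb] at h3
    exact h3
  have hSFt : SF = ⊤ := (hH SF hst).resolve_left hSF0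
  rw [eq_top_iff]
  intro v _
  have : v ∈ SF := by rw [hSFt]; trivial
  exact hSs this

/-- a subalgebra normalised by an irreducible group is semisimple. -/
theorem isSemisimpleRing_of_normAlg [Finite F] [Nonempty ι] {H : Subgroup (GL ι F)} (hH : Irr H)
    {B : Subalgebra F (Matrix ι ι F)} (hB : NormAlg H B) : IsSemisimpleRing B := by
  classical
  letI := algModule B
  haveI := isSemisimpleModule_of_normAlg hH hB
  haveI : Module.Finite F B := inferInstance
  haveI : IsArtinianRing B := IsArtinianRing.of_finite F B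
  rw [IsArtinianRing.isSemisimpleRing_iff_jacobson, eq_bot_iff]
  intro b hb
  have h1 := IsSemisimpleModule.jacobson_le_annihilator (R := B) (M := ι → F) hb
  rw [Module.mem_annihilator] at h1
  rw [Ideal.mem_bot]
  apply Subtype.ext
  apply Matrix.toLin'.injective
  apply LinearMap.ext
  intro v
  have h2 : (b : Matrix ι ι F) *ᵥ v = 0 := h1 v
  simpa [Matrix.toLin'_apply] using h2

/-- a finite semisimple algebra with centre the scalars is a matrix algebra. -/
theorem exists_matrix_of_central {R : Type*} [Ring R] [Nontrivial R] [Algebra F R] [Finite F] [Module.Finite F R]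
    [IsSemisimpleRing R] (hZ : ∀ z : R, (∀ x : R, z * x = x * z) → ∃ c : F, z = algebraMap F R c) :
    ∃ (d : ℕ) (_ : NeZero d), Nonempty (Matrix (Fin d) (Fin d) F ≃ₐ[F] R) := by
  classical
  obtain ⟨k, D, d, _, _, _, hd, ⟨e⟩⟩ := IsSemisimpleRing.exists_algEquiv_pi_matrix_divisionRing_finite F R
  -- `R` is finite
  haveI : Finite R := Module.finite_of_finite F
  have hmat : ∀ i, Nontrivial (Matrix (Fin (d i)) (Fin (d i)) (D i)) := fun i => by
    haveI := hd i
    infer_instance
  -- the number of factors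
  have hk0 : k ≠ 0 := by
    rintro rfl
    have : Subsingleton R := e.toEquiv.subsingleton
    exact not_subsingleton R this
  have hk1 : k = 1 := by
    by_contra hk
    have hk2 : 2 ≤ k := by omega
    let i0 : Fin k := ⟨0, by omega⟩
    let i1 : Fin k := ⟨1, by omega⟩
    have hne : i1 ≠ i0 := by simp [i0, i1, Fin.ext_iff]
    let δ₀ : Π i, Matrix (Fin (d i)) (Fin (d i)) (D i) := fun i => if i = i0 then 1 else 0
    have hcen : ∀ x : R, e.symm δ₀ * x = x * e.symm δ₀ := by
      intro x
      apply e.injective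
      rw [map_mul, map_mul, AlgEquiv.apply_symm_apply]
      funext i
      simp only [Pi.mul_apply, δ₀]
      split_ifs <;> simp
    obtain ⟨c, hc⟩ := hZ _ hcen
    have h1 : δ₀ = e (algebraMap F R c) := by
      rw [← hc, AlgEquiv.apply_symm_apply]
    have h2 : δ₀ = algebraMap F _ c := by
      rw [h1, AlgEquiv.commutes]
    have e0 := congrFun h2 i0
    have e1 := congrFun h2 i1
    simp only [δ₀, if_true, hne, if_false] at e0 e1
    have e0' : (1 : Matrix (Fin (d i0)) (Fin (d i0)) (D i0)) = algebraMap F _ c := e0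
    have e1' : (0 : Matrix (Fin (d i1)) (Fin (d i1)) (D i1)) = algebraMap F _ c := e1
    have hc0 : c = 0 := by
      by_contra hc0
      haveI := hmat i1
      have hu : IsUnit (algebraMap F (Matrix (Fin (d i1)) (Fin (d i1)) (D i1)) c) :=
        (IsUnit.mk0 c hc0).map _
      rw [← e1'] at hu
      exact not_isUnit_zero hu
    rw [hc0, map_zero] at e0'
    haveI := hmat i0
    exact one_ne_zero e0'
  subst hk1
  let i0 : Fin 1 := 0
  haveI := hd i0
  let M := Matrix (Fin (d i0)) (Fin (d i0)) (D i0)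
  -- reduce to one factor
  have hevb : Function.Bijective (Pi.evalAlgHom F (fun i => Matrix (Fin (d i)) (Fin (d i)) (D i)) i0) := by
    constructor
    · intro a b hab
      funext i
      rw [Fin.fin_one_eq_zero i]
      exact hab
    · intro a
      refine ⟨fun i => ?_, ?_⟩
      · rw [Fin.fin_one_eq_zero i]
        exact a
      · rfl
  let e₁ : R ≃ₐ[F] M := e.trans (AlgEquiv.ofBijective _ hevb)
  -- `D` is finite, hence commutative
  haveI hfin : Finite (D i0) := Module.finite_of_finite F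
  have hcomm : ∀ a b : D i0, a * b = b * a := (littleWedderburn (D i0)).mul_comm
  have hD : ∀ δ : D i0, ∃ c : F, δ = algebraMap F (D i0) c := by
    intro δ
    have hcen : ∀ x : R, e₁.symm (Matrix.scalar _ δ) * x = x * e₁.symm (Matrix.scalar _ δ) := by
      intro x
      apply e₁.injective
      rw [map_mul, map_mul, AlgEquiv.apply_symm_apply]
      ext a b
      rw [Matrix.scalar_apply, Matrix.diagonal_mul, Matrix.mul_diagonal]
      exact hcomm _ _
    obtain ⟨c, hc⟩ := hZ _ hcen
    refine ⟨c, ?_⟩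
    have h1 : (Matrix.scalar _ δ : M) = e₁ (algebraMap F R c) := by
      rw [← hc, AlgEquiv.apply_symm_apply]
    rw [AlgEquiv.commutes] at h1
    have h2 := congrFun (congrFun h1 0) 0
    have h3 : (algebraMap F (Matrix (Fin (d i0)) (Fin (d i0)) (D i0)) c) 0 0 = algebraMap F (D i0) c := by
      rw [Matrix.algebraMap_matrix_apply, if_pos rfl]
    have h4 : δ = (algebraMap F (Matrix (Fin (d i0)) (Fin (d i0)) (D i0)) c) 0 0 := by
      simpa using h2
    rw [h4, h3]
  have hbij : Function.Bijective (Algebra.ofId F (D i0)) :=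
    ⟨(algebraMap F (D i0)).injective, fun δ => by
      obtain ⟨c, hc⟩ := hD δ
      exact ⟨c, hc.symm⟩⟩
  let e₂ : F ≃ₐ[F] D i0 := AlgEquiv.ofBijective _ hbij
  exact ⟨d i0, hd i0, ⟨(AlgEquiv.mapMatrix e₂).trans e₁.symm⟩⟩

/-- an imprimitive decomposition preserved by `H`. -/
def Class2 (H : Subgroup (GL ι F)) : Prop :=
  ∃ (t m : ℕ) (D : Fin t → Submodule F (ι → F)), IsMDecomposition m D ∧ H ≤ decompositionStabilizer D

/-- a field extension normalised by `H`. -/
def Class3 (H : Subgroup (GL ι F)) : Prop :=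
  ∃ (r : ℕ) (K : Subalgebra F (Matrix ι ι F)), r.Prime ∧ IsFieldSubalgebra r K ∧ H ≤ subalgebraNormalizer K

theorem conj_conj_inv (h : GL ι F) (x y : Matrix ι ι F) :
    ((h : Matrix ι ι F) * x * ((h⁻¹ : GL ι F) : Matrix ι ι F)) * ((h : Matrix ι ι F) * y * ((h⁻¹ : GL ι F) : Matrix ι ι F)) =
      (h : Matrix ι ι F) * (x * y) * ((h⁻¹ : GL ι F) : Matrix ι ι F) := by
  calc _ = (h : Matrix ι ι F) * x * (((h⁻¹ : GL ι F) : Matrix ι ι F) * (h : Matrix ι ι F)) * y * ((h⁻¹ : GL ι F) : Matrix ι ι F) := by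
        simp only [Matrix.mul_assoc]
    _ = _ := by
        rw [← Units.val_mul, inv_mul_cancel, Units.val_one, Matrix.mul_one]
        simp only [Matrix.mul_assoc]

theorem conj_inv_conj (h : GL ι F) (x : Matrix ι ι F) :
    ((h⁻¹ : GL ι F) : Matrix ι ι F) * ((h : Matrix ι ι F) * x * ((h⁻¹ : GL ι F) : Matrix ι ι F)) * (h : Matrix ι ι F) = x := by
  calc _ = (((h⁻¹ : GL ι F) : Matrix ι ι F) * (h : Matrix ι ι F)) * x * (((h⁻¹ : GL ι F) : Matrix ι ι F) * (h : Matrix ι ι F)) := by
        simp only [Matrix.mul_assoc]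
    _ = x := by rw [← Units.val_mul, inv_mul_cancel, Units.val_one, Matrix.mul_one, Matrix.one_mul]

theorem conj_conj_inv' (h : GL ι F) (x : Matrix ι ι F) :
    (h : Matrix ι ι F) * (((h⁻¹ : GL ι F) : Matrix ι ι F) * x * (h : Matrix ι ι F)) * ((h⁻¹ : GL ι F) : Matrix ι ι F) = x := by
  calc _ = ((h : Matrix ι ι F) * ((h⁻¹ : GL ι F) : Matrix ι ι F)) * x * ((h : Matrix ι ι F) * ((h⁻¹ : GL ι F) : Matrix ι ι F)) := by
        simp only [Matrix.mul_assoc]
    _ = x := by rw [← Units.val_mul, mul_inv_cancel, Units.val_one, Matrix.mul_one, Matrix.one_mul]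

/-- the range of a conjugate. -/
theorem map_range_conj (h : GL ι F) (f : Matrix ι ι F) :
    (LinearMap.range (Matrix.toLin' f)).map (Matrix.toLin' (h : Matrix ι ι F)) =
      LinearMap.range (Matrix.toLin' ((h : Matrix ι ι F) * f * ((h⁻¹ : GL ι F) : Matrix ι ι F))) := by
  ext v
  constructor
  · rintro ⟨_, ⟨u, rfl⟩, rfl⟩
    refine ⟨(h : Matrix ι ι F) *ᵥ u, ?_⟩
    simp only [Matrix.toLin'_apply]
    rw [← Matrix.mulVec_mulVec, gl_inv_mulVec, Matrix.mulVec_mulVec]
  · rintro ⟨u, rfl⟩
    refine ⟨f *ᵥ (((h⁻¹ : GL ι F) : Matrix ι ι F) *ᵥ u), ⟨_, rfl⟩, ?_⟩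
    simp only [Matrix.toLin'_apply]
    rw [← Matrix.mulVec_mulVec, ← Matrix.mulVec_mulVec]

theorem finrank_range_conj (h : GL ι F) (f : Matrix ι ι F) :
    Module.finrank F (LinearMap.range (Matrix.toLin' ((h : Matrix ι ι F) * f * ((h⁻¹ : GL ι F) : Matrix ι ι F)))) =
      Module.finrank F (LinearMap.range (Matrix.toLin' f)) := by
  rw [← map_range_conj]
  exact LinearEquiv.finrank_map_eq (glE h) _

theorem idem_eq_one_of_range {e : Matrix ι ι F} (he : e * e = e) (hr : LinearMap.range (Matrix.toLin' e) = ⊤) :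
    e = 1 := by
  apply Matrix.toLin'.injective
  apply LinearMap.ext
  intro v
  have hv : v ∈ LinearMap.range (Matrix.toLin' e) := by rw [hr]; trivial
  obtain ⟨u, rfl⟩ := hv
  simp only [Matrix.toLin'_apply, Matrix.mulVec_mulVec, he, Matrix.toLin'_one, LinearMap.id_apply]

/-- Imprimitivity from a non-trivial idempotent in a commutative normalised subalgebra. -/
theorem class2_of_idem [Finite F] [Nonempty ι] {H : Subgroup (GL ι F)} (hH : Irr H)
    {A : Subalgebra F (Matrix ι ι F)} (hA : NormAlg H A) (hcomm : ∀ x ∈ A, ∀ y ∈ A, x * y = y * x)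
    {e : Matrix ι ι F} (heA : e ∈ A) (hee : e * e = e) (he0 : e ≠ 0) (he1 : e ≠ 1) : Class2 H := by
  classical
  set rk : Matrix ι ι F → ℕ := fun f => Module.finrank F (LinearMap.range (Matrix.toLin' f)) with hrk
  let S : Set (Matrix ι ι F) := {f | f ∈ A ∧ f * f = f ∧ f ≠ 0}
  have hSfin : S.Finite := Set.toFinite S
  obtain ⟨e₀, ⟨he₀A, he₀e, he₀0⟩, hmin⟩ := Set.exists_min_image S rk hSfin ⟨e, heA, hee, he0⟩
  have hrkpos : 0 < rk e₀ := by
    rw [hrk, Module.finrank_pos_iff, Submodule.nontrivial_iff_ne_bot]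
    intro hb
    apply he₀0
    rw [LinearMap.range_eq_bot] at hb
    exact Matrix.toLin'.injective (by simpa using hb)
  -- conjugates
  let c : GL ι F → Matrix ι ι F := fun h => (h : Matrix ι ι F) * e₀ * ((h⁻¹ : GL ι F) : Matrix ι ι F)
  have hcA : ∀ h ∈ H, c h ∈ A := fun h hh => hA h hh e₀ he₀A
  have hcc : ∀ h, c h * c h = c h := fun h => by
    simp only [c]
    rw [conj_conj_inv, he₀e]
  have hc0 : ∀ h, c h ≠ 0 := by
    intro h h0
    apply he₀0
    have := conj_inv_conj h e₀
    rw [← this]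
    show ((h⁻¹ : GL ι F) : Matrix ι ι F) * (c h) * (h : Matrix ι ι F) = 0
    rw [h0]
    simp
  have hcrk : ∀ h, rk (c h) = rk e₀ := fun h => finrank_range_conj h e₀
  -- primitivity
  have hprim0 : ∀ f ∈ A, f * f = f → f * e₀ = 0 ∨ f * e₀ = e₀ := by
    intro f hf hff
    by_cases h0 : f * e₀ = 0
    · exact Or.inl h0
    right
    have hfe : f * e₀ = e₀ * f := hcomm f hf e₀ he₀A
    have hmem : f * e₀ ∈ S := by
      refine ⟨A.mul_mem hf he₀A, ?_, h0⟩
      calc f * e₀ * (f * e₀) = f * (e₀ * f) * e₀ := by simp only [Matrix.mul_assoc]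
        _ = f * (f * e₀) * e₀ := by rw [hfe]
        _ = (f * f) * (e₀ * e₀) := by simp only [Matrix.mul_assoc]
        _ = f * e₀ := by rw [hff, he₀e]
    have hle : LinearMap.range (Matrix.toLin' (f * e₀)) ≤ LinearMap.range (Matrix.toLin' e₀) := by
      rintro _ ⟨u, rfl⟩
      refine ⟨f *ᵥ u, ?_⟩
      simp only [Matrix.toLin'_apply, Matrix.mulVec_mulVec, hfe]
    have heq : LinearMap.range (Matrix.toLin' (f * e₀)) = LinearMap.range (Matrix.toLin' e₀) :=
      Submodule.eq_of_le_of_finrank_le hle (hmin _ hmem)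
    apply Matrix.toLin'.injective
    apply LinearMap.ext
    intro v
    have hv : Matrix.toLin' e₀ v ∈ LinearMap.range (Matrix.toLin' (f * e₀)) := by
      rw [heq]
      exact ⟨v, rfl⟩
    obtain ⟨u, hu⟩ := hv
    simp only [Matrix.toLin'_apply] at hu ⊢
    have h1 : (f * e₀) *ᵥ v = f *ᵥ (e₀ *ᵥ v) := (Matrix.mulVec_mulVec _ _ _).symm
    rw [h1, ← hu, Matrix.mulVec_mulVec, ← Matrix.mul_assoc, hff]
  have hprim : ∀ h ∈ H, ∀ f ∈ A, f * f = f → f * c h = 0 ∨ f * c h = c h := by
    intro h hh f hf hff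
    have hf' : ((h⁻¹ : GL ι F) : Matrix ι ι F) * f * (h : Matrix ι ι F) ∈ A := by
      have := hA h⁻¹ (H.inv_mem hh) f hf
      simpa using this
    have hff' : (((h⁻¹ : GL ι F) : Matrix ι ι F) * f * (h : Matrix ι ι F)) *
        (((h⁻¹ : GL ι F) : Matrix ι ι F) * f * (h : Matrix ι ι F)) =
        ((h⁻¹ : GL ι F) : Matrix ι ι F) * f * (h : Matrix ι ι F) := by
      have := conj_conj_inv h⁻¹ f f
      simp only [inv_inv] at this
      rw [this, hff]
    have key : f * c h = (h : Matrix ι ι F) * ((((h⁻¹ : GL ι F) : Matrix ι ι F) * f * (h : Matrix ι ι F)) * e₀) *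
        ((h⁻¹ : GL ι F) : Matrix ι ι F) := by
      have := conj_conj_inv h (((h⁻¹ : GL ι F) : Matrix ι ι F) * f * (h : Matrix ι ι F)) e₀
      rw [← this, conj_conj_inv']
    rcases hprim0 _ hf' hff' with h0 | h1
    · left
      rw [key, h0]
      simp
    · right
      rw [key, h1]
  -- the orbit
  let O : Set (Matrix ι ι F) := Set.range (fun h : H => c h)
  have hOfin : Finite O := Set.toFinite O |>.to_subtype
  obtain ⟨t, ⟨φ⟩⟩ := Finite.exists_equiv_fin O
  let f : Fin t → Matrix ι ι F := fun i => (φ.symm i : Matrix ι ι F)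
  have hfO : ∀ i, ∃ h : H, f i = c h := fun i => by
    obtain ⟨h, hh⟩ := (φ.symm i).2
    exact ⟨h, hh.symm⟩
  have hfinj : Function.Injective f := fun i j hij => φ.symm.injective (Subtype.ext hij)
  have hfA : ∀ i, f i ∈ A := fun i => by
    obtain ⟨h, hh⟩ := hfO i
    rw [hh]
    exact hcA h h.2
  have hfi : ∀ i, f i * f i = f i := fun i => by
    obtain ⟨h, hh⟩ := hfO i
    rw [hh]
    exact hcc h
  have hf0 : ∀ i, f i ≠ 0 := fun i => by
    obtain ⟨h, hh⟩ := hfO i
    rw [hh]
    exact hc0 h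
  have hfrk : ∀ i, rk (f i) = rk e₀ := fun i => by
    obtain ⟨h, hh⟩ := hfO i
    rw [hh]
    exact hcrk h
  have horth : ∀ i j, i ≠ j → f i * f j = 0 := by
    intro i j hij
    obtain ⟨h, hh⟩ := hfO j
    obtain ⟨k, hk⟩ := hfO i
    by_contra hne
    have h1 : f i * f j = f j := by
      rcases hprim h h.2 (f i) (hfA i) (hfi i) with h0 | h1
      · rw [hh] at hne
        exact absurd h0 hne
      · rw [hh]
        exact h1
    have h2 : f j * f i = f i := by
      have hne' : f j * f i ≠ 0 := by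
        rw [hcomm _ (hfA j) _ (hfA i)]
        exact hne
      rcases hprim k k.2 (f j) (hfA j) (hfi j) with h0 | h1
      · rw [hk] at hne'
        exact absurd h0 hne'
      · rw [hk]
        exact h1
    apply hij
    apply hfinj
    exact h2.symm.trans ((hcomm _ (hfA j) _ (hfA i)).trans h1)
  -- the action on the orbit
  have hact : ∀ h ∈ H, ∀ i, ∃ j, (h : Matrix ι ι F) * f i * ((h⁻¹ : GL ι F) : Matrix ι ι F) = f j := by
    intro h hh i
    obtain ⟨k, hk⟩ := hfO i
    have hmem : (h : Matrix ι ι F) * f i * ((h⁻¹ : GL ι F) : Matrix ι ι F) ∈ O := by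
      refine ⟨⟨h * k, H.mul_mem hh k.2⟩, ?_⟩
      simp only [c, hk]
      rw [Units.val_mul, _root_.mul_inv_rev, Units.val_mul]
      simp only [Matrix.mul_assoc]
    refine ⟨φ ⟨_, hmem⟩, ?_⟩
    simp [f]
  choose! π hπ using hact
  have hπinj : ∀ h ∈ H, Function.Injective (π h) := by
    intro h hh i j hij
    apply hfinj
    have h1 := hπ h hh i
    have h2 := hπ h hh j
    rw [hij, ← h2] at h1
    have h3 := congrArg (fun x => ((h⁻¹ : GL ι F) : Matrix ι ι F) * x * (h : Matrix ι ι F)) h1
    simp only [conj_inv_conj] at h3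
    exact h3
  have hπb : ∀ h ∈ H, Function.Bijective (π h) := fun h hh =>
    Finite.injective_iff_bijective.mp (hπinj h hh)
  -- the sum
  let E : Matrix ι ι F := ∑ i, f i
  have hEf : ∀ i, E * f i = f i := by
    intro i
    simp only [E]
    rw [Finset.sum_mul, Finset.sum_eq_single i]
    · exact hfi i
    · intro j _ hj
      exact horth j i hj
    · simp
  have hEE : E * E = E := by
    conv_lhs => rw [show E * E = E * ∑ i, f i from rfl, Finset.mul_sum]
    exact Finset.sum_congr rfl fun i _ => hEf i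
  have hEconj : ∀ h ∈ H, (h : Matrix ι ι F) * E * ((h⁻¹ : GL ι F) : Matrix ι ι F) = E := by
    intro h hh
    simp only [E]
    rw [Finset.mul_sum, Finset.sum_mul]
    have : ∀ i, (h : Matrix ι ι F) * f i * ((h⁻¹ : GL ι F) : Matrix ι ι F) = f (π h i) := hπ h hh
    rw [Finset.sum_congr rfl (fun i _ => this i)]
    exact Function.Bijective.sum_comp (hπb h hh) f
  have ht0 : Nonempty (Fin t) := by
    have : (⟨c 1, ⟨⟨1, H.one_mem⟩, rfl⟩⟩ : O) = φ.symm (φ ⟨c 1, ⟨⟨1, H.one_mem⟩, rfl⟩⟩) := by simp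
    exact ⟨φ ⟨c 1, ⟨⟨1, H.one_mem⟩, rfl⟩⟩⟩
  have hE1 : E = 1 := by
    apply idem_eq_one_of_range hEE
    have hst : Stable H (LinearMap.range (Matrix.toLin' E)) := by
      rintro g hg _ ⟨u, rfl⟩
      refine ⟨(g : Matrix ι ι F) *ᵥ u, ?_⟩
      simp only [Matrix.toLin'_apply]
      rw [Matrix.mulVec_mulVec, Matrix.mulVec_mulVec]
      have h1 : (g : Matrix ι ι F) * E = E * (g : Matrix ι ι F) := by
        have h2 := hEconj g hg
        calc (g : Matrix ι ι F) * E = ((g : Matrix ι ι F) * E * ((g⁻¹ : GL ι F) : Matrix ι ι F)) * (g : Matrix ι ι F) := by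
              rw [Matrix.mul_assoc, ← Units.val_mul, inv_mul_cancel, Units.val_one, Matrix.mul_one]
          _ = _ := by rw [h2]
      rw [h1]
    refine (hH _ hst).resolve_left ?_
    intro hb
    rw [LinearMap.range_eq_bot] at hb
    have hE0 : E = 0 := Matrix.toLin'.injective (by simpa using hb)
    obtain ⟨i⟩ := ht0
    apply hf0 i
    rw [← hEf i, hE0, Matrix.zero_mul]
  -- e₀ is not one
  have hrke : rk e₀ < Fintype.card ι := by
    have h1 : rk e₀ ≤ rk e := hmin e ⟨heA, hee, he0⟩
    have h2 : rk e < Fintype.card ι := by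
      have h3 : rk e ≤ Module.finrank F (ι → F) := Submodule.finrank_le _
      rw [Module.finrank_fintype_fun_eq_card] at h3
      refine lt_of_le_of_ne h3 ?_
      intro h4
      apply he1
      apply idem_eq_one_of_range hee
      apply Submodule.eq_top_of_finrank_eq
      rw [Module.finrank_fintype_fun_eq_card]
      exact h4
    omega
  have htwo : 2 ≤ t := by
    by_contra hlt
    have ht1 : t = 1 := by
      have := Fintype.card_pos_iff.mpr ht0
      rw [Fintype.card_fin] at this
      omega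
    subst ht1
    have h1 : E = f 0 := by
      simp only [E]
      rw [Fin.sum_univ_one]
    have h2 : rk (f 0) = Fintype.card ι := by
      rw [← h1, hE1]
      have h3 : LinearMap.range (Matrix.toLin' (1 : Matrix ι ι F)) = ⊤ := by
        rw [Matrix.toLin'_one]
        exact LinearMap.range_id
      show Module.finrank F (LinearMap.range (Matrix.toLin' (1 : Matrix ι ι F))) = _
      rw [h3, finrank_top, Module.finrank_fintype_fun_eq_card]
    rw [hfrk] at h2
    omega
  refine ⟨t, rk e₀, fun i => LinearMap.range (Matrix.toLin' (f i)), ⟨htwo, hrkpos, fun i => hfrk i, ?_, ?_⟩, ?_⟩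
  · -- independence
    rw [iSupIndep_def]
    intro i
    rw [Submodule.disjoint_def]
    intro x hx hx2
    obtain ⟨u, rfl⟩ := hx
    have hle : (⨆ j, ⨆ (_ : j ≠ i), LinearMap.range (Matrix.toLin' (f j))) ≤
        LinearMap.ker (Matrix.toLin' (f i)) := by
      refine iSup₂_le fun j hj => ?_
      rintro _ ⟨w, rfl⟩
      rw [LinearMap.mem_ker]
      simp only [Matrix.toLin'_apply, Matrix.mulVec_mulVec]
      rw [horth i j (Ne.symm hj), Matrix.zero_mulVec]
    have h0 := hle hx2
    rw [LinearMap.mem_ker] at h0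
    simp only [Matrix.toLin'_apply, Matrix.mulVec_mulVec, hfi] at h0 ⊢
    exact h0
  · -- spanning
    rw [eq_top_iff]
    intro v _
    have hv : v = ∑ i, (f i) *ᵥ v := by
      have h1 : E *ᵥ v = v := by rw [hE1, Matrix.one_mulVec]
      rw [← Matrix.sum_mulVec]
      exact h1.symm
    rw [hv]
    refine Submodule.sum_mem _ fun i _ => ?_
    exact Submodule.mem_iSup_of_mem i ⟨v, rfl⟩
  · -- stabiliser
    intro h hh
    refine ⟨Equiv.ofBijective (π h) (hπb h hh), fun i => ?_⟩
    rw [map_range_conj, hπ h hh]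
    rfl

/-- in a commutative normalised subalgebra, either there is an imprimitive decomposition or every non-zero element
is invertible. -/
theorem comm_case [Finite F] [Nonempty ι] {H : Subgroup (GL ι F)} (hH : Irr H)
    {A : Subalgebra F (Matrix ι ι F)} (hA : NormAlg H A) (hcomm : ∀ x ∈ A, ∀ y ∈ A, x * y = y * x) :
    Class2 H ∨ ∀ x ∈ A, x ≠ 0 → ∃ y ∈ A, x * y = 1 := by
  classical
  by_cases hid : ∃ e ∈ A, e * e = e ∧ e ≠ 0 ∧ e ≠ 1
  · obtain ⟨e, he, h1, h2, h3⟩ := hid
    exact Or.inl (class2_of_idem hH hA hcomm he h1 h2 h3)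
  right
  push Not at hid
  intro x hx hx0
  have hsemi : IsSemisimpleRing A := isSemisimpleRing_of_normAlg hH hA
  -- `x` has an idempotent power
  have : Finite A := inferInstance
  obtain ⟨a, b, hab, hpow⟩ : ∃ a b : ℕ, a < b ∧ x ^ a = x ^ b := by
    have hfin : Finite (Matrix ι ι F) := inferInstance
    obtain ⟨a, b, hne, he⟩ := Finite.exists_ne_map_eq_of_infinite (fun k : ℕ => x ^ k)
    rcases lt_or_gt_of_ne hne with h | h
    · exact ⟨a, b, h, he⟩
    · exact ⟨b, a, h, he.symm⟩
  set d := b - a with hd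
  have hd0 : 0 < d := by omega
  have hper : ∀ k, x ^ (a + k * d) = x ^ a := by
    intro k
    induction k with
    | zero => simp
    | succ k ih =>
      have e1 : a + (k + 1) * d = (a + d) + k * d := by ring
      have e2 : a + d = b := by omega
      rw [e1, e2, pow_add, ← hpow, ← pow_add, ih]
  set N := (a + 1) * d with hN
  have hN0 : 0 < N := by positivity
  have hNa : a ≤ N := by nlinarith
  have hper2 : ∀ m, a ≤ m → ∀ k, x ^ (m + k * d) = x ^ m := by
    intro m hm k
    obtain ⟨c, rfl⟩ := Nat.exists_eq_add_of_le hm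
    have e1 : a + c + k * d = (a + k * d) + c := by ring
    rw [e1, pow_add, hper, ← pow_add]
  have hidem : x ^ N * x ^ N = x ^ N := by
    rw [← pow_add]
    exact hper2 N hNa (a + 1)
  have hmem : x ^ N ∈ A := A.pow_mem hx N
  by_cases h0 : x ^ N = 0
  · exfalso
    -- reducedness
    letI : CommRing A := { (inferInstance : Ring A) with
      mul_comm := fun u v => Subtype.ext (hcomm u u.2 v v.2) }
    haveI : IsSemisimpleRing A := hsemi
    have hr : IsReduced A := inferInstance
    have h2 : (⟨x, hx⟩ : A) ^ N = 0 := Subtype.ext (by simpa using h0)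
    have h3 : IsNilpotent (⟨x, hx⟩ : A) := ⟨N, h2⟩
    have h4 := hr.eq_zero _ h3
    exact hx0 (congrArg Subtype.val h4)
  · have h1 := by_contra fun hne => hne (hid _ hmem hidem h0)
    have h1' : x ^ N = 1 := h1
    refine ⟨x ^ (N - 1), A.pow_mem hx _, ?_⟩
    rw [← pow_succ', Nat.sub_add_cancel hN0, h1']

/-- a finite field, and the fixed points of a power map. -/
theorem card_fixed_pow {K : Type*} [Field K] [Finite K] {Q : ℕ} (hQ : 1 < Q) (hdvd : Q - 1 ∣ Nat.card K - 1) :
    Nat.card {x : K // x ^ Q = x} = Q := by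
  classical
  have : Fintype K := Fintype.ofFinite K
  have hQ1 : 0 < Q - 1 := by omega
  let G := Kˣ
  have hGcard : Nat.card G = Nat.card K - 1 := by
    rw [Nat.card_units]
  have hker : Nat.card (powMonoidHom (Q - 1) : G →* G).ker = Q - 1 := by
    rw [IsCyclic.card_powMonoidHom_ker, hGcard]
    exact Nat.gcd_eq_right hdvd
  let φ : Option (powMonoidHom (Q - 1) : G →* G).ker → {x : K // x ^ Q = x} := fun o =>
    match o with
    | none => ⟨0, by rw [zero_pow (by omega)]⟩
    | some u => ⟨((u : G) : K), by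
        have hu : (u : G) ^ (Q - 1) = 1 := u.2
        have h1 : ((u : G) : K) ^ (Q - 1) = 1 := by
          rw [← Units.val_pow_eq_pow_val, hu, Units.val_one]
        calc ((u : G) : K) ^ Q = ((u : G) : K) ^ (Q - 1 + 1) := by rw [Nat.sub_add_cancel (by omega)]
          _ = ((u : G) : K) := by rw [pow_succ, h1, one_mul]⟩
  have hφ : Function.Bijective φ := by
    constructor
    · rintro (_ | u) (_ | v) h
      · rfl
      · exfalso
        have h1 : (0 : K) = ((v : G) : K) := congrArg Subtype.val h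
        exact (v : G).ne_zero h1.symm
      · exfalso
        have h1 : ((u : G) : K) = 0 := congrArg Subtype.val h
        exact (u : G).ne_zero h1
      · have h1 : ((u : G) : K) = ((v : G) : K) := congrArg Subtype.val h
        rw [Subtype.ext (Units.ext h1)]
    · rintro ⟨x, hx⟩
      by_cases hx0 : x = 0
      · exact ⟨none, Subtype.ext hx0.symm⟩
      · let u : G := Units.mk0 x hx0
        have hu : u ∈ (powMonoidHom (Q - 1) : G →* G).ker := by
          rw [MonoidHom.mem_ker, powMonoidHom_apply]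
          apply Units.ext
          rw [Units.val_pow_eq_pow_val, Units.val_one]
          show x ^ (Q - 1) = 1
          have h2 : x ^ (Q - 1) * x = 1 * x := by
            rw [← pow_succ, Nat.sub_add_cancel (by omega), one_mul, hx]
          exact mul_right_cancel₀ hx0 h2
        exact ⟨some ⟨u, hu⟩, rfl⟩
  rw [← Nat.card_congr (Equiv.ofBijective φ hφ), Finite.card_option, hker]
  omega

/-- Field normalised by `H` of degree greater than one gives a prime degree normalised subfield. -/
theorem class3_of_fieldAlg [Fintype F] [Nonempty ι] {H : Subgroup (GL ι F)}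
    {A : Subalgebra F (Matrix ι ι F)} (hNA : NormAlg H A) (hA : FieldAlg A)
    (hd : Module.finrank F A ≠ 1) : Class3 H := by
  classical
  obtain ⟨ℓ, hℓ, hℓd⟩ := Nat.exists_prime_and_dvd hd
  obtain ⟨p, hp⟩ := CharP.exists F
  obtain ⟨e, hpp, hcard⟩ := FiniteField.card F p
  have : Fact p.Prime := ⟨hpp⟩
  set q := Fintype.card F with hq
  have hq1 : 1 < q := Fintype.one_lt_card
  set Q := q ^ ℓ with hQdef
  have hQ1 : 1 < Q := Nat.one_lt_pow hℓ.ne_zero hq1
  have hQp : Q = p ^ ((e : ℕ) * ℓ) := by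
    rw [hQdef, hcard, pow_mul]
  have hcharM : CharP (Matrix ι ι F) p := inferInstance
  have hfix : ∀ c : F, c ^ Q = c := fun c => FiniteField.pow_card_pow ℓ c
  let K₁ : Subalgebra F (Matrix ι ι F) :=
    { carrier := {x | x ∈ A ∧ x ^ Q = x}
      mul_mem' := by
        rintro a b ⟨ha, ha'⟩ ⟨hb, hb'⟩
        refine ⟨A.mul_mem ha hb, ?_⟩
        have hc : Commute a b := hA.1 a ha b hb
        rw [hc.mul_pow, ha', hb']
      add_mem' := by
        rintro a b ⟨ha, ha'⟩ ⟨hb, hb'⟩
        refine ⟨A.add_mem ha hb, ?_⟩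
        have hc : Commute a b := hA.1 a ha b hb
        rw [hQp, add_pow_char_pow_of_commute p _ hc, ← hQp, ha', hb']
      algebraMap_mem' := fun c => by
        refine ⟨A.algebraMap_mem c, ?_⟩
        rw [← map_pow, hfix] }
  have hK₁ : ∀ x, x ∈ K₁ ↔ x ∈ A ∧ x ^ Q = x := fun x => Iff.rfl
  -- the field structure of `A`
  have hAfield : IsField A := by
    refine ⟨⟨⟨0, A.zero_mem⟩, ⟨1, A.one_mem⟩, ?_⟩, fun u v => Subtype.ext (hA.1 u u.2 v v.2), ?_⟩
    · intro h
      exact zero_ne_one (congrArg Subtype.val h)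
    · intro u hu
      obtain ⟨y, hy, hxy⟩ := hA.2 u u.2 (fun h => hu (Subtype.ext h))
      exact ⟨⟨y, hy⟩, Subtype.ext hxy⟩
  letI : Field A := hAfield.toField
  haveI : Finite A := inferInstance
  have hAcard : Nat.card A = q ^ Module.finrank F A := by
    rw [Module.natCard_eq_pow_finrank (K := F), Nat.card_eq_fintype_card]
  obtain ⟨k, hk⟩ := hℓd
  have hdvd : Q - 1 ∣ Nat.card A - 1 := by
    rw [hAcard, hk]
    exact Nat.pow_sub_one_dvd_pow_sub_one q (Dvd.intro k rfl)
  have hcount := card_fixed_pow (K := A) hQ1 hdvd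
  have hequiv : K₁ ≃ {x : A // x ^ Q = x} :=
    { toFun := fun x => ⟨⟨x.1, x.2.1⟩, Subtype.ext (by simpa using x.2.2)⟩
      invFun := fun x => ⟨x.1.1, x.1.2, by simpa using congrArg Subtype.val x.2⟩
      left_inv := fun x => rfl
      right_inv := fun x => rfl }
  have hK₁card : Nat.card K₁ = Q := by
    rw [Nat.card_congr hequiv, hcount]
  have hfr : Module.finrank F K₁ = ℓ := by
    have h1 : Nat.card K₁ = Nat.card F ^ Module.finrank F K₁ := Module.natCard_eq_pow_finrank
    rw [hK₁card, Nat.card_eq_fintype_card] at h1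
    exact (Nat.pow_right_injective hq1 h1).symm
  refine ⟨ℓ, K₁, hℓ, ⟨fun x hx y hy => hA.1 x hx.1 y hy.1, ?_, hfr⟩, ?_⟩
  · intro x hx hx0
    obtain ⟨y, hy, hxy⟩ := hA.2 x hx.1 hx0
    refine ⟨y, ⟨hy, ?_⟩, hxy⟩
    have hc : Commute x y := hA.1 x hx.1 y hy
    have h1 : x * y ^ Q = 1 := by
      have h2 := hc.mul_pow Q
      rw [hxy, one_pow, hx.2] at h2
      exact h2.symm
    calc y ^ Q = (y * x) * y ^ Q := by
          rw [mul_eq_one_comm.mp hxy, Matrix.one_mul]
      _ = y * (x * y ^ Q) := by rw [Matrix.mul_assoc]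
      _ = y := by rw [h1, Matrix.mul_one]
  · intro h hh k
    constructor
    · rintro ⟨hkA, hkQ⟩
      refine ⟨hNA h hh k hkA, ?_⟩
      rw [Units.conj_pow, hkQ]
    · rintro ⟨hkA, hkQ⟩
      rw [Units.conj_pow] at hkQ
      have h1 := hNA h⁻¹ (H.inv_mem hh) _ hkA
      rw [inv_inv, conj_inv_conj] at h1
      refine ⟨h1, ?_⟩
      have h2 := congrArg (fun x => ((h⁻¹ : GL ι F) : Matrix ι ι F) * x * (h : Matrix ι ι F)) hkQ
      simp only [conj_inv_conj] at h2
      exact h2

/-- the centre of a subalgebra, as a subalgebra of the matrices -/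
noncomputable def Zalg (B : Subalgebra F (Matrix ι ι F)) : Subalgebra F (Matrix ι ι F) :=
  B ⊓ Subalgebra.centralizer F (B : Set (Matrix ι ι F))

theorem mem_Zalg {B : Subalgebra F (Matrix ι ι F)} {x : Matrix ι ι F} :
    x ∈ Zalg B ↔ x ∈ B ∧ ∀ y ∈ B, x * y = y * x := by
  rw [Zalg, Algebra.mem_inf, Subalgebra.mem_centralizer_iff]
  exact and_congr_right fun _ => ⟨fun h y hy => (h y hy).symm, fun h y hy => (h y hy).symm⟩

theorem normAlg_Zalg {H : Subgroup (GL ι F)} {B : Subalgebra F (Matrix ι ι F)} (hB : NormAlg H B) :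
    NormAlg H (Zalg B) := by
  intro h hh x hx
  obtain ⟨hxB, hxc⟩ := mem_Zalg.mp hx
  refine mem_Zalg.mpr ⟨hB h hh x hxB, fun y hy => ?_⟩
  have hy' : ((h⁻¹ : GL ι F) : Matrix ι ι F) * y * (h : Matrix ι ι F) ∈ B := by
    have := hB h⁻¹ (H.inv_mem hh) y hy
    simpa using this
  have h1 := hxc _ hy'
  have h2 := conj_conj_inv h x (((h⁻¹ : GL ι F) : Matrix ι ι F) * y * (h : Matrix ι ι F))
  have h3 := conj_conj_inv h (((h⁻¹ : GL ι F) : Matrix ι ι F) * y * (h : Matrix ι ι F)) x
  rw [conj_conj_inv'] at h2 h3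
  rw [h2, h3, h1]

theorem fieldAlg_scalar_or [Finite F] [Nonempty ι] {A : Subalgebra F (Matrix ι ι F)}
    (hd : Module.finrank F A = 1) : ∀ x ∈ A, ∃ c : F, x = c • (1 : Matrix ι ι F) := by
  intro x hx
  have h1 : (1 : A) ≠ 0 := one_ne_zero
  obtain ⟨c, hc⟩ := (finrank_eq_one_iff_of_nonzero' (1 : A) h1).mp hd ⟨x, hx⟩
  refine ⟨c, ?_⟩
  have := congrArg Subtype.val hc
  simpa using this.symm

/-- The dichotomy for normalised subalgebras. -/
theorem alg_dichotomy [Fintype F] [Nonempty ι] {H : Subgroup (GL ι F)} (hH : Irr H)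
    {B : Subalgebra F (Matrix ι ι F)} (hB : NormAlg H B) :
    Class2 H ∨ Class3 H ∨ ∃ (d : ℕ) (_ : NeZero d), Nonempty (Matrix (Fin d) (Fin d) F ≃ₐ[F] B) := by
  classical
  have hZ := normAlg_Zalg hB
  have hZc : ∀ x ∈ Zalg B, ∀ y ∈ Zalg B, x * y = y * x := fun x hx y hy =>
    (mem_Zalg.mp hx).2 y (mem_Zalg.mp hy).1
  rcases comm_case hH hZ hZc with h2 | hinv
  · exact Or.inl h2
  by_cases hd : Module.finrank F (Zalg B) = 1
  · right; right
    have hss : IsSemisimpleRing B := isSemisimpleRing_of_normAlg hH hB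
    haveI : Nontrivial B := inferInstance
    apply exists_matrix_of_central
    intro z hz
    have hzZ : (z : Matrix ι ι F) ∈ Zalg B := mem_Zalg.mpr ⟨z.2, fun y hy =>
      congrArg Subtype.val (hz ⟨y, hy⟩)⟩
    obtain ⟨c, hc⟩ := fieldAlg_scalar_or hd _ hzZ
    refine ⟨c, Subtype.ext ?_⟩
    rw [hc, Algebra.algebraMap_eq_smul_one]
    simp
  · right; left
    exact class3_of_fieldAlg hZ ⟨hZc, hinv⟩ hd

end Cfsg.Agent.H97.Asch
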