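import Cfsg.Agent.Lib.H97Wr2

/-!
Normal subgroups of an irreducible group all of whose normalised subalgebras are trivial; minimal normal overgroups of
the scalars: tensor power structures from several components.
-/

set_option autoImplicit false
set_option linter.unusedSectionVars false
set_option linter.style.haveILetI false

namespace Cfsg.Agent.H97.Asch

open Matrix Cfsg Cfsg.Geo
open scoped MatrixGroups commutatorElement

variable {ι : Type} [Fintype ι] [DecidableEq ι] {F : Type*} [Field F]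

/-- the linear span (which is an algebra) of a subgroup -/
noncomputable def spanG (N : Subgroup (GL ι F)) : Subalgebra F (Matrix ι ι F) :=
  Algebra.adjoin F (matrixSet N)

theorem mem_spanG {N : Subgroup (GL ι F)} {g : GL ι F} (hg : g ∈ N) : (g : Matrix ι ι F) ∈ spanG N :=
  Algebra.subset_adjoin ⟨g, hg, rfl⟩

theorem normAlg_spanG {H N : Subgroup (GL ι F)} (hN : Nrm H N) : NormAlg H (spanG N) := by
  intro h hh b hb
  induction hb using Algebra.adjoin_induction with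
  | mem x hx =>
    obtain ⟨g, hg, rfl⟩ := hx
    have := mem_spanG (hN h hh g hg)
    simpa [Units.val_mul] using this
  | algebraMap c =>
    rw [Algebra.algebraMap_eq_smul_one, Matrix.mul_smul, Matrix.smul_mul, Matrix.mul_one, ← Units.val_mul,
      mul_inv_cancel, Units.val_one]
    exact Subalgebra.smul_mem _ (Subalgebra.one_mem _) c
  | add x y _ _ hx hy =>
    rw [Matrix.mul_add, Matrix.add_mul]
    exact Subalgebra.add_mem _ hx hy
  | mul x y _ _ hx hy =>
    rw [← conj_conj_inv]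
    exact Subalgebra.mul_mem _ hx hy

theorem le_scalars_of_spanG_bot {N : Subgroup (GL ι F)} (h : spanG N = ⊥) : N ≤ scalars ι F := by
  intro g hg
  have h1 := mem_spanG hg
  rw [h, Algebra.mem_bot] at h1
  obtain ⟨c, hc⟩ := h1
  by_cases hne : Nonempty ι
  · have hc0 : c ≠ 0 := by
      rintro rfl
      have hu := g.isUnit
      rw [← hc, map_zero] at hu
      exact not_isUnit_zero hu
    refine (mem_scalars_iff g).mpr ⟨Units.mk0 c hc0, ?_⟩
    rw [← hc, Algebra.algebraMap_eq_smul_one]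
    rfl
  · have : IsEmpty ι := not_nonempty_iff.mp hne
    refine (mem_scalars_iff g).mpr ⟨1, ?_⟩
    ext i
    exact (this.false i).elim

theorem spanG_bot_of_le {N : Subgroup (GL ι F)} (h : N ≤ scalars ι F) : spanG N = ⊥ := by
  rw [eq_bot_iff, spanG, Algebra.adjoin_le_iff]
  rintro _ ⟨g, hg, rfl⟩
  obtain ⟨c, hc⟩ := (mem_scalars_iff g).mp (h hg)
  simp only [SetLike.mem_coe]
  rw [Algebra.mem_bot]
  refine ⟨c, ?_⟩
  rw [hc, Algebra.algebraMap_eq_smul_one]

theorem commute_of_spanG {N : Subgroup (GL ι F)} {M : Matrix ι ι F}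
    (hM : ∀ g ∈ N, M * (g : Matrix ι ι F) = (g : Matrix ι ι F) * M) {b : Matrix ι ι F} (hb : b ∈ spanG N) :
    M * b = b * M := by
  induction hb using Algebra.adjoin_induction with
  | mem x hx =>
    obtain ⟨g, hg, rfl⟩ := hx
    exact hM g hg
  | algebraMap c =>
    rw [Algebra.algebraMap_eq_smul_one, Matrix.mul_smul, Matrix.smul_mul, Matrix.mul_one, Matrix.one_mul]
  | add x y _ _ hx hy =>
    rw [Matrix.mul_add, Matrix.add_mul, hx, hy]
  | mul x y _ _ hx hy =>
    rw [← Matrix.mul_assoc, hx, Matrix.mul_assoc, hy, Matrix.mul_assoc]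

theorem habs_of_spanG {N : Subgroup (GL ι F)} (h : spanG N = ⊤) (M : Matrix ι ι F)
    (hM : ∀ g ∈ N, M * (g : Matrix ι ι F) = (g : Matrix ι ι F) * M) : ∃ c : F, M = c • 1 := by
  have hall : ∀ b : Matrix ι ι F, M * b = b * M := fun b => commute_of_spanG hM (by rw [h]; trivial)
  have hs : M ∈ Set.range (Matrix.scalar ι) :=
    Matrix.mem_range_scalar_of_commute_single fun i j _ => (hall _).symm
  obtain ⟨c, hc⟩ := hs
  refine ⟨c, ?_⟩
  rw [← hc, Matrix.scalar_apply, Matrix.smul_one_eq_diagonal]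

theorem stable_of_spanG {N : Subgroup (GL ι F)} {W : Submodule F (ι → F)} (hW : Stable N W) {b : Matrix ι ι F}
    (hb : b ∈ spanG N) {w : ι → F} (hw : w ∈ W) : b *ᵥ w ∈ W := by
  induction hb using Algebra.adjoin_induction generalizing w with
  | mem x hx =>
    obtain ⟨g, hg, rfl⟩ := hx
    exact hW g hg w hw
  | algebraMap c =>
    rw [Algebra.algebraMap_eq_smul_one, Matrix.smul_mulVec, Matrix.one_mulVec]
    exact W.smul_mem c hw
  | add x y _ _ hx hy =>
    rw [Matrix.add_mulVec]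
    exact W.add_mem (hx hw) (hy hw)
  | mul x y _ _ hx hy =>
    rw [← Matrix.mulVec_mulVec]
    exact hx (hy hw)

theorem irr_of_spanG {N : Subgroup (GL ι F)} (h : spanG N = ⊤) : Irr N := by
  classical
  intro W hW
  by_cases hb : W = ⊥
  · exact Or.inl hb
  right
  obtain ⟨w, hw, hw0⟩ := (Submodule.ne_bot_iff W).mp hb
  obtain ⟨i, hi⟩ := Function.ne_iff.mp hw0
  rw [eq_top_iff]
  intro v _
  -- a matrix carrying `w` to `v`
  let A : Matrix ι ι F := Matrix.of fun k l => if l = i then (w i)⁻¹ * v k else 0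
  have hA : A *ᵥ w = v := by
    funext k
    simp only [Matrix.mulVec, dotProduct, A, Matrix.of_apply]
    rw [Finset.sum_eq_single i]
    · have hi' : w i ≠ 0 := hi
      rw [if_pos rfl, mul_comm, ← mul_assoc, mul_inv_cancel₀ hi', one_mul]
    · intro l _ hl
      rw [if_neg hl, zero_mul]
    · simp
  rw [← hA]
  exact stable_of_spanG hW (by rw [h]; trivial) hw

theorem actsAbs_of_spanG {N : Subgroup (GL ι F)} (h : spanG N = ⊤) : ActsAbsolutelyIrreducibly (matrixSet N) := by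
  refine ⟨(actsIrreducibly_iff N).mpr (irr_of_spanG h), fun M hM => ?_⟩
  exact habs_of_spanG h M fun g hg => hM _ ⟨g, hg, rfl⟩

theorem spanG_mono {N N' : Subgroup (GL ι F)} (h : N ≤ N') : spanG N ≤ spanG N' :=
  Algebra.adjoin_mono (Set.image_mono h)

/-- the tensor conclusions, without forms -/
def GeoTens (H : Subgroup (GL ι F)) : Prop :=
  (∃ (n₁ n₂ : ℕ) (e : ι ≃ Fin n₁ × Fin n₂) (P : GL ι F), 2 ≤ n₁ ∧ n₁ < n₂ ∧ H ≤ tensorProductSubgroup n₁ n₂ e P) ∨
  (∃ (m t : ℕ) (e : ι ≃ (Fin t → Fin m)) (P : GL ι F), 2 ≤ m ∧ 2 ≤ t ∧ H ≤ tensorWreathSubgroup m t e P)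

/-- the reduction of normalised subalgebras. -/
theorem normalised_trivial [Fintype F] [Nonempty ι] {H : Subgroup (GL ι F)} (hH : Irr H) :
    Class2 H ∨ Class3 H ∨ GeoTens H ∨ ∀ B : Subalgebra F (Matrix ι ι F), NormAlg H B → B = ⊥ ∨ B = ⊤ := by
  classical
  by_contra hcon
  push Not at hcon
  obtain ⟨h2, h3, h4, B, hB, hB0, hB1⟩ := hcon
  rcases alg_dichotomy hH hB with h | h | ⟨d, hd, ⟨ψ⟩⟩
  · exact h2 h
  · exact h3 h
  obtain ⟨m, e, P, hcard, hle⟩ := tensor_of_algEquiv hB ψ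
  have hpos : 0 < Fintype.card ι := Fintype.card_pos
  have hm0 : m ≠ 0 := by
    rintro rfl
    omega
  have hd0 : d ≠ 0 := NeZero.ne d
  have hfr : Module.finrank F B = d * d := by
    rw [← LinearEquiv.finrank_eq ψ.toLinearEquiv, Module.finrank_matrix]
    simp
  by_cases hd1 : d = 1
  · -- `B` is the scalars
    apply hB0
    rw [eq_bot_iff]
    intro x hx
    have h1 : (1 : B) ≠ 0 := one_ne_zero
    have hfr1 : Module.finrank F B = 1 := by rw [hfr, hd1]
    obtain ⟨c, hc⟩ := (finrank_eq_one_iff_of_nonzero' (1 : B) h1).mp hfr1 ⟨x, hx⟩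
    rw [Algebra.mem_bot]
    refine ⟨c, ?_⟩
    have := congrArg Subtype.val hc
    rw [Algebra.algebraMap_eq_smul_one]
    simpa using this
  by_cases hm1 : m = 1
  · -- `B` is everything
    apply hB1
    have hfrt : Module.finrank F B = Module.finrank F (Matrix ι ι F) := by
      rw [hfr, Module.finrank_matrix]
      simp [hcard, hm1]
    have : Subalgebra.toSubmodule B = ⊤ := Submodule.eq_top_of_finrank_eq hfrt
    rw [← Algebra.toSubmodule_eq_top] 
    exact this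
  apply h4
  have hd2 : 2 ≤ d := by omega
  have hm2 : 2 ≤ m := by omega
  rcases lt_trichotomy d m with hlt | heq | hgt
  · exact Or.inl ⟨d, m, e, P, hd2, hlt, hle⟩
  · subst heq
    exact Or.inr ⟨d, 2, _, P, hd2, le_rfl, hle.trans (tensorProduct_wreath e P)⟩
  · exact Or.inl ⟨m, d, _, P, hm2, hgt, hle.trans (tensorProduct_swap e P)⟩

/-- conjugation, as an algebra automorphism. -/
noncomputable def conjAlg (h : GL ι F) : Matrix ι ι F →ₐ[F] Matrix ι ι F :=
  AlgHom.ofLinearMap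
    { toFun := fun x => (h : Matrix ι ι F) * x * ((h⁻¹ : GL ι F) : Matrix ι ι F)
      map_add' := fun x y => by rw [Matrix.mul_add, Matrix.add_mul]
      map_smul' := fun c x => by rw [Matrix.mul_smul, Matrix.smul_mul, RingHom.id_apply] }
    (by
      show (h : Matrix ι ι F) * 1 * ((h⁻¹ : GL ι F) : Matrix ι ι F) = 1
      rw [Matrix.mul_one, ← Units.val_mul, mul_inv_cancel, Units.val_one])
    (fun x y => (conj_conj_inv h x y).symm)

theorem conjAlg_apply (h : GL ι F) (x : Matrix ι ι F) :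
    conjAlg h x = (h : Matrix ι ι F) * x * ((h⁻¹ : GL ι F) : Matrix ι ι F) := rfl

theorem conj_mem_spanG {N N' : Subgroup (GL ι F)} {k : GL ι F} (hk : ∀ x ∈ N, k * x * k⁻¹ ∈ N') {b : Matrix ι ι F}
    (hb : b ∈ spanG N) : (k : Matrix ι ι F) * b * ((k⁻¹ : GL ι F) : Matrix ι ι F) ∈ spanG N' := by
  induction hb using Algebra.adjoin_induction with
  | mem x hx =>
    obtain ⟨g, hg, rfl⟩ := hx
    have := mem_spanG (hk g hg)
    simpa [Units.val_mul] using this
  | algebraMap c =>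
    rw [Algebra.algebraMap_eq_smul_one, Matrix.mul_smul, Matrix.smul_mul, Matrix.mul_one, ← Units.val_mul,
      mul_inv_cancel, Units.val_one]
    exact Subalgebra.smul_mem _ (Subalgebra.one_mem _) c
  | add x y _ _ hx hy =>
    rw [Matrix.mul_add, Matrix.add_mul]
    exact Subalgebra.add_mem _ hx hy
  | mul x y _ _ hx hy =>
    rw [← conj_conj_inv]
    exact Subalgebra.mul_mem _ hx hy

theorem spanG_commute {A B : Subgroup (GL ι F)} (h : ∀ a ∈ A, ∀ b ∈ B, a * b = b * a) {x y : Matrix ι ι F}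
    (hx : x ∈ spanG A) (hy : y ∈ spanG B) : x * y = y * x := by
  have h1 : ∀ a ∈ A, ∀ z ∈ spanG B, (a : Matrix ι ι F) * z = z * a := by
    intro a ha z hz
    exact commute_of_spanG (fun b hb => congrArg Units.val (h a ha b hb)) hz
  have h2 : ∀ g ∈ A, y * (g : Matrix ι ι F) = (g : Matrix ι ι F) * y := fun g hg => (h1 g hg y hy).symm
  exact (commute_of_spanG h2 hx).symm

theorem stable_iSup_subgroup {κ : Sort*} {N : κ → Subgroup (GL ι F)} {W : Submodule F (ι → F)}
    (h : ∀ i, Stable (N i) W) : Stable (⨆ i, N i) W := by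
  have hle : (⨆ i, N i) ≤ subspaceStabilizer W := by
    refine iSup_le fun i g hg => ?_
    intro v
    constructor
    · exact fun hv => h i g hg v hv
    · intro hv
      have := h i g⁻¹ ((N i).inv_mem hg) _ hv
      simpa using this
  intro g hg w hw
  exact ((hle hg) w).mp hw

/-- several components give a tensor power. -/
theorem simple_core2 [Fintype F] [Nonempty ι] {H P : Subgroup (GL ι F)} (hspan : spanG P = ⊤)
    (hP : ⁅P, P⁆ = P) (hnot : ¬ P ≤ scalars ι F) (hHP : Nrm H P)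
    (hmin : ∀ M, M ≤ P → Nrm H M → ¬ M ≤ scalars ι F → M = P) :
    (∀ T₁ : Subgroup (GL ι F), T₁ ≤ P → Nrm P T₁ → T₁ ≤ scalars ι F ∨ T₁ = P) ∨
    (∃ (m t : ℕ) (e : ι ≃ (Fin t → Fin m)) (Q : GL ι F), 2 ≤ m ∧ 2 ≤ t ∧ H ≤ tensorWreathSubgroup m t e Q) := by
  classical
  by_cases hgood : ∀ T₁ : Subgroup (GL ι F), T₁ ≤ P → Nrm P T₁ → T₁ ≤ scalars ι F ∨ T₁ = P
  · exact Or.inl hgood
  right
  push Not at hgood
  obtain ⟨T₁, hT₁, hT₁n, hns, hne⟩ := hgood
  have hPirr : Irr P := irr_of_spanG hspan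
  set Sc := scalars ι F with hSc
  set Z₀ : Subgroup (GL ι F) := P ⊓ Sc with hZ₀
  have hZ₀Sc : Z₀ ≤ Sc := inf_le_right
  let 𝓣 : Set (Subgroup (GL ι F)) := {T | T ≤ P ∧ Nrm P T ∧ Z₀ ≤ T ∧ ¬ T ≤ Sc}
  have hT₁'𝓣 : T₁ ⊔ Z₀ ∈ 𝓣 := by
    refine ⟨sup_le hT₁ inf_le_left, hT₁n.sup_central hZ₀Sc, le_sup_right, fun h => hns (le_sup_left.trans h)⟩
  have hT₁'ne : T₁ ⊔ Z₀ ≠ P := by
    intro h
    apply hne
    apply le_antisymm hT₁
    have h1 : ⁅P, P⁆ ≤ ⁅T₁, T₁⁆ := by
      rw [← h]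
      exact commutator_sup_central_le hZ₀Sc
    rw [hP] at h1
    exact h1.trans (by
      rw [Subgroup.commutator_le]
      intro a ha b hb
      have h2 := hT₁n a (hT₁ ha) b⁻¹ (T₁.inv_mem hb)
      rw [commutatorElement_def]
      have h3 : a * b * a⁻¹ * b⁻¹ = a * (b * a⁻¹ * b⁻¹) := by group
      rw [h3]
      refine T₁.mul_mem ha ?_
      have h4 := hT₁n b (hT₁ hb) a⁻¹ (T₁.inv_mem ha)
      exact h4)
  -- minimal element
  obtain ⟨T, ⟨hT𝓣, hTle⟩, hTmin'⟩ := (wellFounded_lt (α := Subgroup (GL ι F))).has_min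
    {T | T ∈ 𝓣 ∧ T ≤ T₁ ⊔ Z₀} ⟨_, hT₁'𝓣, le_rfl⟩
  have hTmin : ∀ T' ∈ 𝓣, T' ≤ T → T' = T := by
    intro T' hT' hle
    by_contra hne'
    exact hTmin' T' ⟨hT', hle.trans hTle⟩ (lt_of_le_of_ne hle hne')
  have hTneP : T ≠ P := by
    intro h
    apply hT₁'ne
    apply le_antisymm (sup_le hT₁ inf_le_left)
    calc P = T := h.symm
      _ ≤ _ := hTle
  -- conjugates
  let cj : GL ι F → (GL ι F →* GL ι F) := fun h => (MulAut.conj h).toMonoidHom
  have hcj : ∀ (h x : GL ι F), cj h x = h * x * h⁻¹ := fun h x => rfl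
  have hconj𝓣 : ∀ h ∈ H, ∀ T' ∈ 𝓣, T'.map (cj h) ∈ 𝓣 := by
    rintro h hh T' ⟨h1, h2, h3, h4⟩
    refine ⟨?_, ?_, ?_, ?_⟩
    · rintro _ ⟨t, ht, rfl⟩
      exact hHP h hh t (h1 ht)
    · rintro p hp _ ⟨t, ht, rfl⟩
      refine ⟨(h⁻¹ * p * h) * t * (h⁻¹ * p * h)⁻¹, h2 _ (hHP.inv hh hp) t ht, ?_⟩
      simp only [hcj]
      group
    · intro z hz
      refine ⟨z, h3 hz, ?_⟩
      simp only [hcj]
      rw [scalar_central (hZ₀Sc hz) h]
      group
    · intro hle
      apply h4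
      intro t ht
      exact mem_scalars_conj.mp (hle ⟨t, ht, rfl⟩)
  have hmapinv : ∀ (h : GL ι F) (A : Subgroup (GL ι F)), (A.map (cj h)).map (cj h⁻¹) = A := by
    intro h A
    ext x
    constructor
    · rintro ⟨_, ⟨a, ha, rfl⟩, rfl⟩
      simpa [hcj, mul_assoc] using ha
    · intro hx
      exact ⟨h * x * h⁻¹, ⟨x, hx, rfl⟩, by simp [hcj, mul_assoc]⟩
  have hmapinv' : ∀ (h : GL ι F) (A : Subgroup (GL ι F)), (A.map (cj h⁻¹)).map (cj h) = A := by
    intro h A
    have := hmapinv h⁻¹ A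
    rwa [inv_inv] at this
  have hconjmin : ∀ h ∈ H, ∀ T' ∈ 𝓣, T' ≤ T.map (cj h) → T' = T.map (cj h) := by
    intro h hh T' hT' hle
    have h1 := hTmin (T'.map (cj h⁻¹)) (hconj𝓣 _ (H.inv_mem hh) _ hT') (by
      rintro _ ⟨t, ht, rfl⟩
      obtain ⟨s, hs, rfl⟩ := hle ht
      simpa [hcj, mul_assoc] using hs)
    rw [← h1, hmapinv']
  -- the product of all the conjugates
  let M : Subgroup (GL ι F) := ⨆ h : H, T.map (cj (h : GL ι F))
  have hMP : M ≤ P := iSup_le fun h => (hconj𝓣 h h.2 T hT𝓣).1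
  have hTM : T ≤ M := by
    have : T.map (cj ((1 : H) : GL ι F)) ≤ M := le_iSup (fun h : H => T.map (cj (h : GL ι F))) 1
    intro t ht
    apply this
    exact ⟨t, ht, by simp [hcj]⟩
  have hMn : Nrm H M := by
    intro k hk x hx
    have hle : M.map (cj k) ≤ M := by
      rw [Subgroup.map_iSup]
      refine iSup_le fun h => ?_
      rintro _ ⟨_, ⟨t, ht, rfl⟩, rfl⟩
      have : T.map (cj ((⟨k * h, H.mul_mem hk h.2⟩ : H) : GL ι F)) ≤ M :=
        le_iSup (fun h : H => T.map (cj (h : GL ι F))) ⟨k * h, H.mul_mem hk h.2⟩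
      apply this
      refine ⟨t, ht, ?_⟩
      simp only [hcj]
      group
    exact hle ⟨x, hx, rfl⟩
  have hMeq : M = P := hmin M hMP hMn (fun h => hT𝓣.2.2.2 (hTM.trans h))
  obtain ⟨h₀, hh₀, hT₂ne⟩ : ∃ h ∈ H, T.map (cj h) ≠ T := by
    by_contra hall
    push Not at hall
    apply hTneP
    rw [← hMeq]
    apply le_antisymm hTM
    refine iSup_le fun h => ?_
    rw [hall h h.2]
  set T₂ := T.map (cj h₀) with hT₂
  have hT₂𝓣 : T₂ ∈ 𝓣 := hconj𝓣 h₀ hh₀ T hT𝓣
  -- distinct minimal elements commute modulo scalars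
  have hpair : ∀ A B : Subgroup (GL ι F), A ∈ 𝓣 → B ∈ 𝓣 → (∀ T' ∈ 𝓣, T' ≤ A → T' = A) → (∀ T' ∈ 𝓣, T' ≤ B → T' = B) →
      A ≠ B → ∀ a ∈ A, ∀ b ∈ B, ⁅a, b⁆ ∈ Sc := by
    intro A B hA hB hAm hBm hAB a ha b hb
    have hinf : A ⊓ B ≤ Sc := by
      by_contra hnotle
      have hmem : A ⊓ B ∈ 𝓣 := by
        refine ⟨inf_le_left.trans hA.1, ?_, le_inf hA.2.2.1 hB.2.2.1, hnotle⟩
        intro p hp x hx
        exact ⟨hA.2.1 p hp x hx.1, hB.2.1 p hp x hx.2⟩
      have h1 := hAm _ hmem inf_le_left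
      have h2 := hBm _ hmem inf_le_right
      exact hAB (h1.symm.trans h2)
    apply hinf
    constructor
    · rw [commutatorElement_def]
      have h3 : a * b * a⁻¹ * b⁻¹ = a * (b * a⁻¹ * b⁻¹) := by group
      show a * b * a⁻¹ * b⁻¹ ∈ A
      rw [h3]
      exact A.mul_mem ha (hA.2.1 b (hB.1 hb) a⁻¹ (A.inv_mem ha))
    · rw [commutatorElement_def]
      show a * b * a⁻¹ * b⁻¹ ∈ B
      exact B.mul_mem (hB.2.1 a (hA.1 ha) b hb) (B.inv_mem hb)
  -- the derived subgroup of `T` is not scalar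
  have hT'ns : ¬ (⁅T, T⁆ : Subgroup (GL ι F)) ≤ Sc := by
    intro hle
    apply hnot
    rw [← hP, Subgroup.commutator_le]
    -- all pairs commute modulo scalars
    have hallp : ∀ h k : H, ∀ a ∈ T.map (cj (h : GL ι F)), ∀ b ∈ T.map (cj (k : GL ι F)), ⁅a, b⁆ ∈ Sc := by
      intro h k a ha b hb
      by_cases heq : T.map (cj (h : GL ι F)) = T.map (cj (k : GL ι F))
      · rw [← heq] at hb
        obtain ⟨s, hs, rfl⟩ := ha
        obtain ⟨t, ht, rfl⟩ := hb
        have h1 : ⁅cj (h : GL ι F) s, cj (h : GL ι F) t⁆ = cj (h : GL ι F) ⁅s, t⁆ :=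
          (map_commutatorElement (cj (h : GL ι F)) s t).symm
        rw [h1, hcj]
        exact mem_scalars_conj.mpr (hle (Subgroup.commutator_mem_commutator hs ht))
      · exact hpair _ _ (hconj𝓣 h h.2 T hT𝓣) (hconj𝓣 k k.2 T hT𝓣) (hconjmin h h.2) (hconjmin k k.2) heq a ha b hb
    let ψ := QuotientGroup.mk' Sc
    have hψ : ∀ g, ψ g = 1 ↔ g ∈ Sc := fun g => QuotientGroup.eq_one_iff g
    have hcomm : ∀ a b, ⁅a, b⁆ ∈ Sc → ψ a * ψ b = ψ b * ψ a := by
      intro a b hab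
      have := (hψ _).mpr hab
      rw [map_commutatorElement, commutatorElement_eq_one_iff_mul_comm] at this
      exact this
    have hstep1 : ∀ k : H, M.map ψ ≤ Subgroup.centralizer ((T.map (cj (k : GL ι F))).map ψ : Set _) := by
      intro k
      rw [Subgroup.map_iSup]
      refine iSup_le fun h => ?_
      rintro _ ⟨a, ha, rfl⟩
      rw [Subgroup.mem_centralizer_iff]
      rintro _ ⟨b, hb, rfl⟩
      exact (hcomm a b (hallp h k a ha b hb)).symm
    have hstep2 : M.map ψ ≤ Subgroup.centralizer (M.map ψ : Set _) := by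
      rw [Subgroup.le_centralizer_iff]
      rw [Subgroup.map_iSup]
      refine iSup_le fun k => ?_
      rw [← Subgroup.le_centralizer_iff, ← Subgroup.map_iSup]
      exact hstep1 k
    intro a ha b hb
    rw [← hMeq] at ha hb
    have h1 := (Subgroup.mem_centralizer_iff.mp (hstep2 ⟨a, ha, rfl⟩)) _ ⟨b, hb, rfl⟩
    rw [← hψ, map_commutatorElement, commutatorElement_eq_one_iff_mul_comm]
    exact h1.symm
  set T' : Subgroup (GL ι F) := ⁅T, T⁆ with hT'
  have hT'n : Nrm P T' := Nrm.commutator hT𝓣.2.1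
  have hT'T : T' ≤ T := by
    rw [hT', Subgroup.commutator_le]
    intro a ha b hb
    rw [commutatorElement_def]
    have h3 : a * b * a⁻¹ * b⁻¹ = a * (b * a⁻¹ * b⁻¹) := by group
    rw [h3]
    exact T.mul_mem ha (hT𝓣.2.1 b (hT𝓣.1 hb) a⁻¹ (T.inv_mem ha))
  -- the conjugates of `T'`
  have hS' : ∀ h, T'.map (cj h) = ⁅T.map (cj h), T.map (cj h)⁆ := fun h => Subgroup.map_commutator _ _ _
  -- different conjugates commute
  have hb : ∀ h ∈ H, ∀ k ∈ H, T.map (cj h) ≠ T.map (cj k) → ∀ x ∈ T'.map (cj h), ∀ y ∈ T'.map (cj k), x * y = y * x := by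
    intro h hh k hk hne' x hx y hy
    have hyT : y ∈ T.map (cj k) := by
      obtain ⟨t, ht, rfl⟩ := hy
      exact ⟨t, hT'T ht, rfl⟩
    have hle : T'.map (cj h) ≤ Subgroup.centralizer {y} := by
      rw [hS', Subgroup.commutator_le]
      intro x₁ hx₁ x₂ hx₂
      rw [Subgroup.mem_centralizer_iff]
      intro z hz
      rw [Set.mem_singleton_iff] at hz
      subst hz
      have hp := hpair _ _ (hconj𝓣 h hh T hT𝓣) (hconj𝓣 k hk T hT𝓣) (hconjmin h hh) (hconjmin k hk) hne'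
      have h1 := hp x₁ hx₁ _ hyT
      have h2 := hp x₂ hx₂ _ hyT
      refine (commutator_commute_of_central (c₁ := ⁅x₁, z⁆) (c₂ := ⁅x₂, z⁆)
        (fun g => scalar_central h1 g) (fun g => scalar_central h2 g) ?_ ?_).symm
      · rw [commutatorElement_def]; group
      · rw [commutatorElement_def]; group
    exact (Subgroup.mem_centralizer_iff.mp (hle hx) y rfl).symm
  -- the conjugates of `T'` generate `P`
  have hgen : (⨆ h : H, T'.map (cj (h : GL ι F))) = P := by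
    apply hmin
    · refine iSup_le fun h => ?_
      rintro _ ⟨t, ht, rfl⟩
      exact hHP h h.2 t ((hT'T.trans hT𝓣.1) ht)
    · intro k hk x hx
      have hle : (⨆ h : H, T'.map (cj (h : GL ι F))).map (cj k) ≤ ⨆ h : H, T'.map (cj (h : GL ι F)) := by
        rw [Subgroup.map_iSup]
        refine iSup_le fun h => ?_
        rintro _ ⟨_, ⟨t, ht, rfl⟩, rfl⟩
        have : T'.map (cj ((⟨k * h, H.mul_mem hk h.2⟩ : H) : GL ι F)) ≤ ⨆ h : H, T'.map (cj (h : GL ι F)) :=
          le_iSup (fun h : H => T'.map (cj (h : GL ι F))) ⟨k * h, H.mul_mem hk h.2⟩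
        apply this
        refine ⟨t, ht, ?_⟩
        simp only [hcj]
        group
      exact hle ⟨x, hx, rfl⟩
    · intro hle
      apply hT'ns
      intro t ht
      have h1 : T'.map (cj ((1 : H) : GL ι F)) ≤ ⨆ h : H, T'.map (cj (h : GL ι F)) :=
        le_iSup (fun h : H => T'.map (cj (h : GL ι F))) 1
      apply hle
      apply h1
      exact ⟨t, ht, by simp [hcj]⟩
  -- the algebra of `T'`
  set B₀ := spanG T' with hB₀
  have hB₀n : NormAlg P B₀ := normAlg_spanG hT'n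
  haveI hss : IsSemisimpleRing B₀ := isSemisimpleRing_of_normAlg hPirr hB₀n
  obtain ⟨m, hm, ⟨ψ₀⟩⟩ : ∃ (m : ℕ) (_ : NeZero m), Nonempty (Matrix (Fin m) (Fin m) F ≃ₐ[F] B₀) := by
    apply exists_matrix_of_central
    intro z hz
    -- central elements commute with all conjugates
    let Cz : Subgroup (GL ι F) :=
      { carrier := {g | (z : Matrix ι ι F) * (g : Matrix ι ι F) = (g : Matrix ι ι F) * z}
        mul_mem' := fun {a b} ha hb => by
          simp only [Set.mem_ofPred_eq] at ha hb ⊢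
          rw [Units.val_mul, ← Matrix.mul_assoc, ha, Matrix.mul_assoc, hb, Matrix.mul_assoc]
        one_mem' := by simp
        inv_mem' := fun {a} ha => by
          simp only [Set.mem_ofPred_eq] at ha ⊢
          calc (z : Matrix ι ι F) * ((a⁻¹ : GL ι F) : Matrix ι ι F)
              = ((a⁻¹ : GL ι F) : Matrix ι ι F) * ((a : Matrix ι ι F) * z) * ((a⁻¹ : GL ι F) : Matrix ι ι F) := by
                rw [← Matrix.mul_assoc, ← Units.val_mul, inv_mul_cancel, Units.val_one, Matrix.one_mul]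
            _ = ((a⁻¹ : GL ι F) : Matrix ι ι F) * ((z : Matrix ι ι F) * a) * ((a⁻¹ : GL ι F) : Matrix ι ι F) := by rw [ha]
            _ = ((a⁻¹ : GL ι F) : Matrix ι ι F) * z := by
                rw [Matrix.mul_assoc, Matrix.mul_assoc, ← Units.val_mul, mul_inv_cancel, Units.val_one, Matrix.mul_one] }
    have hPCz : P ≤ Cz := by
      rw [← hgen]
      refine iSup_le fun h => ?_
      by_cases heq : T.map (cj (h : GL ι F)) = T.map (cj ((1 : H) : GL ι F))
      · have h1 : T'.map (cj (h : GL ι F)) = T' := by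
          rw [hS', heq, ← hS']
          ext x
          simp [hcj]
        rw [h1]
        intro t ht
        have := hz ⟨t, mem_spanG ht⟩
        exact congrArg Subtype.val this
      · intro y hy
        show (z : Matrix ι ι F) * (y : Matrix ι ι F) = (y : Matrix ι ι F) * z
        have h2 : ∀ a ∈ T', a * y = y * a := by
          intro a ha
          refine hb _ H.one_mem _ h.2 (Ne.symm heq) a ⟨a, ha, by simp [hcj]⟩ y hy
        have h3 : ∀ g ∈ T', (y : Matrix ι ι F) * (g : Matrix ι ι F) = (g : Matrix ι ι F) * y := fun g hg =>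
          (congrArg Units.val (h2 g hg)).symm
        exact (commute_of_spanG h3 z.2).symm
    obtain ⟨c, hc⟩ := habs_of_spanG hspan (z : Matrix ι ι F) (fun g hg => hPCz hg)
    refine ⟨c, Subtype.ext ?_⟩
    rw [hc, Algebra.algebraMap_eq_smul_one]
    simp
  -- `m` is at least two
  have hm2 : 2 ≤ m := by
    have hm0 : m ≠ 0 := NeZero.ne m
    by_contra hlt
    have hm1 : m = 1 := by omega
    subst hm1
    apply hT'ns
    apply le_scalars_of_spanG_bot
    rw [eq_bot_iff]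
    intro x hx
    have h1 : (1 : B₀) ≠ 0 := one_ne_zero
    have hfr1 : Module.finrank F B₀ = 1 := by
      rw [← LinearEquiv.finrank_eq ψ₀.toLinearEquiv, Module.finrank_matrix]
      simp
    obtain ⟨c, hc⟩ := (finrank_eq_one_iff_of_nonzero' (1 : B₀) h1).mp hfr1 ⟨x, hx⟩
    rw [Algebra.mem_bot]
    refine ⟨c, ?_⟩
    have := congrArg Subtype.val hc
    rw [Algebra.algebraMap_eq_smul_one]
    simpa using this
  -- enumerate the conjugates
  let O : Set (Subgroup (GL ι F)) := Set.range (fun h : H => T.map (cj (h : GL ι F)))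
  haveI hOfin : Finite O := Set.toFinite O |>.to_subtype
  obtain ⟨t, ⟨φ⟩⟩ := Finite.exists_equiv_fin O
  have hrep : ∀ i, ∃ h : H, ((φ.symm i : O) : Subgroup (GL ι F)) = T.map (cj (h : GL ι F)) := fun i => by
    obtain ⟨h, hh⟩ := (φ.symm i).2
    exact ⟨h, hh.symm⟩
  choose r hr using hrep
  have hrinj : ∀ i j, T.map (cj (r i : GL ι F)) = T.map (cj (r j : GL ι F)) → i = j := by
    intro i j hij
    apply φ.symm.injective
    apply Subtype.ext
    rw [hr, hr, hij]
  have hidx : ∀ h : H, ∃ i, T.map (cj (r i : GL ι F)) = T.map (cj (h : GL ι F)) := by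
    intro h
    refine ⟨φ ⟨_, ⟨h, rfl⟩⟩, ?_⟩
    rw [← hr]
    simp
  have ht2 : 2 ≤ t := by
    obtain ⟨i₀, hi₀⟩ := hidx 1
    obtain ⟨i₁, hi₁⟩ := hidx ⟨h₀, hh₀⟩
    have hne01 : i₀ ≠ i₁ := by
      rintro rfl
      apply hT₂ne
      have h1 : T.map (cj ((1 : H) : GL ι F)) = T := by
        ext x
        simp [hcj]
      exact hi₁.symm.trans (hi₀.trans h1)
    have h1 : 1 < Fintype.card (Fin t) := Fintype.one_lt_card_iff.mpr ⟨i₀, i₁, hne01⟩
    have h2 : 1 < t := by simpa using h1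
    omega
  have ht0 : NeZero t := ⟨by omega⟩
  let ψ₁ : Matrix (Fin m) (Fin m) F →ₐ[F] Matrix ι ι F := B₀.val.comp ψ₀.toAlgHom
  have hψ₁ : ∀ M, ψ₁ M ∈ B₀ := fun M => (ψ₀ M).2
  have hψ₁s : ∀ x ∈ B₀, ∃ M, ψ₁ M = x := by
    intro x hx
    refine ⟨ψ₀.symm ⟨x, hx⟩, ?_⟩
    show ((ψ₀ (ψ₀.symm ⟨x, hx⟩) : B₀) : Matrix ι ι F) = x
    rw [AlgEquiv.apply_symm_apply]
  let ψ : Fin t → (Matrix (Fin m) (Fin m) F →ₐ[F] Matrix ι ι F) := fun i => (conjAlg (r i : GL ι F)).comp ψ₁
  have hψ : ∀ i x, ψ i x = ((r i : GL ι F) : Matrix ι ι F) * ψ₁ x * (((r i : GL ι F)⁻¹ : GL ι F) : Matrix ι ι F) := fun i x => rfl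
  have hψmem : ∀ i x, ψ i x ∈ spanG (T'.map (cj (r i : GL ι F))) := by
    intro i x
    rw [hψ]
    exact conj_mem_spanG (N := T') (N' := T'.map (cj (r i : GL ι F))) (k := (r i : GL ι F))
      (fun y hy => ⟨y, hy, rfl⟩) (hψ₁ x)
  have hcomm : Pairwise fun i j => ∀ x y, Commute (ψ i x) (ψ j y) := by
    intro i j hij x y
    have hne' : T.map (cj (r i : GL ι F)) ≠ T.map (cj (r j : GL ι F)) := fun h => hij (hrinj i j h)
    exact spanG_commute (hb _ (r i).2 _ (r j).2 hne') (hψmem i x) (hψmem j y)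
  have hirr : ∀ W : Submodule F (ι → F), (∀ i x, ∀ w ∈ W, ψ i x *ᵥ w ∈ W) → W = ⊥ ∨ W = ⊤ := by
    intro W hW
    apply hPirr
    rw [← hgen]
    apply stable_iSup_subgroup
    intro h
    obtain ⟨i, hi⟩ := hidx h
    have h1 : T'.map (cj (h : GL ι F)) = T'.map (cj (r i : GL ι F)) := by
      rw [hS', hS', hi]
    rw [h1]
    rintro _ ⟨s, hs, rfl⟩ w hw
    obtain ⟨M, hM⟩ := hψ₁s _ (mem_spanG hs)
    have h2 : ((cj (r i : GL ι F) s : GL ι F) : Matrix ι ι F) = ψ i M := by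
      rw [hψ, hM, hcj, Units.val_mul, Units.val_mul]
    rw [h2]
    exact hW i M w hw
  have hact : ∀ g ∈ H, ∃ τ : Equiv.Perm (Fin t), ∀ i, T.map (cj (r (τ i) : GL ι F)) = T.map (cj (g * r i)) := by
    intro g hg
    have h1 : ∀ i, ∃ j, T.map (cj (r j : GL ι F)) = T.map (cj (g * r i)) := fun i => hidx ⟨g * r i, H.mul_mem hg (r i).2⟩
    choose τ₀ hτ₀ using h1
    have hinj : Function.Injective τ₀ := by
      intro i j hij
      apply hrinj
      have h2 : T.map (cj (g * r i)) = T.map (cj (g * r j)) := by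
        rw [← hτ₀, ← hτ₀, hij]
      have h3 : (T.map (cj (g * r i))).map (cj g⁻¹) = (T.map (cj (g * r j))).map (cj g⁻¹) := by rw [h2]
      have e : ∀ a : GL ι F, (T.map (cj (g * a))).map (cj g⁻¹) = T.map (cj a) := by
        intro a
        ext x
        constructor
        · rintro ⟨_, ⟨t, ht, rfl⟩, rfl⟩
          refine ⟨t, ht, ?_⟩
          simp only [hcj]
          group
        · rintro ⟨t, ht, rfl⟩
          refine ⟨g * (a * t * a⁻¹) * g⁻¹, ⟨t, ht, ?_⟩, ?_⟩
          · simp only [hcj]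
            group
          · simp only [hcj]
            group
      rwa [e, e] at h3
    exact ⟨Equiv.ofBijective τ₀ (Finite.injective_iff_bijective.mp hinj), fun i => hτ₀ i⟩
  have hHperm : ∀ g ∈ H, ∃ τ : Equiv.Perm (Fin t), ∀ (i : Fin t) (M : Matrix (Fin m) (Fin m) F), ∃ M',
      (g : Matrix ι ι F) * ψ i M * ((g⁻¹ : GL ι F) : Matrix ι ι F) = ψ (τ i) M' := by
    intro g hg
    obtain ⟨τ, hτ⟩ := hact g hg
    refine ⟨τ, fun i M => ?_⟩
    set k : GL ι F := (r (τ i) : GL ι F)⁻¹ * (g * r i) with hk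
    have hkT : T.map (cj k) = T := by
      ext x
      constructor
      · rintro ⟨s, hs, rfl⟩
        have h1 : cj (g * r i) s ∈ T.map (cj (g * r i)) := ⟨s, hs, rfl⟩
        rw [← hτ i] at h1
        obtain ⟨s', hs', he⟩ := h1
        have h2 : cj k s = s' := by
          simp only [hcj, hk] at he ⊢
          rw [← mul_right_inj (r (τ i) : GL ι F), ← mul_left_inj ((r (τ i) : GL ι F)⁻¹)]
          calc _ = (g * (r i : GL ι F)) * s * (g * (r i : GL ι F))⁻¹ := by group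
            _ = _ := he.symm
        rw [h2]
        exact hs'
      · intro hx
        have h1 : cj (r (τ i) : GL ι F) x ∈ T.map (cj (g * r i)) := by
          rw [← hτ i]
          exact ⟨x, hx, rfl⟩
        obtain ⟨s, hs, he⟩ := h1
        refine ⟨s, hs, ?_⟩
        simp only [hcj, hk] at he ⊢
        have he' : (r (τ i) : GL ι F)⁻¹ * ((g * (r i : GL ι F)) * s * (g * (r i : GL ι F))⁻¹) * (r (τ i) : GL ι F) = x := by
          rw [he]
          group
        rw [← he']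
        group
    have hkT' : ∀ x ∈ T', k * x * k⁻¹ ∈ T' := by
      intro x hx
      have h1 : T'.map (cj k) = T' := by
        rw [hS', hkT]
      rw [← h1]
      exact ⟨x, hx, rfl⟩
    have hmem := conj_mem_spanG hkT' (hψ₁ M)
    obtain ⟨M', hM'⟩ := hψ₁s _ hmem
    refine ⟨M', ?_⟩
    rw [hψ, hψ, hM']
    have e : (r (τ i) : GL ι F) * k = g * r i := by
      rw [hk]
      group
    have e2 : (((g * r i)⁻¹ : GL ι F) : Matrix ι ι F) = ((k⁻¹ : GL ι F) : Matrix ι ι F) * (((r (τ i) : GL ι F)⁻¹ : GL ι F) : Matrix ι ι F) := by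
      rw [← e, _root_.mul_inv_rev, Units.val_mul]
    have e3 : ((g * r i : GL ι F) : Matrix ι ι F) = ((r (τ i) : GL ι F) : Matrix ι ι F) * (k : Matrix ι ι F) := by
      rw [← e, Units.val_mul]
    have e4 : ((g⁻¹ : GL ι F) : Matrix ι ι F) = ((r i : GL ι F) : Matrix ι ι F) * (((g * r i)⁻¹ : GL ι F) : Matrix ι ι F) := by
      rw [← Units.val_mul]
      congr 1
      group
    have e5 : (g : Matrix ι ι F) * ((r i : GL ι F) : Matrix ι ι F) = ((g * r i : GL ι F) : Matrix ι ι F) := by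
      rw [Units.val_mul]
    calc (g : Matrix ι ι F) * (((r i : GL ι F) : Matrix ι ι F) * ψ₁ M * (((r i : GL ι F)⁻¹ : GL ι F) : Matrix ι ι F)) * ((g⁻¹ : GL ι F) : Matrix ι ι F)
        = ((g : Matrix ι ι F) * ((r i : GL ι F) : Matrix ι ι F)) * ψ₁ M *
            ((((r i : GL ι F)⁻¹ : GL ι F) : Matrix ι ι F) * ((g⁻¹ : GL ι F) : Matrix ι ι F)) := by
          simp only [Matrix.mul_assoc]
      _ = ((g * r i : GL ι F) : Matrix ι ι F) * ψ₁ M * (((g * r i)⁻¹ : GL ι F) : Matrix ι ι F) := by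
          rw [e5, ← Units.val_mul, ← _root_.mul_inv_rev]
      _ = _ := by
          rw [e2, e3]
          simp only [Matrix.mul_assoc]
  obtain ⟨e, Q, -, hle⟩ := wreath_of_algHoms ψ hcomm hirr hHperm
  exact ⟨m, t, e, Q, hm2, ht2, hle⟩

theorem scalar_of_spanG [Nonempty ι] {P : Subgroup (GL ι F)} (hspan : spanG P = ⊤) {y : GL ι F}
    (hy : ∀ g ∈ P, y * g = g * y) : y ∈ scalars ι F := by
  obtain ⟨c, hc⟩ := habs_of_spanG hspan (y : Matrix ι ι F) (fun g hg => congrArg Units.val (hy g hg))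
  have hc0 : c ≠ 0 := by
    rintro rfl
    have hu : IsUnit (y : Matrix ι ι F) := y.isUnit
    rw [hc, zero_smul] at hu
    exact not_isUnit_zero hu
  exact (mem_scalars_iff y).mpr ⟨Units.mk0 c hc0, hc⟩

/-- The trichotomy for irreducible groups all of whose normal subgroups are scalar or span. -/
theorem tri2 [Fintype F] [Nonempty ι] (hn : 2 ≤ Fintype.card ι) {H : Subgroup (GL ι F)} (hH : Irr H)
    (hT : ∀ N, Nrm H N → N ≤ scalars ι F ∨ spanG N = ⊤) :
    (∃ N, N ≤ H ∧ Nrm H N ∧ spanG N = ⊤ ∧ ⁅N, N⁆ ≤ scalars ι F ∧ H ⊓ scalars ι F ≤ N ∧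
      ∀ M, M ≤ N → Nrm H M → ¬ M ≤ scalars ι F → M ⊔ (H ⊓ scalars ι F) = N) ∨
    (∃ (m t : ℕ) (e : ι ≃ (Fin t → Fin m)) (Q : GL ι F), 2 ≤ m ∧ 2 ≤ t ∧ H ≤ tensorWreathSubgroup m t e Q) ∨
    (∃ P, CoreNS H P) := by
  classical
  set Sc := scalars ι F with hSc
  set Z : Subgroup (GL ι F) := H ⊓ Sc with hZ
  have hZSc : Z ≤ Sc := inf_le_right
  let 𝓝 : Set (Subgroup (GL ι F)) := {N | Z ≤ N ∧ N ≤ H ∧ Nrm H N ∧ ¬ N ≤ Sc}
  have hH𝓝 : H ∈ 𝓝 := by
    refine ⟨inf_le_left, le_rfl, fun h hh x hx => H.mul_mem (H.mul_mem hh hx) (H.inv_mem hh), fun hle => ?_⟩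
    obtain ⟨g, hg, hgs⟩ := exists_nonscalar_of_irr hn hH
    exact hgs (hle hg)
  obtain ⟨N, hN, hNmin⟩ := (wellFounded_lt (α := Subgroup (GL ι F))).has_min 𝓝 ⟨H, hH𝓝⟩
  obtain ⟨hZN, hNH, hNn, hNns⟩ := hN
  have hstar : ∀ M, M ≤ N → Nrm H M → ¬ M ≤ Sc → M ⊔ Z = N := by
    intro M hMN hMn hMns
    by_contra hne
    have hle : M ⊔ Z ≤ N := sup_le hMN hZN
    refine hNmin (M ⊔ Z) ⟨le_sup_right, hle.trans hNH, hMn.sup_central hZSc, fun h => hMns (le_sup_left.trans h)⟩
      (lt_of_le_of_ne hle hne)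
  have hNspan : spanG N = ⊤ := (hT N hNn).resolve_left hNns
  by_cases hder : ⁅N, N⁆ ≤ Sc
  · left
    exact ⟨N, hNH, hNn, hNspan, hder, hZN, hstar⟩
  right
  set P : Subgroup (GL ι F) := ⁅N, N⁆ with hPdef
  have hPn : Nrm H P := hNn.commutator
  have hPN : P ≤ N := commutator_le_of_subgroup
  have hsup := hstar P hPN hPn hder
  have hperf : ⁅P, P⁆ = P := by
    apply le_antisymm commutator_le_of_subgroup
    have h1 : ⁅P ⊔ Z, P ⊔ Z⁆ ≤ ⁅P, P⁆ := commutator_sup_central_le hZSc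
    rw [hsup] at h1
    exact h1
  have hPspan : spanG P = ⊤ := (hT P hPn).resolve_left hder
  have hmin : ∀ M, M ≤ P → Nrm H M → ¬ M ≤ Sc → M = P := by
    intro M hMP hMn hMns
    have h1 := hstar M (hMP.trans hPN) hMn hMns
    apply le_antisymm hMP
    have h2 : ⁅M ⊔ Z, M ⊔ Z⁆ ≤ ⁅M, M⁆ := commutator_sup_central_le hZSc
    rw [h1] at h2
    exact h2.trans commutator_le_of_subgroup
  rcases simple_core2 hPspan hperf hder hPn hmin with hgood | hw
  swap
  · exact Or.inl hw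
  right
  refine ⟨P, hPN.trans hNH, hPn, hperf, ?_, ?_, ?_, actsAbs_of_spanG hPspan⟩
  · -- simplicity
    let ψ : P →* P ⧸ (Sc).subgroupOf P := QuotientGroup.mk' _
    have hψs : Function.Surjective ψ := QuotientGroup.mk'_surjective _
    have hψ1 : ∀ x : P, ψ x = 1 ↔ (x : GL ι F) ∈ Sc := fun x => by
      rw [QuotientGroup.mk'_apply, QuotientGroup.eq_one_iff, Subgroup.mem_subgroupOf]
    obtain ⟨x₀, hx₀, hx₀s⟩ : ∃ x ∈ P, x ∉ Sc := by
      by_contra hall
      push Not at hall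
      exact hder hall
    have : Nontrivial (P ⧸ (Sc).subgroupOf P) :=
      ⟨⟨ψ ⟨x₀, hx₀⟩, 1, fun h => hx₀s ((hψ1 _).mp h)⟩⟩
    refine ⟨fun Tb hTb => ?_⟩
    let T₁ : Subgroup (GL ι F) := (Tb.comap ψ).map P.subtype
    have hT₁P : T₁ ≤ P := by
      rintro _ ⟨t, -, rfl⟩
      exact t.2
    have hT₁n : Nrm P T₁ := by
      rintro p hp _ ⟨t, ht, rfl⟩
      refine ⟨⟨p, hp⟩ * t * ⟨p, hp⟩⁻¹, ?_, by simp⟩
      show ψ _ ∈ Tb
      rw [map_mul, map_mul, map_inv]
      exact hTb.conj_mem _ ht _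
    rcases hgood T₁ hT₁P hT₁n with hs | he
    · left
      rw [eq_bot_iff]
      intro xb hxb
      obtain ⟨x, rfl⟩ := hψs xb
      rw [Subgroup.mem_bot, hψ1]
      exact hs ⟨x, hxb, rfl⟩
    · right
      rw [eq_top_iff]
      intro xb _
      obtain ⟨x, rfl⟩ := hψs xb
      have : (x : GL ι F) ∈ T₁ := by rw [he]; exact x.2
      obtain ⟨t, ht, hte⟩ := this
      have : t = x := Subtype.ext hte
      rw [← this]
      exact ht
  · -- nonabelian
    intro hc
    apply hder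
    rw [← hperf, Subgroup.commutator_le]
    intro a' ha' b' hb'
    have hcomm' := hc.is_comm.comm
      (QuotientGroup.mk' ((Sc).subgroupOf P) ⟨a', ha'⟩) (QuotientGroup.mk' ((Sc).subgroupOf P) ⟨b', hb'⟩)
    have h1 : QuotientGroup.mk' ((Sc).subgroupOf P) ⁅(⟨a', ha'⟩ : P), (⟨b', hb'⟩ : P)⁆ = 1 := by
      rw [map_commutatorElement, commutatorElement_eq_one_iff_mul_comm]
      exact hcomm'
    rw [QuotientGroup.mk'_apply, QuotientGroup.eq_one_iff, Subgroup.mem_subgroupOf] at h1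
    exact h1
  · -- centraliser modulo scalars
    intro h _ hhc
    apply scalar_of_spanG hPspan
    have hc' : ∀ x ∈ P, x * h * x⁻¹ * h⁻¹ ∈ Sc := by
      intro x hx
      have := Sc.inv_mem (hhc x hx)
      have e : (h * x * h⁻¹ * x⁻¹)⁻¹ = x * h * x⁻¹ * h⁻¹ := by group
      rwa [e] at this
    have hle : P ≤ Subgroup.centralizer {h} := by
      conv_lhs => rw [← hperf]
      rw [Subgroup.commutator_le]
      intro x₁ hx₁ x₂ hx₂
      rw [Subgroup.mem_centralizer_iff]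
      intro z hz
      rw [Set.mem_singleton_iff] at hz
      subst hz
      refine (commutator_commute_of_central (c₁ := x₁ * z * x₁⁻¹ * z⁻¹) (c₂ := x₂ * z * x₂⁻¹ * z⁻¹)
        (fun g => scalar_central (hc' x₁ hx₁) g) (fun g => scalar_central (hc' x₂ hx₂) g) ?_ ?_).symm
      · group
      · group
    intro g hg
    exact Subgroup.mem_centralizer_iff.mp (hle hg) h rfl

end Cfsg.Agent.H97.Asch
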