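import Cfsg.Agent.Lib.H97Max8
import Cfsg.Agent.Lib.H97Ort4

/-!
Forms with an adjoint: the basic adjoint calculus for a non-degenerate `ε`-hermitian form on column vectors.
-/

set_option autoImplicit false
set_option linter.unusedSectionVars false
set_option linter.style.haveILetI false

namespace Cfsg.Agent.H97.Asch

open Matrix Cfsg Cfsg.Geo
open scoped MatrixGroups

variable {ι : Type} [Fintype ι] [DecidableEq ι] {F : Type*} [Field F]

/-- a non-degenerate `ε`-hermitian form with respect to an involution `σ`. -/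
structure FCtx (σ : F →+* F) (ε : F) (f : (ι → F) → (ι → F) → F) : Prop where
  sesq : Sesq σ f
  ndr : ∀ v, v ≠ 0 → ∃ x, f v x ≠ 0
  ndl : ∀ v, v ≠ 0 → ∃ x, f x v ≠ 0
  invol : ∀ a, σ (σ a) = a
  herm : ∀ u v, f u v = ε * σ (f v u)

/-- `H` consists of isometries of `f`. -/
def FFix (f : (ι → F) → (ι → F) → F) (H : Subgroup (GL ι F)) : Prop :=
  ∀ g ∈ H, ∀ u v, f ((g : Matrix ι ι F) *ᵥ u) ((g : Matrix ι ι F) *ᵥ v) = f u v

variable {σ : F →+* F} {ε : F} {f : (ι → F) → (ι → F) → F}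

namespace FCtx

theorem exists_adj (C : FCtx σ ε f) (A : Matrix ι ι F) :
    ∃ A' : Matrix ι ι F, ∀ u v, f (A' *ᵥ u) v = f u (A *ᵥ v) := by
  have hS := C.sesq
  have h₁ : Sesq σ (fun u v => f u (A *ᵥ v)) :=
    ⟨fun x y v => hS.add_left x y _, fun c x v => hS.smul_left c x _,
     fun v x y => by simp only [Matrix.mulVec_add]; exact hS.add_right _ _ _,
     fun c v x => by simp only [Matrix.mulVec_smul]; exact hS.smul_right _ _ _⟩
  obtain ⟨A', hA'⟩ := hS.exists_rep h₁ C.ndr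
  exact ⟨A', fun u v => (hA' u v).symm⟩

/-- the adjoint of a matrix -/
noncomputable def adj (C : FCtx σ ε f) (A : Matrix ι ι F) : Matrix ι ι F :=
  Classical.choose (C.exists_adj A)

theorem adj_spec (C : FCtx σ ε f) (A : Matrix ι ι F) (u v : ι → F) :
    f (C.adj A *ᵥ u) v = f u (A *ᵥ v) :=
  Classical.choose_spec (C.exists_adj A) u v

theorem adj_spec' (C : FCtx σ ε f) (A : Matrix ι ι F) (u v : ι → F) :
    f (A *ᵥ u) v = f u (C.adj A *ᵥ v) := by
  rw [C.herm (A *ᵥ u) v, ← C.adj_spec A v u, ← C.herm]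

theorem mat_ext_left (C : FCtx σ ε f) {X Y : Matrix ι ι F} (h : ∀ u v, f (X *ᵥ u) v = f (Y *ᵥ u) v) : X = Y := by
  apply Matrix.toLin'.injective
  apply LinearMap.ext
  intro u
  simp only [Matrix.toLin'_apply]
  by_contra hne
  obtain ⟨x, hx⟩ := C.ndr _ (sub_ne_zero.mpr hne)
  apply hx
  rw [C.sesq.sub_left, h, sub_self]

theorem sub_right (C : FCtx σ ε f) (x y v : ι → F) : f v (x - y) = f v x - f v y := by
  have h1 := C.sesq.add_right v (x - y) y
  rw [sub_add_cancel] at h1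
  rw [h1]; ring

theorem mat_ext_right (C : FCtx σ ε f) {X Y : Matrix ι ι F} (h : ∀ u v, f u (X *ᵥ v) = f u (Y *ᵥ v)) : X = Y := by
  apply Matrix.toLin'.injective
  apply LinearMap.ext
  intro u
  simp only [Matrix.toLin'_apply]
  by_contra hne
  obtain ⟨x, hx⟩ := C.ndl _ (sub_ne_zero.mpr hne)
  apply hx
  rw [C.sub_right, h, sub_self]

theorem eq_adj_of (C : FCtx σ ε f) {X A : Matrix ι ι F} (h : ∀ u v, f (X *ᵥ u) v = f u (A *ᵥ v)) : X = C.adj A :=
  C.mat_ext_left fun u v => by rw [h, C.adj_spec]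

theorem eq_adj_of' (C : FCtx σ ε f) {X A : Matrix ι ι F} (h : ∀ u v, f (A *ᵥ u) v = f u (X *ᵥ v)) : X = C.adj A :=
  C.mat_ext_right fun u v => by rw [← h, C.adj_spec']

theorem adj_adj (C : FCtx σ ε f) (A : Matrix ι ι F) : C.adj (C.adj A) = A :=
  (C.eq_adj_of fun u v => C.adj_spec' A u v).symm

theorem adj_injective (C : FCtx σ ε f) : Function.Injective C.adj := fun A B h => by
  rw [← C.adj_adj A, h, C.adj_adj]

theorem adj_one (C : FCtx σ ε f) : C.adj (1 : Matrix ι ι F) = 1 :=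
  (C.eq_adj_of fun u v => by simp).symm

theorem adj_zero (C : FCtx σ ε f) : C.adj (0 : Matrix ι ι F) = 0 :=
  (C.eq_adj_of fun u v => by
    simp only [Matrix.zero_mulVec]
    rw [C.sesq.zero_left, C.sesq.zero_right]).symm

theorem adj_add (C : FCtx σ ε f) (A B : Matrix ι ι F) : C.adj (A + B) = C.adj A + C.adj B :=
  (C.eq_adj_of fun u v => by
    rw [Matrix.add_mulVec, Matrix.add_mulVec, C.sesq.add_left, C.sesq.add_right, C.adj_spec, C.adj_spec]).symm

theorem adj_mul (C : FCtx σ ε f) (A B : Matrix ι ι F) : C.adj (A * B) = C.adj B * C.adj A :=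
  (C.eq_adj_of fun u v => by
    rw [← Matrix.mulVec_mulVec, ← Matrix.mulVec_mulVec, C.adj_spec, C.adj_spec]).symm

theorem adj_smul (C : FCtx σ ε f) (c : F) (A : Matrix ι ι F) : C.adj (c • A) = σ c • C.adj A :=
  (C.eq_adj_of fun u v => by
    rw [Matrix.smul_mulVec, Matrix.smul_mulVec, C.sesq.smul_left, C.sesq.smul_right, C.adj_spec]).symm

theorem adj_sub (C : FCtx σ ε f) (A B : Matrix ι ι F) : C.adj (A - B) = C.adj A - C.adj B := by
  have h := C.adj_add (A - B) B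
  rw [sub_add_cancel] at h
  rw [h, add_sub_cancel_right]

theorem adj_pow (C : FCtx σ ε f) (A : Matrix ι ι F) (k : ℕ) : C.adj (A ^ k) = C.adj A ^ k := by
  induction k with
  | zero => simp [C.adj_one]
  | succ k ih =>
    rw [pow_succ, C.adj_mul, ih, pow_succ']

theorem adj_gl (C : FCtx σ ε f) {g : GL ι F} (hg : ∀ u v, f ((g : Matrix ι ι F) *ᵥ u) ((g : Matrix ι ι F) *ᵥ v) = f u v) :
    C.adj (g : Matrix ι ι F) = ((g⁻¹ : GL ι F) : Matrix ι ι F) :=
  (C.eq_adj_of fun u v => by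
    have := hg (((g⁻¹ : GL ι F) : Matrix ι ι F) *ᵥ u) v
    rw [gl_mulVec_inv] at this
    exact this.symm).symm

theorem adj_gl_inv (C : FCtx σ ε f) {g : GL ι F} (hg : ∀ u v, f ((g : Matrix ι ι F) *ᵥ u) ((g : Matrix ι ι F) *ᵥ v) = f u v) :
    C.adj ((g⁻¹ : GL ι F) : Matrix ι ι F) = (g : Matrix ι ι F) := by
  rw [← C.adj_gl hg, C.adj_adj]

theorem adj_conj (C : FCtx σ ε f) {g : GL ι F} (hg : ∀ u v, f ((g : Matrix ι ι F) *ᵥ u) ((g : Matrix ι ι F) *ᵥ v) = f u v)
    (x : Matrix ι ι F) :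
    C.adj ((g : Matrix ι ι F) * x * ((g⁻¹ : GL ι F) : Matrix ι ι F)) =
      (g : Matrix ι ι F) * C.adj x * ((g⁻¹ : GL ι F) : Matrix ι ι F) := by
  rw [C.adj_mul, C.adj_mul, C.adj_gl hg, C.adj_gl_inv hg, Matrix.mul_assoc]

end FCtx

/-- a star-closed subalgebra -/
def FStar (C : FCtx σ ε f) (B : Subalgebra F (Matrix ι ι F)) : Prop := ∀ x ∈ B, C.adj x ∈ B

theorem FStar.spanG (C : FCtx σ ε f) {N : Subgroup (GL ι F)} (hN : FFix f N) : FStar C (spanG N) := by
  intro x hx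
  induction hx using Algebra.adjoin_induction with
  | mem x hx =>
    obtain ⟨g, hg, rfl⟩ := hx
    rw [C.adj_gl (hN g hg)]
    exact mem_spanG (N.inv_mem hg)
  | algebraMap r =>
    rw [Algebra.algebraMap_eq_smul_one, C.adj_smul, C.adj_one]
    exact Subalgebra.smul_mem _ (Subalgebra.one_mem _) _
  | add x y _ _ hx hy =>
    rw [C.adj_add]
    exact Subalgebra.add_mem _ hx hy
  | mul x y _ _ hx hy =>
    rw [C.adj_mul]
    exact Subalgebra.mul_mem _ hy hx

theorem FStar.Zalg (C : FCtx σ ε f) {B : Subalgebra F (Matrix ι ι F)} (hB : FStar C B) : FStar C (Zalg B) := by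
  intro x hx
  obtain ⟨hxB, hxc⟩ := mem_Zalg.mp hx
  refine mem_Zalg.mpr ⟨hB x hxB, fun y hy => ?_⟩
  have h1 := hxc (C.adj y) (hB y hy)
  have h2 := congrArg C.adj h1
  rw [C.adj_mul, C.adj_mul, C.adj_adj] at h2
  exact h2.symm

theorem FFix.mono {H N : Subgroup (GL ι F)} (h : FFix f H) (hN : N ≤ H) : FFix f N := fun g hg => h g (hN hg)

/-- the form vanishes: conclusions about the span of a transformed pair. -/
theorem FCtx.sesq_adj (C : FCtx σ ε f) : Sesq σ f := C.sesq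

theorem FCtx.exists_ne_of_nonempty (C : FCtx σ ε f) [Nonempty ι] : ∃ u v, f u v ≠ 0 := by
  obtain ⟨v, hv⟩ : ∃ v : ι → F, v ≠ 0 := exists_ne 0
  obtain ⟨x, hx⟩ := C.ndr v hv
  exact ⟨v, x, hx⟩

theorem FCtx.eps_ne (C : FCtx σ ε f) [Nonempty ι] : ε ≠ 0 := by
  rintro rfl
  obtain ⟨u, v, h⟩ := C.exists_ne_of_nonempty
  apply h
  rw [C.herm, zero_mul]

theorem FCtx.eps_norm (C : FCtx σ ε f) [Nonempty ι] : ε * σ ε = 1 := by
  obtain ⟨u, v, h⟩ := C.exists_ne_of_nonempty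
  have h1 := C.herm u v
  have h2 := C.herm v u
  rw [h2, map_mul, C.invol] at h1
  have h3 : (ε * σ ε - 1) * f u v = 0 := by linear_combination -h1
  exact sub_eq_zero.mp ((mul_eq_zero.mp h3).resolve_right h)

end Cfsg.Agent.H97.Asch
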