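import Cfsg.Agent.Lib.H97F1

/-!
Orbits of idempotents: decompositions from an orbit of orthogonal idempotents.
-/

set_option autoImplicit false
set_option linter.unusedSectionVars false
set_option linter.style.haveILetI false

namespace Cfsg.Agent.H97.Asch

open Matrix Cfsg Cfsg.Geo
open scoped MatrixGroups

variable {ι : Type} [Fintype ι] [DecidableEq ι] {F : Type*} [Field F]

/-- An orbit of pairwise orthogonal idempotents gives an imprimitive decomposition. -/
theorem decomp_of_orbit [Finite F] [Nonempty ι] {H : Subgroup (GL ι F)} (hH : Irr H)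
    {e₀ : Matrix ι ι F} (hee : e₀ * e₀ = e₀) (he0 : e₀ ≠ 0) (he1 : e₀ ≠ 1)
    (horb : ∀ h ∈ H, ∀ k ∈ H, (h : Matrix ι ι F) * e₀ * ((h⁻¹ : GL ι F) : Matrix ι ι F) = (k : Matrix ι ι F) * e₀ * ((k⁻¹ : GL ι F) : Matrix ι ι F) ∨
      ((h : Matrix ι ι F) * e₀ * ((h⁻¹ : GL ι F) : Matrix ι ι F)) * ((k : Matrix ι ι F) * e₀ * ((k⁻¹ : GL ι F) : Matrix ι ι F)) = 0) :
    ∃ (t : ℕ) (f : Fin t → Matrix ι ι F),
      (∀ i, ∃ h ∈ H, f i = (h : Matrix ι ι F) * e₀ * ((h⁻¹ : GL ι F) : Matrix ι ι F)) ∧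
      (∀ h ∈ H, ∃ i, (h : Matrix ι ι F) * e₀ * ((h⁻¹ : GL ι F) : Matrix ι ι F) = f i) ∧
      Function.Injective f ∧ (∀ i j, i ≠ j → f i * f j = 0) ∧ ∑ i, f i = 1 ∧
      IsMDecomposition (Module.finrank F (LinearMap.range (Matrix.toLin' e₀))) (fun i => LinearMap.range (Matrix.toLin' (f i))) ∧
      H ≤ decompositionStabilizer (fun i => LinearMap.range (Matrix.toLin' (f i))) := by
  classical
  set rk : Matrix ι ι F → ℕ := fun f => Module.finrank F (LinearMap.range (Matrix.toLin' f)) with hrk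
  have hrkpos : 0 < rk e₀ := by
    rw [hrk, Module.finrank_pos_iff, Submodule.nontrivial_iff_ne_bot]
    intro hb
    apply he0
    rw [LinearMap.range_eq_bot] at hb
    exact Matrix.toLin'.injective (by simpa using hb)
  let c : GL ι F → Matrix ι ι F := fun h => (h : Matrix ι ι F) * e₀ * ((h⁻¹ : GL ι F) : Matrix ι ι F)
  have hcc : ∀ h, c h * c h = c h := fun h => by
    simp only [c]
    rw [conj_conj_inv, hee]
  have hc0 : ∀ h, c h ≠ 0 := by
    intro h h0
    apply he0
    have := conj_inv_conj h e₀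
    rw [← this]
    show ((h⁻¹ : GL ι F) : Matrix ι ι F) * (c h) * (h : Matrix ι ι F) = 0
    rw [h0]
    simp
  have hcrk : ∀ h, rk (c h) = rk e₀ := fun h => finrank_range_conj h e₀
  let O : Set (Matrix ι ι F) := Set.range (fun h : H => c h)
  have hOfin : Finite O := Set.toFinite O |>.to_subtype
  obtain ⟨t, ⟨φ⟩⟩ := Finite.exists_equiv_fin O
  let f : Fin t → Matrix ι ι F := fun i => (φ.symm i : Matrix ι ι F)
  have hfO : ∀ i, ∃ h : H, f i = c h := fun i => by
    obtain ⟨h, hh⟩ := (φ.symm i).2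
    exact ⟨h, hh.symm⟩
  have hfinj : Function.Injective f := fun i j hij => φ.symm.injective (Subtype.ext hij)
  have hfi : ∀ i, f i * f i = f i := fun i => by
    obtain ⟨h, hh⟩ := hfO i
    rw [hh]
    exact hcc h
  have hf0 : ∀ i, f i ≠ 0 := fun i => by
    obtain ⟨h, hh⟩ := hfO i
    rw [hh]
    exact hc0 h
  have hfrk : ∀ i, rk (f i) = rk e₀ := fun i => by
    obtain ⟨h, hh⟩ := hfO i
    rw [hh]
    exact hcrk h
  have horth : ∀ i j, i ≠ j → f i * f j = 0 := by
    intro i j hij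
    obtain ⟨h, hh⟩ := hfO j
    obtain ⟨k, hk⟩ := hfO i
    rcases horb k k.2 h h.2 with h1 | h1
    · exfalso
      apply hij
      apply hfinj
      rw [hh, hk]
      exact h1
    · rw [hh, hk]
      exact h1
  -- the action on the orbit
  have hact : ∀ h ∈ H, ∀ i, ∃ j, (h : Matrix ι ι F) * f i * ((h⁻¹ : GL ι F) : Matrix ι ι F) = f j := by
    intro h hh i
    obtain ⟨k, hk⟩ := hfO i
    have hmem : (h : Matrix ι ι F) * f i * ((h⁻¹ : GL ι F) : Matrix ι ι F) ∈ O := by
      refine ⟨⟨h * k, H.mul_mem hh k.2⟩, ?_⟩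
      simp only [c, hk]
      rw [Units.val_mul, _root_.mul_inv_rev, Units.val_mul]
      simp only [Matrix.mul_assoc]
    refine ⟨φ ⟨_, hmem⟩, ?_⟩
    simp [f]
  choose! π hπ using hact
  have hπinj : ∀ h ∈ H, Function.Injective (π h) := by
    intro h hh i j hij
    apply hfinj
    have h1 := hπ h hh i
    have h2 := hπ h hh j
    rw [hij, ← h2] at h1
    have h3 := congrArg (fun x => ((h⁻¹ : GL ι F) : Matrix ι ι F) * x * (h : Matrix ι ι F)) h1
    simp only [conj_inv_conj] at h3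
    exact h3
  have hπb : ∀ h ∈ H, Function.Bijective (π h) := fun h hh =>
    Finite.injective_iff_bijective.mp (hπinj h hh)
  -- the sum
  let E : Matrix ι ι F := ∑ i, f i
  have hEf : ∀ i, E * f i = f i := by
    intro i
    simp only [E]
    rw [Finset.sum_mul, Finset.sum_eq_single i]
    · exact hfi i
    · intro j _ hj
      exact horth j i hj
    · simp
  have hEE : E * E = E := by
    conv_lhs => rw [show E * E = E * ∑ i, f i from rfl, Finset.mul_sum]
    exact Finset.sum_congr rfl fun i _ => hEf i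
  have hEconj : ∀ h ∈ H, (h : Matrix ι ι F) * E * ((h⁻¹ : GL ι F) : Matrix ι ι F) = E := by
    intro h hh
    simp only [E]
    rw [Finset.mul_sum, Finset.sum_mul]
    have : ∀ i, (h : Matrix ι ι F) * f i * ((h⁻¹ : GL ι F) : Matrix ι ι F) = f (π h i) := hπ h hh
    rw [Finset.sum_congr rfl (fun i _ => this i)]
    exact Function.Bijective.sum_comp (hπb h hh) f
  have ht0 : Nonempty (Fin t) := by
    have : (⟨c 1, ⟨⟨1, H.one_mem⟩, rfl⟩⟩ : O) = φ.symm (φ ⟨c 1, ⟨⟨1, H.one_mem⟩, rfl⟩⟩) := by simp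
    exact ⟨φ ⟨c 1, ⟨⟨1, H.one_mem⟩, rfl⟩⟩⟩
  have hE1 : E = 1 := by
    apply idem_eq_one_of_range hEE
    have hst : Stable H (LinearMap.range (Matrix.toLin' E)) := by
      rintro g hg _ ⟨u, rfl⟩
      refine ⟨(g : Matrix ι ι F) *ᵥ u, ?_⟩
      simp only [Matrix.toLin'_apply]
      rw [Matrix.mulVec_mulVec, Matrix.mulVec_mulVec]
      have h1 : (g : Matrix ι ι F) * E = E * (g : Matrix ι ι F) := by
        have h2 := hEconj g hg
        calc (g : Matrix ι ι F) * E = ((g : Matrix ι ι F) * E * ((g⁻¹ : GL ι F) : Matrix ι ι F)) * (g : Matrix ι ι F) := by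
              rw [Matrix.mul_assoc, ← Units.val_mul, inv_mul_cancel, Units.val_one, Matrix.mul_one]
          _ = _ := by rw [h2]
      rw [h1]
    refine (hH _ hst).resolve_left ?_
    intro hb
    rw [LinearMap.range_eq_bot] at hb
    have hE0 : E = 0 := Matrix.toLin'.injective (by simpa using hb)
    obtain ⟨i⟩ := ht0
    apply hf0 i
    rw [← hEf i, hE0, Matrix.zero_mul]
  -- e₀ is not one
  have hrke : rk e₀ < Fintype.card ι := by
    have h3 : rk e₀ ≤ Module.finrank F (ι → F) := Submodule.finrank_le _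
    rw [Module.finrank_fintype_fun_eq_card] at h3
    refine lt_of_le_of_ne h3 ?_
    intro h4
    apply he1
    apply idem_eq_one_of_range hee
    apply Submodule.eq_top_of_finrank_eq
    rw [Module.finrank_fintype_fun_eq_card]
    exact h4
  have htwo : 2 ≤ t := by
    by_contra hlt
    have ht1 : t = 1 := by
      have := Fintype.card_pos_iff.mpr ht0
      rw [Fintype.card_fin] at this
      omega
    subst ht1
    have h1 : E = f 0 := by
      simp only [E]
      rw [Fin.sum_univ_one]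
    have h2 : rk (f 0) = Fintype.card ι := by
      rw [← h1, hE1]
      have h3 : LinearMap.range (Matrix.toLin' (1 : Matrix ι ι F)) = ⊤ := by
        rw [Matrix.toLin'_one]
        exact LinearMap.range_id
      show Module.finrank F (LinearMap.range (Matrix.toLin' (1 : Matrix ι ι F))) = _
      rw [h3, finrank_top, Module.finrank_fintype_fun_eq_card]
    rw [hfrk] at h2
    omega
  refine ⟨t, f, fun i => ?_, fun h hh => ?_, hfinj, horth, hE1, ⟨htwo, hrkpos, fun i => hfrk i, ?_, ?_⟩, ?_⟩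
  · obtain ⟨k, hk⟩ := hfO i
    exact ⟨k, k.2, hk⟩
  · refine ⟨φ ⟨c h, ⟨⟨h, hh⟩, rfl⟩⟩, ?_⟩
    show c h = f (φ ⟨c h, ⟨⟨h, hh⟩, rfl⟩⟩)
    simp only [f, Equiv.symm_apply_apply]
  · -- independence
    rw [iSupIndep_def]
    intro i
    rw [Submodule.disjoint_def]
    intro x hx hx2
    obtain ⟨u, rfl⟩ := hx
    have hle : (⨆ j, ⨆ (_ : j ≠ i), LinearMap.range (Matrix.toLin' (f j))) ≤
        LinearMap.ker (Matrix.toLin' (f i)) := by
      refine iSup₂_le fun j hj => ?_
      rintro _ ⟨w, rfl⟩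
      rw [LinearMap.mem_ker]
      simp only [Matrix.toLin'_apply, Matrix.mulVec_mulVec]
      rw [horth i j (Ne.symm hj), Matrix.zero_mulVec]
    have h0 := hle hx2
    rw [LinearMap.mem_ker] at h0
    simp only [Matrix.toLin'_apply, Matrix.mulVec_mulVec, hfi] at h0 ⊢
    exact h0
  · -- spanning
    rw [eq_top_iff]
    intro v _
    have hv : v = ∑ i, (f i) *ᵥ v := by
      have h1 : E *ᵥ v = v := by rw [hE1, Matrix.one_mulVec]
      rw [← Matrix.sum_mulVec]
      exact h1.symm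
    rw [hv]
    refine Submodule.sum_mem _ fun i _ => ?_
    exact Submodule.mem_iSup_of_mem i ⟨v, rfl⟩
  · -- stabiliser
    intro h hh
    refine ⟨Equiv.ofBijective (π h) (hπb h hh), fun i => ?_⟩
    rw [map_range_conj, hπ h hh]
    rfl

variable {σ : F →+* F} {ε : F} {f : (ι → F) → (ι → F) → F}

/-- form-compatible imprimitive structures -/
def FClass2 (f : (ι → F) → (ι → F) → F) (H : Subgroup (GL ι F)) : Prop :=
  (∃ (t k : ℕ) (D : Fin t → Submodule F (ι → F)), IsNondegenerateMDecomposition f k D ∧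
      H ≤ decompositionStabilizer D ∧ ∀ i j, ∃ h ∈ H, (D i).map (Matrix.toLin' (h : Matrix ι ι F)) = D j) ∨
  (∃ (k : ℕ) (D : Fin 2 → Submodule F (ι → F)), IsMDecomposition k D ∧ (∀ i, IsTotallySingularFor f (D i)) ∧
      H ≤ decompositionStabilizer D)

theorem conj_mul_gl (a b : GL ι F) (x : Matrix ι ι F) :
    ((a * b : GL ι F) : Matrix ι ι F) * x * (((a * b)⁻¹ : GL ι F) : Matrix ι ι F) =
      (a : Matrix ι ι F) * ((b : Matrix ι ι F) * x * ((b⁻¹ : GL ι F) : Matrix ι ι F)) * ((a⁻¹ : GL ι F) : Matrix ι ι F) := by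
  rw [_root_.mul_inv_rev, Units.val_mul, Units.val_mul]
  simp only [Matrix.mul_assoc]

theorem conj_inv_conj_gl (h k : GL ι F) (x : Matrix ι ι F) :
    (k : Matrix ι ι F) * (((h⁻¹ : GL ι F) : Matrix ι ι F) * ((h : Matrix ι ι F) * x * ((h⁻¹ : GL ι F) : Matrix ι ι F)) * ((h⁻¹⁻¹ : GL ι F) : Matrix ι ι F)) * ((k⁻¹ : GL ι F) : Matrix ι ι F) =
      (k : Matrix ι ι F) * x * ((k⁻¹ : GL ι F) : Matrix ι ι F) := by
  rw [inv_inv, conj_inv_conj]

theorem idem_mulVec_of_mem_range {e : Matrix ι ι F} (he : e * e = e) {w : ι → F}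
    (hw : w ∈ LinearMap.range (Matrix.toLin' e)) : e *ᵥ w = w := by
  obtain ⟨u, rfl⟩ := hw
  simp only [Matrix.toLin'_apply, Matrix.mulVec_mulVec, he]

theorem nondeg_of_selfadjoint_orbit [Finite F] [Nonempty ι] (C : FCtx σ ε f) {H : Subgroup (GL ι F)} (hH : Irr H) (hfix : FFix f H)
    {e₀ : Matrix ι ι F} (hee : e₀ * e₀ = e₀) (he0 : e₀ ≠ 0) (he1 : e₀ ≠ 1) (hadj : C.adj e₀ = e₀)
    (horb : ∀ h ∈ H, ∀ k ∈ H, (h : Matrix ι ι F) * e₀ * ((h⁻¹ : GL ι F) : Matrix ι ι F) = (k : Matrix ι ι F) * e₀ * ((k⁻¹ : GL ι F) : Matrix ι ι F) ∨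
      ((h : Matrix ι ι F) * e₀ * ((h⁻¹ : GL ι F) : Matrix ι ι F)) * ((k : Matrix ι ι F) * e₀ * ((k⁻¹ : GL ι F) : Matrix ι ι F)) = 0) :
    FClass2 f H := by
  classical
  obtain ⟨t, g, hg1, hg2, hinj, horth, hsum, hdec, hstab⟩ := decomp_of_orbit hH hee he0 he1 horb
  left
  have hidem : ∀ i, g i * g i = g i ∧ C.adj (g i) = g i := by
    intro i
    obtain ⟨h, hh, e⟩ := hg1 i
    rw [e, C.adj_conj (hfix h hh), hadj, conj_conj_inv, hee]
    exact ⟨rfl, rfl⟩
  refine ⟨t, _, _, ⟨hdec, ?_, ?_⟩, hstab, ?_⟩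
  · intro i w hw hw0
    have hww := idem_mulVec_of_mem_range (hidem i).1 hw
    constructor
    · obtain ⟨x, hx⟩ := C.ndl w hw0
      refine ⟨g i *ᵥ x, ⟨x, rfl⟩, ?_⟩
      have e : f (g i *ᵥ x) w = f x w := by
        rw [C.adj_spec' (g i) x w, (hidem i).2, hww]
      rwa [e]
    · obtain ⟨x, hx⟩ := C.ndr w hw0
      refine ⟨g i *ᵥ x, ⟨x, rfl⟩, ?_⟩
      have e : f w (g i *ᵥ x) = f w x := by
        rw [← C.adj_spec (g i) w x, (hidem i).2, hww]
      rwa [e]
  · intro i j hij u hu v hv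
    have hu' := idem_mulVec_of_mem_range (hidem i).1 hu
    have hv' := idem_mulVec_of_mem_range (hidem j).1 hv
    calc f u v = f (g i *ᵥ u) (g j *ᵥ v) := by rw [hu', hv']
      _ = f u (g i *ᵥ (g j *ᵥ v)) := by rw [C.adj_spec' (g i) u, (hidem i).2]
      _ = 0 := by rw [Matrix.mulVec_mulVec, horth i j hij, Matrix.zero_mulVec, C.sesq.zero_right]
  · intro i j
    obtain ⟨h, hh, ei⟩ := hg1 i
    obtain ⟨k, hk, ej⟩ := hg1 j
    refine ⟨k * h⁻¹, H.mul_mem hk (H.inv_mem hh), ?_⟩
    rw [map_range_conj, ei, ej, conj_mul_gl, conj_inv_conj_gl]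

/-- the form-compatible version of `class2_of_idem` -/
theorem fclass2_of_idem [Finite F] [Nonempty ι] (C : FCtx σ ε f) {H : Subgroup (GL ι F)} (hH : Irr H) (hfix : FFix f H)
    {A : Subalgebra F (Matrix ι ι F)} (hA : NormAlg H A) (hstar : FStar C A) (hcomm : ∀ x ∈ A, ∀ y ∈ A, x * y = y * x)
    {e : Matrix ι ι F} (heA : e ∈ A) (hee : e * e = e) (he0 : e ≠ 0) (he1 : e ≠ 1) : FClass2 f H := by
  classical
  set rk : Matrix ι ι F → ℕ := fun f => Module.finrank F (LinearMap.range (Matrix.toLin' f)) with hrk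
  let S : Set (Matrix ι ι F) := {f | f ∈ A ∧ f * f = f ∧ f ≠ 0}
  have hSfin : S.Finite := Set.toFinite S
  obtain ⟨e₀, ⟨he₀A, he₀e, he₀0⟩, hmin⟩ := Set.exists_min_image S rk hSfin ⟨e, heA, hee, he0⟩
  have hrkn : ∀ x : Matrix ι ι F, x * x = x → x ≠ 1 → rk x < Fintype.card ι := by
    intro x hxx hx1
    have h3 : rk x ≤ Module.finrank F (ι → F) := Submodule.finrank_le _
    rw [Module.finrank_fintype_fun_eq_card] at h3
    refine lt_of_le_of_ne h3 ?_
    intro h4
    apply hx1
    apply idem_eq_one_of_range hxx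
    apply Submodule.eq_top_of_finrank_eq
    rw [Module.finrank_fintype_fun_eq_card]
    exact h4
  have he₀1 : e₀ ≠ 1 := by
    rintro rfl
    have h1 := hmin e ⟨heA, hee, he0⟩
    have h2 := hrkn e hee he1
    have h3 : rk 1 = Fintype.card ι := by
      have h4 : LinearMap.range (Matrix.toLin' (1 : Matrix ι ι F)) = ⊤ := by
        rw [Matrix.toLin'_one]
        exact LinearMap.range_id
      show Module.finrank F (LinearMap.range (Matrix.toLin' (1 : Matrix ι ι F))) = _
      rw [h4, finrank_top, Module.finrank_fintype_fun_eq_card]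
    omega
  -- conjugates
  let c : GL ι F → Matrix ι ι F := fun h => (h : Matrix ι ι F) * e₀ * ((h⁻¹ : GL ι F) : Matrix ι ι F)
  have hcdef : ∀ h, c h = (h : Matrix ι ι F) * e₀ * ((h⁻¹ : GL ι F) : Matrix ι ι F) := fun h => rfl
  have hcA : ∀ h ∈ H, c h ∈ A := fun h hh => hA h hh e₀ he₀A
  have hcc : ∀ h, c h * c h = c h := fun h => by
    simp only [c]
    rw [conj_conj_inv, he₀e]
  have hc0 : ∀ h, c h ≠ 0 := by
    intro h h0
    apply he₀0
    have := conj_inv_conj h e₀
    rw [← this]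
    show ((h⁻¹ : GL ι F) : Matrix ι ι F) * (c h) * (h : Matrix ι ι F) = 0
    rw [h0]
    simp
  -- primitivity
  have hprim0 : ∀ f ∈ A, f * f = f → f * e₀ = 0 ∨ f * e₀ = e₀ := by
    intro f hf hff
    by_cases h0 : f * e₀ = 0
    · exact Or.inl h0
    right
    have hfe : f * e₀ = e₀ * f := hcomm f hf e₀ he₀A
    have hmem : f * e₀ ∈ S := by
      refine ⟨A.mul_mem hf he₀A, ?_, h0⟩
      calc f * e₀ * (f * e₀) = f * (e₀ * f) * e₀ := by simp only [Matrix.mul_assoc]
        _ = f * (f * e₀) * e₀ := by rw [hfe]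
        _ = (f * f) * (e₀ * e₀) := by simp only [Matrix.mul_assoc]
        _ = f * e₀ := by rw [hff, he₀e]
    have hle : LinearMap.range (Matrix.toLin' (f * e₀)) ≤ LinearMap.range (Matrix.toLin' e₀) := by
      rintro _ ⟨u, rfl⟩
      refine ⟨f *ᵥ u, ?_⟩
      simp only [Matrix.toLin'_apply, Matrix.mulVec_mulVec, hfe]
    have heq : LinearMap.range (Matrix.toLin' (f * e₀)) = LinearMap.range (Matrix.toLin' e₀) :=
      Submodule.eq_of_le_of_finrank_le hle (hmin _ hmem)
    apply Matrix.toLin'.injective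
    apply LinearMap.ext
    intro v
    have hv : Matrix.toLin' e₀ v ∈ LinearMap.range (Matrix.toLin' (f * e₀)) := by
      rw [heq]
      exact ⟨v, rfl⟩
    obtain ⟨u, hu⟩ := hv
    simp only [Matrix.toLin'_apply] at hu ⊢
    have h1 : (f * e₀) *ᵥ v = f *ᵥ (e₀ *ᵥ v) := (Matrix.mulVec_mulVec _ _ _).symm
    rw [h1, ← hu, Matrix.mulVec_mulVec, ← Matrix.mul_assoc, hff]
  have hprim : ∀ h ∈ H, ∀ f ∈ A, f * f = f → f * c h = 0 ∨ f * c h = c h := by
    intro h hh f hf hff
    have hf' : ((h⁻¹ : GL ι F) : Matrix ι ι F) * f * (h : Matrix ι ι F) ∈ A := by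
      have := hA h⁻¹ (H.inv_mem hh) f hf
      simpa using this
    have hff' : (((h⁻¹ : GL ι F) : Matrix ι ι F) * f * (h : Matrix ι ι F)) *
        (((h⁻¹ : GL ι F) : Matrix ι ι F) * f * (h : Matrix ι ι F)) =
        ((h⁻¹ : GL ι F) : Matrix ι ι F) * f * (h : Matrix ι ι F) := by
      have := conj_conj_inv h⁻¹ f f
      simp only [inv_inv] at this
      rw [this, hff]
    have key : f * c h = (h : Matrix ι ι F) * ((((h⁻¹ : GL ι F) : Matrix ι ι F) * f * (h : Matrix ι ι F)) * e₀) *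
        ((h⁻¹ : GL ι F) : Matrix ι ι F) := by
      have := conj_conj_inv h (((h⁻¹ : GL ι F) : Matrix ι ι F) * f * (h : Matrix ι ι F)) e₀
      rw [← this, conj_conj_inv']
    rcases hprim0 _ hf' hff' with h0 | h1
    · left
      rw [key, h0]
      simp
    · right
      rw [key, h1]
  -- the adjoints
  have hidem_adj : ∀ x : Matrix ι ι F, x * x = x → C.adj x * C.adj x = C.adj x := by
    intro x hx
    rw [← C.adj_mul, hx]
  have hprimA : ∀ h ∈ H, ∀ f ∈ A, f * f = f → f * C.adj (c h) = 0 ∨ f * C.adj (c h) = C.adj (c h) := by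
    intro h hh x hx hxx
    have hm : C.adj (x * C.adj (c h)) = C.adj x * c h := by
      rw [C.adj_mul, C.adj_adj, hcomm _ (hcA h hh) _ (hstar x hx)]
    rcases hprim h hh (C.adj x) (hstar x hx) (hidem_adj x hxx) with h0 | h1
    · left
      apply C.adj_injective
      rw [hm, h0, C.adj_zero]
    · right
      apply C.adj_injective
      rw [hm, h1, C.adj_adj]
  have heq_of : ∀ a ∈ A, ∀ b ∈ A, (a * b = 0 ∨ a * b = b) → (b * a = 0 ∨ b * a = a) → a * b = 0 ∨ a = b := by
    intro a ha b hb h1 h2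
    rcases h1 with h1 | h1
    · exact Or.inl h1
    · rcases h2 with h2 | h2
      · left
        rw [hcomm a ha b hb]
        exact h2
      · right
        rw [← h2, hcomm b hb a ha, h1]
  have hadjA : ∀ h ∈ H, C.adj (c h) ∈ A := fun h hh => hstar _ (hcA h hh)
  have horb₀ : ∀ h ∈ H, ∀ k ∈ H, c h = c k ∨ c h * c k = 0 := by
    intro h hh k hk
    rcases heq_of _ (hcA h hh) _ (hcA k hk) (hprim k hk _ (hcA h hh) (hcc h)) (hprim h hh _ (hcA k hk) (hcc k)) with h1 | h1
    · exact Or.inr h1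
    · exact Or.inl h1
  set e₁ := C.adj e₀ with he₁
  have he₁A : e₁ ∈ A := hstar _ he₀A
  have he₁e : e₁ * e₁ = e₁ := hidem_adj _ he₀e
  have hadjc : ∀ h ∈ H, C.adj (c h) = (h : Matrix ι ι F) * e₁ * ((h⁻¹ : GL ι F) : Matrix ι ι F) := fun h hh =>
    C.adj_conj (hfix h hh) e₀
  have hc1 : c 1 = e₀ := by simp [c]
  rcases hprim0 e₁ he₁A he₁e with h01 | h01
  swap
  · -- self adjoint
    have h2 : e₀ = e₁ := by
      have h3 : C.adj e₁ = e₀ := C.adj_adj e₀
      have := congrArg C.adj h01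
      rw [C.adj_mul, h3] at this
      exact h01.symm.trans this
    exact nondeg_of_selfadjoint_orbit C hH hfix he₀e he₀0 he₀1 h2.symm horb₀
  -- isotropic case
  have h10 : e₀ * e₁ = 0 := by rw [hcomm _ he₀A _ he₁A]; exact h01
  set E := e₀ + e₁ with hE
  have hEE : E * E = E := by
    rw [hE, Matrix.add_mul, Matrix.mul_add, Matrix.mul_add, he₀e, he₁e, h01, h10]
    simp
  have hE0 : E ≠ 0 := by
    intro h0
    apply he₀0
    have : E * e₀ = e₀ := by rw [hE, Matrix.add_mul, he₀e, h01, add_zero]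
    rw [← this, h0, Matrix.zero_mul]
  have hEadj : C.adj E = E := by
    rw [hE, C.adj_add, he₁, C.adj_adj, add_comm]
  by_cases hE1 : E = 1
  · -- a pair of totally singular subspaces
    right
    obtain ⟨t, g, hg1, hg2, hinj, horth, hsum, hdec, hstab⟩ := decomp_of_orbit hH he₀e he₀0 he₀1 horb₀
    have hcase : ∀ h ∈ H, c h = e₀ ∨ c h = e₁ := by
      intro h hh
      have hone : (1 : GL ι F) ∈ H := H.one_mem
      by_cases h1 : c h * e₀ = 0
      · right
        have h2 : c h = c h * e₁ := by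
          have : c h * E = c h := by rw [hE1, Matrix.mul_one]
          rw [hE, Matrix.mul_add, h1, zero_add] at this
          exact this.symm
        have h3 := hprimA 1 hone (c h) (hcA h hh) (hcc h)
        rw [hc1] at h3
        rcases h3 with h3 | h3
        · exfalso
          exact hc0 h (h2.trans h3)
        · exact h2.trans h3
      · left
        have h2 := hprim0 _ (hcA h hh) (hcc h)
        have h3 := hprim h hh e₀ he₀A he₀e
        rcases heq_of _ (hcA h hh) _ he₀A h2 (by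
          rcases h3 with h3 | h3
          · exact Or.inl h3
          · exact Or.inr h3) with h4 | h4
        · exact absurd h4 h1
        · exact h4
    have ht2 : t = 2 := by
      have h2 := hdec.two_le
      have hle : t ≤ 2 := by
        have himg : Finset.image g Finset.univ ⊆ {e₀, e₁} := by
          intro x hx
          obtain ⟨i, -, rfl⟩ := Finset.mem_image.mp hx
          obtain ⟨h, hh, e⟩ := hg1 i
          rw [e]
          rw [Finset.mem_insert, Finset.mem_singleton]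
          exact hcase h hh
        have h3 := Finset.card_le_card himg
        rw [Finset.card_image_of_injective _ hinj, Finset.card_univ, Fintype.card_fin] at h3
        exact h3.trans (Finset.card_le_two)
      omega
    subst ht2
    refine ⟨_, _, hdec, fun i u hu v hv => ?_, hstab⟩
    obtain ⟨h, hh, e⟩ := hg1 i
    have hgi : g i * g i = g i := by
      rw [e]
      exact hcc h
    have hu' := idem_mulVec_of_mem_range hgi hu
    have hv' := idem_mulVec_of_mem_range hgi hv
    have h0 : C.adj (g i) * g i = 0 := by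
      rw [e, ← hcdef, hadjc h hh, hcdef, conj_conj_inv, h01]
      simp
    calc f u v = f (g i *ᵥ u) (g i *ᵥ v) := by rw [hu', hv']
      _ = f u (C.adj (g i) *ᵥ (g i *ᵥ v)) := by rw [C.adj_spec' (g i) u]
      _ = 0 := by rw [Matrix.mulVec_mulVec, h0, Matrix.zero_mulVec, C.sesq.zero_right]
  · -- pass to `E`
    refine nondeg_of_selfadjoint_orbit C hH hfix hEE hE0 hE1 hEadj ?_
    intro h hh k hk
    have hEc : ∀ h ∈ H, (h : Matrix ι ι F) * E * ((h⁻¹ : GL ι F) : Matrix ι ι F) = c h + C.adj (c h) := by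
      intro h hh
      rw [hadjc h hh, hE, Matrix.mul_add, Matrix.add_mul]
    rw [hEc h hh, hEc k hk]
    have a1 := heq_of _ (hcA h hh) _ (hcA k hk) (hprim k hk _ (hcA h hh) (hcc h)) (hprim h hh _ (hcA k hk) (hcc k))
    have a2 := heq_of _ (hcA h hh) _ (hadjA k hk) (hprimA k hk _ (hcA h hh) (hcc h)) (hprim h hh _ (hadjA k hk) (hidem_adj _ (hcc k)))
    have a3 := heq_of _ (hadjA h hh) _ (hcA k hk) (hprim k hk _ (hadjA h hh) (hidem_adj _ (hcc h))) (hprimA h hh _ (hcA k hk) (hcc k))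
    have a4 := heq_of _ (hadjA h hh) _ (hadjA k hk) (hprimA k hk _ (hadjA h hh) (hidem_adj _ (hcc h))) (hprimA h hh _ (hadjA k hk) (hidem_adj _ (hcc k)))
    by_cases e1 : c h = c k
    · left
      rw [e1]
    by_cases e2 : c h = C.adj (c k)
    · left
      rw [e2, C.adj_adj, add_comm]
    by_cases e3 : C.adj (c h) = c k
    · left
      rw [← e3, C.adj_adj, add_comm]
    by_cases e4 : C.adj (c h) = C.adj (c k)
    · left
      rw [C.adj_injective e4]
    right
    rw [Matrix.add_mul, Matrix.mul_add, Matrix.mul_add, a1.resolve_right e1, a2.resolve_right e2, a3.resolve_right e3,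
      a4.resolve_right e4]
    simp

end Cfsg.Agent.H97.Asch
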