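import Cfsg.Agent.Lib.H97F2

/-!
Star-closed commutative normalised subalgebras: the field case.
-/

set_option autoImplicit false
set_option linter.unusedSectionVars false
set_option linter.style.haveILetI false

namespace Cfsg.Agent.H97.Asch

open Matrix Cfsg Cfsg.Geo
open scoped MatrixGroups

variable {ι : Type} [Fintype ι] [DecidableEq ι] {F : Type*} [Field F]

theorem field_of_no_idem [Finite F] [Nonempty ι] {H : Subgroup (GL ι F)} (hH : Irr H)
    {A : Subalgebra F (Matrix ι ι F)} (hA : NormAlg H A) (hcomm : ∀ x ∈ A, ∀ y ∈ A, x * y = y * x)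
    (hid : ∀ e ∈ A, e * e = e → e ≠ 0 → e = 1) : ∀ x ∈ A, x ≠ 0 → ∃ y ∈ A, x * y = 1 := by
  classical
  intro x hx hx0
  have hsemi : IsSemisimpleRing A := isSemisimpleRing_of_normAlg hH hA
  -- `x` has an idempotent power
  have : Finite A := inferInstance
  obtain ⟨a, b, hab, hpow⟩ : ∃ a b : ℕ, a < b ∧ x ^ a = x ^ b := by
    have hfin : Finite (Matrix ι ι F) := inferInstance
    obtain ⟨a, b, hne, he⟩ := Finite.exists_ne_map_eq_of_infinite (fun k : ℕ => x ^ k)
    rcases lt_or_gt_of_ne hne with h | h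
    · exact ⟨a, b, h, he⟩
    · exact ⟨b, a, h, he.symm⟩
  set d := b - a with hd
  have hd0 : 0 < d := by omega
  have hper : ∀ k, x ^ (a + k * d) = x ^ a := by
    intro k
    induction k with
    | zero => simp
    | succ k ih =>
      have e1 : a + (k + 1) * d = (a + d) + k * d := by ring
      have e2 : a + d = b := by omega
      rw [e1, e2, pow_add, ← hpow, ← pow_add, ih]
  set N := (a + 1) * d with hN
  have hN0 : 0 < N := by positivity
  have hNa : a ≤ N := by nlinarith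
  have hper2 : ∀ m, a ≤ m → ∀ k, x ^ (m + k * d) = x ^ m := by
    intro m hm k
    obtain ⟨c, rfl⟩ := Nat.exists_eq_add_of_le hm
    have e1 : a + c + k * d = (a + k * d) + c := by ring
    rw [e1, pow_add, hper, ← pow_add]
  have hidem : x ^ N * x ^ N = x ^ N := by
    rw [← pow_add]
    exact hper2 N hNa (a + 1)
  have hmem : x ^ N ∈ A := A.pow_mem hx N
  by_cases h0 : x ^ N = 0
  · exfalso
    -- reducedness
    letI : CommRing A := { (inferInstance : Ring A) with
      mul_comm := fun u v => Subtype.ext (hcomm u u.2 v v.2) }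
    haveI : IsSemisimpleRing A := hsemi
    have hr : IsReduced A := inferInstance
    have h2 : (⟨x, hx⟩ : A) ^ N = 0 := Subtype.ext (by simpa using h0)
    have h3 : IsNilpotent (⟨x, hx⟩ : A) := ⟨N, h2⟩
    have h4 := hr.eq_zero _ h3
    exact hx0 (congrArg Subtype.val h4)
  · have h1 := by_contra fun hne => hne (hid _ hmem hidem h0)
    have h1' : x ^ N = 1 := h1
    refine ⟨x ^ (N - 1), A.pow_mem hx _, ?_⟩
    rw [← pow_succ', Nat.sub_add_cancel hN0, h1']


theorem class3_of_fieldAlg' [Fintype F] [Nonempty ι] {H : Subgroup (GL ι F)}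
    {A : Subalgebra F (Matrix ι ι F)} (hNA : NormAlg H A) (hA : FieldAlg A)
    (hd : Module.finrank F A ≠ 1) :
    ∃ (ℓ Q : ℕ) (K : Subalgebra F (Matrix ι ι F)), ℓ.Prime ∧ Q = Fintype.card F ^ ℓ ∧ IsFieldSubalgebra ℓ K ∧
      (∀ x, x ∈ K ↔ x ∈ A ∧ x ^ Q = x) ∧ H ≤ subalgebraNormalizer K := by
  classical
  obtain ⟨ℓ, hℓ, hℓd⟩ := Nat.exists_prime_and_dvd hd
  obtain ⟨p, hp⟩ := CharP.exists F
  obtain ⟨e, hpp, hcard⟩ := FiniteField.card F p
  have : Fact p.Prime := ⟨hpp⟩
  set q := Fintype.card F with hq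
  have hq1 : 1 < q := Fintype.one_lt_card
  set Q := q ^ ℓ with hQdef
  have hQ1 : 1 < Q := Nat.one_lt_pow hℓ.ne_zero hq1
  have hQp : Q = p ^ ((e : ℕ) * ℓ) := by
    rw [hQdef, hcard, pow_mul]
  have hcharM : CharP (Matrix ι ι F) p := inferInstance
  have hfix : ∀ c : F, c ^ Q = c := fun c => FiniteField.pow_card_pow ℓ c
  let K₁ : Subalgebra F (Matrix ι ι F) :=
    { carrier := {x | x ∈ A ∧ x ^ Q = x}
      mul_mem' := by
        rintro a b ⟨ha, ha'⟩ ⟨hb, hb'⟩
        refine ⟨A.mul_mem ha hb, ?_⟩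
        have hc : Commute a b := hA.1 a ha b hb
        rw [hc.mul_pow, ha', hb']
      add_mem' := by
        rintro a b ⟨ha, ha'⟩ ⟨hb, hb'⟩
        refine ⟨A.add_mem ha hb, ?_⟩
        have hc : Commute a b := hA.1 a ha b hb
        rw [hQp, add_pow_char_pow_of_commute p _ hc, ← hQp, ha', hb']
      algebraMap_mem' := fun c => by
        refine ⟨A.algebraMap_mem c, ?_⟩
        rw [← map_pow, hfix] }
  have hK₁ : ∀ x, x ∈ K₁ ↔ x ∈ A ∧ x ^ Q = x := fun x => Iff.rfl
  -- the field structure of `A`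
  have hAfield : IsField A := by
    refine ⟨⟨⟨0, A.zero_mem⟩, ⟨1, A.one_mem⟩, ?_⟩, fun u v => Subtype.ext (hA.1 u u.2 v v.2), ?_⟩
    · intro h
      exact zero_ne_one (congrArg Subtype.val h)
    · intro u hu
      obtain ⟨y, hy, hxy⟩ := hA.2 u u.2 (fun h => hu (Subtype.ext h))
      exact ⟨⟨y, hy⟩, Subtype.ext hxy⟩
  letI : Field A := hAfield.toField
  haveI : Finite A := inferInstance
  have hAcard : Nat.card A = q ^ Module.finrank F A := by
    rw [Module.natCard_eq_pow_finrank (K := F), Nat.card_eq_fintype_card]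
  obtain ⟨k, hk⟩ := hℓd
  have hdvd : Q - 1 ∣ Nat.card A - 1 := by
    rw [hAcard, hk]
    exact Nat.pow_sub_one_dvd_pow_sub_one q (Dvd.intro k rfl)
  have hcount := card_fixed_pow (K := A) hQ1 hdvd
  have hequiv : K₁ ≃ {x : A // x ^ Q = x} :=
    { toFun := fun x => ⟨⟨x.1, x.2.1⟩, Subtype.ext (by simpa using x.2.2)⟩
      invFun := fun x => ⟨x.1.1, x.1.2, by simpa using congrArg Subtype.val x.2⟩
      left_inv := fun x => rfl
      right_inv := fun x => rfl }
  have hK₁card : Nat.card K₁ = Q := by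
    rw [Nat.card_congr hequiv, hcount]
  have hfr : Module.finrank F K₁ = ℓ := by
    have h1 : Nat.card K₁ = Nat.card F ^ Module.finrank F K₁ := Module.natCard_eq_pow_finrank
    rw [hK₁card, Nat.card_eq_fintype_card] at h1
    exact (Nat.pow_right_injective hq1 h1).symm
  refine ⟨ℓ, Q, K₁, hℓ, hQdef, ⟨fun x hx y hy => hA.1 x hx.1 y hy.1, ?_, hfr⟩, hK₁, ?_⟩
  · intro x hx hx0
    obtain ⟨y, hy, hxy⟩ := hA.2 x hx.1 hx0
    refine ⟨y, ⟨hy, ?_⟩, hxy⟩
    have hc : Commute x y := hA.1 x hx.1 y hy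
    have h1 : x * y ^ Q = 1 := by
      have h2 := hc.mul_pow Q
      rw [hxy, one_pow, hx.2] at h2
      exact h2.symm
    calc y ^ Q = (y * x) * y ^ Q := by
          rw [mul_eq_one_comm.mp hxy, Matrix.one_mul]
      _ = y * (x * y ^ Q) := by rw [Matrix.mul_assoc]
      _ = y := by rw [h1, Matrix.mul_one]
  · intro h hh k
    constructor
    · rintro ⟨hkA, hkQ⟩
      refine ⟨hNA h hh k hkA, ?_⟩
      rw [Units.conj_pow, hkQ]
    · rintro ⟨hkA, hkQ⟩
      rw [Units.conj_pow] at hkQ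
      have h1 := hNA h⁻¹ (H.inv_mem hh) _ hkA
      rw [inv_inv, conj_inv_conj] at h1
      refine ⟨h1, ?_⟩
      have h2 := congrArg (fun x => ((h⁻¹ : GL ι F) : Matrix ι ι F) * x * (h : Matrix ι ι F)) hkQ
      simp only [conj_inv_conj] at h2
      exact h2


variable {σ : F →+* F} {ε : F} {f : (ι → F) → (ι → F) → F}

theorem FStar.of_pow (C : FCtx σ ε f) {A K : Subalgebra F (Matrix ι ι F)} (hA : FStar C A) {Q : ℕ}
    (hK : ∀ x, x ∈ K ↔ x ∈ A ∧ x ^ Q = x) : FStar C K := by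
  intro x hx
  obtain ⟨h1, h2⟩ := (hK x).mp hx
  refine (hK _).mpr ⟨hA x h1, ?_⟩
  rw [← C.adj_pow, h2]

/-- star closed commutative normalised algebras give imprimitivity or a star closed field -/
theorem star_comm [Fintype F] [Nonempty ι] (C : FCtx σ ε f) {H : Subgroup (GL ι F)} (hH : Irr H) (hfix : FFix f H)
    {A : Subalgebra F (Matrix ι ι F)} (hA : NormAlg H A) (hstar : FStar C A) (hcomm : ∀ x ∈ A, ∀ y ∈ A, x * y = y * x)
    (hd : Module.finrank F A ≠ 1) :
    FClass2 f H ∨ ∃ (ℓ : ℕ) (K : Subalgebra F (Matrix ι ι F)), ℓ.Prime ∧ IsFieldSubalgebra ℓ K ∧ FStar C K ∧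
      H ≤ subalgebraNormalizer K ∧ K ≤ A := by
  classical
  by_cases hid : ∃ e ∈ A, e * e = e ∧ e ≠ 0 ∧ e ≠ 1
  · obtain ⟨e, he, h1, h2, h3⟩ := hid
    exact Or.inl (fclass2_of_idem C hH hfix hA hstar hcomm he h1 h2 h3)
  right
  push Not at hid
  have hinv := field_of_no_idem hH hA hcomm hid
  obtain ⟨ℓ, Q, K, hℓ, -, hK, hmem, hle⟩ := class3_of_fieldAlg' hA ⟨hcomm, hinv⟩ hd
  exact ⟨ℓ, K, hℓ, hK, FStar.of_pow C hstar hmem, hle, fun x hx => ((hmem x).mp hx).1⟩

/-! ### involutions of finite fields -/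

theorem card_fixed_invol {L : Type*} [Field L] [Finite L] (ϕ : L →+* L) (hϕ : ∀ x, ϕ (ϕ x) = x) {x₀ : L}
    (hx₀ : ϕ x₀ ≠ x₀) : Nat.card L = Nat.card {x : L // ϕ x = x} ^ 2 := by
  classical
  set d := x₀ - ϕ x₀ with hd
  have hd0 : d ≠ 0 := sub_ne_zero.mpr (Ne.symm hx₀)
  have hdϕ : ϕ d = -d := by
    rw [hd, map_sub, hϕ]
    ring
  let Φ : {x : L // ϕ x = x} × {x : L // ϕ x = x} → L := fun p => (p.1 : L) + p.2 * x₀
  have hinj : Function.Injective Φ := by
    rintro ⟨⟨u, hu⟩, ⟨v, hv⟩⟩ ⟨⟨u', hu'⟩, ⟨v', hv'⟩⟩ h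
    have h1 : u + v * x₀ = u' + v' * x₀ := h
    have h2 := congrArg ϕ h1
    simp only [map_add, map_mul, hu, hv, hu', hv'] at h2
    have h3 : (v - v') * d = 0 := by
      rw [hd]
      linear_combination h1 - h2
    have h4 : v = v' := sub_eq_zero.mp ((mul_eq_zero.mp h3).resolve_right hd0)
    subst h4
    have h5 : u = u' := by linear_combination h1
    subst h5
    rfl
  have hsurj : Function.Surjective Φ := by
    intro y
    have hv : ϕ ((y - ϕ y) / d) = (y - ϕ y) / d := by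
      rw [map_div₀, map_sub, hϕ, hdϕ]
      field_simp
      ring
    have hu : ϕ (y - (y - ϕ y) / d * x₀) = y - (y - ϕ y) / d * x₀ := by
      rw [map_sub, map_mul, hv]
      have h1 : (y - ϕ y) / d * d = y - ϕ y := div_mul_cancel₀ _ hd0
      rw [hd] at h1 ⊢
      linear_combination h1
    refine ⟨(⟨_, hu⟩, ⟨_, hv⟩), ?_⟩
    show y - (y - ϕ y) / d * x₀ + (y - ϕ y) / d * x₀ = y
    ring
  rw [← Nat.card_congr (Equiv.ofBijective Φ ⟨hinj, hsurj⟩), Nat.card_prod, pow_two]

section StarField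

variable {r : ℕ} {K : Subalgebra F (Matrix ι ι F)}

theorem isField_of_field [Nonempty ι] (hK : IsFieldSubalgebra r K) : IsField K := by
  refine ⟨⟨⟨0, K.zero_mem⟩, ⟨1, K.one_mem⟩, ?_⟩, fun u v => Subtype.ext (hK.comm u u.2 v v.2), ?_⟩
  · intro h
    have h1 : (0 : Matrix ι ι F) = 1 := congrArg Subtype.val h
    exact zero_ne_one h1
  · intro u hu
    obtain ⟨y, hy, hxy⟩ := hK.inv u u.2 (fun h => hu (Subtype.ext h))
    exact ⟨⟨y, hy⟩, Subtype.ext hxy⟩

/-- the adjoint on a star-closed field -/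
noncomputable def adjK (C : FCtx σ ε f) (hK : IsFieldSubalgebra r K) (hs : FStar C K) : K →+* K where
  toFun x := ⟨C.adj (x : Matrix ι ι F), hs _ x.2⟩
  map_one' := Subtype.ext C.adj_one
  map_mul' x y := Subtype.ext (by
    show C.adj ((x : Matrix ι ι F) * (y : Matrix ι ι F)) = C.adj (x : Matrix ι ι F) * C.adj (y : Matrix ι ι F)
    rw [C.adj_mul]
    exact hK.comm _ (hs _ y.2) _ (hs _ x.2))
  map_zero' := Subtype.ext C.adj_zero
  map_add' x y := Subtype.ext (C.adj_add _ _)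

theorem adjK_val (C : FCtx σ ε f) (hK : IsFieldSubalgebra r K) (hs : FStar C K) (x : K) :
    ((adjK C hK hs x : K) : Matrix ι ι F) = C.adj (x : Matrix ι ι F) := rfl

theorem card_fixed_adj [Finite F] [Nonempty ι] (C : FCtx σ ε f) (hK : IsFieldSubalgebra r K) (hs : FStar C K)
    {x₀ : Matrix ι ι F} (hx₀K : x₀ ∈ K) (hx₀ : C.adj x₀ ≠ x₀) :
    Nat.card K = Nat.card {x : K // C.adj (x : Matrix ι ι F) = x} ^ 2 := by
  classical
  letI : Field K := (isField_of_field hK).toField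
  haveI : Finite K := inferInstance
  have h := card_fixed_invol (L := K) (adjK C hK hs) (fun x => Subtype.ext (C.adj_adj _)) (x₀ := ⟨x₀, hx₀K⟩)
    (fun h => hx₀ (congrArg Subtype.val h))
  rw [h]
  congr 1
  apply Nat.card_congr
  exact Equiv.subtypeEquivRight fun x => ⟨fun h => congrArg Subtype.val h, fun h => Subtype.ext h⟩

theorem selfAdjoint_iff (C : FCtx σ ε f) : IsSelfAdjointFor f K ↔ ∀ k ∈ K, C.adj k = k := by
  constructor
  · intro h k hk
    exact (C.eq_adj_of' (h k hk)).symm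
  · intro h k hk u v
    rw [C.adj_spec', h k hk]

theorem adjointClosed_of_star (C : FCtx σ ε f) (hs : FStar C K) : IsAdjointClosedFor f K :=
  fun k hk => ⟨C.adj k, hs k hk, C.adj_spec' k⟩

theorem card_alg_eq [Fintype F] (K : Subalgebra F (Matrix ι ι F)) (hr : Module.finrank F K = r) :
    Nat.card K = Fintype.card F ^ r := by
  rw [Module.natCard_eq_pow_finrank (K := F), Nat.card_eq_fintype_card, hr]

/-- for linear adjoints, a nontrivial adjoint only occurs in degree two. -/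
theorem degree_two_of_nontrivial [Fintype F] [Nonempty ι] (C : FCtx σ ε f) (hσ : ∀ c, σ c = c) {ℓ : ℕ} {K : Subalgebra F (Matrix ι ι F)}
    (hK : IsFieldSubalgebra ℓ K) (hℓ : ℓ.Prime) (hs : FStar C K) {x₀ : Matrix ι ι F} (hx₀K : x₀ ∈ K) (hx₀ : C.adj x₀ ≠ x₀) :
    ℓ = 2 ∧ ∀ x ∈ K, C.adj x = x → ∃ c : F, x = c • (1 : Matrix ι ι F) := by
  classical
  let T : Submodule F (Matrix ι ι F) :=
    { carrier := {x | x ∈ K ∧ C.adj x = x}
      add_mem' := fun {a b} ha hb => ⟨K.add_mem ha.1 hb.1, by rw [C.adj_add, ha.2, hb.2]⟩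
      zero_mem' := ⟨K.zero_mem, C.adj_zero⟩
      smul_mem' := fun c x hx => ⟨K.smul_mem hx.1 c, by rw [C.adj_smul, hσ, hx.2]⟩ }
  have hTcard : Nat.card T = Nat.card {x : K // C.adj (x : Matrix ι ι F) = x} := by
    apply Nat.card_congr
    exact { toFun := fun x => ⟨⟨x.1, x.2.1⟩, x.2.2⟩
            invFun := fun x => ⟨x.1.1, x.1.2, x.2⟩
            left_inv := fun x => rfl
            right_inv := fun x => rfl }
  have h1 := card_fixed_adj C hK hs hx₀K hx₀
  rw [← hTcard, card_alg_eq K hK.finrank_eq, Module.natCard_eq_pow_finrank (K := F) (V := T), Nat.card_eq_fintype_card,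
    ← pow_mul] at h1
  have hq : 1 < Fintype.card F := Fintype.one_lt_card
  have h2 : ℓ = Module.finrank F T * 2 := Nat.pow_right_injective hq h1
  have h3 : ℓ = 2 := by
    have := (Nat.prime_dvd_prime_iff_eq Nat.prime_two hℓ).mp ⟨Module.finrank F T, by rw [h2]; ring⟩
    exact this.symm
  refine ⟨h3, fun x hx hxa => ?_⟩
  have h4 : Module.finrank F T = 1 := by omega
  have hone : (⟨1, K.one_mem, C.adj_one⟩ : T) ≠ 0 := by
    intro h
    have : (1 : Matrix ι ι F) = 0 := congrArg Subtype.val h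
    exact one_ne_zero this
  obtain ⟨c, hc⟩ := (finrank_eq_one_iff_of_nonzero' _ hone).mp h4 ⟨x, hx, hxa⟩
  exact ⟨c, (congrArg Subtype.val hc).symm⟩

/-- a star-closed field of degree two does not exist for a non-trivial involution -/
theorem no_degree_two [Fintype F] [Nonempty ι] (C : FCtx σ ε f) {c : F} (hc : σ c ≠ c) {K : Subalgebra F (Matrix ι ι F)}
    (hK : IsFieldSubalgebra 2 K) (hs : FStar C K) : False := by
  classical
  have hcK : c • (1 : Matrix ι ι F) ∈ K := K.smul_mem K.one_mem c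
  have hadj : C.adj (c • (1 : Matrix ι ι F)) = σ c • (1 : Matrix ι ι F) := by rw [C.adj_smul, C.adj_one]
  have hinj : ∀ a b : F, a • (1 : Matrix ι ι F) = b • (1 : Matrix ι ι F) → a = b := by
    intro a b h
    obtain ⟨i⟩ := ‹Nonempty ι›
    have := congrFun (congrFun h i) i
    simpa using this
  have hne : C.adj (c • (1 : Matrix ι ι F)) ≠ c • (1 : Matrix ι ι F) := by
    rw [hadj]
    exact fun h => hc (hinj _ _ h)
  have h1 := card_fixed_adj C hK hs hcK hne
  rw [card_alg_eq K hK.finrank_eq] at h1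
  have h2 : Nat.card {x : K // C.adj (x : Matrix ι ι F) = x} = Fintype.card F :=
    (Nat.pow_left_injective (n := 2) (by norm_num) h1).symm
  letI : Field K := (isField_of_field hK).toField
  haveI : Finite K := inferInstance
  let ϕ : K →+* K := adjK C hK hs
  let S : Subfield K := ϕ.eqLocusField (RingHom.id K)
  have hScard : Nat.card S = Fintype.card F := by
    rw [← h2]
    apply Nat.card_congr
    exact Equiv.subtypeEquivRight fun x => ⟨fun h => congrArg Subtype.val h, fun h => Subtype.ext h⟩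
  have hpow : (⟨_, hcK⟩ : K) ^ Nat.card S = ⟨_, hcK⟩ := by
    apply Subtype.ext
    rw [hScard]
    show (c • (1 : Matrix ι ι F)) ^ Fintype.card F = c • (1 : Matrix ι ι F)
    rw [_root_.smul_pow, one_pow, FiniteField.pow_card]
  have hmem := mem_subfield_of_pow_card S hpow
  exact hne (congrArg Subtype.val (show ϕ ⟨_, hcK⟩ = ⟨_, hcK⟩ from hmem))

end StarField

/-- The dichotomy for normalised star closed subalgebras. -/
theorem star_alg_case [Fintype F] [Nonempty ι] (C : FCtx σ ε f) {H N : Subgroup (GL ι F)} (hH : Irr H) (hfix : FFix f H)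
    (hNH : N ≤ H) (hNn : Nrm H N) :
    FClass2 f H ∨
    (∃ (ℓ : ℕ) (K : Subalgebra F (Matrix ι ι F)), ℓ.Prime ∧ IsFieldSubalgebra ℓ K ∧ FStar C K ∧
      H ≤ subalgebraNormalizer K ∧ (∀ g ∈ N, ∀ k ∈ K, (g : Matrix ι ι F) * k = k * g)) ∨
    (∃ (d : ℕ) (_ : NeZero d), Nonempty (Matrix (Fin d) (Fin d) F ≃ₐ[F] spanG N)) := by
  classical
  have hB : NormAlg H (spanG N) := normAlg_spanG hNn
  have hZ := normAlg_Zalg hB
  have hSt : FStar C (spanG N) := FStar.spanG C (hfix.mono hNH)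
  have hZs := FStar.Zalg C hSt
  have hZc : ∀ x ∈ Zalg (spanG N), ∀ y ∈ Zalg (spanG N), x * y = y * x := fun x hx y hy =>
    (mem_Zalg.mp hx).2 y (mem_Zalg.mp hy).1
  by_cases hd : Module.finrank F (Zalg (spanG N)) = 1
  · right; right
    have hss : IsSemisimpleRing (spanG N) := isSemisimpleRing_of_normAlg hH hB
    haveI : Nontrivial (spanG N) := inferInstance
    apply exists_matrix_of_central
    intro z hz
    have hzZ : (z : Matrix ι ι F) ∈ Zalg (spanG N) := mem_Zalg.mpr ⟨z.2, fun y hy =>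
      congrArg Subtype.val (hz ⟨y, hy⟩)⟩
    obtain ⟨c, hc⟩ := fieldAlg_scalar_or hd _ hzZ
    refine ⟨c, Subtype.ext ?_⟩
    rw [hc, Algebra.algebraMap_eq_smul_one]
    simp
  · rcases star_comm C hH hfix hZ hZs hZc hd with h2 | ⟨ℓ, K, hℓ, hK, hKs, hle, hKZ⟩
    · exact Or.inl h2
    · right; left
      refine ⟨ℓ, K, hℓ, hK, hKs, hle, fun g hg k hk => ?_⟩
      exact ((mem_Zalg.mp (hKZ hk)).2 _ (mem_spanG hg)).symm


end Cfsg.Agent.H97.Asch
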