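import Cfsg.Agent.Lib.H97F3

/-!
Tensor decompositions of a form: Gram matrices factor when a star-closed matrix subalgebra is normalised.
-/

set_option autoImplicit false
set_option linter.unusedSectionVars false
set_option linter.style.haveILetI false

namespace Cfsg.Agent.H97.Asch

open Matrix Cfsg Cfsg.Geo
open scoped MatrixGroups Kronecker

variable {ι : Type} [Fintype ι] [DecidableEq ι] {F : Type*} [Field F]

theorem exists_conj_coord' {X : Type} [Fintype X] [DecidableEq X] (b : Module.Basis X F (ι → F)) (e : ι ≃ X) :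
    ∃ P : GL ι F, (∀ g : GL ι F, P * glReindex e.symm (coordG b g) * P⁻¹ = g) ∧
      ∀ j, (P : Matrix ι ι F) *ᵥ Pi.single j 1 = b (e j) := by
  classical
  obtain ⟨P, hP⟩ := exists_gl_of_bases (Pi.basisFun F ι) (b.reindex e.symm)
  have hPb : ∀ j, (P : Matrix ι ι F) *ᵥ Pi.single j 1 = b (e j) := by
    intro j
    have := hP j
    simpa using this
  refine ⟨P, fun g => ?_, hPb⟩
  have key : (P * glReindex e.symm (coordG b g) : GL ι F) = g * P := by
    apply Units.ext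
    apply Matrix.toLin'.injective
    apply LinearMap.pi_ext'
    intro j
    apply LinearMap.ext_ring
    simp only [LinearMap.comp_apply, LinearMap.single_apply, Matrix.toLin'_apply, Units.val_mul]
    rw [← Matrix.mulVec_mulVec, ← Matrix.mulVec_mulVec, hPb]
    -- expand
    have h1 : ((glReindex e.symm (coordG b g) : GL ι F) : Matrix ι ι F) *ᵥ Pi.single j 1 =
        ∑ k, (coordA b (g : Matrix ι ι F) (e k) (e j)) • Pi.single k 1 := by
      funext i
      rw [Matrix.mulVec_single_one]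
      simp only [Finset.sum_apply, Pi.smul_apply, Pi.single_apply, smul_eq_mul, mul_ite, mul_one, mul_zero,
        Finset.sum_ite_eq, Finset.mem_univ, if_true, Matrix.col_apply]
      rw [glReindex_apply, coordG_val]
    rw [h1, Matrix.mulVec_sum]
    simp only [Matrix.mulVec_smul, hPb]
    have h2 := b.sum_repr ((g : Matrix ι ι F) *ᵥ b (e j))
    rw [← h2, ← e.sum_comp]
    refine Finset.sum_congr rfl fun k _ => ?_
    rw [coordA_apply]
  rw [key, mul_inv_cancel_right]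


theorem tensor_of_algEquiv' [Nonempty ι] {H : Subgroup (GL ι F)} {B : Subalgebra F (Matrix ι ι F)} (hB : NormAlg H B)
    {d : ℕ} [NeZero d] (ψ : Matrix (Fin d) (Fin d) F ≃ₐ[F] B) :
    ∃ (m : ℕ) (b : Module.Basis (Fin d × Fin m) F (ι → F)) (e : ι ≃ Fin d × Fin m) (P : GL ι F), Fintype.card ι = d * m ∧
      (∀ j, (P : Matrix ι ι F) *ᵥ Pi.single j 1 = b (e j)) ∧
      (∀ (a c : Fin d) (x : Fin d × Fin m), (ψ (Matrix.single a c 1) : Matrix ι ι F) *ᵥ b x = if c = x.1 then b (a, x.2) else 0) ∧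
      H ≤ tensorProductSubgroup d m e P := by
  classical
  let ψ' : Matrix (Fin d) (Fin d) F →ₐ[F] Matrix ι ι F := B.val.comp ψ.toAlgHom
  obtain ⟨m, b, hb⟩ := exists_tensor_basis ψ'
  have hcard : Fintype.card ι = d * m := by
    have h1 := Module.finrank_eq_card_basis b
    rw [Module.finrank_fintype_fun_eq_card] at h1
    simpa using h1
  have hm : NeZero m := ⟨by
    rintro rfl
    have : 0 < Fintype.card ι := Fintype.card_pos
    omega⟩
  have e : ι ≃ Fin d × Fin m := Fintype.equivOfCardEq (by simpa using hcard)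
  obtain ⟨P, hP, hPb⟩ := exists_conj_coord' b e
  refine ⟨m, b, e, P, hcard, hPb, hb, fun g hg => mem_tensorProduct_of_coord hP ?_⟩
  -- the coordinates of `ψ`
  have hcoord : ∀ M, coordA b (ψ' M) = M ⊗ₖ (1 : Matrix (Fin m) (Fin m) F) := by
    intro M
    have hlin : (coordA b).toLinearMap.comp ψ'.toLinearMap =
        { toFun := fun M => M ⊗ₖ (1 : Matrix (Fin m) (Fin m) F)
          map_add' := fun M N => Matrix.add_kronecker M N 1
          map_smul' := fun c M => Matrix.smul_kronecker c M 1 } := by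
      apply linearMap_ext_single
      intro a c
      ext ⟨x₁, x₂⟩ ⟨y₁, y₂⟩
      simp only [LinearMap.comp_apply, AlgEquiv.toLinearMap_apply, AlgHom.toLinearMap_apply,
        LinearMap.coe_mk, AddHom.coe_mk, Matrix.kronecker_apply, Matrix.single_apply, Matrix.one_apply]
      rw [coordA_apply, hb]
      by_cases hc : c = y₁
      · simp only [if_pos hc]
        rw [Module.Basis.repr_self, Finsupp.single_apply]
        by_cases ha : a = x₁
        · by_cases hu : y₂ = x₂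
          · simp [ha, hu, hc]
          · simp [ha, hu, hc, Ne.symm hu]
        · simp [ha, hc]
      · simp [hc]
    exact LinearMap.congr_fun hlin M
  apply mem_kronecker_of_normalize
  intro M
  have hmem : (g : Matrix ι ι F) * ψ' M * ((g⁻¹ : GL ι F) : Matrix ι ι F) ∈ B := hB g hg _ (ψ M).2
  refine ⟨ψ.symm ⟨_, hmem⟩, ?_⟩
  rw [← hcoord, ← hcoord, ← map_inv, coordG_val, coordG_val, ← map_mul, ← map_mul]
  congr 1
  show _ = ((ψ (ψ.symm ⟨_, hmem⟩) : B) : Matrix ι ι F)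
  rw [AlgEquiv.apply_symm_apply]


variable {σ : F →+* F} {ε : F} {f : (ι → F) → (ι → F) → F}

section Gram

variable {κ : Type} [Fintype κ] [DecidableEq κ]

theorem formOfGram_sesq (σ : F →+* F) (A : Matrix κ κ F) : Sesq σ (formOfGram (σ : F → F) A) where
  add_left x y v := by
    simp only [formOfGram, Pi.add_apply, add_mul, Finset.sum_add_distrib]
  smul_left c x v := by
    simp only [formOfGram, Pi.smul_apply, smul_eq_mul, Finset.mul_sum, mul_assoc]
  add_right v x y := by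
    simp only [formOfGram, Pi.add_apply, map_add, mul_add, Finset.sum_add_distrib]
  smul_right c v x := by
    simp only [formOfGram, Pi.smul_apply, smul_eq_mul, map_mul, Finset.mul_sum]
    exact Finset.sum_congr rfl fun a _ => Finset.sum_congr rfl fun b _ => by ring

theorem formOfGram_single (σ : F →+* F) (A : Matrix κ κ F) (a b : κ) :
    formOfGram (σ : F → F) A (Pi.single a 1) (Pi.single b 1) = A a b := by
  classical
  simp only [formOfGram]
  rw [Finset.sum_eq_single a, Finset.sum_eq_single b]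
  · simp
  · intro c _ hc
    simp [Pi.single_eq_of_ne hc]
  · simp
  · intro c _ hc
    simp [Pi.single_eq_of_ne hc]
  · simp

theorem gramMatrix_formOfGram (σ : F →+* F) (A : Matrix κ κ F) : gramMatrix (formOfGram (σ : F → F) A) = A := by
  ext a b
  exact formOfGram_single σ A a b

theorem sesq_ne_of_ne {g : (κ → F) → (κ → F) → F} {σ : F →+* F} (hg : Sesq σ g) (h : ∃ u w, g u w ≠ 0) :
    ∃ a b, g (Pi.single a 1) (Pi.single b 1) ≠ 0 := by
  by_contra hall
  push Not at hall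
  obtain ⟨u, w, huw⟩ := h
  apply huw
  have h0 : Sesq σ (fun (_ _ : κ → F) => (0 : F)) := ⟨fun _ _ _ => by simp, fun _ _ _ => by simp, fun _ _ _ => by simp, fun _ _ _ => by simp⟩
  exact Sesq.ext_basis hg h0 (Pi.basisFun F κ) (fun k l => by simpa using hall k l) u w

/-- the forms compatible with a map `τ` on the matrix algebra: uniqueness up to a scalar and non-degeneracy. -/
theorem tau_form_unique [Nonempty κ] {σ : F →+* F} (τ : Matrix κ κ F → Matrix κ κ F) {g₀ g : (κ → F) → (κ → F) → F}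
    (hg₀ : Sesq σ g₀) (hg : Sesq σ g) (h0 : ∃ u w, g₀ u w ≠ 0)
    (hτ₀ : ∀ M u w, g₀ (M *ᵥ u) w = g₀ u (τ M *ᵥ w)) (hτ : ∀ M u w, g (M *ᵥ u) w = g u (τ M *ᵥ w)) :
    (∀ v, v ≠ 0 → ∃ x, g₀ v x ≠ 0) ∧ ∃ c : F, ∀ u w, g u w = c * g₀ u w := by
  classical
  have hnd : ∀ v, v ≠ 0 → ∃ x, g₀ v x ≠ 0 := by
    intro v hv
    by_contra hall
    push Not at hall
    obtain ⟨u₀, w₀, hne⟩ := h0
    obtain ⟨i, hi⟩ : ∃ i, v i ≠ 0 := by
      by_contra h
      push Not at h
      exact hv (funext h)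
    let M : Matrix κ κ F := Matrix.of fun a b => if b = i then u₀ a / v i else 0
    have hM : M *ᵥ v = u₀ := by
      ext a
      simp only [Matrix.mulVec, dotProduct, M, Matrix.of_apply, ite_mul, zero_mul, Finset.sum_ite_eq', Finset.mem_univ, if_true]
      field_simp
    apply hne
    rw [← hM, hτ₀, hall]
  refine ⟨hnd, ?_⟩
  obtain ⟨X, hX⟩ := hg₀.exists_rep hg hnd
  have hcomm : ∀ M : Matrix κ κ F, M * X = X * M := by
    intro M
    apply Matrix.toLin'.injective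
    apply LinearMap.ext
    intro u
    simp only [Matrix.toLin'_apply]
    rw [← Matrix.mulVec_mulVec, ← Matrix.mulVec_mulVec]
    by_contra hne
    obtain ⟨x, hx⟩ := hnd _ (sub_ne_zero.mpr hne)
    apply hx
    rw [hg₀.sub_left, sub_eq_zero, ← hX, hτ, hX, hτ₀]
  have hscal : X ∈ Set.range (Matrix.scalar κ) := by
    apply Matrix.mem_range_scalar_of_commute_single
    intro x y _
    exact hcomm _
  obtain ⟨c, hc⟩ := hscal
  refine ⟨c, fun u w => ?_⟩
  rw [hX, ← hc, Matrix.scalar_apply, ← Matrix.smul_one_eq_diagonal, Matrix.smul_mulVec, Matrix.one_mulVec, hg₀.smul_left]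

end Gram

section Tensor

variable {d m : ℕ} [NeZero d]

/-- the embedding of a slice -/
noncomputable def sliceL (b : Module.Basis (Fin d × Fin m) F (ι → F)) (y : Fin m) : (Fin d → F) →ₗ[F] (ι → F) where
  toFun u := ∑ a, u a • b (a, y)
  map_add' u w := by simp only [Pi.add_apply, add_smul, Finset.sum_add_distrib]
  map_smul' c u := by simp only [Pi.smul_apply, smul_eq_mul, RingHom.id_apply, Finset.smul_sum, mul_smul]

theorem sliceL_apply (b : Module.Basis (Fin d × Fin m) F (ι → F)) (y : Fin m) (u : Fin d → F) :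
    sliceL b y u = ∑ a, u a • b (a, y) := rfl

theorem sliceL_single (b : Module.Basis (Fin d × Fin m) F (ι → F)) (y : Fin m) (a : Fin d) :
    sliceL b y (Pi.single a 1) = b (a, y) := by
  classical
  rw [sliceL_apply, Finset.sum_eq_single a]
  · simp
  · intro c _ hc
    simp [Pi.single_eq_of_ne hc]
  · simp

theorem psi_mulVec_basis {ψ : Matrix (Fin d) (Fin d) F →ₐ[F] Matrix ι ι F} {b : Module.Basis (Fin d × Fin m) F (ι → F)}
    (hb : ∀ (a c : Fin d) (x : Fin d × Fin m), ψ (Matrix.single a c 1) *ᵥ b x = if c = x.1 then b (a, x.2) else 0)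
    (M : Matrix (Fin d) (Fin d) F) (a : Fin d) (y : Fin m) :
    ψ M *ᵥ b (a, y) = ∑ a', M a' a • b (a', y) := by
  classical
  conv_lhs => rw [Matrix.matrix_eq_sum_single M]
  rw [map_sum, Matrix.sum_mulVec]
  refine Finset.sum_congr rfl fun a' _ => ?_
  rw [map_sum, Matrix.sum_mulVec, Finset.sum_eq_single a]
  · have e : Matrix.single a' a (M a' a) = (M a' a) • Matrix.single a' a (1 : F) := by
      rw [Matrix.smul_single, smul_eq_mul, mul_one]
    rw [e, map_smul, Matrix.smul_mulVec, hb]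
    simp
  · intro c _ hc
    have e : Matrix.single a' c (M a' c) = (M a' c) • Matrix.single a' c (1 : F) := by
      rw [Matrix.smul_single, smul_eq_mul, mul_one]
    rw [e, map_smul, Matrix.smul_mulVec, hb]
    simp [hc]
  · simp

theorem psi_mulVec_slice {ψ : Matrix (Fin d) (Fin d) F →ₐ[F] Matrix ι ι F} {b : Module.Basis (Fin d × Fin m) F (ι → F)}
    (hb : ∀ (a c : Fin d) (x : Fin d × Fin m), ψ (Matrix.single a c 1) *ᵥ b x = if c = x.1 then b (a, x.2) else 0)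
    (M : Matrix (Fin d) (Fin d) F) (u : Fin d → F) (y : Fin m) :
    ψ M *ᵥ sliceL b y u = sliceL b y (M *ᵥ u) := by
  classical
  rw [sliceL_apply, sliceL_apply, Matrix.mulVec_sum]
  simp only [Matrix.mulVec_smul, psi_mulVec_basis hb, Finset.smul_sum, smul_smul]
  rw [Finset.sum_comm]
  refine Finset.sum_congr rfl fun a' _ => ?_
  rw [← Finset.sum_smul]
  congr 1
  simp only [Matrix.mulVec, dotProduct]
  exact Finset.sum_congr rfl fun a _ => by ring

/-- the Gram matrix factors. -/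
theorem tensor_gram [Nonempty ι] (C : FCtx σ ε f) {ψ : Matrix (Fin d) (Fin d) F →ₐ[F] Matrix ι ι F}
    {b : Module.Basis (Fin d × Fin m) F (ι → F)}
    (hb : ∀ (a c : Fin d) (x : Fin d × Fin m), ψ (Matrix.single a c 1) *ᵥ b x = if c = x.1 then b (a, x.2) else 0)
    (τ : Matrix (Fin d) (Fin d) F → Matrix (Fin d) (Fin d) F) (hτ : ∀ M, C.adj (ψ M) = ψ (τ M)) :
    ∃ (A₀ : Matrix (Fin d) (Fin d) F) (C₀ : Matrix (Fin m) (Fin m) F), ∀ x y, f (b x) (b y) = A₀ x.1 y.1 * C₀ x.2 y.2 := by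
  classical
  have hS := C.sesq
  -- a non-zero entry
  obtain ⟨x₀, y₀, hne⟩ : ∃ x y, f (b x) (b y) ≠ 0 := by
    by_contra hall
    push Not at hall
    obtain ⟨u, v, huv⟩ := C.exists_ne_of_nonempty
    apply huv
    have h0 : Sesq σ (fun (_ _ : ι → F) => (0 : F)) := ⟨fun _ _ _ => by simp, fun _ _ _ => by simp, fun _ _ _ => by simp, fun _ _ _ => by simp⟩
    exact Sesq.ext_basis hS h0 b hall u v
  let g : Fin m → Fin m → (Fin d → F) → (Fin d → F) → F := fun y y' u w => f (sliceL b y u) (sliceL b y' w)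
  have hg : ∀ y y', Sesq σ (g y y') := fun y y' =>
    ⟨fun p q v => by simp only [g, map_add]; exact hS.add_left _ _ _,
     fun c p v => by simp only [g, map_smul]; exact hS.smul_left _ _ _,
     fun v p q => by simp only [g, map_add]; exact hS.add_right _ _ _,
     fun c v p => by simp only [g, map_smul]; exact hS.smul_right _ _ _⟩
  have hgτ : ∀ y y' M u w, g y y' (M *ᵥ u) w = g y y' u (τ M *ᵥ w) := by
    intro y y' M u w
    simp only [g]
    rw [← psi_mulVec_slice hb, ← psi_mulVec_slice hb, C.adj_spec', hτ]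
  have hg₀ : ∃ u w, g x₀.2 y₀.2 u w ≠ 0 := by
    refine ⟨Pi.single x₀.1 1, Pi.single y₀.1 1, ?_⟩
    simp only [g]
    rw [sliceL_single, sliceL_single]
    exact hne
  have hun := fun y y' => (tau_form_unique τ (hg x₀.2 y₀.2) (hg y y') hg₀ (hgτ _ _) (hgτ y y')).2
  choose C₀ hC₀ using hun
  refine ⟨fun a a' => g x₀.2 y₀.2 (Pi.single a 1) (Pi.single a' 1), C₀, ?_⟩
  rintro ⟨a, y⟩ ⟨a', y'⟩
  have h1 := hC₀ y y' (Pi.single a 1) (Pi.single a' 1)
  simp only [g] at h1 ⊢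
  rw [sliceL_single, sliceL_single] at h1
  rw [h1, mul_comm]

end Tensor

section Factors

variable {κ₁ κ₂ : Type} [Fintype κ₁] [Fintype κ₂] [DecidableEq κ₁] [DecidableEq κ₂]

/-- pure tensors with respect to a basis -/
noncomputable def ptV (b : Module.Basis (κ₁ × κ₂) F (ι → F)) (u : κ₁ → F) (p : κ₂ → F) : ι → F :=
  ∑ z, (u z.1 * p z.2) • b z

theorem ptV_form {σ : F →+* F} {f : (ι → F) → (ι → F) → F} (hS : Sesq σ f) {b : Module.Basis (κ₁ × κ₂) F (ι → F)}
    {A₀ : Matrix κ₁ κ₁ F} {C₀ : Matrix κ₂ κ₂ F} (h : ∀ x y, f (b x) (b y) = A₀ x.1 y.1 * C₀ x.2 y.2)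
    (u w : κ₁ → F) (p s : κ₂ → F) :
    f (ptV b u p) (ptV b w s) = formOfGram (σ : F → F) A₀ u w * formOfGram (σ : F → F) C₀ p s := by
  classical
  simp only [ptV, formOfGram]
  rw [hS.sum_left]
  simp only [hS.smul_left, hS.sum_right, hS.smul_right, h, map_mul]
  rw [Fintype.sum_prod_type, Finset.sum_mul_sum]
  refine Finset.sum_congr rfl fun a _ => Finset.sum_congr rfl fun y _ => ?_
  rw [Fintype.sum_prod_type, Finset.sum_mul_sum, Finset.mul_sum]
  refine Finset.sum_congr rfl fun i _ => ?_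
  rw [Finset.mul_sum]
  refine Finset.sum_congr rfl fun j _ => ?_
  simp only
  ring

theorem ptV_single (b : Module.Basis (κ₁ × κ₂) F (ι → F)) (z : κ₁ × κ₂) :
    ptV b (Pi.single z.1 1) (Pi.single z.2 1) = b z := by
  classical
  simp only [ptV]
  rw [Finset.sum_eq_single z]
  · simp
  · intro w _ hw
    have : (Pi.single z.1 (1 : F) : κ₁ → F) w.1 * (Pi.single z.2 (1 : F) : κ₂ → F) w.2 = 0 := by
      by_cases h1 : w.1 = z.1
      · have h2 : w.2 ≠ z.2 := fun h2 => hw (Prod.ext h1 h2)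
        rw [Pi.single_eq_of_ne h2, mul_zero]
      · rw [Pi.single_eq_of_ne h1, zero_mul]
    rw [this, zero_smul]
  · simp

theorem ptV_ne_zero (b : Module.Basis (κ₁ × κ₂) F (ι → F)) {u : κ₁ → F} {p : κ₂ → F} (hu : u ≠ 0) (hp : p ≠ 0) :
    ptV b u p ≠ 0 := by
  classical
  obtain ⟨a, ha⟩ : ∃ a, u a ≠ 0 := by
    by_contra h
    push Not at h
    exact hu (funext h)
  obtain ⟨c, hc⟩ : ∃ c, p c ≠ 0 := by
    by_contra h
    push Not at h
    exact hp (funext h)
  intro h0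
  have h1 : b.repr (ptV b u p) (a, c) = u a * p c := by
    simp only [ptV]
    rw [map_sum]
    simp [Finsupp.single_apply]
  rw [h0] at h1
  simp at h1
  tauto

/-- the factors of a tensor form are forms in context. -/
theorem factor_ctx [Nonempty ι] [Nonempty κ₁] [Nonempty κ₂] (C : FCtx σ ε f) {b : Module.Basis (κ₁ × κ₂) F (ι → F)}
    {A₀ : Matrix κ₁ κ₁ F} {C₀ : Matrix κ₂ κ₂ F} (h : ∀ x y, f (b x) (b y) = A₀ x.1 y.1 * C₀ x.2 y.2) :
    ∃ ε₁ ε₂ : F, ε₁ * ε₂ = ε ∧ FCtx σ ε₁ (formOfGram (σ : F → F) A₀) ∧ FCtx σ ε₂ (formOfGram (σ : F → F) C₀) := by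
  classical
  have hS := C.sesq
  set f₁ := formOfGram (σ : F → F) A₀ with hf₁
  set f₂ := formOfGram (σ : F → F) C₀ with hf₂
  have hS₁ : Sesq σ f₁ := formOfGram_sesq σ A₀
  have hS₂ : Sesq σ f₂ := formOfGram_sesq σ C₀
  have hpt := ptV_form hS h
  have hnz : ∀ {κ : Type} [Fintype κ] [DecidableEq κ] [Nonempty κ], (Pi.single (Classical.arbitrary κ) (1 : F) : κ → F) ≠ 0 := by
    intro κ _ _ _ h0
    have := congrFun h0 (Classical.arbitrary κ)
    simp at this
  -- right non-degeneracy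
  have hexr : ∀ v : ι → F, v ≠ 0 → ∃ z, f v (b z) ≠ 0 := by
    intro v hv
    obtain ⟨x, hx⟩ := C.ndr v hv
    rw [hS.expand_right b] at hx
    obtain ⟨l, -, hl⟩ := Finset.exists_ne_zero_of_sum_ne_zero hx
    exact ⟨l, right_ne_zero_of_mul hl⟩
  have hexl : ∀ v : ι → F, v ≠ 0 → ∃ z, f (b z) v ≠ 0 := by
    intro v hv
    obtain ⟨x, hx⟩ := C.ndl v hv
    rw [hS.expand_left b] at hx
    obtain ⟨l, -, hl⟩ := Finset.exists_ne_zero_of_sum_ne_zero hx
    exact ⟨l, right_ne_zero_of_mul hl⟩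
  have r₁ : ∀ u, u ≠ 0 → ∃ x, f₁ u x ≠ 0 := by
    intro u hu
    obtain ⟨z, hz⟩ := hexr _ (ptV_ne_zero b hu hnz)
    rw [← ptV_single b z, hpt] at hz
    exact ⟨_, left_ne_zero_of_mul hz⟩
  have r₂ : ∀ u, u ≠ 0 → ∃ x, f₂ u x ≠ 0 := by
    intro u hu
    obtain ⟨z, hz⟩ := hexr _ (ptV_ne_zero b hnz hu)
    rw [← ptV_single b z, hpt] at hz
    exact ⟨_, right_ne_zero_of_mul hz⟩
  have l₁ : ∀ u, u ≠ 0 → ∃ x, f₁ x u ≠ 0 := by
    intro u hu
    obtain ⟨z, hz⟩ := hexl _ (ptV_ne_zero b hu hnz)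
    rw [← ptV_single b z, hpt] at hz
    exact ⟨_, left_ne_zero_of_mul hz⟩
  have l₂ : ∀ u, u ≠ 0 → ∃ x, f₂ x u ≠ 0 := by
    intro u hu
    obtain ⟨z, hz⟩ := hexl _ (ptV_ne_zero b hnz hu)
    rw [← ptV_single b z, hpt] at hz
    exact ⟨_, right_ne_zero_of_mul hz⟩
  obtain ⟨p₀, s₀, h₀⟩ : ∃ p s, f₂ p s ≠ 0 := by
    obtain ⟨x, hx⟩ := r₂ _ hnz
    exact ⟨_, _, hx⟩
  have hrel : ∀ u w p s, f₁ u w * f₂ p s = ε * (σ (f₁ w u) * σ (f₂ s p)) := by
    intro u w p s
    rw [← hpt, C.herm, hpt, map_mul]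
  set ε₁ := ε * σ (f₂ s₀ p₀) / f₂ p₀ s₀ with hε₁
  have h₁ : ∀ u w, f₁ u w = ε₁ * σ (f₁ w u) := by
    intro u w
    have := hrel u w p₀ s₀
    rw [hε₁]
    field_simp
    linear_combination this
  obtain ⟨u₀, w₀, h₀'⟩ : ∃ u w, f₁ u w ≠ 0 := by
    obtain ⟨x, hx⟩ := r₁ _ hnz
    exact ⟨_, _, hx⟩
  have hσ0 : σ (f₁ w₀ u₀) ≠ 0 := by
    intro h0
    apply h₀'
    rw [h₁, h0, mul_zero]
  have hε₁0 : ε₁ ≠ 0 := by
    intro h0
    apply h₀'
    rw [h₁, h0, zero_mul]
  refine ⟨ε₁, ε / ε₁, mul_div_cancel₀ _ hε₁0, ⟨hS₁, r₁, l₁, C.invol, h₁⟩, ⟨hS₂, r₂, l₂, C.invol, fun p s => ?_⟩⟩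
  have h2 := hrel u₀ w₀ p s
  rw [h₁ u₀ w₀] at h2
  have h3 : ε₁ * f₂ p s = ε * σ (f₂ s p) := by
    apply mul_right_cancel₀ hσ0
    linear_combination h2
  field_simp
  linear_combination h3

end Factors

/-- the data of a tensor decomposition of the form preserved by `H`. -/
structure FTensor (σ : F →+* F) (ε : F) (f : (ι → F) → (ι → F) → F) (H : Subgroup (GL ι F)) {d m : ℕ}
    (e : ι ≃ Fin d × Fin m) (P : GL ι F) (A₀ : Matrix (Fin d) (Fin d) F) (C₀ : Matrix (Fin m) (Fin m) F) (ε₁ ε₂ : F) : Prop where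
  le : H ≤ tensorProductSubgroup d m e P
  eqn : ∀ x y : Fin d × Fin m → F, f ((P : Matrix ι ι F) *ᵥ (x ∘ e)) ((P : Matrix ι ι F) *ᵥ (y ∘ e)) =
    ∑ a, ∑ b, x a * (A₀ a.1 b.1 * C₀ a.2 b.2) * σ (y b)
  ctx₁ : FCtx σ ε₁ (formOfGram (σ : F → F) A₀)
  ctx₂ : FCtx σ ε₂ (formOfGram (σ : F → F) C₀)
  mul : ε₁ * ε₂ = ε

theorem coord_expand {X : Type} [Fintype X] {b : Module.Basis X F (ι → F)} {e : ι ≃ X} {P : GL ι F}
    (hPb : ∀ j, (P : Matrix ι ι F) *ᵥ Pi.single j 1 = b (e j)) (x : X → F) :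
    (P : Matrix ι ι F) *ᵥ (x ∘ e) = ∑ z, x z • b z := by
  classical
  rw [gl_mulVec_eq_sum]
  simp only [hPb]
  exact Equiv.sum_comp e (fun z => x z • b z)

theorem form_expand {X : Type} [Fintype X] {b : Module.Basis X F (ι → F)} {e : ι ≃ X} {P : GL ι F}
    (hS : Sesq σ f) (hPb : ∀ j, (P : Matrix ι ι F) *ᵥ Pi.single j 1 = b (e j)) (x y : X → F) :
    f ((P : Matrix ι ι F) *ᵥ (x ∘ e)) ((P : Matrix ι ι F) *ᵥ (y ∘ e)) = ∑ a, ∑ c, x a * f (b a) (b c) * σ (y c) := by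
  rw [coord_expand hPb, coord_expand hPb, hS.sum_left]
  refine Finset.sum_congr rfl fun a _ => ?_
  rw [hS.smul_left, hS.sum_right, Finset.mul_sum]
  refine Finset.sum_congr rfl fun c _ => ?_
  rw [hS.smul_right]
  ring

/-- A normalised star closed matrix subalgebra gives a tensor decomposition of the form. -/
theorem star_tensor [Nonempty ι] (C : FCtx σ ε f) {H : Subgroup (GL ι F)} {B : Subalgebra F (Matrix ι ι F)} (hB : NormAlg H B)
    (hs : FStar C B) {d : ℕ} [NeZero d] (ψ : Matrix (Fin d) (Fin d) F ≃ₐ[F] B) :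
    ∃ (m : ℕ) (e : ι ≃ Fin d × Fin m) (P : GL ι F) (A₀ : Matrix (Fin d) (Fin d) F) (C₀ : Matrix (Fin m) (Fin m) F) (ε₁ ε₂ : F),
      Fintype.card ι = d * m ∧ FTensor σ ε f H e P A₀ C₀ ε₁ ε₂ := by
  classical
  obtain ⟨m, b, e, P, hcard, hPb, hb, hle⟩ := tensor_of_algEquiv' hB ψ
  have hm : NeZero m := ⟨by
    rintro rfl
    have : 0 < Fintype.card ι := Fintype.card_pos
    omega⟩
  let ψ' : Matrix (Fin d) (Fin d) F →ₐ[F] Matrix ι ι F := B.val.comp ψ.toAlgHom
  let τ : Matrix (Fin d) (Fin d) F → Matrix (Fin d) (Fin d) F := fun M => ψ.symm ⟨C.adj (ψ' M), hs _ (ψ M).2⟩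
  have hτ : ∀ M, C.adj (ψ' M) = ψ' (τ M) := by
    intro M
    show _ = ((ψ (ψ.symm ⟨C.adj (ψ' M), hs _ (ψ M).2⟩) : B) : Matrix ι ι F)
    rw [AlgEquiv.apply_symm_apply]
  obtain ⟨A₀, C₀, hG⟩ := tensor_gram C (ψ := ψ') (b := b) hb τ hτ
  haveI : Nonempty (Fin d) := ⟨⟨0, NeZero.pos d⟩⟩
  haveI : Nonempty (Fin m) := ⟨⟨0, NeZero.pos m⟩⟩
  obtain ⟨ε₁, ε₂, hmul, h₁, h₂⟩ := factor_ctx C hG
  refine ⟨m, e, P, A₀, C₀, ε₁, ε₂, hcard, hle, fun x y => ?_, h₁, h₂, hmul⟩
  rw [form_expand C.sesq hPb]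
  simp only [hG]

end Cfsg.Agent.H97.Asch
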