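import Cfsg.Agent.Lib.H97F5

/-!
Tensor powers of a form, and the flow of the reduction for groups of isometries.
-/

set_option autoImplicit false
set_option linter.unusedSectionVars false
set_option linter.style.haveILetI false

namespace Cfsg.Agent.H97.Asch

open Matrix Cfsg Cfsg.Geo
open scoped MatrixGroups commutatorElement Kronecker

variable {ι : Type} [Fintype ι] [DecidableEq ι] {F : Type*} [Field F]
variable {σ : F →+* F} {ε : F} {f : (ι → F) → (ι → F) → F}

theorem formOfGram_herm {κ : Type} [Fintype κ] (hσ : ∀ a, σ (σ a) = a) {A : Matrix κ κ F} {ε₁ : F}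
    (h : ∀ a c, A a c = ε₁ * σ (A c a)) (u w : κ → F) :
    formOfGram (σ : F → F) A u w = ε₁ * σ (formOfGram (σ : F → F) A w u) := by
  simp only [formOfGram, map_sum, map_mul, hσ, Finset.mul_sum]
  rw [Finset.sum_comm]
  refine Finset.sum_congr rfl fun a _ => Finset.sum_congr rfl fun c _ => ?_
  rw [h c a]
  ring

section WreathGram

variable {m t : ℕ}

/-- the embedding of a coordinate slice -/
noncomputable def sliceW (b : Module.Basis (Fin t → Fin m) F (ι → F)) (i : Fin t) (x : Fin t → Fin m) :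
    (Fin m → F) →ₗ[F] (ι → F) where
  toFun u := ∑ a, u a • b (Function.update x i a)
  map_add' u w := by simp only [Pi.add_apply, add_smul, Finset.sum_add_distrib]
  map_smul' c u := by simp only [Pi.smul_apply, smul_eq_mul, RingHom.id_apply, Finset.smul_sum, mul_smul]

theorem sliceW_apply (b : Module.Basis (Fin t → Fin m) F (ι → F)) (i : Fin t) (x : Fin t → Fin m) (u : Fin m → F) :
    sliceW b i x u = ∑ a, u a • b (Function.update x i a) := rfl

theorem sliceW_single (b : Module.Basis (Fin t → Fin m) F (ι → F)) (i : Fin t) (x : Fin t → Fin m) (a : Fin m) :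
    sliceW b i x (Pi.single a 1) = b (Function.update x i a) := by
  classical
  rw [sliceW_apply, Finset.sum_eq_single a]
  · simp
  · intro c _ hc
    simp [Pi.single_eq_of_ne hc]
  · simp

theorem psi_mulVec_basisW {ψ : Fin t → (Matrix (Fin m) (Fin m) F →ₐ[F] Matrix ι ι F)} {b : Module.Basis (Fin t → Fin m) F (ι → F)}
    (hb : ∀ (i : Fin t) (a c : Fin m) (x : Fin t → Fin m), ψ i (Matrix.single a c 1) *ᵥ b x = if c = x i then b (Function.update x i a) else 0)
    (i : Fin t) (M : Matrix (Fin m) (Fin m) F) (x : Fin t → Fin m) (a : Fin m) :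
    ψ i M *ᵥ b (Function.update x i a) = ∑ a', M a' a • b (Function.update x i a') := by
  classical
  conv_lhs => rw [Matrix.matrix_eq_sum_single M]
  rw [map_sum, Matrix.sum_mulVec]
  refine Finset.sum_congr rfl fun a' _ => ?_
  rw [map_sum, Matrix.sum_mulVec, Finset.sum_eq_single a]
  · have e : Matrix.single a' a (M a' a) = (M a' a) • Matrix.single a' a (1 : F) := by
      rw [Matrix.smul_single, smul_eq_mul, mul_one]
    rw [e, map_smul, Matrix.smul_mulVec, hb]
    simp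
  · intro c _ hc
    have e : Matrix.single a' c (M a' c) = (M a' c) • Matrix.single a' c (1 : F) := by
      rw [Matrix.smul_single, smul_eq_mul, mul_one]
    rw [e, map_smul, Matrix.smul_mulVec, hb]
    simp [hc]
  · simp

theorem psi_mulVec_sliceW {ψ : Fin t → (Matrix (Fin m) (Fin m) F →ₐ[F] Matrix ι ι F)} {b : Module.Basis (Fin t → Fin m) F (ι → F)}
    (hb : ∀ (i : Fin t) (a c : Fin m) (x : Fin t → Fin m), ψ i (Matrix.single a c 1) *ᵥ b x = if c = x i then b (Function.update x i a) else 0)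
    (i : Fin t) (M : Matrix (Fin m) (Fin m) F) (u : Fin m → F) (x : Fin t → Fin m) :
    ψ i M *ᵥ sliceW b i x u = sliceW b i x (M *ᵥ u) := by
  classical
  rw [sliceW_apply, sliceW_apply, Matrix.mulVec_sum]
  simp only [Matrix.mulVec_smul, psi_mulVec_basisW hb, Finset.smul_sum, smul_smul]
  rw [Finset.sum_comm]
  refine Finset.sum_congr rfl fun a' _ => ?_
  rw [← Finset.sum_smul]
  congr 1
  simp only [Matrix.mulVec, dotProduct]
  exact Finset.sum_congr rfl fun a _ => by ring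

/-- the Gram matrix of a tensor power -/
theorem wreath_gram [Nonempty ι] [NeZero m] [NeZero t] (C : FCtx σ ε f) {ψ : Fin t → (Matrix (Fin m) (Fin m) F →ₐ[F] Matrix ι ι F)}
    {b : Module.Basis (Fin t → Fin m) F (ι → F)}
    (hb : ∀ (i : Fin t) (a c : Fin m) (x : Fin t → Fin m), ψ i (Matrix.single a c 1) *ᵥ b x = if c = x i then b (Function.update x i a) else 0)
    (τ : Matrix (Fin m) (Fin m) F → Matrix (Fin m) (Fin m) F) (hτ : ∀ i M, C.adj (ψ i M) = ψ i (τ M)) :
    ∃ (A₀ : Matrix (Fin m) (Fin m) F) (κ ε₁ : F), κ ≠ 0 ∧ κ * ε₁ ^ t = ε * σ κ ∧ FCtx σ ε₁ (formOfGram (σ : F → F) A₀) ∧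
      ∀ x y, f (b x) (b y) = κ * ∏ i, A₀ (x i) (y i) := by
  classical
  have hS := C.sesq
  obtain ⟨x₀, y₀, hne⟩ : ∃ x y, f (b x) (b y) ≠ 0 := by
    by_contra hall
    push Not at hall
    obtain ⟨u, v, huv⟩ := C.exists_ne_of_nonempty
    apply huv
    have h0 : Sesq σ (fun (_ _ : ι → F) => (0 : F)) := ⟨fun _ _ _ => by simp, fun _ _ _ => by simp, fun _ _ _ => by simp, fun _ _ _ => by simp⟩
    exact Sesq.ext_basis hS h0 b hall u v
  let i₀ : Fin t := ⟨0, NeZero.pos t⟩
  let g : Fin t → (Fin t → Fin m) → (Fin t → Fin m) → (Fin m → F) → (Fin m → F) → F :=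
    fun i x y u w => f (sliceW b i x u) (sliceW b i y w)
  have hg : ∀ i x y, Sesq σ (g i x y) := fun i x y =>
    ⟨fun p q v => by simp only [g, map_add]; exact hS.add_left _ _ _,
     fun c p v => by simp only [g, map_smul]; exact hS.smul_left _ _ _,
     fun v p q => by simp only [g, map_add]; exact hS.add_right _ _ _,
     fun c v p => by simp only [g, map_smul]; exact hS.smul_right _ _ _⟩
  have hgτ : ∀ i x y M u w, g i x y (M *ᵥ u) w = g i x y u (τ M *ᵥ w) := by
    intro i x y M u w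
    simp only [g]
    rw [← psi_mulVec_sliceW hb, ← psi_mulVec_sliceW hb, C.adj_spec', hτ]
  have hgs : ∀ i x y a c, g i x y (Pi.single a 1) (Pi.single c 1) = f (b (Function.update x i a)) (b (Function.update y i c)) := by
    intro i x y a c
    simp only [g]
    rw [sliceW_single, sliceW_single]
  set g₀ := g i₀ x₀ y₀ with hg₀def
  have hg₀ne : ∃ u w, g₀ u w ≠ 0 := by
    refine ⟨Pi.single (x₀ i₀) 1, Pi.single (y₀ i₀) 1, ?_⟩
    rw [hg₀def, hgs, Function.update_eq_self, Function.update_eq_self]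
    exact hne
  haveI : Nonempty (Fin m) := ⟨⟨0, NeZero.pos m⟩⟩
  have hun := fun i x y => (tau_form_unique τ (hg i₀ x₀ y₀) (hg i x y) hg₀ne (hgτ _ _ _) (hgτ i x y)).2
  have hndg₀ := (tau_form_unique τ (hg i₀ x₀ y₀) (hg i₀ x₀ y₀) hg₀ne (hgτ _ _ _) (hgτ i₀ x₀ y₀)).1
  choose lam hlam using hun
  let A₀ : Matrix (Fin m) (Fin m) F := fun a c => g₀ (Pi.single a 1) (Pi.single c 1)
  have hslice : ∀ i x y a c, f (b (Function.update x i a)) (b (Function.update y i c)) = lam i x y * A₀ a c := by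
    intro i x y a c
    rw [← hgs, hlam]
  set a₀ := x₀ i₀ with ha₀
  set c₀ := y₀ i₀ with hc₀
  set α := A₀ a₀ c₀ with hα
  have hα0 : α ≠ 0 := by
    have : α = f (b x₀) (b y₀) := by
      rw [hα]
      show g₀ _ _ = _
      rw [hg₀def, hgs, Function.update_eq_self, Function.update_eq_self]
    rw [this]
    exact hne
  let upd : Finset (Fin t) → Fin m → (Fin t → Fin m) → (Fin t → Fin m) := fun S a x i => if i ∈ S then a else x i
  have key : ∀ (S : Finset (Fin t)) (x y : Fin t → Fin m),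
      f (b x) (b y) * α ^ S.card = f (b (upd S a₀ x)) (b (upd S c₀ y)) * ∏ i ∈ S, A₀ (x i) (y i) := by
    intro S
    induction S using Finset.induction_on with
    | empty =>
      intro x y
      have e : ∀ a z, upd ∅ a z = z := fun a z => by
        funext i
        simp [upd]
      simp [e]
    | insert j S hj ih =>
      intro x y
      have e1 : ∀ a z, upd (insert j S) a z = Function.update (upd S a z) j a := by
        intro a z
        funext i
        by_cases hi : i = j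
        · subst hi
          simp [upd]
        · simp [upd, hi, Function.update_of_ne hi]
      have e2 : ∀ a z, Function.update (upd S a z) j (z j) = upd S a z := by
        intro a z
        rw [← Function.update_eq_self j (upd S a z)]
        simp [upd, hj]
      have h1 := ih x y
      have h2 := hslice j (upd S a₀ x) (upd S c₀ y) (x j) (y j)
      rw [e2, e2] at h2
      have h3 := hslice j (upd S a₀ x) (upd S c₀ y) a₀ c₀
      rw [e1, e1, Finset.card_insert_of_notMem hj, Finset.prod_insert hj, pow_succ, ← mul_assoc, h1, h2, h3]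
      ring
  have hconst : ∀ a : Fin m, upd Finset.univ a = fun _ _ => a := by
    intro a
    funext z i
    simp [upd]
  have hall := fun x y => key Finset.univ x y
  simp only [hconst, Finset.card_univ, Fintype.card_fin] at hall
  set γ := f (b fun _ => a₀) (b fun _ => c₀) with hγ
  set κ := γ / α ^ t with hκ
  have hαt : α ^ t ≠ 0 := pow_ne_zero _ hα0
  have hG : ∀ x y, f (b x) (b y) = κ * ∏ i, A₀ (x i) (y i) := by
    intro x y
    have := hall x y
    rw [hκ]
    field_simp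
    linear_combination this
  have hκ0 : κ ≠ 0 := by
    intro h0
    apply hne
    rw [hG, h0, zero_mul]
  -- the hermitian relation
  set β := A₀ c₀ a₀ with hβ
  have hrel : ∀ x y : Fin t → Fin m, κ * ∏ i, A₀ (x i) (y i) = ε * σ κ * ∏ i, σ (A₀ (y i) (x i)) := by
    intro x y
    rw [← hG, C.herm, hG, map_mul, map_prod]
    ring
  have h1 := hrel (fun _ => a₀) (fun _ => c₀)
  simp only [Finset.prod_const, Finset.card_univ, Fintype.card_fin] at h1
  have hσβ : σ β ≠ 0 := by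
    intro h0
    have ht0 : t ≠ 0 := NeZero.ne t
    rw [h0, zero_pow ht0, mul_zero] at h1
    exact (mul_ne_zero hκ0 hαt) h1
  have hprod : ∀ (u v : Fin m) (p q : Fin m), ∏ i, A₀ (Function.update (fun _ => u) i₀ p i) (Function.update (fun _ => v) i₀ q i) =
      A₀ p q * A₀ u v ^ (t - 1) := by
    intro u v p q
    rw [← Finset.mul_prod_erase Finset.univ _ (Finset.mem_univ i₀)]
    simp only [Function.update_self]
    congr 1
    rw [Finset.prod_congr rfl (g := fun _ => A₀ u v)]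
    · rw [Finset.prod_const, Finset.card_erase_of_mem (Finset.mem_univ _), Finset.card_univ, Fintype.card_fin]
    · intro i hi
      have : i ≠ i₀ := Finset.ne_of_mem_erase hi
      simp [Function.update_of_ne this]
  have hprod' : ∀ (u v : Fin m) (p q : Fin m), ∏ i, σ (A₀ (Function.update (fun _ => v) i₀ q i) (Function.update (fun _ => u) i₀ p i)) =
      σ (A₀ q p) * σ (A₀ v u) ^ (t - 1) := by
    intro u v p q
    rw [← map_prod, hprod v u q p, map_mul, map_pow]
  set ε₁ := ε * σ κ * σ β ^ (t - 1) / (κ * α ^ (t - 1)) with hε₁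
  have hα1 : α ^ (t - 1) ≠ 0 := pow_ne_zero _ hα0
  have hA : ∀ a c, A₀ a c = ε₁ * σ (A₀ c a) := by
    intro a c
    have h2 := hrel (Function.update (fun _ => a₀) i₀ a) (Function.update (fun _ => c₀) i₀ c)
    rw [hprod, hprod'] at h2
    rw [hε₁]
    field_simp
    linear_combination h2
  have hε₁rel : κ * ε₁ ^ t = ε * σ κ := by
    have h2 : α = ε₁ * σ β := hA a₀ c₀
    have h1' : κ * α ^ t = ε * σ κ * σ β ^ t := h1
    have h3 : κ * ε₁ ^ t * σ β ^ t = ε * σ κ * σ β ^ t := by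
      calc κ * ε₁ ^ t * σ β ^ t = κ * (ε₁ * σ β) ^ t := by ring
        _ = κ * α ^ t := by rw [← h2]
        _ = _ := h1'
    exact mul_right_cancel₀ (pow_ne_zero _ hσβ) h3
  have hε₁0 : ε₁ ≠ 0 := by
    intro h0
    apply hα0
    rw [hα, hA, h0, zero_mul]
  have hS₁ := formOfGram_sesq σ A₀
  have heq : ∀ u w, g₀ u w = formOfGram (σ : F → F) A₀ u w := by
    refine Sesq.ext_basis (hg i₀ x₀ y₀) hS₁ (Pi.basisFun F (Fin m)) (fun k l => ?_)
    simp only [Pi.basisFun_apply]
    rw [formOfGram_single]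
  have hherm := formOfGram_herm C.invol hA
  have hr : ∀ v : Fin m → F, v ≠ 0 → ∃ x, formOfGram (σ : F → F) A₀ v x ≠ 0 := by
    intro v hv
    obtain ⟨x, hx⟩ := hndg₀ v hv
    exact ⟨x, by rwa [← heq]⟩
  have hl : ∀ v : Fin m → F, v ≠ 0 → ∃ x, formOfGram (σ : F → F) A₀ x v ≠ 0 := by
    intro v hv
    obtain ⟨x, hx⟩ := hr v hv
    refine ⟨x, ?_⟩
    rw [hherm]
    exact mul_ne_zero hε₁0 ((map_ne_zero σ).mpr hx)
  exact ⟨A₀, κ, ε₁, hκ0, hε₁rel, ⟨hS₁, hr, hl, C.invol, hherm⟩, hG⟩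

end WreathGram

/-- the data of a tensor power decomposition of the form preserved by `H`. -/
structure FWreath (σ : F →+* F) (ε : F) (f : (ι → F) → (ι → F) → F) (H : Subgroup (GL ι F)) {m t : ℕ}
    (e : ι ≃ (Fin t → Fin m)) (P : GL ι F) (A₀ : Matrix (Fin m) (Fin m) F) (κ ε₁ : F) : Prop where
  le : H ≤ tensorWreathSubgroup m t e P
  eqn : ∀ x y : (Fin t → Fin m) → F, f ((P : Matrix ι ι F) *ᵥ (x ∘ e)) ((P : Matrix ι ι F) *ᵥ (y ∘ e)) =
    κ * ∑ a, ∑ b, x a * (∏ i, A₀ (a i) (b i)) * σ (y b)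
  ne : κ ≠ 0
  ctx : FCtx σ ε₁ (formOfGram (σ : F → F) A₀)
  rel : κ * ε₁ ^ t = ε * σ κ

theorem star_wreath [Nonempty ι] {m t : ℕ} [NeZero m] [NeZero t] (C : FCtx σ ε f) {H : Subgroup (GL ι F)} (hfix : FFix f H)
    {ψ : Fin t → (Matrix (Fin m) (Fin m) F →ₐ[F] Matrix ι ι F)} {T' : Subgroup (GL ι F)}
    {ψ₁ : Matrix (Fin m) (Fin m) F →ₐ[F] Matrix ι ι F} (hT' : T' ≤ H)
    (hcomm : Pairwise fun i j => ∀ x y, Commute (ψ i x) (ψ j y))
    (hirr : ∀ W : Submodule F (ι → F), (∀ i x, ∀ w ∈ W, ψ i x *ᵥ w ∈ W) → W = ⊥ ∨ W = ⊤)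
    (hperm : ∀ g ∈ H, ∃ τ : Equiv.Perm (Fin t), ∀ (i : Fin t) (M : Matrix (Fin m) (Fin m) F), ∃ M',
      (g : Matrix ι ι F) * ψ i M * ((g⁻¹ : GL ι F) : Matrix ι ι F) = ψ (τ i) M')
    (hmem : ∀ M, ψ₁ M ∈ spanG T') (hsurj : ∀ x ∈ spanG T', ∃ M, ψ₁ M = x)
    (hr : ∀ i, ∃ r ∈ H, ψ i = (conjAlg r).comp ψ₁) :
    ∃ (e : ι ≃ (Fin t → Fin m)) (P : GL ι F) (A₀ : Matrix (Fin m) (Fin m) F) (κ ε₁ : F),
      Fintype.card ι = m ^ t ∧ FWreath σ ε f H e P A₀ κ ε₁ := by
  classical
  obtain ⟨b, e, P, hcard, hPb, hb, hle⟩ := wreath_of_algHoms' ψ hcomm hirr hperm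
  have hst : FStar C (spanG T') := FStar.spanG C (hfix.mono hT')
  have hτ₀ : ∀ M, ∃ M', C.adj (ψ₁ M) = ψ₁ M' := by
    intro M
    obtain ⟨M', hM'⟩ := hsurj _ (hst _ (hmem M))
    exact ⟨M', hM'.symm⟩
  choose τ hτ using hτ₀
  have hτi : ∀ i M, C.adj (ψ i M) = ψ i (τ M) := by
    intro i M
    obtain ⟨r, hr', e⟩ := hr i
    rw [e]
    simp only [AlgHom.comp_apply, conjAlg_apply]
    rw [C.adj_conj (hfix r hr'), hτ]
  obtain ⟨A₀, κ, ε₁, hκ, hrel, hctx, hG⟩ := wreath_gram C hb τ hτi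
  refine ⟨e, P, A₀, κ, ε₁, hcard, hle, fun x y => ?_, hκ, hctx, hrel⟩
  rw [form_expand C.sesq hPb]
  simp only [hG, Finset.mul_sum]
  refine Finset.sum_congr rfl fun a _ => Finset.sum_congr rfl fun c _ => ?_
  ring

/-- The reduction for a group of isometries. -/
theorem star_flow [Fintype F] [Nonempty ι] (C : FCtx σ ε f) (hn : 2 ≤ Fintype.card ι) {H : Subgroup (GL ι F)} (hH : Irr H)
    (hfix : FFix f H) :
    FClass2 f H ∨
    (∃ (ℓ : ℕ) (K : Subalgebra F (Matrix ι ι F)) (N : Subgroup (GL ι F)), ℓ.Prime ∧ IsFieldSubalgebra ℓ K ∧ FStar C K ∧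
      H ≤ subalgebraNormalizer K ∧ N ≤ H ∧ ¬ N ≤ scalars ι F ∧ ∀ g ∈ N, ∀ k ∈ K, (g : Matrix ι ι F) * k = k * g) ∨
    (∃ (d m : ℕ) (e : ι ≃ Fin d × Fin m) (P : GL ι F) (A₀ : Matrix (Fin d) (Fin d) F) (C₀ : Matrix (Fin m) (Fin m) F) (ε₁ ε₂ : F),
      2 ≤ d ∧ 2 ≤ m ∧ Fintype.card ι = d * m ∧ FTensor σ ε f H e P A₀ C₀ ε₁ ε₂) ∨
    (∃ N, N ≤ H ∧ Nrm H N ∧ spanG N = ⊤ ∧ ⁅N, N⁆ ≤ scalars ι F ∧ H ⊓ scalars ι F ≤ N ∧
      ∀ M, M ≤ N → Nrm H M → ¬ M ≤ scalars ι F → M ⊔ (H ⊓ scalars ι F) = N) ∨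
    (∃ (m t : ℕ) (e : ι ≃ (Fin t → Fin m)) (P : GL ι F) (A₀ : Matrix (Fin m) (Fin m) F) (κ ε₁ : F),
      2 ≤ m ∧ 2 ≤ t ∧ Fintype.card ι = m ^ t ∧ FWreath σ ε f H e P A₀ κ ε₁) ∨
    (∃ P, CoreNS H P) := by
  classical
  by_cases hT : ∀ N, N ≤ H → Nrm H N → N ≤ scalars ι F ∨ spanG N = ⊤
  · rcases tri3 hn hH hT with hs | ⟨m, t, hm0, ht0, ψ, T', ψ₁, hm2, ht2, hT', h1, h2, h3, h4, h5, h6⟩ | hc
    · exact Or.inr <| Or.inr <| Or.inr <| Or.inl hs
    · obtain ⟨e, P, A₀, κ, ε₁, hcard, hW⟩ := star_wreath C hfix hT' h1 h2 h3 h4 h5 h6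
      exact Or.inr <| Or.inr <| Or.inr <| Or.inr <| Or.inl ⟨m, t, e, P, A₀, κ, ε₁, hm2, ht2, hcard, hW⟩
    · exact Or.inr <| Or.inr <| Or.inr <| Or.inr <| Or.inr hc
  · push Not at hT
    obtain ⟨N, hNH, hNn, hNs, hNt⟩ := hT
    rcases star_alg_case C hH hfix hNH hNn with h2 | ⟨ℓ, K, hℓ, hK, hKs, hle, hcomm⟩ | ⟨d, hd, ⟨ψ⟩⟩
    · exact Or.inl h2
    · exact Or.inr <| Or.inl ⟨ℓ, K, N, hℓ, hK, hKs, hle, hNH, hNs, hcomm⟩
    · right; right; left
      have hB := normAlg_spanG hNn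
      have hst : FStar C (spanG N) := FStar.spanG C (hfix.mono hNH)
      obtain ⟨m, e, P, A₀, C₀, ε₁, ε₂, hcard, hTn⟩ := star_tensor C hB hst ψ
      have hpos : 0 < Fintype.card ι := Fintype.card_pos
      have hm0 : m ≠ 0 := by
        rintro rfl
        omega
      have hd0 : d ≠ 0 := NeZero.ne d
      have hfr : Module.finrank F (spanG N) = d * d := by
        rw [← LinearEquiv.finrank_eq ψ.toLinearEquiv, Module.finrank_matrix]
        simp
      have hd1 : d ≠ 1 := by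
        intro hd1
        apply hNs
        apply le_scalars_of_spanG_bot
        rw [eq_bot_iff]
        intro x hx
        have h1 : (1 : spanG N) ≠ 0 := one_ne_zero
        have hfr1 : Module.finrank F (spanG N) = 1 := by rw [hfr, hd1]
        obtain ⟨c, hc⟩ := (finrank_eq_one_iff_of_nonzero' (1 : spanG N) h1).mp hfr1 ⟨x, hx⟩
        rw [Algebra.mem_bot]
        refine ⟨c, ?_⟩
        have := congrArg Subtype.val hc
        rw [Algebra.algebraMap_eq_smul_one]
        simpa using this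
      have hm1 : m ≠ 1 := by
        intro hm1
        apply hNt
        have hfrt : Module.finrank F (spanG N) = Module.finrank F (Matrix ι ι F) := by
          rw [hfr, Module.finrank_matrix]
          simp [hcard, hm1]
        have : Subalgebra.toSubmodule (spanG N) = ⊤ := Submodule.eq_top_of_finrank_eq hfrt
        rw [← Algebra.toSubmodule_eq_top]
        exact this
      exact ⟨d, m, e, P, A₀, C₀, ε₁, ε₂, by omega, by omega, hcard, hTn⟩

end Cfsg.Agent.H97.Asch
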