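import Cfsg.Agent.Lib.H97F6

/-!
Perpendicular subspaces, orthogonal families and classification of forms over a finite field.
-/

set_option autoImplicit false
set_option linter.unusedSectionVars false
set_option linter.style.haveILetI false

namespace Cfsg.Agent.H97.Asch

open Matrix Cfsg Cfsg.Geo
open scoped MatrixGroups commutatorElement Kronecker

variable {ι : Type} [Fintype ι] [DecidableEq ι] {F : Type*} [Field F]
variable {σ : F →+* F} {ε : F} {f : (ι → F) → (ι → F) → F}

namespace FCtx

/-- the orthogonal complement -/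
noncomputable def perp (C : FCtx σ ε f) (W : Submodule F (ι → F)) : Submodule F (ι → F) where
  carrier := {v | ∀ w ∈ W, f v w = 0}
  add_mem' {a b} ha hb w hw := by rw [C.sesq.add_left, ha w hw, hb w hw, add_zero]
  zero_mem' w _ := C.sesq.zero_left w
  smul_mem' c v hv w hw := by rw [C.sesq.smul_left, hv w hw, mul_zero]

theorem mem_perp (C : FCtx σ ε f) {W : Submodule F (ι → F)} {v : ι → F} :
    v ∈ C.perp W ↔ ∀ w ∈ W, f v w = 0 := Iff.rfl

theorem mem_perp' (C : FCtx σ ε f) {W : Submodule F (ι → F)} {v : ι → F} :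
    v ∈ C.perp W ↔ ∀ w ∈ W, f w v = 0 := by
  rw [mem_perp]
  refine ⟨fun h w hw => ?_, fun h w hw => ?_⟩
  · rw [C.herm, h w hw, map_zero, mul_zero]
  · rw [C.herm, h w hw, map_zero, mul_zero]

theorem stable_perp (C : FCtx σ ε f) {H : Subgroup (GL ι F)} (hfix : FFix f H) {W : Submodule F (ι → F)}
    (hW : Stable H W) : Stable H (C.perp W) := by
  intro g hg v hv w hw
  have h1 := hv _ (hW g⁻¹ (H.inv_mem hg) w hw)
  have h2 := hfix g hg v (((g⁻¹ : GL ι F) : Matrix ι ι F) *ᵥ w)
  rw [gl_mulVec_inv] at h2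
  rw [h2, h1]

theorem perp_dims (C : FCtx σ ε f) {W : Submodule F (ι → F)} (hdisj : W ⊓ C.perp W = ⊥) :
    Module.finrank F W + Module.finrank F (C.perp W) = Fintype.card ι ∧ W ⊔ C.perp W = ⊤ := by
  classical
  have hS := C.sesq
  let bW := Module.finBasis F W
  let Φ : (ι → F) →ₗ[F] (Fin (Module.finrank F W) → F) :=
    { toFun := fun v i => f v (bW i)
      map_add' := fun x y => by
        ext i
        exact hS.add_left _ _ _
      map_smul' := fun c x => by
        ext i
        exact hS.smul_left _ _ _ }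
  have hker : LinearMap.ker Φ ≤ C.perp W := by
    intro v hv w hw
    have hv' : ∀ i, f v (bW i) = 0 := fun i => congrFun (LinearMap.mem_ker.mp hv) i
    have e : w = ∑ i, bW.repr ⟨w, hw⟩ i • ((bW i : W) : ι → F) := by
      have := congrArg Subtype.val (bW.sum_repr ⟨w, hw⟩)
      simp only [Submodule.coe_sum, Submodule.coe_smul] at this
      exact this.symm
    rw [e, hS.sum_right]
    exact Finset.sum_eq_zero fun i _ => by rw [hS.smul_right, hv', mul_zero]
  have h1 := LinearMap.finrank_range_add_finrank_ker Φ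
  have h2 : Module.finrank F (LinearMap.range Φ) ≤ Module.finrank F W := by
    have := Submodule.finrank_le (LinearMap.range Φ)
    simpa using this
  have h3 := Submodule.finrank_mono hker
  have h4 : Module.finrank F (ι → F) = Fintype.card ι := by simp
  have h5 := Submodule.finrank_sup_add_finrank_inf_eq W (C.perp W)
  rw [hdisj, finrank_bot, add_zero] at h5
  have h6 := Submodule.finrank_le (W ⊔ C.perp W)
  have h7 : Module.finrank F W + Module.finrank F (C.perp W) = Fintype.card ι := by omega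
  refine ⟨h7, ?_⟩
  apply Submodule.eq_top_of_finrank_eq
  omega

theorem nondeg_of_disj (C : FCtx σ ε f) {W : Submodule F (ι → F)} (hdisj : W ⊓ C.perp W = ⊥) : IsNondegenerateOn f W := by
  intro w hw h0
  have hex : ∃ x ∈ W, f w x ≠ 0 := by
    by_contra hall
    push Not at hall
    apply h0
    have : w ∈ W ⊓ C.perp W := ⟨hw, hall⟩
    rw [hdisj] at this
    simpa using this
  obtain ⟨x, hx, hfx⟩ := hex
  refine ⟨⟨x, hx, ?_⟩, ⟨x, hx, hfx⟩⟩
  intro h
  apply hfx
  rw [C.herm, h, map_zero, mul_zero]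

theorem disj_of_nondeg (C : FCtx σ ε f) {W : Submodule F (ι → F)} (h : IsNondegenerateOn f W) : W ⊓ C.perp W = ⊥ := by
  rw [eq_bot_iff]
  rintro w ⟨hw, hp⟩
  by_contra h0
  obtain ⟨x, hx, hfx⟩ := (h w hw h0).2
  exact hfx (hp x hx)

theorem nondeg_perp_of_disj (C : FCtx σ ε f) {W : Submodule F (ι → F)} (hdisj : W ⊓ C.perp W = ⊥) :
    IsNondegenerateOn f (C.perp W) := by
  classical
  obtain ⟨-, hsup⟩ := C.perp_dims hdisj
  intro w hw h0
  have hex : ∃ x ∈ C.perp W, f w x ≠ 0 := by
    obtain ⟨y, hy⟩ := C.ndr w h0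
    have hy' : y ∈ W ⊔ C.perp W := hsup ▸ Submodule.mem_top
    obtain ⟨a, ha, b, hb, rfl⟩ := Submodule.mem_sup.mp hy'
    refine ⟨b, hb, ?_⟩
    rw [C.sesq.add_right, hw a ha, zero_add] at hy
    exact hy
  obtain ⟨x, hx, hfx⟩ := hex
  refine ⟨⟨x, hx, ?_⟩, ⟨x, hx, hfx⟩⟩
  intro h
  apply hfx
  rw [C.herm, h, map_zero, mul_zero]

/-- The dichotomy for a reducible group of isometries. -/
theorem reducible (C : FCtx σ ε f) {H : Subgroup (GL ι F)} (hfix : FFix f H) {W : Submodule F (ι → F)}
    (hW : Stable H W) (h0 : W ≠ ⊥) (h1 : W ≠ ⊤) :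
    (∃ R : Submodule F (ι → F), R ≠ ⊥ ∧ Stable H R ∧ IsTotallySingularFor f R) ∨
    (∃ U : Submodule F (ι → F), U ≠ ⊥ ∧ U ≠ ⊤ ∧ Stable H U ∧ U ⊓ C.perp U = ⊥) := by
  by_cases hd : W ⊓ C.perp W = ⊥
  · exact Or.inr ⟨W, h0, h1, hW, hd⟩
  · refine Or.inl ⟨W ⊓ C.perp W, hd, ?_, ?_⟩
    · intro g hg w hw
      exact ⟨hW g hg w hw.1, C.stable_perp hfix hW g hg w hw.2⟩
    · intro u hu v hv
      exact hu.2 v hv.1

theorem perp_ne_bot (C : FCtx σ ε f) {U : Submodule F (ι → F)} (hd : U ⊓ C.perp U = ⊥) (h1 : U ≠ ⊤) : C.perp U ≠ ⊥ := by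
  intro h
  obtain ⟨-, hs⟩ := C.perp_dims hd
  rw [h, sup_bot_eq] at hs
  exact h1 hs

theorem perp_ne_top (C : FCtx σ ε f) {U : Submodule F (ι → F)} (hd : U ⊓ C.perp U = ⊥) (h1 : U ≠ ⊥) : C.perp U ≠ ⊤ := by
  intro h
  rw [h, inf_top_eq] at hd
  exact h1 hd

theorem perp_perp (C : FCtx σ ε f) {U : Submodule F (ι → F)} (hd : U ⊓ C.perp U = ⊥) : C.perp (C.perp U) = U := by
  obtain ⟨h1, hs⟩ := C.perp_dims hd
  have hle : U ≤ C.perp (C.perp U) := fun u hu w hw => by
    rw [C.herm, hw u hu, map_zero, mul_zero]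
  have hd' : C.perp U ⊓ C.perp (C.perp U) = ⊥ := C.disj_of_nondeg (C.nondeg_perp_of_disj hd)
  obtain ⟨h2, -⟩ := C.perp_dims hd'
  exact (Submodule.eq_of_le_of_finrank_eq hle (by omega)).symm

/-- a vector which is not isotropic -/
theorem exists_aniso (C : FCtx σ 1 f) (hTr : ∃ s : F, s + σ s ≠ 0) {W : Submodule F (ι → F)} (hW : IsNondegenerateOn f W)
    (h0 : W ≠ ⊥) : ∃ v ∈ W, f v v ≠ 0 := by
  classical
  by_contra hall
  push Not at hall
  obtain ⟨u, hu, hu0⟩ := (Submodule.ne_bot_iff W).mp h0
  obtain ⟨v, hv, huv⟩ := (hW u hu hu0).2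
  obtain ⟨s, hs⟩ := hTr
  set a := f u v with ha
  have hσa : σ a ≠ 0 := (map_ne_zero σ).mpr huv
  set c := s / σ a with hc
  have h1 := hall (u + c • v) (W.add_mem hu (W.smul_mem c hv))
  have hvu : f v u = σ a := by
    rw [C.herm, one_mul]
  rw [C.sesq.add_left, C.sesq.add_right, C.sesq.add_right, C.sesq.smul_left, C.sesq.smul_left, C.sesq.smul_right,
    C.sesq.smul_right, hall u hu, hall v hv, hvu, ← ha] at h1
  apply hs
  have e1 : c * σ a = s := by
    rw [hc]
    field_simp
  have e2 : a * σ c = σ s := by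
    rw [← e1, map_mul, C.invol]
    ring
  linear_combination h1 - e1 - e2

/-- orthogonal families in a non-degenerate subspace -/
theorem exists_orth_family (C : FCtx σ 1 f) (hTr : ∃ s : F, s + σ s ≠ 0) :
    ∀ (r : ℕ) (W : Submodule F (ι → F)), IsNondegenerateOn f W → Module.finrank F W = r →
      ∃ v : Fin r → (ι → F), (∀ i, v i ∈ W) ∧ (∀ i j, i ≠ j → f (v i) (v j) = 0) ∧ ∀ i, f (v i) (v i) ≠ 0 := by
  classical
  intro r
  induction r with
  | zero =>
    intro W _ _
    exact ⟨Fin.elim0, fun i => i.elim0, fun i => i.elim0, fun i => i.elim0⟩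
  | succ r ih =>
    intro W hW hr
    have h0 : W ≠ ⊥ := by
      rintro rfl
      simp at hr
    obtain ⟨v, hv, hvv⟩ := C.exists_aniso hTr hW h0
    -- the complement inside W
    let φ : Module.Dual F (ι → F) :=
      { toFun := fun x => f x v
        map_add' := fun x y => C.sesq.add_left x y v
        map_smul' := fun c x => C.sesq.smul_left c x v }
    have hφ : ∀ x, φ x = f x v := fun _ => rfl
    have hφ0 : φ ≠ 0 := by
      intro h
      apply hvv
      rw [← hφ, h]
      rfl
    let W' : Submodule F (ι → F) := W ⊓ LinearMap.ker φ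
    have hmem' : ∀ x, x ∈ W' ↔ x ∈ W ∧ f x v = 0 := by
      intro x
      show (x ∈ W ∧ φ x = 0) ↔ _
      rw [hφ]
    have hsup : W ⊔ LinearMap.ker φ = ⊤ := by
      rw [eq_top_iff]
      intro x _
      have hx : x - (f x v / f v v) • v ∈ LinearMap.ker φ := by
        rw [LinearMap.mem_ker, map_sub, map_smul, hφ, hφ, smul_eq_mul]
        field_simp
        ring
      have : x = (f x v / f v v) • v + (x - (f x v / f v v) • v) := by abel
      rw [this]
      exact Submodule.add_mem_sup (W.smul_mem _ hv) hx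
    have hdim : Module.finrank F W' = r := by
      have h1 := Submodule.finrank_sup_add_finrank_inf_eq W (LinearMap.ker φ)
      have h2 := Module.Dual.finrank_ker_add_one_of_ne_zero hφ0
      rw [hsup, finrank_top] at h1
      have h3 : Module.finrank F (W ⊓ LinearMap.ker φ : Submodule F (ι → F)) = Module.finrank F W' := rfl
      have h4 : 0 < Module.finrank F (ι → F) := by
        have := Submodule.finrank_le W
        omega
      omega
    have hnd' : IsNondegenerateOn f W' := by
      intro w hw hw0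
      have hwW := ((hmem' w).mp hw).1
      have hwv := ((hmem' w).mp hw).2
      have hvw : f v w = 0 := by
        rw [C.herm, hwv, map_zero, mul_zero]
      obtain ⟨y, hy, hfy⟩ := (hW w hwW hw0).2
      -- the projection of y
      set c := f y v / f v v with hc
      have hy' : y - c • v ∈ W' := by
        rw [hmem']
        refine ⟨W.sub_mem hy (W.smul_mem _ hv), ?_⟩
        rw [C.sesq.sub_left, C.sesq.smul_left, hc]
        field_simp
        ring
      have e1 : f w (y - c • v) = f w y := by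
        rw [C.sub_right, C.sesq.smul_right, hwv, mul_zero, sub_zero]
      have hne : f w (y - c • v) ≠ 0 := by rwa [e1]
      refine ⟨⟨_, hy', ?_⟩, ⟨_, hy', hne⟩⟩
      intro h
      apply hne
      rw [C.herm, h, map_zero, mul_zero]
    obtain ⟨u, hu, horth, haniso⟩ := ih W' hnd' hdim
    refine ⟨Fin.cons v u, ?_, ?_, ?_⟩
    · intro i
      refine Fin.cases ?_ (fun j => ?_) i
      · simpa using hv
      · simpa using ((hmem' _).mp (hu j)).1
    · intro i j
      refine Fin.cases ?_ (fun i' => ?_) i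
      · refine Fin.cases ?_ (fun j' => ?_) j
        · intro h
          exact absurd rfl h
        · intro _
          simp only [Fin.cons_zero, Fin.cons_succ]
          have := ((hmem' _).mp (hu j')).2
          rw [C.herm, this, map_zero, mul_zero]
      · refine Fin.cases ?_ (fun j' => ?_) j
        · intro _
          simp only [Fin.cons_zero, Fin.cons_succ]
          exact ((hmem' _).mp (hu i')).2
        · intro hne
          simp only [Fin.cons_succ]
          exact horth i' j' (fun h => hne (by rw [h]))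
    · intro i
      refine Fin.cases ?_ (fun j => ?_) i
      · simpa using hvv
      · simpa using haniso j

end FCtx

end Cfsg.Agent.H97.Asch
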