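import Cfsg.Agent.Lib.H97G1

/-!
Classification of symmetric and hermitian forms over a finite field, in the form needed below.
-/

set_option autoImplicit false
set_option linter.unusedSectionVars false
set_option linter.style.haveILetI false

namespace Cfsg.Agent.H97.Asch

open Matrix Cfsg Cfsg.Geo
open scoped MatrixGroups commutatorElement Kronecker

variable {ι : Type} [Fintype ι] [DecidableEq ι] {F : Type*} [Field F]
variable {σ : F →+* F} {ε : F} {f : (ι → F) → (ι → F) → F}

theorem exists_sum_squares [Fintype F] (hodd : Odd (Fintype.card F)) (a b : F) (ha : a ≠ 0) (hb : b ≠ 0) :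
    ∃ x y : F, a * x ^ 2 + b * y ^ 2 = 1 := by
  classical
  have h1 : (Polynomial.C a * Polynomial.X ^ 2 : Polynomial F).degree = 2 := by
    rw [Polynomial.degree_C_mul_X_pow 2 ha]
    rfl
  have h2 : (Polynomial.C b * Polynomial.X ^ 2 - Polynomial.C 1 : Polynomial F).degree = 2 := by
    rw [Polynomial.degree_sub_C]
    · rw [Polynomial.degree_C_mul_X_pow 2 hb]
      rfl
    · rw [Polynomial.degree_C_mul_X_pow 2 hb]
      simp
  obtain ⟨x, y, hxy⟩ := FiniteField.exists_root_sum_quadratic h1 h2 (Nat.odd_iff.mp hodd)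
  refine ⟨x, y, ?_⟩
  simp only [Polynomial.eval_mul, Polynomial.eval_C, Polynomial.eval_pow, Polynomial.eval_X, Polynomial.eval_sub] at hxy
  linear_combination hxy

/-- a normal form of an orthogonal family for a symmetric form -/
theorem sym_family [Fintype F] (hodd : Odd (Fintype.card F)) (C : FCtx (RingHom.id F) 1 f) {r : ℕ} (i₀ : Fin r)
    {v₀ : Fin r → (ι → F)} (h₁ : ∀ i j, i ≠ j → f (v₀ i) (v₀ j) = 0) (h₂ : ∀ i, f (v₀ i) (v₀ i) ≠ 0) :
    ∃ v : Fin r → (ι → F), (∀ i j, i ≠ j → f (v i) (v j) = 0) ∧ (∀ i, f (v i) (v i) ≠ 0) ∧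
      ∀ i, i ≠ i₀ → f (v i) (v i) = 1 := by
  classical
  have key : ∀ S : Finset (Fin r), i₀ ∉ S → ∃ v : Fin r → (ι → F), (∀ i j, i ≠ j → f (v i) (v j) = 0) ∧
      (∀ i, f (v i) (v i) ≠ 0) ∧ ∀ i ∈ S, f (v i) (v i) = 1 := by
    intro S
    induction S using Finset.induction_on with
    | empty =>
      intro _
      exact ⟨v₀, h₁, h₂, by simp⟩
    | insert s S hs ih =>
      intro hi
      have hs0 : s ≠ i₀ := fun h => hi (h ▸ Finset.mem_insert_self _ _)
      have hi' : i₀ ∉ S := fun h => hi (Finset.mem_insert_of_mem h)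
      obtain ⟨v, hv1, hv2, hv3⟩ := ih hi'
      set a := f (v s) (v s) with ha
      set b := f (v i₀) (v i₀) with hb
      obtain ⟨x, y, hxy⟩ := exists_sum_squares hodd a b (hv2 s) (hv2 i₀)
      have hsi : f (v s) (v i₀) = 0 := hv1 _ _ hs0
      have his : f (v i₀) (v s) = 0 := hv1 _ _ hs0.symm
      set u : ι → F := x • v s + y • v i₀ with hu
      set u' : ι → F := (-(b * y)) • v s + (a * x) • v i₀ with hu'
      have hS := C.sesq
      have huu : f u u = 1 := by
        simp only [hu, hS.add_left, hS.add_right, hS.smul_left, hS.smul_right, hsi, his, ← ha, ← hb, RingHom.id_apply]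
        linear_combination hxy
      have hu'u' : f u' u' = a * b := by
        simp only [hu', hS.add_left, hS.add_right, hS.smul_left, hS.smul_right, hsi, his, ← ha, ← hb, RingHom.id_apply]
        linear_combination (a * b) * hxy
      have huu' : f u u' = 0 := by
        simp only [hu, hu', hS.add_left, hS.add_right, hS.smul_left, hS.smul_right, hsi, his, ← ha, ← hb, RingHom.id_apply]
        ring
      have hu'u : f u' u = 0 := by
        simp only [hu, hu', hS.add_left, hS.add_right, hS.smul_left, hS.smul_right, hsi, his, ← ha, ← hb, RingHom.id_apply]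
        ring
      have huw : ∀ j, j ≠ s → j ≠ i₀ → f u (v j) = 0 ∧ f u' (v j) = 0 ∧ f (v j) u = 0 ∧ f (v j) u' = 0 := by
        intro j h1 h2
        have e1 := hv1 s j h1.symm
        have e2 := hv1 i₀ j h2.symm
        have e3 := hv1 j s h1
        have e4 := hv1 j i₀ h2
        refine ⟨?_, ?_, ?_, ?_⟩ <;>
        simp only [hu, hu', hS.add_left, hS.add_right, hS.smul_left, hS.smul_right, e1, e2, e3, e4, RingHom.id_apply, mul_zero, add_zero]
      let w : Fin r → (ι → F) := fun j => if j = s then u else if j = i₀ then u' else v j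
      have hws : w s = u := by simp [w]
      have hwi : w i₀ = u' := by simp [w, hs0.symm]
      have hwj : ∀ j, j ≠ s → j ≠ i₀ → w j = v j := by
        intro j h1 h2
        simp [w, h1, h2]
      refine ⟨w, ?_, ?_, ?_⟩
      · intro i j hij
        by_cases h1 : i = s
        · subst h1
          by_cases h2 : j = i₀
          · subst h2
            rw [hws, hwi]
            exact huu'
          · rw [hws, hwj j (Ne.symm hij) h2]
            exact (huw j (Ne.symm hij) h2).1
        · by_cases h1' : i = i₀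
          · subst h1'
            by_cases h2 : j = s
            · subst h2
              rw [hwi, hws]
              exact hu'u
            · rw [hwi, hwj j h2 (Ne.symm hij)]
              exact (huw j h2 (Ne.symm hij)).2.1
          · rw [hwj i h1 h1']
            by_cases h2 : j = s
            · subst h2
              rw [hws]
              exact (huw i h1 h1').2.2.1
            · by_cases h2' : j = i₀
              · subst h2'
                rw [hwi]
                exact (huw i h1 h1').2.2.2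
              · rw [hwj j h2 h2']
                exact hv1 i j hij
      · intro i
        by_cases h1 : i = s
        · subst h1
          rw [hws, huu]
          exact one_ne_zero
        · by_cases h1' : i = i₀
          · subst h1'
            rw [hwi, hu'u']
            exact mul_ne_zero (hv2 _) (hv2 _)
          · rw [hwj i h1 h1']
            exact hv2 i
      · intro i hiS
        rcases Finset.mem_insert.mp hiS with rfl | hiS'
        · rw [hws, huu]
        · have h1 : i ≠ s := fun h => hs (h ▸ hiS')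
          have h1' : i ≠ i₀ := fun h => hi' (h ▸ hiS')
          rw [hwj i h1 h1']
          exact hv3 i hiS'
  obtain ⟨v, h1, h2, h3⟩ := key (Finset.univ.erase i₀) (by simp)
  exact ⟨v, h1, h2, fun i hi => h3 i (by simp [hi])⟩

/-- the matrix with given columns -/
def colsM {κ : Type} (v : κ → (κ → F)) : Matrix κ κ F := fun c a => v a c

theorem colsM_mulVec {κ : Type} [Fintype κ] [DecidableEq κ] (v : κ → (κ → F)) (a : κ) :
    colsM v *ᵥ Pi.single a 1 = v a := by
  ext c
  simp [colsM]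

theorem formOfGram_mulVec {κ : Type} [Fintype κ] [DecidableEq κ] (σ : F →+* F) (G T T' : Matrix κ κ F) (x y : κ → F) :
    formOfGram (σ : F → F) G (T *ᵥ x) (T' *ᵥ y) = formOfGram (σ : F → F) (Tᵀ * G * T'.map σ) x y := by
  classical
  have hd : ∀ (G : Matrix κ κ F) (x y : κ → F), formOfGram (σ : F → F) G x y = x ⬝ᵥ (G *ᵥ (fun i => σ (y i))) := by
    intro G x y
    simp only [formOfGram, dotProduct, Matrix.mulVec, Finset.mul_sum, mul_assoc]
  have hs : (fun i => σ ((T' *ᵥ y) i)) = T'.map σ *ᵥ (fun i => σ (y i)) := by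
    ext i
    simp only [Matrix.mulVec, dotProduct, map_sum, map_mul, Matrix.map_apply]
  rw [hd, hd, hs, ← Matrix.mulVec_mulVec, ← Matrix.mulVec_mulVec, Matrix.dotProduct_mulVec x Tᵀ, Matrix.vecMul_transpose]

theorem cols_gram {κ : Type} [Fintype κ] [DecidableEq κ] (σ : F →+* F) (G : Matrix κ κ F) (v w : κ → (κ → F)) (a b : κ) :
    ((colsM v)ᵀ * G * (colsM w).map σ) a b = formOfGram (σ : F → F) G (v a) (w b) := by
  rw [← formOfGram_single σ ((colsM v)ᵀ * G * (colsM w).map σ) a b, ← formOfGram_mulVec, colsM_mulVec, colsM_mulVec]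

theorem gl_of_gram {κ : Type} [Fintype κ] [DecidableEq κ] (σ : F →+* F) {G D T : Matrix κ κ F}
    (h : Tᵀ * G * T.map σ = D) (hD : D.det ≠ 0) : ∃ T' : GL κ F, (T' : Matrix κ κ F) = T := by
  have h1 : T.det ≠ 0 := by
    intro h0
    apply hD
    rw [← h, Matrix.det_mul, Matrix.det_mul, Matrix.det_transpose, h0]
    ring
  exact ⟨Matrix.GeneralLinearGroup.mkOfDetNeZero T h1, rfl⟩

/-- two forms having the same normal form are congruent. -/
theorem congr_of_normal {κ : Type} [Fintype κ] [DecidableEq κ] (σ : F →+* F) {A₁ A₂ D : Matrix κ κ F} (T₁ T₂ : GL κ F)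
    (h₁ : (T₁ : Matrix κ κ F)ᵀ * A₁ * (T₁ : Matrix κ κ F).map σ = D)
    (h₂ : (T₂ : Matrix κ κ F)ᵀ * A₂ * (T₂ : Matrix κ κ F).map σ = D) :
    ∃ T : GL κ F, (T : Matrix κ κ F)ᵀ * A₁ * (T : Matrix κ κ F).map σ = A₂ := by
  refine ⟨T₁ * T₂⁻¹, ?_⟩
  set S : Matrix κ κ F := ((T₂⁻¹ : GL κ F) : Matrix κ κ F) with hS
  have e1 : (T₂ : Matrix κ κ F) * S = 1 := by rw [hS, ← Units.val_mul, mul_inv_cancel, Units.val_one]
  have e2 : Sᵀ * (T₂ : Matrix κ κ F)ᵀ = 1 := by
    rw [← Matrix.transpose_mul, e1, Matrix.transpose_one]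
  have e3 : (T₂ : Matrix κ κ F).map σ * S.map σ = 1 := by
    rw [← Matrix.map_mul, e1, Matrix.map_one σ (map_zero σ) (map_one σ)]
  rw [Units.val_mul, Matrix.transpose_mul, Matrix.map_mul, ← hS]
  calc Sᵀ * (T₁ : Matrix κ κ F)ᵀ * A₁ * ((T₁ : Matrix κ κ F).map σ * S.map σ)
      = Sᵀ * ((T₁ : Matrix κ κ F)ᵀ * A₁ * (T₁ : Matrix κ κ F).map σ) * S.map σ := by
        simp only [Matrix.mul_assoc]
    _ = Sᵀ * ((T₂ : Matrix κ κ F)ᵀ * A₂ * (T₂ : Matrix κ κ F).map σ) * S.map σ := by rw [h₁, h₂]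
    _ = (Sᵀ * (T₂ : Matrix κ κ F)ᵀ) * A₂ * ((T₂ : Matrix κ κ F).map σ * S.map σ) := by
        simp only [Matrix.mul_assoc]
    _ = A₂ := by rw [e2, e3, Matrix.one_mul, Matrix.mul_one]

/-- the normal form of a symmetric matrix -/
theorem sym_normal [Fintype F] (hodd : Odd (Fintype.card F)) (h2 : (2 : F) ≠ 0) {k : ℕ} {A : Matrix (Fin k) (Fin k) F}
    (hA : FCtx (RingHom.id F) 1 (formOfGram ((RingHom.id F : F →+* F) : F → F) A)) (i₀ : Fin k) :
    ∃ (T : GL (Fin k) F) (d : F), d ≠ 0 ∧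
      (T : Matrix (Fin k) (Fin k) F)ᵀ * A * (T : Matrix (Fin k) (Fin k) F).map (RingHom.id F) =
        Matrix.diagonal (fun i => if i = i₀ then d else 1) := by
  classical
  have hTr : ∃ s : F, s + (RingHom.id F) s ≠ 0 := ⟨1, by simpa [one_add_one_eq_two] using h2⟩
  have htop : IsNondegenerateOn (formOfGram ((RingHom.id F : F →+* F) : F → F) A) (⊤ : Submodule F (Fin k → F)) := by
    intro w _ hw
    obtain ⟨x, hx⟩ := hA.ndr w hw
    obtain ⟨y, hy⟩ := hA.ndl w hw
    exact ⟨⟨y, Submodule.mem_top, hy⟩, ⟨x, Submodule.mem_top, hx⟩⟩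
  obtain ⟨v₀, -, h₁, h₂⟩ := hA.exists_orth_family hTr k ⊤ htop (by simp)
  obtain ⟨v, hv1, hv2, hv3⟩ := sym_family hodd hA i₀ h₁ h₂
  set d := formOfGram ((RingHom.id F : F →+* F) : F → F) A (v i₀) (v i₀) with hd
  have hD : (colsM v)ᵀ * A * (colsM v).map (RingHom.id F) = Matrix.diagonal (fun i => if i = i₀ then d else 1) := by
    ext a b
    rw [cols_gram, Matrix.diagonal_apply]
    by_cases hab : a = b
    · subst hab
      rw [if_pos rfl]
      by_cases ha : a = i₀
      · subst ha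
        rw [if_pos rfl]
      · rw [if_neg ha]
        exact hv3 a ha
    · rw [if_neg hab]
      exact hv1 a b hab
  have hdet : (Matrix.diagonal (fun i => if i = i₀ then d else (1 : F))).det ≠ 0 := by
    rw [Matrix.det_diagonal]
    refine Finset.prod_ne_zero_iff.mpr fun i _ => ?_
    split_ifs
    · exact hv2 i₀
    · exact one_ne_zero
  obtain ⟨T, hT⟩ := gl_of_gram (RingHom.id F) hD hdet
  refine ⟨T, d, hv2 i₀, ?_⟩
  rw [hT]
  exact hD

theorem ctx_smul [Nonempty ι] {c : F} (hc : c ≠ 0) (hc' : σ c = c) (C : FCtx σ ε f) : FCtx σ ε (fun u v => c * f u v) where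
  sesq := ⟨fun x y v => by simp only [C.sesq.add_left, mul_add], fun a x v => by simp only [C.sesq.smul_left]; ring,
    fun v x y => by simp only [C.sesq.add_right, mul_add], fun a v x => by simp only [C.sesq.smul_right]; ring⟩
  ndr v hv := by
    obtain ⟨x, hx⟩ := C.ndr v hv
    exact ⟨x, mul_ne_zero hc hx⟩
  ndl v hv := by
    obtain ⟨x, hx⟩ := C.ndl v hv
    exact ⟨x, mul_ne_zero hc hx⟩
  invol := C.invol
  herm u v := by
    rw [map_mul, hc', C.herm u v]
    ring

theorem formOfGram_smul {κ : Type} [Fintype κ] (σ : F → F) (c : F) (G : Matrix κ κ F) (x y : κ → F) :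
    formOfGram σ (c • G) x y = c * formOfGram σ G x y := by
  simp only [formOfGram, Matrix.smul_apply, smul_eq_mul, Finset.mul_sum]
  refine Finset.sum_congr rfl fun a _ => Finset.sum_congr rfl fun b _ => ?_
  ring

/-- Two non-degenerate symmetric forms in odd dimension are similar. -/
theorem sym_classify [Fintype F] (hodd : Odd (Fintype.card F)) (h2 : (2 : F) ≠ 0) {k : ℕ} (hk : Odd k)
    {A₁ A₂ : Matrix (Fin k) (Fin k) F}
    (hA₁ : FCtx (RingHom.id F) 1 (formOfGram ((RingHom.id F : F →+* F) : F → F) A₁))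
    (hA₂ : FCtx (RingHom.id F) 1 (formOfGram ((RingHom.id F : F →+* F) : F → F) A₂)) :
    ∃ (T : GL (Fin k) F) (c : F), c ≠ 0 ∧
      (T : Matrix (Fin k) (Fin k) F)ᵀ * A₁ * (T : Matrix (Fin k) (Fin k) F).map (RingHom.id F) = c • A₂ := by
  classical
  have hk0 : 0 < k := hk.pos
  let i₀ : Fin k := ⟨0, hk0⟩
  have hne : Nonempty (Fin k) := ⟨i₀⟩
  obtain ⟨T₁, d₁, hd₁, hT₁⟩ := sym_normal hodd h2 hA₁ i₀
  -- determinants
  have hmapid : ∀ T : Matrix (Fin k) (Fin k) F, T.map (RingHom.id F) = T := fun T => by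
    ext i j
    rfl
  have hdiagdet : ∀ d : F, (Matrix.diagonal (fun i => if i = i₀ then d else (1 : F))).det = d := by
    intro d
    rw [Matrix.det_diagonal, Finset.prod_ite_eq']
    simp
  have hd1 : (T₁ : Matrix (Fin k) (Fin k) F).det ^ 2 * A₁.det = d₁ := by
    have := congrArg Matrix.det hT₁
    rw [hdiagdet, hmapid, Matrix.det_mul, Matrix.det_mul, Matrix.det_transpose] at this
    rw [← this]
    ring
  have hA₁0 : A₁.det ≠ 0 := by
    intro h0
    apply hd₁
    rw [← hd1, h0, mul_zero]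
  obtain ⟨T₂, d₂, hd₂, hT₂⟩ := sym_normal hodd h2 hA₂ i₀
  have hA₂0 : A₂.det ≠ 0 := by
    intro h0
    apply hd₂
    have := congrArg Matrix.det hT₂
    rw [hdiagdet, hmapid, Matrix.det_mul, Matrix.det_mul, Matrix.det_transpose, h0] at this
    rw [← this]
    ring
  set c := A₁.det * A₂.det with hc
  have hc0 : c ≠ 0 := mul_ne_zero hA₁0 hA₂0
  have hctx : FCtx (RingHom.id F) 1 (formOfGram ((RingHom.id F : F →+* F) : F → F) (c • A₂)) := by
    have := ctx_smul hc0 (by simp) hA₂
    have e : (fun u v => c * formOfGram ((RingHom.id F : F →+* F) : F → F) A₂ u v) =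
        formOfGram ((RingHom.id F : F →+* F) : F → F) (c • A₂) := by
      funext u v
      rw [formOfGram_smul]
    rwa [e] at this
  obtain ⟨T₃, d₃, hd₃, hT₃⟩ := sym_normal hodd h2 hctx i₀
  have hd3 : (T₃ : Matrix (Fin k) (Fin k) F).det ^ 2 * (c ^ k * A₂.det) = d₃ := by
    have := congrArg Matrix.det hT₃
    rw [hdiagdet, hmapid, Matrix.det_mul, Matrix.det_mul, Matrix.det_transpose, Matrix.det_smul] at this
    simp only [Fintype.card_fin] at this
    rw [← this]
    ring
  have hT₁0 : (T₁ : Matrix (Fin k) (Fin k) F).det ≠ 0 := by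
    intro h0
    apply hd₁
    rw [← hd1, h0]
    ring
  obtain ⟨j, hj⟩ := hk
  set w := (T₃ : Matrix (Fin k) (Fin k) F).det * c ^ j * A₂.det / (T₁ : Matrix (Fin k) (Fin k) F).det with hw
  have hww : d₃ = w ^ 2 * d₁ := by
    have hck : c ^ k = (c ^ j) ^ 2 * (A₁.det * A₂.det) := by
      have e1 : c ^ k = c ^ (2 * j + 1) := congrArg (fun z => c ^ z) hj
      rw [e1, ← hc]
      ring
    rw [← hd3, ← hd1, hck, hw]
    field_simp
  have hw0 : w ≠ 0 := by
    intro h0
    rw [h0] at hww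
    apply hd₃
    rw [hww]
    ring
  -- the correction
  let Δ : Matrix (Fin k) (Fin k) F := Matrix.diagonal (fun i => if i = i₀ then w⁻¹ else 1)
  have hΔ : ((T₃ : Matrix (Fin k) (Fin k) F) * Δ)ᵀ * (c • A₂) * (((T₃ : Matrix (Fin k) (Fin k) F) * Δ).map (RingHom.id F)) =
      Matrix.diagonal (fun i => if i = i₀ then d₁ else 1) := by
    rw [hmapid, Matrix.transpose_mul]
    have e : Δᵀ * (T₃ : Matrix (Fin k) (Fin k) F)ᵀ * (c • A₂) * ((T₃ : Matrix (Fin k) (Fin k) F) * Δ) =
        Δ * ((T₃ : Matrix (Fin k) (Fin k) F)ᵀ * (c • A₂) * (T₃ : Matrix (Fin k) (Fin k) F)) * Δ := by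
      simp only [Δ, Matrix.diagonal_transpose, Matrix.mul_assoc]
    rw [e]
    have := hT₃
    rw [hmapid] at this
    rw [this]
    simp only [Δ, Matrix.diagonal_mul_diagonal]
    congr 1
    funext i
    by_cases hi : i = i₀
    · subst hi
      simp only [if_true]
      rw [hww]
      field_simp
    · simp [hi]
  obtain ⟨T₄, hT₄⟩ := gl_of_gram (RingHom.id F) hΔ (by rw [hdiagdet]; exact hd₁)
  obtain ⟨T, hT⟩ := congr_of_normal (RingHom.id F) T₁ T₄ hT₁ (by rw [hT₄]; exact hΔ)
  exact ⟨T, c, hc0, hT⟩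

/-- the normal form of a hermitian matrix -/
theorem herm_normal {k : ℕ} {A : Matrix (Fin k) (Fin k) F} (hA : FCtx σ 1 (formOfGram (σ : F → F) A))
    (hTr : ∃ s : F, s + σ s ≠ 0) (hN : ∀ a : F, a ≠ 0 → σ a = a → ∃ s : F, s * σ s = a) :
    ∃ T : GL (Fin k) F, (T : Matrix (Fin k) (Fin k) F)ᵀ * A * (T : Matrix (Fin k) (Fin k) F).map σ = 1 := by
  classical
  have htop : IsNondegenerateOn (formOfGram (σ : F → F) A) (⊤ : Submodule F (Fin k → F)) := by
    intro w _ hw
    obtain ⟨x, hx⟩ := hA.ndr w hw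
    obtain ⟨y, hy⟩ := hA.ndl w hw
    exact ⟨⟨y, Submodule.mem_top, hy⟩, ⟨x, Submodule.mem_top, hx⟩⟩
  obtain ⟨v₀, -, h₁, h₂⟩ := hA.exists_orth_family hTr k ⊤ htop (by simp)
  have hex : ∀ i, ∃ s : F, s * σ s = (formOfGram (σ : F → F) A (v₀ i) (v₀ i))⁻¹ := by
    intro i
    refine hN _ (inv_ne_zero (h₂ i)) ?_
    rw [map_inv₀]
    congr 1
    have := hA.herm (v₀ i) (v₀ i)
    rw [one_mul] at this
    exact this.symm
  choose s hs using hex
  let v : Fin k → (Fin k → F) := fun i => s i • v₀ i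
  have hD : (colsM v)ᵀ * A * (colsM v).map σ = 1 := by
    ext a b
    rw [cols_gram, Matrix.one_apply]
    simp only [v]
    rw [hA.sesq.smul_left, hA.sesq.smul_right]
    by_cases hab : a = b
    · subst hab
      rw [if_pos rfl, ← mul_assoc, hs, inv_mul_cancel₀ (h₂ a)]
    · rw [if_neg hab, h₁ a b hab, mul_zero, mul_zero]
  obtain ⟨T, hT⟩ := gl_of_gram σ hD (by simp)
  refine ⟨T, ?_⟩
  rw [hT]
  exact hD

/-- Two non-degenerate hermitian forms are isometric. -/
theorem herm_classify {k : ℕ} {A₁ A₂ : Matrix (Fin k) (Fin k) F} (hA₁ : FCtx σ 1 (formOfGram (σ : F → F) A₁))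
    (hA₂ : FCtx σ 1 (formOfGram (σ : F → F) A₂))
    (hTr : ∃ s : F, s + σ s ≠ 0) (hN : ∀ a : F, a ≠ 0 → σ a = a → ∃ s : F, s * σ s = a) :
    ∃ T : GL (Fin k) F, (T : Matrix (Fin k) (Fin k) F)ᵀ * A₁ * (T : Matrix (Fin k) (Fin k) F).map σ = A₂ := by
  obtain ⟨T₁, h₁⟩ := herm_normal hA₁ hTr hN
  obtain ⟨T₂, h₂⟩ := herm_normal hA₂ hTr hN
  exact congr_of_normal σ T₁ T₂ h₁ h₂

end Cfsg.Agent.H97.Asch
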