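import Cfsg.Agent.Lib.H97G2

/-!
Change of basis for tensor decompositions of forms, and the normal form of elements of the tensor wreath group.
-/

set_option autoImplicit false
set_option linter.unusedSectionVars false
set_option linter.style.haveILetI false

namespace Cfsg.Agent.H97.Asch

open Matrix Cfsg Cfsg.Geo
open scoped MatrixGroups commutatorElement Kronecker

variable {ι : Type} [Fintype ι] [DecidableEq ι] {F : Type*} [Field F]
variable {σ : F →+* F} {ε : F} {f : (ι → F) → (ι → F) → F}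

section NF

variable {m t : ℕ}

/-- the pure tensor of invertible matrices -/
def pureG (gs : Fin t → GL (Fin m) F) : GL (Fin t → Fin m) F where
  val := pureM (fun i => (gs i : Matrix (Fin m) (Fin m) F))
  inv := pureM (fun i => (((gs i)⁻¹ : GL (Fin m) F) : Matrix (Fin m) (Fin m) F))
  val_inv := by
    rw [pureM_mul, ← pureM_one]
    congr 1
    funext i
    simp only [Pi.mul_apply, Pi.one_apply]
    rw [← Units.val_mul, mul_inv_cancel, Units.val_one]
  inv_val := by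
    rw [pureM_mul, ← pureM_one]
    congr 1
    funext i
    simp only [Pi.mul_apply, Pi.one_apply]
    rw [← Units.val_mul, inv_mul_cancel, Units.val_one]

theorem pureG_val (gs : Fin t → GL (Fin m) F) :
    (pureG gs : Matrix (Fin t → Fin m) (Fin t → Fin m) F) = pureM (fun i => (gs i : Matrix (Fin m) (Fin m) F)) := rfl

theorem permG_val (τ : Equiv.Perm (Fin t)) :
    ((permG τ : GL (Fin t → Fin m) F) : Matrix (Fin t → Fin m) (Fin t → Fin m) F) = permM τ := rfl

theorem pureG_mem (gs : Fin t → GL (Fin m) F) : pureG gs ∈ tensorWreathStandard m t F :=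
  Subgroup.subset_closure (Or.inl ⟨gs, fun _ _ => rfl⟩)

theorem permG_mem (τ : Equiv.Perm (Fin t)) : (permG τ : GL (Fin t → Fin m) F) ∈ tensorWreathStandard m t F :=
  Subgroup.subset_closure (Or.inr ⟨τ, fun _ _ => rfl⟩)

theorem pureG_mul (gs hs : Fin t → GL (Fin m) F) : pureG gs * pureG hs = pureG (gs * hs) := by
  apply Units.ext
  rw [Units.val_mul, pureG_val, pureG_val, pureM_mul, pureG_val]
  congr 1

theorem permG_mul (τ ρ : Equiv.Perm (Fin t)) : (permG τ * permG ρ : GL (Fin t → Fin m) F) = permG (τ * ρ) := by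
  apply Units.ext
  rw [Units.val_mul, permG_val, permG_val, permM_mul, permG_val]

theorem pureG_permG (gs : Fin t → GL (Fin m) F) (τ : Equiv.Perm (Fin t)) :
    pureG gs * permG τ = permG τ * pureG (gs ∘ τ) := by
  apply Units.ext
  rw [Units.val_mul, Units.val_mul, pureG_val, pureG_val, permG_val, permM_pureM]
  congr 2
  funext i
  simp

theorem pureG_inv (gs : Fin t → GL (Fin m) F) : (pureG gs)⁻¹ = pureG (gs⁻¹) := by
  rw [inv_eq_iff_mul_eq_one, pureG_mul]
  apply Units.ext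
  rw [pureG_val, Units.val_one, ← pureM_one]
  congr 1
  funext i
  simp

theorem permG_inv (τ : Equiv.Perm (Fin t)) : (permG τ : GL (Fin t → Fin m) F)⁻¹ = permG τ⁻¹ := by
  rw [inv_eq_iff_mul_eq_one, permG_mul, mul_inv_cancel]
  apply Units.ext
  rw [permG_val, permM_one, Units.val_one]

/-- the normal form of an element of the standard tensor wreath group -/
theorem wreath_nf {g : GL (Fin t → Fin m) F} (hg : g ∈ tensorWreathStandard m t F) :
    ∃ (τ : Equiv.Perm (Fin t)) (gs : Fin t → GL (Fin m) F), g = permG τ * pureG gs := by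
  classical
  induction hg using Subgroup.closure_induction with
  | mem x hx =>
    rcases hx with ⟨gs, hgs⟩ | ⟨τ, hτ⟩
    · refine ⟨1, gs, ?_⟩
      apply Units.ext
      rw [Units.val_mul, permG_val, permM_one, Matrix.one_mul, pureG_val]
      ext a b
      exact hgs a b
    · refine ⟨τ, 1, ?_⟩
      apply Units.ext
      rw [Units.val_mul, permG_val, pureG_val]
      have e : pureM (fun i => ((1 : Fin t → GL (Fin m) F) i : Matrix (Fin m) (Fin m) F)) = 1 := by
        rw [← pureM_one]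
        congr 1
      rw [e, Matrix.mul_one]
      ext a b
      exact hτ a b
  | one =>
    refine ⟨1, 1, ?_⟩
    apply Units.ext
    rw [Units.val_mul, permG_val, permM_one, Matrix.one_mul, pureG_val, Units.val_one, ← pureM_one]
    congr 1
  | mul x y _ _ hx hy =>
    obtain ⟨τ₁, g₁, rfl⟩ := hx
    obtain ⟨τ₂, g₂, rfl⟩ := hy
    refine ⟨τ₁ * τ₂, (g₁ ∘ τ₂) * g₂, ?_⟩
    rw [← permG_mul, ← pureG_mul]
    calc permG τ₁ * pureG g₁ * (permG τ₂ * pureG g₂) = permG τ₁ * (pureG g₁ * permG τ₂) * pureG g₂ := by group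
      _ = permG τ₁ * (permG τ₂ * pureG (g₁ ∘ τ₂)) * pureG g₂ := by rw [pureG_permG]
      _ = _ := by group
  | inv x _ hx =>
    obtain ⟨τ₁, g₁, rfl⟩ := hx
    refine ⟨τ₁⁻¹, g₁⁻¹ ∘ ⇑(τ₁⁻¹), ?_⟩
    rw [_root_.mul_inv_rev, pureG_inv, permG_inv, pureG_permG]

theorem pureM_map (σ : F →+* F) (A : Fin t → Matrix (Fin m) (Fin m) F) :
    (pureM A).map σ = pureM (fun i => (A i).map σ) := by
  ext x y
  simp [pureM_apply, map_prod]

theorem pureM_smul (c : F) (A : Fin t → Matrix (Fin m) (Fin m) F) :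
    pureM (fun i => c • A i) = c ^ t • pureM A := by
  ext x y
  simp [pureM_apply, Finset.prod_mul_distrib]

theorem reindex_mulVec {X : Type} [Fintype X] [DecidableEq X] (e : ι ≃ X) (g : GL X F) (x : X → F) :
    (glReindex e.symm g : Matrix ι ι F) *ᵥ (x ∘ e) = ((g : Matrix X X F) *ᵥ x) ∘ e := by
  classical
  ext k
  simp only [Matrix.mulVec, dotProduct, Function.comp_apply]
  simp only [glReindex_apply]
  exact Equiv.sum_comp e (fun z => (g : Matrix X X F) (e k) z * x z)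

theorem wreath_subgroup_rebase {e : ι ≃ (Fin t → Fin m)} {P : GL ι F} {g₀ : GL (Fin t → Fin m) F}
    (hg₀ : g₀ ∈ tensorWreathStandard m t F) :
    tensorWreathSubgroup m t e P ≤ tensorWreathSubgroup m t e (P * glReindex e.symm g₀) := by
  rintro _ ⟨_, ⟨g, hg, rfl⟩, rfl⟩
  refine ⟨_, ⟨g₀⁻¹ * g * g₀, (tensorWreathStandard m t F).mul_mem ((tensorWreathStandard m t F).mul_mem
    ((tensorWreathStandard m t F).inv_mem hg₀) hg) hg₀, rfl⟩, ?_⟩
  show (P * glReindex e.symm g₀) * glReindex e.symm (g₀⁻¹ * g * g₀) * (P * glReindex e.symm g₀)⁻¹ = P * glReindex e.symm g * P⁻¹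
  rw [map_mul, map_mul, map_inv]
  group

theorem tensor_subgroup_rebase {d n : ℕ} {e : ι ≃ Fin d × Fin n} {P : GL ι F} {g₀ : GL (Fin d × Fin n) F}
    (hg₀ : g₀ ∈ kroneckerSubgroup d n F) :
    tensorProductSubgroup d n e P ≤ tensorProductSubgroup d n e (P * glReindex e.symm g₀) := by
  rintro _ ⟨_, ⟨g, hg, rfl⟩, rfl⟩
  refine ⟨_, ⟨g₀⁻¹ * g * g₀, (kroneckerSubgroup d n F).mul_mem ((kroneckerSubgroup d n F).mul_mem
    ((kroneckerSubgroup d n F).inv_mem hg₀) hg) hg₀, rfl⟩, ?_⟩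
  show (P * glReindex e.symm g₀) * glReindex e.symm (g₀⁻¹ * g * g₀) * (P * glReindex e.symm g₀)⁻¹ = P * glReindex e.symm g * P⁻¹
  rw [map_mul, map_mul, map_inv]
  group

variable {H : Subgroup (GL ι F)} {e : ι ≃ (Fin t → Fin m)} {P : GL ι F} {A₀ : Matrix (Fin m) (Fin m) F} {κ ε₁ : F}

theorem wreath_eqn_gram (x y : (Fin t → Fin m) → F) :
    ∑ a, ∑ b, x a * (∏ i, A₀ (a i) (b i)) * σ (y b) = formOfGram (σ : F → F) (pureM (fun _ => A₀)) x y := rfl

/-- the relation between the constants follows from the equation -/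
theorem FWreath.of_eqn [NeZero m] (C : FCtx σ ε f) (hle : H ≤ tensorWreathSubgroup m t e P)
    (heqn : ∀ x y : (Fin t → Fin m) → F, f ((P : Matrix ι ι F) *ᵥ (x ∘ e)) ((P : Matrix ι ι F) *ᵥ (y ∘ e)) =
      κ * ∑ a, ∑ b, x a * (∏ i, A₀ (a i) (b i)) * σ (y b)) (hκ : κ ≠ 0)
    (hctx : FCtx σ ε₁ (formOfGram (σ : F → F) A₀)) : FWreath σ ε f H e P A₀ κ ε₁ := by
  classical
  refine ⟨hle, heqn, hκ, hctx, ?_⟩
  have hne : Nonempty (Fin m) := ⟨0⟩
  obtain ⟨u, w, huw⟩ := hctx.exists_ne_of_nonempty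
  obtain ⟨a₀, c₀, hac⟩ := sesq_ne_of_ne hctx.sesq ⟨u, w, huw⟩
  rw [formOfGram_single] at hac
  let X : Fin t → Fin m := fun _ => a₀
  let Y : Fin t → Fin m := fun _ => c₀
  have h1 := heqn (Pi.single X 1) (Pi.single Y 1)
  have h2 := heqn (Pi.single Y 1) (Pi.single X 1)
  rw [wreath_eqn_gram, formOfGram_single] at h1 h2
  simp only [pureM_apply, X, Y, Finset.prod_const, Finset.card_univ, Fintype.card_fin] at h1 h2
  have h3 := C.herm ((P : Matrix ι ι F) *ᵥ (Pi.single X 1 ∘ e)) ((P : Matrix ι ι F) *ᵥ (Pi.single Y 1 ∘ e))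
  rw [h1, h2, map_mul, map_pow] at h3
  have h4 : A₀ a₀ c₀ = ε₁ * σ (A₀ c₀ a₀) := by
    have := hctx.herm (Pi.single a₀ 1) (Pi.single c₀ 1)
    rwa [formOfGram_single, formOfGram_single] at this
  have hβ : σ (A₀ c₀ a₀) ≠ 0 := by
    intro h0
    apply hac
    rw [h4, h0, mul_zero]
  have h5 : κ * ε₁ ^ t * σ (A₀ c₀ a₀) ^ t = ε * σ κ * σ (A₀ c₀ a₀) ^ t := by
    calc κ * ε₁ ^ t * σ (A₀ c₀ a₀) ^ t = κ * (ε₁ * σ (A₀ c₀ a₀)) ^ t := by ring
      _ = κ * A₀ a₀ c₀ ^ t := by rw [← h4]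
      _ = _ := by rw [h3]; ring
  exact mul_right_cancel₀ (pow_ne_zero _ hβ) h5

/-- change of basis of the tensor factors -/
theorem FWreath.rebase [NeZero m] (C : FCtx σ ε f) (hW : FWreath σ ε f H e P A₀ κ ε₁) (T : GL (Fin m) F) {c : F} (hc : c ≠ 0)
    {A₁ : Matrix (Fin m) (Fin m) F} {ε₂ : F} (hT : (T : Matrix (Fin m) (Fin m) F)ᵀ * A₀ * (T : Matrix (Fin m) (Fin m) F).map σ = c • A₁)
    (hctx : FCtx σ ε₂ (formOfGram (σ : F → F) A₁)) :
    ∃ P', FWreath σ ε f H e P' A₁ (κ * c ^ t) ε₂ := by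
  classical
  let g₀ : GL (Fin t → Fin m) F := pureG (fun _ => T)
  refine ⟨P * glReindex e.symm g₀, FWreath.of_eqn C (hW.le.trans (wreath_subgroup_rebase (pureG_mem _))) (fun x y => ?_)
    (mul_ne_zero hW.ne (pow_ne_zero _ hc)) hctx⟩
  rw [wreath_eqn_gram, Units.val_mul, ← Matrix.mulVec_mulVec, ← Matrix.mulVec_mulVec, reindex_mulVec, reindex_mulVec,
    hW.eqn, wreath_eqn_gram, formOfGram_mulVec]
  have e1 : ((g₀ : Matrix (Fin t → Fin m) (Fin t → Fin m) F))ᵀ * pureM (fun _ => A₀) * (g₀ : Matrix (Fin t → Fin m) (Fin t → Fin m) F).map σ =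
      c ^ t • pureM (fun _ => A₁) := by
    simp only [g₀, pureG_val]
    rw [pureM_transpose, pureM_map, pureM_mul, pureM_mul, ← pureM_smul]
    congr 1
    funext i
    simp only [Pi.mul_apply]
    exact hT
  rw [e1, formOfGram_smul, mul_assoc]

end NF

section TensorWreath

variable {d : ℕ} {H : Subgroup (GL ι F)}

/-- A tensor decomposition with similar factors is a tensor power decomposition. -/
theorem wreath_of_tensor [NeZero d] (C : FCtx σ ε f) {e : ι ≃ Fin d × Fin d} {P : GL ι F} {A₀ C₀ : Matrix (Fin d) (Fin d) F} {ε₁ ε₂ : F}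
    (hT : FTensor σ ε f H e P A₀ C₀ ε₁ ε₂) (T : GL (Fin d) F) {c : F} (hc : c ≠ 0)
    (hTc : (T : Matrix (Fin d) (Fin d) F)ᵀ * C₀ * (T : Matrix (Fin d) (Fin d) F).map σ = c • A₀) :
    ∃ P', FWreath σ ε f H (e.trans (finTwoArrowEquiv (Fin d)).symm) P' A₀ c ε₁ := by
  classical
  let g₀ : GL (Fin d × Fin d) F := Matrix.GeneralLinearGroup.mkOfDetNeZero ((1 : Matrix (Fin d) (Fin d) F) ⊗ₖ (T : Matrix (Fin d) (Fin d) F)) (by
    rw [Matrix.det_kronecker]
    have : (T : Matrix (Fin d) (Fin d) F).det ≠ 0 := by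
      have := (Matrix.isUnit_iff_isUnit_det _).mp T.isUnit
      exact this.ne_zero
    simp [this])
  have hg₀v : (g₀ : Matrix (Fin d × Fin d) (Fin d × Fin d) F) = (1 : Matrix (Fin d) (Fin d) F) ⊗ₖ (T : Matrix (Fin d) (Fin d) F) := rfl
  have hg₀ : g₀ ∈ kroneckerSubgroup d d F := ⟨1, T, by rw [hg₀v]; simp⟩
  refine ⟨P * glReindex e.symm g₀, FWreath.of_eqn C
    ((hT.le.trans (tensor_subgroup_rebase hg₀)).trans (tensorProduct_wreath e _)) (fun x y => ?_) hc hT.ctx₁⟩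
  set x' : Fin d × Fin d → F := x ∘ (finTwoArrowEquiv (Fin d)).symm with hx'
  set y' : Fin d × Fin d → F := y ∘ (finTwoArrowEquiv (Fin d)).symm with hy'
  have ex : x ∘ (e.trans (finTwoArrowEquiv (Fin d)).symm) = x' ∘ e := rfl
  have ey : y ∘ (e.trans (finTwoArrowEquiv (Fin d)).symm) = y' ∘ e := rfl
  rw [ex, ey, Units.val_mul, ← Matrix.mulVec_mulVec, ← Matrix.mulVec_mulVec, reindex_mulVec, reindex_mulVec, hT.eqn]
  have e0 : ∀ u w : Fin d × Fin d → F, ∑ a, ∑ b, u a * (A₀ a.1 b.1 * C₀ a.2 b.2) * σ (w b) =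
      formOfGram (σ : F → F) (A₀ ⊗ₖ C₀) u w := fun u w => rfl
  rw [e0, formOfGram_mulVec]
  have e1 : (g₀ : Matrix (Fin d × Fin d) (Fin d × Fin d) F)ᵀ * (A₀ ⊗ₖ C₀) * (g₀ : Matrix (Fin d × Fin d) (Fin d × Fin d) F).map σ = c • (A₀ ⊗ₖ A₀) := by
    rw [hg₀v]
    have e2 : ((1 : Matrix (Fin d) (Fin d) F) ⊗ₖ (T : Matrix (Fin d) (Fin d) F)).map σ = (1 : Matrix (Fin d) (Fin d) F) ⊗ₖ ((T : Matrix (Fin d) (Fin d) F).map σ) := by
      ext a b
      simp only [Matrix.map_apply, Matrix.kroneckerMap_apply, map_mul, Matrix.one_apply]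
      split_ifs <;> simp
    have e3 : ((1 : Matrix (Fin d) (Fin d) F) ⊗ₖ (T : Matrix (Fin d) (Fin d) F))ᵀ = (1 : Matrix (Fin d) (Fin d) F) ⊗ₖ (T : Matrix (Fin d) (Fin d) F)ᵀ := by
      ext a b
      simp [Matrix.kroneckerMap_apply, Matrix.one_apply, eq_comm]
    rw [e2, e3, ← Matrix.mul_kronecker_mul, ← Matrix.mul_kronecker_mul, Matrix.one_mul, Matrix.mul_one, hTc, Matrix.kronecker_smul]
  rw [e1, formOfGram_smul]
  congr 1
  -- the sums over functions on `Fin 2`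
  simp only [formOfGram, Matrix.kroneckerMap_apply]
  rw [← (finTwoArrowEquiv (Fin d)).symm.sum_comp]
  refine Finset.sum_congr rfl fun a _ => ?_
  rw [← (finTwoArrowEquiv (Fin d)).symm.sum_comp]
  refine Finset.sum_congr rfl fun b _ => ?_
  simp only [Fin.prod_univ_two, hx', hy', Function.comp_apply]
  rfl

end TensorWreath

end Cfsg.Agent.H97.Asch
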