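import Cfsg.Agent.Lib.H97G3

/-!
Frames: the decomposition into lines attached to an orthogonal basis permuted by the group, and the exceptional
tensor powers over the field with three elements.
-/

set_option autoImplicit false
set_option linter.unusedSectionVars false
set_option linter.style.haveILetI false

namespace Cfsg.Agent.H97.Asch

open Matrix Cfsg Cfsg.Geo
open scoped MatrixGroups commutatorElement Kronecker

variable {ι : Type} [Fintype ι] [DecidableEq ι] {F : Type*} [Field F]
variable {σ : F →+* F} {ε : F} {f : (ι → F) → (ι → F) → F}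

/-- a frame permuted transitively gives a decomposition into lines -/
theorem frame_decomp (C : FCtx σ ε f) (hn : 2 ≤ Fintype.card ι) {H : Subgroup (GL ι F)} (hirr : Irr H)
    (b : Module.Basis ι F (ι → F)) (horth : ∀ i j, i ≠ j → f (b i) (b j) = 0) (hd : ∀ i, f (b i) (b i) ≠ 0)
    (hb2 : ∀ h ∈ H, ∀ i, ∃ j, ∃ c : F, (h : Matrix ι ι F) *ᵥ b i = c • b j) :
    ∃ D : Fin (Fintype.card ι) → Submodule F (ι → F), IsNondegenerateMDecomposition f 1 D ∧
      H ≤ decompositionStabilizer D ∧ ∀ i j, ∃ h ∈ H, (D i).map (Matrix.toLin' (h : Matrix ι ι F)) = D j := by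
  classical
  have htrans := frame_trans hirr b hb2
  let e : ι ≃ Fin (Fintype.card ι) := Fintype.equivFin ι
  let b' := b.reindex e
  have hb' : ∀ k, b' k = b (e.symm k) := fun k => by simp [b']
  have horth' : ∀ k l, k ≠ l → f (b' k) (b' l) = 0 := by
    intro k l hkl
    rw [hb', hb']
    exact horth _ _ (fun h => hkl (e.symm.injective h))
  have hd' : ∀ k, f (b' k) (b' k) ≠ 0 := fun k => by
    rw [hb']
    exact hd _
  refine ⟨fun k => Submodule.span F {b' k}, ⟨isMDecomposition_of_basis hn b', ?_, ?_⟩, ?_, ?_⟩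
  · intro k w hw hw0
    obtain ⟨c, rfl⟩ := Submodule.mem_span_singleton.mp hw
    have hc0 : c ≠ 0 := by
      rintro rfl
      exact hw0 (zero_smul _ _)
    have hσc : σ c ≠ 0 := (map_ne_zero σ).mpr hc0
    refine ⟨⟨b' k, Submodule.mem_span_singleton_self _, ?_⟩, ⟨b' k, Submodule.mem_span_singleton_self _, ?_⟩⟩
    · rw [C.sesq.smul_right]
      exact mul_ne_zero hσc (hd' k)
    · rw [C.sesq.smul_left]
      exact mul_ne_zero hc0 (hd' k)
  · intro k l hkl u hu v hv
    obtain ⟨c, rfl⟩ := Submodule.mem_span_singleton.mp hu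
    obtain ⟨c', rfl⟩ := Submodule.mem_span_singleton.mp hv
    rw [C.sesq.smul_left, C.sesq.smul_right, horth' k l hkl]
    simp
  · intro h hh
    refine mem_decompositionStabilizer_of_basis b' h (fun k => ?_)
    obtain ⟨j, c, hc⟩ := hb2 h hh (e.symm k)
    refine ⟨e j, c, ?_⟩
    rw [hb', hb', hc]
    simp
  · intro k l
    obtain ⟨h, hh, c, hc0, hc⟩ := htrans (e.symm k) (e.symm l)
    refine ⟨h, hh, ?_⟩
    show (Submodule.span F {b' k}).map (Matrix.toLin' (h : Matrix ι ι F)) = Submodule.span F {b' l}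
    rw [Submodule.map_span, Set.image_singleton, Matrix.toLin'_apply, hb' k, hc, hb' l]
    exact Submodule.span_singleton_smul_eq (isUnit_iff_ne_zero.mpr hc0) _

theorem fclass2_of_frame (C : FCtx σ ε f) (hn : 2 ≤ Fintype.card ι) {H : Subgroup (GL ι F)} (hirr : Irr H)
    (b : Module.Basis ι F (ι → F)) (horth : ∀ i j, i ≠ j → f (b i) (b j) = 0) (hd : ∀ i, f (b i) (b i) ≠ 0)
    (hb2 : ∀ h ∈ H, ∀ i, ∃ j, ∃ c : F, (h : Matrix ι ι F) *ᵥ b i = c • b j) :
    FClass2 f H := by
  obtain ⟨D, h1, h2, h3⟩ := frame_decomp C hn hirr b horth hd hb2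
  exact Or.inl ⟨_, 1, D, h1, h2, h3⟩

/-- the basis given by the columns of an invertible matrix -/
noncomputable def glBasis (P : GL ι F) : Module.Basis ι F (ι → F) := (Pi.basisFun F ι).map (glE P)

theorem glBasis_apply (P : GL ι F) (k : ι) : glBasis P k = (P : Matrix ι ι F) *ᵥ Pi.single k 1 := by
  simp [glBasis, glE]

section Pure

variable {m t : ℕ}

/-- if the tensor product of matrices is the identity, all of them are scalars -/
theorem scalars_of_pureM_eq_one [NeZero m] {B : Fin t → Matrix (Fin m) (Fin m) F} (h : pureM B = 1) (i : Fin t) :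
    ∃ c : F, c ≠ 0 ∧ B i = c • 1 := by
  classical
  have h1 : ∀ x y : Fin t → Fin m, ∏ j, B j (x j) (y j) = if x = y then 1 else 0 := by
    intro x y
    have := congrFun (congrFun h x) y
    rwa [pureM_apply, Matrix.one_apply] at this
  have hdiag : ∀ x : Fin t → Fin m, ∏ j, B j (x j) (x j) = 1 := fun x => by rw [h1, if_pos rfl]
  let x₀ : Fin t → Fin m := fun _ => 0
  have hsplit : ∀ (x y : Fin t → Fin m), (∀ j, j ≠ i → y j = x j) →
      ∏ j, B j (x j) (y j) = B i (x i) (y i) * ∏ j ∈ Finset.univ.erase i, B j (x j) (x j) := by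
    intro x y hxy
    rw [← Finset.mul_prod_erase _ _ (Finset.mem_univ i)]
    congr 1
    refine Finset.prod_congr rfl fun j hj => ?_
    rw [hxy j (Finset.ne_of_mem_erase hj)]
  have hrest : ∏ j ∈ Finset.univ.erase i, B j (x₀ j) (x₀ j) ≠ 0 := by
    intro h0
    have := hdiag x₀
    rw [hsplit x₀ x₀ (fun _ _ => rfl), h0, mul_zero] at this
    exact zero_ne_one this
  set R := ∏ j ∈ Finset.univ.erase i, B j (x₀ j) (x₀ j) with hR
  have hupd : ∀ a c : Fin m, B i a c * R = if a = c then 1 else 0 := by
    intro a c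
    let x : Fin t → Fin m := Function.update x₀ i a
    let y : Fin t → Fin m := Function.update x₀ i c
    have e1 := hsplit x y (fun j hj => by simp [x, y, Function.update_of_ne hj])
    have e2 : ∏ j ∈ Finset.univ.erase i, B j (x j) (x j) = R := by
      refine Finset.prod_congr rfl fun j hj => ?_
      simp [x, Function.update_of_ne (Finset.ne_of_mem_erase hj)]
    rw [e2, h1] at e1
    simp only [x, y, Function.update_self] at e1
    rw [← e1]
    by_cases hac : a = c
    · subst hac
      simp
    · rw [if_neg hac, if_neg]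
      intro he
      apply hac
      have := congrFun he i
      simpa using this
  refine ⟨R⁻¹, inv_ne_zero hrest, ?_⟩
  ext a c
  have := hupd a c
  rw [Matrix.smul_apply, Matrix.one_apply, smul_eq_mul]
  rw [eq_div_of_mul_eq hrest this]
  split_ifs <;> field_simp

end Pure

section F3

variable [Fintype F]

theorem f3_cube (hq : Fintype.card F = 3) (x : F) : x ^ 3 = x := by
  have := FiniteField.pow_card x
  rwa [hq] at this

theorem f3_sq (hq : Fintype.card F = 3) {x : F} (hx : x ≠ 0) : x ^ 2 = 1 := by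
  have h1 := f3_cube hq x
  have h2 : x * x ^ 2 = x * 1 := by
    rw [mul_one]
    linear_combination h1
  exact mul_left_cancel₀ hx h2

theorem f3_three (hq : Fintype.card F = 3) : (3 : F) = 0 := by
  have := Nat.cast_card_eq_zero F
  rw [hq] at this
  exact_mod_cast this

/-- vectors of length one over the field with three elements -/
theorem f3_sum (hq : Fintype.card F = 3) {G : Fin 3 → F} (h1 : ∑ s, G s ^ 2 = 1) :
    ∃ s, G s ≠ 0 ∧ ∀ s', s' ≠ s → G s' = 0 := by
  rw [Fin.sum_univ_three] at h1
  have h3 := f3_three hq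
  have h10 : (1 : F) ≠ 0 := one_ne_zero
  by_cases h0 : G 0 = 0
  · by_cases h1' : G 1 = 0
    · refine ⟨2, ?_, ?_⟩
      · intro h2
        rw [h0, h1', h2] at h1
        simp at h1
      · intro s' hs'
        fin_cases s'
        · exact h0
        · exact h1'
        · exact absurd rfl hs'
    · by_cases h2 : G 2 = 0
      · refine ⟨1, h1', ?_⟩
        intro s' hs'
        fin_cases s'
        · exact h0
        · exact absurd rfl hs'
        · exact h2
      · exfalso
        rw [h0, f3_sq hq h1', f3_sq hq h2] at h1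
        apply h10
        linear_combination h1
  · by_cases h1' : G 1 = 0
    · by_cases h2 : G 2 = 0
      · refine ⟨0, h0, ?_⟩
        intro s' hs'
        fin_cases s'
        · exact absurd rfl hs'
        · exact h1'
        · exact h2
      · exfalso
        rw [h1', f3_sq hq h0, f3_sq hq h2] at h1
        apply h10
        linear_combination h1
    · exfalso
      by_cases h2 : G 2 = 0
      · rw [h2, f3_sq hq h0, f3_sq hq h1'] at h1
        apply h10
        linear_combination h1
      · rw [f3_sq hq h0, f3_sq hq h1', f3_sq hq h2] at h1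
        apply h10
        linear_combination h3 - h1

/-- orthonormal matrices over the field with three elements of size three are monomial -/
theorem f3_column (hq : Fintype.card F = 3) {G : Matrix (Fin 3) (Fin 3) F} (h : Gᵀ * G = 1) (a : Fin 3) :
    ∃ s, G s a ≠ 0 ∧ ∀ s', s' ≠ s → G s' a = 0 := by
  have h1 : ∑ s, G s a ^ 2 = 1 := by
    have := congrFun (congrFun h a) a
    simp only [Matrix.mul_apply, Matrix.transpose_apply, Matrix.one_apply_eq] at this
    rw [← this]
    exact Finset.sum_congr rfl fun s _ => by ring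
  exact f3_sum hq (G := fun s => G s a) h1

variable {t : ℕ}

/-- The exceptional case of tensor powers over the field with three elements: a frame. -/
theorem f3_frame (hq : Fintype.card F = 3) (C : FCtx (RingHom.id F) 1 f) [NeZero t] {H : Subgroup (GL ι F)} (hfix : FFix f H)
    {e : ι ≃ (Fin t → Fin 3)} {P : GL ι F} {κ : F} (hκ : κ ≠ 0) (hle : H ≤ tensorWreathSubgroup 3 t e P)
    (heqn : ∀ x y : (Fin t → Fin 3) → F, f ((P : Matrix ι ι F) *ᵥ (x ∘ e)) ((P : Matrix ι ι F) *ᵥ (y ∘ e)) =
      κ * ∑ a, ∑ b, x a * (∏ i, (1 : Matrix (Fin 3) (Fin 3) F) (a i) (b i)) * (RingHom.id F) (y b)) :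
    (∀ x y : ι, x ≠ y → f (glBasis P x) (glBasis P y) = 0) ∧ (∀ x, f (glBasis P x) (glBasis P x) ≠ 0) ∧
    ∀ h ∈ H, ∀ i, ∃ j, ∃ c : F, (h : Matrix ι ι F) *ᵥ glBasis P i = c • glBasis P j := by
  classical
  -- the form in coordinates
  have hform : ∀ x y : (Fin t → Fin 3) → F, f ((P : Matrix ι ι F) *ᵥ (x ∘ e)) ((P : Matrix ι ι F) *ᵥ (y ∘ e)) =
      κ * formOfGram ((RingHom.id F : F →+* F) : F → F) 1 x y := by
    intro x y
    rw [heqn, wreath_eqn_gram]
    congr 2
    have : pureM (fun _ : Fin t => (1 : Matrix (Fin 3) (Fin 3) F)) = 1 := pureM_one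
    rw [this]
  have hsing : ∀ k : ι, (Pi.single (e k) (1 : F) : (Fin t → Fin 3) → F) ∘ e = Pi.single k 1 := by
    intro k
    ext j
    simp only [Function.comp_apply, Pi.single_apply, e.injective.eq_iff]
  have hbasis : ∀ k : ι, glBasis P k = (P : Matrix ι ι F) *ᵥ ((Pi.single (e k) (1 : F) : (Fin t → Fin 3) → F) ∘ e) := by
    intro k
    rw [glBasis_apply, hsing]
  have hgr : ∀ x y : ι, f (glBasis P x) (glBasis P y) = κ * (1 : Matrix (Fin t → Fin 3) (Fin t → Fin 3) F) (e x) (e y) := by
    intro x y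
    rw [hbasis, hbasis, hform, formOfGram_single]
  refine ⟨?_, ?_, ?_⟩
  · intro x y hxy
    rw [hgr, Matrix.one_apply_ne (fun h => hxy (e.injective h)), mul_zero]
  · intro x
    rw [hgr, Matrix.one_apply_eq, mul_one]
    exact hκ
  · intro h hh k
    obtain ⟨_, ⟨g, hg, rfl⟩, hgh⟩ := hle hh
    have hgh' : h = P * glReindex e.symm g * P⁻¹ := hgh.symm
    obtain ⟨τ, gs, hgn⟩ := wreath_nf hg
    -- the action on coordinates
    have haction : ∀ x : (Fin t → Fin 3) → F, (h : Matrix ι ι F) *ᵥ ((P : Matrix ι ι F) *ᵥ (x ∘ e)) =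
        (P : Matrix ι ι F) *ᵥ (((g : Matrix (Fin t → Fin 3) (Fin t → Fin 3) F) *ᵥ x) ∘ e) := by
      intro x
      rw [hgh', gl_mulVec_mul, gl_mulVec_mul, gl_inv_mulVec, reindex_mulVec]
    -- `g` is orthogonal
    have horthg : (g : Matrix (Fin t → Fin 3) (Fin t → Fin 3) F)ᵀ * (g : Matrix (Fin t → Fin 3) (Fin t → Fin 3) F) = 1 := by
      have hmapid : (g : Matrix (Fin t → Fin 3) (Fin t → Fin 3) F).map (RingHom.id F) = g := by
        ext i j
        rfl
      ext x y
      have h1 := hfix h hh ((P : Matrix ι ι F) *ᵥ ((Pi.single x (1 : F) : (Fin t → Fin 3) → F) ∘ e))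
        ((P : Matrix ι ι F) *ᵥ ((Pi.single y (1 : F) : (Fin t → Fin 3) → F) ∘ e))
      rw [haction, haction, hform, hform, formOfGram_mulVec, formOfGram_single, formOfGram_single, Matrix.mul_one, hmapid] at h1
      exact mul_left_cancel₀ hκ h1
    -- the pure part
    have hp : (permM τ : Matrix (Fin t → Fin 3) (Fin t → Fin 3) F)ᵀ * permM τ = 1 := by
      ext x y
      rw [permM_mul_right, Matrix.transpose_apply, Matrix.one_apply, permM_apply]
      have e1 : (y ∘ τ.symm) ∘ τ = y := by
        funext i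
        simp
      rw [e1]
    let G : Fin t → Matrix (Fin 3) (Fin 3) F := fun i => (gs i : Matrix (Fin 3) (Fin 3) F)
    have hgv : (g : Matrix (Fin t → Fin 3) (Fin t → Fin 3) F) = permM τ * pureM G := by
      rw [hgn, Units.val_mul, permG_val, pureG_val]
    have hpure : pureM (fun i => (G i)ᵀ * G i) = 1 := by
      have e1 : pureM (fun i => (G i)ᵀ * G i) = (pureM G)ᵀ * pureM G := by
        rw [pureM_transpose, pureM_mul]
        rfl
      rw [e1]
      calc (pureM G)ᵀ * pureM G = (pureM G)ᵀ * (((permM τ)ᵀ * permM τ) * pureM G) := by rw [hp, Matrix.one_mul]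
        _ = (permM τ * pureM G)ᵀ * (permM τ * pureM G) := by
            rw [Matrix.transpose_mul]
            simp only [Matrix.mul_assoc]
        _ = 1 := by rw [← hgv]; exact horthg
    have hone : ∀ i, (G i)ᵀ * G i = 1 := by
      intro i
      obtain ⟨c, hc0, hc⟩ := scalars_of_pureM_eq_one hpure i
      have hdet : (G i).det ≠ 0 := by
        have := (Matrix.isUnit_iff_isUnit_det _).mp (gs i).isUnit
        exact this.ne_zero
      have h1 := congrArg Matrix.det hc
      rw [Matrix.det_mul, Matrix.det_transpose, Matrix.det_smul, Matrix.det_one, mul_one, Fintype.card_fin, f3_cube hq] at h1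
      have h2 : (G i).det ^ 2 = 1 := f3_sq hq hdet
      have h3 : c = 1 := by
        rw [← h1, ← h2]
        ring
      rw [hc, h3, one_smul]
    have hcol : ∀ i a, ∃ s, G i s a ≠ 0 ∧ ∀ s', s' ≠ s → G i s' a = 0 := fun i a => f3_column hq (hone i) a
    choose π hπ1 hπ2 using hcol
    set y := e k with hy
    let X : Fin t → Fin 3 := fun i => π i (y i)
    let Z : Fin t → Fin 3 := X ∘ τ.symm
    set c := pureM G X y with hc
    have hZτ : Z ∘ τ = X := by
      funext i
      simp [Z]
    have hgcol : (g : Matrix (Fin t → Fin 3) (Fin t → Fin 3) F) *ᵥ (Pi.single y (1 : F)) = c • Pi.single Z (1 : F) := by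
      ext z
      have e1 : ((g : Matrix (Fin t → Fin 3) (Fin t → Fin 3) F) *ᵥ (Pi.single y (1 : F))) z =
          (g : Matrix (Fin t → Fin 3) (Fin t → Fin 3) F) z y := by
        simp
      rw [e1, hgv, permM_mul_left, Pi.smul_apply, smul_eq_mul, Pi.single_apply]
      by_cases hz : z = Z
      · subst hz
        rw [hZτ, if_pos rfl, mul_one]
      · rw [if_neg hz, mul_zero, pureM_apply]
        have hne : z ∘ τ ≠ X := by
          intro he
          apply hz
          funext i
          simp only [Z, ← he, Function.comp_apply, Equiv.apply_symm_apply]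
        obtain ⟨i, hi⟩ := Function.ne_iff.mp hne
        exact Finset.prod_eq_zero (Finset.mem_univ i) (hπ2 i (y i) _ hi)
    refine ⟨e.symm Z, c, ?_⟩
    rw [hbasis, haction, hbasis, ← hy, hgcol, Equiv.apply_symm_apply]
    have e2 : (c • Pi.single Z (1 : F)) ∘ e = c • ((Pi.single Z (1 : F) : (Fin t → Fin 3) → F) ∘ e) := rfl
    rw [e2, Matrix.mulVec_smul]

end F3

end Cfsg.Agent.H97.Asch
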