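import Cfsg.Agent.Lib.H97G4

/-!
The reduction theorem for groups of isometries of a quadratic form in odd dimension.
-/

set_option autoImplicit false
set_option linter.unusedSectionVars false
set_option linter.style.haveILetI false

namespace Cfsg.Agent.H97.Asch

open Matrix Cfsg Cfsg.Geo
open scoped MatrixGroups commutatorElement Kronecker

variable {ι : Type} [Fintype ι] [DecidableEq ι] {F : Type*} [Field F] {Q : (ι → F) → F} {K : Subgroup (GL ι F)}

theorem OCtx.diag_subfield [Fintype F] (C : OCtx Q K) {n : ℕ} (hcard : Fintype.card ι = n) (hodd : Odd n) (hn6 : 2 ≤ n)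
    {H : Subgroup (GL ι F)} (hHK : H ≤ K) (hirr : Irr H) (b : Module.Basis ι F (ι → F))
    (horth : ∀ i j, i ≠ j → QuadraticMap.polar Q (b i) (b j) = 0) (hd : ∀ i, QuadraticMap.polar Q (b i) (b i) ≠ 0)
    (hb2 : ∀ h ∈ H, ∀ i, ∃ j, ∃ c : F, (h : Matrix ι ι F) *ᵥ b i = c • b j) (hp : ¬ (Fintype.card F).Prime) :
    ∃ (F₀ : Subfield F) (r : ℕ) (P : GL ι F), r.Prime ∧ Fintype.card F = Nat.card F₀ ^ r ∧
        IsQuadFormRationalStructure Q F₀ P ∧ H ≤ subfieldSubgroup F₀ P := by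
  classical
  have hne : Nonempty ι := Fintype.card_pos_iff.mp (by omega)
  have hfix : ∀ g ∈ H, ∀ v, Q ((g : Matrix ι ι F) *ᵥ v) = Q v := fun g hg => C.fix g (hHK hg)
  have hQd : ∀ i, Q (b i) ≠ 0 := fun i h => hd i (by rw [C.self, h, mul_zero])
  have htrans := frame_trans hirr b hb2
  obtain ⟨p, hp'⟩ := CharP.exists F
  obtain ⟨e, hpp, hcp⟩ := FiniteField.card F p
  have : Fact p.Prime := ⟨hpp⟩
  have hF₀' : (iterateFrobenius F p 1).eqLocusField (RingHom.id F) ≠ ⊤ := by
    intro htop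
    have hall : ∀ x : F, x ^ p ^ 1 = x := by
      intro x
      have hx : x ∈ (iterateFrobenius F p 1).eqLocusField (RingHom.id F) := by
        rw [htop]; trivial
      have hx' : iterateFrobenius F p 1 x = x := hx
      rwa [iterateFrobenius_def] at hx'
    have h1 : 1 < p ^ 1 := by simpa using hpp.one_lt
    have h2 := card_le_of_forall_pow h1 hall
    rw [hcp, pow_one] at h2
    have he1 : (e : ℕ) = 1 := by
      by_contra hne1
      have he2 : 2 ≤ (e : ℕ) := by
        have := e.pos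
        omega
      have h3 : p ^ 2 ≤ p ^ (e : ℕ) := Nat.pow_le_pow_right hpp.pos he2
      have h4 := hpp.two_le
      nlinarith
    apply hp
    rw [hcp, he1, pow_one]
    exact hpp
  obtain ⟨F₁, r, hr, -, hcard'⟩ := exists_prime_index_subfield hF₀'
  have hF₁ : F₁ ≠ ⊤ := by
    rintro rfl
    have h1 : Nat.card (⊤ : Subfield F) = Nat.card F := Nat.card_congr Subfield.topEquiv.toEquiv
    rw [h1] at hcard'
    have h2 : 1 < Nat.card F := Finite.one_lt_card
    have h3 : Nat.card F ^ 1 = Nat.card F ^ r := by rw [pow_one]; exact hcard'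
    have h4 := Nat.pow_right_injective h2 h3
    exact hr.one_lt.ne h4
  refine ⟨F₁, r, ?_⟩
  -- normalise the frame
  let i₀ : ι := Classical.arbitrary ι
  set a₀ := Q (b i₀) with ha₀
  have ha₀0 : a₀ ≠ 0 := hQd i₀
  have hsc : ∀ i, ∃ c : F, c ≠ 0 ∧ a₀ = c ^ 2 * Q (b i) := by
    intro i
    obtain ⟨h, hh, c, hc0, hc⟩ := htrans i₀ i
    refine ⟨c, hc0, ?_⟩
    rw [ha₀, ← hfix h hh, hc, C.Q_smul]
  choose cc hcc0 hcc using hsc
  obtain ⟨P, hP⟩ := exists_gl_of_bases (Pi.basisFun F ι) b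
  have hP' : ∀ k, (P : Matrix ι ι F) *ᵥ Pi.single k 1 = b k := fun k => by
    have := hP k
    simpa using this
  set G := gramMatrix (QuadraticMap.polar Q) with hG
  have hconj : (P : Matrix ι ι F)ᵀ * G * (P : Matrix ι ι F) = Matrix.diagonal (fun i => 2 * Q (b i)) := by
    ext i j
    rw [C.gram_conj, hP', hP', Matrix.diagonal_apply]
    split_ifs with hij
    · subst hij
      exact C.self _
    · exact horth _ _ hij
  have hdet : (P : Matrix ι ι F).det ^ 2 * G.det = ∏ i, (2 * Q (b i)) := by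
    have := congrArg Matrix.det hconj
    rw [Matrix.det_mul, Matrix.det_mul, Matrix.det_transpose, Matrix.det_diagonal] at this
    rw [← this]
    ring
  have hpow : (2 * a₀) ^ n = ((P : Matrix ι ι F).det * ∏ i, cc i) ^ 2 * G.det := by
    have e1 : (2 * a₀) ^ n = ∏ _i : ι, (2 * a₀) := by
      rw [Finset.prod_const, Finset.card_univ, hcard]
    have e2 : ∏ i : ι, (2 * a₀) = (∏ i, (2 * Q (b i))) * (∏ i, cc i) ^ 2 := by
      rw [← Finset.prod_pow, ← Finset.prod_mul_distrib]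
      refine Finset.prod_congr rfl fun i _ => ?_
      rw [hcc i]
      ring
    rw [e1, e2, ← hdet]
    ring
  obtain ⟨z, hz⟩ := sq_class hodd (mul_ne_zero C.two ha₀0) hpow
  have hG0 : G.det ≠ 0 := C.gram_det_ne
  have hz0 : z ≠ 0 := by
    rintro rfl
    simp at hz
    rcases hz with h | h
    · exact C.two h
    · exact ha₀0 h
  set ν := G.det / 2 with hν
  have hν0 : ν ≠ 0 := div_ne_zero hG0 C.two
  have hνm : ν ∈ F₁ := F₁.div_mem (C.gram_det_mem F₁) (two_mem_subfield F₁)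
  have ha₀ν : a₀ = z ^ 2 * ν := by
    rw [hν]
    have h2 := C.two
    field_simp
    linear_combination hz
  let s : ι → F := fun i => cc i / z
  have hs0 : ∀ i, s i ≠ 0 := fun i => div_ne_zero (hcc0 i) hz0
  have hsQ : ∀ i, s i ^ 2 * Q (b i) = ν := by
    intro i
    have h1 := hcc i
    show (cc i / z) ^ 2 * Q (b i) = ν
    have h2 : (cc i) ^ 2 * Q (b i) = z ^ 2 * ν := by rw [← h1, ha₀ν]
    field_simp
    linear_combination h2
  let b'' : Module.Basis ι F (ι → F) := b.isUnitSMul (w := s) (fun i => isUnit_iff_ne_zero.mpr (hs0 i))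
  have hb'' : ∀ i, b'' i = s i • b i := fun i => Module.Basis.isUnitSMul_apply _ _
  have hQb'' : ∀ i, Q (b'' i) = ν := fun i => by
    rw [hb'', C.Q_smul, hsQ]
  obtain ⟨P'', hP''⟩ := exists_gl_of_bases (Pi.basisFun F ι) b''
  have hP''' : ∀ k, (P'' : Matrix ι ι F) *ᵥ Pi.single k 1 = b'' k := fun k => by
    have := hP'' k
    simpa using this
  have hmem : ∀ h ∈ H, h ∈ subfieldSubgroup F₁ P'' := by
    intro h hh
    set A : GL ι F := P''⁻¹ * h * P'' with hA
    have hent : ∀ k l, (A : Matrix ι ι F) k l ∈ F₁ := by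
      intro k l
      obtain ⟨j, c, hc⟩ := hb2 h hh l
      set c' := s l * c / s j with hc'
      have h1 : (h : Matrix ι ι F) *ᵥ b'' l = c' • b'' j := by
        rw [hb'', hb'', Matrix.mulVec_smul, hc, smul_smul, smul_smul, hc']
        have := hs0 j
        congr 1
        field_simp
      have h2 : c' ^ 2 = 1 := by
        have h3 := hfix h hh (b'' l)
        rw [h1, C.Q_smul, hQb'', hQb''] at h3
        have h4 : c' ^ 2 * ν = 1 * ν := by rw [h3, one_mul]
        exact mul_right_cancel₀ hν0 h4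
      have hc'm : c' ∈ F₁ := by
        have h3 : (c' - 1) * (c' + 1) = 0 := by linear_combination h2
        rcases mul_eq_zero.mp h3 with h4 | h4
        · rw [sub_eq_zero.mp h4]
          exact F₁.one_mem
        · rw [eq_neg_of_add_eq_zero_left h4]
          exact F₁.neg_mem F₁.one_mem
      have h5 : (A : Matrix ι ι F) *ᵥ Pi.single l 1 = c' • Pi.single j 1 := by
        rw [hA, gl_mulVec_mul, gl_mulVec_mul, hP''', h1, Matrix.mulVec_smul, ← hP''' j, gl_inv_mulVec]
      have h6 := congrFun h5 k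
      rw [Matrix.mulVec_single_one] at h6
      simp only [Matrix.col_apply, Pi.smul_apply, smul_eq_mul, Pi.single_apply] at h6
      rw [h6]
      split_ifs
      · rw [mul_one]
        exact hc'm
      · rw [mul_zero]
        exact F₁.zero_mem
    have hm := mem_range_sup_scalars (F₁ := F₁) (A := A) (d := 1) one_ne_zero (by simpa using hent)
    refine ⟨A, hm, ?_⟩
    show P'' * A * P''⁻¹ = h
    rw [hA]
    group
  refine ⟨P'', hr, by rw [← Nat.card_eq_fintype_card]; exact hcard', ?_, ?_⟩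
  · apply C.rat_of_gram
    intro k l
    rw [hP''', hP''', hb'', hb'', C.polar_smul_left, C.polar_smul_right]
    by_cases hkl : k = l
    · subst hkl
      rw [C.self]
      have : s k * (s k * (2 * Q (b k))) = 2 * (s k ^ 2 * Q (b k)) := by ring
      rw [this, hsQ]
      exact F₁.mul_mem (two_mem_subfield F₁) hνm
    · rw [horth _ _ hkl]
      simp [F₁.zero_mem]
  · exact hmem


theorem OCtx.subfield_branch' [Fintype F] (C : OCtx Q K) (hodd : ¬ Even (Fintype.card ι)) (hn : 5 ≤ Fintype.card ι)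
    {H P : Subgroup (GL ι F)} (hHK : H ≤ K) (hPH : P ≤ H) (hnorm : ∀ h ∈ H, ∀ x ∈ P, h * x * h⁻¹ ∈ P)
    (habs : ∀ M : Matrix ι ι F, (∀ g ∈ P, M * (g : Matrix ι ι F) = (g : Matrix ι ι F) * M) → ∃ c : F, M = c • 1)
    {F₀ : Subfield F} (hF₀ : F₀ ≠ ⊤) {B : GL ι F}
    (hreal : ∀ s ∈ P, ∀ i j, ((B : Matrix ι ι F) * (s : Matrix ι ι F) * ((B⁻¹ : GL ι F) : Matrix ι ι F)) i j ∈ F₀) :
    ∃ (F₁ : Subfield F) (r : ℕ) (P' : GL ι F), r.Prime ∧ Fintype.card F = Nat.card F₁ ^ r ∧
      IsQuadFormRationalStructure Q F₁ P' ∧ H ≤ subfieldSubgroup F₁ P' := by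
  classical
  have hne : Nonempty ι := Fintype.card_pos_iff.mp (by omega)
  have hS := C.pS
  have hfixP : ∀ g ∈ P, ∀ u v, QuadraticMap.polar Q ((g : Matrix ι ι F) *ᵥ u) ((g : Matrix ι ι F) *ᵥ v) = QuadraticMap.polar Q u v :=
    fun g hg u v => fixes_polar (C.fix g (hHK (hPH hg))) u v
  obtain ⟨F₁, r, hr, hle, hcard⟩ := exists_prime_index_subfield hF₀
  have hF₁ : F₁ ≠ ⊤ := by
    rintro rfl
    have h1 : Nat.card (⊤ : Subfield F) = Nat.card F := Nat.card_congr Subfield.topEquiv.toEquiv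
    rw [h1] at hcard
    have h2 : 1 < Nat.card F := Finite.one_lt_card
    have h3 : Nat.card F ^ 1 = Nat.card F ^ r := by rw [pow_one]; exact hcard
    have h4 := Nat.pow_right_injective h2 h3
    exact hr.one_lt.ne h4
  have hcard' : Fintype.card F = Nat.card F₁ ^ r := by
    rw [← Nat.card_eq_fintype_card]
    exact hcard
  have hreal₁ : ∀ s ∈ P, ∀ i j, ((B : Matrix ι ι F) * (s : Matrix ι ι F) * ((B⁻¹ : GL ι F) : Matrix ι ι F)) i j ∈ F₁ :=
    fun s hs i j => hle (hreal s hs i j)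
  -- the Galois twist
  obtain ⟨τ, hτp, hτ⟩ := exists_ringEquiv_fixed F₁
  set Y : GL ι F := B⁻¹ with hY
  let g : (ι → F) → (ι → F) → F := fun u v =>
    τ.symm (QuadraticMap.polar Q ((Y : Matrix ι ι F) *ᵥ svec τ ((B : Matrix ι ι F) *ᵥ u)) ((Y : Matrix ι ι F) *ᵥ svec τ ((B : Matrix ι ι F) *ᵥ v)))
  have hg : Sesq (RingHom.id F) g :=
    ⟨fun x y v => by
      simp only [g]
      rw [Matrix.mulVec_add, svec_add, Matrix.mulVec_add, hS.add_left, map_add],
     fun c x v => by
      simp only [g]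
      rw [Matrix.mulVec_smul, svec_smul, Matrix.mulVec_smul, hS.smul_left, map_mul, τ.symm_apply_apply],
     fun v x y => by
      simp only [g]
      rw [Matrix.mulVec_add, svec_add, Matrix.mulVec_add, hS.add_right, map_add],
     fun c v x => by
      simp only [g]
      rw [Matrix.mulVec_smul, svec_smul, Matrix.mulVec_smul, hS.smul_right, map_mul]
      simp⟩
  have hsv : ∀ s ∈ P, ∀ w : ι → F, svec τ (((B * s * Y : GL ι F) : Matrix ι ι F) *ᵥ w) =
      ((B * s * Y : GL ι F) : Matrix ι ι F) *ᵥ svec τ w := by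
    intro s hs w
    ext k
    simp only [svec_apply, Matrix.mulVec, dotProduct, map_sum, map_mul]
    refine Finset.sum_congr rfl fun l _ => ?_
    have hr' : ((B * s * Y : GL ι F) : Matrix ι ι F) k l ∈ F₁ := hreal₁ s hs k l
    rw [(hτ _).mpr hr']
  have hginv : ∀ s ∈ P, ∀ u v, g ((s : Matrix ι ι F) *ᵥ u) ((s : Matrix ι ι F) *ᵥ v) = g u v := by
    intro s hs u v
    simp only [g]
    congr 1
    have e1 : ∀ w : ι → F, (B : Matrix ι ι F) *ᵥ ((s : Matrix ι ι F) *ᵥ w) =
        ((B * s * Y : GL ι F) : Matrix ι ι F) *ᵥ ((B : Matrix ι ι F) *ᵥ w) := by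
      intro w
      rw [gl_mulVec_mul, gl_mulVec_mul, hY, gl_inv_mulVec]
    have e2 : ∀ w : ι → F, (Y : Matrix ι ι F) *ᵥ (((B * s * Y : GL ι F) : Matrix ι ι F) *ᵥ w) =
        (s : Matrix ι ι F) *ᵥ ((Y : Matrix ι ι F) *ᵥ w) := by
      intro w
      rw [gl_mulVec_mul, gl_mulVec_mul, hY, gl_inv_mulVec]
    rw [e1, e1, hsv s hs, hsv s hs, e2, e2, hfixP s hs]
  obtain ⟨c, hc⟩ := form_schur habs hS hg (fun v hv => C.nd hv) hfixP hginv
  have hR : ∀ u v : ι → F, (∀ i, u i ∈ F₁) → (∀ i, v i ∈ F₁) →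
      τ.symm (QuadraticMap.polar Q ((Y : Matrix ι ι F) *ᵥ u) ((Y : Matrix ι ι F) *ᵥ v)) =
        c * QuadraticMap.polar Q ((Y : Matrix ι ι F) *ᵥ u) ((Y : Matrix ι ι F) *ᵥ v) := by
    intro u v hu hv
    have h1 := hc ((Y : Matrix ι ι F) *ᵥ u) ((Y : Matrix ι ι F) *ᵥ v)
    simp only [g] at h1
    have e : ∀ w : ι → F, (∀ i, w i ∈ F₁) → svec τ ((B : Matrix ι ι F) *ᵥ ((Y : Matrix ι ι F) *ᵥ w)) = w := by
      intro w hw
      have e3 : (B : Matrix ι ι F) *ᵥ ((Y : Matrix ι ι F) *ᵥ w) = w := by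
        rw [hY]
        exact gl_mulVec_inv B w
      rw [e3]
      ext i
      exact (hτ _).mpr (hw i)
    rw [e u hu, e v hv] at h1
    exact h1
  obtain ⟨v₁, hv₁r, hv₁⟩ := C.exists_rational_aniso Y
  set a := QuadraticMap.polar Q ((Y : Matrix ι ι F) *ᵥ v₁) ((Y : Matrix ι ι F) *ᵥ v₁) with ha
  have hRa : τ.symm a = c * a := hR v₁ v₁ (hv₁r F₁) (hv₁r F₁)
  have hrat : ∀ u v : ι → F, (∀ i, u i ∈ F₁) → (∀ i, v i ∈ F₁) →
      a⁻¹ * QuadraticMap.polar Q ((Y : Matrix ι ι F) *ᵥ u) ((Y : Matrix ι ι F) *ᵥ v) ∈ F₁ := by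
    intro u v hu hv
    rw [← hτ]
    have hτa : τ.symm a ≠ 0 := (map_ne_zero τ.symm).mpr hv₁
    have hc0 : c ≠ 0 := by
      rintro rfl
      rw [zero_mul] at hRa
      exact hτa hRa
    have hfixed : τ.symm (a⁻¹ * QuadraticMap.polar Q ((Y : Matrix ι ι F) *ᵥ u) ((Y : Matrix ι ι F) *ᵥ v)) =
        a⁻¹ * QuadraticMap.polar Q ((Y : Matrix ι ι F) *ᵥ u) ((Y : Matrix ι ι F) *ᵥ v) := by
      rw [map_mul, map_inv₀, hRa, hR u v hu hv]
      field_simp
    conv_lhs => rw [← hfixed]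
    exact τ.apply_symm_apply _
  -- the discriminants
  have hsingle : ∀ (i k : ι), (Pi.single i (1 : F) : ι → F) k ∈ F₁ := by
    intro i k
    rw [Pi.single_apply]
    split_ifs
    · exact F₁.one_mem
    · exact F₁.zero_mem
  set G := gramMatrix (QuadraticMap.polar Q) with hG
  have hG0 : G.det ≠ 0 := C.gram_det_ne
  have hE : a⁻¹ • ((Y : Matrix ι ι F)ᵀ * G * (Y : Matrix ι ι F)) = Matrix.of (fun i j =>
      a⁻¹ * QuadraticMap.polar Q ((Y : Matrix ι ι F) *ᵥ Pi.single i 1) ((Y : Matrix ι ι F) *ᵥ Pi.single j 1)) := by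
    ext i j
    rw [Matrix.smul_apply, C.gram_conj]
    rfl
  have hEm : (a⁻¹ • ((Y : Matrix ι ι F)ᵀ * G * (Y : Matrix ι ι F))).det ∈ F₁ := by
    rw [hE]
    apply det_mem_subfield
    intro i j
    exact hrat _ _ (hsingle i) (hsingle j)
  have hEd : (a⁻¹ • ((Y : Matrix ι ι F)ᵀ * G * (Y : Matrix ι ι F))).det = (a⁻¹) ^ Fintype.card ι * ((Y : Matrix ι ι F).det ^ 2 * G.det) := by
    rw [Matrix.det_smul, Matrix.det_mul, Matrix.det_mul, Matrix.det_transpose]
    ring
  have hYd : (Y : Matrix ι ι F).det ≠ 0 := by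
    have := (Matrix.isUnit_iff_isUnit_det _).mp Y.isUnit
    exact this.ne_zero
  set δ' := (a⁻¹ • ((Y : Matrix ι ι F)ᵀ * G * (Y : Matrix ι ι F))).det with hδ'
  have hδ'0 : δ' ≠ 0 := by
    rw [hEd]
    exact mul_ne_zero (pow_ne_zero _ (inv_ne_zero hv₁)) (mul_ne_zero (pow_ne_zero _ hYd) hG0)
  have hpow : a ^ Fintype.card ι = (Y : Matrix ι ι F).det ^ 2 * (G.det / δ') := by
    have hδ'a : δ' * a ^ Fintype.card ι = (Y : Matrix ι ι F).det ^ 2 * G.det := by
      rw [hEd, mul_assoc, mul_comm ((Y : Matrix ι ι F).det ^ 2 * G.det), ← mul_assoc, ← mul_pow, inv_mul_cancel₀ hv₁, one_pow, one_mul]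
    field_simp
    linear_combination hδ'a
  obtain ⟨z, hz⟩ := sq_class (Nat.not_even_iff_odd.mp hodd) hv₁ hpow
  have hz0 : z ≠ 0 := by
    rintro rfl
    simp at hz
    exact hv₁ hz
  set t := G.det / δ' with ht
  have htm : t ∈ F₁ := F₁.div_mem (C.gram_det_mem F₁) hEm
  -- the scalar
  set x := z⁻¹ with hx
  have hx0 : x ≠ 0 := inv_ne_zero hz0
  have hxa : x ^ 2 * a = t := by
    rw [hz, hx]
    field_simp
  set w : GL ι F := scalG x hx0 with hw
  set P' : GL ι F := Y * w with hP'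
  have hwc : ∀ g : GL ι F, g * w = w * g := scalar_central (scalG_mem x hx0)
  have hP'v : ∀ u, (P' : Matrix ι ι F) *ᵥ u = x • ((Y : Matrix ι ι F) *ᵥ u) := by
    intro u
    rw [hP', gl_mulVec_mul, hw, scalG_val, Matrix.smul_mulVec, Matrix.one_mulVec, Matrix.mulVec_smul]
  have hform : ∀ u v, QuadraticMap.polar Q ((P' : Matrix ι ι F) *ᵥ u) ((P' : Matrix ι ι F) *ᵥ v) =
      t * (a⁻¹ * QuadraticMap.polar Q ((Y : Matrix ι ι F) *ᵥ u) ((Y : Matrix ι ι F) *ᵥ v)) := by
    intro u v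
    rw [hP'v, hP'v, C.polar_smul_left, C.polar_smul_right, ← hxa]
    field_simp
  have hrs : IsQuadFormRationalStructure Q F₁ P' := by
    apply C.rat_of_gram
    intro k l
    rw [hform]
    exact F₁.mul_mem htm (hrat _ _ (hsingle k) (hsingle l))
  have hinv' : P'⁻¹⁻¹ = P' := inv_inv _
  have hconj : ∀ s : GL ι F, P'⁻¹ * s * P'⁻¹⁻¹ = B * s * B⁻¹ := by
    intro s
    rw [hinv', hP', hY]
    have e : (B⁻¹ * w)⁻¹ = w⁻¹ * B := by group
    rw [e]
    calc w⁻¹ * B * s * (B⁻¹ * w) = w⁻¹ * ((B * s * B⁻¹) * w) := by group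
      _ = w⁻¹ * (w * (B * s * B⁻¹)) := by rw [hwc]
      _ = B * s * B⁻¹ := by group
  have hreal' : ∀ s ∈ P, ∀ i j, (((P'⁻¹ : GL ι F) : Matrix ι ι F) * (s : Matrix ι ι F) * (((P'⁻¹)⁻¹ : GL ι F) : Matrix ι ι F)) i j ∈ F₁ := by
    intro s hs i j
    have h1 := hreal₁ s hs i j
    have h2 : ((P'⁻¹ * s * P'⁻¹⁻¹ : GL ι F) : Matrix ι ι F) = ((B * s * B⁻¹ : GL ι F) : Matrix ι ι F) := by rw [hconj]
    have h3 : ((P'⁻¹ * s * P'⁻¹⁻¹ : GL ι F) : Matrix ι ι F) i j = ((B * s * B⁻¹ : GL ι F) : Matrix ι ι F) i j := by rw [h2]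
    show ((P'⁻¹ * s * P'⁻¹⁻¹ : GL ι F) : Matrix ι ι F) i j ∈ F₁
    rw [h3]
    exact h1
  refine ⟨F₁, r, P', hr, hcard', hrs, ?_⟩
  intro h hh
  have := mem_subfieldSubgroup_of_normalize habs hreal' (hnorm h hh)
  rwa [hinv'] at this


/-! ### generalities -/

theorem OCtx.fctx (C : OCtx Q K) : FCtx (RingHom.id F) 1 (QuadraticMap.polar Q) where
  sesq := C.pS
  ndr v hv := C.nd hv
  ndl v hv := by
    obtain ⟨x, hx⟩ := C.nd hv
    exact ⟨x, by rwa [QuadraticMap.polar_comm]⟩
  invol _ := rfl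
  herm u v := by
    rw [one_mul, RingHom.id_apply, QuadraticMap.polar_comm]

/-- a form in the context is a symmetric form -/
theorem FCtx.toSymmetric {κ : Type} [Fintype κ] [DecidableEq κ] {g : (κ → F) → (κ → F) → F} (C : FCtx (RingHom.id F) 1 g) :
    IsSymmetricForm g where
  bilinear := ⟨C.sesq.add_left, C.sesq.smul_left, C.sesq.add_right, fun c v x => by
    have := C.sesq.smul_right c v x
    simpa using this⟩
  symm u v := by
    have := C.herm u v
    simpa using this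
  nondegenerate v hv := ⟨C.ndl v hv, C.ndr v hv⟩

/-- an `ε`-symmetric form in odd dimension is symmetric -/
theorem eps_of_odd {κ : Type} [Fintype κ] [DecidableEq κ] [Nonempty κ] {g : (κ → F) → (κ → F) → F} {ε : F} (h2 : (2 : F) ≠ 0)
    (C : FCtx (RingHom.id F) ε g) (hodd : ¬ Even (Fintype.card κ)) : ε = 1 := by
  have h1 := C.eps_norm
  simp only [RingHom.id_apply] at h1
  have h3 : (ε - 1) * (ε + 1) = 0 := by linear_combination h1
  rcases mul_eq_zero.mp h3 with h4 | h4
  · exact sub_eq_zero.mp h4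
  · exfalso
    have h5 : ε = -1 := eq_neg_of_add_eq_zero_left h4
    apply hodd
    refine alt_even C.sesq (fun v => ?_) C.ndl
    have h6 := C.herm v v
    rw [h5] at h6
    simp only [RingHom.id_apply] at h6
    have h7 : 2 * g v v = 0 := by linear_combination h6
    exact (mul_eq_zero.mp h7).resolve_left h2

theorem FTensor.swap {σ : F →+* F} {ε : F} {f : (ι → F) → (ι → F) → F} {H : Subgroup (GL ι F)} {d m : ℕ}
    {e : ι ≃ Fin d × Fin m} {P : GL ι F} {A₀ : Matrix (Fin d) (Fin d) F} {C₀ : Matrix (Fin m) (Fin m) F} {ε₁ ε₂ : F}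
    (h : FTensor σ ε f H e P A₀ C₀ ε₁ ε₂) : FTensor σ ε f H (e.trans (Equiv.prodComm _ _)) P C₀ A₀ ε₂ ε₁ := by
  refine ⟨h.le.trans (tensorProduct_swap e P), fun x y => ?_, h.ctx₂, h.ctx₁, by rw [mul_comm]; exact h.mul⟩
  have e1 : x ∘ (e.trans (Equiv.prodComm _ _)) = (x ∘ (Equiv.prodComm _ _)) ∘ e := rfl
  have e2 : y ∘ (e.trans (Equiv.prodComm _ _)) = (y ∘ (Equiv.prodComm _ _)) ∘ e := rfl
  rw [e1, e2, h.eqn]
  rw [← (Equiv.prodComm (Fin m) (Fin d)).sum_comp]
  refine Finset.sum_congr rfl fun a _ => ?_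
  rw [← (Equiv.prodComm (Fin m) (Fin d)).sum_comp]
  refine Finset.sum_congr rfl fun b _ => ?_
  simp only [Function.comp_apply, Equiv.prodComm_apply, Prod.fst_swap, Prod.snd_swap, Prod.swap_swap]
  ring

/-- a decomposition into lines comes from a basis -/
theorem basis_of_lines [Finite F] {t : ℕ} {D : Fin t → Submodule F (ι → F)} (hD : IsMDecomposition 1 D) :
    ∃ b : Module.Basis (Fin t) F (ι → F), ∀ i, D i = Submodule.span F {b i} := by
  classical
  have hex : ∀ i, ∃ v : ι → F, v ≠ 0 ∧ D i = Submodule.span F {v} := by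
    intro i
    obtain ⟨v, hv0, hv⟩ := finrank_eq_one_iff'.mp (hD.finrank_eq i)
    have hv0' : (v : ι → F) ≠ 0 := fun h => hv0 (Subtype.ext h)
    refine ⟨v, hv0', le_antisymm (fun w hw => ?_) ((Submodule.span_singleton_le_iff_mem _ _).mpr v.2)⟩
    obtain ⟨c, hc⟩ := hv ⟨w, hw⟩
    exact Submodule.mem_span_singleton.mpr ⟨c, congrArg Subtype.val hc⟩
  choose v hv0 hv using hex
  have hli : LinearIndependent F v := by
    exact hD.indep.linearIndependent _ (fun i => by
      rw [hv i]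
      exact Submodule.mem_span_singleton_self _) hv0
  have hsp : ⊤ ≤ Submodule.span F (Set.range v) := by
    rw [← hD.iSup_eq_top]
    refine iSup_le fun i => ?_
    rw [hv i, Submodule.span_singleton_le_iff_mem]
    exact Submodule.subset_span ⟨i, rfl⟩
  refine ⟨Module.Basis.mk hli hsp, fun i => ?_⟩
  rw [Module.Basis.mk_apply]
  exact hv i

theorem frame_of_lines {σ : F →+* F} {ε : F} {f : (ι → F) → (ι → F) → F} [Finite F] {t : ℕ} {D : Fin t → Submodule F (ι → F)} (C : FCtx σ ε f)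
    (hD : IsNondegenerateMDecomposition f 1 D) {H : Subgroup (GL ι F)} (hle : H ≤ decompositionStabilizer D) :
    ∃ b : Module.Basis ι F (ι → F), (∀ i j, i ≠ j → f (b i) (b j) = 0) ∧ (∀ i, f (b i) (b i) ≠ 0) ∧
      ∀ h ∈ H, ∀ i, ∃ j, ∃ c : F, (h : Matrix ι ι F) *ᵥ b i = c • b j := by
  classical
  obtain ⟨b₀, hb₀⟩ := basis_of_lines hD.decomp
  have hcard : Fintype.card (Fin t) = Fintype.card ι := by
    have := card_of_mdecomp hD.decomp
    simpa using this
  let e : Fin t ≃ ι := Fintype.equivOfCardEq hcard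
  let b := b₀.reindex e
  have hb : ∀ i, b i = b₀ (e.symm i) := fun i => by simp [b]
  refine ⟨b, fun i j hij => ?_, fun i => ?_, fun h hh i => ?_⟩
  · rw [hb, hb]
    refine hD.orthogonal _ _ (fun h' => hij (e.symm.injective h')) _ ?_ _ ?_
    · rw [hb₀]
      exact Submodule.mem_span_singleton_self _
    · rw [hb₀]
      exact Submodule.mem_span_singleton_self _
  · rw [hb]
    have hmem : b₀ (e.symm i) ∈ D (e.symm i) := by
      rw [hb₀]
      exact Submodule.mem_span_singleton_self _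
    obtain ⟨x, hx, hfx⟩ := (hD.nondegenerate _ _ hmem (b₀.ne_zero _)).2
    rw [hb₀] at hx
    obtain ⟨c, rfl⟩ := Submodule.mem_span_singleton.mp hx
    rw [C.sesq.smul_right] at hfx
    exact right_ne_zero_of_mul hfx
  · obtain ⟨π, hπ⟩ := hle hh
    have hmem : b i ∈ D (e.symm i) := by
      rw [hb, hb₀]
      exact Submodule.mem_span_singleton_self _
    have h1 : (h : Matrix ι ι F) *ᵥ b i ∈ D (π (e.symm i)) := by
      rw [← hπ]
      exact ⟨b i, hmem, rfl⟩
    rw [hb₀] at h1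
    obtain ⟨c, hc⟩ := Submodule.mem_span_singleton.mp h1
    refine ⟨e (π (e.symm i)), c, ?_⟩
    rw [hb (e _), Equiv.symm_apply_apply, hc]

/-- The conclusion of the reduction theorem. -/
def OrthOutcome (Q : (ι → F) → F) [Fintype F] (H : Subgroup (GL ι F)) : Prop :=
  (∃ W : Submodule F (ι → F), W ≠ ⊥ ∧ IsTotallySingularQuad Q W ∧ H ≤ subspaceStabilizer W) ∨
  (∃ W : Submodule F (ι → F), W ≠ ⊥ ∧ W ≠ ⊤ ∧ IsNondegenerateOn (QuadraticMap.polar Q) W ∧ H ≤ subspaceStabilizer W) ∨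
  (∃ (t k : ℕ) (D : Fin t → Submodule F (ι → F)), 1 < k ∧ IsOrthogonalMDecomposition Q k D ∧ H ≤ decompositionStabilizer D) ∨
  (∃ (t : ℕ) (D : Fin t → Submodule F (ι → F)), (Fintype.card F).Prime ∧ IsOrthogonalMDecomposition Q 1 D ∧ H ≤ decompositionStabilizer D) ∨
  (∃ (r : ℕ) (K' : Subalgebra F (Matrix ι ι F)), r.Prime ∧ Fintype.card ι ≠ r ∧ IsFieldSubalgebra r K' ∧
    IsSelfAdjointFor (QuadraticMap.polar Q) K' ∧ H ≤ subalgebraNormalizer K') ∨
  (∃ (n₁ n₂ : ℕ) (e : ι ≃ Fin n₁ × Fin n₂) (P : GL ι F) (f₁ : (Fin n₁ → F) → (Fin n₁ → F) → F) (f₂ : (Fin n₂ → F) → (Fin n₂ → F) → F),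
    3 ≤ n₁ ∧ n₁ < n₂ ∧ IsSymmetricForm f₁ ∧ IsSymmetricForm f₂ ∧ IsTensorFormStructure id (QuadraticMap.polar Q) f₁ f₂ e P ∧
    H ≤ tensorProductSubgroup n₁ n₂ e P) ∨
  (∃ (F₀ : Subfield F) (r : ℕ) (P : GL ι F), r.Prime ∧ Fintype.card F = Nat.card F₀ ^ r ∧
    IsQuadFormRationalStructure Q F₀ P ∧ H ≤ subfieldSubgroup F₀ P) ∨
  (∃ (k t : ℕ) (e : ι ≃ (Fin t → Fin k)) (P : GL ι F) (f₁ : (Fin k → F) → (Fin k → F) → F),
    3 ≤ k ∧ 2 ≤ t ∧ ¬ (Fintype.card F = 3 ∧ k = 3) ∧ IsSymmetricForm f₁ ∧ IsTensorPowerFormStructure id (QuadraticMap.polar Q) f₁ e P ∧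
    H ≤ tensorWreathSubgroup k t e P) ∨
  InOrthogonalResidualClass H

section Main

variable [Fintype F]

theorem OCtx.class2_case (C : OCtx Q K) (hoddn : Odd (Fintype.card ι)) (hn : 7 ≤ Fintype.card ι) {H : Subgroup (GL ι F)} (hHK : H ≤ K) (hirr : Irr H)
    (h : FClass2 (QuadraticMap.polar Q) H) : OrthOutcome Q H := by
  classical
  have hC := C.fctx
  have hfixQ : ∀ g ∈ H, ∀ v, Q ((g : Matrix ι ι F) *ᵥ v) = Q v := fun g hg => C.fix g (hHK hg)
  rcases h with ⟨t, k, D, hD, hle, htr⟩ | ⟨k, D, hD, -, -⟩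
  · have hiso : ∀ i j, AreIsometricFor Q (D i) (D j) := by
      intro i j
      obtain ⟨h, hh, hmap⟩ := htr i j
      have hinj : Function.Injective (Matrix.toLin' (h : Matrix ι ι F)) := by
        intro x y hxy
        apply gl_mulVec_injective h
        simpa [Matrix.toLin'_apply] using hxy
      refine ⟨(Submodule.equivMapOfInjective _ hinj _).trans (LinearEquiv.ofEq _ _ hmap), fun w => ?_⟩
      show Q ((h : Matrix ι ι F) *ᵥ (w : ι → F)) = _
      exact hfixQ h hh _
    have hk := hD.decomp.pos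
    by_cases hk1 : 1 < k
    · exact Or.inr <| Or.inr <| Or.inl ⟨t, k, D, hk1, ⟨hD, hiso⟩, hle⟩
    · have hk2 : k = 1 := by omega
      subst hk2
      by_cases hp : (Fintype.card F).Prime
      · exact Or.inr <| Or.inr <| Or.inr <| Or.inl ⟨t, D, hp, ⟨hD, hiso⟩, hle⟩
      · obtain ⟨b, h1, h2, h3⟩ := frame_of_lines hC hD hle
        exact Or.inr <| Or.inr <| Or.inr <| Or.inr <| Or.inr <| Or.inr <| Or.inl
          (C.diag_subfield rfl hoddn (by omega) hHK hirr b h1 h2 h3 hp)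
  · exfalso
    have h1 := card_of_mdecomp hD
    have h2 : Even (Fintype.card ι) := ⟨k, by omega⟩
    exact (Nat.not_even_iff_odd.mpr hoddn) h2

theorem OCtx.wreath_case (C : OCtx Q K) (hoddn : Odd (Fintype.card ι)) (hn : 7 ≤ Fintype.card ι) {H : Subgroup (GL ι F)} (hHK : H ≤ K) (hirr : Irr H)
    (hfix : FFix (QuadraticMap.polar Q) H) {m t : ℕ} {e : ι ≃ (Fin t → Fin m)} {P : GL ι F} {A₀ : Matrix (Fin m) (Fin m) F} {κ ε₁ : F}
    (hm : 2 ≤ m) (ht : 2 ≤ t) (hcard : Fintype.card ι = m ^ t) (hW : FWreath (RingHom.id F) 1 (QuadraticMap.polar Q) H e P A₀ κ ε₁) :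
    OrthOutcome Q H := by
  classical
  have hC := C.fctx
  have h2 := C.two
  have hm0 : NeZero m := ⟨by omega⟩
  have ht0 : NeZero t := ⟨by omega⟩
  have hne : Nonempty (Fin m) := ⟨0⟩
  have hmodd : Odd m := by
    rw [hcard] at hoddn
    exact (Nat.odd_pow_iff (by omega)).mp hoddn
  have hnotEven : ¬ Even (Fintype.card (Fin m)) := by
    rw [Fintype.card_fin]
    exact Nat.not_even_iff_odd.mpr hmodd
  have hε := eps_of_odd h2 hW.ctx hnotEven
  subst hε
  have hm3 : 3 ≤ m := by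
    rcases hmodd with ⟨j, hj⟩
    omega
  by_cases hex : Fintype.card F = 3 ∧ m = 3
  · obtain ⟨hq, rfl⟩ := hex
    have hoddq : Odd (Fintype.card F) := by rw [hq]; decide
    have hone : FCtx (RingHom.id F) 1 (formOfGram ((RingHom.id F : F →+* F) : F → F) (1 : Matrix (Fin 3) (Fin 3) F)) := by
      refine ⟨formOfGram_sesq _ _, fun v hv => ?_, fun v hv => ?_, fun _ => rfl, fun u w => ?_⟩
      · obtain ⟨i, hi⟩ := Function.ne_iff.mp hv
        refine ⟨Pi.single i 1, ?_⟩
        simpa [formOfGram, Matrix.one_apply, Pi.single_apply] using hi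
      · obtain ⟨i, hi⟩ := Function.ne_iff.mp hv
        refine ⟨Pi.single i 1, ?_⟩
        simpa [formOfGram, Matrix.one_apply, Pi.single_apply] using hi
      · exact formOfGram_herm (fun _ => rfl) (fun a c => by
          simp [Matrix.one_apply, eq_comm]) u w
    obtain ⟨T, c, hc, hT⟩ := sym_classify hoddq h2 (by decide) hW.ctx hone
    obtain ⟨P', hW'⟩ := hW.rebase hC T hc hT hone
    obtain ⟨h1, h3, h4⟩ := f3_frame hq hC hfix (mul_ne_zero hW.ne (pow_ne_zero _ hc)) hW'.le hW'.eqn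
    exact C.class2_case hoddn hn hHK hirr (fclass2_of_frame hC (by omega) hirr (glBasis P') h1 h3 h4)
  · refine Or.inr <| Or.inr <| Or.inr <| Or.inr <| Or.inr <| Or.inr <| Or.inr <| Or.inl
      ⟨m, t, e, P, formOfGram ((RingHom.id F : F →+* F) : F → F) A₀, hm3, ht, hex, FCtx.toSymmetric hW.ctx,
        ⟨κ, hW.ne, fun x y => ?_⟩, hW.le⟩
    rw [hW.eqn, gramMatrix_formOfGram]
    rfl

theorem OCtx.main (C : OCtx Q K) (hoddn : Odd (Fintype.card ι)) (hn : 7 ≤ Fintype.card ι) {H : Subgroup (GL ι F)} (hHK : H ≤ K) :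
    OrthOutcome Q H := by
  classical
  have hC := C.fctx
  have h2 := C.two
  have hne : Nonempty ι := Fintype.card_pos_iff.mp (by omega)
  have hnotEven : ¬ Even (Fintype.card ι) := Nat.not_even_iff_odd.mpr hoddn
  have hfixQ : ∀ g ∈ H, ∀ v, Q ((g : Matrix ι ι F) *ᵥ v) = Q v := fun g hg => C.fix g (hHK hg)
  have hfix : FFix (QuadraticMap.polar Q) H := fun g hg u v => fixes_polar (hfixQ g hg) u v
  by_cases hirr : Irr H
  · rcases star_flow hC (by omega) hirr hfix with h | ⟨ℓ, K', N, hℓ, hK', hst, hle, hNH, hNs, hcomm⟩ |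
      ⟨d, m, e, P, A₀, C₀, ε₁, ε₂, hd, hm, hcard, hT⟩ | ⟨N, hNH, hNn, hNt, hNc, -, -⟩ | ⟨m, t, e, P, A₀, κ, ε₁, hm, ht, hcard, hW⟩ | ⟨P, hP⟩
    · exact C.class2_case hoddn hn hHK hirr h
    · -- the field case
      have hdvd := dvd_of_fieldSubalgebra hK'
      have hℓ2 : ℓ ≠ 2 := by
        rintro rfl
        exact hnotEven (even_iff_two_dvd.mpr hdvd)
      have hsa : ∀ x ∈ K', hC.adj x = x := by
        intro x hx
        by_contra hne'
        exact hℓ2 (degree_two_of_nontrivial hC (fun _ => rfl) hK' hℓ hst hx hne').1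
      have hself : IsSelfAdjointFor (QuadraticMap.polar Q) K' := (selfAdjoint_iff hC).mpr hsa
      have hℓn : Fintype.card ι ≠ ℓ := by
        intro heq
        apply hNs
        intro g hg
        have hgK : (g : Matrix ι ι F) ∈ K' :=
          mem_of_commute_fieldAlg (A := K') ⟨hK'.comm, hK'.inv⟩ (by rw [hK'.finrank_eq, heq]) (fun k hk => hcomm g hg k hk)
        have h1 := hsa _ hgK
        rw [hC.adj_gl (hfix g (hNH hg))] at h1
        have h3 : (g : Matrix ι ι F) * g = 1 := by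
          have : (g : Matrix ι ι F) * ((g⁻¹ : GL ι F) : Matrix ι ι F) = 1 := by
            rw [← Units.val_mul, mul_inv_cancel, Units.val_one]
          rwa [h1] at this
        have hm1 : (g : Matrix ι ι F) - 1 ∈ K' := K'.sub_mem hgK K'.one_mem
        by_cases hg1 : (g : Matrix ι ι F) - 1 = 0
        · rw [mem_scalars_iff]
          refine ⟨1, ?_⟩
          rw [sub_eq_zero.mp hg1]
          simp
        · obtain ⟨y, hy, hxy⟩ := hK'.inv _ hm1 hg1
          have h4 : ((g : Matrix ι ι F) - 1) * ((g : Matrix ι ι F) + 1) = 0 := by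
            rw [sub_mul, mul_add, h3, one_mul, mul_one]
            abel
          have h5 : (g : Matrix ι ι F) + 1 = 0 := by
            calc (g : Matrix ι ι F) + 1 = (y * ((g : Matrix ι ι F) - 1)) * ((g : Matrix ι ι F) + 1) := by
                  rw [hK'.comm y hy _ hm1, hxy, one_mul]
              _ = 0 := by rw [mul_assoc, h4, mul_zero]
          rw [mem_scalars_iff]
          refine ⟨-1, ?_⟩
          have h6 : (g : Matrix ι ι F) = -1 := eq_neg_of_add_eq_zero_left h5
          rw [h6]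
          simp
      exact Or.inr <| Or.inr <| Or.inr <| Or.inr <| Or.inl ⟨ℓ, K', hℓ, hℓn, hK', hself, hle⟩
    · -- the tensor case
      have hdodd : Odd d := by
        rw [hcard] at hoddn
        exact (Nat.odd_mul.mp hoddn).1
      have hmodd : Odd m := by
        rw [hcard] at hoddn
        exact (Nat.odd_mul.mp hoddn).2
      have hd0 : NeZero d := ⟨by omega⟩
      have hm0 : NeZero m := ⟨by omega⟩
      have hned : Nonempty (Fin d) := ⟨0⟩
      have hnem : Nonempty (Fin m) := ⟨0⟩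
      have hε₁ := eps_of_odd h2 hT.ctx₁ (by
        rw [Fintype.card_fin]
        exact Nat.not_even_iff_odd.mpr hdodd)
      have hε₂ := eps_of_odd h2 hT.ctx₂ (by
        rw [Fintype.card_fin]
        exact Nat.not_even_iff_odd.mpr hmodd)
      subst hε₁
      subst hε₂
      have hd3 : 3 ≤ d := by
        rcases hdodd with ⟨j, hj⟩
        omega
      have hm3 : 3 ≤ m := by
        rcases hmodd with ⟨j, hj⟩
        omega
      have final : ∀ (d m : ℕ) (e : ι ≃ Fin d × Fin m) (P : GL ι F) (A₀ : Matrix (Fin d) (Fin d) F) (C₀ : Matrix (Fin m) (Fin m) F),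
          3 ≤ d → d < m → FTensor (RingHom.id F) 1 (QuadraticMap.polar Q) H e P A₀ C₀ 1 1 → OrthOutcome Q H := by
        intro d m e P A₀ C₀ hd3 hdm hT
        refine Or.inr <| Or.inr <| Or.inr <| Or.inr <| Or.inr <| Or.inl
          ⟨d, m, e, P, formOfGram ((RingHom.id F : F →+* F) : F → F) A₀, formOfGram ((RingHom.id F : F →+* F) : F → F) C₀, hd3, hdm,
            FCtx.toSymmetric hT.ctx₁, FCtx.toSymmetric hT.ctx₂, ⟨1, one_ne_zero, fun x y => ?_⟩, hT.le⟩
        rw [hT.eqn, gramMatrix_formOfGram, gramMatrix_formOfGram, one_mul]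
        rfl
      rcases lt_trichotomy d m with hlt | heq | hgt
      · exact final d m e P A₀ C₀ hd3 hlt hT
      · subst heq
        have hoddq : Odd (Fintype.card F) := by
          by_contra hev
          rw [Nat.not_odd_iff_even] at hev
          obtain ⟨p, hp⟩ := CharP.exists F
          obtain ⟨n', hpp, hcp⟩ := FiniteField.card F p
          have hp2 : p = 2 := by
            have : p ∣ 2 ∨ True := Or.inr trivial
            rw [hcp] at hev
            have h3 := (Nat.Prime.even_iff hpp)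
            have h4 := (Nat.even_pow.mp hev).1
            exact h3.mp h4
          subst hp2
          exact h2 (CharP.cast_eq_zero F 2)
        obtain ⟨T, c, hc, hTc⟩ := sym_classify hoddq h2 hdodd hT.ctx₂ hT.ctx₁
        obtain ⟨P', hW⟩ := wreath_of_tensor hC hT T hc hTc
        refine C.wreath_case hoddn hn hHK hirr hfix (t := 2) (by omega) le_rfl ?_ hW
        rw [hcard]
        ring
      · exact final m d _ P C₀ A₀ hm3 hgt hT.swap
    · -- no commutator relations in odd dimension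
      exfalso
      have hcommN : ∀ a ∈ N, ∀ b ∈ N, a * b = b * a := by
        intro a ha b hb
        by_contra hab
        have hz : ⁅a, b⁆ ∈ scalars ι F := hNc (Subgroup.commutator_mem_commutator ha hb)
        obtain ⟨ξ, hξ⟩ := (mem_scalars_iff _).mp hz
        have hzN : ⁅a, b⁆ ∈ N := by
          rw [commutatorElement_def]
          exact N.mul_mem (N.mul_mem (N.mul_mem ha hb) (N.inv_mem ha)) (N.inv_mem hb)
        have hv : ∃ v : ι → F, Q v ≠ 0 := by
          by_contra hall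
          push Not at hall
          obtain ⟨v, hv⟩ := exists_ne (0 : ι → F)
          obtain ⟨x, hx⟩ := C.nd hv
          apply hx
          simp only [QuadraticMap.polar]
          rw [hall, hall, hall]
          ring
        obtain ⟨v, hv⟩ := hv
        have h1 := hfixQ _ (hNH hzN) v
        rw [hξ, Matrix.smul_mulVec, Matrix.one_mulVec, C.Q_smul] at h1
        have h3 : (ξ : F) ^ 2 = 1 := by
          have : (ξ : F) ^ 2 * Q v = 1 * Q v := by rw [h1, one_mul]
          exact mul_right_cancel₀ hv this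
        have hrel : (a : Matrix ι ι F) * b = (ξ : F) • ((b : Matrix ι ι F) * a) := by
          have h4 : a * b = ⁅a, b⁆ * (b * a) := by
            rw [commutatorElement_def]; group
          have h5 := congrArg Units.val h4
          rw [Units.val_mul, Units.val_mul, Units.val_mul, hξ] at h5
          rw [h5, Matrix.smul_mul, Matrix.one_mul]
        have hξ1 : (ξ : F) ≠ 1 := by
          intro h
          apply hab
          apply Units.ext
          rw [Units.val_mul, Units.val_mul, hrel, h, one_smul]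
        have hξm : (ξ : F) = -1 := by
          have h4 : ((ξ : F) - 1) * ((ξ : F) + 1) = 0 := by linear_combination h3
          rcases mul_eq_zero.mp h4 with h5 | h5
          · exact absurd (sub_eq_zero.mp h5) hξ1
          · exact eq_neg_of_add_eq_zero_left h5
        have hdd := congrArg Matrix.det hrel
        rw [Matrix.det_smul, hξm, Matrix.det_mul, Matrix.det_mul, C.det a (hHK (hNH ha)), C.det b (hHK (hNH hb)),
          hoddn.neg_one_pow] at hdd
        apply h2
        linear_combination hdd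
      -- hence the matrix algebra is commutative
      have hall : ∀ x y : Matrix ι ι F, x * y = y * x := by
        intro x y
        exact spanG_commute hcommN (by rw [hNt]; trivial) (by rw [hNt]; trivial)
      obtain ⟨i⟩ := hne
      have hcardι : 2 ≤ Fintype.card ι := by omega
      obtain ⟨j, hj⟩ : ∃ j, j ≠ i := by
        have : Nontrivial ι := Fintype.one_lt_card_iff_nontrivial.mp (by omega)
        exact exists_ne i
      have h3 := congrFun (congrFun (hall (Matrix.single i j 1) (Matrix.single j i 1)) i) i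
      simp [Matrix.mul_apply, Matrix.single_apply, hj] at h3
    · exact C.wreath_case hoddn hn hHK hirr hfix hm ht hcard hW
    · -- almost simple
      have habs := habs_of_matrixSet hP.absIrred
      by_cases hsub : ∃ F₀ : Subfield F, F₀ ≠ ⊤ ∧ RealisableOver F₀ (matrixSet P)
      · obtain ⟨F₀, hF₀, B, hB⟩ := hsub
        obtain ⟨F₁, r, P', h3, h4, h5, h6⟩ := C.subfield_branch' hnotEven (by omega) hHK hP.le hP.normal habs hF₀
          (fun s hs i j => hB _ ⟨s, hs, rfl⟩ i j)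
        exact Or.inr <| Or.inr <| Or.inr <| Or.inr <| Or.inr <| Or.inr <| Or.inl ⟨F₁, r, P', h3, h4, h5, h6⟩
      · push Not at hsub
        refine Or.inr <| Or.inr <| Or.inr <| Or.inr <| Or.inr <| Or.inr <| Or.inr <| Or.inr ⟨P, hP.toCore hsub, ?_⟩
        rintro ⟨σ, f', hf', hfixf⟩
        obtain ⟨F₀, hF₀, hreal⟩ := descent hf' (norm_of_unitary hf') habs (fun g hg u v => hfixf _ ⟨g, hg, rfl⟩ u v)
          C.pS (fun v hv => (C.quad.nondegenerate v hv).1)
          (fun g hg u v => hfix g (hP.le hg) u v)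
        exact hsub F₀ hF₀ hreal
  · unfold Irr at hirr
    push Not at hirr
    obtain ⟨W, hW, h0, h1⟩ := hirr
    rcases hC.reducible hfix hW h0 h1 with ⟨R, hR0, hRs, hRt⟩ | ⟨U, hU0, hU1, hUs, hUd⟩
    · refine Or.inl ⟨R, hR0, fun w hw => ?_, fun g hg => mem_stab_of_stable hRs hg⟩
      have h3 := hRt w hw w hw
      rw [C.self] at h3
      exact (mul_eq_zero.mp h3).resolve_left h2
    · exact Or.inr <| Or.inl ⟨U, hU0, hU1, hC.nondeg_of_disj hUd, fun g hg => mem_stab_of_stable hUs hg⟩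

end Main

end Cfsg.Agent.H97.Asch
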