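import Cfsg.Agent.Lib.H97G5

/-!
Non-containment results for the groups generated by Siegel transformations.
-/

set_option autoImplicit false
set_option linter.unusedSectionVars false
set_option linter.style.haveILetI false

namespace Cfsg.Agent.H97.Asch

open Matrix Cfsg Cfsg.Geo
open scoped MatrixGroups commutatorElement Kronecker

variable {ι : Type} [Fintype ι] [DecidableEq ι] {F : Type*} [Field F] {Q : (ι → F) → F} {K : Subgroup (GL ι F)}

/-- the generating set of Siegel transformations -/
def siegelGens (Q : (ι → F) → F) (K : Subgroup (GL ι F)) : Set (GL ι F) :=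
  {g | g ∈ K ∧ ∃ (u v : ι → F) (c : F), Q u = 0 ∧ Q v = 0 ∧ QuadraticMap.polar Q u v = 0 ∧
    ∀ x, (g : Matrix ι ι F) *ᵥ x = x + (c * QuadraticMap.polar Q x u) • v - (c * QuadraticMap.polar Q x v) • u}

theorem siegel_closure_le (Q : (ι → F) → F) (K : Subgroup (GL ι F)) : Subgroup.closure (siegelGens Q K) ≤ K :=
  (Subgroup.closure_le K).mpr fun _ hg => hg.1

theorem OCtx.siegelCtx (C : OCtx Q K) : OCtx Q (Subgroup.closure (siegelGens Q K)) where
  quad := C.quad
  two := C.two
  fix g hg := C.fix g (siegel_closure_le Q K hg)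
  siegel u v c hu hv huv := by
    obtain ⟨g, hg, h⟩ := C.siegel u v c hu hv huv
    exact ⟨g, Subgroup.subset_closure ⟨hg, u, v, c, hu, hv, huv, h⟩, h⟩
  span := C.span
  det g hg := C.det g (siegel_closure_le Q K hg)
  rat := C.rat

/-- the generators cannot all stabilise a proper subspace -/
theorem OCtx.gens_not_stab [Fintype F] (C : OCtx Q K) (hn : 5 ≤ Fintype.card ι) {W : Submodule F (ι → F)} (h0 : W ≠ ⊥)
    (h1 : W ≠ ⊤) : ¬ ∀ g ∈ siegelGens Q K, g ∈ subspaceStabilizer W := by
  intro h
  exact C.siegelCtx.not_le_stab hn h0 h1 ((Subgroup.closure_le _).mpr h)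

/-- some generator is not trivial -/
theorem OCtx.exists_gen_ne [Fintype F] (C : OCtx Q K) (hn : 5 ≤ Fintype.card ι) : ∃ g ∈ siegelGens Q K, g ≠ 1 := by
  classical
  by_contra hall
  push Not at hall
  have hne : Nonempty ι := Fintype.card_pos_iff.mp (by omega)
  obtain ⟨x, hx0⟩ := exists_ne (0 : ι → F)
  have hW0 : Submodule.span F {x} ≠ ⊥ := by
    simpa using hx0
  have hfr : Module.finrank F (Submodule.span F {x}) = 1 := finrank_span_singleton hx0
  have hW1 : Submodule.span F {x} ≠ ⊤ := by
    intro h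
    rw [h, finrank_top] at hfr
    simp at hfr
    omega
  apply C.gens_not_stab hn hW0 hW1
  intro g hg
  rw [hall g hg]
  exact Subgroup.one_mem _

/-- the image of `g - 1` for a generator has dimension at most two -/
theorem gen_rank {g : GL ι F} (hg : g ∈ siegelGens Q K) :
    Module.finrank F (LinearMap.range (Matrix.toLin' ((g : Matrix ι ι F) - 1))) ≤ 2 := by
  classical
  obtain ⟨-, u, v, c, -, -, -, h⟩ := hg
  have hle : LinearMap.range (Matrix.toLin' ((g : Matrix ι ι F) - 1)) ≤ Submodule.span F (({v, u} : Finset (ι → F)) : Set (ι → F)) := by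
    rintro _ ⟨x, rfl⟩
    rw [Matrix.toLin'_apply, Matrix.sub_mulVec, Matrix.one_mulVec, h]
    have e : x + (c * QuadraticMap.polar Q x u) • v - (c * QuadraticMap.polar Q x v) • u - x =
        (c * QuadraticMap.polar Q x u) • v - (c * QuadraticMap.polar Q x v) • u := by abel
    rw [e]
    refine Submodule.sub_mem _ (Submodule.smul_mem _ _ (Submodule.subset_span ?_)) (Submodule.smul_mem _ _ (Submodule.subset_span ?_)) <;> simp
  refine (Submodule.finrank_mono hle).trans ?_
  refine (finrank_span_finset_le_card _).trans ?_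
  exact Finset.card_le_two

/-- For a generator `(g-1)² = 0`. -/
theorem gen_sq (C : OCtx Q K) {g : GL ι F} (hg : g ∈ siegelGens Q K) :
    ((g : Matrix ι ι F) - 1) * ((g : Matrix ι ι F) - 1) = 0 := by
  classical
  obtain ⟨-, u, v, c, hu, hv, huv, h⟩ := hg
  apply Matrix.toLin'.injective
  apply LinearMap.ext
  intro x
  simp only [Matrix.toLin'_apply, map_zero, LinearMap.zero_apply]
  rw [← Matrix.mulVec_mulVec]
  simp only [Matrix.sub_mulVec, Matrix.one_mulVec]
  have hvv : QuadraticMap.polar Q v v = 0 := by rw [C.self, hv, mul_zero]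
  have huu : QuadraticMap.polar Q u u = 0 := by rw [C.self, hu, mul_zero]
  have hvu : QuadraticMap.polar Q v u = 0 := by rw [QuadraticMap.polar_comm, huv]
  have e1 : (g : Matrix ι ι F) *ᵥ u = u := by
    rw [h, huu, huv]
    simp
  have e2 : (g : Matrix ι ι F) *ᵥ v = v := by
    rw [h, hvu, hvv]
    simp
  rw [h x]
  simp only [Matrix.mulVec_sub, Matrix.mulVec_add, Matrix.mulVec_smul, e1, e2, h x]
  abel

/-- Isometry subgroups: the decomposition with big parts. -/
theorem OCtx.not_le_decomp [Fintype F] (C : OCtx Q K) (hn : 5 ≤ Fintype.card ι) {t k : ℕ} {D : Fin t → Submodule F (ι → F)}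
    (hD : IsMDecomposition k D) (hk : 3 ≤ k) : ¬ K ≤ decompositionStabilizer D := by
  classical
  intro hle
  have ht := hD.two_le
  let i₀ : Fin t := ⟨0, by omega⟩
  let i₁ : Fin t := ⟨1, by omega⟩
  have hi : i₁ ≠ i₀ := by
    intro h
    have := congrArg Fin.val h
    simp [i₀, i₁] at this
  have hdisj : ∀ i j, i ≠ j → D i ⊓ D j = ⊥ := fun i j hij =>
    (hD.indep.pairwiseDisjoint hij).eq_bot
  have hne : ∀ i, D i ≠ ⊥ := by
    intro i h
    have := hD.finrank_eq i
    rw [h, finrank_bot] at this
    omega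
  have hW1 : D i₀ ≠ ⊤ := by
    intro h
    have := hdisj i₀ i₁ hi.symm
    rw [h, top_inf_eq] at this
    exact hne i₁ this
  apply C.gens_not_stab hn (hne i₀) hW1
  intro g hg
  obtain ⟨π, hπ⟩ := hle hg.1
  by_cases hfix : π i₀ = i₀
  · have hst : ∀ w ∈ D i₀, (g : Matrix ι ι F) *ᵥ w ∈ D i₀ := by
      intro w hw
      have := hπ i₀
      rw [hfix] at this
      rw [← this]
      exact ⟨w, hw, rfl⟩
    have hinv : ∀ w ∈ D i₀, ((g⁻¹ : GL ι F) : Matrix ι ι F) *ᵥ w ∈ D i₀ := by
      intro w hw
      have h2 := hπ i₀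
      rw [hfix] at h2
      rw [← h2] at hw
      obtain ⟨y, hy, rfl⟩ := hw
      simp only [Matrix.toLin'_apply]
      rw [gl_inv_mulVec]
      exact hy
    exact (mem_stab_iff _ _).mpr fun w => ⟨hst w, fun hw => by
      have := hinv _ hw
      rwa [gl_inv_mulVec] at this⟩
  · exfalso
    -- `g - 1` is injective on `D i₀`
    let L : (D i₀) →ₗ[F] LinearMap.range (Matrix.toLin' ((g : Matrix ι ι F) - 1)) :=
      { toFun := fun w => ⟨Matrix.toLin' ((g : Matrix ι ι F) - 1) w, LinearMap.mem_range_self _ _⟩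
        map_add' := fun x y => by
          apply Subtype.ext
          simp only [Submodule.coe_add, map_add]
        map_smul' := fun c x => by
          apply Subtype.ext
          simp only [Submodule.coe_smul, map_smul, RingHom.id_apply] }
    have hinj : Function.Injective L := by
      rw [← LinearMap.ker_eq_bot, eq_bot_iff]
      intro w hw
      have h2 : Matrix.toLin' ((g : Matrix ι ι F) - 1) (w : ι → F) = 0 := congrArg Subtype.val (LinearMap.mem_ker.mp hw)
      rw [Matrix.toLin'_apply, Matrix.sub_mulVec, Matrix.one_mulVec, sub_eq_zero] at h2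
      have h3 : (w : ι → F) ∈ D (π i₀) := by
        rw [← hπ]
        exact ⟨w, w.2, by simpa [Matrix.toLin'_apply] using h2⟩
      have h4 : (w : ι → F) ∈ D i₀ ⊓ D (π i₀) := ⟨w.2, h3⟩
      rw [hdisj i₀ (π i₀) (Ne.symm hfix)] at h4
      exact (Submodule.mem_bot F).mpr (Subtype.ext h4)
    have h5 := LinearMap.finrank_le_finrank_of_injective hinj
    have h6 := gen_rank hg
    have h7 := hD.finrank_eq i₀
    omega

/-- Isometry subgroups: extension fields of large degree -/
theorem OCtx.not_le_field [Fintype F] (C : OCtx Q K) (hn : 5 ≤ Fintype.card ι) {r : ℕ} (hr : 3 ≤ r) {K' : Subalgebra F (Matrix ι ι F)}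
    (hK' : IsFieldSubalgebra r K') : ¬ K ≤ subalgebraNormalizer K' := by
  classical
  intro hle
  obtain ⟨g, hg, hg1⟩ := C.exists_gen_ne hn
  have hgN : g ∈ subalgebraNormalizer K' := hle hg.1
  have hrk := gen_rank hg
  have hmem : ∀ k ∈ K', (g : Matrix ι ι F) * k * ((g⁻¹ : GL ι F) : Matrix ι ι F) ∈ K' := fun k hk => (hgN k).mp hk
  by_cases hcomm : ∀ k ∈ K', (g : Matrix ι ι F) * k * ((g⁻¹ : GL ι F) : Matrix ι ι F) = k
  · -- `g` centralises the field
    have hcomm' : ∀ k ∈ K', (g : Matrix ι ι F) * k = k * g := by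
      intro k hk
      have := hcomm k hk
      calc (g : Matrix ι ι F) * k = ((g : Matrix ι ι F) * k * ((g⁻¹ : GL ι F) : Matrix ι ι F)) * g := by
            rw [Matrix.mul_assoc, ← Units.val_mul, inv_mul_cancel, Units.val_one, Matrix.mul_one]
        _ = k * g := by rw [this]
    have hne1 : (g : Matrix ι ι F) - 1 ≠ 0 := by
      intro h
      apply hg1
      apply Units.ext
      rw [Units.val_one]
      exact sub_eq_zero.mp h
    obtain ⟨w₀, hw₀⟩ : ∃ x, ((g : Matrix ι ι F) - 1) *ᵥ x ≠ 0 := by
      by_contra hall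
      push Not at hall
      apply hne1
      apply Matrix.toLin'.injective
      apply LinearMap.ext
      intro x
      simpa [Matrix.toLin'_apply, Matrix.sub_mulVec] using hall x
    set w := ((g : Matrix ι ι F) - 1) *ᵥ w₀ with hw
    -- the map `k ↦ k w` is injective with values in the image
    let L : K' →ₗ[F] LinearMap.range (Matrix.toLin' ((g : Matrix ι ι F) - 1)) :=
      { toFun := fun k => ⟨(k : Matrix ι ι F) *ᵥ w, by
          refine ⟨(k : Matrix ι ι F) *ᵥ w₀, ?_⟩
          rw [Matrix.toLin'_apply, hw, Matrix.mulVec_mulVec, Matrix.mulVec_mulVec, Matrix.sub_mul, Matrix.mul_sub, hcomm' k k.2]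
          simp⟩
        map_add' := fun x y => by
          apply Subtype.ext
          simp only [Subalgebra.coe_add, Submodule.coe_add, Matrix.add_mulVec]
        map_smul' := fun c x => by
          apply Subtype.ext
          simp only [Subalgebra.coe_smul, Submodule.coe_smul, Matrix.smul_mulVec, RingHom.id_apply] }
    have hinj : Function.Injective L := by
      rw [← LinearMap.ker_eq_bot, eq_bot_iff]
      intro k hk
      have h2 : (k : Matrix ι ι F) *ᵥ w = 0 := congrArg Subtype.val (LinearMap.mem_ker.mp hk)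
      by_contra hk0
      have hk0' : (k : Matrix ι ι F) ≠ 0 := fun h => hk0 (by
        rw [Submodule.mem_bot]
        exact Subtype.ext h)
      obtain ⟨y, hy, hky⟩ := hK'.inv _ k.2 hk0'
      apply hw₀
      have h3 : y *ᵥ ((k : Matrix ι ι F) *ᵥ w) = w := by
        rw [Matrix.mulVec_mulVec, hK'.comm y hy _ k.2, hky, Matrix.one_mulVec]
      rw [h2, Matrix.mulVec_zero] at h3
      exact h3.symm
    have h5 := LinearMap.finrank_le_finrank_of_injective hinj
    rw [hK'.finrank_eq] at h5
    omega
  · push Not at hcomm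
    obtain ⟨k, hk, hne⟩ := hcomm
    set d := (g : Matrix ι ι F) * k * ((g⁻¹ : GL ι F) : Matrix ι ι F) - k with hd
    have hdK : d ∈ K' := K'.sub_mem (hmem k hk) hk
    have hd0 : d ≠ 0 := sub_ne_zero.mpr hne
    obtain ⟨y, hy, hdy⟩ := hK'.inv _ hdK hd0
    -- `v ↦ d v` embeds the fixed vectors in the image
    let L : (LinearMap.ker (Matrix.toLin' ((g : Matrix ι ι F) - 1))) →ₗ[F] LinearMap.range (Matrix.toLin' ((g : Matrix ι ι F) - 1)) :=
      { toFun := fun v => ⟨d *ᵥ (v : ι → F), by
          refine ⟨k *ᵥ (v : ι → F), ?_⟩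
          have hv : (g : Matrix ι ι F) *ᵥ (v : ι → F) = v := by
            have := LinearMap.mem_ker.mp v.2
            rwa [Matrix.toLin'_apply, Matrix.sub_mulVec, Matrix.one_mulVec, sub_eq_zero] at this
          have hv' : ((g⁻¹ : GL ι F) : Matrix ι ι F) *ᵥ (v : ι → F) = v := by
            conv_lhs => rw [← hv]
            exact gl_inv_mulVec g _
          have e5 : ((g : Matrix ι ι F) * k * ((g⁻¹ : GL ι F) : Matrix ι ι F)) *ᵥ (v : ι → F) =
              (g : Matrix ι ι F) *ᵥ (k *ᵥ (((g⁻¹ : GL ι F) : Matrix ι ι F) *ᵥ (v : ι → F))) := by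
            rw [Matrix.mulVec_mulVec, Matrix.mulVec_mulVec]
          rw [Matrix.toLin'_apply, hd, Matrix.sub_mulVec, Matrix.sub_mulVec, Matrix.one_mulVec, e5, hv']⟩
        map_add' := fun x y => by
          apply Subtype.ext
          simp only [Submodule.coe_add, Matrix.mulVec_add]
        map_smul' := fun c x => by
          apply Subtype.ext
          simp only [Submodule.coe_smul, Matrix.mulVec_smul, RingHom.id_apply] }
    have hinj : Function.Injective L := by
      rw [← LinearMap.ker_eq_bot, eq_bot_iff]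
      intro v hv
      have h2 : d *ᵥ (v : ι → F) = 0 := congrArg Subtype.val (LinearMap.mem_ker.mp hv)
      have h3 : y *ᵥ (d *ᵥ (v : ι → F)) = v := by
        rw [Matrix.mulVec_mulVec, hK'.comm y hy d hdK, hdy, Matrix.one_mulVec]
      rw [h2, Matrix.mulVec_zero] at h3
      exact (Submodule.mem_bot F).mpr (Subtype.ext h3.symm)
    have h5 := LinearMap.finrank_le_finrank_of_injective hinj
    have h6 := LinearMap.finrank_range_add_finrank_ker (Matrix.toLin' ((g : Matrix ι ι F) - 1))
    have h7 : Module.finrank F (ι → F) = Fintype.card ι := by simp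
    omega

end Cfsg.Agent.H97.Asch
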