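import Cfsg.Agent.Lib.H97G6

/-!
Non-containment in tensor squares; decompositions into three dimensional spaces over the field with three elements.
-/

set_option autoImplicit false
set_option linter.unusedSectionVars false
set_option linter.style.haveILetI false

namespace Cfsg.Agent.H97.Asch

open Matrix Cfsg Cfsg.Geo
open scoped MatrixGroups commutatorElement Kronecker

variable {ι : Type} [Fintype ι] [DecidableEq ι] {F : Type*} [Field F] {Q : (ι → F) → F} {K : Subgroup (GL ι F)}

section Two

variable {m : ℕ}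

/-- a pure tensor vector in a tensor square -/
def tv2 (x y : Fin m → F) : (Fin 2 → Fin m) → F := fun z => x (z 0) * y (z 1)

theorem pureM_mulVec_tv2 (A : Fin 2 → Matrix (Fin m) (Fin m) F) (x y : Fin m → F) :
    pureM A *ᵥ tv2 x y = tv2 (A 0 *ᵥ x) (A 1 *ᵥ y) := by
  classical
  ext z
  simp only [Matrix.mulVec, dotProduct, tv2, pureM_apply, Fin.prod_univ_two]
  rw [← (finTwoArrowEquiv (Fin m)).symm.sum_comp, Fintype.sum_prod_type, Finset.sum_mul_sum]
  refine Finset.sum_congr rfl fun a _ => Finset.sum_congr rfl fun b _ => ?_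
  simp only [finTwoArrowEquiv_symm_apply, Matrix.cons_val_zero, Matrix.cons_val_one]
  ring

theorem tv2_add_right (x y y' : Fin m → F) : tv2 x (y + y') = tv2 x y + tv2 x y' := by
  ext z
  simp [tv2, mul_add]

theorem tv2_smul_right (c : F) (x y : Fin m → F) : tv2 x (c • y) = c • tv2 x y := by
  ext z
  simp only [tv2, Pi.smul_apply, smul_eq_mul]
  ring

theorem tv2_add_left (x x' y : Fin m → F) : tv2 (x + x') y = tv2 x y + tv2 x' y := by
  ext z
  simp [tv2, add_mul]

theorem tv2_smul_left (c : F) (x y : Fin m → F) : tv2 (c • x) y = c • tv2 x y := by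
  ext z
  simp only [tv2, Pi.smul_apply, smul_eq_mul]
  ring

theorem scalar_of_all_eigen {κ : Type} [Fintype κ] [DecidableEq κ] {a : Matrix κ κ F}
    (h : ∀ x : κ → F, ∃ c : F, a *ᵥ x = c • x) : ∃ c : F, a = c • 1 := by
  classical
  by_cases hne : Nonempty κ
  · obtain ⟨i₀⟩ := hne
    choose cc hcc using fun i : κ => h (Pi.single i 1)
    have happ : ∀ i j, a i j = cc j * (if i = j then 1 else 0) := by
      intro i j
      have h1 := congrFun (hcc j) i
      simp only [Matrix.mulVec_single_one, Matrix.col_apply, Pi.smul_apply, smul_eq_mul, Pi.single_apply] at h1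
      exact h1
    have hsame : ∀ i j, cc i = cc j := by
      intro i j
      by_cases hij : i = j
      · rw [hij]
      obtain ⟨c, hc⟩ := h (Pi.single i 1 + Pi.single j 1)
      have h1 := congrFun hc i
      have h2 := congrFun hc j
      simp only [Matrix.mulVec_add, Matrix.mulVec_single_one, Pi.add_apply, Matrix.col_apply, Pi.smul_apply, smul_eq_mul, Pi.single_apply, happ] at h1 h2
      simp only [if_true, if_neg hij, if_neg (Ne.symm hij), mul_one, mul_zero, add_zero, zero_add] at h1 h2
      rw [h1, h2]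
    refine ⟨cc i₀, ?_⟩
    ext i j
    rw [happ, Matrix.smul_apply, Matrix.one_apply, smul_eq_mul, hsame j i₀]
  · refine ⟨0, ?_⟩
    ext i
    exact absurd ⟨i⟩ hne

theorem pureM_smul' {t : ℕ} (c : Fin t → F) (B : Fin t → Matrix (Fin m) (Fin m) F) :
    pureM (fun i => c i • B i) = (∏ i, c i) • pureM B := by
  ext x y
  simp [pureM_apply, Finset.prod_mul_distrib]

/-- Pure tensors with small image of `g - 1` are trivial. -/
theorem pure2_rank (hm : 3 ≤ m) (A : Fin 2 → Matrix (Fin m) (Fin m) F)
    (h : Module.finrank F (LinearMap.range (Matrix.toLin' (pureM A - 1))) ≤ 2) : pureM A = 1 := by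
  classical
  set G := pureM A with hG
  have hact : ∀ x y : Fin m → F, (G - 1) *ᵥ tv2 x y = tv2 (A 0 *ᵥ x) (A 1 *ᵥ y) - tv2 x y := by
    intro x y
    rw [Matrix.sub_mulVec, Matrix.one_mulVec, hG, pureM_mulVec_tv2]
  have hne : Nonempty (Fin m) := ⟨⟨0, by omega⟩⟩
  have hA0 : ∃ c : F, A 0 = c • 1 := by
    apply scalar_of_all_eigen
    intro x
    by_contra hx
    push Not at hx
    let L : (Fin m → F) →ₗ[F] LinearMap.range (Matrix.toLin' (G - 1)) :=
      { toFun := fun y => ⟨Matrix.toLin' (G - 1) (tv2 x y), LinearMap.mem_range_self _ _⟩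
        map_add' := fun y y' => by
          apply Subtype.ext
          simp only [tv2_add_right, map_add, Submodule.coe_add]
        map_smul' := fun c y => by
          apply Subtype.ext
          simp only [tv2_smul_right, map_smul, Submodule.coe_smul, RingHom.id_apply] }
    have hinj : Function.Injective L := by
      rw [← LinearMap.ker_eq_bot, eq_bot_iff]
      intro y hy
      have h1 : Matrix.toLin' (G - 1) (tv2 x y) = 0 := congrArg Subtype.val (LinearMap.mem_ker.mp hy)
      rw [Matrix.toLin'_apply, hact, sub_eq_zero] at h1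
      rw [Submodule.mem_bot]
      by_contra hy0
      obtain ⟨j, hj⟩ := Function.ne_iff.mp hy0
      have hj' : y j ≠ 0 := hj
      have h2 : ∀ i, (A 0 *ᵥ x) i * (A 1 *ᵥ y) j = x i * y j := by
        intro i
        have := congrFun h1 (![i, j])
        simpa [tv2] using this
      by_cases h3 : (A 1 *ᵥ y) j = 0
      · apply hx 0
        have hx0 : x = 0 := by
          funext i
          have h4 := h2 i
          rw [h3, mul_zero] at h4
          exact (mul_eq_zero.mp h4.symm).resolve_right hj'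
        rw [hx0]
        simp
      · apply hx (y j / (A 1 *ᵥ y) j)
        funext i
        have h4 := h2 i
        simp only [Pi.smul_apply, smul_eq_mul]
        field_simp
        linear_combination h4
    have h5 := LinearMap.finrank_le_finrank_of_injective hinj
    simp at h5
    omega
  have hA1 : ∃ c : F, A 1 = c • 1 := by
    apply scalar_of_all_eigen
    intro y
    by_contra hx
    push Not at hx
    let L : (Fin m → F) →ₗ[F] LinearMap.range (Matrix.toLin' (G - 1)) :=
      { toFun := fun x => ⟨Matrix.toLin' (G - 1) (tv2 x y), LinearMap.mem_range_self _ _⟩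
        map_add' := fun x x' => by
          apply Subtype.ext
          simp only [tv2_add_left, map_add, Submodule.coe_add]
        map_smul' := fun c x => by
          apply Subtype.ext
          simp only [tv2_smul_left, map_smul, Submodule.coe_smul, RingHom.id_apply] }
    have hinj : Function.Injective L := by
      rw [← LinearMap.ker_eq_bot, eq_bot_iff]
      intro x hy
      have h1 : Matrix.toLin' (G - 1) (tv2 x y) = 0 := congrArg Subtype.val (LinearMap.mem_ker.mp hy)
      rw [Matrix.toLin'_apply, hact, sub_eq_zero] at h1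
      rw [Submodule.mem_bot]
      by_contra hy0
      obtain ⟨j, hj⟩ := Function.ne_iff.mp hy0
      have hj' : x j ≠ 0 := hj
      have h2 : ∀ i, (A 0 *ᵥ x) j * (A 1 *ᵥ y) i = x j * y i := by
        intro i
        have := congrFun h1 (![j, i])
        simpa [tv2] using this
      by_cases h3 : (A 0 *ᵥ x) j = 0
      · apply hx 0
        have hx0 : y = 0 := by
          funext i
          have h4 := h2 i
          rw [h3, zero_mul] at h4
          exact (mul_eq_zero.mp h4.symm).resolve_left hj'
        rw [hx0]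
        simp
      · apply hx (x j / (A 0 *ᵥ x) j)
        funext i
        have h4 := h2 i
        simp only [Pi.smul_apply, smul_eq_mul]
        field_simp
        linear_combination h4
    have h5 := LinearMap.finrank_le_finrank_of_injective hinj
    simp at h5
    omega
  obtain ⟨α, hα⟩ := hA0
  obtain ⟨β, hβ⟩ := hA1
  have hGs : G = (α * β) • 1 := by
    have e1 : A = fun i => (![α, β] i) • (1 : Fin 2 → Matrix (Fin m) (Fin m) F) i := by
      funext i
      fin_cases i
      · simpa using hα
      · simpa using hβ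
    rw [hG, e1, pureM_smul']
    have e2 : pureM (1 : Fin 2 → Matrix (Fin m) (Fin m) F) = 1 := pureM_one
    rw [e2]
    simp [Fin.prod_univ_two]
  by_cases hab : α * β = 1
  · rw [hGs, hab, one_smul]
  · exfalso
    have hsub : G - 1 = (α * β - 1) • 1 := by
      rw [hGs, sub_smul, one_smul]
    have htop : LinearMap.range (Matrix.toLin' (G - 1)) = ⊤ := by
      rw [LinearMap.range_eq_top]
      intro z
      refine ⟨(α * β - 1)⁻¹ • z, ?_⟩
      rw [Matrix.toLin'_apply, hsub, Matrix.smul_mulVec, Matrix.one_mulVec, smul_smul, mul_inv_cancel₀ (sub_ne_zero.mpr hab), one_smul]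
    rw [htop, finrank_top] at h
    simp at h
    have h9 : 3 ^ 2 ≤ m ^ 2 := Nat.pow_le_pow_left hm 2
    omega

theorem perm_two_sq (τ : Equiv.Perm (Fin 2)) : τ * τ = 1 := by
  revert τ
  decide

/-- Siegel transformations do not lie in a stabiliser of a tensor square -/
theorem OCtx.not_le_wreath2 [Fintype F] (C : OCtx Q K) (hn : 5 ≤ Fintype.card ι) (hm : 3 ≤ m) (e : ι ≃ (Fin 2 → Fin m)) (P : GL ι F) :
    ¬ K ≤ tensorWreathSubgroup m 2 e P := by
  classical
  intro hle
  obtain ⟨g, hg, hg1⟩ := C.exists_gen_ne hn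
  obtain ⟨_, ⟨G, hG, rfl⟩, hgh⟩ := hle hg.1
  have hgh' : g = P * glReindex e.symm G * P⁻¹ := hgh.symm
  obtain ⟨τ, gs, hgn⟩ := wreath_nf hG
  have hG2 : G * G = pureG ((gs ∘ τ) * gs) := by
    rw [hgn]
    calc permG τ * pureG gs * (permG τ * pureG gs) = permG τ * (pureG gs * permG τ) * pureG gs := by group
      _ = permG τ * (permG τ * pureG (gs ∘ τ)) * pureG gs := by rw [pureG_permG]
      _ = (permG τ * permG τ) * (pureG (gs ∘ τ) * pureG gs) := by group
      _ = _ := by
        rw [permG_mul, perm_two_sq, pureG_mul]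
        have : (permG 1 : GL (Fin 2 → Fin m) F) = 1 := by
          apply Units.ext
          rw [permG_val, permM_one, Units.val_one]
        rw [this, one_mul]
  have hsq := gen_sq C hg
  have h2 := C.two
  have hgg : (g : Matrix ι ι F) * (g : Matrix ι ι F) - 1 = (2 : F) • ((g : Matrix ι ι F) - 1) := by
    generalize (g : Matrix ι ι F) = M at hsq
    have e1 : (M - 1) * (M - 1) = M * M - (2 : F) • M + 1 := by
      rw [sub_mul, mul_sub, two_smul]
      simp only [mul_one, one_mul]
      abel
    rw [e1] at hsq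
    rw [smul_sub, two_smul, two_smul]
    have e2 : M * M - 1 - (M + M - (1 + 1)) = M * M - (M + M) + 1 := by
      abel
    rw [two_smul] at hsq
    rw [← sub_eq_zero, e2]
    exact hsq
  have hrg : Module.finrank F (LinearMap.range (Matrix.toLin' ((g : Matrix ι ι F) * (g : Matrix ι ι F) - 1))) ≤ 2 := by
    refine le_trans (Submodule.finrank_mono ?_) (gen_rank hg)
    rintro _ ⟨x, rfl⟩
    refine ⟨(2 : F) • x, ?_⟩
    rw [Matrix.toLin'_apply, Matrix.toLin'_apply, hgg, Matrix.mulVec_smul, Matrix.smul_mulVec]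
  -- coordinates
  let Φ : ((Fin 2 → Fin m) → F) →ₗ[F] (ι → F) :=
    (Matrix.toLin' (P : Matrix ι ι F)).comp (LinearMap.funLeft F F e)
  have hΦ : ∀ z, Φ z = (P : Matrix ι ι F) *ᵥ (z ∘ e) := fun z => rfl
  have hΦinj : Function.Injective Φ := by
    intro z z' hzz
    rw [hΦ, hΦ] at hzz
    have h3 := gl_mulVec_injective P hzz
    funext w
    have := congrFun h3 (e.symm w)
    simpa using this
  have hact1 : ∀ z, (g : Matrix ι ι F) *ᵥ Φ z = Φ ((G : Matrix (Fin 2 → Fin m) (Fin 2 → Fin m) F) *ᵥ z) := by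
    intro z
    rw [hΦ, hΦ, hgh', gl_mulVec_mul, gl_mulVec_mul, gl_inv_mulVec, reindex_mulVec]
  have hact2 : ∀ z, ((g : Matrix ι ι F) * (g : Matrix ι ι F) - 1) *ᵥ Φ z =
      Φ (((G : Matrix (Fin 2 → Fin m) (Fin 2 → Fin m) F) * (G : Matrix (Fin 2 → Fin m) (Fin 2 → Fin m) F) - 1) *ᵥ z) := by
    intro z
    rw [Matrix.sub_mulVec, Matrix.sub_mulVec, Matrix.one_mulVec, Matrix.one_mulVec, map_sub, ← Matrix.mulVec_mulVec, ← Matrix.mulVec_mulVec,
      hact1, hact1]
  have hpm : ((G : Matrix (Fin 2 → Fin m) (Fin 2 → Fin m) F) * (G : Matrix (Fin 2 → Fin m) (Fin 2 → Fin m) F)) = pureM (fun i => (((gs ∘ τ) * gs) i : Matrix (Fin m) (Fin m) F)) := by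
    rw [← Units.val_mul, hG2, pureG_val]
  have hrG : Module.finrank F (LinearMap.range (Matrix.toLin' (pureM (fun i => (((gs ∘ τ) * gs) i : Matrix (Fin m) (Fin m) F)) - 1))) ≤ 2 := by
    rw [← hpm]
    let L : LinearMap.range (Matrix.toLin' ((G : Matrix (Fin 2 → Fin m) (Fin 2 → Fin m) F) * (G : Matrix (Fin 2 → Fin m) (Fin 2 → Fin m) F) - 1)) →ₗ[F]
        LinearMap.range (Matrix.toLin' ((g : Matrix ι ι F) * (g : Matrix ι ι F) - 1)) :=
      { toFun := fun w => ⟨Φ w, by
          obtain ⟨z, hz⟩ := w.2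
          refine ⟨Φ z, ?_⟩
          rw [Matrix.toLin'_apply, hact2, ← hz, Matrix.toLin'_apply]⟩
        map_add' := fun x y => by
          apply Subtype.ext
          simp only [Submodule.coe_add, map_add]
        map_smul' := fun c x => by
          apply Subtype.ext
          simp only [Submodule.coe_smul, map_smul, RingHom.id_apply] }
    have hL : Function.Injective L := by
      intro x y hxy
      exact Subtype.ext (hΦinj (congrArg Subtype.val hxy))
    exact (LinearMap.finrank_le_finrank_of_injective hL).trans hrg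
  have hp1 := pure2_rank hm _ hrG
  rw [← hpm] at hp1
  -- so `g` is an involution and hence trivial
  have hgg1 : (g : Matrix ι ι F) * (g : Matrix ι ι F) = 1 := by
    apply Matrix.toLin'.injective
    apply LinearMap.ext
    intro x
    simp only [Matrix.toLin'_apply, Matrix.one_mulVec]
    have hsurj : ∃ z, Φ z = x := by
      refine ⟨(((P⁻¹ : GL ι F) : Matrix ι ι F) *ᵥ x) ∘ e.symm, ?_⟩
      rw [hΦ]
      have : ((((P⁻¹ : GL ι F) : Matrix ι ι F) *ᵥ x) ∘ e.symm) ∘ e = ((P⁻¹ : GL ι F) : Matrix ι ι F) *ᵥ x := by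
        funext w
        simp
      rw [this]
      exact gl_mulVec_inv P x
    obtain ⟨z, rfl⟩ := hsurj
    rw [← Matrix.mulVec_mulVec, hact1, hact1, Matrix.mulVec_mulVec, hp1, Matrix.one_mulVec]
  apply hg1
  apply Units.ext
  rw [Units.val_one]
  have h3 : (2 : F) • ((g : Matrix ι ι F) - 1) = 0 := by
    rw [← hgg, hgg1, sub_self]
  have h4 : (g : Matrix ι ι F) - 1 = 0 := by
    have := congrArg (fun M => (2 : F)⁻¹ • M) h3
    simpa [smul_smul, inv_mul_cancel₀ h2] using this
  exact sub_eq_zero.mp h4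

end Two

section Three

variable [Fintype F]

/-- an orthogonal family is linearly independent -/
theorem li_of_orth {σ : F →+* F} {f : (ι → F) → (ι → F) → F} (hS : Sesq σ f) {κ : Type} [Fintype κ] [DecidableEq κ] {w : κ → (ι → F)}
    (h1 : ∀ a b, a ≠ b → f (w a) (w b) = 0) (h2 : ∀ a, f (w a) (w a) ≠ 0) : LinearIndependent F w := by
  classical
  rw [Fintype.linearIndependent_iff]
  intro c hc a
  have h3 : f (∑ b, c b • w b) (w a) = c a * f (w a) (w a) := by
    rw [hS.sum_left, Finset.sum_eq_single a]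
    · rw [hS.smul_left]
    · intro b _ hb
      rw [hS.smul_left, h1 b a hb, mul_zero]
    · simp
  rw [hc, hS.zero_left] at h3
  exact (mul_eq_zero.mp h3.symm).resolve_right (h2 a)

/-- three orthogonal vectors of non-zero norm over the field with three elements can be normalised -/
theorem f3_normalise (C : OCtx Q K) (hq : Fintype.card F = 3) {W : Submodule F (ι → F)} {v : Fin 3 → (ι → F)} (hv : ∀ i, v i ∈ W)
    (h1 : ∀ i j, i ≠ j → QuadraticMap.polar Q (v i) (v j) = 0) (h2 : ∀ i, Q (v i) ≠ 0) :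
    ∃ (w : Fin 3 → (ι → F)) (c : F), c ≠ 0 ∧ (∀ i, w i ∈ W) ∧ (∀ i j, i ≠ j → QuadraticMap.polar Q (w i) (w j) = 0) ∧ ∀ i, Q (w i) = c := by
  classical
  have hsq : ∀ i, Q (v i) ^ 2 = 1 := fun i => f3_sq hq (h2 i)
  have hdich : ∀ a b : F, a ^ 2 = 1 → b ^ 2 = 1 → a = b ∨ a = -b := by
    intro a b ha hb
    have : (a - b) * (a + b) = 0 := by linear_combination ha - hb
    rcases mul_eq_zero.mp this with h | h
    · exact Or.inl (sub_eq_zero.mp h)
    · exact Or.inr (eq_neg_of_add_eq_zero_left h)
  have h3 : (3 : F) = 0 := f3_three hq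
  -- the key transformation
  have key : ∀ p q r : Fin 3, p ≠ q → p ≠ r → q ≠ r → Q (v p) = Q (v q) → Q (v r) = - Q (v p) →
      ∃ (w : Fin 3 → (ι → F)) (c : F), c ≠ 0 ∧ (∀ i, w i ∈ W) ∧ (∀ i j, i ≠ j → QuadraticMap.polar Q (w i) (w j) = 0) ∧ ∀ i, Q (w i) = c := by
    intro p q r hpq hpr hqr hE hN
    have hsum : Q (v p + v q) = - Q (v p) := by
      rw [Q_add' Q, h1 p q hpq, ← hE]
      linear_combination (Q (v p)) * h3
    have hdiff : Q (v p - v q) = - Q (v p) := by
      have e : v p - v q = v p + (-1 : F) • v q := by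
        rw [neg_one_smul, sub_eq_add_neg]
      rw [e, Q_add' Q, C.polar_smul_right, h1 p q hpq, C.Q_smul, ← hE]
      linear_combination (Q (v p)) * h3
    have horth : QuadraticMap.polar Q (v p + v q) (v p - v q) = 0 := by
      rw [C.polar_add_left, C.polar_sub_right, C.polar_sub_right, C.self, C.self, h1 p q hpq, h1 q p hpq.symm, ← hE]
      ring
    have hall : ∀ s : Fin 3, s = p ∨ s = q ∨ s = r := by
      intro s
      revert hpq hpr hqr
      clear * -
      revert p q r s
      decide
    let w : Fin 3 → (ι → F) := fun s => if s = p then v p + v q else if s = q then v p - v q else v r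
    have hwp : w p = v p + v q := by simp [w]
    have hwq : w q = v p - v q := by simp [w, hpq.symm]
    have hwr : w r = v r := by simp [w, hpr.symm, hqr.symm]
    have hrp : QuadraticMap.polar Q (v r) (v p) = 0 := h1 r p hpr.symm
    have hrq : QuadraticMap.polar Q (v r) (v q) = 0 := h1 r q hqr.symm
    have hpr' : QuadraticMap.polar Q (v p) (v r) = 0 := h1 p r hpr
    have hqr' : QuadraticMap.polar Q (v q) (v r) = 0 := h1 q r hqr
    have comm : ∀ x y, QuadraticMap.polar Q x y = QuadraticMap.polar Q y x := fun x y => QuadraticMap.polar_comm Q x y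
    refine ⟨w, - Q (v p), neg_ne_zero.mpr (h2 p), ?_, ?_, ?_⟩
    · intro s
      rcases hall s with rfl | rfl | rfl
      · rw [hwp]
        exact W.add_mem (hv _) (hv _)
      · rw [hwq]
        exact W.sub_mem (hv _) (hv _)
      · rw [hwr]
        exact hv _
    · intro s s' hs
      rcases hall s with rfl | rfl | rfl <;> rcases hall s' with rfl | rfl | rfl
      · exact absurd rfl hs
      · rw [hwp, hwq]
        exact horth
      · rw [hwp, hwr, C.polar_add_left, hpr', hqr', add_zero]
      · rw [hwq, hwp, comm]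
        exact horth
      · exact absurd rfl hs
      · rw [hwq, hwr, C.polar_sub_left, hpr', hqr', sub_zero]
      · rw [hwr, hwp, C.polar_add_right, hrp, hrq, add_zero]
      · rw [hwr, hwq, C.polar_sub_right, hrp, hrq, sub_zero]
      · exact absurd rfl hs
    · intro s
      rcases hall s with rfl | rfl | rfl
      · rw [hwp, hsum]
      · rw [hwq, hdiff]
      · rw [hwr, hN]
  rcases hdich _ _ (hsq 0) (hsq 1) with h01 | h01
  · rcases hdich _ _ (hsq 0) (hsq 2) with h02 | h02
    · refine ⟨v, Q (v 0), h2 0, hv, h1, fun i => ?_⟩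
      fin_cases i
      · rfl
      · exact h01.symm
      · exact h02.symm
    · exact key 0 1 2 (by decide) (by decide) (by decide) h01 (by rw [h02]; ring)
  · rcases hdich _ _ (hsq 0) (hsq 2) with h02 | h02
    · exact key 0 2 1 (by decide) (by decide) (by decide) h02 (by rw [h01]; ring)
    · have h12 : Q (v 1) = Q (v 2) := by
        have : - Q (v 1) = - Q (v 2) := by rw [← h01, ← h02]
        exact neg_injective this
      exact key 1 2 0 (by decide) (by decide) (by decide) h12 (by rw [h01])

/-- A decomposition into three dimensional spaces over the field with three elements gives a frame. -/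
theorem f3_decomp_frame (C : OCtx Q K) (hq : Fintype.card F = 3) {t : ℕ} {D : Fin t → Submodule F (ι → F)}
    (hD : IsOrthogonalMDecomposition Q 3 D) {H : Subgroup (GL ι F)} (hfix : ∀ g ∈ H, ∀ v, Q ((g : Matrix ι ι F) *ᵥ v) = Q v)
    (hle : H ≤ decompositionStabilizer D) :
    ∃ b : Module.Basis ι F (ι → F), (∀ i j, i ≠ j → QuadraticMap.polar Q (b i) (b j) = 0) ∧
      (∀ i, QuadraticMap.polar Q (b i) (b i) ≠ 0) ∧ ∀ h ∈ H, ∀ i, ∃ j, ∃ c : F, (h : Matrix ι ι F) *ᵥ b i = c • b j := by
  classical
  have hC := C.fctx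
  have hdec := hD.decomp.decomp
  have ht := hdec.two_le
  let i₀ : Fin t := ⟨0, by omega⟩
  have hTr : ∃ s : F, s + (RingHom.id F) s ≠ 0 := ⟨1, by simpa [one_add_one_eq_two] using C.two⟩
  obtain ⟨v₀, hv₀, h₁, h₂⟩ := hC.exists_orth_family hTr 3 (D i₀) (hD.decomp.nondegenerate i₀) (hdec.finrank_eq i₀)
  have h₂' : ∀ i, Q (v₀ i) ≠ 0 := by
    intro i h
    apply h₂ i
    rw [C.self, h, mul_zero]
  obtain ⟨v, c, hc, hv, hvo, hvQ⟩ := f3_normalise C hq hv₀ h₁ h₂'
  choose iso hiso using fun i => hD.isometric i₀ i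
  let B : Fin t × Fin 3 → (ι → F) := fun p => (iso p.1 ⟨v p.2, hv p.2⟩ : D p.1)
  have hBmem : ∀ p, B p ∈ D p.1 := fun p => (iso p.1 ⟨v p.2, hv p.2⟩).2
  have hBQ : ∀ p, Q (B p) = c := fun p => by
    rw [hiso p.1 ⟨v p.2, hv p.2⟩]
    exact hvQ p.2
  have hBpolar : ∀ i (j j' : Fin 3), QuadraticMap.polar Q (B (i, j)) (B (i, j')) = QuadraticMap.polar Q (v j) (v j') := by
    intro i j j'
    simp only [QuadraticMap.polar]
    have e : B (i, j) + B (i, j') = (iso i ⟨v j + v j', (D i₀).add_mem (hv j) (hv j')⟩ : D i) := by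
      have e1 : (⟨v j + v j', (D i₀).add_mem (hv j) (hv j')⟩ : D i₀) = ⟨v j, hv j⟩ + ⟨v j', hv j'⟩ := rfl
      rw [e1, map_add]
      rfl
    rw [e, hiso i, hiso i, hiso i]
  have hBorth : ∀ p p' : Fin t × Fin 3, p ≠ p' → QuadraticMap.polar Q (B p) (B p') = 0 := by
    rintro ⟨i, j⟩ ⟨i', j'⟩ hne
    by_cases hii : i = i'
    · subst hii
      have hjj : j ≠ j' := fun h => hne (by rw [h])
      rw [hBpolar]
      exact hvo j j' hjj
    · exact hD.decomp.orthogonal i i' hii _ (hBmem (i, j)) _ (hBmem (i', j'))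
  have hc2 : 2 * c ≠ 0 := mul_ne_zero C.two hc
  have hBself : ∀ p, QuadraticMap.polar Q (B p) (B p) = 2 * c := fun p => by rw [C.self, hBQ]
  have hli : LinearIndependent F B := li_of_orth hC.sesq hBorth (fun p => by rw [hBself]; exact hc2)
  have hcard : Fintype.card (Fin t × Fin 3) = Fintype.card ι := by
    have := card_of_mdecomp hdec
    simpa using this
  have hneidx : Nonempty (Fin t × Fin 3) := ⟨(i₀, 0)⟩
  let b₀ : Module.Basis (Fin t × Fin 3) F (ι → F) := basisOfLinearIndependentOfCardEqFinrank hli (by simp [hcard])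
  have hb₀ : ∀ p, b₀ p = B p := fun p => by simp [b₀]
  let e : Fin t × Fin 3 ≃ ι := Fintype.equivOfCardEq hcard
  have hb : ∀ i, (b₀.reindex e) i = B (e.symm i) := fun i => by simp [hb₀]
  refine ⟨b₀.reindex e, fun i j hij => ?_, fun i => ?_, fun h hh i => ?_⟩
  · rw [hb, hb]
    exact hBorth _ _ (fun h' => hij (e.symm.injective h'))
  · rw [hb, hBself]
    exact hc2
  · obtain ⟨π, hπ⟩ := hle hh
    set p := e.symm i with hp
    set x := (h : Matrix ι ι F) *ᵥ B p with hx
    have hxmem : x ∈ D (π p.1) := by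
      rw [← hπ]
      exact ⟨B p, hBmem p, rfl⟩
    have hxQ : Q x = c := by
      rw [hx, hfix h hh, hBQ]
    have hexp : x = ∑ p', b₀.repr x p' • B p' := by
      have := b₀.sum_repr x
      simp only [hb₀] at this
      exact this.symm
    have hcoef : ∀ p', QuadraticMap.polar Q x (B p') = b₀.repr x p' * (2 * c) := by
      intro p'
      conv_lhs => rw [hexp]
      rw [hC.sesq.sum_left, Finset.sum_eq_single p']
      · rw [hC.sesq.smul_left, hBself]
      · intro p'' _ hne
        rw [hC.sesq.smul_left, hBorth _ _ hne, mul_zero]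
      · simp
    have hzero : ∀ p' : Fin t × Fin 3, p'.1 ≠ π p.1 → b₀.repr x p' = 0 := by
      intro p' hne
      have h1 : QuadraticMap.polar Q x (B p') = 0 := hD.decomp.orthogonal _ _ hne.symm _ hxmem _ (hBmem p')
      rw [hcoef] at h1
      exact (mul_eq_zero.mp h1).resolve_right hc2
    have hsum : ∑ l : Fin 3, (b₀.repr x (π p.1, l)) ^ 2 = 1 := by
      have h1 : QuadraticMap.polar Q x x = 2 * c := by rw [C.self, hxQ]
      conv_lhs at h1 => rw [hexp]
      rw [hC.sesq.sum_left, Fintype.sum_prod_type, Finset.sum_eq_single (π p.1)] at h1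
      · have h2 : ∑ l : Fin 3, QuadraticMap.polar Q ((b₀.repr x) (π p.1, l) • B (π p.1, l)) (∑ p', b₀.repr x p' • B p') =
            (∑ l : Fin 3, (b₀.repr x (π p.1, l)) ^ 2) * (2 * c) := by
          rw [Finset.sum_mul]
          refine Finset.sum_congr rfl fun l _ => ?_
          rw [← hexp, hC.sesq.smul_left, QuadraticMap.polar_comm, hcoef]
          ring
        rw [h2] at h1
        have h3 : (∑ l : Fin 3, (b₀.repr x (π p.1, l)) ^ 2) * (2 * c) = 1 * (2 * c) := by rw [h1, one_mul]
        exact mul_right_cancel₀ hc2 h3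
      · intro a _ ha
        refine Finset.sum_eq_zero fun l _ => ?_
        rw [hzero (a, l) ha, zero_smul, hC.sesq.zero_left]
      · simp
    obtain ⟨s, hs, hs'⟩ := f3_sum hq hsum
    refine ⟨e (π p.1, s), b₀.repr x (π p.1, s), ?_⟩
    rw [hb i, hb (e (π p.1, s)), Equiv.symm_apply_apply]
    show (h : Matrix ι ι F) *ᵥ B p = _
    rw [← hx]
    conv_lhs => rw [hexp]
    rw [Finset.sum_eq_single (π p.1, s)]
    · intro p' _ hne
      by_cases h1 : p'.1 = π p.1
      · obtain ⟨a, l⟩ := p'
        simp only at h1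
        subst h1
        have hl : l ≠ s := fun h' => hne (by rw [h'])
        rw [hs' l hl, zero_smul]
      · rw [hzero p' h1, zero_smul]
    · simp

end Three

theorem frame_decomp' {σ : F →+* F} {ε : F} {f : (ι → F) → (ι → F) → F} {n : ℕ} (C : FCtx σ ε f) (hcard : Fintype.card ι = n) (hn : 2 ≤ n) {H : Subgroup (GL ι F)} (hirr : Irr H)
    (b : Module.Basis ι F (ι → F)) (horth : ∀ i j, i ≠ j → f (b i) (b j) = 0) (hd : ∀ i, f (b i) (b i) ≠ 0)
    (hb2 : ∀ h ∈ H, ∀ i, ∃ j, ∃ c : F, (h : Matrix ι ι F) *ᵥ b i = c • b j) :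
    ∃ D : Fin n → Submodule F (ι → F), IsNondegenerateMDecomposition f 1 D ∧
      H ≤ decompositionStabilizer D ∧ ∀ i j, ∃ h ∈ H, (D i).map (Matrix.toLin' (h : Matrix ι ι F)) = D j := by
  subst hcard
  exact frame_decomp C hn hirr b horth hd hb2

theorem OCtx.isometric_of_trans {t : ℕ} {D : Fin t → Submodule F (ι → F)} {H : Subgroup (GL ι F)}
    (hfixQ : ∀ g ∈ H, ∀ v, Q ((g : Matrix ι ι F) *ᵥ v) = Q v)
    (htr : ∀ i j, ∃ h ∈ H, (D i).map (Matrix.toLin' (h : Matrix ι ι F)) = D j) : ∀ i j, AreIsometricFor Q (D i) (D j) := by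
  intro i j
  obtain ⟨h, hh, hmap⟩ := htr i j
  have hinj : Function.Injective (Matrix.toLin' (h : Matrix ι ι F)) := by
    intro x y hxy
    apply gl_mulVec_injective h
    simpa [Matrix.toLin'_apply] using hxy
  refine ⟨(Submodule.equivMapOfInjective _ hinj _).trans (LinearEquiv.ofEq _ _ hmap), fun w => ?_⟩
  show Q ((h : Matrix ι ι F) *ᵥ (w : ι → F)) = _
  exact hfixQ h hh _

theorem OCtx.line_aniso (C : OCtx Q K) {t : ℕ} {D : Fin t → Submodule F (ι → F)}
    (hD : IsNondegenerateMDecomposition (QuadraticMap.polar Q) 1 D) {b : Module.Basis (Fin t) F (ι → F)}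
    (hb : ∀ i, D i = Submodule.span F {b i}) (i : Fin t) : Q (b i) ≠ 0 := by
  intro h0
  have hmem : b i ∈ D i := by
    rw [hb]
    exact Submodule.mem_span_singleton_self _
  obtain ⟨x, hx, hfx⟩ := (hD.nondegenerate i _ hmem (b.ne_zero i)).2
  rw [hb] at hx
  obtain ⟨c, rfl⟩ := Submodule.mem_span_singleton.mp hx
  apply hfx
  rw [C.polar_smul_right, C.self, h0]
  ring

theorem subfield_ne_top [Fintype F] {F₀ : Subfield F} {r : ℕ} (h2 : Fintype.card F = Nat.card F₀ ^ r) (hr : r.Prime) : F₀ ≠ ⊤ := by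
  rintro rfl
  have h1 : Nat.card (⊤ : Subfield F) = Nat.card F := Nat.card_congr Subfield.topEquiv.toEquiv
  rw [← Nat.card_eq_fintype_card, h1] at h2
  have h3 : 1 < Nat.card F := Finite.one_lt_card
  have h4 : Nat.card F ^ 1 = Nat.card F ^ r := by rw [pow_one]; exact h2
  have h5 := Nat.pow_right_injective h3 h4
  exact hr.one_lt.ne h5

end Cfsg.Agent.H97.Asch
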