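import Cfsg.Agent.Lib.H97G7
import Cfsg.Agent.Lib.SympForm

/-!
Symplectic case: the conclusion of the reduction theorem; reducible groups, decompositions, quadratic forms,
extension fields.
-/

set_option autoImplicit false
set_option linter.unusedSectionVars false
set_option linter.style.haveILetI false

namespace Cfsg.Agent.H97.Asch

open Matrix Cfsg Cfsg.Geo
open scoped MatrixGroups commutatorElement Kronecker

variable {ι : Type} [Fintype ι] [DecidableEq ι] {F : Type*} [Field F] [Fintype F]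
  {f : (ι → F) → (ι → F) → F}

theorem symp_ctx (m : ℕ) : FCtx (RingHom.id F) (-1) (sympForm m F) where
  sesq := ⟨Cfsg.Agent.Lib.SympForm.sympForm_add_left, Cfsg.Agent.Lib.SympForm.sympForm_smul_left,
    Cfsg.Agent.Lib.SympForm.sympForm_add_right, fun c v x => by
      rw [Cfsg.Agent.Lib.SympForm.sympForm_smul_right]; rfl⟩
  ndr v hv := Cfsg.Agent.Lib.SympForm.exists_sympForm_ne_zero hv
  ndl v hv := by
    obtain ⟨x, hx⟩ := Cfsg.Agent.Lib.SympForm.exists_sympForm_ne_zero hv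
    refine ⟨x, fun h => hx ?_⟩
    rw [Cfsg.Agent.Lib.SympForm.sympForm_antisymm, h, neg_zero]
  invol _ := rfl
  herm u v := by
    rw [RingHom.id_apply, Cfsg.Agent.Lib.SympForm.sympForm_antisymm]
    ring

theorem two_eq_zero_of_not_odd (h : ¬ Odd (Fintype.card F)) : (2 : F) = 0 := by
  rw [Nat.not_odd_iff_even] at h
  obtain ⟨p, hp⟩ := CharP.exists F
  obtain ⟨n', hpp, hcp⟩ := FiniteField.card F p
  have hp2 : p = 2 := by
    rw [hcp] at h
    exact (Nat.Prime.even_iff hpp).mp (Nat.even_pow.mp h).1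
  subst hp2
  exact_mod_cast CharP.cast_eq_zero F 2

/-- The conclusion of the reduction theorem for groups of isometries of a symplectic form. -/
def SpOutcome (f : (ι → F) → (ι → F) → F) (H : Subgroup (GL ι F)) : Prop :=
  (∃ W : Submodule F (ι → F), W ≠ ⊥ ∧ IsTotallySingularFor f W ∧ H ≤ subspaceStabilizer W) ∨
  (∃ W : Submodule F (ι → F), W ≠ ⊥ ∧ IsNondegenerateOn f W ∧ 2 * Module.finrank F W < Fintype.card ι ∧ H ≤ subspaceStabilizer W) ∨
  (∃ (t k : ℕ) (D : Fin t → Submodule F (ι → F)), IsNondegenerateMDecomposition f k D ∧ H ≤ decompositionStabilizer D) ∨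
  (∃ (k : ℕ) (D : Fin 2 → Submodule F (ι → F)), Odd (Fintype.card F) ∧ IsMDecomposition k D ∧
      (∀ i, IsTotallySingularFor f (D i)) ∧ H ≤ decompositionStabilizer D) ∨
  (∃ (F₀ : Subfield F) (r : ℕ) (P : GL ι F) (ζ : F), r.Prime ∧ Fintype.card F = Nat.card F₀ ^ r ∧ ζ ≠ 0 ∧
      IsFormRationalStructure f F₀ ζ P ∧ H ≤ subfieldSubgroup F₀ P) ∨
  (∃ (R : Subgroup (GL ι F)) (p k : ℕ), IsSymplecticTypeGroup 2 R ∧
      ActsAbsolutelyIrreducibly (matrixSet R) ∧ R ≤ similarityGroup f ∧ p.Prime ∧ Odd p ∧ Fintype.card F = p ∧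
      Nat.card R = 2 ^ (1 + 2 * k) ∧ Nat.card (Subgroup.center R) = 2 ∧ IsOfMinusType k R ∧ Fintype.card ι = 2 ^ k ∧
      (∀ x ∈ R, ∀ y ∈ R, ∃ ξ : Fˣ, x * y = scU ξ * (y * x)) ∧ H ≤ subgroupNormalizer R) ∨
  (∃ Q : (ι → F) → F, ¬ Odd (Fintype.card F) ∧ IsNondegenerateQuadraticForm Q ∧
      (∀ u v, QuadraticMap.polar Q u v = f u v) ∧ H ≤ quadSimilarityGroup Q) ∨
  (∃ (r : ℕ) (K : Subalgebra F (Matrix ι ι F)), r.Prime ∧ IsFieldSubalgebra r K ∧
      IsSelfAdjointFor f K ∧ (∀ k ∈ K, ∀ v, f (k *ᵥ v) v = 0) ∧ H ≤ subalgebraNormalizer K) ∨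
  (∃ K : Subalgebra F (Matrix ι ι F), Odd (Fintype.card F) ∧ IsFieldSubalgebra 2 K ∧
      IsAdjointClosedFor f K ∧ ¬ IsSelfAdjointFor f K ∧ H ≤ subalgebraNormalizer K) ∨
  (∃ (n₁ n₂ : ℕ) (e : ι ≃ Fin n₁ × Fin n₂) (P : GL ι F)
      (f₁ : (Fin n₁ → F) → (Fin n₁ → F) → F) (f₂ : (Fin n₂ → F) → (Fin n₂ → F) → F),
      Odd (Fintype.card F) ∧ 3 ≤ n₂ ∧ IsSymplecticForm f₁ ∧ IsSymmetricForm f₂ ∧
      IsTensorFormStructure id f f₁ f₂ e P ∧ H ≤ tensorProductSubgroup n₁ n₂ e P) ∨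
  (∃ (k t : ℕ) (e : ι ≃ (Fin t → Fin k)) (P : GL ι F) (f₁ : (Fin k → F) → (Fin k → F) → F),
      Odd (Fintype.card F) ∧ Odd t ∧ 3 ≤ t ∧ ¬ (Fintype.card F = 3 ∧ k = 2) ∧ IsSymplecticForm f₁ ∧
      IsTensorPowerFormStructure id f f₁ e P ∧ H ≤ tensorWreathSubgroup k t e P) ∨
  InSymplecticResidualClass H

/-- the conversion to the classes of the statement -/
theorem SpOutcome.toClass {m : ℕ} {H : Subgroup (GL (Fin m ⊕ Fin m) F)} (hH : H ≤ spGL m F) (h : SpOutcome (sympForm m F) H) :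
    (∃ M : Subgroup (GL (Fin m ⊕ Fin m) F), InSymplecticClass m F M ∧ H ≤ M) ∨ InSymplecticResidualClass H := by
  have hcard : Fintype.card (Fin m ⊕ Fin m) = 2 * m := by simp; ring
  rcases h with ⟨W, h0, h1, h2⟩ | ⟨W, h0, h1, h2, h3⟩ | ⟨t, k, D, h1, h2⟩ | ⟨k, D, h0, h1, h2, h3⟩ |
    ⟨F₀, r, P, ζ, h0, h1, h2, h3, h4⟩ | ⟨R, p, k, h0, h1, h2, h3, h4, h5, h6, h7, h8, -, -, h9⟩ | ⟨Q, h0, h1, h2, h3⟩ |
    ⟨r, K, h0, h1, h2, h3, h4⟩ | ⟨K, h0, h1, h2, h3, h4⟩ | ⟨n₁, n₂, e, P, f₁, f₂, h0, h1, h2, h3, h4, h5⟩ |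
    ⟨k, t, e, P, f₁, h0, h1, h2, h3, h4, h5, h6⟩ | h
  · exact Or.inl ⟨_, Or.inl (Or.inl ⟨W, h0, h1, rfl⟩), le_inf h2 hH⟩
  · refine Or.inl ⟨_, Or.inl (Or.inr (Or.inl ⟨W, h0, h1, ?_, rfl⟩)), le_inf h3 hH⟩
    omega
  · exact Or.inl ⟨_, Or.inl (Or.inr (Or.inr (Or.inl ⟨t, k, D, h1, rfl⟩))), le_inf h2 hH⟩
  · have hk : k = m := by
      have := card_of_mdecomp h1
      simp at this
      omega
    subst hk
    exact Or.inl ⟨_, Or.inl (Or.inr (Or.inr (Or.inr (Or.inl ⟨D, h0, h1, h2, rfl⟩)))), le_inf h3 hH⟩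
  · exact Or.inl ⟨_, Or.inl (Or.inr (Or.inr (Or.inr (Or.inr (Or.inl ⟨F₀, r, P, ζ, h0, h1, h2, h3, rfl⟩))))), le_inf h4 hH⟩
  · exact Or.inl ⟨_, Or.inl (Or.inr (Or.inr (Or.inr (Or.inr (Or.inr (Or.inl ⟨R, p, k, h0, h1, h2, h3, h4, h5, h6, h7, h8, rfl⟩)))))), le_inf h9 hH⟩
  · exact Or.inl ⟨_, Or.inl (Or.inr (Or.inr (Or.inr (Or.inr (Or.inr (Or.inr ⟨Q, h0, h1, h2, rfl⟩)))))), le_inf h3 hH⟩
  · exact Or.inl ⟨_, Or.inr (Or.inl ⟨r, K, h0, h1, h2, h3, rfl⟩), le_inf h4 hH⟩
  · exact Or.inl ⟨_, Or.inr (Or.inr (Or.inl ⟨K, h0, h1, h2, h3, rfl⟩)), le_inf h4 hH⟩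
  · exact Or.inl ⟨_, Or.inr (Or.inr (Or.inr (Or.inl ⟨n₁, n₂, e, P, f₁, f₂, h0, h1, h2, h3, h4, rfl⟩))), le_inf h5 hH⟩
  · exact Or.inl ⟨_, Or.inr (Or.inr (Or.inr (Or.inr ⟨k, t, e, P, f₁, h0, h1, h2, h3, h4, h5, rfl⟩))), le_inf h6 hH⟩
  · exact Or.inr h

/-- a linear map of a stable subspace has image the same subspace. -/
theorem map_toLin_eq_of_stable {H : Subgroup (GL ι F)} {W : Submodule F (ι → F)} (hW : Stable H W) {g : GL ι F} (hg : g ∈ H) :
    W.map (Matrix.toLin' (g : Matrix ι ι F)) = W := by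
  apply le_antisymm
  · rintro _ ⟨w, hw, rfl⟩
    simpa [Matrix.toLin'_apply] using hW g hg w hw
  · intro w hw
    refine ⟨((g⁻¹ : GL ι F) : Matrix ι ι F) *ᵥ w, hW g⁻¹ (H.inv_mem hg) w hw, ?_⟩
    simp only [Matrix.toLin'_apply]
    exact gl_mulVec_inv g w

theorem two_mdecomp {U V : Submodule F (ι → F)} {k : ℕ} (h0 : 0 < k) (hU : Module.finrank F U = k) (hV : Module.finrank F V = k)
    (hd : U ⊓ V = ⊥) (hs : U ⊔ V = ⊤) : IsMDecomposition k ![U, V] := by
  refine ⟨le_rfl, h0, ?_, ?_, ?_⟩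
  · intro i
    fin_cases i
    · exact hU
    · exact hV
  · rw [iSupIndep_def]
    intro i
    fin_cases i
    · have : (⨆ j, ⨆ (_ : j ≠ (0 : Fin 2)), ![U, V] j) = V := by
        apply le_antisymm
        · refine iSup_le fun j => iSup_le fun hj => ?_
          fin_cases j
          · exact absurd rfl hj
          · exact le_rfl
        · exact le_iSup₂_of_le (1 : Fin 2) (by decide) le_rfl
      show Disjoint U _
      erw [this]
      exact disjoint_iff.mpr hd
    · have : (⨆ j, ⨆ (_ : j ≠ (1 : Fin 2)), ![U, V] j) = U := by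
        apply le_antisymm
        · refine iSup_le fun j => iSup_le fun hj => ?_
          fin_cases j
          · exact le_rfl
          · exact absurd rfl hj
        · exact le_iSup₂_of_le (0 : Fin 2) (by decide) le_rfl
      show Disjoint V _
      erw [this]
      exact (disjoint_iff.mpr hd).symm
  · rw [eq_top_iff, ← hs]
    refine sup_le ?_ ?_
    · exact le_iSup_of_le (0 : Fin 2) le_rfl
    · exact le_iSup_of_le (1 : Fin 2) le_rfl

theorem Sp.reducible_case (C : FCtx (RingHom.id F) (-1) f) {H : Subgroup (GL ι F)} (hfix : FFix f H) (hnot : ¬ Irr H) :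
    SpOutcome f H := by
  classical
  unfold Irr at hnot
  push Not at hnot
  obtain ⟨W, hW, h0, h1⟩ := hnot
  rcases C.reducible hfix hW h0 h1 with ⟨R, hR0, hRs, hRt⟩ | ⟨U, hU0, hU1, hUs, hUd⟩
  · exact Or.inl ⟨R, hR0, hRt, fun g hg => mem_stab_of_stable hRs hg⟩
  · obtain ⟨hd, hsup⟩ := C.perp_dims hUd
    have hUs' := C.stable_perp hfix hUs
    have hnU := C.nondeg_of_disj hUd
    have hnU' := C.nondeg_perp_of_disj hUd
    rcases lt_trichotomy (2 * Module.finrank F U) (Fintype.card ι) with hlt | heq | hgt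
    · exact Or.inr <| Or.inl ⟨U, hU0, hnU, hlt, fun g hg => mem_stab_of_stable hUs hg⟩
    · have hk : 0 < Module.finrank F U := by
        rw [Module.finrank_pos_iff_exists_ne_zero]
        obtain ⟨u, hu, hu0⟩ := (Submodule.ne_bot_iff U).mp hU0
        exact ⟨⟨u, hu⟩, fun h => hu0 (congrArg Subtype.val h)⟩
      have hV : Module.finrank F (C.perp U) = Module.finrank F U := by omega
      refine Or.inr <| Or.inr <| Or.inl ⟨2, Module.finrank F U, ![U, C.perp U], ⟨two_mdecomp hk rfl hV hUd hsup, ?_, ?_⟩, ?_⟩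
      · intro i
        fin_cases i
        · exact hnU
        · exact hnU'
      · intro i j hij
        fin_cases i <;> fin_cases j
        · exact absurd rfl hij
        · intro u hu v hv
          exact (C.mem_perp'.mp hv) u hu
        · intro u hu v hv
          exact hu v hv
        · exact absurd rfl hij
      · intro g hg
        refine ⟨1, fun i => ?_⟩
        fin_cases i
        · exact map_toLin_eq_of_stable hUs hg
        · exact map_toLin_eq_of_stable hUs' hg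
    · have hU0' := C.perp_ne_bot hUd hU1
      exact Or.inr <| Or.inl ⟨C.perp U, hU0', hnU', by omega, fun g hg => mem_stab_of_stable hUs' hg⟩

/-- A function on vectors with the scaling of a quadratic form whose polar form is `f` and with `f` preserved by `g`:
if it is preserved on a spanning set, it is preserved. -/
theorem quad_fixed_of_span (C : FCtx (RingHom.id F) (-1) f) {Q : (ι → F) → F} (hsmul : ∀ (c : F) v, Q (c • v) = c ^ 2 * Q v)
    (hpol : ∀ u v, QuadraticMap.polar Q u v = f u v) {g : GL ι F}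
    (hg : ∀ u v, f ((g : Matrix ι ι F) *ᵥ u) ((g : Matrix ι ι F) *ᵥ v) = f u v) {S : Set (ι → F)}
    (hS : Submodule.span F S = ⊤) (hfix : ∀ v ∈ S, Q ((g : Matrix ι ι F) *ᵥ v) = Q v) (v : ι → F) :
    Q ((g : Matrix ι ι F) *ᵥ v) = Q v := by
  have hmem : v ∈ Submodule.span F S := hS ▸ Submodule.mem_top
  have hQ0 : Q 0 = 0 := by
    have := hsmul 0 0
    simpa using this
  induction hmem using Submodule.span_induction with
  | mem x hx => exact hfix x hx
  | zero => rw [Matrix.mulVec_zero]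
  | add x y _ _ hx hy =>
    have h1 := hpol x y
    have h2 := hpol ((g : Matrix ι ι F) *ᵥ x) ((g : Matrix ι ι F) *ᵥ y)
    rw [hg] at h2
    simp only [QuadraticMap.polar] at h1 h2
    rw [Matrix.mulVec_add]
    linear_combination h2 - h1 + hx + hy
  | smul c x _ hx =>
    rw [Matrix.mulVec_smul, hsmul, hsmul, hx]

theorem quad_nondeg (C : FCtx (RingHom.id F) (-1) f) {Q : (ι → F) → F} (hsmul : ∀ (c : F) v, Q (c • v) = c ^ 2 * Q v)
    (hpol : ∀ u v, QuadraticMap.polar Q u v = f u v) : IsNondegenerateQuadraticForm Q := by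
  have hf : QuadraticMap.polar Q = f := by
    funext u v
    exact hpol u v
  refine ⟨hsmul, ?_, ?_⟩
  · rw [hf]
    exact ⟨C.sesq.add_left, C.sesq.smul_left, C.sesq.add_right, fun c v x => by
      have := C.sesq.smul_right c v x
      simpa using this⟩
  · rw [hf]
    exact fun v hv => ⟨C.ndl v hv, C.ndr v hv⟩

/-- A quadratic form in even characteristic with polar form `f`, vanishing on a spanning stable set. -/
theorem Sp.quad_outcome (C : FCtx (RingHom.id F) (-1) f) {H : Subgroup (GL ι F)} (hfix : FFix f H) (heven : ¬ Odd (Fintype.card F))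
    {Q : (ι → F) → F} (hsmul : ∀ (c : F) v, Q (c • v) = c ^ 2 * Q v)
    (hpol : ∀ u v, QuadraticMap.polar Q u v = f u v) (hQfix : ∀ g ∈ H, ∀ v, Q ((g : Matrix ι ι F) *ᵥ v) = Q v) :
    SpOutcome f H :=
  Or.inr <| Or.inr <| Or.inr <| Or.inr <| Or.inr <| Or.inr <| Or.inl
    ⟨Q, heven, quad_nondeg C hsmul hpol, hpol, fun g hg => ⟨1, fun v => by
      rw [hQfix g hg]; simp⟩⟩

theorem Sp.quad_outcome' (C : FCtx (RingHom.id F) (-1) f) {H : Subgroup (GL ι F)} (hfix : FFix f H) (heven : ¬ Odd (Fintype.card F))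
    {Q : (ι → F) → F} (hsmul : ∀ (c : F) v, Q (c • v) = c ^ 2 * Q v)
    (hpol : ∀ u v, QuadraticMap.polar Q u v = f u v) {S : Set (ι → F)}
    (hS : Submodule.span F S = ⊤) (hvan : ∀ v ∈ S, Q v = 0) (hstab : ∀ g ∈ H, ∀ v ∈ S, (g : Matrix ι ι F) *ᵥ v ∈ S) :
    SpOutcome f H :=
  Sp.quad_outcome C hfix heven hsmul hpol fun g hg v =>
    quad_fixed_of_span C hsmul hpol (hfix g hg) hS (fun x hx => by rw [hvan _ (hstab g hg x hx), hvan x hx]) v

/-- Class 2. -/
theorem Sp.class2_case (C : FCtx (RingHom.id F) (-1) f) (halt : ∀ v, f v v = 0) {H : Subgroup (GL ι F)} (hfix : FFix f H)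
    (h : FClass2 f H) : SpOutcome f H := by
  classical
  rcases h with ⟨t, k, D, hD, hle, -⟩ | ⟨k, D, hD, hts, hle⟩
  · exact Or.inr <| Or.inr <| Or.inl ⟨t, k, D, hD, hle⟩
  · by_cases hq : Odd (Fintype.card F)
    · exact Or.inr <| Or.inr <| Or.inr <| Or.inl ⟨k, D, hq, hD, hts, hle⟩
    · have h2 := two_eq_zero_of_not_odd hq
      have hS := C.sesq
      have hsk : ∀ u v, f u v = f v u := by
        intro u v
        rw [C.herm u v, RingHom.id_apply]
        linear_combination (-f v u) * h2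
      have hcompl : IsCompl (D 0) (D 1) := by
        constructor
        · have := hD.indep (0 : Fin 2)
          refine this.mono_right ?_
          exact le_iSup₂_of_le (1 : Fin 2) (by decide) le_rfl
        · rw [codisjoint_iff, eq_top_iff, ← hD.iSup_eq_top]
          refine iSup_le fun i => ?_
          fin_cases i
          · exact le_sup_left
          · exact le_sup_right
      let π₀ := Submodule.projectionOnto (D 0) (D 1) hcompl
      let π₁ := Submodule.projectionOnto (D 1) (D 0) hcompl.symm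
      have hl₀ : ∀ a (ha : a ∈ D 0), π₀ a = ⟨a, ha⟩ := fun a ha => Submodule.projectionOnto_apply_left hcompl ⟨a, ha⟩
      have hr₀ : ∀ b ∈ D 1, π₀ b = 0 := fun b hb => Submodule.projectionOnto_apply_right hcompl ⟨b, hb⟩
      have hl₁ : ∀ b (hb : b ∈ D 1), π₁ b = ⟨b, hb⟩ := fun b hb => Submodule.projectionOnto_apply_left hcompl.symm ⟨b, hb⟩
      have hr₁ : ∀ a ∈ D 0, π₁ a = 0 := fun a ha => Submodule.projectionOnto_apply_right hcompl.symm ⟨a, ha⟩
      have hsum : ∀ x : ι → F, ((π₀ x : D 0) : ι → F) + ((π₁ x : D 1) : ι → F) = x := by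
        intro x
        obtain ⟨a, ha, b, hb, rfl⟩ := Submodule.mem_sup.mp (hcompl.sup_eq_top ▸ Submodule.mem_top : x ∈ D 0 ⊔ D 1)
        rw [map_add, map_add, hl₀ a ha, hr₀ b hb, hr₁ a ha, hl₁ b hb]
        simp
      let Q : (ι → F) → F := fun x => f (π₀ x : D 0) (π₁ x : D 1)
      have hQ0 : ∀ x ∈ D 0, Q x = 0 := by
        intro x hx
        simp only [Q, hr₁ x hx]
        simpa using hS.zero_right _
      have hQ1 : ∀ x ∈ D 1, Q x = 0 := by
        intro x hx
        simp only [Q, hr₀ x hx]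
        simpa using hS.zero_left _
      have hsmul : ∀ (c : F) v, Q (c • v) = c ^ 2 * Q v := by
        intro c v
        simp only [Q, map_smul, Submodule.coe_smul]
        rw [hS.smul_left, hS.smul_right, RingHom.id_apply]
        ring
      have hpol : ∀ u v, QuadraticMap.polar Q u v = f u v := by
        intro u v
        simp only [QuadraticMap.polar, Q, map_add, Submodule.coe_add]
        rw [hS.add_left, hS.add_right, hS.add_right]
        conv_rhs => rw [← hsum u, ← hsum v]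
        rw [hS.add_left, hS.add_right, hS.add_right, hts 0 _ (π₀ u).2 _ (π₀ v).2, hts 1 _ (π₁ u).2 _ (π₁ v).2,
          hsk (π₁ u : ι → F) (π₀ v : ι → F)]
        ring
      refine Sp.quad_outcome' C hfix hq hsmul hpol (S := (D 0 : Set (ι → F)) ∪ D 1) ?_ ?_ ?_
      · rw [eq_top_iff, ← hcompl.sup_eq_top, sup_le_iff]
        constructor
        · intro x hx
          exact Submodule.subset_span (Or.inl hx)
        · intro x hx
          exact Submodule.subset_span (Or.inr hx)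
      · rintro v (hv | hv)
        · exact hQ0 v hv
        · exact hQ1 v hv
      · intro g hg v hv
        obtain ⟨τ, hτ⟩ := hle hg
        have hall : ∀ i, v ∈ D i → (g : Matrix ι ι F) *ᵥ v ∈ D (τ i) := by
          intro i hi
          rw [← hτ]
          exact ⟨v, hi, by simp [Matrix.toLin'_apply]⟩
        have hany : ∀ j : Fin 2, (g : Matrix ι ι F) *ᵥ v ∈ D j → (g : Matrix ι ι F) *ᵥ v ∈ (D 0 : Set (ι → F)) ∪ D 1 := by
          intro j hj
          fin_cases j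
          · exact Or.inl hj
          · exact Or.inr hj
        rcases hv with hv | hv
        · exact hany _ (hall 0 hv)
        · exact hany _ (hall 1 hv)

/-- Elements of a finite field of characteristic two subalgebra are squares. -/
theorem exists_sq_of_field {r : ℕ} {K : Subalgebra F (Matrix ι ι F)} (hK : IsFieldSubalgebra r K) (h2 : (2 : F) = 0) {k : Matrix ι ι F} (hk : k ∈ K) :
    ∃ l ∈ K, l * l = k := by
  classical
  have hinj : Function.Injective (fun x : K => x * x) := by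
    intro x y hxy
    have hxy' : (x : Matrix ι ι F) * x = (y : Matrix ι ι F) * y := congrArg Subtype.val hxy
    by_contra hne
    have h0 : (x : Matrix ι ι F) - y ≠ 0 := by
      intro h
      exact hne (Subtype.ext (sub_eq_zero.mp h))
    obtain ⟨z, hz, hzz⟩ := hK.inv _ (K.sub_mem x.2 y.2) h0
    have h3 : ((x : Matrix ι ι F) - y) * ((x : Matrix ι ι F) - y) = 0 := by
      have hc := hK.comm _ x.2 _ y.2
      have h2M : (2 : Matrix ι ι F) = (2 : F) • 1 := by
        rw [two_smul, one_add_one_eq_two]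
      have h4 : ∀ X : Matrix ι ι F, X + X = 0 := by
        intro X
        have : X + X = (2 : F) • X := by rw [two_smul]
        rw [this, h2, zero_smul]
      rw [sub_mul, mul_sub, mul_sub, hxy', hc]
      have h5 := h4 ((y : Matrix ι ι F) * y)
      have h6 := h4 ((y : Matrix ι ι F) * x)
      have e : (y : Matrix ι ι F) * y - y * x - (y * x - y * y) = (y * y + y * y) - (y * x + y * x) := by abel
      rw [e, h5, h6, sub_zero]
    apply h0
    calc (x : Matrix ι ι F) - y = ((x : Matrix ι ι F) - y) * (((x : Matrix ι ι F) - y) * z) := by rw [hzz, mul_one]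
      _ = 0 := by rw [← mul_assoc, h3, zero_mul]
  have hsurj := Finite.injective_iff_surjective.mp hinj
  obtain ⟨l, hl⟩ := hsurj ⟨k, hk⟩
  exact ⟨l, l.2, congrArg Subtype.val hl⟩

/-- Extension fields. -/
theorem Sp.field_case [Nonempty ι] (C : FCtx (RingHom.id F) (-1) f) (halt : ∀ v, f v v = 0) {H : Subgroup (GL ι F)} (hfix : FFix f H)
    {ℓ : ℕ} {K : Subalgebra F (Matrix ι ι F)} (hℓ : ℓ.Prime) (hK : IsFieldSubalgebra ℓ K) (hst : FStar C K)
    (hle : H ≤ subalgebraNormalizer K) : SpOutcome f H := by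
  classical
  have hS := C.sesq
  by_cases hsa : ∀ x ∈ K, C.adj x = x
  · refine Or.inr <| Or.inr <| Or.inr <| Or.inr <| Or.inr <| Or.inr <| Or.inr <| Or.inl
      ⟨ℓ, K, hℓ, hK, (selfAdjoint_iff C).mpr hsa, fun k hk v => ?_, hle⟩
    by_cases hq : Odd (Fintype.card F)
    · have h2 := two_ne_of_odd_card hq
      have h1 := C.adj_spec' k v v
      rw [hsa k hk] at h1
      have h3 := C.herm v (k *ᵥ v)
      simp only [RingHom.id_apply] at h3
      have h4 : 2 * f (k *ᵥ v) v = 0 := by linear_combination h1 + h3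
      exact (mul_eq_zero.mp h4).resolve_left h2
    · obtain ⟨l, hl, hll⟩ := exists_sq_of_field hK (two_eq_zero_of_not_odd hq) hk
      rw [← hll, ← Matrix.mulVec_mulVec, C.adj_spec', hsa l hl]
      exact halt _
  · push Not at hsa
    obtain ⟨x₀, hx₀, hne⟩ := hsa
    obtain ⟨rfl, hfixed⟩ := degree_two_of_nontrivial C (fun _ => rfl) hK hℓ hst hx₀ hne
    by_cases hq : Odd (Fintype.card F)
    · exact Or.inr <| Or.inr <| Or.inr <| Or.inr <| Or.inr <| Or.inr <| Or.inr <| Or.inr <| Or.inl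
        ⟨K, hq, hK, adjointClosed_of_star C hst, fun h => hne ((selfAdjoint_iff C).mp h x₀ hx₀), hle⟩
    · have h2 := two_eq_zero_of_not_odd hq
      have hX : ∀ X : Matrix ι ι F, X + X = 0 := by
        intro X
        have : X + X = (2 : F) • X := by rw [two_smul]
        rw [this, h2, zero_smul]
      have hNeg : ∀ X Y : Matrix ι ι F, X + Y = 0 → X = Y := by
        intro X Y h
        have h3 : X = X + (Y + Y) := by rw [hX, add_zero]
        rw [h3, ← add_assoc, h, zero_add]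
      have hsk : ∀ u v, f u v = f v u := by
        intro u v
        rw [C.herm u v, RingHom.id_apply]
        linear_combination (-f v u) * h2
      obtain ⟨c, hc⟩ := hfixed (x₀ + C.adj x₀) (K.add_mem hx₀ (hst _ hx₀)) (by rw [C.adj_add, C.adj_adj, add_comm])
      have hc0 : c ≠ 0 := by
        rintro rfl
        rw [zero_smul] at hc
        exact hne (hNeg _ _ hc).symm
      obtain ⟨ε₀, hε₀⟩ : ∃ ε₀ : Matrix ι ι F, ε₀ = c⁻¹ • x₀ := ⟨_, rfl⟩
      have hε₀K : ε₀ ∈ K := by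
        rw [hε₀]
        exact K.smul_mem hx₀ _
      have hε₀1 : ε₀ + C.adj ε₀ = 1 := by
        rw [hε₀, C.adj_smul, RingHom.id_apply, ← smul_add, hc, smul_smul, inv_mul_cancel₀ hc0, one_smul]
      let Q : (ι → F) → F := fun v => f (ε₀ *ᵥ v) v
      have hsmul : ∀ (c : F) v, Q (c • v) = c ^ 2 * Q v := by
        intro c v
        simp only [Q]
        rw [Matrix.mulVec_smul, hS.smul_left, hS.smul_right, RingHom.id_apply]
        ring
      have hpol : ∀ u v, QuadraticMap.polar Q u v = f u v := by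
        intro u v
        simp only [QuadraticMap.polar, Q]
        rw [Matrix.mulVec_add, hS.add_left, hS.add_right, hS.add_right]
        have e1 : f (ε₀ *ᵥ v) u = f (C.adj ε₀ *ᵥ u) v := by
          rw [C.adj_spec, hsk]
        have e2 : f u v = f (ε₀ *ᵥ u) v + f (C.adj ε₀ *ᵥ u) v := by
          rw [← hS.add_left, ← Matrix.add_mulVec, hε₀1, Matrix.one_mulVec]
        rw [e2, e1]
        ring
      refine Sp.quad_outcome C hfix hq hsmul hpol fun h hh v => ?_
      have hh' : h⁻¹ ∈ H := H.inv_mem hh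
      set y : Matrix ι ι F := ((h⁻¹ : GL ι F) : Matrix ι ι F) * ε₀ * ((h⁻¹⁻¹ : GL ι F) : Matrix ι ι F) with hy
      have hyK : y ∈ K := (hle hh' ε₀).mp hε₀K
      have hadjy : C.adj y = ((h⁻¹ : GL ι F) : Matrix ι ι F) * C.adj ε₀ * ((h⁻¹⁻¹ : GL ι F) : Matrix ι ι F) :=
        C.adj_conj (hfix _ hh') ε₀
      have hy1 : y + C.adj y = 1 := by
        rw [hadjy, hy, ← Matrix.add_mul, ← Matrix.mul_add, hε₀1, Matrix.mul_one, ← Units.val_mul, mul_inv_cancel, Units.val_one]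
      have hz : C.adj (y - ε₀) = y - ε₀ := by
        rw [C.adj_sub]
        have h3 : C.adj y = 1 - y := by rw [← hy1, add_sub_cancel_left]
        have h4 : C.adj ε₀ = 1 - ε₀ := by rw [← hε₀1, add_sub_cancel_left]
        rw [h3, h4]
        apply hNeg
        have : (1 - y - (1 - ε₀)) + (y - ε₀) = 0 := by abel
        exact this
      obtain ⟨s, hs⟩ := hfixed _ (K.sub_mem hyK hε₀K) hz
      have hy2 : y = ε₀ + s • 1 := by rw [← hs]; abel
      show f (ε₀ *ᵥ ((h : Matrix ι ι F) *ᵥ v)) ((h : Matrix ι ι F) *ᵥ v) = f (ε₀ *ᵥ v) v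
      have h5 := hfix _ hh' (ε₀ *ᵥ ((h : Matrix ι ι F) *ᵥ v)) ((h : Matrix ι ι F) *ᵥ v)
      rw [gl_inv_mulVec] at h5
      rw [← h5]
      have h6 : ((h⁻¹ : GL ι F) : Matrix ι ι F) *ᵥ (ε₀ *ᵥ ((h : Matrix ι ι F) *ᵥ v)) = y *ᵥ v := by
        rw [hy, ← Matrix.mulVec_mulVec, ← Matrix.mulVec_mulVec, inv_inv]
      rw [h6, hy2, Matrix.add_mulVec, hS.add_left, Matrix.smul_mulVec, Matrix.one_mulVec, hS.smul_left, halt, mul_zero, add_zero]

/-- The Galois twist of a bilinear form fixed by a group defined over a subfield. -/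
theorem form_rational_bil {P : Subgroup (GL ι F)} [Nonempty ι] (hS : Sesq (RingHom.id F) f) (hnd : ∀ v, v ≠ 0 → ∃ x, f v x ≠ 0)
    (hnl : ∀ v, v ≠ 0 → ∃ x, f x v ≠ 0) (hfixP : FFix f P)
    (habs : ∀ M : Matrix ι ι F, (∀ g ∈ P, M * (g : Matrix ι ι F) = (g : Matrix ι ι F) * M) → ∃ c : F, M = c • 1)
    {F₁ : Subfield F} {B : GL ι F} {τ : F ≃+* F} (hτ : ∀ x, τ x = x ↔ x ∈ F₁)
    (hreal₁ : ∀ s ∈ P, ∀ i j, ((B : Matrix ι ι F) * (s : Matrix ι ι F) * ((B⁻¹ : GL ι F) : Matrix ι ι F)) i j ∈ F₁) :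
    ∃ ζ : F, ζ ≠ 0 ∧ IsFormRationalStructure f F₁ ζ B⁻¹ := by
  classical
  set Y : GL ι F := B⁻¹ with hY
  let g : (ι → F) → (ι → F) → F := fun u v =>
    τ.symm (f ((Y : Matrix ι ι F) *ᵥ svec τ ((B : Matrix ι ι F) *ᵥ u)) ((Y : Matrix ι ι F) *ᵥ svec τ ((B : Matrix ι ι F) *ᵥ v)))
  have hg : Sesq (RingHom.id F) g :=
    ⟨fun x y v => by
      simp only [g]
      rw [Matrix.mulVec_add, svec_add, Matrix.mulVec_add, hS.add_left, map_add],
     fun c x v => by
      simp only [g]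
      rw [Matrix.mulVec_smul, svec_smul, Matrix.mulVec_smul, hS.smul_left, map_mul, τ.symm_apply_apply],
     fun v x y => by
      simp only [g]
      rw [Matrix.mulVec_add, svec_add, Matrix.mulVec_add, hS.add_right, map_add],
     fun c v x => by
      simp only [g]
      rw [Matrix.mulVec_smul, svec_smul, Matrix.mulVec_smul, hS.smul_right, map_mul]
      simp⟩
  have hsv : ∀ s ∈ P, ∀ w : ι → F, svec τ (((B * s * Y : GL ι F) : Matrix ι ι F) *ᵥ w) =
      ((B * s * Y : GL ι F) : Matrix ι ι F) *ᵥ svec τ w := by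
    intro s hs w
    ext k
    simp only [svec_apply, Matrix.mulVec, dotProduct, map_sum, map_mul]
    refine Finset.sum_congr rfl fun l _ => ?_
    have hr' : ((B * s * Y : GL ι F) : Matrix ι ι F) k l ∈ F₁ := hreal₁ s hs k l
    rw [(hτ _).mpr hr']
  have hginv : ∀ s ∈ P, ∀ u v, g ((s : Matrix ι ι F) *ᵥ u) ((s : Matrix ι ι F) *ᵥ v) = g u v := by
    intro s hs u v
    simp only [g]
    congr 1
    have e1 : ∀ w : ι → F, (B : Matrix ι ι F) *ᵥ ((s : Matrix ι ι F) *ᵥ w) =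
        ((B * s * Y : GL ι F) : Matrix ι ι F) *ᵥ ((B : Matrix ι ι F) *ᵥ w) := by
      intro w
      rw [gl_mulVec_mul, gl_mulVec_mul, hY, gl_inv_mulVec]
    have e2 : ∀ w : ι → F, (Y : Matrix ι ι F) *ᵥ (((B * s * Y : GL ι F) : Matrix ι ι F) *ᵥ w) =
        (s : Matrix ι ι F) *ᵥ ((Y : Matrix ι ι F) *ᵥ w) := by
      intro w
      rw [gl_mulVec_mul, gl_mulVec_mul, hY, gl_inv_mulVec]
    rw [e1, e1, hsv s hs, hsv s hs, e2, e2, hfixP s hs]
  obtain ⟨c, hc⟩ := form_schur habs hS hg hnd hfixP hginv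
  have hR : ∀ u v : ι → F, (∀ i, u i ∈ F₁) → (∀ i, v i ∈ F₁) →
      τ.symm (f ((Y : Matrix ι ι F) *ᵥ u) ((Y : Matrix ι ι F) *ᵥ v)) =
        c * f ((Y : Matrix ι ι F) *ᵥ u) ((Y : Matrix ι ι F) *ᵥ v) := by
    intro u v hu hv
    have h1 := hc ((Y : Matrix ι ι F) *ᵥ u) ((Y : Matrix ι ι F) *ᵥ v)
    simp only [g] at h1
    have e : ∀ w : ι → F, (∀ i, w i ∈ F₁) → svec τ ((B : Matrix ι ι F) *ᵥ ((Y : Matrix ι ι F) *ᵥ w)) = w := by
      intro w hw
      have e3 : (B : Matrix ι ι F) *ᵥ ((Y : Matrix ι ι F) *ᵥ w) = w := by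
        rw [hY]
        exact gl_mulVec_inv B w
      rw [e3]
      ext i
      exact (hτ _).mpr (hw i)
    rw [e u hu, e v hv] at h1
    exact h1
  have hsingle : ∀ (i k : ι), (Pi.single i (1 : F) : ι → F) k ∈ F₁ := by
    intro i k
    rw [Pi.single_apply]
    split_ifs
    · exact F₁.one_mem
    · exact F₁.zero_mem
  -- a rational pair on which the form does not vanish
  obtain ⟨i₁, j₁, h₁⟩ : ∃ i j, f ((Y : Matrix ι ι F) *ᵥ Pi.single i 1) ((Y : Matrix ι ι F) *ᵥ Pi.single j 1) ≠ 0 := by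
    by_contra hall
    push Not at hall
    have h3 : ∀ u v : ι → F, f ((Y : Matrix ι ι F) *ᵥ u) ((Y : Matrix ι ι F) *ᵥ v) = 0 := by
      intro u v
      rw [gl_mulVec_eq_sum Y u, hS.sum_left]
      refine Finset.sum_eq_zero fun k _ => ?_
      rw [hS.smul_left, gl_mulVec_eq_sum Y v, hS.sum_right]
      rw [Finset.sum_eq_zero, mul_zero]
      intro l _
      rw [hS.smul_right, hall, mul_zero]
    obtain ⟨v, hv⟩ := exists_ne (0 : ι → F)
    obtain ⟨x, hx⟩ := hnd v hv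
    apply hx
    have := h3 (((Y⁻¹ : GL ι F) : Matrix ι ι F) *ᵥ v) (((Y⁻¹ : GL ι F) : Matrix ι ι F) *ᵥ x)
    rwa [gl_mulVec_inv, gl_mulVec_inv] at this
  set a := f ((Y : Matrix ι ι F) *ᵥ Pi.single i₁ 1) ((Y : Matrix ι ι F) *ᵥ Pi.single j₁ 1) with ha
  have hRa : τ.symm a = c * a := hR _ _ (hsingle i₁) (hsingle j₁)
  refine ⟨a⁻¹, inv_ne_zero h₁, fun u v hu hv => ?_⟩
  rw [← hτ]
  have hfixed : τ.symm (a⁻¹ * f ((Y : Matrix ι ι F) *ᵥ u) ((Y : Matrix ι ι F) *ᵥ v)) =
      a⁻¹ * f ((Y : Matrix ι ι F) *ᵥ u) ((Y : Matrix ι ι F) *ᵥ v) := by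
    have hτa : τ.symm a ≠ 0 := (map_ne_zero τ.symm).mpr h₁
    have hc0 : c ≠ 0 := by
      rintro rfl
      rw [zero_mul] at hRa
      exact hτa hRa
    rw [map_mul, map_inv₀, hRa, hR u v hu hv]
    field_simp
  conv_lhs => rw [← hfixed]
  exact τ.apply_symm_apply _

/-- A group of isometries realisable over a proper subfield is in a subfield class. -/
theorem Sp.subfield_case [Nonempty ι] (C : FCtx (RingHom.id F) (-1) f) {H P : Subgroup (GL ι F)} (hfix : FFix f H) (hPH : P ≤ H)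
    (hnorm : ∀ h ∈ H, ∀ x ∈ P, h * x * h⁻¹ ∈ P)
    (habs : ∀ M : Matrix ι ι F, (∀ g ∈ P, M * (g : Matrix ι ι F) = (g : Matrix ι ι F) * M) → ∃ c : F, M = c • 1)
    {F₀ : Subfield F} (hF₀ : F₀ ≠ ⊤) {B : GL ι F}
    (hreal : ∀ s ∈ P, ∀ i j, ((B : Matrix ι ι F) * (s : Matrix ι ι F) * ((B⁻¹ : GL ι F) : Matrix ι ι F)) i j ∈ F₀) :
    SpOutcome f H := by
  classical
  obtain ⟨F₁, r, hr, hle, hcard⟩ := exists_prime_index_subfield hF₀
  have hcard' : Fintype.card F = Nat.card F₁ ^ r := by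
    rw [← Nat.card_eq_fintype_card]
    exact hcard
  have hreal₁ : ∀ s ∈ P, ∀ i j, ((B : Matrix ι ι F) * (s : Matrix ι ι F) * ((B⁻¹ : GL ι F) : Matrix ι ι F)) i j ∈ F₁ :=
    fun s hs i j => hle (hreal s hs i j)
  obtain ⟨τ, hτp, hτ⟩ := exists_ringEquiv_fixed F₁
  obtain ⟨ζ, hζ, hrat⟩ := form_rational_bil C.sesq C.ndr C.ndl (hfix.mono hPH) habs hτ hreal₁
  exact Or.inr <| Or.inr <| Or.inr <| Or.inr <| Or.inl ⟨F₁, r, B⁻¹, ζ, hr, hcard', hζ, hrat,
    fun h hh => mem_subfieldSubgroup_of_normalize habs hreal₁ (hnorm h hh)⟩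

end Cfsg.Agent.H97.Asch
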