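import Cfsg.Agent.Lib.H97H1

/-!
Symplectic case: tensor decompositions.
-/

set_option autoImplicit false
set_option linter.unusedSectionVars false
set_option linter.style.haveILetI false

namespace Cfsg.Agent.H97.Asch

open Matrix Cfsg Cfsg.Geo
open scoped MatrixGroups commutatorElement Kronecker

variable {ι : Type} [Fintype ι] [DecidableEq ι] {F : Type*} [Field F] [Fintype F]
  {f : (ι → F) → (ι → F) → F}

section Level

variable {X L : Type} [Fintype X] [DecidableEq X] [LinearOrder L]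

/-- the quadratic form attached to a symmetric matrix and a level function -/
def levelQ (Γ : Matrix X X F) (ℓ : X → L) (x : X → F) : F :=
  ∑ a, ∑ b, if ℓ a < ℓ b then x a * Γ a b * x b else 0

theorem levelQ_smul (Γ : Matrix X X F) (ℓ : X → L) (c : F) (x : X → F) :
    levelQ Γ ℓ (c • x) = c ^ 2 * levelQ Γ ℓ x := by
  simp only [levelQ, Finset.mul_sum]
  refine Finset.sum_congr rfl fun a _ => Finset.sum_congr rfl fun b _ => ?_
  split_ifs
  · simp only [Pi.smul_apply, smul_eq_mul]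
    ring
  · simp

theorem levelQ_polar {Γ : Matrix X X F} {ℓ : X → L} (hsym : ∀ a b, Γ a b = Γ b a) (hdiag : ∀ a b, ℓ a = ℓ b → Γ a b = 0)
    (x y : X → F) :
    levelQ Γ ℓ (x + y) - levelQ Γ ℓ x - levelQ Γ ℓ y = ∑ a, ∑ b, x a * Γ a b * y b := by
  have e1 : levelQ Γ ℓ (x + y) - levelQ Γ ℓ x - levelQ Γ ℓ y =
      (∑ a, ∑ b, if ℓ a < ℓ b then x a * Γ a b * y b else 0) + ∑ a, ∑ b, if ℓ a < ℓ b then y a * Γ a b * x b else 0 := by
    simp only [levelQ, ← Finset.sum_sub_distrib, ← Finset.sum_add_distrib]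
    refine Finset.sum_congr rfl fun a _ => Finset.sum_congr rfl fun b _ => ?_
    split_ifs
    · simp only [Pi.add_apply]
      ring
    · simp
  have e2 : (∑ a, ∑ b, if ℓ a < ℓ b then y a * Γ a b * x b else 0) = ∑ a, ∑ b, if ℓ b < ℓ a then x a * Γ a b * y b else 0 := by
    rw [Finset.sum_comm]
    refine Finset.sum_congr rfl fun a _ => Finset.sum_congr rfl fun b _ => ?_
    split_ifs
    · rw [hsym b a]
      ring
    · rfl
  rw [e1, e2, ← Finset.sum_add_distrib]
  refine Finset.sum_congr rfl fun a _ => ?_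
  rw [← Finset.sum_add_distrib]
  refine Finset.sum_congr rfl fun b _ => ?_
  rcases lt_trichotomy (ℓ a) (ℓ b) with h | h | h
  · simp [h, not_lt_of_gt h]
  · simp [h, hdiag a b h]
  · simp [h, not_lt_of_gt h]

/-- A quadratic form in coordinates gives a quadratic form on the space. -/
theorem exists_level_quad (e : ι ≃ X) (P : GL ι F) {Γ : Matrix X X F} {ℓ : X → L} (hsym : ∀ a b, Γ a b = Γ b a)
    (hdiag : ∀ a b, ℓ a = ℓ b → Γ a b = 0)
    (heqn : ∀ x y : X → F, f ((P : Matrix ι ι F) *ᵥ (x ∘ e)) ((P : Matrix ι ι F) *ᵥ (y ∘ e)) = ∑ a, ∑ b, x a * Γ a b * y b) :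
    ∃ Q : (ι → F) → F, (∀ (c : F) v, Q (c • v) = c ^ 2 * Q v) ∧ (∀ u v, QuadraticMap.polar Q u v = f u v) ∧
      ∀ x : X → F, Q ((P : Matrix ι ι F) *ᵥ (x ∘ e)) = levelQ Γ ℓ x := by
  classical
  let crd : (ι → F) → X → F := fun v => (((P⁻¹ : GL ι F) : Matrix ι ι F) *ᵥ v) ∘ e.symm
  have hcrd : ∀ x : X → F, crd ((P : Matrix ι ι F) *ᵥ (x ∘ e)) = x := by
    intro x
    simp only [crd]
    rw [gl_inv_mulVec]
    funext z
    simp
  have hcrd' : ∀ v : ι → F, (P : Matrix ι ι F) *ᵥ (crd v ∘ e) = v := by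
    intro v
    have e1 : crd v ∘ e = ((P⁻¹ : GL ι F) : Matrix ι ι F) *ᵥ v := by
      funext z
      simp [crd]
    rw [e1, gl_mulVec_inv]
  have hadd : ∀ u v, crd (u + v) = crd u + crd v := by
    intro u v
    funext z
    simp [crd, Matrix.mulVec_add]
  have hsm : ∀ (c : F) v, crd (c • v) = c • crd v := by
    intro c v
    funext z
    simp [crd, Matrix.mulVec_smul]
  refine ⟨fun v => levelQ Γ ℓ (crd v), fun c v => ?_, fun u v => ?_, fun x => ?_⟩
  · simp only [hsm, levelQ_smul]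
  · simp only [QuadraticMap.polar, hadd]
    rw [levelQ_polar hsym hdiag]
    conv_rhs => rw [← hcrd' u, ← hcrd' v, heqn]
  · simp only [hcrd]

end Level

section Tensor

variable {d m : ℕ}

/-- a pure tensor in coordinates -/
def tvP (u : Fin d → F) (w : Fin m → F) : Fin d × Fin m → F := fun z => u z.1 * w z.2

theorem kron_mulVec_tvP (a : Matrix (Fin d) (Fin d) F) (c : Matrix (Fin m) (Fin m) F) (u : Fin d → F) (w : Fin m → F) :
    (a ⊗ₖ c) *ᵥ tvP u w = tvP (a *ᵥ u) (c *ᵥ w) := by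
  ext ⟨x, y⟩
  simp only [Matrix.mulVec, dotProduct, tvP, Matrix.kroneckerMap_apply, Fintype.sum_prod_type, Finset.sum_mul_sum]
  refine Finset.sum_congr rfl fun i _ => Finset.sum_congr rfl fun j _ => ?_
  ring

theorem tvP_single (z : Fin d × Fin m) : tvP (Pi.single z.1 (1 : F)) (Pi.single z.2 (1 : F)) = Pi.single z 1 := by
  classical
  funext w
  simp only [tvP, Pi.single_apply]
  by_cases h1 : w.1 = z.1
  · by_cases h2 : w.2 = z.2
    · simp [h1, h2, Prod.ext_iff]
    · simp [h2, Prod.ext_iff]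
  · simp [h1, Prod.ext_iff]

theorem gram_tvP (A₀ : Matrix (Fin d) (Fin d) F) (C₀ : Matrix (Fin m) (Fin m) F) (σ : F →+* F) (u u' : Fin d → F) (w w' : Fin m → F) :
    ∑ a, ∑ b, tvP u w a * (A₀ a.1 b.1 * C₀ a.2 b.2) * σ (tvP u' w' b) =
      formOfGram (σ : F → F) A₀ u u' * formOfGram (σ : F → F) C₀ w w' := by
  simp only [formOfGram, tvP, Fintype.sum_prod_type, Finset.sum_mul_sum, map_mul]
  refine Finset.sum_congr rfl fun a _ => Finset.sum_congr rfl fun c _ => ?_
  refine Finset.sum_congr rfl fun a' _ => Finset.sum_congr rfl fun c' _ => ?_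
  ring

variable {σ : F →+* F} {ε : F} {H : Subgroup (GL ι F)} {e : ι ≃ Fin d × Fin m} {P : GL ι F}
  {A₀ : Matrix (Fin d) (Fin d) F} {C₀ : Matrix (Fin m) (Fin m) F} {ε₁ ε₂ : F}

theorem FTensor.form_tv (hT : FTensor σ ε f H e P A₀ C₀ ε₁ ε₂) (u u' : Fin d → F) (w w' : Fin m → F) :
    f ((P : Matrix ι ι F) *ᵥ (tvP u w ∘ e)) ((P : Matrix ι ι F) *ᵥ (tvP u' w' ∘ e)) =
      formOfGram (σ : F → F) A₀ u u' * formOfGram (σ : F → F) C₀ w w' := by
  rw [hT.eqn, gram_tvP]

/-- the element of the tensor group as an action on coordinates -/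
theorem tensor_elt {g : GL ι F} (hg : g ∈ tensorProductSubgroup d m e P) :
    ∃ (a : GL (Fin d) F) (c : GL (Fin m) F), g = P * glReindex e.symm
      (Matrix.GeneralLinearGroup.mkOfDetNeZero ((a : Matrix (Fin d) (Fin d) F) ⊗ₖ (c : Matrix (Fin m) (Fin m) F)) (by
        rw [Matrix.det_kronecker]
        have h1 : (a : Matrix (Fin d) (Fin d) F).det ≠ 0 := ((Matrix.isUnit_iff_isUnit_det _).mp a.isUnit).ne_zero
        have h2 : (c : Matrix (Fin m) (Fin m) F).det ≠ 0 := ((Matrix.isUnit_iff_isUnit_det _).mp c.isUnit).ne_zero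
        exact mul_ne_zero (pow_ne_zero _ h1) (pow_ne_zero _ h2))) * P⁻¹ := by
  rcases hg with ⟨_, ⟨k, ⟨a, c, hk⟩, rfl⟩, rfl⟩
  refine ⟨a, c, ?_⟩
  have : k = Matrix.GeneralLinearGroup.mkOfDetNeZero ((a : Matrix (Fin d) (Fin d) F) ⊗ₖ (c : Matrix (Fin m) (Fin m) F)) (by
        rw [Matrix.det_kronecker]
        have h1 : (a : Matrix (Fin d) (Fin d) F).det ≠ 0 := ((Matrix.isUnit_iff_isUnit_det _).mp a.isUnit).ne_zero
        have h2 : (c : Matrix (Fin m) (Fin m) F).det ≠ 0 := ((Matrix.isUnit_iff_isUnit_det _).mp c.isUnit).ne_zero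
        exact mul_ne_zero (pow_ne_zero _ h1) (pow_ne_zero _ h2)) := by
    apply Units.ext
    exact hk
  rw [← this]
  rfl

theorem tensor_action {g : GL ι F} (hg : g ∈ tensorProductSubgroup d m e P) :
    ∃ (a : GL (Fin d) F) (c : GL (Fin m) F), ∀ x : Fin d × Fin m → F,
      (g : Matrix ι ι F) *ᵥ ((P : Matrix ι ι F) *ᵥ (x ∘ e)) =
        (P : Matrix ι ι F) *ᵥ ((((a : Matrix (Fin d) (Fin d) F) ⊗ₖ (c : Matrix (Fin m) (Fin m) F)) *ᵥ x) ∘ e) := by
  obtain ⟨a, c, rfl⟩ := tensor_elt hg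
  refine ⟨a, c, fun x => ?_⟩
  rw [gl_mulVec_mul, gl_mulVec_mul, gl_inv_mulVec, reindex_mulVec]
  rfl

/-- the pure vectors span -/
theorem span_tv (e : ι ≃ Fin d × Fin m) (P : GL ι F) :
    Submodule.span F {v : ι → F | ∃ (u : Fin d → F) (w : Fin m → F), v = (P : Matrix ι ι F) *ᵥ (tvP u w ∘ e)} = ⊤ := by
  classical
  rw [eq_top_iff]
  intro v _
  have e1 : v = (P : Matrix ι ι F) *ᵥ (((((P⁻¹ : GL ι F) : Matrix ι ι F) *ᵥ v) ∘ e.symm) ∘ e) := by
    have : (((P⁻¹ : GL ι F) : Matrix ι ι F) *ᵥ v) ∘ e.symm ∘ e = ((P⁻¹ : GL ι F) : Matrix ι ι F) *ᵥ v := by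
      funext z
      simp
    rw [Function.comp_assoc, this, gl_mulVec_inv]
  rw [e1]
  generalize ((((P⁻¹ : GL ι F) : Matrix ι ι F) *ᵥ v) ∘ e.symm) = x
  have e2 : x = ∑ z, x z • (Pi.single z (1 : F) : Fin d × Fin m → F) := by
    funext k
    simp [Finset.sum_apply, Pi.single_apply]
  rw [e2]
  have e3 : ∀ (y : Fin d × Fin m → F), (P : Matrix ι ι F) *ᵥ (y ∘ e) = ∑ j, y (e j) • ((P : Matrix ι ι F) *ᵥ Pi.single j 1) := by
    intro y
    exact gl_mulVec_eq_sum P _
  have hmem : ∀ z : Fin d × Fin m, (P : Matrix ι ι F) *ᵥ ((Pi.single z (1 : F) : Fin d × Fin m → F) ∘ e) ∈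
      Submodule.span F {v : ι → F | ∃ (u : Fin d → F) (w : Fin m → F), v = (P : Matrix ι ι F) *ᵥ (tvP u w ∘ e)} := by
    intro z
    apply Submodule.subset_span
    exact ⟨Pi.single z.1 1, Pi.single z.2 1, by rw [tvP_single]⟩
  have e4 : (∑ z, x z • (Pi.single z (1 : F) : Fin d × Fin m → F)) ∘ e = ∑ z, x z • ((Pi.single z (1 : F) : Fin d × Fin m → F) ∘ e) := by
    funext k
    simp [Finset.sum_apply]
  rw [e4, Matrix.mulVec_sum]
  refine Submodule.sum_mem _ fun z _ => ?_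
  rw [show (x z • ((Pi.single z (1 : F) : Fin d × Fin m → F) ∘ e)) = x z • ((Pi.single z (1 : F) : Fin d × Fin m → F) ∘ e) from rfl,
    Matrix.mulVec_smul]
  exact Submodule.smul_mem _ _ (hmem z)

/-- a form in the context with `ε = -1` in odd characteristic is a symplectic form -/
theorem FCtx.toSymplectic {κ : Type} [Fintype κ] [DecidableEq κ] {g : (κ → F) → (κ → F) → F} (C : FCtx (RingHom.id F) (-1) g)
    (h2 : (2 : F) ≠ 0) : IsSymplecticForm g where
  bilinear := ⟨C.sesq.add_left, C.sesq.smul_left, C.sesq.add_right, fun c v x => by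
    have := C.sesq.smul_right c v x
    simpa using this⟩
  skew u v := by
    have := C.herm u v
    simpa using this
  alternating v := by
    have h6 := C.herm v v
    simp only [RingHom.id_apply] at h6
    have h7 : 2 * g v v = 0 := by linear_combination h6
    exact (mul_eq_zero.mp h7).resolve_left h2
  nondegenerate v hv := ⟨C.ndl v hv, C.ndr v hv⟩

theorem exists_sq_of_even (h2 : (2 : F) = 0) (x : F) : ∃ y : F, y * y = x := by
  have hinj : Function.Injective (fun y : F => y * y) := by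
    intro a b hab
    have hab' : a * a = b * b := hab
    have h3 : (a - b) * (a - b) = 0 := by linear_combination hab' - a * b * h2 + b * b * h2 - 0 * h2
    have h4 := mul_self_eq_zero.mp h3
    exact sub_eq_zero.mp h4
  exact (Finite.injective_iff_surjective.mp hinj) x

theorem add_quad_zero {κ : Type} [Fintype κ] [DecidableEq κ] {D : (κ → F) → F} (hadd : ∀ u v, D (u + v) = D u + D v)
    (hsm : ∀ (c : F) u, D (c • u) = c ^ 2 * D u) (h : ∀ a, D (Pi.single a 1) = 0) (u : κ → F) : D u = 0 := by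
  classical
  have hD0 : D 0 = 0 := by
    have := hsm 0 0
    simpa using this
  have e : u = ∑ a, u a • (Pi.single a 1 : κ → F) := by
    funext k
    simp [Finset.sum_apply, Pi.single_apply]
  rw [e]
  have key : ∀ s : Finset κ, D (∑ a ∈ s, u a • (Pi.single a 1 : κ → F)) = 0 := by
    intro s
    induction s using Finset.induction_on with
    | empty => simpa using hD0
    | insert a s ha ih => rw [Finset.sum_insert ha, hadd, ih, hsm, h, mul_zero, add_zero]
  exact key _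

/-- Two alternating factors in characteristic two: a quadratic form. -/
theorem Sp.tensor_even_alt (C : FCtx (RingHom.id F) (-1) f) {H : Subgroup (GL ι F)} (hfix : FFix f H) (hq : ¬ Odd (Fintype.card F))
    {e : ι ≃ Fin d × Fin m} {P : GL ι F} {A₀ : Matrix (Fin d) (Fin d) F} {C₀ : Matrix (Fin m) (Fin m) F} {ε₁ ε₂ : F}
    (hT : FTensor (RingHom.id F) (-1) f H e P A₀ C₀ ε₁ ε₂)
    (hA : ∀ a, A₀ a a = 0) (hAs : ∀ a b, A₀ a b = A₀ b a) (hCs : ∀ a b, C₀ a b = C₀ b a)
    (hCalt : ∀ w, formOfGram (((RingHom.id F : F →+* F)) : F → F) C₀ w w = 0) : SpOutcome f H := by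
  classical
  let Γ : Matrix (Fin d × Fin m) (Fin d × Fin m) F := fun a b => A₀ a.1 b.1 * C₀ a.2 b.2
  obtain ⟨Q, hsm, hpol, hval⟩ := exists_level_quad (f := f) e P (Γ := Γ) (ℓ := Prod.fst)
    (fun a b => by simp only [Γ]; rw [hAs, hCs]) (fun a b h => by simp only [Γ]; rw [h, hA, zero_mul])
    (fun x y => by rw [hT.eqn]; rfl)
  refine Sp.quad_outcome' C hfix hq hsm hpol (span_tv e P) ?_ ?_
  · rintro _ ⟨u, w, rfl⟩
    rw [hval]
    have e1 : levelQ Γ Prod.fst (tvP u w) = (∑ a, ∑ a', if a < a' then u a * A₀ a a' * u a' else 0) *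
        formOfGram (((RingHom.id F : F →+* F)) : F → F) C₀ w w := by
      simp only [levelQ, formOfGram, Fintype.sum_prod_type, Finset.sum_mul]
      refine Finset.sum_congr rfl fun a _ => ?_
      rw [Finset.sum_comm]
      refine Finset.sum_congr rfl fun a' _ => ?_
      by_cases h : a < a'
      · simp only [h, if_true, Finset.mul_sum]
        refine Finset.sum_congr rfl fun c _ => Finset.sum_congr rfl fun c' _ => ?_
        simp only [Γ, tvP, RingHom.id_apply]
        ring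
      · simp [h]
    rw [e1, hCalt, mul_zero]
  · rintro g hg _ ⟨u, w, rfl⟩
    obtain ⟨a, c, hac⟩ := tensor_action (hT.le hg)
    exact ⟨(a : Matrix (Fin d) (Fin d) F) *ᵥ u, (c : Matrix (Fin m) (Fin m) F) *ᵥ w, by rw [hac, kron_mulVec_tvP]⟩

theorem pv_ne_zero {X : Type} [Fintype X] (e : ι ≃ X) (P : GL ι F) {x : X → F} (hx : x ≠ 0) :
    (P : Matrix ι ι F) *ᵥ (x ∘ e) ≠ 0 := by
  intro h
  apply hx
  have h1 : x ∘ e = 0 := by
    apply gl_mulVec_injective P
    show (P : Matrix ι ι F) *ᵥ (x ∘ e) = (P : Matrix ι ι F) *ᵥ 0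
    rw [h, Matrix.mulVec_zero]
  funext z
  have := congrFun h1 (e.symm z)
  simpa using this

/-- A non-alternating factor in characteristic two gives a proper stable subspace. -/
theorem Sp.tensor_even_nonalt (hq : ¬ Odd (Fintype.card F)) {H : Subgroup (GL ι F)} (hfix : FFix f H) (hirr : Irr H) (hd : 2 ≤ d) (hm : 0 < m)
    {e : ι ≃ Fin d × Fin m} {P : GL ι F} {A₀ : Matrix (Fin d) (Fin d) F} {C₀ : Matrix (Fin m) (Fin m) F} {ε₁ ε₂ : F}
    (hT : FTensor (RingHom.id F) (-1) f H e P A₀ C₀ ε₁ ε₂) (hAs : ∀ a b, A₀ a b = A₀ b a) {u₀ : Fin d → F}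
    (hu₀ : formOfGram (((RingHom.id F : F →+* F)) : F → F) A₀ u₀ u₀ ≠ 0) : False := by
  classical
  have h2 := two_eq_zero_of_not_odd hq
  set A := formOfGram (((RingHom.id F : F →+* F)) : F → F) A₀ with hA
  set Cf := formOfGram (((RingHom.id F : F →+* F)) : F → F) C₀ with hCf
  have hS₁ : Sesq (RingHom.id F) A := hT.ctx₁.sesq
  have hAsym : ∀ u v, A u v = A v u := by
    intro u v
    have := formOfGram_herm (σ := RingHom.id F) (A := A₀) (ε₁ := 1) (fun _ => rfl) (fun a c => by rw [one_mul]; exact hAs a c) u v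
    rw [one_mul] at this
    exact this
  choose l hl using fun a => exists_sq_of_even h2 (A₀ a a)
  let lam : (Fin d → F) → F := fun u => ∑ a, l a * u a
  have hlamadd : ∀ u v, lam (u + v) = lam u + lam v := by
    intro u v
    simp only [lam, Pi.add_apply, mul_add, Finset.sum_add_distrib]
  have hlamsm : ∀ (c : F) u, lam (c • u) = c * lam u := by
    intro c u
    simp only [lam, Pi.smul_apply, smul_eq_mul, Finset.mul_sum]
    exact Finset.sum_congr rfl fun a _ => by ring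
  have hlam : ∀ u, A u u = lam u * lam u := by
    intro u
    have h3 := add_quad_zero (D := fun u => A u u - lam u * lam u) (fun u v => by
      rw [hS₁.add_left, hS₁.add_right, hS₁.add_right, hlamadd, hAsym v u]
      linear_combination (A u v - lam u * lam v) * h2) (fun c u => by
      rw [hS₁.smul_left, hS₁.smul_right, hlamsm, RingHom.id_apply]
      ring) (fun a => by
      rw [hA, formOfGram_single, ← hl]
      have : lam (Pi.single a 1) = l a := by
        simp only [lam]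
        rw [Finset.sum_eq_single a]
        · simp
        · intro b _ hb
          simp [Pi.single_eq_of_ne hb]
        · simp
      rw [this]
      ring) u
    linear_combination h3
  obtain ⟨a₀, hl₀⟩ : ∃ a, l a ≠ 0 := by
    by_contra hall
    push Not at hall
    apply hu₀
    rw [hlam]
    simp [lam, hall]
  have hdc : 1 < Fintype.card (Fin d) := by simpa using (by omega : 1 < d)
  obtain ⟨a₁, ha₁⟩ := Fintype.exists_ne_of_one_lt_card hdc a₀
  let c₀ : Fin m := ⟨0, hm⟩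
  haveI hnem : Nonempty (Fin m) := ⟨c₀⟩
  let W : Submodule F (ι → F) := Submodule.span F {v | ∃ (u : Fin d → F) (w : Fin m → F), A u u = 0 ∧ v = (P : Matrix ι ι F) *ᵥ (tvP u w ∘ e)}
  have hWs : Stable H W := by
    intro g hg x hx
    induction hx using Submodule.span_induction with
    | mem x hx =>
      obtain ⟨u, w, huu, rfl⟩ := hx
      obtain ⟨a, c, hac⟩ := tensor_action (hT.le hg)
      rw [hac, kron_mulVec_tvP]
      refine Submodule.subset_span ⟨_, _, ?_, rfl⟩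
      obtain ⟨y, hy⟩ : ∃ y : Fin m → F, y ≠ 0 := exists_ne 0
      obtain ⟨z, hz⟩ := hT.ctx₂.ndr y hy
      have h3 := hfix g hg ((P : Matrix ι ι F) *ᵥ (tvP u (((c⁻¹ : GL (Fin m) F) : Matrix (Fin m) (Fin m) F) *ᵥ y) ∘ e))
        ((P : Matrix ι ι F) *ᵥ (tvP u (((c⁻¹ : GL (Fin m) F) : Matrix (Fin m) (Fin m) F) *ᵥ z) ∘ e))
      rw [hac, hac, kron_mulVec_tvP, kron_mulVec_tvP, hT.form_tv, hT.form_tv, gl_mulVec_inv, gl_mulVec_inv, ← hA, ← hCf, huu, zero_mul] at h3
      exact (mul_eq_zero.mp h3).resolve_right hz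
    | zero => rw [Matrix.mulVec_zero]; exact W.zero_mem
    | add x y _ _ hx hy => rw [Matrix.mulVec_add]; exact W.add_mem hx hy
    | smul c x _ hx => rw [Matrix.mulVec_smul]; exact W.smul_mem c hx
  -- the subspace is not zero
  have hW0 : W ≠ ⊥ := by
    intro hbot
    let u : Fin d → F := l a₁ • Pi.single a₀ 1 + l a₀ • Pi.single a₁ 1
    have hlu : lam u = 0 := by
      simp only [u]
      rw [hlamadd, hlamsm, hlamsm]
      have e1 : ∀ b, lam (Pi.single b 1) = l b := by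
        intro b
        simp only [lam]
        rw [Finset.sum_eq_single b]
        · simp
        · intro b' _ hb
          simp [Pi.single_eq_of_ne hb]
        · simp
      rw [e1, e1]
      linear_combination (l a₀ * l a₁) * h2
    have huu : A u u = 0 := by rw [hlam, hlu, mul_zero]
    have hmem : (P : Matrix ι ι F) *ᵥ (tvP u (Pi.single c₀ 1) ∘ e) ∈ W := Submodule.subset_span ⟨u, _, huu, rfl⟩
    rw [hbot, Submodule.mem_bot] at hmem
    refine pv_ne_zero e P ?_ hmem
    intro h0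
    have h3 := congrFun h0 (a₁, c₀)
    simp only [tvP, u, Pi.add_apply, Pi.smul_apply, smul_eq_mul, Pi.single_eq_same, mul_one, Pi.zero_apply] at h3
    rw [Pi.single_eq_of_ne ha₁, mul_zero, zero_add] at h3
    exact hl₀ h3
  have hWt : W ≠ ⊤ := by
    intro htop
    let Φ : (ι → F) →ₗ[F] F :=
      { toFun := fun v => ∑ a, l a * (((P⁻¹ : GL ι F) : Matrix ι ι F) *ᵥ v) (e.symm (a, c₀))
        map_add' := fun x y => by
          simp only [Matrix.mulVec_add, Pi.add_apply, mul_add, Finset.sum_add_distrib]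
        map_smul' := fun c x => by
          simp only [Matrix.mulVec_smul, Pi.smul_apply, smul_eq_mul, RingHom.id_apply, Finset.mul_sum]
          exact Finset.sum_congr rfl fun a _ => by ring }
    have hΦ : ∀ x : Fin d × Fin m → F, Φ ((P : Matrix ι ι F) *ᵥ (x ∘ e)) = ∑ a, l a * x (a, c₀) := by
      intro x
      show ∑ a, l a * (((P⁻¹ : GL ι F) : Matrix ι ι F) *ᵥ ((P : Matrix ι ι F) *ᵥ (x ∘ e))) (e.symm (a, c₀)) = _
      rw [gl_inv_mulVec]
      simp
    have hle : W ≤ LinearMap.ker Φ := by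
      refine Submodule.span_le.mpr ?_
      rintro _ ⟨u, w, huu, rfl⟩
      show Φ _ = 0
      rw [hΦ]
      have h3 : lam u = 0 := by
        have := hlam u
        rw [huu] at this
        exact mul_self_eq_zero.mp this.symm
      simp only [tvP]
      have h4 : ∑ a, l a * (u a * w c₀) = lam u * w c₀ := by
        simp only [lam, Finset.sum_mul]
        exact Finset.sum_congr rfl fun a _ => by ring
      rw [h4, h3, zero_mul]
    have hmem : (P : Matrix ι ι F) *ᵥ ((Pi.single (a₀, c₀) 1 : Fin d × Fin m → F) ∘ e) ∈ W := by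
      rw [htop]
      trivial
    have h3 : Φ _ = 0 := hle hmem
    rw [hΦ, Finset.sum_eq_single a₀] at h3
    · simp at h3
      exact hl₀ h3
    · intro b _ hb
      have : ((b, c₀) : Fin d × Fin m) ≠ (a₀, c₀) := fun h => hb (congrArg Prod.fst h)
      simp [Pi.single_eq_of_ne this]
    · simp
  rcases hirr W hWs with h | h
  · exact hW0 h
  · exact hWt h

/-- Tensor decompositions in characteristic two. -/
theorem Sp.tensor_even (C : FCtx (RingHom.id F) (-1) f) (halt : ∀ v, f v v = 0) {H : Subgroup (GL ι F)} (hq : ¬ Odd (Fintype.card F))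
    (hfix : FFix f H) (hirr : Irr H) (hd : 2 ≤ d) (hm : 2 ≤ m)
    {e : ι ≃ Fin d × Fin m} {P : GL ι F} {A₀ : Matrix (Fin d) (Fin d) F} {C₀ : Matrix (Fin m) (Fin m) F} {ε₁ ε₂ : F}
    (hT : FTensor (RingHom.id F) (-1) f H e P A₀ C₀ ε₁ ε₂) : SpOutcome f H := by
  classical
  have h2 := two_eq_zero_of_not_odd hq
  haveI hned : Nonempty (Fin d) := ⟨⟨0, by omega⟩⟩
  haveI hnem : Nonempty (Fin m) := ⟨⟨0, by omega⟩⟩
  have hone : ∀ x : F, x * (RingHom.id F) x = 1 → x = 1 := by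
    intro x hx
    simp only [RingHom.id_apply] at hx
    have h3 : (x - 1) * (x - 1) = 0 := by linear_combination hx + (1 - x) * h2
    exact sub_eq_zero.mp (mul_self_eq_zero.mp h3)
  have hε₁ := hone _ hT.ctx₁.eps_norm
  have hε₂ := hone _ hT.ctx₂.eps_norm
  subst hε₁
  subst hε₂
  have hAs : ∀ a b, A₀ a b = A₀ b a := by
    intro a b
    have := hT.ctx₁.herm (Pi.single a 1) (Pi.single b 1)
    rw [formOfGram_single, formOfGram_single, one_mul] at this
    exact this
  have hCs : ∀ a b, C₀ a b = C₀ b a := by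
    intro a b
    have := hT.ctx₂.herm (Pi.single a 1) (Pi.single b 1)
    rw [formOfGram_single, formOfGram_single, one_mul] at this
    exact this
  have halt' : ∀ u w, formOfGram (((RingHom.id F : F →+* F)) : F → F) A₀ u u * formOfGram (((RingHom.id F : F →+* F)) : F → F) C₀ w w = 0 := by
    intro u w
    rw [← hT.form_tv, halt]
  by_cases hA : ∀ u, formOfGram (((RingHom.id F : F →+* F)) : F → F) A₀ u u = 0
  · by_cases hC : ∀ w, formOfGram (((RingHom.id F : F →+* F)) : F → F) C₀ w w = 0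
    · refine Sp.tensor_even_alt C hfix hq hT (fun a => ?_) hAs hCs hC
      have := hA (Pi.single a 1)
      rwa [formOfGram_single] at this
    · push Not at hC
      obtain ⟨w, hw⟩ := hC
      exact (Sp.tensor_even_nonalt hq hfix hirr hm (by omega) hT.swap hCs hw).elim
  · push Not at hA
    obtain ⟨u, hu⟩ := hA
    exact (Sp.tensor_even_nonalt hq hfix hirr hd (by omega) hT hAs hu).elim

theorem reindexM_mulVec {X : Type} [Fintype X] [DecidableEq X] (e : ι ≃ X) (M : Matrix X X F) (x : X → F) :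
    (Matrix.reindex e.symm e.symm M) *ᵥ (x ∘ e) = (M *ᵥ x) ∘ e := by
  classical
  ext k
  simp only [Matrix.mulVec, dotProduct, Function.comp_apply, Matrix.reindex_apply, Matrix.submatrix_apply, Equiv.symm_symm]
  exact Equiv.sum_comp e (fun z => M (e k) z * x z)

theorem pv_surj {X : Type} [Fintype X] (e : ι ≃ X) (P : GL ι F) (v : ι → F) : ∃ x : X → F, v = (P : Matrix ι ι F) *ᵥ (x ∘ e) := by
  refine ⟨(((P⁻¹ : GL ι F) : Matrix ι ι F) *ᵥ v) ∘ e.symm, ?_⟩
  have : ((((P⁻¹ : GL ι F) : Matrix ι ι F) *ᵥ v) ∘ e.symm) ∘ e = ((P⁻¹ : GL ι F) : Matrix ι ι F) *ᵥ v := by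
    funext z
    simp
  rw [this, gl_mulVec_inv]

theorem mat_eq_of_pv {X : Type} [Fintype X] (e : ι ≃ X) (P : GL ι F) {Y Z : Matrix ι ι F}
    (h : ∀ x : X → F, Y *ᵥ ((P : Matrix ι ι F) *ᵥ (x ∘ e)) = Z *ᵥ ((P : Matrix ι ι F) *ᵥ (x ∘ e))) : Y = Z := by
  apply Matrix.toLin'.injective
  apply LinearMap.ext
  intro v
  obtain ⟨x, rfl⟩ := pv_surj e P v
  simp only [Matrix.toLin'_apply]
  exact h x

/-- A symmetric factor of dimension two: the normaliser of a commutative algebra. -/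
theorem Sp.tensor_J [Nonempty ι] (C : FCtx (RingHom.id F) (-1) f) (halt : ∀ v, f v v = 0) {H : Subgroup (GL ι F)} (hq : Odd (Fintype.card F))
    (hfix : FFix f H) (hirr : Irr H) (hd : 0 < d)
    {e : ι ≃ Fin d × Fin 2} {P : GL ι F} {A₀ : Matrix (Fin d) (Fin d) F} {C₀ : Matrix (Fin 2) (Fin 2) F}
    (hT : FTensor (RingHom.id F) (-1) f H e P A₀ C₀ (-1) 1) : SpOutcome f H := by
  classical
  have h2 := two_ne_of_odd_card hq
  have hS := C.sesq
  haveI hned : Nonempty (Fin d) := ⟨⟨0, hd⟩⟩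
  have hCs : ∀ a b, C₀ a b = C₀ b a := by
    intro a b
    have := hT.ctx₂.herm (Pi.single a 1) (Pi.single b 1)
    rw [formOfGram_single, formOfGram_single, one_mul] at this
    exact this
  have hCT : C₀ᵀ = C₀ := by
    ext a b
    exact hCs b a
  have hCdet : IsUnit C₀.det := by
    rw [isUnit_iff_ne_zero]
    intro h0
    obtain ⟨y, hy0, hy⟩ := Matrix.exists_mulVec_eq_zero_iff.mpr h0
    obtain ⟨x, hx⟩ := hT.ctx₂.ndl y hy0
    apply hx
    have e1 : formOfGram (((RingHom.id F : F →+* F)) : F → F) C₀ x y = x ⬝ᵥ (C₀ *ᵥ y) := by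
      simp only [formOfGram, dotProduct, Matrix.mulVec, Finset.mul_sum, mul_assoc, RingHom.id_apply]
    rw [e1, hy, dotProduct_zero]
  set J₀ : Matrix (Fin 2) (Fin 2) F := C₀⁻¹ * detJ with hJ₀
  have hCJ : C₀ * J₀ = detJ := Matrix.mul_nonsing_inv_cancel_left _ _ hCdet
  have hJC : J₀ᵀ * C₀ = -detJ := by
    rw [hJ₀, Matrix.transpose_mul, Matrix.transpose_nonsing_inv, hCT, Matrix.mul_assoc, Matrix.nonsing_inv_mul _ hCdet, Matrix.mul_one]
    ext a b
    rw [Matrix.transpose_apply, detJ_transpose, Matrix.neg_apply]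
  -- the conjugation formula
  have hconj : ∀ (c : GL (Fin 2) F) (lam : F), lam ≠ 0 → (c : Matrix (Fin 2) (Fin 2) F)ᵀ * C₀ * (c : Matrix (Fin 2) (Fin 2) F) = lam • C₀ →
      J₀ * (c : Matrix (Fin 2) (Fin 2) F) = ((c : Matrix (Fin 2) (Fin 2) F).det / lam) • ((c : Matrix (Fin 2) (Fin 2) F) * J₀) := by
    intro c lam hlam hc
    have hdc : IsUnit (c : Matrix (Fin 2) (Fin 2) F).det := (Matrix.isUnit_iff_isUnit_det _).mp c.isUnit
    have hM : IsUnit ((c : Matrix (Fin 2) (Fin 2) F)ᵀ * C₀).det := by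
      rw [Matrix.det_mul, Matrix.det_transpose]
      exact hdc.mul hCdet
    have e1 : (c : Matrix (Fin 2) (Fin 2) F)ᵀ * C₀ * (J₀ * (c : Matrix (Fin 2) (Fin 2) F)) = (c : Matrix (Fin 2) (Fin 2) F).det • detJ := by
      rw [Matrix.mul_assoc (c : Matrix (Fin 2) (Fin 2) F)ᵀ, ← Matrix.mul_assoc C₀, hCJ, ← Matrix.mul_assoc, detJ_conj]
    have e2 : (c : Matrix (Fin 2) (Fin 2) F)ᵀ * C₀ * (((c : Matrix (Fin 2) (Fin 2) F).det / lam) • ((c : Matrix (Fin 2) (Fin 2) F) * J₀)) =
        (c : Matrix (Fin 2) (Fin 2) F).det • detJ := by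
      rw [Matrix.mul_smul, ← Matrix.mul_assoc, hc, Matrix.smul_mul, hCJ, smul_smul, div_mul_cancel₀ _ hlam]
    calc J₀ * (c : Matrix (Fin 2) (Fin 2) F) = ((c : Matrix (Fin 2) (Fin 2) F)ᵀ * C₀)⁻¹ * ((c : Matrix (Fin 2) (Fin 2) F)ᵀ * C₀ * (J₀ * (c : Matrix (Fin 2) (Fin 2) F))) :=
          (Matrix.nonsing_inv_mul_cancel_left _ _ hM).symm
      _ = _ := by
          rw [e1, ← e2]
          exact Matrix.nonsing_inv_mul_cancel_left _ _ hM
  -- the matrix
  obtain ⟨X, hX⟩ : ∃ X : Matrix ι ι F, X = (P : Matrix ι ι F) * Matrix.reindex e.symm e.symm ((1 : Matrix (Fin d) (Fin d) F) ⊗ₖ J₀) * ((P⁻¹ : GL ι F) : Matrix ι ι F) := ⟨_, rfl⟩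
  have hXv : ∀ x : Fin d × Fin 2 → F, X *ᵥ ((P : Matrix ι ι F) *ᵥ (x ∘ e)) = (P : Matrix ι ι F) *ᵥ ((((1 : Matrix (Fin d) (Fin d) F) ⊗ₖ J₀) *ᵥ x) ∘ e) := by
    intro x
    rw [hX, ← Matrix.mulVec_mulVec, gl_inv_mulVec, ← Matrix.mulVec_mulVec, reindexM_mulVec]
  have hG : ∀ x y : Fin d × Fin 2 → F, f ((P : Matrix ι ι F) *ᵥ (x ∘ e)) ((P : Matrix ι ι F) *ᵥ (y ∘ e)) =
      formOfGram (((RingHom.id F : F →+* F)) : F → F) (A₀ ⊗ₖ C₀) x y := by
    intro x y
    rw [hT.eqn]
    rfl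
  have hadj : C.adj X = -X := by
    symm
    refine C.eq_adj_of' fun u v => ?_
    obtain ⟨x, rfl⟩ := pv_surj e P u
    obtain ⟨y, rfl⟩ := pv_surj e P v
    have e0 : (-X) *ᵥ ((P : Matrix ι ι F) *ᵥ (y ∘ e)) = (-1 : F) • (X *ᵥ ((P : Matrix ι ι F) *ᵥ (y ∘ e))) := by
      rw [Matrix.neg_mulVec, neg_one_smul]
    rw [e0, hS.smul_right, hXv, hXv, hG, hG]
    have e1 := formOfGram_mulVec (RingHom.id F) (A₀ ⊗ₖ C₀) ((1 : Matrix (Fin d) (Fin d) F) ⊗ₖ J₀) 1 x y
    have e2 := formOfGram_mulVec (RingHom.id F) (A₀ ⊗ₖ C₀) 1 ((1 : Matrix (Fin d) (Fin d) F) ⊗ₖ J₀) x y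
    rw [Matrix.one_mulVec] at e1 e2
    rw [e1, e2]
    have e3 : ((1 : Matrix (Fin d) (Fin d) F) ⊗ₖ J₀)ᵀ = (1 : Matrix (Fin d) (Fin d) F) ⊗ₖ J₀ᵀ := by
      ext a b
      simp [Matrix.kroneckerMap_apply, Matrix.one_apply, eq_comm]
    have e4 : ((1 : Matrix (Fin d) (Fin d) F) ⊗ₖ J₀).map (RingHom.id F) = (1 : Matrix (Fin d) (Fin d) F) ⊗ₖ J₀ := by
      ext a b
      simp
    have e5 : (1 : Matrix (Fin d × Fin 2) (Fin d × Fin 2) F).map (RingHom.id F) = 1 := by
      ext a b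
      simp [Matrix.one_apply]
    rw [e3, e4, e5, Matrix.mul_one, Matrix.transpose_one, Matrix.one_mul, ← Matrix.mul_kronecker_mul, ← Matrix.mul_kronecker_mul,
      Matrix.one_mul, Matrix.mul_one, hCJ, hJC, RingHom.id_apply]
    have e6 : A₀ ⊗ₖ (-detJ : Matrix (Fin 2) (Fin 2) F) = (-1 : F) • (A₀ ⊗ₖ (detJ : Matrix (Fin 2) (Fin 2) F)) := by
      ext a b
      simp [Matrix.kroneckerMap_apply]
    rw [e6, formOfGram_smul]
  -- conjugation by the group
  have hnorm : ∀ g ∈ H, ∃ μ : F, (g : Matrix ι ι F) * X * ((g⁻¹ : GL ι F) : Matrix ι ι F) = μ • X := by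
    intro g hg
    obtain ⟨a, c, hac⟩ := tensor_action (hT.le hg)
    have hrel : ∀ (u u' : Fin d → F) (w w' : Fin 2 → F),
        formOfGram (((RingHom.id F : F →+* F)) : F → F) A₀ ((a : Matrix (Fin d) (Fin d) F) *ᵥ u) ((a : Matrix (Fin d) (Fin d) F) *ᵥ u') *
          formOfGram (((RingHom.id F : F →+* F)) : F → F) C₀ ((c : Matrix (Fin 2) (Fin 2) F) *ᵥ w) ((c : Matrix (Fin 2) (Fin 2) F) *ᵥ w') =
        formOfGram (((RingHom.id F : F →+* F)) : F → F) A₀ u u' * formOfGram (((RingHom.id F : F →+* F)) : F → F) C₀ w w' := by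
      intro u u' w w'
      have h3 := hfix g hg ((P : Matrix ι ι F) *ᵥ (tvP u w ∘ e)) ((P : Matrix ι ι F) *ᵥ (tvP u' w' ∘ e))
      rw [hac, hac, kron_mulVec_tvP, kron_mulVec_tvP, hT.form_tv, hT.form_tv] at h3
      exact h3
    obtain ⟨u₀, u₀', hu₀⟩ := hT.ctx₁.exists_ne_of_nonempty
    obtain ⟨w₀, w₀', hw₀⟩ := hT.ctx₂.exists_ne_of_nonempty
    have hne := hrel u₀ u₀' w₀ w₀'
    set α := formOfGram (((RingHom.id F : F →+* F)) : F → F) A₀ ((a : Matrix (Fin d) (Fin d) F) *ᵥ u₀) ((a : Matrix (Fin d) (Fin d) F) *ᵥ u₀') with hα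
    have hα0 : α ≠ 0 := by
      intro h0
      rw [h0, zero_mul] at hne
      exact mul_ne_zero hu₀ hw₀ hne.symm
    set lam := formOfGram (((RingHom.id F : F →+* F)) : F → F) A₀ u₀ u₀' / α with hlam
    have hlam0 : lam ≠ 0 := div_ne_zero hu₀ hα0
    have hsim : (c : Matrix (Fin 2) (Fin 2) F)ᵀ * C₀ * (c : Matrix (Fin 2) (Fin 2) F) = lam • C₀ := by
      ext i j
      have h3 := hrel u₀ u₀' (Pi.single i 1) (Pi.single j 1)
      rw [formOfGram_mulVec (RingHom.id F) C₀ (c : Matrix (Fin 2) (Fin 2) F) (c : Matrix (Fin 2) (Fin 2) F)] at h3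
      have e5 : (c : Matrix (Fin 2) (Fin 2) F).map (RingHom.id F) = (c : Matrix (Fin 2) (Fin 2) F) := by
        ext a b
        simp
      rw [e5, formOfGram_single, formOfGram_single] at h3
      rw [Matrix.smul_apply, smul_eq_mul, hlam]
      field_simp
      linear_combination h3
    have hJc := hconj c lam hlam0 hsim
    have hdc : (c : Matrix (Fin 2) (Fin 2) F).det ≠ 0 := ((Matrix.isUnit_iff_isUnit_det _).mp c.isUnit).ne_zero
    set μ₀ := (c : Matrix (Fin 2) (Fin 2) F).det / lam with hμ₀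
    have hμ0 : μ₀ ≠ 0 := div_ne_zero hdc hlam0
    have hcomm : X * (g : Matrix ι ι F) = μ₀ • ((g : Matrix ι ι F) * X) := by
      apply mat_eq_of_pv e P
      intro x
      have e1 : ((1 : Matrix (Fin d) (Fin d) F) ⊗ₖ J₀) *ᵥ (((a : Matrix (Fin d) (Fin d) F) ⊗ₖ (c : Matrix (Fin 2) (Fin 2) F)) *ᵥ x) =
          μ₀ • (((a : Matrix (Fin d) (Fin d) F) ⊗ₖ (c : Matrix (Fin 2) (Fin 2) F)) *ᵥ (((1 : Matrix (Fin d) (Fin d) F) ⊗ₖ J₀) *ᵥ x)) := by
        rw [Matrix.mulVec_mulVec, Matrix.mulVec_mulVec, ← Matrix.mul_kronecker_mul, ← Matrix.mul_kronecker_mul, Matrix.one_mul, Matrix.mul_one, hJc,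
          Matrix.kronecker_smul, Matrix.smul_mulVec]
      rw [Matrix.smul_mulVec, ← Matrix.mulVec_mulVec, ← Matrix.mulVec_mulVec, hac, hXv, hXv, hac, e1]
      have e2 : ∀ y : Fin d × Fin 2 → F, (μ₀ • y) ∘ e = μ₀ • (y ∘ e) := fun _ => rfl
      rw [e2, Matrix.mulVec_smul]
    refine ⟨μ₀⁻¹, ?_⟩
    have h3 : (g : Matrix ι ι F) * X * ((g⁻¹ : GL ι F) : Matrix ι ι F) = μ₀⁻¹ • (μ₀ • ((g : Matrix ι ι F) * X)) * ((g⁻¹ : GL ι F) : Matrix ι ι F) := by
      rw [smul_smul, inv_mul_cancel₀ hμ0, one_smul]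
    rw [h3, ← hcomm, Matrix.smul_mul, Matrix.mul_assoc, ← Units.val_mul, mul_inv_cancel, Units.val_one, Matrix.mul_one]
  -- the algebra
  let A' : Subalgebra F (Matrix ι ι F) := Algebra.adjoin F {X}
  have hXA : X ∈ A' := Algebra.subset_adjoin (Set.mem_singleton X)
  have hNA : NormAlg H A' := by
    intro h hh b hb
    induction hb using Algebra.adjoin_induction with
    | mem x hx =>
      obtain rfl := Set.mem_singleton_iff.mp hx
      obtain ⟨μ, hμ⟩ := hnorm h hh
      rw [hμ]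
      exact A'.smul_mem hXA _
    | algebraMap r =>
      rw [Algebra.algebraMap_eq_smul_one, Matrix.mul_smul, Matrix.smul_mul, Matrix.mul_one, ← Units.val_mul, mul_inv_cancel, Units.val_one]
      exact A'.smul_mem A'.one_mem _
    | add x y _ _ hx hy =>
      rw [Matrix.mul_add, Matrix.add_mul]
      exact A'.add_mem hx hy
    | mul x y _ _ hx hy =>
      have e1 : (h : Matrix ι ι F) * (x * y) * ((h⁻¹ : GL ι F) : Matrix ι ι F) =
          ((h : Matrix ι ι F) * x * ((h⁻¹ : GL ι F) : Matrix ι ι F)) * ((h : Matrix ι ι F) * y * ((h⁻¹ : GL ι F) : Matrix ι ι F)) := by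
        have e2 : ((h⁻¹ : GL ι F) : Matrix ι ι F) * (h : Matrix ι ι F) = 1 := by
          rw [← Units.val_mul, inv_mul_cancel, Units.val_one]
        calc (h : Matrix ι ι F) * (x * y) * ((h⁻¹ : GL ι F) : Matrix ι ι F)
            = (h : Matrix ι ι F) * x * (((h⁻¹ : GL ι F) : Matrix ι ι F) * (h : Matrix ι ι F)) * y * ((h⁻¹ : GL ι F) : Matrix ι ι F) := by
              rw [e2]; simp only [Matrix.mul_one, Matrix.mul_assoc]
          _ = _ := by simp only [Matrix.mul_assoc]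
      rw [e1]
      exact A'.mul_mem hx hy
  have hst : FStar C A' := by
    intro x hx
    induction hx using Algebra.adjoin_induction with
    | mem x hx =>
      obtain rfl := Set.mem_singleton_iff.mp hx
      rw [hadj]
      exact A'.neg_mem hXA
    | algebraMap r =>
      rw [Algebra.algebraMap_eq_smul_one, C.adj_smul, C.adj_one]
      exact A'.smul_mem A'.one_mem _
    | add x y _ _ hx hy =>
      rw [C.adj_add]
      exact A'.add_mem hx hy
    | mul x y _ _ hx hy =>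
      rw [C.adj_mul]
      exact A'.mul_mem hy hx
  have hcomm : ∀ x ∈ A', ∀ y ∈ A', x * y = y * x := by
    intro x hx y hy
    letI := Algebra.adjoinCommRingOfComm F (s := {X}) (by
      intro a ha b hb
      rw [Set.mem_singleton_iff.mp ha, Set.mem_singleton_iff.mp hb])
    exact congrArg Subtype.val (mul_comm (⟨x, hx⟩ : A') ⟨y, hy⟩)
  have hX0 : X ≠ 0 := by
    intro h0
    have hJ0 : J₀ = 0 := by
      ext i j
      let a₀ : Fin d := ⟨0, hd⟩
      have h3 := hXv (tvP (Pi.single a₀ 1) (Pi.single j 1))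
      rw [h0, Matrix.zero_mulVec, kron_mulVec_tvP] at h3
      by_contra hne
      refine pv_ne_zero e P ?_ h3.symm
      intro h4
      have h5 := congrFun h4 (a₀, i)
      simp only [tvP, Matrix.one_mulVec, Pi.single_eq_same, one_mul, Pi.zero_apply] at h5
      rw [Matrix.mulVec_single_one] at h5
      exact hne h5
    rw [hJ0, Matrix.mul_zero] at hCJ
    have := congrFun (congrFun hCJ 0) 1
    simp [detJ] at this
  have hfin : Module.finrank F A' ≠ 1 := by
    intro h1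
    have hbot : A' = ⊥ := Subalgebra.finrank_eq_one_iff.mp h1
    have hmem : X ∈ (⊥ : Subalgebra F (Matrix ι ι F)) := hbot ▸ hXA
    obtain ⟨s, hs⟩ := Algebra.mem_bot.mp hmem
    rw [Algebra.algebraMap_eq_smul_one] at hs
    have h3 : C.adj X = X := by
      rw [← hs, C.adj_smul, C.adj_one]
      rfl
    rw [h3] at hadj
    apply hX0
    have h4 : (2 : F) • X = 0 := by
      rw [two_smul]
      nth_rw 1 [hadj]
      simp
    exact (smul_eq_zero.mp h4).resolve_left h2
  rcases star_comm C hirr hfix hNA hst hcomm hfin with h | ⟨ℓ, K, hℓ, hK, hst', hle, -⟩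
  · exact Sp.class2_case C halt hfix h
  · exact Sp.field_case C halt hfix hℓ hK hst' hle

/-- Tensor decompositions. -/
theorem Sp.tensor_case [Nonempty ι] (C : FCtx (RingHom.id F) (-1) f) (halt : ∀ v, f v v = 0) {H : Subgroup (GL ι F)}
    (hfix : FFix f H) (hirr : Irr H) (hd : 2 ≤ d) (hm : 2 ≤ m)
    {e : ι ≃ Fin d × Fin m} {P : GL ι F} {A₀ : Matrix (Fin d) (Fin d) F} {C₀ : Matrix (Fin m) (Fin m) F} {ε₁ ε₂ : F}
    (hT : FTensor (RingHom.id F) (-1) f H e P A₀ C₀ ε₁ ε₂) : SpOutcome f H := by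
  classical
  by_cases hq : Odd (Fintype.card F)
  · have h2 := two_ne_of_odd_card hq
    have normal : ∀ (d m : ℕ) (e : ι ≃ Fin d × Fin m) (P : GL ι F) (A₀ : Matrix (Fin d) (Fin d) F) (C₀ : Matrix (Fin m) (Fin m) F),
        0 < d → 2 ≤ m → FTensor (RingHom.id F) (-1) f H e P A₀ C₀ (-1) 1 → SpOutcome f H := by
      intro d m e P A₀ C₀ hd hm hT
      rcases Nat.lt_or_ge m 3 with h3 | h3
      · obtain rfl : m = 2 := by omega
        exact Sp.tensor_J C halt hq hfix hirr hd hT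
      · refine Or.inr <| Or.inr <| Or.inr <| Or.inr <| Or.inr <| Or.inr <| Or.inr <| Or.inr <| Or.inr <| Or.inl
          ⟨d, m, e, P, formOfGram ((RingHom.id F : F →+* F) : F → F) A₀, formOfGram ((RingHom.id F : F →+* F) : F → F) C₀, hq, h3,
            FCtx.toSymplectic hT.ctx₁ h2, FCtx.toSymmetric hT.ctx₂, ⟨1, one_ne_zero, fun x y => ?_⟩, hT.le⟩
        rw [hT.eqn, gramMatrix_formOfGram, gramMatrix_formOfGram, one_mul]
        rfl
    haveI hned : Nonempty (Fin d) := ⟨⟨0, by omega⟩⟩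
    have hnorm := hT.ctx₁.eps_norm
    simp only [RingHom.id_apply] at hnorm
    have hfac : (ε₁ - 1) * (ε₁ + 1) = 0 := by linear_combination hnorm
    have hmul := hT.mul
    rcases mul_eq_zero.mp hfac with h | h
    · have h₁ : ε₁ = 1 := sub_eq_zero.mp h
      subst h₁
      have h₂ : ε₂ = -1 := by linear_combination hmul
      subst h₂
      exact normal _ _ _ P _ _ (by omega) hd hT.swap
    · have h₁ : ε₁ = -1 := eq_neg_of_add_eq_zero_left h
      subst h₁
      have h₂ : ε₂ = 1 := by linear_combination -hmul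
      subst h₂
      exact normal _ _ _ P _ _ (by omega) hm hT
  · exact Sp.tensor_even C halt hq hfix hirr hd hm hT

end Tensor

end Cfsg.Agent.H97.Asch
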