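import Cfsg.Agent.Lib.H97H2

/-!
Symplectic case: tensor powers.
-/

set_option autoImplicit false
set_option linter.unusedSectionVars false
set_option linter.style.haveILetI false

namespace Cfsg.Agent.H97.Asch

open Matrix Cfsg Cfsg.Geo
open scoped MatrixGroups commutatorElement Kronecker

variable {ι : Type} [Fintype ι] [DecidableEq ι] {F : Type*} [Field F] [Fintype F]
  {f : (ι → F) → (ι → F) → F}

section Pure

variable {m t : ℕ}

/-- a pure tensor in a tensor power, in coordinates -/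
def tvW (u : Fin t → Fin m → F) : (Fin t → Fin m) → F := fun x => ∏ i, u i (x i)

theorem sum_prod_pi (h : Fin t → Fin m → F) :
    ∑ y : Fin t → Fin m, ∏ i, h i (y i) = ∏ i, ∑ c, h i c := by
  classical
  rw [Finset.prod_univ_sum, Fintype.piFinset_univ]

theorem sum_sum_prod_pi (h : Fin t → Fin m → Fin m → F) :
    ∑ x : Fin t → Fin m, ∑ y : Fin t → Fin m, ∏ i, h i (x i) (y i) = ∏ i, ∑ c, ∑ c', h i c c' := by
  classical
  rw [← sum_prod_pi]
  exact Finset.sum_congr rfl fun x _ => sum_prod_pi _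

theorem pureM_mulVec_tvW (A : Fin t → Matrix (Fin m) (Fin m) F) (u : Fin t → Fin m → F) :
    pureM A *ᵥ tvW u = tvW (fun i => A i *ᵥ u i) := by
  classical
  ext x
  simp only [Matrix.mulVec, dotProduct, tvW, pureM_apply]
  rw [← sum_prod_pi]
  refine Finset.sum_congr rfl fun y _ => ?_
  rw [Finset.prod_mul_distrib]

theorem permM_mulVec_tvW (τ : Equiv.Perm (Fin t)) (u : Fin t → Fin m → F) :
    (permM τ : Matrix (Fin t → Fin m) (Fin t → Fin m) F) *ᵥ tvW u = tvW (fun i => u (τ⁻¹ i)) := by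
  classical
  ext x
  simp only [Matrix.mulVec, dotProduct, tvW, permM_apply, ite_mul, one_mul, zero_mul]
  rw [Finset.sum_ite_eq' Finset.univ (x ∘ τ)]
  simp only [Finset.mem_univ, if_true, Function.comp_apply]
  rw [← Equiv.prod_comp τ (fun j => u (τ⁻¹ j) (x j))]
  simp

theorem tvW_single (x : Fin t → Fin m) : tvW (fun i => Pi.single (x i) (1 : F)) = Pi.single x 1 := by
  classical
  funext y
  simp only [tvW, Pi.single_apply]
  by_cases h : y = x
  · subst h
    simp
  · rw [if_neg h]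
    obtain ⟨i, hi⟩ := Function.ne_iff.mp h
    exact Finset.prod_eq_zero (Finset.mem_univ i) (by simp [hi])

variable {σ : F →+* F} {ε : F} {H : Subgroup (GL ι F)} {e : ι ≃ (Fin t → Fin m)} {P : GL ι F}
  {A₀ : Matrix (Fin m) (Fin m) F} {κ ε₁ : F}

theorem gram_tvW (A₀ : Matrix (Fin m) (Fin m) F) (σ : F →+* F) (u w : Fin t → Fin m → F) :
    ∑ a, ∑ b, tvW u a * (∏ i, A₀ (a i) (b i)) * σ (tvW w b) = ∏ i, formOfGram (σ : F → F) A₀ (u i) (w i) := by
  simp only [formOfGram]
  rw [← sum_sum_prod_pi]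
  refine Finset.sum_congr rfl fun a _ => Finset.sum_congr rfl fun b _ => ?_
  simp only [tvW, map_prod, Finset.prod_mul_distrib]

theorem FWreath.form_tv (hW : FWreath σ ε f H e P A₀ κ ε₁) (u w : Fin t → Fin m → F) :
    f ((P : Matrix ι ι F) *ᵥ (tvW u ∘ e)) ((P : Matrix ι ι F) *ᵥ (tvW w ∘ e)) =
      κ * ∏ i, formOfGram (σ : F → F) A₀ (u i) (w i) := by
  rw [hW.eqn, gram_tvW]

theorem wreath_action {g : GL ι F} (hg : g ∈ tensorWreathSubgroup m t e P) :
    ∃ (τ : Equiv.Perm (Fin t)) (gs : Fin t → GL (Fin m) F), ∀ x : (Fin t → Fin m) → F,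
      (g : Matrix ι ι F) *ᵥ ((P : Matrix ι ι F) *ᵥ (x ∘ e)) =
        (P : Matrix ι ι F) *ᵥ (((permM τ : Matrix (Fin t → Fin m) (Fin t → Fin m) F) *ᵥ
          (pureM (fun i => (gs i : Matrix (Fin m) (Fin m) F)) *ᵥ x)) ∘ e) := by
  rcases hg with ⟨_, ⟨k, hk, rfl⟩, rfl⟩
  obtain ⟨τ, gs, rfl⟩ := wreath_nf hk
  refine ⟨τ, gs, fun x => ?_⟩
  show ((P * glReindex e.symm (permG τ * pureG gs) * P⁻¹ : GL ι F) : Matrix ι ι F) *ᵥ _ = _
  rw [gl_mulVec_mul, gl_mulVec_mul, gl_inv_mulVec, reindex_mulVec, Units.val_mul, ← Matrix.mulVec_mulVec]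
  rfl

theorem wreath_action_tv {g : GL ι F} (hg : g ∈ tensorWreathSubgroup m t e P) :
    ∃ (τ : Equiv.Perm (Fin t)) (gs : Fin t → GL (Fin m) F), ∀ u : Fin t → Fin m → F,
      (g : Matrix ι ι F) *ᵥ ((P : Matrix ι ι F) *ᵥ (tvW u ∘ e)) =
        (P : Matrix ι ι F) *ᵥ (tvW (fun i => (gs (τ⁻¹ i) : Matrix (Fin m) (Fin m) F) *ᵥ u (τ⁻¹ i)) ∘ e) := by
  obtain ⟨τ, gs, h⟩ := wreath_action hg
  refine ⟨τ, gs, fun u => ?_⟩
  rw [h, pureM_mulVec_tvW, permM_mulVec_tvW]

/-- the pure vectors span -/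
theorem span_tvW (e : ι ≃ (Fin t → Fin m)) (P : GL ι F) :
    Submodule.span F {v : ι → F | ∃ u : Fin t → Fin m → F, v = (P : Matrix ι ι F) *ᵥ (tvW u ∘ e)} = ⊤ := by
  classical
  rw [eq_top_iff]
  intro v _
  obtain ⟨x, rfl⟩ := pv_surj e P v
  have e2 : x = ∑ z, x z • (Pi.single z (1 : F) : (Fin t → Fin m) → F) := by
    funext k
    simp [Finset.sum_apply, Pi.single_apply]
  rw [e2]
  have hmem : ∀ z : Fin t → Fin m, (P : Matrix ι ι F) *ᵥ ((Pi.single z (1 : F) : (Fin t → Fin m) → F) ∘ e) ∈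
      Submodule.span F {v : ι → F | ∃ u : Fin t → Fin m → F, v = (P : Matrix ι ι F) *ᵥ (tvW u ∘ e)} := by
    intro z
    apply Submodule.subset_span
    exact ⟨fun i => Pi.single (z i) 1, by rw [tvW_single]⟩
  have e4 : (∑ z, x z • (Pi.single z (1 : F) : (Fin t → Fin m) → F)) ∘ e = ∑ z, x z • ((Pi.single z (1 : F) : (Fin t → Fin m) → F) ∘ e) := by
    funext k
    simp [Finset.sum_apply]
  rw [e4, Matrix.mulVec_sum]
  refine Submodule.sum_mem _ fun z _ => ?_
  rw [show (x z • ((Pi.single z (1 : F) : (Fin t → Fin m) → F) ∘ e)) = x z • ((Pi.single z (1 : F) : (Fin t → Fin m) → F) ∘ e) from rfl,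
    Matrix.mulVec_smul]
  exact Submodule.smul_mem _ _ (hmem z)

/-- Tensor powers in characteristic two: a quadratic form. -/
theorem Sp.wreath_even (C : FCtx (RingHom.id F) (-1) f) (halt : ∀ v, f v v = 0) (hq : ¬ Odd (Fintype.card F))
    (hfix : FFix f H) (hm : 0 < m) (ht : 2 ≤ t) (hW : FWreath (RingHom.id F) (-1) f H e P A₀ κ ε₁) : SpOutcome f H := by
  classical
  have h2 := two_eq_zero_of_not_odd hq
  haveI hnem : Nonempty (Fin m) := ⟨⟨0, hm⟩⟩
  have hε₁ : ε₁ = 1 := by
    have hx := hW.ctx.eps_norm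
    simp only [RingHom.id_apply] at hx
    have h3 : (ε₁ - 1) * (ε₁ - 1) = 0 := by linear_combination hx + (1 - ε₁) * h2
    exact sub_eq_zero.mp (mul_self_eq_zero.mp h3)
  subst hε₁
  have hAs : ∀ a b, A₀ a b = A₀ b a := by
    intro a b
    have := hW.ctx.herm (Pi.single a 1) (Pi.single b 1)
    rw [formOfGram_single, formOfGram_single, one_mul] at this
    exact this
  have halt' : ∀ u, formOfGram (((RingHom.id F : F →+* F)) : F → F) A₀ u u = 0 := by
    intro u
    have h3 := hW.form_tv (fun _ => u) (fun _ => u)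
    rw [halt, Finset.prod_const, Finset.card_univ, Fintype.card_fin] at h3
    have h4 := (mul_eq_zero.mp h3.symm).resolve_left hW.ne
    exact pow_eq_zero_iff (by omega) |>.mp h4
  have hA : ∀ a, A₀ a a = 0 := by
    intro a
    have := halt' (Pi.single a 1)
    rwa [formOfGram_single] at this
  let i₀ : Fin t := ⟨0, by omega⟩
  let i₁ : Fin t := ⟨1, by omega⟩
  have hi : i₁ ≠ i₀ := by
    intro h
    have := congrArg Fin.val h
    simp [i₀, i₁] at this
  let Γ : Matrix (Fin t → Fin m) (Fin t → Fin m) F := fun a b => κ * ∏ i, A₀ (a i) (b i)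
  obtain ⟨Q, hsm, hpol, hval⟩ := exists_level_quad (f := f) e P (Γ := Γ) (ℓ := fun x => x i₀)
    (fun a b => by
      simp only [Γ]
      congr 1
      exact Finset.prod_congr rfl fun i _ => hAs _ _)
    (fun a b h => by
      simp only [Γ]
      rw [Finset.prod_eq_zero (Finset.mem_univ i₀) (by rw [show a i₀ = b i₀ from h, hA]), mul_zero])
    (fun x y => by
      rw [hW.eqn, Finset.mul_sum]
      refine Finset.sum_congr rfl fun a _ => ?_
      rw [Finset.mul_sum]
      refine Finset.sum_congr rfl fun b _ => ?_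
      simp only [Γ, RingHom.id_apply]
      ring)
  refine Sp.quad_outcome' C hfix hq hsm hpol (span_tvW e P) ?_ ?_
  · rintro _ ⟨u, rfl⟩
    rw [hval]
    let h : Fin t → Fin m → Fin m → F := fun i c c' =>
      if i = i₀ then (if c < c' then u i c * A₀ c c' * u i c' else 0) else u i c * A₀ c c' * u i c'
    have e1 : levelQ Γ (fun x => x i₀) (tvW u) = κ * ∏ i, ∑ c, ∑ c', h i c c' := by
      rw [← sum_sum_prod_pi]
      simp only [levelQ, Finset.mul_sum]
      refine Finset.sum_congr rfl fun a _ => Finset.sum_congr rfl fun b _ => ?_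
      have e2 : ∏ i, h i (a i) (b i) = if a i₀ < b i₀ then ∏ i, (u i (a i) * A₀ (a i) (b i) * u i (b i)) else 0 := by
        split_ifs with hlt
        · refine Finset.prod_congr rfl fun i _ => ?_
          by_cases hii : i = i₀
          · subst hii
            simp [h, hlt]
          · simp [h, hii]
        · refine Finset.prod_eq_zero (Finset.mem_univ i₀) ?_
          simp [h, hlt]
      rw [e2]
      split_ifs
      · simp only [Γ, tvW, Finset.prod_mul_distrib]
        ring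
      · simp
    rw [e1, Finset.prod_eq_zero (Finset.mem_univ i₁), mul_zero]
    have e3 := halt' (u i₁)
    simp only [formOfGram, RingHom.id_apply] at e3
    simpa [h, hi] using e3
  · rintro g hg _ ⟨u, rfl⟩
    obtain ⟨τ, gs, hτ⟩ := wreath_action_tv (hW.le hg)
    exact ⟨_, hτ u⟩

/-- Tensor powers in odd characteristic. -/
theorem Sp.wreath_odd (hq : Odd (Fintype.card F)) (hm : 0 < m) (ht : 2 ≤ t) (hex : ¬ (Fintype.card F = 3 ∧ m = 2))
    (hW : FWreath (RingHom.id F) (-1) f H e P A₀ κ ε₁) : SpOutcome f H := by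
  classical
  have h2 := two_ne_of_odd_card hq
  haveI hnem : Nonempty (Fin m) := ⟨⟨0, hm⟩⟩
  have hrel := hW.rel
  simp only [RingHom.id_apply] at hrel
  have hε : ε₁ ^ t = -1 := by
    have h3 : κ * (ε₁ ^ t + 1) = 0 := by linear_combination hrel
    exact eq_neg_of_add_eq_zero_left ((mul_eq_zero.mp h3).resolve_left hW.ne)
  have hnorm := hW.ctx.eps_norm
  simp only [RingHom.id_apply] at hnorm
  have hfac : (ε₁ - 1) * (ε₁ + 1) = 0 := by linear_combination hnorm
  have hε₁ : ε₁ = -1 := by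
    rcases mul_eq_zero.mp hfac with h | h
    · have h₁ : ε₁ = 1 := sub_eq_zero.mp h
      rw [h₁, one_pow] at hε
      exfalso
      apply h2
      linear_combination hε
    · exact eq_neg_of_add_eq_zero_left h
  subst hε₁
  have htodd : Odd t := by
    rcases Nat.even_or_odd t with he | ho
    · exfalso
      rw [he.neg_one_pow] at hε
      apply h2
      linear_combination hε
    · exact ho
  have ht3 : 3 ≤ t := by
    rcases htodd with ⟨j, hj⟩
    omega
  refine Or.inr <| Or.inr <| Or.inr <| Or.inr <| Or.inr <| Or.inr <| Or.inr <| Or.inr <| Or.inr <| Or.inr <| Or.inl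
    ⟨m, t, e, P, formOfGram ((RingHom.id F : F →+* F) : F → F) A₀, hq, htodd, ht3, hex, FCtx.toSymplectic hW.ctx h2,
      ⟨κ, hW.ne, fun x y => ?_⟩, hW.le⟩
  rw [hW.eqn, gramMatrix_formOfGram]
  rfl

end Pure

end Cfsg.Agent.H97.Asch
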