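import Cfsg.Agent.Lib.H97H3

/-!
Galois descent along a cyclic extension of prime degree: a group conjugate to its Galois twist, acting absolutely
irreducibly, is realisable over the fixed field.
-/

set_option autoImplicit false
set_option linter.unusedSectionVars false
set_option linter.style.haveILetI false

namespace Cfsg.Agent.H97.Asch

open Matrix Cfsg Cfsg.Geo
open scoped MatrixGroups commutatorElement Kronecker

variable {ι : Type} [Fintype ι] [DecidableEq ι] {F : Type*} [Field F] [Fintype F]

/-- the group is defined over the fixed field of a semilinear map with spanning fixed points -/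
theorem realisable_of_fixed {N : Subgroup (GL ι F)} {τ : F ≃+* F} {F₁ : Subfield F} (hτ : ∀ x, τ x = x ↔ x ∈ F₁)
    {T : (ι → F) → ι → F} (hadd : ∀ a b, T (a + b) = T a + T b) (hsmul : ∀ (c : F) a, T (c • a) = τ c • T a)
    (hg : ∀ g ∈ N, ∀ v, T ((g : Matrix ι ι F) *ᵥ v) = (g : Matrix ι ι F) *ᵥ T v)
    (hspan : Submodule.span F {v : ι → F | T v = v} = ⊤) :
    ∃ B : GL ι F, ∀ s ∈ N, ∀ i j, ((B : Matrix ι ι F) * (s : Matrix ι ι F) * ((B⁻¹ : GL ι F) : Matrix ι ι F)) i j ∈ F₁ := by
  classical
  have hT0 : T 0 = 0 := by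
    have := hsmul 0 0
    simpa using this
  have hsum : ∀ {κ : Type} (t : Finset κ) (c : κ → F) (a : κ → ι → F), T (∑ k ∈ t, c k • a k) = ∑ k ∈ t, τ (c k) • T (a k) := by
    intro κ t c a
    induction t using Finset.induction_on with
    | empty => simp [hT0]
    | insert i t hi ih =>
      rw [Finset.sum_insert hi, Finset.sum_insert hi, hadd, hsmul, ih]
  obtain ⟨b, hbV, hbspan, hbli⟩ := exists_linearIndependent F {v : ι → F | T v = v}
  have hbsp : ⊤ ≤ Submodule.span F (Set.range ((↑) : b → ι → F)) := by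
    rw [Subtype.range_coe, hbspan, hspan]
  let e₀ : Module.Basis b F (ι → F) := Module.Basis.mk hbli hbsp
  have : Finite b := Module.Finite.finite_basis e₀
  have : Fintype b := Fintype.ofFinite b
  let e : Module.Basis ι F (ι → F) := e₀.reindex (e₀.indexEquiv (Pi.basisFun F ι))
  have heV : ∀ i, T (e i) = e i := by
    intro i
    have : e i ∈ b := by
      simp only [e, Module.Basis.reindex_apply, e₀, Module.Basis.mk_apply]
      exact Subtype.coe_prop _
    exact hbV this
  obtain ⟨P₀, hP₀⟩ := exists_gl_of_bases (Pi.basisFun F ι) e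
  have hP₀' : ∀ k, (P₀ : Matrix ι ι F) *ᵥ Pi.single k 1 = e k := by
    intro k
    have := hP₀ k
    simpa using this
  refine ⟨P₀⁻¹, fun g hg' i j => ?_⟩
  set c : ι → F := fun k => e.repr ((g : Matrix ι ι F) *ᵥ e j) k with hc
  have hge : (g : Matrix ι ι F) *ᵥ e j = ∑ k, c k • e k := (e.sum_repr _).symm
  have hfixed : ∀ k, τ (c k) = c k := by
    intro k
    have h1 : T ((g : Matrix ι ι F) *ᵥ e j) = (g : Matrix ι ι F) *ᵥ e j := by
      rw [hg g hg', heV]
    rw [hge, hsum] at h1
    simp only [heV] at h1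
    have h2 := congrArg (fun u => e.repr u k) h1
    simp only [map_sum, map_smul, Finsupp.coe_finsetSum, Finset.sum_apply, Finsupp.smul_apply,
      Module.Basis.repr_self, smul_eq_mul, Finsupp.single_apply, mul_ite, mul_one, mul_zero,
      Finset.sum_ite_eq', Finset.mem_univ, if_true] at h2
    exact h2
  have hent : (((P₀⁻¹ : GL ι F) : Matrix ι ι F) * (g : Matrix ι ι F) * (((P₀⁻¹)⁻¹ : GL ι F) : Matrix ι ι F)) i j = c i := by
    rw [inv_inv]
    have h1 : (((P₀⁻¹ : GL ι F) : Matrix ι ι F) * (g : Matrix ι ι F) * (P₀ : Matrix ι ι F)) *ᵥ Pi.single j 1 = c := by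
      rw [← Matrix.mulVec_mulVec, hP₀', ← Matrix.mulVec_mulVec, hge, Matrix.mulVec_sum]
      ext l
      simp only [Matrix.mulVec_smul, Finset.sum_apply, Pi.smul_apply, smul_eq_mul]
      have h3 : ∀ k, ((P₀⁻¹ : GL ι F) : Matrix ι ι F) *ᵥ e k = Pi.single k 1 := by
        intro k
        rw [← hP₀', gl_inv_mulVec]
      simp only [h3, Pi.single_apply, mul_ite, mul_one, mul_zero, Finset.sum_ite_eq, Finset.mem_univ, if_true]
    rw [← h1, Matrix.mulVec_single_one]
    rfl
  rw [hent]
  exact (hτ _).mp (hfixed i)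

/-- the partial sums of powers -/
def geomS (q : ℕ) : ℕ → ℕ
  | 0 => 0
  | k + 1 => 1 + q * geomS q k

theorem geomS_mul (q k : ℕ) (hq : 1 ≤ q) : geomS q k * (q - 1) + 1 = q ^ k := by
  obtain ⟨p, rfl⟩ : ∃ p, q = p + 1 := ⟨q - 1, by omega⟩
  simp only [Nat.add_sub_cancel]
  induction k with
  | zero => simp [geomS]
  | succ k ih =>
    rw [pow_succ, ← ih]
    simp only [geomS]
    ring

/-- the norm is surjective onto the fixed field -/
theorem exists_norm_subfield {q r : ℕ} (hq : 2 ≤ q) (hr : 0 < r) (hF : Fintype.card F = q ^ r) {c : F} (hc : c ≠ 0) (hcq : c ^ q = c) :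
    ∃ a : F, a ≠ 0 ∧ a ^ geomS q r = c := by
  classical
  have hmul := geomS_mul q r (by omega)
  set e := geomS q r with he
  have hpow : Nat.card Fˣ = (q - 1) * e := by
    rw [Nat.card_eq_fintype_card, Fintype.card_units, hF]
    have : q ^ r - 1 = e * (q - 1) := by omega
    rw [this, mul_comm]
  have hepos : 0 < e := by
    have h1 : 1 < q ^ r := Nat.one_lt_pow hr.ne' (by omega)
    by_contra h0
    have h2 : e = 0 := by omega
    rw [h2] at hmul
    omega
  have hq1 : 0 < q - 1 := by omega
  have hrange : (powMonoidHom e : Fˣ →* Fˣ).range = (powMonoidHom (q - 1) : Fˣ →* Fˣ).ker := by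
    apply Subgroup.eq_of_le_of_card_ge
    · rintro _ ⟨x, rfl⟩
      rw [MonoidHom.mem_ker]
      simp only [powMonoidHom_apply]
      rw [← pow_mul, mul_comm, ← hpow, pow_card_eq_one']
    · rw [IsCyclic.card_powMonoidHom_ker, IsCyclic.card_powMonoidHom_range, hpow,
        Nat.gcd_eq_right (Nat.dvd_mul_right _ _), Nat.gcd_eq_right (Nat.dvd_mul_left _ _), Nat.mul_div_cancel _ hepos]
  have hcu : (Units.mk0 c hc) ∈ (powMonoidHom (q - 1) : Fˣ →* Fˣ).ker := by
    rw [MonoidHom.mem_ker]
    apply Units.ext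
    simp only [powMonoidHom_apply, Units.val_pow_eq_pow_val, Units.val_mk0, Units.val_one]
    have h1 : c ^ (q - 1) * c = 1 * c := by
      rw [← pow_succ, Nat.sub_add_cancel (by omega), hcq, one_mul]
    exact mul_right_cancel₀ hc h1
  rw [← hrange] at hcu
  obtain ⟨a, ha⟩ := hcu
  refine ⟨a, a.ne_zero, ?_⟩
  have := congrArg Units.val ha
  simpa using this

/-- The descent theorem. -/
theorem twist_descent [Nonempty ι] {N : Subgroup (GL ι F)} (hspan : spanG N = ⊤) {F₁ : Subfield F} {r : ℕ} (hr : r.Prime)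
    (hcard : Fintype.card F = Nat.card F₁ ^ r) {τ : F ≃+* F} (hτp : ∀ x, τ x = x ^ Nat.card F₁) (hτ : ∀ x, τ x = x ↔ x ∈ F₁)
    {Y : GL ι F} (hY : ∀ g ∈ N, (Y : Matrix ι ι F) * (g : Matrix ι ι F) = (g : Matrix ι ι F).map τ * (Y : Matrix ι ι F)) :
    ∃ B : GL ι F, ∀ s ∈ N, ∀ i j, ((B : Matrix ι ι F) * (s : Matrix ι ι F) * ((B⁻¹ : GL ι F) : Matrix ι ι F)) i j ∈ F₁ := by
  classical
  set q := Nat.card F₁ with hq
  have hq2 : 2 ≤ q := Finite.one_lt_card
  have hqr : ∀ a : F, a ^ q ^ r = a := by
    intro a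
    rw [← hcard]
    exact FiniteField.pow_card a
  let T : (ι → F) → ι → F := fun v => ((Y⁻¹ : GL ι F) : Matrix ι ι F) *ᵥ svec τ v
  have hTadd : ∀ a b, T (a + b) = T a + T b := by
    intro a b
    simp only [T]
    rw [svec_add, Matrix.mulVec_add]
  have hTsmul : ∀ (c : F) a, T (c • a) = τ c • T a := by
    intro c a
    simp only [T]
    rw [svec_smul, Matrix.mulVec_smul]
  have hT0 : T 0 = 0 := by
    have := hTsmul 0 0
    simpa using this
  have hTinj : ∀ v, T v = 0 → v = 0 := by
    intro v hv
    have h1 : svec τ v = 0 := by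
      apply gl_mulVec_injective Y⁻¹
      show ((Y⁻¹ : GL ι F) : Matrix ι ι F) *ᵥ svec τ v = ((Y⁻¹ : GL ι F) : Matrix ι ι F) *ᵥ 0
      rw [Matrix.mulVec_zero]
      exact hv
    by_contra h0
    exact svec_ne_zero τ h0 h1
  have hTg : ∀ g ∈ N, ∀ v, T ((g : Matrix ι ι F) *ᵥ v) = (g : Matrix ι ι F) *ᵥ T v := by
    intro g hg v
    simp only [T]
    rw [svec_mulVec]
    have h1 : ((Y⁻¹ : GL ι F) : Matrix ι ι F) * ((g : Matrix ι ι F).map τ) = (g : Matrix ι ι F) * ((Y⁻¹ : GL ι F) : Matrix ι ι F) := by
      have h2 : ((Y⁻¹ : GL ι F) : Matrix ι ι F) * ((Y : Matrix ι ι F) * (g : Matrix ι ι F)) * ((Y⁻¹ : GL ι F) : Matrix ι ι F) =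
          ((Y⁻¹ : GL ι F) : Matrix ι ι F) * ((g : Matrix ι ι F).map τ * (Y : Matrix ι ι F)) * ((Y⁻¹ : GL ι F) : Matrix ι ι F) := by
        rw [hY g hg]
      have e1 : ((Y⁻¹ : GL ι F) : Matrix ι ι F) * (Y : Matrix ι ι F) = 1 := by
        rw [← Units.val_mul, inv_mul_cancel, Units.val_one]
      have e2 : (Y : Matrix ι ι F) * ((Y⁻¹ : GL ι F) : Matrix ι ι F) = 1 := by
        rw [← Units.val_mul, mul_inv_cancel, Units.val_one]
      rw [← Matrix.mul_assoc, e1, Matrix.one_mul, Matrix.mul_assoc _ _ ((Y⁻¹ : GL ι F) : Matrix ι ι F),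
        Matrix.mul_assoc _ (Y : Matrix ι ι F), e2, Matrix.mul_one] at h2
      exact h2.symm
    rw [Matrix.mulVec_mulVec, Matrix.mulVec_mulVec, h1]
  -- iterates
  have hTkadd : ∀ k a b, T^[k] (a + b) = T^[k] a + T^[k] b := by
    intro k a b
    induction k with
    | zero => rfl
    | succ k ih => rw [Function.iterate_succ_apply', Function.iterate_succ_apply', Function.iterate_succ_apply', ih, hTadd]
  have hTksmul : ∀ k (c : F) a, T^[k] (c • a) = c ^ q ^ k • T^[k] a := by
    intro k c a
    induction k with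
    | zero => simp
    | succ k ih =>
      rw [Function.iterate_succ_apply', Function.iterate_succ_apply', ih, hTsmul, hτp, pow_succ q k, pow_mul]
  have hTkg : ∀ g ∈ N, ∀ k v, T^[k] ((g : Matrix ι ι F) *ᵥ v) = (g : Matrix ι ι F) *ᵥ T^[k] v := by
    intro g hg k v
    induction k with
    | zero => rfl
    | succ k ih => rw [Function.iterate_succ_apply', Function.iterate_succ_apply', ih, hTg g hg]
  have hTkinj : ∀ k v, T^[k] v = 0 → v = 0 := by
    intro k v
    induction k with
    | zero => exact id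
    | succ k ih =>
      intro h
      rw [Function.iterate_succ_apply'] at h
      exact ih (hTinj _ h)
  -- the `r`-th iterate is a scalar
  let L : (ι → F) →ₗ[F] (ι → F) :=
    { toFun := T^[r]
      map_add' := hTkadd r
      map_smul' := fun c a => by
        rw [hTksmul, hqr]
        rfl }
  have hLv : ∀ v, LinearMap.toMatrix' L *ᵥ v = T^[r] v := by
    intro v
    rw [← Matrix.toLin'_apply, Matrix.toLin'_toMatrix']
    rfl
  have habs := habs_of_spanG hspan
  obtain ⟨c, hc⟩ := habs (LinearMap.toMatrix' L) (fun g hg => by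
    apply Matrix.toLin'.injective
    apply LinearMap.ext
    intro v
    simp only [Matrix.toLin'_apply]
    rw [← Matrix.mulVec_mulVec, ← Matrix.mulVec_mulVec, hLv, hLv, hTkg g hg])
  have hTr : ∀ v, T^[r] v = c • v := by
    intro v
    rw [← hLv, hc, Matrix.smul_mulVec, Matrix.one_mulVec]
  obtain ⟨v₀, hv₀⟩ : ∃ v : ι → F, v ≠ 0 := exists_ne 0
  have hc0 : c ≠ 0 := by
    rintro rfl
    have h1 := hTr v₀
    rw [zero_smul] at h1
    exact hv₀ (hTkinj r v₀ h1)
  have hcτ : c ^ q = c := by
    have h1 : T (T^[r] v₀) = T^[r] (T v₀) :=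
      (Function.iterate_succ_apply' T r v₀).symm.trans (Function.iterate_succ_apply T r v₀)
    rw [hTr, hTr, hTsmul, hτp] at h1
    have hne : T v₀ ≠ 0 := fun h => hv₀ (hTinj _ h)
    obtain ⟨k, hk⟩ : ∃ k, T v₀ k ≠ 0 := by
      by_contra hall
      push Not at hall
      exact hne (funext hall)
    have h2 := congrFun h1 k
    simp only [Pi.smul_apply, smul_eq_mul] at h2
    exact mul_right_cancel₀ hk h2
  obtain ⟨a, ha0, ha⟩ := exists_norm_subfield hq2 hr.pos hcard (inv_ne_zero hc0) (by rw [inv_pow, hcτ])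
  -- the normalised semilinear map
  let T' : (ι → F) → ι → F := fun v => a • T v
  have hT'add : ∀ x y, T' (x + y) = T' x + T' y := by
    intro x y
    simp only [T', hTadd, smul_add]
  have hT'smul : ∀ (b : F) x, T' (b • x) = τ b • T' x := by
    intro b x
    simp only [T', hTsmul]
    rw [smul_comm]
  have hT'g : ∀ g ∈ N, ∀ v, T' ((g : Matrix ι ι F) *ᵥ v) = (g : Matrix ι ι F) *ᵥ T' v := by
    intro g hg v
    simp only [T', hTg g hg, Matrix.mulVec_smul]
  have hT'k : ∀ k v, T'^[k] v = a ^ geomS q k • T^[k] v := by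
    intro k v
    induction k with
    | zero => simp [geomS]
    | succ k ih =>
      rw [Function.iterate_succ_apply', Function.iterate_succ_apply', ih]
      simp only [T', geomS]
      rw [hTsmul, hτp, smul_smul, ← pow_mul, pow_add, pow_one, mul_comm (geomS q k) q]
  have hT'r : ∀ v, T'^[r] v = v := by
    intro v
    rw [hT'k, hTr, smul_smul, ha, inv_mul_cancel₀ hc0, one_smul]
  have hT'ksmul : ∀ k (b : F) x, T'^[k] (b • x) = b ^ q ^ k • T'^[k] x := by
    intro k b x
    induction k with
    | zero => simp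
    | succ k ih =>
      rw [Function.iterate_succ_apply', Function.iterate_succ_apply', ih, hT'smul, hτp, pow_succ q k, pow_mul]
  have hT'kadd : ∀ k x y, T'^[k] (x + y) = T'^[k] x + T'^[k] y := by
    intro k x y
    induction k with
    | zero => rfl
    | succ k ih => rw [Function.iterate_succ_apply', Function.iterate_succ_apply', Function.iterate_succ_apply', ih, hT'add]
  -- the fixed vectors span
  have hfixspan : Submodule.span F {v : ι → F | T' v = v} = ⊤ := by
    by_contra hne
    obtain ⟨v, hv⟩ : ∃ v, v ∉ Submodule.span F {v : ι → F | T' v = v} := by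
      by_contra hall
      push Not at hall
      exact hne (eq_top_iff.mpr fun v _ => hall v)
    obtain ⟨φ, hφv, hφ⟩ := Submodule.exists_le_ker_of_notMem hv
    -- the trace of `b • v` is fixed
    have htr : ∀ b : F, ∑ i ∈ Finset.range r, b ^ q ^ i * φ (T'^[i] v) = 0 := by
      intro b
      have hfix : T' (∑ i ∈ Finset.range r, T'^[i] (b • v)) = ∑ i ∈ Finset.range r, T'^[i] (b • v) := by
        have hsum : ∀ (s : Finset ℕ) (w : ℕ → ι → F), T' (∑ i ∈ s, w i) = ∑ i ∈ s, T' (w i) := by
          intro s w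
          induction s using Finset.induction_on with
          | empty =>
            simp only [Finset.sum_empty, T']
            rw [hT0, smul_zero]
          | insert i s hi ih => rw [Finset.sum_insert hi, Finset.sum_insert hi, hT'add, ih]
        rw [hsum]
        simp only [← Function.iterate_succ_apply' T']
        have e1 := Finset.sum_range_succ (fun i => T'^[i] (b • v)) r
        have e2 := Finset.sum_range_succ' (fun i => T'^[i] (b • v)) r
        rw [e1] at e2
        rw [hT'r] at e2
        have e3 : T'^[0] (b • v) = b • v := rfl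
        rw [e3] at e2
        exact (add_right_cancel e2).symm
      have hmem : ∑ i ∈ Finset.range r, T'^[i] (b • v) ∈ Submodule.span F {v : ι → F | T' v = v} := Submodule.subset_span hfix
      have h0 := hφ hmem
      rw [LinearMap.mem_ker, map_sum] at h0
      rw [← h0]
      refine Finset.sum_congr rfl fun i _ => ?_
      rw [hT'ksmul, map_smul, smul_eq_mul]
    -- Dedekind
    let χ : Fin r → (F →* F) := fun i => powMonoidHom (q ^ (i : ℕ))
    have hχ : Function.Injective χ := by
      intro i j hij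
      by_contra hne'
      have hlt : ∀ (i j : Fin r), (i : ℕ) < j → χ i = χ j → False := by
        intro i j hlt hij
        have hall : ∀ b : F, b ^ q ^ ((i : ℕ) + (r - j)) = b := by
          intro b
          have h1 : b ^ q ^ (i : ℕ) = b ^ q ^ (j : ℕ) := DFunLike.congr_fun hij b
          have h2 := congrArg (fun x => x ^ q ^ (r - j)) h1
          simp only [← pow_mul, ← pow_add] at h2
          have e1 : (j : ℕ) + (r - j) = r := by have := j.2; omega
          rw [e1, hqr] at h2
          exact h2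
        have hle : Fintype.card F ≤ q ^ ((i : ℕ) + (r - j)) := card_le_of_forall_pow (by
          exact Nat.one_lt_pow (by have := j.2; omega) (by omega)) hall
        rw [hcard] at hle
        have h3 : (i : ℕ) + (r - j) < r := by have := j.2; omega
        have h4 := Nat.pow_lt_pow_right (by omega : 1 < q) h3
        omega
      rcases lt_or_gt_of_ne (fun h => hne' (Fin.ext h) : (i : ℕ) ≠ j) with h | h
      · exact hlt i j h hij
      · exact hlt j i h hij.symm
    have hli := (linearIndependent_monoidHom F F).comp χ hχ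
    rw [Fintype.linearIndependent_iff] at hli
    have h0 := hli (fun i => φ (T'^[(i : ℕ)] v)) (by
      funext b
      simp only [Finset.sum_apply, Pi.smul_apply, smul_eq_mul, Function.comp_apply, Pi.zero_apply, χ, powMonoidHom_apply]
      have := htr b
      rw [Finset.sum_range] at this
      rw [← this]
      refine Finset.sum_congr rfl fun i _ => ?_
      ring) ⟨0, hr.pos⟩
    exact hφv h0
  exact realisable_of_fixed hτ hT'add hT'smul hT'g hfixspan

end Cfsg.Agent.H97.Asch
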