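import Cfsg.Agent.Lib.H97H4

/-!
Symplectic case: groups of isometries with central commutators acting absolutely irreducibly: orders, centres.
-/

set_option autoImplicit false
set_option linter.unusedSectionVars false
set_option linter.style.haveILetI false

namespace Cfsg.Agent.H97.Asch

open Matrix Cfsg Cfsg.Geo
open scoped MatrixGroups commutatorElement Kronecker

variable {ι : Type} [Fintype ι] [DecidableEq ι] {F : Type*} [Field F]

/-- scalar commutators, spanning the matrix algebra -/
structure WCtx (R : Subgroup (GL ι F)) : Prop where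
  comm : ∀ x ∈ R, ∀ y ∈ R, ∃ ξ : Fˣ, x * y = scU ξ * (y * x)
  span : spanG R = ⊤

namespace WCtx

open SymCtx

variable {R : Subgroup (GL ι F)}

theorem central_scalar (C : WCtx R) {g : GL ι F} (h : ∀ x ∈ R, g * x = x * g) : g ∈ scalars ι F :=
  scalars_of_commute_span C.span h

/-- commutator characters -/
theorem exists_char [Nonempty ι] (C : WCtx R) (x : R) :
    ∃ χ : R →* Fˣ, ∀ y : R, (y : GL ι F) * (x : GL ι F) = scU (χ y) * ((x : GL ι F) * (y : GL ι F)) := by
  classical
  have h : ∀ y : R, ∃ ξ : Fˣ, (y : GL ι F) * (x : GL ι F) = scU ξ * ((x : GL ι F) * (y : GL ι F)) := fun y => by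
    obtain ⟨ξ, h⟩ := C.comm y y.2 x x.2
    exact ⟨ξ, h⟩
  choose f hf using h
  refine ⟨MonoidHom.mk' f fun y y' => ?_, hf⟩
  apply scU_injective (ι := ι)
  have h1 : ((y * y' : R) : GL ι F) * (x : GL ι F) = scU (f y') * scU (f y) * ((x : GL ι F) * ((y * y' : R) : GL ι F)) := by
    calc ((y * y' : R) : GL ι F) * (x : GL ι F) = (y : GL ι F) * ((y' : GL ι F) * (x : GL ι F)) := by
          rw [Subgroup.coe_mul, mul_assoc]
      _ = (y : GL ι F) * (scU (f y') * ((x : GL ι F) * (y' : GL ι F))) := by rw [hf y']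
      _ = scU (f y') * (((y : GL ι F) * (x : GL ι F)) * (y' : GL ι F)) := by
          rw [← mul_assoc, scU_central, mul_assoc, mul_assoc]
      _ = scU (f y') * (scU (f y) * ((x : GL ι F) * (y : GL ι F)) * (y' : GL ι F)) := by rw [hf y]
      _ = _ := by rw [Subgroup.coe_mul]; simp only [mul_assoc]
  rw [hf (y * y')] at h1
  have h2 := mul_right_cancel h1
  rw [h2, map_mul]
  exact (scU_central _ _)

theorem trv_linearIndependent [Nonempty ι] [Finite F] (C : WCtx R) :
    LinearIndependent F (fun t : R ⧸ (scalars ι F).subgroupOf R => (((trv t : R) : GL ι F) : Matrix ι ι F)) := by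
  classical
  have : Fintype (R ⧸ (scalars ι F).subgroupOf R) := Fintype.ofFinite _
  have hch := fun t : R ⧸ (scalars ι F).subgroupOf R => C.exists_char (trv t)
  choose χ hχ using hch
  let g : (R ⧸ (scalars ι F).subgroupOf R) → (R →* F) := fun t => (Units.coeHom F).comp (χ t)
  have hg : Function.Injective g := by
    intro t t' htt
    have hχχ : ∀ y, χ t y = χ t' y := fun y => Units.ext (DFunLike.congr_fun htt y)
    rw [← mk_trv t, ← mk_trv t', QuotientGroup.eq, Subgroup.mem_subgroupOf]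
    apply C.central_scalar
    intro y hy
    have h1 := hχ t ⟨y, hy⟩
    have h2 := hχ t' ⟨y, hy⟩
    rw [hχχ] at h1
    simp only at h1 h2
    set s : GL ι F := ((trv t : R) : GL ι F) with hs
    set s' : GL ι F := ((trv t' : R) : GL ι F) with hs'
    set c : GL ι F := scU (χ t' ⟨y, hy⟩) with hc
    have hcc : ∀ g : GL ι F, g * c = c * g := fun g => scU_central _ g
    have e1 : s⁻¹ * y = c * (y * s⁻¹) := by
      have : s⁻¹ * (y * s) * s⁻¹ = s⁻¹ * (c * (s * y)) * s⁻¹ := by rw [h1]
      rw [← mul_assoc s⁻¹ c, hcc s⁻¹] at this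
      simpa [mul_assoc] using this
    have e2 : s' * y = c⁻¹ * (y * s') := by
      rw [h2]
      simp [mul_assoc]
    show ((trv t : R)⁻¹ * trv t' : R).1 * y = y * ((trv t : R)⁻¹ * trv t' : R).1
    rw [Subgroup.coe_mul, Subgroup.coe_inv, ← hs, ← hs', mul_assoc, e2]
    have hcc' : ∀ g : GL ι F, g * c⁻¹ = c⁻¹ * g := fun g => by
      have : c⁻¹ = scU (χ t' ⟨y, hy⟩)⁻¹ := by rw [hc, map_inv]
      rw [this]
      exact scU_central _ g
    rw [← mul_assoc, hcc', mul_assoc, ← mul_assoc s⁻¹ y, e1]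
    rw [mul_assoc, mul_assoc, inv_mul_cancel_left]
  have hli := (linearIndependent_monoidHom R F).comp g hg
  rw [Fintype.linearIndependent_iff]
  intro c hc t
  -- conjugate the relation
  have hrel : ∀ y : R, ∑ t, (c t * (χ t y : F)) • (((trv t : R) : GL ι F) : Matrix ι ι F) = 0 := by
    intro y
    have h1 : ((y : GL ι F) : Matrix ι ι F) * (∑ t, c t • (((trv t : R) : GL ι F) : Matrix ι ι F)) * (((y : GL ι F)⁻¹ : GL ι F) : Matrix ι ι F) = 0 := by
      rw [hc, Matrix.mul_zero, Matrix.zero_mul]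
    rw [Finset.mul_sum, Finset.sum_mul] at h1
    rw [← h1]
    refine Finset.sum_congr rfl fun t _ => ?_
    rw [Matrix.mul_smul, Matrix.smul_mul, ← Units.val_mul, ← Units.val_mul, hχ t y, mul_smul]
    congr 1
    rw [mul_assoc, mul_assoc, mul_inv_cancel, mul_one, Units.val_mul, scU_val, Matrix.smul_mul, Matrix.one_mul]
  rw [Fintype.linearIndependent_iff] at hli
  have hent : ∀ i j, c t * (((trv t : R) : GL ι F) : Matrix ι ι F) i j = 0 := by
    intro i j
    have := hli (fun t => c t * (((trv t : R) : GL ι F) : Matrix ι ι F) i j) (by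
      funext y
      have h2 := congrFun (congrFun (hrel y) i) j
      rw [Matrix.sum_apply] at h2
      simp only [Finset.sum_apply, Pi.smul_apply, Pi.zero_apply]
      rw [Matrix.zero_apply] at h2
      refine Eq.trans ?_ h2
      refine Finset.sum_congr rfl fun t _ => ?_
      simp only [g, Function.comp, MonoidHom.coe_comp, Units.coeHom_apply, Matrix.smul_apply, smul_eq_mul]
      ring) t
    exact this
  by_contra hct
  have h0 : (((trv t : R) : GL ι F) : Matrix ι ι F) = 0 := by
    ext i j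
    exact (mul_eq_zero.mp (hent i j)).resolve_left hct
  have hu := ((trv t : R) : GL ι F).isUnit
  rw [h0] at hu
  exact not_isUnit_zero hu

theorem trv_span (C : WCtx R) :
    Submodule.span F (Set.range (fun t : R ⧸ (scalars ι F).subgroupOf R => (((trv t : R) : GL ι F) : Matrix ι ι F))) = ⊤ := by
  classical
  rw [eq_top_iff]
  have h1 : (⊤ : Submodule F (Matrix ι ι F)) = Subalgebra.toSubmodule (spanG R) := by
    rw [C.span]
    rfl
  rw [h1, spanG, Algebra.adjoin_eq_span]
  apply Submodule.span_le.mpr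
  intro m hm
  have h2 : ∀ m ∈ Submonoid.closure (matrixSet R), ∃ g ∈ R, (g : Matrix ι ι F) = m := by
    intro m hm
    induction hm using Submonoid.closure_induction with
    | mem x hx =>
      obtain ⟨g, hg, rfl⟩ := hx
      exact ⟨g, hg, rfl⟩
    | one => exact ⟨1, R.one_mem, rfl⟩
    | mul x y _ _ hx hy =>
      obtain ⟨g, hg, rfl⟩ := hx
      obtain ⟨g', hg', rfl⟩ := hy
      exact ⟨g * g', R.mul_mem hg hg', rfl⟩
  obtain ⟨g, hg, rfl⟩ := h2 m hm
  obtain ⟨c, hc⟩ := exists_scalar_trv (⟨g, hg⟩ : R)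
  simp only at hc
  rw [SetLike.mem_coe, hc, Units.val_mul, scU_val, Matrix.mul_smul, Matrix.mul_one]
  exact Submodule.smul_mem _ _ (Submodule.subset_span ⟨_, rfl⟩)

theorem card_quot [Nonempty ι] [Finite F] (C : WCtx R) :
    Nat.card (R ⧸ (scalars ι F).subgroupOf R) = Fintype.card ι * Fintype.card ι := by
  classical
  have : Fintype (R ⧸ (scalars ι F).subgroupOf R) := Fintype.ofFinite _
  let b := Module.Basis.mk C.trv_linearIndependent (top_le_iff.mpr C.trv_span)
  rw [Nat.card_eq_fintype_card, ← Module.finrank_eq_card_basis b, Module.finrank_matrix]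
  simp

/-- the centre of `R` consists of the scalars. -/
theorem center_eq (C : WCtx R) : Subgroup.center R = (scalars ι F).subgroupOf R := by
  ext x
  rw [Subgroup.mem_center_iff, Subgroup.mem_subgroupOf]
  constructor
  · intro h
    apply C.central_scalar
    intro y hy
    have := h ⟨y, hy⟩
    exact (congrArg Subtype.val this).symm
  · intro h y
    apply Subtype.ext
    exact (scalar_central h y)

end WCtx

variable {f : (ι → F) → (ι → F) → F}

/-- A group of isometries of a symplectic form, in odd characteristic, acting absolutely irreducibly, with central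
commutators. -/
structure XCtx (f : (ι → F) → (ι → F) → F) (R : Subgroup (GL ι F)) : Prop where
  ctx : FCtx (RingHom.id F) (-1) f
  two : (2 : F) ≠ 0
  fix : FFix f R
  span : spanG R = ⊤
  der : ⁅R, R⁆ ≤ scalars ι F

namespace XCtx

variable {R : Subgroup (GL ι F)}

theorem central_scalar (C : XCtx f R) {g : GL ι F} (h : ∀ x ∈ R, g * x = x * g) : g ∈ scalars ι F :=
  scalars_of_commute_span C.span h

theorem scal_sq [Nonempty ι] (C : XCtx f R) {c : Fˣ} (hc : (scU c : GL ι F) ∈ R) : c ^ 2 = 1 := by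
  obtain ⟨u, v, huv⟩ := C.ctx.exists_ne_of_nonempty
  have h1 := C.fix _ hc u v
  rw [scU_val, Matrix.smul_mulVec, Matrix.smul_mulVec, Matrix.one_mulVec, Matrix.one_mulVec, C.ctx.sesq.smul_left, C.ctx.sesq.smul_right,
    RingHom.id_apply] at h1
  apply Units.ext
  have h3 : ((c : F) * c - 1) * f u v = 0 := by linear_combination h1
  have h4 := (mul_eq_zero.mp h3).resolve_right huv
  simp only [Units.val_pow_eq_pow_val, Units.val_one]
  linear_combination h4

theorem eq_or_neg [Nonempty ι] (C : XCtx f R) {c : Fˣ} (hc : (scU c : GL ι F) ∈ R) : c = 1 ∨ c = -1 := by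
  have h1 := C.scal_sq hc
  have h2 : ((c : F) - 1) * ((c : F) + 1) = 0 := by
    have := congrArg Units.val h1
    simp only [Units.val_pow_eq_pow_val, Units.val_one] at this
    linear_combination this
  rcases mul_eq_zero.mp h2 with h | h
  · left
    exact Units.ext (sub_eq_zero.mp h)
  · right
    apply Units.ext
    simp only [Units.val_neg, Units.val_one]
    exact eq_neg_of_add_eq_zero_left h

theorem comm' [Nonempty ι] (C : XCtx f R) {x y : GL ι F} (hx : x ∈ R) (hy : y ∈ R) : ∃ ξ : Fˣ, (scU ξ : GL ι F) ∈ R ∧ x * y = scU ξ * (y * x) := by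
  have h1 : ⁅x, y⁆ ∈ scalars ι F := C.der (Subgroup.commutator_mem_commutator hx hy)
  obtain ⟨ξ, hξ⟩ := exists_scU h1
  have hmem : ⁅x, y⁆ ∈ R := by
    rw [commutatorElement_def]
    exact R.mul_mem (R.mul_mem (R.mul_mem hx hy) (R.inv_mem hx)) (R.inv_mem hy)
  refine ⟨ξ, by rw [hξ]; exact hmem, ?_⟩
  rw [hξ, commutatorElement_def]
  group

theorem toW [Nonempty ι] (C : XCtx f R) : WCtx R :=
  ⟨fun x hx y hy => by
    obtain ⟨ξ, -, h⟩ := C.comm' hx hy
    exact ⟨ξ, h⟩, C.span⟩

/-- the element minus one -/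
noncomputable abbrev negU (ι : Type) [Fintype ι] [DecidableEq ι] (F : Type*) [Field F] : GL ι F := scU (-1 : Fˣ)

theorem negU_central (g : GL ι F) : g * negU ι F = negU ι F * g := scU_central _ g

theorem negU_sq : (negU ι F) * (negU ι F) = 1 := by
  rw [← map_mul]
  simp

theorem negU_ne [Nonempty ι] (h2 : (2 : F) ≠ 0) : (negU ι F) ≠ 1 := by
  intro h
  have h1 : (-1 : Fˣ) = 1 := scU_injective (ι := ι) (by rw [map_one]; exact h)
  have h3 := congrArg Units.val h1
  simp only [Units.val_neg, Units.val_one] at h3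
  apply h2
  linear_combination -h3

theorem comm_or [Nonempty ι] (C : XCtx f R) {x y : GL ι F} (hx : x ∈ R) (hy : y ∈ R) : x * y = y * x ∨ x * y = negU ι F * (y * x) := by
  obtain ⟨ξ, hξ, h⟩ := C.comm' hx hy
  rcases C.eq_or_neg hξ with rfl | rfl
  · left
    rw [h, map_one, one_mul]
  · right
    exact h

theorem exists_noncomm [Nonempty ι] (hn : 2 ≤ Fintype.card ι) (C : XCtx f R) : ∃ x ∈ R, ∃ y ∈ R, x * y ≠ y * x := by
  by_contra hall
  push Not at hall
  have hcomm : ∀ x y : Matrix ι ι F, x * y = y * x := by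
    intro x y
    exact spanG_commute hall (by rw [C.span]; trivial) (by rw [C.span]; trivial)
  haveI : Nontrivial ι := Fintype.one_lt_card_iff_nontrivial.mp (by omega)
  obtain ⟨i, j, hj⟩ := exists_pair_ne ι
  have h3 := congrFun (congrFun (hcomm (Matrix.single i j 1) (Matrix.single j i 1)) i) i
  simp [Matrix.mul_apply, Matrix.single_apply, hj, hj.symm] at h3

theorem negU_mem [Nonempty ι] (hn : 2 ≤ Fintype.card ι) (C : XCtx f R) : negU ι F ∈ R := by
  obtain ⟨x, hx, y, hy, hne⟩ := C.exists_noncomm hn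
  rcases C.comm_or hx hy with h | h
  · exact absurd h hne
  · obtain ⟨ξ, hξ, h'⟩ := C.comm' hx hy
    rcases C.eq_or_neg hξ with rfl | rfl
    · exfalso
      apply hne
      rw [h', map_one, one_mul]
    · exact hξ

theorem sq_or [Nonempty ι] (C : XCtx f R) {x : GL ι F} (hx : x ∈ R) : x * x = 1 ∨ x * x = negU ι F := by
  have hs : x * x ∈ scalars ι F := by
    apply C.central_scalar
    intro y hy
    obtain ⟨ξ, hξ, h⟩ := C.comm' hx hy
    have h1 := C.scal_sq hξ
    have h2 : (scU ξ : GL ι F) * scU ξ = 1 := by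
      rw [← map_mul, ← pow_two, h1, map_one]
    calc x * x * y = x * (x * y) := mul_assoc _ _ _
      _ = x * (scU ξ * (y * x)) := by rw [h]
      _ = scU ξ * ((x * y) * x) := by
          rw [← mul_assoc, scU_central, mul_assoc, mul_assoc]
      _ = scU ξ * (scU ξ * (y * x) * x) := by rw [h]
      _ = (scU ξ * scU ξ) * (y * (x * x)) := by simp only [mul_assoc]
      _ = y * (x * x) := by rw [h2, one_mul]
  obtain ⟨c, hc⟩ := exists_scU hs
  have hmem : (scU c : GL ι F) ∈ R := by
    rw [hc]
    exact R.mul_mem hx hx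
  rcases C.eq_or_neg hmem with rfl | rfl
  · left
    rw [← hc, map_one]
  · right
    rw [← hc]

theorem pow_four [Nonempty ι] (C : XCtx f R) {x : GL ι F} (hx : x ∈ R) : x ^ 4 = 1 := by
  have e : x ^ 4 = (x * x) * (x * x) := by simp only [pow_succ, pow_zero, one_mul, mul_assoc]
  rw [e]
  rcases C.sq_or hx with h | h
  · rw [h, one_mul]
  · rw [h, negU_sq]

theorem isPGroup [Nonempty ι] (C : XCtx f R) : IsPGroup 2 R := by
  intro g
  refine ⟨2, ?_⟩
  apply Subtype.ext
  rw [Subgroup.coe_pow]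
  exact C.pow_four g.2

theorem card_scal [Nonempty ι] (hn : 2 ≤ Fintype.card ι) (C : XCtx f R) : Nat.card ((scalars ι F).subgroupOf R) = 2 := by
  classical
  rw [Nat.card_eq_two_iff]
  refine ⟨1, ⟨⟨negU ι F, C.negU_mem hn⟩, Subgroup.mem_subgroupOf.mpr (scU_mem _)⟩, ?_, ?_⟩
  · intro h
    have := congrArg (fun x : (scalars ι F).subgroupOf R => ((x : R) : GL ι F)) h
    exact negU_ne C.two this.symm
  · ext ⟨⟨x, hx⟩, hs⟩
    simp only [Set.mem_insert_iff, Set.mem_singleton_iff, Set.mem_univ, iff_true]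
    obtain ⟨c, rfl⟩ := exists_scU (Subgroup.mem_subgroupOf.mp hs)
    rcases C.eq_or_neg hx with rfl | rfl
    · left
      apply Subtype.ext
      apply Subtype.ext
      simp
    · right
      rfl

theorem card_center [Nonempty ι] (hn : 2 ≤ Fintype.card ι) (C : XCtx f R) : Nat.card (Subgroup.center R) = 2 := by
  rw [C.toW.center_eq]
  exact C.card_scal hn

theorem exists_k [Finite F] [Nonempty ι] (hn : 2 ≤ Fintype.card ι) (C : XCtx f R) :
    ∃ k : ℕ, Fintype.card ι = 2 ^ k ∧ Nat.card R = 2 ^ (1 + 2 * k) := by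
  have : Fact (Nat.Prime 2) := ⟨Nat.prime_two⟩
  have hQ : IsPGroup 2 (R ⧸ (scalars ι F).subgroupOf R) := C.isPGroup.to_quotient _
  obtain ⟨j, hj⟩ := IsPGroup.iff_card.mp hQ
  have h1 := C.toW.card_quot
  rw [hj] at h1
  have h2 : Fintype.card ι ∣ 2 ^ j := ⟨_, h1⟩
  obtain ⟨k, -, hk⟩ := (Nat.dvd_prime_pow Nat.prime_two).mp h2
  refine ⟨k, hk, ?_⟩
  have h3 : (2 : ℕ) ^ j = 2 ^ (2 * k) := by
    rw [h1, hk, two_mul, pow_add]
  have h4 := Subgroup.card_eq_card_quotient_mul_card_subgroup ((scalars ι F).subgroupOf R)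
  rw [h4, hj, h3, C.card_scal hn, mul_comm, pow_add, pow_one]

theorem exponent_eq [Nonempty ι] (hn : 2 ≤ Fintype.card ι) (C : XCtx f R) : Monoid.exponent R = 2 * Nat.gcd 2 2 := by
  classical
  have hg : Nat.gcd 2 2 = 2 := by norm_num
  rw [hg]
  have hd : Monoid.exponent R ∣ 2 ^ 2 := by
    apply Monoid.exponent_dvd_of_forall_pow_eq_one
    intro g
    apply Subtype.ext
    rw [Subgroup.coe_pow]
    exact C.pow_four g.2
  obtain ⟨j, hj, hje⟩ := (Nat.dvd_prime_pow Nat.prime_two).mp hd
  have hj2 : j = 2 := by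
    by_contra hne
    have hle : j ≤ 1 := by omega
    have hd2 : Monoid.exponent R ∣ 2 := by
      rw [hje]
      calc 2 ^ j ∣ 2 ^ 1 := pow_dvd_pow 2 hle
        _ = 2 := by norm_num
    have hsq : ∀ x ∈ R, x * x = 1 := by
      intro x hx
      have h3 := Monoid.pow_exponent_eq_one (⟨x, hx⟩ : R)
      obtain ⟨c, hc⟩ := hd2
      have h4 : (⟨x, hx⟩ : R) ^ 2 = 1 := by
        have : (2 : ℕ) = Monoid.exponent R * c := hc
        rw [this, pow_mul, h3, one_pow]
      have h5 := congrArg Subtype.val h4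
      simpa [pow_two] using h5
    obtain ⟨x, hx, y, hy, hne⟩ := C.exists_noncomm hn
    apply hne
    have h1 := hsq _ (R.mul_mem hx hy)
    have h2 := hsq _ hx
    have h3 := hsq _ hy
    calc x * y = x * (x * y * (x * y)) * y := by rw [h1]; group
      _ = (x * x) * (y * x) * (y * y) := by group
      _ = y * x := by rw [h2, h3]; group
  rw [hje, hj2]
  norm_num

end XCtx

end Cfsg.Agent.H97.Asch
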