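import Cfsg.Agent.Lib.H97H5

/-!
Symplectic case: characteristic abelian subgroups and elementary abelian subgroups of extraspecial groups of isometries.
-/

set_option autoImplicit false
set_option linter.unusedSectionVars false
set_option linter.style.haveILetI false

namespace Cfsg.Agent.H97.Asch

open Matrix Cfsg Cfsg.Geo
open scoped MatrixGroups commutatorElement Kronecker

variable {ι : Type} [Fintype ι] [DecidableEq ι] {F : Type*} [Field F]
variable {f : (ι → F) → (ι → F) → F}

theorem sq_of_anticomm {G : Type*} [Group G] {z x v : G} (hz : ∀ g, g * z = z * g) (h : v * x = z * (x * v)) :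
    (x * v) * (x * v) = z * ((x * x) * (v * v)) := by
  calc (x * v) * (x * v) = x * (v * x) * v := by group
    _ = x * (z * (x * v)) * v := by rw [h]
    _ = (x * z) * (x * v) * v := by group
    _ = (z * x) * (x * v) * v := by rw [hz]
    _ = _ := by group

namespace XCtx

variable {R : Subgroup (GL ι F)}

theorem exists_b [Finite F] [Nonempty ι] (hn : 4 ≤ Fintype.card ι) (C : XCtx f R) (a : R) (hnc : ∃ y : R, a * y ≠ y * a) :
    ∃ b : R, (b : GL ι F) * b = negU ι F ∧ (b : GL ι F) * a = negU ι F * (a * b) := by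
  classical
  have hn2 : 2 ≤ Fintype.card ι := by omega
  have hneg := negU_central (ι := ι) (F := F)
  have hnn := negU_sq (ι := ι) (F := F)
  have hnR := C.negU_mem hn2
  choose χ hχ using fun x : R => C.toW.exists_char x
  have hone : ∀ x y : R, χ x y = 1 → (y : GL ι F) * x = x * y := by
    intro x y h
    rw [hχ, h, map_one, one_mul]
  have hone' : ∀ x y : R, (y : GL ι F) * x = x * y → χ x y = 1 := by
    intro x y h
    have h1 := hχ x y
    rw [h] at h1
    have h2 : (scU (χ x y) : GL ι F) = 1 := by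
      have h3 : (1 : GL ι F) * ((x : GL ι F) * (y : GL ι F)) = scU (χ x y) * ((x : GL ι F) * (y : GL ι F)) := by rw [one_mul]; exact h1
      exact (mul_right_cancel h3).symm
    apply scU_injective (ι := ι)
    rw [h2, map_one]
  have hvals : ∀ x y : R, χ x y = 1 ∨ χ x y = -1 := by
    intro x y
    apply C.eq_or_neg
    have h1 : (scU (χ x y) : GL ι F) = (y * x * (x * y)⁻¹ : R) := by
      simp only [Subgroup.coe_mul, Subgroup.coe_inv]
      rw [hχ x y]
      group
    rw [h1]
    exact Subtype.coe_prop _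
  have hneg1 : ∀ x y : R, (y : GL ι F) * x ≠ x * y → χ x y = -1 := by
    intro x y h
    rcases hvals x y with h1 | h1
    · exact absurd (hone x y h1) h
    · exact h1
  have hsymm : ∀ x y : R, χ x y = 1 ↔ χ y x = 1 := by
    intro x y
    exact ⟨fun h => hone' _ _ (hone _ _ h).symm, fun h => hone' _ _ (hone _ _ h).symm⟩
  obtain ⟨c, hac⟩ := hnc
  have hac' : (a : GL ι F) * c ≠ c * a := fun h => hac (Subtype.ext h)
  have hχac : χ a c = -1 := hneg1 a c (Ne.symm hac')
  have hχca : χ c a = -1 := hneg1 c a hac'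
  have hχaa : χ a a = 1 := hone' a a rfl
  have hχcc : χ c c = 1 := hone' c c rfl
  have hnegneg : (-1 : Fˣ) * (-1) = 1 := by simp
  -- the centraliser of the pair is not abelian
  have hex : ∃ x v : R, χ a x = 1 ∧ χ c x = 1 ∧ χ a v = 1 ∧ χ c v = 1 ∧ χ x v ≠ 1 := by
    by_contra hall
    push Not at hall
    have hS : ∀ y : R, ∃ s : R, (s = 1 ∨ s = a ∨ s = c ∨ s = a * c) ∧ χ a (y * s) = 1 ∧ χ c (y * s) = 1 := by
      intro y
      rcases hvals a y with h1 | h1 <;> rcases hvals c y with h2 | h2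
      · exact ⟨1, Or.inl rfl, by simp [h1], by simp [h2]⟩
      · exact ⟨a, Or.inr (Or.inl rfl), by simp [h1, hχaa], by simp [h2, hχca]⟩
      · exact ⟨c, Or.inr (Or.inr (Or.inl rfl)), by simp [h1, hχac], by simp [h2, hχcc]⟩
      · exact ⟨a * c, Or.inr (Or.inr (Or.inr rfl)), by simp [h1, hχaa, hχac], by simp [h2, hχca, hχcc]⟩
    -- elements of the centraliser are central
    have hcentral : ∀ d : R, χ a d = 1 → χ c d = 1 → ∀ y : R, χ d y = 1 := by
      intro d h1 h2 y
      obtain ⟨s, hs, h3, h4⟩ := hS y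
      have h5 := hall d (y * s) h1 h2 h3 h4
      have h6 : χ d s = 1 := by
        rcases hs with rfl | rfl | rfl | rfl
        · simp
        · exact (hsymm _ _).mp h1
        · exact (hsymm _ _).mp h2
        · rw [map_mul, (hsymm _ _).mp h1, (hsymm _ _).mp h2, one_mul]
      rw [map_mul, h6, mul_one] at h5
      exact h5
    have hscal : ∀ y : R, ∃ s : R, (s = 1 ∨ s = a ∨ s = c ∨ s = a * c) ∧ ((y * s : R) : GL ι F) ∈ scalars ι F := by
      intro y
      obtain ⟨s, hs, h3, h4⟩ := hS y
      refine ⟨s, hs, C.central_scalar fun x hx => ?_⟩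
      exact (hone _ _ (hcentral _ h3 h4 ⟨x, hx⟩)).symm
    -- the quotient has at most four elements
    let g : Fin 4 → R ⧸ (scalars ι F).subgroupOf R := fun i =>
      (QuotientGroup.mk (![1, a, c, a * c] i) : R ⧸ (scalars ι F).subgroupOf R)⁻¹
    have hg : Function.Surjective g := by
      intro t
      obtain ⟨y, rfl⟩ := QuotientGroup.mk_surjective t
      obtain ⟨s, hs, hy⟩ := hscal y
      have hmk : (QuotientGroup.mk y : R ⧸ (scalars ι F).subgroupOf R) = (QuotientGroup.mk s)⁻¹ := by
        rw [eq_inv_iff_mul_eq_one, ← QuotientGroup.mk_mul, QuotientGroup.eq_one_iff, Subgroup.mem_subgroupOf]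
        exact hy
      rcases hs with rfl | rfl | rfl | rfl
      · exact ⟨0, by simp only [g, hmk]; rfl⟩
      · exact ⟨1, by simp only [g, hmk]; rfl⟩
      · exact ⟨2, by simp only [g, hmk]; rfl⟩
      · exact ⟨3, by simp only [g, hmk]; rfl⟩
    have hcard := Nat.card_le_card_of_surjective g hg
    rw [C.toW.card_quot, Nat.card_eq_fintype_card, Fintype.card_fin] at hcard
    nlinarith
  obtain ⟨x, v, hx1, hx2, hv1, hv2, hxv⟩ := hex
  have hχxv : χ x v = -1 := (hvals x v).resolve_left hxv
  have hvx : (v : GL ι F) * x = negU ι F * (x * v) := by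
    rw [hχ x v, hχxv]
  -- an element of order four in the centraliser
  obtain ⟨w, hw1, hw2, hww⟩ : ∃ w : R, χ a w = 1 ∧ χ c w = 1 ∧ (w : GL ι F) * w = negU ι F := by
    rcases C.sq_or x.2 with h1 | h1
    · rcases C.sq_or v.2 with h2 | h2
      · refine ⟨x * v, by rw [map_mul, hx1, hv1, one_mul], by rw [map_mul, hx2, hv2, one_mul], ?_⟩
        rw [Subgroup.coe_mul, sq_of_anticomm hneg hvx, h1, h2, one_mul, mul_one]
      · exact ⟨v, hv1, hv2, h2⟩
    · exact ⟨x, hx1, hx2, h1⟩
  rcases C.sq_or c.2 with hcc | hcc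
  · refine ⟨c * w, ?_, ?_⟩
    · have h3 : (w : GL ι F) * c = c * w := hone _ _ hw2
      calc ((c * w : R) : GL ι F) * ((c * w : R) : GL ι F) = c * (w * c) * w := by
            simp only [Subgroup.coe_mul]; group
        _ = c * (c * w) * w := by rw [h3]
        _ = (c * c) * (w * w) := by group
        _ = _ := by rw [hcc, hww, one_mul]
    · have h3 := hχ a (c * w)
      rw [map_mul, hχac, hw1, mul_one] at h3
      exact h3
  · refine ⟨c, hcc, ?_⟩
    rw [hχ a c, hχac]

/-- characteristic abelian subgroups are central -/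
theorem char_central [Finite F] [Nonempty ι] (hn : 4 ≤ Fintype.card ι) (C : XCtx f R)
    (A : Subgroup R) (hA : A.Characteristic) (hc : IsMulCommutative A) {a : R} (ha : a ∈ A) (y : R) :
    a * y = y * a := by
  classical
  by_contra hne
  obtain ⟨b, hbb, hba⟩ := C.exists_b hn a ⟨y, hne⟩
  have hn2 : 2 ≤ Fintype.card ι := by omega
  have hnR := C.negU_mem hn2
  let ζ : R := ⟨negU ι F, hnR⟩
  have hζc : ∀ g : R, g * ζ = ζ * g := fun g => Subtype.ext (negU_central (g : GL ι F))
  have hζ1 : ζ ≠ 1 := fun h => negU_ne C.two (congrArg Subtype.val h)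
  have hζ2 : ζ * ζ = 1 := Subtype.ext negU_sq
  have hζord : orderOf ζ = 2 := orderOf_eq_prime (by rw [pow_two]; exact hζ2) hζ1
  have hb' : ∀ y : R, ∃ u : ℕ, b * y = ζ ^ u * (y * b) := by
    intro y
    rcases C.comm_or b.2 y.2 with h | h
    · exact ⟨0, by simpa using Subtype.ext h⟩
    · exact ⟨1, by simpa using Subtype.ext h⟩
  have hbr : b ^ 2 * ζ ^ Nat.choose 2 2 = 1 := by
    rw [Nat.choose_self, pow_one, pow_two]
    have : b * b = ζ := Subtype.ext hbb
    rw [this, hζ2]
  have ha' : b * a = ζ * (a * b) := Subtype.ext hba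
  obtain ⟨τ, hτ⟩ := exists_transvection_aut (by norm_num : 1 < 2) hζc hζord hb' hbr ha'
  have hmem : a * b ∈ A := by
    have h1 : A.comap τ.toMonoidHom = A := hA.fixed τ
    have h2 : a ∈ A.comap τ.toMonoidHom := by rw [h1]; exact ha
    have h3 : τ a ∈ A := h2
    rwa [hτ] at h3
  have hcomm := hc.is_comm.comm (⟨a, ha⟩ : A) ⟨a * b, hmem⟩
  have h1 : a * (a * b) = a * b * a := congrArg Subtype.val hcomm
  have h2 : a * b = b * a := by
    have : a * (a * b) = a * (b * a) := by rw [h1, mul_assoc]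
    exact mul_left_cancel this
  rw [ha'] at h2
  have h3 : ζ = 1 := by
    have : 1 * (a * b) = ζ * (a * b) := by rw [one_mul]; exact h2
    exact (mul_right_cancel this).symm
  exact hζ1 h3

theorem symplecticType [Finite F] [Nonempty ι] (hn : 4 ≤ Fintype.card ι) (C : XCtx f R) : IsSymplecticTypeGroup 2 R := by
  classical
  refine ⟨Nat.prime_two, C.isPGroup, ?_, C.exponent_eq (by omega)⟩
  intro A hA hc
  have hscal : ∀ a : A, ((a : R) : GL ι F) ∈ scalars ι F := by
    intro a
    apply C.central_scalar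
    intro y hy
    have := C.char_central hn A hA hc a.2 ⟨y, hy⟩
    exact congrArg Subtype.val this
  obtain ⟨i⟩ := ‹Nonempty ι›
  let f : A →* F :=
    { toFun := fun a => (((a : R) : GL ι F) : Matrix ι ι F) i i
      map_one' := by simp
      map_mul' := by
        intro a a'
        obtain ⟨c, hc⟩ := exists_scU (hscal a)
        obtain ⟨d, hd⟩ := exists_scU (hscal a')
        simp only [Subgroup.coe_mul, Units.val_mul, ← hc, ← hd, scU_val]
        simp [Matrix.smul_apply]
        ring }
  have hf : Function.Injective f := by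
    intro a a' h
    obtain ⟨c, hc⟩ := exists_scU (hscal a)
    obtain ⟨d, hd⟩ := exists_scU (hscal a')
    simp only [f, MonoidHom.coe_mk, OneHom.coe_mk, ← hc, ← hd, scU_val] at h
    simp only [Matrix.smul_apply, Matrix.one_apply_eq, smul_eq_mul, mul_one] at h
    have h1 : c = d := Units.ext h
    apply Subtype.ext
    apply Subtype.ext
    rw [← hc, ← hd, h1]
  exact isCyclic_of_injective_ringHom f hf

end XCtx

/-- A commuting family of involutions has a cyclic vector on each stable subspace. -/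
theorem exists_cyclic_vector (h2 : (2 : F) ≠ 0) {S : Set (Matrix ι ι F)} (hcomm : ∀ a ∈ S, ∀ b ∈ S, a * b = b * a)
    (hinv : ∀ a ∈ S, a * a = 1) (d : ℕ) : ∀ U : Submodule F (ι → F), Module.finrank F U = d → (∀ a ∈ S, ∀ w ∈ U, a *ᵥ w ∈ U) →
      ∃ u ∈ U, ∀ b ∈ Submodule.span F S, b *ᵥ u = 0 → ∀ w ∈ U, b *ᵥ w = 0 := by
  classical
  induction d using Nat.strong_induction_on with
  | _ d ih =>
    intro U hd hU
    by_cases hsplit : ∃ a ∈ S, (∃ w ∈ U, a *ᵥ w ≠ w) ∧ (∃ w ∈ U, a *ᵥ w ≠ -w)
    · obtain ⟨a, ha, ⟨w₁, hw₁, hw₁a⟩, ⟨w₂, hw₂, hw₂a⟩⟩ := hsplit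
      let Up : Submodule F (ι → F) :=
        { carrier := {w | w ∈ U ∧ a *ᵥ w = w}
          add_mem' := fun {x y} hx hy => ⟨U.add_mem hx.1 hy.1, by rw [Matrix.mulVec_add, hx.2, hy.2]⟩
          zero_mem' := ⟨U.zero_mem, Matrix.mulVec_zero _⟩
          smul_mem' := fun c x hx => ⟨U.smul_mem c hx.1, by rw [Matrix.mulVec_smul, hx.2]⟩ }
      let Um : Submodule F (ι → F) :=
        { carrier := {w | w ∈ U ∧ a *ᵥ w = -w}
          add_mem' := fun {x y} hx hy => ⟨U.add_mem hx.1 hy.1, by rw [Matrix.mulVec_add, hx.2, hy.2, neg_add]⟩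
          zero_mem' := ⟨U.zero_mem, by rw [Matrix.mulVec_zero, neg_zero]⟩
          smul_mem' := fun c x hx => ⟨U.smul_mem c hx.1, by rw [Matrix.mulVec_smul, hx.2, smul_neg]⟩ }
      have hUp : Up < U := by
        refine lt_of_le_of_ne (fun x hx => hx.1) fun h => hw₁a ?_
        have : w₁ ∈ Up := h ▸ hw₁
        exact this.2
      have hUm : Um < U := by
        refine lt_of_le_of_ne (fun x hx => hx.1) fun h => hw₂a ?_
        have : w₂ ∈ Um := h ▸ hw₂
        exact this.2
      have hdp := Submodule.finrank_lt_finrank_of_lt hUp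
      have hdm := Submodule.finrank_lt_finrank_of_lt hUm
      have hstp : ∀ c ∈ S, ∀ w ∈ Up, c *ᵥ w ∈ Up := by
        intro c hc w hw
        refine ⟨hU c hc w hw.1, ?_⟩
        rw [Matrix.mulVec_mulVec, hcomm a ha c hc, ← Matrix.mulVec_mulVec, hw.2]
      have hstm : ∀ c ∈ S, ∀ w ∈ Um, c *ᵥ w ∈ Um := by
        intro c hc w hw
        refine ⟨hU c hc w hw.1, ?_⟩
        rw [Matrix.mulVec_mulVec, hcomm a ha c hc, ← Matrix.mulVec_mulVec, hw.2, Matrix.mulVec_neg]
      obtain ⟨up, hup, hupc⟩ := ih _ (hd ▸ hdp) Up rfl hstp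
      obtain ⟨um, hum, humc⟩ := ih _ (hd ▸ hdm) Um rfl hstm
      have hcm : ∀ b ∈ Submodule.span F S, b * a = a * b := by
        intro b hb
        induction hb using Submodule.span_induction with
        | mem x hx => exact hcomm x hx a ha
        | zero => simp
        | add x y _ _ hx hy => rw [Matrix.add_mul, Matrix.mul_add, hx, hy]
        | smul c x _ hx => rw [Matrix.smul_mul, Matrix.mul_smul, hx]
      refine ⟨up + um, U.add_mem hup.1 hum.1, fun b hb hbu w hw => ?_⟩
      have hba : b * a = a * b := hcm b hb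
      have h3 : b *ᵥ up + b *ᵥ um = 0 := by rw [← Matrix.mulVec_add]; exact hbu
      have h4 : b *ᵥ up - b *ᵥ um = 0 := by
        have h5 : a *ᵥ (b *ᵥ (up + um)) = b *ᵥ (a *ᵥ (up + um)) := by
          rw [Matrix.mulVec_mulVec, Matrix.mulVec_mulVec, hba]
        rw [hbu, Matrix.mulVec_zero, Matrix.mulVec_add, hup.2, hum.2, Matrix.mulVec_add, Matrix.mulVec_neg] at h5
        rw [sub_eq_add_neg]
        exact h5.symm
      have htwo : ∀ x : ι → F, (2 : F) • x = 0 → x = 0 := by
        intro x hx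
        exact (smul_eq_zero.mp hx).resolve_left h2
      have h5 : b *ᵥ up = 0 := by
        apply htwo
        rw [two_smul]
        have e : b *ᵥ up + b *ᵥ up = (b *ᵥ up + b *ᵥ um) + (b *ᵥ up - b *ᵥ um) := by abel
        rw [e, h3, h4, add_zero]
      have h6 : b *ᵥ um = 0 := by
        rw [h5, zero_add] at h3
        exact h3
      have h7 := hupc b hb h5
      have h8 := humc b hb h6
      have hwp : w + a *ᵥ w ∈ Up := by
        refine ⟨U.add_mem hw (hU a ha w hw), ?_⟩
        rw [Matrix.mulVec_add, Matrix.mulVec_mulVec, hinv a ha, Matrix.one_mulVec, add_comm]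
      have hwm : w - a *ᵥ w ∈ Um := by
        refine ⟨U.sub_mem hw (hU a ha w hw), ?_⟩
        rw [Matrix.mulVec_sub, Matrix.mulVec_mulVec, hinv a ha, Matrix.one_mulVec, neg_sub]
      apply htwo
      rw [two_smul]
      have e : w + w = (w + a *ᵥ w) + (w - a *ᵥ w) := by abel
      have e' : b *ᵥ w + b *ᵥ w = b *ᵥ (w + w) := by rw [Matrix.mulVec_add]
      rw [e', e, Matrix.mulVec_add, h7 _ hwp, h8 _ hwm, add_zero]
    · push Not at hsplit
      -- all elements act as scalars
      have hsc : ∀ b ∈ Submodule.span F S, ∃ c : F, ∀ w ∈ U, b *ᵥ w = c • w := by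
        intro b hb
        induction hb using Submodule.span_induction with
        | mem x hx =>
          by_cases h1 : ∀ w ∈ U, x *ᵥ w = w
          · exact ⟨1, fun w hw => by rw [h1 w hw, one_smul]⟩
          · push Not at h1
            obtain ⟨w, hw, hne⟩ := h1
            refine ⟨-1, fun w' hw' => ?_⟩
            rw [hsplit x hx ⟨w, hw, hne⟩ w' hw', neg_one_smul]
        | zero => exact ⟨0, fun w _ => by simp⟩
        | add x y _ _ hx hy =>
          obtain ⟨c, hc⟩ := hx
          obtain ⟨c', hc'⟩ := hy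
          exact ⟨c + c', fun w hw => by rw [Matrix.add_mulVec, hc w hw, hc' w hw, add_smul]⟩
        | smul a x _ hx =>
          obtain ⟨c, hc⟩ := hx
          exact ⟨a * c, fun w hw => by rw [Matrix.smul_mulVec, hc w hw, smul_smul]⟩
      by_cases hbot : U = ⊥
      · subst hbot
        refine ⟨0, Submodule.zero_mem _, fun b _ _ w hw => ?_⟩
        rw [(Submodule.mem_bot F).mp hw, Matrix.mulVec_zero]
      · obtain ⟨u, hu, hu0⟩ := (Submodule.ne_bot_iff U).mp hbot
        refine ⟨u, hu, fun b hb hbu w hw => ?_⟩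
        obtain ⟨c, hc⟩ := hsc b hb
        rw [hc u hu] at hbu
        have hc0 : c = 0 := (smul_eq_zero.mp hbu).resolve_right hu0
        rw [hc w hw, hc0, zero_smul]

end Cfsg.Agent.H97.Asch
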