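import Cfsg.Agent.Lib.H97H6

/-!
Symplectic case: minus type, the class of symplectic-type groups, and descent to a smaller field.
-/

set_option autoImplicit false
set_option linter.unusedSectionVars false
set_option linter.style.haveILetI false

namespace Cfsg.Agent.H97.Asch

open Matrix Cfsg Cfsg.Geo
open scoped MatrixGroups commutatorElement Kronecker

variable {ι : Type} [Fintype ι] [DecidableEq ι] {F : Type*} [Field F]
variable {f : (ι → F) → (ι → F) → F}

theorem mul_single_mul_apply (X Z : Matrix ι ι F) (k l i j : ι) :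
    (X * Matrix.single k l (1 : F) * Z) i j = X i k * Z l j := by
  rw [Matrix.mul_apply]
  simp only [Matrix.mul_apply, Matrix.single_apply]
  rw [Finset.sum_eq_single l]
  · rw [Finset.sum_eq_single k]
    · simp
    · intro b _ hb
      simp [hb.symm]
    · simp
  · intro b _ hb
    have : ∑ x, X i x * (if k = x ∧ l = b then (1 : F) else 0) = 0 := by
      apply Finset.sum_eq_zero
      intro x _
      simp [hb.symm]
    rw [this, zero_mul]
  · simp

namespace XCtx

open SymCtx

variable {R : Subgroup (GL ι F)}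

theorem minus_type [Finite F] [Nonempty ι] (hn : 2 ≤ Fintype.card ι) (C : XCtx f R) {k : ℕ} (hk : Fintype.card ι = 2 ^ k) :
    IsOfMinusType k R := by
  classical
  intro A hc hinv
  have hS := C.ctx.sesq
  let S : Set (Matrix ι ι F) := {m | ∃ a : R, a ∈ A ∧ m = ((a : GL ι F) : Matrix ι ι F)}
  have hcomm : ∀ x ∈ S, ∀ y ∈ S, x * y = y * x := by
    rintro _ ⟨a, ha, rfl⟩ _ ⟨b, hb, rfl⟩
    have h1 := hc.is_comm.comm (⟨a, ha⟩ : A) ⟨b, hb⟩
    have h2 : a * b = b * a := congrArg Subtype.val h1
    have h3 := congrArg (fun x : R => ((x : GL ι F) : Matrix ι ι F)) h2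
    simpa using h3
  have hinvS : ∀ x ∈ S, x * x = 1 := by
    rintro _ ⟨a, ha, rfl⟩
    have h3 := congrArg (fun x : R => ((x : GL ι F) : Matrix ι ι F)) (hinv a ha)
    simpa using h3
  obtain ⟨v, -, hv⟩ := exists_cyclic_vector C.two hcomm hinvS _ ⊤ rfl (fun _ _ _ _ => trivial)
  set B := Submodule.span F S with hB
  have hinj : ∀ b ∈ B, b *ᵥ v = 0 → b = 0 := by
    intro b hb h0
    apply Matrix.toLin'.injective
    apply LinearMap.ext
    intro w
    simp only [Matrix.toLin'_apply, map_zero, LinearMap.zero_apply]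
    exact hv b hb h0 w trivial
  let L : B →ₗ[F] (ι → F) :=
    { toFun := fun b => (b : Matrix ι ι F) *ᵥ v
      map_add' := fun x y => by
        simp only [Submodule.coe_add, Matrix.add_mulVec]
      map_smul' := fun c x => by
        simp only [Submodule.coe_smul, Matrix.smul_mulVec, RingHom.id_apply] }
  have hLinj : Function.Injective L := by
    rw [injective_iff_map_eq_zero]
    intro b hb
    exact Subtype.ext (hinj b b.2 hb)
  have hrk : Module.finrank F (LinearMap.range L) = Module.finrank F B := LinearMap.finrank_range_of_inj hLinj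
  -- the image is totally singular
  have hkey : ∀ a ∈ S, ∀ a' ∈ S, f (a *ᵥ v) (a' *ᵥ v) = 0 := by
    rintro _ ⟨a, ha, rfl⟩ _ ⟨a', ha', rfl⟩
    have h1 := C.fix _ a'.2 (((a : GL ι F) : Matrix ι ι F) *ᵥ v) (((a' : GL ι F) : Matrix ι ι F) *ᵥ v)
    have haa : ((a' : GL ι F) : Matrix ι ι F) * ((a' : GL ι F) : Matrix ι ι F) = 1 := hinvS _ ⟨a', ha', rfl⟩
    rw [Matrix.mulVec_mulVec v ((a' : GL ι F) : Matrix ι ι F) ((a' : GL ι F) : Matrix ι ι F), haa, Matrix.one_mulVec, Matrix.mulVec_mulVec] at h1
    rw [← h1]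
    have hcS : ((a' : GL ι F) : Matrix ι ι F) * ((a : GL ι F) : Matrix ι ι F) ∈ S :=
      ⟨a' * a, A.mul_mem ha' ha, by simp⟩
    obtain ⟨c, hcA, hc'⟩ := hcS
    rw [hc']
    have hcc : ((c : GL ι F) : Matrix ι ι F) * ((c : GL ι F) : Matrix ι ι F) = 1 := hinvS _ ⟨c, hcA, rfl⟩
    have h2 := C.fix _ c.2 (((c : GL ι F) : Matrix ι ι F) *ᵥ v) v
    rw [Matrix.mulVec_mulVec, hcc, Matrix.one_mulVec] at h2
    have h3 := C.ctx.herm v (((c : GL ι F) : Matrix ι ι F) *ᵥ v)
    simp only [RingHom.id_apply] at h3
    have h4 : (2 : F) * f (((c : GL ι F) : Matrix ι ι F) *ᵥ v) v = 0 := by linear_combination -h2 + h3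
    exact (mul_eq_zero.mp h4).resolve_left C.two
  have hts : ∀ b ∈ B, ∀ b' ∈ B, f (b *ᵥ v) (b' *ᵥ v) = 0 := by
    intro b hb b' hb'
    induction hb using Submodule.span_induction with
    | mem x hx =>
      induction hb' using Submodule.span_induction with
      | mem y hy => exact hkey x hx y hy
      | zero => rw [Matrix.zero_mulVec, hS.zero_right]
      | add y y' _ _ h1 h2 => rw [Matrix.add_mulVec, hS.add_right, h1, h2, add_zero]
      | smul c y _ h1 => rw [Matrix.smul_mulVec, hS.smul_right, h1, mul_zero]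
    | zero => rw [Matrix.zero_mulVec, hS.zero_left]
    | add y y' _ _ h1 h2 => rw [Matrix.add_mulVec, hS.add_left, h1, h2, add_zero]
    | smul c y _ h1 => rw [Matrix.smul_mulVec, hS.smul_left, h1, mul_zero]
  have hne : LinearMap.range L ≠ ⊤ := by
    intro htop
    obtain ⟨u, w, huw⟩ := C.ctx.exists_ne_of_nonempty
    have hu : u ∈ LinearMap.range L := htop ▸ Submodule.mem_top
    have hw : w ∈ LinearMap.range L := htop ▸ Submodule.mem_top
    obtain ⟨b, rfl⟩ := hu
    obtain ⟨b', rfl⟩ := hw
    exact huw (hts b b.2 b' b'.2)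
  have hlt : Module.finrank F B < Fintype.card ι := by
    rw [← hrk]
    have := Submodule.finrank_lt hne
    rwa [Module.finrank_fintype_fun_eq_card] at this
  -- counting
  let φ : A →* R ⧸ (scalars ι F).subgroupOf R := (QuotientGroup.mk' _).comp A.subtype
  have hcard : Nat.card A = Nat.card φ.range * Nat.card φ.ker := by
    rw [← Subgroup.index_ker, Subgroup.index_mul_card]
  have hker : Nat.card φ.ker ≤ 2 := by
    rw [← C.card_scal hn]
    refine Nat.card_le_card_of_injective (fun a : φ.ker => (⟨((a : A) : R), ?_⟩ : (scalars ι F).subgroupOf R)) ?_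
    · have h1 : φ (a : A) = 1 := a.2
      exact (QuotientGroup.eq_one_iff _).mp h1
    · intro a b h
      have h1 := congrArg Subtype.val h
      exact Subtype.ext (Subtype.ext h1)
  have hmemB : ∀ t : φ.range, (((trv (t : R ⧸ (scalars ι F).subgroupOf R) : R) : GL ι F) : Matrix ι ι F) ∈ B := by
    rintro ⟨t, a, rfl⟩
    obtain ⟨c, hc⟩ := exists_scalar_trv (a : R)
    have h1 : ((a : R) : GL ι F) * (scU c⁻¹ : GL ι F) = (trv (QuotientGroup.mk (a : R) : R ⧸ (scalars ι F).subgroupOf R) : R) := by
      rw [hc, mul_assoc, ← map_mul, mul_inv_cancel, map_one, mul_one]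
    have h2 : (((trv (φ a) : R) : GL ι F) : Matrix ι ι F) = ((c⁻¹ : Fˣ) : F) • (((a : R) : GL ι F) : Matrix ι ι F) := by
      show (((trv (QuotientGroup.mk (a : R) : R ⧸ (scalars ι F).subgroupOf R) : R) : GL ι F) : Matrix ι ι F) = _
      rw [← h1, Units.val_mul, scU_val, Matrix.mul_smul, Matrix.mul_one]
    rw [h2]
    exact B.smul_mem _ (Submodule.subset_span ⟨a, a.2, rfl⟩)
  have hrange : Nat.card φ.range ≤ Module.finrank F B := by
    have : Fintype φ.range := Fintype.ofFinite _
    have hli := C.toW.trv_linearIndependent.comp (fun t : φ.range => (t : R ⧸ (scalars ι F).subgroupOf R)) Subtype.val_injective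
    let g : φ.range → B := fun t => ⟨_, hmemB t⟩
    have hli' : LinearIndependent F g := by
      apply LinearIndependent.of_comp B.subtype
      exact hli
    rw [Nat.card_eq_fintype_card]
    exact hli'.fintype_card_le_finrank
  rw [hcard, pow_succ, ← hk]
  nlinarith

/-- the class of symplectic type groups -/
theorem class6 [Fintype F] [Nonempty ι] (hn : 4 ≤ Fintype.card ι) (C : XCtx f R) {H : Subgroup (GL ι F)} (hH : H ≤ subgroupNormalizer R)
    (hp : (Fintype.card F).Prime) (hodd : Odd (Fintype.card F)) : SpOutcome f H := by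
  obtain ⟨k, hk, hcard⟩ := C.exists_k (by omega)
  refine Or.inr <| Or.inr <| Or.inr <| Or.inr <| Or.inr <| Or.inl
    ⟨R, Fintype.card F, k, C.symplecticType hn, actsAbs_of_spanG C.span, fun g hg => ⟨1, fun u v => ?_⟩, hp, hodd, rfl, hcard, C.card_center (by omega),
      C.minus_type (by omega) hk, hk, fun x hx y hy => (C.comm' hx hy).imp fun _ h => h.2, hH⟩
  rw [C.fix g hg, Units.val_one, one_mul]

/-- the group is conjugate to its Galois twist -/
theorem exists_twist [Fintype F] [Nonempty ι] (hn : 2 ≤ Fintype.card ι) (C : XCtx f R) (τ : F ≃+* F) :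
    ∃ Y : GL ι F, ∀ g ∈ R, (Y : Matrix ι ι F) * (g : Matrix ι ι F) = (g : Matrix ι ι F).map τ * (Y : Matrix ι ι F) := by
  classical
  have : Fintype (R ⧸ (scalars ι F).subgroupOf R) := Fintype.ofFinite _
  have hmap : ∀ X W : Matrix ι ι F, (X * W).map τ = X.map τ * W.map τ := fun X W => by
    ext i j
    simp [Matrix.mul_apply, map_sum]
  let term : Matrix ι ι F → R → Matrix ι ι F := fun A x =>
    ((x : GL ι F) : Matrix ι ι F).map τ * A * (((x : GL ι F)⁻¹ : GL ι F) : Matrix ι ι F)
  have hterm_scal : ∀ (A : Matrix ι ι F) (y : R) (c : Fˣ) (hc : (scU c : GL ι F) ∈ R), term A (y * ⟨scU c, hc⟩) = term A y := by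
    intro A y c hc
    have hτc : τ (c : F) = c := by
      rcases C.eq_or_neg hc with rfl | rfl
      · simp
      · simp
    simp only [term, Subgroup.coe_mul, _root_.mul_inv_rev]
    rw [Units.val_mul, hmap, scU_val, Units.val_mul]
    have e1 : (((scU c : GL ι F)⁻¹ : GL ι F) : Matrix ι ι F) = ((c⁻¹ : Fˣ) : F) • 1 := by
      rw [← map_inv, scU_val]
    have e2 : ((c : F) • (1 : Matrix ι ι F)).map τ = (c : F) • 1 := by
      ext i j
      simp only [Matrix.map_apply, Matrix.smul_apply, smul_eq_mul, map_mul, hτc]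
      by_cases h : i = j
      · subst h
        simp
      · simp [h]
    rw [e1, e2]
    simp only [Matrix.mul_smul, Matrix.smul_mul, Matrix.mul_one, Matrix.one_mul, smul_smul]
    rw [Units.inv_mul, one_smul] 
  have hterm_coset : ∀ (A : Matrix ι ι F) (x y : R), (QuotientGroup.mk x : R ⧸ (scalars ι F).subgroupOf R) = QuotientGroup.mk y → term A x = term A y := by
    intro A x y h
    rw [QuotientGroup.eq, Subgroup.mem_subgroupOf] at h
    obtain ⟨c, hc⟩ := exists_scU h
    have hcm : (scU c : GL ι F) ∈ R := by rw [hc]; exact (x⁻¹ * y).2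
    have e : x = y * ⟨scU c, hcm⟩⁻¹ := by
      apply Subtype.ext
      simp only [Subgroup.coe_mul, Subgroup.coe_inv, hc]
      group
    have hcm' : (scU c⁻¹ : GL ι F) ∈ R := by rw [map_inv]; exact R.inv_mem hcm
    have e' : (⟨scU c, hcm⟩⁻¹ : R) = ⟨scU c⁻¹, hcm'⟩ := by
      apply Subtype.ext
      simp
    rw [e, e', hterm_scal]
  let Yf : Matrix ι ι F → Matrix ι ι F := fun A => ∑ t : R ⧸ (scalars ι F).subgroupOf R, term A (trv t)
  -- the intertwining relation
  have hint : ∀ (A : Matrix ι ι F) (g : R), Yf A * ((g : GL ι F) : Matrix ι ι F) = ((g : GL ι F) : Matrix ι ι F).map τ * Yf A := by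
    intro A g
    have h1 : ∀ x : R, term A (g * x) * ((g : GL ι F) : Matrix ι ι F) = ((g : GL ι F) : Matrix ι ι F).map τ * term A x := by
      intro x
      simp only [term, Subgroup.coe_mul, _root_.mul_inv_rev]
      rw [Units.val_mul, hmap, Units.val_mul, Matrix.mul_assoc, Matrix.mul_assoc, Matrix.mul_assoc, Matrix.mul_assoc, Matrix.mul_assoc,
        ← Units.val_mul, inv_mul_cancel, Units.val_one, Matrix.mul_one]
    have h2 : Yf A = ∑ t : R ⧸ (scalars ι F).subgroupOf R, term A (g * trv t) := by
      simp only [Yf]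
      rw [← Equiv.sum_comp (Equiv.mulLeft (QuotientGroup.mk g : R ⧸ (scalars ι F).subgroupOf R))]
      refine Finset.sum_congr rfl fun t _ => ?_
      apply hterm_coset
      simp only [Equiv.coe_mulLeft, mk_trv, QuotientGroup.mk_mul]
    calc Yf A * ((g : GL ι F) : Matrix ι ι F) = (∑ t : R ⧸ (scalars ι F).subgroupOf R, term A (g * trv t)) * ((g : GL ι F) : Matrix ι ι F) := by
          rw [← h2]
      _ = ∑ t : R ⧸ (scalars ι F).subgroupOf R, ((g : GL ι F) : Matrix ι ι F).map τ * term A (trv t) := by
          rw [Finset.sum_mul]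
          exact Finset.sum_congr rfl fun t _ => h1 _
      _ = _ := by
          simp only [Yf]
          rw [Finset.mul_sum]
  -- non-vanishing
  have hinvd : ∀ t : R, ∃ d : F, d ≠ 0 ∧ (((t : GL ι F)⁻¹ : GL ι F) : Matrix ι ι F) = d • ((t : GL ι F) : Matrix ι ι F) := by
    intro t
    rcases C.sq_or t.2 with h | h
    · refine ⟨1, one_ne_zero, ?_⟩
      rw [one_smul, inv_eq_of_mul_eq_one_right h]
    · refine ⟨-1, by simp, ?_⟩
      have h1 : (t : GL ι F) * (negU ι F * (t : GL ι F)) = 1 := by
        rw [← mul_assoc, negU_central, mul_assoc, h, negU_sq]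
      rw [inv_eq_of_mul_eq_one_right h1, Units.val_mul, scU_val]
      simp
  choose d hd0 hd using hinvd
  have hex : ∃ A, Yf A ≠ 0 := by
    by_contra hall
    push Not at hall
    have hzero : ∀ (t : R ⧸ (scalars ι F).subgroupOf R) (i k : ι), (((trv t : R) : GL ι F) : Matrix ι ι F).map τ i k = 0 := by
      intro t₀ i k
      have h1 := Fintype.linearIndependent_iff.mp C.toW.trv_linearIndependent
        (fun t => (((trv t : R) : GL ι F) : Matrix ι ι F).map τ i k * d (trv t)) (by
          ext l j
          have h2 := congrFun (congrFun (hall (Matrix.single k l 1)) i) j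
          simp only [Yf, term, Matrix.sum_apply] at h2
          simp only [Matrix.sum_apply, Matrix.smul_apply, smul_eq_mul, Matrix.zero_apply]
          refine Eq.trans ?_ h2
          refine Finset.sum_congr rfl fun t _ => ?_
          rw [hd, mul_single_mul_apply, Matrix.smul_apply, smul_eq_mul]
          ring)
      exact (mul_eq_zero.mp (h1 t₀)).resolve_right (hd0 _)
    have h0 : (((trv (1 : R ⧸ (scalars ι F).subgroupOf R) : R) : GL ι F) : Matrix ι ι F) = 0 := by
      ext i k
      have := hzero 1 i k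
      simpa using this
    have hu := ((trv (1 : R ⧸ (scalars ι F).subgroupOf R) : R) : GL ι F).isUnit
    rw [h0] at hu
    exact not_isUnit_zero hu
  obtain ⟨A, hA⟩ := hex
  set Y := Yf A with hY
  -- invertibility
  let W : Submodule F (ι → F) := LinearMap.ker (Matrix.toLin' Y)
  have hW : ∀ v, v ∈ W ↔ Y *ᵥ v = 0 := by
    intro v
    simp [W, LinearMap.mem_ker, Matrix.toLin'_apply]
  have hWs : Stable R W := by
    intro g hg v hv
    rw [hW] at hv ⊢
    have h1 := hint A ⟨g, hg⟩
    have h2 : Y * (g : Matrix ι ι F) = (g : Matrix ι ι F).map τ * Y := h1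
    rw [Matrix.mulVec_mulVec, h2, ← Matrix.mulVec_mulVec, hv, Matrix.mulVec_zero]
  have hdet : Y.det ≠ 0 := by
    intro h0
    obtain ⟨v, hv0, hv⟩ := Matrix.exists_mulVec_eq_zero_iff.mpr h0
    rcases irr_of_spanG C.span W hWs with h | h
    · have : v ∈ W := (hW v).mpr hv
      rw [h] at this
      exact hv0 (by simpa using this)
    · apply hA
      apply Matrix.toLin'.injective
      apply LinearMap.ext
      intro u
      have hu : u ∈ W := h ▸ Submodule.mem_top
      simpa using (hW u).mp hu
  exact ⟨Matrix.GeneralLinearGroup.mkOfDetNeZero Y hdet, fun g hg => hint A ⟨g, hg⟩⟩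

end XCtx

variable [Fintype F]

/-- The sym-type branch of the reduction. -/
theorem Sp.sym_case [Nonempty ι] (hn : 4 ≤ Fintype.card ι) (C : FCtx (RingHom.id F) (-1) f) {H N : Subgroup (GL ι F)} (hfix : FFix f H)
    (hNH : N ≤ H) (hNn : Nrm H N) (hNt : spanG N = ⊤) (hNc : ⁅N, N⁆ ≤ scalars ι F) : SpOutcome f H := by
  classical
  by_cases hq : Odd (Fintype.card F)
  · have h2 := two_ne_of_odd_card hq
    have hX : XCtx f N := ⟨C, h2, hfix.mono hNH, hNt, hNc⟩
    by_cases hp : (Fintype.card F).Prime
    · exact hX.class6 hn (nrm_normalizer hNn) hp hq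
    · -- a smaller field
      obtain ⟨p, hp'⟩ := CharP.exists F
      obtain ⟨e, hpp, hcp⟩ := FiniteField.card F p
      have : Fact p.Prime := ⟨hpp⟩
      have hF₀ : (iterateFrobenius F p 1).eqLocusField (RingHom.id F) ≠ ⊤ := by
        intro htop
        have hall : ∀ x : F, x ^ p ^ 1 = x := by
          intro x
          have hx : x ∈ (iterateFrobenius F p 1).eqLocusField (RingHom.id F) := by
            rw [htop]; trivial
          have hx' : iterateFrobenius F p 1 x = x := hx
          rwa [iterateFrobenius_def] at hx'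
        have h1 : 1 < p ^ 1 := by simpa using hpp.one_lt
        have hle := card_le_of_forall_pow h1 hall
        rw [pow_one] at hle
        apply hp
        have hep : (e : ℕ) = 1 := by
          by_contra hne
          have he2 : 2 ≤ (e : ℕ) := by
            have := e.pos
            omega
          rw [hcp] at hle
          have h4 : p ^ 2 ≤ p ^ (e : ℕ) := Nat.pow_le_pow_right hpp.pos he2
          nlinarith [hpp.two_le]
        rw [hcp, hep, pow_one]
        exact hpp
      obtain ⟨F₁, r, hr, hle, hcard⟩ := exists_prime_index_subfield hF₀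
      have hF₁ : F₁ ≠ ⊤ := by
        rintro rfl
        have h1 : Nat.card (⊤ : Subfield F) = Nat.card F := Nat.card_congr Subfield.topEquiv.toEquiv
        rw [h1] at hcard
        have h2 : 1 < Nat.card F := Finite.one_lt_card
        have h3 : Nat.card F ^ 1 = Nat.card F ^ r := by rw [pow_one]; exact hcard
        have h4 := Nat.pow_right_injective h2 h3
        exact hr.one_lt.ne h4
      have hcard' : Fintype.card F = Nat.card F₁ ^ r := by
        rw [← Nat.card_eq_fintype_card]
        exact hcard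
      obtain ⟨τ, hτp, hτ⟩ := exists_ringEquiv_fixed F₁
      obtain ⟨Y, hY⟩ := hX.exists_twist (by omega) τ
      obtain ⟨B, hB⟩ := twist_descent hNt hr hcard' hτp hτ hY
      exact Sp.subfield_case C hfix hNH (fun h hh x hx => hNn h hh x hx) (habs_of_spanG hNt) hF₁ hB
  · exfalso
    have h2 := two_eq_zero_of_not_odd hq
    have hcomm : ∀ a ∈ N, ∀ b ∈ N, a * b = b * a := by
      intro a ha b hb
      have hz : ⁅a, b⁆ ∈ scalars ι F := hNc (Subgroup.commutator_mem_commutator ha hb)
      obtain ⟨ξ, hξ⟩ := exists_scU hz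
      have hmem : ⁅a, b⁆ ∈ N := by
        rw [commutatorElement_def]
        exact N.mul_mem (N.mul_mem (N.mul_mem ha hb) (N.inv_mem ha)) (N.inv_mem hb)
      obtain ⟨u, v, huv⟩ := C.exists_ne_of_nonempty
      have h1 := hfix _ (hNH hmem) u v
      rw [← hξ, scU_val, Matrix.smul_mulVec, Matrix.smul_mulVec, Matrix.one_mulVec, Matrix.one_mulVec, C.sesq.smul_left, C.sesq.smul_right,
        RingHom.id_apply] at h1
      have h3 : ((ξ : F) * ξ - 1) * f u v = 0 := by linear_combination h1
      have h4 := (mul_eq_zero.mp h3).resolve_right huv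
      have h5 : ((ξ : F) - 1) * ((ξ : F) - 1) = 0 := by linear_combination h4 + (1 - (ξ : F)) * h2
      have h6 : (ξ : F) = 1 := sub_eq_zero.mp (mul_self_eq_zero.mp h5)
      have h7 : ξ = 1 := Units.ext h6
      have h8 : ⁅a, b⁆ = 1 := by rw [← hξ, h7, map_one]
      exact commutatorElement_eq_one_iff_mul_comm.mp h8
    have hall : ∀ x y : Matrix ι ι F, x * y = y * x := by
      intro x y
      exact spanG_commute hcomm (by rw [hNt]; trivial) (by rw [hNt]; trivial)
    haveI : Nontrivial ι := Fintype.one_lt_card_iff_nontrivial.mp (by omega)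
    obtain ⟨i, j, hj⟩ := exists_pair_ne ι
    have h3 := congrFun (congrFun (hall (Matrix.single i j 1) (Matrix.single j i 1)) i) i
    simp [Matrix.mul_apply, Matrix.single_apply, hj, hj.symm] at h3

end Cfsg.Agent.H97.Asch
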