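import Cfsg.Agent.Lib.H97H7

/-!
The exceptional wreath case: tensor powers of the quaternion group in dimension two over the field with three elements.
-/

set_option autoImplicit false
set_option linter.unusedSectionVars false
set_option linter.style.haveILetI false

namespace Cfsg.Agent.H97.Asch

open Matrix Cfsg Cfsg.Geo
open scoped MatrixGroups commutatorElement Kronecker

set_option maxRecDepth 100000 in
set_option synthInstance.maxHeartbeats 0 in
set_option synthInstance.maxSize 100000 in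
theorem zmod3_q8 : ∀ a b c d : ZMod 3, (a*a+b*c=-1 ∧ a*b+b*d=0 ∧ c*a+d*c=0 ∧ c*b+d*d=-1) →
    (a*d-b*c=1 ∧ ∀ x y z w : ZMod 3, (x*x+y*z=-1 ∧ x*y+y*w=0 ∧ z*x+w*z=0 ∧ z*y+w*w=-1) →
      (((a*x+b*z)*(a*x+b*z)+(a*y+b*w)*(c*x+d*z)=-1 ∧ (a*x+b*z)*(a*y+b*w)+(a*y+b*w)*(c*y+d*w)=0 ∧
          (c*x+d*z)*(a*x+b*z)+(c*y+d*w)*(c*x+d*z)=0 ∧ (c*x+d*z)*(a*y+b*w)+(c*y+d*w)*(c*y+d*w)=-1) ∨
        (a*x+b*z=1 ∧ a*y+b*w=0 ∧ c*x+d*z=0 ∧ c*y+d*w=1) ∨ (a*x+b*z=-1 ∧ a*y+b*w=0 ∧ c*x+d*z=0 ∧ c*y+d*w=-1)) ∧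
      ((a*x+b*z=x*a+y*c ∧ a*y+b*w=x*b+y*d ∧ c*x+d*z=z*a+w*c ∧ c*y+d*w=z*b+w*d) ∨
       (a*x+b*z=-(x*a+y*c) ∧ a*y+b*w=-(x*b+y*d) ∧ c*x+d*z=-(z*a+w*c) ∧ c*y+d*w=-(z*b+w*d)))) := by
  decide

theorem mat2_ext {R : Type*} {M N : Matrix (Fin 2) (Fin 2) R} (h00 : M 0 0 = N 0 0) (h01 : M 0 1 = N 0 1)
    (h10 : M 1 0 = N 1 0) (h11 : M 1 1 = N 1 1) : M = N := by
  ext i j
  fin_cases i <;> fin_cases j <;> assumption

theorem q8_zmod {g h : Matrix (Fin 2) (Fin 2) (ZMod 3)} (hg : g * g = -1) (hh : h * h = -1) :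
    g.det = 1 ∧ ((g * h) * (g * h) = -1 ∨ g * h = 1 ∨ g * h = -1) ∧ (g * h = h * g ∨ g * h = -(h * g)) := by
  have hgE : ∀ i j, (g * g) i j = (-1 : Matrix (Fin 2) (Fin 2) (ZMod 3)) i j := fun i j => by rw [hg]
  have hhE : ∀ i j, (h * h) i j = (-1 : Matrix (Fin 2) (Fin 2) (ZMod 3)) i j := fun i j => by rw [hh]
  have e1 := hgE 0 0
  have e2 := hgE 0 1
  have e3 := hgE 1 0
  have e4 := hgE 1 1
  have e5 := hhE 0 0
  have e6 := hhE 0 1
  have e7 := hhE 1 0
  have e8 := hhE 1 1
  simp only [Matrix.mul_apply, Fin.sum_univ_two, Matrix.neg_apply, Matrix.one_apply_eq, Matrix.one_apply_ne zero_ne_one,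
    Matrix.one_apply_ne one_ne_zero, neg_zero] at e1 e2 e3 e4 e5 e6 e7 e8
  obtain ⟨hdet, hrest⟩ := zmod3_q8 (g 0 0) (g 0 1) (g 1 0) (g 1 1) ⟨e1, e2, e3, e4⟩
  obtain ⟨h1, h2⟩ := hrest (h 0 0) (h 0 1) (h 1 0) (h 1 1) ⟨e5, e6, e7, e8⟩
  refine ⟨by rw [Matrix.det_fin_two]; exact hdet, ?_, ?_⟩
  · rcases h1 with ⟨a1, a2, a3, a4⟩ | ⟨a1, a2, a3, a4⟩ | ⟨a1, a2, a3, a4⟩
    · left
      apply mat2_ext <;>
      simp only [Matrix.mul_apply, Fin.sum_univ_two, Matrix.neg_apply, Matrix.one_apply_eq, Matrix.one_apply_ne zero_ne_one,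
        Matrix.one_apply_ne one_ne_zero, neg_zero] <;> assumption
    · right; left
      apply mat2_ext <;>
      simp only [Matrix.mul_apply, Fin.sum_univ_two, Matrix.neg_apply, Matrix.one_apply_eq, Matrix.one_apply_ne zero_ne_one,
        Matrix.one_apply_ne one_ne_zero, neg_zero] <;> assumption
    · right; right
      apply mat2_ext <;>
      simp only [Matrix.mul_apply, Fin.sum_univ_two, Matrix.neg_apply, Matrix.one_apply_eq, Matrix.one_apply_ne zero_ne_one,
        Matrix.one_apply_ne one_ne_zero, neg_zero] <;> assumption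
  · rcases h2 with ⟨a1, a2, a3, a4⟩ | ⟨a1, a2, a3, a4⟩
    · left
      apply mat2_ext <;>
      simp only [Matrix.mul_apply, Fin.sum_univ_two] <;> assumption
    · right
      apply mat2_ext <;>
      simp only [Matrix.mul_apply, Fin.sum_univ_two, Matrix.neg_apply] <;> assumption

variable {F : Type*} [Field F] [Fintype F]

open XCtx SymCtx

theorem q8_matrix (h3 : Fintype.card F = 3) {g h : Matrix (Fin 2) (Fin 2) F} (hg : g * g = -1) (hh : h * h = -1) :
    g.det = 1 ∧ ((g * h) * (g * h) = -1 ∨ g * h = 1 ∨ g * h = -1) ∧ (g * h = h * g ∨ g * h = -(h * g)) := by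
  let φ : F ≃+* ZMod 3 := (ZMod.ringEquivOfPrime F Nat.prime_three h3).symm
  let Φ : Matrix (Fin 2) (Fin 2) F ≃+* Matrix (Fin 2) (Fin 2) (ZMod 3) := φ.mapMatrix
  have hinj : Function.Injective Φ := Φ.injective
  have h1 : Φ g * Φ g = -1 := by rw [← map_mul, hg, map_neg, map_one]
  have h2 : Φ h * Φ h = -1 := by rw [← map_mul, hh, map_neg, map_one]
  obtain ⟨a, b, c⟩ := q8_zmod h1 h2
  refine ⟨?_, ?_, ?_⟩
  · apply φ.injective
    rw [map_one, ← a]
    exact (φ : F →+* ZMod 3).map_det g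
  · rcases b with b | b | b
    · left
      apply hinj
      rw [map_mul, map_mul, b, map_neg, map_one]
    · right; left
      apply hinj
      rw [map_mul, b, map_one]
    · right; right
      apply hinj
      rw [map_mul, b, map_neg, map_one]
  · rcases c with c | c
    · left
      apply hinj
      rw [map_mul, map_mul, c]
    · right
      apply hinj
      rw [map_mul, map_neg, map_mul, c]

theorem negU_val : ((negU (Fin 2) F : GL (Fin 2) F) : Matrix (Fin 2) (Fin 2) F) = -1 := by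
  rw [negU, scU_val]
  simp

/-- the quaternion group inside `GL₂` of the field with three elements -/
def q8 (h3 : Fintype.card F = 3) : Subgroup (GL (Fin 2) F) where
  carrier := {g | g * g = negU (Fin 2) F ∨ g = 1 ∨ g = negU (Fin 2) F}
  one_mem' := Or.inr (Or.inl rfl)
  inv_mem' := by
    intro g hg
    rcases hg with hg | rfl | rfl
    · left
      have h1 : g⁻¹ * g⁻¹ = (g * g)⁻¹ := by rw [_root_.mul_inv_rev]
      rw [h1, hg]
      exact inv_eq_of_mul_eq_one_right negU_sq
    · right; left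
      simp
    · right; right
      exact inv_eq_of_mul_eq_one_right negU_sq
  mul_mem' := by
    intro g h hg hh
    rcases hh with hh | rfl | rfl
    · rcases hg with hg | rfl | rfl
      · have hgv : (g : Matrix (Fin 2) (Fin 2) F) * g = -1 := by
          rw [← Units.val_mul, hg, negU_val]
        have hhv : (h : Matrix (Fin 2) (Fin 2) F) * h = -1 := by
          rw [← Units.val_mul, hh, negU_val]
        obtain ⟨-, b, -⟩ := q8_matrix h3 hgv hhv
        rcases b with b | b | b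
        · left
          apply Units.ext
          rw [Units.val_mul, Units.val_mul, b, negU_val]
        · right; left
          apply Units.ext
          rw [Units.val_mul, b, Units.val_one]
        · right; right
          apply Units.ext
          rw [Units.val_mul, b, negU_val]
      · left
        rwa [one_mul]
      · left
        calc negU (Fin 2) F * h * (negU (Fin 2) F * h) = negU (Fin 2) F * (h * negU (Fin 2) F) * h := by simp only [mul_assoc]
          _ = negU (Fin 2) F * (negU (Fin 2) F * h) * h := by rw [negU_central]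
          _ = (negU (Fin 2) F * negU (Fin 2) F) * (h * h) := by simp only [mul_assoc]
          _ = _ := by rw [negU_sq, one_mul, hh]
    · rwa [mul_one]
    · rcases hg with hg | rfl | rfl
      · left
        calc g * negU (Fin 2) F * (g * negU (Fin 2) F) = negU (Fin 2) F * g * (negU (Fin 2) F * g) := by rw [negU_central]
          _ = negU (Fin 2) F * (g * negU (Fin 2) F) * g := by simp only [mul_assoc]
          _ = negU (Fin 2) F * (negU (Fin 2) F * g) * g := by rw [negU_central]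
          _ = (negU (Fin 2) F * negU (Fin 2) F) * (g * g) := by simp only [mul_assoc]
          _ = _ := by rw [negU_sq, one_mul, hg]
      · right; right
        rw [one_mul]
      · right; left
        exact negU_sq

theorem mem_q8 {h3 : Fintype.card F = 3} {g : GL (Fin 2) F} :
    g ∈ q8 h3 ↔ g * g = negU (Fin 2) F ∨ g = 1 ∨ g = negU (Fin 2) F := Iff.rfl

theorem q8_det {h3 : Fintype.card F = 3} {g : GL (Fin 2) F} (hg : g ∈ q8 h3) : (g : Matrix (Fin 2) (Fin 2) F).det = 1 := by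
  rcases hg with hg | rfl | rfl
  · have hgv : (g : Matrix (Fin 2) (Fin 2) F) * g = -1 := by
      rw [← Units.val_mul, hg, negU_val]
    exact (q8_matrix h3 hgv hgv).1
  · simp
  · rw [negU_val, Matrix.det_neg]
    simp

theorem q8_comm {h3 : Fintype.card F = 3} {g h : GL (Fin 2) F} (hg : g ∈ q8 h3) (hh : h ∈ q8 h3) :
    g * h = h * g ∨ g * h = negU (Fin 2) F * (h * g) := by
  rcases hh with hh | rfl | rfl
  · rcases hg with hg | rfl | rfl
    · have hgv : (g : Matrix (Fin 2) (Fin 2) F) * g = -1 := by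
        rw [← Units.val_mul, hg, negU_val]
      have hhv : (h : Matrix (Fin 2) (Fin 2) F) * h = -1 := by
        rw [← Units.val_mul, hh, negU_val]
      obtain ⟨-, -, c⟩ := q8_matrix h3 hgv hhv
      rcases c with c | c
      · left
        apply Units.ext
        rw [Units.val_mul, Units.val_mul, c]
      · right
        apply Units.ext
        rw [Units.val_mul, Units.val_mul, negU_val, Units.val_mul, c]
        simp
    · left
      simp
    · left
      exact (negU_central h).symm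
  · left
    simp
  · left
    exact negU_central g

theorem q8_conj {h3 : Fintype.card F = 3} {g : GL (Fin 2) F} (x : GL (Fin 2) F) (hg : g ∈ q8 h3) : x * g * x⁻¹ ∈ q8 h3 := by
  rcases hg with hg | rfl | rfl
  · left
    calc x * g * x⁻¹ * (x * g * x⁻¹) = x * (g * g) * x⁻¹ := by group
      _ = _ := by rw [hg, negU_central, mul_assoc, mul_inv_cancel, mul_one]
  · right; left
    simp
  · right; right
    rw [negU_central, mul_assoc, mul_inv_cancel, mul_one]

variable {ι : Type} [Fintype ι] [DecidableEq ι] {f : (ι → F) → (ι → F) → F} {t : ℕ}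

/-- the tensor-power representation -/
noncomputable def rhoHom (e : ι ≃ (Fin t → Fin 2)) (P : GL ι F) : (Fin t → GL (Fin 2) F) →* GL ι F :=
  (MulAut.conj P).toMonoidHom.comp ((glReindex e.symm).toMonoidHom.comp
    (MonoidHom.mk' pureG (fun a b => (pureG_mul a b).symm)))

theorem rhoHom_apply (e : ι ≃ (Fin t → Fin 2)) (P : GL ι F) (gs : Fin t → GL (Fin 2) F) :
    rhoHom e P gs = P * glReindex e.symm (pureG gs) * P⁻¹ := rfl

/-- the extraspecial group -/
noncomputable def qR (h3 : Fintype.card F = 3) (e : ι ≃ (Fin t → Fin 2)) (P : GL ι F) : Subgroup (GL ι F) :=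
  (Subgroup.pi Set.univ (fun _ => q8 h3)).map (rhoHom e P)

theorem mem_qR {h3 : Fintype.card F = 3} {e : ι ≃ (Fin t → Fin 2)} {P : GL ι F} {g : GL ι F} :
    g ∈ qR h3 e P ↔ ∃ gs : Fin t → GL (Fin 2) F, (∀ i, gs i ∈ q8 h3) ∧ rhoHom e P gs = g := by
  simp [qR, Subgroup.mem_map, Subgroup.mem_pi]

theorem rho_mulVec (e : ι ≃ (Fin t → Fin 2)) (P : GL ι F) (gs : Fin t → GL (Fin 2) F) (z : (Fin t → Fin 2) → F) :
    (rhoHom e P gs : Matrix ι ι F) *ᵥ ((P : Matrix ι ι F) *ᵥ (z ∘ e)) =
      (P : Matrix ι ι F) *ᵥ ((pureM (fun i => (gs i : Matrix (Fin 2) (Fin 2) F)) *ᵥ z) ∘ e) := by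
  rw [rhoHom_apply, Matrix.mulVec_mulVec, ← Units.val_mul, mul_assoc, inv_mul_cancel, mul_one, Units.val_mul,
    ← Matrix.mulVec_mulVec, reindex_mulVec, pureG_val]

theorem alt_gram_fix {A₀ : Matrix (Fin 2) (Fin 2) F} (h2 : (2 : F) ≠ 0)
    (hctx : FCtx (RingHom.id F) (-1) (formOfGram ((RingHom.id F : F →+* F) : F → F) A₀))
    {g : Matrix (Fin 2) (Fin 2) F} (hdet : g.det = 1) : gᵀ * A₀ * g = A₀ := by
  have hA : ∀ a b, A₀ a b = - A₀ b a := by
    intro a b
    have := hctx.herm (Pi.single a 1) (Pi.single b 1)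
    rw [formOfGram_single, formOfGram_single] at this
    simpa using this
  have hd : ∀ a, A₀ a a = 0 := by
    intro a
    have h3 := hA a a
    have h4 : (2 : F) * A₀ a a = 0 := by linear_combination h3
    exact (mul_eq_zero.mp h4).resolve_left h2
  have hJ : A₀ = A₀ 0 1 • (detJ : Matrix (Fin 2) (Fin 2) F) := by
    apply mat2_ext
    · simp [detJ, hd]
    · simp [detJ]
    · simp [detJ, hA 1 0]
    · simp [detJ, hd]
  obtain ⟨α, hα⟩ : ∃ α, α = A₀ 0 1 := ⟨_, rfl⟩
  rw [← hα] at hJ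
  rw [hJ, Matrix.mul_smul, Matrix.smul_mul, detJ_conj, hdet, one_smul]

theorem qR_fix {H : Subgroup (GL ι F)} {e : ι ≃ (Fin t → Fin 2)} {P : GL ι F} {A₀ : Matrix (Fin 2) (Fin 2) F} {κ : F}
    (h3 : Fintype.card F = 3) (h2 : (2 : F) ≠ 0) (hW : FWreath (RingHom.id F) (-1) f H e P A₀ κ (-1)) :
    FFix f (qR h3 e P) := by
  intro g hg x y
  obtain ⟨gs, hgs, rfl⟩ := mem_qR.mp hg
  obtain ⟨x', rfl⟩ := pv_surj e P x
  obtain ⟨y', rfl⟩ := pv_surj e P y
  rw [rho_mulVec, rho_mulVec, hW.eqn, hW.eqn, wreath_eqn_gram, wreath_eqn_gram, formOfGram_mulVec]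
  congr 2
  rw [pureM_transpose, pureM_map, pureM_mul, pureM_mul]
  congr 1
  funext i
  simp only [Pi.mul_apply]
  have : (gs i : Matrix (Fin 2) (Fin 2) F).map (RingHom.id F) = (gs i : Matrix (Fin 2) (Fin 2) F) := by
    ext a b
    simp
  rw [this]
  exact alt_gram_fix h2 hW.ctx (q8_det (hgs i))

theorem pureG_scU (c : Fin t → Fˣ) : pureG (fun i => (scU (c i) : GL (Fin 2) F)) = scU (∏ i, c i) := by
  apply Units.ext
  rw [pureG_val, scU_val]
  simp only [scU_val]
  rw [pureM_smul', Units.coe_prod]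
  congr 1
  exact pureM_one

theorem reindex_scU {X : Type} [Fintype X] [DecidableEq X] (e : ι ≃ X) (c : Fˣ) : glReindex e.symm (scU c : GL X F) = (scU c : GL ι F) := by
  apply Units.ext
  ext k j
  rw [glReindex_apply, scU_val, scU_val, Matrix.smul_apply, Matrix.smul_apply, smul_eq_mul, smul_eq_mul]
  by_cases h : k = j
  · subst h
    simp
  · rw [Matrix.one_apply_ne h, Matrix.one_apply_ne (fun h' => h (e.injective h'))]

theorem rho_scU (e : ι ≃ (Fin t → Fin 2)) (P : GL ι F) (c : Fin t → Fˣ) :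
    rhoHom e P (fun i => (scU (c i) : GL (Fin 2) F)) = scU (∏ i, c i) := by
  rw [rhoHom_apply, pureG_scU, reindex_scU, scU_central, mul_assoc, mul_inv_cancel, mul_one]

theorem qR_der {h3 : Fintype.card F = 3} {e : ι ≃ (Fin t → Fin 2)} {P : GL ι F} :
    ⁅qR h3 e P, qR h3 e P⁆ ≤ scalars ι F := by
  rw [Subgroup.commutator_le]
  intro a ha b hb
  obtain ⟨gs, hgs, rfl⟩ := mem_qR.mp ha
  obtain ⟨hs, hhs, rfl⟩ := mem_qR.mp hb
  rw [← map_commutatorElement]
  have hc : ∀ i, ∃ c : Fˣ, ⁅gs, hs⁆ i = (scU c : GL (Fin 2) F) := by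
    intro i
    have h1 : ⁅gs, hs⁆ i = ⁅gs i, hs i⁆ := rfl
    rw [h1, commutatorElement_def]
    rcases q8_comm (hgs i) (hhs i) with h | h
    · refine ⟨1, ?_⟩
      rw [map_one, h]
      group
    · refine ⟨-1, ?_⟩
      rw [h]
      calc negU (Fin 2) F * (hs i * gs i) * (gs i)⁻¹ * (hs i)⁻¹ = negU (Fin 2) F := by group
        _ = _ := rfl
  choose c hc using hc
  have e1 : ⁅gs, hs⁆ = fun i => (scU (c i) : GL (Fin 2) F) := funext hc
  rw [e1, rho_scU]
  exact scU_mem _

/-- the four elements of the quaternion group spanning the matrix algebra -/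
noncomputable def q8Elt (M : Matrix (Fin 2) (Fin 2) F) (hM : M * M = -1) : GL (Fin 2) F :=
  ⟨M, -M, by rw [mul_neg, hM, neg_neg], by rw [neg_mul, hM, neg_neg]⟩

theorem q8Elt_mem {h3 : Fintype.card F = 3} {M : Matrix (Fin 2) (Fin 2) F} (hM : M * M = -1) : q8Elt M hM ∈ q8 h3 := by
  left
  apply Units.ext
  rw [Units.val_mul, negU_val]
  exact hM

theorem three_eq_zero (h3 : Fintype.card F = 3) : (3 : F) = 0 := by
  have h := FiniteField.cast_card_eq_zero F
  rw [h3] at h
  exact_mod_cast h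

theorem q8_span (h3 : Fintype.card F = 3) : ∃ B : Fin 4 → GL (Fin 2) F, (∀ k, B k ∈ q8 h3) ∧
    ∀ A : Matrix (Fin 2) (Fin 2) F, ∃ c : Fin 4 → F, A = ∑ k, c k • (B k : Matrix (Fin 2) (Fin 2) F) := by
  have h30 := three_eq_zero h3
  have h2 : (2 : F) ≠ 0 := by
    intro h
    have : (1 : F) = 0 := by linear_combination h30 - h
    exact one_ne_zero this
  let I : Matrix (Fin 2) (Fin 2) F := !![0, 1; -1, 0]
  let J : Matrix (Fin 2) (Fin 2) F := !![1, 1; 1, -1]
  let K : Matrix (Fin 2) (Fin 2) F := !![1, -1; -1, -1]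
  have hI : I * I = -1 := by
    apply mat2_ext <;> simp [I, Matrix.mul_fin_two]
  have hJ : J * J = -1 := by
    apply mat2_ext <;> simp [J, Matrix.mul_fin_two] <;> linear_combination h30
  have hK : K * K = -1 := by
    apply mat2_ext <;> simp [K, Matrix.mul_fin_two] <;> linear_combination h30
  refine ⟨![1, q8Elt I hI, q8Elt J hJ, q8Elt K hK], ?_, ?_⟩
  · intro k
    fin_cases k
    · exact (q8 h3).one_mem
    · exact q8Elt_mem hI
    · exact q8Elt_mem hJ
    · exact q8Elt_mem hK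
  · intro A
    refine ⟨![(A 0 0 + A 1 1) / 2, (A 0 1 - A 1 0) / 2, (A 0 0 - A 1 1 + A 0 1 + A 1 0) / 4, (A 0 0 - A 1 1 - A 0 1 - A 1 0) / 4], ?_⟩
    have h4 : (4 : F) ≠ 0 := by
      have : (4 : F) = 2 * 2 := by norm_num
      rw [this]
      exact mul_ne_zero h2 h2
    simp only [Fin.sum_univ_four]
    show A = _ • (1 : Matrix (Fin 2) (Fin 2) F) + _ • I + _ • J + _ • K
    apply mat2_ext <;> simp [I, J, K] <;> field_simp <;> ring

theorem qR_span (h3 : Fintype.card F = 3) (e : ι ≃ (Fin t → Fin 2)) (P : GL ι F) : spanG (qR h3 e P) = ⊤ := by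
  classical
  obtain ⟨B, hB, hspan⟩ := q8_span h3
  let L : Matrix (Fin t → Fin 2) (Fin t → Fin 2) F →ₗ[F] Matrix ι ι F :=
    { toFun := fun M => (P : Matrix ι ι F) * M.submatrix e e * ((P⁻¹ : GL ι F) : Matrix ι ι F)
      map_add' := fun x y => by
        have : (x + y).submatrix e e = x.submatrix e e + y.submatrix e e := rfl
        rw [this, Matrix.mul_add, Matrix.add_mul]
      map_smul' := fun c x => by
        have : (c • x).submatrix e e = c • x.submatrix e e := rfl
        rw [this, Matrix.mul_smul, Matrix.smul_mul, RingHom.id_apply] }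
  have hL : ∀ M, L M = (P : Matrix ι ι F) * M.submatrix e e * ((P⁻¹ : GL ι F) : Matrix ι ι F) := fun _ => rfl
  set S := spanG (qR h3 e P) with hS
  have h1 : ∀ qs : Fin t → Fin 4, L (pureM (fun i => (B (qs i) : Matrix (Fin 2) (Fin 2) F))) ∈ S := by
    intro qs
    have hmem : rhoHom e P (fun i => B (qs i)) ∈ qR h3 e P := mem_qR.mpr ⟨_, fun i => hB _, rfl⟩
    have h2 := mem_spanG hmem
    rw [rhoHom_apply, Units.val_mul, Units.val_mul] at h2
    have e5 : (pureM (fun i => (B (qs i) : Matrix (Fin 2) (Fin 2) F))).submatrix e e = ((glReindex e.symm (pureG fun i => B (qs i)) : GL ι F) : Matrix ι ι F) := by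
      ext k j
      rw [glReindex_apply, pureG_val]
      rfl
    rw [hL, e5]
    exact h2
  have h2 : ∀ A : Fin t → Matrix (Fin 2) (Fin 2) F, L (pureM A) ∈ S := by
    intro A
    choose c hc using fun i => hspan (A i)
    have e1 : pureM A = ∑ qs : Fin t → Fin 4, (∏ i, c i (qs i)) • pureM (fun i => (B (qs i) : Matrix (Fin 2) (Fin 2) F)) := by
      ext a b
      rw [pureM_apply]
      simp only [Matrix.sum_apply, Matrix.smul_apply, smul_eq_mul, pureM_apply]
      have e2 : ∀ i, A i (a i) (b i) = ∑ k, c i k * (B k : Matrix (Fin 2) (Fin 2) F) (a i) (b i) := by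
        intro i
        conv_lhs => rw [hc i]
        simp [Matrix.sum_apply]
      simp only [e2]
      rw [← sum_prod_pi]
      refine Finset.sum_congr rfl fun qs _ => ?_
      rw [Finset.prod_mul_distrib]
    rw [e1, map_sum]
    refine Subalgebra.sum_mem _ fun qs _ => ?_
    rw [map_smul]
    exact Subalgebra.smul_mem _ (h1 qs) _
  have h3' : ∀ M, L M ∈ S := by
    intro M
    have e1 : M = ∑ a, ∑ b, M a b • pureM (fun i => Matrix.single (a i) (b i) (1 : F)) := by
      have hsingle : ∀ x y : Fin t → Fin 2, pureM (fun i => Matrix.single (x i) (y i) (1 : F)) = Matrix.single x y (1 : F) := by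
        intro x y
        ext a b
        rw [pureM_apply]
        simp only [Matrix.single_apply]
        by_cases h1 : x = a
        · by_cases h2 : y = b
          · subst h1 h2
            simp
          · rw [if_neg (by rintro ⟨-, h⟩; exact h2 h)]
            obtain ⟨i, hi⟩ := Function.ne_iff.mp h2
            apply Finset.prod_eq_zero (Finset.mem_univ i) _
            simp [hi]
        · rw [if_neg (by rintro ⟨h, -⟩; exact h1 h)]
          obtain ⟨i, hi⟩ := Function.ne_iff.mp h1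
          apply Finset.prod_eq_zero (Finset.mem_univ i) _
          simp [hi]
      simp only [hsingle, Matrix.smul_single, smul_eq_mul, mul_one]
      exact Matrix.matrix_eq_sum_single M
    rw [e1, map_sum]
    refine Subalgebra.sum_mem _ fun a _ => ?_
    rw [map_sum]
    refine Subalgebra.sum_mem _ fun b _ => ?_
    rw [map_smul]
    exact Subalgebra.smul_mem _ (h2 _) _
  rw [eq_top_iff]
  intro M _
  have e1 : M = L ((((P⁻¹ : GL ι F) : Matrix ι ι F) * M * (P : Matrix ι ι F)).submatrix e.symm e.symm) := by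
    rw [hL, Matrix.submatrix_submatrix]
    simp only [Equiv.symm_comp_self, Matrix.submatrix_id_id]
    have e2 : (P : Matrix ι ι F) * ((P⁻¹ : GL ι F) : Matrix ι ι F) = 1 := by
      rw [← Units.val_mul, mul_inv_cancel, Units.val_one]
    have e3 : (P : Matrix ι ι F) * (((P⁻¹ : GL ι F) : Matrix ι ι F) * M * (P : Matrix ι ι F)) * ((P⁻¹ : GL ι F) : Matrix ι ι F) =
        ((P : Matrix ι ι F) * ((P⁻¹ : GL ι F) : Matrix ι ι F)) * M * ((P : Matrix ι ι F) * ((P⁻¹ : GL ι F) : Matrix ι ι F)) := by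
      simp only [Matrix.mul_assoc]
    rw [e3, e2, Matrix.one_mul, Matrix.mul_one]
  rw [e1]
  exact h3' _

theorem qR_normal {H : Subgroup (GL ι F)} {h3 : Fintype.card F = 3} {e : ι ≃ (Fin t → Fin 2)} {P : GL ι F}
    (hle : H ≤ tensorWreathSubgroup 2 t e P) : Nrm H (qR h3 e P) := by
  intro h hh x hx
  obtain ⟨hs, hhs, rfl⟩ := mem_qR.mp hx
  rcases hle hh with ⟨_, ⟨k, hk, rfl⟩, rfl⟩
  obtain ⟨τ, gs, rfl⟩ := wreath_nf hk
  apply mem_qR.mpr
  let ks : Fin t → GL (Fin 2) F := fun i => gs i * hs i * (gs i)⁻¹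
  refine ⟨fun i => ks (τ⁻¹ i), fun i => q8_conj _ (hhs _), ?_⟩
  let K : GL (Fin t → Fin 2) F →* GL ι F := (MulAut.conj P).toMonoidHom.comp (glReindex e.symm).toMonoidHom
  have e1 : rhoHom e P hs = K (pureG hs) := rfl
  have e2 : rhoHom e P (fun i => ks (τ⁻¹ i)) = K (pureG (fun i => ks (τ⁻¹ i))) := rfl
  have e3 : (MulEquiv.toMonoidHom (MulAut.conj P)) ((MulEquiv.toMonoidHom (glReindex e.symm)) (permG τ * pureG gs)) = K (permG τ * pureG gs) := rfl
  rw [e1, e2, e3, ← map_mul, ← map_inv, ← map_mul]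
  congr 1
  have e4 : pureG (fun i => ks (τ⁻¹ i)) * permG τ = permG τ * pureG ks := by
    rw [pureG_permG]
    congr 2
    funext i
    simp
  have e5 : pureG ks = pureG gs * pureG hs * (pureG gs)⁻¹ := by
    rw [pureG_inv, pureG_mul, pureG_mul]
    rfl
  rw [eq_mul_inv_iff_mul_eq, ← mul_assoc, e4, e5]
  group

/-- the exceptional case of tensor powers -/
theorem Sp.wreath_q3 [Nonempty ι] {H : Subgroup (GL ι F)} {e : ι ≃ (Fin t → Fin 2)} {P : GL ι F} {A₀ : Matrix (Fin 2) (Fin 2) F} {κ ε₁ : F}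
    (C : FCtx (RingHom.id F) (-1) f) (h3 : Fintype.card F = 3) (hn : 4 ≤ Fintype.card ι)
    (hW : FWreath (RingHom.id F) (-1) f H e P A₀ κ ε₁) : SpOutcome f H := by
  have hq : Odd (Fintype.card F) := by rw [h3]; decide
  have h2 := two_ne_of_odd_card hq
  have hrel := hW.rel
  simp only [RingHom.id_apply] at hrel
  have hε : ε₁ ^ t = -1 := by
    have h3 : κ * (ε₁ ^ t + 1) = 0 := by linear_combination hrel
    exact eq_neg_of_add_eq_zero_left ((mul_eq_zero.mp h3).resolve_left hW.ne)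
  have hnorm := hW.ctx.eps_norm
  simp only [RingHom.id_apply] at hnorm
  have hfac : (ε₁ - 1) * (ε₁ + 1) = 0 := by linear_combination hnorm
  have hε₁ : ε₁ = -1 := by
    rcases mul_eq_zero.mp hfac with h | h
    · have h₁ : ε₁ = 1 := sub_eq_zero.mp h
      rw [h₁, one_pow] at hε
      exfalso
      apply h2
      linear_combination hε
    · exact eq_neg_of_add_eq_zero_left h
  subst hε₁
  have hX : XCtx f (qR h3 e P) := ⟨C, h2, qR_fix h3 h2 hW, qR_span h3 e P, qR_der⟩
  exact hX.class6 hn (nrm_normalizer (qR_normal hW.le)) (by rw [h3]; exact Nat.prime_three) hq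

/-- All tensor power cases. -/
theorem Sp.wreath_case [Nonempty ι] {H : Subgroup (GL ι F)} {m : ℕ} {e : ι ≃ (Fin t → Fin m)} {P : GL ι F} {A₀ : Matrix (Fin m) (Fin m) F} {κ ε₁ : F}
    (C : FCtx (RingHom.id F) (-1) f) (halt : ∀ v, f v v = 0) (hfix : FFix f H) (hn : 4 ≤ Fintype.card ι) (hm : 2 ≤ m) (ht : 2 ≤ t)
    (hW : FWreath (RingHom.id F) (-1) f H e P A₀ κ ε₁) : SpOutcome f H := by
  by_cases hq : Odd (Fintype.card F)
  · by_cases hex : Fintype.card F = 3 ∧ m = 2
    · obtain ⟨h3, rfl⟩ := hex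
      exact Sp.wreath_q3 C h3 hn hW
    · exact Sp.wreath_odd hq (by omega) ht hex hW
  · exact Sp.wreath_even C halt hq hfix (by omega) ht hW

end Cfsg.Agent.H97.Asch
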