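import Cfsg.Agent.Lib.H97H8

/-!
Symplectic case: almost simple groups and the main theorem.
-/

set_option autoImplicit false
set_option linter.unusedSectionVars false
set_option linter.style.haveILetI false

namespace Cfsg.Agent.H97.Asch

open Matrix Cfsg Cfsg.Geo
open scoped MatrixGroups commutatorElement Kronecker

variable {ι : Type} [Fintype ι] [DecidableEq ι] {F : Type*} [Field F] [Fintype F]
  {f : (ι → F) → (ι → F) → F}

/-- Quadratic forms invariant under an absolutely irreducible normal subgroup are invariant under the whole group. -/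
theorem Sp.quad_core [Nonempty ι] (hn : 2 ≤ Fintype.card ι) (C : FCtx (RingHom.id F) (-1) f) {H P : Subgroup (GL ι F)} (hfix : FFix f H)
    (hPH : P ≤ H) (hnorm : ∀ h ∈ H, ∀ x ∈ P, h * x * h⁻¹ ∈ P) (hirr : Irr P) (heven : ¬ Odd (Fintype.card F))
    {Q : (ι → F) → F} (hsmul : ∀ (c : F) v, Q (c • v) = c ^ 2 * Q v)
    (hpol : ∀ u v, QuadraticMap.polar Q u v = f u v) (hPfix : ∀ g ∈ P, ∀ v, Q ((g : Matrix ι ι F) *ᵥ v) = Q v) :
    SpOutcome f H := by
  classical
  have h2 := two_eq_zero_of_not_odd heven
  have hS := C.sesq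
  refine Sp.quad_outcome C hfix heven hsmul hpol ?_
  intro h hh
  -- the defect
  let D : (ι → F) → F := fun v => Q ((h : Matrix ι ι F) *ᵥ v) - Q v
  have hQadd : ∀ u v, Q (u + v) = Q u + Q v + f u v := by
    intro u v
    rw [← hpol u v]
    simp only [QuadraticMap.polar]
    ring
  have hDadd : ∀ u v, D (u + v) = D u + D v := by
    intro u v
    simp only [D]
    rw [Matrix.mulVec_add, hQadd, hQadd, hfix h hh]
    ring
  have hDsmul : ∀ (c : F) v, D (c • v) = c ^ 2 * D v := by
    intro c v
    simp only [D]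
    rw [Matrix.mulVec_smul, hsmul, hsmul]
    ring
  have hD0 : D 0 = 0 := by
    have := hDsmul 0 0
    simpa using this
  have hDP : ∀ x ∈ P, ∀ v, D ((x : Matrix ι ι F) *ᵥ v) = D v := by
    intro x hx v
    simp only [D]
    have hx' := hnorm h hh x hx
    have e1 : (h : Matrix ι ι F) *ᵥ ((x : Matrix ι ι F) *ᵥ v) = ((h * x * h⁻¹ : GL ι F) : Matrix ι ι F) *ᵥ ((h : Matrix ι ι F) *ᵥ v) := by
      rw [Matrix.mulVec_mulVec, Matrix.mulVec_mulVec, ← Units.val_mul, ← Units.val_mul]
      congr 2
      group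
    rw [e1, hPfix _ hx', hPfix x hx]
  let W : Submodule F (ι → F) :=
    { carrier := {v | D v = 0}
      add_mem' := by
        intro a b ha hb
        simp only [Set.mem_setOf_eq] at ha hb ⊢
        rw [hDadd, ha, hb, add_zero]
      zero_mem' := hD0
      smul_mem' := by
        intro c v hv
        simp only [Set.mem_setOf_eq] at hv ⊢
        rw [hDsmul, hv, mul_zero] }
  have hWs : Stable P W := by
    intro x hx v hv
    show D _ = 0
    rw [hDP x hx]
    exact hv
  have hW : W = ⊤ := by
    rcases hirr W hWs with h0 | h1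
    · exfalso
      have hW0 : ∀ v, D v = 0 → v = 0 := by
        intro v hv
        have : v ∈ W := hv
        rw [h0] at this
        simpa using this
      haveI : Nontrivial ι := Fintype.one_lt_card_iff_nontrivial.mp (by omega)
      obtain ⟨i, j, hij⟩ := exists_pair_ne ι
      let a : ι → F := Pi.single i 1
      let b : ι → F := Pi.single j 1
      have ha : a ≠ 0 := by
        intro h
        have := congrFun h i
        simp [a] at this
      have hDa : D a ≠ 0 := fun h => ha (hW0 a h)
      obtain ⟨s, hs⟩ := exists_sq_of_even h2 (D b / D a)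
      have h3 : D (s • a + b) = 0 := by
        rw [hDadd, hDsmul, pow_two, hs]
        field_simp
        linear_combination (D b) * h2
      have h4 := hW0 _ h3
      have h5 := congrFun h4 j
      simp [a, b, Pi.single_apply, hij.symm] at h5
    · exact h1
  intro v
  have hv : v ∈ W := hW ▸ Submodule.mem_top
  have hv' : D v = 0 := hv
  exact sub_eq_zero.mp hv'

/-- the almost simple case -/
theorem Sp.core_case [Nonempty ι] (hn : 2 ≤ Fintype.card ι) (C : FCtx (RingHom.id F) (-1) f) {H P : Subgroup (GL ι F)} (hfix : FFix f H)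
    (hP : CoreNS H P) : SpOutcome f H := by
  classical
  have habs := habs_of_matrixSet hP.absIrred
  have hPfix : ∀ g ∈ P, ∀ u v, f ((g : Matrix ι ι F) *ᵥ u) ((g : Matrix ι ι F) *ᵥ v) = f u v := fun g hg u v => hfix g (hP.le hg) u v
  by_cases hsub : ∃ F₀ : Subfield F, F₀ ≠ ⊤ ∧ RealisableOver F₀ (matrixSet P)
  · obtain ⟨F₀, hF₀, B, hB⟩ := hsub
    exact Sp.subfield_case C hfix hP.le hP.normal habs hF₀ (fun s hs i j => hB _ ⟨s, hs, rfl⟩ i j)
  · by_cases hQ : ∃ Q : (ι → F) → F, IsNondegenerateQuadraticForm Q ∧ FixesQuadForm (matrixSet P) Q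
    · obtain ⟨Q, hQn, hQfix⟩ := hQ
      have hQP : ∀ g ∈ P, ∀ v, Q ((g : Matrix ι ι F) *ᵥ v) = Q v := fun g hg v => hQfix _ ⟨g, hg, rfl⟩ v
      have hβ : Sesq (RingHom.id F) (QuadraticMap.polar Q) :=
        ⟨hQn.polar_bilinear.add_left, hQn.polar_bilinear.smul_left, hQn.polar_bilinear.add_right, fun c v x => by
          rw [hQn.polar_bilinear.smul_right]; rfl⟩
      have hβfix : ∀ g ∈ P, ∀ u v, QuadraticMap.polar Q ((g : Matrix ι ι F) *ᵥ u) ((g : Matrix ι ι F) *ᵥ v) = QuadraticMap.polar Q u v := by
        intro g hg u v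
        simp only [QuadraticMap.polar]
        rw [← Matrix.mulVec_add, hQP g hg, hQP g hg, hQP g hg]
      obtain ⟨c, hc⟩ := form_schur habs C.sesq hβ C.ndr hPfix hβfix
      obtain ⟨u₀, v₀, huv⟩ := C.exists_ne_of_nonempty
      have hβne : ∃ x y, QuadraticMap.polar Q x y ≠ 0 := by
        obtain ⟨v, hv⟩ := exists_ne (0 : ι → F)
        obtain ⟨x, hx⟩ := (hQn.nondegenerate v hv).1
        exact ⟨x, v, hx⟩
      have hc0 : c ≠ 0 := by
        rintro rfl
        obtain ⟨x, y, hxy⟩ := hβne
        apply hxy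
        rw [hc, zero_mul]
      by_cases hq : Odd (Fintype.card F)
      · exfalso
        have h2 := two_ne_of_odd_card hq
        have h3 : QuadraticMap.polar Q u₀ v₀ = QuadraticMap.polar Q v₀ u₀ := by
          simp only [QuadraticMap.polar]
          rw [add_comm u₀ v₀]
          ring
        rw [hc, hc] at h3
        have h4 := C.herm u₀ v₀
        simp only [RingHom.id_apply] at h4
        have h5 : (2 : F) * (c * f u₀ v₀) = 0 := by
          linear_combination h3 + c * h4
        exact mul_ne_zero h2 (mul_ne_zero hc0 huv) h5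
      · -- rescale
        let Q' : (ι → F) → F := fun v => c⁻¹ * Q v
        have hsmul' : ∀ (a : F) v, Q' (a • v) = a ^ 2 * Q' v := by
          intro a v
          simp only [Q']
          rw [hQn.smul]
          ring
        have hpol' : ∀ u v, QuadraticMap.polar Q' u v = f u v := by
          intro u v
          have := hc u v
          simp only [QuadraticMap.polar, Q'] at this ⊢
          field_simp
          linear_combination this
        exact Sp.quad_core hn C hfix hP.le hP.normal ((actsIrreducibly_iff P).mp hP.absIrred.1) hq hsmul' hpol' (fun g hg v => by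
          simp only [Q']
          rw [hQP g hg])
    · by_cases hU : ∃ (σ : F ≃+* F) (f' : (ι → F) → (ι → F) → F), IsUnitaryForm σ f' ∧ FixesForm (matrixSet P) f'
      · exfalso
        obtain ⟨σ, f', hf', hfixf⟩ := hU
        obtain ⟨F₀, hF₀, hreal⟩ := descent hf' (norm_of_unitary hf') habs (fun g hg u v => hfixf _ ⟨g, hg, rfl⟩ u v)
          C.sesq C.ndl hPfix
        exact hsub ⟨F₀, hF₀, hreal⟩
      · push Not at hsub
        exact Or.inr <| Or.inr <| Or.inr <| Or.inr <| Or.inr <| Or.inr <| Or.inr <| Or.inr <| Or.inr <| Or.inr <| Or.inr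
          ⟨P, hP.toCore hsub, hQ, hU⟩

/-- The reduction theorem for symplectic groups. -/
theorem Sp.main [Nonempty ι] (hn : 4 ≤ Fintype.card ι) (C : FCtx (RingHom.id F) (-1) f) (halt : ∀ v, f v v = 0) {H : Subgroup (GL ι F)}
    (hfix : FFix f H) : SpOutcome f H := by
  classical
  by_cases hirr : Irr H
  · rcases star_flow C (by omega) hirr hfix with h | ⟨ℓ, K, N, hℓ, hK, hst, hle, -, -, -⟩ |
      ⟨d, m, e, P, A₀, C₀, ε₁, ε₂, hd, hm, -, hT⟩ | ⟨N, hNH, hNn, hNt, hNc, -, -⟩ | ⟨m, t, e, P, A₀, κ, ε₁, hm, ht, -, hW⟩ | ⟨P, hP⟩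
    · exact Sp.class2_case C halt hfix h
    · exact Sp.field_case C halt hfix hℓ hK hst hle
    · exact Sp.tensor_case C halt hfix hirr hd hm hT
    · exact Sp.sym_case hn C hfix hNH hNn hNt hNc
    · exact Sp.wreath_case C halt hfix hn hm ht hW
    · exact Sp.core_case (by omega) C hfix hP
  · exact Sp.reducible_case C hfix hirr

end Cfsg.Agent.H97.Asch
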