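import Cfsg.Agent.Lib.H97H9

/-!
Unitary case: the conclusion of the reduction theorem; reducible groups, decompositions, extension fields.
-/

set_option autoImplicit false
set_option linter.unusedSectionVars false
set_option linter.style.haveILetI false

namespace Cfsg.Agent.H97.Asch

open Matrix Cfsg Cfsg.Geo
open scoped MatrixGroups commutatorElement Kronecker

variable {ι : Type} [Fintype ι] [DecidableEq ι] {F : Type*} [Field F] [Fintype F]
  {f : (ι → F) → (ι → F) → F}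

/-- The conclusion of the reduction theorem for groups of isometries of a unitary form. -/
def SuOutcome (q : ℕ) (f : (ι → F) → (ι → F) → F) (H : Subgroup (GL ι F)) : Prop :=
  (∃ W : Submodule F (ι → F), W ≠ ⊥ ∧ IsTotallySingularFor f W ∧ H ≤ subspaceStabilizer W) ∨
  (∃ W : Submodule F (ι → F), W ≠ ⊥ ∧ IsNondegenerateOn f W ∧ 2 * Module.finrank F W < Fintype.card ι ∧ H ≤ subspaceStabilizer W) ∨
  (∃ (t k : ℕ) (D : Fin t → Submodule F (ι → F)), IsNondegenerateMDecomposition f k D ∧ H ≤ decompositionStabilizer D) ∨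
  (∃ (k : ℕ) (D : Fin 2 → Submodule F (ι → F)), 2 * k = Fintype.card ι ∧ IsMDecomposition k D ∧
      (∀ i, IsTotallySingularFor f (D i)) ∧ H ≤ decompositionStabilizer D) ∨
  (∃ (F₀ : Subfield F) (r : ℕ) (P : GL ι F), r.Prime ∧ Odd r ∧ Fintype.card F = Nat.card F₀ ^ r ∧
      IsFormRationalStructure f F₀ 1 P ∧ H ≤ subfieldSubgroup F₀ P) ∨
  (∃ (F₀ : Subfield F) (P : GL ι F), Odd q ∧ Fintype.card F = Nat.card F₀ ^ 2 ∧
      IsFormRationalStructure f F₀ 1 P ∧ H ≤ subfieldSubgroup F₀ P) ∨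
  (∃ (F₀ : Subfield F) (P : GL ι F) (ζ : F), Even (Fintype.card ι) ∧ Fintype.card F = Nat.card F₀ ^ 2 ∧ ζ ≠ 0 ∧
      ζ + ζ ^ q = 0 ∧ IsFormRationalStructure f F₀ ζ P ∧
      (∀ u : ι → F, (∀ i, u i ∈ F₀) → f ((P : Matrix ι ι F) *ᵥ u) ((P : Matrix ι ι F) *ᵥ u) = 0) ∧
      H ≤ subfieldSubgroup F₀ P) ∨
  (∃ (r : ℕ) (R : Subgroup (GL ι F)) (p e k : ℕ), IsSymplecticTypeGroup r R ∧
      ActsAbsolutelyIrreducibly (matrixSet R) ∧ R ≤ similarityGroup f ∧ r ≠ p ∧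
      IsMinimalFieldFor (Nat.card (Subgroup.center R)) p e F ∧
      ((Odd r ∧ Nat.card (Subgroup.center R) = r ∧ 1 ≤ k ∧ Nat.card R = r ^ (1 + 2 * k)) ∨
       (r = 2 ∧ e = 2 ∧ Nat.card (Subgroup.center R) = 4 ∧ Nat.card R = 2 ^ (2 + 2 * k))) ∧
      Fintype.card ι = r ^ k ∧ (∀ x ∈ R, ∀ y ∈ R, ∃ ξ : Fˣ, x * y = scU ξ * (y * x)) ∧
      H ≤ subgroupNormalizer R) ∨
  (∃ (r : ℕ) (K : Subalgebra F (Matrix ι ι F)), r.Prime ∧ Odd r ∧ IsFieldSubalgebra r K ∧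
      IsAdjointClosedFor f K ∧ H ≤ subalgebraNormalizer K) ∨
  (∃ (n₁ n₂ : ℕ) (e : ι ≃ Fin n₁ × Fin n₂) (P : GL ι F)
      (f₁ : (Fin n₁ → F) → (Fin n₁ → F) → F) (f₂ : (Fin n₂ → F) → (Fin n₂ → F) → F),
      2 ≤ n₁ ∧ n₁ < n₂ ∧ IsUnitaryFormPow q f₁ ∧ IsUnitaryFormPow q f₂ ∧
      IsTensorFormStructure (fun x : F => x ^ q) f f₁ f₂ e P ∧ H ≤ tensorProductSubgroup n₁ n₂ e P) ∨
  (∃ (k t : ℕ) (e : ι ≃ (Fin t → Fin k)) (P : GL ι F) (f₁ : (Fin k → F) → (Fin k → F) → F),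
      3 ≤ k ∧ 2 ≤ t ∧ ¬ (q = 2 ∧ k = 3) ∧ IsUnitaryFormPow q f₁ ∧
      IsTensorPowerFormStructure (fun x : F => x ^ q) f f₁ e P ∧ H ≤ tensorWreathSubgroup k t e P) ∨
  InUnitaryResidualClass H

/-- the conversion to the classes of the statement -/
theorem SuOutcome.toClass {n q : ℕ} {H : Subgroup (GL (Fin n) F)} (hH : H ≤ GU n F q) (h : SuOutcome q (hermForm n F q) H) :
    (∃ M : Subgroup (GL (Fin n) F), InUnitaryClass n F q M ∧ H ≤ M) ∨ InUnitaryResidualClass H := by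
  have hcard : Fintype.card (Fin n) = n := Fintype.card_fin n
  rcases h with ⟨W, h0, h1, h2⟩ | ⟨W, h0, h1, h2, h3⟩ | ⟨t, k, D, h1, h2⟩ | ⟨k, D, h0, h1, h2, h3⟩ |
    ⟨F₀, r, P, h0, h1, h2, h3, h4⟩ | ⟨F₀, P, h0, h1, h2, h3⟩ | ⟨F₀, P, ζ, h0, h1, h2, h3, h4, h5, h6⟩ |
    ⟨r, R, p, e, k, h0, h1, h2, h3, h4, h5, -, -, h6⟩ |
    ⟨r, K, h0, h1, h2, h3, h4⟩ | ⟨n₁, n₂, e, P, f₁, f₂, h0, h1, h2, h3, h4, h5⟩ |
    ⟨k, t, e, P, f₁, h0, h1, h2, h3, h4, h5⟩ | h
  · exact Or.inl ⟨_, Or.inl (Or.inl ⟨W, h0, h1, rfl⟩), le_inf h2 hH⟩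
  · refine Or.inl ⟨_, Or.inl (Or.inr (Or.inl ⟨W, h0, h1, ?_, rfl⟩)), le_inf h3 hH⟩
    omega
  · exact Or.inl ⟨_, Or.inl (Or.inr (Or.inr (Or.inl ⟨t, k, D, h1, rfl⟩))), le_inf h2 hH⟩
  · refine Or.inl ⟨_, Or.inl (Or.inr (Or.inr (Or.inr (Or.inl ⟨k, D, ?_, h1, h2, rfl⟩)))), le_inf h3 hH⟩
    omega
  · exact Or.inl ⟨_, Or.inl (Or.inr (Or.inr (Or.inr (Or.inr (Or.inl ⟨F₀, r, P, h0, h1, h2, h3, rfl⟩))))), le_inf h4 hH⟩
  · exact Or.inl ⟨_, Or.inl (Or.inr (Or.inr (Or.inr (Or.inr (Or.inr (Or.inl ⟨F₀, P, h0, h1, h2, rfl⟩)))))), le_inf h3 hH⟩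
  · refine Or.inl ⟨_, Or.inl (Or.inr (Or.inr (Or.inr (Or.inr (Or.inr (Or.inr (Or.inl ⟨F₀, P, ζ, ?_, h1, h2, h3, h4, h5, rfl⟩))))))), le_inf h6 hH⟩
    simpa using h0
  · exact Or.inl ⟨_, Or.inl (Or.inr (Or.inr (Or.inr (Or.inr (Or.inr (Or.inr (Or.inr ⟨r, R, p, e, k, h0, h1, h2, h3, h4, h5, rfl⟩))))))), le_inf h6 hH⟩
  · exact Or.inl ⟨_, Or.inr (Or.inl ⟨r, K, h0, h1, h2, h3, rfl⟩), le_inf h4 hH⟩
  · exact Or.inl ⟨_, Or.inr (Or.inr (Or.inl ⟨n₁, n₂, e, P, f₁, f₂, h0, h1, h2, h3, h4, rfl⟩)), le_inf h5 hH⟩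
  · exact Or.inl ⟨_, Or.inr (Or.inr (Or.inr ⟨k, t, e, P, f₁, h0, h1, h2, h3, h4, rfl⟩)), le_inf h5 hH⟩
  · exact Or.inr h

/-- the data of a unitary form over the field with `q ^ 2` elements -/
structure SUCtx (σ : F ≃+* F) (q : ℕ) (f : (ι → F) → (ι → F) → F) : Prop where
  unitary : IsUnitaryForm σ f
  pow : ∀ x, σ x = x ^ q
  card : Fintype.card F = q ^ 2

variable {σ : F ≃+* F} {q : ℕ}

theorem fctx_of_unitary (hU : IsUnitaryForm σ f) : FCtx (σ : F →+* F) 1 f where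
  sesq := sesq_of_unitary hU
  ndr v hv := (hU.nondegenerate v hv).2
  ndl v hv := (hU.nondegenerate v hv).1
  invol := hU.involutive
  herm u v := by
    rw [one_mul]
    exact hU.herm u v

namespace SUCtx

theorem fctx (C : SUCtx σ q f) : FCtx (σ : F →+* F) 1 f := fctx_of_unitary C.unitary

theorem two_le (C : SUCtx σ q f) : 2 ≤ q := by
  have h1 := C.card
  have h2 : 1 < Fintype.card F := Fintype.one_lt_card
  rcases q with _ | _ | q
  · simp at h1
  · simp at h1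
    omega
  · omega

theorem exists_ne (C : SUCtx σ q f) : ∃ c : F, σ c ≠ c := by
  by_contra hall
  push Not at hall
  apply C.unitary.ne_refl
  ext y
  exact hall y

theorem norm (C : SUCtx σ q f) : ∀ μ : F, μ ≠ 0 → σ μ = μ → ∃ x : F, x ≠ 0 ∧ x * σ x = μ :=
  norm_of_unitary C.unitary

/-- the trace is non zero -/
theorem exists_trace (C : SUCtx σ q f) : ∃ s : F, s + σ s ≠ 0 := by
  by_contra hall
  push Not at hall
  have h1 := hall 1
  rw [map_one] at h1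
  -- so the characteristic is two, and the map is additively trivial
  obtain ⟨c, hc⟩ := C.exists_ne
  have h2 := hall c
  have h3 : σ c = c := by
    have e1 : (2 : F) = 0 := by linear_combination h1
    have e2 : c + c = 0 := by linear_combination c * e1
    linear_combination h2 - e2
  exact hc h3

theorem hN (C : SUCtx σ q f) : ∀ a : F, a ≠ 0 → σ a = a → ∃ s : F, s * σ s = a := fun a h0 h1 => by
  obtain ⟨x, -, hx⟩ := C.norm a h0 h1
  exact ⟨x, hx⟩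

/-- Hilbert's theorem 90 -/
theorem hilbert90 (C : SUCtx σ q f) {ε : F} (hε : ε * σ ε = 1) : ∃ z : F, z ≠ 0 ∧ σ z = ε * z := by
  have hinv := C.unitary.involutive
  by_contra hall
  push Not at hall
  have hz : ∀ w : F, w + σ ε * σ w = 0 := by
    intro w
    by_contra h0
    apply hall _ h0
    rw [map_add, map_mul, hinv, hinv]
    linear_combination (-(σ w)) * hε
  have h1 := hz 1
  rw [map_one, mul_one] at h1
  obtain ⟨c, hc⟩ := C.exists_ne
  have h2 := hz c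
  apply hc
  have h3 : σ ε = -1 := by linear_combination h1
  rw [h3] at h2
  linear_combination -h2

end SUCtx

theorem isUnitaryFormPow_of_ctx {κ : Type} [Fintype κ] [DecidableEq κ] {g : (κ → F) → (κ → F) → F} (hq : ∀ x, σ x = x ^ q)
    (C : FCtx (σ : F →+* F) 1 g) : IsUnitaryFormPow q g where
  add_left := C.sesq.add_left
  smul_left := C.sesq.smul_left
  herm v w := by
    have := C.herm v w
    rw [one_mul] at this
    rw [this, ← hq]
    rfl
  nondegenerate := fun v hv => ⟨C.ndl v hv, C.ndr v hv⟩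

theorem Su.reducible_case (C : FCtx (σ : F →+* F) 1 f) {H : Subgroup (GL ι F)} (hfix : FFix f H) (hnot : ¬ Irr H) :
    SuOutcome q f H := by
  classical
  unfold Irr at hnot
  push Not at hnot
  obtain ⟨W, hW, h0, h1⟩ := hnot
  rcases C.reducible hfix hW h0 h1 with ⟨R, hR0, hRs, hRt⟩ | ⟨U, hU0, hU1, hUs, hUd⟩
  · exact Or.inl ⟨R, hR0, hRt, fun g hg => mem_stab_of_stable hRs hg⟩
  · obtain ⟨hd, hsup⟩ := C.perp_dims hUd
    have hUs' := C.stable_perp hfix hUs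
    have hnU := C.nondeg_of_disj hUd
    have hnU' := C.nondeg_perp_of_disj hUd
    rcases lt_trichotomy (2 * Module.finrank F U) (Fintype.card ι) with hlt | heq | hgt
    · exact Or.inr <| Or.inl ⟨U, hU0, hnU, hlt, fun g hg => mem_stab_of_stable hUs hg⟩
    · have hk : 0 < Module.finrank F U := by
        rw [Module.finrank_pos_iff_exists_ne_zero]
        obtain ⟨u, hu, hu0⟩ := (Submodule.ne_bot_iff U).mp hU0
        exact ⟨⟨u, hu⟩, fun h => hu0 (congrArg Subtype.val h)⟩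
      have hV : Module.finrank F (C.perp U) = Module.finrank F U := by omega
      refine Or.inr <| Or.inr <| Or.inl ⟨2, Module.finrank F U, ![U, C.perp U], ⟨two_mdecomp hk rfl hV hUd hsup, ?_, ?_⟩, ?_⟩
      · intro i
        fin_cases i
        · exact hnU
        · exact hnU'
      · intro i j hij
        fin_cases i <;> fin_cases j
        · exact absurd rfl hij
        · intro u hu v hv
          exact (C.mem_perp'.mp hv) u hu
        · intro u hu v hv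
          exact hu v hv
        · exact absurd rfl hij
      · intro g hg
        refine ⟨1, fun i => ?_⟩
        fin_cases i
        · exact map_toLin_eq_of_stable hUs hg
        · exact map_toLin_eq_of_stable hUs' hg
    · have hU0' := C.perp_ne_bot hUd hU1
      exact Or.inr <| Or.inl ⟨C.perp U, hU0', hnU', by omega, fun g hg => mem_stab_of_stable hUs' hg⟩

/-- Class 2. -/
theorem Su.class2_case {H : Subgroup (GL ι F)} (h : FClass2 f H) : SuOutcome q f H := by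
  classical
  rcases h with ⟨t, k, D, hD, hle, -⟩ | ⟨k, D, hD, hts, hle⟩
  · exact Or.inr <| Or.inr <| Or.inl ⟨t, k, D, hD, hle⟩
  · exact Or.inr <| Or.inr <| Or.inr <| Or.inl ⟨k, D, card_of_mdecomp hD, hD, hts, hle⟩

/-- Extension fields. -/
theorem Su.field_case [Nonempty ι] (C : SUCtx σ q f) {H : Subgroup (GL ι F)}
    {ℓ : ℕ} {K : Subalgebra F (Matrix ι ι F)} (hℓ : ℓ.Prime) (hK : IsFieldSubalgebra ℓ K) (hst : FStar C.fctx K)
    (hle : H ≤ subalgebraNormalizer K) : SuOutcome q f H := by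
  classical
  rcases hℓ.eq_two_or_odd' with rfl | hodd
  · obtain ⟨c, hc⟩ := C.exists_ne
    exact (no_degree_two C.fctx hc hK hst).elim
  · exact Or.inr <| Or.inr <| Or.inr <| Or.inr <| Or.inr <| Or.inr <| Or.inr <| Or.inr <| Or.inl
      ⟨ℓ, K, hℓ, hodd, hK, adjointClosed_of_star C.fctx hst, hle⟩

end Cfsg.Agent.H97.Asch
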