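import Cfsg.Agent.Lib.H97I1

/-!
Unitary case: rational structures and groups of similarities.
-/

set_option autoImplicit false
set_option linter.unusedSectionVars false
set_option linter.style.haveILetI false

namespace Cfsg.Agent.H97.Asch

open Matrix Cfsg Cfsg.Geo
open scoped MatrixGroups commutatorElement Kronecker

variable {ι : Type} [Fintype ι] [DecidableEq ι] {F : Type*} [Field F]
  {f : (ι → F) → (ι → F) → F}

/-- Schur for forms transforming by the same multiplier. -/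
theorem form_schur_sim {σ : F →+* F} {f f₁ : (ι → F) → (ι → F) → F} {P : Subgroup (GL ι F)}
    (habs : ∀ M : Matrix ι ι F, (∀ g ∈ P, M * (g : Matrix ι ι F) = (g : Matrix ι ι F) * M) → ∃ c : F, M = c • 1)
    (hf : Sesq σ f) (hf₁ : Sesq σ f₁) (hnd : ∀ v, v ≠ 0 → ∃ x, f v x ≠ 0)
    (hinv : ∀ g ∈ P, ∃ μ : F, (∀ u v, f ((g : Matrix ι ι F) *ᵥ u) ((g : Matrix ι ι F) *ᵥ v) = μ * f u v) ∧
      ∀ u v, f₁ ((g : Matrix ι ι F) *ᵥ u) ((g : Matrix ι ι F) *ᵥ v) = μ * f₁ u v) :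
    ∃ c : F, ∀ u v, f₁ u v = c * f u v := by
  obtain ⟨A, hA⟩ := hf.exists_rep hf₁ hnd
  have hcomm : ∀ g ∈ P, A * (g : Matrix ι ι F) = (g : Matrix ι ι F) * A := by
    intro g hg
    obtain ⟨μ, h1, h2⟩ := hinv g hg
    apply Matrix.toLin'.injective
    apply LinearMap.ext
    intro u
    simp only [Matrix.toLin'_apply]
    rw [← Matrix.mulVec_mulVec, ← Matrix.mulVec_mulVec]
    by_contra hne
    obtain ⟨x, hx⟩ := hnd _ (sub_ne_zero.mpr hne)
    apply hx
    rw [hf.sub_left, sub_eq_zero, ← hA]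
    have e1 : x = (g : Matrix ι ι F) *ᵥ (((g⁻¹ : GL ι F) : Matrix ι ι F) *ᵥ x) := by
      rw [Matrix.mulVec_mulVec, ← Units.val_mul, mul_inv_cancel, Units.val_one, Matrix.one_mulVec]
    conv_lhs => rw [e1]
    conv_rhs => rw [e1]
    rw [h2, h1, hA]
  obtain ⟨c, hc⟩ := habs A hcomm
  refine ⟨c, fun u v => ?_⟩
  rw [hA, hc, Matrix.smul_mulVec, Matrix.one_mulVec, hf.smul_left]

variable {σ : F ≃+* F}

/-- The form on a rational structure is rational up to a twist. -/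
theorem rational_twist [Finite F] (hU : IsUnitaryForm σ f) {P : Subgroup (GL ι F)}
    (habs : ∀ M : Matrix ι ι F, (∀ g ∈ P, M * (g : Matrix ι ι F) = (g : Matrix ι ι F) * M) → ∃ c : F, M = c • 1)
    {F₁ : Subfield F} {B : GL ι F}
    (hreal : ∀ s ∈ P, ∀ i j, ((B : Matrix ι ι F) * (s : Matrix ι ι F) * ((B⁻¹ : GL ι F) : Matrix ι ι F)) i j ∈ F₁)
    (hmult : ∀ g ∈ P, ∃ μ ∈ F₁, ∀ u v, f ((g : Matrix ι ι F) *ᵥ u) ((g : Matrix ι ι F) *ᵥ v) = μ * f u v)
    {τ : F ≃+* F} (hτp : ∀ x, τ x = x ^ Nat.card F₁) (hτ : ∀ x, τ x = x ↔ x ∈ F₁) :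
    ∃ c : F, ∀ u v : ι → F, (∀ i, u i ∈ F₁) → (∀ i, v i ∈ F₁) →
      τ.symm (f (((B⁻¹ : GL ι F) : Matrix ι ι F) *ᵥ u) (((B⁻¹ : GL ι F) : Matrix ι ι F) *ᵥ v)) =
        c * f (((B⁻¹ : GL ι F) : Matrix ι ι F) *ᵥ u) (((B⁻¹ : GL ι F) : Matrix ι ι F) *ᵥ v) := by
  classical
  have hS := sesq_of_unitary hU
  have hcomm : ∀ x, σ (τ x) = τ (σ x) := fun x => by rw [hτp, hτp, map_pow]
  have hcomm' : ∀ x, τ.symm (σ (τ x)) = σ x := fun x => by rw [hcomm, τ.symm_apply_apply]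
  set Y : GL ι F := B⁻¹ with hY
  let g : (ι → F) → (ι → F) → F := fun u v =>
    τ.symm (f ((Y : Matrix ι ι F) *ᵥ svec τ ((B : Matrix ι ι F) *ᵥ u)) ((Y : Matrix ι ι F) *ᵥ svec τ ((B : Matrix ι ι F) *ᵥ v)))
  have hg : Sesq (σ : F →+* F) g :=
    ⟨fun x y v => by
      simp only [g]
      rw [Matrix.mulVec_add, svec_add, Matrix.mulVec_add, hS.add_left, map_add],
     fun c x v => by
      simp only [g]
      rw [Matrix.mulVec_smul, svec_smul, Matrix.mulVec_smul, hS.smul_left, map_mul, τ.symm_apply_apply],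
     fun v x y => by
      simp only [g]
      rw [Matrix.mulVec_add, svec_add, Matrix.mulVec_add, hS.add_right, map_add],
     fun c v x => by
      simp only [g]
      rw [Matrix.mulVec_smul, svec_smul, Matrix.mulVec_smul, hS.smul_right, map_mul]
      congr 1
      exact hcomm' c⟩
  have hsv : ∀ s ∈ P, ∀ w : ι → F, svec τ (((B * s * Y : GL ι F) : Matrix ι ι F) *ᵥ w) =
      ((B * s * Y : GL ι F) : Matrix ι ι F) *ᵥ svec τ w := by
    intro s hs w
    ext k
    simp only [svec_apply, Matrix.mulVec, dotProduct, map_sum, map_mul]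
    refine Finset.sum_congr rfl fun l _ => ?_
    have hr : ((B * s * Y : GL ι F) : Matrix ι ι F) k l ∈ F₁ := hreal s hs k l
    rw [(hτ _).mpr hr]
  have hginv : ∀ s ∈ P, ∃ μ : F, (∀ u v, f ((s : Matrix ι ι F) *ᵥ u) ((s : Matrix ι ι F) *ᵥ v) = μ * f u v) ∧
      ∀ u v, g ((s : Matrix ι ι F) *ᵥ u) ((s : Matrix ι ι F) *ᵥ v) = μ * g u v := by
    intro s hs
    obtain ⟨μ, hμ, h1⟩ := hmult s hs
    refine ⟨μ, h1, fun u v => ?_⟩
    simp only [g]
    have e1 : ∀ w : ι → F, (B : Matrix ι ι F) *ᵥ ((s : Matrix ι ι F) *ᵥ w) =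
        ((B * s * Y : GL ι F) : Matrix ι ι F) *ᵥ ((B : Matrix ι ι F) *ᵥ w) := by
      intro w
      rw [gl_mulVec_mul, gl_mulVec_mul, hY, gl_inv_mulVec]
    have e2 : ∀ w : ι → F, (Y : Matrix ι ι F) *ᵥ (((B * s * Y : GL ι F) : Matrix ι ι F) *ᵥ w) =
        (s : Matrix ι ι F) *ᵥ ((Y : Matrix ι ι F) *ᵥ w) := by
      intro w
      rw [gl_mulVec_mul, gl_mulVec_mul, hY, gl_inv_mulVec]
    rw [e1, e1, hsv s hs, hsv s hs, e2, e2, h1, map_mul]
    congr 1
    rw [RingEquiv.symm_apply_eq]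
    exact ((hτ _).mpr hμ).symm
  obtain ⟨c, hc⟩ := form_schur_sim habs hS hg (fun v hv => (hU.nondegenerate v hv).2) hginv
  refine ⟨c, fun u v hu hv => ?_⟩
  have h1 := hc ((Y : Matrix ι ι F) *ᵥ u) ((Y : Matrix ι ι F) *ᵥ v)
  simp only [g] at h1
  have e : ∀ w : ι → F, (∀ i, w i ∈ F₁) → svec τ ((B : Matrix ι ι F) *ᵥ ((Y : Matrix ι ι F) *ᵥ w)) = w := by
    intro w hw
    have e3 : (B : Matrix ι ι F) *ᵥ ((Y : Matrix ι ι F) *ᵥ w) = w := by
      rw [hY]
      exact gl_mulVec_inv B w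
    rw [e3]
    ext i
    exact (hτ _).mpr (hw i)
  rw [e u hu, e v hv] at h1
  exact h1

/-- Ratios of values of the form on a rational structure are rational. -/
theorem rational_value [Finite F] (hU : IsUnitaryForm σ f) {P : Subgroup (GL ι F)}
    (habs : ∀ M : Matrix ι ι F, (∀ g ∈ P, M * (g : Matrix ι ι F) = (g : Matrix ι ι F) * M) → ∃ c : F, M = c • 1)
    {F₁ : Subfield F} {B : GL ι F}
    (hreal : ∀ s ∈ P, ∀ i j, ((B : Matrix ι ι F) * (s : Matrix ι ι F) * ((B⁻¹ : GL ι F) : Matrix ι ι F)) i j ∈ F₁)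
    (hmult : ∀ g ∈ P, ∃ μ ∈ F₁, ∀ u v, f ((g : Matrix ι ι F) *ᵥ u) ((g : Matrix ι ι F) *ᵥ v) = μ * f u v)
    {u₀ v₀ : ι → F} (hu₀ : ∀ i, u₀ i ∈ F₁) (hv₀ : ∀ i, v₀ i ∈ F₁)
    (h0 : f (((B⁻¹ : GL ι F) : Matrix ι ι F) *ᵥ u₀) (((B⁻¹ : GL ι F) : Matrix ι ι F) *ᵥ v₀) ≠ 0) :
    ∀ u v : ι → F, (∀ i, u i ∈ F₁) → (∀ i, v i ∈ F₁) →
      (f (((B⁻¹ : GL ι F) : Matrix ι ι F) *ᵥ u₀) (((B⁻¹ : GL ι F) : Matrix ι ι F) *ᵥ v₀))⁻¹ *
        f (((B⁻¹ : GL ι F) : Matrix ι ι F) *ᵥ u) (((B⁻¹ : GL ι F) : Matrix ι ι F) *ᵥ v) ∈ F₁ := by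
  classical
  obtain ⟨τ, hτp, hτ⟩ := exists_ringEquiv_fixed F₁
  obtain ⟨c, hR⟩ := rational_twist hU habs hreal hmult hτp hτ
  intro u v hu hv
  set a := f (((B⁻¹ : GL ι F) : Matrix ι ι F) *ᵥ u₀) (((B⁻¹ : GL ι F) : Matrix ι ι F) *ᵥ v₀) with ha
  have hRa : τ.symm a = c * a := hR u₀ v₀ hu₀ hv₀
  have hτa : τ.symm a ≠ 0 := (map_ne_zero τ.symm).mpr h0
  have hc0 : c ≠ 0 := by
    rintro rfl
    rw [zero_mul] at hRa
    exact hτa hRa
  rw [← hτ]
  have hfixed : τ.symm (a⁻¹ * f (((B⁻¹ : GL ι F) : Matrix ι ι F) *ᵥ u) (((B⁻¹ : GL ι F) : Matrix ι ι F) *ᵥ v)) =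
      a⁻¹ * f (((B⁻¹ : GL ι F) : Matrix ι ι F) *ᵥ u) (((B⁻¹ : GL ι F) : Matrix ι ι F) *ᵥ v) := by
    rw [map_mul, map_inv₀, hRa, hR u v hu hv]
    field_simp
  conv_lhs => rw [← hfixed]
  exact τ.apply_symm_apply _

/-- no rational structure with the symmetric form in even characteristic. -/
theorem char2_false' [Finite F] (hU : IsUnitaryForm σ f) (h2 : (2 : F) = 0) {P : Subgroup (GL ι F)}
    (hmult : ∀ g ∈ P, ∃ μ : F, ∀ u v, f ((g : Matrix ι ι F) *ᵥ u) ((g : Matrix ι ι F) *ᵥ v) = μ * f u v) (hPirr : Irr P)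
    {F₁ : Subfield F} (hF₁ : ∀ x, x ∈ F₁ ↔ σ x = x) {B : GL ι F}
    (hreal : ∀ s ∈ P, ∀ i j, ((B : Matrix ι ι F) * (s : Matrix ι ι F) * ((B⁻¹ : GL ι F) : Matrix ι ι F)) i j ∈ F₁)
    (hval : ∀ u v : ι → F, (∀ i, u i ∈ F₁) → (∀ i, v i ∈ F₁) →
      f (((B⁻¹ : GL ι F) : Matrix ι ι F) *ᵥ u) (((B⁻¹ : GL ι F) : Matrix ι ι F) *ᵥ v) ∈ F₁)
    {v₁ : ι → F} (hv₁r : ∀ i, v₁ i ∈ F₁)
    (hv₁ : f (((B⁻¹ : GL ι F) : Matrix ι ι F) *ᵥ v₁) (((B⁻¹ : GL ι F) : Matrix ι ι F) *ᵥ v₁) ≠ 0)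
    (hn : 2 ≤ Fintype.card ι) : False := by
  classical
  have : Fintype F := Fintype.ofFinite F
  have hS := sesq_of_unitary hU
  have hchar : CharP F 2 := by
    obtain ⟨p, hp⟩ := CharP.exists F
    have h3 : (p : ℕ) ∣ 2 := (CharP.cast_eq_zero_iff F p 2).mp (by exact_mod_cast h2)
    have hpp : p.Prime := by
      rcases CharP.char_is_prime_or_zero F p with h | h
      · exact h
      · subst h
        have := Nat.eq_zero_of_zero_dvd h3
        omega
    have : p = 2 := (Nat.prime_dvd_prime_iff_eq hpp Nat.prime_two).mp h3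
    exact this ▸ hp
  have hfact : Fact (Nat.Prime 2) := ⟨Nat.prime_two⟩
  set Y : GL ι F := B⁻¹ with hY
  let f' : (ι → F) → (ι → F) → F := fun u v => f ((Y : Matrix ι ι F) *ᵥ u) ((Y : Matrix ι ι F) *ᵥ v)
  have hS' : Sesq (σ : F →+* F) f' :=
    ⟨fun x y v => by simp only [f']; rw [Matrix.mulVec_add, hS.add_left],
     fun c x v => by simp only [f']; rw [Matrix.mulVec_smul, hS.smul_left],
     fun v x y => by simp only [f']; rw [Matrix.mulVec_add, hS.add_right],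
     fun c v x => by simp only [f']; rw [Matrix.mulVec_smul, hS.smul_right]⟩
  have hherm : ∀ u v, f' u v = σ (f' v u) := fun u v => hU.herm _ _
  -- square roots
  have hsqrt : ∀ G ∈ F₁, ∃ d ∈ F₁, d ^ 2 = G := by
    intro G hG
    have hbij : Function.Bijective (frobenius F 2) :=
      Finite.injective_iff_bijective.mp (frobenius F 2).injective
    obtain ⟨d, hd⟩ := hbij.2 G
    rw [frobenius_def] at hd
    refine ⟨d, ?_, hd⟩
    rw [hF₁]
    have h3 : (σ d) ^ 2 = d ^ 2 := by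
      rw [← map_pow, hd, (hF₁ G).mp hG]
    have hinj := (frobenius F 2).injective
    apply hinj
    rw [frobenius_def, frobenius_def, h3]
  have hsingle : ∀ (i k : ι), (Pi.single i (1 : F) : ι → F) k ∈ F₁ := by
    intro i k
    rw [Pi.single_apply]
    split_ifs
    · exact F₁.one_mem
    · exact F₁.zero_mem
  choose d hdm hd using fun i => hsqrt (f' (Pi.single i 1) (Pi.single i 1)) (hval _ _ (hsingle i) (hsingle i))
  let ℓ : Module.Dual F (ι → F) :=
    { toFun := fun w => ∑ i, d i * w i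
      map_add' := fun x y => by simp [mul_add, Finset.sum_add_distrib]
      map_smul' := fun c x => by
        simp only [Pi.smul_apply, smul_eq_mul, RingHom.id_apply, Finset.mul_sum]
        exact Finset.sum_congr rfl fun i _ => by ring }
  have hℓ : ∀ w, ℓ w = ∑ i, d i * w i := fun w => rfl
  have hℓe : ∀ i, ℓ (Pi.single i 1) = d i := by
    intro i
    rw [hℓ, Finset.sum_eq_single i]
    · simp
    · intro j _ hj
      simp [hj]
    · simp
  have hadd : ∀ x y : ι → F, (∀ i, x i ∈ F₁) → (∀ i, y i ∈ F₁) → f' x y + f' y x = 0 := by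
    intro x y hx hy
    have h3 : σ (f' x y) = f' x y := (hF₁ _).mp (hval x y hx hy)
    rw [hherm y x, h3, ← two_mul, h2, zero_mul]
  have hsq : ∀ u : ι → F, (∀ i, u i ∈ F₁) → f' u u = (ℓ u) ^ 2 := by
    intro u hu
    have key : ∀ s : Finset ι, f' (∑ i ∈ s, u i • Pi.single i (1 : F)) (∑ i ∈ s, u i • Pi.single i (1 : F)) =
        (ℓ (∑ i ∈ s, u i • Pi.single i (1 : F))) ^ 2 ∧ (∀ k, (∑ i ∈ s, u i • (Pi.single i (1 : F) : ι → F)) k ∈ F₁) := by
      intro s
      induction s using Finset.induction_on with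
      | empty =>
        refine ⟨?_, fun k => ?_⟩
        · simp only [Finset.sum_empty, map_zero]
          rw [hS'.zero_left]
          simp
        · simp [F₁.zero_mem]
      | insert i s hi ih =>
        obtain ⟨ih1, ih2⟩ := ih
        have hx : ∀ k, (u i • (Pi.single i (1 : F) : ι → F)) k ∈ F₁ := by
          intro k
          simp only [Pi.smul_apply, smul_eq_mul]
          exact F₁.mul_mem (hu i) (hsingle i k)
        rw [Finset.sum_insert hi]
        refine ⟨?_, fun k => ?_⟩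
        · set y := ∑ i ∈ s, u i • (Pi.single i (1 : F) : ι → F) with hy
          rw [hS'.add_left, hS'.add_right, hS'.add_right, ih1, map_add]
          have h3 := hadd _ _ hx ih2
          have h4 : f' (u i • Pi.single i (1 : F)) (u i • Pi.single i (1 : F)) = (ℓ (u i • Pi.single i (1 : F))) ^ 2 := by
            rw [hS'.smul_left, hS'.smul_right, ← hd i, map_smul, hℓe, smul_eq_mul]
            have h5 : (σ : F →+* F) (u i) = u i := (hF₁ _).mp (hu i)
            rw [h5]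
            ring
          rw [h4]
          have h6 : ∀ p r : F, (p + r) ^ 2 = p ^ 2 + r ^ 2 := by
            intro p r
            have : (p + r) ^ 2 = p ^ 2 + r ^ 2 + 2 * (p * r) := by ring
            rw [this, h2, zero_mul, add_zero]
          rw [h6]
          linear_combination h3
        · simp only [Pi.add_apply]
          exact F₁.add_mem (hx k) (ih2 k)
    have e : u = ∑ i, u i • Pi.single i (1 : F) := by
      conv_lhs => rw [← (Pi.basisFun F ι).sum_repr u]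
      refine Finset.sum_congr rfl fun j _ => ?_
      simp
    have := (key Finset.univ).1
    rwa [← e] at this
  -- the functional is semi-invariant
  have hinv : ∀ s ∈ P, ∃ d' : F, ∀ w, ℓ (((B * s * Y : GL ι F) : Matrix ι ι F) *ᵥ w) = d' * ℓ w := by
    intro s hs
    obtain ⟨μ, hμ⟩ := hmult s hs
    obtain ⟨d', hd'⟩ := exists_sq_of_even h2 μ
    refine ⟨d', fun w => ?_⟩
    have he : ∀ j, ℓ (((B * s * Y : GL ι F) : Matrix ι ι F) *ᵥ Pi.single j 1) = d' * ℓ (Pi.single j 1) := by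
      intro j
      have hrat : ∀ k, (((B * s * Y : GL ι F) : Matrix ι ι F) *ᵥ Pi.single j 1) k ∈ F₁ := by
        intro k
        rw [Matrix.mulVec_single_one]
        exact hreal s hs k j
      have h3 := hsq _ hrat
      have h4 := hsq _ (hsingle j)
      have h5 : f' (((B * s * Y : GL ι F) : Matrix ι ι F) *ᵥ Pi.single j 1) (((B * s * Y : GL ι F) : Matrix ι ι F) *ᵥ Pi.single j 1) =
          μ * f' (Pi.single j 1) (Pi.single j 1) := by
        simp only [f']
        have e2 : ∀ w : ι → F, (Y : Matrix ι ι F) *ᵥ (((B * s * Y : GL ι F) : Matrix ι ι F) *ᵥ w) =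
            (s : Matrix ι ι F) *ᵥ ((Y : Matrix ι ι F) *ᵥ w) := by
          intro w
          rw [gl_mulVec_mul, gl_mulVec_mul, hY, gl_inv_mulVec]
        rw [e2, hμ]
      rw [h3, h4] at h5
      have hinj := (frobenius F 2).injective
      apply hinj
      rw [frobenius_def, frobenius_def, h5, _root_.mul_pow, pow_two d', hd']
    have e : w = ∑ j, w j • Pi.single j (1 : F) := by
      conv_lhs => rw [← (Pi.basisFun F ι).sum_repr w]
      refine Finset.sum_congr rfl fun j _ => ?_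
      simp
    rw [e, Matrix.mulVec_sum, map_sum, map_sum, Finset.mul_sum]
    refine Finset.sum_congr rfl fun j _ => ?_
    rw [Matrix.mulVec_smul, map_smul, map_smul, he, smul_eq_mul, smul_eq_mul]
    ring
  let W : Submodule F (ι → F) := (LinearMap.ker ℓ).map (Matrix.toLin' (Y : Matrix ι ι F))
  have hW : Stable P W := by
    rintro s hs _ ⟨w₀, hw₀, rfl⟩
    refine ⟨((B * s * Y : GL ι F) : Matrix ι ι F) *ᵥ w₀, ?_, ?_⟩
    · obtain ⟨d', hd'⟩ := hinv s hs
      have h0 : ℓ w₀ = 0 := hw₀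
      rw [SetLike.mem_coe, LinearMap.mem_ker, hd', h0, mul_zero]
    · simp only [Matrix.toLin'_apply]
      rw [gl_mulVec_mul, gl_mulVec_mul, hY, gl_inv_mulVec]
  rcases hPirr W hW with h0 | h1
  · -- the kernel is too large
    have hk : LinearMap.ker ℓ = ⊥ := by
      rw [Submodule.eq_bot_iff]
      intro w hw
      have hmem : (Y : Matrix ι ι F) *ᵥ w ∈ W := ⟨w, hw, by simp [Matrix.toLin'_apply]⟩
      rw [h0, Submodule.mem_bot] at hmem
      exact gl_mulVec_injective Y (by simpa using hmem)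
    have h3 := LinearMap.finrank_range_add_finrank_ker ℓ
    rw [hk, finrank_bot] at h3
    have h4 := Submodule.finrank_le (LinearMap.range ℓ)
    simp at h3 h4
    omega
  · apply hv₁
    have h3 : v₁ ∈ LinearMap.ker ℓ := by
      have hmem : (Y : Matrix ι ι F) *ᵥ v₁ ∈ W := h1 ▸ Submodule.mem_top
      obtain ⟨w, hw, he⟩ := hmem
      have : w = v₁ := gl_mulVec_injective Y (by simpa [Matrix.toLin'_apply] using he)
      rw [← this]
      exact hw
    have h4 := hsq v₁ hv₁r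
    have h5 : ℓ v₁ = 0 := h3
    rw [h5] at h4
    simpa [f'] using h4

variable [Fintype F] {q : ℕ}

/-- a subfield of odd index is not fixed by the involution -/
theorem SUCtx.exists_nonfixed (C : SUCtx σ q f) {F₁ : Subfield F} {r : ℕ} (hr : r.Prime) (hodd : Odd r)
    (hcard : Fintype.card F = Nat.card F₁ ^ r) : ∃ t ∈ F₁, σ t ≠ t := by
  classical
  by_contra hall
  push Not at hall
  have hfix : ∀ t ∈ F₁, t ^ q = t := fun t ht => by rw [← C.pow, hall t ht]
  have : Fintype F₁ := Fintype.ofFinite _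
  have hdvd : Fintype.card F₁ - 1 ∣ q - 1 := by
    rw [← FiniteField.forall_pow_eq_one_iff]
    intro x
    apply Units.ext
    apply Subtype.ext
    have h1 := hfix (((x : F₁)) : F) (x : F₁).2
    have h2 : (((x : F₁)) : F) ≠ 0 := by
      intro h
      exact x.ne_zero (Subtype.ext h)
    have hq := C.two_le
    have h3 : (((x : F₁)) : F) ^ (q - 1) * ((x : F₁) : F) = 1 * ((x : F₁) : F) := by
      rw [← pow_succ, Nat.sub_add_cancel (by omega), h1, one_mul]
    have h4 := mul_right_cancel₀ h2 h3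
    simpa using h4
  obtain ⟨p, hp⟩ := CharP.exists F
  obtain ⟨e, hpp, hcp⟩ := FiniteField.card F p
  have hs : Fintype.card F₁ ∣ p ^ (e : ℕ) := by
    rw [← hcp, hcard, Nat.card_eq_fintype_card]
    exact dvd_pow_self _ hr.ne_zero
  obtain ⟨b, -, hb⟩ := (Nat.dvd_prime_pow hpp).mp hs
  have hq2 : q ∣ p ^ (e : ℕ) := by
    rw [← hcp, C.card]
    exact dvd_pow_self _ (by norm_num)
  obtain ⟨c, -, hc⟩ := (Nat.dvd_prime_pow hpp).mp hq2
  have he1 : b * r = 2 * c := by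
    have h1 : p ^ (b * r) = p ^ (2 * c) := by
      rw [pow_mul, ← hb, ← Nat.card_eq_fintype_card, ← hcard, C.card, hc, pow_mul]
      ring
    exact Nat.pow_right_injective hpp.two_le h1
  have hb0 : b ≠ 0 := by
    rintro rfl
    have h1 : 1 < Fintype.card F₁ := Fintype.one_lt_card
    simp [hb] at h1
  rw [hb, hc] at hdvd
  have hg : Nat.gcd (p ^ b - 1) (p ^ c - 1) = p ^ Nat.gcd b c - 1 := Nat.pow_sub_one_gcd_pow_sub_one p b c
  rw [Nat.gcd_eq_left hdvd] at hg
  have hbb : b = Nat.gcd b c := by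
    have h1 : p ^ b = p ^ Nat.gcd b c := by
      have h2 : 1 ≤ p ^ b := Nat.one_le_pow _ _ hpp.pos
      have h3 : 1 ≤ p ^ Nat.gcd b c := Nat.one_le_pow _ _ hpp.pos
      omega
    exact Nat.pow_right_injective hpp.two_le h1
  obtain ⟨d, hd⟩ : b ∣ c := by
    rw [hbb]
    exact Nat.gcd_dvd_right b c
  rw [hd] at he1
  have h5 : r = 2 * d := by
    have : b * r = b * (2 * d) := by rw [he1]; ring
    exact Nat.eq_of_mul_eq_mul_left (Nat.pos_of_ne_zero hb0) this
  rcases hodd with ⟨j, hj⟩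
  omega

/-- The reduction to a subfield group. -/
theorem Su.subfield_case [Nonempty ι] (C : SUCtx σ q f) (hn : 2 ≤ Fintype.card ι) {H P : Subgroup (GL ι F)}
    (hnorm : ∀ h ∈ H, ∀ x ∈ P, h * x * h⁻¹ ∈ P)
    (habs : ∀ M : Matrix ι ι F, (∀ g ∈ P, M * (g : Matrix ι ι F) = (g : Matrix ι ι F) * M) → ∃ c : F, M = c • 1)
    (hPirr : Irr P) {F₀ : Subfield F} (hF₀ : F₀ ≠ ⊤) {B : GL ι F}
    (hreal : ∀ s ∈ P, ∀ i j, ((B : Matrix ι ι F) * (s : Matrix ι ι F) * ((B⁻¹ : GL ι F) : Matrix ι ι F)) i j ∈ F₀)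
    (hmult : ∀ g ∈ P, ∃ μ ∈ F₀, ∀ u v, f ((g : Matrix ι ι F) *ᵥ u) ((g : Matrix ι ι F) *ᵥ v) = μ * f u v) :
    SuOutcome q f H := by
  classical
  have hU := C.unitary
  have hS := sesq_of_unitary hU
  obtain ⟨F₁, r, hr, hle, hcard⟩ := exists_prime_index_subfield hF₀
  have hcard' : Fintype.card F = Nat.card F₁ ^ r := by
    rw [← Nat.card_eq_fintype_card]
    exact hcard
  have hreal₁ : ∀ s ∈ P, ∀ i j, ((B : Matrix ι ι F) * (s : Matrix ι ι F) * ((B⁻¹ : GL ι F) : Matrix ι ι F)) i j ∈ F₁ :=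
    fun s hs i j => hle (hreal s hs i j)
  have hmult₁ : ∀ g ∈ P, ∃ μ ∈ F₁, ∀ u v, f ((g : Matrix ι ι F) *ᵥ u) ((g : Matrix ι ι F) *ᵥ v) = μ * f u v := by
    intro g hg
    obtain ⟨μ, hμ, h⟩ := hmult g hg
    exact ⟨μ, hle hμ, h⟩
  have hsingle : ∀ (i k : ι), (Pi.single i (1 : F) : ι → F) k ∈ F₁ := by
    intro i k
    rw [Pi.single_apply]
    split_ifs
    · exact F₁.one_mem
    · exact F₁.zero_mem
  have hHmem : ∀ h ∈ H, h ∈ subfieldSubgroup F₁ B⁻¹ := fun h hh =>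
    mem_subfieldSubgroup_of_normalize habs hreal₁ (hnorm h hh)
  set Y : GL ι F := B⁻¹ with hY
  by_cases haniso : ∃ v₁ : ι → F, (∀ i, v₁ i ∈ F₁) ∧ f ((Y : Matrix ι ι F) *ᵥ v₁) ((Y : Matrix ι ι F) *ᵥ v₁) ≠ 0
  · obtain ⟨v₁, hv₁r, hv₁⟩ := haniso
    set a := f ((Y : Matrix ι ι F) *ᵥ v₁) ((Y : Matrix ι ι F) *ᵥ v₁) with ha
    have hσa : σ a = a := herm_self_fixed hU _
    have hrat := rational_value hU habs hreal₁ hmult₁ hv₁r hv₁r hv₁
    obtain ⟨x, hx0, hx⟩ := C.norm a⁻¹ (inv_ne_zero hv₁) (by rw [map_inv₀, hσa])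
    set z : GL ι F := scalG x hx0 with hz
    set P' : GL ι F := Y * z with hP'
    have hzc : ∀ g : GL ι F, g * z = z * g := scalar_central (scalG_mem x hx0)
    have hP'v : ∀ u, (P' : Matrix ι ι F) *ᵥ u = x • ((Y : Matrix ι ι F) *ᵥ u) := by
      intro u
      rw [hP', gl_mulVec_mul, hz, scalG_val, Matrix.smul_mulVec, Matrix.one_mulVec, Matrix.mulVec_smul]
    have hform : ∀ u v, f ((P' : Matrix ι ι F) *ᵥ u) ((P' : Matrix ι ι F) *ᵥ v) =
        a⁻¹ * f ((Y : Matrix ι ι F) *ᵥ u) ((Y : Matrix ι ι F) *ᵥ v) := by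
      intro u v
      rw [hP'v, hP'v, hS.smul_left, hS.smul_right, ← mul_assoc]
      congr 1
    have hrs : IsFormRationalStructure f F₁ 1 P' := by
      intro u v hu hv
      rw [one_mul, hform]
      exact hrat u v hu hv
    have hHmem' : H ≤ subfieldSubgroup F₁ P' := by
      intro h hh
      have h1 := hHmem h hh
      rcases h1 with ⟨y, hy, hyh⟩
      refine ⟨y, hy, ?_⟩
      have e : P' * y * P'⁻¹ = Y * y * Y⁻¹ := by
        rw [hP']
        calc Y * z * y * (Y * z)⁻¹ = Y * (z * y) * z⁻¹ * Y⁻¹ := by group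
          _ = Y * (y * z) * z⁻¹ * Y⁻¹ := by rw [hzc]
          _ = Y * y * Y⁻¹ := by group
      exact e.trans hyh
    rcases hr.eq_two_or_odd' with rfl | hr2
    · have hq1 : Nat.card F₁ = q := by
        have h3 : Nat.card F₁ ^ 2 = q ^ 2 := by rw [← hcard', C.card]
        exact Nat.pow_left_injective (n := 2) (by norm_num) h3
      rcases Nat.even_or_odd q with hqe | hqo
      · exfalso
        have h2 : (2 : F) = 0 := by
          apply two_eq_zero_of_not_odd
          rw [C.card, Nat.not_odd_iff_even]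
          exact hqe.pow_of_ne_zero (by norm_num)
        have hF₁' : ∀ y, y ∈ F₁ ↔ σ y = y := by
          intro y
          rw [C.pow]
          constructor
          · intro hy
            rw [← hq1]
            exact pow_card_subfield F₁ hy
          · intro hy
            apply mem_subfield_of_pow_card F₁
            rw [hq1]
            exact hy
        -- rewrite in terms of `P'`
        have hconj : ∀ s : GL ι F, P'⁻¹ * s * P'⁻¹⁻¹ = B * s * Y := by
          intro s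
          have hYB : Y⁻¹ = B := by rw [hY, inv_inv]
          rw [inv_inv, hP']
          have e : (Y * z)⁻¹ = z⁻¹ * B := by rw [_root_.mul_inv_rev, hYB]
          rw [e]
          calc z⁻¹ * B * s * (Y * z) = z⁻¹ * ((B * s * Y) * z) := by group
            _ = z⁻¹ * (z * (B * s * Y)) := by rw [hzc]
            _ = B * s * Y := by group
        have hreal' : ∀ s ∈ P, ∀ i j, (((P'⁻¹ : GL ι F) : Matrix ι ι F) * (s : Matrix ι ι F) * (((P'⁻¹)⁻¹ : GL ι F) : Matrix ι ι F)) i j ∈ F₁ := by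
          intro s hs i j
          have h1 := hreal₁ s hs i j
          have h3 : ((P'⁻¹ * s * P'⁻¹⁻¹ : GL ι F) : Matrix ι ι F) i j = ((B * s * Y : GL ι F) : Matrix ι ι F) i j := by rw [hconj]
          show ((P'⁻¹ * s * P'⁻¹⁻¹ : GL ι F) : Matrix ι ι F) i j ∈ F₁
          rw [h3]
          exact h1
        refine char2_false' hU h2 (fun g hg => ?_) hPirr hF₁' hreal' ?_ hv₁r ?_ hn
        · obtain ⟨μ, -, h⟩ := hmult g hg
          exact ⟨μ, h⟩
        · intro u v hu hv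
          rw [inv_inv, hform]
          exact hrat u v hu hv
        · rw [inv_inv, hform, ← ha]
          exact mul_ne_zero (inv_ne_zero hv₁) hv₁
      · exact Or.inr <| Or.inr <| Or.inr <| Or.inr <| Or.inr <| Or.inl ⟨F₁, P', hqo, hcard', hrs, hHmem'⟩
    · exact Or.inr <| Or.inr <| Or.inr <| Or.inr <| Or.inl ⟨F₁, r, P', hr, hr2, hcard', hrs, hHmem'⟩
  · push Not at haniso
    -- all rational vectors are singular
    have hpol : ∀ u v : ι → F, (∀ i, u i ∈ F₁) → (∀ i, v i ∈ F₁) →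
        f ((Y : Matrix ι ι F) *ᵥ u) ((Y : Matrix ι ι F) *ᵥ v) + f ((Y : Matrix ι ι F) *ᵥ v) ((Y : Matrix ι ι F) *ᵥ u) = 0 := by
      intro u v hu hv
      have h1 := haniso (u + v) (fun i => F₁.add_mem (hu i) (hv i))
      rw [Matrix.mulVec_add, hS.add_left, hS.add_right, hS.add_right, haniso u hu, haniso v hv] at h1
      linear_combination h1
    let β : (ι → F) → (ι → F) → F := fun u v => f ((Y : Matrix ι ι F) *ᵥ u) ((Y : Matrix ι ι F) *ᵥ v)
    have hβ : Sesq (σ : F →+* F) β :=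
      ⟨fun x y v => by simp only [β]; rw [Matrix.mulVec_add, hS.add_left],
       fun c x v => by simp only [β]; rw [Matrix.mulVec_smul, hS.smul_left],
       fun v x y => by simp only [β]; rw [Matrix.mulVec_add, hS.add_right],
       fun c v x => by simp only [β]; rw [Matrix.mulVec_smul, hS.smul_right]⟩
    have hne : ∃ u v, β u v ≠ 0 := by
      obtain ⟨u, v, huv⟩ := C.fctx.exists_ne_of_nonempty
      refine ⟨((Y⁻¹ : GL ι F) : Matrix ι ι F) *ᵥ u, ((Y⁻¹ : GL ι F) : Matrix ι ι F) *ᵥ v, ?_⟩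
      simp only [β]
      rwa [gl_mulVec_inv, gl_mulVec_inv]
    obtain ⟨i₀, j₀, h0⟩ := sesq_ne_of_ne hβ hne
    have h0' : f ((Y : Matrix ι ι F) *ᵥ Pi.single i₀ 1) ((Y : Matrix ι ι F) *ᵥ Pi.single j₀ 1) ≠ 0 := h0
    set a := f ((Y : Matrix ι ι F) *ᵥ Pi.single i₀ 1) ((Y : Matrix ι ι F) *ᵥ Pi.single j₀ 1) with ha
    have hrat := rational_value hU habs hreal₁ hmult₁ (hsingle i₀) (hsingle j₀) h0'
    have hσa : σ a = -a := by
      have h1 := hpol _ _ (hsingle i₀) (hsingle j₀)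
      have h2 := hU.herm ((Y : Matrix ι ι F) *ᵥ Pi.single j₀ 1) ((Y : Matrix ι ι F) *ᵥ Pi.single i₀ 1)
      rw [← ha] at h1 h2
      rw [← h2]
      linear_combination h1
    rcases hr.eq_two_or_odd' with rfl | hr2
    · have hEven : Even (Fintype.card ι) := by
        by_contra hodd
        obtain ⟨v₁, hv₁r, hv₁⟩ := exists_rational_aniso hU hodd Y
        exact hv₁ (haniso v₁ (hv₁r F₁))
      refine Or.inr <| Or.inr <| Or.inr <| Or.inr <| Or.inr <| Or.inr <| Or.inl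
        ⟨F₁, Y, a⁻¹, hEven, hcard', inv_ne_zero h0', ?_, fun u v hu hv => hrat u v hu hv, haniso, hHmem⟩
      rw [← C.pow, map_inv₀, hσa, inv_neg]
      ring
    · exfalso
      obtain ⟨t, ht, hσt⟩ := C.exists_nonfixed hr hr2 hcard'
      have h1 := hpol (t • Pi.single i₀ 1) (Pi.single j₀ 1) (fun k => by
        simp only [Pi.smul_apply, smul_eq_mul]
        exact F₁.mul_mem ht (hsingle i₀ k)) (hsingle j₀)
      have h2 := hpol (Pi.single i₀ 1) (Pi.single j₀ 1) (hsingle i₀) (hsingle j₀)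
      rw [Matrix.mulVec_smul, hS.smul_left, hS.smul_right, ← ha] at h1
      rw [← ha] at h2
      have h3 : (t - σ t) * a = 0 := by
        have e : (σ : F →+* F) t = σ t := rfl
        rw [e] at h1
        linear_combination h1 - σ t * h2
      rcases mul_eq_zero.mp h3 with h4 | h4
      · exact hσt (sub_eq_zero.mp h4).symm
      · exact h0' h4

end Cfsg.Agent.H97.Asch
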