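import Cfsg.Agent.Lib.H97I2

/-!
Unitary case: groups of symplectic type.
-/

set_option autoImplicit false
set_option linter.unusedSectionVars false
set_option linter.style.haveILetI false

namespace Cfsg.Agent.H97.Asch

open Matrix Cfsg Cfsg.Geo
open scoped MatrixGroups commutatorElement Kronecker

variable {ι : Type} [Fintype ι] [DecidableEq ι] {F : Type*} [Field F] [Fintype F]
  {f : (ι → F) → (ι → F) → F} {σ : F ≃+* F} {q : ℕ}

/-- the minimal field containing a square root of `-1` -/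
theorem SUCtx.field_min4 (C : SUCtx σ q f) {i : F} (hi : IsPrimitiveRoot i 4) (hno : ∀ F₀ : Subfield F, F₀ ≠ ⊤ → i ∉ F₀) :
    ∃ p : ℕ, 2 ≠ p ∧ IsMinimalFieldFor 4 p 2 F := by
  classical
  obtain ⟨p, hp⟩ := CharP.exists F
  obtain ⟨e, hpp, hcard⟩ := FiniteField.card F p
  have : Fact p.Prime := ⟨hpp⟩
  have hi0 : i ≠ 0 := hi.ne_zero (by norm_num)
  have hi1 : i ≠ 1 := hi.ne_one (by norm_num)
  have hp2 : 2 ≠ p := by
    rintro rfl
    apply hi1
    have h1 : i ^ 4 = 1 := hi.pow_eq_one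
    have h2 : Function.Injective (fun x : F => x ^ 2) := frobenius_inj F 2
    apply h2
    apply h2
    simp only
    rw [← pow_mul, h1]
    simp
  have hodd : Odd p := hpp.odd_of_ne_two hp2.symm
  have h8 : 4 ∣ p ^ 2 - 1 := by
    rcases hodd with ⟨k, rfl⟩
    have e1 : (2 * k + 1) ^ 2 - 1 = 4 * (k * k + k) := by
      have : (2 * k + 1) ^ 2 = 4 * (k * k + k) + 1 := by ring
      omega
    rw [e1]
    exact Dvd.intro _ rfl
  have hi2 : i ^ p ^ 2 = i := by
    have h1 : i ^ (p ^ 2 - 1) = 1 := (hi.pow_eq_one_iff_dvd _).mpr h8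
    have hpos : 1 ≤ p ^ 2 := Nat.one_le_pow _ _ hpp.pos
    calc i ^ p ^ 2 = i ^ (p ^ 2 - 1 + 1) := by rw [Nat.sub_add_cancel hpos]
      _ = i := by rw [pow_succ, h1, one_mul]
  have hall : ∀ x : F, x ^ p ^ 2 = x := by
    by_contra hne
    push Not at hne
    obtain ⟨x, hx⟩ := hne
    apply hno ((iterateFrobenius F p 2).eqLocusField (RingHom.id F))
    · intro htop
      apply hx
      have hxm : x ∈ (iterateFrobenius F p 2).eqLocusField (RingHom.id F) := by
        rw [htop]; trivial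
      have hx' : iterateFrobenius F p 2 x = x := hxm
      rwa [iterateFrobenius_def] at hx'
    · show iterateFrobenius F p 2 i = i
      rw [iterateFrobenius_def]
      exact hi2
  have hle := card_le_of_forall_pow (by
    have := hpp.two_le
    nlinarith) hall
  have he : (e : ℕ) = 2 := by
    have h1 : p ^ (e : ℕ) ≤ p ^ 2 := by rw [← hcard]; exact hle
    have h2 : (e : ℕ) ≤ 2 := (Nat.pow_le_pow_iff_right hpp.one_lt).mp h1
    have h3 : Even (e : ℕ) := by
      have h4 : p ^ (e : ℕ) = q ^ 2 := by rw [← hcard, C.card]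
      have hq2 : q ∣ p ^ (e : ℕ) := by
        rw [h4]
        exact dvd_pow_self _ (by norm_num)
      obtain ⟨c, -, hc⟩ := (Nat.dvd_prime_pow hpp).mp hq2
      rw [hc, ← pow_mul] at h4
      have := Nat.pow_right_injective hpp.two_le h4
      rw [this]
      exact ⟨c, by ring⟩
    have := e.pos
    rcases h3 with ⟨j, hj⟩
    omega
  rw [he] at hcard
  refine ⟨p, hp2, hpp, hp, hcard, h8, fun d hd0 hd2 hdvd => ?_⟩
  have hd1 : d = 1 := by omega
  subst hd1
  rw [pow_one] at hdvd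
  -- then `i` lies in the prime field
  have hi3 : i ^ p = i := by
    have h1 : i ^ (p - 1) = 1 := (hi.pow_eq_one_iff_dvd _).mpr hdvd
    calc i ^ p = i ^ (p - 1 + 1) := by rw [Nat.sub_add_cancel hpp.one_le]
      _ = i := by rw [pow_succ, h1, one_mul]
  apply hno ((iterateFrobenius F p 1).eqLocusField (RingHom.id F))
  · intro htop
    have hall' : ∀ x : F, x ^ p ^ 1 = x := by
      intro x
      have hxm : x ∈ (iterateFrobenius F p 1).eqLocusField (RingHom.id F) := by
        rw [htop]; trivial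
      have hx' : iterateFrobenius F p 1 x = x := hxm
      rwa [iterateFrobenius_def] at hx'
    have hle' := card_le_of_forall_pow (by simpa using hpp.one_lt) hall'
    rw [hcard, pow_one] at hle'
    have := hpp.two_le
    nlinarith
  · show iterateFrobenius F p 1 i = i
    rw [iterateFrobenius_def, pow_one]
    exact hi3

/-- A group of symplectic type inside the group of similarities. -/
theorem Su.sym_ctx_case [Nonempty ι] (C : SUCtx σ q f) (hn : 3 ≤ Fintype.card ι) {H R : Subgroup (GL ι F)} {r : ℕ}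
    (S : SymCtx r R) (hH : Nrm H R) (hsim : R ≤ similarityGroup f) : SuOutcome q f H := by
  classical
  have hr := S.prime
  have hhabs := habs_of_spanG S.span
  have hι1 : 1 < Fintype.card ι := by omega
  obtain ⟨a, ha, hans⟩ := exists_nonscalar_of_irr (by omega) S.irr
  obtain ⟨b, hb, hab⟩ : ∃ b ∈ R, a * b ≠ b * a := by
    by_contra hall
    push Not at hall
    exact hans (S.central_scalar hall)
  obtain ⟨ξ, hξ, hc⟩ := S.comm a ha b hb
  have hξ1 : ξ ≠ 1 := by
    rintro rfl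
    apply hab
    rw [hc, map_one, one_mul]
  have : Fact r.Prime := ⟨hr⟩
  have hord : orderOf ξ = r := orderOf_eq_prime hξ hξ1
  have hprim : IsPrimitiveRoot (ξ : F) r := by
    have h1 := IsPrimitiveRoot.orderOf ξ
    rw [hord] at h1
    exact (IsPrimitiveRoot.coe_units_iff).mpr h1
  have hρ0 : (r * Nat.gcd 2 r) ≠ 0 := (Nat.mul_pos hr.pos (Nat.gcd_pos_of_pos_left _ (by norm_num))).ne'
  -- a primitive root of order `ρ`
  have hωex : ∃ ω : F, IsPrimitiveRoot ω (r * Nat.gcd 2 r) := by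
    by_cases hr2 : r = 2
    · subst hr2
      have hgcd : Nat.gcd 2 2 = 2 := by norm_num
      rw [hgcd]
      have hξm : (ξ : F) = -1 := by
        have h1 : ((ξ : F) - 1) * ((ξ : F) + 1) = 0 := by
          have h2 := hprim.pow_eq_one
          linear_combination h2
        rcases mul_eq_zero.mp h1 with h | h
        · exfalso
          apply hξ1
          exact Units.ext (by rw [sub_eq_zero.mp h, Units.val_one])
        · exact eq_neg_of_add_eq_zero_left h
      have h2ne : (2 : F) ≠ 0 := by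
        intro h
        apply hξ1
        apply Units.ext
        rw [hξm, Units.val_one]
        linear_combination -h
      have hqodd : Odd q := by
        by_contra hev
        rw [Nat.not_odd_iff_even] at hev
        apply h2ne
        apply two_eq_zero_of_not_odd
        rw [C.card, Nat.not_odd_iff_even]
        exact hev.pow_of_ne_zero (by norm_num)
      have hsq : IsSquare (-1 : F) := by
        rw [FiniteField.isSquare_neg_one_iff, C.card]
        rcases hqodd with ⟨k, rfl⟩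
        have : (2 * k + 1) ^ 2 = 4 * (k * k + k) + 1 := by ring
        rw [this]
        omega
      obtain ⟨c, hc⟩ := hsq
      refine ⟨c, ?_⟩
      have hc2 : c ^ 2 = -1 := by rw [pow_two]; exact hc.symm
      have h4 : c ^ (2 * 2) = 1 := by
        rw [pow_mul, hc2]
        norm_num
      have h5 : ¬ (c ^ 2 = 1) := by
        rw [hc2]
        intro h6
        apply h2ne
        linear_combination -h6
      have : Fact (Nat.Prime 2) := ⟨Nat.prime_two⟩
      have hoc : orderOf c = 2 ^ (1 + 1) := orderOf_eq_prime_pow (by simpa using h5) (by simpa using h4)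
      have h6 := IsPrimitiveRoot.orderOf c
      rw [hoc] at h6
      exact h6
    · have hgcd : Nat.gcd 2 r = 1 := (Nat.coprime_primes Nat.prime_two hr).mpr (Ne.symm hr2)
      rw [hgcd, mul_one]
      exact ⟨_, hprim⟩
  obtain ⟨ω, hω⟩ := hωex
  obtain ⟨bs, hbs⟩ := S.exists_monomial hω
  have hpowω : ∀ x : F, x ^ (r * Nat.gcd 2 r) = 1 → ∃ u : ℕ, ω ^ u = x := by
    intro x hx
    have : NeZero (r * Nat.gcd 2 r) := ⟨hρ0⟩
    obtain ⟨i, -, hi⟩ := hω.eq_pow_of_pow_eq_one hx
    exact ⟨i, hi⟩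
  obtain ⟨P₀, hP₀⟩ := exists_gl_of_bases (Pi.basisFun F ι) bs
  have hP₀' : ∀ j, (P₀ : Matrix ι ι F) *ᵥ Pi.single j 1 = bs j := by
    intro j
    have := hP₀ j
    simpa only [Pi.basisFun_apply] using this
  have hreal : ∀ F₀ : Subfield F, ω ∈ F₀ → ∀ s ∈ R, ∀ i j,
      (((P₀⁻¹ : GL ι F) : Matrix ι ι F) * (s : Matrix ι ι F) * (((P₀⁻¹)⁻¹ : GL ι F) : Matrix ι ι F)) i j ∈ F₀ := by
    intro F₀ hωF s hs i j
    obtain ⟨π, -, c, hc1, hc2⟩ := hbs s hs
    rw [inv_inv]
    have e2 : (((P₀⁻¹ : GL ι F) : Matrix ι ι F) * (s : Matrix ι ι F) * (P₀ : Matrix ι ι F)) i j =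
        ((((P₀⁻¹ : GL ι F) : Matrix ι ι F) * (s : Matrix ι ι F) * (P₀ : Matrix ι ι F)) *ᵥ Pi.single j 1) i := by
      rw [Matrix.mulVec_single_one]
      rfl
    rw [e2, ← Matrix.mulVec_mulVec, ← Matrix.mulVec_mulVec, hP₀', hc2, Matrix.mulVec_smul, ← hP₀', gl_inv_mulVec]
    simp only [Pi.smul_apply, Pi.single_apply, smul_eq_mul]
    obtain ⟨u, hu⟩ := hpowω _ (hc1 j)
    rw [← hu]
    split_ifs
    · rw [mul_one]
      exact F₀.pow_mem hωF _
    · rw [mul_zero]
      exact F₀.zero_mem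
  have hS := C.fctx.sesq
  have hmult : ∀ F₀ : Subfield F, ω ∈ F₀ → ∀ g ∈ R, ∃ μ ∈ F₀, ∀ u v, f ((g : Matrix ι ι F) *ᵥ u) ((g : Matrix ι ι F) *ᵥ v) = μ * f u v := by
    intro F₀ hωF g hg
    obtain ⟨c, hc⟩ := hsim hg
    refine ⟨c, ?_, hc⟩
    have hpow : ∀ k : ℕ, ∀ u v, f (((g ^ k : GL ι F) : Matrix ι ι F) *ᵥ u) (((g ^ k : GL ι F) : Matrix ι ι F) *ᵥ v) = (c : F) ^ k * f u v := by
      intro k
      induction k with
      | zero =>
        intro u v
        simp
      | succ k ih =>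
        intro u v
        rw [pow_succ, gl_mulVec_mul, gl_mulVec_mul, ih, hc, pow_succ]
        ring
    obtain ⟨u, v, huv⟩ := C.fctx.exists_ne_of_nonempty
    have h1 := hpow (r * Nat.gcd 2 r) u v
    rw [S.pow g hg] at h1
    simp only [Units.val_one, Matrix.one_mulVec] at h1
    have h2 : (c : F) ^ (r * Nat.gcd 2 r) = 1 := by
      have h3 : ((c : F) ^ (r * Nat.gcd 2 r) - 1) * f u v = 0 := by linear_combination -h1
      exact sub_eq_zero.mp ((mul_eq_zero.mp h3).resolve_right huv)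
    obtain ⟨u', hu'⟩ := hpowω _ h2
    rw [← hu']
    exact F₀.pow_mem hωF _
  have hsub : ∀ F₀ : Subfield F, F₀ ≠ ⊤ → ω ∈ F₀ → SuOutcome q f H := by
    intro F₀ hF₀ hωF
    exact Su.subfield_case C (by omega) hH hhabs S.irr hF₀ (hreal F₀ hωF) (hmult F₀ hωF)
  obtain ⟨m, hm, hcardR⟩ := S.card_eq
  have hcomm' : ∀ x ∈ R, ∀ y ∈ R, ∃ ξ : Fˣ, x * y = scU ξ * (y * x) := fun x hx y hy => by
    obtain ⟨ξ, -, h⟩ := S.comm x hx y hy
    exact ⟨ξ, h⟩
  have hm0 : m ≠ 0 := by
    rintro rfl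
    rw [pow_zero] at hm
    omega
  have hZ := S.card_center hω
  have hZ' := S.card_center' hω
  by_cases hr2 : r = 2
  · subst hr2
    have hgcd : Nat.gcd 2 2 = 2 := by norm_num
    rw [hgcd] at hω hZ hZ'
    by_cases hno : ∃ F₀ : Subfield F, F₀ ≠ ⊤ ∧ ω ∈ F₀
    · obtain ⟨F₀, h1, h2⟩ := hno
      exact hsub F₀ h1 h2
    · push Not at hno
      obtain ⟨p, hp2, hmin⟩ := C.field_min4 hω hno
      refine Or.inr <| Or.inr <| Or.inr <| Or.inr <| Or.inr <| Or.inr <| Or.inr <| Or.inl
        ⟨2, R, p, 2, m, S.symplecticType (by rwa [hgcd]), actsAbs_of_spanG S.span, hsim, hp2, ?_, Or.inr ⟨rfl, rfl, hZ', ?_⟩, hm, hcomm',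
          nrm_normalizer hH⟩
      · rw [hZ']
        exact hmin
      · rw [hcardR, hZ, pow_add]
        norm_num
  · have hgcd : Nat.gcd 2 r = 1 := (Nat.coprime_primes Nat.prime_two hr).mpr (Ne.symm hr2)
    have hodd : Odd r := hr.odd_of_ne_two hr2
    rw [hgcd, mul_one] at hZ hZ'
    have hω1 : IsPrimitiveRoot ω r := by
      rwa [hgcd, mul_one] at hω
    rcases field_min hω1 hr with ⟨F₀, h1, h2⟩ | ⟨p, e, hrp, hmin⟩
    · exact hsub F₀ h1 h2
    · refine Or.inr <| Or.inr <| Or.inr <| Or.inr <| Or.inr <| Or.inr <| Or.inr <| Or.inl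
        ⟨r, R, p, e, m, S.symplecticType hω, actsAbs_of_spanG S.span, hsim, hrp, ?_, Or.inl ⟨hodd, hZ', ?_, ?_⟩, hm, hcomm',
          nrm_normalizer hH⟩
      · rw [hZ']
        exact hmin
      · omega
      · rw [hcardR, hZ, pow_add, pow_one]

/-- scalars are similarities -/
theorem scalars_le_sim (C : SUCtx σ q f) : scalars ι F ≤ similarityGroup f := by
  intro g hg
  obtain ⟨c, rfl⟩ := exists_scU hg
  have hS := C.fctx.sesq
  refine ⟨c * Units.map (σ : F →* F) c, fun u v => ?_⟩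
  rw [scU_val, Matrix.smul_mulVec, Matrix.smul_mulVec, Matrix.one_mulVec, Matrix.one_mulVec, hS.smul_left, hS.smul_right]
  simp only [Units.val_mul, Units.coe_map]
  rw [mul_assoc]
  rfl

/-- The symplectic-type branch. -/
theorem Su.sym_case [Nonempty ι] (C : SUCtx σ q f) (hn : 3 ≤ Fintype.card ι) {H N : Subgroup (GL ι F)} (hfix : FFix f H)
    (hNH : N ≤ H) (hNn : Nrm H N) (hspan : spanG N = ⊤) (hcomm : ⁅N, N⁆ ≤ scalars ι F) (hZN : H ⊓ scalars ι F ≤ N)
    (hmin : ∀ M, M ≤ N → Nrm H M → ¬ M ≤ scalars ι F → M ⊔ (H ⊓ scalars ι F) = N) : SuOutcome q f H := by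
  obtain ⟨r, R, hC, hRn, hRle⟩ := exists_symCtx' (by omega) hNn hspan hcomm hZN hmin
  refine Su.sym_ctx_case C hn hC hRn (hRle.trans (sup_le ?_ (scalars_le_sim C)))
  intro g hg
  refine ⟨1, fun u v => ?_⟩
  rw [hfix g (hNH hg), Units.val_one, one_mul]

end Cfsg.Agent.H97.Asch
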