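import Cfsg.Agent.Lib.H97I3

/-!
Unitary case: tensor powers of unitary forms in dimension two are subfield groups.
-/

set_option autoImplicit false
set_option linter.unusedSectionVars false
set_option linter.style.haveILetI false

namespace Cfsg.Agent.H97.Asch

open Matrix Cfsg Cfsg.Geo
open scoped MatrixGroups commutatorElement Kronecker

variable {ι : Type} [Fintype ι] [DecidableEq ι] {F : Type*} [Field F] [Fintype F]
  {f : (ι → F) → (ι → F) → F} {σ : F ≃+* F} {q : ℕ}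

/-- Rescaling a form. -/
theorem FCtx.scale {κ : Type} [Fintype κ] [DecidableEq κ] {τ : F →+* F} {ε ε' : F} {A : Matrix κ κ F} (C : FCtx τ ε (formOfGram (τ : F → F) A))
    {z : F} (hz : z ≠ 0) (h : z * ε = ε' * τ z) : FCtx τ ε' (formOfGram (τ : F → F) (z • A)) := by
  refine ⟨formOfGram_sesq _ _, fun v hv => ?_, fun v hv => ?_, C.invol, fun u v => ?_⟩
  · obtain ⟨x, hx⟩ := C.ndr v hv
    exact ⟨x, by rw [formOfGram_smul]; exact mul_ne_zero hz hx⟩
  · obtain ⟨x, hx⟩ := C.ndl v hv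
    exact ⟨x, by rw [formOfGram_smul]; exact mul_ne_zero hz hx⟩
  · rw [formOfGram_smul, formOfGram_smul, map_mul, C.herm u v, ← mul_assoc, h]
    ring

namespace SUCtx

/-- the fixed field of the involution -/
noncomputable def fixF (σ : F ≃+* F) : Subfield F := (σ : F →+* F).eqLocusField (RingHom.id F)

theorem mem_fixF {y : F} : y ∈ fixF σ ↔ σ y = y := Iff.rfl

theorem card_fixF (C : SUCtx σ q f) : Nat.card (fixF σ) = q := by
  obtain ⟨c, hc⟩ := C.exists_ne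
  have h1 := card_fixed_invol (σ : F →+* F) C.unitary.involutive (x₀ := c) hc
  have h2 : Nat.card {x : F // (σ : F →+* F) x = x} = Nat.card (fixF σ) := rfl
  rw [h2, Nat.card_eq_fintype_card, C.card] at h1
  exact (Nat.pow_left_injective (n := 2) (by norm_num) h1).symm

theorem card_eq (C : SUCtx σ q f) : Fintype.card F = Nat.card (fixF σ) ^ 2 := by
  rw [C.card_fixF, C.card]

/-- a hermitian form in dimension two -/
theorem ctx_zJ (C : SUCtx σ q f) {ζ₀ : F} (h0 : ζ₀ ≠ 0) (hσ : σ ζ₀ = -ζ₀) :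
    FCtx (σ : F →+* F) 1 (formOfGram ((σ : F →+* F) : F → F) (ζ₀ • (detJ : Matrix (Fin 2) (Fin 2) F))) := by
  have hr0 : ∀ v : Fin 2 → F, formOfGram ((σ : F →+* F) : F → F) (ζ₀ • (detJ : Matrix (Fin 2) (Fin 2) F)) v (Pi.single 0 1) = - ζ₀ * v 1 := by
    intro v
    simp [formOfGram, Fin.sum_univ_two, detJ]
    ring
  have hr1 : ∀ v : Fin 2 → F, formOfGram ((σ : F →+* F) : F → F) (ζ₀ • (detJ : Matrix (Fin 2) (Fin 2) F)) v (Pi.single 1 1) = ζ₀ * v 0 := by
    intro v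
    simp [formOfGram, Fin.sum_univ_two, detJ]
    ring
  have hl0 : ∀ v : Fin 2 → F, formOfGram ((σ : F →+* F) : F → F) (ζ₀ • (detJ : Matrix (Fin 2) (Fin 2) F)) (Pi.single 0 1) v = ζ₀ * σ (v 1) := by
    intro v
    simp [formOfGram, Fin.sum_univ_two, detJ]
  have hl1 : ∀ v : Fin 2 → F, formOfGram ((σ : F →+* F) : F → F) (ζ₀ • (detJ : Matrix (Fin 2) (Fin 2) F)) (Pi.single 1 1) v = - ζ₀ * σ (v 0) := by
    intro v
    simp [formOfGram, Fin.sum_univ_two, detJ]
  refine ⟨formOfGram_sesq _ _, fun v hv => ?_, fun v hv => ?_, C.unitary.involutive, fun u w => ?_⟩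
  · obtain ⟨i, hi⟩ := Function.ne_iff.mp hv
    fin_cases i
    · refine ⟨Pi.single 1 1, ?_⟩
      rw [hr1]
      exact mul_ne_zero h0 hi
    · refine ⟨Pi.single 0 1, ?_⟩
      rw [hr0]
      exact mul_ne_zero (neg_ne_zero.mpr h0) hi
  · obtain ⟨i, hi⟩ := Function.ne_iff.mp hv
    have hσi : ∀ a : F, a ≠ 0 → σ a ≠ 0 := fun a ha => (map_ne_zero σ).mpr ha
    fin_cases i
    · refine ⟨Pi.single 1 1, ?_⟩
      rw [hl1]
      exact mul_ne_zero (neg_ne_zero.mpr h0) (hσi _ hi)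
    · refine ⟨Pi.single 0 1, ?_⟩
      rw [hl0]
      exact mul_ne_zero h0 (hσi _ hi)
  · refine formOfGram_herm C.unitary.involutive (fun a c => ?_) u w
    fin_cases a <;> fin_cases c <;> simp [detJ, hσ]

theorem exists_zeta (C : SUCtx σ q f) : ∃ ζ₀ : F, ζ₀ ≠ 0 ∧ σ ζ₀ = -ζ₀ := by
  obtain ⟨c, hc⟩ := C.exists_ne
  refine ⟨c - σ c, sub_ne_zero.mpr (Ne.symm hc), ?_⟩
  rw [map_sub, C.unitary.involutive]
  ring

/-- Normalisation of the form on the factors. -/
theorem wreath_herm (C : SUCtx σ q f) {H : Subgroup (GL ι F)} {m t : ℕ} [NeZero m] {e : ι ≃ (Fin t → Fin m)} {P : GL ι F}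
    {A₀ : Matrix (Fin m) (Fin m) F} {κ ε₁ : F} (hW : FWreath (σ : F →+* F) 1 f H e P A₀ κ ε₁) :
    ∃ (A₁ : Matrix (Fin m) (Fin m) F) (P' : GL ι F) (κ' : F), FCtx (σ : F →+* F) 1 (formOfGram ((σ : F →+* F) : F → F) A₁) ∧
      FWreath (σ : F →+* F) 1 f H e P' A₁ κ' 1 := by
  obtain ⟨z, hz0, hz⟩ := C.hilbert90 hW.ctx.eps_norm
  have hA₁ : FCtx (σ : F →+* F) 1 (formOfGram ((σ : F →+* F) : F → F) (z • A₀)) := by
    refine FCtx.scale hW.ctx hz0 ?_
    show z * ε₁ = 1 * σ z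
    rw [hz]
    ring
  have hone : ((1 : GL (Fin m) F) : Matrix (Fin m) (Fin m) F).map (σ : F →+* F) = 1 := by
    ext a b
    by_cases h : a = b
    · subst h
      simp
    · simp [h]
  obtain ⟨P', hW'⟩ := hW.rebase C.fctx (1 : GL (Fin m) F) (c := z⁻¹) (inv_ne_zero hz0) (A₁ := z • A₀) (by
    rw [hone]
    simp [smul_smul, inv_mul_cancel₀ hz0]) hA₁
  exact ⟨_, P', _, hA₁, hW'⟩

/-- Normalisation of the form on the factors, for a given normal form. -/
theorem wreath_normal (C : SUCtx σ q f) {H : Subgroup (GL ι F)} {m t : ℕ} [NeZero m] {e : ι ≃ (Fin t → Fin m)} {P : GL ι F}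
    {A₀ A₂ : Matrix (Fin m) (Fin m) F} {κ ε₁ : F} (hW : FWreath (σ : F →+* F) 1 f H e P A₀ κ ε₁)
    (hA₂ : FCtx (σ : F →+* F) 1 (formOfGram ((σ : F →+* F) : F → F) A₂)) :
    ∃ (P' : GL ι F) (κ' : F), FWreath (σ : F →+* F) 1 f H e P' A₂ κ' 1 := by
  obtain ⟨A₁, P₁, κ₁, hA₁, hW₁⟩ := C.wreath_herm hW
  obtain ⟨T, hT⟩ := herm_classify hA₁ hA₂ C.exists_trace C.hN
  obtain ⟨P', hW'⟩ := hW₁.rebase C.fctx T (c := 1) one_ne_zero (A₁ := A₂) (by rw [one_smul]; exact hT) hA₂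
  exact ⟨P', _, hW'⟩

end SUCtx

section Pure

variable {m t : ℕ} {e : ι ≃ (Fin t → Fin m)} {P : GL ι F} {A₀ : Matrix (Fin m) (Fin m) F} {κ ε₁ : F} {H : Subgroup (GL ι F)}

/-- The factors of a pure tensor preserving a tensor power of a form are similarities. -/
theorem wreath_pure_sim {τ' : F →+* F} {ε : F} [NeZero m] (hW : FWreath τ' ε f H e P A₀ κ ε₁) (hfix : FFix f H) {τ : Equiv.Perm (Fin t)}
    {gs : Fin t → GL (Fin m) F} (hh : P * glReindex e.symm (permG τ * pureG gs) * P⁻¹ ∈ H) (i : Fin t) :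
    ∃ c : F, c ≠ 0 ∧ ∀ u w, formOfGram (τ' : F → F) A₀ ((gs i : Matrix (Fin m) (Fin m) F) *ᵥ u) ((gs i : Matrix (Fin m) (Fin m) F) *ᵥ w) =
      c * formOfGram (τ' : F → F) A₀ u w := by
  classical
  have hnem : Nonempty (Fin m) := ⟨0⟩
  have hact : ∀ u : Fin t → Fin m → F, ((P * glReindex e.symm (permG τ * pureG gs) * P⁻¹ : GL ι F) : Matrix ι ι F) *ᵥ ((P : Matrix ι ι F) *ᵥ (tvW u ∘ e)) =
      (P : Matrix ι ι F) *ᵥ (tvW (fun i => (gs (τ⁻¹ i) : Matrix (Fin m) (Fin m) F) *ᵥ u (τ⁻¹ i)) ∘ e) := by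
    intro u
    rw [gl_mulVec_mul, gl_mulVec_mul, gl_inv_mulVec, reindex_mulVec, Units.val_mul, ← Matrix.mulVec_mulVec, pureG_val, permG_val,
      pureM_mulVec_tvW, permM_mulVec_tvW]
  have hprod : ∀ us ws : Fin t → Fin m → F,
      ∏ j, formOfGram (τ' : F → F) A₀ ((gs j : Matrix (Fin m) (Fin m) F) *ᵥ us j) ((gs j : Matrix (Fin m) (Fin m) F) *ᵥ ws j) =
      ∏ j, formOfGram (τ' : F → F) A₀ (us j) (ws j) := by
    intro us ws
    have h1 := hfix _ hh ((P : Matrix ι ι F) *ᵥ (tvW us ∘ e)) ((P : Matrix ι ι F) *ᵥ (tvW ws ∘ e))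
    rw [hact, hact, hW.form_tv, hW.form_tv] at h1
    have h2 := mul_left_cancel₀ hW.ne h1
    rw [← h2]
    exact (Equiv.prod_comp τ⁻¹ (fun j => formOfGram (τ' : F → F) A₀ ((gs j : Matrix (Fin m) (Fin m) F) *ᵥ us j) ((gs j : Matrix (Fin m) (Fin m) F) *ᵥ ws j))).symm
  obtain ⟨a, b, hab⟩ := hW.ctx.exists_ne_of_nonempty
  set D' := ∏ j ∈ Finset.univ.erase i, formOfGram (τ' : F → F) A₀ ((gs j : Matrix (Fin m) (Fin m) F) *ᵥ a) ((gs j : Matrix (Fin m) (Fin m) F) *ᵥ b) with hD'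
  set D := ∏ j ∈ Finset.univ.erase i, formOfGram (τ' : F → F) A₀ a b with hD
  have hD0 : D ≠ 0 := Finset.prod_ne_zero_iff.mpr fun _ _ => hab
  have key : ∀ u w, formOfGram (τ' : F → F) A₀ ((gs i : Matrix (Fin m) (Fin m) F) *ᵥ u) ((gs i : Matrix (Fin m) (Fin m) F) *ᵥ w) * D' =
      formOfGram (τ' : F → F) A₀ u w * D := by
    intro u w
    have h1 := hprod (Function.update (fun _ => a) i u) (Function.update (fun _ => b) i w)
    rw [← Finset.mul_prod_erase Finset.univ _ (Finset.mem_univ i), ← Finset.mul_prod_erase Finset.univ _ (Finset.mem_univ i)] at h1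
    simp only [Function.update_self] at h1
    have e1 : ∏ j ∈ Finset.univ.erase i, formOfGram (τ' : F → F) A₀ ((gs j : Matrix (Fin m) (Fin m) F) *ᵥ Function.update (fun _ => a) i u j)
        ((gs j : Matrix (Fin m) (Fin m) F) *ᵥ Function.update (fun _ => b) i w j) = D' := by
      refine Finset.prod_congr rfl fun j hj => ?_
      have hji : j ≠ i := Finset.ne_of_mem_erase hj
      rw [Function.update_of_ne hji, Function.update_of_ne hji]
    have e2 : ∏ j ∈ Finset.univ.erase i, formOfGram (τ' : F → F) A₀ (Function.update (fun _ => a) i u j)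
        (Function.update (fun _ => b) i w j) = D := by
      refine Finset.prod_congr rfl fun j hj => ?_
      have hji : j ≠ i := Finset.ne_of_mem_erase hj
      rw [Function.update_of_ne hji, Function.update_of_ne hji]
    rw [e1, e2] at h1
    exact h1
  have hD'0 : D' ≠ 0 := by
    intro h0
    have h1 := key a b
    rw [h0, mul_zero] at h1
    exact mul_ne_zero hab hD0 h1.symm
  refine ⟨D / D', div_ne_zero hD0 hD'0, fun u w => ?_⟩
  have h1 := key u w
  field_simp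
  linear_combination h1

/-- The similarities of a two dimensional form are scalar multiples of rational matrices. -/
theorem SUCtx.two_rational (C : SUCtx σ q f) {ζ₀ : F} (h0 : ζ₀ ≠ 0) (g : GL (Fin 2) F) {c : F} (hc0 : c ≠ 0)
    (hc : ∀ u w, formOfGram ((σ : F →+* F) : F → F) (ζ₀ • (detJ : Matrix (Fin 2) (Fin 2) F)) ((g : Matrix (Fin 2) (Fin 2) F) *ᵥ u) ((g : Matrix (Fin 2) (Fin 2) F) *ᵥ w) =
      c * formOfGram ((σ : F →+* F) : F → F) (ζ₀ • (detJ : Matrix (Fin 2) (Fin 2) F)) u w) :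
    ∃ z : F, z ≠ 0 ∧ ∀ i j, σ (z * (g : Matrix (Fin 2) (Fin 2) F) i j) = z * (g : Matrix (Fin 2) (Fin 2) F) i j := by
  classical
  have hinv := C.unitary.involutive
  obtain ⟨G, hG⟩ : ∃ G : Matrix (Fin 2) (Fin 2) F, G = (g : Matrix (Fin 2) (Fin 2) F) := ⟨_, rfl⟩
  have hmat : Gᵀ * (ζ₀ • (detJ : Matrix (Fin 2) (Fin 2) F)) * G.map (σ : F →+* F) = c • (ζ₀ • (detJ : Matrix (Fin 2) (Fin 2) F)) := by
    ext a b
    have h1 := hc (Pi.single a 1) (Pi.single b 1)
    rw [← hG, formOfGram_mulVec, formOfGram_single (σ : F →+* F), formOfGram_single (σ : F →+* F)] at h1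
    rw [h1]
    rfl
  have hmat' : Gᵀ * (detJ : Matrix (Fin 2) (Fin 2) F) * G.map (σ : F →+* F) = c • (detJ : Matrix (Fin 2) (Fin 2) F) := by
    have h1 : ζ₀ • (Gᵀ * (detJ : Matrix (Fin 2) (Fin 2) F) * G.map (σ : F →+* F)) = ζ₀ • (c • (detJ : Matrix (Fin 2) (Fin 2) F)) := by
      rw [smul_comm ζ₀ c, ← hmat, Matrix.mul_smul, Matrix.smul_mul]
    exact smul_right_injective _ h0 h1
  have hdet : G.det ≠ 0 := by
    rw [hG]
    exact ((Matrix.isUnit_iff_isUnit_det _).mp g.isUnit).ne_zero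
  have hconj := detJ_conj G
  set d := G.det with hd
  have hJdet : (Gᵀ * (detJ : Matrix (Fin 2) (Fin 2) F)).det ≠ 0 := by
    rw [Matrix.det_mul, Matrix.det_transpose]
    have : (detJ : Matrix (Fin 2) (Fin 2) F).det = 1 := by
      simp [detJ, Matrix.det_fin_two]
    rw [this, mul_one]
    exact hdet
  have h1 : d • G.map (σ : F →+* F) = c • G := by
    have h2 : (Gᵀ * (detJ : Matrix (Fin 2) (Fin 2) F)) * (d • G.map (σ : F →+* F)) = (Gᵀ * (detJ : Matrix (Fin 2) (Fin 2) F)) * (c • G) := by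
      rw [Matrix.mul_smul, Matrix.mul_smul, hmat', hconj, smul_comm]
    have hu : IsUnit (Gᵀ * (detJ : Matrix (Fin 2) (Fin 2) F)) := (Matrix.isUnit_iff_isUnit_det _).mpr (isUnit_iff_ne_zero.mpr hJdet)
    exact hu.mul_left_cancel h2
  set l := c / d with hl
  have hl0 : l ≠ 0 := div_ne_zero hc0 hdet
  have h3 : ∀ i j, σ (G i j) = l * G i j := by
    intro i j
    have h2 := congrFun (congrFun h1 i) j
    simp only [Matrix.smul_apply, smul_eq_mul, Matrix.map_apply] at h2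
    rw [hl]
    field_simp
    have e : (σ : F →+* F) (G i j) = σ (G i j) := rfl
    rw [e] at h2
    linear_combination h2
  have hne : ∃ i j, G i j ≠ 0 := by
    by_contra hall
    push Not at hall
    apply hdet
    have : G = 0 := Matrix.ext hall
    rw [hd, this]
    simp [Matrix.det_fin_two]
  obtain ⟨i₀, j₀, hij⟩ := hne
  have hnorm : l⁻¹ * σ l⁻¹ = 1 := by
    have h4 := hinv (G i₀ j₀)
    rw [h3, map_mul, h3] at h4
    have h5 : (σ l * l - 1) * G i₀ j₀ = 0 := by linear_combination h4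
    have h6 : σ l * l = 1 := sub_eq_zero.mp ((mul_eq_zero.mp h5).resolve_right hij)
    rw [map_inv₀]
    have h7 : σ l ≠ 0 := (map_ne_zero σ).mpr hl0
    field_simp
    linear_combination -h6
  obtain ⟨z, hz0, hz⟩ := C.hilbert90 hnorm
  refine ⟨z, hz0, fun i j => ?_⟩
  rw [← hG, map_mul, h3, hz]
  field_simp

end Pure

end Cfsg.Agent.H97.Asch
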