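import Cfsg.Agent.Lib.H97I4

/-!
Unitary case: tensor powers of unitary forms in dimension two are subfield groups (continued).
-/

set_option autoImplicit false
set_option linter.unusedSectionVars false
set_option linter.style.haveILetI false

namespace Cfsg.Agent.H97.Asch

open Matrix Cfsg Cfsg.Geo
open scoped MatrixGroups commutatorElement Kronecker

variable {ι : Type} [Fintype ι] [DecidableEq ι] {F : Type*} [Field F] [Fintype F]
  {f : (ι → F) → (ι → F) → F} {σ : F ≃+* F} {q : ℕ}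

variable {t : ℕ} {e : ι ≃ (Fin t → Fin 2)} {P : GL ι F} {κ : F} {H : Subgroup (GL ι F)}

/-- The elements of the group are in the subfield group. -/
theorem SUCtx.wreath_mem_subfield (C : SUCtx σ q f) {ζ₀ : F} (h0 : ζ₀ ≠ 0)
    (hW : FWreath (σ : F →+* F) 1 f H e P (ζ₀ • (detJ : Matrix (Fin 2) (Fin 2) F)) κ 1) (hfix : FFix f H) :
    H ≤ subfieldSubgroup (SUCtx.fixF σ) P := by
  classical
  intro h hh
  have hle := hW.le hh
  rcases hle with ⟨_, ⟨k, hk, rfl⟩, rfl⟩
  obtain ⟨τ, gs, rfl⟩ := wreath_nf hk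
  have hh' : P * glReindex e.symm (permG τ * pureG gs) * P⁻¹ ∈ H := hh
  have hex : ∀ i, ∃ z : F, z ≠ 0 ∧ ∀ a b, σ (z * (gs i : Matrix (Fin 2) (Fin 2) F) a b) = z * (gs i : Matrix (Fin 2) (Fin 2) F) a b := by
    intro i
    obtain ⟨c, hc0, hc⟩ := wreath_pure_sim hW hfix hh' i
    exact C.two_rational h0 (gs i) hc0 hc
  choose z hz0 hz using hex
  have hd : (∏ i, z i) ≠ 0 := Finset.prod_ne_zero_iff.mpr fun i _ => hz0 i
  refine ⟨glReindex e.symm (permG τ * pureG gs), mem_range_sup_scalars hd (fun k l => ?_), rfl⟩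
  have e1 : ((∏ i, z i) • ((glReindex e.symm (permG τ * pureG gs) : GL ι F) : Matrix ι ι F)) k l =
      ((permM τ : Matrix (Fin t → Fin 2) (Fin t → Fin 2) F) * pureM (fun i => z i • (gs i : Matrix (Fin 2) (Fin 2) F))) (e k) (e l) := by
    rw [Matrix.smul_apply, glReindex_apply, pureM_smul', Units.val_mul, pureG_val, permG_val, Matrix.mul_smul, Matrix.smul_apply]
  rw [e1, permM_mul_left, pureM_apply]
  refine prod_mem fun i _ => ?_
  rw [SUCtx.mem_fixF, Matrix.smul_apply, smul_eq_mul]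
  exact hz i _ _

/-- entries of tensor powers of the standard alternating matrix -/
theorem detJ_rational (F₁ : Subfield F) (a b : Fin 2) : (detJ : Matrix (Fin 2) (Fin 2) F) a b ∈ F₁ := by
  fin_cases a <;> fin_cases b <;> simp [detJ, F₁.zero_mem, F₁.one_mem, F₁.neg_mem]

theorem pureJ_rational (F₁ : Subfield F) (a b : Fin t → Fin 2) :
    pureM (fun _ => (detJ : Matrix (Fin 2) (Fin 2) F)) a b ∈ F₁ := by
  rw [pureM_apply]
  exact prod_mem fun i _ => detJ_rational F₁ _ _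

theorem pureJ_diag (ht : 0 < t) (a : Fin t → Fin 2) : pureM (fun _ => (detJ : Matrix (Fin 2) (Fin 2) F)) a a = 0 := by
  rw [pureM_apply]
  exact Finset.prod_eq_zero (Finset.mem_univ ⟨0, ht⟩) (detJ_diag _)

theorem pureJ_swap (a b : Fin t → Fin 2) :
    pureM (fun _ => (detJ : Matrix (Fin 2) (Fin 2) F)) b a = (-1) ^ t * pureM (fun _ => (detJ : Matrix (Fin 2) (Fin 2) F)) a b := by
  rw [pureM_apply, pureM_apply]
  have e1 : ∀ i, (detJ : Matrix (Fin 2) (Fin 2) F) (b i) (a i) = (-1) * (detJ : Matrix (Fin 2) (Fin 2) F) (a i) (b i) := by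
    intro i
    rw [detJ_transpose (F := F) (a i) (b i)]
    ring
  simp only [e1]
  rw [Finset.prod_mul_distrib]
  simp

/-- an alternating Gram matrix vanishes on the diagonal of its form -/
theorem gram_alt {κ : Type} [Fintype κ] [DecidableEq κ] {M : Matrix κ κ F} (h1 : ∀ a, M a a = 0) (h2 : ∀ a b, M a b + M b a = 0) (x : κ → F) :
    ∑ a, ∑ b, x a * M a b * x b = 0 := by
  have hβ : Sesq (RingHom.id F) (formOfGram ((RingHom.id F : F →+* F) : F → F) M) := formOfGram_sesq _ _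
  have h3 := alt_of_basis hβ (Pi.basisFun F κ) (fun i => by
      simp only [Pi.basisFun_apply]
      rw [formOfGram_single]
      exact h1 i) (fun i j => by
      simp only [Pi.basisFun_apply]
      rw [formOfGram_single, formOfGram_single]
      exact h2 i j) x
  simpa [formOfGram] using h3

/-- Tensor powers of two dimensional unitary groups are subfield groups. -/
theorem Su.wreath_two [Nonempty ι] (C : SUCtx σ q f) (hfix : FFix f H) (ht : 0 < t) {A₀ : Matrix (Fin 2) (Fin 2) F} {ε₁ : F}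
    (hW₀ : FWreath (σ : F →+* F) 1 f H e P A₀ κ ε₁) : SuOutcome q f H := by
  classical
  have hS := C.fctx.sesq
  have hinv := C.unitary.involutive
  obtain ⟨ζ₀, h0, hσζ⟩ := C.exists_zeta
  obtain ⟨P₁, κ₁, hW⟩ := C.wreath_normal hW₀ (C.ctx_zJ h0 hσζ)
  have hκ₁ : κ₁ ≠ 0 := hW.ne
  have hσκ : σ κ₁ = κ₁ := by
    have := hW.rel
    simp only [one_pow, mul_one, one_mul] at this
    exact this.symm
  have hmem := C.wreath_mem_subfield h0 hW hfix
  set F₁ := SUCtx.fixF σ with hF₁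
  obtain ⟨M, hM⟩ : ∃ M : Matrix (Fin t → Fin 2) (Fin t → Fin 2) F, M = pureM (fun _ => (detJ : Matrix (Fin 2) (Fin 2) F)) := ⟨_, rfl⟩
  obtain ⟨L, hL⟩ : ∃ L : F, L = κ₁ * ζ₀ ^ t := ⟨_, rfl⟩
  have hL0 : L ≠ 0 := by
    rw [hL]
    exact mul_ne_zero hκ₁ (pow_ne_zero _ h0)
  have hσL : σ L = (-1) ^ t * L := by
    rw [hL, map_mul, map_pow, hσκ, hσζ, neg_pow]
    ring
  have hform : ∀ x y : (Fin t → Fin 2) → F, f ((P₁ : Matrix ι ι F) *ᵥ (x ∘ e)) ((P₁ : Matrix ι ι F) *ᵥ (y ∘ e)) =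
      L * ∑ a, ∑ b, x a * M a b * σ (y b) := by
    intro x y
    rw [hW.eqn]
    have e1 : ∑ a, ∑ b, x a * (∏ i, (ζ₀ • (detJ : Matrix (Fin 2) (Fin 2) F)) (a i) (b i)) * (σ : F →+* F) (y b) =
        ζ₀ ^ t * ∑ a, ∑ b, x a * M a b * σ (y b) := by
      rw [Finset.mul_sum]
      refine Finset.sum_congr rfl fun a _ => ?_
      rw [Finset.mul_sum]
      refine Finset.sum_congr rfl fun b _ => ?_
      rw [hM, pureM_apply]
      simp only [Matrix.smul_apply, smul_eq_mul, Finset.prod_mul_distrib, Finset.prod_const, Finset.card_univ, Fintype.card_fin]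
      have e2 : (σ : F →+* F) (y b) = σ (y b) := rfl
      rw [e2]
      ring
    rw [e1, hL]
    ring
  have hrep : ∀ u : ι → F, u = (u ∘ e.symm) ∘ e := by
    intro u
    funext i
    simp
  have hrat : ∀ u v : ι → F, (∀ i, u i ∈ F₁) → (∀ i, v i ∈ F₁) →
      ∑ a, ∑ b, (u ∘ e.symm) a * M a b * σ ((v ∘ e.symm) b) ∈ F₁ := by
    intro u v hu hv
    refine sum_mem fun a _ => sum_mem fun b _ => ?_
    have h3 : σ ((v ∘ e.symm) b) = (v ∘ e.symm) b := hv _
    rw [h3]
    refine F₁.mul_mem (F₁.mul_mem (hu _) ?_) (hv _)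
    rw [hM]
    exact pureJ_rational F₁ a b
  have hval : ∀ u v : ι → F, f ((P₁ : Matrix ι ι F) *ᵥ u) ((P₁ : Matrix ι ι F) *ᵥ v) =
      L * ∑ a, ∑ b, (u ∘ e.symm) a * M a b * σ ((v ∘ e.symm) b) := by
    intro u v
    rw [← hform]
    rw [← hrep, ← hrep]
  have halt : (∀ a b, M a b + M b a = 0) → ∀ u : ι → F, (∀ i, u i ∈ F₁) → f ((P₁ : Matrix ι ι F) *ᵥ u) ((P₁ : Matrix ι ι F) *ᵥ u) = 0 := by
    intro hsk u hu
    rw [hval]
    have h3 := gram_alt (M := M) (fun a => by rw [hM]; exact pureJ_diag ht a) hsk (u ∘ e.symm)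
    have h4 : ∑ a, ∑ b, (u ∘ e.symm) a * M a b * σ ((u ∘ e.symm) b) = ∑ a, ∑ b, (u ∘ e.symm) a * M a b * (u ∘ e.symm) b := by
      refine Finset.sum_congr rfl fun a _ => Finset.sum_congr rfl fun b _ => ?_
      have h5 : σ ((u ∘ e.symm) b) = (u ∘ e.symm) b := hu _
      rw [h5]
    rw [h4, h3, mul_zero]
  have hEven : Even (Fintype.card ι) := by
    rw [Fintype.card_congr e]
    simp only [Fintype.card_pi, Finset.prod_const, Finset.card_univ, Fintype.card_fin]
    exact (even_two).pow_of_ne_zero ht.ne'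
  rcases Nat.even_or_odd t with hte | hto
  · -- even number of factors: a symmetric form
    have hσL' : σ L = L := by
      rw [hσL, hte.neg_one_pow, one_mul]
    obtain ⟨x, hx0, hx⟩ := C.norm L⁻¹ (inv_ne_zero hL0) (by rw [map_inv₀, hσL'])
    set z : GL ι F := scalG x hx0 with hz
    set P' : GL ι F := P₁ * z with hP'
    have hzc : ∀ g : GL ι F, g * z = z * g := scalar_central (scalG_mem x hx0)
    have hP'v : ∀ u, (P' : Matrix ι ι F) *ᵥ u = x • ((P₁ : Matrix ι ι F) *ᵥ u) := by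
      intro u
      rw [hP', gl_mulVec_mul, hz, scalG_val, Matrix.smul_mulVec, Matrix.one_mulVec, Matrix.mulVec_smul]
    have hform' : ∀ u v, f ((P' : Matrix ι ι F) *ᵥ u) ((P' : Matrix ι ι F) *ᵥ v) =
        L⁻¹ * f ((P₁ : Matrix ι ι F) *ᵥ u) ((P₁ : Matrix ι ι F) *ᵥ v) := by
      intro u v
      rw [hP'v, hP'v, hS.smul_left, hS.smul_right, ← mul_assoc]
      congr 1
    have hval' : ∀ u v, f ((P' : Matrix ι ι F) *ᵥ u) ((P' : Matrix ι ι F) *ᵥ v) = ∑ a, ∑ b, (u ∘ e.symm) a * M a b * σ ((v ∘ e.symm) b) := by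
      intro u v
      rw [hform', hval, ← mul_assoc, inv_mul_cancel₀ hL0, one_mul]
    have hrs : IsFormRationalStructure f F₁ 1 P' := by
      intro u v hu hv
      rw [one_mul, hval']
      exact hrat u v hu hv
    have hH' : H ≤ subfieldSubgroup F₁ P' := by
      intro h hh
      rcases hmem hh with ⟨y, hy, hyh⟩
      refine ⟨y, hy, ?_⟩
      have e1 : P' * y * P'⁻¹ = P₁ * y * P₁⁻¹ := by
        rw [hP']
        calc P₁ * z * y * (P₁ * z)⁻¹ = P₁ * (z * y) * z⁻¹ * P₁⁻¹ := by group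
          _ = P₁ * (y * z) * z⁻¹ * P₁⁻¹ := by rw [hzc]
          _ = P₁ * y * P₁⁻¹ := by group
      exact e1.trans hyh
    rcases Nat.even_or_odd q with hqe | hqo
    · have h2 : (2 : F) = 0 := by
        apply two_eq_zero_of_not_odd
        rw [C.card, Nat.not_odd_iff_even]
        exact hqe.pow_of_ne_zero (by norm_num)
      have h1q : (1 : F) + 1 ^ q = 0 := by
        rw [one_pow]
        linear_combination h2
      refine Or.inr <| Or.inr <| Or.inr <| Or.inr <| Or.inr <| Or.inr <| Or.inl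
        ⟨F₁, P', 1, hEven, C.card_eq, one_ne_zero, h1q, hrs, fun u hu => ?_, hH'⟩
      rw [hform', halt (fun a b => ?_) u hu, mul_zero]
      rw [hM, pureJ_swap a b, hte.neg_one_pow, one_mul]
      linear_combination (pureM (fun _ => (detJ : Matrix (Fin 2) (Fin 2) F)) a b) * h2
    · exact Or.inr <| Or.inr <| Or.inr <| Or.inr <| Or.inr <| Or.inl ⟨F₁, P', hqo, C.card_eq, hrs, hH'⟩
  · -- odd number of factors: an alternating form
    have hσL' : σ L = - L := by
      rw [hσL, hto.neg_one_pow]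
      ring
    refine Or.inr <| Or.inr <| Or.inr <| Or.inr <| Or.inr <| Or.inr <| Or.inl
      ⟨F₁, P₁, L⁻¹, hEven, C.card_eq, inv_ne_zero hL0, ?_, fun u v hu hv => ?_, halt (fun a b => ?_), hmem⟩
    · rw [← C.pow, map_inv₀, hσL', inv_neg]
      ring
    · rw [hval, ← mul_assoc, inv_mul_cancel₀ hL0, one_mul]
      exact hrat u v hu hv
    · rw [hM, pureJ_swap a b, hto.neg_one_pow]
      ring

end Cfsg.Agent.H97.Asch
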