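import Cfsg.Agent.Lib.H97I5

/-!
Tensor powers of a subgroup of a general linear group: the group, its generators and its normaliser.
-/

set_option autoImplicit false
set_option linter.unusedSectionVars false
set_option linter.style.haveILetI false

namespace Cfsg.Agent.H97.Asch

open Matrix Cfsg Cfsg.Geo
open scoped MatrixGroups commutatorElement Kronecker

variable {ι : Type} [Fintype ι] [DecidableEq ι] {F : Type*} [Field F] [Fintype F]
  {f : (ι → F) → (ι → F) → F} {m t : ℕ}

/-- the tensor-power representation -/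
noncomputable def rhoM (e : ι ≃ (Fin t → Fin m)) (P : GL ι F) : (Fin t → GL (Fin m) F) →* GL ι F :=
  (MulAut.conj P).toMonoidHom.comp ((glReindex e.symm).toMonoidHom.comp
    (MonoidHom.mk' pureG (fun a b => (pureG_mul a b).symm)))

theorem rhoM_apply (e : ι ≃ (Fin t → Fin m)) (P : GL ι F) (gs : Fin t → GL (Fin m) F) :
    rhoM e P gs = P * glReindex e.symm (pureG gs) * P⁻¹ := rfl

/-- the image of a power of a subgroup -/
noncomputable def qRm (Q : Subgroup (GL (Fin m) F)) (e : ι ≃ (Fin t → Fin m)) (P : GL ι F) : Subgroup (GL ι F) :=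
  (Subgroup.pi Set.univ (fun _ => Q)).map (rhoM e P)

variable {Q : Subgroup (GL (Fin m) F)} {e : ι ≃ (Fin t → Fin m)} {P : GL ι F}

theorem mem_qRm {g : GL ι F} :
    g ∈ qRm Q e P ↔ ∃ gs : Fin t → GL (Fin m) F, (∀ i, gs i ∈ Q) ∧ rhoM e P gs = g := by
  simp [qRm, Subgroup.mem_map, Subgroup.mem_pi]

theorem rhoM_mulVec (e : ι ≃ (Fin t → Fin m)) (P : GL ι F) (gs : Fin t → GL (Fin m) F) (z : (Fin t → Fin m) → F) :
    (rhoM e P gs : Matrix ι ι F) *ᵥ ((P : Matrix ι ι F) *ᵥ (z ∘ e)) =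
      (P : Matrix ι ι F) *ᵥ ((pureM (fun i => (gs i : Matrix (Fin m) (Fin m) F)) *ᵥ z) ∘ e) := by
  rw [rhoM_apply, Matrix.mulVec_mulVec, ← Units.val_mul, mul_assoc, inv_mul_cancel, mul_one, Units.val_mul,
    ← Matrix.mulVec_mulVec, reindex_mulVec, pureG_val]

theorem pureG_scU' (c : Fin t → Fˣ) : pureG (fun i => (scU (c i) : GL (Fin m) F)) = scU (∏ i, c i) := by
  apply Units.ext
  rw [pureG_val, scU_val]
  simp only [scU_val]
  rw [pureM_smul', Units.coe_prod]
  congr 1
  exact pureM_one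

theorem rhoM_scU (e : ι ≃ (Fin t → Fin m)) (P : GL ι F) (c : Fin t → Fˣ) :
    rhoM e P (fun i => (scU (c i) : GL (Fin m) F)) = scU (∏ i, c i) := by
  rw [rhoM_apply, pureG_scU', reindex_scU, scU_central, mul_assoc, mul_inv_cancel, mul_one]

/-- commutators of the image -/
theorem qRm_comm {r : ℕ} (hQ : ∀ x ∈ Q, ∀ y ∈ Q, ∃ ξ : Fˣ, ξ ^ r = 1 ∧ x * y = scU ξ * (y * x)) :
    ∀ x ∈ qRm Q e P, ∀ y ∈ qRm Q e P, ∃ ξ : Fˣ, ξ ^ r = 1 ∧ x * y = scU ξ * (y * x) := by
  intro x hx y hy
  obtain ⟨gs, hgs, rfl⟩ := mem_qRm.mp hx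
  obtain ⟨hs, hhs, rfl⟩ := mem_qRm.mp hy
  have hex := fun i => hQ _ (hgs i) _ (hhs i)
  choose c hc1 hc2 using hex
  refine ⟨∏ i, c i, ?_, ?_⟩
  · rw [← Finset.prod_pow]
    simp [hc1]
  · rw [← rhoM_scU e P c, ← map_mul, ← map_mul, ← map_mul]
    congr 1
    funext i
    exact hc2 i

theorem qRm_pow {r : ℕ} (hQ : ∀ x ∈ Q, x ^ r = 1) : ∀ x ∈ qRm Q e P, x ^ r = 1 := by
  intro x hx
  obtain ⟨gs, hgs, rfl⟩ := mem_qRm.mp hx
  rw [← map_pow]
  have : gs ^ r = 1 := by
    funext i
    simpa using hQ _ (hgs i)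
  rw [this, map_one]

theorem qRm_scal (ht : 0 < t) {c : Fˣ} (hc : (scU c : GL (Fin m) F) ∈ Q) : (scU c : GL ι F) ∈ qRm Q e P := by
  classical
  refine mem_qRm.mpr ⟨fun i => scU (if i = ⟨0, ht⟩ then c else 1), fun i => ?_, ?_⟩
  · by_cases h : i = ⟨0, ht⟩
    · simpa [h] using hc
    · simp only [h, if_false, map_one]
      exact Q.one_mem
  · rw [rhoM_scU]
    congr 1
    simp

theorem qRm_span {K : Type} [Fintype K] [DecidableEq K] (B : K → GL (Fin m) F) (hB : ∀ k, B k ∈ Q)
    (hspan : ∀ A : Matrix (Fin m) (Fin m) F, ∃ c : K → F, A = ∑ k, c k • (B k : Matrix (Fin m) (Fin m) F)) : spanG (qRm Q e P) = ⊤ := by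
  classical
  let L : Matrix (Fin t → Fin m) (Fin t → Fin m) F →ₗ[F] Matrix ι ι F :=
    { toFun := fun M => (P : Matrix ι ι F) * M.submatrix e e * ((P⁻¹ : GL ι F) : Matrix ι ι F)
      map_add' := fun x y => by
        have : (x + y).submatrix e e = x.submatrix e e + y.submatrix e e := rfl
        rw [this, Matrix.mul_add, Matrix.add_mul]
      map_smul' := fun c x => by
        have : (c • x).submatrix e e = c • x.submatrix e e := rfl
        rw [this, Matrix.mul_smul, Matrix.smul_mul, RingHom.id_apply] }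
  have hL : ∀ M, L M = (P : Matrix ι ι F) * M.submatrix e e * ((P⁻¹ : GL ι F) : Matrix ι ι F) := fun _ => rfl
  set S := spanG (qRm Q e P) with hS
  have h1 : ∀ qs : Fin t → K, L (pureM (fun i => (B (qs i) : Matrix (Fin m) (Fin m) F))) ∈ S := by
    intro qs
    have hmem : rhoM e P (fun i => B (qs i)) ∈ qRm Q e P := mem_qRm.mpr ⟨_, fun i => hB _, rfl⟩
    have h2 := mem_spanG hmem
    rw [rhoM_apply, Units.val_mul, Units.val_mul] at h2
    have e5 : (pureM (fun i => (B (qs i) : Matrix (Fin m) (Fin m) F))).submatrix e e = ((glReindex e.symm (pureG fun i => B (qs i)) : GL ι F) : Matrix ι ι F) := by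
      ext k j
      rw [glReindex_apply, pureG_val]
      rfl
    rw [hL, e5]
    exact h2
  have h2 : ∀ A : Fin t → Matrix (Fin m) (Fin m) F, L (pureM A) ∈ S := by
    intro A
    choose c hc using fun i => hspan (A i)
    have e1 : pureM A = ∑ qs : Fin t → K, (∏ i, c i (qs i)) • pureM (fun i => (B (qs i) : Matrix (Fin m) (Fin m) F)) := by
      ext a b
      rw [pureM_apply]
      simp only [Matrix.sum_apply, Matrix.smul_apply, smul_eq_mul, pureM_apply]
      have e2 : ∀ i, A i (a i) (b i) = ∑ k, c i k * (B k : Matrix (Fin m) (Fin m) F) (a i) (b i) := by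
        intro i
        conv_lhs => rw [hc i]
        simp [Matrix.sum_apply]
      simp only [e2]
      rw [Finset.prod_univ_sum, Fintype.piFinset_univ]
      refine Finset.sum_congr rfl fun qs _ => ?_
      rw [Finset.prod_mul_distrib]
    rw [e1, map_sum]
    refine Subalgebra.sum_mem _ fun qs _ => ?_
    rw [map_smul]
    exact Subalgebra.smul_mem _ (h1 qs) _
  have h3' : ∀ M, L M ∈ S := by
    intro M
    have e1 : M = ∑ a, ∑ b, M a b • pureM (fun i => Matrix.single (a i) (b i) (1 : F)) := by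
      have hsingle : ∀ x y : Fin t → Fin m, pureM (fun i => Matrix.single (x i) (y i) (1 : F)) = Matrix.single x y (1 : F) := by
        intro x y
        ext a b
        rw [pureM_apply]
        simp only [Matrix.single_apply]
        by_cases h1 : x = a
        · by_cases h2 : y = b
          · subst h1 h2
            simp
          · rw [if_neg (by rintro ⟨-, h⟩; exact h2 h)]
            obtain ⟨i, hi⟩ := Function.ne_iff.mp h2
            apply Finset.prod_eq_zero (Finset.mem_univ i) _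
            simp [hi]
        · rw [if_neg (by rintro ⟨h, -⟩; exact h1 h)]
          obtain ⟨i, hi⟩ := Function.ne_iff.mp h1
          apply Finset.prod_eq_zero (Finset.mem_univ i) _
          simp [hi]
      simp only [hsingle, Matrix.smul_single, smul_eq_mul, mul_one]
      exact Matrix.matrix_eq_sum_single M
    rw [e1, map_sum]
    refine Subalgebra.sum_mem _ fun a _ => ?_
    rw [map_sum]
    refine Subalgebra.sum_mem _ fun b _ => ?_
    rw [map_smul]
    exact Subalgebra.smul_mem _ (h2 _) _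
  rw [eq_top_iff]
  intro M _
  have e1 : M = L ((((P⁻¹ : GL ι F) : Matrix ι ι F) * M * (P : Matrix ι ι F)).submatrix e.symm e.symm) := by
    rw [hL, Matrix.submatrix_submatrix]
    simp only [Equiv.symm_comp_self, Matrix.submatrix_id_id]
    have e2 : (P : Matrix ι ι F) * ((P⁻¹ : GL ι F) : Matrix ι ι F) = 1 := by
      rw [← Units.val_mul, mul_inv_cancel, Units.val_one]
    have e3 : (P : Matrix ι ι F) * (((P⁻¹ : GL ι F) : Matrix ι ι F) * M * (P : Matrix ι ι F)) * ((P⁻¹ : GL ι F) : Matrix ι ι F) =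
        ((P : Matrix ι ι F) * ((P⁻¹ : GL ι F) : Matrix ι ι F)) * M * ((P : Matrix ι ι F) * ((P⁻¹ : GL ι F) : Matrix ι ι F)) := by
      simp only [Matrix.mul_assoc]
    rw [e3, e2, Matrix.one_mul, Matrix.mul_one]
  rw [e1]
  exact h3' _

/-- the power of a subgroup is normalised by elements whose factors normalise the subgroup -/
theorem qRm_normal {H : Subgroup (GL ι F)} (hle : H ≤ tensorWreathSubgroup m t e P)
    (hN : ∀ (τ : Equiv.Perm (Fin t)) (gs : Fin t → GL (Fin m) F), P * glReindex e.symm (permG τ * pureG gs) * P⁻¹ ∈ H →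
      ∀ i, ∀ x ∈ Q, gs i * x * (gs i)⁻¹ ∈ Q) : Nrm H (qRm Q e P) := by
  intro h hh x hx
  obtain ⟨hs, hhs, rfl⟩ := mem_qRm.mp hx
  rcases hle hh with ⟨_, ⟨k, hk, rfl⟩, rfl⟩
  obtain ⟨τ, gs, rfl⟩ := wreath_nf hk
  have hh' : P * glReindex e.symm (permG τ * pureG gs) * P⁻¹ ∈ H := hh
  apply mem_qRm.mpr
  let ks : Fin t → GL (Fin m) F := fun i => gs i * hs i * (gs i)⁻¹
  refine ⟨fun i => ks (τ⁻¹ i), fun i => hN τ gs hh' _ _ (hhs _), ?_⟩
  let K : GL (Fin t → Fin m) F →* GL ι F := (MulAut.conj P).toMonoidHom.comp (glReindex e.symm).toMonoidHom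
  have e1 : rhoM e P hs = K (pureG hs) := rfl
  have e2 : rhoM e P (fun i => ks (τ⁻¹ i)) = K (pureG (fun i => ks (τ⁻¹ i))) := rfl
  have e3 : (MulEquiv.toMonoidHom (MulAut.conj P)) ((MulEquiv.toMonoidHom (glReindex e.symm)) (permG τ * pureG gs)) = K (permG τ * pureG gs) := rfl
  rw [e1, e2, e3, ← map_mul, ← map_inv, ← map_mul]
  congr 1
  have e4 : pureG (fun i => ks (τ⁻¹ i)) * permG τ = permG τ * pureG ks := by
    rw [pureG_permG]
    congr 2
    funext i
    simp
  have e5 : pureG ks = pureG gs * pureG hs * (pureG gs)⁻¹ := by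
    rw [pureG_inv, pureG_mul, pureG_mul]
    rfl
  rw [eq_mul_inv_iff_mul_eq, ← mul_assoc, e4, e5]
  group

end Cfsg.Agent.H97.Asch
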