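import Cfsg.Agent.Lib.H97I6

/-!
Unitary case: tensor powers of the three dimensional unitary group over the field with four elements.
-/

set_option autoImplicit false
set_option linter.unusedSectionVars false
set_option linter.style.haveILetI false

namespace Cfsg.Agent.H97.Asch

open Matrix Cfsg Cfsg.Geo
open scoped MatrixGroups commutatorElement Kronecker

/-- a model of the field with four elements -/
def B4 : Type := Bool × Bool

instance : DecidableEq B4 := inferInstanceAs (DecidableEq (Bool × Bool))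
instance : Fintype B4 := inferInstanceAs (Fintype (Bool × Bool))
instance : Add B4 := ⟨fun x y => (xor x.1 y.1, xor x.2 y.2)⟩
instance : Mul B4 := ⟨fun x y => (xor (x.1 && y.1) (x.2 && y.2), xor (xor (x.1 && y.2) (x.2 && y.1)) (x.2 && y.2))⟩
instance : Zero B4 := ⟨(false, false)⟩
instance : One B4 := ⟨(true, false)⟩

/-- powers of a generator -/
def b4ex : Fin 3 → B4
  | 0 => (true, false)
  | 1 => (false, true)
  | 2 => (true, true)

/-- normal forms -/
def b4nf (s t u k l : Fin 3) : B4 := if l = k + t then b4ex (s + u * l) else 0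

set_option maxRecDepth 100000 in
set_option synthInstance.maxHeartbeats 0 in
set_option synthInstance.maxSize 100000 in
theorem b4_nf : ∀ a d g : B4, a*(a*a)+d*(d*d)+g*(g*g) = 1 → ∀ b e h : B4, b*(b*b)+e*(e*e)+h*(h*h) = 1 → a*(b*b)+d*(e*e)+g*(h*h) = 0 →
    ∀ c f i : B4, c*(c*c)+f*(f*f)+i*(i*i) = 1 → a*(c*c)+d*(f*f)+g*(i*i) = 0 → b*(c*c)+e*(f*f)+h*(i*i) = 0 →
    a*e*i+a*f*h+b*d*i+b*f*g+c*d*h+c*e*g = 1 →
    a*a+b*d+c*g = a*a → a*b+b*e+c*h = d*d → a*c+b*f+c*i = g*g →
    d*a+e*d+f*g = b*b → d*b+e*e+f*h = e*e → d*c+e*f+f*i = h*h →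
    g*a+h*d+i*g = c*c → g*b+h*e+i*h = f*f → g*c+h*f+i*i = i*i →
    ∃ s t u : Fin 3, a = b4nf s t u 0 0 ∧ b = b4nf s t u 0 1 ∧ c = b4nf s t u 0 2 ∧ d = b4nf s t u 1 0 ∧ e = b4nf s t u 1 1 ∧ f = b4nf s t u 1 2
      ∧ g = b4nf s t u 2 0 ∧ h = b4nf s t u 2 1 ∧ i = b4nf s t u 2 2 := by
  decide +kernel

variable {F : Type*} [Field F] [Fintype F]

section Model

variable (ω : F)

/-- the truth value in the field -/
def bval (a : Bool) : F := if a then 1 else 0

/-- the value of an element of the model -/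
def b4val (x : B4) : F := bval x.1 + ω * bval x.2

/-- powers of the generator -/
def fex (i : Fin 3) : F := ω ^ (i : ℕ)

variable {ω}

theorem bval_xor (h2 : (2 : F) = 0) (a b : Bool) : bval (xor a b) = (bval a + bval b : F) := by
  cases a <;> cases b <;> simp [bval]
  linear_combination -h2

theorem bval_and (a b : Bool) : bval (a && b) = (bval a * bval b : F) := by
  cases a <;> cases b <;> simp [bval]

theorem b4val_add (h2 : (2 : F) = 0) (x y : B4) : b4val ω (x + y) = b4val ω x + b4val ω y := by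
  show bval (xor x.1 y.1) + ω * bval (xor x.2 y.2) = _
  simp only [bval_xor h2, b4val]
  ring

theorem b4val_mul (h2 : (2 : F) = 0) (hω : ω * ω + ω + 1 = 0) (x y : B4) : b4val ω (x * y) = b4val ω x * b4val ω y := by
  show bval (xor (x.1 && y.1) (x.2 && y.2)) + ω * bval (xor (xor (x.1 && y.2) (x.2 && y.1)) (x.2 && y.2)) = _
  simp only [bval_xor h2, bval_and, b4val]
  linear_combination (-(bval x.2 * bval y.2)) * hω + (bval x.2 * bval y.2 * (1 + ω)) * h2

theorem b4val_one : b4val ω (1 : B4) = 1 := by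
  show bval true + ω * bval false = 1
  simp [bval]

theorem b4val_zero : b4val ω (0 : B4) = 0 := by
  show bval false + ω * bval false = 0
  simp [bval]

theorem omega_ne_zero (hω : ω * ω + ω + 1 = 0) : ω ≠ 0 := by
  rintro rfl
  simp at hω

theorem omega_ne_one (h2 : (2 : F) = 0) (hω : ω * ω + ω + 1 = 0) : ω ≠ 1 := by
  rintro rfl
  have : (1 : F) = 0 := by linear_combination hω - h2
  exact one_ne_zero this

theorem b4val_inj (h2 : (2 : F) = 0) (hω : ω * ω + ω + 1 = 0) : Function.Injective (b4val ω) := by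
  have h0 := omega_ne_zero hω
  have h1 := omega_ne_one h2 hω
  have h3 : (1 : F) + ω ≠ 0 := by
    intro h
    apply h1
    linear_combination h - h2
  rintro ⟨a, b⟩ ⟨c, d⟩ h
  have h' : bval a + ω * bval b = bval c + ω * bval d := h
  cases a <;> cases b <;> cases c <;> cases d <;> simp [bval] at h' <;>
    first
    | rfl
    | (exfalso; first
        | exact one_ne_zero h'
        | exact one_ne_zero h'.symm
        | exact h0 h'
        | exact h0 h'.symm
        | exact h1 h'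
        | exact h1 h'.symm
        | exact h3 h'
        | exact h3 h'.symm
        | (apply h0; linear_combination h')
        | (apply h0; linear_combination -h')
        | (apply one_ne_zero (α := F); linear_combination h')
        | (apply one_ne_zero (α := F); linear_combination -h')
        | (apply h1; linear_combination h')
        | (apply h1; linear_combination -h')
        | (apply h3; linear_combination h')
        | (apply h3; linear_combination -h'))

theorem b4val_surj (h4 : Fintype.card F = 4) (h2 : (2 : F) = 0) (hω : ω * ω + ω + 1 = 0) : Function.Surjective (b4val ω) := by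
  have hc : Fintype.card B4 = Fintype.card F := by
    rw [h4]
    rfl
  exact ((Fintype.bijective_iff_injective_and_card _).mpr ⟨b4val_inj h2 hω, hc⟩).2

theorem omega_cube (h2 : (2 : F) = 0) (hω : ω * ω + ω + 1 = 0) : ω ^ 3 = 1 := by
  linear_combination (ω - 1) * hω

theorem fex_add (h2 : (2 : F) = 0) (hω : ω * ω + ω + 1 = 0) (a b : Fin 3) : fex ω (a + b) = fex ω a * fex ω b := by
  simp only [fex]
  rw [Fin.val_add, ← pow_add, ← pow_eq_pow_mod _ (omega_cube h2 hω)]

theorem fex_zero : fex ω 0 = 1 := by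
  simp [fex]

theorem b4val_ex (h2 : (2 : F) = 0) (hω : ω * ω + ω + 1 = 0) (z : Fin 3) : b4val ω (b4ex z) = fex ω z := by
  have hz : z = 0 ∨ z = 1 ∨ z = 2 := by
    revert z
    decide
  rcases hz with rfl | rfl | rfl
  · show bval true + ω * bval false = _
    simp [bval, fex]
  · show bval false + ω * bval true = _
    simp [bval, fex]
  · show bval true + ω * bval true = _
    have : fex ω 2 = ω ^ 2 := rfl
    rw [this]
    simp only [bval, if_true]
    linear_combination -hω + h2 * (1 + ω)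

end Model

section NF

variable {ω : F}

/-- The normal form of the elements of the group. -/
def nfM (ω : F) (s t u : Fin 3) : Matrix (Fin 3) (Fin 3) F := fun k l => if l = k + t then fex ω (s + u * l) else 0

theorem nf_classify (h4 : Fintype.card F = 4) (h2 : (2 : F) = 0) (hω : ω * ω + ω + 1 = 0) (y : Matrix (Fin 3) (Fin 3) F)
    (h1 : ∀ i j, ∑ k, y k i * (y k j * y k j) = if i = j then 1 else 0) (hd : y.det = 1)
    (h3 : ∀ k l, ∑ j, y k j * y j l = y l k * y l k) : ∃ s t u, y = nfM ω s t u := by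
  classical
  have hsurj := b4val_surj h4 h2 hω
  have hinj := b4val_inj h2 hω
  choose φ hφ using hsurj
  obtain ⟨N, hN⟩ : ∃ N : Fin 3 → Fin 3 → B4, ∀ k l, y k l = b4val ω (N k l) := ⟨fun k l => φ (y k l), fun k l => (hφ _).symm⟩
  have hadd := b4val_add (ω := ω) h2
  have hmul := b4val_mul h2 hω
  have hone : b4val ω (1 : B4) = 1 := b4val_one
  have hzero : b4val ω (0 : B4) = 0 := b4val_zero
  have e11 := h1 0 0
  have e22 := h1 1 1
  have e33 := h1 2 2
  have e12 := h1 0 1
  have e13 := h1 0 2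
  have e23 := h1 1 2
  simp only [Fin.sum_univ_three, hN, ← hadd, ← hmul, Fin.isValue, Fin.reduceEq, if_true, if_false, ← hone, ← hzero] at e11 e22 e33 e12 e13 e23
  rw [Matrix.det_fin_three] at hd
  have hd' : y 0 0 * y 1 1 * y 2 2 + y 0 0 * y 1 2 * y 2 1 + y 0 1 * y 1 0 * y 2 2 + y 0 1 * y 1 2 * y 2 0 + y 0 2 * y 1 0 * y 2 1 + y 0 2 * y 1 1 * y 2 0 = 1 := by
    linear_combination hd + (y 0 0 * y 1 2 * y 2 1 + y 0 1 * y 1 0 * y 2 2 + y 0 2 * y 1 1 * y 2 0) * h2
  simp only [hN, ← hadd, ← hmul, ← hone] at hd'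
  have s11 := h3 0 0
  have s12 := h3 0 1
  have s13 := h3 0 2
  have s21 := h3 1 0
  have s22 := h3 1 1
  have s23 := h3 1 2
  have s31 := h3 2 0
  have s32 := h3 2 1
  have s33 := h3 2 2
  simp only [Fin.sum_univ_three, hN, ← hadd, ← hmul] at s11 s12 s13 s21 s22 s23 s31 s32 s33
  obtain ⟨s, t, u, h00, h01, h02, h10, h11, h12, h20, h21, h22⟩ := b4_nf (N 0 0) (N 1 0) (N 2 0) (hinj e11) (N 0 1) (N 1 1) (N 2 1) (hinj e22) (hinj e12)
    (N 0 2) (N 1 2) (N 2 2) (hinj e33) (hinj e13) (hinj e23) (hinj hd') (hinj s11) (hinj s12) (hinj s13) (hinj s21) (hinj s22) (hinj s23) (hinj s31) (hinj s32) (hinj s33)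
  refine ⟨s, t, u, ?_⟩
  have hall : ∀ k l, N k l = b4nf s t u k l := by
    intro k l
    have hk : k = 0 ∨ k = 1 ∨ k = 2 := by
      revert k
      decide
    have hl : l = 0 ∨ l = 1 ∨ l = 2 := by
      revert l
      decide
    rcases hk with rfl | rfl | rfl <;> rcases hl with rfl | rfl | rfl <;> assumption
  ext k l
  rw [hN, hall, b4nf, nfM]
  split_ifs
  · exact b4val_ex h2 hω _
  · exact hzero

theorem nfM_mul (h2 : (2 : F) = 0) (hω : ω * ω + ω + 1 = 0) (s t u s' t' u' : Fin 3) :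
    nfM ω s t u * nfM ω s' t' u' = nfM ω (s + s' + 2 * u * t') (t + t') (u + u') := by
  ext k l
  rw [Matrix.mul_apply, Finset.sum_eq_single (k + t)]
  · simp only [nfM, if_true]
    by_cases hl : l = k + t + t'
    · have hl' : l = k + (t + t') := by
        rw [hl]
        exact (by decide : ∀ k t t' : Fin 3, k + t + t' = k + (t + t')) k t t'
      rw [if_pos hl, if_pos hl', ← fex_add h2 hω]
      congr 1
      subst hl
      revert s u s' u' k t t'
      decide +kernel
    · have hl' : ¬ l = k + (t + t') := by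
        intro h
        apply hl
        rw [h]
        exact (by decide : ∀ k t t' : Fin 3, k + (t + t') = k + t + t') k t t'
      rw [if_neg hl, if_neg hl', mul_zero]
  · intro j _ hj
    simp [nfM, hj]
  · simp

theorem nfM_one (ω : F) : nfM ω 0 0 0 = 1 := by
  ext k l
  by_cases h : k = l
  · subst h
    simp [nfM, fex]
  · have h' : ¬ l = k := fun h' => h h'.symm
    simp [nfM, h, h']

theorem nfM_cube (h2 : (2 : F) = 0) (hω : ω * ω + ω + 1 = 0) (s t u : Fin 3) :
    nfM ω s t u * (nfM ω s t u * nfM ω s t u) = 1 := by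
  rw [nfM_mul h2 hω, nfM_mul h2 hω, ← nfM_one ω]
  have h1 : s + (s + s + 2 * u * t) + 2 * u * (t + t) = 0 ∧ t + (t + t) = 0 ∧ u + (u + u) = 0 := by
    revert s t u
    decide
  rw [h1.1, h1.2.1, h1.2.2]

theorem nfM_transpose (s t u : Fin 3) : (nfM ω s t u)ᵀ = nfM ω (s + u * t) (2 * t) u := by
  ext k l
  rw [Matrix.transpose_apply, nfM, nfM]
  have h1 : k = l + t ↔ l = k + 2 * t := by
    revert k l t
    decide
  by_cases h : k = l + t
  · rw [if_pos h, if_pos (h1.mp h)]
    congr 1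
    subst h
    revert s u l t
    decide
  · rw [if_neg h, if_neg (fun h' => h (h1.mpr h'))]

theorem nfM_map {σ : F →+* F} (hσ : ∀ x, σ x = x * x) (h2 : (2 : F) = 0) (hω : ω * ω + ω + 1 = 0) (s t u : Fin 3) :
    (nfM ω s t u).map σ = nfM ω (s + s) t (u + u) := by
  ext k l
  rw [Matrix.map_apply, nfM, nfM]
  by_cases h : l = k + t
  · rw [if_pos h, if_pos h, hσ, ← fex_add h2 hω]
    congr 1
    exact (by decide : ∀ s u l : Fin 3, s + u * l + (s + u * l) = s + s + (u + u) * l) s u l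
  · rw [if_neg h, if_neg h, map_zero]

theorem nfM_unitary {σ : F →+* F} (hσ : ∀ x, σ x = x * x) (h2 : (2 : F) = 0) (hω : ω * ω + ω + 1 = 0) (s t u : Fin 3) :
    (nfM ω s t u)ᵀ * 1 * (nfM ω s t u).map σ = 1 := by
  rw [Matrix.mul_one, nfM_transpose, nfM_map hσ h2 hω, nfM_mul h2 hω, ← nfM_one ω]
  have h1 : s + u * t + (s + s) + 2 * u * t = 0 ∧ 2 * t + t = 0 ∧ u + (u + u) = 0 := by
    revert s t u
    decide
  rw [h1.1, h1.2.1, h1.2.2]

theorem nfM_det (h2 : (2 : F) = 0) (hω : ω * ω + ω + 1 = 0) (s t u : Fin 3) : (nfM ω s t u).det = 1 := by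
  have key : fex ω (s + u * 0) * fex ω (s + u * 1) * fex ω (s + u * 2) = 1 := by
    rw [← fex_add h2 hω, ← fex_add h2 hω]
    have h1 : s + u * 0 + (s + u * 1) + (s + u * 2) = 0 := by
      revert s u
      decide
    rw [h1, fex_zero]
  rw [Matrix.det_fin_three]
  have ht : t = 0 ∨ t = 1 ∨ t = 2 := by
    revert t
    decide
  rcases ht with rfl | rfl | rfl
  · simp [nfM]
    simpa using key
  · simp [nfM]
    have := key
    simp only [mul_zero, mul_one, add_zero] at this
    rw [← this]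
    ring
  · simp [nfM]
    have := key
    simp only [mul_zero, mul_one, add_zero] at this
    rw [← this]
    ring

/-- The elements of normal form are invertible. -/
def nfG (h2 : (2 : F) = 0) (hω : ω * ω + ω + 1 = 0) (s t u : Fin 3) : GL (Fin 3) F :=
  ⟨nfM ω s t u, nfM ω s t u * nfM ω s t u, nfM_cube h2 hω s t u, by
    rw [Matrix.mul_assoc]
    exact nfM_cube h2 hω s t u⟩

/-- The group of normal forms. -/
def nfGroup (h2 : (2 : F) = 0) (hω : ω * ω + ω + 1 = 0) : Subgroup (GL (Fin 3) F) where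
  carrier := {g | ∃ s t u, (g : Matrix (Fin 3) (Fin 3) F) = nfM ω s t u}
  one_mem' := ⟨0, 0, 0, by rw [Units.val_one, nfM_one]⟩
  mul_mem' := by
    rintro a b ⟨s, t, u, ha⟩ ⟨s', t', u', hb⟩
    exact ⟨_, _, _, by rw [Units.val_mul, ha, hb, nfM_mul h2 hω]⟩
  inv_mem' := by
    rintro a ⟨s, t, u, ha⟩
    have h1 : a⁻¹ = a * a := by
      apply inv_eq_of_mul_eq_one_right
      apply Units.ext
      rw [Units.val_mul, Units.val_mul, ha, Units.val_one]
      exact nfM_cube h2 hω s t u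
    rw [h1]
    exact ⟨_, _, _, by rw [Units.val_mul, ha, nfM_mul h2 hω]⟩

variable {h2 : (2 : F) = 0} {hω : ω * ω + ω + 1 = 0}

theorem mem_nfGroup {g : GL (Fin 3) F} : g ∈ nfGroup h2 hω ↔ ∃ s t u, (g : Matrix (Fin 3) (Fin 3) F) = nfM ω s t u := Iff.rfl

theorem nfGroup_cube {g : GL (Fin 3) F} (hg : g ∈ nfGroup h2 hω) : g ^ 3 = 1 := by
  obtain ⟨s, t, u, h⟩ := hg
  apply Units.ext
  rw [pow_succ, pow_two, Units.val_mul, Units.val_mul, h, Units.val_one, Matrix.mul_assoc]
  exact nfM_cube h2 hω s t u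

theorem fex_ne_zero (hω : ω * ω + ω + 1 = 0) (z : Fin 3) : fex ω z ≠ 0 :=
  pow_ne_zero _ (omega_ne_zero hω)

theorem fex_cube (h2 : (2 : F) = 0) (hω : ω * ω + ω + 1 = 0) (z : Fin 3) : fex ω z ^ 3 = 1 := by
  rw [fex, ← pow_mul, mul_comm, pow_mul, omega_cube h2 hω, one_pow]

theorem fex_smul_nfM (h2 : (2 : F) = 0) (hω : ω * ω + ω + 1 = 0) (z s t u : Fin 3) : fex ω z • nfM ω s t u = nfM ω (z + s) t u := by
  ext k l
  rw [Matrix.smul_apply, nfM, nfM, smul_eq_mul]
  by_cases h : l = k + t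
  · rw [if_pos h, if_pos h, ← fex_add h2 hω, add_assoc]
  · rw [if_neg h, if_neg h, mul_zero]

theorem nfGroup_comm {x y : GL (Fin 3) F} (hx : x ∈ nfGroup h2 hω) (hy : y ∈ nfGroup h2 hω) :
    ∃ ξ : Fˣ, ξ ^ 3 = 1 ∧ x * y = scU ξ * (y * x) := by
  obtain ⟨s, t, u, h⟩ := hx
  obtain ⟨s', t', u', h'⟩ := hy
  refine ⟨Units.mk0 (fex ω (2 * u * t' + u' * t)) (fex_ne_zero hω _), ?_, ?_⟩
  · apply Units.ext
    rw [Units.val_pow_eq_pow_val, Units.val_mk0, fex_cube h2 hω, Units.val_one]
  · apply Units.ext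
    rw [Units.val_mul, Units.val_mul, Units.val_mul, scU_val, h, h', nfM_mul h2 hω, nfM_mul h2 hω, Matrix.smul_mul, Matrix.one_mul,
      Units.val_mk0, fex_smul_nfM h2 hω]
    have h1 : s + s' + 2 * u * t' = 2 * u * t' + u' * t + (s' + s + 2 * u' * t) ∧ t + t' = t' + t ∧ u + u' = u' + u :=
      (by decide +kernel : ∀ s t u s' t' u' : Fin 3, s + s' + 2 * u * t' = 2 * u * t' + u' * t + (s' + s + 2 * u' * t) ∧ t + t' = t' + t ∧ u + u' = u' + u) s t u s' t' u'
    rw [h1.1, h1.2.1, h1.2.2]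

theorem nfGroup_scal (h4 : Fintype.card F = 4) (c : Fˣ) : (scU c : GL (Fin 3) F) ∈ nfGroup h2 hω := by
  obtain ⟨x, hx⟩ := b4val_surj h4 h2 hω (c : F)
  have hex : ∃ z, fex ω z = (c : F) := by
    obtain ⟨a, b⟩ := x
    have hx' : bval a + ω * bval b = (c : F) := hx
    cases a <;> cases b <;> simp [bval] at hx'
    · exact absurd hx'.symm c.ne_zero
    · exact ⟨1, by rw [← hx']; simp [fex]⟩
    · exact ⟨0, by rw [← hx']; simp [fex]⟩
    · refine ⟨2, ?_⟩
      rw [← hx']
      show ω ^ 2 = 1 + ω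
      linear_combination hω - h2 * (1 + ω)
  obtain ⟨z, hz⟩ := hex
  refine ⟨z + 0, 0, 0, ?_⟩
  rw [scU_val, ← hz, ← fex_smul_nfM h2 hω, nfM_one]

theorem fex_sum (h2 : (2 : F) = 0) (hω : ω * ω + ω + 1 = 0) (d : Fin 3) : ∑ u : Fin 3, fex ω (u * d) = if d = 0 then 1 else 0 := by
  have e2 : fex ω 2 = ω * ω := by
    show ω ^ 2 = _
    ring
  have e1 : fex ω 1 = ω := by
    show ω ^ 1 = _
    ring
  have hd : d = 0 ∨ d = 1 ∨ d = 2 := by
    revert d
    decide
  rw [Fin.sum_univ_three]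
  rcases hd with rfl | rfl | rfl
  · simp only [mul_zero, fex_zero, if_true]
    linear_combination h2
  · have h1 : (0 : Fin 3) * 1 = 0 ∧ (1 : Fin 3) * 1 = 1 ∧ (2 : Fin 3) * 1 = 2 := by decide
    rw [h1.1, h1.2.1, h1.2.2, fex_zero, e1, e2, if_neg (by decide)]
    linear_combination hω
  · have h1 : (0 : Fin 3) * 2 = 0 ∧ (1 : Fin 3) * 2 = 2 ∧ (2 : Fin 3) * 2 = 1 := by decide
    rw [h1.1, h1.2.1, h1.2.2, fex_zero, e1, e2, if_neg (by decide)]
    linear_combination hω

theorem nf_span (h2 : (2 : F) = 0) (hω : ω * ω + ω + 1 = 0) (A : Matrix (Fin 3) (Fin 3) F) :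
    ∃ c : Fin 3 × Fin 3 → F, A = ∑ p, c p • nfM ω 0 p.1 p.2 := by
  refine ⟨fun p => ∑ j, A (j + 2 * p.1) j * fex ω (2 * p.2 * j), ?_⟩
  ext k l
  rw [Matrix.sum_apply, Fintype.sum_prod_type]
  simp only [Matrix.smul_apply, smul_eq_mul]
  rw [Finset.sum_eq_single (l + 2 * k)]
  · have h : ∀ u, nfM ω 0 (l + 2 * k) u k l = fex ω (u * l) := by
      intro u
      rw [nfM, if_pos (by revert k l; decide), zero_add]
    simp only [h, Finset.sum_mul]
    rw [Finset.sum_comm]
    have h3 : ∀ j u : Fin 3, A (j + 2 * (l + 2 * k)) j * fex ω (2 * u * j) * fex ω (u * l) = A (j + 2 * (l + 2 * k)) j * fex ω (u * (2 * j + l)) := by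
      intro j u
      rw [mul_assoc, ← fex_add h2 hω]
      congr 2
      exact (by decide : ∀ j u l : Fin 3, 2 * u * j + u * l = u * (2 * j + l)) j u l
    simp only [h3, ← Finset.mul_sum, fex_sum h2 hω]
    rw [Finset.sum_eq_single l]
    · have h4 : (2 : Fin 3) * l + l = 0 := (by decide : ∀ l : Fin 3, 2 * l + l = 0) l
      have h5 : l + 2 * (l + 2 * k) = k := (by decide : ∀ k l : Fin 3, l + 2 * (l + 2 * k) = k) k l
      rw [if_pos h4, h5, mul_one]
    · intro j _ hj
      have h4 : ¬ (2 : Fin 3) * j + l = 0 := (by decide : ∀ j l : Fin 3, j ≠ l → ¬ 2 * j + l = 0) j l hj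
      rw [if_neg h4, mul_zero]
    · simp
  · intro b _ hb
    refine Finset.sum_eq_zero fun u _ => ?_
    have h : ¬ l = k + b := by
      intro hl
      apply hb
      rw [hl]
      exact (by decide : ∀ k b : Fin 3, b = k + b + 2 * k) k b
    rw [nfM, if_neg h, mul_zero]
  · simp

end NF

section Main

variable {ι : Type} [Fintype ι] [DecidableEq ι] {f : (ι → F) → (ι → F) → F} {σ : F ≃+* F}
  {ω : F} {h2 : (2 : F) = 0} {hω : ω * ω + ω + 1 = 0}

/-- Isometries of the standard form -/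
def StdIso (σ : F ≃+* F) (g : GL (Fin 3) F) : Prop :=
  ∀ u w : Fin 3 → F, formOfGram ((σ : F →+* F) : F → F) (1 : Matrix (Fin 3) (Fin 3) F) ((g : Matrix (Fin 3) (Fin 3) F) *ᵥ u) ((g : Matrix (Fin 3) (Fin 3) F) *ᵥ w) =
    formOfGram ((σ : F →+* F) : F → F) (1 : Matrix (Fin 3) (Fin 3) F) u w

theorem StdIso.matrix {g : GL (Fin 3) F} (hg : StdIso σ g) :
    (g : Matrix (Fin 3) (Fin 3) F)ᵀ * 1 * (g : Matrix (Fin 3) (Fin 3) F).map (σ : F →+* F) = 1 := by
  ext a b
  have h1 := hg (Pi.single a 1) (Pi.single b 1)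
  rw [formOfGram_mulVec, formOfGram_single (σ : F →+* F), formOfGram_single (σ : F →+* F)] at h1
  exact h1

theorem stdIso_of_matrix {g : GL (Fin 3) F}
    (hg : (g : Matrix (Fin 3) (Fin 3) F)ᵀ * 1 * (g : Matrix (Fin 3) (Fin 3) F).map (σ : F →+* F) = 1) : StdIso σ g := by
  intro u w
  rw [formOfGram_mulVec, hg]

theorem StdIso.mul {g h : GL (Fin 3) F} (hg : StdIso σ g) (hh : StdIso σ h) : StdIso σ (g * h) := by
  intro u w
  rw [gl_mulVec_mul, gl_mulVec_mul, hg, hh]

theorem StdIso.inv {g : GL (Fin 3) F} (hg : StdIso σ g) : StdIso σ g⁻¹ := by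
  intro u w
  rw [← hg, gl_mulVec_inv, gl_mulVec_inv]

theorem nfGroup_iso (hσ : ∀ x, σ x = x * x) {g : GL (Fin 3) F} (hg : g ∈ nfGroup h2 hω) : StdIso σ g := by
  obtain ⟨s, t, u, h⟩ := hg
  apply stdIso_of_matrix
  rw [h]
  exact nfM_unitary (fun x => hσ x) h2 hω s t u

/-- Isometries normalise the group of normal forms. -/
theorem nfGroup_conj (h4 : Fintype.card F = 4) (hσ : ∀ x, σ x = x * x) {g x : GL (Fin 3) F} (hg : StdIso σ g) (hx : x ∈ nfGroup h2 hω) :
    g * x * g⁻¹ ∈ nfGroup h2 hω := by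
  have hy : StdIso σ (g * x * g⁻¹) := (hg.mul (nfGroup_iso hσ hx)).mul hg.inv
  obtain ⟨Y, hY⟩ : ∃ Y : Matrix (Fin 3) (Fin 3) F, Y = ((g * x * g⁻¹ : GL (Fin 3) F) : Matrix (Fin 3) (Fin 3) F) := ⟨_, rfl⟩
  have hU : Yᵀ * Y.map (σ : F →+* F) = 1 := by
    have := hy.matrix
    rw [← hY, Matrix.mul_one] at this
    exact this
  have hcube : Y * (Y * Y) = 1 := by
    have h1 : (g * x * g⁻¹) ^ 3 = 1 := by
      rw [conj_pow, nfGroup_cube hx]
      group
    have h3 := congrArg (fun z : GL (Fin 3) F => (z : Matrix (Fin 3) (Fin 3) F)) h1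
    simp only [pow_succ, pow_zero, one_mul, Units.val_mul, Units.val_one] at h3
    rw [hY]
    simp only [Units.val_mul]
    rw [← h3]
    simp only [Matrix.mul_assoc]
  have hdet : Y.det = 1 := by
    obtain ⟨s, t, u, h⟩ := hx
    have h1 : Y.det = (x : Matrix (Fin 3) (Fin 3) F).det := by
      rw [hY, Units.val_mul, Units.val_mul, Matrix.det_mul, Matrix.det_mul, mul_comm (Matrix.det _) (Matrix.det _), mul_assoc, ← Matrix.det_mul,
        ← Units.val_mul, mul_inv_cancel, Units.val_one, Matrix.det_one, mul_one]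
    rw [h1, h]
    exact nfM_det h2 hω s t u
  have hU' : Y * (Y.map (σ : F →+* F))ᵀ = 1 := by
    have h1 : (Y.map (σ : F →+* F))ᵀ * Y = 1 := by
      have := congrArg Matrix.transpose hU
      rwa [Matrix.transpose_mul, Matrix.transpose_transpose, Matrix.transpose_one] at this
    exact mul_eq_one_comm.mp h1
  have hsq : Y * Y = (Y.map (σ : F →+* F))ᵀ := by
    calc Y * Y = (Y * Y) * (Y * (Y.map (σ : F →+* F))ᵀ) := by rw [hU', Matrix.mul_one]
      _ = (Y * (Y * Y)) * (Y.map (σ : F →+* F))ᵀ := by simp only [Matrix.mul_assoc]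
      _ = _ := by rw [hcube, Matrix.one_mul]
  have e1 : ∀ i j, ∑ k, Y k i * (Y k j * Y k j) = if i = j then 1 else 0 := by
    intro i j
    have h1 := congrFun (congrFun hU i) j
    rw [Matrix.mul_apply, Matrix.one_apply] at h1
    simp only [Matrix.transpose_apply, Matrix.map_apply] at h1
    rw [← h1]
    refine Finset.sum_congr rfl fun k _ => ?_
    congr 1
    exact (hσ _).symm
  have e3 : ∀ k l, ∑ j, Y k j * Y j l = Y l k * Y l k := by
    intro k l
    have h1 := congrFun (congrFun hsq k) l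
    rw [Matrix.mul_apply] at h1
    rw [h1]
    exact hσ _
  obtain ⟨s, t, u, h⟩ := nf_classify h4 h2 hω Y e1 hdet e3
  exact ⟨s, t, u, by rw [← hY, h]⟩

/-- The exceptional case of tensor powers in the unitary case. -/
theorem Su.wreath_23 [Nonempty ι] {H : Subgroup (GL ι F)} {t : ℕ} (C : SUCtx σ 2 f) (hfix : FFix f H) (ht : 0 < t)
    {e : ι ≃ (Fin t → Fin 3)} {P : GL ι F} {A₀ : Matrix (Fin 3) (Fin 3) F} {κ ε₁ : F}
    (hW₀ : FWreath (σ : F →+* F) 1 f H e P A₀ κ ε₁) : SuOutcome 2 f H := by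
  classical
  have hσ : ∀ x, σ x = x * x := fun x => by rw [C.pow, pow_two]
  have h4 : Fintype.card F = 4 := by
    rw [C.card]
    norm_num
  have h20 : (2 : F) = 0 := by
    apply two_eq_zero_of_not_odd
    rw [h4]
    decide
  obtain ⟨c, hc⟩ := C.exists_ne
  have hc0 : c ≠ 0 := by
    rintro rfl
    exact hc (map_zero σ)
  have hc1 : c ≠ 1 := by
    rintro rfl
    exact hc (map_one σ)
  have hω : c * c + c + 1 = 0 := by
    have h1 := FiniteField.pow_card_sub_one_eq_one c hc0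
    rw [h4] at h1
    have h3 : (c - 1) * (c * c + c + 1) = 0 := by
      have h5 : c ^ (4 - 1) = c ^ 3 := rfl
      rw [h5] at h1
      linear_combination h1
    exact (mul_eq_zero.mp h3).resolve_left (sub_ne_zero.mpr hc1)
  have hone : FCtx (σ : F →+* F) 1 (formOfGram ((σ : F →+* F) : F → F) (1 : Matrix (Fin 3) (Fin 3) F)) := by
    refine ⟨formOfGram_sesq _ _, fun v hv => ?_, fun v hv => ?_, C.unitary.involutive, fun u w => ?_⟩
    · obtain ⟨i, hi⟩ := Function.ne_iff.mp hv
      refine ⟨Pi.single i 1, ?_⟩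
      simpa [formOfGram, Matrix.one_apply, Pi.single_apply] using hi
    · obtain ⟨i, hi⟩ := Function.ne_iff.mp hv
      refine ⟨Pi.single i 1, ?_⟩
      simpa [formOfGram, Matrix.one_apply, Pi.single_apply] using hi
    · exact formOfGram_herm C.unitary.involutive (fun a c => by
        by_cases h : a = c
        · subst h
          simp
        · have h' : ¬ c = a := fun h' => h h'.symm
          simp [Matrix.one_apply, h, h']) u w
  obtain ⟨P₁, κ₁, hW⟩ := C.wreath_normal hW₀ hone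
  -- factors are isometries
  have hfac : ∀ (τ : Equiv.Perm (Fin t)) (gs : Fin t → GL (Fin 3) F), P₁ * glReindex e.symm (permG τ * pureG gs) * P₁⁻¹ ∈ H → ∀ i, StdIso σ (gs i) := by
    intro τ gs hh i
    obtain ⟨d, hd0, hd⟩ := wreath_pure_sim hW hfix hh i
    have hd1 : d = 1 := by
      have h1 := hd (Pi.single 0 1) (Pi.single 0 1)
      have h3 : formOfGram ((σ : F →+* F) : F → F) (1 : Matrix (Fin 3) (Fin 3) F) (Pi.single 0 1) (Pi.single 0 1) = 1 := by
        rw [formOfGram_single (σ : F →+* F)]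
        simp
      rw [h3, mul_one] at h1
      have h5 := hone.herm ((gs i : Matrix (Fin 3) (Fin 3) F) *ᵥ Pi.single 0 1) ((gs i : Matrix (Fin 3) (Fin 3) F) *ᵥ Pi.single 0 1)
      rw [h1, one_mul] at h5
      have h6 : d = d * d := by
        rw [← hσ]
        exact h5
      have h7 : d * (d - 1) = 0 := by linear_combination -h6
      exact sub_eq_zero.mp ((mul_eq_zero.mp h7).resolve_left hd0)
    intro u w
    rw [hd, hd1, one_mul]
  let Q := nfGroup h20 hω
  let R : Subgroup (GL ι F) := qRm Q e P₁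
  have hgcd : Nat.gcd 2 3 = 1 := by norm_num
  have hS : SymCtx 3 R := by
    refine ⟨Nat.prime_three, ?_, ?_, ?_, ?_⟩
    · rw [hgcd, mul_one]
      exact qRm_pow fun x hx => nfGroup_cube hx
    · exact qRm_comm fun x hx y hy => nfGroup_comm hx hy
    · intro u _
      exact qRm_scal ht (nfGroup_scal h4 u)
    · refine qRm_span (fun p : Fin 3 × Fin 3 => nfG h20 hω 0 p.1 p.2) (fun p => ⟨0, p.1, p.2, rfl⟩) (fun A => ?_)
      exact nf_span h20 hω A
  have hH : Nrm H R := qRm_normal hW.le (fun τ gs hh i x hx => nfGroup_conj h4 hσ (hfac τ gs hh i) hx)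
  have hsim : R ≤ similarityGroup f := by
    intro g hg
    refine ⟨1, fun x y => ?_⟩
    rw [Units.val_one, one_mul]
    obtain ⟨gs, hgs, rfl⟩ := mem_qRm.mp hg
    obtain ⟨x', rfl⟩ := pv_surj e P₁ x
    obtain ⟨y', rfl⟩ := pv_surj e P₁ y
    rw [rhoM_mulVec, rhoM_mulVec, hW.eqn, hW.eqn, wreath_eqn_gram, wreath_eqn_gram, formOfGram_mulVec]
    congr 2
    rw [pureM_transpose, pureM_map, pureM_mul, pureM_mul]
    congr 1
    funext i
    simp only [Pi.mul_apply]
    exact (nfGroup_iso hσ (hgs i)).matrix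
  have hn : 3 ≤ Fintype.card ι := by
    rw [Fintype.card_congr e]
    simp only [Fintype.card_pi, Finset.prod_const, Finset.card_univ, Fintype.card_fin]
    calc 3 = 3 ^ 1 := by norm_num
      _ ≤ 3 ^ t := Nat.pow_le_pow_right (by norm_num) ht
  exact Su.sym_ctx_case C hn hS hH hsim

end Main

end Cfsg.Agent.H97.Asch
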