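import Cfsg.Agent.Lib.H97I7

/-!
Unitary case: tensor products, tensor powers, almost simple groups, and the main theorem.
-/

set_option autoImplicit false
set_option linter.unusedSectionVars false
set_option linter.style.haveILetI false

namespace Cfsg.Agent.H97.Asch

open Matrix Cfsg Cfsg.Geo
open scoped MatrixGroups commutatorElement Kronecker

variable {ι : Type} [Fintype ι] [DecidableEq ι] {F : Type*} [Field F] [Fintype F]
  {f : (ι → F) → (ι → F) → F} {σ : F ≃+* F} {q : ℕ} {H : Subgroup (GL ι F)}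

/-- All tensor power cases. -/
theorem Su.wreath_case [Nonempty ι] (C : SUCtx σ q f) (hfix : FFix f H) {m t : ℕ} {e : ι ≃ (Fin t → Fin m)} {P : GL ι F}
    {A₀ : Matrix (Fin m) (Fin m) F} {κ ε₁ : F} (hm : 2 ≤ m) (ht : 2 ≤ t)
    (hW : FWreath (σ : F →+* F) 1 f H e P A₀ κ ε₁) : SuOutcome q f H := by
  classical
  haveI : NeZero m := ⟨by omega⟩
  by_cases hm2 : m = 2
  · subst hm2
    exact Su.wreath_two C hfix (by omega) hW
  by_cases hex : q = 2 ∧ m = 3
  · obtain ⟨rfl, rfl⟩ := hex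
    exact Su.wreath_23 C hfix (by omega) hW
  · obtain ⟨A₁, P', κ', hctx, hW'⟩ := C.wreath_herm hW
    have hσq : (fun x : F => x ^ q) = ((σ : F →+* F) : F → F) := by
      funext x
      exact (C.pow x).symm
    refine Or.inr <| Or.inr <| Or.inr <| Or.inr <| Or.inr <| Or.inr <| Or.inr <| Or.inr <| Or.inr <| Or.inr <| Or.inl
      ⟨m, t, e, P', formOfGram ((σ : F →+* F) : F → F) A₁, by omega, ht, hex, isUnitaryFormPow_of_ctx C.pow hctx,
        ⟨κ', hW'.ne, fun x y => ?_⟩, hW'.le⟩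
    rw [hW'.eqn, gramMatrix_formOfGram, hσq]

/-- All tensor product cases. -/
theorem Su.tensor_case [Nonempty ι] (C : SUCtx σ q f) (hfix : FFix f H) {d m : ℕ} {e : ι ≃ Fin d × Fin m} {P : GL ι F}
    {A₀ : Matrix (Fin d) (Fin d) F} {C₀ : Matrix (Fin m) (Fin m) F} {ε₁ ε₂ : F} (hd : 2 ≤ d) (hm : 2 ≤ m)
    (hT : FTensor (σ : F →+* F) 1 f H e P A₀ C₀ ε₁ ε₂) : SuOutcome q f H := by
  classical
  have hσq : (fun x : F => x ^ q) = ((σ : F →+* F) : F → F) := by
    funext x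
    exact (C.pow x).symm
  -- normalise the forms to be hermitian
  haveI hned : Nonempty (Fin d) := ⟨⟨0, by omega⟩⟩
  obtain ⟨z, hz0, hz⟩ := C.hilbert90 hT.ctx₁.eps_norm
  have hA : FCtx (σ : F →+* F) 1 (formOfGram ((σ : F →+* F) : F → F) (z • A₀)) := by
    refine FCtx.scale hT.ctx₁ hz0 ?_
    show z * ε₁ = 1 * σ z
    rw [hz]
    ring
  have hmul : ε₁ * ε₂ = 1 := hT.mul
  have hε₁0 : ε₁ ≠ 0 := left_ne_zero_of_mul_eq_one hmul
  have hC : FCtx (σ : F →+* F) 1 (formOfGram ((σ : F →+* F) : F → F) (z⁻¹ • C₀)) := by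
    refine FCtx.scale hT.ctx₂ (inv_ne_zero hz0) ?_
    show z⁻¹ * ε₂ = 1 * σ z⁻¹
    rw [map_inv₀, hz]
    field_simp
    linear_combination hmul
  have hT' : FTensor (σ : F →+* F) 1 f H e P (z • A₀) (z⁻¹ • C₀) 1 1 := by
    refine ⟨hT.le, fun x y => ?_, hA, hC, by ring⟩
    rw [hT.eqn]
    refine Finset.sum_congr rfl fun a _ => Finset.sum_congr rfl fun b _ => ?_
    simp only [Matrix.smul_apply, smul_eq_mul]
    field_simp
  have final : ∀ (d m : ℕ) (e : ι ≃ Fin d × Fin m) (A : Matrix (Fin d) (Fin d) F) (B : Matrix (Fin m) (Fin m) F),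
      2 ≤ d → d < m → FTensor (σ : F →+* F) 1 f H e P A B 1 1 → SuOutcome q f H := by
    intro d m e A B hd hlt hT
    refine Or.inr <| Or.inr <| Or.inr <| Or.inr <| Or.inr <| Or.inr <| Or.inr <| Or.inr <| Or.inr <| Or.inl
      ⟨d, m, e, P, formOfGram ((σ : F →+* F) : F → F) A, formOfGram ((σ : F →+* F) : F → F) B, hd, hlt,
        isUnitaryFormPow_of_ctx C.pow hT.ctx₁, isUnitaryFormPow_of_ctx C.pow hT.ctx₂, ⟨1, one_ne_zero, fun x y => ?_⟩, hT.le⟩
    rw [hT.eqn, gramMatrix_formOfGram, gramMatrix_formOfGram, one_mul, hσq]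
    rfl
  rcases lt_trichotomy d m with hlt | heq | hgt
  · exact final _ _ _ _ _ hd hlt hT'
  · subst heq
    haveI : NeZero d := ⟨by omega⟩
    obtain ⟨T, hTc⟩ := herm_classify hT'.ctx₂ hT'.ctx₁ C.exists_trace C.hN
    obtain ⟨P', hW⟩ := wreath_of_tensor C.fctx hT' T (c := 1) one_ne_zero (by rw [one_smul]; exact hTc)
    exact Su.wreath_case C hfix hd le_rfl hW
  · exact final _ _ _ _ _ hm hgt hT'.swap

/-- the almost simple case -/
theorem Su.core_case [Nonempty ι] (C : SUCtx σ q f) (hn : 2 ≤ Fintype.card ι) {P : Subgroup (GL ι F)} (hfix : FFix f H)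
    (hP : CoreNS H P) : SuOutcome q f H := by
  classical
  have habs := habs_of_matrixSet hP.absIrred
  have hPfix : ∀ g ∈ P, ∀ u v, f ((g : Matrix ι ι F) *ᵥ u) ((g : Matrix ι ι F) *ᵥ v) = f u v := fun g hg u v => hfix g (hP.le hg) u v
  by_cases hsub : ∃ F₀ : Subfield F, F₀ ≠ ⊤ ∧ RealisableOver F₀ (matrixSet P)
  · obtain ⟨F₀, hF₀, B, hB⟩ := hsub
    exact Su.subfield_case C hn hP.normal habs ((actsIrreducibly_iff P).mp hP.absIrred.1) hF₀ (fun s hs i j => hB _ ⟨s, hs, rfl⟩ i j)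
      (fun g hg => ⟨1, F₀.one_mem, fun u v => by rw [hPfix g hg, one_mul]⟩)
  · by_cases hQ : ∃ Q : (ι → F) → F, IsNondegenerateQuadraticForm Q ∧ FixesQuadForm (matrixSet P) Q
    · exfalso
      obtain ⟨Q, hQn, hQfix⟩ := hQ
      have hQP : ∀ g ∈ P, ∀ v, Q ((g : Matrix ι ι F) *ᵥ v) = Q v := fun g hg v => hQfix _ ⟨g, hg, rfl⟩ v
      have hβfix : ∀ g ∈ P, ∀ u v, QuadraticMap.polar Q ((g : Matrix ι ι F) *ᵥ u) ((g : Matrix ι ι F) *ᵥ v) = QuadraticMap.polar Q u v := by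
        intro g hg u v
        simp only [QuadraticMap.polar]
        rw [← Matrix.mulVec_add, hQP g hg, hQP g hg, hQP g hg]
      obtain ⟨F₀, hF₀, hreal⟩ := descent C.unitary C.norm habs hPfix (sesq_of_bilinear hQn.polar_bilinear)
        (fun v hv => (hQn.nondegenerate v hv).1) hβfix
      exact hsub ⟨F₀, hF₀, hreal⟩
    · by_cases hS : ∃ f' : (ι → F) → (ι → F) → F, IsSymplecticForm f' ∧ FixesForm (matrixSet P) f'
      · exfalso
        obtain ⟨f', hf', hfixf⟩ := hS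
        obtain ⟨F₀, hF₀, hreal⟩ := descent C.unitary C.norm habs hPfix (sesq_of_bilinear hf'.bilinear)
          (fun v hv => (hf'.nondegenerate v hv).1) (fun g hg u v => hfixf _ ⟨g, hg, rfl⟩ u v)
        exact hsub ⟨F₀, hF₀, hreal⟩
      · push Not at hsub
        exact Or.inr <| Or.inr <| Or.inr <| Or.inr <| Or.inr <| Or.inr <| Or.inr <| Or.inr <| Or.inr <| Or.inr <| Or.inr
          ⟨P, hP.toCore hsub, hQ, hS⟩

/-- The reduction theorem for unitary groups. -/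
theorem Su.main [Nonempty ι] (hn : 3 ≤ Fintype.card ι) (C : SUCtx σ q f) (hfix : FFix f H) : SuOutcome q f H := by
  classical
  by_cases hirr : Irr H
  · rcases star_flow C.fctx (by omega) hirr hfix with h | ⟨ℓ, K, N, hℓ, hK, hst, hle, -, -, -⟩ |
      ⟨d, m, e, P, A₀, C₀, ε₁, ε₂, hd, hm, -, hT⟩ | ⟨N, hNH, hNn, hNt, hNc, hZN, hmin⟩ | ⟨m, t, e, P, A₀, κ, ε₁, hm, ht, -, hW⟩ | ⟨P, hP⟩
    · exact Su.class2_case h
    · exact Su.field_case C hℓ hK hst hle
    · exact Su.tensor_case C hfix hd hm hT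
    · exact Su.sym_case C hn hfix hNH hNn hNt hNc hZN hmin
    · exact Su.wreath_case C hfix hm ht hW
    · exact Su.core_case C (by omega) hfix hP
  · exact Su.reducible_case C.fctx hfix hirr

end Cfsg.Agent.H97.Asch
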