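import Cfsg.Agent.Lib.H97I8

/-!
Transvections versus the geometric classes: tensor decompositions, groups of symplectic type, decompositions, subfields.
-/

set_option autoImplicit false
set_option linter.unusedSectionVars false
set_option linter.style.haveILetI false

namespace Cfsg.Agent.H97.Asch

open Matrix Cfsg Cfsg.Geo
open scoped MatrixGroups commutatorElement Kronecker

variable {ι : Type} [Fintype ι] [DecidableEq ι] {F : Type*} [Field F] [Fintype F]

/-- transport of a transvection to other coordinates -/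
theorem tv_transport {κ : Type} [Fintype κ] [DecidableEq κ] (e : ι ≃ κ) (P : GL ι F) {k : GL κ F} {φ : Module.Dual F (ι → F)} {a : ι → F}
    (h : φ a = 0) (ha : a ≠ 0) (hφ : φ ≠ 0) (hk : P * glReindex e.symm k * P⁻¹ = tvG h) :
    ∃ (ψ : Module.Dual F (κ → F)) (w : κ → F), ψ ≠ 0 ∧ w ≠ 0 ∧ ∀ z, (k : Matrix κ κ F) *ᵥ z = z + ψ z • w := by
  classical
  let Φ : (κ → F) →ₗ[F] (ι → F) := (Matrix.toLin' (P : Matrix ι ι F)).comp (LinearMap.funLeft F F e)
  have hΦ : ∀ z, Φ z = (P : Matrix ι ι F) *ᵥ (z ∘ e) := fun z => rfl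
  have hΦinj : Function.Injective Φ := by
    intro z z' hzz
    rw [hΦ, hΦ] at hzz
    have h3 := gl_mulVec_injective P hzz
    funext w
    have := congrFun h3 (e.symm w)
    simpa using this
  have hΦsurj : ∀ v, ∃ z, Φ z = v := by
    intro v
    obtain ⟨x, hx⟩ := pv_surj e P v
    exact ⟨x, hx.symm⟩
  obtain ⟨w, hw⟩ := hΦsurj a
  have hact : ∀ z, Φ ((k : Matrix κ κ F) *ᵥ z) = Φ z + φ (Φ z) • a := by
    intro z
    rw [← tvG_mulVec h, ← hk, hΦ, hΦ, gl_mulVec_mul, gl_mulVec_mul, gl_inv_mulVec, reindex_mulVec]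
  refine ⟨φ ∘ₗ Φ, w, ?_, ?_, fun z => hΦinj ?_⟩
  · intro h0
    apply hφ
    refine LinearMap.ext fun v => ?_
    obtain ⟨z, rfl⟩ := hΦsurj v
    have := congrArg (fun l : Module.Dual F (κ → F) => l z) h0
    simpa using this
  · rintro rfl
    apply ha
    rw [← hw, map_zero]
  · rw [hact, map_add, map_smul, hw]
    rfl

/-- A linear functional vanishes somewhere off a line. -/
theorem exists_ker_ne {m : ℕ} (hm : 2 ≤ m) (ℓ : Module.Dual F (Fin m → F)) : ∃ x : Fin m → F, x ≠ 0 ∧ ℓ x = 0 := by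
  classical
  have hker : LinearMap.ker ℓ ≠ ⊥ := by
    apply LinearMap.ker_ne_bot_of_finrank_lt
    simp
    omega
  obtain ⟨v, hv, hv0⟩ := (Submodule.ne_bot_iff _).mp hker
  exact ⟨v, hv0, LinearMap.mem_ker.mp hv⟩

/-- A functional on a space of dimension at least three has a zero off any given line. -/
theorem exists_ker_off {m : ℕ} (hm : 3 ≤ m) (ℓ : Module.Dual F (Fin m → F)) (y : Fin m → F) :
    ∃ x : Fin m → F, x ≠ 0 ∧ ℓ x = 0 ∧ x ∉ Submodule.span F {y} := by
  classical
  by_contra hall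
  push Not at hall
  have hle : LinearMap.ker ℓ ≤ Submodule.span F {y} := by
    intro x hx
    by_cases h0 : x = 0
    · rw [h0]
      exact Submodule.zero_mem _
    · exact hall x h0 (LinearMap.mem_ker.mp hx)
  have h1 := Submodule.finrank_mono hle
  have h2 : Module.finrank F (Submodule.span F {y}) ≤ 1 := (finrank_span_le_card ({y} : Set (Fin m → F))).trans (by simp)
  have h3 := LinearMap.finrank_range_add_finrank_ker ℓ
  have h4 : Module.finrank F (LinearMap.range ℓ) ≤ 1 := by
    have := Submodule.finrank_le (LinearMap.range ℓ)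
    simpa using this
  simp only [Module.finrank_fin_fun] at h3
  omega

section Tensor

variable {n₁ n₂ : ℕ}

theorem tvP_smul_left (c : F) (x : Fin n₁ → F) (y : Fin n₂ → F) : tvP (c • x) y = c • tvP x y := by
  ext z
  simp only [tvP, Pi.smul_apply, smul_eq_mul]
  ring

theorem tvP_smul_right (c : F) (x : Fin n₁ → F) (y : Fin n₂ → F) : tvP x (c • y) = c • tvP x y := by
  ext z
  simp only [tvP, Pi.smul_apply, smul_eq_mul]
  ring

/-- linear in the second argument -/
noncomputable def tvPr (x : Fin n₁ → F) : (Fin n₂ → F) →ₗ[F] (Fin n₁ × Fin n₂ → F) where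
  toFun y := tvP x y
  map_add' y y' := by
    ext z
    simp [tvP, mul_add]
  map_smul' c y := by
    rw [tvP_smul_right]
    rfl

/-- linear in the first argument -/
noncomputable def tvPl (y : Fin n₂ → F) : (Fin n₁ → F) →ₗ[F] (Fin n₁ × Fin n₂ → F) where
  toFun x := tvP x y
  map_add' x x' := by
    ext z
    simp [tvP, add_mul]
  map_smul' c x := by
    rw [tvP_smul_left]
    rfl

/-- equal pure tensors have proportional factors -/
theorem tvP_eq_left {x x' : Fin n₁ → F} {y y' : Fin n₂ → F} (hx : x ≠ 0) (hy : y ≠ 0) (h : tvP x' y' = tvP x y) :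
    ∃ c : F, x = c • x' := by
  obtain ⟨b, hb⟩ := Function.ne_iff.mp hy
  refine ⟨y' b / y b, ?_⟩
  ext a
  have := congrFun h (a, b)
  simp only [tvP] at this
  have hb' : y b ≠ 0 := hb
  simp only [Pi.smul_apply, smul_eq_mul]
  field_simp
  linear_combination -this

theorem tvP_eq_right {x x' : Fin n₁ → F} {y y' : Fin n₂ → F} (hx : x ≠ 0) (hy : y ≠ 0) (h : tvP x' y' = tvP x y) :
    ∃ c : F, y = c • y' := by
  obtain ⟨b, hb⟩ := Function.ne_iff.mp hx
  refine ⟨x' b / x b, ?_⟩
  ext a
  have := congrFun h (b, a)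
  simp only [tvP] at this
  have hb' : x b ≠ 0 := hb
  simp only [Pi.smul_apply, smul_eq_mul]
  field_simp
  linear_combination -this

end Tensor

theorem prop_inv {κ : Type} {x y : κ → F} {c : F} (hc0 : c ≠ 0) (h : x = c • y) : y = c⁻¹ • x := by
  rw [h, smul_smul, inv_mul_cancel₀ hc0, one_smul]

/-- Transvections are not in tensor product subgroups. -/
theorem tv_not_mem_tensor {n₁ n₂ : ℕ} (h1 : 2 ≤ n₁) (h2 : 2 ≤ n₂) (e : ι ≃ Fin n₁ × Fin n₂) (P : GL ι F) {φ : Module.Dual F (ι → F)} {a : ι → F}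
    (h : φ a = 0) (ha : a ≠ 0) (hφ : φ ≠ 0) : tvG h ∉ tensorProductSubgroup n₁ n₂ e P := by
  classical
  intro hmem
  obtain ⟨_, ⟨k, ⟨A, B, hk⟩, rfl⟩, hk'⟩ := hmem
  obtain ⟨ψ, w, hψ, hw, hact⟩ := tv_transport e P h ha hφ hk'
  have hfix : ∀ x y, ψ (tvP x y) = 0 → tvP ((A : Matrix (Fin n₁) (Fin n₁) F) *ᵥ x) ((B : Matrix (Fin n₂) (Fin n₂) F) *ᵥ y) = tvP x y := by
    intro x y hxy
    rw [← kron_mulVec_tvP, ← hk, hact, hxy, zero_smul, add_zero]
  obtain ⟨α, hα⟩ : ∃ α : F, (A : Matrix (Fin n₁) (Fin n₁) F) = α • 1 := by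
    apply scalar_of_all_eigen
    intro x
    by_cases hx : x = 0
    · exact ⟨0, by simp [hx]⟩
    obtain ⟨y, hy0, hy⟩ := exists_ker_ne h2 (ψ ∘ₗ tvPr x)
    obtain ⟨c, hc⟩ := tvP_eq_left hx hy0 (hfix x y hy)
    by_cases hc0 : c = 0
    · exact absurd (by rw [hc, hc0, zero_smul]) hx
    · exact ⟨c⁻¹, prop_inv hc0 hc⟩
  obtain ⟨β, hβ⟩ : ∃ β : F, (B : Matrix (Fin n₂) (Fin n₂) F) = β • 1 := by
    apply scalar_of_all_eigen
    intro y
    by_cases hy : y = 0
    · exact ⟨0, by simp [hy]⟩
    obtain ⟨x, hx0, hx⟩ := exists_ker_ne h1 (ψ ∘ₗ tvPl y)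
    obtain ⟨c, hc⟩ := tvP_eq_right hx0 hy (hfix x y hx)
    by_cases hc0 : c = 0
    · exact absurd (by rw [hc, hc0, zero_smul]) hy
    · exact ⟨c⁻¹, prop_inv hc0 hc⟩
  have hscal : ∀ z, (k : Matrix (Fin n₁ × Fin n₂) (Fin n₁ × Fin n₂) F) *ᵥ z = (α * β) • z := by
    intro z
    rw [hk, hα, hβ]
    have : ((α • (1 : Matrix (Fin n₁) (Fin n₁) F)) ⊗ₖ (β • (1 : Matrix (Fin n₂) (Fin n₂) F))) = (α * β) • (1 : Matrix (Fin n₁ × Fin n₂) (Fin n₁ × Fin n₂) F) := by
      ext x y
      simp only [Matrix.kroneckerMap_apply, Matrix.smul_apply, smul_eq_mul, Matrix.one_apply, Prod.ext_iff]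
      by_cases h3 : x.1 = y.1 <;> by_cases h4 : x.2 = y.2 <;> simp [h3, h4]
    rw [this, Matrix.smul_mulVec, Matrix.one_mulVec]
  -- a common fixed vector
  have hn₀ : Nonempty (Fin n₁) := ⟨⟨0, by omega⟩⟩
  obtain ⟨x₀, hx₀⟩ : ∃ x₀ : Fin n₁ → F, x₀ ≠ 0 := by
    refine ⟨Pi.single ⟨0, by omega⟩ 1, ?_⟩
    intro h0
    have := congrFun h0 ⟨0, by omega⟩
    simp at this
  obtain ⟨y₀, hy₀, hy⟩ := exists_ker_ne h2 (ψ ∘ₗ tvPr x₀)
  have hv0 : tvP x₀ y₀ ≠ 0 := by
    obtain ⟨i, hi⟩ := Function.ne_iff.mp hx₀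
    obtain ⟨j, hj⟩ := Function.ne_iff.mp hy₀
    intro h0
    have := congrFun h0 (i, j)
    simp only [tvP, Pi.zero_apply] at this
    exact mul_ne_zero hi hj this
  have hγ : α * β = 1 := by
    have h3 := hscal (tvP x₀ y₀)
    have hy' : ψ (tvP x₀ y₀) = 0 := hy
    rw [hact, hy', zero_smul, add_zero] at h3
    have h4 : (α * β - 1) • tvP x₀ y₀ = 0 := by
      rw [sub_smul, one_smul, ← h3, sub_self]
    rcases smul_eq_zero.mp h4 with h5 | h5
    · exact sub_eq_zero.mp h5
    · exact absurd h5 hv0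
  apply hψ
  refine LinearMap.ext fun z => ?_
  have h3 := hscal z
  rw [hact, hγ, one_smul] at h3
  have h4 : ψ z • w = 0 := by
    have := add_left_cancel (a := z) (b := ψ z • w) (c := 0) (by rw [h3, add_zero])
    exact this
  rcases smul_eq_zero.mp h4 with h5 | h5
  · simpa using h5
  · exact absurd h5 hw

section Wreath

variable {m t : ℕ}

theorem tvW_eval_update (u : Fin t → Fin m → F) (z : Fin t → Fin m) (j : Fin t) (l : Fin m) :
    tvW u (Function.update z j l) = u j l * ∏ i ∈ Finset.univ.erase j, u i (z i) := by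
  classical
  rw [tvW, ← Finset.mul_prod_erase Finset.univ _ (Finset.mem_univ j), Function.update_self]
  congr 1
  refine Finset.prod_congr rfl fun i hi => ?_
  rw [Function.update_of_ne (Finset.ne_of_mem_erase hi)]

theorem tvW_update_eval (u : Fin t → Fin m → F) (k : Fin t) (x : Fin m → F) (z : Fin t → Fin m) :
    tvW (Function.update u k x) z = x (z k) * ∏ i ∈ Finset.univ.erase k, u i (z i) := by
  classical
  rw [tvW, ← Finset.mul_prod_erase Finset.univ _ (Finset.mem_univ k), Function.update_self]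
  congr 1
  refine Finset.prod_congr rfl fun i hi => ?_
  rw [Function.update_of_ne (Finset.ne_of_mem_erase hi)]

/-- pure tensors are linear in each coordinate -/
noncomputable def tvWu (u : Fin t → Fin m → F) (k : Fin t) : (Fin m → F) →ₗ[F] ((Fin t → Fin m) → F) where
  toFun x := tvW (Function.update u k x)
  map_add' x y := by
    ext z
    simp only [Pi.add_apply, tvW_update_eval, add_mul]
  map_smul' c x := by
    ext z
    simp only [Pi.smul_apply, tvW_update_eval, smul_eq_mul, RingHom.id_apply, mul_assoc]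

theorem tvWu_apply (u : Fin t → Fin m → F) (k : Fin t) (x : Fin m → F) : tvWu u k x = tvW (Function.update u k x) := rfl

/-- equal pure tensors have proportional factors -/
theorem tvW_prop {a b : Fin t → Fin m → F} (hb : ∀ i, b i ≠ 0) (h : tvW a = tvW b) (j : Fin t) : ∃ c : F, b j = c • a j := by
  classical
  choose z hz using fun i => Function.ne_iff.mp (hb i)
  have hB : ∏ i ∈ Finset.univ.erase j, b i (z i) ≠ 0 := Finset.prod_ne_zero_iff.mpr fun i _ => hz i
  refine ⟨(∏ i ∈ Finset.univ.erase j, a i (z i)) / ∏ i ∈ Finset.univ.erase j, b i (z i), ?_⟩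
  ext l
  have h1 := congrFun h (Function.update z j l)
  rw [tvW_eval_update, tvW_eval_update] at h1
  simp only [Pi.smul_apply, smul_eq_mul]
  field_simp
  linear_combination -h1

end Wreath

/-- Transvections are not in tensor wreath products. -/
theorem tv_not_mem_wreath {m t : ℕ} (hm : 2 ≤ m) (ht : 2 ≤ t) (hmt : 3 ≤ m ∨ 3 ≤ t) (e : ι ≃ (Fin t → Fin m)) (P : GL ι F)
    {φ : Module.Dual F (ι → F)} {a : ι → F} (h : φ a = 0) (ha : a ≠ 0) (hφ : φ ≠ 0) : tvG h ∉ tensorWreathSubgroup m t e P := by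
  classical
  intro hmem
  obtain ⟨_, ⟨k, hk, rfl⟩, hk'⟩ := hmem
  obtain ⟨ψ, w, hψ, hw, hact⟩ := tv_transport e P h ha hφ hk'
  obtain ⟨τ, gs, rfl⟩ := wreath_nf hk
  have hact₀ : ∀ u : Fin t → Fin m → F, ((permG τ * pureG gs : GL (Fin t → Fin m) F) : Matrix (Fin t → Fin m) (Fin t → Fin m) F) *ᵥ tvW u =
      tvW (fun i => (gs (τ⁻¹ i) : Matrix (Fin m) (Fin m) F) *ᵥ u (τ⁻¹ i)) := by
    intro u
    rw [Units.val_mul, ← Matrix.mulVec_mulVec, pureG_val, permG_val, pureM_mulVec_tvW, permM_mulVec_tvW]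
  have hfix : ∀ u : Fin t → Fin m → F, ψ (tvW u) = 0 → tvW (fun i => (gs (τ⁻¹ i) : Matrix (Fin m) (Fin m) F) *ᵥ u (τ⁻¹ i)) = tvW u := by
    intro u hu
    rw [← hact₀, hact, hu, zero_smul, add_zero]
  let e₀ : Fin m → F := Pi.single ⟨0, by omega⟩ 1
  have he₀ : e₀ ≠ 0 := by
    intro h0
    have := congrFun h0 ⟨0, by omega⟩
    simp [e₀] at this
  have hne : ∀ (i k : Fin t) (x y : Fin m → F), x ≠ 0 → y ≠ 0 → ∀ l,
      Function.update (Function.update (fun _ => e₀) i x) k y l ≠ 0 := by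
    intro i k x y hx hy l
    by_cases h1 : l = k
    · subst h1
      simpa using hy
    · rw [Function.update_of_ne h1]
      by_cases h2 : l = i
      · subst h2
        simpa using hx
      · rw [Function.update_of_ne h2]
        exact he₀
  by_cases hτ : τ = 1
  · subst hτ
    have hscal : ∀ i, ∃ c : F, (gs i : Matrix (Fin m) (Fin m) F) = c • 1 := by
      intro i
      apply scalar_of_all_eigen
      intro x
      by_cases hx : x = 0
      · exact ⟨0, by simp [hx]⟩
      obtain ⟨i', hi'⟩ : ∃ i' : Fin t, i' ≠ i := by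
        by_cases h0 : (i : ℕ) = 0
        · refine ⟨⟨1, by omega⟩, fun h1 => ?_⟩
          have := congrArg Fin.val h1
          simp at this
          omega
        · refine ⟨⟨0, by omega⟩, fun h1 => ?_⟩
          have := congrArg Fin.val h1
          simp at this
          omega
      obtain ⟨y, hy0, hy⟩ := exists_ker_ne hm (ψ ∘ₗ tvWu (Function.update (fun _ => e₀) i x) i')
      have hfx := hfix (Function.update (Function.update (fun _ => e₀) i x) i' y) hy
      obtain ⟨c, hc⟩ := tvW_prop (hne i i' x y hx hy0) hfx i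
      have hinv1 : (1 : Equiv.Perm (Fin t))⁻¹ i = i := by simp
      simp only [hinv1, Function.update_of_ne hi'.symm, Function.update_self] at hc
      by_cases hc0 : c = 0
      · exact absurd (by rw [hc, hc0, zero_smul]) hx
      · exact ⟨c⁻¹, prop_inv hc0 hc⟩
    choose α hα using hscal
    have hT : ∀ z, ((permG (1 : Equiv.Perm (Fin t)) * pureG gs : GL (Fin t → Fin m) F) : Matrix (Fin t → Fin m) (Fin t → Fin m) F) *ᵥ z = (∏ i, α i) • z := by
      intro z
      rw [Units.val_mul, permG_val, permM_one, Matrix.one_mul, pureG_val]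
      have : pureM (fun i => (gs i : Matrix (Fin m) (Fin m) F)) = pureM (fun i => α i • (1 : Matrix (Fin m) (Fin m) F)) := by
        congr 1
        funext i
        exact hα i
      have hone : (pureM fun _ : Fin t => (1 : Matrix (Fin m) (Fin m) F)) = 1 := pureM_one
      rw [this, pureM_smul', hone, Matrix.smul_mulVec, Matrix.one_mulVec]
    -- a common fixed vector
    let i₀ : Fin t := ⟨0, by omega⟩
    let i₁ : Fin t := ⟨1, by omega⟩
    have hi : i₁ ≠ i₀ := by simp [i₀, i₁, Fin.ext_iff]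
    obtain ⟨y, hy0, hy⟩ := exists_ker_ne hm (ψ ∘ₗ tvWu (fun _ => e₀) i₀)
    let u : Fin t → Fin m → F := Function.update (fun _ => e₀) i₀ y
    have hu0 : ∀ l, u l ≠ 0 := by
      intro l
      by_cases h1 : l = i₀
      · subst h1
        simpa [u] using hy0
      · simp only [u]
        rw [Function.update_of_ne h1]
        exact he₀
    have hv0 : tvW u ≠ 0 := by
      choose z hz using fun i => Function.ne_iff.mp (hu0 i)
      intro h0
      have h1 := congrFun h0 z
      simp only [tvW, Pi.zero_apply] at h1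
      exact (Finset.prod_ne_zero_iff.mpr fun i _ => hz i) h1
    have hγ : (∏ i, α i) = 1 := by
      have h3 := hT (tvW u)
      have hy' : ψ (tvW u) = 0 := hy
      rw [hact, hy', zero_smul, add_zero] at h3
      have h4 : ((∏ i, α i) - 1) • tvW u = 0 := by
        rw [sub_smul, one_smul, ← h3, sub_self]
      rcases smul_eq_zero.mp h4 with h5 | h5
      · exact sub_eq_zero.mp h5
      · exact absurd h5 hv0
    apply hψ
    refine LinearMap.ext fun z => ?_
    have h3 := hT z
    rw [hact, hγ, one_smul] at h3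
    have h4 : ψ z • w = 0 := add_left_cancel (a := z) (b := ψ z • w) (c := 0) (by rw [h3, add_zero])
    rcases smul_eq_zero.mp h4 with h5 | h5
    · simpa using h5
    · exact absurd h5 hw
  · obtain ⟨i₀, hi₀⟩ : ∃ i₀, τ i₀ ≠ i₀ := by
      by_contra hall
      push Not at hall
      exact hτ (Equiv.ext hall)
    set j₀ := τ i₀ with hj₀
    have hτj : τ⁻¹ j₀ = i₀ := by
      rw [hj₀]
      simp
    have key : ∀ u : Fin t → Fin m → F, (∀ l, u l ≠ 0) → ψ (tvW u) = 0 →
        u j₀ ∈ Submodule.span F {(gs i₀ : Matrix (Fin m) (Fin m) F) *ᵥ u i₀} := by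
      intro u hu hu0
      obtain ⟨c, hc⟩ := tvW_prop hu (hfix u hu0) j₀
      simp only [hτj] at hc
      rw [hc]
      exact Submodule.smul_mem _ _ (Submodule.mem_span_singleton_self _)
    rcases hmt with hm3 | ht3
    · -- large factors
      obtain ⟨x, hx0, hx, hxs⟩ := exists_ker_off hm3 (ψ ∘ₗ tvWu (fun _ => e₀) j₀) ((gs i₀ : Matrix (Fin m) (Fin m) F) *ᵥ e₀)
      have h1 := key (Function.update (fun _ => e₀) j₀ x) (fun l => by
        by_cases h1 : l = j₀
        · subst h1
          simpa using hx0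
        · rw [Function.update_of_ne h1]
          exact he₀) hx
      rw [Function.update_self, Function.update_of_ne hi₀.symm] at h1
      exact hxs h1
    · -- many factors
      obtain ⟨k₀, hk₁, hk₂⟩ : ∃ k₀ : Fin t, k₀ ≠ i₀ ∧ k₀ ≠ j₀ := by
        by_contra hall
        push Not at hall
        have hsub : (Finset.univ : Finset (Fin t)) ⊆ {i₀, j₀} := by
          intro l _
          by_cases h1 : l = i₀
          · simp [h1]
          · simp [hall l h1]
        have := Finset.card_le_card hsub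
        rw [Finset.card_univ, Fintype.card_fin] at this
        have h2 := Finset.card_le_two (a := i₀) (b := j₀)
        omega
      obtain ⟨x, hx⟩ : ∃ x : Fin m → F, x ∉ Submodule.span F {(gs i₀ : Matrix (Fin m) (Fin m) F) *ᵥ e₀} := by
        by_contra hall
        push Not at hall
        have hle : (⊤ : Submodule F (Fin m → F)) ≤ Submodule.span F {(gs i₀ : Matrix (Fin m) (Fin m) F) *ᵥ e₀} := fun x _ => hall x
        have h2 := Submodule.finrank_mono hle
        have h3 : Module.finrank F (Submodule.span F {(gs i₀ : Matrix (Fin m) (Fin m) F) *ᵥ e₀}) ≤ 1 :=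
          (finrank_span_le_card ({(gs i₀ : Matrix (Fin m) (Fin m) F) *ᵥ e₀} : Set (Fin m → F))).trans (by simp)
        rw [finrank_top, Module.finrank_fin_fun] at h2
        omega
      have hx0 : x ≠ 0 := by
        rintro rfl
        exact hx (Submodule.zero_mem _)
      obtain ⟨y, hy0, hy⟩ := exists_ker_ne hm (ψ ∘ₗ tvWu (Function.update (fun _ => e₀) j₀ x) k₀)
      have h1 := key (Function.update (Function.update (fun _ => e₀) j₀ x) k₀ y) (hne j₀ k₀ x y hx0 hy0) hy
      rw [Function.update_of_ne hk₂.symm, Function.update_self, Function.update_of_ne hk₁.symm, Function.update_of_ne hi₀.symm] at h1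
      exact hx h1

/-- Transvections do not normalise irreducible groups whose commutators are scalars. -/
theorem tv_not_nrm [Nonempty ι] {R : Subgroup (GL ι F)} (hn : 4 ≤ Fintype.card ι) (hirr : Irr R)
    (hcent : ∀ g : GL ι F, (∀ x ∈ R, g * x = x * g) → g ∈ scalars ι F)
    (hcomm : ∀ x ∈ R, ∀ y ∈ R, ∃ ξ : Fˣ, x * y = scU ξ * (y * x))
    {φ : Module.Dual F (ι → F)} {a : ι → F} (h : φ a = 0) (ha : a ≠ 0) (hφ : φ ≠ 0) :
    ¬ ∀ x ∈ R, tvG h * x * (tvG h)⁻¹ ∈ R := by
  classical
  intro hN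
  have hspan_a : ∀ x ∈ R, (x : Matrix ι ι F) *ᵥ a ∈ Submodule.span F {a} := by
    intro x hx
    set T := tvG h with hT
    obtain ⟨b, hb⟩ : ∃ b, b = (x : Matrix ι ι F) *ᵥ a := ⟨_, rfl⟩
    let ψ : Module.Dual F (ι → F) := φ ∘ₗ Matrix.toLin' ((x⁻¹ : GL ι F) : Matrix ι ι F)
    have hψ : ∀ v, ψ v = φ (((x⁻¹ : GL ι F) : Matrix ι ι F) *ᵥ v) := fun v => rfl
    have hψb : ψ b = 0 := by
      rw [hψ, hb, gl_inv_mulVec]
      exact h
    have hyR : T * x * T⁻¹ * x⁻¹ ∈ R := R.mul_mem (hN x hx) (R.inv_mem hx)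
    obtain ⟨y, hy⟩ : ∃ y : GL ι F, y = T * x * T⁻¹ * x⁻¹ := ⟨_, rfl⟩
    have hyR' : y ∈ R := hy ▸ hyR
    have hyv : ∀ v, (y : Matrix ι ι F) *ᵥ v = v - ψ v • b + (φ v - ψ v * φ b) • a := by
      intro v
      have e1 : ((x : Matrix ι ι F) *ᵥ (((T⁻¹ : GL ι F) : Matrix ι ι F) *ᵥ (((x⁻¹ : GL ι F) : Matrix ι ι F) *ᵥ v))) = v - ψ v • b := by
        rw [hT, tvG_inv_mulVec, Matrix.mulVec_sub, gl_mulVec_inv, Matrix.mulVec_smul, ← hb, hψ]
      rw [hy, gl_mulVec_mul, gl_mulVec_mul, gl_mulVec_mul, e1, hT, tvG_mulVec, map_sub, map_smul, smul_eq_mul]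
    -- the common kernel
    let Λ : (ι → F) →ₗ[F] F × F := φ.prod ψ
    have hK₀ : 2 ≤ Module.finrank F (LinearMap.ker Λ) := by
      have h1 := LinearMap.finrank_range_add_finrank_ker Λ
      have h2 : Module.finrank F (LinearMap.range Λ) ≤ 2 := by
        have := Submodule.finrank_le (LinearMap.range Λ)
        simpa using this
      rw [Module.finrank_fintype_fun_eq_card] at h1
      omega
    have hK₀fix : ∀ v ∈ LinearMap.ker Λ, φ v = 0 ∧ ψ v = 0 := by
      intro v hv
      have := LinearMap.mem_ker.mp hv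
      exact ⟨congrArg Prod.fst this, congrArg Prod.snd this⟩
    have hyK₀ : ∀ v ∈ LinearMap.ker Λ, (y : Matrix ι ι F) *ᵥ v = v := by
      intro v hv
      obtain ⟨h1, h2⟩ := hK₀fix v hv
      rw [hyv, h1, h2]
      simp
    obtain ⟨v₀, hv₀, hv₀0⟩ : ∃ v₀ ∈ LinearMap.ker Λ, v₀ ≠ 0 := by
      apply (Submodule.ne_bot_iff _).mp
      intro h0
      rw [h0, finrank_bot] at hK₀
      omega
    let W : Submodule F (ι → F) := Submodule.span F {a, b}
    have hW : Module.finrank F W ≤ 2 := by
      refine (finrank_span_le_card ({a, b} : Set (ι → F))).trans ?_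
      rw [Set.toFinset_insert, Set.toFinset_singleton]
      exact Finset.card_le_two
    have haW : a ∈ W := Submodule.subset_span (by simp)
    have hbW : b ∈ W := Submodule.subset_span (by simp)
    have hys : y ∈ scalars ι F := by
      by_contra hns
      obtain ⟨x', hx', hxy⟩ : ∃ x' ∈ R, y * x' ≠ x' * y := by
        by_contra hall
        push Not at hall
        exact hns (hcent y hall)
      obtain ⟨ξ, hξ⟩ := hcomm x' hx' y hyR'
      have hξ1 : (ξ : F)⁻¹ ≠ 1 := by
        intro h1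
        apply hxy
        have h2 : ξ = 1 := by
          apply Units.ext
          rw [Units.val_one]
          exact inv_eq_one.mp h1
        rw [hξ, h2, map_one, one_mul]
      have hei : ∀ v ∈ LinearMap.ker Λ, (y : Matrix ι ι F) *ᵥ ((x' : Matrix ι ι F) *ᵥ v) = (ξ : F)⁻¹ • ((x' : Matrix ι ι F) *ᵥ v) := by
        intro v hv
        have h1 : (x' : Matrix ι ι F) *ᵥ ((y : Matrix ι ι F) *ᵥ v) = (ξ : F) • ((y : Matrix ι ι F) *ᵥ ((x' : Matrix ι ι F) *ᵥ v)) := by
          rw [← gl_mulVec_mul, hξ, gl_mulVec_mul, scU_val, Matrix.smul_mulVec, Matrix.one_mulVec, gl_mulVec_mul]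
        rw [hyK₀ v hv] at h1
        have h2 : (ξ : F)⁻¹ • ((x' : Matrix ι ι F) *ᵥ v) = (y : Matrix ι ι F) *ᵥ ((x' : Matrix ι ι F) *ᵥ v) := by
          conv_lhs => rw [h1]
          rw [smul_smul, inv_mul_cancel₀ ξ.ne_zero, one_smul]
        exact h2.symm
      have heW : ∀ w : ι → F, (y : Matrix ι ι F) *ᵥ w = (ξ : F)⁻¹ • w → w ∈ W := by
        intro w hw
        have h1 := hyv w
        rw [hw] at h1
        have h2 : ((ξ : F)⁻¹ - 1) • w = (φ w - ψ w * φ b) • a - ψ w • b := by
          rw [sub_smul, one_smul, h1]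
          abel
        have h3 : w = ((ξ : F)⁻¹ - 1)⁻¹ • ((φ w - ψ w * φ b) • a - ψ w • b) := by
          rw [← h2, smul_smul, inv_mul_cancel₀ (sub_ne_zero.mpr hξ1), one_smul]
        rw [h3]
        exact W.smul_mem _ (W.sub_mem (W.smul_mem _ haW) (W.smul_mem _ hbW))
      let X : (ι → F) →ₗ[F] (ι → F) := Matrix.toLin' (x' : Matrix ι ι F)
      have hXinj : Function.Injective X := gl_mulVec_injective x'
      have hle : (LinearMap.ker Λ).map X ≤ W := by
        rintro _ ⟨v, hv, rfl⟩
        exact heW _ (hei v hv)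
      have hrank : Module.finrank F ((LinearMap.ker Λ).map X) = Module.finrank F (LinearMap.ker Λ) :=
        (Submodule.equivMapOfInjective X hXinj _).finrank_eq.symm
      have heq : (LinearMap.ker Λ).map X = W := by
        apply Submodule.eq_of_le_of_finrank_le hle
        rw [hrank]
        omega
      have hfW : Module.finrank F W = 2 := by
        have := Submodule.finrank_mono hle
        rw [hrank] at this
        omega
      obtain ⟨v, hv, hva⟩ : a ∈ (LinearMap.ker Λ).map X := heq ▸ haW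
      have hya := hei v hv
      have hva' : (x' : Matrix ι ι F) *ᵥ v = a := hva
      rw [hva', hyv, h] at hya
      by_cases hψa : ψ a = 0
      · rw [hψa] at hya
        have h4 : ((ξ : F)⁻¹ - 1) • a = 0 := by
          rw [sub_smul, one_smul, ← hya]
          simp
        rcases smul_eq_zero.mp h4 with h5 | h5
        · exact hξ1 (sub_eq_zero.mp h5)
        · exact ha h5
      · have hba : b ∈ Submodule.span F {a} := by
          have h3 : ψ a • b = a + (0 - ψ a * φ b) • a - (ξ : F)⁻¹ • a := by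
            rw [← hya]
            abel
          have h4 : b = (ψ a)⁻¹ • (a + (0 - ψ a * φ b) • a - (ξ : F)⁻¹ • a) := by
            rw [← h3, smul_smul, inv_mul_cancel₀ hψa, one_smul]
          rw [h4]
          exact Submodule.smul_mem _ _ (Submodule.sub_mem _ (Submodule.add_mem _ (Submodule.mem_span_singleton_self a)
            (Submodule.smul_mem _ _ (Submodule.mem_span_singleton_self a))) (Submodule.smul_mem _ _ (Submodule.mem_span_singleton_self a)))
        have hle2 : W ≤ Submodule.span F {a} := by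
          rw [Submodule.span_le]
          rintro z (rfl | hz)
          · exact Submodule.mem_span_singleton_self _
          · rw [Set.mem_singleton_iff] at hz
            rw [SetLike.mem_coe, hz]
            exact hba
        have h5 := Submodule.finrank_mono hle2
        rw [hfW] at h5
        have h6 : Module.finrank F (Submodule.span F {a}) ≤ 1 :=
          (finrank_span_le_card ({a} : Set (ι → F))).trans (by simp)
        omega
    obtain ⟨z, hz⟩ := exists_scU hys
    have hz1 : (z : F) = 1 := by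
      have h1 := hyK₀ v₀ hv₀
      rw [← hz, scU_val, Matrix.smul_mulVec, Matrix.one_mulVec] at h1
      have h4 : ((z : F) - 1) • v₀ = 0 := by
        rw [sub_smul, one_smul, h1, sub_self]
      rcases smul_eq_zero.mp h4 with h5 | h5
      · exact sub_eq_zero.mp h5
      · exact absurd h5 hv₀0
    have hy1 : ∀ v, (y : Matrix ι ι F) *ᵥ v = v := by
      intro v
      rw [← hz, scU_val, Matrix.smul_mulVec, Matrix.one_mulVec, hz1, one_smul]
    obtain ⟨v, hv⟩ : ∃ v, φ v ≠ 0 := by
      by_contra hall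
      push Not at hall
      exact hφ (LinearMap.ext hall)
    have h1 := hyv v
    rw [hy1] at h1
    have h2 : ψ v • b = (φ v - ψ v * φ b) • a := by
      have h3 : v + (ψ v • b - (φ v - ψ v * φ b) • a) = v + 0 := by
        nth_rewrite 1 [h1]
        abel
      have h4 := add_left_cancel h3
      exact sub_eq_zero.mp h4
    by_cases hψv : ψ v = 0
    · rw [hψv] at h2
      simp only [zero_smul, zero_mul, sub_zero] at h2
      rcases smul_eq_zero.mp h2.symm with h5 | h5
      · exact absurd h5 hv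
      · exact absurd h5 ha
    · have h3 : b = (ψ v)⁻¹ • ((φ v - ψ v * φ b) • a) := by
        rw [← h2, smul_smul, inv_mul_cancel₀ hψv, one_smul]
      rw [← hb, h3]
      exact Submodule.smul_mem _ _ (Submodule.smul_mem _ _ (Submodule.mem_span_singleton_self a))
  have hst : Stable R (Submodule.span F {a}) := by
    intro g hg w hw
    obtain ⟨c, rfl⟩ := Submodule.mem_span_singleton.mp hw
    rw [Matrix.mulVec_smul]
    exact Submodule.smul_mem _ _ (hspan_a g hg)
  rcases hirr _ hst with h1 | h1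
  · rw [Submodule.span_singleton_eq_bot] at h1
    exact ha h1
  · have h6 : Module.finrank F (Submodule.span F {a}) ≤ 1 :=
      (finrank_span_le_card ({a} : Set (ι → F))).trans (by simp)
    rw [h1, finrank_top, Module.finrank_fintype_fun_eq_card] at h6
    omega

/-- Transvections stabilise each part of a decomposition with parts of dimension at least two. -/
theorem tv_decomp_fix {t m : ℕ} {D : Fin t → Submodule F (ι → F)} (hD : IsMDecomposition m D) (hm : 2 ≤ m)
    {φ : Module.Dual F (ι → F)} {a : ι → F} (h : φ a = 0) (ht : tvG h ∈ decompositionStabilizer D) (i : Fin t) :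
    tvG h ∈ subspaceStabilizer (D i) := by
  classical
  obtain ⟨π, hπ⟩ := ht
  have hdisj : ∀ i j, i ≠ j → D i ⊓ D j = ⊥ := fun i j hij => (hD.indep.pairwiseDisjoint hij).eq_bot
  have hfix : π i = i := by
    by_contra hne
    -- a vector of the part killed by the functional
    have hker : LinearMap.ker (φ ∘ₗ (D i).subtype) ≠ ⊥ := by
      apply LinearMap.ker_ne_bot_of_finrank_lt
      rw [hD.finrank_eq i]
      simp
      omega
    obtain ⟨w, hw, hw0⟩ := (Submodule.ne_bot_iff _).mp hker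
    have hφw : φ (w : ι → F) = 0 := LinearMap.mem_ker.mp hw
    have h1 : ((tvG h : GL ι F) : Matrix ι ι F) *ᵥ (w : ι → F) ∈ D (π i) := by
      rw [← hπ i]
      exact ⟨w, w.2, rfl⟩
    rw [tvG_mulVec, hφw, zero_smul, add_zero] at h1
    have h4 : (w : ι → F) ∈ D i ⊓ D (π i) := ⟨w.2, h1⟩
    rw [hdisj i (π i) (Ne.symm hne)] at h4
    exact hw0 (Subtype.ext h4)
  have h2 := hπ i
  rw [hfix] at h2
  refine (mem_stab_iff _ _).mpr fun w => ⟨fun hw => ?_, fun hw => ?_⟩
  · rw [← h2]
    exact ⟨w, hw, rfl⟩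
  · rw [← h2] at hw
    obtain ⟨y, hy, hyw⟩ := hw
    have : y = w := gl_mulVec_injective (tvG h) hyw
    rwa [← this]

/-- Rational combinations of independent rational vectors have rational coefficients. -/
theorem rat_coeffs {F₀ : Subfield F} {A B : ι → F} (hA : ∀ k, A k ∈ F₀) (hB : ∀ k, B k ∈ F₀)
    (hind : ∀ α β : F, α • A + β • B = 0 → α = 0 ∧ β = 0) {α β : F} (hC : ∀ k, (α • A + β • B) k ∈ F₀) : α ∈ F₀ ∧ β ∈ F₀ := by
  classical
  have hA0 : A ≠ 0 := by
    rintro rfl
    have := hind 1 0 (by simp)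
    exact one_ne_zero this.1
  obtain ⟨i, hi⟩ := Function.ne_iff.mp hA0
  have hi' : A i ≠ 0 := hi
  obtain ⟨B', hB'⟩ : ∃ B', B' = B - (B i / A i) • A := ⟨_, rfl⟩
  have hB'0 : B' ≠ 0 := by
    intro h0
    rw [h0] at hB'
    have h1 := hind (-(B i / A i)) 1 (by
      rw [neg_smul, one_smul, neg_add_eq_sub]
      exact hB'.symm)
    exact one_ne_zero h1.2
  obtain ⟨j, hj⟩ := Function.ne_iff.mp hB'0
  have hj' : B' j ≠ 0 := hj
  have hB'rat : ∀ k, B' k ∈ F₀ := by
    intro k
    rw [hB']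
    simp only [Pi.sub_apply, Pi.smul_apply, smul_eq_mul]
    exact F₀.sub_mem (hB k) (F₀.mul_mem (F₀.div_mem (hB i) (hA i)) (hA k))
  have hB'i : B' i = 0 := by
    rw [hB']
    simp only [Pi.sub_apply, Pi.smul_apply, smul_eq_mul]
    field_simp
    ring
  set X := α + β * (B i / A i) with hX
  have hC' : ∀ k, (α • A + β • B) k = X * A k + β * B' k := by
    intro k
    rw [hB', hX]
    simp only [Pi.add_apply, Pi.sub_apply, Pi.smul_apply, smul_eq_mul]
    ring
  have hXm : X ∈ F₀ := by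
    have h1 := hC i
    rw [hC', hB'i, mul_zero, add_zero] at h1
    have h2 := F₀.div_mem h1 (hA i)
    rwa [mul_div_assoc, div_self hi', mul_one] at h2
  have hβ : β ∈ F₀ := by
    have h1 := hC j
    rw [hC'] at h1
    have h2 := F₀.div_mem (F₀.sub_mem h1 (F₀.mul_mem hXm (hA j))) (hB'rat j)
    have e : (X * A j + β * B' j - X * A j) / B' j = β := by
      field_simp
      ring
    rwa [e] at h2
  refine ⟨?_, hβ⟩
  have e : α = X - β * (B i / A i) := by
    rw [hX]
    ring
  rw [e]
  exact F₀.sub_mem hXm (F₀.mul_mem hβ (F₀.div_mem (hB i) (hA i)))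

/-- A rational line through all points of a projective line forces the field to be the whole field. -/
theorem subfield_top_of_lines {F₀ : Subfield F} {v v' : ι → F} (hind : ∀ α β : F, α • v + β • v' = 0 → α = 0 ∧ β = 0)
    (hl : ∀ μ : F, ∃ s : F, s ≠ 0 ∧ ∀ k, s * (v + μ • v') k ∈ F₀) (hl' : ∃ s : F, s ≠ 0 ∧ ∀ k, s * v' k ∈ F₀) : F₀ = ⊤ := by
  obtain ⟨s₀, hs₀, h₀⟩ := hl 0
  obtain ⟨s', hs', h'⟩ := hl'
  simp only [zero_smul, add_zero] at h₀
  have hA : ∀ k, (s₀ • v) k ∈ F₀ := fun k => by simpa using h₀ k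
  have hB : ∀ k, (s' • v') k ∈ F₀ := fun k => by simpa using h' k
  have hind' : ∀ α β : F, α • (s₀ • v) + β • (s' • v') = 0 → α = 0 ∧ β = 0 := by
    intro α β h
    rw [smul_smul, smul_smul] at h
    obtain ⟨h1, h2⟩ := hind _ _ h
    exact ⟨(mul_eq_zero.mp h1).resolve_right hs₀, (mul_eq_zero.mp h2).resolve_right hs'⟩
  rw [eq_top_iff]
  intro y _
  by_cases hy : y = 0
  · rw [hy]
    exact F₀.zero_mem
  obtain ⟨s, hs, h⟩ := hl (y * s' / s₀)
  have e : ∀ k, s * (v + (y * s' / s₀) • v') k = ((s / s₀) • (s₀ • v) + (s * (y / s₀)) • (s' • v')) k := by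
    intro k
    simp only [Pi.add_apply, Pi.smul_apply, smul_eq_mul]
    field_simp
  obtain ⟨h1, h2⟩ := rat_coeffs hA hB hind' (α := s / s₀) (β := s * (y / s₀)) (fun k => by rw [← e]; exact h k)
  have h3 := F₀.div_mem h2 h1
  have e2 : s * (y / s₀) / (s / s₀) = y := by
    field_simp
  rwa [e2] at h3

/-- Lines of transvections in a subfield group are rational. -/
theorem tv_line_rational (hn : 3 ≤ Fintype.card ι) {F₀ : Subfield F} {P : GL ι F} {φ : Module.Dual F (ι → F)} {a : ι → F}
    (h : φ a = 0) (hφ : φ ≠ 0) (ht : tvG h ∈ subfieldSubgroup F₀ P) :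
    ∃ s : F, s ≠ 0 ∧ ∀ k, s * (((P⁻¹ : GL ι F) : Matrix ι ι F) *ᵥ a) k ∈ F₀ := by
  classical
  have hrat := tv_rational hn h ht
  obtain ⟨l, hl⟩ : ∃ l, φ ((P : Matrix ι ι F) *ᵥ Pi.single l 1) ≠ 0 := by
    by_contra hall
    push Not at hall
    apply hφ
    refine LinearMap.ext fun x => ?_
    have e : x = (P : Matrix ι ι F) *ᵥ (((P⁻¹ : GL ι F) : Matrix ι ι F) *ᵥ x) := (gl_mulVec_inv P x).symm
    rw [e, gl_mulVec_eq_sum, map_sum]
    refine Finset.sum_eq_zero fun j _ => ?_
    rw [map_smul, hall, smul_zero]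
  refine ⟨_, hl, fun k => ?_⟩
  have h1 := hrat k l
  have h2 : ((P⁻¹ * tvG h * P : GL ι F) : Matrix ι ι F) *ᵥ Pi.single l 1 =
      Pi.single l 1 + (φ ((P : Matrix ι ι F) *ᵥ Pi.single l 1)) • (((P⁻¹ : GL ι F) : Matrix ι ι F) *ᵥ a) := by
    rw [gl_mulVec_mul, gl_mulVec_mul, tvG_mulVec, Matrix.mulVec_add, gl_inv_mulVec, Matrix.mulVec_smul]
  have h3 := congrFun h2 k
  rw [Matrix.mulVec_single_one] at h3
  simp only [Matrix.col_apply, Pi.add_apply, Pi.smul_apply, smul_eq_mul] at h3
  rw [h3] at h1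
  have h4 : (Pi.single l (1 : F) : ι → F) k ∈ F₀ := by
    rw [Pi.single_apply]
    split_ifs
    · exact F₀.one_mem
    · exact F₀.zero_mem
  have := F₀.sub_mem h1 h4
  simpa using this

end Cfsg.Agent.H97.Asch
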