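import Cfsg.Agent.Lib.H97J1

/-!
Maximal subgroups of unitary groups: the unitary group is in no member of the geometric classes.
-/

set_option autoImplicit false
set_option linter.unusedSectionVars false
set_option linter.style.haveILetI false

namespace Cfsg.Agent.H97.Asch

open Matrix Cfsg Cfsg.Geo
open scoped MatrixGroups commutatorElement Kronecker

variable {ι : Type} [Fintype ι] [DecidableEq ι] {F : Type*} [Field F] [Fintype F]
  {f : (ι → F) → (ι → F) → F} {σ : F ≃+* F} {K : Subgroup (GL ι F)}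

/-- The group generated by the transvections -/
def UCtx.tvK (C : UCtx σ f K) : Subgroup (GL ι F) :=
  Subgroup.closure {g | ∃ (a : ι → F) (c : F) (h : uDual C.unitary a c a = 0), f a a = 0 ∧ σ c = -c ∧ g = tvG h}

theorem UCtx.tvK_le (C : UCtx σ f K) : C.tvK ≤ K := by
  rw [UCtx.tvK, Subgroup.closure_le]
  rintro _ ⟨a, c, h, ha, hc, rfl⟩
  exact C.tv a c h ha hc

theorem UCtx.tvK_ctx (C : UCtx σ f K) : UCtx σ f C.tvK :=
  ⟨C.unitary, fun g hg => C.fix g (C.tvK_le hg), fun a c h ha hc => Subgroup.subset_closure ⟨a, c, h, ha, hc, rfl⟩,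
    C.span, C.exists_c, C.norm⟩

theorem UCtx.tv_not_stab (C : UCtx σ f K) {W : Submodule F (ι → F)} (h0 : W ≠ ⊥) (h1 : W ≠ ⊤) :
    ¬ ∀ (a : ι → F) (c : F) (h : uDual C.unitary a c a = 0), f a a = 0 → σ c = -c → tvG h ∈ subspaceStabilizer W := by
  intro hall
  refine (C.tvK_ctx).not_le_stab h0 h1 ?_
  rw [UCtx.tvK, Subgroup.closure_le]
  rintro _ ⟨a, c, h, ha, hc, rfl⟩
  exact hall a c h ha hc

/-- Decompositions with parts of dimension at least two are not stabilised. -/
theorem UCtx.not_le_decomp (C : UCtx σ f K) {t k : ℕ} {D : Fin t → Submodule F (ι → F)} (hD : IsMDecomposition k D) (hk : 2 ≤ k) :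
    ¬ K ≤ decompositionStabilizer D := by
  classical
  intro hle
  have ht := hD.two_le
  let i₀ : Fin t := ⟨0, by omega⟩
  let i₁ : Fin t := ⟨1, by omega⟩
  have hi : i₁ ≠ i₀ := by
    intro h
    have := congrArg Fin.val h
    simp [i₀, i₁] at this
  have hdisj : ∀ i j, i ≠ j → D i ⊓ D j = ⊥ := fun i j hij => (hD.indep.pairwiseDisjoint hij).eq_bot
  have hne : ∀ i, D i ≠ ⊥ := by
    intro i h
    have := hD.finrank_eq i
    rw [h, finrank_bot] at this
    omega
  have hW1 : D i₀ ≠ ⊤ := by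
    intro h
    have := hdisj i₀ i₁ hi.symm
    rw [h, top_inf_eq] at this
    exact hne i₁ this
  exact C.tv_not_stab (hne i₀) hW1 fun a c h ha hc => tv_decomp_fix hD hk h (hle (C.tv a c h ha hc)) i₀

/-- A subspace of dimension at least two contains an isotropic vector. -/
theorem UCtx.exists_iso_of_two (C : UCtx σ f K) {U : Submodule F (ι → F)} (hU : 2 ≤ Module.finrank F U) :
    ∃ w ∈ U, w ≠ 0 ∧ f w w = 0 := by
  classical
  have hH := C.unitary
  have hS := sesq_of_unitary hH
  obtain ⟨u, hu, hu0⟩ : ∃ u ∈ U, u ≠ 0 := by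
    apply (Submodule.ne_bot_iff _).mp
    intro h0
    rw [h0, finrank_bot] at hU
    omega
  by_cases huu : f u u = 0
  · exact ⟨u, hu, hu0, huu⟩
  obtain ⟨v, hv, hvs⟩ : ∃ v ∈ U, v ∉ Submodule.span F {u} := by
    by_contra hall
    push Not at hall
    have hle : U ≤ Submodule.span F {u} := fun x hx => hall x hx
    have h2 := Submodule.finrank_mono hle
    have h3 : Module.finrank F (Submodule.span F {u}) ≤ 1 := (finrank_span_le_card ({u} : Set (ι → F))).trans (by simp)
    omega
  obtain ⟨v', hv'⟩ : ∃ v', v' = v - (f v u / f u u) • u := ⟨_, rfl⟩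
  have hv'U : v' ∈ U := by
    rw [hv']
    exact U.sub_mem hv (U.smul_mem _ hu)
  have hv'0 : v' ≠ 0 := by
    intro h0
    apply hvs
    rw [h0] at hv'
    have : v = (f v u / f u u) • u := sub_eq_zero.mp hv'.symm
    rw [this]
    exact Submodule.smul_mem _ _ (Submodule.mem_span_singleton_self u)
  have hv'u : f v' u = 0 := by
    have e : v' = v + (-(f v u / f u u)) • u := by
      rw [hv', neg_smul, sub_eq_add_neg]
    rw [e, hS.add_left, hS.smul_left]
    field_simp
    ring
  have huv' : f u v' = 0 := by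
    rw [hH.herm, hv'u, map_zero]
  by_cases hvv : f v' v' = 0
  · exact ⟨v', hv'U, hv'0, hvv⟩
  have hμ : -(f v' v') / f u u ≠ 0 := div_ne_zero (neg_ne_zero.mpr hvv) huu
  have hσμ : σ (-(f v' v') / f u u) = -(f v' v') / f u u := by
    rw [map_div₀, map_neg, herm_self_fixed hH, herm_self_fixed hH]
  obtain ⟨s, hs0, hs⟩ := C.norm _ hμ hσμ
  refine ⟨v' + s • u, U.add_mem hv'U (U.smul_mem _ hu), ?_, ?_⟩
  · intro h0
    have h1 : f (v' + s • u) u = 0 := by
      rw [h0]
      exact hS.zero_left u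
    rw [hS.add_left, hS.smul_left, hv'u, zero_add] at h1
    exact mul_ne_zero hs0 huu h1
  · rw [hS.add_left, hS.add_right, hS.add_right, hS.smul_left, hS.smul_left, hS.smul_right, hS.smul_right, hv'u, huv']
    have e : s * ((σ : F →+* F) s * f u u) = (s * σ s) * f u u := by
      simp only [RingHom.coe_coe]
      ring
    rw [e, hs]
    field_simp
    ring

/-- Two independent isotropic vectors, orthogonal to each other. -/
theorem UCtx.exists_iso_pair [Nonempty ι] (C : UCtx σ f K) (hn : 4 ≤ Fintype.card ι) :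
    ∃ a w : ι → F, a ≠ 0 ∧ w ≠ 0 ∧ f a a = 0 ∧ f w w = 0 ∧ f a w = 0 ∧ f w a = 0 ∧
      ∀ α β : F, α • a + β • w = 0 → α = 0 ∧ β = 0 := by
  classical
  have hU := C.unitary
  have hS := sesq_of_unitary hU
  obtain ⟨a, ha0, ha⟩ := C.exists_iso
  have ha1 : a ∉ (⊥ : Submodule F (ι → F)) := by simpa using ha0
  obtain ⟨ℓ, hℓ1, -⟩ := exists_dual_of_notMem ha1
  let g : (ι → F) →ₗ[F] (Fin 2 → F) := LinearMap.pi ![uDual hU a 1, ℓ]
  have hdim : 2 ≤ Module.finrank F (LinearMap.ker g) := by
    have h1 := LinearMap.finrank_range_add_finrank_ker g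
    have h2 : Module.finrank F (LinearMap.range g) ≤ 2 := by
      have := Submodule.finrank_le (LinearMap.range g)
      simpa using this
    have h3 : Module.finrank F (ι → F) = Fintype.card ι := by simp
    omega
  obtain ⟨w, hw, hw0, hww⟩ := C.exists_iso_of_two hdim
  have hg : g w = 0 := LinearMap.mem_ker.mp hw
  have hg0 : uDual hU a 1 w = 0 := by
    have := congrFun hg 0
    simpa [g] using this
  have hg1 : ℓ w = 0 := by
    have := congrFun hg 1
    simpa [g] using this
  have hwa : f w a = 0 := by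
    rw [uDual_apply, one_mul] at hg0
    exact hg0
  refine ⟨a, w, ha0, hw0, ha, hww, ?_, hwa, ?_⟩
  · rw [hU.herm, hwa, map_zero]
  · intro α β h
    have h1 := congrArg ℓ h
    rw [map_add, map_smul, map_smul, hℓ1, hg1, map_zero, smul_eq_mul, smul_eq_mul, mul_one, mul_zero, add_zero] at h1
    subst h1
    rw [zero_smul, zero_add] at h
    refine ⟨rfl, ?_⟩
    by_contra hβ
    exact hw0 (by simpa [hβ] using h)

/-- The unitary group lies in no subfield group, dimension at least four. -/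
theorem UCtx.not_le_subfield' [Nonempty ι] (C : UCtx σ f K) (hn : 4 ≤ Fintype.card ι)
    {F₀ : Subfield F} (hF₀ : F₀ ≠ ⊤) (P : GL ι F) : ¬ K ≤ subfieldSubgroup F₀ P := by
  classical
  intro hle
  apply hF₀
  have hU := C.unitary
  have hS := sesq_of_unitary hU
  obtain ⟨c₀, hc0, hc₀⟩ := C.exists_c
  have hline : ∀ b : ι → F, b ≠ 0 → f b b = 0 → ∃ s : F, s ≠ 0 ∧ ∀ k, s * (((P⁻¹ : GL ι F) : Matrix ι ι F) *ᵥ b) k ∈ F₀ := by
    intro b hb hbb
    have hφ : uDual hU b c₀ ≠ 0 := by
      intro h0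
      obtain ⟨x, hx⟩ := (hU.nondegenerate b hb).1
      have := congrArg (fun ψ : Module.Dual F (ι → F) => ψ x) h0
      simp only [uDual_apply, LinearMap.zero_apply] at this
      exact mul_ne_zero hc0 hx this
    exact tv_line_rational (by omega) (uDual_self hU c₀ hbb) hφ (hle (C.tv b c₀ (uDual_self hU c₀ hbb) hbb hc₀))
  obtain ⟨a, w, ha0, hw0, ha, hw, haw, hwa, hind⟩ := C.exists_iso_pair hn
  let Pi' := ((P⁻¹ : GL ι F) : Matrix ι ι F)
  have hPi : ∀ x, Pi' *ᵥ x = 0 → x = 0 := by
    intro x hx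
    have := congrArg (fun y => (P : Matrix ι ι F) *ᵥ y) hx
    simp only [Pi', gl_mulVec_inv] at this
    simpa using this
  refine subfield_top_of_lines (v := Pi' *ᵥ a) (v' := Pi' *ᵥ w) ?_ ?_ ?_
  · intro α β h
    apply hind
    apply hPi
    rw [Matrix.mulVec_add, Matrix.mulVec_smul, Matrix.mulVec_smul]
    exact h
  · intro μ
    have hne : a + μ • w ≠ 0 := by
      intro h
      have h2 := (hind 1 μ (by rw [one_smul]; exact h)).1
      exact one_ne_zero h2
    have hiso : f (a + μ • w) (a + μ • w) = 0 := by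
      rw [hS.add_left, hS.add_right, hS.add_right, hS.smul_left, hS.smul_right, hS.smul_left, hS.smul_right, ha, hw, haw, hwa]
      ring
    obtain ⟨s, hs, hk⟩ := hline _ hne hiso
    refine ⟨s, hs, fun k => ?_⟩
    have := hk k
    rwa [Matrix.mulVec_add, Matrix.mulVec_smul] at this
  · obtain ⟨s, hs, hk⟩ := hline _ hw0 hw
    exact ⟨s, hs, hk⟩

/-- A proper subfield. -/
theorem subfield_ne_top_of_card {F₀ : Subfield F} {r : ℕ} (hr : 2 ≤ r) (h : Fintype.card F = Nat.card F₀ ^ r) : F₀ ≠ ⊤ := by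
  rintro rfl
  have e : Nat.card (⊤ : Subfield F) = Fintype.card F := by
    rw [Nat.card_congr (Subfield.topEquiv (K := F)).toEquiv, Nat.card_eq_fintype_card]
  rw [e] at h
  have h1 : 1 < Fintype.card F := Fintype.one_lt_card
  have h2 : Fintype.card F < Fintype.card F ^ r := lt_self_pow₀ h1 (by omega)
  omega

end Cfsg.Agent.H97.Asch
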