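import Cfsg.Agent.Lib.H97J2
import Cfsg.Agent.Lib.H97I8

/-!
Maximal subgroups of unitary groups: the conclusion of the reduction theorem with equalities.
-/

set_option autoImplicit false
set_option linter.unusedSectionVars false
set_option linter.style.haveILetI false

namespace Cfsg.Agent.H97.Asch

open Matrix Cfsg Cfsg.Geo
open scoped MatrixGroups commutatorElement Kronecker

variable {ι : Type} [Fintype ι] [DecidableEq ι] {F : Type*} [Field F] [Fintype F]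
  {f : (ι → F) → (ι → F) → F} {σ : F ≃+* F} {K : Subgroup (GL ι F)} {q : ℕ}

/-- The conclusion of the reduction theorem for maximal subgroups of a group `K` of isometries of a unitary form. -/
def SuMax (q : ℕ) (f : (ι → F) → (ι → F) → F) (K H : Subgroup (GL ι F)) : Prop :=
  (∃ W : Submodule F (ι → F), W ≠ ⊥ ∧ IsTotallySingularFor f W ∧ H = subspaceStabilizer W ⊓ K) ∨
  (∃ W : Submodule F (ι → F), W ≠ ⊥ ∧ IsNondegenerateOn f W ∧ 2 * Module.finrank F W < Fintype.card ι ∧ H = subspaceStabilizer W ⊓ K) ∨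
  (∃ (t k : ℕ) (D : Fin t → Submodule F (ι → F)), IsNondegenerateMDecomposition f k D ∧ H = decompositionStabilizer D ⊓ K) ∨
  (∃ (k : ℕ) (D : Fin 2 → Submodule F (ι → F)), 2 * k = Fintype.card ι ∧ IsMDecomposition k D ∧
      (∀ i, IsTotallySingularFor f (D i)) ∧ H = decompositionStabilizer D ⊓ K) ∨
  (∃ (F₀ : Subfield F) (r : ℕ) (P : GL ι F), r.Prime ∧ Odd r ∧ Fintype.card F = Nat.card F₀ ^ r ∧
      IsFormRationalStructure f F₀ 1 P ∧ H = subfieldSubgroup F₀ P ⊓ K) ∨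
  (∃ (F₀ : Subfield F) (P : GL ι F), Odd q ∧ Fintype.card F = Nat.card F₀ ^ 2 ∧
      IsFormRationalStructure f F₀ 1 P ∧ H = subfieldSubgroup F₀ P ⊓ K) ∨
  (∃ (F₀ : Subfield F) (P : GL ι F) (ζ : F), Even (Fintype.card ι) ∧ Fintype.card F = Nat.card F₀ ^ 2 ∧ ζ ≠ 0 ∧
      ζ + ζ ^ q = 0 ∧ IsFormRationalStructure f F₀ ζ P ∧
      (∀ u : ι → F, (∀ i, u i ∈ F₀) → f ((P : Matrix ι ι F) *ᵥ u) ((P : Matrix ι ι F) *ᵥ u) = 0) ∧
      H = subfieldSubgroup F₀ P ⊓ K) ∨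
  (∃ (r : ℕ) (R : Subgroup (GL ι F)) (p e k : ℕ), IsSymplecticTypeGroup r R ∧
      ActsAbsolutelyIrreducibly (matrixSet R) ∧ R ≤ similarityGroup f ∧ r ≠ p ∧
      IsMinimalFieldFor (Nat.card (Subgroup.center R)) p e F ∧
      ((Odd r ∧ Nat.card (Subgroup.center R) = r ∧ 1 ≤ k ∧ Nat.card R = r ^ (1 + 2 * k)) ∨
       (r = 2 ∧ e = 2 ∧ Nat.card (Subgroup.center R) = 4 ∧ Nat.card R = 2 ^ (2 + 2 * k))) ∧
      Fintype.card ι = r ^ k ∧ (∀ x ∈ R, ∀ y ∈ R, ∃ ξ : Fˣ, x * y = scU ξ * (y * x)) ∧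
      H = subgroupNormalizer R ⊓ K) ∨
  (∃ (r : ℕ) (K' : Subalgebra F (Matrix ι ι F)), r.Prime ∧ Odd r ∧ IsFieldSubalgebra r K' ∧
      IsAdjointClosedFor f K' ∧ H = subalgebraNormalizer K' ⊓ K) ∨
  (∃ (n₁ n₂ : ℕ) (e : ι ≃ Fin n₁ × Fin n₂) (P : GL ι F)
      (f₁ : (Fin n₁ → F) → (Fin n₁ → F) → F) (f₂ : (Fin n₂ → F) → (Fin n₂ → F) → F),
      2 ≤ n₁ ∧ n₁ < n₂ ∧ IsUnitaryFormPow q f₁ ∧ IsUnitaryFormPow q f₂ ∧
      IsTensorFormStructure (fun x : F => x ^ q) f f₁ f₂ e P ∧ H = tensorProductSubgroup n₁ n₂ e P ⊓ K) ∨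
  (∃ (k t : ℕ) (e : ι ≃ (Fin t → Fin k)) (P : GL ι F) (f₁ : (Fin k → F) → (Fin k → F) → F),
      3 ≤ k ∧ 2 ≤ t ∧ ¬ (q = 2 ∧ k = 3) ∧ IsUnitaryFormPow q f₁ ∧
      IsTensorPowerFormStructure (fun x : F => x ^ q) f f₁ e P ∧ H = tensorWreathSubgroup k t e P ⊓ K) ∨
  InUnitaryResidualClass H

/-- the transvections in the group -/
theorem UCtx.exists_tv [Nonempty ι] (C : UCtx σ f K) :
    ∃ (φ : Module.Dual F (ι → F)) (a : ι → F) (h : φ a = 0), a ≠ 0 ∧ φ ≠ 0 ∧ tvG h ∈ K := by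
  obtain ⟨a, ha0, ha⟩ := C.exists_iso
  obtain ⟨c, hc0, hc⟩ := C.exists_c
  refine ⟨uDual C.unitary a c, a, uDual_self C.unitary c ha, ha0, ?_, C.tv a c _ ha hc⟩
  intro h0
  obtain ⟨x, hx⟩ := (C.unitary.nondegenerate a ha0).1
  have := congrArg (fun ψ : Module.Dual F (ι → F) => ψ x) h0
  simp only [uDual_apply, LinearMap.zero_apply] at this
  exact mul_ne_zero hc0 hx this

/-- A matrix group acting absolutely irreducibly has only scalars in its centraliser. -/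
theorem scalars_of_absIrred {R : Subgroup (GL ι F)} (h : ActsAbsolutelyIrreducibly (matrixSet R)) {g : GL ι F}
    (hg : ∀ x ∈ R, g * x = x * g) : g ∈ scalars ι F := by
  obtain ⟨c, hc⟩ := habs_of_matrixSet h (g : Matrix ι ι F) fun x hx => congrArg Units.val (hg x hx)
  refine (mem_scalars_iff g).mpr ?_
  by_cases hne : Nonempty ι
  · have hc0 : c ≠ 0 := by
      rintro rfl
      have hu := g.isUnit
      rw [hc, zero_smul] at hu
      exact not_isUnit_zero hu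
    exact ⟨Units.mk0 c hc0, hc⟩
  · have : IsEmpty ι := not_nonempty_iff.mp hne
    refine ⟨1, ?_⟩
    ext i
    exact isEmptyElim i

/-- The non-containments turn the reduction theorem to equalities. -/
theorem SuOutcome.toMax [Nonempty ι] (C : UCtx σ f K) (hn : 4 ≤ Fintype.card ι) {H : Subgroup (GL ι F)} (hH : IsMaximalIn K H)
    (h : SuOutcome q f H) : SuMax q f K H := by
  classical
  obtain ⟨φ, a, htv, ha0, hφ, hmem⟩ := C.exists_tv
  have hU := C.unitary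
  rcases h with ⟨W, h0, h1, h2⟩ | ⟨W, h0, h1, h2, h3⟩ | ⟨t, k, D, h1, h2⟩ | ⟨k, D, h0, h1, h2, h3⟩ |
    ⟨F₀, r, P, h0, h1, h2, h3, h4⟩ | ⟨F₀, P, h0, h1, h2, h3⟩ | ⟨F₀, P, ζ, h0, h1, h2, h3, h4, h5, h6⟩ |
    ⟨r, R, p, e, k, h0, h1, h2, h3, h4, h5, h6, h7, h8⟩ |
    ⟨r, K', h0, h1, h2, h3, h4⟩ | ⟨n₁, n₂, e, P, f₁, f₂, h0, h1, h2, h3, h4, h5⟩ |
    ⟨k, t, e, P, f₁, h0, h1, h2, h3, h4, h5⟩ | h
  · refine Or.inl ⟨W, h0, h1, maximal_eq' hH h2 (C.not_le_stab h0 ?_)⟩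
    rintro rfl
    obtain ⟨x, hx⟩ := (hU.nondegenerate a ha0).1
    exact hx (h1 _ Submodule.mem_top _ Submodule.mem_top)
  · refine Or.inr <| Or.inl ⟨W, h0, h1, h2, maximal_eq' hH h3 (C.not_le_stab h0 ?_)⟩
    rintro rfl
    rw [finrank_top] at h2
    have : Module.finrank F (ι → F) = Fintype.card ι := by simp
    omega
  · refine Or.inr <| Or.inr <| Or.inl ⟨t, k, D, h1, maximal_eq' hH h2 ?_⟩
    have hc := card_of_mdecomp h1.decomp
    have hk : 0 < k := h1.decomp.pos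
    by_cases hk2 : 2 ≤ k
    · exact C.not_le_decomp h1.decomp hk2
    · have hk1 : k = 1 := by omega
      subst hk1
      rw [mul_one] at hc
      obtain ⟨b, hb⟩ := exists_basis_of_mdecomp1 h1.decomp
      have hbm : ∀ i, b i ∈ D i := fun i => by
        rw [hb]
        exact Submodule.mem_span_singleton_self _
      have horth : ∀ i j, i ≠ j → f (b i) (b j) = 0 := fun i j hij => h1.orthogonal i j hij _ (hbm i) _ (hbm j)
      have hd : ∀ i, f (b i) (b i) ≠ 0 := by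
        intro i hi
        obtain ⟨⟨x, hx, hx0⟩, -⟩ := h1.nondegenerate i (b i) (hbm i) (b.ne_zero i)
        rw [hb] at hx
        obtain ⟨s, rfl⟩ := Submodule.mem_span_singleton.mp hx
        apply hx0
        have hS := sesq_of_unitary hU
        rw [hS.smul_left, hi, mul_zero]
      have hD' : D = fun i => Submodule.span F {b i} := funext hb
      rw [hD']
      exact C.not_le_frame (by omega) b horth hd
  · refine Or.inr <| Or.inr <| Or.inr <| Or.inl ⟨k, D, h0, h1, h2, maximal_eq' hH h3 ?_⟩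
    exact C.not_le_decomp h1 (by omega)
  · refine Or.inr <| Or.inr <| Or.inr <| Or.inr <| Or.inl ⟨F₀, r, P, h0, h1, h2, h3, maximal_eq' hH h4 ?_⟩
    exact C.not_le_subfield' hn (subfield_ne_top_of_card h0.two_le h2) P
  · refine Or.inr <| Or.inr <| Or.inr <| Or.inr <| Or.inr <| Or.inl ⟨F₀, P, h0, h1, h2, maximal_eq' hH h3 ?_⟩
    exact C.not_le_subfield' hn (subfield_ne_top_of_card le_rfl h1) P
  · refine Or.inr <| Or.inr <| Or.inr <| Or.inr <| Or.inr <| Or.inr <| Or.inl ⟨F₀, P, ζ, h0, h1, h2, h3, h4, h5, maximal_eq' hH h6 ?_⟩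
    exact C.not_le_subfield' hn (subfield_ne_top_of_card le_rfl h1) P
  · refine Or.inr <| Or.inr <| Or.inr <| Or.inr <| Or.inr <| Or.inr <| Or.inr <| Or.inl ⟨r, R, p, e, k, h0, h1, h2, h3, h4, h5, h6, h7, maximal_eq' hH h8 ?_⟩
    intro hle
    refine tv_not_nrm hn ((actsIrreducibly_iff R).mp h1.1) (fun g hg => scalars_of_absIrred h1 hg) h7 htv ha0 hφ ?_
    intro x hx
    have h9 : tvG htv ∈ Subgroup.normalizer (R : Set (GL ι F)) := hle hmem
    exact (Subgroup.mem_normalizer_iff.mp h9 x).mp hx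
  · refine Or.inr <| Or.inr <| Or.inr <| Or.inr <| Or.inr <| Or.inr <| Or.inr <| Or.inr <| Or.inl ⟨r, K', h0, h1, h2, h3, maximal_eq' hH h4 ?_⟩
    exact C.not_le_field h0.two_le (by omega) h2
  · refine Or.inr <| Or.inr <| Or.inr <| Or.inr <| Or.inr <| Or.inr <| Or.inr <| Or.inr <| Or.inr <| Or.inl ⟨n₁, n₂, e, P, f₁, f₂, h0, h1, h2, h3, h4, maximal_eq' hH h5 ?_⟩
    intro hle
    exact tv_not_mem_tensor h0 (by omega) e P htv ha0 hφ (hle hmem)
  · refine Or.inr <| Or.inr <| Or.inr <| Or.inr <| Or.inr <| Or.inr <| Or.inr <| Or.inr <| Or.inr <| Or.inr <| Or.inl ⟨k, t, e, P, f₁, h0, h1, h2, h3, h4, maximal_eq' hH h5 ?_⟩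
    intro hle
    exact tv_not_mem_wreath (by omega) h1 (Or.inl h0) e P htv ha0 hφ (hle hmem)
  · exact Or.inr <| Or.inr <| Or.inr <| Or.inr <| Or.inr <| Or.inr <| Or.inr <| Or.inr <| Or.inr <| Or.inr <| Or.inr h

/-- The reduction theorem for maximal subgroups. -/
theorem Su.maximal [Nonempty ι] (C : UCtx σ f K) (hq : ∀ x, σ x = x ^ q) (hF : Fintype.card F = q ^ 2) (hn : 4 ≤ Fintype.card ι)
    {H : Subgroup (GL ι F)} (hH : IsMaximalIn K H) : SuMax q f K H :=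
  SuOutcome.toMax C hn hH (Su.main (by omega) ⟨C.unitary, hq, hF⟩ fun g hg u v => C.fix g (hH.1.le hg) u v)

end Cfsg.Agent.H97.Asch
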