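import Cfsg.Agent.Lib.H97J3

/-!
Maximal subgroups of unitary groups: the standard form and the fields of class 6.
-/

set_option autoImplicit false
set_option linter.unusedSectionVars false
set_option linter.style.haveILetI false

namespace Cfsg.Agent.H97.Asch

open Matrix Cfsg Cfsg.Geo
open scoped MatrixGroups commutatorElement Kronecker

variable {F : Type*} [Field F] [Fintype F]

/-- The reduction theorem for the maximal subgroups of the special unitary groups. -/
theorem Su.herm_max {n q : ℕ} (hF : Fintype.card F = q ^ 2) (hn : 4 ≤ n) {H : Subgroup (GL (Fin n) F)}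
    (hH : IsMaximalIn (GU n F q ⊓ specialLinear (Fin n) F) H) : SuMax q (hermForm n F q) (GU n F q ⊓ specialLinear (Fin n) F) H := by
  haveI : Nonempty (Fin n) := ⟨⟨0, by omega⟩⟩
  exact Su.maximal (herm_ctx hF (by omega)) (fun _ => rfl) hF (by rw [Fintype.card_fin]; exact hn) hH

theorem two_le_q_of_card {q : ℕ} (hF : Fintype.card F = q ^ 2) : 2 ≤ q := by
  have h2 : 1 < Fintype.card F := Fintype.one_lt_card
  rcases q with _ | _ | q
  · simp at hF
  · simp at hF
    omega
  · omega

theorem zmod3_e2 : ∀ a : ZMod 3, a ^ 2 = 1 → a ≠ 1 → a.val = 2 := by decide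

theorem class6_3 {p e q : ℕ} (hF : Fintype.card F = q ^ 2) (h : IsMinimalFieldFor 3 p e F) : q = p ∧ p % 3 = 2 := by
  have : Fact (Nat.Prime 3) := ⟨by norm_num⟩
  obtain ⟨k, hk0, hq, hdvd, h1, hne⟩ := min_field_q hF h
  have hk : k = 1 := by
    have := Nat.le_of_dvd (by norm_num) hdvd
    omega
  subst hk
  refine ⟨by simpa using hq, ?_⟩
  have hval : ((p : ZMod 3)).val = p % 3 := ZMod.val_natCast 3 p
  have h2 := hne 1 (by norm_num) (by norm_num)
  rw [pow_one] at h2
  simp only [mul_one] at h1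
  have h3 : ((p : ZMod 3)).val = 2 := zmod3_e2 _ h1 h2
  omega

theorem class6_4 {p q : ℕ} (hF : Fintype.card F = q ^ 2) (h : IsMinimalFieldFor 4 p 2 F) : q = p ∧ p % 4 = 3 := by
  obtain ⟨hp, -, hcard, hd, hne⟩ := h
  have hq : q = p := by
    have h1 : q ^ 2 = p ^ 2 := by rw [← hF, hcard]
    exact Nat.pow_left_injective (n := 2) (by norm_num) h1
  refine ⟨hq, ?_⟩
  have h2 := hne 1 (by norm_num) (by norm_num)
  rw [pow_one] at h2
  have hp2 := hp.two_le
  have hne2 : p ≠ 2 := by
    rintro rfl
    norm_num at hd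
  have hodd : p % 2 = 1 := hp.eq_two_or_odd.resolve_left hne2
  have h4 : ¬ p % 4 = 1 := by
    intro h5
    apply h2
    omega
  omega

end Cfsg.Agent.H97.Asch
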