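import Cfsg.Agent.Lib.H97J4

/-!
Unitary groups over the field with four elements: two-dimensional non-degenerate spaces have a unique orthogonal frame.
-/

set_option autoImplicit false
set_option linter.unusedSectionVars false
set_option linter.style.haveILetI false

namespace Cfsg.Agent.H97.Asch

open Matrix Cfsg Cfsg.Geo
open scoped MatrixGroups commutatorElement Kronecker

variable {ι : Type} [Fintype ι] [DecidableEq ι] {F : Type*} [Field F] [Fintype F]
  {f : (ι → F) → (ι → F) → F} {σ : F ≃+* F} {K : Subgroup (GL ι F)}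

theorem f4_norm (hF : Fintype.card F = 4) (hq : ∀ x, σ x = x ^ 2) {x : F} (hx : x ≠ 0) : x * σ x = 1 := by
  rw [hq]
  have := FiniteField.pow_card_sub_one_eq_one x hx
  rw [hF] at this
  linear_combination this

theorem f4_fixed (hq : ∀ x, σ x = x ^ 2) {x : F} (hx : x ≠ 0) (h : σ x = x) : x = 1 := by
  rw [hq] at h
  field_simp at h
  exact h

theorem f4_two (hF : Fintype.card F = 4) : (2 : F) = 0 :=
  two_eq_zero_of_not_odd (by rw [hF]; decide)

/-- A non-degenerate space has a non-isotropic vector. -/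
theorem exists_noniso (hU : IsUnitaryForm σ f) {W : Submodule F (ι → F)} (h0 : W ≠ ⊥) (hN : IsNondegenerateOn f W) :
    ∃ u ∈ W, f u u ≠ 0 := by
  by_contra hall
  push Not at hall
  have hS := sesq_of_unitary hU
  obtain ⟨c, hc⟩ : ∃ c : F, σ c ≠ c := by
    by_contra h1
    push Not at h1
    apply hU.ne_refl
    ext y
    exact h1 y
  have horth : ∀ x ∈ W, ∀ y ∈ W, f x y = 0 := by
    intro x hx y hy
    have h1 := hall _ (W.add_mem hx hy)
    have h2 := hall _ (W.add_mem hx (W.smul_mem c hy))
    rw [hS.add_left, hS.add_right, hS.add_right, hall x hx, hall y hy] at h1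
    rw [hS.add_left, hS.add_right, hS.add_right, hS.smul_left, hS.smul_right, hS.smul_left, hS.smul_right, hall x hx, hall y hy] at h2
    simp only [RingHom.coe_coe] at h2
    have h3 : (σ c - c) * f x y = 0 := by linear_combination h2 - c * h1
    exact (mul_eq_zero.mp h3).resolve_left (sub_ne_zero.mpr hc)
  obtain ⟨w, hw, hw0⟩ := (Submodule.ne_bot_iff W).mp h0
  obtain ⟨⟨x, hx, hx0⟩, -⟩ := hN w hw hw0
  exact hx0 (horth x hx w hw)

/-- A non-degenerate plane over the field with four elements has exactly two non-isotropic lines. -/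
theorem two_frame (hU : IsUnitaryForm σ f) (hF : Fintype.card F = 4) (hq : ∀ x, σ x = x ^ 2) {W : Submodule F (ι → F)}
    (hW : Module.finrank F W = 2) (hN : IsNondegenerateOn f W) :
    ∃ u v : ι → F, u ∈ W ∧ v ∈ W ∧ f u u ≠ 0 ∧ f v v ≠ 0 ∧ f u v = 0 ∧ f v u = 0 ∧
      ∀ w ∈ W, f w w ≠ 0 → (∃ c : F, w = c • u) ∨ (∃ c : F, w = c • v) := by
  classical
  have hS := sesq_of_unitary hU
  have h0 : W ≠ ⊥ := by
    rintro rfl
    rw [finrank_bot] at hW
    omega
  obtain ⟨u, hu, huu⟩ := exists_noniso hU h0 hN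
  have hu0 : u ≠ 0 := by
    rintro rfl
    exact huu (hS.zero_left 0)
  obtain ⟨w, hw, hws⟩ : ∃ w ∈ W, w ∉ Submodule.span F {u} := by
    by_contra hall
    push Not at hall
    have hle : W ≤ Submodule.span F {u} := fun x hx => hall x hx
    have h2 := Submodule.finrank_mono hle
    have h3 : Module.finrank F (Submodule.span F {u}) ≤ 1 := (finrank_span_le_card ({u} : Set (ι → F))).trans (by simp)
    omega
  obtain ⟨v, hv⟩ : ∃ v, v = w + (-(f w u / f u u)) • u := ⟨_, rfl⟩
  have hvW : v ∈ W := by
    rw [hv]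
    exact W.add_mem hw (W.smul_mem _ hu)
  have hvu : f v u = 0 := by
    rw [hv, hS.add_left, hS.smul_left]
    field_simp
    ring
  have huv : f u v = 0 := by
    rw [hU.herm, hvu, map_zero]
  have hv0 : v ≠ 0 := by
    intro h1
    apply hws
    rw [h1] at hv
    have : w = (f w u / f u u) • u := by
      have h2 := congrArg (fun z => z + (f w u / f u u) • u) hv
      simp only [zero_add, neg_smul, neg_add_cancel_right] at h2
      exact h2.symm
    rw [this]
    exact Submodule.smul_mem _ _ (Submodule.mem_span_singleton_self u)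
  -- the pair spans
  have hind : LinearIndependent F ![u, v] := by
    rw [LinearIndependent.pair_iff]
    intro a b hab
    have h1 : f (a • u + b • v) u = 0 := by
      rw [hab]
      exact hS.zero_left u
    rw [hS.add_left, hS.smul_left, hS.smul_left, hvu, mul_zero, add_zero] at h1
    have ha : a = 0 := (mul_eq_zero.mp h1).resolve_right huu
    subst ha
    rw [zero_smul, zero_add] at hab
    refine ⟨rfl, ?_⟩
    by_contra hb
    exact hv0 (by simpa [hb] using hab)
  have hspan : Submodule.span F {u, v} = W := by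
    apply Submodule.eq_of_le_of_finrank_eq
    · rw [Submodule.span_le]
      intro x hx
      rcases hx with rfl | rfl
      · exact hu
      · exact hvW
    · rw [hW]
      have h1 := finrank_span_eq_card hind
      rw [Matrix.range_cons, Matrix.range_cons, Matrix.range_empty, Set.union_empty, Fintype.card_fin] at h1
      exact h1
  have hexp : ∀ z ∈ W, ∃ a b : F, z = a • u + b • v := by
    intro z hz
    rw [← hspan, Submodule.mem_span_pair] at hz
    obtain ⟨a, b, rfl⟩ := hz
    exact ⟨a, b, rfl⟩
  have hvv : f v v ≠ 0 := by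
    intro h1
    obtain ⟨⟨x, hx, hx0⟩, -⟩ := hN v hvW hv0
    obtain ⟨a, b, rfl⟩ := hexp x hx
    apply hx0
    rw [hS.add_left, hS.smul_left, hS.smul_left, huv, h1, mul_zero, mul_zero, add_zero]
  have h1u : f u u = 1 := f4_fixed hq huu (herm_self_fixed hU u)
  have h1v : f v v = 1 := f4_fixed hq hvv (herm_self_fixed hU v)
  refine ⟨u, v, hu, hvW, huu, hvv, huv, hvu, ?_⟩
  intro z hz hzz
  obtain ⟨a, b, rfl⟩ := hexp z hz
  by_cases ha : a = 0
  · right
    exact ⟨b, by simp [ha]⟩
  by_cases hb : b = 0
  · left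
    exact ⟨a, by simp [hb]⟩
  exfalso
  apply hzz
  simp only [hS.add_left, hS.add_right, hS.smul_left, hS.smul_right, huv, hvu, h1u, h1v, RingHom.coe_coe]
  have h2 := f4_norm hF hq ha
  have h3 := f4_norm hF hq hb
  have h4 := f4_two hF
  linear_combination h2 + h3 + h4

/-- A basis of orthogonal non-isotropic vectors gives a non-degenerate decomposition into lines. -/
theorem nondeg_decomp_of_basis (hU : IsUnitaryForm σ f) {t : ℕ} (ht : 2 ≤ t) (b : Module.Basis (Fin t) F (ι → F))
    (horth : ∀ i j, i ≠ j → f (b i) (b j) = 0) (hd : ∀ i, f (b i) (b i) ≠ 0) :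
    IsNondegenerateMDecomposition f 1 (fun i => Submodule.span F {b i}) := by
  have hS := sesq_of_unitary hU
  refine ⟨isMDecomposition_of_basis ht b, ?_, ?_⟩
  · intro i w hw hw0
    obtain ⟨c, rfl⟩ := Submodule.mem_span_singleton.mp hw
    have hc : c ≠ 0 := by
      rintro rfl
      exact hw0 (zero_smul _ _)
    refine ⟨⟨b i, Submodule.mem_span_singleton_self _, ?_⟩, ⟨b i, Submodule.mem_span_singleton_self _, ?_⟩⟩
    · rw [hS.smul_right]
      exact mul_ne_zero (by simpa using hc) (hd i)
    · rw [hS.smul_left]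
      exact mul_ne_zero hc (hd i)
  · intro i j hij u hu v hv
    obtain ⟨c, rfl⟩ := Submodule.mem_span_singleton.mp hu
    obtain ⟨d, rfl⟩ := Submodule.mem_span_singleton.mp hv
    rw [hS.smul_left, hS.smul_right, horth i j hij, mul_zero, mul_zero]

/-- At the field with four elements, decompositions into planes refine to frames. -/
theorem frames_of_two (hU : IsUnitaryForm σ f) (hF : Fintype.card F = 4) (hq : ∀ x, σ x = x ^ 2) {t : ℕ}
    {D : Fin t → Submodule F (ι → F)} (hD : IsNondegenerateMDecomposition f 2 D) {H : Subgroup (GL ι F)} (hfix : FFix f H)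
    (hle : H ≤ decompositionStabilizer D) :
    ∃ b : Module.Basis (Fin (t * 2)) F (ι → F), (∀ i j, i ≠ j → f (b i) (b j) = 0) ∧ (∀ i, f (b i) (b i) ≠ 0) ∧
      H ≤ decompositionStabilizer (fun i => Submodule.span F {b i}) := by
  classical
  have hS := sesq_of_unitary hU
  have hcard := card_of_mdecomp hD.decomp
  have ht := hD.decomp.two_le
  have hfr := fun i => two_frame hU hF hq (hD.decomp.finrank_eq i) (hD.nondegenerate i)
  choose u v hu hv huu hvv huv hvu hcl using hfr
  let L : Fin t × Fin 2 → (ι → F) := fun p => ![u p.1, v p.1] p.2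
  have hL0 : ∀ i, L (i, 0) = u i := fun i => rfl
  have hL1 : ∀ i, L (i, 1) = v i := fun i => rfl
  have hLmem : ∀ p, L p ∈ D p.1 := by
    rintro ⟨i, j⟩
    fin_cases j
    · exact hu i
    · exact hv i
  have hLd : ∀ p, f (L p) (L p) ≠ 0 := by
    rintro ⟨i, j⟩
    fin_cases j
    · exact huu i
    · exact hvv i
  have hLo : ∀ p p', p ≠ p' → f (L p) (L p') = 0 := by
    rintro ⟨i, j⟩ ⟨i', j'⟩ hne
    by_cases hii : i = i'
    · subst hii
      have hjj : j ≠ j' := fun h => hne (by rw [h])
      fin_cases j <;> fin_cases j'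
      · exact absurd rfl hjj
      · exact huv i
      · exact hvu i
      · exact absurd rfl hjj
    · exact hD.orthogonal i i' hii _ (hLmem (i, j)) _ (hLmem (i', j'))
  let L' : Fin (t * 2) → (ι → F) := fun k => L (finProdFinEquiv.symm k)
  have hL'o : ∀ i j, i ≠ j → f (L' i) (L' j) = 0 := fun i j hij =>
    hLo _ _ fun h => hij (finProdFinEquiv.symm.injective h)
  have hL'd : ∀ i, f (L' i) (L' i) ≠ 0 := fun i => hLd _
  have hli : LinearIndependent F L' := by
    rw [Fintype.linearIndependent_iff]
    intro c hc j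
    have h1 : f (∑ i, c i • L' i) (L' j) = 0 := by
      rw [hc]
      exact hS.zero_left _
    rw [hS.sum_left, Finset.sum_eq_single j, hS.smul_left] at h1
    · exact (mul_eq_zero.mp h1).resolve_right (hL'd j)
    · intro b _ hb
      rw [hS.smul_left, hL'o b j hb, mul_zero]
    · intro h2
      exact absurd (Finset.mem_univ j) h2
  haveI hne : Nonempty (Fin (t * 2)) := ⟨⟨0, by omega⟩⟩
  let b : Module.Basis (Fin (t * 2)) F (ι → F) := basisOfLinearIndependentOfCardEqFinrank hli (by simp; omega)
  have hb : ∀ k, b k = L' k := fun k => by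
    simp [b]
  refine ⟨b, fun i j hij => ?_, fun i => ?_, fun g hg => ?_⟩
  · rw [hb, hb]
    exact hL'o i j hij
  · rw [hb]
    exact hL'd i
  · apply mem_decompositionStabilizer_of_basis
    intro k
    obtain ⟨π, hπ⟩ := hle hg
    rw [hb]
    set p := finProdFinEquiv.symm k with hp
    have h1 : (g : Matrix ι ι F) *ᵥ L' k ∈ D (π p.1) := by
      rw [← hπ]
      exact ⟨L p, hLmem p, rfl⟩
    have h2 : f ((g : Matrix ι ι F) *ᵥ L' k) ((g : Matrix ι ι F) *ᵥ L' k) ≠ 0 := by
      rw [hfix g hg]
      exact hL'd k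
    rcases hcl _ _ h1 h2 with ⟨c, hc⟩ | ⟨c, hc⟩
    · refine ⟨finProdFinEquiv (π p.1, 0), c, ?_⟩
      rw [hb, hc]
      simp only [L', Equiv.symm_apply_apply]
      rfl
    · refine ⟨finProdFinEquiv (π p.1, 1), c, ?_⟩
      rw [hb, hc]
      simp only [L', Equiv.symm_apply_apply]
      rfl

/-- The maximal subgroups in a decomposition into planes, at the field with four elements. -/
theorem SuMax.frame_of_two (C : UCtx σ f K) (hF : Fintype.card F = 4) (hq : ∀ x, σ x = x ^ 2) {t : ℕ} (ht : 4 ≤ t * 2)
    {D : Fin t → Submodule F (ι → F)} (hD : IsNondegenerateMDecomposition f 2 D) {H : Subgroup (GL ι F)} (hH : IsMaximalIn K H)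
    (hle : H ≤ decompositionStabilizer D) :
    ∃ D' : Fin (t * 2) → Submodule F (ι → F), IsNondegenerateMDecomposition f 1 D' ∧ H = decompositionStabilizer D' ⊓ K := by
  obtain ⟨b, h1, h2, h3⟩ := frames_of_two C.unitary hF hq hD (fun g hg u v => C.fix g (hH.1.le hg) u v) hle
  exact ⟨_, nondeg_decomp_of_basis C.unitary (by omega) b h1 h2, maximal_eq' hH h3 (C.not_le_frame ht b h1 h2)⟩

end Cfsg.Agent.H97.Asch
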