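import Cfsg.Agent.Lib.H97J5

/-!
Unitary groups over the field with four elements: tensor decompositions with a plane factor refine to decompositions.
-/

set_option autoImplicit false
set_option linter.unusedSectionVars false
set_option linter.style.haveILetI false

namespace Cfsg.Agent.H97.Asch

open Matrix Cfsg Cfsg.Geo
open scoped MatrixGroups commutatorElement Kronecker

variable {ι : Type} [Fintype ι] [DecidableEq ι] {F : Type*} [Field F] [Fintype F]
  {f : (ι → F) → (ι → F) → F} {σ : F ≃+* F} {K : Subgroup (GL ι F)}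

theorem form_eq_gram {κ : Type} [Fintype κ] [DecidableEq κ] {τ : F →+* F} {g : (κ → F) → (κ → F) → F} (hS : Sesq τ g) (x y : κ → F) :
    g x y = formOfGram (τ : F → F) (gramMatrix g) x y := by
  classical
  have ex : ∀ z : κ → F, z = ∑ a, z a • (Pi.single a 1 : κ → F) := by
    intro z
    funext k
    simp [Finset.sum_apply, Pi.single_apply]
  conv_lhs => rw [ex x, ex y]
  rw [hS.sum_left]
  simp only [hS.smul_left, hS.sum_right, hS.smul_right, formOfGram, gramMatrix, Finset.mul_sum]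
  refine Finset.sum_congr rfl fun a _ => Finset.sum_congr rfl fun b _ => ?_
  ring

theorem unitary_of_pow {κ : Type} [Fintype κ] [DecidableEq κ] {q : ℕ} (hU : IsUnitaryForm σ f) (hq : ∀ x, σ x = x ^ q)
    {g : (κ → F) → (κ → F) → F} (h : IsUnitaryFormPow q g) : IsUnitaryForm σ g :=
  ⟨hU.ne_refl, hU.involutive, h.add_left, h.smul_left, fun v w => by rw [h.herm, hq], h.nondegenerate⟩

theorem map_eq_of_le {g : GL ι F} {D D' : Submodule F (ι → F)} (hdim : Module.finrank F D = Module.finrank F D')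
    (hle : ∀ z ∈ D, (g : Matrix ι ι F) *ᵥ z ∈ D') : D.map (Matrix.toLin' (g : Matrix ι ι F)) = D' := by
  have hinj : Function.Injective (Matrix.toLin' (g : Matrix ι ι F)) := by
    intro x y hxy
    apply gl_mulVec_injective g
    simpa [Matrix.toLin'_apply] using hxy
  apply Submodule.eq_of_le_of_finrank_eq
  · rintro _ ⟨z, hz, rfl⟩
    simpa [Matrix.toLin'_apply] using hle z hz
  · rw [← hdim]
    exact (Submodule.equivMapOfInjective _ hinj D).finrank_eq.symm

/-- the linear map `y ↦ P (x ⊗ y)`. -/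
noncomputable def tensorLine {m : ℕ} (e : ι ≃ Fin 2 × Fin m) (P : GL ι F) (x : Fin 2 → F) : (Fin m → F) →ₗ[F] (ι → F) :=
  (Matrix.toLin' (P : Matrix ι ι F)).comp ((LinearMap.funLeft F F e).comp (tvPr x))

theorem tensorLine_apply {m : ℕ} (e : ι ≃ Fin 2 × Fin m) (P : GL ι F) (x : Fin 2 → F) (y : Fin m → F) :
    tensorLine e P x y = (P : Matrix ι ι F) *ᵥ (tvP x y ∘ e) := rfl

/-- A tensor decomposition with a plane factor, at the field with four elements, refines to a decomposition. -/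
theorem tensor_two_decomp (hU : IsUnitaryForm σ f) (hF : Fintype.card F = 4) (hq : ∀ x, σ x = x ^ 2) {m : ℕ} (hm : 0 < m)
    {e : ι ≃ Fin 2 × Fin m} {P : GL ι F} {f₁ : (Fin 2 → F) → (Fin 2 → F) → F} {f₂ : (Fin m → F) → (Fin m → F) → F}
    (h₁ : IsUnitaryForm σ f₁) (h₂ : IsUnitaryForm σ f₂) {c : F} (hc : c ≠ 0)
    (heq : ∀ x x' y y', f ((P : Matrix ι ι F) *ᵥ (tvP x y ∘ e)) ((P : Matrix ι ι F) *ᵥ (tvP x' y' ∘ e)) = c * (f₁ x x' * f₂ y y'))
    {H : Subgroup (GL ι F)} (hfix : FFix f H) (hle : H ≤ tensorProductSubgroup 2 m e P) :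
    ∃ D : Fin 2 → Submodule F (ι → F), IsNondegenerateMDecomposition f m D ∧ H ≤ decompositionStabilizer D := by
  classical
  have hS := sesq_of_unitary hU
  have hS₁ := sesq_of_unitary h₁
  have hS₂ := sesq_of_unitary h₂
  have hNtop : IsNondegenerateOn f₁ (⊤ : Submodule F (Fin 2 → F)) := by
    intro w _ hw
    obtain ⟨⟨x, hx⟩, ⟨y, hy⟩⟩ := h₁.nondegenerate w hw
    exact ⟨⟨x, Submodule.mem_top, hx⟩, ⟨y, Submodule.mem_top, hy⟩⟩
  obtain ⟨u, v, -, -, huu, hvv, huv, hvu, hcl⟩ := two_frame h₁ hF hq (by simp) hNtop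
  haveI : Nonempty (Fin m) := ⟨⟨0, hm⟩⟩
  obtain ⟨y₀, hy₀⟩ := exists_ne (0 : Fin m → F)
  obtain ⟨-, ⟨y₁, hy₁⟩⟩ := h₂.nondegenerate y₀ hy₀
  have hL : ∀ x x' y y', f (tensorLine e P x y) (tensorLine e P x' y') = c * (f₁ x x' * f₂ y y') := heq
  -- injectivity and dimensions
  have hinj : ∀ x, f₁ x x ≠ 0 → Function.Injective (tensorLine e P x) := by
    intro x hx
    rw [← LinearMap.ker_eq_bot, LinearMap.ker_eq_bot']
    intro w hw
    by_contra hw0
    obtain ⟨⟨y, hy⟩, -⟩ := h₂.nondegenerate w hw0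
    have h1 := hL x x y w
    rw [hw, hS.zero_right] at h1
    exact mul_ne_zero hc (mul_ne_zero hx hy) h1.symm
  have hdim : ∀ x, f₁ x x ≠ 0 → Module.finrank F (LinearMap.range (tensorLine e P x)) = m := by
    intro x hx
    rw [LinearMap.finrank_range_of_inj (hinj x hx)]
    simp
  have hcard : 2 * m = Fintype.card ι := by
    have := Fintype.card_congr e
    simpa [Fintype.card_prod] using this.symm
  let U := LinearMap.range (tensorLine e P u)
  let V := LinearMap.range (tensorLine e P v)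
  have hdisj : U ⊓ V = ⊥ := by
    rw [eq_bot_iff]
    rintro z ⟨⟨w, hw⟩, ⟨w', hw'⟩⟩
    rw [Submodule.mem_bot]
    by_contra hz
    have hw0 : w ≠ 0 := by
      rintro rfl
      apply hz
      rw [← hw, map_zero]
    obtain ⟨⟨y, hy⟩, -⟩ := h₂.nondegenerate w hw0
    have h1 := hL u u y w
    have h2 := hL u v y w'
    rw [hw] at h1
    change f (tensorLine e P u y) z = _ at h1
    rw [hw'] at h2
    change f (tensorLine e P u y) z = _ at h2
    rw [h2, huv] at h1
    simp only [zero_mul, mul_zero] at h1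
    exact mul_ne_zero hc (mul_ne_zero huu hy) h1.symm
  have hsup : U ⊔ V = ⊤ := by
    apply Submodule.eq_top_of_finrank_eq
    have h1 := Submodule.finrank_sup_add_finrank_inf_eq U V
    rw [hdisj, finrank_bot, hdim u huu, hdim v hvv] at h1
    simp only [Module.finrank_fintype_fun_eq_card]
    omega
  have hdec := two_mdecomp hm (hdim u huu) (hdim v hvv) hdisj hsup
  have hnd : ∀ x, f₁ x x ≠ 0 → IsNondegenerateOn f (LinearMap.range (tensorLine e P x)) := by
    rintro x hx _ ⟨y, rfl⟩ hy0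
    have hy : y ≠ 0 := by
      rintro rfl
      exact hy0 (map_zero _)
    obtain ⟨⟨a, ha⟩, ⟨b, hb⟩⟩ := h₂.nondegenerate y hy
    refine ⟨⟨tensorLine e P x a, ⟨a, rfl⟩, ?_⟩, ⟨tensorLine e P x b, ⟨b, rfl⟩, ?_⟩⟩
    · rw [hL]
      exact mul_ne_zero hc (mul_ne_zero hx ha)
    · rw [hL]
      exact mul_ne_zero hc (mul_ne_zero hx hb)
  refine ⟨![U, V], ⟨hdec, ?_, ?_⟩, fun g hg => ?_⟩
  · intro i
    fin_cases i
    · exact hnd u huu
    · exact hnd v hvv
  · intro i j hij
    fin_cases i <;> fin_cases j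
    · exact absurd rfl hij
    · rintro _ ⟨a, rfl⟩ _ ⟨b, rfl⟩
      show f (tensorLine e P u a) (tensorLine e P v b) = 0
      rw [hL, huv]
      simp
    · rintro _ ⟨a, rfl⟩ _ ⟨b, rfl⟩
      show f (tensorLine e P v a) (tensorLine e P u b) = 0
      rw [hL, hvu]
      simp
    · exact absurd rfl hij
  · obtain ⟨a, c', hact⟩ := tensor_action (hle hg)
    have hact' : ∀ x y, (g : Matrix ι ι F) *ᵥ tensorLine e P x y =
        tensorLine e P ((a : Matrix (Fin 2) (Fin 2) F) *ᵥ x) ((c' : Matrix (Fin m) (Fin m) F) *ᵥ y) := by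
      intro x y
      rw [tensorLine_apply, hact, kron_mulVec_tvP]
      rfl
    have hiso : ∀ x, f₁ x x ≠ 0 → f₁ ((a : Matrix (Fin 2) (Fin 2) F) *ᵥ x) ((a : Matrix (Fin 2) (Fin 2) F) *ᵥ x) ≠ 0 := by
      intro x hx h0
      have h1 := hfix g hg (tensorLine e P x y₀) (tensorLine e P x y₁)
      rw [hact', hact', hL, hL, h0] at h1
      simp only [zero_mul, mul_zero] at h1
      exact mul_ne_zero hc (mul_ne_zero hx hy₁) h1.symm
    have hmap : ∀ x x' (α : F), f₁ x x ≠ 0 → f₁ x' x' ≠ 0 → (a : Matrix (Fin 2) (Fin 2) F) *ᵥ x = α • x' →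
        (LinearMap.range (tensorLine e P x)).map (Matrix.toLin' (g : Matrix ι ι F)) = LinearMap.range (tensorLine e P x') := by
      intro x x' α hx hx' hax
      apply map_eq_of_le (by rw [hdim x hx, hdim x' hx'])
      rintro _ ⟨y, rfl⟩
      rw [hact', hax]
      have : tensorLine e P (α • x') ((c' : Matrix (Fin m) (Fin m) F) *ᵥ y) =
          α • tensorLine e P x' ((c' : Matrix (Fin m) (Fin m) F) *ᵥ y) := by
        simp only [tensorLine_apply, tvP_smul_left]
        rw [← Matrix.mulVec_smul]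
        rfl
      rw [this]
      exact Submodule.smul_mem _ _ ⟨_, rfl⟩
    rcases hcl _ Submodule.mem_top (hiso u huu) with ⟨α, hα⟩ | ⟨α, hα⟩ <;>
      rcases hcl _ Submodule.mem_top (hiso v hvv) with ⟨β, hβ⟩ | ⟨β, hβ⟩
    · -- both to `u`: impossible
      exfalso
      have hα0 : α ≠ 0 := by
        rintro rfl
        rw [zero_smul] at hα
        apply hiso u huu
        rw [hα, hS₁.zero_left]
      have h1 : (a : Matrix (Fin 2) (Fin 2) F) *ᵥ (β • u) = (a : Matrix (Fin 2) (Fin 2) F) *ᵥ (α • v) := by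
        rw [Matrix.mulVec_smul, Matrix.mulVec_smul, hα, hβ, smul_smul, smul_smul, mul_comm]
      have h2 := gl_mulVec_injective a h1
      have hβ0 : β ≠ 0 := by
        rintro rfl
        rw [zero_smul] at hβ
        apply hiso v hvv
        rw [hβ, hS₁.zero_left]
      have h3 := congrArg (fun z => f₁ z u) h2
      simp only [hS₁.smul_left, hvu, mul_zero] at h3
      exact mul_ne_zero hβ0 huu h3
    · refine ⟨1, fun i => ?_⟩
      fin_cases i
      · exact hmap u u α huu huu hα
      · exact hmap v v β hvv hvv hβ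
    · refine ⟨Equiv.swap 0 1, fun i => ?_⟩
      fin_cases i
      · exact hmap u v α huu hvv hα
      · exact hmap v u β hvv huu hβ
    · exfalso
      have hα0 : α ≠ 0 := by
        rintro rfl
        rw [zero_smul] at hα
        apply hiso u huu
        rw [hα, hS₁.zero_left]
      have h1 : (a : Matrix (Fin 2) (Fin 2) F) *ᵥ (β • u) = (a : Matrix (Fin 2) (Fin 2) F) *ᵥ (α • v) := by
        rw [Matrix.mulVec_smul, Matrix.mulVec_smul, hα, hβ, smul_smul, smul_smul, mul_comm]
      have h2 := gl_mulVec_injective a h1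
      have hβ0 : β ≠ 0 := by
        rintro rfl
        rw [zero_smul] at hβ
        apply hiso v hvv
        rw [hβ, hS₁.zero_left]
      have h3 := congrArg (fun z => f₁ z u) h2
      simp only [hS₁.smul_left, hvu, mul_zero] at h3
      exact mul_ne_zero hβ0 huu h3

/-- The maximal subgroups in a tensor decomposition with a plane factor, at the field with four elements. -/
theorem SuMax.decomp_of_tensor (C : UCtx σ f K) (hF : Fintype.card F = 4) (hq : ∀ x, σ x = x ^ 2) {m : ℕ} (hm : 2 ≤ m)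
    {e : ι ≃ Fin 2 × Fin m} {P : GL ι F} {f₁ : (Fin 2 → F) → (Fin 2 → F) → F} {f₂ : (Fin m → F) → (Fin m → F) → F}
    (h₁ : IsUnitaryFormPow 2 f₁) (h₂ : IsUnitaryFormPow 2 f₂) (hT : IsTensorFormStructure (fun x : F => x ^ 2) f f₁ f₂ e P)
    {H : Subgroup (GL ι F)} (hH : IsMaximalIn K H) (hle : H ≤ tensorProductSubgroup 2 m e P) :
    ∃ D : Fin 2 → Submodule F (ι → F), IsNondegenerateMDecomposition f m D ∧ H = decompositionStabilizer D ⊓ K := by
  classical
  have hU := C.unitary
  have hU₁ := unitary_of_pow hU hq h₁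
  have hU₂ := unitary_of_pow hU hq h₂
  obtain ⟨c, hc, hcf⟩ := hT
  have hτ : (fun x : F => x ^ 2) = (((σ : F →+* F)) : F → F) := by
    funext x
    exact (hq x).symm
  have heq : ∀ x x' y y', f ((P : Matrix ι ι F) *ᵥ (tvP x y ∘ e)) ((P : Matrix ι ι F) *ᵥ (tvP x' y' ∘ e)) = c * (f₁ x x' * f₂ y y') := by
    intro x x' y y'
    rw [hcf, hτ, form_eq_gram (sesq_of_unitary hU₁), form_eq_gram (sesq_of_unitary hU₂), ← gram_tvP]
    rfl
  obtain ⟨D, h1, h2⟩ := tensor_two_decomp hU hF hq (by omega) hU₁ hU₂ hc heq (fun g hg u v => C.fix g (hH.1.le hg) u v) hle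
  exact ⟨D, h1, maximal_eq' hH h2 (C.not_le_decomp h1.decomp hm)⟩

end Cfsg.Agent.H97.Asch
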