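import Cfsg.Agent.Lib.H97J6

/-!
Maximal subgroups of symplectic groups: the symplectic group is in no member of the geometric classes.
-/

set_option autoImplicit false
set_option linter.unusedSectionVars false
set_option linter.style.haveILetI false

namespace Cfsg.Agent.H97.Asch

open Matrix Cfsg Cfsg.Geo
open scoped MatrixGroups commutatorElement Kronecker

variable {ι : Type} [Fintype ι] [DecidableEq ι] {F : Type*} [Field F] [Fintype F]
  {f : (ι → F) → (ι → F) → F} {K : Subgroup (GL ι F)}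

/-- The functional `u ↦ c f(u, a)`. -/
noncomputable def spDual (hS : Sesq (RingHom.id F) f) (a : ι → F) (c : F) : Module.Dual F (ι → F) where
  toFun u := c * f u a
  map_add' x y := by rw [hS.add_left, mul_add]
  map_smul' r x := by
    simp only [hS.smul_left, smul_eq_mul, RingHom.id_apply]
    ring

theorem spDual_apply (hS : Sesq (RingHom.id F) f) (a : ι → F) (c : F) (u : ι → F) : spDual hS a c u = c * f u a := rfl

/-- The context: a group of isometries of a symplectic form containing the transvections. -/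
structure SCtx (f : (ι → F) → (ι → F) → F) (K : Subgroup (GL ι F)) : Prop where
  ctx : FCtx (RingHom.id F) (-1) f
  alt : ∀ v, f v v = 0
  fix : ∀ g ∈ K, ∀ u v, f ((g : Matrix ι ι F) *ᵥ u) ((g : Matrix ι ι F) *ᵥ v) = f u v
  tv : ∀ (a : ι → F) (c : F) (h : spDual ctx.sesq a c a = 0), tvG h ∈ K

namespace SCtx

variable (C : SCtx f K)
include C

theorem dual_self (a : ι → F) (c : F) : spDual C.ctx.sesq a c a = 0 := by
  rw [spDual_apply, C.alt, mul_zero]

theorem skew (u v : ι → F) : f u v = - f v u := by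
  have := C.ctx.herm u v
  simpa using this

theorem dual_ne {a : ι → F} (ha : a ≠ 0) {c : F} (hc : c ≠ 0) : spDual C.ctx.sesq a c ≠ 0 := by
  intro h0
  obtain ⟨x, hx⟩ := C.ctx.ndl a ha
  have := congrArg (fun ψ : Module.Dual F (ι → F) => ψ x) h0
  simp only [spDual_apply, LinearMap.zero_apply] at this
  exact mul_ne_zero hc hx this

theorem tv_not_stab {W : Submodule F (ι → F)} (h0 : W ≠ ⊥) (h1 : W ≠ ⊤) :
    ¬ ∀ (a : ι → F) (c : F) (h : spDual C.ctx.sesq a c a = 0), tvG h ∈ subspaceStabilizer W := by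
  intro hall
  have hS := C.ctx.sesq
  obtain ⟨w, hw, hw0⟩ := (Submodule.ne_bot_iff W).mp h0
  obtain ⟨a, ha⟩ : ∃ a, a ∉ W := by
    by_contra hcon
    push Not at hcon
    exact h1 (eq_top_iff.mpr fun x _ => hcon x)
  obtain ⟨a', ha', hwa'⟩ : ∃ a', a' ∉ W ∧ f w a' ≠ 0 := by
    by_cases h2 : f w a = 0
    · obtain ⟨b, hb⟩ := C.ctx.ndr w hw0
      by_cases h3 : b ∈ W
      · refine ⟨a + b, fun h4 => ha ?_, ?_⟩
        · have := W.sub_mem h4 h3
          simpa using this
        · rw [hS.add_right, h2, zero_add]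
          exact hb
      · exact ⟨b, h3, hb⟩
    · exact ⟨a, ha, h2⟩
  have ht := hall a' 1 (C.dual_self a' 1)
  have h2 := ((mem_stab_iff W _).mp ht w).mp hw
  rw [tvG_mulVec, spDual_apply, one_mul] at h2
  have h3 := W.sub_mem h2 hw
  rw [add_sub_cancel_left] at h3
  have h4 := W.smul_mem (f w a')⁻¹ h3
  rw [smul_smul, inv_mul_cancel₀ hwa', one_smul] at h4
  exact ha' h4

theorem not_le_stab {W : Submodule F (ι → F)} (h0 : W ≠ ⊥) (h1 : W ≠ ⊤) : ¬ K ≤ subspaceStabilizer W := fun hle =>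
  C.tv_not_stab h0 h1 fun a c h => hle (C.tv a c h)

theorem not_le_decomp {t k : ℕ} {D : Fin t → Submodule F (ι → F)} (hD : IsMDecomposition k D) (hk : 2 ≤ k) :
    ¬ K ≤ decompositionStabilizer D := by
  classical
  intro hle
  have ht := hD.two_le
  let i₀ : Fin t := ⟨0, by omega⟩
  let i₁ : Fin t := ⟨1, by omega⟩
  have hi : i₁ ≠ i₀ := by
    intro h
    have := congrArg Fin.val h
    simp [i₀, i₁] at this
  have hdisj : ∀ i j, i ≠ j → D i ⊓ D j = ⊥ := fun i j hij => (hD.indep.pairwiseDisjoint hij).eq_bot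
  have hne : ∀ i, D i ≠ ⊥ := by
    intro i h
    have := hD.finrank_eq i
    rw [h, finrank_bot] at this
    omega
  have hW1 : D i₀ ≠ ⊤ := by
    intro h
    have := hdisj i₀ i₁ hi.symm
    rw [h, top_inf_eq] at this
    exact hne i₁ this
  exact C.tv_not_stab (hne i₀) hW1 fun a c h => tv_decomp_fix hD hk h (hle (C.tv a c h)) i₀

theorem not_le_field {r : ℕ} (hr : 2 ≤ r) (hn : 3 ≤ Fintype.card ι)
    {K' : Subalgebra F (Matrix ι ι F)} (hK : IsFieldSubalgebra r K') : ¬ K ≤ subalgebraNormalizer K' := by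
  intro hle
  have : Nonempty ι := Fintype.card_pos_iff.mp (by omega)
  obtain ⟨a, ha0⟩ := exists_ne (0 : ι → F)
  obtain ⟨x, hx⟩ := C.ctx.ndl a ha0
  have hφ : spDual C.ctx.sesq a 1 ((f x a)⁻¹ • x) = 1 := by
    rw [map_smul, spDual_apply, smul_eq_mul, one_mul, inv_mul_cancel₀ hx]
  exact tv_not_mem_field hr hn hK (C.dual_self a 1) ha0 hφ (hle (C.tv a 1 _))

theorem not_le_subfield (hn : 4 ≤ Fintype.card ι) {F₀ : Subfield F} (hF₀ : F₀ ≠ ⊤) (P : GL ι F) : ¬ K ≤ subfieldSubgroup F₀ P := by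
  classical
  intro hle
  apply hF₀
  have hS := C.ctx.sesq
  have hline : ∀ b : ι → F, b ≠ 0 → ∃ s : F, s ≠ 0 ∧ ∀ k, s * (((P⁻¹ : GL ι F) : Matrix ι ι F) *ᵥ b) k ∈ F₀ := by
    intro b hb
    exact tv_line_rational (by omega) (C.dual_self b 1) (C.dual_ne hb one_ne_zero) (hle (C.tv b 1 _))
  have : Nonempty ι := Fintype.card_pos_iff.mp (by omega)
  obtain ⟨i₀⟩ := this
  obtain ⟨i₁, hi⟩ : ∃ i₁, i₁ ≠ i₀ := by
    have : 1 < Fintype.card ι := by omega
    exact Fintype.exists_ne_of_one_lt_card this i₀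
  let a : ι → F := Pi.single i₀ 1
  let w : ι → F := Pi.single i₁ 1
  have hind : ∀ α β : F, α • a + β • w = 0 → α = 0 ∧ β = 0 := by
    intro α β h
    have h0 := congrFun h i₀
    have h1 := congrFun h i₁
    simp [a, w, Pi.single_apply, hi, Ne.symm hi] at h0 h1
    exact ⟨h0, h1⟩
  let Pi' := ((P⁻¹ : GL ι F) : Matrix ι ι F)
  have hPi : ∀ x, Pi' *ᵥ x = 0 → x = 0 := by
    intro x hx
    have := congrArg (fun y => (P : Matrix ι ι F) *ᵥ y) hx
    simp only [Pi', gl_mulVec_inv] at this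
    simpa using this
  refine subfield_top_of_lines (v := Pi' *ᵥ a) (v' := Pi' *ᵥ w) ?_ ?_ ?_
  · intro α β h
    apply hind
    apply hPi
    rw [Matrix.mulVec_add, Matrix.mulVec_smul, Matrix.mulVec_smul]
    exact h
  · intro μ
    have hne : a + μ • w ≠ 0 := by
      intro h
      have h2 := (hind 1 μ (by rw [one_smul]; exact h)).1
      exact one_ne_zero h2
    obtain ⟨s, hs, hk⟩ := hline _ hne
    refine ⟨s, hs, fun k => ?_⟩
    have := hk k
    rwa [Matrix.mulVec_add, Matrix.mulVec_smul] at this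
  · have hw0 : w ≠ 0 := by
      intro h
      have h2 := (hind 0 1 (by simpa using h)).2
      exact one_ne_zero h2
    obtain ⟨s, hs, hk⟩ := hline _ hw0
    exact ⟨s, hs, hk⟩

/-- A quadratic form polarising to the form has a singular vector. -/
theorem exists_singular [Nonempty ι] (hn : 4 ≤ Fintype.card ι) (h2 : (2 : F) = 0) {Q : (ι → F) → F}
    (hsm : ∀ (c : F) v, Q (c • v) = c ^ 2 * Q v) (hpol : ∀ u v, QuadraticMap.polar Q u v = f u v) :
    ∃ a : ι → F, a ≠ 0 ∧ Q a = 0 := by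
  classical
  have hS := C.ctx.sesq
  obtain ⟨x, hx0⟩ := exists_ne (0 : ι → F)
  have hx1 : x ∉ (⊥ : Submodule F (ι → F)) := by simpa using hx0
  obtain ⟨ℓ, hℓ1, -⟩ := exists_dual_of_notMem hx1
  let g : (ι → F) →ₗ[F] (Fin 2 → F) := LinearMap.pi ![spDual hS x 1, ℓ]
  have hdim : 2 ≤ Module.finrank F (LinearMap.ker g) := by
    have h1 := LinearMap.finrank_range_add_finrank_ker g
    have h2 : Module.finrank F (LinearMap.range g) ≤ 2 := by
      have := Submodule.finrank_le (LinearMap.range g)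
      simpa using this
    have h3 : Module.finrank F (ι → F) = Fintype.card ι := by simp
    omega
  obtain ⟨x', hx', hx'0⟩ : ∃ x' ∈ LinearMap.ker g, x' ≠ 0 := by
    apply (Submodule.ne_bot_iff _).mp
    intro h0
    rw [h0, finrank_bot] at hdim
    omega
  have hg : g x' = 0 := LinearMap.mem_ker.mp hx'
  have hg0 : f x' x = 0 := by
    have := congrFun hg 0
    simpa [g, spDual_apply] using this
  have hg1 : ℓ x' = 0 := by
    have := congrFun hg 1
    simpa [g] using this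
  have hxx' : f x x' = 0 := by
    rw [C.skew, hg0, neg_zero]
  obtain ⟨s, hs⟩ := exists_sq_of_even h2 (Q x)
  obtain ⟨s', hs'⟩ := exists_sq_of_even h2 (Q x')
  by_cases hs0 : s = 0
  · refine ⟨x, hx0, ?_⟩
    rw [← hs, hs0, mul_zero]
  refine ⟨s' • x + s • x', ?_, ?_⟩
  · intro h0
    have h1 := congrArg ℓ h0
    rw [map_add, map_smul, map_smul, hℓ1, hg1, map_zero, smul_eq_mul, smul_eq_mul, mul_one, mul_zero, add_zero] at h1
    rw [h1, zero_smul, zero_add] at h0
    exact hx'0 ((smul_eq_zero.mp h0).resolve_left hs0)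
  · have h3 := hpol (s' • x) (s • x')
    rw [QuadraticMap.polar, hS.smul_left, hS.smul_right, hxx', hsm, hsm, ← hs, ← hs'] at h3
    simp only [mul_zero, RingHom.id_apply] at h3
    linear_combination h3 + s ^ 2 * s' ^ 2 * h2

/-- The group of isometries is not in a quadratic similarity group. -/
theorem not_le_quad [Nonempty ι] (hn : 4 ≤ Fintype.card ι) (h2 : (2 : F) = 0) {Q : (ι → F) → F}
    (hsm : ∀ (c : F) v, Q (c • v) = c ^ 2 * Q v) (hpol : ∀ u v, QuadraticMap.polar Q u v = f u v) :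
    ¬ K ≤ quadSimilarityGroup Q := by
  classical
  intro hle
  have hS := C.ctx.sesq
  obtain ⟨a, ha0, hQa⟩ := C.exists_singular hn h2 hsm hpol
  obtain ⟨μ, hμ⟩ := hle (C.tv a 1 (C.dual_self a 1))
  have hact : ∀ v, ((tvG (C.dual_self a 1) : GL ι F) : Matrix ι ι F) *ᵥ v = v + f v a • a := by
    intro v
    rw [tvG_mulVec, spDual_apply, one_mul]
  have hQt : ∀ v, Q (v + f v a • a) = Q v + f v a ^ 2 := by
    intro v
    have h3 := hpol v (f v a • a)
    rw [QuadraticMap.polar, hsm, hQa, hS.smul_right] at h3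
    simp only [mul_zero, RingHom.id_apply, sub_zero] at h3
    linear_combination h3
  obtain ⟨v, hv⟩ := C.ctx.ndl a ha0
  have hsq : f v a ^ 2 ≠ 0 := pow_ne_zero 2 hv
  by_cases hQv : Q v = 0
  · have h3 := hμ v
    rw [hact, hQt, hQv, mul_zero, zero_add] at h3
    exact hsq h3
  · have h3 := hμ v
    rw [hact, hQt] at h3
    have h4 := hμ (v + f v a • a)
    rw [hact] at h4
    have e : v + f v a • a + f (v + f v a • a) a • a = v := by
      have e1 : f (v + f v a • a) a = f v a := by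
        rw [hS.add_left, hS.smul_left, C.alt, mul_zero, add_zero]
      rw [e1, add_assoc, ← add_smul]
      have e2 : f v a + f v a = 0 := by linear_combination f v a * h2
      rw [e2, zero_smul, add_zero]
    rw [e, hQt, h3] at h4
    have h5 : ((μ : F) - 1) ^ 2 * Q v = 0 := by
      have h6 : ((μ : F) - 1) ^ 2 = μ * μ - 1 + (1 - μ) * 2 := by ring
      rw [h6, h2, mul_zero, add_zero]
      linear_combination (-1 : F) * h4 + 0 * h3
    have h7 : (μ : F) = 1 := by
      have := (mul_eq_zero.mp h5).resolve_right hQv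
      exact sub_eq_zero.mp (pow_eq_zero_iff (by norm_num) |>.mp this)
    rw [h7, one_mul] at h3
    apply hsq
    linear_combination h3

end SCtx

/-- The conclusion of the reduction theorem for maximal subgroups of a group `K` of isometries of a symplectic form. -/
def SpMax (f : (ι → F) → (ι → F) → F) (K H : Subgroup (GL ι F)) : Prop :=
  (∃ W : Submodule F (ι → F), W ≠ ⊥ ∧ IsTotallySingularFor f W ∧ H = subspaceStabilizer W ⊓ K) ∨
  (∃ W : Submodule F (ι → F), W ≠ ⊥ ∧ IsNondegenerateOn f W ∧ 2 * Module.finrank F W < Fintype.card ι ∧ H = subspaceStabilizer W ⊓ K) ∨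
  (∃ (t k : ℕ) (D : Fin t → Submodule F (ι → F)), IsNondegenerateMDecomposition f k D ∧ H = decompositionStabilizer D ⊓ K) ∨
  (∃ (k : ℕ) (D : Fin 2 → Submodule F (ι → F)), Odd (Fintype.card F) ∧ IsMDecomposition k D ∧
      (∀ i, IsTotallySingularFor f (D i)) ∧ H = decompositionStabilizer D ⊓ K) ∨
  (∃ (F₀ : Subfield F) (r : ℕ) (P : GL ι F) (ζ : F), r.Prime ∧ Fintype.card F = Nat.card F₀ ^ r ∧ ζ ≠ 0 ∧
      IsFormRationalStructure f F₀ ζ P ∧ H = subfieldSubgroup F₀ P ⊓ K) ∨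
  (∃ (R : Subgroup (GL ι F)) (p k : ℕ), IsSymplecticTypeGroup 2 R ∧
      ActsAbsolutelyIrreducibly (matrixSet R) ∧ R ≤ similarityGroup f ∧ p.Prime ∧ Odd p ∧ Fintype.card F = p ∧
      Nat.card R = 2 ^ (1 + 2 * k) ∧ Nat.card (Subgroup.center R) = 2 ∧ IsOfMinusType k R ∧ Fintype.card ι = 2 ^ k ∧
      (∀ x ∈ R, ∀ y ∈ R, ∃ ξ : Fˣ, x * y = scU ξ * (y * x)) ∧ H = subgroupNormalizer R ⊓ K) ∨
  (∃ Q : (ι → F) → F, ¬ Odd (Fintype.card F) ∧ IsNondegenerateQuadraticForm Q ∧
      (∀ u v, QuadraticMap.polar Q u v = f u v) ∧ H = quadSimilarityGroup Q ⊓ K) ∨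
  (∃ (r : ℕ) (K' : Subalgebra F (Matrix ι ι F)), r.Prime ∧ IsFieldSubalgebra r K' ∧
      IsSelfAdjointFor f K' ∧ (∀ k ∈ K', ∀ v, f (k *ᵥ v) v = 0) ∧ H = subalgebraNormalizer K' ⊓ K) ∨
  (∃ K' : Subalgebra F (Matrix ι ι F), Odd (Fintype.card F) ∧ IsFieldSubalgebra 2 K' ∧
      IsAdjointClosedFor f K' ∧ ¬ IsSelfAdjointFor f K' ∧ H = subalgebraNormalizer K' ⊓ K) ∨
  (∃ (n₁ n₂ : ℕ) (e : ι ≃ Fin n₁ × Fin n₂) (P : GL ι F)
      (f₁ : (Fin n₁ → F) → (Fin n₁ → F) → F) (f₂ : (Fin n₂ → F) → (Fin n₂ → F) → F),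
      Odd (Fintype.card F) ∧ 3 ≤ n₂ ∧ IsSymplecticForm f₁ ∧ IsSymmetricForm f₂ ∧
      IsTensorFormStructure id f f₁ f₂ e P ∧ H = tensorProductSubgroup n₁ n₂ e P ⊓ K) ∨
  (∃ (k t : ℕ) (e : ι ≃ (Fin t → Fin k)) (P : GL ι F) (f₁ : (Fin k → F) → (Fin k → F) → F),
      Odd (Fintype.card F) ∧ Odd t ∧ 3 ≤ t ∧ ¬ (Fintype.card F = 3 ∧ k = 2) ∧ IsSymplecticForm f₁ ∧
      IsTensorPowerFormStructure id f f₁ e P ∧ H = tensorWreathSubgroup k t e P ⊓ K) ∨
  InSymplecticResidualClass H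

/-- The non-containments turn the reduction theorem to equalities. -/
theorem SpOutcome.toMax [Nonempty ι] (C : SCtx f K) (hn : 4 ≤ Fintype.card ι) {H : Subgroup (GL ι F)} (hH : IsMaximalIn K H)
    (h : SpOutcome f H) : SpMax f K H := by
  classical
  obtain ⟨a, ha0⟩ := exists_ne (0 : ι → F)
  have htv := C.dual_self a 1
  have hφ := C.dual_ne ha0 one_ne_zero
  have hmem := C.tv a 1 htv
  rcases h with ⟨W, h0, h1, h2⟩ | ⟨W, h0, h1, h2, h3⟩ | ⟨t, k, D, h1, h2⟩ | ⟨k, D, h0, h1, h2, h3⟩ |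
    ⟨F₀, r, P, ζ, h0, h1, h2, h3, h4⟩ | ⟨R, p, k, h0, h1, h2, h3, h4, h5, h6, h7, h8, h9, h10, h11⟩ | ⟨Q, h0, h1, h2, h3⟩ |
    ⟨r, K', h0, h1, h2, h3, h4⟩ | ⟨K', h0, h1, h2, h3, h4⟩ | ⟨n₁, n₂, e, P, f₁, f₂, h0, h1, h2, h3, h4, h5⟩ |
    ⟨k, t, e, P, f₁, h0, h1, h2, h3, h4, h5, h6⟩ | h
  · refine Or.inl ⟨W, h0, h1, maximal_eq' hH h2 (C.not_le_stab h0 ?_)⟩
    rintro rfl
    obtain ⟨x, hx⟩ := C.ctx.ndl a ha0
    exact hx (h1 _ Submodule.mem_top _ Submodule.mem_top)
  · refine Or.inr <| Or.inl ⟨W, h0, h1, h2, maximal_eq' hH h3 (C.not_le_stab h0 ?_)⟩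
    rintro rfl
    rw [finrank_top] at h2
    have : Module.finrank F (ι → F) = Fintype.card ι := by simp
    omega
  · refine Or.inr <| Or.inr <| Or.inl ⟨t, k, D, h1, maximal_eq' hH h2 ?_⟩
    have hk : 0 < k := h1.decomp.pos
    by_cases hk2 : 2 ≤ k
    · exact C.not_le_decomp h1.decomp hk2
    · exfalso
      have hk1 : k = 1 := by omega
      subst hk1
      obtain ⟨b, hb⟩ := exists_basis_of_mdecomp1 h1.decomp
      have ht := h1.decomp.two_le
      let i₀ : Fin t := ⟨0, by omega⟩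
      have hbm : b i₀ ∈ D i₀ := by
        rw [hb]
        exact Submodule.mem_span_singleton_self _
      obtain ⟨⟨x, hx, hx0⟩, -⟩ := h1.nondegenerate i₀ (b i₀) hbm (b.ne_zero i₀)
      rw [hb] at hx
      obtain ⟨s, rfl⟩ := Submodule.mem_span_singleton.mp hx
      apply hx0
      rw [C.ctx.sesq.smul_left, C.alt, mul_zero]
  · refine Or.inr <| Or.inr <| Or.inr <| Or.inl ⟨k, D, h0, h1, h2, maximal_eq' hH h3 ?_⟩
    have hc := card_of_mdecomp h1
    exact C.not_le_decomp h1 (by omega)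
  · refine Or.inr <| Or.inr <| Or.inr <| Or.inr <| Or.inl ⟨F₀, r, P, ζ, h0, h1, h2, h3, maximal_eq' hH h4 ?_⟩
    exact C.not_le_subfield hn (subfield_ne_top_of_card h0.two_le h1) P
  · refine Or.inr <| Or.inr <| Or.inr <| Or.inr <| Or.inr <| Or.inl ⟨R, p, k, h0, h1, h2, h3, h4, h5, h6, h7, h8, h9, h10, maximal_eq' hH h11 ?_⟩
    intro hle
    refine tv_not_nrm hn ((actsIrreducibly_iff R).mp h1.1) (fun g hg => scalars_of_absIrred h1 hg) h10 htv ha0 hφ ?_
    intro x hx
    have h12 : tvG htv ∈ Subgroup.normalizer (R : Set (GL ι F)) := hle hmem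
    exact (Subgroup.mem_normalizer_iff.mp h12 x).mp hx
  · refine Or.inr <| Or.inr <| Or.inr <| Or.inr <| Or.inr <| Or.inr <| Or.inl ⟨Q, h0, h1, h2, maximal_eq' hH h3 ?_⟩
    exact C.not_le_quad hn (two_eq_zero_of_not_odd h0) h1.smul h2
  · refine Or.inr <| Or.inr <| Or.inr <| Or.inr <| Or.inr <| Or.inr <| Or.inr <| Or.inl ⟨r, K', h0, h1, h2, h3, maximal_eq' hH h4 ?_⟩
    exact C.not_le_field h0.two_le (by omega) h1
  · refine Or.inr <| Or.inr <| Or.inr <| Or.inr <| Or.inr <| Or.inr <| Or.inr <| Or.inr <| Or.inl ⟨K', h0, h1, h2, h3, maximal_eq' hH h4 ?_⟩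
    exact C.not_le_field le_rfl (by omega) h1
  · refine Or.inr <| Or.inr <| Or.inr <| Or.inr <| Or.inr <| Or.inr <| Or.inr <| Or.inr <| Or.inr <| Or.inl ⟨n₁, n₂, e, P, f₁, f₂, h0, h1, h2, h3, h4, maximal_eq' hH h5 ?_⟩
    intro hle
    have hn1 : 2 ≤ n₁ := by
      obtain ⟨d, hd⟩ : Even n₁ := by simpa using IsSymplecticForm.even h2
      have hc : n₁ * n₂ = Fintype.card ι := by
        have := Fintype.card_congr e
        simpa [Fintype.card_prod] using this.symm
      have : n₁ ≠ 0 := by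
        rintro rfl
        simp at hc
        omega
      omega
    exact tv_not_mem_tensor hn1 (by omega) e P htv ha0 hφ (hle hmem)
  · refine Or.inr <| Or.inr <| Or.inr <| Or.inr <| Or.inr <| Or.inr <| Or.inr <| Or.inr <| Or.inr <| Or.inr <| Or.inl ⟨k, t, e, P, f₁, h0, h1, h2, h3, h4, h5, maximal_eq' hH h6 ?_⟩
    intro hle
    have hk : 2 ≤ k := by
      obtain ⟨d, hd⟩ : Even k := by simpa using IsSymplecticForm.even h4
      have hc : k ^ t = Fintype.card ι := by
        have := Fintype.card_congr e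
        simpa [Fintype.card_fun] using this.symm
      have : k ≠ 0 := by
        rintro rfl
        rw [zero_pow (by omega)] at hc
        omega
      omega
    exact tv_not_mem_wreath hk (by omega) (Or.inr h2) e P htv ha0 hφ (hle hmem)
  · exact Or.inr <| Or.inr <| Or.inr <| Or.inr <| Or.inr <| Or.inr <| Or.inr <| Or.inr <| Or.inr <| Or.inr <| Or.inr h

/-- The reduction theorem for maximal subgroups. -/
theorem Sp.maximal [Nonempty ι] (C : SCtx f K) (hn : 4 ≤ Fintype.card ι) {H : Subgroup (GL ι F)} (hH : IsMaximalIn K H) : SpMax f K H :=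
  SpOutcome.toMax C hn hH (Sp.main hn C.ctx C.alt fun g hg u v => C.fix g (hH.1.le hg) u v)

/-- The standard symplectic group. -/
theorem sp_ctx (m : ℕ) : SCtx (sympForm m F) (spGL m F) where
  ctx := symp_ctx m
  alt := Cfsg.Agent.Lib.SympForm.sympForm_self
  fix _ hg u v := hg u v
  tv a c h := by
    intro u v
    have hC := symp_ctx (F := F) m
    have hS := hC.sesq
    have halt := Cfsg.Agent.Lib.SympForm.sympForm_self (F := F) (m := m)
    have hsk : ∀ x y : Fin m ⊕ Fin m → F, sympForm m F x y = - sympForm m F y x := fun x y => by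
      have := hC.herm x y
      simpa using this
    show sympForm m F (((tvG h : GL _ F) : Matrix _ _ F) *ᵥ u) (((tvG h : GL _ F) : Matrix _ _ F) *ᵥ v) = sympForm m F u v
    rw [tvG_mulVec, tvG_mulVec, spDual_apply, spDual_apply, hS.add_left, hS.add_right, hS.add_right, hS.smul_left, hS.smul_right, hS.smul_right,
      hS.smul_left, halt]
    simp only [RingHom.id_apply]
    rw [hsk a v]
    ring

end Cfsg.Agent.H97.Asch
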