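import Cfsg.Agent.Lib.H97J7

/-!
Maximal subgroups of symplectic groups: dimension constraints for non-degenerate subspaces and for extension fields.
-/

set_option autoImplicit false
set_option linter.unusedSectionVars false
set_option linter.style.haveILetI false

namespace Cfsg.Agent.H97.Asch

open Matrix Cfsg Cfsg.Geo
open scoped MatrixGroups commutatorElement Kronecker

variable {ι : Type} [Fintype ι] [DecidableEq ι] {F : Type*} [Field F] [Fintype F]
  {f : (ι → F) → (ι → F) → F} {K : Subgroup (GL ι F)}

/-- Non-degenerate subspaces of alternating forms have even dimension. -/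
theorem finrank_even_of_nondeg (hS : Sesq (RingHom.id F) f) (halt : ∀ v, f v v = 0) {W : Submodule F (ι → F)}
    (hN : IsNondegenerateOn f W) : Even (Module.finrank F W) := by
  classical
  let b := Module.finBasis F W
  let φ : (Fin (Module.finrank F W) → F) →ₗ[F] (ι → F) := W.subtype.comp b.equivFun.symm.toLinearMap
  let g : (Fin (Module.finrank F W) → F) → (Fin (Module.finrank F W) → F) → F := fun x y => f (φ x) (φ y)
  have hg : Sesq (RingHom.id F) g :=
    ⟨fun x y v => by simp only [g, map_add, hS.add_left],
     fun c x v => by simp only [g, map_smul, hS.smul_left],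
     fun v x y => by simp only [g, map_add, hS.add_right],
     fun c x v => by simp only [g, map_smul, hS.smul_right]⟩
  have hmem : ∀ x, φ x ∈ W := fun x => (b.equivFun.symm x).2
  have hsurj : ∀ w ∈ W, ∃ x, φ x = w := by
    intro w hw
    refine ⟨b.equivFun ⟨w, hw⟩, ?_⟩
    simp [φ]
  have hinj : ∀ x, φ x = 0 → x = 0 := by
    intro x hx
    have h1 : b.equivFun.symm x = 0 := Subtype.ext hx
    exact b.equivFun.symm.map_eq_zero_iff.mp h1
  have := alt_even hg (fun v => halt _) (fun v hv => by
    have h0 : φ v ≠ 0 := fun h => hv (hinj v h)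
    obtain ⟨⟨x, hx, hx0⟩, -⟩ := hN _ (hmem v) h0
    obtain ⟨y, rfl⟩ := hsurj x hx
    exact ⟨y, hx0⟩)
  simpa using this

/-- the dimension formula for perpendicular spaces -/
theorem FCtx.finrank_perp {σ : F →+* F} {ε : F} (C : FCtx σ ε f) (W : Submodule F (ι → F)) :
    Module.finrank F W + Module.finrank F (C.perp W) = Fintype.card ι := by
  classical
  have hS := C.sesq
  let bW := Module.finBasis F W
  let Φ : (ι → F) →ₗ[F] (Fin (Module.finrank F W) → F) :=
    { toFun := fun v i => f v (bW i)
      map_add' := fun x y => by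
        ext i
        exact hS.add_left _ _ _
      map_smul' := fun c x => by
        ext i
        exact hS.smul_left _ _ _ }
  have hker : LinearMap.ker Φ = C.perp W := by
    ext v
    constructor
    · intro hv w hw
      have hv' : ∀ i, f v (bW i) = 0 := fun i => congrFun (LinearMap.mem_ker.mp hv) i
      have e : w = ∑ i, bW.repr ⟨w, hw⟩ i • ((bW i : W) : ι → F) := by
        have := congrArg Subtype.val (bW.sum_repr ⟨w, hw⟩)
        simp only [Submodule.coe_sum, Submodule.coe_smul] at this
        exact this.symm
      rw [e, hS.sum_right]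
      exact Finset.sum_eq_zero fun i _ => by rw [hS.smul_right, hv', mul_zero]
    · intro hv
      refine LinearMap.mem_ker.mpr ?_
      ext i
      exact hv _ (bW i).2
  have hsurj : LinearMap.range Φ = ⊤ := by
    by_contra hne
    obtain ⟨ψ, hψ0, hψ⟩ := Submodule.exists_le_ker_of_lt_top _ (lt_top_iff_ne_top.mpr hne)
    -- the coefficients of the functional
    let c : Fin (Module.finrank F W) → F := fun i => ψ (Pi.single i 1)
    have hψc : ∀ y, ψ y = ∑ i, c i * y i := by
      intro y
      have e : y = ∑ i, y i • (Pi.single i (1 : F) : Fin (Module.finrank F W) → F) := by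
        funext k
        simp [Finset.sum_apply, Pi.single_apply]
      conv_lhs => rw [e]
      rw [map_sum]
      refine Finset.sum_congr rfl fun i _ => ?_
      rw [map_smul, smul_eq_mul, mul_comm]
    let w : ι → F := ∑ i, σ (c i) • ((bW i : W) : ι → F)
    have hw : ∀ v, f v w = 0 := by
      intro v
      have h1 : ψ (Φ v) = 0 := LinearMap.mem_ker.mp (hψ ⟨v, rfl⟩)
      rw [hψc] at h1
      rw [hS.sum_right, ← h1]
      refine Finset.sum_congr rfl fun i _ => ?_
      rw [hS.smul_right, C.invol]
      rfl
    have hw0 : w = 0 := by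
      by_contra h0
      obtain ⟨x, hx⟩ := C.ndr w h0
      rw [C.herm] at hx
      apply hx
      rw [hw, map_zero, mul_zero]
    have hc0 : ∀ i, σ (c i) = 0 := by
      have hind := bW.linearIndependent
      have h1 : ∑ i, σ (c i) • bW i = 0 := by
        apply Subtype.ext
        simpa [w] using hw0
      exact Fintype.linearIndependent_iff.mp hind _ h1
    apply hψ0
    refine LinearMap.ext fun y => ?_
    rw [hψc]
    simp only [LinearMap.zero_apply]
    refine Finset.sum_eq_zero fun i _ => ?_
    have : c i = 0 := by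
      have h2 := C.invol (c i)
      rw [hc0 i, map_zero] at h2
      exact h2.symm
    rw [this, zero_mul]
  have h1 := LinearMap.finrank_range_add_finrank_ker Φ
  rw [hsurj, hker, finrank_top] at h1
  simpa using h1

/-- The subspaces stable under an extension field have dimension divisible by the degree. -/
theorem finrank_stable_dvd [Nonempty ι] {r : ℕ} {K' : Subalgebra F (Matrix ι ι F)} (hK : IsFieldSubalgebra r K') {U : Submodule F (ι → F)}
    (hU : ∀ k ∈ K', ∀ u ∈ U, k *ᵥ u ∈ U) : r ∣ Module.finrank F U := by
  classical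
  have hF : IsField K' := by
    refine ⟨⟨0, 1, ?_⟩, fun a b => Subtype.ext (hK.comm a a.2 b b.2), fun {a} ha => ?_⟩
    · exact zero_ne_one
    · obtain ⟨y, hy, hay⟩ := hK.inv a a.2 fun h => ha (Subtype.ext h)
      exact ⟨⟨y, hy⟩, Subtype.ext hay⟩
  letI modU : Module K' U :=
    { smul := fun k u => ⟨(k : Matrix ι ι F) *ᵥ (u : ι → F), hU k k.2 u u.2⟩
      one_smul := fun u => Subtype.ext (by
        show ((1 : K') : Matrix ι ι F) *ᵥ (u : ι → F) = u
        simp)
      mul_smul := fun a b u => Subtype.ext (by
        show ((a * b : K') : Matrix ι ι F) *ᵥ (u : ι → F) = (a : Matrix ι ι F) *ᵥ ((b : Matrix ι ι F) *ᵥ (u : ι → F))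
        simp [Matrix.mulVec_mulVec])
      smul_zero := fun a => Subtype.ext (by
        show (a : Matrix ι ι F) *ᵥ ((0 : U) : ι → F) = 0
        simp)
      smul_add := fun a x y => Subtype.ext (by
        show (a : Matrix ι ι F) *ᵥ ((x + y : U) : ι → F) = (a : Matrix ι ι F) *ᵥ (x : ι → F) + (a : Matrix ι ι F) *ᵥ (y : ι → F)
        simp [Matrix.mulVec_add])
      add_smul := fun a b x => Subtype.ext (by
        show ((a + b : K') : Matrix ι ι F) *ᵥ (x : ι → F) = (a : Matrix ι ι F) *ᵥ (x : ι → F) + (b : Matrix ι ι F) *ᵥ (x : ι → F)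
        simp [Matrix.add_mulVec])
      zero_smul := fun x => Subtype.ext (by
        show ((0 : K') : Matrix ι ι F) *ᵥ (x : ι → F) = 0
        simp) }
  have hsc : IsScalarTower F K' U := ⟨fun c k v => Subtype.ext (by
    show ((c • k : K') : Matrix ι ι F) *ᵥ (v : ι → F) = c • ((k : Matrix ι ι F) *ᵥ (v : ι → F))
    simp [Matrix.smul_mulVec])⟩
  haveI hfree : Module.Free K' U := by
    letI := hF.toField
    exact @Module.Free.of_divisionRing K' U _ _ modU
  have hsrc : StrongRankCondition K' := by
    letI := hF.toField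
    infer_instance
  have := @Module.finrank_mul_finrank F K' U _ (Subalgebra.toSemiring K') _ _ modU _ hsc _ hsrc _ hfree
  rw [hK.finrank_eq] at this
  exact ⟨_, this.symm⟩

/-- Extension fields with a trace-alternating form: the dimension is divisible by twice the degree. -/
theorem selfadj_dvd [Nonempty ι] (C : FCtx (RingHom.id F) (-1) f) (halt : ∀ v, f v v = 0) {r : ℕ}
    {K' : Subalgebra F (Matrix ι ι F)} (hK : IsFieldSubalgebra r K') (hself : IsSelfAdjointFor f K')
    (hv : ∀ k ∈ K', ∀ v, f (k *ᵥ v) v = 0) : 2 * r ∣ Fintype.card ι := by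
  classical
  have hS := C.sesq
  -- the stable totally singular subspaces
  let S : Set (Submodule F (ι → F)) := {U | (∀ k ∈ K', ∀ u ∈ U, k *ᵥ u ∈ U) ∧ ∀ u ∈ U, ∀ v ∈ U, f u v = 0}
  have hfin : S.Finite := Set.toFinite S
  have hne : S.Nonempty := ⟨⊥, by
    constructor
    · intro k _ u hu
      rw [Submodule.mem_bot] at hu ⊢
      rw [hu, Matrix.mulVec_zero]
    · intro u hu v _
      rw [Submodule.mem_bot] at hu
      rw [hu]
      exact hS.zero_left v⟩
  obtain ⟨U, ⟨hUs, hUt⟩, hmax⟩ := Set.exists_max_image S (fun U => Module.finrank F U) hfin hne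
  have hperp : C.perp U = U := by
    apply le_antisymm
    · intro v hvU
      have hvp : ∀ u ∈ U, f v u = 0 := hvU
      have hvp' : ∀ u ∈ U, f u v = 0 := fun u hu => by
        have := C.herm u v
        simp only [RingHom.id_apply] at this
        rw [this, hvp u hu]
        simp
      -- the space generated by `U` and the `K' v`.
      let L : Matrix ι ι F →ₗ[F] (ι → F) :=
        { toFun := fun m => m *ᵥ v
          map_add' := fun a b => Matrix.add_mulVec a b v
          map_smul' := fun c a => by simp [Matrix.smul_mulVec] }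
      let T : Submodule F (ι → F) := (Subalgebra.toSubmodule K').map L
      have hUT : U ⊔ T ∈ S := by
        constructor
        · intro k hk x hx
          obtain ⟨u, hu, t, ht, rfl⟩ := Submodule.mem_sup.mp hx
          obtain ⟨m, hm, rfl⟩ := ht
          rw [Matrix.mulVec_add]
          refine Submodule.add_mem _ (Submodule.mem_sup_left (hUs k hk u hu)) (Submodule.mem_sup_right ?_)
          refine ⟨k * m, K'.mul_mem hk hm, ?_⟩
          show (k * m) *ᵥ v = k *ᵥ (m *ᵥ v)
          rw [Matrix.mulVec_mulVec]
        · intro x hx y hy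
          obtain ⟨u, hu, t, ht, rfl⟩ := Submodule.mem_sup.mp hx
          obtain ⟨u', hu', t', ht', rfl⟩ := Submodule.mem_sup.mp hy
          obtain ⟨m, hm, rfl⟩ := ht
          obtain ⟨m', hm', rfl⟩ := ht'
          show f (u + m *ᵥ v) (u' + m' *ᵥ v) = 0
          rw [hS.add_left, hS.add_right, hS.add_right, hUt u hu u' hu', ← hself m' hm' u v, hvp' _ (hUs m' hm' u hu),
            hself m hm v u', hvp _ (hUs m hm u' hu'), ← hself m' hm' (m *ᵥ v) v, Matrix.mulVec_mulVec, hv _ (K'.mul_mem hm' hm) v]
          simp
      have hle := hmax _ hUT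
      have heq : U = U ⊔ T := Submodule.eq_of_le_of_finrank_le le_sup_left hle
      have hvT : v ∈ T := ⟨1, K'.one_mem, by
        show (1 : Matrix ι ι F) *ᵥ v = v
        simp⟩
      rw [heq]
      exact Submodule.mem_sup_right hvT
    · intro u hu w hw
      exact hUt u hu w hw
  have h1 := C.finrank_perp U
  rw [hperp] at h1
  have h2 := finrank_stable_dvd hK hUs
  obtain ⟨d, hd⟩ := h2
  exact ⟨d, by rw [← h1, hd]; ring⟩

end Cfsg.Agent.H97.Asch
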