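import Cfsg.Agent.Lib.H97J8

/-!
Symplectic groups over the field with two elements: decompositions into planes preserve a quadratic form.
-/

set_option autoImplicit false
set_option linter.unusedSectionVars false
set_option linter.style.haveILetI false

namespace Cfsg.Agent.H97.Asch

open Matrix Cfsg Cfsg.Geo
open scoped MatrixGroups commutatorElement Kronecker

variable {ι : Type} [Fintype ι] [DecidableEq ι] {F : Type*} [Field F] [Fintype F]
  {f : (ι → F) → (ι → F) → F} {K : Subgroup (GL ι F)}

theorem f2_cases (hF : Fintype.card F = 2) (x : F) : x = 0 ∨ x = 1 := by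
  by_cases h : x = 0
  · exact Or.inl h
  · right
    have := FiniteField.pow_card_sub_one_eq_one x h
    rw [hF] at this
    simpa using this

/-- A hyperbolic pair of a non-degenerate plane for an alternating form. -/
theorem plane_pair (C : FCtx (RingHom.id F) (-1) f) (halt : ∀ v, f v v = 0) {W : Submodule F (ι → F)}
    (hW : Module.finrank F W = 2) (hN : IsNondegenerateOn f W) :
    ∃ a b : ι → F, a ∈ W ∧ b ∈ W ∧ f a b = 1 ∧ ∀ w ∈ W, ∃ x y : F, w = x • a + y • b := by
  classical
  have hS := C.sesq
  obtain ⟨a, ha, ha0⟩ : ∃ a ∈ W, a ≠ 0 := by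
    apply (Submodule.ne_bot_iff _).mp
    rintro rfl
    rw [finrank_bot] at hW
    omega
  obtain ⟨-, ⟨b₀, hb₀, hab₀⟩⟩ := hN a ha ha0
  let b : ι → F := (f a b₀)⁻¹ • b₀
  have hb : b ∈ W := W.smul_mem _ hb₀
  have hab : f a b = 1 := by
    simp only [b]
    rw [hS.smul_right]
    simp only [RingHom.id_apply]
    field_simp
  have hba : f b a = -1 := by
    have := C.herm b a
    simp only [RingHom.id_apply] at this
    rw [this, hab, mul_one]
  have hind : LinearIndependent F ![a, b] := by
    rw [LinearIndependent.pair_iff]
    intro s t hst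
    have h1 : f (s • a + t • b) b = 0 := by
      rw [hst]
      exact hS.zero_left b
    rw [hS.add_left, hS.smul_left, hS.smul_left, hab, halt, mul_zero, add_zero, mul_one] at h1
    have h2 : f (s • a + t • b) a = 0 := by
      rw [hst]
      exact hS.zero_left a
    rw [hS.add_left, hS.smul_left, hS.smul_left, hba, halt, mul_zero, zero_add] at h2
    exact ⟨h1, by simpa using h2⟩
  have hspan : Submodule.span F {a, b} = W := by
    apply Submodule.eq_of_le_of_finrank_eq
    · rw [Submodule.span_le]
      intro x hx
      rcases hx with rfl | rfl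
      · exact ha
      · exact hb
    · rw [hW]
      have h1 := finrank_span_eq_card hind
      rw [Matrix.range_cons, Matrix.range_cons, Matrix.range_empty, Set.union_empty, Fintype.card_fin] at h1
      exact h1
  refine ⟨a, b, ha, hb, hab, fun w hw => ?_⟩
  rw [← hspan, Submodule.mem_span_pair] at hw
  obtain ⟨x, y, rfl⟩ := hw
  exact ⟨x, y, rfl⟩

/-- At the field with two elements, decompositions into planes preserve a quadratic form. -/
theorem quad_of_two (C : FCtx (RingHom.id F) (-1) f) (halt : ∀ v, f v v = 0) (hF : Fintype.card F = 2) {t : ℕ}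
    {D : Fin t → Submodule F (ι → F)} (hD : IsNondegenerateMDecomposition f 2 D) {H : Subgroup (GL ι F)} (hfix : FFix f H)
    (hle : H ≤ decompositionStabilizer D) :
    ∃ Q : (ι → F) → F, (∀ (c : F) v, Q (c • v) = c ^ 2 * Q v) ∧ (∀ u v, QuadraticMap.polar Q u v = f u v) ∧ H ≤ quadSimilarityGroup Q := by
  classical
  have hS := C.sesq
  have h2 : (2 : F) = 0 := two_eq_zero_of_not_odd (by rw [hF]; decide)
  have hsk : ∀ x y, f x y = - f y x := fun x y => by
    have := C.herm x y
    simpa using this
  have hpl := fun i => plane_pair C halt (hD.decomp.finrank_eq i) (hD.nondegenerate i)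
  choose a b ha hb hab hexp using hpl
  have hba : ∀ i, f (b i) (a i) = -1 := fun i => by rw [hsk, hab]
  have hort : ∀ i j, i ≠ j → ∀ u ∈ D i, ∀ v ∈ D j, f u v = 0 := fun i j hij u hu v hv => hD.orthogonal i j hij u hu v hv
  -- the space is spanned by the planes, so the pairs form a complete system
  have hnd : ∀ w, (∀ j, f w (a j) = 0 ∧ f w (b j) = 0) → w = 0 := by
    intro w hw
    have hall : ∀ z, f w z = 0 := by
      intro z
      have hz : z ∈ ⨆ i, D i := by
        rw [hD.decomp.iSup_eq_top]
        exact Submodule.mem_top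
      induction hz using Submodule.iSup_induction' with
      | mem i x hx =>
        obtain ⟨s, r, rfl⟩ := hexp i x hx
        rw [hS.add_right, hS.smul_right, hS.smul_right, (hw i).1, (hw i).2]
        simp
      | zero => exact hS.zero_right w
      | add x y _ _ hx hy => rw [hS.add_right, hx, hy, add_zero]
    by_contra h0
    obtain ⟨x, hx⟩ := C.ndr w h0
    exact hx (hall x)
  have hexpand : ∀ v, v = ∑ i, (f v (b i) • a i + f v (a i) • b i) := by
    intro v
    have h0 : v - ∑ i, (f v (b i) • a i + f v (a i) • b i) = 0 := by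
      apply hnd
      intro j
      constructor
      · rw [hS.sub_left, hS.sum_left, Finset.sum_eq_single j]
        · rw [hS.add_left, hS.smul_left, hS.smul_left, halt, hba]
          have : f v (a j) + f v (a j) = 0 := by linear_combination f v (a j) * h2
          linear_combination this
        · intro i _ hij
          rw [hS.add_left, hS.smul_left, hS.smul_left, hort i j hij _ (ha i) _ (ha j), hort i j hij _ (hb i) _ (ha j)]
          simp
        · intro h3
          exact absurd (Finset.mem_univ j) h3
      · rw [hS.sub_left, hS.sum_left, Finset.sum_eq_single j]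
        · rw [hS.add_left, hS.smul_left, hS.smul_left, halt, hab]
          ring
        · intro i _ hij
          rw [hS.add_left, hS.smul_left, hS.smul_left, hort i j hij _ (ha i) _ (hb j), hort i j hij _ (hb i) _ (hb j)]
          simp
        · intro h3
          exact absurd (Finset.mem_univ j) h3
    exact sub_eq_zero.mp h0
  have hform : ∀ u v, f u v = ∑ i, (f u (b i) * f v (a i) + f u (a i) * f v (b i)) := by
    intro u v
    conv_lhs => rw [hexpand v]
    rw [hS.sum_right]
    refine Finset.sum_congr rfl fun i _ => ?_
    rw [hS.add_right, hS.smul_right, hS.smul_right]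
    simp only [RingHom.id_apply]
    ring
  let term : Fin t → (ι → F) → F := fun i v => f v (b i) ^ 2 + f v (b i) * f v (a i) + f v (a i) ^ 2
  have hterm : ∀ i v, term i v = 0 ↔ ∀ w ∈ D i, f v w = 0 := by
    intro i v
    constructor
    · intro h w hw
      obtain ⟨s, r, rfl⟩ := hexp i w hw
      rw [hS.add_right, hS.smul_right, hS.smul_right]
      simp only [RingHom.id_apply]
      simp only [term] at h
      rcases f2_cases hF (f v (b i)) with h3 | h3 <;> rcases f2_cases hF (f v (a i)) with h4 | h4
      · rw [h3, h4]
        ring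
      · rw [h3, h4] at h
        simp at h
      · rw [h3, h4] at h
        simp at h
      · rw [h3, h4] at h
        exfalso
        have : (1 : F) = 0 := by linear_combination h - h2
        exact one_ne_zero this
    · intro h
      simp only [term]
      rw [h _ (hb i), h _ (ha i)]
      ring
  have hterm1 : ∀ i v, term i v = 0 ∨ term i v = 1 := fun i v => f2_cases hF _
  refine ⟨fun v => ∑ i, term i v, ?_, ?_, ?_⟩
  · intro c v
    rw [Finset.mul_sum]
    refine Finset.sum_congr rfl fun i _ => ?_
    simp only [term, hS.smul_left]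
    ring
  · intro u v
    rw [hform u v, QuadraticMap.polar, ← Finset.sum_sub_distrib, ← Finset.sum_sub_distrib]
    refine Finset.sum_congr rfl fun i _ => ?_
    simp only [term, hS.add_left]
    linear_combination (f u (b i) * f v (b i) + f u (a i) * f v (a i)) * h2
  · intro g hg
    obtain ⟨π, hπ⟩ := hle hg
    refine ⟨1, fun v => ?_⟩
    rw [Units.val_one, one_mul]
    have hinv : ∀ i, term (π i) ((g : Matrix ι ι F) *ᵥ v) = term i v := by
      intro i
      have hiff : term (π i) ((g : Matrix ι ι F) *ᵥ v) = 0 ↔ term i v = 0 := by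
        rw [hterm, hterm]
        constructor
        · intro h w hw
          have h3 := h ((g : Matrix ι ι F) *ᵥ w) (by
            rw [← hπ]
            exact ⟨w, hw, rfl⟩)
          rwa [hfix g hg] at h3
        · intro h w hw
          rw [← hπ] at hw
          obtain ⟨w', hw', rfl⟩ := hw
          have h3 := h w' hw'
          simp only [Matrix.toLin'_apply]
          rwa [hfix g hg]
      rcases hterm1 (π i) ((g : Matrix ι ι F) *ᵥ v) with h3 | h3 <;> rcases hterm1 i v with h4 | h4
      · rw [h3, h4]
      · exact absurd (hiff.mp h3) (by rw [h4]; exact one_ne_zero)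
      · exact absurd (hiff.mpr h4) (by rw [h3]; exact one_ne_zero)
      · rw [h3, h4]
    show ∑ i, term i ((g : Matrix ι ι F) *ᵥ v) = ∑ i, term i v
    rw [← Equiv.sum_comp π]
    exact Finset.sum_congr rfl fun i _ => hinv i

theorem nondegQuad_of_polar (C : FCtx (RingHom.id F) (-1) f) {Q : (ι → F) → F} (hsm : ∀ (c : F) v, Q (c • v) = c ^ 2 * Q v)
    (hpol : ∀ u v, QuadraticMap.polar Q u v = f u v) : IsNondegenerateQuadraticForm Q := by
  have hS := C.sesq
  have e : QuadraticMap.polar Q = f := by
    funext u v
    exact hpol u v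
  refine ⟨hsm, ?_, ?_⟩
  · rw [e]
    exact ⟨hS.add_left, hS.smul_left, hS.add_right, fun c v x => by
      have := hS.smul_right c v x
      simpa using this⟩
  · rw [e]
    intro v hv
    exact ⟨C.ndl v hv, C.ndr v hv⟩

/-- The maximal subgroups in a decomposition into planes, at the field with two elements. -/
theorem SpMax.quad_of_two [Nonempty ι] (C : SCtx f K) (hn : 4 ≤ Fintype.card ι) (hF : Fintype.card F = 2) {t : ℕ}
    {D : Fin t → Submodule F (ι → F)} (hD : IsNondegenerateMDecomposition f 2 D) {H : Subgroup (GL ι F)} (hH : IsMaximalIn K H)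
    (hle : H ≤ decompositionStabilizer D) :
    ∃ Q : (ι → F) → F, IsNondegenerateQuadraticForm Q ∧ (∀ u v, QuadraticMap.polar Q u v = f u v) ∧ H = quadSimilarityGroup Q ⊓ K := by
  obtain ⟨Q, h1, h2, h3⟩ := Cfsg.Agent.H97.Asch.quad_of_two C.ctx C.alt hF hD (fun g hg u v => C.fix g (hH.1.le hg) u v) hle
  refine ⟨Q, nondegQuad_of_polar C.ctx h1 h2, h2, maximal_eq' hH h3 (C.not_le_quad hn ?_ h1 h2)⟩
  exact two_eq_zero_of_not_odd (by rw [hF]; decide)

end Cfsg.Agent.H97.Asch
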