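import Cfsg.Agent.Lib.H97J9

/-!
Symplectic groups over the field with three elements: tensor decompositions with a three-dimensional orthogonal factor
refine to decompositions.
-/

set_option autoImplicit false
set_option linter.unusedSectionVars false
set_option linter.style.haveILetI false

namespace Cfsg.Agent.H97.Asch

open Matrix Cfsg Cfsg.Geo
open scoped MatrixGroups commutatorElement Kronecker

variable {ι : Type} [Fintype ι] [DecidableEq ι] {F : Type*} [Field F] [Fintype F]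
  {f : (ι → F) → (ι → F) → F} {K : Subgroup (GL ι F)}

theorem iSupIndep_of_orth {σ : F →+* F} (hS : Sesq σ f) {t : ℕ} {D : Fin t → Submodule F (ι → F)}
    (hnd : ∀ i, IsNondegenerateOn f (D i)) (horth : ∀ i j, i ≠ j → AreOrthogonalFor f (D i) (D j)) : iSupIndep D := by
  rw [iSupIndep_def]
  intro i
  rw [Submodule.disjoint_def]
  intro x hx hx2
  by_contra h0
  obtain ⟨⟨z, hz, hzx⟩, -⟩ := hnd i x hx h0
  apply hzx
  let Z : Submodule F (ι → F) :=
    { carrier := {w | f z w = 0}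
      add_mem' := fun {a b} ha hb => by
        show f z (a + b) = 0
        rw [hS.add_right, ha, hb, add_zero]
      zero_mem' := hS.zero_right z
      smul_mem' := fun c a ha => by
        show f z (c • a) = 0
        rw [hS.smul_right, ha, mul_zero] }
  have hle : (⨆ j, ⨆ (_ : j ≠ i), D j) ≤ Z := by
    refine iSup₂_le fun j hj => ?_
    intro w hw
    exact horth i j (Ne.symm hj) z hz w hw
  exact hle hx2

/-- the linear map `x ↦ P (x ⊗ y)`. -/
noncomputable def tensorLineL {n₁ n₂ : ℕ} (e : ι ≃ Fin n₁ × Fin n₂) (P : GL ι F) (y : Fin n₂ → F) : (Fin n₁ → F) →ₗ[F] (ι → F) :=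
  (Matrix.toLin' (P : Matrix ι ι F)).comp ((LinearMap.funLeft F F e).comp (tvPl y))

theorem tensorLineL_apply {n₁ n₂ : ℕ} (e : ι ≃ Fin n₁ × Fin n₂) (P : GL ι F) (y : Fin n₂ → F) (x : Fin n₁ → F) :
    tensorLineL e P y x = (P : Matrix ι ι F) *ᵥ (tvP x y ∘ e) := rfl

/-- A frame of the second factor which is permuted gives a decomposition. -/
theorem tensor_frame_decomp {n₁ n₂ t : ℕ} (ht : 2 ≤ t) (hn₁ : 0 < n₁) {e : ι ≃ Fin n₁ × Fin n₂} {P : GL ι F}
    {f₁ : (Fin n₁ → F) → (Fin n₁ → F) → F} {f₂ : (Fin n₂ → F) → (Fin n₂ → F) → F}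
    (hS : Sesq (RingHom.id F) f) (hS₁ : Sesq (RingHom.id F) f₁) (hS₂ : Sesq (RingHom.id F) f₂)
    (hnd₁ : IsNondegenerateForm f₁) {c : F} (hc : c ≠ 0)
    (heq : ∀ x x' y y', f ((P : Matrix ι ι F) *ᵥ (tvP x y ∘ e)) ((P : Matrix ι ι F) *ᵥ (tvP x' y' ∘ e)) = c * (f₁ x x' * f₂ y y'))
    (y : Fin t → (Fin n₂ → F)) (hyd : ∀ j, f₂ (y j) (y j) ≠ 0) (hyo : ∀ i j, i ≠ j → f₂ (y i) (y j) = 0)
    (hys : Submodule.span F (Set.range y) = ⊤) {H : Subgroup (GL ι F)} (hle : H ≤ tensorProductSubgroup n₁ n₂ e P)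
    (hperm : ∀ g ∈ H, ∀ (a : GL (Fin n₁) F) (c' : GL (Fin n₂) F),
      (∀ x : Fin n₁ × Fin n₂ → F, (g : Matrix ι ι F) *ᵥ ((P : Matrix ι ι F) *ᵥ (x ∘ e)) =
        (P : Matrix ι ι F) *ᵥ (((a : Matrix (Fin n₁) (Fin n₁) F) ⊗ₖ (c' : Matrix (Fin n₂) (Fin n₂) F)) *ᵥ x) ∘ e) →
      ∀ j, ∃ (k : Fin t) (r : F), (c' : Matrix (Fin n₂) (Fin n₂) F) *ᵥ y j = r • y k) :
    ∃ D : Fin t → Submodule F (ι → F), IsNondegenerateMDecomposition f n₁ D ∧ H ≤ decompositionStabilizer D := by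
  classical
  have hL : ∀ j k x x', f (tensorLineL e P (y j) x) (tensorLineL e P (y k) x') = c * (f₁ x x' * f₂ (y j) (y k)) :=
    fun j k x x' => heq _ _ _ _
  have hinj : ∀ j, Function.Injective (tensorLineL e P (y j)) := by
    intro j
    rw [← LinearMap.ker_eq_bot, LinearMap.ker_eq_bot']
    intro w hw
    by_contra hw0
    obtain ⟨⟨z, hz⟩, -⟩ := hnd₁ w hw0
    have h1 := hL j j z w
    rw [hw, hS.zero_right] at h1
    exact mul_ne_zero hc (mul_ne_zero hz (hyd j)) h1.symm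
  have hdim : ∀ j, Module.finrank F (LinearMap.range (tensorLineL e P (y j))) = n₁ := by
    intro j
    rw [LinearMap.finrank_range_of_inj (hinj j)]
    simp
  have hnd : ∀ j, IsNondegenerateOn f (LinearMap.range (tensorLineL e P (y j))) := by
    rintro j _ ⟨x, rfl⟩ hx0
    have hx : x ≠ 0 := by
      rintro rfl
      exact hx0 (map_zero _)
    obtain ⟨⟨a, ha⟩, ⟨b, hb⟩⟩ := hnd₁ x hx
    refine ⟨⟨tensorLineL e P (y j) a, ⟨a, rfl⟩, ?_⟩, ⟨tensorLineL e P (y j) b, ⟨b, rfl⟩, ?_⟩⟩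
    · rw [hL]
      exact mul_ne_zero hc (mul_ne_zero ha (hyd j))
    · rw [hL]
      exact mul_ne_zero hc (mul_ne_zero hb (hyd j))
  have horth : ∀ i j, i ≠ j → AreOrthogonalFor f (LinearMap.range (tensorLineL e P (y i))) (LinearMap.range (tensorLineL e P (y j))) := by
    rintro i j hij _ ⟨a, rfl⟩ _ ⟨b, rfl⟩
    rw [hL, hyo i j hij]
    simp
  have hsup : (⨆ j, LinearMap.range (tensorLineL e P (y j))) = ⊤ := by
    rw [eq_top_iff, ← span_tv e P, Submodule.span_le]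
    rintro _ ⟨u, w, rfl⟩
    have hw : w ∈ Submodule.span F (Set.range y) := by
      rw [hys]
      exact Submodule.mem_top
    induction hw using Submodule.span_induction with
    | mem x hx =>
      obtain ⟨j, rfl⟩ := hx
      exact Submodule.mem_iSup_of_mem j ⟨u, rfl⟩
    | zero =>
      have : (P : Matrix ι ι F) *ᵥ (tvP u (0 : Fin n₂ → F) ∘ e) = 0 := by
        have e1 : tvP u (0 : Fin n₂ → F) = 0 := by
          ext z
          simp [tvP]
        rw [e1]
        have : (0 : Fin n₁ × Fin n₂ → F) ∘ e = 0 := rfl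
        rw [this, Matrix.mulVec_zero]
      rw [SetLike.mem_coe, this]
      exact Submodule.zero_mem _
    | add a b _ _ ha hb =>
      have e1 : tvP u (a + b) = tvP u a + tvP u b := by
        ext z
        simp [tvP, mul_add]
      have e2 : (P : Matrix ι ι F) *ᵥ (tvP u (a + b) ∘ e) = (P : Matrix ι ι F) *ᵥ (tvP u a ∘ e) + (P : Matrix ι ι F) *ᵥ (tvP u b ∘ e) := by
        rw [e1, ← Matrix.mulVec_add]
        rfl
      rw [SetLike.mem_coe, e2]
      exact Submodule.add_mem _ ha hb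
    | smul s a _ ha =>
      have e2 : (P : Matrix ι ι F) *ᵥ (tvP u (s • a) ∘ e) = s • (P : Matrix ι ι F) *ᵥ (tvP u a ∘ e) := by
        rw [tvP_smul_right, ← Matrix.mulVec_smul]
        rfl
      rw [SetLike.mem_coe, e2]
      exact Submodule.smul_mem _ _ ha
  refine ⟨fun j => LinearMap.range (tensorLineL e P (y j)), ⟨⟨ht, hn₁, hdim, iSupIndep_of_orth hS hnd horth, hsup⟩, hnd, horth⟩, fun g hg => ?_⟩
  obtain ⟨a, c', hact⟩ := tensor_action (hle hg)
  have hact' : ∀ j x, (g : Matrix ι ι F) *ᵥ tensorLineL e P (y j) x =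
      tensorLineL e P ((c' : Matrix (Fin n₂) (Fin n₂) F) *ᵥ y j) ((a : Matrix (Fin n₁) (Fin n₁) F) *ᵥ x) := by
    intro j x
    rw [tensorLineL_apply, hact, kron_mulVec_tvP]
    rfl
  have h1 := hperm g hg a c' hact
  choose π r hπ using h1
  have hy0 : ∀ j, y j ≠ 0 := by
    intro j h0
    apply hyd j
    rw [h0]
    exact hS₂.zero_left 0
  have hr0 : ∀ j, r j ≠ 0 := by
    intro j h0
    have h2 := hπ j
    rw [h0, zero_smul] at h2
    apply hy0 j
    apply gl_mulVec_injective c'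
    show (c' : Matrix (Fin n₂) (Fin n₂) F) *ᵥ y j = (c' : Matrix (Fin n₂) (Fin n₂) F) *ᵥ 0
    rw [h2, Matrix.mulVec_zero]
  have hinjπ : Function.Injective π := by
    intro i j hij
    by_contra hne
    have h2 : (c' : Matrix (Fin n₂) (Fin n₂) F) *ᵥ (r j • y i) = (c' : Matrix (Fin n₂) (Fin n₂) F) *ᵥ (r i • y j) := by
      rw [Matrix.mulVec_smul, Matrix.mulVec_smul, hπ, hπ, hij, smul_smul, smul_smul, mul_comm]
    have h3 := gl_mulVec_injective c' h2
    have h4 := congrArg (fun z => f₂ z (y i)) h3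
    simp only [hS₂.smul_left, hyo j i (Ne.symm hne), mul_zero] at h4
    exact mul_ne_zero (hr0 j) (hyd i) h4
  refine ⟨Equiv.ofBijective π (Finite.injective_iff_bijective.mp hinjπ), fun j => ?_⟩
  apply map_eq_of_le (by
    simp only [Equiv.ofBijective_apply]
    rw [hdim, hdim])
  rintro _ ⟨x, rfl⟩
  rw [hact', hπ]
  have e1 : tensorLineL e P (r j • y (π j)) ((a : Matrix (Fin n₁) (Fin n₁) F) *ᵥ x) =
      r j • tensorLineL e P (y (π j)) ((a : Matrix (Fin n₁) (Fin n₁) F) *ᵥ x) := by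
    simp only [tensorLineL_apply, tvP_smul_right]
    rw [← Matrix.mulVec_smul]
    rfl
  rw [e1]
  exact Submodule.smul_mem _ _ ⟨_, rfl⟩

/-- the standard form in dimension three -/
theorem one_ctx : FCtx (RingHom.id F) 1 (formOfGram ((RingHom.id F : F →+* F) : F → F) (1 : Matrix (Fin 3) (Fin 3) F)) := by
  refine ⟨formOfGram_sesq _ _, fun v hv => ?_, fun v hv => ?_, fun _ => rfl, fun u w => ?_⟩
  · obtain ⟨i, hi⟩ := Function.ne_iff.mp hv
    refine ⟨Pi.single i 1, ?_⟩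
    simpa [formOfGram, Matrix.one_apply, Pi.single_apply] using hi
  · obtain ⟨i, hi⟩ := Function.ne_iff.mp hv
    refine ⟨Pi.single i 1, ?_⟩
    simpa [formOfGram, Matrix.one_apply, Pi.single_apply] using hi
  · exact formOfGram_herm (fun _ => rfl) (fun a c => by
      simp [Matrix.one_apply, eq_comm]) u w

/-- At the field with three elements, a tensor decomposition with a three-dimensional factor refines. -/
theorem tensor_three_decomp (C : FCtx (RingHom.id F) (-1) f) (hq : Fintype.card F = 3) {m : ℕ} (hm : 0 < m) {e : ι ≃ Fin m × Fin 3} {P : GL ι F}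
    {f₁ : (Fin m → F) → (Fin m → F) → F} {f₂ : (Fin 3 → F) → (Fin 3 → F) → F}
    (h₁ : IsSymplecticForm f₁) (h₂ : IsSymmetricForm f₂) (hT : IsTensorFormStructure id f f₁ f₂ e P)
    {H : Subgroup (GL ι F)} (hfix : FFix f H) (hle : H ≤ tensorProductSubgroup m 3 e P) :
    ∃ D : Fin 3 → Submodule F (ι → F), IsNondegenerateMDecomposition f m D ∧ H ≤ decompositionStabilizer D := by
  classical
  have hS := C.sesq
  have hS₁ := sesq_of_bilinear h₁.bilinear
  have hS₂ := sesq_of_bilinear h₂.bilinear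
  have hoddq : Odd (Fintype.card F) := by rw [hq]; decide
  have h2 : (2 : F) ≠ 0 := two_ne_of_odd_card hoddq
  obtain ⟨c, hc, hcf⟩ := hT
  have hid : (id : F → F) = ((RingHom.id F : F →+* F) : F → F) := rfl
  have heq : ∀ x x' y y', f ((P : Matrix ι ι F) *ᵥ (tvP x y ∘ e)) ((P : Matrix ι ι F) *ᵥ (tvP x' y' ∘ e)) = c * (f₁ x x' * f₂ y y') := by
    intro x x' y y'
    rw [hcf, hid, form_eq_gram hS₁, form_eq_gram hS₂, ← gram_tvP]
    rfl
  -- the orthonormal frame
  have hform₂ : ∀ x y, f₂ x y = formOfGram ((RingHom.id F : F →+* F) : F → F) (gramMatrix f₂) x y := fun x y => form_eq_gram hS₂ x y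
  have hctx₂ : FCtx (RingHom.id F) 1 (formOfGram ((RingHom.id F : F →+* F) : F → F) (gramMatrix f₂)) := by
    have e1 : formOfGram ((RingHom.id F : F →+* F) : F → F) (gramMatrix f₂) = f₂ := by
      funext x y
      exact (hform₂ x y).symm
    rw [e1]
    refine ⟨hS₂, fun v hv => (h₂.nondegenerate v hv).2, fun v hv => (h₂.nondegenerate v hv).1, fun _ => rfl, fun u v => ?_⟩
    simp only [RingHom.id_apply, one_mul]
    exact h₂.symm u v
  obtain ⟨T, d, hd, hTm⟩ := sym_classify hoddq h2 (by decide) hctx₂ one_ctx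
  have hmapid : ∀ M : Matrix (Fin 3) (Fin 3) F, M.map (RingHom.id F) = M := fun M => by
    ext i j
    rfl
  have hgr : ∀ x y, f₂ ((T : Matrix (Fin 3) (Fin 3) F) *ᵥ x) ((T : Matrix (Fin 3) (Fin 3) F) *ᵥ y) =
      d * formOfGram ((RingHom.id F : F →+* F) : F → F) (1 : Matrix (Fin 3) (Fin 3) F) x y := by
    intro x y
    rw [hform₂, formOfGram_mulVec, hTm]
    simp only [formOfGram, Matrix.smul_apply, smul_eq_mul, Finset.mul_sum]
    refine Finset.sum_congr rfl fun a _ => Finset.sum_congr rfl fun b _ => ?_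
    ring
  let y : Fin 3 → (Fin 3 → F) := fun j => (T : Matrix (Fin 3) (Fin 3) F) *ᵥ Pi.single j 1
  have hyy : ∀ i j, f₂ (y i) (y j) = d * (1 : Matrix (Fin 3) (Fin 3) F) i j := by
    intro i j
    simp only [y]
    rw [hgr, formOfGram_single]
  have hys : Submodule.span F (Set.range y) = ⊤ := by
    rw [eq_top_iff]
    intro v _
    have e1 : v = (T : Matrix (Fin 3) (Fin 3) F) *ᵥ (((T⁻¹ : GL (Fin 3) F) : Matrix (Fin 3) (Fin 3) F) *ᵥ v) := by
      rw [gl_mulVec_inv]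
    have e2 : ∀ w : Fin 3 → F, w = ∑ a, w a • (Pi.single a (1 : F) : Fin 3 → F) := by
      intro w
      funext k
      simp [Finset.sum_apply, Pi.single_apply]
    rw [e1, e2 (((T⁻¹ : GL (Fin 3) F) : Matrix (Fin 3) (Fin 3) F) *ᵥ v), Matrix.mulVec_sum]
    refine Submodule.sum_mem _ fun a _ => ?_
    rw [Matrix.mulVec_smul]
    exact Submodule.smul_mem _ _ (Submodule.subset_span ⟨a, rfl⟩)
  refine tensor_frame_decomp (by norm_num) hm hS hS₁ hS₂ h₁.nondegenerate hc heq y ?_ ?_ hys hle ?_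
  · intro j
    rw [hyy, Matrix.one_apply_eq, mul_one]
    exact hd
  · intro i j hij
    rw [hyy, Matrix.one_apply_ne hij, mul_zero]
  · intro g hg a c' hact j
    -- the action is a similarity
    have hm1 : Nonempty (Fin m) := ⟨⟨0, hm⟩⟩
    obtain ⟨x₀, hx₀⟩ := exists_ne (0 : Fin m → F)
    obtain ⟨-, ⟨x₁, hx₁⟩⟩ := h₁.nondegenerate x₀ hx₀
    have hiso : ∀ u v, f₁ ((a : Matrix (Fin m) (Fin m) F) *ᵥ x₀) ((a : Matrix (Fin m) (Fin m) F) *ᵥ x₁) *
        f₂ ((c' : Matrix (Fin 3) (Fin 3) F) *ᵥ u) ((c' : Matrix (Fin 3) (Fin 3) F) *ᵥ v) = f₁ x₀ x₁ * f₂ u v := by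
      intro u v
      have h3 := hfix g hg ((P : Matrix ι ι F) *ᵥ (tvP x₀ u ∘ e)) ((P : Matrix ι ι F) *ᵥ (tvP x₁ v ∘ e))
      rw [hact, hact, kron_mulVec_tvP, kron_mulVec_tvP, heq, heq] at h3
      exact mul_left_cancel₀ hc h3
    obtain ⟨u₀, v₀, huv⟩ : ∃ u v, f₂ u v ≠ 0 := by
      refine ⟨y 0, y 0, ?_⟩
      rw [hyy, Matrix.one_apply_eq, mul_one]
      exact hd
    have hl0 : f₁ ((a : Matrix (Fin m) (Fin m) F) *ᵥ x₀) ((a : Matrix (Fin m) (Fin m) F) *ᵥ x₁) ≠ 0 := by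
      intro h0
      have h3 := hiso u₀ v₀
      rw [h0, zero_mul] at h3
      exact mul_ne_zero hx₁ huv h3.symm
    set l := f₁ ((a : Matrix (Fin m) (Fin m) F) *ᵥ x₀) ((a : Matrix (Fin m) (Fin m) F) *ᵥ x₁) with hl
    set μ := f₁ x₀ x₁ / l with hμ
    have hμ0 : μ ≠ 0 := div_ne_zero hx₁ hl0
    have hsim : ∀ u v, f₂ ((c' : Matrix (Fin 3) (Fin 3) F) *ᵥ u) ((c' : Matrix (Fin 3) (Fin 3) F) *ᵥ v) = μ * f₂ u v := by
      intro u v
      have h3 := hiso u v
      rw [hμ]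
      field_simp
      linear_combination h3
    -- the matrix in the new coordinates
    let M : GL (Fin 3) F := T⁻¹ * c' * T
    have hTM : ∀ z, (T : Matrix (Fin 3) (Fin 3) F) *ᵥ ((M : Matrix (Fin 3) (Fin 3) F) *ᵥ z) = (c' : Matrix (Fin 3) (Fin 3) F) *ᵥ ((T : Matrix (Fin 3) (Fin 3) F) *ᵥ z) := by
      intro z
      simp only [M]
      rw [gl_mulVec_mul, gl_mulVec_mul, gl_mulVec_inv]
    have hMM : (M : Matrix (Fin 3) (Fin 3) F)ᵀ * (M : Matrix (Fin 3) (Fin 3) F) = μ • 1 := by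
      ext p s
      have h3 := hsim ((T : Matrix (Fin 3) (Fin 3) F) *ᵥ Pi.single p 1) ((T : Matrix (Fin 3) (Fin 3) F) *ᵥ Pi.single s 1)
      rw [← hTM, ← hTM, hgr, hgr, formOfGram_mulVec, Matrix.mul_one, hmapid, formOfGram_single, formOfGram_single] at h3
      have h4 := mul_left_cancel₀ hd (by rw [h3, Matrix.smul_apply, smul_eq_mul]; ring : d * ((M : Matrix (Fin 3) (Fin 3) F)ᵀ * (M : Matrix (Fin 3) (Fin 3) F)) p s = d * ((μ • (1 : Matrix (Fin 3) (Fin 3) F)) p s))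
      exact h4
    have hμ1 : μ = 1 := by
      have hdet : (M : Matrix (Fin 3) (Fin 3) F).det ≠ 0 := ((Matrix.isUnit_iff_isUnit_det _).mp M.isUnit).ne_zero
      have h1 := congrArg Matrix.det hMM
      rw [Matrix.det_mul, Matrix.det_transpose, Matrix.det_smul, Matrix.det_one, mul_one, Fintype.card_fin, f3_cube hq] at h1
      have h3 : (M : Matrix (Fin 3) (Fin 3) F).det ^ 2 = 1 := f3_sq hq hdet
      rw [← h1, ← h3]
      ring
    rw [hμ1, one_smul] at hMM
    obtain ⟨s, hs0, hs⟩ := f3_column hq hMM j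
    refine ⟨s, (M : Matrix (Fin 3) (Fin 3) F) s j, ?_⟩
    simp only [y]
    rw [← hTM, ← Matrix.mulVec_smul]
    congr 1
    rw [Matrix.mulVec_single_one]
    funext z
    simp only [Matrix.col_apply, Pi.smul_apply, Pi.single_apply, smul_eq_mul]
    by_cases hz : z = s
    · subst hz
      simp
    · rw [hs z hz]
      simp [hz]

/-- The maximal subgroups in a tensor decomposition with a three-dimensional factor. -/
theorem SpMax.decomp_of_tensor_three (C : SCtx f K) (hq : Fintype.card F = 3) {m : ℕ} (hm : 2 ≤ m) {e : ι ≃ Fin m × Fin 3} {P : GL ι F}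
    {f₁ : (Fin m → F) → (Fin m → F) → F} {f₂ : (Fin 3 → F) → (Fin 3 → F) → F}
    (h₁ : IsSymplecticForm f₁) (h₂ : IsSymmetricForm f₂) (hT : IsTensorFormStructure id f f₁ f₂ e P)
    {H : Subgroup (GL ι F)} (hH : IsMaximalIn K H) (hle : H ≤ tensorProductSubgroup m 3 e P) :
    ∃ D : Fin 3 → Submodule F (ι → F), IsNondegenerateMDecomposition f m D ∧ H = decompositionStabilizer D ⊓ K := by
  obtain ⟨D, h1, h2⟩ := tensor_three_decomp C.ctx hq (by omega) h₁ h₂ hT (fun g hg u v => C.fix g (hH.1.le hg) u v) hle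
  exact ⟨D, h1, maximal_eq' hH h2 (C.not_le_decomp h1.decomp hm)⟩

end Cfsg.Agent.H97.Asch
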